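import Mathlib
import Cfsg.Agent.EqBase
import Cfsg.Agent.LibClifford2
import Cfsg.Agent.LibCharMore
import Cfsg.Agent.LibGlaub4
/-!
# Clifford theory for abelian quotients (helper15)
-/
set_option autoImplicit false
set_option linter.all false
open Cfsg CfsgLib.CharBasic CfsgLib.CharIndA CfsgLib.CharNorm CfsgLib.Clifford CfsgLib.Glaub4
open scoped ComplexConjugate
namespace CfsgLib.AbCliff
universe u
variable {G : Type u} [Group G] [Fintype G] {N : Subgroup G} [hN : N.Normal] [Fintype N]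

theorem same_mult (hab : ∀ a b : G ⧸ N, a * b = b * a) {χ ψ : G → ℂ} (hχ : IsIrrCharacter G χ) (hψ : IsIrrCharacter G ψ)
    {θ : N → ℂ} (hθ : IsIrrCharacter N θ) (h1 : classInner (fun n : N => χ n) θ ≠ 0)
    (h2 : classInner (fun n : N => ψ n) θ ≠ 0) : (fun n : N => ψ n) = fun n : N => χ n := by
  obtain ⟨l, hl⟩ := exists_linear_mul N hab hχ hψ (inner_ne_zero_of_common (isCharacter_restrict (irr_isCharacter hχ) N)
    (isCharacter_restrict (irr_isCharacter hψ) N) hθ h1 h2)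
  ext n
  rw [← hl]
  have h3 : ((n : G) : G ⧸ N) = 1 := (QuotientGroup.eq_one_iff _).2 n.2
  simp only [h3, map_one, Units.val_one, mul_one]

theorem ind_eq (hab : ∀ a b : G ⧸ N, a * b = b * a) {θ : N → ℂ} (hθ : IsIrrCharacter N θ) (hinv : ∀ g, cj hN g θ = θ) :
    ∃ (e : ℕ) (C : Finset (G → ℂ)), 0 < e ∧ (∀ χ ∈ C, IsIrrCharacter G χ ∧ (fun n : N => χ n) = (e : ℂ) • θ) ∧
      indFun N θ = (e : ℂ) • ∑ χ ∈ C, χ ∧ e ^ 2 * C.card = N.index ∧
      ∀ χ, IsIrrCharacter G χ → classInner (fun n : N => χ n) θ ≠ 0 → χ ∈ C := by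
  classical
  obtain ⟨χ₀, hχ₀, h0⟩ := exists_above N hθ
  obtain ⟨e, he⟩ := char_mult (isCharacter_restrict (irr_isCharacter hχ₀) N) (irr_isCharacter hθ)
  have he0 : (e : ℂ) ≠ 0 := by rw [← he]; exact h0
  have hres : (fun n : N => χ₀ n) = (e : ℂ) • θ := by
    rw [← he]; exact restrict_of_invariant hN hχ₀ hθ hinv h0
  let C' : Finset (IrrCharacter G) := Finset.univ.filter fun χ => classInner (fun n : N => (χ : G → ℂ) n) θ ≠ 0
  have hC' : ∀ χ ∈ C', (fun n : N => (χ : G → ℂ) n) = (e : ℂ) • θ := by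
    intro χ hχ
    rw [← hres]
    exact same_mult hab hχ₀ χ.2 hθ h0 (Finset.mem_filter.1 hχ).2
  have hind : indFun N θ = (e : ℂ) • ∑ χ ∈ C', (χ : G → ℂ) := by
    have h1 := classFun_expand (ind_classFun N θ)
    rw [Finset.smul_sum]
    conv_lhs => rw [h1]
    rw [Finset.sum_filter]
    refine Finset.sum_congr rfl fun χ _ => ?_
    rw [frobenius N θ (irr_classFun χ.2), ← CfsgLib.CharBasic.inner_conj_symm]
    split_ifs with h
    · have h2 := hC' χ (Finset.mem_filter.2 ⟨Finset.mem_univ _, h⟩)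
      rw [h2, ci_smul_l, irr_inner_self hθ, mul_one, Complex.conj_natCast]
    · rw [not_not.1 h, map_zero, zero_smul]
  have hself : classInner (indFun N θ) (indFun N θ) = N.index := by
    rw [ci_ind_self hN hθ]
    have h1 : inertia hN θ = ⊤ := by
      ext g; exact ⟨fun _ => trivial, fun _ => hinv g⟩
    rw [h1, Subgroup.card_top, inv_mul_eq_iff_eq_mul₀ (by exact_mod_cast Nat.card_pos.ne'), ← Nat.cast_mul,
      Subgroup.card_mul_index]
  have hcard : e ^ 2 * C'.card = N.index := by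
    have h1 := hself
    rw [hind, ci_smul_l, ci_smul_r, ci_sum_l] at h1
    have h2 : ∀ χ ∈ C', classInner (χ : G → ℂ) (∑ χ ∈ C', (χ : G → ℂ)) = 1 := by
      intro χ hχ
      rw [ci_sum_r, Finset.sum_eq_single χ]
      · exact irr_inner_self χ.2
      · intro ψ _ hne
        exact irr_inner_ne χ.2 ψ.2 (fun h => hne (Subtype.ext h).symm)
      · intro h; exact absurd hχ h
    rw [Finset.sum_congr rfl h2, Finset.sum_const, nsmul_eq_mul, mul_one, Complex.conj_natCast] at h1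
    have h3 : ((e ^ 2 * C'.card : ℕ) : ℂ) = (N.index : ℂ) := by
      rw [← h1]; push_cast; ring
    exact_mod_cast h3
  refine ⟨e, C'.image (Subtype.val : IrrCharacter G → (G → ℂ)), Nat.pos_of_ne_zero (by exact_mod_cast he0), ?_, ?_, ?_, ?_⟩
  · intro χ hχ
    obtain ⟨χ', h1, rfl⟩ := Finset.mem_image.1 hχ
    exact ⟨χ'.2, hC' χ' h1⟩
  · rw [hind, Finset.sum_image (fun a _ b _ h => Subtype.ext h)]
  · rw [Finset.card_image_of_injective _ Subtype.val_injective, hcard]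
  · intro χ hχ h
    exact Finset.mem_image.2 ⟨⟨χ, hχ⟩, Finset.mem_filter.2 ⟨Finset.mem_univ _, h⟩, rfl⟩

/-- The general case, through the inertia group. -/
theorem ind_eq_inertia (T : Subgroup G) [Fintype T] {θ : N → ℂ} (hθ : IsIrrCharacter N θ)
    (hT : ∀ g, g ∈ T ↔ cj hN g θ = θ) (hab : ∀ x ∈ T, ∀ y ∈ T, x * y * x⁻¹ * y⁻¹ ∈ N) :
    ∃ (e : ℕ) (C : Finset (G → ℂ)), 0 < e ∧ (∀ χ ∈ C, IsIrrCharacter G χ) ∧ e ^ 2 * C.card = N.relIndex T ∧
      indFun N θ = (e : ℂ) • ∑ χ ∈ C, χ ∧ (∀ χ ∈ C, χ 1 = (T.index : ℂ) * e * θ 1) ∧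
      ((∃ ψ : T → ℂ, IsIrrCharacter T ψ ∧ ∀ (n : N) (h : (n : G) ∈ T), ψ ⟨n, h⟩ = θ n) → e = 1) := by
  classical
  have hNT : N ≤ T := fun g hg => (hT g).2 (cj_of_mem hN hg (irr_classFun hθ))
  haveI : (N.subgroupOf T).Normal := subgroupOf_normal hN T
  haveI : Fintype (N.subgroupOf T) := Fintype.ofFinite _
  have habT : ∀ a b : T ⧸ N.subgroupOf T, a * b = b * a := by
    intro a b
    induction a using QuotientGroup.induction_on
    induction b using QuotientGroup.induction_on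
    rename_i a b
    rw [← QuotientGroup.mk_mul, ← QuotientGroup.mk_mul, QuotientGroup.eq, Subgroup.mem_subgroupOf]
    have h1 := hab (b⁻¹ : T) (b⁻¹).2 (a⁻¹ : T) (a⁻¹).2
    have h2 : (((a * b)⁻¹ * (b * a) : T) : G) = ((b⁻¹ : T) : G) * ((a⁻¹ : T) : G) * ((b⁻¹ : T) : G)⁻¹ * ((a⁻¹ : T) : G)⁻¹ := by
      push_cast; group
    rw [h2]; exact h1
  have hθ' : IsIrrCharacter (N.subgroupOf T) (toSub T θ) := (toSub_irr hNT).2 hθ
  obtain ⟨e, C, he, hC, hind, hcard, hmem⟩ := ind_eq habT hθ' (fun t => by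
    rw [cj_toSub hN, (hT t).1 t.2])
  have hresT : ∀ ψ ∈ C, resT hNT ψ = (e : ℂ) • θ := by
    intro ψ hψ
    apply toSub_inj hNT
    rw [toSub_resT]
    exact (hC ψ hψ).2
  have he0 : (e : ℂ) ≠ 0 := by exact_mod_cast he.ne'
  have hne : ∀ ψ ∈ C, classInner (resT hNT ψ) θ ≠ 0 := by
    intro ψ hψ
    rw [hresT ψ hψ, ci_smul_l, irr_inner_self hθ, mul_one]
    exact he0
  have hinj : Set.InjOn (fun ψ : T → ℂ => indFun T ψ) C := by
    intro ψ hψ ψ' hψ' h
    exact clifford_corr_inj hN hNT hθ hT (hC ψ hψ).1 (hC ψ' hψ').1 (hne ψ hψ) (hne ψ' hψ') h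
  refine ⟨e, C.image (fun ψ => indFun T ψ), he, ?_, ?_, ?_, ?_, ?_⟩
  · intro χ hχ
    obtain ⟨ψ, hψ, rfl⟩ := Finset.mem_image.1 hχ
    exact (clifford_corr hN hNT hθ hT (hC ψ hψ).1 (hne ψ hψ)).1
  · rw [Finset.card_image_of_injOn hinj, hcard]; rfl
  · rw [Finset.sum_image hinj, ← ind_trans N T hNT θ]
    have h1 : (fun x : N.subgroupOf T => θ ⟨((x : T) : G), Subgroup.mem_subgroupOf.mp x.2⟩) = toSub T θ := rfl
    rw [h1, hind, ind_smul, ind_sum]
  · intro χ hχ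
    obtain ⟨ψ, hψ, rfl⟩ := Finset.mem_image.1 hχ
    rw [ind_one]
    have h1 := congrFun (hresT ψ hψ) 1
    have h2 : ψ 1 = e * θ 1 := h1
    rw [h2]; ring
  · rintro ⟨ψ, hψ, h⟩
    have h1 : resT hNT ψ = θ := by
      ext n; exact h n (hNT n.2)
    have h2 : classInner (fun n : N.subgroupOf T => ψ n) (toSub T θ) ≠ 0 := by
      rw [← toSub_resT hNT, h1, irr_inner_self hθ']; exact one_ne_zero
    have h3 := hresT ψ (hmem ψ hψ h2)
    rw [h1] at h3
    have h4 := congrArg (fun f => classInner f θ) h3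
    simp only [ci_smul_l, irr_inner_self hθ, mul_one] at h4
    exact_mod_cast h4.symm

end CfsgLib.AbCliff
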