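import Mathlib
import Cfsg.Agent.LibH2Max
import Cfsg.Agent.LibMaxClass

/-! `|P : P'| = p ^ 2` and centralizers of order `p ^ 2`: p-group part (helper12). -/

set_option autoImplicit false
set_option linter.all false

open Subgroup
open scoped commutatorElement

namespace CfsgLib.AbP2H12

variable {P : Type*} [Group P] [Finite P] {p : ℕ} [hp : Fact p.Prime]

theorem comm_of_card (h : Nat.card P = p ^ 2) (a b : P) : a * b = b * a :=
  (IsPGroup.commGroupOfCardEqPrimeSq h).mul_comm a b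

theorem index_of_cent (hP : IsPGroup p P) (x : P) (hx : Nat.card (centralizer ({x} : Set P)) = p ^ 2) :
    (commutator P).index = p ^ 2 := by
  obtain ⟨n, hn⟩ := IsPGroup.iff_card.mp hP
  have h2 : 2 ≤ n := by
    have h1 : p ^ 2 ∣ p ^ n := by rw [← hn, ← hx]; exact card_subgroup_dvd_card _
    exact (Nat.pow_dvd_pow_iff_le_right hp.out.one_lt).mp h1
  rcases Nat.lt_or_ge n 3 with h3 | h3
  · have hn2 : n = 2 := by omega
    subst hn2
    have hc : commutator P = ⊥ := by
      rw [_root_.eq_bot_iff, commutator_def, Subgroup.commutator_le]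
      intro a _ b _
      rw [Subgroup.mem_bot, commutatorElement_eq_one_iff_mul_comm]
      exact comm_of_card hn a b
    rw [hc, index_bot, hn]
  · obtain ⟨A, hA⟩ : ∃ A, A = centralizer ({x} : Set P) := ⟨_, rfl⟩
    rw [← hA] at hx
    have hxA : x ∈ A := by
      rw [hA, mem_centralizer_singleton_iff]
    have hC : centralizer (A : Set P) = A := by
      apply le_antisymm
      · intro z hz
        rw [hA, mem_centralizer_singleton_iff]
        exact ((mem_centralizer_iff.mp hz) x hxA).symm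
      · intro z hz
        rw [mem_centralizer_iff]
        intro w hw
        exact congrArg Subtype.val (comm_of_card hx ⟨w, hw⟩ ⟨z, hz⟩)
    have hcl := CfsgLib.MaxClass.class_of_selfcent p n P hn A hx hC
    have h4 := CfsgLib.H2Max.card_lcs_max h3 hn hcl 1 le_rfl (by omega)
    rw [Subgroup.top_lowerCentralSeries_one] at h4
    have h5 := (commutator P).card_mul_index
    rw [h4, hn] at h5
    have h6 : p ^ n = p ^ (n - 1 - 1) * p ^ 2 := by rw [← pow_add]; congr 1; omega
    rw [h6] at h5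
    exact Nat.eq_of_mul_eq_mul_left (pow_pos hp.out.pos _) h5

theorem card_cent (hP : IsPGroup p P) (hna : ¬ IsMulCommutative P) (Q : Subgroup P) [hQn : Q.Normal]
    (hQi : Q.index = p) (hQc : ∀ a ∈ Q, ∀ b ∈ Q, a * b = b * a)
    (hcard : Nat.card Q = Nat.card (commutator P) * p) (y : P) (hy : y ∉ Q) :
    Nat.card (centralizer ({y} : Set P)) = p ^ 2 := by
  have htop : ∀ y : P, y ∉ Q → Q ⊔ zpowers y = ⊤ := by
    intro y hy
    have hlt : Q < Q ⊔ zpowers y := by
      refine lt_of_le_of_ne le_sup_left ?_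
      intro h1
      apply hy
      rw [h1]
      exact mem_sup_right (mem_zpowers y)
    have h2 := relIndex_mul_index hlt.le
    rw [hQi] at h2
    rcases (Nat.dvd_prime hp.out).mp (Dvd.intro_left _ h2) with h3 | h3
    · exact index_eq_one.mp h3
    · rw [h3] at h2
      have h4 : Q.relIndex (Q ⊔ zpowers y) = 1 :=
        Nat.eq_of_mul_eq_mul_right hp.out.pos (h2.trans (one_mul _).symm)
      exact absurd (relIndex_eq_one.mp h4) (not_le_of_gt hlt)
  have hcomm : ∀ y z : P, y ∉ Q → (∀ a ∈ Q, a * z = z * a) → y * z = z * y → z ∈ center P := by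
    intro y z hy h1 h2
    rw [mem_center_iff]
    have h3 : (⊤ : Subgroup P) ≤ centralizer ({z} : Set P) := by
      rw [← htop y hy]
      refine sup_le ?_ ?_
      · intro a ha
        rw [mem_centralizer_singleton_iff]
        exact h1 a ha
      · rw [zpowers_le, mem_centralizer_singleton_iff]
        exact h2
    intro g
    exact mem_centralizer_singleton_iff.mp (h3 (mem_top g))
  have hZ : center P ≤ Q := by
    intro z hz
    by_contra hzQ
    apply hna
    refine ⟨⟨fun a b => ?_⟩⟩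
    have hQz : ∀ a ∈ Q, a ∈ center P := fun a ha =>
      hcomm z a hzQ (fun b hb => hQc b hb a ha) ((mem_center_iff.mp hz a).symm)
    have h3 : (⊤ : Subgroup P) ≤ center P := by
      rw [← htop z hzQ]
      refine sup_le hQz ?_
      rw [zpowers_le]
      exact hz
    exact (mem_center_iff.mp (h3 (mem_top a)) b).symm
  have h1 := CfsgLib.MaxClass.card_abelian_normal Q hQc y (htop y hy) hZ
  rw [hcard] at h1
  have h2 : Nat.card (center P) = p := (Nat.eq_of_mul_eq_mul_left Nat.card_pos h1).symm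
  obtain ⟨C, hC⟩ : ∃ C, C = centralizer ({y} : Set P) := ⟨_, rfl⟩
  rw [← hC]
  have h3 : Q ⊓ C ≤ center P := by
    rintro z ⟨hz1, hz2⟩
    have hz3 : z ∈ C := hz2
    rw [hC, mem_centralizer_singleton_iff] at hz3
    exact hcomm y z hy (fun a ha => hQc a ha z hz1) hz3.symm
  have h4 : Nat.card ↥(Q ⊓ C) ≤ p := by rw [← h2]; exact card_le_of_le h3
  have h5 : Q.relIndex C ≤ p := by
    rw [← hQi]
    exact Nat.le_of_dvd (by rw [hQi]; exact hp.out.pos) (relIndex_dvd_index_of_normal Q C)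
  have h6 : Nat.card ↥(Q ⊓ C) * Q.relIndex C = Nat.card C := by
    have h6' := (Q.subgroupOf C).card_mul_index
    have h6'' : Nat.card ↥(Q.subgroupOf C) = Nat.card ↥(Q ⊓ C) := by
      rw [← Subgroup.inf_subgroupOf_right]
      exact Nat.card_congr (Subgroup.subgroupOfEquivOfLe inf_le_right).toEquiv
    rw [h6''] at h6'
    exact h6'
  have h7 : Nat.card C ≤ p ^ 2 := by
    rw [← h6, sq]
    exact Nat.mul_le_mul h4 h5
  obtain ⟨k, hk⟩ := IsPGroup.iff_card.mp (hP.to_subgroup C)
  have h8 : center P < C := by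
    refine lt_of_le_of_ne ?_ ?_
    · intro z hz
      rw [hC, mem_centralizer_singleton_iff]
      exact (mem_center_iff.mp hz y).symm
    · intro h9
      apply hy
      apply hZ
      rw [h9, hC, mem_centralizer_singleton_iff]
  have h9 : Nat.card (center P) < Nat.card C := by
    apply lt_of_le_of_ne (card_le_of_le h8.le)
    intro h10
    exact h8.ne (eq_of_le_of_card_ge h8.le h10.symm.le)
  rw [h2, hk] at h9
  rw [hk] at h7 ⊢
  have h10 := (Nat.pow_le_pow_iff_right hp.out.one_lt).mp h7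
  have h11 : 1 < k := by
    by_contra hlt
    have : k = 0 ∨ k = 1 := by omega
    rcases this with rfl | rfl
    · rw [pow_zero] at h9; have := hp.out.one_lt; omega
    · rw [pow_one] at h9; exact lt_irrefl _ h9
  congr 1
  omega

/-- the Frattini subgroup of a nonabelian `p`-group with `|P : P'| = p ^ 2` -/
theorem frattini_eq (hP : IsPGroup p P) (hna : ¬ IsMulCommutative P) (hi : (commutator P).index = p ^ 2) :
    frattini P = commutator P := by
  have h1 : commutator P ≤ frattini P := CfsgLib.SolvFrat.commutator_le_frattini hp.out hP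
  have h2 : (frattini P).index ∣ p ^ 2 := by rw [← hi]; exact index_dvd_of_le h1
  obtain ⟨k, hk, hki⟩ := (Nat.dvd_prime_pow hp.out).mp h2
  have hk2 : k = 2 := by
    by_contra hne
    apply hna
    have hcyc : IsCyclic (P ⧸ frattini P) := by
      have hc : Nat.card (P ⧸ frattini P) = p ^ k := hki
      have : k = 0 ∨ k = 1 := by omega
      rcases this with rfl | rfl
      · have : Subsingleton (P ⧸ frattini P) := (Nat.card_eq_one_iff_unique.mp (by simpa using hc)).1
        infer_instance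
      · exact isCyclic_of_prime_card (p := p) (by simpa using hc)
    obtain ⟨⟨g⟩, hg⟩ := hcyc
    have h3 : zpowers g ⊔ frattini P = ⊤ := by
      rw [eq_top_iff]
      intro y _
      obtain ⟨k, hk⟩ := hg (y : P ⧸ frattini P)
      have hk' : ((g ^ k : P) : P ⧸ frattini P) = y := hk
      have h3 : (g ^ k)⁻¹ * y ∈ frattini P := QuotientGroup.eq.mp hk'
      have := mul_mem (mem_sup_left (T := frattini P) (⟨k, rfl⟩ : g ^ k ∈ zpowers g))
        (mem_sup_right (S := zpowers g) h3)
      rwa [mul_inv_cancel_left] at this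
    have h4 := frattini_nongenerating h3
    have h5 : IsCyclic P := ⟨g, fun x => by
      have h5 : x ∈ zpowers g := by rw [h4]; exact mem_top x
      exact h5⟩
    exact ⟨⟨fun a b => (IsCyclic.commGroup (α := P)).mul_comm a b⟩⟩
  rw [hk2, ← hi] at hki
  have h3 := relIndex_mul_index h1
  rw [hki] at h3
  have h4 : (commutator P).relIndex (frattini P) = 1 :=
    Nat.eq_of_mul_eq_mul_right (Nat.pos_of_ne_zero FiniteIndex.index_ne_zero) (h3.trans (one_mul _).symm)
  exact le_antisymm (relIndex_eq_one.mp h4) h1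

/-- the commutator subgroup is in the kernel of an invariant hom to an abelian group -/
theorem comm_le_ker (Q : Subgroup P) [hQ : Q.Normal] (y : P) (hy : Q ⊔ zpowers y = ⊤) {A : Type*}
    [CommGroup A] (g : Q →* A) (hg : ∀ q : Q, g ⟨y * q * y⁻¹, hQ.conj_mem q q.2 y⟩ = g q) :
    commutator P ≤ g.ker.map Q.subtype := by
  have hz : ∀ k : ℤ, ∀ q : Q, g ⟨y ^ k * q * (y ^ k)⁻¹, hQ.conj_mem q q.2 _⟩ = g q := by
    intro k
    induction k with
    | zero => intro q; congr 1; apply Subtype.ext; simp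
    | succ k ih =>
      intro q
      rw [← ih q, ← hg ⟨y ^ (k : ℤ) * q * (y ^ (k : ℤ))⁻¹, hQ.conj_mem q q.2 _⟩]
      congr 1
      apply Subtype.ext
      change y ^ ((k : ℤ) + 1) * q * (y ^ ((k : ℤ) + 1))⁻¹ = y * (y ^ (k : ℤ) * q * (y ^ (k : ℤ))⁻¹) * y⁻¹
      rw [add_comm, zpow_add, zpow_one, mul_inv_rev]
      simp only [mul_assoc]
    | pred k ih =>
      intro q
      rw [← ih q, ← hg ⟨y ^ (-(k : ℤ) - 1) * q * (y ^ (-(k : ℤ) - 1))⁻¹, hQ.conj_mem q q.2 _⟩]
      congr 1
      apply Subtype.ext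
      change y * (y ^ (-(k : ℤ) - 1) * q * (y ^ (-(k : ℤ) - 1))⁻¹) * y⁻¹ = y ^ (-(k : ℤ)) * q * (y ^ (-(k : ℤ)))⁻¹
      have h1 : y ^ (-(k : ℤ)) = y * y ^ (-(k : ℤ) - 1) := by
        rw [← zpow_one_add]; congr 1; ring
      rw [h1, mul_inv_rev]
      simp only [mul_assoc]
  rw [commutator_def, Subgroup.commutator_le]
  intro a _ b _
  have hdec : ∀ a : P, ∃ q ∈ Q, ∃ k : ℤ, a = q * y ^ k := by
    intro a
    have ha : a ∈ Q ⊔ zpowers y := by rw [hy]; trivial
    rw [mem_sup_of_normal_left] at ha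
    obtain ⟨d, hd, _, ⟨k, rfl⟩, rfl⟩ := ha
    exact ⟨d, hd, k, rfl⟩
  obtain ⟨q, hq, j, rfl⟩ := hdec a
  obtain ⟨r, hr, l, rfl⟩ := hdec b
  have h1 := hz j ⟨r, hr⟩
  have h2 := hz l ⟨q, hq⟩
  refine ⟨⟨q, hq⟩ * ⟨y ^ j * r * (y ^ j)⁻¹, hQ.conj_mem r hr _⟩ *
    (⟨y ^ l * q * (y ^ l)⁻¹, hQ.conj_mem q hq _⟩)⁻¹ * (⟨r, hr⟩)⁻¹, ?_, ?_⟩
  · rw [SetLike.mem_coe, MonoidHom.mem_ker, map_mul, map_mul, map_mul, map_inv, map_inv]
    rw [show g ⟨y ^ j * r * (y ^ j)⁻¹, hQ.conj_mem r hr _⟩ = g ⟨r, hr⟩ from h1,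
      show g ⟨y ^ l * q * (y ^ l)⁻¹, hQ.conj_mem q hq _⟩ = g ⟨q, hq⟩ from h2]
    rw [mul_comm (g ⟨q, hq⟩), mul_assoc (g ⟨r, hr⟩), mul_inv_cancel, mul_one, mul_inv_cancel]
  · change q * (y ^ j * r * (y ^ j)⁻¹) * (y ^ l * q * (y ^ l)⁻¹)⁻¹ * r⁻¹ = ⁅q * y ^ j, r * y ^ l⁆
    rw [commutatorElement_def]
    have h3 : (y ^ j)⁻¹ * y ^ l = y ^ l * (y ^ j)⁻¹ := by
      rw [← zpow_neg, ← zpow_add, ← zpow_add, add_comm]
    have h4 : q * y ^ j * (r * y ^ l) * (q * y ^ j)⁻¹ * (r * y ^ l)⁻¹ =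
      q * y ^ j * r * (y ^ l * (y ^ j)⁻¹) * q⁻¹ * (y ^ l)⁻¹ * r⁻¹ := by group
    rw [h4, ← h3]
    group

theorem subgroupOf_map_subtype_self {G : Type*} [Group G] {H : Subgroup G} (K : Subgroup H) :
    (K.map H.subtype).subgroupOf H = K := by
  rw [subgroupOf, comap_map_eq_self_of_injective H.subtype_injective]

end CfsgLib.AbP2H12
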