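import Mathlib
import Cfsg.Agent.LibAbP2AH12
import Cfsg.Agent.LibUMN
import Cfsg.Agent.LibH14MinNorm
import Cfsg.Agent.LibLE4

/-! Factors of a nonabelian minimal normal subgroup (helper12). -/

set_option autoImplicit false
set_option linter.all false

open scoped commutatorElement
open Pointwise

namespace CfsgLib.AbP2H12

open Cfsg Subgroup CfsgLib.SolvMin CfsgLib.H14MinNorm

universe u

variable {G : Type u} [Group G] [Finite G] {p : ℕ} [hp : Fact p.Prime] {N T : Subgroup G}

theorem cofactor_inv (hN : N.Normal) (hT : IsFactor N T) :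
    ∀ n ∈ N, ∀ r ∈ cofactor T, n * r * n⁻¹ ∈ cofactor T := by
  intro n hn r hr
  refine Subgroup.iSup_induction (fun g : {g : G // MulAut.conj g • T ≠ T} => MulAut.conj (g : G) • T)
      (C := fun x => n * x * n⁻¹ ∈ cofactor T) hr ?_ ?_ ?_
  · intro g x hx
    exact le_iSup (fun g : {g : G // MulAut.conj g • T ≠ T} => MulAut.conj (g : G) • T) g
      ((hT.conj hN g).inv n hn x hx)
  · simp
  · intro x y hx hy
    have := (cofactor T).mul_mem hx hy
    simpa [mul_assoc] using this

theorem factor_component (hN : IsMinNormal N) (hna : ¬ IsMulCommutative N) (hT : IsFactor N T) :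
    IsComponent T := by
  have hs := factor_simple hN hT
  have hnc := factor_not_comm hN hna hT
  refine ⟨?_, ?_⟩
  · refine Subgroup.IsSubnormal.step T N hT.le hN.1.isSubnormal ?_
    constructor
    intro t ht n
    exact hT.inv n n.2 t ht
  · refine CfsgLib.Comp.quasisimple_of_surjective (MonoidHom.id T) Function.surjective_id ?_ hs
      (CfsgLib.Comp.simple_nonabelian_perfect hs hnc)
    intro x hx
    have : x = 1 := hx
    rw [this]
    exact one_mem _

/-- conjugates of a cofactor by a normalizing element -/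
theorem cofactor_conj (q : G) (hq : MulAut.conj q • T = T) : ∀ r ∈ cofactor T, q * r * q⁻¹ ∈ cofactor T := by
  intro r hr
  refine Subgroup.iSup_induction (fun g : {g : G // MulAut.conj g • T ≠ T} => MulAut.conj (g : G) • T)
      (C := fun x => q * x * q⁻¹ ∈ cofactor T) hr ?_ ?_ ?_
  · rintro ⟨g, hg⟩ x hx
    have hg' : MulAut.conj (q * g) • T ≠ T := by
      intro h
      apply hg
      rw [map_mul, mul_smul] at h
      have h2 : MulAut.conj q • (MulAut.conj g • T) = MulAut.conj q • T := by rw [h, hq]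
      exact smul_left_cancel _ h2
    refine le_iSup (fun g : {g : G // MulAut.conj g • T ≠ T} => MulAut.conj (g : G) • T) ⟨q * g, hg'⟩ ?_
    rw [mem_conj] at hx ⊢
    have e : (q * g)⁻¹ * (q * x * q⁻¹) * (q * g) = g⁻¹ * x * g := by group
    rw [e]
    exact hx
  · simp
  · intro x y hx hy
    have := (cofactor T).mul_mem hx hy
    simpa [mul_assoc] using this

theorem smul_eq_of_normalizer {q : G} (hq : q ∈ normalizer (T : Set G)) : MulAut.conj q • T = T := by
  ext x
  rw [mem_conj]
  have h1 := mem_normalizer_iff.mp (inv_mem hq) x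
  rw [inv_inv] at h1
  exact h1.symm

/-- the projection of a Sylow subgroup to a factor lies in the Sylow subgroup -/
theorem proj_mem (hN : IsMinNormal N) (hna : ¬ IsMulCommutative N) (hT : IsFactor N T) (P : Sylow p G)
    (t r : G) (ht : t ∈ T) (hr : r ∈ cofactor T) (htr : t * r ∈ (P : Subgroup G)) : t ∈ (P : Subgroup G) := by
  have hdis := factor_disjoint hN hna hT
  have hcom := commute_cofactor hN.1 hT
  obtain ⟨S, hS⟩ := CfsgLib.LE.sylow_inf_isSubnormal P (factor_component hN hna hT).1
  let D : Subgroup T :=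
    { carrier := {t | ∃ r ∈ cofactor T, (t : G) * r ∈ (P : Subgroup G)}
      one_mem' := ⟨1, one_mem _, by simp [one_mem]⟩
      mul_mem' := by
        rintro a b ⟨r, hr, har⟩ ⟨s, hs, hbs⟩
        refine ⟨r * s, mul_mem hr hs, ?_⟩
        have e : ((a * b : T) : G) * (r * s) = ((a : G) * r) * ((b : G) * s) := by
          have := hcom b b.2 r hr
          calc ((a * b : T) : G) * (r * s) = (a : G) * ((b : G) * r) * s := by
                simp only [Subgroup.coe_mul, mul_assoc]
            _ = (a : G) * (r * b) * s := by rw [this]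
            _ = _ := by simp only [mul_assoc]
        rw [e]
        exact mul_mem har hbs
      inv_mem' := by
        rintro a ⟨r, hr, har⟩
        refine ⟨r⁻¹, inv_mem hr, ?_⟩
        have e : ((a⁻¹ : T) : G) * r⁻¹ = ((a : G) * r)⁻¹ := by
          rw [hcom a a.2 r hr, mul_inv_rev]
          rfl
        rw [e]
        exact inv_mem har }
  have hDp : IsPGroup p D := by
    rintro ⟨a, r, hr, har⟩
    obtain ⟨k, hk⟩ := P.isPGroup' ⟨_, har⟩
    refine ⟨k, ?_⟩
    have hk' : ((a : G) * r) ^ p ^ k = 1 := congrArg Subtype.val hk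
    have hc : Commute (a : G) r := hcom a a.2 r hr
    rw [hc.mul_pow] at hk'
    have h0 : (a : G) ^ p ^ k ∈ cofactor T := by
      rw [eq_inv_of_mul_eq_one_left hk']
      exact inv_mem (pow_mem hr _)
    have h1 : (a : G) ^ p ^ k ∈ T ⊓ cofactor T := ⟨pow_mem a.2 _, h0⟩
    rw [hdis, mem_bot] at h1
    apply Subtype.ext
    apply Subtype.ext
    exact h1
  have hSD : (S : Subgroup T) ≤ D := by
    intro s hs
    rw [hS] at hs
    exact ⟨1, one_mem _, by rw [mul_one]; exact hs⟩
  have h1 := S.is_maximal' hDp hSD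
  have h2 : (⟨t, ht⟩ : T) ∈ D := ⟨r, hr, htr⟩
  rw [h1, hS] at h2
  exact h2

/-- if `P` normalizes no factor then `P ∩ N` is abelian -/
theorem sylow_abelian (hN : IsMinNormal N) (hna : ¬ IsMulCommutative N) (P : Sylow p G)
    (hTP : ∀ T, IsFactor N T → ¬ (P : Subgroup G) ≤ normalizer (T : Set G))
    (Q : Subgroup ↥(P : Subgroup G)) [hQn : Q.Normal] (hQ : Q = N.subgroupOf (P : Subgroup G))
    (hQi : Q.index = p) (hQc : (commutator ↥(P : Subgroup G)).relIndex Q = p) :
    ∀ a ∈ Q, ∀ b ∈ Q, a * b = b * a := by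
  have hNn := hN.1
  -- generation
  have htop : ∀ y : ↥(P : Subgroup G), y ∉ Q → Q ⊔ zpowers y = ⊤ := by
    intro y hy
    have hlt : Q < Q ⊔ zpowers y := by
      refine lt_of_le_of_ne le_sup_left ?_
      intro h1
      apply hy
      rw [h1]
      exact mem_sup_right (mem_zpowers y)
    have h2 := relIndex_mul_index hlt.le
    rw [hQi] at h2
    rcases (Nat.dvd_prime hp.out).mp (Dvd.intro_left _ h2) with h3 | h3
    · exact index_eq_one.mp h3
    · rw [h3] at h2
      have h4 : Q.relIndex (Q ⊔ zpowers y) = 1 :=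
        Nat.eq_of_mul_eq_mul_right hp.out.pos (h2.trans (one_mul _).symm)
      exact absurd (relIndex_eq_one.mp h4) (not_le_of_gt hlt)
  have hQT : ∀ T, IsFactor N T → ∀ q : ↥(P : Subgroup G), q ∈ Q → (q : G) ∈ normalizer (T : Set G) := by
    intro T hT q hq
    rw [hQ] at hq
    have hqN : (q : G) ∈ N := hq
    rw [mem_normalizer_iff]
    intro h
    constructor
    · intro hh
      exact hT.inv q hqN h hh
    · intro hh
      have := hT.inv (q : G)⁻¹ (inv_mem hqN) _ hh
      have e : (q : G)⁻¹ * ((q : G) * h * (q : G)⁻¹) * ((q : G)⁻¹)⁻¹ = h := by group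
      rwa [e] at this
  have hyT : ∀ T, IsFactor N T → ∀ y : ↥(P : Subgroup G), y ∉ Q → (y : G) ∉ normalizer (T : Set G) := by
    intro T hT y hy hyn
    apply hTP T hT
    have h1 : (⊤ : Subgroup ↥(P : Subgroup G)) ≤ (normalizer (T : Set G)).subgroupOf (P : Subgroup G) := by
      rw [← htop y hy]
      refine sup_le ?_ ?_
      · intro q hq
        exact hQT T hT q hq
      · rw [zpowers_le]
        exact hyn
    intro z hz
    exact h1 (mem_top ⟨z, hz⟩)
  have hQtop : Q ≠ ⊤ := by
    intro h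
    rw [h, index_top] at hQi
    exact hp.out.one_lt.ne hQi
  obtain ⟨y, -, hy⟩ := SetLike.exists_of_lt (lt_top_iff_ne_top.mpr hQtop)
  have hyi : ∀ i, 0 < i → i < p → y ^ i ∉ Q := by
    intro i hi0 hip h
    have h1 : y ^ p ∈ Q := by
      have h0 := Q.pow_index_mem y
      rwa [hQi] at h0
    apply hy
    have hco : Nat.Coprime i p :=
      ((Nat.Prime.coprime_iff_not_dvd hp.out).mpr (Nat.not_dvd_of_pos_of_lt hi0 hip)).symm
    have h2 : y ^ (Nat.gcd i p) ∈ Q := by
      have h3 := Nat.gcd_eq_gcd_ab i p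
      have h4 : y ^ ((Nat.gcd i p : ℕ) : ℤ) ∈ Q := by
        rw [h3, zpow_add, zpow_mul, zpow_mul]
        exact mul_mem (zpow_mem (by rw [zpow_natCast]; exact h) _) (zpow_mem (by rw [zpow_natCast]; exact h1) _)
      rw [zpow_natCast] at h4
      exact h4
    rw [hco, pow_one] at h2
    exact h2
  have hyp : y ^ p ∈ Q := by
    have h0 := Q.pow_index_mem y
    rwa [hQi] at h0
  -- main step: commutators lie in every cofactor
  have hmain : ∀ T, IsFactor N T → ∀ a ∈ Q, ∀ b ∈ Q, ((⁅a, b⁆ : ↥(P : Subgroup G)) : G) ∈ cofactor T := by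
    intro T hT
    obtain ⟨R, hR⟩ : ∃ R, R = (cofactor T).subgroupOf N := ⟨_, rfl⟩
    have hRn : R.Normal := by
      constructor
      intro r hr n
      rw [hR] at hr ⊢
      exact cofactor_inv hNn hT n n.2 r hr
    have hmemN : ∀ q : ↥(P : Subgroup G), q ∈ Q → (q : G) ∈ N := by
      intro q hq
      rw [hQ] at hq
      exact hq
    let j : ↥Q →* ↥N :=
      { toFun := fun q => ⟨((q : ↥(P : Subgroup G)) : G), hmemN q q.2⟩
        map_one' := rfl
        map_mul' := fun _ _ => rfl }
    let ψ : ↥Q →* (↥N ⧸ R) := (QuotientGroup.mk' R).comp j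
    let B : Subgroup (↥N ⧸ R) := ψ.range
    have hBp : IsPGroup p B := by
      have h1 : IsPGroup p ↥Q := (P.isPGroup').to_subgroup Q
      exact h1.of_surjective ψ.rangeRestrict ψ.rangeRestrict_surjective
    let c : ℕ → (↥Q →* ↥Q) := fun i =>
      { toFun := fun q => ⟨y ^ i * q * (y ^ i)⁻¹, hQn.conj_mem q q.2 _⟩
        map_one' := by apply Subtype.ext; simp
        map_mul' := by intro a b; apply Subtype.ext; simp [mul_assoc] }
    let F : ℕ → (↥Q →* Abelianization ↥B) := fun i =>
      (Abelianization.of.comp ψ.rangeRestrict).comp (c i)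
    let g : ↥Q →* Abelianization ↥B := ∏ i ∈ Finset.range p, F i
    have hgF : ∀ q, g q = ∏ i ∈ Finset.range p, F i q := by
      intro q
      exact MonoidHom.finsetProd_apply _ _ _
    have hF0 : ∀ q, F 0 q = Abelianization.of (ψ.rangeRestrict q) := by
      intro q
      change Abelianization.of (ψ.rangeRestrict (c 0 q)) = _
      congr 2
      apply Subtype.ext
      change y ^ 0 * (q : ↥(P : Subgroup G)) * (y ^ 0)⁻¹ = q
      simp
    have hFp : ∀ q, F p q = F 0 q := by
      intro q
      rw [hF0]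
      change Abelianization.of (ψ.rangeRestrict (c p q)) = _
      have e : c p q = ⟨y ^ p, hyp⟩ * q * (⟨y ^ p, hyp⟩)⁻¹ := rfl
      rw [e, map_mul, map_mul, map_mul, map_mul, map_inv, map_inv, mul_comm (Abelianization.of _),
        mul_inv_cancel_right]
    have hginv : ∀ q : ↥Q, g ⟨y * q * y⁻¹, hQn.conj_mem q q.2 y⟩ = g q := by
      intro q
      rw [hgF, hgF]
      have h1 : ∀ i, F i ⟨y * q * y⁻¹, hQn.conj_mem q q.2 y⟩ = F (i + 1) q := by
        intro i
        change Abelianization.of (ψ.rangeRestrict (c i _)) = Abelianization.of (ψ.rangeRestrict (c (i + 1) q))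
        congr 2
        apply Subtype.ext
        change y ^ i * (y * q * y⁻¹) * (y ^ i)⁻¹ = y ^ (i + 1) * q * (y ^ (i + 1))⁻¹
        rw [pow_succ, mul_inv_rev]
        simp only [mul_assoc]
      rw [Finset.prod_congr rfl (fun i _ => h1 i)]
      have h2 := Finset.prod_range_succ (fun i => F i q) p
      have h3 := Finset.prod_range_succ' (fun i => F i q) p
      rw [h2, hFp q] at h3
      exact (mul_right_cancel h3).symm
    have hker := comm_le_ker Q y (htop y hy) g hginv
    have hidx : g.ker.index ∣ p := by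
      have h1 : g.ker.index = (g.ker.map Q.subtype).relIndex Q := by
        rw [relIndex, CfsgLib.AbP2H12.subgroupOf_map_subtype_self]
      have h2 := relIndex_dvd_of_le_left Q hker
      rw [hQc] at h2
      rw [h1]
      exact h2
    have hsurj : Function.Surjective g := by
      intro x
      obtain ⟨b, rfl⟩ : ∃ b, Abelianization.of b = x := QuotientGroup.mk_surjective x
      obtain ⟨q, rfl⟩ := ψ.rangeRestrict_surjective b
      have hqN := hmemN q q.2
      obtain ⟨t, ht, r, hr, htr⟩ := exists_mul hN hT _ hqN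
      have htP : t ∈ (P : Subgroup G) := proj_mem hN hna hT P t r ht hr (by
        rw [← htr]; exact (q : ↥(P : Subgroup G)).2)
      have htQ : (⟨t, htP⟩ : ↥(P : Subgroup G)) ∈ Q := by
        rw [hQ]
        exact hT.le ht
      refine ⟨⟨⟨t, htP⟩, htQ⟩, ?_⟩
      rw [hgF]
      have hp1 : p = (p - 1) + 1 := by have := hp.out.pos; omega
      have hp2 : Finset.range p = Finset.range ((p - 1) + 1) := congrArg Finset.range hp1
      rw [hp2, Finset.prod_range_succ', Finset.prod_eq_one, one_mul, hF0]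
      · change Abelianization.of _ = Abelianization.of _
        congr 1
        apply Subtype.ext
        change ((⟨t, hmemN _ htQ⟩ : ↥N) : ↥N ⧸ R) = ((⟨((q : ↥(P : Subgroup G)) : G), hmemN q q.2⟩ : ↥N) : ↥N ⧸ R)
        rw [QuotientGroup.eq, hR]
        change t⁻¹ * ((q : ↥(P : Subgroup G)) : G) ∈ cofactor T
        rw [htr, inv_mul_cancel_left]
        exact hr
      · intro i hi
        rw [Finset.mem_range] at hi
        have hyi' := hyT T hT (y ^ (i + 1)) (hyi (i + 1) (by omega) (by omega))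
        have hne : MulAut.conj ((y ^ (i + 1) : ↥(P : Subgroup G)) : G) • T ≠ T := by
          intro h
          apply hyi'
          rw [mem_normalizer_iff]
          intro z
          have h2 : ((y ^ (i + 1) : ↥(P : Subgroup G)) : G) * z * ((y ^ (i + 1) : ↥(P : Subgroup G)) : G)⁻¹ ∈
            MulAut.conj ((y ^ (i + 1) : ↥(P : Subgroup G)) : G) • T ↔ z ∈ T := by
            rw [mem_conj]
            have e : ((y ^ (i + 1) : ↥(P : Subgroup G)) : G)⁻¹ *
              (((y ^ (i + 1) : ↥(P : Subgroup G)) : G) * z * ((y ^ (i + 1) : ↥(P : Subgroup G)) : G)⁻¹) *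
              ((y ^ (i + 1) : ↥(P : Subgroup G)) : G) = z := by group
            rw [e]
          rw [h] at h2
          exact h2.symm
        have hle : MulAut.conj ((y ^ (i + 1) : ↥(P : Subgroup G)) : G) • T ≤ cofactor T :=
          le_iSup (fun g : {g : G // MulAut.conj g • T ≠ T} => MulAut.conj (g : G) • T) ⟨_, hne⟩
        change Abelianization.of (ψ.rangeRestrict (c (i + 1) ⟨⟨t, htP⟩, htQ⟩)) = 1
        have e : ψ.rangeRestrict (c (i + 1) ⟨⟨t, htP⟩, htQ⟩) = 1 := by
          apply Subtype.ext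
          change ((⟨((y ^ (i + 1) * ⟨t, htP⟩ * (y ^ (i + 1))⁻¹ : ↥(P : Subgroup G)) : G), _⟩ : ↥N) : ↥N ⧸ R) = 1
          rw [QuotientGroup.eq_one_iff, hR]
          apply hle
          rw [mem_conj]
          have e2 : ((y ^ (i + 1) : ↥(P : Subgroup G)) : G)⁻¹ *
              ((y ^ (i + 1) * ⟨t, htP⟩ * (y ^ (i + 1))⁻¹ : ↥(P : Subgroup G)) : G) *
              ((y ^ (i + 1) : ↥(P : Subgroup G)) : G) = t := by
            push_cast
            group
          change ((y ^ (i + 1) : ↥(P : Subgroup G)) : G)⁻¹ *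
              ((y ^ (i + 1) * ⟨t, htP⟩ * (y ^ (i + 1))⁻¹ : ↥(P : Subgroup G)) : G) *
              ((y ^ (i + 1) : ↥(P : Subgroup G)) : G) ∈ T
          rw [e2]
          exact ht
        rw [e, map_one]
    have hcard : Nat.card (Abelianization ↥B) ∣ p := by
      rw [← Nat.card_congr (QuotientGroup.quotientKerEquivOfSurjective g hsurj).toEquiv]
      exact hidx
    have hcyc : IsCyclic (↥B ⧸ commutator ↥B) := by
      have hc : Nat.card (↥B ⧸ commutator ↥B) ∣ p := hcard
      rcases (Nat.dvd_prime hp.out).mp hc with h1 | h1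
      · have : Subsingleton (↥B ⧸ commutator ↥B) := (Nat.card_eq_one_iff_unique.mp h1).1
        infer_instance
      · exact isCyclic_of_prime_card h1
    have hBc := CfsgLib.H2Max.cyclic_of_comm_quot hBp hcyc
    intro a ha b hb
    have h1 : ψ.rangeRestrict ⟨a, ha⟩ * ψ.rangeRestrict ⟨b, hb⟩ = ψ.rangeRestrict ⟨b, hb⟩ * ψ.rangeRestrict ⟨a, ha⟩ :=
      (IsCyclic.commGroup (α := ↥B)).mul_comm _ _
    rw [← commutatorElement_eq_one_iff_mul_comm, ← map_commutatorElement] at h1
    have h2 : ψ ⁅(⟨a, ha⟩ : ↥Q), (⟨b, hb⟩ : ↥Q)⁆ = 1 := congrArg Subtype.val h1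
    have h3 : j ⁅(⟨a, ha⟩ : ↥Q), (⟨b, hb⟩ : ↥Q)⁆ ∈ R := (QuotientGroup.eq_one_iff _).mp h2
    rw [hR] at h3
    exact h3
  -- conclusion
  intro a ha b hb
  obtain ⟨T, hT⟩ := exists_factor N hN.2.1
  have hz : ((⁅a, b⁆ : ↥(P : Subgroup G)) : G) ∈ centralizer (N : Set G) := by
    obtain ⟨L, hL⟩ : ∃ L : Subgroup G, L = ⨆ g : G, MulAut.conj g • T := ⟨_, rfl⟩
    have hLC : L ≤ centralizer ({((⁅a, b⁆ : ↥(P : Subgroup G)) : G)} : Set G) := by
      rw [hL, iSup_le_iff]
      intro g x hx
      rw [mem_centralizer_singleton_iff]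
      exact commute_cofactor hNn (hT.conj hNn g) x hx _ (hmain _ (hT.conj hNn g) a ha b hb)
    have hNL : N ≤ L := by
      refine (le_sup_cofactor hN hT).trans (sup_le ?_ ?_)
      · rw [hL]
        have := le_iSup (fun g : G => MulAut.conj g • T) 1
        simpa using this
      · rw [cofactor, iSup_le_iff, hL]
        rintro ⟨g, hg⟩
        exact le_iSup (fun g : G => MulAut.conj g • T) g
    rw [mem_centralizer_iff]
    intro n hn
    exact mem_centralizer_singleton_iff.mp (hLC (hNL hn))
  have hzN : ((⁅a, b⁆ : ↥(P : Subgroup G)) : G) ∈ N := by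
    have h1 : (⁅a, b⁆ : ↥(P : Subgroup G)) ∈ Q := by
      rw [commutatorElement_def]
      exact mul_mem (mul_mem (mul_mem ha hb) (inv_mem ha)) (inv_mem hb)
    rw [hQ] at h1
    exact h1
  have hcn : (N ⊓ centralizer (N : Set G)).Normal := inferInstance
  have h5 : N ⊓ centralizer (N : Set G) = ⊥ := by
    rcases hN.2.2 _ hcn inf_le_left with h | h
    · exact h
    · exfalso
      apply hna
      rw [inf_eq_left] at h
      exact ⟨⟨fun a b => Subtype.ext ((mem_centralizer_iff.mp (h b.2)) a a.2)⟩⟩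
  have h6 : ((⁅a, b⁆ : ↥(P : Subgroup G)) : G) ∈ N ⊓ centralizer (N : Set G) := ⟨hzN, hz⟩
  rw [h5, mem_bot] at h6
  have h7 : (⁅a, b⁆ : ↥(P : Subgroup G)) = 1 := Subtype.ext h6
  exact commutatorElement_eq_one_iff_mul_comm.mp h7

end CfsgLib.AbP2H12
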