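import Mathlib
import Cfsg.Agent.LibAbP2BH12

/-! `|P : P'| = p ^ 2` and centralizers of `p`-elements (helper12). -/

set_option autoImplicit false
set_option linter.all false

open scoped commutatorElement
open Pointwise

namespace CfsgLib.AbP2H12

open Cfsg Subgroup CfsgLib.SolvMin CfsgLib.H14MinNorm

universe u

variable {G : Type u} [Group G] [Finite G] {p : ℕ} [hp : Fact p.Prime]

/-- a `p`-element is conjugate into `P` so that its centralizer in `P` is Sylow in the centralizer -/
theorem exists_conj (P : Sylow p G) (x : G) (hx : ∃ k : ℕ, orderOf x = p ^ k) :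
    ∃ (g : G) (h : g * x * g⁻¹ ∈ (P : Subgroup G)),
      Nat.card (centralizer ({(⟨g * x * g⁻¹, h⟩ : ↥(P : Subgroup G))} : Set ↥(P : Subgroup G))) =
        p ^ (Nat.card (centralizer ({x} : Set G))).factorization p := by
  obtain ⟨C, hC⟩ : ∃ C, C = centralizer ({x} : Set G) := ⟨_, rfl⟩
  rw [← hC]
  have hxC : x ∈ C := by rw [hC, mem_centralizer_singleton_iff]
  have hCm : ∀ z ∈ C, z * x = x * z := by
    intro z hz
    rw [hC, mem_centralizer_singleton_iff] at hz
    exact hz
  obtain ⟨k, hk⟩ := hx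
  have hz : IsPGroup p (zpowers (⟨x, hxC⟩ : C)) := by
    apply IsPGroup.of_card (n := k)
    rw [Nat.card_zpowers, ← hk, ← Subgroup.orderOf_coe]
  obtain ⟨R, hR⟩ := hz.exists_le_sylow
  have hxR : (⟨x, hxC⟩ : C) ∈ (R : Subgroup C) := hR (mem_zpowers _)
  obtain ⟨P2, hP2⟩ := (R.isPGroup'.map C.subtype).exists_le_sylow
  obtain ⟨g, hg⟩ := MulAction.exists_smul_eq G P2 P
  have hconj : ∀ z ∈ (P2 : Subgroup G), g * z * g⁻¹ ∈ (P : Subgroup G) := by
    intro z hz
    rw [← hg]
    exact ⟨z, hz, rfl⟩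
  have hgx : g * x * g⁻¹ ∈ (P : Subgroup G) := hconj x (hP2 ⟨_, hxR, rfl⟩)
  refine ⟨g, hgx, ?_⟩
  obtain ⟨D, hD⟩ : ∃ D, D = centralizer ({(⟨g * x * g⁻¹, hgx⟩ : ↥(P : Subgroup G))} :
    Set ↥(P : Subgroup G)) := ⟨_, rfl⟩
  rw [← hD]
  have hmem : ∀ z : ↥(P : Subgroup G), z ∈ D ↔ (z : G) * (g * x * g⁻¹) = (g * x * g⁻¹) * z := by
    intro z
    rw [hD, mem_centralizer_singleton_iff]
    constructor
    · intro h; exact congrArg Subtype.val h
    · intro h; exact Subtype.ext h
  let f : ↥(R : Subgroup C) → ↥D := fun r =>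
    ⟨⟨g * ((r : C) : G) * g⁻¹, hconj _ (hP2 ⟨_, r.2, rfl⟩)⟩, by
    rw [hmem]
    have h1 : ((r : C) : G) * x = x * (r : C) := hCm _ (r : C).2
    change g * ((r : C) : G) * g⁻¹ * (g * x * g⁻¹) = g * x * g⁻¹ * (g * ((r : C) : G) * g⁻¹)
    calc _ = g * (((r : C) : G) * x) * g⁻¹ := by group
      _ = g * (x * (r : C)) * g⁻¹ := by rw [h1]
      _ = _ := by group⟩
  have hf : Function.Injective f := by
    intro a b hab
    have h1 : g * ((a : C) : G) * g⁻¹ = g * ((b : C) : G) * g⁻¹ :=
      congrArg (fun z : ↥D => ((z : ↥(P : Subgroup G)) : G)) hab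
    exact Subtype.ext (Subtype.ext (mul_left_cancel (mul_right_cancel h1)))
  have h1 : Nat.card ↥(R : Subgroup C) ≤ Nat.card ↥D := Nat.card_le_card_of_injective f hf
  let e : ↥D →* ↥C :=
    { toFun := fun d => ⟨g⁻¹ * ((d : ↥(P : Subgroup G)) : G) * g, by
        rw [hC, mem_centralizer_singleton_iff]
        have h2 := (hmem d).mp d.2
        calc g⁻¹ * ((d : ↥(P : Subgroup G)) : G) * g * x =
            g⁻¹ * (((d : ↥(P : Subgroup G)) : G) * (g * x * g⁻¹)) * g := by group
          _ = g⁻¹ * ((g * x * g⁻¹) * d) * g := by rw [h2]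
          _ = _ := by group⟩
      map_one' := by apply Subtype.ext; simp
      map_mul' := by intro a b; apply Subtype.ext; simp [mul_assoc] }
  have he : Function.Injective e := by
    intro a b hab
    have h1 : g⁻¹ * ((a : ↥(P : Subgroup G)) : G) * g = g⁻¹ * ((b : ↥(P : Subgroup G)) : G) * g :=
      congrArg Subtype.val hab
    exact Subtype.ext (Subtype.ext (mul_left_cancel (mul_right_cancel h1)))
  have h2 : Nat.card D ∣ Nat.card C := Subgroup.card_dvd_of_injective e he
  obtain ⟨m, hm⟩ := IsPGroup.iff_card.mp ((P.isPGroup').to_subgroup D)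
  rw [Sylow.card_eq_multiplicity] at h1
  rw [hm] at h1 h2 ⊢
  have h3 := (Nat.pow_le_pow_iff_right hp.out.one_lt).mp h1
  have h4 : m ≤ (Nat.card C).factorization p :=
    (hp.out.pow_dvd_iff_le_factorization Nat.card_pos.ne').mp h2
  congr 1
  omega

theorem relIndex_eq (P : Subgroup G) : (⁅P, P⁆).relIndex P = (commutator ↥P).index := by
  rw [← map_subtype_commutator, relIndex, subgroupOf_map_subtype_self]

/-- no factor is normalized by `P` -/
theorem not_le_normalizer (P : Sylow p G) (hna : ¬ IsMulCommutative (P : Subgroup G))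
    (hgen : (frattini ↥(P : Subgroup G)).index = p ^ 2) (hcore : pPrimeCore p G = ⊥)
    (hfrat : ((frattini ↥(P : Subgroup G)).map (P : Subgroup G).subtype).normalCore = ⊥)
    (hnas : ¬ ∃ S : Subgroup G, S.Normal ∧ IsSimpleGroup S ∧ ¬ IsMulCommutative S ∧
      centralizer (S : Set G) = ⊥)
    {N : Subgroup G} (hN : IsMinNormal N) (hNc : ¬ IsMulCommutative N)
    (hNmin : ∀ K : Subgroup G, K.Normal → K ≠ ⊥ → N ≤ K) (T : Subgroup G) (hT : IsFactor N T) :
    ¬ (P : Subgroup G) ≤ normalizer (T : Set G) := by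
  intro hPT
  have hNn := hN.1
  by_cases hall : ∀ g : G, MulAut.conj g • T = T
  · have hTn : T.Normal := by
      constructor
      intro t ht g
      rw [← hall g, mem_conj]
      have e : g⁻¹ * (g * t * g⁻¹) * g = t := by group
      rw [e]
      exact ht
    have hNT : T = N := le_antisymm hT.le (hNmin T hTn hT.ne)
    apply hnas
    refine ⟨N, hNn, ?_, hNc, ?_⟩
    · rw [← hNT]
      have := factor_simple hN hT
      exact this
    · by_contra hne
      have h1 : N ≤ centralizer (N : Set G) := hNmin _ inferInstance hne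
      apply hNc
      exact ⟨⟨fun a b => Subtype.ext ((mem_centralizer_iff.mp (h1 b.2)) a a.2)⟩⟩
  · push Not at hall
    obtain ⟨g, hg⟩ := hall
    have hK : IsFactor N (MulAut.conj g • T) := hT.conj hNn g
    have hKle : MulAut.conj g • T ≤ cofactor T :=
      le_iSup (fun g : {g : G // MulAut.conj g • T ≠ T} => MulAut.conj (g : G) • T) ⟨g, hg⟩
    have hPB : (P : Subgroup G) ≤ normalizer ((cofactor T : Subgroup G) : Set G) := by
      intro q hq
      rw [mem_normalizer_iff]
      intro h
      constructor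
      · intro hh
        exact cofactor_conj q (smul_eq_of_normalizer (hPT hq)) h hh
      · intro hh
        have := cofactor_conj q⁻¹ (smul_eq_of_normalizer (inv_mem (hPT hq))) _ hh
        have e : q⁻¹ * (q * h * q⁻¹) * (q⁻¹)⁻¹ = h := by group
        rwa [e] at this
    exact CfsgLib.UMN.absurd_two P hna hgen T (cofactor T) hPT hPB
      (CfsgLib.UMN.claimA' P hcore T T hPT (factor_component hN hNc hT) le_rfl)
      (CfsgLib.UMN.claimA' P hcore (cofactor T) _ hPB (factor_component hN hNc hK) hKle)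
      (factor_disjoint hN hNc hT)

theorem main (P : Sylow p G) (hcore : pPrimeCore p G = ⊥)
    (hcore' : (⁅(P : Subgroup G), (P : Subgroup G)⁆).normalCore = ⊥)
    (hnas : ¬ ∃ S : Subgroup G, S.Normal ∧ IsSimpleGroup S ∧ ¬ IsMulCommutative S ∧
      centralizer (S : Set G) = ⊥) :
    (⁅(P : Subgroup G), (P : Subgroup G)⁆).relIndex (P : Subgroup G) = p ^ 2 ↔
      ∃ x : G, (∃ k : ℕ, orderOf x = p ^ k) ∧
        (Nat.card (centralizer ({x} : Set G))).factorization p = 2 := by
  rw [relIndex_eq]
  constructor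
  swap
  · rintro ⟨x, hx, hfac⟩
    obtain ⟨g, h, hc⟩ := exists_conj P x hx
    rw [hfac] at hc
    exact index_of_cent P.isPGroup' _ hc
  intro hi
  by_cases hna : IsMulCommutative ↥(P : Subgroup G)
  · refine ⟨1, ⟨0, by simp⟩, ?_⟩
    have hc : commutator ↥(P : Subgroup G) = ⊥ := by
      rw [_root_.eq_bot_iff, commutator_def, Subgroup.commutator_le]
      intro a _ b _
      rw [Subgroup.mem_bot, commutatorElement_eq_one_iff_mul_comm]
      exact hna.is_comm.comm a b
    rw [hc, index_bot, Sylow.card_eq_multiplicity] at hi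
    have h2 := Nat.pow_right_injective hp.out.two_le hi
    have h1 : centralizer ({1} : Set G) = ⊤ := by
      ext z; simp [mem_centralizer_singleton_iff]
    rw [h1, card_top]
    exact h2
  · have hfr := frattini_eq P.isPGroup' hna hi
    have hgen : (frattini ↥(P : Subgroup G)).index = p ^ 2 := by rw [hfr]; exact hi
    have hfrat : ((frattini ↥(P : Subgroup G)).map (P : Subgroup G).subtype).normalCore = ⊥ := by
      rw [hfr, map_subtype_commutator]; exact hcore'
    obtain ⟨N, hNn, hN1, hNmin⟩ := CfsgLib.UMN.exists_N P hna hgen hcore hfrat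
    obtain ⟨Q, hQ⟩ : ∃ Q, Q = N.subgroupOf (P : Subgroup G) := ⟨_, rfl⟩
    have hQn : Q.Normal := by rw [hQ]; infer_instance
    have hcl := CfsgLib.UMN.claimA P hcore hfrat N hN1
    have hQnf := CfsgLib.UMN.not_le_of_not_inf_le P N hcl
    rw [← hQ] at hQnf
    obtain ⟨x, hx⟩ := CfsgLib.UMN.exists_gen hgen Q hQnf
    have hPQ := CfsgLib.UMN.commutator_le Q x hx
    have hidx := relIndex_mul_index hPQ
    rw [hi] at hidx
    have hne1 : (commutator ↥(P : Subgroup G)).relIndex Q ≠ 1 := by
      intro h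
      rw [relIndex_eq_one] at h
      exact hQnf (by rw [hfr]; exact h)
    have hNm : IsMinNormal N := by
      refine ⟨hNn, hN1, fun K hK hKN => ?_⟩
      by_cases h : K = ⊥
      · exact Or.inl h
      · exact Or.inr (le_antisymm hKN (hNmin K hK h))
    have hpp : Q ≠ ⊤ → (commutator ↥(P : Subgroup G)).relIndex Q = p ∧ Q.index = p := by
      intro hQt
      exact (hp.out.mul_eq_prime_sq_iff hne1 (fun h => hQt (index_eq_one.mp h))).mp hidx
    have hmemN : ∀ q : ↥(P : Subgroup G), q ∈ Q → (q : G) ∈ N := by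
      intro q hq
      rw [hQ] at hq
      exact hq
    have hkey : ((commutator ↥(P : Subgroup G)).relIndex Q = p ∧ Q.index = p) ∧
        ∀ a ∈ Q, ∀ b ∈ Q, a * b = b * a := by
      by_cases hNc : IsMulCommutative N
      · have hab : ∀ a ∈ Q, ∀ b ∈ Q, a * b = b * a := by
          intro a ha b hb
          have h1 : (a : G) * b = b * a :=
            congrArg (fun z : ↥N => (z : G)) (hNc.is_comm.comm (⟨(a : G), hmemN a ha⟩ : N) ⟨(b : G), hmemN b hb⟩)
          exact Subtype.ext h1
        refine ⟨hpp ?_, hab⟩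
        intro h
        apply hna
        exact ⟨⟨fun a b => hab a (by rw [h]; trivial) b (by rw [h]; trivial)⟩⟩
      · have hTP := not_le_normalizer P hna hgen hcore hfrat hnas hNm hNc hNmin
        have hQt : Q ≠ ⊤ := by
          intro h
          obtain ⟨T, hT⟩ := exists_factor N hN1
          apply hTP T hT
          intro z hz
          have hzN : z ∈ N := hmemN ⟨z, hz⟩ (by rw [h]; trivial)
          rw [mem_normalizer_iff]
          intro t
          constructor
          · intro hh
            exact hT.inv z hzN t hh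
          · intro hh
            have := hT.inv z⁻¹ (inv_mem hzN) _ hh
            have e : z⁻¹ * (z * t * z⁻¹) * (z⁻¹)⁻¹ = t := by group
            rwa [e] at this
        have h1 := hpp hQt
        exact ⟨h1, sylow_abelian hNm hNc P hTP Q hQ h1.2 h1.1⟩
    obtain ⟨⟨hr, hQi⟩, hab⟩ := hkey
    have hcard : Nat.card Q = Nat.card (commutator ↥(P : Subgroup G)) * p := by
      have h1 := ((commutator ↥(P : Subgroup G)).subgroupOf Q).card_mul_index
      have h2 : ((commutator ↥(P : Subgroup G)).subgroupOf Q).index = p := hr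
      rw [h2, Nat.card_congr (subgroupOfEquivOfLe hPQ).toEquiv] at h1
      exact h1.symm
    have hQt : Q ≠ ⊤ := by
      intro h
      rw [h, index_top] at hQi
      exact hp.out.one_lt.ne hQi
    obtain ⟨y, -, hy⟩ := SetLike.exists_of_lt (lt_top_iff_ne_top.mpr hQt)
    have hyo : ∃ k : ℕ, orderOf (y : G) = p ^ k := by
      obtain ⟨k, hk⟩ := IsPGroup.iff_orderOf.mp P.isPGroup' y
      exact ⟨k, by rw [Subgroup.orderOf_coe]; exact hk⟩
    obtain ⟨g, h, hc⟩ := exists_conj P (y : G) hyo
    have hy' : (⟨g * y * g⁻¹, h⟩ : ↥(P : Subgroup G)) ∉ Q := by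
      intro h1
      apply hy
      have h2 := hmemN _ h1
      have h3 := hNn.conj_mem _ h2 g⁻¹
      have e : g⁻¹ * (g * (y : G) * g⁻¹) * (g⁻¹)⁻¹ = y := by group
      rw [hQ]
      change (y : G) ∈ N
      rw [← e]
      exact h3
    rw [card_cent P.isPGroup' hna Q hQi hab hcard _ hy'] at hc
    exact ⟨y, hyo, (Nat.pow_right_injective hp.out.two_le hc).symm⟩

end CfsgLib.AbP2H12
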