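import Mathlib
import Cfsg.Prelude.Def_Sporadic_a

set_option autoImplicit false

namespace CfsgLib.AbsGolayH28

abbrev W : Type := Fin 24 → ZMod 2

def supp (u : W) : Finset (Fin 24) := Finset.univ.filter fun i => u i ≠ 0

lemma norm_eq (u : W) : hammingNorm u = (supp u).card := rfl

lemma zmod2_cases (a : ZMod 2) : a = 0 ∨ a = 1 := by
  revert a; decide

/-- indicator word -/
def ind (s : Finset (Fin 24)) : W := fun i => if i ∈ s then 1 else 0

lemma supp_ind (s : Finset (Fin 24)) : supp (ind s) = s := by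
  ext i; simp [supp, ind]

lemma ind_supp (u : W) : ind (supp u) = u := by
  funext i
  rcases zmod2_cases (u i) with h | h <;> simp [supp, ind, h]

lemma supp_inj {u v : W} (h : supp u = supp v) : u = v := by
  rw [← ind_supp u, ← ind_supp v, h]

def eqv : W ≃ Finset (Fin 24) where
  toFun := supp
  invFun := ind
  left_inv := ind_supp
  right_inv := supp_ind

lemma mem_supp {u : W} {i : Fin 24} : i ∈ supp u ↔ u i ≠ 0 := by simp [supp]

lemma mem_supp' {u : W} {i : Fin 24} : i ∈ supp u ↔ u i = 1 := by
  rw [mem_supp]; rcases zmod2_cases (u i) with h | h <;> simp [h]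

lemma supp_sub (u v : W) : supp (u - v) = symmDiff (supp u) (supp v) := by
  ext i
  rw [mem_supp', Finset.mem_symmDiff, mem_supp', mem_supp', Pi.sub_apply]
  rcases zmod2_cases (u i) with h | h <;> rcases zmod2_cases (v i) with h' | h' <;> simp [h, h']

lemma supp_add (u v : W) : supp (u + v) = symmDiff (supp u) (supp v) := by
  ext i
  rw [mem_supp', Finset.mem_symmDiff, mem_supp', mem_supp', Pi.add_apply]
  rcases zmod2_cases (u i) with h | h <;> rcases zmod2_cases (v i) with h' | h' <;> rw [h, h'] <;> decide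

lemma card_symmDiff' (s t : Finset (Fin 24)) : (symmDiff s t).card + 2 * (s ∩ t).card = s.card + t.card := by
  have h1 : symmDiff s t = (s \ t) ∪ (t \ s) := rfl
  have hd : Disjoint (s \ t) (t \ s) := by
    rw [Finset.disjoint_left]; intro x hx hy
    rw [Finset.mem_sdiff] at hx hy; exact hx.2 hy.1
  rw [h1, Finset.card_union_of_disjoint hd]
  have h2 := Finset.card_sdiff_add_card_inter s t
  have h3 := Finset.card_sdiff_add_card_inter t s
  rw [Finset.inter_comm t s] at h3
  omega

/-- weight function used in the packing count -/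
def om (n : ℕ) : ℕ := if n ≤ 3 then 6 else if n = 4 then 1 else 0

lemma total_om : ∑ u : W, om (hammingNorm u) = 24576 := by
  have h1 : ∑ u : W, om (hammingNorm u) = ∑ s : Finset (Fin 24), om s.card :=
    Fintype.sum_equiv eqv _ _ (fun u => by rfl)
  rw [h1]
  have h2 : (Finset.univ : Finset (Finset (Fin 24))) = (Finset.univ : Finset (Fin 24)).powerset := by
    simp
  rw [h2, Finset.sum_powerset_apply_card (fun n => om n)]
  simp only [Finset.card_univ, Fintype.card_fin]
  decide

section
variable (C : Submodule (ZMod 2) W)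

/-- the short words of the coset of w -/
noncomputable def sh (w : W) : Finset W := by
  classical exact Finset.univ.filter fun u => u - w ∈ C ∧ hammingNorm u ≤ 4

lemma mem_sh {w u : W} : u ∈ sh C w ↔ u - w ∈ C ∧ hammingNorm u ≤ 4 := by
  classical simp [sh]

variable {C} (hmin : ∀ w ∈ C, w ≠ 0 → 8 ≤ hammingNorm w)
include hmin

lemma pair_disj {u v : W} (huv : u - v ∈ C) (hne : u ≠ v) (hu : hammingNorm u ≤ 4) (hv : hammingNorm v ≤ 4) :
    hammingNorm u = 4 ∧ hammingNorm v = 4 ∧ Disjoint (supp u) (supp v) := by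
  have h8 := hmin _ huv (sub_ne_zero.mpr hne)
  rw [norm_eq, supp_sub] at h8
  have hc := card_symmDiff' (supp u) (supp v)
  rw [norm_eq] at hu hv
  rw [norm_eq, norm_eq]
  refine ⟨by omega, by omega, ?_⟩
  rw [Finset.disjoint_iff_inter_eq_empty, ← Finset.card_eq_zero]
  omega

lemma sh_sum_le (w : W) : ∑ u ∈ sh C w, om (hammingNorm u) ≤ 6 := by
  classical
  by_cases h : ∃ u ∈ sh C w, hammingNorm u ≤ 3
  · obtain ⟨u, hu, h3⟩ := h
    have : sh C w = {u} := by
      apply Finset.eq_singleton_iff_unique_mem.mpr ⟨hu, fun v hv => ?_⟩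
      by_contra hne
      rw [mem_sh] at hu hv
      have hd : u - v ∈ C := by
        have := C.sub_mem hu.1 hv.1
        simpa using this
      have := (pair_disj hmin hd (Ne.symm hne) hu.2 hv.2).1
      omega
    rw [this, Finset.sum_singleton]
    simp [om, h3]
  · push Not at h
    have h4 : ∀ u ∈ sh C w, hammingNorm u = 4 := fun u hu => by
      have h1 := h u hu
      have h2 := (mem_sh C).mp hu
      omega
    have hs : ∑ u ∈ sh C w, om (hammingNorm u) = (sh C w).card := by
      rw [Finset.card_eq_sum_ones]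
      exact Finset.sum_congr rfl fun u hu => by simp [om, h4 u hu]
    rw [hs]
    -- disjoint supports
    have hdis : ∀ u ∈ sh C w, ∀ v ∈ sh C w, u ≠ v → Disjoint (supp u) (supp v) := by
      intro u hu v hv hne
      rw [mem_sh] at hu hv
      have hd : u - v ∈ C := by
        have := C.sub_mem hu.1 hv.1
        simpa using this
      exact (pair_disj hmin hd hne hu.2 hv.2).2.2
    have hcard : ((sh C w).biUnion supp).card = ∑ u ∈ sh C w, (supp u).card :=
      Finset.card_biUnion hdis
    have h5 : ∑ u ∈ sh C w, (supp u).card = 4 * (sh C w).card := by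
      rw [Finset.sum_congr rfl (fun u hu => (show (supp u).card = 4 from h4 u hu))]
      simp [mul_comm]
    have h6 : ((sh C w).biUnion supp).card ≤ 24 := by
      have := Finset.card_le_univ ((sh C w).biUnion supp)
      simpa using this
    omega

omit hmin in
lemma card_quot (hdim : Module.finrank (ZMod 2) C = 12) : Nat.card (W ⧸ C) = 4096 := by
  have h1 : Module.finrank (ZMod 2) (W ⧸ C) + Module.finrank (ZMod 2) C = Module.finrank (ZMod 2) W :=
    Submodule.finrank_quotient_add_finrank C
  have h2 : Module.finrank (ZMod 2) W = 24 := by simp [W]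
  have h3 : Module.finrank (ZMod 2) (W ⧸ C) = 12 := by omega
  have h4 := Module.natCard_eq_pow_finrank (K := ZMod 2) (V := W ⧸ C)
  rw [h4, h3]; simp

lemma sh_sum_eq (hdim : Module.finrank (ZMod 2) C = 12) (w : W) :
    ∑ u ∈ sh C w, om (hammingNorm u) = 6 := by
  classical
  have : Finite (W ⧸ C) := inferInstance
  let _ : Fintype (W ⧸ C) := Fintype.ofFinite _
  have hfib : ∑ q : W ⧸ C, ∑ u ∈ Finset.univ.filter (fun u : W => C.mkQ u = q), om (hammingNorm u) = 24576 := by
    rw [← total_om]
    exact Finset.sum_fiberwise Finset.univ (fun u : W => C.mkQ u) (fun u => om (hammingNorm u))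
  have hq : ∀ w : W, ∑ u ∈ Finset.univ.filter (fun u : W => C.mkQ u = C.mkQ w), om (hammingNorm u)
      = ∑ u ∈ sh C w, om (hammingNorm u) := by
    intro w
    symm
    apply Finset.sum_subset_zero_on_sdiff
    · intro u hu
      rw [mem_sh] at hu
      rw [Finset.mem_filter]
      refine ⟨Finset.mem_univ _, ?_⟩
      exact (Submodule.Quotient.eq C).mpr hu.1
    · intro u hu
      rw [Finset.mem_sdiff, Finset.mem_filter, mem_sh] at hu
      have h1 : u - w ∈ C := (Submodule.Quotient.eq C).mp hu.1.2
      have h2 : ¬ hammingNorm u ≤ 4 := fun h => hu.2 ⟨h1, h⟩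
      simp only [om]
      rw [if_neg (by omega), if_neg (by omega)]
    · intro u _; rfl
  have hle : ∀ q : W ⧸ C, ∑ u ∈ Finset.univ.filter (fun u : W => C.mkQ u = q), om (hammingNorm u) ≤ 6 := by
    intro q
    obtain ⟨w, rfl⟩ := Submodule.mkQ_surjective C q
    rw [hq w]
    exact sh_sum_le hmin w
  have hcard : Fintype.card (W ⧸ C) = 4096 := by
    rw [← Nat.card_eq_fintype_card]; exact card_quot hdim
  have htot : ∑ q : W ⧸ C, (6 : ℕ) = 24576 := by
    rw [Finset.sum_const, Finset.card_univ, hcard]; rfl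
  have := (Finset.sum_eq_sum_iff_of_le (fun q _ => hle q)).mp (hfib.trans htot.symm) (C.mkQ w) (Finset.mem_univ _)
  rw [← hq w]; exact this

/-- the dichotomy for cosets -/
lemma dichotomy (hdim : Module.finrank (ZMod 2) C = 12) (w : W) :
    (∃ u : W, sh C w = {u} ∧ hammingNorm u ≤ 3) ∨
      ((sh C w).card = 6 ∧ ∀ u ∈ sh C w, hammingNorm u = 4) := by
  classical
  have h6 := sh_sum_eq hmin hdim w
  by_cases h : ∃ u ∈ sh C w, hammingNorm u ≤ 3
  · obtain ⟨u, hu, h3⟩ := h
    left
    refine ⟨u, ?_, h3⟩
    apply Finset.eq_singleton_iff_unique_mem.mpr ⟨hu, fun v hv => ?_⟩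
    by_contra hne
    rw [mem_sh] at hu hv
    have hd : u - v ∈ C := by
      have := C.sub_mem hu.1 hv.1
      simpa using this
    have := (pair_disj hmin hd (Ne.symm hne) hu.2 hv.2).1
    omega
  · right
    push Not at h
    have h4 : ∀ u ∈ sh C w, hammingNorm u = 4 := fun u hu => by
      have h1 := h u hu
      have h2 := (mem_sh C).mp hu
      omega
    have hs : ∑ u ∈ sh C w, om (hammingNorm u) = (sh C w).card := by
      rw [Finset.card_eq_sum_ones]
      exact Finset.sum_congr rfl fun u hu => by simp [om, h4 u hu]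
    exact ⟨by omega, h4⟩

lemma sh_disj {w u v : W} (hu : u ∈ sh C w) (hv : v ∈ sh C w) (hne : u ≠ v) : Disjoint (supp u) (supp v) := by
  rw [mem_sh] at hu hv
  have hd : u - v ∈ C := by
    have := C.sub_mem hu.1 hv.1
    simpa using this
  exact (pair_disj hmin hd hne hu.2 hv.2).2.2

/-- every point lies in a tetrad of the sextet of a 4-set -/
lemma tetrad_cover (hdim : Module.finrank (ZMod 2) C = 12) (w : W) (hw : hammingNorm w = 4) (x : Fin 24) :
    ∃ u ∈ sh C w, x ∈ supp u := by
  classical
  have hws : w ∈ sh C w := by rw [mem_sh]; simp [hw]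
  rcases dichotomy hmin hdim w with ⟨u, hu, h3⟩ | ⟨hc, h4⟩
  · rw [hu, Finset.mem_singleton] at hws
    subst hws; omega
  · have hcard : ((sh C w).biUnion supp).card = ∑ u ∈ sh C w, (supp u).card :=
      Finset.card_biUnion (fun u hu v hv hne => sh_disj hmin hu hv hne)
    have h5 : ∑ u ∈ sh C w, (supp u).card = 4 * (sh C w).card := by
      rw [Finset.sum_congr rfl (fun u hu => (show (supp u).card = 4 from h4 u hu))]
      simp [mul_comm]
    have h6 : (sh C w).biUnion supp = Finset.univ := by
      apply Finset.eq_univ_of_card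
      rw [hcard, h5, hc]; simp
    have : x ∈ (sh C w).biUnion supp := by rw [h6]; exact Finset.mem_univ _
    rwa [Finset.mem_biUnion] at this

lemma exists_octad (hdim : Module.finrank (ZMod 2) C = 12) (s : Finset (Fin 24)) (hs : s.card = 5) :
    ∃ c ∈ C, hammingNorm c = 8 ∧ s ⊆ supp c := by
  classical
  obtain ⟨x, hx⟩ : s.Nonempty := by rw [← Finset.card_pos]; omega
  set t := s.erase x with ht
  have htc : t.card = 4 := by rw [ht, Finset.card_erase_of_mem hx, hs]
  have hwt : hammingNorm (ind t) = 4 := by rw [norm_eq, supp_ind, htc]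
  obtain ⟨u, hu, hxu⟩ := tetrad_cover hmin hdim (ind t) hwt x
  have hws : ind t ∈ sh C (ind t) := by rw [mem_sh]; simp [hwt]
  have hne : ind t ≠ u := by
    rintro rfl
    rw [supp_ind] at hxu
    exact (Finset.notMem_erase x s) hxu
  have hd := sh_disj hmin hws hu hne
  have huC : u - ind t ∈ C := ((mem_sh C).mp hu).1
  have hu4 := ((mem_sh C).mp hu).2
  have h48 := pair_disj hmin huC (Ne.symm hne) hu4 hwt.le
  refine ⟨u - ind t, huC, ?_, ?_⟩
  · rw [norm_eq, supp_sub]
    have hc := card_symmDiff' (supp u) (supp (ind t))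
    have h0 : (supp u ∩ supp (ind t)).card = 0 := by
      rw [Finset.card_eq_zero, ← Finset.disjoint_iff_inter_eq_empty]; exact h48.2.2
    have a1 := h48.1
    have a2 := h48.2.1
    rw [norm_eq] at a1 a2
    omega
  · rw [supp_sub, supp_ind]
    intro y hy
    rw [Finset.mem_symmDiff]
    rw [supp_ind] at hd
    by_cases hyx : y = x
    · subst hyx
      left
      exact ⟨hxu, Finset.notMem_erase y s⟩
    · right
      have hyt : y ∈ t := Finset.mem_erase.mpr ⟨hyx, hy⟩
      exact ⟨hyt, fun h => (Finset.disjoint_left.mp hd) hyt h⟩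

/-- the octad words span -/
lemma span_octads (hdim : Module.finrank (ZMod 2) C = 12) :
    Submodule.span (ZMod 2) {w : W | w ∈ C ∧ hammingNorm w = 8} = C := by
  classical
  apply le_antisymm
  · rw [Submodule.span_le]; rintro w ⟨hw, -⟩; exact hw
  · set C' := Submodule.span (ZMod 2) {w : W | w ∈ C ∧ hammingNorm w = 8} with hC'
    have hle : C' ≤ C := by rw [hC', Submodule.span_le]; rintro w ⟨hw, -⟩; exact hw
    have key : ∀ n : ℕ, ∀ c ∈ C, hammingNorm c ≤ n → c ∈ C' := by
      intro n
      induction n using Nat.strong_induction_on with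
      | _ n ih =>
        intro c hc hn
        by_cases h0 : c = 0
        · rw [h0]; exact C'.zero_mem
        have h8 := hmin c hc h0
        obtain ⟨s, hs, hs5⟩ := Finset.exists_subset_card_eq (s := supp c) (n := 5) (by rw [← norm_eq]; omega)
        obtain ⟨o, hoC, ho8, hso⟩ := exists_octad hmin hdim s hs5
        have h1 : c - o ∈ C := C.sub_mem hc hoC
        have hlt : hammingNorm (c - o) < hammingNorm c := by
          rw [norm_eq, norm_eq, supp_sub]
          have hcd := card_symmDiff' (supp c) (supp o)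
          have h5 : 5 ≤ (supp c ∩ supp o).card := by
            rw [← hs5]; exact Finset.card_le_card (Finset.subset_inter hs hso)
          rw [norm_eq] at ho8
          omega
        have h2 := ih (hammingNorm (c - o)) (by omega) (c - o) h1 le_rfl
        have h3 : o ∈ C' := Submodule.subset_span ⟨hoC, ho8⟩
        have := C'.add_mem h2 h3
        simpa using this
    intro c hc
    exact key _ c hc le_rfl

end

lemma dot_eq (v w : W) : ∑ i, v i * w i = ((supp v ∩ supp w).card : ZMod 2) := by
  classical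
  have h1 : ∀ i, v i * w i = if i ∈ supp v ∩ supp w then (1 : ZMod 2) else 0 := by
    intro i
    simp only [Finset.mem_inter, mem_supp']
    rcases zmod2_cases (v i) with h | h <;> rcases zmod2_cases (w i) with h' | h' <;> simp [h, h']
  rw [Finset.sum_congr rfl (fun i _ => h1 i), Finset.sum_ite_mem, Finset.univ_inter, Finset.sum_const]
  simp

lemma doubly_even {C : Submodule (ZMod 2) W} (hdim : Module.finrank (ZMod 2) C = 12)
    (horth : ∀ v ∈ C, ∀ w ∈ C, ∑ i, v i * w i = 0) (hmin : ∀ w ∈ C, w ≠ 0 → 8 ≤ hammingNorm w) :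
    ∀ w ∈ C, 4 ∣ hammingNorm w := by
  intro w hw
  have hsp := span_octads hmin hdim
  have hw' : w ∈ Submodule.span (ZMod 2) {w : W | w ∈ C ∧ hammingNorm w = 8} := by rw [hsp]; exact hw
  have hadd : ∀ a ∈ C, ∀ b ∈ C, 4 ∣ hammingNorm a → 4 ∣ hammingNorm b → 4 ∣ hammingNorm (a + b) := by
    intro a ha b hb h4a h4b
    have ho := horth a ha b hb
    rw [dot_eq, ZMod.natCast_eq_zero_iff] at ho
    rw [norm_eq] at h4a h4b ⊢
    rw [supp_add]
    have hcd := card_symmDiff' (supp a) (supp b)
    omega
  have : w ∈ C ∧ 4 ∣ hammingNorm w := by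
    refine Submodule.span_induction (p := fun x _ => x ∈ C ∧ 4 ∣ hammingNorm x) ?_ ?_ ?_ ?_ hw'
    · rintro x ⟨hx, h8⟩; exact ⟨hx, by rw [h8]; norm_num⟩
    · exact ⟨C.zero_mem, by simp⟩
    · rintro x y - - ⟨hx, h4x⟩ ⟨hy, h4y⟩
      exact ⟨C.add_mem hx hy, hadd x hx y hy h4x h4y⟩
    · rintro a x - ⟨hx, h4x⟩
      rcases zmod2_cases a with rfl | rfl
      · simp
      · simpa using ⟨hx, h4x⟩
  exact this.2

end CfsgLib.AbsGolayH28
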