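import Mathlib

set_option autoImplicit false
set_option linter.all false
set_option maxHeartbeats 1000000

/-! # An involution on normal chains of `p`-subgroups (helper20) -/

namespace CfsgLib.Chain20

open scoped Pointwise

universe u

variable {G : Type u} [Group G] [Finite G] {p : ℕ} [hpf : Fact p.Prime]

/-- normal chains of nontrivial `p`-subgroups -/
def NC (p : ℕ) (s : Finset (Subgroup G)) : Prop :=
  (∀ Q ∈ s, ∀ R ∈ s, Q ≤ R ∨ R ≤ Q) ∧ (∀ Q ∈ s, Q ≠ ⊥ ∧ IsPGroup p Q) ∧
    ∀ Q ∈ s, ∀ R ∈ s, R ≤ Subgroup.normalizer ((Q : Subgroup G) : Set G)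

/-- stabilizer of a chain -/
def NS (s : Finset (Subgroup G)) : Subgroup G := ⨅ Q ∈ s, Subgroup.normalizer ((Q : Subgroup G) : Set G)

theorem mem_NS {s : Finset (Subgroup G)} {x : G} : x ∈ NS s ↔ ∀ Q ∈ s, x ∈ Subgroup.normalizer ((Q : Subgroup G) : Set G) := by
  unfold NS
  simp only [Subgroup.mem_iInf]

theorem exists_top {s : Finset (Subgroup G)} (hne : s.Nonempty) (hs : ∀ Q ∈ s, ∀ R ∈ s, Q ≤ R ∨ R ≤ Q) :
    ∃ T ∈ s, ∀ Q ∈ s, Q ≤ T := by
  obtain ⟨T, hT⟩ := s.exists_maximal hne
  refine ⟨T, hT.1, fun Q hQ => ?_⟩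
  rcases hs Q hQ T hT.1 with h | h
  · exact h
  · exact hT.2 hQ h

theorem sup_cases {s : Finset (Subgroup G)} (hs : ∀ Q ∈ s, ∀ R ∈ s, Q ≤ R ∨ R ≤ Q) : s.sup id = ⊥ ∨ s.sup id ∈ s := by
  by_cases hne : s.Nonempty
  · right
    obtain ⟨T, hT, h⟩ := exists_top hne hs
    have : s.sup id = T := le_antisymm (Finset.sup_le h) (Finset.le_sup (f := id) hT)
    rw [this]; exact hT
  · left
    rw [Finset.not_nonempty_iff_eq_empty] at hne
    rw [hne]; simp

/-- top of the chain -/
noncomputable def TT (s : Finset (Subgroup G)) : Subgroup G := s.sup id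

open Classical in
/-- the largest member not containing `u` -/
noncomputable def PP (u : G) (s : Finset (Subgroup G)) : Subgroup G := (s.filter (fun Q => u ∉ Q)).sup id

/-- closure of the conjugates -/
def CC (u : G) (T : Subgroup G) : Subgroup G := Subgroup.closure {x | ∃ t ∈ T, x = t * u * t⁻¹}

noncomputable def RR (u : G) (s : Finset (Subgroup G)) : Subgroup G := PP u s ⊔ CC u (TT s)

variable {u : G}

theorem RR_def (s : Finset (Subgroup G)) : RR u s = PP u s ⊔ CC u (TT s) := rfl

theorem CC_mono {T T' : Subgroup G} (h : T ≤ T') : CC u T ≤ CC u T' :=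
  Subgroup.closure_mono fun x ⟨t, ht, hx⟩ => ⟨t, h ht, hx⟩

theorem mem_CC (T : Subgroup G) : u ∈ CC u T := Subgroup.subset_closure ⟨1, one_mem _, by simp⟩

theorem CC_le {T Q : Subgroup G} (hu : u ∈ Q) (hT : T ≤ Subgroup.normalizer (Q : Set G)) : CC u T ≤ Q := by
  unfold CC
  rw [Subgroup.closure_le]
  rintro x ⟨t, ht, rfl⟩
  exact (Subgroup.mem_normalizer_iff.mp (hT ht) u).mp hu

theorem TT_le {s : Finset (Subgroup G)} {Q : Subgroup G} (hQ : Q ∈ s) : Q ≤ TT s := Finset.le_sup (f := id) hQ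

theorem mem_RR (s : Finset (Subgroup G)) : u ∈ RR u s := (le_sup_right : _ ≤ RR u s) (mem_CC _)

theorem PP_le_RR (s : Finset (Subgroup G)) : PP u s ≤ RR u s := le_sup_left

theorem le_PP {s : Finset (Subgroup G)} {Q : Subgroup G} (hQ : Q ∈ s) (hu : u ∉ Q) : Q ≤ PP u s := by
  classical
  unfold PP
  exact Finset.le_sup (f := id) (Finset.mem_filter.mpr ⟨hQ, hu⟩)

theorem PP_le_TT (s : Finset (Subgroup G)) : PP u s ≤ TT s := by
  classical
  unfold PP TT
  exact Finset.sup_mono (Finset.filter_subset _ _)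

theorem PP_cases {s : Finset (Subgroup G)} (hs : NC p s) : PP u s = ⊥ ∨ (PP u s ∈ s ∧ u ∉ PP u s) := by
  classical
  unfold PP
  rcases sup_cases (s := s.filter (fun Q => u ∉ Q)) (fun Q hQ R hR => hs.1 Q (Finset.mem_filter.mp hQ).1 R (Finset.mem_filter.mp hR).1) with h | h
  · left; exact h
  · right; exact Finset.mem_filter.mp h

theorem not_mem_PP (hu1 : u ≠ 1) {s : Finset (Subgroup G)} (hs : NC p s) : u ∉ PP u s := by
  rcases PP_cases (u := u) hs with h | h
  · rw [h]; simpa using hu1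
  · exact h.2

theorem PP_le {s : Finset (Subgroup G)} (hs : NC p s) {Q : Subgroup G} (hQ : Q ∈ s) (hu : u ∈ Q) : PP u s ≤ Q := by
  rcases PP_cases (u := u) hs with h | h
  · rw [h]; exact bot_le
  · rcases hs.1 _ h.1 Q hQ with h1 | h1
    · exact h1
    · exact absurd (h1 hu) h.2

theorem TT_cases {s : Finset (Subgroup G)} (hs : NC p s) : TT s = ⊥ ∨ TT s ∈ s := sup_cases hs.1

theorem TT_norm {s : Finset (Subgroup G)} (hs : NC p s) {Q : Subgroup G} (hQ : Q ∈ s) : TT s ≤ Subgroup.normalizer (Q : Set G) := by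
  rcases TT_cases hs with h | h
  · rw [h]; exact bot_le
  · exact hs.2.2 Q hQ _ h

theorem TT_eq_PP (hu1 : u ≠ 1) {s : Finset (Subgroup G)} (hs : NC p s) (hu : u ∉ TT s) : TT s = PP u s := by
  apply le_antisymm _ (PP_le_TT s)
  rcases TT_cases hs with h | h
  · rw [h]; exact bot_le
  · exact le_PP h hu

theorem RR_le {s : Finset (Subgroup G)} (hs : NC p s) {Q : Subgroup G} (hQ : Q ∈ s) (hu : u ∈ Q) : RR u s ≤ Q :=
  sup_le (PP_le hs hQ hu) (CC_le hu (TT_norm hs hQ))

/-- elements centralizing `u` and normalizing the chain normalize `RR` -/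
theorem RR_norm_of {s : Finset (Subgroup G)} (hs : NC p s) {x : G} (hx : x * u * x⁻¹ = u)
    (hN : x ∈ NS s) : x ∈ Subgroup.normalizer (RR u s : Set G) := by
  rw [mem_NS] at hN
  have hP : x ∈ Subgroup.normalizer (PP u s : Set G) := by
    rcases PP_cases (u := u) hs with h | h
    · rw [h]
      haveI : (⊥ : Subgroup G).Normal := inferInstance
      rw [Subgroup.normalizer_eq_top_iff.mpr this]; trivial
    · exact hN _ h.1
  have hT : x ∈ Subgroup.normalizer (TT s : Set G) := by
    rcases TT_cases hs with h | h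
    · rw [h]
      haveI : (⊥ : Subgroup G).Normal := inferInstance
      rw [Subgroup.normalizer_eq_top_iff.mpr this]; trivial
    · exact hN _ h
  have key : ∀ y : G, y ∈ Subgroup.normalizer (PP u s : Set G) → y ∈ Subgroup.normalizer (TT s : Set G) → y * u * y⁻¹ = u →
      RR u s ≤ (RR u s).comap (MulAut.conj y).toMonoidHom := by
    intro y hyP hyT hyu
    apply sup_le
    · intro z hz
      rw [Subgroup.mem_comap]
      exact PP_le_RR s ((Subgroup.mem_normalizer_iff.mp hyP z).mp hz)
    · unfold CC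
      rw [Subgroup.closure_le]
      rintro z ⟨t, ht, rfl⟩
      rw [SetLike.mem_coe, Subgroup.mem_comap]
      have e1 : (MulAut.conj y).toMonoidHom (t * u * t⁻¹) = (y * t * y⁻¹) * u * (y * t * y⁻¹)⁻¹ := by
        change y * (t * u * t⁻¹) * y⁻¹ = _
        have : (y * t * y⁻¹) * u * (y * t * y⁻¹)⁻¹ = y * t * (y⁻¹ * u * y) * t⁻¹ * y⁻¹ := by group
        rw [this]
        have h2 : y⁻¹ * u * y = u := by
          conv_lhs => rw [← hyu]
          group
        rw [h2]; group
      rw [e1]
      apply (le_sup_right : _ ≤ RR u s)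
      exact Subgroup.subset_closure ⟨_, (Subgroup.mem_normalizer_iff.mp hyT t).mp ht, rfl⟩
  have hx' : x⁻¹ * u * x⁻¹⁻¹ = u := by
    conv_lhs => rw [← hx]
    group
  have k1 := key x hP hT hx
  have k2 := key x⁻¹ (inv_mem hP) (inv_mem hT) hx'
  rw [Subgroup.mem_normalizer_iff]
  intro z
  constructor
  · intro hz; exact k1 hz
  · intro hz
    have h3 : x⁻¹ * (x * z * x⁻¹) * x⁻¹⁻¹ ∈ RR u s := k2 hz
    have h4 : x⁻¹ * (x * z * x⁻¹) * x⁻¹⁻¹ = z := by group
    rwa [h4] at h3

/-- the top normalizes `RR` -/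
theorem TT_norm_RR (hu1 : u ≠ 1) {s : Finset (Subgroup G)} (hs : NC p s) : TT s ≤ Subgroup.normalizer (RR u s : Set G) := by
  by_cases hu : u ∈ TT s
  · intro x hx
    have hP : TT s ≤ Subgroup.normalizer (PP u s : Set G) := by
      rcases PP_cases (u := u) hs with h | h
      · rw [h]
        haveI : (⊥ : Subgroup G).Normal := inferInstance
        rw [Subgroup.normalizer_eq_top_iff.mpr this]; exact le_top
      · exact TT_norm hs h.1
    have key : ∀ y ∈ TT s, RR u s ≤ (RR u s).comap (MulAut.conj y).toMonoidHom := by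
      intro y hy
      apply sup_le
      · intro z hz
        rw [Subgroup.mem_comap]
        exact PP_le_RR s ((Subgroup.mem_normalizer_iff.mp (hP hy) z).mp hz)
      · unfold CC
        rw [Subgroup.closure_le]
        rintro z ⟨t, ht, rfl⟩
        rw [SetLike.mem_coe, Subgroup.mem_comap]
        have e1 : (MulAut.conj y).toMonoidHom (t * u * t⁻¹) = (y * t) * u * (y * t)⁻¹ := by
          change y * (t * u * t⁻¹) * y⁻¹ = _
          group
        rw [e1]
        apply (le_sup_right : _ ≤ RR u s)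
        exact Subgroup.subset_closure ⟨_, mul_mem hy ht, rfl⟩
    have k1 := key x hx
    have k2 := key x⁻¹ (inv_mem hx)
    rw [Subgroup.mem_normalizer_iff]
    intro z
    constructor
    · intro hz; exact k1 hz
    · intro hz
      have h3 : x⁻¹ * (x * z * x⁻¹) * x⁻¹⁻¹ ∈ RR u s := k2 hz
      have h4 : x⁻¹ * (x * z * x⁻¹) * x⁻¹⁻¹ = z := by group
      rwa [h4] at h3
  · rw [TT_eq_PP hu1 hs hu]
    exact (PP_le_RR s).trans Subgroup.le_normalizer

theorem TT_pgroup {s : Finset (Subgroup G)} (hs : NC p s) : IsPGroup p (TT s) := by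
  rcases TT_cases hs with h | h
  · rw [h]; exact IsPGroup.of_bot
  · exact (hs.2.1 _ h).2

theorem RR_pgroup (hup : IsPGroup p (Subgroup.zpowers u)) {s : Finset (Subgroup G)} (hs : NC p s)
    (huN : u ∈ NS s) : IsPGroup p (RR u s) := by
  have h1 : u ∈ Subgroup.normalizer (TT s : Set G) := by
    rw [mem_NS] at huN
    rcases TT_cases hs with h | h
    · rw [h]
      haveI : (⊥ : Subgroup G).Normal := inferInstance
      rw [Subgroup.normalizer_eq_top_iff.mpr this]; trivial
    · exact huN _ h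
  have h2 : IsPGroup p (Subgroup.zpowers u ⊔ TT s : Subgroup G) :=
    IsPGroup.to_sup_of_normal_right' hup (TT_pgroup hs) (by rw [Subgroup.zpowers_le]; exact h1)
  apply h2.to_le
  apply sup_le
  · exact (PP_le_TT s).trans le_sup_right
  · unfold CC
    rw [Subgroup.closure_le]
    rintro x ⟨t, ht, rfl⟩
    have ht' : t ∈ (Subgroup.zpowers u ⊔ TT s : Subgroup G) := (le_sup_right : TT s ≤ _) ht
    have hu' : u ∈ (Subgroup.zpowers u ⊔ TT s : Subgroup G) := (le_sup_left : Subgroup.zpowers u ≤ _) (Subgroup.mem_zpowers u)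
    exact mul_mem (mul_mem ht' hu') (inv_mem ht')

theorem NC_insert (hu1 : u ≠ 1) (hup : IsPGroup p (Subgroup.zpowers u)) {s : Finset (Subgroup G)} [DecidableEq (Subgroup G)] (hs : NC p s)
    (huN : u ∈ NS s) : NC p (insert (RR u s) s) := by
  have hcmp : ∀ Q ∈ s, Q ≤ RR u s ∨ RR u s ≤ Q := by
    intro Q hQ
    by_cases hu : u ∈ Q
    · right; exact RR_le hs hQ hu
    · left; exact (le_PP hQ hu).trans (PP_le_RR s)
  refine ⟨?_, ?_, ?_⟩
  · intro Q hQ R hR
    rw [Finset.mem_insert] at hQ hR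
    rcases hQ with rfl | hQ <;> rcases hR with rfl | hR
    · left; exact le_refl _
    · exact (hcmp R hR).symm
    · exact hcmp Q hQ
    · exact hs.1 Q hQ R hR
  · intro Q hQ
    rw [Finset.mem_insert] at hQ
    rcases hQ with rfl | hQ
    · refine ⟨fun h => ?_, RR_pgroup hup hs huN⟩
      have := mem_RR (u := u) s
      rw [h] at this
      exact hu1 (by simpa using this)
    · exact hs.2.1 Q hQ
  · intro Q hQ R hR
    rw [Finset.mem_insert] at hQ hR
    rcases hQ with rfl | hQ <;> rcases hR with rfl | hR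
    · exact Subgroup.le_normalizer
    · exact (TT_le hR).trans (TT_norm_RR hu1 hs)
    · apply sup_le
      · exact (PP_le_TT s).trans (TT_norm hs hQ)
      · unfold CC
        rw [Subgroup.closure_le]
        rintro x ⟨t, ht, rfl⟩
        have h1 := TT_norm hs hQ ht
        have h2 := mem_NS.mp huN Q hQ
        exact mul_mem (mul_mem h1 h2) (inv_mem h1)
    · exact hs.2.2 Q hQ R hR

theorem NC_sub {s s' : Finset (Subgroup G)} (hs : NC p s) (h : s' ⊆ s) : NC p s' :=
  ⟨fun Q hQ R hR => hs.1 Q (h hQ) R (h hR), fun Q hQ => hs.2.1 Q (h hQ), fun Q hQ R hR => hs.2.2 Q (h hQ) R (h hR)⟩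

theorem PP_insert [DecidableEq (Subgroup G)] (s : Finset (Subgroup G)) {R : Subgroup G} (hR : u ∈ R) : PP u (insert R s) = PP u s := by
  classical
  unfold PP
  congr 1
  ext Q
  simp only [Finset.mem_filter, Finset.mem_insert]
  constructor
  · rintro ⟨h | h, h2⟩
    · subst h; exact absurd hR h2
    · exact ⟨h, h2⟩
  · rintro ⟨h, h2⟩; exact ⟨Or.inr h, h2⟩

theorem TT_insert [DecidableEq (Subgroup G)] (s : Finset (Subgroup G)) (R : Subgroup G) : TT (insert R s) = R ⊔ TT s := by
  unfold TT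
  rw [Finset.sup_insert]; rfl

/-- invariance under insertion -/
theorem RR_insert (hu1 : u ≠ 1) [DecidableEq (Subgroup G)] {s : Finset (Subgroup G)} (hs : NC p s) :
    RR u (insert (RR u s) s) = RR u s := by
  have e : RR u (insert (RR u s) s) = PP u s ⊔ CC u (RR u s ⊔ TT s) := by
    rw [RR_def (insert (RR u s) s), PP_insert s (mem_RR s), TT_insert]
  rw [e]
  apply le_antisymm
  · apply sup_le (PP_le_RR s)
    apply CC_le (mem_RR s)
    exact sup_le Subgroup.le_normalizer (TT_norm_RR hu1 hs)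
  · rw [RR_def s]
    exact sup_le_sup_left (CC_mono le_sup_right) _

/-- the `p`-group fact -/
theorem pgroup_fact {T P : Subgroup G} (hT : IsPGroup p T) (hPT : P ≤ T) (hnorm : T ≤ Subgroup.normalizer (P : Set G))
    (huT : u ∈ T) (h : T ≤ P ⊔ CC u T) : T ≤ P ⊔ Subgroup.zpowers u := by
  by_contra hcon
  haveI : (P.subgroupOf T).Normal := Subgroup.normal_subgroupOf_of_le_normalizer hnorm
  set A : Subgroup T := P.subgroupOf T ⊔ Subgroup.zpowers ⟨u, huT⟩ with hA
  have hAne : A ≠ ⊤ := by
    intro hAt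
    apply hcon
    intro x hx
    have h1 : (⟨x, hx⟩ : T) ∈ A := by rw [hAt]; trivial
    have h2 : x ∈ A.map T.subtype := ⟨⟨x, hx⟩, h1, rfl⟩
    rw [hA, Subgroup.map_sup] at h2
    have h3 : (P.subgroupOf T).map T.subtype ⊔ (Subgroup.zpowers (⟨u, huT⟩ : T)).map T.subtype ≤ P ⊔ Subgroup.zpowers u := by
      apply sup_le_sup
      · rintro y ⟨z, hz, rfl⟩; exact Subgroup.mem_subgroupOf.mp hz
      · rw [MonoidHom.map_zpowers]; exact le_refl _
    exact h3 h2
  obtain ⟨W, hW, hAW⟩ := (eq_top_or_exists_le_coatom A).resolve_left hAne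
  haveI : Group.IsNilpotent T := hT.isNilpotent
  haveI hWn : W.Normal := Subgroup.NormalizerCondition.normal_of_coatom _ (normalizerCondition_of_isNilpotent) hW
  apply hW.1
  rw [eq_top_iff]
  intro x _
  have h1 : (x : G) ∈ P ⊔ CC u T := h x.2
  have h2 : P ⊔ CC u T ≤ W.map T.subtype := by
    apply sup_le
    · intro y hy
      exact ⟨⟨y, hPT hy⟩, hAW ((le_sup_left : _ ≤ A) (Subgroup.mem_subgroupOf.mpr hy)), rfl⟩
    · unfold CC
      rw [Subgroup.closure_le]
      rintro y ⟨t, ht, rfl⟩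
      have h3 : (⟨u, huT⟩ : T) ∈ W := hAW ((le_sup_right : _ ≤ A) (Subgroup.mem_zpowers _))
      exact ⟨⟨t, ht⟩ * ⟨u, huT⟩ * ⟨t, ht⟩⁻¹, hWn.conj_mem _ h3 _, rfl⟩
  obtain ⟨y, hy, hyx⟩ := h2 h1
  have : y = x := Subtype.ext hyx
  rw [← this]; exact hy

/-- invariance under removal -/
theorem RR_erase (hu1 : u ≠ 1) [DecidableEq (Subgroup G)] {s : Finset (Subgroup G)} (hs : NC p s) (hR : RR u s ∈ s) :
    RR u (s.erase (RR u s)) = RR u s := by
  obtain ⟨R, hRd⟩ : ∃ R, R = RR u s := ⟨_, rfl⟩
  obtain ⟨s', hs'd⟩ : ∃ s', s' = s.erase R := ⟨_, rfl⟩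
  rw [← hRd] at hR ⊢
  rw [← hs'd]
  have hins : insert R s' = s := by rw [hs'd]; exact Finset.insert_erase hR
  have huR : u ∈ R := by rw [hRd]; exact mem_RR s
  have hs' : NC p s' := NC_sub hs (by rw [hs'd]; exact Finset.erase_subset _ _)
  have hPe : PP u s = PP u s' := by rw [← hins, PP_insert s' huR]
  have hTe : TT s = R ⊔ TT s' := by rw [← hins, TT_insert]
  have hsub : s' ⊆ s := by rw [hs'd]; exact Finset.erase_subset _ _
  apply le_antisymm
  · rw [hRd]
    unfold RR
    rw [← hPe]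
    exact sup_le_sup_left (CC_mono (by rw [hTe]; exact le_sup_right)) _
  · by_cases hu : u ∈ TT s'
    · -- the top is unchanged
      have h1 : TT s' ∈ s' := by
        rcases TT_cases hs' with h | h
        · rw [h] at hu; exact absurd (by simpa using hu) hu1
        · exact h
      have h2 : R ≤ TT s' := by rw [hRd]; exact RR_le hs (hsub h1) hu
      have h3 : TT s = TT s' := by rw [hTe]; exact sup_eq_right.mpr h2
      rw [hRd]
      unfold RR
      rw [hPe, h3]
    · have h1 : TT s' = PP u s' := TT_eq_PP hu1 hs' hu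
      have h2 : TT s = R := by
        rw [hTe, h1, ← hPe]
        apply sup_eq_left.mpr
        rw [hRd]; exact PP_le_RR s
      have h3 : R ≤ PP u s ⊔ Subgroup.zpowers u := by
        have hPn : R ≤ Subgroup.normalizer (PP u s : Set G) := by
          rcases PP_cases (u := u) hs with h | h
          · rw [h]
            haveI : (⊥ : Subgroup G).Normal := inferInstance
            rw [Subgroup.normalizer_eq_top_iff.mpr this]; exact le_top
          · rw [← h2]; exact TT_norm hs h.1
        apply pgroup_fact (p := p) (by rw [← h2]; exact TT_pgroup hs) (by rw [hRd]; exact PP_le_RR s) hPn huR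
        have h4 : R = PP u s ⊔ CC u (TT s) := hRd
        rw [h2] at h4
        exact le_of_eq h4
      refine h3.trans ?_
      apply sup_le
      · rw [hPe]; exact PP_le_RR s'
      · rw [Subgroup.zpowers_le]; exact mem_RR s'

open Classical in
/-- the involution -/
noncomputable def phi (u : G) (s : Finset (Subgroup G)) : Finset (Subgroup G) :=
  if RR u s ∈ s then s.erase (RR u s) else insert (RR u s) s

theorem RR_phi (hu1 : u ≠ 1) {s : Finset (Subgroup G)} (hs : NC p s) : RR u (phi u s) = RR u s := by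
  classical
  unfold phi
  split_ifs with h
  · exact RR_erase hu1 hs h
  · exact RR_insert hu1 hs

theorem phi_phi (hu1 : u ≠ 1) {s : Finset (Subgroup G)} (hs : NC p s) : phi u (phi u s) = s := by
  classical
  have h1 := RR_phi hu1 hs
  have h0 : phi u (phi u s) = if RR u (phi u s) ∈ phi u s then (phi u s).erase (RR u (phi u s)) else insert (RR u (phi u s)) (phi u s) := rfl
  rw [h0, h1]
  by_cases h : RR u s ∈ s
  · have h2 : phi u s = s.erase (RR u s) := if_pos h
    rw [h2, if_neg (Finset.notMem_erase _ _), Finset.insert_erase h]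
  · have h2 : phi u s = insert (RR u s) s := if_neg h
    rw [h2, if_pos (Finset.mem_insert_self _ _), Finset.erase_insert h]

theorem phi_NC (hu1 : u ≠ 1) (hup : IsPGroup p (Subgroup.zpowers u)) {s : Finset (Subgroup G)} (hs : NC p s)
    (huN : u ∈ NS s) : NC p (phi u s) := by
  classical
  unfold phi
  split_ifs with h
  · exact NC_sub hs (Finset.erase_subset _ _)
  · exact NC_insert hu1 hup hs huN

theorem NS_anti {s s' : Finset (Subgroup G)} (h : s' ⊆ s) : NS s ≤ NS s' := by
  intro x hx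
  rw [mem_NS] at hx ⊢
  exact fun Q hQ => hx Q (h hQ)

/-- elements centralizing `u` stabilize `s` iff they stabilize `phi s` -/
theorem mem_NS_phi (hu1 : u ≠ 1) {s : Finset (Subgroup G)} (hs : NC p s) {x : G} (hx : x * u * x⁻¹ = u) :
    x ∈ NS (phi u s) ↔ x ∈ NS s := by
  classical
  have hins : ∀ s : Finset (Subgroup G), NC p s → x ∈ NS s → x ∈ NS (insert (RR u s) s) := by
    intro s hs h
    rw [mem_NS]
    intro Q hQ
    rw [Finset.mem_insert] at hQ
    rcases hQ with rfl | hQ
    · exact RR_norm_of hs hx h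
    · exact mem_NS.mp h Q hQ
  unfold phi
  split_ifs with h
  · constructor
    · intro h1
      have h2 := hins _ (NC_sub hs (Finset.erase_subset (RR u s) s)) h1
      rw [RR_erase hu1 hs h, Finset.insert_erase h] at h2
      exact h2
    · intro h1; exact NS_anti (Finset.erase_subset _ _) h1
  · constructor
    · intro h1; exact NS_anti (Finset.subset_insert _ _) h1
    · exact hins s hs

theorem card_phi (s : Finset (Subgroup G)) : (-1 : ℤ) ^ (phi u s).card = - (-1 : ℤ) ^ s.card := by
  classical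
  unfold phi
  split_ifs with h
  · rw [← Finset.card_erase_add_one h, pow_succ]; ring
  · rw [Finset.card_insert_of_notMem h, pow_succ]; ring

theorem phi_ne (s : Finset (Subgroup G)) : phi u s ≠ s := by
  intro h
  have h1 := card_phi (u := u) s
  rw [h] at h1
  have h2 : (-1 : ℤ) ^ s.card ≠ 0 := pow_ne_zero _ (by norm_num)
  apply h2
  linarith

end CfsgLib.Chain20
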