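import Cfsg.Agent.LibBlockSec3
import Cfsg.Agent.LibChain20

set_option autoImplicit false
set_option linter.all false
set_option maxHeartbeats 1000000

/-! # Counting characters minus rank for unions of blocks (helper20) -/

namespace CfsgLib.Alt20

open CfsgLib.CharInt hiding irr_isCharacter irr_classFun irr_one_ne_zero schur_scalar
open Cfsg CfsgLib.CharInt2 CfsgLib.CharBasic CfsgLib.BlockR CfsgLib.BlockCore
  CfsgLib.BlockIdem CfsgLib.BlockIdeal CfsgLib.BlockConj CfsgLib.BlockBrauer CfsgLib.BlockInd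
  CfsgLib.BlockFMT CfsgLib.BlockFMT2 CfsgLib.PLocalInd CfsgLib.BlockOrth CfsgLib.BlockDefect
  CfsgLib.BlockReg CfsgLib.BlockReg2 CfsgLib.BlockCount CfsgLib.BlockCount2 CfsgLib.BlockQP
  CfsgLib.BlockCov2 CfsgLib.BlockCov3 CfsgLib.BlockCov4 CfsgLib.BlockLoc CfsgLib.BlockM
  CfsgLib.BlockH CfsgLib.BlockH2 CfsgLib.CharNorm CfsgLib.BlockSec CfsgLib.BlockSec2 CfsgLib.BlockSec3
open scoped ComplexConjugate Pointwise

universe u

section Rank

variable {M : Ideal AlgInt} {p : ℕ} [Fact p.Prime] {G : Type u} [Group G] [Fintype G]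

/-- union of blocks -/
def Sat (M : Ideal AlgInt) (U : Set (IrrCharacter G)) : Prop :=
  ∀ χ ∈ U, ∀ ψ : IrrCharacter G, SameBlock M (χ : G → ℂ) (ψ : G → ℂ) → ψ ∈ U

theorem prj_reg_singular' (hM : IsPModular p M) {U : Set (IrrCharacter G)} (hU : Sat M U)
    (f : G → ℂ) {x : G} (hx : p ∣ orderOf x) : prj U (reg p f) x = 0 := by
  classical
  have hp := CfsgLib.BlockR.isPrime_of_modular hM
  rw [prj_apply]
  have e1 : ∀ A : Set (IrrCharacter G), ∑ χ : IrrCharacter G, ind A χ * classInner (reg p f) (χ : G → ℂ) * (χ : G → ℂ) x =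
      ∑ χ : IrrCharacter G, ind A χ * (classInner (reg p f) (χ : G → ℂ) * (χ : G → ℂ) x) := fun A =>
    Finset.sum_congr rfl fun χ _ => by ring
  rw [e1]
  apply sum_union_zero hp hU
  intro b hb _
  rw [← e1, ← prj_apply]
  exact prj_reg_singular hM hb f hx

theorem reg_prj_reg' (hM : IsPModular p M) {U : Set (IrrCharacter G)} (hU : Sat M U)
    (f : G → ℂ) : reg p (prj U (reg p f)) = prj U (reg p f) := by
  funext x
  by_cases hx : p ∣ orderOf x
  · rw [reg_not hx, prj_reg_singular' hM hU f hx]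
  · rw [reg_of hx]

theorem prj_reg_self' (hM : IsPModular p M) {U : Set (IrrCharacter G)} (hU : Sat M U)
    {ψ : IrrCharacter G} (hψ : ψ ∈ U) : prj U (reg p (ψ : G → ℂ)) = reg p (ψ : G → ℂ) := by
  classical
  have hp := CfsgLib.BlockR.isPrime_of_modular hM
  conv_rhs => rw [classFun_expand (reg_classFun (p := p) (irr_classFun ψ.2))]
  unfold prj
  apply Finset.sum_congr rfl
  intro χ _
  by_cases hχ : χ ∈ U
  · rw [ind_of hχ, one_mul]
  · have : classInner (reg p (ψ : G → ℂ)) (χ : G → ℂ) = 0 := by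
      apply inner_reg_zero hM
      intro h
      exact hχ (hU ψ hψ χ h)
    rw [this, mul_zero]

theorem blockRank_eq' (hM : IsPModular p M) {U : Set (IrrCharacter G)} (hU : Sat M U) :
    (blockRank p U : ℂ) = ∑ ψ : IrrCharacter G, ind U ψ * classInner (reg p (ψ : G → ℂ)) (ψ : G → ℂ) := by
  classical
  set V : Submodule ℂ (G → ℂ) :=
    Submodule.span ℂ ((fun χ : IrrCharacter G => pRegularPart p (χ : G → ℂ)) '' U) with hV
  have hmem : ∀ ψ ∈ U, reg p (ψ : G → ℂ) ∈ V := by
    intro ψ hψ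
    apply Submodule.subset_span
    exact ⟨ψ, hψ, pRegularPart_eq _⟩
  have hproj : LinearMap.IsProj V (projB p U) := by
    constructor
    · intro f
      rw [projB_prj, ← reg_prj_reg' hM hU]
      have h1 : reg p (prj U (reg p f)) =
          ∑ ψ : IrrCharacter G, (ind U ψ * classInner (reg p f) (ψ : G → ℂ)) •
            reg p (ψ : G → ℂ) := by
        funext x
        rw [Finset.sum_apply]
        by_cases hx : p ∣ orderOf x
        · rw [reg_not hx]
          symm
          apply Finset.sum_eq_zero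
          intro ψ _
          rw [Pi.smul_apply, reg_not hx, smul_zero]
        · rw [reg_of hx, prj_apply]
          apply Finset.sum_congr rfl
          intro ψ _
          rw [Pi.smul_apply, reg_of hx, smul_eq_mul]
      rw [h1]
      apply Submodule.sum_mem
      intro ψ _
      by_cases hψ : ψ ∈ U
      · exact Submodule.smul_mem _ _ (hmem ψ hψ)
      · rw [ind_not hψ, zero_mul, zero_smul]
        exact Submodule.zero_mem _
    · intro v hv
      rw [hV] at hv
      induction hv using Submodule.span_induction with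
      | mem v hv =>
        obtain ⟨ψ, hψ, rfl⟩ := hv
        simp only
        rw [pRegularPart_eq, projB_prj, reg_reg, prj_reg_self' hM hU hψ]
      | zero => rw [map_zero]
      | add v w _ _ hv hw => rw [map_add, hv, hw]
      | smul c v _ hv => rw [map_smul, hv]
  have h1 := hproj.trace
  have h2 : LinearMap.trace ℂ (G → ℂ) (projB p U) =
      ∑ ψ : IrrCharacter G, ind U ψ * classInner (reg p (ψ : G → ℂ)) (ψ : G → ℂ) := by
    unfold projB
    rw [map_sum]
    apply Finset.sum_congr rfl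
    intro ψ _
    rw [map_smul, LinearMap.trace_smulRight, smul_eq_mul]
    rfl
  rw [← h2, h1]
  rfl

open Classical in
/-- `|G| (k - l)` -/
theorem count (hM : IsPModular p M) {U : Set (IrrCharacter G)} (hU : Sat M U) :
    (Nat.card G : ℂ) * ((Nat.card U : ℂ) - (blockRank p U : ℂ)) =
      ∑ g : G, if p ∣ orderOf g then ∑ χ : IrrCharacter G, ind U χ * ((χ : G → ℂ) g * conj ((χ : G → ℂ) g)) else 0 := by
  have hG : (Nat.card G : ℂ) ≠ 0 := by exact_mod_cast Nat.card_pos.ne'
  have e1 : (Nat.card U : ℂ) = ∑ χ : IrrCharacter G, ind U χ * classInner (χ : G → ℂ) (χ : G → ℂ) := by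
    have e2 : ∀ χ : IrrCharacter G, ind U χ * classInner (χ : G → ℂ) (χ : G → ℂ) = if χ ∈ U then 1 else 0 := by
      intro χ
      rw [irr_inner_self χ.2, mul_one]
      by_cases h : χ ∈ U
      · rw [ind_of h, if_pos h]
      · rw [ind_not h, if_neg h]
    rw [Finset.sum_congr rfl fun χ _ => e2 χ, Finset.sum_ite, Finset.sum_const, Finset.sum_const_zero, add_zero, nsmul_eq_mul, mul_one]
    congr 1
    rw [Nat.card_eq_fintype_card, Fintype.card_subtype]
  rw [e1, blockRank_eq' hM hU, ← Finset.sum_sub_distrib, Finset.mul_sum]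
  have e3 : ∀ χ : IrrCharacter G, (Nat.card G : ℂ) * (ind U χ * classInner (χ : G → ℂ) (χ : G → ℂ) -
      ind U χ * classInner (reg p (χ : G → ℂ)) (χ : G → ℂ)) =
      ∑ g : G, if p ∣ orderOf g then ind U χ * ((χ : G → ℂ) g * conj ((χ : G → ℂ) g)) else 0 := by
    intro χ
    unfold classInner
    have e4 : (Nat.card G : ℂ) * (ind U χ * ((Nat.card G : ℂ)⁻¹ * ∑ x : G, (χ : G → ℂ) x * conj ((χ : G → ℂ) x)) -
      ind U χ * ((Nat.card G : ℂ)⁻¹ * ∑ x : G, reg p (χ : G → ℂ) x * conj ((χ : G → ℂ) x))) =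
      ind U χ * (∑ x : G, (χ : G → ℂ) x * conj ((χ : G → ℂ) x) - ∑ x : G, reg p (χ : G → ℂ) x * conj ((χ : G → ℂ) x)) := by
      field_simp
    rw [e4, ← Finset.sum_sub_distrib, Finset.mul_sum]
    apply Finset.sum_congr rfl
    intro g _
    by_cases hg : p ∣ orderOf g
    · rw [if_pos hg, reg_not hg]; ring
    · rw [if_neg hg, reg_of hg]; ring
  rw [Finset.sum_congr rfl fun χ _ => e3 χ, Finset.sum_comm]
  apply Finset.sum_congr rfl
  intro g _
  by_cases hg : p ∣ orderOf g
  · simp only [if_pos hg]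
  · simp only [if_neg hg, Finset.sum_const_zero]

end Rank

section Local

variable {M : Ideal AlgInt} {p : ℕ} [hpf : Fact p.Prime] {G : Type u} [Group G] [Fintype G]

/-- characters of `H` lying in blocks inducing `b` -/
def UB (M : Ideal AlgInt) (b : Set (IrrCharacter G)) {H : Type u} [Group H] [Fintype H] (j : H →* G) : Set (IrrCharacter H) :=
  {ψ | ∀ χ ∈ b, ∀ g : G, MemLocalIdeal M (omg (ψ : H → ℂ) (fun h => cInd g (j h)) - centralChar (χ : G → ℂ) g)}

variable {b : Set (IrrCharacter G)}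

omit [Fintype G] in
theorem cInd_classFun' {H : Type u} [Group H] (j : H →* G) (g : G) : IsClassFunction H (fun h => cInd g (j h)) := by
  intro x y
  simp only [map_mul, map_inv]
  exact isClassFunction_cInd g (j x) (j y)

theorem sat_UB (hM : IsPModular p M) {H : Type u} [Group H] [Fintype H] (j : H →* G) : Sat M (UB M b j) := by
  have hp := CfsgLib.BlockR.isPrime_of_modular hM
  intro χ hχ ψ h χ' hχ' g
  have h1 := omg_sameBlock hp (sameBlock_symm h) (cInd_classFun' j g) (fun x => cInd_ring hp _ _)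
  have h2 := hχ χ' hχ' g
  exact ideal_trans hp h1 h2

noncomputable def Psi (M : Ideal AlgInt) (b : Set (IrrCharacter G)) {H : Type u} [Group H] [Fintype H] (j : H →* G) (c : H) : ℂ :=
  ∑ ψ : IrrCharacter H, ind (UB M b j) ψ * ((ψ : H → ℂ) c * conj ((ψ : H → ℂ) c))

theorem omg_equiv {H K : Type u} [Group H] [Fintype H] [Group K] [Fintype K] (e : H ≃* K) (χ a : K → ℂ) :
    omg (χ ∘ e) (a ∘ e) = omg χ a := by
  unfold omg
  congr 1
  · exact Fintype.sum_equiv e.toEquiv _ _ fun x => rfl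
  · simp

theorem Psi_equiv {H K : Type u} [Group H] [Fintype H] [Group K] [Fintype K] (e : H ≃* K) (j : K →* G) (c : H) :
    Psi M b (j.comp e.toMonoidHom) c = Psi M b j (e c) := by
  unfold Psi
  symm
  refine Fintype.sum_equiv (irrEquiv e) _ _ fun ψ => ?_
  have h1 : ((irrEquiv e ψ : IrrCharacter H) : H → ℂ) c = (ψ : K → ℂ) (e c) := rfl
  rw [h1]
  congr 1
  have h2 : ψ ∈ UB M b j ↔ irrEquiv e ψ ∈ UB M b (j.comp e.toMonoidHom) := by
    have h3 : ∀ g : G, omg ((irrEquiv e ψ : IrrCharacter H) : H → ℂ) (fun h => cInd g ((j.comp e.toMonoidHom) h)) =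
        omg (ψ : K → ℂ) (fun k => cInd g (j k)) := fun g => omg_equiv e (ψ : K → ℂ) (fun k => cInd g (j k))
    unfold UB
    simp only [Set.mem_setOf_eq]
    constructor
    · intro h χ hχ g; rw [h3]; exact h χ hχ g
    · intro h χ hχ g; rw [← h3]; exact h χ hχ g
  by_cases h : ψ ∈ UB M b j
  · rw [ind_of h, ind_of (h2.mp h)]
  · rw [ind_not h, ind_not (fun h3 => h (h2.mpr h3))]

/-- transitivity -/
theorem trans_iff (hM : IsPModular p M) {H : Type u} [Group H] [Fintype H] (j : H →* G) {K : Subgroup H} [Fintype K]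
    {ψ : IrrCharacter K} {B : Set (IrrCharacter H)} (hB : IsInducedBlock M K (blockOf M (ψ : K → ℂ)) B)
    {χ : IrrCharacter H} (hχ : χ ∈ B) : χ ∈ UB M b j ↔ ψ ∈ UB M b (j.comp K.subtype) := by
  have hp := CfsgLib.BlockR.isPrime_of_modular hM
  have key : ∀ g : G, MemLocalIdeal M (omg (ψ : K → ℂ) (fun k : K => cInd g (j.comp K.subtype k)) -
      omg (χ : H → ℂ) (fun h => cInd g (j h))) := by
    intro g
    have hcf := cInd_classFun' j g
    have hAR : AR M (fun χ : IrrCharacter H => omg (χ : H → ℂ) (fun h => cInd g (j h))) := by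
      intro x; rw [fou_omg hcf]; exact cInd_ring hp _ _
    have h1 := induced_val hp hB (mem_blockOf_self hp ψ) hχ hAR
    rw [fou_omg hcf] at h1
    exact h1
  constructor
  · intro h χ' hχ' g
    exact ideal_trans hp (key g) (h χ' hχ' g)
  · intro h χ' hχ' g
    exact ideal_trans hp (ideal_sub_comm (key g)) (h χ' hχ' g)

/-- the local formula -/
theorem Psi_local (hM : IsPModular p M) {H : Type u} [Group H] [Fintype H] (j : H →* G) {x : H}
    (hx : ∃ k : ℕ, orderOf x = p ^ k) [Fintype (Subgroup.centralizer ({x} : Set H))]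
    {c : Subgroup.centralizer ({x} : Set H)} (hc : ¬ p ∣ orderOf c) :
    Psi M b j (x * (c : H)) = Psi M b (j.comp (Subgroup.centralizer ({x} : Set H)).subtype) c := by
  classical
  have hp := CfsgLib.BlockR.isPrime_of_modular hM
  unfold Psi
  rw [sum_union_eq hp (sat_UB hM j)]
  have hfin : {B : Set (IrrCharacter H) | IsPBlock M B ∧ B ⊆ UB M b j}.Finite := Set.toFinite _
  rw [finsum_mem_eq_finite_toFinset_sum _ hfin]
  rw [Finset.sum_congr rfl (g := fun B => ∑ ψ : IrrCharacter (Subgroup.centralizer ({x} : Set H)),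
      ind (US x M B) ψ * ((ψ : Subgroup.centralizer ({x} : Set H) → ℂ) c *
        conj ((ψ : Subgroup.centralizer ({x} : Set H) → ℂ) c))) (by
    intro B hB
    exact subsection x hM hx (hfin.mem_toFinset.mp hB).1 hc hc)]
  rw [Finset.sum_comm]
  apply Finset.sum_congr rfl
  intro ψ _
  rw [← Finset.sum_mul]
  congr 1
  -- the induced block
  have hdef : InducedBlockDefined M (Subgroup.centralizer ({x} : Set H)) (blockOf M (ψ : Subgroup.centralizer ({x} : Set H) → ℂ)) := by
    have hcz : Subgroup.centralizer ((Subgroup.zpowers x : Subgroup H) : Set H) = Subgroup.centralizer ({x} : Set H) := by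
      rw [Subgroup.zpowers_eq_closure, Subgroup.centralizer_closure]
    refine exists_induced hM (P := Subgroup.zpowers x) ?_ ?_ ?_ ?_ ⟨ψ, rfl⟩
    · obtain ⟨k, hk⟩ := hx
      exact IsPGroup.of_card (n := k) (by rw [Nat.card_zpowers, hk])
    · rw [Subgroup.zpowers_le, Subgroup.mem_centralizer_singleton_iff]
    · rw [hcz]
    · rw [← hcz]; exact Subgroup.centralizer_le_normalizer _
  obtain ⟨B₀, hB₀⟩ := hdef
  obtain ⟨χ₀, hχ₀⟩ := block_nonempty hp hB₀.2.1
  have huniq : ∀ B : Set (IrrCharacter H), ψ ∈ US x M B → B = B₀ := fun B hB => induced_unique hp hB hB₀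
  have hiff := trans_iff (b := b) hM j hB₀ hχ₀
  by_cases hψ : ψ ∈ UB M b (j.comp (Subgroup.centralizer ({x} : Set H)).subtype)
  · rw [ind_of hψ]
    have hB₀sub : B₀ ⊆ UB M b j := fun χ hχ => (trans_iff (b := b) hM j hB₀ hχ).mpr hψ
    rw [Finset.sum_eq_single B₀]
    · exact ind_of hB₀
    · intro B _ hne
      exact ind_not fun h => hne (huniq B h)
    · intro h
      exact absurd (hfin.mem_toFinset.mpr ⟨hB₀.2.1, hB₀sub⟩) h
  · rw [ind_not hψ]
    apply Finset.sum_eq_zero
    intro B hB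
    apply ind_not
    intro h
    have := huniq B h
    subst this
    exact hψ (hiff.mp ((hfin.mem_toFinset.mp hB).2 hχ₀))

/-- the value at elements of a subgroup -/
noncomputable def PH (M : Ideal AlgInt) (b : Set (IrrCharacter G)) (H : Subgroup G) (g : G) : ℂ := by
  classical
  exact if h : g ∈ H then (letI := Fintype.ofFinite H; Psi M b H.subtype ⟨g, h⟩) else 0

theorem PH_of {H : Subgroup G} [Fintype H] {g : G} (h : g ∈ H) : PH M b H g = Psi M b H.subtype ⟨g, h⟩ := by
  unfold PH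
  rw [dif_pos h]
  congr!

theorem PH_not {H : Subgroup G} {g : G} (h : g ∉ H) : PH M b H g = 0 := by
  unfold PH
  rw [dif_neg h]

theorem ppart_mem {H : Subgroup G} {g x : G} (hx : IsPPart p g x) (hg : g ∈ H) : x ∈ H := by
  obtain ⟨y, hxy, hcomm, ⟨k, hk⟩, hy⟩ := hx
  have hcop : Nat.Coprime (orderOf x) (orderOf y) := by
    rw [hk]; exact Nat.Coprime.pow_left _ ((Nat.Prime.coprime_iff_not_dvd hpf.out).mpr hy)
  obtain ⟨m, hm1, hm2⟩ := Nat.chineseRemainder hcop 1 0
  have h1 : g ^ m = x := by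
    rw [← hxy, hcomm.mul_pow]
    have h3 : x ^ m = x := by
      conv_rhs => rw [← pow_one x]
      rw [pow_eq_pow_iff_modEq]; exact hm1
    have h4 : y ^ m = 1 := by
      rw [← pow_zero y, pow_eq_pow_iff_modEq]; exact hm2
    rw [h3, h4, mul_one]
  rw [← h1]; exact H.pow_mem hg m

theorem PH_local (hM : IsPModular p M) {H : Subgroup G} {g x : G} (hx : IsPPart p g x) (hg : g ∈ H) :
    PH M b H g = PH M b (Subgroup.centralizer ({x} : Set G) ⊓ H) (x⁻¹ * g) := by
  have hxH : x ∈ H := ppart_mem hx hg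
  obtain ⟨y, hxy, hcomm, hxk, hy⟩ := hx
  have hyd : x⁻¹ * g = y := by rw [← hxy]; group
  have hyH : y ∈ H := by rw [← hyd]; exact mul_mem (inv_mem hxH) hg
  have hyC : y ∈ Subgroup.centralizer ({x} : Set G) := by
    rw [Subgroup.mem_centralizer_singleton_iff]
    exact hcomm.symm.eq
  haveI := Fintype.ofFinite H
  letI : Fintype (Subgroup.centralizer ({(⟨x, hxH⟩ : H)} : Set H)) := Fintype.ofFinite _
  letI : Fintype ↥(Subgroup.centralizer ({x} : Set G) ⊓ H) := Fintype.ofFinite _
  rw [hyd, PH_of hg, PH_of (show y ∈ Subgroup.centralizer ({x} : Set G) ⊓ H from ⟨hyC, hyH⟩)]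
  have hyC' : (⟨y, hyH⟩ : H) ∈ Subgroup.centralizer ({(⟨x, hxH⟩ : H)} : Set H) := by
    rw [Subgroup.mem_centralizer_singleton_iff]
    exact Subtype.ext hcomm.symm.eq
  have h1 := Psi_local (b := b) hM H.subtype (x := (⟨x, hxH⟩ : H)) (by
    obtain ⟨k, hk⟩ := hxk
    exact ⟨k, by rw [← hk, ← Subgroup.orderOf_coe]⟩) (c := ⟨⟨y, hyH⟩, hyC'⟩) (by
    rw [← Subgroup.orderOf_coe, ← Subgroup.orderOf_coe]; exact hy)
  have h2 : (⟨x, hxH⟩ : H) * ((⟨⟨y, hyH⟩, hyC'⟩ : Subgroup.centralizer ({(⟨x, hxH⟩ : H)} : Set H)) : H) = ⟨g, hg⟩ :=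
    Subtype.ext hxy
  rw [h2] at h1
  rw [h1]
  -- equivalence
  let e : Subgroup.centralizer ({(⟨x, hxH⟩ : H)} : Set H) ≃* ↥(Subgroup.centralizer ({x} : Set G) ⊓ H) :=
    { toFun := fun z => ⟨((z : H) : G), by
        refine ⟨Subgroup.mem_centralizer_singleton_iff.mpr ?_, (z : H).2⟩
        have := Subgroup.mem_centralizer_singleton_iff.mp z.2
        exact congrArg Subtype.val this⟩
      invFun := fun z => ⟨⟨z, z.2.2⟩, by
        rw [Subgroup.mem_centralizer_singleton_iff]
        have := Subgroup.mem_centralizer_singleton_iff.mp z.2.1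
        exact Subtype.ext this⟩
      left_inv := fun z => rfl
      right_inv := fun z => rfl
      map_mul' := fun _ _ => rfl }
  exact Psi_equiv e (Subgroup.centralizer ({x} : Set G) ⊓ H).subtype _

end Local

end CfsgLib.Alt20
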