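import Cfsg.Agent.LibAlt20

set_option autoImplicit false
set_option linter.all false
set_option maxHeartbeats 1000000

/-! # The alternating sum over normal chains (helper20) -/

namespace CfsgLib.Alt20

open CfsgLib.CharInt hiding irr_isCharacter irr_classFun irr_one_ne_zero schur_scalar
open Cfsg CfsgLib.CharInt2 CfsgLib.CharBasic CfsgLib.BlockR CfsgLib.BlockCore
  CfsgLib.BlockIdem CfsgLib.BlockIdeal CfsgLib.BlockConj CfsgLib.BlockBrauer CfsgLib.BlockInd
  CfsgLib.BlockOrth CfsgLib.BlockSec3 CfsgLib.Chain20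
open scoped ComplexConjugate Pointwise

universe u

variable {M : Ideal AlgInt} {p : ℕ} [hpf : Fact p.Prime] {G : Type u} [Group G] [Fintype G] {b : Set (IrrCharacter G)}

theorem ppart_pgroup {g x : G} (hx : IsPPart p g x) : IsPGroup p (Subgroup.zpowers x) := by
  obtain ⟨y, _, _, ⟨k, hk⟩, _⟩ := hx
  exact IsPGroup.of_card (n := k) (by rw [Nat.card_zpowers, hk])

open Classical in
theorem chain_sum (hM : IsPModular p M) {g x : G} (hx : IsPPart p g x) (hg : p ∣ orderOf g) :
    ∑ s ∈ (Finset.univ.filter (fun s : Finset (Subgroup G) => NC p s)), (((-1 : ℤ) ^ s.card : ℤ) : ℂ) * PH M b (NS s) g = 0 := by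
  have hx1 : x ≠ 1 := ppart_ne_one hx hg
  have hup := ppart_pgroup hx
  have hgx : g * x * g⁻¹ = x := by
    obtain ⟨y, hxy, hcomm, -, -⟩ := hx
    rw [← hxy]
    have : x * y * x * (x * y)⁻¹ = x * (y * x) * (x * y)⁻¹ := by group
    rw [this, ← hcomm.eq]
    group
  have hxx : x * x * x⁻¹ = x := by group
  have h1 : ∑ s ∈ (Finset.univ.filter (fun s : Finset (Subgroup G) => NC p s)), (((-1 : ℤ) ^ s.card : ℤ) : ℂ) * PH M b (NS s) g =
      ∑ s ∈ (Finset.univ.filter (fun s : Finset (Subgroup G) => NC p s ∧ x ∈ NS s)), (((-1 : ℤ) ^ s.card : ℤ) : ℂ) * PH M b (NS s) g := by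
    symm
    apply Finset.sum_subset
    · intro s hs
      rw [Finset.mem_filter] at hs ⊢
      exact ⟨hs.1, hs.2.1⟩
    · intro s hs hs2
      rw [Finset.mem_filter] at hs hs2
      rw [PH_not, mul_zero]
      intro h
      exact hs2 ⟨hs.1, hs.2, ppart_mem hx h⟩
  rw [h1]
  refine Finset.sum_involution (fun s _ => phi x s) ?_ ?_ ?_ ?_
  · intro s hs
    rw [Finset.mem_filter] at hs
    have h2 : PH M b (NS (phi x s)) g = PH M b (NS s) g := by
      by_cases hgs : g ∈ NS s
      · have hgs' : g ∈ NS (phi x s) := (mem_NS_phi hx1 hs.2.1 hgx).mpr hgs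
        rw [PH_local hM hx hgs, PH_local hM hx hgs']
        congr 1
        ext z
        rw [Subgroup.mem_inf, Subgroup.mem_inf]
        constructor
        · rintro ⟨hz1, hz2⟩
          have hz3 : z * x * z⁻¹ = x := by
            have := Subgroup.mem_centralizer_singleton_iff.mp hz1
            rw [this]; group
          exact ⟨hz1, (mem_NS_phi hx1 hs.2.1 hz3).mp hz2⟩
        · rintro ⟨hz1, hz2⟩
          have hz3 : z * x * z⁻¹ = x := by
            have := Subgroup.mem_centralizer_singleton_iff.mp hz1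
            rw [this]; group
          exact ⟨hz1, (mem_NS_phi hx1 hs.2.1 hz3).mpr hz2⟩
      · have hgs' : g ∉ NS (phi x s) := fun h => hgs ((mem_NS_phi hx1 hs.2.1 hgx).mp h)
        rw [PH_not hgs, PH_not hgs']
    rw [h2, card_phi]
    push_cast
    ring
  · intro s _ _
    exact phi_ne s
  · intro s hs
    rw [Finset.mem_filter] at hs ⊢
    exact ⟨Finset.mem_univ _, phi_NC hx1 hup hs.2.1 hs.2.2, (mem_NS_phi hx1 hs.2.1 hxx).mpr hs.2.2⟩
  · intro s hs
    rw [Finset.mem_filter] at hs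
    exact phi_phi hx1 hs.2.1

theorem NC_empty : NC p (∅ : Finset (Subgroup G)) := by
  refine ⟨?_, ?_, ?_⟩ <;> intro Q hQ <;> simp at hQ

theorem NS_empty : NS (∅ : Finset (Subgroup G)) = ⊤ := by
  ext x
  rw [mem_NS]
  simp

open Classical in
theorem chain_sum' (hM : IsPModular p M) {g : G} (hg : p ∣ orderOf g) :
    PH M b ⊤ g = ∑ s ∈ (Finset.univ.filter (fun s : Finset (Subgroup G) => s.Nonempty ∧ NC p s)),
      (((-1 : ℤ) ^ (s.card - 1) : ℤ) : ℂ) * PH M b (NS s) g := by
  obtain ⟨x, hx⟩ := isPPart_exists p g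
  have h1 := chain_sum (b := b) hM hx hg
  have h2 : (Finset.univ.filter (fun s : Finset (Subgroup G) => NC p s)) =
      insert ∅ (Finset.univ.filter (fun s : Finset (Subgroup G) => s.Nonempty ∧ NC p s)) := by
    ext s
    simp only [Finset.mem_filter, Finset.mem_insert, Finset.mem_univ, true_and]
    constructor
    · intro h
      rcases s.eq_empty_or_nonempty with h3 | h3
      · left; exact h3
      · right; exact ⟨h3, h⟩
    · rintro (rfl | h)
      · exact NC_empty
      · exact h.2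
  rw [h2, Finset.sum_insert (by simp), Finset.card_empty, NS_empty] at h1
  have h3 : ∑ s ∈ (Finset.univ.filter (fun s : Finset (Subgroup G) => s.Nonempty ∧ NC p s)),
      (((-1 : ℤ) ^ (s.card - 1) : ℤ) : ℂ) * PH M b (NS s) g =
      - ∑ s ∈ (Finset.univ.filter (fun s : Finset (Subgroup G) => s.Nonempty ∧ NC p s)),
      (((-1 : ℤ) ^ s.card : ℤ) : ℂ) * PH M b (NS s) g := by
    rw [← Finset.sum_neg_distrib]
    apply Finset.sum_congr rfl
    intro s hs
    rw [Finset.mem_filter] at hs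
    obtain ⟨n, hn⟩ : ∃ n, s.card = n + 1 := ⟨s.card - 1, by have := Finset.card_pos.mpr hs.2.1; omega⟩
    rw [hn, Nat.add_sub_cancel]
    push_cast
    ring
  rw [h3]
  have h4 : (((-1 : ℤ) ^ 0 : ℤ) : ℂ) = 1 := by simp
  rw [h4, one_mul] at h1
  exact eq_neg_of_add_eq_zero_left h1

open Classical in
theorem count_sub (hM : IsPModular p M) (H : Subgroup G) [Fintype H] :
    (Nat.card H : ℂ) * ((Nat.card (UB M b H.subtype) : ℂ) - (blockRank p (UB M b H.subtype) : ℂ)) =
      ∑ g : G, if p ∣ orderOf g then PH M b H g else 0 := by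
  rw [count hM (sat_UB hM H.subtype)]
  refine Fintype.sum_of_injective (fun h : H => (h : G)) Subtype.val_injective _ _ ?_ ?_
  · intro g hg
    have : g ∉ H := fun h => hg ⟨⟨g, h⟩, rfl⟩
    rw [PH_not this]; simp
  · intro h
    rw [PH_of h.2, Subgroup.orderOf_coe]
    rfl

theorem b_eq (hM : IsPModular p M) (hb : IsPBlock M b) : UB M b (MonoidHom.id G) = b := by
  have hp := CfsgLib.BlockR.isPrime_of_modular hM
  ext χ
  constructor
  · intro h
    obtain ⟨χ', hχ'⟩ := block_nonempty hp hb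
    apply mem_of_sameBlock hp hb hχ'
    apply sameBlock_symm
    intro g
    rw [centralChar_eq_omg χ g]
    exact h χ' hχ' g
  · intro h χ' hχ' g
    have h1 := sameBlock_of_mem hp hb h hχ' g
    rw [centralChar_eq_omg χ g] at h1
    exact h1

open Classical in
theorem count_G (hM : IsPModular p M) (hb : IsPBlock M b) :
    (Nat.card G : ℂ) * ((Nat.card b : ℂ) - (blockRank p b : ℂ)) = ∑ g : G, if p ∣ orderOf g then PH M b ⊤ g else 0 := by
  have h1 := count hM (sat_UB (b := b) hM (MonoidHom.id G))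
  rw [b_eq hM hb] at h1
  rw [h1]
  apply Finset.sum_congr rfl
  intro g _
  congr 1
  haveI := Fintype.ofFinite (⊤ : Subgroup G)
  rw [PH_of (Subgroup.mem_top g)]
  have h2 := Psi_equiv (M := M) (b := b) (Subgroup.topEquiv (G := G)) (MonoidHom.id G) ⟨g, Subgroup.mem_top g⟩
  have h3 : (MonoidHom.id G).comp (Subgroup.topEquiv (G := G)).toMonoidHom = (⊤ : Subgroup G).subtype := by
    ext z; rfl
  rw [h3] at h2
  rw [h2]
  unfold Psi
  rw [b_eq hM hb]
  rfl

theorem UB_eq (hM : IsPModular p M) (hb : IsPBlock M b) (H : Subgroup G) [Fintype H] :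
    {ψ : IrrCharacter H | ∃ β : Set (IrrCharacter H), ψ ∈ β ∧ IsInducedBlock M H β b} = UB M b H.subtype := by
  have hp := CfsgLib.BlockR.isPrime_of_modular hM
  ext ψ
  constructor
  · rintro ⟨β, hψ, h1, h2, h3⟩ χ hχ g
    have h4 := h3 ψ hψ χ hχ g
    rw [inducedCentralChar_eq] at h4
    exact h4
  · intro h
    refine ⟨blockOf M (ψ : H → ℂ), mem_blockOf_self hp ψ, ⟨ψ, rfl⟩, hb, fun ξ hξ χ hχ g => ?_⟩
    rw [inducedCentralChar_eq]
    exact sat_UB hM H.subtype ψ h ξ hξ χ hχ g

open Classical in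
theorem main (hM : IsPModular p M) (hb : IsPBlock M b) :
    (Nat.card G : ℤ) * ((Nat.card b : ℤ) - (blockRank p b : ℤ)) =
      ∑ s ∈ (Finset.univ.filter (fun s : Finset (Subgroup G) => s.Nonempty ∧ NC p s)),
        (-1 : ℤ) ^ (s.card - 1) * (Nat.card (NS s) : ℤ) *
          ((Nat.card {ψ : IrrCharacter (NS s) | ∃ β : Set (IrrCharacter (NS s)), ψ ∈ β ∧ IsInducedBlock M (NS s) β b} : ℤ) -
            (blockRank p {ψ : IrrCharacter (NS s) | ∃ β : Set (IrrCharacter (NS s)), ψ ∈ β ∧ IsInducedBlock M (NS s) β b} : ℤ)) := by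
  have h : (((Nat.card G : ℤ) * ((Nat.card b : ℤ) - (blockRank p b : ℤ)) : ℤ) : ℂ) =
      ((∑ s ∈ (Finset.univ.filter (fun s : Finset (Subgroup G) => s.Nonempty ∧ NC p s)),
        (-1 : ℤ) ^ (s.card - 1) * (Nat.card (NS s) : ℤ) *
          ((Nat.card {ψ : IrrCharacter (NS s) | ∃ β : Set (IrrCharacter (NS s)), ψ ∈ β ∧ IsInducedBlock M (NS s) β b} : ℤ) -
            (blockRank p {ψ : IrrCharacter (NS s) | ∃ β : Set (IrrCharacter (NS s)), ψ ∈ β ∧ IsInducedBlock M (NS s) β b} : ℤ)) : ℤ) : ℂ) := by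
    rw [Int.cast_mul, Int.cast_sub, Int.cast_natCast, Int.cast_natCast, Int.cast_natCast, count_G hM hb, Int.cast_sum]
    have e1 : ∀ s : Finset (Subgroup G), (((-1 : ℤ) ^ (s.card - 1) * (Nat.card (NS s) : ℤ) *
          ((Nat.card {ψ : IrrCharacter (NS s) | ∃ β : Set (IrrCharacter (NS s)), ψ ∈ β ∧ IsInducedBlock M (NS s) β b} : ℤ) -
            (blockRank p {ψ : IrrCharacter (NS s) | ∃ β : Set (IrrCharacter (NS s)), ψ ∈ β ∧ IsInducedBlock M (NS s) β b} : ℤ)) : ℤ) : ℂ) =
          (((-1 : ℤ) ^ (s.card - 1) : ℤ) : ℂ) * ∑ g : G, if p ∣ orderOf g then PH M b (NS s) g else 0 := by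
      intro s
      haveI := Fintype.ofFinite (NS s)
      rw [← count_sub hM (NS s), UB_eq hM hb (NS s), Int.cast_mul, Int.cast_mul, Int.cast_sub, Int.cast_natCast, Int.cast_natCast, Int.cast_natCast]
      ring
    rw [Finset.sum_congr rfl fun s _ => e1 s]
    simp only [Finset.mul_sum]
    rw [Finset.sum_comm]
    apply Finset.sum_congr rfl
    intro g _
    by_cases hg : p ∣ orderOf g
    · simp only [if_pos hg]
      exact chain_sum' hM hg
    · simp only [if_neg hg, mul_zero, Finset.sum_const_zero]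
  exact_mod_cast h

end CfsgLib.Alt20
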