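import Cfsg.Agent.LibUnipA

set_option autoImplicit false

/-! Norm of the alternating sum of parabolic permutation characters (seat helper15). -/

namespace CfsgLib.AltSum

variable {G : Type*} [Group G] [Finite G]

/-- abstract system with two-sided positivity -/
structure Sys2 (B : Subgroup G) (P : Finset ℕ → Subgroup G) (Pos : G → ℕ → Prop) (S : Finset ℕ) : Prop where
  BP : ∀ J, B ≤ P J
  dc : ∀ b ∈ B, ∀ b' ∈ B, ∀ x i, Pos (b * x * b') i ↔ Pos x i
  ex : ∀ I J x, ∃ p ∈ P I, ∃ q ∈ P J, (∀ j ∈ J, Pos (p * x * q) j) ∧ ∀ i ∈ I, Pos (p * x * q)⁻¹ i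
  un : ∀ I J x p q, p ∈ P I → q ∈ P J → (∀ j ∈ J, Pos x j) → (∀ i ∈ I, Pos x⁻¹ i) → (∀ j ∈ J, Pos (p * x * q) j) →
    (∀ i ∈ I, Pos (p * x * q)⁻¹ i) → ∃ b ∈ B, ∃ b' ∈ B, p * x * q = b * x * b'
  neg : ∃ x0, (∀ i ∈ S, ¬ Pos x0 i) ∧ (∀ i ∈ S, ¬ Pos x0⁻¹ i) ∧ ∀ x, (∀ i ∈ S, ¬ Pos x i) → ∃ b ∈ B, ∃ b' ∈ B, x = b * x0 * b'

/-- double coset -/
def cl (B : Subgroup G) (x : G) : Set G := {y | ∃ b ∈ B, ∃ b' ∈ B, y = b * x * b'}

omit [Finite G] in
theorem mem_cl (B : Subgroup G) (x : G) : x ∈ cl B x := ⟨1, B.one_mem, 1, B.one_mem, by group⟩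

omit [Finite G] in
theorem cl_eq_iff {B : Subgroup G} {x y : G} : cl B x = cl B y ↔ ∃ b ∈ B, ∃ b' ∈ B, y = b * x * b' := by
  constructor
  · intro h
    have := mem_cl B y
    rw [← h] at this
    exact this
  · rintro ⟨b, hb, b', hb', rfl⟩
    ext z
    constructor
    · rintro ⟨c, hc, c', hc', rfl⟩
      exact ⟨c * b⁻¹, B.mul_mem hc (B.inv_mem hb), b'⁻¹ * c', B.mul_mem (B.inv_mem hb') hc', by group⟩
    · rintro ⟨c, hc, c', hc', rfl⟩
      exact ⟨c * b, B.mul_mem hc hb, b' * c', B.mul_mem hb' hc', by group⟩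

theorem sum_sub (S : Finset ℕ) (A : ℕ → Prop) [DecidablePred A] :
    ∑ J ∈ S.powerset, (-1 : ℤ) ^ J.card * (if ∀ j ∈ J, A j then 1 else 0) = if ∀ j ∈ S, ¬ A j then 1 else 0 := by
  classical
  have h2 : (∀ j ∈ S, ¬ A j) ↔ S.filter A = ∅ := by rw [Finset.filter_eq_empty_iff]
  rw [if_congr h2 rfl rfl]
  rw [← Finset.sum_powerset_neg_one_pow_card]
  have h1 : (S.filter A).powerset = S.powerset.filter (fun J => ∀ j ∈ J, A j) := by
    ext J
    rw [Finset.mem_filter, Finset.mem_powerset, Finset.mem_powerset]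
    constructor
    · intro h
      exact ⟨h.trans (Finset.filter_subset _ _), fun j hj => (Finset.mem_filter.1 (h hj)).2⟩
    · rintro ⟨h3, h4⟩ j hj
      exact Finset.mem_filter.2 ⟨h3 hj, h4 j hj⟩
  rw [h1, Finset.sum_filter]
  apply Finset.sum_congr rfl
  intro J _
  split_ifs <;> simp

variable {B : Subgroup G} {P : Finset ℕ → Subgroup G} {Pos : G → ℕ → Prop} {S : Finset ℕ} (h : Sys2 B P Pos S)
include h

theorem card_pairs (I J : Finset ℕ) :
    Nat.card (MulAction.orbitRel.Quotient G ((G ⧸ P I) × (G ⧸ P J))) =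
    Nat.card {c : Set G // ∃ x, c = cl B x ∧ (∀ j ∈ J, Pos x j) ∧ ∀ i ∈ I, Pos x⁻¹ i} := by
  choose p hp q hq h1 h2 using h.ex I J
  refine CfsgLib.Unip.orb (P I) (P J) (fun x => ⟨cl B (p x * x * q x), p x * x * q x, rfl, h1 x, h2 x⟩) ?_ ?_
  · rintro ⟨c, x, rfl, h3, h4⟩
    refine ⟨x, Subtype.ext ?_⟩
    show cl B (p x * x * q x) = cl B x
    rw [eq_comm, cl_eq_iff]
    exact h.un I J x (p x) (q x) (hp x) (hq x) h3 h4 (h1 x) (h2 x)
  · intro x y
    rw [Subtype.mk.injEq, cl_eq_iff]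
    constructor
    · rintro ⟨b, hb, b', hb', e⟩
      refine ⟨(p y)⁻¹ * b * p x, (P I).mul_mem ((P I).mul_mem ((P I).inv_mem (hp y)) (h.BP I hb)) (hp x),
        q x * b' * (q y)⁻¹, (P J).mul_mem ((P J).mul_mem (hq x) (h.BP J hb')) ((P J).inv_mem (hq y)), ?_⟩
      calc y = (p y)⁻¹ * (p y * y * q y) * (q y)⁻¹ := by group
        _ = _ := by rw [e]; group
    · rintro ⟨a, ha, c, hc, rfl⟩
      have e : p (a * x * c) * (a * x * c) * q (a * x * c) = (p (a * x * c) * a * (p x)⁻¹) * (p x * x * q x) *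
          ((q x)⁻¹ * c * q (a * x * c)) := by group
      have h3 := h1 (a * x * c)
      have h4 := h2 (a * x * c)
      rw [e] at h3 h4
      obtain ⟨b, hb, b', hb', e2⟩ := h.un I J (p x * x * q x) (p (a * x * c) * a * (p x)⁻¹) ((q x)⁻¹ * c * q (a * x * c))
        ((P I).mul_mem ((P I).mul_mem (hp _) ha) ((P I).inv_mem (hp x)))
        ((P J).mul_mem ((P J).mul_mem ((P J).inv_mem (hq x)) hc) (hq _)) (h1 x) (h2 x) h3 h4
      exact ⟨b, hb, b', hb', by rw [e, e2]⟩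

/-- the double alternating sum is one -/
theorem norm_sum : ∑ I ∈ S.powerset, ∑ J ∈ S.powerset, (-1 : ℤ) ^ I.card * ((-1 : ℤ) ^ J.card *
    (Nat.card (MulAction.orbitRel.Quotient G ((G ⧸ P I) × (G ⧸ P J))) : ℤ)) = 1 := by
  classical
  have : Fintype (Set G) := Fintype.ofFinite _
  let Y : Finset (Set G) := Finset.univ.filter (fun c => ∃ x, c = cl B x)
  let R : Set G → ℕ → Prop := fun c j => ∃ x, c = cl B x ∧ Pos x j
  let L : Set G → ℕ → Prop := fun c i => ∃ x, c = cl B x ∧ Pos x⁻¹ i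
  have hR : ∀ x j, R (cl B x) j ↔ Pos x j := by
    intro x j
    constructor
    · rintro ⟨y, e, hy⟩
      obtain ⟨b, hb, b', hb', rfl⟩ := cl_eq_iff.1 e
      exact (h.dc b hb b' hb' x j).1 hy
    · intro hx; exact ⟨x, rfl, hx⟩
  have hL : ∀ x i, L (cl B x) i ↔ Pos x⁻¹ i := by
    intro x j
    constructor
    · rintro ⟨y, e, hy⟩
      obtain ⟨b, hb, b', hb', rfl⟩ := cl_eq_iff.1 e
      have e2 : (b * x * b')⁻¹ = b'⁻¹ * x⁻¹ * b⁻¹ := by group
      rw [e2] at hy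
      exact (h.dc _ (B.inv_mem hb') _ (B.inv_mem hb) _ j).1 hy
    · intro hx; exact ⟨x, rfl, hx⟩
  have e1 : ∀ I J : Finset ℕ, (Nat.card (MulAction.orbitRel.Quotient G ((G ⧸ P I) × (G ⧸ P J))) : ℤ) =
      ∑ c ∈ Y, (if ∀ i ∈ I, L c i then 1 else 0) * (if ∀ j ∈ J, R c j then 1 else 0) := by
    intro I J
    rw [card_pairs h I J, Nat.card_eq_fintype_card, Fintype.card_subtype, Finset.card_filter, Finset.sum_filter]
    push_cast
    apply Finset.sum_congr rfl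
    intro c _
    by_cases hc : ∃ x, c = cl B x
    · rw [if_pos hc]
      obtain ⟨x, rfl⟩ := hc
      have : (∃ y, cl B x = cl B y ∧ (∀ j ∈ J, Pos y j) ∧ ∀ i ∈ I, Pos y⁻¹ i) ↔
          (∀ i ∈ I, L (cl B x) i) ∧ (∀ j ∈ J, R (cl B x) j) := by
        constructor
        · rintro ⟨y, e, h3, h4⟩
          rw [e]
          exact ⟨fun i hi => (hL y i).2 (h4 i hi), fun j hj => (hR y j).2 (h3 j hj)⟩
        · rintro ⟨h3, h4⟩
          exact ⟨x, rfl, fun j hj => (hR x j).1 (h4 j hj), fun i hi => (hL x i).1 (h3 i hi)⟩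
      rw [if_congr this rfl rfl]
      by_cases ha : ∀ i ∈ I, L (cl B x) i
      · by_cases hb : ∀ j ∈ J, R (cl B x) j
        · rw [if_pos ⟨ha, hb⟩, if_pos ha, if_pos hb]; rfl
        · rw [if_neg (fun h => hb h.2), if_neg hb]; simp
      · rw [if_neg (fun h => ha h.1), if_neg ha]; simp
    · rw [if_neg hc, if_neg]
      rintro ⟨x, e, _⟩
      exact hc ⟨x, e⟩
  have e2 : ∑ I ∈ S.powerset, ∑ J ∈ S.powerset, (-1 : ℤ) ^ I.card * ((-1 : ℤ) ^ J.card *
      (Nat.card (MulAction.orbitRel.Quotient G ((G ⧸ P I) × (G ⧸ P J))) : ℤ)) =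
      ∑ c ∈ Y, (∑ I ∈ S.powerset, (-1 : ℤ) ^ I.card * (if ∀ i ∈ I, L c i then 1 else 0)) *
        (∑ J ∈ S.powerset, (-1 : ℤ) ^ J.card * (if ∀ j ∈ J, R c j then 1 else 0)) := by
    simp only [Finset.sum_mul_sum]
    conv_rhs => rw [Finset.sum_comm]
    apply Finset.sum_congr rfl
    intro I _
    conv_rhs => rw [Finset.sum_comm]
    apply Finset.sum_congr rfl
    intro J _
    rw [e1 I J, Finset.mul_sum, Finset.mul_sum]
    apply Finset.sum_congr rfl
    intro c _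
    ring
  rw [e2]
  obtain ⟨x0, hx1, hx2, hx3⟩ := h.neg
  have e3 : ∀ c ∈ Y, (∑ I ∈ S.powerset, (-1 : ℤ) ^ I.card * (if ∀ i ∈ I, L c i then 1 else 0)) *
        (∑ J ∈ S.powerset, (-1 : ℤ) ^ J.card * (if ∀ j ∈ J, R c j then 1 else 0)) = if c = cl B x0 then 1 else 0 := by
    intro c hc
    simp only [Y, Finset.mem_filter, Finset.mem_univ, true_and] at hc
    obtain ⟨x, rfl⟩ := hc
    rw [sum_sub S (L (cl B x)), sum_sub S (R (cl B x))]
    by_cases e : cl B x = cl B x0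
    · rw [if_pos e, if_pos, if_pos, one_mul]
      · intro j hj
        rw [e, hR]; exact hx1 j hj
      · intro j hj
        rw [e, hL]; exact hx2 j hj
    · rw [if_neg e]
      have : ¬ ∀ j ∈ S, ¬ R (cl B x) j := by
        intro h3
        apply e
        rw [eq_comm, cl_eq_iff]
        exact hx3 x (fun i hi hp => h3 i hi ((hR x i).2 hp))
      rw [if_neg this, mul_zero]
  rw [Finset.sum_congr rfl e3, Finset.sum_ite_eq' , if_pos]
  simp only [Y, Finset.mem_filter, Finset.mem_univ, true_and]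
  exact ⟨x0, rfl⟩

end CfsgLib.AltSum
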