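import Mathlib

/-! Clifford theory for a subalgebra of `End V` normalised by an irreducible group. -/
set_option autoImplicit false

namespace CfsgLib.Asch1

open Module

variable {F V : Type*} [Field F] [AddCommGroup V] [Module F V]

section clifford

variable (A : Subalgebra F (End F V))

/-- restriction of scalars of a sub-A-module to F -/
def res (W : Submodule A V) : Submodule F V :=
  { carrier := W, add_mem' := W.add_mem, zero_mem' := W.zero_mem,
    smul_mem' := fun c x hx => by
      have h1 : (algebraMap F A c) • x = c • x := rfl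
      change c • x ∈ W
      rw [← h1]; exact W.smul_mem _ hx }

@[simp] theorem mem_res (W : Submodule A V) (x : V) : x ∈ res A W ↔ x ∈ W := Iff.rfl

theorem res_injective : Function.Injective (res A) := by
  intro W W' h
  ext x
  rw [← mem_res A, h, mem_res]

theorem res_le {W W' : Submodule A V} : res A W ≤ res A W' ↔ W ≤ W' := Iff.rfl

variable {A}

/-- an F-subspace invariant under A as an A-submodule -/
def ofInv (W : Submodule F V) (h : ∀ a ∈ A, ∀ w ∈ W, a w ∈ W) : Submodule A V :=
  { carrier := W, add_mem' := W.add_mem, zero_mem' := W.zero_mem,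
    smul_mem' := fun c x hx => h c c.2 x hx }

/-- the image of an A-submodule by an element normalising A -/
def tw (h : V ≃ₗ[F] V) (hA : ∀ a ∈ A, (h.symm : V →ₗ[F] V) ∘ₗ a ∘ₗ (h : V →ₗ[F] V) ∈ A)
    (W : Submodule A V) : Submodule A V :=
  { carrier := h '' W
    add_mem' := by
      rintro _ _ ⟨x, hx, rfl⟩ ⟨y, hy, rfl⟩
      exact ⟨x + y, W.add_mem hx hy, by simp⟩
    zero_mem' := ⟨0, W.zero_mem, by simp⟩
    smul_mem' := by
      rintro a _ ⟨x, hx, rfl⟩
      refine ⟨h.symm (a.1 (h x)), ?_, by simp; rfl⟩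
      exact W.smul_mem (⟨_, hA a a.2⟩ : A) hx }

theorem mem_tw (h : V ≃ₗ[F] V) (hA) (W : Submodule A V) (x : V) :
    x ∈ tw h hA W ↔ h.symm x ∈ W := by
  constructor
  · rintro ⟨y, hy, rfl⟩; simpa using hy
  · intro hx; exact ⟨h.symm x, hx, by simp⟩

/-- normalising pairs -/
def Nrm (A : Subalgebra F (End F V)) (h : V ≃ₗ[F] V) : Prop :=
  (∀ a ∈ A, (h.symm : V →ₗ[F] V) ∘ₗ a ∘ₗ (h : V →ₗ[F] V) ∈ A) ∧
  (∀ a ∈ A, (h : V →ₗ[F] V) ∘ₗ a ∘ₗ (h.symm : V →ₗ[F] V) ∈ A)

/-- order isomorphism of the lattice of A-submodules -/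
def twIso (h : V ≃ₗ[F] V) (hA : Nrm A h) : Submodule A V ≃o Submodule A V where
  toFun := tw h hA.1
  invFun := tw h.symm (by simpa using hA.2)
  left_inv W := by
    ext x; simp [mem_tw]
  right_inv W := by
    ext x; simp [mem_tw]
  map_rel_iff' := by
    intro W W'
    constructor
    · intro hle x hx
      have h1 : h x ∈ tw h hA.1 W := (mem_tw _ _ _ _).2 (by simpa using hx)
      have h2 := hle h1
      exact by simpa [mem_tw] using h2
    · intro hle x hx
      exact (mem_tw h hA.1 _ _).2 (hle ((mem_tw h hA.1 _ _).1 hx))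

theorem mem_twIso (h : V ≃ₗ[F] V) (hA : Nrm A h) (W : Submodule A V) (x : V) :
    x ∈ twIso h hA W ↔ h.symm x ∈ W := mem_tw h hA.1 _ _

theorem res_twIso (h : V ≃ₗ[F] V) (hA : Nrm A h) (W : Submodule A V) :
    res A (twIso h hA W) = (res A W).map (h : V →ₗ[F] V) := by
  ext x
  rw [mem_res, mem_twIso]
  constructor
  · intro hx; exact ⟨h.symm x, hx, by simp⟩
  · rintro ⟨y, hy, rfl⟩; simpa using hy

variable [FiniteDimensional F V]

instance instArtinianA : IsArtinian A V := by
  have : IsArtinian F V := inferInstance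
  exact isArtinian_of_tower F this

instance instNoetherianA : IsNoetherian A V := by
  have : IsNoetherian F V := inferInstance
  exact isNoetherian_of_tower F this

theorem semisimple (H : Set (V ≃ₗ[F] V))
    (hirr : ∀ W : Submodule F V, (∀ h ∈ H, W.map (h : V →ₗ[F] V) ≤ W) → W = ⊥ ∨ W = ⊤)
    (hn : ∀ h ∈ H, Nrm A h) : IsSemisimpleModule A V := by
  rcases subsingleton_or_nontrivial V with hV | hV
  · infer_instance
  set T : Submodule A V := sSup {m : Submodule A V | IsSimpleModule A m} with hT
  have hinv : ∀ h ∈ H, (res A T).map (h : V →ₗ[F] V) ≤ res A T := by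
    intro h hh
    rw [← res_twIso h (hn h hh), res_le]
    rw [hT, (twIso h (hn h hh)).map_sSup]
    refine iSup_le fun m => iSup_le fun hm => ?_
    refine le_sSup ?_
    change IsSimpleModule A _
    change IsSimpleModule A _ at hm
    rw [isSimpleModule_iff_isAtom] at hm ⊢
    exact ((twIso h (hn h hh)).isAtom_iff m).2 hm
  rcases hirr _ hinv with h0 | h1
  · exfalso
    obtain ⟨m, hm, -⟩ := (IsAtomic.eq_bot_or_exists_atom_le (⊤ : Submodule A V)).resolve_left
      (by
        intro h
        obtain ⟨x, hx⟩ := exists_ne (0 : V)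
        have : x ∈ (⊤ : Submodule A V) := trivial
        rw [h] at this
        exact hx (by simpa using this))
    have hm' : m ≤ T := le_sSup (by change IsSimpleModule A _; rwa [isSimpleModule_iff_isAtom])
    have : m = ⊥ := by
      rw [eq_bot_iff]
      intro x hx
      have : x ∈ res A T := hm' hx
      rw [h0] at this
      simpa using this
    exact hm.1 this
  · have hT' : T = ⊤ := by
      rw [eq_top_iff]
      intro x _
      have : x ∈ res A T := by rw [h1]; trivial
      exact this
    exact IsSemisimpleModule.of_sSup_simples_eq_top hT'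

omit [FiniteDimensional F V] in
theorem fullyInvariant_iff (W : Submodule A V) :
    W.IsFullyInvariant ↔ ∀ f : End F V, (∀ a ∈ A, f * a = a * f) → ∀ x ∈ W, f x ∈ W := by
  constructor
  · intro h f hf x hx
    have hs : ∀ (a : A) (x : V), f (a • x) = a • f x := by
      intro a x
      have := congrArg (fun u : End F V => u x) (hf a a.2)
      exact this
    let g : End A V := ⟨f.toAddHom, hs⟩
    exact h g hx
  · intro h g x hx
    refine h { toFun := g, map_add' := g.map_add, map_smul' := ?_ } ?_ x hx
    · intro c x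
      have : c • x = (algebraMap F A c) • x := rfl
      rw [this, map_smul]; rfl
    · intro a ha
      ext x
      exact g.map_smul (⟨a, ha⟩ : A) x

omit [FiniteDimensional F V] in
theorem twIso_fullyInvariant (h : V ≃ₗ[F] V) (hA : Nrm A h) (W : Submodule A V)
    (hW : W.IsFullyInvariant) : (twIso h hA W).IsFullyInvariant := by
  rw [fullyInvariant_iff] at hW ⊢
  intro f hf x hx
  rw [mem_twIso] at hx ⊢
  have := hW ((h.symm : V →ₗ[F] V) ∘ₗ f ∘ₗ (h : V →ₗ[F] V)) ?_ _ hx
  · simpa using this
  · intro a ha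
    have h1 := hf _ (hA.2 a ha)
    ext y
    have h2 := congrArg (fun u : End F V => h.symm (u (h y))) h1
    simpa using h2

theorem mem_components_iff [IsSemisimpleModule A V] (W : Submodule A V) :
    W ∈ isotypicComponents A V ↔
      Minimal (fun m : Submodule A V => m ≠ ⊥ ∧ m.IsFullyInvariant) W := by
  have key : ∀ N : Submodule A V, N ≠ ⊥ → N.IsFullyInvariant →
      ∃ c ∈ isotypicComponents A V, c ≤ N := by
    intro N hN hf
    obtain ⟨s, hs, rfl⟩ := isFullyInvariant_iff_sSup_isotypicComponents.1 hf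
    rcases s.eq_empty_or_nonempty with rfl | ⟨c, hc⟩
    · simp at hN
    · exact ⟨c, hs hc, le_sSup hc⟩
  have ne : ∀ c ∈ isotypicComponents A V, c ≠ ⊥ := fun c hc => (bot_lt_isotypicComponents hc).ne'
  constructor
  · intro hW
    refine ⟨⟨ne W hW, .of_mem_isotypicComponents hW⟩, ?_⟩
    rintro N ⟨hN, hf⟩ hle
    obtain ⟨c, hc, hcN⟩ := key N hN hf
    by_cases hcW : c = W
    · rwa [hcW] at hcN
    · exfalso
      have hd := (sSupIndep_isotypicComponents A V).pairwiseDisjoint hc hW hcW
      exact ne c hc (by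
        have : c ≤ ⊥ := hd le_rfl (hcN.trans hle)
        simpa using this)
  · rintro ⟨⟨hW, hf⟩, hmin⟩
    obtain ⟨c, hc, hcW⟩ := key W hW hf
    have h1 : W ≤ c := hmin ⟨ne c hc, .of_mem_isotypicComponents hc⟩ hcW
    rwa [le_antisymm h1 hcW]

theorem twIso_mem_components [IsSemisimpleModule A V] (h : V ≃ₗ[F] V) (hA : Nrm A h)
    (W : Submodule A V) (hW : W ∈ isotypicComponents A V) :
    twIso h hA W ∈ isotypicComponents A V := by
  rw [mem_components_iff] at hW ⊢
  have hA' : Nrm A h.symm := by
    refine ⟨?_, ?_⟩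
    · simpa using hA.2
    · simpa using hA.1
  have hinv : ∀ W : Submodule A V, twIso h.symm hA' (twIso h hA W) = W := by
    intro W; ext x; simp [mem_twIso]
  refine ⟨⟨?_, twIso_fullyInvariant h hA _ hW.1.2⟩, ?_⟩
  · rw [Ne, map_eq_bot_iff]
    exact hW.1.1
  · rintro N ⟨hN, hf⟩ hle
    have h1 : twIso h.symm hA' N ≤ W := by
      rw [← hinv W]; exact (twIso h.symm hA').monotone hle
    have h2 := hW.2 (y := twIso h.symm hA' N) ⟨by rw [Ne, map_eq_bot_iff]; exact hN,
      twIso_fullyInvariant _ _ _ hf⟩ h1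
    have h3 := (twIso h hA).monotone h2
    refine h3.trans (le_of_eq ?_)
    ext x; simp [mem_twIso]

/-- the data of a decomposition preserved by H -/
def HasDec (H : Set (V ≃ₗ[F] V)) : Prop :=
  ∃ (t m : ℕ) (D : Fin t → Submodule F V), 2 ≤ t ∧ 0 < m ∧ (∀ i, finrank F (D i) = m) ∧
    iSupIndep D ∧ iSup D = ⊤ ∧
    ∀ h ∈ H, ∃ σ : Equiv.Perm (Fin t), ∀ i, (D i).map (h : V →ₗ[F] V) = D (σ i)

theorem clifford (H : Set (V ≃ₗ[F] V))
    (hirr : ∀ W : Submodule F V, (∀ h ∈ H, W.map (h : V →ₗ[F] V) ≤ W) → W = ⊥ ∨ W = ⊤)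
    (hn : ∀ h ∈ H, Nrm A h) (hdec : ¬ HasDec H) :
    IsSemisimpleModule A V ∧ IsIsotypic A V := by
  have hss := semisimple H hirr hn
  refine ⟨hss, ?_⟩
  by_contra hiso
  have hfin : Finite (isotypicComponents A V) := inferInstance
  have ind := sSupIndep_isotypicComponents A V
  have stop := sSup_isotypicComponents A V
  -- the components
  set S := isotypicComponents A V with hS
  have ne : ∀ c ∈ S, c ≠ ⊥ := fun c hc => (bot_lt_isotypicComponents hc).ne'
  have hnt : Nontrivial V := by
    by_contra hcon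
    rw [not_nontrivial_iff_subsingleton] at hcon
    exact hiso (IsIsotypic.of_subsingleton A V)
  have hSne : S.Nonempty := by
    rw [Set.nonempty_iff_ne_empty]
    intro h
    rw [h, sSup_empty] at stop
    obtain ⟨x, hx⟩ := exists_ne (0 : V)
    have : x ∈ (⊤ : Submodule A V) := trivial
    rw [← stop] at this
    exact hx (by simpa using this)
  obtain ⟨c₀, hc₀⟩ := hSne
  -- orbit closure
  let d := finrank F (res A c₀)
  -- components of dimension d form an invariant family
  let O : Set (Submodule A V) := {c | c ∈ S ∧ finrank F (res A c) = d}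
  have hO : res A (sSup O) = ⊤ := by
    refine (hirr _ ?_).resolve_left ?_
    · intro h hh
      rw [← res_twIso h (hn h hh), res_le, (twIso h (hn h hh)).map_sSup]
      refine iSup_le fun m => iSup_le fun hm => ?_
      refine le_sSup ⟨twIso_mem_components h (hn h hh) m hm.1, ?_⟩
      rw [res_twIso, ← hm.2]
      exact LinearEquiv.finrank_map_eq h (res A m)
    · intro h0
      refine ne c₀ hc₀ ?_
      rw [eq_bot_iff]
      intro x hx
      have h1 : c₀ ≤ sSup O := le_sSup ⟨hc₀, rfl⟩
      have : x ∈ res A (sSup O) := h1 hx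
      rw [h0] at this
      simpa using this
  have hO' : sSup O = ⊤ := by
    apply res_injective A
    rw [hO]
    ext x; simp
  have hdim : ∀ c ∈ S, finrank F (res A c) = d := by
    intro c hc
    by_contra hcd
    have hd : Disjoint c (sSup O) := by
      refine (ind hc).mono_right (sSup_le_sSup ?_)
      rintro b ⟨hb, hbd⟩
      refine ⟨hb, ?_⟩
      rintro rfl
      exact hcd hbd
    rw [hO'] at hd
    exact ne c hc (by simpa using hd)
  apply hdec
  classical
  have : Fintype S := Fintype.ofFinite _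
  let e : Fin (Fintype.card S) ≃ S := (Fintype.equivFin S).symm
  refine ⟨Fintype.card S, d, fun i => res A (e i).1, ?_, ?_, fun i => hdim _ (e i).2, ?_, ?_, ?_⟩
  · by_contra hlt
    have hle : Fintype.card S ≤ 1 := by omega
    rw [Fintype.card_le_one_iff_subsingleton] at hle
    apply hiso
    have : c₀ = ⊤ := by
      rw [← stop]
      apply le_antisymm (le_sSup hc₀)
      refine sSup_le fun b hb => ?_
      have := hle.elim ⟨b, hb⟩ ⟨c₀, hc₀⟩
      exact (congrArg Subtype.val this).le
    have h1 := (mem_isotypicComponents_iff.1 hc₀).1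
    rw [this] at h1
    exact (Submodule.topEquiv.isIsotypic_iff).1 h1
  · have : Nontrivial (res A c₀) := by
      rw [Submodule.nontrivial_iff_ne_bot]
      intro h
      apply ne c₀ hc₀
      apply res_injective A
      rw [h]; ext x; simp
    exact finrank_pos
  · have h1 : iSupIndep (fun i : S => i.1) := (sSupIndep_iff _).1 ind
    have h2 : iSupIndep (fun i => (e i).1) := h1.comp e.injective
    intro i
    have h3 := h2 i
    rw [disjoint_iff] at h3 ⊢
    rw [eq_bot_iff]
    intro x hx
    obtain ⟨hx1, hx2⟩ := hx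
    have hx3 : x ∈ (⨆ j, ⨆ (_ : j ≠ i), (e j).1 : Submodule A V) := by
      have : (⨆ j, ⨆ (_ : j ≠ i), res A (e j).1 : Submodule F V) ≤
          res A (⨆ j, ⨆ (_ : j ≠ i), (e j).1 : Submodule A V) := by
        refine iSup_le fun j => iSup_le fun hj => ?_
        rw [res_le]
        exact le_iSup_of_le j (le_iSup_of_le hj le_rfl)
      exact this hx2
    have : x ∈ ((e i).1 ⊓ ⨆ j, ⨆ (_ : j ≠ i), (e j).1 : Submodule A V) := ⟨hx1, hx3⟩
    rw [h3] at this
    simpa using this
  · -- sup is top
    have h1 : ∀ W : Submodule F V, (∀ i, res A (e i).1 ≤ W) → ∀ h : (∀ a ∈ A, ∀ w ∈ W, a w ∈ W), W = ⊤ := by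
      intro W hW hinv
      have h2 : sSup S ≤ ofInv W hinv := by
        refine sSup_le fun b hb => ?_
        have := hW (e.symm ⟨b, hb⟩)
        rw [Equiv.apply_symm_apply] at this
        exact this
      rw [stop] at h2
      rw [eq_top_iff]
      intro x _
      exact h2 (show x ∈ (⊤ : Submodule A V) from trivial)
    refine h1 _ (fun i => le_iSup (fun i => res A (e i).1) i) ?_
    intro a ha w hw
    have : (⨆ i, res A (e i).1 : Submodule F V).map a ≤ ⨆ i, res A (e i).1 := by
      rw [Submodule.map_iSup]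
      refine iSup_mono fun i => ?_
      rintro _ ⟨y, hy, rfl⟩
      exact (e i).1.smul_mem (⟨a, ha⟩ : A) hy
    exact this ⟨w, hw, rfl⟩
  · intro h hh
    let f : S → S := fun c => ⟨twIso h (hn h hh) c.1, twIso_mem_components h (hn h hh) c.1 c.2⟩
    have hf : Function.Injective f := by
      intro c c' hcc
      apply Subtype.ext
      exact (twIso h (hn h hh)).injective (congrArg Subtype.val hcc)
    let g : Equiv.Perm S := Equiv.ofBijective f (Finite.injective_iff_bijective.1 hf)
    refine ⟨(e.trans g).trans e.symm, fun i => ?_⟩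
    rw [← res_twIso h (hn h hh)]
    simp [g, f, Equiv.ofBijective]
end clifford

end CfsgLib.Asch1
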