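import Mathlib

/-! group theory: minimal non-central normal subgroups of a subgroup H of a finite group -/
set_option autoImplicit false

namespace CfsgLib.Asch10

variable {G : Type*} [Group G]

/-- `N` is normalised by `H` -/
def Nrd (H N : Subgroup G) : Prop := ∀ h ∈ H, ∀ x ∈ N, h * x * h⁻¹ ∈ N

/-- N ≤ H, normalised by H, not contained in Z -/
def Nz (Z H N : Subgroup G) : Prop := N ≤ H ∧ Nrd H N ∧ ¬ N ≤ Z

theorem Nrd.map_eq {H N : Subgroup G} (h : Nrd H N) {g : G} (hg : g ∈ H) :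
    N.map (MulAut.conj g).toMonoidHom = N := by
  apply le_antisymm
  · rintro _ ⟨x, hx, rfl⟩
    exact h g hg x hx
  · intro x hx
    refine ⟨g⁻¹ * x * g, ?_, by simp [mul_assoc]⟩
    have := h g⁻¹ (H.inv_mem hg) x hx
    rwa [inv_inv] at this

theorem mem_map_conj (g x : G) (S : Subgroup G) :
    x ∈ S.map (MulAut.conj g).toMonoidHom ↔ g⁻¹ * x * g ∈ S := by
  constructor
  · rintro ⟨y, hy, rfl⟩
    have : g⁻¹ * (MulAut.conj g).toMonoidHom y * g = y := by simp [mul_assoc]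
    rwa [this]
  · intro hx
    exact ⟨_, hx, by simp [mul_assoc]⟩

theorem Nrd.conj {H N : Subgroup G} {S : Subgroup G} (hN : Nrd H N) (hS : Nrd N S) {g : G}
    (hg : g ∈ H) : Nrd N (S.map (MulAut.conj g).toMonoidHom) := by
  intro n hn x hx
  rw [mem_map_conj] at hx ⊢
  have h1 : g⁻¹ * n * g ∈ N := by
    have := hN g⁻¹ (H.inv_mem hg) n hn
    rwa [inv_inv] at this
  have := hS _ h1 _ hx
  convert this using 1
  group

theorem comm_of_perfect {Z : Subgroup G} (hZ : Z ≤ Subgroup.center G) {S : Subgroup G}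
    (hS : ⁅S, S⁆ = S) (t : G) (h : ∀ s ∈ S, s * t * s⁻¹ * t⁻¹ ∈ Z) : ∀ s ∈ S, s * t = t * s := by
  have hm : ∀ a, ∀ b ∈ S, (a * b) * t * (a * b)⁻¹ * t⁻¹ = (a * t * a⁻¹ * t⁻¹) * (b * t * b⁻¹ * t⁻¹) := by
    intro a b hb
    have hc := Subgroup.mem_center_iff.1 (hZ (h b hb))
    calc (a * b) * t * (a * b)⁻¹ * t⁻¹
        = a * (b * t * b⁻¹ * t⁻¹) * (t * a⁻¹ * t⁻¹) := by group
      _ = a * ((t * a⁻¹ * t⁻¹) * (b * t * b⁻¹ * t⁻¹)) := by
        rw [mul_assoc, ← hc (t * a⁻¹ * t⁻¹)]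
      _ = (a * t * a⁻¹ * t⁻¹) * (b * t * b⁻¹ * t⁻¹) := by
        simp only [mul_assoc]
  have hinv : ∀ a ∈ S, a⁻¹ * t * a⁻¹⁻¹ * t⁻¹ = (a * t * a⁻¹ * t⁻¹)⁻¹ := by
    intro a ha
    have h1 := hm a⁻¹ a ha
    rw [inv_mul_cancel] at h1
    have h2 : (1 : G) * t * 1⁻¹ * t⁻¹ = 1 := by simp
    rw [h2] at h1
    exact eq_inv_of_mul_eq_one_left h1.symm
  have h1 : ⁅S, S⁆ ≤ Subgroup.centralizer {t} := by
    rw [Subgroup.commutator_le]
    intro a ha b hb
    rw [Subgroup.mem_centralizer_singleton_iff, commutatorElement_def]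
    have hca := Subgroup.mem_center_iff.1 (hZ (h a ha))
    have h3 : (a * b * a⁻¹ * b⁻¹) * t * (a * b * a⁻¹ * b⁻¹)⁻¹ * t⁻¹ = 1 := by
      rw [hm _ b⁻¹ (S.inv_mem hb), hm _ a⁻¹ (S.inv_mem ha), hm _ b hb, hinv a ha, hinv b hb]
      generalize hA : a * t * a⁻¹ * t⁻¹ = A at *
      generalize b * t * b⁻¹ * t⁻¹ = B at *
      rw [← hca B]; simp
    calc a * b * a⁻¹ * b⁻¹ * t = ((a * b * a⁻¹ * b⁻¹) * t * (a * b * a⁻¹ * b⁻¹)⁻¹ * t⁻¹) * (t * (a * b * a⁻¹ * b⁻¹)) := by group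
      _ = t * (a * b * a⁻¹ * b⁻¹) := by rw [h3, one_mul]
  intro s hs
  rw [← hS] at hs
  exact Subgroup.mem_centralizer_singleton_iff.1 (h1 hs)

theorem exists_min [Finite G] (Z H : Subgroup G) (hH : ¬ H ≤ Z) : ∃ N, Minimal (Nz Z H) N := by
  have hne : {N | Nz Z H N}.Nonempty := ⟨H, le_rfl, fun h hh x hx => H.mul_mem (H.mul_mem hh hx) (H.inv_mem hh), hH⟩
  obtain ⟨N, hN⟩ := (Set.toFinite {N | Nz Z H N}).exists_minimal hne
  exact ⟨N, hN⟩

theorem min_le {Z H N K : Subgroup G} (hN : Minimal (Nz Z H) N) (hK : K ≤ N) (hKH : Nrd H K) :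
    K ≤ Z ∨ K = N := by
  by_cases h : K ≤ Z
  · exact Or.inl h
  · exact Or.inr (le_antisymm hK (hN.2 ⟨hK.trans hN.1.1, hKH, h⟩ hK))

theorem Nrd.commutator {H N : Subgroup G} (hN : Nrd H N) : Nrd H ⁅N, N⁆ := by
  intro h hh x hx
  have h1 : (⁅N, N⁆).map (MulAut.conj h).toMonoidHom = ⁅N, N⁆ := by
    rw [Subgroup.map_commutator, hN.map_eq hh]
  rw [← h1]
  exact ⟨x, hx, rfl⟩

theorem Nrd.mono {H K N : Subgroup G} (hN : Nrd H N) (h : K ≤ H) : Nrd K N := fun k hk => hN k (h hk)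

/-- the structure of the perfect minimal normal subgroup -/
structure PerfDec (Z H N : Subgroup G) (t : ℕ) (S : Fin t → Subgroup G) : Prop where
  inj : Function.Injective S
  le : ∀ i, S i ≤ N
  nrd : ∀ i, Nrd N (S i)
  perfect : ∀ i, ⁅S i, S i⁆ = S i
  notle : ∀ i, ¬ S i ≤ Z
  simple : ∀ i, ∀ K ≤ S i, Nrd (S i) K → K ≤ Z ∨ K = S i
  comm : ∀ i j, i ≠ j → ∀ x ∈ S i, ∀ y ∈ S j, x * y = y * x
  sup : ⨆ i, S i = N
  perm : ∀ h ∈ H, ∃ σ : Equiv.Perm (Fin t), ∀ i, (S i).map (MulAut.conj h).toMonoidHom = S (σ i)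
  trans : ∀ i j, ∃ h ∈ H, (S i).map (MulAut.conj h).toMonoidHom = S j

theorem perfDec [Finite G] {Z H N : Subgroup G} (hZ : Z ≤ Subgroup.center G)
    (hN : Minimal (Nz Z H) N) (hper : ⁅N, N⁆ = N) : ∃ (t : ℕ) (S : Fin t → Subgroup G),
      0 < t ∧ PerfDec Z H N t S := by
  classical
  have hNN : Nrd N N := fun h hh x hx => N.mul_mem (N.mul_mem hh hx) (N.inv_mem hh)
  obtain ⟨S₀, hS₀⟩ := exists_min Z N hN.1.2.2
  -- conjugates of S₀
  let 𝒮 : Set (Subgroup G) := {T | ∃ h ∈ H, T = S₀.map (MulAut.conj h).toMonoidHom}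
  have hmin : ∀ T ∈ 𝒮, Minimal (Nz Z N) T := by
    rintro _ ⟨h, hh, rfl⟩
    have hNz : ∀ (g : G) (_ : g ∈ H) (T : Subgroup G), Nz Z N T → Nz Z N (T.map (MulAut.conj g).toMonoidHom) := by
      intro g hg T hT
      refine ⟨?_, hN.1.2.1.conj hT.2.1 hg, ?_⟩
      · rw [← hN.1.2.1.map_eq hg]
        exact Subgroup.map_mono hT.1
      · intro hle
        apply hT.2.2
        intro x hx
        have h1 : g * x * g⁻¹ ∈ Z := hle ⟨x, hx, rfl⟩
        have h2 := Subgroup.mem_center_iff.1 (hZ h1) g⁻¹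
        have h3 : g * x * g⁻¹ = x := by
          have : g⁻¹ * (g * x * g⁻¹) * g = (g * x * g⁻¹) * g⁻¹ * g := by rw [h2]
          simp [mul_assoc] at this
          simp [mul_assoc, ← this]
        rwa [h3] at h1
    refine ⟨hNz h hh S₀ hS₀.1, fun T hT hle => ?_⟩
    have h1 := hNz h⁻¹ (H.inv_mem hh) T hT
    have h2 : T.map (MulAut.conj h⁻¹).toMonoidHom ≤ S₀ := by
      rintro _ ⟨x, hx, rfl⟩
      have := hle hx
      rw [mem_map_conj] at this
      simpa using this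
    have h3 := hS₀.2 h1 h2
    rintro _ ⟨x, hx, rfl⟩
    have h4 := h3 hx
    rw [mem_map_conj] at h4
    simpa [mul_assoc] using h4
  have hS₀mem : S₀ ∈ 𝒮 := ⟨1, H.one_mem, by ext x; rw [mem_map_conj]; simp⟩
  have hconj : ∀ h ∈ H, ∀ T ∈ 𝒮, T.map (MulAut.conj h).toMonoidHom ∈ 𝒮 := by
    rintro h hh _ ⟨k, hk, rfl⟩
    refine ⟨h * k, H.mul_mem hh hk, ?_⟩
    rw [Subgroup.map_map]
    congr 1
    ext x; simp [mul_assoc]
  -- intersections
  have hint : ∀ S ∈ 𝒮, ∀ T ∈ 𝒮, S ≠ T → ∀ x ∈ S, ∀ y ∈ T, x * y * x⁻¹ * y⁻¹ ∈ Z := by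
    intro S hS T hT hne x hx y hy
    have hST : Nrd N (S ⊓ T) := fun n hn x hx => ⟨(hmin S hS).1.2.1 n hn x hx.1, (hmin T hT).1.2.1 n hn x hx.2⟩
    have h1 : S ⊓ T ≤ Z := by
      rcases min_le (hmin S hS) inf_le_left hST with h | h
      · exact h
      · rcases min_le (hmin T hT) inf_le_right hST with h' | h'
        · exact h'
        · exact absurd (h.symm.trans h') hne
    apply h1
    constructor
    · have h2 : y * x⁻¹ * y⁻¹ ∈ S := (hmin S hS).1.2.1 y ((hmin T hT).1.1 hy) _ (S.inv_mem hx)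
      have : x * y * x⁻¹ * y⁻¹ = x * (y * x⁻¹ * y⁻¹) := by group
      rw [this]; exact S.mul_mem hx h2
    · exact T.mul_mem ((hmin T hT).1.2.1 x ((hmin S hS).1.1 hx) y hy) (T.inv_mem hy)
  have hsup : sSup 𝒮 = N := by
    have h1 : sSup 𝒮 ≤ N := sSup_le fun T hT => (hmin T hT).1.1
    have h0 : Nrd H (sSup 𝒮) := by
      intro h hh x hx
      have h2 : (sSup 𝒮).map (MulAut.conj h).toMonoidHom ≤ sSup 𝒮 := by
        rw [sSup_eq_iSup, Subgroup.map_iSup]
        refine iSup_le fun T => ?_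
        rw [Subgroup.map_iSup]
        refine iSup_le fun hT => ?_
        exact le_iSup₂_of_le (T.map (MulAut.conj h).toMonoidHom) (hconj h hh T hT) le_rfl
      exact h2 ⟨x, hx, rfl⟩
    rcases min_le hN h1 h0 with h | h
    · exact absurd ((le_sSup hS₀mem).trans h) hS₀.1.2.2
    · exact h
  -- perfectness
  have hperf : ∀ S ∈ 𝒮, ⁅S, S⁆ = S := by
    intro S hS
    have hc : Nrd N ⁅S, S⁆ := (hmin S hS).1.2.1.commutator
    rcases min_le (hmin S hS) (Subgroup.commutator_le_self S) hc with h | h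
    · exfalso
      -- then everything is abelian modulo Z
      have hall : ∀ S' ∈ 𝒮, ∀ x ∈ S', ∀ y ∈ S', x * y * x⁻¹ * y⁻¹ ∈ Z := by
        obtain ⟨k, hk, rfl⟩ := hS
        rintro _ ⟨g, hg, rfl⟩ _ ⟨x, hx, rfl⟩ _ ⟨y, hy, rfl⟩
        have h1 : k * (x * y * x⁻¹ * y⁻¹) * k⁻¹ ∈ Z := by
          apply h
          have := Subgroup.commutator_mem_commutator (H₁ := S₀.map (MulAut.conj k).toMonoidHom)
            (H₂ := S₀.map (MulAut.conj k).toMonoidHom) ⟨x, hx, rfl⟩ ⟨y, hy, rfl⟩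
          rw [commutatorElement_def] at this
          convert this using 1
          simp [mul_assoc]
        have h2 := Subgroup.mem_center_iff.1 (hZ h1) k⁻¹
        have h3 : k * (x * y * x⁻¹ * y⁻¹) * k⁻¹ = x * y * x⁻¹ * y⁻¹ := by
          have : k⁻¹ * (k * (x * y * x⁻¹ * y⁻¹) * k⁻¹) * k = (k * (x * y * x⁻¹ * y⁻¹) * k⁻¹) * k⁻¹ * k := by rw [h2]
          rw [show k⁻¹ * (k * (x * y * x⁻¹ * y⁻¹) * k⁻¹) * k = x * y * x⁻¹ * y⁻¹ by group,
            show (k * (x * y * x⁻¹ * y⁻¹) * k⁻¹) * k⁻¹ * k = k * (x * y * x⁻¹ * y⁻¹) * k⁻¹ by group] at this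
          exact this.symm
        rw [h3] at h1
        have h4 := Subgroup.mem_center_iff.1 (hZ h1) g
        have h5 : (MulAut.conj g).toMonoidHom x * (MulAut.conj g).toMonoidHom y *
            ((MulAut.conj g).toMonoidHom x)⁻¹ * ((MulAut.conj g).toMonoidHom y)⁻¹ = x * y * x⁻¹ * y⁻¹ := by
          have : g * (x * y * x⁻¹ * y⁻¹) * g⁻¹ = x * y * x⁻¹ * y⁻¹ := by rw [h4]; group
          rw [← this]; simp [mul_assoc]
        rw [h5]; exact h1
      have hall2 : ∀ S ∈ 𝒮, ∀ T ∈ 𝒮, ∀ x ∈ S, ∀ y ∈ T, x * y * x⁻¹ * y⁻¹ ∈ Z := by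
        intro S hS T hT x hx y hy
        by_cases hST : S = T
        · subst hST; exact hall S hS x hx y hy
        · exact hint S hS T hT hST x hx y hy
      -- pass to the quotient
      have hZn : Z.Normal := ⟨fun z hz g => by
        have := Subgroup.mem_center_iff.1 (hZ hz) g
        rw [this]; simpa using hz⟩
      have key : ∀ x y : G, x * y * x⁻¹ * y⁻¹ ∈ Z ↔ (QuotientGroup.mk' Z x) * (QuotientGroup.mk' Z y) =
          (QuotientGroup.mk' Z y) * (QuotientGroup.mk' Z x) := by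
        intro x y
        rw [← map_mul, ← map_mul, ← QuotientGroup.eq_one_iff (x * y * x⁻¹ * y⁻¹)]
        constructor
        · intro h
          have : x * y = (x * y * x⁻¹ * y⁻¹) * (y * x) := by group
          rw [this, map_mul]
          change ((x * y * x⁻¹ * y⁻¹ : G) : G ⧸ Z) * _ = _
          rw [h, one_mul]
        · intro h
          have : ((x * y * x⁻¹ * y⁻¹ : G) : G ⧸ Z) = (QuotientGroup.mk' Z (x * y)) * (QuotientGroup.mk' Z (y * x))⁻¹ := by
            rw [← map_inv, ← map_mul]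
            change _ = ((x * y * (y * x)⁻¹ : G) : G ⧸ Z)
            congr 1; group
          rw [this, h, mul_inv_cancel]
      have hfirst : N ≤ (Subgroup.centralizer (⋃ T ∈ 𝒮, (QuotientGroup.mk' Z) '' (T : Set G))).comap (QuotientGroup.mk' Z) := by
        rw [← hsup]
        refine sSup_le fun S hS x hx => ?_
        rw [Subgroup.mem_comap, Subgroup.mem_centralizer_iff]
        intro q hq
        simp only [Set.mem_iUnion] at hq
        obtain ⟨T, hT, ⟨y, hy, rfl⟩⟩ := hq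
        exact (key y x).1 (hall2 T hT S hS y hy x hx)
      have hsecond : N ≤ (Subgroup.centralizer ((QuotientGroup.mk' Z) '' (N : Set G))).comap (QuotientGroup.mk' Z) := by
        conv_lhs => rw [← hsup]
        refine sSup_le fun S hS x hx => ?_
        rw [Subgroup.mem_comap, Subgroup.mem_centralizer_iff]
        rintro _ ⟨y, hy, rfl⟩
        have h1 := hfirst hy
        rw [Subgroup.mem_comap, Subgroup.mem_centralizer_iff] at h1
        exact (h1 _ (Set.mem_biUnion hS ⟨x, hx, rfl⟩)).symm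
      apply hN.1.2.2
      rw [← hper, Subgroup.commutator_le]
      intro x hx y hy
      rw [commutatorElement_def, key]
      have h1 := hsecond hy
      rw [Subgroup.mem_comap, Subgroup.mem_centralizer_iff] at h1
      exact h1 _ ⟨x, hx, rfl⟩
    · exact h
  have hcomm : ∀ S ∈ 𝒮, ∀ T ∈ 𝒮, S ≠ T → ∀ x ∈ S, ∀ y ∈ T, x * y = y * x := by
    intro S hS T hT hne x hx y hy
    exact comm_of_perfect hZ (hperf S hS) y (fun s hs => hint S hS T hT hne s hs y hy) x hx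
  -- simplicity
  have hsimple : ∀ S ∈ 𝒮, ∀ K ≤ S, Nrd S K → K ≤ Z ∨ K = S := by
    intro S hS K hK hKS
    refine min_le (hmin S hS) hK ?_
    -- K is normalised by N since N is generated by S and things commuting with S
    have h1 : N ≤ Subgroup.normalizer (K : Set G) := by
      rw [← hsup]
      refine sSup_le fun T hT x hx => ?_
      rw [Subgroup.mem_normalizer_iff]
      intro k
      by_cases hST : T = S
      · subst hST
        constructor
        · exact hKS x hx k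
        · intro hk
          have := hKS x⁻¹ (T.inv_mem hx) _ hk
          simpa [mul_assoc] using this
      · have h2 : ∀ k ∈ S, x * k * x⁻¹ = k := by
          intro k hk
          rw [hcomm T hT S hS hST x hx k hk]; simp
        constructor
        · intro hk
          change x * k * x⁻¹ ∈ K
          rw [h2 k (hK hk)]; exact hk
        · intro hk
          change x * k * x⁻¹ ∈ K at hk
          have h3 : k ∈ S := by
            have h4 := hcomm T hT S hS hST x hx _ (hK hk)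
            have h5 : k = x * k * x⁻¹ := by
              have : x⁻¹ * (x * (x * k * x⁻¹)) * x = x⁻¹ * ((x * k * x⁻¹) * x) * x := by rw [h4]
              have h6 : x * k = k * x := by simpa [mul_assoc] using this
              exact eq_mul_inv_of_mul_eq h6.symm
            rw [h5]; exact hK hk
          rw [h2 k h3] at hk; exact hk
    intro n hn x hx
    exact (Subgroup.mem_normalizer_iff.1 (h1 hn) x).1 hx
  have hfin : Finite 𝒮 := inferInstance
  have : Fintype 𝒮 := Fintype.ofFinite _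
  let e : Fin (Fintype.card 𝒮) ≃ 𝒮 := (Fintype.equivFin 𝒮).symm
  refine ⟨Fintype.card 𝒮, fun i => (e i).1, Fintype.card_pos_iff.2 ⟨⟨S₀, hS₀mem⟩⟩, ?_⟩
  refine ⟨?_, fun i => (hmin _ (e i).2).1.1, fun i => (hmin _ (e i).2).1.2.1, fun i => hperf _ (e i).2,
    fun i => (hmin _ (e i).2).1.2.2, fun i => hsimple _ (e i).2, ?_, ?_, ?_, ?_⟩
  · intro i j hij
    exact e.injective (Subtype.ext hij)
  · intro i j hij
    exact hcomm _ (e i).2 _ (e j).2 (fun h => hij (e.injective (Subtype.ext h)))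
  · rw [← hsup, sSup_eq_iSup']
    exact e.iSup_comp (g := fun T : 𝒮 => T.1)
  · intro h hh
    let f : 𝒮 → 𝒮 := fun T => ⟨T.1.map (MulAut.conj h).toMonoidHom, hconj h hh T.1 T.2⟩
    have hf : Function.Injective f := by
      intro T T' hTT
      apply Subtype.ext
      have h1 := congrArg Subtype.val hTT
      exact Subgroup.map_injective (MulAut.conj h).injective h1
    let g : Equiv.Perm 𝒮 := Equiv.ofBijective f (Finite.injective_iff_bijective.1 hf)
    refine ⟨(e.trans g).trans e.symm, fun i => ?_⟩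
    simp [g, f, Equiv.ofBijective]
  · intro i j
    obtain ⟨g, hg, hgi⟩ := (e i).2
    obtain ⟨k, hk, hkj⟩ := (e j).2
    refine ⟨k * g⁻¹, H.mul_mem hk (H.inv_mem hg), ?_⟩
    rw [hgi, hkj, Subgroup.map_map]
    congr 1
    ext x; simp [mul_assoc]


theorem simple_quot {Z N : Subgroup G} [hZ : Z.Normal] (hNz : ¬ N ≤ Z)
    (hsimple : ∀ K ≤ N, Nrd N K → K ≤ Z ∨ K = N) : IsSimpleGroup (N ⧸ Z.subgroupOf N) := by
  have hnt : Nontrivial (N ⧸ Z.subgroupOf N) := by
    rw [← not_subsingleton_iff_nontrivial]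
    intro hsub
    apply hNz
    intro x hx
    have h1 : QuotientGroup.mk' (Z.subgroupOf N) ⟨x, hx⟩ = 1 := Subsingleton.elim _ _
    exact Subgroup.mem_subgroupOf.1 ((QuotientGroup.eq_one_iff (⟨x, hx⟩ : N)).1 h1)
  refine ⟨fun K hK => ?_⟩
  let K' : Subgroup N := K.comap (QuotientGroup.mk' _)
  have hK' : K'.Normal := hK.comap _
  have h1 : Nrd N (K'.map N.subtype) := by
    rintro n hn _ ⟨k, hk, rfl⟩
    exact ⟨⟨n, hn⟩ * k * ⟨n, hn⟩⁻¹, hK'.conj_mem k hk ⟨n, hn⟩, rfl⟩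
  rcases hsimple _ (Subgroup.map_subtype_le K') h1 with h | h
  · left
    rw [eq_bot_iff]
    intro q hq
    obtain ⟨x, rfl⟩ := QuotientGroup.mk'_surjective _ q
    have h2 : x.1 ∈ Z := h ⟨x, hq, rfl⟩
    rw [Subgroup.mem_bot]
    exact (QuotientGroup.eq_one_iff x).2 h2
  · right
    rw [eq_top_iff]
    intro q _
    obtain ⟨x, rfl⟩ := QuotientGroup.mk'_surjective _ q
    have h2 : x.1 ∈ K'.map N.subtype := by rw [h]; exact x.2
    obtain ⟨y, hy, hyx⟩ := h2
    have : y = x := Subtype.ext hyx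
    rw [← this]; exact hy

theorem nonab_quot {Z N : Subgroup G} [hZ : Z.Normal] (hNz : ¬ N ≤ Z) (hperf : ⁅N, N⁆ = N) :
    ¬ IsMulCommutative (N ⧸ Z.subgroupOf N) := by
  intro hcomm
  apply hNz
  rw [← hperf, Subgroup.commutator_le]
  intro x hx y hy
  have h1 := hcomm.is_comm.comm (QuotientGroup.mk' (Z.subgroupOf N) ⟨x, hx⟩)
    (QuotientGroup.mk' (Z.subgroupOf N) ⟨y, hy⟩)
  have h2 : ((⟨x, hx⟩ * ⟨y, hy⟩ * ⟨x, hx⟩⁻¹ * ⟨y, hy⟩⁻¹ : N) : N ⧸ Z.subgroupOf N) = 1 := by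
    change QuotientGroup.mk' (Z.subgroupOf N) (⟨x, hx⟩ * ⟨y, hy⟩ * ⟨x, hx⟩⁻¹ * ⟨y, hy⟩⁻¹) = 1
    rw [map_mul, map_mul, map_mul, h1, map_inv, map_inv]; group
  exact Subgroup.mem_subgroupOf.1 ((QuotientGroup.eq_one_iff
    ((⟨x, hx⟩ * ⟨y, hy⟩ * ⟨x, hx⟩⁻¹ * ⟨y, hy⟩⁻¹ : N))).1 h2)

end CfsgLib.Asch10
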