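import Mathlib
import Cfsg.Agent.LibAsch1

/-! simple subalgebras, centre, Wedderburn over finite fields. -/
set_option autoImplicit false

namespace CfsgLib.Asch2

open Module CfsgLib.Asch1

variable {F V : Type*} [Field F] [AddCommGroup V] [Module F V] [FiniteDimensional F V]

theorem finDimA (A : Subalgebra F (End F V)) : FiniteDimensional F A := inferInstance

theorem simple_of_isotypic' {R V : Type*} [Ring R] [AddCommGroup V] [Module R V]
    [IsSemisimpleModule R V] (hiso : IsIsotypic R V) [Nontrivial V] {ι : Type} [Finite ι]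
    (b : ι → V) (hb : ∀ r s : R, (∀ i, r • b i = s • b i) → r = s) :
    IsSimpleRing R ∧ IsArtinianRing R := by
  rw [isSimpleRing_isArtinianRing_iff]
  let g : R →ₗ[R] (ι → V) :=
      { toFun := fun a i => a • b i
        map_add' := fun a a' => by ext i; simp [add_smul]
        map_smul' := fun a a' => by ext i; simp [mul_smul] }
  have hg : Function.Injective g := by
    intro a a' h
    exact hb a a' fun i => congrFun h i
  refine ⟨?_, ?_, ?_⟩
  · exact IsSemisimpleModule.congr (LinearEquiv.ofInjective g hg)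
  · -- isotypic
    have emb : ∀ I : Submodule R R, IsSimpleModule R I → ∃ W : Submodule R V, IsSimpleModule R W ∧
        Nonempty (I ≃ₗ[R] W) := by
      intro I hI
      have hne : ∃ i, ((LinearMap.proj i : (ι → V) →ₗ[R] V) ∘ₗ g ∘ₗ I.subtype) ≠ 0 := by
        by_contra hcon
        push Not at hcon
        have hI0 : Nontrivial I := IsSimpleModule.nontrivial R I
        obtain ⟨x, hx⟩ := exists_ne (0 : I)
        apply hx
        apply Subtype.ext
        apply hg
        ext i
        have := LinearMap.congr_fun (hcon i) x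
        simpa using this
      obtain ⟨i, hi⟩ := hne
      have hinj := (LinearMap.injective_or_eq_zero
        ((LinearMap.proj i : (ι → V) →ₗ[R] V) ∘ₗ g ∘ₗ I.subtype)).resolve_right hi
      have e := LinearEquiv.ofInjective _ hinj
      exact ⟨_, IsSimpleModule.congr e.symm, ⟨e⟩⟩
    intro I hI J hJ
    obtain ⟨W, hW, ⟨e⟩⟩ := emb I hI
    obtain ⟨W', hW', ⟨e'⟩⟩ := emb J hJ
    obtain ⟨k⟩ := hiso W W'
    exact ⟨e'.trans (k.trans e.symm)⟩
  · obtain ⟨x, hx⟩ := exists_ne (0 : V)
    refine ⟨⟨0, 1, fun h => hx ?_⟩⟩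
    have : (1 : R) • x = (0 : R) • x := by rw [h]
    simpa using this

theorem simple_of_isotypic (A : Subalgebra F (End F V)) [IsSemisimpleModule A V]
    (hiso : IsIsotypic A V) [Nontrivial V] : IsSimpleRing A ∧ IsArtinianRing A := by
  let b := Module.finBasis F V
  refine simple_of_isotypic' hiso (fun i => b i) ?_
  intro a a' h
  apply Subtype.ext
  refine b.ext fun i => ?_
  exact h i

/-- centre of a subalgebra, as a subalgebra of the ambient algebra -/
def cen {E : Type*} [Ring E] [Algebra F E] (A : Subalgebra F E) : Subalgebra F E :=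
  A ⊓ Subalgebra.centralizer F (A : Set E)

theorem mem_cen {E : Type*} [Ring E] [Algebra F E] (A : Subalgebra F E) (z : E) :
    z ∈ cen A ↔ z ∈ A ∧ ∀ a ∈ A, a * z = z * a := by
  rw [cen, Algebra.mem_inf, Subalgebra.mem_centralizer_iff]; rfl

theorem cen_comm {E : Type*} [Ring E] [Algebra F E] (A : Subalgebra F E) (x y : E)
    (hx : x ∈ cen A) (hy : y ∈ cen A) : x * y = y * x := by
  rw [mem_cen] at hx hy
  exact hy.2 x hx.1

theorem cen_inv {E : Type*} [Ring E] [Algebra F E] (A : Subalgebra F E) [IsSimpleRing A] (x : E)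
    (hx : x ∈ cen A) (h0 : x ≠ 0) : ∃ y ∈ cen A, x * y = 1 := by
  have hx' := hx
  rw [mem_cen] at hx
  have hf := IsSimpleRing.isField_center A
  let x' : Subring.center A := ⟨⟨x, hx.1⟩, by
    rw [Subring.mem_center_iff]
    intro g
    apply Subtype.ext
    exact hx.2 g g.2⟩
  obtain ⟨y, hy⟩ := hf.mul_inv_cancel (a := x') (by
    intro h
    apply h0
    exact congrArg (fun u : Subring.center A => (u.1.1 : E)) h)
  refine ⟨y.1.1, ?_, ?_⟩
  · rw [mem_cen]
    refine ⟨y.1.2, fun a ha => ?_⟩
    have := (Subring.mem_center_iff.1 y.2) ⟨a, ha⟩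
    exact congrArg Subtype.val this
  · exact congrArg (fun u : Subring.center A => (u.1.1 : E)) hy

/-- over a finite field, a simple algebra with scalar centre is a full matrix algebra -/
theorem matrix_of_central {F : Type*} [Field F] [Finite F] {R : Type*} [Ring R] [Algebra F R]
    [Module.Finite F R] [IsSimpleRing R]
    (hc : ∀ z : R, (∀ a : R, a * z = z * a) → ∃ c : F, z = algebraMap F R c) :
    ∃ (n : ℕ) (_ : NeZero n), Nonempty (R ≃ₐ[F] Matrix (Fin n) (Fin n) F) := by
  have : IsArtinianRing R := isArtinian_of_tower F (inferInstance : IsArtinian F R)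
  obtain ⟨n, hn, D, _, _, _, ⟨e⟩⟩ := IsSimpleRing.exists_algEquiv_matrix_divisionRing_finite F R
  have hD : Finite D := Module.finite_of_finite F
  have hcomm : ∀ x y : D, x * y = y * x := (littleWedderburn D).mul_comm
  have hsurj : Function.Surjective (algebraMap F D) := by
    intro d
    obtain ⟨c, hc'⟩ := hc (e.symm (Matrix.scalar (Fin n) d)) (by
      intro a
      apply e.injective
      rw [map_mul, map_mul, AlgEquiv.apply_symm_apply]
      exact ((Matrix.scalar_commute d (fun r => hcomm _ _) (e a)).symm).eq)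
    refine ⟨c, ?_⟩
    have h2 : e (e.symm (Matrix.scalar (Fin n) d)) = e (algebraMap F R c) := by rw [hc']
    rw [AlgEquiv.apply_symm_apply, AlgEquiv.commutes] at h2
    have h3 := congrFun (congrFun h2 ⟨0, Nat.pos_of_ne_zero hn.out⟩) ⟨0, Nat.pos_of_ne_zero hn.out⟩
    simp [Matrix.algebraMap_matrix_apply] at h3
    exact h3.symm
  have eD : F ≃ₐ[F] D := AlgEquiv.ofBijective (Algebra.ofId F D) ⟨(algebraMap F D).injective, hsurj⟩
  exact ⟨n, hn, ⟨e.trans (AlgEquiv.mapMatrix eD.symm)⟩⟩

end CfsgLib.Asch2
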