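import Mathlib
import Cfsg.Agent.LibAsch2

/-! subfields of prime degree inside a commutative field subalgebra, stable under automorphisms. -/
set_option autoImplicit false

namespace CfsgLib.Asch3

open Module

variable {F E : Type*} [Field F] [Finite F] [Ring E] [Algebra F E]

open Polynomial in
theorem exists_prime_sub {L : Type*} [Field L] [Finite L] [Algebra F L]
    (h1 : Module.finrank F L ≠ 1) :
    ∃ (r : ℕ) (K : Subalgebra F L), r.Prime ∧ finrank F K = r ∧
      (∀ x : L, x ∈ K ↔ x ^ (Nat.card F ^ r) = x) := by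
  have : FiniteDimensional F L := Module.Finite.of_finite
  obtain ⟨p, hp⟩ := CharP.exists F
  have hpp : Fact p.Prime := ⟨CharP.char_is_prime F p⟩
  set d := finrank F L with hd
  set r := d.minFac with hr
  have hrp : r.Prime := Nat.minFac_prime h1
  have : NeZero r := ⟨hrp.ne_zero⟩
  obtain ⟨f⟩ := FiniteField.nonempty_algHom_of_finrank_dvd (F := F)
    (K := FiniteField.Extension F p r) (L := L)
    (by rw [FiniteField.finrank_extension]; exact Nat.minFac_dvd d)
  have hcard : Nat.card f.range = Nat.card F ^ r := by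
    rw [← FiniteField.natCard_extension F p r]
    exact Nat.card_congr (AlgEquiv.ofInjectiveField f).symm.toEquiv
  have hpow : ∀ x ∈ f.range, x ^ (Nat.card F ^ r) = x := by
    rintro _ ⟨y, rfl⟩
    have : y ^ (Nat.card F ^ r) = y := by
      have := Fintype.ofFinite (FiniteField.Extension F p r)
      rw [← FiniteField.natCard_extension F p r, Nat.card_eq_fintype_card]
      exact FiniteField.pow_card y
    change f y ^ _ = f y
    rw [← map_pow, this]
  have hcF : 1 < Nat.card F := Finite.one_lt_card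
  refine ⟨r, f.range, hrp, ?_, fun x => ⟨hpow x, ?_⟩⟩
  · exact ((AlgEquiv.ofInjectiveField f).toLinearEquiv.symm.finrank_eq).trans
      (FiniteField.finrank_extension F p r)
  · intro hx
    by_contra hxn
    have hne : (X ^ (Nat.card F ^ r) - X : L[X]) ≠ 0 :=
      FiniteField.X_pow_card_pow_sub_X_ne_zero _ hrp.ne_zero hcF
    have hdeg : (X ^ (Nat.card F ^ r) - X : L[X]).natDegree = Nat.card F ^ r :=
      FiniteField.X_pow_card_pow_sub_X_natDegree_eq _ hrp.ne_zero hcF
    classical
    have := Fintype.ofFinite L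
    let s : Finset L := Finset.univ.filter (fun y => y ∈ f.range)
    have hs : s.card = Nat.card F ^ r := by
      rw [← hcard, Nat.card_eq_fintype_card]
      exact (Fintype.card_subtype _).symm
    have hxs : x ∉ s := by simpa [s] using hxn
    have hle : insert x s ⊆ (X ^ (Nat.card F ^ r) - X : L[X]).roots.toFinset := by
      intro y hy
      rw [Multiset.mem_toFinset, mem_roots hne]
      rw [Finset.mem_insert] at hy
      rcases hy with rfl | hy
      · simp [IsRoot.def, hx]
      · have := hpow y (by simpa [s] using hy)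
        simp [IsRoot.def, this]
    have h2 := Finset.card_le_card hle
    have h3 := Multiset.toFinset_card_le (X ^ (Nat.card F ^ r) - X : L[X]).roots
    have h4 := (X ^ (Nat.card F ^ r) - X : L[X]).card_roots'
    rw [Finset.card_insert_of_notMem hxs, hs] at h2
    omega

theorem prime_sub (K : Subalgebra F E) [FiniteDimensional F K]
    (hcomm : ∀ x ∈ K, ∀ y ∈ K, x * y = y * x) (hinv : ∀ x ∈ K, x ≠ 0 → ∃ y ∈ K, x * y = 1)
    [Nontrivial E] (hne : K ≠ ⊥) :
    ∃ (r : ℕ) (K' : Subalgebra F E), r.Prime ∧ K' ≤ K ∧ (∀ x ∈ K', x ≠ 0 → ∃ y ∈ K', x * y = 1) ∧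
      finrank F K' = r ∧ ∀ α : E ≃ₐ[F] E, (∀ x ∈ K, α x ∈ K) → ∀ x ∈ K', α x ∈ K' := by
  have hfield : IsField K :=
    { exists_pair_ne := ⟨0, 1, zero_ne_one⟩
      mul_comm := fun x y => Subtype.ext (hcomm x x.2 y y.2)
      mul_inv_cancel := by
        intro a ha
        obtain ⟨y, hy, hxy⟩ := hinv a a.2 (fun h => ha (Subtype.ext h))
        exact ⟨⟨y, hy⟩, Subtype.ext hxy⟩ }
  letI : CommRing K := { (inferInstance : Ring K) with mul_comm := hfield.mul_comm }
  letI : Field K := hfield.toField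
  letI algFK : Algebra F K := inferInstance
  have : Finite K := Module.finite_of_finite F
  have h1 : finrank F K ≠ 1 := by
    intro h
    apply hne
    exact Subalgebra.finrank_eq_one_iff.1 h
  obtain ⟨r, L, hr, hL, hmem⟩ := exists_prime_sub (F := F) (L := K) h1
  have hmem' : ∀ x : E, x ∈ L.map K.val ↔ x ∈ K ∧ x ^ (Nat.card F ^ r) = x := by
    intro x
    constructor
    · rintro ⟨y, hy, rfl⟩
      refine ⟨y.2, ?_⟩
      have := (hmem y).1 hy
      exact congrArg Subtype.val this
    · rintro ⟨hx, hx'⟩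
      exact ⟨⟨x, hx⟩, (hmem _).2 (Subtype.ext hx'), rfl⟩
  refine ⟨r, L.map K.val, hr, ?_, ?_, ?_, ?_⟩
  · rintro _ ⟨y, hy, rfl⟩
    exact y.2
  · intro x hx h0
    rw [hmem'] at hx
    obtain ⟨y, hy, hxy⟩ := hinv x hx.1 h0
    refine ⟨y, (hmem' y).2 ⟨hy, ?_⟩, hxy⟩
    have h2 : (⟨x, hx.1⟩ : K) ^ (Nat.card F ^ r) = ⟨x, hx.1⟩ := Subtype.ext hx.2
    have h3 : (⟨x, hx.1⟩ : K) * ⟨y, hy⟩ = 1 := Subtype.ext hxy
    have h4 : (⟨y, hy⟩ : K) = (⟨x, hx.1⟩ : K)⁻¹ := eq_inv_of_mul_eq_one_right h3
    have h5 : (⟨y, hy⟩ : K) ^ (Nat.card F ^ r) = ⟨y, hy⟩ := by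
      rw [h4, inv_pow, h2]
    exact congrArg Subtype.val h5
  · rw [← hL]
    exact ((Subalgebra.equivMapOfInjective L K.val Subtype.val_injective).toLinearEquiv.finrank_eq).symm
  · intro α hα x hx
    rw [hmem'] at hx ⊢
    exact ⟨hα x hx.1, by rw [← map_pow, hx.2]⟩

end CfsgLib.Asch3
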