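import Mathlib
import Cfsg.Agent.LibAsch3

/-! bases adapted to families of commuting matrix algebras acting on a vector space -/
set_option autoImplicit false

namespace CfsgLib.Asch4

open Module

variable {F V : Type*} [Field F] [AddCommGroup V] [Module F V] [FiniteDimensional F V]

/-- matrix unit -/
abbrev E1 {m : ℕ} (i j : Fin m) : Matrix (Fin m) (Fin m) F := Matrix.single i j 1

/-- two-factor version: a unital hom from a matrix algebra gives a basis indexed by a product -/
theorem basis_of_hom {m : ℕ} [NeZero m] (φ : Matrix (Fin m) (Fin m) F →ₐ[F] End F V) :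
    ∃ (k : ℕ) (b : Basis (Fin m × Fin k) F V),
      ∀ (M : Matrix (Fin m) (Fin m) F) (j : Fin m) (l : Fin k),
        φ M (b (j, l)) = ∑ i, M i j • b (i, l) := by
  classical
  let W : Submodule F V := LinearMap.range (φ (E1 (0 : Fin m) 0))
  let w := Module.finBasis F W
  have hE : ∀ i j k l : Fin m, φ (E1 i j) * φ (E1 k l) = if j = k then φ (E1 i l) else 0 := by
    intro i j k l
    rw [← map_mul]
    split_ifs with h
    · subst h; simp [E1]
    · simp [E1, Matrix.single_mul_single_of_ne, h]
  have hE' : ∀ (i j k l : Fin m) (v : V), φ (E1 i j) (φ (E1 k l) v) = if j = k then φ (E1 i l) v else 0 := by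
    intro i j k l v
    have := congrArg (fun u : End F V => u v) (hE i j k l)
    simp only [Module.End.mul_apply] at this
    rw [this]; split_ifs <;> simp
  have hw : ∀ x : W, φ (E1 0 0) x.1 = x.1 := by
    rintro ⟨_, ⟨y, rfl⟩⟩
    change φ (E1 0 0) (φ (E1 0 0) y) = φ (E1 0 0) y
    rw [hE']; simp
  let bf : Fin m × Fin (finrank F W) → V := fun p => φ (E1 p.1 0) (w p.2).1
  have hli : LinearIndependent F bf := by
    rw [Fintype.linearIndependent_iff]
    intro g hg p
    have h1 : φ (E1 0 p.1) (∑ i, g i • bf i) = 0 := by rw [hg, map_zero]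
    rw [map_sum] at h1
    have h2 : ∀ i : Fin m × Fin (finrank F W), φ (E1 0 p.1) (g i • bf i) =
        if p.1 = i.1 then g i • (w i.2).1 else 0 := by
      intro i
      rw [map_smul]
      change g i • φ (E1 0 p.1) (φ (E1 i.1 0) (w i.2).1) = _
      rw [hE']
      split_ifs with h
      · rw [hw]
      · simp
    simp_rw [h2] at h1
    rw [Fintype.sum_prod_type] at h1
    simp only [Finset.sum_ite_irrel, Finset.sum_const_zero] at h1
    rw [Finset.sum_eq_single p.1 (by
      intro b _ hb; rw [if_neg (Ne.symm hb)]) (by simp)] at h1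
    simp only [if_true] at h1
    have h3 : ∑ x, g (p.1, x) • w x = 0 := by
      apply Subtype.ext
      simpa using h1
    exact Fintype.linearIndependent_iff.1 w.linearIndependent (fun x => g (p.1, x)) h3 p.2
  have hspan : ⊤ ≤ Submodule.span F (Set.range bf) := by
    intro v _
    have h1 : v = ∑ i, φ (E1 i i) v := by
      have : (∑ i, φ (E1 i i)) = 1 := by
        rw [← map_sum]
        have : (∑ i : Fin m, (E1 i i : Matrix (Fin m) (Fin m) F)) = 1 := by
          ext a b
          rw [Matrix.sum_apply, Finset.sum_eq_single a]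
          · by_cases h : a = b
            · subst h; simp [E1]
            · simp [E1, h, Matrix.one_apply]
          · intro i _ hi
            simp [E1, Matrix.single_apply, hi]
          · simp
        rw [this, map_one]
      have h2 := congrArg (fun u : End F V => u v) this
      simpa using h2.symm
    rw [h1]
    refine Submodule.sum_mem _ fun i _ => ?_
    have h2 : φ (E1 i i) v = φ (E1 i 0) (φ (E1 0 i) v) := by rw [hE']; simp
    have h3 : φ (E1 0 i) v ∈ W := ⟨φ (E1 0 i) v, by rw [hE']; simp⟩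
    rw [h2]
    have h4 := w.sum_repr ⟨_, h3⟩
    have h5 : φ (E1 0 i) v = ∑ x, (w.repr ⟨_, h3⟩ x) • (w x).1 := by
      have := (congrArg Subtype.val h4).symm
      rw [AddSubmonoidClass.coe_finsetSum] at this
      exact this
    rw [h5, map_sum]
    refine Submodule.sum_mem _ fun x _ => ?_
    rw [map_smul]
    exact Submodule.smul_mem _ _ (Submodule.subset_span ⟨(i, x), rfl⟩)
  refine ⟨_, Basis.mk hli hspan, ?_⟩
  intro M j l
  simp only [Basis.mk_apply]
  change φ M (φ (E1 j 0) (w l).1) = ∑ i, M i j • φ (E1 i 0) (w l).1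
  have h1 : M * E1 j 0 = ∑ i, M i j • (E1 i 0 : Matrix (Fin m) (Fin m) F) := by
    ext a b
    simp [E1, Matrix.sum_apply, Matrix.single_apply, Matrix.mul_apply]
    by_cases h : 0 = b
    · simp [h]
    · simp [h]
  have h2 := congrArg (fun u => φ u (w l).1) h1
  simp only [map_mul, map_sum, map_smul, Module.End.mul_apply, LinearMap.sum_apply,
    LinearMap.smul_apply] at h2
  exact h2

omit [FiniteDimensional F V] in
theorem comm_form {m k : ℕ} [NeZero m] (φ : Matrix (Fin m) (Fin m) F →ₐ[F] End F V)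
    (b : Basis (Fin m × Fin k) F V)
    (hb : ∀ (M : Matrix (Fin m) (Fin m) F) (j : Fin m) (l : Fin k),
        φ M (b (j, l)) = ∑ i, M i j • b (i, l))
    (f : End F V) (hf : ∀ M, f * φ M = φ M * f) :
    ∃ N : Matrix (Fin k) (Fin k) F, ∀ j l, f (b (j, l)) = ∑ l', N l' l • b (j, l') := by
  classical
  refine ⟨fun l' l => b.repr (f (b (0, l))) (0, l'), fun j l => ?_⟩
  have h1 : b (j, l) = φ (E1 j 0) (b (0, l)) := by
    rw [hb, Finset.sum_eq_single j]
    · simp [E1]
    · intro i _ hi; simp [E1, Matrix.single_apply, Ne.symm hi]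
    · simp
  have h2 : f (b (j, l)) = φ (E1 j 0) (f (b (0, l))) := by
    rw [h1]
    exact congrArg (fun u : End F V => u (b (0, l))) (hf (E1 j 0))
  rw [h2]
  conv_lhs => rw [← b.sum_repr (f (b (0, l)))]
  rw [map_sum, Fintype.sum_prod_type, Finset.sum_eq_single 0]
  · refine Finset.sum_congr rfl fun l' _ => ?_
    rw [map_smul, hb, Finset.sum_eq_single j]
    · simp [E1]
    · intro i _ hi; simp [E1, Matrix.single_apply, Ne.symm hi]
    · simp
  · intro i _ hi
    refine Finset.sum_eq_zero fun l' _ => ?_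
    rw [map_smul, hb]
    have : ∀ x : Fin m, (E1 j 0 : Matrix (Fin m) (Fin m) F) x i = 0 := by
      intro x; simp [E1, Matrix.single_apply, Ne.symm hi]
    simp [this]
  · simp

theorem matrix_aut_inner {m : ℕ} (α : Matrix (Fin m) (Fin m) F ≃ₐ[F] Matrix (Fin m) (Fin m) F) :
    ∃ P : (Matrix (Fin m) (Fin m) F)ˣ, ∀ M, α M = P.1 * M * (P⁻¹).1 := by
  let e : Matrix (Fin m) (Fin m) F ≃ₐ[F] End F (Fin m → F) := Matrix.toLinAlgEquiv'
  obtain ⟨T, hT⟩ := AlgEquiv.eq_linearEquivConjAlgEquiv ((e.symm.trans α).trans e)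
  refine ⟨⟨e.symm (T : (Fin m → F) →ₗ[F] (Fin m → F)), e.symm (T.symm : (Fin m → F) →ₗ[F] (Fin m → F)), ?_, ?_⟩, ?_⟩
  · rw [← map_mul]
    rw [show ((T : (Fin m → F) →ₗ[F] (Fin m → F)) * (T.symm : (Fin m → F) →ₗ[F] (Fin m → F)) :
      End F (Fin m → F)) = 1 from LinearMap.ext (fun x => T.apply_symm_apply x), map_one]
  · rw [← map_mul]
    rw [show ((T.symm : (Fin m → F) →ₗ[F] (Fin m → F)) * (T : (Fin m → F) →ₗ[F] (Fin m → F)) :
      End F (Fin m → F)) = 1 from LinearMap.ext (fun x => T.symm_apply_apply x), map_one]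
  · intro M
    have h1 := congrArg (fun u => e.symm (u (e M))) hT
    simp only [AlgEquiv.trans_apply, AlgEquiv.symm_apply_apply] at h1
    rw [h1]
    apply e.injective
    rw [AlgEquiv.apply_symm_apply, map_mul, map_mul]
    have h3 : e ((Units.mk (e.symm (T : (Fin m → F) →ₗ[F] (Fin m → F)))
      (e.symm (T.symm : (Fin m → F) →ₗ[F] (Fin m → F))) (by
        rw [← map_mul]
        rw [show ((T : (Fin m → F) →ₗ[F] (Fin m → F)) * (T.symm : (Fin m → F) →ₗ[F] (Fin m → F)) :
          End F (Fin m → F)) = 1 from LinearMap.ext (fun x => T.apply_symm_apply x), map_one]) (by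
        rw [← map_mul]
        rw [show ((T.symm : (Fin m → F) →ₗ[F] (Fin m → F)) * (T : (Fin m → F) →ₗ[F] (Fin m → F)) :
          End F (Fin m → F)) = 1 from LinearMap.ext (fun x => T.symm_apply_apply x), map_one]))⁻¹ : (Matrix (Fin m) (Fin m) F)ˣ).1
        = (T.symm : (Fin m → F) →ₗ[F] (Fin m → F)) := e.apply_symm_apply _
    have h4 : e (e.symm (T : (Fin m → F) →ₗ[F] (Fin m → F))) = (T : (Fin m → F) →ₗ[F] (Fin m → F)) :=
      e.apply_symm_apply _
    rw [h3, h4]
    rfl

/-- an element normalising the image of a matrix algebra acts on it by an inner automorphism -/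
theorem norm_inner {m : ℕ} [NeZero m] (φ : Matrix (Fin m) (Fin m) F →ₐ[F] End F V)
    (hφ : Function.Injective φ) (g g' : End F V) (hg : g * g' = 1) (hg' : g' * g = 1)
    (hn : ∀ M, ∃ M', g * φ M * g' = φ M') :
    ∃ P : (Matrix (Fin m) (Fin m) F)ˣ, ∀ M, g * φ M * g' = φ (P.1 * M * (P⁻¹).1) := by
  choose α hα using hn
  have hmul : ∀ M N, α (M * N) = α M * α N := by
    intro M N
    apply hφ
    rw [← hα, map_mul, map_mul, ← hα, ← hα]
    calc g * (φ M * φ N) * g' = g * φ M * (1 * φ N) * g' := by noncomm_ring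
      _ = g * φ M * g' * (g * φ N * g') := by rw [← hg']; noncomm_ring
  have hadd : ∀ M N, α (M + N) = α M + α N := by
    intro M N
    apply hφ
    rw [← hα, map_add, map_add, ← hα, ← hα]; noncomm_ring
  have hone : α 1 = 1 := by
    apply hφ
    rw [← hα, map_one, mul_one, hg]
  have hzero : α 0 = 0 := by
    apply hφ
    rw [← hα, map_zero]; simp
  have hcom : ∀ r : F, α (algebraMap F _ r) = algebraMap F _ r := by
    intro r
    apply hφ
    rw [← hα, AlgHom.commutes, ← Algebra.commutes, mul_assoc, hg, mul_one]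
  let a : Matrix (Fin m) (Fin m) F →ₐ[F] Matrix (Fin m) (Fin m) F :=
    { toFun := α, map_one' := hone, map_mul' := hmul, map_zero' := hzero, map_add' := hadd,
      commutes' := hcom }
  have hinj : Function.Injective a := by
    intro M N h
    apply hφ
    have h1 : g * φ M * g' = g * φ N * g' := by rw [hα, hα]; exact congrArg φ h
    calc φ M = g' * g * φ M * (g' * g) := by rw [hg']; simp
      _ = g' * (g * φ M * g') * g := by noncomm_ring
      _ = g' * (g * φ N * g') * g := by rw [h1]
      _ = g' * g * φ N * (g' * g) := by noncomm_ring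
      _ = φ N := by rw [hg']; simp
  have hsurj : Function.Surjective a :=
    (LinearMap.injective_iff_surjective (f := a.toLinearMap)).1 hinj
  obtain ⟨P, hP⟩ := matrix_aut_inner (AlgEquiv.ofBijective a ⟨hinj, hsurj⟩)
  refine ⟨P, fun M => ?_⟩
  rw [← hP, hα]; rfl

theorem hom_injective {m : ℕ} [NeZero m] [Nontrivial V]
    (φ : Matrix (Fin m) (Fin m) F →ₐ[F] End F V) : Function.Injective φ := by
  have : Nonempty (Fin m) := ⟨0⟩
  exact RingHom.injective φ.toRingHom

end CfsgLib.Asch4
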