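import Mathlib
import Cfsg.Agent.LibAsch4

/-! bases adapted to a family of commuting matrix algebras -/
set_option autoImplicit false

namespace CfsgLib.Asch5

open Module CfsgLib.Asch4

variable {F V : Type*} [Field F] [AddCommGroup V] [Module F V] [FiniteDimensional F V]
variable {m t : ℕ}

section multi

variable (φ : Fin t → (Matrix (Fin m) (Fin m) F →ₐ[F] End F V))
  (hc : ∀ s s', s ≠ s' → ∀ M N, φ s M * φ s' N = φ s' N * φ s M)

/-- the product homomorphism -/
noncomputable def Phi : (Fin t → Matrix (Fin m) (Fin m) F) →* End F V :=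
  MonoidHom.noncommPiCoprod (fun s => ((φ s : Matrix (Fin m) (Fin m) F →ₐ[F] End F V) : Matrix (Fin m) (Fin m) F →* End F V))
    (fun s s' hs M N => hc s s' hs M N)

include hc in
theorem Phi_mulSingle (s : Fin t) (M : Matrix (Fin m) (Fin m) F) :
    Phi φ hc (Pi.mulSingle s M) = φ s M := by
  exact MonoidHom.noncommPiCoprod_mulSingle (M := End F V)
    (N := fun _ : Fin t => Matrix (Fin m) (Fin m) F)
    (ϕ := fun s => ((φ s : Matrix (Fin m) (Fin m) F →ₐ[F] End F V) : Matrix (Fin m) (Fin m) F →* End F V))
    (hcomm := fun s s' hs M N => hc s s' hs M N) s M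

omit [FiniteDimensional F V] in
theorem upd_eq (X : Fin t → Matrix (Fin m) (Fin m) F) (s : Fin t) (M : Matrix (Fin m) (Fin m) F) :
    Function.update X s M = Pi.mulSingle s M * Function.update X s 1 := by
  ext1 s'
  by_cases h : s' = s
  · subst h; simp
  · simp [h]

theorem Phi_upd (X : Fin t → Matrix (Fin m) (Fin m) F) (s : Fin t) (M : Matrix (Fin m) (Fin m) F) :
    Phi φ hc (Function.update X s M) = φ s M * Phi φ hc (Function.update X s 1) := by
  rw [upd_eq, map_mul, Phi_mulSingle]

/-- the product homomorphism is multilinear -/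
noncomputable def PhiM : MultilinearMap F (fun _ : Fin t => Matrix (Fin m) (Fin m) F) (End F V) where
  toFun := Phi φ hc
  map_update_add' := by
    intro inst X s A B
    have : inst = instDecidableEqFin t := Subsingleton.elim _ _
    subst this
    rw [Phi_upd, Phi_upd φ hc X s A, Phi_upd φ hc X s B, map_add, add_mul]
  map_update_smul' := by
    intro inst X s c A
    have : inst = instDecidableEqFin t := Subsingleton.elim _ _
    subst this
    rw [Phi_upd, Phi_upd φ hc X s A, map_smul, smul_mul_assoc]

theorem PhiM_apply (X : Fin t → Matrix (Fin m) (Fin m) F) : PhiM φ hc X = Phi φ hc X := rfl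

theorem phi_mul_Phi (s : Fin t) (M : Matrix (Fin m) (Fin m) F) (X : Fin t → Matrix (Fin m) (Fin m) F) :
    φ s M * Phi φ hc X = Phi φ hc (Function.update X s (M * X s)) := by
  rw [← Phi_mulSingle φ hc, ← map_mul]
  congr 1
  ext1 s'
  by_cases h : s' = s
  · subst h; simp
  · simp [h]

/-- expansion of a product of sums of matrix units -/
theorem Phi_sum (A : Fin t → Fin m → F) (y : Fin t → Fin m) :
    Phi φ hc (fun s => ∑ i, A s i • E1 i (y s)) =
      ∑ x : Fin t → Fin m, (∏ s, A s (x s)) • Phi φ hc (fun s => E1 (x s) (y s)) := by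
  rw [← PhiM_apply, MultilinearMap.map_sum]
  refine Finset.sum_congr rfl fun x _ => ?_
  rw [MultilinearMap.map_smul_univ]; rfl

variable [NeZero m]

/-- unit tensors -/
noncomputable def U (x y : Fin t → Fin m) : End F V := Phi φ hc (fun s => E1 (x s) (y s))

theorem U_mul (x y z w : Fin t → Fin m) :
    U φ hc x y * U φ hc z w = if y = z then U φ hc x w else 0 := by
  rw [U, U, ← map_mul]
  split_ifs with h
  · subst h
    rw [U]; congr 1; ext1 s; simp [E1]
  · obtain ⟨s, hs⟩ : ∃ s, y s ≠ z s := by
      by_contra hcon; push Not at hcon; exact h (funext hcon)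
    rw [← PhiM_apply]
    refine MultilinearMap.map_coord_zero _ s ?_
    simp [E1, hs]

theorem sum_U : ∑ x : Fin t → Fin m, U φ hc x x = 1 := by
  have h1 : Phi φ hc (1 : Fin t → Matrix (Fin m) (Fin m) F) = 1 := map_one _
  have h2 : (1 : Fin t → Matrix (Fin m) (Fin m) F) = fun s => ∑ i, (E1 i i : Matrix (Fin m) (Fin m) F) := by
    ext s a b
    rw [Matrix.sum_apply, Finset.sum_eq_single a]
    · by_cases h : a = b
      · subst h; simp [E1]
      · simp [E1, h]
    · intro i _ hi
      simp [E1, hi]
    · simp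
  rw [h2, ← PhiM_apply, MultilinearMap.map_sum] at h1
  exact h1

/-- adapted basis -/
theorem exists_basis [Nontrivial V] (hdim : finrank F V = m ^ t) :
    ∃ b : Basis (Fin t → Fin m) F V,
      (∀ x y z, U φ hc x y (b z) = if y = z then b x else 0) := by
  classical
  have hne : U φ hc (0 : Fin t → Fin m) 0 ≠ 0 := by
    intro h0
    have h1 : ∀ x, U φ hc x x = 0 := by
      intro x
      have : U φ hc x x = U φ hc x 0 * U φ hc 0 0 * U φ hc 0 x := by
        rw [U_mul, if_pos rfl, U_mul, if_pos rfl]
      rw [this, h0]; simp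
    have h2 := sum_U φ hc
    simp only [h1, Finset.sum_const_zero] at h2
    exact zero_ne_one h2
  obtain ⟨v, hv⟩ : ∃ v, U φ hc 0 0 v ≠ 0 := by
    by_contra hcon; push Not at hcon
    exact hne (LinearMap.ext hcon)
  set w := U φ hc 0 0 v with hw
  have hU : ∀ x y z w (v : V), U φ hc x y (U φ hc z w v) = if y = z then U φ hc x w v else 0 := by
    intro x y z w v
    have := congrArg (fun u : End F V => u v) (U_mul φ hc x y z w)
    simp only [Module.End.mul_apply] at this
    rw [this]; split_ifs <;> simp
  have hw0 : U φ hc 0 0 w = w := by rw [hw, hU, if_pos rfl]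
  let bf : (Fin t → Fin m) → V := fun x => U φ hc x 0 w
  have hbf : ∀ x y z, U φ hc x y (bf z) = if y = z then bf x else 0 := by
    intro x y z
    exact hU x y z 0 w
  have hli : LinearIndependent F bf := by
    rw [Fintype.linearIndependent_iff]
    intro g hg x
    have h1 : U φ hc 0 x (∑ i, g i • bf i) = 0 := by rw [hg, map_zero]
    rw [map_sum, Finset.sum_eq_single x] at h1
    · rw [map_smul, hbf, if_pos rfl] at h1
      change g x • U φ hc 0 0 w = 0 at h1
      rw [hw0] at h1
      exact (smul_eq_zero.1 h1).resolve_right hv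
    · intro y _ hy
      rw [map_smul, hbf, if_neg (Ne.symm hy), smul_zero]
    · simp
  have : Nonempty (Fin t → Fin m) := ⟨0⟩
  let b := basisOfLinearIndependentOfCardEqFinrank hli (by simp [hdim])
  refine ⟨b, ?_⟩
  intro x y z
  have hb : ∀ z, b z = bf z := fun z => by simp [b]
  rw [hb, hb, hbf]

theorem phi_basis (b : Basis (Fin t → Fin m) F V)
    (hb : ∀ x y z, U φ hc x y (b z) = if y = z then b x else 0)
    (X : Fin t → Matrix (Fin m) (Fin m) F) (x : Fin t → Fin m) :
    Phi φ hc X (b x) = ∑ y : Fin t → Fin m, (∏ s, X s (y s) (x s)) • b y := by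
  have h1 : b x = U φ hc x x (b x) := by rw [hb, if_pos rfl]
  have h2 : Phi φ hc X (b x) = (Phi φ hc X * U φ hc x x) (b x) := by
    rw [Module.End.mul_apply, ← h1]
  rw [h2, U, ← map_mul]
  have h3 : (X * fun s => E1 (x s) (x s)) = fun s => ∑ i, X s i (x s) • E1 i (x s) := by
    ext s a c
    simp only [Pi.mul_apply, Matrix.sum_apply, Matrix.smul_apply, E1, Matrix.mul_apply,
      Matrix.single_apply, smul_eq_mul]
    by_cases h : x s = c
    · simp [h]
    · simp [h]
  rw [h3, Phi_sum, LinearMap.sum_apply]
  refine Finset.sum_congr rfl fun y _ => ?_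
  rw [LinearMap.smul_apply]
  congr 1
  exact (hb y x x).trans (if_pos rfl)

/-- an endomorphism commuting with all factors is a scalar -/
theorem comm_scalar (b : Basis (Fin t → Fin m) F V)
    (hb : ∀ x y z, U φ hc x y (b z) = if y = z then b x else 0) (f : End F V)
    (hf : ∀ X, f * Phi φ hc X = Phi φ hc X * f) : ∃ c : F, ∀ v, f v = c • v := by
  have key : ∀ x, f (b x) = b.repr (f (b 0)) 0 • b x := by
    intro x
    have h1 : b x = U φ hc x 0 (b 0) := by rw [hb, if_pos rfl]
    have h2 : f (b x) = U φ hc x 0 (f (b 0)) := by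
      conv_lhs => rw [h1]
      exact congrArg (fun u : End F V => u (b 0)) (hf _)
    rw [h2]
    conv_lhs => rw [← b.sum_repr (f (b 0))]
    rw [map_sum, Finset.sum_eq_single 0]
    · rw [map_smul, hb, if_pos rfl]
    · intro y _ hy
      rw [map_smul, hb, if_neg (Ne.symm hy), smul_zero]
    · simp
  refine ⟨b.repr (f (b 0)) 0, fun v => ?_⟩
  have : f = (b.repr (f (b 0)) 0) • (LinearMap.id : End F V) := b.ext fun x => by
    rw [key]; simp
  rw [this]; simp

theorem U_expand (b : Basis (Fin t → Fin m) F V)
    (hb : ∀ x y z, U φ hc x y (b z) = if y = z then b x else 0) (f : End F V) :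
    f = ∑ x, ∑ y, b.repr (f (b y)) x • U φ hc x y := by
  refine b.ext fun z => ?_
  simp only [LinearMap.sum_apply, LinearMap.smul_apply, hb]
  conv_lhs => rw [← b.sum_repr (f (b z))]
  refine Finset.sum_congr rfl fun x _ => ?_
  rw [Finset.sum_eq_single z]
  · simp
  · intro y _ hy; simp [hy]
  · simp

/-- an element permuting the images of the matrix algebras is, in the adapted basis, a factor
permutation times a pure tensor -/
theorem norm_form [Nontrivial V] [NeZero t] (b : Basis (Fin t → Fin m) F V)
    (hb : ∀ x y z, U φ hc x y (b z) = if y = z then b x else 0)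
    (g g' : End F V) (hg : g * g' = 1) (hg' : g' * g = 1) (σ : Equiv.Perm (Fin t))
    (hn : ∀ s M, ∃ M', g * φ s M * g' = φ (σ s) M') :
    ∃ P : Fin t → (Matrix (Fin m) (Fin m) F)ˣ, ∀ x : Fin t → Fin m,
      g (b x) = ∑ y : Fin t → Fin m, (∏ s, (P s).1 (y s) (x s)) • b (y ∘ σ.symm) := by
  classical
  -- permutation operator
  let T : V ≃ₗ[F] V := b.equiv b (Equiv.arrowCongr σ (Equiv.refl _))
  have hT : ∀ x, T (b x) = b (x ∘ σ.symm) := by
    intro x
    simp only [T, Basis.equiv_apply]
    rfl
  have hTs : ∀ x, T.symm (b x) = b (x ∘ σ) := by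
    intro x
    rw [LinearEquiv.symm_apply_eq, hT]
    congr 1
    ext s; simp
  have hTphi : ∀ s M, (T : End F V) * φ s M * (T.symm : End F V) = φ (σ s) M := by
    intro s M
    refine b.ext fun x => ?_
    change T (φ s M (T.symm (b x))) = φ (σ s) M (b x)
    rw [hTs, ← Phi_mulSingle φ hc, ← Phi_mulSingle φ hc, phi_basis φ hc b hb, phi_basis φ hc b hb,
      map_sum]
    refine Fintype.sum_equiv (Equiv.arrowCongr σ (Equiv.refl _)) _ _ fun y => ?_
    rw [map_smul, hT]
    congr 1
    refine Fintype.prod_equiv σ _ _ fun s' => ?_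
    simp only [Function.comp, Equiv.arrowCongr_apply, Equiv.refl_apply, id,
      Equiv.symm_apply_apply]
    by_cases h : s' = s
    · subst h; simp
    · have : σ s' ≠ σ s := fun h' => h (σ.injective h')
      simp [h, this]
  have hTT : (T : End F V) * (T.symm : End F V) = 1 := LinearMap.ext fun x => T.apply_symm_apply x
  have hTT' : (T.symm : End F V) * (T : End F V) = 1 := LinearMap.ext fun x => T.symm_apply_apply x
  -- reduce to the case σ = 1
  let k : End F V := (T.symm : End F V) * g
  let k' : End F V := g' * (T : End F V)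
  have hk : k * k' = 1 := by
    change (T.symm : End F V) * g * (g' * (T : End F V)) = 1
    calc _ = (T.symm : End F V) * (g * g') * (T : End F V) := by noncomm_ring
      _ = 1 := by rw [hg]; simpa using hTT'
  have hk' : k' * k = 1 := by
    change g' * (T : End F V) * ((T.symm : End F V) * g) = 1
    calc _ = g' * ((T : End F V) * (T.symm : End F V)) * g := by noncomm_ring
      _ = 1 := by rw [hTT]; simpa using hg'
  have hkn : ∀ s M, ∃ M', k * φ s M * k' = φ s M' := by
    intro s M
    obtain ⟨M', hM'⟩ := hn s M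
    refine ⟨M', ?_⟩
    calc k * φ s M * k' = (T.symm : End F V) * (g * φ s M * g') * (T : End F V) := by
          change (T.symm : End F V) * g * φ s M * (g' * (T : End F V)) = _
          noncomm_ring
      _ = (T.symm : End F V) * ((T : End F V) * φ s M' * (T.symm : End F V)) * (T : End F V) := by
          rw [hM', hTphi]
      _ = ((T.symm : End F V) * (T : End F V)) * φ s M' * ((T.symm : End F V) * (T : End F V)) := by
          noncomm_ring
      _ = φ s M' := by rw [hTT']; simp
  choose P hP using fun s => norm_inner (φ s) (hom_injective (φ s)) k k' hk hk' (hkn s)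
  -- the remaining part commutes with everything
  let X : Fin t → Matrix (Fin m) (Fin m) F := fun s => (P s).1
  let X' : Fin t → Matrix (Fin m) (Fin m) F := fun s => ((P s)⁻¹).1
  have hXX' : Phi φ hc X * Phi φ hc X' = 1 := by
    rw [← map_mul]
    have : X * X' = 1 := by ext1 s; simp [X, X']
    rw [this, map_one]
  have hX'X : Phi φ hc X' * Phi φ hc X = 1 := by
    rw [← map_mul]
    have : X' * X = 1 := by ext1 s; simp [X, X']
    rw [this, map_one]
  have hcomm1 : ∀ s M, (Phi φ hc X' * k) * φ s M = φ s M * (Phi φ hc X' * k) := by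
    intro s M
    have h1 : k * φ s M = φ s ((P s).1 * M * ((P s)⁻¹).1) * k := by
      calc k * φ s M = k * φ s M * (k' * k) := by rw [hk']; simp
        _ = (k * φ s M * k') * k := by noncomm_ring
        _ = _ := by rw [hP]
    have h2 : Phi φ hc X' * φ s ((P s).1 * M * ((P s)⁻¹).1) = φ s M * Phi φ hc X' := by
      rw [← Phi_mulSingle φ hc, ← Phi_mulSingle φ hc, ← map_mul, ← map_mul]
      congr 1
      ext1 s'
      by_cases h : s' = s
      · subst h; simp [X', mul_assoc]
      · simp [h]
    calc (Phi φ hc X' * k) * φ s M = Phi φ hc X' * (k * φ s M) := by noncomm_ring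
      _ = (Phi φ hc X' * φ s ((P s).1 * M * ((P s)⁻¹).1)) * k := by rw [h1]; noncomm_ring
      _ = φ s M * (Phi φ hc X' * k) := by rw [h2]; noncomm_ring
  have hcomm2 : ∀ Y, (Phi φ hc X' * k) * Phi φ hc Y = Phi φ hc Y * (Phi φ hc X' * k) := by
    intro Y
    have : ∀ f : End F V, (∀ s M, f * φ s M = φ s M * f) → ∀ Y, Commute f (Phi φ hc Y) := by
      intro f hf Y
      refine MonoidHom.commute_noncommPiCoprod _ ?_ _
      intro s x
      exact hf s x
    exact this _ hcomm1 Y
  obtain ⟨c, hc'⟩ := comm_scalar φ hc b hb _ hcomm2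
  have hgx : ∀ v, g v = c • T (Phi φ hc X v) := by
    intro v
    have h1 : k v = Phi φ hc X ((Phi φ hc X' * k) v) := by
      have := congrArg (fun u : End F V => u (k v)) hXX'
      exact this.symm
    have h2 : g v = T (k v) := by
      change g v = T (T.symm (g v)); simp
    rw [h2, h1, hc' v, map_smul, map_smul]
  have hc0 : c ≠ 0 := by
    rintro rfl
    obtain ⟨v, hv⟩ := exists_ne (0 : V)
    have h1 : g (g' v) = v := congrArg (fun u : End F V => u v) hg
    rw [hgx, zero_smul] at h1
    exact hv h1.symm
  -- absorb the scalar into factor 0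
  let cu : (Matrix (Fin m) (Fin m) F)ˣ := ⟨algebraMap F _ c, algebraMap F _ c⁻¹, by
    rw [← map_mul, mul_inv_cancel₀ hc0, map_one], by rw [← map_mul, inv_mul_cancel₀ hc0, map_one]⟩
  refine ⟨fun s => if s = 0 then cu * P s else P s, fun x => ?_⟩
  rw [hgx, phi_basis φ hc b hb, map_sum, Finset.smul_sum]
  refine Finset.sum_congr rfl fun y _ => ?_
  rw [map_smul, hT, smul_smul]
  congr 1
  rw [← Finset.mul_prod_erase Finset.univ _ (Finset.mem_univ (0 : Fin t)),
    ← Finset.mul_prod_erase Finset.univ _ (Finset.mem_univ (0 : Fin t)), ← mul_assoc]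
  congr 1
  · simp [cu, X, Algebra.algebraMap_eq_smul_one]
  · refine Finset.prod_congr rfl fun s hs => ?_
    have h := Finset.ne_of_mem_erase hs
    simp [h, X]

end multi

end CfsgLib.Asch5
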