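import Mathlib
import Cfsg.Agent.EqBase
import Cfsg.Agent.LibAsch5

/-! interface with matrices -/
set_option autoImplicit false

namespace CfsgLib.Asch6

open Module Cfsg Cfsg.Geo CfsgLib.Asch1 CfsgLib.Asch2 CfsgLib.Asch3 CfsgLib.Asch4 CfsgLib.Asch5
open scoped Matrix MatrixGroups

section T2
variable {F V : Type*} [Field F] [AddCommGroup V] [Module F V] [FiniteDimensional F V]

theorem matrix_of_isotypic [Finite F] [Nontrivial V] (A : Subalgebra F (End F V))
    (hss : IsSemisimpleModule A V) (hiso : IsIsotypic A V)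
    (hcen : ∀ z ∈ A, (∀ a ∈ A, a * z = z * a) → ∃ c : F, z = algebraMap F _ c) :
    ∃ (a : ℕ) (_ : NeZero a) (φ : Matrix (Fin a) (Fin a) F →ₐ[F] End F V), φ.range = A := by
  have := (simple_of_isotypic A hiso).1
  obtain ⟨a, ha, ⟨e⟩⟩ := matrix_of_central (F := F) (R := A) (by
    intro z hz
    obtain ⟨c, hc⟩ := hcen z z.2 (fun a ha => congrArg Subtype.val (hz ⟨a, ha⟩))
    exact ⟨c, Subtype.ext hc⟩)
  refine ⟨a, ha, A.val.comp e.symm.toAlgHom, ?_⟩
  ext x
  constructor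
  · rintro ⟨y, rfl⟩
    exact (e.symm y).2
  · intro hx
    exact ⟨e ⟨x, hx⟩, by simp⟩

theorem isotypic_of_irred (A : Subalgebra F (End F V)) (hss : IsSemisimpleModule A V)
    (h : ∀ W : Submodule F V, (∀ a ∈ A, ∀ w ∈ W, a w ∈ W) →
      (∀ f : End F V, (∀ a ∈ A, f * a = a * f) → ∀ w ∈ W, f w ∈ W) → W = ⊥ ∨ W = ⊤) :
    IsIsotypic A V := by
  rw [isIsotypic_iff_isFullyInvariant_imp_bot_or_top]
  intro N hN
  rw [fullyInvariant_iff] at hN
  rcases h (res A N) (fun a ha w hw => N.smul_mem (⟨a, ha⟩ : A) hw) (fun f hf w hw => hN f hf w hw) with h1 | h1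
  · left
    apply res_injective A
    rw [h1]; ext x; simp
  · right
    apply res_injective A
    rw [h1]; ext x; simp

end T2

variable {ι : Type} [Fintype ι] [DecidableEq ι] {F : Type*} [Field F]

/-- the linear equivalence given by an invertible matrix -/
noncomputable def le (g : GL ι F) : (ι → F) ≃ₗ[F] (ι → F) :=
  LinearEquiv.ofLinearMap (Matrix.toLin' (g : Matrix ι ι F)) (Matrix.toLin' ((g⁻¹ : GL ι F) : Matrix ι ι F))
    (by rw [← Matrix.toLin'_mul, ← Units.val_mul, mul_inv_cancel, Units.val_one, Matrix.toLin'_one])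
    (by rw [← Matrix.toLin'_mul, ← Units.val_mul, inv_mul_cancel, Units.val_one, Matrix.toLin'_one])

@[simp] theorem le_apply (g : GL ι F) (v : ι → F) : le g v = (g : Matrix ι ι F) *ᵥ v := rfl

@[simp] theorem le_symm_apply (g : GL ι F) (v : ι → F) :
    (le g).symm v = ((g⁻¹ : GL ι F) : Matrix ι ι F) *ᵥ v := rfl

theorem le_coe (g : GL ι F) : ((le g : (ι → F) ≃ₗ[F] (ι → F)) : (ι → F) →ₗ[F] (ι → F)) =
    Matrix.toLin' (g : Matrix ι ι F) := rfl

theorem le_symm_coe (g : GL ι F) : (((le g).symm : (ι → F) ≃ₗ[F] (ι → F)) : (ι → F) →ₗ[F] (ι → F)) =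
    Matrix.toLin' ((g⁻¹ : GL ι F) : Matrix ι ι F) := rfl

/-- the subalgebra of End corresponding to a matrix subalgebra -/
noncomputable def endA (A : Subalgebra F (Matrix ι ι F)) : Subalgebra F (End F (ι → F)) :=
  A.map (Matrix.toLinAlgEquiv' : Matrix ι ι F ≃ₐ[F] _).toAlgHom

theorem mem_endA (A : Subalgebra F (Matrix ι ι F)) (M : Matrix ι ι F) :
    Matrix.toLin' M ∈ endA A ↔ M ∈ A := by
  constructor
  · rintro ⟨N, hN, h⟩
    have : N = M := (Matrix.toLin' : Matrix ι ι F ≃ₗ[F] _).injective h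
    rwa [← this]
  · intro h; exact ⟨M, h, rfl⟩

theorem exists_of_mem_endA (A : Subalgebra F (Matrix ι ι F)) (f : End F (ι → F)) (hf : f ∈ endA A) :
    ∃ M ∈ A, Matrix.toLin' M = f := by
  obtain ⟨N, hN, h⟩ := hf
  exact ⟨N, hN, h⟩

/-- H normalises the matrix subalgebra A -/
def NormAlg (H : Set (GL ι F)) (A : Subalgebra F (Matrix ι ι F)) : Prop :=
  ∀ h ∈ H, (∀ a ∈ A, (h : Matrix ι ι F) * a * ((h⁻¹ : GL ι F) : Matrix ι ι F) ∈ A) ∧
    (∀ a ∈ A, ((h⁻¹ : GL ι F) : Matrix ι ι F) * a * (h : Matrix ι ι F) ∈ A)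

theorem nrm_of_normAlg {H : Set (GL ι F)} {A : Subalgebra F (Matrix ι ι F)} (hn : NormAlg H A)
    (h : GL ι F) (hh : h ∈ H) : Nrm (endA A) (le h) := by
  refine ⟨?_, ?_⟩
  · intro a ha
    obtain ⟨M, hM, rfl⟩ := exists_of_mem_endA A a ha
    rw [le_coe, le_symm_coe, ← Matrix.toLin'_mul, ← Matrix.toLin'_mul, mem_endA, ← mul_assoc]
    exact (hn h hh).2 M hM
  · intro a ha
    obtain ⟨M, hM, rfl⟩ := exists_of_mem_endA A a ha
    rw [le_coe, le_symm_coe, ← Matrix.toLin'_mul, ← Matrix.toLin'_mul, mem_endA, ← mul_assoc]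
    exact (hn h hh).1 M hM

theorem irr_le {H : Subgroup (GL ι F)} (hirr : ActsIrreducibly (matrixSet H))
    (W : Submodule F (ι → F)) (hW : ∀ h ∈ le '' (H : Set (GL ι F)), W.map (h : (ι → F) →ₗ[F] (ι → F)) ≤ W) :
    W = ⊥ ∨ W = ⊤ := by
  refine hirr W ?_
  rintro _ ⟨h, hh, rfl⟩
  exact hW _ ⟨h, hh, rfl⟩

theorem dec_le {H : Subgroup (GL ι F)} (h : HasDec (le '' (H : Set (GL ι F)))) :
    ∃ (t m : ℕ) (D : Fin t → Submodule F (ι → F)), IsMDecomposition m D ∧ H ≤ decompositionStabilizer D := by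
  obtain ⟨t, m, D, h2, h0, hf, hi, hs, hσ⟩ := h
  refine ⟨t, m, D, ⟨h2, h0, hf, hi, hs⟩, fun g hg => ?_⟩
  exact hσ (le g) ⟨g, hg, rfl⟩

/-- conjugation as an algebra automorphism -/
noncomputable def cj (h : GL ι F) : Matrix ι ι F ≃ₐ[F] Matrix ι ι F :=
  AlgEquiv.ofLinearEquiv
    { toFun := fun a => (h : Matrix ι ι F) * a * ((h⁻¹ : GL ι F) : Matrix ι ι F)
      invFun := fun a => ((h⁻¹ : GL ι F) : Matrix ι ι F) * a * (h : Matrix ι ι F)
      map_add' := fun a b => by noncomm_ring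
      map_smul' := fun c a => by simp
      left_inv := fun a => by
        have h1 : ((h⁻¹ : GL ι F) : Matrix ι ι F) * (h : Matrix ι ι F) = 1 := by
          rw [← Units.val_mul]; simp
        calc _ = (((h⁻¹ : GL ι F) : Matrix ι ι F) * (h : Matrix ι ι F)) * a *
              (((h⁻¹ : GL ι F) : Matrix ι ι F) * (h : Matrix ι ι F)) := by noncomm_ring
          _ = a := by rw [h1]; simp
      right_inv := fun a => by
        have h1 : (h : Matrix ι ι F) * ((h⁻¹ : GL ι F) : Matrix ι ι F) = 1 := by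
          rw [← Units.val_mul]; simp
        calc _ = ((h : Matrix ι ι F) * ((h⁻¹ : GL ι F) : Matrix ι ι F)) * a *
              ((h : Matrix ι ι F) * ((h⁻¹ : GL ι F) : Matrix ι ι F)) := by noncomm_ring
          _ = a := by rw [h1]; simp }
    (by
      change (h : Matrix ι ι F) * 1 * ((h⁻¹ : GL ι F) : Matrix ι ι F) = 1
      rw [mul_one, ← Units.val_mul]; simp)
    (by
      intro a b
      have h1 : ((h⁻¹ : GL ι F) : Matrix ι ι F) * (h : Matrix ι ι F) = 1 := by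
        rw [← Units.val_mul]; simp
      change (h : Matrix ι ι F) * (a * b) * ((h⁻¹ : GL ι F) : Matrix ι ι F) =
        ((h : Matrix ι ι F) * a * ((h⁻¹ : GL ι F) : Matrix ι ι F)) *
        ((h : Matrix ι ι F) * b * ((h⁻¹ : GL ι F) : Matrix ι ι F))
      calc _ = (h : Matrix ι ι F) * a * 1 * b * ((h⁻¹ : GL ι F) : Matrix ι ι F) := by noncomm_ring
        _ = _ := by rw [← h1]; noncomm_ring)

@[simp] theorem cj_apply (h : GL ι F) (a : Matrix ι ι F) :
    cj h a = (h : Matrix ι ι F) * a * ((h⁻¹ : GL ι F) : Matrix ι ι F) := rfl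

/-- if H is irreducible, primitive and normalises no extension field, then each normalised
subalgebra is a full matrix algebra -/
theorem matrix_of_normAlg [Finite F] [Nonempty ι] (H : Subgroup (GL ι F))
    (hirr : ActsIrreducibly (matrixSet H))
    (hdec : ¬ ∃ (t m : ℕ) (D : Fin t → Submodule F (ι → F)),
      IsMDecomposition m D ∧ H ≤ decompositionStabilizer D)
    (hfld : ¬ ∃ (r : ℕ) (K : Subalgebra F (Matrix ι ι F)), r.Prime ∧ IsFieldSubalgebra r K ∧
      H ≤ subalgebraNormalizer K)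
    (A : Subalgebra F (Matrix ι ι F)) (hn : NormAlg (H : Set (GL ι F)) A) :
    ∃ (a : ℕ) (_ : NeZero a) (φ : Matrix (Fin a) (Fin a) F →ₐ[F] End F (ι → F)),
      φ.range = endA A := by
  have hcl := clifford (A := endA A) (le '' (H : Set (GL ι F))) (irr_le hirr) (by
    rintro _ ⟨h, hh, rfl⟩
    exact nrm_of_normAlg hn h hh) (fun h => hdec (dec_le h))
  have hss := hcl.1
  refine matrix_of_isotypic (endA A) hcl.1 hcl.2 ?_
  intro z hz hz'
  by_contra hcon
  have hsimple := (simple_of_isotypic (endA A) hcl.2).1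
  -- the centre as a subalgebra of matrices
  have hA : ∀ M, M ∈ cen A ↔ Matrix.toLin' M ∈ cen (endA A) := by
    intro M
    rw [mem_cen, mem_cen, mem_endA]
    refine and_congr_right fun _ => ⟨?_, ?_⟩
    · intro h a ha
      obtain ⟨N, hN, rfl⟩ := exists_of_mem_endA A a ha
      have := h N hN
      change Matrix.toLin' N ∘ₗ Matrix.toLin' M = Matrix.toLin' M ∘ₗ Matrix.toLin' N
      rw [← Matrix.toLin'_mul, ← Matrix.toLin'_mul, this]
    · intro h a ha
      have h1 := h (Matrix.toLin' a) ((mem_endA A a).2 ha)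
      change Matrix.toLin' a ∘ₗ Matrix.toLin' M = Matrix.toLin' M ∘ₗ Matrix.toLin' a at h1
      rw [← Matrix.toLin'_mul, ← Matrix.toLin'_mul] at h1
      exact Matrix.toLin'.injective h1
  obtain ⟨M, hM, rfl⟩ := exists_of_mem_endA A z hz
  have hMc : M ∈ cen A := by
    rw [hA, mem_cen]; exact ⟨hz, hz'⟩
  have hne : cen A ≠ ⊥ := by
    intro h0
    rw [h0, Algebra.mem_bot] at hMc
    obtain ⟨c, rfl⟩ := hMc
    apply hcon
    exact ⟨c, (Matrix.toLinAlgEquiv' : Matrix ι ι F ≃ₐ[F] _).commutes c⟩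
  have hcomm : ∀ x ∈ cen A, ∀ y ∈ cen A, x * y = y * x := fun x hx y hy => cen_comm A x y hx hy
  have hinv : ∀ x ∈ cen A, x ≠ 0 → ∃ y ∈ cen A, x * y = 1 := by
    intro x hx h0
    obtain ⟨y, hy, hxy⟩ := cen_inv (endA A) (Matrix.toLin' x) ((hA x).1 hx) (by
      intro h; exact h0 (by simpa using h))
    obtain ⟨N, hN, rfl⟩ := exists_of_mem_endA A y ((mem_cen _ _).1 hy).1
    refine ⟨N, (hA N).2 hy, ?_⟩
    change Matrix.toLin' x ∘ₗ Matrix.toLin' N = 1 at hxy
    rw [← Matrix.toLin'_mul] at hxy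
    apply (Matrix.toLin' : Matrix ι ι F ≃ₗ[F] _).injective
    rw [hxy, Matrix.toLin'_one]; rfl
  obtain ⟨r, K, hr, hK, hKinv, hKr, hKα⟩ := prime_sub (cen A) hcomm hinv hne
  refine hfld ⟨r, K, hr, ⟨fun x hx y hy => hcomm x (hK hx) y (hK hy), hKinv, hKr⟩, ?_⟩
  have hpres : ∀ h ∈ H, ∀ x ∈ K, (h : Matrix ι ι F) * x * ((h⁻¹ : GL ι F) : Matrix ι ι F) ∈ K := by
    intro h hh x hx
    refine hKα (cj h) ?_ x hx
    intro x hx
    rw [mem_cen] at hx ⊢
    refine ⟨(hn h hh).1 x hx.1, fun a ha => ?_⟩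
    have h1 := hx.2 _ ((hn h hh).2 a ha)
    have h2 : cj h (((h⁻¹ : GL ι F) : Matrix ι ι F) * a * (h : Matrix ι ι F)) * cj h x =
        cj h x * cj h (((h⁻¹ : GL ι F) : Matrix ι ι F) * a * (h : Matrix ι ι F)) := by
      rw [← map_mul (cj h), ← map_mul (cj h), h1]
    have h3 : cj h (((h⁻¹ : GL ι F) : Matrix ι ι F) * a * (h : Matrix ι ι F)) = a :=
      (cj h).apply_symm_apply a
    rwa [h3] at h2
  intro h hh k
  constructor
  · exact hpres h hh k
  · intro hk
    have := hpres h⁻¹ (H.inv_mem hh) _ hk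
    rw [inv_inv] at this
    have h3 : ((h⁻¹ : GL ι F) : Matrix ι ι F) * ((h : Matrix ι ι F) * k * ((h⁻¹ : GL ι F) : Matrix ι ι F)) * (h : Matrix ι ι F) = k :=
      (cj h).symm_apply_apply k
    rwa [h3] at this

end CfsgLib.Asch6
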