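import Mathlib
import Cfsg.Agent.LibAsch6

/-! tensor product and tensor wreath subgroups from adapted bases -/
set_option autoImplicit false

namespace CfsgLib.Asch7

open Module Cfsg Cfsg.Geo CfsgLib.Asch6
open scoped Matrix MatrixGroups Kronecker

variable {ι : Type} [Fintype ι] [DecidableEq ι] {F : Type*} [Field F]

theorem exists_P (b : Basis ι F (ι → F)) : ∃ P : GL ι F, ∀ i j, (P : Matrix ι ι F) j i = b i j := by
  let T : (ι → F) ≃ₗ[F] (ι → F) := (Pi.basisFun F ι).equiv b (Equiv.refl _)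
  refine ⟨⟨LinearMap.toMatrix' (T : (ι → F) →ₗ[F] (ι → F)), LinearMap.toMatrix' (T.symm : (ι → F) →ₗ[F] (ι → F)), ?_, ?_⟩, ?_⟩
  · rw [← LinearMap.toMatrix'_comp]
    have : (T : (ι → F) →ₗ[F] (ι → F)) ∘ₗ (T.symm : (ι → F) →ₗ[F] (ι → F)) = LinearMap.id :=
      LinearMap.ext fun x => T.apply_symm_apply x
    rw [this, LinearMap.toMatrix'_id]
  · rw [← LinearMap.toMatrix'_comp]
    have : (T.symm : (ι → F) →ₗ[F] (ι → F)) ∘ₗ (T : (ι → F) →ₗ[F] (ι → F)) = LinearMap.id :=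
      LinearMap.ext fun x => T.symm_apply_apply x
    rw [this, LinearMap.toMatrix'_id]
  · intro i j
    change LinearMap.toMatrix' (T : (ι → F) →ₗ[F] (ι → F)) j i = b i j
    rw [LinearMap.toMatrix'_apply]
    have : T (Pi.single i 1) = b i := by
      have := (Pi.basisFun F ι).equiv_apply i b (Equiv.refl _)
      rw [Pi.basisFun_apply] at this
      exact this
    have h2 : (fun j' => if j' = i then (1 : F) else 0) = Pi.single i 1 := by
      ext j'; simp [Pi.single_apply]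
    first
      | exact congrFun this j
      | (rw [← h2] at this; exact congrFun this j)

/-- matrix of g in the basis -/
theorem eq_conj (b : Basis ι F (ι → F)) (P : GL ι F) (hP : ∀ i j, (P : Matrix ι ι F) j i = b i j)
    (g R : Matrix ι ι F) (h : ∀ i, g *ᵥ b i = ∑ j, R j i • b j) :
    g * (P : Matrix ι ι F) = (P : Matrix ι ι F) * R := by
  ext j i
  have h1 := congrFun (h i) j
  rw [Finset.sum_apply] at h1
  simp only [Pi.smul_apply, smul_eq_mul] at h1
  rw [Matrix.mul_apply, Matrix.mul_apply]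
  have h2 : (g *ᵥ b i) j = ∑ k, g j k * (P : Matrix ι ι F) k i := by
    simp [Matrix.mulVec, dotProduct, hP]
  rw [← h2, h1]
  refine Finset.sum_congr rfl fun k _ => ?_
  rw [hP, mul_comm]

theorem eq_conj' (P g R : GL ι F) (h : (g : Matrix ι ι F) * P = (P : Matrix ι ι F) * R) :
    g = P * R * P⁻¹ := by
  have : g * P = P * R := Units.ext h
  rw [← this]; simp

theorem glReindex_apply {κ : Type} [Fintype κ] [DecidableEq κ] (e : ι ≃ κ) (g : GL κ F) (i j : ι) :
    ((glReindex e.symm g : GL ι F) : Matrix ι ι F) i j = (g : Matrix κ κ F) (e i) (e j) := rfl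

/-- Kronecker form in an adapted basis gives membership in the tensor product subgroup -/
theorem le_tensorProduct {n₁ n₂ : ℕ} [NeZero n₁] [NeZero n₂]
    (b : Basis (Fin n₁ × Fin n₂) F (ι → F)) (H : Subgroup (GL ι F))
    (hH : ∀ h ∈ H, ∃ (A : (Matrix (Fin n₁) (Fin n₁) F)ˣ) (N : (Matrix (Fin n₂) (Fin n₂) F)ˣ), ∀ j l,
      (h : Matrix ι ι F) *ᵥ b (j, l) = ∑ i, ∑ l', (A.1 i j * N.1 l' l) • b (i, l'))
    (e : ι ≃ Fin n₁ × Fin n₂) :
    ∃ P : GL ι F, H ≤ tensorProductSubgroup n₁ n₂ e P := by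
  obtain ⟨P, hP⟩ := exists_P (b.reindex e.symm)
  refine ⟨P, fun h hh => ?_⟩
  obtain ⟨A, N, hAN⟩ := hH h hh
  -- the Kronecker unit
  let K : GL (Fin n₁ × Fin n₂) F := ⟨A.1 ⊗ₖ N.1, (A⁻¹).1 ⊗ₖ (N⁻¹).1, by
    rw [← Matrix.mul_kronecker_mul, ← Units.val_mul, ← Units.val_mul]; simp, by
    rw [← Matrix.mul_kronecker_mul, ← Units.val_mul, ← Units.val_mul]; simp⟩
  refine Subgroup.mem_map.2 ⟨glReindex e.symm K, ?_, ?_⟩
  · exact Subgroup.mem_map.2 ⟨K, ⟨A, N, rfl⟩, rfl⟩
  · symm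
    change h = P * glReindex e.symm K * P⁻¹
    refine eq_conj' P h _ (eq_conj (b.reindex e.symm) P hP _ _ ?_)
    intro i
    rw [Basis.reindex_apply, Equiv.symm_symm]
    have h1 := hAN (e i).1 (e i).2
    rw [h1, ← Finset.sum_product' (f := fun i' l' => (A.1 i' (e i).1 * N.1 l' (e i).2) • b (i', l'))]
    rw [Finset.univ_product_univ]
    refine Fintype.sum_equiv e.symm _ _ fun x => ?_
    rw [Basis.reindex_apply, Equiv.symm_symm, glReindex_apply, Equiv.apply_symm_apply]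
    rfl

/-- tensor wreath form -/
def TW {m t : ℕ} (b : Basis (Fin t → Fin m) F (ι → F)) (g : Matrix ι ι F) : Prop :=
  ∃ (σ : Equiv.Perm (Fin t)) (P : Fin t → (Matrix (Fin m) (Fin m) F)ˣ), ∀ x : Fin t → Fin m,
      g *ᵥ (b x) = ∑ y : Fin t → Fin m, (∏ s, (P s).1 (y s) (x s)) • b (y ∘ σ.symm)

/-- pure tensor matrix -/
def pt {m t : ℕ} (P : Fin t → Matrix (Fin m) (Fin m) F) : Matrix (Fin t → Fin m) (Fin t → Fin m) F :=
  fun x y => ∏ s, P s (x s) (y s)

theorem pt_mul {m t : ℕ} (P Q : Fin t → Matrix (Fin m) (Fin m) F) : pt P * pt Q = pt (P * Q) := by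
  ext x z
  simp only [pt, Matrix.mul_apply, Pi.mul_apply]
  rw [Finset.prod_univ_sum]
  refine Finset.sum_congr (by ext; simp) fun y _ => ?_
  rw [Finset.prod_mul_distrib]

theorem pt_one {m t : ℕ} : pt (1 : Fin t → Matrix (Fin m) (Fin m) F) = 1 := by
  ext x y
  simp only [pt, Pi.one_apply, Matrix.one_apply]
  by_cases h : x = y
  · subst h; simp
  · rw [if_neg h]
    obtain ⟨s, hs⟩ : ∃ s, x s ≠ y s := by
      by_contra hcon; push Not at hcon; exact h (funext hcon)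
    exact Finset.prod_eq_zero (Finset.mem_univ s) (by simp [hs])

/-- factor permutation matrix -/
def fp {t : ℕ} (m : ℕ) (F : Type*) [Field F] (σ : Equiv.Perm (Fin t)) : Matrix (Fin t → Fin m) (Fin t → Fin m) F :=
  fun x y => if y = x ∘ σ then 1 else 0

theorem fp_mul {m t : ℕ} (σ : Equiv.Perm (Fin t)) (X : Matrix (Fin t → Fin m) (Fin t → Fin m) F)
    (x y : Fin t → Fin m) : (fp m F σ * X) x y = X (x ∘ σ) y := by
  simp [fp, Matrix.mul_apply]

theorem le_tensorWreath {m t : ℕ}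
    (b : Basis (Fin t → Fin m) F (ι → F)) (H : Subgroup (GL ι F))
    (hH : ∀ h ∈ H, TW b (h : Matrix ι ι F)) (e : ι ≃ (Fin t → Fin m)) :
    ∃ P : GL ι F, H ≤ tensorWreathSubgroup m t e P := by
  obtain ⟨P, hP⟩ := exists_P (b.reindex e.symm)
  refine ⟨P, fun h hh => ?_⟩
  obtain ⟨σ, Q, hQ⟩ := hH h hh
  let X : GL (Fin t → Fin m) F := ⟨pt (fun s => (Q s).1), pt (fun s => ((Q s)⁻¹).1), by
    rw [pt_mul, ← pt_one]; congr 1; ext1 s; simp, by
    rw [pt_mul, ← pt_one]; congr 1; ext1 s; simp⟩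
  let S : GL (Fin t → Fin m) F := ⟨fp m F σ, fp m F σ.symm, by
    ext x y; rw [fp_mul]; simp [fp, Matrix.one_apply, Function.comp_assoc, eq_comm], by
    ext x y; rw [fp_mul]; simp [fp, Matrix.one_apply, Function.comp_assoc, eq_comm]⟩
  refine Subgroup.mem_map.2 ⟨glReindex e.symm (S * X), ?_, ?_⟩
  · refine Subgroup.mem_map.2 ⟨S * X, ?_, rfl⟩
    refine Subgroup.mul_mem _ (Subgroup.subset_closure (Or.inr ⟨σ, fun x y => rfl⟩))
      (Subgroup.subset_closure (Or.inl ⟨Q, fun x y => rfl⟩))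
  · symm
    change h = P * glReindex e.symm (S * X) * P⁻¹
    refine eq_conj' P h _ (eq_conj (b.reindex e.symm) P hP _ _ ?_)
    intro i
    rw [Basis.reindex_apply, Equiv.symm_symm, hQ]
    refine Fintype.sum_equiv ((Equiv.arrowCongr σ (Equiv.refl (Fin m))).trans e.symm) _ _ fun y => ?_
    rw [Basis.reindex_apply, Equiv.symm_symm, glReindex_apply]
    have h1 : e (((Equiv.arrowCongr σ (Equiv.refl (Fin m))).trans e.symm) y) = y ∘ σ.symm := by
      simp only [Equiv.trans_apply, Equiv.apply_symm_apply]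
      rfl
    rw [h1]
    congr 1
    change _ = (fp m F σ * pt (fun s => (Q s).1)) (y ∘ σ.symm) (e i)
    rw [fp_mul]
    simp [pt, Function.comp_assoc]

end CfsgLib.Asch7
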