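import Mathlib
import Cfsg.Agent.LibAsch7
import Cfsg.Agent.LibForms27

/-! forms: similarity groups of tensor products of two-dimensional symplectic forms -/
set_option autoImplicit false

namespace CfsgLib.Asch8

open Module Cfsg Cfsg.Geo CfsgLib.Asch6 CfsgLib.Asch7
open scoped Matrix MatrixGroups

variable {ι : Type} [Fintype ι] [DecidableEq ι] {F : Type*} [Field F]

section general
variable {κ : Type} [Fintype κ] [DecidableEq κ]

/-- bilinear form with Gram matrix w in the basis b -/
noncomputable def bf (b : Basis κ F (ι → F)) (w : κ → κ → F) (u v : ι → F) : F :=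
  ∑ x, ∑ y, b.repr u x * b.repr v y * w x y

theorem bf_bilin (b : Basis κ F (ι → F)) (w : κ → κ → F) : IsBilinearForm (bf b w) where
  add_left x y v := by
    simp only [bf, map_add, Finsupp.add_apply, ← Finset.sum_add_distrib]
    exact Finset.sum_congr rfl fun i _ => Finset.sum_congr rfl fun j _ => by ring
  smul_left c x v := by
    simp only [bf, map_smul, Finsupp.smul_apply, smul_eq_mul, Finset.mul_sum]
    exact Finset.sum_congr rfl fun i _ => Finset.sum_congr rfl fun j _ => by ring
  add_right v x y := by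
    simp only [bf, map_add, Finsupp.add_apply, ← Finset.sum_add_distrib]
    exact Finset.sum_congr rfl fun i _ => Finset.sum_congr rfl fun j _ => by ring
  smul_right c x v := by
    simp only [bf, map_smul, Finsupp.smul_apply, smul_eq_mul, Finset.mul_sum]
    exact Finset.sum_congr rfl fun i _ => Finset.sum_congr rfl fun j _ => by ring

theorem bf_basis (b : Basis κ F (ι → F)) (w : κ → κ → F) (x y : κ) : bf b w (b x) (b y) = w x y := by
  simp only [bf, Basis.repr_self, Finsupp.single_apply]
  rw [Finset.sum_eq_single x]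
  · rw [Finset.sum_eq_single y]
    · simp
    · intro j _ hj; simp [Ne.symm hj]
    · simp
  · intro j _ hj; simp [Ne.symm hj]
  · simp

/-- a bilinear form as a bilinear map -/
def toBil (f : (ι → F) → (ι → F) → F) (hf : IsBilinearForm f) : LinearMap.BilinForm F (ι → F) :=
  LinearMap.mk₂ F f hf.add_left hf.smul_left (fun v x y => hf.add_right v x y)
    (fun c v x => hf.smul_right c v x)

@[simp] theorem toBil_apply (f : (ι → F) → (ι → F) → F) (hf : IsBilinearForm f) (u v : ι → F) :
    toBil f hf u v = f u v := rfl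

theorem bil_ext (b : Basis κ F (ι → F)) {f g : (ι → F) → (ι → F) → F} (hf : IsBilinearForm f)
    (hg : IsBilinearForm g) (h : ∀ x y, f (b x) (b y) = g (b x) (b y)) : ∀ u v, f u v = g u v := by
  have : toBil f hf = toBil g hg := b.ext fun x => b.ext fun y => h x y
  intro u v
  rw [← toBil_apply f hf, this, toBil_apply]

theorem bil_comp {f : (ι → F) → (ι → F) → F} (hf : IsBilinearForm f) (g : Matrix ι ι F) :
    IsBilinearForm (fun u v => f (g *ᵥ u) (g *ᵥ v)) where
  add_left x y v := by simp only [Matrix.mulVec_add, hf.add_left]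
  smul_left c x v := by simp only [Matrix.mulVec_smul, hf.smul_left]
  add_right v x y := by simp only [Matrix.mulVec_add, hf.add_right]
  smul_right c x v := by simp only [Matrix.mulVec_smul, hf.smul_right]

theorem bil_smul {f : (ι → F) → (ι → F) → F} (hf : IsBilinearForm f) (c : F) :
    IsBilinearForm (fun u v => c * f u v) where
  add_left x y v := by simp only [hf.add_left]; ring
  smul_left c x v := by simp only [hf.smul_left]; ring
  add_right v x y := by simp only [hf.add_right]; ring
  smul_right c x v := by simp only [hf.smul_right]; ring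

theorem bil_sum_left {f : (ι → F) → (ι → F) → F} (hf : IsBilinearForm f) {α : Type*} (s : Finset α)
    (u : α → ι → F) (v : ι → F) : f (∑ i ∈ s, u i) v = ∑ i ∈ s, f (u i) v := by
  rw [← toBil_apply f hf, map_sum, LinearMap.sum_apply]; rfl

theorem bil_sum_right {f : (ι → F) → (ι → F) → F} (hf : IsBilinearForm f) {α : Type*} (s : Finset α)
    (u : α → ι → F) (v : ι → F) : f v (∑ i ∈ s, u i) = ∑ i ∈ s, f v (u i) := by
  rw [← toBil_apply f hf, map_sum]; rfl

theorem bil_zero_left {f : (ι → F) → (ι → F) → F} (hf : IsBilinearForm f) (v : ι → F) : f 0 v = 0 := by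
  rw [← toBil_apply f hf, map_zero]; rfl

theorem bil_zero_right {f : (ι → F) → (ι → F) → F} (hf : IsBilinearForm f) (v : ι → F) : f v 0 = 0 := by
  rw [← toBil_apply f hf, map_zero]

/-- alternating from the Gram matrix -/
theorem bf_alt (b : Basis κ F (ι → F)) (w : κ → κ → F) (h0 : ∀ x, w x x = 0) (h1 : ∀ x y, w x y = - w y x)
    (v : ι → F) : bf b w v v = 0 := by
  rw [bf, ← Finset.sum_product' (f := fun x y => b.repr v x * b.repr v y * w x y)]
  refine Finset.sum_involution (fun p _ => (p.2, p.1)) ?_ ?_ ?_ ?_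
  · rintro ⟨x, y⟩ _
    simp only [h1 x y]; ring
  · rintro ⟨x, y⟩ _ hne heq
    have : x = y := (congrArg Prod.snd heq)
    subst this
    apply hne; simp [h0]
  · rintro ⟨x, y⟩ _; simp
  · rintro ⟨x, y⟩ _; rfl

theorem bf_skew (b : Basis κ F (ι → F)) (w : κ → κ → F) (h1 : ∀ x y, w x y = - w y x)
    (u v : ι → F) : bf b w u v = - bf b w v u := by
  rw [bf, bf, Finset.sum_comm, ← Finset.sum_neg_distrib]
  refine Finset.sum_congr rfl fun i _ => ?_
  rw [← Finset.sum_neg_distrib]
  refine Finset.sum_congr rfl fun j _ => ?_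
  rw [h1 j i]; ring

theorem bf_symm (b : Basis κ F (ι → F)) (w : κ → κ → F) (h1 : ∀ x y, w x y = w y x)
    (u v : ι → F) : bf b w u v = bf b w v u := by
  rw [bf, bf, Finset.sum_comm]
  refine Finset.sum_congr rfl fun i _ => ?_
  refine Finset.sum_congr rfl fun j _ => ?_
  rw [h1 j i]; ring

/-- quadratic form of a symmetric bilinear form in odd characteristic -/
theorem quad_of_symm (h2 : (2 : F) ≠ 0) {f : (ι → F) → (ι → F) → F} (hf : IsBilinearForm f)
    (hs : ∀ u v, f u v = f v u) (hnd : IsNondegenerateForm f) :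
    IsNondegenerateQuadraticForm (fun v => f v v) ∧ similarityGroup f ≤ quadSimilarityGroup (fun v => f v v) := by
  have hpol : ∀ u v, QuadraticMap.polar (fun v => f v v) u v = 2 * f u v := by
    intro u v
    simp only [QuadraticMap.polar, hf.add_left, hf.add_right, hs v u]; ring
  refine ⟨⟨?_, ?_, ?_⟩, ?_⟩
  · intro c v
    simp only [hf.smul_left, hf.smul_right]; ring
  · have : QuadraticMap.polar (fun v => f v v) = fun u v => 2 * f u v := by
      funext u v; exact hpol u v
    rw [this]; exact bil_smul hf 2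
  · intro v hv
    obtain ⟨⟨x, hx⟩, ⟨y, hy⟩⟩ := hnd v hv
    exact ⟨⟨x, by rw [hpol]; exact mul_ne_zero h2 hx⟩, ⟨y, by rw [hpol]; exact mul_ne_zero h2 hy⟩⟩
  · rintro g ⟨c, hc⟩
    exact ⟨c, fun v => hc v v⟩

end general

/-- the standard two-dimensional alternating Gram matrix -/
def om (i j : Fin 2) : F := if i = j then 0 else if i = 0 then 1 else -1

theorem om_det (M : Matrix (Fin 2) (Fin 2) F) (a c : Fin 2) :
    ∑ i, ∑ j, M i a * M j c * om i j = M.det * om a c := by
  fin_cases a <;> fin_cases c <;> simp [om, Matrix.det_fin_two, Fin.sum_univ_two] <;> ring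

/-- tensor power of om -/
def omt {t : ℕ} (x y : Fin t → Fin 2) : F := ∏ s, om (x s) (y s)

theorem om_flip (a : Fin 2) : (om a (1 - a) : F) ≠ 0 := by
  fin_cases a <;> simp [om]

theorem flip_flip (a : Fin 2) : 1 - (1 - a) = a := by
  fin_cases a <;> simp

theorem om_skew (i j : Fin 2) : (om i j : F) = - om j i := by
  fin_cases i <;> fin_cases j <;> simp [om]

theorem omt_swap {t : ℕ} (x y : Fin t → Fin 2) : (omt x y : F) = (-1) ^ t * omt y x := by
  have h1 : ∀ s, (om (x s) (y s) : F) = (-1) * om (y s) (x s) := fun s => by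
    rw [om_skew, neg_one_mul]
  simp only [omt]
  rw [Finset.prod_congr rfl fun s _ => h1 s, Finset.prod_mul_distrib]
  simp

theorem TW2_sim {t : ℕ} (b : Basis (Fin t → Fin 2) F (ι → F)) (g : GL ι F)
    (hg : TW b (g : Matrix ι ι F)) : g ∈ similarityGroup (bf b omt) := by
  obtain ⟨σ, P, hP⟩ := hg
  refine ⟨∏ s, Matrix.GeneralLinearGroup.det (P s), ?_⟩
  have hb := bf_bilin (F := F) b (omt (t := t))
  have := bil_ext b (bil_comp hb (g : Matrix ι ι F)) (bil_smul hb ((∏ s, Matrix.GeneralLinearGroup.det (P s) : Fˣ) : F)) ?_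
  · exact this
  intro x y
  rw [hP, hP, bil_sum_left hb, bf_basis]
  have h1 : ∀ x' : Fin t → Fin 2, bf b omt ((∏ s, (P s).1 (x' s) (x s)) • b (x' ∘ σ.symm))
      (∑ y' : Fin t → Fin 2, (∏ s, (P s).1 (y' s) (y s)) • b (y' ∘ σ.symm)) =
      ∑ y' : Fin t → Fin 2, ∏ s, ((P s).1 (x' s) (x s) * (P s).1 (y' s) (y s) * om (x' s) (y' s)) := by
    intro x'
    rw [bil_sum_right hb]
    refine Finset.sum_congr rfl fun y' _ => ?_
    rw [hb.smul_left, hb.smul_right, bf_basis, Finset.prod_mul_distrib, Finset.prod_mul_distrib,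
      ← mul_assoc]
    congr 1
    refine Fintype.prod_equiv σ.symm _ _ fun s => ?_
    rfl
  rw [Finset.sum_congr rfl fun x' _ => h1 x']
  have h2 : ∏ s, (∑ i : Fin 2, ∑ j : Fin 2, (P s).1 i (x s) * (P s).1 j (y s) * om i j) =
      ∑ x' : Fin t → Fin 2, ∑ y' : Fin t → Fin 2,
        ∏ s, ((P s).1 (x' s) (x s) * (P s).1 (y' s) (y s) * om (x' s) (y' s)) := by
    rw [Finset.prod_univ_sum]
    refine Finset.sum_congr (by ext; simp) fun x' _ => ?_
    rw [Finset.prod_univ_sum]
    exact Finset.sum_congr (by ext; simp) fun y' _ => rfl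
  rw [← h2]
  simp only [om_det]
  rw [Finset.prod_mul_distrib]
  simp [omt, Units.coe_prod]

theorem omt_nondeg {t : ℕ} (b : Basis (Fin t → Fin 2) F (ι → F)) :
    IsNondegenerateForm (bf b omt) := by
  have key : ∀ x y : Fin t → Fin 2, (omt x y : F) ≠ 0 ↔ y = fun s => 1 - x s := by
    intro x y
    rw [omt, Finset.prod_ne_zero_iff]
    constructor
    · intro h; ext1 s
      have := h s (Finset.mem_univ s)
      generalize x s = a at *
      generalize y s = c at *
      revert this
      fin_cases a <;> fin_cases c <;> simp [om]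
    · rintro rfl s _
      exact om_flip (x s)
  have hone : ∀ (x : Fin t → Fin 2) (v : ι → F), bf b omt (b x) v =
      b.repr v (fun s => 1 - x s) * omt x (fun s => 1 - x s) := by
    intro x v
    simp only [bf, Basis.repr_self]
    rw [Finset.sum_eq_single x]
    · rw [Finset.sum_eq_single (fun s => 1 - x s)]
      · simp
      · intro y _ hy
        have : (omt x y : F) = 0 := by
          by_contra hcon; exact hy ((key x y).1 hcon)
        simp [this]
      · simp
    · intro y _ hy
      simp [Finsupp.single_apply, Ne.symm hy]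
    · simp
  intro v hv
  obtain ⟨y, hy⟩ : ∃ y, b.repr v y ≠ 0 := by
    by_contra hcon; push Not at hcon
    apply hv
    apply b.repr.injective
    ext y; simp [hcon y]
  have hyy : (fun s => 1 - (fun s => 1 - y s) s) = y := by
    funext s; exact flip_flip (y s)
  have h1 : bf b omt (b (fun s => 1 - y s)) v ≠ 0 := by
    rw [hone]
    refine mul_ne_zero ?_ ((key _ _).2 rfl)
    rwa [hyy]
  refine ⟨⟨_, h1⟩, ⟨b (fun s => 1 - y s), ?_⟩⟩
  intro h2
  apply h1
  have h3 : bf b omt (b (fun s => 1 - y s)) v = (-1) ^ t * bf b omt v (b (fun s => 1 - y s)) := by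
    simp only [bf]
    rw [Finset.sum_comm, Finset.mul_sum]
    refine Finset.sum_congr rfl fun i _ => ?_
    rw [Finset.mul_sum]
    refine Finset.sum_congr rfl fun j _ => ?_
    rw [omt_swap]; ring
  rw [h3, h2, mul_zero]

theorem TW2_class {t : ℕ} (ht : 1 ≤ t) (b : Basis (Fin t → Fin 2) F (ι → F)) (H : Subgroup (GL ι F))
    (hH : ∀ h ∈ H, TW b (h : Matrix ι ι F)) :
    (∃ f : (ι → F) → (ι → F) → F, IsSymplecticForm f ∧ H ≤ similarityGroup f) ∨
    (∃ Q : (ι → F) → F, IsNondegenerateQuadraticForm Q ∧ (2 : F) ≠ 0 ∧ H ≤ quadSimilarityGroup Q) := by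
  have hb := bf_bilin (F := F) b (omt (t := t))
  have hle : H ≤ similarityGroup (bf b omt) := fun h hh => TW2_sim b h (hH h hh)
  have h0 : ∀ x : Fin t → Fin 2, (omt x x : F) = 0 := by
    intro x
    exact Finset.prod_eq_zero (Finset.mem_univ ⟨0, ht⟩) (by simp [om])
  by_cases hcase : (-1 : F) ^ t = -1
  · left
    have h1 : ∀ x y : Fin t → Fin 2, (omt x y : F) = - omt y x := by
      intro x y; rw [omt_swap, hcase, neg_one_mul]
    exact ⟨_, ⟨hb, bf_skew b _ h1, bf_alt b _ h0 h1, omt_nondeg b⟩, hle⟩
  · right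
    have hev : Even t := by
      by_contra hodd
      rw [Nat.not_even_iff_odd] at hodd
      exact hcase hodd.neg_one_pow
    have h2 : (2 : F) ≠ 0 := by
      intro h2
      apply hcase
      rw [hev.neg_one_pow]
      linear_combination h2
    have hs : ∀ x y : Fin t → Fin 2, (omt x y : F) = omt y x := by
      intro x y; rw [omt_swap, hev.neg_one_pow, one_mul]
    obtain ⟨hq, hq2⟩ := quad_of_symm h2 hb (bf_symm b _ hs) (omt_nondeg b)
    exact ⟨_, hq, h2, hle.trans hq2⟩

end CfsgLib.Asch8
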