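import Mathlib
import Cfsg.Agent.LibAsch8

/-! normalised subalgebras of an irreducible primitive tensor-indecomposable group -/
set_option autoImplicit false

namespace CfsgLib.Asch9

open Module Cfsg Cfsg.Geo CfsgLib.Asch4 CfsgLib.Asch5 CfsgLib.Asch6 CfsgLib.Asch7 CfsgLib.Asch8
open scoped Matrix MatrixGroups

variable {ι : Type} [Fintype ι] [DecidableEq ι] {F : Type*} [Field F]

/-- no tensor wreath structure -/
def NoTW (H : Subgroup (GL ι F)) : Prop :=
  ∀ (m t : ℕ) (b : Basis (Fin t → Fin m) F (ι → F)), 2 ≤ m → 2 ≤ t →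
    ¬ ∀ h ∈ H, TW b (h : Matrix ι ι F)

/-- no tensor product structure with different dimensions -/
def NoTP (H : Subgroup (GL ι F)) : Prop :=
  ∀ (n₁ n₂ : ℕ) (e : ι ≃ Fin n₁ × Fin n₂) (P : GL ι F), 2 ≤ n₁ → n₁ < n₂ →
    ¬ H ≤ tensorProductSubgroup n₁ n₂ e P

structure Prim (H : Subgroup (GL ι F)) : Prop where
  irr : ActsIrreducibly (matrixSet H)
  dec : ¬ ∃ (t m : ℕ) (D : Fin t → Submodule F (ι → F)),
      IsMDecomposition m D ∧ H ≤ decompositionStabilizer D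
  fld : ¬ ∃ (r : ℕ) (K : Subalgebra F (Matrix ι ι F)), r.Prime ∧ IsFieldSubalgebra r K ∧
      H ≤ subalgebraNormalizer K
  tp : NoTP H
  tw : NoTW H

theorem kron_of_norm {a k : ℕ} [NeZero a] [NeZero k] (φ : Matrix (Fin a) (Fin a) F →ₐ[F] End F (ι → F))
    [Nonempty ι]
    (b : Basis (Fin a × Fin k) F (ι → F))
    (hb : ∀ (M : Matrix (Fin a) (Fin a) F) (j : Fin a) (l : Fin k),
        φ M (b (j, l)) = ∑ i, M i j • b (i, l)) (h : GL ι F)
    (hn : ∀ M, ∃ M', Matrix.toLin' (h : Matrix ι ι F) * φ M *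
      Matrix.toLin' ((h⁻¹ : GL ι F) : Matrix ι ι F) = φ M') :
    ∃ (A : (Matrix (Fin a) (Fin a) F)ˣ) (N : (Matrix (Fin k) (Fin k) F)ˣ), ∀ j l,
      (h : Matrix ι ι F) *ᵥ b (j, l) = ∑ i, ∑ l', (A.1 i j * N.1 l' l) • b (i, l') := by
  have hh : Matrix.toLin' (h : Matrix ι ι F) * Matrix.toLin' ((h⁻¹ : GL ι F) : Matrix ι ι F) =
      (1 : End F (ι → F)) := by
    change Matrix.toLin' (h : Matrix ι ι F) ∘ₗ Matrix.toLin' ((h⁻¹ : GL ι F) : Matrix ι ι F) = _
    rw [← Matrix.toLin'_mul, ← Units.val_mul, mul_inv_cancel, Units.val_one, Matrix.toLin'_one]; rfl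
  have hh' : Matrix.toLin' ((h⁻¹ : GL ι F) : Matrix ι ι F) * Matrix.toLin' (h : Matrix ι ι F) =
      (1 : End F (ι → F)) := by
    change Matrix.toLin' ((h⁻¹ : GL ι F) : Matrix ι ι F) ∘ₗ Matrix.toLin' (h : Matrix ι ι F) = _
    rw [← Matrix.toLin'_mul, ← Units.val_mul, inv_mul_cancel, Units.val_one, Matrix.toLin'_one]; rfl
  set g : End F (ι → F) := Matrix.toLin' (h : Matrix ι ι F) with hg
  set g' : End F (ι → F) := Matrix.toLin' ((h⁻¹ : GL ι F) : Matrix ι ι F) with hg'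
  obtain ⟨P, hP⟩ := norm_inner φ (hom_injective φ) g g' hh hh' hn
  have hPP : φ P.1 * φ (P⁻¹).1 = 1 := by rw [← map_mul, ← Units.val_mul]; simp
  have hPP' : φ (P⁻¹).1 * φ P.1 = 1 := by rw [← map_mul, ← Units.val_mul]; simp
  have hc1 : ∀ M, (φ (P⁻¹).1 * g) * φ M = φ M * (φ (P⁻¹).1 * g) := by
    intro M
    calc (φ (P⁻¹).1 * g) * φ M = φ (P⁻¹).1 * (g * φ M * (g' * g)) := by rw [hh']; noncomm_ring
      _ = φ (P⁻¹).1 * (g * φ M * g') * g := by noncomm_ring
      _ = φ (P⁻¹).1 * φ (P.1 * M * (P⁻¹).1) * g := by rw [hP]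
      _ = (φ (P⁻¹).1 * φ P.1) * φ M * φ (P⁻¹).1 * g := by rw [map_mul, map_mul]; noncomm_ring
      _ = _ := by rw [hPP']; noncomm_ring
  have hc2 : ∀ M, (g' * φ P.1) * φ M = φ M * (g' * φ P.1) := by
    intro M
    have h1 := hc1 M
    have h2 : (g' * φ P.1) * (φ (P⁻¹).1 * g) = 1 := by
      calc (g' * φ P.1) * (φ (P⁻¹).1 * g) = g' * (φ P.1 * φ (P⁻¹).1) * g := by noncomm_ring
        _ = 1 := by rw [hPP]; simpa using hh'
    have h3 : (φ (P⁻¹).1 * g) * (g' * φ P.1) = 1 := by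
      calc (φ (P⁻¹).1 * g) * (g' * φ P.1) = φ (P⁻¹).1 * (g * g') * φ P.1 := by noncomm_ring
        _ = 1 := by rw [hh]; simpa using hPP'
    calc (g' * φ P.1) * φ M = (g' * φ P.1) * φ M * ((φ (P⁻¹).1 * g) * (g' * φ P.1)) := by
          rw [h3]; simp
      _ = (g' * φ P.1) * (φ M * (φ (P⁻¹).1 * g)) * (g' * φ P.1) := by noncomm_ring
      _ = (g' * φ P.1) * ((φ (P⁻¹).1 * g) * φ M) * (g' * φ P.1) := by rw [h1]
      _ = ((g' * φ P.1) * (φ (P⁻¹).1 * g)) * φ M * (g' * φ P.1) := by noncomm_ring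
      _ = φ M * (g' * φ P.1) := by rw [h2]; noncomm_ring
  obtain ⟨N, hN⟩ := comm_form φ b hb _ hc1
  obtain ⟨N', hN'⟩ := comm_form φ b hb _ hc2
  have prodrel : ∀ (f f' : End F (ι → F)) (N N' : Matrix (Fin k) (Fin k) F), f * f' = 1 →
      (∀ j l, f (b (j, l)) = ∑ l', N l' l • b (j, l')) →
      (∀ j l, f' (b (j, l)) = ∑ l', N' l' l • b (j, l')) → N * N' = 1 := by
    intro f f' N N' hff hf hf'
    ext l'' l
    have h1 : f (f' (b (0, l))) = b (0, l) := congrArg (fun u : End F (ι → F) => u (b (0, l))) hff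
    rw [hf', map_sum] at h1
    have h2 := congrArg (fun v => b.repr v (0, l'')) h1
    simp only [map_smul, hf, map_sum, Finsupp.coe_finsetSum, Finset.sum_apply, Finsupp.smul_apply,
      Basis.repr_self, smul_eq_mul, Finsupp.single_apply] at h2
    rw [Matrix.mul_apply, Matrix.one_apply]
    simp only [Prod.mk.injEq, true_and] at h2
    simp only [mul_ite, mul_one, mul_zero, Finset.sum_ite_eq', Finset.mem_univ, if_true] at h2
    have h3 : (if l = l'' then (1 : F) else 0) = if l'' = l then 1 else 0 := by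
      by_cases hl : l = l''
      · subst hl; simp
      · simp [hl, Ne.symm hl]
    rw [h3] at h2
    rw [← h2]
    exact Finset.sum_congr rfl fun x _ => mul_comm _ _
  have e1 : (φ (P⁻¹).1 * g) * (g' * φ P.1) = 1 := by
    calc (φ (P⁻¹).1 * g) * (g' * φ P.1) = φ (P⁻¹).1 * (g * g') * φ P.1 := by noncomm_ring
      _ = 1 := by rw [hh]; simpa using hPP'
  have e2 : (g' * φ P.1) * (φ (P⁻¹).1 * g) = 1 := by
    calc (g' * φ P.1) * (φ (P⁻¹).1 * g) = g' * (φ P.1 * φ (P⁻¹).1) * g := by noncomm_ring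
      _ = 1 := by rw [hPP]; simpa using hh'
  refine ⟨P, ⟨N, N', prodrel _ _ N N' e1 hN hN', prodrel _ _ N' N e2 hN' hN⟩, fun j l => ?_⟩
  have h1 : (h : Matrix ι ι F) *ᵥ b (j, l) = φ P.1 ((φ (P⁻¹).1 * g) (b (j, l))) := by
    have : φ P.1 * (φ (P⁻¹).1 * g) = g := by
      rw [← mul_assoc, hPP, one_mul]
    have h2 := congrArg (fun u : End F (ι → F) => u (b (j, l))) this
    exact h2.symm
  rw [h1, hN, map_sum]
  simp only [map_smul, hb, Finset.smul_sum]
  rw [Finset.sum_comm]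
  refine Finset.sum_congr rfl fun i _ => Finset.sum_congr rfl fun l' _ => ?_
  rw [smul_smul, mul_comm]

/-- the algebra spanned by a subgroup -/
noncomputable def alg (N : Subgroup (GL ι F)) : Subalgebra F (Matrix ι ι F) :=
  Algebra.adjoin F (matrixSet N)

theorem mem_alg {N : Subgroup (GL ι F)} {x : GL ι F} (hx : x ∈ N) : (x : Matrix ι ι F) ∈ alg N :=
  Algebra.subset_adjoin ⟨x, hx, rfl⟩

theorem alg_map_conj (N N' : Subgroup (GL ι F)) (h : GL ι F)
    (hh : ∀ x ∈ N, h * x * h⁻¹ ∈ N') (a : Matrix ι ι F) (ha : a ∈ alg N) :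
    (h : Matrix ι ι F) * a * ((h⁻¹ : GL ι F) : Matrix ι ι F) ∈ alg N' := by
  have h1 : (alg N).map (cj h).toAlgHom ≤ alg N' := by
    rw [alg, AlgHom.map_adjoin]
    refine Algebra.adjoin_le ?_
    rintro _ ⟨_, ⟨x, hx, rfl⟩, rfl⟩
    have := mem_alg (hh x hx)
    rw [Units.val_mul, Units.val_mul] at this
    exact this
  exact h1 ⟨a, ha, rfl⟩

theorem normAlg_alg (H : Set (GL ι F)) (N : Subgroup (GL ι F))
    (hn : ∀ h ∈ H, (∀ x ∈ N, h * x * h⁻¹ ∈ N) ∧ (∀ x ∈ N, h⁻¹ * x * h ∈ N)) : NormAlg H (alg N) := by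
  intro h hh
  refine ⟨fun a ha => alg_map_conj N N h (hn h hh).1 a ha, fun a ha => ?_⟩
  have := alg_map_conj N N h⁻¹ (by rw [inv_inv]; exact (hn h hh).2) a ha
  rwa [inv_inv] at this

theorem prim_alg [Finite F] [Nonempty ι] {H : Subgroup (GL ι F)} (hH : Prim H)
    (A : Subalgebra F (Matrix ι ι F)) (hn : NormAlg (H : Set (GL ι F)) A) :
    A = ⊥ ∨ A = ⊤ := by
  obtain ⟨a, ha, φ, hφ⟩ := matrix_of_normAlg H hH.irr hH.dec hH.fld A hn
  obtain ⟨k, b, hb⟩ := basis_of_hom φ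
  have hk : k ≠ 0 := by
    rintro rfl
    obtain ⟨v, hv⟩ := exists_ne (0 : ι → F)
    apply hv
    apply b.repr.injective
    ext ⟨_, x⟩
    exact Fin.elim0 x
  have : NeZero k := ⟨hk⟩
  have hmemφ : ∀ M : Matrix ι ι F, M ∈ A ↔ ∃ X, φ X = Matrix.toLin' M := by
    intro M
    rw [← mem_endA, ← hφ, AlgHom.mem_range]
  have hcard : Fintype.card ι = a * k := by
    have h1 := Module.finrank_eq_card_basis b
    rw [Module.finrank_pi, Fintype.card_prod, Fintype.card_fin, Fintype.card_fin] at h1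
    exact h1
  rcases Nat.lt_or_ge a 2 with ha1 | ha2
  · -- a = 1
    left
    have ha1 : a = 1 := by have := ha.out; omega
    subst ha1
    rw [eq_bot_iff]
    intro M hM
    obtain ⟨X, hX⟩ := (hmemφ M).1 hM
    rw [Algebra.mem_bot]
    refine ⟨X 0 0, ?_⟩
    have h1 : X = algebraMap F _ (X 0 0) := by
      ext i j
      fin_cases i; fin_cases j
      simp [Matrix.algebraMap_matrix_apply]
    rw [h1, AlgHom.commutes] at hX
    apply (Matrix.toLin' : Matrix ι ι F ≃ₗ[F] _).injective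
    rw [← hX]
    exact (Matrix.toLinAlgEquiv' : Matrix ι ι F ≃ₐ[F] _).commutes (X 0 0)
  rcases Nat.lt_or_ge k 2 with hk1 | hk2
  · right
    have hk1 : k = 1 := by omega
    subst hk1
    rw [eq_top_iff]
    intro M _
    rw [hmemφ]
    refine ⟨Matrix.of fun i j => b.repr (M *ᵥ b (j, 0)) (i, 0), ?_⟩
    refine b.ext ?_
    rintro ⟨j, l⟩
    have hl : l = 0 := Subsingleton.elim _ _
    subst hl
    rw [hb, Matrix.toLin'_apply]
    conv_rhs => rw [← b.sum_repr (M *ᵥ b (j, 0))]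
    rw [Fintype.sum_prod_type]
    simp
  exfalso
  have hkr : ∀ h ∈ H, ∃ (A : (Matrix (Fin a) (Fin a) F)ˣ) (N : (Matrix (Fin k) (Fin k) F)ˣ), ∀ j l,
      (h : Matrix ι ι F) *ᵥ b (j, l) = ∑ i, ∑ l', (A.1 i j * N.1 l' l) • b (i, l') := by
    intro h hh
    refine kron_of_norm φ b hb h ?_
    intro M
    have h1 : φ M ∈ endA A := by rw [← hφ]; exact ⟨M, rfl⟩
    obtain ⟨X, hX, hX'⟩ := exists_of_mem_endA A _ h1
    have h2 := (hn h hh).1 X hX
    obtain ⟨M', hM'⟩ := (hmemφ _).1 h2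
    refine ⟨M', ?_⟩
    rw [hM', ← hX']
    change Matrix.toLin' (h : Matrix ι ι F) ∘ₗ Matrix.toLin' X ∘ₗ _ = _
    rw [← Matrix.toLin'_mul, ← Matrix.toLin'_mul, ← mul_assoc]
  rcases lt_trichotomy a k with hak | hak | hak
  · have e : ι ≃ Fin a × Fin k := Fintype.equivOfCardEq (by simp [hcard])
    obtain ⟨P, hP⟩ := le_tensorProduct b H hkr e
    exact hH.tp a k e P ha2 hak hP
  · subst hak
    -- t = 2
    let b2 : Basis (Fin 2 → Fin a) F (ι → F) := b.reindex (finTwoArrowEquiv (Fin a)).symm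
    refine hH.tw a 2 b2 ha2 le_rfl ?_
    intro h hh
    obtain ⟨A, N, hAN⟩ := hkr h hh
    refine ⟨1, fun s => if s = 0 then A else N, fun x => ?_⟩
    have h1 : b2 x = b (x 0, x 1) := by
      simp [b2, Basis.reindex_apply]
    rw [h1, hAN, ← Finset.sum_product' (f := fun i l' => (A.1 i (x 0) * N.1 l' (x 1)) • b (i, l')),
      Finset.univ_product_univ]
    refine (Fintype.sum_equiv (finTwoArrowEquiv (Fin a)) _ _ fun y => ?_).symm
    have h2 : b2 (y ∘ (1 : Equiv.Perm (Fin 2)).symm) = b (y 0, y 1) := by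
      change b2 y = _
      simp [b2, Basis.reindex_apply]
    rw [h2]
    simp [Fin.prod_univ_two]
  · have e : ι ≃ Fin k × Fin a := Fintype.equivOfCardEq (by simp [hcard, mul_comm])
    obtain ⟨P, hP⟩ := le_tensorProduct (b.reindex (Equiv.prodComm _ _)) H (by
      intro h hh
      obtain ⟨A, N, hAN⟩ := hkr h hh
      refine ⟨N, A, fun j l => ?_⟩
      simp only [Basis.reindex_apply, Equiv.prodComm_symm, Equiv.prodComm_apply, Prod.swap_prod_mk]
      rw [hAN, Finset.sum_comm]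
      exact Finset.sum_congr rfl fun _ _ => Finset.sum_congr rfl fun _ _ => by rw [mul_comm]) e
    exact hH.tp k a e P hk2 hak hP

end CfsgLib.Asch9
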