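import Mathlib
import Cfsg.Agent.LibAsch9
import Cfsg.Agent.LibAsch10

/-! the perfect case: tensor induced or almost simple -/
set_option autoImplicit false

namespace CfsgLib.Asch11

open Module Cfsg Cfsg.Geo CfsgLib.Asch1 CfsgLib.Asch4 CfsgLib.Asch5 CfsgLib.Asch6 CfsgLib.Asch7 CfsgLib.Asch8
  CfsgLib.Asch9 CfsgLib.Asch10
open scoped Matrix MatrixGroups

variable {ι : Type} [Fintype ι] [DecidableEq ι] {F : Type*} [Field F]

theorem scalars_le_center : scalars ι F ≤ Subgroup.center (GL ι F) := by
  intro g hg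
  rw [mem_scalars_iff] at hg
  obtain ⟨c, hc⟩ := hg
  rw [Subgroup.mem_center_iff]
  intro h
  apply Units.ext
  rw [Units.val_mul, Units.val_mul, hc]; simp

theorem scalar_of_commute_all (M : Matrix ι ι F) (h : ∀ X : Matrix ι ι F, X * M = M * X) :
    ∃ c : F, M = c • (1 : Matrix ι ι F) := by
  have h1 : M ∈ Subalgebra.center F (Matrix ι ι F) := by
    rw [Subalgebra.mem_center_iff]; exact h
  rw [Algebra.IsCentral.center_eq_bot, Algebra.mem_bot] at h1
  obtain ⟨c, hc⟩ := h1
  exact ⟨c, by rw [← hc, Algebra.algebraMap_eq_smul_one]⟩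

theorem mem_scalars_of_eq {g : GL ι F} [Nonempty ι] {c : F} (h : (g : Matrix ι ι F) = c • (1 : Matrix ι ι F)) :
    g ∈ scalars ι F := by
  rw [mem_scalars_iff]
  have hc : c ≠ 0 := by
    rintro rfl
    have h1 : (g : Matrix ι ι F) * ((g⁻¹ : GL ι F) : Matrix ι ι F) = 1 := by
      rw [← Units.val_mul]; simp
    rw [h, zero_smul, zero_mul] at h1
    exact zero_ne_one h1
  exact ⟨Units.mk0 c hc, h⟩

theorem commute_alg {N : Subgroup (GL ι F)} {M : Matrix ι ι F}
    (h : ∀ s ∈ matrixSet N, M * s = s * M) (a : Matrix ι ι F) (ha : a ∈ alg N) : M * a = a * M := by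
  have h1 : alg N ≤ Subalgebra.centralizer F {M} := by
    refine Algebra.adjoin_le ?_
    intro s hs
    rw [SetLike.mem_coe, Subalgebra.mem_centralizer_iff]
    rintro _ rfl
    exact h s hs
  have h2 := h1 ha
  rw [Subalgebra.mem_centralizer_iff] at h2
  exact h2 M rfl

theorem absIrred_of_alg {N : Subgroup (GL ι F)} (h : alg N = ⊤) :
    ActsAbsolutelyIrreducibly (matrixSet N) := by
  refine ⟨?_, ?_⟩
  · intro W hW
    have h1 : ∀ a ∈ alg N, W.map (Matrix.toLin' a) ≤ W := by
      intro a ha
      refine Algebra.adjoin_induction (p := fun a _ => W.map (Matrix.toLin' a) ≤ W) ?_ ?_ ?_ ?_ ha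
      · exact hW
      · rintro r _ ⟨w, hw, rfl⟩
        have : Matrix.toLin' (algebraMap F (Matrix ι ι F) r) w = r • w := by
          rw [Matrix.toLin'_apply, Algebra.algebraMap_eq_smul_one, Matrix.smul_mulVec, Matrix.one_mulVec]
        rw [this]; exact W.smul_mem r hw
      · rintro x y _ _ hx hy _ ⟨w, hw, rfl⟩
        rw [map_add]
        exact W.add_mem (hx ⟨w, hw, rfl⟩) (hy ⟨w, hw, rfl⟩)
      · rintro x y _ _ hx hy _ ⟨w, hw, rfl⟩
        rw [Matrix.toLin'_mul]
        exact hx ⟨_, hy ⟨w, hw, rfl⟩, rfl⟩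
    by_contra hcon
    push Not at hcon
    obtain ⟨h0, h2⟩ := hcon
    obtain ⟨w, hw, hw0⟩ := W.exists_mem_ne_zero_of_ne_bot h0
    apply h2
    rw [eq_top_iff]
    intro v _
    obtain ⟨i, hi⟩ : ∃ i, w i ≠ 0 := by
      by_contra hcon; push Not at hcon; exact hw0 (funext hcon)
    let X : Matrix ι ι F := Matrix.of fun a c => if c = i then v a * (w i)⁻¹ else 0
    have hX : X *ᵥ w = v := by
      ext a
      simp only [Matrix.mulVec, dotProduct, X, Matrix.of_apply, ite_mul, zero_mul,
        Finset.sum_ite_eq', Finset.mem_univ, if_true]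
      field_simp
    rw [← hX]
    exact h1 X (by rw [h]; trivial) ⟨w, hw, rfl⟩
  · intro M hM
    refine scalar_of_commute_all M fun X => ?_
    exact (commute_alg hM X (by rw [h]; trivial)).symm

theorem alg_eq_top [Finite F] [Nonempty ι] {H N : Subgroup (GL ι F)} (hH : Prim H) (hN : Nrd H N)
    (hz : ¬ N ≤ scalars ι F) : alg N = ⊤ := by
  rcases prim_alg hH (alg N) (normAlg_alg _ N (fun h hh => ⟨hN h hh, fun x hx => by
    have := hN h⁻¹ (H.inv_mem hh) x hx
    rwa [inv_inv] at this⟩)) with h | h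
  · exfalso
    apply hz
    intro x hx
    have h1 := mem_alg hx
    rw [h, Algebra.mem_bot] at h1
    obtain ⟨c, hc⟩ := h1
    exact mem_scalars_of_eq (c := c) (by rw [← hc, Algebra.algebraMap_eq_smul_one])
  · exact h

section basis
variable {V : Type*} [AddCommGroup V] [Module F V] [FiniteDimensional F V] {m t : ℕ}
variable (φ : Fin t → (Matrix (Fin m) (Fin m) F →ₐ[F] End F V))
  (hc : ∀ s s', s ≠ s' → ∀ M N, φ s M * φ s' N = φ s' N * φ s M)

/-- adapted basis, generation version -/
theorem exists_basis' [NeZero m] [Nontrivial V]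
    (hgen : ∀ B : Subalgebra F (End F V), (∀ s M, φ s M ∈ B) → B = ⊤) :
    ∃ b : Basis (Fin t → Fin m) F V,
      (∀ x y z, U φ hc x y (b z) = if y = z then b x else 0) := by
  classical
  have hUm := U_mul φ hc
  -- the span of the unit tensors is everything
  let B : Subalgebra F (End F V) :=
    { carrier := Submodule.span F (Set.range fun p : (Fin t → Fin m) × (Fin t → Fin m) => U φ hc p.1 p.2)
      mul_mem' := by
        intro a c ha hc'
        refine Submodule.span_induction (p := fun a _ => a * c ∈ Submodule.span F _) ?_ ?_ ?_ ?_ ha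
        · rintro _ ⟨p, rfl⟩
          refine Submodule.span_induction (p := fun c _ => U φ hc p.1 p.2 * c ∈ Submodule.span F _) ?_ ?_ ?_ ?_ hc'
          · rintro _ ⟨q, rfl⟩
            change U φ hc p.1 p.2 * U φ hc q.1 q.2 ∈ _
            rw [hUm]
            split_ifs
            · exact Submodule.subset_span ⟨(p.1, q.2), rfl⟩
            · exact Submodule.zero_mem _
          · rw [mul_zero]; exact Submodule.zero_mem _
          · intro x y _ _ hx hy; rw [mul_add]; exact Submodule.add_mem _ hx hy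
          · intro r x _ hx; rw [mul_smul_comm]; exact Submodule.smul_mem _ _ hx
        · rw [zero_mul]; exact Submodule.zero_mem _
        · intro x y _ _ hx hy; rw [add_mul]; exact Submodule.add_mem _ hx hy
        · intro r x _ hx; rw [smul_mul_assoc]; exact Submodule.smul_mem _ _ hx
      add_mem' := fun ha hb => Submodule.add_mem _ ha hb
      algebraMap_mem' := by
        intro r
        rw [Algebra.algebraMap_eq_smul_one, ← sum_U φ hc]
        exact Submodule.smul_mem _ _ (Submodule.sum_mem _ fun x _ => Submodule.subset_span ⟨(x, x), rfl⟩) }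
  have hB : B = ⊤ := by
    apply hgen
    intro s M
    change φ s M ∈ Submodule.span F _
    have h1 : φ s M = ∑ y, φ s M * U φ hc y y := by
      rw [← Finset.mul_sum, sum_U, mul_one]
    rw [h1]
    refine Submodule.sum_mem _ fun y _ => ?_
    rw [← Phi_mulSingle φ hc, U, ← map_mul]
    have h3 : ((Pi.mulSingle s M : Fin t → Matrix (Fin m) (Fin m) F) * fun s => E1 (y s) (y s)) =
        fun s' => ∑ i, (Pi.mulSingle s M : Fin t → Matrix (Fin m) (Fin m) F) s' i (y s') • E1 i (y s') := by
      ext s' a c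
      simp only [Pi.mul_apply, Matrix.sum_apply, Matrix.smul_apply, E1, Matrix.mul_apply,
        Matrix.single_apply, smul_eq_mul]
      by_cases h : y s' = c
      · simp [h]
      · simp [h]
    rw [h3, Phi_sum]
    exact Submodule.sum_mem _ fun x _ => Submodule.smul_mem _ _ (Submodule.subset_span ⟨(x, y), rfl⟩)
  have hspanU : ∀ f : End F V, f ∈ Submodule.span F
      (Set.range fun p : (Fin t → Fin m) × (Fin t → Fin m) => U φ hc p.1 p.2) := by
    intro f
    have : f ∈ B := by rw [hB]; trivial
    exact this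
  have hne : U φ hc (0 : Fin t → Fin m) 0 ≠ 0 := by
    intro h0
    have h1 : ∀ x, U φ hc x x = 0 := by
      intro x
      have : U φ hc x x = U φ hc x 0 * U φ hc 0 0 * U φ hc 0 x := by
        rw [U_mul, if_pos rfl, U_mul, if_pos rfl]
      rw [this, h0]; simp
    have h2 := sum_U φ hc
    simp only [h1, Finset.sum_const_zero] at h2
    exact zero_ne_one h2
  obtain ⟨v, hv⟩ : ∃ v, U φ hc 0 0 v ≠ 0 := by
    by_contra hcon; push Not at hcon
    exact hne (LinearMap.ext hcon)
  set w := U φ hc 0 0 v with hw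
  have hU : ∀ x y z w (v : V), U φ hc x y (U φ hc z w v) = if y = z then U φ hc x w v else 0 := by
    intro x y z w v
    have := congrArg (fun u : End F V => u v) (U_mul φ hc x y z w)
    simp only [Module.End.mul_apply] at this
    rw [this]; split_ifs <;> simp
  have hw0 : U φ hc 0 0 w = w := by rw [hw, hU, if_pos rfl]
  -- rank one
  have hrank : ∀ u : V, ∃ c : F, U φ hc 0 0 u = c • w := by
    intro u
    obtain ⟨d, hd⟩ : ∃ d : Dual F V, d w = 1 := by
      obtain ⟨d, hd⟩ := Projective.exists_dual_ne_zero F hv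
      exact ⟨(d w)⁻¹ • d, by simp [inv_mul_cancel₀ hd]⟩
    let f : End F V := d.smulRight u
    have hf : f w = u := by simp [f, hd]
    have h1 : ∀ f : End F V, ∃ c : F, U φ hc 0 0 * f * U φ hc 0 0 = c • U φ hc 0 0 := by
      intro f
      refine Submodule.span_induction (p := fun f _ => ∃ c : F, U φ hc 0 0 * f * U φ hc 0 0 = c • U φ hc 0 0) ?_ ?_ ?_ ?_ (hspanU f)
      · rintro _ ⟨p, rfl⟩
        change ∃ c : F, U φ hc 0 0 * U φ hc p.1 p.2 * U φ hc 0 0 = c • U φ hc 0 0
        rw [U_mul]
        by_cases h : (0 : Fin t → Fin m) = p.1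
        · rw [if_pos h, U_mul]
          by_cases h' : p.2 = 0
          · exact ⟨1, by rw [if_pos h', one_smul]⟩
          · exact ⟨0, by rw [if_neg h', zero_smul]⟩
        · exact ⟨0, by rw [if_neg h]; simp⟩
      · exact ⟨0, by simp⟩
      · rintro x y _ _ ⟨c, hx⟩ ⟨c', hy⟩
        exact ⟨c + c', by rw [mul_add, add_mul, hx, hy, add_smul]⟩
      · rintro r x _ ⟨c, hx⟩
        exact ⟨r * c, by rw [mul_smul_comm, smul_mul_assoc, hx, smul_smul]⟩
    obtain ⟨c, hc'⟩ := h1 f
    refine ⟨c, ?_⟩
    have h2 := congrArg (fun g : End F V => g w) hc'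
    simp only [Module.End.mul_apply, LinearMap.smul_apply] at h2
    rw [hw0, hf] at h2
    exact h2
  let bf : (Fin t → Fin m) → V := fun x => U φ hc x 0 w
  have hbf : ∀ x y z, U φ hc x y (bf z) = if y = z then bf x else 0 := by
    intro x y z
    exact hU x y z 0 w
  have hli : LinearIndependent F bf := by
    rw [Fintype.linearIndependent_iff]
    intro g hg x
    have h1 : U φ hc 0 x (∑ i, g i • bf i) = 0 := by rw [hg, map_zero]
    rw [map_sum, Finset.sum_eq_single x] at h1
    · rw [map_smul, hbf, if_pos rfl] at h1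
      change g x • U φ hc 0 0 w = 0 at h1
      rw [hw0] at h1
      exact (smul_eq_zero.1 h1).resolve_right hv
    · intro y _ hy
      rw [map_smul, hbf, if_neg (Ne.symm hy), smul_zero]
    · simp
  have hsp : ⊤ ≤ Submodule.span F (Set.range bf) := by
    intro u _
    have h1 : u = ∑ x, U φ hc x x u := by
      have := congrArg (fun g : End F V => g u) (sum_U φ hc)
      simp only [LinearMap.sum_apply, Module.End.one_apply] at this
      exact this.symm
    rw [h1]
    refine Submodule.sum_mem _ fun x _ => ?_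
    have h2 : U φ hc x x u = U φ hc x 0 (U φ hc 0 0 (U φ hc 0 x u)) := by
      rw [hU, if_pos rfl, hU, if_pos rfl]
    obtain ⟨c, hc'⟩ := hrank (U φ hc 0 x u)
    rw [h2, hc', map_smul]
    exact Submodule.smul_mem _ _ (Submodule.subset_span ⟨x, rfl⟩)
  refine ⟨Basis.mk hli hsp, ?_⟩
  intro x y z
  rw [Basis.mk_apply, Basis.mk_apply, hbf]

end basis

end CfsgLib.Asch11
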