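import Mathlib
import Cfsg.Agent.LibAsch11

/-! the perfect case: tensor induced or almost simple (continued) -/
set_option autoImplicit false

namespace CfsgLib.Asch12

open Module Cfsg Cfsg.Geo CfsgLib.Asch1 CfsgLib.Asch4 CfsgLib.Asch5 CfsgLib.Asch6 CfsgLib.Asch7 CfsgLib.Asch8
  CfsgLib.Asch9 CfsgLib.Asch10 CfsgLib.Asch11
open scoped Matrix MatrixGroups

variable {ι : Type} [Fintype ι] [DecidableEq ι] {F : Type*} [Field F]

theorem alg_comm {N N' : Subgroup (GL ι F)} (h : ∀ x ∈ N, ∀ y ∈ N', x * y = y * x)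
    (a : Matrix ι ι F) (ha : a ∈ alg N) (b : Matrix ι ι F) (hb : b ∈ alg N') : a * b = b * a := by
  refine commute_alg (N := N') ?_ b hb
  rintro _ ⟨y, hy, rfl⟩
  refine (commute_alg (N := N) ?_ a ha).symm
  rintro _ ⟨x, hx, rfl⟩
  have := congrArg Units.val (h x hx y hy)
  simpa using this.symm

/-- a matrix commuting with a generating family of subgroups commutes with everything -/
theorem commute_of_iSup {t : ℕ} {S : Fin t → Subgroup (GL ι F)} {N : Subgroup (GL ι F)}
    (hsup : ⨆ i, S i = N) (hN : alg N = ⊤) (M : Matrix ι ι F)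
    (h : ∀ i, ∀ x ∈ S i, M * (x : Matrix ι ι F) = (x : Matrix ι ι F) * M) : ∃ c : F, M = c • (1 : Matrix ι ι F) := by
  let C : Subgroup (GL ι F) :=
    { carrier := {x | M * (x : Matrix ι ι F) = (x : Matrix ι ι F) * M}
      mul_mem' := by
        intro a b ha hb
        change M * _ = _ * M at ha
        change M * _ = _ * M at hb
        change M * _ = _ * M
        rw [Units.val_mul, ← mul_assoc, ha, mul_assoc, hb, mul_assoc]
      one_mem' := by change M * _ = _ * M; simp
      inv_mem' := by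
        intro a ha
        change M * _ = _ * M at ha
        change M * _ = _ * M
        have h1 : (a : Matrix ι ι F) * ((a⁻¹ : GL ι F) : Matrix ι ι F) = 1 := by
          rw [← Units.val_mul]; simp
        have h2 : ((a⁻¹ : GL ι F) : Matrix ι ι F) * (a : Matrix ι ι F) = 1 := by
          rw [← Units.val_mul]; simp
        calc M * ((a⁻¹ : GL ι F) : Matrix ι ι F)
            = (((a⁻¹ : GL ι F) : Matrix ι ι F) * (a : Matrix ι ι F)) * M * ((a⁻¹ : GL ι F) : Matrix ι ι F) := by
              rw [h2, one_mul]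
          _ = ((a⁻¹ : GL ι F) : Matrix ι ι F) * (M * (a : Matrix ι ι F)) * ((a⁻¹ : GL ι F) : Matrix ι ι F) := by
              rw [ha]; noncomm_ring
          _ = ((a⁻¹ : GL ι F) : Matrix ι ι F) * M * ((a : Matrix ι ι F) * ((a⁻¹ : GL ι F) : Matrix ι ι F)) := by
              noncomm_ring
          _ = _ := by rw [h1, mul_one] }
  have hC : N ≤ C := by
    rw [← hsup]; exact iSup_le fun i x hx => h i x hx
  refine scalar_of_commute_all M fun X => ?_
  refine (commute_alg (N := N) ?_ X (by rw [hN]; trivial)).symm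
  rintro _ ⟨x, hx, rfl⟩
  exact hC hx

theorem tensor_induced [Finite F] [Nonempty ι] {H N : Subgroup (GL ι F)} (hH : Prim H)
    (hNH : N ≤ H) (hNrd : Nrd H N) (hNz : ¬ N ≤ scalars ι F) {t : ℕ} {S : Fin t → Subgroup (GL ι F)}
    (ht : 2 ≤ t) (hS : PerfDec (scalars ι F) H N t S) : False := by
  have hN := alg_eq_top hH hNrd hNz
  have hirrN := (absIrred_of_alg hN).1
  have : NeZero t := ⟨by omega⟩
  -- the algebra of the first factor is a matrix algebra
  have hmat : ∃ (a : ℕ) (_ : NeZero a) (φ : Matrix (Fin a) (Fin a) F →ₐ[F] End F (ι → F)),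
      φ.range = endA (alg (S 0)) := by
    have hna : NormAlg (N : Set (GL ι F)) (alg (S 0)) := by
      refine normAlg_alg _ _ fun h hh => ⟨hS.nrd 0 h hh, fun x hx => ?_⟩
      have := hS.nrd 0 h⁻¹ (N.inv_mem hh) x hx
      rwa [inv_inv] at this
    have hss := semisimple (A := endA (alg (S 0))) (le '' (N : Set (GL ι F))) (irr_le hirrN) (by
      rintro _ ⟨h, hh, rfl⟩
      exact nrm_of_normAlg hna h hh)
    have hiso : IsIsotypic (endA (alg (S 0))) (ι → F) := by
      refine isotypic_of_irred _ hss ?_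
      intro W hW1 hW2
      have hstab : ∀ i, S i ≤ subspaceStabilizer W := by
        intro i x hx
        have hfor : ∀ y ∈ S i, ∀ v ∈ W, (y : Matrix ι ι F) *ᵥ v ∈ W := by
          intro y hy v hv
          by_cases hi : i = 0
          · subst hi
            exact hW1 (Matrix.toLin' (y : Matrix ι ι F)) ((mem_endA _ _).2 (mem_alg hy)) v hv
          · refine hW2 (Matrix.toLin' (y : Matrix ι ι F)) ?_ v hv
            intro a ha
            obtain ⟨M, hM, rfl⟩ := exists_of_mem_endA _ a ha
            have := alg_comm (hS.comm i 0 hi) _ (mem_alg hy) M hM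
            change Matrix.toLin' (y : Matrix ι ι F) ∘ₗ Matrix.toLin' M = Matrix.toLin' M ∘ₗ Matrix.toLin' (y : Matrix ι ι F)
            rw [← Matrix.toLin'_mul, ← Matrix.toLin'_mul, this]
        intro v
        constructor
        · exact hfor x hx v
        · intro hv
          have := hfor x⁻¹ ((S i).inv_mem hx) _ hv
          change ((x⁻¹ : GL ι F) : Matrix ι ι F) *ᵥ ((x : Matrix ι ι F) *ᵥ v) ∈ W at this
          rw [Matrix.mulVec_mulVec, ← Units.val_mul, inv_mul_cancel, Units.val_one, Matrix.one_mulVec] at this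
          exact this
      have hN' : N ≤ subspaceStabilizer W := by
        rw [← hS.sup]; exact iSup_le hstab
      refine hirrN W ?_
      rintro _ ⟨x, hx, rfl⟩ _ ⟨v, hv, rfl⟩
      exact (hN' hx v).1 hv
    refine matrix_of_isotypic _ hss hiso ?_
    intro z hz hz'
    obtain ⟨M, hM, rfl⟩ := exists_of_mem_endA _ z hz
    obtain ⟨c, hc⟩ := commute_of_iSup hS.sup hN M (by
      intro i x hx
      by_cases hi : i = 0
      · subst hi
        have := hz' (Matrix.toLin' (x : Matrix ι ι F)) ((mem_endA _ _).2 (mem_alg hx))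
        change Matrix.toLin' (x : Matrix ι ι F) ∘ₗ Matrix.toLin' M = Matrix.toLin' M ∘ₗ Matrix.toLin' (x : Matrix ι ι F) at this
        rw [← Matrix.toLin'_mul, ← Matrix.toLin'_mul] at this
        exact (Matrix.toLin'.injective this).symm
      · exact (alg_comm (hS.comm i 0 hi) _ (mem_alg hx) M hM).symm)
    refine ⟨c, ?_⟩
    rw [hc]
    have := (Matrix.toLinAlgEquiv' : Matrix ι ι F ≃ₐ[F] _).commutes c
    rw [← this, Algebra.algebraMap_eq_smul_one]
    rfl
  obtain ⟨a, ha, φ₀, hφ₀⟩ := hmat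
  -- a ≥ 2
  have ha2 : 2 ≤ a := by
    by_contra hlt
    have ha1 : a = 1 := by have := ha.out; omega
    subst ha1
    apply hS.notle 0
    intro x hx
    have h1 : Matrix.toLin' (x : Matrix ι ι F) ∈ φ₀.range := by
      rw [hφ₀, mem_endA]; exact mem_alg hx
    obtain ⟨X, hX⟩ := h1
    have h1 : X = algebraMap F _ (X 0 0) := by
      ext i j
      fin_cases i; fin_cases j
      simp [Matrix.algebraMap_matrix_apply]
    rw [h1] at hX
    change φ₀ _ = _ at hX
    rw [AlgHom.commutes] at hX
    refine mem_scalars_of_eq (c := X 0 0) ?_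
    apply (Matrix.toLin' : Matrix ι ι F ≃ₗ[F] _).injective
    rw [← hX]
    have := (Matrix.toLinAlgEquiv' : Matrix ι ι F ≃ₐ[F] _).commutes (X 0 0)
    rw [← this, Algebra.algebraMap_eq_smul_one]
    rfl
  choose g hgH hg using fun i => hS.trans 0 i
  -- conjugated homs
  let T : Matrix ι ι F ≃ₐ[F] End F (ι → F) := Matrix.toLinAlgEquiv'
  let φ : Fin t → (Matrix (Fin a) (Fin a) F →ₐ[F] End F (ι → F)) := fun i =>
    ((T.symm.trans (cj (g i))).trans T).toAlgHom.comp φ₀
  have hconjA : ∀ (h : GL ι F) (N N' : Subgroup (GL ι F)), N.map (MulAut.conj h).toMonoidHom = N' →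
      ∀ M, cj h M ∈ alg N' ↔ M ∈ alg N := by
    intro h N N' hNN M
    constructor
    · intro hM
      have := alg_map_conj N' N h⁻¹ (by
        intro x hx
        rw [← hNN, mem_map_conj] at hx
        rwa [inv_inv]) _ hM
      rw [inv_inv] at this
      have h3 := (cj h).symm_apply_apply M
      change ((h⁻¹ : GL ι F) : Matrix ι ι F) * (cj h M) * (h : Matrix ι ι F) = M at h3
      rwa [h3] at this
    · intro hM
      refine alg_map_conj N N' h ?_ M hM
      intro x hx
      rw [← hNN]; exact ⟨x, hx, rfl⟩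
  have hφr : ∀ i f, f ∈ endA (alg (S i)) ↔ ∃ M, φ i M = f := by
    intro i f
    constructor
    · intro hf
      obtain ⟨M, hM, rfl⟩ := exists_of_mem_endA _ f hf
      have h1 : (cj (g i)).symm M ∈ alg (S 0) := by
        rw [← hconjA (g i) (S 0) (S i) (hg i), AlgEquiv.apply_symm_apply]; exact hM
      have h2 : Matrix.toLin' ((cj (g i)).symm M) ∈ φ₀.range := by
        rw [hφ₀, mem_endA]; exact h1
      obtain ⟨X, hX⟩ := h2
      refine ⟨X, ?_⟩
      change T (cj (g i) (T.symm (φ₀ X))) = T M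
      have hX' : φ₀ X = T ((cj (g i)).symm M) := hX
      rw [hX', AlgEquiv.symm_apply_apply, AlgEquiv.apply_symm_apply]
    · rintro ⟨X, rfl⟩
      change T (cj (g i) (T.symm (φ₀ X))) ∈ _
      have h1 : φ₀ X ∈ endA (alg (S 0)) := by rw [← hφ₀]; exact ⟨X, rfl⟩
      obtain ⟨M, hM, hMX⟩ := exists_of_mem_endA _ _ h1
      have h2 : T.symm (φ₀ X) = M := by rw [← hMX]; exact T.symm_apply_apply M
      rw [h2]
      change Matrix.toLin' _ ∈ _
      rw [mem_endA, hconjA (g i) (S 0) (S i) (hg i)]
      exact hM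
  have hc : ∀ s s', s ≠ s' → ∀ M N, φ s M * φ s' N = φ s' N * φ s M := by
    intro s s' hss M N
    obtain ⟨X, hX, hX'⟩ := exists_of_mem_endA _ _ ((hφr s _).2 ⟨M, rfl⟩)
    obtain ⟨Y, hY, hY'⟩ := exists_of_mem_endA _ _ ((hφr s' _).2 ⟨N, rfl⟩)
    rw [← hX', ← hY']
    have := alg_comm (hS.comm s s' hss) X hX Y hY
    change Matrix.toLin' X ∘ₗ Matrix.toLin' Y = Matrix.toLin' Y ∘ₗ Matrix.toLin' X
    rw [← Matrix.toLin'_mul, ← Matrix.toLin'_mul, this]
  obtain ⟨b, hb⟩ := exists_basis' φ hc (by
    intro B hB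
    -- pull back B to matrices
    let B' : Subalgebra F (Matrix ι ι F) := B.comap T.toAlgHom
    have h1 : ∀ i, S i ≤ { carrier := {x : GL ι F | (x : Matrix ι ι F) ∈ B'},
                           mul_mem' := fun {x y} hx hy => by
                            change ((x * y : GL ι F) : Matrix ι ι F) ∈ B'
                            rw [Units.val_mul]; exact B'.mul_mem hx hy
                           one_mem' := by
                            change ((1 : GL ι F) : Matrix ι ι F) ∈ B'
                            rw [Units.val_one]; exact B'.one_mem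
                           inv_mem' := fun {x} hx => by
                            change ((x⁻¹ : GL ι F) : Matrix ι ι F) ∈ B'
                            have hfo : 0 < orderOf x := orderOf_pos x
                            have : x⁻¹ = x ^ (orderOf x - 1) := by
                              rw [inv_eq_iff_mul_eq_one, ← pow_succ', Nat.sub_add_cancel hfo, pow_orderOf_eq_one]
                            rw [this, Units.val_pow_eq_pow_val]
                            exact B'.pow_mem hx _ : Subgroup (GL ι F) } := by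
      intro i x hx
      change T (x : Matrix ι ι F) ∈ B
      obtain ⟨M, hM⟩ := (hφr i (Matrix.toLin' (x : Matrix ι ι F))).1 ((mem_endA _ _).2 (mem_alg hx))
      have := hB i M
      rw [hM] at this
      exact this
    have h2 := iSup_le h1
    rw [hS.sup] at h2
    have h3 : alg N ≤ B' := by
      refine Algebra.adjoin_le ?_
      rintro _ ⟨x, hx, rfl⟩
      exact h2 hx
    rw [hN] at h3
    rw [eq_top_iff]
    intro f _
    have h4 : T.symm f ∈ B' := h3 trivial
    change T (T.symm f) ∈ B at h4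
    rwa [AlgEquiv.apply_symm_apply] at h4)
  refine hH.tw a t b ha2 ht ?_
  intro h hh
  obtain ⟨σ, hσ⟩ := hS.perm h hh
  refine ⟨σ, ?_⟩
  have hh1 : Matrix.toLin' (h : Matrix ι ι F) * Matrix.toLin' ((h⁻¹ : GL ι F) : Matrix ι ι F) =
      (1 : End F (ι → F)) := by
    change Matrix.toLin' (h : Matrix ι ι F) ∘ₗ Matrix.toLin' ((h⁻¹ : GL ι F) : Matrix ι ι F) = _
    rw [← Matrix.toLin'_mul, ← Units.val_mul, mul_inv_cancel, Units.val_one, Matrix.toLin'_one]; rfl
  have hh2 : Matrix.toLin' ((h⁻¹ : GL ι F) : Matrix ι ι F) * Matrix.toLin' (h : Matrix ι ι F) =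
      (1 : End F (ι → F)) := by
    change Matrix.toLin' ((h⁻¹ : GL ι F) : Matrix ι ι F) ∘ₗ Matrix.toLin' (h : Matrix ι ι F) = _
    rw [← Matrix.toLin'_mul, ← Units.val_mul, inv_mul_cancel, Units.val_one, Matrix.toLin'_one]; rfl
  obtain ⟨P, hP⟩ := norm_form φ hc b hb (Matrix.toLin' (h : Matrix ι ι F))
    (Matrix.toLin' ((h⁻¹ : GL ι F) : Matrix ι ι F)) hh1 hh2 σ (by
      intro s M
      obtain ⟨X, hX, hX'⟩ := exists_of_mem_endA _ _ ((hφr s _).2 ⟨M, rfl⟩)
      rw [← hX']
      have h1 : cj h X ∈ alg (S (σ s)) := (hconjA h (S s) (S (σ s)) (hσ s) X).2 hX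
      obtain ⟨M', hM'⟩ := (hφr (σ s) (Matrix.toLin' (cj h X))).1 ((mem_endA _ _).2 h1)
      refine ⟨M', ?_⟩
      rw [hM']
      change Matrix.toLin' (h : Matrix ι ι F) ∘ₗ Matrix.toLin' X ∘ₗ Matrix.toLin' ((h⁻¹ : GL ι F) : Matrix ι ι F) = _
      rw [← Matrix.toLin'_mul, ← Matrix.toLin'_mul, ← mul_assoc]; rfl)
  exact ⟨P, hP⟩

/-- almost simple core, without the subfield condition -/
structure Core (H P : Subgroup (GL ι F)) : Prop where
  le : P ≤ H
  normal : ∀ h ∈ H, ∀ x ∈ P, h * x * h⁻¹ ∈ P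
  perfect : ⁅P, P⁆ = P
  simple : IsSimpleGroup (P ⧸ (scalars ι F).subgroupOf P)
  nonabelian : ¬ IsMulCommutative (P ⧸ (scalars ι F).subgroupOf P)
  centralizer_scalar : ∀ h ∈ H, (∀ x ∈ P, h * x * h⁻¹ * x⁻¹ ∈ scalars ι F) → h ∈ scalars ι F
  alg : alg P = ⊤

theorem core_of_single [Finite F] [Nonempty ι] {H N : Subgroup (GL ι F)} (hH : Prim H)
    (hNH : N ≤ H) (hNrd : Nrd H N) (hNz : ¬ N ≤ scalars ι F) {S : Fin 1 → Subgroup (GL ι F)}
    (hS : PerfDec (scalars ι F) H N 1 S) : Core H N := by
  have hN := alg_eq_top hH hNrd hNz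
  have hS0 : S 0 = N := by
    rw [← hS.sup]; simp [iSup_unique]
  have hperf := hS.perfect 0
  have hsimple := hS.simple 0
  rw [hS0] at hperf hsimple
  refine ⟨hNH, hNrd, hperf, simple_quot hNz hsimple, nonab_quot hNz hperf, ?_, hN⟩
  · intro h hh hx
    have hcomm := comm_of_perfect (Z := scalars ι F) scalars_le_center hperf h (by
      intro s hs
      have h1 := hx s hs
      have h2 := (scalars ι F).inv_mem h1
      have h3 : (h * s * h⁻¹ * s⁻¹)⁻¹ = s * h * s⁻¹ * h⁻¹ := by group
      rwa [h3] at h2)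
    obtain ⟨c, hc⟩ := scalar_of_commute_all (h : Matrix ι ι F) (fun X => by
      refine (commute_alg (N := N) ?_ X (by rw [hN]; trivial)).symm
      rintro _ ⟨x, hx, rfl⟩
      have := congrArg Units.val (hcomm x hx)
      simpa using this.symm)
    exact mem_scalars_of_eq hc

end CfsgLib.Asch12
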