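import Mathlib
import Cfsg.Agent.LibAsch12

/-! forms fixed by an absolutely irreducible normal subgroup; subfield groups -/
set_option autoImplicit false

namespace CfsgLib.Asch13

open Module Cfsg Cfsg.Geo CfsgLib.Asch3 CfsgLib.Asch4 CfsgLib.Asch6 CfsgLib.Asch8 CfsgLib.Asch9 CfsgLib.Asch11
open scoped Matrix MatrixGroups

variable {ι : Type} [Fintype ι] [DecidableEq ι] {F : Type*} [Field F]

/-- linear in the first, σ-semilinear in the second variable -/
structure Sesq (σ : F →+* F) (f : (ι → F) → (ι → F) → F) : Prop where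
  add_left : ∀ x y v, f (x + y) v = f x v + f y v
  smul_left : ∀ (c : F) (x v : ι → F), f (c • x) v = c * f x v
  add_right : ∀ v x y, f v (x + y) = f v x + f v y
  smul_right : ∀ (c : F) (v x : ι → F), f v (c • x) = σ c * f v x

def gram (f : (ι → F) → (ι → F) → F) : Matrix ι ι F := fun i j => f (Pi.single i 1) (Pi.single j 1)

theorem Sesq.sum_left {σ : F →+* F} {f : (ι → F) → (ι → F) → F} (hf : Sesq σ f) {α : Type*}
    (s : Finset α) (u : α → ι → F) (v : ι → F) : f (∑ i ∈ s, u i) v = ∑ i ∈ s, f (u i) v := by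
  classical
  induction s using Finset.induction_on with
  | empty =>
    have := hf.smul_left 0 0 v
    simpa using this
  | insert a s ha ih => rw [Finset.sum_insert ha, Finset.sum_insert ha, hf.add_left, ih]

theorem Sesq.sum_right {σ : F →+* F} {f : (ι → F) → (ι → F) → F} (hf : Sesq σ f) {α : Type*}
    (s : Finset α) (u : α → ι → F) (v : ι → F) : f v (∑ i ∈ s, u i) = ∑ i ∈ s, f v (u i) := by
  classical
  induction s using Finset.induction_on with
  | empty =>
    have := hf.smul_right 0 v 0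
    simpa using this
  | insert a s ha ih => rw [Finset.sum_insert ha, Finset.sum_insert ha, hf.add_right, ih]

theorem Sesq.eq_gram {σ : F →+* F} {f : (ι → F) → (ι → F) → F} (hf : Sesq σ f) (u v : ι → F) :
    f u v = u ⬝ᵥ (gram f *ᵥ (σ ∘ v)) := by
  have hu : ∀ w : ι → F, w = ∑ i, w i • (Pi.single i 1 : ι → F) := by
    intro w
    ext j
    simp [Finset.sum_apply, Pi.single_apply]
  conv_lhs => rw [hu u, hu v]
  rw [hf.sum_left]
  simp only [dotProduct, Matrix.mulVec, gram, hf.sum_right, hf.smul_left, hf.smul_right,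
    Finset.mul_sum, Function.comp]
  exact Finset.sum_congr rfl fun i _ => Finset.sum_congr rfl fun j _ => by ring

theorem Sesq.gram_comp {σ : F →+* F} {f : (ι → F) → (ι → F) → F} (hf : Sesq σ f) (h : Matrix ι ι F) (u v : ι → F) :
    f (h *ᵥ u) (h *ᵥ v) = u ⬝ᵥ ((hᵀ * gram f * h.map σ) *ᵥ (σ ∘ v)) := by
  rw [hf.eq_gram]
  have h1 : σ ∘ (h *ᵥ v) = h.map σ *ᵥ (σ ∘ v) := by
    ext i; simp [Matrix.mulVec, dotProduct]
  rw [h1, Matrix.mulVec_mulVec, Matrix.mul_assoc hᵀ, ← Matrix.mulVec_mulVec _ hᵀ,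
    Matrix.dotProduct_mulVec u hᵀ, Matrix.vecMul_transpose]

theorem gram_ext {σ : F →+* F} {A B : Matrix ι ι F}
    (h : ∀ u v : ι → F, u ⬝ᵥ (A *ᵥ (σ ∘ v)) = u ⬝ᵥ (B *ᵥ (σ ∘ v))) : A = B := by
  ext i j
  have := h (Pi.single i 1) (Pi.single j 1)
  have h2 : (σ ∘ (Pi.single j 1 : ι → F)) = Pi.single j 1 := by
    ext k
    by_cases hk : k = j
    · subst hk; simp
    · simp [hk]
  rw [h2] at this
  simpa using this

/-- the similarity lemma -/
theorem sim_of_fix [Nonempty ι] (σ : F ≃+* F) {f : (ι → F) → (ι → F) → F} (hf : Sesq (σ : F →+* F) f)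
    (hnd : IsNondegenerateForm f) {P : Subgroup (GL ι F)} (hP : alg P = ⊤)
    (hfix : FixesForm (matrixSet P) f) (h : GL ι F) (hh : ∀ x ∈ P, h * x * h⁻¹ ∈ P) :
    h ∈ similarityGroup f := by
  set G := gram f with hG
  -- G invertible
  have hdet : IsUnit G.det := by
    rw [isUnit_iff_ne_zero]
    intro h0
    obtain ⟨v, hv, hv0⟩ := Matrix.exists_mulVec_eq_zero_iff.2 h0
    have hv' : (σ.symm ∘ v) ≠ 0 := by
      intro h1
      apply hv
      ext i
      have := congrFun h1 i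
      simpa using this
    obtain ⟨⟨x, hx⟩, _⟩ := hnd _ hv'
    apply hx
    rw [hf.eq_gram]
    have : ((σ : F →+* F) ∘ (σ.symm ∘ v)) = v := by ext i; simp
    rw [this, hv0]; simp
  have hfixG : ∀ x ∈ P, (x : Matrix ι ι F)ᵀ * G * (x : Matrix ι ι F).map (σ : F →+* F) = G := by
    intro x hx
    refine gram_ext (σ := (σ : F →+* F)) fun u v => ?_
    rw [← hf.gram_comp, hfix _ ⟨x, hx, rfl⟩, hf.eq_gram]
  set G' := (h : Matrix ι ι F)ᵀ * G * (h : Matrix ι ι F).map (σ : F →+* F) with hG'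
  have hfixG' : ∀ x ∈ P, (x : Matrix ι ι F)ᵀ * G' * (x : Matrix ι ι F).map (σ : F →+* F) = G' := by
    intro x hx
    have h1 : (h : Matrix ι ι F) * (x : Matrix ι ι F) = ((h * x * h⁻¹ : GL ι F) : Matrix ι ι F) * (h : Matrix ι ι F) := by
      rw [← Units.val_mul, ← Units.val_mul]; simp
    calc (x : Matrix ι ι F)ᵀ * G' * (x : Matrix ι ι F).map (σ : F →+* F)
        = ((h : Matrix ι ι F) * (x : Matrix ι ι F))ᵀ * G * ((h : Matrix ι ι F) * (x : Matrix ι ι F)).map (σ : F →+* F) := by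
          rw [hG', Matrix.transpose_mul, Matrix.map_mul]; noncomm_ring
      _ = (h : Matrix ι ι F)ᵀ * (((h * x * h⁻¹ : GL ι F) : Matrix ι ι F)ᵀ * G *
          ((h * x * h⁻¹ : GL ι F) : Matrix ι ι F).map (σ : F →+* F)) * (h : Matrix ι ι F).map (σ : F →+* F) := by
          rw [h1, Matrix.transpose_mul, Matrix.map_mul]; noncomm_ring
      _ = G' := by rw [hfixG _ (hh x hx)]
  have hGG : G⁻¹ * G = 1 := Matrix.nonsing_inv_mul G hdet
  have hGG' : G * G⁻¹ = 1 := Matrix.mul_nonsing_inv G hdet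
  set M := G⁻¹ * G' with hM
  have hcomm : ∀ x ∈ P, (x : Matrix ι ι F).map (σ : F →+* F) * M = M * (x : Matrix ι ι F).map (σ : F →+* F) := by
    intro x hx
    have hxi : (x : Matrix ι ι F).map (σ : F →+* F) * ((x⁻¹ : GL ι F) : Matrix ι ι F).map (σ : F →+* F) = 1 := by
      rw [← Matrix.map_mul, ← Units.val_mul]; simp
    have h1 := hfixG x hx
    have h2 := hfixG' x hx
    -- G⁻¹ xᵀ = σ(x)⁻¹ G⁻¹
    have h3 : (x : Matrix ι ι F).map (σ : F →+* F) * G⁻¹ * (x : Matrix ι ι F)ᵀ = G⁻¹ := by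
      have h4 : G⁻¹ * (x : Matrix ι ι F)ᵀ * G * (x : Matrix ι ι F).map (σ : F →+* F) = 1 := by
        calc _ = G⁻¹ * ((x : Matrix ι ι F)ᵀ * G * (x : Matrix ι ι F).map (σ : F →+* F)) := by noncomm_ring
          _ = 1 := by rw [h1, hGG]
      have h5 : (x : Matrix ι ι F).map (σ : F →+* F) * (G⁻¹ * (x : Matrix ι ι F)ᵀ * G) = 1 :=
        mul_eq_one_comm.1 h4
      calc _ = (x : Matrix ι ι F).map (σ : F →+* F) * (G⁻¹ * (x : Matrix ι ι F)ᵀ * G) * G⁻¹ := by
            have : (x : Matrix ι ι F).map (σ : F →+* F) * (G⁻¹ * (x : Matrix ι ι F)ᵀ * G) * G⁻¹ =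
              (x : Matrix ι ι F).map (σ : F →+* F) * G⁻¹ * (x : Matrix ι ι F)ᵀ * (G * G⁻¹) := by noncomm_ring
            rw [this, hGG', mul_one]
        _ = G⁻¹ := by rw [h5, one_mul]
    calc (x : Matrix ι ι F).map (σ : F →+* F) * M
        = (x : Matrix ι ι F).map (σ : F →+* F) * G⁻¹ * ((x : Matrix ι ι F)ᵀ * G' * (x : Matrix ι ι F).map (σ : F →+* F)) := by
          rw [h2, hM]; noncomm_ring
      _ = ((x : Matrix ι ι F).map (σ : F →+* F) * G⁻¹ * (x : Matrix ι ι F)ᵀ) * G' * (x : Matrix ι ι F).map (σ : F →+* F) := by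
          noncomm_ring
      _ = M * (x : Matrix ι ι F).map (σ : F →+* F) := by rw [h3]
  obtain ⟨c, hc⟩ := scalar_of_commute_all (M.map (σ.symm : F →+* F)) (fun X => by
    refine (commute_alg (N := P) ?_ X (by rw [hP]; trivial)).symm
    rintro _ ⟨x, hx, rfl⟩
    have h1 := congrArg (fun Y : Matrix ι ι F => Y.map (σ.symm : F →+* F)) (hcomm x hx)
    simp only [Matrix.map_mul, Matrix.map_map] at h1
    have h2 : (x : Matrix ι ι F).map ((σ.symm : F →+* F) ∘ (σ : F →+* F)) = (x : Matrix ι ι F) := by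
      ext i j; simp
    rw [h2] at h1
    exact h1.symm)
  have hMc : M = (σ c) • (1 : Matrix ι ι F) := by
    have h1 := congrArg (fun Y : Matrix ι ι F => Y.map (σ : F →+* F)) hc
    simp only [Matrix.map_map] at h1
    have h2 : M.map ((σ : F →+* F) ∘ (σ.symm : F →+* F)) = M := by
      ext i j; simp
    rw [h2] at h1
    rw [h1]
    ext i j
    by_cases hij : i = j
    · subst hij; simp
    · simp [hij]
  have hG'c : G' = (σ c) • G := by
    calc G' = G * (G⁻¹ * G') := by rw [← mul_assoc, hGG', one_mul]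
      _ = _ := by rw [← hM, hMc]; simp
  have hform : ∀ u v, f ((h : Matrix ι ι F) *ᵥ u) ((h : Matrix ι ι F) *ᵥ v) = σ c * f u v := by
    intro u v
    rw [hf.gram_comp, ← hG, ← hG', hG'c, hf.eq_gram u v, ← hG, Matrix.smul_mulVec, dotProduct_smul,
      smul_eq_mul]
  have hc0 : σ c ≠ 0 := by
    intro h0
    obtain ⟨v, hv⟩ := exists_ne (0 : ι → F)
    have hv' : (h : Matrix ι ι F) *ᵥ v ≠ 0 := by
      intro h1
      apply hv
      have h2 := congrArg (fun w => ((h⁻¹ : GL ι F) : Matrix ι ι F) *ᵥ w) h1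
      simp only [Matrix.mulVec_mulVec, ← Units.val_mul, inv_mul_cancel, Units.val_one, Matrix.one_mulVec,
        Matrix.mulVec_zero] at h2
      exact h2
    obtain ⟨⟨x, hx⟩, _⟩ := hnd _ hv'
    apply hx
    have h1 := hform (((h⁻¹ : GL ι F) : Matrix ι ι F) *ᵥ x) v
    rw [Matrix.mulVec_mulVec, ← Units.val_mul, mul_inv_cancel, Units.val_one, Matrix.one_mulVec, h0,
      zero_mul] at h1
    exact h1
  exact ⟨Units.mk0 (σ c) hc0, hform⟩

theorem sesq_of_bilin {f : (ι → F) → (ι → F) → F} (hf : IsBilinearForm f) :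
    Sesq ((RingEquiv.refl F : F ≃+* F) : F →+* F) f :=
  ⟨hf.add_left, hf.smul_left, hf.add_right, hf.smul_right⟩

theorem sesq_of_unitary {σ : F ≃+* F} {f : (ι → F) → (ι → F) → F} (hf : IsUnitaryForm σ f) :
    Sesq (σ : F →+* F) f where
  add_left := hf.add_left
  smul_left := hf.smul_left
  add_right v x y := by
    rw [hf.herm v (x + y), hf.add_left, map_add, ← hf.herm, ← hf.herm]
  smul_right c v x := by
    rw [hf.herm v (c • x), hf.smul_left, map_mul, ← hf.herm]; rfl

/-- polar form of a quadratic form fixed by P -/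
theorem quad_cases [Nonempty ι] {Q : (ι → F) → F} (hQ : IsNondegenerateQuadraticForm Q) {P : Subgroup (GL ι F)}
    (hP : alg P = ⊤) (hfix : FixesQuadForm (matrixSet P) Q) (H : Subgroup (GL ι F))
    (hn : ∀ h ∈ H, ∀ x ∈ P, h * x * h⁻¹ ∈ P) :
    ((2 : F) ≠ 0 ∧ H ≤ quadSimilarityGroup Q) ∨
    ((2 : F) = 0 ∧ IsSymplecticForm (QuadraticMap.polar Q) ∧ H ≤ similarityGroup (QuadraticMap.polar Q)) := by
  have hfp : FixesForm (matrixSet P) (QuadraticMap.polar Q) := by
    intro s hs u v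
    simp only [QuadraticMap.polar, ← Matrix.mulVec_add, hfix s hs]
  have hsim : ∀ h ∈ H, h ∈ similarityGroup (QuadraticMap.polar Q) := fun h hh =>
    sim_of_fix (RingEquiv.refl F) (sesq_of_bilin hQ.polar_bilinear) hQ.nondegenerate hP hfp h (hn h hh)
  have hself : ∀ v, QuadraticMap.polar Q v v = 2 * Q v := by
    intro v
    have h1 : v + v = (2 : F) • v := by rw [two_smul]
    rw [QuadraticMap.polar, h1, hQ.smul]; ring
  by_cases h2 : (2 : F) = 0
  · right
    refine ⟨h2, ⟨hQ.polar_bilinear, ?_, ?_, hQ.nondegenerate⟩, hsim⟩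
    · intro v w
      have h3 : QuadraticMap.polar Q v w = QuadraticMap.polar Q w v := QuadraticMap.polar_comm Q v w
      have h4 : (2 : F) * QuadraticMap.polar Q w v = 0 := by rw [h2, zero_mul]
      rw [h3]; linear_combination h4
    · intro v; rw [hself, h2, zero_mul]
  · left
    refine ⟨h2, fun h hh => ?_⟩
    obtain ⟨c, hc⟩ := hsim h hh
    refine ⟨c, fun v => ?_⟩
    have h3 := hc v v
    rw [hself, hself] at h3
    have : (2 : F) * (Q ((h : Matrix ι ι F) *ᵥ v) - c * Q v) = 0 := by linear_combination h3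
    rcases mul_eq_zero.1 this with h4 | h4
    · exact absurd h4 h2
    · linear_combination h4

theorem symplectic_even {f : (ι → F) → (ι → F) → F} (hf : IsSymplecticForm f) : Even (Fintype.card ι) := by
  obtain ⟨m, b, hm, _⟩ := CfsgLib.Forms27.exists_symplectic_basis (toBil f hf.bilinear)
    (fun v => hf.alternating v) (fun v hv => (hf.nondegenerate v hv).2)
  rw [Module.finrank_pi] at hm
  exact ⟨m, by omega⟩

end CfsgLib.Asch13
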