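import Mathlib
import Cfsg.Agent.LibAsch13

/-! subfield groups -/
set_option autoImplicit false

namespace CfsgLib.Asch14

open Module Cfsg Cfsg.Geo CfsgLib.Asch3 CfsgLib.Asch4 CfsgLib.Asch6 CfsgLib.Asch8 CfsgLib.Asch9 CfsgLib.Asch11
open scoped Matrix MatrixGroups

variable {ι : Type} [Fintype ι] [DecidableEq ι] {F : Type*} [Field F]

theorem exists_max_subfield [Finite F] (F₀ : Subfield F) (h : F₀ ≠ ⊤) :
    ∃ (F₁ : Subfield F) (r : ℕ), F₀ ≤ F₁ ∧ r.Prime ∧ Nat.card F = Nat.card F₁ ^ r := by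
  have hne : {K : Subfield F | F₀ ≤ K ∧ K ≠ ⊤}.Nonempty := ⟨F₀, le_rfl, h⟩
  have hfin : Finite (Subfield F) := by
    refine Finite.of_injective (fun K : Subfield F => (K : Set F)) ?_
    intro K K' h; exact SetLike.coe_injective h
  obtain ⟨F₁, hF₁⟩ := (Set.toFinite {K : Subfield F | F₀ ≤ K ∧ K ≠ ⊤}).exists_maximal hne
  have h1 : finrank F₁ F ≠ 1 := by
    intro h1
    apply hF₁.1.2
    rw [eq_top_iff]
    intro x _
    have h2 : (⊥ : Subalgebra F₁ F) = ⊤ := Subalgebra.bot_eq_top_iff_finrank_eq_one.2 h1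
    have h3 : x ∈ (⊥ : Subalgebra F₁ F) := by rw [h2]; trivial
    rw [Algebra.mem_bot] at h3
    obtain ⟨y, rfl⟩ := h3
    exact y.2
  obtain ⟨r, K, hr, hK, hmem⟩ := exists_prime_sub (F := F₁) (L := F) h1
  let K' : Subfield F :=
    { K.toSubring with
      inv_mem' := by
        intro x hx
        change x⁻¹ ∈ K
        have hx' : x ∈ K := hx
        rw [hmem] at hx' ⊢
        rw [inv_pow, hx'] }
  have hle : F₁ ≤ K' := by
    intro x hx
    change x ∈ K
    exact K.algebraMap_mem ⟨x, hx⟩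
  have htop : K' = ⊤ := by
    by_contra hcon
    have h2 := hF₁.2 (y := K') ⟨hF₁.1.1.trans hle, hcon⟩ hle
    have h3 : K = ⊥ := by
      rw [eq_bot_iff]
      intro x hx
      rw [Algebra.mem_bot]
      exact ⟨⟨x, h2 hx⟩, rfl⟩
    rw [h3, Subalgebra.finrank_bot] at hK
    exact hr.one_lt.ne hK
  have hKtop : K = ⊤ := by
    rw [eq_top_iff]
    intro x _
    have : x ∈ K' := by rw [htop]; trivial
    exact this
  refine ⟨F₁, r, hF₁.1.1, hr, ?_⟩
  have h4 : finrank F₁ F = r := by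
    rw [hKtop] at hK
    rw [← hK]
    exact (Subalgebra.topEquiv (R := F₁) (A := F)).toLinearEquiv.finrank_eq.symm
  rw [Module.natCard_eq_pow_finrank (K := F₁) (V := F), h4]

theorem span_eq_alg (P : Subgroup (GL ι F)) :
    Submodule.span F (matrixSet P) = Subalgebra.toSubmodule (alg P) := by
  rw [alg, Algebra.adjoin_eq_span]
  congr 1
  have : Submonoid.closure (matrixSet P) = P.toSubmonoid.map (Units.coeHom (Matrix ι ι F)) := by
    apply le_antisymm
    · rw [Submonoid.closure_le]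
      rintro _ ⟨x, hx, rfl⟩
      exact ⟨x, hx, rfl⟩
    · rintro _ ⟨x, hx, rfl⟩
      exact Submonoid.subset_closure ⟨x, hx, rfl⟩
  rw [this]
  rfl

theorem matrix_aut_inner' {κ : Type} [Fintype κ] [DecidableEq κ] (α : Matrix κ κ F ≃ₐ[F] Matrix κ κ F) :
    ∃ P : GL κ F, ∀ M, α M = P.1 * M * (P⁻¹).1 := by
  let e : κ ≃ Fin (Fintype.card κ) := Fintype.equivFin κ
  let E : Matrix κ κ F ≃ₐ[F] Matrix (Fin (Fintype.card κ)) (Fin (Fintype.card κ)) F := Matrix.reindexAlgEquiv F F e
  obtain ⟨P, hP⟩ := matrix_aut_inner ((E.symm.trans α).trans E)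
  refine ⟨Units.mapEquiv E.symm.toMulEquiv P, fun M => ?_⟩
  have h1 := hP (E M)
  simp only [AlgEquiv.trans_apply, AlgEquiv.symm_apply_apply] at h1
  apply E.injective
  rw [h1, map_mul, map_mul]
  congr 1
  · congr 1
    exact (E.apply_symm_apply _).symm
  · exact (E.apply_symm_apply _).symm

/-- a matrix set defined over a subfield, spanning over the big field, spans over the small field -/
theorem span_small (F₁ : Subfield F) (S : Set (Matrix ι ι F₁))
    (hS : Submodule.span F ((fun M : Matrix ι ι F₁ => M.map F₁.subtype) '' S) = ⊤) :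
    Submodule.span F₁ S = ⊤ := by
  obtain ⟨b, hbS, hspan, hli⟩ := exists_linearIndependent F ((fun M : Matrix ι ι F₁ => M.map F₁.subtype) '' S)
  rw [hS] at hspan
  have hinj : Function.Injective (fun M : Matrix ι ι F₁ => M.map F₁.subtype) := by
    intro M N h
    ext i j
    exact congrFun (congrFun h i) j
  -- pull back
  let b' : Set (Matrix ι ι F₁) := (fun M : Matrix ι ι F₁ => M.map F₁.subtype) ⁻¹' b
  have hb'S : b' ⊆ S := by
    intro M hM
    obtain ⟨N, hN, hNM⟩ := hbS hM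
    have : N = M := hinj hNM
    rwa [← this]
  let emb : Matrix ι ι F₁ →ₗ[F₁] Matrix ι ι F :=
    { toFun := fun M => M.map F₁.subtype
      map_add' := fun M N => by ext i j; simp
      map_smul' := fun c M => by ext i j; simp [Subfield.smul_def] }
  have hli' : LinearIndependent F₁ (fun x : b' => (x : Matrix ι ι F₁)) := by
    have h1 : LinearIndependent F₁ (fun x : b => (x : Matrix ι ι F)) := hli.restrict_scalars (by
      intro a c hac
      simpa [Subfield.smul_def] using hac)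
    have h2 : LinearIndependent F₁ (fun x : b' => emb (x : Matrix ι ι F₁)) := by
      exact h1.comp (fun x : b' => (⟨emb x.1, x.2⟩ : b)) (fun x y hxy => Subtype.ext (hinj (congrArg Subtype.val hxy)))
    exact h2.of_comp emb
  have hcard : Nat.card b' = Nat.card b := by
    refine Nat.card_congr (Equiv.ofBijective (fun x : b' => (⟨emb x.1, x.2⟩ : b)) ⟨?_, ?_⟩)
    · intro x y hxy
      exact Subtype.ext (hinj (congrArg Subtype.val hxy))
    · rintro ⟨y, hy⟩
      obtain ⟨N, hN, hNy⟩ := hbS hy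
      exact ⟨⟨N, by change _ ∈ b; rw [hNy]; exact hy⟩, Subtype.ext hNy⟩
  have hbfin : Finite b := hli.finite
  have hb'fin : Finite b' := hli'.finite
  have := Fintype.ofFinite b
  have := Fintype.ofFinite b'
  have h3 : Fintype.card b = finrank F (Matrix ι ι F) := by
    have hsp : ⊤ ≤ Submodule.span F (Set.range (fun x : b => (x : Matrix ι ι F))) := by
      rw [Subtype.range_coe, hspan]
    exact (Module.finrank_eq_card_basis (Basis.mk hli hsp)).symm
  have h4 : Fintype.card b' = finrank F₁ (Matrix ι ι F₁) := by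
    rw [← Nat.card_eq_fintype_card, hcard, Nat.card_eq_fintype_card, h3, Module.finrank_matrix,
      Module.finrank_matrix]
    simp
  have h5 := hli'.span_eq_top_of_card_eq_finrank' h4
  rw [Subtype.range_coe] at h5
  rw [eq_top_iff, ← h5]
  exact Submodule.span_mono hb'S

/-- the subfield lemma -/
theorem le_subfield [Nonempty ι] (F₁ : Subfield F) {P : Subgroup (GL ι F)} (hP : alg P = ⊤)
    (hreal : RealisableOver F₁ (matrixSet P)) (H : Subgroup (GL ι F))
    (hn : ∀ h ∈ H, ∀ x ∈ P, h * x * h⁻¹ ∈ P) : ∃ P₀ : GL ι F, H ≤ subfieldSubgroup F₁ P₀ := by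
  obtain ⟨B, hB⟩ := hreal
  refine ⟨B⁻¹, fun h hh => ?_⟩
  -- matrices over F₁
  let emb : Matrix ι ι F₁ →+* Matrix ι ι F := F₁.subtype.mapMatrix
  have hinj : Function.Injective emb := by
    intro M N h
    ext i j
    exact congrFun (congrFun h i) j
  have hex : ∀ x ∈ P, ∃ X : Matrix ι ι F₁, emb X = (B : Matrix ι ι F) * x * ((B⁻¹ : GL ι F) : Matrix ι ι F) := by
    intro x hx
    refine ⟨fun i j => ⟨_, hB _ ⟨x, hx, rfl⟩ i j⟩, ?_⟩
    ext i j; rfl
  let S : Set (Matrix ι ι F₁) := {X | ∃ x ∈ P, emb X = (B : Matrix ι ι F) * x * ((B⁻¹ : GL ι F) : Matrix ι ι F)}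
  have hS : Submodule.span F₁ S = ⊤ := by
    apply span_small
    rw [eq_top_iff]
    intro Y _
    have h1 : (cj B).symm Y ∈ Submodule.span F (matrixSet P) := by
      rw [span_eq_alg, hP]; trivial
    have h2 : Submodule.map (cj B).toLinearMap (Submodule.span F (matrixSet P)) ≤
        Submodule.span F ((fun M : Matrix ι ι F₁ => M.map F₁.subtype) '' S) := by
      rw [Submodule.map_span, Submodule.span_le]
      rintro _ ⟨_, ⟨x, hx, rfl⟩, rfl⟩
      obtain ⟨X, hX⟩ := hex x hx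
      exact Submodule.subset_span ⟨X, ⟨x, hx, hX⟩, hX⟩
    have h3 := h2 ⟨_, h1, rfl⟩
    have h4 : (cj B).toLinearMap ((cj B).symm Y) = Y := (cj B).apply_symm_apply Y
    rwa [h4] at h3
  set g : GL ι F := B * h * B⁻¹ with hg
  have hpres : ∀ M : Matrix ι ι F₁, ∃ M', (g : Matrix ι ι F) * emb M * ((g⁻¹ : GL ι F) : Matrix ι ι F) = emb M' := by
    intro M
    have hM : M ∈ Submodule.span F₁ S := by rw [hS]; trivial
    refine Submodule.span_induction (p := fun M _ => ∃ M', (g : Matrix ι ι F) * emb M * ((g⁻¹ : GL ι F) : Matrix ι ι F) = emb M') ?_ ?_ ?_ ?_ hM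
    · rintro X ⟨x, hx, hX⟩
      obtain ⟨X', hX'⟩ := hex _ (hn h hh x hx)
      refine ⟨X', ?_⟩
      rw [hX, hX']
      have h1 : g * (B * x * B⁻¹) * g⁻¹ = B * (h * x * h⁻¹) * B⁻¹ := by rw [hg]; group
      have h2 := congrArg Units.val h1
      simpa using h2
    · exact ⟨0, by simp⟩
    · rintro X Y _ _ ⟨X', hX'⟩ ⟨Y', hY'⟩
      exact ⟨X' + Y', by rw [map_add, map_add, mul_add, add_mul, hX', hY']⟩
    · rintro c X _ ⟨X', hX'⟩
      refine ⟨c • X', ?_⟩
      have hsm : ∀ (c : F₁) (X : Matrix ι ι F₁), emb (c • X) = (c : F) • emb X := by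
        intro c X; ext i j; simp [emb]
      rw [hsm, hsm, ← hX']; simp
  choose α hα using hpres
  have hgg : ((g⁻¹ : GL ι F) : Matrix ι ι F) * (g : Matrix ι ι F) = 1 := by rw [← Units.val_mul]; simp
  have hgg' : (g : Matrix ι ι F) * ((g⁻¹ : GL ι F) : Matrix ι ι F) = 1 := by rw [← Units.val_mul]; simp
  have hmul : ∀ M N, α (M * N) = α M * α N := by
    intro M N
    apply hinj
    rw [← hα, map_mul, map_mul, ← hα, ← hα]
    calc (g : Matrix ι ι F) * (emb M * emb N) * ((g⁻¹ : GL ι F) : Matrix ι ι F)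
        = (g : Matrix ι ι F) * emb M * 1 * emb N * ((g⁻¹ : GL ι F) : Matrix ι ι F) := by noncomm_ring
      _ = _ := by rw [← hgg]; noncomm_ring
  have hadd : ∀ M N, α (M + N) = α M + α N := by
    intro M N
    apply hinj
    rw [← hα, map_add, map_add, ← hα, ← hα]; noncomm_ring
  have hone : α 1 = 1 := by
    apply hinj
    rw [← hα, map_one, mul_one, hgg']
  have hzero : α 0 = 0 := by
    apply hinj
    rw [← hα, map_zero]; simp
  have hcom : ∀ r : F₁, α (algebraMap F₁ _ r) = algebraMap F₁ _ r := by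
    intro r
    apply hinj
    have h1 : emb (algebraMap F₁ _ r) = (r : F) • (1 : Matrix ι ι F) := by
      ext i j
      by_cases hij : i = j
      · subst hij; simp [emb, Matrix.algebraMap_matrix_apply]
      · simp [emb, Matrix.algebraMap_matrix_apply, hij]
    rw [← hα, h1, mul_smul_comm, mul_one, smul_mul_assoc, hgg']
  let a : Matrix ι ι F₁ →ₐ[F₁] Matrix ι ι F₁ :=
    { toFun := α, map_one' := hone, map_mul' := hmul, map_zero' := hzero, map_add' := hadd,
      commutes' := hcom }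
  have hainj : Function.Injective a := by
    intro M N hMN
    apply hinj
    have h1 : (g : Matrix ι ι F) * emb M * ((g⁻¹ : GL ι F) : Matrix ι ι F) =
        (g : Matrix ι ι F) * emb N * ((g⁻¹ : GL ι F) : Matrix ι ι F) := by
      rw [hα, hα]; exact congrArg emb hMN
    calc emb M = (((g⁻¹ : GL ι F) : Matrix ι ι F) * (g : Matrix ι ι F)) * emb M *
          (((g⁻¹ : GL ι F) : Matrix ι ι F) * (g : Matrix ι ι F)) := by rw [hgg]; simp
      _ = ((g⁻¹ : GL ι F) : Matrix ι ι F) * ((g : Matrix ι ι F) * emb M * ((g⁻¹ : GL ι F) : Matrix ι ι F)) * (g : Matrix ι ι F) := by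
          noncomm_ring
      _ = ((g⁻¹ : GL ι F) : Matrix ι ι F) * ((g : Matrix ι ι F) * emb N * ((g⁻¹ : GL ι F) : Matrix ι ι F)) * (g : Matrix ι ι F) := by
          rw [h1]
      _ = (((g⁻¹ : GL ι F) : Matrix ι ι F) * (g : Matrix ι ι F)) * emb N *
          (((g⁻¹ : GL ι F) : Matrix ι ι F) * (g : Matrix ι ι F)) := by noncomm_ring
      _ = emb N := by rw [hgg]; simp
  have hasurj : Function.Surjective a :=
    (LinearMap.injective_iff_surjective (f := a.toLinearMap)).1 hainj
  obtain ⟨Q, hQ⟩ := matrix_aut_inner' (AlgEquiv.ofBijective a ⟨hainj, hasurj⟩)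
  have hQα : ∀ M, α M = Q.1 * M * (Q⁻¹).1 := hQ
  let Q' : GL ι F := Matrix.GeneralLinearGroup.map F₁.subtype Q
  have hQ'v : (Q' : Matrix ι ι F) = emb Q.1 := rfl
  have hQ'i : ((Q'⁻¹ : GL ι F) : Matrix ι ι F) = emb (Q⁻¹).1 := rfl
  -- Q'⁻¹ g is scalar
  have hsc : Q'⁻¹ * g ∈ scalars ι F := by
    have hcomm : ∀ M : Matrix ι ι F₁, ((Q'⁻¹ * g : GL ι F) : Matrix ι ι F) * emb M = emb M * ((Q'⁻¹ * g : GL ι F) : Matrix ι ι F) := by
      intro M
      have h1 := hα M
      rw [hQα, map_mul, map_mul, ← hQ'v, ← hQ'i] at h1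
      rw [Units.val_mul]
      have hq : ((Q'⁻¹ : GL ι F) : Matrix ι ι F) * (Q' : Matrix ι ι F) = 1 := by rw [← Units.val_mul]; simp
      calc ((Q'⁻¹ : GL ι F) : Matrix ι ι F) * (g : Matrix ι ι F) * emb M
          = ((Q'⁻¹ : GL ι F) : Matrix ι ι F) * ((g : Matrix ι ι F) * emb M * ((g⁻¹ : GL ι F) : Matrix ι ι F)) * (g : Matrix ι ι F) := by
            have : ((Q'⁻¹ : GL ι F) : Matrix ι ι F) * ((g : Matrix ι ι F) * emb M * ((g⁻¹ : GL ι F) : Matrix ι ι F)) * (g : Matrix ι ι F) =
              ((Q'⁻¹ : GL ι F) : Matrix ι ι F) * (g : Matrix ι ι F) * emb M * (((g⁻¹ : GL ι F) : Matrix ι ι F) * (g : Matrix ι ι F)) := by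
              noncomm_ring
            rw [this, hgg, mul_one]
        _ = (((Q'⁻¹ : GL ι F) : Matrix ι ι F) * (Q' : Matrix ι ι F)) * emb M * ((Q'⁻¹ : GL ι F) : Matrix ι ι F) * (g : Matrix ι ι F) := by
            rw [h1]; noncomm_ring
        _ = _ := by rw [hq]; noncomm_ring
    obtain ⟨c, hc⟩ := scalar_of_commute_all ((Q'⁻¹ * g : GL ι F) : Matrix ι ι F) (by
      intro X
      have hX : X = ∑ i, ∑ j, X i j • emb (Matrix.single i j 1) := by
        have h1 : ∀ i j, emb (Matrix.single i j 1) = Matrix.single i j 1 := by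
          intro i j; ext a b
          simp [emb, Matrix.single_apply]
          split_ifs <;> simp
        simp only [h1]
        conv_lhs => rw [Matrix.matrix_eq_sum_single X]
        simp
      rw [hX, Finset.sum_mul, Finset.mul_sum]
      refine Finset.sum_congr rfl fun i _ => ?_
      rw [Finset.sum_mul, Finset.mul_sum]
      refine Finset.sum_congr rfl fun j _ => ?_
      rw [smul_mul_assoc, mul_smul_comm, hcomm])
    exact mem_scalars_of_eq hc
  refine Subgroup.mem_map.2 ⟨g, ?_, ?_⟩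
  · have h1 : g = Q' * (Q'⁻¹ * g) := by group
    rw [h1]
    exact Subgroup.mul_mem_sup ⟨Q, rfl⟩ hsc
  · change B⁻¹ * g * B⁻¹⁻¹ = h
    rw [hg]; group

end CfsgLib.Asch14
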