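import Mathlib
import Cfsg.Agent.LibAsch10

/-! group theory: the minimal non-central normal subgroup when it is of class two -/
set_option autoImplicit false

namespace CfsgLib.Asch15

open CfsgLib.Asch10

variable {G : Type*} [Group G]

theorem pow_comm_c {x y c : G} (hc : ∀ g, c * g = g * c) (h : y * x = c * (x * y)) (m : ℕ) :
    y ^ m * x = c ^ m * (x * y ^ m) := by
  have hcm : ∀ k, ∀ g, c ^ k * g = g * c ^ k := fun k g => ((show Commute c g from hc g).pow_left k)
  induction m with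
  | zero => simp
  | succ m ih =>
    calc y ^ (m + 1) * x = y ^ m * (y * x) := by rw [pow_succ, mul_assoc]
      _ = y ^ m * (c * (x * y)) := by rw [h]
      _ = c * (y ^ m * x) * y := by
        rw [← mul_assoc (y ^ m) c, ← hc (y ^ m)]; simp only [mul_assoc]
      _ = c * (c ^ m * (x * y ^ m)) * y := by rw [ih]
      _ = c ^ (m + 1) * (x * y ^ (m + 1)) := by
        rw [pow_succ' c, pow_succ y]; simp only [mul_assoc]

theorem mul_pow_c {x y c : G} (hc : ∀ g, c * g = g * c) (h : y * x = c * (x * y)) (m : ℕ) :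
    (x * y) ^ m = c ^ (m * (m - 1) / 2) * (x ^ m * y ^ m) := by
  have hcm : ∀ k, ∀ g, c ^ k * g = g * c ^ k := fun k g => ((show Commute c g from hc g).pow_left k)
  induction m with
  | zero => simp
  | succ m ih =>
    have h1 : (m + 1) * (m + 1 - 1) / 2 = m * (m - 1) / 2 + m := by
      cases m with
      | zero => rfl
      | succ k =>
        have : (k + 1 + 1) * (k + 1 + 1 - 1) = (k + 1) * (k + 1 - 1) + (k + 1) * 2 := by
          simp only [Nat.add_sub_cancel]; ring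
        rw [this, Nat.add_mul_div_right _ _ (by norm_num)]
    calc (x * y) ^ (m + 1) = (x * y) ^ m * (x * y) := pow_succ _ _
      _ = c ^ (m * (m - 1) / 2) * (x ^ m * y ^ m) * (x * y) := by rw [ih]
      _ = c ^ (m * (m - 1) / 2) * (x ^ m * (y ^ m * x) * y) := by simp only [mul_assoc]
      _ = c ^ (m * (m - 1) / 2) * (x ^ m * (c ^ m * (x * y ^ m)) * y) := by rw [pow_comm_c hc h]
      _ = c ^ (m * (m - 1) / 2) * c ^ m * (x ^ (m + 1) * y ^ (m + 1)) := by
        rw [← mul_assoc (x ^ m) (c ^ m), ← hcm m (x ^ m), pow_succ x, pow_succ y]; simp only [mul_assoc]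
      _ = c ^ ((m + 1) * (m + 1 - 1) / 2) * (x ^ (m + 1) * y ^ (m + 1)) := by
        rw [h1, pow_add c]

/-- powers with exponent `m` are multiplicative when the commutators have exponent `r` -/
theorem mul_pow_of {Z N : Subgroup G} (hZ : Z ≤ Subgroup.center G) (hc : ⁅N, N⁆ ≤ Z) {r m : ℕ}
    (hr : ∀ x ∈ N, x ^ r ∈ Z) (hm : r ∣ m * (m - 1) / 2) {x y : G} (hx : x ∈ N) (hy : y ∈ N) :
    (x * y) ^ m = x ^ m * y ^ m := by
  have hcz : y * x * y⁻¹ * x⁻¹ ∈ Z := hc (Subgroup.commutator_mem_commutator hy hx)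
  set c := y * x * y⁻¹ * x⁻¹ with hcd
  have hcc : ∀ g, c * g = g * c := fun g => (Subgroup.mem_center_iff.1 (hZ hcz) g).symm
  have h1 : y * x = c * (x * y) := by rw [hcd]; group
  have h2 : c ^ r = 1 := by
    have h3 := pow_comm_c hcc h1 r
    have h4 := Subgroup.mem_center_iff.1 (hZ (hr y hy)) x
    rw [h4] at h3
    -- y^r * x = c^r * (y^r * x)
    have : (1 : G) * (y ^ r * x) = c ^ r * (y ^ r * x) := by rw [one_mul]; exact h3
    exact (mul_right_cancel this).symm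
  rw [mul_pow_c hcc h1 m]
  obtain ⟨k, hk⟩ := hm
  rw [hk, pow_mul, h2, one_pow, one_mul]

theorem pow_mem_of {Z N : Subgroup G} (hZ : Z ≤ Subgroup.center G) (hc : ⁅N, N⁆ ≤ Z) {r : ℕ}
    {x y : G} (hx : x ∈ N) (hy : y ∈ N) (hx1 : x ^ r ∈ Z) (hy1 : y ^ r ∈ Z) :
    (x * y) ^ r ∈ Z := by
  have hcz : y * x * y⁻¹ * x⁻¹ ∈ Z := hc (Subgroup.commutator_mem_commutator hy hx)
  set c := y * x * y⁻¹ * x⁻¹ with hcd
  have hcc : ∀ g, c * g = g * c := fun g => (Subgroup.mem_center_iff.1 (hZ hcz) g).symm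
  have h1 : y * x = c * (x * y) := by rw [hcd]; group
  rw [mul_pow_c hcc h1 r]
  exact Z.mul_mem (Z.pow_mem hcz _) (Z.mul_mem hx1 hy1)

theorem exists_prime_pow {Z : Subgroup G} [Finite G] {y : G} (hy : y ∉ Z) :
    ∃ (r k : ℕ), r.Prime ∧ y ^ k ∉ Z ∧ (y ^ k) ^ r ∈ Z := by
  classical
  have hex : ∃ k, 0 < k ∧ y ^ k ∈ Z := ⟨orderOf y, orderOf_pos y, by rw [pow_orderOf_eq_one]; exact Z.one_mem⟩
  set k := Nat.find hex with hk
  have hk1 := (Nat.find_spec hex)
  rw [← hk] at hk1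
  have hk2 : k ≠ 1 := by
    intro h; rw [h, pow_one] at hk1; exact hy hk1.2
  have hp := Nat.minFac_prime hk2
  refine ⟨k.minFac, k / k.minFac, hp, ?_, ?_⟩
  · intro h
    have hlt : k / k.minFac < k := Nat.div_lt_self hk1.1 hp.one_lt
    exact Nat.find_min hex hlt ⟨Nat.div_pos (Nat.minFac_le hk1.1) hp.pos, h⟩
  · rw [← pow_mul, Nat.div_mul_cancel (Nat.minFac_dvd k)]
    exact hk1.2

/-- the conclusion: exponent facts -/
theorem exponent [Finite G] {Z H N : Subgroup G} (hZ : Z ≤ Subgroup.center G) (hcyc : IsCyclic Z)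
    (hN : Minimal (Nz Z H) N) (hc : ⁅N, N⁆ ≤ Z) (hab : ∃ x ∈ N, ∃ y ∈ N, x * y ≠ y * x) :
    ∃ r : ℕ, r.Prime ∧ (∀ x ∈ N, x ^ r ∈ Z) ∧ ∀ x ∈ N, x ^ (r * Nat.gcd 2 r) = 1 := by
  obtain ⟨y, hy, hyZ⟩ := Set.not_subset.1 hN.1.2.2
  obtain ⟨r, k, hrp, hk1, hk2⟩ := exists_prime_pow hyZ
  have hNrd : Nrd H N := hN.1.2.1
  -- the subgroup K
  let K : Subgroup G :=
    { carrier := {x | x ∈ N ∧ x ^ r ∈ Z}
      mul_mem' := fun {a b} ha hb => ⟨N.mul_mem ha.1 hb.1, pow_mem_of hZ hc ha.1 hb.1 ha.2 hb.2⟩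
      one_mem' := ⟨N.one_mem, by rw [one_pow]; exact Z.one_mem⟩
      inv_mem' := fun {a} ha => ⟨N.inv_mem ha.1, by
        change a⁻¹ ^ r ∈ Z
        rw [inv_pow]; exact Z.inv_mem ha.2⟩ }
  have hconj : ∀ h x : G, (h * x * h⁻¹) ^ r = h * x ^ r * h⁻¹ := fun h x => conj_pow
  have hcentral : ∀ h : G, ∀ z ∈ Z, h * z * h⁻¹ = z := by
    intro h z hz
    have := Subgroup.mem_center_iff.1 (hZ hz) h
    rw [this]; group
  have hK : K = N := by
    rcases min_le hN (K := K) (fun x hx => hx.1) (by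
      intro h hh x hx
      refine ⟨hNrd h hh x hx.1, ?_⟩
      rw [hconj, hcentral h _ hx.2]; exact hx.2) with h | h
    · exact absurd (h (show y ^ k ∈ K from ⟨N.pow_mem hy k, hk2⟩)) hk1
    · exact h
  have hr : ∀ x ∈ N, x ^ r ∈ Z := by
    intro x hx
    rw [← hK] at hx
    exact hx.2
  refine ⟨r, hrp, hr, ?_⟩
  set m := r * Nat.gcd 2 r with hm
  have hdvd : r ∣ m * (m - 1) / 2 := by
    rcases hrp.eq_two_or_odd' with h2 | h2
    · subst h2
      rw [hm]; norm_num
    · have : Nat.gcd 2 r = 1 := (Nat.coprime_two_left).2 h2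
      rw [hm, this, mul_one]
      obtain ⟨j, hj⟩ := h2
      refine ⟨j, ?_⟩
      have : r * (r - 1) = (r * j) * 2 := by rw [hj, Nat.add_sub_cancel]; ring
      rw [this, Nat.mul_div_cancel _ (by norm_num)]
  have hmul : ∀ x ∈ N, ∀ y ∈ N, (x * y) ^ m = x ^ m * y ^ m := fun x hx y hy => mul_pow_of hZ hc hr hdvd hx hy
  have hmZ : ∀ x ∈ N, x ^ m ∈ Z := by
    intro x hx
    rw [hm, pow_mul]; exact Z.pow_mem (hr x hx) _
  let L : Subgroup G :=
    { carrier := {x | x ∈ N ∧ x ^ m = 1}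
      mul_mem' := fun {a b} ha hb => ⟨N.mul_mem ha.1 hb.1, by
        change (a * b) ^ m = 1
        rw [hmul a ha.1 b hb.1, ha.2, hb.2, one_mul]⟩
      one_mem' := ⟨N.one_mem, one_pow _⟩
      inv_mem' := fun {a} ha => ⟨N.inv_mem ha.1, by
        change a⁻¹ ^ m = 1
        rw [inv_pow, ha.2, inv_one]⟩ }
  rcases min_le hN (K := L) (fun x hx => hx.1) (by
      intro h hh x hx
      refine ⟨hNrd h hh x hx.1, ?_⟩
      rw [conj_pow, hx.2]; group) with h | h
  · exfalso
    let f : N →* Z :=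
      { toFun := fun x => ⟨(x : G) ^ m, hmZ x x.2⟩
        map_one' := by ext; simp
        map_mul' := fun a b => by ext; simpa using hmul a a.2 b b.2 }
    have hker : f.ker ≤ Subgroup.center N := by
      intro x hx
      rw [MonoidHom.mem_ker] at hx
      have h1 : (x : G) ^ m = 1 := congrArg Subtype.val hx
      have h2 : (x : G) ∈ Z := h ⟨x.2, h1⟩
      rw [Subgroup.mem_center_iff]
      intro g
      ext
      exact Subgroup.mem_center_iff.1 (hZ h2) g
    have hcomm := (f.isMulCommutative_of_isCyclic_of_ker_le_center hker)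
    obtain ⟨a, ha, b, hb, hne⟩ := hab
    exact hne (congrArg Subtype.val (hcomm.is_comm.comm (⟨a, ha⟩ : N) ⟨b, hb⟩))
  · intro x hx
    rw [← h] at hx
    exact hx.2

theorem char_nrd {H N : Subgroup G} (hN : Nrd H N) (A : Subgroup N) [hA : A.Characteristic] :
    Nrd H (A.map N.subtype) := by
  intro h hh x hx
  obtain ⟨a, ha, rfl⟩ := hx
  have hinv : ∀ x ∈ N, h⁻¹ * x * h ∈ N := by
    intro x hx
    have := hN h⁻¹ (H.inv_mem hh) x hx
    rwa [inv_inv] at this
  let φ : N ≃* N :=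
    { toFun := fun x => ⟨h * x * h⁻¹, hN h hh x x.2⟩
      invFun := fun x => ⟨h⁻¹ * x * h, hinv x x.2⟩
      left_inv := fun x => by ext; simp [mul_assoc]
      right_inv := fun x => by ext; simp [mul_assoc]
      map_mul' := fun x y => by ext; simp [mul_assoc] }
  have h1 := (Subgroup.characteristic_iff_map_eq.1 hA φ)
  have h2 : φ a ∈ A := by
    rw [← h1]; exact ⟨a, ha, rfl⟩
  exact ⟨φ a, h2, rfl⟩

theorem char_cyclic {Z H N : Subgroup G} [Finite G] (hcyc : IsCyclic Z)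
    (hN : Minimal (Nz Z H) N) (hab : ∃ x ∈ N, ∃ y ∈ N, x * y ≠ y * x) (A : Subgroup N)
    (hA : A.Characteristic) (hAc : IsMulCommutative A) : IsCyclic A := by
  have h1 := char_nrd hN.1.2.1 A
  rcases min_le hN (K := A.map N.subtype) (by rintro _ ⟨a, _, rfl⟩; exact a.2) h1 with h | h
  · let f : A →* Z :=
      { toFun := fun x => ⟨((x : N) : G), h ⟨x, x.2, rfl⟩⟩
        map_one' := by ext; simp
        map_mul' := fun a b => by ext; simp }
    have hf : Function.Injective f := by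
      intro a b hab
      have := congrArg Subtype.val hab
      ext
      exact this
    exact isCyclic_of_injective f hf
  · exfalso
    obtain ⟨a, ha, b, hb, hne⟩ := hab
    have ha' := ha
    have hb' := hb
    rw [← h] at ha' hb'
    obtain ⟨a', ha1, ha2⟩ := ha'
    obtain ⟨b', hb1, hb2⟩ := hb'
    have := hAc.is_comm.comm (⟨a', ha1⟩ : A) ⟨b', hb1⟩
    have h3 := congrArg (fun z : A => ((z : N) : G)) this
    apply hne
    rw [← ha2, ← hb2]
    exact h3

end CfsgLib.Asch15
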