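import Mathlib
import Cfsg.Agent.LibAsch14
import Cfsg.Agent.LibAsch15

/-! absolutely irreducible linear groups of class two: traces, order, invariant forms -/
set_option autoImplicit false

namespace CfsgLib.Asch16

open Module Cfsg Cfsg.Geo CfsgLib.Asch9 CfsgLib.Asch11 CfsgLib.Asch13 CfsgLib.Asch14
open scoped Matrix MatrixGroups

variable {ι : Type} [Fintype ι] [DecidableEq ι] {F : Type*} [Field F]

theorem scalar_of_comm [Nonempty ι] {N : Subgroup (GL ι F)} (hN : alg N = ⊤) {x : GL ι F}
    (h : ∀ y ∈ N, x * y = y * x) : x ∈ scalars ι F := by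
  obtain ⟨c, hc⟩ := scalar_of_commute_all (x : Matrix ι ι F) (fun X => by
    refine (commute_alg (N := N) ?_ X (by rw [hN]; trivial)).symm
    rintro _ ⟨y, hy, rfl⟩
    change (x : Matrix ι ι F) * (y : Matrix ι ι F) = (y : Matrix ι ι F) * (x : Matrix ι ι F)
    rw [← Units.val_mul, ← Units.val_mul, h y hy])
  exact mem_scalars_of_eq hc

theorem trace_zero [Nonempty ι] {N : Subgroup (GL ι F)} (hN : alg N = ⊤) (hc : ⁅N, N⁆ ≤ scalars ι F)
    {x : GL ι F} (hx : x ∈ N) (hxz : x ∉ scalars ι F) : Matrix.trace (x : Matrix ι ι F) = 0 := by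
  have h1 : ∃ y ∈ N, x * y ≠ y * x := by
    by_contra hcon
    push Not at hcon
    exact hxz (scalar_of_comm hN hcon)
  obtain ⟨y, hy, hne⟩ := h1
  have hcm := hc (Subgroup.commutator_mem_commutator hy hx)
  rw [commutatorElement_def, mem_scalars_iff] at hcm
  obtain ⟨d, hd⟩ := hcm
  have h2 : y * x * y⁻¹ = (y * x * y⁻¹ * x⁻¹) * x := by group
  have h3 : (y : Matrix ι ι F) * (x : Matrix ι ι F) * ((y⁻¹ : GL ι F) : Matrix ι ι F) = (d : F) • (x : Matrix ι ι F) := by
    have := congrArg (fun z : GL ι F => (z : Matrix ι ι F)) h2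
    rw [Units.val_mul (y * x * y⁻¹ * x⁻¹) x, hd, Matrix.smul_mul, one_mul] at this
    exact this
  have h4 : Matrix.trace (x : Matrix ι ι F) = (d : F) * Matrix.trace (x : Matrix ι ι F) := by
    have := congrArg Matrix.trace h3
    rw [Matrix.trace_smul, Matrix.trace_mul_comm, ← mul_assoc, ← Units.val_mul, inv_mul_cancel,
      Units.val_one, one_mul, smul_eq_mul] at this
    exact this
  have hd1 : (d : F) ≠ 1 := by
    intro h5
    rw [h5, one_smul] at hd
    have : y * x * y⁻¹ * x⁻¹ = 1 := Units.ext hd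
    apply hne
    have h6 : y * x = x * y := by
      calc y * x = (y * x * y⁻¹ * x⁻¹) * (x * y) := by group
        _ = x * y := by rw [this, one_mul]
    exact h6.symm
  have h6 : (1 - (d : F)) * Matrix.trace (x : Matrix ι ι F) = 0 := by
    rw [sub_mul, one_mul, ← h4, sub_self]
  rcases mul_eq_zero.1 h6 with h7 | h7
  · exact absurd (sub_eq_zero.1 h7).symm hd1
  · exact h7

theorem eq_zero_of_trace {N : Subgroup (GL ι F)} (hN : alg N = ⊤) (a : Matrix ι ι F)
    (h : ∀ x ∈ N, Matrix.trace (a * (x : Matrix ι ι F)) = 0) : a = 0 := by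
  have h1 : ∀ M : Matrix ι ι F, Matrix.trace (a * M) = 0 := by
    intro M
    have hM : M ∈ Submodule.span F (matrixSet N) := by
      rw [span_eq_alg, hN]; trivial
    induction hM using Submodule.span_induction with
    | mem x hx =>
      obtain ⟨y, hy, rfl⟩ := hx
      exact h y hy
    | zero => simp
    | add x y _ _ hx hy => rw [mul_add, Matrix.trace_add, hx, hy, add_zero]
    | smul c x _ hx => rw [Matrix.mul_smul, Matrix.trace_smul, hx, smul_zero]
  ext i j
  have := h1 (Matrix.single j i 1)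
  rw [Matrix.trace_mul_comm] at this
  simpa [Matrix.trace, Matrix.single_mul_apply_same, Matrix.mul_apply, Matrix.single_apply,
    Finset.sum_ite_eq, ite_and] using this

theorem card_ne_zero [Nonempty ι] {N : Subgroup (GL ι F)} (hN : alg N = ⊤) (hc : ⁅N, N⁆ ≤ scalars ι F) :
    (Fintype.card ι : F) ≠ 0 := by
  intro h0
  have h1 : (1 : Matrix ι ι F) = 0 := eq_zero_of_trace hN 1 (by
    intro x hx
    rw [one_mul]
    by_cases hz : x ∈ scalars ι F
    · rw [mem_scalars_iff] at hz
      obtain ⟨c, hc'⟩ := hz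
      rw [hc', Matrix.trace_smul, Matrix.trace_one, h0, smul_zero]
    · exact trace_zero hN hc hx hz)
  exact one_ne_zero h1

theorem card_quot [Finite F] [Nonempty ι] {N : Subgroup (GL ι F)} (hN : alg N = ⊤) (hc : ⁅N, N⁆ ≤ scalars ι F) :
    Nat.card (N ⧸ (scalars ι F).subgroupOf N) = Fintype.card ι ^ 2 := by
  classical
  set Zs := (scalars ι F).subgroupOf N with hZs
  have hfin : Finite N := inferInstance
  have : Fintype (N ⧸ Zs) := Fintype.ofFinite _
  let b : (N ⧸ Zs) → Matrix ι ι F := fun q => (((Quotient.out q : N) : GL ι F) : Matrix ι ι F)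
  have hli : LinearIndependent F b := by
    rw [Fintype.linearIndependent_iff]
    intro g hg q'
    have h1 : ∑ q, g q • Matrix.trace ((((Quotient.out q' : N) : GL ι F)⁻¹ : GL ι F) * b q : Matrix ι ι F) = 0 := by
      have := congrArg (fun M : Matrix ι ι F => Matrix.trace (((((Quotient.out q' : N) : GL ι F)⁻¹ : GL ι F) : Matrix ι ι F) * M)) hg
      simp only [mul_zero, Matrix.trace_zero, Matrix.mul_sum, Matrix.trace_sum, Matrix.mul_smul, Matrix.trace_smul] at this
      exact this
    rw [Finset.sum_eq_single q'] at h1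
    · have h2 : ((((Quotient.out q' : N) : GL ι F)⁻¹ : GL ι F) : Matrix ι ι F) * b q' = 1 := by
        change ((((Quotient.out q' : N) : GL ι F)⁻¹ : GL ι F) : Matrix ι ι F) * (((Quotient.out q' : N) : GL ι F) : Matrix ι ι F) = 1
        rw [← Units.val_mul, inv_mul_cancel, Units.val_one]
      rw [h2, Matrix.trace_one, smul_eq_mul] at h1
      rcases mul_eq_zero.1 h1 with h3 | h3
      · exact h3
      · exact absurd h3 (card_ne_zero hN hc)
    · intro q _ hq
      have h2 : ((((Quotient.out q' : N) : GL ι F)⁻¹ : GL ι F) : Matrix ι ι F) * b q =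
          ((((Quotient.out q' : N) : GL ι F)⁻¹ * ((Quotient.out q : N) : GL ι F) : GL ι F) : Matrix ι ι F) := by
        rw [Units.val_mul]
      rw [h2, trace_zero hN hc (N.mul_mem (N.inv_mem (Quotient.out q').2) (Quotient.out q).2), smul_zero]
      intro h3
      apply hq
      have h4 : (Quotient.out q' : N)⁻¹ * (Quotient.out q : N) ∈ Zs := h3
      have h5 := QuotientGroup.eq.2 h4
      rw [QuotientGroup.out_eq', QuotientGroup.out_eq'] at h5
      exact h5.symm
    · intro h; exact absurd (Finset.mem_univ _) h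
  have hsp : ⊤ ≤ Submodule.span F (Set.range b) := by
    have : (⊤ : Submodule F (Matrix ι ι F)) = Submodule.span F (matrixSet N) := by
      rw [span_eq_alg, hN]; rfl
    rw [this, Submodule.span_le]
    rintro _ ⟨x, hx, rfl⟩
    have h1 : (Quotient.out (QuotientGroup.mk (⟨x, hx⟩ : N) : N ⧸ Zs) : N)⁻¹ * ⟨x, hx⟩ ∈ Zs := by
      rw [← QuotientGroup.eq, QuotientGroup.out_eq']
    rw [hZs, Subgroup.mem_subgroupOf, mem_scalars_iff] at h1
    obtain ⟨c, hc'⟩ := h1
    have h2 : (x : Matrix ι ι F) = (c : F) • b (QuotientGroup.mk (⟨x, hx⟩ : N) : N ⧸ Zs) := by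
      have h3 : x = ((Quotient.out (QuotientGroup.mk (⟨x, hx⟩ : N) : N ⧸ Zs) : N) : GL ι F) *
        (((Quotient.out (QuotientGroup.mk (⟨x, hx⟩ : N) : N ⧸ Zs) : N)⁻¹ * ⟨x, hx⟩ : N) : GL ι F) := by
        simp
      have h4 := congrArg (fun z : GL ι F => (z : Matrix ι ι F)) h3
      rw [Units.val_mul, hc', Matrix.mul_smul, mul_one] at h4
      exact h4
    change (x : Matrix ι ι F) ∈ _
    rw [h2]
    exact Submodule.smul_mem _ _ (Submodule.subset_span ⟨_, rfl⟩)
  have h1 := Module.finrank_eq_card_basis (Basis.mk hli hsp)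
  rw [Nat.card_eq_fintype_card, ← h1, Module.finrank_matrix, Module.finrank_self, mul_one, sq]

theorem center_eq [Nonempty ι] {N : Subgroup (GL ι F)} (hN : alg N = ⊤) :
    Subgroup.center N = (scalars ι F).subgroupOf N := by
  ext x
  rw [Subgroup.mem_center_iff, Subgroup.mem_subgroupOf]
  constructor
  · intro h
    apply scalar_of_comm hN
    intro y hy
    exact (congrArg Subtype.val (h ⟨y, hy⟩)).symm
  · intro h g
    ext1
    exact Subgroup.mem_center_iff.1 (scalars_le_center h) g

theorem card_eq [Finite F] [Nonempty ι] {N : Subgroup (GL ι F)} (hN : alg N = ⊤) (hc : ⁅N, N⁆ ≤ scalars ι F) :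
    Nat.card N = Fintype.card ι ^ 2 * Nat.card (Subgroup.center N) := by
  rw [Subgroup.card_eq_card_quotient_mul_card_subgroup ((scalars ι F).subgroupOf N), card_quot hN hc,
    center_eq hN]

/-! forms -/

theorem exists_form [Finite F] [Nonempty ι] (σ : F ≃+* F) {N : Subgroup (GL ι F)} (hN : alg N = ⊤)
    (hc : ⁅N, N⁆ ≤ scalars ι F)
    (hσ : ∀ x ∈ N, ∀ c : F, (x : Matrix ι ι F) = c • (1 : Matrix ι ι F) → c * σ c = 1)
    (hcard : (Nat.card (Subgroup.center N) : F) ≠ 0) :
    ∃ f : (ι → F) → (ι → F) → F, Sesq (σ : F →+* F) f ∧ IsNondegenerateForm f ∧ FixesForm (matrixSet N) f := by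
  classical
  have : Fintype N := Fintype.ofFinite _
  let f : ι → ι → (ι → F) → (ι → F) → F := fun i j u v =>
    ∑ x : N, (((x : GL ι F) : Matrix ι ι F) *ᵥ u) i * σ ((((x : GL ι F) : Matrix ι ι F) *ᵥ v) j)
  have hsesq : ∀ i j, Sesq (σ : F →+* F) (f i j) := by
    intro i j
    constructor
    · intro x y v
      simp only [f, Matrix.mulVec_add, Pi.add_apply, add_mul, Finset.sum_add_distrib]
    · intro c x v
      simp only [f, Matrix.mulVec_smul, Pi.smul_apply, smul_eq_mul, Finset.mul_sum, mul_assoc]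
    · intro v x y
      simp only [f, Matrix.mulVec_add, Pi.add_apply, map_add, mul_add, Finset.sum_add_distrib]
    · intro c v x
      simp only [f, Matrix.mulVec_smul, Pi.smul_apply, smul_eq_mul, map_mul, Finset.mul_sum]
      exact Finset.sum_congr rfl fun y _ => by
        change _ = σ c * _
        ring
  have hfix : ∀ i j, FixesForm (matrixSet N) (f i j) := by
    rintro i j _ ⟨y, hy, rfl⟩ u v
    simp only [f]
    refine Fintype.sum_equiv (Equiv.mulRight (⟨y, hy⟩ : N)) _ _ fun x => ?_
    simp only [Matrix.mulVec_mulVec, Equiv.coe_mulRight, Subgroup.coe_mul, Units.val_mul]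
  have hne : ∃ i j, ∃ u v, f i j u v ≠ 0 := by
    by_contra hcon
    push Not at hcon
    have h1 : ∑ i, ∑ j, f i j (Pi.single i 1) (Pi.single j 1) = 0 := by
      simp [hcon]
    have h2 : ∑ i, ∑ j, f i j (Pi.single i 1) (Pi.single j 1) =
        ∑ x : N, Matrix.trace ((x : GL ι F) : Matrix ι ι F) * σ (Matrix.trace ((x : GL ι F) : Matrix ι ι F)) := by
      simp only [f, Matrix.mulVec_single_one, Matrix.trace, Matrix.diag_apply, map_sum, Finset.sum_mul_sum,
        Matrix.col_apply]
      conv_rhs => rw [Finset.sum_comm]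
      refine Finset.sum_congr rfl fun i _ => ?_
      rw [Finset.sum_comm]
    have h3 : ∀ x : N, Matrix.trace ((x : GL ι F) : Matrix ι ι F) * σ (Matrix.trace ((x : GL ι F) : Matrix ι ι F)) =
        if x ∈ Subgroup.center N then (Fintype.card ι : F) ^ 2 else 0 := by
      intro x
      split_ifs with hx
      · rw [center_eq hN, Subgroup.mem_subgroupOf, mem_scalars_iff] at hx
        obtain ⟨c, hc'⟩ := hx
        have h4 := hσ x x.2 c hc'
        rw [hc', Matrix.trace_smul, Matrix.trace_one, smul_eq_mul, map_mul, map_natCast]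
        linear_combination (Fintype.card ι : F) ^ 2 * h4
      · rw [center_eq hN, Subgroup.mem_subgroupOf] at hx
        rw [trace_zero hN hc x.2 hx, zero_mul]
    rw [h2, Finset.sum_congr rfl fun x _ => h3 x, Finset.sum_ite, Finset.sum_const_zero, add_zero,
      Finset.sum_const, nsmul_eq_mul] at h1
    have h4 : (Finset.filter (fun x => x ∈ Subgroup.center N) Finset.univ).card = Nat.card (Subgroup.center N) := by
      rw [Nat.card_eq_fintype_card, Fintype.card_subtype]
    rw [h4] at h1
    rcases mul_eq_zero.1 h1 with h5 | h5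
    · exact hcard h5
    · exact card_ne_zero hN hc (pow_eq_zero_iff (two_ne_zero) |>.1 h5)
  obtain ⟨i, j, u₀, v₀, hne⟩ := hne
  have hirr := (absIrred_of_alg hN).1
  have hS := hsesq i j
  have hinv : ∀ y ∈ N, ∀ u v, f i j u ((y : Matrix ι ι F) *ᵥ v) = f i j (((y⁻¹ : GL ι F) : Matrix ι ι F) *ᵥ u) v := by
    intro y hy u v
    have h1 := hfix i j _ ⟨y, hy, rfl⟩ (((y⁻¹ : GL ι F) : Matrix ι ι F) *ᵥ u) v
    rw [← h1, Matrix.mulVec_mulVec u, ← Units.val_mul, mul_inv_cancel, Units.val_one, Matrix.one_mulVec]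
  have hinv' : ∀ y ∈ N, ∀ u v, f i j ((y : Matrix ι ι F) *ᵥ u) v = f i j u (((y⁻¹ : GL ι F) : Matrix ι ι F) *ᵥ v) := by
    intro y hy u v
    rw [hinv y⁻¹ (N.inv_mem hy), inv_inv]
  refine ⟨f i j, hS, ?_, hfix i j⟩
  intro v hv
  constructor
  · by_contra hcon
    push Not at hcon
    let W : Submodule F (ι → F) :=
      { carrier := {w | ∀ x, f i j x w = 0}
        add_mem' := fun {a b} ha hb x => by rw [hS.add_right, ha x, hb x, add_zero]
        zero_mem' := fun x => by
          have := hS.smul_right 0 x 0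
          simpa using this
        smul_mem' := fun c a ha x => by rw [hS.smul_right, ha x, mul_zero] }
    rcases hirr W (by
      rintro _ ⟨y, hy, rfl⟩ _ ⟨w, hw, rfl⟩ x
      rw [Matrix.toLin'_apply]
      change f i j x ((y : Matrix ι ι F) *ᵥ w) = 0
      rw [hinv y hy]; exact hw _) with h | h
    · exact hv ((Submodule.mem_bot F).1 (h ▸ (show v ∈ W from hcon)))
    · apply hne
      have : v₀ ∈ W := by rw [h]; trivial
      exact this u₀
  · by_contra hcon
    push Not at hcon
    let W : Submodule F (ι → F) :=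
      { carrier := {w | ∀ x, f i j w x = 0}
        add_mem' := fun {a b} ha hb x => by rw [hS.add_left, ha x, hb x, add_zero]
        zero_mem' := fun x => by
          have := hS.smul_left 0 0 x
          simpa using this
        smul_mem' := fun c a ha x => by rw [hS.smul_left, ha x, mul_zero] }
    rcases hirr W (by
      rintro _ ⟨y, hy, rfl⟩ _ ⟨w, hw, rfl⟩ x
      rw [Matrix.toLin'_apply]
      change f i j ((y : Matrix ι ι F) *ᵥ w) x = 0
      rw [hinv' y hy]; exact hw _) with h | h
    · exact hv ((Submodule.mem_bot F).1 (h ▸ (show v ∈ W from hcon)))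
    · apply hne
      have : u₀ ∈ W := by rw [h]; trivial
      exact this v₀

theorem gram_fix (σ : F ≃+* F) {f : (ι → F) → (ι → F) → F} (hf : Sesq (σ : F →+* F) f) {P : Subgroup (GL ι F)}
    (hfix : FixesForm (matrixSet P) f) (x : GL ι F) (hx : x ∈ P) :
    (x : Matrix ι ι F)ᵀ * gram f * (x : Matrix ι ι F).map (σ : F →+* F) = gram f := by
  refine gram_ext (σ := (σ : F →+* F)) fun u v => ?_
  rw [← hf.gram_comp, hfix _ ⟨x, hx, rfl⟩, hf.eq_gram]

theorem form_unique (σ : F ≃+* F) {f g : (ι → F) → (ι → F) → F} (hf : Sesq (σ : F →+* F) f)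
    (hg : Sesq (σ : F →+* F) g)
    (hnd : IsNondegenerateForm f) {P : Subgroup (GL ι F)} (hP : alg P = ⊤)
    (hfix : FixesForm (matrixSet P) f) (hgix : FixesForm (matrixSet P) g) :
    ∃ c : F, ∀ u v, g u v = c * f u v := by
  set G := gram f with hG
  have hdet : IsUnit G.det := by
    rw [isUnit_iff_ne_zero]
    intro h0
    obtain ⟨v, hv, hv0⟩ := Matrix.exists_mulVec_eq_zero_iff.2 h0
    have hv' : (σ.symm ∘ v) ≠ 0 := by
      intro h1
      apply hv
      ext i
      have := congrFun h1 i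
      simpa using this
    obtain ⟨⟨x, hx⟩, _⟩ := hnd _ hv'
    apply hx
    rw [hf.eq_gram]
    have : ((σ : F →+* F) ∘ (σ.symm ∘ v)) = v := by ext i; simp
    rw [this, hv0]; simp
  have hfixG : ∀ x ∈ P, (x : Matrix ι ι F)ᵀ * G * (x : Matrix ι ι F).map (σ : F →+* F) = G :=
    fun x hx => gram_fix σ hf hfix x hx
  set G' := gram g with hG'
  have hfixG' : ∀ x ∈ P, (x : Matrix ι ι F)ᵀ * G' * (x : Matrix ι ι F).map (σ : F →+* F) = G' :=
    fun x hx => gram_fix σ hg hgix x hx
  have hGG : G⁻¹ * G = 1 := Matrix.nonsing_inv_mul G hdet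
  have hGG' : G * G⁻¹ = 1 := Matrix.mul_nonsing_inv G hdet
  set M := G⁻¹ * G' with hM
  have hcomm : ∀ x ∈ P, (x : Matrix ι ι F).map (σ : F →+* F) * M = M * (x : Matrix ι ι F).map (σ : F →+* F) := by
    intro x hx
    have h1 := hfixG x hx
    have h2 := hfixG' x hx
    have h3 : (x : Matrix ι ι F).map (σ : F →+* F) * G⁻¹ * (x : Matrix ι ι F)ᵀ = G⁻¹ := by
      have h4 : G⁻¹ * (x : Matrix ι ι F)ᵀ * G * (x : Matrix ι ι F).map (σ : F →+* F) = 1 := by
        calc _ = G⁻¹ * ((x : Matrix ι ι F)ᵀ * G * (x : Matrix ι ι F).map (σ : F →+* F)) := by noncomm_ring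
          _ = 1 := by rw [h1, hGG]
      have h5 : (x : Matrix ι ι F).map (σ : F →+* F) * (G⁻¹ * (x : Matrix ι ι F)ᵀ * G) = 1 :=
        mul_eq_one_comm.1 h4
      calc _ = (x : Matrix ι ι F).map (σ : F →+* F) * (G⁻¹ * (x : Matrix ι ι F)ᵀ * G) * G⁻¹ := by
            have : (x : Matrix ι ι F).map (σ : F →+* F) * (G⁻¹ * (x : Matrix ι ι F)ᵀ * G) * G⁻¹ =
              (x : Matrix ι ι F).map (σ : F →+* F) * G⁻¹ * (x : Matrix ι ι F)ᵀ * (G * G⁻¹) := by noncomm_ring
            rw [this, hGG', mul_one]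
        _ = G⁻¹ := by rw [h5, one_mul]
    calc (x : Matrix ι ι F).map (σ : F →+* F) * M
        = (x : Matrix ι ι F).map (σ : F →+* F) * G⁻¹ * ((x : Matrix ι ι F)ᵀ * G' * (x : Matrix ι ι F).map (σ : F →+* F)) := by
          rw [h2, hM]; noncomm_ring
      _ = ((x : Matrix ι ι F).map (σ : F →+* F) * G⁻¹ * (x : Matrix ι ι F)ᵀ) * G' * (x : Matrix ι ι F).map (σ : F →+* F) := by
          noncomm_ring
      _ = M * (x : Matrix ι ι F).map (σ : F →+* F) := by rw [h3]
  obtain ⟨c, hc⟩ := scalar_of_commute_all (M.map (σ.symm : F →+* F)) (fun X => by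
    refine (commute_alg (N := P) ?_ X (by rw [hP]; trivial)).symm
    rintro _ ⟨x, hx, rfl⟩
    have h1 := congrArg (fun Y : Matrix ι ι F => Y.map (σ.symm : F →+* F)) (hcomm x hx)
    simp only [Matrix.map_mul, Matrix.map_map] at h1
    have h2 : (x : Matrix ι ι F).map ((σ.symm : F →+* F) ∘ (σ : F →+* F)) = (x : Matrix ι ι F) := by
      ext i j; simp
    rw [h2] at h1
    exact h1.symm)
  have hMc : M = (σ c) • (1 : Matrix ι ι F) := by
    have h1 := congrArg (fun Y : Matrix ι ι F => Y.map (σ : F →+* F)) hc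
    simp only [Matrix.map_map] at h1
    have h2 : M.map ((σ : F →+* F) ∘ (σ.symm : F →+* F)) = M := by
      ext i j; simp
    rw [h2] at h1
    rw [h1]
    ext i j
    by_cases hij : i = j
    · subst hij; simp
    · simp [hij]
  have hG'c : G' = (σ c) • G := by
    calc G' = G * (G⁻¹ * G') := by rw [← mul_assoc, hGG', one_mul]
      _ = _ := by rw [← hM, hMc]; simp
  refine ⟨σ c, fun u v => ?_⟩
  rw [hg.eq_gram, ← hG', hG'c, hf.eq_gram u v, ← hG, Matrix.smul_mulVec, dotProduct_smul, smul_eq_mul]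

theorem exists_unitary (σ : F ≃+* F) (hσ2 : ∀ a, σ (σ a) = a) (hσ : σ ≠ RingEquiv.refl F)
    {f : (ι → F) → (ι → F) → F} (hf : Sesq (σ : F →+* F) f)
    (hnd : IsNondegenerateForm f) {P : Subgroup (GL ι F)} (hP : alg P = ⊤)
    (hfix : FixesForm (matrixSet P) f) [Nonempty ι] :
    ∃ g : (ι → F) → (ι → F) → F, IsUnitaryForm σ g ∧ FixesForm (matrixSet P) g := by
  let f' : (ι → F) → (ι → F) → F := fun u v => σ (f v u)
  have hf' : Sesq (σ : F →+* F) f' := by
    constructor
    · intro x y v; simp only [f', hf.add_right, map_add]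
    · intro c x v; simp only [f', hf.smul_right, map_mul, RingEquiv.coe_toRingHom, hσ2]
    · intro v x y; simp only [f', hf.add_left, map_add]
    · intro c v x; simp only [f', hf.smul_left, map_mul, RingEquiv.coe_toRingHom]
  have hfix' : FixesForm (matrixSet P) f' := by
    intro s hs u v
    simp only [f', hfix s hs]
  obtain ⟨c, hc⟩ := form_unique σ hf hf' hnd hP hfix hfix'
  -- c σ c = 1
  obtain ⟨w, hw⟩ := exists_ne (0 : ι → F)
  obtain ⟨⟨x, hx⟩, _⟩ := hnd w hw
  have hcc : c * σ c = 1 := by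
    have h1 := hc x w
    have h2 := hc w x
    simp only [f'] at h1 h2
    -- σ (f w x) = c f x w ; σ (f x w) = c f w x
    have h3 : σ (σ (f x w)) = σ c * σ (f w x) := by rw [h2, map_mul]
    rw [hσ2, h1] at h3
    have h4 : (c * σ c - 1) * f x w = 0 := by linear_combination -h3
    rcases mul_eq_zero.1 h4 with h5 | h5
    · exact sub_eq_zero.1 h5
    · exact absurd h5 hx
  have hb : ∃ b : F, b + c * σ b ≠ 0 := by
    by_contra hcon
    push Not at hcon
    have h1 := hcon 1
    rw [map_one, mul_one] at h1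
    apply hσ
    ext b
    have h2 := hcon b
    have h3 : c = -1 := by linear_combination h1
    rw [h3] at h2
    change σ b = b
    linear_combination -h2
  obtain ⟨b, hb⟩ := hb
  set a := b + c * σ b with ha
  have ha2 : σ a * c = a := by
    rw [ha, map_add, map_mul, hσ2]
    linear_combination b * hcc
  refine ⟨fun u v => a * f u v, ?_, ?_⟩
  · refine ⟨hσ, hσ2, ?_, ?_, ?_, ?_⟩
    · intro x y v; simp only [hf.add_left, mul_add]
    · intro d x v; simp only [hf.smul_left]; ring
    · intro u v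
      have := hc u v
      simp only [f'] at this
      change a * f u v = σ (a * f v u)
      rw [map_mul, this, ← mul_assoc, ha2]
    · intro v hv
      obtain ⟨⟨x, hx⟩, ⟨y, hy⟩⟩ := hnd v hv
      exact ⟨⟨x, mul_ne_zero hb hx⟩, ⟨y, mul_ne_zero hb hy⟩⟩
  · intro s hs u v
    change a * f _ _ = a * f u v
    rw [hfix s hs]

theorem symm_or_skew [Nonempty ι] {f : (ι → F) → (ι → F) → F} (hf : Sesq ((RingEquiv.refl F : F ≃+* F) : F →+* F) f)
    (hnd : IsNondegenerateForm f) {P : Subgroup (GL ι F)} (hP : alg P = ⊤)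
    (hfix : FixesForm (matrixSet P) f) :
    IsBilinearForm f ∧ ((∀ u v, f u v = f v u) ∨ ∀ u v, f u v = - f v u) := by
  have hbil : IsBilinearForm f :=
    { add_left := hf.add_left
      smul_left := hf.smul_left
      add_right := hf.add_right
      smul_right := hf.smul_right }
  refine ⟨hbil, ?_⟩
  let f' : (ι → F) → (ι → F) → F := fun u v => f v u
  have hf' : Sesq ((RingEquiv.refl F : F ≃+* F) : F →+* F) f' := by
    constructor
    · intro x y v; exact hf.add_right v x y
    · intro c x v; exact hf.smul_right c v x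
    · intro v x y; exact hf.add_left x y v
    · intro c v x; exact hf.smul_left c x v
  obtain ⟨c, hc⟩ := form_unique _ hf hf' hnd hP hfix (fun s hs u v => hfix s hs v u)
  obtain ⟨w, hw⟩ := exists_ne (0 : ι → F)
  obtain ⟨⟨x, hx⟩, _⟩ := hnd w hw
  have hcc : c * c = 1 := by
    have h1 : f w x = c * f x w := hc x w
    have h2 : f x w = c * f w x := hc w x
    have h4 : (c * c - 1) * f x w = 0 := by
      rw [h1] at h2
      linear_combination -h2
    rcases mul_eq_zero.1 h4 with h5 | h5
    · exact sub_eq_zero.1 h5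
    · exact absurd h5 hx
  rcases mul_self_eq_one_iff.1 hcc with h | h
  · left
    intro u v
    have := hc v u
    simp only [f'] at this
    rw [this, h, one_mul]
  · right
    intro u v
    have := hc v u
    simp only [f'] at this
    rw [this, h]; ring

end CfsgLib.Asch16
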