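import Mathlib
import Cfsg.Agent.LibAsch16

/-! realisation over a subfield of an absolutely irreducible group of class two -/
set_option autoImplicit false

namespace CfsgLib.Asch17

open Module Cfsg Cfsg.Geo CfsgLib.Asch2 CfsgLib.Asch9 CfsgLib.Asch11 CfsgLib.Asch13 CfsgLib.Asch14 CfsgLib.Asch16
open scoped Matrix MatrixGroups

section ext
variable {F E : Type*} [Field F] [Ring E] [Algebra F E] (F₁ : Subfield F)

/-- scalar extension of a representation of a matrix algebra -/
theorem exists_ext {k : ℕ} (φ : Matrix (Fin k) (Fin k) F₁ →ₐ[F₁] E) :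
    ∃ Φ : Matrix (Fin k) (Fin k) F →ₐ[F] E, ∀ M : Matrix (Fin k) (Fin k) F₁, Φ (M.map F₁.subtype) = φ M := by
  classical
  let L : Matrix (Fin k) (Fin k) F →ₗ[F] E :=
    { toFun := fun M => ∑ i, ∑ j, M i j • φ (Matrix.single i j 1)
      map_add' := fun M N => by
        simp only [Matrix.add_apply, add_smul, Finset.sum_add_distrib]
      map_smul' := fun c M => by
        simp only [Matrix.smul_apply, smul_eq_mul, mul_smul, Finset.smul_sum, RingHom.id_apply] }
  have hL : ∀ M, L M = ∑ i, ∑ j, M i j • φ (Matrix.single i j 1) := fun M => rfl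
  have hmap : ∀ M : Matrix (Fin k) (Fin k) F₁, L (M.map F₁.subtype) = φ M := by
    intro M
    conv_rhs => rw [Matrix.matrix_eq_sum_single M]
    rw [hL, map_sum]
    refine Finset.sum_congr rfl fun i _ => ?_
    rw [map_sum]
    refine Finset.sum_congr rfl fun j _ => ?_
    have h1 : (Matrix.single i j (M i j) : Matrix (Fin k) (Fin k) F₁) =
        algebraMap F₁ (Matrix (Fin k) (Fin k) F₁) (M i j) * Matrix.single i j 1 := by
      rw [← Algebra.smul_def, Matrix.smul_single, smul_eq_mul, mul_one]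
    rw [h1, Matrix.map_apply, map_mul, AlgHom.commutes, IsScalarTower.algebraMap_apply F₁ F E, ← Algebra.smul_def]
    rfl
  have hone : L 1 = 1 := by
    have h1 : ((1 : Matrix (Fin k) (Fin k) F₁).map F₁.subtype) = 1 := by
      rw [Matrix.map_one] <;> simp
    rw [← h1, hmap, map_one]
  have hmulS : ∀ (i j k' l : Fin k), L (Matrix.single i j 1 * Matrix.single k' l 1) =
      L (Matrix.single i j 1) * L (Matrix.single k' l 1) := by
    intro i j k' l
    have h1 : ∀ i j : Fin k, (Matrix.single i j 1 : Matrix (Fin k) (Fin k) F) =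
        (Matrix.single i j 1 : Matrix (Fin k) (Fin k) F₁).map F₁.subtype := by
      intro i j
      rw [Matrix.map_single]; simp
    rw [h1, h1, ← Matrix.map_mul, hmap, hmap, hmap, map_mul]
  have hmul : ∀ M N, L (M * N) = L M * L N := by
    intro M N
    induction M using Matrix.induction_on' with
    | h_zero => simp
    | h_add p q hp hq => rw [add_mul, map_add, map_add, add_mul, hp, hq]
    | h_std_basis i j x =>
      induction N using Matrix.induction_on' with
      | h_zero => simp
      | h_add p q hp hq => rw [mul_add, map_add, map_add, mul_add, hp, hq]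
      | h_std_basis k' l y =>
        have h1 : ∀ (i j : Fin k) (x : F), (Matrix.single i j x : Matrix (Fin k) (Fin k) F) = x • Matrix.single i j 1 := by
          intro i j x
          rw [Matrix.smul_single, smul_eq_mul, mul_one]
        rw [h1 i j x, h1 k' l y, Matrix.smul_mul, Matrix.mul_smul, map_smul, map_smul, map_smul, map_smul,
          hmulS, smul_mul_smul_comm, smul_smul]
  exact ⟨AlgHom.ofLinearMap L hone hmul, hmap⟩

end ext

variable {ι : Type} [Fintype ι] [DecidableEq ι] {F : Type*} [Field F]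

theorem realisable [Finite F] [Nonempty ι] {N : Subgroup (GL ι F)} (hN : alg N = ⊤)
    (hc : ⁅N, N⁆ ≤ scalars ι F) (F₁ : Subfield F)
    (hF : ∀ x ∈ N, ∀ c : F, (x : Matrix ι ι F) = c • (1 : Matrix ι ι F) → c ∈ F₁)
    (hcard : (Nat.card N : F) ≠ 0) : RealisableOver F₁ (matrixSet N) := by
  classical
  have : Fintype F := Fintype.ofFinite F
  have : Fintype N := Fintype.ofFinite N
  let A : Subalgebra F₁ (Matrix ι ι F) := Algebra.adjoin F₁ (matrixSet N)
  have hAN : ∀ x ∈ N, (x : Matrix ι ι F) ∈ A := fun x hx => Algebra.subset_adjoin ⟨x, hx, rfl⟩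
  have hspan : Subalgebra.toSubmodule A = Submodule.span F₁ (matrixSet N) := by
    rw [Algebra.adjoin_eq_span]
    congr 1
    have : Submonoid.closure (matrixSet N) = N.toSubmonoid.map (Units.coeHom (Matrix ι ι F)) := by
      apply le_antisymm
      · rw [Submonoid.closure_le]
        rintro _ ⟨x, hx, rfl⟩
        exact ⟨x, hx, rfl⟩
      · rintro _ ⟨x, hx, rfl⟩
        exact Submonoid.subset_closure ⟨x, hx, rfl⟩
    rw [this]
    rfl
  have hn0 := card_ne_zero hN hc
  have htr : ∀ a ∈ A, Matrix.trace a ∈ F₁ := by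
    intro a ha
    have ha' : a ∈ Submodule.span F₁ (matrixSet N) := by rw [← hspan]; exact ha
    induction ha' using Submodule.span_induction with
    | mem x hx =>
      obtain ⟨y, hy, rfl⟩ := hx
      by_cases hz : y ∈ scalars ι F
      · rw [mem_scalars_iff] at hz
        obtain ⟨c, hc'⟩ := hz
        have h1 := hF y hy c hc'
        change Matrix.trace (y : Matrix ι ι F) ∈ F₁
        rw [hc', Matrix.trace_smul, Matrix.trace_one, smul_eq_mul]
        exact F₁.mul_mem h1 (natCast_mem F₁ _)
      · change Matrix.trace (y : Matrix ι ι F) ∈ F₁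
        rw [trace_zero hN hc hy hz]; exact F₁.zero_mem
    | zero => simp
    | add x y hx' hy' hx hy =>
      rw [Matrix.trace_add]
      exact F₁.add_mem (hx (by change x ∈ Subalgebra.toSubmodule A; rw [hspan]; exact hx'))
        (hy (by change y ∈ Subalgebra.toSubmodule A; rw [hspan]; exact hy'))
    | smul c x hx' hx =>
      rw [Matrix.trace_smul]
      exact F₁.mul_mem c.2 (hx (by change x ∈ Subalgebra.toSubmodule A; rw [hspan]; exact hx'))
  have hscal : ∀ c : F, c • (1 : Matrix ι ι F) ∈ A → c ∈ F₁ := by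
    intro c h
    have h1 := htr _ h
    rw [Matrix.trace_smul, Matrix.trace_one, smul_eq_mul] at h1
    have h2 : c = c * (Fintype.card ι : F) * (Fintype.card ι : F)⁻¹ := by
      rw [mul_assoc, mul_inv_cancel₀ hn0, mul_one]
    rw [h2]
    exact F₁.mul_mem h1 (F₁.inv_mem (natCast_mem F₁ _))
  have hfinF : Module.Finite F₁ F := Module.Finite.of_finite
  have hfinM : Module.Finite F₁ (Matrix ι ι F) := Module.Finite.of_finite
  have hfinA : Module.Finite F₁ A := Module.Finite.of_finite
  have hcentral : ∀ a : Matrix ι ι F, (∀ x ∈ N, (x : Matrix ι ι F) * a = a * (x : Matrix ι ι F)) →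
      ∃ c : F, a = c • (1 : Matrix ι ι F) := by
    intro a ha
    refine scalar_of_commute_all a (fun X => ?_)
    refine (commute_alg (N := N) ?_ X (by rw [hN]; trivial)).symm
    rintro _ ⟨y, hy, rfl⟩
    exact (ha y hy).symm
  have hsimple : IsSimpleRing A := by
    refine ⟨{ exists_pair_ne := ⟨⊥, ⊤, ?_⟩, eq_bot_or_eq_top := ?_ }⟩
    · intro h
      have h1 : (1 : A) ∈ (⊥ : TwoSidedIdeal A) := by rw [h]; trivial
      rw [TwoSidedIdeal.mem_bot] at h1
      exact one_ne_zero h1
    · intro I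
      by_cases hI : I = ⊥
      · exact Or.inl hI
      right
      have hex : ∃ a ∈ I, a ≠ 0 := by
        by_contra hcon
        push Not at hcon
        apply hI
        ext a
        rw [TwoSidedIdeal.mem_bot]
        exact ⟨hcon a, fun h => h ▸ I.zero_mem⟩
      obtain ⟨a, haI, ha0⟩ := hex
      have hx : ∃ x ∈ N, Matrix.trace ((a : Matrix ι ι F) * (x : Matrix ι ι F)) ≠ 0 := by
        by_contra hcon
        push Not at hcon
        apply ha0
        ext1
        exact eq_zero_of_trace hN _ hcon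
      obtain ⟨x, hx, htx⟩ := hx
      let b : A := a * ⟨x, hAN x hx⟩
      have hbI : b ∈ I := I.mul_mem_right _ _ haI
      let s : A := ∑ y : N, (⟨(y : GL ι F), hAN y y.2⟩ : A) * b * (⟨((y : GL ι F)⁻¹ : GL ι F), hAN _ (N.inv_mem y.2)⟩ : A)
      have hsI : s ∈ I := by
        refine sum_mem fun y _ => ?_
        exact I.mul_mem_right _ _ (I.mul_mem_left _ _ hbI)
      have hsv : (s : Matrix ι ι F) = ∑ y : N, ((y : GL ι F) : Matrix ι ι F) * (b : Matrix ι ι F) * (((y : GL ι F)⁻¹ : GL ι F) : Matrix ι ι F) := by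
        simp only [s, AddSubmonoidClass.coe_finsetSum, MulMemClass.coe_mul]
      obtain ⟨c, hc'⟩ := hcentral (s : Matrix ι ι F) (by
        intro z hz
        rw [hsv, Finset.mul_sum, Finset.sum_mul]
        refine Fintype.sum_equiv (Equiv.mulLeft (⟨z, hz⟩ : N)) _ _ fun y => ?_
        simp only [Equiv.coe_mulLeft, Subgroup.coe_mul, mul_inv_rev, Units.val_mul]
        have h1 : ((z⁻¹ : GL ι F) : Matrix ι ι F) * (z : Matrix ι ι F) = 1 := by
          rw [← Units.val_mul]; simp
        calc _ = (z : Matrix ι ι F) * ((y : GL ι F) : Matrix ι ι F) * (b : Matrix ι ι F) * (((y : GL ι F)⁻¹ : GL ι F) : Matrix ι ι F) * 1 := by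
              rw [mul_one]; simp only [mul_assoc]
          _ = _ := by rw [← h1]; simp only [mul_assoc])
      have hc0 : c ≠ 0 := by
        intro h0
        have h1 := congrArg Matrix.trace hc'
        rw [hsv, Matrix.trace_sum, h0, zero_smul, Matrix.trace_zero] at h1
        have h2 : ∀ y : N, Matrix.trace (((y : GL ι F) : Matrix ι ι F) * (b : Matrix ι ι F) * (((y : GL ι F)⁻¹ : GL ι F) : Matrix ι ι F)) =
            Matrix.trace (b : Matrix ι ι F) := by
          intro y
          rw [Matrix.trace_mul_comm, ← mul_assoc, ← Units.val_mul, inv_mul_cancel, Units.val_one, one_mul]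
        rw [Finset.sum_congr rfl fun y _ => h2 y, Finset.sum_const, nsmul_eq_mul, Finset.card_univ,
          ← Nat.card_eq_fintype_card] at h1
        rcases mul_eq_zero.1 h1 with h3 | h3
        · exact hcard h3
        · exact htx h3
      have hcF : c ∈ F₁ := hscal c (by rw [← hc']; exact s.2)
      have h1 : (1 : A) ∈ I := by
        have h2 : (1 : A) = (algebraMap F₁ A ⟨c, hcF⟩⁻¹) * s := by
          ext1
          rw [MulMemClass.coe_mul, hc']
          have h3 : ((algebraMap F₁ A ⟨c, hcF⟩⁻¹ : A) : Matrix ι ι F) = c⁻¹ • (1 : Matrix ι ι F) := by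
            rw [Algebra.algebraMap_eq_smul_one]
            ext i j
            simp [Subfield.smul_def, Matrix.smul_apply]
          rw [h3, Matrix.smul_mul, one_mul, smul_smul, inv_mul_cancel₀ hc0, one_smul]
          rfl
        rw [h2]
        exact I.mul_mem_left _ _ hsI
      rw [eq_top_iff]
      intro z _
      have := I.mul_mem_left z 1 h1
      rwa [mul_one] at this
  obtain ⟨k, hk, ⟨e⟩⟩ := matrix_of_central (F := F₁) (R := A) (by
    intro z hz
    obtain ⟨c, hc'⟩ := hcentral (z : Matrix ι ι F) (fun x hx => by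
      have := hz ⟨x, hAN x hx⟩
      exact congrArg Subtype.val this)
    have hcF : c ∈ F₁ := hscal c (by rw [← hc']; exact z.2)
    refine ⟨⟨c, hcF⟩, ?_⟩
    ext1
    rw [hc', Algebra.algebraMap_eq_smul_one]
    ext i j
    simp [Subfield.smul_def, Matrix.smul_apply])
  obtain ⟨Φ, hΦ⟩ := exists_ext (F := F) (E := Matrix ι ι F) F₁ (A.val.comp (e.symm : Matrix (Fin k) (Fin k) F₁ →ₐ[F₁] A))
  have hsurj : Function.Surjective Φ := by
    have h1 : alg N ≤ Φ.range := by
      rw [alg, Algebra.adjoin_le_iff]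
      rintro _ ⟨x, hx, rfl⟩
      refine ⟨(e ⟨x, hAN x hx⟩).map F₁.subtype, ?_⟩
      change Φ _ = _
      rw [hΦ]
      simp
    intro M
    have h2 : M ∈ Φ.range := h1 (by rw [hN]; trivial)
    exact h2
  have hinj : Function.Injective Φ := RingHom.injective (Φ : Matrix (Fin k) (Fin k) F →+* Matrix ι ι F)
  let Ψ := AlgEquiv.ofBijective Φ ⟨hinj, hsurj⟩
  have hkι : k = Fintype.card ι := by
    have h1 := Ψ.toLinearEquiv.finrank_eq
    rw [Module.finrank_matrix, Module.finrank_matrix, Module.finrank_self, mul_one, mul_one, Fintype.card_fin] at h1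
    exact Nat.mul_self_inj.1 h1
  let ε : Fin k ≃ ι := (Fintype.equivFinOfCardEq hkι.symm).symm
  obtain ⟨P, hP⟩ := matrix_aut_inner' ((Matrix.reindexAlgEquiv F F ε).symm.trans Ψ)
  refine ⟨P⁻¹, ?_⟩
  rintro _ ⟨x, hx, rfl⟩ i j
  have h1 := hP (Matrix.reindexAlgEquiv F F ε ((e ⟨x, hAN x hx⟩).map F₁.subtype))
  have h2 : ((Matrix.reindexAlgEquiv F F ε).symm.trans Ψ) (Matrix.reindexAlgEquiv F F ε ((e ⟨x, hAN x hx⟩).map F₁.subtype)) =
      (x : Matrix ι ι F) := by
    rw [AlgEquiv.trans_apply, AlgEquiv.symm_apply_apply]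
    change Φ _ = _
    rw [hΦ]
    simp
  rw [h2] at h1
  have h3 : ((P⁻¹ : GL ι F) : Matrix ι ι F) * (x : Matrix ι ι F) * ((P⁻¹⁻¹ : GL ι F) : Matrix ι ι F) =
      Matrix.reindexAlgEquiv F F ε ((e ⟨x, hAN x hx⟩).map F₁.subtype) := by
    generalize Matrix.reindexAlgEquiv F F ε ((e ⟨x, hAN x hx⟩).map F₁.subtype) = X at h1 ⊢
    rw [h1, inv_inv]
    have h4 : ((P⁻¹ : GL ι F) : Matrix ι ι F) * (P : Matrix ι ι F) = 1 := by
      rw [← Units.val_mul]; simp
    calc _ = (((P⁻¹ : GL ι F) : Matrix ι ι F) * (P : Matrix ι ι F)) * X *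
          (((P⁻¹ : GL ι F) : Matrix ι ι F) * (P : Matrix ι ι F)) := by noncomm_ring
      _ = _ := by rw [h4, one_mul, mul_one]
  change (((P⁻¹ : GL ι F) : Matrix ι ι F) * (x : Matrix ι ι F) * ((P⁻¹⁻¹ : GL ι F) : Matrix ι ι F)) i j ∈ F₁
  rw [h3]
  exact (e ⟨x, hAN x hx⟩ (ε.symm i) (ε.symm j)).2

end CfsgLib.Asch17
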