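import Mathlib
import Cfsg.Agent.LibAsch17

/-! class-two minimal normal subgroups: numerical data; fields -/
set_option autoImplicit false

namespace CfsgLib.Asch18

open Module Cfsg Cfsg.Geo CfsgLib.Asch9 CfsgLib.Asch10 CfsgLib.Asch11 CfsgLib.Asch13 CfsgLib.Asch14 CfsgLib.Asch15
  CfsgLib.Asch16 CfsgLib.Asch17
open scoped Matrix MatrixGroups

section field
variable {F : Type*} [Field F] [Fintype F]

theorem exists_pow_ne {p e d : ℕ} (hp : p.Prime) (hcard : Fintype.card F = p ^ e) (hd : 0 < d) (hde : d < e) :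
    ∃ x : F, x ^ (p ^ d) ≠ x := by
  classical
  by_contra hcon
  push Not at hcon
  obtain ⟨g, hg⟩ := IsCyclic.exists_generator (α := Fˣ)
  have h1 : orderOf g = p ^ e - 1 := by
    rw [orderOf_eq_card_of_forall_mem_zpowers hg, Nat.card_eq_fintype_card, Fintype.card_units, hcard]
  have hpd : 1 < p ^ d := Nat.one_lt_pow hd.ne' hp.one_lt
  have h2 : g ^ (p ^ d - 1) = 1 := by
    have h3 := hcon (g : F)
    have h4 : g ^ (p ^ d) = g := Units.ext (by rw [Units.val_pow_eq_pow_val]; exact h3)
    have h5 : g ^ (p ^ d - 1) * g = 1 * g := by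
      rw [← pow_succ, Nat.sub_add_cancel hpd.le, h4, one_mul]
    exact mul_right_cancel h5
  have h3 := orderOf_dvd_of_pow_eq_one h2
  rw [h1] at h3
  have h4 := Nat.le_of_dvd (by omega) h3
  have h5 : p ^ d < p ^ e := Nat.pow_lt_pow_right hp.one_lt hde
  omega

/-- fixed field of `x ↦ x ^ (p ^ d)` -/
theorem exists_subfield {p e d z : ℕ} (hp : p.Prime) [CharP F p] (hcard : Fintype.card F = p ^ e) (hd : 0 < d)
    (hde : d < e) (hz : z ∣ p ^ d - 1) :
    ∃ F₀ : Subfield F, F₀ ≠ ⊤ ∧ ∀ c : F, c ^ z = 1 → c ∈ F₀ := by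
  have : Fact p.Prime := ⟨hp⟩
  refine ⟨RingHom.eqLocusField (iterateFrobenius F p d) (RingHom.id F), ?_, ?_⟩
  · intro h
    obtain ⟨x, hx⟩ := exists_pow_ne hp hcard hd hde
    apply hx
    have h1 : x ∈ RingHom.eqLocusField (iterateFrobenius F p d) (RingHom.id F) := by rw [h]; trivial
    exact h1
  · intro c hc
    change iterateFrobenius F p d c = c
    rw [iterateFrobenius_def]
    obtain ⟨k, hk⟩ := hz
    have hpd : 1 < p ^ d := Nat.one_lt_pow hd.ne' hp.one_lt
    have h1 : c ^ (p ^ d - 1) = 1 := by rw [hk, pow_mul, hc, one_pow]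
    calc c ^ p ^ d = c ^ (p ^ d - 1 + 1) := by rw [Nat.sub_add_cancel hpd.le]
      _ = c := by rw [pow_succ, h1, one_mul]

/-- the involutory automorphism -/
theorem exists_sigma {p d : ℕ} (hp : p.Prime) [CharP F p] (hcard : Fintype.card F = p ^ (2 * d)) (hd : 0 < d) :
    ∃ σ : F ≃+* F, σ ≠ RingEquiv.refl F ∧ (∀ a, σ (σ a) = a) ∧ ∀ a, σ a = a ^ p ^ d := by
  have : Fact p.Prime := ⟨hp⟩
  refine ⟨iterateFrobeniusEquiv F p d, ?_, ?_, fun a => iterateFrobeniusEquiv_def F p d a⟩
  · intro h
    obtain ⟨x, hx⟩ := exists_pow_ne hp hcard hd (by omega)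
    apply hx
    have h1 := congrArg (fun s : F ≃+* F => s x) h
    simp only [iterateFrobeniusEquiv_def] at h1
    exact h1
  · intro a
    rw [iterateFrobeniusEquiv_def, iterateFrobeniusEquiv_def, ← pow_mul, ← pow_add, ← two_mul, ← hcard,
      FiniteField.pow_card]

theorem odd_card (h2 : (2 : F) ≠ 0) : Odd (Fintype.card F) := by
  rw [Nat.odd_iff]
  apply FiniteField.odd_card_of_char_ne_two
  intro h
  apply h2
  have : CharP F 2 := by rw [← h]; exact ringChar.charP F
  exact CharTwo.two_eq_zero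

end field

variable {ι : Type} [Fintype ι] [DecidableEq ι] {F : Type*} [Field F]

theorem cyclic_scalars [Finite F] : IsCyclic (scalars ι F) := by
  have h1 : Function.Surjective (Units.map (Matrix.scalar ι : F →+* Matrix ι ι F).toMonoidHom).rangeRestrict :=
    MonoidHom.rangeRestrict_surjective _
  exact isCyclic_of_surjective _ h1

/-- numerical data of the class-two minimal normal subgroup -/
structure RD [Fintype F] (r k z : ℕ) (N : Subgroup (GL ι F)) : Prop where
  prime : r.Prime
  st : IsSymplecticTypeGroup r N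
  center : Nat.card (Subgroup.center N) = z
  hz : (Odd r ∧ z = r) ∨ (r = 2 ∧ (z = 2 ∨ z = 4))
  card : Nat.card N = r ^ (2 * k) * z
  deg : Fintype.card ι = r ^ k
  zdvd : z ∣ Fintype.card F - 1
  zne : (z : F) ≠ 0
  rne : (r : F) ≠ 0
  scal : ∀ x ∈ N, ∀ c : F, (x : Matrix ι ι F) = c • (1 : Matrix ι ι F) → c ^ z = 1

theorem exists_rd [Fintype F] [Nonempty ι] {H N : Subgroup (GL ι F)} (hmin : Minimal (Nz (scalars ι F) H) N)
    (hN : alg N = ⊤) (hc : ⁅N, N⁆ ≤ scalars ι F) : ∃ r k z, RD r k z N := by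
  classical
  have hcyc : IsCyclic (scalars ι F) := cyclic_scalars
  have hab : ∃ x ∈ N, ∃ y ∈ N, x * y ≠ y * x := by
    by_contra hcon
    push Not at hcon
    exact hmin.1.2.2 fun x hx => scalar_of_comm hN fun y hy => hcon x hx y hy
  obtain ⟨r, hr, hr1, hr2⟩ := exponent (scalars_le_center (ι := ι) (F := F)) hcyc hmin hc hab
  set m := r * Nat.gcd 2 r with hm
  have hmr : ∃ j, m = r ^ j ∧ 0 < j := by
    rcases hr.eq_two_or_odd' with h2 | h2
    · subst h2
      exact ⟨2, by rw [hm]; norm_num, by norm_num⟩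
    · have : Nat.gcd 2 r = 1 := (Nat.coprime_two_left).2 h2
      exact ⟨1, by rw [hm, this]; simp, by norm_num⟩
  obtain ⟨j, hj, hj0⟩ := hmr
  have hpg : IsPGroup r N := by
    intro g
    refine ⟨j, ?_⟩
    ext1
    rw [← hj]
    exact hr2 g g.2
  have hcenter := center_eq hN
  -- center
  have hzc : IsCyclic (Subgroup.center N) :=
    char_cyclic hcyc hmin hab _ inferInstance inferInstance
  have hzp : IsPGroup r (Subgroup.center N) := hpg.to_subgroup _
  have : Fact r.Prime := ⟨hr⟩
  obtain ⟨i, hi⟩ := (IsPGroup.iff_card).1 hzp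
  have hexpd : Monoid.exponent (Subgroup.center N) ∣ m := by
    apply Monoid.exponent_dvd_of_forall_pow_eq_one
    intro g
    ext1; ext1
    exact hr2 (g : N) (g : N).2
  rw [hzc.exponent_eq_card] at hexpd
  -- the commutator is nontrivial
  have hz1 : Nat.card (Subgroup.center N) ≠ 1 := by
    intro h1
    obtain ⟨x, hx, y, hy, hne⟩ := hab
    have h2 := hc (Subgroup.commutator_mem_commutator hx hy)
    rw [Nat.card_eq_one_iff_unique] at h1
    obtain ⟨h3, _⟩ := h1
    have h4 : (⟨x * y * x⁻¹ * y⁻¹, N.mul_mem (N.mul_mem (N.mul_mem hx hy) (N.inv_mem hx)) (N.inv_mem hy)⟩ : N) ∈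
        Subgroup.center N := by
      rw [hcenter, Subgroup.mem_subgroupOf]
      exact h2
    have h5 := h3.elim ⟨_, h4⟩ 1
    have h6 : x * y * x⁻¹ * y⁻¹ = 1 := congrArg (fun t : Subgroup.center N => ((t : N) : GL ι F)) h5
    apply hne
    calc x * y = (x * y * x⁻¹ * y⁻¹) * (y * x) := by group
      _ = y * x := by rw [h6, one_mul]
  have hzdvd : Nat.card (Subgroup.center N) ∣ Fintype.card F - 1 := by
    let f : Subgroup.center N →* scalars ι F :=
      { toFun := fun x => ⟨((x : N) : GL ι F), by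
          have h1 : ∀ y : N, y ∈ Subgroup.center N → (y : GL ι F) ∈ scalars ι F := by
            intro y hy
            rw [hcenter, Subgroup.mem_subgroupOf] at hy
            exact hy
          exact h1 x x.2⟩
        map_one' := rfl
        map_mul' := fun _ _ => rfl }
    have hf : Function.Injective f := by
      intro a b hab
      ext1; ext1
      exact congrArg (fun t : scalars ι F => (t : GL ι F)) hab
    have h1 := Subgroup.card_dvd_of_injective f hf
    have h2 : Nat.card (scalars ι F) ∣ Nat.card Fˣ := Subgroup.card_range_dvd _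
    rw [Nat.card_eq_fintype_card (α := Fˣ), Fintype.card_units] at h2
    exact h1.trans h2
  have hzne : (Nat.card (Subgroup.center N) : F) ≠ 0 := by
    obtain ⟨k, hk⟩ := hzdvd
    intro h0
    have h1 : ((Fintype.card F - 1 : ℕ) : F) = 0 := by
      rw [hk, Nat.cast_mul, h0, zero_mul]
    rw [Nat.cast_sub Fintype.card_pos, FiniteField.cast_card_eq_zero, Nat.cast_one, zero_sub] at h1
    exact one_ne_zero (neg_eq_zero.1 h1)
  have hi0 : i ≠ 0 := by
    rintro rfl
    rw [pow_zero] at hi
    exact hz1 hi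
  have hrne : (r : F) ≠ 0 := by
    intro h0
    apply hzne
    rw [hi, Nat.cast_pow, h0, zero_pow hi0]
  have hscal : ∀ x ∈ N, ∀ c : F, (x : Matrix ι ι F) = c • (1 : Matrix ι ι F) →
      c ^ Nat.card (Subgroup.center N) = 1 := by
    intro x hx c hxc
    have h1 : (⟨x, hx⟩ : N) ∈ Subgroup.center N := by
      rw [hcenter, Subgroup.mem_subgroupOf]
      exact mem_scalars_of_eq hxc
    have h2 : (⟨⟨x, hx⟩, h1⟩ : Subgroup.center N) ^ Nat.card (Subgroup.center N) = 1 := pow_card_eq_one'
    have h3 : x ^ Nat.card (Subgroup.center N) = 1 :=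
      congrArg (fun t : Subgroup.center N => ((t : N) : GL ι F)) h2
    have h4 := congrArg (fun t : GL ι F => (t : Matrix ι ι F)) h3
    simp only [Units.val_pow_eq_pow_val, hxc, Units.val_one, smul_pow, one_pow] at h4
    obtain ⟨a⟩ := (inferInstance : Nonempty ι)
    have h5 := congrFun (congrFun h4 a) a
    simpa using h5
  have hcardN := card_eq hN hc
  obtain ⟨l, hl⟩ := (IsPGroup.iff_card).1 hpg
  have hdvd : Fintype.card ι ∣ r ^ l := by
    rw [← hl, hcardN, sq, mul_assoc]
    exact dvd_mul_right _ _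
  obtain ⟨k, _, hk⟩ := (Nat.dvd_prime_pow hr).1 hdvd
  refine ⟨r, k, Nat.card (Subgroup.center N), hr, ⟨hr, hpg, ?_, ?_⟩, rfl, ?_, ?_, hk, hzdvd, hzne, hrne, hscal⟩
  · intro A hA hAc
    exact char_cyclic hcyc hmin hab A hA hAc
  · -- exponent
    change Monoid.exponent N = m
    have h1 : Monoid.exponent N ∣ m := by
      apply Monoid.exponent_dvd_of_forall_pow_eq_one
      intro g
      ext1
      exact hr2 g g.2
    rcases hr.eq_two_or_odd' with h2 | h2
    · have hm4 : m = 2 ^ 2 := by rw [hm, h2]; rfl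
      rw [hm4] at h1 ⊢
      obtain ⟨a, ha, ha2⟩ := (Nat.dvd_prime_pow Nat.prime_two).1 h1
      rcases (by omega : a = 2 ∨ a ≤ 1) with h3 | h3
      · rw [ha2, h3]
      · exfalso
        have h4 : ∀ g ∈ N, g * g = 1 := by
          intro g hg
          have h5 : Monoid.exponent N ∣ 2 := by
            rw [ha2]
            exact (pow_dvd_pow 2 h3).trans (by norm_num)
          have h6 : (⟨g, hg⟩ : N) ^ 2 = 1 := Monoid.exponent_dvd_iff_forall_pow_eq_one.1 h5 (⟨g, hg⟩ : N)
          have h7 := congrArg Subtype.val h6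
          rw [← sq]
          exact h7
        obtain ⟨x, hx, y, hy, hne⟩ := hab
        apply hne
        have h5 := h4 _ (N.mul_mem hx hy)
        have h6 := h4 x hx
        have h7 := h4 y hy
        have h8 : (x * y)⁻¹ = x * y := inv_eq_of_mul_eq_one_right h5
        have h9 : x⁻¹ = x := inv_eq_of_mul_eq_one_right h6
        have h10 : y⁻¹ = y := inv_eq_of_mul_eq_one_right h7
        calc x * y = (x * y)⁻¹ := h8.symm
          _ = y⁻¹ * x⁻¹ := mul_inv_rev _ _
          _ = y * x := by rw [h9, h10]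
    · have h3 : Nat.gcd 2 r = 1 := (Nat.coprime_two_left).2 h2
      rw [hm, h3, mul_one] at h1 ⊢
      rcases (Nat.dvd_prime hr).1 h1 with h4 | h4
      · exfalso
        obtain ⟨x, hx, y, hy, hne⟩ := hab
        have h6 := Monoid.exponent_dvd_iff_forall_pow_eq_one.1 (dvd_of_eq h4) (⟨x, hx⟩ : N)
        rw [pow_one] at h6
        have h7 : x = 1 := congrArg Subtype.val h6
        apply hne
        rw [h7]; simp
      · exact h4
  · rcases hr.eq_two_or_odd' with h2 | h2
    · right
      refine ⟨h2, ?_⟩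
      have hm4 : m = 2 ^ 2 := by rw [hm, h2]; rfl
      rw [hm4] at hexpd
      obtain ⟨a, ha, ha2⟩ := (Nat.dvd_prime_pow Nat.prime_two).1 hexpd
      rcases (by omega : a = 0 ∨ a = 1 ∨ a = 2) with h3 | h3 | h3
      · rw [h3] at ha2; exact absurd ha2 hz1
      · left; rw [ha2, h3]; norm_num
      · right; rw [ha2, h3]; norm_num
    · left
      refine ⟨h2, ?_⟩
      have h3 : Nat.gcd 2 r = 1 := (Nat.coprime_two_left).2 h2
      rw [hm, h3, mul_one] at hexpd
      rcases (Nat.dvd_prime hr).1 hexpd with h4 | h4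
      · exact absurd h4 hz1
      · exact h4
  · rw [hcardN, hk, ← pow_mul, mul_comm k 2]

end CfsgLib.Asch18
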