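import Mathlib
import Cfsg.Agent.LibAsch18

/-! Aschbacher's theorem, linear case -/
set_option autoImplicit false

namespace CfsgLib.Asch19

open Module Cfsg Cfsg.Geo CfsgLib.Asch6 CfsgLib.Asch7 CfsgLib.Asch8 CfsgLib.Asch9 CfsgLib.Asch10 CfsgLib.Asch11 CfsgLib.Asch12
  CfsgLib.Asch13 CfsgLib.Asch14 CfsgLib.Asch15
  CfsgLib.Asch16 CfsgLib.Asch17 CfsgLib.Asch18
open scoped Matrix MatrixGroups

variable {ι : Type} [Fintype ι] [DecidableEq ι] {F : Type*} [Field F]

/-- the geometric alternatives of the linear case, with some more data -/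
inductive Cls [Fintype F] (H : Subgroup (GL ι F)) : Prop
  | red (W : Submodule F (ι → F)) (h0 : W ≠ ⊥) (h1 : W ≠ ⊤) (h : H ≤ subspaceStabilizer W)
  | dec (t m : ℕ) (D : Fin t → Submodule F (ι → F)) (hD : IsMDecomposition m D) (h : H ≤ decompositionStabilizer D)
  | fld (r : ℕ) (K : Subalgebra F (Matrix ι ι F)) (hr : r.Prime) (hK : IsFieldSubalgebra r K)
      (h : H ≤ subalgebraNormalizer K)
  | tp (n₁ n₂ : ℕ) (e : ι ≃ Fin n₁ × Fin n₂) (P : GL ι F) (h1 : 2 ≤ n₁) (h2 : n₁ < n₂)
      (h : H ≤ tensorProductSubgroup n₁ n₂ e P)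
  | sub (F₀ : Subfield F) (r : ℕ) (P : GL ι F) (hr : r.Prime) (hc : Fintype.card F = Nat.card F₀ ^ r)
      (h : H ≤ subfieldSubgroup F₀ P)
  | st (r k : ℕ) (R : Subgroup (GL ι F)) (hR : IsLinearSymplecticTypeData r R) (hk : Fintype.card ι = r ^ k)
      (hal : alg R = ⊤) (hc : ⁅R, R⁆ ≤ scalars ι F) (h : H ≤ subgroupNormalizer R)
  | tw (m t : ℕ) (e : ι ≃ (Fin t → Fin m)) (P : GL ι F) (hm : 3 ≤ m) (ht : 2 ≤ t)
      (h : H ≤ tensorWreathSubgroup m t e P)
  | sym (f : (ι → F) → (ι → F) → F) (hf : IsSymplecticForm f) (h : H ≤ similarityGroup f)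
  | uni (σ : F ≃+* F) (f : (ι → F) → (ι → F) → F) (hf : IsUnitaryForm σ f) (h : H ≤ similarityGroup f)
  | orth (Q : (ι → F) → F) (hQ : IsNondegenerateQuadraticForm Q) (ho : Odd (Fintype.card F))
      (h : H ≤ quadSimilarityGroup Q)

theorem le_normalizer {H R : Subgroup (GL ι F)} (h : Nrd H R) : H ≤ subgroupNormalizer R := by
  intro g hg
  rw [subgroupNormalizer, Subgroup.mem_normalizer_iff]
  intro x
  constructor
  · exact fun hx => h g hg x hx
  · intro hx
    have := h g⁻¹ (H.inv_mem hg) _ hx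
    have h2 : g⁻¹ * (g * x * g⁻¹) * g⁻¹⁻¹ = x := by group
    rwa [h2] at this

/-- the class-two case -/
theorem class_two [Fintype F] [Nonempty ι] (hn : 3 ≤ Fintype.card ι) {H N : Subgroup (GL ι F)}
    (hmin : Minimal (Nz (scalars ι F) H) N)
    (hN : alg N = ⊤) (hc : ⁅N, N⁆ ≤ scalars ι F) : Cls H := by
  classical
  obtain ⟨r, k, z, hrd⟩ := exists_rd hmin hN hc
  have hr := hrd.prime
  have hnrd : Nrd H N := hmin.1.2.1
  obtain ⟨p, hchar, e', hp, hcard⟩ := FiniteField.card' F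
  set e : ℕ := (e' : ℕ) with he
  have he0 : 0 < e := e'.2
  have hrp : r ≠ p := by
    intro h
    apply hrd.rne
    rw [h]; exact CharP.cast_eq_zero F p
  -- a general step : unitary form
  have huni : ∀ d : ℕ, e = 2 * d → 0 < d → z ∣ p ^ d + 1 → Cls H := by
    intro d hd hd0 hzd
    obtain ⟨σ, hσ1, hσ2, hσ3⟩ := exists_sigma (F := F) (d := d) hp (by rw [hcard, hd]) hd0
    obtain ⟨f, hf, hnd, hfix⟩ := exists_form σ hN hc (by
      intro x hx c hxc
      have h1 := hrd.scal x hx c hxc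
      rw [hσ3]
      obtain ⟨l, hl⟩ := hzd
      rw [← pow_succ', hl, pow_mul, h1, one_pow]) (by rw [hrd.center]; exact hrd.zne)
    obtain ⟨g, hg, hgfix⟩ := exists_unitary σ hσ2 hσ1 hf hnd hN hfix
    exact Cls.uni σ g hg fun h hh => sim_of_fix σ (sesq_of_unitary hg) hg.nondegenerate hN hgfix h (hnrd h hh)
  by_cases hz2 : z = 2
  · -- bilinear form
    have hr2 : r = 2 := by
      rcases hrd.hz with ⟨ho, hz⟩ | ⟨h, _⟩
      · exfalso
        rw [← hz, hz2] at ho
        exact absurd ho (by decide)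
      · exact h
    have h2 : (2 : F) ≠ 0 := by
      have := hrd.rne
      rw [hr2] at this
      exact_mod_cast this
    obtain ⟨f, hf, hnd, hfix⟩ := exists_form (RingEquiv.refl F) hN hc (by
      intro x hx c hxc
      have h1 := hrd.scal x hx c hxc
      rw [hz2, sq] at h1
      exact h1) (by rw [hrd.center]; exact hrd.zne)
    obtain ⟨hbil, hs⟩ := symm_or_skew hf hnd hN hfix
    have hle : H ≤ similarityGroup f := fun h hh => sim_of_fix (RingEquiv.refl F) hf hnd hN hfix h (hnrd h hh)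
    rcases hs with hs | hs
    · obtain ⟨hq1, hq2⟩ := quad_of_symm h2 hbil hs hnd
      exact Cls.orth _ hq1 (odd_card h2) (hle.trans hq2)
    · refine Cls.sym f ⟨hbil, hs, ?_, hnd⟩ hle
      intro v
      have h1 := hs v v
      have h3 : (2 : F) * f v v = 0 := by linear_combination h1
      exact (mul_eq_zero.1 h3).resolve_left h2
  -- subfield case
  by_cases hsub : ∃ d, 0 < d ∧ d < e ∧ z ∣ p ^ d - 1
  · obtain ⟨d, hd0, hde, hzd⟩ := hsub
    obtain ⟨F₀, hF₀, hF₀'⟩ := exists_subfield (F := F) hp hcard hd0 hde hzd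
    obtain ⟨F₁, s, hF₁, hs, hcs⟩ := exists_max_subfield F₀ hF₀
    have hcN : (Nat.card N : F) ≠ 0 := by
      rw [hrd.card, Nat.cast_mul, Nat.cast_pow]
      exact mul_ne_zero (pow_ne_zero _ hrd.rne) hrd.zne
    have hreal := realisable hN hc F₁ (fun x hx c hxc => hF₁ (hF₀' c (hrd.scal x hx c hxc))) hcN
    obtain ⟨P₀, hP₀⟩ := le_subfield F₁ hN hreal H hnrd
    refine Cls.sub F₁ s P₀ hs ?_ hP₀
    rw [← Nat.card_eq_fintype_card]; exact hcs
  push Not at hsub
  have hzdvd : z ∣ p ^ e - 1 := by rw [← hcard]; exact hrd.zdvd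
  have hmf : IsMinimalFieldFor z p e F := ⟨hp, hchar, hcard, hzdvd, fun d hd0 hde => hsub d hd0 hde⟩
  have hcard' := hrd.card
  rcases hrd.hz with ⟨ho, hz⟩ | ⟨hr2, hz⟩
  · -- odd r
    rcases Nat.even_or_odd e with hev | hodd
    · obtain ⟨d, hd⟩ := hev
      have hd' : e = 2 * d := by omega
      have hd0 : 0 < d := by omega
      refine huni d hd' hd0 ?_
      have h1 : p ^ e - 1 = (p ^ d - 1) * (p ^ d + 1) := by
        have h2 : 1 ≤ p ^ d := Nat.one_le_pow _ _ hp.pos
        obtain ⟨a, ha⟩ := Nat.exists_eq_add_of_le h2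
        rw [hd', pow_mul', sq, ha]
        have : (1 + a) * (1 + a) - 1 = a * (a + 2) := by
          have : (1 + a) * (1 + a) = a * (a + 2) + 1 := by ring
          rw [this]; rfl
        rw [this]
        have h3 : 1 + a - 1 = a := by omega
        rw [h3]; ring
      rw [h1, hz] at hzdvd
      rcases (hr.dvd_mul).1 hzdvd with h3 | h3
      · exact absurd (by rw [hz]; exact h3) (hsub d hd0 (by omega))
      · rw [hz]; exact h3
    · have hk1 : 1 ≤ k := by
        rcases Nat.eq_zero_or_pos k with h | h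
        · exfalso
          have := hrd.deg
          rw [h, pow_zero] at this
          omega
        · exact h
      refine Cls.st r k N ⟨hrd.st, absIrred_of_alg hN, p, e, hrp, ?_, Or.inl ⟨ho, hodd, ?_, k, hk1, ?_⟩⟩ hrd.deg hN hc
        (le_normalizer hnrd)
      · rw [hrd.center]; exact hmf
      · rw [hrd.center, hz]
      · rw [hcard', hz, pow_add, pow_one, mul_comm]
  · have hz4 : z = 4 := hz.resolve_left hz2
    have hp2 : p ≠ 2 := by rw [← hr2]; exact hrp.symm
    have hpo : p % 2 = 1 := (hp.eq_two_or_odd).resolve_left hp2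
    by_cases he1 : e = 1
    · refine Cls.st r k N ⟨hrd.st, absIrred_of_alg hN, p, e, hrp, ?_, Or.inr (Or.inl ⟨hr2, he1, ?_, ?_, k, ?_⟩)⟩ hrd.deg hN hc
        (le_normalizer hnrd)
      · rw [hrd.center]; exact hmf
      · rw [hrd.center, hz4]
      · -- 4 ≤ card ι
        have h1 := hrd.deg
        rw [hr2] at h1
        rcases (by omega : k = 0 ∨ k = 1 ∨ 2 ≤ k) with h | h | h
        · rw [h] at h1; omega
        · rw [h] at h1; omega
        · rw [h1]; exact le_trans (by norm_num) (Nat.pow_le_pow_right (by norm_num) h)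
      · rw [hcard', hz4, hr2, pow_add, mul_comm]; norm_num
    · have h41 : ¬ 4 ∣ p - 1 := by
        have := hsub 1 (by norm_num) (by omega)
        rwa [pow_one, hz4] at this
      have hp4 : p % 4 = 3 := by
        have := hp.two_le
        omega
      have h42 : 4 ∣ p ^ 2 - 1 := by
        obtain ⟨a, ha⟩ : ∃ a, p = 4 * a + 3 := ⟨p / 4, by omega⟩
        refine ⟨(4 * a ^ 2 + 6 * a + 2), ?_⟩
        rw [ha]
        have : (4 * a + 3) ^ 2 = 4 * (4 * a ^ 2 + 6 * a + 2) + 1 := by ring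
        rw [this]; rfl
      have he2 : e = 2 := by
        by_contra hne
        exact (hsub 2 (by norm_num) (by omega)) (by rw [hz4]; exact h42)
      refine huni 1 (by omega) (by norm_num) ?_
      rw [pow_one, hz4]
      omega

/-- the perfect case: core or class -/
theorem core_class [Fintype F] [Nonempty ι] {H N : Subgroup (GL ι F)} (hcore : Core H N) :
    Cls H ∨ InLinearResidualClass H := by
  classical
  by_cases h1 : ∃ F₀ : Subfield F, F₀ ≠ ⊤ ∧ RealisableOver F₀ (matrixSet N)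
  · obtain ⟨F₀, hF₀, hreal⟩ := h1
    obtain ⟨F₁, s, hF₁, hs, hcs⟩ := exists_max_subfield F₀ hF₀
    obtain ⟨B, hB⟩ := hreal
    obtain ⟨P₀, hP₀⟩ := le_subfield F₁ hcore.alg ⟨B, fun s hs i j => hF₁ (hB s hs i j)⟩ H hcore.normal
    left
    refine Cls.sub F₁ s P₀ hs ?_ hP₀
    rw [← Nat.card_eq_fintype_card]; exact hcs
  by_cases h2 : ∃ Q : (ι → F) → F, IsNondegenerateQuadraticForm Q ∧ FixesQuadForm (matrixSet N) Q
  · obtain ⟨Q, hQ, hfix⟩ := h2
    left
    rcases quad_cases hQ hcore.alg hfix H hcore.normal with ⟨h3, h4⟩ | ⟨_, h3, h4⟩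
    · exact Cls.orth Q hQ (odd_card h3) h4
    · exact Cls.sym _ h3 h4
  by_cases h3 : ∃ f : (ι → F) → (ι → F) → F, IsSymplecticForm f ∧ FixesForm (matrixSet N) f
  · obtain ⟨f, hf, hfix⟩ := h3
    left
    exact Cls.sym f hf fun h hh =>
      sim_of_fix (RingEquiv.refl F) (sesq_of_bilin hf.bilinear) hf.nondegenerate hcore.alg hfix h (hcore.normal h hh)
  by_cases h4 : ∃ (σ : F ≃+* F) (f : (ι → F) → (ι → F) → F), IsUnitaryForm σ f ∧ FixesForm (matrixSet N) f
  · obtain ⟨σ, f, hf, hfix⟩ := h4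
    left
    exact Cls.uni σ f hf fun h hh =>
      sim_of_fix σ (sesq_of_unitary hf) hf.nondegenerate hcore.alg hfix h (hcore.normal h hh)
  right
  refine ⟨N, ⟨hcore.le, hcore.normal, hcore.perfect, hcore.simple, hcore.nonabelian, hcore.centralizer_scalar,
    absIrred_of_alg hcore.alg, ?_⟩, h2, h3, h4⟩
  intro F₀ hF₀ hreal
  exact h1 ⟨F₀, hF₀, hreal⟩

theorem not_scalar {H : Subgroup (GL ι F)} (hn : 2 ≤ Fintype.card ι) (hirr : ActsIrreducibly (matrixSet H)) :
    ¬ H ≤ scalars ι F := by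
  intro hle
  have : Nonempty ι := Fintype.card_pos_iff.1 (by omega)
  obtain ⟨i⟩ := this
  have h1 := hirr (Submodule.span F {(Pi.single i 1 : ι → F)}) (by
    rintro _ ⟨x, hx, rfl⟩
    obtain ⟨c, hc⟩ := (mem_scalars_iff x).1 (hle hx)
    rintro _ ⟨w, hw, rfl⟩
    change Matrix.toLin' (x : Matrix ι ι F) w ∈ _
    rw [hc, Matrix.toLin'_apply, Matrix.smul_mulVec, Matrix.one_mulVec]
    exact Submodule.smul_mem _ _ hw)
  rcases h1 with h1 | h1
  · rw [Submodule.span_singleton_eq_bot] at h1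
    have := congrFun h1 i
    simp at this
  · have h2 := finrank_span_singleton (K := F) (v := (Pi.single i 1 : ι → F)) (by
      intro h0
      have := congrFun h0 i
      simp at this)
    rw [h1, finrank_top, Module.finrank_fintype_fun_eq_card] at h2
    omega

theorem prim_or_class [Fintype F] [Nonempty ι] (H : Subgroup (GL ι F)) : Cls H ∨ Prim H := by
  classical
  by_cases h1 : Cls H
  · exact Or.inl h1
  right
  refine ⟨?_, ?_, ?_, ?_, ?_⟩
  · intro W hW
    by_contra hcon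
    push Not at hcon
    apply h1
    refine Cls.red W hcon.1 hcon.2 ?_
    intro h hh v
    have key : ∀ g ∈ H, ∀ v ∈ W, (g : Matrix ι ι F) *ᵥ v ∈ W := by
      intro g hg v hv
      have := hW (g : Matrix ι ι F) ⟨g, hg, rfl⟩ ⟨v, hv, rfl⟩
      rwa [Matrix.toLin'_apply] at this
    constructor
    · exact fun hv => key h hh v hv
    · intro hv
      have h3 := key h⁻¹ (H.inv_mem hh) _ hv
      have h4 : ((h⁻¹ : GL ι F) : Matrix ι ι F) *ᵥ ((h : Matrix ι ι F) *ᵥ v) = v := by
        rw [Matrix.mulVec_mulVec, ← Units.val_mul, inv_mul_cancel, Units.val_one, Matrix.one_mulVec]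
      have h5 : ((h⁻¹ : GL ι F) : Matrix ι ι F) *ᵥ ((h : Matrix ι ι F) *ᵥ v) ∈ W := h3
      rwa [h4] at h5
  · rintro ⟨t, m, D, hD, h⟩
    exact h1 (Cls.dec t m D hD h)
  · rintro ⟨r, K, hr, hK, h⟩
    exact h1 (Cls.fld r K hr hK h)
  · intro n₁ n₂ e P hn1 hn2 h
    exact h1 (Cls.tp n₁ n₂ e P hn1 hn2 h)
  · intro m t b hm ht hH
    have hcard : Fintype.card ι = m ^ t := by
      have := Module.finrank_eq_card_basis b
      rw [Module.finrank_fintype_fun_eq_card, Fintype.card_fun, Fintype.card_fin, Fintype.card_fin] at this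
      exact this
    rcases (by omega : m = 2 ∨ 3 ≤ m) with h2 | h2
    · subst h2
      rcases TW2_class (by omega) b H hH with ⟨f, hf, hle⟩ | ⟨Q, hQ, h2, hle⟩
      · exact h1 (Cls.sym f hf hle)
      · exact h1 (Cls.orth Q hQ (odd_card h2) hle)
    · have e : ι ≃ (Fin t → Fin m) := Fintype.equivOfCardEq (by
        rw [hcard, Fintype.card_fun, Fintype.card_fin, Fintype.card_fin])
      obtain ⟨P, hP⟩ := le_tensorWreath b H hH e
      exact h1 (Cls.tw m t e P h2 ht hP)

theorem aschbacher [Fintype F] (hn : 3 ≤ Fintype.card ι) (H : Subgroup (GL ι F)) :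
    Cls H ∨ InLinearResidualClass H := by
  classical
  have : Nonempty ι := Fintype.card_pos_iff.1 (by omega)
  rcases prim_or_class H with h | hprim
  · exact Or.inl h
  have hns := not_scalar (by omega) hprim.irr
  obtain ⟨N, hN⟩ := exists_min (scalars ι F) H hns
  have hNH : N ≤ H := hN.1.1
  have hnrd : Nrd H N := hN.1.2.1
  have hNz := hN.1.2.2
  have halg := alg_eq_top hprim hnrd hNz
  rcases min_le hN (K := ⁅N, N⁆) (by
    rw [Subgroup.commutator_le]
    intro a ha b hb
    rw [commutatorElement_def]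
    exact N.mul_mem (N.mul_mem (N.mul_mem ha hb) (N.inv_mem ha)) (N.inv_mem hb)) hnrd.commutator with h | h
  · exact Or.inl (class_two hn hN halg h)
  · obtain ⟨t, S, ht, hS⟩ := perfDec scalars_le_center hN h
    rcases (by omega : t = 1 ∨ 2 ≤ t) with h1 | h1
    · subst h1
      exact core_class (core_of_single hprim hNH hnrd hNz hS)
    · exact absurd (tensor_induced hprim hNH hnrd hNz h1 hS) id

end CfsgLib.Asch19
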