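import Cfsg.Agent.LibSubfield29b

/-! Overgroups of SL_n(F₀) in SL_n(F): the generic case leads to a Frobenius-type contradiction. -/

namespace CfsgLib.Subfield29

open scoped MatrixGroups Matrix
open Cfsg CfsgLib.MaxTv29

variable {ι : Type} [Fintype ι] [DecidableEq ι] {F : Type*} [Field F] (F₀ : Subfield F)

theorem trace_tv (a : ι → F) (φ : Module.Dual F (ι → F)) (h : φ a = 0) : Matrix.trace ((tv a φ h : GL ι F) : Matrix ι ι F) = Fintype.card ι := by
  rw [tv_coe, Matrix.trace_add, Matrix.trace_one, Matrix.trace_vecMulVec, dotProduct_comm, dv_dot, h, add_zero]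

theorem trace_mul_tv (g : GL ι F) (a : ι → F) (φ : Module.Dual F (ι → F)) (h : φ a = 0) :
    Matrix.trace ((g * tv a φ h : GL ι F) : Matrix ι ι F) = Matrix.trace (g : Matrix ι ι F) + φ ((g : Matrix ι ι F) *ᵥ a) := by
  rw [Units.val_mul, tv_coe, mul_add, mul_one, Matrix.trace_add, Matrix.mul_vecMulVec, Matrix.trace_vecMulVec, dotProduct_comm, dv_dot]

theorem tv_pow (a : ι → F) (φ : Module.Dual F (ι → F)) (h : φ a = 0) (k : ℕ) (h' : ((k : F) • φ) a = 0) :
    (tv a φ h) ^ k = tv a ((k : F) • φ) h' := by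
  induction k with
  | zero =>
    apply gl_ext
    intro x
    rw [tv_mulVec]; simp
  | succ k ih =>
    have h1 : ((k : F) • φ) a = 0 := by rw [LinearMap.smul_apply, h, smul_zero]
    rw [pow_succ, ih h1, ← tv_add a _ _ h1 h (by rw [LinearMap.add_apply, h1, h, add_zero])]
    apply tv_congr _ _ rfl
    rw [Nat.cast_succ, add_smul, one_smul]

/-- a linear map with one-dimensional displacement and determinant one is a transvection -/
theorem eq_tv_of_disp (g : GL ι F) (hg : g ∈ Geo.specialLinear ι F) (b : ι → F) (h : ∀ i, ∃ c : F, (g : Matrix ι ι F) *ᵥ (Pi.single i 1) = Pi.single i 1 + c • b) :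
    ∃ (χ : Module.Dual F (ι → F)) (h' : χ b = 0), g = tv b χ h' := by
  choose c hc using h
  let χ : Module.Dual F (ι → F) :=
    { toFun := fun x => ∑ i, c i * x i
      map_add' := fun x y => by
        rw [← Finset.sum_add_distrib]
        exact Finset.sum_congr rfl fun i _ => by rw [Pi.add_apply, mul_add]
      map_smul' := fun k x => by
        rw [RingHom.id_apply, smul_eq_mul, Finset.mul_sum]
        exact Finset.sum_congr rfl fun i _ => by rw [Pi.smul_apply, smul_eq_mul]; ring }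
  have hχ : ∀ x, χ x = ∑ i, c i * x i := fun x => rfl
  have hmat : (g : Matrix ι ι F) = 1 + Matrix.vecMulVec b (dv χ) := by
    apply Matrix.ext_of_mulVec_single
    intro i
    rw [hc, Matrix.add_mulVec, Matrix.one_mulVec, Matrix.vecMulVec_mulVec, dv_dot, hχ, Finset.sum_eq_single_of_mem i (Finset.mem_univ _)]
    · simp
    · intro j _ hj; simp [hj]
  have h1 : Matrix.GeneralLinearGroup.det g = 1 := hg
  have h2 : (g : Matrix ι ι F).det = 1 := by rw [← Matrix.GeneralLinearGroup.val_det_apply, h1, Units.val_one]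
  have h3 := Matrix.det_one_add_replicateCol_mul_replicateRow (ι := Unit) b (dv χ)
  rw [dv_dot, ← Matrix.vecMulVec_eq Unit, ← hmat, h2] at h3
  have h4 : χ b = 0 := by
    have : (1 : F) + 0 = 1 + χ b := by rw [add_zero]; exact h3
    exact (add_left_cancel this).symm
  exact ⟨χ, h4, Units.ext hmat⟩

/-- the group of elements of `M` with displacement in `W` -/
def dispGroup (M : Subgroup (GL ι F)) (W : Submodule F (ι → F)) : Subgroup (GL ι F) where
  carrier := {k | k ∈ M ∧ ∀ x, (k : Matrix ι ι F) *ᵥ x - x ∈ W}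
  mul_mem' := by
    rintro a b ⟨ha, ha'⟩ ⟨hb, hb'⟩
    refine ⟨M.mul_mem ha hb, fun x => ?_⟩
    rw [Units.val_mul, ← Matrix.mulVec_mulVec]
    have := W.add_mem (ha' ((b : Matrix ι ι F) *ᵥ x)) (hb' x)
    rwa [sub_add_sub_cancel] at this
  one_mem' := ⟨M.one_mem, fun x => by rw [Units.val_one, Matrix.one_mulVec, sub_self]; exact W.zero_mem⟩
  inv_mem' := by
    rintro a ⟨ha, ha'⟩
    refine ⟨M.inv_mem ha, fun x => ?_⟩
    have := W.neg_mem (ha' (((a⁻¹ : GL ι F) : Matrix ι ι F) *ᵥ x))
    rwa [mulVec_inv_mulVec, neg_sub] at this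

section generic
variable {M : Subgroup (GL ι F)} (hM : ∀ a θ, θ a = 0 → RT F₀ M a θ 1) (hn : 4 ≤ Fintype.card ι)
  (hC : ∀ c, (∀ a θ, θ a = 0 → RT F₀ M a θ c) → c ∈ F₀)
include hM hn hC

/-- the stabiliser of a rational point in the displacement group of `⟨b, u⟩`, `u` generic, consists of transvections. -/
theorem stab_point [Finite F] (hMS : M ≤ Geo.specialLinear ι F) (hr : (Module.finrank F₀ F).Prime) {b : ι → F₀} (hb : b ≠ 0) {u : ι → F}
    (hgen : ∀ χ : Module.Dual F₀ (ι → F₀), χ ≠ 0 → ext F₀ χ u ≠ 0)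
    {k : GL ι F} (hk : k ∈ dispGroup M (Submodule.span F {emb F₀ b, u})) {c : F} (hkb : (k : Matrix ι ι F) *ᵥ emb F₀ b = c • emb F₀ b) :
    ∃ (χ : Module.Dual F (ι → F)) (h' : χ (emb F₀ b) = 0), k = tv (emb F₀ b) χ h' := by
  classical
  set W := Submodule.span F {emb F₀ b, u} with hW
  have hWr : Module.finrank F W ≤ 2 := by
    have := finrank_span_finset_le_card (R := F) ({emb F₀ b, u} : Finset (ι → F))
    rw [Finset.coe_pair] at this
    exact this.trans Finset.card_le_two
  have hc0 : c ≠ 0 := by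
    rintro rfl
    rw [zero_smul] at hkb
    exact emb_ne_zero F₀ hb (mulVec_injective k (hkb.trans (Matrix.mulVec_zero _).symm))
  have hkM : k ∈ M := hk.1
  have hkd := hk.2
  obtain ⟨ν, hν0, hν⟩ := lemB F₀ hM hn hC hkM hb hc0 hkb
  -- dimension bound : card ι ≤ r
  have hdim : Fintype.card ι ≤ Module.finrank F₀ F := by
    let L : Module.Dual F₀ (ι → F₀) →ₗ[F₀] F :=
      { toFun := fun χ => ext F₀ χ u
        map_add' := fun χ η => by rw [ext_add, LinearMap.add_apply]
        map_smul' := fun k χ => by rw [ext_smul, LinearMap.smul_apply]; rfl }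
    have hL : Function.Injective L := by
      rw [← LinearMap.ker_eq_bot, eq_bot_iff]
      intro χ hχ
      rw [Submodule.mem_bot]
      by_contra h0
      exact hgen χ h0 hχ
    have := LinearMap.finrank_le_finrank_of_injective hL
    rw [Subspace.dual_finrank_eq, Module.finrank_fintype_fun_eq_card] at this
    exact this
  -- ν is rational
  have hνF : ν ∈ F₀ := by
    by_contra hνF
    obtain ⟨i1, i2, i3, h12, h13, h23⟩ := Fintype.two_lt_card_iff.mp (show 2 < Fintype.card ι by omega)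
    let e : Fin 3 → ι := ![i1, i2, i3]
    have he : Function.Injective e := by
      intro a b hab
      fin_cases a <;> fin_cases b <;> simp [e, h12, h13, h23, h12.symm, h13.symm, h23.symm] at hab ⊢
    let E : (Fin 3 → F) →ₗ[F] (ι → F) :=
      { toFun := fun α => ∑ j, α j • Pi.single (e j) 1
        map_add' := fun α β => by
          rw [← Finset.sum_add_distrib]
          exact Finset.sum_congr rfl fun j _ => by rw [Pi.add_apply, add_smul]
        map_smul' := fun k α => by
          rw [RingHom.id_apply, Finset.smul_sum]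
          exact Finset.sum_congr rfl fun j _ => by rw [Pi.smul_apply, smul_eq_mul, mul_smul] }
    let L : (Fin 3 → F) →ₗ[F] W :=
      ((le k).toLinearMap - LinearMap.id).codRestrict W (fun x => hkd x) ∘ₗ E
    have hker := LinearMap.ker_ne_bot_of_finrank_lt (f := L) (by rw [Module.finrank_fin_fun]; omega)
    obtain ⟨α, hα, hα0⟩ := Submodule.exists_mem_ne_zero_of_ne_bot hker
    have hy1 : (k : Matrix ι ι F) *ᵥ (E α) = E α := by
      have : L α = 0 := hα
      have h2 := congrArg Subtype.val this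
      exact sub_eq_zero.mp h2
    have hEval : ∀ j, (E α) (e j) = α j := by
      intro j
      change (∑ l, α l • (Pi.single (e l) 1 : ι → F)) (e j) = α j
      rw [Finset.sum_apply, Finset.sum_eq_single_of_mem j (Finset.mem_univ _)]
      · simp
      · intro l _ hl
        have : e j ≠ e l := fun h => hl (he h).symm
        simp [this]
    have hEval' : ∀ i, (∀ j, i ≠ e j) → (E α) i = 0 := by
      intro i hi
      change (∑ l, α l • (Pi.single (e l) 1 : ι → F)) i = 0
      rw [Finset.sum_apply]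
      apply Finset.sum_eq_zero
      intro l _
      simp [hi l]
    -- the F₀-span of the coordinates
    let Y : Submodule F₀ F := Submodule.span F₀ (Set.range α)
    have hYi : ∀ i, (E α) i ∈ Y := by
      intro i
      by_cases hi : ∀ j, i ≠ e j
      · rw [hEval' i hi]; exact Y.zero_mem
      · push Not at hi
        obtain ⟨j, rfl⟩ := hi
        rw [hEval]; exact Submodule.subset_span ⟨j, rfl⟩
    have hYν : ∀ d ∈ Y, ν * d ∈ Y := by
      intro d hd
      induction hd using Submodule.span_induction with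
      | mem d hd =>
        obtain ⟨j, rfl⟩ := hd
        rw [← hEval j]
        have h1 : ν * (E α) (e j) = (ν • ((k : Matrix ι ι F) *ᵥ (E α))) (e j) := by rw [hy1]; rfl
        rw [h1]
        have h2 : (ν • ((k : Matrix ι ι F) *ᵥ (E α))) (e j) = ∑ i, (ν * (k : Matrix ι ι F) (e j) i) * (E α) i := by
          rw [Pi.smul_apply, smul_eq_mul, Matrix.mulVec, dotProduct, Finset.mul_sum]
          exact Finset.sum_congr rfl fun i _ => by ring
        rw [h2]
        apply Submodule.sum_mem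
        intro i _
        obtain ⟨y, hy⟩ := hν (Pi.single i 1)
        have h3 : ν * (k : Matrix ι ι F) (e j) i = (y (e j) : F) := by
          have := congrFun hy (e j)
          rw [emb_single, Pi.smul_apply, smul_eq_mul, Matrix.mulVec_single] at this
          simp only [MulOpposite.op_one, one_smul] at this
          exact this
        rw [h3]
        exact Y.smul_mem (y (e j)) (hYi i)
      | zero => rw [mul_zero]; exact Y.zero_mem
      | add x y _ _ hx hy => rw [mul_add]; exact Y.add_mem hx hy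
      | smul c x _ hx =>
        have : ν * (c • x) = c • (ν * x) := by rw [mul_smul_comm]
        rw [this]; exact Y.smul_mem c hx
    have hadj : Algebra.adjoin F₀ {ν} = ⊤ := by
      haveI := Subalgebra.isSimpleOrder_of_finrank_prime F₀ F hr
      rcases eq_bot_or_eq_top (Algebra.adjoin F₀ {ν}) with h | h
      · exfalso
        apply hνF
        have h1 : ν ∈ Algebra.adjoin F₀ {ν} := Algebra.self_mem_adjoin_singleton _ _
        rw [h, Algebra.mem_bot] at h1
        obtain ⟨x, hx⟩ := h1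
        rw [← hx]; exact x.2
      · exact h
    have hYall : ∀ c : F, ∀ d ∈ Y, c * d ∈ Y := by
      intro c
      have hc : c ∈ Algebra.adjoin F₀ {ν} := by rw [hadj]; exact Algebra.mem_top
      induction hc using Algebra.adjoin_induction with
      | mem x hx => rw [Set.mem_singleton_iff.mp hx]; exact hYν
      | algebraMap r => intro d hd; exact Y.smul_mem r hd
      | add x y _ _ hx hy => intro d hd; rw [add_mul]; exact Y.add_mem (hx d hd) (hy d hd)
      | mul x y _ _ hx hy => intro d hd; rw [mul_assoc]; exact hx _ (hy d hd)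
    obtain ⟨j, hj⟩ := Function.ne_iff.mp hα0
    have hYtop : Y = ⊤ := by
      rw [eq_top_iff]
      intro x _
      have := hYall (x / α j) (α j) (Submodule.subset_span ⟨j, rfl⟩)
      rwa [div_mul_cancel₀ _ hj] at this
    have h3 : Module.finrank F₀ Y ≤ 3 := by
      have := finrank_range_le_card (R := F₀) α
      simpa [Set.finrank] using this
    rw [hYtop, finrank_top] at h3
    omega
  -- now k is rational
  obtain ⟨νi, hνi⟩ : ∃ νi : F₀, (νi : F) = ν⁻¹ := ⟨⟨ν⁻¹, F₀.inv_mem hνF⟩, rfl⟩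
  have hkrat : ∀ x : ι → F₀, ∃ y : ι → F₀, (k : Matrix ι ι F) *ᵥ emb F₀ x - emb F₀ x = emb F₀ y := by
    intro x
    obtain ⟨y, hy⟩ := hν x
    refine ⟨νi • y - x, ?_⟩
    have h1 : (k : Matrix ι ι F) *ᵥ emb F₀ x = ν⁻¹ • emb F₀ y := by rw [← hy, smul_smul, inv_mul_cancel₀ hν0, one_smul]
    have h2 : emb F₀ (νi • y - x) = emb F₀ (νi • y) - emb F₀ x := rfl
    rw [h1, h2, emb_smul, hνi]
  apply eq_tv_of_disp k (hMS hkM)
  intro i
  obtain ⟨y, hy⟩ := hkrat (Pi.single i 1)
  have hyW : emb F₀ y ∈ W := by rw [← hy]; exact hkd _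
  have hyb : ∃ c : F, emb F₀ y = c • emb F₀ b := by
    by_contra hcon
    obtain ⟨χ, hχ0, hχb, hχy⟩ := exists_dual_ne_zero F₀ (by omega) b y
    apply hgen χ hχ0
    -- u in span {b, y}
    obtain ⟨α, β, hαβ⟩ := Submodule.mem_span_pair.mp hyW
    have hβ : β ≠ 0 := by
      rintro rfl
      rw [zero_smul, add_zero] at hαβ
      exact hcon ⟨α, hαβ.symm⟩
    have h1 := congrArg (ext F₀ χ) hαβ
    rw [map_add, map_smul, map_smul, ext_emb, ext_emb, hχb, hχy] at h1
    simp only [ZeroMemClass.coe_zero, smul_eq_mul, mul_zero, zero_add] at h1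
    exact (mul_eq_zero.mp h1).resolve_left hβ
  obtain ⟨d, hd⟩ := hyb
  refine ⟨d, ?_⟩
  rw [← hd, ← hy, emb_single]; abel

/-- Main theorem in the generic case: every element of `M` preserves the rational structure up to scalars. -/
theorem all_rat [Finite F] (hMS : M ≤ Geo.specialLinear ι F) (hr : (Module.finrank F₀ F).Prime) {g : GL ι F} (hg : g ∈ M) : Rat F₀ g := by
  classical
  by_contra hcon
  obtain ⟨a, ha0, hNR⟩ : ∃ a : ι → F₀, a ≠ 0 ∧ NR F₀ ((g : Matrix ι ι F) *ᵥ emb F₀ a) := by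
    by_contra h
    push Not at h
    exact hcon (lemR F₀ g h)
  set u := (g : Matrix ι ι F) *ᵥ emb F₀ a with hu
  obtain ⟨φ, hφ0, hφa, _⟩ := exists_dual_ne_zero F₀ (by omega) a a
  obtain ⟨ψ, hψu, hψ0, hψM, hψ⟩ := exists_moved F₀ hM hn hC hg a φ hφ0 hφa
  have hgen : ∀ χ : Module.Dual F₀ (ι → F₀), χ ≠ 0 → ext F₀ χ u ≠ 0 := fun χ hχ => lemA' F₀ hM hn hC hNR hψ0 hψM hχ
  -- the rational point b
  obtain ⟨b, hb⟩ : ∃ b : ι → F₀, b ≠ 0 := ⟨a, ha0⟩
  have hψb : ψ (emb F₀ b) ≠ 0 := lemA F₀ hM hn hC hNR hψ0 hψM hb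
  set W := Submodule.span F {emb F₀ b, u} with hW
  set K := dispGroup M W with hK
  haveI : Finite (Matrix ι ι F) := inferInstanceAs (Finite (ι → ι → F))
  haveI : Finite (GL ι F) := inferInstance
  haveI : Finite K := inferInstance
  have hbW : emb F₀ b ∈ W := Submodule.subset_span (by simp)
  have huW : u ∈ W := Submodule.subset_span (by simp)
  have hstab : ∀ k : K, (∃ c : F, ((k : GL ι F) : Matrix ι ι F) *ᵥ emb F₀ b = c • emb F₀ b) →
      ∃ (χ : Module.Dual F (ι → F)) (h' : χ (emb F₀ b) = 0), (k : GL ι F) = tv (emb F₀ b) χ h' := by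
    rintro k ⟨c, hc⟩
    exact stab_point F₀ hM hn hC hMS hr hb hgen k.2 hc
  -- the group U of transvections with centre b
  let U : Subgroup K :=
    { carrier := {k | ∃ (χ : Module.Dual F (ι → F)) (h' : χ (emb F₀ b) = 0), (k : GL ι F) = tv (emb F₀ b) χ h'}
      mul_mem' := by
        rintro k l ⟨χ, h, hk⟩ ⟨χ', h', hl⟩
        refine ⟨χ + χ', by rw [LinearMap.add_apply, h, h', add_zero], ?_⟩
        rw [Subgroup.coe_mul, hk, hl, tv_add _ _ _ h h']
      one_mem' := by
        refine ⟨0, rfl, ?_⟩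
        apply gl_ext
        intro x
        rw [tv_mulVec]; simp
      inv_mem' := by
        rintro k ⟨χ, h, hk⟩
        refine ⟨-χ, by rw [LinearMap.neg_apply, h, neg_zero], ?_⟩
        rw [Subgroup.coe_inv, hk, inv_eq_iff_mul_eq_one, ← tv_add _ _ _ h (by rw [LinearMap.neg_apply, h, neg_zero]) (by simp)]
        apply gl_ext
        intro x
        rw [tv_mulVec]; simp }
  have hUmem : ∀ k : K, k ∈ U ↔ ∃ (χ : Module.Dual F (ι → F)) (h' : χ (emb F₀ b) = 0), (k : GL ι F) = tv (emb F₀ b) χ h' := fun k => Iff.rfl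
  have hUfix : ∀ k ∈ U, ((k : GL ι F) : Matrix ι ι F) *ᵥ emb F₀ b = emb F₀ b := by
    rintro k ⟨χ, h, hk⟩
    rw [hk, tv_mulVec, h, zero_smul, add_zero]
  -- characteristic
  obtain ⟨p, hp⟩ := CharP.exists F
  haveI hpp : Fact p.Prime := by
    haveI := hp
    exact ⟨CharP.char_is_prime F p⟩
  have hUp : IsPGroup p U := by
    rintro ⟨k, χ, h, hk⟩
    refine ⟨1, ?_⟩
    rw [pow_one]
    apply Subtype.ext; apply Subtype.ext
    change (k : GL ι F) ^ p = 1
    rw [hk, tv_pow _ _ _ _ (by rw [LinearMap.smul_apply, h, smul_zero])]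
    apply gl_ext
    intro x
    rw [tv_mulVec, CharP.cast_eq_zero]; simp
  -- elements of U from rational functionals
  have hUrat : ∀ χ : Module.Dual F₀ (ι → F₀), χ b = 0 → ∃ k : K, k ∈ U ∧ ∃ h', (k : GL ι F) = tv (emb F₀ b) (ext F₀ χ) h' := by
    intro χ hχ
    have h1 := (hM b χ hχ).2
    have h2 : ext F₀ χ (emb F₀ b) = 0 := by rw [ext_emb, hχ]; rfl
    have h3 : tv (emb F₀ b) ((1 : F) • ext F₀ χ) (hM b χ hχ).1 = tv (emb F₀ b) (ext F₀ χ) h2 := tv_congr _ _ rfl (one_smul _ _)
    rw [h3] at h1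
    have h4 : tv (emb F₀ b) (ext F₀ χ) h2 ∈ K := by
      refine ⟨h1, fun x => ?_⟩
      rw [tv_mulVec, add_sub_cancel_left]
      exact W.smul_mem _ hbW
    exact ⟨⟨_, h4⟩, ⟨_, h2, rfl⟩, h2, rfl⟩
  -- elements whose conjugation action keeps U fix the line
  have hconj : ∀ (k : K) (χ : Module.Dual F (ι → F)) (h : χ (emb F₀ b) = 0), χ ≠ 0 → ∀ (χ' : Module.Dual F (ι → F)) (h' : χ' (emb F₀ b) = 0),
      (k : GL ι F) * tv (emb F₀ b) χ h = tv (emb F₀ b) χ' h' * (k : GL ι F) → k ∈ U := by
    intro k χ h hχ χ' h' heq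
    obtain ⟨x, hx⟩ : ∃ x, χ x ≠ 0 := by
      by_contra h2
      push Not at h2
      exact hχ (LinearMap.ext h2)
    have h1 : ((k : GL ι F) : Matrix ι ι F) *ᵥ (x + χ x • emb F₀ b) = ((k : GL ι F) : Matrix ι ι F) *ᵥ x + χ' (((k : GL ι F) : Matrix ι ι F) *ᵥ x) • emb F₀ b := by
      have := congrArg (fun t : GL ι F => (t : Matrix ι ι F) *ᵥ x) heq
      simp only [Units.val_mul, ← Matrix.mulVec_mulVec, tv_mulVec] at this
      exact this
    rw [Matrix.mulVec_add, Matrix.mulVec_smul] at h1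
    have h2 := add_left_cancel h1
    apply hstab
    refine ⟨(χ x)⁻¹ * χ' (((k : GL ι F) : Matrix ι ι F) *ᵥ x), ?_⟩
    rw [mul_smul, ← h2, smul_smul, inv_mul_cancel₀ hx, one_smul]
  obtain ⟨χ1, hχ10, hχ1b, _⟩ := exists_dual_ne_zero F₀ (by omega) b b
  obtain ⟨s1, hs1U, hs1h, hs1⟩ := hUrat χ1 hχ1b
  obtain ⟨P, hUP⟩ := hUp.exists_le_sylow
  have hPU : (P : Subgroup K) ≤ U := by
    -- center
    have hs1P : s1 ∈ (P : Subgroup K) := hUP hs1U
    have hs1ne : s1 ≠ 1 := by
      intro h0
      rw [h0] at hs1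
      apply ext_ne_zero F₀ hχ10
      apply LinearMap.ext
      intro x
      have h1 := congrArg (fun t : GL ι F => (t : Matrix ι ι F) *ᵥ x) hs1
      simp only [tv_mulVec, OneMemClass.coe_one, Units.val_one, Matrix.one_mulVec] at h1
      have h2 : ext F₀ χ1 x • emb F₀ b = 0 := by
        have : x + 0 = x + ext F₀ χ1 x • emb F₀ b := by rw [add_zero]; exact h1
        exact (add_left_cancel this).symm
      exact (smul_eq_zero.mp h2).resolve_right (emb_ne_zero F₀ hb)
    haveI : Nontrivial P := ⟨⟨⟨s1, hs1P⟩, 1, fun h => hs1ne (congrArg Subtype.val h)⟩⟩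
    haveI := P.2.center_nontrivial
    obtain ⟨⟨z, hzc⟩, hz1⟩ := exists_ne (1 : Subgroup.center P)
    have hzne : (z : K) ≠ 1 := fun h => hz1 (Subtype.ext (Subtype.ext h))
    have hzcomm : ∀ y : P, (y : K) * (z : K) = (z : K) * (y : K) := fun y => congrArg Subtype.val (Subgroup.mem_center_iff.mp hzc y)
    have hzU : (z : K) ∈ U := by
      apply hconj z (ext F₀ χ1) hs1h (ext_ne_zero F₀ hχ10) (ext F₀ χ1) hs1h
      rw [← hs1]
      exact (congrArg Subtype.val (hzcomm ⟨s1, hs1P⟩)).symm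
    obtain ⟨χz, hχzb, hz⟩ := hzU
    have hχz0 : χz ≠ 0 := by
      rintro rfl
      apply hzne
      apply Subtype.ext
      rw [hz]
      apply gl_ext
      intro x
      rw [tv_mulVec]; simp
    intro y hy
    apply hconj y χz hχzb hχz0 χz hχzb
    rw [← hz]
    exact congrArg Subtype.val (hzcomm ⟨y, hy⟩)
  have hPeq : (P : Subgroup K) = U := le_antisymm hPU hUP
  have hUcomm : ∀ k ∈ U, ∀ l ∈ U, k * l = l * k := by
    rintro k ⟨χ, h, hk⟩ l ⟨χ', h', hl⟩
    apply Subtype.ext
    rw [Subgroup.coe_mul, Subgroup.coe_mul, hk, hl, ← tv_add _ _ _ h h' (by rw [LinearMap.add_apply, h, h', add_zero]),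
      ← tv_add _ _ _ h' h (by rw [LinearMap.add_apply, h, h', add_zero])]
    exact tv_congr _ _ rfl (add_comm _ _)
  have hPn : Subgroup.normalizer (P : Set K) ≤ Subgroup.centralizer (P : Set K) := by
    intro k hk
    have hkU : k ∈ U := by
      have h1 := (Subgroup.mem_normalizer_iff.mp hk s1).mp (hUP hs1U)
      have h2 : k * s1 * k⁻¹ ∈ U := hPU h1
      obtain ⟨χ', h', hk'⟩ := h2
      apply hconj k (ext F₀ χ1) hs1h (ext_ne_zero F₀ hχ10) χ' h'
      rw [← hs1, ← hk']
      simp [mul_assoc]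
    rw [Subgroup.mem_centralizer_iff]
    intro l hl
    exact hUcomm l (hPU hl) k hkU
  haveI : (P : Subgroup K).FiniteIndex := inferInstance
  set N := (MonoidHom.transferSylow P hPn).ker with hN
  have hcompl := MonoidHom.ker_transferSylow_isComplement' P hPn
  rw [← hN] at hcompl
  have hNP : ∀ x, x ∈ N → x ∈ U → x = 1 := by
    intro x h1 h2
    have := hcompl.disjoint.le_bot (show x ∈ N ⊓ P from ⟨h1, hUP h2⟩)
    exact this
  haveI hNn : N.Normal := inferInstance
  have hNtriv : ∀ x ∈ N, x = 1 := by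
    intro x hx
    apply hNP x hx
    -- trace argument
    have htr : ∀ χ : Module.Dual F₀ (ι → F₀), χ b = 0 → χ ≠ 0 →
        Matrix.trace ((x : GL ι F) : Matrix ι ι F) + ext F₀ χ (((x : GL ι F) : Matrix ι ι F) *ᵥ emb F₀ b) = Fintype.card ι := by
      intro χ hχb hχ0
      obtain ⟨s, hsU, hsh, hs⟩ := hUrat χ hχb
      -- the map y ↦ y s y⁻¹ s⁻¹
      let f : N → N := fun y => ⟨y * (s * (y : K)⁻¹ * s⁻¹), N.mul_mem y.2 (hNn.conj_mem _ (N.inv_mem y.2) s)⟩
      have hf : Function.Injective f := by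
        intro y z hyz
        have h1 : (y : K) * (s * (y : K)⁻¹ * s⁻¹) = z * (s * (z : K)⁻¹ * s⁻¹) := congrArg Subtype.val hyz
        have h2 : ((z : K)⁻¹ * y) * s = s * ((z : K)⁻¹ * y) := by
          have h3 : (z : K)⁻¹ * (y * (s * (y : K)⁻¹ * s⁻¹)) * s * y = (z : K)⁻¹ * (z * (s * (z : K)⁻¹ * s⁻¹)) * s * y := by rw [h1]
          have e1 : (z : K)⁻¹ * (y * (s * (y : K)⁻¹ * s⁻¹)) * s * y = ((z : K)⁻¹ * y) * s := by group
          have e2 : (z : K)⁻¹ * (z * (s * (z : K)⁻¹ * s⁻¹)) * s * y = s * ((z : K)⁻¹ * y) := by group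
          rw [e1, e2] at h3
          exact h3
        have h3 : ((z : K)⁻¹ * y) ∈ U := by
          apply hconj _ (ext F₀ χ) hsh (ext_ne_zero F₀ hχ0) (ext F₀ χ) hsh
          rw [← hs]
          exact congrArg Subtype.val h2
        have h4 := hNP _ (N.mul_mem (N.inv_mem z.2) y.2) h3
        exact Subtype.ext (inv_mul_eq_one.mp h4).symm
      obtain ⟨y, hy⟩ := (Finite.injective_iff_surjective.mp hf) ⟨x, hx⟩
      have h1 : (y : K) * (s * (y : K)⁻¹ * s⁻¹) = x := congrArg Subtype.val hy
      have h2 : x * s = y * s * (y : K)⁻¹ := by rw [← h1]; group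
      have h3 : Matrix.trace (((x : GL ι F) * (s : GL ι F) : GL ι F) : Matrix ι ι F) = Matrix.trace ((s : GL ι F) : Matrix ι ι F) := by
        have h4 : (x : GL ι F) * (s : GL ι F) = ((y : K) : GL ι F) * (s : GL ι F) * ((y : K) : GL ι F)⁻¹ := congrArg Subtype.val h2
        rw [h4, Units.val_mul, Matrix.trace_mul_comm, ← Units.val_mul]
        congr 2
        group
      rw [hs, trace_mul_tv, trace_tv] at h3
      exact h3
    have hzero : ∀ χ : Module.Dual F₀ (ι → F₀), χ b = 0 → ext F₀ χ (((x : GL ι F) : Matrix ι ι F) *ᵥ emb F₀ b) = 0 := by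
      intro χ hχ
      by_cases hχ0 : χ = 0
      · subst hχ0; rw [ext_apply]; simp
      obtain ⟨η, hη, hηχ, _⟩ := exists_avoid2 (LinearMap.ker (Module.Dual.eval F₀ (ι → F₀) b)) (by
        have := finrank_ann F₀ b
        omega) χ χ
      have hηb : η b = 0 := hη
      have hη0 : η ≠ 0 := by
        rintro rfl
        exact hηχ (Submodule.zero_mem _)
      have hsum0 : χ + η ≠ 0 := by
        intro h
        apply hηχ
        have : η = -χ := eq_neg_of_add_eq_zero_right h
        rw [this]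
        exact Submodule.neg_mem _ (Submodule.mem_span_singleton_self _)
      have e1 := htr χ hχ hχ0
      have e2 := htr η hηb hη0
      have e3 := htr (χ + η) (by rw [LinearMap.add_apply, hχ, hηb, add_zero]) hsum0
      rw [ext_add, LinearMap.add_apply] at e3
      linear_combination e3 - e2
    obtain ⟨c, hc⟩ := prop_of_ann F₀ hb _ hzero
    exact hstab x ⟨c, hc⟩
  -- N trivial so U is everything
  have hPtop : (P : Subgroup K) = ⊤ := by
    have hNbot : N = ⊥ := by
      rw [eq_bot_iff]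
      intro x hx
      exact Subgroup.mem_bot.mpr (hNtriv x hx)
    rw [hNbot] at hcompl
    exact Subgroup.isComplement'_bot_left.mp hcompl
  have htK : tv u ψ hψu ∈ K := by
    refine ⟨hψM, fun x => ?_⟩
    rw [tv_mulVec, add_sub_cancel_left]
    exact W.smul_mem _ huW
  have h1 : (⟨_, htK⟩ : K) ∈ U := by
    rw [← hPeq, hPtop]; exact Subgroup.mem_top _
  have h2 := hUfix _ h1
  rw [tv_mulVec] at h2
  have h3 : ψ (emb F₀ b) • u = 0 := by
    have : emb F₀ b + ψ (emb F₀ b) • u = emb F₀ b + 0 := by rw [add_zero]; exact h2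
    exact add_left_cancel this
  rcases smul_eq_zero.mp h3 with h4 | h4
  · exact hψb h4
  · exact hNR.ne_zero F₀ h4

end generic

end CfsgLib.Subfield29
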