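import Mathlib
import Cfsg.Agent.LibAsch19
import Cfsg.Agent.LibSubfield29c

/-! the special linear group is not contained in a member of any of the geometric classes -/
set_option autoImplicit false

namespace CfsgLib.AschSL1

open Module Cfsg Cfsg.Geo CfsgLib.MaxTv29 CfsgLib.Subfield29
open scoped Matrix MatrixGroups Kronecker

variable {ι : Type} [Fintype ι] [DecidableEq ι] {F : Type*} [Field F]

theorem tv_mem (a : ι → F) (φ : Module.Dual F (ι → F)) (h : φ a = 0) {M : Subgroup (GL ι F)}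
    (hM : specialLinear ι F ≤ M) : tv a φ h ∈ M := hM (tv_mem_special a φ h)

/-- a functional killing a given vector but not another one -/
theorem exists_sep {u v : ι → F} (h : v ∉ Submodule.span F {u}) :
    ∃ φ : Module.Dual F (ι → F), φ u = 0 ∧ φ v = 1 := by
  obtain ⟨φ, h1, h2⟩ := exists_functional _ v h
  exact ⟨φ, h2 u (Submodule.mem_span_singleton_self u), h1⟩

/-- two conditions have a nonzero solution -/
theorem exists_ker2 (hn : 3 ≤ Fintype.card ι) (φ ψ : Module.Dual F (ι → F)) :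
    ∃ x : ι → F, x ≠ 0 ∧ φ x = 0 ∧ ψ x = 0 := by
  by_contra hcon
  push Not at hcon
  have hinj : Function.Injective (φ.prod ψ) := by
    rw [← LinearMap.ker_eq_bot, LinearMap.ker_eq_bot']
    intro x hx
    by_contra hx0
    have h1 : φ x = 0 := congrArg Prod.fst hx
    have h2 : ψ x = 0 := congrArg Prod.snd hx
    exact hcon x hx0 h1 h2
  have := LinearMap.finrank_le_finrank_of_injective hinj
  rw [Module.finrank_fintype_fun_eq_card, Module.finrank_prod, Module.finrank_self] at this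
  omega

/-- two vectors have a common nonzero functional -/
theorem exists_dual2 (hn : 3 ≤ Fintype.card ι) (x y : ι → F) :
    ∃ φ : Module.Dual F (ι → F), φ ≠ 0 ∧ φ x = 0 ∧ φ y = 0 := by
  have h1 : Submodule.span F {x, y} ≠ ⊤ := by
    intro h
    have h2 : finrank F (Submodule.span F {x, y}) ≤ 2 := by
      classical
      have := finrank_span_finset_le_card (R := F) ({x, y} : Finset (ι → F))
      rw [Finset.coe_pair] at this
      exact this.trans Finset.card_le_two
    rw [h, finrank_top, Module.finrank_fintype_fun_eq_card] at h2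
    omega
  obtain ⟨v, hv⟩ : ∃ v, v ∉ Submodule.span F {x, y} := by
    by_contra hcon
    push Not at hcon
    exact h1 (eq_top_iff.2 fun v _ => hcon v)
  obtain ⟨φ, h2, h3⟩ := exists_functional _ v hv
  refine ⟨φ, ?_, h3 x (Submodule.subset_span (by simp)), h3 y (Submodule.subset_span (by simp))⟩
  rintro rfl
  simp at h2

theorem exists_ne_zero (hn : 3 ≤ Fintype.card ι) : ∃ x : ι → F, x ≠ 0 := by
  have : Nonempty ι := Fintype.card_pos_iff.1 (by omega)
  obtain ⟨i⟩ := this
  exact ⟨Pi.single i 1, by simp⟩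

/-! ### subspaces -/

theorem not_le_red {W : Submodule F (ι → F)} (h0 : W ≠ ⊥) (h1 : W ≠ ⊤) :
    ¬ specialLinear ι F ≤ subspaceStabilizer W := by
  intro hle
  obtain ⟨w, hw, hw0⟩ := (Submodule.ne_bot_iff W).1 h0
  obtain ⟨v, hv⟩ : ∃ v, v ∉ W := by
    by_contra hcon
    push Not at hcon
    exact h1 (eq_top_iff.2 fun v _ => hcon v)
  have hsep : w ∉ Submodule.span F {v} := by
    intro h
    obtain ⟨c, hc⟩ := Submodule.mem_span_singleton.1 h
    have hc0 : c ≠ 0 := by
      rintro rfl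
      rw [zero_smul] at hc
      exact hw0 hc.symm
    apply hv
    rw [← hc] at hw
    exact (W.smul_mem_iff hc0).1 hw
  obtain ⟨φ, h2, h3⟩ := exists_sep hsep
  exact tv_notMem_stab W v φ h2 hv w hw (by rw [h3]; exact one_ne_zero) (tv_mem v φ h2 hle)

/-! ### decompositions -/

theorem not_le_dec {t m : ℕ} {D : Fin t → Submodule F (ι → F)} (hD : IsMDecomposition m D) :
    ¬ specialLinear ι F ≤ decompositionStabilizer D := by
  intro hle
  have ht := hD.two_le
  set i0 : Fin t := ⟨0, by omega⟩ with hi0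
  set i1 : Fin t := ⟨1, by omega⟩ with hi1
  have h01 : i0 ≠ i1 := by
    intro h
    have := congrArg Fin.val h
    simp [hi0, hi1] at this
  have hne : ∀ i, D i ≠ ⊥ := by
    intro i h
    have h2 := hD.finrank_eq i
    rw [h, finrank_bot] at h2
    have := hD.pos
    omega
  obtain ⟨v, hv, hv0⟩ := (Submodule.ne_bot_iff _).1 (hne i0)
  obtain ⟨u, hu, hu0⟩ := (Submodule.ne_bot_iff _).1 (hne i1)
  have hdis : ∀ i j, i ≠ j → ∀ x, x ∈ D i → x ∈ D j → x = 0 := by
    intro i j hij x hi hj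
    have := (hD.indep.pairwiseDisjoint hij)
    exact Submodule.disjoint_def.1 this x hi hj
  have hsep : v ∉ Submodule.span F {u} := by
    intro h
    have h2 : v ∈ D i1 := by
      have : Submodule.span F {u} ≤ D i1 := by
        rw [Submodule.span_le]; simpa using hu
      exact this h
    exact hv0 (hdis i0 i1 h01 v hv h2)
  obtain ⟨φ, h2, h3⟩ := exists_sep hsep
  obtain ⟨σ, hσ⟩ := tv_mem u φ h2 hle
  have h4 : v + u ∈ D (σ i0) := by
    rw [← hσ i0]
    refine ⟨v, hv, ?_⟩
    rw [Matrix.toLin'_apply, tv_mulVec, h3, one_smul]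
  by_cases hj0 : σ i0 = i0
  · rw [hj0] at h4
    have : u ∈ D i0 := by
      have := (D i0).sub_mem h4 hv
      rwa [add_sub_cancel_left] at this
    exact hu0 (hdis i0 i1 h01 u this hu)
  by_cases hj1 : σ i0 = i1
  · rw [hj1] at h4
    have : v ∈ D i1 := by
      have := (D i1).sub_mem h4 hu
      rwa [add_sub_cancel_right] at this
    exact hv0 (hdis i0 i1 h01 v hv this)
  · have h5 := hD.indep (σ i0)
    have h6 : v + u ∈ ⨆ j, ⨆ (_ : j ≠ σ i0), D j := by
      refine Submodule.add_mem _ ?_ ?_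
      · exact (le_iSup₂ (f := fun j (_ : j ≠ σ i0) => D j) i0 (Ne.symm hj0)) hv
      · exact (le_iSup₂ (f := fun j (_ : j ≠ σ i0) => D j) i1 (Ne.symm hj1)) hu
    have h7 := Submodule.disjoint_def.1 h5 _ h4 h6
    have : v ∈ D i1 := by
      have h8 : v = -u := eq_neg_of_add_eq_zero_left h7
      rw [h8]; exact (D i1).neg_mem hu
    exact hv0 (hdis i0 i1 h01 v hv this)

/-! ### extension fields -/

theorem scalar_of_tv (k : Matrix ι ι F)
    (h : ∀ (a : ι → F) (φ : Module.Dual F (ι → F)) (ha : φ a = 0), (tv a φ ha : GL ι F).1 * k = k * (tv a φ ha : GL ι F).1) :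
    ∃ c : F, k = c • (1 : Matrix ι ι F) := by
  have h2 : k ∈ Set.range (Matrix.scalar ι : F → Matrix ι ι F) := by
    apply Matrix.mem_range_scalar_of_commute_transvectionStruct
    intro t
    have h3 := h (Pi.single t.i 1) (t.c • LinearMap.proj t.j) (by simp [t.hij.symm])
    have h4 : ((tv (Pi.single t.i 1) (t.c • LinearMap.proj t.j) (by simp [t.hij.symm]) : GL ι F)).1 = t.toMatrix := by
      apply Matrix.ext_of_mulVec_single
      intro i
      have h5 := tv_mulVec (F := F) (Pi.single t.i 1) (t.c • LinearMap.proj t.j) (by simp [t.hij.symm]) (Pi.single i 1)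
      rw [h5, Matrix.TransvectionStruct.toMatrix, Matrix.transvection, Matrix.add_mulVec, Matrix.one_mulVec]
      congr 1
      ext j
      simp [Matrix.single, Pi.single_apply]
      by_cases hij : t.j = i <;> by_cases hj : j = t.i <;> simp [hij, hj, eq_comm]
    rw [h4] at h3
    exact h3
  obtain ⟨c, hc⟩ := h2
  exact ⟨c, by rw [← hc, Matrix.smul_one_eq_diagonal]; rfl⟩

theorem not_le_fld (hn : 3 ≤ Fintype.card ι) {r : ℕ} {K : Subalgebra F (Matrix ι ι F)} (hr : r.Prime)
    (hK : IsFieldSubalgebra r K) : ¬ specialLinear ι F ≤ subalgebraNormalizer K := by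
  intro hle
  have hsc : ∀ k ∈ K, ∃ c : F, k = c • (1 : Matrix ι ι F) := by
    intro k hk
    apply scalar_of_tv
    intro a φ ha
    have h1 : (tv a φ ha : GL ι F).1 * k * ((tv a φ ha : GL ι F)⁻¹ : GL ι F).1 ∈ K := (tv_mem a φ ha hle k).1 hk
    set τ : GL ι F := tv a φ ha with hτ
    have h2 := K.sub_mem h1 hk
    by_cases h0 : τ.1 * k * (τ⁻¹ : GL ι F).1 - k = 0
    · have h3 : τ.1 * k * (τ⁻¹ : GL ι F).1 = k := sub_eq_zero.1 h0
      calc τ.1 * k = τ.1 * k * ((τ⁻¹ : GL ι F).1 * τ.1) := by rw [← Units.val_mul]; simp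
        _ = k * τ.1 := by rw [← mul_assoc, h3]
    · exfalso
      obtain ⟨y, hy, hy1⟩ := hK.inv _ h2 h0
      obtain ⟨x, hx0, hx1, hx2⟩ := exists_ker2 hn φ (φ.comp (Matrix.toLin' k))
      have h4 : τ.1 *ᵥ x = x := by rw [hτ, tv_mulVec, hx1, zero_smul, add_zero]
      have h5 : (τ⁻¹ : GL ι F).1 *ᵥ x = x := by
        conv_lhs => rw [← h4]
        rw [Matrix.mulVec_mulVec, ← Units.val_mul]; simp
      have h6 : τ.1 *ᵥ (k *ᵥ x) = k *ᵥ x := by
        rw [LinearMap.comp_apply, Matrix.toLin'_apply] at hx2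
        rw [hτ, tv_mulVec, hx2, zero_smul, add_zero]
      have h7 : (τ.1 * k * (τ⁻¹ : GL ι F).1 - k) *ᵥ x = 0 := by
        rw [Matrix.sub_mulVec, ← Matrix.mulVec_mulVec, ← Matrix.mulVec_mulVec, h5, h6, sub_self]
      have h8 : y * (τ.1 * k * (τ⁻¹ : GL ι F).1 - k) = 1 := by rw [hK.comm _ hy _ h2]; exact hy1
      apply hx0
      calc x = (1 : Matrix ι ι F) *ᵥ x := by simp
        _ = y *ᵥ ((τ.1 * k * (τ⁻¹ : GL ι F).1 - k) *ᵥ x) := by rw [Matrix.mulVec_mulVec, h8]
        _ = 0 := by rw [h7, Matrix.mulVec_zero]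
  have hbot : K ≤ ⊥ := by
    intro k hk
    obtain ⟨c, hc⟩ := hsc k hk
    rw [Algebra.mem_bot]
    exact ⟨c, by rw [hc, Algebra.algebraMap_eq_smul_one]⟩
  have h1 := hK.finrank_eq
  have h2 : finrank F K ≤ 1 := by
    have h3 : finrank F K ≤ finrank F (⊥ : Subalgebra F (Matrix ι ι F)) := by
      have : Subalgebra.toSubmodule K ≤ Subalgebra.toSubmodule (⊥ : Subalgebra F (Matrix ι ι F)) := hbot
      exact Submodule.finrank_mono this
    have h4 : finrank F (⊥ : Subalgebra F (Matrix ι ι F)) ≤ 1 := by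
      rcases subsingleton_or_nontrivial (Matrix ι ι F) with hs | hs
      · have : finrank F (⊥ : Subalgebra F (Matrix ι ι F)) = 0 := finrank_zero_of_subsingleton
        omega
      · rw [Subalgebra.finrank_bot]
    exact h3.trans h4
  have := hr.two_le
  omega

/-! ### forms -/

/-- a nondegenerate form, additive on the right, is not preserved up to scalars by all transvections -/
theorem not_le_form (hn : 3 ≤ Fintype.card ι) {f : (ι → F) → (ι → F) → F}
    (hadd : ∀ v x y, f v (x + y) = f v x + f v y) (hnd : IsNondegenerateForm f) :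
    ¬ specialLinear ι F ≤ similarityGroup f := by
  intro hle
  have hzero : ∀ x u, f x u = 0 := by
    intro x u
    obtain ⟨φ, h0, hx, hu⟩ := exists_dual2 hn x u
    obtain ⟨c, hc⟩ := tv_mem u φ hu hle
    by_cases hc1 : (c : F) = 1
    · obtain ⟨y, hy⟩ : ∃ y, φ y = 1 := by
        obtain ⟨z, hz⟩ : ∃ z, φ z ≠ 0 := by
          by_contra hcon
          push Not at hcon
          exact h0 (LinearMap.ext hcon)
        exact ⟨(φ z)⁻¹ • z, by rw [map_smul, smul_eq_mul, inv_mul_cancel₀ hz]⟩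
      have h1 := hc x y
      rw [tv_mulVec, tv_mulVec, hx, hy, zero_smul, add_zero, one_smul, hadd, hc1, one_mul] at h1
      exact (add_eq_left).1 h1
    · have h1 := hc x u
      rw [tv_mulVec, tv_mulVec, hx, hu, zero_smul, add_zero, add_zero] at h1
      have h2 : (1 - (c : F)) * f x u = 0 := by rw [sub_mul, one_mul, ← h1, sub_self]
      exact (mul_eq_zero.1 h2).resolve_left (sub_ne_zero.2 (Ne.symm hc1))
  obtain ⟨v, hv⟩ := exists_ne_zero (F := F) hn
  obtain ⟨⟨x, hx⟩, _⟩ := hnd v hv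
  exact hx (hzero x v)

theorem not_le_sym (hn : 3 ≤ Fintype.card ι) {f : (ι → F) → (ι → F) → F} (hf : IsSymplecticForm f) :
    ¬ specialLinear ι F ≤ similarityGroup f :=
  not_le_form hn hf.bilinear.add_right hf.nondegenerate

theorem not_le_uni (hn : 3 ≤ Fintype.card ι) {σ : F ≃+* F} {f : (ι → F) → (ι → F) → F} (hf : IsUnitaryForm σ f) :
    ¬ specialLinear ι F ≤ similarityGroup f :=
  not_le_form hn (fun v x y => by rw [hf.herm v, hf.add_left, map_add, ← hf.herm, ← hf.herm]) hf.nondegenerate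

theorem quad_le_polar {Q : (ι → F) → F} : quadSimilarityGroup Q ≤ similarityGroup (QuadraticMap.polar Q) := by
  rintro g ⟨c, hc⟩
  refine ⟨c, fun u v => ?_⟩
  simp only [QuadraticMap.polar]
  rw [← Matrix.mulVec_add, hc, hc, hc]
  ring

theorem not_le_orth (hn : 3 ≤ Fintype.card ι) {Q : (ι → F) → F} (hQ : IsNondegenerateQuadraticForm Q) :
    ¬ specialLinear ι F ≤ quadSimilarityGroup Q := fun h =>
  not_le_form hn hQ.polar_bilinear.add_right hQ.nondegenerate (h.trans quad_le_polar)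

/-! ### normality -/

theorem conj_le {M : Subgroup (GL ι F)} {P : GL ι F} (h : specialLinear ι F ≤ M.map (MulAut.conj P).toMonoidHom) :
    specialLinear ι F ≤ M := by
  intro g hg
  have hn : (specialLinear ι F).Normal := by unfold specialLinear; infer_instance
  obtain ⟨m, hm, hmg⟩ := h (hn.conj_mem g hg P)
  have : m = g := by
    have h1 : P * m * P⁻¹ = P * g * P⁻¹ := hmg
    simpa using h1
  rwa [← this]

/-- elementary transvection entries -/
theorem te_apply {i j : ι} (hij : i ≠ j) (c : F) (a b : ι) :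
    ((te hij c : GL ι F) : Matrix ι ι F) a b = (if a = b then 1 else 0) + (if a = i ∧ b = j then c else 0) := by
  have h1 : ((te hij c : GL ι F) : Matrix ι ι F) a b = (((te hij c : GL ι F) : Matrix ι ι F) *ᵥ Pi.single b 1) a := by
    simp
  rw [h1, te_mulVec]
  by_cases h1 : a = b <;> by_cases h2 : a = i <;> by_cases h3 : b = j <;>
    simp_all [Pi.single_apply, eq_comm]

theorem te_mem {i j : ι} (hij : i ≠ j) (c : F) {M : Subgroup (GL ι F)} (hM : specialLinear ι F ≤ M) : te hij c ∈ M :=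
  tv_mem _ _ _ hM

/-! ### tensor products -/

theorem not_le_tp {n₁ n₂ : ℕ} {e : ι ≃ Fin n₁ × Fin n₂} {P : GL ι F} (h1 : 2 ≤ n₁) (h2 : 2 ≤ n₂) :
    ¬ specialLinear ι F ≤ tensorProductSubgroup n₁ n₂ e P := by
  intro hle
  have hle' := conj_le hle
  set a0 : Fin n₁ := ⟨0, by omega⟩ with ha0
  set a1 : Fin n₁ := ⟨1, by omega⟩ with ha1
  set b0 : Fin n₂ := ⟨0, by omega⟩ with hb0
  set b1 : Fin n₂ := ⟨1, by omega⟩ with hb1
  have ha : a0 ≠ a1 := by simp [ha0, ha1]
  have hb : b0 ≠ b1 := by simp [hb0, hb1]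
  have hij : e.symm (a0, b0) ≠ e.symm (a1, b1) := by
    intro h
    have := e.symm.injective h
    exact ha (congrArg Prod.fst this)
  obtain ⟨g, ⟨A, B, hg⟩, hgt⟩ := Subgroup.mem_map.1 (te_mem hij (1 : F) hle')
  have hent : ∀ x y : Fin n₁ × Fin n₂, (A : Matrix _ _ F) x.1 y.1 * (B : Matrix _ _ F) x.2 y.2 =
      ((te hij 1 : GL ι F) : Matrix ι ι F) (e.symm x) (e.symm y) := by
    intro x y
    rw [← hgt]
    change _ = ((glReindex e.symm g : GL ι F) : Matrix ι ι F) (e.symm x) (e.symm y)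
    rw [CfsgLib.Asch7.glReindex_apply, hg, Equiv.apply_symm_apply, Equiv.apply_symm_apply]
    rfl
  have e1 := hent (a0, b0) (a0, b0)
  have e2 := hent (a0, b0) (a1, b1)
  have e3 := hent (a0, b0) (a0, b1)
  rw [te_apply] at e1 e2 e3
  simp only [EmbeddingLike.apply_eq_iff_eq, Prod.mk.injEq, ha, hb, and_self, and_false, and_true,
    false_and, if_true, if_false, add_zero, zero_add] at e1 e2 e3
  rcases mul_eq_zero.1 e3 with h | h
  · rw [h, zero_mul] at e1; exact zero_ne_one e1
  · rw [h, mul_zero] at e2; exact zero_ne_one e2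

/-- shape of the elements of the tensor wreath group -/
def Tw {m t : ℕ} (g : Matrix (Fin t → Fin m) (Fin t → Fin m) F) : Prop :=
  ∃ (σ : Equiv.Perm (Fin t)) (gs : Fin t → Matrix (Fin m) (Fin m) F), ∀ x y, g x y = ∏ i, gs i (x (σ i)) (y i)

theorem Tw.mul {m t : ℕ} {g h : Matrix (Fin t → Fin m) (Fin t → Fin m) F} (hg : Tw g) (hh : Tw h) : Tw (g * h) := by
  obtain ⟨σ, gs, hg⟩ := hg
  obtain ⟨τ, hs, hh⟩ := hh
  refine ⟨τ.trans σ, fun i => gs (τ i) * hs i, fun x z => ?_⟩
  rw [Matrix.mul_apply]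
  simp only [hg, hh, Matrix.mul_apply, Equiv.trans_apply]
  rw [Finset.prod_univ_sum]
  have h1 : ∀ y : Fin t → Fin m, (∏ i, gs i (x (σ i)) (y i)) * ∏ i, hs i (y (τ i)) (z i) =
      ∏ i, gs (τ i) (x (σ (τ i))) (y (τ i)) * hs i (y (τ i)) (z i) := by
    intro y
    rw [Finset.prod_mul_distrib]
    congr 1
    exact (Equiv.prod_comp τ (fun i => gs i (x (σ i)) (y i))).symm
  rw [Finset.sum_congr rfl fun y _ => h1 y]
  refine Finset.sum_bij' (fun y _ => y ∘ τ) (fun y _ => y ∘ τ.symm) ?_ ?_ ?_ ?_ ?_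
  · intro y _; simp
  · intro y _; simp
  · intro y _; ext i; simp
  · intro y _; ext i; simp
  · intro y _; rfl

theorem Tw.one {m t : ℕ} : Tw (1 : Matrix (Fin t → Fin m) (Fin t → Fin m) F) := by
  refine ⟨1, fun _ => 1, fun x y => ?_⟩
  rw [← CfsgLib.Asch7.pt_one]
  rfl

theorem tw_of_mem [Finite F] {m t : ℕ} {g : GL (Fin t → Fin m) F} (hg : g ∈ tensorWreathStandard m t F) :
    Tw (g : Matrix (Fin t → Fin m) (Fin t → Fin m) F) := by
  have hpow : ∀ (x : GL (Fin t → Fin m) F) (k : ℕ), Tw x.1 → Tw (x ^ k).1 := by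
    intro x k hx
    induction k with
    | zero => rw [pow_zero, Units.val_one]; exact Tw.one
    | succ k ih => rw [pow_succ, Units.val_mul]; exact ih.mul hx
  unfold tensorWreathStandard at hg
  induction hg using Subgroup.closure_induction with
  | mem x hx =>
    rcases hx with ⟨gs, h⟩ | ⟨σ, h⟩
    · exact ⟨1, fun i => (gs i).1, fun x y => h x y⟩
    · refine ⟨σ, fun _ => 1, fun x y => ?_⟩
      have h2 : (∏ i, (1 : Matrix (Fin m) (Fin m) F) (x (σ i)) (y i)) =
          (CfsgLib.Asch7.pt (1 : Fin t → Matrix (Fin m) (Fin m) F)) (x ∘ σ) y := rfl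
      rw [h, h2, CfsgLib.Asch7.pt_one, Matrix.one_apply]
      congr 1
      exact propext eq_comm
  | one => rw [Units.val_one]; exact Tw.one
  | mul x y _ _ hx hy => rw [Units.val_mul]; exact hx.mul hy
  | inv x _ hx =>
    obtain ⟨k, hk⟩ : ∃ k : ℕ, x⁻¹ = x ^ k := by
      refine ⟨orderOf x - 1, ?_⟩
      have h1 := orderOf_pos x
      rw [inv_eq_iff_mul_eq_one, ← pow_succ', Nat.sub_add_cancel h1, pow_orderOf_eq_one]
    rw [hk]; exact hpow x k hx

theorem not_le_tw [Finite F] {m t : ℕ} {e : ι ≃ (Fin t → Fin m)} {P : GL ι F} (hm : 2 ≤ m) (ht : 2 ≤ t) :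
    ¬ specialLinear ι F ≤ tensorWreathSubgroup m t e P := by
  intro hle
  have hle' := conj_le hle
  set a0 : Fin m := ⟨0, by omega⟩ with ha0
  set a1 : Fin m := ⟨1, by omega⟩ with ha1
  have ha : a0 ≠ a1 := by simp [ha0, ha1]
  set s0 : Fin t := ⟨0, by omega⟩ with hs0
  set s1 : Fin t := ⟨1, by omega⟩ with hs1
  have hs : s0 ≠ s1 := by simp [hs0, hs1]
  set x0 : Fin t → Fin m := fun _ => a0 with hx0
  set x1 : Fin t → Fin m := fun _ => a1 with hx1
  have hx : x0 ≠ x1 := fun h => ha (congrFun h s0)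
  have hij : e.symm x0 ≠ e.symm x1 := fun h => hx (e.symm.injective h)
  obtain ⟨g, hg, hgt⟩ := Subgroup.mem_map.1 (te_mem hij (1 : F) hle')
  obtain ⟨σ, gs, hgs⟩ := tw_of_mem hg
  have hent : ∀ x y : Fin t → Fin m, ∏ i, gs i (x (σ i)) (y i) =
      ((te hij 1 : GL ι F) : Matrix ι ι F) (e.symm x) (e.symm y) := by
    intro x y
    rw [← hgt, ← hgs]
    change _ = ((glReindex e.symm g : GL ι F) : Matrix ι ι F) (e.symm x) (e.symm y)
    rw [CfsgLib.Asch7.glReindex_apply, Equiv.apply_symm_apply, Equiv.apply_symm_apply]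
  have e1 := hent x0 x0
  have e2 := hent x0 x1
  have e3 := hent x0 (Function.update x0 s0 a1)
  rw [te_apply] at e1 e2 e3
  have hy0 : x0 ≠ Function.update x0 s0 a1 := by
    intro h
    have := congrFun h s0
    rw [Function.update_self] at this
    exact ha this
  have hy1 : Function.update x0 s0 a1 ≠ x1 := by
    intro h
    have := congrFun h s1
    rw [Function.update_of_ne hs.symm] at this
    exact ha this
  simp only [EmbeddingLike.apply_eq_iff_eq, hx, hy0, hy1, and_self, and_false, and_true,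
    false_and, if_true, if_false, add_zero, zero_add] at e1 e2 e3
  obtain ⟨i, _, hi⟩ := Finset.prod_eq_zero_iff.1 e3
  by_cases h : i = s0
  · rw [h, Function.update_self] at hi
    have : (∏ i, gs i (x0 (σ i)) (x1 i)) = 0 := Finset.prod_eq_zero (Finset.mem_univ s0) hi
    rw [this] at e2; exact zero_ne_one e2
  · rw [Function.update_of_ne h] at hi
    have : (∏ i, gs i (x0 (σ i)) (x0 i)) = 0 := Finset.prod_eq_zero (Finset.mem_univ i) hi
    rw [this] at e1; exact zero_ne_one e1

/-! ### subfields -/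

theorem mem_subfield_std {F₀ : Subfield F} {g : GL ι F}
    (hg : g ∈ (Matrix.GeneralLinearGroup.map (n := ι) (F₀.subtype : F₀ →+* F)).range ⊔ scalars ι F) :
    ∃ (B : Matrix ι ι F₀) (c : F), ∀ i j, (g : Matrix ι ι F) i j = (B i j : F) * c := by
  rw [Subgroup.mem_sup_of_normal_right] at hg
  obtain ⟨y, ⟨B, rfl⟩, z, hz, rfl⟩ := hg
  obtain ⟨c, hc⟩ := (mem_scalars_iff z).1 hz
  refine ⟨B.1, c, fun i j => ?_⟩
  rw [Units.val_mul, hc]
  simp [mul_comm]

theorem not_le_sub [Fintype F] (hn : 3 ≤ Fintype.card ι) {F₀ : Subfield F} {r : ℕ} {P : GL ι F} (hr : r.Prime)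
    (hc : Fintype.card F = Nat.card F₀ ^ r) : ¬ specialLinear ι F ≤ subfieldSubgroup F₀ P := by
  intro hle
  have hle' := conj_le hle
  obtain ⟨i, j, hij⟩ := Fintype.one_lt_card_iff.1 (show 1 < Fintype.card ι by omega)
  have hall : ∀ c : F, c ∈ F₀ := by
    intro c
    obtain ⟨B, d, hB⟩ := mem_subfield_std (te_mem hij c hle')
    have h1 := hB i i
    have h2 := hB i j
    rw [te_apply] at h1 h2
    simp only [hij, if_true, if_false, and_false, and_self, add_zero, zero_add] at h1 h2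
    have hd : d = (B i i : F)⁻¹ := eq_inv_of_mul_eq_one_right h1.symm
    rw [h2, hd]
    exact F₀.mul_mem (B i j).2 (F₀.inv_mem (B i i).2)
  have htop : F₀ = ⊤ := by
    ext c; simp [hall c]
  have h3 : Nat.card F₀ = Fintype.card F := by
    rw [htop, ← Nat.card_eq_fintype_card]
    exact Nat.card_congr Subfield.topEquiv.toEquiv
  rw [h3] at hc
  have h4 := Fintype.one_lt_card (α := F)
  have h5 : Fintype.card F ^ 1 < Fintype.card F ^ r := Nat.pow_lt_pow_right h4 hr.one_lt
  rw [pow_one] at h5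
  omega

end CfsgLib.AschSL1
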