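import Mathlib
import Cfsg.Agent.LibAschSL1H13

/-! the special linear group does not normalise a symplectic type group -/
set_option autoImplicit false

namespace CfsgLib.AschSL1

open Module Cfsg Cfsg.Geo CfsgLib.MaxTv29 CfsgLib.Subfield29
open scoped Matrix MatrixGroups Kronecker

variable {ι : Type} [Fintype ι] [DecidableEq ι] {F : Type*} [Field F]

/-- an r-element commuting with two conditions -/
theorem comm_tv [Finite F] {p r : ℕ} (hp : p.Prime) [CharP F p] (hr : r.Prime) (hrp : r ≠ p)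
    {R : Subgroup (GL ι F)} (hR : IsPGroup r R) (hle : specialLinear ι F ≤ subgroupNormalizer R)
    {x : GL ι F} (hx : x ∈ R) {u : ι → F} {l : F} (hl : (x : Matrix ι ι F) *ᵥ u = l • u) (hu : u ≠ 0)
    (φ : Module.Dual F (ι → F)) (h : φ u = 0) : x * tv u φ h * x⁻¹ = tv u φ h := by
  have hl0 : l ≠ 0 := by
    rintro rfl
    rw [zero_smul] at hl
    exact hu (mulVec_injective x (by simpa using hl))
  obtain ⟨h', hc⟩ := conj_tv x u φ h
  set ψ : Module.Dual F (ι → F) := φ.comp (le x).symm.toLinearMap with hψ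
  have h1 : (l • ψ) u = 0 := by
    rw [hl] at h'
    rw [map_smul, smul_eq_mul] at h'
    rw [LinearMap.smul_apply, smul_eq_mul, h']
  have h2 : x * tv u φ h * x⁻¹ = tv u (l • ψ) h1 := by
    rw [hc]
    apply gl_ext
    intro y
    rw [tv_mulVec, tv_mulVec, hl, smul_smul, LinearMap.smul_apply, smul_eq_mul, mul_comm]
  -- the commutator
  have h3 : (l • ψ - φ) u = 0 := by rw [LinearMap.sub_apply, h1, h, sub_zero]
  have h4 : x * tv u φ h * x⁻¹ * (tv u φ h)⁻¹ = tv u (l • ψ - φ) h3 := by
    rw [mul_inv_eq_iff_eq_mul, h2, ← tv_add u _ _ h3 h (by rw [sub_add_cancel]; exact h1)]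
    exact tv_congr _ _ rfl (by rw [sub_add_cancel])
  have h5 : tv u (l • ψ - φ) h3 ∈ R := by
    rw [← h4]
    have h6 : tv u φ h ∈ Subgroup.normalizer (R : Set (GL ι F)) := hle (tv_mem_special u φ h)
    have h7 : tv u φ h * x⁻¹ * (tv u φ h)⁻¹ ∈ R := (Subgroup.mem_normalizer_iff.1 h6 _).1 (R.inv_mem hx)
    have := R.mul_mem hx h7
    rwa [← mul_assoc, ← mul_assoc] at this
  obtain ⟨k, hk⟩ := hR ⟨_, h5⟩
  have hk' : (tv u (l • ψ - φ) h3) ^ r ^ k = 1 := by
    have := congrArg Subtype.val hk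
    simpa using this
  have hp' : (tv u (l • ψ - φ) h3) ^ p = 1 := by
    have h8 : ((p : F) • (l • ψ - φ)) u = 0 := by rw [LinearMap.smul_apply, h3, smul_zero]
    rw [tv_pow _ _ _ p h8]
    apply gl_ext
    intro y
    rw [tv_mulVec, LinearMap.smul_apply, CharP.cast_eq_zero, zero_smul, zero_smul, add_zero, Units.val_one,
      Matrix.one_mulVec]
  have h9 : tv u (l • ψ - φ) h3 = 1 := by
    have hcop : Nat.Coprime (r ^ k) p := Nat.Coprime.pow_left k ((Nat.coprime_primes hr hp).2 hrp)
    have h10 : orderOf (tv u (l • ψ - φ) h3) ∣ Nat.gcd (r ^ k) p :=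
      Nat.dvd_gcd (orderOf_dvd_of_pow_eq_one hk') (orderOf_dvd_of_pow_eq_one hp')
    rw [hcop] at h10
    exact orderOf_eq_one_iff.1 (Nat.dvd_one.1 h10)
  rw [h9] at h4
  exact mul_inv_eq_one.1 h4

/-- such an element with an eigenvector is scalar -/
theorem scalar_of_eigen [Finite F] (hn : 3 ≤ Fintype.card ι) {p r : ℕ} (hp : p.Prime) [CharP F p] (hr : r.Prime) (hrp : r ≠ p)
    {R : Subgroup (GL ι F)} (hR : IsPGroup r R) (hle : specialLinear ι F ≤ subgroupNormalizer R)
    {x : GL ι F} (hx : x ∈ R) {u : ι → F} {l : F} (hl : (x : Matrix ι ι F) *ᵥ u = l • u) (hu : u ≠ 0) :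
    ∃ c : F, (x : Matrix ι ι F) = c • (1 : Matrix ι ι F) := by
  have hl0 : l ≠ 0 := by
    rintro rfl
    rw [zero_smul] at hl
    exact hu (mulVec_injective x (by simpa using hl))
  -- x moves every vector inside the line of u
  have key : ∀ (φ : Module.Dual F (ι → F)), φ u = 0 → ∀ y, φ ((x : Matrix ι ι F) *ᵥ y) = l * φ y := by
    intro φ h y
    have h1 := comm_tv hp hr hrp hR hle hx hl hu φ h
    rw [mul_inv_eq_iff_eq_mul] at h1
    have h2 := congrArg (fun g : GL ι F => (g : Matrix ι ι F) *ᵥ y) h1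
    simp only [Units.val_mul, ← Matrix.mulVec_mulVec] at h2
    rw [tv_mulVec, tv_mulVec, Matrix.mulVec_add, Matrix.mulVec_smul, hl, smul_smul] at h2
    have h3 := add_left_cancel h2
    have h4 : (φ y * l - φ ((x : Matrix ι ι F) *ᵥ y)) • u = 0 := by rw [sub_smul, h3, sub_self]
    have h5 := (smul_eq_zero.1 h4).resolve_right hu
    rw [mul_comm l]
    exact (sub_eq_zero.1 h5).symm
  have hline : ∀ y, (x : Matrix ι ι F) *ᵥ y - l • y ∈ Submodule.span F {u} := by
    intro y
    by_contra hcon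
    obtain ⟨φ, h1, h2⟩ := exists_sep hcon
    rw [map_sub, key φ h1, map_smul, smul_eq_mul, sub_self] at h2
    exact zero_ne_one h2
  -- powers
  have hpow : ∀ k : ℕ, ∀ y, ((x ^ k : GL ι F) : Matrix ι ι F) *ᵥ y = l ^ k • y + ((k : F) * l ^ (k - 1)) • ((x : Matrix ι ι F) *ᵥ y - l • y) := by
    intro k
    induction k with
    | zero => intro y; simp
    | succ k ih =>
      intro y
      rw [pow_succ, Units.val_mul, ← Matrix.mulVec_mulVec, ih]
      obtain ⟨c, hc⟩ := Submodule.mem_span_singleton.1 (hline y)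
      have h1 : (x : Matrix ι ι F) *ᵥ y = l • y + c • u := by rw [hc]; abel
      have h2 : (x : Matrix ι ι F) *ᵥ ((x : Matrix ι ι F) *ᵥ y) - l • ((x : Matrix ι ι F) *ᵥ y) = l • (c • u) := by
        rw [h1, Matrix.mulVec_add, Matrix.mulVec_smul, Matrix.mulVec_smul, hl, h1]
        module
      rw [h2, h1, add_sub_cancel_left, Nat.cast_succ, Nat.add_sub_cancel]
      rcases Nat.eq_zero_or_pos k with rfl | hk
      · simp
      · have h3 : l ^ k = l ^ (k - 1) * l := by rw [← pow_succ, Nat.sub_add_cancel hk]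
        rw [pow_succ l k, h3]
        module
  have hxp : ((x ^ p : GL ι F) : Matrix ι ι F) = l ^ p • (1 : Matrix ι ι F) := by
    apply Matrix.ext_of_mulVec_single
    intro i
    rw [hpow, CharP.cast_eq_zero, zero_mul, zero_smul, add_zero, Matrix.smul_mulVec, Matrix.one_mulVec]
  obtain ⟨k, hk⟩ := hR ⟨x, hx⟩
  have hk' : x ^ r ^ k = 1 := by
    have := congrArg Subtype.val hk
    simpa using this
  have hcop : Nat.Coprime p (r ^ k) := Nat.Coprime.pow_right k ((Nat.coprime_primes hp hr).2 hrp.symm)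
  -- x is a power of x^p
  obtain ⟨m, hm⟩ : ∃ m : ℕ, (x ^ p) ^ m = x := by
    have h1 : Nat.Coprime p (orderOf x) := hcop.coprime_dvd_right (orderOf_dvd_of_pow_eq_one hk')
    obtain ⟨m, hm⟩ := exists_pow_eq_self_of_coprime h1
    exact ⟨m, hm⟩
  refine ⟨(l ^ p) ^ m, ?_⟩
  rw [← hm, Units.val_pow_eq_pow_val, hxp, smul_pow, one_pow]

/-- an element of order dividing q - 1 has an eigenvector -/
theorem exists_eigen [Fintype F] [Nonempty ι] (x : GL ι F) (hx : x ^ (Fintype.card F - 1) = 1) :
    ∃ (l : F) (u : ι → F), u ≠ 0 ∧ (x : Matrix ι ι F) *ᵥ u = l • u := by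
  set f : Module.End F (ι → F) := Matrix.toLin' (x : Matrix ι ι F) with hf
  have hq := Fintype.one_lt_card (α := F)
  have h1 : f ^ (Fintype.card F) = f := by
    have h2 : x ^ (Fintype.card F) = x := by
      have : Fintype.card F = Fintype.card F - 1 + 1 := by omega
      rw [this, pow_succ, hx, one_mul]
    have h3 := congrArg (fun g : GL ι F => Matrix.toLin' (g : Matrix ι ι F)) h2
    simp only [Units.val_pow_eq_pow_val] at h3
    rw [Matrix.toLin'_pow] at h3
    exact h3
  have h4 : (Polynomial.X ^ Fintype.card F - Polynomial.X : Polynomial F).aeval f = 0 := by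
    rw [map_sub, map_pow, Polynomial.aeval_X, h1, sub_self]
  have h5 : minpoly F f ∣ (Polynomial.X ^ Fintype.card F - Polynomial.X : Polynomial F) := minpoly.dvd F f h4
  have h6 : (minpoly F f).Splits := by
    refine Polynomial.Splits.of_dvd ?_ (FiniteField.X_pow_card_sub_X_ne_zero F hq) h5
    rw [Polynomial.splits_iff_card_roots, FiniteField.roots_X_pow_card_sub_X, ← Finset.card_def, Finset.card_univ,
      FiniteField.X_pow_card_sub_X_natDegree_eq F hq]
  have h7 : (minpoly F f).degree ≠ 0 := by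
    intro h
    have h8 := minpoly.degree_pos (Algebra.IsIntegral.isIntegral (R := F) f)
    rw [h] at h8
    exact lt_irrefl _ h8
  obtain ⟨l, hl⟩ := h6.exists_eval_eq_zero h7
  have h9 : f.HasEigenvalue l := Module.End.hasEigenvalue_of_isRoot hl
  obtain ⟨u, hu⟩ := h9.exists_hasEigenvector
  refine ⟨l, u, hu.2, ?_⟩
  have := hu.apply_eq_smul
  rwa [hf, Matrix.toLin'_apply] at this

theorem not_le_st [Fintype F] (hn : 3 ≤ Fintype.card ι) {r : ℕ} {R : Subgroup (GL ι F)} (hR : IsLinearSymplecticTypeData r R) :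
    ¬ specialLinear ι F ≤ subgroupNormalizer R := by
  intro hle
  haveI : Nonempty ι := Fintype.card_pos_iff.1 (by omega)
  obtain ⟨p, e, hrp, ⟨hp, hchar, hcard, hdvd, _⟩, hcases⟩ := hR.field
  have hr := hR.symplecticType.prime
  have hexp : Monoid.exponent R ∣ Fintype.card F - 1 := by
    rw [hR.symplecticType.exponent_eq, hcard]
    rcases hcases with ⟨ho, _, hz, _⟩ | ⟨h2, _, hz, _⟩ | ⟨_, _, h2, _⟩
    · have : Nat.gcd 2 r = 1 := (Nat.coprime_two_left.2 ho)
      rw [this, mul_one, ← hz]; exact hdvd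
    · rw [h2]
      have : 2 * Nat.gcd 2 2 = 4 := by norm_num
      rw [this, ← hz]; exact hdvd
    · omega
  -- all elements are scalar
  have hall : ∀ x ∈ R, ∃ c : F, (x : Matrix ι ι F) = c • (1 : Matrix ι ι F) := by
    intro x hx
    have h1 : x ^ (Fintype.card F - 1) = 1 := by
      obtain ⟨m, hm⟩ := hexp
      have h2 : (⟨x, hx⟩ : R) ^ Monoid.exponent R = 1 := Monoid.pow_exponent_eq_one _
      have h3 : x ^ Monoid.exponent R = 1 := by
        have := congrArg Subtype.val h2
        simpa using this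
      rw [hm, pow_mul, h3, one_pow]
    obtain ⟨l, u, hu, hl⟩ := exists_eigen x h1
    exact scalar_of_eigen hn hp hr hrp hR.symplecticType.pGroup hle hx hl hu
  -- contradiction with irreducibility
  have hirr := hR.absIrred.1
  obtain ⟨v, hv⟩ := exists_ne_zero (F := F) hn
  have h1 := hirr (Submodule.span F {v}) (by
    rintro _ ⟨x, hx, rfl⟩
    obtain ⟨c, hc⟩ := hall x hx
    rw [Submodule.map_span, Submodule.span_le]
    rintro _ ⟨y, hy, rfl⟩
    rw [Set.mem_singleton_iff] at hy
    subst hy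
    have : Matrix.toLin' (x : Matrix ι ι F) y = c • y := by
      rw [Matrix.toLin'_apply, hc, Matrix.smul_mulVec, Matrix.one_mulVec]
    rw [this]
    exact Submodule.smul_mem _ _ (Submodule.mem_span_singleton_self y))
  rcases h1 with h1 | h1
  · exact hv (by simpa using h1)
  · have h2 : finrank F (Submodule.span F {v}) = 1 := finrank_span_singleton hv
    rw [h1, finrank_top, Module.finrank_fintype_fun_eq_card] at h2
    omega

/-- the classes with equalities, for maximal subgroups of the special linear group -/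
inductive ClsMax [Fintype F] (H : Subgroup (GL ι F)) : Prop
  | red (W : Submodule F (ι → F)) (h0 : W ≠ ⊥) (h1 : W ≠ ⊤) (h : H = subspaceStabilizer W ⊓ specialLinear ι F)
  | dec (t m : ℕ) (D : Fin t → Submodule F (ι → F)) (hD : IsMDecomposition m D)
      (h : H = decompositionStabilizer D ⊓ specialLinear ι F)
  | fld (r : ℕ) (K : Subalgebra F (Matrix ι ι F)) (hr : r.Prime) (hK : IsFieldSubalgebra r K)
      (h : H = subalgebraNormalizer K ⊓ specialLinear ι F)
  | tp (n₁ n₂ : ℕ) (e : ι ≃ Fin n₁ × Fin n₂) (P : GL ι F) (h1 : 2 ≤ n₁) (h2 : n₁ < n₂)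
      (h : H = tensorProductSubgroup n₁ n₂ e P ⊓ specialLinear ι F)
  | sub (F₀ : Subfield F) (r : ℕ) (P : GL ι F) (hr : r.Prime) (hc : Fintype.card F = Nat.card F₀ ^ r)
      (h : H = subfieldSubgroup F₀ P ⊓ specialLinear ι F)
  | st (r k : ℕ) (R : Subgroup (GL ι F)) (hR : IsLinearSymplecticTypeData r R) (hk : Fintype.card ι = r ^ k)
      (hal : CfsgLib.Asch9.alg R = ⊤) (hc : ⁅R, R⁆ ≤ scalars ι F) (h : H = subgroupNormalizer R ⊓ specialLinear ι F)
  | tw (m t : ℕ) (e : ι ≃ (Fin t → Fin m)) (P : GL ι F) (hm : 3 ≤ m) (ht : 2 ≤ t)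
      (h : H = tensorWreathSubgroup m t e P ⊓ specialLinear ι F)
  | sym (f : (ι → F) → (ι → F) → F) (hf : IsSymplecticForm f) (h : H = similarityGroup f ⊓ specialLinear ι F)
  | uni (σ : F ≃+* F) (f : (ι → F) → (ι → F) → F) (hf : IsUnitaryForm σ f)
      (h : H = similarityGroup f ⊓ specialLinear ι F)
  | orth (Q : (ι → F) → F) (hQ : IsNondegenerateQuadraticForm Q) (ho : Odd (Fintype.card F))
      (h : H = quadSimilarityGroup Q ⊓ specialLinear ι F)

theorem eq_of_max {H M : Subgroup (GL ι F)} (hH : IsMaximalIn (specialLinear ι F) H) (hM : H ≤ M)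
    (hne : ¬ specialLinear ι F ≤ M) : H = M ⊓ specialLinear ι F := by
  rcases hH.2 (M ⊓ specialLinear ι F) (le_inf hM hH.1.le) inf_le_right with h | h
  · exact h.symm
  · exact absurd (inf_eq_right.1 h) hne

/-- a member of a class containing a maximal subgroup of the special linear group gives an equality -/
theorem clsMax_of_cls [Fintype F] (hn : 3 ≤ Fintype.card ι) {H : Subgroup (GL ι F)}
    (hH : IsMaximalIn (specialLinear ι F) H) (hcl : CfsgLib.Asch19.Cls H) : ClsMax H := by
  cases hcl with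
  | red W h0 h1 h => exact .red W h0 h1 (eq_of_max hH h (not_le_red h0 h1))
  | dec t m D hD h => exact .dec t m D hD (eq_of_max hH h (not_le_dec hD))
  | fld r K hr hK h => exact .fld r K hr hK (eq_of_max hH h (not_le_fld hn hr hK))
  | tp n₁ n₂ e P h1 h2 h => exact .tp n₁ n₂ e P h1 h2 (eq_of_max hH h (not_le_tp h1 (by omega)))
  | sub F₀ r P hr hc h => exact .sub F₀ r P hr hc (eq_of_max hH h (not_le_sub hn hr hc))
  | st r k R hR hk hal hc h => exact .st r k R hR hk hal hc (eq_of_max hH h (not_le_st hn hR))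
  | tw m t e P hm ht h => exact .tw m t e P hm ht (eq_of_max hH h (not_le_tw (by omega) ht))
  | sym f hf h => exact .sym f hf (eq_of_max hH h (not_le_sym hn hf))
  | uni σ f hf h => exact .uni σ f hf (eq_of_max hH h (not_le_uni hn hf))
  | orth Q hQ ho h => exact .orth Q hQ ho (eq_of_max hH h (not_le_orth hn hQ))

/-- every maximal subgroup of the special linear group, in dimension at least three -/
theorem clsMax_of_isMaximalIn [Fintype F] (hn : 3 ≤ Fintype.card ι) {H : Subgroup (GL ι F)}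
    (hH : IsMaximalIn (specialLinear ι F) H) : ClsMax H ∨ InLinearResidualClass H := by
  rcases CfsgLib.Asch19.aschbacher hn H with h | h
  · exact Or.inl (clsMax_of_cls hn hH h)
  · exact Or.inr h

end CfsgLib.AschSL1
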