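import Mathlib
import Cfsg.Agent.LibAschSL1bH13

/-! numerical restrictions for the geometric classes -/
set_option autoImplicit false

namespace CfsgLib.AschNum

open Module Cfsg Cfsg.Geo CfsgLib.Asch6
open scoped Matrix MatrixGroups Kronecker

variable {ι : Type} [Fintype ι] [DecidableEq ι] {F : Type*} [Field F]

theorem dec_mul {t m : ℕ} {D : Fin t → Submodule F (ι → F)} (hD : IsMDecomposition m D) :
    t * m = Fintype.card ι := by
  classical
  have hint : DirectSum.IsInternal D :=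
    DirectSum.isInternal_submodule_of_iSupIndep_of_iSup_eq_top hD.indep hD.iSup_eq_top
  have b := hint.collectedBasis fun i => Module.finBasisOfFinrankEq F (D i) (hD.finrank_eq i)
  have h1 := Module.finrank_eq_card_basis b
  rw [Module.finrank_fintype_fun_eq_card] at h1
  rw [h1]
  simp

theorem tp_mul {n₁ n₂ : ℕ} (e : ι ≃ Fin n₁ × Fin n₂) : n₁ * n₂ = Fintype.card ι := by
  rw [Fintype.card_congr e]; simp

theorem tw_pow {m t : ℕ} (e : ι ≃ (Fin t → Fin m)) : m ^ t = Fintype.card ι := by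
  rw [Fintype.card_congr e]; simp

section fld
variable {V : Type*} [AddCommGroup V] [Module F V] [FiniteDimensional F V]

theorem finrank_dvd (A : Subalgebra F (End F V)) (hA : IsField A) : finrank F A ∣ finrank F V := by
  letI : Field A := hA.toField
  haveI : Module.Free A V := Module.Free.of_divisionRing A V
  have := Module.finrank_mul_finrank F A V
  exact ⟨_, this.symm⟩

end fld

theorem fld_isField [Nonempty ι] {r : ℕ} {K : Subalgebra F (Matrix ι ι F)} (hK : IsFieldSubalgebra r K) :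
    IsField K := by
  refine ⟨exists_pair_ne _, fun x y => Subtype.ext (hK.comm _ x.2 _ y.2), ?_⟩
  intro x hx
  obtain ⟨y, hy, hxy⟩ := hK.inv x.1 x.2 (fun h => hx (Subtype.ext h))
  exact ⟨⟨y, hy⟩, Subtype.ext hxy⟩

theorem fld_dvd [Nonempty ι] {r : ℕ} {K : Subalgebra F (Matrix ι ι F)} (hK : IsFieldSubalgebra r K) :
    r ∣ Fintype.card ι := by
  have e : K ≃ₐ[F] endA K := (Matrix.toLinAlgEquiv' : Matrix ι ι F ≃ₐ[F] _).subalgebraMap K
  have h1 : IsField (endA K) := MulEquiv.isField (fld_isField hK) e.symm.toMulEquiv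
  have h2 : finrank F (endA K) = r := by
    rw [← hK.finrank_eq]
    exact e.toLinearEquiv.finrank_eq.symm
  have h3 := finrank_dvd _ h1
  rw [h2, Module.finrank_fintype_fun_eq_card] at h3
  exact h3

/-- arithmetic of the symplectic type class, odd prime -/
theorem st_odd [Fintype F] {r : ℕ} {R : Subgroup (GL ι F)} (hR : IsLinearSymplecticTypeData r R)
    (ho : Odd (Fintype.card ι)) (hr2 : Odd r) :
    ∃ p e : ℕ, p.Prime ∧ CharP F p ∧ r ≠ p ∧ Fintype.card F = p ^ e ∧ Odd e ∧ e ∣ r - 1 ∧ p ^ e % r = 1 ∧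
      ∀ d, 0 < d → d < e → p ^ d % r ≠ 1 := by
  obtain ⟨p, e, hrp, ⟨hp, hchar, hcard, hdvd, hmin⟩, hcases⟩ := hR.field
  have hr := hR.symplecticType.prime
  rcases hcases with ⟨_, he, hz, _⟩ | ⟨h2, _⟩ | ⟨h2, _⟩
  · rw [hz] at hdvd hmin
    have hmod : ∀ d, r ∣ p ^ d - 1 ↔ p ^ d % r = 1 := by
      intro d
      have h1 : 1 ≤ p ^ d := Nat.one_le_pow _ _ hp.pos
      have h3 : 1 % r = 1 := Nat.mod_eq_of_lt hr.one_lt
      rw [← Nat.modEq_iff_dvd' h1, Nat.ModEq, h3, eq_comm]
    have he0 : 0 < e := he.pos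
    refine ⟨p, e, hp, hchar, hrp, hcard, he, ?_, (hmod e).1 hdvd, fun d h0 h1 h2 => hmin d h0 h1 ((hmod d).2 h2)⟩
    -- e is the order of p modulo r
    haveI : Fact r.Prime := ⟨hr⟩
    have hp0 : (p : ZMod r) ≠ 0 := by
      intro h
      rw [ZMod.natCast_eq_zero_iff] at h
      exact hrp ((Nat.prime_dvd_prime_iff_eq hr hp).1 h)
    have hz' : ∀ d, (p : ZMod r) ^ d = 1 ↔ p ^ d % r = 1 := by
      intro d
      have h3 : 1 % r = 1 := Nat.mod_eq_of_lt hr.one_lt
      rw [← Nat.cast_pow, ← Nat.cast_one, ZMod.natCast_eq_natCast_iff, Nat.ModEq, h3]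
    have h4 : orderOf (p : ZMod r) = e := by
      rw [orderOf_eq_iff he0]
      refine ⟨(hz' e).2 ((hmod e).1 hdvd), fun d h1 h2 h3 => hmin d h2 h1 ((hmod d).2 ((hz' d).1 h3))⟩
    rw [← h4]
    exact orderOf_dvd_of_pow_eq_one (ZMod.pow_card_sub_one_eq_one hp0)
  · rw [h2] at hr2; exact absurd hr2 (by decide)
  · rw [h2] at hr2; exact absurd hr2 (by decide)

end CfsgLib.AschNum
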