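import Mathlib
import Cfsg.Agent.LibAsch19

/-! small field reductions for the maximal subgroups of SL_n(q): decompositions (helper26) -/
set_option autoImplicit false
set_option linter.unusedSectionVars false

namespace CfsgLib.AschSL2

open Module Cfsg Cfsg.Geo CfsgLib.Asch6 CfsgLib.Asch8 CfsgLib.Asch13
open scoped Matrix MatrixGroups

variable {ι : Type} [Fintype ι] [DecidableEq ι] {F : Type*} [Field F]

/-- a basis adapted to a decomposition, and the shape of the stabiliser -/
theorem dec_basis {t m : ℕ} {D : Fin t → Submodule F (ι → F)} (hD : IsMDecomposition m D) :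
    ∃ b : Basis (Fin t × Fin m) F (ι → F), (∀ i j, b (i, j) ∈ D i) ∧
      ∀ g ∈ decompositionStabilizer D, ∃ (s : Equiv.Perm (Fin t)) (A : Fin t → Matrix (Fin m) (Fin m) F),
        (∀ i, (A i).det ≠ 0) ∧ ∀ i j, (g : Matrix ι ι F) *ᵥ b (i, j) = ∑ k, A i k j • b (s i, k) := by
  classical
  have hint : DirectSum.IsInternal D := DirectSum.isInternal_submodule_of_iSupIndep_of_iSup_eq_top hD.indep hD.iSup_eq_top
  let v : ∀ i, Basis (Fin m) F (D i) := fun i => (Module.finBasisOfFinrankEq F (D i) (hD.finrank_eq i))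
  let b := (hint.collectedBasis v).reindex (Equiv.sigmaEquivProd (Fin t) (Fin m))
  have hb : ∀ i j, b (i, j) = (v i j : ι → F) := by
    intro i j
    simp [b, Basis.reindex_apply, DirectSum.IsInternal.collectedBasis_coe]
  refine ⟨b, fun i j => by rw [hb]; exact (v i j).2, ?_⟩
  rintro g ⟨s, hs⟩
  let e : ∀ i, D i ≃ₗ[F] D (s i) := fun i =>
    (LinearEquiv.submoduleMap (le g) (D i)).trans (LinearEquiv.ofEq _ _ (hs i))
  have he : ∀ i (x : D i), ((e i x : D (s i)) : ι → F) = (g : Matrix ι ι F) *ᵥ (x : ι → F) := by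
    intro i x
    rfl
  refine ⟨s, fun i => LinearMap.toMatrix (v i) (v (s i)) (e i), fun i => ?_, fun i j => ?_⟩
  · exact (LinearEquiv.isUnit_det (e i) (v i) (v (s i))).ne_zero
  · rw [hb, ← he]
    conv_lhs => rw [← (v (s i)).sum_repr (e i (v i j))]
    rw [Submodule.coe_sum]
    refine Finset.sum_congr rfl fun k _ => ?_
    rw [hb]
    change _ = (LinearMap.toMatrix (v i) (v (s i)) (e i) k j) • ((v (s i) k : D (s i)) : ι → F)
    rw [LinearMap.toMatrix_apply]
    rfl

/-- lines -/
theorem line_basis {t : ℕ} {D : Fin t → Submodule F (ι → F)} (hD : IsMDecomposition 1 D) :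
    ∃ b : Basis (Fin t) F (ι → F), (∀ i, b i ∈ D i) ∧
      ∀ g ∈ decompositionStabilizer D, ∃ (s : Equiv.Perm (Fin t)) (c : Fin t → F),
        (∀ i, c i ≠ 0) ∧ ∀ i, (g : Matrix ι ι F) *ᵥ b i = c i • b (s i) := by
  obtain ⟨b, hb, h⟩ := dec_basis hD
  refine ⟨b.reindex (Equiv.prodUnique (Fin t) (Fin 1)), fun i => ?_, fun g hg => ?_⟩
  · rw [Basis.reindex_apply]
    exact hb i 0
  · obtain ⟨s, A, hA, hg'⟩ := h g hg
    refine ⟨s, fun i => A i 0 0, fun i => ?_, fun i => ?_⟩
    · have := hA i
      rwa [Matrix.det_fin_one] at this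
    · rw [Basis.reindex_apply, Basis.reindex_apply]
      have := hg' i 0
      rw [Fin.sum_univ_one] at this
      exact this

/-- `q = 2`: the sum of the vectors of the frame is fixed -/
theorem lines_two [Fintype F] (hq : Fintype.card F = 2) {t : ℕ} {D : Fin t → Submodule F (ι → F)} (hD : IsMDecomposition 1 D) :
    ∃ W : Submodule F (ι → F), W ≠ ⊥ ∧ W ≠ ⊤ ∧ decompositionStabilizer D ≤ subspaceStabilizer W := by
  classical
  obtain ⟨b, hb, h⟩ := line_basis hD
  have ht := hD.two_le
  have hone : ∀ c : F, c ≠ 0 → c = 1 := by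
    intro c hc
    have := FiniteField.pow_card_sub_one_eq_one c hc
    rwa [hq, pow_one] at this
  set w : ι → F := ∑ i, b i with hw
  have hw0 : w ≠ 0 := by
    intro h0
    have h1 := congrArg (fun x => b.repr x ⟨0, by omega⟩) h0
    simp only [hw, map_sum, Basis.repr_self, Finsupp.coe_finsetSum, Finset.sum_apply, map_zero, Finsupp.coe_zero, Pi.zero_apply] at h1
    rw [Finset.sum_eq_single ⟨0, by omega⟩] at h1
    · simp at h1
    · intro j _ hj
      exact Finsupp.single_eq_of_ne (Ne.symm hj)
    · intro h2; exact absurd (Finset.mem_univ _) h2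
  have hfix : ∀ g ∈ decompositionStabilizer D, (g : Matrix ι ι F) *ᵥ w = w := by
    intro g hg
    obtain ⟨s, c, hc, hs⟩ := h g hg
    rw [hw, Matrix.mulVec_sum]
    rw [← Equiv.sum_comp s b]
    refine Finset.sum_congr rfl fun i _ => ?_
    rw [hs, hone _ (hc i), one_smul]
  refine ⟨Submodule.span F {w}, ?_, ?_, ?_⟩
  · rwa [Ne, Submodule.span_singleton_eq_bot]
  · intro h1
    have h2 := finrank_span_singleton (K := F) hw0
    rw [h1, finrank_top, Module.finrank_eq_card_basis b, Fintype.card_fin] at h2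
    omega
  · intro g hg v
    change v ∈ Submodule.span F {w} ↔ (g : Matrix ι ι F) *ᵥ v ∈ Submodule.span F {w}
    have key : ∀ g ∈ decompositionStabilizer D, ∀ v ∈ Submodule.span F {w}, (g : Matrix ι ι F) *ᵥ v ∈ Submodule.span F {w} := by
      intro g hg v hv
      obtain ⟨a, rfl⟩ := Submodule.mem_span_singleton.mp hv
      rw [Matrix.mulVec_smul, hfix g hg]
      exact Submodule.smul_mem _ _ (Submodule.mem_span_singleton_self w)
    constructor
    · exact key g hg v
    · intro h1
      have h2 := key g⁻¹ (inv_mem hg) _ h1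
      rwa [Matrix.mulVec_mulVec, ← Units.val_mul, inv_mul_cancel, Units.val_one, Matrix.one_mulVec] at h2

section hf

variable {t : ℕ} (b : Basis (Fin t) F (ι → F)) (τ : F ≃+* F)

/-- the standard hermitian or symmetric form in a basis -/
noncomputable def hform (u v : ι → F) : F := ∑ i, b.repr u i * τ (b.repr v i)

theorem hform_basis_left (i : Fin t) (v : ι → F) : hform b τ (b i) v = τ (b.repr v i) := by
  rw [hform, Finset.sum_eq_single i]
  · simp
  · intro j _ hj
    rw [Basis.repr_self, Finsupp.single_eq_of_ne hj, zero_mul]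
  · intro h; exact absurd (Finset.mem_univ _) h

theorem hform_basis_right (i : Fin t) (v : ι → F) : hform b τ v (b i) = b.repr v i := by
  rw [hform, Finset.sum_eq_single i]
  · simp
  · intro j _ hj
    rw [Basis.repr_self, Finsupp.single_eq_of_ne hj, map_zero, mul_zero]
  · intro h; exact absurd (Finset.mem_univ _) h

theorem hform_nondeg : IsNondegenerateForm (hform b τ) := by
  intro v hv
  obtain ⟨i, hi⟩ : ∃ i, b.repr v i ≠ 0 := by
    by_contra hcon
    push Not at hcon
    apply hv
    apply b.repr.injective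
    ext i
    simp [hcon i]
  refine ⟨⟨b i, ?_⟩, ⟨b i, ?_⟩⟩
  · rw [hform_basis_left]
    exact fun h => hi ((map_eq_zero τ).mp h)
  · rw [hform_basis_right]; exact hi

theorem hform_add_left (x y v : ι → F) : hform b τ (x + y) v = hform b τ x v + hform b τ y v := by
  simp only [hform, map_add, Finsupp.add_apply, add_mul, Finset.sum_add_distrib]

theorem hform_smul_left (c : F) (x v : ι → F) : hform b τ (c • x) v = c * hform b τ x v := by
  simp only [hform, map_smul, Finsupp.smul_apply, smul_eq_mul, Finset.mul_sum, mul_assoc]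

theorem hform_herm (hτ : ∀ a, τ (τ a) = a) (u v : ι → F) : hform b τ u v = τ (hform b τ v u) := by
  simp only [hform, map_sum, map_mul, hτ]
  exact Finset.sum_congr rfl fun i _ => mul_comm _ _

theorem hform_mul {g : Matrix ι ι F} {s : Equiv.Perm (Fin t)} {c : Fin t → F} (hg : ∀ i, g *ᵥ b i = c i • b (s i))
    (hc : ∀ i, c i * τ (c i) = 1) (u v : ι → F) : hform b τ (g *ᵥ u) (g *ᵥ v) = hform b τ u v := by
  have hr : ∀ v i, b.repr (g *ᵥ v) (s i) = c i * b.repr v i := by
    intro v i
    conv_lhs => rw [← b.sum_repr v, Matrix.mulVec_sum]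
    simp only [Matrix.mulVec_smul, hg, map_sum, map_smul, Basis.repr_self, Finsupp.coe_finsetSum, Finset.sum_apply,
      Finsupp.smul_apply, smul_eq_mul]
    rw [Finset.sum_eq_single i]
    · rw [Finsupp.single_eq_same]; ring
    · intro j _ hj
      rw [Finsupp.single_eq_of_ne (fun h => hj (s.injective h).symm), mul_zero, mul_zero]
    · intro h; exact absurd (Finset.mem_univ _) h
  rw [hform, ← Equiv.sum_comp s, hform]
  refine Finset.sum_congr rfl fun i _ => ?_
  rw [hr, hr, map_mul]
  linear_combination (b.repr u i * τ (b.repr v i)) * hc i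

end hf

/-- `q = 3`: a monomial group preserves the sum of the squares -/
theorem lines_three [Fintype F] (hq : Fintype.card F = 3) {t : ℕ} {D : Fin t → Submodule F (ι → F)} (hD : IsMDecomposition 1 D) :
    ∃ Q : (ι → F) → F, IsNondegenerateQuadraticForm Q ∧ decompositionStabilizer D ≤ quadSimilarityGroup Q := by
  classical
  obtain ⟨b, hb, h⟩ := line_basis hD
  have h2 : (2 : F) ≠ 0 := by
    intro h2
    have hc : CharP F 2 := (CharP.charP_iff_prime_eq_zero Nat.prime_two).mpr (by exact_mod_cast h2)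
    have := FiniteField.even_card_of_char_two (ringChar.eq F 2)
    rw [hq] at this
    norm_num at this
  have hbil : IsBilinearForm (hform b (RingEquiv.refl F)) := by
    refine ⟨hform_add_left b _, hform_smul_left b _, ?_, ?_⟩
    · intro v x y
      rw [hform_herm b _ (fun _ => rfl), hform_add_left, map_add, ← hform_herm b _ (fun _ => rfl), ← hform_herm b _ (fun _ => rfl)]
    · intro c v x
      rw [hform_herm b _ (fun _ => rfl), hform_smul_left, map_mul, ← hform_herm b _ (fun _ => rfl)]
      rfl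
  obtain ⟨hQ, hle⟩ := quad_of_symm h2 hbil (fun u v => hform_herm b _ (fun _ => rfl) u v) (hform_nondeg b _)
  refine ⟨_, hQ, fun g hg => hle ?_⟩
  obtain ⟨s, c, hc, hs⟩ := h g hg
  refine ⟨1, fun u v => ?_⟩
  rw [hform_mul b _ hs (fun i => ?_), Units.val_one, one_mul]
  have := FiniteField.pow_card_sub_one_eq_one (c i) (hc i)
  rw [hq] at this
  change c i * c i = 1
  rw [← sq]; exact this

/-- `q = 4`: a monomial group preserves the standard hermitian form -/
theorem lines_four [Fintype F] (hq : Fintype.card F = 4) {t : ℕ} {D : Fin t → Submodule F (ι → F)} (hD : IsMDecomposition 1 D) :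
    ∃ (σ : F ≃+* F) (f : (ι → F) → (ι → F) → F), IsUnitaryForm σ f ∧ decompositionStabilizer D ≤ similarityGroup f := by
  classical
  obtain ⟨b, hb, h⟩ := line_basis hD
  have hc2 : CharP F 2 := by
    obtain ⟨p, hchar, e, hp, hcard⟩ := FiniteField.card' F
    rw [hq] at hcard
    have h2 : p ∣ 4 := by rw [hcard]; exact dvd_pow_self p e.2.ne'
    have h3 : p ∣ 2 := hp.dvd_of_dvd_pow (show p ∣ 2 ^ 2 from h2)
    have h4 : p = 2 := (Nat.prime_dvd_prime_iff_eq hp Nat.prime_two).mp h3
    rwa [h4] at hchar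
  obtain ⟨σ, hσ1, hσ2, hσ3⟩ := CfsgLib.Asch18.exists_sigma (F := F) (d := 1) Nat.prime_two (by rw [hq]; norm_num) one_pos
  refine ⟨σ, hform b σ, ⟨hσ1, hσ2, hform_add_left b σ, hform_smul_left b σ, hform_herm b σ hσ2, hform_nondeg b σ⟩, fun g hg => ?_⟩
  obtain ⟨s, c, hc, hs⟩ := h g hg
  refine ⟨1, fun u v => ?_⟩
  rw [hform_mul b _ hs (fun i => ?_), Units.val_one, one_mul]
  have := FiniteField.pow_card_sub_one_eq_one (c i) (hc i)
  rw [hq] at this
  rw [hσ3, pow_one, ← pow_succ']; exact this

end CfsgLib.AschSL2
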