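import Mathlib
import Cfsg.Agent.LibAschNumH13
import Cfsg.Agent.LibAschSL2

/-! small fields, lines -/
set_option autoImplicit false

namespace CfsgLib.AschOdd

open Module Cfsg Cfsg.Geo CfsgLib.AschSL1 CfsgLib.AschNum
open scoped Matrix MatrixGroups Kronecker

variable {ι : Type} [Fintype ι] [DecidableEq ι] {F : Type*} [Field F]

theorem lines_small [Fintype F] (hn : 3 ≤ Fintype.card ι) {H : Subgroup (GL ι F)} (hH : IsMaximalIn (specialLinear ι F) H)
    (hq : Fintype.card F < 5) {t : ℕ} {D : Fin t → Submodule F (ι → F)} (hD : IsMDecomposition 1 D)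
    (h : H ≤ decompositionStabilizer D) :
    (∃ W : Submodule F (ι → F), W ≠ ⊥ ∧ W ≠ ⊤ ∧ H = subspaceStabilizer W ⊓ specialLinear ι F) ∨
    (Odd (Fintype.card F) ∧ ∃ Q : (ι → F) → F, IsNondegenerateQuadraticForm Q ∧ H = quadSimilarityGroup Q ⊓ specialLinear ι F) ∨
    (∃ (σ : F ≃+* F) (f : (ι → F) → (ι → F) → F), IsUnitaryForm σ f ∧ H = similarityGroup f ⊓ specialLinear ι F) := by
  have h1 := Fintype.one_lt_card (α := F)
  rcases (by omega : Fintype.card F = 2 ∨ Fintype.card F = 3 ∨ Fintype.card F = 4) with h2 | h2 | h2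
  · left
    obtain ⟨W, hW0, hW1, hW⟩ := CfsgLib.AschSL2.lines_two h2 hD
    exact ⟨W, hW0, hW1, eq_of_max hH (h.trans hW) (not_le_red hW0 hW1)⟩
  · right; left
    obtain ⟨Q, hQ, hW⟩ := CfsgLib.AschSL2.lines_three h2 hD
    exact ⟨by rw [h2]; decide, Q, hQ, eq_of_max hH (h.trans hW) (not_le_orth hn hQ)⟩
  · right; right
    obtain ⟨σ, f, hf, hW⟩ := CfsgLib.AschSL2.lines_four h2 hD
    exact ⟨σ, f, hf, eq_of_max hH (h.trans hW) (not_le_uni hn hf)⟩

/-- the cases of odd prime dimension -/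
theorem prime_dim {n : ℕ} (hnp : n.Prime) (hn : 3 ≤ n) {F : Type*} [Field F] [Fintype F] (H : Subgroup (GL (Fin n) F))
    (hH : IsMaximalIn (specialLinear (Fin n) F) H) :
    (∃ W : Submodule F (Fin n → F), W ≠ ⊥ ∧ W ≠ ⊤ ∧ H = subspaceStabilizer W ⊓ specialLinear (Fin n) F) ∨
    (5 ≤ Fintype.card F ∧ ∃ D : Fin n → Submodule F (Fin n → F), IsMDecomposition 1 D ∧ H = decompositionStabilizer D ⊓ specialLinear (Fin n) F) ∨
    (∃ K : Subalgebra F (Matrix (Fin n) (Fin n) F), IsFieldSubalgebra n K ∧ H = subalgebraNormalizer K ⊓ specialLinear (Fin n) F) ∨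
    (∃ (F₀ : Subfield F) (r : ℕ) (P : GL (Fin n) F), r.Prime ∧ Fintype.card F = Nat.card F₀ ^ r ∧ H = subfieldSubgroup F₀ P ⊓ specialLinear (Fin n) F) ∨
    (∃ R : Subgroup (GL (Fin n) F), IsLinearSymplecticTypeData n R ∧ H = subgroupNormalizer R ⊓ specialLinear (Fin n) F) ∨
    (Odd (Fintype.card F) ∧ ∃ Q : (Fin n → F) → F, IsNondegenerateQuadraticForm Q ∧ H = quadSimilarityGroup Q ⊓ specialLinear (Fin n) F) ∨
    (∃ (σ : F ≃+* F) (f : (Fin n → F) → (Fin n → F) → F), IsUnitaryForm σ f ∧ H = similarityGroup f ⊓ specialLinear (Fin n) F) ∨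
    InLinearResidualClass H := by
  haveI : Nonempty (Fin n) := ⟨⟨0, by omega⟩⟩
  have hodd : Odd n := (hnp.eq_two_or_odd').resolve_left (by omega)
  have hcn : Fintype.card (Fin n) = n := Fintype.card_fin n
  have hn' : 3 ≤ Fintype.card (Fin n) := by rw [hcn]; exact hn
  rcases clsMax_of_isMaximalIn hn' hH with h | h
  · cases h with
    | red W h0 h1 h => exact Or.inl ⟨W, h0, h1, h⟩
    | dec t m D hD h =>
      have h1 := dec_mul hD
      rw [hcn] at h1
      have ht := hD.two_le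
      have h2 : t ∣ n := ⟨m, h1.symm⟩
      have h3 : t = n := ((Nat.dvd_prime hnp).1 h2).resolve_left (by omega)
      have h4 : m = 1 := by
        rw [h3] at h1
        exact Nat.eq_of_mul_eq_mul_left hnp.pos (by rw [h1, mul_one])
      subst h3
      subst h4
      by_cases hq : 5 ≤ Fintype.card F
      · exact Or.inr (Or.inl ⟨hq, D, hD, h⟩)
      · rcases lines_small hn' hH (by omega) hD (h.le.trans inf_le_left) with h5 | h5 | h5
        · exact Or.inl h5
        · exact Or.inr (Or.inr (Or.inr (Or.inr (Or.inr (Or.inl h5)))))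
        · exact Or.inr (Or.inr (Or.inr (Or.inr (Or.inr (Or.inr (Or.inl h5))))))
    | fld r K hr hK h =>
      have h1 := fld_dvd hK
      rw [hcn] at h1
      have h2 : r = n := (Nat.prime_dvd_prime_iff_eq hr hnp).1 h1
      subst h2
      exact Or.inr (Or.inr (Or.inl ⟨K, hK, h⟩))
    | tp n₁ n₂ e P h1 h2 h =>
      exfalso
      have h3 := tp_mul e
      rw [hcn] at h3
      have h4 : n₁ ∣ n := ⟨n₂, h3.symm⟩
      have h5 : n₁ = n := ((Nat.dvd_prime hnp).1 h4).resolve_left (by omega)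
      rw [h5] at h3
      have h6 : n₂ = 1 := Nat.eq_of_mul_eq_mul_left hnp.pos (by rw [h3, mul_one])
      omega
    | sub F₀ r P hr hc h => exact Or.inr (Or.inr (Or.inr (Or.inl ⟨F₀, r, P, hr, hc, h⟩)))
    | st r k R hR hk hal hc h =>
      rw [hcn] at hk
      have hr := hR.symplecticType.prime
      have hk0 : k ≠ 0 := by
        rintro rfl
        rw [pow_zero] at hk
        omega
      have h2 : r ∣ n := by rw [hk]; exact dvd_pow_self r hk0
      have h3 : r = n := (Nat.prime_dvd_prime_iff_eq hr hnp).1 h2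
      subst h3
      exact Or.inr (Or.inr (Or.inr (Or.inr (Or.inl ⟨R, hR, h⟩))))
    | tw m t e P hm ht h =>
      exfalso
      have h3 := tw_pow e
      rw [hcn] at h3
      have h4 := hnp
      rw [← h3] at h4
      exact Nat.Prime.not_prime_pow ht h4
    | sym f hf h =>
      exfalso
      have h3 := CfsgLib.Asch13.symplectic_even hf
      rw [hcn] at h3
      exact (Nat.not_even_iff_odd.2 hodd) h3
    | uni σ f hf h => exact Or.inr (Or.inr (Or.inr (Or.inr (Or.inr (Or.inr (Or.inl ⟨σ, f, hf, h⟩))))))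
    | orth Q hQ ho h => exact Or.inr (Or.inr (Or.inr (Or.inr (Or.inr (Or.inl ⟨ho, Q, hQ, h⟩)))))
  · exact Or.inr (Or.inr (Or.inr (Or.inr (Or.inr (Or.inr (Or.inr h))))))

end CfsgLib.AschOdd
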