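import Mathlib
import Cfsg.Agent.LibAschSL2

/-! small field reductions for the maximal subgroups of SL_n(q): planes (helper26) -/
set_option autoImplicit false
set_option linter.unusedSectionVars false

namespace CfsgLib.AschSL3

open Module Cfsg Cfsg.Geo CfsgLib.Asch6 CfsgLib.Asch8 CfsgLib.Asch13 CfsgLib.AschSL2
open scoped Matrix MatrixGroups

variable {ι : Type} [Fintype ι] [DecidableEq ι] {F : Type*} [Field F]

/-- the Gram matrix of an orthogonal sum of hyperbolic planes -/
def wpl {t : ℕ} (x y : Fin t × Fin 2) : F := if x.1 = y.1 then om x.2 y.2 else 0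

theorem wpl_skew {t : ℕ} (x y : Fin t × Fin 2) : (wpl x y : F) = - wpl y x := by
  unfold wpl
  by_cases h : x.1 = y.1
  · rw [if_pos h, if_pos h.symm, om_skew]
  · rw [if_neg h, if_neg (Ne.symm h), neg_zero]

theorem planes_form {t : ℕ} (b : Basis (Fin t × Fin 2) F (ι → F)) : IsSymplecticForm (bf b wpl) := by
  refine ⟨bf_bilin b wpl, bf_skew b wpl wpl_skew, bf_alt b wpl ?_ wpl_skew, ?_⟩
  · intro x
    simp [wpl, om]
  · intro v hv
    obtain ⟨⟨i, j⟩, hi⟩ : ∃ i, b.repr v i ≠ 0 := by
      by_contra hcon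
      push Not at hcon
      apply hv
      apply b.repr.injective
      ext i
      simp [hcon i]
    have h1 : bf b wpl (b (i, 1 - j)) v = b.repr v (i, j) * om (1 - j) j := by
      conv_lhs => rw [← b.sum_repr v]
      rw [bil_sum_right (bf_bilin b wpl), Finset.sum_eq_single (i, j)]
      · rw [(bf_bilin b wpl).smul_right, bf_basis, wpl, if_pos rfl]
      · rintro ⟨i', j'⟩ _ hne
        rw [(bf_bilin b wpl).smul_right, bf_basis, wpl]
        by_cases hi' : i = i'
        · subst hi'
          rw [if_pos rfl]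
          have : j' ≠ j := fun h => hne (by rw [h])
          have : j' = 1 - j := by
            fin_cases j <;> fin_cases j' <;> simp_all
          simp [om, this]
        · rw [if_neg hi', mul_zero]
      · intro h; exact absurd (Finset.mem_univ _) h
    have h2 : (om (1 - j) j : F) ≠ 0 := by
      have := om_flip (F := F) (1 - j)
      rwa [CfsgLib.Asch8.flip_flip] at this
    refine ⟨⟨b (i, 1 - j), ?_⟩, ⟨b (i, 1 - j), ?_⟩⟩
    · rw [h1]; exact mul_ne_zero hi h2
    · rw [bf_skew b wpl wpl_skew, h1]; exact neg_ne_zero.mpr (mul_ne_zero hi h2)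

theorem planes_sim {t : ℕ} (b : Basis (Fin t × Fin 2) F (ι → F)) {g : GL ι F} {s : Equiv.Perm (Fin t)}
    {A : Fin t → Matrix (Fin 2) (Fin 2) F} (hg : ∀ i j, (g : Matrix ι ι F) *ᵥ b (i, j) = ∑ k, A i k j • b (s i, k))
    {d : F} (hd : d ≠ 0) (hA : ∀ i, (A i).det = d) : g ∈ similarityGroup (bf b wpl) := by
  refine ⟨Units.mk0 d hd, ?_⟩
  have hbil := bf_bilin b (wpl (F := F) (t := t))
  rw [Units.val_mk0]
  have := bil_ext b (bil_comp hbil (g : Matrix ι ι F)) (bil_smul hbil d) (fun x y => ?_)
  · exact this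
  · obtain ⟨i, j⟩ := x
    obtain ⟨i', j'⟩ := y
    rw [hg, hg, bf_basis, bil_sum_left hbil]
    simp only [bil_sum_right hbil, hbil.smul_left, hbil.smul_right, bf_basis, wpl]
    by_cases h : i = i'
    · subst h
      have e : (if (i, j).1 = (i, j').1 then om (i, j).2 (i, j').2 else 0 : F) = om j j' := if_pos rfl
      rw [e, ← hA i, ← om_det]
      refine Finset.sum_congr rfl fun x _ => Finset.sum_congr rfl fun y _ => ?_
      rw [if_pos rfl]; ring
    · simp only [if_neg h, if_neg (fun h' => h (s.injective h')), mul_zero, Finset.sum_const_zero]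

/-- planes over the field of two elements -/
theorem planes_two [Fintype F] (hq : Fintype.card F = 2) {t : ℕ} {D : Fin t → Submodule F (ι → F)} (hD : IsMDecomposition 2 D) :
    ∃ f : (ι → F) → (ι → F) → F, IsSymplecticForm f ∧ decompositionStabilizer D ≤ similarityGroup f := by
  obtain ⟨b, hb, h⟩ := dec_basis hD
  refine ⟨_, planes_form b, fun g hg => ?_⟩
  obtain ⟨s, A, hA, hg'⟩ := h g hg
  refine planes_sim b hg' one_ne_zero fun i => ?_
  have := FiniteField.pow_card_sub_one_eq_one _ (hA i)
  rwa [hq, pow_one] at this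

theorem det_planes {t : ℕ} (b : Basis (Fin t × Fin 2) F (ι → F)) {g : GL ι F} {s : Equiv.Perm (Fin t)}
    {A : Fin t → Matrix (Fin 2) (Fin 2) F} (hg : ∀ i j, (g : Matrix ι ι F) *ᵥ b (i, j) = ∑ k, A i k j • b (s i, k)) :
    (g : Matrix ι ι F).det = ∏ i, (A i).det := by
  classical
  rw [← LinearMap.det_toLin', ← LinearMap.det_toMatrix b]
  have hM : LinearMap.toMatrix b b (Matrix.toLin' (g : Matrix ι ι F)) =
      (((Matrix.blockDiagonal A).submatrix (Equiv.prodComm (Fin t) (Fin 2)) (Equiv.prodComm (Fin t) (Fin 2))).submatrix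
        (Equiv.prodCongrLeft (fun _ : Fin 2 => s)).symm id) := by
    ext ⟨i, k⟩ ⟨i', j⟩
    rw [LinearMap.toMatrix_apply, Matrix.toLin'_apply, hg]
    simp only [map_sum, map_smul, Basis.repr_self, Finsupp.coe_finsetSum, Finset.sum_apply, Finsupp.smul_apply, smul_eq_mul]
    simp only [Matrix.submatrix_apply, Equiv.prodComm_apply, id_eq, Matrix.blockDiagonal_apply]
    have h1 : (Equiv.prodCongrLeft (fun _ : Fin 2 => s)).symm (i, k) = (s.symm i, k) := rfl
    rw [h1]
    simp only [Prod.swap_prod_mk]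
    by_cases h2 : s.symm i = i'
    · rw [if_pos h2]
      have h3 : s i' = i := by rw [← h2, Equiv.apply_symm_apply]
      rw [h2, Finset.sum_eq_single k]
      · rw [h3, Finsupp.single_eq_same, mul_one]
      · intro j' _ hj'
        rw [Finsupp.single_eq_of_ne (fun h => hj' (congrArg Prod.snd h).symm), mul_zero]
      · intro h; exact absurd (Finset.mem_univ _) h
    · rw [if_neg h2]
      refine Finset.sum_eq_zero fun j' _ => ?_
      rw [Finsupp.single_eq_of_ne (fun h => h2 ?_), mul_zero]
      have h3 : i = s i' := congrArg Prod.fst h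
      rw [h3, Equiv.symm_apply_apply]
  rw [hM, Matrix.det_permute, Matrix.det_submatrix_equiv_self, Matrix.det_blockDiagonal, Equiv.Perm.sign_symm,
    Equiv.Perm.sign_prodCongrLeft]
  simp

/-- two planes over the field of three elements, determinant one -/
theorem planes_three [Fintype F] (hq : Fintype.card F = 3) {D : Fin 2 → Submodule F (ι → F)} (hD : IsMDecomposition 2 D) :
    ∃ f : (ι → F) → (ι → F) → F, IsSymplecticForm f ∧ decompositionStabilizer D ⊓ specialLinear ι F ≤ similarityGroup f := by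
  obtain ⟨b, hb, h⟩ := dec_basis hD
  refine ⟨_, planes_form b, fun g hg => ?_⟩
  obtain ⟨s, A, hA, hg'⟩ := h g hg.1
  have hdet : (g : Matrix ι ι F).det = 1 := by
    have h1 : Matrix.GeneralLinearGroup.det g = 1 := MonoidHom.mem_ker.mp hg.2
    exact congrArg (fun u : Fˣ => (u : F)) h1
  rw [det_planes b hg', Fin.prod_univ_two] at hdet
  have h0 := FiniteField.pow_card_sub_one_eq_one _ (hA 0)
  rw [hq] at h0
  have h01 : (A 1).det = (A 0).det := by
    apply mul_left_cancel₀ (hA 0)
    rw [hdet, ← sq]; exact h0.symm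
  refine planes_sim b hg' (hA 0) fun i => ?_
  fin_cases i
  · rfl
  · exact h01

end CfsgLib.AschSL3
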