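import Mathlib
import Cfsg.Agent.LibAschSL3

/-! small field reductions for the maximal subgroups of SL_n(q): tensor products 2 x m over the field of two elements (helper26) -/
set_option autoImplicit false
set_option linter.unusedSectionVars false

namespace CfsgLib.AschSL4

open Module Cfsg Cfsg.Geo CfsgLib.Asch6 CfsgLib.Asch8 CfsgLib.Asch13 CfsgLib.AschSL2
open scoped Matrix MatrixGroups Kronecker

variable {ι : Type} [Fintype ι] [DecidableEq ι] {F : Type*} [Field F]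

/-- `F[ω]` with `ω² = ω + 1` inside the two by two matrices -/
def K₀ (F : Type*) [Field F] : Subalgebra F (Matrix (Fin 2) (Fin 2) F) where
  carrier := {x | ∃ a b : F, x = !![a, b; b, a + b]}
  mul_mem' := by
    rintro _ _ ⟨a, b, rfl⟩ ⟨c, d, rfl⟩
    refine ⟨a * c + b * d, a * d + b * c + b * d, ?_⟩
    ext i j
    fin_cases i <;> fin_cases j <;> simp [Matrix.mul_apply, Fin.sum_univ_two] <;> ring
  add_mem' := by
    rintro _ _ ⟨a, b, rfl⟩ ⟨c, d, rfl⟩
    refine ⟨a + c, b + d, ?_⟩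
    ext i j
    fin_cases i <;> fin_cases j <;> simp <;> ring
  algebraMap_mem' := by
    intro r
    refine ⟨r, 0, ?_⟩
    ext i j
    fin_cases i <;> fin_cases j <;> simp [Matrix.algebraMap_matrix_apply]

theorem mem_K₀ (x : Matrix (Fin 2) (Fin 2) F) : x ∈ K₀ F ↔ ∃ a b : F, x = !![a, b; b, a + b] := Iff.rfl

theorem two_elems [Fintype F] (hq : Fintype.card F = 2) (x : F) : x = 0 ∨ x = 1 := by
  by_cases h : x = 0
  · exact Or.inl h
  · right
    have := FiniteField.pow_card_sub_one_eq_one x h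
    rwa [hq, pow_one] at this

theorem K₀_field [Fintype F] (hq : Fintype.card F = 2) : IsFieldSubalgebra 2 (K₀ F) := by
  have h11 : (1 : F) + 1 = 0 := by
    rcases two_elems hq (1 + 1 : F) with h | h
    · exact h
    · exact absurd (add_eq_left.mp h) one_ne_zero
  refine ⟨?_, ?_, ?_⟩
  · rintro _ ⟨a, b, rfl⟩ _ ⟨c, d, rfl⟩
    ext i j
    fin_cases i <;> fin_cases j <;> simp [Matrix.mul_apply, Fin.sum_univ_two] <;> ring
  · rintro _ ⟨a, b, rfl⟩ hne
    have hd : a ^ 2 + a * b - b ^ 2 ≠ 0 := by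
      rcases two_elems hq a with ha | ha <;> rcases two_elems hq b with hb | hb
      · exfalso; apply hne; rw [ha, hb]
        ext i j
        fin_cases i <;> fin_cases j <;> simp
      · rw [ha, hb]; simp
      · rw [ha, hb]; simp
      · rw [ha, hb]; simp
    refine ⟨(a ^ 2 + a * b - b ^ 2)⁻¹ • !![a + b, -b; -b, a + b + -b], Subalgebra.smul_mem (K₀ F) ((mem_K₀ _).mpr ⟨_, _, rfl⟩) _, ?_⟩
    have h1 : (!![a, b; b, a + b] : Matrix (Fin 2) (Fin 2) F) * !![a + b, -b; -b, a + b + -b] = (a ^ 2 + a * b - b ^ 2) • (1 : Matrix (Fin 2) (Fin 2) F) := by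
      ext i j
      fin_cases i <;> fin_cases j <;> simp [Matrix.mul_apply, Fin.sum_univ_two] <;> ring
    rw [Matrix.mul_smul, h1, smul_smul, inv_mul_cancel₀ hd, one_smul]
  · let f : (F × F) →ₗ[F] Matrix (Fin 2) (Fin 2) F :=
      { toFun := fun p => !![p.1, p.2; p.2, p.1 + p.2]
        map_add' := fun p q => by
          ext i j
          fin_cases i <;> fin_cases j <;> simp <;> ring
        map_smul' := fun c p => by
          ext i j
          fin_cases i <;> fin_cases j <;> simp <;> ring }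
    have hf : Function.Injective f := by
      intro p q h
      have h0 := congrFun (congrFun h 0) 0
      have h1 := congrFun (congrFun h 0) 1
      exact Prod.ext h0 h1
    have hr : LinearMap.range f = Subalgebra.toSubmodule (K₀ F) := by
      ext x
      constructor
      · rintro ⟨p, rfl⟩; exact ⟨p.1, p.2, rfl⟩
      · rintro ⟨a, b, rfl⟩; exact ⟨(a, b), rfl⟩
    have h1 := LinearMap.finrank_range_of_inj hf
    rw [hr] at h1
    rw [Module.finrank_prod, Module.finrank_self] at h1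
    exact h1

theorem K₀_norm [Fintype F] (hq : Fintype.card F = 2) (a : GL (Fin 2) F) {x : Matrix (Fin 2) (Fin 2) F} (hx : x ∈ K₀ F) :
    (a : Matrix (Fin 2) (Fin 2) F) * x * ((a⁻¹ : GL (Fin 2) F) : Matrix (Fin 2) (Fin 2) F) ∈ K₀ F := by
  have h11 : (1 : F) + 1 = 0 := by
    rcases two_elems hq (1 + 1 : F) with h | h
    · exact h
    · exact absurd (add_eq_left.mp h) one_ne_zero
  obtain ⟨c, d, rfl⟩ := hx
  set w : Matrix (Fin 2) (Fin 2) F := !![0, 1; 1, 1] with hw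
  have hx : (!![c, d; d, c + d] : Matrix (Fin 2) (Fin 2) F) = c • (1 : Matrix (Fin 2) (Fin 2) F) + d • w := by
    ext i j
    fin_cases i <;> fin_cases j <;> simp [hw]
  set y := (a : Matrix (Fin 2) (Fin 2) F) * w * ((a⁻¹ : GL (Fin 2) F) : Matrix (Fin 2) (Fin 2) F) with hy
  have ha : (a : Matrix (Fin 2) (Fin 2) F) * ((a⁻¹ : GL (Fin 2) F) : Matrix (Fin 2) (Fin 2) F) = 1 := by
    rw [← Units.val_mul, mul_inv_cancel, Units.val_one]
  have ha' : ((a⁻¹ : GL (Fin 2) F) : Matrix (Fin 2) (Fin 2) F) * (a : Matrix (Fin 2) (Fin 2) F) = 1 := by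
    rw [← Units.val_mul, inv_mul_cancel, Units.val_one]
  have ht : y.trace = 1 := by
    rw [hy, Matrix.trace_mul_comm, ← mul_assoc, ha', one_mul, hw, Matrix.trace_fin_two_of, zero_add]
  have hd : y.det = 1 := by
    rw [hy, Matrix.det_mul, Matrix.det_mul, mul_right_comm, ← Matrix.det_mul, ha, Matrix.det_one, one_mul, hw, Matrix.det_fin_two_of]
    linear_combination -h11
  have hyK : ∃ p : F, y = !![p, 1; 1, p + 1] := by
    rw [Matrix.trace_fin_two] at ht
    rw [Matrix.det_fin_two] at hd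
    refine ⟨y 0 0, ?_⟩
    have e1 : y 0 1 = 1 ∧ y 1 0 = 1 := by
      rcases two_elems hq (y 0 0) with h0 | h0 <;> rcases two_elems hq (y 0 1) with h1 | h1 <;>
        rcases two_elems hq (y 1 0) with h2 | h2 <;> rcases two_elems hq (y 1 1) with h3 | h3 <;>
        rw [h0, h3] at ht <;> rw [h0, h1, h2, h3] at hd <;> simp_all
    have e2 : y 1 1 = y 0 0 + 1 := by linear_combination ht - y 0 0 * h11
    ext i j
    fin_cases i <;> fin_cases j
    · rfl
    · exact e1.1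
    · exact e1.2
    · exact e2
  obtain ⟨p, hp⟩ := hyK
  rw [hx, Matrix.mul_add, Matrix.add_mul, Matrix.mul_smul, Matrix.mul_smul, Matrix.smul_mul, Matrix.smul_mul, Matrix.mul_one, ha, ← hy, hp]
  refine ⟨c + d * p, d, ?_⟩
  ext i j
  fin_cases i <;> fin_cases j <;> simp <;> ring

/-- `x ↦ x ⊗ 1` -/
def kr (m : ℕ) (F : Type*) [Field F] : Matrix (Fin 2) (Fin 2) F →ₐ[F] Matrix (Fin 2 × Fin m) (Fin 2 × Fin m) F where
  toFun x := x ⊗ₖ (1 : Matrix (Fin m) (Fin m) F)
  map_one' := Matrix.one_kronecker_one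
  map_mul' x y := by
    have := Matrix.mul_kronecker_mul x y (1 : Matrix (Fin m) (Fin m) F) (1 : Matrix (Fin m) (Fin m) F)
    rwa [mul_one] at this
  map_zero' := Matrix.zero_kronecker _
  map_add' x y := Matrix.add_kronecker _ _ _
  commutes' r := by
    rw [Algebra.algebraMap_eq_smul_one, Algebra.algebraMap_eq_smul_one, Matrix.smul_kronecker, Matrix.one_kronecker_one]

theorem kr_injective {m : ℕ} (hm : 0 < m) : Function.Injective (kr m F) := by
  intro x y h
  ext i j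
  have := congrFun (congrFun h (i, ⟨0, hm⟩)) (j, ⟨0, hm⟩)
  simpa [kr, Matrix.kroneckerMap_apply] using this

theorem tensor_two [Fintype F] (hq : Fintype.card F = 2) {m : ℕ} (hm : 0 < m) (e : ι ≃ Fin 2 × Fin m) (P : GL ι F) :
    ∃ K : Subalgebra F (Matrix ι ι F), IsFieldSubalgebra 2 K ∧ tensorProductSubgroup 2 m e P ≤ subalgebraNormalizer K := by
  let φ : Matrix (Fin 2) (Fin 2) F →ₐ[F] Matrix ι ι F :=
    ((cj P : Matrix ι ι F ≃ₐ[F] Matrix ι ι F) : Matrix ι ι F →ₐ[F] Matrix ι ι F).comp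
      (((Matrix.reindexAlgEquiv F F e.symm : Matrix (Fin 2 × Fin m) (Fin 2 × Fin m) F ≃ₐ[F] Matrix ι ι F) : _ →ₐ[F] _).comp (kr m F))
  have hφ : Function.Injective φ := (cj P).injective.comp ((Matrix.reindexAlgEquiv F F e.symm).injective.comp (kr_injective hm))
  have hφ' : ∀ x, φ x = (P : Matrix ι ι F) * (Matrix.reindexAlgEquiv F F e.symm (x ⊗ₖ (1 : Matrix (Fin m) (Fin m) F))) * ((P⁻¹ : GL ι F) : Matrix ι ι F) := fun x => rfl
  have hK := K₀_field hq
  refine ⟨(K₀ F).map φ, ⟨?_, ?_, ?_⟩, ?_⟩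
  · rintro _ ⟨x, hx, rfl⟩ _ ⟨y, hy, rfl⟩
    change φ x * φ y = φ y * φ x
    rw [← map_mul, ← map_mul, hK.comm x hx y hy]
  · rintro _ ⟨x, hx, rfl⟩ hne
    obtain ⟨y, hy, hxy⟩ := hK.inv x hx (fun h => hne (by rw [h]; exact map_zero φ))
    refine ⟨φ y, ⟨y, hy, rfl⟩, ?_⟩
    change φ x * φ y = 1
    rw [← map_mul, hxy, map_one]
  · exact (((K₀ F).equivMapOfInjective φ hφ).symm.toLinearEquiv.finrank_eq).trans hK.finrank_eq
  · have key : ∀ g ∈ tensorProductSubgroup 2 m e P, ∀ k ∈ (K₀ F).map φ,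
        (g : Matrix ι ι F) * k * ((g⁻¹ : GL ι F) : Matrix ι ι F) ∈ (K₀ F).map φ := by
      rintro _ ⟨_, ⟨X, ⟨a, b, hX⟩, rfl⟩, rfl⟩ _ ⟨x, hx, rfl⟩
      refine ⟨_, K₀_norm hq a hx, ?_⟩
      change φ _ = ((P * glReindex e.symm X * P⁻¹ : GL ι F) : Matrix ι ι F) * φ x * (((P * glReindex e.symm X * P⁻¹)⁻¹ : GL ι F) : Matrix ι ι F)
      rw [hφ', hφ']
      have hP : ((P⁻¹ : GL ι F) : Matrix ι ι F) * (P : Matrix ι ι F) = 1 := by
        rw [← Units.val_mul, inv_mul_cancel, Units.val_one]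
      have hinv : (P * glReindex e.symm X * P⁻¹)⁻¹ = P * glReindex e.symm X⁻¹ * P⁻¹ := by
        rw [map_inv]; group
      have hXi : ((X⁻¹ : GL (Fin 2 × Fin m) F) : Matrix (Fin 2 × Fin m) (Fin 2 × Fin m) F) =
          ((a⁻¹ : GL (Fin 2) F) : Matrix (Fin 2) (Fin 2) F) ⊗ₖ ((b⁻¹ : GL (Fin m) F) : Matrix (Fin m) (Fin m) F) := by
        have h1 : (X : Matrix (Fin 2 × Fin m) (Fin 2 × Fin m) F) *
            (((a⁻¹ : GL (Fin 2) F) : Matrix (Fin 2) (Fin 2) F) ⊗ₖ ((b⁻¹ : GL (Fin m) F) : Matrix (Fin m) (Fin m) F)) = 1 := by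
          rw [hX, ← Matrix.mul_kronecker_mul, ← Units.val_mul, ← Units.val_mul, mul_inv_cancel, mul_inv_cancel,
            Units.val_one, Units.val_one, Matrix.one_kronecker_one]
        exact Units.inv_eq_of_mul_eq_one_right h1
      have hre : ∀ Y : GL (Fin 2 × Fin m) F, ((glReindex e.symm Y : GL ι F) : Matrix ι ι F) =
        Matrix.reindexAlgEquiv F F e.symm (Y : Matrix (Fin 2 × Fin m) (Fin 2 × Fin m) F) := fun Y => rfl
      have hb : (b : Matrix (Fin m) (Fin m) F) * ((b⁻¹ : GL (Fin m) F) : Matrix (Fin m) (Fin m) F) = 1 := by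
        rw [← Units.val_mul, mul_inv_cancel, Units.val_one]
      have hmid : Matrix.reindexAlgEquiv F F e.symm (X : Matrix (Fin 2 × Fin m) (Fin 2 × Fin m) F) *
          Matrix.reindexAlgEquiv F F e.symm (x ⊗ₖ (1 : Matrix (Fin m) (Fin m) F)) *
          Matrix.reindexAlgEquiv F F e.symm ((X⁻¹ : GL (Fin 2 × Fin m) F) : Matrix (Fin 2 × Fin m) (Fin 2 × Fin m) F) =
          Matrix.reindexAlgEquiv F F e.symm (((a : Matrix (Fin 2) (Fin 2) F) * x * ((a⁻¹ : GL (Fin 2) F) : Matrix (Fin 2) (Fin 2) F)) ⊗ₖ (1 : Matrix (Fin m) (Fin m) F)) := by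
        rw [← map_mul, ← map_mul, hXi, hX, ← Matrix.mul_kronecker_mul, ← Matrix.mul_kronecker_mul, mul_one, hb]
      rw [← hmid, hinv, Units.val_mul, Units.val_mul, Units.val_mul, Units.val_mul, hre, hre]
      generalize (Matrix.reindexAlgEquiv F F e.symm (X : Matrix (Fin 2 × Fin m) (Fin 2 × Fin m) F)) = A1
      generalize (Matrix.reindexAlgEquiv F F e.symm (x ⊗ₖ (1 : Matrix (Fin m) (Fin m) F))) = A2
      generalize (Matrix.reindexAlgEquiv F F e.symm ((X⁻¹ : GL (Fin 2 × Fin m) F) : Matrix (Fin 2 × Fin m) (Fin 2 × Fin m) F)) = A3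
      generalize (P : Matrix ι ι F) = B1 at *
      generalize ((P⁻¹ : GL ι F) : Matrix ι ι F) = B2 at *
      calc B1 * (A1 * A2 * A3) * B2 = B1 * A1 * 1 * A2 * 1 * A3 * B2 := by noncomm_ring
        _ = B1 * A1 * B2 * (B1 * A2 * B2) * (B1 * A3 * B2) := by rw [← hP]; noncomm_ring
    intro g hg k
    constructor
    · exact key g hg k
    · intro h
      have h2 := key g⁻¹ (inv_mem hg) _ h
      rw [inv_inv] at h2
      have h3 : ((g⁻¹ : GL ι F) : Matrix ι ι F) * ((g : Matrix ι ι F) * k * ((g⁻¹ : GL ι F) : Matrix ι ι F)) * (g : Matrix ι ι F) = k := by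
        have e1 : ((g⁻¹ : GL ι F) : Matrix ι ι F) * (g : Matrix ι ι F) = 1 := by
          rw [← Units.val_mul, inv_mul_cancel, Units.val_one]
        calc _ = (((g⁻¹ : GL ι F) : Matrix ι ι F) * (g : Matrix ι ι F)) * k * (((g⁻¹ : GL ι F) : Matrix ι ι F) * (g : Matrix ι ι F)) := by
              simp only [mul_assoc]
          _ = k := by rw [e1, one_mul, mul_one]
      rwa [h3] at h2

end CfsgLib.AschSL4
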