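import Mathlib
import Cfsg.Agent.LibAschSL4

/-! small field reductions for the maximal subgroups of SL_n(q): monomial subgroups of SL_4(5) (helper26) -/
set_option autoImplicit false
set_option linter.unusedSectionVars false

namespace CfsgLib.AschSL5

open Module Cfsg Cfsg.Geo CfsgLib.Asch6 CfsgLib.Asch9 CfsgLib.Asch10 CfsgLib.Asch11 CfsgLib.Asch13 CfsgLib.Asch15 CfsgLib.Asch16
  CfsgLib.Asch18 CfsgLib.AschSL2
open scoped Matrix MatrixGroups

abbrev A2 := ZMod 2 × ZMod 2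

variable {ι : Type} [Fintype ι] [DecidableEq ι] {F : Type*} [Field F]

theorem a2_add (v : A2) : v + v = 0 := by revert v; decide

theorem a2_univ : ∀ x v y : A2, v ≠ 0 → y ≠ x → y ≠ x + v → (Finset.univ : Finset A2) = {x, x + v, y, y + v} ∧
    x ∉ ({x + v, y, y + v} : Finset A2) ∧ x + v ∉ ({y, y + v} : Finset A2) ∧ y ∉ ({y + v} : Finset A2) := by decide

theorem a2_normal : ∀ (s : Equiv.Perm A2) (v : A2), ∃ w : A2, ∀ x, s (x + v) = s x + w := by decide

/-- admissible coefficient functions -/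
structure Good (c : A2 → F) : Prop where
  sq : ∀ x y, c x ^ 2 = c y ^ 2
  prod : ∏ x, c x = 1

theorem Good.ne {c : A2 → F} (hc : Good c) (x : A2) : c x ≠ 0 := by
  intro h
  have := hc.prod
  rw [Finset.prod_eq_zero (Finset.mem_univ x) h] at this
  exact zero_ne_one this

theorem Good.one : Good (fun _ => (1 : F)) := ⟨fun _ _ => rfl, by simp⟩

theorem Good.shift {c : A2 → F} (hc : Good c) (v : A2) : Good (fun x => c (x + v)) :=
  ⟨fun _ _ => hc.sq _ _, by rw [← hc.prod]; exact Equiv.prod_comp (Equiv.addRight v) c⟩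

theorem Good.mul {c d : A2 → F} (hc : Good c) (hd : Good d) : Good (fun x => c x * d x) :=
  ⟨fun x y => by rw [mul_pow, mul_pow, hc.sq x y, hd.sq x y], by rw [Finset.prod_mul_distrib, hc.prod, hd.prod, mul_one]⟩

theorem Good.inv {c : A2 → F} (hc : Good c) : Good (fun x => (c x)⁻¹) :=
  ⟨fun x y => by rw [inv_pow, inv_pow, hc.sq x y], by rw [Finset.prod_inv_distrib, hc.prod, inv_one]⟩

/-- products along the cosets are constant -/
theorem Good.pair (h4 : ∀ x : F, x ≠ 0 → x ^ 4 = 1) {c : A2 → F} (hc : Good c) (v x y : A2) :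
    c x * c (x + v) = c y * c (y + v) := by
  by_cases hv : v = 0
  · rw [hv, add_zero, add_zero, ← _root_.sq, ← _root_.sq]; exact hc.sq x y
  by_cases h1 : y = x
  · rw [h1]
  by_cases h2 : y = x + v
  · rw [h2, add_assoc, a2_add, add_zero, mul_comm]
  obtain ⟨hu, n1, n2, n3⟩ := a2_univ x v y hv h1 h2
  have hp := hc.prod
  rw [hu, Finset.prod_insert n1, Finset.prod_insert n2, Finset.prod_insert n3, Finset.prod_singleton] at hp
  have h5 : (c x * c (x + v)) ^ 2 = 1 := by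
    rw [mul_pow, hc.sq (x + v) x, ← pow_add]; exact h4 _ (hc.ne x)
  linear_combination (c y * c (y + v)) * h5 - (c x * c (x + v)) * hp

theorem Good.pair_sq (h4 : ∀ x : F, x ≠ 0 → x ^ 4 = 1) {c : A2 → F} (hc : Good c) (x y : A2) :
    (c x * c y) ^ 2 = 1 := by
  rw [mul_pow, hc.sq y x, ← pow_add]; exact h4 _ (hc.ne x)

variable (b : Basis A2 F (ι → F))

theorem mat_ext {M N : Matrix ι ι F} (h : ∀ x, M *ᵥ b x = N *ᵥ b x) : M = N := by
  apply Matrix.toLin'.injective
  apply b.ext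
  intro x
  rw [Matrix.toLin'_apply, Matrix.toLin'_apply, h]

/-- monomial matrices -/
noncomputable def Mt (c : A2 → F) (v : A2) : Matrix ι ι F :=
  LinearMap.toMatrix' (b.constr F (fun x => c x • b (x + v)))

theorem Mt_mulVec (c : A2 → F) (v x : A2) : Mt b c v *ᵥ b x = c x • b (x + v) := by
  rw [Mt, LinearMap.toMatrix'_mulVec, Basis.constr_basis]

theorem Mt_add (c d : A2 → F) (v : A2) : Mt b (c + d) v = Mt b c v + Mt b d v := by
  apply mat_ext b
  intro x
  rw [Matrix.add_mulVec, Mt_mulVec, Mt_mulVec, Mt_mulVec, Pi.add_apply, add_smul]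

theorem Mt_smul (a : F) (c : A2 → F) (v : A2) : Mt b (a • c) v = a • Mt b c v := by
  apply mat_ext b
  intro x
  rw [Matrix.smul_mulVec, Mt_mulVec, Mt_mulVec, Pi.smul_apply, smul_eq_mul, mul_smul]

theorem Mt_mul (c d : A2 → F) (v w : A2) : Mt b c v * Mt b d w = Mt b (fun x => d x * c (x + w)) (w + v) := by
  apply mat_ext b
  intro x
  rw [← Matrix.mulVec_mulVec, Mt_mulVec, Matrix.mulVec_smul, Mt_mulVec, Mt_mulVec, smul_smul, add_assoc]

theorem Mt_one : Mt b (fun _ => 1) 0 = 1 := by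
  apply mat_ext b
  intro x
  rw [Mt_mulVec, add_zero, one_smul, Matrix.one_mulVec]

/-- the invertible monomial matrices -/
noncomputable def gl (c : A2 → F) (v : A2) (hc : ∀ x, c x ≠ 0) : GL ι F where
  val := Mt b c v
  inv := Mt b (fun x => (c (x + v))⁻¹) v
  val_inv := by
    rw [Mt_mul, a2_add, ← Mt_one b]
    congr 1
    funext x
    exact inv_mul_cancel₀ (hc _)
  inv_val := by
    rw [Mt_mul, a2_add, ← Mt_one b]
    congr 1
    funext x
    rw [add_assoc, a2_add, add_zero]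
    exact mul_inv_cancel₀ (hc _)

theorem gl_coe (c : A2 → F) (v : A2) (hc : ∀ x, c x ≠ 0) : (gl b c v hc : Matrix ι ι F) = Mt b c v := rfl

/-- the symplectic type group -/
def R : Subgroup (GL ι F) where
  carrier := {g | ∃ (v : A2) (c : A2 → F), Good c ∧ (g : Matrix ι ι F) = Mt b c v}
  mul_mem' := by
    rintro g h ⟨v, c, hc, hg⟩ ⟨w, d, hd, hh⟩
    refine ⟨w + v, _, hd.mul (hc.shift w), ?_⟩
    rw [Units.val_mul, hg, hh, Mt_mul]
  one_mem' := ⟨0, _, Good.one, by rw [Units.val_one, Mt_one]⟩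
  inv_mem' := by
    rintro g ⟨v, c, hc, hg⟩
    refine ⟨v, _, (hc.shift v).inv, ?_⟩
    have : g = gl b c v hc.ne := Units.ext hg
    rw [this]; rfl

theorem mem_R (g : GL ι F) : g ∈ R b ↔ ∃ (v : A2) (c : A2 → F), Good c ∧ (g : Matrix ι ι F) = Mt b c v := Iff.rfl

section five

variable (h4 : ∀ x : F, x ≠ 0 → x ^ 4 = 1)
include h4

/-- monomial matrices whose coefficient product squares to one normalise R -/
theorem nrd {H : Subgroup (GL ι F)} (hH : ∀ h ∈ H, ∃ (s : Equiv.Perm A2) (d : A2 → F), (∀ x, d x ≠ 0) ∧ (∏ x, d x) ^ 2 = 1 ∧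
    ∀ x, (h : Matrix ι ι F) *ᵥ b x = d x • b (s x)) : Nrd H (R b) := by
  intro h hh g hg
  obtain ⟨s, d, hd0, hd, hs⟩ := hH h hh
  obtain ⟨v, c, hc, hg'⟩ := hg
  obtain ⟨w, hw⟩ := a2_normal s v
  have hδ : Good (fun x => d x ^ 2) := by
    refine ⟨fun x y => ?_, ?_⟩
    · rw [← pow_mul, ← pow_mul, h4 _ (hd0 x), h4 _ (hd0 y)]
    · rw [Finset.prod_pow]; exact hd
  have hinv : ∀ x, ((h⁻¹ : GL ι F) : Matrix ι ι F) *ᵥ b (s x) = (d x)⁻¹ • b x := by
    intro x
    have h1 : b (s x) = (h : Matrix ι ι F) *ᵥ ((d x)⁻¹ • b x) := by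
      rw [Matrix.mulVec_smul, hs, smul_smul, inv_mul_cancel₀ (hd0 x), one_smul]
    rw [h1, Matrix.mulVec_mulVec, ← Units.val_mul, inv_mul_cancel, Units.val_one, Matrix.one_mulVec]
  let c' : A2 → F := fun y => (d (s.symm y))⁻¹ * c (s.symm y) * d (s.symm y + v)
  refine ⟨w, c', ⟨fun x y => ?_, ?_⟩, ?_⟩
  · have key : ∀ z, ((d z)⁻¹ * c z * d (z + v)) ^ 2 = c z ^ 2 * (d z ^ 2 * d (z + v) ^ 2) := by
      intro z
      have h5 := h4 _ (hd0 z)
      have h6 : (d z)⁻¹ ^ 2 = d z ^ 2 := by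
        have := hd0 z
        rw [inv_pow]
        apply inv_eq_of_mul_eq_one_right
        rw [← pow_add]; exact h5
      rw [mul_pow, mul_pow, h6]; ring
    change ((d (s.symm x))⁻¹ * c (s.symm x) * d (s.symm x + v)) ^ 2 = ((d (s.symm y))⁻¹ * c (s.symm y) * d (s.symm y + v)) ^ 2
    rw [key, key, hc.sq (s.symm x) (s.symm y)]
    congr 1
    exact hδ.pair h4 v (s.symm x) (s.symm y)
  · have h1 : ∏ y, c' y = ∏ z, (d z)⁻¹ * c z * d (z + v) := by
      rw [← Equiv.prod_comp s c']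
      refine Finset.prod_congr rfl fun z _ => ?_
      simp only [c', Equiv.symm_apply_apply]
    rw [h1, Finset.prod_mul_distrib, Finset.prod_mul_distrib, hc.prod, mul_one, Finset.prod_inv_distrib]
    have h2 : ∏ z, d (z + v) = ∏ z, d z := Equiv.prod_comp (Equiv.addRight v) d
    rw [h2]
    exact inv_mul_cancel₀ (Finset.prod_ne_zero_iff.mpr fun x _ => hd0 x)
  · apply mat_ext b
    intro y
    obtain ⟨x, rfl⟩ := s.surjective y
    rw [Units.val_mul, Units.val_mul, hg', ← Matrix.mulVec_mulVec, ← Matrix.mulVec_mulVec, hinv, Matrix.mulVec_smul, Mt_mulVec,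
      Matrix.mulVec_smul, Matrix.mulVec_smul, hs, Mt_mulVec, hw]
    simp only [c', Equiv.symm_apply_apply, smul_smul, mul_assoc]

/-- two elements of R commute up to a sign -/
theorem comm_sign {g h : GL ι F} (hg : g ∈ R b) (hh : h ∈ R b) : ∃ θ : F, θ ^ 2 = 1 ∧
    (g : Matrix ι ι F) * (h : Matrix ι ι F) = θ • ((h : Matrix ι ι F) * (g : Matrix ι ι F)) := by
  obtain ⟨v, c, hc, hg'⟩ := hg
  obtain ⟨w, d, hd, hh'⟩ := hh
  refine ⟨(c 0 * c w) * (d 0 * d v) * (c 0 ^ 2) * (d 0 ^ 2), ?_, ?_⟩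
  · have e1 := hc.pair_sq h4 0 w
    have e2 := hd.pair_sq h4 0 v
    have e3 := h4 _ (hc.ne 0)
    have e4 := h4 _ (hd.ne 0)
    calc ((c 0 * c w) * (d 0 * d v) * (c 0 ^ 2) * (d 0 ^ 2)) ^ 2 = (c 0 * c w) ^ 2 * (d 0 * d v) ^ 2 * c 0 ^ 4 * d 0 ^ 4 := by ring
      _ = 1 := by rw [e1, e2, e3, e4]; ring
  · rw [hg', hh', Mt_mul, Mt_mul, ← Mt_smul, add_comm w v]
    congr 1
    funext x
    simp only [Pi.smul_apply, smul_eq_mul]
    have e1 := hc.pair h4 w 0 x
    have e2 := hd.pair h4 v 0 x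
    have e3 := h4 _ (hc.ne x)
    have e4 := h4 _ (hd.ne x)
    have e5 := hc.sq 0 x
    have e6 := hd.sq 0 x
    have e7 := hd.sq x (x + v)
    have e8 : d (x + v) ^ 2 * d (x + v) ^ 2 = 1 := by rw [← pow_add]; exact h4 _ (hd.ne _)
    rw [zero_add] at e1 e2
    rw [e1, e2, e5, e6]
    calc d x * c (x + w) = (c x ^ 4) * (d x * c (x + w)) * (d (x + v) ^ 2 * d (x + v) ^ 2) := by rw [e3, e8]; ring
      _ = c x * c (x + w) * (d x * d (x + v)) * c x ^ 2 * d (x + v) ^ 2 * (c x * d (x + v)) := by ring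
      _ = c x * c (x + w) * (d x * d (x + v)) * c x ^ 2 * d x ^ 2 * (c x * d (x + v)) := by rw [e7]

/-- squares are signs -/
theorem sq_sign {g : GL ι F} (hg : g ∈ R b) : ∃ θ : F, θ ^ 2 = 1 ∧ (g : Matrix ι ι F) * (g : Matrix ι ι F) = θ • (1 : Matrix ι ι F) := by
  obtain ⟨v, c, hc, hg'⟩ := hg
  refine ⟨c 0 * c v, hc.pair_sq h4 0 v, ?_⟩
  rw [hg', Mt_mul, a2_add, ← Mt_one b, ← Mt_smul]
  congr 1
  funext x
  simp only [Pi.smul_apply, smul_eq_mul, mul_one]
  have := hc.pair h4 v x 0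
  rwa [zero_add] at this

theorem comm_le [Nonempty ι] : ⁅R b, R b⁆ ≤ scalars ι F := by
  rw [Subgroup.commutator_le]
  intro g hg h hh
  obtain ⟨θ, hθ, h1⟩ := comm_sign b h4 hg hh
  apply mem_scalars_of_eq (c := θ)
  rw [commutatorElement_def, Units.val_mul, Units.val_mul, Units.val_mul, h1, Matrix.smul_mul, Matrix.smul_mul]
  congr 1
  rw [← Units.val_mul, ← Units.val_mul, ← Units.val_mul, ← Units.val_one]
  congr 1
  group

theorem scalars_le_R (hF : Fintype.card A2 = 4) : scalars ι F ≤ R b := by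
  intro g hg
  obtain ⟨a, ha⟩ := (mem_scalars_iff g).mp hg
  refine ⟨0, fun _ => (a : F), ⟨fun _ _ => rfl, ?_⟩, ?_⟩
  · rw [Finset.prod_const, Finset.card_univ, hF]; exact h4 _ a.ne_zero
  · rw [ha, ← Mt_one b, ← Mt_smul]
    congr 1
    funext x
    simp

end five

/-- the even sign changes -/
theorem good_sign (x y : A2) (hxy : x ≠ y) : Good (fun z => if z = x ∨ z = y then (-1 : F) else 1) := by
  refine ⟨fun z w => ?_, ?_⟩
  · split_ifs <;> norm_num
  · have h1 : ∀ z : A2, (if z = x ∨ z = y then (-1 : F) else 1) = (if z = x then -1 else 1) * (if z = y then -1 else 1) := by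
      intro z
      by_cases h : z = x
      · have : z ≠ y := fun h' => hxy (h.symm.trans h')
        simp [h, hxy]
      · by_cases h' : z = y
        · simp [h', Ne.symm hxy]
        · simp [h, h']
    rw [Finset.prod_congr rfl (fun z _ => h1 z), Finset.prod_mul_distrib, Finset.prod_ite_eq', Finset.prod_ite_eq']
    simp

theorem Mt_mem_alg (h2 : (2 : F) ≠ 0) (c : A2 → F) (v : A2) : Mt b c v ∈ alg (R b) := by
  have hgood : ∀ c : A2 → F, Good c → Mt b c v ∈ alg (R b) := by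
    intro c hc
    rw [← gl_coe b c v hc.ne]
    exact mem_alg ⟨v, c, hc, rfl⟩
  have h4 : (4 : F) ≠ 0 := by
    have : (4 : F) = 2 * 2 := by norm_num
    rw [this]; exact mul_ne_zero h2 h2
  -- delta functions
  have hdelta : ∀ x : A2, Mt b (Pi.single x (1 : F)) v ∈ alg (R b) := by
    intro x
    obtain ⟨y, z, hxy, hxz, hyz⟩ : ∃ y z : A2, x ≠ y ∧ x ≠ z ∧ y ≠ z := by revert x; decide
    have h1 : (4 : F) • (Pi.single x (1 : F) : A2 → F) = (fun _ => (1 : F)) - (fun w => if w = x ∨ w = y then (-1 : F) else 1)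
        - (fun w => if w = x ∨ w = z then (-1 : F) else 1) + (fun w => if w = y ∨ w = z then (-1 : F) else 1) := by
      funext w
      simp only [Pi.smul_apply, Pi.add_apply, Pi.sub_apply, smul_eq_mul, Pi.single_apply]
      by_cases e1 : w = x
      · subst e1
        simp [hxy, hxz]; norm_num
      · by_cases e2 : w = y
        · subst e2
          simp [Ne.symm hxy, hyz]
        · by_cases e3 : w = z
          · subst e3
            simp [e1, e2]
          · simp [e1, e2, e3]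
    have h5 : Mt b ((4 : F) • (Pi.single x (1 : F) : A2 → F)) v ∈ alg (R b) := by
      rw [h1, sub_eq_add_neg, sub_eq_add_neg, Mt_add, Mt_add, Mt_add, ← neg_one_smul F, ← neg_one_smul F (fun w => if w = x ∨ w = z then (-1 : F) else 1),
        Mt_smul, Mt_smul]
      exact add_mem (add_mem (add_mem (hgood _ Good.one) (Subalgebra.smul_mem _ (hgood _ (good_sign x y hxy)) _))
        (Subalgebra.smul_mem _ (hgood _ (good_sign x z hxz)) _)) (hgood _ (good_sign y z hyz))
    rw [Mt_smul] at h5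
    have h6 := Subalgebra.smul_mem _ h5 (4 : F)⁻¹
    rwa [smul_smul, inv_mul_cancel₀ h4, one_smul] at h6
  have h3 : c = ∑ x, c x • (Pi.single x (1 : F) : A2 → F) := by
    funext w
    simp [Finset.sum_apply, Pi.single_apply]
  have h7 : Mt b c v = ∑ x, c x • Mt b (Pi.single x (1 : F)) v := by
    apply mat_ext b
    intro w
    rw [Mt_mulVec, Matrix.sum_mulVec]
    rw [Finset.sum_eq_single w]
    · rw [Matrix.smul_mulVec, Mt_mulVec, Pi.single_eq_same, one_smul]
    · intro x _ hx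
      rw [Matrix.smul_mulVec, Mt_mulVec, Pi.single_eq_of_ne (Ne.symm hx), zero_smul, smul_zero]
    · intro h; exact absurd (Finset.mem_univ _) h
  rw [h7]
  exact sum_mem fun x _ => Subalgebra.smul_mem _ (hdelta x) _

theorem alg_R (h2 : (2 : F) ≠ 0) : alg (R b) = ⊤ := by
  rw [eq_top_iff]
  intro M _
  have h1 : M = ∑ v, Mt b (fun x => b.repr (M *ᵥ b x) (x + v)) v := by
    apply mat_ext b
    intro x
    rw [Matrix.sum_mulVec]
    conv_lhs => rw [← b.sum_repr (M *ᵥ b x)]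
    rw [← Equiv.sum_comp (Equiv.addLeft x) (fun y => b.repr (M *ᵥ b x) y • b y)]
    refine Finset.sum_congr rfl fun v _ => ?_
    rw [Mt_mulVec]
    rfl
  rw [h1]
  exact sum_mem fun v _ => Mt_mem_alg b h2 _ v

end CfsgLib.AschSL5
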