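import Mathlib
import Cfsg.Agent.LibAschSL5

/-! small field reductions for the maximal subgroups of SL_n(q): monomial subgroups of SL_4(5), conclusion (helper26) -/
set_option autoImplicit false
set_option linter.unusedSectionVars false

namespace CfsgLib.AschSL6

open Module Cfsg Cfsg.Geo CfsgLib.Asch6 CfsgLib.Asch9 CfsgLib.Asch10 CfsgLib.Asch11 CfsgLib.Asch13 CfsgLib.Asch15 CfsgLib.Asch16
  CfsgLib.Asch18 CfsgLib.Asch19 CfsgLib.AschSL2 CfsgLib.AschSL5
open scoped Matrix MatrixGroups

variable {ι : Type} [Fintype ι] [DecidableEq ι] {F : Type*} [Field F] (b : Basis A2 F (ι → F))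

theorem card_scalars [Nonempty ι] [Fintype F] : Nat.card (scalars ι F) = Fintype.card F - 1 := by
  classical
  have hinj : Function.Injective (Units.map (Matrix.scalar ι : F →+* Matrix ι ι F).toMonoidHom) := by
    intro a c h
    obtain ⟨i⟩ := (inferInstance : Nonempty ι)
    have h1 := congrArg (fun g : GL ι F => (g : Matrix ι ι F) i i) h
    apply Units.ext
    simpa using h1
  rw [scalars, Nat.card_congr (MonoidHom.ofInjective hinj).symm.toEquiv, Nat.card_eq_fintype_card, Fintype.card_units]

section five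

variable [Fintype F] (hq : Fintype.card F = 5)
include hq

theorem h4 : ∀ x : F, x ≠ 0 → x ^ 4 = 1 := by
  intro x hx
  have := FiniteField.pow_card_sub_one_eq_one x hx
  rwa [hq] at this

theorem char5 : CharP F 5 := by
  obtain ⟨p, hchar, e, hp, hcard⟩ := FiniteField.card' F
  rw [hq] at hcard
  have h2 : p ∣ 5 := by rw [hcard]; exact dvd_pow_self p e.2.ne'
  have h4 : p = 5 := (Nat.prime_dvd_prime_iff_eq hp (by norm_num)).mp h2
  rwa [h4] at hchar

theorem two_ne : (2 : F) ≠ 0 := by
  have := char5 hq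
  intro h
  have h1 : ((2 : ℕ) : F) = 0 := by exact_mod_cast h
  rw [CharP.cast_eq_zero_iff F 5] at h1
  norm_num at h1

theorem five_zero : (5 : F) = 0 := by
  have := char5 hq
  have h1 : ((5 : ℕ) : F) = 0 := CharP.cast_eq_zero F 5
  exact_mod_cast h1

theorem mul_self_or {g : GL ι F} (hg : g ∈ R b) :
    (g : Matrix ι ι F) * (g : Matrix ι ι F) = 1 ∨ (g : Matrix ι ι F) * (g : Matrix ι ι F) = (-1 : F) • (1 : Matrix ι ι F) := by
  obtain ⟨θ, hθ, h⟩ := sq_sign b (h4 hq) hg
  rcases mul_self_eq_one_iff.mp ((_root_.sq θ).symm.trans hθ) with h1 | h1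
  · left; rw [h, h1, one_smul]
  · right; rw [h, h1]

/-- noncommuting elements anticommute -/
theorem anti {g h : GL ι F} (hg : g ∈ R b) (hh : h ∈ R b) (hne : g * h ≠ h * g) :
    (g : Matrix ι ι F) * (h : Matrix ι ι F) = - ((h : Matrix ι ι F) * (g : Matrix ι ι F)) := by
  obtain ⟨θ, hθ, h1⟩ := comm_sign b (h4 hq) hg hh
  rcases mul_self_eq_one_iff.mp ((_root_.sq θ).symm.trans hθ) with h2 | h2
  · exfalso
    apply hne
    apply Units.ext
    rw [Units.val_mul, Units.val_mul, h1, h2, one_smul]
  · rw [h1, h2, neg_one_smul]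

theorem neg_mem {g : GL ι F} (hg : g ∈ R b) : -g ∈ R b := by
  have h1 : (-1 : GL ι F) ∈ R b := by
    apply scalars_le_R b (h4 hq) (by decide)
    rw [mem_scalars_iff]
    exact ⟨-1, by simp⟩
  have := (R b).mul_mem h1 hg
  rwa [neg_one_mul] at this

theorem pow_four (g : R b) : g ^ 4 = 1 := by
  apply Subtype.ext
  apply Units.ext
  have h1 : (((g ^ 4 : R b) : GL ι F) : Matrix ι ι F) = (((g : GL ι F) : Matrix ι ι F) * ((g : GL ι F) : Matrix ι ι F)) *
      (((g : GL ι F) : Matrix ι ι F) * ((g : GL ι F) : Matrix ι ι F)) := by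
    rw [Subgroup.coe_pow, Units.val_pow_eq_pow_val]; noncomm_ring
  rw [h1]
  rcases mul_self_or b hq g.2 with h | h <;> rw [h]
  · rw [one_mul]; rfl
  · rw [Matrix.smul_mul, one_mul, smul_smul]; norm_num

theorem gl_two : ∃ z : GL ι F, (z : Matrix ι ι F) = (2 : F) • (1 : Matrix ι ι F) ∧ z ∈ R b := by
  have h2 := two_ne hq
  refine ⟨Units.map (Matrix.scalar ι : F →+* Matrix ι ι F).toMonoidHom (Units.mk0 2 h2), ?_, ?_⟩
  · simp [Matrix.smul_one_eq_diagonal]
  · apply scalars_le_R b (h4 hq) (by decide)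
    exact ⟨_, rfl⟩

/-- an element of R not commuting with `x`, of square `-1` -/
theorem exists_anti [Nonempty ι] {x : GL ι F} (hns : x ∉ scalars ι F) :
    ∃ y ∈ R b, x * y ≠ y * x ∧ (y : Matrix ι ι F) * (y : Matrix ι ι F) = -1 := by
  obtain ⟨y, hy, hxy⟩ : ∃ y ∈ R b, x * y ≠ y * x := by
    by_contra hcon
    push Not at hcon
    exact hns (scalar_of_comm (alg_R b (two_ne hq)) hcon)
  rcases mul_self_or b hq hy with h | h
  · obtain ⟨z, hz, hzR⟩ := gl_two b hq
    refine ⟨z * y, (R b).mul_mem hzR hy, ?_, ?_⟩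
    · intro h1
      apply hxy
      have h2 := congrArg (fun g : GL ι F => (g : Matrix ι ι F)) h1
      simp only [Units.val_mul, hz, Matrix.smul_mul, Matrix.mul_smul, one_mul] at h2
      apply Units.ext
      rw [Units.val_mul, Units.val_mul]
      exact smul_right_injective _ (two_ne hq) h2
    · rw [Units.val_mul, hz, Matrix.smul_mul, one_mul, Matrix.smul_mul, Matrix.mul_smul, smul_smul, h]
      have : (2 : F) * 2 = -1 := by linear_combination five_zero hq
      rw [this, neg_one_smul]
  · exact ⟨y, hy, hxy, by rw [h, neg_one_smul]⟩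

theorem char_cyclic' [Nonempty ι] (A : Subgroup (R b)) (hA : A.Characteristic) (hAc : IsMulCommutative A) : IsCyclic A := by
  have h2 := two_ne hq
  have hle : A.map (R b).subtype ≤ scalars ι F := by
    rintro _ ⟨x, hx, rfl⟩
    by_contra hns
    obtain ⟨y, hy, hxy, hyy⟩ := exists_anti b hq hns
    let g : GL ι F :=
      { val := 1 + (y : Matrix ι ι F)
        inv := (2 : F)⁻¹ • (1 - (y : Matrix ι ι F))
        val_inv := by
          rw [Matrix.mul_smul]
          have : (1 + (y : Matrix ι ι F)) * (1 - (y : Matrix ι ι F)) = (2 : F) • (1 : Matrix ι ι F) := by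
            calc (1 + (y : Matrix ι ι F)) * (1 - (y : Matrix ι ι F)) = 1 - (y : Matrix ι ι F) * (y : Matrix ι ι F) := by noncomm_ring
              _ = (2 : F) • (1 : Matrix ι ι F) := by rw [hyy, sub_neg_eq_add, two_smul]
          rw [this, smul_smul, inv_mul_cancel₀ h2, one_smul]
        inv_val := by
          rw [Matrix.smul_mul]
          have : (1 - (y : Matrix ι ι F)) * (1 + (y : Matrix ι ι F)) = (2 : F) • (1 : Matrix ι ι F) := by
            calc (1 - (y : Matrix ι ι F)) * (1 + (y : Matrix ι ι F)) = 1 - (y : Matrix ι ι F) * (y : Matrix ι ι F) := by noncomm_ring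
              _ = (2 : F) • (1 : Matrix ι ι F) := by rw [hyy, sub_neg_eq_add, two_smul]
          rw [this, smul_smul, inv_mul_cancel₀ h2, one_smul] }
    have hgv : (g : Matrix ι ι F) = 1 + (y : Matrix ι ι F) := rfl
    have hgi : ((g⁻¹ : GL ι F) : Matrix ι ι F) = (2 : F)⁻¹ • (1 - (y : Matrix ι ι F)) := rfl
    have hconj : ∀ z ∈ R b, z * y ≠ y * z → g * z * g⁻¹ = -(z * y) := by
      intro z hz hne
      have h1 := anti b hq hz hy hne
      apply Units.ext
      rw [Units.val_mul, Units.val_mul, hgv, hgi, Matrix.mul_smul, Units.val_neg, Units.val_mul]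
      have : (1 + (y : Matrix ι ι F)) * (z : Matrix ι ι F) * (1 - (y : Matrix ι ι F)) = (2 : F) • (-((z : Matrix ι ι F) * (y : Matrix ι ι F))) := by
        have h3 : (y : Matrix ι ι F) * (z : Matrix ι ι F) = - ((z : Matrix ι ι F) * (y : Matrix ι ι F)) := by rw [h1, neg_neg]
        calc (1 + (y : Matrix ι ι F)) * (z : Matrix ι ι F) * (1 - (y : Matrix ι ι F))
            = (z : Matrix ι ι F) - (z : Matrix ι ι F) * (y : Matrix ι ι F) + ((y : Matrix ι ι F) * (z : Matrix ι ι F)) * (1 - (y : Matrix ι ι F)) := by noncomm_ring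
          _ = (z : Matrix ι ι F) * (1 + (y : Matrix ι ι F) * (y : Matrix ι ι F)) - ((z : Matrix ι ι F) * (y : Matrix ι ι F) + (z : Matrix ι ι F) * (y : Matrix ι ι F)) := by
              rw [h3]; noncomm_ring
          _ = (2 : F) • (-((z : Matrix ι ι F) * (y : Matrix ι ι F))) := by
              rw [hyy, two_smul]; noncomm_ring
      rw [this, smul_smul, inv_mul_cancel₀ h2, one_smul]
    have hstep : ∀ z ∈ R b, g * z * g⁻¹ ∈ R b := by
      intro z hz
      by_cases hc : z * y = y * z
      · have h1 : g * z * g⁻¹ = z := by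
          have h3 : g * z = z * g := by
            apply Units.ext
            have h5 := congrArg (fun g : GL ι F => (g : Matrix ι ι F)) hc
            simp only [Units.val_mul] at h5
            rw [Units.val_mul, Units.val_mul, hgv, add_mul, mul_add, one_mul, mul_one, h5]
          rw [h3]; group
        rw [h1]; exact hz
      · rw [hconj z hz hc]
        exact neg_mem b hq ((R b).mul_mem hz hy)
    have hfin : Finite (GL ι F) := inferInstance
    have hnrd : Nrd (Subgroup.zpowers g) (R b) := by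
      intro h hh z hz
      obtain ⟨n, rfl⟩ := mem_powers_iff_mem_zpowers.mpr hh
      induction n with
      | zero => simpa using hz
      | succ n ih =>
        have h3 : (fun n : ℕ => g ^ n) n ∈ Subgroup.zpowers g := ⟨n, by simp⟩
        have := hstep _ (ih h3)
        simp only [pow_succ']
        have h5 : g * g ^ n * z * (g * g ^ n)⁻¹ = g * (g ^ n * z * (g ^ n)⁻¹) * g⁻¹ := by group
        rw [h5]; exact this
    obtain ⟨w, hw, hw'⟩ := char_nrd hnrd A g (Subgroup.mem_zpowers g) _ ⟨x, hx, rfl⟩
    have h1 : (R b).subtype x = (x : GL ι F) := rfl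
    rw [h1, hconj x x.2 hxy] at hw'
    have h3 := congrArg (fun z : A => (((z : R b) : GL ι F) : Matrix ι ι F)) (hAc.is_comm.comm (⟨x, hx⟩ : A) ⟨w, hw⟩)
    have h5 : ((w : GL ι F) : Matrix ι ι F) = -(((x : GL ι F) : Matrix ι ι F) * (y : Matrix ι ι F)) := by
      have := congrArg (fun g : GL ι F => (g : Matrix ι ι F)) hw'
      simpa using this
    have h6 : ((x : GL ι F) : Matrix ι ι F) * ((w : GL ι F) : Matrix ι ι F) = ((w : GL ι F) : Matrix ι ι F) * ((x : GL ι F) : Matrix ι ι F) := h3
    rw [h5, mul_neg, neg_mul, neg_inj, mul_assoc] at h6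
    have h7 : ((x : GL ι F) : Matrix ι ι F) * (y : Matrix ι ι F) = (y : Matrix ι ι F) * ((x : GL ι F) : Matrix ι ι F) := by
      have h8 := congrArg (fun M => (((x : GL ι F)⁻¹ : GL ι F) : Matrix ι ι F) * M) h6
      simp only [← mul_assoc] at h8
      rw [← Units.val_mul, inv_mul_cancel, Units.val_one, one_mul, one_mul] at h8
      exact h8
    apply hxy
    apply Units.ext
    rw [Units.val_mul, Units.val_mul]
    exact h7
  let f : A →* scalars ι F :=
    { toFun := fun x => ⟨((x : R b) : GL ι F), hle ⟨x, x.2, rfl⟩⟩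
      map_one' := by ext; simp
      map_mul' := fun a b => by ext; simp }
  have hf : Function.Injective f := by
    intro a b hab
    have := congrArg Subtype.val hab
    apply Subtype.ext
    apply Subtype.ext
    exact this
  have := cyclic_scalars (ι := ι) (F := F)
  exact isCyclic_of_injective f hf

theorem stype [Nonempty ι] : IsSymplecticTypeGroup 2 (R b) := by
  have hfin : Finite (GL ι F) := inferInstance
  refine ⟨Nat.prime_two, fun g => ⟨2, pow_four b hq g⟩, char_cyclic' b hq, ?_⟩
  have h1 : Monoid.exponent (R b) ∣ 2 ^ 2 := Monoid.exponent_dvd_of_forall_pow_eq_one (fun g => pow_four b hq g)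
  obtain ⟨i, hi, he⟩ := (Nat.dvd_prime_pow Nat.prime_two).mp h1
  have h2 : ¬ Monoid.exponent (R b) ∣ 2 := by
    intro hd
    obtain ⟨z, hz, hzR⟩ := gl_two b hq
    have h3 : (⟨z, hzR⟩ : R b) ^ 2 = 1 := by
      obtain ⟨k, hk⟩ := hd
      rw [hk, pow_mul, Monoid.pow_exponent_eq_one, one_pow]
    have h5 := congrArg (fun z : R b => ((z : GL ι F) : Matrix ι ι F)) h3
    simp only [Subgroup.coe_pow, Units.val_pow_eq_pow_val, hz, OneMemClass.coe_one, Units.val_one, smul_pow, one_pow] at h5
    obtain ⟨j⟩ := (inferInstance : Nonempty ι)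
    have h6 := congrFun (congrFun h5 j) j
    simp only [Matrix.smul_apply, Matrix.one_apply_eq, smul_eq_mul, mul_one] at h6
    have h7 : (2 : F) = 0 := by linear_combination (-1 : F) * h6 + five_zero hq
    exact two_ne hq h7
  interval_cases i
  · exact absurd (by rw [he]; norm_num) h2
  · exact absurd (by rw [he, pow_one]) h2
  · rw [he]; norm_num

theorem stdata [Nonempty ι] (hι : Fintype.card ι = 4) : IsLinearSymplecticTypeData 2 (R b) := by
  have hfin : Finite (GL ι F) := inferInstance
  have halg := alg_R b (two_ne hq)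
  have hcen : Nat.card (Subgroup.center (R b)) = 4 := by
    rw [center_eq halg, Nat.card_congr (Subgroup.subgroupOfEquivOfLe (scalars_le_R b (h4 hq) (by decide))).toEquiv, card_scalars, hq]
  have hcard : Nat.card (R b) = 64 := by
    rw [card_eq halg (comm_le b (h4 hq)), hcen, hι]; norm_num
  refine ⟨stype b hq, absIrred_of_alg halg, 5, 1, by norm_num, ?_, Or.inr (Or.inl ⟨rfl, rfl, hcen, by omega, 2, ?_⟩)⟩
  · rw [hcen]
    refine ⟨by norm_num, char5 hq, by rw [hq]; norm_num, by norm_num, fun d hd1 hd2 => by omega⟩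
  · rw [hcard]; norm_num

end five

/-- lines in dimension four over the field of five elements -/
theorem lines_five [Fintype F] (hq : Fintype.card F = 5) (hι : Fintype.card ι = 4) {D : Fin 4 → Submodule F (ι → F)}
    (hD : IsMDecomposition 1 D) : ∃ R : Subgroup (GL ι F), IsLinearSymplecticTypeData 2 R ∧
      decompositionStabilizer D ⊓ specialLinear ι F ≤ subgroupNormalizer R := by
  classical
  have : Nonempty ι := Fintype.card_pos_iff.mp (by omega)
  obtain ⟨b, hb, h⟩ := line_basis hD
  have e : Fin 4 ≃ A2 := Fintype.equivOfCardEq (by rw [Fintype.card_fin]; decide)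
  refine ⟨R (b.reindex e), stdata _ hq hι, le_normalizer (nrd _ (h4 hq) ?_)⟩
  intro g hg
  obtain ⟨s, c, hc, hs⟩ := h g hg.1
  refine ⟨(e.symm.trans s).trans e, fun x => c (e.symm x), fun x => hc _, ?_, fun x => ?_⟩
  · have hdet : (g : Matrix ι ι F).det = 1 := by
      have h1 : Matrix.GeneralLinearGroup.det g = 1 := MonoidHom.mem_ker.mp hg.2
      exact congrArg (fun u : Fˣ => (u : F)) h1
    have hM : LinearMap.toMatrix b b (Matrix.toLin' (g : Matrix ι ι F)) = (Matrix.diagonal c).submatrix s.symm id := by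
      ext i j
      rw [LinearMap.toMatrix_apply, Matrix.toLin'_apply, hs, map_smul, Basis.repr_self, Finsupp.smul_apply, smul_eq_mul,
        Matrix.submatrix_apply, id_eq, Matrix.diagonal_apply, Finsupp.single_apply]
      by_cases h1 : s.symm i = j
      · rw [if_pos h1, if_pos (by rw [← h1, Equiv.apply_symm_apply]), h1, mul_one]
      · rw [if_neg h1, if_neg (fun h2 => h1 (by rw [← h2, Equiv.symm_apply_apply])), mul_zero]
    rw [← LinearMap.det_toLin', ← LinearMap.det_toMatrix b, hM, Matrix.det_permute, Matrix.det_diagonal] at hdet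
    have h1 : ∏ x, c (e.symm x) = ∏ i, c i := Equiv.prod_comp e.symm c
    rw [h1]
    have h2 := congrArg (fun x => x ^ 2) hdet
    simp only [mul_pow, one_pow] at h2
    have h3 : (((Equiv.Perm.sign s.symm : ℤˣ) : ℤ) : F) ^ 2 = 1 := by
      rcases Int.units_eq_one_or (Equiv.Perm.sign s.symm) with h5 | h5 <;> rw [h5] <;> simp
    rw [h3, one_mul] at h2
    exact h2
  · rw [Basis.reindex_apply, Basis.reindex_apply, hs]
    simp

end CfsgLib.AschSL6
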