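import Mathlib
import Cfsg.Agent.LibAschOddH13
import Cfsg.Agent.LibAschSL6

/-! maximal subgroups of SL_n(q), n even: general step (helper26) -/
set_option autoImplicit false

namespace CfsgLib.AschEv26

open Module Cfsg Cfsg.Geo CfsgLib.AschSL1 CfsgLib.AschNum CfsgLib.AschOdd
open scoped Matrix MatrixGroups Kronecker

variable {ι : Type} [Fintype ι] [DecidableEq ι] {F : Type*} [Field F]

/-- the classes with the small field reductions -/
inductive Ev [Fintype F] (H : Subgroup (GL ι F)) : Prop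
  | red (W : Submodule F (ι → F)) (h0 : W ≠ ⊥) (h1 : W ≠ ⊤) (h : H = subspaceStabilizer W ⊓ specialLinear ι F)
  | dec (t m : ℕ) (D : Fin t → Submodule F (ι → F)) (hD : IsMDecomposition m D) (htm : t * m = Fintype.card ι)
      (h5 : m = 1 → 5 ≤ Fintype.card F) (h3 : m = 2 → 3 ≤ Fintype.card F) (h : H = decompositionStabilizer D ⊓ specialLinear ι F)
  | fld (r : ℕ) (K : Subalgebra F (Matrix ι ι F)) (hr : r.Prime) (hK : IsFieldSubalgebra r K) (hd : r ∣ Fintype.card ι)
      (h : H = subalgebraNormalizer K ⊓ specialLinear ι F)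
  | tp (n₁ n₂ : ℕ) (e : ι ≃ Fin n₁ × Fin n₂) (P : GL ι F) (h1 : 2 ≤ n₁) (h2 : n₁ < n₂) (hm : n₁ * n₂ = Fintype.card ι)
      (h3 : n₁ = 2 → 3 ≤ Fintype.card F) (h : H = tensorProductSubgroup n₁ n₂ e P ⊓ specialLinear ι F)
  | sub (F₀ : Subfield F) (r : ℕ) (P : GL ι F) (hr : r.Prime) (hc : Fintype.card F = Nat.card F₀ ^ r)
      (h : H = subfieldSubgroup F₀ P ⊓ specialLinear ι F)
  | st (r k : ℕ) (R : Subgroup (GL ι F)) (hR : IsLinearSymplecticTypeData r R) (hr : r.Prime) (hk : Fintype.card ι = r ^ k)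
      (h : H = subgroupNormalizer R ⊓ specialLinear ι F)
  | tw (m t : ℕ) (e : ι ≃ (Fin t → Fin m)) (P : GL ι F) (hm : 3 ≤ m) (ht : 2 ≤ t) (hmt : m ^ t = Fintype.card ι)
      (h : H = tensorWreathSubgroup m t e P ⊓ specialLinear ι F)
  | sym (f : (ι → F) → (ι → F) → F) (hf : IsSymplecticForm f) (h : H = similarityGroup f ⊓ specialLinear ι F)
  | uni (σ : F ≃+* F) (f : (ι → F) → (ι → F) → F) (hf : IsUnitaryForm σ f) (h : H = similarityGroup f ⊓ specialLinear ι F)
  | orth (Q : (ι → F) → F) (hQ : IsNondegenerateQuadraticForm Q) (ho : Odd (Fintype.card F))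
      (h : H = quadSimilarityGroup Q ⊓ specialLinear ι F)
  | res (h : InLinearResidualClass H)

theorem ev [Fintype F] (hn : 3 ≤ Fintype.card ι) {H : Subgroup (GL ι F)} (hH : IsMaximalIn (specialLinear ι F) H) : Ev H := by
  haveI : Nonempty ι := Fintype.card_pos_iff.1 (by omega)
  have hq := Fintype.one_lt_card (α := F)
  rcases clsMax_of_isMaximalIn hn hH with h | h
  · cases h with
    | red W h0 h1 h => exact Ev.red W h0 h1 h
    | dec t m D hD h =>
      by_cases h5 : m = 1 → 5 ≤ Fintype.card F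
      · by_cases h3 : m = 2 → 3 ≤ Fintype.card F
        · exact Ev.dec t m D hD (dec_mul hD) h5 h3 h
        · push Not at h3
          obtain ⟨hm, hq3⟩ := h3
          subst hm
          obtain ⟨f, hf, hle⟩ := CfsgLib.AschSL3.planes_two (by omega : Fintype.card F = 2) hD
          exact Ev.sym f hf (eq_of_max hH (h.le.trans (inf_le_left.trans hle)) (not_le_sym hn hf))
      · push Not at h5
        obtain ⟨hm, hq5⟩ := h5
        subst hm
        rcases lines_small hn hH hq5 hD (h.le.trans inf_le_left) with h5 | h5 | h5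
        · obtain ⟨W, h0, h1, h⟩ := h5
          exact Ev.red W h0 h1 h
        · obtain ⟨ho, Q, hQ, h⟩ := h5
          exact Ev.orth Q hQ ho h
        · obtain ⟨σ, f, hf, h⟩ := h5
          exact Ev.uni σ f hf h
    | fld r K hr hK h => exact Ev.fld r K hr hK (fld_dvd hK) h
    | tp n₁ n₂ e P h1 h2 h =>
      by_cases h3 : n₁ = 2 → 3 ≤ Fintype.card F
      · exact Ev.tp n₁ n₂ e P h1 h2 (tp_mul e) h3 h
      · push Not at h3
        obtain ⟨hm, hq3⟩ := h3
        subst hm
        obtain ⟨K, hK, hle⟩ := CfsgLib.AschSL4.tensor_two (by omega : Fintype.card F = 2) (by omega : 0 < n₂) e P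
        exact Ev.fld 2 K Nat.prime_two hK (fld_dvd hK) (eq_of_max hH (h.le.trans (inf_le_left.trans hle)) (not_le_fld hn Nat.prime_two hK))
    | sub F₀ r P hr hc h => exact Ev.sub F₀ r P hr hc h
    | st r k R hR hk hal hc h => exact Ev.st r k R hR hR.symplecticType.prime hk h
    | tw m t e P hm ht h => exact Ev.tw m t e P hm ht (tw_pow e) h
    | sym f hf h => exact Ev.sym f hf h
    | uni σ f hf h => exact Ev.uni σ f hf h
    | orth Q hQ ho h => exact Ev.orth Q hQ ho h
  · exact Ev.res h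

theorem card_ne_six [Fintype F] : Fintype.card F ≠ 6 := by
  intro h
  obtain ⟨p, hchar, e, hp, hcard⟩ := FiniteField.card' F
  rw [h] at hcard
  have h2 : 2 ∣ p := by
    have : 2 ∣ p ^ (e : ℕ) := by rw [← hcard]; norm_num
    exact Nat.prime_two.dvd_of_dvd_pow this
  have h3 : 3 ∣ p := by
    have : 3 ∣ p ^ (e : ℕ) := by rw [← hcard]; norm_num
    exact Nat.prime_three.dvd_of_dvd_pow this
  have h4 := (Nat.prime_dvd_prime_iff_eq Nat.prime_two hp).mp h2
  have h5 := (Nat.prime_dvd_prime_iff_eq Nat.prime_three hp).mp h3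
  omega

end CfsgLib.AschEv26
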