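import Mathlib
import Cfsg.Agent.LibAsch19

/-! reflexive sesquilinear forms: adjoints, perpendicular spaces, reducible subgroups -/
set_option autoImplicit false
set_option linter.unusedSectionVars false

namespace CfsgLib.AschF

open Module Cfsg Cfsg.Geo CfsgLib.Asch6 CfsgLib.Asch9 CfsgLib.Asch11 CfsgLib.Asch13
open scoped Matrix MatrixGroups

variable {ι : Type} [Fintype ι] [DecidableEq ι] {F : Type*} [Field F]

/-- reflexive sesquilinear form data -/
structure FD (σ : F ≃+* F) (ε : F) (f : (ι → F) → (ι → F) → F) : Prop where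
  sesq : Sesq (σ : F →+* F) f
  nd : IsNondegenerateForm f
  sq : ∀ a, σ (σ a) = a
  herm : ∀ u v, f u v = ε * σ (f v u)
  eps : ε = 1 ∨ ε = -1

variable {σ : F ≃+* F} {ε : F} {f : (ι → F) → (ι → F) → F}

theorem FD.sig_eps (hf : FD σ ε f) : σ ε = ε := by
  rcases hf.eps with h | h <;> rw [h] <;> simp

theorem FD.eps_sq (hf : FD σ ε f) : ε * ε = 1 := by
  rcases hf.eps with h | h <;> rw [h] <;> ring

theorem FD.eps_ne (hf : FD σ ε f) : ε ≠ 0 := by
  rcases hf.eps with h | h <;> rw [h] <;> simp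

theorem FD.add_left (hf : FD σ ε f) (x y v : ι → F) : f (x + y) v = f x v + f y v := hf.sesq.add_left x y v
theorem FD.add_right (hf : FD σ ε f) (v x y : ι → F) : f v (x + y) = f v x + f v y := hf.sesq.add_right v x y
theorem FD.smul_left (hf : FD σ ε f) (c : F) (x v : ι → F) : f (c • x) v = c * f x v := hf.sesq.smul_left c x v
theorem FD.smul_right (hf : FD σ ε f) (c : F) (v x : ι → F) : f v (c • x) = σ c * f v x := hf.sesq.smul_right c v x
theorem FD.zero_left (hf : FD σ ε f) (v : ι → F) : f 0 v = 0 := by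
  have := hf.smul_left 0 0 v
  simpa using this
theorem FD.zero_right (hf : FD σ ε f) (v : ι → F) : f v 0 = 0 := by
  have := hf.smul_right 0 v 0
  simpa using this
theorem FD.sub_left (hf : FD σ ε f) (x y v : ι → F) : f (x - y) v = f x v - f y v := by
  have := hf.add_left (x - y) y v
  rw [sub_add_cancel] at this
  rw [this]; ring
theorem FD.sub_right (hf : FD σ ε f) (v x y : ι → F) : f v (x - y) = f v x - f v y := by
  have := hf.add_right v (x - y) y
  rw [sub_add_cancel] at this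
  rw [this]; ring
theorem FD.zero_comm (hf : FD σ ε f) {u v : ι → F} (h : f u v = 0) : f v u = 0 := by
  rw [hf.herm, h, map_zero, mul_zero]
theorem FD.sum_left (hf : FD σ ε f) {α : Type*} (s : Finset α) (u : α → ι → F) (v : ι → F) :
    f (∑ i ∈ s, u i) v = ∑ i ∈ s, f (u i) v := hf.sesq.sum_left s u v
theorem FD.sum_right (hf : FD σ ε f) {α : Type*} (s : Finset α) (u : α → ι → F) (v : ι → F) :
    f v (∑ i ∈ s, u i) = ∑ i ∈ s, f v (u i) := hf.sesq.sum_right s u v

theorem FD.ext_left (hf : FD σ ε f) {x y : ι → F} (h : ∀ v, f x v = f y v) : x = y := by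
  by_contra hne
  obtain ⟨_, ⟨v, hv⟩⟩ := hf.nd (x - y) (sub_ne_zero.2 hne)
  rw [hf.sub_left, h v, sub_self] at hv
  exact hv rfl

theorem FD.ext_right (hf : FD σ ε f) {x y : ι → F} (h : ∀ v, f v x = f v y) : x = y := by
  by_contra hne
  obtain ⟨⟨v, hv⟩, _⟩ := hf.nd (x - y) (sub_ne_zero.2 hne)
  rw [hf.sub_right, h v, sub_self] at hv
  exact hv rfl

/-! adjoints -/

def Adj (f : (ι → F) → (ι → F) → F) (a a' : Matrix ι ι F) : Prop :=
  ∀ u v, f (a *ᵥ u) v = f u (a' *ᵥ v)

theorem Adj.symm (hf : FD σ ε f) {a a' : Matrix ι ι F} (h : Adj f a a') : Adj f a' a := by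
  intro u v
  rw [hf.herm, ← h v u, hf.herm u]

theorem Adj.mul {a a' b b' : Matrix ι ι F} (ha : Adj f a a') (hb : Adj f b b') : Adj f (a * b) (b' * a') := by
  intro u v
  rw [← Matrix.mulVec_mulVec, ha, hb, Matrix.mulVec_mulVec]

theorem Adj.add (hf : FD σ ε f) {a a' b b' : Matrix ι ι F} (ha : Adj f a a') (hb : Adj f b b') :
    Adj f (a + b) (a' + b') := by
  intro u v
  rw [Matrix.add_mulVec, hf.add_left, ha, hb, Matrix.add_mulVec, hf.add_right]

theorem Adj.smul (hf : FD σ ε f) {a a' : Matrix ι ι F} (ha : Adj f a a') (c : F) :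
    Adj f (c • a) (σ c • a') := by
  intro u v
  rw [Matrix.smul_mulVec, hf.smul_left, ha, Matrix.smul_mulVec, hf.smul_right, hf.sq]

theorem Adj.one : Adj f 1 1 := by
  intro u v
  rw [Matrix.one_mulVec, Matrix.one_mulVec]

theorem Adj.scalar (hf : FD σ ε f) (c : F) : Adj f (c • 1) (σ c • 1) := Adj.one.smul hf c

theorem Adj.uniq (hf : FD σ ε f) {a a' a'' : Matrix ι ι F} (h : Adj f a a') (h' : Adj f a a'') : a' = a'' := by
  apply (Matrix.toLin' : Matrix ι ι F ≃ₗ[F] _).injective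
  refine LinearMap.ext fun v => ?_
  rw [Matrix.toLin'_apply, Matrix.toLin'_apply]
  apply hf.ext_right
  intro u
  rw [← h, ← h']

theorem Adj.pow {a a' : Matrix ι ι F} (h : Adj f a a') (n : ℕ) : Adj f (a ^ n) (a' ^ n) := by
  induction n with
  | zero => rw [pow_zero, pow_zero]; exact Adj.one
  | succ n ih => rw [pow_succ, pow_succ']; exact ih.mul h

theorem FD.exists_adj (hf : FD σ ε f) [Finite F] (a : Matrix ι ι F) : ∃ a', Adj f a a' := by
  classical
  have : Fintype F := Fintype.ofFinite F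
  -- gram matrix inverse
  set G := gram f with hG
  have hdet : IsUnit G.det := by
    rw [isUnit_iff_ne_zero]
    intro h0
    obtain ⟨v, hv, hv0⟩ := Matrix.exists_mulVec_eq_zero_iff.2 h0
    have hv' : (σ.symm ∘ v) ≠ 0 := by
      intro h1
      apply hv
      ext i
      have := congrFun h1 i
      simpa using this
    obtain ⟨⟨x, hx⟩, _⟩ := hf.nd _ hv'
    apply hx
    rw [hf.sesq.eq_gram]
    have : ((σ : F →+* F) ∘ (σ.symm ∘ v)) = v := by ext i; simp
    rw [this, hv0]; simp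
  refine ⟨(G⁻¹ * aᵀ * G).map σ, fun u v => ?_⟩
  rw [hf.sesq.eq_gram, hf.sesq.eq_gram u]
  have h1 : (σ : F →+* F) ∘ ((G⁻¹ * aᵀ * G).map σ *ᵥ v) = (G⁻¹ * aᵀ * G) *ᵥ ((σ : F →+* F) ∘ v) := by
    ext i
    simp only [Function.comp, Matrix.mulVec, dotProduct, Matrix.map_apply, map_sum, map_mul,
      RingEquiv.coe_toRingHom, hf.sq]
  rw [h1, Matrix.mulVec_mulVec, ← hG, ← mul_assoc, ← mul_assoc, Matrix.mul_nonsing_inv G hdet, one_mul,
    ← Matrix.mulVec_mulVec, Matrix.dotProduct_mulVec u aᵀ, Matrix.vecMul_transpose]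

/-- isometries -/
def Iso (f : (ι → F) → (ι → F) → F) (H : Subgroup (GL ι F)) : Prop :=
  ∀ h ∈ H, ∀ u v, f ((h : Matrix ι ι F) *ᵥ u) ((h : Matrix ι ι F) *ᵥ v) = f u v

theorem Iso.fixes {H : Subgroup (GL ι F)} (hH : Iso f H) : FixesForm (matrixSet H) f := by
  rintro _ ⟨x, hx, rfl⟩ u v
  exact hH x hx u v

theorem Iso.adj {H : Subgroup (GL ι F)} (hH : Iso f H) {h : GL ι F} (hh : h ∈ H) :
    Adj f (h : Matrix ι ι F) ((h⁻¹ : GL ι F) : Matrix ι ι F) := by
  intro u v
  have h1 := hH h hh u (((h⁻¹ : GL ι F) : Matrix ι ι F) *ᵥ v)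
  rw [Matrix.mulVec_mulVec v, ← Units.val_mul, mul_inv_cancel, Units.val_one, Matrix.one_mulVec] at h1
  exact h1

theorem Iso.adj' {H : Subgroup (GL ι F)} (hH : Iso f H) {h : GL ι F} (hh : h ∈ H) :
    Adj f ((h⁻¹ : GL ι F) : Matrix ι ι F) (h : Matrix ι ι F) := by
  have := hH.adj (H.inv_mem hh)
  rwa [inv_inv] at this

theorem Iso.adj_conj {H : Subgroup (GL ι F)} (hH : Iso f H) {h : GL ι F} (hh : h ∈ H) {a a' : Matrix ι ι F}
    (ha : Adj f a a') : Adj f ((h : Matrix ι ι F) * a * ((h⁻¹ : GL ι F) : Matrix ι ι F))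
      ((h : Matrix ι ι F) * a' * ((h⁻¹ : GL ι F) : Matrix ι ι F)) := by
  have := ((hH.adj hh).mul ha).mul (hH.adj' hh)
  rwa [← mul_assoc] at this

theorem Iso.mono {H K : Subgroup (GL ι F)} (hH : Iso f H) (h : K ≤ H) : Iso f K := fun x hx => hH x (h hx)

/-- algebras spanned by isometries are closed under adjoints -/
theorem closed_alg (hf : FD σ ε f) {N : Subgroup (GL ι F)} (hN : Iso f N) : IsAdjointClosedFor f (alg N) := by
  intro a ha
  refine Algebra.adjoin_induction (p := fun a _ => ∃ k' ∈ alg N, Adj f a k') ?_ ?_ ?_ ?_ ha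
  · rintro _ ⟨x, hx, rfl⟩
    exact ⟨_, mem_alg (N.inv_mem hx), hN.adj hx⟩
  · intro r
    refine ⟨σ r • 1, (alg N).smul_mem (alg N).one_mem _, ?_⟩
    rw [Algebra.algebraMap_eq_smul_one]
    exact Adj.scalar hf r
  · rintro x y _ _ ⟨x', hx, hx'⟩ ⟨y', hy, hy'⟩
    exact ⟨x' + y', (alg N).add_mem hx hy, hx'.add hf hy'⟩
  · rintro x y _ _ ⟨x', hx, hx'⟩ ⟨y', hy, hy'⟩
    exact ⟨y' * x', (alg N).mul_mem hy hx, hx'.mul hy'⟩

/-! perpendicular spaces -/

def perp (hf : FD σ ε f) (W : Submodule F (ι → F)) : Submodule F (ι → F) where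
  carrier := {v | ∀ w ∈ W, f w v = 0}
  add_mem' := fun {a b} ha hb w hw => by rw [hf.add_right, ha w hw, hb w hw, add_zero]
  zero_mem' := fun w _ => hf.zero_right w
  smul_mem' := fun c a ha w hw => by rw [hf.smul_right, ha w hw, mul_zero]

theorem mem_perp (hf : FD σ ε f) {W : Submodule F (ι → F)} {v : ι → F} :
    v ∈ perp hf W ↔ ∀ w ∈ W, f w v = 0 := Iff.rfl

theorem mem_perp' (hf : FD σ ε f) {W : Submodule F (ι → F)} {v : ι → F} :
    v ∈ perp hf W ↔ ∀ w ∈ W, f v w = 0 :=
  ⟨fun h w hw => hf.zero_comm (h w hw), fun h w hw => hf.zero_comm (h w hw)⟩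

theorem perp_anti (hf : FD σ ε f) {W U : Submodule F (ι → F)} (h : W ≤ U) : perp hf U ≤ perp hf W :=
  fun _ hv w hw => hv w (h hw)

theorem le_perp_comm (hf : FD σ ε f) {W U : Submodule F (ι → F)} : W ≤ perp hf U ↔ U ≤ perp hf W := by
  constructor
  · intro h u hu w hw
    exact hf.zero_comm (h hw u hu)
  · intro h w hw u hu
    exact hf.zero_comm (h hu w hw)

theorem le_perp_perp (hf : FD σ ε f) (W : Submodule F (ι → F)) : W ≤ perp hf (perp hf W) :=
  (le_perp_comm hf).1 le_rfl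

theorem card_perp [Finite F] (hf : FD σ ε f) (W : Submodule F (ι → F)) :
    Nat.card W * Nat.card (perp hf W) = Nat.card (ι → F) := by
  classical
  -- additive map V → Dual V
  let Φ : (ι → F) →+ Dual F (ι → F) :=
    { toFun := fun v => { toFun := fun w => f w v, map_add' := fun x y => hf.add_left x y v,
                          map_smul' := fun c x => hf.smul_left c x v }
      map_zero' := by ext; simp [hf.zero_right]
      map_add' := fun x y => by
        apply LinearMap.ext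
        intro w
        exact hf.add_right w x y }
  have hinj : Function.Injective Φ := by
    intro x y hxy
    apply hf.ext_right
    intro v
    exact congrArg (fun l : Dual F (ι → F) => l v) hxy
  have hcard : Nat.card (ι → F) = Nat.card (Dual F (ι → F)) := by
    rw [Module.natCard_eq_pow_finrank (K := F) (V := ι → F),
      Module.natCard_eq_pow_finrank (K := F) (V := Dual F (ι → F)), Subspace.dual_finrank_eq]
  have hfinD : Finite (Dual F (ι → F)) := Module.finite_of_finite F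
  have hsurj : Function.Surjective Φ := by
    have := (Nat.bijective_iff_injective_and_card Φ).2 ⟨hinj, hcard⟩
    exact this.2
  -- restrict to W
  let R : Dual F (ι → F) →+ Dual F W := (W.subtype.dualMap).toAddMonoidHom
  have hR : Function.Surjective R :=
    LinearMap.dualMap_surjective_of_injective (f := W.subtype) W.injective_subtype
  let Ψ : (ι → F) →+ Dual F W := R.comp Φ
  have hΨ : Function.Surjective Ψ := hR.comp hsurj
  have hker : ∀ v, v ∈ Ψ.ker ↔ v ∈ perp hf W := by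
    intro v
    rw [AddMonoidHom.mem_ker, mem_perp]
    constructor
    · intro h w hw
      exact congrArg (fun l : Dual F W => l ⟨w, hw⟩) h
    · intro h
      apply LinearMap.ext
      rintro ⟨w, hw⟩
      exact h w hw
  have h1 := AddSubgroup.card_mul_index Ψ.ker
  rw [AddSubgroup.index_ker, AddMonoidHom.range_eq_top_of_surjective Ψ hΨ] at h1
  have h2 : Nat.card Ψ.ker = Nat.card (perp hf W) :=
    Nat.card_congr (Equiv.subtypeEquivRight hker)
  have h3 : Nat.card (⊤ : AddSubgroup (Dual F W)) = Nat.card W := by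
    rw [Nat.card_congr (AddSubgroup.topEquiv (G := Dual F W)).toEquiv,
      Module.natCard_eq_pow_finrank (K := F) (V := Dual F W), Subspace.dual_finrank_eq,
      ← Module.natCard_eq_pow_finrank (K := F) (V := W)]
  rw [h2, h3] at h1
  rw [mul_comm]; exact h1

theorem finrank_perp [Finite F] (hf : FD σ ε f) (W : Submodule F (ι → F)) :
    finrank F W + finrank F (perp hf W) = Fintype.card ι := by
  have h := card_perp hf W
  rw [Module.natCard_eq_pow_finrank (K := F) (V := W), Module.natCard_eq_pow_finrank (K := F) (V := perp hf W),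
    Module.natCard_eq_pow_finrank (K := F) (V := ι → F), ← pow_add, Module.finrank_fintype_fun_eq_card] at h
  exact Nat.pow_right_injective Finite.one_lt_card h

theorem perp_perp [Finite F] (hf : FD σ ε f) (W : Submodule F (ι → F)) : perp hf (perp hf W) = W := by
  symm
  apply Submodule.eq_of_le_of_finrank_eq (le_perp_perp hf W)
  have h1 := finrank_perp hf W
  have h2 := finrank_perp hf (perp hf W)
  omega

theorem perp_inj [Finite F] (hf : FD σ ε f) {W U : Submodule F (ι → F)} (h : perp hf W = perp hf U) : W = U := by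
  rw [← perp_perp hf W, h, perp_perp]

theorem nondeg_iff (hf : FD σ ε f) (W : Submodule F (ι → F)) :
    IsNondegenerateOn f W ↔ W ⊓ perp hf W = ⊥ := by
  constructor
  · intro h
    rw [eq_bot_iff]
    intro w hw
    by_contra hne
    have hne' : w ≠ 0 := fun h0 => hne (by rw [h0]; exact Submodule.zero_mem _)
    obtain ⟨⟨x, hx, hxw⟩, _⟩ := h w hw.1 hne'
    exact hxw (hw.2 x hx)
  · intro h w hw hw0
    have h1 : ∃ x ∈ W, f x w ≠ 0 := by
      by_contra hcon
      push Not at hcon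
      have : w ∈ W ⊓ perp hf W := ⟨hw, hcon⟩
      rw [h] at this
      exact hw0 (by simpa using this)
    obtain ⟨x, hx, hxw⟩ := h1
    exact ⟨⟨x, hx, hxw⟩, ⟨x, hx, fun h0 => hxw (hf.zero_comm h0)⟩⟩

theorem sup_perp [Finite F] (hf : FD σ ε f) {W : Submodule F (ι → F)} (h : W ⊓ perp hf W = ⊥) :
    W ⊔ perp hf W = ⊤ := by
  apply Submodule.eq_top_of_finrank_eq
  have h1 := Submodule.finrank_sup_add_finrank_inf_eq W (perp hf W)
  rw [h, finrank_bot, add_zero, finrank_perp hf W] at h1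
  rw [h1, Module.finrank_fintype_fun_eq_card]

theorem nondeg_perp [Finite F] (hf : FD σ ε f) {W : Submodule F (ι → F)} (h : W ⊓ perp hf W = ⊥) :
    IsNondegenerateOn f (perp hf W) := by
  rw [nondeg_iff hf, perp_perp, inf_comm]
  exact h

theorem mem_stab {H : Subgroup (GL ι F)} {W : Submodule F (ι → F)}
    (key : ∀ g ∈ H, ∀ v ∈ W, (g : Matrix ι ι F) *ᵥ v ∈ W) : H ≤ subspaceStabilizer W := by
  intro h hh v
  constructor
  · exact fun hv => key h hh v hv
  · intro hv
    have h3 := key h⁻¹ (H.inv_mem hh) _ hv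
    have h5 : ((h⁻¹ : GL ι F) : Matrix ι ι F) *ᵥ ((h : Matrix ι ι F) *ᵥ v) ∈ W := h3
    rwa [Matrix.mulVec_mulVec, ← Units.val_mul, inv_mul_cancel, Units.val_one, Matrix.one_mulVec] at h5

theorem stab_mem {H : Subgroup (GL ι F)} {W : Submodule F (ι → F)} (h : H ≤ subspaceStabilizer W)
    (g : GL ι F) (hg : g ∈ H) (v : ι → F) (hv : v ∈ W) : (g : Matrix ι ι F) *ᵥ v ∈ W := (h hg v).1 hv

theorem map_eq_of_inv {H : Subgroup (GL ι F)} {W : Submodule F (ι → F)}
    (key : ∀ g ∈ H, ∀ v ∈ W, (g : Matrix ι ι F) *ᵥ v ∈ W) (g : GL ι F) (hg : g ∈ H) :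
    W.map (Matrix.toLin' (g : Matrix ι ι F)) = W := by
  apply le_antisymm
  · rintro _ ⟨v, hv, rfl⟩
    rw [Matrix.toLin'_apply]; exact key g hg v hv
  · intro v hv
    refine ⟨((g⁻¹ : GL ι F) : Matrix ι ι F) *ᵥ v, key g⁻¹ (H.inv_mem hg) v hv, ?_⟩
    rw [Matrix.toLin'_apply, Matrix.mulVec_mulVec, ← Units.val_mul, mul_inv_cancel, Units.val_one, Matrix.one_mulVec]

theorem perp_stab (hf : FD σ ε f) {H : Subgroup (GL ι F)} (hH : Iso f H) {W : Submodule F (ι → F)}
    (h : ∀ g ∈ H, ∀ v ∈ W, (g : Matrix ι ι F) *ᵥ v ∈ W) :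
    ∀ g ∈ H, ∀ v ∈ perp hf W, (g : Matrix ι ι F) *ᵥ v ∈ perp hf W := by
  intro g hg v hv w hw
  rw [← (hH.adj' hg) w v]
  exact hv _ (h g⁻¹ (H.inv_mem hg) w hw)

/-- H reducible -/
theorem reducible [Finite F] (hf : FD σ ε f) {H : Subgroup (GL ι F)} (hH : Iso f H)
    (hred : ¬ ActsIrreducibly (matrixSet H)) :
    (∃ W : Submodule F (ι → F), W ≠ ⊥ ∧ IsTotallySingularFor f W ∧ H ≤ subspaceStabilizer W) ∨
    (∃ W : Submodule F (ι → F), W ≠ ⊥ ∧ IsNondegenerateOn f W ∧ 2 * finrank F W < Fintype.card ι ∧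
      H ≤ subspaceStabilizer W) ∨
    (∃ (t k : ℕ) (D : Fin t → Submodule F (ι → F)), IsNondegenerateMDecomposition f k D ∧
      2 * k = Fintype.card ι ∧ H ≤ decompositionStabilizer D) := by
  classical
  -- minimal invariant subspace
  have hex : ∃ W : Submodule F (ι → F), (∀ g ∈ H, ∀ v ∈ W, (g : Matrix ι ι F) *ᵥ v ∈ W) ∧ W ≠ ⊥ ∧ W ≠ ⊤ := by
    rw [ActsIrreducibly] at hred
    push Not at hred
    obtain ⟨W, hW, h1, h2⟩ := hred
    refine ⟨W, fun g hg v hv => ?_, h1, h2⟩
    have := hW (g : Matrix ι ι F) ⟨g, hg, rfl⟩ ⟨v, hv, rfl⟩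
    rwa [Matrix.toLin'_apply] at this
  obtain ⟨W₀, hW₀, hb₀, ht₀⟩ := hex
  obtain ⟨W, ⟨⟨hWi, hWb, hWt⟩, hmin⟩⟩ : ∃ W : Submodule F (ι → F), Minimal (fun W : Submodule F (ι → F) =>
      (∀ g ∈ H, ∀ v ∈ W, (g : Matrix ι ι F) *ᵥ v ∈ W) ∧ W ≠ ⊥ ∧ W ≠ ⊤) W := by
    exact exists_minimal_of_wellFoundedLT _ ⟨W₀, hW₀, hb₀, ht₀⟩
  have hperp := perp_stab hf hH hWi
  by_cases h0 : W ⊓ perp hf W = ⊥
  · -- nondegenerate
    have hnd := (nondeg_iff hf W).2 h0
    have hnd' := nondeg_perp hf h0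
    have hsup := sup_perp hf h0
    have hfr := finrank_perp hf W
    have hpb : perp hf W ≠ ⊥ := by
      intro h
      rw [h, sup_bot_eq] at hsup
      exact hWt hsup
    rcases lt_trichotomy (finrank F W) (finrank F (perp hf W)) with hlt | heq | hgt
    · exact Or.inr (Or.inl ⟨W, hWb, hnd, by omega, mem_stab hWi⟩)
    · refine Or.inr (Or.inr ⟨2, finrank F W, ![W, perp hf W], ⟨⟨le_rfl, ?_, ?_, ?_, ?_⟩, ?_, ?_⟩, by omega, ?_⟩)
      · rw [Nat.pos_iff_ne_zero]
        intro h
        exact hWb (Submodule.finrank_eq_zero.1 h)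
      · intro i
        fin_cases i
        · rfl
        · exact heq.symm
      · rw [iSupIndep_pair (i := (0 : Fin 2)) (j := 1) (by decide)]
        · exact disjoint_iff.2 h0
        · intro k; fin_cases k <;> simp
      · apply le_antisymm le_top
        rw [← hsup]
        exact sup_le (le_iSup (fun i => (![W, perp hf W] : Fin 2 → Submodule F (ι → F)) i) 0)
          (le_iSup (fun i => (![W, perp hf W] : Fin 2 → Submodule F (ι → F)) i) 1)
      · intro i
        fin_cases i
        · exact hnd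
        · exact hnd'
      · intro i j hij
        fin_cases i <;> fin_cases j
        · exact absurd rfl hij
        · intro u hu v hv; exact hv u hu
        · intro u hu v hv; exact hf.zero_comm (hu v hv)
        · exact absurd rfl hij
      · intro g hg
        refine ⟨1, fun i => ?_⟩
        fin_cases i
        · exact map_eq_of_inv hWi g hg
        · exact map_eq_of_inv hperp g hg
    · exact Or.inr (Or.inl ⟨perp hf W, hpb, hnd', by omega, mem_stab hperp⟩)
  · left
    refine ⟨W, hWb, ?_, mem_stab hWi⟩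
    have hle : W ≤ W ⊓ perp hf W := hmin ⟨fun g hg v hv => ⟨hWi g hg v hv.1, hperp g hg v hv.2⟩, h0, fun h => hWt (by
      rw [eq_top_iff, ← h]; exact inf_le_left)⟩ inf_le_left
    intro u hu v hv
    exact (hle hv).2 u hu

end CfsgLib.AschF
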