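import Mathlib
import Cfsg.Agent.LibAschF1

/-! Clifford theory with a form -/
set_option autoImplicit false
set_option linter.unusedSectionVars false

namespace CfsgLib.AschF

open Module Cfsg Cfsg.Geo CfsgLib.Asch1 CfsgLib.Asch6 CfsgLib.Asch9 CfsgLib.Asch11 CfsgLib.Asch13
open scoped Matrix MatrixGroups

variable {ι : Type} [Fintype ι] [DecidableEq ι] {F : Type*} [Field F]

/-- families of subspaces permuted by H -/
structure Fam (H : Subgroup (GL ι F)) (S : Set (Submodule F (ι → F))) : Prop where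
  fin : S.Finite
  ne : ∀ D ∈ S, D ≠ ⊥
  ind : sSupIndep S
  sup : sSup S = ⊤
  perm : ∀ h ∈ H, ∀ D ∈ S, D.map (Matrix.toLin' (h : Matrix ι ι F)) ∈ S

theorem finrank_map_gl (h : GL ι F) (D : Submodule F (ι → F)) :
    finrank F (D.map (Matrix.toLin' (h : Matrix ι ι F))) = finrank F D :=
  LinearEquiv.finrank_map_eq (le h) D

theorem map_map_inv (h : GL ι F) (D : Submodule F (ι → F)) :
    (D.map (Matrix.toLin' ((h⁻¹ : GL ι F) : Matrix ι ι F))).map (Matrix.toLin' (h : Matrix ι ι F)) = D := by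
  rw [← Submodule.map_comp, ← Matrix.toLin'_mul, ← Units.val_mul, mul_inv_cancel, Units.val_one,
    Matrix.toLin'_one, Submodule.map_id]

theorem map_inj (h : GL ι F) {D D' : Submodule F (ι → F)}
    (hD : D.map (Matrix.toLin' (h : Matrix ι ι F)) = D'.map (Matrix.toLin' (h : Matrix ι ι F))) : D = D' := by
  have := congrArg (Submodule.map (Matrix.toLin' ((h⁻¹ : GL ι F) : Matrix ι ι F))) hD
  have h1 := map_map_inv h⁻¹ D
  have h2 := map_map_inv h⁻¹ D'
  rw [inv_inv] at h1 h2
  rwa [h1, h2] at this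

theorem Fam.rank {H : Subgroup (GL ι F)} {S : Set (Submodule F (ι → F))} (hS : Fam H S)
    (hirr : ActsIrreducibly (matrixSet H)) {D₀ : Submodule F (ι → F)} (hD₀ : D₀ ∈ S) :
    ∀ D ∈ S, finrank F D = finrank F D₀ := by
  set d := finrank F D₀
  let O : Set (Submodule F (ι → F)) := {c | c ∈ S ∧ finrank F c = d}
  have hO : sSup O = ⊤ := by
    refine (hirr (sSup O) ?_).resolve_left ?_
    · rintro _ ⟨h, hh, rfl⟩
      rw [sSup_eq_iSup, Submodule.map_iSup]
      refine iSup_le fun m => ?_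
      rw [Submodule.map_iSup]
      refine iSup_le fun hm => ?_
      have : m.map (Matrix.toLin' (h : Matrix ι ι F)) ∈ O := ⟨hS.perm h hh m hm.1, by
        rw [finrank_map_gl]; exact hm.2⟩
      rw [← sSup_eq_iSup]
      exact le_sSup this
    · intro h0
      apply hS.ne D₀ hD₀
      rw [eq_bot_iff, ← h0]
      exact le_sSup ⟨hD₀, rfl⟩
  intro D hD
  by_contra hne
  have hd : Disjoint D (sSup O) := by
    refine (hS.ind hD).mono_right (sSup_le_sSup ?_)
    rintro b ⟨hb, hbd⟩
    refine ⟨hb, ?_⟩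
    rintro rfl
    exact hne hbd
  rw [hO] at hd
  exact hS.ne D hD (by simpa using hd)

theorem Fam.dec {H : Subgroup (GL ι F)} {S : Set (Submodule F (ι → F))} (hS : Fam H S)
    (hirr : ActsIrreducibly (matrixSet H)) {D₀ : Submodule F (ι → F)} (hD₀ : D₀ ∈ S) (t : ℕ) (ht : 2 ≤ t)
    (hcard : S.ncard = t) :
    ∃ D : Fin t → Submodule F (ι → F), (∀ i, D i ∈ S) ∧ Function.Injective D ∧
      IsMDecomposition (finrank F D₀) D ∧ H ≤ decompositionStabilizer D := by
  classical
  have hfin : Finite S := hS.fin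
  have : Fintype S := Fintype.ofFinite _
  have hc : Fintype.card S = t := by
    rw [← hcard, Set.ncard_eq_toFinset_card', Set.toFinset_card]
  let e : Fin t ≃ S := (Fintype.equivFinOfCardEq hc).symm
  refine ⟨fun i => (e i).1, fun i => (e i).2, fun i j h => e.injective (Subtype.ext h), ⟨ht, ?_, ?_, ?_, ?_⟩, ?_⟩
  · rw [Nat.pos_iff_ne_zero]
    intro h
    exact hS.ne D₀ hD₀ (Submodule.finrank_eq_zero.1 h)
  · intro i
    exact hS.rank hirr hD₀ _ (e i).2
  · have h1 : iSupIndep (fun i : S => i.1) := (sSupIndep_iff _).1 hS.ind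
    exact h1.comp e.injective
  · rw [← hS.sup, sSup_eq_iSup']
    exact e.iSup_comp (g := fun c : S => c.1)
  · intro h hh
    let g : S → S := fun c => ⟨c.1.map (Matrix.toLin' (h : Matrix ι ι F)), hS.perm h hh c.1 c.2⟩
    have hg : Function.Injective g := by
      intro c c' hcc
      apply Subtype.ext
      exact map_inj h (congrArg Subtype.val hcc)
    let π : Equiv.Perm S := Equiv.ofBijective g (Finite.injective_iff_bijective.1 hg)
    refine ⟨(e.trans π).trans e.symm, fun i => ?_⟩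
    simp [π, g, Equiv.ofBijective]

/-- stable under A and the centraliser of A -/
def Inv (A : Subalgebra F (Matrix ι ι F)) (U : Submodule F (ι → F)) : Prop :=
  (∀ a ∈ A, ∀ v ∈ U, a *ᵥ v ∈ U) ∧ (∀ b : Matrix ι ι F, (∀ a ∈ A, b * a = a * b) → ∀ v ∈ U, b *ᵥ v ∈ U)

theorem Inv.inf {A : Subalgebra F (Matrix ι ι F)} {U W : Submodule F (ι → F)} (hU : Inv A U) (hW : Inv A W) :
    Inv A (U ⊓ W) :=
  ⟨fun a ha v hv => ⟨hU.1 a ha v hv.1, hW.1 a ha v hv.2⟩, fun b hb v hv => ⟨hU.2 b hb v hv.1, hW.2 b hb v hv.2⟩⟩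

theorem Inv.sup {A : Subalgebra F (Matrix ι ι F)} {U W : Submodule F (ι → F)} (hU : Inv A U) (hW : Inv A W) :
    Inv A (U ⊔ W) := by
  refine ⟨fun a ha v hv => ?_, fun b hb v hv => ?_⟩
  · obtain ⟨u, hu, w, hw, rfl⟩ := Submodule.mem_sup.1 hv
    rw [Matrix.mulVec_add]
    exact Submodule.add_mem_sup (hU.1 a ha u hu) (hW.1 a ha w hw)
  · obtain ⟨u, hu, w, hw, rfl⟩ := Submodule.mem_sup.1 hv
    rw [Matrix.mulVec_add]
    exact Submodule.add_mem_sup (hU.2 b hb u hu) (hW.2 b hb w hw)

theorem Inv.perp {σ : F ≃+* F} {ε : F} {f : (ι → F) → (ι → F) → F} (hf : FD σ ε f) [Finite F]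
    {A : Subalgebra F (Matrix ι ι F)}
    (hA : IsAdjointClosedFor f A) {U : Submodule F (ι → F)} (hU : Inv A U) : Inv A (perp hf U) := by
  refine ⟨fun a ha v hv w hw => ?_, fun b hb v hv w hw => ?_⟩
  · obtain ⟨a', ha', had⟩ := hA a ha
    have had : Adj f a a' := had
    rw [← (had.symm hf) w v]
    exact hv _ (hU.1 a' ha' w hw)
  · obtain ⟨b', hb'⟩ := hf.exists_adj b
    have hbc : ∀ a ∈ A, b' * a = a * b' := by
      intro a ha
      obtain ⟨a', ha', had⟩ := hA a ha
      have had : Adj f a a' := had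
      have h1 : Adj f (b * a') (a * b') := hb'.mul (had.symm hf)
      have h2 : Adj f (a' * b) (b' * a) := (had.symm hf).mul hb'
      rw [← hb a' ha'] at h2
      exact h2.uniq hf h1
    rw [← (hb'.symm hf) w v]
    exact hv _ (hU.2 b' hbc w hw)

/-- the homogeneous components -/
theorem components [Nonempty ι] {H : Subgroup (GL ι F)} (hirr : ActsIrreducibly (matrixSet H))
    (A : Subalgebra F (Matrix ι ι F)) (hn : NormAlg (H : Set (GL ι F)) A) :
    IsSemisimpleModule (endA A) (ι → F) ∧ ∃ S : Set (Submodule F (ι → F)), Fam H S ∧ S.Nonempty ∧ (∀ C ∈ S, Inv A C) ∧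
      (∀ U, Inv A U → U ≠ ⊥ → ∃ C ∈ S, C ≤ U) ∧ (∀ C ∈ S, ∀ U, Inv A U → C ≤ U ∨ C ⊓ U = ⊥) ∧
      ((⊤ : Submodule F (ι → F)) ∈ S → IsIsotypic (endA A) (ι → F)) := by
  classical
  have hnrm : ∀ h ∈ H, Nrm (endA A) (le h) := fun h hh => nrm_of_normAlg hn h hh
  have hss := semisimple (A := endA A) (le '' (H : Set (GL ι F))) (irr_le hirr) (by
    rintro _ ⟨h, hh, rfl⟩
    exact hnrm h hh)
  refine ⟨hss, ?_⟩
  set B := endA A with hB
  have hfin : Finite (isotypicComponents B (ι → F)) := inferInstance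
  have ind := sSupIndep_isotypicComponents B (ι → F)
  have stop := sSup_isotypicComponents B (ι → F)
  have ne : ∀ c ∈ isotypicComponents B (ι → F), c ≠ ⊥ := fun c hc => (bot_lt_isotypicComponents hc).ne'
  -- Inv and fully invariant
  have hInv1 : ∀ W : Submodule B (ι → F), W.IsFullyInvariant → Inv A (res B W) := by
    intro W hW
    rw [fullyInvariant_iff] at hW
    refine ⟨fun a ha v hv => ?_, fun b hb v hv => ?_⟩
    · have := W.smul_mem (⟨Matrix.toLin' a, (mem_endA A a).2 ha⟩ : B) hv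
      exact this
    · refine hW (Matrix.toLin' b) ?_ v hv
      intro a ha
      obtain ⟨M, hM, rfl⟩ := exists_of_mem_endA A a ha
      change Matrix.toLin' b ∘ₗ Matrix.toLin' M = Matrix.toLin' M ∘ₗ Matrix.toLin' b
      rw [← Matrix.toLin'_mul, ← Matrix.toLin'_mul, hb M hM]
  have hInv2 : ∀ U : Submodule F (ι → F), Inv A U → ∃ W : Submodule B (ι → F), W.IsFullyInvariant ∧ res B W = U := by
    intro U hU
    refine ⟨ofInv U (by
      intro a ha w hw
      obtain ⟨M, hM, rfl⟩ := exists_of_mem_endA A a ha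
      exact hU.1 M hM w hw), ?_, ?_⟩
    · rw [fullyInvariant_iff]
      intro g hg x hx
      have h1 : g = Matrix.toLin' (LinearMap.toMatrix' g) := (Matrix.toLin'_toMatrix' g).symm
      rw [h1]
      refine hU.2 (LinearMap.toMatrix' g) ?_ x hx
      intro a ha
      have h2 := hg (Matrix.toLin' a) ((mem_endA A a).2 ha)
      rw [h1] at h2
      change Matrix.toLin' _ ∘ₗ Matrix.toLin' a = Matrix.toLin' a ∘ₗ Matrix.toLin' _ at h2
      rw [← Matrix.toLin'_mul, ← Matrix.toLin'_mul] at h2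
      exact Matrix.toLin'.injective h2
    · ext x; rfl
  refine ⟨res B '' isotypicComponents B (ι → F), ⟨Set.toFinite _, ?_, ?_, ?_, ?_⟩, ?_, ?_, ?_, ?_, ?_⟩
  · rintro _ ⟨c, hc, rfl⟩ h
    apply ne c hc
    apply res_injective B
    rw [h]; ext x; simp
  · rintro _ ⟨c, hc, rfl⟩
    have h1 := ind hc
    rw [disjoint_iff] at h1 ⊢
    rw [eq_bot_iff]
    rintro x ⟨hx1, hx2⟩
    have hx3 : x ∈ (sSup (isotypicComponents B (ι → F) \ {c}) : Submodule B (ι → F)) := by
      have : (sSup (res B '' isotypicComponents B (ι → F) \ {res B c}) : Submodule F (ι → F)) ≤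
          res B (sSup (isotypicComponents B (ι → F) \ {c})) := by
        refine sSup_le ?_
        rintro _ ⟨⟨b, hb, rfl⟩, hbc⟩
        rw [res_le]
        refine le_sSup ⟨hb, ?_⟩
        rintro rfl
        exact hbc rfl
      exact this hx2
    have : x ∈ (c ⊓ sSup (isotypicComponents B (ι → F) \ {c}) : Submodule B (ι → F)) := ⟨hx1, hx3⟩
    rw [h1] at this
    simpa using this
  · rw [eq_top_iff]
    have h1 : ∀ W : Submodule F (ι → F), (∀ c ∈ isotypicComponents B (ι → F), res B c ≤ W) →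
        (∀ a ∈ B, ∀ w ∈ W, a w ∈ W) → W = ⊤ := by
      intro W hW hinv
      have h2 : sSup (isotypicComponents B (ι → F)) ≤ ofInv W hinv := by
        refine sSup_le fun b hb => ?_
        exact hW b hb
      rw [stop] at h2
      rw [eq_top_iff]
      intro x _
      exact h2 (show x ∈ (⊤ : Submodule B (ι → F)) from trivial)
    refine (h1 (sSup (res B '' isotypicComponents B (ι → F))) (fun c hc => le_sSup ⟨c, hc, rfl⟩) ?_).ge
    intro a ha w hw
    have : (sSup (res B '' isotypicComponents B (ι → F)) : Submodule F (ι → F)).map a ≤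
        sSup (res B '' isotypicComponents B (ι → F)) := by
      rw [sSup_eq_iSup, Submodule.map_iSup]
      refine iSup_le fun m => ?_
      rw [Submodule.map_iSup]
      refine iSup_le fun hm => ?_
      obtain ⟨c, hc, rfl⟩ := hm
      refine le_trans ?_ (le_iSup_of_le (res B c) (le_iSup_of_le ⟨c, hc, rfl⟩ le_rfl))
      rintro _ ⟨y, hy, rfl⟩
      exact c.smul_mem (⟨a, ha⟩ : B) hy
    exact this ⟨w, hw, rfl⟩
  · rintro h hh _ ⟨c, hc, rfl⟩
    refine ⟨twIso (le h) (hnrm h hh) c, twIso_mem_components (le h) (hnrm h hh) c hc, ?_⟩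
    rw [res_twIso]; rfl
  · have hne : (isotypicComponents B (ι → F)).Nonempty := by
      rw [Set.nonempty_iff_ne_empty]
      intro h
      rw [h, sSup_empty] at stop
      obtain ⟨x, hx⟩ := exists_ne (0 : ι → F)
      have : x ∈ (⊤ : Submodule B (ι → F)) := trivial
      rw [← stop] at this
      exact hx (by simpa using this)
    exact hne.image _
  · rintro _ ⟨c, hc, rfl⟩
    exact hInv1 c (.of_mem_isotypicComponents hc)
  · intro U hU hUb
    obtain ⟨W, hW, rfl⟩ := hInv2 U hU
    obtain ⟨s, hs, rfl⟩ := (isFullyInvariant_iff_sSup_isotypicComponents (R := B) (M := ι → F)).1 hW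
    rcases s.eq_empty_or_nonempty with rfl | ⟨c, hc⟩
    · exfalso
      apply hUb
      ext x; simp
    · exact ⟨res B c, ⟨c, hs hc, rfl⟩, le_sSup hc⟩
  · rintro _ ⟨c, hc, rfl⟩ U hU
    by_cases h : res B c ⊓ U = ⊥
    · exact Or.inr h
    left
    obtain ⟨W, hW, hWU⟩ := hInv2 _ ((hInv1 c (.of_mem_isotypicComponents hc)).inf hU)
    rw [mem_components_iff] at hc
    have h1 := hc.2 (y := W) ⟨fun h0 => h (by rw [← hWU, h0]; ext x; simp), hW⟩ (by
      intro x hx
      have : x ∈ res B W := hx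
      rw [hWU] at this
      exact this.1)
    intro x hx
    have : x ∈ res B W := h1 hx
    rw [hWU] at this
    exact this.2
  · rintro ⟨c, hc, hct⟩
    have h1 : c = ⊤ := by
      apply res_injective B
      rw [hct]; ext x; simp
    have h2 := (mem_isotypicComponents_iff.1 hc).1
    rw [h1] at h2
    exact (Submodule.topEquiv.isIsotypic_iff).1 h2

end CfsgLib.AschF
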