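import Mathlib
import Cfsg.Agent.LibAschF2

/-! Clifford theory with a form: the dichotomy -/
set_option autoImplicit false
set_option linter.unusedSectionVars false

namespace CfsgLib.AschF

open Module Cfsg Cfsg.Geo CfsgLib.Asch1 CfsgLib.Asch6 CfsgLib.Asch9 CfsgLib.Asch11 CfsgLib.Asch13
open scoped Matrix MatrixGroups

variable {ι : Type} [Fintype ι] [DecidableEq ι] {F : Type*} [Field F]
variable {σ : F ≃+* F} {ε : F} {f : (ι → F) → (ι → F) → F}

theorem perp_map (hf : FD σ ε f) {H : Subgroup (GL ι F)} (hH : Iso f H) {h : GL ι F} (hh : h ∈ H)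
    (W : Submodule F (ι → F)) :
    perp hf (W.map (Matrix.toLin' (h : Matrix ι ι F))) = (perp hf W).map (Matrix.toLin' (h : Matrix ι ι F)) := by
  ext v
  constructor
  · intro hv
    refine ⟨((h⁻¹ : GL ι F) : Matrix ι ι F) *ᵥ v, ?_, ?_⟩
    · intro w hw
      rw [← (hH.adj hh) w v]
      refine hv _ ⟨w, hw, ?_⟩
      rw [Matrix.toLin'_apply]
    · rw [Matrix.toLin'_apply, Matrix.mulVec_mulVec, ← Units.val_mul, mul_inv_cancel, Units.val_one, Matrix.one_mulVec]
  · rintro ⟨u, hu, rfl⟩ _ ⟨w, hw, rfl⟩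
    rw [Matrix.toLin'_apply, Matrix.toLin'_apply, hH h hh]
    exact hu w hw

theorem clifford_form [Finite F] [Nonempty ι] (hf : FD σ ε f) {H : Subgroup (GL ι F)} (hH : Iso f H)
    (hirr : ActsIrreducibly (matrixSet H))
    (A : Subalgebra F (Matrix ι ι F)) (hn : NormAlg (H : Set (GL ι F)) A) (hA : IsAdjointClosedFor f A) :
    (∃ (t k : ℕ) (D : Fin t → Submodule F (ι → F)), IsNondegenerateMDecomposition f k D ∧
      H ≤ decompositionStabilizer D) ∨
    (∃ (k : ℕ) (D : Fin 2 → Submodule F (ι → F)), IsMDecomposition k D ∧ (∀ i, IsTotallySingularFor f (D i)) ∧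
      H ≤ decompositionStabilizer D) ∨
    (IsSemisimpleModule (endA A) (ι → F) ∧ IsIsotypic (endA A) (ι → F)) := by
  classical
  obtain ⟨hss, S, hS, ⟨C₀, hC₀⟩, hSi, hS1, hS2, hS3⟩ := components hirr A hn
  have hpi : ∀ C ∈ S, Inv A (perp hf C) := fun C hC => (hSi C hC).perp hf hA
  have hrank := hS.rank hirr hC₀
  have hd0 : 0 < finrank F C₀ := by
    rw [Nat.pos_iff_ne_zero]
    intro h
    exact hS.ne C₀ hC₀ (Submodule.finrank_eq_zero.1 h)
  -- existence of a partner
  have hex : ∀ C ∈ S, ∃ C' ∈ S, ¬ C' ≤ perp hf C := by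
    intro C hC
    by_contra hcon
    push Not at hcon
    have h1 : sSup S ≤ perp hf C := sSup_le hcon
    rw [hS.sup, top_le_iff] at h1
    have h2 := finrank_perp hf C
    rw [h1, finrank_top, Module.finrank_fintype_fun_eq_card, hrank C hC] at h2
    omega
  -- uniqueness
  have huniq : ∀ C ∈ S, ∀ C' ∈ S, ∀ C'' ∈ S, ¬ C' ≤ perp hf C → ¬ C'' ≤ perp hf C → C' = C'' := by
    intro C hC C' hC' C'' hC'' h1 h2
    by_contra hne
    have hdis : Disjoint C' C'' := hS.ind.pairwiseDisjoint hC' hC'' hne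
    have hU : Inv A ((C' ⊔ C'') ⊓ perp hf C) := ((hSi C' hC').sup (hSi C'' hC'')).inf (hpi C hC)
    have hr1 := Submodule.finrank_sup_add_finrank_inf_eq C' C''
    rw [disjoint_iff.1 hdis, finrank_bot, add_zero, hrank C' hC', hrank C'' hC''] at hr1
    have hr2 := Submodule.finrank_sup_add_finrank_inf_eq (C' ⊔ C'') (perp hf C)
    have hr3 := finrank_perp hf C
    rw [hrank C hC] at hr3
    have hr4 : finrank F ((C' ⊔ C'') ⊔ perp hf C : Submodule F (ι → F)) ≤ Fintype.card ι := by
      have := Submodule.finrank_le ((C' ⊔ C'') ⊔ perp hf C)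
      rwa [Module.finrank_fintype_fun_eq_card] at this
    have hne' : (C' ⊔ C'') ⊓ perp hf C ≠ ⊥ := by
      intro h
      rw [h, finrank_bot] at hr2
      omega
    obtain ⟨c, hc, hcU⟩ := hS1 _ hU hne'
    by_cases h3 : c = C'
    · exact h1 (h3 ▸ (hcU.trans inf_le_right))
    by_cases h4 : c = C''
    · exact h2 (h4 ▸ (hcU.trans inf_le_right))
    have h5 : Disjoint c (sSup (S \ {c})) := hS.ind hc
    have h6 : C' ⊔ C'' ≤ sSup (S \ {c}) :=
      sup_le (le_sSup ⟨hC', fun h => h3 h.symm⟩) (le_sSup ⟨hC'', fun h => h4 h.symm⟩)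
    have h7 : c ≤ ⊥ := h5 le_rfl ((hcU.trans inf_le_left).trans h6)
    exact hS.ne c hc (by simpa using h7)
  choose! τ hτS hτ using hex
  have hττ : ∀ C ∈ S, τ (τ C) = C := by
    intro C hC
    refine huniq (τ C) (hτS C hC) _ (hτS _ (hτS C hC)) C hC (hτ _ (hτS C hC)) ?_
    intro h
    exact hτ C hC ((le_perp_comm hf).1 h)
  have hother : ∀ C ∈ S, ∀ C' ∈ S, C' ≠ τ C → C' ≤ perp hf C := by
    intro C hC C' hC' hne
    by_contra hcon
    exact hne (huniq C hC C' hC' (τ C) (hτS C hC) hcon (hτ C hC))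
  let D : Submodule F (ι → F) → Submodule F (ι → F) := fun C => C ⊔ τ C
  have hDτ : ∀ C ∈ S, D (τ C) = D C := by
    intro C hC
    change τ C ⊔ τ (τ C) = C ⊔ τ C
    rw [hττ C hC, sup_comm]
  -- orthogonality
  have horth : ∀ C ∈ S, ∀ C' ∈ S, D C ≠ D C' → D C' ≤ perp hf (D C) := by
    intro C hC C' hC' hne
    have h1 : C' ≠ C := by rintro rfl; exact hne rfl
    have h2 : C' ≠ τ C := by rintro rfl; exact hne (hDτ C hC).symm
    have h3 : τ C' ≠ C := by
      intro h
      apply h2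
      rw [← hττ C' hC', h]
    have h4 : τ C' ≠ τ C := by
      intro h
      apply h1
      rw [← hττ C' hC', h, hττ C hC]
    have key : ∀ X ∈ S, X ≠ C → X ≠ τ C → X ≤ perp hf (D C) := by
      intro X hX hX1 hX2
      rw [le_perp_comm hf]
      refine sup_le ?_ ?_
      · rw [le_perp_comm hf]; exact hother C hC X hX hX2
      · rw [le_perp_comm hf]
        refine hother (τ C) (hτS C hC) X hX ?_
        rw [hττ C hC]; exact hX1
    exact sup_le (key C' hC' h1 h2) (key (τ C') (hτS C' hC') h3 h4)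
  let T : Set (Submodule F (ι → F)) := D '' S
  have hTsup : sSup T = ⊤ := by
    rw [eq_top_iff, ← hS.sup]
    refine sSup_le fun C hC => ?_
    exact le_sup_left.trans (le_sSup ⟨C, hC, rfl⟩)
  have hTorth : ∀ X ∈ T, ∀ Y ∈ T, X ≠ Y → Y ≤ perp hf X := by
    rintro _ ⟨C, hC, rfl⟩ _ ⟨C', hC', rfl⟩ hne
    exact horth C hC C' hC' hne
  have hTnd : ∀ X ∈ T, X ⊓ perp hf X = ⊥ := by
    intro X hX
    rw [eq_bot_iff]
    rintro v ⟨hv1, hv2⟩
    have h1 : (⊤ : Submodule F (ι → F)) ≤ perp hf (Submodule.span F {v}) := by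
      rw [← hTsup]
      refine sSup_le fun Y hY => ?_
      rw [le_perp_comm hf, Submodule.span_le]
      rintro _ rfl
      by_cases hXY : Y = X
      · rw [hXY]; exact hv2
      · exact hTorth Y hY X hX hXY hv1
    rw [Submodule.mem_bot]
    apply hf.ext_right
    intro u
    rw [hf.zero_right]
    exact hf.zero_comm (h1 (show u ∈ ⊤ from trivial) v (Submodule.mem_span_singleton_self v))
  have hTfam : Fam H T := by
    refine ⟨hS.fin.image D, ?_, ?_, hTsup, ?_⟩
    · rintro _ ⟨C, hC, rfl⟩ h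
      apply hS.ne C hC
      rw [eq_bot_iff, ← h]
      exact le_sup_left
    · intro X hX
      rw [disjoint_iff, eq_bot_iff, ← hTnd X hX]
      refine inf_le_inf_left X (sSup_le ?_)
      rintro Y ⟨hY, hYX⟩
      exact hTorth X hX Y hY (fun h => hYX h.symm)
    · rintro h hh _ ⟨C, hC, rfl⟩
      refine ⟨C.map (Matrix.toLin' (h : Matrix ι ι F)), hS.perm h hh C hC, ?_⟩
      change _ ⊔ τ _ = _
      have h1 : τ (C.map (Matrix.toLin' (h : Matrix ι ι F))) = (τ C).map (Matrix.toLin' (h : Matrix ι ι F)) := by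
        refine huniq _ (hS.perm h hh C hC) _ (hτS _ (hS.perm h hh C hC)) _ (hS.perm h hh _ (hτS C hC))
          (hτ _ (hS.perm h hh C hC)) ?_
        intro hle
        rw [perp_map hf hH hh] at hle
        apply hτ C hC
        intro v hv
        have h2 := hle ⟨v, hv, rfl⟩
        obtain ⟨w, hw, hwv⟩ := h2
        have h3 : w = v := (le h).injective hwv
        exact h3 ▸ hw
      rw [h1, ← Submodule.map_sup]
  have hTne : D C₀ ∈ T := ⟨C₀, hC₀, rfl⟩
  by_cases hT2 : 2 ≤ T.ncard
  · left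
    obtain ⟨E, hE, hEinj, hEdec, hEH⟩ := hTfam.dec hirr hTne _ hT2 rfl
    refine ⟨_, _, E, ⟨hEdec, fun i => (nondeg_iff hf _).2 (hTnd _ (hE i)), fun i j hij => ?_⟩, hEH⟩
    intro u hu v hv
    exact hTorth _ (hE i) _ (hE j) (fun h => hij (hEinj h)) hv u hu
  · -- only one block
    have hT1 : ∀ X ∈ T, X = ⊤ := by
      have h1 : T.ncard ≤ 1 := by omega
      rw [Set.ncard_le_one_iff_eq] at h1
      rcases h1 with h1 | ⟨a, ha⟩
      · rw [h1] at hTne; exact absurd hTne (Set.notMem_empty _)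
      · intro X hX
        rw [ha, Set.mem_singleton_iff] at hX
        rw [hX, ← hTsup, ha, sSup_singleton]
    have hC₀top : C₀ ⊔ τ C₀ = ⊤ := hT1 _ hTne
    by_cases hfix : τ C₀ = C₀
    · right; right
      rw [hfix, sup_idem] at hC₀top
      exact ⟨hss, hS3 (hC₀top ▸ hC₀)⟩
    · right; left
      have hSeq : ∀ C ∈ S, C = C₀ ∨ C = τ C₀ := by
        intro C hC
        by_contra hcon
        push Not at hcon
        have h5 : Disjoint C (sSup (S \ {C})) := hS.ind hC
        have h6 : C₀ ⊔ τ C₀ ≤ sSup (S \ {C}) :=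
          sup_le (le_sSup ⟨hC₀, fun h => hcon.1 h.symm⟩) (le_sSup ⟨hτS C₀ hC₀, fun h => hcon.2 h.symm⟩)
        rw [hC₀top, top_le_iff] at h6
        rw [h6] at h5
        exact hS.ne C hC (by simpa using h5)
      have hS2' : S.ncard = 2 := by
        have : S = {C₀, τ C₀} := by
          ext C
          constructor
          · intro hC
            rcases hSeq C hC with h | h
            · left; exact h
            · right; exact h
          · rintro (rfl | rfl)
            · exact hC₀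
            · exact hτS C₀ hC₀
        rw [this, Set.ncard_pair (fun h => hfix h.symm)]
      obtain ⟨E, hE, hEinj, hEdec, hEH⟩ := hS.dec hirr hC₀ 2 le_rfl hS2'
      refine ⟨_, E, hEdec, fun i => ?_, hEH⟩
      have hsing : ∀ C ∈ S, C ≤ perp hf C := by
        intro C hC
        apply hother C hC C hC
        intro h
        rcases hSeq C hC with h1 | h1
        · rw [h1] at h; exact hfix h.symm
        · rw [h1, hττ C₀ hC₀] at h; exact hfix h
      intro u hu v hv
      exact hsing _ (hE i) hv u hu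

end CfsgLib.AschF
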