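import Mathlib
import Cfsg.Agent.LibAschF3

/-! centres with a form -/
set_option autoImplicit false
set_option linter.unusedSectionVars false

namespace CfsgLib.AschF

open Module Cfsg Cfsg.Geo CfsgLib.Asch1 CfsgLib.Asch2 CfsgLib.Asch3 CfsgLib.Asch6 CfsgLib.Asch9 CfsgLib.Asch11 CfsgLib.Asch13
open scoped Matrix MatrixGroups

section field
variable {F E : Type*} [Field F] [Finite F] [Ring E] [Algebra F E]

theorem prime_sub' (K : Subalgebra F E) [FiniteDimensional F K]
    (hcomm : ∀ x ∈ K, ∀ y ∈ K, x * y = y * x) (hinv : ∀ x ∈ K, x ≠ 0 → ∃ y ∈ K, x * y = 1)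
    [Nontrivial E] (hne : K ≠ ⊥) :
    ∃ (r : ℕ) (K' : Subalgebra F E), r.Prime ∧ K' ≤ K ∧ (∀ x ∈ K', x ≠ 0 → ∃ y ∈ K', x * y = 1) ∧
      finrank F K' = r ∧ ∀ x, x ∈ K' ↔ x ∈ K ∧ x ^ (Nat.card F ^ r) = x := by
  have hfield : IsField K :=
    { exists_pair_ne := ⟨0, 1, zero_ne_one⟩
      mul_comm := fun x y => Subtype.ext (hcomm x x.2 y y.2)
      mul_inv_cancel := by
        intro a ha
        obtain ⟨y, hy, hxy⟩ := hinv a a.2 (fun h => ha (Subtype.ext h))
        exact ⟨⟨y, hy⟩, Subtype.ext hxy⟩ }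
  let : CommRing K := { (inferInstance : Ring K) with mul_comm := hfield.mul_comm }
  let : Field K := hfield.toField
  let algFK : Algebra F K := inferInstance
  have : Finite K := Module.finite_of_finite F
  have h1 : finrank F K ≠ 1 := by
    intro h
    apply hne
    exact Subalgebra.finrank_eq_one_iff.1 h
  obtain ⟨r, L, hr, hL, hmem⟩ := exists_prime_sub (F := F) (L := K) h1
  have hmem' : ∀ x : E, x ∈ L.map K.val ↔ x ∈ K ∧ x ^ (Nat.card F ^ r) = x := by
    intro x
    constructor
    · rintro ⟨y, hy, rfl⟩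
      refine ⟨y.2, ?_⟩
      have := (hmem y).1 hy
      exact congrArg Subtype.val this
    · rintro ⟨hx, hx'⟩
      exact ⟨⟨x, hx⟩, (hmem _).2 (Subtype.ext hx'), rfl⟩
  refine ⟨r, L.map K.val, hr, ?_, ?_, ?_, hmem'⟩
  · rintro _ ⟨y, hy, rfl⟩
    exact y.2
  · intro x hx h0
    rw [hmem'] at hx
    obtain ⟨y, hy, hxy⟩ := hinv x hx.1 h0
    refine ⟨y, (hmem' y).2 ⟨hy, ?_⟩, hxy⟩
    have h2 : (⟨x, hx.1⟩ : K) ^ (Nat.card F ^ r) = ⟨x, hx.1⟩ := Subtype.ext hx.2
    have h3 : (⟨x, hx.1⟩ : K) * ⟨y, hy⟩ = 1 := Subtype.ext hxy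
    have h4 : (⟨y, hy⟩ : K) = (⟨x, hx.1⟩ : K)⁻¹ := eq_inv_of_mul_eq_one_right h3
    have h5 : (⟨y, hy⟩ : K) ^ (Nat.card F ^ r) = ⟨y, hy⟩ := by
      rw [h4, inv_pow, h2]
    exact congrArg Subtype.val h5
  · rw [← hL]
    exact ((Subalgebra.equivMapOfInjective L K.val Subtype.val_injective).toLinearEquiv.finrank_eq).symm

/-- an element of a field of prime degree satisfying a quadratic equation -/
theorem degree_two (K : Subalgebra F E) [FiniteDimensional F K]
    (hcomm : ∀ x ∈ K, ∀ y ∈ K, x * y = y * x) (hinv : ∀ x ∈ K, x ≠ 0 → ∃ y ∈ K, x * y = 1)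
    [Nontrivial E] {r : ℕ} (hr : r.Prime) (hK : finrank F K = r) (x : E) (hx : x ∈ K)
    (hxF : ∀ c : F, x ≠ algebraMap F E c) (a b : F)
    (hq : x * x = algebraMap F E a * x - algebraMap F E b) : r = 2 := by
  have hfield : IsField K :=
    { exists_pair_ne := ⟨0, 1, zero_ne_one⟩
      mul_comm := fun x y => Subtype.ext (hcomm x x.2 y y.2)
      mul_inv_cancel := by
        intro a ha
        obtain ⟨y, hy, hxy⟩ := hinv a a.2 (fun h => ha (Subtype.ext h))
        exact ⟨⟨y, hy⟩, Subtype.ext hxy⟩ }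
  let : CommRing K := { (inferInstance : Ring K) with mul_comm := hfield.mul_comm }
  let : Field K := hfield.toField
  let algFK : Algebra F K := inferInstance
  have : Finite K := Module.finite_of_finite F
  set y : K := ⟨x, hx⟩ with hy
  have hint : IsIntegral F y := IsIntegral.of_finite F y
  have h1 : (minpoly F y).natDegree ∣ r := by
    rw [← hK]
    exact minpoly.degree_dvd hint
  have h2 : (minpoly F y).natDegree ≤ 2 := by
    have hm : (Polynomial.X ^ 2 - Polynomial.C a * Polynomial.X + Polynomial.C b : Polynomial F).Monic := by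
      monicity!
    have hroot : Polynomial.aeval y (Polynomial.X ^ 2 - Polynomial.C a * Polynomial.X + Polynomial.C b : Polynomial F) = 0 := by
      simp only [map_add, map_sub, map_mul, map_pow, Polynomial.aeval_X, Polynomial.aeval_C]
      apply Subtype.ext
      change x ^ 2 - algebraMap F E a * x + algebraMap F E b = 0
      rw [sq, hq]; noncomm_ring
    have h3 := minpoly.min F y hm hroot
    have h4 := Polynomial.natDegree_le_natDegree h3
    refine h4.trans ?_
    compute_degree
  have h3 : (minpoly F y).natDegree ≠ 1 := by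
    intro h
    have h4 := (minpoly.natDegree_eq_one_iff (A := F) (x := y)).1 h
    obtain ⟨c, hc⟩ := h4
    exact hxF c (congrArg Subtype.val hc).symm
  have h4 : 0 < (minpoly F y).natDegree := minpoly.natDegree_pos hint
  have h5 : (minpoly F y).natDegree = 2 := by omega
  rw [h5] at h1
  exact ((Nat.prime_dvd_prime_iff_eq Nat.prime_two hr).1 h1).symm

open Polynomial in
theorem mem_subfield_of_pow {L : Type*} [Field L] [Finite L] (S : Subfield L) (x : L)
    (hx : x ^ Nat.card S = x) : x ∈ S := by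
  classical
  have : Fintype L := Fintype.ofFinite L
  have : Fintype S := Fintype.ofFinite S
  by_contra hxn
  have hpow : ∀ y ∈ S, y ^ Nat.card S = y := by
    intro y hy
    have := FiniteField.pow_card (⟨y, hy⟩ : S)
    rw [← Nat.card_eq_fintype_card] at this
    exact congrArg Subtype.val this
  have hcS : 1 < Nat.card S := Finite.one_lt_card
  have hne : (X ^ (Nat.card S) - X : L[X]) ≠ 0 := FiniteField.X_pow_card_sub_X_ne_zero _ hcS
  have hdeg : (X ^ (Nat.card S) - X : L[X]).natDegree = Nat.card S :=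
    FiniteField.X_pow_card_sub_X_natDegree_eq _ hcS
  let s : Finset L := Finset.univ.filter (fun y => y ∈ S)
  have hs : s.card = Nat.card S := by
    rw [Nat.card_eq_fintype_card]
    exact (Fintype.card_subtype _).symm
  have hxs : x ∉ s := by simpa [s] using hxn
  have hle : insert x s ⊆ (X ^ (Nat.card S) - X : L[X]).roots.toFinset := by
    intro y hy
    rw [Multiset.mem_toFinset, mem_roots hne]
    rw [Finset.mem_insert] at hy
    rcases hy with rfl | hy
    · rw [IsRoot.def, eval_sub, eval_pow, eval_X, hx, sub_self]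
    · have := hpow y (by simpa [s] using hy)
      rw [IsRoot.def, eval_sub, eval_pow, eval_X, this, sub_self]
  have h2 := Finset.card_le_card hle
  have h3 := Multiset.toFinset_card_le (X ^ (Nat.card S) - X : L[X]).roots
  have h4 := (X ^ (Nat.card S) - X : L[X]).card_roots'
  rw [Finset.card_insert_of_notMem hxs, hs] at h2
  omega

end field

variable {ι : Type} [Fintype ι] [DecidableEq ι] {F : Type*} [Field F]
variable {σ : F ≃+* F} {ε : F} {f : (ι → F) → (ι → F) → F}

/-- a field closed under adjoints, in the sesquilinear case, has odd prime degree -/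
theorem odd_degree [Finite F] [Nonempty ι] (hf : FD σ ε f) (hσ : σ ≠ RingEquiv.refl F) {r : ℕ} (hr : r.Prime)
    (K : Subalgebra F (Matrix ι ι F)) (hK : IsFieldSubalgebra r K) (hA : IsAdjointClosedFor f K) : Odd r := by
  by_contra hodd
  have hr2 : r = 2 := by
    rcases hr.eq_two_or_odd' with h | h
    · exact h
    · exact absurd h hodd
  subst hr2
  have hfield : IsField K :=
    { exists_pair_ne := ⟨0, 1, zero_ne_one⟩
      mul_comm := fun x y => Subtype.ext (hK.comm x x.2 y y.2)
      mul_inv_cancel := by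
        intro a ha
        obtain ⟨y, hy, hxy⟩ := hK.inv a a.2 (fun h => ha (Subtype.ext h))
        exact ⟨⟨y, hy⟩, Subtype.ext hxy⟩ }
  let : CommRing K := { (inferInstance : Ring K) with mul_comm := hfield.mul_comm }
  let : Field K := hfield.toField
  let algFK : Algebra F K := inferInstance
  have : Finite K := Module.finite_of_finite F
  -- the fixed subfield
  let S : Subfield K :=
    { carrier := {x | Adj f (x : Matrix ι ι F) (x : Matrix ι ι F)}
      mul_mem' := by
        intro a b ha hb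
        have h1 : Adj f ((a : Matrix ι ι F) * (b : Matrix ι ι F)) ((b : Matrix ι ι F) * (a : Matrix ι ι F)) := ha.mul hb
        rw [hK.comm b b.2 a a.2] at h1
        exact h1
      one_mem' := Adj.one
      add_mem' := fun {a b} ha hb => Adj.add hf ha hb
      zero_mem' := by
        intro u v
        change f ((0 : Matrix ι ι F) *ᵥ u) v = f u ((0 : Matrix ι ι F) *ᵥ v)
        rw [Matrix.zero_mulVec, Matrix.zero_mulVec, hf.zero_left, hf.zero_right]
      neg_mem' := by
        intro a ha
        have h1 := Adj.smul hf ha (-1)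
        rw [map_neg, map_one, neg_smul, one_smul] at h1
        exact h1
      inv_mem' := by
        intro a ha
        by_cases ha0 : a = 0
        · rw [ha0, inv_zero]
          intro u v
          change f ((0 : Matrix ι ι F) *ᵥ u) v = f u ((0 : Matrix ι ι F) *ᵥ v)
          rw [Matrix.zero_mulVec, Matrix.zero_mulVec, hf.zero_left, hf.zero_right]
        obtain ⟨b', hb', hbad⟩ := hA ((a⁻¹ : K) : Matrix ι ι F) (a⁻¹).2
        have hbad : Adj f ((a⁻¹ : K) : Matrix ι ι F) b' := hbad
        have h1 : Adj f (((a⁻¹ : K) : Matrix ι ι F) * (a : Matrix ι ι F)) ((a : Matrix ι ι F) * b') := hbad.mul ha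
        have h2 : ((a⁻¹ : K) : Matrix ι ι F) * (a : Matrix ι ι F) = 1 := by
          have : a⁻¹ * a = 1 := inv_mul_cancel₀ ha0
          exact congrArg Subtype.val this
        rw [h2] at h1
        have h3 : (a : Matrix ι ι F) * b' = 1 := h1.uniq hf Adj.one
        have h4 : b' = ((a⁻¹ : K) : Matrix ι ι F) := by
          have h5 : a * (⟨b', hb'⟩ : K) = 1 := Subtype.ext h3
          have h6 : (⟨b', hb'⟩ : K) = a⁻¹ := eq_inv_of_mul_eq_one_right h5
          exact congrArg Subtype.val h6
        rw [h4] at hbad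
        exact hbad }
  obtain ⟨θ, hθ⟩ : ∃ θ : F, σ θ ≠ θ := by
    by_contra hcon
    push Not at hcon
    exact hσ (RingEquiv.ext hcon)
  set δ := θ - σ θ with hδ
  have hδ0 : δ ≠ 0 := sub_ne_zero.2 (fun h => hθ h.symm)
  have hσδ : σ δ = -δ := by rw [hδ, map_sub, hf.sq]; ring
  have hsc : ∀ (c : F) (x : K), ((c • x : K) : Matrix ι ι F) = c • (x : Matrix ι ι F) := fun c x => rfl
  let g : S × S → K := fun p => (p.1 : K) + θ • (p.2 : K)
  have hg : Function.Bijective g := by
    constructor
    · rintro ⟨u, v⟩ ⟨u', v'⟩ huv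
      have h1 : (u : K) + θ • (v : K) = (u' : K) + θ • (v' : K) := huv
      have hu : Adj f (((u : K) : Matrix ι ι F)) (((u : K) : Matrix ι ι F)) := u.2
      have hv : Adj f (((v : K) : Matrix ι ι F)) (((v : K) : Matrix ι ι F)) := v.2
      have hu' : Adj f (((u' : K) : Matrix ι ι F)) (((u' : K) : Matrix ι ι F)) := u'.2
      have hv' : Adj f (((v' : K) : Matrix ι ι F)) (((v' : K) : Matrix ι ι F)) := v'.2
      have h2 := hu.add hf (hv.smul hf θ)
      have h3 := hu'.add hf (hv'.smul hf θ)
      have h4 : ((u : K) : Matrix ι ι F) + θ • ((v : K) : Matrix ι ι F) = ((u' : K) : Matrix ι ι F) + θ • ((v' : K) : Matrix ι ι F) :=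
        congrArg Subtype.val h1
      rw [h4] at h2
      have h5 := h2.uniq hf h3
      have h6 : δ • (((v : K) : Matrix ι ι F) - ((v' : K) : Matrix ι ι F)) = 0 := by
        have : δ • (((v : K) : Matrix ι ι F) - ((v' : K) : Matrix ι ι F)) =
          ((((u : K) : Matrix ι ι F) + θ • ((v : K) : Matrix ι ι F)) - (((u' : K) : Matrix ι ι F) + θ • ((v' : K) : Matrix ι ι F))) -
          ((((u : K) : Matrix ι ι F) + σ θ • ((v : K) : Matrix ι ι F)) - (((u' : K) : Matrix ι ι F) + σ θ • ((v' : K) : Matrix ι ι F))) := by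
          rw [hδ, smul_sub, sub_smul, sub_smul]; abel
        rw [this, h4, h5, sub_self, sub_self, sub_self]
      have h7 : ((v : K) : Matrix ι ι F) = ((v' : K) : Matrix ι ι F) := by
        rcases smul_eq_zero.1 h6 with h | h
        · exact absurd h hδ0
        · exact sub_eq_zero.1 h
      have h8 : v = v' := Subtype.ext (Subtype.ext h7)
      subst h8
      have h9 : (u : K) = (u' : K) := add_right_cancel h1
      rw [Prod.mk.injEq]
      exact ⟨Subtype.ext h9, rfl⟩
    · intro x
      obtain ⟨x', hx', hxad⟩ := hA (x : Matrix ι ι F) x.2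
      have hxad : Adj f (x : Matrix ι ι F) x' := hxad
      have hxad' := hxad.symm hf
      have hneg : ∀ {a a' : Matrix ι ι F}, Adj f a a' → Adj f (-a) (-a') := by
        intro a a' h
        have := h.smul hf (-1)
        rwa [map_neg, map_one, neg_smul, one_smul, neg_smul, one_smul] at this
      let X' : K := ⟨x', hx'⟩
      refine ⟨⟨⟨δ⁻¹ • (θ • X' - σ θ • x), ?_⟩, ⟨δ⁻¹ • (x - X'), ?_⟩⟩, ?_⟩
      · change Adj f (δ⁻¹ • (θ • x' - σ θ • (x : Matrix ι ι F))) (δ⁻¹ • (θ • x' - σ θ • (x : Matrix ι ι F)))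
        have h1 := ((hxad'.smul hf θ).add hf (hneg (hxad.smul hf (σ θ)))).smul hf δ⁻¹
        rw [map_inv₀, hσδ, hf.sq] at h1
        have h2 : (-δ)⁻¹ • (σ θ • (x : Matrix ι ι F) + -(θ • x')) = δ⁻¹ • (θ • x' - σ θ • (x : Matrix ι ι F)) := by
          rw [inv_neg, neg_smul, ← smul_neg]; congr 1; abel
        rw [h2, ← sub_eq_add_neg] at h1
        exact h1
      · change Adj f (δ⁻¹ • ((x : Matrix ι ι F) - x')) (δ⁻¹ • ((x : Matrix ι ι F) - x'))
        have h1 := (hxad.add hf (hneg hxad')).smul hf δ⁻¹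
        rw [map_inv₀, hσδ] at h1
        have h2 : (-δ)⁻¹ • (x' + -(x : Matrix ι ι F)) = δ⁻¹ • ((x : Matrix ι ι F) - x') := by
          rw [inv_neg, neg_smul, ← smul_neg]; congr 1; abel
        rw [h2, ← sub_eq_add_neg] at h1
        exact h1
      · change δ⁻¹ • (θ • X' - σ θ • x) + θ • (δ⁻¹ • (x - X')) = x
        rw [smul_comm θ δ⁻¹, ← smul_add]
        have h1 : θ • X' - σ θ • x + θ • (x - X') = δ • x := by
          rw [hδ, smul_sub, sub_smul]; abel
        rw [h1, smul_smul, inv_mul_cancel₀ hδ0, one_smul]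
  have hcard : Nat.card K = Nat.card S ^ 2 := by
    rw [← Nat.card_congr (Equiv.ofBijective g hg), Nat.card_prod, sq]
  have hcardK : Nat.card K = Nat.card F ^ 2 := by
    rw [Module.natCard_eq_pow_finrank (K := F) (V := K), hK.finrank_eq]
  have hSF : Nat.card S = Nat.card F := by
    rw [hcard] at hcardK
    exact Nat.pow_left_injective (n := 2) (by norm_num) hcardK
  have hθS : algebraMap F K θ ∈ S := by
    apply mem_subfield_of_pow
    rw [hSF, ← map_pow]
    have : Fintype F := Fintype.ofFinite F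
    rw [Nat.card_eq_fintype_card, FiniteField.pow_card]
  have h1 : Adj f (algebraMap F (Matrix ι ι F) θ) (algebraMap F (Matrix ι ι F) θ) := hθS
  rw [Algebra.algebraMap_eq_smul_one] at h1
  have h2 := (Adj.scalar hf θ).uniq hf h1
  apply hθ
  obtain ⟨i⟩ := (inferInstance : Nonempty ι)
  have h3 := congrFun (congrFun h2 i) i
  simpa using h3

end CfsgLib.AschF
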