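import Mathlib
import Cfsg.Agent.LibAschF4

/-! the centre step with a form -/
set_option autoImplicit false
set_option linter.unusedSectionVars false

namespace CfsgLib.AschF

open Module Cfsg Cfsg.Geo CfsgLib.Asch1 CfsgLib.Asch2 CfsgLib.Asch3 CfsgLib.Asch6 CfsgLib.Asch9 CfsgLib.Asch11 CfsgLib.Asch13
open scoped Matrix MatrixGroups

variable {ι : Type} [Fintype ι] [DecidableEq ι] {F : Type*} [Field F]
variable {σ : F ≃+* F} {ε : F} {f : (ι → F) → (ι → F) → F}

theorem mem_cen_endA (A : Subalgebra F (Matrix ι ι F)) (M : Matrix ι ι F) :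
    M ∈ cen A ↔ Matrix.toLin' M ∈ cen (endA A) := by
  rw [mem_cen, mem_cen, mem_endA]
  refine and_congr_right fun _ => ⟨?_, ?_⟩
  · intro h a ha
    obtain ⟨N, hN, rfl⟩ := exists_of_mem_endA A a ha
    have := h N hN
    change Matrix.toLin' N ∘ₗ Matrix.toLin' M = Matrix.toLin' M ∘ₗ Matrix.toLin' N
    rw [← Matrix.toLin'_mul, ← Matrix.toLin'_mul, this]
  · intro h a ha
    have h1 := h (Matrix.toLin' a) ((mem_endA A a).2 ha)
    change Matrix.toLin' a ∘ₗ Matrix.toLin' M = Matrix.toLin' M ∘ₗ Matrix.toLin' a at h1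
    rw [← Matrix.toLin'_mul, ← Matrix.toLin'_mul] at h1
    exact Matrix.toLin'.injective h1

theorem cen_field [Nonempty ι] (A : Subalgebra F (Matrix ι ι F)) (hss : IsSemisimpleModule (endA A) (ι → F))
    (hiso : IsIsotypic (endA A) (ι → F)) : ∀ x ∈ cen A, x ≠ 0 → ∃ y ∈ cen A, x * y = 1 := by
  have hsimple := (simple_of_isotypic (endA A) hiso).1
  intro x hx h0
  obtain ⟨y, hy, hxy⟩ := cen_inv (endA A) (Matrix.toLin' x) ((mem_cen_endA A x).1 hx) (by
    intro h; exact h0 (by simpa using h))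
  obtain ⟨N, hN, rfl⟩ := exists_of_mem_endA A y ((mem_cen _ _).1 hy).1
  refine ⟨N, (mem_cen_endA A N).2 hy, ?_⟩
  change Matrix.toLin' x ∘ₗ Matrix.toLin' N = 1 at hxy
  rw [← Matrix.toLin'_mul] at hxy
  apply (Matrix.toLin' : Matrix ι ι F ≃ₗ[F] _).injective
  rw [hxy, Matrix.toLin'_one]; rfl

theorem cen_conj (H : Subgroup (GL ι F)) (A : Subalgebra F (Matrix ι ι F)) (hn : NormAlg (H : Set (GL ι F)) A)
    (h : GL ι F) (hh : h ∈ H) (x : Matrix ι ι F) (hx : x ∈ cen A) :
    (h : Matrix ι ι F) * x * ((h⁻¹ : GL ι F) : Matrix ι ι F) ∈ cen A := by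
  rw [mem_cen] at hx ⊢
  refine ⟨(hn h hh).1 x hx.1, fun a ha => ?_⟩
  have h1 := hx.2 _ ((hn h hh).2 a ha)
  have h2 : cj h (((h⁻¹ : GL ι F) : Matrix ι ι F) * a * (h : Matrix ι ι F)) * cj h x =
      cj h x * cj h (((h⁻¹ : GL ι F) : Matrix ι ι F) * a * (h : Matrix ι ι F)) := by
    rw [← map_mul (cj h), ← map_mul (cj h), h1]
  have h3 : cj h (((h⁻¹ : GL ι F) : Matrix ι ι F) * a * (h : Matrix ι ι F)) = a :=
    (cj h).apply_symm_apply a
  rwa [h3] at h2

theorem cen_closed (hf : FD σ ε f) (A : Subalgebra F (Matrix ι ι F)) (hA : IsAdjointClosedFor f A) :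
    IsAdjointClosedFor f (cen A) := by
  intro x hx
  rw [mem_cen] at hx
  obtain ⟨x', hx', had⟩ := hA x hx.1
  have had : Adj f x x' := had
  refine ⟨x', (mem_cen _ _).2 ⟨hx', fun a ha => ?_⟩, had⟩
  obtain ⟨a', ha', haad⟩ := hA a ha
  have haad : Adj f a a' := haad
  have h1 : Adj f (x * a') (a * x') := had.mul (haad.symm hf)
  have h2 : Adj f (a' * x) (x' * a) := (haad.symm hf).mul had
  rw [hx.2 a' ha'] at h2
  exact (h2.uniq hf h1).symm

theorem le_normalizer_alg {H : Subgroup (GL ι F)} {K : Subalgebra F (Matrix ι ι F)}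
    (hpres : ∀ h ∈ H, ∀ x ∈ K, (h : Matrix ι ι F) * x * ((h⁻¹ : GL ι F) : Matrix ι ι F) ∈ K) :
    H ≤ subalgebraNormalizer K := by
  intro h hh k
  constructor
  · exact hpres h hh k
  · intro hk
    have := hpres h⁻¹ (H.inv_mem hh) _ hk
    rw [inv_inv] at this
    have h3 : ((h⁻¹ : GL ι F) : Matrix ι ι F) * ((h : Matrix ι ι F) * k * ((h⁻¹ : GL ι F) : Matrix ι ι F)) * (h : Matrix ι ι F) = k :=
      (cj h).symm_apply_apply k
    rwa [h3] at this

/-- the alternatives of the centre step -/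
theorem matrix_or_field [Finite F] [Nonempty ι] (hf : FD σ ε f) {H : Subgroup (GL ι F)} (hH : Iso f H)
    (A : Subalgebra F (Matrix ι ι F)) (hn : NormAlg (H : Set (GL ι F)) A) (hA : IsAdjointClosedFor f A)
    (hss : IsSemisimpleModule (endA A) (ι → F)) (hiso : IsIsotypic (endA A) (ι → F)) :
    (∃ (a : ℕ) (_ : NeZero a) (φ : Matrix (Fin a) (Fin a) F →ₐ[F] End F (ι → F)), φ.range = endA A) ∨
    (∃ (r : ℕ) (K : Subalgebra F (Matrix ι ι F)), r.Prime ∧ IsFieldSubalgebra r K ∧ H ≤ subalgebraNormalizer K ∧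
      IsAdjointClosedFor f K ∧
      ((σ = RingEquiv.refl F ∧ (IsSelfAdjointFor f K ∨ (r = 2 ∧ ¬ IsSelfAdjointFor f K))) ∨
       (σ ≠ RingEquiv.refl F ∧ Odd r))) := by
  classical
  by_cases hcon : ∀ z ∈ endA A, (∀ a ∈ endA A, a * z = z * a) → ∃ c : F, z = algebraMap F _ c
  · left
    exact matrix_of_isotypic (endA A) hss hiso hcon
  right
  push Not at hcon
  obtain ⟨z, hz, hz', hzc⟩ := hcon
  obtain ⟨M, hM, rfl⟩ := exists_of_mem_endA A z hz
  have hMc : M ∈ cen A := by
    rw [mem_cen_endA, mem_cen]; exact ⟨hz, hz'⟩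
  have hne : cen A ≠ ⊥ := by
    intro h0
    rw [h0, Algebra.mem_bot] at hMc
    obtain ⟨c, rfl⟩ := hMc
    exact hzc c ((Matrix.toLinAlgEquiv' : Matrix ι ι F ≃ₐ[F] _).commutes c)
  have hcomm : ∀ x ∈ cen A, ∀ y ∈ cen A, x * y = y * x := fun x hx y hy => cen_comm A x y hx hy
  have hinv := cen_field A hss hiso
  have hconj := cen_conj H A hn
  have hclosed := cen_closed hf A hA
  by_cases hσ : σ = RingEquiv.refl F
  · subst hσ
    -- the self adjoint part
    let L : Subalgebra F (Matrix ι ι F) :=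
      { carrier := {x | x ∈ cen A ∧ Adj f x x}
        mul_mem' := by
          rintro a b ⟨ha, ha'⟩ ⟨hb, hb'⟩
          refine ⟨(cen A).mul_mem ha hb, ?_⟩
          have h1 := ha'.mul hb'
          rwa [hcomm b hb a ha] at h1
        add_mem' := fun {a b} ha hb => ⟨(cen A).add_mem ha.1 hb.1, ha.2.add hf hb.2⟩
        algebraMap_mem' := fun c => ⟨(cen A).algebraMap_mem c, by
          rw [Algebra.algebraMap_eq_smul_one]
          exact Adj.scalar hf c⟩ }
    have hLmem : ∀ x, x ∈ L ↔ x ∈ cen A ∧ Adj f x x := fun x => Iff.rfl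
    by_cases hL : L = ⊥
    · -- degree two
      obtain ⟨r, K, hr, hK, hKinv, hKr, hKm⟩ := prime_sub' (cen A) hcomm hinv hne
      have hKad : IsAdjointClosedFor f K := by
        intro x hx
        rw [hKm] at hx
        obtain ⟨x', hx', had⟩ := hclosed x hx.1
        have had : Adj f x x' := had
        refine ⟨x', (hKm x').2 ⟨hx', ?_⟩, had⟩
        have h1 := had.pow (Nat.card F ^ r)
        rw [hx.2] at h1
        exact h1.uniq hf had
      have hns : ¬ IsSelfAdjointFor f K := by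
        intro hs
        have h1 : K ≤ L := fun x hx => ⟨hK hx, hs x hx⟩
        rw [hL] at h1
        have h2 : K = ⊥ := le_bot_iff.1 h1
        rw [h2, Subalgebra.finrank_bot] at hKr
        exact hr.one_lt.ne hKr
      -- pick an element
      have hx : ∃ x ∈ K, ∀ c : F, x ≠ algebraMap F _ c := by
        by_contra hcon
        push Not at hcon
        apply hns
        intro k hk
        obtain ⟨c, rfl⟩ := hcon k hk
        rw [Algebra.algebraMap_eq_smul_one]
        exact Adj.scalar hf c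
      obtain ⟨x, hxK, hxF⟩ := hx
      obtain ⟨x', hxK', had⟩ := hKad x hxK
      have had : Adj f x x' := had
      have h1 : x + x' ∈ L := ⟨(cen A).add_mem (hK hxK) (hK hxK'), by
        have := had.add hf (had.symm hf)
        rwa [add_comm x' x] at this⟩
      have h2 : x' * x ∈ L := ⟨(cen A).mul_mem (hK hxK') (hK hxK), by
        have := (had.symm hf).mul had
        exact this⟩
      rw [hL, Algebra.mem_bot] at h1 h2
      obtain ⟨a, ha⟩ := h1
      obtain ⟨b, hb⟩ := h2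
      have hr2 : r = 2 := by
        refine degree_two K (fun x hx y hy => hcomm x (hK hx) y (hK hy)) hKinv hr hKr x hxK hxF a b ?_
        rw [ha, hb]; noncomm_ring
      refine ⟨r, K, hr, ⟨fun x hx y hy => hcomm x (hK hx) y (hK hy), hKinv, hKr⟩, le_normalizer_alg ?_, hKad,
        Or.inl ⟨rfl, Or.inr ⟨hr2, hns⟩⟩⟩
      intro h hh x hx
      rw [hKm] at hx ⊢
      refine ⟨hconj h hh x hx.1, ?_⟩
      change (cj h x) ^ _ = cj h x
      rw [← map_pow, hx.2]
    · have hLinv : ∀ x ∈ L, x ≠ 0 → ∃ y ∈ L, x * y = 1 := by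
        intro x hx h0
        obtain ⟨y, hy, hxy⟩ := hinv x hx.1 h0
        refine ⟨y, ⟨hy, ?_⟩, hxy⟩
        obtain ⟨y', hy', had⟩ := hclosed y hy
        have had : Adj f y y' := had
        have h1 : Adj f (x * y) (y' * x) := hx.2.mul had
        rw [hxy] at h1
        have h2 : y' * x = 1 := h1.uniq hf Adj.one
        have h3 : y' = y := by
          calc y' = y' * (x * y) := by rw [hxy, mul_one]
            _ = y := by rw [← mul_assoc, h2, one_mul]
        rwa [h3] at had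
      obtain ⟨r, K, hr, hK, hKinv, hKr, hKm⟩ := prime_sub' L (fun x hx y hy => hcomm x hx.1 y hy.1) hLinv hL
      have hself : IsSelfAdjointFor f K := fun k hk => (hK hk).2
      refine ⟨r, K, hr, ⟨fun x hx y hy => hcomm x (hK hx).1 y (hK hy).1, hKinv, hKr⟩, le_normalizer_alg ?_,
        fun k hk => ⟨k, hk, hself k hk⟩, Or.inl ⟨rfl, Or.inl hself⟩⟩
      intro h hh x hx
      rw [hKm] at hx ⊢
      refine ⟨⟨hconj h hh x hx.1.1, hH.adj_conj hh hx.1.2⟩, ?_⟩
      change (cj h x) ^ _ = cj h x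
      rw [← map_pow, hx.2]
  · obtain ⟨r, K, hr, hK, hKinv, hKr, hKm⟩ := prime_sub' (cen A) hcomm hinv hne
    have hKad : IsAdjointClosedFor f K := by
      intro x hx
      rw [hKm] at hx
      obtain ⟨x', hx', had⟩ := hclosed x hx.1
      have had : Adj f x x' := had
      refine ⟨x', (hKm x').2 ⟨hx', ?_⟩, had⟩
      have h1 := had.pow (Nat.card F ^ r)
      rw [hx.2] at h1
      exact h1.uniq hf had
    have hKf : IsFieldSubalgebra r K := ⟨fun x hx y hy => hcomm x (hK hx) y (hK hy), hKinv, hKr⟩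
    refine ⟨r, K, hr, hKf, le_normalizer_alg ?_, hKad, Or.inr ⟨hσ, odd_degree hf hσ hr K hKf hKad⟩⟩
    intro h hh x hx
    rw [hKm] at hx ⊢
    refine ⟨hconj h hh x hx.1, ?_⟩
    change (cj h x) ^ _ = cj h x
    rw [← map_pow, hx.2]

end CfsgLib.AschF
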