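import Mathlib
import Cfsg.Agent.LibAschF5

/-! tensor decompositions of forms -/
set_option autoImplicit false
set_option linter.unusedSectionVars false

namespace CfsgLib.AschF

open Module Cfsg Cfsg.Geo CfsgLib.Asch1 CfsgLib.Asch2 CfsgLib.Asch3 CfsgLib.Asch6 CfsgLib.Asch7 CfsgLib.Asch9 CfsgLib.Asch11 CfsgLib.Asch13
open scoped Matrix MatrixGroups Kronecker

variable {ι : Type} [Fintype ι] [DecidableEq ι] {F : Type*} [Field F]
variable {σ : F ≃+* F} {ε : F} {f : (ι → F) → (ι → F) → F}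

theorem mulVec_P {κ : Type} [Fintype κ] [DecidableEq κ] (b : Basis κ F (ι → F)) (e : ι ≃ κ) (P : GL ι F)
    (hP : ∀ i j, (P : Matrix ι ι F) j i = b.reindex e.symm i j) (x : κ → F) :
    (P : Matrix ι ι F) *ᵥ (x ∘ e) = ∑ k, x k • b k := by
  ext j
  rw [Finset.sum_apply]
  simp only [Matrix.mulVec, dotProduct, hP, Function.comp, Pi.smul_apply, smul_eq_mul]
  refine Fintype.sum_equiv e _ _ fun i => ?_
  rw [Basis.reindex_apply, Equiv.symm_symm, mul_comm]

theorem form_P (hf : FD σ ε f) {κ : Type} [Fintype κ] [DecidableEq κ] (b : Basis κ F (ι → F)) (e : ι ≃ κ) (P : GL ι F)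
    (hP : ∀ i j, (P : Matrix ι ι F) j i = b.reindex e.symm i j) (x y : κ → F) :
    f ((P : Matrix ι ι F) *ᵥ (x ∘ e)) ((P : Matrix ι ι F) *ᵥ (y ∘ e)) = ∑ a, ∑ c, x a * f (b a) (b c) * σ (y c) := by
  rw [mulVec_P b e P hP, mulVec_P b e P hP, hf.sum_left]
  refine Finset.sum_congr rfl fun a _ => ?_
  rw [hf.sum_right]
  refine Finset.sum_congr rfl fun c _ => ?_
  rw [hf.smul_left, hf.smul_right]; ring

theorem gramMatrix_formOfGram {κ : Type} [Fintype κ] [DecidableEq κ] (G : Matrix κ κ F) (τ : F →+* F) :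
    gramMatrix (formOfGram (fun x => τ x) G) = G := by
  ext i j
  simp only [gramMatrix, formOfGram]
  rw [Finset.sum_eq_single i, Finset.sum_eq_single j]
  · simp
  · intro c _ hc
    simp [Pi.single_apply, hc]
  · simp
  · intro c _ hc
    simp [Pi.single_apply, hc]
  · simp

theorem formOfGram_eq {κ : Type} [Fintype κ] [DecidableEq κ] (G : Matrix κ κ F) (τ : F → F) (x y : κ → F) :
    formOfGram τ G x y = x ⬝ᵥ (G *ᵥ (τ ∘ y)) := by
  simp only [formOfGram, dotProduct, Matrix.mulVec, Finset.mul_sum, Function.comp, mul_assoc]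

theorem FD_of_gram {κ : Type} [Fintype κ] [DecidableEq κ] (G : Matrix κ κ F) (hdet : IsUnit G.det)
    (hG : ∀ i j, G i j = ε * σ (G j i)) (hsq : ∀ a, σ (σ a) = a) (heps : ε = 1 ∨ ε = -1) :
    FD σ ε (formOfGram (fun x => σ x) G) := by
  have hadd : ∀ x y : κ → F, ((fun x => σ x) ∘ (x + y)) = ((fun x => σ x) ∘ x) + ((fun x => σ x) ∘ y) := by
    intro x y; ext i; simp
  have hsm : ∀ (c : F) (x : κ → F), ((fun x => σ x) ∘ (c • x)) = σ c • ((fun x => σ x) ∘ x) := by
    intro x y; ext i; simp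
  refine ⟨⟨?_, ?_, ?_, ?_⟩, ?_, hsq, ?_, heps⟩
  · intro x y v
    rw [formOfGram_eq, formOfGram_eq, formOfGram_eq, add_dotProduct]
  · intro c x v
    rw [formOfGram_eq, formOfGram_eq, smul_dotProduct, smul_eq_mul]
  · intro v x y
    rw [formOfGram_eq, formOfGram_eq, formOfGram_eq, hadd, Matrix.mulVec_add, dotProduct_add]
  · intro c v x
    rw [formOfGram_eq, formOfGram_eq, hsm, Matrix.mulVec_smul, dotProduct_smul, smul_eq_mul]
    rfl
  · intro v hv
    constructor
    · by_contra hcon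
      push Not at hcon
      have h1 : G *ᵥ ((fun x => σ x) ∘ v) = 0 := by
        ext i
        have := hcon (Pi.single i 1)
        rw [formOfGram_eq, single_one_dotProduct] at this
        exact this
      have h2 : (fun x => σ x) ∘ v = 0 := by
        have h3 := congrArg (fun w => G⁻¹ *ᵥ w) h1
        simp only [Matrix.mulVec_mulVec, Matrix.nonsing_inv_mul G hdet, Matrix.one_mulVec, Matrix.mulVec_zero] at h3
        exact h3
      apply hv
      ext i
      have := congrFun h2 i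
      simpa using this
    · by_contra hcon
      push Not at hcon
      have h1 : v ᵥ* G = 0 := by
        ext i
        have := hcon (Pi.single i 1)
        rw [formOfGram_eq] at this
        have h3 : ((fun x => σ x) ∘ (Pi.single i 1 : κ → F)) = Pi.single i 1 := by
          ext k
          by_cases hk : k = i
          · subst hk; simp
          · simp [hk]
        rw [h3, Matrix.dotProduct_mulVec, dotProduct_single_one] at this
        exact this
      have h2 : v = 0 := by
        have h3 := congrArg (fun w => w ᵥ* G⁻¹) h1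
        simp only [Matrix.vecMul_vecMul, Matrix.mul_nonsing_inv G hdet, Matrix.vecMul_one, Matrix.zero_vecMul] at h3
        exact h3
      exact hv h2
  · intro u v
    simp only [formOfGram, map_sum, map_mul, Finset.mul_sum, hsq]
    rw [Finset.sum_comm]
    refine Finset.sum_congr rfl fun i _ => Finset.sum_congr rfl fun j _ => ?_
    rw [hG j i]; ring

theorem tensor_gram [Finite F] [Nonempty ι] (hf : FD σ ε f) {a k : ℕ} [NeZero a]
    (φ : Matrix (Fin a) (Fin a) F →ₐ[F] End F (ι → F)) (b : Basis (Fin a × Fin k) F (ι → F))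
    (hb : ∀ (M : Matrix (Fin a) (Fin a) F) (j : Fin a) (l : Fin k),
        φ M (b (j, l)) = ∑ i, M i j • b (i, l))
    (hadj : ∀ M, ∃ M', ∀ u v, f (φ M u) v = f u (φ M' v)) :
    ∃ (G₁ : Matrix (Fin a) (Fin a) F) (G₂ : Matrix (Fin k) (Fin k) F), IsUnit G₁.det ∧ IsUnit G₂.det ∧
      (∃ l l', G₂ l l' = 1) ∧
      ∀ i l j l', f (b (i, l)) (b (j, l')) = G₁ i j * G₂ l l' := by
  classical
  let g : Fin k → Fin k → Matrix (Fin a) (Fin a) F := fun l l' => Matrix.of fun i j => f (b (i, l)) (b (j, l'))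
  have hg : ∀ l l' i j, g l l' i j = f (b (i, l)) (b (j, l')) := fun _ _ _ _ => rfl
  have hrel : ∀ M M', (∀ u v, f (φ M u) v = f u (φ M' v)) → ∀ l l', Mᵀ * g l l' = g l l' * M'.map σ := by
    intro M M' h l l'
    ext i j
    rw [Matrix.mul_apply, Matrix.mul_apply]
    have h1 := h (b (i, l)) (b (j, l'))
    rw [hb, hb, hf.sum_left, hf.sum_right] at h1
    simp only [hf.smul_left, hf.smul_right] at h1
    simp only [Matrix.transpose_apply, Matrix.map_apply, hg]
    rw [h1]
    exact Finset.sum_congr rfl fun x _ => mul_comm _ _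
  have hadj' : ∀ M', ∃ M, ∀ u v, f (φ M u) v = f u (φ M' v) := by
    intro M'
    obtain ⟨M, hM⟩ := hadj M'
    refine ⟨M, fun u v => ?_⟩
    rw [hf.herm, ← hM, ← hf.herm]
  obtain ⟨l₀, l₁, h0⟩ : ∃ l₀ l₁, g l₀ l₁ ≠ 0 := by
    by_contra hcon
    push Not at hcon
    obtain ⟨w, hw⟩ := exists_ne (0 : ι → F)
    apply hw
    apply hf.ext_right
    intro u
    rw [hf.zero_right, ← b.sum_repr w, ← b.sum_repr u, hf.sum_left]
    refine Finset.sum_eq_zero fun x _ => ?_
    rw [hf.sum_right]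
    refine Finset.sum_eq_zero fun y _ => ?_
    rw [hf.smul_left, hf.smul_right]
    have := congrFun (congrFun (hcon x.2 y.2) x.1) y.1
    rw [hg] at this
    rw [this]; simp
  set G₀ := g l₀ l₁ with hG₀
  have hdet : IsUnit G₀.det := by
    rw [isUnit_iff_ne_zero]
    intro hd
    obtain ⟨v, hv, hv0⟩ := Matrix.exists_mulVec_eq_zero_iff.2 hd
    apply h0
    -- G₀ kills everything
    have h1 : ∀ w : Fin a → F, G₀ *ᵥ w = 0 := by
      intro w
      obtain ⟨i, hi⟩ : ∃ i, v i ≠ 0 := by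
        by_contra hc; push Not at hc; exact hv (funext hc)
      -- matrix N with N v = w
      let N : Matrix (Fin a) (Fin a) F := Matrix.of fun p q => if q = i then w p * (v i)⁻¹ else 0
      have hN : N *ᵥ v = w := by
        ext p
        simp only [N, Matrix.mulVec, dotProduct, Matrix.of_apply, ite_mul, zero_mul, Finset.sum_ite_eq',
          Finset.mem_univ, if_true]
        rw [mul_assoc, inv_mul_cancel₀ hi, mul_one]
      obtain ⟨M, hM⟩ := hadj' (N.map σ.symm)
      have h2 := hrel M _ hM l₀ l₁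
      have h3 : (N.map σ.symm).map σ = N := by ext p q; simp
      rw [h3] at h2
      rw [← hN, Matrix.mulVec_mulVec, ← h2, ← Matrix.mulVec_mulVec, hv0, Matrix.mulVec_zero]
    ext i j
    have := congrFun (h1 (Pi.single j 1)) i
    simpa using this
  have hc : ∀ l l', ∃ c : F, g l l' = c • G₀ := by
    intro l l'
    have hGG : G₀⁻¹ * G₀ = 1 := Matrix.nonsing_inv_mul G₀ hdet
    have hGG' : G₀ * G₀⁻¹ = 1 := Matrix.mul_nonsing_inv G₀ hdet
    obtain ⟨c, hc⟩ := scalar_of_commute_all (g l l' * G₀⁻¹) (fun X => by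
      obtain ⟨M', hM'⟩ := hadj Xᵀ
      have h1 := hrel _ _ hM' l l'
      have h2 := hrel _ _ hM' l₀ l₁
      rw [Matrix.transpose_transpose] at h1 h2
      calc X * (g l l' * G₀⁻¹) = (X * g l l') * G₀⁻¹ := by rw [mul_assoc]
        _ = g l l' * (M'.map σ) * G₀⁻¹ := by rw [h1]
        _ = g l l' * (G₀⁻¹ * G₀) * (M'.map σ) * G₀⁻¹ := by rw [hGG, mul_one]
        _ = g l l' * G₀⁻¹ * (G₀ * (M'.map σ)) * G₀⁻¹ := by simp only [mul_assoc]
        _ = g l l' * G₀⁻¹ * (X * G₀) * G₀⁻¹ := by rw [hG₀, ← h2]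
        _ = g l l' * G₀⁻¹ * X * (G₀ * G₀⁻¹) := by simp only [mul_assoc]
        _ = g l l' * G₀⁻¹ * X := by rw [hGG', mul_one])
    refine ⟨c, ?_⟩
    calc g l l' = g l l' * G₀⁻¹ * G₀ := by rw [mul_assoc, hGG, mul_one]
      _ = c • G₀ := by rw [hc, Matrix.smul_mul, one_mul]
  choose c hc using hc
  have hform : ∀ i l j l', f (b (i, l)) (b (j, l')) = G₀ i j * c l l' := by
    intro i l j l'
    have := congrFun (congrFun (hc l l') i) j
    rw [hg] at this
    rw [this]; simp [mul_comm]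
  refine ⟨G₀, Matrix.of c, hdet, ?_, ⟨l₀, l₁, ?_⟩, hform⟩
  · rw [isUnit_iff_ne_zero]
    intro hd
    obtain ⟨w, hw, hw0⟩ := Matrix.exists_mulVec_eq_zero_iff.2 hd
    let j₀ : Fin a := 0
    have hv : (∑ l', σ.symm (w l') • b (j₀, l')) = 0 := by
      apply hf.ext_right
      intro u
      rw [hf.zero_right, ← b.sum_repr u, hf.sum_left]
      refine Finset.sum_eq_zero fun x _ => ?_
      rw [hf.smul_left, hf.sum_right]
      have h1 : ∑ l', f (b x) (σ.symm (w l') • b (j₀, l')) = G₀ x.1 j₀ * (Matrix.of c *ᵥ w) x.2 := by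
        rw [Matrix.mulVec, dotProduct, Finset.mul_sum]
        refine Finset.sum_congr rfl fun l' _ => ?_
        rw [hf.smul_right, RingEquiv.apply_symm_apply]
        have := hform x.1 x.2 j₀ l'
        rw [Prod.mk.eta] at this
        rw [this, Matrix.of_apply]; ring
      rw [h1, hw0]; simp
    apply hw
    have hli := b.linearIndependent.comp (fun l' : Fin k => (j₀, l')) (fun x y h => (Prod.mk.inj h).2)
    rw [Fintype.linearIndependent_iff] at hli
    have h2 := hli (fun l' => σ.symm (w l')) hv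
    ext l'
    have := h2 l'
    simpa using this
  · have h1 := hc l₀ l₁
    rw [← hG₀] at h1
    have h2 : (1 - c l₀ l₁) • G₀ = 0 := by
      rw [sub_smul, one_smul, ← h1, sub_self]
    rcases smul_eq_zero.1 h2 with h | h
    · exact (sub_eq_zero.1 h).symm
    · exact absurd h h0

/-- hermitian types of the factors -/
theorem tensor_types (hsq : ∀ a, σ (σ a) = a) (heps : ε = 1 ∨ ε = -1) {a k : ℕ} [NeZero a]
    (G₁ : Matrix (Fin a) (Fin a) F) (G₂ : Matrix (Fin k) (Fin k) F) (h1 : IsUnit G₁.det)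
    (hone : ∃ l l', G₂ l l' = 1)
    (hh : ∀ i l j l', G₁ i j * G₂ l l' = ε * σ (G₁ j i * G₂ l' l)) :
    ∃ c : F, c * σ c = 1 ∧ (∀ i j, G₁ i j = c * σ (G₁ j i)) ∧ ∀ l l', G₂ l l' = ε * σ c * σ (G₂ l' l) := by
  obtain ⟨l₀, l₁, hl⟩ := hone
  have hε : ε * ε = 1 := by rcases heps with h | h <;> rw [h] <;> ring
  have hσε : σ ε = ε := by rcases heps with h | h <;> rw [h] <;> simp
  set c := ε * σ (G₂ l₁ l₀) with hc
  have hG1 : ∀ i j, G₁ i j = c * σ (G₁ j i) := by
    intro i j
    have := hh i l₀ j l₁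
    rw [hl, mul_one, map_mul] at this
    rw [this, hc]; ring
  have hne : ∃ i j, G₁ i j ≠ 0 := by
    by_contra hcon
    push Not at hcon
    have h2 : G₁ = 0 := by ext i j; exact hcon i j
    rw [h2, Matrix.det_zero] at h1
    exact not_isUnit_zero h1
  obtain ⟨i, j, hij⟩ := hne
  have hcc : c * σ c = 1 := by
    have h2 := hG1 i j
    rw [hG1 j i, map_mul, hsq] at h2
    have h3 : (c * σ c - 1) * G₁ i j = 0 := by linear_combination -h2
    rcases mul_eq_zero.1 h3 with h | h
    · exact sub_eq_zero.1 h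
    · exact absurd h hij
  refine ⟨c, hcc, hG1, fun l l' => ?_⟩
  have h2 := hh i l j l'
  rw [map_mul] at h2
  have h3 : σ (G₁ j i) ≠ 0 := by
    intro h
    apply hij
    rw [hG1 i j, h, mul_zero]
  rw [hG1 i j] at h2
  have h4 : c * G₂ l l' = ε * σ (G₂ l' l) := by
    apply mul_left_cancel₀ h3
    linear_combination h2
  calc G₂ l l' = (c * σ c) * G₂ l l' := by rw [hcc, one_mul]
    _ = σ c * (c * G₂ l l') := by ring
    _ = ε * σ c * σ (G₂ l' l) := by rw [h4]; ring

end CfsgLib.AschF
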