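import Mathlib
import Cfsg.Agent.LibAschF6

/-! tensor decompositions of forms: data for the classes -/
set_option autoImplicit false
set_option linter.unusedSectionVars false

namespace CfsgLib.AschF

open Module Cfsg Cfsg.Geo CfsgLib.Asch1 CfsgLib.Asch2 CfsgLib.Asch3 CfsgLib.Asch4 CfsgLib.Asch6 CfsgLib.Asch7 CfsgLib.Asch9
  CfsgLib.Asch11 CfsgLib.Asch13
open scoped Matrix MatrixGroups Kronecker

variable {ι : Type} [Fintype ι] [DecidableEq ι] {F : Type*} [Field F]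
variable {σ : F ≃+* F} {ε : F} {f : (ι → F) → (ι → F) → F}

theorem hilbert90 (hσ : σ ≠ RingEquiv.refl F) (hsq : ∀ a, σ (σ a) = a) {c : F} (hc : c * σ c = 1) :
    ∃ a : F, a ≠ 0 ∧ σ a * c = a := by
  have hb : ∃ b : F, b + c * σ b ≠ 0 := by
    by_contra hcon
    push Not at hcon
    have h1 := hcon 1
    rw [map_one, mul_one] at h1
    apply hσ
    ext b
    have h2 := hcon b
    have h3 : c = -1 := by linear_combination h1
    rw [h3] at h2
    change σ b = b
    linear_combination -h2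
  obtain ⟨b, hb⟩ := hb
  refine ⟨b + c * σ b, hb, ?_⟩
  rw [map_add, map_mul, hsq]
  linear_combination b * hc

theorem le_tensorProduct_P {n₁ n₂ : ℕ}
    (b : Basis (Fin n₁ × Fin n₂) F (ι → F)) (H : Subgroup (GL ι F))
    (hH : ∀ h ∈ H, ∃ (A : (Matrix (Fin n₁) (Fin n₁) F)ˣ) (N : (Matrix (Fin n₂) (Fin n₂) F)ˣ), ∀ j l,
      (h : Matrix ι ι F) *ᵥ b (j, l) = ∑ i, ∑ l', (A.1 i j * N.1 l' l) • b (i, l'))
    (e : ι ≃ Fin n₁ × Fin n₂) (P : GL ι F) (hP : ∀ i j, (P : Matrix ι ι F) j i = b.reindex e.symm i j) :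
    H ≤ tensorProductSubgroup n₁ n₂ e P := by
  intro h hh
  obtain ⟨A, N, hAN⟩ := hH h hh
  let K : GL (Fin n₁ × Fin n₂) F := ⟨A.1 ⊗ₖ N.1, (A⁻¹).1 ⊗ₖ (N⁻¹).1, by
    rw [← Matrix.mul_kronecker_mul, ← Units.val_mul, ← Units.val_mul]; simp, by
    rw [← Matrix.mul_kronecker_mul, ← Units.val_mul, ← Units.val_mul]; simp⟩
  refine Subgroup.mem_map.2 ⟨glReindex e.symm K, ?_, ?_⟩
  · exact Subgroup.mem_map.2 ⟨K, ⟨A, N, rfl⟩, rfl⟩
  · symm
    change h = P * glReindex e.symm K * P⁻¹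
    refine eq_conj' P h _ (eq_conj (b.reindex e.symm) P hP _ _ ?_)
    intro i
    rw [Basis.reindex_apply, Equiv.symm_symm]
    have h1 := hAN (e i).1 (e i).2
    rw [h1, ← Finset.sum_product' (f := fun i' l' => (A.1 i' (e i).1 * N.1 l' (e i).2) • b (i', l'))]
    rw [Finset.univ_product_univ]
    refine Fintype.sum_equiv e.symm _ _ fun x => ?_
    rw [Basis.reindex_apply, Equiv.symm_symm, glReindex_apply, Equiv.apply_symm_apply]
    rfl

theorem le_tensorWreath_P {m t : ℕ}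
    (b : Basis (Fin t → Fin m) F (ι → F)) (H : Subgroup (GL ι F))
    (hH : ∀ h ∈ H, TW b (h : Matrix ι ι F)) (e : ι ≃ (Fin t → Fin m)) (P : GL ι F)
    (hP : ∀ i j, (P : Matrix ι ι F) j i = b.reindex e.symm i j) :
    H ≤ tensorWreathSubgroup m t e P := by
  intro h hh
  obtain ⟨σ, Q, hQ⟩ := hH h hh
  let X : GL (Fin t → Fin m) F := ⟨pt (fun s => (Q s).1), pt (fun s => ((Q s)⁻¹).1), by
    rw [pt_mul, ← pt_one]; congr 1; ext1 s; simp, by
    rw [pt_mul, ← pt_one]; congr 1; ext1 s; simp⟩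
  let S : GL (Fin t → Fin m) F := ⟨fp m F σ, fp m F σ.symm, by
    ext x y; rw [fp_mul]; simp [fp, Matrix.one_apply, Function.comp_assoc, eq_comm], by
    ext x y; rw [fp_mul]; simp [fp, Matrix.one_apply, Function.comp_assoc, eq_comm]⟩
  refine Subgroup.mem_map.2 ⟨glReindex e.symm (S * X), ?_, ?_⟩
  · refine Subgroup.mem_map.2 ⟨S * X, ?_, rfl⟩
    refine Subgroup.mul_mem _ (Subgroup.subset_closure (Or.inr ⟨σ, fun x y => rfl⟩))
      (Subgroup.subset_closure (Or.inl ⟨Q, fun x y => rfl⟩))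
  · symm
    change h = P * glReindex e.symm (S * X) * P⁻¹
    refine eq_conj' P h _ (eq_conj (b.reindex e.symm) P hP _ _ ?_)
    intro i
    rw [Basis.reindex_apply, Equiv.symm_symm, hQ]
    refine Fintype.sum_equiv ((Equiv.arrowCongr σ (Equiv.refl (Fin m))).trans e.symm) _ _ fun y => ?_
    rw [Basis.reindex_apply, Equiv.symm_symm, glReindex_apply]
    have h1 : e (((Equiv.arrowCongr σ (Equiv.refl (Fin m))).trans e.symm) y) = y ∘ σ.symm := by
      simp only [Equiv.trans_apply, Equiv.apply_symm_apply]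
      rfl
    rw [h1]
    congr 1
    change _ = (fp m F σ * pt (fun s => (Q s).1)) (y ∘ σ.symm) (e i)
    rw [fp_mul]
    simp [pt, Function.comp_assoc]

/-- forms on the tensor factors -/
theorem tensor_forms [Finite F] [Nonempty ι] (hf : FD σ ε f) {a k : ℕ} [NeZero a]
    (φ : Matrix (Fin a) (Fin a) F →ₐ[F] End F (ι → F)) (b : Basis (Fin a × Fin k) F (ι → F))
    (hb : ∀ (M : Matrix (Fin a) (Fin a) F) (j : Fin a) (l : Fin k),
        φ M (b (j, l)) = ∑ i, M i j • b (i, l))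
    (hadj : ∀ M, ∃ M', ∀ u v, f (φ M u) v = f u (φ M' v)) :
    ∃ (ε₁ ε₂ : F) (f₁ : (Fin a → F) → (Fin a → F) → F) (f₂ : (Fin k → F) → (Fin k → F) → F),
      FD σ ε₁ f₁ ∧ FD σ ε₂ f₂ ∧ ε₁ * ε₂ = ε ∧ (σ ≠ RingEquiv.refl F → ε₁ = 1) ∧
      (∀ i l j l', f (b (i, l)) (b (j, l')) = gramMatrix f₁ i j * gramMatrix f₂ l l') := by
  obtain ⟨G₁, G₂, hd1, hd2, hone, hG⟩ := tensor_gram hf φ b hb hadj
  obtain ⟨c, hcc, hc1, hc2⟩ := tensor_types hf.sq hf.eps G₁ G₂ hd1 hone (by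
    intro i l j l'
    rw [← hG, ← hG]
    exact hf.herm _ _)
  by_cases hσ : σ = RingEquiv.refl F
  · have hσc : ∀ x, σ x = x := by intro x; rw [hσ]; rfl
    rw [hσc] at hcc
    have hc' : c = 1 ∨ c = -1 := mul_self_eq_one_iff.1 hcc
    have hε2 : ε * c = 1 ∨ ε * c = -1 := by
      rcases hf.eps with h | h <;> rcases hc' with h' | h' <;> rw [h, h'] <;> simp
    refine ⟨c, ε * c, formOfGram (fun x => σ x) G₁, formOfGram (fun x => σ x) G₂,
      FD_of_gram G₁ hd1 hc1 hf.sq hc', FD_of_gram G₂ hd2 (fun i j => by rw [hc2 i j, hσc c]) hf.sq hε2, ?_,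
      fun h => absurd hσ h, ?_⟩
    · linear_combination ε * hcc
    · intro i l j l'
      have h1 := gramMatrix_formOfGram G₁ (σ : F →+* F)
      have h2 := gramMatrix_formOfGram G₂ (σ : F →+* F)
      simp only [RingEquiv.coe_toRingHom] at h1 h2
      rw [h1, h2, hG]
  · obtain ⟨a', ha0, ha⟩ := hilbert90 hσ hf.sq hcc
    have hσa : σ a' ≠ 0 := by simpa using ha0
    have hc0 : c ≠ 0 := by
      rintro rfl
      simp at hcc
    have hd1' : IsUnit (a'⁻¹ • G₁).det := by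
      rw [Matrix.det_smul]
      exact (isUnit_iff_ne_zero.2 (pow_ne_zero _ (inv_ne_zero ha0))).mul hd1
    have hd2' : IsUnit (a' • G₂).det := by
      rw [Matrix.det_smul]
      exact (isUnit_iff_ne_zero.2 (pow_ne_zero _ ha0)).mul hd2
    refine ⟨1, ε, formOfGram (fun x => σ x) (a'⁻¹ • G₁), formOfGram (fun x => σ x) (a' • G₂),
      FD_of_gram _ hd1' ?_ hf.sq (Or.inl rfl), FD_of_gram _ hd2' ?_ hf.sq hf.eps, one_mul _, fun _ => rfl, ?_⟩
    · intro i j
      rw [Matrix.smul_apply, Matrix.smul_apply, smul_eq_mul, smul_eq_mul, hc1 i j, map_mul, map_inv₀, one_mul]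
      have : a'⁻¹ * c = (σ a')⁻¹ := by
        apply eq_inv_of_mul_eq_one_left
        calc a'⁻¹ * c * σ a' = a'⁻¹ * (σ a' * c) := by ring
          _ = 1 := by rw [ha, inv_mul_cancel₀ ha0]
      rw [← mul_assoc, this]
    · intro i j
      rw [Matrix.smul_apply, Matrix.smul_apply, smul_eq_mul, smul_eq_mul, hc2 i j, map_mul]
      have : a' * σ c = σ a' := by
        calc a' * σ c = (σ a' * c) * σ c := by rw [ha]
          _ = σ a' * (c * σ c) := by ring
          _ = σ a' := by rw [hcc, mul_one]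
      calc a' * (ε * σ c * σ (G₂ j i)) = ε * (a' * σ c) * σ (G₂ j i) := by ring
        _ = _ := by rw [this]; ring
    · intro i l j l'
      have h1 := gramMatrix_formOfGram (a'⁻¹ • G₁) (σ : F →+* F)
      have h2 := gramMatrix_formOfGram (a' • G₂) (σ : F →+* F)
      simp only [RingEquiv.coe_toRingHom] at h1 h2
      rw [h1, h2, hG, Matrix.smul_apply, Matrix.smul_apply, smul_eq_mul, smul_eq_mul]
      field_simp

theorem tensor_structure (hf : FD σ ε f) {a k : ℕ} (b : Basis (Fin a × Fin k) F (ι → F))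
    {f₁ : (Fin a → F) → (Fin a → F) → F} {f₂ : (Fin k → F) → (Fin k → F) → F}
    (h : ∀ i l j l', f (b (i, l)) (b (j, l')) = gramMatrix f₁ i j * gramMatrix f₂ l l')
    (e : ι ≃ Fin a × Fin k) (P : GL ι F) (hP : ∀ i j, (P : Matrix ι ι F) j i = b.reindex e.symm i j) :
    IsTensorFormStructure (fun x => σ x) f f₁ f₂ e P := by
  refine ⟨1, one_ne_zero, fun x y => ?_⟩
  rw [form_P hf b e P hP, one_mul, formOfGram]
  refine Finset.sum_congr rfl fun p _ => Finset.sum_congr rfl fun q _ => ?_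
  have := h p.1 p.2 q.1 q.2
  rw [Prod.mk.eta, Prod.mk.eta] at this
  rw [this]
  rfl

end CfsgLib.AschF
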