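import Mathlib
import Cfsg.Agent.LibAschF7

/-! subfield groups with a form -/
set_option autoImplicit false
set_option linter.unusedSectionVars false

namespace CfsgLib.AschF

open Module Cfsg Cfsg.Geo CfsgLib.Asch1 CfsgLib.Asch2 CfsgLib.Asch3 CfsgLib.Asch4 CfsgLib.Asch6 CfsgLib.Asch7 CfsgLib.Asch9
  CfsgLib.Asch11 CfsgLib.Asch13 CfsgLib.Asch14 CfsgLib.Asch16
open scoped Matrix MatrixGroups Kronecker

variable {ι : Type} [Fintype ι] [DecidableEq ι] {F : Type*} [Field F]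

/-- the subfield lemma -/
theorem le_subfield_B [Nonempty ι] (F₁ : Subfield F) {P : Subgroup (GL ι F)} (hP : alg P = ⊤) (B : GL ι F)
    (hB : ∀ s ∈ matrixSet P, ∀ i j, ((B : Matrix ι ι F) * s * ((B⁻¹ : GL ι F) : Matrix ι ι F)) i j ∈ F₁)
    (H : Subgroup (GL ι F))
    (hn : ∀ h ∈ H, ∀ x ∈ P, h * x * h⁻¹ ∈ P) : H ≤ subfieldSubgroup F₁ B⁻¹ := by
  intro h hh
  -- matrices over F₁
  let emb : Matrix ι ι F₁ →+* Matrix ι ι F := F₁.subtype.mapMatrix
  have hinj : Function.Injective emb := by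
    intro M N h
    ext i j
    exact congrFun (congrFun h i) j
  have hex : ∀ x ∈ P, ∃ X : Matrix ι ι F₁, emb X = (B : Matrix ι ι F) * x * ((B⁻¹ : GL ι F) : Matrix ι ι F) := by
    intro x hx
    refine ⟨fun i j => ⟨_, hB _ ⟨x, hx, rfl⟩ i j⟩, ?_⟩
    ext i j; rfl
  let S : Set (Matrix ι ι F₁) := {X | ∃ x ∈ P, emb X = (B : Matrix ι ι F) * x * ((B⁻¹ : GL ι F) : Matrix ι ι F)}
  have hS : Submodule.span F₁ S = ⊤ := by
    apply span_small
    rw [eq_top_iff]
    intro Y _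
    have h1 : (cj B).symm Y ∈ Submodule.span F (matrixSet P) := by
      rw [span_eq_alg, hP]; trivial
    have h2 : Submodule.map (cj B).toLinearMap (Submodule.span F (matrixSet P)) ≤
        Submodule.span F ((fun M : Matrix ι ι F₁ => M.map F₁.subtype) '' S) := by
      rw [Submodule.map_span, Submodule.span_le]
      rintro _ ⟨_, ⟨x, hx, rfl⟩, rfl⟩
      obtain ⟨X, hX⟩ := hex x hx
      exact Submodule.subset_span ⟨X, ⟨x, hx, hX⟩, hX⟩
    have h3 := h2 ⟨_, h1, rfl⟩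
    have h4 : (cj B).toLinearMap ((cj B).symm Y) = Y := (cj B).apply_symm_apply Y
    rwa [h4] at h3
  set g : GL ι F := B * h * B⁻¹ with hg
  have hpres : ∀ M : Matrix ι ι F₁, ∃ M', (g : Matrix ι ι F) * emb M * ((g⁻¹ : GL ι F) : Matrix ι ι F) = emb M' := by
    intro M
    have hM : M ∈ Submodule.span F₁ S := by rw [hS]; trivial
    refine Submodule.span_induction (p := fun M _ => ∃ M', (g : Matrix ι ι F) * emb M * ((g⁻¹ : GL ι F) : Matrix ι ι F) = emb M') ?_ ?_ ?_ ?_ hM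
    · rintro X ⟨x, hx, hX⟩
      obtain ⟨X', hX'⟩ := hex _ (hn h hh x hx)
      refine ⟨X', ?_⟩
      rw [hX, hX']
      have h1 : g * (B * x * B⁻¹) * g⁻¹ = B * (h * x * h⁻¹) * B⁻¹ := by rw [hg]; group
      have h2 := congrArg Units.val h1
      simpa using h2
    · exact ⟨0, by simp⟩
    · rintro X Y _ _ ⟨X', hX'⟩ ⟨Y', hY'⟩
      exact ⟨X' + Y', by rw [map_add, map_add, mul_add, add_mul, hX', hY']⟩
    · rintro c X _ ⟨X', hX'⟩
      refine ⟨c • X', ?_⟩
      have hsm : ∀ (c : F₁) (X : Matrix ι ι F₁), emb (c • X) = (c : F) • emb X := by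
        intro c X; ext i j; simp [emb]
      rw [hsm, hsm, ← hX']; simp
  choose α hα using hpres
  have hgg : ((g⁻¹ : GL ι F) : Matrix ι ι F) * (g : Matrix ι ι F) = 1 := by rw [← Units.val_mul]; simp
  have hgg' : (g : Matrix ι ι F) * ((g⁻¹ : GL ι F) : Matrix ι ι F) = 1 := by rw [← Units.val_mul]; simp
  have hmul : ∀ M N, α (M * N) = α M * α N := by
    intro M N
    apply hinj
    rw [← hα, map_mul, map_mul, ← hα, ← hα]
    calc (g : Matrix ι ι F) * (emb M * emb N) * ((g⁻¹ : GL ι F) : Matrix ι ι F)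
        = (g : Matrix ι ι F) * emb M * 1 * emb N * ((g⁻¹ : GL ι F) : Matrix ι ι F) := by noncomm_ring
      _ = _ := by rw [← hgg]; noncomm_ring
  have hadd : ∀ M N, α (M + N) = α M + α N := by
    intro M N
    apply hinj
    rw [← hα, map_add, map_add, ← hα, ← hα]; noncomm_ring
  have hone : α 1 = 1 := by
    apply hinj
    rw [← hα, map_one, mul_one, hgg']
  have hzero : α 0 = 0 := by
    apply hinj
    rw [← hα, map_zero]; simp
  have hcom : ∀ r : F₁, α (algebraMap F₁ _ r) = algebraMap F₁ _ r := by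
    intro r
    apply hinj
    have h1 : emb (algebraMap F₁ _ r) = (r : F) • (1 : Matrix ι ι F) := by
      ext i j
      by_cases hij : i = j
      · subst hij; simp [emb, Matrix.algebraMap_matrix_apply]
      · simp [emb, Matrix.algebraMap_matrix_apply, hij]
    rw [← hα, h1, mul_smul_comm, mul_one, smul_mul_assoc, hgg']
  let a : Matrix ι ι F₁ →ₐ[F₁] Matrix ι ι F₁ :=
    { toFun := α, map_one' := hone, map_mul' := hmul, map_zero' := hzero, map_add' := hadd,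
      commutes' := hcom }
  have hainj : Function.Injective a := by
    intro M N hMN
    apply hinj
    have h1 : (g : Matrix ι ι F) * emb M * ((g⁻¹ : GL ι F) : Matrix ι ι F) =
        (g : Matrix ι ι F) * emb N * ((g⁻¹ : GL ι F) : Matrix ι ι F) := by
      rw [hα, hα]; exact congrArg emb hMN
    calc emb M = (((g⁻¹ : GL ι F) : Matrix ι ι F) * (g : Matrix ι ι F)) * emb M *
          (((g⁻¹ : GL ι F) : Matrix ι ι F) * (g : Matrix ι ι F)) := by rw [hgg]; simp
      _ = ((g⁻¹ : GL ι F) : Matrix ι ι F) * ((g : Matrix ι ι F) * emb M * ((g⁻¹ : GL ι F) : Matrix ι ι F)) * (g : Matrix ι ι F) := by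
          noncomm_ring
      _ = ((g⁻¹ : GL ι F) : Matrix ι ι F) * ((g : Matrix ι ι F) * emb N * ((g⁻¹ : GL ι F) : Matrix ι ι F)) * (g : Matrix ι ι F) := by
          rw [h1]
      _ = (((g⁻¹ : GL ι F) : Matrix ι ι F) * (g : Matrix ι ι F)) * emb N *
          (((g⁻¹ : GL ι F) : Matrix ι ι F) * (g : Matrix ι ι F)) := by noncomm_ring
      _ = emb N := by rw [hgg]; simp
  have hasurj : Function.Surjective a :=
    (LinearMap.injective_iff_surjective (f := a.toLinearMap)).1 hainj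
  obtain ⟨Q, hQ⟩ := matrix_aut_inner' (AlgEquiv.ofBijective a ⟨hainj, hasurj⟩)
  have hQα : ∀ M, α M = Q.1 * M * (Q⁻¹).1 := hQ
  let Q' : GL ι F := Matrix.GeneralLinearGroup.map F₁.subtype Q
  have hQ'v : (Q' : Matrix ι ι F) = emb Q.1 := rfl
  have hQ'i : ((Q'⁻¹ : GL ι F) : Matrix ι ι F) = emb (Q⁻¹).1 := rfl
  -- Q'⁻¹ g is scalar
  have hsc : Q'⁻¹ * g ∈ scalars ι F := by
    have hcomm : ∀ M : Matrix ι ι F₁, ((Q'⁻¹ * g : GL ι F) : Matrix ι ι F) * emb M = emb M * ((Q'⁻¹ * g : GL ι F) : Matrix ι ι F) := by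
      intro M
      have h1 := hα M
      rw [hQα, map_mul, map_mul, ← hQ'v, ← hQ'i] at h1
      rw [Units.val_mul]
      have hq : ((Q'⁻¹ : GL ι F) : Matrix ι ι F) * (Q' : Matrix ι ι F) = 1 := by rw [← Units.val_mul]; simp
      calc ((Q'⁻¹ : GL ι F) : Matrix ι ι F) * (g : Matrix ι ι F) * emb M
          = ((Q'⁻¹ : GL ι F) : Matrix ι ι F) * ((g : Matrix ι ι F) * emb M * ((g⁻¹ : GL ι F) : Matrix ι ι F)) * (g : Matrix ι ι F) := by
            have : ((Q'⁻¹ : GL ι F) : Matrix ι ι F) * ((g : Matrix ι ι F) * emb M * ((g⁻¹ : GL ι F) : Matrix ι ι F)) * (g : Matrix ι ι F) =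
              ((Q'⁻¹ : GL ι F) : Matrix ι ι F) * (g : Matrix ι ι F) * emb M * (((g⁻¹ : GL ι F) : Matrix ι ι F) * (g : Matrix ι ι F)) := by
              noncomm_ring
            rw [this, hgg, mul_one]
        _ = (((Q'⁻¹ : GL ι F) : Matrix ι ι F) * (Q' : Matrix ι ι F)) * emb M * ((Q'⁻¹ : GL ι F) : Matrix ι ι F) * (g : Matrix ι ι F) := by
            rw [h1]; noncomm_ring
        _ = _ := by rw [hq]; noncomm_ring
    obtain ⟨c, hc⟩ := scalar_of_commute_all ((Q'⁻¹ * g : GL ι F) : Matrix ι ι F) (by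
      intro X
      have hX : X = ∑ i, ∑ j, X i j • emb (Matrix.single i j 1) := by
        have h1 : ∀ i j, emb (Matrix.single i j 1) = Matrix.single i j 1 := by
          intro i j; ext a b
          simp [emb, Matrix.single_apply]
          split_ifs <;> simp
        simp only [h1]
        conv_lhs => rw [Matrix.matrix_eq_sum_single X]
        simp
      rw [hX, Finset.sum_mul, Finset.mul_sum]
      refine Finset.sum_congr rfl fun i _ => ?_
      rw [Finset.sum_mul, Finset.mul_sum]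
      refine Finset.sum_congr rfl fun j _ => ?_
      rw [smul_mul_assoc, mul_smul_comm, hcomm])
    exact mem_scalars_of_eq hc
  refine Subgroup.mem_map.2 ⟨g, ?_, ?_⟩
  · have h1 : g = Q' * (Q'⁻¹ * g) := by group
    rw [h1]
    exact Subgroup.mul_mem_sup ⟨Q, rfl⟩ hsc
  · change B⁻¹ * g * B⁻¹⁻¹ = h
    rw [hg]; group


variable {σ : F ≃+* F} {ε : F} {f : (ι → F) → (ι → F) → F}

theorem sigma_mem [Finite F] (σ : F ≃+* F) (F₁ : Subfield F) {x : F} (hx : x ∈ F₁) : σ x ∈ F₁ := by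
  apply mem_subfield_of_pow
  have : Fintype F₁ := Fintype.ofFinite F₁
  have h1 := FiniteField.pow_card (⟨x, hx⟩ : F₁)
  rw [← Nat.card_eq_fintype_card] at h1
  have h2 : x ^ Nat.card F₁ = x := congrArg Subtype.val h1
  rw [← map_pow, h2]

theorem triple_apply (X G : Matrix ι ι F) (σ : F ≃+* F) (i j : ι) :
    (Xᵀ * G * X.map σ) i j = ∑ k, ∑ m, X k i * G k m * σ (X m j) := by
  rw [Matrix.mul_apply]
  simp only [Matrix.mul_apply, Matrix.transpose_apply, Matrix.map_apply, Finset.sum_mul]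
  rw [Finset.sum_comm]

theorem sub_form [Finite F] [Nonempty ι] (hf : FD σ ε f) {H N : Subgroup (GL ι F)} (hN : Iso f N)
    (halg : alg N = ⊤)
    (hn : ∀ h ∈ H, ∀ x ∈ N, h * x * h⁻¹ ∈ N) (F₁ : Subfield F) (hreal : RealisableOver F₁ (matrixSet N)) :
    ∃ (P₀ : GL ι F) (ζ : F), ζ ≠ 0 ∧ IsFormRationalStructure f F₁ ζ P₀ ∧ H ≤ subfieldSubgroup F₁ P₀ ∧
      ∀ x ∈ N, ∀ i j, (((P₀⁻¹ : GL ι F) : Matrix ι ι F) * (x : Matrix ι ι F) * (P₀ : Matrix ι ι F)) i j ∈ F₁ := by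
  classical
  obtain ⟨B, hB⟩ := hreal
  have hle := le_subfield_B F₁ halg B hB H hn
  set P₀ : GL ι F := B⁻¹ with hP₀
  have hBP : B = P₀⁻¹ := by rw [hP₀, inv_inv]
  -- gram matrix in the new basis
  let G' : Matrix ι ι F := Matrix.of fun i j => f ((P₀ : Matrix ι ι F) *ᵥ Pi.single i 1) ((P₀ : Matrix ι ι F) *ᵥ Pi.single j 1)
  have hG'f : ∀ u v, f ((P₀ : Matrix ι ι F) *ᵥ u) ((P₀ : Matrix ι ι F) *ᵥ v) = ∑ i, ∑ j, u i * G' i j * σ (v j) := by
    intro u v
    have hu : ∀ w : ι → F, w = ∑ i, w i • (Pi.single i 1 : ι → F) := by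
      intro w; ext j; simp [Finset.sum_apply, Pi.single_apply]
    conv_lhs => rw [hu u, hu v]
    rw [Matrix.mulVec_sum, Matrix.mulVec_sum, hf.sum_left]
    refine Finset.sum_congr rfl fun i _ => ?_
    rw [hf.sum_right]
    refine Finset.sum_congr rfl fun j _ => ?_
    rw [Matrix.mulVec_smul, Matrix.mulVec_smul, hf.smul_left, hf.smul_right]
    simp only [G', Matrix.of_apply]; ring
  have hne : ∃ i j, G' i j ≠ 0 := by
    by_contra hcon
    push Not at hcon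
    obtain ⟨w, hw⟩ := exists_ne (0 : ι → F)
    apply hw
    apply hf.ext_right
    intro u
    have h1 := hG'f (((P₀⁻¹ : GL ι F) : Matrix ι ι F) *ᵥ u) (((P₀⁻¹ : GL ι F) : Matrix ι ι F) *ᵥ w)
    rw [Matrix.mulVec_mulVec, Matrix.mulVec_mulVec, ← Units.val_mul, mul_inv_cancel, Units.val_one,
      Matrix.one_mulVec, Matrix.one_mulVec] at h1
    rw [h1, hf.zero_right]
    refine Finset.sum_eq_zero fun i _ => Finset.sum_eq_zero fun j _ => ?_
    rw [hcon i j]; simp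
  obtain ⟨i₀, j₀, hij⟩ := hne
  -- F₁-linear functional
  obtain ⟨l, hl⟩ : ∃ l : F →ₗ[F₁] F₁, l (G' i₀ j₀) ≠ 0 := by
    obtain ⟨d, hd⟩ := Projective.exists_dual_ne_zero F₁ hij
    exact ⟨d, hd⟩
  let G₁ : Matrix ι ι F := Matrix.of fun i j => ((l (G' i j) : F₁) : F)
  let g₁ : (ι → F) → (ι → F) → F := fun u v => ∑ i, ∑ j, u i * G₁ i j * σ (v j)
  let g : (ι → F) → (ι → F) → F := fun u v =>
    g₁ (((P₀⁻¹ : GL ι F) : Matrix ι ι F) *ᵥ u) (((P₀⁻¹ : GL ι F) : Matrix ι ι F) *ᵥ v)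
  have hg₁ : Sesq (σ : F →+* F) g₁ := by
    constructor
    · intro x y v
      simp only [g₁, Pi.add_apply, add_mul, Finset.sum_add_distrib]
    · intro c x v
      simp only [g₁, Pi.smul_apply, smul_eq_mul, Finset.mul_sum, mul_assoc]
    · intro v x y
      simp only [g₁, Pi.add_apply, map_add, mul_add, Finset.sum_add_distrib]
    · intro c v x
      simp only [g₁, Pi.smul_apply, smul_eq_mul, map_mul, Finset.mul_sum]
      refine Finset.sum_congr rfl fun i _ => Finset.sum_congr rfl fun j _ => ?_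
      change _ = σ c * _
      ring
  have hg : Sesq (σ : F →+* F) g := by
    constructor
    · intro x y v
      simp only [g, Matrix.mulVec_add, hg₁.add_left]
    · intro c x v
      simp only [g, Matrix.mulVec_smul, hg₁.smul_left]
    · intro v x y
      simp only [g, Matrix.mulVec_add, hg₁.add_right]
    · intro c v x
      simp only [g, Matrix.mulVec_smul, hg₁.smul_right]
  have hG'inv : ∀ x ∈ N, ∀ i j, ∑ k, ∑ m, ((B : Matrix ι ι F) * (x : Matrix ι ι F) * ((B⁻¹ : GL ι F) : Matrix ι ι F)) k i * G' k m *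
      σ (((B : Matrix ι ι F) * (x : Matrix ι ι F) * ((B⁻¹ : GL ι F) : Matrix ι ι F)) m j) = G' i j := by
    intro x hx i j
    have h1 := hG'f (((B : Matrix ι ι F) * (x : Matrix ι ι F) * ((B⁻¹ : GL ι F) : Matrix ι ι F)) *ᵥ Pi.single i 1)
      (((B : Matrix ι ι F) * (x : Matrix ι ι F) * ((B⁻¹ : GL ι F) : Matrix ι ι F)) *ᵥ Pi.single j 1)
    have h2 : ∀ w : ι → F, (P₀ : Matrix ι ι F) *ᵥ (((B : Matrix ι ι F) * (x : Matrix ι ι F) * ((B⁻¹ : GL ι F) : Matrix ι ι F)) *ᵥ w) =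
        (x : Matrix ι ι F) *ᵥ ((P₀ : Matrix ι ι F) *ᵥ w) := by
      intro w
      rw [Matrix.mulVec_mulVec, Matrix.mulVec_mulVec]
      congr 1
      rw [← mul_assoc, ← mul_assoc, hP₀, ← Units.val_mul B⁻¹ B, inv_mul_cancel, Units.val_one, one_mul]
    rw [h2, h2, hN x hx] at h1
    simp only [Matrix.mulVec_single_one, Matrix.col_apply] at h1
    rw [← h1]
    simp only [G', Matrix.of_apply, Matrix.mulVec_single_one]
  have hG₁inv : ∀ x ∈ N, ∀ i j, ∑ k, ∑ m, ((B : Matrix ι ι F) * (x : Matrix ι ι F) * ((B⁻¹ : GL ι F) : Matrix ι ι F)) k i * G₁ k m *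
      σ (((B : Matrix ι ι F) * (x : Matrix ι ι F) * ((B⁻¹ : GL ι F) : Matrix ι ι F)) m j) = G₁ i j := by
    intro x hx i j
    have h1 := congrArg (fun t : F => ((l t : F₁) : F)) (hG'inv x hx i j)
    simp only [map_sum, AddSubmonoidClass.coe_finsetSum] at h1
    simp only [G₁, Matrix.of_apply]
    rw [← h1]
    refine Finset.sum_congr rfl fun k _ => Finset.sum_congr rfl fun m _ => ?_
    have hk := hB _ ⟨x, hx, rfl⟩ k i
    have hm := sigma_mem σ F₁ (hB _ ⟨x, hx, rfl⟩ m j)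
    set α := ((B : Matrix ι ι F) * (x : Matrix ι ι F) * ((B⁻¹ : GL ι F) : Matrix ι ι F)) k i
    set β := σ (((B : Matrix ι ι F) * (x : Matrix ι ι F) * ((B⁻¹ : GL ι F) : Matrix ι ι F)) m j)
    have h3 : α * G' k m * β = ((⟨α, hk⟩ : F₁) * (⟨β, hm⟩ : F₁)) • G' k m := by
      rw [Subfield.smul_def]
      change _ = (α * β) * G' k m
      ring
    rw [h3, map_smul, smul_eq_mul]
    change _ = (α * β) * ((l (G' k m) : F₁) : F)
    ring
  have hgfix : FixesForm (matrixSet N) g := by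
    rintro _ ⟨x, hx, rfl⟩ u v
    simp only [g]
    have h2 : ∀ w : ι → F, ((P₀⁻¹ : GL ι F) : Matrix ι ι F) *ᵥ ((x : Matrix ι ι F) *ᵥ w) =
        ((B : Matrix ι ι F) * (x : Matrix ι ι F) * ((B⁻¹ : GL ι F) : Matrix ι ι F)) *ᵥ (((P₀⁻¹ : GL ι F) : Matrix ι ι F) *ᵥ w) := by
      intro w
      rw [Matrix.mulVec_mulVec, Matrix.mulVec_mulVec, ← hBP]
      congr 1
      rw [mul_assoc, ← Units.val_mul B⁻¹ B, inv_mul_cancel, Units.val_one, mul_one]
    rw [h2, h2]
    set u' := ((P₀⁻¹ : GL ι F) : Matrix ι ι F) *ᵥ u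
    set v' := ((P₀⁻¹ : GL ι F) : Matrix ι ι F) *ᵥ v
    set X := ((B : Matrix ι ι F) * (x : Matrix ι ι F) * ((B⁻¹ : GL ι F) : Matrix ι ι F)) with hX
    have h3 : ∀ u v, g₁ u v = u ⬝ᵥ (G₁ *ᵥ (σ ∘ v)) := by
      intro u v
      simp only [g₁, dotProduct, Matrix.mulVec, Finset.mul_sum, mul_assoc, Function.comp]
    have h4 : Xᵀ * G₁ * X.map σ = G₁ := by
      ext i j
      rw [triple_apply]
      exact hG₁inv x hx i j
    have h5 : σ ∘ (X *ᵥ v') = X.map σ *ᵥ (σ ∘ v') := by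
      ext i; simp [Matrix.mulVec, dotProduct]
    have h6 : ∀ w : ι → F, (X *ᵥ u') ⬝ᵥ (G₁ *ᵥ (X.map σ *ᵥ w)) = u' ⬝ᵥ ((Xᵀ * G₁ * X.map σ) *ᵥ w) := by
      intro w
      rw [mul_assoc, ← Matrix.mulVec_mulVec w Xᵀ, ← Matrix.mulVec_mulVec w G₁, Matrix.dotProduct_mulVec u' Xᵀ,
        Matrix.vecMul_transpose]
    rw [h3, h3, h5, h6, h4]
  obtain ⟨c, hc⟩ := form_unique σ hf.sesq hg hf.nd halg hN.fixes hgfix
  have hgP : ∀ u v, g ((P₀ : Matrix ι ι F) *ᵥ u) ((P₀ : Matrix ι ι F) *ᵥ v) = g₁ u v := by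
    intro u v
    simp only [g]
    rw [Matrix.mulVec_mulVec, Matrix.mulVec_mulVec, ← Units.val_mul, inv_mul_cancel, Units.val_one,
      Matrix.one_mulVec, Matrix.one_mulVec]
  refine ⟨P₀, c, ?_, ?_, hle, ?_⟩
  · rintro rfl
    apply hl
    have h1 := hgP (Pi.single i₀ 1) (Pi.single j₀ 1)
    rw [hc, zero_mul] at h1
    have h2 : g₁ (Pi.single i₀ 1) (Pi.single j₀ 1) = G₁ i₀ j₀ := by
      have := gramMatrix_formOfGram G₁ (σ : F →+* F)
      have h3 := congrFun (congrFun this i₀) j₀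
      exact h3
    rw [h2] at h1
    have h3 : ((l (G' i₀ j₀) : F₁) : F) = 0 := h1.symm
    exact Subtype.ext h3
  · intro u v hu hv
    rw [← hc, hgP]
    refine sum_mem fun i _ => sum_mem fun j _ => ?_
    exact F₁.mul_mem (F₁.mul_mem (hu i) (l (G' i j)).2) (sigma_mem σ F₁ (hv j))
  · intro x hx i j
    have := hB _ ⟨x, hx, rfl⟩ i j
    rw [← hBP]
    exact this

end CfsgLib.AschF
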