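import Mathlib
import Cfsg.Agent.LibAschF8

/-! the form classes; normalised subalgebras -/
set_option autoImplicit false
set_option linter.unusedSectionVars false

namespace CfsgLib.AschF

open Module Cfsg Cfsg.Geo CfsgLib.Asch1 CfsgLib.Asch2 CfsgLib.Asch3 CfsgLib.Asch4 CfsgLib.Asch6 CfsgLib.Asch7 CfsgLib.Asch9
  CfsgLib.Asch10 CfsgLib.Asch11 CfsgLib.Asch13 CfsgLib.Asch14 CfsgLib.Asch16 CfsgLib.Asch18
open scoped Matrix MatrixGroups Kronecker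

variable {ι : Type} [Fintype ι] [DecidableEq ι] {F : Type*} [Field F]

/-- pure tensor in a basis -/
def PT {m t : ℕ} (b : Basis (Fin t → Fin m) F (ι → F)) (g : Matrix ι ι F) : Prop :=
  ∃ P : Fin t → (Matrix (Fin m) (Fin m) F)ˣ, ∀ x : Fin t → Fin m,
      g *ᵥ (b x) = ∑ y : Fin t → Fin m, (∏ s, (P s).1 (y s) (x s)) • b y

/-- the geometric alternatives relative to a form, with data -/
inductive ClsF [Fintype F] (σ : F ≃+* F) (ε : F) (f : (ι → F) → (ι → F) → F) (H : Subgroup (GL ι F)) : Prop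
  | sing (W : Submodule F (ι → F)) (h0 : W ≠ ⊥) (hs : IsTotallySingularFor f W) (h : H ≤ subspaceStabilizer W)
  | nond (W : Submodule F (ι → F)) (h0 : W ≠ ⊥) (hs : IsNondegenerateOn f W)
      (hd : 2 * finrank F W < Fintype.card ι) (h : H ≤ subspaceStabilizer W)
  | dec (t k : ℕ) (D : Fin t → Submodule F (ι → F)) (hD : IsNondegenerateMDecomposition f k D)
      (hirr : ActsIrreducibly (matrixSet H) ∨ 2 * k = Fintype.card ι)
      (h : H ≤ decompositionStabilizer D)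
  | pair (k : ℕ) (D : Fin 2 → Submodule F (ι → F)) (hD : IsMDecomposition k D)
      (hs : ∀ i, IsTotallySingularFor f (D i)) (hirr : ActsIrreducibly (matrixSet H))
      (h : H ≤ decompositionStabilizer D)
  | fld (r : ℕ) (K : Subalgebra F (Matrix ι ι F)) (hr : r.Prime) (hK : IsFieldSubalgebra r K)
      (h : H ≤ subalgebraNormalizer K) (ha : IsAdjointClosedFor f K)
      (hc : (σ = RingEquiv.refl F ∧ (IsSelfAdjointFor f K ∨ (r = 2 ∧ ¬ IsSelfAdjointFor f K))) ∨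
       (σ ≠ RingEquiv.refl F ∧ Odd r)) (hirr : ActsIrreducibly (matrixSet H))
  | tp (n₁ n₂ : ℕ) (b : Basis (Fin n₁ × Fin n₂) F (ι → F)) (ε₁ ε₂ : F)
      (f₁ : (Fin n₁ → F) → (Fin n₁ → F) → F) (f₂ : (Fin n₂ → F) → (Fin n₂ → F) → F)
      (h1 : 2 ≤ n₁) (h2 : 2 ≤ n₂) (hf₁ : FD σ ε₁ f₁) (hf₂ : FD σ ε₂ f₂) (hε : ε₁ * ε₂ = ε)
      (hσ : σ ≠ RingEquiv.refl F → ε₁ = 1)
      (hform : ∀ i l j l', f (b (i, l)) (b (j, l')) = gramMatrix f₁ i j * gramMatrix f₂ l l')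
      (hirr : ActsIrreducibly (matrixSet H))
      (hkr : ∀ h ∈ H, ∃ (A : (Matrix (Fin n₁) (Fin n₁) F)ˣ) (N : (Matrix (Fin n₂) (Fin n₂) F)ˣ), ∀ j l,
        (h : Matrix ι ι F) *ᵥ b (j, l) = ∑ i, ∑ l', (A.1 i j * N.1 l' l) • b (i, l'))
  | sub (F₀ : Subfield F) (r : ℕ) (P : GL ι F) (ζ : F) (hr : r.Prime) (hc : Fintype.card F = Nat.card F₀ ^ r)
      (hζ : ζ ≠ 0) (hS : IsFormRationalStructure f F₀ ζ P) (h : H ≤ subfieldSubgroup F₀ P)
      (N : Subgroup (GL ι F)) (hN : Iso f N) (halg : alg N = ⊤)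
      (hreal : ∀ x ∈ N, ∀ i j, (((P⁻¹ : GL ι F) : Matrix ι ι F) * (x : Matrix ι ι F) * (P : Matrix ι ι F)) i j ∈ F₀)
  | st (r k z p e : ℕ) (R : Subgroup (GL ι F)) (hR : RD r k z R) (hk : 1 ≤ k) (hal : alg R = ⊤)
      (hc : ⁅R, R⁆ ≤ scalars ι F) (hRH : R ≤ H) (hrp : r ≠ p) (hm : IsMinimalFieldFor z p e F)
      (h : H ≤ subgroupNormalizer R)
  | tw (m t : ℕ) (e : ι ≃ (Fin t → Fin m)) (P : GL ι F) (b : Basis (Fin t → Fin m) F (ι → F))
      (hP : ∀ i j, (P : Matrix ι ι F) j i = b.reindex e.symm i j) (ε₁ : F)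
      (f₁ : (Fin m → F) → (Fin m → F) → F) (hf₁ : FD σ ε₁ f₁)
      (hε : σ = RingEquiv.refl F → ε₁ ^ t = ε) (hε' : σ ≠ RingEquiv.refl F → ε₁ = 1) (hm : 2 ≤ m) (ht : 2 ≤ t)
      (c : F) (hc : c ≠ 0) (hform : ∀ x y, f (b x) (b y) = c * ∏ s, gramMatrix f₁ (x s) (y s))
      (hS : IsTensorPowerFormStructure (fun x => σ x) f f₁ e P)
      (hTW : ∀ h ∈ H, TW b (h : Matrix ι ι F))
      (N : Subgroup (GL ι F)) (hNH : N ≤ H) (hnrd : Nrd H N) (halg : alg N = ⊤) (hperf : ⁅N, N⁆ = N)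
      (hPT : ∀ x ∈ N, PT b (x : Matrix ι ι F))
      (h : H ≤ tensorWreathSubgroup m t e P)

variable {σ : F ≃+* F} {ε : F} {f : (ι → F) → (ι → F) → F}

theorem stage1 [Fintype F] [Nonempty ι] (hf : FD σ ε f) {H : Subgroup (GL ι F)} (hH : Iso f H)
    (hirr : ActsIrreducibly (matrixSet H))
    (A : Subalgebra F (Matrix ι ι F)) (hn : NormAlg (H : Set (GL ι F)) A) (hA : IsAdjointClosedFor f A) :
    ClsF σ ε f H ∨ A = ⊥ ∨ A = ⊤ := by
  classical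
  rcases clifford_form hf hH hirr A hn hA with ⟨t, k, D, hD, h⟩ | ⟨k, D, hD, hs, h⟩ | ⟨hss, hiso⟩
  · exact Or.inl (ClsF.dec t k D hD (Or.inl hirr) h)
  · exact Or.inl (ClsF.pair k D hD hs hirr h)
  rcases matrix_or_field hf hH A hn hA hss hiso with ⟨a, ha, φ, hφ⟩ | ⟨r, K, hr, hK, h, hKa, hc⟩
  swap
  · exact Or.inl (ClsF.fld r K hr hK h hKa hc hirr)
  obtain ⟨k, b, hb⟩ := basis_of_hom φ
  have hk : k ≠ 0 := by
    rintro rfl
    obtain ⟨v, hv⟩ := exists_ne (0 : ι → F)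
    apply hv
    apply b.repr.injective
    ext ⟨_, x⟩
    exact Fin.elim0 x
  have : NeZero k := ⟨hk⟩
  have hmemφ : ∀ M : Matrix ι ι F, M ∈ A ↔ ∃ X, φ X = Matrix.toLin' M := by
    intro M
    rw [← mem_endA, ← hφ, AlgHom.mem_range]
  have hcard : Fintype.card ι = a * k := by
    have h1 := Module.finrank_eq_card_basis b
    rw [Module.finrank_pi, Fintype.card_prod, Fintype.card_fin, Fintype.card_fin] at h1
    exact h1
  rcases Nat.lt_or_ge a 2 with ha1 | ha2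
  · right; left
    have ha1 : a = 1 := by have := ha.out; omega
    subst ha1
    rw [eq_bot_iff]
    intro M hM
    obtain ⟨X, hX⟩ := (hmemφ M).1 hM
    rw [Algebra.mem_bot]
    refine ⟨X 0 0, ?_⟩
    have h1 : X = algebraMap F _ (X 0 0) := by
      ext i j
      fin_cases i; fin_cases j
      simp [Matrix.algebraMap_matrix_apply]
    rw [h1, AlgHom.commutes] at hX
    apply (Matrix.toLin' : Matrix ι ι F ≃ₗ[F] _).injective
    rw [← hX]
    exact (Matrix.toLinAlgEquiv' : Matrix ι ι F ≃ₐ[F] _).commutes (X 0 0)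
  rcases Nat.lt_or_ge k 2 with hk1 | hk2
  · right; right
    have hk1 : k = 1 := by omega
    subst hk1
    rw [eq_top_iff]
    intro M _
    rw [hmemφ]
    refine ⟨Matrix.of fun i j => b.repr (M *ᵥ b (j, 0)) (i, 0), ?_⟩
    refine b.ext ?_
    rintro ⟨j, l⟩
    have hl : l = 0 := Subsingleton.elim _ _
    subst hl
    rw [hb, Matrix.toLin'_apply]
    conv_rhs => rw [← b.sum_repr (M *ᵥ b (j, 0))]
    rw [Fintype.sum_prod_type]
    simp
  left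
  have hkr : ∀ h ∈ H, ∃ (A : (Matrix (Fin a) (Fin a) F)ˣ) (N : (Matrix (Fin k) (Fin k) F)ˣ), ∀ j l,
      (h : Matrix ι ι F) *ᵥ b (j, l) = ∑ i, ∑ l', (A.1 i j * N.1 l' l) • b (i, l') := by
    intro h hh
    refine kron_of_norm φ b hb h ?_
    intro M
    have h1 : φ M ∈ endA A := by rw [← hφ]; exact ⟨M, rfl⟩
    obtain ⟨X, hX, hX'⟩ := exists_of_mem_endA A _ h1
    have h2 := (hn h hh).1 X hX
    obtain ⟨M', hM'⟩ := (hmemφ _).1 h2
    refine ⟨M', ?_⟩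
    rw [hM', ← hX']
    change Matrix.toLin' (h : Matrix ι ι F) ∘ₗ Matrix.toLin' X ∘ₗ _ = _
    rw [← Matrix.toLin'_mul, ← Matrix.toLin'_mul, ← mul_assoc]
  obtain ⟨ε₁, ε₂, f₁, f₂, hf₁, hf₂, hε, hσ1, hform⟩ := tensor_forms hf φ b hb (by
    intro M
    have h1 : φ M ∈ endA A := by rw [← hφ]; exact ⟨M, rfl⟩
    obtain ⟨X, hX, hX'⟩ := exists_of_mem_endA A _ h1
    obtain ⟨X', hXA, had⟩ := hA X hX
    obtain ⟨M', hM'⟩ := (hmemφ X').1 hXA
    refine ⟨M', fun u v => ?_⟩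
    rw [hM', ← hX', Matrix.toLin'_apply, Matrix.toLin'_apply]
    exact had u v)
  exact ClsF.tp a k b ε₁ ε₂ f₁ f₂ ha2 hk2 hf₁ hf₂ hε hσ1 hform hirr hkr

/-- irreducibility, or a class -/
theorem irr_or_class [Fintype F] (hf : FD σ ε f) {H : Subgroup (GL ι F)} (hH : Iso f H) :
    ClsF σ ε f H ∨ ActsIrreducibly (matrixSet H) := by
  by_cases hirr : ActsIrreducibly (matrixSet H)
  · exact Or.inr hirr
  left
  rcases reducible hf hH hirr with ⟨W, h0, h1, h2⟩ | ⟨W, h0, h1, h2, h3⟩ | ⟨t, k, D, hD, h2k, h⟩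
  · exact ClsF.sing W h0 h1 h2
  · exact ClsF.nond W h0 h1 h2 h3
  · exact ClsF.dec t k D hD (Or.inr h2k) h

end CfsgLib.AschF
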