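import Mathlib
import Cfsg.Agent.LibAschF9

/-! tensor powers with a form -/
set_option autoImplicit false
set_option linter.unusedSectionVars false

namespace CfsgLib.AschF

open Module Cfsg Cfsg.Geo CfsgLib.Asch1 CfsgLib.Asch2 CfsgLib.Asch3 CfsgLib.Asch4 CfsgLib.Asch5 CfsgLib.Asch6 CfsgLib.Asch7 CfsgLib.Asch9
  CfsgLib.Asch10 CfsgLib.Asch11 CfsgLib.Asch13 CfsgLib.Asch14 CfsgLib.Asch16 CfsgLib.Asch18
open scoped Matrix MatrixGroups Kronecker

variable {ι : Type} [Fintype ι] [DecidableEq ι] {F : Type*} [Field F]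
variable {σ : F ≃+* F} {ε : F} {f : (ι → F) → (ι → F) → F}

theorem phi_update {m t : ℕ} [NeZero m] (φ : Fin t → (Matrix (Fin m) (Fin m) F →ₐ[F] End F (ι → F)))
    (hc : ∀ s s', s ≠ s' → ∀ M N, φ s M * φ s' N = φ s' N * φ s M) (b : Basis (Fin t → Fin m) F (ι → F))
    (hb : ∀ x y z, U φ hc x y (b z) = if y = z then b x else 0) (s : Fin t) (M : Matrix (Fin m) (Fin m) F)
    (x : Fin t → Fin m) : φ s M (b x) = ∑ i, M i (x s) • b (Function.update x s i) := by
  classical
  rw [← Phi_mulSingle φ hc s M, phi_basis φ hc b hb]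
  symm
  refine Fintype.sum_of_injective (fun i => Function.update x s i) (Function.update_injective x s) _ _ ?_ ?_
  · intro y hy
    obtain ⟨s', hs', hne⟩ : ∃ s', s' ≠ s ∧ y s' ≠ x s' := by
      by_contra hcon
      push Not at hcon
      apply hy
      refine ⟨y s, ?_⟩
      ext1 s'
      by_cases h : s' = s
      · subst h; simp
      · simp only [ne_eq, h, not_false_eq_true, Function.update_of_ne]
        exact (hcon s' h).symm
    rw [Finset.prod_eq_zero (Finset.mem_univ s'), zero_smul]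
    rw [Pi.mulSingle_eq_of_ne hs', Matrix.one_apply_ne hne]
  · intro i
    congr 1
    rw [Finset.prod_eq_single s]
    · rw [Pi.mulSingle_eq_same, Function.update_self]
    · intro s' _ hs'
      rw [Pi.mulSingle_eq_of_ne hs', Function.update_of_ne hs', Matrix.one_apply_eq]
    · intro h; exact absurd (Finset.mem_univ s) h

theorem power_gram [Finite F] [Nonempty ι] (hf : FD σ ε f) {m t : ℕ} [NeZero m] (ht : 1 ≤ t)
    (φ : Fin t → (Matrix (Fin m) (Fin m) F →ₐ[F] End F (ι → F)))
    (hc : ∀ s s', s ≠ s' → ∀ M N, φ s M * φ s' N = φ s' N * φ s M) (b : Basis (Fin t → Fin m) F (ι → F))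
    (hb : ∀ x y z, U φ hc x y (b z) = if y = z then b x else 0)
    (τ : Matrix (Fin m) (Fin m) F → Matrix (Fin m) (Fin m) F)
    (hτ : ∀ s M u v, f (φ s M u) v = f u (φ s (τ M) v)) :
    ∃ (ε₁ : F) (f₁ : (Fin m → F) → (Fin m → F) → F), FD σ ε₁ f₁ ∧ (σ = RingEquiv.refl F → ε₁ ^ t = ε) ∧
      (σ ≠ RingEquiv.refl F → ε₁ = 1) ∧
      ∃ c : F, c ≠ 0 ∧ ∀ x y, f (b x) (b y) = c * ∏ s, gramMatrix f₁ (x s) (y s) := by
  classical
  have s₀ : Fin t := ⟨0, by omega⟩
  have hφinj : ∀ s, Function.Injective (φ s) := fun s => hom_injective (φ s)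
  have hττ : ∀ M, τ (τ M) = M := by
    intro M
    apply hφinj s₀
    refine LinearMap.ext fun v => ?_
    apply hf.ext_right
    intro u
    rw [← hτ, hf.herm, ← hτ, ← hf.herm]
  -- solutions
  let Sol : Matrix (Fin m) (Fin m) F → Prop := fun G => ∀ M, Mᵀ * G = G * (τ M).map σ
  have hsol : ∀ s x y, Sol (Matrix.of fun i j => f (b (Function.update x s i)) (b (Function.update y s j))) := by
    intro s x y M
    ext i j
    rw [Matrix.mul_apply, Matrix.mul_apply]
    have h1 := hτ s M (b (Function.update x s i)) (b (Function.update y s j))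
    rw [phi_update φ hc b hb, phi_update φ hc b hb, hf.sum_left, hf.sum_right] at h1
    simp only [hf.smul_left, hf.smul_right, Function.update_self, Function.update_idem] at h1
    simp only [Matrix.transpose_apply, Matrix.map_apply, Matrix.of_apply]
    rw [h1]
    exact Finset.sum_congr rfl fun x _ => mul_comm _ _
  -- a nonzero solution
  have hne : ∃ x y, f (b x) (b y) ≠ 0 := by
    by_contra hcon
    push Not at hcon
    obtain ⟨w, hw⟩ := exists_ne (0 : ι → F)
    apply hw
    apply hf.ext_right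
    intro u
    rw [hf.zero_right, ← b.sum_repr w, ← b.sum_repr u, hf.sum_left]
    refine Finset.sum_eq_zero fun x _ => ?_
    rw [hf.sum_right]
    refine Finset.sum_eq_zero fun y _ => ?_
    rw [hf.smul_left, hf.smul_right, hcon]; simp
  obtain ⟨x₀, y₀, hxy⟩ := hne
  obtain ⟨i₀, j₀, G₀, hG₀, hG₀1⟩ : ∃ i₀ j₀, ∃ G₀ : Matrix (Fin m) (Fin m) F, Sol G₀ ∧ G₀ i₀ j₀ = 1 := by
    refine ⟨x₀ s₀, y₀ s₀, (f (b x₀) (b y₀))⁻¹ • (Matrix.of fun i j => f (b (Function.update x₀ s₀ i)) (b (Function.update y₀ s₀ j))),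
      ?_, ?_⟩
    · intro M
      rw [Matrix.mul_smul, Matrix.smul_mul, hsol s₀ x₀ y₀ M]
    · rw [Matrix.smul_apply, Matrix.of_apply, Function.update_eq_self, Function.update_eq_self, smul_eq_mul,
        inv_mul_cancel₀ hxy]
  have hdet : IsUnit G₀.det := by
    rw [isUnit_iff_ne_zero]
    intro hd
    obtain ⟨v, hv, hv0⟩ := Matrix.exists_mulVec_eq_zero_iff.2 hd
    have h1 : ∀ w : Fin m → F, G₀ *ᵥ w = 0 := by
      intro w
      obtain ⟨i, hi⟩ : ∃ i, v i ≠ 0 := by
        by_contra hc; push Not at hc; exact hv (funext hc)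
      let N : Matrix (Fin m) (Fin m) F := Matrix.of fun p q => if q = i then w p * (v i)⁻¹ else 0
      have hN : N *ᵥ v = w := by
        ext p
        simp only [N, Matrix.mulVec, dotProduct, Matrix.of_apply, ite_mul, zero_mul, Finset.sum_ite_eq',
          Finset.mem_univ, if_true]
        rw [mul_assoc, inv_mul_cancel₀ hi, mul_one]
      have h2 := hG₀ (τ (N.map σ.symm))
      have h3 : (N.map σ.symm).map σ = N := by ext p q; simp
      rw [hττ, h3] at h2
      rw [← hN, Matrix.mulVec_mulVec, ← h2, ← Matrix.mulVec_mulVec, hv0, Matrix.mulVec_zero]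
    have := congrFun (h1 (Pi.single j₀ 1)) i₀
    rw [Matrix.mulVec_single_one, Matrix.col_apply, hG₀1] at this
    exact one_ne_zero this
  have hGG : G₀⁻¹ * G₀ = 1 := Matrix.nonsing_inv_mul G₀ hdet
  have hGG' : G₀ * G₀⁻¹ = 1 := Matrix.mul_nonsing_inv G₀ hdet
  have huniq : ∀ G, Sol G → ∃ c : F, G = c • G₀ := by
    intro G hG
    obtain ⟨c, hc⟩ := scalar_of_commute_all (G * G₀⁻¹) (fun X => by
      have h1 := hG Xᵀ
      have h2 := hG₀ Xᵀ
      rw [Matrix.transpose_transpose] at h1 h2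
      calc X * (G * G₀⁻¹) = (X * G) * G₀⁻¹ := by rw [mul_assoc]
        _ = G * ((τ Xᵀ).map σ) * G₀⁻¹ := by rw [h1]
        _ = G * (G₀⁻¹ * G₀) * ((τ Xᵀ).map σ) * G₀⁻¹ := by rw [hGG, mul_one]
        _ = G * G₀⁻¹ * (G₀ * ((τ Xᵀ).map σ)) * G₀⁻¹ := by simp only [mul_assoc]
        _ = G * G₀⁻¹ * (X * G₀) * G₀⁻¹ := by rw [← h2]
        _ = G * G₀⁻¹ * X * (G₀ * G₀⁻¹) := by simp only [mul_assoc]
        _ = G * G₀⁻¹ * X := by rw [hGG', mul_one])
    refine ⟨c, ?_⟩
    calc G = G * G₀⁻¹ * G₀ := by rw [mul_assoc, hGG, mul_one]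
      _ = c • G₀ := by rw [hc, Matrix.smul_mul, one_mul]
  -- product formula
  have hstep : ∀ s x y, f (b x) (b y) =
      f (b (Function.update x s i₀)) (b (Function.update y s j₀)) * G₀ (x s) (y s) := by
    intro s x y
    obtain ⟨c, hc⟩ := huniq _ (hsol s x y)
    have h1 := congrFun (congrFun hc (x s)) (y s)
    have h2 := congrFun (congrFun hc i₀) j₀
    rw [Matrix.of_apply, Matrix.smul_apply, Function.update_eq_self, Function.update_eq_self, smul_eq_mul] at h1
    rw [Matrix.of_apply, Matrix.smul_apply, hG₀1, smul_eq_mul, mul_one] at h2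
    rw [h1, h2]
  have hprod : ∀ S : Finset (Fin t), ∀ x y, f (b x) (b y) =
      f (b (fun s => if s ∈ S then i₀ else x s)) (b (fun s => if s ∈ S then j₀ else y s)) *
        ∏ s ∈ S, G₀ (x s) (y s) := by
    intro S
    induction S using Finset.induction_on with
    | empty => intro x y; simp
    | insert a S ha ih =>
      intro x y
      rw [ih x y, Finset.prod_insert ha, hstep a (fun s => if s ∈ S then i₀ else x s)]
      have h1 : Function.update (fun s => if s ∈ S then i₀ else x s) a i₀ = fun s => if s ∈ insert a S then i₀ else x s := by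
        ext1 s
        by_cases h : s = a
        · subst h; simp
        · simp [h]
      have h2 : Function.update (fun s => if s ∈ S then j₀ else y s) a j₀ = fun s => if s ∈ insert a S then j₀ else y s := by
        ext1 s
        by_cases h : s = a
        · subst h; simp
        · simp [h]
      rw [h1, h2]
      simp only [ha, if_false]
      ring
  have hΓ : ∀ x y, f (b x) (b y) = f (b fun _ => i₀) (b fun _ => j₀) * ∏ s, G₀ (x s) (y s) := by
    intro x y
    have := hprod Finset.univ x y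
    simpa using this
  set γ := f (b fun _ => i₀) (b fun _ => j₀) with hγ
  have hγ0 : γ ≠ 0 := by
    intro h
    apply hxy
    rw [hΓ, h, zero_mul]
  -- symmetry of G₀
  obtain ⟨d, hd⟩ := huniq ((G₀ᵀ).map σ) (by
    intro M
    have h1 := hG₀ (τ M)
    rw [hττ] at h1
    have h2 := congrArg (fun X : Matrix (Fin m) (Fin m) F => (Xᵀ).map σ) h1
    simp only [Matrix.transpose_mul, Matrix.transpose_transpose, Matrix.map_mul] at h2
    rw [h2]
    congr 1
    ext i j
    simp [hf.sq])
  have hd' : ∀ i j, σ (G₀ j i) = d * G₀ i j := by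
    intro i j
    have := congrFun (congrFun hd i) j
    simpa using this
  have hdd : d * σ d = 1 := by
    have h1 := hd' j₀ i₀
    have h2 := hd' i₀ j₀
    rw [hG₀1, map_one] at h1
    rw [hG₀1, mul_one] at h2
    rw [← h2, hf.sq]
    rw [h2] 
    exact h1.symm
  have hd0 : d ≠ 0 := by rintro rfl; simp at hdd
  by_cases hσ : σ = RingEquiv.refl F
  · have hσc : ∀ x, σ x = x := by intro x; rw [hσ]; rfl
    rw [hσc] at hdd
    have hd1 : d = 1 ∨ d = -1 := mul_self_eq_one_iff.1 hdd
    refine ⟨d, formOfGram (fun x => σ x) G₀, FD_of_gram G₀ hdet ?_ hf.sq hd1, fun _ => ?_, fun h => absurd hσ h, γ, hγ0, ?_⟩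
    · intro i j
      rw [hd' i j, ← mul_assoc, hdd, one_mul]
    · have h1 := hf.herm (b fun _ => i₀) (b fun _ => j₀)
      rw [← hγ, hΓ, hσc] at h1
      have h2 : ∏ s : Fin t, G₀ ((fun _ => j₀) s) ((fun _ => i₀) s) = d ^ t := by
        have h3 := hd' j₀ i₀
        rw [hσc, hG₀1] at h3
        have h4 : G₀ j₀ i₀ = d := by
          calc G₀ j₀ i₀ = (d * d) * G₀ j₀ i₀ := by rw [hdd, one_mul]
            _ = d * (d * G₀ j₀ i₀) := by ring
            _ = d := by rw [← h3, mul_one]
        simp [h4]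
      rw [h2] at h1
      have h3 : γ * (1 - ε * d ^ t) = 0 := by linear_combination h1
      rcases mul_eq_zero.1 h3 with h4 | h4
      · exact absurd h4 hγ0
      · have h5 : ε * d ^ t = 1 := (sub_eq_zero.1 h4).symm
        calc d ^ t = (ε * ε) * d ^ t := by rw [hf.eps_sq, one_mul]
          _ = ε * (ε * d ^ t) := by ring
          _ = ε := by rw [h5, mul_one]
    · intro x y
      have h1 := gramMatrix_formOfGram G₀ (σ : F →+* F)
      simp only [RingEquiv.coe_toRingHom] at h1
      rw [h1, hΓ]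
  · have hdi : d⁻¹ * σ d⁻¹ = 1 := by
      rw [map_inv₀, ← mul_inv, hdd, inv_one]
    obtain ⟨a, ha0, ha⟩ := hilbert90 hσ hf.sq hdd
    -- σ a * d = a ; G₁ = a⁻¹?  need a' with a' G₀ hermitian: σ(a') d = a'
    have hdet' : IsUnit (a • G₀).det := by
      rw [Matrix.det_smul]
      exact (isUnit_iff_ne_zero.2 (pow_ne_zero _ ha0)).mul hdet
    refine ⟨1, formOfGram (fun x => σ x) (a • G₀), FD_of_gram _ hdet' ?_ hf.sq (Or.inl rfl), fun h => absurd h hσ, fun _ => rfl,
      γ * (a ^ t)⁻¹, mul_ne_zero hγ0 (inv_ne_zero (pow_ne_zero _ ha0)), ?_⟩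
    · intro i j
      rw [Matrix.smul_apply, Matrix.smul_apply, smul_eq_mul, smul_eq_mul, map_mul, hd' i j, one_mul, ← mul_assoc, ha]
    · intro x y
      have h1 := gramMatrix_formOfGram (a • G₀) (σ : F →+* F)
      simp only [RingEquiv.coe_toRingHom] at h1
      rw [h1, hΓ]
      simp only [Matrix.smul_apply, smul_eq_mul, Finset.prod_mul_distrib, Finset.prod_const, Finset.card_univ,
        Fintype.card_fin]
      rw [mul_assoc, ← mul_assoc (a ^ t)⁻¹, inv_mul_cancel₀ (pow_ne_zero _ ha0), one_mul]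

end CfsgLib.AschF
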