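import Mathlib
import Cfsg.Agent.LibAschF10

/-! tensor induced subgroups with a form -/
set_option autoImplicit false
set_option linter.unusedSectionVars false

namespace CfsgLib.AschF

open Module Cfsg Cfsg.Geo CfsgLib.Asch1 CfsgLib.Asch2 CfsgLib.Asch3 CfsgLib.Asch4 CfsgLib.Asch5 CfsgLib.Asch6 CfsgLib.Asch7
  CfsgLib.Asch8 CfsgLib.Asch9
  CfsgLib.Asch10 CfsgLib.Asch11 CfsgLib.Asch12 CfsgLib.Asch13 CfsgLib.Asch14 CfsgLib.Asch16 CfsgLib.Asch18
open scoped Matrix MatrixGroups Kronecker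

variable {ι : Type} [Fintype ι] [DecidableEq ι] {F : Type*} [Field F]
variable {σ : F ≃+* F} {ε : F} {f : (ι → F) → (ι → F) → F}

theorem tensor_induced_form [Fintype F] [Nonempty ι] (hf : FD σ ε f) {H N : Subgroup (GL ι F)} (hH : Iso f H)
    (hN : alg N = ⊤) (hNH : N ≤ H) (hNrd : Nrd H N) (hperf : ⁅N, N⁆ = N) {t : ℕ} {S : Fin t → Subgroup (GL ι F)}
    (ht : 2 ≤ t) (hS : PerfDec (scalars ι F) H N t S) : ClsF σ ε f H := by
  classical
  have hirrN := (absIrred_of_alg hN).1
  have : NeZero t := ⟨by omega⟩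
  -- the algebra of the first factor is a matrix algebra
  have hmat : ∃ (a : ℕ) (_ : NeZero a) (φ : Matrix (Fin a) (Fin a) F →ₐ[F] End F (ι → F)),
      φ.range = endA (alg (S 0)) := by
    have hna : NormAlg (N : Set (GL ι F)) (alg (S 0)) := by
      refine normAlg_alg _ _ fun h hh => ⟨hS.nrd 0 h hh, fun x hx => ?_⟩
      have := hS.nrd 0 h⁻¹ (N.inv_mem hh) x hx
      rwa [inv_inv] at this
    have hss := semisimple (A := endA (alg (S 0))) (le '' (N : Set (GL ι F))) (irr_le hirrN) (by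
      rintro _ ⟨h, hh, rfl⟩
      exact nrm_of_normAlg hna h hh)
    have hiso : IsIsotypic (endA (alg (S 0))) (ι → F) := by
      refine isotypic_of_irred _ hss ?_
      intro W hW1 hW2
      have hstab : ∀ i, S i ≤ subspaceStabilizer W := by
        intro i x hx
        have hfor : ∀ y ∈ S i, ∀ v ∈ W, (y : Matrix ι ι F) *ᵥ v ∈ W := by
          intro y hy v hv
          by_cases hi : i = 0
          · subst hi
            exact hW1 (Matrix.toLin' (y : Matrix ι ι F)) ((mem_endA _ _).2 (mem_alg hy)) v hv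
          · refine hW2 (Matrix.toLin' (y : Matrix ι ι F)) ?_ v hv
            intro a ha
            obtain ⟨M, hM, rfl⟩ := exists_of_mem_endA _ a ha
            have := alg_comm (hS.comm i 0 hi) _ (mem_alg hy) M hM
            change Matrix.toLin' (y : Matrix ι ι F) ∘ₗ Matrix.toLin' M = Matrix.toLin' M ∘ₗ Matrix.toLin' (y : Matrix ι ι F)
            rw [← Matrix.toLin'_mul, ← Matrix.toLin'_mul, this]
        intro v
        constructor
        · exact hfor x hx v
        · intro hv
          have := hfor x⁻¹ ((S i).inv_mem hx) _ hv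
          change ((x⁻¹ : GL ι F) : Matrix ι ι F) *ᵥ ((x : Matrix ι ι F) *ᵥ v) ∈ W at this
          rw [Matrix.mulVec_mulVec, ← Units.val_mul, inv_mul_cancel, Units.val_one, Matrix.one_mulVec] at this
          exact this
      have hN' : N ≤ subspaceStabilizer W := by
        rw [← hS.sup]; exact iSup_le hstab
      refine hirrN W ?_
      rintro _ ⟨x, hx, rfl⟩ _ ⟨v, hv, rfl⟩
      exact (hN' hx v).1 hv
    refine matrix_of_isotypic _ hss hiso ?_
    intro z hz hz'
    obtain ⟨M, hM, rfl⟩ := exists_of_mem_endA _ z hz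
    obtain ⟨c, hc⟩ := commute_of_iSup hS.sup hN M (by
      intro i x hx
      by_cases hi : i = 0
      · subst hi
        have := hz' (Matrix.toLin' (x : Matrix ι ι F)) ((mem_endA _ _).2 (mem_alg hx))
        change Matrix.toLin' (x : Matrix ι ι F) ∘ₗ Matrix.toLin' M = Matrix.toLin' M ∘ₗ Matrix.toLin' (x : Matrix ι ι F) at this
        rw [← Matrix.toLin'_mul, ← Matrix.toLin'_mul] at this
        exact (Matrix.toLin'.injective this).symm
      · exact (alg_comm (hS.comm i 0 hi) _ (mem_alg hx) M hM).symm)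
    refine ⟨c, ?_⟩
    rw [hc]
    have := (Matrix.toLinAlgEquiv' : Matrix ι ι F ≃ₐ[F] _).commutes c
    rw [← this, Algebra.algebraMap_eq_smul_one]
    rfl
  obtain ⟨a, ha, φ₀, hφ₀⟩ := hmat
  -- a ≥ 2
  have ha2 : 2 ≤ a := by
    by_contra hlt
    have ha1 : a = 1 := by have := ha.out; omega
    subst ha1
    apply hS.notle 0
    intro x hx
    have h1 : Matrix.toLin' (x : Matrix ι ι F) ∈ φ₀.range := by
      rw [hφ₀, mem_endA]; exact mem_alg hx
    obtain ⟨X, hX⟩ := h1
    have h1 : X = algebraMap F _ (X 0 0) := by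
      ext i j
      fin_cases i; fin_cases j
      simp [Matrix.algebraMap_matrix_apply]
    rw [h1] at hX
    change φ₀ _ = _ at hX
    rw [AlgHom.commutes] at hX
    refine mem_scalars_of_eq (c := X 0 0) ?_
    apply (Matrix.toLin' : Matrix ι ι F ≃ₗ[F] _).injective
    rw [← hX]
    have := (Matrix.toLinAlgEquiv' : Matrix ι ι F ≃ₐ[F] _).commutes (X 0 0)
    rw [← this, Algebra.algebraMap_eq_smul_one]
    rfl
  choose g hgH hg using fun i => hS.trans 0 i
  -- conjugated homs
  let T : Matrix ι ι F ≃ₐ[F] End F (ι → F) := Matrix.toLinAlgEquiv'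
  let φ : Fin t → (Matrix (Fin a) (Fin a) F →ₐ[F] End F (ι → F)) := fun i =>
    ((T.symm.trans (cj (g i))).trans T).toAlgHom.comp φ₀
  have hconjA : ∀ (h : GL ι F) (N N' : Subgroup (GL ι F)), N.map (MulAut.conj h).toMonoidHom = N' →
      ∀ M, cj h M ∈ alg N' ↔ M ∈ alg N := by
    intro h N N' hNN M
    constructor
    · intro hM
      have := alg_map_conj N' N h⁻¹ (by
        intro x hx
        rw [← hNN, mem_map_conj] at hx
        rwa [inv_inv]) _ hM
      rw [inv_inv] at this
      have h3 := (cj h).symm_apply_apply M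
      change ((h⁻¹ : GL ι F) : Matrix ι ι F) * (cj h M) * (h : Matrix ι ι F) = M at h3
      rwa [h3] at this
    · intro hM
      refine alg_map_conj N N' h ?_ M hM
      intro x hx
      rw [← hNN]; exact ⟨x, hx, rfl⟩
  have hφr : ∀ i f, f ∈ endA (alg (S i)) ↔ ∃ M, φ i M = f := by
    intro i f
    constructor
    · intro hf
      obtain ⟨M, hM, rfl⟩ := exists_of_mem_endA _ f hf
      have h1 : (cj (g i)).symm M ∈ alg (S 0) := by
        rw [← hconjA (g i) (S 0) (S i) (hg i), AlgEquiv.apply_symm_apply]; exact hM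
      have h2 : Matrix.toLin' ((cj (g i)).symm M) ∈ φ₀.range := by
        rw [hφ₀, mem_endA]; exact h1
      obtain ⟨X, hX⟩ := h2
      refine ⟨X, ?_⟩
      change T (cj (g i) (T.symm (φ₀ X))) = T M
      have hX' : φ₀ X = T ((cj (g i)).symm M) := hX
      rw [hX', AlgEquiv.symm_apply_apply, AlgEquiv.apply_symm_apply]
    · rintro ⟨X, rfl⟩
      change T (cj (g i) (T.symm (φ₀ X))) ∈ _
      have h1 : φ₀ X ∈ endA (alg (S 0)) := by rw [← hφ₀]; exact ⟨X, rfl⟩
      obtain ⟨M, hM, hMX⟩ := exists_of_mem_endA _ _ h1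
      have h2 : T.symm (φ₀ X) = M := by rw [← hMX]; exact T.symm_apply_apply M
      rw [h2]
      change Matrix.toLin' _ ∈ _
      rw [mem_endA, hconjA (g i) (S 0) (S i) (hg i)]
      exact hM
  have hc : ∀ s s', s ≠ s' → ∀ M N, φ s M * φ s' N = φ s' N * φ s M := by
    intro s s' hss M N
    obtain ⟨X, hX, hX'⟩ := exists_of_mem_endA _ _ ((hφr s _).2 ⟨M, rfl⟩)
    obtain ⟨Y, hY, hY'⟩ := exists_of_mem_endA _ _ ((hφr s' _).2 ⟨N, rfl⟩)
    rw [← hX', ← hY']
    have := alg_comm (hS.comm s s' hss) X hX Y hY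
    change Matrix.toLin' X ∘ₗ Matrix.toLin' Y = Matrix.toLin' Y ∘ₗ Matrix.toLin' X
    rw [← Matrix.toLin'_mul, ← Matrix.toLin'_mul, this]
  obtain ⟨b, hb⟩ := exists_basis' φ hc (by
    intro B hB
    -- pull back B to matrices
    let B' : Subalgebra F (Matrix ι ι F) := B.comap T.toAlgHom
    have h1 : ∀ i, S i ≤ { carrier := {x : GL ι F | (x : Matrix ι ι F) ∈ B'},
                           mul_mem' := fun {x y} hx hy => by
                            change ((x * y : GL ι F) : Matrix ι ι F) ∈ B'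
                            rw [Units.val_mul]; exact B'.mul_mem hx hy
                           one_mem' := by
                            change ((1 : GL ι F) : Matrix ι ι F) ∈ B'
                            rw [Units.val_one]; exact B'.one_mem
                           inv_mem' := fun {x} hx => by
                            change ((x⁻¹ : GL ι F) : Matrix ι ι F) ∈ B'
                            have hfo : 0 < orderOf x := orderOf_pos x
                            have : x⁻¹ = x ^ (orderOf x - 1) := by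
                              rw [inv_eq_iff_mul_eq_one, ← pow_succ', Nat.sub_add_cancel hfo, pow_orderOf_eq_one]
                            rw [this, Units.val_pow_eq_pow_val]
                            exact B'.pow_mem hx _ : Subgroup (GL ι F) } := by
      intro i x hx
      change T (x : Matrix ι ι F) ∈ B
      obtain ⟨M, hM⟩ := (hφr i (Matrix.toLin' (x : Matrix ι ι F))).1 ((mem_endA _ _).2 (mem_alg hx))
      have := hB i M
      rw [hM] at this
      exact this
    have h2 := iSup_le h1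
    rw [hS.sup] at h2
    have h3 : alg N ≤ B' := by
      refine Algebra.adjoin_le ?_
      rintro _ ⟨x, hx, rfl⟩
      exact h2 hx
    rw [hN] at h3
    rw [eq_top_iff]
    intro f _
    have h4 : T.symm f ∈ B' := h3 trivial
    change T (T.symm f) ∈ B at h4
    rwa [AlgEquiv.apply_symm_apply] at h4)
  have hkey : ∀ (h : GL ι F) (σ : Equiv.Perm (Fin t)), (∀ i, (S i).map (MulAut.conj h).toMonoidHom = S (σ i)) →
      ∃ P : Fin t → (Matrix (Fin a) (Fin a) F)ˣ, ∀ x : Fin t → Fin a,
      (h : Matrix ι ι F) *ᵥ (b x) = ∑ y : Fin t → Fin a, (∏ s, (P s).1 (y s) (x s)) • b (y ∘ σ.symm) := by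
    intro h σ hσ
    have hh1 : Matrix.toLin' (h : Matrix ι ι F) * Matrix.toLin' ((h⁻¹ : GL ι F) : Matrix ι ι F) =
        (1 : End F (ι → F)) := by
      change Matrix.toLin' (h : Matrix ι ι F) ∘ₗ Matrix.toLin' ((h⁻¹ : GL ι F) : Matrix ι ι F) = _
      rw [← Matrix.toLin'_mul, ← Units.val_mul, mul_inv_cancel, Units.val_one, Matrix.toLin'_one]; rfl
    have hh2 : Matrix.toLin' ((h⁻¹ : GL ι F) : Matrix ι ι F) * Matrix.toLin' (h : Matrix ι ι F) =
        (1 : End F (ι → F)) := by
      change Matrix.toLin' ((h⁻¹ : GL ι F) : Matrix ι ι F) ∘ₗ Matrix.toLin' (h : Matrix ι ι F) = _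
      rw [← Matrix.toLin'_mul, ← Units.val_mul, inv_mul_cancel, Units.val_one, Matrix.toLin'_one]; rfl
    obtain ⟨P, hP⟩ := norm_form φ hc b hb (Matrix.toLin' (h : Matrix ι ι F))
      (Matrix.toLin' ((h⁻¹ : GL ι F) : Matrix ι ι F)) hh1 hh2 σ (by
        intro s M
        obtain ⟨X, hX, hX'⟩ := exists_of_mem_endA _ _ ((hφr s _).2 ⟨M, rfl⟩)
        rw [← hX']
        have h1 : cj h X ∈ alg (S (σ s)) := (hconjA h (S s) (S (σ s)) (hσ s) X).2 hX
        obtain ⟨M', hM'⟩ := (hφr (σ s) (Matrix.toLin' (cj h X))).1 ((mem_endA _ _).2 h1)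
        refine ⟨M', ?_⟩
        rw [hM']
        change Matrix.toLin' (h : Matrix ι ι F) ∘ₗ Matrix.toLin' X ∘ₗ Matrix.toLin' ((h⁻¹ : GL ι F) : Matrix ι ι F) = _
        rw [← Matrix.toLin'_mul, ← Matrix.toLin'_mul, ← mul_assoc]; rfl)
    exact ⟨P, hP⟩
  have hTW : ∀ h ∈ H, TW b (h : Matrix ι ι F) := by
    intro h hh
    obtain ⟨σ, hσ⟩ := hS.perm h hh
    exact ⟨σ, hkey h σ hσ⟩
  have hPT : ∀ x ∈ N, PT b (x : Matrix ι ι F) := by
    intro x hx
    obtain ⟨P, hP⟩ := hkey x (Equiv.refl _) (by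
      intro i
      rw [Equiv.refl_apply]
      apply le_antisymm
      · rintro _ ⟨y, hy, rfl⟩
        exact hS.nrd i x hx y hy
      · intro y hy
        refine ⟨x⁻¹ * y * x, ?_, ?_⟩
        · have := hS.nrd i x⁻¹ (N.inv_mem hx) y hy
          rwa [inv_inv] at this
        · change x * (x⁻¹ * y * x) * x⁻¹ = y
          group)
    exact ⟨P, fun z => hP z⟩
  -- adjoints
  have hS0 : Iso f (S 0) := hH.mono ((hS.le 0).trans hNH)
  have hadj0 : ∀ M, ∃ M', ∀ u v, f (φ₀ M u) v = f u (φ₀ M' v) := by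
    intro M
    have h1 : φ₀ M ∈ endA (alg (S 0)) := by rw [← hφ₀]; exact ⟨M, rfl⟩
    obtain ⟨X, hX, hX'⟩ := exists_of_mem_endA _ _ h1
    obtain ⟨X', hXA, had⟩ := closed_alg hf hS0 X hX
    have h2 : Matrix.toLin' X' ∈ φ₀.range := by rw [hφ₀, mem_endA]; exact hXA
    obtain ⟨M', hM'⟩ := h2
    refine ⟨M', fun u v => ?_⟩
    have hM'' : φ₀ M' = Matrix.toLin' X' := hM'
    rw [hM'', ← hX', Matrix.toLin'_apply, Matrix.toLin'_apply]
    exact had u v
  choose τ hτ0 using hadj0
  have hφi : ∀ s M v, φ s M v = ((g s : GL ι F) : Matrix ι ι F) *ᵥ (φ₀ M ((((g s)⁻¹ : GL ι F) : Matrix ι ι F) *ᵥ v)) := by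
    intro s M v
    have h1 : φ₀ M ∈ endA (alg (S 0)) := by rw [← hφ₀]; exact ⟨M, rfl⟩
    obtain ⟨X, hX, hX'⟩ := exists_of_mem_endA _ _ h1
    change (T (cj (g s) (T.symm (φ₀ M)))) v = _
    have h2 : T.symm (φ₀ M) = X := by rw [← hX']; exact T.symm_apply_apply X
    rw [h2, ← hX']
    change Matrix.toLin' (((g s : GL ι F) : Matrix ι ι F) * X * (((g s)⁻¹ : GL ι F) : Matrix ι ι F)) v = _
    rw [Matrix.toLin'_apply, Matrix.toLin'_apply, ← Matrix.mulVec_mulVec, ← Matrix.mulVec_mulVec]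
  have hτ : ∀ s M u v, f (φ s M u) v = f u (φ s (τ M) v) := by
    intro s M u v
    rw [hφi, hφi, hH.adj (hgH s), hτ0, hH.adj' (hgH s)]
  obtain ⟨ε₁, f₁, hf₁, hε1, hε2, c, hc0, hform⟩ := power_gram hf (by omega) φ hc b hb τ hτ
  have hcard : Fintype.card ι = a ^ t := by
    have := Module.finrank_eq_card_basis b
    rw [Module.finrank_fintype_fun_eq_card, Fintype.card_fun, Fintype.card_fin, Fintype.card_fin] at this
    exact this
  have e : ι ≃ (Fin t → Fin a) := Fintype.equivOfCardEq (by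
    rw [hcard, Fintype.card_fun, Fintype.card_fin, Fintype.card_fin])
  obtain ⟨P, hP⟩ := exists_P (b.reindex e.symm)
  refine ClsF.tw a t e P b hP ε₁ f₁ hf₁ hε1 hε2 ha2 ht c hc0 hform ⟨c, hc0, fun x y => ?_⟩ hTW N hNH hNrd hN hperf hPT
    (le_tensorWreath_P b H hTW e P hP)
  rw [form_P hf b e P hP, Finset.mul_sum]
  refine Finset.sum_congr rfl fun p _ => ?_
  rw [Finset.mul_sum]
  refine Finset.sum_congr rfl fun q _ => ?_
  rw [hform]; ring

end CfsgLib.AschF
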