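import Mathlib
import Cfsg.Agent.LibAschF11

/-! general Aschbacher theorem with a form -/
set_option autoImplicit false
set_option linter.unusedSectionVars false

namespace CfsgLib.AschF

open Module Cfsg Cfsg.Geo CfsgLib.Asch1 CfsgLib.Asch2 CfsgLib.Asch3 CfsgLib.Asch4 CfsgLib.Asch5 CfsgLib.Asch6 CfsgLib.Asch7
  CfsgLib.Asch8 CfsgLib.Asch9
  CfsgLib.Asch10 CfsgLib.Asch11 CfsgLib.Asch12 CfsgLib.Asch13 CfsgLib.Asch14 CfsgLib.Asch15 CfsgLib.Asch16 CfsgLib.Asch17
  CfsgLib.Asch18 CfsgLib.Asch19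
open scoped Matrix MatrixGroups Kronecker

variable {ι : Type} [Fintype ι] [DecidableEq ι] {F : Type*} [Field F]
variable {σ : F ≃+* F} {ε : F} {f : (ι → F) → (ι → F) → F}

/-- realisability over a proper subfield gives class sub -/
theorem real_form [Fintype F] [Nonempty ι] (hf : FD σ ε f) {H N : Subgroup (GL ι F)} (hH : Iso f H)
    (hNH : N ≤ H) (hN : alg N = ⊤) (hNrd : Nrd H N) {F₀ : Subfield F} (hF₀ : F₀ ≠ ⊤)
    (hreal : RealisableOver F₀ (matrixSet N)) : ClsF σ ε f H := by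
  obtain ⟨F₁, s, hF₁, hs, hcs⟩ := exists_max_subfield F₀ hF₀
  obtain ⟨B, hB⟩ := hreal
  obtain ⟨P₀, ζ, hζ, h1, h2, h3⟩ := sub_form hf (hH.mono hNH) hN (H := H) hNrd F₁ ⟨B, fun s hs i j => hF₁ (hB s hs i j)⟩
  refine ClsF.sub F₁ s P₀ ζ hs ?_ hζ h1 h2 N (hH.mono hNH) hN h3
  rw [← Nat.card_eq_fintype_card]; exact hcs

theorem class_two_form [Fintype F] [Nonempty ι] (hf : FD σ ε f) (hn : 2 ≤ Fintype.card ι) {H N : Subgroup (GL ι F)}
    (hH : Iso f H) (hmin : Minimal (Nz (scalars ι F) H) N)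
    (hN : alg N = ⊤) (hc : ⁅N, N⁆ ≤ scalars ι F) : ClsF σ ε f H := by
  classical
  obtain ⟨r, k, z, hrd⟩ := exists_rd hmin hN hc
  have hr := hrd.prime
  have hnrd : Nrd H N := hmin.1.2.1
  have hNH : N ≤ H := hmin.1.1
  obtain ⟨p, hchar, e', hp, hcard⟩ := FiniteField.card' F
  set e : ℕ := (e' : ℕ) with he
  have he0 : 0 < e := e'.2
  have hrp : r ≠ p := by
    intro h
    apply hrd.rne
    rw [h]; exact CharP.cast_eq_zero F p
  by_cases hsub : ∃ d, 0 < d ∧ d < e ∧ z ∣ p ^ d - 1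
  · obtain ⟨d, hd0, hde, hzd⟩ := hsub
    obtain ⟨F₀, hF₀, hF₀'⟩ := exists_subfield (F := F) hp hcard hd0 hde hzd
    have hcN : (Nat.card N : F) ≠ 0 := by
      rw [hrd.card, Nat.cast_mul, Nat.cast_pow]
      exact mul_ne_zero (pow_ne_zero _ hrd.rne) hrd.zne
    have hreal := realisable hN hc F₀ (fun x hx c hxc => hF₀' c (hrd.scal x hx c hxc)) hcN
    exact real_form hf hH hNH hN hnrd hF₀ hreal
  push Not at hsub
  have hzdvd : z ∣ p ^ e - 1 := by rw [← hcard]; exact hrd.zdvd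
  have hmf : IsMinimalFieldFor z p e F := ⟨hp, hchar, hcard, hzdvd, fun d hd0 hde => hsub d hd0 hde⟩
  have hk1 : 1 ≤ k := by
    rcases Nat.eq_zero_or_pos k with h | h
    · exfalso
      have := hrd.deg
      rw [h, pow_zero] at this
      omega
    · exact h
  exact ClsF.st r k z p e N hrd hk1 hN hc hNH hrp hmf (le_normalizer hnrd)

theorem core_of_single_form [Finite F] [Nonempty ι] {H N : Subgroup (GL ι F)} (hN : alg N = ⊤)
    (hNH : N ≤ H) (hNrd : Nrd H N) (hNz : ¬ N ≤ scalars ι F) {S : Fin 1 → Subgroup (GL ι F)}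
    (hS : PerfDec (scalars ι F) H N 1 S) : Core H N := by
  have hS0 : S 0 = N := by
    rw [← hS.sup]; simp [iSup_unique]
  have hperf := hS.perfect 0
  have hsimple := hS.simple 0
  rw [hS0] at hperf hsimple
  refine ⟨hNH, hNrd, hperf, simple_quot hNz hsimple, nonab_quot hNz hperf, ?_, hN⟩
  · intro h hh hx
    have hcomm := comm_of_perfect (Z := scalars ι F) scalars_le_center hperf h (by
      intro s hs
      have h1 := hx s hs
      have h2 := (scalars ι F).inv_mem h1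
      have h3 : (h * s * h⁻¹ * s⁻¹)⁻¹ = s * h * s⁻¹ * h⁻¹ := by group
      rwa [h3] at h2)
    obtain ⟨c, hc⟩ := scalar_of_commute_all (h : Matrix ι ι F) (fun X => by
      refine (commute_alg (N := N) ?_ X (by rw [hN]; trivial)).symm
      rintro _ ⟨x, hx, rfl⟩
      have := congrArg Units.val (hcomm x hx)
      simpa using this.symm)
    exact mem_scalars_of_eq hc

theorem scalar_of_bot {x : Matrix ι ι F} (h : x ∈ (⊥ : Subalgebra F (Matrix ι ι F))) : ∃ c : F, x = c • (1 : Matrix ι ι F) := by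
  rw [Algebra.mem_bot] at h
  obtain ⟨c, hc⟩ := h
  exact ⟨c, by rw [← hc, Algebra.algebraMap_eq_smul_one]⟩

theorem aschbacherF [Fintype F] (hf : FD σ ε f) (hn : 2 ≤ Fintype.card ι) (H : Subgroup (GL ι F)) (hH : Iso f H) :
    ClsF σ ε f H ∨ (ActsIrreducibly (matrixSet H) ∧ ∃ N, Core H N ∧
      ∀ F₀ : Subfield F, F₀ ≠ ⊤ → ¬ RealisableOver F₀ (matrixSet N)) := by
  classical
  have : Nonempty ι := Fintype.card_pos_iff.1 (by omega)
  rcases irr_or_class hf hH with h | hirr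
  · exact Or.inl h
  have hns := not_scalar hn hirr
  obtain ⟨N, hN⟩ := exists_min (scalars ι F) H hns
  have hNH : N ≤ H := hN.1.1
  have hnrd : Nrd H N := hN.1.2.1
  have hNz := hN.1.2.2
  have hna : NormAlg (H : Set (GL ι F)) (alg N) := by
    refine normAlg_alg _ _ fun h hh => ⟨hnrd h hh, fun x hx => ?_⟩
    have := hnrd h⁻¹ (H.inv_mem hh) x hx
    rwa [inv_inv] at this
  rcases stage1 hf hH hirr (alg N) hna (closed_alg hf (hH.mono hNH)) with h | h | halg
  · exact Or.inl h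
  · exfalso
    apply hNz
    intro x hx
    have h1 := mem_alg hx
    rw [h] at h1
    obtain ⟨c, hc⟩ := scalar_of_bot h1
    exact mem_scalars_of_eq hc
  rcases min_le hN (K := ⁅N, N⁆) (by
    rw [Subgroup.commutator_le]
    intro a ha b hb
    rw [commutatorElement_def]
    exact N.mul_mem (N.mul_mem (N.mul_mem ha hb) (N.inv_mem ha)) (N.inv_mem hb)) hnrd.commutator with h | h
  · exact Or.inl (class_two_form hf hn hH hN halg h)
  · obtain ⟨t, S, ht, hS⟩ := perfDec scalars_le_center hN h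
    rcases (by omega : t = 1 ∨ 2 ≤ t) with h1 | h1
    · subst h1
      by_cases hreal : ∃ F₀ : Subfield F, F₀ ≠ ⊤ ∧ RealisableOver F₀ (matrixSet N)
      · obtain ⟨F₀, hF₀, hr⟩ := hreal
        exact Or.inl (real_form hf hH hNH halg hnrd hF₀ hr)
      · push Not at hreal
        exact Or.inr ⟨hirr, N, core_of_single_form halg hNH hnrd hNz hS, hreal⟩
    · exact Or.inl (tensor_induced_form hf hH halg hNH hnrd h h1 hS)

end CfsgLib.AschF
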