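import Mathlib
import Cfsg.Agent.LibAschF12

/-! norms, descent, two forms -/
set_option autoImplicit false
set_option linter.unusedSectionVars false

namespace CfsgLib.AschF

open Module Cfsg Cfsg.Geo CfsgLib.Asch1 CfsgLib.Asch2 CfsgLib.Asch3 CfsgLib.Asch4 CfsgLib.Asch5 CfsgLib.Asch6 CfsgLib.Asch7
  CfsgLib.Asch8 CfsgLib.Asch9
  CfsgLib.Asch10 CfsgLib.Asch11 CfsgLib.Asch12 CfsgLib.Asch13 CfsgLib.Asch14 CfsgLib.Asch15 CfsgLib.Asch16 CfsgLib.Asch17
  CfsgLib.Asch18 CfsgLib.Asch19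
open scoped Matrix MatrixGroups Kronecker

variable {ι : Type} [Fintype ι] [DecidableEq ι] {F : Type*} [Field F]
variable {σ : F ≃+* F} {ε : F} {f : (ι → F) → (ι → F) → F}

theorem norm_surj [Finite F] (hσ : σ ≠ RingEquiv.refl F) (hsq : ∀ a, σ (σ a) = a) {c : F} (hc0 : c ≠ 0)
    (hc : σ c = c) : ∃ l : F, l ≠ 0 ∧ l * σ l = c := by
  classical
  let s : Fˣ →* Fˣ := Units.map (σ : F →* F)
  have hs : ∀ x : Fˣ, ((s x : Fˣ) : F) = σ x := fun x => rfl
  let N : Fˣ →* Fˣ := (MonoidHom.id Fˣ) * s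
  let D : Fˣ →* Fˣ := (MonoidHom.id Fˣ) / s
  have hN : ∀ x, N x = x * s x := fun x => rfl
  have hD : ∀ x, D x = x / s x := fun x => rfl
  have h1 : N.ker = D.range := by
    ext x
    rw [MonoidHom.mem_ker, MonoidHom.mem_range, hN]
    constructor
    · intro h
      have h2 : (x : F) * σ x = 1 := congrArg Units.val h
      obtain ⟨a, ha0, ha⟩ := hilbert90 hσ hsq h2
      refine ⟨Units.mk0 a ha0, ?_⟩
      rw [hD, div_eq_iff_eq_mul]
      ext
      rw [Units.val_mul, hs, Units.val_mk0]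
      rw [mul_comm]; exact ha.symm
    · rintro ⟨y, rfl⟩
      ext
      rw [Units.val_mul, hs, hD, Units.val_div_eq_div_val, hs, map_div₀, hsq, Units.val_one]
      have hy := y.ne_zero
      have hy' : σ (y : F) ≠ 0 := by simp
      field_simp
  have h2 : N.range ≤ D.ker := by
    rintro _ ⟨y, rfl⟩
    rw [MonoidHom.mem_ker, hD, div_eq_one]
    ext
    rw [hs, hN, Units.val_mul, hs, map_mul, hsq, mul_comm]
  have h3 : Nat.card N.range = Nat.card D.ker := by
    have e1 := Subgroup.card_mul_index N.ker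
    have e2 := Subgroup.card_mul_index D.ker
    rw [Subgroup.index_ker, h1] at e1
    rw [Subgroup.index_ker] at e2
    have hpos : 0 < Nat.card D.range := Nat.card_pos
    have : Nat.card D.range * Nat.card N.range = Nat.card D.range * Nat.card D.ker := by
      rw [e1, ← e2, mul_comm]
    exact Nat.eq_of_mul_eq_mul_left hpos this
  have h4 : N.range = D.ker := Subgroup.eq_of_le_of_card_ge h2 h3.ge
  have h5 : Units.mk0 c hc0 ∈ D.ker := by
    rw [MonoidHom.mem_ker, hD, div_eq_one]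
    ext
    rw [hs, Units.val_mk0, hc]
  rw [← h4] at h5
  obtain ⟨l, hl⟩ := h5
  refine ⟨l, l.ne_zero, ?_⟩
  have := congrArg Units.val hl
  rw [hN, Units.val_mul, hs, Units.val_mk0] at this
  exact this

theorem exists_sigma_ne (hσ : σ ≠ RingEquiv.refl F) : ∃ a : F, a - σ a ≠ 0 := by
  by_contra hcon
  push Not at hcon
  apply hσ
  ext a
  exact (sub_eq_zero.1 (hcon a)).symm

theorem map_vecMul (τ : F ≃+* F) (v : ι → F) (A : Matrix ι ι F) :
    (fun i => τ ((v ᵥ* A) i)) = (fun i => τ (v i)) ᵥ* A.map τ := by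
  ext i
  simp [Matrix.vecMul, dotProduct, map_sum, map_mul]

theorem descent (hσ : σ ≠ RingEquiv.refl F) (hsq : ∀ a, σ (σ a) = a) (A : Matrix ι ι F) (hA : A.map σ * A = 1) :
    ∃ B : GL ι F, (B : Matrix ι ι F).map σ * A = B := by
  classical
  let V₀ : Set (ι → F) := {v | (fun i => σ (v i)) ᵥ* A = v}
  obtain ⟨a, ha⟩ := exists_sigma_ne hσ
  have hmem : ∀ (c : F) (v : ι → F), (c • v + (fun i => σ ((c • v) i)) ᵥ* A) ∈ V₀ := by
    intro c v
    change (fun i => σ ((c • v + (fun i => σ ((c • v) i)) ᵥ* A) i)) ᵥ* A = _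
    set w := c • v with hw
    have h1 : (fun i => σ ((w + (fun i => σ (w i)) ᵥ* A) i)) = (fun i => σ (w i)) + w ᵥ* A.map σ := by
      have h2 := map_vecMul σ (fun i => σ (w i)) A
      simp only [hsq] at h2
      ext i
      have h3 := congrFun h2 i
      simp only [Pi.add_apply, map_add]
      rw [h3]
    rw [h1, Matrix.add_vecMul, Matrix.vecMul_vecMul, hA, Matrix.vecMul_one, add_comm]
  have hsp : ⊤ ≤ Submodule.span F V₀ := by
    intro v _
    have h1 := Submodule.subset_span (R := F) (hmem a v)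
    have h2 := Submodule.subset_span (R := F) (hmem 1 v)
    have h3 := Submodule.sub_mem _ h1 (Submodule.smul_mem _ (σ a) h2)
    have h4 : (a • v + (fun i => σ ((a • v) i)) ᵥ* A) - σ a • ((1 : F) • v + (fun i => σ (((1 : F) • v) i)) ᵥ* A) =
        (a - σ a) • v := by
      have h5 : (fun i => σ ((a • v) i)) = σ a • (fun i => σ (v i)) := by
        ext i; simp
      rw [h5, Matrix.smul_vecMul, one_smul, smul_add, sub_smul]
      abel
    rw [h4] at h3
    have h6 := Submodule.smul_mem _ (a - σ a)⁻¹ h3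
    rwa [smul_smul, inv_mul_cancel₀ ha, one_smul] at h6
  let b₀ := Basis.ofSpan hsp
  have hb₀ : ∀ i, b₀ i ∈ V₀ := fun i => Basis.ofSpan_subset hsp ⟨i, rfl⟩
  have hfin := FiniteDimensional.fintypeBasisIndex b₀
  have hcard : Fintype.card _ = Fintype.card ι := (Module.finrank_eq_card_basis b₀).symm.trans (Module.finrank_fintype_fun_eq_card F)
  let b := b₀.reindex (Fintype.equivOfCardEq hcard)
  have hb : ∀ i, b i ∈ V₀ := by
    intro i
    rw [Basis.reindex_apply]; exact hb₀ _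
  let M : Matrix ι ι F := Matrix.of fun i j => b i j
  have hM : IsUnit M := by
    rw [← Matrix.linearIndependent_rows_iff_isUnit]
    exact b.linearIndependent
  obtain ⟨B, hB⟩ := hM
  refine ⟨B, ?_⟩
  rw [hB]
  ext i j
  have h1 := congrFun (hb i) j
  rw [Matrix.mul_apply]
  exact h1

/-- two forms of different types give a subfield -/
theorem two_forms [Finite F] [Nonempty ι] (hσ : σ ≠ RingEquiv.refl F) (hsq : ∀ a, σ (σ a) = a) {N : Subgroup (GL ι F)}
    (hN : alg N = ⊤) {g h : (ι → F) → (ι → F) → F} (hg : Sesq ((RingEquiv.refl F : F ≃+* F) : F →+* F) g)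
    (hgn : IsNondegenerateForm g) (hgf : FixesForm (matrixSet N) g)
    (hh : Sesq (σ : F →+* F) h) (hhn : IsNondegenerateForm h) (hhf : FixesForm (matrixSet N) h) :
    ∃ F₀ : Subfield F, F₀ ≠ ⊤ ∧ (∀ x, x ∈ F₀ ↔ σ x = x) ∧ RealisableOver F₀ (matrixSet N) := by
  classical
  set G := gram g with hG
  set K := gram h with hK
  have hdet : ∀ (τ : F ≃+* F) (g : (ι → F) → (ι → F) → F), Sesq (τ : F →+* F) g → IsNondegenerateForm g →
      IsUnit (gram g).det := by
    intro τ f hf hnd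
    rw [isUnit_iff_ne_zero]
    intro h0
    obtain ⟨v, hv, hv0⟩ := Matrix.exists_mulVec_eq_zero_iff.2 h0
    have hv' : (τ.symm ∘ v) ≠ 0 := by
      intro h1
      apply hv
      ext i
      have := congrFun h1 i
      simpa using this
    obtain ⟨⟨x, hx⟩, _⟩ := hnd _ hv'
    apply hx
    rw [hf.eq_gram]
    have : ((τ : F →+* F) ∘ (τ.symm ∘ v)) = v := by ext i; simp
    rw [this, hv0]; simp
  have hdG := hdet _ g hg hgn
  have hdK := hdet _ h hh hhn
  rw [← hG] at hdG
  rw [← hK] at hdK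
  have hGG : G⁻¹ * G = 1 := Matrix.nonsing_inv_mul G hdG
  have hGG' : G * G⁻¹ = 1 := Matrix.mul_nonsing_inv G hdG
  have hKK : K⁻¹ * K = 1 := Matrix.nonsing_inv_mul K hdK
  have hKK' : K * K⁻¹ = 1 := Matrix.mul_nonsing_inv K hdK
  set A := K⁻¹ * G with hA
  set A' := G⁻¹ * K with hA'
  have hAA' : A * A' = 1 := by
    rw [hA, hA']
    calc K⁻¹ * G * (G⁻¹ * K) = K⁻¹ * (G * G⁻¹) * K := by noncomm_ring
      _ = 1 := by rw [hGG', mul_one, hKK]
  have hA'A : A' * A = 1 := mul_eq_one_comm.1 hAA'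
  have hconj : ∀ x ∈ N, (x : Matrix ι ι F).map σ = A * (x : Matrix ι ι F) * A' := by
    intro x hx
    have h1 := gram_fix _ hg hgf x hx
    have h2 := gram_fix _ hh hhf x hx
    rw [← hG] at h1
    rw [← hK] at h2
    have h3 : ((x : Matrix ι ι F).map ((RingEquiv.refl F : F ≃+* F) : F →+* F)) = (x : Matrix ι ι F) := by
      ext i j; simp
    rw [h3] at h1
    have hxx : ((x⁻¹ : GL ι F) : Matrix ι ι F)ᵀ * (x : Matrix ι ι F)ᵀ = 1 := by
      rw [← Matrix.transpose_mul, ← Units.val_mul, mul_inv_cancel, Units.val_one, Matrix.transpose_one]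
    have h4 : G * (x : Matrix ι ι F) = ((x⁻¹ : GL ι F) : Matrix ι ι F)ᵀ * G := by
      calc G * (x : Matrix ι ι F) = (((x⁻¹ : GL ι F) : Matrix ι ι F)ᵀ * (x : Matrix ι ι F)ᵀ) * (G * (x : Matrix ι ι F)) := by rw [hxx, one_mul]
        _ = ((x⁻¹ : GL ι F) : Matrix ι ι F)ᵀ * ((x : Matrix ι ι F)ᵀ * G * (x : Matrix ι ι F)) := by noncomm_ring
        _ = _ := by rw [h1]
    have h5 : K * (x : Matrix ι ι F).map σ = ((x⁻¹ : GL ι F) : Matrix ι ι F)ᵀ * K := by
      calc K * (x : Matrix ι ι F).map σ = (((x⁻¹ : GL ι F) : Matrix ι ι F)ᵀ * (x : Matrix ι ι F)ᵀ) * (K * (x : Matrix ι ι F).map σ) := by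
            rw [hxx, one_mul]
        _ = ((x⁻¹ : GL ι F) : Matrix ι ι F)ᵀ * ((x : Matrix ι ι F)ᵀ * K * (x : Matrix ι ι F).map σ) := by noncomm_ring
        _ = _ := by
          have h2' : (x : Matrix ι ι F)ᵀ * K * (x : Matrix ι ι F).map σ = K := h2
          rw [h2']
    calc (x : Matrix ι ι F).map σ = (K⁻¹ * K) * (x : Matrix ι ι F).map σ := by rw [hKK, one_mul]
      _ = K⁻¹ * (K * (x : Matrix ι ι F).map σ) := by rw [mul_assoc]
      _ = K⁻¹ * (((x⁻¹ : GL ι F) : Matrix ι ι F)ᵀ * K) := by rw [h5]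
      _ = K⁻¹ * (((x⁻¹ : GL ι F) : Matrix ι ι F)ᵀ * (G * G⁻¹) * K) := by rw [hGG', mul_one]
      _ = K⁻¹ * ((((x⁻¹ : GL ι F) : Matrix ι ι F)ᵀ * G) * G⁻¹ * K) := by noncomm_ring
      _ = K⁻¹ * ((G * (x : Matrix ι ι F)) * G⁻¹ * K) := by rw [h4]
      _ = A * (x : Matrix ι ι F) * A' := by rw [hA, hA']; noncomm_ring
  -- A^σ A scalar
  have hss : ∀ X : Matrix ι ι F, (X.map σ).map σ = X := by
    intro X; ext i j; simp [hsq]
  have hmul : ∀ X Y : Matrix ι ι F, (X * Y).map σ = X.map σ * Y.map σ := by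
    intro X Y
    exact Matrix.map_mul (f := (σ : F →+* F))
  have hone : (1 : Matrix ι ι F).map σ = 1 := by
    rw [Matrix.map_one _ (map_zero σ) (map_one σ)]
  have hA1 : A.map σ * A'.map σ = 1 := by rw [← hmul, hAA', hone]
  have hA2 : A'.map σ * A.map σ = 1 := by rw [← hmul, hA'A, hone]
  obtain ⟨c, hc⟩ := scalar_of_commute_all (A.map σ * A) (fun X => by
    refine (commute_alg (N := N) ?_ X (by rw [hN]; trivial)).symm
    rintro _ ⟨x, hx, rfl⟩
    change A.map σ * A * (x : Matrix ι ι F) = (x : Matrix ι ι F) * (A.map σ * A)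
    have h1 := congrArg (fun X : Matrix ι ι F => X.map σ) (hconj x hx)
    simp only [hss, hmul] at h1
    rw [hconj x hx] at h1
    calc A.map σ * A * (x : Matrix ι ι F) = (A.map σ * (A * (x : Matrix ι ι F) * A') * A'.map σ) * (A.map σ * A) := by
          have : (A.map σ * (A * (x : Matrix ι ι F) * A') * A'.map σ) * (A.map σ * A) =
            A.map σ * A * (x : Matrix ι ι F) * A' * (A'.map σ * A.map σ) * A := by noncomm_ring
          rw [this, hA2, mul_one, mul_assoc _ A' A, hA'A, mul_one]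
      _ = (x : Matrix ι ι F) * (A.map σ * A) := by rw [← h1])
  have hc0 : c ≠ 0 := by
    rintro rfl
    rw [zero_smul] at hc
    have : (1 : Matrix ι ι F) = 0 := by
      calc (1 : Matrix ι ι F) = (A'.map σ * A.map σ) * (A * A') := by rw [hA2, hAA', one_mul]
        _ = A'.map σ * (A.map σ * A) * A' := by noncomm_ring
        _ = 0 := by rw [hc, mul_zero, zero_mul]
    exact one_ne_zero this
  have hσc : σ c = c := by
    have h1 : A * A.map σ = c • (1 : Matrix ι ι F) := by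
      calc A * A.map σ = A * (A.map σ * A) * A' := by
            have : A * (A.map σ * A) * A' = A * A.map σ * (A * A') := by noncomm_ring
            rw [this, hAA', mul_one]
        _ = _ := by rw [hc, Matrix.mul_smul, mul_one, Matrix.smul_mul, hAA']
    have h2 := congrArg (fun X : Matrix ι ι F => X.map σ) h1
    simp only [hss, hmul] at h2
    rw [hc] at h2
    obtain ⟨i⟩ := (inferInstance : Nonempty ι)
    have h3 := congrFun (congrFun h2 i) i
    simp at h3
    exact h3.symm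
  obtain ⟨l, hl0, hl⟩ := norm_surj hσ hsq (inv_ne_zero hc0) (by rw [map_inv₀, hσc])
  obtain ⟨B, hB⟩ := descent hσ hsq (l • A) (by
    have h1 : (l • A).map σ = σ l • A.map σ := by ext i j; simp
    rw [h1, Matrix.smul_mul, Matrix.mul_smul, smul_smul, hc, smul_smul, mul_comm (σ l), hl, inv_mul_cancel₀ hc0, one_smul])
  refine ⟨RingHom.eqLocusField (σ : F →+* F) (RingHom.id F), ?_, fun x => Iff.rfl, B, ?_⟩
  · intro h
    apply hσ
    ext x
    have : x ∈ RingHom.eqLocusField (σ : F →+* F) (RingHom.id F) := by rw [h]; trivial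
    exact this
  · rintro _ ⟨x, hx, rfl⟩ i j
    change σ (((B : Matrix ι ι F) * (x : Matrix ι ι F) * ((B⁻¹ : GL ι F) : Matrix ι ι F)) i j) =
      ((B : Matrix ι ι F) * (x : Matrix ι ι F) * ((B⁻¹ : GL ι F) : Matrix ι ι F)) i j
    have hB1 : (B : Matrix ι ι F).map σ * (((B⁻¹ : GL ι F) : Matrix ι ι F)).map σ = 1 := by
      rw [← hmul, ← Units.val_mul, mul_inv_cancel, Units.val_one, hone]
    have hB1' := mul_eq_one_comm.1 hB1
    have hBA : (B : Matrix ι ι F).map σ * A = l⁻¹ • (B : Matrix ι ι F) := by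
      have h1 : (B : Matrix ι ι F).map σ * (l • A) = (B : Matrix ι ι F) := hB
      rw [Matrix.mul_smul] at h1
      calc (B : Matrix ι ι F).map σ * A = l⁻¹ • (l • ((B : Matrix ι ι F).map σ * A)) := by
            rw [smul_smul, inv_mul_cancel₀ hl0, one_smul]
        _ = _ := by rw [h1]
    have key : ((B : Matrix ι ι F) * (x : Matrix ι ι F) * ((B⁻¹ : GL ι F) : Matrix ι ι F)).map σ =
        (B : Matrix ι ι F) * (x : Matrix ι ι F) * ((B⁻¹ : GL ι F) : Matrix ι ι F) := by
      rw [hmul, hmul, hconj x hx]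
      have hBi : A' * (((B⁻¹ : GL ι F) : Matrix ι ι F)).map σ = l • ((B⁻¹ : GL ι F) : Matrix ι ι F) := by
        have h1 : A' * (((B⁻¹ : GL ι F) : Matrix ι ι F)).map σ * ((B : Matrix ι ι F).map σ * A) = 1 := by
          have : A' * (((B⁻¹ : GL ι F) : Matrix ι ι F)).map σ * ((B : Matrix ι ι F).map σ * A) =
            A' * ((((B⁻¹ : GL ι F) : Matrix ι ι F)).map σ * (B : Matrix ι ι F).map σ) * A := by noncomm_ring
          rw [this, hB1', mul_one, hA'A]
        rw [hBA, Matrix.mul_smul] at h1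
        have h2 : (A' * (((B⁻¹ : GL ι F) : Matrix ι ι F)).map σ) * (B : Matrix ι ι F) = l • (1 : Matrix ι ι F) := by
          rw [← h1, smul_smul, mul_inv_cancel₀ hl0, one_smul]
        calc A' * (((B⁻¹ : GL ι F) : Matrix ι ι F)).map σ
            = (A' * (((B⁻¹ : GL ι F) : Matrix ι ι F)).map σ) * ((B : Matrix ι ι F) * ((B⁻¹ : GL ι F) : Matrix ι ι F)) := by
              rw [← Units.val_mul, mul_inv_cancel, Units.val_one, mul_one]
          _ = _ := by rw [← mul_assoc, h2, Matrix.smul_mul, one_mul]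
      calc (B : Matrix ι ι F).map σ * (A * (x : Matrix ι ι F) * A') * (((B⁻¹ : GL ι F) : Matrix ι ι F)).map σ
          = ((B : Matrix ι ι F).map σ * A) * (x : Matrix ι ι F) * (A' * (((B⁻¹ : GL ι F) : Matrix ι ι F)).map σ) := by
            noncomm_ring
        _ = _ := by
            rw [hBA, hBi, Matrix.smul_mul, Matrix.smul_mul, Matrix.mul_smul, smul_smul, inv_mul_cancel₀ hl0, one_smul]
    exact congrFun (congrFun key i) j

end CfsgLib.AschF
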