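import Mathlib
import Cfsg.Agent.LibAschF13

/-! translation kit: quadratic forms, commutative algebras, swapping of factors -/
set_option autoImplicit false
set_option linter.unusedSectionVars false

namespace CfsgLib.AschF

open Module Cfsg Cfsg.Geo CfsgLib.Asch1 CfsgLib.Asch2 CfsgLib.Asch3 CfsgLib.Asch4 CfsgLib.Asch5 CfsgLib.Asch6 CfsgLib.Asch7
  CfsgLib.Asch8 CfsgLib.Asch9
  CfsgLib.Asch10 CfsgLib.Asch11 CfsgLib.Asch12 CfsgLib.Asch13 CfsgLib.Asch14 CfsgLib.Asch15 CfsgLib.Asch16 CfsgLib.Asch17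
  CfsgLib.Asch18 CfsgLib.Asch19
open scoped Matrix MatrixGroups Kronecker

variable {ι : Type} [Fintype ι] [DecidableEq ι] {F : Type*} [Field F]
variable {σ : F ≃+* F} {ε : F} {f : (ι → F) → (ι → F) → F}

/-! quadratic forms -/

structure QF (f : (ι → F) → (ι → F) → F) (Q : (ι → F) → F) : Prop where
  smul : ∀ (c : F) v, Q (c • v) = c ^ 2 * Q v
  add : ∀ u v, Q (u + v) = Q u + Q v + f u v

theorem QF.polar {Q : (ι → F) → F} (hQ : QF f Q) (u v : ι → F) : QuadraticMap.polar Q u v = f u v := by
  rw [QuadraticMap.polar, hQ.add]; ring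

theorem bilin_of_fd (hf : FD (RingEquiv.refl F) ε f) : IsBilinearForm f :=
  ⟨hf.add_left, hf.smul_left, hf.add_right, hf.smul_right⟩

theorem QF.nondegQ (hf : FD (RingEquiv.refl F) ε f) {Q : (ι → F) → F} (hQ : QF f Q) :
    IsNondegenerateQuadraticForm Q := by
  have h : QuadraticMap.polar Q = f := by
    funext u v; exact hQ.polar u v
  exact ⟨hQ.smul, by rw [h]; exact bilin_of_fd hf, by rw [h]; exact hf.nd⟩

theorem semi_zero {κ : Type} [Fintype κ] (b : Basis κ F (ι → F)) (D : (ι → F) → F)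
    (hadd : ∀ u v, D (u + v) = D u + D v) (hsm : ∀ (c : F) v, D (c • v) = c ^ 2 * D v) (hb : ∀ k, D (b k) = 0) (v : ι → F) :
    D v = 0 := by
  classical
  let D' : (ι → F) →+ F := { toFun := D, map_zero' := by
                              have := hsm 0 0
                              simpa using this
                             map_add' := hadd }
  have h1 : D v = ∑ k, D (b.repr v k • b k) := by
    conv_lhs => rw [← b.sum_repr v]
    exact map_sum D' _ _
  rw [h1]
  refine Finset.sum_eq_zero fun k _ => ?_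
  rw [hsm, hb, mul_zero]

theorem QF.zero_on {Q : (ι → F) → F} (hQ : QF f Q) : Q 0 = 0 := by
  have := hQ.smul 0 0
  simpa using this

theorem QF.preserve {Q : (ι → F) → F} (hQ : QF f Q) {κ : Type} [Fintype κ] (b : Basis κ F (ι → F))
    (g : GL ι F) (hg : ∀ u v, f ((g : Matrix ι ι F) *ᵥ u) ((g : Matrix ι ι F) *ᵥ v) = f u v)
    (hb : ∀ k, Q ((g : Matrix ι ι F) *ᵥ b k) = Q (b k)) (v : ι → F) : Q ((g : Matrix ι ι F) *ᵥ v) = Q v := by
  have h := semi_zero b (fun v => Q ((g : Matrix ι ι F) *ᵥ v) - Q v) (by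
    intro u v
    simp only [Matrix.mulVec_add, hQ.add, hg]; ring) (by
    intro c v
    simp only [Matrix.mulVec_smul, hQ.smul]; ring) (by
    intro k
    simp only [hb, sub_self]) v
  exact sub_eq_zero.1 h

theorem qsim_of {Q : (ι → F) → F} {H : Subgroup (GL ι F)} (h : ∀ g ∈ H, ∀ v, Q ((g : Matrix ι ι F) *ᵥ v) = Q v) :
    H ≤ quadSimilarityGroup Q := by
  intro g hg
  refine ⟨1, fun v => ?_⟩
  rw [h g hg, Units.val_one, one_mul]

theorem exists_QF (hf : FD (RingEquiv.refl F) ε f) (halt : ∀ v, f v v = 0) (h2 : (2 : F) = 0)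
    {κ : Type} [Fintype κ] (b : Basis κ F (ι → F)) : ∃ Q, QF f Q ∧ ∀ k, Q (b k) = 0 := by
  classical
  have hsymm : ∀ u v, f v u = f u v := by
    intro u v
    have h1 := hf.herm v u
    have h3 : (RingEquiv.refl F : F ≃+* F) (f u v) = f u v := rfl
    rw [h3] at h1
    rcases hf.eps with h | h
    · rw [h1, h, one_mul]
    · rw [h1, h]
      have : (-1 : F) = 1 := by linear_combination -h2
      rw [this, one_mul]
  let e : κ ≃ Fin (Fintype.card κ) := Fintype.equivFin κ
  let T : κ → κ → F := fun i j => if e i < e j then f (b i) (b j) else 0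
  have hT : ∀ i j, T i j + T j i = f (b i) (b j) := by
    intro i j
    simp only [T]
    rcases lt_trichotomy (e i) (e j) with h | h | h
    · rw [if_pos h, if_neg (not_lt.2 h.le), add_zero]
    · have : i = j := e.injective h
      subst this
      rw [if_neg (lt_irrefl _), halt, add_zero]
    · rw [if_neg (not_lt.2 h.le), if_pos h, zero_add, hsymm]
  let B : (ι → F) → (ι → F) → F := fun u v => ∑ i, ∑ j, b.repr u i * T i j * b.repr v j
  have hBadd : ∀ x y v, B (x + y) v = B x v + B y v := by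
    intro x y v
    simp only [B, map_add, Finsupp.add_apply, add_mul, Finset.sum_add_distrib]
  have hBadd' : ∀ v x y, B v (x + y) = B v x + B v y := by
    intro v x y
    simp only [B, map_add, Finsupp.add_apply, mul_add, Finset.sum_add_distrib]
  have hBs : ∀ u v, B u v + B v u = f u v := by
    intro u v
    have h1 : f u v = ∑ i, ∑ j, b.repr u i * f (b i) (b j) * b.repr v j := by
      conv_lhs => rw [← b.sum_repr u, ← b.sum_repr v]
      rw [hf.sum_left]
      refine Finset.sum_congr rfl fun i _ => ?_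
      rw [hf.sum_right]
      refine Finset.sum_congr rfl fun j _ => ?_
      rw [hf.smul_left, hf.smul_right]
      change _ * (_ * _) = _
      rw [RingEquiv.refl_apply]; ring
    have h2 : B v u = ∑ i, ∑ j, b.repr u i * T j i * b.repr v j := by
      simp only [B]
      rw [Finset.sum_comm]
      refine Finset.sum_congr rfl fun i _ => Finset.sum_congr rfl fun j _ => ?_
      ring
    rw [h1, h2]
    simp only [B]
    rw [← Finset.sum_add_distrib]
    refine Finset.sum_congr rfl fun i _ => ?_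
    rw [← Finset.sum_add_distrib]
    refine Finset.sum_congr rfl fun j _ => ?_
    rw [← hT i j]; ring
  refine ⟨fun v => B v v, ⟨?_, ?_⟩, ?_⟩
  · intro c v
    simp only [B, map_smul, Finsupp.smul_apply, smul_eq_mul, Finset.mul_sum]
    refine Finset.sum_congr rfl fun i _ => Finset.sum_congr rfl fun j _ => ?_
    ring
  · intro u v
    change B (u + v) (u + v) = B u u + B v v + f u v
    rw [hBadd, hBadd', hBadd', ← hBs u v]; ring
  · intro k
    change B (b k) (b k) = 0
    simp only [B]
    refine Finset.sum_eq_zero fun i _ => Finset.sum_eq_zero fun j _ => ?_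
    rw [Basis.repr_self]
    by_cases hi : i = k
    · by_cases hj : j = k
      · subst hi; subst hj
        simp [T]
      · rw [Finsupp.single_apply (a' := j), if_neg (fun h => hj h.symm), mul_zero]
    · rw [Finsupp.single_apply (a' := i), if_neg (fun h => hi h.symm), zero_mul, zero_mul]

/-! commutative algebras -/

theorem stage1_comm [Fintype F] [Nonempty ι] (hf : FD σ ε f) {H : Subgroup (GL ι F)} (hH : Iso f H)
    (hirr : ActsIrreducibly (matrixSet H))
    (A : Subalgebra F (Matrix ι ι F)) (hn : NormAlg (H : Set (GL ι F)) A) (hA : IsAdjointClosedFor f A)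
    (hcomm : ∀ x ∈ A, ∀ y ∈ A, x * y = y * x) (hbot : A ≠ ⊥) :
    (∃ (t k : ℕ) (D : Fin t → Submodule F (ι → F)), IsNondegenerateMDecomposition f k D ∧
      H ≤ decompositionStabilizer D) ∨
    (∃ (k : ℕ) (D : Fin 2 → Submodule F (ι → F)), IsMDecomposition k D ∧ (∀ i, IsTotallySingularFor f (D i)) ∧
      H ≤ decompositionStabilizer D) ∨
    (∃ (r : ℕ) (K : Subalgebra F (Matrix ι ι F)), r.Prime ∧ IsFieldSubalgebra r K ∧ H ≤ subalgebraNormalizer K ∧
      IsAdjointClosedFor f K ∧
      ((σ = RingEquiv.refl F ∧ (IsSelfAdjointFor f K ∨ (r = 2 ∧ ¬ IsSelfAdjointFor f K))) ∨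
       (σ ≠ RingEquiv.refl F ∧ Odd r))) := by
  classical
  rcases clifford_form hf hH hirr A hn hA with h | h | ⟨hss, hiso⟩
  · exact Or.inl h
  · exact Or.inr (Or.inl h)
  rcases matrix_or_field hf hH A hn hA hss hiso with ⟨a, ha, φ, hφ⟩ | h
  swap
  · exact Or.inr (Or.inr h)
  exfalso
  have hinj : Function.Injective φ := hom_injective φ
  have hmem : ∀ X Y, φ X * φ Y = φ Y * φ X := by
    intro X Y
    have h1 : φ X ∈ endA A := by rw [← hφ]; exact ⟨X, rfl⟩
    have h2 : φ Y ∈ endA A := by rw [← hφ]; exact ⟨Y, rfl⟩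
    obtain ⟨x, hx, hx'⟩ := exists_of_mem_endA A _ h1
    obtain ⟨y, hy, hy'⟩ := exists_of_mem_endA A _ h2
    rw [← hx', ← hy']
    change Matrix.toLin' x ∘ₗ Matrix.toLin' y = Matrix.toLin' y ∘ₗ Matrix.toLin' x
    rw [← Matrix.toLin'_mul, ← Matrix.toLin'_mul, hcomm x hx y hy]
  have ha1 : a = 1 := by
    by_contra hne
    have ha0 := ha.out
    have h01 : (⟨0, by omega⟩ : Fin a) ≠ ⟨1, by omega⟩ := by simp [Fin.ext_iff]
    set i : Fin a := ⟨0, by omega⟩
    set j : Fin a := ⟨1, by omega⟩
    have h1 := hmem (Matrix.single i j 1) (Matrix.single j i 1)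
    rw [← map_mul, ← map_mul] at h1
    have h2 := hinj h1
    rw [Matrix.single_mul_single_same, Matrix.single_mul_single_same] at h2
    have h3 := congrFun (congrFun h2 i) i
    simp [Matrix.single_apply, h01.symm] at h3
  subst ha1
  apply hbot
  rw [eq_bot_iff]
  intro M hM
  have h1 : Matrix.toLin' M ∈ φ.range := by rw [hφ, mem_endA]; exact hM
  obtain ⟨X, hX⟩ := h1
  rw [Algebra.mem_bot]
  refine ⟨X 0 0, ?_⟩
  have h1 : X = algebraMap F _ (X 0 0) := by
    ext i j
    fin_cases i; fin_cases j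
    simp [Matrix.algebraMap_matrix_apply]
  have hX : φ X = Matrix.toLin' M := hX
  rw [h1, AlgHom.commutes] at hX
  apply (Matrix.toLin' : Matrix ι ι F ≃ₗ[F] _).injective
  rw [← hX]
  exact (Matrix.toLinAlgEquiv' : Matrix ι ι F ≃ₐ[F] _).commutes (X 0 0)

end CfsgLib.AschF
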