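import Mathlib
import Cfsg.Agent.LibAschF14

/-! translation kit: tensor products -/
set_option autoImplicit false
set_option linter.unusedSectionVars false

namespace CfsgLib.AschF

open Module Cfsg Cfsg.Geo CfsgLib.Asch1 CfsgLib.Asch2 CfsgLib.Asch3 CfsgLib.Asch4 CfsgLib.Asch5 CfsgLib.Asch6 CfsgLib.Asch7
  CfsgLib.Asch8 CfsgLib.Asch9
  CfsgLib.Asch10 CfsgLib.Asch11 CfsgLib.Asch12 CfsgLib.Asch13 CfsgLib.Asch14 CfsgLib.Asch15 CfsgLib.Asch16 CfsgLib.Asch17
  CfsgLib.Asch18 CfsgLib.Asch19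
open scoped Matrix MatrixGroups Kronecker

variable {ι : Type} [Fintype ι] [DecidableEq ι] {F : Type*} [Field F]
variable {σ : F ≃+* F} {ε : F} {f : (ι → F) → (ι → F) → F}

/-- Kronecker action on a basis -/
def KA {n₁ n₂ : ℕ} (b : Basis (Fin n₁ × Fin n₂) F (ι → F)) (h : Matrix ι ι F)
    (A : Matrix (Fin n₁) (Fin n₁) F) (N : Matrix (Fin n₂) (Fin n₂) F) : Prop :=
  ∀ j l, h *ᵥ b (j, l) = ∑ i, ∑ l', (A i j * N l' l) • b (i, l')

/-- pure tensors -/
noncomputable def ten {n₁ n₂ : ℕ} (b : Basis (Fin n₁ × Fin n₂) F (ι → F)) (u : Fin n₁ → F) (v : Fin n₂ → F) : ι → F :=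
  ∑ i, ∑ l, (u i * v l) • b (i, l)

section ten
variable {n₁ n₂ : ℕ} (b : Basis (Fin n₁ × Fin n₂) F (ι → F))

theorem ten_single (i : Fin n₁) (l : Fin n₂) : ten b (Pi.single i 1) (Pi.single l 1) = b (i, l) := by
  rw [ten, Finset.sum_eq_single i, Finset.sum_eq_single l]
  · simp
  · intro l' _ h; simp [Pi.single_apply, h]
  · simp
  · intro i' _ h; simp [Pi.single_apply, h]
  · simp

theorem ten_add_left (u u' : Fin n₁ → F) (v : Fin n₂ → F) : ten b (u + u') v = ten b u v + ten b u' v := by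
  simp only [ten, Pi.add_apply, add_mul, add_smul, Finset.sum_add_distrib]

theorem ten_add_right (u : Fin n₁ → F) (v v' : Fin n₂ → F) : ten b u (v + v') = ten b u v + ten b u v' := by
  simp only [ten, Pi.add_apply, mul_add, add_smul, Finset.sum_add_distrib]

theorem ten_smul_left (c : F) (u : Fin n₁ → F) (v : Fin n₂ → F) : ten b (c • u) v = c • ten b u v := by
  simp only [ten, Pi.smul_apply, smul_eq_mul, Finset.smul_sum, smul_smul, mul_assoc]

theorem ten_smul_right (c : F) (u : Fin n₁ → F) (v : Fin n₂ → F) : ten b u (c • v) = c • ten b u v := by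
  simp only [ten, Pi.smul_apply, smul_eq_mul, Finset.smul_sum, smul_smul]
  refine Finset.sum_congr rfl fun i _ => Finset.sum_congr rfl fun l _ => ?_
  congr 1; ring

theorem ten_repr (u : Fin n₁ → F) (v : Fin n₂ → F) (i : Fin n₁) (l : Fin n₂) :
    b.repr (ten b u v) (i, l) = u i * v l := by
  classical
  have h : ten b u v = ∑ p : Fin n₁ × Fin n₂, (u p.1 * v p.2) • b p := by
    rw [ten, Fintype.sum_prod_type]
  rw [h, map_sum]
  simp only [map_smul, Basis.repr_self, Finsupp.smul_single, smul_eq_mul, mul_one]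
  rw [Finsupp.coe_finsetSum, Finset.sum_apply, Finset.sum_eq_single (i, l)]
  · simp
  · intro p _ hp
    rw [Finsupp.single_apply, if_neg hp]
  · simp

theorem ten_act {h : Matrix ι ι F} {A : Matrix (Fin n₁) (Fin n₁) F} {N : Matrix (Fin n₂) (Fin n₂) F}
    (hk : KA b h A N) (u : Fin n₁ → F) (v : Fin n₂ → F) : h *ᵥ ten b u v = ten b (A *ᵥ u) (N *ᵥ v) := by
  have h1 : h *ᵥ ten b u v = ∑ j, ∑ l, (u j * v l) • ∑ i, ∑ l', (A i j * N l' l) • b (i, l') := by
    rw [ten, Matrix.mulVec_sum]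
    refine Finset.sum_congr rfl fun j _ => ?_
    rw [Matrix.mulVec_sum]
    refine Finset.sum_congr rfl fun l _ => ?_
    rw [Matrix.mulVec_smul, hk]
  have h2 : ten b (A *ᵥ u) (N *ᵥ v) = ∑ i, ∑ l', ∑ j, ∑ l, ((u j * v l) * (A i j * N l' l)) • b (i, l') := by
    rw [ten]
    refine Finset.sum_congr rfl fun i _ => Finset.sum_congr rfl fun l' _ => ?_
    simp only [Matrix.mulVec, dotProduct]
    rw [Finset.sum_mul_sum, Finset.sum_smul]
    refine Finset.sum_congr rfl fun j _ => ?_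
    rw [Finset.sum_smul]
    refine Finset.sum_congr rfl fun l _ => ?_
    congr 1; ring
  rw [h1, h2]
  simp only [Finset.smul_sum, smul_smul]
  -- reorder
  calc ∑ j, ∑ l, ∑ i, ∑ l', ((u j * v l) * (A i j * N l' l)) • b (i, l')
      = ∑ j, ∑ i, ∑ l, ∑ l', ((u j * v l) * (A i j * N l' l)) • b (i, l') :=
        Finset.sum_congr rfl fun j _ => Finset.sum_comm
    _ = ∑ j, ∑ i, ∑ l', ∑ l, ((u j * v l) * (A i j * N l' l)) • b (i, l') :=
        Finset.sum_congr rfl fun j _ => Finset.sum_congr rfl fun i _ => Finset.sum_comm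
    _ = ∑ i, ∑ j, ∑ l', ∑ l, ((u j * v l) * (A i j * N l' l)) • b (i, l') := Finset.sum_comm
    _ = ∑ i, ∑ l', ∑ j, ∑ l, ((u j * v l) * (A i j * N l' l)) • b (i, l') :=
        Finset.sum_congr rfl fun i _ => Finset.sum_comm

theorem ten_form (hf : FD σ ε f) {ε₁ ε₂ : F} {f₁ : (Fin n₁ → F) → (Fin n₁ → F) → F} {f₂ : (Fin n₂ → F) → (Fin n₂ → F) → F}
    (hf₁ : FD σ ε₁ f₁) (hf₂ : FD σ ε₂ f₂)
    (hform : ∀ i l j l', f (b (i, l)) (b (j, l')) = gramMatrix f₁ i j * gramMatrix f₂ l l')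
    (u u' : Fin n₁ → F) (v v' : Fin n₂ → F) : f (ten b u v) (ten b u' v') = f₁ u u' * f₂ v v' := by
  have e1 : f₁ u u' = ∑ i, ∑ j, u i * gramMatrix f₁ i j * σ (u' j) := by
    have h1 : ∀ w : Fin n₁ → F, w = ∑ i, w i • (Pi.single i 1 : Fin n₁ → F) := by
      intro w; ext j; simp [Finset.sum_apply, Pi.single_apply]
    conv_lhs => rw [h1 u, h1 u']
    rw [hf₁.sum_left]
    refine Finset.sum_congr rfl fun i _ => ?_
    rw [hf₁.sum_right]
    refine Finset.sum_congr rfl fun j _ => ?_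
    rw [hf₁.smul_left, hf₁.smul_right]; simp only [gramMatrix]; ring
  have e2 : f₂ v v' = ∑ i, ∑ j, v i * gramMatrix f₂ i j * σ (v' j) := by
    have h1 : ∀ w : Fin n₂ → F, w = ∑ i, w i • (Pi.single i 1 : Fin n₂ → F) := by
      intro w; ext j; simp [Finset.sum_apply, Pi.single_apply]
    conv_lhs => rw [h1 v, h1 v']
    rw [hf₂.sum_left]
    refine Finset.sum_congr rfl fun i _ => ?_
    rw [hf₂.sum_right]
    refine Finset.sum_congr rfl fun j _ => ?_
    rw [hf₂.smul_left, hf₂.smul_right]; simp only [gramMatrix]; ring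
  have e3 : f (ten b u v) (ten b u' v') = ∑ i, ∑ l, ∑ j, ∑ l', (u i * v l) * ((gramMatrix f₁ i j * gramMatrix f₂ l l') * (σ (u' j) * σ (v' l'))) := by
    rw [ten, hf.sum_left]
    refine Finset.sum_congr rfl fun i _ => ?_
    rw [hf.sum_left]
    refine Finset.sum_congr rfl fun l _ => ?_
    rw [hf.smul_left, ten, hf.sum_right, Finset.mul_sum]
    refine Finset.sum_congr rfl fun j _ => ?_
    rw [hf.sum_right, Finset.mul_sum]
    refine Finset.sum_congr rfl fun l' _ => ?_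
    rw [hf.smul_right, hform, map_mul]; ring
  rw [e1, e2, e3, Finset.sum_mul]
  refine Finset.sum_congr rfl fun i _ => ?_
  rw [Finset.sum_mul, Finset.sum_comm]
  refine Finset.sum_congr rfl fun j _ => ?_
  rw [Finset.mul_sum]
  refine Finset.sum_congr rfl fun l _ => ?_
  rw [Finset.mul_sum]
  refine Finset.sum_congr rfl fun l' _ => ?_
  ring

/-- the factors are similarities -/
theorem ten_sim (hf : FD σ ε f) {ε₁ ε₂ : F} {f₁ : (Fin n₁ → F) → (Fin n₁ → F) → F} {f₂ : (Fin n₂ → F) → (Fin n₂ → F) → F}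
    (hf₁ : FD σ ε₁ f₁) (hf₂ : FD σ ε₂ f₂) (h1 : 1 ≤ n₁)
    (hform : ∀ i l j l', f (b (i, l)) (b (j, l')) = gramMatrix f₁ i j * gramMatrix f₂ l l')
    {h : Matrix ι ι F} (hiso : ∀ u v, f (h *ᵥ u) (h *ᵥ v) = f u v)
    {A : Matrix (Fin n₁) (Fin n₁) F} {N : Matrix (Fin n₂) (Fin n₂) F}
    (hk : KA b h A N) (hn : 1 ≤ n₂) : ∃ c : F, c ≠ 0 ∧ ∀ v v', f₂ (N *ᵥ v) (N *ᵥ v') = c * f₂ v v' := by
  obtain ⟨⟨u', hu'⟩, _⟩ := hf₁.nd (Pi.single (⟨0, h1⟩ : Fin n₁) 1) (by simp)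
  set u : Fin n₁ → F := Pi.single (⟨0, h1⟩ : Fin n₁) 1
  have key : ∀ v v', f₁ (A *ᵥ u') (A *ᵥ u) * f₂ (N *ᵥ v) (N *ᵥ v') = f₁ u' u * f₂ v v' := by
    intro v v'
    rw [← ten_form b hf hf₁ hf₂ hform, ← ten_form b hf hf₁ hf₂ hform, ← ten_act b hk, ← ten_act b hk, hiso]
  have hne : f₁ (A *ᵥ u') (A *ᵥ u) ≠ 0 := by
    intro h0
    obtain ⟨⟨v', hv'⟩, _⟩ := hf₂.nd (Pi.single (⟨0, hn⟩ : Fin n₂) 1) (by simp)
    have := key v' (Pi.single (⟨0, hn⟩ : Fin n₂) 1)
    rw [h0, zero_mul] at this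
    exact mul_ne_zero hu' hv' this.symm
  refine ⟨(f₁ (A *ᵥ u') (A *ᵥ u))⁻¹ * f₁ u' u, mul_ne_zero (inv_ne_zero hne) hu', fun v v' => ?_⟩
  rw [mul_assoc, ← key, ← mul_assoc, inv_mul_cancel₀ hne, one_mul]

/-- swapping -/
theorem ten_swap (u : Fin n₁ → F) (v : Fin n₂ → F) :
    ten (b.reindex (Equiv.prodComm (Fin n₁) (Fin n₂))) v u = ten b u v := by
  rw [ten, ten, Finset.sum_comm]
  refine Finset.sum_congr rfl fun i _ => Finset.sum_congr rfl fun l _ => ?_
  rw [Basis.reindex_apply, mul_comm]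
  rfl

theorem KA_swap {h : Matrix ι ι F} {A : Matrix (Fin n₁) (Fin n₁) F} {N : Matrix (Fin n₂) (Fin n₂) F}
    (hk : KA b h A N) : KA (b.reindex (Equiv.prodComm (Fin n₁) (Fin n₂))) h N A := by
  intro l j
  rw [Basis.reindex_apply]
  have h1 := hk j l
  rw [Finset.sum_comm] at h1
  change h *ᵥ b (j, l) = _
  rw [h1]
  refine Finset.sum_congr rfl fun l' _ => Finset.sum_congr rfl fun i _ => ?_
  rw [Basis.reindex_apply, mul_comm]
  rfl

theorem form_swap {f₁ : (Fin n₁ → F) → (Fin n₁ → F) → F} {f₂ : (Fin n₂ → F) → (Fin n₂ → F) → F}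
    (hform : ∀ i l j l', f (b (i, l)) (b (j, l')) = gramMatrix f₁ i j * gramMatrix f₂ l l') :
    ∀ i l j l', f (b.reindex (Equiv.prodComm (Fin n₁) (Fin n₂)) (i, l)) (b.reindex (Equiv.prodComm (Fin n₁) (Fin n₂)) (j, l')) =
      gramMatrix f₂ i j * gramMatrix f₁ l l' := by
  intro i l j l'
  rw [Basis.reindex_apply, Basis.reindex_apply, mul_comm]
  exact hform l i l' j

/-! operators on the second factor -/

noncomputable def psi (N : Matrix (Fin n₂) (Fin n₂) F) : Matrix ι ι F :=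
  LinearMap.toMatrix' (b.constr F fun p => ∑ l', N l' p.2 • b (p.1, l'))

theorem psi_basis (N : Matrix (Fin n₂) (Fin n₂) F) (i : Fin n₁) (l : Fin n₂) :
    psi b N *ᵥ b (i, l) = ∑ l', N l' l • b (i, l') := by
  rw [psi, ← Matrix.toLin'_apply, Matrix.toLin'_toMatrix', Basis.constr_basis]

theorem psi_KA (N : Matrix (Fin n₂) (Fin n₂) F) : KA b (psi b N) 1 N := by
  intro j l
  rw [psi_basis, Finset.sum_eq_single j]
  · simp
  · intro i _ hi
    simp [Matrix.one_apply_ne hi]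
  · simp

theorem psi_ten (N : Matrix (Fin n₂) (Fin n₂) F) (u : Fin n₁ → F) (v : Fin n₂ → F) :
    psi b N *ᵥ ten b u v = ten b u (N *ᵥ v) := by
  rw [ten_act b (psi_KA b N), Matrix.one_mulVec]

theorem ext_basis {κ : Type*} (b : Basis κ F (ι → F)) {X Y : Matrix ι ι F} (h : ∀ k, X *ᵥ b k = Y *ᵥ b k) : X = Y := by
  apply (Matrix.toLin' : Matrix ι ι F ≃ₗ[F] _).injective
  refine b.ext fun k => ?_
  rw [Matrix.toLin'_apply, Matrix.toLin'_apply]; exact h k

theorem ext_ten {X Y : Matrix ι ι F} (h : ∀ u v, X *ᵥ ten b u v = Y *ᵥ ten b u v) : X = Y := by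
  apply ext_basis b
  rintro ⟨i, l⟩
  rw [← ten_single, h]

theorem psi_mul (N M : Matrix (Fin n₂) (Fin n₂) F) : psi b N * psi b M = psi b (N * M) := by
  apply ext_ten b
  intro u v
  rw [← Matrix.mulVec_mulVec, psi_ten, psi_ten, psi_ten, Matrix.mulVec_mulVec]

theorem psi_smul (c : F) (N : Matrix (Fin n₂) (Fin n₂) F) : psi b (c • N) = c • psi b N := by
  apply ext_ten b
  intro u v
  rw [Matrix.smul_mulVec, psi_ten, psi_ten, Matrix.smul_mulVec, ten_smul_right]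

theorem psi_add (N M : Matrix (Fin n₂) (Fin n₂) F) : psi b (N + M) = psi b N + psi b M := by
  apply ext_ten b
  intro u v
  rw [Matrix.add_mulVec, psi_ten, psi_ten, psi_ten, Matrix.add_mulVec, ten_add_right]

theorem psi_one : psi b (1 : Matrix (Fin n₂) (Fin n₂) F) = 1 := by
  apply ext_ten b
  intro u v
  rw [psi_ten, Matrix.one_mulVec, Matrix.one_mulVec]

theorem psi_conj {h h' : Matrix ι ι F} {A A' : Matrix (Fin n₁) (Fin n₁) F} {B B' : Matrix (Fin n₂) (Fin n₂) F}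
    (hk : KA b h A B) (hk' : KA b h' A' B') (hA : A * A' = 1) (N : Matrix (Fin n₂) (Fin n₂) F) :
    h * psi b N * h' = psi b (B * N * B') := by
  apply ext_ten b
  intro u v
  rw [mul_assoc, ← Matrix.mulVec_mulVec, ← Matrix.mulVec_mulVec, ten_act b hk', psi_ten, ten_act b hk, psi_ten,
    Matrix.mulVec_mulVec, hA, Matrix.one_mulVec, Matrix.mulVec_mulVec, Matrix.mulVec_mulVec, mul_assoc]

theorem bil_ten_ext (hf : FD σ ε f) {g : (ι → F) → (ι → F) → F} (hg : Sesq (σ : F →+* F) g)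
    (h : ∀ u v u' v', f (ten b u v) (ten b u' v') = g (ten b u v) (ten b u' v')) (x y : ι → F) : f x y = g x y := by
  rw [← b.sum_repr x, ← b.sum_repr y, hf.sum_left, hg.sum_left]
  refine Finset.sum_congr rfl fun p _ => ?_
  rw [hf.sum_right, hg.sum_right]
  refine Finset.sum_congr rfl fun q _ => ?_
  rw [hf.smul_left, hf.smul_right, hg.smul_left, hg.smul_right]
  have := h (Pi.single p.1 1) (Pi.single p.2 1) (Pi.single q.1 1) (Pi.single q.2 1)
  rw [ten_single, ten_single] at this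
  rw [this]; rfl

theorem psi_adj (hf : FD σ ε f) {ε₁ ε₂ : F} {f₁ : (Fin n₁ → F) → (Fin n₁ → F) → F} {f₂ : (Fin n₂ → F) → (Fin n₂ → F) → F}
    (hf₁ : FD σ ε₁ f₁) (hf₂ : FD σ ε₂ f₂)
    (hform : ∀ i l j l', f (b (i, l)) (b (j, l')) = gramMatrix f₁ i j * gramMatrix f₂ l l')
    {N N' : Matrix (Fin n₂) (Fin n₂) F} (had : Adj f₂ N N') : Adj f (psi b N) (psi b N') := by
  intro x y
  rw [← b.sum_repr x, ← b.sum_repr y, Matrix.mulVec_sum, Matrix.mulVec_sum, hf.sum_left, hf.sum_left]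
  refine Finset.sum_congr rfl fun p _ => ?_
  rw [hf.sum_right, hf.sum_right]
  refine Finset.sum_congr rfl fun q _ => ?_
  rw [Matrix.mulVec_smul, Matrix.mulVec_smul, hf.smul_left, hf.smul_right, hf.smul_left, hf.smul_right]
  obtain ⟨i, l⟩ := p
  obtain ⟨j, l'⟩ := q
  rw [← ten_single b i l, ← ten_single b j l', psi_ten, psi_ten, ten_form b hf hf₁ hf₂ hform,
    ten_form b hf hf₁ hf₂ hform, had]

end ten

end CfsgLib.AschF
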