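import Cfsg.Agent.LibSympTv29

/-! The standard symplectic form, full symplectic centres, Siegel elements. -/

namespace CfsgLib.SympTv29

open scoped MatrixGroups Matrix
open Cfsg CfsgLib.MaxTv29

theorem sympForm_symplectic (m : ℕ) (F : Type*) [Field F] : Geo.IsSymplecticForm (sympForm m F) := by
  have hval : ∀ u v, sympForm m F u v = ∑ i : Fin m, (u (Sum.inr i) * v (Sum.inl i) - u (Sum.inl i) * v (Sum.inr i)) := by
    intro u v
    simp only [sympForm, Matrix.J, dotProduct, Matrix.mulVec, Fintype.sum_sum_type, Matrix.fromBlocks_apply₁₁, Matrix.fromBlocks_apply₁₂,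
      Matrix.fromBlocks_apply₂₁, Matrix.fromBlocks_apply₂₂, Matrix.zero_apply, zero_mul, Finset.sum_const_zero, zero_add, add_zero,
      Matrix.neg_apply, Matrix.one_apply]
    rw [add_comm, ← Finset.sum_add_distrib]
    apply Finset.sum_congr rfl
    intro i _
    simp
    ring
  refine ⟨⟨?_, ?_, ?_, ?_⟩, ?_, ?_, ?_⟩
  · intro x y v; simp only [sympForm, add_dotProduct]
  · intro c x v; simp only [sympForm, smul_dotProduct, smul_eq_mul]
  · intro v x y; simp only [sympForm, Matrix.mulVec_add, dotProduct_add]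
  · intro c v x; simp only [sympForm, Matrix.mulVec_smul, dotProduct_smul, smul_eq_mul]
  · intro v w
    rw [hval, hval, ← Finset.sum_neg_distrib]
    apply Finset.sum_congr rfl
    intro i _
    ring
  · intro v
    rw [hval]
    apply Finset.sum_eq_zero
    intro i _
    ring
  · intro v hv
    have h1 : ∃ x, sympForm m F x v ≠ 0 := by
      obtain ⟨j, hj⟩ := Function.ne_iff.mp hv
      rcases j with i | i
      · refine ⟨Pi.single (Sum.inr i) 1, ?_⟩
        rw [hval, Finset.sum_eq_single_of_mem i (Finset.mem_univ _)]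
        · simpa using hj
        · intro b _ hb
          simp [Pi.single_apply, hb]
      · refine ⟨Pi.single (Sum.inl i) 1, ?_⟩
        rw [hval, Finset.sum_eq_single_of_mem i (Finset.mem_univ _)]
        · simpa using hj
        · intro b _ hb
          simp [Pi.single_apply, hb]
    refine ⟨h1, ?_⟩
    obtain ⟨x, hx⟩ := h1
    refine ⟨x, ?_⟩
    have h2 : sympForm m F v x = - sympForm m F x v := by
      rw [hval, hval, ← Finset.sum_neg_distrib]
      apply Finset.sum_congr rfl
      intro i _
      ring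
    rw [h2]; exact neg_ne_zero.mpr hx

theorem spGL_eq (m : ℕ) (F : Type*) [Field F] : spGL m F = iso (sympForm m F) := rfl

variable {ι : Type} [Fintype ι] [DecidableEq ι] {F : Type*} [Field F]
variable {f : (ι → F) → (ι → F) → F}

/-- `v` is a full symplectic centre for `M`. -/
def SFull (hf : Geo.IsSymplecticForm f) (M : Subgroup (GL ι F)) (v : ι → F) : Prop := ∀ c : F, st hf v c ∈ M

theorem sfull_zero (hf : Geo.IsSymplecticForm f) (M : Subgroup (GL ι F)) : SFull hf M 0 := by
  intro c
  have : st hf 0 c = 1 := by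
    apply gl_ext
    intro x
    rw [st_mulVec, smul_zero, add_zero, Units.val_one, Matrix.one_mulVec]
  rw [this]; exact M.one_mem

theorem SFull.smul {hf : Geo.IsSymplecticForm f} {M : Subgroup (GL ι F)} {v : ι → F} (h : SFull hf M v) (c : F) : SFull hf M (c • v) := by
  intro d
  have : st hf (c • v) d = st hf v (c * c * d) := by
    apply gl_ext
    intro x
    rw [st_mulVec, st_mulVec, hf.bilinear.smul_right, smul_smul]
    congr 2
    ring
  rw [this]; exact h _

theorem SFull.mulVec {hf : Geo.IsSymplecticForm f} {M : Subgroup (GL ι F)} {v : ι → F} (h : SFull hf M v)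
    {g : GL ι F} (hg : g ∈ M) (hgi : g ∈ iso f) : SFull hf M ((g : Matrix ι ι F) *ᵥ v) := by
  intro c
  rw [← st_conj hf g hgi v c]
  exact M.mul_mem (M.mul_mem hg (h c)) (M.inv_mem hg)

/-- moving along: if `u, v` are full then so is `u + c f(u,v) v`. -/
theorem SFull.add {hf : Geo.IsSymplecticForm f} {M : Subgroup (GL ι F)} {u v : ι → F} (hu : SFull hf M u) (hv : SFull hf M v)
    (h : f u v ≠ 0) (c : F) : SFull hf M (u + c • v) := by
  have h1 := hu.mulVec (hv (c * (f u v)⁻¹)) (st_mem_iso hf _ _)
  rw [st_mulVec, inv_mul_cancel_right₀ h] at h1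
  exact h1

theorem iso_le_of_sfull (hf : Geo.IsSymplecticForm f) (M : Subgroup (GL ι F)) (h : ∀ v, SFull hf M v) : iso f ≤ M :=
  iso_le hf M fun v c => h v c

/-- Siegel element `x ↦ x + f(x,a) b + f(x,b) a` for `f(a,b) = 0` -/
def sg (hf : Geo.IsSymplecticForm f) (a b : ι → F) : GL ι F := st hf (a + b) 1 * st hf a (-1) * st hf b (-1)

theorem sg_mulVec (hf : Geo.IsSymplecticForm f) (a b : ι → F) (h : f a b = 0) (x : ι → F) :
    ((sg hf a b : GL ι F) : Matrix ι ι F) *ᵥ x = x + f x a • b + f x b • a := by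
  have h' := swap_eq hf h
  simp only [sg, Units.val_mul, ← Matrix.mulVec_mulVec, st_mulVec, hf.bilinear.add_left, hf.bilinear.add_right, hf.bilinear.smul_left,
    hf.alternating, h, h']
  module

theorem sg_mem_iso (hf : Geo.IsSymplecticForm f) (a b : ι → F) : sg hf a b ∈ iso f :=
  (iso f).mul_mem ((iso f).mul_mem (st_mem_iso hf _ _) (st_mem_iso hf _ _)) (st_mem_iso hf _ _)

end CfsgLib.SympTv29
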