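import Mathlib
import Cfsg.Agent.LibAschF15
import Cfsg.Agent.LibSympTv29b

/-! symplectic case: translation -/
set_option autoImplicit false
set_option linter.unusedSectionVars false

namespace CfsgLib.AschF

open Module Cfsg Cfsg.Geo CfsgLib.Asch1 CfsgLib.Asch2 CfsgLib.Asch3 CfsgLib.Asch4 CfsgLib.Asch5 CfsgLib.Asch6 CfsgLib.Asch7
  CfsgLib.Asch8 CfsgLib.Asch9
  CfsgLib.Asch10 CfsgLib.Asch11 CfsgLib.Asch12 CfsgLib.Asch13 CfsgLib.Asch14 CfsgLib.Asch15 CfsgLib.Asch16 CfsgLib.Asch17
  CfsgLib.Asch18 CfsgLib.Asch19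
open scoped Matrix MatrixGroups Kronecker

section gen
variable {ι : Type} [Fintype ι] [DecidableEq ι] {F : Type*} [Field F]

theorem fd_of_symp {f : (ι → F) → (ι → F) → F} (h : IsSymplecticForm f) : FD (RingEquiv.refl F) (-1) f where
  sesq := ⟨h.bilinear.add_left, h.bilinear.smul_left, h.bilinear.add_right, h.bilinear.smul_right⟩
  nd := h.nondegenerate
  sq := fun a => rfl
  herm := fun u v => by rw [h.skew u v, RingEquiv.refl_apply]; ring
  eps := Or.inr rfl

theorem not_odd_of_two [Fintype F] (h2 : (2 : F) = 0) : ¬ Odd (Fintype.card F) := by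
  rintro ⟨k, hk⟩
  have h1 : ((Fintype.card F : ℕ) : F) = 0 := FiniteField.cast_card_eq_zero F
  rw [hk] at h1
  push_cast at h1
  rw [h2, zero_mul, zero_add] at h1
  exact one_ne_zero h1

theorem two_of_not_odd [Fintype F] (h : ¬ Odd (Fintype.card F)) : (2 : F) = 0 := by
  by_contra h2
  exact h (odd_card h2)

theorem alt_of_neg {f : (ι → F) → (ι → F) → F} (hf : FD (RingEquiv.refl F) (-1) f) (h2 : (2 : F) ≠ 0) (v : ι → F) : f v v = 0 := by
  have h1 := hf.herm v v
  rw [RingEquiv.refl_apply] at h1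
  have h3 : (2 : F) * f v v = 0 := by linear_combination h1
  exact (mul_eq_zero.1 h3).resolve_left h2

theorem symp_of_fd {f : (ι → F) → (ι → F) → F} (hf : FD (RingEquiv.refl F) (-1) f) (halt : ∀ v, f v v = 0) :
    IsSymplecticForm f :=
  ⟨bilin_of_fd hf, fun v w => by rw [hf.herm v w, RingEquiv.refl_apply]; ring, halt, hf.nd⟩

theorem symm_of_fd {f : (ι → F) → (ι → F) → F} (hf : FD (RingEquiv.refl F) 1 f) : IsSymmetricForm f :=
  ⟨bilin_of_fd hf, fun v w => by rw [hf.herm v w, RingEquiv.refl_apply]; ring, hf.nd⟩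

theorem iso_of_le {f : (ι → F) → (ι → F) → F} {H : Subgroup (GL ι F)} (h : H ≤ preserving (glToMat ι F) f) : Iso f H :=
  fun _ hg u v => h hg u v

theorem compl_of_mdec {k : ℕ} {D : Fin 2 → Submodule F (ι → F)} (hD : IsMDecomposition k D) : IsCompl (D 0) (D 1) := by
  have h1 := hD.indep
  have h2 := hD.iSup_eq_top
  have h3 : D 0 ⊔ D 1 = ⊤ := by
    rw [eq_top_iff, ← h2]
    refine iSup_le fun i => ?_
    fin_cases i
    · exact le_sup_left
    · exact le_sup_right
  refine ⟨?_, codisjoint_iff.2 h3⟩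
  exact h1.pairwiseDisjoint (by decide : (0 : Fin 2) ≠ 1)

theorem mdec_card {k : ℕ} {D : Fin 2 → Submodule F (ι → F)} (hD : IsMDecomposition k D) : 2 * k = Fintype.card ι := by
  have h1 := compl_of_mdec hD
  have h2 := Submodule.finrank_add_eq_of_isCompl h1
  rw [hD.finrank_eq, hD.finrank_eq, Module.finrank_fintype_fun_eq_card] at h2
  omega

theorem QF.zero_span {f : (ι → F) → (ι → F) → F} {Q : (ι → F) → F} (hQ : QF f Q) {S : Set (ι → F)} (hS : ∀ s ∈ S, Q s = 0)
    (h0 : ∀ u ∈ Submodule.span F S, ∀ v ∈ Submodule.span F S, f u v = 0) : ∀ v ∈ Submodule.span F S, Q v = 0 := by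
  intro v hv
  induction hv using Submodule.span_induction with
  | mem x hx => exact hS x hx
  | zero => exact hQ.zero_on
  | add x y hx hy ihx ihy => rw [hQ.add, ihx, ihy, h0 x hx y hy]; ring
  | smul a x hx ihx => rw [hQ.smul, ihx, mul_zero]

/-- characteristic two: the stabiliser of a pair of complementary singular subspaces fixes a quadratic form -/
theorem pair_quad {ε : F} {f : (ι → F) → (ι → F) → F} (hf : FD (RingEquiv.refl F) ε f) (halt : ∀ v, f v v = 0) (h2 : (2 : F) = 0)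
    {H : Subgroup (GL ι F)} (hH : Iso f H) {k : ℕ} {D : Fin 2 → Submodule F (ι → F)} (hD : IsMDecomposition k D)
    (hs : ∀ i, IsTotallySingularFor f (D i)) (h : H ≤ decompositionStabilizer D) :
    ∃ Q, QF f Q ∧ ∀ g ∈ H, ∀ v, Q ((g : Matrix ι ι F) *ᵥ v) = Q v := by
  classical
  have hc := compl_of_mdec hD
  let b₀ := Module.finBasis F (D 0)
  let b₁ := Module.finBasis F (D 1)
  let b : Basis (Fin (finrank F (D 0)) ⊕ Fin (finrank F (D 1))) F (ι → F) :=
    (b₀.prod b₁).map (Submodule.prodEquivOfIsCompl _ _ hc)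
  have hbl : ∀ i, b (Sum.inl i) = (b₀ i : ι → F) := by
    intro i
    simp [b, Submodule.coe_prodEquivOfIsCompl']
  have hbr : ∀ i, b (Sum.inr i) = (b₁ i : ι → F) := by
    intro i
    simp [b, Submodule.coe_prodEquivOfIsCompl']
  obtain ⟨Q, hQ, hb⟩ := exists_QF hf halt h2 b
  have h0 : ∀ v ∈ D 0, Q v = 0 := by
    intro v hv
    have hsp : D 0 = Submodule.span F (Set.range fun i => (b₀ i : ι → F)) := by
      have := congrArg (Submodule.map (D 0).subtype) b₀.span_eq
      rw [Submodule.map_span, Submodule.map_top, Submodule.range_subtype, ← Set.range_comp] at this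
      exact this.symm
    refine hQ.zero_span (S := Set.range fun i => (b₀ i : ι → F)) ?_ ?_ v (hsp ▸ hv)
    · rintro _ ⟨i, rfl⟩
      change Q (b₀ i : ι → F) = 0
      rw [← hbl]; exact hb _
    · rw [← hsp]; exact hs 0
  have h1 : ∀ v ∈ D 1, Q v = 0 := by
    intro v hv
    have hsp : D 1 = Submodule.span F (Set.range fun i => (b₁ i : ι → F)) := by
      have := congrArg (Submodule.map (D 1).subtype) b₁.span_eq
      rw [Submodule.map_span, Submodule.map_top, Submodule.range_subtype, ← Set.range_comp] at this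
      exact this.symm
    refine hQ.zero_span (S := Set.range fun i => (b₁ i : ι → F)) ?_ ?_ v (hsp ▸ hv)
    · rintro _ ⟨i, rfl⟩
      change Q (b₁ i : ι → F) = 0
      rw [← hbr]; exact hb _
    · rw [← hsp]; exact hs 1
  have hall : ∀ i, ∀ v ∈ D i, Q v = 0 := by
    intro i; fin_cases i
    · exact h0
    · exact h1
  refine ⟨Q, hQ, fun g hg => hQ.preserve b g (hH g hg) ?_⟩
  obtain ⟨π, hπ⟩ := h hg
  rintro (i | i)
  · rw [hb, hbl]
    apply hall (π 0)
    rw [← hπ 0]
    exact ⟨_, (b₀ i).2, by rw [Matrix.toLin'_apply]⟩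
  · rw [hb, hbr]
    apply hall (π 1)
    rw [← hπ 1]
    exact ⟨_, (b₁ i).2, by rw [Matrix.toLin'_apply]⟩

/-- self-adjoint fields: `f (k v) v = 0` -/
theorem self_adj_zero [Finite F] {f : (ι → F) → (ι → F) → F} (hf : FD (RingEquiv.refl F) (-1) f) (halt : ∀ v, f v v = 0) {r : ℕ}
    {K : Subalgebra F (Matrix ι ι F)} (hK : IsFieldSubalgebra r K) (hs : IsSelfAdjointFor f K) :
    ∀ k ∈ K, ∀ v, f (k *ᵥ v) v = 0 := by
  intro k hk v
  by_cases h2 : (2 : F) = 0
  · -- squares
    have hfinK : Finite K := by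
      have : Finite (Matrix ι ι F) := inferInstance
      infer_instance
    have hinj : Function.Injective (fun x : K => x * x) := by
      intro x y hxy
      have h1 : (x : Matrix ι ι F) * x = y * y := congrArg Subtype.val hxy
      have h3 : ((x : Matrix ι ι F) - y) * (x - y) = 0 := by
        have hc := hK.comm x x.2 y y.2
        have : ((x : Matrix ι ι F) - y) * (x - y) = x * x + y * y - (2 : F) • ((x : Matrix ι ι F) * y) := by
          rw [two_smul, sub_mul, mul_sub, mul_sub, ← hc]; abel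
        rw [this, h2, zero_smul, sub_zero, h1]
        have : (y : Matrix ι ι F) * y + y * y = (2 : F) • ((y : Matrix ι ι F) * y) := by rw [two_smul]
        rw [this, h2, zero_smul]
      by_contra hne
      have hne' : (x : Matrix ι ι F) - y ≠ 0 := fun h => hne (Subtype.ext (sub_eq_zero.1 h))
      obtain ⟨z, hz, hz1⟩ := hK.inv _ (K.sub_mem x.2 y.2) hne'
      apply hne'
      calc (x : Matrix ι ι F) - y = ((x : Matrix ι ι F) - y) * (((x : Matrix ι ι F) - y) * z) := by rw [hz1, mul_one]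
        _ = 0 := by rw [← mul_assoc, h3, zero_mul]
    obtain ⟨c, hc⟩ := (Finite.injective_iff_surjective.1 hinj) ⟨k, hk⟩
    have hc' : (c : Matrix ι ι F) * c = k := congrArg Subtype.val hc
    rw [← hc', ← Matrix.mulVec_mulVec, hs c c.2, halt]
  · have h1 := hs k hk v v
    have h3 := hf.herm v (k *ᵥ v)
    rw [RingEquiv.refl_apply] at h3
    have h4 : (2 : F) * f (k *ᵥ v) v = 0 := by linear_combination h1 + h3
    exact (mul_eq_zero.1 h4).resolve_left h2

/-- degree two, not self adjoint, characteristic two: a quadratic form -/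
theorem fld_two_quad {f : (ι → F) → (ι → F) → F} [Nonempty ι] (hf : FD (RingEquiv.refl F) (-1) f)
    (h2 : (2 : F) = 0) {H : Subgroup (GL ι F)} (hH : Iso f H)
    {K : Subalgebra F (Matrix ι ι F)} (hK : IsFieldSubalgebra 2 K) (hn : H ≤ subalgebraNormalizer K)
    (ha : IsAdjointClosedFor f K) (hs : ¬ IsSelfAdjointFor f K) :
    ∃ Q, QF f Q ∧ ∀ g ∈ H, ∀ v, Q ((g : Matrix ι ι F) *ᵥ v) = Q v := by
  classical
  have hsymm : ∀ u v, f v u = f u v := by
    intro u v
    have h1 := hf.herm v u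
    rw [RingEquiv.refl_apply] at h1
    linear_combination h1 - (f u v) * h2
  have htwo : ∀ X : Matrix ι ι F, X + X = 0 := by
    intro X
    rw [← two_smul F, h2, zero_smul]
  -- self adjoint elements are scalars
  have hself : ∀ s ∈ K, Adj f s s → ∃ c : F, s = c • (1 : Matrix ι ι F) := by
    intro s hsK hss
    by_contra hcon
    push Not at hcon
    apply hs
    have hli : LinearIndependent F ![(⟨1, K.one_mem⟩ : K), ⟨s, hsK⟩] := by
      rw [LinearIndependent.pair_iff]
      intro x y hxy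
      have h1 : x • (1 : Matrix ι ι F) + y • s = 0 := congrArg Subtype.val hxy
      have hy : y = 0 := by
        by_contra hy
        apply hcon (-(y⁻¹ * x))
        have h3 : s = y⁻¹ • (y • s) := by rw [smul_smul, inv_mul_cancel₀ hy, one_smul]
        rw [h3, eq_neg_of_add_eq_zero_right h1, smul_neg, smul_smul, neg_smul]
      refine ⟨?_, hy⟩
      rw [hy, zero_smul, add_zero] at h1
      obtain ⟨i⟩ := (inferInstance : Nonempty ι)
      have := congrFun (congrFun h1 i) i
      simpa using this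
    have hsp := hli.span_eq_top_of_card_eq_finrank' (by rw [hK.finrank_eq]; simp)
    intro k hk
    have h1 : (⟨k, hk⟩ : K) ∈ Submodule.span F (Set.range ![(⟨1, K.one_mem⟩ : K), ⟨s, hsK⟩]) := by rw [hsp]; trivial
    rw [Matrix.range_cons, Matrix.range_cons, Matrix.range_empty, Set.union_empty, Set.singleton_union,
      Submodule.mem_span_pair] at h1
    obtain ⟨x, y, hxy⟩ := h1
    have h3 : x • (1 : Matrix ι ι F) + y • s = k := congrArg Subtype.val hxy
    have h4 : Adj f k k := by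
      have h5 := ((Adj.one (f := f)).smul hf x).add hf (hss.smul hf y)
      rw [RingEquiv.refl_apply, RingEquiv.refl_apply, h3] at h5
      exact h5
    exact h4
  have hex : ∃ k ∈ K, ¬ Adj f k k := by
    by_contra hcon
    push Not at hcon
    exact hs fun k hk => hcon k hk
  obtain ⟨k, hk, hkn⟩ := hex
  obtain ⟨k', hk', had⟩ := ha k hk
  have had : Adj f k k' := had
  have had' := had.symm hf
  obtain ⟨c, hc⟩ := hself (k + k') (K.add_mem hk hk') (by
    have := had.add hf had'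
    rwa [add_comm k' k] at this)
  have hc0 : c ≠ 0 := by
    rintro rfl
    rw [zero_smul] at hc
    have : k' = k := by
      have h1 := htwo k
      rw [← hc] at h1
      exact (add_left_cancel h1).symm
    rw [this] at had
    exact hkn had
  set θ := c⁻¹ • k with hθ
  set θ' := c⁻¹ • k' with hθ'
  have hθK : θ ∈ K := K.smul_mem hk _
  have hθK' : θ' ∈ K := K.smul_mem hk' _
  have hadθ : Adj f θ θ' := had.smul hf c⁻¹
  have hsum : θ + θ' = 1 := by
    rw [hθ, hθ', ← smul_add, hc, smul_smul, inv_mul_cancel₀ hc0, one_smul]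
  have hcomm := hK.comm θ hθK θ' hθK'
  obtain ⟨a, haθ⟩ := hself (θ * θ') (K.mul_mem hθK hθK') (by
    have := hadθ.mul (hadθ.symm hf)
    exact this)
  have hsq : θ * θ = θ - a • (1 : Matrix ι ι F) := by
    have h1 : θ' = 1 - θ := by rw [← hsum]; abel
    rw [h1, mul_sub, mul_one] at haθ
    rw [← haθ]; abel
  refine ⟨fun v => f (θ *ᵥ v) v, ⟨?_, ?_⟩, ?_⟩
  · intro c v
    change f (θ *ᵥ (c • v)) (c • v) = c ^ 2 * f (θ *ᵥ v) v
    rw [Matrix.mulVec_smul, hf.smul_left, hf.smul_right, RingEquiv.refl_apply]; ring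
  · intro u v
    change f (θ *ᵥ (u + v)) (u + v) = f (θ *ᵥ u) u + f (θ *ᵥ v) v + f u v
    rw [Matrix.mulVec_add, hf.add_left, hf.add_right, hf.add_right]
    have h1 : f (θ *ᵥ v) u = f (θ' *ᵥ u) v := by rw [hadθ, hsymm]
    have h3 : f (θ *ᵥ u) v + f (θ' *ᵥ u) v = f u v := by
      rw [← hf.add_left, ← Matrix.add_mulVec, hsum, Matrix.one_mulVec]
    rw [h1, ← h3]; ring
  · intro g hg v
    change f (θ *ᵥ ((g : Matrix ι ι F) *ᵥ v)) ((g : Matrix ι ι F) *ᵥ v) = f (θ *ᵥ v) v
    have hgi : ((g⁻¹ : GL ι F) : Matrix ι ι F) * (g : Matrix ι ι F) = 1 := by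
      rw [← Units.val_mul, inv_mul_cancel, Units.val_one]
    have hgi' : (g : Matrix ι ι F) * ((g⁻¹ : GL ι F) : Matrix ι ι F) = 1 := by
      rw [← Units.val_mul, mul_inv_cancel, Units.val_one]
    set θ₁ := ((g⁻¹ : GL ι F) : Matrix ι ι F) * θ * (g : Matrix ι ι F) with hθ₁
    have hθ₁K : θ₁ ∈ K := by
      rw [hn hg]
      have : (g : Matrix ι ι F) * θ₁ * ((g⁻¹ : GL ι F) : Matrix ι ι F) = θ := by
        rw [hθ₁]
        calc _ = ((g : Matrix ι ι F) * ((g⁻¹ : GL ι F) : Matrix ι ι F)) * θ * ((g : Matrix ι ι F) * ((g⁻¹ : GL ι F) : Matrix ι ι F)) := by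
              noncomm_ring
          _ = θ := by rw [hgi', one_mul, mul_one]
      rw [this]; exact hθK
    have hsq1 : θ₁ * θ₁ = θ₁ - a • (1 : Matrix ι ι F) := by
      calc θ₁ * θ₁ = ((g⁻¹ : GL ι F) : Matrix ι ι F) * θ * ((g : Matrix ι ι F) * ((g⁻¹ : GL ι F) : Matrix ι ι F)) * θ * (g : Matrix ι ι F) := by
            rw [hθ₁]; noncomm_ring
        _ = ((g⁻¹ : GL ι F) : Matrix ι ι F) * (θ * θ) * (g : Matrix ι ι F) := by rw [hgi', mul_one]; noncomm_ring
        _ = θ₁ - a • (((g⁻¹ : GL ι F) : Matrix ι ι F) * (g : Matrix ι ι F)) := by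
            rw [hsq, mul_sub, sub_mul]
            congr 1
            rw [mul_smul_comm, mul_one, smul_mul_assoc]
        _ = _ := by rw [hgi]
    have hc1 := hK.comm θ₁ hθ₁K θ' hθK'
    have hc2 := hK.comm θ₁ hθ₁K θ hθK
    have hprod : (θ₁ - θ) * (θ₁ - θ') = 0 := by
      calc (θ₁ - θ) * (θ₁ - θ') = θ₁ * θ₁ - (θ₁ * θ' + θ * θ₁) + θ * θ' := by noncomm_ring
        _ = θ₁ * θ₁ - θ₁ * (θ + θ') + θ * θ' := by rw [← hc2, mul_add]; abel
        _ = 0 := by rw [hsum, mul_one, hsq1, haθ]; abel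
    have hcase : θ₁ = θ ∨ θ₁ = θ' := by
      by_contra hcon
      push Not at hcon
      obtain ⟨z, hz, hz1⟩ := hK.inv _ (K.sub_mem hθ₁K hθK) (sub_ne_zero.2 hcon.1)
      have hzc := hK.comm _ (K.sub_mem hθ₁K hθK) z hz
      apply hcon.2
      have : θ₁ - θ' = 0 := by
        calc θ₁ - θ' = (z * (θ₁ - θ)) * (θ₁ - θ') := by rw [← hzc, hz1, one_mul]
          _ = 0 := by rw [mul_assoc, hprod, mul_zero]
      exact sub_eq_zero.1 this
    have h3 : θ *ᵥ ((g : Matrix ι ι F) *ᵥ v) = (g : Matrix ι ι F) *ᵥ (θ₁ *ᵥ v) := by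
      rw [Matrix.mulVec_mulVec, Matrix.mulVec_mulVec]
      congr 1
      calc θ * (g : Matrix ι ι F) = ((g : Matrix ι ι F) * ((g⁻¹ : GL ι F) : Matrix ι ι F)) * θ * (g : Matrix ι ι F) := by rw [hgi', one_mul]
        _ = (g : Matrix ι ι F) * θ₁ := by rw [hθ₁]; noncomm_ring
    rw [h3, hH g hg]
    rcases hcase with h | h
    · rw [h]
    · rw [h, (hadθ.symm hf), hsymm]

end gen

end CfsgLib.AschF
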