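import Mathlib
import Cfsg.Agent.LibAschF16

/-! bilinear tensor products: characteristic two; orthogonal planes -/
set_option autoImplicit false
set_option linter.unusedSectionVars false

namespace CfsgLib.AschF

open Module Cfsg Cfsg.Geo CfsgLib.Asch1 CfsgLib.Asch2 CfsgLib.Asch3 CfsgLib.Asch4 CfsgLib.Asch5 CfsgLib.Asch6 CfsgLib.Asch7
  CfsgLib.Asch8 CfsgLib.Asch9
  CfsgLib.Asch10 CfsgLib.Asch11 CfsgLib.Asch12 CfsgLib.Asch13 CfsgLib.Asch14 CfsgLib.Asch15 CfsgLib.Asch16 CfsgLib.Asch17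
  CfsgLib.Asch18 CfsgLib.Asch19
open scoped Matrix MatrixGroups Kronecker

variable {ι : Type} [Fintype ι] [DecidableEq ι] {F : Type*} [Field F]
variable {ε : F} {f : (ι → F) → (ι → F) → F}

theorem fd_symm_two (hf : FD (RingEquiv.refl F) ε f) (h2 : (2 : F) = 0) (u v : ι → F) : f v u = f u v := by
  have h1 := hf.herm v u
  rw [RingEquiv.refl_apply] at h1
  rcases hf.eps with h | h
  · rw [h1, h, one_mul]
  · rw [h1, h]
    linear_combination -(f u v) * h2

theorem sq_exists [Finite F] (h2 : (2 : F) = 0) (a : F) : ∃ c : F, c ^ 2 = a := by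
  have hinj : Function.Injective (fun x : F => x ^ 2) := by
    intro x y hxy
    have hxy : x ^ 2 = y ^ 2 := hxy
    have h3 : (x - y) ^ 2 = 0 := by linear_combination hxy - x * y * h2 + y ^ 2 * h2
    exact sub_eq_zero.1 (pow_eq_zero_iff (two_ne_zero) |>.1 h3)
  exact (Finite.injective_iff_surjective.1 hinj) a

section ten
variable {n₁ n₂ : ℕ} (b : Basis (Fin n₁ × Fin n₂) F (ι → F))

theorem ten_ne_zero {u : Fin n₁ → F} {v : Fin n₂ → F} (hu : u ≠ 0) (hv : v ≠ 0) : ten b u v ≠ 0 := by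
  intro h
  obtain ⟨i, hi⟩ := Function.ne_iff.1 hu
  obtain ⟨l, hl⟩ := Function.ne_iff.1 hv
  have h1 := ten_repr b u v i l
  rw [h, map_zero] at h1
  exact mul_ne_zero hi hl h1.symm

/-- the second form is alternating -/
theorem tp_even_aux [Finite F] (hf : FD (RingEquiv.refl F) ε f) (h2 : (2 : F) = 0)
    {H : Subgroup (GL ι F)} (hH : Iso f H) (hirr : ActsIrreducibly (matrixSet H))
    {ε₁ ε₂ : F} {f₁ : (Fin n₁ → F) → (Fin n₁ → F) → F} {f₂ : (Fin n₂ → F) → (Fin n₂ → F) → F} (hn₁ : 2 ≤ n₁) (hn₂ : 2 ≤ n₂)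
    (hf₁ : FD (RingEquiv.refl F) ε₁ f₁) (hf₂ : FD (RingEquiv.refl F) ε₂ f₂)
    (hform : ∀ i l j l', f (b (i, l)) (b (j, l')) = gramMatrix f₁ i j * gramMatrix f₂ l l')
    (hkr : ∀ h ∈ H, ∃ (A : (Matrix (Fin n₁) (Fin n₁) F)ˣ) (N : (Matrix (Fin n₂) (Fin n₂) F)ˣ),
      KA b (h : Matrix ι ι F) A.1 N.1) (v : Fin n₂ → F) : f₂ v v = 0 := by
  classical
  by_contra hv
  have hq_add : ∀ v w, f₂ (v + w) (v + w) = f₂ v v + f₂ w w := by
    intro v w
    rw [hf₂.add_left, hf₂.add_right, hf₂.add_right, fd_symm_two hf₂ h2 v w]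
    linear_combination (f₂ v w) * h2
  have hq_sm : ∀ (c : F) v, f₂ (c • v) (c • v) = c ^ 2 * f₂ v v := by
    intro c v
    rw [hf₂.smul_left, hf₂.smul_right, RingEquiv.refl_apply]; ring
  -- a basis vector with non-zero value
  obtain ⟨l, hl⟩ : ∃ l : Fin n₂, f₂ (Pi.single l 1) (Pi.single l 1) ≠ 0 := by
    by_contra hcon
    push Not at hcon
    apply hv
    exact semi_zero (Pi.basisFun F (Fin n₂)) (fun v => f₂ v v) hq_add hq_sm (by
      intro k
      rw [Pi.basisFun_apply]; exact hcon k) v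
  obtain ⟨l', hl'⟩ : ∃ l' : Fin n₂, l' ≠ l := by
    have : Nontrivial (Fin n₂) := Fin.nontrivial_iff_two_le.2 hn₂
    exact exists_ne l
  obtain ⟨c, hc⟩ := sq_exists h2 (f₂ (Pi.single l' 1) (Pi.single l' 1) * (f₂ (Pi.single l 1) (Pi.single l 1))⁻¹)
  set w : Fin n₂ → F := Pi.single l' 1 + c • Pi.single l 1 with hw
  have hw0 : w ≠ 0 := by
    intro h
    have := congrFun h l'
    rw [hw, Pi.add_apply, Pi.single_eq_same, Pi.smul_apply, Pi.single_eq_of_ne hl', smul_zero, add_zero] at this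
    exact one_ne_zero this
  have hwq : f₂ w w = 0 := by
    rw [hw, hq_add, hq_sm, hc, mul_assoc, inv_mul_cancel₀ hl, mul_one]
    linear_combination (f₂ (Pi.single l' 1) (Pi.single l' 1)) * h2
  let S : Set (ι → F) := {x | ∃ (u : Fin n₁ → F) (v : Fin n₂ → F), f₂ v v = 0 ∧ x = ten b u v}
  rcases hirr (Submodule.span F S) (by
    rintro _ ⟨h, hh, rfl⟩
    rw [Submodule.map_span, Submodule.span_le]
    rintro _ ⟨_, ⟨u, v, hv, rfl⟩, rfl⟩
    rw [Matrix.toLin'_apply]
    obtain ⟨A, N, hk⟩ := hkr h hh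
    obtain ⟨d, hd, hsim⟩ := ten_sim b hf hf₁ hf₂ (by omega) hform (hH h hh) hk (by omega)
    apply Submodule.subset_span
    refine ⟨A.1 *ᵥ u, N.1 *ᵥ v, ?_, ten_act b hk u v⟩
    rw [hsim, hv, mul_zero]) with h | h
  · have hmem : ten b (Pi.single (⟨0, by omega⟩ : Fin n₁) 1) w ∈ Submodule.span F S :=
      Submodule.subset_span ⟨_, w, hwq, rfl⟩
    rw [h] at hmem
    exact ten_ne_zero b (by simp) hw0 ((Submodule.mem_bot F).1 hmem)
  · let i₀ : Fin n₁ := ⟨0, by omega⟩
    let D : (ι → F) → F := fun x => ∑ l, (b.repr x (i₀, l)) ^ 2 * f₂ (Pi.single l 1) (Pi.single l 1)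
    have hsq : ∀ x y : F, (x + y) ^ 2 = x ^ 2 + y ^ 2 := by
      intro x y; linear_combination x * y * h2
    have hDadd : ∀ x y, D (x + y) = D x + D y := by
      intro x y
      simp only [D, map_add, Finsupp.add_apply, hsq, add_mul, Finset.sum_add_distrib]
    have hDsm : ∀ (c : F) x, D (c • x) = c ^ 2 * D x := by
      intro c x
      simp only [D, map_smul, Finsupp.smul_apply, smul_eq_mul, Finset.mul_sum, mul_pow, mul_assoc]
    have hDten : ∀ u v, D (ten b u v) = (u i₀) ^ 2 * f₂ v v := by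
      intro u v
      have h3 : f₂ v v = ∑ l, (v l) ^ 2 * f₂ (Pi.single l 1) (Pi.single l 1) := by
        have h4 := semi_zero (Pi.basisFun F (Fin n₂)) (fun v => f₂ v v - ∑ l, (v l) ^ 2 * f₂ (Pi.single l 1) (Pi.single l 1)) (by
          intro x y
          simp only [hq_add, Pi.add_apply, hsq, add_mul, Finset.sum_add_distrib]; ring) (by
          intro c x
          simp only [hq_sm, Pi.smul_apply, smul_eq_mul, mul_pow, mul_assoc, ← Finset.mul_sum]; ring) (by
          intro k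
          rw [Pi.basisFun_apply, Finset.sum_eq_single k]
          · simp
          · intro j _ hj
            simp [Pi.single_apply, hj]
          · simp) v
        exact sub_eq_zero.1 h4
      rw [h3, Finset.mul_sum]
      simp only [D]
      refine Finset.sum_congr rfl fun l _ => ?_
      rw [ten_repr]; ring
    have hD0 : ∀ x ∈ Submodule.span F S, D x = 0 := by
      intro x hx
      induction hx using Submodule.span_induction with
      | mem x hx =>
        obtain ⟨u, v, hv, rfl⟩ := hx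
        rw [hDten, hv, mul_zero]
      | zero =>
        have := hDsm 0 0
        simpa using this
      | add x y _ _ ihx ihy => rw [hDadd, ihx, ihy, add_zero]
      | smul a x _ ihx => rw [hDsm, ihx, mul_zero]
    have h3 := hD0 (ten b (Pi.single i₀ 1) (Pi.single l 1)) (by rw [h]; trivial)
    rw [hDten, Pi.single_eq_same, one_pow, one_mul] at h3
    exact hl h3

theorem tp_even [Finite F] (hf : FD (RingEquiv.refl F) ε f) (halt : ∀ v, f v v = 0) (h2 : (2 : F) = 0)
    {H : Subgroup (GL ι F)} (hH : Iso f H) (hirr : ActsIrreducibly (matrixSet H))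
    {ε₁ ε₂ : F} {f₁ : (Fin n₁ → F) → (Fin n₁ → F) → F} {f₂ : (Fin n₂ → F) → (Fin n₂ → F) → F} (hn₁ : 2 ≤ n₁) (hn₂ : 2 ≤ n₂)
    (hf₁ : FD (RingEquiv.refl F) ε₁ f₁) (hf₂ : FD (RingEquiv.refl F) ε₂ f₂)
    (hform : ∀ i l j l', f (b (i, l)) (b (j, l')) = gramMatrix f₁ i j * gramMatrix f₂ l l')
    (hkr : ∀ h ∈ H, ∃ (A : (Matrix (Fin n₁) (Fin n₁) F)ˣ) (N : (Matrix (Fin n₂) (Fin n₂) F)ˣ),
      KA b (h : Matrix ι ι F) A.1 N.1) :
    ∃ Q, QF f Q ∧ ∀ g ∈ H, ∀ v, Q ((g : Matrix ι ι F) *ᵥ v) = Q v := by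
  classical
  have ha2 := tp_even_aux b hf h2 hH hirr hn₁ hn₂ hf₁ hf₂ hform hkr
  have ha1 := tp_even_aux (b.reindex (Equiv.prodComm (Fin n₁) (Fin n₂))) hf h2 hH hirr hn₂ hn₁ hf₂ hf₁
    (form_swap b hform) (fun h hh => by
      obtain ⟨A, N, hk⟩ := hkr h hh
      exact ⟨N, A, KA_swap b hk⟩)
  obtain ⟨Q, hQ, hQb⟩ := exists_QF hf halt h2 b
  have hQ1 : ∀ u l, Q (ten b u (Pi.single l 1)) = 0 := by
    intro u l
    refine semi_zero (Pi.basisFun F (Fin n₁)) (fun u => Q (ten b u (Pi.single l 1))) ?_ ?_ ?_ u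
    · intro u u'
      change Q (ten b (u + u') (Pi.single l 1)) = Q (ten b u (Pi.single l 1)) + Q (ten b u' (Pi.single l 1))
      rw [ten_add_left, hQ.add, ten_form b hf hf₁ hf₂ hform, ha2]; ring
    · intro c u
      change Q (ten b (c • u) (Pi.single l 1)) = c ^ 2 * Q (ten b u (Pi.single l 1))
      rw [ten_smul_left, hQ.smul]
    · intro k
      change Q (ten b (Pi.basisFun F (Fin n₁) k) (Pi.single l 1)) = 0
      rw [Pi.basisFun_apply, ten_single]; exact hQb _
  have hQ2 : ∀ u v, Q (ten b u v) = 0 := by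
    intro u v
    refine semi_zero (Pi.basisFun F (Fin n₂)) (fun v => Q (ten b u v)) ?_ ?_ ?_ v
    · intro v v'
      change Q (ten b u (v + v')) = Q (ten b u v) + Q (ten b u v')
      rw [ten_add_right, hQ.add, ten_form b hf hf₁ hf₂ hform, ha1]; ring
    · intro c v
      change Q (ten b u (c • v)) = c ^ 2 * Q (ten b u v)
      rw [ten_smul_right, hQ.smul]
    · intro k
      change Q (ten b u (Pi.basisFun F (Fin n₂) k)) = 0
      rw [Pi.basisFun_apply]; exact hQ1 u k
  refine ⟨Q, hQ, fun g hg => hQ.preserve b g (hH g hg) ?_⟩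
  rintro ⟨i, l⟩
  obtain ⟨A, N, hk⟩ := hkr g hg
  rw [hQb, ← ten_single b i l, ten_act b hk, hQ2]

end ten

/-! an orthogonal plane as second factor -/

theorem skew_unique {f₂ : (Fin 2 → F) → (Fin 2 → F) → F} (hf₂ : FD (RingEquiv.refl F) 1 f₂) (h2 : (2 : F) ≠ 0) :
    ∃ δ : Matrix (Fin 2) (Fin 2) F, Adj f₂ δ (-δ) ∧ (∃ d : F, δ * δ = d • (1 : Matrix (Fin 2) (Fin 2) F)) ∧
      (∀ c : F, δ ≠ c • (1 : Matrix (Fin 2) (Fin 2) F)) ∧
      ∀ X : Matrix (Fin 2) (Fin 2) F, Adj f₂ X (-X) → ∃ c : F, X = c • δ := by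
  classical
  set G := gramMatrix f₂ with hG
  have hsym : ∀ i j, G i j = G j i := by
    intro i j
    have := hf₂.herm (Pi.single i 1) (Pi.single j 1)
    rw [one_mul, RingEquiv.refl_apply] at this
    exact this
  set a := G 0 0 with ha
  set p := G 0 1 with hp
  set c := G 1 1 with hc
  have hp' : G 1 0 = p := hsym 1 0
  have hval : ∀ u v : Fin 2 → F, f₂ u v = a * u 0 * v 0 + p * (u 0 * v 1 + u 1 * v 0) + c * u 1 * v 1 := by
    intro u v
    have h1 : ∀ w : Fin 2 → F, w = w 0 • (Pi.single 0 1 : Fin 2 → F) + w 1 • (Pi.single 1 1 : Fin 2 → F) := by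
      intro w; ext j; fin_cases j <;> simp
    have e00 : f₂ (Pi.single 0 1) (Pi.single 0 1) = a := rfl
    have e01 : f₂ (Pi.single 0 1) (Pi.single 1 1) = p := rfl
    have e10 : f₂ (Pi.single 1 1) (Pi.single 0 1) = p := hp'
    have e11 : f₂ (Pi.single 1 1) (Pi.single 1 1) = c := rfl
    conv_lhs => rw [h1 u, h1 v]
    simp only [hf₂.add_left, hf₂.add_right, hf₂.smul_left, hf₂.smul_right, e00, e01, e10, e11, RingEquiv.refl_apply]
    ring
  have hdet : a * c - p * p ≠ 0 := by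
    intro h0
    -- a degenerate vector
    by_cases h00 : c = 0 ∧ p = 0
    · obtain ⟨h3, h4⟩ := h00
      obtain ⟨⟨x, hx⟩, _⟩ := hf₂.nd (Pi.single 1 1) (by simp)
      apply hx
      rw [hval, h3, h4]; simp
    · have hw : (![c, -p] : Fin 2 → F) ≠ 0 := by
        intro h
        apply h00
        have e0 := congrFun h 0
        have e1 := congrFun h 1
        simp at e0 e1
        exact ⟨e0, e1⟩
      obtain ⟨⟨x, hx⟩, _⟩ := hf₂.nd _ hw
      apply hx
      rw [hval]
      simp only [Matrix.cons_val_zero, Matrix.cons_val_one, Matrix.cons_val_fin_one]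
      linear_combination (x 0) * h0
  let δ : Matrix (Fin 2) (Fin 2) F := !![-p, -c; a, p]
  have hmv : ∀ (X : Matrix (Fin 2) (Fin 2) F) (u : Fin 2 → F), (X *ᵥ u) 0 = X 0 0 * u 0 + X 0 1 * u 1 ∧
      (X *ᵥ u) 1 = X 1 0 * u 0 + X 1 1 * u 1 := by
    intro X u
    simp [Matrix.mulVec, dotProduct, Fin.sum_univ_two]
  refine ⟨δ, ?_, ⟨p * p - a * c, ?_⟩, ?_, ?_⟩
  · intro u v
    rw [hval, hval, (hmv δ u).1, (hmv δ u).2, (hmv (-δ) v).1, (hmv (-δ) v).2]
    simp [δ]
    ring
  · ext i j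
    fin_cases i <;> fin_cases j <;> simp [δ, Matrix.mul_apply, Fin.sum_univ_two] <;> ring
  · intro e he
    have h00 := congrFun (congrFun he 0) 0
    have h01 := congrFun (congrFun he 0) 1
    have h10 := congrFun (congrFun he 1) 0
    have h11 := congrFun (congrFun he 1) 1
    simp [δ] at h00 h01 h10 h11
    apply hdet
    have hp0 : p = 0 := by
      have : (2 : F) * p = 0 := by linear_combination h11 - h00
      exact (mul_eq_zero.1 this).resolve_left h2
    rw [h10, hp0]; ring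
  · intro X hX
    -- skew adjoint matrices
    have key : ∀ u v, f₂ (X *ᵥ u) v = f₂ u ((-X) *ᵥ v) := hX
    set x := X 0 0
    set y := X 0 1
    set z := X 1 0
    set w := X 1 1
    have hk : ∀ u v : Fin 2 → F, a * (x * u 0 + y * u 1) * v 0 + p * ((x * u 0 + y * u 1) * v 1 + (z * u 0 + w * u 1) * v 0) +
        c * (z * u 0 + w * u 1) * v 1 =
        a * u 0 * (-(x * v 0 + y * v 1)) + p * (u 0 * (-(z * v 0 + w * v 1)) + u 1 * (-(x * v 0 + y * v 1))) + c * u 1 * (-(z * v 0 + w * v 1)) := by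
      intro u v
      have := key u v
      rw [hval, hval, (hmv X u).1, (hmv X u).2, Matrix.neg_mulVec, Pi.neg_apply, Pi.neg_apply, (hmv X v).1, (hmv X v).2] at this
      exact this
    have k00 := hk ![1, 0] ![1, 0]
    have k01 := hk ![1, 0] ![0, 1]
    have k11 := hk ![0, 1] ![0, 1]
    simp at k00 k01 k11
    -- a x + p z = 0 ; p y + c w = 0 ; a y + p w + p x + c z = 0
    have e1 : a * x + p * z = 0 := by
      have : (2 : F) * (a * x + p * z) = 0 := by linear_combination k00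
      exact (mul_eq_zero.1 this).resolve_left h2
    have e2 : p * y + c * w = 0 := by
      have : (2 : F) * (p * y + c * w) = 0 := by linear_combination k11
      exact (mul_eq_zero.1 this).resolve_left h2
    have e3 : a * y + p * w + p * x + c * z = 0 := by linear_combination k01
    -- trace zero: (x + w) * det = 0
    have e4 : (a * c - p * p) * (x + w) = 0 := by
      linear_combination c * e1 + a * e2 - p * e3
    have e5 : x + w = 0 := (mul_eq_zero.1 e4).resolve_left hdet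
    have e6 : a * y + c * z = 0 := by linear_combination e3 - p * e5
    -- X = t δ with  x = -t p, y = -t c, z = t a, w = t p
    by_cases ha0 : a = 0
    · by_cases hc0 : c = 0
      · have hp0 : p ≠ 0 := by
          intro h; apply hdet; rw [ha0, h]; ring
        have hz : z = 0 := by
          have : p * z = 0 := by linear_combination e1 - x * ha0
          exact (mul_eq_zero.1 this).resolve_left hp0
        have hy : y = 0 := by
          have : p * y = 0 := by linear_combination e2 - w * hc0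
          exact (mul_eq_zero.1 this).resolve_left hp0
        refine ⟨w * p⁻¹, ?_⟩
        ext i j
        fin_cases i <;> fin_cases j
        · change x = w * p⁻¹ * (-p)
          field_simp; linear_combination e5
        · change y = w * p⁻¹ * (-c)
          rw [hy, hc0]; ring
        · change z = w * p⁻¹ * a
          rw [hz, ha0]; ring
        · change w = w * p⁻¹ * p
          field_simp
      · refine ⟨-(y * c⁻¹), ?_⟩
        have hz : z = 0 := by
          have : c * z = 0 := by linear_combination e6 - y * ha0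
          exact (mul_eq_zero.1 this).resolve_left hc0
        ext i j
        fin_cases i <;> fin_cases j
        · change x = -(y * c⁻¹) * (-p)
          field_simp; linear_combination c * e5 - e2
        · change y = -(y * c⁻¹) * (-c)
          field_simp
        · change z = -(y * c⁻¹) * a
          rw [hz, ha0]; ring
        · change w = -(y * c⁻¹) * p
          field_simp; linear_combination e2
    · refine ⟨z * a⁻¹, ?_⟩
      ext i j
      fin_cases i <;> fin_cases j
      · change x = z * a⁻¹ * (-p)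
        field_simp; linear_combination e1
      · change y = z * a⁻¹ * (-c)
        field_simp; linear_combination e6
      · change z = z * a⁻¹ * a
        field_simp
      · change w = z * a⁻¹ * p
        field_simp; linear_combination a * e5 - e1

theorem tp_two [Fintype F] [Nonempty ι] {n₁ : ℕ} (b : Basis (Fin n₁ × Fin 2) F (ι → F)) (hf : FD (RingEquiv.refl F) ε f)
    (h2 : (2 : F) ≠ 0)
    {H : Subgroup (GL ι F)} (hH : Iso f H) (hirr : ActsIrreducibly (matrixSet H))
    {ε₁ : F} {f₁ : (Fin n₁ → F) → (Fin n₁ → F) → F} {f₂ : (Fin 2 → F) → (Fin 2 → F) → F} (hn₁ : 1 ≤ n₁)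
    (hf₁ : FD (RingEquiv.refl F) ε₁ f₁) (hf₂ : FD (RingEquiv.refl F) 1 f₂)
    (hform : ∀ i l j l', f (b (i, l)) (b (j, l')) = gramMatrix f₁ i j * gramMatrix f₂ l l')
    (hkr : ∀ h ∈ H, ∃ (A : (Matrix (Fin n₁) (Fin n₁) F)ˣ) (N : (Matrix (Fin 2) (Fin 2) F)ˣ),
      KA b (h : Matrix ι ι F) A.1 N.1) :
    (∃ (t k : ℕ) (D : Fin t → Submodule F (ι → F)), IsNondegenerateMDecomposition f k D ∧
      H ≤ decompositionStabilizer D) ∨
    (∃ (k : ℕ) (D : Fin 2 → Submodule F (ι → F)), IsMDecomposition k D ∧ (∀ i, IsTotallySingularFor f (D i)) ∧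
      H ≤ decompositionStabilizer D) ∨
    (∃ (r : ℕ) (K : Subalgebra F (Matrix ι ι F)), r.Prime ∧ IsFieldSubalgebra r K ∧ H ≤ subalgebraNormalizer K ∧
      IsAdjointClosedFor f K ∧ (IsSelfAdjointFor f K ∨ (r = 2 ∧ ¬ IsSelfAdjointFor f K))) := by
  classical
  obtain ⟨δ, hδ, ⟨d, hd⟩, hδn, hδu⟩ := skew_unique hf₂ h2
  let A : Subalgebra F (Matrix ι ι F) :=
    { carrier := {M | ∃ x y : F, M = x • (1 : Matrix ι ι F) + y • psi b δ}
      mul_mem' := by
        rintro _ _ ⟨x, y, rfl⟩ ⟨x', y', rfl⟩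
        refine ⟨x * x' + y * y' * d, x * y' + y * x', ?_⟩
        have h1 : psi b δ * psi b δ = d • (1 : Matrix ι ι F) := by
          rw [psi_mul, hd, psi_smul, psi_one]
        simp only [add_mul, mul_add, Matrix.smul_mul, Matrix.mul_smul, one_mul, mul_one, h1, smul_smul, add_smul]
        rw [mul_comm x' x, mul_comm y' x, mul_comm x' y, show y' * (y * d) = y * y' * d by ring]
        abel
      add_mem' := by
        rintro _ _ ⟨x, y, rfl⟩ ⟨x', y', rfl⟩
        refine ⟨x + x', y + y', ?_⟩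
        rw [add_smul, add_smul]; abel
      algebraMap_mem' := fun c => ⟨c, 0, by rw [zero_smul, add_zero, Algebra.algebraMap_eq_smul_one]⟩ }
  have hAm : ∀ M, M ∈ A ↔ ∃ x y : F, M = x • (1 : Matrix ι ι F) + y • psi b δ := fun M => Iff.rfl
  have hpsi : ∀ h ∈ H, ∃ c : F, (h : Matrix ι ι F) * psi b δ * ((h⁻¹ : GL ι F) : Matrix ι ι F) = c • psi b δ := by
    intro h hh
    obtain ⟨X, N, hk⟩ := hkr h hh
    have hk' : KA b ((h⁻¹ : GL ι F) : Matrix ι ι F) (X⁻¹).1 (N⁻¹).1 := by
      intro j l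
      have h1 : b (j, l) = (h : Matrix ι ι F) *ᵥ ten b ((X⁻¹).1 *ᵥ Pi.single j 1) ((N⁻¹).1 *ᵥ Pi.single l 1) := by
        rw [ten_act b hk, Matrix.mulVec_mulVec, Matrix.mulVec_mulVec, ← Units.val_mul, ← Units.val_mul, mul_inv_cancel,
          mul_inv_cancel, Units.val_one, Units.val_one, Matrix.one_mulVec, Matrix.one_mulVec, ten_single]
      rw [h1, Matrix.mulVec_mulVec, ← Units.val_mul, inv_mul_cancel, Units.val_one, Matrix.one_mulVec, ten]
      simp only [Matrix.mulVec_single_one, Matrix.col_apply]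
    rw [psi_conj b hk hk' (by rw [← Units.val_mul, mul_inv_cancel, Units.val_one])]
    obtain ⟨c, hc0, hsim⟩ := ten_sim b hf hf₁ hf₂ hn₁ hform (hH h hh) hk (by norm_num)
    obtain ⟨c', hc'⟩ := hδu (N.1 * δ * (N⁻¹).1) (by
      intro u v
      have hNN : N.1 * (N⁻¹).1 = 1 := by rw [← Units.val_mul, mul_inv_cancel, Units.val_one]
      have h1 : ∀ w, N.1 *ᵥ ((N⁻¹).1 *ᵥ w) = w := by
        intro w; rw [Matrix.mulVec_mulVec, hNN, Matrix.one_mulVec]
      have h3 : f₂ ((N.1 * δ * (N⁻¹).1) *ᵥ u) v = c * f₂ (δ *ᵥ ((N⁻¹).1 *ᵥ u)) ((N⁻¹).1 *ᵥ v) := by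
        rw [← hsim, h1, Matrix.mulVec_mulVec, Matrix.mulVec_mulVec, mul_assoc]
      have h4 : f₂ u ((-(N.1 * δ * (N⁻¹).1)) *ᵥ v) = c * f₂ ((N⁻¹).1 *ᵥ u) ((-δ) *ᵥ ((N⁻¹).1 *ᵥ v)) := by
        rw [← hsim, h1, Matrix.mulVec_mulVec, Matrix.mulVec_mulVec]
        congr 2
        simp only [mul_assoc, mul_neg, neg_mul]
      rw [h3, h4, hδ])
    exact ⟨c', by rw [hc', psi_smul]⟩
  have hnorm : ∀ h ∈ H, ∀ a ∈ A, (h : Matrix ι ι F) * a * ((h⁻¹ : GL ι F) : Matrix ι ι F) ∈ A := by
    rintro h hh _ ⟨x, y, rfl⟩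
    obtain ⟨c, hc⟩ := hpsi h hh
    refine ⟨x, y * c, ?_⟩
    rw [mul_add, add_mul, Matrix.mul_smul, Matrix.smul_mul, mul_one, ← Units.val_mul, mul_inv_cancel, Units.val_one,
      Matrix.mul_smul, Matrix.smul_mul, hc, smul_smul]
  have hn : NormAlg (H : Set (GL ι F)) A := by
    intro h hh
    refine ⟨fun a ha => hnorm h hh a ha, fun a ha => ?_⟩
    have := hnorm h⁻¹ (H.inv_mem hh) a ha
    rwa [inv_inv] at this
  have hadj : IsAdjointClosedFor f A := by
    rintro _ ⟨x, y, rfl⟩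
    refine ⟨x • 1 + y • psi b (-δ), ⟨x, -y, ?_⟩, ?_⟩
    · have : psi b (-δ) = - psi b δ := by
        have h1 : (-δ) = (-1 : F) • δ := by rw [neg_one_smul]
        rw [h1, psi_smul, neg_one_smul]
      rw [this, smul_neg, neg_smul]
    · have h1 := ((Adj.one (f := f)).smul hf x).add hf ((psi_adj b hf hf₁ hf₂ hform hδ).smul hf y)
      exact h1
  have hcomm : ∀ x ∈ A, ∀ y ∈ A, x * y = y * x := by
    rintro _ ⟨x, y, rfl⟩ _ ⟨x', y', rfl⟩
    simp only [add_mul, mul_add, Matrix.smul_mul, Matrix.mul_smul, one_mul, mul_one, smul_smul]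
    rw [mul_comm x' x, mul_comm y' x, mul_comm x' y, mul_comm y' y]
    abel
  have hbot : A ≠ ⊥ := by
    intro h
    have h1 : psi b δ ∈ A := ⟨0, 1, by rw [zero_smul, zero_add, one_smul]⟩
    rw [h] at h1
    obtain ⟨c, hc⟩ := scalar_of_bot h1
    apply hδn c
    -- compare on a basis vector
    ext l' l
    have h3 := congrArg (fun M => M *ᵥ b ((⟨0, hn₁⟩ : Fin n₁), l)) hc
    simp only [psi_basis, Matrix.smul_mulVec, Matrix.one_mulVec] at h3
    have h4 := congrArg (fun v => b.repr v ((⟨0, hn₁⟩ : Fin n₁), l')) h3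
    simp only [map_sum, map_smul, Basis.repr_self, Finsupp.smul_single, smul_eq_mul, mul_one] at h4
    rw [Finsupp.coe_finsetSum, Finset.sum_apply, Finset.sum_eq_single l'] at h4
    · simp only [Finsupp.single_apply, if_true] at h4
      rw [Matrix.smul_apply, Matrix.one_apply, smul_eq_mul]
      rw [h4]
      by_cases hll : l = l'
      · subst hll; simp
      · have : ¬ l' = l := fun h => hll h.symm
        simp [hll, this]
    · intro m _ hm
      rw [Finsupp.single_apply, if_neg]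
      intro h5
      exact hm (Prod.ext_iff.1 h5).2
    · simp
  rcases stage1_comm hf hH hirr A hn hadj hcomm hbot with h | h | ⟨r, K, hr, hK, h1, h3, h4⟩
  · exact Or.inl h
  · exact Or.inr (Or.inl h)
  · refine Or.inr (Or.inr ⟨r, K, hr, hK, h1, h3, ?_⟩)
    rcases h4 with ⟨_, h4⟩ | ⟨h4, _⟩
    · exact h4
    · exact absurd rfl h4

end CfsgLib.AschF
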