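import Mathlib
import Cfsg.Agent.LibAschF17

/-! extraspecial 2-groups of isometries of a symplectic form: minus type -/
set_option autoImplicit false
set_option linter.unusedSectionVars false

namespace CfsgLib.AschF

open Module Cfsg Cfsg.Geo CfsgLib.Asch1 CfsgLib.Asch2 CfsgLib.Asch3 CfsgLib.Asch4 CfsgLib.Asch5 CfsgLib.Asch6 CfsgLib.Asch7
  CfsgLib.Asch8 CfsgLib.Asch9
  CfsgLib.Asch10 CfsgLib.Asch11 CfsgLib.Asch12 CfsgLib.Asch13 CfsgLib.Asch14 CfsgLib.Asch15 CfsgLib.Asch16 CfsgLib.Asch17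
  CfsgLib.Asch18 CfsgLib.Asch19
open scoped Matrix MatrixGroups Kronecker

variable {ι : Type} [Fintype ι] [DecidableEq ι] {F : Type*} [Field F]
variable {ε : F} {f : (ι → F) → (ι → F) → F}

theorem li_of [Nonempty ι] {N : Subgroup (GL ι F)} (hN : alg N = ⊤) (hc : ⁅N, N⁆ ≤ scalars ι F) {κ : Type*} [Fintype κ]
    (x : κ → GL ι F) (hx : ∀ i, x i ∈ N) (hne : ∀ i j, i ≠ j → (x i)⁻¹ * x j ∉ scalars ι F) :
    LinearIndependent F (fun i => (x i : Matrix ι ι F)) := by
  classical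
  rw [Fintype.linearIndependent_iff]
  intro g hg j
  have h1 : ∑ q, g q • Matrix.trace ((((x j)⁻¹ : GL ι F) : Matrix ι ι F) * (x q : Matrix ι ι F)) = 0 := by
    have := congrArg (fun M : Matrix ι ι F => Matrix.trace ((((x j)⁻¹ : GL ι F) : Matrix ι ι F) * M)) hg
    simp only [mul_zero, Matrix.trace_zero, Matrix.mul_sum, Matrix.trace_sum, Matrix.mul_smul, Matrix.trace_smul] at this
    exact this
  rw [Finset.sum_eq_single j] at h1
  · rw [← Units.val_mul, inv_mul_cancel, Units.val_one, Matrix.trace_one, smul_eq_mul] at h1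
    rcases mul_eq_zero.1 h1 with h3 | h3
    · exact h3
    · exact absurd h3 (card_ne_zero hN hc)
  · intro q _ hq
    rw [← Units.val_mul, trace_zero hN hc (N.mul_mem (N.inv_mem (hx j)) (hx q)) (hne j q (Ne.symm hq)), smul_zero]
  · intro h; exact absurd (Finset.mem_univ _) h

/-- scalar isometries of a bilinear form are `±1` -/
theorem scalar_pm [Nonempty ι] (hf : FD (RingEquiv.refl F) ε f) {x : GL ι F}
    (hx : ∀ u v, f ((x : Matrix ι ι F) *ᵥ u) ((x : Matrix ι ι F) *ᵥ v) = f u v) {c : F}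
    (hc : (x : Matrix ι ι F) = c • (1 : Matrix ι ι F)) : c = 1 ∨ c = -1 := by
  obtain ⟨w, hw⟩ := exists_ne (0 : ι → F)
  obtain ⟨⟨v, hv⟩, _⟩ := hf.nd w hw
  have h1 := hx v w
  rw [hc, Matrix.smul_mulVec, Matrix.smul_mulVec, Matrix.one_mulVec, Matrix.one_mulVec, hf.smul_left, hf.smul_right,
    RingEquiv.refl_apply] at h1
  have h2 : (c * c - 1) * f v w = 0 := by linear_combination h1
  have h3 := (mul_eq_zero.1 h2).resolve_right hv
  exact mul_self_eq_one_iff.1 (sub_eq_zero.1 h3)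

theorem common_eigen [Finite F] [Nonempty ι] {A : Subgroup (GL ι F)} (hcomm : ∀ x ∈ A, ∀ y ∈ A, x * y = y * x)
    (hinv : ∀ x ∈ A, x * x = 1) : ∃ v : ι → F, v ≠ 0 ∧ ∀ a ∈ A, ∃ c : F, (c = 1 ∨ c = -1) ∧ (a : Matrix ι ι F) *ᵥ v = c • v := by
  classical
  obtain ⟨W, ⟨⟨hWi, hWb⟩, hmin⟩⟩ : ∃ W : Submodule F (ι → F), Minimal (fun W : Submodule F (ι → F) =>
      (∀ g ∈ A, ∀ v ∈ W, (g : Matrix ι ι F) *ᵥ v ∈ W) ∧ W ≠ ⊥) W := by
    exact exists_minimal_of_wellFoundedLT _ ⟨⊤, fun _ _ _ _ => trivial, top_ne_bot⟩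
  obtain ⟨v, hv, hv0⟩ := Submodule.exists_mem_ne_zero_of_ne_bot hWb
  refine ⟨v, hv0, fun a ha => ?_⟩
  have haa : (a : Matrix ι ι F) * (a : Matrix ι ι F) = 1 := by
    rw [← Units.val_mul, hinv a ha, Units.val_one]
  -- the +1 eigenspace in W
  let E : Submodule F (ι → F) := { carrier := {x | x ∈ W ∧ (a : Matrix ι ι F) *ᵥ x = x}
                                   add_mem' := fun {x y} hx hy => ⟨W.add_mem hx.1 hy.1, by rw [Matrix.mulVec_add, hx.2, hy.2]⟩
                                   zero_mem' := ⟨W.zero_mem, Matrix.mulVec_zero _⟩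
                                   smul_mem' := fun c x hx => ⟨W.smul_mem c hx.1, by rw [Matrix.mulVec_smul, hx.2]⟩ }
  have hEi : ∀ g ∈ A, ∀ x ∈ E, (g : Matrix ι ι F) *ᵥ x ∈ E := by
    rintro g hg x ⟨hx1, hx2⟩
    refine ⟨hWi g hg x hx1, ?_⟩
    rw [Matrix.mulVec_mulVec, ← Units.val_mul, hcomm a ha g hg, Units.val_mul, ← Matrix.mulVec_mulVec, hx2]
  by_cases hE : E = ⊥
  · refine ⟨-1, Or.inr rfl, ?_⟩
    have h3 : (a : Matrix ι ι F) *ᵥ v + v ∈ E := by
      refine ⟨W.add_mem (hWi a ha v hv) hv, ?_⟩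
      rw [Matrix.mulVec_add, Matrix.mulVec_mulVec, haa, Matrix.one_mulVec, add_comm]
    rw [hE, Submodule.mem_bot] at h3
    rw [neg_one_smul]
    exact eq_neg_of_add_eq_zero_left h3
  · refine ⟨1, Or.inl rfl, ?_⟩
    have h3 : W ≤ E := hmin ⟨hEi, hE⟩ (fun x hx => hx.1)
    rw [one_smul]
    exact (h3 hv).2

theorem minus_aux [Fintype F] [Nonempty ι] (hf : FD (RingEquiv.refl F) ε f) (halt : ∀ v, f v v = 0) (h2 : (2 : F) ≠ 0)
    {R : Subgroup (GL ι F)} (hR : Iso f R) (hal : alg R = ⊤) (hc : ⁅R, R⁆ ≤ scalars ι F) {k : ℕ}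
    (hcard : Nat.card R = 2 ^ (2 * k) * 2) (hdeg : Fintype.card ι = 2 ^ k) {A : Subgroup (GL ι F)} (hAR : A ≤ R)
    (hcomm : ∀ x ∈ A, ∀ y ∈ A, x * y = y * x) (hinv : ∀ x ∈ A, x * x = 1) : Nat.card A < 2 ^ (k + 1) := by
  classical
  by_contra hcon
  push Not at hcon
  obtain ⟨v, hv0, hv⟩ := common_eigen hcomm hinv
  set A' : Subgroup R := A.subgroupOf R with hA'
  have hcA : Nat.card A' = Nat.card A := Nat.card_congr (Subgroup.subgroupOfEquivOfLe hAR).toEquiv
  have hfin : Finite R := inferInstance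
  have : Fintype (R ⧸ A') := Fintype.ofFinite _
  have hidx : Fintype.card (R ⧸ A') ≤ 2 ^ k := by
    have h1 := Subgroup.card_eq_card_quotient_mul_card_subgroup A'
    rw [hcard, hcA, Nat.card_eq_fintype_card (α := R ⧸ A')] at h1
    have h3 : Fintype.card (R ⧸ A') * 2 ^ (k + 1) ≤ 2 ^ k * 2 ^ (k + 1) := by
      calc Fintype.card (R ⧸ A') * 2 ^ (k + 1) ≤ Fintype.card (R ⧸ A') * Nat.card A := Nat.mul_le_mul_left _ hcon
        _ = 2 ^ (2 * k) * 2 := h1.symm
        _ = 2 ^ k * 2 ^ (k + 1) := by rw [← pow_succ, ← pow_add]; congr 1; ring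
    exact Nat.le_of_mul_le_mul_right h3 (by positivity)
  let w : R ⧸ A' → (ι → F) := fun q => (((Quotient.out q : R) : GL ι F) : Matrix ι ι F) *ᵥ v
  -- spans
  have hirr := (absIrred_of_alg hal).1
  have hsp : ⊤ ≤ Submodule.span F (Set.range w) := by
    have hmem : ∀ g ∈ R, (g : Matrix ι ι F) *ᵥ v ∈ Submodule.span F (Set.range w) := by
      intro g hg
      set q : R ⧸ A' := QuotientGroup.mk ⟨g, hg⟩
      have h1 : (Quotient.out q : R)⁻¹ * ⟨g, hg⟩ ∈ A' := by
        rw [← QuotientGroup.eq, QuotientGroup.out_eq']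
      obtain ⟨c, _, hcv⟩ := hv _ h1
      have h3 : g = ((Quotient.out q : R) : GL ι F) * (((Quotient.out q : R) : GL ι F)⁻¹ * g) := by group
      have h4 : (g : Matrix ι ι F) *ᵥ v = c • w q := by
        conv_lhs => rw [h3]
        rw [Units.val_mul, ← Matrix.mulVec_mulVec]
        change _ *ᵥ (_ *ᵥ v) = c • (_ *ᵥ v)
        rw [← Matrix.mulVec_smul]
        congr 1
      rw [h4]
      exact Submodule.smul_mem _ _ (Submodule.subset_span ⟨q, rfl⟩)
    rcases hirr (Submodule.span F {x | ∃ g ∈ R, x = (g : Matrix ι ι F) *ᵥ v}) (by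
      rintro _ ⟨h, hh, rfl⟩
      rw [Submodule.map_span, Submodule.span_le]
      rintro _ ⟨_, ⟨g, hg, rfl⟩, rfl⟩
      rw [Matrix.toLin'_apply, Matrix.mulVec_mulVec, ← Units.val_mul]
      exact Submodule.subset_span ⟨h * g, R.mul_mem hh hg, rfl⟩) with h | h
    · exfalso
      have h1 : v ∈ Submodule.span F {x | ∃ g ∈ R, x = (g : Matrix ι ι F) *ᵥ v} :=
        Submodule.subset_span ⟨1, R.one_mem, by rw [Units.val_one, Matrix.one_mulVec]⟩
      rw [h] at h1
      exact hv0 ((Submodule.mem_bot F).1 h1)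
    · rw [← h, Submodule.span_le]
      rintro _ ⟨g, hg, rfl⟩
      exact hmem g hg
  have hcq : Fintype.card (R ⧸ A') = finrank F (ι → F) := by
    rw [Module.finrank_fintype_fun_eq_card, hdeg]
    apply le_antisymm hidx
    have h1 := finrank_le_of_span_eq_top (R := F) (v := w) (top_le_iff.1 hsp)
    rwa [Module.finrank_fintype_fun_eq_card, hdeg] at h1
  let b : Basis (R ⧸ A') F (ι → F) := basisOfTopLeSpanOfCardEqFinrank w hsp hcq
  have hb : ∀ q, b q = w q := fun q => congrFun (coe_basisOfTopLeSpanOfCardEqFinrank w hsp hcq) q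
  -- elements of A are diagonal
  have hdiag : ∀ a ∈ A, ∀ q, ∃ c : F, (a : Matrix ι ι F) *ᵥ w q = c • w q := by
    intro a ha q
    set g : GL ι F := ((Quotient.out q : R) : GL ι F) with hg
    have hgR : g ∈ R := (Quotient.out q : R).2
    have h1 := hc (Subgroup.commutator_mem_commutator (hAR ha) hgR)
    rw [commutatorElement_def, mem_scalars_iff] at h1
    obtain ⟨d, hd⟩ := h1
    obtain ⟨c, _, hcv⟩ := hv a ha
    have h3 : a * g = (a * g * a⁻¹ * g⁻¹) * g * a := by group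
    refine ⟨d * c, ?_⟩
    change (a : Matrix ι ι F) *ᵥ ((g : Matrix ι ι F) *ᵥ v) = (d * c) • ((g : Matrix ι ι F) *ᵥ v)
    rw [Matrix.mulVec_mulVec, ← Units.val_mul, h3, Units.val_mul, Units.val_mul, hd, Matrix.smul_mul, one_mul,
      Matrix.smul_mul, Matrix.smul_mulVec, ← Matrix.mulVec_mulVec, hcv, Matrix.mulVec_smul, smul_smul]
  -- representatives modulo scalars
  set Z' : Subgroup A := (scalars ι F).subgroupOf A with hZ'
  have : Fintype (A ⧸ Z') := Fintype.ofFinite _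
  have hZc : Nat.card Z' ≤ 2 := by
    have hinj : ∀ x : Z', ∃ s : Bool, (((x : A) : GL ι F) : Matrix ι ι F) = (if s then (1 : F) else -1) • (1 : Matrix ι ι F) := by
      intro x
      have h1 : ((x : A) : GL ι F) ∈ scalars ι F := x.2
      rw [mem_scalars_iff] at h1
      obtain ⟨c, hc'⟩ := h1
      rcases scalar_pm hf (hR _ (hAR (x : A).2)) hc' with h | h
      · exact ⟨true, by rw [hc', h]; simp⟩
      · exact ⟨false, by rw [hc', h]; simp⟩
    choose s hs using hinj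
    have h1 : Function.Injective s := by
      intro x y hxy
      ext1; ext1; ext1
      rw [hs, hs, hxy]
    have h3 := Nat.card_le_card_of_injective s h1
    rwa [Nat.card_eq_fintype_card (α := Bool), Fintype.card_bool] at h3
  have hI : 2 ^ k ≤ Fintype.card (A ⧸ Z') := by
    have h1 := Subgroup.card_eq_card_quotient_mul_card_subgroup Z'
    rw [Nat.card_eq_fintype_card (α := A ⧸ Z')] at h1
    have h3 : 2 ^ k * 2 ≤ Fintype.card (A ⧸ Z') * 2 := by
      calc 2 ^ k * 2 = 2 ^ (k + 1) := (pow_succ 2 k).symm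
        _ ≤ Nat.card A := hcon
        _ = _ := h1
        _ ≤ _ := Nat.mul_le_mul_left _ hZc
    omega
  let x : A ⧸ Z' → GL ι F := fun q => ((Quotient.out q : A) : GL ι F)
  have hxA : ∀ q, x q ∈ A := fun q => (Quotient.out q : A).2
  have hli := li_of hal hc x (fun q => hAR (hxA q)) (by
    intro i j hij h
    apply hij
    have h4 : (Quotient.out i : A)⁻¹ * (Quotient.out j : A) ∈ Z' := h
    have h5 := QuotientGroup.eq.2 h4
    rwa [QuotientGroup.out_eq', QuotientGroup.out_eq'] at h5)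
  -- diagonal entries
  let Δ : Matrix ι ι F →ₗ[F] (R ⧸ A' → F) :=
    { toFun := fun M q => b.repr (M *ᵥ w q) q
      map_add' := fun M N => by
        ext q; simp [Matrix.add_mulVec]
      map_smul' := fun c M => by
        ext q; simp [Matrix.smul_mulVec] }
  have hxd : ∀ q p, (x q : Matrix ι ι F) *ᵥ w p = (Δ (x q : Matrix ι ι F) p) • w p := by
    intro q p
    obtain ⟨c, hc'⟩ := hdiag _ (hxA q) p
    have h1 : Δ (x q : Matrix ι ι F) p = c := by
      change b.repr ((x q : Matrix ι ι F) *ᵥ w p) p = c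
      rw [hc', ← hb, map_smul, Basis.repr_self]; simp
    rw [h1, hc']
  have hli2 : LinearIndependent F (fun q => Δ (x q : Matrix ι ι F)) := by
    rw [Fintype.linearIndependent_iff]
    intro g hg
    apply Fintype.linearIndependent_iff.1 hli g
    apply ext_basis b
    intro p
    rw [Matrix.zero_mulVec, Matrix.sum_mulVec, hb]
    have h1 : ∑ q, (g q • (x q : Matrix ι ι F)) *ᵥ w p = (∑ q, g q * Δ (x q : Matrix ι ι F) p) • w p := by
      rw [Finset.sum_smul]
      refine Finset.sum_congr rfl fun q _ => ?_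
      rw [Matrix.smul_mulVec, hxd, smul_smul]
    have h3 := congrFun hg p
    rw [Finset.sum_apply] at h3
    simp only [Pi.smul_apply, smul_eq_mul, Pi.zero_apply] at h3
    rw [h1, h3, zero_smul]
  have hspan := hli2.span_eq_top_of_card_eq_finrank' (by
    apply le_antisymm hli2.fintype_card_le_finrank
    rw [Module.finrank_fintype_fun_eq_card, hcq, Module.finrank_fintype_fun_eq_card, hdeg]
    exact hI)
  -- a diagonal idempotent, self adjoint
  have hne : Nonempty (R ⧸ A') := ⟨QuotientGroup.mk 1⟩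
  obtain ⟨q₀⟩ := hne
  have h1 : (Pi.single q₀ 1 : R ⧸ A' → F) ∈ Submodule.span F (Set.range fun q => Δ (x q : Matrix ι ι F)) := by
    rw [hspan]; trivial
  obtain ⟨c, hc1⟩ := (Submodule.mem_span_range_iff_exists_fun F).1 h1
  set E : Matrix ι ι F := ∑ q, c q • (x q : Matrix ι ι F) with hE
  have hEw : ∀ p, E *ᵥ w p = (if p = q₀ then (1 : F) else 0) • w p := by
    intro p
    have h3 := congrFun hc1 p
    rw [Finset.sum_apply] at h3
    simp only [Pi.smul_apply, smul_eq_mul, Pi.single_apply] at h3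
    rw [← h3, hE, Matrix.sum_mulVec, Finset.sum_smul]
    refine Finset.sum_congr rfl fun q _ => ?_
    rw [Matrix.smul_mulVec, hxd, smul_smul]
  have hEself : ∀ u v, f (E *ᵥ u) v = f u (E *ᵥ v) := by
    intro u v
    rw [hE, Matrix.sum_mulVec, Matrix.sum_mulVec, hf.sum_left, hf.sum_right]
    refine Finset.sum_congr rfl fun q _ => ?_
    rw [Matrix.smul_mulVec, Matrix.smul_mulVec, hf.smul_left, hf.smul_right, RingEquiv.refl_apply]
    congr 1
    have h3 := (hR.adj (hAR (hxA q))) u v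
    have h4 : (x q)⁻¹ = x q := inv_eq_of_mul_eq_one_left (hinv _ (hxA q))
    rw [h4] at h3
    exact h3
  have hw0 : w q₀ ≠ 0 := by
    rw [← hb]; exact b.ne_zero q₀
  obtain ⟨_, ⟨y, hy⟩⟩ := hf.nd (w q₀) hw0
  apply hy
  have h3 : E *ᵥ y = (b.repr y q₀) • w q₀ := by
    conv_lhs => rw [← b.sum_repr y]
    rw [Matrix.mulVec_sum, Finset.sum_eq_single q₀]
    · rw [Matrix.mulVec_smul, hb, hEw, if_pos rfl, one_smul]
    · intro p _ hp
      rw [Matrix.mulVec_smul, hb, hEw, if_neg hp, zero_smul, smul_zero]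
    · intro h; exact absurd (Finset.mem_univ _) h
  have h4 : f (w q₀) y = f (E *ᵥ w q₀) y := by rw [hEw, if_pos rfl, one_smul]
  rw [h4, hEself, h3, hf.smul_right, halt, mul_zero]

theorem minus_type [Fintype F] [Nonempty ι] (hf : FD (RingEquiv.refl F) ε f) (halt : ∀ v, f v v = 0) (h2 : (2 : F) ≠ 0)
    {R : Subgroup (GL ι F)} (hR : Iso f R) (hal : alg R = ⊤) (hc : ⁅R, R⁆ ≤ scalars ι F) {k : ℕ}
    (hcard : Nat.card R = 2 ^ (2 * k) * 2) (hdeg : Fintype.card ι = 2 ^ k) : IsOfMinusType k R := by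
  intro A hA hinv
  have h1 : Nat.card A = Nat.card (A.map R.subtype) :=
    Nat.card_congr (A.equivMapOfInjective R.subtype R.subtype_injective).toEquiv
  rw [h1]
  refine minus_aux hf halt h2 hR hal hc hcard hdeg (A := A.map R.subtype) ?_ ?_ ?_
  · rintro _ ⟨x, _, rfl⟩
    exact x.2
  · rintro _ ⟨x, hx, rfl⟩ _ ⟨y, hy, rfl⟩
    have h3 : (⟨x, hx⟩ : A) * ⟨y, hy⟩ = ⟨y, hy⟩ * ⟨x, hx⟩ := hA.is_comm.comm _ _
    have h4 : x * y = y * x := congrArg Subtype.val h3
    rw [← map_mul, h4, map_mul]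
  · rintro _ ⟨x, hx, rfl⟩
    rw [← map_mul, hinv x hx, map_one]

end CfsgLib.AschF
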