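import Mathlib
import Cfsg.Agent.LibAschF18

/-! tensor powers: translation kit -/
set_option autoImplicit false
set_option linter.unusedSectionVars false

namespace CfsgLib.AschF

open Module Cfsg Cfsg.Geo CfsgLib.Asch1 CfsgLib.Asch2 CfsgLib.Asch3 CfsgLib.Asch4 CfsgLib.Asch5 CfsgLib.Asch6 CfsgLib.Asch7
  CfsgLib.Asch8 CfsgLib.Asch9
  CfsgLib.Asch10 CfsgLib.Asch11 CfsgLib.Asch12 CfsgLib.Asch13 CfsgLib.Asch14 CfsgLib.Asch15 CfsgLib.Asch16 CfsgLib.Asch17
  CfsgLib.Asch18 CfsgLib.Asch19
open scoped Matrix MatrixGroups Kronecker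

variable {ι : Type} [Fintype ι] [DecidableEq ι] {F : Type*} [Field F]
variable {σ : F ≃+* F} {ε : F} {f : (ι → F) → (ι → F) → F}

/-- pure tensors of a tensor power -/
noncomputable def tens {m t : ℕ} (b : Basis (Fin t → Fin m) F (ι → F)) (u : Fin t → Fin m → F) : ι → F :=
  ∑ y, (∏ s, u s (y s)) • b y

section tens
variable {m t : ℕ} (b : Basis (Fin t → Fin m) F (ι → F))

theorem tens_single (x : Fin t → Fin m) : tens b (fun s => Pi.single (x s) 1) = b x := by
  classical
  rw [tens, Finset.sum_eq_single x]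
  · simp
  · intro y _ hy
    obtain ⟨s, hs⟩ := Function.ne_iff.1 hy
    rw [Finset.prod_eq_zero (Finset.mem_univ s), zero_smul]
    exact Pi.single_eq_of_ne hs _
  · simp

theorem tens_update (u : Fin t → Fin m → F) (s : Fin t) (a : Fin m → F) :
    tens b (Function.update u s a) = ∑ y, (a (y s) * ∏ r ∈ Finset.univ.erase s, u r (y r)) • b y := by
  classical
  rw [tens]
  refine Finset.sum_congr rfl fun y _ => ?_
  rw [← Finset.mul_prod_erase Finset.univ _ (Finset.mem_univ s), Function.update_self]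
  congr 2
  refine Finset.prod_congr rfl fun r hr => ?_
  rw [Function.update_of_ne (Finset.ne_of_mem_erase hr)]

theorem tens_add (u : Fin t → Fin m → F) (s : Fin t) (a a' : Fin m → F) :
    tens b (Function.update u s (a + a')) = tens b (Function.update u s a) + tens b (Function.update u s a') := by
  simp only [tens_update, Pi.add_apply, add_mul, add_smul, Finset.sum_add_distrib]

theorem tens_smul (u : Fin t → Fin m → F) (s : Fin t) (c : F) (a : Fin m → F) :
    tens b (Function.update u s (c • a)) = c • tens b (Function.update u s a) := by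
  simp only [tens_update, Pi.smul_apply, smul_eq_mul, Finset.smul_sum, smul_smul, mul_assoc]

theorem form_expand {ε₁ : F} {f₁ : (Fin m → F) → (Fin m → F) → F} (hf₁ : FD σ ε₁ f₁) (u u' : Fin m → F) :
    f₁ u u' = ∑ i, ∑ j, u i * gramMatrix f₁ i j * σ (u' j) := by
  have h1 : ∀ w : Fin m → F, w = ∑ i, w i • (Pi.single i 1 : Fin m → F) := by
    intro w; ext j; simp [Finset.sum_apply, Pi.single_apply]
  conv_lhs => rw [h1 u, h1 u']
  rw [hf₁.sum_left]
  refine Finset.sum_congr rfl fun i _ => ?_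
  rw [hf₁.sum_right]
  refine Finset.sum_congr rfl fun j _ => ?_
  rw [hf₁.smul_left, hf₁.smul_right]; simp only [gramMatrix]; ring

theorem tens_form (hf : FD σ ε f) {ε₁ : F} {f₁ : (Fin m → F) → (Fin m → F) → F} (hf₁ : FD σ ε₁ f₁) {c : F}
    (hform : ∀ x y, f (b x) (b y) = c * ∏ s, gramMatrix f₁ (x s) (y s)) (u v : Fin t → Fin m → F) :
    f (tens b u) (tens b v) = c * ∏ s, f₁ (u s) (v s) := by
  classical
  have h1 : ∏ s, f₁ (u s) (v s) = ∑ y : Fin t → Fin m, ∑ z : Fin t → Fin m,
      ∏ s, (u s (y s) * gramMatrix f₁ (y s) (z s) * σ (v s (z s))) := by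
    simp only [form_expand hf₁]
    rw [Finset.prod_univ_sum, Fintype.piFinset_univ]
    refine Finset.sum_congr rfl fun y _ => ?_
    rw [Finset.prod_univ_sum, Fintype.piFinset_univ]
  rw [h1, tens, tens, hf.sum_left, Finset.mul_sum]
  refine Finset.sum_congr rfl fun y _ => ?_
  rw [hf.smul_left, hf.sum_right, Finset.mul_sum, Finset.mul_sum]
  refine Finset.sum_congr rfl fun z _ => ?_
  rw [hf.smul_right, hform, Finset.prod_mul_distrib, Finset.prod_mul_distrib, map_prod]
  ring

theorem TW_tens {g : Matrix ι ι F} (hg : TW b g) (x : Fin t → Fin m) : ∃ u, g *ᵥ b x = tens b u := by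
  classical
  obtain ⟨π, P, hP⟩ := hg
  refine ⟨fun s i => (P (π.symm s)).1 i (x (π.symm s)), ?_⟩
  rw [hP, tens]
  refine Fintype.sum_equiv (Equiv.arrowCongr π (Equiv.refl (Fin m))) _ _ fun y => ?_
  have h1 : (Equiv.arrowCongr π (Equiv.refl (Fin m))) y = y ∘ π.symm := rfl
  rw [h1]
  congr 1
  rw [← Equiv.prod_comp π.symm]
  rfl

theorem PT_tens {g : Matrix ι ι F} {P : Fin t → (Matrix (Fin m) (Fin m) F)ˣ}
    (hP : ∀ x : Fin t → Fin m, g *ᵥ (b x) = ∑ y : Fin t → Fin m, (∏ s, (P s).1 (y s) (x s)) • b y)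
    (u : Fin t → Fin m → F) : g *ᵥ tens b u = tens b (fun s => (P s).1 *ᵥ u s) := by
  classical
  have h1 : g *ᵥ tens b u = ∑ x : Fin t → Fin m, (∏ s, u s (x s)) • ∑ y : Fin t → Fin m, (∏ s, (P s).1 (y s) (x s)) • b y := by
    rw [tens, Matrix.mulVec_sum]
    refine Finset.sum_congr rfl fun x _ => ?_
    rw [Matrix.mulVec_smul, hP]
  rw [h1, tens]
  simp only [Finset.smul_sum, smul_smul]
  rw [Finset.sum_comm]
  refine Finset.sum_congr rfl fun y _ => ?_
  rw [← Finset.sum_smul]
  congr 1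
  simp only [Matrix.mulVec, dotProduct]
  rw [Finset.prod_univ_sum, Fintype.piFinset_univ]
  refine Finset.sum_congr rfl fun x _ => ?_
  rw [← Finset.prod_mul_distrib]
  exact Finset.prod_congr rfl fun s _ => mul_comm _ _

theorem quad_tens {Q : (ι → F) → F} (hf : FD (RingEquiv.refl F) ε f) (hQ : QF f Q) (ht : 2 ≤ t) {ε₁ : F} {f₁ : (Fin m → F) → (Fin m → F) → F}
    (hf₁ : FD (RingEquiv.refl F) ε₁ f₁) (halt₁ : ∀ v, f₁ v v = 0) {c : F}
    (hform : ∀ x y, f (b x) (b y) = c * ∏ s, gramMatrix f₁ (x s) (y s)) (hb : ∀ x, Q (b x) = 0) :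
    ∀ u, Q (tens b u) = 0 := by
  classical
  have key : ∀ S : Finset (Fin t), ∀ u : Fin t → Fin m → F, (∀ s, s ∉ S → ∃ i, u s = Pi.single i 1) → Q (tens b u) = 0 := by
    intro S
    induction S using Finset.induction_on with
    | empty =>
      intro u hu
      have hu' : ∀ s, ∃ i, u s = Pi.single i 1 := fun s => hu s (Finset.notMem_empty s)
      choose x hx using hu'
      have : u = fun s => Pi.single (x s) 1 := funext hx
      rw [this, tens_single, hb]
    | insert a S ha ih =>
      intro u hu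
      obtain ⟨r, hr⟩ : ∃ r : Fin t, r ≠ a := by
        have : Nontrivial (Fin t) := Fin.nontrivial_iff_two_le.2 ht
        exact exists_ne a
      have h1 := semi_zero (Pi.basisFun F (Fin m)) (fun w => Q (tens b (Function.update u a w))) (by
        intro w w'
        change Q (tens b (Function.update u a (w + w'))) = Q (tens b (Function.update u a w)) + Q (tens b (Function.update u a w'))
        rw [tens_add, hQ.add, tens_form b hf hf₁ hform, Finset.prod_eq_zero (Finset.mem_univ r)]
        · ring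
        · rw [Function.update_of_ne hr, Function.update_of_ne hr, halt₁]) (by
        intro d w
        change Q (tens b (Function.update u a (d • w))) = d ^ 2 * Q (tens b (Function.update u a w))
        rw [tens_smul, hQ.smul]) (by
        intro k
        change Q (tens b (Function.update u a (Pi.basisFun F (Fin m) k))) = 0
        rw [Pi.basisFun_apply]
        apply ih
        intro s hs
        by_cases hsa : s = a
        · subst hsa; exact ⟨k, by rw [Function.update_self]⟩
        · rw [Function.update_of_ne hsa]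
          exact hu s (by simp [hsa, hs])) (u a)
      simpa using h1
  intro u
  exact key Finset.univ u fun s hs => absurd (Finset.mem_univ s) hs

/-- characteristic two: the tensor power case fixes a quadratic form -/
theorem tw_even (hf : FD (RingEquiv.refl F) ε f) (halt : ∀ v, f v v = 0) (h2 : (2 : F) = 0) (ht : 2 ≤ t)
    {H : Subgroup (GL ι F)} (hH : Iso f H) {ε₁ : F} {f₁ : (Fin m → F) → (Fin m → F) → F}
    (hf₁ : FD (RingEquiv.refl F) ε₁ f₁) {c : F} (hc : c ≠ 0)
    (hform : ∀ x y, f (b x) (b y) = c * ∏ s, gramMatrix f₁ (x s) (y s)) (hTW : ∀ h ∈ H, TW b (h : Matrix ι ι F)) :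
    ∃ Q, QF f Q ∧ ∀ g ∈ H, ∀ v, Q ((g : Matrix ι ι F) *ᵥ v) = Q v := by
  have halt₁ : ∀ v, f₁ v v = 0 := by
    intro v
    have h1 := tens_form b hf hf₁ hform (fun _ => v) (fun _ => v)
    rw [halt, Finset.prod_const, Finset.card_univ, Fintype.card_fin] at h1
    have h3 := (mul_eq_zero.1 h1.symm).resolve_left hc
    exact (pow_eq_zero_iff (by omega)).1 h3
  obtain ⟨Q, hQ, hQb⟩ := exists_QF hf halt h2 b
  have hQt := quad_tens b hf hQ ht hf₁ halt₁ hform hQb
  refine ⟨Q, hQ, fun g hg => hQ.preserve b g (hH g hg) ?_⟩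
  intro x
  obtain ⟨u, hu⟩ := TW_tens b (hTW g hg) x
  rw [hQb, hu, hQt]

/-- pure tensor representation of an element -/
def PTr (g : GL ι F) (P : Fin t → GL (Fin m) F) : Prop :=
  ∀ x : Fin t → Fin m, (g : Matrix ι ι F) *ᵥ (b x) = ∑ y : Fin t → Fin m, (∏ s, (P s).1 (y s) (x s)) • b y

theorem PTr.mul {g h : GL ι F} {P Q : Fin t → GL (Fin m) F} (hg : PTr b g P) (hh : PTr b h Q) : PTr b (g * h) (P * Q) := by
  intro x
  rw [Units.val_mul, ← Matrix.mulVec_mulVec]
  have h1 : (h : Matrix ι ι F) *ᵥ b x = tens b (fun s => (Q s).1 *ᵥ Pi.single (x s) 1) := by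
    rw [← tens_single b x, PT_tens b hh]
  rw [h1, PT_tens b hg, tens]
  refine Finset.sum_congr rfl fun y _ => ?_
  congr 1
  refine Finset.prod_congr rfl fun s _ => ?_
  rw [Matrix.mulVec_mulVec, ← Units.val_mul, Matrix.mulVec_single_one]
  rfl

theorem PTr.one : PTr b (1 : GL ι F) (1 : Fin t → GL (Fin m) F) := by
  intro x
  have : (1 : Fin t → GL (Fin m) F) = fun s => 1 := rfl
  rw [Units.val_one, Matrix.one_mulVec, this]
  rw [Finset.sum_eq_single x]
  · simp
  · intro y _ hy
    obtain ⟨s, hs⟩ := Function.ne_iff.1 hy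
    rw [Finset.prod_eq_zero (Finset.mem_univ s), zero_smul]
    exact Matrix.one_apply_ne hs
  · simp

theorem PTr.unique {g h : GL ι F} {P : Fin t → GL (Fin m) F} (hg : PTr b g P) (hh : PTr b h P) : g = h := by
  apply Units.ext
  apply ext_basis b
  intro x
  rw [hg, hh]

theorem PTr.inv {g : GL ι F} {P : Fin t → GL (Fin m) F} (hg : PTr b g P) : PTr b g⁻¹ P⁻¹ := by
  intro x
  have h1 : b x = (g : Matrix ι ι F) *ᵥ tens b (fun s => ((P s)⁻¹).1 *ᵥ Pi.single (x s) 1) := by
    rw [PT_tens b hg]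
    have : (fun s => (P s).1 *ᵥ ((P s)⁻¹).1 *ᵥ (Pi.single (x s) 1 : Fin m → F)) = fun s => Pi.single (x s) 1 := by
      funext s
      rw [Matrix.mulVec_mulVec, ← Units.val_mul, mul_inv_cancel, Units.val_one, Matrix.one_mulVec]
    rw [this, tens_single]
  rw [h1, Matrix.mulVec_mulVec, ← Units.val_mul, inv_mul_cancel, Units.val_one, Matrix.one_mulVec, tens]
  refine Finset.sum_congr rfl fun y _ => ?_
  congr 1
  refine Finset.prod_congr rfl fun s _ => ?_
  rw [Matrix.mulVec_single_one]
  rfl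

/-- perfect groups of pure tensors with solvable factor group are trivial -/
theorem PT_solvable {N : Subgroup (GL ι F)} (hperf : ⁅N, N⁆ = N) (K : Subgroup (GL (Fin m) F)) [hK : Group.IsSolvable K]
    (hPT : ∀ x ∈ N, ∃ P : Fin t → GL (Fin m) F, (∀ s, P s ∈ K) ∧ PTr b x P) : N = ⊥ := by
  classical
  obtain ⟨n, hn⟩ := hK.solvable
  -- the subgroup of pure tensors with factors in the j-th derived subgroup
  let T : ℕ → Subgroup (GL ι F) := fun j =>
    { carrier := {x | ∃ P : Fin t → GL (Fin m) F, (∀ s, P s ∈ (derivedSeries K j).map K.subtype) ∧ PTr b x P}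
      mul_mem' := by
        rintro x y ⟨P, hP, hx⟩ ⟨Q, hQ, hy⟩
        exact ⟨P * Q, fun s => Subgroup.mul_mem _ (hP s) (hQ s), hx.mul b hy⟩
      one_mem' := ⟨1, fun s => Subgroup.one_mem _, PTr.one b⟩
      inv_mem' := by
        rintro x ⟨P, hP, hx⟩
        exact ⟨P⁻¹, fun s => Subgroup.inv_mem _ (hP s), hx.inv b⟩ }
  have hTs : ∀ j, ⁅T j, T j⁆ ≤ T (j + 1) := by
    intro j
    rw [Subgroup.commutator_le]
    rintro x ⟨P, hP, hx⟩ y ⟨Q, hQ, hy⟩
    refine ⟨P * Q * P⁻¹ * Q⁻¹, fun s => ?_, ?_⟩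
    · rw [derivedSeries_succ, Subgroup.map_commutator]
      have h1 := Subgroup.commutator_mem_commutator (hP s) (hQ s)
      rw [commutatorElement_def] at h1
      exact h1
    · rw [commutatorElement_def]
      exact ((hx.mul b hy).mul b (hx.inv b)).mul b (hy.inv b)
  have hN : ∀ j, N ≤ T j := by
    intro j
    induction j with
    | zero =>
      intro x hx
      obtain ⟨P, hP, h⟩ := hPT x hx
      exact ⟨P, fun s => ⟨⟨P s, hP s⟩, by rw [derivedSeries_zero]; trivial, rfl⟩, h⟩
    | succ j ih =>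
      rw [← hperf]
      exact (Subgroup.commutator_mono ih ih).trans (hTs j)
  rw [eq_bot_iff]
  intro x hx
  obtain ⟨P, hP, h⟩ := hN n hx
  have hP1 : P = 1 := by
    funext s
    have := hP s
    rw [hn, Subgroup.map_bot] at this
    exact Subgroup.mem_bot.1 this
  rw [hP1] at h
  rw [Subgroup.mem_bot]
  exact h.unique b (PTr.one b)

end tens

end CfsgLib.AschF
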