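import Mathlib
import Cfsg.Agent.LibAschF19
import Cfsg.Agent.S0144

/-! Aschbacher's theorem, symplectic case -/
set_option autoImplicit false
set_option linter.unusedSectionVars false

namespace CfsgLib.AschF

open Module Cfsg Cfsg.Geo CfsgLib.Asch1 CfsgLib.Asch2 CfsgLib.Asch3 CfsgLib.Asch4 CfsgLib.Asch5 CfsgLib.Asch6 CfsgLib.Asch7
  CfsgLib.Asch8 CfsgLib.Asch9
  CfsgLib.Asch10 CfsgLib.Asch11 CfsgLib.Asch12 CfsgLib.Asch13 CfsgLib.Asch14 CfsgLib.Asch15 CfsgLib.Asch16 CfsgLib.Asch17
  CfsgLib.Asch18 CfsgLib.Asch19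
open scoped Matrix MatrixGroups Kronecker

section gen
variable {ι : Type} [Fintype ι] [DecidableEq ι] {F : Type*} [Field F]
variable {ε : F} {f : (ι → F) → (ι → F) → F}

/-- an additive, square-semilinear function invariant under an irreducible group vanishes -/
theorem semi_kernel [Finite F] (h2 : (2 : F) = 0) (hn : 2 ≤ Fintype.card ι) {N : Subgroup (GL ι F)}
    (hirr : ActsIrreducibly (matrixSet N)) (D : (ι → F) → F)
    (hadd : ∀ u v, D (u + v) = D u + D v) (hsm : ∀ (c : F) v, D (c • v) = c ^ 2 * D v)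
    (hinv : ∀ x ∈ N, ∀ v, D v = 0 → D ((x : Matrix ι ι F) *ᵥ v) = 0) (v : ι → F) : D v = 0 := by
  classical
  let W : Submodule F (ι → F) :=
    { carrier := {v | D v = 0}
      add_mem' := fun {a b} ha hb => by
        change D a = 0 at ha
        change D b = 0 at hb
        change D (a + b) = 0
        rw [hadd, ha, hb, add_zero]
      zero_mem' := by
        have := hsm 0 0
        change D 0 = 0
        simpa using this
      smul_mem' := fun c x hx => by
        change D x = 0 at hx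
        change D (c • x) = 0
        rw [hsm, hx, mul_zero] }
  rcases hirr W (by
    rintro _ ⟨x, hx, rfl⟩ _ ⟨w, hw, rfl⟩
    rw [Matrix.toLin'_apply]
    exact hinv x hx w hw) with h | h
  · exfalso
    have : Nontrivial ι := Fintype.one_lt_card_iff_nontrivial.1 (by omega)
    obtain ⟨i, j, hij⟩ := exists_pair_ne ι
    have hne : ∀ k : ι, D (Pi.single k 1) ≠ 0 := by
      intro k hk
      have h1 : (Pi.single k 1 : ι → F) ∈ W := hk
      rw [h, Submodule.mem_bot] at h1
      have := congrFun h1 k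
      simp at this
    obtain ⟨c, hc⟩ := sq_exists h2 (D (Pi.single i 1) * (D (Pi.single j 1))⁻¹)
    have h1 : (Pi.single i 1 + c • Pi.single j 1 : ι → F) ∈ W := by
      change D (Pi.single i 1 + c • Pi.single j 1) = 0
      rw [hadd, hsm, hc, mul_assoc, inv_mul_cancel₀ (hne j), mul_one]
      linear_combination (D (Pi.single i 1)) * h2
    rw [h, Submodule.mem_bot] at h1
    have h3 := congrFun h1 i
    rw [Pi.add_apply, Pi.single_eq_same, Pi.smul_apply, Pi.single_eq_of_ne hij, smul_zero, add_zero] at h3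
    exact one_ne_zero h3
  · have : v ∈ W := by rw [h]; trivial
    exact this

theorem not_scal_of_alg [Nonempty ι] (hn : 2 ≤ Fintype.card ι) {N : Subgroup (GL ι F)} (hN : alg N = ⊤) :
    ¬ N ≤ scalars ι F := not_scalar hn (absIrred_of_alg hN).1

/-- an invariant quadratic form of an absolutely irreducible group of isometries of an alternating form -/
theorem quad_core [Fintype F] [Nonempty ι] (hn : 2 ≤ Fintype.card ι) (hf : FD (RingEquiv.refl F) ε f) (halt : ∀ v, f v v = 0)
    {H N : Subgroup (GL ι F)} (hH : Iso f H) (hNH : N ≤ H) (hnrd : Nrd H N) (hN : alg N = ⊤) {Q : (ι → F) → F}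
    (hQ : IsNondegenerateQuadraticForm Q) (hfix : FixesQuadForm (matrixSet N) Q) :
    (2 : F) = 0 ∧ ∃ Q', QF f Q' ∧ ∀ g ∈ H, ∀ v, Q' ((g : Matrix ι ι F) *ᵥ v) = Q' v := by
  classical
  have hpfix : FixesForm (matrixSet N) (QuadraticMap.polar Q) := by
    rintro s hs u v
    simp only [QuadraticMap.polar, ← Matrix.mulVec_add, hfix s hs]
  have hsesq : Sesq ((RingEquiv.refl F : F ≃+* F) : F →+* F) (QuadraticMap.polar Q) :=
    ⟨hQ.polar_bilinear.add_left, hQ.polar_bilinear.smul_left, hQ.polar_bilinear.add_right, hQ.polar_bilinear.smul_right⟩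
  obtain ⟨c, hc⟩ := form_unique (RingEquiv.refl F) hf.sesq hsesq hf.nd hN (hH.mono hNH).fixes hpfix
  obtain ⟨w, hw⟩ := exists_ne (0 : ι → F)
  obtain ⟨⟨x, hx⟩, _⟩ := hQ.nondegenerate w hw
  have hc0 : c ≠ 0 := by
    rintro rfl
    apply hx
    rw [hc, zero_mul]
  have hneg : ∀ u v, f v u = - f u v := by
    intro u v
    have h1 := halt (u + v)
    rw [hf.add_left, hf.add_right, hf.add_right, halt, halt] at h1
    linear_combination h1
  have h2 : (2 : F) = 0 := by
    have h1 : QuadraticMap.polar Q x w = QuadraticMap.polar Q w x := by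
      simp only [QuadraticMap.polar, add_comm x w]; ring
    rw [hc, hc, hneg x w] at h1
    have h3 : (2 : F) * (c * f x w) = 0 := by linear_combination h1
    rcases mul_eq_zero.1 h3 with h4 | h4
    · exact h4
    · rw [← hc] at h4
      exact absurd h4 hx
  refine ⟨h2, fun v => c⁻¹ * Q v, ?_⟩
  have hQF : QF f (fun v => c⁻¹ * Q v) := by
    refine ⟨fun d v => ?_, fun u v => ?_⟩
    · rw [hQ.smul]; ring
    · have h1 : Q (u + v) = Q u + Q v + c * f u v := by
        rw [← hc, QuadraticMap.polar]; ring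
      rw [h1]
      field_simp
  refine ⟨hQF, fun g hg v => ?_⟩
  have hirr := (absIrred_of_alg hN).1
  have := semi_kernel h2 hn hirr (fun v => c⁻¹ * Q ((g : Matrix ι ι F) *ᵥ v) - c⁻¹ * Q v) (by
    intro u v
    have h1 := hQF.add ((g : Matrix ι ι F) *ᵥ u) ((g : Matrix ι ι F) *ᵥ v)
    have h3 := hQF.add u v
    simp only [Matrix.mulVec_add]
    rw [h1, h3, hH g hg]; ring) (by
    intro d v
    have h1 := hQF.smul d ((g : Matrix ι ι F) *ᵥ v)
    have h3 := hQF.smul d v
    simp only [Matrix.mulVec_smul]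
    rw [h1, h3]; ring) (by
    intro y hy v hv
    have h1 : (g : Matrix ι ι F) *ᵥ ((y : Matrix ι ι F) *ᵥ v) = ((g * y * g⁻¹ : GL ι F) : Matrix ι ι F) *ᵥ ((g : Matrix ι ι F) *ᵥ v) := by
      rw [Matrix.mulVec_mulVec, Matrix.mulVec_mulVec, ← Units.val_mul, ← Units.val_mul]
      congr 2
      group
    rw [h1, hfix _ ⟨g * y * g⁻¹, hnrd g hg y hy, rfl⟩, hfix _ ⟨y, hy, rfl⟩]
    exact hv) v
  exact sub_eq_zero.1 this

/-- no unitary form on a core with a bilinear form -/
theorem no_unitary [Fintype F] [Nonempty ι] (hf : FD (RingEquiv.refl F) ε f) {N : Subgroup (GL ι F)} (hN : alg N = ⊤)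
    (hI : Iso f N) (hreal : ∀ F₀ : Subfield F, F₀ ≠ ⊤ → ¬ RealisableOver F₀ (matrixSet N)) :
    ¬ ∃ (σ : F ≃+* F) (g : (ι → F) → (ι → F) → F), IsUnitaryForm σ g ∧ FixesForm (matrixSet N) g := by
  rintro ⟨σ, g, hg, hfix⟩
  obtain ⟨F₀, h0, _, h1⟩ := two_forms hg.ne_refl hg.involutive hN hf.sesq hf.nd hI.fixes (sesq_of_unitary hg)
    hg.nondegenerate hfix
  exact hreal F₀ h0 h1

theorem gl_two_three [Fintype F] (h3 : Fintype.card F = 3) : Group.IsSolvable (⊤ : Subgroup (GL (Fin 2) F)) := by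
  have h1 : Nat.card (⊤ : Subgroup (GL (Fin 2) F)) = 2 ^ 4 * 3 ^ 1 := by
    rw [Nat.card_congr (Subgroup.topEquiv (G := GL (Fin 2) F)).toEquiv, Matrix.card_GL_field, h3]
    simp [Fin.prod_univ_two]
  exact Cfsg.Agent.S0144.result 2 3 4 1 Nat.prime_two Nat.prime_three h1

end gen

theorem sympl {F : Type*} [Field F] [Fintype F] (m : ℕ) (hm : 2 ≤ m) (H : Subgroup (GL (Fin m ⊕ Fin m) F))
    (hH : H ≤ spGL m F) : (∃ M, InSymplecticClass m F M ∧ H ≤ M) ∨ InSymplecticResidualClass H := by
  classical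
  have hcard : Fintype.card (Fin m ⊕ Fin m) = 2 * m := by simp; ring
  have hne : Nonempty (Fin m ⊕ Fin m) := ⟨Sum.inl ⟨0, by omega⟩⟩
  have hsym := CfsgLib.SympTv29.sympForm_symplectic m F
  have hf := fd_of_symp hsym
  have halt := hsym.alternating
  have hI : Iso (sympForm m F) H := fun g hg u v => hH hg u v
  have hquad : (2 : F) = 0 → (∃ Q, QF (sympForm m F) Q ∧ ∀ g ∈ H, ∀ v, Q ((g : Matrix _ _ F) *ᵥ v) = Q v) →
      ∃ M, InSymplecticClass m F M ∧ H ≤ M := by
    rintro h2 ⟨Q, hQ, hQH⟩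
    refine ⟨quadSimilarityGroup Q ⊓ spGL m F, Or.inl ?_, le_inf (qsim_of hQH) hH⟩
    exact Or.inr (Or.inr (Or.inr (Or.inr (Or.inr (Or.inr ⟨Q, not_odd_of_two h2, hQ.nondegQ hf, hQ.polar, rfl⟩)))))
  have hdec : ∀ (t k : ℕ) (D : Fin t → Submodule F (Fin m ⊕ Fin m → F)), IsNondegenerateMDecomposition (sympForm m F) k D →
      H ≤ decompositionStabilizer D → ∃ M, InSymplecticClass m F M ∧ H ≤ M := by
    intro t k D hD h
    exact ⟨_, Or.inl (Or.inr (Or.inr (Or.inl ⟨t, k, D, hD, rfl⟩))), le_inf h hH⟩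
  have hpair : ∀ (k : ℕ) (D : Fin 2 → Submodule F (Fin m ⊕ Fin m → F)), IsMDecomposition k D →
      (∀ i, IsTotallySingularFor (sympForm m F) (D i)) →
      H ≤ decompositionStabilizer D → ∃ M, InSymplecticClass m F M ∧ H ≤ M := by
    intro k D hD hs h
    by_cases h2 : (2 : F) = 0
    · exact hquad h2 (pair_quad hf halt h2 hI hD hs h)
    · have hkm : k = m := by
        have := mdec_card hD
        rw [hcard] at this
        omega
      subst hkm
      exact ⟨_, Or.inl (Or.inr (Or.inr (Or.inr (Or.inl ⟨D, odd_card h2, hD, hs, rfl⟩)))), le_inf h hH⟩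
  have hfld : ∀ (r : ℕ) (K : Subalgebra F (Matrix (Fin m ⊕ Fin m) (Fin m ⊕ Fin m) F)), r.Prime → IsFieldSubalgebra r K →
      H ≤ subalgebraNormalizer K → IsAdjointClosedFor (sympForm m F) K →
      (IsSelfAdjointFor (sympForm m F) K ∨ (r = 2 ∧ ¬ IsSelfAdjointFor (sympForm m F) K)) →
      ∃ M, InSymplecticClass m F M ∧ H ≤ M := by
    intro r K hr hK h ha hc
    rcases hc with hs | ⟨hr2, hs⟩
    · exact ⟨_, Or.inr (Or.inl ⟨r, K, hr, hK, hs, self_adj_zero hf halt hK hs, rfl⟩), le_inf h hH⟩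
    · subst hr2
      by_cases h2 : (2 : F) = 0
      · exact hquad h2 (fld_two_quad hf h2 hI hK h ha hs)
      · exact ⟨_, Or.inr (Or.inr (Or.inl ⟨K, odd_card h2, hK, ha, hs, rfl⟩)), le_inf h hH⟩
  -- tensor products in odd characteristic
  have htp : ∀ (n₁ n₂ : ℕ) (b : Basis (Fin n₁ × Fin n₂) F (Fin m ⊕ Fin m → F))
      (f₁ : (Fin n₁ → F) → (Fin n₁ → F) → F) (f₂ : (Fin n₂ → F) → (Fin n₂ → F) → F)
      (h1 : 2 ≤ n₁) (h2 : 2 ≤ n₂) (hf₁ : FD (RingEquiv.refl F) (-1) f₁) (hf₂ : FD (RingEquiv.refl F) 1 f₂)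
      (hform : ∀ i l j l', sympForm m F (b (i, l)) (b (j, l')) = gramMatrix f₁ i j * gramMatrix f₂ l l')
      (hirr : ActsIrreducibly (matrixSet H))
      (hkr : ∀ h ∈ H, ∃ (A : (Matrix (Fin n₁) (Fin n₁) F)ˣ) (N : (Matrix (Fin n₂) (Fin n₂) F)ˣ),
        KA b (h : Matrix _ _ F) A.1 N.1), (2 : F) ≠ 0 → ∃ M, InSymplecticClass m F M ∧ H ≤ M := by
    intro n₁ n₂ b f₁ f₂ h1 h2 hf₁ hf₂ hform hirr hkr h20
    rcases (by omega : n₂ = 2 ∨ 3 ≤ n₂) with hn2 | hn2
    · subst hn2
      rcases tp_two b hf h20 hI hirr (by omega) hf₁ hf₂ hform hkr with ⟨t, k, D, hD, h⟩ | ⟨k, D, hD, hs, h⟩ | ⟨r, K, hr, hK, h, ha, hc⟩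
      · exact hdec t k D hD h
      · exact hpair k D hD hs h
      · exact hfld r K hr hK h ha hc
    · have hcn : Fintype.card (Fin m ⊕ Fin m) = n₁ * n₂ := by
        have := Module.finrank_eq_card_basis b
        rw [Module.finrank_fintype_fun_eq_card, Fintype.card_prod, Fintype.card_fin, Fintype.card_fin] at this
        exact this
      have e : (Fin m ⊕ Fin m) ≃ Fin n₁ × Fin n₂ := Fintype.equivOfCardEq (by
        rw [hcn, Fintype.card_prod, Fintype.card_fin, Fintype.card_fin])
      obtain ⟨P, hP⟩ := exists_P (b.reindex e.symm)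
      refine ⟨_, Or.inr (Or.inr (Or.inr (Or.inl ⟨n₁, n₂, e, P, f₁, f₂, odd_card h20, hn2,
        symp_of_fd hf₁ (alt_of_neg hf₁ h20), symm_of_fd hf₂, tensor_structure hf b hform e P hP, rfl⟩))), le_inf ?_ hH⟩
      exact le_tensorProduct_P b H hkr e P hP
  rcases aschbacherF hf (by rw [hcard]; omega) H hI with h | ⟨hirr, N, hcore, hreal⟩
  · left
    cases h with
    | sing W h0 hs h => exact ⟨_, Or.inl (Or.inl ⟨W, h0, hs, rfl⟩), le_inf h hH⟩
    | nond W h0 hs hd h =>
      refine ⟨_, Or.inl (Or.inr (Or.inl ⟨W, h0, hs, ?_, rfl⟩)), le_inf h hH⟩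
      rw [hcard] at hd; omega
    | dec t k D hD _ h => exact hdec t k D hD h
    | pair k D hD hs _ h => exact hpair k D hD hs h
    | fld r K hr hK h ha hc _ =>
      rcases hc with ⟨_, hc⟩ | ⟨hc, _⟩
      · exact hfld r K hr hK h ha hc
      · exact absurd rfl hc
    | tp n₁ n₂ b ε₁ ε₂ f₁ f₂ h1 h2 hf₁ hf₂ hε _ hform hirr hkr =>
      by_cases h20 : (2 : F) = 0
      · exact hquad h20 (tp_even b hf halt h20 hI hirr h1 h2 hf₁ hf₂ hform hkr)
      · rcases hf₁.eps with he | he
        · rw [he] at hε hf₁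
          rw [one_mul] at hε
          rw [hε] at hf₂
          exact htp n₂ n₁ (b.reindex (Equiv.prodComm _ _)) f₂ f₁ h2 h1 hf₂ hf₁ (form_swap b hform) hirr
            (fun h hh => by
              obtain ⟨A, N, hk⟩ := hkr h hh
              exact ⟨N, A, KA_swap b hk⟩) h20
        · rw [he] at hε hf₁
          have : ε₂ = 1 := by linear_combination -hε
          rw [this] at hf₂
          exact htp n₁ n₂ b f₁ f₂ h1 h2 hf₁ hf₂ hform hirr hkr h20
    | sub F₀ r P ζ hr hc hζ hS h _ _ _ _ =>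
      exact ⟨_, Or.inl (Or.inr (Or.inr (Or.inr (Or.inr (Or.inl ⟨F₀, r, P, ζ, hr, hc, hζ, hS, rfl⟩))))), le_inf h hH⟩
    | st r k z p e R hR hk hal hc hRH hrp hmf h =>
      have hIR := hI.mono hRH
      have hz2 : z ≤ 2 := by
        rw [← hR.center]
        have hinj : ∀ x : Subgroup.center R, ∃ s : Bool, (((x : R) : GL (Fin m ⊕ Fin m) F) : Matrix (Fin m ⊕ Fin m) (Fin m ⊕ Fin m) F) =
            (if s then (1 : F) else -1) • (1 : Matrix (Fin m ⊕ Fin m) (Fin m ⊕ Fin m) F) := by
          intro x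
          have h1 : (x : R) ∈ (scalars (Fin m ⊕ Fin m) F).subgroupOf R := by rw [← center_eq hal]; exact x.2
          rw [Subgroup.mem_subgroupOf, mem_scalars_iff] at h1
          obtain ⟨c, hc'⟩ := h1
          rcases scalar_pm hf (hIR _ (x : R).2) hc' with h | h
          · exact ⟨true, by rw [hc', h]; simp⟩
          · exact ⟨false, by rw [hc', h]; simp⟩
        choose s hs using hinj
        have h1 : Function.Injective s := by
          intro x y hxy
          ext1; ext1; ext1
          rw [hs, hs, hxy]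
        have h3 := Nat.card_le_card_of_injective s h1
        rwa [Nat.card_eq_fintype_card (α := Bool), Fintype.card_bool] at h3
      have hr2 : r = 2 ∧ z = 2 := by
        rcases hR.hz with ⟨ho, hz⟩ | ⟨h1, hz⟩
        · exfalso
          have := hR.prime.two_le
          rw [hz] at hz2
          have : r = 2 := by omega
          rw [this] at ho
          exact absurd ho (by decide)
        · exact ⟨h1, by omega⟩
      obtain ⟨hr2, hz⟩ := hr2
      subst hr2
      subst hz
      have h20 : (2 : F) ≠ 0 := by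
        have := hR.rne
        exact_mod_cast this
      obtain ⟨hp, hchar, hcd, hzd, hmin⟩ := hmf
      have hpo : Odd p := by
        rcases hp.eq_two_or_odd' with h1 | h1
        · exact absurd h1.symm hrp
        · exact h1
      have he0 : 0 < e := by
        rw [Nat.pos_iff_ne_zero]
        rintro rfl
        rw [pow_zero] at hcd
        have := Fintype.one_lt_card (α := F)
        omega
      have he1 : e = 1 := by
        by_contra hne'
        apply hmin 1 (by norm_num) (by omega)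
        rw [pow_one]
        obtain ⟨j, hj⟩ := hpo
        exact ⟨j, by omega⟩
      rw [he1, pow_one] at hcd
      refine ⟨_, Or.inl (Or.inr (Or.inr (Or.inr (Or.inr (Or.inr (Or.inl ⟨R, p, k, hR.st, absIrred_of_alg hal, ?_, hp, hpo, hcd, ?_,
        hR.center, minus_type hf halt h20 hIR hal hc hR.card hR.deg, rfl⟩)))))), le_inf h hH⟩
      · intro x hx
        exact ⟨1, fun u v => by rw [hIR x hx, Units.val_one, one_mul]⟩
      · rw [hR.card, pow_add, pow_one, mul_comm]
    | tw m' t e P b hP ε₁ f₁ hf₁ hε _ hm' ht c hc hform hS hTW N hNH hnrd halg hperf hPT h =>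
      by_cases h20 : (2 : F) = 0
      · exact hquad h20 (tw_even b hf halt h20 ht hI hf₁ hc hform hTW)
      · have hε := hε rfl
        have hε1 : ε₁ = -1 := by
          rcases hf₁.eps with h1 | h1
          · rw [h1, one_pow] at hε
            exfalso; apply h20; linear_combination hε
          · exact h1
        have hto : Odd t := by
          rcases Nat.even_or_odd t with h1 | h1
          · rw [hε1, h1.neg_one_pow] at hε
            exfalso; apply h20; linear_combination hε
          · exact h1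
        rw [hε1] at hf₁
        refine ⟨_, Or.inr (Or.inr (Or.inr (Or.inr ⟨m', t, e, P, f₁, odd_card h20, hto, ?_, ?_,
          symp_of_fd hf₁ (alt_of_neg hf₁ h20), hS, rfl⟩))), le_inf h hH⟩
        · obtain ⟨j, hj⟩ := hto
          omega
        · rintro ⟨h3, hm2⟩
          subst hm2
          have hsolv := gl_two_three h3
          have h1 := PT_solvable b hperf (K := ⊤) (fun x hx => by
            obtain ⟨P, hP⟩ := hPT x hx
            exact ⟨P, fun s => Subgroup.mem_top _, hP⟩)
          apply not_scal_of_alg (by rw [hcard]; omega) halg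
          rw [h1]; exact bot_le
  · have hIN := hI.mono hcore.le
    by_cases hq : ∃ Q : (Fin m ⊕ Fin m → F) → F, IsNondegenerateQuadraticForm Q ∧ FixesQuadForm (matrixSet N) Q
    · obtain ⟨Q, hQ, hfix⟩ := hq
      left
      obtain ⟨h2, h⟩ := quad_core (by rw [hcard]; omega) hf halt hI hcore.le hcore.normal hcore.alg hQ hfix
      exact hquad h2 h
    · right
      exact ⟨N, ⟨hcore.le, hcore.normal, hcore.perfect, hcore.simple, hcore.nonabelian, hcore.centralizer_scalar,
        absIrred_of_alg hcore.alg, hreal⟩, hq, no_unitary hf hcore.alg hIN hreal⟩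

end CfsgLib.AschF
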