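import Mathlib
import Cfsg.Agent.LibAschF20

/-! orthonormal bases of hermitian forms; change of basis in tensor powers -/
set_option autoImplicit false
set_option linter.unusedSectionVars false

namespace CfsgLib.AschF

open Module Cfsg Cfsg.Geo CfsgLib.Asch1 CfsgLib.Asch2 CfsgLib.Asch3 CfsgLib.Asch4 CfsgLib.Asch5 CfsgLib.Asch6 CfsgLib.Asch7
  CfsgLib.Asch8 CfsgLib.Asch9
  CfsgLib.Asch10 CfsgLib.Asch11 CfsgLib.Asch12 CfsgLib.Asch13 CfsgLib.Asch14 CfsgLib.Asch15 CfsgLib.Asch16 CfsgLib.Asch17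
  CfsgLib.Asch18 CfsgLib.Asch19
open scoped Matrix MatrixGroups Kronecker

section gs
variable {ι : Type} [Fintype ι] [DecidableEq ι] {F : Type*} [Field F]
variable {σ : F ≃+* F} {f : (ι → F) → (ι → F) → F}

theorem exists_unit [Finite F] (hσ : σ ≠ RingEquiv.refl F) (hf : FD σ 1 f) {W : Submodule F (ι → F)} (hW : W ≠ ⊥)
    (hnd : IsNondegenerateOn f W) : ∃ w ∈ W, f w w = 1 := by
  have h1 : ∃ w ∈ W, f w w ≠ 0 := by
    by_contra hcon
    push Not at hcon
    obtain ⟨w, hw, hw0⟩ := Submodule.exists_mem_ne_zero_of_ne_bot hW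
    obtain ⟨⟨x, hx, hxw⟩, _⟩ := hnd w hw hw0
    have h2 : ∀ c : F, c * f x w + σ (c * f x w) = 0 := by
      intro c
      have h3 := hcon (c • x + w) (W.add_mem (W.smul_mem c hx) hw)
      rw [hf.add_left, hf.add_right, hf.add_right, hcon _ (W.smul_mem c hx), hcon w hw, hf.smul_left] at h3
      have h4 := hf.herm w (c • x)
      rw [one_mul, hf.smul_left] at h4
      rw [h4] at h3
      linear_combination h3
    have h3 : ∀ y : F, y + σ y = 0 := by
      intro y
      have := h2 (y * (f x w)⁻¹)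
      rwa [mul_assoc, inv_mul_cancel₀ hxw, mul_one] at this
    apply hσ
    ext y
    have h4 := h3 y
    have h5 := h3 1
    rw [map_one] at h5
    change σ y = y
    linear_combination h4 - y * h5
  obtain ⟨w, hw, hww⟩ := h1
  have h2 : σ (f w w) = f w w := by
    have := hf.herm w w
    rw [one_mul] at this
    exact this.symm
  obtain ⟨l, hl0, hl⟩ := norm_surj hσ hf.sq (inv_ne_zero hww) (by rw [map_inv₀, h2])
  refine ⟨l • w, W.smul_mem l hw, ?_⟩
  rw [hf.smul_left, hf.smul_right, ← mul_assoc, hl, inv_mul_cancel₀ hww]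

theorem orthonormal_li (hf : FD σ 1 f) {d : ℕ} {w : Fin d → ι → F} (hw : ∀ i j, f (w i) (w j) = if i = j then 1 else 0) :
    LinearIndependent F w := by
  rw [Fintype.linearIndependent_iff]
  intro g hg i
  have h1 := hf.zero_left (w i)
  rw [← hg, hf.sum_left, Finset.sum_eq_single i] at h1
  · rw [hf.smul_left, hw, if_pos rfl, mul_one] at h1; exact h1
  · intro j _ hj
    rw [hf.smul_left, hw, if_neg hj, mul_zero]
  · intro h; exact absurd (Finset.mem_univ i) h

theorem orthonormal_fam [Finite F] (hσ : σ ≠ RingEquiv.refl F) (hf : FD σ 1 f) (d : ℕ) (hd : d ≤ Fintype.card ι) :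
    ∃ w : Fin d → ι → F, ∀ i j, f (w i) (w j) = if i = j then 1 else 0 := by
  induction d with
  | zero => exact ⟨fun i => Fin.elim0 i, fun i => Fin.elim0 i⟩
  | succ d ih =>
    obtain ⟨w, hw⟩ := ih (by omega)
    set U := Submodule.span F (Set.range w) with hU
    have hrk : finrank F U = d := by
      rw [hU, finrank_span_eq_card (orthonormal_li hf hw), Fintype.card_fin]
    have hUp : U ⊓ perp hf U = ⊥ := by
      rw [eq_bot_iff]
      rintro v ⟨hv1, hv2⟩
      obtain ⟨c, hc⟩ := (Submodule.mem_span_range_iff_exists_fun F).1 hv1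
      have h1 : ∀ i, c i = 0 := by
        intro i
        have h3 : f v (w i) = 0 := (mem_perp' hf).1 hv2 _ (Submodule.subset_span ⟨i, rfl⟩)
        rw [← hc, hf.sum_left, Finset.sum_eq_single i] at h3
        · rw [hf.smul_left, hw, if_pos rfl, mul_one] at h3; exact h3
        · intro j _ hj
          rw [hf.smul_left, hw, if_neg hj, mul_zero]
        · intro h; exact absurd (Finset.mem_univ i) h
      rw [← hc]
      simp [h1]
    have hfr := finrank_perp hf U
    have hpb : perp hf U ≠ ⊥ := by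
      intro h
      rw [h, finrank_bot, hrk] at hfr
      omega
    obtain ⟨v, hv, hvv⟩ := exists_unit hσ hf hpb (nondeg_perp hf hUp)
    have hwv : ∀ i, f (w i) v = 0 := fun i => hv _ (Submodule.subset_span ⟨i, rfl⟩)
    refine ⟨Fin.snoc w v, ?_⟩
    intro i j
    refine Fin.lastCases ?_ (fun i => ?_) i
    · refine Fin.lastCases ?_ (fun j => ?_) j
      · rw [Fin.snoc_last, hvv, if_pos rfl]
      · rw [Fin.snoc_last, Fin.snoc_castSucc, hf.zero_comm (hwv j), if_neg]
        exact (Fin.castSucc_lt_last j).ne'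
    · refine Fin.lastCases ?_ (fun j => ?_) j
      · rw [Fin.snoc_last, Fin.snoc_castSucc, hwv, if_neg]
        exact (Fin.castSucc_lt_last i).ne
      · rw [Fin.snoc_castSucc, Fin.snoc_castSucc, hw]
        simp

/-- a matrix with orthonormal columns -/
theorem orthonormal_gl [Finite F] {k : ℕ} {f₁ : (Fin k → F) → (Fin k → F) → F} (hσ : σ ≠ RingEquiv.refl F)
    (hf : FD σ 1 f₁) : ∃ W : GL (Fin k) F, ∀ i j, f₁ (W.1 *ᵥ Pi.single i 1) (W.1 *ᵥ Pi.single j 1) = if i = j then 1 else 0 := by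
  classical
  obtain ⟨w, hw⟩ := orthonormal_fam hσ hf k (by rw [Fintype.card_fin])
  have hli := orthonormal_li hf hw
  let M : Matrix (Fin k) (Fin k) F := Matrix.of fun i j => w j i
  have hM : IsUnit M := by
    rw [← Matrix.linearIndependent_cols_iff_isUnit]
    exact hli
  obtain ⟨W, hW⟩ := hM
  refine ⟨W, fun i j => ?_⟩
  have h1 : ∀ i, W.1 *ᵥ Pi.single i 1 = w i := by
    intro i
    rw [hW, Matrix.mulVec_single_one]
    rfl
  rw [h1, h1, hw]

end gs

section tens
variable {ι : Type} [Fintype ι] [DecidableEq ι] {F : Type*} [Field F]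
variable {σ : F ≃+* F} {ε : F} {f : (ι → F) → (ι → F) → F}
variable {m t : ℕ} (b : Basis (Fin t → Fin m) F (ι → F))

theorem exists_PTr (P : Fin t → GL (Fin m) F) : ∃ g : GL ι F, PTr b g P := by
  classical
  let T : (Fin t → GL (Fin m) F) → Matrix ι ι F := fun P =>
    LinearMap.toMatrix' (b.constr F fun x => tens b (fun s => (P s).1 *ᵥ Pi.single (x s) 1))
  have hT : ∀ (P : Fin t → GL (Fin m) F) x, T P *ᵥ b x = tens b (fun s => (P s).1 *ᵥ Pi.single (x s) 1) := by
    intro P x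
    change LinearMap.toMatrix' _ *ᵥ b x = _
    rw [← Matrix.toLin'_apply, Matrix.toLin'_toMatrix', Basis.constr_basis]
  have hT' : ∀ (P : Fin t → GL (Fin m) F) (x : Fin t → Fin m), T P *ᵥ (b x) = ∑ y : Fin t → Fin m, (∏ s, (P s).1 (y s) (x s)) • b y := by
    intro P x
    rw [hT, tens]
    refine Finset.sum_congr rfl fun y _ => ?_
    congr 1
    refine Finset.prod_congr rfl fun s _ => ?_
    rw [Matrix.mulVec_single_one]
    rfl
  have hmul : ∀ P : Fin t → GL (Fin m) F, T P * T P⁻¹ = 1 := by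
    intro P
    apply ext_basis b
    intro x
    rw [← Matrix.mulVec_mulVec, hT, PT_tens b (hT' P), Matrix.one_mulVec]
    have : (fun s => (P s).1 *ᵥ ((P⁻¹ s).1 *ᵥ (Pi.single (x s) 1 : Fin m → F))) = fun s => Pi.single (x s) 1 := by
      funext s
      rw [Matrix.mulVec_mulVec, Pi.inv_apply, ← Units.val_mul, mul_inv_cancel, Units.val_one, Matrix.one_mulVec]
    rw [this, tens_single]
  have hmul' : T P⁻¹ * T P = 1 := by
    have := hmul P⁻¹
    rwa [inv_inv] at this
  exact ⟨⟨T P, T P⁻¹, hmul P, hmul'⟩, hT' P⟩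

/-- element of the tensor wreath product, with data -/
def TWr (g : Matrix ι ι F) (π : Equiv.Perm (Fin t)) (P : Fin t → GL (Fin m) F) : Prop :=
  ∀ x : Fin t → Fin m, g *ᵥ (b x) = ∑ y : Fin t → Fin m, (∏ s, (P s).1 (y s) (x s)) • b (y ∘ π.symm)

theorem TWr_single {g : Matrix ι ι F} {π : Equiv.Perm (Fin t)} {P : Fin t → GL (Fin m) F} (hg : TWr b g π P)
    (x : Fin t → Fin m) : g *ᵥ b x = tens b (fun s => (P (π.symm s)).1 *ᵥ Pi.single (x (π.symm s)) 1) := by
  classical
  rw [hg, tens]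
  refine Fintype.sum_equiv (Equiv.arrowCongr π (Equiv.refl (Fin m))) _ _ fun y => ?_
  have h1 : (Equiv.arrowCongr π (Equiv.refl (Fin m))) y = y ∘ π.symm := rfl
  rw [h1]
  congr 1
  rw [← Equiv.prod_comp π.symm]
  refine Finset.prod_congr rfl fun s _ => ?_
  rw [Matrix.mulVec_single_one]
  rfl

theorem tens_perm (π : Equiv.Perm (Fin t)) (u : Fin t → Fin m → F) :
    tens b (fun s => u (π.symm s)) = ∑ y : Fin t → Fin m, (∏ s, u s (y s)) • b (y ∘ π.symm) := by
  classical
  symm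
  rw [tens]
  refine Fintype.sum_equiv (Equiv.arrowCongr π (Equiv.refl (Fin m))) _ _ fun y => ?_
  have h1 : (Equiv.arrowCongr π (Equiv.refl (Fin m))) y = y ∘ π.symm := rfl
  rw [h1]
  congr 1
  rw [← Equiv.prod_comp π.symm]
  rfl

theorem TWr_tens {g : Matrix ι ι F} {π : Equiv.Perm (Fin t)} {P : Fin t → GL (Fin m) F} (hg : TWr b g π P)
    (u : Fin t → Fin m → F) : g *ᵥ tens b u = tens b (fun s => (P (π.symm s)).1 *ᵥ u (π.symm s)) := by
  classical
  have h0 := tens_perm b π (fun s => (P s).1 *ᵥ u s)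
  rw [h0]
  have h1 : g *ᵥ tens b u = ∑ x : Fin t → Fin m, (∏ s, u s (x s)) • ∑ y : Fin t → Fin m, (∏ s, (P s).1 (y s) (x s)) • b (y ∘ π.symm) := by
    rw [tens, Matrix.mulVec_sum]
    refine Finset.sum_congr rfl fun x _ => ?_
    rw [Matrix.mulVec_smul, hg]
  rw [h1]
  simp only [Finset.smul_sum, smul_smul]
  rw [Finset.sum_comm]
  refine Finset.sum_congr rfl fun y _ => ?_
  rw [← Finset.sum_smul]
  congr 1
  simp only [Matrix.mulVec, dotProduct]
  rw [Finset.prod_univ_sum, Fintype.piFinset_univ]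
  refine Finset.sum_congr rfl fun x _ => ?_
  rw [← Finset.prod_mul_distrib]
  exact Finset.prod_congr rfl fun s _ => mul_comm _ _

/-- change of basis in all factors -/
theorem change_basis (W : GL (Fin m) F) : ∃ b' : Basis (Fin t → Fin m) F (ι → F), ∀ u, tens b' u = tens b (fun s => W.1 *ᵥ u s) := by
  classical
  obtain ⟨T, hT⟩ := exists_PTr b (fun _ => W)
  let b' := b.map (le T)
  have hb' : ∀ x, b' x = (T : Matrix ι ι F) *ᵥ b x := by
    intro x
    rw [Basis.map_apply]; rfl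
  refine ⟨b', fun u => ?_⟩
  have h1 : tens b' u = (T : Matrix ι ι F) *ᵥ tens b u := by
    rw [tens, tens, Matrix.mulVec_sum]
    refine Finset.sum_congr rfl fun x _ => ?_
    rw [Matrix.mulVec_smul, hb']
  rw [h1, PT_tens b hT]

theorem TWr_change {W : GL (Fin m) F} {b' : Basis (Fin t → Fin m) F (ι → F)}
    (hb' : ∀ u, tens b' u = tens b (fun s => W.1 *ᵥ u s)) {g : Matrix ι ι F} {π : Equiv.Perm (Fin t)}
    {P : Fin t → GL (Fin m) F} (hg : TWr b g π P) : TWr b' g π (fun s => W⁻¹ * P s * W) := by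
  intro x
  have h1 := tens_perm b' π (fun s => (W⁻¹ * P s * W).1 *ᵥ Pi.single (x s) 1)
  have h2 : ∑ y : Fin t → Fin m, (∏ s, ((W⁻¹ * P s * W).1 *ᵥ Pi.single (x s) 1 : Fin m → F) (y s)) • b' (y ∘ π.symm) =
      ∑ y : Fin t → Fin m, (∏ s, (W⁻¹ * P s * W).1 (y s) (x s)) • b' (y ∘ π.symm) := by
    refine Finset.sum_congr rfl fun y _ => ?_
    congr 1
    refine Finset.prod_congr rfl fun s _ => ?_
    rw [Matrix.mulVec_single_one]; rfl
  rw [← h2, ← h1, ← tens_single b' x, hb', hb', TWr_tens b hg]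
  congr 1
  funext s
  rw [Matrix.mulVec_mulVec, Matrix.mulVec_mulVec]
  congr 1
  rw [Units.val_mul, Units.val_mul, ← mul_assoc, ← mul_assoc, ← Units.val_mul W W⁻¹, mul_inv_cancel, Units.val_one, one_mul]

theorem form_change (hf : FD σ ε f) {ε₁ : F} {f₁ : (Fin m → F) → (Fin m → F) → F} (hf₁ : FD σ ε₁ f₁) {c : F}
    (hform : ∀ x y, f (b x) (b y) = c * ∏ s, gramMatrix f₁ (x s) (y s)) {W : GL (Fin m) F}
    (hW : ∀ i j, f₁ (W.1 *ᵥ Pi.single i 1) (W.1 *ᵥ Pi.single j 1) = if i = j then 1 else 0)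
    {b' : Basis (Fin t → Fin m) F (ι → F)} (hb' : ∀ u, tens b' u = tens b (fun s => W.1 *ᵥ u s)) (x y : Fin t → Fin m) :
    f (b' x) (b' y) = if x = y then c else 0 := by
  classical
  rw [← tens_single b' x, ← tens_single b' y, hb', hb', tens_form b hf hf₁ hform]
  simp only [hW]
  by_cases h : x = y
  · subst h; simp
  · rw [if_neg h]
    obtain ⟨s, hs⟩ := Function.ne_iff.1 h
    rw [Finset.prod_eq_zero (Finset.mem_univ s) (if_neg hs), mul_zero]

end tens

end CfsgLib.AschF
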