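import Mathlib
import Cfsg.Agent.LibAschF21

/-! unitary case: subfield groups -/
set_option autoImplicit false
set_option linter.unusedSectionVars false

namespace CfsgLib.AschF

open Module Cfsg Cfsg.Geo CfsgLib.Asch1 CfsgLib.Asch2 CfsgLib.Asch3 CfsgLib.Asch4 CfsgLib.Asch5 CfsgLib.Asch6 CfsgLib.Asch7
  CfsgLib.Asch8 CfsgLib.Asch9
  CfsgLib.Asch10 CfsgLib.Asch11 CfsgLib.Asch12 CfsgLib.Asch13 CfsgLib.Asch14 CfsgLib.Asch15 CfsgLib.Asch16 CfsgLib.Asch17
  CfsgLib.Asch18 CfsgLib.Asch19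
open scoped Matrix MatrixGroups Kronecker

variable {ι : Type} [Fintype ι] [DecidableEq ι] {F : Type*} [Field F]
variable {σ : F ≃+* F} {ε : F} {f : (ι → F) → (ι → F) → F}

theorem scale_P (F₀ : Subfield F) (P : GL ι F) {l : F} (hl : l ≠ 0) :
    ∃ P' : GL ι F, (P' : Matrix ι ι F) = l • (P : Matrix ι ι F) ∧ subfieldSubgroup F₀ P' = subfieldSubgroup F₀ P := by
  let P' : GL ι F := ⟨l • (P : Matrix ι ι F), l⁻¹ • ((P⁻¹ : GL ι F) : Matrix ι ι F), by
    rw [Matrix.smul_mul, Matrix.mul_smul, smul_smul, mul_inv_cancel₀ hl, one_smul, ← Units.val_mul, mul_inv_cancel, Units.val_one], by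
    rw [Matrix.smul_mul, Matrix.mul_smul, smul_smul, inv_mul_cancel₀ hl, one_smul, ← Units.val_mul, inv_mul_cancel, Units.val_one]⟩
  refine ⟨P', rfl, ?_⟩
  have h : MulAut.conj P' = MulAut.conj P := by
    ext1 g
    rw [MulAut.conj_apply, MulAut.conj_apply]
    apply Units.ext
    rw [Units.val_mul, Units.val_mul, Units.val_mul, Units.val_mul]
    change (l • (P : Matrix ι ι F)) * (g : Matrix ι ι F) * (l⁻¹ • ((P⁻¹ : GL ι F) : Matrix ι ι F)) = _
    rw [Matrix.smul_mul, Matrix.smul_mul, Matrix.mul_smul, smul_smul, mul_inv_cancel₀ hl, one_smul]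
  rw [subfieldSubgroup, subfieldSubgroup, h]

/-- σ is non-trivial on a subfield of odd degree -/
theorem sigma_odd [Fintype F] (hσ : σ ≠ RingEquiv.refl F) (hsq : ∀ a, σ (σ a) = a) (F₀ : Subfield F) {r : ℕ}
    (hr : Odd r) (hc : Fintype.card F = Nat.card F₀ ^ r) : ∃ b ∈ F₀, σ b ≠ b := by
  classical
  by_contra hcon
  push Not at hcon
  have : Fintype F₀ := Fintype.ofFinite _
  have h1 : finrank F₀ F = r := by
    have h2 := Module.card_eq_pow_finrank (K := F₀) (V := F)
    rw [hc, Nat.card_eq_fintype_card] at h2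
    have h3 : 1 < Fintype.card F₀ := Fintype.one_lt_card
    exact (Nat.pow_right_injective h3 h2).symm
  let s : F ≃ₐ[F₀] F := AlgEquiv.ofRingEquiv (f := σ) (fun x => hcon x x.2)
  have hs1 : s * s = 1 := by
    ext x
    exact hsq x
  have hs2 : s ≠ 1 := by
    intro h
    apply hσ
    ext x
    exact congrArg (fun t : F ≃ₐ[F₀] F => t x) h
  have hord : orderOf s = 2 := orderOf_eq_prime (by rw [sq, hs1]) hs2
  have h3 : orderOf s ∣ Nat.card (F ≃ₐ[F₀] F) := orderOf_dvd_natCard s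
  rw [IsGalois.card_aut_eq_finrank, h1, hord] at h3
  rw [← Nat.not_even_iff_odd] at hr
  exact hr ((even_iff_two_dvd).2 h3)

theorem form_cols (hf : FD σ ε f) (P : GL ι F) (u v : ι → F) : f ((P : Matrix ι ι F) *ᵥ u) ((P : Matrix ι ι F) *ᵥ v) =
    ∑ i, ∑ j, u i * f ((P : Matrix ι ι F) *ᵥ Pi.single i 1) ((P : Matrix ι ι F) *ᵥ Pi.single j 1) * σ (v j) := by
  have hu : ∀ w : ι → F, w = ∑ i, w i • (Pi.single i 1 : ι → F) := by
    intro w; ext j; simp [Finset.sum_apply, Pi.single_apply]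
  conv_lhs => rw [hu u, hu v]
  rw [Matrix.mulVec_sum, Matrix.mulVec_sum, hf.sum_left]
  refine Finset.sum_congr rfl fun i _ => ?_
  rw [hf.sum_right]
  refine Finset.sum_congr rfl fun j _ => ?_
  rw [Matrix.mulVec_smul, Matrix.mulVec_smul, hf.smul_left, hf.smul_right]; ring

theorem exists_entry [Nonempty ι] (hf : FD σ ε f) (P : GL ι F) :
    ∃ i j, f ((P : Matrix ι ι F) *ᵥ Pi.single i 1) ((P : Matrix ι ι F) *ᵥ Pi.single j 1) ≠ 0 := by
  by_contra hcon
  push Not at hcon
  obtain ⟨w, hw⟩ := exists_ne (0 : ι → F)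
  apply hw
  apply hf.ext_right
  intro u
  have h1 := form_cols hf P (((P⁻¹ : GL ι F) : Matrix ι ι F) *ᵥ u) (((P⁻¹ : GL ι F) : Matrix ι ι F) *ᵥ w)
  rw [Matrix.mulVec_mulVec, Matrix.mulVec_mulVec, ← Units.val_mul, mul_inv_cancel, Units.val_one,
    Matrix.one_mulVec, Matrix.one_mulVec] at h1
  rw [h1, hf.zero_right]
  refine Finset.sum_eq_zero fun i _ => Finset.sum_eq_zero fun j _ => ?_
  rw [hcon i j]; simp

theorem single_mem (F₀ : Subfield F) (i : ι) : ∀ j, (Pi.single i 1 : ι → F) j ∈ F₀ := by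
  intro j
  by_cases h : j = i
  · subst h; rw [Pi.single_eq_same]; exact F₀.one_mem
  · rw [Pi.single_eq_of_ne h]; exact F₀.zero_mem

theorem ratio_mem [Finite F] [Nonempty ι] (hf : FD σ 1 f) {F₀ : Subfield F} {P : GL ι F} {ζ : F} (hζ : ζ ≠ 0)
    (hS : IsFormRationalStructure f F₀ ζ P) : ζ / σ ζ ∈ F₀ := by
  obtain ⟨i, j, hij⟩ := exists_entry hf P
  have h1 := hS _ _ (single_mem F₀ i) (single_mem F₀ j)
  have h2 := hS _ _ (single_mem F₀ j) (single_mem F₀ i)
  have h3 := sigma_mem σ F₀ h1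
  rw [hf.herm, one_mul] at h2
  rw [map_mul] at h3
  have h4 := F₀.div_mem h2 h3
  have h5 : σ (f ((P : Matrix ι ι F) *ᵥ Pi.single i 1) ((P : Matrix ι ι F) *ᵥ Pi.single j 1)) ≠ 0 := by
    simpa using hij
  rwa [mul_div_mul_right _ _ h5] at h4

/-- odd degree: the form can be normalised -/
theorem sub_odd [Fintype F] [Nonempty ι] (hσ : σ ≠ RingEquiv.refl F) (hf : FD σ 1 f) {F₀ : Subfield F} {r : ℕ}
    (hr : Odd r) (hc : Fintype.card F = Nat.card F₀ ^ r) {P : GL ι F} {ζ : F} (hζ : ζ ≠ 0)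
    (hS : IsFormRationalStructure f F₀ ζ P) : ∃ P' : GL ι F, IsFormRationalStructure f F₀ 1 P' ∧
      subfieldSubgroup F₀ P' = subfieldSubgroup F₀ P := by
  obtain ⟨b, hb, hbσ⟩ := sigma_odd hσ hf.sq F₀ hr hc
  have hcm := ratio_mem hf hζ hS
  have hσζ : σ ζ ≠ 0 := by simpa using hζ
  set c := ζ / σ ζ with hcdef
  have hcc : c * σ c = 1 := by
    rw [hcdef, map_div₀, hf.sq]; field_simp
  -- Hilbert 90 inside F₀
  have hex : ∃ a ∈ F₀, a ≠ 0 ∧ σ a * c = a := by
    have hb' : ∃ d ∈ F₀, d + c * σ d ≠ 0 := by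
      by_contra hcon
      push Not at hcon
      have h1 := hcon 1 F₀.one_mem
      rw [map_one, mul_one] at h1
      have h2 := hcon b hb
      apply hbσ
      have h3 : c = -1 := by linear_combination h1
      rw [h3] at h2
      linear_combination -h2
    obtain ⟨d, hd, hd0⟩ := hb'
    refine ⟨d + c * σ d, F₀.add_mem hd (F₀.mul_mem hcm (sigma_mem σ F₀ hd)), hd0, ?_⟩
    rw [map_add, map_mul, hf.sq]
    linear_combination d * hcc
  obtain ⟨a, ha, ha0, hac⟩ := hex
  have hσa : σ a ≠ 0 := by simpa using ha0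
  have hfix : σ (ζ / a) = ζ / a := by
    rw [map_div₀, div_eq_div_iff hσa ha0]
    rw [hcdef] at hac
    have h1 : σ a * ζ = a * σ ζ := by
      field_simp at hac
      linear_combination hac
    linear_combination -h1
  obtain ⟨l, hl0, hl⟩ := norm_surj hσ hf.sq (div_ne_zero hζ ha0) hfix
  obtain ⟨P', hP', hsub⟩ := scale_P F₀ P hl0
  refine ⟨P', fun u v hu hv => ?_, hsub⟩
  rw [hP', Matrix.smul_mulVec, Matrix.smul_mulVec, hf.smul_left, hf.smul_right, one_mul, ← mul_assoc, hl]
  have h1 := F₀.div_mem (hS u v hu hv) ha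
  have h2 : ζ / a * f ((P : Matrix ι ι F) *ᵥ u) ((P : Matrix ι ι F) *ᵥ v) =
      ζ * f ((P : Matrix ι ι F) *ᵥ u) ((P : Matrix ι ι F) *ᵥ v) / a := by ring
  rw [h2]; exact h1

/-- degree two: σ is trivial on the subfield -/
theorem sigma_two [Fintype F] {q : ℕ} (hσq : ∀ x, σ x = x ^ q) (hF : Fintype.card F = q ^ 2) {F₀ : Subfield F}
    (hc : Fintype.card F = Nat.card F₀ ^ 2) (x : F) : x ∈ F₀ ↔ σ x = x := by
  have hq : Nat.card F₀ = q := by
    rw [hF] at hc
    exact (Nat.pow_left_injective (n := 2) (by norm_num) hc).symm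
  have : Fintype F₀ := Fintype.ofFinite _
  constructor
  · intro hx
    have h1 := FiniteField.pow_card (⟨x, hx⟩ : F₀)
    rw [← Nat.card_eq_fintype_card, hq] at h1
    rw [hσq]
    exact congrArg Subtype.val h1
  · intro hx
    rw [hσq] at hx
    apply mem_subfield_of_pow
    rw [hq, hx]

/-- the alternating matrix attached to an alternating rational structure -/
theorem alt_even [Nonempty ι] (hf : FD σ 1 f) (P : GL ι F) (G : Matrix ι ι F) {ζ : F} (hζ : ζ ≠ 0)
    (hG : ∀ i j, G i j = ζ * f ((P : Matrix ι ι F) *ᵥ Pi.single i 1) ((P : Matrix ι ι F) *ᵥ Pi.single j 1))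
    (hskew : ∀ i j, G i j = - G j i) (hdiag : ∀ i, G i i = 0) : Even (Fintype.card ι) := by
  classical
  have hnd : IsUnit G.det := by
    rw [isUnit_iff_ne_zero]
    intro h0
    obtain ⟨v, hv, hv0⟩ := Matrix.exists_mulVec_eq_zero_iff.2 h0
    -- vector w = P σ⁻¹ v is in the radical
    apply hv
    have h1 : (P : Matrix ι ι F) *ᵥ (fun i => σ (v i)) = 0 := by
      apply hf.ext_right
      intro u
      have h2 := form_cols hf P (((P⁻¹ : GL ι F) : Matrix ι ι F) *ᵥ u) (fun i => σ (v i))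
      rw [Matrix.mulVec_mulVec u, ← Units.val_mul, mul_inv_cancel, Units.val_one, Matrix.one_mulVec] at h2
      rw [h2, hf.zero_right]
      refine Finset.sum_eq_zero fun i _ => ?_
      have h3 := congrFun hv0 i
      rw [Matrix.mulVec, dotProduct] at h3
      have h4 : ∑ j, f ((P : Matrix ι ι F) *ᵥ Pi.single i 1) ((P : Matrix ι ι F) *ᵥ Pi.single j 1) * v j = 0 := by
        have h5 : ζ * ∑ j, f ((P : Matrix ι ι F) *ᵥ Pi.single i 1) ((P : Matrix ι ι F) *ᵥ Pi.single j 1) * v j = 0 := by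
          rw [Finset.mul_sum]
          have : (0 : ι → F) i = 0 := rfl
          rw [← this, ← h3]
          exact Finset.sum_congr rfl fun j _ => by rw [hG]; ring
        exact (mul_eq_zero.1 h5).resolve_left hζ
      calc ∑ j, (((P⁻¹ : GL ι F) : Matrix ι ι F) *ᵥ u) i * f ((P : Matrix ι ι F) *ᵥ Pi.single i 1) ((P : Matrix ι ι F) *ᵥ Pi.single j 1) * σ (σ (v j))
          = (((P⁻¹ : GL ι F) : Matrix ι ι F) *ᵥ u) i * ∑ j, f ((P : Matrix ι ι F) *ᵥ Pi.single i 1) ((P : Matrix ι ι F) *ᵥ Pi.single j 1) * v j := by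
            rw [Finset.mul_sum]
            exact Finset.sum_congr rfl fun j _ => by rw [hf.sq]; ring
        _ = 0 := by rw [h4, mul_zero]
    have h2 : (fun i => σ (v i)) = 0 := by
      have h3 := congrArg (fun w => ((P⁻¹ : GL ι F) : Matrix ι ι F) *ᵥ w) h1
      simp only [Matrix.mulVec_mulVec, ← Units.val_mul, inv_mul_cancel, Units.val_one, Matrix.one_mulVec, Matrix.mulVec_zero] at h3
      exact h3
    ext i
    have := congrFun h2 i
    simpa using this
  -- symplectic form with Gram matrix G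
  let g : (ι → F) → (ι → F) → F := fun u v => u ⬝ᵥ (G *ᵥ v)
  have hg : IsSymplecticForm g := by
    have hskew' : ∀ u v, g u v = - g v u := by
      intro u v
      simp only [g, dotProduct, Matrix.mulVec, Finset.mul_sum]
      rw [Finset.sum_comm, ← Finset.sum_neg_distrib]
      refine Finset.sum_congr rfl fun i _ => ?_
      rw [← Finset.sum_neg_distrib]
      refine Finset.sum_congr rfl fun j _ => ?_
      rw [hskew j i]; ring
    have hnz : ∀ v : ι → F, v ≠ 0 → ∃ x, g x v ≠ 0 := by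
      intro v hv
      have h1 : G *ᵥ v ≠ 0 := by
        intro h
        apply hv
        have h3 := congrArg (fun w => G⁻¹ *ᵥ w) h
        simp only [Matrix.mulVec_mulVec, Matrix.nonsing_inv_mul G hnd, Matrix.one_mulVec, Matrix.mulVec_zero] at h3
        exact h3
      obtain ⟨i, hi⟩ := Function.ne_iff.1 h1
      refine ⟨Pi.single i 1, ?_⟩
      simp only [g, single_one_dotProduct]
      exact hi
    refine ⟨⟨?_, ?_, ?_, ?_⟩, hskew', ?_, ?_⟩
    · intro x y v; simp only [g, add_dotProduct]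
    · intro c x v; simp only [g, smul_dotProduct, smul_eq_mul]
    · intro v x y; simp only [g, Matrix.mulVec_add, dotProduct_add]
    · intro c v x; simp only [g, Matrix.mulVec_smul, dotProduct_smul, smul_eq_mul]
    · intro v
      -- alternating: split the double sum
      simp only [g, dotProduct, Matrix.mulVec, Finset.mul_sum]
      have h1 : ∑ i, ∑ j, v i * (G i j * v j) = ∑ p : ι × ι, v p.1 * (G p.1 p.2 * v p.2) := by
        rw [Fintype.sum_prod_type]
      rw [h1]
      refine Finset.sum_involution (fun p _ => (p.2, p.1)) ?_ ?_ ?_ ?_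
      · intro p _
        rw [hskew p.1 p.2]; ring
      · intro p _ hp hpp
        apply hp
        have : p.1 = p.2 := by
          have := congrArg Prod.fst hpp
          exact this.symm
        rw [← this, hdiag]; ring
      · intro p _; exact Finset.mem_univ _
      · intro p _; rfl
    · intro v hv
      obtain ⟨x, hx⟩ := hnz v hv
      refine ⟨⟨x, hx⟩, ⟨x, ?_⟩⟩
      rw [hskew']; exact neg_ne_zero.2 hx
  exact symplectic_even hg

theorem sub_two [Fintype F] [Nonempty ι] (hn : 2 ≤ Fintype.card ι) (hf : FD σ 1 f) {q : ℕ} (hσq : ∀ x, σ x = x ^ q)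
    (hF : Fintype.card F = q ^ 2) {F₀ : Subfield F}
    (hc : Fintype.card F = Nat.card F₀ ^ 2) {P : GL ι F} {ζ : F} (hζ : ζ ≠ 0)
    (hS : IsFormRationalStructure f F₀ ζ P) {N : Subgroup (GL ι F)} (hN : Iso f N) (halg : alg N = ⊤)
    (hreal : ∀ x ∈ N, ∀ i j, (((P⁻¹ : GL ι F) : Matrix ι ι F) * (x : Matrix ι ι F) * (P : Matrix ι ι F)) i j ∈ F₀) :
    (Odd q ∧ IsFormRationalStructure f F₀ 1 P) ∨
    (Even (Fintype.card ι) ∧ ∃ ζ' : F, ζ' ≠ 0 ∧ ζ' + ζ' ^ q = 0 ∧ IsFormRationalStructure f F₀ ζ' P ∧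
      ∀ u : ι → F, (∀ i, u i ∈ F₀) → f ((P : Matrix ι ι F) *ᵥ u) ((P : Matrix ι ι F) *ᵥ u) = 0) := by
  classical
  have hmem := fun x => sigma_two hσq hF hc (x := x)
  have hcm := ratio_mem hf hζ hS
  have hσζ : σ ζ ≠ 0 := by simpa using hζ
  have hcc : (ζ / σ ζ) * (ζ / σ ζ) = 1 := by
    have h1 := (hmem _).1 hcm
    rw [map_div₀, hf.sq] at h1
    have h2 : ζ / σ ζ * (σ ζ / ζ) = 1 := by field_simp
    rwa [h1] at h2
  have hodd : (2 : F) ≠ 0 → Odd q := by
    intro h2
    have := odd_card h2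
    rw [hF] at this
    exact (Nat.odd_pow_iff (by norm_num)).1 this
  by_cases h1 : ζ / σ ζ = 1
  · -- ζ ∈ F₀
    have hζ0 : ζ ∈ F₀ := by
      rw [hmem]
      exact ((div_eq_one_iff_eq hσζ).1 h1).symm
    have hS1 : IsFormRationalStructure f F₀ 1 P := by
      intro u v hu hv
      have h2 := F₀.div_mem (hS u v hu hv) hζ0
      rw [mul_div_cancel_left₀ _ hζ] at h2
      rwa [one_mul]
    by_cases h2 : (2 : F) = 0
    swap
    · exact Or.inl ⟨hodd h2, hS1⟩
    right
    -- the diagonal vanishes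
    set e : ι → (ι → F) := fun i => (P : Matrix ι ι F) *ᵥ Pi.single i 1 with he
    have hsym : ∀ i j, f (e j) (e i) = f (e i) (e j) := by
      intro i j
      rw [hf.herm, one_mul]
      have h3 := hS1 _ _ (single_mem F₀ i) (single_mem F₀ j)
      rw [one_mul] at h3
      exact (hmem _).1 h3
    have hexp : ∀ u : ι → F, (∀ i, u i ∈ F₀) → f ((P : Matrix ι ι F) *ᵥ u) ((P : Matrix ι ι F) *ᵥ u) =
        ∑ i, (u i) ^ 2 * f (e i) (e i) := by
      intro u hu
      rw [form_cols hf]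
      have h3 : ∑ i, ∑ j, u i * f (e i) (e j) * σ (u j) = ∑ p : ι × ι, u p.1 * f (e p.1) (e p.2) * u p.2 := by
        rw [Fintype.sum_prod_type]
        refine Finset.sum_congr rfl fun i _ => Finset.sum_congr rfl fun j _ => ?_
        rw [(hmem _).1 (hu j)]
      change ∑ i, ∑ j, u i * f (e i) (e j) * σ (u j) = _
      rw [h3, ← Finset.sum_filter_add_sum_filter_not Finset.univ (fun p : ι × ι => p.1 = p.2)]
      have h4 : ∑ p ∈ Finset.univ.filter (fun p : ι × ι => ¬ p.1 = p.2), u p.1 * f (e p.1) (e p.2) * u p.2 = 0 := by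
        refine Finset.sum_involution (fun p _ => (p.2, p.1)) ?_ ?_ ?_ ?_
        · intro p _
          rw [hsym p.1 p.2]
          linear_combination (u p.1 * f (e p.1) (e p.2) * u p.2) * h2
        · intro p hp _ hpp
          have h5 := (Finset.mem_filter.1 hp).2
          exact h5 (congrArg Prod.fst hpp).symm
        · intro p hp
          rw [Finset.mem_filter] at hp ⊢
          exact ⟨Finset.mem_univ _, fun h => hp.2 h.symm⟩
        · intro p _; rfl
      rw [h4, add_zero]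
      refine Finset.sum_nbij' (fun p : ι × ι => p.1) (fun i => (i, i)) ?_ ?_ ?_ ?_ ?_
      · intro p _; exact Finset.mem_univ _
      · intro i _; rw [Finset.mem_filter]; exact ⟨Finset.mem_univ _, rfl⟩
      · rintro ⟨i, j⟩ hp
        have h5 := (Finset.mem_filter.1 hp).2
        simp only at h5
        simp [h5]
      · intro i _; rfl
      · rintro ⟨i, j⟩ hp
        have h5 := (Finset.mem_filter.1 hp).2
        simp only at h5
        subst h5
        ring
    -- semilinear function on F^n through P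
    let D : (ι → F) → F := fun x => ∑ i, ((((P⁻¹ : GL ι F) : Matrix ι ι F) *ᵥ x) i) ^ 2 * f (e i) (e i)
    have hsq : ∀ x y : F, (x + y) ^ 2 = x ^ 2 + y ^ 2 := by
      intro x y; linear_combination x * y * h2
    have hDadd : ∀ x y, D (x + y) = D x + D y := by
      intro x y
      simp only [D, Matrix.mulVec_add, Pi.add_apply, hsq, add_mul, Finset.sum_add_distrib]
    have hDsm : ∀ (c : F) x, D (c • x) = c ^ 2 * D x := by
      intro c x
      simp only [D, Matrix.mulVec_smul, Pi.smul_apply, smul_eq_mul, Finset.mul_sum, mul_pow, mul_assoc]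
    have hPi : ∀ u, ((P⁻¹ : GL ι F) : Matrix ι ι F) *ᵥ ((P : Matrix ι ι F) *ᵥ u) = u := by
      intro u
      rw [Matrix.mulVec_mulVec, ← Units.val_mul, inv_mul_cancel, Units.val_one, Matrix.one_mulVec]
    have hPi' : ∀ u, (P : Matrix ι ι F) *ᵥ (((P⁻¹ : GL ι F) : Matrix ι ι F) *ᵥ u) = u := by
      intro u
      rw [Matrix.mulVec_mulVec, ← Units.val_mul, mul_inv_cancel, Units.val_one, Matrix.one_mulVec]
    have hDP : ∀ u : ι → F, (∀ i, u i ∈ F₀) → D ((P : Matrix ι ι F) *ᵥ u) = f ((P : Matrix ι ι F) *ᵥ u) ((P : Matrix ι ι F) *ᵥ u) := by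
      intro u hu
      rw [hexp u hu]
      simp only [D, hPi]
    -- basis of columns
    let b : Basis ι F (ι → F) := (Pi.basisFun F ι).map (le P)
    have hb : ∀ i, b i = e i := by
      intro i
      rw [Basis.map_apply, Pi.basisFun_apply]; rfl
    have hDinv : ∀ x ∈ N, ∀ v, D ((x : Matrix ι ι F) *ᵥ v) = D v := by
      intro x hx v
      have h3 := semi_zero b (fun v => D ((x : Matrix ι ι F) *ᵥ v) - D v) (by
        intro u v
        simp only [Matrix.mulVec_add, hDadd]; ring) (by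
        intro c v
        simp only [Matrix.mulVec_smul, hDsm]; ring) (by
        intro k
        simp only [hb]
        have h4 : (x : Matrix ι ι F) *ᵥ e k = (P : Matrix ι ι F) *ᵥ
            ((((P⁻¹ : GL ι F) : Matrix ι ι F) * (x : Matrix ι ι F) * (P : Matrix ι ι F)) *ᵥ Pi.single k 1) := by
          rw [← Matrix.mulVec_mulVec, ← Matrix.mulVec_mulVec, hPi']
        have h5 : ∀ i, ((((P⁻¹ : GL ι F) : Matrix ι ι F) * (x : Matrix ι ι F) * (P : Matrix ι ι F)) *ᵥ Pi.single k 1) i ∈ F₀ := by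
          intro i
          rw [Matrix.mulVec_single_one]
          exact hreal x hx i k
        rw [h4, hDP _ h5, ← h4, he]
        simp only
        rw [hDP _ (single_mem F₀ k), hN x hx, sub_self]) v
      exact sub_eq_zero.1 h3
    have hD0 := semi_kernel h2 hn (absIrred_of_alg halg).1 D hDadd hDsm (by
      intro x hx v hv
      rw [hDinv x hx, hv])
    have halt : ∀ u : ι → F, (∀ i, u i ∈ F₀) → f ((P : Matrix ι ι F) *ᵥ u) ((P : Matrix ι ι F) *ᵥ u) = 0 := by
      intro u hu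
      rw [← hDP u hu, hD0]
    refine ⟨alt_even hf P (Matrix.of fun i j => f (e i) (e j)) one_ne_zero (fun i j => by rw [one_mul]; rfl) ?_ ?_, 1, one_ne_zero, ?_, hS1, halt⟩
    · intro i j
      rw [Matrix.of_apply, Matrix.of_apply, hsym i j]
      linear_combination (f (e i) (e j)) * h2
    · intro i
      exact halt _ (single_mem F₀ i)
    · rw [one_pow]; linear_combination h2
  · have h3 : ζ / σ ζ = -1 := (mul_self_eq_one_iff.1 hcc).resolve_left h1
    have h2 : (2 : F) ≠ 0 := by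
      intro h2
      apply h1
      rw [h3]; linear_combination -h2
    have hζσ : σ ζ = - ζ := by
      rw [div_eq_iff hσζ] at h3
      linear_combination h3
    right
    have hT : ∀ u v : ι → F, (∀ i, u i ∈ F₀) → (∀ i, v i ∈ F₀) →
        ζ * f ((P : Matrix ι ι F) *ᵥ u) ((P : Matrix ι ι F) *ᵥ v) = - (ζ * f ((P : Matrix ι ι F) *ᵥ v) ((P : Matrix ι ι F) *ᵥ u)) := by
      intro u v hu hv
      have h4 := (hmem _).1 (hS u v hu hv)
      rw [map_mul, hζσ] at h4
      have h5 := hf.herm ((P : Matrix ι ι F) *ᵥ v) ((P : Matrix ι ι F) *ᵥ u)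
      rw [one_mul] at h5
      rw [h5, ← h4]; ring
    have halt : ∀ u : ι → F, (∀ i, u i ∈ F₀) → f ((P : Matrix ι ι F) *ᵥ u) ((P : Matrix ι ι F) *ᵥ u) = 0 := by
      intro u hu
      have h4 := hT u u hu hu
      have h5 : (2 : F) * (ζ * f ((P : Matrix ι ι F) *ᵥ u) ((P : Matrix ι ι F) *ᵥ u)) = 0 := by linear_combination h4
      exact (mul_eq_zero.1 ((mul_eq_zero.1 h5).resolve_left h2)).resolve_left hζ
    refine ⟨alt_even hf P (Matrix.of fun i j => ζ * f ((P : Matrix ι ι F) *ᵥ Pi.single i 1) ((P : Matrix ι ι F) *ᵥ Pi.single j 1)) hζ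
      (fun i j => rfl) ?_ ?_, ζ, hζ, ?_, hS, halt⟩
    · intro i j
      exact hT _ _ (single_mem F₀ i) (single_mem F₀ j)
    · intro i
      rw [Matrix.of_apply, halt _ (single_mem F₀ i), mul_zero]
    · rw [← hσq, hζσ]; ring

end CfsgLib.AschF
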