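import Mathlib
import Cfsg.Agent.LibAschF22

/-! unitary tensor decompositions with equal factors -/
set_option autoImplicit false
set_option linter.unusedSectionVars false

namespace CfsgLib.AschF

open Module Cfsg Cfsg.Geo CfsgLib.Asch1 CfsgLib.Asch2 CfsgLib.Asch3 CfsgLib.Asch4 CfsgLib.Asch5 CfsgLib.Asch6 CfsgLib.Asch7
  CfsgLib.Asch8 CfsgLib.Asch9
  CfsgLib.Asch10 CfsgLib.Asch11 CfsgLib.Asch12 CfsgLib.Asch13 CfsgLib.Asch14 CfsgLib.Asch15 CfsgLib.Asch16 CfsgLib.Asch17
  CfsgLib.Asch18 CfsgLib.Asch19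
open scoped Matrix MatrixGroups Kronecker

variable {ι : Type} [Fintype ι] [DecidableEq ι] {F : Type*} [Field F]
variable {σ : F ≃+* F} {ε : F} {f : (ι → F) → (ι → F) → F}

section
variable {m t : ℕ} (b : Basis (Fin t → Fin m) F (ι → F))

theorem change_basis' (W : Fin t → GL (Fin m) F) :
    ∃ b' : Basis (Fin t → Fin m) F (ι → F), ∀ u, tens b' u = tens b (fun s => (W s).1 *ᵥ u s) := by
  classical
  obtain ⟨T, hT⟩ := exists_PTr b W
  let b' := b.map (le T)
  have hb' : ∀ x, b' x = (T : Matrix ι ι F) *ᵥ b x := by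
    intro x
    rw [Basis.map_apply]; rfl
  refine ⟨b', fun u => ?_⟩
  have h1 : tens b' u = (T : Matrix ι ι F) *ᵥ tens b u := by
    rw [tens, tens, Matrix.mulVec_sum]
    refine Finset.sum_congr rfl fun x _ => ?_
    rw [Matrix.mulVec_smul, hb']
  rw [h1, PT_tens b hT]

theorem PTr_of_tens {g : GL ι F} {P : Fin t → GL (Fin m) F}
    (h : ∀ u, (g : Matrix ι ι F) *ᵥ tens b u = tens b (fun s => (P s).1 *ᵥ u s)) : PTr b g P := by
  intro x
  rw [← tens_single b x, h, tens]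
  refine Finset.sum_congr rfl fun y _ => ?_
  congr 1
  refine Finset.prod_congr rfl fun s _ => ?_
  rw [Matrix.mulVec_single_one]; rfl

end

/-- two equal factors: orthonormal tensor basis -/
theorem tp_equal [Finite F] (hσ : σ ≠ RingEquiv.refl F) (hf : FD σ 1 f) {k : ℕ} (b : Basis (Fin k × Fin k) F (ι → F))
    {f₁ f₂ : (Fin k → F) → (Fin k → F) → F} (hf₁ : FD σ 1 f₁) (hf₂ : FD σ 1 f₂)
    (hform : ∀ i l j l', f (b (i, l)) (b (j, l')) = gramMatrix f₁ i j * gramMatrix f₂ l l')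
    {H : Subgroup (GL ι F)}
    (hkr : ∀ h ∈ H, ∃ (A : (Matrix (Fin k) (Fin k) F)ˣ) (N : (Matrix (Fin k) (Fin k) F)ˣ),
      KA b (h : Matrix ι ι F) A.1 N.1) :
    ∃ b' : Basis (Fin 2 → Fin k) F (ι → F), (∀ x y, f (b' x) (b' y) = if x = y then 1 else 0) ∧
      ∀ h ∈ H, ∃ Q : Fin 2 → GL (Fin k) F, PTr b' h Q := by
  classical
  let b₀ : Basis (Fin 2 → Fin k) F (ι → F) := b.reindex (finTwoArrowEquiv (Fin k)).symm
  have hb₀ : ∀ x, b₀ x = b (x 0, x 1) := by
    intro x
    rw [Basis.reindex_apply]; rfl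
  have htens : ∀ u, tens b₀ u = ten b (u 0) (u 1) := by
    intro u
    have h1 : ten b (u 0) (u 1) = ∑ p : Fin k × Fin k, (u 0 p.1 * u 1 p.2) • b p := by
      rw [ten, Fintype.sum_prod_type]
    rw [h1, tens]
    refine Fintype.sum_equiv (finTwoArrowEquiv (Fin k)) _ _ fun x => ?_
    rw [hb₀, Fin.prod_univ_two]
    rfl
  obtain ⟨W₁, hW₁⟩ := orthonormal_gl hσ hf₁
  obtain ⟨W₂, hW₂⟩ := orthonormal_gl hσ hf₂
  obtain ⟨b', hb'⟩ := change_basis' b₀ ![W₁, W₂]
  have hb'2 : ∀ u, tens b' u = ten b (W₁.1 *ᵥ u 0) (W₂.1 *ᵥ u 1) := by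
    intro u
    rw [hb', htens]
    rfl
  refine ⟨b', ?_, ?_⟩
  · intro x y
    rw [← tens_single b' x, ← tens_single b' y, hb'2, hb'2, ten_form b hf hf₁ hf₂ hform, hW₁, hW₂]
    by_cases h : x = y
    · subst h; simp
    · rw [if_neg h]
      by_cases h0 : x 0 = y 0
      · have h1 : x 1 ≠ y 1 := by
          intro h1
          apply h
          ext s
          fin_cases s
          · exact congrArg _ h0
          · exact congrArg _ h1
        rw [if_neg h1, mul_zero]
      · rw [if_neg h0, zero_mul]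
  · intro h hh
    obtain ⟨A, N, hk⟩ := hkr h hh
    refine ⟨![W₁⁻¹ * A * W₁, W₂⁻¹ * N * W₂], PTr_of_tens b' ?_⟩
    intro u
    rw [hb'2, ten_act b hk, hb'2]
    congr 1
    · change A.1 *ᵥ (W₁.1 *ᵥ u 0) = W₁.1 *ᵥ ((W₁⁻¹ * A * W₁).1 *ᵥ u 0)
      rw [Matrix.mulVec_mulVec, Matrix.mulVec_mulVec, ← Units.val_mul, ← Units.val_mul]
      congr 2; group
    · change N.1 *ᵥ (W₂.1 *ᵥ u 1) = W₂.1 *ᵥ ((W₂⁻¹ * N * W₂).1 *ᵥ u 1)
      rw [Matrix.mulVec_mulVec, Matrix.mulVec_mulVec, ← Units.val_mul, ← Units.val_mul]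
      congr 2; group

/-- structure from an orthonormal tensor basis -/
theorem ortho_structure (hf : FD σ 1 f) {m t : ℕ} (b : Basis (Fin t → Fin m) F (ι → F))
    (hb : ∀ x y, f (b x) (b y) = if x = y then 1 else 0) (e : ι ≃ (Fin t → Fin m)) (P : GL ι F)
    (hP : ∀ i j, (P : Matrix ι ι F) j i = b.reindex e.symm i j) :
    FD σ 1 (formOfGram (fun x => σ x) (1 : Matrix (Fin m) (Fin m) F)) ∧
    IsTensorPowerFormStructure (fun x => σ x) f (formOfGram (fun x => σ x) (1 : Matrix (Fin m) (Fin m) F)) e P := by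
  classical
  refine ⟨FD_of_gram 1 (by simp) ?_ hf.sq (Or.inl rfl), 1, one_ne_zero, fun x y => ?_⟩
  · intro i j
    rw [one_mul]
    by_cases h : i = j
    · subst h; simp
    · rw [Matrix.one_apply_ne h, Matrix.one_apply_ne (Ne.symm h), map_zero]
  · rw [form_P hf b e P hP, one_mul]
    refine Finset.sum_congr rfl fun p _ => Finset.sum_congr rfl fun q _ => ?_
    have h1 := gramMatrix_formOfGram (1 : Matrix (Fin m) (Fin m) F) (σ : F →+* F)
    simp only [RingEquiv.coe_toRingHom] at h1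
    rw [hb, h1]
    congr 2
    by_cases h : p = q
    · subst h; simp
    · rw [if_neg h]
      obtain ⟨s, hs⟩ := Function.ne_iff.1 h
      have h0 : (1 : Matrix (Fin m) (Fin m) F) (p s) (q s) = 0 := Matrix.one_apply_ne hs
      exact (Finset.prod_eq_zero (Finset.mem_univ s) h0).symm

/-- the fixed field of an involution -/
theorem card_fix [Finite F] (hσ : σ ≠ RingEquiv.refl F) (hsq : ∀ a, σ (σ a) = a) (F₀ : Subfield F)
    (h : ∀ x, x ∈ F₀ ↔ σ x = x) : Nat.card F = Nat.card F₀ ^ 2 := by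
  obtain ⟨a, ha⟩ := exists_sigma_ne hσ
  have hbij : Function.Bijective (fun p : F₀ × F₀ => (p.1 : F) + (p.2 : F) * a) := by
    constructor
    · rintro ⟨x, y⟩ ⟨x', y'⟩ hxy
      have hxy : (x : F) + y * a = x' + y' * a := hxy
      have h1 := congrArg σ hxy
      rw [map_add, map_add, map_mul, map_mul, (h _).1 x.2, (h _).1 y.2, (h _).1 x'.2, (h _).1 y'.2] at h1
      have h2 : ((y : F) - y') * (a - σ a) = 0 := by linear_combination hxy - h1
      have h3 : (y : F) = y' := sub_eq_zero.1 ((mul_eq_zero.1 h2).resolve_right ha)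
      have h4 : (x : F) = x' := by rw [h3] at hxy; exact add_right_cancel hxy
      exact Prod.ext (Subtype.ext h4) (Subtype.ext h3)
    · intro x
      have hy : (x - σ x) / (a - σ a) ∈ F₀ := by
        rw [h, map_div₀, map_sub, map_sub, hsq, hsq]
        rw [← neg_sub x (σ x), ← neg_sub a (σ a), neg_div_neg_eq]
      have hx : x - (x - σ x) / (a - σ a) * a ∈ F₀ := by
        rw [h, map_sub, map_mul, (h _).1 hy]
        field_simp
        ring
      refine ⟨⟨⟨_, hx⟩, ⟨_, hy⟩⟩, ?_⟩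
      change x - (x - σ x) / (a - σ a) * a + (x - σ x) / (a - σ a) * a = x
      ring
  rw [← Nat.card_congr (Equiv.ofBijective _ hbij), Nat.card_prod, sq]

/-- perfect subgroups of similarity groups are isometries -/
theorem perfect_iso {g : (ι → F) → (ι → F) → F} {N : Subgroup (GL ι F)} (hperf : ⁅N, N⁆ = N) (h : N ≤ similarityGroup g) :
    FixesForm (matrixSet N) g := by
  let K : Subgroup (GL ι F) :=
    { carrier := {x | ∀ u v, g ((x : Matrix ι ι F) *ᵥ u) ((x : Matrix ι ι F) *ᵥ v) = g u v}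
      mul_mem' := by
        intro a b ha hb u v
        rw [Units.val_mul, ← Matrix.mulVec_mulVec, ← Matrix.mulVec_mulVec, ha, hb]
      one_mem' := by
        intro u v
        rw [Units.val_one, Matrix.one_mulVec, Matrix.one_mulVec]
      inv_mem' := by
        intro a ha u v
        rw [← ha, Matrix.mulVec_mulVec, Matrix.mulVec_mulVec, ← Units.val_mul, mul_inv_cancel, Units.val_one,
          Matrix.one_mulVec, Matrix.one_mulVec] }
  have hK : N ≤ K := by
    rw [← hperf, Subgroup.commutator_le]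
    intro x hx y hy
    obtain ⟨c, hc⟩ := h hx
    obtain ⟨d, hd⟩ := h hy
    obtain ⟨c', hc'⟩ := h (N.inv_mem hx)
    obtain ⟨d', hd'⟩ := h (N.inv_mem hy)
    intro u v
    rw [commutatorElement_def]
    have e1 : ∀ w, ((x * y * x⁻¹ * y⁻¹ : GL ι F) : Matrix ι ι F) *ᵥ w = (x : Matrix ι ι F) *ᵥ ((y : Matrix ι ι F) *ᵥ
        (((x⁻¹ : GL ι F) : Matrix ι ι F) *ᵥ (((y⁻¹ : GL ι F) : Matrix ι ι F) *ᵥ w))) := by
      intro w
      rw [Matrix.mulVec_mulVec, Matrix.mulVec_mulVec, Matrix.mulVec_mulVec, ← Units.val_mul, ← Units.val_mul, ← Units.val_mul]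
    have h1 : ∀ u v, g u v = (c' : F) * ((c : F) * g u v) := by
      intro u v
      rw [← hc, ← hc', Matrix.mulVec_mulVec, Matrix.mulVec_mulVec, ← Units.val_mul, inv_mul_cancel, Units.val_one,
        Matrix.one_mulVec, Matrix.one_mulVec]
    have h2 : ∀ u v, g u v = (d' : F) * ((d : F) * g u v) := by
      intro u v
      rw [← hd, ← hd', Matrix.mulVec_mulVec, Matrix.mulVec_mulVec, ← Units.val_mul, inv_mul_cancel, Units.val_one,
        Matrix.one_mulVec, Matrix.one_mulVec]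
    rw [e1, e1, hc, hd, hc', hd']
    have h3 := h1 u v
    have h4 := h2 u v
    calc (c : F) * ((d : F) * ((c' : F) * ((d' : F) * g u v))) = (c' : F) * ((c : F) * ((d' : F) * ((d : F) * g u v))) := by ring
      _ = (c' : F) * ((c : F) * g u v) := by rw [← h4]
      _ = g u v := h3.symm
  rintro _ ⟨x, hx, rfl⟩
  exact hK hx

/-- two-dimensional factors: the perfect group is realised over the fixed field -/
theorem tw_two [Fintype F] [Nonempty ι] (hσ : σ ≠ RingEquiv.refl F) (hf : FD σ ε f) {t : ℕ}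
    (b : Basis (Fin t → Fin 2) F (ι → F)) {H N : Subgroup (GL ι F)} (hH : Iso f H)
    (hTW : ∀ h ∈ H, TW b (h : Matrix ι ι F)) (hNH : N ≤ H) (hnrd : Nrd H N) (halg : alg N = ⊤) (hperf : ⁅N, N⁆ = N) :
    ∃ F₀ : Subfield F, F₀ ≠ ⊤ ∧ RealisableOver F₀ (matrixSet N) := by
  have hle : N ≤ similarityGroup (bf b omt) := fun h hh => TW2_sim b h (hTW h (hNH hh))
  have hfix := perfect_iso hperf hle
  have hbl := bf_bilin (F := F) b (omt (t := t))
  obtain ⟨F₀, h1, _, h2⟩ := two_forms hσ hf.sq halg (g := bf b omt) (h := f)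
    ⟨hbl.add_left, hbl.smul_left, hbl.add_right, hbl.smul_right⟩ (omt_nondeg b) hfix hf.sesq hf.nd (hH.mono hNH).fixes
  exact ⟨F₀, h1, h2⟩

/-- four-dimensional case: tensor product of two unitary planes -/
theorem tp_two_two [Fintype F] [Nonempty ι] (hσ : σ ≠ RingEquiv.refl F) (hf : FD σ 1 f)
    (b : Basis (Fin 2 → Fin 2) F (ι → F)) (hb : ∀ x y, f (b x) (b y) = if x = y then 1 else 0)
    {H : Subgroup (GL ι F)} (hH : Iso f H) (hPT : ∀ h ∈ H, ∃ Q : Fin 2 → GL (Fin 2) F, PTr b h Q) :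
    ∃ (F₀ : Subfield F) (P : GL ι F), (∀ x, x ∈ F₀ ↔ σ x = x) ∧ IsFormRationalStructure f F₀ 1 P ∧
      H ≤ subfieldSubgroup F₀ P ∧
      ((2 : F) = 0 → ∀ u : ι → F, (∀ i, u i ∈ F₀) → f ((P : Matrix ι ι F) *ᵥ u) ((P : Matrix ι ι F) *ᵥ u) = 0) := by
  classical
  have hcard : Fintype.card ι = 4 := by
    have := Module.finrank_eq_card_basis b
    rw [Module.finrank_fintype_fun_eq_card] at this
    simpa using this
  have e : ι ≃ (Fin 2 → Fin 2) := Fintype.equivOfCardEq (by rw [hcard]; simp)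
  obtain ⟨P, hP⟩ := exists_P (b.reindex e.symm)
  let G : Matrix ι ι F := Matrix.of fun i j => omt (e i) (e j)
  have hfP : ∀ u v : ι → F, f ((P : Matrix ι ι F) *ᵥ u) ((P : Matrix ι ι F) *ᵥ v) = u ⬝ᵥ (fun i => σ (v i)) := by
    intro u v
    have h1 := form_P hf b e P hP (u ∘ e.symm) (v ∘ e.symm)
    have h2 : ∀ w : ι → F, (w ∘ e.symm) ∘ e = w := by intro w; ext i; simp
    rw [h2, h2] at h1
    rw [h1]
    have h3 : ∀ a, ∑ c, (u ∘ e.symm) a * f (b a) (b c) * σ ((v ∘ e.symm) c) = u (e.symm a) * σ (v (e.symm a)) := by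
      intro a
      rw [Finset.sum_eq_single a]
      · rw [hb, if_pos rfl, mul_one]; rfl
      · intro c _ hc
        rw [hb, if_neg (Ne.symm hc), mul_zero, zero_mul]
      · intro h; exact absurd (Finset.mem_univ a) h
    rw [Finset.sum_congr rfl fun a _ => h3 a]
    exact Equiv.sum_comp e.symm (fun i => u i * σ (v i))
  have hgP : ∀ u v : ι → F, bf b omt ((P : Matrix ι ι F) *ᵥ u) ((P : Matrix ι ι F) *ᵥ v) = u ⬝ᵥ (G *ᵥ v) := by
    intro u v
    have h2 : ∀ w : ι → F, (w ∘ e.symm) ∘ e = w := by intro w; ext i; simp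
    have hbl := bf_bilin (F := F) b (omt (t := 2))
    have h1 := mulVec_P b e P hP (u ∘ e.symm)
    have h3 := mulVec_P b e P hP (v ∘ e.symm)
    rw [h2] at h1 h3
    rw [h1, h3, bil_sum_left hbl]
    simp only [dotProduct, Matrix.mulVec]
    refine Fintype.sum_equiv e.symm _ _ fun x => ?_
    rw [hbl.smul_left, bil_sum_right hbl]
    change u (e.symm x) * _ = _
    congr 1
    refine Fintype.sum_equiv e.symm _ _ fun y => ?_
    rw [hbl.smul_right, bf_basis]
    change v (e.symm y) * _ = _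
    rw [mul_comm]
    simp [G]
  have hom : ∀ x y : Fin 2 → Fin 2, (omt x y : F) = om (x 0) (y 0) * om (x 1) (y 1) := by
    intro x y
    rw [omt, Fin.prod_univ_two]
  have hσom : ∀ i j : Fin 2, σ (om i j : F) = om i j := by
    intro i j
    fin_cases i <;> fin_cases j <;> simp [om]
  have hGσ : G.map σ = G := by
    ext i j
    simp only [Matrix.map_apply, G, Matrix.of_apply, hom, map_mul, hσom]
  have hGT : Gᵀ = G := by
    ext i j
    simp only [Matrix.transpose_apply, G, Matrix.of_apply, hom]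
    rw [om_skew (e j 0), om_skew (e j 1)]; ring
  have hGG : G * G = 1 := by
    ext i j
    rw [Matrix.mul_apply]
    have h1 : ∑ k, G i k * G k j = ∑ y : Fin 2 → Fin 2, omt (e i) y * omt y (e j) := by
      refine Fintype.sum_equiv e _ _ fun k => ?_
      simp [G]
    rw [h1]
    have h2 : ∑ y : Fin 2 → Fin 2, (omt (e i) y * omt y (e j) : F) =
        ∑ p : Fin 2 × Fin 2, (om (e i 0) p.1 * om (e i 1) p.2) * (om p.1 (e j 0) * om p.2 (e j 1)) := by
      refine Fintype.sum_equiv (finTwoArrowEquiv (Fin 2)) _ _ fun y => ?_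
      rw [hom, hom]; rfl
    rw [h2, Fintype.sum_prod_type]
    simp only [Fin.sum_univ_two]
    have h3 : (i = j) ↔ (e i 0 = e j 0 ∧ e i 1 = e j 1) := by
      constructor
      · rintro rfl; exact ⟨rfl, rfl⟩
      · rintro ⟨h, h'⟩
        apply e.injective
        ext s
        fin_cases s
        · exact congrArg _ h
        · exact congrArg _ h'
    rw [Matrix.one_apply]
    simp only [h3]
    generalize e i 0 = a
    generalize e i 1 = b'
    generalize e j 0 = c
    generalize e j 1 = d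
    fin_cases a <;> fin_cases b' <;> fin_cases c <;> fin_cases d <;> simp [om]
  obtain ⟨B, hB⟩ := descent hσ hf.sq G (by rw [hGσ, hGG])
  have hmap : ∀ X Y : Matrix ι ι F, (X * Y).map σ = X.map σ * Y.map σ := fun X Y => Matrix.map_mul (f := (σ : F →+* F))
  have hone : (1 : Matrix ι ι F).map σ = 1 := by
    rw [Matrix.map_one _ (map_zero σ) (map_one σ)]
  have hmapv : ∀ (X : Matrix ι ι F) (v : ι → F), (fun i => σ ((X *ᵥ v) i)) = X.map σ *ᵥ (fun i => σ (v i)) := by
    intro X v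
    ext i
    simp [Matrix.mulVec, dotProduct]
  -- B^σ = B G, B^{-σ} = G B⁻¹
  have hBσ : (B : Matrix ι ι F).map σ = (B : Matrix ι ι F) * G := by
    calc (B : Matrix ι ι F).map σ = (B : Matrix ι ι F).map σ * G * G := by rw [mul_assoc, hGG, mul_one]
      _ = _ := by rw [hB]
  have hBi : (B : Matrix ι ι F) * ((B⁻¹ : GL ι F) : Matrix ι ι F) = 1 := by rw [← Units.val_mul, mul_inv_cancel, Units.val_one]
  have hBi' : ((B⁻¹ : GL ι F) : Matrix ι ι F) * (B : Matrix ι ι F) = 1 := by rw [← Units.val_mul, inv_mul_cancel, Units.val_one]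
  have hBiσ : (((B⁻¹ : GL ι F) : Matrix ι ι F)).map σ = G * ((B⁻¹ : GL ι F) : Matrix ι ι F) := by
    have h1 : (B : Matrix ι ι F).map σ * (((B⁻¹ : GL ι F) : Matrix ι ι F)).map σ = 1 := by rw [← hmap, hBi, hone]
    rw [hBσ] at h1
    calc (((B⁻¹ : GL ι F) : Matrix ι ι F)).map σ
        = G * (((B⁻¹ : GL ι F) : Matrix ι ι F) * (B : Matrix ι ι F)) * G * (((B⁻¹ : GL ι F) : Matrix ι ι F)).map σ := by
          rw [hBi', mul_one, hGG, one_mul]
      _ = G * ((B⁻¹ : GL ι F) : Matrix ι ι F) * ((B : Matrix ι ι F) * G * (((B⁻¹ : GL ι F) : Matrix ι ι F)).map σ) := by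
          noncomm_ring
      _ = _ := by rw [h1, mul_one]
  let F₀ : Subfield F := RingHom.eqLocusField (σ : F →+* F) (RingHom.id F)
  have hF₀ : ∀ x, x ∈ F₀ ↔ σ x = x := fun x => Iff.rfl
  have hval : ∀ u v : ι → F, (∀ i, u i ∈ F₀) → (∀ i, v i ∈ F₀) →
      f (((P * B⁻¹ : GL ι F) : Matrix ι ι F) *ᵥ u) (((P * B⁻¹ : GL ι F) : Matrix ι ι F) *ᵥ v) =
        (((B⁻¹ : GL ι F) : Matrix ι ι F) *ᵥ u) ⬝ᵥ (G *ᵥ (((B⁻¹ : GL ι F) : Matrix ι ι F) *ᵥ v)) := by
    intro u v hu hv
    rw [Units.val_mul, ← Matrix.mulVec_mulVec, ← Matrix.mulVec_mulVec, hfP, hmapv, hBiσ]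
    have : (fun i => σ (v i)) = v := funext fun i => (hF₀ _).1 (hv i)
    rw [this, Matrix.mulVec_mulVec v G]
  refine ⟨F₀, P * B⁻¹, hF₀, ?_, ?_, ?_⟩
  · intro u v hu hv
    rw [one_mul, hval u v hu hv, hF₀]
    have h1 : ∀ x y : ι → F, σ (x ⬝ᵥ y) = (fun i => σ (x i)) ⬝ᵥ (fun i => σ (y i)) := by
      intro x y
      simp [dotProduct, map_sum]
    have hu' : (fun i => σ (u i)) = u := funext fun i => (hF₀ _).1 (hu i)
    have hv' : (fun i => σ (v i)) = v := funext fun i => (hF₀ _).1 (hv i)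
    rw [h1, hmapv, hmapv, hmapv, hGσ, hBiσ, hu', hv']
    set u' := ((B⁻¹ : GL ι F) : Matrix ι ι F) *ᵥ u
    set v' := ((B⁻¹ : GL ι F) : Matrix ι ι F) *ᵥ v
    rw [← Matrix.mulVec_mulVec u, ← Matrix.mulVec_mulVec v]
    change (G *ᵥ u') ⬝ᵥ (G *ᵥ (G *ᵥ v')) = u' ⬝ᵥ (G *ᵥ v')
    rw [Matrix.mulVec_mulVec v', hGG, Matrix.one_mulVec, Matrix.dotProduct_mulVec u', ← Matrix.mulVec_transpose, hGT]
  · intro h hh
    obtain ⟨Q, hQ⟩ := hPT h hh
    obtain ⟨μ, hμ⟩ := TW2_sim b h ⟨Equiv.refl _, Q, fun x => hQ x⟩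
    set h' : Matrix ι ι F := ((P⁻¹ * h * P : GL ι F) : Matrix ι ι F) with hh'
    have hPh : ∀ w, (h : Matrix ι ι F) *ᵥ ((P : Matrix ι ι F) *ᵥ w) = (P : Matrix ι ι F) *ᵥ (h' *ᵥ w) := by
      intro w
      rw [Matrix.mulVec_mulVec, hh', Matrix.mulVec_mulVec, ← Units.val_mul, ← Units.val_mul]
      congr 2; group
    have hdot : ∀ X Y : Matrix ι ι F, (∀ u v : ι → F, u ⬝ᵥ (X *ᵥ v) = u ⬝ᵥ (Y *ᵥ v)) → X = Y := by
      intro X Y hXY
      ext i j
      have := hXY (Pi.single i 1) (Pi.single j 1)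
      simpa [single_one_dotProduct, Matrix.mulVec_single_one] using this
    have ha : h'ᵀ * h'.map σ = 1 := by
      apply hdot
      intro u v
      have h1 := hH h hh ((P : Matrix ι ι F) *ᵥ u) ((P : Matrix ι ι F) *ᵥ (fun i => σ (v i)))
      rw [hPh, hPh, hfP, hfP, hmapv] at h1
      simp only [hf.sq] at h1
      rw [← Matrix.mulVec_mulVec, Matrix.dotProduct_mulVec u, Matrix.vecMul_transpose, h1, Matrix.one_mulVec]
    have hbb : h'ᵀ * G * h' = (μ : F) • G := by
      apply hdot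
      intro u v
      have h1 := hμ ((P : Matrix ι ι F) *ᵥ u) ((P : Matrix ι ι F) *ᵥ v)
      rw [hPh, hPh, hgP, hgP] at h1
      rw [mul_assoc, ← Matrix.mulVec_mulVec, Matrix.dotProduct_mulVec u, Matrix.vecMul_transpose, ← Matrix.mulVec_mulVec, h1,
        Matrix.smul_mulVec, dotProduct_smul, smul_eq_mul]
    have hσh : h'.map σ = (μ : F)⁻¹ • (G * h' * G) := by
      have h1 : h'.map σ * h'ᵀ = 1 := mul_eq_one_comm.1 ha
      have h2 : h'.map σ * (h'ᵀ * G * h') = G * h' := by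
        calc _ = (h'.map σ * h'ᵀ) * (G * h') := by noncomm_ring
          _ = _ := by rw [h1, one_mul]
      rw [hbb, Matrix.mul_smul] at h2
      have h3 : (μ : F) • h'.map σ = G * h' * G := by
        rw [← h2, Matrix.smul_mul, mul_assoc, hGG, mul_one]
      rw [← h3, smul_smul, inv_mul_cancel₀ μ.ne_zero, one_smul]
    -- y = B h' B⁻¹
    set y : GL ι F := B * (P⁻¹ * h * P) * B⁻¹ with hy
    have hyσ : (y : Matrix ι ι F).map σ = (μ : F)⁻¹ • (y : Matrix ι ι F) := by
      rw [hy, Units.val_mul, Units.val_mul, ← hh', hmap, hmap, hBσ, hBiσ, hσh, Matrix.mul_smul, Matrix.smul_mul]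
      congr 1
      calc (B : Matrix ι ι F) * G * (G * h' * G) * (G * ((B⁻¹ : GL ι F) : Matrix ι ι F))
          = (B : Matrix ι ι F) * (G * G) * h' * (G * G) * ((B⁻¹ : GL ι F) : Matrix ι ι F) := by noncomm_ring
        _ = _ := by rw [hGG, mul_one, mul_one]
    have hμσ : (μ : F)⁻¹ * σ (μ : F)⁻¹ = 1 := by
      have h1 := congrArg (fun X : Matrix ι ι F => X.map σ) hyσ
      change ((y : Matrix ι ι F).map σ).map σ = ((μ : F)⁻¹ • (y : Matrix ι ι F)).map σ at h1
      have h2 : ((y : Matrix ι ι F).map σ).map σ = (y : Matrix ι ι F) := by ext i j; simp [hf.sq]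
      have h3 : ((μ : F)⁻¹ • (y : Matrix ι ι F)).map σ = σ (μ : F)⁻¹ • (y : Matrix ι ι F).map σ := by ext i j; simp
      rw [h2, h3, hyσ, smul_smul] at h1
      have h4 : (y : Matrix ι ι F) * ((y⁻¹ : GL ι F) : Matrix ι ι F) = 1 := by rw [← Units.val_mul, mul_inv_cancel, Units.val_one]
      have h5 := congrArg (fun X => X * ((y⁻¹ : GL ι F) : Matrix ι ι F)) h1
      simp only [Matrix.smul_mul, h4] at h5
      obtain ⟨i⟩ := (inferInstance : Nonempty ι)
      have h6 := congrFun (congrFun h5 i) i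
      simp only [Matrix.one_apply_eq, Matrix.smul_apply, smul_eq_mul, mul_one] at h6
      rw [mul_comm]; exact h6.symm
    obtain ⟨a, ha0, haσ⟩ := hilbert90 hσ hf.sq hμσ
    -- a y has entries in F₀
    have hay : ∀ i j, a * (y : Matrix ι ι F) i j ∈ F₀ := by
      intro i j
      rw [hF₀, map_mul]
      have h1 := congrFun (congrFun hyσ i) j
      simp only [Matrix.map_apply, Matrix.smul_apply, smul_eq_mul] at h1
      rw [h1, ← mul_assoc, haσ]
    let Y₀ : Matrix ι ι F₀ := Matrix.of fun i j => ⟨a * (y : Matrix ι ι F) i j, hay i j⟩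
    have hY₀ : Y₀.map F₀.subtype = a • (y : Matrix ι ι F) := by ext i j; rfl
    have hdet : IsUnit Y₀.det := by
      rw [isUnit_iff_ne_zero]
      intro h0
      have h1 : (a • (y : Matrix ι ι F)).det = 0 := by
        rw [← hY₀, ← RingHom.mapMatrix_apply, ← RingHom.map_det, h0, map_zero]
      rw [Matrix.det_smul] at h1
      rcases mul_eq_zero.1 h1 with h2 | h2
      · exact ha0 (pow_eq_zero_iff (Fintype.card_ne_zero) |>.1 h2)
      · have := (Matrix.isUnit_iff_isUnit_det _).1 y.isUnit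
        exact this.ne_zero h2
    let Yu : GL ι F₀ := Matrix.GeneralLinearGroup.mk'' Y₀ hdet
    -- scalar
    let s : GL ι F := Units.map (Matrix.scalar ι : F →+* Matrix ι ι F).toMonoidHom (Units.mk0 a ha0)
    have hs : s ∈ scalars ι F := ⟨Units.mk0 a ha0, rfl⟩
    have hsy : Matrix.GeneralLinearGroup.map (F₀.subtype : F₀ →+* F) Yu = s * y := by
      apply Units.ext
      rw [Units.val_mul]
      change Y₀.map F₀.subtype = (Matrix.scalar ι a) * (y : Matrix ι ι F)
      rw [hY₀, Matrix.scalar_apply, ← Matrix.smul_eq_diagonal_mul]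
    have hmem : y ∈ (Matrix.GeneralLinearGroup.map (F₀.subtype : F₀ →+* F)).range ⊔ scalars ι F := by
      have h1 : y = s⁻¹ * (s * y) := by group
      rw [h1]
      exact Subgroup.mul_mem _ (Subgroup.mem_sup_right ((scalars ι F).inv_mem hs))
        (Subgroup.mem_sup_left ⟨Yu, hsy⟩)
    refine ⟨y, hmem, ?_⟩
    change (P * B⁻¹) * y * (P * B⁻¹)⁻¹ = h
    rw [hy]; group
  · intro h2 u hu
    rw [hval u u hu hu]
    set u' := ((B⁻¹ : GL ι F) : Matrix ι ι F) *ᵥ u
    -- alternating in characteristic two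
    simp only [dotProduct, Matrix.mulVec, Finset.mul_sum]
    have h1 : ∑ i, ∑ j, u' i * (G i j * u' j) = ∑ p : ι × ι, u' p.1 * (G p.1 p.2 * u' p.2) := by
      rw [Fintype.sum_prod_type]
    rw [h1]
    refine Finset.sum_involution (fun p _ => (p.2, p.1)) ?_ ?_ ?_ ?_
    · intro p _
      have h3 := congrFun (congrFun hGT p.1) p.2
      rw [Matrix.transpose_apply] at h3
      simp only
      rw [h3]
      linear_combination (u' p.1 * (G p.1 p.2 * u' p.2)) * h2
    · intro p _ hp hpp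
      apply hp
      have h3 : p.1 = p.2 := (congrArg Prod.fst hpp).symm
      have h4 : G p.1 p.2 = 0 := by
        rw [← h3]
        simp [G, hom, om]
      rw [h4]; ring
    · intro p _; exact Finset.mem_univ _
    · intro p _; rfl

end CfsgLib.AschF
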