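import Mathlib
import Cfsg.Agent.LibAschF23

/-! the group 3^(1+2) over the field with four elements -/
set_option autoImplicit false
set_option linter.unusedSectionVars false

namespace CfsgLib.AschF

open Module Cfsg Cfsg.Geo CfsgLib.Asch1 CfsgLib.Asch2 CfsgLib.Asch3 CfsgLib.Asch4 CfsgLib.Asch5 CfsgLib.Asch6 CfsgLib.Asch7
  CfsgLib.Asch8 CfsgLib.Asch9
  CfsgLib.Asch10 CfsgLib.Asch11 CfsgLib.Asch12 CfsgLib.Asch13 CfsgLib.Asch14 CfsgLib.Asch15 CfsgLib.Asch16 CfsgLib.Asch17
  CfsgLib.Asch18 CfsgLib.Asch19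
open scoped Matrix MatrixGroups Kronecker

namespace Four

variable {F : Type*} [Field F]

/-- the field has four elements -/
structure F4 (F : Type*) [Field F] : Prop where
  cube : ∀ x : F, x ≠ 0 → x ^ 3 = 1
  two : (2 : F) = 0
  fin : Finite F
  ex : ∃ ω : F, ω ^ 2 + ω + 1 = 0
  card : Nat.card F = 4

theorem f4 [Fintype F] (h : Fintype.card F = 4) : F4 F := by
  have hc : ∀ x : F, x ≠ 0 → x ^ 3 = 1 := by
    intro x hx
    have := FiniteField.pow_card_sub_one_eq_one x hx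
    rwa [h] at this
  have h2 : (2 : F) = 0 := by
    have h1 : ((Fintype.card F : ℕ) : F) = 0 := FiniteField.cast_card_eq_zero F
    rw [h] at h1
    have h3 : (2 : F) ^ 2 = 0 := by push_cast at h1; rw [← h1]; norm_num
    exact (pow_eq_zero_iff (by norm_num)).1 h3
  refine ⟨hc, h2, inferInstance, ?_, by rw [Nat.card_eq_fintype_card, h]⟩
  classical
  obtain ⟨x, hx⟩ : ∃ x : F, x ∉ ({0, 1} : Finset F) := by
    by_contra hcon
    push Not at hcon
    have h1 : (Finset.univ : Finset F) ⊆ {0, 1} := fun x _ => hcon x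
    have h3 := Finset.card_le_card h1
    rw [Finset.card_univ, h] at h3
    have h4 := Finset.card_le_two (a := (0 : F)) (b := 1)
    omega
  simp only [Finset.mem_insert, Finset.mem_singleton, not_or] at hx
  refine ⟨x, ?_⟩
  have h1 := hc x hx.1
  have h3 : (x - 1) * (x ^ 2 + x + 1) = 0 := by linear_combination h1
  exact (mul_eq_zero.1 h3).resolve_left (sub_ne_zero.2 hx.2)

variable (h4 : F4 F)
include h4

theorem three_terms (a : Fin 3 → F) (h : ∏ k, a k = 1) : ∑ k, a k = 0 ∨ ∀ k l, a k = a l := by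
  rw [Fin.prod_univ_three] at h
  have h0 : a 0 ≠ 0 := by rintro h0; rw [h0] at h; simp at h
  have h1 : a 1 ≠ 0 := by rintro h0; rw [h0] at h; simp at h
  have c0 := h4.cube _ h0
  have c1 := h4.cube _ h1
  rw [Fin.sum_univ_three]
  by_cases e : a 0 = a 1
  · right
    have h2 : a 2 = a 0 := by
      have : a 0 ^ 2 * a 2 = a 0 ^ 2 * a 0 := by
        rw [← e] at h
        linear_combination h - c0
      exact mul_left_cancel₀ (pow_ne_zero 2 h0) this
    intro k l
    fin_cases k <;> fin_cases l <;> simp_all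
  · left
    have h2 : a 0 ^ 2 + a 0 * a 1 + a 1 ^ 2 = 0 := by
      have : (a 0 - a 1) * (a 0 ^ 2 + a 0 * a 1 + a 1 ^ 2) = 0 := by linear_combination c0 - c1
      exact (mul_eq_zero.1 this).resolve_left (sub_ne_zero.2 e)
    have h3 : (a 0 * a 1) * (a 0 + a 1 + a 2) = 0 := by
      linear_combination h + a 1 * h2 - c1
    exact (mul_eq_zero.1 h3).resolve_left (mul_ne_zero h0 h1)

theorem row_single (v : Fin 3 → F) (hv : ∑ k, v k ^ 3 = 1) (j₀ : Fin 3) (h0 : v j₀ = 0) :
    ∃ k, v k ≠ 0 ∧ ∀ l, l ≠ k → v l = 0 := by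
  have h2 := h4.two
  have h1 : ∀ x y z : F, x = 0 → x ^ 3 + y ^ 3 + z ^ 3 = 1 → (y ≠ 0 ∧ z = 0) ∨ (y = 0 ∧ z ≠ 0) := by
    intro x y z hx h
    by_cases hy : y = 0
    · right
      refine ⟨hy, ?_⟩
      rintro rfl
      rw [hx, hy] at h; simp at h
    · left
      refine ⟨hy, ?_⟩
      by_contra hz
      rw [hx, h4.cube _ hy, h4.cube _ hz] at h
      have : (1 : F) = 0 := by linear_combination (-1 : F) * h + h2
      exact one_ne_zero this
  rw [Fin.sum_univ_three] at hv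
  fin_cases j₀
  · rcases h1 _ _ _ h0 hv with ⟨ha, hb⟩ | ⟨ha, hb⟩
    · exact ⟨1, ha, fun l hl => by fin_cases l <;> simp_all⟩
    · exact ⟨2, hb, fun l hl => by fin_cases l <;> simp_all⟩
  · rcases h1 (v 1) (v 0) (v 2) h0 (by rw [← hv]; ring) with ⟨ha, hb⟩ | ⟨ha, hb⟩
    · exact ⟨0, ha, fun l hl => by fin_cases l <;> simp_all⟩
    · exact ⟨2, hb, fun l hl => by fin_cases l <;> simp_all⟩
  · rcases h1 (v 2) (v 0) (v 1) h0 (by rw [← hv]; ring) with ⟨ha, hb⟩ | ⟨ha, hb⟩
    · exact ⟨0, ha, fun l hl => by fin_cases l <;> simp_all⟩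
    · exact ⟨1, hb, fun l hl => by fin_cases l <;> simp_all⟩

omit h4 in
/-- unitary 3 by 3 matrices -/
def G3 {F : Type*} [Field F] (σ : F ≃+* F) (hσ : ∀ x, σ x = x ^ 2) (h4 : F4 F) : Subgroup (GL (Fin 3) F) where
  carrier := {g | (g : Matrix (Fin 3) (Fin 3) F) * ((g : Matrix (Fin 3) (Fin 3) F).map σ)ᵀ = 1}
  mul_mem' := by
    intro g h hg hh
    change _ = _ at hg hh ⊢
    rw [Units.val_mul]
    have : ((g : Matrix (Fin 3) (Fin 3) F) * (h : Matrix (Fin 3) (Fin 3) F)).map σ =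
        (g : Matrix (Fin 3) (Fin 3) F).map σ * (h : Matrix (Fin 3) (Fin 3) F).map σ := Matrix.map_mul
    rw [this, Matrix.transpose_mul]
    calc _ = (g : Matrix (Fin 3) (Fin 3) F) * ((h : Matrix (Fin 3) (Fin 3) F) * ((h : Matrix (Fin 3) (Fin 3) F).map σ)ᵀ) *
          ((g : Matrix (Fin 3) (Fin 3) F).map σ)ᵀ := by noncomm_ring
      _ = 1 := by rw [hh, mul_one, hg]
  one_mem' := by
    change _ = _
    rw [Units.val_one, Matrix.map_one _ (map_zero σ) (map_one σ), Matrix.transpose_one, mul_one]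
  inv_mem' := by
    intro g hg
    change _ = _ at hg ⊢
    have h1 : ((g⁻¹ : GL (Fin 3) F) : Matrix (Fin 3) (Fin 3) F) = ((g : Matrix (Fin 3) (Fin 3) F).map σ)ᵀ := by
      have h2 : ((g⁻¹ : GL (Fin 3) F) : Matrix (Fin 3) (Fin 3) F) * ((g : Matrix (Fin 3) (Fin 3) F) *
          ((g : Matrix (Fin 3) (Fin 3) F).map σ)ᵀ) = ((g⁻¹ : GL (Fin 3) F) : Matrix (Fin 3) (Fin 3) F) := by rw [hg, mul_one]
      rw [← mul_assoc, ← Units.val_mul, inv_mul_cancel, Units.val_one, one_mul] at h2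
      exact h2.symm
    have h3 : ((((g : Matrix (Fin 3) (Fin 3) F).map σ)ᵀ).map σ)ᵀ = (g : Matrix (Fin 3) (Fin 3) F) := by
      ext i j
      simp only [Matrix.transpose_apply, Matrix.map_apply, hσ]
      have : ((g : Matrix (Fin 3) (Fin 3) F) i j ^ 2) ^ 2 = (g : Matrix (Fin 3) (Fin 3) F) i j := by
        by_cases h0 : (g : Matrix (Fin 3) (Fin 3) F) i j = 0
        · rw [h0]; ring
        · have := h4.cube _ h0
          linear_combination (g : Matrix (Fin 3) (Fin 3) F) i j * this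
      exact this
    rw [h1, h3, ← h1, ← Units.val_mul, inv_mul_cancel, Units.val_one]

variable {σ : F ≃+* F} (hσ : ∀ x, σ x = x ^ 2)
include hσ

theorem G3_row {g : GL (Fin 3) F} (hg : g ∈ G3 σ hσ h4) (x y : Fin 3) :
    ∑ k, g.1 x k * g.1 y k ^ 2 = if x = y then 1 else 0 := by
  have h1 : (g : Matrix (Fin 3) (Fin 3) F) * ((g : Matrix (Fin 3) (Fin 3) F).map σ)ᵀ = 1 := hg
  have h2 := congrFun (congrFun h1 x) y
  rw [Matrix.mul_apply, Matrix.one_apply] at h2
  rw [← h2]
  refine Finset.sum_congr rfl fun k _ => ?_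
  rw [Matrix.transpose_apply, Matrix.map_apply, hσ]

theorem G3_inv {g : GL (Fin 3) F} (hg : g ∈ G3 σ hσ h4) (x y : Fin 3) :
    (g⁻¹ : GL (Fin 3) F).1 x y = g.1 y x ^ 2 := by
  have h1 : (g : Matrix (Fin 3) (Fin 3) F) * ((g : Matrix (Fin 3) (Fin 3) F).map σ)ᵀ = 1 := hg
  have h2 : ((g⁻¹ : GL (Fin 3) F) : Matrix (Fin 3) (Fin 3) F) * ((g : Matrix (Fin 3) (Fin 3) F) *
      ((g : Matrix (Fin 3) (Fin 3) F).map σ)ᵀ) = ((g⁻¹ : GL (Fin 3) F) : Matrix (Fin 3) (Fin 3) F) := by rw [h1, mul_one]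
  rw [← mul_assoc, ← Units.val_mul, inv_mul_cancel, Units.val_one, one_mul] at h2
  rw [← h2, Matrix.transpose_apply, Matrix.map_apply, hσ]

theorem pattern {g : GL (Fin 3) F} (hg : g ∈ G3 σ hσ h4) {i₀ j₀ : Fin 3} (h0 : g.1 i₀ j₀ = 0) :
    ∃ τ : Fin 3 → Fin 3, Function.Injective τ ∧ ∀ i k, g.1 i k ≠ 0 ↔ k = τ i := by
  have hrow := G3_row h4 hσ hg
  have hcube : ∀ i, ∑ k, g.1 i k ^ 3 = 1 := by
    intro i
    have := hrow i i
    rw [if_pos rfl] at this
    rw [← this]
    exact Finset.sum_congr rfl fun k _ => by ring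
  obtain ⟨j₁, hj₁, hj₁'⟩ := row_single h4 _ (hcube i₀) j₀ h0
  have hz : ∀ i, ∃ j, g.1 i j = 0 := by
    intro i
    by_cases hi : i = i₀
    · exact ⟨j₀, hi ▸ h0⟩
    · refine ⟨j₁, ?_⟩
      have h1 := hrow i i₀
      rw [if_neg hi, Finset.sum_eq_single j₁ (fun l _ hl => by rw [hj₁' l hl]; ring) (by simp)] at h1
      exact (mul_eq_zero.1 h1).resolve_right (pow_ne_zero 2 hj₁)
  have hex : ∀ i, ∃ k, g.1 i k ≠ 0 ∧ ∀ l, l ≠ k → g.1 i l = 0 := by
    intro i
    obtain ⟨j, hj⟩ := hz i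
    exact row_single h4 _ (hcube i) j hj
  choose τ hτ hτ' using hex
  refine ⟨τ, ?_, fun i k => ⟨fun h => ?_, fun h => h ▸ hτ i⟩⟩
  · intro i i' he
    by_contra hne
    have h1 := hrow i i'
    rw [if_neg hne, Finset.sum_eq_single (τ i) (fun l _ hl => by rw [hτ' i l hl]; ring) (by simp)] at h1
    rcases mul_eq_zero.1 h1 with h2 | h2
    · exact hτ i h2
    · rw [he] at h2
      exact hτ i' ((pow_eq_zero_iff (by norm_num)).1 h2)
  · by_contra hne
    exact h (hτ' i k hne)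

omit h4 hσ in
/-- monomial matrix with shift and coefficients -/
def E3 (g : GL (Fin 3) F) (i : Fin 3) (d : Fin 3 → F) : Prop :=
  (∏ x, d x = 1) ∧ ∀ x y, g.1 x y = if y = x + i then d x else 0

omit h4 hσ in
theorem E3.mul {g g' : GL (Fin 3) F} {i i' : Fin 3} {d d' : Fin 3 → F} (h : E3 g i d) (h' : E3 g' i' d') :
    E3 (g * g') (i + i') (fun x => d x * d' (x + i)) := by
  refine ⟨?_, fun x y => ?_⟩
  · rw [Finset.prod_mul_distrib, h.1, one_mul]
    have := Equiv.prod_comp (Equiv.addRight i) d'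
    simp only [Equiv.coe_addRight] at this
    rw [this, h'.1]
  · rw [Units.val_mul, Matrix.mul_apply, Finset.sum_eq_single (x + i)]
    · rw [h.2, if_pos rfl, h'.2, add_assoc]
      split_ifs <;> ring
    · intro z _ hz
      rw [h.2, if_neg hz, zero_mul]
    · simp

omit h4 hσ in
theorem E3.one : E3 (1 : GL (Fin 3) F) 0 1 := by
  refine ⟨by simp, fun x y => ?_⟩
  rw [Units.val_one, Matrix.one_apply, add_zero]
  simp [eq_comm]

omit hσ in
theorem E3.ne {g : GL (Fin 3) F} {i : Fin 3} {d : Fin 3 → F} (h : E3 g i d) (x : Fin 3) : d x ≠ 0 := by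
  intro h0
  have := h.1
  rw [Finset.prod_eq_zero (Finset.mem_univ x) h0] at this
  exact zero_ne_one this

omit hσ in
theorem E3.cube {g : GL (Fin 3) F} {i : Fin 3} {d : Fin 3 → F} (h : E3 g i d) : g ^ 3 = 1 := by
  have h1 := (h.mul h).mul h
  have h2 : g ^ 3 = g * g * g := by rw [pow_succ, pow_two]
  rw [h2]
  apply Units.ext
  ext x y
  rw [h1.2, Units.val_one, Matrix.one_apply]
  have h3 : ∀ i : Fin 3, i + i + i = 0 := by decide
  rw [h3 i, add_zero]
  have h5 : d x * d (x + i) * d (x + (i + i)) = 1 := by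
    have h6 := h.1
    rw [Fin.prod_univ_three] at h6
    fin_cases i
    · simp only [Fin.zero_eta, add_zero]
      rw [← h4.cube _ (h.ne h4 x)]; ring
    · fin_cases x
      · change d 0 * d 1 * d 2 = 1; exact h6
      · change d 1 * d 2 * d 0 = 1; rw [← h6]; ring
      · change d 2 * d 0 * d 1 = 1; rw [← h6]; ring
    · fin_cases x
      · change d 0 * d 2 * d 1 = 1; rw [← h6]; ring
      · change d 1 * d 0 * d 2 = 1; rw [← h6]; ring
      · change d 2 * d 1 * d 0 = 1; rw [← h6]; ring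
  simp only [h5, eq_comm]

omit h4 hσ in
/-- the group 3^(1+2) of monomial matrices -/
def R3 {F : Type*} [Field F] (h4 : F4 F) : Subgroup (GL (Fin 3) F) where
  carrier := {g | ∃ i d, E3 g i d}
  mul_mem' := by
    rintro g g' ⟨i, d, h⟩ ⟨i', d', h'⟩
    exact ⟨_, _, h.mul h'⟩
  one_mem' := ⟨0, 1, E3.one⟩
  inv_mem' := by
    rintro g ⟨i, d, h⟩
    have h1 : g⁻¹ = g * g := by
      have := h.cube h4
      rw [inv_eq_iff_mul_eq_one, ← this, pow_succ, pow_two, mul_assoc]
    rw [h1]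
    exact ⟨_, _, h.mul h⟩

theorem E3.unitary {g : GL (Fin 3) F} {i : Fin 3} {d : Fin 3 → F} (h : E3 g i d) : g ∈ G3 σ hσ h4 := by
  change _ = _
  ext x y
  rw [Matrix.mul_apply, Matrix.one_apply, Finset.sum_eq_single (x + i)]
  · rw [h.2, if_pos rfl, Matrix.transpose_apply, Matrix.map_apply, h.2, hσ]
    by_cases hxy : x = y
    · subst hxy
      rw [if_pos rfl, if_pos rfl]
      linear_combination h4.cube _ (h.ne h4 x)
    · rw [if_neg hxy, if_neg (fun h0 => hxy (add_right_cancel h0))]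
      ring
  · intro z _ hz
    rw [h.2, if_neg hz, zero_mul]
  · simp

omit h4 hσ in
theorem shift_or (τ : Fin 3 → Fin 3) (h : Function.Injective τ) :
    (∃ i, ∀ x, τ x = x + i) ∨ (∃ x, τ x = x ∧ ∀ y, y ≠ x → τ y ≠ y) := by
  revert h; revert τ; decide

theorem mem_R3 {m : GL (Fin 3) F} (hm : m ∈ G3 σ hσ h4) {i₀ j₀ : Fin 3} (h0 : m.1 i₀ j₀ = 0)
    (hdet : m.1.det = 1) (htr : m.1.trace = 0) : m ∈ R3 h4 := by
  obtain ⟨τ, hinj, hτ⟩ := pattern h4 hσ hm h0
  rcases shift_or τ hinj with ⟨i, hi⟩ | ⟨x, hx, hx'⟩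
  · have hE : ∀ x y, m.1 x y = if y = x + i then m.1 x (x + i) else 0 := by
      intro x y
      by_cases hy : y = x + i
      · rw [if_pos hy, hy]
      · rw [if_neg hy]
        by_contra hne
        exact hy (((hτ x y).1 hne).trans (hi x))
    refine ⟨i, fun x => m.1 x (x + i), ?_, hE⟩
    rw [← hdet, Matrix.det_fin_three, Fin.prod_univ_three]
    fin_cases i
    · change m.1 0 0 * m.1 1 1 * m.1 2 2 = _
      have e1 : m.1 0 1 = 0 := by rw [hE]; simp
      have e2 : m.1 0 2 = 0 := by rw [hE]; simp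
      have e3 : m.1 1 2 = 0 := by rw [hE]; simp
      rw [e1, e2, e3]; ring
    · change m.1 0 1 * m.1 1 2 * m.1 2 0 = _
      have e1 : m.1 0 0 = 0 := by rw [hE]; simp
      have e2 : m.1 0 2 = 0 := by rw [hE]; simp
      have e3 : m.1 1 0 = 0 := by rw [hE]; simp
      rw [e1, e2, e3]; ring
    · change m.1 0 2 * m.1 1 0 * m.1 2 1 = _
      have e1 : m.1 0 0 = 0 := by rw [hE]; simp
      have e2 : m.1 0 1 = 0 := by rw [hE]; simp
      have e3 : m.1 1 1 = 0 := by rw [hE]; simp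
      rw [e1, e2, e3]; ring
  · exfalso
    rw [Matrix.trace, Finset.sum_eq_single x] at htr
    · exact (hτ x x).2 hx.symm htr
    · intro y _ hy
      by_contra hne
      exact hx' y hy ((hτ y y).1 hne).symm
    · simp

omit h4 hσ in
theorem E3.det {g : GL (Fin 3) F} {i : Fin 3} {d : Fin 3 → F} (h : E3 g i d) : g.1.det = 1 := by
  rw [Matrix.det_fin_three, ← h.1, Fin.prod_univ_three]
  simp only [h.2]
  fin_cases i
  · simp
  · simp
  · simp

/-- unitary matrices normalise the group -/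
theorem normalise {g : GL (Fin 3) F} (hg : g ∈ G3 σ hσ h4) {r : GL (Fin 3) F} (hr : r ∈ R3 h4) :
    g * r * g⁻¹ ∈ R3 h4 := by
  obtain ⟨i, d, h⟩ := hr
  by_cases hsc : i = 0 ∧ ∀ k l, d k = d l
  · obtain ⟨rfl, hd⟩ := hsc
    have h1 : g * r * g⁻¹ = r := by
      rw [mul_inv_eq_iff_eq_mul]
      apply Units.ext
      rw [Units.val_mul, Units.val_mul]
      ext x y
      rw [Matrix.mul_apply, Matrix.mul_apply, Finset.sum_eq_single y, Finset.sum_eq_single x, h.2, h.2]
      · simp [hd x y, mul_comm]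
      · intro z _ hz
        rw [h.2, if_neg (by simpa using hz), zero_mul]
      · simp
      · intro z _ hz
        rw [h.2, if_neg (by simpa using hz.symm), mul_zero]
      · simp
    rw [h1]; exact ⟨_, _, h⟩
  · have htr : r.1.trace = 0 := by
      rw [Matrix.trace]
      by_cases hi : i = 0
      · subst hi
        rcases three_terms h4 d h.1 with h1 | h1
        · rw [← h1]
          refine Finset.sum_congr rfl fun k _ => ?_
          rw [Matrix.diag_apply, h.2, if_pos (by simp)]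
        · exact absurd ⟨rfl, h1⟩ hsc
      · refine Finset.sum_eq_zero fun k _ => ?_
        rw [Matrix.diag_apply, h.2, if_neg]
        intro h1
        exact hi (by simpa using h1)
    have hent : ∀ x y, (g * r * g⁻¹).1 x y = ∑ l, g.1 x l * d l * g.1 y (l + i) ^ 2 := by
      intro x y
      rw [Units.val_mul, Matrix.mul_apply]
      have := Equiv.sum_comp (Equiv.addRight i) (fun k => (g * r).1 x k * (g⁻¹ : GL (Fin 3) F).1 k y)
      rw [← this]
      refine Finset.sum_congr rfl fun l _ => ?_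
      rw [Equiv.coe_addRight, G3_inv h4 hσ hg, Units.val_mul, Matrix.mul_apply, Finset.sum_eq_single l]
      · rw [h.2, if_pos rfl]
      · intro z _ hz
        rw [h.2, if_neg (fun h0 => hz (add_right_cancel h0).symm), mul_zero]
      · simp
    have hm : g * r * g⁻¹ ∈ G3 σ hσ h4 := mul_mem (mul_mem hg (h.unitary h4 hσ)) (inv_mem hg)
    have hdet : (g * r * g⁻¹).1.det = 1 := by
      have h1 : g.1.det * (g⁻¹ : GL (Fin 3) F).1.det = 1 := by
        rw [← Matrix.det_mul, ← Units.val_mul, mul_inv_cancel, Units.val_one, Matrix.det_one]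
      rw [Units.val_mul, Units.val_mul, Matrix.det_mul, Matrix.det_mul, h.det, mul_one, h1]
    have htr' : (g * r * g⁻¹).1.trace = 0 := by
      rw [Units.val_mul, Units.val_mul, Matrix.trace_mul_comm, ← mul_assoc, ← Units.val_mul, inv_mul_cancel, Units.val_one,
        one_mul, htr]
    by_cases hz : ∃ i₀ j₀, g.1 i₀ j₀ = 0
    · obtain ⟨i₀, j₀, hz⟩ := hz
      obtain ⟨τ, hinj, hτ⟩ := pattern h4 hσ hg hz
      obtain ⟨y, hy⟩ : ∃ y, τ y ≠ τ 0 + i := by
        by_contra hcon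
        push Not at hcon
        have h1 := hcon 1
        rw [← hcon 0] at h1
        exact absurd (hinj h1) (by decide)
      apply mem_R3 h4 hσ hm (i₀ := 0) (j₀ := y) _ hdet htr'
      rw [hent]
      refine Finset.sum_eq_zero fun l _ => ?_
      by_contra hne
      have h1 : g.1 0 l ≠ 0 := by rintro h0; rw [h0] at hne; simp at hne
      have h2 : g.1 y (l + i) ≠ 0 := by rintro h0; rw [h0] at hne; simp at hne
      have h3 := (hτ _ _).1 h1
      have h5 := (hτ _ _).1 h2
      exact hy (by rw [← h5, h3])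
    · push Not at hz
      have hprod : ∏ l, (g.1 0 l * d l * g.1 0 (l + i) ^ 2) = 1 := by
        rw [Finset.prod_mul_distrib, Finset.prod_mul_distrib, h.1, mul_one]
        have := Equiv.prod_comp (Equiv.addRight i) (fun k => g.1 0 k ^ 2)
        simp only [Equiv.coe_addRight] at this
        rw [this, ← Finset.prod_mul_distrib]
        refine Finset.prod_eq_one fun k _ => ?_
        rw [← h4.cube _ (hz 0 k)]; ring
      rcases three_terms h4 _ hprod with h1 | h1
      · apply mem_R3 h4 hσ hm (i₀ := 0) (j₀ := 0) _ hdet htr'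
        rw [hent, h1]
      · apply mem_R3 h4 hσ hm (i₀ := 0) (j₀ := 1) _ hdet htr'
        rw [hent]
        have h2 : ∀ l, g.1 0 l * d l = (g.1 0 0 * d 0 * g.1 0 (0 + i) ^ 2) * g.1 0 (l + i) := by
          intro l
          rw [← h1 l 0]
          linear_combination (-(g.1 0 l * d l)) * h4.cube _ (hz 0 (l + i))
        have h3 : ∀ l, g.1 0 l * d l * g.1 1 (l + i) ^ 2 = (g.1 0 0 * d 0 * g.1 0 (0 + i) ^ 2) * (g.1 0 (l + i) * g.1 1 (l + i) ^ 2) := by
          intro l
          rw [h2]; ring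
        rw [Finset.sum_congr rfl fun l _ => h3 l, ← Finset.mul_sum]
        have := Equiv.sum_comp (Equiv.addRight i) (fun k => g.1 0 k * g.1 1 k ^ 2)
        simp only [Equiv.coe_addRight] at this
        rw [this, G3_row h4 hσ hg, if_neg (by decide), mul_zero]

end Four

end CfsgLib.AschF
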