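import Mathlib
import Cfsg.Agent.LibAschF24

/-! the group 3^(1+2t) over the field with four elements -/
set_option autoImplicit false
set_option linter.unusedSectionVars false

namespace CfsgLib.AschF

open Module Cfsg Cfsg.Geo CfsgLib.Asch1 CfsgLib.Asch2 CfsgLib.Asch3 CfsgLib.Asch4 CfsgLib.Asch5 CfsgLib.Asch6 CfsgLib.Asch7
  CfsgLib.Asch8 CfsgLib.Asch9
  CfsgLib.Asch10 CfsgLib.Asch11 CfsgLib.Asch12 CfsgLib.Asch13 CfsgLib.Asch14 CfsgLib.Asch15 CfsgLib.Asch16 CfsgLib.Asch17
  CfsgLib.Asch18 CfsgLib.Asch19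
open scoped Matrix MatrixGroups Kronecker

namespace Four

variable {F : Type*} [Field F]

/-- cube root character -/
def psi (ω : F) (k : Fin 3) : F := ω ^ (k : ℕ)

section
variable {ω : F} (hω : ω ^ 2 + ω + 1 = 0)
include hω

theorem w3 : ω ^ 3 = 1 := by linear_combination (ω - 1) * hω

theorem psi_add (a b : Fin 3) : psi ω (a + b) = psi ω a * psi ω b := by
  have h3 := w3 hω
  unfold psi
  fin_cases a <;> fin_cases b <;> simp <;> first | ring1 | linear_combination -h3 | linear_combination -ω * h3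

theorem psi_ne (a : Fin 3) : psi ω a ≠ 0 := by
  have h3 := w3 hω
  have h0 : ω ≠ 0 := by rintro rfl; norm_num at h3
  exact pow_ne_zero _ h0

theorem psi_zero : psi ω 0 = 1 := by simp [psi]

variable (h4 : F4 F)
include h4

theorem w_ne : ω ≠ 1 := by
  rintro rfl
  have h2 := h4.two
  have : (1 : F) = 0 := by linear_combination hω - h2
  exact one_ne_zero this

theorem psi_eq_one {a : Fin 3} (h : psi ω a = 1) : a = 0 := by
  have h1 := w_ne hω h4
  have h3 := w3 hω
  unfold psi at h
  fin_cases a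
  · rfl
  · exact absurd (by simpa using h) h1
  · exfalso
    have h5 : ω ^ 2 = 1 := by simpa using h
    apply h1
    linear_combination h3 - ω * h5

theorem psi_sum (a : Fin 3) : ∑ j, psi ω (j * a) = if a = 0 then 1 else 0 := by
  have h2 := h4.two
  rw [Fin.sum_univ_three]
  unfold psi
  fin_cases a
  · simp; linear_combination h2
  · simp; linear_combination hω
  · simp
    linear_combination hω

theorem exists_psi {x : F} (hx : x ≠ 0) : ∃ j, x = psi ω j := by
  have h1 := h4.cube x hx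
  have h3 := w3 hω
  have h5 : (x - 1) * ((x - ω) * (x - ω ^ 2)) = 0 := by
    linear_combination h1 - (x ^ 2 - x) * hω + (x - 1) * h3
  rcases mul_eq_zero.1 h5 with h | h
  · exact ⟨0, by rw [psi_zero hω]; exact sub_eq_zero.1 h⟩
  rcases mul_eq_zero.1 h with h | h
  · exact ⟨1, by rw [sub_eq_zero.1 h]; simp [psi]⟩
  · exact ⟨2, by rw [sub_eq_zero.1 h]; simp [psi]⟩

theorem E3.form {g : GL (Fin 3) F} {i : Fin 3} {d : Fin 3 → F} (h : E3 g i d) :
    ∃ c j, c ≠ 0 ∧ ∀ x, d x = c * psi ω (j * x) := by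
  have h0 := h.ne h4 0
  have h1 := h.ne h4 1
  have h2 := h.ne h4 2
  obtain ⟨j, hj⟩ := exists_psi hω h4 (div_ne_zero h1 h0)
  have hp := h.1
  rw [Fin.prod_univ_three] at hp
  have e1 : d 1 = d 0 * psi ω j := by rw [← hj]; field_simp
  have e2 : d 2 = d 0 * (psi ω j * psi ω j) := by
    have c0 := h4.cube _ h0
    have c1 := h4.cube _ (psi_ne hω j)
    have h5 : (d 0 * d 0 * psi ω j) * d 2 = (d 0 * d 0 * psi ω j) * (d 0 * (psi ω j * psi ω j)) := by
      rw [e1] at hp
      linear_combination hp - c0 - d 0 ^ 3 * c1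
    exact mul_left_cancel₀ (mul_ne_zero (mul_ne_zero h0 h0) (psi_ne hω j)) h5
  refine ⟨d 0, j, h0, fun x => ?_⟩
  fin_cases x
  · change d 0 = d 0 * psi ω (j * 0)
    rw [mul_zero, psi_zero hω, mul_one]
  · change d 1 = d 0 * psi ω (j * 1)
    rw [mul_one, e1]
  · change d 2 = d 0 * psi ω (j * 2)
    have : ∀ j : Fin 3, j * 2 = j + j := by decide
    rw [this, psi_add hω, e2]

omit h4 in
theorem commute_form {g h : GL (Fin 3) F} {i i' j j' : Fin 3} {c c' : F}
    (hg : E3 g i (fun x => c * psi ω (j * x))) (hh : E3 h i' (fun x => c' * psi ω (j' * x))) :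
    ((g * h : GL (Fin 3) F) : Matrix (Fin 3) (Fin 3) F) = psi ω (j' * i - j * i') • ((h * g : GL (Fin 3) F) : Matrix (Fin 3) (Fin 3) F) := by
  ext x y
  rw [Matrix.smul_apply, (hg.mul hh).2, (hh.mul hg).2, add_comm i' i]
  by_cases hy : y = x + (i + i')
  · rw [if_pos hy, if_pos hy, smul_eq_mul]
    have e1 : psi ω (j * x) * psi ω (j' * (x + i)) = psi ω (j' * i - j * i') * (psi ω (j' * x) * psi ω (j * (x + i'))) := by
      rw [← psi_add hω, ← psi_add hω, ← psi_add hω]
      have : ∀ i i' j j' x : Fin 3, j * x + j' * (x + i) = j' * i - j * i' + (j' * x + j * (x + i')) := by decide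
      rw [this]
    linear_combination (c * c') * e1
  · rw [if_neg hy, if_neg hy, smul_zero]

omit h4 hω in
theorem det_E3 {A : Matrix (Fin 3) (Fin 3) F} {i : Fin 3} {d : Fin 3 → F} (h1 : ∏ x, d x = 1)
    (h : ∀ x y, A x y = if y = x + i then d x else 0) : A.det = 1 := by
  rw [Matrix.det_fin_three, ← h1, Fin.prod_univ_three]
  simp only [h]
  fin_cases i
  · simp
  · simp
  · simp

omit h4 hω in
theorem exists_E3 (i : Fin 3) (d : Fin 3 → F) (hd : ∏ x, d x = 1) : ∃ g : GL (Fin 3) F, E3 g i d := by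
  let A : Matrix (Fin 3) (Fin 3) F := fun x y => if y = x + i then d x else 0
  have hA : A.det = 1 := det_E3 hd fun _ _ => rfl
  exact ⟨Matrix.GeneralLinearGroup.mk'' A (by rw [hA]; exact isUnit_one), hd, fun _ _ => rfl⟩

omit h4 in
theorem psi_prod (j : Fin 3) : ∏ x, psi ω (j * x) = 1 := by
  rw [Fin.prod_univ_three, ← psi_add hω, ← psi_add hω]
  have : ∀ j : Fin 3, j * 0 + j * 1 + j * 2 = 0 := by decide
  rw [this, psi_zero hω]

/-- every matrix is a combination of elements of R3 -/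
theorem span_R3 (r : Fin 3 × Fin 3 → GL (Fin 3) F) (hr : ∀ p, E3 (r p) p.1 (fun x => psi ω (p.2 * x)))
    (M : Matrix (Fin 3) (Fin 3) F) : ∃ c : Fin 3 × Fin 3 → F, M = ∑ p, c p • (r p).1 := by
  refine ⟨fun p => ∑ z, psi ω (2 * (p.2 * z)) * M z (z + p.1), ?_⟩
  ext x y
  rw [Matrix.sum_apply, Fintype.sum_prod_type, Finset.sum_eq_single (y - x)]
  · simp only [Matrix.smul_apply, (hr _).2, smul_eq_mul]
    have hyx : ∀ x y : Fin 3, y = x + (y - x) := by decide
    have hyx := hyx x y
    simp only [if_pos hyx.symm.symm, Finset.sum_mul]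
    rw [Finset.sum_comm]
    rw [Finset.sum_eq_single x]
    · have h1 : ∀ j : Fin 3, psi ω (2 * (j * x)) * M x (x + (y - x)) * psi ω (j * x) = M x y := by
        intro j
        have : psi ω (2 * (j * x)) * psi ω (j * x) = 1 := by
          rw [← psi_add hω]
          have : ∀ j x : Fin 3, 2 * (j * x) + j * x = 0 := by decide
          rw [this, psi_zero hω]
        rw [← hyx]
        linear_combination M x y * this
      rw [Finset.sum_congr rfl fun j _ => h1 j, Finset.sum_const, Finset.card_univ, Fintype.card_fin]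
      have h2 := h4.two
      simp only [nsmul_eq_mul]; push_cast
      linear_combination -(M x y) * h2
    · intro z _ hz
      have h1 : ∀ j : Fin 3, psi ω (2 * (j * z)) * M z (z + (y - x)) * psi ω (j * x) = M z (z + (y - x)) * psi ω (j * (2 * z + x)) := by
        intro j
        have : psi ω (2 * (j * z)) * psi ω (j * x) = psi ω (j * (2 * z + x)) := by
          rw [← psi_add hω]
          have : ∀ j z x : Fin 3, 2 * (j * z) + j * x = j * (2 * z + x) := by decide
          rw [this]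
        linear_combination M z (z + (y - x)) * this
      have h3 : ∀ z x : Fin 3, z ≠ x → ¬ (2 * z + x = 0) := by decide
      rw [Finset.sum_congr rfl fun j _ => h1 j, ← Finset.mul_sum, psi_sum hω h4, if_neg (h3 z x hz), mul_zero]
    · simp
  · intro i _ hi
    refine Finset.sum_eq_zero fun j _ => ?_
    rw [Matrix.smul_apply, (hr _).2, if_neg, smul_zero]
    rintro rfl
    apply hi; simp
  · simp

/-- the Fourier matrix -/
theorem exists_W {σ : F ≃+* F} (hσ : ∀ x, σ x = x ^ 2) : ∃ W : GL (Fin 3) F, W ∈ G3 σ hσ h4 ∧ ∀ x y, W.1 x y = psi ω (x * y) := by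
  let A : Matrix (Fin 3) (Fin 3) F := fun x y => psi ω (x * y)
  have h1 : A * (A.map σ)ᵀ = 1 := by
    ext x y
    rw [Matrix.mul_apply, Matrix.one_apply]
    have h2 : ∀ j : Fin 3, A x j * (A.map σ)ᵀ j y = psi ω (j * (x + 2 * y)) := by
      intro j
      rw [Matrix.transpose_apply, Matrix.map_apply, hσ, pow_two]
      change psi ω (x * j) * (psi ω (y * j) * psi ω (y * j)) = _
      rw [← psi_add hω, ← psi_add hω]
      have : ∀ x j y : Fin 3, x * j + (y * j + y * j) = j * (x + 2 * y) := by decide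
      rw [this]
    rw [Finset.sum_congr rfl fun j _ => h2 j, psi_sum hω h4]
    have h3 : ∀ x y : Fin 3, x + 2 * y = 0 ↔ x = y := by decide
    simp only [h3]
  exact ⟨⟨A, (A.map σ)ᵀ, h1, mul_eq_one_comm.1 h1⟩, h1, fun _ _ => rfl⟩

theorem W_conj {W : GL (Fin 3) F} (hW : ∀ x y, W.1 x y = psi ω (x * y)) {g : GL (Fin 3) F} {i j : Fin 3} {c : F}
    (hg : E3 g i (fun x => c * psi ω (j * x))) :
    E3 (W * g * W⁻¹) j (fun x => (c * psi ω (-(i * j))) * psi ω (-i * x)) := by
  have hc : c ^ 3 = 1 := by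
    have h1 := hg.1
    rw [Finset.prod_mul_distrib, psi_prod hω, mul_one, Finset.prod_const, Finset.card_univ, Fintype.card_fin] at h1
    exact h1
  have hd : ∏ x, ((c * psi ω (-(i * j))) * psi ω (-i * x)) = 1 := by
    rw [Finset.prod_mul_distrib, psi_prod hω, mul_one, Finset.prod_const, Finset.card_univ, Fintype.card_fin, mul_pow, hc, one_mul,
      h4.cube _ (psi_ne hω _)]
  obtain ⟨r', hr'⟩ := exists_E3 j _ hd
  have h1 : W * g = r' * W := by
    apply Units.ext
    rw [Units.val_mul, Units.val_mul]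
    ext x y
    have e0 : ∀ y i : Fin 3, y = y - i + i := by decide
    rw [Matrix.mul_apply, Matrix.mul_apply, Finset.sum_eq_single (y - i), Finset.sum_eq_single (x + j)]
    · rw [hg.2, if_pos (e0 y i), hr'.2, if_pos rfl, hW, hW]
      have e1 : psi ω (x * (y - i)) * psi ω (j * (y - i)) = psi ω (-(i * j)) * psi ω (-i * x) * psi ω ((x + j) * y) := by
        rw [← psi_add hω, ← psi_add hω, ← psi_add hω]
        have : ∀ i j x y : Fin 3, x * (y - i) + j * (y - i) = -(i * j) + -i * x + (x + j) * y := by decide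
        rw [this]
      linear_combination c * e1
    · intro z _ hz
      rw [hr'.2, if_neg hz, zero_mul]
    · simp
    · intro z _ hz
      rw [hg.2, if_neg, mul_zero]
      rintro rfl
      apply hz
      have : ∀ z i : Fin 3, z = z + i - i := by decide
      exact this z i
    · simp
  have h2 : W * g * W⁻¹ = r' := by rw [h1]; group
  rw [h2]; exact hr'

end

variable {ι : Type} [Fintype ι] [DecidableEq ι] {t : ℕ} (b : Basis (Fin t → Fin 3) F (ι → F))

/-- pure tensors with all factors in a subgroup -/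
def PS (K : Subgroup (GL (Fin 3) F)) : Subgroup (GL ι F) where
  carrier := {x | ∃ P : Fin t → GL (Fin 3) F, (∀ s, P s ∈ K) ∧ PTr b x P}
  mul_mem' := by
    rintro x y ⟨P, hP, hx⟩ ⟨Q, hQ, hy⟩
    exact ⟨P * Q, fun s => Subgroup.mul_mem _ (hP s) (hQ s), hx.mul b hy⟩
  one_mem' := ⟨1, fun s => Subgroup.one_mem _, PTr.one b⟩
  inv_mem' := by
    rintro x ⟨P, hP, hx⟩
    exact ⟨P⁻¹, fun s => Subgroup.inv_mem _ (hP s), hx.inv b⟩

theorem PTr_scalar {g : GL ι F} {P : Fin t → GL (Fin 3) F} (h : PTr b g P) {c : Fin t → F}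
    (hc : ∀ s, (P s).1 = c s • (1 : Matrix (Fin 3) (Fin 3) F)) : (g : Matrix ι ι F) = (∏ s, c s) • (1 : Matrix ι ι F) := by
  apply ext_basis b
  intro x
  rw [h, Matrix.smul_mulVec, Matrix.one_mulVec, Finset.sum_eq_single x]
  · congr 1
    refine Finset.prod_congr rfl fun s _ => ?_
    rw [hc, Matrix.smul_apply, Matrix.one_apply_eq, smul_eq_mul, mul_one]
  · intro y _ hy
    obtain ⟨s, hs⟩ := Function.ne_iff.1 hy
    rw [Finset.prod_eq_zero (Finset.mem_univ s), zero_smul]
    rw [hc, Matrix.smul_apply, Matrix.one_apply_ne hs, smul_zero]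
  · simp

theorem scalar_of_PTr {g : GL ι F} {P : Fin t → GL (Fin 3) F} [Nonempty ι] (h : PTr b g P)
    (hc : ∀ s, ∃ c : F, (P s).1 = c • (1 : Matrix (Fin 3) (Fin 3) F)) : g ∈ scalars ι F := by
  choose c hc using hc
  exact mem_scalars_of_eq (PTr_scalar b h hc)

section
variable (h4 : F4 F)

theorem cube_mem {g : GL ι F} (hg : g ∈ PS b (R3 h4)) : g ^ 3 = 1 := by
  obtain ⟨P, hP, h⟩ := hg
  have h1 := (h.mul b h).mul b h
  have h2 : P * P * P = 1 := by
    funext s
    obtain ⟨i, d, hE⟩ := hP s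
    have := hE.cube h4
    rw [Pi.mul_apply, Pi.mul_apply, Pi.one_apply, ← this, pow_succ, pow_two]
  rw [h2] at h1
  rw [pow_succ, pow_two]
  exact h1.unique b (PTr.one b)

theorem comm_R3 {x y : GL (Fin 3) F} (hx : x ∈ R3 h4) (hy : y ∈ R3 h4) :
    ∃ c : F, ((x * y * x⁻¹ * y⁻¹ : GL (Fin 3) F) : Matrix (Fin 3) (Fin 3) F) = c • (1 : Matrix (Fin 3) (Fin 3) F) := by
  obtain ⟨ω, hω⟩ := h4.ex
  obtain ⟨i, d, hd⟩ := hx
  obtain ⟨i', d', hd'⟩ := hy
  obtain ⟨c, j, _, hc⟩ := hd.form hω h4
  obtain ⟨c', j', _, hc'⟩ := hd'.form hω h4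
  rw [funext hc] at hd
  rw [funext hc'] at hd'
  have h1 := commute_form hω hd hd'
  refine ⟨psi ω (j' * i - j * i'), ?_⟩
  have h2 : (x * y * x⁻¹ * y⁻¹ : GL (Fin 3) F) = (x * y) * (y * x)⁻¹ := by group
  rw [h2, Units.val_mul, h1, Matrix.smul_mul, ← Units.val_mul, mul_inv_cancel, Units.val_one]

theorem comm_PS [Nonempty ι] : ⁅PS b (R3 h4), PS b (R3 h4)⁆ ≤ scalars ι F := by
  rw [Subgroup.commutator_le]
  rintro x ⟨P, hP, hx⟩ y ⟨Q, hQ, hy⟩
  rw [commutatorElement_def]
  exact scalar_of_PTr b (((hx.mul b hy).mul b (hx.inv b)).mul b (hy.inv b)) fun s => comm_R3 h4 (hP s) (hQ s)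

theorem alg_PS : alg (PS b (R3 h4)) = ⊤ := by
  classical
  obtain ⟨ω, hω⟩ := h4.ex
  have hex : ∀ p : Fin 3 × Fin 3, ∃ g : GL (Fin 3) F, E3 g p.1 (fun x => psi ω (p.2 * x)) := fun p =>
    exists_E3 p.1 _ (psi_prod hω p.2)
  choose r hr using hex
  let T : (Fin t → Matrix (Fin 3) (Fin 3) F) → Matrix ι ι F := fun X =>
    LinearMap.toMatrix' (b.constr F fun x => ∑ y : Fin t → Fin 3, (∏ s, X s (y s) (x s)) • b y)
  have hT : ∀ (X : Fin t → Matrix (Fin 3) (Fin 3) F) x, T X *ᵥ b x = ∑ y : Fin t → Fin 3, (∏ s, X s (y s) (x s)) • b y := by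
    intro X x
    change LinearMap.toMatrix' _ *ᵥ b x = _
    rw [← Matrix.toLin'_apply, Matrix.toLin'_toMatrix', Basis.constr_basis]
  have h1 : ∀ k : Fin t → Fin 3 × Fin 3, T (fun s => (r (k s)).1) ∈ alg (PS b (R3 h4)) := by
    intro k
    obtain ⟨g, hg⟩ := exists_PTr b (fun s => r (k s))
    have h2 : (g : Matrix ι ι F) = T (fun s => (r (k s)).1) := by
      apply ext_basis b
      intro x
      rw [hg, hT]
    rw [← h2]
    exact mem_alg ⟨_, fun s => ⟨_, _, hr (k s)⟩, hg⟩
  have h2 : ∀ X, T X ∈ alg (PS b (R3 h4)) := by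
    intro X
    have h3 : ∀ s, ∃ c : Fin 3 × Fin 3 → F, X s = ∑ p, c p • (r p).1 := fun s => span_R3 hω h4 r hr (X s)
    choose c hc using h3
    have h5 : T X = ∑ k : Fin t → Fin 3 × Fin 3, (∏ s, c s (k s)) • T (fun s => (r (k s)).1) := by
      apply ext_basis b
      intro x
      rw [hT, Matrix.sum_mulVec]
      simp only [Matrix.smul_mulVec, hT, Finset.smul_sum, smul_smul]
      rw [Finset.sum_comm]
      refine Finset.sum_congr rfl fun y _ => ?_
      rw [← Finset.sum_smul]
      congr 1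
      have h6 : ∀ s, X s (y s) (x s) = ∑ p, c s p * (r p).1 (y s) (x s) := by
        intro s
        conv_lhs => rw [hc s]
        rw [Matrix.sum_apply]
        rfl
      simp only [h6]
      rw [Finset.prod_univ_sum, Fintype.piFinset_univ]
      refine Finset.sum_congr rfl fun k _ => ?_
      rw [Finset.prod_mul_distrib]
    rw [h5]
    exact Subalgebra.sum_mem _ fun k _ => Subalgebra.smul_mem _ (h1 k) _
  rw [eq_top_iff]
  intro M _
  have h3 : M = ∑ x : Fin t → Fin 3, ∑ y : Fin t → Fin 3, (b.repr (M *ᵥ b x) y) • T (fun s => Matrix.single (y s) (x s) 1) := by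
    apply ext_basis b
    intro z
    rw [Matrix.sum_mulVec, Finset.sum_eq_single z]
    · conv_lhs => rw [← b.sum_repr (M *ᵥ b z)]
      rw [Matrix.sum_mulVec]
      refine Finset.sum_congr rfl fun y _ => ?_
      rw [Matrix.smul_mulVec, hT, Finset.sum_eq_single y]
      · simp
      · intro y' _ hy'
        obtain ⟨s, hs⟩ := Function.ne_iff.1 hy'
        rw [Finset.prod_eq_zero (Finset.mem_univ s), zero_smul]
        rw [Matrix.single_apply_of_row_ne (Ne.symm hs)]
      · simp
    · intro x _ hx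
      rw [Matrix.sum_mulVec]
      refine Finset.sum_eq_zero fun y _ => ?_
      rw [Matrix.smul_mulVec, hT, Finset.sum_eq_zero, smul_zero]
      intro y' _
      obtain ⟨s, hs⟩ := Function.ne_iff.1 hx
      rw [Finset.prod_eq_zero (Finset.mem_univ s), zero_smul]
      rw [Matrix.single_apply_of_col_ne _ _ hs]
    · simp
  rw [h3]
  exact Subalgebra.sum_mem _ fun x _ => Subalgebra.sum_mem _ fun y _ => Subalgebra.smul_mem _ (h2 _) _

theorem card_center [Nonempty ι] (ht : 1 ≤ t) : Nat.card (Subgroup.center (PS b (R3 h4))) = 3 := by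
  classical
  haveI := h4.fin
  have hle : scalars ι F ≤ PS b (R3 h4) := by
    rintro _ ⟨u, rfl⟩
    have hE : ∃ g : GL (Fin 3) F, E3 g 0 (fun _ => (u : F)) := exists_E3 0 _ (by
      rw [Finset.prod_const, Finset.card_univ, Fintype.card_fin]; exact h4.cube _ u.ne_zero)
    obtain ⟨g, hg⟩ := hE
    let s₀ : Fin t := ⟨0, ht⟩
    refine ⟨Pi.mulSingle s₀ g, fun s => ?_, ?_⟩
    · by_cases hs : s = s₀
      · subst hs; rw [Pi.mulSingle_eq_same]; exact ⟨_, _, hg⟩
      · rw [Pi.mulSingle_eq_of_ne hs]; exact one_mem _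
    · obtain ⟨g', hg'⟩ := exists_PTr b (Pi.mulSingle s₀ g)
      have h1 := PTr_scalar b hg' (c := Pi.mulSingle s₀ (u : F)) (by
        intro s
        by_cases hs : s = s₀
        · subst hs; rw [Pi.mulSingle_eq_same, Pi.mulSingle_eq_same]
          ext x y
          rw [hg.2, Matrix.smul_apply, Matrix.one_apply, add_zero]
          by_cases hxy : x = y
          · rw [if_pos hxy.symm, if_pos hxy]; simp
          · rw [if_neg (Ne.symm hxy), if_neg hxy]; simp
        · rw [Pi.mulSingle_eq_of_ne hs, Pi.mulSingle_eq_of_ne hs, one_smul]; rfl)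
      have h2 : Units.map (Matrix.scalar ι : F →+* Matrix ι ι F).toMonoidHom u = g' := by
        apply Units.ext
        rw [h1, Fintype.prod_pi_mulSingle']
        change Matrix.scalar ι (u : F) = _
        rw [Matrix.scalar_apply, ← Matrix.smul_one_eq_diagonal]
      change PTr b (Units.map (Matrix.scalar ι : F →+* Matrix ι ι F).toMonoidHom u) _
      rw [h2]; exact hg'
  rw [center_eq (alg_PS b h4)]
  have h1 : Nat.card ((scalars ι F).subgroupOf (PS b (R3 h4))) = Nat.card (scalars ι F) :=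
    Nat.card_congr (Subgroup.subgroupOfEquivOfLe hle).toEquiv
  rw [h1]
  have h2 : Function.Injective (Units.map (Matrix.scalar ι : F →+* Matrix ι ι F).toMonoidHom) := by
    intro u v huv
    have h3 := congrArg (fun g : GL ι F => (g : Matrix ι ι F)) huv
    obtain ⟨i⟩ := (inferInstance : Nonempty ι)
    have h5 := congrFun (congrFun h3 i) i
    change (Matrix.scalar ι (u : F)) i i = (Matrix.scalar ι (v : F)) i i at h5
    rw [Matrix.scalar_apply, Matrix.scalar_apply, Matrix.diagonal_apply_eq, Matrix.diagonal_apply_eq] at h5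
    exact Units.ext h5
  have h3 : Nat.card (scalars ι F) = Nat.card Fˣ := by
    change Nat.card (Units.map (Matrix.scalar ι : F →+* Matrix ι ι F).toMonoidHom).range = _
    exact (Nat.card_congr (MonoidHom.ofInjective h2).toEquiv).symm
  rw [h3, Nat.card_units, h4.card]

theorem card_PS [Nonempty ι] (ht : 1 ≤ t) : Nat.card (PS b (R3 h4)) = 3 ^ (1 + 2 * t) := by
  haveI := h4.fin
  rw [card_eq (alg_PS b h4) (comm_PS b h4), card_center b h4 ht]
  have h1 : Fintype.card ι = 3 ^ t := by
    have h2 := Module.finrank_eq_card_basis b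
    rw [Module.finrank_fintype_fun_eq_card] at h2
    rw [h2]; simp
  rw [h1]; ring

theorem nrd_PS {σ : F ≃+* F} (hσ : ∀ x, σ x = x ^ 2) : Nrd (PS b (G3 σ hσ h4)) (PS b (R3 h4)) := by
  rintro g ⟨P, hP, hg⟩ x ⟨Q, hQ, hx⟩
  exact ⟨P * Q * P⁻¹, fun s => normalise h4 hσ (hP s) (hQ s), (hg.mul b hx).mul b (hg.inv b)⟩

theorem char_abelian [Nonempty ι] {σ : F ≃+* F} (hσ : ∀ x, σ x = x ^ 2) (A : Subgroup (PS b (R3 h4))) (hA : A.Characteristic)
    (hAc : IsMulCommutative A) : A.map (PS b (R3 h4)).subtype ≤ scalars ι F := by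
  classical
  haveI := hA
  obtain ⟨ω, hω⟩ := h4.ex
  obtain ⟨W, hW3, hW⟩ := exists_W hω h4 hσ
  have hn := char_nrd (nrd_PS b h4 hσ) A
  rintro _ ⟨a, ha, rfl⟩
  obtain ⟨P, hP, hPa⟩ := a.2
  refine scalar_of_PTr b hPa fun s => ?_
  obtain ⟨i, d, hd⟩ := hP s
  obtain ⟨c, j, _, hc⟩ := hd.form hω h4
  rw [funext hc] at hd
  -- conjugate by W in slot s
  obtain ⟨T, hT⟩ := exists_PTr b (Pi.mulSingle s W)
  have hTm : T ∈ PS b (G3 σ hσ h4) := ⟨_, fun r => by
    by_cases hr : r = s
    · subst hr; rw [Pi.mulSingle_eq_same]; exact hW3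
    · rw [Pi.mulSingle_eq_of_ne hr]; exact one_mem _, hT⟩
  have h1 := hn T hTm a ⟨a, ha, rfl⟩
  obtain ⟨a', ha', haa'⟩ := h1
  have hcomm : (a : GL ι F) * (T * a * T⁻¹) = (T * a * T⁻¹) * a := by
    have h2 := hAc.is_comm.comm (⟨a, ha⟩ : A) ⟨a', ha'⟩
    have h3 := congrArg (fun z : A => ((z : PS b (R3 h4)) : GL ι F)) h2
    change (a : GL ι F) * (a' : GL ι F) = (a' : GL ι F) * a at h3
    change (a' : GL ι F) = _ at haa'
    rw [haa'] at h3
    exact h3
  have hPT := (hT.mul b hPa).mul b (hT.inv b)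
  have h3 := (hPa.mul b hPT).mul b ((hPT.mul b hPa).inv b)
  have h5 : (a : GL ι F) * (T * a * T⁻¹) * ((T * a * T⁻¹) * a)⁻¹ = 1 := by rw [hcomm, mul_inv_cancel]
  rw [h5] at h3
  have hWP := W_conj hω h4 hW hd
  have h6 := commute_form hω hd hWP
  set lam := psi ω (-i * i - j * j) with hlam
  have h7 := PTr_scalar b h3 (c := Pi.mulSingle s lam) (by
    intro r
    by_cases hr : r = s
    · subst hr
      rw [Pi.mulSingle_eq_same]
      change ((P r * ((Pi.mulSingle r W : Fin t → GL (Fin 3) F) r * P r * ((Pi.mulSingle r W : Fin t → GL (Fin 3) F) r)⁻¹) *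
        ((Pi.mulSingle r W : Fin t → GL (Fin 3) F) r * P r * ((Pi.mulSingle r W : Fin t → GL (Fin 3) F) r)⁻¹ * P r)⁻¹ : GL (Fin 3) F) : Matrix (Fin 3) (Fin 3) F) = _
      rw [Pi.mulSingle_eq_same, Units.val_mul, h6, Matrix.smul_mul, ← Units.val_mul, mul_inv_cancel, Units.val_one]
    · rw [Pi.mulSingle_eq_of_ne hr, one_smul]
      change ((P r * ((Pi.mulSingle s W : Fin t → GL (Fin 3) F) r * P r * ((Pi.mulSingle s W : Fin t → GL (Fin 3) F) r)⁻¹) *
        ((Pi.mulSingle s W : Fin t → GL (Fin 3) F) r * P r * ((Pi.mulSingle s W : Fin t → GL (Fin 3) F) r)⁻¹ * P r)⁻¹ : GL (Fin 3) F) : Matrix (Fin 3) (Fin 3) F) = _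
      rw [Pi.mulSingle_eq_of_ne hr]
      have : P r * (1 * P r * (1 : GL (Fin 3) F)⁻¹) * (1 * P r * (1 : GL (Fin 3) F)⁻¹ * P r)⁻¹ = 1 := by group
      rw [this, Units.val_one])
  rw [Fintype.prod_pi_mulSingle', Units.val_one] at h7
  have h8 : lam = 1 := by
    obtain ⟨i'⟩ := (inferInstance : Nonempty ι)
    have := congrFun (congrFun h7 i') i'
    rw [Matrix.smul_apply, Matrix.one_apply_eq, smul_eq_mul, mul_one] at this
    exact this.symm
  have h9 := psi_eq_one hω h4 h8
  have h10 : ∀ i j : Fin 3, -i * i - j * j = 0 → i = 0 ∧ j = 0 := by decide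
  obtain ⟨rfl, rfl⟩ := h10 i j h9
  refine ⟨c, ?_⟩
  ext x y
  rw [hd.2, Matrix.smul_apply, Matrix.one_apply, add_zero]
  simp only [zero_mul, psi_zero hω]
  by_cases hxy : x = y
  · rw [if_pos hxy.symm, if_pos hxy]; simp
  · rw [if_neg (Ne.symm hxy), if_neg hxy]; simp

theorem symp_type [Nonempty ι] (ht : 1 ≤ t) {σ : F ≃+* F} (hσ : ∀ x, σ x = x ^ 2) : IsSymplecticTypeGroup 3 (PS b (R3 h4)) := by
  haveI := h4.fin
  have hcard := card_PS b h4 ht
  have hcube : ∀ g : PS b (R3 h4), g ^ 3 = 1 := fun g => by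
    ext1
    exact cube_mem b h4 g.2
  refine ⟨by norm_num, ?_, ?_, ?_⟩
  · exact IsPGroup.of_card hcard
  · intro A hA hAc
    have h1 := char_abelian b h4 hσ A hA hAc
    have hcyc : IsCyclic (scalars ι F) := cyclic_scalars
    let f : A →* scalars ι F :=
      { toFun := fun x => ⟨((x : PS b (R3 h4)) : GL ι F), h1 ⟨x, x.2, rfl⟩⟩
        map_one' := by ext; simp
        map_mul' := fun a b => by ext; simp }
    have hf : Function.Injective f := by
      intro a b hab
      have := congrArg Subtype.val hab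
      ext1
      ext1
      exact this
    exact isCyclic_of_injective f hf
  · have h1 : Monoid.exponent (PS b (R3 h4)) ∣ 3 := Monoid.exponent_dvd_of_forall_pow_eq_one hcube
    have h2 : 3 * Nat.gcd 2 3 = 3 := by norm_num
    rw [h2]
    rcases (Nat.dvd_prime (by norm_num)).1 h1 with h3 | h3
    · exfalso
      rw [Monoid.exp_eq_one_iff] at h3
      have h5 : Nat.card (PS b (R3 h4)) = 1 := by
        haveI := h3
        exact Nat.card_unique
      rw [hcard] at h5
      have : 3 ^ (1 + 2 * t) ≠ 1 := by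
        have : 1 < 3 ^ (1 + 2 * t) := Nat.one_lt_pow (by omega) (by norm_num)
        omega
      exact this h5
    · exact h3

end

/-- the tensor wreath groups with three-dimensional factors over the field with four elements -/
theorem two_three [Fintype F] [Nonempty ι] (hF : Fintype.card F = 4) {σ : F ≃+* F} (hσ : ∀ x, σ x = x ^ 2)
    {f : (ι → F) → (ι → F) → F} (hf : FD σ 1 f) (ht : 1 ≤ t)
    (hb : ∀ x y, f (b x) (b y) = if x = y then 1 else 0) {H : Subgroup (GL ι F)} (hH : Iso f H)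
    (hTW : ∀ h ∈ H, TW b (h : Matrix ι ι F)) :
    ∃ R : Subgroup (GL ι F), IsSymplecticTypeGroup 3 R ∧ ActsAbsolutelyIrreducibly (matrixSet R) ∧
      R ≤ similarityGroup f ∧ IsMinimalFieldFor (Nat.card (Subgroup.center R)) 2 2 F ∧
      Nat.card (Subgroup.center R) = 3 ∧ Nat.card R = 3 ^ (1 + 2 * t) ∧ H ≤ subgroupNormalizer R := by
  classical
  have h4 : F4 F := f4 hF
  let f₁ : (Fin 3 → F) → (Fin 3 → F) → F := formOfGram (fun x => σ x) (1 : Matrix (Fin 3) (Fin 3) F)
  have hf₁ : FD σ 1 f₁ := FD_of_gram 1 (by simp) (by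
    intro i j
    rw [one_mul]
    by_cases h : i = j
    · subst h; simp
    · rw [Matrix.one_apply_ne h, Matrix.one_apply_ne (Ne.symm h), map_zero]) hf.sq (Or.inl rfl)
  have hg₁ : gramMatrix f₁ = 1 := gramMatrix_formOfGram (1 : Matrix (Fin 3) (Fin 3) F) (σ : F →+* F)
  have hform : ∀ x y : Fin t → Fin 3, f (b x) (b y) = 1 * ∏ s, gramMatrix f₁ (x s) (y s) := by
    intro x y
    rw [hb, hg₁, one_mul]
    by_cases h : x = y
    · subst h; simp
    · rw [if_neg h]
      obtain ⟨s, hs⟩ := Function.ne_iff.1 h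
      have h0 : (1 : Matrix (Fin 3) (Fin 3) F) (x s) (y s) = 0 := Matrix.one_apply_ne hs
      exact (Finset.prod_eq_zero (Finset.mem_univ s) h0).symm
  have hf₁e : ∀ u v, f₁ u v = ∑ k, u k * v k ^ 2 := by
    intro u v
    rw [form_expand hf₁, hg₁]
    refine Finset.sum_congr rfl fun k _ => ?_
    rw [Finset.sum_eq_single k]
    · rw [Matrix.one_apply_eq, mul_one, hσ]
    · intro l _ hl
      rw [Matrix.one_apply_ne (Ne.symm hl)]; ring
    · simp
  -- members of G3 from orthonormality of columns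
  have hG3 : ∀ P : GL (Fin 3) F, (∀ i j, f₁ (P.1 *ᵥ Pi.single i 1) (P.1 *ᵥ Pi.single j 1) = if i = j then 1 else 0) →
      P ∈ G3 σ hσ h4 := by
    intro P hP
    have h1 : ((P.1).map σ)ᵀ * P.1 = 1 := by
      ext i j
      rw [Matrix.mul_apply, Matrix.one_apply]
      have h2 := hP j i
      rw [hf₁e] at h2
      simp only [Matrix.mulVec_single_one] at h2
      rw [show (if i = j then (1 : F) else 0) = if j = i then 1 else 0 by simp [eq_comm], ← h2]
      refine Finset.sum_congr rfl fun k _ => ?_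
      rw [Matrix.transpose_apply, Matrix.map_apply, hσ]
      simp only [Matrix.col_apply]
      ring
    exact mul_eq_one_comm.1 h1
  refine ⟨PS b (R3 h4), symp_type b h4 ht hσ, absIrred_of_alg (alg_PS b h4), ?_, ?_, card_center b h4 ht, card_PS b h4 ht, ?_⟩
  · rintro g ⟨P, hP, hg⟩
    have hiso : ∀ s i j, f₁ ((P s).1 *ᵥ Pi.single i 1) ((P s).1 *ᵥ Pi.single j 1) = if i = j then 1 else 0 := by
      intro s i j
      have h1 : P s ∈ G3 σ hσ h4 := by
        obtain ⟨i, d, hd⟩ := hP s
        exact hd.unitary h4 hσ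
      have h2 : ((P s).1.map σ)ᵀ * (P s).1 = 1 := mul_eq_one_comm.1 h1
      have h3 := congrFun (congrFun h2 j) i
      rw [Matrix.mul_apply, Matrix.one_apply] at h3
      rw [hf₁e, show (if i = j then (1 : F) else 0) = if j = i then 1 else 0 by simp [eq_comm], ← h3]
      simp only [Matrix.mulVec_single_one]
      refine Finset.sum_congr rfl fun k _ => ?_
      rw [Matrix.transpose_apply, Matrix.map_apply, hσ]
      simp only [Matrix.col_apply]
      ring
    have h1 : ∀ x y, f ((g : Matrix ι ι F) *ᵥ b x) ((g : Matrix ι ι F) *ᵥ b y) = f (b x) (b y) := by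
      intro x y
      rw [← tens_single b x, ← tens_single b y, PT_tens b hg, PT_tens b hg, tens_form b hf hf₁ hform,
        tens_form b hf hf₁ hform]
      simp only [hiso, hf₁e]
      congr 1
      refine Finset.prod_congr rfl fun s _ => ?_
      rw [Finset.sum_eq_single (x s)]
      · by_cases h : x s = y s
        · rw [if_pos h, h]; simp
        · rw [if_neg h, Pi.single_eq_of_ne h]; ring
      · intro k _ hk
        rw [Pi.single_eq_of_ne hk]; ring
      · simp
    have h2 : ∀ u v, f ((g : Matrix ι ι F) *ᵥ u) ((g : Matrix ι ι F) *ᵥ v) = f u v := by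
      intro u v
      conv_lhs => rw [← b.sum_repr u, ← b.sum_repr v]
      conv_rhs => rw [← b.sum_repr u, ← b.sum_repr v]
      rw [Matrix.mulVec_sum, Matrix.mulVec_sum, hf.sum_left, hf.sum_left]
      refine Finset.sum_congr rfl fun x _ => ?_
      rw [hf.sum_right, hf.sum_right]
      refine Finset.sum_congr rfl fun y _ => ?_
      rw [Matrix.mulVec_smul, Matrix.mulVec_smul, hf.smul_left, hf.smul_right, hf.smul_left, hf.smul_right, h1]
    exact ⟨1, fun u v => by rw [h2]; simp⟩
  · rw [card_center b h4 ht]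
    refine ⟨Nat.prime_two, ?_, by rw [hF]; norm_num, by norm_num, ?_⟩
    · exact CharTwo.of_one_ne_zero_of_two_eq_zero one_ne_zero h4.two
    · intro d hd hd2
      have : d = 1 := by omega
      subst this; norm_num
  · refine le_normalizer ?_
    rintro h hh g ⟨Q, hQ, hg⟩
    obtain ⟨π, P, hP⟩ := hTW h hh
    have hP : TWr b (h : Matrix ι ι F) π P := hP
    -- the factors are isometries
    have hprod : ∀ x y : Fin t → Fin 3, ∏ s, f₁ ((P s).1 *ᵥ Pi.single (x s) 1) ((P s).1 *ᵥ Pi.single (y s) 1) = if x = y then 1 else 0 := by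
      intro x y
      have h1 := hH h hh (b x) (b y)
      rw [TWr_single b hP, TWr_single b hP, tens_form b hf hf₁ hform, hb, one_mul] at h1
      rw [← h1]
      exact (Equiv.prod_comp π.symm fun s => f₁ ((P s).1 *ᵥ Pi.single (x s) 1) ((P s).1 *ᵥ Pi.single (y s) 1)).symm
    have hdiag : ∀ s i, f₁ ((P s).1 *ᵥ Pi.single i 1) ((P s).1 *ᵥ Pi.single i 1) = 1 := by
      intro s i
      set v := (P s).1 *ᵥ (Pi.single i 1 : Fin 3 → F) with hv
      have h1 := hprod (fun _ => i) (fun _ => i)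
      rw [if_pos rfl] at h1
      have h2 : f₁ v v ≠ 0 := by
        intro h0
        rw [Finset.prod_eq_zero (Finset.mem_univ s) h0] at h1
        exact zero_ne_one h1
      have h3 : f₁ v v ^ 2 = f₁ v v := by
        rw [← hσ]
        have := hf₁.herm v v
        rw [one_mul] at this
        exact this.symm
      have h5 : f₁ v v * (f₁ v v - 1) = 0 := by linear_combination h3
      exact sub_eq_zero.1 ((mul_eq_zero.1 h5).resolve_left h2)
    have hoff : ∀ s i j, f₁ ((P s).1 *ᵥ Pi.single i 1) ((P s).1 *ᵥ Pi.single j 1) = if i = j then 1 else 0 := by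
      intro s i j
      by_cases hij : i = j
      · subst hij; rw [if_pos rfl, hdiag]
      · rw [if_neg hij]
        have h1 := hprod (fun _ => i) (Function.update (fun _ => i) s j)
        rw [if_neg (by
          intro h0
          have := congrFun h0 s
          rw [Function.update_self] at this
          exact hij this), Finset.prod_eq_single s] at h1
        · rw [Function.update_self] at h1; exact h1
        · intro r _ hr
          rw [Function.update_of_ne hr, hdiag]
        · simp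
    have hPG : ∀ s, P s ∈ G3 σ hσ h4 := fun s => hG3 _ (hoff s)
    let Y : Fin t → GL (Fin 3) F := fun s => P (π.symm s) * Q (π.symm s) * (P (π.symm s))⁻¹
    obtain ⟨y, hy⟩ := exists_PTr b Y
    have h1 : h * g = y * h := by
      apply Units.ext
      apply ext_basis b
      intro x
      rw [Units.val_mul, Units.val_mul, ← Matrix.mulVec_mulVec, ← Matrix.mulVec_mulVec, TWr_single b hP, PT_tens b hy]
      rw [← tens_single b x, PT_tens b hg, TWr_tens b hP]
      congr 1
      funext s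
      rw [Matrix.mulVec_mulVec, Matrix.mulVec_mulVec, ← Units.val_mul, ← Units.val_mul]
      congr 2
      change _ = P (π.symm s) * Q (π.symm s) * (P (π.symm s))⁻¹ * P (π.symm s)
      group
    have h2 : h * g * h⁻¹ = y := by rw [h1]; group
    rw [h2]
    exact ⟨Y, fun s => normalise h4 hσ (hPG _) (hQ _), hy⟩

end Four

end CfsgLib.AschF
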