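import Mathlib
import Cfsg.Agent.LibAschF22
import Cfsg.Agent.LibAschF21

/-! symmetric forms in odd characteristic -/
set_option autoImplicit false
set_option linter.unusedSectionVars false

namespace CfsgLib.AschF

open Module Cfsg Cfsg.Geo CfsgLib.Asch1 CfsgLib.Asch2 CfsgLib.Asch3 CfsgLib.Asch4 CfsgLib.Asch5 CfsgLib.Asch6 CfsgLib.Asch7
  CfsgLib.Asch8 CfsgLib.Asch9
  CfsgLib.Asch10 CfsgLib.Asch11 CfsgLib.Asch12 CfsgLib.Asch13 CfsgLib.Asch14 CfsgLib.Asch15 CfsgLib.Asch16 CfsgLib.Asch17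
  CfsgLib.Asch18 CfsgLib.Asch19
open scoped Matrix MatrixGroups Kronecker

section sy
variable {ι : Type} [Fintype ι] [DecidableEq ι] {F : Type*} [Field F]
variable {f : (ι → F) → (ι → F) → F}

theorem symm_nz (hf : FD (RingEquiv.refl F) 1 f) (h2 : (2 : F) ≠ 0) {W : Submodule F (ι → F)}
    (hW : ∃ x ∈ W, ∃ y ∈ W, f x y ≠ 0) : ∃ w ∈ W, f w w ≠ 0 := by
  by_contra hcon
  push Not at hcon
  obtain ⟨x, hx, y, hy, hxy⟩ := hW
  have h1 := hcon (x + y) (W.add_mem hx hy)
  rw [hf.add_left, hf.add_right, hf.add_right, hcon x hx, hcon y hy] at h1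
  have h3 := hf.herm y x
  rw [one_mul] at h3
  change f y x = f x y at h3
  rw [h3] at h1
  apply hxy
  have h5 : (2 : F) * f x y = 0 := by linear_combination h1
  exact (mul_eq_zero.1 h5).resolve_left h2

theorem bin_one [Fintype F] (h2 : (2 : F) ≠ 0) {a b : F} (ha : a ≠ 0) (hb : b ≠ 0) : ∃ x y : F, a * x ^ 2 + b * y ^ 2 = 1 := by
  have hodd := odd_card h2
  open Polynomial in
  obtain ⟨x, y, h⟩ := FiniteField.exists_root_sum_quadratic (f := C a * X ^ 2) (g := C b * X ^ 2 + C (-1))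
    (by rw [degree_C_mul_X_pow 2 ha]; rfl)
    (by rw [degree_add_C (by rw [degree_C_mul_X_pow 2 hb]; decide), degree_C_mul_X_pow 2 hb]; rfl)
    (Nat.odd_iff.1 hodd)
  refine ⟨x, y, ?_⟩
  simp at h
  linear_combination h

theorem exists_one [Fintype F] (hf : FD (RingEquiv.refl F) 1 f) (h2 : (2 : F) ≠ 0) {W : Submodule F (ι → F)}
    (hd : 2 ≤ finrank F W) (hnd : IsNondegenerateOn f W) : ∃ w ∈ W, f w w = 1 := by
  have hW : W ≠ ⊥ := by rintro rfl; rw [finrank_bot] at hd; omega
  obtain ⟨v, hv, hvv⟩ := symm_nz hf h2 (by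
    obtain ⟨w, hw, hw0⟩ := Submodule.exists_mem_ne_zero_of_ne_bot hW
    obtain ⟨⟨x, hx, hxw⟩, _⟩ := hnd w hw hw0
    exact ⟨x, hx, w, hw, hxw⟩)
  obtain ⟨x₀, hx₀, hx₀'⟩ : ∃ x ∈ W, x ∉ Submodule.span F {v} := by
    by_contra hcon
    push Not at hcon
    have h1 : W ≤ Submodule.span F {v} := hcon
    have h3 := Submodule.finrank_mono h1
    have h4 := finrank_span_le_card (R := F) ({v} : Set (ι → F))
    simp at h4
    omega
  have hproj : ∀ z ∈ W, ∃ c : F, ∃ y ∈ W ⊓ perp hf (Submodule.span F {v}), z = y + c • v := by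
    intro z hz
    refine ⟨f z v / f v v, z - (f z v / f v v) • v, ⟨W.sub_mem hz (W.smul_mem _ hv), ?_⟩, by simp⟩
    rw [SetLike.mem_coe, mem_perp' hf]
    intro w hw
    obtain ⟨c, rfl⟩ := Submodule.mem_span_singleton.1 hw
    rw [sub_eq_add_neg, ← neg_smul, hf.smul_right, hf.add_left, hf.smul_left]
    field_simp; ring
  obtain ⟨u, hu, huu⟩ : ∃ u ∈ W ⊓ perp hf (Submodule.span F {v}), f u u ≠ 0 := by
    apply symm_nz hf h2
    obtain ⟨c, y, hy, hxy⟩ := hproj x₀ hx₀
    have hy0 : y ≠ 0 := by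
      rintro rfl
      apply hx₀'
      rw [hxy, zero_add]
      exact Submodule.smul_mem _ _ (Submodule.mem_span_singleton_self v)
    obtain ⟨⟨z, hz, hzy⟩, _⟩ := hnd y hy.1 hy0
    obtain ⟨c', y', hy', rfl⟩ := hproj z hz
    refine ⟨y', hy', y, hy, ?_⟩
    rw [hf.add_left, hf.smul_left, hf.zero_comm ((mem_perp' hf).1 hy.2 v (Submodule.mem_span_singleton_self v)), mul_zero,
      add_zero] at hzy
    exact hzy
  obtain ⟨x, y, hxy⟩ := bin_one h2 hvv huu
  have huv : f u v = 0 := (mem_perp' hf).1 hu.2 v (Submodule.mem_span_singleton_self v)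
  refine ⟨x • v + y • u, W.add_mem (W.smul_mem _ hv) (W.smul_mem _ hu.1), ?_⟩
  rw [hf.add_left, hf.add_right, hf.add_right, hf.smul_left, hf.smul_left, hf.smul_right, hf.smul_right, hf.smul_left, hf.smul_left,
    hf.smul_right, hf.smul_right, huv, hf.zero_comm huv]
  simp only [RingEquiv.refl_apply]
  linear_combination hxy

theorem sym_fam [Fintype F] (hf : FD (RingEquiv.refl F) 1 f) (h2 : (2 : F) ≠ 0) (d : ℕ) (hd : d + 1 ≤ Fintype.card ι) :
    ∃ w : Fin d → ι → F, ∀ i j, f (w i) (w j) = if i = j then 1 else 0 := by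
  induction d with
  | zero => exact ⟨fun i => Fin.elim0 i, fun i => Fin.elim0 i⟩
  | succ d ih =>
    obtain ⟨w, hw⟩ := ih (by omega)
    set U := Submodule.span F (Set.range w) with hU
    have hrk : finrank F U = d := by
      rw [hU, finrank_span_eq_card (orthonormal_li hf hw), Fintype.card_fin]
    have hUp : U ⊓ perp hf U = ⊥ := by
      rw [eq_bot_iff]
      rintro v ⟨hv1, hv2⟩
      obtain ⟨c, hc⟩ := (Submodule.mem_span_range_iff_exists_fun F).1 hv1
      have h1 : ∀ i, c i = 0 := by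
        intro i
        have h3 : f v (w i) = 0 := (mem_perp' hf).1 hv2 _ (Submodule.subset_span ⟨i, rfl⟩)
        rw [← hc, hf.sum_left, Finset.sum_eq_single i] at h3
        · rw [hf.smul_left, hw, if_pos rfl, mul_one] at h3; exact h3
        · intro j _ hj
          rw [hf.smul_left, hw, if_neg hj, mul_zero]
        · intro h; exact absurd (Finset.mem_univ i) h
      rw [← hc]
      simp [h1]
    have hfr := finrank_perp hf U
    obtain ⟨v, hv, hvv⟩ := exists_one hf h2 (by omega) (nondeg_perp hf hUp)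
    have hwv : ∀ i, f (w i) v = 0 := fun i => hv _ (Submodule.subset_span ⟨i, rfl⟩)
    refine ⟨Fin.snoc w v, ?_⟩
    intro i j
    refine Fin.lastCases ?_ (fun i => ?_) i
    · refine Fin.lastCases ?_ (fun j => ?_) j
      · rw [Fin.snoc_last, hvv, if_pos rfl]
      · rw [Fin.snoc_last, Fin.snoc_castSucc, hf.zero_comm (hwv j), if_neg]
        exact (Fin.castSucc_lt_last j).ne'
    · refine Fin.lastCases ?_ (fun j => ?_) j
      · rw [Fin.snoc_last, Fin.snoc_castSucc, hwv, if_neg]
        exact (Fin.castSucc_lt_last i).ne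
      · rw [Fin.snoc_castSucc, Fin.snoc_castSucc, hw]
        simp

end sy

section gl
variable {F : Type*} [Field F]

theorem sym_diag [Fintype F] {k : ℕ} {f₁ : (Fin (k + 1) → F) → (Fin (k + 1) → F) → F} (hf : FD (RingEquiv.refl F) 1 f₁)
    (h2 : (2 : F) ≠ 0) : ∃ (w : Fin (k + 1) → Fin (k + 1) → F) (c : F), c ≠ 0 ∧ LinearIndependent F w ∧
      ∀ i j, f₁ (w i) (w j) = if i = j then (if i = Fin.last k then c else 1) else 0 := by
  classical
  obtain ⟨w, hw⟩ := sym_fam hf h2 k (by rw [Fintype.card_fin])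
  set U := Submodule.span F (Set.range w) with hU
  have hrk : finrank F U = k := by
    rw [hU, finrank_span_eq_card (orthonormal_li hf hw), Fintype.card_fin]
  have hUp : U ⊓ perp hf U = ⊥ := by
    rw [eq_bot_iff]
    rintro v ⟨hv1, hv2⟩
    obtain ⟨c, hc⟩ := (Submodule.mem_span_range_iff_exists_fun F).1 hv1
    have h1 : ∀ i, c i = 0 := by
      intro i
      have h3 : f₁ v (w i) = 0 := (mem_perp' hf).1 hv2 _ (Submodule.subset_span ⟨i, rfl⟩)
      rw [← hc, hf.sum_left, Finset.sum_eq_single i] at h3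
      · rw [hf.smul_left, hw, if_pos rfl, mul_one] at h3; exact h3
      · intro j _ hj
        rw [hf.smul_left, hw, if_neg hj, mul_zero]
      · intro h; exact absurd (Finset.mem_univ i) h
    rw [← hc]
    simp [h1]
  have hfr := finrank_perp hf U
  rw [hrk, Fintype.card_fin] at hfr
  have hne : perp hf U ≠ ⊥ := by
    intro h
    rw [h, finrank_bot] at hfr; omega
  obtain ⟨v, hv, hvv⟩ := symm_nz hf h2 (W := perp hf U) (by
    obtain ⟨w, hw, hw0⟩ := Submodule.exists_mem_ne_zero_of_ne_bot hne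
    obtain ⟨⟨x, hx, hxw⟩, _⟩ := nondeg_perp hf hUp w hw hw0
    exact ⟨x, hx, w, hw, hxw⟩)
  have hwv : ∀ i, f₁ (w i) v = 0 := fun i => hv _ (Submodule.subset_span ⟨i, rfl⟩)
  have hkey : ∀ i j, f₁ ((Fin.snoc w v : Fin (k + 1) → Fin (k + 1) → F) i) ((Fin.snoc w v : Fin (k + 1) → Fin (k + 1) → F) j) =
      if i = j then (if i = Fin.last k then f₁ v v else 1) else 0 := by
    intro i j
    refine Fin.lastCases ?_ (fun i => ?_) i
    · refine Fin.lastCases ?_ (fun j => ?_) j
      · rw [Fin.snoc_last, if_pos rfl, if_pos rfl]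
      · rw [Fin.snoc_last, Fin.snoc_castSucc, hf.zero_comm (hwv j), if_neg]
        exact (Fin.castSucc_lt_last j).ne'
    · refine Fin.lastCases ?_ (fun j => ?_) j
      · rw [Fin.snoc_last, Fin.snoc_castSucc, hwv, if_neg]
        exact (Fin.castSucc_lt_last i).ne
      · rw [Fin.snoc_castSucc, Fin.snoc_castSucc, hw, if_neg (Fin.castSucc_lt_last i).ne]
        simp
  refine ⟨Fin.snoc w v, f₁ v v, hvv, ?_, hkey⟩
  rw [Fintype.linearIndependent_iff]
  intro g hg i
  have h1 := hf.zero_left ((Fin.snoc w v : Fin (k + 1) → Fin (k + 1) → F) i)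
  rw [← hg, hf.sum_left, Finset.sum_eq_single i] at h1
  · rw [hf.smul_left, hkey, if_pos rfl] at h1
    rcases mul_eq_zero.1 h1 with h3 | h3
    · exact h3
    · exfalso
      split_ifs at h3 with h5
      · exact hvv h3
      · exact one_ne_zero h3
  · intro j _ hj
    rw [hf.smul_left, hkey, if_neg hj, mul_zero]
  · intro h; exact absurd (Finset.mem_univ i) h

theorem gram_cols {κ : Type} [Fintype κ] [DecidableEq κ] {f₁ : (κ → F) → (κ → F) → F} (hf : FD (RingEquiv.refl F) 1 f₁)
    (w : κ → κ → F) (M : Matrix κ κ F) (hM : ∀ i j, M i j = w j i) :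
    Mᵀ * gramMatrix f₁ * M = Matrix.of fun i j => f₁ (w i) (w j) := by
  ext i j
  rw [Matrix.of_apply]
  have h1 : ∀ u : κ → F, u = ∑ a, u a • (Pi.single a 1 : κ → F) := by
    intro u; ext b; simp [Finset.sum_apply, Pi.single_apply]
  conv_rhs => rw [h1 (w i), h1 (w j)]
  rw [hf.sum_left, Matrix.mul_apply]
  simp only [hf.sum_right, hf.smul_left, hf.smul_right, Matrix.mul_apply, Matrix.transpose_apply, hM, gramMatrix,
    RingEquiv.refl_apply, Finset.sum_mul]
  rw [Finset.sum_comm]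
  refine Finset.sum_congr rfl fun a _ => Finset.sum_congr rfl fun b _ => ?_
  ring

theorem fd_smul {κ : Type} [Fintype κ] [DecidableEq κ] {f₁ : (κ → F) → (κ → F) → F} (hf : FD (RingEquiv.refl F) 1 f₁)
    {c : F} (hc : c ≠ 0) : FD (RingEquiv.refl F) 1 (fun u v => c * f₁ u v) where
  sesq := ⟨fun x y v => by rw [hf.add_left]; ring, fun d x v => by rw [hf.smul_left]; ring,
    fun v x y => by rw [hf.add_right]; ring, fun d v x => by rw [hf.smul_right]; change c * (d * _) = d * (c * _); ring⟩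
  nd := by
    intro v hv
    obtain ⟨⟨x, hx⟩, ⟨y, hy⟩⟩ := hf.nd v hv
    exact ⟨⟨x, mul_ne_zero hc hx⟩, ⟨y, mul_ne_zero hc hy⟩⟩
  sq := fun _ => rfl
  herm := by
    intro u v
    have := hf.herm u v
    rw [this]; simp
  eps := Or.inl rfl

/-- in odd dimension a symmetric form is similar to the standard one -/
theorem sym_similar [Fintype F] {k : ℕ} (hk : Odd k) {f₁ : (Fin k → F) → (Fin k → F) → F} (hf : FD (RingEquiv.refl F) 1 f₁)
    (h2 : (2 : F) ≠ 0) : ∃ (W : GL (Fin k) F) (c : F), c ≠ 0 ∧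
      ∀ i j, f₁ (W.1 *ᵥ Pi.single i 1) (W.1 *ᵥ Pi.single j 1) = if i = j then c else 0 := by
  classical
  obtain ⟨l, rfl⟩ := hk
  obtain ⟨w, c, hc, hli, hw⟩ := sym_diag hf h2
  obtain ⟨w', c', hc', hli', hw'⟩ := sym_diag (fd_smul hf hc) h2
  let M : Matrix (Fin (2 * l + 1)) (Fin (2 * l + 1)) F := Matrix.of fun i j => w j i
  let M' : Matrix (Fin (2 * l + 1)) (Fin (2 * l + 1)) F := Matrix.of fun i j => w' j i
  have hM : IsUnit M := by
    rw [← Matrix.linearIndependent_cols_iff_isUnit]; exact hli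
  have hM' : IsUnit M' := by
    rw [← Matrix.linearIndependent_cols_iff_isUnit]; exact hli'
  have hMd : M.det ≠ 0 := ((Matrix.isUnit_iff_isUnit_det _).1 hM).ne_zero
  have hMd' : M'.det ≠ 0 := ((Matrix.isUnit_iff_isUnit_det _).1 hM').ne_zero
  have hdiag : ∀ c : F, (Matrix.of fun i j : Fin (2 * l + 1) => if i = j then (if i = Fin.last (2 * l) then c else 1) else (0 : F)).det = c := by
    intro c
    have : (Matrix.of fun i j : Fin (2 * l + 1) => if i = j then (if i = Fin.last (2 * l) then c else 1) else (0 : F)) =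
        Matrix.diagonal fun i => if i = Fin.last (2 * l) then c else 1 := by
      ext i j
      by_cases h : i = j
      · subst h; simp
      · simp [h]
    rw [this, Matrix.det_diagonal, Finset.prod_ite_eq' Finset.univ (Fin.last (2 * l)) (fun _ => c)]
    simp
  have e1 : M.det ^ 2 * (gramMatrix f₁).det = c := by
    have h1 := congrArg Matrix.det (gram_cols hf w M fun _ _ => rfl)
    simp only [hw] at h1
    rw [hdiag, Matrix.det_mul, Matrix.det_mul, Matrix.det_transpose] at h1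
    rw [← h1]; ring
  have e2 : M'.det ^ 2 * (c ^ (2 * l + 1) * (gramMatrix f₁).det) = c' := by
    have h1 := congrArg Matrix.det (gram_cols (fd_smul hf hc) w' M' fun _ _ => rfl)
    simp only [hw'] at h1
    have h3 : gramMatrix (fun u v => c * f₁ u v) = c • gramMatrix f₁ := by ext i j; rfl
    rw [hdiag, Matrix.det_mul, Matrix.det_mul, Matrix.det_transpose, h3, Matrix.det_smul, Fintype.card_fin] at h1
    rw [← h1]; ring
  set μ : F := c ^ (l + 1) * M'.det / M.det with hμ
  have hμ0 : μ ≠ 0 := div_ne_zero (mul_ne_zero (pow_ne_zero _ hc) hMd') hMd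
  have e3 : c' = μ ^ 2 := by
    rw [← e2, hμ]
    field_simp
    rw [← e1]; ring_nf
  let wn : Fin (2 * l + 1) → Fin (2 * l + 1) → F := fun i => (if i = Fin.last (2 * l) then μ⁻¹ else 1) • w' i
  have hwn : ∀ i j, f₁ (wn i) (wn j) = if i = j then c⁻¹ else 0 := by
    intro i j
    have h1 := hw' i j
    have h3 : f₁ (w' i) (w' j) = c⁻¹ * (if i = j then (if i = Fin.last (2 * l) then c' else 1) else 0) := by
      rw [← h1]; field_simp
    change f₁ ((if i = Fin.last (2 * l) then μ⁻¹ else 1) • w' i) ((if j = Fin.last (2 * l) then μ⁻¹ else 1) • w' j) = _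
    rw [hf.smul_left, hf.smul_right, h3]
    by_cases hij : i = j
    · subst hij
      rw [if_pos rfl, if_pos rfl]
      by_cases hl : i = Fin.last (2 * l)
      · rw [if_pos hl, if_pos hl, e3]
        simp only [RingEquiv.refl_apply]
        field_simp
      · rw [if_neg hl, if_neg hl]; simp
    · rw [if_neg hij, if_neg hij]; simp
  let N : Matrix (Fin (2 * l + 1)) (Fin (2 * l + 1)) F := Matrix.of fun i j => wn j i
  have hN : IsUnit N := by
    rw [← Matrix.linearIndependent_cols_iff_isUnit]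
    change LinearIndependent F wn
    rw [Fintype.linearIndependent_iff]
    intro g hg i
    have h1 := hf.zero_left (wn i)
    rw [← hg, hf.sum_left, Finset.sum_eq_single i] at h1
    · rw [hf.smul_left, hwn, if_pos rfl] at h1
      exact (mul_eq_zero.1 h1).resolve_right (inv_ne_zero hc)
    · intro j _ hj
      rw [hf.smul_left, hwn, if_neg hj, mul_zero]
    · intro h; exact absurd (Finset.mem_univ i) h
  obtain ⟨W, hW⟩ := hN
  refine ⟨W, c⁻¹, inv_ne_zero hc, fun i j => ?_⟩
  have h1 : ∀ i, W.1 *ᵥ Pi.single i 1 = wn i := by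
    intro i
    rw [hW, Matrix.mulVec_single_one]
    rfl
  rw [h1, h1, hwn]

end gl

end CfsgLib.AschF
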