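import Mathlib
import Cfsg.Agent.LibAschF27
import Cfsg.Agent.LibAschF23

/-! odd-dimensional orthogonal case: the pieces -/
set_option autoImplicit false
set_option linter.unusedSectionVars false

namespace CfsgLib.AschF

open Module Cfsg Cfsg.Geo CfsgLib.Asch1 CfsgLib.Asch2 CfsgLib.Asch3 CfsgLib.Asch4 CfsgLib.Asch5 CfsgLib.Asch6 CfsgLib.Asch7
  CfsgLib.Asch8 CfsgLib.Asch9
  CfsgLib.Asch10 CfsgLib.Asch11 CfsgLib.Asch12 CfsgLib.Asch13 CfsgLib.Asch14 CfsgLib.Asch15 CfsgLib.Asch16 CfsgLib.Asch17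
  CfsgLib.Asch18 CfsgLib.Asch19
open scoped Matrix MatrixGroups Kronecker

section sq
variable {F : Type*} [Field F]

theorem char_ne [Fintype F] (h2 : (2 : F) ≠ 0) : ringChar F ≠ 2 := by
  intro h
  apply h2
  have := ringChar.Nat.cast_ringChar (R := F)
  rw [h] at this
  exact_mod_cast this

/-- the square class of a subfield of odd degree -/
theorem nonsq_odd [Fintype F] (h2 : (2 : F) ≠ 0) (F₀ : Subfield F) {r : ℕ} (hr : Odd r)
    (hc : Fintype.card F = Nat.card F₀ ^ r) : ∃ a ∈ F₀, a ≠ 0 ∧ ¬ IsSquare a := by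
  classical
  haveI : Fintype F₀ := Fintype.ofFinite _
  have h20 : (2 : F₀) ≠ 0 := by
    intro h
    apply h2
    have := congrArg F₀.subtype h
    rwa [map_ofNat, map_zero] at this
  obtain ⟨a, ha⟩ := FiniteField.exists_nonsquare (char_ne h20)
  have ha0 : a ≠ 0 := by
    rintro rfl
    exact ha (IsSquare.zero)
  have h1 := (FiniteField.isSquare_iff (char_ne h20) ha0).not.1 ha
  have h3 := (FiniteField.pow_dichotomy (char_ne h20) ha0).resolve_left h1
  refine ⟨a, a.2, fun h => ha0 (Subtype.ext h), fun hs => ?_⟩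
  have haF : (a : F) ≠ 0 := fun h => ha0 (Subtype.ext h)
  have h4 := (FiniteField.isSquare_iff (char_ne h2) haF).1 hs
  have hodd := odd_card h20
  obtain ⟨s, hs'⟩ := hodd
  rw [Nat.card_eq_fintype_card, hs'] at hc
  have hgeo := geom_sum_mul_add (2 * s) r
  set S := ∑ i ∈ Finset.range r, (2 * s + 1) ^ i with hS
  have hSodd : Odd S := by
    rw [hS, Finset.odd_sum_iff_odd_card_odd]
    have : (Finset.range r).filter (fun x => Odd ((2 * s + 1) ^ x)) = Finset.range r := by
      apply Finset.filter_true_of_mem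
      intro x _
      exact Odd.pow ⟨s, rfl⟩
    rw [this, Finset.card_range]; exact hr
  have hq : Fintype.card F / 2 = s * S := by
    rw [hc, ← hgeo]
    have : S * (2 * s) + 1 = 2 * (s * S) + 1 := by ring
    omega
  have hs2 : Fintype.card F₀ / 2 = s := by omega
  rw [hs2] at h3
  have h5 : (a : F) ^ s = -1 := by
    have := congrArg (Subtype.val : F₀ → F) h3
    simpa using this
  rw [hq, pow_mul, h5, hSodd.neg_one_pow] at h4
  have : (2 : F) = 0 := by linear_combination -h4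
  exact h2 this

/-- elements of a subfield of index two are squares -/
theorem sq_two [Fintype F] (h2 : (2 : F) ≠ 0) (F₀ : Subfield F)
    (hc : Fintype.card F = Nat.card F₀ ^ 2) {a : F} (ha : a ∈ F₀) : IsSquare a := by
  classical
  haveI : Fintype F₀ := Fintype.ofFinite _
  by_cases ha0 : a = 0
  · rw [ha0]; exact IsSquare.zero
  have h20 : (2 : F₀) ≠ 0 := by
    intro h
    apply h2
    have := congrArg F₀.subtype h
    rwa [map_ofNat, map_zero] at this
  obtain ⟨s, hs'⟩ := odd_card h20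
  rw [Nat.card_eq_fintype_card, hs'] at hc
  rw [FiniteField.isSquare_iff (char_ne h2) ha0]
  have hq : Fintype.card F / 2 = (2 * s) * (s + 1) := by
    rw [hc]
    have : (2 * s + 1) ^ 2 = 2 * ((2 * s) * (s + 1)) + 1 := by ring
    omega
  have h3 := FiniteField.pow_card_sub_one_eq_one (⟨a, ha⟩ : F₀) (fun h => ha0 (congrArg Subtype.val h))
  rw [hs', Nat.add_sub_cancel] at h3
  have h5 : a ^ (2 * s) = 1 := by
    have := congrArg (Subtype.val : F₀ → F) h3
    simpa using this
  rw [hq, pow_mul, h5, one_pow]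

theorem det_mem {κ : Type} [Fintype κ] [DecidableEq κ] (F₀ : Subfield F) (M : Matrix κ κ F) (h : ∀ i j, M i j ∈ F₀) : M.det ∈ F₀ := by
  let M₀ : Matrix κ κ F₀ := Matrix.of fun i j => ⟨M i j, h i j⟩
  have h1 : M = M₀.map F₀.subtype := by ext i j; rfl
  rw [h1, ← RingHom.mapMatrix_apply, ← RingHom.map_det]
  exact (M₀.det).2

end sq

section gen
variable {ι : Type} [Fintype ι] [DecidableEq ι] {F : Type*} [Field F]
variable {f : (ι → F) → (ι → F) → F}

/-- rational structures can be rescaled -/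
theorem scale_sub [Fintype F] [Nonempty ι] (h2 : (2 : F) ≠ 0) (hf : FD (RingEquiv.refl F) 1 f) (hodd : Odd (Fintype.card ι))
    {F₀ : Subfield F} {r : ℕ} (hr : r.Prime) (hc : Fintype.card F = Nat.card F₀ ^ r) {P : GL ι F} {ζ : F} (hζ : ζ ≠ 0)
    (hS : IsFormRationalStructure f F₀ ζ P) (hG : ∀ i j, gramMatrix f i j ∈ F₀) :
    ∃ P' : GL ι F, subfieldSubgroup F₀ P' = subfieldSubgroup F₀ P ∧ IsFormRationalStructure f F₀ 1 P' := by
  classical
  have key : ∃ l a : F, l ≠ 0 ∧ a ∈ F₀ ∧ l ^ 2 = ζ * a := by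
    rcases hr.eq_two_or_odd' with h | ho
    · subst h
      -- determinants
      have h1 := gram_cols hf (fun i => (P : Matrix ι ι F) *ᵥ Pi.single i 1) (P : Matrix ι ι F) (fun i j => by
        rw [Matrix.mulVec_single_one]; rfl)
      have h3 : (ζ • ((P : Matrix ι ι F)ᵀ * gramMatrix f * (P : Matrix ι ι F))).det ∈ F₀ := by
        apply det_mem
        intro i j
        rw [h1, Matrix.smul_apply, Matrix.of_apply, smul_eq_mul]
        exact hS _ _ (single_mem F₀ i) (single_mem F₀ j)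
      rw [Matrix.det_smul, Matrix.det_mul, Matrix.det_mul, Matrix.det_transpose] at h3
      obtain ⟨x, hx⟩ := sq_two h2 F₀ hc h3
      obtain ⟨y, hy⟩ := sq_two h2 F₀ hc (det_mem F₀ _ hG)
      have hGd : (gramMatrix f).det ≠ 0 := by
        intro h0
        obtain ⟨v, hv0, hv⟩ := Matrix.exists_mulVec_eq_zero_iff.2 h0
        obtain ⟨⟨u, hu⟩, _⟩ := hf.nd v hv0
        apply hu
        rw [hf.sesq.eq_gram]
        have : (⇑(RingHom.id F) ∘ v) = v := rfl
        change u ⬝ᵥ (gramMatrix f *ᵥ v) = 0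
        rw [hv, dotProduct_zero]
      have hPd : (P : Matrix ι ι F).det ≠ 0 := ((Matrix.isUnit_iff_isUnit_det _).1 P.isUnit).ne_zero
      have hy0 : y ≠ 0 := by rintro rfl; apply hGd; rw [hy]; ring
      obtain ⟨l, hl⟩ := hodd
      rw [hl] at hx
      refine ⟨x / ((P : Matrix ι ι F).det * y * ζ ^ l), 1, ?_, F₀.one_mem, ?_⟩
      · apply div_ne_zero
        · rintro rfl
          rw [hy] at hx
          have : ζ ^ (2 * l + 1) * ((P : Matrix ι ι F).det * (y * y) * (P : Matrix ι ι F).det) ≠ 0 :=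
            mul_ne_zero (pow_ne_zero _ hζ) (mul_ne_zero (mul_ne_zero hPd (mul_ne_zero hy0 hy0)) hPd)
          apply this; rw [hx]; ring
        · exact mul_ne_zero (mul_ne_zero hPd hy0) (pow_ne_zero _ hζ)
      · rw [hy] at hx
        field_simp
        linear_combination -hx
    · obtain ⟨a, ha, ha0, hns⟩ := nonsq_odd h2 F₀ ho hc
      by_cases hs : IsSquare ζ
      · obtain ⟨l, hl⟩ := hs
        refine ⟨l, 1, ?_, F₀.one_mem, by rw [hl]; ring⟩
        rintro rfl; apply hζ; rw [hl]; ring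
      · have h1 := (FiniteField.isSquare_iff (char_ne h2) hζ).not.1 hs
        have h3 := (FiniteField.pow_dichotomy (char_ne h2) hζ).resolve_left h1
        have h4 := (FiniteField.isSquare_iff (char_ne h2) ha0).not.1 hns
        have h5 := (FiniteField.pow_dichotomy (char_ne h2) ha0).resolve_left h4
        have h6 : IsSquare (ζ * a) := by
          rw [FiniteField.isSquare_iff (char_ne h2) (mul_ne_zero hζ ha0), mul_pow, h3, h5]; ring
        obtain ⟨l, hl⟩ := h6
        refine ⟨l, a, ?_, ha, by rw [hl]; ring⟩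
        rintro rfl
        apply mul_ne_zero hζ ha0
        rw [hl]; ring
  obtain ⟨l, a, hl0, ha, hla⟩ := key
  obtain ⟨P', hP', he⟩ := scale_P F₀ P hl0
  refine ⟨P', he, fun u v hu hv => ?_⟩
  rw [hP', Matrix.smul_mulVec, Matrix.smul_mulVec, hf.smul_left, hf.smul_right]
  have h1 : 1 * (l * ((RingEquiv.refl F) l * f ((P : Matrix ι ι F) *ᵥ u) ((P : Matrix ι ι F) *ᵥ v))) =
      a * (ζ * f ((P : Matrix ι ι F) *ᵥ u) ((P : Matrix ι ι F) *ᵥ v)) := by
    rw [RingEquiv.refl_apply]
    linear_combination (f ((P : Matrix ι ι F) *ᵥ u) ((P : Matrix ι ι F) *ᵥ v)) * hla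
  rw [h1]
  exact F₀.mul_mem ha (hS u v hu hv)

/-- members with entries in the subfield -/
theorem mem_subfield (F₀ : Subfield F) (P h : GL ι F)
    (hent : ∀ i j, (((P⁻¹ : GL ι F) : Matrix ι ι F) * (h : Matrix ι ι F) * (P : Matrix ι ι F)) i j ∈ F₀) :
    h ∈ subfieldSubgroup F₀ P := by
  let Y₀ : Matrix ι ι F₀ := Matrix.of fun i j => ⟨_, hent i j⟩
  have hY₀ : Y₀.map F₀.subtype = ((P⁻¹ : GL ι F) : Matrix ι ι F) * (h : Matrix ι ι F) * (P : Matrix ι ι F) := by ext i j; rfl
  have hdet : IsUnit Y₀.det := by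
    rw [isUnit_iff_ne_zero]
    intro h0
    have h1 : (((P⁻¹ * h * P : GL ι F)) : Matrix ι ι F).det = 0 := by
      rw [Units.val_mul, Units.val_mul, ← hY₀, ← RingHom.mapMatrix_apply, ← RingHom.map_det, h0, map_zero]
    have := (Matrix.isUnit_iff_isUnit_det _).1 (P⁻¹ * h * P).isUnit
    exact this.ne_zero h1
  let Yu : GL ι F₀ := Matrix.GeneralLinearGroup.mk'' Y₀ hdet
  have h1 : Matrix.GeneralLinearGroup.map (F₀.subtype : F₀ →+* F) Yu = P⁻¹ * h * P := by
    apply Units.ext
    rw [Units.val_mul, Units.val_mul]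
    exact hY₀
  refine ⟨P⁻¹ * h * P, Subgroup.mem_sup_left ⟨Yu, h1⟩, ?_⟩
  change P * (P⁻¹ * h * P) * P⁻¹ = h
  group

/-- irreducible groups permute the members of a decomposition transitively -/
theorem dec_transitive {H : Subgroup (GL ι F)} (hirr : ActsIrreducibly (matrixSet H)) {t k : ℕ}
    {D : Fin t → Submodule F (ι → F)} (hD : IsMDecomposition k D) (hH : H ≤ decompositionStabilizer D) (i j : Fin t) :
    ∃ h ∈ H, (D i).map (Matrix.toLin' (h : Matrix ι ι F)) = D j := by
  classical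
  let S : Set (Fin t) := {j | ∃ h ∈ H, (D i).map (Matrix.toLin' (h : Matrix ι ι F)) = D j}
  have hi : i ∈ S := ⟨1, H.one_mem, by simp⟩
  have hDne : ∀ i, D i ≠ ⊥ := by
    intro i h0
    have h1 := hD.finrank_eq i
    rw [h0, finrank_bot] at h1
    have := hD.pos
    omega
  have hinv : ∀ s ∈ matrixSet H, (⨆ l ∈ S, D l).map (Matrix.toLin' s) ≤ ⨆ l ∈ S, D l := by
    rintro _ ⟨h, hh, rfl⟩
    rw [Submodule.map_iSup]
    refine iSup_le fun l => ?_
    rw [Submodule.map_iSup]
    refine iSup_le fun hl => ?_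
    obtain ⟨g, hg, hgl⟩ := hl
    obtain ⟨π, hπ⟩ := hH hh
    change (D l).map (Matrix.toLin' (h : Matrix ι ι F)) ≤ _
    rw [hπ]
    refine le_iSup₂_of_le (π l) ⟨h * g, H.mul_mem hh hg, ?_⟩ le_rfl
    rw [Units.val_mul, Matrix.toLin'_mul, Submodule.map_comp, hgl, hπ]
  by_contra hcon
  have hj : j ∉ S := hcon
  rcases hirr _ hinv with h | h
  · apply hDne i
    rw [eq_bot_iff, ← h]
    exact le_iSup₂_of_le i hi le_rfl
  · have h1 := hD.indep j
    have h3 : (⨆ l ∈ S, D l) ≤ ⨆ (l) (_ : l ≠ j), D l := by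
      refine iSup₂_le fun l hl => ?_
      exact le_iSup₂_of_le l (by rintro rfl; exact hj hl) le_rfl
    rw [h, top_le_iff] at h3
    rw [h3] at h1
    exact hDne j (disjoint_top.1 h1)

end gen

end CfsgLib.AschF
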