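import Mathlib
import Cfsg.Agent.LibAschF28

/-! odd-dimensional orthogonal case: field case, frames -/
set_option autoImplicit false
set_option linter.unusedSectionVars false

namespace CfsgLib.AschF

open Module Cfsg Cfsg.Geo CfsgLib.Asch1 CfsgLib.Asch2 CfsgLib.Asch3 CfsgLib.Asch4 CfsgLib.Asch5 CfsgLib.Asch6 CfsgLib.Asch7
  CfsgLib.Asch8 CfsgLib.Asch9
  CfsgLib.Asch10 CfsgLib.Asch11 CfsgLib.Asch12 CfsgLib.Asch13 CfsgLib.Asch14 CfsgLib.Asch15 CfsgLib.Asch16 CfsgLib.Asch17
  CfsgLib.Asch18 CfsgLib.Asch19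
open scoped Matrix MatrixGroups Kronecker

section gen
variable {ι : Type} [Fintype ι] [DecidableEq ι] {F : Type*} [Field F]
variable {f : (ι → F) → (ι → F) → F}

theorem irr_span {H : Subgroup (GL ι F)} (hirr : ActsIrreducibly (matrixSet H)) {S : Set (ι → F)}
    (hne : ∃ v ∈ S, v ≠ 0) (h : ∀ g ∈ H, ∀ v ∈ S, (g : Matrix ι ι F) *ᵥ v ∈ Submodule.span F S) : Submodule.span F S = ⊤ := by
  rcases hirr (Submodule.span F S) (by
    rintro _ ⟨g, hg, rfl⟩
    rw [Submodule.map_span_le]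
    intro v hv
    rw [Matrix.toLin'_apply]
    exact h g hg v hv) with h1 | h1
  · exfalso
    obtain ⟨v, hv, hv0⟩ := hne
    apply hv0
    have : v ∈ Submodule.span F S := Submodule.subset_span hv
    rw [h1] at this
    exact (Submodule.mem_bot F).1 this
  · exact h1

theorem det_sq (hf : FD (RingEquiv.refl F) 1 f) {h : GL ι F} (hh : ∀ u v, f ((h : Matrix ι ι F) *ᵥ u) ((h : Matrix ι ι F) *ᵥ v) = f u v) :
    (h : Matrix ι ι F).det ^ 2 = 1 := by
  have h1 := gram_cols hf (fun i => (h : Matrix ι ι F) *ᵥ Pi.single i 1) (h : Matrix ι ι F) (fun i j => by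
    rw [Matrix.mulVec_single_one]; rfl)
  have h2 : (Matrix.of fun i j => f ((h : Matrix ι ι F) *ᵥ Pi.single i 1) ((h : Matrix ι ι F) *ᵥ Pi.single j 1)) = gramMatrix f := by
    ext i j
    rw [Matrix.of_apply, hh]; rfl
  rw [h2] at h1
  have h3 := congrArg Matrix.det h1
  rw [Matrix.det_mul, Matrix.det_mul, Matrix.det_transpose] at h3
  have hGd : (gramMatrix f).det ≠ 0 := by
    intro h0
    obtain ⟨v, hv0, hv⟩ := Matrix.exists_mulVec_eq_zero_iff.2 h0
    obtain ⟨⟨u, hu⟩, _⟩ := hf.nd v hv0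
    apply hu
    rw [hf.sesq.eq_gram]
    change u ⬝ᵥ (gramMatrix f *ᵥ v) = 0
    rw [hv, dotProduct_zero]
  have h4 : ((h : Matrix ι ι F).det ^ 2 - 1) * (gramMatrix f).det = 0 := by linear_combination h3
  exact sub_eq_zero.1 ((mul_eq_zero.1 h4).resolve_right hGd)

/-- multiplication by the determinant -/
noncomputable def dtw (g : GL ι F) : GL ι F :=
  Units.map (Matrix.scalar ι : F →+* Matrix ι ι F).toMonoidHom (Matrix.GeneralLinearGroup.det g) * g

theorem dtw_val (g : GL ι F) : (dtw g : Matrix ι ι F) = (g : Matrix ι ι F).det • (g : Matrix ι ι F) := by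
  rw [dtw, Units.val_mul]
  change Matrix.scalar ι ((g : Matrix ι ι F).det) * _ = _
  rw [Matrix.scalar_apply, ← Matrix.smul_eq_diagonal_mul]

theorem dtw_mul (g h : GL ι F) : dtw (g * h) = dtw g * dtw h := by
  apply Units.ext
  rw [dtw_val, Units.val_mul, Units.val_mul, dtw_val, dtw_val, Matrix.det_mul, Matrix.smul_mul, Matrix.mul_smul, smul_smul]

/-- the maximal field case is impossible -/
theorem fld_full [Fintype F] [Nonempty ι] (h2 : (2 : F) ≠ 0) (hf : FD (RingEquiv.refl F) 1 f) (hodd : Odd (Fintype.card ι))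
    (hn : 2 ≤ Fintype.card ι) {H : Subgroup (GL ι F)} (hH : Iso f H) (hirr : ActsIrreducibly (matrixSet H))
    {K : Subalgebra F (Matrix ι ι F)} (hK : IsFieldSubalgebra (Fintype.card ι) K) (hle : H ≤ subalgebraNormalizer K)
    (hsa : IsSelfAdjointFor f K) : False := by
  classical
  have hfield : IsField K :=
    { exists_pair_ne := ⟨0, 1, zero_ne_one⟩
      mul_comm := fun x y => Subtype.ext (hK.comm x x.2 y y.2)
      mul_inv_cancel := by
        intro a ha
        obtain ⟨y, hy, hxy⟩ := hK.inv a a.2 (fun h => ha (Subtype.ext h))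
        exact ⟨⟨y, hy⟩, Subtype.ext hxy⟩ }
  let : CommRing K := { (inferInstance : Ring K) with mul_comm := hfield.mul_comm }
  let : Field K := hfield.toField
  let algFK : Algebra F K := inferInstance
  have hfd : FiniteDimensional F K := inferInstance
  -- a non-zero vector
  obtain ⟨v₀, hv₀⟩ := exists_ne (0 : ι → F)
  have hinj : ∀ k ∈ K, k *ᵥ v₀ = 0 → k = 0 := by
    intro k hk h0
    by_contra hk0
    obtain ⟨y, hy, hxy⟩ := hK.inv k hk hk0
    apply hv₀
    rw [hK.comm k hk y hy] at hxy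
    have : (y * k) *ᵥ v₀ = v₀ := by rw [hxy, Matrix.one_mulVec]
    rw [← this, ← Matrix.mulVec_mulVec, h0, Matrix.mulVec_zero]
  let L : K →ₗ[F] (ι → F) :=
    { toFun := fun k => (k : Matrix ι ι F) *ᵥ v₀
      map_add' := fun x y => Matrix.add_mulVec _ _ _
      map_smul' := fun c x => Matrix.smul_mulVec _ _ _ }
  have hLi : Function.Injective L := by
    rw [← LinearMap.ker_eq_bot, LinearMap.ker_eq_bot']
    intro k hk
    exact Subtype.ext (hinj k k.2 hk)
  have hLs : Function.Surjective L := by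
    refine (LinearMap.injective_iff_surjective_of_finrank_eq_finrank ?_).1 hLi
    rw [hK.finrank_eq, Module.finrank_fintype_fun_eq_card]
  -- elements of H commuting with K
  have hcen : ∀ h ∈ H, (∀ k ∈ K, (h : Matrix ι ι F) * k = k * (h : Matrix ι ι F)) → dtw h = 1 := by
    intro h hh hcm
    obtain ⟨k, hk⟩ := hLs ((h : Matrix ι ι F) *ᵥ v₀)
    have hk : (k : Matrix ι ι F) *ᵥ v₀ = (h : Matrix ι ι F) *ᵥ v₀ := hk
    have hhk : (h : Matrix ι ι F) = k := by
      apply (Matrix.toLin' : Matrix ι ι F ≃ₗ[F] _).injective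
      ext1 i
      ext1
      simp only [LinearMap.comp_apply]
      obtain ⟨x, hx⟩ := hLs (LinearMap.single F (fun _ : ι => F) i 1)
      have hx : (x : Matrix ι ι F) *ᵥ v₀ = LinearMap.single F (fun _ : ι => F) i 1 := hx
      rw [← hx, Matrix.toLin'_apply, Matrix.toLin'_apply, Matrix.mulVec_mulVec, Matrix.mulVec_mulVec, hcm x x.2,
        ← Matrix.mulVec_mulVec, ← hk, Matrix.mulVec_mulVec, hK.comm k k.2 x x.2]
    have hsq : (h : Matrix ι ι F) * (h : Matrix ι ι F) = 1 := by
      apply (Matrix.toLin' : Matrix ι ι F ≃ₗ[F] _).injective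
      refine LinearMap.ext fun v => ?_
      rw [Matrix.toLin'_apply, Matrix.toLin'_apply, Matrix.one_mulVec, ← sub_eq_zero]
      by_contra hne
      obtain ⟨⟨u, hu⟩, _⟩ := hf.nd _ hne
      apply hu
      rw [sub_eq_add_neg, hf.add_right, ← Matrix.mulVec_mulVec]
      have h1 := hsa _ k.2 u ((h : Matrix ι ι F) *ᵥ v)
      rw [← hhk, hH h hh] at h1
      rw [← h1]
      have h3 : -v = (-1 : F) • v := by rw [neg_smul, one_smul]
      rw [h3, hf.smul_right, map_neg, map_one]; ring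
    have hpm : (h : Matrix ι ι F) = 1 ∨ (h : Matrix ι ι F) = -1 := by
      have h1 : (k - 1) * (k + 1) = 0 := by
        have h2 : k * k = 1 := by
          apply Subtype.ext
          change (k : Matrix ι ι F) * (k : Matrix ι ι F) = 1
          rw [← hhk, hsq]
        calc (k - 1) * (k + 1) = k * k - 1 := by ring
          _ = 0 := by rw [h2, sub_self]
      rcases mul_eq_zero.1 h1 with h2 | h2
      · left
        rw [hhk, sub_eq_zero.1 h2]; rfl
      · right
        rw [hhk, eq_neg_of_add_eq_zero_left h2]; rfl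
    apply Units.ext
    rw [dtw_val, Units.val_one]
    rcases hpm with h1 | h1
    · rw [h1, Matrix.det_one, one_smul]
    · rw [h1, Matrix.det_neg, Matrix.det_one, mul_one, hodd.neg_one_pow, neg_smul, one_smul, neg_neg]
  -- the twisted group
  let dH : GL ι F →* GL ι F := MonoidHom.mk' dtw dtw_mul
  have hconj : ∀ x ∈ H.map dH, ∀ k ∈ K, (x : Matrix ι ι F) * k * ((x⁻¹ : GL ι F) : Matrix ι ι F) ∈ K := by
    rintro _ ⟨h, hh, rfl⟩ k hk
    have h1 := (hle hh k).1 hk
    have h3 : (dH h : Matrix ι ι F) = (h : Matrix ι ι F).det • (h : Matrix ι ι F) := dtw_val h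
    have h4 : (((dH h)⁻¹ : GL ι F) : Matrix ι ι F) = ((h : Matrix ι ι F).det)⁻¹ • ((h⁻¹ : GL ι F) : Matrix ι ι F) := by
      have h5 : (h : Matrix ι ι F).det ≠ 0 := ((Matrix.isUnit_iff_isUnit_det _).1 h.isUnit).ne_zero
      have h6 : (dH h : Matrix ι ι F) * (((h : Matrix ι ι F).det)⁻¹ • ((h⁻¹ : GL ι F) : Matrix ι ι F)) = 1 := by
        rw [h3, Matrix.smul_mul, Matrix.mul_smul, smul_smul, mul_inv_cancel₀ h5, one_smul, ← Units.val_mul, mul_inv_cancel,
          Units.val_one]
      have h7 := congrArg (fun M => (((dH h)⁻¹ : GL ι F) : Matrix ι ι F) * M) h6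
      simp only [mul_one, ← mul_assoc, ← Units.val_mul, inv_mul_cancel, Units.val_one, one_mul] at h7
      exact h7.symm
    rw [h3, h4, Matrix.smul_mul, Matrix.smul_mul, Matrix.mul_smul, smul_smul, mul_inv_cancel₀, one_smul]
    · exact h1
    · exact ((Matrix.isUnit_iff_isUnit_det _).1 h.isUnit).ne_zero
  let τ : H.map dH → (K ≃ₐ[F] K) := fun x =>
    AlgEquiv.ofRingEquiv (f :=
      { toFun := fun k => ⟨(x : GL ι F) * (k : Matrix ι ι F) * ((x⁻¹ : GL ι F) : Matrix ι ι F), hconj x x.2 k k.2⟩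
        invFun := fun k => ⟨((x⁻¹ : GL ι F) : Matrix ι ι F) * (k : Matrix ι ι F) * ((x : GL ι F) : Matrix ι ι F), by
          have := hconj x⁻¹ ((H.map dH).inv_mem x.2) k k.2
          rwa [inv_inv] at this⟩
        left_inv := fun k => by
          apply Subtype.ext
          change ((x⁻¹ : GL ι F) : Matrix ι ι F) * (((x : GL ι F) : Matrix ι ι F) * (k : Matrix ι ι F) * ((x⁻¹ : GL ι F) : Matrix ι ι F)) * ((x : GL ι F) : Matrix ι ι F) = k
          calc _ = (((x⁻¹ : GL ι F) : Matrix ι ι F) * ((x : GL ι F) : Matrix ι ι F)) * (k : Matrix ι ι F) * (((x⁻¹ : GL ι F) : Matrix ι ι F) * ((x : GL ι F) : Matrix ι ι F)) := by noncomm_ring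
            _ = _ := by rw [← Units.val_mul, inv_mul_cancel, Units.val_one, one_mul, mul_one]
        right_inv := fun k => by
          apply Subtype.ext
          change ((x : GL ι F) : Matrix ι ι F) * (((x⁻¹ : GL ι F) : Matrix ι ι F) * (k : Matrix ι ι F) * ((x : GL ι F) : Matrix ι ι F)) * ((x⁻¹ : GL ι F) : Matrix ι ι F) = k
          calc _ = (((x : GL ι F) : Matrix ι ι F) * ((x⁻¹ : GL ι F) : Matrix ι ι F)) * (k : Matrix ι ι F) * (((x : GL ι F) : Matrix ι ι F) * ((x⁻¹ : GL ι F) : Matrix ι ι F)) := by noncomm_ring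
            _ = _ := by rw [← Units.val_mul, mul_inv_cancel, Units.val_one, one_mul, mul_one]
        map_mul' := fun k l => by
          apply Subtype.ext
          change ((x : GL ι F) : Matrix ι ι F) * ((k : Matrix ι ι F) * (l : Matrix ι ι F)) * ((x⁻¹ : GL ι F) : Matrix ι ι F) =
            (((x : GL ι F) : Matrix ι ι F) * (k : Matrix ι ι F) * ((x⁻¹ : GL ι F) : Matrix ι ι F)) * (((x : GL ι F) : Matrix ι ι F) * (l : Matrix ι ι F) * ((x⁻¹ : GL ι F) : Matrix ι ι F))
          symm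
          calc _ = ((x : GL ι F) : Matrix ι ι F) * (k : Matrix ι ι F) * (((x⁻¹ : GL ι F) : Matrix ι ι F) * ((x : GL ι F) : Matrix ι ι F)) * (l : Matrix ι ι F) * ((x⁻¹ : GL ι F) : Matrix ι ι F) := by noncomm_ring
            _ = _ := by rw [← Units.val_mul, inv_mul_cancel, Units.val_one, mul_one]; noncomm_ring
        map_add' := fun k l => by
          apply Subtype.ext
          change ((x : GL ι F) : Matrix ι ι F) * ((k : Matrix ι ι F) + (l : Matrix ι ι F)) * ((x⁻¹ : GL ι F) : Matrix ι ι F) =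
            (((x : GL ι F) : Matrix ι ι F) * (k : Matrix ι ι F) * ((x⁻¹ : GL ι F) : Matrix ι ι F)) + (((x : GL ι F) : Matrix ι ι F) * (l : Matrix ι ι F) * ((x⁻¹ : GL ι F) : Matrix ι ι F))
          noncomm_ring }) (by
      intro c
      apply Subtype.ext
      change ((x : GL ι F) : Matrix ι ι F) * (algebraMap F (Matrix ι ι F) c) * ((x⁻¹ : GL ι F) : Matrix ι ι F) = algebraMap F (Matrix ι ι F) c
      rw [← Algebra.commutes, mul_assoc, ← Units.val_mul, mul_inv_cancel, Units.val_one, mul_one])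
  have hτ : ∀ (x : H.map dH) (k : K), ((τ x k : K) : Matrix ι ι F) = ((x : GL ι F) : Matrix ι ι F) * (k : Matrix ι ι F) * ((x⁻¹ : GL ι F) : Matrix ι ι F) :=
    fun x k => rfl
  have hcomm : ∀ (x : GL ι F) (k : Matrix ι ι F), (x : Matrix ι ι F) * k * ((x⁻¹ : GL ι F) : Matrix ι ι F) = k → (x : Matrix ι ι F) * k = k * x := by
    intro x k h
    calc (x : Matrix ι ι F) * k = (x : Matrix ι ι F) * k * (((x⁻¹ : GL ι F) : Matrix ι ι F) * x) := by
          rw [← Units.val_mul, inv_mul_cancel, Units.val_one, mul_one]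
      _ = ((x : Matrix ι ι F) * k * ((x⁻¹ : GL ι F) : Matrix ι ι F)) * x := by noncomm_ring
      _ = k * x := by rw [h]
  have hτi : Function.Injective τ := by
    intro x y hxy
    obtain ⟨g, hg, hgx⟩ := x.2
    obtain ⟨h, hh, hhy⟩ := y.2
    have h1 : dtw (g⁻¹ * h) = 1 := by
      apply hcen _ (H.mul_mem (H.inv_mem hg) hh)
      have h2 : dH (g⁻¹ * h) = (x : GL ι F)⁻¹ * y := by rw [map_mul, map_inv, hgx, hhy]
      have h3 : ∀ k ∈ K, ((dH (g⁻¹ * h) : GL ι F) : Matrix ι ι F) * k = k * ((dH (g⁻¹ * h) : GL ι F) : Matrix ι ι F) := by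
        intro k hk
        have h4 := congrArg (fun φ : K ≃ₐ[F] K => ((φ ⟨k, hk⟩ : K) : Matrix ι ι F)) hxy
        simp only [hτ] at h4
        apply hcomm
        rw [h2, mul_inv_rev, inv_inv, Units.val_mul, Units.val_mul]
        calc ((x⁻¹ : GL ι F) : Matrix ι ι F) * ((y : GL ι F) : Matrix ι ι F) * k * (((y⁻¹ : GL ι F) : Matrix ι ι F) * ((x : GL ι F) : Matrix ι ι F))
            = ((x⁻¹ : GL ι F) : Matrix ι ι F) * (((y : GL ι F) : Matrix ι ι F) * k * ((y⁻¹ : GL ι F) : Matrix ι ι F)) * ((x : GL ι F) : Matrix ι ι F) := by noncomm_ring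
          _ = ((x⁻¹ : GL ι F) : Matrix ι ι F) * (((x : GL ι F) : Matrix ι ι F) * k * ((x⁻¹ : GL ι F) : Matrix ι ι F)) * ((x : GL ι F) : Matrix ι ι F) := by rw [h4]
          _ = (((x⁻¹ : GL ι F) : Matrix ι ι F) * ((x : GL ι F) : Matrix ι ι F)) * k * (((x⁻¹ : GL ι F) : Matrix ι ι F) * ((x : GL ι F) : Matrix ι ι F)) := by noncomm_ring
          _ = k := by rw [← Units.val_mul, inv_mul_cancel, Units.val_one, one_mul, mul_one]
      intro k hk
      have h5 := h3 k hk
      have h6 : ((dH (g⁻¹ * h) : GL ι F) : Matrix ι ι F) = ((g⁻¹ * h : GL ι F) : Matrix ι ι F).det • ((g⁻¹ * h : GL ι F) : Matrix ι ι F) := dtw_val _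
      rw [h6, Matrix.smul_mul, Matrix.mul_smul] at h5
      have h7 : ((g⁻¹ * h : GL ι F) : Matrix ι ι F).det ≠ 0 := ((Matrix.isUnit_iff_isUnit_det _).1 (g⁻¹ * h).isUnit).ne_zero
      exact smul_right_injective _ h7 h5
    apply Subtype.ext
    have h2 : dH (g⁻¹ * h) = (x : GL ι F)⁻¹ * y := by rw [map_mul, map_inv, hgx, hhy]
    change dH (g⁻¹ * h) = 1 at h1
    rw [h2] at h1
    exact (inv_mul_eq_one.1 h1)
  haveI : Fintype (H.map dH) := Fintype.ofFinite _
  have hcard : Fintype.card (H.map dH) ≤ Fintype.card ι := by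
    have h1 := Fintype.card_le_of_injective τ hτi
    have h3 := AlgEquiv.card_le (F := F) (K := K)
    rw [hK.finrank_eq] at h3
    exact h1.trans h3
  -- action of H in terms of the twisted group
  have hact : ∀ h ∈ H, ∀ v, (h : Matrix ι ι F) *ᵥ v = ((h : Matrix ι ι F).det)⁻¹ • ((dH h : GL ι F) : Matrix ι ι F) *ᵥ v := by
    intro h hh v
    have h3 : (dH h : Matrix ι ι F) = (h : Matrix ι ι F).det • (h : Matrix ι ι F) := dtw_val h
    rw [h3, Matrix.smul_mulVec, smul_smul, inv_mul_cancel₀, one_smul]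
    exact ((Matrix.isUnit_iff_isUnit_det _).1 h.isUnit).ne_zero
  by_cases hsum : ∃ v, ∑ x : H.map dH, ((x : GL ι F) : Matrix ι ι F) *ᵥ v ≠ 0
  · obtain ⟨v, hv⟩ := hsum
    set w := ∑ x : H.map dH, ((x : GL ι F) : Matrix ι ι F) *ᵥ v with hw
    have hfix : ∀ y : H.map dH, ((y : GL ι F) : Matrix ι ι F) *ᵥ w = w := by
      intro y
      rw [hw, Matrix.mulVec_sum]
      refine Fintype.sum_equiv (Equiv.mulLeft y) _ _ fun x => ?_
      rw [Matrix.mulVec_mulVec]; rfl
    have h1 := irr_span hirr (S := {w}) ⟨w, rfl, hv⟩ (by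
      rintro g hg _ rfl
      rw [hact g hg, hfix ⟨dH g, g, hg, rfl⟩]
      exact Submodule.smul_mem _ _ (Submodule.mem_span_singleton_self w))
    have h3 := finrank_span_le_card (R := F) ({w} : Set (ι → F))
    rw [h1, finrank_top, Module.finrank_fintype_fun_eq_card] at h3
    simp at h3
    omega
  · push Not at hsum
    have h00 : (((1 : H.map dH) : GL ι F) : Matrix ι ι F) *ᵥ v₀ = v₀ := by
      rw [OneMemClass.coe_one, Units.val_one, Matrix.one_mulVec]
    have h01 : v₀ ∈ Set.range fun x : H.map dH => ((x : GL ι F) : Matrix ι ι F) *ᵥ v₀ := Set.mem_range.2 ⟨1, h00⟩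
    have h1 := irr_span hirr (S := Set.range fun x : H.map dH => ((x : GL ι F) : Matrix ι ι F) *ᵥ v₀)
      ⟨v₀, h01, hv₀⟩ (by
      intro g hg v hv
      obtain ⟨x, hx⟩ := Set.mem_range.1 hv
      rw [hact g hg]
      apply Submodule.smul_mem
      have hxv : ((x : GL ι F) : Matrix ι ι F) *ᵥ v₀ = v := hx
      rw [← hxv, Matrix.mulVec_mulVec, ← Units.val_mul]
      apply Submodule.subset_span
      refine Set.mem_range.2 ⟨⟨dH g * (x : GL ι F), (H.map dH).mul_mem ⟨g, hg, rfl⟩ x.2⟩, rfl⟩)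
    have h3 : Fintype.card ι ≤ Fintype.card (H.map dH) := by
      have h4 := finrank_range_le_card (R := F) (fun x : H.map dH => ((x : GL ι F) : Matrix ι ι F) *ᵥ v₀)
      rw [Set.finrank, h1, finrank_top, Module.finrank_fintype_fun_eq_card] at h4
      exact h4
    have h5 := linearIndependent_of_top_le_span_of_card_eq_finrank h1.ge (by
      rw [Module.finrank_fintype_fun_eq_card]; exact le_antisymm hcard h3)
    rw [Fintype.linearIndependent_iff] at h5
    have h7 : ∑ x : H.map dH, (1 : F) • (((x : GL ι F) : Matrix ι ι F) *ᵥ v₀) = 0 := by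
      simp only [one_smul]
      exact hsum v₀
    have h6 := h5 (fun _ => 1) h7 1
    exact one_ne_zero h6

end gen

end CfsgLib.AschF
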