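import Mathlib
import Cfsg.Agent.LibAschF29
import Cfsg.Agent.LibAschF23

/-! odd-dimensional orthogonal case: frames -/
set_option autoImplicit false
set_option linter.unusedSectionVars false

namespace CfsgLib.AschF

open Module Cfsg Cfsg.Geo CfsgLib.Asch1 CfsgLib.Asch2 CfsgLib.Asch3 CfsgLib.Asch4 CfsgLib.Asch5 CfsgLib.Asch6 CfsgLib.Asch7
  CfsgLib.Asch8 CfsgLib.Asch9
  CfsgLib.Asch10 CfsgLib.Asch11 CfsgLib.Asch12 CfsgLib.Asch13 CfsgLib.Asch14 CfsgLib.Asch15 CfsgLib.Asch16 CfsgLib.Asch17
  CfsgLib.Asch18 CfsgLib.Asch19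
open scoped Matrix MatrixGroups Kronecker

section gen
variable {ι : Type} [Fintype ι] [DecidableEq ι] {F : Type*} [Field F]
variable {f : (ι → F) → (ι → F) → F}

/-- a frame gives a rational structure over every subfield -/
theorem frame_sub [Fintype F] (hf : FD (RingEquiv.refl F) 1 f) {H : Subgroup (GL ι F)} (hH : Iso f H)
    (hirr : ActsIrreducibly (matrixSet H)) {t : ℕ} {D : Fin t → Submodule F (ι → F)}
    (hD : IsNondegenerateMDecomposition f 1 D) (hle : H ≤ decompositionStabilizer D) (F₀ : Subfield F) :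
    ∃ (P : GL ι F) (ζ : F), ζ ≠ 0 ∧ IsFormRationalStructure f F₀ ζ P ∧ H ≤ subfieldSubgroup F₀ P := by
  classical
  have ht := hD.decomp.two_le
  let i₀ : Fin t := ⟨0, by omega⟩
  have hr1 := hD.decomp.finrank_eq
  have hne0 : D i₀ ≠ ⊥ := by
    intro h0
    have := hr1 i₀
    rw [h0, finrank_bot] at this; omega
  obtain ⟨v₀, hv₀, hv₀'⟩ := Submodule.exists_mem_ne_zero_of_ne_bot hne0
  have htr := dec_transitive hirr hD.decomp hle i₀
  choose h hh hmap using htr
  let v : Fin t → ι → F := fun i => (h i : Matrix ι ι F) *ᵥ v₀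
  have hvD : ∀ i, v i ∈ D i := by
    intro i
    rw [← hmap i]
    exact ⟨v₀, hv₀, rfl⟩
  have hv0 : ∀ i, v i ≠ 0 := by
    intro i h0
    apply hv₀'
    have h1 : ((h i)⁻¹ : GL ι F).1 *ᵥ ((h i : Matrix ι ι F) *ᵥ v₀) = v₀ := by
      rw [Matrix.mulVec_mulVec, ← Units.val_mul, inv_mul_cancel, Units.val_one, Matrix.one_mulVec]
    rw [← h1]
    change ((h i)⁻¹ : GL ι F).1 *ᵥ (v i) = 0
    rw [h0, Matrix.mulVec_zero]
  have hone : ∀ i, ∀ w ∈ D i, ∃ a : F, w = a • v i := by
    intro i w hw
    have h1 := (finrank_eq_one_iff_of_nonzero' (⟨v i, hvD i⟩ : D i) (fun h => hv0 i (congrArg Subtype.val h))).1 (hr1 i) ⟨w, hw⟩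
    obtain ⟨a, ha⟩ := h1
    exact ⟨a, (congrArg Subtype.val ha).symm⟩
  set c := f v₀ v₀ with hc
  have hc0 : c ≠ 0 := by
    obtain ⟨⟨x, hx, hxv⟩, _⟩ := hD.nondegenerate i₀ v₀ hv₀ hv₀'
    obtain ⟨a, ha⟩ := hone i₀ x hx
    obtain ⟨a', ha'⟩ := hone i₀ v₀ hv₀
    intro h0
    apply hxv
    have ha'0 : a' ≠ 0 := by rintro rfl; rw [zero_smul] at ha'; exact hv₀' ha'
    have : x = (a * a'⁻¹) • v₀ := by
      rw [ha, mul_smul]; congr 1
      rw [ha', smul_smul, inv_mul_cancel₀ ha'0, one_smul]
    rw [this, hf.smul_left, ← hc, h0, mul_zero]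
  have hvv : ∀ i j, f (v i) (v j) = if i = j then c else 0 := by
    intro i j
    by_cases hij : i = j
    · subst hij
      rw [if_pos rfl]
      exact hH _ (hh i) v₀ v₀
    · rw [if_neg hij]
      exact hD.orthogonal i j hij _ (hvD i) _ (hvD j)
  have hli : LinearIndependent F v := by
    rw [Fintype.linearIndependent_iff]
    intro g hg i
    have h1 := hf.zero_left (v i)
    rw [← hg, hf.sum_left, Finset.sum_eq_single i] at h1
    · rw [hf.smul_left, hvv, if_pos rfl] at h1
      exact (mul_eq_zero.1 h1).resolve_right hc0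
    · intro j _ hj
      rw [hf.smul_left, hvv, if_neg hj, mul_zero]
    · intro h; exact absurd (Finset.mem_univ i) h
  have hsp : ⊤ ≤ Submodule.span F (Set.range v) := by
    rw [← hD.decomp.iSup_eq_top]
    refine iSup_le fun i w hw => ?_
    obtain ⟨a, ha⟩ := hone i w hw
    rw [ha]
    exact Submodule.smul_mem _ _ (Submodule.subset_span ⟨i, rfl⟩)
  let b : Basis (Fin t) F (ι → F) := Basis.mk hli hsp
  have hb : ∀ i, b i = v i := fun i => Basis.mk_apply hli hsp i
  have hcard : Fintype.card ι = t := by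
    have := Module.finrank_eq_card_basis b
    rw [Module.finrank_fintype_fun_eq_card, Fintype.card_fin] at this
    exact this
  let e : ι ≃ Fin t := Fintype.equivOfCardEq (by rw [hcard, Fintype.card_fin])
  obtain ⟨P, hP⟩ := exists_P (b.reindex e.symm)
  have hPe : ∀ i, (P : Matrix ι ι F) *ᵥ Pi.single i 1 = v (e i) := by
    intro i
    rw [Matrix.mulVec_single_one]
    ext j
    rw [Matrix.col_apply, hP, Basis.reindex_apply, Equiv.symm_symm, hb]
  refine ⟨P, c⁻¹, inv_ne_zero hc0, ?_, ?_⟩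
  · intro u w hu hw
    rw [form_cols hf]
    simp only [hPe, hvv]
    have h1 : ∑ i, ∑ j, u i * (if e i = e j then c else 0) * (RingEquiv.refl F) (w j) = c * ∑ i, u i * w i := by
      rw [Finset.mul_sum]
      refine Finset.sum_congr rfl fun i _ => ?_
      rw [Finset.sum_eq_single i]
      · rw [if_pos rfl, RingEquiv.refl_apply]; ring
      · intro j _ hj
        rw [if_neg (fun h => hj (e.injective h).symm)]; ring
      · simp
    rw [h1, ← mul_assoc, inv_mul_cancel₀ hc0, one_mul]
    exact Subfield.sum_mem _ fun i _ => F₀.mul_mem (hu i) (hw i)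
  · intro g hg
    obtain ⟨π, hπ⟩ := hle hg
    have hgv : ∀ i, ∃ a : F, a ∈ F₀ ∧ (g : Matrix ι ι F) *ᵥ v i = a • v (π i) := by
      intro i
      have h1 : (g : Matrix ι ι F) *ᵥ v i ∈ D (π i) := by
        rw [← hπ i]; exact ⟨v i, hvD i, rfl⟩
      obtain ⟨a, ha⟩ := hone _ _ h1
      refine ⟨a, ?_, ha⟩
      have h2 := hH g hg (v i) (v i)
      rw [ha, hf.smul_left, hf.smul_right, hvv, hvv, if_pos rfl, if_pos rfl, RingEquiv.refl_apply] at h2
      have h3 : (a - 1) * (a + 1) = 0 := by
        have h4 : ((a - 1) * (a + 1)) * c = 0 := by linear_combination h2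
        exact (mul_eq_zero.1 h4).resolve_right hc0
      rcases mul_eq_zero.1 h3 with h4 | h4
      · rw [sub_eq_zero.1 h4]; exact F₀.one_mem
      · rw [eq_neg_of_add_eq_zero_left h4]; exact F₀.neg_mem F₀.one_mem
    apply mem_subfield
    intro k i
    obtain ⟨a, ha, hga⟩ := hgv (e i)
    have h1 : (((P⁻¹ : GL ι F) : Matrix ι ι F) * (g : Matrix ι ι F) * (P : Matrix ι ι F)) *ᵥ Pi.single i 1 =
        a • Pi.single (e.symm (π (e i))) 1 := by
      rw [← Matrix.mulVec_mulVec, hPe, ← Matrix.mulVec_mulVec, hga, Matrix.mulVec_smul]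
      congr 1
      have h2 := hPe (e.symm (π (e i)))
      rw [Equiv.apply_symm_apply] at h2
      rw [← h2, Matrix.mulVec_mulVec, ← Units.val_mul, inv_mul_cancel, Units.val_one, Matrix.one_mulVec]
    rw [Matrix.mulVec_single_one] at h1
    have h2 := congrFun h1 k
    rw [Matrix.col_apply] at h2
    rw [h2, Pi.smul_apply, smul_eq_mul]
    exact F₀.mul_mem ha (single_mem F₀ _ _)

/-- decompositions permuted transitively are isometric -/
theorem dec_isometric {Q : (ι → F) → F} (hpf : f = QuadraticMap.polar Q) {H : Subgroup (GL ι F)}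
    (hQ : ∀ g ∈ H, ∀ v, Q ((g : Matrix ι ι F) *ᵥ v) = Q v)
    (hirr : ActsIrreducibly (matrixSet H)) {t k : ℕ} {D : Fin t → Submodule F (ι → F)}
    (hD : IsNondegenerateMDecomposition f k D) (hle : H ≤ decompositionStabilizer D) : IsOrthogonalMDecomposition Q k D := by
  refine ⟨hpf ▸ hD, fun i j => ?_⟩
  obtain ⟨h, hh, hm⟩ := dec_transitive hirr hD.decomp hle i j
  have hm' : (D i).map (le h : (ι → F) →ₗ[F] (ι → F)) = D j := hm
  refine ⟨((le h).submoduleMap (D i)).trans (LinearEquiv.ofEq _ _ hm'), fun w => ?_⟩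
  exact hQ h hh w

theorem tens_smul_all {m t : ℕ} (b : Basis (Fin t → Fin m) F (ι → F)) (a : Fin t → F) (u : Fin t → Fin m → F) :
    tens b (fun s => a s • u s) = (∏ s, a s) • tens b u := by
  rw [tens, tens, Finset.smul_sum]
  refine Finset.sum_congr rfl fun y _ => ?_
  rw [smul_smul, ← Finset.prod_mul_distrib]
  rfl

/-- three-dimensional factors over the field with three elements: frames -/
theorem frame_three [Fintype F] (hF : Fintype.card F = 3) {Q : (ι → F) → F} (hf : FD (RingEquiv.refl F) 1 f)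
    (hpf : f = QuadraticMap.polar Q) (hself : ∀ v, f v v = 2 * Q v) (hQs : ∀ (a : F) v, Q (a • v) = a ^ 2 * Q v)
    {t : ℕ} (ht : 1 ≤ t) (b : Basis (Fin t → Fin 3) F (ι → F)) {c : F} (hc : c ≠ 0)
    (hb : ∀ x y, f (b x) (b y) = if x = y then c else 0) {H : Subgroup (GL ι F)} (hH : Iso f H)
    (hTW : ∀ h ∈ H, TW b (h : Matrix ι ι F)) :
    ∃ (n : ℕ) (D : Fin n → Submodule F (ι → F)), IsOrthogonalMDecomposition Q 1 D ∧ H ≤ decompositionStabilizer D := by
  classical
  have h3 : (3 : F) = 0 := by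
    have h1 : ((Fintype.card F : ℕ) : F) = 0 := FiniteField.cast_card_eq_zero F
    rw [hF] at h1
    exact_mod_cast h1
  have h2 : (2 : F) ≠ 0 := by
    intro h2
    have : (1 : F) = 0 := by linear_combination h3 - h2
    exact one_ne_zero this
  have hsq : ∀ x : F, x ≠ 0 → x ^ 2 = 1 := by
    intro x hx
    have := FiniteField.pow_card_sub_one_eq_one x hx
    rwa [hF] at this
  let f₁ : (Fin 3 → F) → (Fin 3 → F) → F := formOfGram (fun x => RingEquiv.refl F x) (1 : Matrix (Fin 3) (Fin 3) F)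
  have hf₁ : FD (RingEquiv.refl F) 1 f₁ := FD_of_gram 1 (by simp) (by
    intro i j
    rw [one_mul]
    by_cases h : i = j
    · subst h; simp
    · rw [Matrix.one_apply_ne h, Matrix.one_apply_ne (Ne.symm h), map_zero]) hf.sq (Or.inl rfl)
  have hg₁ : gramMatrix f₁ = 1 := gramMatrix_formOfGram (1 : Matrix (Fin 3) (Fin 3) F) ((RingEquiv.refl F : F ≃+* F) : F →+* F)
  have hform : ∀ x y : Fin t → Fin 3, f (b x) (b y) = c * ∏ s, gramMatrix f₁ (x s) (y s) := by
    intro x y
    rw [hb, hg₁]
    by_cases h : x = y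
    · subst h; simp
    · rw [if_neg h]
      obtain ⟨s, hs⟩ := Function.ne_iff.1 h
      have h0 : (1 : Matrix (Fin 3) (Fin 3) F) (x s) (y s) = 0 := Matrix.one_apply_ne hs
      rw [Finset.prod_eq_zero (Finset.mem_univ s) h0, mul_zero]
  have hf₁e : ∀ u v, f₁ u v = ∑ k, u k * v k := by
    intro u v
    rw [form_expand hf₁, hg₁]
    refine Finset.sum_congr rfl fun k _ => ?_
    rw [Finset.sum_eq_single k]
    · rw [Matrix.one_apply_eq, mul_one, RingEquiv.refl_apply]
    · intro l _ hl
      rw [Matrix.one_apply_ne (Ne.symm hl)]; ring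
    · simp
  -- each element of H is monomial on b
  have hmono : ∀ h ∈ H, ∀ x, ∃ (a : F) (y : Fin t → Fin 3), a ≠ 0 ∧ (h : Matrix ι ι F) *ᵥ b x = a • b y := by
    intro h hh x
    obtain ⟨π, P, hP⟩ := hTW h hh
    have hP : TWr b (h : Matrix ι ι F) π P := hP
    have hprod : ∀ x y : Fin t → Fin 3, ∏ s, f₁ ((P s).1 *ᵥ Pi.single (x s) 1) ((P s).1 *ᵥ Pi.single (y s) 1) = if x = y then 1 else 0 := by
      intro x y
      have h1 := hH h hh (b x) (b y)
      rw [TWr_single b hP, TWr_single b hP, tens_form b hf hf₁ hform, hb] at h1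
      have h4 : ∏ s, f₁ ((P s).1 *ᵥ Pi.single (x s) 1) ((P s).1 *ᵥ Pi.single (y s) 1) =
          ∏ s, f₁ ((P (π.symm s)).1 *ᵥ Pi.single (x (π.symm s)) 1) ((P (π.symm s)).1 *ᵥ Pi.single (y (π.symm s)) 1) :=
        (Equiv.prod_comp π.symm fun s => f₁ ((P s).1 *ᵥ Pi.single (x s) 1) ((P s).1 *ᵥ Pi.single (y s) 1)).symm
      rw [h4]
      apply mul_left_cancel₀ hc
      rw [h1]
      split_ifs <;> simp
    have hnz : ∀ s i, f₁ ((P s).1 *ᵥ Pi.single i 1) ((P s).1 *ᵥ Pi.single i 1) ≠ 0 := by
      intro s i h0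
      have h1 := hprod (fun _ => i) (fun _ => i)
      rw [if_pos rfl, Finset.prod_eq_zero (Finset.mem_univ s) h0] at h1
      exact zero_ne_one h1
    have hoff : ∀ s i j, i ≠ j → f₁ ((P s).1 *ᵥ Pi.single i 1) ((P s).1 *ᵥ Pi.single j 1) = 0 := by
      intro s i j hij
      have h1 := hprod (fun _ => i) (Function.update (fun _ => i) s j)
      rw [if_neg (by
        intro h0
        have := congrFun h0 s
        rw [Function.update_self] at this
        exact hij this), Finset.prod_eq_zero_iff] at h1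
      obtain ⟨r, _, hr⟩ := h1
      by_cases hrs : r = s
      · subst hrs
        rw [Function.update_self] at hr; exact hr
      · rw [Function.update_of_ne hrs] at hr
        exact absurd hr (hnz r i)
    have hconst : ∀ s i j, f₁ ((P s).1 *ᵥ Pi.single i 1) ((P s).1 *ᵥ Pi.single i 1) = f₁ ((P s).1 *ᵥ Pi.single j 1) ((P s).1 *ᵥ Pi.single j 1) := by
      intro s i j
      have h1 := hprod (fun _ => i) (fun _ => i)
      have h4 := hprod (Function.update (fun _ => i) s j) (Function.update (fun _ => i) s j)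
      rw [if_pos rfl, ← Finset.mul_prod_erase Finset.univ _ (Finset.mem_univ s)] at h1 h4
      rw [Function.update_self] at h4
      have h5 : ∏ r ∈ Finset.univ.erase s, f₁ ((P r).1 *ᵥ Pi.single ((Function.update (fun _ => i) s j : Fin t → Fin 3) r) 1)
          ((P r).1 *ᵥ Pi.single ((Function.update (fun _ => i) s j : Fin t → Fin 3) r) 1) =
          ∏ r ∈ Finset.univ.erase s, f₁ ((P r).1 *ᵥ Pi.single i 1) ((P r).1 *ᵥ Pi.single i 1) := by
        refine Finset.prod_congr rfl fun r hr => ?_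
        rw [Function.update_of_ne (Finset.ne_of_mem_erase hr)]
      rw [h5] at h4
      have h6 : ∏ r ∈ Finset.univ.erase s, f₁ ((P r).1 *ᵥ Pi.single i 1) ((P r).1 *ᵥ Pi.single i 1) ≠ 0 := by
        intro h0; rw [h0, mul_zero] at h1; exact zero_ne_one h1
      exact mul_right_cancel₀ h6 (h1.trans h4.symm)
    have hlam : ∀ s i, f₁ ((P s).1 *ᵥ Pi.single i 1) ((P s).1 *ᵥ Pi.single i 1) = 1 := by
      intro s i
      set l := f₁ ((P s).1 *ᵥ Pi.single i 1) ((P s).1 *ᵥ Pi.single i 1) with hl
      have h1 := gram_cols hf₁ (fun i => (P s).1 *ᵥ Pi.single i 1) (P s).1 (fun i j => by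
        rw [Matrix.mulVec_single_one]; rfl)
      have h4 : (Matrix.of fun i j => f₁ ((P s).1 *ᵥ Pi.single i 1) ((P s).1 *ᵥ Pi.single j 1)) = l • (1 : Matrix (Fin 3) (Fin 3) F) := by
        ext j k
        rw [Matrix.of_apply, Matrix.smul_apply]
        by_cases hjk : j = k
        · subst hjk
          rw [Matrix.one_apply_eq, smul_eq_mul, mul_one, hl, hconst s j i]
        · rw [Matrix.one_apply_ne hjk, smul_zero, hoff s j k hjk]
      rw [h4, hg₁, mul_one] at h1
      have h5 := congrArg Matrix.det h1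
      rw [Matrix.det_mul, Matrix.det_transpose, Matrix.det_smul, Matrix.det_one, Fintype.card_fin] at h5
      have h6 : (P s).1.det ≠ 0 := ((Matrix.isUnit_iff_isUnit_det _).1 (P s).isUnit).ne_zero
      have h7 := hsq _ h6
      have h8 := hsq l (hnz s i)
      linear_combination -h5 + h7 - l * h8
    -- columns have weight one
    have hcol : ∀ s i, ∃ (a : F) (j : Fin 3), a ≠ 0 ∧ (P s).1 *ᵥ (Pi.single i 1 : Fin 3 → F) = a • Pi.single j 1 := by
      intro s i
      have h1 := hlam s i
      rw [hf₁e, Fin.sum_univ_three] at h1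
      set w := (P s).1 *ᵥ (Pi.single i 1 : Fin 3 → F) with hw
      have h4 : ∀ x : F, x * x = 0 ∧ x = 0 ∨ x * x = 1 ∧ x ≠ 0 := by
        intro x
        by_cases hx : x = 0
        · left; exact ⟨by rw [hx]; ring, hx⟩
        · right; exact ⟨by rw [← pow_two]; exact hsq x hx, hx⟩
      have h10 : (1 : F) ≠ 0 := one_ne_zero
      rcases h4 (w 0) with ⟨e0, z0⟩ | ⟨e0, z0⟩ <;> rcases h4 (w 1) with ⟨e1, z1⟩ | ⟨e1, z1⟩ <;>
        rcases h4 (w 2) with ⟨e2, z2⟩ | ⟨e2, z2⟩ <;> rw [e0, e1, e2] at h1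
      · exact absurd (by linear_combination -h1) h10
      · exact ⟨w 2, 2, z2, by ext k; fin_cases k <;> simp_all⟩
      · exact ⟨w 1, 1, z1, by ext k; fin_cases k <;> simp_all⟩
      · exact absurd (by linear_combination h1) h10
      · exact ⟨w 0, 0, z0, by ext k; fin_cases k <;> simp_all⟩
      · exact absurd (by linear_combination h1) h10
      · exact absurd (by linear_combination h1) h10
      · exact absurd (by linear_combination h3 - h1) h10
    choose a j ha hj using hcol
    refine ⟨∏ s, a (π.symm s) (x (π.symm s)), fun s => j (π.symm s) (x (π.symm s)), ?_, ?_⟩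
    · exact Finset.prod_ne_zero_iff.2 fun s _ => ha _ _
    · rw [TWr_single b hP]
      have h4 : (fun s => (P (π.symm s)).1 *ᵥ (Pi.single (x (π.symm s)) 1 : Fin 3 → F)) =
          fun s => a (π.symm s) (x (π.symm s)) • Pi.single (j (π.symm s) (x (π.symm s))) 1 := by
        funext s; rw [hj]
      rw [h4, tens_smul_all, tens_single b (fun s => j (π.symm s) (x (π.symm s)))]
  -- the frame
  let n := Fintype.card (Fin t → Fin 3)
  let e : Fin n ≃ (Fin t → Fin 3) := (Fintype.equivFin _).symm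
  let D : Fin n → Submodule F (ι → F) := fun i => Submodule.span F {b (e i)}
  have hD : IsNondegenerateMDecomposition f 1 D := by
    refine ⟨⟨?_, by norm_num, ?_, ?_, ?_⟩, ?_, ?_⟩
    · change 2 ≤ Fintype.card (Fin t → Fin 3)
      rw [Fintype.card_fun, Fintype.card_fin, Fintype.card_fin]
      calc 2 ≤ 3 ^ 1 := by norm_num
        _ ≤ 3 ^ t := Nat.pow_le_pow_right (by norm_num) ht
    · intro i; exact finrank_span_singleton (b.ne_zero _)
    · exact (b.reindex e.symm).linearIndependent.iSupIndep_span_singleton.comp (f := id) Function.injective_id |> fun h => by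
        simpa [D, Basis.reindex_apply] using h
    · rw [eq_top_iff, ← b.span_eq, Submodule.span_le]
      rintro _ ⟨x, rfl⟩
      refine Submodule.mem_iSup_of_mem (e.symm x) ?_
      change b x ∈ Submodule.span F {b (e (e.symm x))}
      rw [Equiv.apply_symm_apply]
      exact Submodule.mem_span_singleton_self _
    · intro i w hw hw0
      obtain ⟨a, rfl⟩ := Submodule.mem_span_singleton.1 hw
      have ha : a ≠ 0 := by rintro rfl; exact hw0 (zero_smul _ _)
      refine ⟨⟨b (e i), Submodule.mem_span_singleton_self _, ?_⟩, ⟨b (e i), Submodule.mem_span_singleton_self _, ?_⟩⟩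
      · rw [hf.smul_right, hb, if_pos rfl]; exact mul_ne_zero ha hc
      · rw [hf.smul_left, hb, if_pos rfl]; exact mul_ne_zero ha hc
    · intro i j hij u hu v hv
      obtain ⟨a, rfl⟩ := Submodule.mem_span_singleton.1 hu
      obtain ⟨a', rfl⟩ := Submodule.mem_span_singleton.1 hv
      rw [hf.smul_left, hf.smul_right, hb, if_neg (fun h => hij (e.injective h))]; ring
  refine ⟨n, D, ⟨hpf ▸ hD, ?_⟩, ?_⟩
  · intro i j
    refine ⟨(LinearEquiv.toSpanNonzeroSingleton F _ _ (b.ne_zero (e i))).symm.trans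
      (LinearEquiv.toSpanNonzeroSingleton F _ _ (b.ne_zero (e j))), fun w => ?_⟩
    obtain ⟨w, hw⟩ := w
    obtain ⟨a, rfl⟩ := Submodule.mem_span_singleton.1 hw
    have h1 : (LinearEquiv.toSpanNonzeroSingleton F (ι → F) _ (b.ne_zero (e i))).symm ⟨a • b (e i), hw⟩ = a := by
      rw [LinearEquiv.symm_apply_eq]
      rfl
    rw [LinearEquiv.trans_apply, h1]
    change Q (a • b (e j)) = Q (a • b (e i))
    have hQb : ∀ x, Q (b x) = c / 2 := by
      intro x
      have := hself (b x)
      rw [hb, if_pos rfl] at this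
      field_simp
      linear_combination -this
    rw [hQs, hQs, hQb, hQb]
  · intro h hh
    have h1 := hmono h hh
    choose a y ha hy using h1
    have hinj : Function.Injective fun i : Fin n => e.symm (y (e i)) := by
      intro i j hij
      have h4 : y (e i) = y (e j) := e.symm.injective hij
      have h5 : (h : Matrix ι ι F) *ᵥ ((a (e j)) • b (e i) - (a (e i)) • b (e j)) = 0 := by
        rw [sub_eq_add_neg, Matrix.mulVec_add, Matrix.mulVec_neg, Matrix.mulVec_smul, Matrix.mulVec_smul, hy, hy, h4, smul_smul, smul_smul,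
          mul_comm, add_neg_cancel]
      have h6 : (a (e j)) • b (e i) - (a (e i)) • b (e j) = 0 := by
        have h7 := congrArg (fun v => ((h⁻¹ : GL ι F) : Matrix ι ι F) *ᵥ v) h5
        simp only [Matrix.mulVec_mulVec, ← Units.val_mul, inv_mul_cancel, Units.val_one, Matrix.one_mulVec, Matrix.mulVec_zero] at h7
        exact h7
      by_contra hne
      have h7 := congrArg (fun v => b.repr v (e i)) h6
      simp only [map_sub, map_smul, Finsupp.sub_apply, Finsupp.smul_apply, Basis.repr_self, map_zero, Finsupp.zero_apply] at h7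
      rw [Finsupp.single_eq_same, Finsupp.single_eq_of_ne (fun h => hne (e.injective h)), smul_zero, sub_zero, smul_eq_mul, mul_one] at h7
      exact ha _ h7
    let π : Equiv.Perm (Fin n) := Equiv.ofBijective _ (Finite.injective_iff_bijective.1 hinj)
    refine ⟨π, fun i => ?_⟩
    change (Submodule.span F {b (e i)}).map _ = Submodule.span F {b (e (e.symm (y (e i))))}
    rw [Submodule.map_span, Set.image_singleton, Matrix.toLin'_apply, hy, Equiv.apply_symm_apply]
    exact Submodule.span_singleton_smul_eq (IsUnit.mk0 _ (ha _)) _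

end gen

end CfsgLib.AschF
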