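import Mathlib
import Cfsg.Agent.LibAschF30
import Cfsg.Agent.LibAschF26
import Cfsg.Agent.LibH22OForms

/-! odd-dimensional orthogonal case: assembly -/
set_option autoImplicit false
set_option linter.unusedSectionVars false

namespace CfsgLib.AschF

open Module Cfsg Cfsg.Geo CfsgLib.Asch1 CfsgLib.Asch2 CfsgLib.Asch3 CfsgLib.Asch4 CfsgLib.Asch5 CfsgLib.Asch6 CfsgLib.Asch7
  CfsgLib.Asch8 CfsgLib.Asch9
  CfsgLib.Asch10 CfsgLib.Asch11 CfsgLib.Asch12 CfsgLib.Asch13 CfsgLib.Asch14 CfsgLib.Asch15 CfsgLib.Asch16 CfsgLib.Asch17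
  CfsgLib.Asch18 CfsgLib.Asch19
open scoped Matrix MatrixGroups Kronecker

section gen
variable {ι : Type} [Fintype ι] [DecidableEq ι] {F : Type*} [Field F]
variable {f : (ι → F) → (ι → F) → F}

/-- two equal factors of odd dimension: orthogonal tensor basis -/
theorem tp_equal_sym [Fintype F] (h2 : (2 : F) ≠ 0) (hf : FD (RingEquiv.refl F) 1 f) {k : ℕ} (hk : Odd k)
    (b : Basis (Fin k × Fin k) F (ι → F))
    {f₁ f₂ : (Fin k → F) → (Fin k → F) → F} (hf₁ : FD (RingEquiv.refl F) 1 f₁) (hf₂ : FD (RingEquiv.refl F) 1 f₂)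
    (hform : ∀ i l j l', f (b (i, l)) (b (j, l')) = gramMatrix f₁ i j * gramMatrix f₂ l l')
    {H : Subgroup (GL ι F)}
    (hkr : ∀ h ∈ H, ∃ (A : (Matrix (Fin k) (Fin k) F)ˣ) (N : (Matrix (Fin k) (Fin k) F)ˣ),
      KA b (h : Matrix ι ι F) A.1 N.1) :
    ∃ (b' : Basis (Fin 2 → Fin k) F (ι → F)) (c : F), c ≠ 0 ∧ (∀ x y, f (b' x) (b' y) = if x = y then c else 0) ∧
      ∀ h ∈ H, ∃ Q : Fin 2 → GL (Fin k) F, PTr b' h Q := by
  classical
  let b₀ : Basis (Fin 2 → Fin k) F (ι → F) := b.reindex (finTwoArrowEquiv (Fin k)).symm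
  have hb₀ : ∀ x, b₀ x = b (x 0, x 1) := by
    intro x
    rw [Basis.reindex_apply]; rfl
  have htens : ∀ u, tens b₀ u = ten b (u 0) (u 1) := by
    intro u
    have h1 : ten b (u 0) (u 1) = ∑ p : Fin k × Fin k, (u 0 p.1 * u 1 p.2) • b p := by
      rw [ten, Fintype.sum_prod_type]
    rw [h1, tens]
    refine Fintype.sum_equiv (finTwoArrowEquiv (Fin k)) _ _ fun x => ?_
    rw [hb₀, Fin.prod_univ_two]
    rfl
  obtain ⟨W₁, c₁, hc₁, hW₁⟩ := sym_similar hk hf₁ h2
  obtain ⟨W₂, c₂, hc₂, hW₂⟩ := sym_similar hk hf₂ h2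
  obtain ⟨b', hb'⟩ := change_basis' b₀ ![W₁, W₂]
  have hb'2 : ∀ u, tens b' u = ten b (W₁.1 *ᵥ u 0) (W₂.1 *ᵥ u 1) := by
    intro u
    rw [hb', htens]
    rfl
  refine ⟨b', c₁ * c₂, mul_ne_zero hc₁ hc₂, ?_, ?_⟩
  · intro x y
    rw [← tens_single b' x, ← tens_single b' y, hb'2, hb'2, ten_form b hf hf₁ hf₂ hform, hW₁, hW₂]
    by_cases h : x = y
    · subst h; simp
    · rw [if_neg h]
      by_cases h0 : x 0 = y 0
      · have h1 : x 1 ≠ y 1 := by
          intro h1
          apply h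
          ext s
          fin_cases s
          · exact congrArg _ h0
          · exact congrArg _ h1
        rw [if_neg h1, mul_zero]
      · rw [if_neg h0, zero_mul]
  · intro h hh
    obtain ⟨A, N, hk⟩ := hkr h hh
    refine ⟨![W₁⁻¹ * A * W₁, W₂⁻¹ * N * W₂], PTr_of_tens b' ?_⟩
    intro u
    rw [hb'2, ten_act b hk, hb'2]
    congr 1
    · change A.1 *ᵥ (W₁.1 *ᵥ u 0) = W₁.1 *ᵥ ((W₁⁻¹ * A * W₁).1 *ᵥ u 0)
      rw [Matrix.mulVec_mulVec, Matrix.mulVec_mulVec, ← Units.val_mul, ← Units.val_mul]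
      congr 2; group
    · change N.1 *ᵥ (W₂.1 *ᵥ u 1) = W₂.1 *ᵥ ((W₂⁻¹ * N * W₂).1 *ᵥ u 1)
      rw [Matrix.mulVec_mulVec, Matrix.mulVec_mulVec, ← Units.val_mul, ← Units.val_mul]
      congr 2; group

theorem ortho_structure_c (hf : FD (RingEquiv.refl F) 1 f) {m t : ℕ} (b : Basis (Fin t → Fin m) F (ι → F)) {c : F} (hc : c ≠ 0)
    (hb : ∀ x y, f (b x) (b y) = if x = y then c else 0) (e : ι ≃ (Fin t → Fin m)) (P : GL ι F)
    (hP : ∀ i j, (P : Matrix ι ι F) j i = b.reindex e.symm i j) :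
    FD (RingEquiv.refl F) 1 (formOfGram (fun x => RingEquiv.refl F x) (1 : Matrix (Fin m) (Fin m) F)) ∧
    IsTensorPowerFormStructure id f (formOfGram (fun x => RingEquiv.refl F x) (1 : Matrix (Fin m) (Fin m) F)) e P := by
  classical
  refine ⟨FD_of_gram 1 (by simp) ?_ hf.sq (Or.inl rfl), c, hc, fun x y => ?_⟩
  · intro i j
    rw [one_mul]
    by_cases h : i = j
    · subst h; simp
    · rw [Matrix.one_apply_ne h, Matrix.one_apply_ne (Ne.symm h), map_zero]
  · rw [form_P hf b e P hP, Finset.mul_sum]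
    refine Finset.sum_congr rfl fun p _ => ?_
    rw [Finset.mul_sum]
    refine Finset.sum_congr rfl fun q _ => ?_
    have h1 := gramMatrix_formOfGram (1 : Matrix (Fin m) (Fin m) F) ((RingEquiv.refl F : F ≃+* F) : F →+* F)
    have h1 : gramMatrix (formOfGram (fun x => RingEquiv.refl F x) (1 : Matrix (Fin m) (Fin m) F)) = 1 := h1
    rw [hb, h1]
    by_cases h : p = q
    · subst h
      rw [if_pos rfl]
      simp
      ring
    · rw [if_neg h]
      obtain ⟨s, hs⟩ := Function.ne_iff.1 h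
      have h0 : (1 : Matrix (Fin m) (Fin m) F) (p s) (q s) = 0 := Matrix.one_apply_ne hs
      rw [Finset.prod_eq_zero (Finset.mem_univ s) h0]
      ring

theorem form_change_c {m t : ℕ} (b : Basis (Fin t → Fin m) F (ι → F)) (hf : FD (RingEquiv.refl F) 1 f) {ε₁ : F}
    {f₁ : (Fin m → F) → (Fin m → F) → F} (hf₁ : FD (RingEquiv.refl F) ε₁ f₁) {c : F}
    (hform : ∀ x y, f (b x) (b y) = c * ∏ s, gramMatrix f₁ (x s) (y s)) {W : GL (Fin m) F} {d : F}
    (hW : ∀ i j, f₁ (W.1 *ᵥ Pi.single i 1) (W.1 *ᵥ Pi.single j 1) = if i = j then d else 0)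
    {b' : Basis (Fin t → Fin m) F (ι → F)} (hb' : ∀ u, tens b' u = tens b (fun s => W.1 *ᵥ u s)) (x y : Fin t → Fin m) :
    f (b' x) (b' y) = if x = y then c * d ^ t else 0 := by
  classical
  rw [← tens_single b' x, ← tens_single b' y, hb', hb', tens_form b hf hf₁ hform]
  simp only [hW]
  by_cases h : x = y
  · subst h; simp
  · rw [if_neg h]
    obtain ⟨s, hs⟩ := Function.ne_iff.1 h
    rw [Finset.prod_eq_zero (Finset.mem_univ s) (if_neg hs), mul_zero]

/-- the degree of a subfield of the matrix algebra divides the dimension -/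
theorem fld_dvd [Nonempty ι] {r : ℕ} {K : Subalgebra F (Matrix ι ι F)} (hK : IsFieldSubalgebra r K) : r ∣ Fintype.card ι := by
  have hfield : IsField K :=
    { exists_pair_ne := ⟨0, 1, zero_ne_one⟩
      mul_comm := fun x y => Subtype.ext (hK.comm x x.2 y y.2)
      mul_inv_cancel := by
        intro a ha
        obtain ⟨y, hy, hxy⟩ := hK.inv a a.2 (fun h => ha (Subtype.ext h))
        exact ⟨⟨y, hy⟩, Subtype.ext hxy⟩ }
  let : CommRing K := { (inferInstance : Ring K) with mul_comm := hfield.mul_comm }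
  let : Field K := hfield.toField
  let algFK : Algebra F K := inferInstance
  let modK : Module K (ι → F) :=
    { smul := fun k v => (k : Matrix ι ι F) *ᵥ v
      one_smul := fun v => Matrix.one_mulVec v
      mul_smul := fun x y v => (Matrix.mulVec_mulVec v (x : Matrix ι ι F) (y : Matrix ι ι F)).symm
      smul_zero := fun x => Matrix.mulVec_zero _
      smul_add := fun x u v => Matrix.mulVec_add _ _ _
      add_smul := fun x y v => Matrix.add_mulVec _ _ _
      zero_smul := fun v => Matrix.zero_mulVec v }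
  have hst : IsScalarTower F K (ι → F) := ⟨fun c k v => Matrix.smul_mulVec c (k : Matrix ι ι F) v⟩
  have h1 := Module.finrank_mul_finrank F K (ι → F)
  rw [hK.finrank_eq, Module.finrank_fintype_fun_eq_card] at h1
  exact ⟨_, h1.symm⟩
theorem not_symp_odd [Nonempty ι] {g : (ι → F) → (ι → F) → F} (h2 : (2 : F) ≠ 0) (hf : FD (RingEquiv.refl F) (-1) g) :
    Even (Fintype.card ι) := symplectic_even (symp_of_fd hf (alt_of_neg hf h2))

end gen

theorem orth {F : Type*} [Field F] [Fintype F] (hodd : Odd (Fintype.card F)) (m : ℕ) (hm : 1 ≤ m)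
    (H : Subgroup (GL (Unit ⊕ (Fin m ⊕ Fin m)) F)) (hH : H ≤ isometryGroup F (quadFormOdd m F)) :
    (∃ M, InOrthogonalOddClass m F M ∧ H ≤ M) ∨ InOrthogonalResidualClass H := by
  classical
  have h2 : (2 : F) ≠ 0 := by
    intro h2
    exact not_odd_of_two h2 hodd
  have hcard : Fintype.card (Unit ⊕ (Fin m ⊕ Fin m)) = 2 * m + 1 := by simp; ring
  have hcodd : Odd (Fintype.card (Unit ⊕ (Fin m ⊕ Fin m))) := ⟨m, hcard⟩
  have hne : Nonempty (Unit ⊕ (Fin m ⊕ Fin m)) := ⟨Sum.inl ()⟩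
  set Q := quadFormOdd m F with hQdef
  have hQq : Q = ⇑(Cfsg.Agent.H22.qOdd m F) := (Cfsg.Agent.H22.coe_qOdd m).symm
  set f := QuadraticMap.polar Q with hfdef
  have hfB : ∀ u v, f u v = QuadraticMap.polarBilin (Cfsg.Agent.H22.qOdd m F) u v := by
    intro u v; rw [hfdef, hQq]; rfl
  have hf : FD (RingEquiv.refl F) 1 f :=
    { sesq := ⟨fun x y v => by rw [hfB, hfB, hfB, map_add, LinearMap.add_apply],
        fun c x v => by rw [hfB, hfB, map_smul, LinearMap.smul_apply, smul_eq_mul],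
        fun v x y => by rw [hfB, hfB, hfB, map_add],
        fun c v x => by rw [hfB, hfB, map_smul, smul_eq_mul]; rfl⟩
      nd := by
        have hn := Cfsg.Agent.H22.nondeg_qOdd (F := F) m h2
        intro v hv
        have h1 : ∃ y, f v y ≠ 0 := by
          by_contra hcon
          push Not at hcon
          exact hv (hn.1 v fun y => by rw [← hfB]; exact hcon y)
        obtain ⟨y, hy⟩ := h1
        refine ⟨⟨y, ?_⟩, ⟨y, hy⟩⟩
        rw [hfdef, QuadraticMap.polar_comm]; exact hy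
      sq := fun _ => rfl
      herm := fun u v => by rw [hfdef, QuadraticMap.polar_comm, one_mul]; rfl
      eps := Or.inl rfl }
  have hQs : ∀ (a : F) v, Q (a • v) = a ^ 2 * Q v := by
    intro a v
    rw [hQq, QuadraticMap.map_smul, smul_eq_mul, pow_two]
  have hself : ∀ v, f v v = 2 * Q v := by
    intro v
    have h1 : v + v = (2 : F) • v := by rw [two_smul]
    rw [hfdef, QuadraticMap.polar, h1, hQs]; ring
  have hQH : ∀ g ∈ H, ∀ v, Q ((g : Matrix (Unit ⊕ (Fin m ⊕ Fin m)) (Unit ⊕ (Fin m ⊕ Fin m)) F) *ᵥ v) = Q v := fun g hg v => hH hg v v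
  have hI : Iso f H := by
    intro g hg u v
    rw [hfdef]
    simp only [QuadraticMap.polar, ← Matrix.mulVec_add, hQH g hg]
  have hQF : ∀ (F₀ : Subfield F) (u : Unit ⊕ (Fin m ⊕ Fin m) → F), (∀ i, u i ∈ F₀) → Q u ∈ F₀ := by
    intro F₀ u hu
    rw [hQdef, quadFormOdd]
    exact F₀.add_mem (F₀.pow_mem (hu _) 2) (Subfield.sum_mem _ fun i _ => F₀.mul_mem (hu _) (hu _))
  have hG : ∀ (F₀ : Subfield F) i j, gramMatrix f i j ∈ F₀ := by
    intro F₀ i j
    rw [gramMatrix, hfdef, QuadraticMap.polar]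
    refine F₀.sub_mem (F₀.sub_mem (hQF F₀ _ ?_) (hQF F₀ _ (single_mem F₀ i))) (hQF F₀ _ (single_mem F₀ j))
    intro k
    exact F₀.add_mem (single_mem F₀ i k) (single_mem F₀ j k)
  -- the subfield class
  have hsub : ∀ (F₀ : Subfield F) (r : ℕ) (P : GL (Unit ⊕ (Fin m ⊕ Fin m)) F) (ζ : F), r.Prime →
      Fintype.card F = Nat.card F₀ ^ r → ζ ≠ 0 → IsFormRationalStructure f F₀ ζ P →
      H ≤ subfieldSubgroup F₀ P → ∃ M, InOrthogonalOddClass m F M ∧ H ≤ M := by
    intro F₀ r P ζ hr hc hζ hS h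
    obtain ⟨P', he, hS'⟩ := scale_sub h2 hf hcodd hr hc hζ hS (hG F₀)
    refine ⟨_, Or.inr (Or.inr (Or.inr (Or.inr (Or.inr (Or.inr (Or.inl ⟨F₀, r, P', hr, hc, ?_, rfl⟩)))))), le_inf (he ▸ h) hH⟩
    intro u hu
    have h1 := hS' u u hu hu
    rw [one_mul, hself] at h1
    have h3 : (2 : F)⁻¹ ∈ F₀ := F₀.inv_mem (by
      have : (2 : F) = 1 + 1 := by norm_num
      rw [this]; exact F₀.add_mem F₀.one_mem F₀.one_mem)
    have h4 := F₀.mul_mem h3 h1
    rwa [← mul_assoc, inv_mul_cancel₀ h2, one_mul] at h4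
  have hdec : ∀ (t k : ℕ) (D : Fin t → Submodule F (Unit ⊕ (Fin m ⊕ Fin m) → F)), IsNondegenerateMDecomposition f k D →
      ActsIrreducibly (matrixSet H) → H ≤ decompositionStabilizer D → ∃ M, InOrthogonalOddClass m F M ∧ H ≤ M := by
    intro t k D hD hirr h
    have hiso := dec_isometric hfdef hQH hirr hD h
    have hpos := hD.decomp.pos
    rcases (by omega : k = 1 ∨ 1 < k) with hk | hk
    · subst hk
      by_cases hp : (Fintype.card F).Prime
      · exact ⟨_, Or.inr (Or.inr (Or.inr (Or.inl ⟨t, D, hp, hiso, rfl⟩))), le_inf h hH⟩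
      · obtain ⟨F₁, s, _, hs, hcs⟩ := exists_max_subfield (⊥ : Subfield F) (by
          intro h0
          apply hp
          obtain ⟨p, hchar⟩ := CharP.exists F
          haveI := hchar
          have hpp : p.Prime := CharP.char_is_prime F p
          haveI : Fact p.Prime := ⟨hpp⟩
          have h1 := Subfield.card_bot F p
          rw [h0] at h1
          have h3 : Nat.card (⊤ : Subfield F) = Nat.card F := Nat.card_congr Subfield.topEquiv.toEquiv
          rw [← Nat.card_eq_fintype_card, ← h3, h1]; exact hpp)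
        obtain ⟨P, ζ, h0, h1, h3⟩ := frame_sub hf hI hirr hD h F₁
        exact hsub F₁ s P ζ hs (by rw [← Nat.card_eq_fintype_card]; exact hcs) h0 h1 h3
    · exact ⟨_, Or.inr (Or.inr (Or.inl ⟨t, k, D, hk, hiso, rfl⟩)), le_inf h hH⟩
  have h33 : ∀ (t : ℕ) (b : Basis (Fin t → Fin 3) F (Unit ⊕ (Fin m ⊕ Fin m) → F)) (c : F), 1 ≤ t → c ≠ 0 →
      (∀ x y, f (b x) (b y) = if x = y then c else 0) →
      (∀ h ∈ H, TW b (h : Matrix (Unit ⊕ (Fin m ⊕ Fin m)) (Unit ⊕ (Fin m ⊕ Fin m)) F)) → Fintype.card F = 3 →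
      ∃ M, InOrthogonalOddClass m F M ∧ H ≤ M := by
    intro t b c ht hc hb hTW hF
    obtain ⟨n, D, hD, hle⟩ := frame_three hF hf hfdef hself hQs ht b hc hb hI hTW
    exact ⟨_, Or.inr (Or.inr (Or.inr (Or.inl ⟨n, D, by rw [hF]; exact Nat.prime_three, hD, rfl⟩))), le_inf hle hH⟩
  rcases aschbacherF hf (by rw [hcard]; omega) H hI with h | ⟨hirr, N, hcore, hreal⟩
  · left
    cases h with
    | sing W h0 hs h =>
      refine ⟨_, Or.inl ⟨W, h0, ?_, rfl⟩, le_inf h hH⟩
      intro w hw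
      have h1 := hs w hw w hw
      rw [hself] at h1
      exact (mul_eq_zero.1 h1).resolve_left h2
    | nond W h0 hs hd h =>
      refine ⟨_, Or.inr (Or.inl ⟨W, h0, ?_, hs, rfl⟩), le_inf h hH⟩
      rintro rfl
      rw [finrank_top, Module.finrank_fintype_fun_eq_card, hcard] at hd
      omega
    | dec t k D hD hirr h =>
      rcases hirr with hirr | hk
      · exact hdec t k D hD hirr h
      · exfalso
        rw [hcard] at hk; omega
    | pair k D hD hs _ h =>
      exfalso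
      have hk := mdec_card hD
      rw [hcard] at hk; omega
    | fld r K hr hK h ha hc hirr =>
      have hcK : r ∣ Fintype.card (Unit ⊕ (Fin m ⊕ Fin m)) := fld_dvd hK
      rcases hc with ⟨_, hs | ⟨hr2, _⟩⟩ | ⟨hc, _⟩
      · by_cases hrn : 2 * m + 1 = r
        · exfalso
          rw [← hcard] at hrn
          rw [← hrn] at hK
          exact fld_full h2 hf hcodd (by rw [hcard]; omega) hI hirr hK h hs
        · exact ⟨_, Or.inr (Or.inr (Or.inr (Or.inr (Or.inl ⟨r, K, hr, hrn, hK, hs, rfl⟩)))), le_inf h hH⟩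
      · exfalso
        rw [hr2, hcard] at hcK
        omega
      · exact absurd rfl hc
    | tp n₁ n₂ b ε₁ ε₂ f₁ f₂ h1 h12 hf₁ hf₂ hε _ hform hirr hkr =>
      have hcn : Fintype.card (Unit ⊕ (Fin m ⊕ Fin m)) = n₁ * n₂ := by
        have := Module.finrank_eq_card_basis b
        rw [Module.finrank_fintype_fun_eq_card, Fintype.card_prod, Fintype.card_fin n₁, Fintype.card_fin n₂] at this
        exact this
      have hno : Odd (n₁ * n₂) := hcn ▸ hcodd
      have ho1 : Odd n₁ := (Nat.odd_mul.1 hno).1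
      have ho2 : Odd n₂ := (Nat.odd_mul.1 hno).2
      have he1 : ε₁ = 1 := by
        rcases hf₁.eps with h | h
        · exact h
        · exfalso
          rw [h] at hf₁
          haveI : Nonempty (Fin n₁) := ⟨⟨0, by omega⟩⟩
          have h3 := not_symp_odd h2 hf₁
          rw [Fintype.card_fin] at h3
          exact (Nat.not_even_iff_odd.2 ho1) h3
      rw [he1] at hf₁ hε
      rw [one_mul] at hε
      rw [hε] at hf₂
      have h13 : 3 ≤ n₁ := by obtain ⟨j, hj⟩ := ho1; omega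
      have h23 : 3 ≤ n₂ := by obtain ⟨j, hj⟩ := ho2; omega
      have hlt : ∀ (n₁ n₂ : ℕ) (b : Basis (Fin n₁ × Fin n₂) F (Unit ⊕ (Fin m ⊕ Fin m) → F))
          (f₁ : (Fin n₁ → F) → (Fin n₁ → F) → F) (f₂ : (Fin n₂ → F) → (Fin n₂ → F) → F)
          (h1 : 3 ≤ n₁) (h2 : n₁ < n₂) (hf₁ : FD (RingEquiv.refl F) 1 f₁) (hf₂ : FD (RingEquiv.refl F) 1 f₂)
          (hcn : Fintype.card (Unit ⊕ (Fin m ⊕ Fin m)) = n₁ * n₂)
          (hform : ∀ i l j l', f (b (i, l)) (b (j, l')) = gramMatrix f₁ i j * gramMatrix f₂ l l')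
          (hkr : ∀ h ∈ H, ∃ (A : (Matrix (Fin n₁) (Fin n₁) F)ˣ) (N : (Matrix (Fin n₂) (Fin n₂) F)ˣ),
            KA b (h : Matrix (Unit ⊕ (Fin m ⊕ Fin m)) (Unit ⊕ (Fin m ⊕ Fin m)) F) A.1 N.1), ∃ M, InOrthogonalOddClass m F M ∧ H ≤ M := by
        intro n₁ n₂ b f₁ f₂ h1 h2 hf₁ hf₂ hcn hform hkr
        have e : (Unit ⊕ (Fin m ⊕ Fin m)) ≃ Fin n₁ × Fin n₂ := Fintype.equivOfCardEq (by
          rw [hcn, Fintype.card_prod, Fintype.card_fin, Fintype.card_fin])
        obtain ⟨P, hP⟩ := exists_P (b.reindex e.symm)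
        refine ⟨_, Or.inr (Or.inr (Or.inr (Or.inr (Or.inr (Or.inl ⟨n₁, n₂, e, P, f₁, f₂, h1, h2, symm_of_fd hf₁, symm_of_fd hf₂,
          tensor_structure hf b hform e P hP, rfl⟩))))), le_inf ?_ hH⟩
        exact le_tensorProduct_P b H hkr e P hP
      rcases lt_trichotomy n₁ n₂ with hl | heq | hl
      · exact hlt n₁ n₂ b f₁ f₂ h13 hl hf₁ hf₂ hcn hform hkr
      · subst heq
        obtain ⟨b', c, hc, hb', hPT⟩ := tp_equal_sym h2 hf ho1 b hf₁ hf₂ hform hkr
        have hTW : ∀ h ∈ H, TW b' (h : Matrix (Unit ⊕ (Fin m ⊕ Fin m)) (Unit ⊕ (Fin m ⊕ Fin m)) F) := by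
          intro h hh
          obtain ⟨Q, hQ⟩ := hPT h hh
          exact TW_of_PTr b' hQ
        by_cases hex : Fintype.card F = 3 ∧ n₁ = 3
        · obtain ⟨hq, h3⟩ := hex
          subst h3
          exact h33 2 b' c (by norm_num) hc hb' hTW hq
        · have e : (Unit ⊕ (Fin m ⊕ Fin m)) ≃ (Fin 2 → Fin n₁) := Fintype.equivOfCardEq (by
            rw [hcn, Fintype.card_fun, Fintype.card_fin, Fintype.card_fin]; ring)
          obtain ⟨P, hP⟩ := exists_P (b'.reindex e.symm)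
          obtain ⟨hg, hS⟩ := ortho_structure_c hf b' hc hb' e P hP
          refine ⟨_, Or.inr (Or.inr (Or.inr (Or.inr (Or.inr (Or.inr (Or.inr ⟨n₁, 2, e, P, _, h13, le_refl 2, hex, symm_of_fd hg, hS,
            rfl⟩)))))), le_inf ?_ hH⟩
          exact le_tensorWreath_P b' H hTW e P hP
      · refine hlt n₂ n₁ (b.reindex (Equiv.prodComm _ _)) f₂ f₁ h23 hl hf₂ hf₁ (by rw [hcn, mul_comm]) (form_swap b hform)
            (fun h hh => ?_)
        obtain ⟨A, N, hk⟩ := hkr h hh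
        exact ⟨N, A, KA_swap b hk⟩
    | sub F₀ r P ζ hr hc hζ hS h N hN halg hreal => exact hsub F₀ r P ζ hr hc hζ hS h
    | st r k z p e R hR hk hal hc hRH hrp hmf h =>
      exfalso
      have hIR := hI.mono hRH
      have hz2 : z ≤ 2 := by
        rw [← hR.center]
        have hinj : ∀ x : Subgroup.center R, ∃ s : Bool, (((x : R) : GL (Unit ⊕ (Fin m ⊕ Fin m)) F) : Matrix (Unit ⊕ (Fin m ⊕ Fin m)) (Unit ⊕ (Fin m ⊕ Fin m)) F) =
            (if s then (1 : F) else -1) • (1 : Matrix (Unit ⊕ (Fin m ⊕ Fin m)) (Unit ⊕ (Fin m ⊕ Fin m)) F) := by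
          intro x
          have h1 : (x : R) ∈ (scalars (Unit ⊕ (Fin m ⊕ Fin m)) F).subgroupOf R := by rw [← center_eq hal]; exact x.2
          rw [Subgroup.mem_subgroupOf, mem_scalars_iff] at h1
          obtain ⟨c, hc'⟩ := h1
          rcases scalar_pm hf (hIR _ (x : R).2) hc' with h | h
          · exact ⟨true, by rw [hc', h]; simp⟩
          · exact ⟨false, by rw [hc', h]; simp⟩
        choose s hs using hinj
        have h1 : Function.Injective s := by
          intro x y hxy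
          ext1; ext1; ext1
          rw [hs, hs, hxy]
        have h3 := Nat.card_le_card_of_injective s h1
        rwa [Nat.card_eq_fintype_card (α := Bool), Fintype.card_bool] at h3
      have hr2 : r = 2 := by
        rcases hR.hz with ⟨ho, hz⟩ | ⟨h1, hz⟩
        · have := hR.prime.two_le
          rw [hz] at hz2
          omega
        · exact h1
      have hd := hR.deg
      rw [hr2, hcard] at hd
      obtain ⟨j, rfl⟩ : ∃ j, k = j + 1 := ⟨k - 1, by omega⟩
      rw [pow_succ] at hd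
      omega
    | tw n' t e P b hP ε₁ f₁ hf₁ hε _ hm' ht c hc hform hS hTW N hNH hnrd halg hperf hPT h =>
      have hcn : Fintype.card (Unit ⊕ (Fin m ⊕ Fin m)) = n' ^ t := by
        have := Module.finrank_eq_card_basis b
        rw [Module.finrank_fintype_fun_eq_card, Fintype.card_fun, Fintype.card_fin n', Fintype.card_fin t] at this
        exact this
      have ho : Odd n' := by
        rw [hcn] at hcodd
        exact (Nat.odd_pow_iff (by omega)).1 hcodd
      have he1 : ε₁ = 1 := by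
        rcases hf₁.eps with h | h
        · exact h
        · exfalso
          rw [h] at hf₁
          haveI : Nonempty (Fin n') := ⟨⟨0, by omega⟩⟩
          have h3 := not_symp_odd h2 hf₁
          rw [Fintype.card_fin] at h3
          exact (Nat.not_even_iff_odd.2 ho) h3
      rw [he1] at hf₁
      have h3n : 3 ≤ n' := by obtain ⟨j, hj⟩ := ho; omega
      by_cases hex : Fintype.card F = 3 ∧ n' = 3
      · obtain ⟨hq, h3⟩ := hex
        subst h3
        obtain ⟨W, d, hd, hW⟩ := sym_similar ho hf₁ h2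
        obtain ⟨b', hb'⟩ := change_basis b W
        have hfb := form_change_c b hf hf₁ hform hW hb'
        refine h33 t b' _ (by omega) (mul_ne_zero hc (pow_ne_zero t hd)) hfb (fun h hh => ?_) hq
        obtain ⟨π, Q, hQ⟩ := hTW h hh
        exact ⟨π, _, TWr_change b hb' hQ⟩
      · exact ⟨_, Or.inr (Or.inr (Or.inr (Or.inr (Or.inr (Or.inr (Or.inr ⟨n', t, e, P, f₁, h3n, ht, hex, symm_of_fd hf₁, hS,
          rfl⟩)))))), le_inf h hH⟩
  · have hIN := hI.mono hcore.le
    right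
    exact ⟨N, ⟨hcore.le, hcore.normal, hcore.perfect, hcore.simple, hcore.nonabelian, hcore.centralizer_scalar,
      absIrred_of_alg hcore.alg, hreal⟩, no_unitary hf hcore.alg hIN hreal⟩

end CfsgLib.AschF
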