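import Mathlib
import Cfsg.Agent.LibAschSL6

/-! small field reductions for the maximal subgroups of SL_n(q): extension fields in SL_3(4) (helper26) -/
set_option autoImplicit false
set_option linter.unusedSectionVars false

namespace CfsgLib.AschSL7

section ring

variable {L : Type*} [CommRing L] [IsDomain L] (h2 : (2 : L) = 0)
include h2

theorem seven {θ : L} (h7 : θ ^ 7 = 1) (h1 : θ ≠ 1) : θ ^ 3 = θ + 1 ∨ θ ^ 3 = θ ^ 2 + 1 := by
  have : (θ - 1) * ((θ ^ 3 + θ + 1) * (θ ^ 3 + θ ^ 2 + 1)) = 0 := by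
    linear_combination h7 + (θ ^ 4 - θ ^ 3) * h2
  rcases mul_eq_zero.mp this with h | h
  · exact absurd (sub_eq_zero.mp h) h1
  · rcases mul_eq_zero.mp h with h | h
    · left; linear_combination h - (θ + 1) * h2
    · right; linear_combination h - (θ ^ 2 + 1) * h2

theorem roots1 {θ y : L} (h : θ ^ 3 = θ + 1) (hy : y ^ 3 = y + 1) : y = θ ∨ y = θ ^ 2 ∨ y = θ ^ 2 + θ := by
  have : (y - θ) * ((y - θ ^ 2) * (y - (θ ^ 2 + θ))) = 0 := by
    grind
  rcases mul_eq_zero.mp this with h | h
  · left; exact sub_eq_zero.mp h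
  · rcases mul_eq_zero.mp h with h | h
    · right; left; exact sub_eq_zero.mp h
    · right; right; exact sub_eq_zero.mp h

theorem roots2 {θ y : L} (h : θ ^ 3 = θ ^ 2 + 1) (hy : y ^ 3 = y ^ 2 + 1) : y = θ ∨ y = θ ^ 2 ∨ y = θ ^ 2 + θ + 1 := by
  have : (y - θ) * ((y - θ ^ 2) * (y - (θ ^ 2 + θ + 1))) = 0 := by
    grind
  rcases mul_eq_zero.mp this with h | h
  · left; exact sub_eq_zero.mp h
  · rcases mul_eq_zero.mp h with h | h
    · right; left; exact sub_eq_zero.mp h
    · right; right; exact sub_eq_zero.mp h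

/-- images of an element of order seven under automorphisms -/
theorem roots {θ y : L} (h7 : θ ^ 7 = 1) (h1 : θ ≠ 1) (hy3 : y ^ 3 = y + 1 ↔ θ ^ 3 = θ + 1) (hy3' : y ^ 3 = y ^ 2 + 1 ↔ θ ^ 3 = θ ^ 2 + 1) :
    ∃ a b c : ℕ, y = (a : L) + (b : L) * θ + (c : L) * θ ^ 2 := by
  rcases seven h2 h7 h1 with h | h
  · rcases roots1 h2 h (hy3.mpr h) with e | e | e
    · exact ⟨0, 1, 0, by rw [e]; simp⟩
    · exact ⟨0, 0, 1, by rw [e]; simp⟩
    · exact ⟨0, 1, 1, by rw [e]; push_cast; ring⟩
  · rcases roots2 h2 h (hy3'.mpr h) with e | e | e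
    · exact ⟨0, 1, 0, by rw [e]; simp⟩
    · exact ⟨0, 0, 1, by rw [e]; simp⟩
    · exact ⟨1, 1, 1, by rw [e]; push_cast; ring⟩

/-- the span over the prime field is a ring -/
theorem nat_mul {θ : L} (h7 : θ ^ 7 = 1) (h1 : θ ≠ 1) {y z : L} (hy : ∃ a b c : ℕ, y = (a : L) + (b : L) * θ + (c : L) * θ ^ 2)
    (hz : ∃ a b c : ℕ, z = (a : L) + (b : L) * θ + (c : L) * θ ^ 2) : ∃ a b c : ℕ, y * z = (a : L) + (b : L) * θ + (c : L) * θ ^ 2 := by
  obtain ⟨a, b, c, rfl⟩ := hy
  obtain ⟨d, e, f, rfl⟩ := hz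
  rcases seven h2 h7 h1 with h | h
  · refine ⟨a * d + (b * f + c * e), a * e + b * d + (b * f + c * e) + c * f, a * f + b * e + c * d + c * f, ?_⟩
    push_cast
    linear_combination ((b : L) * f + c * e + c * f * θ) * h
  · refine ⟨a * d + (b * f + c * e) + c * f, a * e + b * d + c * f, a * f + b * e + c * d + (b * f + c * e) + c * f, ?_⟩
    push_cast
    linear_combination ((b : L) * f + c * e + c * f * θ + c * f) * h

end ring

section alg

variable {F : Type*} [Field F] [Fintype F] (hF : Fintype.card F = 4)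
include hF

theorem f4 (x : F) : x = 0 ∨ x ^ 3 = 1 := by
  by_cases h : x = 0
  · exact Or.inl h
  · right
    have := FiniteField.pow_card_sub_one_eq_one x h
    rwa [hF] at this

theorem f4_two : (2 : F) = 0 := by
  obtain ⟨p, hchar, e, hp, hcard⟩ := FiniteField.card' F
  rw [hF] at hcard
  have h2 : p ∣ 4 := by rw [hcard]; exact dvd_pow_self p e.2.ne'
  have h3 : p ∣ 2 := hp.dvd_of_dvd_pow (show p ∣ 2 ^ 2 from h2)
  have h4 : p = 2 := (Nat.prime_dvd_prime_iff_eq hp Nat.prime_two).mp h3
  rw [h4] at hchar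
  have : ((2 : ℕ) : F) = 0 := CharP.cast_eq_zero F 2
  exact_mod_cast this

variable {L : Type*} [CommRing L] [IsDomain L] [Algebra F L]

theorem not_in {θ : L} (h7 : θ ^ 7 = 1) (h1 : θ ≠ 1) (c : F) : θ ≠ algebraMap F L c := by
  rintro rfl
  rcases f4 hF c with h | h
  · rw [h, map_zero] at h7; simp at h7
  · apply h1
    have : c ^ 7 = 1 := by
      apply (algebraMap F L).injective
      rw [map_pow, h7, map_one]
    have h3 : c = 1 := by
      have : c ^ 7 = (c ^ 3) ^ 2 * c := by ring
      rw [h, one_pow, one_mul] at this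
      rw [← this]; assumption
    rw [h3, map_one]

theorem indep {θ : L} (h7 : θ ^ 7 = 1) (h1 : θ ≠ 1) {a b c : F}
    (h : algebraMap F L a + algebraMap F L b * θ + algebraMap F L c * θ ^ 2 = 0) : a = 0 ∧ b = 0 ∧ c = 0 := by
  have h2F := f4_two hF
  have h2 : (2 : L) = 0 := by
    have := congrArg (algebraMap F L) h2F
    rwa [map_ofNat, map_zero] at this
  have hinj := (algebraMap F L).injective
  -- linear relations
  have hlin : ∀ a b : F, algebraMap F L a + algebraMap F L b * θ = 0 → a = 0 ∧ b = 0 := by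
    intro a b h
    by_cases hb : b = 0
    · rw [hb, map_zero, zero_mul, add_zero] at h
      exact ⟨(map_eq_zero_iff _ hinj).mp h, hb⟩
    · exfalso
      apply not_in hF h7 h1 (-a / b)
      have hb' : algebraMap F L b ≠ 0 := fun h' => hb ((map_eq_zero_iff _ hinj).mp h')
      apply mul_left_cancel₀ hb'
      rw [← map_mul, mul_div_cancel₀ _ hb, map_neg]
      linear_combination h
  by_cases hc : c = 0
  · rw [hc, map_zero, zero_mul, add_zero] at h
    obtain ⟨ha, hb⟩ := hlin a b h
    exact ⟨ha, hb, hc⟩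
  · exfalso
    have hc' : algebraMap F L c ≠ 0 := fun h' => hc ((map_eq_zero_iff _ hinj).mp h')
    -- θ² = A θ + B
    obtain ⟨A, hA⟩ : ∃ A : F, c * A = -b := ⟨-b / c, mul_div_cancel₀ _ hc⟩
    obtain ⟨B, hB⟩ : ∃ B : F, c * B = -a := ⟨-a / c, mul_div_cancel₀ _ hc⟩
    have hsq : θ ^ 2 = algebraMap F L A * θ + algebraMap F L B := by
      apply mul_left_cancel₀ hc'
      have e1 := congrArg (algebraMap F L) hA
      have e2 := congrArg (algebraMap F L) hB
      rw [map_mul, map_neg] at e1 e2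
      linear_combination h - θ * e1 - e2
    have hcu : θ ^ 3 = algebraMap F L (A ^ 2 + B) * θ + algebraMap F L (A * B) := by
      rw [map_add, map_pow, map_mul]
      linear_combination (θ + algebraMap F L A) * hsq
    rcases seven h2 h7 h1 with h3 | h3
    · have h4 := hlin (A * B - 1) (A ^ 2 + B - 1) (by
        rw [map_sub, map_sub, map_one]
        linear_combination h3 - hcu)
      have e1 : A * B = 1 := sub_eq_zero.mp h4.1
      have e2 : A ^ 2 + B = 1 := sub_eq_zero.mp h4.2
      rcases f4 hF A with h5 | h5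
      · rw [h5, zero_mul] at e1; exact zero_ne_one e1
      · have : A = 0 := by linear_combination -A * e2 + h5 + e1 + h2F
        rw [this, zero_mul] at e1
        exact zero_ne_one e1
    · have h4 := hlin (A * B - B - 1) (A ^ 2 + B - A) (by
        rw [map_sub, map_sub, map_sub, map_one]
        linear_combination h3 - hcu + hsq)
      have e1 : A * B = B + 1 := by linear_combination h4.1
      have e2 : A ^ 2 + B = A := sub_eq_zero.mp h4.2
      rcases f4 hF A with h5 | h5
      · rw [h5] at e1 e2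
        have : (1 : F) = 0 := by linear_combination -e1 - e2
        exact one_ne_zero this
      · have : A = 0 := by
          grind
        rw [this] at h5
        simp at h5

end alg

end CfsgLib.AschSL7
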