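import Mathlib
import Cfsg.Agent.LibAschSL7

/-! small field reductions for the maximal subgroups of SL_n(q): extension fields in SL_3(4), conclusion (helper26) -/
set_option autoImplicit false
set_option linter.unusedSectionVars false

namespace CfsgLib.AschSL8

open Module Cfsg Cfsg.Geo CfsgLib.Asch6 CfsgLib.Asch7 CfsgLib.Asch9 CfsgLib.Asch10 CfsgLib.Asch11 CfsgLib.AschSL7
open scoped Matrix MatrixGroups

variable {ι : Type} [Fintype ι] [DecidableEq ι] {F : Type*} [Field F]

theorem mat_ext' {κ : Type*} [Fintype κ] (b : Basis κ F (ι → F)) {M N : Matrix ι ι F} (h : ∀ x, M *ᵥ b x = N *ᵥ b x) : M = N := by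
  apply Matrix.toLin'.injective
  apply b.ext
  intro x
  rw [Matrix.toLin'_apply, Matrix.toLin'_apply, h]

section

variable [Fintype F] (hF : Fintype.card F = 4) (hι : Fintype.card ι = 3) {K : Subalgebra F (Matrix ι ι F)} (hK : IsFieldSubalgebra 3 K)

/-- the units of K inside GL -/
def Kx (K : Subalgebra F (Matrix ι ι F)) : Subgroup (GL ι F) where
  carrier := {g | (g : Matrix ι ι F) ∈ K ∧ ((g⁻¹ : GL ι F) : Matrix ι ι F) ∈ K}
  mul_mem' := fun {a b} ha hb => ⟨by rw [Units.val_mul]; exact K.mul_mem ha.1 hb.1, by rw [mul_inv_rev, Units.val_mul]; exact K.mul_mem hb.2 ha.2⟩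
  one_mem' := ⟨by rw [Units.val_one]; exact K.one_mem, by rw [inv_one, Units.val_one]; exact K.one_mem⟩
  inv_mem' := fun {a} ha => ⟨ha.2, by rw [inv_inv]; exact ha.1⟩

include hK in
theorem exists_unit {x : Matrix ι ι F} (hx : x ∈ K) (hne : x ≠ 0) : ∃ g ∈ Kx K, (g : Matrix ι ι F) = x := by
  obtain ⟨y, hy, hxy⟩ := hK.inv x hx hne
  have hyx : y * x = 1 := by rw [hK.comm y hy x hx, hxy]
  exact ⟨⟨x, y, hxy, hyx⟩, ⟨hx, hy⟩, rfl⟩

include hK hF in
theorem card_Kx [Nonempty ι] : Nat.card (Kx K) = 63 := by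
  classical
  have h1 : Nat.card K = 64 := by
    have h2 : Fintype K := Fintype.ofFinite K
    rw [Nat.card_eq_fintype_card, Module.card_eq_pow_finrank (K := F) (V := K), hK.finrank_eq, hF]; norm_num
  have hne : ∀ g : Kx K, (⟨((g : GL ι F) : Matrix ι ι F), g.2.1⟩ : K) ≠ 0 := by
    intro g h
    have h2 := congrArg (fun x : K => (x : Matrix ι ι F)) h
    have h3 : ((g : GL ι F) : Matrix ι ι F) = 0 := h2
    have h4 : ((g : GL ι F) : Matrix ι ι F) * (((g : GL ι F)⁻¹ : GL ι F) : Matrix ι ι F) = 1 := by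
      rw [← Units.val_mul, mul_inv_cancel, Units.val_one]
    rw [h3, zero_mul] at h4
    exact zero_ne_one h4
  let f : Kx K → {x : K // x ≠ 0} := fun g => ⟨_, hne g⟩
  have hf : Function.Bijective f := by
    constructor
    · intro g h hgh
      apply Subtype.ext
      apply Units.ext
      exact congrArg (fun x : {x : K // x ≠ 0} => ((x : K) : Matrix ι ι F)) hgh
    · intro x
      obtain ⟨g, hg, hgx⟩ := exists_unit hK x.1.2 (fun h => x.2 (Subtype.ext h))
      exact ⟨⟨g, hg⟩, Subtype.ext (Subtype.ext hgx)⟩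
  rw [Nat.card_congr (Equiv.ofBijective f hf)]
  have : Fintype K := Fintype.ofFinite K
  rw [Nat.card_eq_fintype_card, Fintype.card_subtype_compl, Fintype.card_subtype_eq, ← Nat.card_eq_fintype_card, h1]

/-- K as a commutative ring -/
@[reducible] def comRing (hK : IsFieldSubalgebra 3 K) : CommRing K :=
  { (inferInstance : Ring K) with mul_comm := fun x y => Subtype.ext (hK.comm x x.2 y y.2) }

theorem domain [Nonempty ι] (hK : IsFieldSubalgebra 3 K) : IsDomain K := by
  have : Nontrivial K := ⟨⟨0, 1, fun h => zero_ne_one (congrArg (fun x : K => (x : Matrix ι ι F)) h)⟩⟩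
  have : NoZeroDivisors K := ⟨fun {x y} h => by
    by_cases hx : x = 0
    · exact Or.inl hx
    · right
      obtain ⟨z, hz, hxz⟩ := hK.inv x x.2 (fun h => hx (Subtype.ext h))
      have hzx : z * (x : Matrix ι ι F) = 1 := by rw [hK.comm z hz x x.2, hxz]
      apply Subtype.ext
      have h2 : (x : Matrix ι ι F) * (y : Matrix ι ι F) = 0 := congrArg (fun x : K => (x : Matrix ι ι F)) h
      calc (y : Matrix ι ι F) = (z * (x : Matrix ι ι F)) * y := by rw [hzx, one_mul]
        _ = z * ((x : Matrix ι ι F) * y) := mul_assoc _ _ _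
        _ = 0 := by rw [h2, mul_zero]⟩
  exact NoZeroDivisors.to_isDomain K

/-- matrices with natural entries in a basis -/
def Rat (b : Basis (Fin 3) F (ι → F)) (M : Matrix ι ι F) : Prop :=
  ∃ N : Fin 3 → Fin 3 → ℕ, ∀ j, M *ᵥ b j = ∑ i, ((N i j : ℕ) : F) • b i

include hF in
theorem rat_mem (b : Basis (Fin 3) F (ι → F)) (e : ι ≃ Fin 3) {P : GL ι F} (hP : ∀ i j, (P : Matrix ι ι F) j i = (b.reindex e.symm) i j)
    {g : GL ι F} (h : Rat b (g : Matrix ι ι F)) : g ∈ subfieldSubgroup (⊥ : Subfield F) P ∧ (g : Matrix ι ι F).det = 1 := by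
  classical
  obtain ⟨N, hN⟩ := h
  have hc : CharP F 2 := (CharP.charP_iff_prime_eq_zero Nat.prime_two).mpr (by exact_mod_cast f4_two hF)
  have hcard : Nat.card (⊥ : Subfield F) = 2 := Subfield.card_bot F 2
  let R'' : Matrix ι ι (⊥ : Subfield F) := fun i j => ((N (e i) (e j) : ℕ) : (⊥ : Subfield F))
  let R' : Matrix ι ι F := (⊥ : Subfield F).subtype.mapMatrix R''
  have h1 := eq_conj (b.reindex e.symm) P hP (g : Matrix ι ι F) R' (by
    intro i
    rw [Basis.reindex_apply, Equiv.symm_symm, hN, ← Equiv.sum_comp e]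
    refine Finset.sum_congr rfl fun j _ => ?_
    rw [Basis.reindex_apply, Equiv.symm_symm]
    congr 1)
  have hPd : (P : Matrix ι ι F).det ≠ 0 := (Matrix.isUnits_det_units P).ne_zero
  have hd : (g : Matrix ι ι F).det = R'.det := by
    have h2 := congrArg Matrix.det h1
    rw [Matrix.det_mul, Matrix.det_mul, mul_comm] at h2
    exact mul_left_cancel₀ hPd h2
  have hd' : R'.det = (⊥ : Subfield F).subtype R''.det := (RingHom.map_det _ _).symm
  have hg0 : (g : Matrix ι ι F).det ≠ 0 := (Matrix.isUnits_det_units g).ne_zero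
  have hR0 : R''.det ≠ 0 := by
    intro h2
    rw [hd, hd', h2, map_zero] at hg0
    exact hg0 rfl
  have hR1 : R''.det = 1 := by
    have : Fintype (⊥ : Subfield F) := Fintype.ofFinite _
    have h3 := FiniteField.pow_card_sub_one_eq_one _ hR0
    rw [← Nat.card_eq_fintype_card, hcard, pow_one] at h3
    exact h3
  refine ⟨?_, by rw [hd, hd', hR1, map_one]⟩
  let X : GL ι (⊥ : Subfield F) := Matrix.GeneralLinearGroup.mkOfDetNeZero R'' hR0
  refine ⟨Matrix.GeneralLinearGroup.map (⊥ : Subfield F).subtype X, ?_, ?_⟩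
  · exact (le_sup_left : _ ≤ (Matrix.GeneralLinearGroup.map ((⊥ : Subfield F).subtype)).range ⊔ scalars ι F) ⟨X, rfl⟩
  · exact (eq_conj' P g _ h1).symm

include hF hι hK in
/-- extension fields of degree three in dimension three over the field of four elements -/
theorem field_four : ∃ (F₀ : Subfield F) (P : GL ι F), Fintype.card F = Nat.card F₀ ^ 2 ∧
    subalgebraNormalizer K ⊓ specialLinear ι F ≤ subfieldSubgroup F₀ P := by
  classical
  have hne : Nonempty ι := Fintype.card_pos_iff.mp (by omega)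
  have hc : CharP F 2 := (CharP.charP_iff_prime_eq_zero Nat.prime_two).mpr (by exact_mod_cast f4_two hF)
  have hcardb : Nat.card (⊥ : Subfield F) = 2 := Subfield.card_bot F 2
  let _ : CommRing K := comRing hK
  have _ : IsDomain K := domain hK
  have h2K : (2 : K) = 0 := by
    have h := congrArg (algebraMap F K) (f4_two hF)
    rwa [map_ofNat, map_zero] at h
  have hfin : Finite (Kx K) := Nat.finite_of_card_ne_zero (by rw [card_Kx hF hK]; norm_num)
  obtain ⟨t, ht⟩ := exists_prime_orderOf_dvd_card' (G := Kx K) 7 (hp := ⟨by norm_num⟩) (by rw [card_Kx hF hK]; norm_num)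
  have ht7 : (t : GL ι F) ^ 7 = 1 := by
    have := pow_orderOf_eq_one t
    rw [ht] at this
    exact congrArg Subtype.val this
  let θ : K := ⟨((t : GL ι F) : Matrix ι ι F), t.2.1⟩
  have hθ : (θ : Matrix ι ι F) = ((t : GL ι F) : Matrix ι ι F) := rfl
  have hθ7 : θ ^ 7 = 1 := by
    apply Subtype.ext
    change ((t : GL ι F) : Matrix ι ι F) ^ 7 = 1
    rw [← Units.val_pow_eq_pow_val, ht7, Units.val_one]
  have hθ1 : θ ≠ 1 := by
    intro h
    have : t = 1 := by
      apply Subtype.ext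
      apply Units.ext
      exact congrArg (fun x : K => (x : Matrix ι ι F)) h
    rw [this, orderOf_one] at ht
    norm_num at ht
  obtain ⟨i₀⟩ := hne
  set v : ι → F := Pi.single i₀ 1 with hv
  have hv0 : v ≠ 0 := by
    intro h
    have := congrFun h i₀
    rw [hv] at this
    simp at this
  have hinj : ∀ x : K, (x : Matrix ι ι F) *ᵥ v = 0 → x = 0 := by
    intro x hx
    by_contra hne
    obtain ⟨y, hy, hxy⟩ := hK.inv x x.2 (fun h => hne (Subtype.ext h))
    apply hv0
    have hyx : y * (x : Matrix ι ι F) = 1 := by rw [hK.comm y hy x x.2, hxy]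
    rw [← Matrix.one_mulVec v, ← hyx, ← Matrix.mulVec_mulVec, hx, Matrix.mulVec_zero]
  have hcomb : ∀ a b c : F, ((algebraMap F K a + algebraMap F K b * θ + algebraMap F K c * θ ^ 2 : K) : Matrix ι ι F) *ᵥ v =
      a • v + b • ((θ : Matrix ι ι F) *ᵥ v) + c • (((θ ^ 2 : K) : Matrix ι ι F) *ᵥ v) := by
    intro a b c
    have h1 : ((algebraMap F K a + algebraMap F K b * θ + algebraMap F K c * θ ^ 2 : K) : Matrix ι ι F) =
        a • (1 : Matrix ι ι F) + b • (θ : Matrix ι ι F) + c • ((θ ^ 2 : K) : Matrix ι ι F) := by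
      rw [Algebra.algebraMap_eq_smul_one, Algebra.algebraMap_eq_smul_one, Algebra.algebraMap_eq_smul_one, smul_mul_assoc, smul_mul_assoc,
        one_mul, one_mul]
      rfl
    rw [h1, Matrix.add_mulVec, Matrix.add_mulVec, Matrix.smul_mulVec, Matrix.smul_mulVec, Matrix.smul_mulVec, Matrix.one_mulVec]
  let w : Fin 3 → (ι → F) := ![v, (θ : Matrix ι ι F) *ᵥ v, ((θ ^ 2 : K) : Matrix ι ι F) *ᵥ v]
  have hli : LinearIndependent F w := by
    rw [Fintype.linearIndependent_iff]
    intro g hg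
    rw [Fin.sum_univ_three] at hg
    have h1 := hcomb (g 0) (g 1) (g 2)
    have h3 := hinj _ (h1.trans hg)
    obtain ⟨a, b, c⟩ := indep hF hθ7 hθ1 h3
    intro i
    fin_cases i
    · exact a
    · exact b
    · exact c
  let b : Basis (Fin 3) F (ι → F) := basisOfLinearIndependentOfCardEqFinrank hli (by
    rw [Fintype.card_fin, Module.finrank_fintype_fun_eq_card, hι])
  have hb : ∀ j, b j = w j := fun j => by simp [b]
  have hb0 : b 0 = v := hb 0
  have hb1 : b 1 = (θ : Matrix ι ι F) *ᵥ v := hb 1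
  have hb2 : b 2 = ((θ ^ 2 : K) : Matrix ι ι F) *ᵥ v := hb 2
  let NS : K → Prop := fun y => ∃ a b c : ℕ, y = (a : K) + (b : K) * θ + (c : K) * θ ^ 2
  have hNSv : ∀ y : K, NS y → ∃ n : Fin 3 → ℕ, (y : Matrix ι ι F) *ᵥ v = ∑ i, ((n i : ℕ) : F) • b i := by
    rintro y ⟨a, c, d, rfl⟩
    refine ⟨![a, c, d], ?_⟩
    have h1 := hcomb (a : F) (c : F) (d : F)
    rw [map_natCast, map_natCast, map_natCast] at h1
    rw [h1, Fin.sum_univ_three, hb0, hb1, hb2]
    rfl
  have e : ι ≃ Fin 3 := Fintype.equivOfCardEq (by rw [hι, Fintype.card_fin])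
  obtain ⟨P, hP⟩ := exists_P (b.reindex e.symm)
  have hmem : ∀ g : GL ι F, Rat b (g : Matrix ι ι F) → g ∈ subfieldSubgroup (⊥ : Subfield F) P ∧ (g : Matrix ι ι F).det = 1 :=
    fun g hg => rat_mem hF b e hP hg
  have hratof : ∀ M : Matrix ι ι F, (∀ j, ∃ y : K, NS y ∧ M *ᵥ b j = (y : Matrix ι ι F) *ᵥ v) → Rat b M := by
    intro M hM
    choose y hy hMy using hM
    choose n hn using fun j => hNSv (y j) (hy j)
    exact ⟨fun i j => n j i, fun j => by rw [hMy, hn]⟩
  have hNSmul : ∀ y z : K, NS y → NS z → NS (y * z) := fun y z hy hz => nat_mul h2K hθ7 hθ1 hy hz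
  have hNS1 : NS 1 := ⟨1, 0, 0, by simp⟩
  have hNSθ : NS θ := ⟨0, 1, 0, by simp⟩
  -- θ is rational
  have hθmem : (t : GL ι F) ∈ subfieldSubgroup (⊥ : Subfield F) P := by
    refine (hmem _ (hratof _ fun j => ?_)).1
    fin_cases j
    · exact ⟨θ, hNSθ, by rw [← hθ]; change _ *ᵥ b 0 = _; rw [hb0]⟩
    · refine ⟨θ * θ, hNSmul _ _ hNSθ hNSθ, ?_⟩
      rw [← hθ]; change _ *ᵥ b 1 = _
      rw [hb1, Matrix.mulVec_mulVec]; rfl
    · refine ⟨θ * θ ^ 2, hNSmul _ _ hNSθ (by rw [sq]; exact hNSmul _ _ hNSθ hNSθ), ?_⟩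
      rw [← hθ]; change _ *ᵥ b 2 = _
      rw [hb2, Matrix.mulVec_mulVec]; rfl
  have hscal : scalars ι F ≤ subfieldSubgroup (⊥ : Subfield F) P := by
    intro g hg
    refine ⟨g, (le_sup_right : _ ≤ (Matrix.GeneralLinearGroup.map ((⊥ : Subfield F).subtype)).range ⊔ scalars ι F) hg, ?_⟩
    have := Subgroup.mem_center_iff.mp (scalars_le_center hg) P
    change P * g * P⁻¹ = g
    rw [this]; group
  have hdet1 : ∀ g : GL ι F, g ∈ specialLinear ι F ↔ (g : Matrix ι ι F).det = 1 := by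
    intro g
    rw [specialLinear, MonoidHom.mem_ker]
    constructor
    · intro h; exact congrArg (fun u : Fˣ => (u : F)) h
    · intro h; exact Units.ext h
  -- the elements of K of determinant one
  set D : Subgroup (GL ι F) := Kx K ⊓ specialLinear ι F with hD
  have hDcard : Nat.card D = 21 := by
    have hn : Nonempty ι := ⟨i₀⟩
    let f : Kx K →* Fˣ := Matrix.GeneralLinearGroup.det.comp (Kx K).subtype
    have h1 : Nat.card f.ker = Nat.card D := by
      refine Nat.card_congr ⟨fun x => ⟨x.1, x.1.2, x.2⟩, fun x => ⟨⟨x.1, x.2.1⟩, x.2.2⟩, fun x => rfl, fun x => rfl⟩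
    have h2 : Nat.card f.ker * Nat.card f.range = 63 := by
      rw [← card_Kx hF hK]
      exact f.ker.card_eq_card_quotient_mul_card_subgroup.symm ▸ by
        rw [Nat.card_congr (QuotientGroup.quotientKerEquivRange f).toEquiv, mul_comm]
    have h3 : Nat.card Fˣ = 3 := by rw [Nat.card_eq_fintype_card, Fintype.card_units, hF]
    have h5 : Nat.card f.range ∣ 3 := h3 ▸ Subgroup.card_subgroup_dvd_card f.range
    rcases (Nat.dvd_prime Nat.prime_three).mp h5 with h6 | h6
    · exfalso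
      have h7 : ∀ x : Kx K, ((x : GL ι F) : Matrix ι ι F).det = 1 := by
        intro x
        have h8 : f.range = ⊥ := Subgroup.card_eq_one.mp h6
        have h9 : f x ∈ f.range := ⟨x, rfl⟩
        rw [h8, Subgroup.mem_bot] at h9
        exact congrArg (fun u : Fˣ => (u : F)) h9
      have h8 : ∀ x : F, (Matrix.charpoly (θ : Matrix ι ι F)).eval x = 1 := by
        intro x
        rw [Matrix.eval_charpoly]
        have hx : (algebraMap F K x - θ : K) ≠ 0 := fun h => not_in hF hθ7 hθ1 x (sub_eq_zero.mp h).symm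
        obtain ⟨u, hu, hu'⟩ := exists_unit hK (algebraMap F K x - θ : K).2 (fun h => hx (Subtype.ext h))
        have h9 := h7 ⟨u, hu⟩
        change (u : Matrix ι ι F).det = 1 at h9
        rw [hu'] at h9
        exact h9
      have h9 : Matrix.charpoly (θ : Matrix ι ι F) - 1 = 0 := by
        apply Polynomial.eq_zero_of_natDegree_lt_card_of_eval_eq_zero' _ (Finset.univ : Finset F)
        · intro x _
          rw [Polynomial.eval_sub, h8, Polynomial.eval_one, sub_self]
        · rw [Finset.card_univ, hF]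
          refine lt_of_le_of_lt (Polynomial.natDegree_sub_le _ _) ?_
          rw [Matrix.charpoly_natDegree_eq_dim, hι, Polynomial.natDegree_one]
          norm_num
      have h10 := Matrix.charpoly_natDegree_eq_dim (θ : Matrix ι ι F)
      rw [sub_eq_zero.mp h9, Polynomial.natDegree_one, hι] at h10
      omega
    · rw [h6] at h2
      omega
  have hcomp : ∀ x : F, x ≠ 0 → x ^ 3 = 1 := fun x hx => (f4 hF x).resolve_left hx
  have hscalD : scalars ι F ≤ D := by
    intro g hg
    obtain ⟨c, hc'⟩ := (mem_scalars_iff g).mp hg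
    obtain ⟨c₂, hc₂⟩ := (mem_scalars_iff g⁻¹).mp ((scalars ι F).inv_mem hg)
    refine ⟨⟨?_, ?_⟩, (hdet1 g).mpr ?_⟩
    · rw [hc']; exact K.smul_mem K.one_mem _
    · rw [hc₂]; exact K.smul_mem K.one_mem _
    · rw [hc', Matrix.det_smul, hι, Matrix.det_one, mul_one]; exact hcomp _ c.ne_zero
  have htD : (t : GL ι F) ∈ D := by
    refine ⟨t.2, (hdet1 _).mpr ?_⟩
    have h1 : ((t : GL ι F) : Matrix ι ι F).det ^ 7 = 1 := by
      rw [← Matrix.det_pow, ← Units.val_pow_eq_pow_val, ht7, Units.val_one, Matrix.det_one]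
    have h3 := hcomp _ (Matrix.isUnits_det_units (t : GL ι F)).ne_zero
    calc ((t : GL ι F) : Matrix ι ι F).det = ((t : GL ι F) : Matrix ι ι F).det ^ 7 * (((t : GL ι F) : Matrix ι ι F).det ^ 3)⁻¹ ^ 2 := by
          have h0 := (Matrix.isUnits_det_units (t : GL ι F)).ne_zero
          rw [h3, inv_one, one_pow, mul_one]
          calc _ = 1 ^ 2 * ((t : GL ι F) : Matrix ι ι F).det := by ring
            _ = (((t : GL ι F) : Matrix ι ι F).det ^ 3) ^ 2 * ((t : GL ι F) : Matrix ι ι F).det := by rw [h3]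
            _ = _ := by ring
      _ = 1 := by rw [h1, h3]; simp
  have hDfin : Finite D := Nat.finite_of_card_ne_zero (by rw [hDcard]; norm_num)
  have hsup : scalars ι F ⊔ Subgroup.zpowers (t : GL ι F) = D := by
    have hle : scalars ι F ⊔ Subgroup.zpowers (t : GL ι F) ≤ D := by
      rw [sup_le_iff, Subgroup.zpowers_le]
      exact ⟨hscalD, htD⟩
    apply Subgroup.eq_of_le_of_card_ge hle
    have d1 : 3 ∣ Nat.card (scalars ι F ⊔ Subgroup.zpowers (t : GL ι F) : Subgroup (GL ι F)) := by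
      have := Subgroup.card_dvd_of_le (le_sup_left : scalars ι F ≤ scalars ι F ⊔ Subgroup.zpowers (t : GL ι F))
      have hn : Nonempty ι := ⟨i₀⟩
      rwa [CfsgLib.AschSL6.card_scalars, hF] at this
    have d2 : 7 ∣ Nat.card (scalars ι F ⊔ Subgroup.zpowers (t : GL ι F) : Subgroup (GL ι F)) := by
      have := Subgroup.card_dvd_of_le (le_sup_right : Subgroup.zpowers (t : GL ι F) ≤ scalars ι F ⊔ Subgroup.zpowers (t : GL ι F))
      rw [Nat.card_zpowers, Subgroup.orderOf_coe, ht] at this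
      exact this
    have d3 : 21 ∣ Nat.card (scalars ι F ⊔ Subgroup.zpowers (t : GL ι F) : Subgroup (GL ι F)) :=
      Nat.Coprime.mul_dvd_of_dvd_of_dvd (by norm_num) d1 d2
    rw [hDcard]
    refine Nat.le_of_dvd ?_ d3
    have : Finite (scalars ι F ⊔ Subgroup.zpowers (t : GL ι F) : Subgroup (GL ι F)) := Finite.of_injective _ (Subgroup.inclusion_injective hle)
    exact Nat.card_pos
  have hDM : D ≤ subfieldSubgroup (⊥ : Subfield F) P := by
    rw [← hsup, sup_le_iff, Subgroup.zpowers_le]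
    exact ⟨hscal, hθmem⟩
  refine ⟨⊥, P, by rw [hcardb, hF]; norm_num, ?_⟩
  rintro g ⟨hgK, hgd⟩
  have hg1 := (hdet1 g).mp hgd
  -- the element m
  let m : K := algebraMap F K (b.repr ((g : Matrix ι ι F) *ᵥ v) 0) + algebraMap F K (b.repr ((g : Matrix ι ι F) *ᵥ v) 1) * θ +
    algebraMap F K (b.repr ((g : Matrix ι ι F) *ᵥ v) 2) * θ ^ 2
  have hm : (m : Matrix ι ι F) *ᵥ v = (g : Matrix ι ι F) *ᵥ v := by
    have h1 := hcomb (b.repr ((g : Matrix ι ι F) *ᵥ v) 0) (b.repr ((g : Matrix ι ι F) *ᵥ v) 1) (b.repr ((g : Matrix ι ι F) *ᵥ v) 2)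
    refine h1.trans ?_
    conv_rhs => rw [← b.sum_repr ((g : Matrix ι ι F) *ᵥ v)]
    rw [Fin.sum_univ_three, hb0, hb1, hb2]
  have hgi : ((g⁻¹ : GL ι F) : Matrix ι ι F) * (g : Matrix ι ι F) = 1 := by rw [← Units.val_mul, inv_mul_cancel, Units.val_one]
  have hm0 : m ≠ 0 := by
    intro h
    apply hv0
    rw [h] at hm
    have h1 : (g : Matrix ι ι F) *ᵥ v = 0 := by rw [← hm]; exact Matrix.zero_mulVec v
    rw [← Matrix.one_mulVec v, ← hgi, ← Matrix.mulVec_mulVec, h1, Matrix.mulVec_zero]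
  obtain ⟨u, hu, hu'⟩ := exists_unit hK m.2 (fun h => hm0 (Subtype.ext h))
  have hui : ((u⁻¹ : GL ι F) : Matrix ι ι F) * (u : Matrix ι ι F) = 1 := by rw [← Units.val_mul, inv_mul_cancel, Units.val_one]
  -- conjugation by g
  have hτ : ∀ x : K, ∃ y : K, (y : Matrix ι ι F) = (g : Matrix ι ι F) * x * ((g⁻¹ : GL ι F) : Matrix ι ι F) := fun x => ⟨⟨_, (hgK x).mp x.2⟩, rfl⟩
  choose τ hτ using hτ
  have hτinj : ∀ x y : K, τ x = τ y → x = y := by
    intro x y h
    apply Subtype.ext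
    have h1 := congrArg (fun z : K => ((g⁻¹ : GL ι F) : Matrix ι ι F) * (z : Matrix ι ι F) * (g : Matrix ι ι F)) h
    simp only [hτ] at h1
    have h2 : ∀ z : Matrix ι ι F, ((g⁻¹ : GL ι F) : Matrix ι ι F) * ((g : Matrix ι ι F) * z * ((g⁻¹ : GL ι F) : Matrix ι ι F)) * (g : Matrix ι ι F) = z := by
      intro z
      calc _ = (((g⁻¹ : GL ι F) : Matrix ι ι F) * (g : Matrix ι ι F)) * z * (((g⁻¹ : GL ι F) : Matrix ι ι F) * (g : Matrix ι ι F)) := by
            simp only [mul_assoc]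
        _ = z := by rw [hgi, one_mul, mul_one]
    rwa [h2, h2] at h1
  have hτmul : ∀ x y : K, τ (x * y) = τ x * τ y := by
    intro x y
    apply Subtype.ext
    change ((τ (x * y) : K) : Matrix ι ι F) = (τ x : Matrix ι ι F) * (τ y : Matrix ι ι F)
    rw [hτ, hτ, hτ]
    change (g : Matrix ι ι F) * ((x : Matrix ι ι F) * (y : Matrix ι ι F)) * ((g⁻¹ : GL ι F) : Matrix ι ι F) = _
    calc (g : Matrix ι ι F) * ((x : Matrix ι ι F) * (y : Matrix ι ι F)) * ((g⁻¹ : GL ι F) : Matrix ι ι F)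
        = (g : Matrix ι ι F) * (x : Matrix ι ι F) * 1 * (y : Matrix ι ι F) * ((g⁻¹ : GL ι F) : Matrix ι ι F) := by noncomm_ring
      _ = _ := by rw [← hgi]; noncomm_ring
  have hτadd : ∀ x y : K, τ (x + y) = τ x + τ y := by
    intro x y
    apply Subtype.ext
    change ((τ (x + y) : K) : Matrix ι ι F) = (τ x : Matrix ι ι F) + (τ y : Matrix ι ι F)
    rw [hτ, hτ, hτ]
    change (g : Matrix ι ι F) * ((x : Matrix ι ι F) + (y : Matrix ι ι F)) * ((g⁻¹ : GL ι F) : Matrix ι ι F) = _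
    noncomm_ring
  have hτone : τ 1 = 1 := by
    apply Subtype.ext
    rw [hτ]
    change (g : Matrix ι ι F) * 1 * ((g⁻¹ : GL ι F) : Matrix ι ι F) = 1
    rw [mul_one, ← Units.val_mul, mul_inv_cancel, Units.val_one]
  have hτpow : ∀ (x : K) (n : ℕ), τ (x ^ n) = τ x ^ n := by
    intro x n
    induction n with
    | zero => rw [pow_zero, pow_zero, hτone]
    | succ n ih => rw [pow_succ, pow_succ, hτmul, ih]
  have hNSτ : NS (τ θ) := by
    apply roots h2K hθ7 hθ1
    · constructor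
      · intro h
        apply hτinj
        rw [hτpow, hτadd, hτone]; exact h
      · intro h
        rw [← hτpow, h, hτadd, hτone]
    · constructor
      · intro h
        apply hτinj
        rw [hτpow, hτadd, hτpow, hτone]; exact h
      · intro h
        rw [← hτpow, h, hτadd, hτpow, hτone]
  have hσ : ∀ x : K, ((u⁻¹ * g : GL ι F) : Matrix ι ι F) *ᵥ ((x : Matrix ι ι F) *ᵥ v) = (τ x : Matrix ι ι F) *ᵥ v := by
    intro x
    have h1 : (g : Matrix ι ι F) * (x : Matrix ι ι F) = (τ x : Matrix ι ι F) * (g : Matrix ι ι F) := by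
      rw [hτ, mul_assoc, hgi, mul_one]
    have h2 : ((u⁻¹ : GL ι F) : Matrix ι ι F) * (τ x : Matrix ι ι F) * (u : Matrix ι ι F) = (τ x : Matrix ι ι F) := by
      have h3 : (τ x : Matrix ι ι F) * (u : Matrix ι ι F) = (u : Matrix ι ι F) * (τ x : Matrix ι ι F) := hK.comm _ (τ x).2 _ hu.1
      rw [mul_assoc, h3, ← mul_assoc, hui, one_mul]
    rw [Units.val_mul, ← Matrix.mulVec_mulVec, Matrix.mulVec_mulVec v (g : Matrix ι ι F), h1, ← Matrix.mulVec_mulVec v (τ x : Matrix ι ι F), ← hm, ← hu',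
      Matrix.mulVec_mulVec, Matrix.mulVec_mulVec, h2]
  have hrat : Rat b ((u⁻¹ * g : GL ι F) : Matrix ι ι F) := by
    apply hratof
    intro j
    fin_cases j
    · refine ⟨τ 1, by rw [hτone]; exact hNS1, ?_⟩
      rw [← hσ 1]; change _ *ᵥ b 0 = _
      rw [hb0]
      change _ = _ *ᵥ ((1 : Matrix ι ι F) *ᵥ v)
      rw [Matrix.one_mulVec]
    · refine ⟨τ θ, hNSτ, ?_⟩
      rw [← hσ θ]; change _ *ᵥ b 1 = _
      rw [hb1]
    · refine ⟨τ (θ ^ 2), by rw [hτpow, sq]; exact hNSmul _ _ hNSτ hNSτ, ?_⟩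
      rw [← hσ (θ ^ 2)]; change _ *ᵥ b 2 = _
      rw [hb2]
  obtain ⟨hσM, hσd⟩ := hmem _ hrat
  have hud : (u : Matrix ι ι F).det = 1 := by
    have h1 : (g : Matrix ι ι F) = (u : Matrix ι ι F) * ((u⁻¹ * g : GL ι F) : Matrix ι ι F) := by
      rw [← Units.val_mul, mul_inv_cancel_left]
    have h2 := congrArg Matrix.det h1
    rw [Matrix.det_mul, hσd, hg1, mul_one] at h2
    exact h2.symm
  have huM : u ∈ subfieldSubgroup (⊥ : Subfield F) P := hDM ⟨hu, (hdet1 u).mpr hud⟩
  have := (subfieldSubgroup (⊥ : Subfield F) P).mul_mem huM hσM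
  rwa [mul_inv_cancel_left] at this

end

end CfsgLib.AschSL8
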