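import Cfsg.Agent.EqBase
import Mathlib
import Cfsg.Agent.LibSteiner
import Cfsg.Agent.LibM24b
import Cfsg.Agent.LibM24e
import Cfsg.Agent.LibM24f

/-!
Automorphism groups of isomorphic set systems; residual designs of the octads.
-/

set_option autoImplicit false

namespace CfsgLib.AutD

open Cfsg CfsgLib.Golay CfsgLib.M24
open scoped Pointwise

section transfer

variable {α β : Type*} [DecidableEq α] [DecidableEq β]

theorem image_smul_finset (e : α ≃ β) (g : Equiv.Perm α) (b : Finset α) :
    (g • b).image e = e.permCongr g • b.image e := by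
  rw [Finset.smul_finset_def, Finset.smul_finset_def, Finset.image_image, Finset.image_image]
  congr 1
  funext x
  simp [Equiv.permCongr_apply]

theorem mem_aut_iff {B : Set (Finset α)} {B' : Set (Finset β)} {e : α ≃ β}
    (he : (fun b => b.image e) '' B = B') (g : Equiv.Perm α) :
    g ∈ setSystemAut B ↔ e.permCongr g ∈ setSystemAut B' := by
  rw [MulAction.mem_stabilizer_iff, MulAction.mem_stabilizer_iff]
  have h1 : e.permCongr g • B' = (fun b => b.image e) '' (g • B) := by
    rw [← he, ← Set.image_smul, ← Set.image_smul, Set.image_image, Set.image_image]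
    apply Set.image_congr
    intro b _
    exact (image_smul_finset e g b).symm
  rw [h1, ← he]
  constructor
  · intro h; rw [h]
  · intro h
    exact (Set.image_injective.2 (Finset.image_injective e.injective)) h

theorem map_aut {B : Set (Finset α)} {B' : Set (Finset β)} {e : α ≃ β}
    (he : (fun b => b.image e) '' B = B') :
    (setSystemAut B).map (Equiv.permCongrHom e).toMonoidHom = setSystemAut B' := by
  ext g
  rw [Subgroup.mem_map]
  constructor
  · rintro ⟨h, hh, rfl⟩
    exact (mem_aut_iff he h).1 hh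
  · intro hg
    refine ⟨(Equiv.permCongrHom e).symm g, ?_, ?_⟩
    · rw [mem_aut_iff he]
      have : e.permCongr ((Equiv.permCongrHom e).symm g) = g := (Equiv.permCongrHom e).apply_symm_apply g
      rw [this]; exact hg
    · exact (Equiv.permCongrHom e).apply_symm_apply g

/-- automorphism groups of isomorphic set systems are isomorphic -/
theorem nonempty_equiv {B : Set (Finset α)} {B' : Set (Finset β)} (h : SetSystemIso B B') :
    Nonempty (setSystemAut B ≃* setSystemAut B') := by
  obtain ⟨e, he⟩ := h
  exact ⟨((setSystemAut B).equivMapOfInjective _ (Equiv.permCongrHom e).injective).trans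
    (MulEquiv.subgroupCongr (map_aut he))⟩

/-- multiple transitivity in explicit form -/
def Multi (S : Subgroup (Equiv.Perm α)) (n : ℕ) : Prop :=
  ∀ x y : Fin n ↪ α, ∃ g ∈ S, ∀ i, g (x i) = y i

theorem multi_iff {S : Subgroup (Equiv.Perm α)} {n : ℕ} :
    Multi S n ↔ MulAction.IsMultiplyPretransitive S α n := by
  constructor
  · intro h
    refine ⟨fun x y => ?_⟩
    obtain ⟨g, hg, hgx⟩ := h x y
    exact ⟨⟨g, hg⟩, by ext i; exact hgx i⟩
  · rintro ⟨h⟩ x y
    obtain ⟨g, hg⟩ := h x y
    exact ⟨g, g.2, fun i => by rw [← hg]; rfl⟩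

theorem multi_of_iso {B : Set (Finset α)} {B' : Set (Finset β)} (h : SetSystemIso B B') {n : ℕ}
    (h' : Multi (setSystemAut B') n) : Multi (setSystemAut B) n := by
  obtain ⟨e, he⟩ := h
  intro x y
  obtain ⟨g, hg, hgx⟩ := h' (x.trans e.toEmbedding) (y.trans e.toEmbedding)
  refine ⟨(Equiv.permCongrHom e).symm g, ?_, fun i => ?_⟩
  · rw [mem_aut_iff he]
    have : e.permCongr ((Equiv.permCongrHom e).symm g) = g := (Equiv.permCongrHom e).apply_symm_apply g
    rw [this]; exact hg
  · have h1 : (Equiv.permCongrHom e).symm g = e.symm.permCongr g := rfl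
    rw [h1, Equiv.permCongr_apply, Equiv.symm_symm]
    have := hgx i
    simp only [Function.Embedding.trans_apply, Equiv.coe_toEmbedding] at this
    rw [this, Equiv.symm_apply_apply]

/-- triviality of pointwise stabilisers of `n`-tuples, in explicit form -/
def Sharp (S : Subgroup (Equiv.Perm α)) (n : ℕ) : Prop :=
  ∀ x : Fin n ↪ α, ∀ g ∈ S, (∀ i, g (x i) = x i) → g = 1

theorem sharp_of_iso {B : Set (Finset α)} {B' : Set (Finset β)} (h : SetSystemIso B B') {n : ℕ}
    (h' : Sharp (setSystemAut B') n) : Sharp (setSystemAut B) n := by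
  obtain ⟨e, he⟩ := h
  intro x g hg hgx
  have h1 := h' (x.trans e.toEmbedding) (e.permCongr g) ((mem_aut_iff he g).1 hg) (fun i => by
    simp only [Function.Embedding.trans_apply, Equiv.coe_toEmbedding, Equiv.permCongr_apply,
      Equiv.symm_apply_apply, hgx])
  have h2 : (Equiv.permCongrHom e) g = (Equiv.permCongrHom e) 1 := by rw [map_one]; exact h1
  exact (Equiv.permCongrHom e).injective h2

theorem stabilizer_eq_bot {S : Subgroup (Equiv.Perm α)} {n : ℕ} (h : Sharp S n) (x : Fin n ↪ α) :
    MulAction.stabilizer S x = ⊥ := by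
  rw [eq_bot_iff]
  rintro ⟨g, hg⟩ hgx
  rw [MulAction.mem_stabilizer_iff] at hgx
  rw [Subgroup.mem_bot]
  apply Subtype.ext
  apply h x g hg
  intro i
  exact congrArg (fun z : Fin n ↪ α => z i) hgx

end transfer

theorem mem_aut_iff_forall {α : Type*} [Finite α] [DecidableEq α] {B : Set (Finset α)} {g : Equiv.Perm α} :
    g ∈ setSystemAut B ↔ ∀ b ∈ B, g • b ∈ B := by
  rw [MulAction.mem_stabilizer_iff]
  constructor
  · intro h b hb
    rw [← h]; exact Set.smul_mem_smul_set hb
  · intro h
    apply Set.eq_of_subset_of_ncard_le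
    · rintro _ ⟨s, hs, rfl⟩
      exact h s hs
    · rw [Set.ncard_smul_set]
    · exact Set.toFinite _

section residual

variable {α : Type*} [Fintype α] [DecidableEq α] {t k : ℕ} {B : Set (Finset α)}

/-- blocks through a set of points, with these points removed -/
def res (B : Set (Finset α)) (F : Finset α) : Set (Finset {a : α // a ∉ F}) :=
  {b' | ∃ b ∈ B, F ⊆ b ∧ b' = Finset.subtype (fun a => a ∉ F) b}

theorem res_steiner {F : Finset α} (hB : IsSteinerSystem (t + F.card) (k + F.card) B) :
    IsSteinerSystem t k (res B F) := by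
  constructor
  · rintro b' ⟨b, hb, hF, rfl⟩
    have h1 := hB.1 b hb
    rw [Finset.card_subtype]
    have h2 : Finset.filter (fun a => a ∉ F) b = b \ F := by
      ext x; simp
    rw [h2, Finset.card_sdiff_of_subset hF, h1]; omega
  · intro s hs
    have hd : Disjoint F (s.map (Function.Embedding.subtype _)) := by
      rw [Finset.disjoint_left]
      intro x hx hxs
      rw [Finset.mem_map] at hxs
      obtain ⟨y, _, hy⟩ := hxs
      rw [← hy] at hx
      exact y.2 hx
    obtain ⟨b, ⟨hb, hsb⟩, huniq⟩ := hB.2 (F ∪ s.map (Function.Embedding.subtype _)) (by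
      rw [Finset.card_union_of_disjoint hd, Finset.card_map, hs]; omega)
    refine ⟨Finset.subtype (fun a => a ∉ F) b,
      ⟨⟨b, hb, Finset.subset_union_left.trans hsb, rfl⟩, ?_⟩, ?_⟩
    · intro x hx
      rw [Finset.mem_subtype]
      apply hsb
      apply Finset.mem_union_right
      rw [Finset.mem_map]
      exact ⟨x, hx, rfl⟩
    · rintro c' ⟨⟨c, hc, hpc, rfl⟩, hsc⟩
      rw [huniq c ⟨hc, ?_⟩]
      intro x hx
      rw [Finset.mem_union, Finset.mem_map] at hx
      rcases hx with hx | ⟨y, hy, rfl⟩
      · exact hpc hx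
      · have := hsc hy
        rw [Finset.mem_subtype] at this
        exact this

/-- the block of `B` coming from a block of the residual design -/
theorem mem_res_iff {F : Finset α} {b' : Finset {a : α // a ∉ F}} :
    b' ∈ res B F ↔ F ∪ b'.map (Function.Embedding.subtype _) ∈ B := by
  constructor
  · rintro ⟨b, hb, hF, rfl⟩
    have : F ∪ (Finset.subtype (fun a => a ∉ F) b).map (Function.Embedding.subtype _) = b := by
      ext x
      rw [Finset.mem_union, Finset.subtype_map, Finset.mem_filter]
      constructor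
      · rintro (h | h)
        · exact hF h
        · exact h.1
      · intro h
        by_cases hx : x ∈ F
        · exact Or.inl hx
        · exact Or.inr ⟨h, hx⟩
    rw [this]; exact hb
  · intro h
    refine ⟨_, h, Finset.subset_union_left, ?_⟩
    ext x
    rw [Finset.mem_subtype, Finset.mem_union, Finset.mem_map]
    constructor
    · intro hx; exact Or.inr ⟨x, hx, rfl⟩
    · rintro (hx | ⟨y, hy, hyx⟩)
      · exact absurd hx x.2
      · have : y = x := Subtype.ext hyx
        rw [← this]; exact hy

theorem smul_union_map {F : Finset α} (σ : Equiv.Perm {a : α // a ∉ F}) (b' : Finset {a : α // a ∉ F}) :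
    Equiv.Perm.ofSubtype σ • (F ∪ b'.map (Function.Embedding.subtype _)) =
      F ∪ (σ • b').map (Function.Embedding.subtype _) := by
  ext x
  rw [← Finset.inv_smul_mem_iff, Finset.mem_union, Finset.mem_union, ← map_inv]
  by_cases hx : x ∈ F
  · have : (Equiv.Perm.ofSubtype σ⁻¹) • x = x := Equiv.Perm.ofSubtype_apply_of_not_mem _ (by simpa using hx)
    rw [this]
    simp [hx]
  · have h1 : (Equiv.Perm.ofSubtype σ⁻¹) • x = ((σ⁻¹ ⟨x, hx⟩ : {a : α // a ∉ F}) : α) :=
      Equiv.Perm.ofSubtype_apply_of_mem σ⁻¹ hx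
    rw [h1]
    have h2 : ((σ⁻¹ ⟨x, hx⟩ : {a : α // a ∉ F}) : α) ∉ F := (σ⁻¹ ⟨x, hx⟩).2
    simp only [h2, hx, false_or]
    constructor
    · intro h
      rw [Finset.mem_map] at h ⊢
      obtain ⟨y, hy, hyx⟩ := h
      have hy' : y = σ⁻¹ ⟨x, hx⟩ := Subtype.ext hyx
      rw [hy'] at hy
      refine ⟨⟨x, hx⟩, ?_, rfl⟩
      rw [← Finset.inv_smul_mem_iff]
      exact hy
    · intro h
      rw [Finset.mem_map] at h ⊢
      obtain ⟨y, hy, hyx⟩ := h
      have hy' : y = ⟨x, hx⟩ := Subtype.ext hyx
      rw [hy', ← Finset.inv_smul_mem_iff] at hy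
      exact ⟨_, hy, rfl⟩

theorem union_map_subtype {F b : Finset α} (h : F ⊆ b) :
    F ∪ (Finset.subtype (fun a => a ∉ F) b).map (Function.Embedding.subtype _) = b := by
  ext x
  rw [Finset.mem_union, Finset.subtype_map, Finset.mem_filter]
  constructor
  · rintro (h' | h')
    · exact h h'
    · exact h'.1
  · intro h'
    by_cases hx : x ∈ F
    · exact Or.inl hx
    · exact Or.inr ⟨h', hx⟩

theorem mem_aut_res_iff {F : Finset α} {σ : Equiv.Perm {a : α // a ∉ F}} :
    σ ∈ setSystemAut (res B F) ↔ ∀ b ∈ B, F ⊆ b → Equiv.Perm.ofSubtype σ • b ∈ B := by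
  rw [mem_aut_iff_forall]
  constructor
  · intro h b hb hF
    have h1 := h _ ⟨b, hb, hF, rfl⟩
    rw [mem_res_iff, ← smul_union_map, union_map_subtype hF] at h1
    exact h1
  · intro h b' hb'
    rw [mem_res_iff] at hb' ⊢
    rw [← smul_union_map]
    exact h _ hb' Finset.subset_union_left

end residual

/-! ### spanning octads -/

theorem golayCode_le_of_list (OB : List ℕ) (KB : List ℕ)
    (hK : (basis.all fun b => KB.any fun k => Nat.beq (xs OB k) b) = true)
    (N : Submodule (ZMod 2) (GolayPt → ZMod 2)) (h : ∀ m ∈ OB, word m ∈ N) : golayCode ≤ N := by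
  apply golayCode_le_of_basis
  have hxs : ∀ (l : List ℕ) (k : ℕ), (∀ b ∈ l, word b ∈ N) → word (xs l k) ∈ N := by
    intro l
    induction l with
    | nil => intro k _; rw [xs, word_zero]; exact Submodule.zero_mem _
    | cons b l ih =>
      intro k hl
      rw [xs_cons, word_xor]
      refine Submodule.add_mem _ ?_ (ih _ (fun j hj => hl j (List.mem_cons_of_mem _ hj)))
      rcases Nat.mod_two_eq_zero_or_one k with h | h
      · rw [h, zero_mul, word_zero]; exact Submodule.zero_mem _
      · rw [h, one_mul]; exact hl b List.mem_cons_self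
  intro b hb
  have h1 := List.all_eq_true.1 hK b hb
  rw [List.any_eq_true] at h1
  obtain ⟨k, _, hk⟩ := h1
  rw [← beq_iff.1 hk]
  exact hxs _ _ h

/-- a permutation carrying spanning octads to octads is in `M24` -/
theorem mem_M24_of_list (OB : List ℕ) (KB : List ℕ)
    (hK : (basis.all fun b => KB.any fun k => Nat.beq (xs OB k) b) = true)
    (g : Equiv.Perm GolayPt) (h : ∀ m ∈ OB, g • fset m ∈ supports (golayCode : Set (GolayPt → ZMod 2))) :
    g ∈ M24 := by
  rw [mem_M24_iff']
  have := golayCode_le_of_list OB KB hK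
    (golayCode.comap (LinearMap.funLeft (ZMod 2) (ZMod 2) (g⁻¹ : Equiv.Perm GolayPt))) (by
      intro m hm
      obtain ⟨w, hw, hw2⟩ := h m hm
      rw [← support_word, smul_support₂] at hw2
      have h3 := support₂_injective hw2
      change (fun p => word m (g⁻¹ p)) ∈ golayCode
      rw [← h3]; exact hw)
  intro w hw
  exact this hw

/-! ### the residual designs of the octads -/

/-- octads through the last point, spanning the code -/
def OB23 : List ℕ := [8414120, 9045270, 12717187, 8439632, 9701932, 10881097, 11055264, 8464984, 13721920, 14682450, 9835530, 11282452]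

/-- the basis in terms of `OB23` -/
def KB23 : List ℕ := [235, 3, 24, 192, 255, 33, 101, 270, 766, 1085, 2254, 213]

theorem KB23_ok : (basis.all fun b => KB23.any fun k => Nat.beq (xs OB23 k) b) = true := by decide +kernel

theorem OB23_ok : (OB23.all fun m => and (isCW m) (and (Nat.beq (pop m) 8) (m.testBit 23))) = true := by
  decide +kernel

/-- the point at infinity as a set -/
abbrev F1 : Finset GolayPt := {none}

theorem aut23_iff (σ : Equiv.Perm {a : GolayPt // a ∉ F1}) :
    σ ∈ setSystemAut (res octads F1) ↔ Equiv.Perm.ofSubtype σ ∈ M24 := by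
  rw [mem_aut_res_iff]
  constructor
  · intro h
    apply mem_M24_of_list OB23 KB23 KB23_ok
    intro m hm
    have h1 := List.all_eq_true.1 OB23_ok m hm
    rw [Bool.and_eq_true, Bool.and_eq_true, beq_iff] at h1
    refine (h (fset m) ⟨isCW_mem_supports h1.1, by rw [card_fset]; exact h1.2.1⟩ ?_).1
    rw [Finset.singleton_subset_iff, mem_fset]
    exact h1.2.2
  · intro h b hb _
    exact smul_mem_octads h hb

theorem ofSubtype_fix {F : Finset GolayPt} (σ : Equiv.Perm {a : GolayPt // a ∉ F}) {p : GolayPt} (hp : p ∈ F) :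
    Equiv.Perm.ofSubtype σ p = p := Equiv.Perm.ofSubtype_apply_of_not_mem _ (by simpa using hp)

/-- permutations fixing the points of `F` come from permutations of the others -/
theorem exists_ofSubtype {F : Finset GolayPt} {g : Equiv.Perm GolayPt} (hg : ∀ p ∈ F, g p = p) :
    ∃ σ : Equiv.Perm {a : GolayPt // a ∉ F}, Equiv.Perm.ofSubtype σ = g := by
  have h1 : ∀ p, g p ∉ F ↔ p ∉ F := by
    intro p
    constructor
    · intro h hp
      exact h (by rw [hg p hp]; exact hp)
    · intro h hgp
      apply h
      have h2 := hg _ hgp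
      have h3 : g p = p := g.injective h2
      rw [h3] at hgp; exact hgp
  exact ⟨Equiv.Perm.subtypePerm g h1, Equiv.Perm.ofSubtype_subtypePerm h1
    (fun p hp hpF => hp (hg p hpF))⟩

theorem map_aut23 : (setSystemAut (res octads F1)).map Equiv.Perm.ofSubtype = M24 ⊓ St none := by
  ext g
  rw [Subgroup.mem_map]
  constructor
  · rintro ⟨σ, hσ, rfl⟩
    exact ⟨(aut23_iff σ).1 hσ, ofSubtype_fix σ (Finset.mem_singleton_self _)⟩
  · rintro ⟨h1, h2⟩
    obtain ⟨σ, rfl⟩ := exists_ofSubtype (F := F1) (g := g) (by
      intro p hp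
      rw [Finset.mem_singleton] at hp
      subst hp; exact h2)
    exact ⟨σ, (aut23_iff σ).2 h1, rfl⟩

theorem card_sub {F : Finset GolayPt} {n : ℕ} (h : F.card + n = 24) : Fintype.card {a : GolayPt // a ∉ F} = n := by
  rw [Fintype.card_subtype_compl, card_pt, Fintype.card_coe]; omega

theorem steiner23 : IsSteinerSystem 4 7 (res octads F1) := by
  apply res_steiner
  exact octads_steiner

theorem multi23 : Multi (setSystemAut (res octads F1)) 4 := by
  intro x y
  have hcons : ∀ z : Fin 4 ↪ {a : GolayPt // a ∉ F1}, ∃ z' : Fin 5 ↪ GolayPt, z' 0 = none ∧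
      ∀ i : Fin 4, z' i.succ = z i := by
    intro z
    refine ⟨⟨Fin.cons none (fun i => (z i : GolayPt)), ?_⟩, rfl, fun i => rfl⟩
    rw [Fin.cons_injective_iff]
    refine ⟨?_, fun i j h => z.injective (Subtype.ext h)⟩
    rintro ⟨i, hi⟩
    have hi' : (z i : GolayPt) = none := hi
    exact (z i).2 (by rw [hi']; exact Finset.mem_singleton_self _)
  obtain ⟨x', hx0, hx⟩ := hcons x
  obtain ⟨y', hy0, hy⟩ := hcons y
  obtain ⟨g, hg, hgxy⟩ := five_trans x' y'
  obtain ⟨σ, rfl⟩ := exists_ofSubtype (F := F1) (g := g) (by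
    intro p hp
    rw [Finset.mem_singleton] at hp
    subst hp
    have := hgxy 0
    rw [hx0, hy0] at this; exact this)
  refine ⟨σ, (aut23_iff σ).2 hg, fun i => ?_⟩
  have := hgxy i.succ
  rw [hx, hy, Equiv.Perm.ofSubtype_apply_coe] at this
  exact Subtype.ext this

end CfsgLib.AutD
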