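import Cfsg.Statements.S0385
import Mathlib
import Cfsg.Agent.LibM24c

set_option autoImplicit false
open Cfsg

namespace Cfsg.Agent.S0385

/-- The 6-point intersections of octads with a fixed dodecad form a Steiner system S(5, 6, 12) on the dodecad. -/
theorem result (d : Finset Cfsg.GolayPt) (hd : d ∈ Cfsg.dodecads) : Cfsg.IsSteinerSystem 5 6 {h : Finset {p : Cfsg.GolayPt // p ∈ d} | ∃ o ∈ Cfsg.octads, (o ∩ d).card = 6 ∧ h = Finset.subtype (fun p => p ∈ d) o} := by
  constructor
  · rintro h ⟨o, ho, h6, rfl⟩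
    rw [Finset.card_subtype, Finset.filter_mem_eq_inter, h6]
  · intro s hs
    obtain ⟨o, ⟨ho, hso⟩, huniq⟩ := CfsgLib.M24.octads_steiner.2 (s.map (Function.Embedding.subtype _)) (by
      rw [Finset.card_map, hs])
    have h6 : (o ∩ d).card = 6 := by
      have h5 : 5 ≤ (o ∩ d).card := by
        rw [← hs, ← Finset.card_map (Function.Embedding.subtype fun p => p ∈ d)]
        apply Finset.card_le_card
        intro p hp
        rw [Finset.mem_inter]
        refine ⟨hso hp, ?_⟩
        rw [Finset.mem_map] at hp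
        obtain ⟨q, _, rfl⟩ := hp
        exact q.2
      rcases CfsgLib.M24.card_octad_inter_dodecad ho hd with h | h | h <;> omega
    refine ⟨Finset.subtype (fun p => p ∈ d) o, ⟨⟨o, ho, h6, rfl⟩, ?_⟩, ?_⟩
    · intro q hq
      rw [Finset.mem_subtype]
      apply hso
      rw [Finset.mem_map]
      exact ⟨q, hq, rfl⟩
    · rintro _ ⟨⟨o', ho', _, rfl⟩, hs'⟩
      rw [huniq o' ⟨ho', ?_⟩]
      intro p hp
      rw [Finset.mem_map] at hp
      obtain ⟨q, hq, rfl⟩ := hp
      have := hs' hq
      rw [Finset.mem_subtype] at this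
      exact this

end Cfsg.Agent.S0385
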