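import Cfsg.Agent.EqBase
import Mathlib
import Cfsg.Agent.LibUniqAll
import Cfsg.Agent.LibAutDesign
import Cfsg.Agent.S0385
import Cfsg.Agent.S0408
import Cfsg.Agent.S0411

/-!
The automorphism groups of the Steiner systems `S(5, 6, 12)` and `S(4, 5, 11)`.
-/

set_option autoImplicit false

namespace CfsgLib.Aut12

open Cfsg CfsgLib.Golay CfsgLib.M24 CfsgLib.Uniq CfsgLib.AutD
open scoped Pointwise

/-- a certificate that an automorphism fixing the points of `H` does not carry `x` to `y` -/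
structure Cert where
  /-- source -/
  x : ℕ
  /-- target -/
  y : ℕ
  /-- the other point -/
  z : ℕ
  /-- first block -/
  m1 : ℕ
  /-- second block -/
  m2 : ℕ
  /-- image of the first block -/
  c1 : ℕ
  /-- image of the second block -/
  c2 : ℕ

/-- check of a certificate -/
def certOK (V : List ℕ) (H t : ℕ) (c : Cert) : Bool :=
  and (memb c.m1 V) (and (memb c.m2 V) (and (memb c.c1 V) (and (memb c.c2 V)
    (and (Nat.beq (Nat.land c.m1 H) (Nat.land c.c1 H)) (and (Nat.beq (Nat.land c.m2 H) (Nat.land c.c2 H))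
    (and (Nat.beq (Nat.add (pop (Nat.land c.m1 H)) 1) t) (and (Nat.beq (Nat.add (pop (Nat.land c.m2 H)) 1) t)
    (and (c.m1.testBit c.x) (and (c.m2.testBit c.x) (and (c.m1.testBit c.z) (and (c.m2.testBit c.z)
    (and (not (H.testBit c.x)) (and (not (H.testBit c.z)) (and (not (Nat.beq c.x c.z))
    (and (c.c1.testBit c.y) (and (c.c2.testBit c.y) (and (not (H.testBit c.y))
    (Nat.beq (Nat.lor (Nat.land c.c1 c.c2) H) (Nat.lor H (2 ^ c.y))))))))))))))))))))

/-- the certificates cover all pairs of distinct points outside `H` -/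
def covers (v H : ℕ) (l : List Cert) : Bool :=
  (List.range v).all fun x => (List.range v).all fun y => or (H.testBit x) (or (H.testBit y)
    (or (Nat.beq x y) (l.any fun c => and (Nat.beq c.x x) (Nat.beq c.y y))))

section rigid

variable {α : Type*} [Fintype α] [DecidableEq α] {v t k : ℕ} {B : Set (Finset α)}

theorem smul_block_eq (hB : IsSteinerSystem t k B) {g : Equiv.Perm α} (hg : g ∈ setSystemAut B) {b c : Finset α}
    (hb : b ∈ B) (hc : c ∈ B) (h : t ≤ (g • b ∩ c).card) : g • b = c :=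
  CfsgLib.Steiner.eq_of_card_inter hB (mem_aut_iff_forall.1 hg b hb) hc h

theorem cert_spec (hv : v ≤ 24) (hB : IsSteinerSystem t k B) {V : List ℕ} {e : Fin v ≃ α}
    (hV : ∀ m ∈ V, m < 2 ^ v ∧ im e m ∈ B) {H : ℕ} {g : Equiv.Perm α} (hg : g ∈ setSystemAut B)
    (hH : ∀ i : Fin v, H.testBit i = true → g (e i) = e i) {c : Cert} (hc : certOK V H t c = true)
    (hx : c.x < v) (hy : c.y < v) (hz : c.z < v) : g (e ⟨c.x, hx⟩) ≠ e ⟨c.y, hy⟩ := by
  simp only [certOK, Bool.and_eq_true, memb_iff, beq_iff, Bool.not_eq_true'] at hc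
  obtain ⟨h1, h2, h3, h4, h5, h6, h7, h8, h9, h10, h11, h12, h13, h14, h15, h16, h17, h18, h19⟩ := hc
  intro hgx
  -- the images of the two blocks
  have key : ∀ m c' : ℕ, m ∈ V → c' ∈ V → Nat.land m H = Nat.land c' H → Nat.add (pop (Nat.land m H)) 1 = t →
      m.testBit c.x = true → c'.testBit c.y = true → g • im e m = im e c' := by
    intro m c' hm hc' hmc ht hmx hcy
    apply smul_block_eq hB hg (hV m hm).2 (hV c' hc').2
    have hsub : insert (e ⟨c.y, hy⟩) (im e (m &&& H)) ⊆ g • im e m ∩ im e c' := by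
      intro p hp
      rw [Finset.mem_insert] at hp
      rw [Finset.mem_inter, Finset.mem_smul_finset]
      rcases hp with rfl | hp
      · exact ⟨⟨e ⟨c.x, hx⟩, (mem_im e).2 hmx, hgx⟩, (mem_im e).2 hcy⟩
      · obtain ⟨i, rfl⟩ := e.surjective p
        rw [mem_im] at hp
        have hp' := hp
        rw [Nat.testBit_and, Bool.and_eq_true] at hp
        refine ⟨⟨e i, (mem_im e).2 hp.1, hH i hp.2⟩, (mem_im e).2 ?_⟩
        have hmc' : m &&& H = c' &&& H := hmc
        rw [hmc', Nat.testBit_and, Bool.and_eq_true] at hp'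
        exact hp'.1
    refine le_trans ?_ (Finset.card_le_card hsub)
    rw [Finset.card_insert_of_notMem, card_im, bc_eq_pop hv (lt_of_le_of_lt Nat.and_le_left (hV m hm).1)]
    · exact ht.ge
    · rw [mem_im, Nat.testBit_and, Bool.and_eq_true]
      rintro ⟨_, h⟩
      rw [h18] at h
      exact absurd h (by decide)
  have k1 := key c.m1 c.c1 h1 h3 h5 h7 h9 h16
  have k2 := key c.m2 c.c2 h2 h4 h6 h8 h10 h17
  -- the image of `z`
  obtain ⟨w, hw⟩ := e.surjective (g (e ⟨c.z, hz⟩))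
  have hw1 : c.c1.testBit w = true := by
    rw [← mem_im e, hw, ← k1, Finset.mem_smul_finset]
    exact ⟨_, (mem_im e).2 h11, rfl⟩
  have hw2 : c.c2.testBit w = true := by
    rw [← mem_im e, hw, ← k2, Finset.mem_smul_finset]
    exact ⟨_, (mem_im e).2 h12, rfl⟩
  have hw3 : H.testBit w = false := by
    rw [← Bool.not_eq_true]
    intro hHw
    have h20 := hH w hHw
    rw [hw] at h20
    have h21 := g.injective h20
    rw [h21] at hw
    have h22 := e.injective hw
    rw [h22] at hHw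
    rw [h14] at hHw
    exact absurd hHw (by decide)
  have hw4 : (w : ℕ) = c.y := by
    have h20 := congrArg (fun m => Nat.testBit m w) h19
    have e1 : (Nat.lor (Nat.land c.c1 c.c2) H).testBit w = ((c.c1.testBit w && c.c2.testBit w) || H.testBit w) := by
      have : Nat.lor (Nat.land c.c1 c.c2) H = (c.c1 &&& c.c2) ||| H := rfl
      rw [this, Nat.testBit_or, Nat.testBit_and]
    have e2 : (Nat.lor H (2 ^ c.y)).testBit w = (H.testBit w || decide (c.y = w)) := by
      have : Nat.lor H (2 ^ c.y) = H ||| 2 ^ c.y := rfl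
      rw [this, Nat.testBit_or, Nat.testBit_two_pow]
    simp only [e1, e2, hw1, hw2, hw3, Bool.and_self, Bool.or_false, Bool.false_or] at h20
    exact (of_decide_eq_true h20.symm).symm
  have hw5 : e w = e ⟨c.y, hy⟩ := by congr 1; exact Fin.ext hw4
  rw [hw5, ← hgx] at hw
  have h23 := e.injective (g.injective hw)
  rw [Fin.mk.injEq] at h23
  rw [h23, Nat.beq_refl] at h15
  exact absurd h15 (by decide)

/-- rigidity: an automorphism fixing the points of `F` is trivial -/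
theorem rigid (hv : v ≤ 24) (hB : IsSteinerSystem t k B) {V : List ℕ} {e : Fin v ≃ α}
    (hV : ∀ m ∈ V, m < 2 ^ v ∧ im e m ∈ B) {F H h : ℕ} (hHV : H ∈ V) (hFH : H = F ||| 2 ^ h)
    (hF : F < 2 ^ v) (hFt : t ≤ pop F)
    {l : List Cert} (hl : ∀ c ∈ l, certOK V H t c = true) (hlt : ∀ c ∈ l, c.x < v ∧ c.y < v ∧ c.z < v)
    (hcov : covers v H l = true) {g : Equiv.Perm α} (hg : g ∈ setSystemAut B)
    (hgF : ∀ i : Fin v, F.testBit i = true → g (e i) = e i) : g = 1 := by
  have hFsub : im e F ⊆ g • im e H ∩ im e H := by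
    intro p hp
    obtain ⟨i, rfl⟩ := e.surjective p
    rw [mem_im] at hp
    have hpH : H.testBit i = true := by rw [hFH, Nat.testBit_or, hp, Bool.true_or]
    rw [Finset.mem_inter, Finset.mem_smul_finset]
    exact ⟨⟨e i, (mem_im e).2 hpH, hgF i hp⟩, (mem_im e).2 hpH⟩
  have hgH : g • im e H = im e H := by
    apply smul_block_eq hB hg (hV H hHV).2 (hV H hHV).2
    refine le_trans ?_ (Finset.card_le_card hFsub)
    rw [card_im, bc_eq_pop hv hF]
    exact hFt
  have hH : ∀ i : Fin v, H.testBit i = true → g (e i) = e i := by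
    intro i hi
    by_cases hFi : F.testBit i = true
    · exact hgF i hFi
    · obtain ⟨j, hj⟩ := e.surjective (g (e i))
      have hjH : H.testBit j = true := by
        rw [← mem_im e, hj, ← hgH, Finset.mem_smul_finset]
        exact ⟨e i, (mem_im e).2 hi, rfl⟩
      have e1 : ∀ i : Fin v, H.testBit i = true → F.testBit i ≠ true → (i : ℕ) = h := by
        intro i hi hFi
        rw [hFH, Nat.testBit_or, Bool.or_eq_true, Nat.testBit_two_pow] at hi
        rcases hi with hi | hi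
        · exact absurd hi hFi
        · exact (of_decide_eq_true hi).symm
      by_cases hFj : F.testBit j = true
      · have h2 := hgF j hFj
        rw [hj] at h2
        exact g.injective h2
      · have : j = i := Fin.ext ((e1 j hjH hFj).trans (e1 i hi hFi).symm)
        rw [← hj, this]
  ext p
  rw [Equiv.Perm.one_apply]
  obtain ⟨x, rfl⟩ := e.surjective p
  obtain ⟨y, hy⟩ := e.surjective (g (e x))
  by_cases hx : H.testBit x = true
  · exact hH x hx
  by_cases hyH : H.testBit y = true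
  · have h2 := hH y hyH
    rw [hy] at h2
    have h3 := g.injective h2
    rw [h3]
  by_cases hxy : (x : ℕ) = y
  · rw [← hy]; congr 1; exact (Fin.ext hxy).symm
  exfalso
  rw [covers, List.all_eq_true] at hcov
  have h1 := hcov x (List.mem_range.2 x.2)
  rw [List.all_eq_true] at h1
  have h2 := h1 y (List.mem_range.2 y.2)
  rw [Bool.not_eq_true] at hx hyH
  rw [hx, hyH, Bool.false_or, Bool.false_or, Bool.or_eq_true, beq_iff, List.any_eq_true] at h2
  rcases h2 with h2 | ⟨c, hc, h2⟩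
  · exact hxy h2
  · rw [Bool.and_eq_true, beq_iff, beq_iff] at h2
    obtain ⟨l1, l2, l3⟩ := hlt c hc
    apply cert_spec hv hB hV hg hH (hl c hc) l1 l2 l3
    have e1 : (⟨c.x, l1⟩ : Fin v) = x := Fin.ext h2.1
    have e2 : (⟨c.y, l2⟩ : Fin v) = y := Fin.ext h2.2
    rw [e1, e2, hy]

end rigid

/-- bounds for the points of the certificates -/
def certsLt (v : ℕ) (l : List Cert) : Bool :=
  l.all fun c => and (Nat.blt c.x v) (and (Nat.blt c.y v) (Nat.blt c.z v))

theorem certsLt_spec {v : ℕ} {l : List Cert} (h : certsLt v l = true) :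
    ∀ c ∈ l, c.x < v ∧ c.y < v ∧ c.z < v := by
  intro c hc
  have := List.all_eq_true.1 h c hc
  simp only [Bool.and_eq_true, Nat.blt_eq] at this
  exact this

/-- the certificates for `S(5, 6, 12)` -/
def certs12 : List Cert := [⟨5, 6, 11, 2219, 2103, 459, 599⟩, ⟨5, 8, 11, 2219, 2103, 459, 1303⟩, ⟨5, 9, 11, 2219, 2103, 1675, 599⟩,
  ⟨5, 10, 11, 2219, 2103, 1675, 1303⟩, ⟨5, 11, 9, 691, 685, 2451, 2253⟩, ⟨6, 5, 8, 459, 469, 2219, 1205⟩,
  ⟨6, 8, 5, 231, 125, 903, 2333⟩, ⟨6, 9, 8, 459, 469, 1675, 2709⟩, ⟨6, 10, 8, 459, 469, 1675, 1205⟩,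
  ⟨6, 11, 8, 459, 469, 2219, 2709⟩, ⟨8, 5, 6, 459, 469, 2219, 1205⟩, ⟨8, 6, 11, 2451, 2333, 1235, 125⟩,
  ⟨8, 9, 6, 459, 469, 1675, 2709⟩, ⟨8, 10, 6, 459, 469, 1675, 1205⟩, ⟨8, 11, 6, 459, 469, 2219, 2709⟩,
  ⟨9, 5, 10, 1675, 1565, 2219, 125⟩, ⟨9, 6, 10, 1675, 1565, 459, 125⟩, ⟨9, 8, 10, 1675, 1565, 459, 2333⟩,
  ⟨9, 10, 5, 691, 685, 1235, 1421⟩, ⟨9, 11, 10, 1675, 1565, 2219, 2333⟩, ⟨10, 5, 9, 1675, 1565, 2219, 125⟩,
  ⟨10, 6, 9, 1675, 1565, 459, 125⟩, ⟨10, 8, 9, 1675, 1565, 459, 2333⟩, ⟨10, 9, 6, 1235, 1103, 691, 2575⟩,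
  ⟨10, 11, 9, 1675, 1565, 2219, 2333⟩, ⟨11, 5, 8, 2451, 2333, 691, 125⟩, ⟨11, 6, 5, 2219, 2103, 459, 599⟩,
  ⟨11, 8, 5, 2219, 2103, 459, 1303⟩, ⟨11, 9, 5, 2219, 2103, 1675, 599⟩, ⟨11, 10, 5, 2219, 2103, 1675, 1303⟩]

/-- the certificates for `S(4, 5, 11)` -/
def certs11 : List Cert := [⟨4, 5, 10, 1555, 1054, 803, 110⟩, ⟨4, 6, 10, 1555, 1054, 707, 110⟩, ⟨4, 7, 10, 1555, 1054, 707, 398⟩,
  ⟨4, 8, 10, 1555, 1054, 803, 398⟩, ⟨4, 10, 5, 569, 55, 1609, 1159⟩, ⟨5, 4, 8, 803, 812, 1555, 604⟩,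
  ⟨5, 6, 8, 803, 812, 707, 604⟩, ⟨5, 7, 8, 803, 812, 707, 1676⟩, ⟨5, 8, 6, 613, 110, 1797, 398⟩,
  ⟨5, 10, 8, 803, 812, 1555, 1676⟩, ⟨6, 4, 7, 707, 205, 1555, 285⟩, ⟨6, 5, 7, 707, 205, 803, 1069⟩,
  ⟨6, 7, 5, 613, 110, 661, 398⟩, ⟨6, 8, 7, 707, 205, 803, 285⟩, ⟨6, 10, 7, 707, 205, 1555, 1069⟩,
  ⟨7, 4, 6, 707, 205, 1555, 285⟩, ⟨7, 5, 6, 707, 205, 803, 1069⟩, ⟨7, 6, 8, 905, 398, 1609, 110⟩,
  ⟨7, 8, 6, 707, 205, 803, 285⟩, ⟨7, 10, 6, 707, 205, 1555, 1069⟩, ⟨8, 4, 5, 803, 812, 1555, 604⟩,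
  ⟨8, 5, 7, 905, 398, 569, 110⟩, ⟨8, 6, 5, 803, 812, 707, 604⟩, ⟨8, 7, 5, 803, 812, 707, 1676⟩,
  ⟨8, 10, 5, 803, 812, 1555, 1676⟩, ⟨10, 4, 6, 1609, 1606, 569, 790⟩, ⟨10, 5, 4, 1555, 1054, 803, 110⟩,
  ⟨10, 6, 4, 1555, 1054, 707, 110⟩, ⟨10, 7, 4, 1555, 1054, 707, 398⟩, ⟨10, 8, 4, 1555, 1054, 803, 398⟩]

theorem certs12_ok : (certs12.all fun c => certOK V12 159 5 c) = true := by decide +kernel
theorem certs12_lt : certsLt 12 certs12 = true := by decide +kernel
theorem certs12_cov : covers 12 159 certs12 = true := by decide +kernel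
theorem certs11_ok : (certs11.all fun c => certOK V11 527 4 c) = true := by decide +kernel
theorem certs11_lt : certsLt 11 certs11 = true := by decide +kernel
theorem certs11_cov : covers 11 527 certs11 = true := by decide +kernel

/-- an `S(5, 6, 12)` has a 5-tuple with trivial pointwise stabiliser -/
theorem rigid12 {α : Type*} [Fintype α] [DecidableEq α] (hα : Fintype.card α = 12) {B : Set (Finset α)}
    (hB : IsSteinerSystem 5 6 B) : ∃ x : Fin 5 ↪ α, ∀ g ∈ setSystemAut B, (∀ i, g (x i) = x i) → g = 1 := by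
  obtain ⟨e, he⟩ := exists12 hα hB
  have hV : ∀ m ∈ V12, m < 2 ^ 12 ∧ im e m ∈ B := by
    intro m hm
    constructor
    · revert m; decide +kernel
    · rw [he]; exact ⟨m, hm, rfl⟩
  refine ⟨⟨fun i => e ⟨i, by omega⟩, fun i j h => ?_⟩, fun g hg h => ?_⟩
  · have := e.injective h
    rw [Fin.mk.injEq] at this
    exact Fin.ext this
  · refine rigid (by norm_num) hB hV (F := 31) (H := 159) (h := 7) (by decide) (by decide) (by norm_num)
      (by decide) (fun c hc => List.all_eq_true.1 certs12_ok c hc) (certsLt_spec certs12_lt) certs12_cov hg ?_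
    intro i hi
    have hi5 : (i : ℕ) < 5 := by
      revert hi; revert i; decide
    exact h ⟨i, hi5⟩

/-- an `S(4, 5, 11)` has a 4-tuple with trivial pointwise stabiliser -/
theorem rigid11 {α : Type*} [Fintype α] [DecidableEq α] (hα : Fintype.card α = 11) {B : Set (Finset α)}
    (hB : IsSteinerSystem 4 5 B) : ∃ x : Fin 4 ↪ α, ∀ g ∈ setSystemAut B, (∀ i, g (x i) = x i) → g = 1 := by
  obtain ⟨e, he⟩ := exists11 hα hB
  have hV : ∀ m ∈ V11, m < 2 ^ 11 ∧ im e m ∈ B := by
    intro m hm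
    constructor
    · revert m; decide +kernel
    · rw [he]; exact ⟨m, hm, rfl⟩
  refine ⟨⟨fun i => e ⟨i, by omega⟩, fun i j h => ?_⟩, fun g hg h => ?_⟩
  · have := e.injective h
    rw [Fin.mk.injEq] at this
    exact Fin.ext this
  · refine rigid (by norm_num) hB hV (F := 15) (H := 527) (h := 9) (by decide) (by decide) (by norm_num)
      (by decide) (fun c hc => List.all_eq_true.1 certs11_ok c hc) (certsLt_spec certs11_lt) certs11_cov hg ?_
    intro i hi
    have hi5 : (i : ℕ) < 4 := by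
      revert hi; revert i; decide
    exact h ⟨i, hi5⟩

/-- a multiply transitive group of automorphisms of a rigid design is the full group -/
theorem aut_eq {α : Type*} [DecidableEq α] {B : Set (Finset α)} {G : Subgroup (Equiv.Perm α)} {n : ℕ}
    (hGB : G ≤ setSystemAut B) (hG : Multi G n)
    (hx : ∃ x : Fin n ↪ α, ∀ g ∈ setSystemAut B, (∀ i, g (x i) = x i) → g = 1) :
    setSystemAut B = G ∧ Sharp (setSystemAut B) n := by
  obtain ⟨x, hx⟩ := hx
  have h1 : ∀ y : Fin n ↪ α, ∀ g ∈ setSystemAut B, (∀ i, g (y i) = y i) → g = 1 := by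
    intro y g hg hgy
    obtain ⟨h, hh, hxy⟩ := hG x y
    have h2 := hx (h⁻¹ * g * h) (mul_mem (mul_mem (inv_mem (hGB hh)) hg) (hGB hh)) (fun i => by
      rw [Equiv.Perm.mul_apply, Equiv.Perm.mul_apply, hxy, hgy, Equiv.Perm.inv_eq_iff_eq, hxy])
    have h3 : g = h * (h⁻¹ * g * h) * h⁻¹ := by group
    rw [h3, h2]; group
  refine ⟨le_antisymm ?_ hGB, h1⟩
  intro g hg
  obtain ⟨h, hh, hxy⟩ := hG x (x.trans g.toEmbedding)
  have h2 := h1 x (h⁻¹ * g) (mul_mem (inv_mem (hGB hh)) hg) (fun i => by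
    rw [Equiv.Perm.mul_apply, Equiv.Perm.inv_eq_iff_eq, hxy]; rfl)
  have h3 : g = h := by
    have : h * (h⁻¹ * g) = g := by group
    rw [← this, h2, mul_one]
  rw [h3]; exact hh

/-! ### the hexads of a dodecad -/

/-- the hexads of a dodecad -/
def hex (d : Finset GolayPt) : Set (Finset {p : GolayPt // p ∈ d}) :=
  {h : Finset {p : GolayPt // p ∈ d} | ∃ o ∈ octads, (o ∩ d).card = 6 ∧ h = Finset.subtype (fun p => p ∈ d) o}

theorem hex_steiner {d : Finset GolayPt} (hd : d ∈ dodecads) : IsSteinerSystem 5 6 (hex d) :=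
  Cfsg.Agent.S0385.result d hd

theorem card_dod {d : Finset GolayPt} (hd : d ∈ dodecads) : Fintype.card {p : GolayPt // p ∈ d} = 12 := by
  rw [Fintype.card_coe]; exact hd.2

/-- restriction to a dodecad -/
def rhom (d : Finset GolayPt) : ↥(M24 ⊓ StS d) →* Equiv.Perm {p : GolayPt // p ∈ d} where
  toFun g := Equiv.Perm.subtypePerm (g : Equiv.Perm GolayPt) (fun p => mem_of_smul_eq g.2.2 p)
  map_one' := by ext p; rfl
  map_mul' g h := by ext p; rfl

theorem rhom_apply (d : Finset GolayPt) (g : ↥(M24 ⊓ StS d)) (p : {p : GolayPt // p ∈ d}) :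
    ((rhom d g p : {p : GolayPt // p ∈ d}) : GolayPt) = (g : Equiv.Perm GolayPt) p := rfl

theorem rhom_injective {d : Finset GolayPt} (hd : d ∈ dodecads) : Function.Injective (rhom d) := by
  rw [injective_iff_map_eq_one]
  intro g hg
  apply Subtype.ext
  obtain ⟨x, hx⟩ := exists_emb (s := d) (n := 5) (by rw [hd.2]; norm_num)
  apply eq_one_of_dodecad g.2.1 hd g.2.2 x hx
  intro i
  have := rhom_apply d g ⟨x i, hx i⟩
  rw [hg] at this
  exact this.symm

theorem range_le {d : Finset GolayPt} : (rhom d).range ≤ setSystemAut (hex d) := by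
  rintro _ ⟨g, rfl⟩
  rw [mem_aut_iff_forall]
  rintro _ ⟨o, ho, ho6, rfl⟩
  have hgd : (g : Equiv.Perm GolayPt) • d = d := g.2.2
  refine ⟨(g : Equiv.Perm GolayPt) • o, smul_mem_octads g.2.1 ho, ?_, ?_⟩
  · have : (g : Equiv.Perm GolayPt) • o ∩ d = (g : Equiv.Perm GolayPt) • (o ∩ d) := by
      rw [Finset.smul_finset_inter, hgd]
    rw [this, Finset.card_smul_finset, ho6]
  · ext p
    rw [Finset.mem_subtype, ← Finset.inv_smul_mem_iff, ← Finset.inv_smul_mem_iff, Finset.mem_subtype,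
      Equiv.Perm.smul_def, ← map_inv]
    rfl

theorem multi_range {d : Finset GolayPt} (hd : d ∈ dodecads) : Multi (rhom d).range 5 := by
  intro x y
  obtain ⟨g, hg, hgd, hxy⟩ := sharp_five hd (x.trans (Function.Embedding.subtype _))
    (y.trans (Function.Embedding.subtype _)) (fun i => (x i).2) (fun i => (y i).2)
  refine ⟨rhom d ⟨g, hg, hgd⟩, ⟨_, rfl⟩, fun i => ?_⟩
  apply Subtype.ext
  rw [rhom_apply]
  exact hxy i

theorem aut_hex {d : Finset GolayPt} (hd : d ∈ dodecads) :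
    setSystemAut (hex d) = (rhom d).range ∧ Sharp (setSystemAut (hex d)) 5 :=
  aut_eq range_le (multi_range hd) (rigid12 (card_dod hd) (hex_steiner hd))

/-- the automorphism group of an `S(5, 6, 12)` -/
theorem main12 {α : Type*} [Fintype α] [DecidableEq α] (hα : Fintype.card α = 12) {B : Set (Finset α)}
    (hB : IsSteinerSystem 5 6 B) :
    IsM12 (setSystemAut B) ∧ Multi (setSystemAut B) 5 ∧ Sharp (setSystemAut B) 5 := by
  have hiso : SetSystemIso B (hex (fset d0)) := Cfsg.Agent.S0408.result hα (card_dod d0_mem) hB (hex_steiner d0_mem)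
  obtain ⟨e⟩ := nonempty_equiv hiso
  obtain ⟨h1, h2⟩ := aut_hex d0_mem
  have e' : setSystemAut B ≃* ↥(M24 ⊓ StS (fset d0)) :=
    (e.trans (MulEquiv.subgroupCongr h1)).trans (MonoidHom.ofInjective (rhom_injective d0_mem)).symm
  have hs := simple_M12 d0_mem
  refine ⟨⟨e'.isSimpleGroup, ?_⟩, ?_, sharp_of_iso hiso h2⟩
  · rw [Nat.card_congr e'.toEquiv, card_M12 d0_mem]
  · apply multi_of_iso hiso
    rw [h1]
    exact multi_range d0_mem

/-! ### the residual design -/

/-- the points of the dodecad -/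
abbrev P12 : Type := {p : GolayPt // p ∈ fset d0}

/-- a point of the dodecad -/
def p0 : P12 := ⟨none, by decide⟩

/-- the other points -/
abbrev P11 : Type := {a : P12 // a ∉ ({p0} : Finset P12)}

/-- the residual design -/
abbrev D11 : Set (Finset P11) := res (hex (fset d0)) {p0}

theorem steiner11 : IsSteinerSystem 4 5 D11 := by
  apply res_steiner
  exact hex_steiner d0_mem

theorem card_D11 : Fintype.card P11 = 11 := by
  rw [Fintype.card_subtype_compl, card_dod d0_mem, Fintype.card_coe]; rfl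

theorem ofSubtype_fix' {α : Type*} [DecidableEq α] {F : Finset α} (σ : Equiv.Perm {a : α // a ∉ F}) {p : α}
    (hp : p ∈ F) : Equiv.Perm.ofSubtype σ p = p := Equiv.Perm.ofSubtype_apply_of_not_mem _ (by simpa using hp)

theorem exists_ofSubtype' {α : Type*} [DecidableEq α] {F : Finset α} {g : Equiv.Perm α} (hg : ∀ p ∈ F, g p = p) :
    ∃ σ : Equiv.Perm {a : α // a ∉ F}, Equiv.Perm.ofSubtype σ = g := by
  have h1 : ∀ p, g p ∉ F ↔ p ∉ F := by
    intro p
    constructor
    · intro h hp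
      exact h (by rw [hg p hp]; exact hp)
    · intro h hgp
      apply h
      have h2 := hg _ hgp
      have h3 : g p = p := g.injective h2
      rw [h3] at hgp; exact hgp
  exact ⟨Equiv.Perm.subtypePerm g h1, Equiv.Perm.ofSubtype_subtypePerm h1
    (fun p hp hpF => hp (hg p hpF))⟩

/-- the stabiliser of the point, acting on the others -/
def G11 : Subgroup (Equiv.Perm P11) :=
  (rhom (fset d0)).range.comap Equiv.Perm.ofSubtype

theorem G11_le : G11 ≤ setSystemAut D11 := by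
  intro σ hσ
  rw [mem_aut_res_iff]
  intro b hb _
  exact mem_aut_iff_forall.1 (range_le hσ) b hb

theorem multi_G11 : Multi G11 4 := by
  intro x y
  have hcons : ∀ z : Fin 4 ↪ P11, ∃ z' : Fin 5 ↪ P12, z' 0 = p0 ∧ ∀ i : Fin 4, z' i.succ = z i := by
    intro z
    refine ⟨⟨Fin.cons p0 (fun i => (z i : P12)), ?_⟩, rfl, fun i => rfl⟩
    rw [Fin.cons_injective_iff]
    refine ⟨?_, fun i j h => z.injective (Subtype.ext h)⟩
    rintro ⟨i, hi⟩
    have hi' : (z i : P12) = p0 := hi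
    exact (z i).2 (by rw [hi']; exact Finset.mem_singleton_self _)
  obtain ⟨x', hx0, hx⟩ := hcons x
  obtain ⟨y', hy0, hy⟩ := hcons y
  obtain ⟨g, hg, hgxy⟩ := multi_range d0_mem x' y'
  obtain ⟨σ, rfl⟩ := exists_ofSubtype' (F := ({p0} : Finset P12)) (g := g) (by
    intro p hp
    rw [Finset.mem_singleton] at hp
    subst hp
    have := hgxy 0
    rw [hx0, hy0] at this; exact this)
  refine ⟨σ, hg, fun i => ?_⟩
  have := hgxy i.succ
  rw [hx, hy, Equiv.Perm.ofSubtype_apply_coe] at this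
  exact Subtype.ext this

theorem map_G11 : G11.map Equiv.Perm.ofSubtype =
    ((M24 ⊓ StS (fset d0) ⊓ St none).subgroupOf (M24 ⊓ StS (fset d0))).map (rhom (fset d0)) := by
  ext g
  rw [Subgroup.mem_map, Subgroup.mem_map]
  constructor
  · rintro ⟨σ, ⟨h, hh⟩, rfl⟩
    refine ⟨h, ?_, hh⟩
    rw [Subgroup.mem_subgroupOf]
    refine ⟨h.2, ?_⟩
    have h1 : Equiv.Perm.ofSubtype σ p0 = p0 := ofSubtype_fix' σ (Finset.mem_singleton_self _)
    rw [← hh] at h1
    have h2 := congrArg Subtype.val h1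
    rw [rhom_apply] at h2
    exact h2
  · rintro ⟨h, hh, rfl⟩
    rw [Subgroup.mem_subgroupOf] at hh
    have h1 : rhom (fset d0) h p0 = p0 := by
      apply Subtype.ext
      rw [rhom_apply]
      exact hh.2
    obtain ⟨σ, hσ⟩ := exists_ofSubtype' (F := ({p0} : Finset P12))
      (g := rhom (fset d0) h) (by
      intro p hp
      rw [Finset.mem_singleton] at hp
      subst hp
      exact h1)
    exact ⟨σ, ⟨h, hσ.symm⟩, hσ⟩

/-- the automorphism group of an `S(4, 5, 11)` -/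
theorem main11 {α : Type*} [Fintype α] [DecidableEq α] (hα : Fintype.card α = 11) {B : Set (Finset α)}
    (hB : IsSteinerSystem 4 5 B) :
    IsM11 (setSystemAut B) ∧ Multi (setSystemAut B) 4 ∧ Sharp (setSystemAut B) 4 := by
  have hiso : SetSystemIso B D11 := Cfsg.Agent.S0411.result hα card_D11 hB steiner11
  obtain ⟨e⟩ := nonempty_equiv hiso
  obtain ⟨h1, h2⟩ := aut_eq G11_le multi_G11 (rigid11 card_D11 steiner11)
  have hle : M24 ⊓ StS (fset d0) ⊓ St none ≤ M24 ⊓ StS (fset d0) := inf_le_left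
  have e' : setSystemAut B ≃* ↥(M24 ⊓ StS (fset d0) ⊓ St none) :=
    (((e.trans (MulEquiv.subgroupCongr h1)).trans
      (G11.equivMapOfInjective _ Equiv.Perm.ofSubtype_injective)).trans (MulEquiv.subgroupCongr map_G11)).trans
      ((Subgroup.equivMapOfInjective _ _ (rhom_injective d0_mem)).symm.trans (Subgroup.subgroupOfEquivOfLe hle))
  have hn : (none : GolayPt) ∈ fset d0 := by decide
  have hs := simple_M11 d0_mem hn
  refine ⟨⟨e'.isSimpleGroup, ?_⟩, ?_, sharp_of_iso hiso h2⟩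
  · rw [Nat.card_congr e'.toEquiv, card_M11 d0_mem hn]
  · apply multi_of_iso hiso
    rw [h1]
    exact multi_G11

end CfsgLib.Aut12
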