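import Cfsg.Agent.EqBase
import Mathlib
import Cfsg.Agent.LibAutDesign
import Cfsg.Agent.S0362

/-!
Cosets of the binary code; the automorphism group of the `S(3, 6, 22)` of octads through two points.
-/

set_option autoImplicit false

namespace CfsgLib.AutD

open Cfsg CfsgLib.Golay CfsgLib.M24
open scoped Pointwise

/-! ### representatives of the cosets -/

/-- the upper twelve unit vectors -/
def CHK : List ℕ := [4096, 8192, 16384, 32768, 65536, 131072, 262144, 524288, 1048576, 2097152, 4194304, 8388608]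

theorem xs_CHK {j : ℕ} (hj : j < 4096) : xs CHK j = 4096 * j := by
  have key : ((List.range 4096).all fun j => Nat.beq (xs CHK j) (Nat.mul 4096 j)) = true := by decide +kernel
  exact beq_iff.1 (List.all_eq_true.1 key j (List.mem_range.2 hj))

theorem xs_mod (l : List ℕ) (k : ℕ) : xs l (k % 2 ^ l.length) = xs l k := by
  induction l generalizing k with
  | nil => rfl
  | cons b l ih =>
    rw [xs_cons, xs_cons, List.length_cons, pow_succ]
    have h1 : k % (2 ^ l.length * 2) % 2 = k % 2 := Nat.mod_mul_left_mod _ _ _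
    have h2 : k % (2 ^ l.length * 2) / 2 = k / 2 % 2 ^ l.length := by
      rw [mul_comm, Nat.mod_mul_right_div_self]
    rw [h1, h2, ih]

theorem kOf_mul (i : ℕ) : kOf (4096 * i) = 0 := by
  rw [kOf, ← xs_mod]
  have : 4096 * i % 2 ^ ([3753, 280, 3225, 1400, 3770, 3991, 3533, 2000, 1347, 101, 3683, 3621] : List ℕ).length = 0 :=
    Nat.mul_mod_right _ _
  rw [this]
  decide

theorem word_mem_iff {m : ℕ} (hm : m < 2 ^ 24) : word m ∈ golayCode ↔ isCW m = true := by
  constructor
  · intro h
    obtain ⟨k, hk, h⟩ := mem_golayCode.1 h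
    rw [word_injective hm (cw_lt k) h]
    exact isCW_of_supports k hk
  · exact isCW_spec

theorem mul_lt {j : ℕ} (hj : j < 4096) : 4096 * j < 2 ^ 24 := by norm_num; omega

theorem eq_zero_of_word_mul_mem {i : ℕ} (hi : i < 4096) (h : word (4096 * i) ∈ golayCode) : i = 0 := by
  rw [word_mem_iff (mul_lt hi), isCW, beq_iff, kOf_mul, cw_zero] at h
  omega

/-- every word is uniquely the sum of a codeword and a word supported by the last twelve coordinates -/
theorem decomp (w : GolayPt → ZMod 2) : ∃ k < 4096, ∃ j < 4096, w = word (cw k) + word (4096 * j) := by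
  have hinj : Function.Injective (fun p : Fin 4096 × Fin 4096 =>
      (word (cw p.1) + word (4096 * p.2) : GolayPt → ZMod 2)) := by
    rintro ⟨k, j⟩ ⟨k', j'⟩ h
    simp only [← word_xor] at h
    have h1 := word_injective (Nat.xor_lt_two_pow (cw_lt _) (mul_lt j.2))
      (Nat.xor_lt_two_pow (cw_lt _) (mul_lt j'.2)) h
    have h2 : cw (k ^^^ k' : ℕ) = 4096 * (j ^^^ j' : ℕ) := by
      rw [cw_xor]
      have h3 : 4096 * ((j : ℕ) ^^^ (j' : ℕ)) = (4096 * j) ^^^ (4096 * j') := by
        rw [← xs_CHK (Nat.xor_lt_two_pow (n := 12) j.2 j'.2), xs_xor, xs_CHK j.2, xs_CHK j'.2]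
      rw [h3]
      have h4 : (cw k ^^^ (4096 * (j : ℕ))) ^^^ ((4096 * (j : ℕ)) ^^^ cw k') =
          (cw k' ^^^ (4096 * (j' : ℕ))) ^^^ ((4096 * (j : ℕ)) ^^^ cw k') :=
        congrArg (fun z => z ^^^ ((4096 * (j : ℕ)) ^^^ cw k')) h1
      calc cw k ^^^ cw k' = (cw k ^^^ (4096 * (j : ℕ))) ^^^ ((4096 * (j : ℕ)) ^^^ cw k') := by
            rw [Nat.xor_assoc, ← Nat.xor_assoc (4096 * (j : ℕ)), Nat.xor_self, Nat.zero_xor]
        _ = _ := h4
        _ = _ := by
            rw [Nat.xor_comm (4096 * (j : ℕ)) (cw k'), ← Nat.xor_assoc, Nat.xor_assoc (cw k'),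
              Nat.xor_comm (cw k') (4096 * (j' : ℕ) ^^^ cw k'), Nat.xor_assoc (4096 * (j' : ℕ)), Nat.xor_self,
              Nat.xor_zero, Nat.xor_comm]
    have h3 : ((j : ℕ) ^^^ (j' : ℕ)) = 0 := by
      apply eq_zero_of_word_mul_mem (Nat.xor_lt_two_pow (n := 12) j.2 j'.2)
      rw [← h2]; exact word_cw_mem _
    have hj : (j : ℕ) = j' := by
      have := congrArg (fun z => z ^^^ (j' : ℕ)) h3
      simp only [Nat.xor_assoc, Nat.xor_self, Nat.xor_zero, Nat.zero_xor] at this
      exact this
    rw [h3, mul_zero] at h2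
    have h4 : ((k : ℕ) ^^^ (k' : ℕ)) = 0 := by
      by_contra hne
      exact cw_ne_zero (Nat.xor_lt_two_pow (n := 12) k.2 k'.2) hne h2
    have hk : (k : ℕ) = k' := by
      have := congrArg (fun z => z ^^^ (k' : ℕ)) h4
      simp only [Nat.xor_assoc, Nat.xor_self, Nat.xor_zero, Nat.zero_xor] at this
      exact this
    exact Prod.ext (Fin.ext hk) (Fin.ext hj)
  have hcard : Fintype.card (Fin 4096 × Fin 4096) = Fintype.card (GolayPt → ZMod 2) := by
    rw [Fintype.card_prod, Fintype.card_fin, Fintype.card_fun, card_pt, ZMod.card]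
    norm_num
  have hbij := (Fintype.bijective_iff_injective_and_card _).2 ⟨hinj, hcard⟩
  obtain ⟨⟨k, j⟩, h⟩ := hbij.2 w
  exact ⟨k, k.2, j, j.2, h.symm⟩

theorem dot_word (a b : ℕ) : ∑ p, word a p * word b p = ((pop (Nat.land a b) : ℕ) : ZMod 2) := by
  have h : Nat.land a b = a &&& b := rfl
  rw [h, ← card_fset, fset_and]
  have h1 : ∀ i, word a i * word b i = if i ∈ fset a ∩ fset b then 1 else 0 := by
    intro i
    simp only [word, Finset.mem_inter, mem_fset]
    cases a.testBit (idx i) <;> cases b.testBit (idx i) <;> simp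
  rw [Finset.sum_congr rfl fun i _ => h1 i, Finset.sum_ite_mem, Finset.univ_inter, Finset.sum_const,
    nsmul_eq_mul, mul_one]

/-! ### octads through two points -/

/-- octads through the last two points, spanning an eleven-dimensional subcode -/
def OB22 : List ℕ := [12717187, 13373586, 13721920, 12912836, 13641904, 13667400, 14682450, 13370381, 12698124,
  12587685, 15747077]

/-- an octad through the last point but not through the last but one -/
def u22 : ℕ := 8414120

/-- the basis in terms of the previous octads -/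
def KB22 : List ℕ := [430, 441, 60, 350, 2467, 377, 2098, 396, 483, 2889, 3426, 339]

theorem KB22_ok : (basis.all fun b => KB22.any fun k => Nat.beq (xs (OB22 ++ [u22]) k) b) = true := by
  decide +kernel

theorem OB22_ok : (OB22.all fun m => and (isCW m) (and (Nat.beq (pop m) 8) (and (m.testBit 23) (m.testBit 22)))) =
    true := by decide +kernel

/-- the mask of the last two points -/
def dl : ℕ := 12582912

theorem dual22_check : treeAll (fun y => or (OB22.any fun b => Nat.beq (Nat.land (pop (Nat.land y b)) 1) 1)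
    (or (Nat.beq y 0) (isCW (Nat.xor y dl)))) CHK 0 = true := by decide +kernel

theorem dual22 (w : GolayPt → ZMod 2) (h : ∀ b ∈ OB22, ∑ p, w p * word b p = 0) :
    w ∈ golayCode ∨ w + word dl ∈ golayCode := by
  obtain ⟨k, hk, j, hj, rfl⟩ := decomp w
  have h1 := (treeAll_iff _ _ _).1 dual22_check j hj
  rw [Nat.zero_xor, xs_CHK hj] at h1
  have h2 : (OB22.any fun b => Nat.beq (Nat.land (pop (Nat.land (4096 * j) b)) 1) 1) = false := by
    rw [List.any_eq_false]
    intro b hb hbt
    have h3 := h b hb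
    have h4 : ∀ p, (word (cw k) + word (4096 * j)) p * word b p =
        word (cw k) p * word b p + word (4096 * j) p * word b p := by
      intro p; rw [Pi.add_apply, add_mul]
    rw [Finset.sum_congr rfl fun p _ => h4 p, Finset.sum_add_distrib] at h3
    have h5 := List.all_eq_true.1 OB22_ok b hb
    rw [Bool.and_eq_true] at h5
    rw [Cfsg.Agent.S0362.result _ _ (word_cw_mem k) (isCW_spec h5.1), zero_add, dot_word,
      ZMod.natCast_eq_zero_iff] at h3
    rw [beq_iff] at hbt
    have h6 : Nat.land (pop (Nat.land (4096 * j) b)) 1 = pop (Nat.land (4096 * j) b) % 2 := Nat.and_one_is_mod _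
    rw [h6] at hbt
    omega
  rw [h2, Bool.false_or, Bool.or_eq_true, beq_iff] at h1
  rcases h1 with h1 | h1
  · left
    rw [h1, word_zero, add_zero]
    exact word_cw_mem k
  · right
    rw [add_assoc, ← word_xor]
    exact Submodule.add_mem _ (word_cw_mem k) (isCW_spec h1)

/-- the last two points -/
def F2 : Finset GolayPt := {none, some 22}

theorem none_mem_F2 : none ∈ F2 := Finset.mem_insert_self _ _
theorem q_mem_F2 : some 22 ∈ F2 := Finset.mem_insert_of_mem (Finset.mem_singleton_self _)

theorem mem_F2 {p : GolayPt} : p ∈ F2 ↔ p = none ∨ p = some 22 := by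
  rw [F2, Finset.mem_insert, Finset.mem_singleton]

theorem F2_subset {b : Finset GolayPt} : F2 ⊆ b ↔ none ∈ b ∧ some 22 ∈ b := by
  rw [F2, Finset.insert_subset_iff, Finset.singleton_subset_iff]

/-- the transposition of the last two points -/
def tau : Equiv.Perm GolayPt := Equiv.swap none (some 22)

theorem tau_smul {b : Finset GolayPt} (h : F2 ⊆ b) : tau • b = b := by
  rw [F2_subset] at h
  ext p
  rw [← Finset.inv_smul_mem_iff]
  have : tau⁻¹ = tau := Equiv.swap_inv _ _
  rw [this, Equiv.Perm.smul_def, tau, Equiv.swap_apply_def]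
  split_ifs with h1 h2
  · rw [h1]; exact ⟨fun _ => h.1, fun _ => h.2⟩
  · rw [h2]; exact ⟨fun _ => h.2, fun _ => h.1⟩
  · exact Iff.rfl

theorem tau_not_mem : tau ∉ M24 := by
  intro h
  have h1 : tau = 1 := by
    apply eq_one_of_nine h
    have h1 : F2ᶜ ⊆ Finset.univ.filter fun p => tau p = p := by
      intro p hp
      rw [Finset.mem_compl, mem_F2, not_or] at hp
      rw [Finset.mem_filter]
      exact ⟨Finset.mem_univ _, Equiv.swap_apply_of_ne_of_ne hp.1 hp.2⟩
    refine le_trans ?_ (Finset.card_le_card h1)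
    rw [Finset.card_compl, card_pt]
    decide
  have h2 : tau none = none := by rw [h1]; rfl
  rw [tau, Equiv.swap_apply_left] at h2
  exact absurd h2 (by simp)

theorem idx_none : idx none = 23 := rfl
theorem idx_q : idx (some 22) = 22 := rfl

theorem aut22_cases {σ : Equiv.Perm {a : GolayPt // a ∉ F2}} (hσ : σ ∈ setSystemAut (res octads F2)) :
    Equiv.Perm.ofSubtype σ ∈ M24 ∨ tau * Equiv.Perm.ofSubtype σ ∈ M24 := by
  set g := Equiv.Perm.ofSubtype σ with hg
  have hOB : ∀ b ∈ OB22, fset b ∈ octads ∧ F2 ⊆ fset b := by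
    intro b hb
    have h5 := List.all_eq_true.1 OB22_ok b hb
    simp only [Bool.and_eq_true, beq_iff] at h5
    refine ⟨⟨isCW_mem_supports h5.1, by rw [card_fset]; exact h5.2.1⟩, ?_⟩
    rw [F2_subset, mem_fset, mem_fset, idx_none, idx_q]
    exact h5.2.2
  have h1 : ∀ b ∈ OB22, g • fset b ∈ octads := fun b hb => mem_aut_res_iff.1 hσ _ (hOB b hb).1 (hOB b hb).2
  have hσ' : σ⁻¹ ∈ setSystemAut (res octads F2) := inv_mem hσ
  have h2 : ∀ b ∈ OB22, g⁻¹ • fset b ∈ octads := by
    intro b hb
    have := mem_aut_res_iff.1 hσ' _ (hOB b hb).1 (hOB b hb).2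
    rw [map_inv] at this
    exact this
  have hgn : g none = none := ofSubtype_fix σ none_mem_F2
  have hgq : g (some 22) = some 22 := ofSubtype_fix σ q_mem_F2
  have hgn' : g⁻¹ none = none := by rw [Equiv.Perm.inv_eq_iff_eq]; exact hgn.symm
  have hgq' : g⁻¹ (some 22) = some 22 := by rw [Equiv.Perm.inv_eq_iff_eq]; exact hgq.symm
  have hu : isCW u22 = true := by decide +kernel
  have h3 := dual22 (fun p => word u22 (g⁻¹ p)) (by
    intro b hb
    obtain ⟨w, hw, hw2⟩ := (h2 b hb).1
    rw [← support_word, smul_support₂, inv_inv] at hw2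
    have h4 := support₂_injective hw2
    rw [← Equiv.sum_comp g]
    have h6 : ∀ p, g⁻¹ (g p) = p := by intro p; simp
    simp only [h6]
    have h5 := Cfsg.Agent.S0362.result _ _ (isCW_spec hu) hw
    rw [h4] at h5
    exact h5)
  rcases h3 with h3 | h3
  · left
    apply mem_M24_of_list (OB22 ++ [u22]) KB22 KB22_ok
    intro m hm
    rw [List.mem_append, List.mem_singleton] at hm
    rcases hm with hm | rfl
    · exact (h1 m hm).1
    · rw [← support_word, smul_support₂]
      exact ⟨_, h3, rfl⟩
  · right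
    apply mem_M24_of_list (OB22 ++ [u22]) KB22 KB22_ok
    intro m hm
    rw [List.mem_append, List.mem_singleton] at hm
    rcases hm with hm | rfl
    · rw [mul_smul, tau_smul]
      · exact (h1 m hm).1
      · have := (hOB m hm).2
        rw [F2_subset] at this ⊢
        constructor
        · rw [← Finset.inv_smul_mem_iff, Equiv.Perm.smul_def, hgn']; exact this.1
        · rw [← Finset.inv_smul_mem_iff, Equiv.Perm.smul_def, hgq']; exact this.2
    · rw [← support_word, smul_support₂]
      refine ⟨_, h3, ?_⟩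
      have h6 : tau⁻¹ = tau := Equiv.swap_inv _ _
      have e1 : word u22 none = 1 := by decide
      have e2 : word u22 (some 22) = 0 := by decide
      have e3 : word dl none = 1 := by decide
      have e4 : word dl (some 22) = 1 := by decide
      have e5 : ∀ p, p ≠ none → p ≠ some 22 → word dl p = 0 := by decide
      have e6 : (1 : ZMod 2) + 1 = 0 := by decide
      have h7 : (fun p => word u22 (g⁻¹ p)) + word dl = fun p => word u22 ((tau * g)⁻¹ p) := by
        funext p
        rw [Pi.add_apply, mul_inv_rev, Equiv.Perm.mul_apply, h6]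
        by_cases h8 : p = none
        · subst h8
          rw [tau, Equiv.swap_apply_left, hgn', hgq', e1, e2, e3, e6]
        · by_cases h9 : p = some 22
          · subst h9
            rw [tau, Equiv.swap_apply_right, hgn', hgq', e1, e2, e4, zero_add]
          · rw [tau, Equiv.swap_apply_of_ne_of_ne h8 h9, e5 p h8 h9, add_zero]
      rw [h7]

theorem mem_aut22 {g : Equiv.Perm GolayPt} {σ : Equiv.Perm {a : GolayPt // a ∉ F2}}
    (hg : Equiv.Perm.ofSubtype σ = g) (h : g ∈ M24 ∨ tau * g ∈ M24) : σ ∈ setSystemAut (res octads F2) := by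
  rw [mem_aut_res_iff, hg]
  intro b hb hF
  rcases h with h | h
  · exact smul_mem_octads h hb
  · have h1 := smul_mem_octads h hb
    have hgn : g none = none := by rw [← hg]; exact ofSubtype_fix σ none_mem_F2
    have hgq : g (some 22) = some 22 := by rw [← hg]; exact ofSubtype_fix σ q_mem_F2
    rw [mul_smul, tau_smul] at h1
    · exact h1
    · rw [F2_subset] at hF ⊢
      constructor
      · rw [Finset.mem_smul_finset]; exact ⟨none, hF.1, hgn⟩
      · rw [Finset.mem_smul_finset]; exact ⟨some 22, hF.2, hgq⟩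

/-- there is an element of `M24` exchanging the last two points -/
theorem exists_swap : ∃ m ∈ M24, m none = some 22 ∧ m (some 22) = none := by
  have hx : Function.Injective (![none, some 22, some 0, some 1, some 2] : Fin 5 → GolayPt) := by decide
  have hy : Function.Injective (![some 22, none, some 0, some 1, some 2] : Fin 5 → GolayPt) := by decide
  obtain ⟨m, hm, h⟩ := five_trans ⟨_, hx⟩ ⟨_, hy⟩
  exact ⟨m, hm, h 0, h 1⟩

/-- the subgroup of index two -/
def H22 : Subgroup (setSystemAut (res octads F2)) :=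
  (M24.comap Equiv.Perm.ofSubtype).subgroupOf (setSystemAut (res octads F2))

theorem mem_H22 {σ : setSystemAut (res octads F2)} :
    σ ∈ H22 ↔ Equiv.Perm.ofSubtype (σ : Equiv.Perm {a : GolayPt // a ∉ F2}) ∈ M24 :=
  Iff.rfl

theorem index_H22 : H22.index = 2 := by
  rw [Subgroup.index_eq_two_iff]
  obtain ⟨m, hm, hm1, hm2⟩ := exists_swap
  have hfix : ∀ p ∈ F2, (tau * m) p = p := by
    intro p hp
    rw [mem_F2] at hp
    rw [Equiv.Perm.mul_apply]
    rcases hp with rfl | rfl
    · rw [hm1, tau, Equiv.swap_apply_right]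
    · rw [hm2, tau, Equiv.swap_apply_left]
  obtain ⟨σ, hσ⟩ := exists_ofSubtype hfix
  have htt : tau * tau = 1 := Equiv.swap_mul_self _ _
  have hσm : σ ∈ setSystemAut (res octads F2) :=
    mem_aut22 hσ (Or.inr (by rw [← mul_assoc, htt, one_mul]; exact hm))
  refine ⟨⟨σ, hσm⟩, ?_⟩
  rintro ⟨b, hb⟩
  rw [mem_H22, mem_H22]
  have hbσ : Equiv.Perm.ofSubtype (((⟨b, hb⟩ * ⟨σ, hσm⟩ : setSystemAut (res octads F2))) :
      Equiv.Perm {a : GolayPt // a ∉ F2}) =
      Equiv.Perm.ofSubtype b * (tau * m) := by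
    rw [← hσ, ← map_mul]; rfl
  rw [hbσ]
  change Xor' _ (Equiv.Perm.ofSubtype b ∈ M24)
  have hcomm : Equiv.Perm.ofSubtype b * tau = tau * Equiv.Perm.ofSubtype b := by
    have h1 : Equiv.Perm.ofSubtype b none = none := ofSubtype_fix b none_mem_F2
    have h2 : Equiv.Perm.ofSubtype b (some 22) = some 22 := ofSubtype_fix b q_mem_F2
    rw [tau, Equiv.mul_swap_eq_swap_mul, h1, h2]
  rcases aut22_cases hb with h | h
  · right
    refine ⟨h, fun h' => ?_⟩
    apply tau_not_mem
    have h1 := mul_mem (mul_mem (inv_mem h) h') (inv_mem hm)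
    have h2 : (Equiv.Perm.ofSubtype b)⁻¹ * (Equiv.Perm.ofSubtype b * (tau * m)) * m⁻¹ = tau := by group
    rwa [h2] at h1
  · left
    constructor
    · rw [← mul_assoc, hcomm]
      exact mul_mem h hm
    · intro h'
      apply tau_not_mem
      have h1 := mul_mem h (inv_mem h')
      rwa [mul_assoc, mul_inv_cancel, mul_one] at h1

theorem map_H22 : (H22.map (setSystemAut (res octads F2)).subtype).map Equiv.Perm.ofSubtype =
    M24 ⊓ St none ⊓ St (some 22) := by
  ext g
  rw [Subgroup.mem_map]
  constructor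
  · rintro ⟨_, ⟨σ, hσ, rfl⟩, rfl⟩
    exact ⟨⟨mem_H22.1 hσ, ofSubtype_fix _ none_mem_F2⟩, ofSubtype_fix _ q_mem_F2⟩
  · rintro ⟨⟨h1, h2⟩, h3⟩
    obtain ⟨σ, hσ⟩ := exists_ofSubtype (F := F2) (g := g) (by
      intro p hp
      rw [mem_F2] at hp
      rcases hp with rfl | rfl
      · exact h2
      · exact h3)
    refine ⟨σ, ⟨⟨σ, mem_aut22 hσ (Or.inl h1)⟩, ?_, rfl⟩, hσ⟩
    change Equiv.Perm.ofSubtype σ ∈ M24
    rw [hσ]; exact h1

theorem isM22_H22 : IsM22 H22 := by
  let f : H22 ≃* ↥(M24 ⊓ St none ⊓ St (some 22)) :=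
    ((H22.equivMapOfInjective _ (Subgroup.subtype_injective _)).trans
      ((H22.map (setSystemAut (res octads F2)).subtype).equivMapOfInjective _
        Equiv.Perm.ofSubtype_injective)).trans (MulEquiv.subgroupCongr map_H22)
  have hne : (none : GolayPt) ≠ some 22 := by simp
  have hs := simple_M22 none (some 22) hne
  refine ⟨f.isSimpleGroup, ?_⟩
  rw [Nat.card_congr f.toEquiv, card_M22 _ _ hne]

theorem steiner22 : IsSteinerSystem 3 6 (res octads F2) := by
  apply res_steiner
  exact octads_steiner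

theorem multi22 : Multi (setSystemAut (res octads F2)) 3 := by
  intro x y
  have hcons : ∀ z : Fin 3 ↪ {a : GolayPt // a ∉ F2}, ∃ z' : Fin 5 ↪ GolayPt, z' 0 = none ∧ z' 1 = some 22 ∧
      ∀ i : Fin 3, z' i.succ.succ = z i := by
    intro z
    refine ⟨⟨Fin.cons none (Fin.cons (some 22) (fun i => (z i : GolayPt))), ?_⟩, rfl, rfl, fun i => rfl⟩
    rw [Fin.cons_injective_iff]
    constructor
    · rintro ⟨i, hi⟩
      refine Fin.cases (fun hi => ?_) (fun j hj => ?_) i hi
      · exact absurd hi (by simp)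
      · have hi' : (z j : GolayPt) = none := hj
        exact (z j).2 (by rw [hi']; exact none_mem_F2)
    · rw [Fin.cons_injective_iff]
      refine ⟨?_, fun i j h => z.injective (Subtype.ext h)⟩
      rintro ⟨i, hi⟩
      have hi' : (z i : GolayPt) = some 22 := hi
      exact (z i).2 (by rw [hi']; exact q_mem_F2)
  obtain ⟨x', hx0, hx1, hx⟩ := hcons x
  obtain ⟨y', hy0, hy1, hy⟩ := hcons y
  obtain ⟨g, hg, hgxy⟩ := five_trans x' y'
  obtain ⟨σ, hσ⟩ := exists_ofSubtype (F := F2) (g := g) (by
    intro p hp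
    rw [mem_F2] at hp
    rcases hp with rfl | rfl
    · have := hgxy 0
      rw [hx0, hy0] at this; exact this
    · have := hgxy 1
      rw [hx1, hy1] at this; exact this)
  refine ⟨σ, mem_aut22 hσ (Or.inl hg), fun i => ?_⟩
  have := hgxy i.succ.succ
  rw [hx, hy, ← hσ, Equiv.Perm.ofSubtype_apply_coe] at this
  exact Subtype.ext this

end CfsgLib.AutD
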