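import Cfsg.Agent.LibAutPSL27m

set_option autoImplicit false

/-! Involutory graph-field automorphisms of `PSL_n(F)`, part 2. -/

namespace CfsgLib.AutPSL27

open Matrix CfsgLib.H9027

variable {F : Type*} [Field F] {n : ℕ}

theorem GU_eq {σ : F ≃+* F} {q : ℕ} (hq : ∀ a, σ a = a ^ q) : Cfsg.GU n F q = uni σ n := by
  have hform : ∀ u v : Fin n → F, Cfsg.hermForm n F q u v = u ⬝ᵥ (σ ∘ v) := by
    intro u v
    unfold Cfsg.hermForm
    simp only [dotProduct, Function.comp_apply, hq]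
  ext g
  rw [mem_uni_iff]
  have key : ∀ u v : Fin n → F, ((g : Matrix (Fin n) (Fin n) F) *ᵥ u) ⬝ᵥ (σ ∘ ((g : Matrix (Fin n) (Fin n) F) *ᵥ v)) =
      u ⬝ᵥ (((g : Matrix (Fin n) (Fin n) F)ᵀ * (g : Matrix (Fin n) (Fin n) F).map σ) *ᵥ (σ ∘ v)) := by
    intro u v
    rw [← gm_mulVec, ← mulVec_mulVec, dotProduct_mulVec u, vecMul_transpose]
  constructor
  · intro h
    have h1 : ∀ u v : Fin n → F, Cfsg.hermForm n F q ((g : Matrix (Fin n) (Fin n) F) *ᵥ u) ((g : Matrix (Fin n) (Fin n) F) *ᵥ v) =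
      Cfsg.hermForm n F q u v := h
    ext i j
    have h2 := h1 (Pi.single i 1) (Pi.single j 1)
    rw [hform, hform, key, comp_single, single_one_dotProduct, single_one_dotProduct, mulVec_single_one] at h2
    rw [Matrix.one_apply, show ((g : Matrix (Fin n) (Fin n) F)ᵀ * (g : Matrix (Fin n) (Fin n) F).map σ) i j = _ from h2, Pi.single_apply]
  · intro h
    show ∀ u v : Fin n → F, Cfsg.hermForm n F q ((g : Matrix (Fin n) (Fin n) F) *ᵥ u) ((g : Matrix (Fin n) (Fin n) F) *ᵥ v) =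
      Cfsg.hermForm n F q u v
    intro u v
    rw [hform, hform, key, h, one_mulVec]

theorem centr_gf [Finite F] (p : ℕ) [Fact p.Prime] [CharP F p] (hn : 2 ≤ n) {σ : F ≃+* F} (hσ : σ ≠ 1) (hσ2 : σ ^ 2 = 1)
    {q : ℕ} (hq : ∀ a, σ a = a ^ q) :
    Nonempty (↥(Cfsg.inndiagPSL n F ⊓ Subgroup.centralizer {(lft (fl σ * it) : MulAut (Matrix.ProjectiveSpecialLinearGroup (Fin n) F))}) ≃*
      Cfsg.PGU n F q) := by
  let ψ : ↥(Cfsg.GU n F q) →* MulAut (Matrix.ProjectiveSpecialLinearGroup (Fin n) F) :=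
    ((lft (G := Matrix.SpecialLinearGroup (Fin n) F)).comp cj).comp (Cfsg.GU n F q).subtype
  have hker : ψ.ker = (Cfsg.Geo.scalars (Fin n) F).subgroupOf (Cfsg.GU n F q) := by
    ext g
    rw [MonoidHom.mem_ker, Subgroup.mem_subgroupOf]
    have h1 : ψ g = 1 ↔ (g : GL (Fin n) F) ∈ Subgroup.center (GL (Fin n) F) := by
      rw [← cjP_ker p hn, MonoidHom.mem_ker]; rfl
    rw [h1, Matrix.GeneralLinearGroup.center_eq_range_scalar]
    rfl
  have hrange : ψ.range = Cfsg.inndiagPSL n F ⊓ Subgroup.centralizer {(lft (fl σ * it) : MulAut (Matrix.ProjectiveSpecialLinearGroup (Fin n) F))} := by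
    rw [inndiag_eq]
    ext α
    constructor
    · rintro ⟨g, rfl⟩
      have hg : (g : GL (Fin n) F) ∈ uni σ n := by
        rw [← GU_eq hq]; exact g.2
      refine ⟨⟨(g : GL (Fin n) F), rfl⟩, Subgroup.mem_centralizer_singleton_iff.2 ?_⟩
      exact (comm_gf p hn hσ hσ2 (g : GL (Fin n) F)).2 ⟨1, (g : GL (Fin n) F), hg, by rw [map_one, one_mul]⟩
    · rintro ⟨⟨c, rfl⟩, hc⟩
      have hc' := Subgroup.mem_centralizer_singleton_iff.1 hc
      obtain ⟨u, g, hg, rfl⟩ := (comm_gf p hn hσ hσ2 c).1 hc'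
      rw [← GU_eq hq] at hg
      refine ⟨⟨g, hg⟩, ?_⟩
      show lft (cj g) = lft (cj _)
      rw [map_mul cj, cj_center (scalar_mem_center u), one_mul]
  have e1 : (↥(Cfsg.GU n F q) ⧸ ψ.ker) ≃* ψ.range := QuotientGroup.quotientKerEquivRange ψ
  have e2 : Cfsg.PGU n F q ≃* (↥(Cfsg.GU n F q) ⧸ ψ.ker) := (QuotientGroup.quotientMulEquivOfEq hker).symm
  exact ⟨((e2.trans e1).trans (MulEquiv.subgroupCongr hrange)).symm⟩

/-- the norm `u ↦ u σ(u)` -/
def Nh (σ : F ≃+* F) : Fˣ →* Fˣ := MonoidHom.id _ * Units.map ((σ : F →+* F) : F →* F)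

theorem Nh_apply (σ : F ≃+* F) (u : Fˣ) : ((Nh σ u : Fˣ) : F) = u * σ u := rfl

theorem Nh_index [Finite F] {σ : F ≃+* F} (hσ : σ ≠ 1) (hσ2 : σ ^ 2 = 1) : (Nh σ).ker.index = Nat.card (fixF σ) - 1 := by
  have hσσ : ∀ a, σ (σ a) = a := by
    intro a
    have := congrArg (fun τ : F ≃+* F => τ a) hσ2
    rw [sq] at this
    exact this
  have hord : orderOf σ = 2 := orderOf_eq_prime hσ2 hσ
  rw [Subgroup.index_ker, ← card_fixU]
  congr 2
  ext u
  constructor
  · rintro ⟨v, rfl⟩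
    show σ ((Nh σ v : Fˣ) : F) = ((Nh σ v : Fˣ) : F)
    rw [Nh_apply, map_mul, hσσ, mul_comm]
  · intro hu
    obtain ⟨y, hy, hyN⟩ := exists_norm σ 2 (by norm_num) hord (u : F) u.ne_zero hu
    rw [Finset.prod_range_succ, Finset.prod_range_one, pow_zero, pow_one] at hyN
    refine ⟨Units.mk0 y hy, ?_⟩
    apply Units.ext
    exact hyN

theorem exists_det_uni (hn : 1 ≤ n) {σ : F ≃+* F} {u : Fˣ} (hu : u ∈ (Nh σ).ker) :
    ∃ g : GL (Fin n) F, Matrix.GeneralLinearGroup.det g = u ∧ g ∈ uni σ n := by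
  have hu' : (u : F) * σ u = 1 := congrArg Units.val hu
  have key : (diagonal (fun i : Fin n => if i = ⟨0, hn⟩ then (u : F) else 1)).det = u := by
    rw [det_diagonal, Finset.prod_eq_single ⟨0, hn⟩]
    · rw [if_pos rfl]
    · intro b _ hb
      rw [if_neg hb]
    · intro h
      exact absurd (Finset.mem_univ _) h
  refine ⟨Matrix.GeneralLinearGroup.mkOfDetNeZero (diagonal (fun i : Fin n => if i = ⟨0, hn⟩ then (u : F) else 1)) ?_, ?_, ?_⟩
  · rw [key]
    exact u.ne_zero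
  · apply Units.ext
    exact key
  · rw [mem_uni_iff]
    show (diagonal (fun i : Fin n => if i = ⟨0, hn⟩ then (u : F) else 1))ᵀ * (diagonal (fun i : Fin n => if i = ⟨0, hn⟩ then (u : F) else 1)).map σ = 1
    rw [diagonal_map (map_zero σ), diagonal_transpose, diagonal_mul_diagonal, ← diagonal_one]
    congr 1
    ext i
    by_cases hi : i = ⟨0, hn⟩
    · simp [hi, hu']
    · simp [hi]

theorem det_uni {σ : F ≃+* F} {g : GL (Fin n) F} (hg : g ∈ uni σ n) : Matrix.GeneralLinearGroup.det g ∈ (Nh σ).ker := by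
  rw [mem_uni_iff] at hg
  rw [MonoidHom.mem_ker]
  apply Units.ext
  rw [Nh_apply]
  have h1 := congrArg Matrix.det hg
  rw [det_mul, det_transpose, det_one] at h1
  have h2 : ((g : Matrix (Fin n) (Fin n) F).map σ).det = σ ((g : Matrix (Fin n) (Fin n) F)).det :=
    ((σ : F →+* F).map_det (g : Matrix (Fin n) (Fin n) F)).symm
  rw [h2] at h1
  exact h1

theorem split_gf [Finite F] (p : ℕ) [Fact p.Prime] [CharP F p] (hn : 2 ≤ n) {σ : F ≃+* F} (hσ : σ ≠ 1) (hσ2 : σ ^ 2 = 1) :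
    Cfsg.splitClassCount (Cfsg.inndiagPSL n F) (Cfsg.Inn (Matrix.ProjectiveSpecialLinearGroup (Fin n) F)) (lft (fl σ * it)) =
      Nat.gcd n (Nat.card (fixF σ) - 1) := by
  rw [inndiag_eq, CfsgLib.Split27.splitCount_eq ((lft (G := Matrix.SpecialLinearGroup (Fin n) F)).comp cj) _ _
    Matrix.GeneralLinearGroup.det (det_surj (by omega)) (powMonoidHom n : Fˣ →* Fˣ).range (mem_inn_iff p hn) (inn_le n F)
    ((Nh σ).ker ⊔ (powMonoidHom n : Fˣ →* Fˣ).range)]
  · haveI : IsCyclic Fˣ := inferInstance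
    rw [CfsgLib.Split27.index_sup, IsCyclic.index_powMonoidHom_range]
    have h2 : (Nh σ).ker.index ∣ Nat.card Fˣ := Subgroup.index_dvd_card _
    rw [← Nat.gcd_assoc, Nat.gcd_eq_left h2, Nat.gcd_comm, Nh_index hσ hσ2]
  · intro z
    rw [Subgroup.mem_sup]
    constructor
    · rintro ⟨u, hu, t, ht, rfl⟩
      obtain ⟨g, hg, hgσ⟩ := exists_det_uni (n := n) (by omega) hu
      refine ⟨g, ?_, t, ht, by rw [hg]⟩
      exact (comm_gf p hn hσ hσ2 g).2 ⟨1, g, hgσ, by rw [map_one, one_mul]⟩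
    · rintro ⟨c, hc, t, ht, rfl⟩
      obtain ⟨u, g, hg, rfl⟩ := (comm_gf p hn hσ hσ2 c).1 hc
      refine ⟨Matrix.GeneralLinearGroup.det g, det_uni hg, u ^ n * t, Subgroup.mul_mem _ ⟨u, rfl⟩ ht, ?_⟩
      rw [map_mul, Matrix.GeneralLinearGroup.det_scalar, Fintype.card_fin, ← mul_assoc, mul_comm (u ^ n)]

/-- conjugates of the standard graph-field involution are `Inndiag`-conjugate to it -/
theorem conj_gf [Finite F] (p : ℕ) [Fact p.Prime] [CharP F p] (hn : 2 ≤ n) (σ : F ≃+* F)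
    (α : MulAut (Matrix.ProjectiveSpecialLinearGroup (Fin n) F)) :
    ∃ k : GL (Fin n) F, α * lft (fl σ * it) * α⁻¹ = lft (cj k) * lft (fl σ * it) * (lft (cj k))⁻¹ := by
  obtain ⟨h, τ, hα | ⟨-, hα⟩⟩ := main_all p hn α
  · refine ⟨h, ?_⟩
    have hc : fl τ * (fl σ * it) = (fl σ * it) * (fl τ : MulAut (Matrix.SpecialLinearGroup (Fin n) F)) := by
      rw [← mul_assoc, ← map_mul, gal_comm τ σ, map_mul, mul_assoc, mul_assoc, it_mul_fl]
    rw [hα, mul_inv_eq_iff_eq_mul, map_mul lft (cj h)]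
    have hc2 : lft (fl τ) * lft (fl σ * it) = lft (fl σ * it) * (lft (fl τ) : MulAut (Matrix.ProjectiveSpecialLinearGroup (Fin n) F)) := by
      rw [← map_mul, hc, map_mul]
    rw [mul_assoc, hc2]; group
  · refine ⟨h, ?_⟩
    have hc : (fl τ * it) * (fl σ * it) = (fl σ * it) * (fl τ * it : MulAut (Matrix.SpecialLinearGroup (Fin n) F)) := by
      calc (fl τ * it) * (fl σ * it) = fl τ * (it * fl σ) * it := by simp only [mul_assoc]
        _ = fl τ * fl σ * it * it := by rw [it_mul_fl]; simp only [mul_assoc]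
        _ = fl σ * (fl τ * it) * it := by rw [← map_mul, gal_comm τ σ, map_mul]; simp only [mul_assoc]
        _ = fl σ * (it * fl τ) * it := by rw [it_mul_fl]
        _ = _ := by simp only [mul_assoc]
    rw [hα, mul_assoc (cj h), mul_inv_eq_iff_eq_mul, map_mul lft (cj h)]
    have hc2 : lft (fl τ * it) * lft (fl σ * it) = lft (fl σ * it) * (lft (fl τ * it) : MulAut (Matrix.ProjectiveSpecialLinearGroup (Fin n) F)) := by
      rw [← map_mul, hc, map_mul]
    rw [mul_assoc, hc2]; group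

end CfsgLib.AutPSL27
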