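import Cfsg.Statements.S0219
import Mathlib

set_option autoImplicit false
open Cfsg

namespace Cfsg.Agent.S0219

/-- Burnside: cyclic Sylow 2-subgroups give a normal 2-complement; hence a subgroup of index two. -/
theorem exists_index_two_of_complement {G : Type*} [Group G] [Finite G] (T : Sylow 2 G)
    (N : Subgroup G) [N.Normal] (hN : N.IsComplement' (T : Subgroup G)) (heven : 2 ∣ Nat.card T) :
    ∃ H : Subgroup G, H.index = 2 := by
  haveI : Fact (Nat.Prime 2) := ⟨Nat.prime_two⟩
  have hidx : N.index = Nat.card T := hN.symm.index_eq_card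
  have hcard : Nat.card (G ⧸ N) = Nat.card T := by rw [← hidx]; rfl
  obtain ⟨n, hn⟩ := (IsPGroup.iff_card).1 T.2
  have hn' : Nat.card (G ⧸ N) = 2 ^ n := by rw [hcard]; exact hn
  obtain ⟨k, rfl⟩ : ∃ k, n = k + 1 := by
    rcases n with _ | k
    · exfalso
      have h1 : Nat.card T = 1 := hn
      rw [h1] at heven
      omega
    · exact ⟨k, rfl⟩
  obtain ⟨K, hK⟩ := Sylow.exists_subgroup_card_pow_prime (G := G ⧸ N) 2 (n := k) (by rw [hn', pow_succ]; exact dvd_mul_right _ _)
  refine ⟨K.comap (QuotientGroup.mk' N), ?_⟩
  rw [Subgroup.index_comap_of_surjective _ (QuotientGroup.mk'_surjective N)]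
  have h2 := K.card_mul_index
  rw [hK, hn', pow_succ] at h2
  exact Nat.eq_of_mul_eq_mul_left (by positivity) h2


/-- If a finite group has even order and a cyclic Sylow 2-subgroup, then it has a subgroup of index 2 (consider the parity of permutations in the regular representation). -/
theorem result {G : Type*} [Group G] [Finite G] (heven : Even (Nat.card G)) (T : Sylow 2 G) (hT : IsCyclic (T : Subgroup G)) : ∃ H : Subgroup G, H.index = 2 := by
  haveI : Fact (Nat.Prime 2) := ⟨Nat.prime_two⟩
  have h2 : 2 ∣ Nat.card T := T.dvd_card_of_dvd_card (even_iff_two_dvd.1 heven)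
  have hmin : (Nat.card G).minFac = 2 := by
    rw [Nat.minFac_eq_two_iff]
    exact even_iff_two_dvd.1 heven
  haveI : IsCyclic T := hT
  have hc := IsCyclic.isComplement' hmin hT
  haveI : (MonoidHom.transferSylow T (hT.normalizer_le_centralizer hmin)).ker.Normal := inferInstance
  exact exists_index_two_of_complement T _ hc h2
end Cfsg.Agent.S0219
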