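import Mathlib
import Cfsg.Agent.LibBFH12
import Cfsg.Agent.LibCores
import Cfsg.Agent.S0219
import Cfsg.Agent.S0144

/-! Brauer–Fowler: consequences. -/

set_option autoImplicit false

namespace CfsgLib.BFH12

open Subgroup CfsgLib.Invol

universe u

theorem n_pos {G : Type*} [Group G] [Finite G] (heven : Even (Nat.card G)) :
    0 < Nat.card {t : G // orderOf t = 2} := by
  obtain ⟨t, ht⟩ := exists_involution (G := G) heven
  have : Nonempty {t : G // orderOf t = 2} := ⟨⟨t, ht⟩⟩
  exact Nat.card_pos

theorem index_bound {G : Type*} [Group G] [Finite G] (heven : Even (Nat.card G))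
    (hZ : Odd (Nat.card (center G))) : ∃ H : Subgroup G, H ≠ ⊤ ∧ (H.index = 2 ∨
      2 * H.index * (Nat.card {t : G // orderOf t = 2}) ^ 2 <
        Nat.card G * (Nat.card G + Nat.card {t : G // orderOf t = 2})) := by
  classical
  by_contra hcon
  push Not at hcon
  let _ := Fintype.ofFinite G
  set n := Nat.card {t : G // orderOf t = 2} with hn
  have hnpos : 0 < n := n_pos heven
  have hcard : (invs G).card = n := card_eq
  have hGpos : 0 < Nat.card G := Nat.card_pos
  have h2 : ∀ H : Subgroup G, H.index ≠ 2 := by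
    intro H hH
    by_cases hT : H = ⊤
    · rw [hT, index_top] at hH; omega
    · exact (hcon H hT).1 hH
  have hm := main (G := G) (by
      intro t ht htZ
      have h1 : orderOf t = 2 := mem_invs.1 ht
      exact not_odd_card_of_mem htZ h1 hZ) h2 (2 * n ^ 2 / (Nat.card G + n)) (by
      intro H hH
      rw [Nat.le_div_iff_mul_le (by omega)]
      have h3 := (hcon H hH).2
      have h4 := H.index_mul_card
      have h5 : 0 < H.index := Nat.pos_of_ne_zero Subgroup.index_ne_zero_of_finite
      have h6 : H.index * (Nat.card H * (Nat.card G + n)) ≤ H.index * (2 * n ^ 2) := by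
        calc H.index * (Nat.card H * (Nat.card G + n)) = Nat.card G * (Nat.card G + n) := by
              rw [← mul_assoc, h4]
          _ ≤ 2 * H.index * n ^ 2 := h3
          _ = H.index * (2 * n ^ 2) := by ring
      exact Nat.le_of_mul_le_mul_left h6 h5)
  rw [hcard] at hm
  have h7 : 2 * n ^ 2 / (Nat.card G + n) * (Nat.card G + n) ≤ 2 * n ^ 2 := Nat.div_mul_le_self _ _
  rw [← Nat.card_eq_fintype_card] at hm
  set q := 2 * n ^ 2 / (Nat.card G + n) with hq
  nlinarith

theorem proper_cube_of_index_two {G : Type*} [Group G] [Finite G] (hgt : 2 < Nat.card G)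
    (H : Subgroup G) (hH : H.index = 2) : H ≠ ⊤ ∧ Nat.card G < (Nat.card H) ^ 3 := by
  have h1 := H.index_mul_card
  rw [hH] at h1
  refine ⟨?_, ?_⟩
  · rintro rfl; rw [index_top] at hH; omega
  · have h2 : 2 ≤ Nat.card H := by omega
    rw [← h1, pow_succ]
    have h3 : 2 < Nat.card H ^ 2 := by nlinarith
    exact Nat.mul_lt_mul_of_pos_right h3 (by omega)

theorem brauer_fowler : ∀ (N : ℕ) (G : Type u) [Group G] [Finite G], Nat.card G = N →
    Even (Nat.card G) → 2 < Nat.card G → ∃ H : Subgroup G, H ≠ ⊤ ∧ Nat.card G < (Nat.card H) ^ 3 := by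
  classical
  intro N
  induction N using Nat.strong_induction_on with
  | _ N ih =>
  intro G _ _ hN heven hgt
  by_cases hidx : ∃ H : Subgroup G, H.index = 2
  · obtain ⟨H, hH⟩ := hidx
    exact ⟨H, proper_cube_of_index_two hgt H hH⟩
  push Not at hidx
  by_cases hcen : ∃ z ∈ center G, orderOf z = 2
  · obtain ⟨z, hz, hz2⟩ := hcen
    have hzn : (zpowers z).Normal := by
      refine ⟨fun t ht g => ?_⟩
      obtain ⟨i, rfl⟩ := mem_zpowers_iff.1 ht
      have h1 : g * z ^ i * g⁻¹ = z ^ i := by
        have : Commute g z := mem_center_iff.1 hz g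
        rw [(this.zpow_right i).eq, mul_inv_cancel_right]
      rw [h1]; exact ⟨i, rfl⟩
    have hcz : Nat.card (zpowers z) = 2 := by rw [Nat.card_zpowers, hz2]
    have hcardQ : 2 * Nat.card (G ⧸ zpowers z) = Nat.card G := by
      rw [Subgroup.card_eq_card_quotient_mul_card_subgroup (zpowers z), hcz, mul_comm]
    rcases Nat.even_or_odd (Nat.card (G ⧸ zpowers z)) with he | ho
    · by_cases h2 : Nat.card (G ⧸ zpowers z) = 2
      · exact absurd h2 (hidx (zpowers z))
      · have h3 : 2 < Nat.card (G ⧸ zpowers z) := by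
          have := he.two_dvd
          have hp : 0 < Nat.card (G ⧸ zpowers z) := Nat.card_pos
          omega
        obtain ⟨H, hH, hlt⟩ := ih (Nat.card (G ⧸ zpowers z)) (by omega) (G ⧸ zpowers z) rfl he h3
        refine ⟨H.comap (QuotientGroup.mk' (zpowers z)), ?_, ?_⟩
        · intro h
          apply hH
          rw [eq_top_iff]
          intro x _
          obtain ⟨g, rfl⟩ := QuotientGroup.mk'_surjective (zpowers z) x
          have : g ∈ H.comap (QuotientGroup.mk' (zpowers z)) := by rw [h]; trivial
          exact this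
        · rw [CfsgLib.Cores.card_comap_mk, hcz, ← hcardQ, mul_pow]
          have : 0 < Nat.card H ^ 3 := pow_pos Nat.card_pos 3
          omega
    · exfalso
      -- Sylow 2-subgroups of order 2
      have : Fact (Nat.Prime 2) := ⟨Nat.prime_two⟩
      obtain ⟨P⟩ : Nonempty (Sylow 2 G) := inferInstance
      have hP : IsCyclic (P : Subgroup G) := by
        apply isCyclic_of_prime_card (p := 2)
        rw [P.card_eq_multiplicity, ← hcardQ, Nat.factorization_mul (by norm_num) (by
          have hp : 0 < Nat.card (G ⧸ zpowers z) := Nat.card_pos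
          omega), Finsupp.add_apply, Nat.prime_two.factorization_self,
          Nat.factorization_eq_zero_of_not_dvd (by rw [← even_iff_two_dvd, Nat.not_even_iff_odd]; exact ho)]
        norm_num
      obtain ⟨H, hH⟩ := Cfsg.Agent.S0219.result heven P hP
      exact hidx H hH
  push Not at hcen
  -- a maximal proper order
  let _ := Fintype.ofFinite (Subgroup G)
  obtain ⟨H₀, hH₀, hmax⟩ : ∃ H₀ : Subgroup G, H₀ ≠ ⊤ ∧ ∀ H : Subgroup G, H ≠ ⊤ → Nat.card H ≤ Nat.card H₀ := by
    have h1 : (Finset.univ.filter fun H : Subgroup G => H ≠ ⊤).Nonempty := by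
      refine ⟨⊥, ?_⟩
      rw [Finset.mem_filter]
      refine ⟨Finset.mem_univ _, ?_⟩
      intro h
      have h2 : Nat.card (⊥ : Subgroup G) = Nat.card (⊤ : Subgroup G) := by rw [h]
      rw [Subgroup.card_bot, Subgroup.card_top] at h2
      omega
    obtain ⟨H₀, h2, h3⟩ := Finset.exists_max_image _ (fun H : Subgroup G => Nat.card H) h1
    rw [Finset.mem_filter] at h2
    exact ⟨H₀, h2.2, fun H hH => h3 H (by rw [Finset.mem_filter]; exact ⟨Finset.mem_univ _, hH⟩)⟩
  have hCproper : ∀ u : G, orderOf u = 2 → centralizer ({u} : Set G) ≠ ⊤ := by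
    intro u hu h
    apply hcen u _ hu
    rw [mem_center_iff]
    intro x
    have h5 : x ∈ centralizer ({u} : Set G) := by rw [h]; trivial
    exact mem_centralizer_singleton_iff.1 h5
  refine ⟨H₀, hH₀, ?_⟩
  by_cases hone : ∃ s t : G, orderOf s = 2 ∧ orderOf t = 2 ∧ ¬ IsConj s t
  · obtain ⟨s, t, hs, ht, hst⟩ := hone
    exact two_classes s t hs ht hst _ (fun u hu => hmax _ (hCproper u hu))
  · push Not at hone
    let _ := Fintype.ofFinite G
    have hm := main (G := G) (fun t ht htZ => hcen t htZ (mem_invs.1 ht)) hidx (Nat.card H₀) hmax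
    obtain ⟨t, ht⟩ := exists_involution (G := G) heven
    have hcl := card_class t
    have hI : Nat.card {x : G // IsConj t x} = (invs G).card := by
      rw [card_eq]
      refine Nat.card_congr (Equiv.subtypeEquivRight fun x => ⟨fun h => ?_, fun h => hone t x ht h⟩)
      obtain ⟨g, hg⟩ := isConj_iff.1 h
      rw [← ht, ← hg, orderOf_conj]
    rw [hI] at hcl
    have hct := hmax _ (hCproper t ht)
    rw [← Nat.card_eq_fintype_card] at hm
    have hnpos : 0 < (invs G).card := by rw [card_eq]; exact n_pos heven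
    by_contra hlt
    push Not at hlt
    set n := (invs G).card with hn
    set h := Nat.card H₀ with hh
    set c := Nat.card (centralizer ({t} : Set G)) with hc
    have hhpos : 0 < h := Nat.card_pos
    -- n ≥ h^2
    have h1 : n * c ≤ n * h := Nat.mul_le_mul_left _ hct
    have h2 : h ^ 3 ≤ n * h := by rw [hcl] at h1; exact hlt.trans h1
    have h3 : h ^ 2 ≤ n := by
      have : h ^ 2 * h ≤ n * h := by rw [← pow_succ]; exact h2
      exact Nat.le_of_mul_le_mul_right this hhpos
    have h4 : Nat.card G * h ≤ n * h * h := by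
      rw [← hcl]
      exact Nat.mul_le_mul_right _ h1
    have h5 : 2 * n ^ 2 + 2 * n + h ≤ n * h + n * (h * h) := by nlinarith
    have h6 : n * (2 * n + 2) < n * (h + h * h) := by nlinarith
    have h7 := Nat.lt_of_mul_lt_mul_left h6
    nlinarith

end CfsgLib.BFH12
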