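import Cfsg.Agent.EqBase

/-! A Vandermonde argument for fixed points of automorphisms of prime order. -/

namespace CfsgLib.BGVan

universe u v

theorem mat_zero {A : Type u} {V : Type v} [CommRing A] [AddCommGroup V] [Module A V] {n : ℕ}
    (M : Matrix (Fin n) (Fin n) A) (hM : ∀ v : V, M.det • v = 0 → v = 0) (w : Fin n → V)
    (h : ∀ i, ∑ j, M i j • w j = 0) : ∀ k, w k = 0 := by
  intro k
  apply hM
  have h1 : ∑ i, M.adjugate k i • ∑ j, M i j • w j = 0 := by
    simp [h]
  have h2 : ∑ i, M.adjugate k i • ∑ j, M i j • w j = ∑ j, ((M.adjugate * M) k j) • w j := by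
    simp_rw [Finset.smul_sum, smul_smul, Matrix.mul_apply, Finset.sum_smul]
    exact Finset.sum_comm
  rw [h2, Matrix.adjugate_mul] at h1
  simpa [Matrix.smul_apply, Matrix.one_apply, ite_smul] using h1

theorem det_inj {A : Type u} {V : Type v} [CommRing A] [AddCommGroup V] [Module A V] {n : ℕ}
    (s : Fin n → A) (hs : ∀ i j, i ≠ j → ∀ v : V, (s i - s j) • v = 0 → v = 0) (v : V)
    (h : (Matrix.vandermonde s).det • v = 0) : v = 0 := by
  rw [Matrix.det_vandermonde] at h
  have key : ∀ (ι : Type) (t : Finset ι) (f : ι → A), (∀ i ∈ t, ∀ v : V, f i • v = 0 → v = 0) →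
      ∀ v : V, (∏ i ∈ t, f i) • v = 0 → v = 0 := by
    intro ι t f
    classical
    induction t using Finset.induction_on with
    | empty => intro _ v hv; simpa using hv
    | insert a t ha ih =>
      intro hf v hv
      rw [Finset.prod_insert ha, mul_smul] at hv
      exact ih (fun i hi => hf i (Finset.mem_insert_of_mem hi)) v
        (hf a (Finset.mem_insert_self _ _) _ hv)
  refine key _ _ _ (fun i _ => key _ _ _ fun j hj w hw => ?_) v h
  exact hs j i (Finset.mem_Ioi.1 hj).ne' w hw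

theorem vand_rows {A : Type u} {V : Type v} [CommRing A] [AddCommGroup V] [Module A V] {n : ℕ}
    (s : Fin n → A) (hs : ∀ i j, i ≠ j → ∀ v : V, (s i - s j) • v = 0 → v = 0)
    (w : Fin n → V) (h : ∀ i, ∑ j : Fin n, s i ^ (j : ℕ) • w j = 0) : ∀ k, w k = 0 :=
  mat_zero (Matrix.vandermonde s) (det_inj s hs) w (by simpa [Matrix.vandermonde_apply] using h)

theorem vand_cols {A : Type u} {V : Type v} [CommRing A] [AddCommGroup V] [Module A V] {n : ℕ}
    (s : Fin n → A) (hs : ∀ i j, i ≠ j → ∀ v : V, (s i - s j) • v = 0 → v = 0)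
    (w : Fin n → V) (h : ∀ j : Fin n, ∑ i : Fin n, s i ^ (j : ℕ) • w i = 0) : ∀ k, w k = 0 :=
  mat_zero (Matrix.vandermonde s).transpose
    (by rw [Matrix.det_transpose]; exact det_inj s hs) w
    (by simpa [Matrix.vandermonde_apply] using h)

theorem vand_main {V : Type v} [AddCommGroup V] [Finite V] {p : ℕ} (hp : 0 < p)
    (x : AddMonoid.End V) (hx : x ^ p = 1) (s : V →+ V) (σ : ℕ → (V →+ V))
    (hσ : ∀ i v, σ i ((x ^ i) v) = (x ^ i) (s v))
    (hcomm : ∀ i j v, σ i (σ j v) = σ j (σ i v))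
    (hinj : ∀ i < p, ∀ j < p, i ≠ j → ∀ v, σ i v = σ j v → v = 0) :
    Nat.card V = Nat.card {v : V // x v = v} ^ p ∧
      ∀ v : V, ∃ c : Fin p → {v : V // x v = v}, v = ∑ j : Fin p, s^[(j : ℕ)] (c j : V) := by
  classical
  let S : Set (AddMonoid.End V) := Set.range (fun i => (σ i : AddMonoid.End V))
  have hc : ∀ a ∈ S, ∀ b ∈ S, a * b = b * a := by
    rintro _ ⟨i, rfl⟩ _ ⟨j, rfl⟩
    exact AddMonoidHom.ext fun v => hcomm i j v
  letI : CommRing (Subring.closure S) := Subring.closureCommRingOfComm hc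
  let τ : Fin p → Subring.closure S := fun i =>
    ⟨(σ (i : ℕ) : AddMonoid.End V), Subring.subset_closure ⟨(i : ℕ), rfl⟩⟩
  have hτ : ∀ i (v : V), τ i • v = σ (i : ℕ) v := fun i v => rfl
  have hτp : ∀ i (k : ℕ) (v : V), τ i ^ k • v = (σ (i : ℕ))^[k] v := by
    intro i k
    induction k with
    | zero => intro v; simp
    | succ k ih =>
      intro v
      rw [pow_succ, mul_smul, ih, hτ, Function.iterate_succ_apply]
  have hs : ∀ i j, i ≠ j → ∀ v : V, (τ i - τ j) • v = 0 → v = 0 := by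
    intro i j hij v hv
    rw [sub_smul, sub_eq_zero, hτ, hτ] at hv
    exact hinj i i.2 j j.2 (fun h => hij (Fin.ext h)) v hv
  have hσp : ∀ i k v, (σ i)^[k] ((x ^ i) v) = (x ^ i) (s^[k] v) := by
    intro i k
    induction k with
    | zero => intro v; rfl
    | succ k ih => intro v; rw [Function.iterate_succ_apply, hσ, ih, Function.iterate_succ_apply]
  have hxx : ∀ i v, x ((x ^ i) v) = (x ^ (i + 1)) v := by
    intro i v
    rw [pow_succ']; rfl
  have hfix : ∀ i v, x v = v → (x ^ i) v = v := by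
    intro i
    induction i with
    | zero => intro v _; rfl
    | succ i ih => intro v hv; rw [← hxx, ih v hv, hv]
  have hnorm : ∀ v : V, x (∑ i : Fin p, (x ^ (i : ℕ)) v) = ∑ i : Fin p, (x ^ (i : ℕ)) v := by
    intro v
    rw [map_sum]
    rw [Fin.sum_univ_eq_sum_range (fun i => x ((x ^ i) v)) p,
      Fin.sum_univ_eq_sum_range (fun i => (x ^ i) v) p]
    simp_rw [hxx]
    have h1 := Finset.sum_range_succ (fun i => (x ^ i) v) p
    have h2 := Finset.sum_range_succ' (fun i => (x ^ i) v) p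
    rw [h1, hx, pow_zero] at h2
    exact (add_right_cancel h2).symm
  let W := {v : V // x v = v}
  have hW : Nat.card (Fin p → W) = Nat.card W ^ p := by
    rw [Nat.card_fun, Nat.card_eq_fintype_card (α := Fin p), Fintype.card_fin]
  have hfin : Finite W := inferInstance
  let f : V → (Fin p → W) := fun a j => ⟨∑ i : Fin p, (x ^ (i : ℕ)) (s^[(j : ℕ)] a), hnorm _⟩
  have hf : Function.Injective f := by
    intro a b hab
    have h1 : ∀ j : Fin p, ∑ i : Fin p, τ i ^ (j : ℕ) • ((x ^ (i : ℕ)) (a - b)) = 0 := by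
      intro j
      have h2 : ∑ i : Fin p, (x ^ (i : ℕ)) (s^[(j : ℕ)] a) =
          ∑ i : Fin p, (x ^ (i : ℕ)) (s^[(j : ℕ)] b) := congrArg Subtype.val (congrFun hab j)
      rw [← sub_eq_zero, ← Finset.sum_sub_distrib] at h2
      rw [← h2]
      refine Finset.sum_congr rfl fun i _ => ?_
      rw [map_sub, smul_sub, hτp, hτp, hσp, hσp]
    have h3 := vand_cols τ hs _ h1 ⟨0, hp⟩
    have h4 : (x ^ 0) (a - b) = 0 := h3
    rw [pow_zero] at h4
    exact sub_eq_zero.1 h4
  let g : (Fin p → W) → V := fun c => ∑ j : Fin p, s^[(j : ℕ)] (c j : V)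
  have hg' : Function.Injective g := by
    intro c d hcd
    have hg : ∑ j : Fin p, s^[(j : ℕ)] (c j : V) = ∑ j : Fin p, s^[(j : ℕ)] (d j : V) := hcd
    have h1 : ∀ i : Fin p, ∑ j : Fin p, τ i ^ (j : ℕ) • ((c j : V) - (d j : V)) = 0 := by
      intro i
      have h2 := congrArg (x ^ (i : ℕ)) hg
      rw [map_sum, map_sum, ← sub_eq_zero, ← Finset.sum_sub_distrib] at h2
      rw [← h2]
      refine Finset.sum_congr rfl fun j _ => ?_
      rw [smul_sub, hτp, hτp, ← hσp, ← hσp, hfix _ _ (c j).2, hfix _ _ (d j).2]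
    have h3 := vand_rows τ hs _ h1
    funext j
    exact Subtype.ext (sub_eq_zero.1 (h3 j))
  have h1 := Nat.card_le_card_of_injective f hf
  have h2 := Nat.card_le_card_of_injective g hg'
  refine ⟨(le_antisymm h1 h2).trans hW, fun v => ?_⟩
  obtain ⟨c, hc⟩ := (hg'.bijective_of_nat_card_le h1).2 v
  exact ⟨c, hc.symm⟩

theorem vand_card {V : Type v} [AddCommGroup V] [Finite V] {p : ℕ} (hp : 0 < p)
    (x : AddMonoid.End V) (hx : x ^ p = 1) (s : V →+ V) (σ : ℕ → (V →+ V))
    (hσ : ∀ i v, σ i ((x ^ i) v) = (x ^ i) (s v))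
    (hcomm : ∀ i j v, σ i (σ j v) = σ j (σ i v))
    (hinj : ∀ i < p, ∀ j < p, i ≠ j → ∀ v, σ i v = σ j v → v = 0) :
    Nat.card V = Nat.card {v : V // x v = v} ^ p :=
  (vand_main hp x hx s σ hσ hcomm hinj).1

/-- endomorphisms commuting with `s` commute with each other if the fixed points of `x` are
cyclic -/
theorem vand_comm {V : Type v} [AddCommGroup V] [Finite V] {p : ℕ} (hp : 0 < p)
    (x : AddMonoid.End V) (hx : x ^ p = 1) (s : AddMonoid.End V) (σ : ℕ → (V →+ V))
    (hσ : ∀ i v, σ i ((x ^ i) v) = (x ^ i) (s v))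
    (hcomm : ∀ i j v, σ i (σ j v) = σ j (σ i v))
    (hinj : ∀ i < p, ∀ j < p, i ≠ j → ∀ v, σ i v = σ j v → v = 0)
    (c₀ : V) (hc : ∀ v, x v = v → ∃ n : ℤ, v = n • c₀) (k l : AddMonoid.End V)
    (hk : k * s = s * k) (hl : l * s = s * l) (v : V) :
    k (l v) = l (k v) := by
  have hsurj := (vand_main hp x hx s σ hσ hcomm hinj).2
  let S : Subring (AddMonoid.End V) := Subring.closure {s}
  have hS : s ∈ S := Subring.subset_closure rfl
  have hgen : ∀ v : V, ∃ a ∈ S, v = (a : AddMonoid.End V) c₀ := by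
    intro v
    obtain ⟨c, hc'⟩ := hsurj v
    choose n hn using fun j => hc (c j : V) (c j).2
    refine ⟨∑ j : Fin p, s ^ (j : ℕ) * ((n j : ℤ) : AddMonoid.End V),
      Subring.sum_mem _ fun j _ => Subring.mul_mem _ (Subring.pow_mem _ hS _)
        (intCast_mem _ _), ?_⟩
    have h1 : ∀ (m : ℕ) (w : V), s^[m] w = (s ^ m) w := by
      intro m
      induction m with
      | zero => intro w; rfl
      | succ m ih => intro w; rw [Function.iterate_succ_apply, ih, pow_succ]; rfl
    have h2 : ∀ (t : Finset (Fin p)) (F : Fin p → AddMonoid.End V),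
        (∑ j ∈ t, F j) c₀ = ∑ j ∈ t, F j c₀ := by
      intro t F
      classical
      induction t using Finset.induction_on with
      | empty => simp
      | insert a t ha ih => rw [Finset.sum_insert ha, Finset.sum_insert ha, ← ih]; rfl
    rw [h2, hc']
    refine Finset.sum_congr rfl fun j _ => ?_
    refine (h1 _ _).trans ?_
    rw [hn j]
    rfl
  have hcs : ∀ t : AddMonoid.End V, t * s = s * t → ∀ a ∈ S, t * a = a * t := by
    intro t ht a ha
    have h1 : S ≤ Subring.centralizer {t} := by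
      rw [Subring.closure_le]
      intro y hy
      rw [Set.mem_singleton_iff] at hy
      rw [hy]
      change s ∈ Subring.centralizer {t}
      rw [Subring.mem_centralizer_iff]
      intro z hz
      rw [Set.mem_singleton_iff] at hz
      rw [hz]
      exact ht
    exact Subring.mem_centralizer_iff.1 (h1 ha) t rfl
  have hcs' : ∀ t : AddMonoid.End V, t * s = s * t → ∀ a ∈ S, ∀ v, t (a v) = a (t v) :=
    fun t ht a ha v => congrArg (fun f : AddMonoid.End V => f v) (hcs t ht a ha)
  obtain ⟨r, hr, rfl⟩ := hgen v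
  obtain ⟨a, ha, hka⟩ := hgen (k c₀)
  obtain ⟨b, hb, hlb⟩ := hgen (l c₀)
  have hab : ∀ v, a (b v) = b (a v) := by
    intro w
    exact (hcs' b (hcs s rfl b hb).symm a ha w).symm
  rw [hcs' l hl r hr, hcs' k hk r hr, hcs' k hk r hr, hcs' l hl r hr, hka, hlb, hcs' k hk b hb,
    hcs' l hl a ha, hka, hlb, hab]

end CfsgLib.BGVan
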