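import Cfsg.Agent.EqBase
import Cfsg.Agent.LibBG8

/-! Statement S1482. -/

open Subgroup
open scoped Pointwise commutatorElement

namespace CfsgLib.BGPi

open Cfsg

universe u

section
variable {G : Type u} [Group G] [Finite G]

theorem s1482 (hG : IsMinSimpleOddOrder G) {M A : Subgroup G} (hM : IsCoatom M)
    (h2 : ∀ s : ℕ, ∃ r : ℕ, r.Prime ∧ r ∣ Nat.card (fittingOf M) ∧ r ≠ s)
    (hAF : A ≤ fittingOf M) (hZ : fittingOf M ⊓ 𝓒(fittingOf M) ≤ A)
    (hinv : ∀ Y ∈ invSubgroups ⊤ A (primesNotDvd (Nat.card (fittingOf M))), Y = ⊥)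
    {H : Subgroup G} (hH : IsCoatom H) (hAH : A ≤ H) : H = M := by
  have hFn : Group.IsNilpotent (fittingOf M) := fittingOf_nilpotent M
  have hFM : fittingOf M ≤ M := fittingOf_le M
  have hMs := max_sol hG hM
  have hHs := max_sol hG hH
  have hZA : ∀ r : ℕ, r.Prime → piCoreOf {r} M ⊓ 𝓒(fittingOf M) ≤ piCoreOf {r} A := by
    intro r hr
    have h3 : piCoreOf {r} M ⊓ 𝓒(fittingOf M) ≤ A :=
      (inf_le_inf (pcore_le_fittingOf hr M) le_rfl).trans hZ
    exact nilpotent_le_piCoreOf (nilpotent_sub hAF hFn) h3 ((isPi_piCoreOf _ _).le inf_le_left)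
  have hC : ∀ r : ℕ, r.Prime → r ∣ Nat.card (fittingOf M) → 𝓒(piCoreOf {r} A) ≤ M :=
    fun r hr hd => max_cz_zf hG hM hr hd (hZA r hr)
  have hO : piCoreOf (primesNotDvd (Nat.card (fittingOf M))) H = ⊥ :=
    hinv _ ⟨le_top, isPi_piCoreOf _ _, hAH.trans (le_nz_piCoreOf _ _)⟩
  have hb : ∀ s : ℕ, s.Prime → piCoreOf {s} M ⊓ H ≤ piCoreOf {s} H := fun s hs =>
    bender2 hG hAF hH.1 hAH hC hO hs (h2 s)
  have hEn : Group.IsNilpotent (fittingOf H) := fittingOf_nilpotent H
  have hAr : ∀ r : ℕ, r.Prime → piCoreOf {r} A ≤ piCoreOf {r} H := by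
    intro r hr
    refine le_trans (le_inf ?_ ((piCoreOf_le _ _).trans hAH)) (hb r hr)
    rw [← piCoreOf_fittingOf hr M]
    exact nilpotent_le_piCoreOf hFn ((piCoreOf_le _ _).trans hAF) (isPi_piCoreOf _ _)
  have hsing : ∀ {r s : ℕ}, r ≠ s → ∀ X : Subgroup G, IsPi {r} X → IsPi {s}ᶜ X := by
    intro r s hrs X hX
    refine hX.mono ?_
    rintro t ht
    rw [Set.mem_singleton_iff] at ht
    subst ht
    exact hrs
  have hEs : ∀ r s : ℕ, r.Prime → s.Prime → r ≠ s → piCoreOf {s} H ≤ 𝓒(piCoreOf {r} A) := by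
    intro r s hr hs hrs
    refine nilpotent_commute (π := {s}) hEn (pcore_le_fittingOf hs H)
      ((hAr r hr).trans (pcore_le_fittingOf hr H)) (isPi_piCoreOf _ _) ?_
    exact hsing hrs _ (isPi_piCoreOf _ _)
  have hEM : ∀ s : ℕ, s.Prime → piCoreOf {s} H ≤ M := by
    intro s hs
    obtain ⟨r, hr, hrd, hrs⟩ := h2 s
    exact (hEs r s hr hs hrs).trans (hC r hr hrd)
  have hEM' : fittingOf H ≤ M := by
    refine nilpotent_le_of_pcores hEn fun r hr => ?_
    rw [piCoreOf_fittingOf hr]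
    exact hEM r hr
  have hHne : ∀ s : ℕ, s.Prime → s ∣ Nat.card (fittingOf M) → piCoreOf {s} H ≠ ⊥ := by
    intro s hs hsd h
    have h4 := hAr s hs
    rw [h, le_bot_iff] at h4
    have h5 := hC s hs hsd
    rw [h4, cz_bot] at h5
    exact hM.1 (top_le_iff.1 h5)
  have hFdE : ∀ s : ℕ, s.Prime → s ∣ Nat.card (fittingOf M) → s ∣ Nat.card (fittingOf H) := by
    intro s hs hsd
    have h7 : Nat.card ↥(piCoreOf {s} H) ≠ 1 :=
      fun h' => hHne s hs hsd (Subgroup.eq_bot_of_card_eq _ h')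
    obtain ⟨t, ht, htd⟩ := Nat.exists_prime_and_dvd h7
    have h8 := isPi_piCoreOf {s} H t ht htd
    rw [Set.mem_singleton_iff] at h8
    subst h8
    exact htd.trans (Subgroup.card_dvd_of_le (pcore_le_fittingOf ht H))
  -- reversed roles
  have hEF : ∀ s : ℕ, s.Prime → piCoreOf {s} H ≤ piCoreOf {s} M := by
    intro s hs
    have hO' : piCoreOf (primesNotDvd (Nat.card (fittingOf H))) M = ⊥ := by
      by_contra hne
      obtain ⟨q, hq, hqd, hq1⟩ := exists_pcore_ne_bot (solvable_sub (piCoreOf_le _ _) hMs) hne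
      have h3 : piCoreOf {q} (piCoreOf (primesNotDvd (Nat.card (fittingOf H))) M) ≤
          fittingOf M := by
        rw [piCoreOf_of_normal (piCoreOf_le _ _) (le_nz_piCoreOf _ _)]
        exact inf_le_right.trans (pcore_le_fittingOf hq M)
      have h4 := isPi_pcore_dvd hq1
      have h6 : q ∣ Nat.card
          (piCoreOf {q} (piCoreOf (primesNotDvd (Nat.card (fittingOf H))) M)) := by
        have h7 : Nat.card
            (piCoreOf {q} (piCoreOf (primesNotDvd (Nat.card (fittingOf H))) M)) ≠ 1 :=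
          fun h' => hq1 (Subgroup.eq_bot_of_card_eq _ h')
        obtain ⟨t, ht, htd⟩ := Nat.exists_prime_and_dvd h7
        have h8 := isPi_piCoreOf {q}
          (piCoreOf (primesNotDvd (Nat.card (fittingOf H))) M) t ht htd
        rw [Set.mem_singleton_iff] at h8
        subst h8
        exact htd
      have h5 := isPi_piCoreOf (primesNotDvd (Nat.card (fittingOf H))) M q hq
        (h6.trans (Subgroup.card_dvd_of_le (piCoreOf_le _ _)))
      exact h5.2 (hFdE q hq (h6.trans (Subgroup.card_dvd_of_le h3)))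
    obtain ⟨r0, hr0, hr0d, hr0s⟩ := h2 s
    have h3 := bender2 hG (M := H) (X := M) (A := fittingOf H) le_rfl hM.1 hEM' (by
      intro r hr hrd
      rw [piCoreOf_fittingOf hr]
      have h4 := nilpotent_pcore_ne_bot hEn hr hrd
      rw [piCoreOf_fittingOf hr] at h4
      exact (cz_le_nz _).trans (max_nz_pcore hG hH h4).le) hO' hs ⟨r0, hr0, hFdE r0 hr0 hr0d, hr0s⟩
    rwa [inf_eq_left.2 (hEM s hs)] at h3
  have hEF' : fittingOf H ≤ fittingOf M := by
    refine nilpotent_le_of_pcores hEn fun s hs => ?_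
    rw [piCoreOf_fittingOf hs]
    exact (hEF s hs).trans (pcore_le_fittingOf hs M)
  have hFH : fittingOf M ≤ H := by
    refine nilpotent_le_of_pcores hFn fun r hr => ?_
    rw [piCoreOf_fittingOf hr]
    obtain ⟨s, hs, hsd, hsr⟩ := h2 r
    have h3 := hHne s hs hsd
    have h4 : piCoreOf {r} M ≤ 𝓒(piCoreOf {s} H) := by
      refine nilpotent_commute (π := {r}) hFn (pcore_le_fittingOf hr M)
        ((hEF s hs).trans (pcore_le_fittingOf hs M)) (isPi_piCoreOf _ _) ?_
      exact hsing hsr _ (isPi_piCoreOf _ _)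
    refine (h4.trans (cz_le_nz _)).trans ?_
    rw [max_nz_pcore hG hH h3]
  have hFE' : fittingOf M ≤ fittingOf H := by
    refine nilpotent_le_of_pcores hFn fun r hr => ?_
    rw [piCoreOf_fittingOf hr]
    refine le_trans ?_ (pcore_le_fittingOf hr H)
    refine le_trans (le_inf le_rfl ?_) (hb r hr)
    exact (pcore_le_fittingOf hr M).trans hFH
  rw [← max_nz_fitting hG hH, ← max_nz_fitting hG hM, le_antisymm hEF' hFE']

end

end CfsgLib.BGPi
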