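import Cfsg.Agent.EqBase
import Mathlib.FieldTheory.Finite.Trace

/-! B & G appendix C: norm one elements. -/

namespace CfsgLib.BGC

open Polynomial

section
variable {p : ℕ} [Fact p.Prime] {L : Type*} [Field L] [Finite L] [Algebra (ZMod p) L]

local notation "N" => Algebra.norm (ZMod p)

/-- the pairs of norm one elements with sum two -/
def ESet (p : ℕ) [Fact p.Prime] (L : Type*) [Field L] [Algebra (ZMod p) L] : Set L :=
  {a : L | Algebra.norm (ZMod p) a = 1 ∧ Algebra.norm (ZMod p) (2 - a) = 1}

theorem char_of_alg : CharP L p := by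
  haveI : CharP (ZMod p) p := ZMod.charP p
  exact charP_of_injective_algebraMap (algebraMap (ZMod p) L).injective p

theorem norm_ne {a : L} (h : N a = 1) : a ≠ 0 := by
  rintro rfl
  rw [Algebra.norm_zero] at h
  exact zero_ne_one h

theorem norm_inv {a : L} (ha : a ≠ 0) : N a⁻¹ = (N a)⁻¹ := by
  have h1 : N (a⁻¹) * N a = 1 := by rw [← map_mul, inv_mul_cancel₀ ha, map_one]
  exact eq_inv_of_mul_eq_one_left h1

theorem norm_shift (t : L) (n : ℕ) :
    algebraMap (ZMod p) L (N (t + n)) =
      ∏ i ∈ Finset.range (Module.finrank (ZMod p) L), (t ^ (p ^ i) + n) := by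
  haveI := char_of_alg (p := p) (L := L)
  haveI : ExpChar L p := ExpChar.prime Fact.out
  rw [FiniteField.algebraMap_norm_eq_prod_pow]
  refine Finset.prod_congr rfl fun i _ => ?_
  rw [Nat.card_zmod, add_pow_expChar_pow]
  congr 1
  rename_i hi
  clear hi
  induction i with
  | zero => simp
  | succ i ih =>
    rw [pow_succ, pow_mul, ih]
    have h1 : (n : ZMod p) ^ p = n := ZMod.pow_card _
    have h2 := congrArg (algebraMap (ZMod p) L) h1
    rwa [map_pow, map_natCast] at h2

theorem le_of_const {t : L} {q : ℕ} (hq : Module.finrank (ZMod p) L = q) (hq0 : 0 < q)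
    (h : ∀ n : ℕ, N (t + n) = N t) : p ≤ q := by
  classical
  haveI := char_of_alg (p := p) (L := L)
  set g : L[X] := ∏ i ∈ Finset.range q, (X + C (t ^ (p ^ i))) with hg
  have hmon : g.Monic := monic_prod_of_monic _ _ fun i _ => monic_X_add_C _
  have hdeg : g.natDegree = q := by
    rw [hg, natDegree_prod_of_monic _ _ fun i _ => monic_X_add_C _]
    simp only [natDegree_X_add_C, Finset.sum_const, Finset.card_range, smul_eq_mul, mul_one]
  have heval : ∀ n : ℕ, g.eval (n : L) = algebraMap (ZMod p) L (N t) := by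
    intro n
    rw [← h n, norm_shift, hq, hg, eval_prod]
    refine Finset.prod_congr rfl fun i _ => ?_
    rw [eval_add, eval_X, eval_C, add_comm]
  set f := g - C (algebraMap (ZMod p) L (N t)) with hf
  have hfd : f.natDegree = q := by
    rw [hf, natDegree_sub_C, hdeg]
  have hf0 : f ≠ 0 := by
    intro h0
    rw [h0, natDegree_zero] at hfd
    omega
  have hroots : (Finset.range p).image (fun n : ℕ => (n : L)) ⊆ f.roots.toFinset := by
    intro x hx
    obtain ⟨n, hn, rfl⟩ := Finset.mem_image.1 hx
    rw [Multiset.mem_toFinset, mem_roots hf0, IsRoot.def, hf, eval_sub, eval_C, heval, sub_self]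
  have hcard : ((Finset.range p).image (fun n : ℕ => (n : L))).card = p := by
    rw [Finset.card_image_of_injOn, Finset.card_range]
    intro a ha b hb hab
    rw [Finset.coe_range, Set.mem_Iio] at ha hb
    exact (CharP.natCast_injOn_Iio L p) ha hb hab
  calc p = ((Finset.range p).image (fun n : ℕ => (n : L))).card := hcard.symm
    _ ≤ f.roots.toFinset.card := Finset.card_le_card hroots
    _ ≤ Multiset.card f.roots := Multiset.toFinset_card_le _
    _ ≤ f.natDegree := card_roots' f
    _ = q := hfd

theorem s1470 {q : ℕ} (hq : Module.finrank (ZMod p) L = q) (hq0 : 0 < q)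
    (hinv : ∀ a ∈ ESet p L, a⁻¹ ∈ ESet p L) {a : L} (ha : a ∈ ESet p L) (ha1 : a ≠ 1) :
    p ≤ q := by
  have hc : 1 - a ≠ 0 := sub_ne_zero.2 (Ne.symm ha1)
  set t := (1 - a)⁻¹ with ht
  have ht0 : t ≠ 0 := inv_ne_zero hc
  have key : ∀ n : ℕ, t + n ≠ 0 ∧ 1 - (t + n)⁻¹ ∈ ESet p L := by
    intro n
    induction n with
    | zero =>
      rw [Nat.cast_zero, add_zero]
      refine ⟨ht0, ?_⟩
      rw [ht, inv_inv, sub_sub_cancel]
      exact ha
    | succ n ih =>
      obtain ⟨h1, h2⟩ := ih
      have h3 : 2 - (1 - (t + n)⁻¹) ∈ ESet p L := by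
        refine ⟨h2.2, ?_⟩
        rw [sub_sub_cancel]; exact h2.1
      have h4 := hinv _ h3
      have h5 : (2 : L) - (1 - (t + n)⁻¹) = (t + (n + 1 : ℕ)) * (t + n)⁻¹ := by
        push_cast
        field_simp
        ring
      have h6 : t + (n + 1 : ℕ) ≠ 0 := by
        intro h0
        have h7 := norm_ne h3.1
        rw [h5, h0, zero_mul] at h7
        exact h7 rfl
      refine ⟨h6, ?_⟩
      have h7 : ((2 : L) - (1 - (t + n)⁻¹))⁻¹ = 1 - (t + (n + 1 : ℕ))⁻¹ := by
        rw [h5, mul_inv, inv_inv]
        have h8 : t + (n : L) + 1 ≠ 0 := by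
          have h9 := h6
          push_cast at h9
          rwa [← add_assoc] at h9
        push_cast
        rw [← add_assoc]
        field_simp
        ring
      rw [← h7]
      exact h4
  have hN : ∀ n : ℕ, N (t + n) = N t := by
    intro n
    induction n with
    | zero => rw [Nat.cast_zero, add_zero]
    | succ n ih =>
      obtain ⟨h1, h2⟩ := key (n + 1)
      have h3 : 1 - (t + (n + 1 : ℕ))⁻¹ = (t + n) * (t + (n + 1 : ℕ))⁻¹ := by
        have h8 : t + (n : L) + 1 ≠ 0 := by
          have h9 := h1
          push_cast at h9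
          rwa [← add_assoc] at h9
        push_cast
        rw [← add_assoc]
        field_simp
        ring
      have h4 := h2.1
      rw [h3, map_mul, norm_inv h1, ih] at h4
      have h5 : N (t + (n + 1 : ℕ)) ≠ 0 := by
        intro h0
        exact h1 (Algebra.norm_eq_zero_iff.1 h0)
      exact (mul_inv_eq_one₀ h5).1 h4 |>.symm
  exact le_of_const hq hq0 hN

end

end CfsgLib.BGC
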