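import Cfsg.Agent.LibBGC1
import Mathlib.NumberTheory.LegendreSymbol.Complex

/-! B & G appendix C: counting pairs of norm one elements, exponent at least five. -/

namespace CfsgLib.BGC

open Finset

section
variable {L : Type*} [Field L] [Fintype L] [DecidableEq L]

/-- the exponential sum -/
noncomputable def TSum (ψ : AddChar L ℂ) (U : Finset L) (a : L) : ℂ := ∑ u ∈ U, ψ (a * u)

/-- a multiplicative subgroup as a finset -/
structure MCl (U : Finset L) : Prop where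
  h0 : (0 : L) ∉ U
  h1 : (1 : L) ∈ U
  mul : ∀ u ∈ U, ∀ v ∈ U, u * v ∈ U
  inv : ∀ u ∈ U, u⁻¹ ∈ U

variable {ψ : AddChar L ℂ} {U : Finset L}

theorem tsum_mul (hU : MCl U) {u : L} (hu : u ∈ U) (a : L) :
    TSum ψ U (a * u) = TSum ψ U a := by
  have hu0 : u ≠ 0 := fun h => hU.h0 (h ▸ hu)
  unfold TSum
  refine Finset.sum_nbij' (fun v => u * v) (fun v => u⁻¹ * v) ?_ ?_ ?_ ?_ ?_
  · intro v hv; exact hU.mul u hu v hv
  · intro v hv; exact hU.mul _ (hU.inv u hu) v hv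
  · intro v _; exact inv_mul_cancel_left₀ hu0 v
  · intro v _; exact mul_inv_cancel_left₀ hu0 v
  · intro v _; rw [mul_assoc]

theorem tsum_zero : TSum ψ U 0 = U.card := by
  unfold TSum
  simp

theorem tsum_neg (a : L) : TSum ψ U (-a) = (starRingEnd ℂ) (TSum ψ U a) := by
  unfold TSum
  rw [map_sum]
  refine Finset.sum_congr rfl fun u _ => ?_
  rw [neg_mul, AddChar.map_neg_eq_conj]

theorem sum_sq (hψ : ψ.IsPrimitive) :
    ∑ a : L, ‖TSum ψ U a‖ ^ 2 = (Fintype.card L : ℝ) * U.card := by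
  have h1 : (∑ a : L, TSum ψ U a * TSum ψ U (-a)) = (Fintype.card L : ℂ) * U.card := by
    have h2 : ∀ a : L, TSum ψ U a * TSum ψ U (-a) = ∑ u ∈ U, ∑ v ∈ U, ψ (a * (u - v)) := by
      intro a
      unfold TSum
      rw [Finset.sum_mul_sum]
      refine Finset.sum_congr rfl fun u _ => Finset.sum_congr rfl fun v _ => ?_
      rw [← AddChar.map_add_eq_mul]
      congr 1
      ring
    simp_rw [h2]
    rw [Finset.sum_comm]
    have h3 : ∀ u ∈ U, (∑ a : L, ∑ v ∈ U, ψ (a * (u - v))) = (Fintype.card L : ℂ) := by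
      intro u hu
      rw [Finset.sum_comm]
      simp_rw [AddChar.sum_mulShift _ hψ]
      rw [Finset.sum_eq_single u]
      · simp
      · intro v _ hv
        rw [if_neg (sub_ne_zero.2 (Ne.symm hv))]
        simp
      · intro h; exact absurd hu h
    rw [Finset.sum_congr rfl h3, Finset.sum_const, nsmul_eq_mul, mul_comm]
  have h4 : ((∑ a : L, ‖TSum ψ U a‖ ^ 2 : ℝ) : ℂ) = (Fintype.card L : ℂ) * U.card := by
    rw [← h1]
    push_cast
    refine Finset.sum_congr rfl fun a _ => ?_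
    rw [tsum_neg, Complex.mul_conj, Complex.normSq_eq_norm_sq]
    push_cast
    rfl
  exact_mod_cast h4

/-- the number of pairs with sum `c` -/
def rep (U : Finset L) (c : L) : ℕ := (U.filter fun u => c - u ∈ U).card

theorem sum_rep (hψ : ψ.IsPrimitive) (c : L) :
    ∑ a : L, TSum ψ U a ^ 2 * ψ (a * (-c)) = (Fintype.card L : ℂ) * rep U c := by
  have h2 : ∀ a : L, TSum ψ U a ^ 2 * ψ (a * (-c)) = ∑ u ∈ U, ∑ v ∈ U, ψ (a * (u + v - c)) := by
    intro a
    unfold TSum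
    rw [pow_two, Finset.sum_mul_sum, Finset.sum_mul]
    refine Finset.sum_congr rfl fun u _ => ?_
    rw [Finset.sum_mul]
    refine Finset.sum_congr rfl fun v _ => ?_
    rw [← AddChar.map_add_eq_mul, ← AddChar.map_add_eq_mul]
    congr 1
    ring
  simp_rw [h2]
  rw [Finset.sum_comm]
  have h3 : ∀ u ∈ U, (∑ a : L, ∑ v ∈ U, ψ (a * (u + v - c))) =
      if c - u ∈ U then (Fintype.card L : ℂ) else 0 := by
    intro u hu
    rw [Finset.sum_comm]
    simp_rw [AddChar.sum_mulShift _ hψ]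
    split_ifs with h
    · rw [Finset.sum_eq_single (c - u)]
      · simp
      · intro v _ hv
        rw [if_neg]
        · simp
        · intro h5
          apply hv
          linear_combination h5
      · intro h5; exact absurd h h5
    · refine Finset.sum_eq_zero fun v hv => ?_
      rw [if_neg]
      · simp
      · intro h5
        apply h
        have : c - u = v := by linear_combination -h5
        rwa [this]
  rw [Finset.sum_congr rfl h3, ← Finset.sum_filter, Finset.sum_const, nsmul_eq_mul, mul_comm]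
  rfl

theorem sum_ne (hψ : ψ.IsPrimitive) :
    ∑ a ∈ univ.erase (0 : L), ‖TSum ψ U a‖ ^ 2 =
      (Fintype.card L : ℝ) * U.card - (U.card : ℝ) ^ 2 := by
  have h1 := sum_sq (ψ := ψ) (U := U) hψ
  rw [← Finset.add_sum_erase _ _ (Finset.mem_univ (0 : L)), tsum_zero] at h1
  have h2 : ‖((U.card : ℕ) : ℂ)‖ = (U.card : ℝ) := by simp
  rw [h2] at h1
  linarith

theorem norm_le (hψ : ψ.IsPrimitive) (hU : MCl U) {a : L} (ha : a ≠ 0) :
    ‖TSum ψ U a‖ ^ 2 ≤ (Fintype.card L : ℝ) - U.card := by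
  have hn : (0 : ℝ) < U.card := by
    exact_mod_cast Finset.card_pos.2 ⟨1, hU.h1⟩
  have h1 : (U.card : ℝ) * ‖TSum ψ U a‖ ^ 2 ≤
      (Fintype.card L : ℝ) * U.card - (U.card : ℝ) ^ 2 := by
    rw [← sum_ne hψ]
    have h2 : ∑ b ∈ U.image (fun u => a * u), ‖TSum ψ U b‖ ^ 2 =
        (U.card : ℝ) * ‖TSum ψ U a‖ ^ 2 := by
      rw [Finset.sum_image]
      · rw [Finset.sum_congr rfl (fun u hu => by rw [tsum_mul hU hu]), Finset.sum_const,
          nsmul_eq_mul]
      · intro u _ v _ huv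
        exact mul_left_cancel₀ ha huv
    rw [← h2]
    refine Finset.sum_le_sum_of_subset_of_nonneg ?_ ?_
    · intro b hb
      obtain ⟨u, hu, rfl⟩ := Finset.mem_image.1 hb
      refine Finset.mem_erase.2 ⟨?_, Finset.mem_univ _⟩
      exact mul_ne_zero ha fun h => hU.h0 (h ▸ hu)
    · intro b _ _
      positivity
  have h3 : (U.card : ℝ) * ‖TSum ψ U a‖ ^ 2 ≤ (U.card : ℝ) * ((Fintype.card L : ℝ) - U.card) := by
    linarith [h1, sq (U.card : ℝ)]
  exact le_of_mul_le_mul_left h3 hn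

theorem err_eq (hU : MCl U) (c : L) :
    (U.card : ℂ) * ∑ a ∈ univ.erase (0 : L), TSum ψ U a ^ 2 * ψ (a * (-c)) =
      ∑ a ∈ univ.erase (0 : L), TSum ψ U a ^ 2 * TSum ψ U (a * (-c)) := by
  have h1 : ∀ u ∈ U, ∑ a ∈ univ.erase (0 : L), TSum ψ U a ^ 2 * ψ (a * (-c)) =
      ∑ a ∈ univ.erase (0 : L), TSum ψ U a ^ 2 * ψ (a * (-c) * u) := by
    intro u hu
    have hu0 : u ≠ 0 := fun h => hU.h0 (h ▸ hu)
    refine (Finset.sum_nbij' (fun a => a * u) (fun a => a * u⁻¹) ?_ ?_ ?_ ?_ ?_).symm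
    · intro a ha
      exact Finset.mem_erase.2 ⟨mul_ne_zero (Finset.ne_of_mem_erase ha) hu0, Finset.mem_univ _⟩
    · intro a ha
      exact Finset.mem_erase.2 ⟨mul_ne_zero (Finset.ne_of_mem_erase ha) (inv_ne_zero hu0),
        Finset.mem_univ _⟩
    · intro a _; exact mul_inv_cancel_right₀ hu0 a
    · intro a _; exact inv_mul_cancel_right₀ hu0 a
    · intro a _
      rw [tsum_mul hU hu]
      congr 2
      ring
  rw [← nsmul_eq_mul, ← Finset.sum_const, Finset.sum_congr rfl h1, Finset.sum_comm]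
  refine Finset.sum_congr rfl fun a _ => ?_
  rw [← Finset.mul_sum]
  rfl

theorem err_le (hψ : ψ.IsPrimitive) (hU : MCl U) {c : L} (hc : c ≠ 0) :
    ‖∑ a ∈ univ.erase (0 : L), TSum ψ U a ^ 2 * ψ (a * (-c))‖ ≤
      ((Fintype.card L : ℝ) - U.card) * Real.sqrt ((Fintype.card L : ℝ) - U.card) := by
  have hn : (0 : ℝ) < U.card := by
    exact_mod_cast Finset.card_pos.2 ⟨1, hU.h1⟩
  have h1 := congrArg norm (err_eq (ψ := ψ) hU c)
  rw [norm_mul] at h1
  have h2 : ‖((U.card : ℕ) : ℂ)‖ = (U.card : ℝ) := by simp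
  rw [h2] at h1
  have h3 : ‖∑ a ∈ univ.erase (0 : L), TSum ψ U a ^ 2 * TSum ψ U (a * (-c))‖ ≤
      ∑ a ∈ univ.erase (0 : L), ‖TSum ψ U a‖ ^ 2 *
        Real.sqrt ((Fintype.card L : ℝ) - U.card) := by
    refine (norm_sum_le _ _).trans (Finset.sum_le_sum fun a ha => ?_)
    rw [norm_mul, norm_pow]
    refine mul_le_mul_of_nonneg_left ?_ (by positivity)
    refine Real.le_sqrt_of_sq_le (norm_le hψ hU ?_)
    exact mul_ne_zero (Finset.ne_of_mem_erase ha) (neg_ne_zero.2 hc)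
  rw [← Finset.sum_mul, sum_ne hψ, ← h1] at h3
  have h4 : (U.card : ℝ) * ‖∑ a ∈ univ.erase (0 : L), TSum ψ U a ^ 2 * ψ (a * (-c))‖ ≤
      (U.card : ℝ) * (((Fintype.card L : ℝ) - U.card) *
        Real.sqrt ((Fintype.card L : ℝ) - U.card)) := by
    refine h3.trans (le_of_eq ?_)
    ring
  exact le_of_mul_le_mul_left h4 hn

theorem rep_bound (hU : MCl U) {c : L} (hc : c ≠ 0) :
    |(U.card : ℝ) ^ 2 - (Fintype.card L : ℝ) * rep U c| ≤
      ((Fintype.card L : ℝ) - U.card) * Real.sqrt ((Fintype.card L : ℝ) - U.card) := by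
  have hψ := AddChar.FiniteField.primitiveChar_to_Complex_isPrimitive L
  set ψ := AddChar.FiniteField.primitiveChar_to_Complex L
  have h1 := sum_rep (U := U) hψ c
  rw [← Finset.add_sum_erase _ _ (Finset.mem_univ (0 : L)), tsum_zero, zero_mul,
    AddChar.map_zero_eq_one, mul_one] at h1
  have h2 := err_le hψ hU hc
  have h3 : (∑ a ∈ univ.erase (0 : L), TSum ψ U a ^ 2 * ψ (a * (-c))) =
      -(((U.card : ℝ) ^ 2 - (Fintype.card L : ℝ) * rep U c : ℝ) : ℂ) := by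
    push_cast
    linear_combination h1
  rw [h3, norm_neg, Complex.norm_real] at h2
  exact h2

theorem rep_ge {p q : ℕ} (hp : 2 ≤ p) (hq : 5 ≤ q) (hL : Fintype.card L = p ^ q)
    (hn : U.card * (p - 1) = p ^ q - 1) (hU : MCl U) {c : L} (hc : c ≠ 0) : 2 ≤ rep U c := by
  by_contra hlt
  have hr : rep U c ≤ 1 := by omega
  have hb := rep_bound hU hc
  rw [hL] at hb
  set n := U.card with hnn
  have hpos : 0 < p ^ (q - 2) := pow_pos (by omega) _
  -- lower bound for n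
  have h1 : p ^ (q - 1) + p ^ (q - 2) ≤ n := by
    have h2 : (p ^ (q - 1) + p ^ (q - 2)) * (p - 1) = p ^ q - p ^ (q - 2) := by
      obtain ⟨m, rfl⟩ : ∃ m, q = m + 2 := ⟨q - 2, by omega⟩
      obtain ⟨s, rfl⟩ : ∃ s, p = s + 1 := ⟨p - 1, by omega⟩
      have e1 : m + 2 - 1 = m + 1 := by omega
      have e2 : m + 2 - 2 = m := by omega
      rw [e1, e2]
      have e3 : s + 1 - 1 = s := by omega
      rw [e3]
      refine Nat.eq_sub_of_add_eq ?_
      ring
    have h3 : (p ^ (q - 1) + p ^ (q - 2)) * (p - 1) ≤ n * (p - 1) := by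
      rw [h2, hn]
      omega
    exact Nat.le_of_mul_le_mul_right h3 (by omega)
  have h4 : n ≤ p ^ q := by
    have h5 : n * 1 ≤ n * (p - 1) := Nat.mul_le_mul_left _ (by omega)
    omega
  have hnpos : 0 < n := Finset.card_pos.2 ⟨1, hU.h1⟩
  -- n^2 ≥ p^(2q-2) + p^q
  have h6 : p ^ (2 * q - 2) + p ^ q ≤ n ^ 2 := by
    have h7 : (p ^ (q - 1) + p ^ (q - 2)) ^ 2 ≤ n ^ 2 := Nat.pow_le_pow_left h1 2
    refine le_trans ?_ h7
    have h8 : p ^ (2 * q - 2) = (p ^ (q - 1)) ^ 2 := by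
      rw [← pow_mul]; congr 1; omega
    have h9 : p ^ q ≤ p ^ (q - 1) * p ^ (q - 2) := by
      rw [← pow_add]
      exact Nat.pow_le_pow_right (by omega) (by omega)
    rw [h8]
    nlinarith [Nat.zero_le (p ^ (q - 2))]
  have h10 : ((p : ℝ) ^ (2 * q - 2)) ≤ |(n : ℝ) ^ 2 - ((p ^ q : ℕ) : ℝ) * rep U c| := by
    refine le_trans ?_ (le_abs_self _)
    have h11 : ((p ^ (2 * q - 2) + p ^ q : ℕ) : ℝ) ≤ ((n ^ 2 : ℕ) : ℝ) := by exact_mod_cast h6
    push_cast at h11 ⊢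
    have h12 : (p : ℝ) ^ q * (rep U c : ℝ) ≤ (p : ℝ) ^ q * 1 := by
      refine mul_le_mul_of_nonneg_left ?_ (by positivity)
      exact_mod_cast hr
    linarith
  have h13 := h10.trans hb
  have h14 : (0 : ℝ) ≤ ((p ^ q : ℕ) : ℝ) - n := by
    have : (n : ℝ) ≤ ((p ^ q : ℕ) : ℝ) := by exact_mod_cast h4
    linarith
  have h15 : ((p : ℝ) ^ (2 * q - 2)) ^ 2 ≤ (((p ^ q : ℕ) : ℝ) - n) ^ 3 := by
    have h16 := pow_le_pow_left₀ (by positivity) h13 2
    refine h16.trans (le_of_eq ?_)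
    rw [mul_pow, Real.sq_sqrt h14]
    ring
  have h17 : (((p ^ q : ℕ) : ℝ) - n) ^ 3 < (((p ^ q : ℕ) : ℝ)) ^ 3 := by
    refine pow_lt_pow_left₀ ?_ h14 (by norm_num)
    have : (0 : ℝ) < n := by exact_mod_cast hnpos
    linarith
  have h18 : ((p : ℝ) ^ (2 * q - 2)) ^ 2 < (((p ^ q : ℕ) : ℝ)) ^ 3 := lt_of_le_of_lt h15 h17
  have h19 : (p ^ (2 * q - 2)) ^ 2 < (p ^ q) ^ 3 := by exact_mod_cast h18
  rw [← pow_mul, ← pow_mul] at h19
  have h20 := (Nat.pow_lt_pow_iff_right (by omega : 1 < p)).1 h19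
  omega

end

end CfsgLib.BGC
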