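import Cfsg.Agent.LibBGC2
import Mathlib.RingTheory.Norm.Basic
import Mathlib.Algebra.Polynomial.SpecificDegree

/-! B & G appendix C: the cubic case, two elements in the norm one pair set. -/

namespace CfsgLib.BGC

open Polynomial

theorem norm_sub_gen {K S : Type*} [Field K] [CommRing S] [Algebra K S]
    (pb : PowerBasis K S) (c : K) :
    Algebra.norm K (algebraMap K S c - pb.gen) = (minpoly K pb.gen).eval c := by
  rw [Algebra.norm_eq_matrix_det pb.basis, ← charpoly_leftMulMatrix, Matrix.eval_charpoly, map_sub]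
  congr 2
  rw [AlgHom.commutes]
  rfl

section
variable {p : ℕ} [Fact p.Prime]

/-- the cubic -/
noncomputable def cub (s : ZMod p) : (ZMod p)[X] :=
  X ^ 3 - C s * X ^ 2 + C (2 * s - 3) * X - 1

theorem cub_natDegree (s : ZMod p) : (cub s).natDegree = 3 := by
  unfold cub
  compute_degree!

theorem cub_monic (s : ZMod p) : (cub s).Monic := by
  unfold cub
  monicity!

theorem cub_eval (s x : ZMod p) : (cub s).eval x = x ^ 3 - s * x ^ 2 + (2 * s - 3) * x - 1 := by
  unfold cub
  simp

theorem exists_cub (hp : p ≠ 2) : ∃ s : ZMod p, ∀ x, ¬ IsRoot (cub s) x := by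
  classical
  by_contra hcon
  push Not at hcon
  choose x hx using hcon
  have hx' : ∀ s, x s ^ 3 - s * x s ^ 2 + (2 * s - 3) * x s - 1 = 0 := by
    intro s
    rw [← cub_eval]; exact hx s
  have hp1 : p.Prime := Fact.out
  have h2 : (2 : ZMod p) ≠ 0 := by
    intro h
    have h3 : ((2 : ℕ) : ZMod p) = 0 := by exact_mod_cast h
    rw [ZMod.natCast_eq_zero_iff] at h3
    exact hp ((Nat.prime_dvd_prime_iff_eq hp1 Nat.prime_two).1 h3)
  have h0 : ∀ s, x s ≠ 0 := by
    intro s h
    have h3 := hx' s
    rw [h] at h3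
    have : (1 : ZMod p) = 0 := by linear_combination -h3
    exact one_ne_zero this
  have h0' : ∀ s, x s ≠ 2 := by
    intro s h
    have h3 := hx' s
    rw [h] at h3
    have : (1 : ZMod p) = 0 := by linear_combination h3
    exact one_ne_zero this
  have hinj : Function.Injective x := by
    intro s t hst
    have h3 := hx' s
    have h4 := hx' t
    rw [hst] at h3
    have h5 : (s - t) * (x t * (x t - 2)) = 0 := by linear_combination h4 - h3
    rcases mul_eq_zero.1 h5 with h6 | h6
    · exact sub_eq_zero.1 h6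
    · rcases mul_eq_zero.1 h6 with h7 | h7
      · exact absurd h7 (h0 t)
      · exact absurd (sub_eq_zero.1 h7) (h0' t)
  obtain ⟨s, hs⟩ := (Finite.injective_iff_surjective.1 hinj) 0
  exact h0 s hs

theorem exists_cubic (hp : p ≠ 2) {L : Type*} [Field L] [Finite L] [Algebra (ZMod p) L]
    (hL : Module.finrank (ZMod p) L = 3) : ∃ a ∈ ESet p L, a ≠ 1 := by
  classical
  obtain ⟨s, hs⟩ := exists_cub hp
  have hirr : Irreducible (cub s) := by
    refine irreducible_of_degree_le_three_of_not_isRoot ?_ hs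
    rw [cub_natDegree]
    decide
  haveI : Fact (Irreducible (cub s)) := ⟨hirr⟩
  have hne : cub s ≠ 0 := (cub_monic s).ne_zero
  set pb := AdjoinRoot.powerBasis hne with hpb
  have hdim : pb.dim = 3 := by rw [hpb, AdjoinRoot.powerBasis_dim, cub_natDegree]
  haveI : Module.Finite (ZMod p) (AdjoinRoot (cub s)) := pb.finite
  haveI : Finite (AdjoinRoot (cub s)) := Module.finite_of_finite (ZMod p)
  letI := Fintype.ofFinite (AdjoinRoot (cub s))
  letI := Fintype.ofFinite L
  haveI : Module.Finite (ZMod p) L := Module.Finite.of_finite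
  have hc1 : Fintype.card (AdjoinRoot (cub s)) = p ^ 3 := by
    rw [Module.card_eq_pow_finrank (K := ZMod p), pb.finrank, hdim, ZMod.card]
  have hc2 : Fintype.card L = p ^ 3 := by
    rw [Module.card_eq_pow_finrank (K := ZMod p), hL, ZMod.card]
  let e : AdjoinRoot (cub s) ≃ₐ[ZMod p] L := FiniteField.algEquivOfCardEq p (hc1.trans hc2.symm)
  have hmp : minpoly (ZMod p) pb.gen = cub s := by
    rw [hpb, AdjoinRoot.minpoly_powerBasis_gen_of_monic (cub_monic s)]
  have hfr : Module.finrank (ZMod p) (AdjoinRoot (cub s)) = 3 := by rw [pb.finrank, hdim]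
  have hN0 : Algebra.norm (ZMod p) pb.gen = 1 := by
    have h1 := norm_sub_gen pb 0
    rw [hmp, cub_eval, map_zero, zero_sub] at h1
    have h2 : Algebra.norm (ZMod p) (-pb.gen) = - Algebra.norm (ZMod p) pb.gen := by
      have h3 : -pb.gen = algebraMap (ZMod p) _ (-1) * pb.gen := by
        rw [map_neg, map_one, neg_one_mul]
      rw [h3, map_mul, Algebra.norm_algebraMap, hfr]
      ring
    rw [h2] at h1
    linear_combination -h1
  have hN2 : Algebra.norm (ZMod p) (2 - pb.gen) = 1 := by
    have h1 := norm_sub_gen pb 2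
    rw [hmp, cub_eval, map_ofNat] at h1
    rw [h1]
    ring
  refine ⟨e pb.gen, ⟨?_, ?_⟩, ?_⟩
  · rw [Algebra.norm_eq_of_algEquiv, hN0]
  · have : (2 : L) - e pb.gen = e (2 - pb.gen) := by rw [map_sub, map_ofNat]
    rw [this, Algebra.norm_eq_of_algEquiv, hN2]
  · intro h
    have h1 : pb.gen = 1 := by
      have := congrArg e.symm h
      rwa [AlgEquiv.symm_apply_apply, map_one] at this
    have h2 := norm_sub_gen pb 1
    rw [hmp, map_one, h1, sub_self, Algebra.norm_zero] at h2
    exact hs 1 h2.symm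

end

section
variable {p : ℕ} [Fact p.Prime] {L : Type*} [Field L] [Finite L] [Algebra (ZMod p) L]

theorem card_L [Fintype L] {q : ℕ} (hL : Module.finrank (ZMod p) L = q) :
    Fintype.card L = p ^ q := by
  haveI : Module.Finite (ZMod p) L := Module.Finite.of_finite
  rw [Module.card_eq_pow_finrank (K := ZMod p), hL, ZMod.card]

open Classical in
/-- the norm one elements -/
noncomputable def UFin (p : ℕ) [Fact p.Prime] (L : Type*) [Field L] [Fintype L]
    [Algebra (ZMod p) L] : Finset L :=
  Finset.univ.filter fun x => Algebra.norm (ZMod p) x = 1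

theorem mem_UFin [Fintype L] {x : L} : x ∈ UFin p L ↔ Algebra.norm (ZMod p) x = 1 := by
  unfold UFin
  simp

theorem mcl_UFin [Fintype L] [DecidableEq L] : MCl (UFin p L) where
  h0 := by
    rw [mem_UFin, Algebra.norm_zero]
    exact zero_ne_one
  h1 := by rw [mem_UFin, map_one]
  mul := by
    intro u hu v hv
    rw [mem_UFin] at hu hv ⊢
    rw [map_mul, hu, hv, one_mul]
  inv := by
    intro u hu
    rw [mem_UFin] at hu ⊢
    rw [norm_inv (norm_ne hu), hu, inv_one]

theorem card_UFin [Fintype L] {q : ℕ} (hL : Module.finrank (ZMod p) L = q) :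
    (UFin p L).card * (p - 1) = p ^ q - 1 := by
  classical
  have h1 := FiniteField.unitsMap_norm_surjective (ZMod p) L
  set φ := Units.map (Algebra.norm (ZMod p) (S := L)) with hφ
  have h2 : Nat.card φ.ker * Nat.card (ZMod p)ˣ = Nat.card Lˣ := by
    rw [← Subgroup.card_mul_index φ.ker, Subgroup.index_ker, MonoidHom.range_eq_top.2 h1]
    congr 1
    exact (Nat.card_congr (Equiv.Set.univ _)).symm
  have h3 : Nat.card (ZMod p)ˣ = p - 1 := by
    rw [Nat.card_eq_fintype_card, ZMod.card_units]
  have h4 : Nat.card Lˣ = p ^ q - 1 := by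
    rw [Nat.card_units, Nat.card_eq_fintype_card, card_L hL]
  have h5 : Nat.card φ.ker = (UFin p L).card := by
    rw [← Nat.card_eq_finsetCard]
    refine Nat.card_congr ⟨fun x => ⟨(x.1 : L), ?_⟩, fun x => ⟨Units.mk0 x.1 ?_, ?_⟩, ?_, ?_⟩
    · rw [mem_UFin]
      have := x.2
      rw [MonoidHom.mem_ker] at this
      exact congrArg Units.val this
    · have := x.2
      rw [mem_UFin] at this
      exact norm_ne this
    · rw [MonoidHom.mem_ker]
      have := x.2
      rw [mem_UFin] at this
      exact Units.ext this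
    · intro x; ext; rfl
    · intro x; rfl
  rw [← h5, ← h3, h2, h4]

theorem exists_ne_one (hp : p ≠ 2) {q : ℕ} (hq : q.Prime) (hq2 : q ≠ 2)
    (hL : Module.finrank (ZMod p) L = q) : ∃ a ∈ ESet p L, a ≠ 1 := by
  classical
  letI := Fintype.ofFinite L
  haveI := char_of_alg (p := p) (L := L)
  have hp1 : p.Prime := Fact.out
  by_cases h3 : q = 3
  · subst h3
    exact exists_cubic hp hL
  have h5 : 5 ≤ q := by
    have h2 := hq.two_le
    by_contra hlt
    have : q = 4 := by omega
    subst this
    exact absurd hq (by decide)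
  have h2 : (2 : L) ≠ 0 := by
    intro h
    have h3 : ((2 : ℕ) : L) = 0 := by exact_mod_cast h
    rw [CharP.cast_eq_zero_iff L p] at h3
    exact hp ((Nat.prime_dvd_prime_iff_eq hp1 Nat.prime_two).1 h3)
  have h4 := rep_ge hp1.two_le h5 (card_L hL) (card_UFin hL) (mcl_UFin (p := p) (L := L)) h2
  obtain ⟨a, ha, ha1⟩ := Finset.exists_mem_ne h4 1
  rw [Finset.mem_filter, mem_UFin, mem_UFin] at ha
  exact ⟨a, ha, ha1⟩

theorem one_mem_ESet : (1 : L) ∈ ESet p L := by
  refine ⟨map_one _, ?_⟩
  have : (2 : L) - 1 = 1 := by norm_num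
  rw [this, map_one]

end

theorem s1471 (p q : ℕ) [Fact p.Prime] [Fact q.Prime] (hp : p ≠ 2) (hq : q ≠ 2) :
    2 ≤ Set.ncard (ESet p (GaloisField p q)) := by
  have hq1 : q.Prime := Fact.out
  obtain ⟨a, ha, ha1⟩ := exists_ne_one hp hq1 hq (GaloisField.finrank p hq1.ne_zero)
  have h1 : ({1, a} : Set (GaloisField p q)) ⊆ ESet p (GaloisField p q) := by
    intro x hx
    rcases hx with rfl | rfl
    · exact one_mem_ESet
    · exact ha
  have h2 := Set.ncard_le_ncard h1 (Set.toFinite _)
  rwa [Set.ncard_pair (Ne.symm ha1)] at h2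

end CfsgLib.BGC
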