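import Cfsg.Agent.LibCharBasic

/-! Brauer's splitting field theorem: `K`-forms of irreducible representations. -/

set_option autoImplicit false
set_option linter.all false

namespace Cfsg.Agent.LibBSF1

open Cfsg CfsgLib CfsgLib.CharBasic
open scoped ComplexConjugate

section
variable {G : Type*} [Group G] [Fintype G] {V : Type*} [AddCommGroup V] [Module ℂ V] [FiniteDimensional ℂ V]

theorem avg_scalar (ρ : Representation ℂ G V) [ρ.IsIrreducible] (T : Module.End ℂ V) :
    (Module.finrank ℂ V : ℂ) • ∑ g : G, ρ g * T * ρ g⁻¹ = ((Nat.card G : ℂ) * LinearMap.trace ℂ V T) • (1 : Module.End ℂ V) := by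
  obtain ⟨c, hc⟩ := schur_scalar ρ (∑ g : G, ρ g * T * ρ g⁻¹) (by
    intro h v
    have h1 : (∑ g : G, ρ g * T * ρ g⁻¹) * ρ h = ρ h * ∑ g : G, ρ g * T * ρ g⁻¹ := by
      rw [Finset.sum_mul, Finset.mul_sum]
      refine Fintype.sum_equiv (Equiv.mulLeft h⁻¹) _ _ fun g => ?_
      simp only [Equiv.coe_mulLeft, mul_inv_rev, inv_inv, map_mul, ← mul_assoc]
      rw [← map_mul ρ h h⁻¹, mul_inv_cancel, map_one, one_mul]
    exact LinearMap.congr_fun h1 v)
  have h2 : LinearMap.trace ℂ V (∑ g : G, ρ g * T * ρ g⁻¹) = (Nat.card G : ℂ) * LinearMap.trace ℂ V T := by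
    rw [map_sum]
    have : ∀ g : G, LinearMap.trace ℂ V (ρ g * T * ρ g⁻¹) = LinearMap.trace ℂ V T := by
      intro g
      rw [LinearMap.trace_mul_comm, ← mul_assoc, ← map_mul, inv_mul_cancel, map_one, one_mul]
    rw [Finset.sum_congr rfl fun g _ => this g, Finset.sum_const, nsmul_eq_mul, Finset.card_univ, Nat.card_eq_fintype_card]
  rw [hc] at h2
  rw [map_smul, LinearMap.trace_id, smul_eq_mul] at h2
  rw [hc, smul_smul, ← h2, mul_comm]
  rfl

theorem trace_coord (f : Module.End ℂ V) (b : Module.Basis (Fin (Module.finrank ℂ V)) ℂ V) :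
    LinearMap.trace ℂ V f = ∑ j, b.coord j (f (b j)) := by
  rw [LinearMap.trace_eq_matrix_trace ℂ b, Matrix.trace]
  simp [LinearMap.toMatrix_apply]

theorem formula (ρ : Representation ℂ G V) [ρ.IsIrreducible] (z : Module.End ℂ V) :
    (Module.finrank ℂ V : ℂ) • ∑ g : G, LinearMap.trace ℂ V (ρ g⁻¹ * z) • ρ g = (Nat.card G : ℂ) • z := by
  ext w
  let b := Module.finBasis ℂ V
  have h1 : ∀ j, (Module.finrank ℂ V : ℂ) • ∑ g : G, b.coord j (ρ g⁻¹ (z (b j))) • ρ g w =
      ((Nat.card G : ℂ) * b.coord j w) • z (b j) := by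
    intro j
    have h2 := LinearMap.congr_fun (avg_scalar ρ ((b.coord j).smulRight w)) (z (b j))
    have h3 : LinearMap.trace ℂ V ((b.coord j).smulRight w) = b.coord j w := by
      rw [trace_coord _ b, Finset.sum_eq_single j]
      · simp
      · intro i _ hij
        simp [Finsupp.single_apply, hij]
      · intro h
        exact absurd (Finset.mem_univ j) h
    rw [h3] at h2
    simpa [LinearMap.sum_apply] using h2
  have h4 := Finset.sum_congr (s₁ := Finset.univ) rfl fun j _ => h1 j
  rw [← Finset.smul_sum, Finset.sum_comm] at h4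
  have h5 : ∑ j, ((Nat.card G : ℂ) * b.coord j w) • z (b j) = (Nat.card G : ℂ) • z w := by
    have : z w = ∑ j, b.coord j w • z (b j) := by
      conv_lhs => rw [← b.sum_repr w, map_sum]
      simp
    rw [this, Finset.smul_sum]
    simp [mul_smul]
  rw [h5] at h4
  rw [LinearMap.smul_apply, LinearMap.smul_apply, ← h4, LinearMap.sum_apply]
  congr 1
  refine Finset.sum_congr rfl fun g _ => ?_
  rw [LinearMap.smul_apply, trace_coord _ b, Finset.sum_smul]
  rfl

theorem burnside_top (ρ : Representation ℂ G V) [ρ.IsIrreducible] :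
    Submodule.span ℂ (Set.range ρ) = ⊤ := by
  rw [eq_top_iff]
  rintro z -
  have hG : (Nat.card G : ℂ) ≠ 0 := by exact_mod_cast Nat.card_pos.ne'
  have h1 : z = (Nat.card G : ℂ)⁻¹ • ((Module.finrank ℂ V : ℂ) • ∑ g : G, LinearMap.trace ℂ V (ρ g⁻¹ * z) • ρ g) := by
    rw [formula, smul_smul, inv_mul_cancel₀ hG, one_smul]
  rw [h1]
  apply Submodule.smul_mem
  apply Submodule.smul_mem
  apply Submodule.sum_mem
  intro g _
  exact Submodule.smul_mem _ _ (Submodule.subset_span ⟨g, rfl⟩)

theorem eq_zero_of_trace (ρ : Representation ℂ G V) [ρ.IsIrreducible] (z : Module.End ℂ V)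
    (h : ∀ g : G, LinearMap.trace ℂ V (ρ g * z) = 0) : z = 0 := by
  have hG : (Nat.card G : ℂ) ≠ 0 := by exact_mod_cast Nat.card_pos.ne'
  have h1 := formula ρ z
  simp only [h, zero_smul, Finset.sum_const_zero, smul_zero] at h1
  exact ((smul_eq_zero.mp h1.symm).resolve_left hG)

variable (K : Type*) [Field K] [Algebra K ℂ] [Module K V] [IsScalarTower K ℂ V]

/-- the `K`-span of `ρ(G)` -/
def BK (ρ : Representation ℂ G V) : Submodule K (Module.End ℂ V) := Submodule.span K (Set.range ρ)

theorem mem_BK (ρ : Representation ℂ G V) (g : G) : ρ g ∈ BK K ρ := Submodule.subset_span ⟨g, rfl⟩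

theorem BK_mul (ρ : Representation ℂ G V) {x y : Module.End ℂ V} (hx : x ∈ BK K ρ) (hy : y ∈ BK K ρ) :
    x * y ∈ BK K ρ := by
  induction hx using Submodule.span_induction with
  | mem x hx =>
    obtain ⟨g, rfl⟩ := hx
    induction hy using Submodule.span_induction with
    | mem y hy =>
      obtain ⟨h, rfl⟩ := hy
      rw [← map_mul]; exact mem_BK K ρ _
    | zero => rw [mul_zero]; exact Submodule.zero_mem _
    | add a b _ _ ha hb => rw [mul_add]; exact Submodule.add_mem _ ha hb
    | smul k a _ ha => rw [mul_smul_comm]; exact Submodule.smul_mem _ _ ha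
  | zero => rw [zero_mul]; exact Submodule.zero_mem _
  | add a b _ _ ha hb => rw [add_mul]; exact Submodule.add_mem _ ha hb
  | smul k a _ ha => rw [smul_mul_assoc]; exact Submodule.smul_mem _ _ ha

theorem BK_trace (ρ : Representation ℂ G V) (hχ : ∀ g, ∃ k : K, ρ.character g = algebraMap K ℂ k)
    {x : Module.End ℂ V} (hx : x ∈ BK K ρ) (g : G) : ∃ k : K, LinearMap.trace ℂ V (ρ g * x) = algebraMap K ℂ k := by
  induction hx using Submodule.span_induction with
  | mem x hx =>
    obtain ⟨h, rfl⟩ := hx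
    rw [← map_mul]; exact hχ _
  | zero => exact ⟨0, by rw [mul_zero, map_zero, map_zero]⟩
  | add a b _ _ ha hb =>
    obtain ⟨k, hk⟩ := ha
    obtain ⟨l, hl⟩ := hb
    exact ⟨k + l, by rw [mul_add, map_add, map_add, hk, hl]⟩
  | smul c a _ ha =>
    obtain ⟨k, hk⟩ := ha
    refine ⟨c * k, ?_⟩
    rw [mul_smul_comm, ← algebraMap_smul ℂ c (ρ g * a), map_smul, hk, map_mul, smul_eq_mul]

theorem indep (ρ : Representation ℂ G V) [ρ.IsIrreducible] (hχ : ∀ g, ∃ k : K, ρ.character g = algebraMap K ℂ k)
    {ι : Type*} [Fintype ι] (x : ι → Module.End ℂ V) (hx : ∀ i, x i ∈ BK K ρ) (hli : LinearIndependent K x) :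
    LinearIndependent ℂ x := by
  rw [Fintype.linearIndependent_iff]
  intro c hc j
  rw [← Module.forall_dual_apply_eq_zero_iff K (c j)]
  intro f
  rw [Fintype.linearIndependent_iff] at hli
  apply hli (fun i => f (c i))
  apply eq_zero_of_trace ρ
  intro g
  choose t ht using fun i => BK_trace K ρ hχ (hx i) g
  have h1 : ∑ i, c i * algebraMap K ℂ (t i) = 0 := by
    have h2 := congrArg (fun y => LinearMap.trace ℂ V (ρ g * y)) hc
    simp only [Finset.mul_sum, mul_smul_comm, map_sum, map_smul, ht, mul_zero, map_zero, smul_eq_mul] at h2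
    exact h2
  rw [Finset.mul_sum, map_sum]
  have h3 : ∀ i, LinearMap.trace ℂ V (ρ g * (f (c i) • x i)) = algebraMap K ℂ (f (c i * algebraMap K ℂ (t i))) := by
    intro i
    rw [mul_smul_comm, ← algebraMap_smul ℂ (f (c i)) (ρ g * x i), map_smul, ht, smul_eq_mul, ← map_mul]
    congr 1
    rw [mul_comm (c i), ← Algebra.smul_def, map_smul, smul_eq_mul, mul_comm]
  rw [Finset.sum_congr rfl fun i _ => h3 i, ← map_sum, ← map_sum, h1, map_zero, map_zero]

instance finBK (ρ : Representation ℂ G V) : Module.Finite K (BK K ρ) :=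
  FiniteDimensional.span_of_finite K (Set.toFinite _)

theorem finrank_eq (ρ : Representation ℂ G V) [ρ.IsIrreducible] (hχ : ∀ g, ∃ k : K, ρ.character g = algebraMap K ℂ k)
    (X : Submodule K (Module.End ℂ V)) (hX : X ≤ BK K ρ) :
    Module.finrank K X = Module.finrank ℂ (Submodule.span ℂ (X : Set (Module.End ℂ V))) := by
  haveI : Module.Finite K X := Submodule.finiteDimensional_of_le hX
  let b := Module.finBasis K X
  have h1 : LinearIndependent K (fun i => (b i : Module.End ℂ V)) :=
    b.linearIndependent.map' X.subtype (Submodule.ker_subtype X)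
  have h2 := indep K ρ hχ _ (fun i => hX (b i).2) h1
  have h3 : Submodule.span ℂ (X : Set (Module.End ℂ V)) = Submodule.span ℂ (Set.range fun i => (b i : Module.End ℂ V)) := by
    apply le_antisymm
    · rw [Submodule.span_le]
      intro x hx
      have h4 : x = ∑ i, b.repr ⟨x, hx⟩ i • (b i : Module.End ℂ V) := by
        have := congrArg Subtype.val (b.sum_repr ⟨x, hx⟩)
        refine this.symm.trans ?_
        rw [AddSubmonoidClass.coe_finset_sum]
        rfl
      rw [h4]
      apply Submodule.sum_mem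
      intro i _
      rw [← algebraMap_smul ℂ]
      exact Submodule.smul_mem _ _ (Submodule.subset_span ⟨i, rfl⟩)
    · rw [Submodule.span_le]
      rintro _ ⟨i, rfl⟩
      exact Submodule.subset_span (b i).2
  rw [h3, finrank_span_eq_card h2, Fintype.card_fin]

/-- left ideals -/
def LI (ρ : Representation ℂ G V) (X : Submodule K (Module.End ℂ V)) : Prop :=
  X ≤ BK K ρ ∧ ∀ g : G, ∀ x ∈ X, ρ g * x ∈ X

theorem exists_minLI (ρ : Representation ℂ G V) [ρ.IsIrreducible] : ∃ S : Submodule K (Module.End ℂ V), LI K ρ S ∧ S ≠ ⊥ ∧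
    ∀ X : Submodule K (Module.End ℂ V), LI K ρ X → X ≠ ⊥ → Module.finrank K S ≤ Module.finrank K X := by
  haveI := irr_nontrivial ρ
  obtain ⟨S, hS, hmin⟩ := (measure (fun X : Submodule K (Module.End ℂ V) => Module.finrank K X)).wf.has_min
    {X : Submodule K (Module.End ℂ V) | LI K ρ X ∧ X ≠ ⊥} ⟨BK K ρ, ⟨le_rfl, fun g x hx => BK_mul K ρ (mem_BK K ρ g) hx⟩, by
      intro h
      have h1 : (1 : Module.End ℂ V) ∈ BK K ρ := by
        rw [← map_one ρ]; exact mem_BK K ρ 1
      rw [h, Submodule.mem_bot] at h1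
      exact one_ne_zero h1⟩
  refine ⟨S, hS.1, hS.2, fun X h1 h2 => ?_⟩
  exact not_lt.mp (hmin X ⟨h1, h2⟩)

theorem exists_mul_ne (ρ : Representation ℂ G V) [ρ.IsIrreducible] {x s : Module.End ℂ V} (hx : x ≠ 0) (hs : s ≠ 0) :
    ∃ g : G, x * (ρ g * s) ≠ 0 := by
  by_contra hcon
  push Not at hcon
  have h1 : ∀ y : Module.End ℂ V, x * (y * s) = 0 := by
    intro y
    have hy : y ∈ Submodule.span ℂ (Set.range ρ) := by rw [burnside_top]; exact Submodule.mem_top
    induction hy using Submodule.span_induction with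
    | mem y hy =>
      obtain ⟨g, rfl⟩ := hy
      exact hcon g
    | zero => rw [zero_mul, mul_zero]
    | add a b _ _ ha hb => rw [add_mul, mul_add, ha, hb, add_zero]
    | smul k a _ ha => rw [smul_mul_assoc, mul_smul_comm, ha, smul_zero]
  obtain ⟨w, hw⟩ : ∃ w, x w ≠ 0 := by
    by_contra h
    push Not at h
    exact hx (LinearMap.ext h)
  obtain ⟨u, hu⟩ : ∃ u, s u ≠ 0 := by
    by_contra h
    push Not at h
    exact hs (LinearMap.ext h)
  obtain ⟨φ, hφ⟩ := Module.Projective.exists_dual_ne_zero ℂ hu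
  have h2 := LinearMap.congr_fun (h1 (φ.smulRight w)) u
  have h3 : x (φ (s u) • w) = 0 := h2
  rw [map_smul] at h3
  exact (smul_ne_zero hφ hw) h3

theorem LI_mul (ρ : Representation ℂ G V) {S : Submodule K (Module.End ℂ V)} (hS : LI K ρ S)
    {y : Module.End ℂ V} (hy : y ∈ BK K ρ) {z : Module.End ℂ V} (hz : z ∈ S) : y * z ∈ S := by
  induction hy using Submodule.span_induction with
  | mem y hy =>
    obtain ⟨g, rfl⟩ := hy
    exact hS.2 g z hz
  | zero => rw [zero_mul]; exact Submodule.zero_mem _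
  | add a b _ _ ha hb => rw [add_mul]; exact Submodule.add_mem _ ha hb
  | smul k a _ ha => rw [smul_mul_assoc]; exact Submodule.smul_mem _ _ ha

theorem dvd_LI (ρ : Representation ℂ G V) [ρ.IsIrreducible] {S : Submodule K (Module.End ℂ V)} (hS : LI K ρ S) (hS0 : S ≠ ⊥)
    (hmin : ∀ X : Submodule K (Module.End ℂ V), LI K ρ X → X ≠ ⊥ → Module.finrank K S ≤ Module.finrank K X)
    (m : ℕ) : ∀ X : Submodule K (Module.End ℂ V), LI K ρ X → Module.finrank K X = m → Module.finrank K S ∣ m := by
  induction m using Nat.strong_induction_on with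
  | _ m ih =>
    intro X hX hm
    by_cases hX0 : X = ⊥
    · rw [hX0, finrank_bot] at hm
      rw [← hm]; exact dvd_zero _
    haveI : Module.Finite K X := Submodule.finiteDimensional_of_le hX.1
    haveI : Module.Finite K S := Submodule.finiteDimensional_of_le hS.1
    obtain ⟨x, hx, hx0⟩ := X.exists_mem_ne_zero_of_ne_bot hX0
    obtain ⟨s, hs, hs0⟩ := S.exists_mem_ne_zero_of_ne_bot hS0
    obtain ⟨g, hg⟩ := exists_mul_ne ρ hx0 hs0
    have hz : ρ g * s ∈ S := hS.2 g s hs
    generalize ρ g * s = z at hg hz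
    let R : X →ₗ[K] Module.End ℂ V :=
      { toFun := fun y => (y : Module.End ℂ V) * z
        map_add' := fun a b => by simp [add_mul]
        map_smul' := fun k a => by simp [smul_mul_assoc] }
    have hRS : LinearMap.range R ≤ S := by
      rintro _ ⟨y, rfl⟩
      exact LI_mul K ρ hS (hX.1 y.2) hz
    have hR0 : LinearMap.range R ≠ ⊥ := by
      intro h
      have h1 : x * z ∈ LinearMap.range R := ⟨⟨x, hx⟩, rfl⟩
      rw [h, Submodule.mem_bot] at h1
      exact hg h1
    have hRL : LI K ρ (LinearMap.range R) := by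
      refine ⟨hRS.trans hS.1, ?_⟩
      rintro h _ ⟨y, rfl⟩
      exact ⟨⟨ρ h * y, hX.2 h y y.2⟩, by
        show ρ h * (y : Module.End ℂ V) * z = ρ h * ((y : Module.End ℂ V) * z)
        rw [mul_assoc]⟩
    have h1 : Module.finrank K (LinearMap.range R) = Module.finrank K S :=
      le_antisymm (Submodule.finrank_mono hRS) (hmin _ hRL hR0)
    have h2 := LinearMap.finrank_range_add_finrank_ker R
    have h3 : LI K ρ ((LinearMap.ker R).map X.subtype) := by
      refine ⟨(Submodule.map_subtype_le _ _).trans hX.1, ?_⟩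
      rintro h _ ⟨y, hy, rfl⟩
      refine ⟨⟨ρ h * y, hX.2 h y y.2⟩, ?_, rfl⟩
      have hy' : (y : Module.End ℂ V) * z = 0 := hy
      show ρ h * (y : Module.End ℂ V) * z = 0
      rw [mul_assoc, hy', mul_zero]
    have h4 : Module.finrank K ((LinearMap.ker R).map X.subtype) = Module.finrank K (LinearMap.ker R) :=
      Submodule.finrank_map_subtype_eq _ _
    have hSpos : 0 < Module.finrank K S := by
      haveI : Nontrivial S := ⟨⟨s, hs⟩, 0, fun h => hs0 (congrArg Subtype.val h)⟩
      exact Module.finrank_pos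
    have h5 := ih (Module.finrank K (LinearMap.ker R)) (by omega) _ h3 h4
    rw [← hm, ← h2, h1]
    exact dvd_add (dvd_refl _) h5

omit [Fintype G] [Group G] in
theorem idem_finrank (e : Module.End ℂ V) (he : e * e = e) (L : Submodule ℂ (Module.End ℂ V))
    (hL : ∀ y, y ∈ L ↔ y * e = y) :
    (Module.finrank ℂ L : ℂ) = (Module.finrank ℂ V : ℂ) * LinearMap.trace ℂ V e := by
  have h1 : LinearMap.trace ℂ V e = (Module.finrank ℂ (LinearMap.range e) : ℂ) :=
    (LinearMap.IsIdempotentElem.isProj_range e he).trace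
  have hfix : ∀ v : LinearMap.range e, e (v : V) = v := by
    rintro ⟨_, ⟨w, rfl⟩⟩
    exact LinearMap.congr_fun he w
  let F : L ≃ₗ[ℂ] (LinearMap.range e →ₗ[ℂ] V) :=
    { toFun := fun y => LinearMap.domRestrict (y : Module.End ℂ V) (LinearMap.range e)
      map_add' := fun a b => rfl
      map_smul' := fun a b => rfl
      invFun := fun f => ⟨f ∘ₗ e.rangeRestrict, (hL _).mpr (by
        ext v
        show f (e.rangeRestrict (e v)) = f (e.rangeRestrict v)
        congr 1
        apply Subtype.ext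
        exact LinearMap.congr_fun he v)⟩
      left_inv := fun y => by
        apply Subtype.ext
        exact (hL _).mp y.2
      right_inv := fun f => by
        ext v
        show f (e.rangeRestrict (v : V)) = f v
        congr 1
        exact Subtype.ext (hfix v) }
  rw [F.finrank_eq, Module.finrank_linearMap, h1, mul_comm]
  push_cast
  ring

theorem exists_Xe (ρ : Representation ℂ G V) [ρ.IsIrreducible] (hχ : ∀ g, ∃ k : K, ρ.character g = algebraMap K ℂ k)
    (e : Module.End ℂ V) (he : e * e = e) (heB : e ∈ BK K ρ) :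
    ∃ X : Submodule K (Module.End ℂ V), LI K ρ X ∧
      (Module.finrank K X : ℂ) = (Module.finrank ℂ V : ℂ) * LinearMap.trace ℂ V e := by
  let Re : Module.End ℂ V →ₗ[K] Module.End ℂ V :=
    { toFun := fun y => y * e
      map_add' := fun a b => by simp [add_mul]
      map_smul' := fun k a => by simp [smul_mul_assoc] }
  let Rc : Module.End ℂ V →ₗ[ℂ] Module.End ℂ V :=
    { toFun := fun y => y * e
      map_add' := fun a b => by simp [add_mul]
      map_smul' := fun k a => by simp [smul_mul_assoc] }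
  have hX1 : (BK K ρ).map Re ≤ BK K ρ := by
    rintro _ ⟨y, hy, rfl⟩
    exact BK_mul K ρ hy heB
  refine ⟨(BK K ρ).map Re, ⟨hX1, ?_⟩, ?_⟩
  · rintro g _ ⟨y, hy, rfl⟩
    refine ⟨ρ g * y, BK_mul K ρ (mem_BK K ρ g) hy, ?_⟩
    show ρ g * y * e = ρ g * (y * e)
    rw [mul_assoc]
  · rw [finrank_eq K ρ hχ _ hX1]
    apply idem_finrank e he
    intro y
    constructor
    · intro hy
      induction hy using Submodule.span_induction with
      | mem y hy =>
        obtain ⟨w, _, rfl⟩ := hy
        show w * e * e = w * e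
        rw [mul_assoc, he]
      | zero => rw [zero_mul]
      | add a b _ _ ha hb => rw [add_mul, ha, hb]
      | smul k a _ ha => rw [smul_mul_assoc, ha]
    · intro hy
      rw [← hy]
      have hy' : y ∈ Submodule.span ℂ (Set.range ρ) := by rw [burnside_top]; exact Submodule.mem_top
      clear hy
      induction hy' using Submodule.span_induction with
      | mem y hy =>
        obtain ⟨g, rfl⟩ := hy
        exact Submodule.subset_span ⟨ρ g, mem_BK K ρ g, rfl⟩
      | zero => rw [zero_mul]; exact Submodule.zero_mem _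
      | add a b _ _ ha hb => rw [add_mul]; exact Submodule.add_mem _ ha hb
      | smul k a _ ha => rw [smul_mul_assoc]; exact Submodule.smul_mem _ _ ha

/-- a representation has a `K`-form -/
def HasForm (ρ : Representation ℂ G V) : Prop :=
  ∃ U : Submodule K V, (∀ g, ∀ u ∈ U, ρ g u ∈ U) ∧ Submodule.span ℂ (U : Set V) = ⊤ ∧ Module.Finite K U ∧
    Module.finrank K U ≤ Module.finrank ℂ V

theorem form_irr (ρ : Representation ℂ G V) [ρ.IsIrreducible] (hχ : ∀ g, ∃ k : K, ρ.character g = algebraMap K ℂ k)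
    (l : List (ℤ × Module.End ℂ V)) (hl : ∀ t ∈ l, t.2 ∈ BK K ρ ∧ t.2 * t.2 = t.2)
    (hs : (l.map fun t => (t.1 : ℂ) * LinearMap.trace ℂ V t.2).sum = 1) : HasForm K ρ := by
  obtain ⟨S, hS, hS0, hmin⟩ := exists_minLI K ρ
  haveI : Module.Finite K S := Submodule.finiteDimensional_of_le hS.1
  have hn0 := irr_finrank_pos ρ
  have h1 : ∃ N : ℤ, (Module.finrank ℂ V : ℂ) * (l.map fun t => (t.1 : ℂ) * LinearMap.trace ℂ V t.2).sum =
      (Module.finrank K S : ℂ) * N := by
    clear hs
    induction l with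
    | nil => exact ⟨0, by simp⟩
    | cons t l ih =>
      obtain ⟨N, hN⟩ := ih (fun t ht => hl t (List.mem_cons_of_mem _ ht))
      obtain ⟨h2, h3⟩ := hl t List.mem_cons_self
      obtain ⟨X, hX, hXf⟩ := exists_Xe K ρ hχ t.2 h3 h2
      obtain ⟨k, hk⟩ := dvd_LI K ρ hS hS0 hmin _ X hX rfl
      refine ⟨t.1 * k + N, ?_⟩
      rw [List.map_cons, List.sum_cons, mul_add, hN]
      have h4 : (Module.finrank ℂ V : ℂ) * ((t.1 : ℂ) * LinearMap.trace ℂ V t.2) = (t.1 : ℂ) * (Module.finrank K X : ℂ) := by
        rw [hXf]; ring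
      rw [h4, hk]
      push_cast
      ring
  obtain ⟨N, hN⟩ := h1
  rw [hs, mul_one] at hN
  have h2 : (Module.finrank ℂ V : ℤ) = (Module.finrank K S : ℤ) * N := by exact_mod_cast hN
  have h3 : Module.finrank K S ∣ Module.finrank ℂ V := by
    rw [← Int.natCast_dvd_natCast]
    exact ⟨N, h2⟩
  have h4 := Nat.le_of_dvd hn0 h3
  obtain ⟨s, hs, hs0⟩ := S.exists_mem_ne_zero_of_ne_bot hS0
  obtain ⟨v, hv⟩ : ∃ v, s v ≠ 0 := by
    by_contra h
    push Not at h
    exact hs0 (LinearMap.ext h)
  let ev : S →ₗ[K] V :=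
    { toFun := fun y => (y : Module.End ℂ V) v
      map_add' := fun a b => rfl
      map_smul' := fun k a => rfl }
  have hinv : ∀ g, ∀ u ∈ LinearMap.range ev, ρ g u ∈ LinearMap.range ev := by
    rintro g _ ⟨y, rfl⟩
    exact ⟨⟨ρ g * y, hS.2 g y y.2⟩, rfl⟩
  refine ⟨LinearMap.range ev, hinv, ?_, inferInstance, (LinearMap.finrank_range_le ev).trans h4⟩
  let T : Subrepresentation ρ :=
    { toSubmodule := Submodule.span ℂ (LinearMap.range ev : Set V)
      apply_mem_toSubmodule := by
        intro g u hu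
        induction hu using Submodule.span_induction with
        | mem u hu => exact Submodule.subset_span (hinv g u hu)
        | zero => rw [map_zero]; exact Submodule.zero_mem _
        | add a b _ _ ha hb => rw [map_add]; exact Submodule.add_mem _ ha hb
        | smul k a _ ha => rw [map_smul]; exact Submodule.smul_mem _ _ ha }
  rcases (inferInstance : ρ.IsIrreducible).eq_bot_or_eq_top T with h | h
  · exfalso
    have h5 : s v ∈ T.toSubmodule := Submodule.subset_span ⟨⟨s, hs⟩, rfl⟩
    rw [h] at h5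
    exact hv h5
  · exact congrArg Subrepresentation.toSubmodule h

end

section

universe u v
variable (K : Type*) [Field K] [Algebra K ℂ]

/-- the union of forms of two complementary subrepresentations -/
theorem form_compl {G : Type*} [Group G] [Fintype G] {V : Type*} [AddCommGroup V] [Module ℂ V] [FiniteDimensional ℂ V]
    [Module K V] [IsScalarTower K ℂ V] (ρ : Representation ℂ G V) (S T : Subrepresentation ρ)
    (h : IsCompl S.toSubmodule T.toSubmodule) (hS : HasForm K S.toRepresentation) (hT : HasForm K T.toRepresentation) :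
    HasForm K ρ := by
  obtain ⟨U1, h1, h2, h3, h4⟩ := hS
  obtain ⟨U2, k1, k2, k3, k4⟩ := hT
  let i1 : S.toSubmodule →ₗ[K] V := S.toSubmodule.subtype.restrictScalars K
  let i2 : T.toSubmodule →ₗ[K] V := T.toSubmodule.subtype.restrictScalars K
  refine ⟨U1.map i1 ⊔ U2.map i2, ?_, ?_, inferInstance, ?_⟩
  · intro g u hu
    obtain ⟨_, ⟨x, hx, rfl⟩, _, ⟨y, hy, rfl⟩, rfl⟩ := Submodule.mem_sup.mp hu
    rw [map_add]
    apply Submodule.add_mem
    · exact Submodule.mem_sup_left ⟨_, h1 g x hx, rfl⟩
    · exact Submodule.mem_sup_right ⟨_, k1 g y hy, rfl⟩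
  · rw [eq_top_iff, ← h.sup_eq_top, sup_le_iff]
    constructor
    · intro x hx
      have hx' : (⟨x, hx⟩ : S.toSubmodule) ∈ Submodule.span ℂ (U1 : Set S.toSubmodule) := by
        rw [h2]; exact Submodule.mem_top
      have h5 := Submodule.mem_map_of_mem (f := S.toSubmodule.subtype) hx'
      rw [Submodule.map_span] at h5
      refine Submodule.span_mono ?_ h5
      rintro _ ⟨y, hy, rfl⟩
      exact Submodule.mem_sup_left ⟨y, hy, rfl⟩
    · intro x hx
      have hx' : (⟨x, hx⟩ : T.toSubmodule) ∈ Submodule.span ℂ (U2 : Set T.toSubmodule) := by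
        rw [k2]; exact Submodule.mem_top
      have h5 := Submodule.mem_map_of_mem (f := T.toSubmodule.subtype) hx'
      rw [Submodule.map_span] at h5
      refine Submodule.span_mono ?_ h5
      rintro _ ⟨y, hy, rfl⟩
      exact Submodule.mem_sup_right ⟨y, hy, rfl⟩
  · have h5 := Submodule.finrank_add_le_finrank_add_finrank (U1.map i1) (U2.map i2)
    have h6 := Submodule.finrank_map_le i1 U1
    have h7 := Submodule.finrank_map_le i2 U2
    have h8 := Submodule.finrank_add_eq_of_isCompl h
    omega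

theorem form_all {G : Type u} [Group G] [Fintype G]
    (hirr : ∀ {W : Type v} [AddCommGroup W] [Module ℂ W] [FiniteDimensional ℂ W] [Module K W] [IsScalarTower K ℂ W]
      (σ : Representation ℂ G W), σ.IsIrreducible → HasForm K σ) (n : ℕ) :
    ∀ {V : Type v} [AddCommGroup V] [Module ℂ V] [FiniteDimensional ℂ V] [Module K V] [IsScalarTower K ℂ V]
    (ρ : Representation ℂ G V), Module.finrank ℂ V = n → HasForm K ρ := by
  induction n using Nat.strong_induction_on with
  | _ n ih =>
    intro V _ _ _ _ _ ρ hn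
    rcases Nat.eq_zero_or_pos n with h0 | hpos
    · subst h0
      have : Subsingleton V := Module.finrank_zero_iff.mp hn
      refine ⟨⊥, ?_, ?_, inferInstance, ?_⟩
      · intro g u _
        rw [Subsingleton.elim (ρ g u) 0]; exact Submodule.zero_mem _
      · exact Subsingleton.elim _ _
      · rw [finrank_bot]; exact Nat.zero_le _
    · have hnt : Nontrivial V := Module.finrank_pos_iff.mp (hn ▸ hpos)
      by_cases hirr' : ρ.IsIrreducible
      · exact hirr ρ hirr'
      · have hnt' : Nontrivial (Subrepresentation ρ) := by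
          refine ⟨⊥, ⊤, fun h => ?_⟩
          have := congrArg Subrepresentation.toSubmodule h
          exact bot_ne_top (α := Submodule ℂ V) this
        have : ∃ S : Subrepresentation ρ, S ≠ ⊥ ∧ S ≠ ⊤ := by
          by_contra hcon
          push Not at hcon
          apply hirr'
          exact { eq_bot_or_eq_top := fun S => by
                    by_cases h : S = ⊥
                    · exact Or.inl h
                    · exact Or.inr (hcon S h) }
        obtain ⟨S, hS1, hS2⟩ := this
        obtain ⟨T, hT⟩ := exists_compl ρ S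
        have hS1' : S.toSubmodule ≠ ⊥ := fun h => hS1 (Subrepresentation.toSubmodule_injective h)
        have hS2' : S.toSubmodule ≠ ⊤ := fun h => hS2 (Subrepresentation.toSubmodule_injective h)
        have hT2' : T.toSubmodule ≠ ⊤ := by
          intro h
          rw [h] at hT
          exact hS1' (by simpa using hT.inf_eq_bot)
        exact form_compl K ρ S T hT (ih _ (hn ▸ finrank_lt_of_compl hS2') S.toRepresentation rfl)
          (ih _ (hn ▸ finrank_lt_of_compl hT2') T.toRepresentation rfl)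

/-- matrices with entries in `K` from a form -/
theorem basis_of_form {G : Type*} [Group G] [Fintype G] {V : Type*} [AddCommGroup V] [Module ℂ V] [FiniteDimensional ℂ V]
    [Module K V] [IsScalarTower K ℂ V] (ρ : Representation ℂ G V) (h : HasForm K ρ) (n : ℕ) (hn : Module.finrank ℂ V = n) :
    ∃ b : Module.Basis (Fin n) ℂ V, ∀ g i j, ∃ k : K, LinearMap.toMatrix b b (ρ g) i j = algebraMap K ℂ k := by
  obtain ⟨U, h1, h2, h3, h4⟩ := h
  let c := Module.finBasis K U
  have hspan : Submodule.span ℂ (Set.range fun i => (c i : V)) = ⊤ := by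
    rw [eq_top_iff, ← h2, Submodule.span_le]
    intro x hx
    have h4 : x = ∑ i, c.repr ⟨x, hx⟩ i • (c i : V) := by
      have := congrArg Subtype.val (c.sum_repr ⟨x, hx⟩)
      refine this.symm.trans ?_
      rw [AddSubmonoidClass.coe_finset_sum]
      rfl
    rw [h4]
    apply Submodule.sum_mem
    intro i _
    rw [← algebraMap_smul ℂ]
    exact Submodule.smul_mem _ _ (Submodule.subset_span ⟨i, rfl⟩)
  have h5 : Module.finrank ℂ V ≤ Module.finrank K U := by
    have := finrank_range_le_card (R := ℂ) (fun i => (c i : V))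
    rw [Set.finrank, hspan, finrank_top, Fintype.card_fin] at this
    exact this
  have h6 : Module.finrank K U = n := by omega
  let b0 : Module.Basis (Fin (Module.finrank K U)) ℂ V :=
    basisOfTopLeSpanOfCardEqFinrank (fun i => (c i : V)) hspan.ge (by rw [Fintype.card_fin]; omega)
  have hb0 : ∀ i, b0 i = (c i : V) := by
    intro i
    rw [coe_basisOfTopLeSpanOfCardEqFinrank]
  refine ⟨b0.reindex (finCongr h6), ?_⟩
  intro g i j
  set j' := (finCongr h6).symm j
  set i' := (finCongr h6).symm i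
  refine ⟨c.repr ⟨ρ g (c j'), h1 g _ (c j').2⟩ i', ?_⟩
  rw [LinearMap.toMatrix_apply, Module.Basis.reindex_apply, Module.Basis.repr_reindex_apply, hb0]
  have h7 : ρ g (c j' : V) = ∑ i, algebraMap K ℂ (c.repr ⟨ρ g (c j'), h1 g _ (c j').2⟩ i) • b0 i := by
    have := congrArg Subtype.val (c.sum_repr ⟨ρ g (c j'), h1 g _ (c j').2⟩)
    refine this.symm.trans ?_
    rw [AddSubmonoidClass.coe_finset_sum]
    refine Finset.sum_congr rfl fun i _ => ?_
    rw [hb0, algebraMap_smul]
    rfl
  have h8 := congrArg (fun w => b0.repr w i') h7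
  refine h8.trans ?_
  show b0.repr (∑ i, algebraMap K ℂ (c.repr ⟨ρ g (c j'), h1 g _ (c j').2⟩ i) • b0 i) i' = _
  rw [map_sum, Finsupp.finset_sum_apply]
  rw [Finset.sum_eq_single i']
  · rw [map_smul, Finsupp.smul_apply, b0.repr_self, Finsupp.single_apply, if_pos rfl, smul_eq_mul, mul_one]
  · intro k _ hk
    rw [map_smul, Finsupp.smul_apply, b0.repr_self, Finsupp.single_apply, if_neg hk, smul_zero]
  · intro h
    exact absurd (Finset.mem_univ i') h

end

section

variable {E : Type*} [Group E] [Fintype E] {V : Type*} [AddCommGroup V] [Module ℂ V]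

/-- the idempotent of a linear character -/
noncomputable def idem (r : E →* Module.End ℂ V) (f : E →* ℂˣ) : Module.End ℂ V :=
  (Nat.card E : ℂ)⁻¹ • ∑ e : E, ((f e : ℂ)⁻¹) • r e

theorem mul_sum_idem (r : E →* Module.End ℂ V) (f : E →* ℂˣ) (a : E) :
    r a * ∑ e : E, ((f e : ℂ)⁻¹) • r e = (f a : ℂ) • ∑ e : E, ((f e : ℂ)⁻¹) • r e := by
  rw [Finset.mul_sum, Finset.smul_sum]
  refine Fintype.sum_equiv (Equiv.mulLeft a) _ _ fun e => ?_
  rw [Equiv.coe_mulLeft, mul_smul_comm, ← map_mul, smul_smul]
  congr 1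
  rw [map_mul, Units.val_mul, mul_inv, ← mul_assoc, mul_inv_cancel₀ (Units.ne_zero _), one_mul]

theorem idem_idem (r : E →* Module.End ℂ V) (f : E →* ℂˣ) : idem r f * idem r f = idem r f := by
  have hE : (Nat.card E : ℂ) ≠ 0 := by exact_mod_cast Nat.card_pos.ne'
  have h1 : (∑ e : E, ((f e : ℂ)⁻¹) • r e) * (∑ e : E, ((f e : ℂ)⁻¹) • r e) =
      (Nat.card E : ℂ) • ∑ e : E, ((f e : ℂ)⁻¹) • r e := by
    conv_lhs => rw [Finset.sum_mul]
    have h2 : ∀ a : E, ((f a : ℂ)⁻¹ • r a) * (∑ e : E, ((f e : ℂ)⁻¹) • r e) = ∑ e : E, ((f e : ℂ)⁻¹) • r e := by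
      intro a
      rw [smul_mul_assoc, mul_sum_idem, smul_smul, inv_mul_cancel₀ (Units.ne_zero _), one_smul]
    rw [Finset.sum_congr rfl fun a _ => h2 a, Finset.sum_const, Finset.card_univ, Nat.card_eq_fintype_card,
      Nat.cast_smul_eq_nsmul]
  rw [idem, smul_mul_assoc, mul_smul_comm, h1]
  congr 1
  rw [smul_smul, inv_mul_cancel₀ hE, one_smul]

theorem trace_idem [FiniteDimensional ℂ V] (r : E →* Module.End ℂ V) (f : E →* ℂˣ) :
    LinearMap.trace ℂ V (idem r f) = classInner (fun e => LinearMap.trace ℂ V (r e)) (fun e => (f e : ℂ)) := by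
  rw [idem, map_smul, map_sum, smul_eq_mul, classInner]
  congr 1
  refine Finset.sum_congr rfl fun e _ => ?_
  have h1 : ‖(f e : ℂ)‖ = 1 := by
    apply norm_one_of_pow (n := Nat.card E) Nat.card_pos.ne'
    rw [← Units.val_pow_eq_pow_val, ← map_pow, pow_card_eq_one', map_one, Units.val_one]
  rw [map_smul, smul_eq_mul, inv_eq_conj_of_norm h1, mul_comm]

end

end Cfsg.Agent.LibBSF1
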