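import Cfsg.Agent.LibBSF1
import Cfsg.Agent.LibCharIndA
import Cfsg.Agent.S0163

/-! Brauer's splitting field theorem. -/

set_option autoImplicit false
set_option linter.all false

namespace Cfsg.Agent.LibBSF2

open Cfsg CfsgLib CfsgLib.CharBasic CfsgLib.CharIndA Cfsg.Agent.LibBSF1
open scoped ComplexConjugate

universe u v

/-- values of induced functions -/
theorem ind_mem {G : Type u} [Group G] [Fintype G] (K : Subfield ℂ) (H : Subgroup G) (θ : H → ℂ)
    (hθ : ∀ h, θ h ∈ K) (g : G) : indFun H θ g ∈ K := by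
  rw [ind_apply]
  apply mul_mem
  · exact inv_mem (natCast_mem K _)
  · apply sum_mem
    intro x _
    by_cases h : x⁻¹ * g * x ∈ H
    · rw [ext_mem H θ h]; exact hθ _
    · rw [ext_not_mem H θ h]; exact zero_mem K

theorem list_mem {G : Type u} [Group G] [Fintype G] (K : Subfield ℂ)
    (l : List ((E : Subgroup G) × ((E →* ℂˣ) × ℤ))) (hl : ∀ t ∈ l, ∀ e, (t.2.1 e : ℂ) ∈ K) (g : G) :
    (l.map fun t => (t.2.2 : ℂ) • Cfsg.indFun t.1 (fun e => (t.2.1 e : ℂ))).sum g ∈ K := by
  induction l with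
  | nil => simp
  | cons t l ih =>
    rw [List.map_cons, List.sum_cons, Pi.add_apply, Pi.smul_apply, smul_eq_mul]
    apply add_mem
    · exact mul_mem (intCast_mem K _) (ind_mem K _ _ (hl t List.mem_cons_self) g)
    · exact ih (fun t ht => hl t (List.mem_cons_of_mem _ ht))

theorem list_inner {G : Type u} [Group G] [Fintype G] (hF : ∀ E : Subgroup G, Fintype E) {χ : G → ℂ} (hχ : IsClassFunction G χ)
    (l : List ((E : Subgroup G) × ((E →* ℂˣ) × ℤ))) :
    classInner χ (l.map fun t => (t.2.2 : ℂ) • Cfsg.indFun t.1 (fun e => (t.2.1 e : ℂ))).sum =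
    (l.map fun t => (t.2.2 : ℂ) * (letI := hF t.1; classInner (fun e : t.1 => χ e) (fun e => (t.2.1 e : ℂ)))).sum := by
  induction l with
  | nil => simp [CharBasic.inner_zero_right]
  | cons t l ih =>
    letI := hF t.1
    rw [List.map_cons, List.sum_cons, CharBasic.inner_add_right, ih, List.map_cons, List.sum_cons, CharBasic.inner_smul_right,
      frobenius' t.1 _ hχ]
    simp

theorem form_irr' {G : Type u} [Group G] [Fintype G] (K : Type*) [Field K] [Algebra K ℂ]
    (hroot : ∀ (z : ℂ), z ^ Monoid.exponent G = 1 → z ∈ (algebraMap K ℂ).fieldRange)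
    {V : Type v} [AddCommGroup V] [Module ℂ V] [FiniteDimensional ℂ V] [Module K V] [IsScalarTower K ℂ V]
    (ρ : Representation ℂ G V) (hρ : ρ.IsIrreducible) : HasForm K ρ := by
  classical
  have hF : ∀ E : Subgroup G, Fintype E := fun E => Fintype.ofFinite E
  have hch := isCharacter_character ρ
  obtain ⟨l, -, hl⟩ := Cfsg.Agent.S0163.result ρ.character hch
  have hlin : ∀ t ∈ l, ∀ e, (t.2.1 e : ℂ) ∈ (algebraMap K ℂ).fieldRange := by
    intro t _ e
    apply hroot
    rw [← Units.val_pow_eq_pow_val, ← map_pow]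
    have : e ^ Monoid.exponent G = 1 := by
      apply Subtype.ext
      rw [Subgroup.coe_pow, Monoid.pow_exponent_eq_one]
      rfl
    rw [this, map_one, Units.val_one]
  have hval : ∀ g, ∃ k : K, ρ.character g = algebraMap K ℂ k := by
    intro g
    have h0 := list_mem (algebraMap K ℂ).fieldRange l hlin g
    rw [← hl] at h0
    obtain ⟨k, hk⟩ := h0
    exact ⟨k, hk.symm⟩
  have h1 : classInner ρ.character ρ.character = 1 := irr_inner_self (isIrrCharacter_character ρ)
  have h2 := list_inner hF (char_classFun hch) l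
  rw [← hl, h1] at h2
  apply form_irr K ρ hval (l.map fun t => (t.2.2, letI := hF t.1; idem ((ρ : G →* Module.End ℂ V).comp t.1.subtype) t.2.1))
  · intro s hs
    obtain ⟨t, ht, rfl⟩ := List.mem_map.mp hs
    letI := hF t.1
    refine ⟨?_, idem_idem _ _⟩
    show idem ((ρ : G →* Module.End ℂ V).comp t.1.subtype) t.2.1 ∈ BK K ρ
    rw [idem, Finset.smul_sum]
    apply Submodule.sum_mem
    intro e _
    rw [smul_smul]
    have h3 : (Nat.card t.1 : ℂ)⁻¹ * (t.2.1 e : ℂ)⁻¹ ∈ (algebraMap K ℂ).fieldRange :=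
      mul_mem (inv_mem (natCast_mem _ _)) (inv_mem (hlin t ht e))
    obtain ⟨k, hk⟩ := h3
    rw [← hk, algebraMap_smul]
    exact Submodule.smul_mem _ k (mem_BK K ρ (e : G))
  · rw [List.map_map]
    rw [h2]
    congr 1
    apply List.map_congr_left
    intro t _
    letI := hF t.1
    show (t.2.2 : ℂ) * LinearMap.trace ℂ V (idem ((ρ : G →* Module.End ℂ V).comp t.1.subtype) t.2.1) = _
    rw [trace_idem]
    rfl

theorem main {G : Type u} [Group G] [Fintype G] (K : Type*) [Field K] [Algebra K ℂ]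
    (hroot : ∀ (z : ℂ), z ^ Monoid.exponent G = 1 → z ∈ (algebraMap K ℂ).fieldRange)
    (n : ℕ) (ρ : Representation ℂ G (Fin n → ℂ)) :
    ∃ σ : Representation ℂ G (Fin n → ℂ), Nonempty (ρ.Equiv σ) ∧
      ∀ g : G, ∀ i j : Fin n, LinearMap.toMatrix' (σ g) i j ∈ (algebraMap K ℂ).fieldRange := by
  have h1 : HasForm K ρ := by
    apply form_all K (fun σ hσ => form_irr' K hroot σ hσ) _ ρ rfl
  obtain ⟨b, hb⟩ := basis_of_form K ρ h1 n (by simp)
  refine ⟨transport ρ b.equivFun, ⟨transportEquiv ρ b.equivFun⟩, ?_⟩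
  intro g i j
  obtain ⟨k, hk⟩ := hb g i j
  refine ⟨k, ?_⟩
  have h9 : b.equivFun.symm (Pi.single j 1) = b j := by
    rw [Module.Basis.equivFun_symm_apply, Finset.sum_eq_single j]
    · rw [Pi.single_eq_same, one_smul]
    · intro k _ hk
      rw [Pi.single_eq_of_ne hk, zero_smul]
    · intro h
      exact absurd (Finset.mem_univ j) h
  rw [← hk, LinearMap.toMatrix'_apply, LinearMap.toMatrix_apply, transport_apply, h9]
  rfl

end Cfsg.Agent.LibBSF2
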