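import Mathlib

/-! Borel–Tits for `SL_n` in flag form -/

set_option autoImplicit false

namespace CfsgLib.BTits

open Matrix

variable {F : Type*} [Field F] {n : ℕ}

/-- the ascending series of a group of matrices -/
def ser (U : Subgroup (SpecialLinearGroup (Fin n) F)) : ℕ → Submodule F (Fin n → F)
  | 0 => ⊥
  | i + 1 =>
    { carrier := {v | ∀ u ∈ U, (u : Matrix (Fin n) (Fin n) F).mulVec v - v ∈ ser U i}
      add_mem' := by
        intro a b ha hb u hu
        have e : (u : Matrix (Fin n) (Fin n) F).mulVec (a + b) - (a + b) =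
          ((u : Matrix (Fin n) (Fin n) F).mulVec a - a) + ((u : Matrix (Fin n) (Fin n) F).mulVec b - b) := by
          rw [mulVec_add]; abel
        rw [e]; exact add_mem (ha u hu) (hb u hu)
      zero_mem' := by
        intro u _
        rw [mulVec_zero, sub_zero]; exact zero_mem _
      smul_mem' := by
        intro c a ha u hu
        rw [mulVec_smul, ← smul_sub]
        exact Submodule.smul_mem _ c (ha u hu) }

theorem mem_ser_succ {U : Subgroup (SpecialLinearGroup (Fin n) F)} {i : ℕ} {v : Fin n → F} :
    v ∈ ser U (i + 1) ↔ ∀ u ∈ U, (u : Matrix (Fin n) (Fin n) F).mulVec v - v ∈ ser U i := Iff.rfl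

theorem ser_le (U : Subgroup (SpecialLinearGroup (Fin n) F)) (i : ℕ) : ser U i ≤ ser U (i + 1) := by
  induction i with
  | zero => exact bot_le
  | succ i ih =>
    intro v hv
    rw [mem_ser_succ] at hv ⊢
    intro u hu
    exact ih (hv u hu)

theorem coe_mul' (a b : SpecialLinearGroup (Fin n) F) (v : Fin n → F) :
    ((a * b : SpecialLinearGroup (Fin n) F) : Matrix (Fin n) (Fin n) F).mulVec v =
      (a : Matrix (Fin n) (Fin n) F).mulVec ((b : Matrix (Fin n) (Fin n) F).mulVec v) := by
  exact (mulVec_mulVec _ _ _).symm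

theorem ser_norm (U : Subgroup (SpecialLinearGroup (Fin n) F)) (i : ℕ) :
    ∀ g ∈ Subgroup.normalizer (U : Set (SpecialLinearGroup (Fin n) F)), ∀ v ∈ ser U i,
      (g : Matrix (Fin n) (Fin n) F).mulVec v ∈ ser U i := by
  induction i with
  | zero =>
    intro g _ v hv
    have : v = 0 := hv
    rw [this, mulVec_zero]; exact zero_mem _
  | succ i ih =>
    intro g hg v hv u hu
    have h1 : g⁻¹ * u * g ∈ U := by
      have := (Subgroup.mem_normalizer_iff''.mp hg u).mp hu
      exact this
    have h2 := ih g hg _ (hv _ h1)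
    have e : (g : Matrix (Fin n) (Fin n) F).mulVec (((g⁻¹ * u * g : SpecialLinearGroup (Fin n) F) :
        Matrix (Fin n) (Fin n) F).mulVec v - v) =
        (u : Matrix (Fin n) (Fin n) F).mulVec ((g : Matrix (Fin n) (Fin n) F).mulVec v) -
          (g : Matrix (Fin n) (Fin n) F).mulVec v := by
      rw [mulVec_sub, ← coe_mul', ← coe_mul']
      congr 2
      group
    rw [← e]; exact h2

theorem ser_lt [Fintype F] {p : ℕ} [hp : Fact p.Prime] [CharP F p] (U : Subgroup (SpecialLinearGroup (Fin n) F))
    (hU : IsPGroup p U) (i : ℕ) (h : ser U i ≠ ⊤) : ser U i < ser U (i + 1) := by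
  classical
  -- action on the quotient
  let Q := (Fin n → F) ⧸ ser U i
  have hpres : ∀ (u : U), ser U i ≤ (ser U i).comap (mulVecLin ((u : SpecialLinearGroup (Fin n) F) : Matrix (Fin n) (Fin n) F)) := by
    intro u v hv
    exact ser_norm U i u (Subgroup.le_normalizer u.2) v hv
  letI act : MulAction U Q :=
    { smul := fun u q => Submodule.mapQ _ _ (mulVecLin ((u : SpecialLinearGroup (Fin n) F) : Matrix (Fin n) (Fin n) F)) (hpres u) q
      one_smul := by
        intro q
        induction q using Submodule.Quotient.induction_on with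
        | H v =>
          change Submodule.Quotient.mk _ = _
          congr 1
          exact one_mulVec v
      mul_smul := by
        intro a b q
        induction q using Submodule.Quotient.induction_on with
        | H v =>
          change Submodule.Quotient.mk _ = Submodule.Quotient.mk _
          congr 1
          exact coe_mul' _ _ v }
  have hsmul : ∀ (u : U) (v : Fin n → F), (u • (Submodule.Quotient.mk v : Q)) =
      Submodule.Quotient.mk (((u : SpecialLinearGroup (Fin n) F) : Matrix (Fin n) (Fin n) F).mulVec v) := fun u v => rfl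
  haveI : Finite Q := Quotient.finite _
  haveI : Nontrivial Q := Submodule.Quotient.nontrivial_iff.mpr h
  have hdvd : p ∣ Nat.card Q := by
    have h1 : Nat.card Q = Fintype.card F ^ Module.finrank F Q := by
      haveI : Fintype Q := Fintype.ofFinite Q
      rw [Nat.card_eq_fintype_card]; exact Module.card_eq_pow_finrank
    rw [h1]
    have h2 : 0 < Module.finrank F Q := Module.finrank_pos
    obtain ⟨m, _, hm⟩ := FiniteField.card F p
    rw [hm]
    exact dvd_pow (dvd_pow_self p m.pos.ne') h2.ne'
  obtain ⟨b, hb, hb0⟩ := hU.exists_fixed_point_of_prime_dvd_card_of_fixed_point (α := Q) hdvd (a := 0) (by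
    intro u
    change u • (Submodule.Quotient.mk 0 : Q) = 0
    rw [hsmul, mulVec_zero]; rfl)
  obtain ⟨v, rfl⟩ := Submodule.Quotient.mk_surjective _ b
  refine lt_of_le_of_ne (ser_le U i) ?_
  intro heq
  apply hb0
  have hv : v ∈ ser U (i + 1) := by
    rw [mem_ser_succ]
    intro u hu
    have := hb ⟨u, hu⟩
    rw [hsmul] at this
    exact (Submodule.Quotient.eq _).mp this
  rw [← heq] at hv
  exact ((Submodule.Quotient.mk_eq_zero _).mpr hv).symm

theorem main [Fintype F] (p : ℕ) [Fact p.Prime] [CharP F p] (U : Subgroup (SpecialLinearGroup (Fin n) F))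
    (hU : IsPGroup p U) (hne : U ≠ ⊥) :
    ∃ (k : ℕ) (V : Fin (k + 2) → Submodule F (Fin n → F)), 1 ≤ k ∧ StrictMono V ∧ V 0 = ⊥ ∧ V (Fin.last (k + 1)) = ⊤ ∧
      (∀ g ∈ Subgroup.normalizer (U : Set (SpecialLinearGroup (Fin n) F)), ∀ i, (V i).map (mulVecLin (g : Matrix (Fin n) (Fin n) F)) = V i) ∧
      (∀ u ∈ U, ∀ i : Fin (k + 1), ∀ v ∈ V i.succ, (u : Matrix (Fin n) (Fin n) F).mulVec v - v ∈ V (Fin.castSucc i)) := by
  classical
  have hex : ∃ i, ser U i = ⊤ := by
    by_contra hcon
    push Not at hcon
    have hmono : StrictMono (ser U) := strictMono_nat_of_lt_succ fun i => ser_lt U hU i (hcon i)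
    have hdim : StrictMono fun i => Module.finrank F (ser U i) := fun i j hij => Submodule.finrank_lt_finrank_of_lt (hmono hij)
    have h1 := hdim.id_le (n + 1)
    have h2 := Submodule.finrank_le (ser U (n + 1))
    rw [Module.finrank_fin_fun] at h2
    simp only [id] at h1
    omega
  have hN : ser U (Nat.find hex) = ⊤ := Nat.find_spec hex
  have hlt : ∀ i, i < Nat.find hex → ser U i ≠ ⊤ := fun i hi => Nat.find_min hex hi
  obtain ⟨u, hu, hu1⟩ : ∃ u ∈ U, u ≠ 1 := by
    by_contra hcon
    push Not at hcon
    exact hne (eq_bot_iff.mpr fun x hx => hcon x hx)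
  have h0 : ser U 1 ≠ ⊤ := by
    intro h
    apply hu1
    apply Subtype.ext
    apply Matrix.toLin'.injective
    apply LinearMap.ext
    intro v
    have hv : v ∈ ser U 1 := by rw [h]; trivial
    have h2 : (u : Matrix (Fin n) (Fin n) F).mulVec v - v = 0 := hv u hu
    rw [toLin'_apply, toLin'_apply]
    exact (sub_eq_zero.mp h2).trans (one_mulVec v).symm
  have h00 : ser U 0 ≠ ⊤ := fun h => h0 (top_le_iff.mp (h ▸ ser_le U 0))
  have hN2 : 2 ≤ Nat.find hex := by
    by_contra hcon
    push Not at hcon
    interval_cases h : Nat.find hex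
    · exact h00 hN
    · exact h0 hN
  obtain ⟨k, hk⟩ : ∃ k, Nat.find hex = k + 1 := ⟨Nat.find hex - 1, by omega⟩
  have hmono : ∀ i j : ℕ, i < j → j ≤ Nat.find hex → ser U i < ser U j := by
    intro i j hij
    induction j with
    | zero => omega
    | succ j ih =>
      intro hj
      have h1 := ser_lt U hU j (hlt j (by omega))
      rcases Nat.lt_or_ge i j with h2 | h2
      · exact (ih h2 (by omega)).trans h1
      · have : i = j := by omega
        rw [this]; exact h1
  refine ⟨k, fun i => ser U i.val, by omega, ?_, rfl, ?_, ?_, ?_⟩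
  · intro i j hij
    exact hmono i j hij (by have := j.2; omega)
  · change ser U (k + 1) = ⊤
    rw [← hk]; exact hN
  · intro g hg i
    apply le_antisymm
    · rintro _ ⟨v, hv, rfl⟩
      exact ser_norm U i g hg v hv
    · intro v hv
      refine ⟨((g⁻¹ : SpecialLinearGroup (Fin n) F) : Matrix (Fin n) (Fin n) F).mulVec v,
        ser_norm U i g⁻¹ (inv_mem hg) v hv, ?_⟩
      change (g : Matrix (Fin n) (Fin n) F).mulVec _ = v
      rw [← coe_mul', mul_inv_cancel]
      exact one_mulVec v
  · intro u hu i v hv
    exact hv u hu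

end CfsgLib.BTits
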