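import Cfsg.Agent.EqBase
import Cfsg.Agent.LibSig

set_option autoImplicit false

/-! The Baer trick and coprime action in the presence of a `p`-group. -/

namespace CfsgLib.Baer

open Subgroup
open scoped commutatorElement Pointwise

section baer
variable {C : Type*} [Group C]

theorem comm_mul_left (h1 : ∀ x y z : C, ⁅x, y⁆ * z = z * ⁅x, y⁆) (x y z : C) :
    ⁅x * y, z⁆ = ⁅x, z⁆ * ⁅y, z⁆ := by
  have e : ⁅x * y, z⁆ = x * ⁅y, z⁆ * x⁻¹ * ⁅x, z⁆ := by
    simp only [commutatorElement_def]; group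
  rw [e, ← h1 y z x, mul_inv_cancel_right, h1]

theorem comm_mul_right (h1 : ∀ x y z : C, ⁅x, y⁆ * z = z * ⁅x, y⁆) (x y z : C) :
    ⁅x, y * z⁆ = ⁅x, y⁆ * ⁅x, z⁆ := by
  rw [← commutatorElement_inv (y * z) x, comm_mul_left h1, mul_inv_rev, commutatorElement_inv,
    commutatorElement_inv, h1]

theorem comm_central_left (h1 : ∀ x y z : C, ⁅x, y⁆ * z = z * ⁅x, y⁆) (x y z : C) :
    ⁅⁅x, y⁆, z⁆ = 1 := by
  rw [commutatorElement_eq_one_iff_mul_comm, h1]

theorem comm_pow_left (h1 : ∀ x y z : C, ⁅x, y⁆ * z = z * ⁅x, y⁆) (x y z : C) (k : ℕ) :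
    ⁅⁅x, y⁆ ^ k, z⁆ = 1 := by
  rw [commutatorElement_eq_one_iff_mul_comm]
  exact ((show Commute ⁅x, y⁆ z from h1 x y z).pow_left k).eq

theorem pow_central (h1 : ∀ x y z : C, ⁅x, y⁆ * z = z * ⁅x, y⁆) (x y z : C) (k : ℕ) :
    ⁅x, y⁆ ^ k * z = z * ⁅x, y⁆ ^ k :=
  ((show Commute ⁅x, y⁆ z from h1 x y z).pow_left k).eq

theorem baer_assoc (k : ℕ) (h1 : ∀ x y z : C, ⁅x, y⁆ * z = z * ⁅x, y⁆) (x y z : C) :
    (x * y * ⁅y, x⁆ ^ k) * z * ⁅z, x * y * ⁅y, x⁆ ^ k⁆ ^ k =
      x * (y * z * ⁅z, y⁆ ^ k) * ⁅y * z * ⁅z, y⁆ ^ k, x⁆ ^ k := by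
  have c1 : ⁅z, x * y * ⁅y, x⁆ ^ k⁆ = ⁅z, x⁆ * ⁅z, y⁆ := by
    rw [comm_mul_right h1, comm_mul_right h1, ← commutatorElement_inv (⁅y, x⁆ ^ k) z,
      comm_pow_left h1, inv_one, mul_one]
  have c2 : ⁅y * z * ⁅z, y⁆ ^ k, x⁆ = ⁅y, x⁆ * ⁅z, x⁆ := by
    rw [comm_mul_left h1, comm_mul_left h1, comm_pow_left h1, mul_one]
  rw [c1, c2]
  have d1 : (⁅z, x⁆ * ⁅z, y⁆) ^ k = ⁅z, x⁆ ^ k * ⁅z, y⁆ ^ k :=
    (show Commute ⁅z, x⁆ ⁅z, y⁆ from h1 _ _ _).mul_pow k
  have d2 : (⁅y, x⁆ * ⁅z, x⁆) ^ k = ⁅y, x⁆ ^ k * ⁅z, x⁆ ^ k :=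
    (show Commute ⁅y, x⁆ ⁅z, x⁆ from h1 _ _ _).mul_pow k
  rw [d1, d2]
  calc x * y * ⁅y, x⁆ ^ k * z * (⁅z, x⁆ ^ k * ⁅z, y⁆ ^ k)
      = x * y * (⁅y, x⁆ ^ k * z) * (⁅z, x⁆ ^ k * ⁅z, y⁆ ^ k) := by group
    _ = x * y * (z * ⁅y, x⁆ ^ k) * (⁅z, x⁆ ^ k * ⁅z, y⁆ ^ k) := by rw [pow_central h1 y x z]
    _ = x * y * z * ((⁅y, x⁆ ^ k * ⁅z, x⁆ ^ k) * ⁅z, y⁆ ^ k) := by group
    _ = x * y * z * (⁅z, y⁆ ^ k * (⁅y, x⁆ ^ k * ⁅z, x⁆ ^ k)) := by
        rw [← pow_central h1 z y (⁅y, x⁆ ^ k * ⁅z, x⁆ ^ k)]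
    _ = x * (y * z * ⁅z, y⁆ ^ k) * (⁅y, x⁆ ^ k * ⁅z, x⁆ ^ k) := by group

theorem baer_comm (k : ℕ) (h1 : ∀ x y z : C, ⁅x, y⁆ * z = z * ⁅x, y⁆)
    (h2 : ∀ x y : C, ⁅x, y⁆ ^ k * ⁅x, y⁆ ^ k = ⁅x, y⁆) (x y : C) :
    x * y * ⁅y, x⁆ ^ k = y * x * ⁅x, y⁆ ^ k := by
  have e1 : x * y = y * x * ⁅x, y⁆ := by
    rw [← h1 x y (y * x), commutatorElement_def]; group
  rw [e1, ← commutatorElement_inv x y]
  have e2 : ⁅x, y⁆ * ⁅x, y⁆⁻¹ ^ k = ⁅x, y⁆ ^ k := by
    rw [inv_pow, mul_inv_eq_iff_eq_mul]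
    exact (h2 x y).symm
  rw [mul_assoc, e2]

/-- The Baer sum on a group of class at most two with commutators of odd order. -/
@[reducible] def baerGroup (k : ℕ) (h1 : ∀ x y z : C, ⁅x, y⁆ * z = z * ⁅x, y⁆)
    (h2 : ∀ x y : C, ⁅x, y⁆ ^ k * ⁅x, y⁆ ^ k = ⁅x, y⁆) : AddCommGroup C :=
  letI : Add C := ⟨fun x y => x * y * ⁅y, x⁆ ^ k⟩
  letI : Zero C := ⟨1⟩
  letI : Neg C := ⟨fun x => x⁻¹⟩
  { AddGroup.ofLeftAxioms (G := C)
      (fun x y z => baer_assoc k h1 x y z)
      (fun x => by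
        change 1 * x * ⁅x, 1⁆ ^ k = x
        rw [commutatorElement_one_right, one_pow, one_mul, mul_one])
      (fun x => by
        change x⁻¹ * x * ⁅x, x⁻¹⁆ ^ k = 1
        have : ⁅x, x⁻¹⁆ = 1 := by
          rw [commutatorElement_eq_one_iff_mul_comm, mul_inv_cancel, inv_mul_cancel]
        rw [this, one_pow, mul_one, inv_mul_cancel]) with
    add_comm := fun x y => baer_comm k h1 h2 x y }

end baer


section fixed
variable {C : Type*} [Group C] [Finite C] {Γ : Type*} [Group Γ] [Finite Γ]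

/-- The fixed point lemma on additive groups: `A` a `p`-group normalizing the `p'`-group `Q`. -/
theorem fixed_add {V : Type*} [AddCommGroup V] [Finite V] {p : ℕ} [Fact p.Prime]
    (hV : ∃ n, Nat.card V = p ^ n) (φ : Γ →* AddMonoid.End V) {A Q : Subgroup Γ} (hA : IsPGroup p A)
    (hQ : ¬ p ∣ Nat.card Q) (hAQ : A ≤ normalizer (Q : Set Γ))
    (hfix : ∀ x : V, (∀ a ∈ A, φ a x = x) → p • x = 0 → ∀ q ∈ Q, φ q x = x) :
    ∀ x : V, ∀ q ∈ Q, φ q x = x := by
  classical
  have hp : p.Prime := Fact.out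
  letI : Fintype Q := Fintype.ofFinite Q
  let N : V → V := fun x => ∑ q : Q, φ (q : Γ) x
  have hN : ∀ x, N x = ∑ q : Q, φ (q : Γ) x := fun x => rfl
  have hNA : ∀ a ∈ A, ∀ x, N (φ a x) = φ a (N x) := by
    intro a ha x
    rw [hN, hN, map_sum]
    have hconj : ∀ q : Q, a⁻¹ * q * a ∈ Q := by
      intro q
      have := (mem_normalizer_iff.1 (hAQ (inv_mem ha)) q).1 q.2
      rwa [inv_inv] at this
    have hconj' : ∀ q : Q, a * q * a⁻¹ ∈ Q := fun q =>
      (mem_normalizer_iff.1 (hAQ ha) q).1 q.2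
    let e : Q ≃ Q :=
      { toFun := fun q => ⟨a⁻¹ * q * a, hconj q⟩
        invFun := fun q => ⟨a * q * a⁻¹, hconj' q⟩
        left_inv := fun q => Subtype.ext (by
          change a * (a⁻¹ * q * a) * a⁻¹ = q
          group)
        right_inv := fun q => Subtype.ext (by
          change a⁻¹ * (a * q * a⁻¹) * a = q
          group) }
    rw [← Equiv.sum_comp e (fun q : Q => φ a (φ (q : Γ) x))]
    apply Finset.sum_congr rfl
    intro q _
    change φ q (φ a x) = φ a (φ (a⁻¹ * q * a) x)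
    have e0 : ∀ g h : Γ, φ g (φ h x) = φ (g * h) x := fun g h => by rw [map_mul]; rfl
    have e1 : φ q (φ a x) = φ (q * a) x := e0 _ _
    have e2 : φ a (φ (a⁻¹ * q * a) x) = φ (a * (a⁻¹ * q * a)) x := e0 _ _
    rw [e1, e2]
    congr 2
    group
  have hNadd : ∀ x y, N (x - y) = N x - N y := by
    intro x y
    rw [hN, hN, hN, ← Finset.sum_sub_distrib]
    apply Finset.sum_congr rfl
    intro q _
    exact map_sub _ x y
  have hNsmul : ∀ (n : ℕ) x, N (n • x) = n • N x := by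
    intro n x
    rw [hN, hN, Finset.smul_sum]
    apply Finset.sum_congr rfl
    intro q _
    exact map_nsmul _ n x
  have hNQ : ∀ q ∈ Q, ∀ x, N (φ q x) = N x := by
    intro q hq x
    rw [hN, hN, ← Equiv.sum_comp (Equiv.mulRight (⟨q, hq⟩ : Q)) (fun q : Q => φ (q : Γ) x)]
    apply Finset.sum_congr rfl
    intro q' _
    change φ q' (φ q x) = φ (q' * q) x
    rw [map_mul]; rfl
  have hNfix : ∀ x, (∀ q ∈ Q, φ q x = x) → N x = 0 → x = 0 := by
    intro x hx h0
    rw [hN, Finset.sum_congr rfl (fun (q : Q) _ => hx q q.2), Finset.sum_const, Finset.card_univ,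
      ← Nat.card_eq_fintype_card] at h0
    have h1 : addOrderOf x ∣ Nat.card Q := addOrderOf_dvd_of_nsmul_eq_zero h0
    have h2 : addOrderOf x ∣ Nat.card V := addOrderOf_dvd_natCard x
    obtain ⟨n, hn⟩ := hV
    rw [hn] at h2
    have h3 : (Nat.card Q).Coprime (p ^ n) :=
      Nat.Coprime.pow_right _ ((Nat.Prime.coprime_iff_not_dvd hp).2 hQ).symm
    have h4 := Nat.eq_one_of_dvd_coprimes h3 h1 h2
    exact AddMonoid.addOrderOf_eq_one_iff.1 h4
  -- the kernel of the norm is trivial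
  have hker : ∀ x, N x = 0 → x = 0 := by
    by_contra hne
    push Not at hne
    obtain ⟨x, hx0, hx1⟩ := hne
    -- an element of order p
    obtain ⟨y, hy0, hyp, hy1⟩ : ∃ y, N y = 0 ∧ p • y = 0 ∧ y ≠ 0 := by
      obtain ⟨n, hn⟩ := hV
      have h2 : addOrderOf x ∣ p ^ n := hn ▸ addOrderOf_dvd_natCard x
      obtain ⟨m, -, hm⟩ := (Nat.dvd_prime_pow hp).1 h2
      have hm0 : m ≠ 0 := by
        rintro rfl
        rw [pow_zero] at hm
        exact hx1 (AddMonoid.addOrderOf_eq_one_iff.1 hm)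
      obtain ⟨l, rfl⟩ := Nat.exists_eq_succ_of_ne_zero hm0
      refine ⟨p ^ l • x, ?_, ?_, ?_⟩
      · rw [hNsmul, hx0, smul_zero]
      · rw [← mul_smul, ← pow_succ', ← Nat.succ_eq_add_one, ← hm, addOrderOf_nsmul_eq_zero]
      · intro h
        have := addOrderOf_dvd_of_nsmul_eq_zero h
        rw [hm] at this
        have := (Nat.pow_dvd_pow_iff_le_right hp.one_lt).1 this
        omega
    let K : AddSubgroup V :=
      { carrier := {x | N x = 0 ∧ p • x = 0}
        add_mem' := by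
          rintro a b ⟨ha, ha'⟩ ⟨hb, hb'⟩
          refine ⟨?_, by rw [smul_add, ha', hb', add_zero]⟩
          have h1 := hNadd a (-b)
          have h2 := hNadd 0 b
          have h3 := hNsmul 0 b
          rw [zero_smul, zero_smul] at h3
          rw [zero_sub, h3, hb, sub_zero] at h2
          rw [sub_neg_eq_add, ha, h2, sub_zero] at h1
          exact h1
        zero_mem' := by
          refine ⟨?_, smul_zero _⟩
          have h3 := hNsmul 0 y
          rwa [zero_smul, zero_smul] at h3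
        neg_mem' := by
          rintro b ⟨hb, hb'⟩
          refine ⟨?_, by rw [smul_neg, hb', neg_zero]⟩
          have h2 := hNadd 0 b
          have h3 := hNsmul 0 b
          rw [zero_smul, zero_smul] at h3
          rwa [zero_sub, h3, hb, sub_zero] at h2 }
    have hKm : ∀ x, x ∈ K ↔ N x = 0 ∧ p • x = 0 := fun x => Iff.rfl
    letI : MulAction A K :=
      { smul := fun a x => ⟨φ a x, by
          obtain ⟨h1, h2⟩ := (hKm x).1 x.2
          refine (hKm _).2 ⟨?_, ?_⟩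
          · rw [hNA a a.2, h1, map_zero]
          · rw [← map_nsmul, h2, map_zero]⟩
        one_smul := fun x => Subtype.ext (by
          change φ ((1 : A) : Γ) x = x
          rw [OneMemClass.coe_one, map_one]; rfl)
        mul_smul := fun a b x => Subtype.ext (by
          change φ ((a * b : A) : Γ) x = φ a (φ b x)
          rw [Subgroup.coe_mul, map_mul]; rfl) }
    have hcard : p ∣ Nat.card K := by
      obtain ⟨n, hn⟩ := hV
      have h1 : Nat.card K ∣ p ^ n := hn ▸ AddSubgroup.card_addSubgroup_dvd_card K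
      obtain ⟨m, -, hm⟩ := (Nat.dvd_prime_pow hp).1 h1
      have hm0 : m ≠ 0 := by
        rintro rfl
        rw [pow_zero] at hm
        haveI := (Nat.card_eq_one_iff_unique.1 hm).1
        have := Subsingleton.elim (⟨y, hy0, hyp⟩ : K) 0
        exact hy1 (congrArg Subtype.val this)
      rw [hm]
      exact dvd_pow_self p hm0
    obtain ⟨z, hz, hz1⟩ := hA.exists_fixed_point_of_prime_dvd_card_of_fixed_point K hcard
      (a := (0 : K)) (by
        intro a
        exact Subtype.ext (map_zero (φ a)))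
    have hzfix : ∀ a ∈ A, φ a (z : V) = z := fun a ha => congrArg Subtype.val (hz ⟨a, ha⟩)
    have h5 := hfix z hzfix z.2.2
    exact hz1 (Subtype.ext (hNfix z h5 z.2.1).symm)
  intro x q hq
  have h1 : N (φ q x - x) = 0 := by rw [hNadd, hNQ q hq, sub_self]
  exact sub_eq_zero.1 (hker _ h1)


/-- The fixed point lemma on groups of class at most two. -/
theorem fixed_mul {p : ℕ} [Fact p.Prime] (hp2 : p ≠ 2) (hC : IsPGroup p C)
    (h1 : ∀ x y z : C, ⁅x, y⁆ * z = z * ⁅x, y⁆) (φ : Γ →* MulAut C) {A Q : Subgroup Γ}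
    (hA : IsPGroup p A) (hQ : ¬ p ∣ Nat.card Q) (hAQ : A ≤ normalizer (Q : Set Γ))
    (hfix : ∀ x : C, (∀ a ∈ A, φ a x = x) → x ^ p = 1 → ∀ q ∈ Q, φ q x = x) :
    ∀ x : C, ∀ q ∈ Q, φ q x = x := by
  have hp : p.Prime := Fact.out
  obtain ⟨n, hn⟩ := IsPGroup.iff_card.1 hC
  have hodd : Odd (Nat.card C) := by
    rw [hn]
    exact (hp.odd_of_ne_two hp2).pow
  obtain ⟨k, hk⟩ := hodd
  have h2 : ∀ x y : C, ⁅x, y⁆ ^ (k + 1) * ⁅x, y⁆ ^ (k + 1) = ⁅x, y⁆ := by
    intro x y
    rw [← pow_add]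
    have : k + 1 + (k + 1) = Nat.card C + 1 := by omega
    rw [this, pow_succ, pow_card_eq_one', one_mul]
  letI inst : AddCommGroup C := baerGroup (k + 1) h1 h2
  have hadd : ∀ x y : C, x + y = x * y * ⁅y, x⁆ ^ (k + 1) := fun x y => rfl
  have hzero : (0 : C) = 1 := rfl
  have hnsmul : ∀ (n : ℕ) (x : C), n • x = x ^ n := by
    intro n x
    induction n with
    | zero => rw [zero_smul, pow_zero, hzero]
    | succ n ih =>
      rw [succ_nsmul, ih, hadd]
      have : ⁅x, x ^ n⁆ = 1 := by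
        rw [commutatorElement_eq_one_iff_mul_comm, ← pow_succ, ← pow_succ']
      rw [this, one_pow, mul_one, pow_succ]
  let ψ : Γ →* AddMonoid.End C :=
    { toFun := fun g =>
        { toFun := fun x => φ g x
          map_zero' := map_one (φ g)
          map_add' := fun x y => by
            rw [hadd, hadd, map_mul, map_mul, map_pow, map_commutatorElement] }
      map_one' := by
        apply AddMonoidHom.ext
        intro x
        change φ 1 x = x
        rw [map_one]; rfl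
      map_mul' := fun g h => by
        apply AddMonoidHom.ext
        intro x
        change φ (g * h) x = φ g (φ h x)
        rw [map_mul]; rfl }
  have hψ : ∀ g x, ψ g x = φ g x := fun g x => rfl
  intro x q hq
  rw [← hψ]
  apply fixed_add (V := C) ⟨n, hn⟩ ψ hA hQ hAQ _ x q hq
  intro y hy hpy
  rw [hnsmul] at hpy
  exact hfix y hy hpy

end fixed

/-- The fixed point lemma inside a group. -/
theorem fixed_sub {G : Type*} [Group G] [Finite G] {p : ℕ} [Fact p.Prime] (hp2 : p ≠ 2)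
    {C A Q : Subgroup G} (hC : IsPGroup p C) (hcl : ⁅⁅C, C⁆, C⁆ = ⊥) (hA : IsPGroup p A)
    (hQ : ¬ p ∣ Nat.card Q) (hAQ : A ≤ normalizer (Q : Set G)) (hAC : A ≤ normalizer (C : Set G))
    (hQC : Q ≤ normalizer (C : Set G))
    (hfix : ∀ x ∈ C, x ∈ centralizer (A : Set G) → x ^ p = 1 → x ∈ centralizer (Q : Set G)) :
    ⁅C, Q⁆ = ⊥ := by
  have key := fixed_mul (C := C) (Γ := normalizer (C : Set G)) hp2 hC (by
    intro x y z
    apply Subtype.ext
    have h2 : ⁅⁅(x : G), (y : G)⁆, (z : G)⁆ ∈ ⁅⁅C, C⁆, C⁆ :=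
      commutator_mem_commutator (commutator_mem_commutator x.2 y.2) z.2
    rw [hcl, mem_bot, commutatorElement_eq_one_iff_mul_comm] at h2
    exact h2) (normalizerMonoidHom C) (A := A.subgroupOf _) (Q := Q.subgroupOf _)
    (hA.of_equiv (subgroupOfEquivOfLe hAC).symm)
    (by rw [Nat.card_congr (subgroupOfEquivOfLe hQC).toEquiv]; exact hQ)
    (by
      intro a ha
      rw [mem_normalizer_iff]
      intro x
      rw [mem_subgroupOf, mem_subgroupOf]
      exact mem_normalizer_iff.1 (hAQ (mem_subgroupOf.1 ha)) x)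
    (by
      intro x hx hxp q hq
      have h3 : (x : G) ∈ centralizer (Q : Set G) := by
        apply hfix x x.2
        · rw [mem_centralizer_iff]
          intro a ha
          have := congrArg Subtype.val (hx ⟨a, hAC ha⟩ (mem_subgroupOf.2 ha))
          change a * x * a⁻¹ = x at this
          rw [mul_inv_eq_iff_eq_mul] at this
          exact this
        · exact congrArg Subtype.val hxp
      apply Subtype.ext
      change (q : G) * x * (q : G)⁻¹ = x
      rw [mem_centralizer_iff.1 h3 q (mem_subgroupOf.1 hq), mul_inv_cancel_right])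
  rw [commutator_comm, commutator_eq_bot_iff_le_centralizer]
  intro q hq
  rw [mem_centralizer_iff]
  intro x hx
  have := congrArg Subtype.val (key ⟨x, hx⟩ ⟨q, hQC hq⟩ (mem_subgroupOf.2 hq))
  change q * x * q⁻¹ = x at this
  rw [mul_inv_eq_iff_eq_mul] at this
  exact this.symm


/-- The general form. -/
theorem fixed_gen {G : Type*} [Group G] [Finite G] {p : ℕ} [Fact p.Prime] (hp2 : p ≠ 2)
    {A Q : Subgroup G} (hA : IsPGroup p A) (hQ : ¬ p ∣ Nat.card Q)
    (hAQ : A ≤ normalizer (Q : Set G)) : ∀ (n : ℕ) (V : Subgroup G), Nat.card V ≤ n →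
    IsPGroup p V → A ≤ normalizer (V : Set G) → Q ≤ normalizer (V : Set G) →
    (∀ x ∈ V, x ∈ centralizer (A : Set G) → x ^ p = 1 → x ∈ centralizer (Q : Set G)) →
    ⁅V, Q⁆ = ⊥ := by
  intro n
  induction n with
  | zero =>
    intro V hV
    exact absurd hV (not_le.2 Nat.card_pos)
  | succ n ih =>
    intro V hVn hV hAV hQV hfix
    have hcardlt : ∀ X : Subgroup G, X < V → Nat.card X ≤ n := by
      intro X hX
      have := Set.ncard_lt_ncard (s := (X : Set G)) (t := (V : Set G)) hX (Set.toFinite _)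
      have h1 : (X : Set G).ncard = Nat.card X := rfl
      have h2 : (V : Set G).ncard = Nat.card V := rfl
      omega
    have hVs : Group.IsSolvable V := CfsgLib.PQ.solvable_of_pgroup hV
    have hcop : (Nat.card Q).Coprime (Nat.card V) :=
      (CfsgLib.Sig.coprime_of_not_dvd hV hQ).symm
    by_cases hVQ : ⁅V, Q⁆ = V
    · by_cases hVb : V = ⊥
      · rw [hVb]; exact commutator_bot_left Q
      have hD : ⁅V, V⁆ < V := by
        haveI : Nontrivial V := (nontrivial_iff_ne_bot V).2 hVb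
        haveI := hVs
        refine lt_of_le_of_ne (le_normalizer_iff_commutator_le_left.1 le_normalizer) ?_
        intro h
        apply (Group.IsSolvable.commutator_lt_top_of_nontrivial (G := V)).ne
        rw [← map_subtype_inj, map_subtype_commutator, h, ← MonoidHom.range_eq_map, range_subtype]
      have hnorm : ∀ B : Subgroup G, B ≤ normalizer (V : Set G) →
          B ≤ normalizer ((⁅V, V⁆ : Subgroup G) : Set G) := by
        intro B hB b hb
        rw [← CfsgLib.PSub.map_conj_eq_iff_mem_normalizer, map_commutator,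
          CfsgLib.PSub.map_conj_eq_iff_mem_normalizer.2 (hB hb)]
      have h1 := ih _ (hcardlt _ hD) (hV.to_le hD.le) (hnorm A hAV) (hnorm Q hQV)
        (fun x hx => hfix x (hD.le hx))
      have h2 : ⁅⁅V, Q⁆, ⁅V, V⁆⁆ = ⊥ := by
        apply commutator_commutator_eq_bot_of_rotate
        · rw [commutator_comm Q, h1, commutator_bot_left]
        · rw [eq_bot_iff, ← h1]
          exact commutator_mono (le_normalizer_iff_commutator_le_left.1
            (hnorm V le_normalizer)) le_rfl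
      rw [hVQ, commutator_comm] at h2
      exact fixed_sub hp2 hV h2 hA hQ hAQ hAV hQV hfix
    · have hlt : ⁅V, Q⁆ < V := lt_of_le_of_ne (le_normalizer_iff_commutator_le_left.1 hQV) hVQ
      have h1 := ih _ (hcardlt _ hlt) (hV.to_le hlt.le) (by
          intro a ha
          rw [← CfsgLib.PSub.map_conj_eq_iff_mem_normalizer, map_commutator,
            CfsgLib.PSub.map_conj_eq_iff_mem_normalizer.2 (hAV ha),
            CfsgLib.PSub.map_conj_eq_iff_mem_normalizer.2 (hAQ ha)])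
        (normalizer_commutator_ge_right V Q) (fun x hx => hfix x (hlt.le hx))
      exact CfsgLib.Coprime.commutator_eq_bot_of_commutator_commutator hQV hcop (Or.inr hVs) h1

end CfsgLib.Baer
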