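import Mathlib
import Cfsg.Agent.LibSolvFrat

/-! Burnside basis theorem -/

set_option autoImplicit false
set_option linter.all false

namespace CfsgLib.BurnBasis

universe u

theorem basis_module {V : Type u} [AddCommGroup V] [Finite V] (p : ℕ) [hp : Fact p.Prime]
    [Module (ZMod p) V] (n : ℕ) (hn : Nat.card V = p ^ n) (S : Set V)
    (hS : AddSubgroup.closure S = ⊤) :
    (∃ T ⊆ S, T.ncard = n ∧ AddSubgroup.closure T = ⊤) ∧ n ≤ S.ncard := by
  classical
  have hrank : Module.finrank (ZMod p) V = n := by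
    have h1 := Module.natCard_eq_pow_finrank (K := ZMod p) (V := V)
    rw [hn, Nat.card_zmod] at h1
    exact (Nat.pow_right_injective hp.out.two_le h1).symm
  have h1 : ∀ T : Set V, AddSubgroup.closure T = ⊤ ↔ Submodule.span (ZMod p) T = ⊤ := by
    intro T
    constructor
    · intro h
      have h2 : AddSubgroup.closure T ≤ (Submodule.span (ZMod p) T).toAddSubgroup := by
        rw [AddSubgroup.closure_le]
        exact Submodule.subset_span
      rw [h] at h2
      ext x
      exact ⟨fun _ => trivial, fun _ => h2 (AddSubgroup.mem_top x)⟩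
    · intro h
      have h2 : Submodule.span (ZMod p) T ≤ AddSubgroup.toZModSubmodule p (AddSubgroup.closure T) := by
        rw [Submodule.span_le]
        exact AddSubgroup.subset_closure
      rw [h] at h2
      ext x
      exact ⟨fun _ => trivial, fun _ => h2 trivial⟩
  have hSf : S.Finite := Set.toFinite S
  constructor
  · obtain ⟨b, hbS, hbspan, hli⟩ := exists_linearIndependent (ZMod p) S
    refine ⟨b, hbS, ?_, ?_⟩
    · letI : Fintype b := Fintype.ofFinite b
      have h2 := finrank_span_set_eq_card hli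
      rw [hbspan, (h1 S).mp hS, finrank_top, hrank] at h2
      rw [Set.ncard_eq_toFinset_card']
      exact h2.symm
    · rw [h1, hbspan]; exact (h1 S).mp hS
  · letI : Fintype S := Fintype.ofFinite S
    have h2 := finrank_span_le_card (R := ZMod p) S
    rw [(h1 S).mp hS, finrank_top, hrank] at h2
    rwa [Set.ncard_eq_toFinset_card']

theorem basis_add {V : Type u} [AddCommGroup V] [Finite V] (p : ℕ) [hp : Fact p.Prime]
    (hpV : ∀ x : V, p • x = 0) (n : ℕ) (hn : Nat.card V = p ^ n) (S : Set V)
    (hS : AddSubgroup.closure S = ⊤) :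
    (∃ T ⊆ S, T.ncard = n ∧ AddSubgroup.closure T = ⊤) ∧ n ≤ S.ncard := by
  letI : Module (ZMod p) V := AddCommGroup.zmodModule hpV
  exact basis_module p n hn S hS

theorem basis_mul {V : Type u} [CommGroup V] [Finite V] (p : ℕ) [hp : Fact p.Prime]
    (hpV : ∀ x : V, x ^ p = 1) (n : ℕ) (hn : Nat.card V = p ^ n) (S : Set V)
    (hS : Subgroup.closure S = ⊤) :
    (∃ T ⊆ S, T.ncard = n ∧ Subgroup.closure T = ⊤) ∧ n ≤ S.ncard := by
  have key : ∀ T : Set V, Subgroup.closure T = ⊤ ↔
      AddSubgroup.closure (Additive.toMul ⁻¹' T : Set (Additive V)) = ⊤ := by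
    intro T
    rw [← Subgroup.toAddSubgroup_closure]
    exact ⟨fun h => by rw [h]; rfl, fun h => Subgroup.toAddSubgroup.injective h⟩
  have h1 := basis_add (V := Additive V) p hpV n hn (Additive.toMul ⁻¹' S) ((key S).mp hS)
  refine ⟨?_, h1.2⟩
  obtain ⟨T, hT, hc, hcl⟩ := h1.1
  exact ⟨Additive.ofMul ⁻¹' T, hT, hc, (key _).mpr hcl⟩

theorem burnside_basis {G : Type u} [Group G] [Finite G] (p n : ℕ) [hp : Fact p.Prime]
    (hG : IsPGroup p G) (hn : (frattini G).index = p ^ n) :
    (∀ S : Finset G, Subgroup.closure (S : Set G) = ⊤ → ∃ T : Finset G, T ⊆ S ∧ T.card = n ∧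
      Subgroup.closure (T : Set G) = ⊤) ∧
    (∀ T : Finset G, Subgroup.closure (T : Set G) = ⊤ → n ≤ T.card) := by
  classical
  suffices H : ∀ (Φ : Subgroup G) [Φ.Normal], frattini G = Φ → commutator G ≤ Φ → (∀ x : G, x ^ p ∈ Φ) →
      Φ.index = p ^ n → (∀ S : Finset G, Subgroup.closure (S : Set G) = ⊤ → ∃ T : Finset G, T ⊆ S ∧ T.card = n ∧
      Subgroup.closure (T : Set G) = ⊤) ∧
    (∀ T : Finset G, Subgroup.closure (T : Set G) = ⊤ → n ≤ T.card) from
    H (frattini G) rfl (CfsgLib.SolvFrat.commutator_le_frattini hp.out hG)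
      (CfsgLib.SolvFrat.pow_mem_frattini hp.out hG) hn
  intro Φ hΦn hΦ hcomm hpow hidx
  let π := QuotientGroup.mk' Φ
  have hπ : Function.Surjective π := QuotientGroup.mk'_surjective Φ
  letI : CommGroup (G ⧸ Φ) := { (inferInstance : Group (G ⧸ Φ)) with
    mul_comm := by
      intro a b
      obtain ⟨x, rfl⟩ := hπ a
      obtain ⟨y, rfl⟩ := hπ b
      rw [← commutatorElement_eq_one_iff_mul_comm, ← map_commutatorElement]
      refine (QuotientGroup.eq_one_iff _).mpr (hcomm ?_)
      rw [commutator_def]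
      exact Subgroup.commutator_mem_commutator (Subgroup.mem_top _) (Subgroup.mem_top _) }
  have hcard : Nat.card (G ⧸ Φ) = p ^ n := by rw [← Subgroup.index_eq_card]; exact hidx
  have hexp : ∀ x : G ⧸ Φ, x ^ p = 1 := by
    intro x
    obtain ⟨y, rfl⟩ := hπ x
    rw [← map_pow]
    exact (QuotientGroup.eq_one_iff _).mpr (hpow y)
  have hmap : ∀ T : Set G, Subgroup.closure T = ⊤ → Subgroup.closure (π '' T) = ⊤ := by
    intro T hT
    rw [← MonoidHom.map_closure, hT, Subgroup.map_top_of_surjective _ hπ]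
  have hmap' : ∀ T : Set G, Subgroup.closure (π '' T) = ⊤ → Subgroup.closure T = ⊤ := by
    intro T hT
    rw [← MonoidHom.map_closure] at hT
    apply frattini_nongenerating
    rw [hΦ]
    have h2 := congrArg (Subgroup.comap π) hT
    rw [Subgroup.comap_map_eq, QuotientGroup.ker_mk', Subgroup.comap_top] at h2
    exact h2
  constructor
  · intro S hS
    obtain ⟨⟨T, hTS, hTn, hTc⟩, -⟩ := basis_mul p hexp n hcard (π '' (S : Set G)) (hmap _ hS)
    -- lift
    have hsub : ∀ t : T, ∃ s ∈ S, π s = t := by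
      intro t
      obtain ⟨s, hs, hst⟩ := hTS t.2
      exact ⟨s, hs, hst⟩
    choose f hf hπf using hsub
    have hfinj : Function.Injective f := by
      intro a b hab
      apply Subtype.ext
      rw [← hπf a, ← hπf b, hab]
    letI : Fintype T := Fintype.ofFinite T
    refine ⟨Finset.univ.image f, ?_, ?_, ?_⟩
    · intro x hx
      rw [Finset.mem_image] at hx
      obtain ⟨t, -, rfl⟩ := hx
      exact hf t
    · rw [Finset.card_image_of_injective _ hfinj, Finset.card_univ, ← hTn,
        Set.ncard_eq_toFinset_card', Set.toFinset_card]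
    · apply hmap'
      have h3 : π '' ((Finset.univ.image f : Finset G) : Set G) = T := by
        ext x
        constructor
        · rintro ⟨y, hy, rfl⟩
          rw [Finset.mem_coe, Finset.mem_image] at hy
          obtain ⟨t, -, rfl⟩ := hy
          rw [hπf]; exact t.2
        · intro hx
          exact ⟨f ⟨x, hx⟩, by simp, hπf ⟨x, hx⟩⟩
      rw [h3]; exact hTc
  · intro T hT
    obtain ⟨-, h⟩ := basis_mul p hexp n hcard (π '' (T : Set G)) (hmap _ hT)
    refine h.trans ?_
    refine (Set.ncard_image_le (Set.toFinite _)).trans ?_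
    rw [Set.ncard_coe_finset]

end CfsgLib.BurnBasis
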