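import Mathlib
import Cfsg.Agent.EqBase
import Cfsg.Agent.LibBlockSq
import Cfsg.Agent.LibBlockH
import Cfsg.Agent.LibBrP20

/-!
# Multiplicities and heights: S4725, S4723 (helper18)
-/

set_option autoImplicit false
set_option linter.unusedSectionVars false
set_option linter.style.haveILetI false
set_option linter.unusedSimpArgs false
set_option linter.unusedVariables false

namespace CfsgLib.BkMul

open CfsgLib.CharInt hiding irr_isCharacter irr_classFun irr_one_ne_zero schur_scalar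
open Cfsg CfsgLib.CharInt2 CfsgLib.CharBasic CfsgLib.BlockR CfsgLib.BlockCore
  CfsgLib.BlockIdem CfsgLib.BlockIdeal CfsgLib.BlockConj CfsgLib.BlockBrauer CfsgLib.BlockInd
  CfsgLib.BlockFMT CfsgLib.BlockFMT2 CfsgLib.PLocalInd CfsgLib.BlockOrth CfsgLib.BlockDefect
  CfsgLib.BlockReg CfsgLib.BlockReg2 CfsgLib.BlockQP CfsgLib.CharNorm CfsgLib.CharIndA
open scoped ComplexConjugate Pointwise

universe u

variable {M : Ideal AlgInt} {p : ℕ} [Fact p.Prime] {G : Type u} [Group G] [Fintype G]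

theorem s4725 (hM : IsPModular p M) (H : Subgroup G) (b : Set (IrrCharacter ↥H))
    (B : Set (IrrCharacter G)) (hind : IsInducedBlock M H b B)
    (hdef : blockDefect p b = blockDefect p B) (ζ : IrrCharacter ↥H) (hζ : ζ ∈ b)
    (hζ0 : blockHeight p b (ζ : ↥H → ℂ) = 0) : ∃ χ ∈ B, blockHeight p B (χ : G → ℂ) = 0 ∧
      ∃ a : ℕ, classInner (indFun H (ζ : ↥H → ℂ)) (χ : G → ℂ) = (a : ℂ) ∧ ¬ p ∣ a := by
  classical
  haveI := Fintype.ofFinite H
  have hp := isPrime_of_modular hM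
  have hpp : p.Prime := Fact.out
  obtain ⟨χ₀, hχ₀⟩ := block_nonempty hp hind.2.1
  -- multiplicities
  have hmult : ∀ χ : IrrCharacter G, ∃ a : ℕ,
      classInner (indFun H (ζ : ↥H → ℂ)) (χ : G → ℂ) = (a : ℂ) := fun χ =>
    char_mult (isCharacter_ind H (irr_isCharacter ζ.2)) (irr_isCharacter χ.2)
  choose a ha using hmult
  have hN : indFun H (ζ : ↥H → ℂ) 1 = ((H.index * charDegree (ζ : H → ℂ) : ℕ) : ℂ) := by
    rw [ind_one, irr_one_eq_charDegree ζ.2]; push_cast; rfl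
  set N : ℕ := H.index * charDegree (ζ : H → ℂ) with hNdef
  have hN0 : N ≠ 0 := Nat.mul_ne_zero Subgroup.index_ne_zero_of_finite
    (irr_charDegree_pos ζ.2).ne'
  have hNf : N.factorization p = H.index.factorization p +
      (charDegree (ζ : H → ℂ)).factorization p := by
    rw [hNdef, Nat.factorization_mul Subgroup.index_ne_zero_of_finite
      (irr_charDegree_pos ζ.2).ne']; rfl
  have h1 := induced_val hp hind hζ hχ₀ (AR_ind_block hp hind.2.1)
  rw [ind_of hχ₀, CfsgLib.BlockH.blockPart_ind_one, hN] at h1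
  -- the degree of the block part
  have hn : blockPart B (indFun H (ζ : ↥H → ℂ)) 1 =
      ((∑ χ : IrrCharacter G, if χ ∈ B then a χ * charDegree (χ : G → ℂ) else 0 : ℕ) : ℂ) := by
    rw [blockPart_expand, Nat.cast_sum]
    refine Finset.sum_congr rfl fun χ _ => ?_
    by_cases hχ : χ ∈ B
    · rw [ind_of hχ, if_pos hχ, ha, irr_one_eq_charDegree χ.2]; push_cast; ring
    · rw [ind_not hχ, if_neg hχ, zero_mul]; simp
  set n : ℕ := ∑ χ : IrrCharacter G, if χ ∈ B then a χ * charDegree (χ : G → ℂ) else 0 with hndef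
  rw [hn] at h1
  have h2 : ¬ MemLocalIdeal M ((n : ℂ) / N) := by
    intro h
    apply not_ideal_one hp
    have h3 := ideal_add hp h (ideal_neg h1)
    have e1 : (n : ℂ) / N + -((n : ℂ) / N - 1) = 1 := by ring
    rwa [e1] at h3
  have hn0 : n ≠ 0 := by
    intro h
    apply h2
    rw [h, Nat.cast_zero, zero_div]
    exact ideal_zero hp
  rw [ideal_div_nat_iff hM hn0 hN0] at h2
  push Not at h2
  -- a character with small valuation
  obtain ⟨χ, hχ, hχn⟩ : ∃ χ ∈ B, ¬ p ^ (N.factorization p + 1) ∣ a χ * charDegree (χ : G → ℂ) := by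
    by_contra hcon
    push Not at hcon
    have h3 : p ^ (N.factorization p + 1) ∣ n := by
      rw [hndef]
      refine Finset.dvd_sum fun χ _ => ?_
      split_ifs with h
      · exact hcon χ h
      · exact dvd_zero _
    have h4 := (hpp.pow_dvd_iff_le_factorization hn0).1 h3
    omega
  have haχ : a χ ≠ 0 := by
    intro h
    apply hχn
    rw [h, zero_mul]; exact dvd_zero _
  have hdχ : charDegree (χ : G → ℂ) ≠ 0 := (irr_charDegree_pos χ.2).ne'
  rw [hpp.pow_dvd_iff_le_factorization (Nat.mul_ne_zero haχ hdχ),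
    Nat.factorization_mul haχ hdχ, Finsupp.add_apply] at hχn
  have h5 := (height_zero_iff hM hind.1 hζ).1 hζ0
  have h6 := card_factorization (p := p) H
  have h7 := degree_ge_defect hM hind.2.1 hχ
  refine ⟨χ, hχ, ?_, a χ, ha χ, ?_⟩
  · rw [height_zero_iff hM hind.2.1 hχ]; omega
  · intro hdvd
    have h8 : 1 ≤ (a χ).factorization p := by
      have := (hpp.pow_dvd_iff_le_factorization (k := 1) haχ).1 (by rwa [pow_one])
      exact this
    omega

/-- the action on the irreducible characters of a normal subgroup -/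
theorem s4723 (hM : IsPModular p M) (H : Subgroup G) [H.Normal]
    (b : Set (IrrCharacter ↥H)) (hb : IsPBlock M b) (T : Subgroup G)
    (hT : (∀ g : G, g ∈ T ↔ ∀ θ ∈ b, ∀ θ' : IrrCharacter ↥H,
      (∀ h h' : ↥H, (h' : G) = g * h * g⁻¹ → (θ' : ↥H → ℂ) h' = (θ : ↥H → ℂ) h) → θ' ∈ b)) :
    ∃ θ ∈ b, blockHeight p b (θ : ↥H → ℂ) = 0 ∧ ∃ S : Subgroup G, S ≤ T ∧
      (∀ g : G, g ∈ S ↔ (g ∈ T ∧ ∀ h h' : ↥H, (h' : G) = g * h * g⁻¹ →
        (θ : ↥H → ℂ) h' = (θ : ↥H → ℂ) h)) ∧ ¬ p ∣ S.relIndex T := by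
  classical
  haveI := Fintype.ofFinite H
  haveI hp := isPrime_of_modular hM
  haveI := CfsgLib.BrP.charP_kM hM
  have hpp : p.Prime := Fact.out
  -- conjugation
  let cn : G → IrrCharacter H → IrrCharacter H := fun g => CfsgLib.BrP.trI (MulAut.conjNormal g)
  have hcn : ∀ g θ (h : H), (cn g θ : H → ℂ) (MulAut.conjNormal g h) = (θ : H → ℂ) h :=
    fun g θ h => CfsgLib.BrP.trI_apply _ _ _
  have hchar : ∀ g (θ θ' : IrrCharacter H), cn g θ = θ' ↔ ∀ h h' : ↥H, (h' : G) = g * h * g⁻¹ →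
      (θ' : ↥H → ℂ) h' = (θ : ↥H → ℂ) h := by
    intro g θ θ'
    show CfsgLib.BrP.trI (MulAut.conjNormal g) θ = θ' ↔ _
    rw [CfsgLib.BrP.trI_eq_iff]
    constructor
    · intro h1 h h' hh
      have : h' = MulAut.conjNormal g h := Subtype.ext (by rw [hh, MulAut.conjNormal_apply])
      rw [this]; exact h1 h
    · intro h1 h
      exact h1 h _ (MulAut.conjNormal_apply g h)
  have hone : ∀ θ, cn 1 θ = θ := by
    intro θ
    rw [hchar]
    intro h h' hh
    have : h' = h := Subtype.ext (by rw [hh]; group)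
    rw [this]
  have hmul : ∀ g g' θ, cn (g * g') θ = cn g (cn g' θ) := by
    intro g g' θ
    rw [hchar]
    intro h h' hh
    have h1 : h' = MulAut.conjNormal g (MulAut.conjNormal g' h) := by
      apply Subtype.ext
      rw [hh, MulAut.conjNormal_apply, MulAut.conjNormal_apply]; group
    rw [h1, hcn, hcn]
  have hTb : ∀ g ∈ T, ∀ θ ∈ b, cn g θ ∈ b := fun g hg θ hθ =>
    (hT g).1 hg θ hθ _ ((hchar g θ _).1 rfl)
  -- the Sylow subgroup
  obtain ⟨Q⟩ : Nonempty (Sylow p T) := inferInstance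
  letI : MulAction Q {θ : IrrCharacter H // θ ∈ b} :=
    { smul := fun g θ => ⟨cn ((g : T) : G) θ, hTb _ (g : T).2 _ θ.2⟩
      one_smul := fun θ => Subtype.ext (hone _)
      mul_smul := fun g g' θ => Subtype.ext (hmul _ _ _) }
  have hsm : ∀ (g : Q) (θ : {θ : IrrCharacter H // θ ∈ b}),
      ((g • θ : {θ : IrrCharacter H // θ ∈ b}) : IrrCharacter H) = cn ((g : T) : G) θ :=
    fun _ _ => rfl
  -- invariance
  have hrr : ∀ g θ, CfsgLib.BlockSq.rr p (cn g θ) = CfsgLib.BlockSq.rr p θ := by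
    intro g θ
    unfold CfsgLib.BlockSq.rr classInner
    congr 1
    rw [← Equiv.sum_comp (MulAut.conjNormal g : MulAut H).toEquiv]
    refine Finset.sum_congr rfl fun h _ => ?_
    have e0 : (MulAut.conjNormal g : MulAut H).toEquiv h = MulAut.conjNormal g h := rfl
    rw [e0, hcn]
    congr 1
    unfold secInd
    have : (∃ u x : H, u * x = MulAut.conjNormal g h ∧ Commute u x ∧ (∃ k : ℕ, orderOf u = p ^ k) ∧
        ¬ p ∣ orderOf x ∧ IsConj (1 : H) x) ↔ (∃ u x : H, u * x = h ∧ Commute u x ∧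
        (∃ k : ℕ, orderOf u = p ^ k) ∧ ¬ p ∣ orderOf x ∧ IsConj (1 : H) x) := by
      constructor
      · rintro ⟨u, x, h1, h2, ⟨k, h3⟩, h4, h5⟩
        have hx1 : x = 1 := isConj_one_right.1 h5
        subst hx1
        refine ⟨(MulAut.conjNormal g : MulAut H).symm u, 1, ?_, Commute.one_right _, ⟨k, ?_⟩, h4, h5⟩
        · rw [mul_one] at h1 ⊢
          rw [h1, MulEquiv.symm_apply_apply]
        · rw [MulEquiv.orderOf_eq]; exact h3
      · rintro ⟨u, x, h1, h2, ⟨k, h3⟩, h4, h5⟩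
        have hx1 : x = 1 := isConj_one_right.1 h5
        subst hx1
        refine ⟨(MulAut.conjNormal g : MulAut H) u, 1, ?_, Commute.one_right _, ⟨k, ?_⟩, h4, h5⟩
        · rw [mul_one] at h1 ⊢
          rw [h1]
        · rw [MulEquiv.orderOf_eq]; exact h3
    by_cases hc : (∃ u x : H, u * x = h ∧ Commute u x ∧
        (∃ k : ℕ, orderOf u = p ^ k) ∧ ¬ p ∣ orderOf x ∧ IsConj (1 : H) x)
    · rw [if_pos hc, if_pos (this.2 hc)]
    · rw [if_neg hc, if_neg (fun h' => hc (this.1 h'))]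
  have hdeg : ∀ g θ, (cn g θ : H → ℂ) 1 = (θ : H → ℂ) 1 := by
    intro g θ
    have := hcn g θ 1
    rwa [map_one] at this
  have hα := CfsgLib.BlockSq.alpha_unit hM hb
  have hαr := CfsgLib.BlockSq.alpha_ring hM hb
  rw [CfsgLib.BlockSq.alpha_eq hM hb] at hα hαr
  set F : IrrCharacter H → ℂ := fun θ => CfsgLib.BlockSq.rr p θ *
    ((θ : H → ℂ) 1 / (CfsgLib.BlockSq.qB p b : ℂ)) with hF
  have hFr : ∀ θ ∈ b, MemLocalRing M (F θ) := fun θ hθ =>
    ring_mul hp (CfsgLib.BlockSq.rr_ring hM θ) (CfsgLib.BlockSq.deg_div_ring hM hb hθ)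
  have hsum : ∑ θ : IrrCharacter H, ind b θ * F θ = ∑ θ : {θ : IrrCharacter H // θ ∈ b}, F θ := by
    rw [← Finset.sum_subtype (Finset.univ.filter (fun θ => θ ∈ b)) (by intro x; simp) F,
      Finset.sum_filter]
    refine Finset.sum_congr rfl fun θ _ => ?_
    by_cases hθ : θ ∈ b
    · rw [ind_of hθ, if_pos hθ, one_mul]
    · rw [ind_not hθ, if_neg hθ, zero_mul]
  rw [show (∑ χ : IrrCharacter H, ind b χ * (CfsgLib.BlockSq.rr p χ *
    ((χ : H → ℂ) 1 / (CfsgLib.BlockSq.qB p b : ℂ)))) = ∑ θ : {θ : IrrCharacter H // θ ∈ b}, F θ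
    from hsum] at hα hαr
  rw [← CfsgLib.BrP.rd_eq_zero hαr,
    CfsgLib.BrP.rd_sum (Finset.univ : Finset {θ : IrrCharacter H // θ ∈ b}) (fun θ => F θ.1)
      (fun θ _ => hFr θ.1 θ.2),
    CfsgLib.BrP.sum_fixed (p := p) Q.isPGroup' (fun θ : {θ : IrrCharacter H // θ ∈ b} =>
      CfsgLib.BrP.rd M (F θ)) (fun u θ => by
        show CfsgLib.BrP.rd M (F ((u • θ : {θ : IrrCharacter H // θ ∈ b}) : IrrCharacter H)) = _
        rw [hsm]
        simp only [hF, hrr, hdeg])] at hα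
  obtain ⟨θ, hθ, hθ0⟩ := Finset.exists_ne_zero_of_sum_ne_zero hα
  have hfix := (Finset.mem_filter.1 hθ).2
  have hht : blockHeight p b ((θ : IrrCharacter H) : ↥H → ℂ) = 0 := by
    rw [height_zero_iff hM hb θ.2]
    have h1 : ¬ MemLocalIdeal M (((θ : IrrCharacter H) : H → ℂ) 1 /
        (CfsgLib.BlockSq.qB p b : ℂ)) := by
      intro h
      apply hθ0
      rw [CfsgLib.BrP.rd_eq_zero (hFr θ θ.2)]
      exact ideal_mul_left hp (CfsgLib.BlockSq.rr_ring hM _) h
    rw [irr_one_eq_charDegree (θ : IrrCharacter H).2, ideal_div_nat_iff hM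
      (irr_charDegree_pos (θ : IrrCharacter H).2).ne' (CfsgLib.BlockSq.qB_ne b),
      CfsgLib.BlockSq.qB_fact] at h1
    have h2 := degree_ge_defect hM hb θ.2
    have h3 := blockDefect_le (p := p) b
    omega
  refine ⟨θ, θ.2, hht, ?_⟩
  let S : Subgroup G :=
    { carrier := {g | g ∈ T ∧ cn g θ = θ}
      mul_mem' := fun {x y} hx hy => ⟨T.mul_mem hx.1 hy.1, by rw [hmul, hy.2, hx.2]⟩
      one_mem' := ⟨T.one_mem, hone _⟩
      inv_mem' := fun {x} hx => ⟨T.inv_mem hx.1, by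
        have h1 := hmul x⁻¹ x θ
        rw [inv_mul_cancel, hone, hx.2] at h1
        exact h1.symm⟩ }
  have hSmem : ∀ g, g ∈ S ↔ g ∈ T ∧ cn g θ = θ := fun _ => Iff.rfl
  refine ⟨S, fun g hg => hg.1, fun g => ?_, ?_⟩
  · rw [hSmem, hchar]
  · have hQS : (Q : Subgroup T) ≤ S.subgroupOf T := by
      intro g hg
      rw [Subgroup.mem_subgroupOf, hSmem]
      exact ⟨g.2, congrArg Subtype.val (hfix ⟨g, hg⟩)⟩
    intro hdvd
    have h1 : (S.subgroupOf T).index ∣ (Q : Subgroup T).index := Subgroup.index_dvd_of_le hQS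
    exact Q.not_dvd_index (dvd_trans hdvd h1)

end CfsgLib.BkMul
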