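import Mathlib
import Cfsg.Agent.EqBase
import Cfsg.Agent.LibBlich19

set_option autoImplicit false
set_option maxHeartbeats 400000
set_option linter.unusedSectionVars false

/-! Blichfeldt's theorem for groups generated by the conjugates of one element (helper19) -/

universe u v w

open Cfsg
open scoped ComplexConjugate

namespace CfsgLib.BlichB19

open CfsgLib.Blich19 CfsgLib.CharBasic CfsgLib.FrobP19

section Unitary
variable {G : Type u} [Group G] [Finite G] {E : Type v} [NormedAddCommGroup E] [InnerProductSpace ℂ E] [FiniteDimensional ℂ E]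

local notation "⟪" x ", " y "⟫" => inner ℂ x y

variable {ρ : Representation ℂ G E} (hu : ∀ g v w, ⟪ρ g v, ρ g w⟫ = ⟪v, w⟫)

include hu in
theorem dist_comm' {x : G} {α : ℂ} (hα : ‖α‖ = 1) {w : E} (hw : ρ x w = α • w) (z : G) (c : ℂ) :
    ‖ρ (x * z * x⁻¹ * z⁻¹)⁻¹ w - w‖ ≤ ‖op ρ x - α • 1‖ * ‖ρ z⁻¹ w - c • w‖ := by
  have hα0 : α ≠ 0 := by
    intro h; rw [h, norm_zero] at hα; exact zero_ne_one hα
  have hxw : ρ x⁻¹ w = α⁻¹ • w := by
    have h1 : ρ x⁻¹ (ρ x w) = w := by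
      rw [← Module.End.mul_apply, ← map_mul, inv_mul_cancel, map_one]; rfl
    rw [hw, map_smul] at h1
    rw [← h1, smul_smul, inv_mul_cancel₀ hα0, one_smul, h1]
  set u := ρ z⁻¹ w with hudef
  have hzu : ρ z u = w := by
    rw [hudef, ← Module.End.mul_apply, ← map_mul, mul_inv_cancel, map_one]; rfl
  have h1 : ρ (x * z * x⁻¹ * z⁻¹)⁻¹ w = ρ z (α⁻¹ • ρ x u) := by
    have h2 : (x * z * x⁻¹ * z⁻¹)⁻¹ = z * (x * (z⁻¹ * x⁻¹)) := by group
    rw [h2, map_mul, map_mul, map_mul, Module.End.mul_apply, Module.End.mul_apply, Module.End.mul_apply, hxw, map_smul, map_smul]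
  have h2 : ρ (x * z * x⁻¹ * z⁻¹)⁻¹ w - w = ρ z (α⁻¹ • (ρ x u - α • u)) := by
    rw [h1, smul_sub, smul_smul, inv_mul_cancel₀ hα0, one_smul, map_sub, hzu]
  rw [h2, norm_apply hu, norm_smul, norm_inv, hα, inv_one, one_mul]
  have h3 : ρ x u - α • u = (op ρ x - α • (1 : E →L[ℂ] E)) (u - c • w) := by
    have h4 : (op ρ x - α • (1 : E →L[ℂ] E)) (u - c • w) = ρ x (u - c • w) - α • (u - c • w) := rfl
    rw [h4, map_sub, map_smul, hw, smul_sub, smul_comm c α w]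
    abel
  rw [h3]
  exact (op ρ x - α • (1 : E →L[ℂ] E)).le_opNorm _

/-- iterated commutators -/
def seq (x y : G) : ℕ → G
  | 0 => y
  | n + 1 => x * seq x y n * x⁻¹ * (seq x y n)⁻¹

include hu in
theorem seq_bound {x : G} {α : ℂ} (hα : ‖α‖ = 1) {w : E} (hw : ρ x w = α • w) (y : G) (c : ℂ) (n : ℕ) :
    ‖ρ (seq x y (n + 1))⁻¹ w - w‖ ≤ ‖op ρ x - α • 1‖ ^ (n + 1) * ‖ρ y⁻¹ w - c • w‖ := by
  induction n with
  | zero =>
    rw [zero_add, pow_one]
    exact dist_comm' hu hα hw y c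
  | succ n ih =>
    have h1 := dist_comm' hu hα hw (seq x y (n + 1)) 1
    rw [one_smul] at h1
    calc ‖ρ (seq x y (n + 1 + 1))⁻¹ w - w‖ ≤ ‖op ρ x - α • 1‖ * ‖ρ (seq x y (n + 1))⁻¹ w - w‖ := h1
      _ ≤ ‖op ρ x - α • 1‖ * (‖op ρ x - α • 1‖ ^ (n + 1) * ‖ρ y⁻¹ w - c • w‖) := mul_le_mul_of_nonneg_left ih (norm_nonneg _)
      _ = _ := by ring

include hu in
theorem seq_fix {x : G} {α : ℂ} (hα : ‖α‖ = 1) (hr : ‖op ρ x - α • 1‖ < 1) (y : G) :
    ∃ n, ∀ w, ρ x w = α • w → ρ (seq x y (n + 1))⁻¹ w = w := by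
  obtain ⟨g, hg⟩ := Finite.exists_infinite_fiber (fun n : ℕ => seq x y (n + 1))
  have hinf : ({n : ℕ | seq x y (n + 1) = g} : Set ℕ).Infinite := by
    rw [← Set.infinite_coe_iff]; exact hg
  by_contra hcon
  push Not at hcon
  obtain ⟨n0, hn0⟩ := hinf.nonempty
  obtain ⟨w, hw, hne⟩ := hcon n0
  have hn0' : seq x y (n0 + 1) = g := hn0
  rw [hn0'] at hne
  have hpos : 0 < ‖ρ g⁻¹ w - w‖ := norm_pos_iff.2 (sub_ne_zero.2 hne)
  have hlim : Filter.Tendsto (fun n : ℕ => ‖op ρ x - α • (1 : E →L[ℂ] E)‖ ^ (n + 1) * ‖ρ y⁻¹ w - (0 : ℂ) • w‖) Filter.atTop (nhds (0 * ‖ρ y⁻¹ w - (0 : ℂ) • w‖)) := by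
    apply Filter.Tendsto.mul_const
    exact (tendsto_pow_atTop_nhds_zero_of_lt_one (norm_nonneg _) hr).comp (Filter.tendsto_add_atTop_nat 1)
  rw [zero_mul] at hlim
  obtain ⟨N, hN⟩ := Filter.eventually_atTop.1 (hlim.eventually (gt_mem_nhds hpos))
  obtain ⟨n, hn, hnN⟩ := hinf.exists_gt N
  have hn' : seq x y (n + 1) = g := hn
  have h1 := seq_bound hu hα hw y 0 n
  rw [hn'] at h1
  exact absurd (hN n hnN.le) (not_lt.2 h1)

include hu in
/-- going back one step -/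
theorem back {x : G} {α : ℂ} (hα : ‖α‖ = 1) {z : G} {c : ℂ} (hc : ‖c‖ = 1)
    (hst : ∀ w, ρ x w = α • w → ρ x (ρ (x * z * x⁻¹ * z⁻¹)⁻¹ w) = α • ρ (x * z * x⁻¹ * z⁻¹)⁻¹ w)
    (hcl : ∀ w, w ≠ 0 → ρ x w = α • w → ‖ρ z⁻¹ w - c • w‖ < ‖w‖) {w : E} (hw : ρ x w = α • w) :
    ρ x (ρ z⁻¹ w) = α • ρ z⁻¹ w := by
  classical
  set x' := z * x * z⁻¹ with hx'
  -- x' stabilizes the eigenspace
  have hstx' : ∀ w, ρ x w = α • w → ρ x (ρ x' w) = α • ρ x' w := by
    intro w hw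
    have h1 : x' = (x * z * x⁻¹ * z⁻¹)⁻¹ * x := by rw [hx']; group
    have h2 : ρ x' w = α • ρ (x * z * x⁻¹ * z⁻¹)⁻¹ w := by
      rw [h1, map_mul, Module.End.mul_apply, hw, map_smul]
    rw [h2, map_smul, hst w hw]
  let A : Subgroup G := Subgroup.zpowers x'
  have hab : ∀ a b : A, a * b = b * a := by
    rintro ⟨a, i, rfl⟩ ⟨b, j, rfl⟩
    exact Subtype.ext (zpow_mul_comm x' i j)
  haveI := finite_lin hab
  letI := Fintype.ofFinite (A →* ℂˣ)
  letI := Fintype.ofFinite A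
  have hxA : x' ∈ A := Subgroup.mem_zpowers x'
  let ρA : Representation ℂ A E := ρ.comp A.subtype
  -- every element of A stabilizes
  have hpow : ∀ (k : ℕ) w, ρ x w = α • w → ρ x (ρ (x' ^ k) w) = α • ρ (x' ^ k) w := by
    intro k
    induction k with
    | zero => intro w hw; rw [pow_zero, map_one]; exact hw
    | succ k ih =>
      intro w hw
      rw [pow_succ, map_mul, Module.End.mul_apply]
      exact ih _ (hstx' w hw)
  have hstA : ∀ (a : A) w, ρ x w = α • w → ρ x (ρ (a : G) w) = α • ρ (a : G) w := by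
    intro a w hw
    obtain ⟨k, hk⟩ := mem_powers_iff_mem_zpowers.2 a.2
    rw [← (show x' ^ k = (a : G) from hk)]
    exact hpow k w hw
  have hproj : ∀ ψ : A →* ℂˣ, ρ x (proj ρA ψ w) = α • proj ρA ψ w := by
    intro ψ
    have h1 : ρ x (∑ a : A, (ψ a⁻¹ : ℂ) • ρA a w) = α • ∑ a : A, (ψ a⁻¹ : ℂ) • ρA a w := by
      rw [map_sum, Finset.smul_sum]
      apply Finset.sum_congr rfl
      intro a _
      rw [map_smul, smul_comm α]
      congr 1
      exact hstA a w hw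
    rw [proj_eq, map_smul, h1, smul_comm]
  rw [← sum_proj hab ρA w, map_sum, map_sum, Finset.smul_sum]
  apply Finset.sum_congr rfl
  intro ψ _
  set v := proj ρA ψ w with hv
  have e1 : ρ x v = α • v := hproj ψ
  have e2 : ρ x' v = (ψ ⟨x', hxA⟩ : ℂ) • v := apply_proj ρA ψ w ⟨x', hxA⟩
  set u := ρ z⁻¹ v with hudef
  have e3 : ρ x u = (ψ ⟨x', hxA⟩ : ℂ) • u := by
    have h1 : ρ x u = ρ z⁻¹ (ρ x' v) := by
      rw [hudef, ← Module.End.mul_apply, ← Module.End.mul_apply, ← map_mul, ← map_mul]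
      congr 2
      rw [hx']; group
    rw [h1, e2, map_smul]
  by_cases hβ : (ψ ⟨x', hxA⟩ : ℂ) = α
  · rw [e3, hβ]
  · by_cases hv0 : v = 0
    · rw [hudef, hv0]; simp
    · exfalso
      have hor : ⟪v, u⟫ = 0 := by
        refine orth_of_eig ρ hu e1 e3 ?_
        intro h1
        apply hβ
        have h2 : conj α * α = 1 := by
          rw [← Complex.normSq_eq_conj_mul_self, Complex.normSq_eq_norm_sq, hα]; norm_num
        have h3 : conj α ≠ 0 := left_ne_zero_of_mul_eq_one h1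
        exact mul_left_cancel₀ h3 (h1.trans h2.symm)
      have h4 := hcl v hv0 e1
      have h5 : ‖u - c • v‖ * ‖u - c • v‖ = ‖u‖ * ‖u‖ + ‖v‖ * ‖v‖ := by
        rw [sub_eq_add_neg]
        have := norm_add_sq_eq_norm_sq_add_norm_sq_of_inner_eq_zero (𝕜 := ℂ) u (-(c • v)) (by
          rw [_root_.inner_neg_right, _root_.inner_smul_right, ← _root_.inner_conj_symm, hor, map_zero, mul_zero, neg_zero])
        rw [norm_neg, norm_smul, hc, one_mul] at this
        exact this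
      have h6 : ‖u‖ = ‖v‖ := norm_apply hu _ _
      rw [h6] at h5
      have h7 : 0 ≤ ‖u - c • v‖ := norm_nonneg _
      nlinarith [norm_nonneg v]

include hu in
theorem conj_stab {x : G} {α : ℂ} (hα : ‖α‖ = 1) (hr : ‖op ρ x - α • 1‖ < 1) (g : G) {w : E} (hw : ρ x w = α • w) :
    ρ x (ρ (g * x * g⁻¹)⁻¹ w) = α • ρ (g * x * g⁻¹)⁻¹ w := by
  set y := g * x * g⁻¹ with hy
  have hα0 : α ≠ 0 := by
    intro h; rw [h, norm_zero] at hα; exact zero_ne_one hα
  have hαi : ‖α⁻¹‖ = 1 := by rw [norm_inv, hα, inv_one]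
  have hy1 : ∀ w : E, ‖ρ y⁻¹ w - α⁻¹ • w‖ ≤ ‖op ρ x - α • 1‖ * ‖w‖ := by
    intro w
    have h1 : ‖ρ y⁻¹ w - α⁻¹ • w‖ = ‖ρ y w - α • w‖ := by
      have h2 : ρ y (ρ y⁻¹ w - α⁻¹ • w) = -(α⁻¹ • (ρ y w - α • w)) := by
        rw [map_sub, map_smul, smul_sub, smul_smul, inv_mul_cancel₀ hα0, one_smul, ← Module.End.mul_apply, ← map_mul, mul_inv_cancel, map_one]
        change w - _ = _
        abel
      rw [← norm_apply hu y (ρ y⁻¹ w - α⁻¹ • w), h2, norm_neg, norm_smul, hαi, one_mul]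
    rw [h1]
    have h3 : ρ y w - α • w = (op ρ y - α • (1 : E →L[ℂ] E)) w := rfl
    rw [h3]
    exact ((op ρ y - α • (1 : E →L[ℂ] E)).le_opNorm w).trans (mul_le_mul_of_nonneg_right (conj_inv_norm hu g x α) (norm_nonneg _))
  obtain ⟨N, hN⟩ := seq_fix hu hα hr y
  have key : ∀ k, k ≤ N + 1 → ∀ w, ρ x w = α • w → ρ x (ρ (seq x y (N + 1 - k))⁻¹ w) = α • ρ (seq x y (N + 1 - k))⁻¹ w := by
    intro k
    induction k with
    | zero =>
      intro _ w hw
      rw [Nat.sub_zero, hN w hw, hw]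
    | succ k ih =>
      intro hk w hw
      have ih' := ih (by omega)
      have h1 : N + 1 - k = (N + 1 - (k + 1)) + 1 := by omega
      rw [h1] at ih'
      rcases Nat.eq_zero_or_pos (N + 1 - (k + 1)) with h0 | hpos
      · rw [h0] at ih' ⊢
        refine back hu hα hαi ih' ?_ hw
        intro v hv hvx
        calc ‖ρ (seq x y 0)⁻¹ v - α⁻¹ • v‖ ≤ ‖op ρ x - α • 1‖ * ‖v‖ := hy1 v
          _ < 1 * ‖v‖ := mul_lt_mul_of_pos_right hr (norm_pos_iff.2 hv)
          _ = _ := one_mul _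
      · obtain ⟨m, hm⟩ := Nat.exists_eq_succ_of_ne_zero hpos.ne'
        rw [hm] at ih' ⊢
        refine back hu hα (c := 1) (by simp) ih' ?_ hw
        intro v hv hvx
        rw [one_smul]
        calc ‖ρ (seq x y (m + 1))⁻¹ v - v‖ ≤ ‖op ρ x - α • 1‖ ^ (m + 1) * ‖ρ y⁻¹ v - α⁻¹ • v‖ := seq_bound hu hα hvx y _ m
          _ ≤ 1 * ‖ρ y⁻¹ v - α⁻¹ • v‖ := mul_le_mul_of_nonneg_right (pow_le_one₀ (norm_nonneg _) hr.le) (norm_nonneg _)
          _ ≤ ‖op ρ x - α • 1‖ * ‖v‖ := by rw [one_mul]; exact hy1 v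
          _ < 1 * ‖v‖ := mul_lt_mul_of_pos_right hr (norm_pos_iff.2 hv)
          _ = _ := one_mul _
  have := key (N + 1) le_rfl w hw
  rwa [Nat.sub_self] at this

include hu in
/-- Blichfeldt's theorem -/
theorem blich [hirr : ρ.IsIrreducible] {x : G} {α : ℂ} (hα : ‖α‖ = 1) (hr : ‖op ρ x - α • 1‖ < 1)
    (hev : ∃ w : E, w ≠ 0 ∧ ρ x w = α • w) (hncl : Subgroup.normalClosure {x} = ⊤) : ∀ w, ρ x w = α • w := by
  classical
  let W : Submodule ℂ E := LinearMap.ker (ρ x - α • LinearMap.id)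
  have hmem : ∀ w, w ∈ W ↔ ρ x w = α • w := by
    intro w
    change w ∈ LinearMap.ker (ρ x - α • LinearMap.id) ↔ _
    rw [LinearMap.mem_ker, LinearMap.sub_apply, sub_eq_zero]
    rfl
  -- the stabilizer
  let S : Submonoid G :=
    { carrier := {g | ∀ w ∈ W, ρ g w ∈ W}
      one_mem' := fun w hw => by rw [map_one]; exact hw
      mul_mem' := fun {a b} ha hb w hw => by rw [map_mul]; exact ha _ (hb w hw) }
  have hSinv : ∀ g ∈ S, g⁻¹ ∈ S := by
    intro g hg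
    have h1 : g⁻¹ = g ^ (orderOf g - 1) := by
      rw [inv_eq_iff_mul_eq_one, ← pow_succ', Nat.sub_add_cancel (orderOf_pos g), pow_orderOf_eq_one]
    rw [h1]
    exact S.pow_mem hg _
  let S' : Subgroup G := { S with inv_mem' := fun {g} hg => hSinv g hg }
  have htop : (⊤ : Subgroup G) ≤ S' := by
    rw [← hncl, Subgroup.normalClosure, Subgroup.closure_le]
    intro y hy
    obtain ⟨a, ha, hay⟩ := Group.mem_conjugatesOfSet_iff.1 hy
    rw [Set.mem_singleton_iff] at ha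
    subst ha
    obtain ⟨g, rfl⟩ := isConj_iff.1 hay
    have h1 : (g * a * g⁻¹)⁻¹ ∈ S := fun w hw => (hmem _).2 (conj_stab hu hα hr g ((hmem w).1 hw))
    have h2 := hSinv _ h1
    rw [inv_inv] at h2
    exact h2
  let T : Subrepresentation ρ := ⟨W, fun g w hw => htop (Subgroup.mem_top g) w hw⟩
  rcases hirr.eq_bot_or_eq_top T with h | h
  · exfalso
    obtain ⟨w, hw0, hw⟩ := hev
    have h1 : w ∈ W := (hmem w).2 hw
    have h2 : W = ⊥ := congrArg Subrepresentation.toSubmodule h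
    rw [h2, Submodule.mem_bot] at h1
    exact hw0 h1
  · intro w
    have h2 : W = ⊤ := congrArg Subrepresentation.toSubmodule h
    rw [← hmem, h2]
    trivial

end Unitary

end CfsgLib.BlichB19
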