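import Mathlib
import Cfsg.Agent.EqBase
import Cfsg.Prelude.Def_Blocks
import Cfsg.Agent.LibBlockPC
import Cfsg.Agent.LibBlockFong2
import Cfsg.Agent.LibExtend5
import Cfsg.Agent.LibFixIrr19

/-!
# Reynolds: normal defect group, heights zero iff abelian: S0972 (helper17)
-/

set_option autoImplicit false
set_option linter.unusedSectionVars false
set_option linter.style.haveILetI false
set_option linter.unusedSimpArgs false

namespace CfsgLib.BlockRey

open CfsgLib.CharInt hiding irr_isCharacter irr_classFun irr_one_ne_zero schur_scalar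
open Cfsg CfsgLib.CharInt2 CfsgLib.CharBasic CfsgLib.BlockR CfsgLib.BlockCore
  CfsgLib.BlockIdem CfsgLib.BlockIdeal CfsgLib.BlockConj CfsgLib.BlockBrauer CfsgLib.BlockInd
  CfsgLib.BlockFMT CfsgLib.BlockFMT2 CfsgLib.PLocalInd CfsgLib.BlockOrth CfsgLib.BlockDefect
  CfsgLib.BlockReg CfsgLib.BlockReg2 CfsgLib.BlockCount CfsgLib.BlockCount2 CfsgLib.BlockQP
  CfsgLib.BlockCov CfsgLib.BlockCov2 CfsgLib.BlockCov3 CfsgLib.BlockCov4 CfsgLib.BlockLoc
  CfsgLib.BlockM CfsgLib.CharNorm CfsgLib.Clifford CfsgLib.BlockFR CfsgLib.BlockD2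
  CfsgLib.BlockK1 CfsgLib.BlockSec3 CfsgLib.BlockFong CfsgLib.BlockFong2 CfsgLib.BlockH2
  CfsgLib.BlockPC
open scoped ComplexConjugate Pointwise

universe u v

variable {M : Ideal AlgInt} {p : ℕ} [Fact p.Prime] {G : Type u} [Group G] [Fintype G]

section Cliff

variable (N : Subgroup G) [hN : N.Normal] [Fintype N]

/-- the inertia group -/
def inert (ψ : IrrCharacter N) : Subgroup G where
  carrier := {g | cjI N g ψ = ψ}
  one_mem' := cjI_one N ψ
  mul_mem' := by
    intro a c ha hc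
    change cjI N (a * c) ψ = ψ
    have ha' : cjI N a ψ = ψ := ha
    have hc' : cjI N c ψ = ψ := hc
    rw [← cjI_cjI, ha', hc']
  inv_mem' := by
    intro a ha
    change cjI N a⁻¹ ψ = ψ
    have ha' : cjI N a ψ = ψ := ha
    conv_lhs => rw [← ha']
    rw [cjI_cjI, mul_inv_cancel, cjI_one]

theorem mem_inert {ψ : IrrCharacter N} {g : G} : g ∈ inert N ψ ↔ cjI N g ψ = ψ := Iff.rfl

theorem le_inert (ψ : IrrCharacter N) : N ≤ inert N ψ := by
  intro g hg
  rw [mem_inert]
  exact Subtype.ext (cj_of_mem hN hg (irr_classFun ψ.2))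

/-- degrees over a block with stabilizer of `p'`-index over `N` -/
theorem deg_over (hM : IsPModular p M) {b : Set (IrrCharacter N)} (hb : IsPBlock M b)
    {T : Subgroup G} (hT : ∀ g : G, g ∈ T ↔ ∀ θ ∈ b, cjI N g θ ∈ b)
    (hpT : ¬ p ∣ N.relIndex T) {χ : IrrCharacter G} {ψ : IrrCharacter N} (hψ : ψ ∈ b)
    (h : classInner (fun n : N => (χ : G → ℂ) n) (ψ : N → ℂ) ≠ 0) :
    (charDegree (χ : G → ℂ)).factorization p =
      N.index.factorization p + (charDegree (ψ : N → ℂ)).factorization p := by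
  classical
  have hpp : p.Prime := Fact.out
  set I := inert N ψ with hI
  have hNI : N ≤ I := le_inert N ψ
  have hIT : I ≤ T := by
    intro g hg
    have hg' : cjI N g ψ = ψ := hg
    exact hdis_of N hM hb hT g ψ hψ (by rw [hg']; exact hψ)
  letI : Fintype I := Fintype.ofFinite _
  have hTI : ∀ g : G, g ∈ I ↔ ∀ θ ∈ ({ψ} : Set (IrrCharacter N)), cjI N g θ ∈ ({ψ} : Set _) := by
    intro g
    simp only [Set.mem_singleton_iff, forall_eq]
    rfl
  have hdisI : ∀ (g : G), ∀ θ ∈ ({ψ} : Set (IrrCharacter N)), cjI N g θ ∈ ({ψ} : Set _) → g ∈ I := by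
    intro g θ hθ h'
    rw [Set.mem_singleton_iff] at hθ h'
    subst hθ
    exact h'
  have hG : OverG N {ψ} χ := ⟨ψ, rfl, h⟩
  obtain ⟨ψ', hψ', hm⟩ := exists_overT N hNI hG
  obtain ⟨h1, -, -⟩ := corr_A N hNI hTI hdisI hG hψ' hm
  have h2 := charDegree_ind h1.symm
  obtain ⟨θ, hθ, hθ'⟩ := hψ'
  rw [Set.mem_singleton_iff] at hθ
  subst hθ
  letI : Fintype (N.subgroupOf I) := Fintype.ofFinite _
  haveI : (N.subgroupOf I).Normal := subgroupOf_normal hN I
  rw [← ci_toSub hNI, toSub_resT] at hθ'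
  obtain ⟨e, he, hedvd⟩ := CfsgLib.Extend.ratio_dvd_index ((toSub_irr hNI).mpr θ.2) ψ'.2 hθ'
  have h3 : charDegree (ψ' : I → ℂ) = e * charDegree (θ : N → ℂ) := by
    have h4 : toSub I (θ : N → ℂ) 1 = (θ : N → ℂ) 1 := rfl
    rw [h4, irr_one_eq_charDegree ψ'.2, irr_one_eq_charDegree θ.2] at he
    exact_mod_cast he
  have hidx : N.relIndex I ∣ N.relIndex T := Dvd.intro _ (Subgroup.relIndex_mul_relIndex N I T hNI hIT)
  have hI0 : N.relIndex I ≠ 0 := Subgroup.index_ne_zero_of_finite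
  have he0 : e ≠ 0 := fun h => hI0 (Nat.eq_zero_of_zero_dvd (h ▸ hedvd))
  have hpI : ¬ p ∣ N.relIndex I := fun h => hpT (h.trans hidx)
  have hpe : ¬ p ∣ e := fun h => hpI (h.trans hedvd)
  have h5 : N.index = N.relIndex I * I.index := (Subgroup.relIndex_mul_index hNI).symm
  have hI1 : I.index ≠ 0 := Subgroup.index_ne_zero_of_finite
  have hd0 : charDegree (θ : N → ℂ) ≠ 0 := (irr_charDegree_pos θ.2).ne'
  rw [h2, h3, h5, Nat.factorization_mul hI1 (Nat.mul_ne_zero he0 hd0),
    Nat.factorization_mul he0 hd0, Nat.factorization_mul hI0 hI1]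
  simp only [Finsupp.add_apply]
  rw [Nat.factorization_eq_zero_of_not_dvd hpe, Nat.factorization_eq_zero_of_not_dvd hpI]
  ring

end Cliff

theorem sub_PC {P L : Subgroup G} (hL : L = P ⊔ Subgroup.centralizer (P : Set G)) :
    P.subgroupOf L ⊔ Subgroup.centralizer ((P.subgroupOf L : Subgroup L) : Set L) = ⊤ := by
  have hPL : P ≤ L := hL ▸ le_sup_left
  have hCL : Subgroup.centralizer (P : Set G) ≤ L := hL ▸ le_sup_right
  have h1 : Subgroup.centralizer ((P.subgroupOf L : Subgroup L) : Set L) =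
      (Subgroup.centralizer (P : Set G)).subgroupOf L := by
    ext x
    rw [Subgroup.mem_subgroupOf]
    exact mem_centralizer_subgroupOf hPL x
  rw [h1, ← Subgroup.subgroupOf_sup hPL hCL, ← hL, Subgroup.subgroupOf_self]

/-- degrees in a block of `L = P C(P)` with defect group `P` -/
theorem deg_L (hM : IsPModular p M) {P : Subgroup G} [Fintype P] (hPp : IsPGroup p P)
    (hG : P ⊔ Subgroup.centralizer (P : Set G) = ⊤) {b : Set (IrrCharacter G)}
    (hb : IsPBlock M b) (hbP : IsDefectGroup p M b P)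
    {ψ : IrrCharacter G} (hψ : ψ ∈ b) {ξ : IrrCharacter P}
    (hξ : classInner (fun n : P => (ψ : G → ℂ) n) (ξ : P → ℂ) ≠ 0) :
    (charDegree (ψ : G → ℂ)).factorization p =
      P.index.factorization p + (charDegree (ξ : P → ℂ)).factorization p := by
  classical
  haveI : P.Normal := normal_of_PC hG
  obtain ⟨θ, hθ, hker, huniq, hdeg⟩ := exists_canon hPp hG hM hb hbP
  have h1 := (main_PC hPp hG hM hb hbP hθ hker huniq hψ hξ).1
  have h2 : charDegree (ψ : G → ℂ) = charDegree (ξ : P → ℂ) * charDegree (θ : G → ℂ) := by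
    rw [irr_one_eq_charDegree ψ.2, irr_one_eq_charDegree θ.2, irr_one_eq_charDegree ξ.2] at h1
    exact_mod_cast h1
  rw [h2, Nat.factorization_mul (irr_charDegree_pos ξ.2).ne' (irr_charDegree_pos θ.2).ne',
    Finsupp.add_apply, hdeg]
  ring

/-- the stabilizer of a set of characters -/
def stabB (N : Subgroup G) [N.Normal] [Fintype N] (b : Set (IrrCharacter N)) : Subgroup G where
  carrier := {g | ∀ θ ∈ b, cjI N g θ ∈ b}
  one_mem' := by intro θ hθ; rwa [cjI_one]
  mul_mem' := by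
    intro a c ha hc θ hθ
    rw [← cjI_cjI]
    exact hc _ (ha _ hθ)
  inv_mem' := by
    intro a ha
    have h1 : ∀ n : ℕ, ∀ θ ∈ b, cjI N (a ^ n) θ ∈ b := by
      intro n
      induction n with
      | zero => intro θ hθ; rwa [pow_zero, cjI_one]
      | succ n ih =>
        intro θ hθ
        rw [pow_succ, ← cjI_cjI]
        exact ha _ (ih _ hθ)
    have h2 : a⁻¹ = a ^ (orderOf a - 1) := by
      apply inv_eq_of_mul_eq_one_right
      rw [← pow_succ', Nat.sub_add_cancel (orderOf_pos a), pow_orderOf_eq_one]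
    change ∀ θ ∈ b, cjI N a⁻¹ θ ∈ b
    rw [h2]
    exact h1 _

theorem reynolds_deg (hM : IsPModular p M) {B : Set (IrrCharacter G)} (hB : IsPBlock M B)
    {P L : Subgroup G} [hPn : P.Normal] (hD : IsDefectGroup p M B P)
    (hL : L = P ⊔ Subgroup.centralizer (P : Set G)) [hLn : L.Normal] [Fintype L]
    (hPL : P ≤ L) [Fintype (P.subgroupOf L)] {b : Set (IrrCharacter L)}
    (hbD : IsDefectGroup p M b (P.subgroupOf L)) (hind : IsInducedBlock M L b B)
    {χ : IrrCharacter G} {ψ : IrrCharacter L} {ξ : IrrCharacter (P.subgroupOf L)}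
    (hψ : ψ ∈ b) (h : classInner (fun n : L => (χ : G → ℂ) n) (ψ : L → ℂ) ≠ 0)
    (hξ : classInner (fun n : P.subgroupOf L => (ψ : L → ℂ) n) (ξ : P.subgroupOf L → ℂ) ≠ 0) :
    (charDegree (χ : G → ℂ)).factorization p =
      P.index.factorization p + (charDegree (ξ : P.subgroupOf L → ℂ)).factorization p := by
  classical
  have hpp : p.Prime := Fact.out
  have hPp : IsPGroup p P := (isDefectGroup_iff.mp hD).choose_spec.2.isPGroup
  have hPpL : IsPGroup p (P.subgroupOf L) := hPp.comap_subtype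
  have hN : Subgroup.normalizer (P : Set G) = ⊤ := Subgroup.normalizer_eq_top_iff.mpr hPn
  haveI := isPrime_of_modular hM
  have hpT : ¬ p ∣ L.relIndex (stabB L b) := by
    refine (s4437 hM hPp hL hind.1 hbD hind (stabB L b) ?_).mp hD
    intro g
    rw [hN, ← Subgroup.inv_mem_iff]
    constructor
    · intro hg
      refine ⟨Subgroup.mem_top _, fun θ hθ θ' hθ' => ?_⟩
      have h1 : θ' = cjI L g⁻¹ θ := by
        refine Subtype.ext (funext fun n => ?_)
        rw [cjI_apply]
        apply hθ'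
        simp [mul_assoc]
      rw [h1]
      exact hg θ hθ
    · rintro ⟨-, hg⟩ θ hθ
      refine hg θ hθ (cjI L g⁻¹ θ) (fun h h' hh => ?_)
      rw [cjI_apply]
      refine congrArg (θ : L → ℂ) (Subtype.ext ?_)
      simp [hh, mul_assoc]
  have h1 := deg_over L hM hind.1 (T := stabB L b) (fun g => Iff.rfl) hpT hψ h
  have h2 := deg_L hM hPpL (sub_PC hL) hind.1 hbD hψ hξ
  have h3 : P.index = (P.subgroupOf L).index * L.index := (Subgroup.relIndex_mul_index hPL).symm
  rw [h1, h2, h3, Nat.factorization_mul Subgroup.index_ne_zero_of_finite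
    Subgroup.index_ne_zero_of_finite, Finsupp.add_apply]
  ring

/-- S0972 -/
theorem reynolds (hM : IsPModular p M) {B : Set (IrrCharacter G)} (hB : IsPBlock M B)
    {P : Subgroup G} [hPn : P.Normal] (hD : IsDefectGroup p M B P) :
    (∀ a ∈ P, ∀ c ∈ P, a * c = c * a) ↔ ∀ χ ∈ B, blockHeight p B (χ : G → ℂ) = 0 := by
  classical
  have hp := isPrime_of_modular hM
  have hpp : p.Prime := Fact.out
  have hPp : IsPGroup p P := (isDefectGroup_iff.mp hD).choose_spec.2.isPGroup
  set L := P ⊔ Subgroup.centralizer (P : Set G) with hL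
  haveI hCn : (Subgroup.centralizer (P : Set G)).Normal := inferInstance
  haveI hLn : L.Normal := Subgroup.sup_normal _ _
  letI : Fintype L := Fintype.ofFinite _
  have hPL : P ≤ L := le_sup_left
  have hCL : Subgroup.centralizer (P : Set G) ≤ L := le_sup_right
  have hPpL : IsPGroup p (P.subgroupOf L) := hPp.comap_subtype
  letI : Fintype (P.subgroupOf L) := Fintype.ofFinite _
  obtain ⟨b, hbD, hind⟩ := (s0973 hM hB hD hL).1
  have huniq : ∀ B' : Set (IrrCharacter G), IsPBlock M B' → Cov L B' b → B' = B := by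
    intro B' hB' hcov
    exact induced_unique hp (induced_of_cov hM P hPp L hPL hCL hind.1 hB' hcov) hind
  have hcov : Cov L B b := by
    obtain ⟨B', hB', h⟩ := exists_cov L hM hind.1
    rwa [huniq B' hB' h] at h
  have hcard : (Nat.card G).factorization p = P.index.factorization p + blockDefect p B := by
    rw [card_factorization P, card_defectGroup hM hB hD, hpp.factorization_pow,
      Finsupp.single_eq_same]
    ring
  have hPeq := sub_PC hL
  constructor
  · intro hab χ hχ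
    rw [height_zero_iff hM hB hχ]
    obtain ⟨ψ, hψ, h1⟩ := cov_under L hM hB hind.1 hcov hχ
    obtain ⟨ξ, hξ, h2⟩ := exists_below (P.subgroupOf L) ψ.2
    have h3 := reynolds_deg hM hB hD hL hPL hbD hind (ξ := ⟨ξ, hξ⟩) hψ h1 h2
    have h4 : charDegree ξ = 1 := by
      have h5 := irr_degree_one_of_comm (G := P.subgroupOf L) (fun a c => by
        apply Subtype.ext; apply Subtype.ext
        exact hab _ (Subgroup.mem_subgroupOf.mp a.2) _ (Subgroup.mem_subgroupOf.mp c.2)) hξ
      first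
        | exact h5
        | (rw [irr_one_eq_charDegree hξ] at h5; exact_mod_cast h5)
    rw [h3, hcard]
    simp only [h4, Nat.factorization_one, Finsupp.coe_zero, Pi.zero_apply, add_zero]
  · intro hh
    have h1 : ∀ ξ : IrrCharacter (P.subgroupOf L), (ξ : P.subgroupOf L → ℂ) 1 = 1 := by
      intro ξ
      obtain ⟨ψ, hψ, h2⟩ := exists_over_PC hPpL hPeq hM hind.1 ξ
      obtain ⟨χ, hχ, h3⟩ := exists_above L ψ.2
      have h4 : (⟨χ, hχ⟩ : IrrCharacter G) ∈ B := by
        have h5 := mem_blockOf_self hp (⟨χ, hχ⟩ : IrrCharacter G)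
        rwa [huniq _ ⟨⟨χ, hχ⟩, rfl⟩ ⟨⟨χ, hχ⟩, h5, ψ, hψ, h3⟩] at h5
      have h5 := reynolds_deg hM hB hD hL hPL hbD hind (χ := ⟨χ, hχ⟩) hψ h3 h2
      have h6 := (height_zero_iff hM hB h4).mp (hh _ h4)
      have h7 : (charDegree (ξ : P.subgroupOf L → ℂ)).factorization p = 0 := by
        have h8 : charDegree ((⟨χ, hχ⟩ : IrrCharacter G) : G → ℂ) = charDegree χ := rfl
        omega
      obtain ⟨n, hn⟩ := hPpL.exists_card_eq
      have h8 := charDegree_dvd_card ξ.2
      rw [hn] at h8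
      obtain ⟨k, -, hk⟩ := (Nat.dvd_prime_pow hpp).mp h8
      rw [hk, hpp.factorization_pow, Finsupp.single_eq_same] at h7
      rw [h7, pow_zero] at hk
      rw [irr_one_eq_charDegree ξ.2, hk, Nat.cast_one]
    have h2 := CfsgLib.FixIrr19.comm_of_linear h1
    intro a ha c hc
    have h3 := h2 ⟨⟨a, hPL ha⟩, Subgroup.mem_subgroupOf.mpr ha⟩
      ⟨⟨c, hPL hc⟩, Subgroup.mem_subgroupOf.mpr hc⟩
    exact congrArg (fun x : P.subgroupOf L => ((x : L) : G)) h3

end CfsgLib.BlockRey
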