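import Mathlib
import Cfsg.Agent.EqBase
import Cfsg.Agent.LibBrP10
import Cfsg.Agent.LibCharBasic2
import Cfsg.Agent.LibPSub

/-!
# Brauer pairs, XI: the principal block, Brauer's third main theorem (helper18)
-/

set_option autoImplicit false
set_option linter.unusedSectionVars false
set_option linter.style.haveILetI false
set_option linter.unusedSimpArgs false
set_option linter.unusedVariables false

namespace CfsgLib.BrP

open Cfsg CfsgLib.LocR CfsgLib.BlockCore CfsgLib.BlockIdem CfsgLib.BlockR
open scoped ComplexConjugate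

section Field

variable {k : Type*} [Field k] {G : Type*} [Group G] [Fintype G] {p : ℕ}

/-- augmentation -/
noncomputable def aug (a : MonoidAlgebra k G) : k := ∑ g : G, a.coeff g

theorem aug_mul (a b : MonoidAlgebra k G) : aug (a * b) = aug a * aug b := by
  unfold aug
  simp only [mul_coeff]
  rw [Finset.sum_comm, Finset.sum_mul]
  refine Finset.sum_congr rfl fun x _ => ?_
  rw [← Finset.mul_sum]
  congr 1
  exact Equiv.sum_comp (Equiv.mulLeft x⁻¹) (fun g => b.coeff g)

theorem aug_cj (x : G) (a : MonoidAlgebra k G) : aug (cj x a) = aug a := by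
  unfold aug
  simp only [cj_coeff]
  rw [← Equiv.sum_comp (MulAut.conj x⁻¹).toEquiv (fun g => a.coeff g)]
  refine Finset.sum_congr rfl fun y _ => ?_
  congr 1
  simp

theorem aug_one : aug (1 : MonoidAlgebra k G) = 1 := by
  classical
  unfold aug
  simp only [one_coeff]
  rw [Finset.sum_ite_eq' Finset.univ (1 : G) (fun _ => (1 : k)), if_pos (Finset.mem_univ _)]

theorem aug_zero : aug (0 : MonoidAlgebra k G) = 0 := by
  unfold aug; simp [zero_coeff]

theorem aug_sub (a b : MonoidAlgebra k G) : aug (a - b) = aug a - aug b := by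
  unfold aug; simp only [sub_coeff, Finset.sum_sub_distrib]

theorem aug_sum {ι : Type*} (s : Finset ι) (f : ι → MonoidAlgebra k G) :
    aug (∑ i ∈ s, f i) = ∑ i ∈ s, aug (f i) := by
  unfold aug
  simp only [sum_coeff]
  exact Finset.sum_comm

variable [hp : Fact p.Prime] [CharP k p]

theorem aug_br {P : Subgroup G} (hP : IsPGroup p P) {a : MonoidAlgebra k G} (ha : Fx P a) :
    aug (Br P a) = aug a := by
  classical
  unfold aug
  letI : MulAction P G := MulAction.compHom G ((MulAut.conj (G := G)).comp P.subtype)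
  have hsm : ∀ (u : P) (x : G), u • x = (u : G) * x * (u : G)⁻¹ := fun u x => rfl
  have hfix : ∀ x : G, x ∈ MulAction.fixedPoints P G ↔ x ∈ Subgroup.centralizer (P : Set G) := by
    intro x
    rw [MulAction.mem_fixedPoints, Subgroup.mem_centralizer_iff]
    constructor
    · intro h u hu
      have := h ⟨u, hu⟩
      rw [hsm] at this
      calc u * x = (u * x * u⁻¹) * u := by group
        _ = x * u := by rw [this]
    · intro h u
      rw [hsm, h u u.2]; group
  rw [sum_fixed (k := k) hP (fun x => a.coeff x)]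
  · rw [Finset.sum_filter]
    refine Finset.sum_congr rfl fun x _ => ?_
    by_cases hx : x ∈ Subgroup.centralizer (P : Set G)
    · rw [if_pos ((hfix x).2 hx), br_coeff_of _ hx]
    · rw [if_neg fun h => hx ((hfix x).1 h), br_coeff_not _ hx]
  · intro u x
    rw [hsm, ha u u.2]

omit hp [CharP k p] in
theorem exists_prin (H : Subgroup G) : ∃ e : MonoidAlgebra k G, IsBlk H e ∧ aug e ≠ 0 := by
  classical
  obtain ⟨s, hs, hsum⟩ := exists_blocks (k := k) H
  by_contra hcon
  push Not at hcon
  have h1 : aug (1 : MonoidAlgebra k G) = 0 := by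
    rw [← hsum, aug_sum]
    exact Finset.sum_eq_zero fun e he => hcon e (hs e he)
  rw [aug_one] at h1
  exact one_ne_zero h1

omit hp [CharP k p] in
theorem prin_unique {H : Subgroup G} {e e' : MonoidAlgebra k G} (he : IsBlk H e)
    (he' : IsBlk H e') (h : aug e ≠ 0) (h' : aug e' ≠ 0) : e = e' := by
  refine he.eq_of_mul_ne he' ?_
  intro h0
  have : aug e * aug e' = 0 := by rw [← aug_mul, h0, aug_zero]
  exact (mul_ne_zero h h') this

/-- if `z` is a central idempotent with nonzero augmentation, the principal block lies under it -/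
theorem prin_mul {H : Subgroup G} {e z : MonoidAlgebra k G} (he : IsBlk H e) (h : aug e ≠ 0)
    (hz : ZH H z) (hzz : z * z = z) (hza : aug z ≠ 0) : z * e = e := by
  refine (he.prim z hz hzz).resolve_right ?_
  intro h0
  have : aug z * aug e = 0 := by rw [← aug_mul, h0, aug_zero]
  exact (mul_ne_zero hza h) this

theorem prin_nrm {H Q P : Subgroup G} {f e : MonoidAlgebra k G} (hf : BP p H Q f)
    (he : BP p H P e) (haf : aug f ≠ 0) (hae : aug e ≠ 0) (hQP : Q ≤ P)
    (hN : P ≤ Subgroup.normalizer (Q : Set G)) : Nrm p H Q f P e := by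
  have hfx : Fx P f := by
    rw [fx_iff]
    intro x hx
    have hxH : x ∈ H := he.le hx
    have h1 := hf.cj' hxH
    rw [cS_of_normalizer (hN hx)] at h1
    exact prin_unique h1.blk hf.blk (by rw [aug_cj]; exact haf) haf
  refine ⟨hf, he, hQP, hN, hfx, ?_⟩
  refine prin_mul he.blk hae (br_zh hQP hf.blk.zh) ?_ ?_
  · rw [← br_mul he.pg hfx hfx, hf.blk.idem]
  · rw [aug_br he.pg hfx]; exact haf

theorem prin_le (n : ℕ) : ∀ (H P Q : Subgroup G) (e f : MonoidAlgebra k G),
    Nat.card P - Nat.card Q ≤ n → BP p H P e → BP p H Q f → aug e ≠ 0 → aug f ≠ 0 → Q ≤ P →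
      LEp p H (Q, f) (P, e) := by
  induction n with
  | zero =>
    intro H P Q e f hn hP hQ' hae haf hQ
    have h1 : Nat.card P ≤ Nat.card Q := by omega
    have : Q = P := Subgroup.eq_of_le_of_card_ge hQ h1
    subst this
    have := prin_unique hP.blk hQ'.blk hae haf
    subst this
    exact Relation.ReflTransGen.refl
  | succ n ih =>
    intro H P Q e f hn hP hQ' hae haf hQ
    rcases eq_or_lt_of_le hQ with h | h
    · subst h
      have := prin_unique hP.blk hQ'.blk hae haf
      subst this
      exact Relation.ReflTransGen.refl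
    · have h1 := CfsgLib.PSub.lt_normalizer_inf hP.pg h
      have h2 : Nat.card Q < Nat.card (P ⊓ Subgroup.normalizer (Q : Set G) : Subgroup G) :=
        Set.Finite.card_lt_card (Set.toFinite _) h1
      obtain ⟨g, hg, hga⟩ := exists_prin (k := k)
        (CH H (P ⊓ Subgroup.normalizer (Q : Set G) : Subgroup G))
      have hR : BP p H (P ⊓ Subgroup.normalizer (Q : Set G) : Subgroup G) g :=
        ⟨inf_le_left.trans hP.le, hP.pg.to_le inf_le_left, hg⟩
      exact Relation.ReflTransGen.head (prin_nrm hQ' hR haf hga h1.le inf_le_right)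
        (ih H P _ e g (by omega) hP hR hae hga inf_le_left)

/-- Brauer pairs of the principal block -/
theorem prin_of {H P : Subgroup G} {B e : MonoidAlgebra k G} (hB : IsBlk H B) (haB : aug B ≠ 0)
    (he : BP p H P e) (hae : aug e ≠ 0) : Of p H B P e :=
  ⟨he, (prin_nrm (bp_bot hB) he haB hae bot_le fun x _ => by
    rw [mem_normalizer_iff_cS]; exact Subgroup.map_bot _).br⟩

open CfsgLib.BlockFMT (SylIn) in
theorem prin_isMx {H P : Subgroup G} {B e : MonoidAlgebra k G} (hB : IsBlk H B) (haB : aug B ≠ 0)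
    (he : BP p H P e) (hae : aug e ≠ 0) (hS : SylIn p H P) : IsMx p H B P e := by
  refine ⟨prin_of hB haB he hae, fun R g hR hle => ?_⟩
  obtain ⟨x, hx, h⟩ := hS.exists_ge hR.1.pg hR.1.le
  have h2 := card_le_of_le h
  rw [card_cS] at h2
  exact (Subgroup.eq_of_le_of_card_ge hle.le h2).symm

open CfsgLib.BlockFMT (SylIn) in
/-- third main theorem -/
theorem third_main {H Q : Subgroup G} {B f : MonoidAlgebra k G} (hB : IsBlk H B)
    (haB : aug B ≠ 0) (hQ : Of p H B Q f) : aug f ≠ 0 := by
  obtain ⟨S, hS⟩ := exists_sylIn (p := p) H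
  obtain ⟨e, he, hae⟩ := exists_prin (k := k) (CH H S)
  have hSe : BP p H S e := ⟨hS.le, hS.isPGroup, he⟩
  have hmx := prin_isMx hB haB hSe hae hS
  obtain ⟨x, hx, hle⟩ := hmx.ge hB hQ
  obtain ⟨g, hg, hga⟩ := exists_prin (k := k) (CH H (cS x Q))
  have hbp : BP p H (cS x Q) g := ⟨(hle.bp_left hSe).le, (hle.bp_left hSe).pg, hg⟩
  have h1 := prin_le _ H S (cS x Q) e g le_rfl hSe hbp hae hga hle.le
  have h2 := LEp.unique hSe hle h1
  rw [← aug_cj x, h2]
  exact hga

open CfsgLib.BlockFMT (SylIn) in
theorem prin_isDef {H P : Subgroup G} {B : MonoidAlgebra k G} (hB : IsBlk H B) (haB : aug B ≠ 0) :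
    IsDef p H B P ↔ SylIn p H P := by
  have h1 : ∀ P, SylIn p H P → IsDef p H B P := by
    intro P hS
    obtain ⟨e, he, hae⟩ := exists_prin (k := k) (CH H P)
    have hSe : BP p H P e := ⟨hS.le, hS.isPGroup, he⟩
    exact (prin_isMx hB haB hSe hae hS).isDef hB
  refine ⟨fun h => ?_, h1 P⟩
  obtain ⟨S, hS⟩ := exists_sylIn (p := p) H
  obtain ⟨x, hx, h2⟩ := (h1 S hS).isConj h
  rw [h2]
  have h3 := hS.conj x
  have h4 : H.map (MulAut.conj x).toMonoidHom = H := cS_of_mem hx
  rw [h4] at h3
  exact h3

end Field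

section Bridge

variable {M : Ideal AlgInt} [hP : M.IsPrime] {p : ℕ} [hp : Fact p.Prime]
variable {K : Type*} [Group K] [Finite K] {G : Type*} [Group G] [Fintype G]
variable {ι : K →* G} (hι : Function.Injective ι)

/-- the principal character -/
noncomputable def triv (K : Type*) [Group K] [Finite K] : IrrCharacter K :=
  ⟨fun _ => 1, by
    haveI := Fintype.ofFinite K
    exact CfsgLib.CharBasic.isIrrCharacter_one⟩

theorem principalBlock_eq : principalBlock M K = blockOf M (triv K : K → ℂ) := rfl

theorem isPBlock_principal : IsPBlock M (principalBlock M K) := ⟨triv K, rfl⟩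

theorem triv_mem : triv K ∈ principalBlock M K := mem_blockOf_self hP (triv K)

theorem eq_principal_iff {b : Set (IrrCharacter K)} (hb : IsPBlock M b) :
    b = principalBlock M K ↔ triv K ∈ b := by
  constructor
  · rintro rfl; exact triv_mem
  · intro h; exact block_eq_of_mem hP hb isPBlock_principal h triv_mem

include hι in
theorem aug_Ph {v : IrrCharacter K → ℂ} (hv : AR M v) : aug (Ph M ι v) = rd M (v (triv K)) := by
  haveI := Fintype.ofFinite K
  unfold aug
  rw [sum_range_eq hι]
  · have h1 : omg (triv K : K → ℂ) (fou v) = v (triv K) := omg_fou _ _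
    have h2 : omg (triv K : K → ℂ) (fou v) = ∑ x : K, fou v x := by
      unfold omg triv
      simp
    rw [← h1, h2, rd_sum _ _ fun x _ => hv x]
    exact Finset.sum_congr rfl fun x _ => Ph_coeff hι v x
  · intro g hg; exact Ph_off v hg

include hι in
theorem aug_bk {b : Set (IrrCharacter K)} (hb : IsPBlock M b) :
    aug (bk M ι b) ≠ 0 ↔ b = principalBlock M K := by
  rw [eq_principal_iff hb]
  unfold bk
  rw [aug_Ph hι (AR_ind_block hP hb)]
  by_cases h : triv K ∈ b
  · rw [ind_of h, rd_one]
    exact ⟨fun _ => h, fun _ => one_ne_zero⟩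
  · rw [ind_not h, rd_zero]
    exact ⟨fun h' => absurd rfl h', fun h' => absurd h' h⟩

end Bridge

end CfsgLib.BrP
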