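import Mathlib
import Cfsg.Agent.EqBase
import Cfsg.Agent.LibBrP22
import Cfsg.Agent.LibBrP11

/-!
# Kernels of blocks and Brauer pairs, I (helper18)
-/

set_option autoImplicit false
set_option linter.unusedSectionVars false
set_option linter.style.haveILetI false
set_option linter.unusedSimpArgs false
set_option linter.unusedVariables false

namespace CfsgLib.BrK

open Cfsg CfsgLib.LocR CfsgLib.BlockCore CfsgLib.BlockIdem CfsgLib.BlockR CfsgLib.BrP
open CfsgLib.CharInt

section Av

variable {k : Type*} [Field k] {G : Type*} [Group G] [Fintype G]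

open Classical in
/-- the average of a subgroup -/
noncomputable def av (k : Type*) [Field k] {G : Type*} [Group G] [Fintype G] (L : Subgroup G) :
    MonoidAlgebra k G := mk fun g => if g ∈ L then ((Nat.card L : k))⁻¹ else 0

theorem av_of {L : Subgroup G} {g : G} (h : g ∈ L) : (av k L).coeff g = ((Nat.card L : k))⁻¹ := by
  classical
  unfold av
  rw [mk_coeff]
  exact if_pos h

theorem av_not {L : Subgroup G} {g : G} (h : g ∉ L) : (av k L).coeff g = 0 := by
  classical
  unfold av
  rw [mk_coeff]
  exact if_neg h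

theorem supp_av (L : Subgroup G) : Supp L (av k L) := fun _ h => av_not h

theorem fx_av {L N : Subgroup G} (h : N ≤ Subgroup.normalizer (L : Set G)) : Fx N (av k L) := by
  intro x hx g
  have h1 := Subgroup.mem_normalizer_iff.1 (h hx) g
  by_cases hg : g ∈ L
  · rw [av_of hg, av_of (h1.1 hg)]
  · rw [av_not hg, av_not (fun h' => hg (h1.2 h'))]

theorem zh_av {L H : Subgroup G} (hL : L ≤ H) (h : H ≤ Subgroup.normalizer (L : Set G)) :
    ZH H (av k L) := ⟨supp_mono hL (supp_av L), fx_av h⟩

theorem av_mul {L' L : Subgroup G} (h : L' ≤ L) (hc : (Nat.card L' : k) ≠ 0) :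
    av k L' * av k L = av k L := by
  classical
  apply ext'
  intro g
  rw [mul_coeff]
  have h1 : ∀ x : G, (av k L').coeff x * (av k L).coeff (x⁻¹ * g) =
      if x ∈ L' then ((Nat.card L' : k))⁻¹ * (av k L).coeff g else 0 := by
    intro x
    by_cases hx : x ∈ L'
    · rw [av_of hx, if_pos hx]
      congr 1
      by_cases hg : g ∈ L
      · rw [av_of hg, av_of (L.mul_mem (L.inv_mem (h hx)) hg)]
      · rw [av_not hg, av_not]
        intro h'
        apply hg
        have := L.mul_mem (h hx) h'
        rwa [mul_inv_cancel_left] at this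
    · rw [av_not hx, if_neg hx, zero_mul]
  rw [Finset.sum_congr rfl fun x _ => h1 x, ← Finset.sum_filter, Finset.sum_const, nsmul_eq_mul]
  have h2 : (Finset.univ.filter (fun x : G => x ∈ L')).card = Nat.card L' := by
    rw [← Fintype.card_subtype, Nat.card_eq_fintype_card]
  rw [h2, ← mul_assoc, mul_inv_cancel₀ hc, one_mul]

theorem av_idem {L : Subgroup G} (hc : (Nat.card L : k) ≠ 0) : av k L * av k L = av k L :=
  av_mul le_rfl hc

theorem cj_av (x : G) (L : Subgroup G) : cj x (av k L) = av k (cS x L) := by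
  apply ext'
  intro g
  rw [cj_coeff]
  by_cases hg : x⁻¹ * g * x ∈ L
  · rw [av_of hg, av_of (mem_cS.2 hg), card_cS]
  · rw [av_not hg, av_not fun h => hg (mem_cS.1 h)]

variable {p : ℕ} [hp : Fact p.Prime] [CharP k p]

theorem card_ne {L : Subgroup G} (h : ¬ p ∣ Nat.card L) : (Nat.card L : k) ≠ 0 := by
  rw [Ne, CharP.cast_eq_zero_iff k p]; exact h

theorem card_CH {L R : Subgroup G} (hR : IsPGroup p R) (hRL : R ≤ Subgroup.normalizer (L : Set G)) :
    (Nat.card L : k) = (Nat.card (CH L R) : k) := by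
  classical
  let il : Subgroup G → MonoidAlgebra k G := fun L => mk fun g => if g ∈ L then 1 else 0
  have hil : ∀ (L : Subgroup G) g, (il L).coeff g = if g ∈ L then 1 else 0 := fun _ _ => rfl
  have haug : ∀ L : Subgroup G, aug (il L) = (Nat.card L : k) := by
    intro L
    unfold aug
    simp only [hil]
    rw [Finset.sum_boole, ← Fintype.card_subtype, Nat.card_eq_fintype_card]
  have hfx : Fx R (il L) := by
    intro x hx g
    rw [hil, hil]
    have h1 := Subgroup.mem_normalizer_iff.1 (hRL hx) g
    simp only [h1]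
  have hbr : Br R (il L) = il (CH L R) := by
    apply ext'
    intro g
    rw [hil]
    by_cases hg : g ∈ Subgroup.centralizer (R : Set G)
    · rw [br_coeff_of _ hg, hil]
      have : g ∈ CH L R ↔ g ∈ L := ⟨fun h => (Subgroup.mem_inf.1 h).1, fun h => ⟨h, hg⟩⟩
      simp only [this]
    · rw [br_coeff_not _ hg, if_neg fun h => hg (Subgroup.mem_inf.1 h).2]
  rw [← haug, ← haug, ← hbr, aug_br hR hfx]

theorem br_av {L R : Subgroup G} (hR : IsPGroup p R) (hRL : R ≤ Subgroup.normalizer (L : Set G)) :
    Br R (av k L) = av k (CH L R) := by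
  apply ext'
  intro g
  by_cases hg : g ∈ Subgroup.centralizer (R : Set G)
  · rw [br_coeff_of _ hg]
    by_cases hL : g ∈ L
    · rw [av_of hL, av_of (⟨hL, hg⟩ : g ∈ CH L R), card_CH hR hRL]
    · rw [av_not hL, av_not fun h => hL (Subgroup.mem_inf.1 h).1]
  · rw [br_coeff_not _ hg, av_not fun h => hg (Subgroup.mem_inf.1 h).2]

end Av

section Ker

variable {M : Ideal AlgInt} [hP : M.IsPrime] {p : ℕ} [hp : Fact p.Prime]
variable {G : Type*} [Group G] [Fintype G]

theorem rd_natCast (n : ℕ) : rd M (n : ℂ) = (n : kM M) := by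
  induction n with
  | zero => rw [Nat.cast_zero, Nat.cast_zero, rd_zero]
  | succ n ih =>
    have h : MemLocalRing M ((n : ℕ) : ℂ) := LocR.memR_natCast n
    rw [Nat.cast_succ, rd_add h LocR.memR_one, ih, rd_one, Nat.cast_succ]

theorem memR_natInv (hM : IsPModular p M) {n : ℕ} (h : ¬ p ∣ n) :
    MemLocalRing M ((n : ℂ)⁻¹) := LocR.memR_natCast_inv hM h

theorem rd_natInv (hM : IsPModular p M) {n : ℕ} (h : ¬ p ∣ n) :
    rd M ((n : ℂ)⁻¹) = ((n : kM M))⁻¹ := by
  haveI := charP_kM hM
  have hn0 : n ≠ 0 := by rintro rfl; exact h (dvd_zero p)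
  have h1 : rd M (n : ℂ) * rd M ((n : ℂ)⁻¹) = 1 := by
    rw [← rd_mul (LocR.memR_natCast n) (memR_natInv hM h), mul_inv_cancel₀ (by exact_mod_cast hn0),
      rd_one]
  rw [rd_natCast] at h1
  exact eq_inv_of_mul_eq_one_right h1

/-- the kernel of a block in terms of the average -/
theorem ker_iff (hM : IsPModular p M) {H L : Subgroup G} (hLH : L ≤ H)
    (hHL : H ≤ Subgroup.normalizer (L : Set G)) (hL : ¬ p ∣ Nat.card L)
    {b : Set (IrrCharacter H)} (hb : IsPBlock M b) :
    (∀ n : H, (n : G) ∈ L → n ∈ blockKer b) ↔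
      av (kM M) L * bk M H.subtype b = bk M H.subtype b := by
  classical
  haveI := charP_kM hM
  haveI := Fintype.ofFinite H
  have hc0 : (Nat.card L : ℂ) ≠ 0 := by exact_mod_cast Nat.card_pos.ne'
  let a : H → ℂ := fun h => if (h : G) ∈ L then ((Nat.card L : ℂ))⁻¹ else 0
  have ha : ∀ h, a h = if (h : G) ∈ L then ((Nat.card L : ℂ))⁻¹ else 0 := fun _ => rfl
  have haof : ∀ h : H, (h : G) ∈ L → a h = ((Nat.card L : ℂ))⁻¹ := fun h hh => by rw [ha, if_pos hh]
  have hanot : ∀ h : H, (h : G) ∉ L → a h = 0 := fun h hh => by rw [ha, if_neg hh]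
  have hnn : ∀ g h : H, ((h * g * h⁻¹ : H) : G) ∈ L ↔ (g : G) ∈ L := by
    intro g h
    have := Subgroup.mem_normalizer_iff.1 (hHL h.2) (g : G)
    exact this.symm
  have hacl : IsClassFunction H a := by
    intro g h
    by_cases hg : (g : G) ∈ L
    · rw [haof _ hg, haof _ ((hnn g h).2 hg)]
    · rw [hanot _ hg, hanot _ fun h' => hg ((hnn g h).1 h')]
  have hel : el M H.subtype a = av (kM M) L := by
    apply ext'
    intro g
    by_cases hgH : g ∈ H
    · have h1 := el_coeff (M := M) (Subgroup.subtype_injective H) a ⟨g, hgH⟩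
      have h2 : H.subtype ⟨g, hgH⟩ = g := rfl
      rw [h2] at h1
      rw [h1]
      by_cases hg : g ∈ L
      · rw [haof _ hg, av_of hg, rd_natInv hM hL]
      · rw [hanot _ hg, av_not hg, rd_zero]
    · rw [el_off, av_not fun h => hgH (hLH h)]
      rw [Subgroup.range_subtype]; exact hgH
  have hsum : ∀ F : H → ℂ, ∑ x : H, a x * F x =
      ∑ x : H, if (x : G) ∈ L then ((Nat.card L : ℂ))⁻¹ * F x else 0 := by
    intro F
    refine Finset.sum_congr rfl fun x _ => ?_
    by_cases hx : (x : G) ∈ L
    · rw [haof _ hx, if_pos hx]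
    · rw [hanot _ hx, if_neg hx, zero_mul]
  have hcard : (Finset.univ.filter (fun x : H => (x : G) ∈ L)).card = Nat.card L := by
    rw [← Fintype.card_subtype, ← Nat.card_eq_fintype_card]
    refine Nat.card_congr ⟨fun x => ⟨x.1.1, x.2⟩, fun x => ⟨⟨x.1, hLH x.2⟩, x.2⟩, ?_, ?_⟩
    · intro x; rfl
    · intro x; rfl
  have hconst : ∀ c : ℂ, ∑ x : H, (if (x : G) ∈ L then ((Nat.card L : ℂ))⁻¹ * c else 0) = c := by
    intro c
    rw [← Finset.sum_filter, Finset.sum_const, hcard, nsmul_eq_mul, ← mul_assoc,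
      mul_inv_cancel₀ hc0, one_mul]
  have haa : conv a a = a := by
    funext g
    show ∑ x : H, a x * a (x⁻¹ * g) = a g
    rw [hsum, ← hconst (a g)]
    refine Finset.sum_congr rfl fun x _ => ?_
    by_cases hx : (x : G) ∈ L
    · rw [if_pos hx, if_pos hx]
      congr 1
      by_cases hg : (g : G) ∈ L
      · rw [haof _ hg, haof]
        exact L.mul_mem (L.inv_mem hx) hg
      · rw [hanot _ hg, hanot]
        intro h'
        apply hg
        have h3 := L.mul_mem hx h'
        have h4 : (x : G) * ((x⁻¹ * g : H) : G) = g := by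
          rw [Subgroup.coe_mul, Subgroup.coe_inv, mul_inv_cancel_left]
        rwa [h4] at h3
    · rw [if_neg hx, if_neg hx]
  have hom01 : ∀ χ : IrrCharacter H, omg (χ : H → ℂ) a = 0 ∨ omg (χ : H → ℂ) a = 1 := by
    intro χ
    have h1 := omg_conv χ (b := a) hacl
    rw [haa] at h1
    have h2 : omg (χ : H → ℂ) a * (omg (χ : H → ℂ) a - 1) = 0 := by
      rw [mul_sub, mul_one, ← h1, sub_self]
    rcases mul_eq_zero.1 h2 with h | h
    · exact Or.inl h
    · exact Or.inr (sub_eq_zero.1 h)
  have hker : ∀ χ : IrrCharacter H, omg (χ : H → ℂ) a = 1 ↔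
      ∀ n : H, (n : G) ∈ L → (χ : H → ℂ) n = (χ : H → ℂ) 1 := by
    intro χ
    have hχ1 : (χ : H → ℂ) 1 ≠ 0 := irr_one_ne_zero χ.2
    constructor
    · intro h n hn
      let d : H → ℂ := fun h => if h = n then 1 else 0
      have hd : ∀ h, d h = if h = n then 1 else 0 := fun _ => rfl
      have h1 := omg_conv χ (b := d) hacl
      have h2 : conv a d = a := by
        funext g
        show ∑ x : H, a x * d (x⁻¹ * g) = a g
        rw [Finset.sum_eq_single (g * n⁻¹)]
        · rw [hd, if_pos (by group), mul_one]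
          by_cases hg : (g : G) ∈ L
          · rw [haof _ hg, haof]
            exact L.mul_mem hg (L.inv_mem hn)
          · rw [hanot _ hg, hanot]
            intro h'
            apply hg
            have h3 := L.mul_mem h' hn
            have h4 : ((g * n⁻¹ : H) : G) * n = g := by
              rw [Subgroup.coe_mul, Subgroup.coe_inv, inv_mul_cancel_right]
            rwa [h4] at h3
        · intro x _ hx
          rw [hd, if_neg, mul_zero]
          intro h3
          apply hx
          rw [← h3]; group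
        · intro h3; exact absurd (Finset.mem_univ _) h3
      rw [h2, h, one_mul] at h1
      have h3 : omg (χ : H → ℂ) d = (χ : H → ℂ) n / (χ : H → ℂ) 1 := by
        unfold omg
        rw [Finset.sum_eq_single n]
        · rw [hd, if_pos rfl, one_mul]
        · intro x _ hx
          rw [hd, if_neg hx, zero_mul]
        · intro h3; exact absurd (Finset.mem_univ _) h3
      rw [h3, eq_div_iff hχ1, one_mul] at h1
      exact h1.symm
    · intro h
      unfold omg
      rw [hsum, div_eq_iff hχ1, one_mul, ← hconst ((χ : H → ℂ) 1)]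
      refine Finset.sum_congr rfl fun x _ => ?_
      by_cases hx : (x : G) ∈ L
      · rw [if_pos hx, if_pos hx, h x hx]
      · rw [if_neg hx, if_neg hx]
  have hv : AR M (fun χ : IrrCharacter H => omg (χ : H → ℂ) a) := by
    intro x
    rw [fou_omg hacl]
    by_cases hx : (x : G) ∈ L
    · rw [haof _ hx]; exact memR_natInv hM hL
    · rw [hanot _ hx]; exact LocR.memR_zero
  have hPh : Ph M H.subtype (fun χ : IrrCharacter H => omg (χ : H → ℂ) a) = av (kM M) L := by
    rw [← el_eq_Ph hacl, hel]
  have hidem : av (kM M) L * av (kM M) L = av (kM M) L := av_idem (card_ne hL)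
  have key := mul_bk_iff (M := M) (Subgroup.subtype_injective H) hv
    (by rw [hPh]; exact hidem) hb
  rw [hPh] at key
  rw [← key]
  constructor
  · intro h ξ hξ
    have h1 : omg (ξ : H → ℂ) a = 1 := (hker ξ).2 fun n hn => h n hn ξ hξ
    show MemLocalIdeal M (omg (ξ : H → ℂ) a - 1)
    rw [h1, sub_self]; exact LocR.memI_zero
  · intro h n hn ξ hξ
    have h1 := h ξ hξ
    have h2 : omg (ξ : H → ℂ) a = 1 := by
      rcases hom01 ξ with h3 | h3
      · exfalso
        replace h1 : MemLocalIdeal M (omg (ξ : H → ℂ) a - 1) := h1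
        rw [h3, zero_sub] at h1
        have h4 := LocR.memI_neg h1
        rw [neg_neg] at h4
        exact LocR.not_memI_one h4
      · exact h3
    exact (hker ξ).1 h2 n hn

end Ker

end CfsgLib.BrK
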