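import Mathlib
import Cfsg.Agent.EqBase
import Cfsg.Agent.LibBrK1
import Cfsg.Agent.LibBGCore
import Cfsg.Agent.LibStar15

/-!
# Kernels of blocks and Brauer pairs, II (helper18)
-/

set_option autoImplicit false
set_option linter.unusedSectionVars false
set_option linter.style.haveILetI false
set_option linter.unusedSimpArgs false
set_option linter.unusedVariables false

namespace CfsgLib.BrK

open Cfsg CfsgLib.LocR CfsgLib.BlockCore CfsgLib.BlockIdem CfsgLib.BlockR CfsgLib.BrP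
open CfsgLib.CharInt CfsgLib.BGPi

section KP

variable {k : Type*} [Field k] {G : Type*} [Group G] [Fintype G]
variable {p : ℕ} [hp : Fact p.Prime] [CharP k p] {π : Set ℕ}

/-- `O_{π'}(C_G(Q))` -/
abbrev Oc (π : Set ℕ) (Q : Subgroup G) : Subgroup G :=
  piCoreOf {q | q ∉ π} (Subgroup.centralizer (Q : Set G))

/-- `O_{π'}(C_G(Q))` acts trivially on the block `f` -/
def KP (π : Set ℕ) (Q : Subgroup G) (f : MonoidAlgebra k G) : Prop := av k (Oc π Q) * f = f

omit hp [CharP k p] in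
theorem ndvd {K : Subgroup G} (hp' : p.Prime) (hpπ : p ∈ π) (hK : IsPi {q | q ∉ π} K) :
    ¬ p ∣ Nat.card K := fun h => hK p hp' h hpπ

theorem nc_le (Q : Subgroup G) : Subgroup.normalizer (Q : Set G) ≤
    Subgroup.normalizer ((Subgroup.centralizer (Q : Set G) : Subgroup G) : Set G) := by
  intro x hx
  apply mem_normalizer_of_cS
  rw [← centralizer_cS, cS_of_normalizer hx]

theorem nOc_le (Q : Subgroup G) :
    Subgroup.normalizer (Q : Set G) ≤ Subgroup.normalizer ((Oc π Q : Subgroup G) : Set G) :=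
  (nc_le Q).trans (nz_le_nz_piCoreOf _ _)

theorem Oc_le (Q : Subgroup G) : Oc π Q ≤ Subgroup.centralizer (Q : Set G) := piCoreOf_le _ _

theorem Oc_cS (x : G) (Q : Subgroup G) : Oc π (cS x Q) = cS x (Oc π Q) := by
  have h := piCoreOf_cj {q | q ∉ π} (Subgroup.centralizer (Q : Set G)) x
  have h1 : Subgroup.centralizer ((cS x Q : Subgroup G) : Set G) =
      (Subgroup.centralizer (Q : Set G)).map (MulAut.conj x).toMonoidHom := centralizer_cS x Q
  show piCoreOf {q | q ∉ π} (Subgroup.centralizer ((cS x Q : Subgroup G) : Set G)) = _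
  rw [h1]
  exact h.symm

theorem kp_cj {x : G} {Q : Subgroup G} {f : MonoidAlgebra k G} :
    KP π (cS x Q) (cj x f) ↔ KP π Q f := by
  unfold KP
  rw [Oc_cS, ← cj_av, ← BrP.cj_mul]
  exact ⟨fun h => cj_injective x h, fun h => by rw [h]⟩

theorem CH_le_Oc {K Q : Subgroup G} (hn : Subgroup.centralizer (Q : Set G) ≤
    Subgroup.normalizer (K : Set G)) (hK : IsPi {q | q ∉ π} K) : CH K Q ≤ Oc π Q := by
  refine le_piCoreOf inf_le_right ?_ (hK.le inf_le_left)
  intro x hx
  apply mem_normalizer_of_cS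
  show cS x (K ⊓ Subgroup.centralizer (Q : Set G)) = _
  rw [cS_inf, cS_of_normalizer (hn hx), cS_of_mem hx]

/-- elements with no prime divisor in `π` are in `O_{π'}` -/
def Hl (π : Set ℕ) (Q : Subgroup G) : Prop :=
  ∀ x ∈ Subgroup.centralizer (Q : Set G), (∀ q : ℕ, q.Prime → q ∣ orderOf x → q ∉ π) → x ∈ Oc π Q

theorem hl_cS {x : G} {Q : Subgroup G} (h : Hl π Q) : Hl π (cS x Q) := by
  intro g hg hq
  rw [Oc_cS, mem_cS]
  apply h
  · rw [centralizer_cS, mem_cS] at hg; exact hg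
  · have h1 : orderOf (x⁻¹ * g * x) = orderOf g := by
      have h2 : x⁻¹ * g * x = MulAut.conj x⁻¹ g := by simp
      rw [h2, MulEquiv.orderOf_eq]
    rw [h1]; exact hq

theorem kp_down (hpπ : p ∈ π) {Q R : Subgroup G} {f g : MonoidAlgebra k G}
    (h : Nrm p ⊤ Q f R g) (hg : KP π R g) : KP π Q f := by
  have hL : ¬ p ∣ Nat.card (Oc π Q) := ndvd hp.out hpπ (isPi_piCoreOf _ _)
  have hCR : CH (Oc π Q) R ≤ Oc π R :=
    CH_le_Oc ((centralizer_anti h.le).trans (le_nz_piCoreOf _ _)) (isPi_piCoreOf _ _)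
  have hcard : ¬ p ∣ Nat.card (CH (Oc π Q) R) := fun h' =>
    hL (h'.trans (Subgroup.card_dvd_of_le inf_le_left))
  have hz : ZH (CH ⊤ Q) (av k (Oc π Q)) := by
    rw [CH_top]
    exact zh_av (Oc_le Q) (le_nz_piCoreOf _ _)
  rcases h.bpQ.blk.prim _ hz (av_idem (card_ne hL)) with h1 | h1
  · exact h1
  · exfalso
    have hRL : R ≤ Subgroup.normalizer ((Oc π Q : Subgroup G) : Set G) := h.norm.trans (nOc_le Q)
    have h2 : Br R (av k (Oc π Q)) * Br R f = 0 := by
      rw [← br_mul h.bpP.pg (fx_av hRL) h.fx, h1, br_zero]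
    rw [br_av h.bpP.pg hRL] at h2
    apply h.bpP.blk.ne
    have hg' : av k (Oc π R) * g = g := hg
    calc g = av k (CH (Oc π Q) R) * (av k (Oc π R) * g) := by
          rw [← mul_assoc, av_mul hCR (card_ne hcard), hg']
      _ = av k (CH (Oc π Q) R) * (Br R f * g) := by rw [hg', h.br]
      _ = 0 := by rw [← mul_assoc, h2, zero_mul]

theorem kp_up (hpπ : p ∈ π) {Q R : Subgroup G} {f g : MonoidAlgebra k G}
    (h : Nrm p ⊤ Q f R g) (hf : KP π Q f) (hH : Hl π Q) : KP π R g ∧ Hl π R := by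
  have hCR : CH (Oc π Q) R ≤ Oc π R :=
    CH_le_Oc ((centralizer_anti h.le).trans (le_nz_piCoreOf _ _)) (isPi_piCoreOf _ _)
  have hRL : R ≤ Subgroup.normalizer ((Oc π Q : Subgroup G) : Set G) := h.norm.trans (nOc_le Q)
  have hCR' : Oc π R ≤ CH (Oc π Q) R := by
    intro x hx
    have hxR : x ∈ Subgroup.centralizer (R : Set G) := Oc_le R hx
    refine ⟨hH x (centralizer_anti h.le hxR) ?_, hxR⟩
    intro q hq hd
    have h1 : orderOf x ∣ Nat.card (Oc π R) := by
      have := orderOf_dvd_natCard (⟨x, hx⟩ : Oc π R)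
      rwa [Subgroup.orderOf_mk] at this
    exact isPi_piCoreOf {q | q ∉ π} (Subgroup.centralizer (R : Set G)) q hq (hd.trans h1)
  have heq : CH (Oc π Q) R = Oc π R := le_antisymm hCR hCR'
  refine ⟨?_, ?_⟩
  · have hf' : av k (Oc π Q) * f = f := hf
    show av k (Oc π R) * g = g
    calc av k (Oc π R) * g = Br R (av k (Oc π Q)) * (Br R f * g) := by
          rw [h.br, br_av h.bpP.pg hRL, heq]
      _ = Br R (av k (Oc π Q) * f) * g := by
          rw [← mul_assoc, br_mul h.bpP.pg (fx_av hRL) h.fx]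
      _ = g := by rw [hf', h.br]
  · intro x hx hq
    apply hCR
    exact ⟨hH x (centralizer_anti h.le hx) hq, hx⟩

theorem kp_chain_down (hpπ : p ∈ π) {a b : Subgroup G × MonoidAlgebra k G} (h : LEp p ⊤ a b)
    (hb : KP π b.1 b.2) : KP π a.1 a.2 := by
  induction h using Relation.ReflTransGen.head_induction_on with
  | refl => exact hb
  | head h1 _ ih => exact kp_down hpπ h1 ih

theorem kp_chain_up (hpπ : p ∈ π) {a b : Subgroup G × MonoidAlgebra k G} (h : LEp p ⊤ a b)
    (ha : KP π a.1 a.2) (hH : Hl π a.1) : KP π b.1 b.2 ∧ Hl π b.1 := by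
  induction h with
  | refl => exact ⟨ha, hH⟩
  | tail _ h1 ih => exact kp_up hpπ h1 ih.1 ih.2

/-- all pairs of a block, from a pair on a defect group -/
theorem kp_all (hpπ : p ∈ π) {B : MonoidAlgebra k G} (hB : IsBlk ⊤ B) {D : Subgroup G}
    {e : MonoidAlgebra k G} (hmx : IsMx p ⊤ B D e) (he : KP π D e) {Q : Subgroup G}
    {f : MonoidAlgebra k G} (hf : Of p ⊤ B Q f) : KP π Q f := by
  obtain ⟨x, _, hx⟩ := hmx.ge hB hf
  have h1 : KP π (cS x Q) (BrP.cj x f) :=
    kp_chain_down (a := (cS x Q, BrP.cj x f)) (b := (D, e)) hpπ hx he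
  exact (kp_cj (x := x)).1 h1

theorem kp_all_up (hpπ : p ∈ π) {B : MonoidAlgebra k G} (hB : IsBlk ⊤ B) {D : Subgroup G}
    {e : MonoidAlgebra k G} (hmx : IsMx p ⊤ B D e) {Q : Subgroup G}
    {f : MonoidAlgebra k G} (hf : Of p ⊤ B Q f) (h : KP π Q f) (hH : Hl π Q) : KP π D e := by
  obtain ⟨x, _, hx⟩ := hmx.ge hB hf
  have h1 : KP π (cS x Q) (BrP.cj x f) := (kp_cj (x := x)).2 h
  exact (kp_chain_up (a := (cS x Q, BrP.cj x f)) (b := (D, e)) hpπ hx h1 (hl_cS hH)).1

/-- from the Brauer correspondent to the pair on the defect group -/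
theorem kp_of_norm (hpπ : p ∈ π) {B : MonoidAlgebra k G} {D : Subgroup G}
    {e : MonoidAlgebra k G} (hof : Of p ⊤ B D e)
    (h : av k (piCoreOf {q | q ∉ π} (Subgroup.normalizer (D : Set G))) * Br D B = Br D B) :
    KP π D e := by
  set K := piCoreOf {q | q ∉ π} (Subgroup.normalizer (D : Set G)) with hK
  have h1 : Oc π D ≤ K := le_piCoreOf ((Oc_le D).trans (centralizer_le_normalizer D)) (nOc_le D)
    (isPi_piCoreOf _ _)
  have hL : ¬ p ∣ Nat.card (Oc π D) := ndvd hp.out hpπ (isPi_piCoreOf _ _)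
  show av k (Oc π D) * e = e
  calc av k (Oc π D) * e = av k (Oc π D) * (av k K * Br D B * e) := by rw [h, hof.2]
    _ = (av k (Oc π D) * av k K) * Br D B * e := by simp only [mul_assoc]
    _ = e := by rw [av_mul h1 (card_ne hL), h, hof.2]

/-- coprime normal subgroups of the normalizer centralize -/
theorem core_le_cent (hpπ : p ∈ π) {D : Subgroup G} (hD : IsPGroup p D) :
    piCoreOf {q | q ∉ π} (Subgroup.normalizer (D : Set G)) ≤ Subgroup.centralizer (D : Set G) := by
  set K := piCoreOf {q | q ∉ π} (Subgroup.normalizer (D : Set G)) with hK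
  have hKN : K ≤ Subgroup.normalizer (D : Set G) := piCoreOf_le _ _
  have hNK : Subgroup.normalizer (D : Set G) ≤ Subgroup.normalizer (K : Set G) :=
    le_nz_piCoreOf _ _
  have hcop : K ⊓ D = ⊥ := by
    rw [Subgroup.eq_bot_iff_card]
    obtain ⟨n, hn⟩ := IsPGroup.iff_card.1 (hD.to_le (inf_le_right : K ⊓ D ≤ D))
    have h1 : ¬ p ∣ Nat.card K := ndvd hp.out hpπ (isPi_piCoreOf _ _)
    rcases Nat.eq_zero_or_pos n with h0 | h0
    · rw [hn, h0, pow_zero]
    · exfalso
      apply h1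
      refine dvd_trans ?_ (Subgroup.card_dvd_of_le (inf_le_left : K ⊓ D ≤ K))
      rw [hn]
      exact dvd_pow_self p h0.ne'
  intro x hx
  rw [Subgroup.mem_centralizer_iff]
  intro d hd
  have h1 : d * x * d⁻¹ * x⁻¹ ∈ K ⊓ D := by
    refine ⟨?_, ?_⟩
    · have h2 := (Subgroup.mem_normalizer_iff.1 (hNK (Subgroup.le_normalizer hd)) x).1 hx
      exact K.mul_mem h2 (K.inv_mem hx)
    · have h2 := (Subgroup.mem_normalizer_iff.1 (hKN hx) d⁻¹).1 (D.inv_mem hd)
      have h3 := D.mul_mem hd h2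
      have e1 : d * (x * d⁻¹ * x⁻¹) = d * x * d⁻¹ * x⁻¹ := by group
      rwa [e1] at h3
  rw [hcop, Subgroup.mem_bot] at h1
  calc d * x = (d * x * d⁻¹ * x⁻¹) * (x * d) := by group
    _ = x * d := by rw [h1, one_mul]

theorem norm_of_kp (hpπ : p ∈ π) {B : MonoidAlgebra k G} {D : Subgroup G} (hB : IsBlk ⊤ B)
    (hD : IsDef p ⊤ B D) {e : MonoidAlgebra k G} (hof : Of p ⊤ B D e) (h : KP π D e) :
    av k (piCoreOf {q | q ∉ π} (Subgroup.normalizer (D : Set G))) * Br D B = Br D B := by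
  obtain ⟨hblk, _⟩ := corr_blk hB hD
  set K := piCoreOf {q | q ∉ π} (Subgroup.normalizer (D : Set G)) with hK
  have hKn : ¬ p ∣ Nat.card K := ndvd hp.out hpπ (isPi_piCoreOf _ _)
  have hKC : K ≤ Oc π D := by
    refine le_piCoreOf (core_le_cent hpπ hD.pg) ?_ (isPi_piCoreOf _ _)
    exact (centralizer_le_normalizer D).trans (le_nz_piCoreOf _ _)
  have hz : ZH (NH ⊤ D) (av k K) := by
    have h1 : NH ⊤ D = Subgroup.normalizer (D : Set G) := top_inf_eq _
    rw [h1]
    exact zh_av (piCoreOf_le _ _) (le_nz_piCoreOf _ _)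
  rcases hblk.prim _ hz (av_idem (card_ne hKn)) with h1 | h1
  · exact h1
  · exfalso
    apply hof.1.blk.ne
    have h2 : av k (Oc π D) * e = e := h
    calc e = (av k K * av k (Oc π D)) * e := by rw [av_mul hKC (card_ne hKn), h2]
      _ = av k K * (Br D B * e) := by rw [mul_assoc, h2, hof.2]
      _ = 0 := by rw [← mul_assoc, h1, zero_mul]

end KP

section Chars

variable {M : Ideal AlgInt} [hP : M.IsPrime] {p : ℕ} [hp : Fact p.Prime] {π : Set ℕ}
variable {G : Type*} [Group G] [Fintype G]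

theorem ker_core_iff (hM : IsPModular p M) (hpπ : p ∈ π) {H : Subgroup G}
    {b : Set (IrrCharacter H)} (hb : IsPBlock M b) :
    (∀ n : H, n ∈ piCore {q | q ∉ π} H → n ∈ blockKer b) ↔
      av (kM M) (piCoreOf {q | q ∉ π} H) * bk M H.subtype b = bk M H.subtype b := by
  rw [← ker_iff hM (piCoreOf_le _ _) (le_nz_piCoreOf _ _)
    (ndvd hp.out hpπ (isPi_piCoreOf _ _)) hb]
  refine forall_congr' fun n => ?_
  have : (n : G) ∈ piCoreOf {q | q ∉ π} H ↔ n ∈ piCore {q | q ∉ π} H := by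
    show (n : G) ∈ (piCore {q | q ∉ π} H).map H.subtype ↔ _
    constructor
    · rintro ⟨m, hm, hmn⟩
      have : m = n := Subtype.ext hmn
      rwa [← this]
    · intro h; exact ⟨n, h, rfl⟩
  rw [this]

/-- the Brauer correspondent -/
theorem corr_eq (hM : IsPModular p M) {B : Set (IrrCharacter G)} (hB : IsPBlock M B)
    {D : Subgroup G} (hD : IsDefectGroup p M B D)
    {B₁ : Set (IrrCharacter (Subgroup.normalizer (D : Set G)))}
    (h : IsInducedBlock M (Subgroup.normalizer (D : Set G)) B₁ B) :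
    bk M (Subgroup.normalizer (D : Set G)).subtype B₁ = Br D (JB M B) := by
  haveI := charP_kM hM
  have hDef := (g_def hM hB).1 hD
  have h1 := ind_br hM hDef.pg Subgroup.le_normalizer le_rfl (centralizer_le_normalizer D) h
  obtain ⟨h2, _⟩ := corr_blk (g_blk hB) hDef
  have h3 : NH ⊤ D = Subgroup.normalizer (D : Set G) := top_inf_eq _
  rw [h3] at h2
  symm
  refine h2.eq_of_mul_ne (h_blk h.1) ?_
  rw [h1]
  exact (h_blk h.1).ne

/-- pairs of `H` with large centralizer are pairs of the induced block -/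
theorem ind_pair [hMx : M.IsMaximal] (hM : IsPModular p M) {H Q : Subgroup G}
    (hCH : Subgroup.centralizer (Q : Set G) ≤ H) {c : Set (IrrCharacter H)}
    {B : Set (IrrCharacter G)} (h : IsInducedBlock M H c B) {b₀ : MonoidAlgebra (kM M) G}
    (hof : Of p H (bk M H.subtype c) Q b₀) : Of p ⊤ (JB M B) Q b₀ := by
  classical
  haveI := charP_kM hM
  haveI := Fintype.ofFinite H
  have hc := h.1
  have hB := h.2.1
  obtain ⟨χ, hχ⟩ := block_nonempty hP hB
  obtain ⟨ξ, hξ⟩ := block_nonempty hP hc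
  have hQH : Q ≤ H := hof.1.le
  have hQp : IsPGroup p Q := hof.1.pg
  have hbp : BP p ⊤ Q b₀ := by
    refine ⟨le_top, hQp, ?_⟩
    have h1 : CH H Q = CH ⊤ Q := by
      show H ⊓ Subgroup.centralizer (Q : Set G) = ⊤ ⊓ Subgroup.centralizer (Q : Set G)
      rw [inf_eq_right.2 hCH, top_inf_eq]
    rw [← h1]; exact hof.1.blk
  refine ⟨hbp, ?_⟩
  have hcl := CfsgLib.BlockOrth.blockCoeff_classFun B
  let b : H → ℂ := fun l => blockCoeff B (l : G)
  have hbcl : IsClassFunction H b := by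
    intro g h
    exact hcl _ _
  have h1 : MemLocalIdeal M (omg (ξ : H → ℂ) b - 1) := by
    have h1 := CfsgLib.BlockInd.induced_val hP h hξ hχ (AR_ind_block hP hB)
    rw [ind_of hχ] at h1
    have h2 : b = fun h : H => fou (ind B) (h : G) := by
      funext l
      show blockCoeff B (l : G) = _
      rw [blockCoeff_eq_fou]
    rw [h2]; exact h1
  have hv : AR M (fun χ : IrrCharacter H => omg (χ : H → ℂ) b) := by
    intro x
    rw [fou_omg hbcl]
    exact blockCoeff_ring hP hB _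
  set r : MonoidAlgebra (kM M) G := Ph M H.subtype (fun χ : IrrCharacter H => omg (χ : H → ℂ) b)
    with hr
  have hrz : ZH H r := by
    have := zh_Ph (M := M) (Subgroup.subtype_injective H)
      (fun χ : IrrCharacter H => omg (χ : H → ℂ) b)
    rwa [Subgroup.range_subtype] at this
  have hlam : lam (bk M H.subtype c) r = 1 := by
    rw [hr, lam_Ph (Subgroup.subtype_injective H) hc hξ hv]
    have h2 : rd M (omg (ξ : H → ℂ) b) = rd M 1 :=
      (rd_eq_iff (AR_val hP hv ξ) LocR.memR_one).2 h1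
    rw [← rd_one (M := M)]
    exact h2
  have hspec := lam_spec (h_blk hc) hrz
  rw [hlam, one_smul] at hspec
  -- Br_Q r = Br_Q (JB B)
  have hBr : Br Q r = Br Q (JB M B) := by
    apply ext'
    intro g
    by_cases hg : g ∈ Subgroup.centralizer (Q : Set G)
    · rw [br_coeff_of _ hg, br_coeff_of _ hg, hr, ← el_eq_Ph hbcl]
      have h2 := el_coeff (M := M) (Subgroup.subtype_injective H) b ⟨g, hCH hg⟩
      have h3 : H.subtype ⟨g, hCH hg⟩ = g := rfl
      rw [h3] at h2
      rw [h2]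
      exact (bk_coeff (M := M) (ι := MonoidHom.id G) id_inj B g).symm
    · rw [br_coeff_not _ hg, br_coeff_not _ hg]
  have hfxr : Fx Q (r - 1) := fx_mono hQH (zh_sub hrz zh_one).2
  have hfxc : Fx Q (bk M H.subtype c) := fx_mono hQH (h_blk hc).zh.2
  have hnil : IsNilpotent (Br Q ((r - 1) * bk M H.subtype c)) := by
    obtain ⟨n, hn⟩ := hspec
    refine ⟨n, ?_⟩
    rw [← (br_pow_of hQp (fx_mul hfxr hfxc) n).1, hn, br_zero]
  rw [br_mul hQp hfxr hfxc, br_sub, br_one, hBr] at hnil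
  -- prim
  have hzB : ZH (CH ⊤ Q) (Br Q (JB M B)) := by
    have : ZH (CH ⊤ ⊥) (JB M B) := by rw [CH_bot]; exact (g_blk hB).zh
    exact br_zh bot_le this
  have hidB : Br Q (JB M B) * Br Q (JB M B) = Br Q (JB M B) :=
    br_idem le_top hQp (g_blk hB).zh (g_blk hB).idem
  rcases hbp.blk.prim _ hzB hidB with h2 | h2
  · exact h2
  · exfalso
    have hzc : ZH (CH ⊤ Q) (Br Q (bk M H.subtype c)) := by
      have h3 : CH H Q = CH ⊤ Q := by
        show H ⊓ Subgroup.centralizer (Q : Set G) = ⊤ ⊓ Subgroup.centralizer (Q : Set G)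
        rw [inf_eq_right.2 hCH, top_inf_eq]
      rw [← h3]
      have : ZH (CH H ⊥) (bk M H.subtype c) := by rw [CH_bot]; exact (h_blk hc).zh
      exact br_zh bot_le this
    have hzt : ZH (CH ⊤ Q) ((Br Q (JB M B) - 1) * Br Q (bk M H.subtype c)) :=
      zh_mul (zh_sub hzB zh_one) hzc
    have h3 : IsNilpotent ((Br Q (JB M B) - 1) * Br Q (bk M H.subtype c) * b₀) :=
      (zh_commute hzt hbp.blk.zh).isNilpotent_mul_right hnil
    have h4 : (Br Q (JB M B) - 1) * Br Q (bk M H.subtype c) * b₀ = -b₀ := by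
      rw [mul_assoc, hof.2, sub_mul, h2, one_mul, zero_sub]
    rw [h4] at h3
    exact hbp.blk.not_nilpotent (by simpa using h3.neg)

end Chars

end CfsgLib.BrK
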