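import Mathlib
import Cfsg.Agent.EqBase
import Cfsg.Agent.LibBrK2

/-!
# Kernels of blocks and Brauer pairs, III (helper18)
-/

set_option autoImplicit false
set_option linter.unusedSectionVars false
set_option linter.style.haveILetI false
set_option linter.unusedSimpArgs false
set_option linter.unusedVariables false

universe u

namespace CfsgLib.BrK

open Cfsg CfsgLib.LocR CfsgLib.BlockCore CfsgLib.BlockIdem CfsgLib.BlockR CfsgLib.BrP
open CfsgLib.CharInt CfsgLib.BGPi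

variable {M : Ideal AlgInt} {p : ℕ} [hp : Fact p.Prime] {π : Set ℕ}
variable {G : Type u} [Group G] [Fintype G]

theorem isMax_of (hM : IsPModular p M) : M.IsMaximal := hM.2.1

/-- all Brauer pairs of `B` have the kernel property -/
theorem kp_of_ker [hP : M.IsPrime] (hM : IsPModular p M) (hpπ : p ∈ π) {B : Set (IrrCharacter G)}
    (hB : IsPBlock M B) {D : Subgroup G} (hBD : IsDefectGroup p M B D)
    {B₁ : Set (IrrCharacter ↥(Subgroup.normalizer (D : Set G)))}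
    (hB₁ : IsInducedBlock M (Subgroup.normalizer (D : Set G)) B₁ B)
    (hker : ∀ n : ↥(Subgroup.normalizer (D : Set G)),
      n ∈ piCore {q | q ∉ π} ↥(Subgroup.normalizer (D : Set G)) → n ∈ blockKer B₁)
    {Q : Subgroup G} {f : MonoidAlgebra (kM M) G} (hf : Of p ⊤ (JB M B) Q f) : KP π Q f := by
  haveI := charP_kM hM
  have h1 := (ker_core_iff hM hpπ hB₁.1).1 hker
  rw [corr_eq hM hB hBD hB₁] at h1
  have hDef := (g_def hM hB).1 hBD
  obtain ⟨e, he⟩ := exists_of_br_ne (g_blk hB) le_top hDef.pg hDef.br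
  exact kp_all hpπ (g_blk hB) (isMx_of_isDef (g_blk hB) hDef he) (kp_of_norm hpπ he h1) hf

theorem s4734 (hM : IsPModular p M) (hpπ : p ∈ π) (B : Set (IrrCharacter G))
    (hB : IsPBlock M B) (D : Subgroup G) (hBD : IsDefectGroup p M B D)
    (B₁ : Set (IrrCharacter ↥(Subgroup.normalizer (D : Set G))))
    (hB₁ : IsInducedBlock M (Subgroup.normalizer (D : Set G)) B₁ B)
    (hker : ∀ n : ↥(Subgroup.normalizer (D : Set G)),
      n ∈ piCore {q | q ∉ π} ↥(Subgroup.normalizer (D : Set G)) → n ∈ blockKer B₁)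
    (G₀ : Subgroup G) (B₀ : Set (IrrCharacter ↥G₀)) (hB₀ : IsInducedBlock M G₀ B₀ B)
    (D₀ : Subgroup ↥G₀) (hD₀ : IsDefectGroup p M B₀ D₀)
    (hC : Subgroup.centralizer ((D₀.map G₀.subtype : Subgroup G) : Set G) ≤ G₀) :
    ∀ x : ↥G₀, x ∈ piCore {q | q ∉ π} ↥G₀ → x ∈ blockKer B₀ := by
  haveI hMx : M.IsMaximal := isMax_of hM
  haveI hP : M.IsPrime := hMx.isPrime
  haveI := charP_kM hM
  have hblk := h_blk (M := M) hB₀.1
  have hDef := (h_def hM hB₀.1).1 hD₀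
  obtain ⟨b₀, hb₀⟩ := exists_of_br_ne hblk hDef.le hDef.pg hDef.br
  have hof := ind_pair hM hC hB₀ hb₀
  have hkp : KP π (D₀.map G₀.subtype) b₀ := kp_of_ker hM hpπ hB hBD hB₁ hker hof
  rw [ker_core_iff hM hpπ hB₀.1]
  set Q : Subgroup G := D₀.map G₀.subtype with hQ
  set K := piCoreOf {q | q ∉ π} G₀ with hK
  have hKn : ¬ p ∣ Nat.card K := ndvd hp.out hpπ (isPi_piCoreOf _ _)
  have hCK : CH K Q ≤ Oc π Q := CH_le_Oc (hC.trans (le_nz_piCoreOf _ _)) (isPi_piCoreOf _ _)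
  have hCn : ¬ p ∣ Nat.card (CH K Q) := fun h' =>
    hKn (h'.trans (Subgroup.card_dvd_of_le inf_le_left))
  rcases hblk.prim _ (zh_av (piCoreOf_le _ _) (le_nz_piCoreOf _ _)) (av_idem (card_ne hKn))
    with h1 | h1
  · exact h1
  · exfalso
    apply hb₀.1.blk.ne
    have hQK : Q ≤ Subgroup.normalizer (K : Set G) := hDef.le.trans (le_nz_piCoreOf _ _)
    have h2 : Br Q (av (kM M) K) * Br Q (bk M G₀.subtype B₀) = 0 := by
      rw [← br_mul hDef.pg (fx_av hQK) (fx_mono hDef.le hblk.zh.2), h1, br_zero]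
    rw [br_av hDef.pg hQK] at h2
    have h3 : av (kM M) (Oc π Q) * b₀ = b₀ := hkp
    calc b₀ = (av (kM M) (CH K Q) * av (kM M) (Oc π Q)) * b₀ := by
          rw [av_mul hCK (card_ne hCn), h3]
      _ = av (kM M) (CH K Q) * (Br Q (bk M G₀.subtype B₀) * b₀) := by rw [mul_assoc, h3, hb₀.2]
      _ = 0 := by rw [← mul_assoc, h2, zero_mul]

theorem s4728 (hM : IsPModular p M) (hpπ : p ∈ π) (B : Set (IrrCharacter G))
    (hB : IsPBlock M B) (D : Subgroup G) (hBD : IsDefectGroup p M B D)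
    (B₁ : Set (IrrCharacter ↥(Subgroup.normalizer (D : Set G))))
    (hB₁ : IsInducedBlock M (Subgroup.normalizer (D : Set G)) B₁ B)
    (D₀ : Subgroup G) (hD₀ : IsPGroup p D₀) (H₀ : Subgroup G)
    (hH₀ : H₀ = D₀ ⊔ Subgroup.centralizer (D₀ : Set G)) (b : Set (IrrCharacter ↥H₀))
    (hb : IsInducedBlock M H₀ b B)
    (hcompl : ∀ x : ↥(Subgroup.centralizer (D₀ : Set G)),
      (∀ q : ℕ, q.Prime → q ∣ orderOf x → q ∉ π) →
      x ∈ piCore {q | q ∉ π} ↥(Subgroup.centralizer (D₀ : Set G)))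
    (hkerb : ∀ x : ↥(Subgroup.centralizer (D₀ : Set G)),
      x ∈ piCore {q | q ∉ π} ↥(Subgroup.centralizer (D₀ : Set G)) →
      ∀ θ ∈ b, ∀ h : ↥H₀, (h : G) = (x : G) → (θ : ↥H₀ → ℂ) h = (θ : ↥H₀ → ℂ) 1) :
    ∀ n : ↥(Subgroup.normalizer (D : Set G)),
      n ∈ piCore {q | q ∉ π} ↥(Subgroup.normalizer (D : Set G)) → n ∈ blockKer B₁ := by
  haveI hMx : M.IsMaximal := isMax_of hM
  haveI hP : M.IsPrime := hMx.isPrime
  haveI := charP_kM hM
  have hmem : ∀ {x : G}, x ∈ Oc π D₀ ↔ ∃ y : ↥(Subgroup.centralizer (D₀ : Set G)),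
      y ∈ piCore {q | q ∉ π} ↥(Subgroup.centralizer (D₀ : Set G)) ∧ (y : G) = x := by
    intro x
    exact Iff.rfl
  have hDH : D₀ ≤ H₀ := by rw [hH₀]; exact le_sup_left
  have hCH : Subgroup.centralizer (D₀ : Set G) ≤ H₀ := by rw [hH₀]; exact le_sup_right
  have hHN : H₀ ≤ Subgroup.normalizer (D₀ : Set G) := by
    rw [hH₀]; exact sup_le Subgroup.le_normalizer (centralizer_le_normalizer D₀)
  have hblk := h_blk (M := M) hb.1
  have hLn : ¬ p ∣ Nat.card (Oc π D₀) := ndvd hp.out hpπ (isPi_piCoreOf _ _)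
  have h1 : av (kM M) (Oc π D₀) * bk M H₀.subtype b = bk M H₀.subtype b := by
    rw [← ker_iff hM ((Oc_le D₀).trans hCH) (hHN.trans (nOc_le D₀)) hLn hb.1]
    intro n hn θ hθ
    obtain ⟨y, hy, hyn⟩ := hmem.1 hn
    exact hkerb y hy θ hθ n hyn.symm
  have h2 := ind_br hM hD₀ hDH hHN hCH hb
  have hsupp := idem_supp (p := p) hDH hD₀ hHN hblk.zh hblk.idem
  have hzc : ZH (CH ⊤ D₀) (bk M H₀.subtype b) := by
    rw [CH_top]
    exact ⟨hsupp, fx_mono hCH hblk.zh.2⟩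
  obtain ⟨f, hf, hbf⟩ := exists_block_of_idem hzc hblk.idem hblk.ne
  have hof : Of p ⊤ (JB M B) D₀ f := by
    refine ⟨⟨le_top, hD₀, hf⟩, ?_⟩
    calc Br D₀ (JB M B) * f = (Br D₀ (JB M B) * bk M H₀.subtype b) * f := by
          rw [mul_assoc, hbf]
      _ = f := by rw [h2, hbf]
  have hkp : KP π D₀ f := by
    show av (kM M) (Oc π D₀) * f = f
    calc av (kM M) (Oc π D₀) * f = (av (kM M) (Oc π D₀) * bk M H₀.subtype b) * f := by
          rw [mul_assoc, hbf]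
      _ = f := by rw [h1, hbf]
  have hHl : Hl π D₀ := by
    intro x hx hq
    rw [hmem]
    refine ⟨⟨x, hx⟩, hcompl ⟨x, hx⟩ ?_, rfl⟩
    intro q hq1 hq2
    rw [← Subgroup.orderOf_coe] at hq2
    exact hq q hq1 hq2
  have hDef := (g_def hM hB).1 hBD
  obtain ⟨e, he⟩ := exists_of_br_ne (g_blk hB) le_top hDef.pg hDef.br
  have hkD : KP π D e := kp_all_up hpπ (g_blk hB) (isMx_of_isDef (g_blk hB) hDef he) hof hkp hHl
  rw [ker_core_iff hM hpπ hB₁.1, corr_eq hM hB hBD hB₁]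
  exact norm_of_kp hpπ (g_blk hB) hDef he hkD

open CfsgLib.Star CfsgLib.BlockOrth in
theorem s4727 (hM : IsPModular p M) (hpπ : p ∈ π) (B : Set (IrrCharacter G))
    (hB : IsPBlock M B) (D : Subgroup G) (hBD : IsDefectGroup p M B D)
    (B₁ : Set (IrrCharacter ↥(Subgroup.normalizer (D : Set G))))
    (hB₁ : IsInducedBlock M (Subgroup.normalizer (D : Set G)) B₁ B)
    (hker : ∀ n : ↥(Subgroup.normalizer (D : Set G)),
      n ∈ piCore {q | q ∉ π} ↥(Subgroup.normalizer (D : Set G)) → n ∈ blockKer B₁)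
    (y : G) (hy : ∃ k : ℕ, orderOf y = p ^ k)
    (hC : ∀ x : ↥(Subgroup.centralizer ({y} : Set G)),
      (∀ q : ℕ, q.Prime → q ∣ orderOf x → q ∉ π) →
      x ∈ piCore {q | q ∉ π} ↥(Subgroup.centralizer ({y} : Set G))) :
    ∀ χ ∈ B, ∀ x : G, x ∈ Subgroup.centralizer ({y} : Set G) →
      (∀ q : ℕ, q.Prime → q ∣ orderOf x → q ∉ π) →
      (χ : G → ℂ) (y * x) = (χ : G → ℂ) y := by
  classical
  haveI hMx : M.IsMaximal := isMax_of hM
  haveI hP : M.IsPrime := hMx.isPrime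
  haveI := charP_kM hM
  intro χ hχ x hx hq
  have hxr : ¬ p ∣ orderOf x := fun h => hq p hp.out h hpπ
  have hcomm : Commute y x := (mem_centralizer_singleton.1 hx).symm
  have hcl := irr_classFun χ.2
  have hpx : pp p (y * x) = y := pp_iff.2 ⟨hy, hcomm, hxr⟩
  have hp1 : pp p (y * 1) = y := pp_iff.2 ⟨hy, Commute.one_right y, by
    rw [orderOf_one]; exact hp.out.one_lt.ne' ∘ Nat.dvd_one.1⟩
  have hx1 := sum_dv (M := M) hcl hcomm
  have h11 := sum_dv (M := M) hcl (Commute.one_right y)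
  rw [mul_one] at h11
  rw [← hx1, ← h11]
  refine Finset.sum_congr rfl fun e he => ?_
  have heb : IsBlk (CH ⊤ (Subgroup.zpowers y)) e := (mem_bl.1 he)
  by_cases hne : Br (Subgroup.zpowers y) (JB M B) * e = e
  · haveI := Fintype.ofFinite (CH ⊤ (Subgroup.zpowers y))
    have hof : Of p ⊤ (JB M B) (Subgroup.zpowers y) e :=
      ⟨⟨le_top, isPGroup_zp hy, heb⟩, hne⟩
    have hkp : KP π (Subgroup.zpowers y) e := kp_of_ker hM hpπ hB hBD hB₁ hker hof
    have hxC : x ∈ CH ⊤ (Subgroup.zpowers y) := mem_C hcomm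
    have e1 := dv_eq (M := M) e hcl (⟨x, hxC⟩ : CH ⊤ (Subgroup.zpowers y))
    have e2 := dv_eq (M := M) e hcl (1 : CH ⊤ (Subgroup.zpowers y))
    rw [show dv M y e (χ : G → ℂ) x = _ from e1]
    rw [show dv M y e (χ : G → ℂ) 1 = _ from e2]
    obtain ⟨hb, hbk⟩ := bset_spec (M := M) heb
    have hker' : ∀ n : CH ⊤ (Subgroup.zpowers y), (n : G) ∈ Oc π (Subgroup.zpowers y) →
        n ∈ blockKer (bset M (CH ⊤ (Subgroup.zpowers y)) e) := by
      rw [ker_iff hM (by rw [CH_top]; exact Oc_le _) (by rw [CH_top]; exact le_nz_piCoreOf _ _)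
        (ndvd hp.out hpπ (isPi_piCoreOf _ _)) hb, hbk]
      exact hkp
    have hxO : x ∈ Oc π (Subgroup.zpowers y) := by
      show x ∈ piCoreOf {q | q ∉ π} (Subgroup.centralizer ((Subgroup.zpowers y : Subgroup G) : Set G))
      rw [CfsgLib.BlockOrth.centralizer_zpowers]
      refine ⟨⟨x, hx⟩, hC ⟨x, hx⟩ ?_, rfl⟩
      intro q hq1 hq2
      rw [← Subgroup.orderOf_coe] at hq2
      exact hq q hq1 hq2
    rw [blockPart_expand, blockPart_expand]
    refine Finset.sum_congr rfl fun θ _ => ?_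
    by_cases hθ : θ ∈ bset M (CH ⊤ (Subgroup.zpowers y)) e
    · have h5 := hker' ⟨x, hxC⟩ hxO θ hθ
      rw [h5]
    · rw [ind_not hθ, zero_mul, zero_mul]
  · rw [dv_zero hM hB hχ hpx heb hne, dv_zero hM hB hχ hp1 heb hne]

end CfsgLib.BrK
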