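import Mathlib
import Cfsg.Agent.EqBase
import Cfsg.Agent.LibBrK3

/-!
# Kernels of blocks and Brauer pairs, IV: block induction from subgroups containing the centralizer
of the defect group (helper18)
-/

set_option autoImplicit false
set_option linter.unusedSectionVars false
set_option linter.style.haveILetI false
set_option linter.unusedSimpArgs false
set_option linter.unusedVariables false

universe u

namespace CfsgLib.BrK

open Cfsg CfsgLib.LocR CfsgLib.BlockCore CfsgLib.BlockIdem CfsgLib.BlockR CfsgLib.BrP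
open CfsgLib.CharInt CfsgLib.BGPi

variable {M : Ideal AlgInt} {p : ℕ} [hp : Fact p.Prime]
variable {G : Type u} [Group G] [Fintype G]

/-- induction from `H` from the induction of a local block -/
theorem ind_of_local [hP : M.IsPrime] [hMx : M.IsMaximal] (hM : IsPModular p M) {H K Q : Subgroup G}
    (hQp : IsPGroup p Q) (hQK : Q ≤ K) (hKH : K ≤ H)
    (hKN : K ≤ Subgroup.normalizer (Q : Set G)) (hCK : Subgroup.centralizer (Q : Set G) ≤ K)
    {b : Set (IrrCharacter H)} (hb : IsPBlock M b) {B : Set (IrrCharacter G)} (hB : IsPBlock M B)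
    {e : MonoidAlgebra (kM M) G} (he : IsBlk K e) (hbe : Br Q (bk M H.subtype b) * e = e)
    (hBe : Br Q (JB M B) * e = e) : IsInducedBlock M H b B := by
  classical
  haveI := charP_kM hM
  haveI := Fintype.ofFinite H
  refine ⟨hb, hB, fun ξ hξ χ hχ g => ?_⟩
  rw [CfsgLib.BlockInd.inducedCentralChar_eq]
  have hcl : IsClassFunction G (cInd g) := CfsgLib.CharInt.isClassFunction_cInd g
  let a : H → ℂ := fun h => cInd g (h : G)
  have hacl : IsClassFunction H a := fun x y => hcl _ _
  have hv : AR M (fun χ : IrrCharacter H => omg (χ : H → ℂ) a) := by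
    intro x
    rw [fou_omg hacl]
    exact CfsgLib.BlockIdem.cInd_ring hP g _
  set r : MonoidAlgebra (kM M) G := Ph M H.subtype (fun χ : IrrCharacter H => omg (χ : H → ℂ) a)
    with hr
  have hrz : ZH H r := by
    have := zh_Ph (M := M) (Subgroup.subtype_injective H)
      (fun χ : IrrCharacter H => omg (χ : H → ℂ) a)
    rwa [Subgroup.range_subtype] at this
  set w : IrrCharacter G → ℂ := fun χ => centralChar (χ : G → ℂ) g with hw
  have hwR : AR M w := AR_cent hP g
  have hwel : el M (MonoidHom.id G) (cInd g) = Ph M (MonoidHom.id G) w := by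
    rw [el_eq_Ph hcl]
    congr 1
    funext χ
    exact (centralChar_eq_omg _ _).symm
  have hwz : ZH ⊤ (Ph M (MonoidHom.id G) w) := by
    have := zh_Ph (M := M) (ι := MonoidHom.id G) id_inj w
    rwa [range_id] at this
  have hBr : Br Q r = Br Q (Ph M (MonoidHom.id G) w) := by
    rw [← hwel]
    apply ext'
    intro x
    by_cases hx : x ∈ Subgroup.centralizer (Q : Set G)
    · rw [br_coeff_of _ hx, br_coeff_of _ hx, hr, ← el_eq_Ph hacl]
      have h2 := el_coeff (M := M) (Subgroup.subtype_injective H) a ⟨x, hKH (hCK hx)⟩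
      have h3 : H.subtype ⟨x, hKH (hCK hx)⟩ = x := rfl
      rw [h3] at h2
      rw [h2]
      exact (el_coeff (M := M) (ι := MonoidHom.id G) id_inj (cInd g) x).symm
    · rw [br_coeff_not _ hx, br_coeff_not _ hx]
  have h1 : lam (bk M H.subtype b) r = rd M (omg (ξ : H → ℂ) a) :=
    lam_Ph (Subgroup.subtype_injective H) hb hξ hv
  have h2 : lam (JB M B) (Ph M (MonoidHom.id G) w) = rd M (w χ) := lam_Ph id_inj hB hχ hwR
  have hZ : ∀ {L : Subgroup G}, K ≤ L → ∀ z : MonoidAlgebra (kM M) G, ZH L z → ZH K (Br Q z) := by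
    intro L hL z hz
    exact ⟨fun x hx => supp_br_self Q z x fun hx' => hx (hCK hx'), fx_br hKN (fx_mono hL hz.2)⟩
  have h3 : lam e (Br Q r) = lam (bk M H.subtype b) r :=
    lam_br hQp (hQK.trans hKH) hQK (h_blk hb) he (hZ hKH) hbe hrz
  have h4 : lam e (Br Q (Ph M (MonoidHom.id G) w)) = lam (JB M B) (Ph M (MonoidHom.id G) w) :=
    lam_br hQp le_top hQK (g_blk hB) he (hZ le_top) hBe hwz
  rw [hBr, h4, h2, h1] at h3
  exact (rd_eq_iff (AR_val hP hv ξ) (AR_val hP hwR χ)).1 h3.symm

theorem s4726 (hM : IsPModular p M) (H : Subgroup G) (b : Set (IrrCharacter ↥H))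
    (hb : IsPBlock M b) (D₀ : Subgroup ↥H) (hD₀ : IsDefectGroup p M b D₀)
    (hC : Subgroup.centralizer ((D₀.map H.subtype : Subgroup G) : Set G) ≤ H) :
    InducedBlockDefined M H b ∧ ∀ B : Set (IrrCharacter G), IsInducedBlock M H b B →
      (∃ D : Subgroup G, IsDefectGroup p M B D ∧
        (Subgroup.center ↥D).map D.subtype ≤ ((Subgroup.center ↥D₀).map D₀.subtype).map H.subtype ∧
        ((Subgroup.center ↥D₀).map D₀.subtype).map H.subtype ≤ D₀.map H.subtype ∧
        D₀.map H.subtype ≤ D) ∧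
      (∀ D : Subgroup G, IsDefectGroup p M B D → IsMulCommutative ↥D →
        IsDefectGroup p M B (D₀.map H.subtype)) := by
  classical
  haveI hMx : M.IsMaximal := isMax_of hM
  haveI hP : M.IsPrime := hMx.isPrime
  haveI := charP_kM hM
  have hblk := h_blk (M := M) hb
  have hDef := (h_def hM hb).1 hD₀
  set Q : Subgroup G := D₀.map H.subtype with hQ
  obtain ⟨b₀, hb₀⟩ := exists_of_br_ne hblk hDef.le hDef.pg hDef.br
  have hmx₀ := isMx_of_isDef hblk hDef hb₀
  have hCHQ : CH ⊤ Q ≤ H := by rw [CH_top]; exact hC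
  refine ⟨?_, fun B hB => ?_⟩
  · obtain ⟨he, _⟩ := corr_blk hblk hDef
    obtain ⟨c, hc, hce⟩ := h_surj he
    have hQN : Q ≤ NH H Q := le_inf hDef.le Subgroup.le_normalizer
    have hCN : Subgroup.centralizer (Q : Set G) ≤ NH H Q :=
      le_inf hC (centralizer_le_normalizer Q)
    obtain ⟨B, hB, hBc⟩ := exists_ind (M := M) hM hDef.pg hQN inf_le_right hCN hc
    refine ⟨B, ind_of_local hM hDef.pg hQN inf_le_left inf_le_right hCN hb hB.2.1 (h_blk hc) ?_ hBc⟩
    rw [hce]
    exact br_idem hDef.le hDef.pg hblk.zh hblk.idem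
  · have hof := ind_pair hM hC hB hb₀
    have hgB := g_blk (M := M) hB.2.1
    obtain ⟨D, e, hmx, hle⟩ := exists_isMx hgB hof
    have hDD := (g_def hM hB.2.1).2 (hmx.isDef hgB)
    have hQD : Q ≤ D := hle.le
    -- C_D(Q) ≤ Q
    have key : ∀ z ∈ D, z ∈ Subgroup.centralizer (Q : Set G) → z ∈ Q := by
      intro z hzD hzC
      have hRD : Q ⊔ Subgroup.zpowers z ≤ D :=
        sup_le hQD (Subgroup.zpowers_le.2 hzD)
      have hRH : Q ⊔ Subgroup.zpowers z ≤ H :=
        sup_le hDef.le (Subgroup.zpowers_le.2 (hC hzC))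
      obtain ⟨g, hg1, hg2⟩ := hle.interpolate hmx.1.1 (R := Q ⊔ Subgroup.zpowers z) le_sup_left hRD
      have hg1' : LEp p H (Q, b₀) (Q ⊔ Subgroup.zpowers z, g) := lep_sub' le_top hCHQ hg1 le_rfl hRH
      have hbp : BP p H (Q ⊔ Subgroup.zpowers z) g := hg1'.bp_right hb₀.1
      have h1 := hmx₀.2 _ g (hb₀.of_ge hblk hbp hg1') hg1'
      rw [← h1]
      exact (le_sup_right : Subgroup.zpowers z ≤ Q ⊔ Subgroup.zpowers z)
        (Subgroup.mem_zpowers z)
    refine ⟨⟨D, hDD, ?_, ?_, hQD⟩, ?_⟩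
    · rintro z ⟨z', hz', rfl⟩
      have hzc : ∀ d ∈ D, d * (z' : G) = (z' : G) * d := by
        intro d hd
        have := Subgroup.mem_center_iff.1 hz' ⟨d, hd⟩
        exact congrArg Subtype.val this
      have hzQ : (z' : G) ∈ Q := key z' z'.2 (by
        rw [Subgroup.mem_centralizer_iff]
        intro q hq
        exact hzc q (hQD hq))
      obtain ⟨y, hy, hyz⟩ := hzQ
      refine ⟨y, ⟨⟨y, hy⟩, ?_, rfl⟩, hyz⟩
      rw [SetLike.mem_coe, Subgroup.mem_center_iff]
      intro w
      apply Subtype.ext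
      apply Subtype.ext
      have hw : ((w : H) : G) ∈ Q := ⟨(w : H), w.2, rfl⟩
      have := hzc _ (hQD hw)
      have hyz' : ((y : H) : G) = (z' : G) := hyz
      show ((w : H) : G) * ((y : H) : G) = ((y : H) : G) * ((w : H) : G)
      rw [hyz']
      exact this
    · rintro z ⟨y, ⟨w, hw, rfl⟩, rfl⟩
      exact ⟨(w : H), w.2, rfl⟩
    · intro D' hD' hcomm
      have hDef' := (g_def hM hB.2.1).1 hD'
      obtain ⟨x, _, hx⟩ := hDef'.isConj (hmx.isDef hgB)
      have hab : ∀ u ∈ D, ∀ v ∈ D, u * v = v * u := by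
        intro u hu v hv
        rw [hx, mem_cS] at hu hv
        have h1 := congrArg Subtype.val (hcomm.is_comm.comm (⟨_, hu⟩ : D') ⟨_, hv⟩)
        have h2 : (x⁻¹ * u * x) * (x⁻¹ * v * x) = (x⁻¹ * v * x) * (x⁻¹ * u * x) := h1
        calc u * v = x * ((x⁻¹ * u * x) * (x⁻¹ * v * x)) * x⁻¹ := by group
          _ = x * ((x⁻¹ * v * x) * (x⁻¹ * u * x)) * x⁻¹ := by rw [h2]
          _ = v * u := by group
      have hDQ : D = Q := by
        apply le_antisymm _ hQD
        intro z hz
        refine key z hz ?_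
        rw [Subgroup.mem_centralizer_iff]
        intro q hq
        exact hab q (hQD hq) z hz
      rw [← hDQ]
      exact hDD

end CfsgLib.BrK
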