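import Cfsg.Agent.LibBrLeon

/-! Characters of small degree and Sylow subgroups with uniform centralizers (Brauer-Leonard), part 2 (seat helper20). -/

set_option autoImplicit false
set_option linter.all false

namespace CfsgLib.BrLeon

open Cfsg CfsgLib.CharBasic CfsgLib.CharIndA CfsgLib.Clifford CfsgLib.CharNorm CfsgLib.CharMore CfsgLib.Exc Subgroup
open scoped ComplexConjugate

universe u v

theorem inner_self_real {G : Type u} [Group G] [Fintype G] (f : G → ℂ) :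
    classInner f f = (((Nat.card G : ℝ)⁻¹ * ∑ g : G, ‖f g‖ ^ 2 : ℝ) : ℂ) := by
  unfold classInner
  push_cast
  congr 1
  refine Finset.sum_congr rfl fun g _ => ?_
  rw [Complex.mul_conj, Complex.normSq_eq_norm_sq]
  push_cast
  rfl

variable {G : Type u} [Group G] [Fintype G] {P C N : Subgroup G} {π : C →* P} [Fintype C]

namespace Cfg

theorem tw_ne (h : Cfg P C N π) {μ ν : P →* ℂˣ} {ψ : IrrCharacter C} (hh : h.tw μ ψ = h.tw ν ψ) : μ = ν := by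
  have h1 := congrArg h.lam hh
  rw [lam_tw, lam_tw] at h1
  exact mul_left_cancel h1

/-- differences of non-conjugate characters of the same type -/
theorem diff_two (h : Cfg P C N π) {ψ ψ' : IrrCharacter C} (hsame : ∀ c, π c = 1 → (ψ' : C → ℂ) c = (ψ : C → ℂ) c)
    (hl : h.lam ψ ≠ 1) (hl' : h.lam ψ' ≠ 1) (hno : ∀ x, h.ac x ψ ≠ ψ') :
    ∃ α β : G → ℂ, IsIrrCharacter G α ∧ IsIrrCharacter G β ∧ α ≠ β ∧ indFun C ((ψ : C → ℂ) - (ψ' : C → ℂ)) = α - β := by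
  haveI : Fintype N := Fintype.ofFinite N
  have hC : (Nat.card C : ℂ) ≠ 0 := by exact_mod_cast Nat.card_pos.ne'
  apply gen_norm_two_zero
  · exact gen_ind C (gen_sub (gen_of_irr ψ.2) (gen_of_irr ψ'.2))
  · have h1 := h.rel ψ ψ' ψ ψ' hsame hsame
    rw [h.kn_self hl, h.kn_self hl', h.kn_zero hno, h.kn_zero' hno] at h1
    have h2 : (Nat.card C : ℂ) * classInner (indFun C ((ψ : C → ℂ) - (ψ' : C → ℂ))) (indFun C ((ψ : C → ℂ) - (ψ' : C → ℂ))) = (Nat.card C : ℂ) * 2 := by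
      rw [h1]; push_cast; ring
    exact mul_left_cancel₀ hC h2
  · rw [ind_one, Pi.sub_apply, hsame 1 (map_one π), sub_self, mul_zero]

theorem diff_of (h : Cfg P C N π) {ψ ψ' : IrrCharacter C} (hsame : ∀ c, π c = 1 → (ψ' : C → ℂ) c = (ψ : C → ℂ) c)
    (hl : h.lam ψ ≠ 1) (hl' : h.lam ψ' ≠ 1) {φ : IrrCharacter G} (h1 : 1 ≤ A (ic φ) ψ) (h0 : A (ic φ) ψ' = 0) :
    A (ic φ) ψ = 1 ∧ ∃ β : IrrCharacter G, β ≠ φ ∧ indFun C ((ψ : C → ℂ) - (ψ' : C → ℂ)) = (φ : G → ℂ) - (β : G → ℂ) := by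
  classical
  have hno : ∀ x, h.ac x ψ ≠ ψ' := by
    intro x hx
    rw [← hx, h.A_ac] at h0
    omega
  obtain ⟨α, β, hα, hβ, hne, hab⟩ := h.diff_two hsame hl hl' hno
  have h2 := ind_coef (C := C) φ ψ ψ'
  rw [hab, ci_sub_l, irr_inner_ite hα φ.2, irr_inner_ite hβ φ.2, h0] at h2
  by_cases hαφ : α = (φ : G → ℂ)
  · have hβφ : β ≠ (φ : G → ℂ) := fun hh => hne (hαφ.trans hh.symm)
    rw [if_pos hαφ, if_neg hβφ] at h2
    refine ⟨?_, ⟨β, hβ⟩, fun hh => hβφ (congrArg Subtype.val hh), by rw [hab, hαφ]⟩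
    have h3 : ((1 : ℕ) : ℂ) = A (ic φ) ψ := by push_cast; linear_combination h2
    exact (by exact_mod_cast h3.symm)
  · exfalso
    rw [if_neg hαφ] at h2
    have h4 : (A (ic φ) ψ : ℂ) + (if β = (φ : G → ℂ) then 1 else 0) = 0 := by linear_combination -h2
    split_ifs at h4
    · have h5 : ((A (ic φ) ψ + 1 : ℕ) : ℂ) = 0 := by push_cast; exact h4
      have h6 := Nat.cast_eq_zero.mp h5
      omega
    · have h5 : ((A (ic φ) ψ : ℕ) : ℂ) = 0 := by linear_combination h4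
      have h6 := Nat.cast_eq_zero.mp h5
      omega

theorem cross (h : Cfg P C N π) {ψ₁ ψ₁' ψ₂ ψ₂' : IrrCharacter C} (hs₁ : ∀ c, π c = 1 → (ψ₁' : C → ℂ) c = (ψ₁ : C → ℂ) c)
    (hs₂ : ∀ c, π c = 1 → (ψ₂' : C → ℂ) c = (ψ₂ : C → ℂ) c)
    (hl₁ : h.lam ψ₁ ≠ 1) (hl₁' : h.lam ψ₁' ≠ 1) (hl₂ : h.lam ψ₂ ≠ 1) (hl₂' : h.lam ψ₂' ≠ 1) {φ : IrrCharacter G}
    (h1 : 1 ≤ A (ic φ) ψ₁) (h1' : A (ic φ) ψ₁' = 0) (h2 : 1 ≤ A (ic φ) ψ₂) (h2' : A (ic φ) ψ₂' = 0)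
    (hno : ∀ x, h.ac x ψ₂ ≠ ψ₁) : ∃ x, h.ac x ψ₂' = ψ₁' := by
  classical
  haveI : Fintype N := Fintype.ofFinite N
  by_contra hcon
  push Not at hcon
  obtain ⟨-, β₁, hβ₁, e₁⟩ := h.diff_of hs₁ hl₁ hl₁' h1 h1'
  obtain ⟨-, β₂, hβ₂, e₂⟩ := h.diff_of hs₂ hl₂ hl₂' h2 h2'
  have h3 := h.rel ψ₁ ψ₁' ψ₂ ψ₂' hs₁ hs₂
  rw [h.kn_zero hno, h.kn_zero hcon, h.kn_zero (ψ := ψ₂') (ψ' := ψ₁) (fun x hx => by
      rw [← hx, h.A_ac] at h1; omega), h.kn_zero (ψ := ψ₂) (ψ' := ψ₁') (fun x hx => by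
      rw [← hx, h.A_ac] at h1'; omega)] at h3
  rw [e₁, e₂, diff_inner φ.2 β₁.2 φ.2 β₂.2, if_pos rfl,
    if_neg (show ¬ (φ : G → ℂ) = (β₂ : G → ℂ) from fun hh => hβ₂ (Subtype.ext hh.symm)),
    if_neg (show ¬ (β₁ : G → ℂ) = (φ : G → ℂ) from fun hh => hβ₁ (Subtype.ext hh))] at h3
  have hC : (Nat.card C : ℂ) ≠ 0 := by exact_mod_cast Nat.card_pos.ne'
  split_ifs at h3
  · have h4 : (Nat.card C : ℂ) * 2 = 0 := by push_cast at h3; linear_combination h3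
    rcases mul_eq_zero.mp h4 with h5 | h5
    · exact hC h5
    · norm_num at h5
  · have h4 : (Nat.card C : ℂ) = 0 := by push_cast at h3; linear_combination h3
    exact hC h4

/-- orbits of characters with non-trivial central character -/
noncomputable def orb (h : Cfg P C N π) (ψ : IrrCharacter C) : Finset (IrrCharacter C) := by
  classical
  haveI : Fintype N := Fintype.ofFinite N
  exact Finset.univ.image (fun x : N => h.ac x ψ)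

theorem mem_orb (h : Cfg P C N π) {ψ ψ' : IrrCharacter C} : ψ' ∈ h.orb ψ ↔ ∃ x, h.ac x ψ = ψ' := by
  classical
  unfold orb
  simp

theorem card_orb (h : Cfg P C N π) {ψ : IrrCharacter C} (hl : h.lam ψ ≠ 1) {e : ℕ} (he : Nat.card N = e * Nat.card C) :
    (h.orb ψ).card = e := by
  classical
  haveI : Fintype N := Fintype.ofFinite N
  have h1 : (Finset.univ : Finset N).card = ∑ ψ' ∈ h.orb ψ, (Finset.univ.filter (fun x : N => h.ac x ψ = ψ')).card := by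
    apply Finset.card_eq_sum_card_fiberwise
    intro x _
    exact h.mem_orb.mpr ⟨x, rfl⟩
  have h2 : ∀ ψ' ∈ h.orb ψ, (Finset.univ.filter (fun x : N => h.ac x ψ = ψ')).card = Nat.card C := by
    intro ψ' hψ'
    obtain ⟨x, hx⟩ := h.mem_orb.mp hψ'
    rw [← h.kn_conj hl hx]
    unfold Kn
    rw [Nat.card_eq_fintype_card, Fintype.card_subtype]
  rw [Finset.sum_congr rfl h2, Finset.sum_const, smul_eq_mul, Finset.card_univ, ← Nat.card_eq_fintype_card, he] at h1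
  exact (Nat.eq_of_mul_eq_mul_right Nat.card_pos h1).symm

/-- missing central characters -/
def Z (h : Cfg P C N π) (φ : IrrCharacter G) : Set (P →* ℂˣ) := {μ | μ ≠ 1 ∧ ∀ ψ, h.lam ψ = μ → A (ic φ) ψ = 0}

theorem single (h : Cfg P C N π) {e : ℕ} (he : Nat.card N = e * Nat.card C) {φ : IrrCharacter G} (hZ : e < (h.Z φ).ncard)
    {ψ : IrrCharacter C} (hl : h.lam ψ ≠ 1) (h1 : 1 ≤ A (ic φ) ψ) :
    A (ic φ) ψ = 1 ∧ ∀ ψ', h.lam ψ' ≠ 1 → 1 ≤ A (ic φ) ψ' → ψ' ∈ h.orb ψ := by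
  classical
  have hne : (h.Z φ).Nonempty := by
    rw [← Set.ncard_pos]
    · omega
  have key : ∀ ψ : IrrCharacter C, ∀ μ ∈ h.Z φ, (∀ c, π c = 1 → ((h.tw ((h.lam ψ)⁻¹ * μ) ψ : IrrCharacter C) : C → ℂ) c = (ψ : C → ℂ) c) ∧
      h.lam (h.tw ((h.lam ψ)⁻¹ * μ) ψ) = μ ∧ A (ic φ) (h.tw ((h.lam ψ)⁻¹ * μ) ψ) = 0 := by
    intro ψ μ hμ
    have h2 : h.lam (h.tw ((h.lam ψ)⁻¹ * μ) ψ) = μ := by
      rw [lam_tw]
      exact MonoidHom.ext fun y => by simp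
    exact ⟨fun c hc => h.tw_ker _ _ c hc, h2, hμ.2 _ h2⟩
  obtain ⟨μ₀, hμ₀⟩ := hne
  obtain ⟨k1, k2, k3⟩ := key ψ μ₀ hμ₀
  refine ⟨(h.diff_of k1 hl (by rw [k2]; exact hμ₀.1) h1 k3).1, ?_⟩
  intro ψ' hl' h1'
  by_contra hno
  rw [mem_orb] at hno
  push Not at hno
  -- all missing characters are conjugate
  obtain ⟨m1, m2, m3⟩ := key ψ μ₀ hμ₀
  have hsub : h.Z φ ⊆ ((h.orb (h.tw ((h.lam ψ)⁻¹ * μ₀) ψ)).image h.lam : Finset (P →* ℂˣ)) := by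
    intro μ hμ
    obtain ⟨n1, n2, n3⟩ := key ψ' μ hμ
    obtain ⟨x, hx⟩ := h.cross n1 m1 hl' (by rw [n2]; exact hμ.1) hl (by rw [m2]; exact hμ₀.1) h1' n3 h1 m3 hno
    rw [Finset.coe_image]
    exact ⟨_, h.mem_orb.mpr ⟨x, hx⟩, n2⟩
  have h3 := Set.ncard_le_ncard hsub (Finset.finite_toSet _)
  rw [Set.ncard_coe_finset] at h3
  have h4 := Finset.card_image_le (s := h.orb (h.tw ((h.lam ψ)⁻¹ * μ₀) ψ)) (f := h.lam)
  rw [h.card_orb (by rw [m2]; exact hμ₀.1) he] at h4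
  omega

end Cfg
end CfsgLib.BrLeon
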