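import Cfsg.Agent.LibBrLeon2

/-! Characters of small degree and Sylow subgroups with uniform centralizers (Brauer-Leonard), part 3 (seat helper20). -/

set_option autoImplicit false
set_option linter.all false

namespace CfsgLib.BrLeon

open Cfsg CfsgLib.CharBasic CfsgLib.CharIndA CfsgLib.Clifford CfsgLib.CharNorm CfsgLib.CharMore CfsgLib.Exc Subgroup
open scoped ComplexConjugate

universe u v

theorem card_dual {P : Type u} [Group P] [Finite P] (hab : ∀ a b : P, a * b = b * a) : Nat.card (P →* ℂˣ) = Nat.card P := by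
  letI : CommGroup P := { (inferInstance : Group P) with mul_comm := hab }
  exact card_hom_of_comm

theorem finite_dual {P : Type u} [Group P] [Finite P] (hab : ∀ a b : P, a * b = b * a) : Finite (P →* ℂˣ) := by
  apply Nat.finite_of_card_ne_zero
  rw [card_dual hab]
  exact Nat.card_pos.ne'

open Classical in
theorem sum_dual {P : Type u} [Group P] [Finite P] [Fintype (P →* ℂˣ)] (hab : ∀ a b : P, a * b = b * a) (y : P) :
    ∑ μ : P →* ℂˣ, (μ y : ℂ) = if y = 1 then (Nat.card P : ℂ) else 0 := by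
  split_ifs with hy
  · subst hy
    simp only [map_one, Units.val_one, Finset.sum_const, Finset.card_univ, nsmul_eq_mul, mul_one]
    rw [← Nat.card_eq_fintype_card, card_dual hab]
  · obtain ⟨f, hf⟩ := exists_hom_ne_one hab hy
    have h1 : ∑ μ : P →* ℂˣ, (μ y : ℂ) = (f y : ℂ) * ∑ μ : P →* ℂˣ, (μ y : ℂ) := by
      rw [Finset.mul_sum]
      refine (Fintype.sum_equiv (Equiv.mulLeft f) _ _ fun μ => ?_).symm
      rw [Equiv.coe_mulLeft, MonoidHom.mul_apply, Units.val_mul]
    have h2 : (1 - (f y : ℂ)) * ∑ μ : P →* ℂˣ, (μ y : ℂ) = 0 := by linear_combination h1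
    rcases mul_eq_zero.mp h2 with h3 | h3
    · exfalso
      apply hf
      apply Units.ext
      rw [Units.val_one]
      linear_combination -h3
    · exact h3

variable {G : Type u} [Group G] [Fintype G] {P C N : Subgroup G} {π : C →* P} [Fintype C]

namespace Cfg

/-- sum of squares of the multiplicities in the restriction to `C` -/
noncomputable def T2 (φ : {f : G → ℂ // IsCharacter G f}) (C : Subgroup G) [Fintype C] : ℕ := ∑ ψ : IrrCharacter C, A φ ψ ^ 2

/-- norm of the restriction to the kernel of `π` -/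
noncomputable def W (h : Cfg P C N π) [Fintype (P →* ℂˣ)] (φ : {f : G → ℂ // IsCharacter G f}) : ℕ :=
  ∑ ψ : IrrCharacter C, A φ ψ * ∑ μ : P →* ℂˣ, A φ (h.tw μ ψ)

theorem T2_eq (φ : {f : G → ℂ // IsCharacter G f}) :
    classInner (fun c : C => φ.1 c) (fun c : C => φ.1 c) = T2 φ C := by
  conv_lhs => rw [restrict_eq φ]
  rw [ci_sum_l]
  unfold T2
  push_cast
  refine Finset.sum_congr rfl fun ψ _ => ?_
  rw [ci_smul_l, ← restrict_eq φ, ← ci_conj, A_spec, Complex.conj_natCast, pow_two]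

theorem W_eq (h : Cfg P C N π) [Fintype (P →* ℂˣ)] (φ : {f : G → ℂ // IsCharacter G f}) :
    ∑ μ : P →* ℂˣ, classInner (fun c : C => φ.1 c * (μ (π c) : ℂ)) (fun c : C => φ.1 c) = h.W φ := by
  have h1 : ∀ μ : P →* ℂˣ, classInner (fun c : C => φ.1 c * (μ (π c) : ℂ)) (fun c : C => φ.1 c) =
      ∑ ψ : IrrCharacter C, (A φ ψ : ℂ) * (A φ (h.tw μ ψ) : ℂ) := by
    intro μ
    have h2 : (fun c : C => φ.1 c * (μ (π c) : ℂ)) = ∑ ψ : IrrCharacter C, (A φ ψ : ℂ) • ((h.tw μ ψ : IrrCharacter C) : C → ℂ) := by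
      funext c
      have h3 := congrFun (restrict_eq (C := C) φ) c
      simp only [Finset.sum_apply, Pi.smul_apply, smul_eq_mul] at h3 ⊢
      rw [h3, Finset.sum_mul]
      refine Finset.sum_congr rfl fun ψ _ => ?_
      rw [h.tw_apply]; ring
    rw [h2, ci_sum_l]
    refine Finset.sum_congr rfl fun ψ _ => ?_
    rw [ci_smul_l, ← ci_conj, A_spec, Complex.conj_natCast]
  rw [Finset.sum_congr rfl fun μ _ => h1 μ, Finset.sum_comm]
  unfold W
  push_cast
  refine Finset.sum_congr rfl fun ψ _ => ?_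
  rw [Finset.mul_sum]

/-- the fundamental inequality -/
theorem ineq (h : Cfg P C N π) [Fintype (P →* ℂˣ)] {e : ℕ} (he : Nat.card N = e * Nat.card C) (φ : IrrCharacter G) :
    Nat.card P * T2 (ic φ) C ≤ Nat.card P * e + h.W (ic φ) := by
  classical
  haveI : Fintype N := Fintype.ofFinite N
  have hab : ∀ a b : P, a * b = b * a := h.comm
  have hC : (Nat.card C : ℂ) ≠ 0 := by exact_mod_cast Nat.card_pos.ne'
  set f : C → ℂ := fun c => if π c = 1 then 0 else (φ : G → ℂ) c with hf
  obtain ⟨s, hs0, hs⟩ : ∃ s : ℝ, 0 ≤ s ∧ classInner f f = s := ⟨_, by positivity, inner_self_real f⟩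
  have ha : classInner (indFun C f) (φ : G → ℂ) = s := by
    rw [frobenius C _ (irr_classFun φ.2), ← hs]
    unfold classInner
    congr 1
    refine Finset.sum_congr rfl fun c _ => ?_
    simp only [hf]
    split_ifs
    · rw [zero_mul, zero_mul]
    · rfl
  have hsg : ∀ x : N, (fun c => f (h.sg x⁻¹ c)) = f := by
    intro x
    funext c
    simp only [hf]
    have h1 : π (h.sg x⁻¹ c) = 1 ↔ π c = 1 := by
      have h2 := h.conjπ (x⁻¹ : N) (x⁻¹ : N).2 c (h.sg x⁻¹ c) rfl
      constructor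
      · intro h3
        rw [h3, Subgroup.coe_one] at h2
        apply Subtype.ext
        rw [Subgroup.coe_one]
        have h4 : (π c : G) = (((x⁻¹ : N) : G))⁻¹ * (((x⁻¹ : N) : G) * π c * (((x⁻¹ : N) : G))⁻¹) * ((x⁻¹ : N) : G) := by group
        rw [h4, ← h2]; group
      · intro h3
        rw [h3, Subgroup.coe_one] at h2
        apply Subtype.ext
        rw [h2, Subgroup.coe_one]; group
    have h5 : (φ : G → ℂ) (h.sg x⁻¹ c : G) = (φ : G → ℂ) c := by
      rw [sg_coe]; exact irr_classFun φ.2 _ _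
    simp only [h1, h5]
  have hb : classInner (indFun C f) (indFun C f) = (e : ℂ) * s := by
    have h1 := h.ind_inner (f := f) (k := f) (fun c hc => by simp [hf, hc]) (fun c hc => by simp [hf, hc])
    simp only [hsg, hs, Finset.sum_const, Finset.card_univ, nsmul_eq_mul] at h1
    rw [← Nat.card_eq_fintype_card, he] at h1
    apply mul_left_cancel₀ hC
    rw [h1]; push_cast; ring
  have hle : s ≤ e := by
    have h1 : classInner (indFun C f - (s : ℂ) • (φ : G → ℂ)) (indFun C f - (s : ℂ) • (φ : G → ℂ)) = ((e * s - s * s : ℝ) : ℂ) := by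
      rw [ci_sub_l, ci_sub_r, ci_sub_r, ci_smul_l, ci_smul_r, ci_smul_l, ci_smul_r, hb, ha, irr_inner_self φ.2,
        ← ci_conj, ha, Complex.conj_ofReal]
      push_cast; ring
    rw [inner_self_real] at h1
    have h2 : (0 : ℝ) ≤ e * s - s * s := by
      have h3 := Complex.ofReal_injective h1
      rw [← h3]; positivity
    rcases hs0.lt_or_eq with h3 | h3
    · nlinarith
    · rw [← h3]; positivity
  -- the value of `s`
  have hval : (Nat.card P : ℂ) * s = (Nat.card P : ℂ) * T2 (ic φ) C - h.W (ic φ) := by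
    rw [← hs, ← T2_eq, ← h.W_eq]
    unfold classInner
    rw [← Finset.mul_sum, Finset.sum_comm]
    have h1 : ∀ c : C, ∑ μ : P →* ℂˣ, (ic φ).1 c * (μ (π c) : ℂ) * conj ((ic φ).1 c) =
        (if π c = 1 then (Nat.card P : ℂ) else 0) * ((φ : G → ℂ) c * conj ((φ : G → ℂ) c)) := by
      intro c
      have h2 : ∑ μ : P →* ℂˣ, (ic φ).1 c * (μ (π c) : ℂ) * conj ((ic φ).1 c) =
          (∑ μ : P →* ℂˣ, (μ (π c) : ℂ)) * ((φ : G → ℂ) c * conj ((φ : G → ℂ) c)) := by
        rw [Finset.sum_mul]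
        refine Finset.sum_congr rfl fun μ _ => ?_
        show (φ : G → ℂ) c * (μ (π c) : ℂ) * conj ((φ : G → ℂ) c) = _
        ring
      rw [h2, sum_dual hab (π c)]
      by_cases hc : π c = 1
      · rw [if_pos hc, if_pos hc]
      · rw [if_neg hc, if_neg hc]
    rw [Finset.sum_congr rfl fun c _ => h1 c]
    have hsum : (Nat.card P : ℂ) * ∑ c : C, f c * conj (f c) = (Nat.card P : ℂ) * ∑ c : C, (ic φ).1 c * conj ((ic φ).1 c) -
        ∑ c : C, (if π c = 1 then (Nat.card P : ℂ) else 0) * ((φ : G → ℂ) c * conj ((φ : G → ℂ) c)) := by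
      rw [Finset.mul_sum, Finset.mul_sum, ← Finset.sum_sub_distrib]
      refine Finset.sum_congr rfl fun c _ => ?_
      simp only [hf]
      show _ = (Nat.card P : ℂ) * ((φ : G → ℂ) c * conj ((φ : G → ℂ) c)) - _
      split_ifs
      · rw [zero_mul, mul_zero, sub_self]
      · rw [zero_mul, sub_zero]
    linear_combination (Nat.card C : ℂ)⁻¹ * hsum
  have hfin : (Nat.card P : ℝ) * T2 (ic φ) C = Nat.card P * s + h.W (ic φ) := by
    have h1 : (((Nat.card P : ℝ) * T2 (ic φ) C : ℝ) : ℂ) = ((Nat.card P * s + h.W (ic φ) : ℝ) : ℂ) := by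
      push_cast
      linear_combination -hval
    exact Complex.ofReal_injective h1
  have h9 : (Nat.card P : ℝ) * T2 (ic φ) C ≤ Nat.card P * e + h.W (ic φ) := by
    rw [hfin]
    have h10 : (0 : ℝ) ≤ Nat.card P := by positivity
    nlinarith
  exact_mod_cast h9

end Cfg
end CfsgLib.BrLeon
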