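import Cfsg.Agent.LibBrLeon3

/-! Characters of small degree and Sylow subgroups with uniform centralizers (Brauer-Leonard), part 4 (seat helper20). -/

set_option autoImplicit false
set_option linter.all false

namespace CfsgLib.BrLeon

open Cfsg CfsgLib.CharBasic CfsgLib.CharIndA CfsgLib.Clifford CfsgLib.CharNorm CfsgLib.CharMore CfsgLib.Exc Subgroup
open scoped ComplexConjugate

universe u v

variable {G : Type u} [Group G] [Fintype G] {P C N : Subgroup G} {π : C →* P} [Fintype C]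

theorem hom_conj {A : Type*} [Group A] [Finite A] (f : A →* ℂˣ) (a : A) : conj (f a : ℂ) = ((f a)⁻¹ : ℂˣ) := by
  have h1 : (f a : ℂ) ^ Nat.card A = 1 := by
    rw [← Units.val_pow_eq_pow_val, ← map_pow, pow_card_eq_one', map_one, Units.val_one]
  have h2 : ‖(f a : ℂ)‖ = 1 := Complex.norm_eq_one_of_pow_eq_one h1 Nat.card_pos.ne'
  rw [Units.val_inv_eq_inv_val, Complex.inv_def, Complex.normSq_eq_norm_sq, h2]
  simp

namespace Cfg

theorem exists_deg (χ : {f : G → ℂ // IsCharacter G f}) {d : ℕ} (hd : χ.1 1 = d) :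
    ∃ n : IrrCharacter C → ℕ, (∀ ψ, 1 ≤ n ψ ∧ (ψ : C → ℂ) 1 = n ψ) ∧ d = ∑ ψ : IrrCharacter C, A χ ψ * n ψ := by
  choose n hn0 hn using fun ψ : IrrCharacter C => irr_one_nat ψ.2
  refine ⟨n, fun ψ => ⟨hn0 ψ, hn ψ⟩, ?_⟩
  have h1 := congrFun (restrict_eq (C := C) χ) 1
  simp only [Finset.sum_apply, Pi.smul_apply, smul_eq_mul, Subgroup.coe_one, hd, hn] at h1
  exact_mod_cast h1

theorem sum_le_deg (χ : {f : G → ℂ // IsCharacter G f}) {d : ℕ} (hd : χ.1 1 = d) : ∑ ψ : IrrCharacter C, A χ ψ ≤ d := by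
  obtain ⟨n, hn, h1⟩ := exists_deg (C := C) χ hd
  rw [h1]
  refine Finset.sum_le_sum fun ψ _ => ?_
  exact Nat.le_mul_of_pos_right _ (hn ψ).1

theorem W_le (h : Cfg P C N π) [Fintype (P →* ℂˣ)] (χ : {f : G → ℂ // IsCharacter G f}) : h.W χ ≤ (∑ ψ : IrrCharacter C, A χ ψ) ^ 2 := by
  classical
  unfold W
  rw [pow_two, Finset.sum_mul]
  refine Finset.sum_le_sum fun ψ _ => ?_
  apply Nat.mul_le_mul_left
  have hinj : Function.Injective (fun μ : P →* ℂˣ => h.tw μ ψ) := fun μ ν hh => h.tw_ne hh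
  have h1 : ∑ μ : P →* ℂˣ, A χ (h.tw μ ψ) = ∑ ψ' ∈ Finset.univ.image (fun μ : P →* ℂˣ => h.tw μ ψ), A χ ψ' := by
    rw [Finset.sum_image (fun a _ b _ hab => hinj hab)]
  rw [h1]
  exact Finset.sum_le_sum_of_subset (Finset.subset_univ _)

theorem e_pos {e : ℕ} (he : Nat.card N = e * Nat.card C) : 0 < e := by
  rcases Nat.eq_zero_or_pos e with h | h
  · rw [h, zero_mul] at he
    exact absurd he Nat.card_pos.ne'
  · exact h

theorem step1 (h : Cfg P C N π) [Fintype (P →* ℂˣ)] {e : ℕ} (he : Nat.card N = e * Nat.card C) {χ : IrrCharacter G} {x : ℕ}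
    (hx : (χ : G → ℂ) 1 = x) (hdeg : x ^ 2 + 1 < Nat.card P) {ψ₀ : IrrCharacter C} (hl : h.lam ψ₀ ≠ 1) (hA : 1 ≤ A (ic χ) ψ₀) :
    T2 (ic χ) C = e ∧ (∀ ψ ∈ h.orb ψ₀, A (ic χ) ψ = 1) ∧ (∀ ψ, ψ ∉ h.orb ψ₀ → A (ic χ) ψ = 0) := by
  classical
  have h1 := h.ineq he χ
  have h2 := h.W_le (ic χ)
  have h3 := sum_le_deg (C := C) (ic χ) (d := x) hx
  have h4 : h.W (ic χ) < Nat.card P := by
    have : (∑ ψ : IrrCharacter C, A (ic χ) ψ) ^ 2 ≤ x ^ 2 := Nat.pow_le_pow_left h3 2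
    omega
  have h5 : T2 (ic χ) C ≤ e := by
    by_contra hcon
    push Not at hcon
    have h6 : Nat.card P * (e + 1) ≤ Nat.card P * T2 (ic χ) C := Nat.mul_le_mul_left _ hcon
    rw [mul_add, mul_one] at h6
    omega
  have horb : ∀ ψ ∈ h.orb ψ₀, A (ic χ) ψ = A (ic χ) ψ₀ := by
    intro ψ hψ
    obtain ⟨y, rfl⟩ := h.mem_orb.mp hψ
    exact h.A_ac _ _ _
  have h6 : ∑ ψ ∈ h.orb ψ₀, A (ic χ) ψ ^ 2 = e * A (ic χ) ψ₀ ^ 2 := by
    rw [Finset.sum_congr rfl fun ψ hψ => by rw [horb ψ hψ], Finset.sum_const, h.card_orb hl he, smul_eq_mul]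
  have h7 : T2 (ic χ) C = ∑ ψ ∈ h.orb ψ₀, A (ic χ) ψ ^ 2 + ∑ ψ ∈ (h.orb ψ₀)ᶜ, A (ic χ) ψ ^ 2 := by
    unfold T2
    rw [← Finset.sum_add_sum_compl (h.orb ψ₀)]
  have hep := e_pos he
  have h8 : e ≤ e * A (ic χ) ψ₀ ^ 2 := Nat.le_mul_of_pos_right _ (pow_pos hA 2)
  have h9 : A (ic χ) ψ₀ ^ 2 = 1 := by
    have h10 : e * A (ic χ) ψ₀ ^ 2 = e * 1 := by omega
    exact Nat.eq_of_mul_eq_mul_left hep h10
  have h10 : A (ic χ) ψ₀ = 1 := by
    have := Nat.pow_eq_one.mp h9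
    omega
  have h11 : ∑ ψ ∈ (h.orb ψ₀)ᶜ, A (ic χ) ψ ^ 2 = 0 := by
    rw [h9] at h6
    omega
  refine ⟨by rw [h9] at h6; omega, fun ψ hψ => by rw [horb ψ hψ, h10], fun ψ hψ => ?_⟩
  have h12 := (Finset.sum_eq_zero_iff.mp h11) ψ (Finset.mem_compl.mpr hψ)
  exact pow_eq_zero_iff (two_ne_zero) |>.mp h12

/-- the square of the absolute value of a character -/
noncomputable def Th (χ : IrrCharacter G) : {f : G → ℂ // IsCharacter G f} :=
  ⟨(χ : G → ℂ) * (fun g => conj ((χ : G → ℂ) g)), isCharacter_mul (CfsgLib.CharBasic.irr_isCharacter χ.2)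
    (isCharacter_conj (CfsgLib.CharBasic.irr_isCharacter χ.2))⟩

theorem Th_apply (χ : IrrCharacter G) (g : G) : (Th χ).1 g = (χ : G → ℂ) g * conj ((χ : G → ℂ) g) := rfl

theorem Th_on (h : Cfg P C N π) (χ : IrrCharacter G) : A (Th χ) h.on = T2 (ic χ) C := by
  have h1 := A_spec (Th χ) h.on
  have h2 := T2_eq (C := C) (ic χ)
  have h3 : classInner (fun c : C => (Th χ).1 c) ((h.on : IrrCharacter C) : C → ℂ) =
      classInner (fun c : C => (ic χ).1 c) (fun c : C => (ic χ).1 c) := by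
    unfold classInner
    congr 1
    refine Finset.sum_congr rfl fun c _ => ?_
    show (χ : G → ℂ) c * conj ((χ : G → ℂ) c) * conj (1 : ℂ) = (χ : G → ℂ) c * conj ((χ : G → ℂ) c)
    rw [map_one, mul_one]
  rw [h1, h2] at h3
  exact_mod_cast h3

/-- multiplicities in a character of `G` -/
theorem A_expand (Θ : {f : G → ℂ // IsCharacter G f}) : ∃ m : IrrCharacter G → ℕ, (∀ φ : IrrCharacter G, classInner Θ.1 (φ : G → ℂ) = m φ) ∧
    (∀ ψ : IrrCharacter C, A Θ ψ = ∑ φ, m φ * A (ic φ) ψ) ∧ Θ.1 = ∑ φ : IrrCharacter G, (m φ : ℂ) • (φ : G → ℂ) := by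
  obtain ⟨m, hm, hexp, -⟩ := char_expand Θ.2
  refine ⟨m, hm, fun ψ => ?_, hexp⟩
  have h1 := A_spec Θ ψ
  have h2 : (fun c : C => Θ.1 c) = ∑ φ : IrrCharacter G, (m φ : ℂ) • (fun c : C => (ic φ).1 c) := by
    funext c
    have h3 := congrFun hexp (c : G)
    simp only [Finset.sum_apply, Pi.smul_apply, smul_eq_mul] at h3 ⊢
    exact h3
  rw [h2, ci_sum_l] at h1
  simp only [ci_smul_l, A_spec] at h1
  exact_mod_cast h1.symm

theorem triple_zero (h : Cfg P C N π) {α β ψ : IrrCharacter C} (hne : h.lam ψ ≠ h.lam α * (h.lam β)⁻¹) :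
    ∑ c : C, (α : C → ℂ) c * conj ((β : C → ℂ) c) * conj ((ψ : C → ℂ) c) = 0 := by
  have h1 : ∃ y, h.lam ψ y ≠ h.lam α y * (h.lam β y)⁻¹ := by
    by_contra hcon
    push Not at hcon
    exact hne (MonoidHom.ext fun y => by rw [hcon y, MonoidHom.mul_apply, MonoidHom.inv_apply])
  obtain ⟨y, hy⟩ := h1
  set S := ∑ c : C, (α : C → ℂ) c * conj ((β : C → ℂ) c) * conj ((ψ : C → ℂ) c) with hS
  have h2 : S = ((h.lam α y * (h.lam β y)⁻¹ * (h.lam ψ y)⁻¹ : ℂˣ) : ℂ) * S := by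
    conv_lhs => rw [hS]
    rw [hS, Finset.mul_sum]
    refine (Fintype.sum_equiv (Equiv.mulLeft (h.inc y)) _ _ fun c => ?_).symm
    simp only [Equiv.coe_mulLeft, h.lam_spec, map_mul, hom_conj, Units.val_mul]
    ring
  have h3 : (1 - ((h.lam α y * (h.lam β y)⁻¹ * (h.lam ψ y)⁻¹ : ℂˣ) : ℂ)) * S = 0 := by linear_combination h2
  rcases mul_eq_zero.mp h3 with h4 | h4
  · exfalso
    apply hy
    have h5 : (h.lam α y * (h.lam β y)⁻¹ * (h.lam ψ y)⁻¹ : ℂˣ) = 1 := by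
      apply Units.ext
      rw [Units.val_one]
      linear_combination -h4
    rw [mul_inv_eq_one] at h5
    exact h5.symm
  · exact h4

theorem Th_lam (h : Cfg P C N π) {χ : IrrCharacter G} {ψ : IrrCharacter C} (hA : A (Th χ) ψ ≠ 0) :
    ∃ α β, A (ic χ) α ≠ 0 ∧ A (ic χ) β ≠ 0 ∧ h.lam ψ = h.lam α * (h.lam β)⁻¹ := by
  classical
  by_contra hcon
  push Not at hcon
  apply hA
  have h1 := A_spec (Th χ) ψ
  have h2 : ∑ c : C, (Th χ).1 c * conj ((ψ : C → ℂ) c) = 0 := by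
    have h3 : ∀ c : C, (Th χ).1 c * conj ((ψ : C → ℂ) c) = ∑ α : IrrCharacter C, ∑ β : IrrCharacter C,
        (A (ic χ) α : ℂ) * (A (ic χ) β : ℂ) * ((α : C → ℂ) c * conj ((β : C → ℂ) c) * conj ((ψ : C → ℂ) c)) := by
      intro c
      have h4 := congrFun (restrict_eq (C := C) (ic χ)) c
      have h5 : (χ : G → ℂ) c = ∑ α : IrrCharacter C, (A (ic χ) α : ℂ) * (α : C → ℂ) c := by
        simp only [Finset.sum_apply, Pi.smul_apply, smul_eq_mul] at h4
        exact h4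
      rw [Th_apply, h5, map_sum, Finset.sum_mul_sum, Finset.sum_mul]
      refine Finset.sum_congr rfl fun α _ => ?_
      rw [Finset.sum_mul]
      refine Finset.sum_congr rfl fun β _ => ?_
      rw [map_mul, Complex.conj_natCast]; ring
    rw [Finset.sum_congr rfl fun c _ => h3 c, Finset.sum_comm]
    refine Finset.sum_eq_zero fun α _ => ?_
    rw [Finset.sum_comm]
    refine Finset.sum_eq_zero fun β _ => ?_
    rw [← Finset.mul_sum]
    by_cases hα : A (ic χ) α = 0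
    · rw [hα]; simp
    by_cases hβ : A (ic χ) β = 0
    · rw [hβ]; simp
    rw [h.triple_zero (hcon α β hα hβ), mul_zero]
  unfold classInner at h1
  rw [h2, mul_zero] at h1
  exact_mod_cast h1.symm

/-- constituents of `χ χ̄` miss many linear characters -/
theorem card_Z (h : Cfg P C N π) [Fintype (P →* ℂˣ)] {e : ℕ} (he : Nat.card N = e * Nat.card C) {χ : IrrCharacter G} {x : ℕ}
    (hx : (χ : G → ℂ) 1 = x) (hdeg : x ^ 2 + 1 < Nat.card P) {ψ₀ : IrrCharacter C} (hl : h.lam ψ₀ ≠ 1) (hA : 1 ≤ A (ic χ) ψ₀)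
    {φ : IrrCharacter G} (hφ : classInner (Th χ).1 (φ : G → ℂ) ≠ 0) : e < (h.Z φ).ncard := by
  classical
  obtain ⟨h1, h2, h3⟩ := h.step1 he hx hdeg hl hA
  have hex : e ≤ x := by
    have h4 := sum_le_deg (C := C) (ic χ) (d := x) hx
    have h5 : ∑ ψ ∈ h.orb ψ₀, A (ic χ) ψ ≤ ∑ ψ : IrrCharacter C, A (ic χ) ψ := Finset.sum_le_sum_of_subset (Finset.subset_univ _)
    rw [Finset.sum_congr rfl h2, Finset.sum_const, h.card_orb hl he, smul_eq_mul, mul_one] at h5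
    omega
  obtain ⟨m, hm, hmA, -⟩ := A_expand (C := C) (Th χ)
  have hmφ : 1 ≤ m φ := by
    rw [hm] at hφ
    exact Nat.one_le_iff_ne_zero.mpr (by exact_mod_cast hφ)
  set bad : Finset (P →* ℂˣ) := (h.orb ψ₀).offDiag.image (fun p => h.lam p.1 * (h.lam p.2)⁻¹) with hbad
  have hbadcard : bad.card ≤ e * e - e := by
    refine le_trans Finset.card_image_le ?_
    rw [Finset.offDiag_card, h.card_orb hl he]
  have hsub : ((Finset.univ.erase (1 : P →* ℂˣ)) \ bad : Finset (P →* ℂˣ)) ⊆ (h.Z φ).toFinset := by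
    intro μ hμ
    rw [Finset.mem_sdiff, Finset.mem_erase] at hμ
    rw [Set.mem_toFinset]
    refine ⟨hμ.1.1, fun ψ hψ => ?_⟩
    by_contra hne
    apply hμ.2
    have h4 : A (Th χ) ψ ≠ 0 := by
      rw [hmA ψ]
      intro h5
      have h6 := (Finset.sum_eq_zero_iff.mp h5) φ (Finset.mem_univ _)
      rcases Nat.mul_eq_zero.mp h6 with h7 | h7
      · omega
      · exact hne h7
    obtain ⟨α, β, hα, hβ, hαβ⟩ := h.Th_lam h4
    have hα' : α ∈ h.orb ψ₀ := by by_contra hh; exact hα (h3 α hh)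
    have hβ' : β ∈ h.orb ψ₀ := by by_contra hh; exact hβ (h3 β hh)
    rw [hbad, Finset.mem_image]
    refine ⟨(α, β), ?_, by rw [← hψ, hαβ]⟩
    rw [Finset.mem_offDiag]
    refine ⟨hα', hβ', ?_⟩
    intro hab
    apply hμ.1.1
    have hab' : α = β := hab
    rw [← hψ, hαβ, hab']
    exact MonoidHom.ext fun y => by simp
  have h4 := Finset.card_le_card hsub
  have h5 := Finset.le_card_sdiff bad (Finset.univ.erase (1 : P →* ℂˣ))
  rw [Finset.card_erase_of_mem (Finset.mem_univ _), Finset.card_univ, ← Nat.card_eq_fintype_card, card_dual h.comm] at h5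
  rw [Set.ncard_eq_toFinset_card']
  have h6 : e * e ≤ x * x := Nat.mul_le_mul hex hex
  rw [pow_two] at hdeg
  have h7 : e ≤ e * e := Nat.le_mul_self e
  omega

end Cfg
end CfsgLib.BrLeon
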