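import Cfsg.Agent.LibBrLeon4

/-! Characters of small degree and Sylow subgroups with uniform centralizers (Brauer-Leonard), part 5 (seat helper20). -/

set_option autoImplicit false
set_option linter.all false

namespace CfsgLib.BrLeon

open Cfsg CfsgLib.CharBasic CfsgLib.CharIndA CfsgLib.Clifford CfsgLib.CharNorm CfsgLib.CharMore CfsgLib.Exc Subgroup
open scoped ComplexConjugate

universe u v

variable {G : Type u} [Group G] [Fintype G] {P C N : Subgroup G} {π : C →* P} [Fintype C]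

namespace Cfg

/-- twisting is a bijection -/
noncomputable def twEquiv (h : Cfg P C N π) (μ : P →* ℂˣ) : IrrCharacter C ≃ IrrCharacter C where
  toFun ψ := h.tw μ ψ
  invFun ψ := h.tw μ⁻¹ ψ
  left_inv ψ := by
    show h.tw μ⁻¹ (h.tw μ ψ) = ψ
    rw [tw_tw]
    have h1 : μ * μ⁻¹ = 1 := MonoidHom.ext fun y => by simp
    rw [h1, tw_id]
  right_inv ψ := by
    show h.tw μ (h.tw μ⁻¹ ψ) = ψ
    rw [tw_tw]
    have h1 : μ⁻¹ * μ = 1 := MonoidHom.ext fun y => by simp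
    rw [h1, tw_id]

theorem swap (h : Cfg P C N π) [Fintype (P →* ℂˣ)] (F K : IrrCharacter C → ℕ) :
    ∑ ψ : IrrCharacter C, F ψ * ∑ μ : P →* ℂˣ, K (h.tw μ ψ) = ∑ ψ : IrrCharacter C, K ψ * ∑ μ : P →* ℂˣ, F (h.tw μ ψ) := by
  classical
  simp only [Finset.mul_sum]
  rw [Finset.sum_comm]
  conv_rhs => rw [Finset.sum_comm]
  refine Fintype.sum_equiv (Equiv.inv (P →* ℂˣ)) _ _ fun μ => ?_
  refine Fintype.sum_equiv (h.twEquiv μ) _ _ fun ψ => ?_
  have h1 : h.tw ((Equiv.inv (P →* ℂˣ)) μ) ((h.twEquiv μ) ψ) = ψ := (h.twEquiv μ).left_inv ψ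
  rw [h1]
  exact mul_comm _ _

/-- the representative with trivial central character -/
noncomputable def rep (h : Cfg P C N π) (ψ : IrrCharacter C) : IrrCharacter C := h.tw (h.lam ψ)⁻¹ ψ

theorem lam_rep (h : Cfg P C N π) (ψ : IrrCharacter C) : h.lam (h.rep ψ) = 1 := by
  unfold rep
  rw [lam_tw]
  exact MonoidHom.ext fun y => by simp

theorem tw_rep (h : Cfg P C N π) (ψ : IrrCharacter C) : h.tw (h.lam ψ) (h.rep ψ) = ψ := by
  unfold rep
  rw [tw_tw]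
  have h1 : (h.lam ψ)⁻¹ * h.lam ψ = 1 := MonoidHom.ext fun y => by simp
  rw [h1, tw_id]

theorem arith {e k m R M : ℕ} (hM : e * e + 1 ≤ M) (h1 : M * k ≤ e * e + 2 * R) (hR : R ≤ e * m) (hm : m * m ≤ k) (hk : 1 ≤ k) :
    k = 1 ∧ 1 ≤ R := by
  have h2 : (e * e + 1) * k ≤ e * e + 2 * R := le_trans (Nat.mul_le_mul_right _ hM) h1
  have hk1 : k = 1 := by
    by_contra hne
    have hk2 : 2 ≤ k := by omega
    have h3 : (e * e + 1) * k ≤ e * e + 2 * (e * m) := by omega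
    by_cases hm1 : m ≤ 1
    · have h4 : e * m ≤ e := by nlinarith
      have h5 : (e * e + 1) * 2 ≤ (e * e + 1) * k := Nat.mul_le_mul_left _ hk2
      have h6 : (e * e + 1) * 2 ≤ e * e + 2 * e := by omega
      have h7 : (((e * e + 1) * 2 : ℕ) : ℤ) ≤ ((e * e + 2 * e : ℕ) : ℤ) := by exact_mod_cast h6
      push_cast at h7
      nlinarith [sq_nonneg ((e : ℤ) - 1)]
    · push Not at hm1
      have h5 : (e * e + 1) * (m * m) ≤ e * e + 2 * (e * m) := le_trans (Nat.mul_le_mul_left _ hm) h3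
      have h6 : (((e * e + 1) * (m * m) : ℕ) : ℤ) ≤ ((e * e + 2 * (e * m) : ℕ) : ℤ) := by exact_mod_cast h5
      push_cast at h6
      have h7 : (2 : ℤ) ≤ m := by exact_mod_cast hm1
      have h8 : (4 : ℤ) ≤ (m : ℤ) * m := by nlinarith
      have h9 : (0 : ℤ) ≤ ((e : ℤ) - m) ^ 2 := sq_nonneg _
      have h10 : (e : ℤ) * e * 2 ≤ (e : ℤ) * e * ((m : ℤ) * m - 2) := mul_le_mul_of_nonneg_left (by linarith) (mul_self_nonneg _)
      have h11 : ((e : ℤ) - m) ^ 2 + (e : ℤ) * e * ((m : ℤ) * m - 2) ≤ 0 := by nlinarith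
      have h12 : (0 : ℤ) ≤ (e : ℤ) * e := mul_self_nonneg _
      have h13 : (e : ℤ) * e = 0 := by linarith
      have h14 : (e : ℤ) = 0 := mul_self_eq_zero.mp h13
      rw [h14] at h11
      nlinarith
  refine ⟨hk1, ?_⟩
  rw [hk1] at h2
  by_contra hR0
  omega

theorem step5 (h : Cfg P C N π) [Fintype (P →* ℂˣ)] {e : ℕ} (he : Nat.card N = e * Nat.card C) (hM : e * e + 2 ≤ Nat.card P)
    {φ : IrrCharacter G} (hZ : e < (h.Z φ).ncard) {ψ₁ : IrrCharacter C} (hl : h.lam ψ₁ ≠ 1) (hA : 1 ≤ A (ic φ) ψ₁)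
    (hon : 1 ≤ A (ic φ) h.on) :
    A (ic φ) h.on = 1 ∧ (∀ ψ, h.lam ψ = 1 → ψ ≠ h.on → A (ic φ) ψ = 0) ∧
      ∃ l : P →* ℂˣ, l ≠ 1 ∧ A (ic φ) (h.tw l h.on) = 1 ∧ ∀ ψ, h.lam ψ ≠ 1 → A (ic φ) ψ = if ψ ∈ h.orb (h.tw l h.on) then 1 else 0 := by
  classical
  obtain ⟨h1, h2⟩ := h.single he hZ hl hA
  have horb : ∀ ψ ∈ h.orb ψ₁, h.lam ψ ≠ 1 ∧ A (ic φ) ψ = 1 := by
    intro ψ hψ
    obtain ⟨y, rfl⟩ := h.mem_orb.mp hψ
    exact ⟨h.lam_ac_ne_one y hl, by rw [h.A_ac, h1]⟩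
  set s : IrrCharacter C → ℕ := fun ψ => if ψ ∈ h.orb ψ₁ then 1 else 0 with hs
  set g : IrrCharacter C → ℕ := fun ψ => if h.lam ψ = 1 then A (ic φ) ψ else 0 with hg
  have ha : ∀ ψ, A (ic φ) ψ = s ψ + g ψ := by
    intro ψ
    simp only [hs, hg]
    by_cases hψ : h.lam ψ = 1
    · rw [if_pos hψ, if_neg (fun hh => (horb ψ hh).1 hψ), zero_add]
    · rw [if_neg hψ, add_zero]
      split_ifs with hh
      · exact (horb ψ hh).2
      · by_contra hne
        exact hh (h2 ψ hψ (Nat.one_le_iff_ne_zero.mpr hne))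
  have hsg : ∀ ψ, s ψ * g ψ = 0 := by
    intro ψ
    simp only [hs, hg]
    by_cases hψ : h.lam ψ = 1
    · rw [if_neg (fun hh => (horb ψ hh).1 hψ), zero_mul]
    · rw [if_neg hψ, mul_zero]
  have hss : ∀ ψ, s ψ * s ψ = s ψ := by
    intro ψ
    simp only [hs]
    split_ifs <;> rfl
  have hsum_s : ∑ ψ, s ψ = e := by
    simp only [hs]
    rw [Finset.sum_ite_mem, Finset.univ_inter, Finset.sum_const, smul_eq_mul, mul_one, h.card_orb hl he]
  set k := ∑ ψ, g ψ * g ψ with hk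
  have hT2 : T2 (ic φ) C = e + k := by
    unfold T2
    rw [← hsum_s, hk, ← Finset.sum_add_distrib]
    refine Finset.sum_congr rfl fun ψ _ => ?_
    rw [ha ψ, pow_two, add_mul, mul_add, mul_add, hsg, mul_comm (g ψ) (s ψ), hsg, hss]
    ring
  -- sums of `g` over twists
  have hgtw : ∀ ψ, ∑ μ : P →* ℂˣ, g (h.tw μ ψ) = g (h.rep ψ) := by
    intro ψ
    rw [Finset.sum_eq_single ((h.lam ψ)⁻¹)]
    · rfl
    · intro μ _ hμ
      simp only [hg]
      rw [if_neg]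
      intro hh
      apply hμ
      rw [h.lam_tw] at hh
      refine MonoidHom.ext fun y => ?_
      rw [MonoidHom.inv_apply]
      apply eq_inv_of_mul_eq_one_right
      have h9 := DFunLike.congr_fun hh y
      rwa [MonoidHom.mul_apply, MonoidHom.one_apply] at h9
    · intro hh; exact absurd (Finset.mem_univ _) hh
  have hstw : ∀ ψ, ∑ μ : P →* ℂˣ, s (h.tw μ ψ) ≤ e := by
    intro ψ
    have hinj : Function.Injective (fun μ : P →* ℂˣ => h.tw μ ψ) := fun μ ν hh => h.tw_ne hh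
    have h3 : ∑ μ : P →* ℂˣ, s (h.tw μ ψ) = ∑ ψ' ∈ Finset.univ.image (fun μ : P →* ℂˣ => h.tw μ ψ), s ψ' := by
      rw [Finset.sum_image (fun a _ b _ hab => hinj hab)]
    rw [h3, ← hsum_s]
    exact Finset.sum_le_sum_of_subset (Finset.subset_univ _)
  set R := ∑ ψ, s ψ * g (h.rep ψ) with hR
  have hW : h.W (ic φ) ≤ e * e + 2 * R + k := by
    have h3 : h.W (ic φ) = ∑ ψ, s ψ * (∑ μ : P →* ℂˣ, s (h.tw μ ψ)) + ∑ ψ, s ψ * (∑ μ : P →* ℂˣ, g (h.tw μ ψ)) +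
        (∑ ψ, g ψ * (∑ μ : P →* ℂˣ, s (h.tw μ ψ)) + ∑ ψ, g ψ * (∑ μ : P →* ℂˣ, g (h.tw μ ψ))) := by
      unfold W
      rw [← Finset.sum_add_distrib, ← Finset.sum_add_distrib, ← Finset.sum_add_distrib]
      refine Finset.sum_congr rfl fun ψ _ => ?_
      simp only [ha, Finset.sum_add_distrib]
      ring
    have h4 : ∑ ψ, s ψ * (∑ μ : P →* ℂˣ, s (h.tw μ ψ)) ≤ e * e := by
      calc ∑ ψ, s ψ * (∑ μ : P →* ℂˣ, s (h.tw μ ψ)) ≤ ∑ ψ, s ψ * e := Finset.sum_le_sum fun ψ _ => Nat.mul_le_mul_left _ (hstw ψ)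
        _ = e * e := by rw [← Finset.sum_mul, hsum_s]
    have h5 : ∑ ψ, s ψ * (∑ μ : P →* ℂˣ, g (h.tw μ ψ)) = R := by
      rw [hR]
      exact Finset.sum_congr rfl fun ψ _ => by rw [hgtw]
    have h6 : ∑ ψ, g ψ * (∑ μ : P →* ℂˣ, s (h.tw μ ψ)) = R := by
      rw [h.swap g s, h5]
    have h7 : ∑ ψ, g ψ * (∑ μ : P →* ℂˣ, g (h.tw μ ψ)) = k := by
      rw [hk]
      refine Finset.sum_congr rfl fun ψ _ => ?_
      rw [hgtw]
      by_cases hψ : h.lam ψ = 1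
      · congr 1
        unfold rep
        rw [hψ]
        have h8 : (1 : P →* ℂˣ)⁻¹ = 1 := MonoidHom.ext fun y => by simp
        rw [h8, tw_id]
      · have h8 : g ψ = 0 := by simp only [hg]; rw [if_neg hψ]
        rw [h8, zero_mul, zero_mul]
    rw [h3, h5, h6, h7]
    omega
  have hineq := h.ineq he φ
  rw [hT2] at hineq
  have hmain : (Nat.card P - 1) * k ≤ e * e + 2 * R := by
    have h3 : Nat.card P * (e + k) ≤ Nat.card P * e + (e * e + 2 * R + k) := le_trans hineq (Nat.add_le_add_left hW _)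
    rw [mul_add] at h3
    have h4 : (Nat.card P - 1) * k = Nat.card P * k - k := by rw [Nat.sub_mul, one_mul]
    omega
  -- maximum of `g ∘ rep`
  obtain ⟨m, hm1, hm2⟩ : ∃ m : ℕ, (∀ ψ ∈ h.orb ψ₁, g (h.rep ψ) ≤ m) ∧ m * m ≤ k := by
    obtain ⟨ψm, hψm, hmax⟩ := Finset.exists_max_image (h.orb ψ₁) (fun ψ => g (h.rep ψ)) ⟨ψ₁, h.mem_orb.mpr ⟨1, h.ac_one _⟩⟩
    refine ⟨g (h.rep ψm), hmax, ?_⟩
    rw [hk]
    exact Finset.single_le_sum (f := fun ψ => g ψ * g ψ) (fun _ _ => Nat.zero_le _) (Finset.mem_univ (h.rep ψm))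
  have hRm : R ≤ e * m := by
    rw [hR, ← hsum_s, Finset.sum_mul]
    refine Finset.sum_le_sum fun ψ _ => ?_
    by_cases hψ : ψ ∈ h.orb ψ₁
    · exact Nat.mul_le_mul_left _ (hm1 ψ hψ)
    · have : s ψ = 0 := by simp only [hs]; rw [if_neg hψ]
      rw [this, zero_mul, zero_mul]
  have hgon : g h.on = A (ic φ) h.on := by simp only [hg]; rw [if_pos h.lam_on]
  have hk1 : 1 ≤ k := by
    have h3 : g h.on * g h.on ≤ k := by
      rw [hk]
      exact Finset.single_le_sum (f := fun ψ => g ψ * g ψ) (fun _ _ => Nat.zero_le _) (Finset.mem_univ h.on)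
    rw [hgon] at h3
    have : 1 ≤ A (ic φ) h.on * A (ic φ) h.on := Nat.mul_pos hon hon
    omega
  obtain ⟨hk', hR'⟩ := arith (M := Nat.card P - 1) (by omega) hmain hRm hm2 hk1
  have hon1 : A (ic φ) h.on = 1 ∧ ∀ ψ, ψ ≠ h.on → g ψ = 0 := by
    have h3 : k = g h.on * g h.on + ∑ ψ ∈ Finset.univ.erase h.on, g ψ * g ψ := by
      rw [hk]
      exact (Finset.add_sum_erase Finset.univ (fun ψ => g ψ * g ψ) (Finset.mem_univ h.on)).symm
    rw [hgon, hk'] at h3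
    have h4 : 1 ≤ A (ic φ) h.on * A (ic φ) h.on := Nat.mul_pos hon hon
    have h5 : A (ic φ) h.on * A (ic φ) h.on = 1 := by omega
    refine ⟨Nat.eq_one_of_mul_eq_one_right h5, fun ψ hψ => ?_⟩
    have h6 : ∑ ψ ∈ Finset.univ.erase h.on, g ψ * g ψ = 0 := by omega
    have h7 := (Finset.sum_eq_zero_iff.mp h6) ψ (Finset.mem_erase.mpr ⟨hψ, Finset.mem_univ _⟩)
    exact mul_self_eq_zero.mp h7
  refine ⟨hon1.1, fun ψ hψ hne => ?_, ?_⟩
  · have h3 := hon1.2 ψ hne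
    simp only [hg] at h3
    rwa [if_pos hψ] at h3
  · have h3 : ∃ ψ, s ψ * g (h.rep ψ) ≠ 0 := by
      by_contra hcon
      push Not at hcon
      rw [hR, Finset.sum_eq_zero (fun ψ _ => hcon ψ)] at hR'
      omega
    obtain ⟨ψ, hψ⟩ := h3
    have h4 : ψ ∈ h.orb ψ₁ := by
      by_contra hh
      apply hψ
      simp only [hs]
      rw [if_neg hh, zero_mul]
    have h5 : h.rep ψ = h.on := by
      by_contra hh
      apply hψ
      rw [hon1.2 _ hh, mul_zero]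
    have h6 : h.tw (h.lam ψ) h.on = ψ := by rw [← h5]; exact h.tw_rep ψ
    refine ⟨h.lam ψ, (horb ψ h4).1, by rw [h6]; exact (horb ψ h4).2, fun ψ' hψ' => ?_⟩
    rw [h6]
    obtain ⟨-, h7⟩ := h.single he hZ (horb ψ h4).1 (by rw [(horb ψ h4).2])
    split_ifs with hh
    · obtain ⟨y, rfl⟩ := h.mem_orb.mp hh
      rw [h.A_ac]; exact (horb ψ h4).2
    · by_contra hne
      exact hh (h7 ψ' hψ' (Nat.one_le_iff_ne_zero.mpr hne))

end Cfg
end CfsgLib.BrLeon
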