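import Cfsg.Agent.LibBrLeon5

/-! Characters of small degree and Sylow subgroups with uniform centralizers (Brauer-Leonard), part 6 (seat helper20). -/

set_option autoImplicit false
set_option linter.all false

namespace CfsgLib.BrLeon

open Cfsg CfsgLib.CharBasic CfsgLib.CharIndA CfsgLib.Clifford CfsgLib.CharNorm CfsgLib.CharMore CfsgLib.Exc Subgroup
open scoped ComplexConjugate

universe u v

variable {G : Type u} [Group G] [Fintype G] {P C N : Subgroup G} {π : C →* P} [Fintype C]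

/-- the principal character -/
noncomputable def og (G : Type u) [Group G] [Fintype G] : IrrCharacter G := ⟨fun _ => 1, isIrrCharacter_one⟩

namespace Cfg

theorem step6 (h : Cfg P C N π) [Fintype (P →* ℂˣ)] {e : ℕ} (he : Nat.card N = e * Nat.card C) (he2 : 2 ≤ e)
    (hM : e * e + 2 ≤ Nat.card P)
    {φ : IrrCharacter G} (hZ : e < (h.Z φ).ncard) {ψ₁ : IrrCharacter C} (hl : h.lam ψ₁ ≠ 1) (hA : 1 ≤ A (ic φ) ψ₁)
    (hon : 1 ≤ A (ic φ) h.on) : False := by
  classical
  haveI : Fintype N := Fintype.ofFinite N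
  have hC : (Nat.card C : ℂ) ≠ 0 := by exact_mod_cast Nat.card_pos.ne'
  obtain ⟨k1, k2, l, hl1, hl2, hl3⟩ := h.step5 he hM hZ hl hA hon
  set θ := h.tw l h.on with hθ
  have hlθ : h.lam θ = l := by
    rw [hθ, lam_tw, lam_on]
    exact MonoidHom.ext fun y => by simp
  have hlθ1 : h.lam θ ≠ 1 := by rw [hlθ]; exact hl1
  have hon_one : ((h.on : IrrCharacter C) : C → ℂ) 1 = 1 := rfl
  have htw_one : ∀ μ : P →* ℂˣ, ((h.tw μ h.on : IrrCharacter C) : C → ℂ) 1 = 1 := fun μ => by rw [tw_one]; rfl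
  have hlam_tw : ∀ μ : P →* ℂˣ, h.lam (h.tw μ h.on) = μ := by
    intro μ
    rw [lam_tw, lam_on]
    exact MonoidHom.ext fun y => by simp
  have htw_on : h.tw 1 h.on = h.on := h.tw_id _
  have hinj : Function.Injective (fun μ : P →* ℂˣ => h.tw μ h.on) := fun μ ν hh => h.tw_ne hh
  have hcard_orb := h.card_orb hlθ1 he
  -- degree of φ
  obtain ⟨d, hd0, hd⟩ := irr_one_nat φ.2
  have hde : d = e + 1 := by
    obtain ⟨n, hn, hsum⟩ := exists_deg (C := C) (ic φ) (d := d) hd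
    have h1 : ∀ ψ : IrrCharacter C, A (ic φ) ψ * n ψ = (if ψ ∈ h.orb θ then 1 else 0) + (if ψ = h.on then 1 else 0) := by
      intro ψ
      by_cases hψ : h.lam ψ = 1
      · have h2 : ψ ∉ h.orb θ := by
          intro hh
          obtain ⟨y, rfl⟩ := h.mem_orb.mp hh
          exact h.lam_ac_ne_one y hlθ1 hψ
        rw [if_neg h2, zero_add]
        split_ifs with h3
        · have h4 : n h.on = 1 := by
            have := (hn h.on).2
            rw [hon_one] at this
            exact_mod_cast this.symm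
          rw [h3, k1, h4]
        · rw [k2 ψ hψ h3, zero_mul]
      · rw [hl3 ψ hψ]
        have h2 : ψ ≠ h.on := fun hh => hψ (by rw [hh]; exact h.lam_on)
        rw [if_neg h2, add_zero]
        split_ifs with h3
        · obtain ⟨y, rfl⟩ := h.mem_orb.mp h3
          have h4 : ((h.ac y θ : IrrCharacter C) : C → ℂ) 1 = 1 := by
            rw [ac_apply, map_one]
            exact htw_one l
          have h5 : n (h.ac y θ) = 1 := by
            have := (hn (h.ac y θ)).2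
            rw [h4] at this
            exact_mod_cast this.symm
          rw [h5]
        · rw [zero_mul]
    rw [hsum, Finset.sum_congr rfl fun ψ _ => h1 ψ, Finset.sum_add_distrib, Finset.sum_ite_mem, Finset.univ_inter,
      Finset.sum_const, smul_eq_mul, mul_one, hcard_orb, Finset.sum_ite_eq' , if_pos (Finset.mem_univ _)]
  -- inner product with the difference `1 - θ`
  have hsameon : ∀ c, π c = 1 → (θ : C → ℂ) c = ((h.on : IrrCharacter C) : C → ℂ) c := fun c hc => h.tw_ker l h.on c hc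
  have hnoθ : ∀ x, h.ac x h.on ≠ θ := fun x hx => hlθ1 (by rw [← hx, h.ac_on]; exact h.lam_on)
  have key : ∀ μ : P →* ℂˣ, μ ≠ 1 → h.tw μ h.on ∉ h.orb θ → ∃ β : IrrCharacter G, A (ic β) h.on = 1 ∧ A (ic β) θ = 0 ∧
      A (ic β) (h.tw μ h.on) = 1 ∧ (β : G → ℂ) 1 = ((e + 1 : ℕ) : ℂ) := by
    intro μ hμ hμθ
    have hlμ : h.lam (h.tw μ h.on) ≠ 1 := by rw [hlam_tw]; exact hμ
    have hsame : ∀ c, π c = 1 → ((h.tw μ h.on : IrrCharacter C) : C → ℂ) c = (θ : C → ℂ) c := by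
      intro c hc
      rw [hsameon c hc]; exact h.tw_ker μ h.on c hc
    have hAμ : A (ic φ) (h.tw μ h.on) = 0 := by rw [hl3 _ hlμ, if_neg hμθ]
    obtain ⟨-, β, hβφ, hβ⟩ := h.diff_of hsame hlθ1 hlμ (by rw [hl2]) hAμ
    refine ⟨β, ?_⟩
    -- degree of β
    have hβ1 : (β : G → ℂ) 1 = ((e + 1 : ℕ) : ℂ) := by
      have h1 := congrFun hβ 1
      rw [ind_one, Pi.sub_apply, hsame 1 (map_one π), sub_self, mul_zero, Pi.sub_apply, hd, hde] at h1
      linear_combination h1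
    -- coefficient at β
    have hco := ind_coef (C := C) β θ (h.tw μ h.on)
    rw [hβ, ci_sub_l, irr_inner_ne φ.2 β.2 (fun hh => hβφ (Subtype.ext hh.symm)), irr_inner_self β.2] at hco
    have hco' : A (ic β) (h.tw μ h.on) = A (ic β) θ + 1 := by
      have : ((A (ic β) (h.tw μ h.on) : ℕ) : ℂ) = ((A (ic β) θ + 1 : ℕ) : ℂ) := by push_cast; linear_combination hco
      exact_mod_cast this
    -- relation with `1 - θ`
    have hnoμ : ∀ x, h.ac x h.on ≠ h.tw μ h.on := fun x hx => hlμ (by rw [← hx, h.ac_on]; exact h.lam_on)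
    have hnoθμ : ∀ x, h.ac x θ ≠ h.tw μ h.on := fun x hx => hμθ (h.mem_orb.mpr ⟨x, hx⟩)
    have hrel := h.rel θ (h.tw μ h.on) h.on θ hsame hsameon
    rw [h.kn_zero hnoθ, h.kn_self hlθ1, h.kn_zero hnoμ, h.kn_zero hnoθμ, hβ, ci_sub_l] at hrel
    have hc : ∀ γ : IrrCharacter G, classInner (γ : G → ℂ) (indFun C (((h.on : IrrCharacter C) : C → ℂ) - (θ : C → ℂ))) =
        (A (ic γ) h.on : ℂ) - A (ic γ) θ := by
      intro γ
      rw [← ci_conj, ind_coef, map_sub, Complex.conj_natCast, Complex.conj_natCast]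
    rw [hc, hc, k1, hl2] at hrel
    have hrel' : A (ic β) h.on = A (ic β) θ + 1 := by
      have h1 : (Nat.card C : ℂ) * ((A (ic β) h.on : ℂ) - (A (ic β) θ + 1)) = 0 := by
        push_cast at hrel; linear_combination -hrel
      rcases mul_eq_zero.mp h1 with h2 | h2
      · exact absurd h2 hC
      · have h3 : ((A (ic β) h.on : ℕ) : ℂ) = ((A (ic β) θ + 1 : ℕ) : ℂ) := by push_cast; linear_combination h2
        exact_mod_cast h3
    -- degree count
    have hz : A (ic β) θ = 0 := by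
      have h1 := sum_le_deg (C := C) (ic β) (d := e + 1) hβ1
      by_contra hne
      have h2 : ∑ ψ ∈ h.orb θ, A (ic β) ψ = e * A (ic β) θ := by
        rw [Finset.sum_congr rfl (g := fun _ => A (ic β) θ) (fun ψ hψ => by
          obtain ⟨y, rfl⟩ := h.mem_orb.mp hψ
          exact h.A_ac _ _ _), Finset.sum_const, hcard_orb, smul_eq_mul]
      have h3 : ∑ ψ ∈ h.orb (h.tw μ h.on), A (ic β) ψ = e * A (ic β) (h.tw μ h.on) := by
        rw [Finset.sum_congr rfl (g := fun _ => A (ic β) (h.tw μ h.on)) (fun ψ hψ => by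
          obtain ⟨y, rfl⟩ := h.mem_orb.mp hψ
          exact h.A_ac _ _ _), Finset.sum_const, h.card_orb hlμ he, smul_eq_mul]
      have hdisj : Disjoint (h.orb θ) (h.orb (h.tw μ h.on)) := by
        rw [Finset.disjoint_left]
        intro ψ hψ hψ'
        obtain ⟨y, hy⟩ := h.mem_orb.mp hψ
        obtain ⟨y', hy'⟩ := h.mem_orb.mp hψ'
        apply hμθ
        rw [h.mem_orb]
        refine ⟨y'⁻¹ * y, ?_⟩
        rw [h.ac_mul, hy, ← hy', ← h.ac_mul, inv_mul_cancel, h.ac_one]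
      have h4 : ∑ ψ ∈ h.orb θ ∪ h.orb (h.tw μ h.on), A (ic β) ψ ≤ ∑ ψ : IrrCharacter C, A (ic β) ψ :=
        Finset.sum_le_sum_of_subset (Finset.subset_univ _)
      rw [Finset.sum_union hdisj, h2, h3, hco'] at h4
      have h5 : e ≤ e * A (ic β) θ := Nat.le_mul_of_pos_right _ (Nat.pos_of_ne_zero hne)
      rw [mul_add, mul_one] at h4
      omega
    exact ⟨by rw [hrel', hz], hz, by rw [hco', hz], hβ1⟩
  -- the set of exceptional characters
  set 𝒜 : Finset (IrrCharacter G) := Finset.univ.filter (fun β => A (ic β) h.on = 1 ∧ A (ic β) θ = 0 ∧ (β : G → ℂ) 1 = ((e + 1 : ℕ) : ℂ)) with h𝒜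
  have hfew : ∀ β ∈ 𝒜, (Finset.univ.filter (fun μ : P →* ℂˣ => μ ≠ 1 ∧ 1 ≤ A (ic β) (h.tw μ h.on))).card ≤ e := by
    intro β hβ
    rw [h𝒜, Finset.mem_filter] at hβ
    obtain ⟨-, hβ1, -, hβ3⟩ := hβ
    have h1 := sum_le_deg (C := C) (ic β) (d := e + 1) hβ3
    have h2 : ∑ ψ ∈ (Finset.univ.filter (fun μ : P →* ℂˣ => μ ≠ 1 ∧ 1 ≤ A (ic β) (h.tw μ h.on))).image (fun μ => h.tw μ h.on), A (ic β) ψ
        + A (ic β) h.on ≤ ∑ ψ : IrrCharacter C, A (ic β) ψ := by
      rw [← Finset.sum_erase_add _ _ (Finset.mem_univ h.on)]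
      apply Nat.add_le_add_right
      apply Finset.sum_le_sum_of_subset
      intro ψ hψ
      rw [Finset.mem_image] at hψ
      obtain ⟨μ, hμ, rfl⟩ := hψ
      rw [Finset.mem_filter] at hμ
      rw [Finset.mem_erase]
      refine ⟨fun hh => hμ.2.1 ?_, Finset.mem_univ _⟩
      have h3 := congrArg h.lam hh
      rw [hlam_tw, lam_on] at h3
      exact h3
    rw [Finset.sum_image (fun a _ b _ hab => hinj hab), hβ1] at h2
    have h3 : (Finset.univ.filter (fun μ : P →* ℂˣ => μ ≠ 1 ∧ 1 ≤ A (ic β) (h.tw μ h.on))).card ≤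
        ∑ μ ∈ Finset.univ.filter (fun μ : P →* ℂˣ => μ ≠ 1 ∧ 1 ≤ A (ic β) (h.tw μ h.on)), A (ic β) (h.tw μ h.on) := by
      rw [Finset.card_eq_sum_ones]
      apply Finset.sum_le_sum
      intro μ hμ
      exact (Finset.mem_filter.mp hμ).2.2
    omega
  have hcover : (Finset.univ.filter (fun μ : P →* ℂˣ => μ ≠ 1 ∧ h.tw μ h.on ∉ h.orb θ)) ⊆
      𝒜.biUnion (fun β => Finset.univ.filter (fun μ : P →* ℂˣ => μ ≠ 1 ∧ 1 ≤ A (ic β) (h.tw μ h.on))) := by
    intro μ hμ
    rw [Finset.mem_filter] at hμ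
    obtain ⟨β, b1, b2, b3, b4⟩ := key μ hμ.2.1 hμ.2.2
    rw [Finset.mem_biUnion]
    exact ⟨β, by rw [h𝒜, Finset.mem_filter]; exact ⟨Finset.mem_univ _, b1, b2, b4⟩, by
      rw [Finset.mem_filter]; exact ⟨Finset.mem_univ _, hμ.2.1, by rw [b3]⟩⟩
  have hcount : Nat.card P - 1 - e ≤ 𝒜.card * e := by
    have h1 := Finset.card_le_card hcover
    have h2 : (𝒜.biUnion (fun β => Finset.univ.filter (fun μ : P →* ℂˣ => μ ≠ 1 ∧ 1 ≤ A (ic β) (h.tw μ h.on)))).card ≤ 𝒜.card * e :=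
      Finset.card_biUnion_le_card_mul _ _ _ hfew
    have h3 : ((Finset.univ.erase (1 : P →* ℂˣ)) \ (Finset.univ.filter (fun μ : P →* ℂˣ => h.tw μ h.on ∈ h.orb θ))) ⊆
        (Finset.univ.filter (fun μ : P →* ℂˣ => μ ≠ 1 ∧ h.tw μ h.on ∉ h.orb θ)) := by
      intro μ hμ
      rw [Finset.mem_sdiff, Finset.mem_erase, Finset.mem_filter] at hμ
      rw [Finset.mem_filter]
      exact ⟨Finset.mem_univ _, hμ.1.1, fun hh => hμ.2 ⟨Finset.mem_univ _, hh⟩⟩
    have h4 := Finset.card_le_card h3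
    have h5 := Finset.le_card_sdiff (Finset.univ.filter (fun μ : P →* ℂˣ => h.tw μ h.on ∈ h.orb θ)) (Finset.univ.erase (1 : P →* ℂˣ))
    rw [Finset.card_erase_of_mem (Finset.mem_univ _), Finset.card_univ, ← Nat.card_eq_fintype_card, card_dual h.comm] at h5
    have h6 : (Finset.univ.filter (fun μ : P →* ℂˣ => h.tw μ h.on ∈ h.orb θ)).card ≤ e := by
      rw [← hcard_orb]
      apply Finset.card_le_card_of_injOn (fun μ => h.tw μ h.on)
      · intro μ hμ
        exact (Finset.mem_filter.mp hμ).2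
      · intro a _ b _ hab
        exact hinj hab
    omega
  have h𝒜e : e ≤ 𝒜.card := by
    by_contra hcon
    push Not at hcon
    have h1 : 𝒜.card * e ≤ (e - 1) * e := Nat.mul_le_mul_right _ (by omega)
    have h2 : (e - 1) * e = e * e - e := by rw [Nat.sub_mul, one_mul]
    have h3 : e ≤ e * e := Nat.le_mul_self e
    omega
  -- the norm of the induced difference
  have hgen : IsGeneralizedCharacter G (indFun C (((h.on : IrrCharacter C) : C → ℂ) - (θ : C → ℂ))) :=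
    gen_ind C (gen_sub (gen_of_irr h.on.2) (gen_of_irr θ.2))
  obtain ⟨m, hm, hexp, hnorm⟩ := gen_expand hgen
  have hm' : ∀ β, m β = (A (ic β) h.on : ℤ) - A (ic β) θ := by
    intro β
    have h1 := hm β
    rw [ind_coef] at h1
    exact_mod_cast h1.symm
  have hnormval : classInner (indFun C (((h.on : IrrCharacter C) : C → ℂ) - (θ : C → ℂ)))
      (indFun C (((h.on : IrrCharacter C) : C → ℂ) - (θ : C → ℂ))) = (e : ℂ) + 1 := by
    have h1 := h.rel h.on θ h.on θ hsameon hsameon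
    rw [h.kn_on, h.kn_zero' (ψ := θ) (ψ' := h.on) hnoθ, h.kn_zero hnoθ, h.kn_self hlθ1, he] at h1
    apply mul_left_cancel₀ hC
    rw [h1]; push_cast; ring
  have hsumsq : ∑ β, m β ^ 2 = e + 1 := by
    rw [hnormval] at hnorm
    exact_mod_cast hnorm.symm
  have hog : m (og G) = 1 := by
    rw [hm']
    have h1 : A (ic (og G)) h.on = 1 := by
      have h2 := A_spec (ic (og G)) h.on
      have h3 : classInner (fun c : C => (ic (og G)).1 c) ((h.on : IrrCharacter C) : C → ℂ) = 1 := irr_inner_self isIrrCharacter_one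
      rw [h3] at h2
      exact_mod_cast h2.symm
    have h4 : A (ic (og G)) θ = 0 := by
      have h2 := A_spec (ic (og G)) θ
      have h3 : classInner (fun c : C => (ic (og G)).1 c) (θ : C → ℂ) = 0 :=
        irr_inner_ne isIrrCharacter_one θ.2 (fun hh => by
          have h5 : h.on = θ := Subtype.ext hh
          exact hnoθ 1 (by rw [h.ac_one]; exact h5))
      rw [h3] at h2
      exact_mod_cast h2.symm
    rw [h1, h4]; norm_num
  have hog𝒜 : og G ∉ 𝒜 := by
    rw [h𝒜, Finset.mem_filter]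
    rintro ⟨-, -, -, h1⟩
    have h2 : ((og G : IrrCharacter G) : G → ℂ) 1 = 1 := rfl
    rw [h2] at h1
    have h3 : (1 : ℕ) = e + 1 := by exact_mod_cast h1
    omega
  have hm𝒜 : ∀ β ∈ 𝒜, m β = 1 := by
    intro β hβ
    rw [h𝒜, Finset.mem_filter] at hβ
    rw [hm', hβ.2.1, hβ.2.2.1]; norm_num
  have hB : ∑ β ∈ insert (og G) 𝒜, m β ^ 2 = 1 + 𝒜.card := by
    rw [Finset.sum_insert hog𝒜, hog, Finset.sum_congr rfl fun β hβ => by rw [hm𝒜 β hβ], Finset.sum_const]
    simp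
  have hBc : ∑ β ∈ (insert (og G) 𝒜)ᶜ, m β ^ 2 = 0 := by
    have h1 := Finset.sum_add_sum_compl (insert (og G) 𝒜) (fun β => m β ^ 2)
    have h2 : (0 : ℤ) ≤ ∑ β ∈ (insert (og G) 𝒜)ᶜ, m β ^ 2 := Finset.sum_nonneg fun β _ => sq_nonneg _
    rw [hB, hsumsq] at h1
    have h3 : (e : ℤ) ≤ 𝒜.card := by exact_mod_cast h𝒜e
    linarith
  have hoff : ∀ β, β ∉ insert (og G) 𝒜 → m β = 0 := by
    intro β hβ
    have h1 := (Finset.sum_eq_zero_iff_of_nonneg (fun β _ => sq_nonneg (m β))).mp hBc β (Finset.mem_compl.mpr hβ)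
    exact pow_eq_zero_iff (two_ne_zero) |>.mp h1
  have hval := congrFun hexp 1
  rw [ind_one, Pi.sub_apply, hsameon 1 (map_one π), sub_self, mul_zero] at hval
  simp only [Finset.sum_apply, Pi.smul_apply, smul_eq_mul] at hval
  rw [← Finset.sum_subset (Finset.subset_univ (insert (og G) 𝒜)) (fun β _ hβ => by rw [hoff β hβ]; simp),
    Finset.sum_insert hog𝒜, hog] at hval
  have h1 : ∑ β ∈ 𝒜, (m β : ℂ) * (β : G → ℂ) 1 = ((𝒜.card * (e + 1) : ℕ) : ℂ) := by
    rw [Finset.sum_congr rfl (g := fun _ => ((e + 1 : ℕ) : ℂ)) (fun β hβ => by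
      rw [hm𝒜 β hβ]
      rw [h𝒜, Finset.mem_filter] at hβ
      rw [hβ.2.2.2]; push_cast; ring), Finset.sum_const, nsmul_eq_mul]
    push_cast; ring
  rw [h1] at hval
  have h2 : ((og G : IrrCharacter G) : G → ℂ) 1 = 1 := rfl
  rw [h2] at hval
  have h3 : ((1 + 𝒜.card * (e + 1) : ℕ) : ℂ) = ((0 : ℕ) : ℂ) := by push_cast at hval ⊢; linear_combination -hval
  have h4 : 1 + 𝒜.card * (e + 1) = 0 := by exact_mod_cast h3
  omega

/-- the main contradiction -/
theorem main (h : Cfg P C N π) {e : ℕ} (he : Nat.card N = e * Nat.card C)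
    (hirr : ∀ φ : IrrCharacter G, φ ≠ og G → ∃ ψ : IrrCharacter C, h.lam ψ ≠ 1 ∧ 1 ≤ A (ic φ) ψ)
    {χ : IrrCharacter G} (hχ : χ ≠ og G) {x : ℕ} (hx : (χ : G → ℂ) 1 = x) (hdeg : x ^ 2 + 1 < Nat.card P) : e = 1 := by
  classical
  haveI : Finite (P →* ℂˣ) := finite_dual h.comm
  haveI : Fintype (P →* ℂˣ) := Fintype.ofFinite _
  obtain ⟨ψ₀, hl, hA⟩ := hirr χ hχ
  have hep := e_pos he
  by_contra hne
  have he2 : 2 ≤ e := by omega
  obtain ⟨s1, s2, s3⟩ := h.step1 he hx hdeg hl hA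
  obtain ⟨m, hm, hmA, -⟩ := A_expand (C := C) (Th χ)
  have h1 : ∑ φ, m φ * A (ic φ) h.on = e := by rw [← hmA, Th_on, s1]
  have hmog : m (og G) = 1 := by
    have h2 := hm (og G)
    have h3 : classInner (Th χ).1 ((og G : IrrCharacter G) : G → ℂ) = 1 := by
      rw [← irr_inner_self χ.2]
      unfold classInner
      congr 1
      refine Finset.sum_congr rfl fun g _ => ?_
      show (χ : G → ℂ) g * conj ((χ : G → ℂ) g) * conj (1 : ℂ) = _
      rw [map_one, mul_one]
    rw [h3] at h2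
    exact_mod_cast h2.symm
  have hAog : A (ic (og G)) h.on = 1 := by
    have h2 := A_spec (ic (og G)) h.on
    have h3 : classInner (fun c : C => (ic (og G)).1 c) ((h.on : IrrCharacter C) : C → ℂ) = 1 := irr_inner_self isIrrCharacter_one
    rw [h3] at h2
    exact_mod_cast h2.symm
  rw [← Finset.add_sum_erase _ _ (Finset.mem_univ (og G)), hmog, hAog] at h1
  have h2 : ∃ φ ∈ Finset.univ.erase (og G), m φ * A (ic φ) h.on ≠ 0 := by
    by_contra hcon
    push Not at hcon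
    rw [Finset.sum_eq_zero hcon] at h1
    omega
  obtain ⟨φ, hφ, hφ0⟩ := h2
  rw [Finset.mem_erase] at hφ
  have h3 : m φ ≠ 0 := fun hh => hφ0 (by rw [hh, zero_mul])
  have h4 : A (ic φ) h.on ≠ 0 := fun hh => hφ0 (by rw [hh, mul_zero])
  obtain ⟨ψ₁, hl₁, hA₁⟩ := hirr φ hφ.1
  have hZ := h.card_Z he hx hdeg hl hA (φ := φ) (by rw [hm]; exact_mod_cast h3)
  have hex : e ≤ x := by
    have h4 := sum_le_deg (C := C) (ic χ) (d := x) hx
    have h5 : ∑ ψ ∈ h.orb ψ₀, A (ic χ) ψ ≤ ∑ ψ : IrrCharacter C, A (ic χ) ψ := Finset.sum_le_sum_of_subset (Finset.subset_univ _)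
    rw [Finset.sum_congr rfl s2, Finset.sum_const, h.card_orb hl he, smul_eq_mul, mul_one] at h5
    omega
  have hM : e * e + 2 ≤ Nat.card P := by
    have h6 : e * e ≤ x * x := Nat.mul_le_mul hex hex
    rw [pow_two] at hdeg
    omega
  exact h.step6 he he2 hM hZ hl₁ hA₁ (Nat.one_le_iff_ne_zero.mpr h4)

end Cfg
end CfsgLib.BrLeon
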