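import Cfsg.Agent.LibBrLeon6

/-! Characters of small degree and Sylow subgroups with uniform centralizers (Brauer-Leonard), part 7 (seat helper20). -/

set_option autoImplicit false
set_option linter.all false

namespace CfsgLib.BrLeon

open Cfsg CfsgLib.CharBasic CfsgLib.CharIndA CfsgLib.Clifford CfsgLib.CharNorm CfsgLib.CharMore CfsgLib.Exc Subgroup
open scoped ComplexConjugate Pointwise

universe u v

/-- retraction onto a central Hall subgroup -/
theorem exists_retraction {C : Type u} [Group C] [Finite C] (P : Subgroup C) (hP : ∀ y ∈ P, ∀ c, y * c = c * y)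
    (hcop : (Nat.card P).Coprime P.index) : ∃ π : C →* P, ∀ y : P, π y = y := by
  classical
  haveI : P.Normal := ⟨fun y hy c => by rw [← hP y hy c, mul_inv_cancel_right]; exact hy⟩
  obtain ⟨V, hV⟩ := exists_right_complement'_of_coprime hcop
  have hex : ∀ c : C, ∃ y : P, ∃ v : V, (y : C) * v = c := by
    intro c
    obtain ⟨⟨y, v⟩, h⟩ := hV.2 c
    exact ⟨y, v, h⟩
  have huniq : ∀ (y y' : P) (v v' : V), (y : C) * v = y' * v' → y = y' := by
    intro y y' v v' h
    exact congrArg Prod.fst (hV.1 (a₁ := (y, v)) (a₂ := (y', v')) h)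
  choose f g hfg using hex
  refine ⟨{ toFun := f, map_one' := ?_, map_mul' := ?_ }, ?_⟩
  · exact huniq _ _ (g 1) 1 (by rw [hfg]; simp)
  · intro a b
    apply huniq _ _ (g (a * b)) (g a * g b)
    rw [hfg]
    show a * b = (f a : C) * f b * (g a * g b)
    calc a * b = (f a * g a) * (f b * g b) := by rw [hfg, hfg]
      _ = (f a : C) * (f b * g a) * g b := by rw [hP (f b) (f b).2 (g a)]; group
      _ = _ := by group
  · intro y
    exact huniq (f (y : C)) y (g (y : C)) 1 ((hfg (y : C)).trans (by simp))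

variable {G : Type u} [Group G] [Fintype G] {p : ℕ}

theorem exists_cfg (hp : p.Prime) (P : Sylow p G)
    (hstar : ∀ x ∈ (P : Subgroup G), x ≠ 1 → centralizer ({x} : Set G) = centralizer ((P : Subgroup G) : Set G)) :
    ∃ π : ↥(centralizer ((P : Subgroup G) : Set G)) →* (P : Subgroup G),
      Cfg (P : Subgroup G) (centralizer ((P : Subgroup G) : Set G)) (normalizer ((P : Subgroup G) : Set G)) π := by
  classical
  haveI : Fact p.Prime := ⟨hp⟩
  set C := centralizer ((P : Subgroup G) : Set G) with hC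
  have habP : ∀ a ∈ (P : Subgroup G), ∀ b ∈ (P : Subgroup G), a * b = b * a := by
    intro a ha b hb
    by_cases h1 : a = 1
    · rw [h1, one_mul, mul_one]
    · have h2 : a ∈ centralizer ({a} : Set G) := by rw [mem_centralizer_singleton_iff]
      rw [hstar a ha h1] at h2
      exact (mem_centralizer_iff.mp h2 b hb).symm
  have hPC : (P : Subgroup G) ≤ C := fun a ha => mem_centralizer_iff.mpr fun b hb => habP b hb a ha
  have hcen : ∀ y ∈ (P : Subgroup G), ∀ c ∈ C, y * c = c * y := fun y hy c hc => mem_centralizer_iff.mp hc y hy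
  have hcardP : Nat.card ((P : Subgroup G).subgroupOf C) = Nat.card (P : Subgroup G) :=
    Nat.card_congr (subgroupOfEquivOfLe hPC).toEquiv
  have hcop : (Nat.card ((P : Subgroup G).subgroupOf C)).Coprime ((P : Subgroup G).subgroupOf C).index := by
    rw [hcardP, P.card_eq_multiplicity]
    apply Nat.Coprime.pow_left
    rw [Nat.Prime.coprime_iff_not_dvd hp]
    intro h2
    have h3 : ((P : Subgroup G).subgroupOf C).index ∣ (P : Subgroup G).index :=
      ⟨C.index, (relIndex_mul_index hPC).symm⟩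
    exact P.not_dvd_index (dvd_trans h2 h3)
  obtain ⟨π₀, hπ₀⟩ := exists_retraction ((P : Subgroup G).subgroupOf C) (by
    intro y hy c
    exact Subtype.ext (hcen y (mem_subgroupOf.mp hy) c c.2)) hcop
  set π : C →* (P : Subgroup G) := (subgroupOfEquivOfLe hPC).toMonoidHom.comp π₀ with hπ
  have hπv : ∀ c, (π c : G) = ((π₀ c : C) : G) := fun c => rfl
  -- `π` is a power map
  have hpow : ∃ a : ℕ, ∀ c : C, (π c : G) = (c : G) ^ a := by
    obtain ⟨a, ha1, ha2⟩ := Nat.chineseRemainder hcop 1 0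
    refine ⟨a, fun c => ?_⟩
    have hker : ((π₀ c : C)⁻¹ * c) ∈ π₀.ker := by
      rw [MonoidHom.mem_ker, map_mul, map_inv, hπ₀, inv_mul_cancel]
    have hkcard : Nat.card π₀.ker = ((P : Subgroup G).subgroupOf C).index := by
      have h1 : Nat.card C = Nat.card ((P : Subgroup G).subgroupOf C) * ((P : Subgroup G).subgroupOf C).index :=
        (card_mul_index _).symm
      have hs : Function.Surjective π₀ := fun y => ⟨y, hπ₀ y⟩
      have h2 : Nat.card C = Nat.card π₀.ker * Nat.card ((P : Subgroup G).subgroupOf C) := by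
        rw [← card_mul_index π₀.ker, index_ker, MonoidHom.range_eq_top.mpr hs, card_top]
      rw [h1, mul_comm] at h2
      exact (Nat.eq_of_mul_eq_mul_right Nat.card_pos h2).symm
    have hv : ((π₀ c : C)⁻¹ * c) ^ a = 1 := by
      have h1 : orderOf ((π₀ c : C)⁻¹ * c) ∣ Nat.card π₀.ker := Subgroup.orderOf_dvd_natCard _ hker
      rw [hkcard] at h1
      exact orderOf_dvd_iff_pow_eq_one.mp (dvd_trans h1 ((Nat.modEq_zero_iff_dvd).mp ha2))
    have hy : (π₀ c : C) ^ a = π₀ c := by
      have h1 : orderOf (π₀ c : C) ∣ Nat.card ((P : Subgroup G).subgroupOf C) := Subgroup.orderOf_dvd_natCard _ (π₀ c).2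
      have h2 : a ≡ 1 [MOD orderOf (π₀ c : C)] := Nat.ModEq.of_dvd h1 ha1
      rw [← pow_one (π₀ c : C), ← pow_mul, one_mul]
      exact pow_eq_pow_iff_modEq.mpr h2
    have hcomm : Commute (π₀ c : C) ((π₀ c : C)⁻¹ * c) := by
      have h1 : (π₀ c : C) * c = c * π₀ c := Subtype.ext (hcen _ (mem_subgroupOf.mp (π₀ c).2) c c.2)
      show (π₀ c : C) * ((π₀ c : C)⁻¹ * c) = (π₀ c : C)⁻¹ * c * (π₀ c : C)
      rw [mul_assoc, ← h1]; group
    have h3 : c ^ a = π₀ c := by
      calc c ^ a = ((π₀ c : C) * ((π₀ c : C)⁻¹ * c)) ^ a := by rw [mul_inv_cancel_left]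
        _ = (π₀ c : C) ^ a * ((π₀ c : C)⁻¹ * c) ^ a := hcomm.mul_pow a
        _ = π₀ c := by rw [hv, hy, mul_one]
    rw [hπv, ← h3]; rfl
  obtain ⟨a, ha⟩ := hpow
  have hconj : ∀ (x : G) (c c' : C), (c' : G) = x * c * x⁻¹ → (π c' : G) = x * π c * x⁻¹ := by
    intro x c c' h
    rw [ha, ha, h, conj_pow]
  refine ⟨π, ⟨hPC, ?_, hcen, ?_, ?_, ?_, fun x _ => hconj x, ?_, ?_⟩⟩
  · intro x hx
    rw [mem_normalizer_iff]
    intro y
    constructor
    · intro hy
      have h1 := mem_centralizer_iff.mp hx y hy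
      rw [← h1, mul_inv_cancel_right]; exact hy
    · intro hy
      have h1 := mem_centralizer_iff.mp hx _ hy
      have h2 : y = x * y * x⁻¹ := by
        have h3 : x * y * x⁻¹ * x = x * (x * y * x⁻¹) := h1
        rw [inv_mul_cancel_right] at h3
        exact mul_left_cancel h3
      rw [h2]; exact hy
  · intro c hc
    have h1 := hπ₀ ⟨c, by rw [mem_subgroupOf]; exact hc⟩
    rw [hπv, h1]
  · intro x hx c hc
    rw [mem_centralizer_iff]
    intro z hz
    have h1 : x⁻¹ * z * x ∈ (P : Subgroup G) := by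
      have := (mem_normalizer_iff.mp (inv_mem hx) z).mp hz
      rwa [inv_inv] at this
    have h2 := mem_centralizer_iff.mp hc _ h1
    calc z * (x * c * x⁻¹) = x * ((x⁻¹ * z * x) * c) * x⁻¹ := by group
      _ = x * (c * (x⁻¹ * z * x)) * x⁻¹ := by rw [h2]
      _ = x * c * x⁻¹ * z := by group
  · intro x hx c hc
    exact (mem_normalizer_iff.mp hx c).mp hc
  · intro x _ y hy hy1 hxy
    have h1 : x ∈ centralizer ({y} : Set G) := by rw [mem_centralizer_singleton_iff]; exact hxy
    rwa [hstar y hy hy1] at h1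
  · intro x c c' hcc' hc hc'
    have h1 := hconj x c c' hcc'
    have hne : (π c : G) ≠ 1 := fun hh => hc (Subtype.ext hh)
    have hne' : (π c' : G) ≠ 1 := fun hh => hc' (Subtype.ext hh)
    -- conjugates of elements of P are in C
    have h2 : ∀ z ∈ (P : Subgroup G), x⁻¹ * z * x ∈ C := by
      intro z hz
      have h3 : z ∈ centralizer ({(π c' : G)} : Set G) := by rw [hstar _ (π c').2 hne']; exact hPC hz
      rw [mem_centralizer_singleton_iff, h1] at h3
      rw [← hstar _ (π c).2 hne, mem_centralizer_singleton_iff]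
      calc x⁻¹ * z * x * (π c : G) = x⁻¹ * (z * (x * π c * x⁻¹)) * x := by group
        _ = x⁻¹ * ((x * π c * x⁻¹) * z) * x := by rw [h3]
        _ = (π c : G) * (x⁻¹ * z * x) := by group
    -- hence the conjugate lies in P
    have h3 : IsPGroup p ((P : Subgroup G).map (MulAut.conj x⁻¹).toMonoidHom) := P.isPGroup'.map _
    have h4 : IsPGroup p ((P : Subgroup G) ⊔ (P : Subgroup G).map (MulAut.conj x⁻¹).toMonoidHom : Subgroup G) := by
      apply IsPGroup.to_sup_of_normal_left' P.isPGroup' h3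
      rintro _ ⟨z, hz, rfl⟩
      rw [mem_normalizer_iff]
      intro y
      have h5 : (MulAut.conj x⁻¹).toMonoidHom z = x⁻¹ * z * x := by simp [MulAut.conj_apply]
      rw [h5]
      constructor
      · intro hy
        have h6 := hcen y hy _ (h2 z hz)
        rw [← h6, mul_inv_cancel_right]; exact hy
      · intro hy
        have h6 := hcen _ hy _ (h2 z hz)
        have h7 : y = x⁻¹ * z * x * y * (x⁻¹ * z * x)⁻¹ := by
          have h8 : x⁻¹ * z * x * y = x⁻¹ * z * x * (x⁻¹ * z * x * y * (x⁻¹ * z * x)⁻¹) := by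
            rw [← h6, inv_mul_cancel_right]
          exact mul_left_cancel h8
        rw [h7]; exact hy
    have h5 := P.is_maximal' h4 le_sup_left
    have h6 : ∀ z ∈ (P : Subgroup G), x⁻¹ * z * x ∈ (P : Subgroup G) := by
      intro z hz
      have h7 : x⁻¹ * z * x ∈ ((P : Subgroup G) ⊔ (P : Subgroup G).map (MulAut.conj x⁻¹).toMonoidHom : Subgroup G) :=
        mem_sup_right ⟨z, hz, by simp [MulAut.conj_apply]⟩
      rw [h5] at h7
      exact h7
    have h7 : x⁻¹ ∈ normalizer ((P : Subgroup G) : Set G) := by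
      apply mem_normalizer_fintype
      intro z hz
      rw [inv_inv]; exact h6 z hz
    exact inv_mem_iff.mp h7

/-- irreducible characters not containing `P` in the kernel -/
theorem nontriv {P C N : Subgroup G} {π : C →* P} [Fintype C] (h : Cfg P C N π) (φ : IrrCharacter G)
    (hno : ∀ K : Subgroup G, K.Normal → P ≤ K → K = ⊤) (hφ : φ ≠ og G) :
    ∃ ψ : IrrCharacter C, h.lam ψ ≠ 1 ∧ 1 ≤ Cfg.A (Cfg.ic φ) ψ := by
  classical
  by_contra hcon
  push Not at hcon
  obtain ⟨K, hK, hKmem⟩ := exists_kernel (CfsgLib.CharBasic.irr_isCharacter φ.2)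
  have hPK : P ≤ K := by
    intro y hy
    rw [hKmem]
    have h1 := congrFun (Cfg.restrict_eq (C := C) (Cfg.ic φ)) ⟨y, h.hPC hy⟩
    have h2 := congrFun (Cfg.restrict_eq (C := C) (Cfg.ic φ)) 1
    simp only [Finset.sum_apply, Pi.smul_apply, smul_eq_mul] at h1 h2
    have h3 : ∀ ψ : IrrCharacter C, (Cfg.A (Cfg.ic φ) ψ : ℂ) * (ψ : C → ℂ) ⟨y, h.hPC hy⟩ = (Cfg.A (Cfg.ic φ) ψ : ℂ) * (ψ : C → ℂ) 1 := by
      intro ψ
      by_cases hψ : h.lam ψ = 1
      · have h4 := h.lam_spec ψ ⟨y, hy⟩ 1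
        rw [hψ, MonoidHom.one_apply, Units.val_one, one_mul, mul_one] at h4
        have h5 : h.inc ⟨y, hy⟩ = ⟨y, h.hPC hy⟩ := rfl
        rw [← h5, h4]
      · have h4 : Cfg.A (Cfg.ic φ) ψ = 0 := by
          have := hcon ψ hψ
          omega
        rw [h4]; simp
    rw [Finset.sum_congr rfl fun ψ _ => h3 ψ, ← h2] at h1
    exact h1
  have hK' := hno K hK hPK
  apply hφ
  apply Subtype.ext
  exact eq_one_of_constant φ.2 (fun g => (hKmem g).mp (by rw [hK']; exact mem_top g))

/-- the Brauer-Leonard theorem -/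
theorem brauer_leonard (hp : p.Prime) (P : Sylow p G)
    (hstar : ∀ x ∈ (P : Subgroup G), x ≠ 1 → centralizer ({x} : Set G) = centralizer ((P : Subgroup G) : Set G))
    (hno : ∀ K : Subgroup G, K.Normal → (P : Subgroup G) ≤ K → K = ⊤) (χ : IrrCharacter G) (hχ : χ ≠ og G) {x : ℕ}
    (hx : (χ : G → ℂ) 1 = x) (hdeg : x ^ 2 + 1 < Nat.card P) :
    (∃ K : Subgroup G, K.Normal ∧ K.index = Nat.card P) ∧ x = 1 := by
  classical
  haveI : Fact p.Prime := ⟨hp⟩
  obtain ⟨π, h⟩ := exists_cfg hp P hstar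
  set C := centralizer ((P : Subgroup G) : Set G) with hC
  set N := normalizer ((P : Subgroup G) : Set G) with hN
  haveI : Fintype C := Fintype.ofFinite C
  haveI : Finite ((P : Subgroup G) →* ℂˣ) := finite_dual h.comm
  haveI : Fintype ((P : Subgroup G) →* ℂˣ) := Fintype.ofFinite _
  obtain ⟨e, he⟩ : ∃ e, Nat.card N = e * Nat.card C := by
    obtain ⟨e, he⟩ := card_dvd_of_le h.hCN
    exact ⟨e, by rw [he, mul_comm]⟩
  have hirr := fun φ hφ => nontriv h φ hno hφ
  have he1 := h.main he hirr hχ hx hdeg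
  rw [he1, one_mul] at he
  have hNC : N ≤ C := by
    have h1 : C = N := eq_of_le_of_card_ge h.hCN (by rw [he])
    rw [← h1]
  refine ⟨?_, ?_⟩
  · have h1 := MonoidHom.ker_transferSylow_isComplement' P hNC
    exact ⟨_, inferInstance, h1.symm.index_eq_card⟩
  · obtain ⟨ψ₀, hl, hA⟩ := hirr χ hχ
    have he' : Nat.card N = 1 * Nat.card C := by rw [he, one_mul]
    obtain ⟨s1, s2, s3⟩ := h.step1 he' hx hdeg hl hA
    have horb : h.orb ψ₀ = {ψ₀} := by
      have h1 := h.card_orb hl he'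
      have h2 : ψ₀ ∈ h.orb ψ₀ := h.mem_orb.mpr ⟨1, h.ac_one _⟩
      obtain ⟨a, ha⟩ := Finset.card_eq_one.mp h1
      rw [ha] at h2 ⊢
      rw [Finset.mem_singleton] at h2
      rw [h2]
    have hres : ∀ c : C, (χ : G → ℂ) c = (ψ₀ : C → ℂ) c := by
      intro c
      have h1 := congrFun (Cfg.restrict_eq (C := C) (Cfg.ic χ)) c
      simp only [Finset.sum_apply, Pi.smul_apply, smul_eq_mul] at h1
      rw [Finset.sum_eq_single ψ₀ (fun ψ _ hne => by
        rw [s3 ψ (by rw [horb]; simpa using hne)]; simp) (fun hh => absurd (Finset.mem_univ _) hh),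
        s2 ψ₀ (by rw [horb]; simp), Nat.cast_one, one_mul] at h1
      exact h1
    obtain ⟨Z, hZ, hZmem⟩ := CfsgLib.CharNorm.exists_center (CfsgLib.CharBasic.irr_isCharacter χ.2)
    have hPZ : (P : Subgroup G) ≤ Z := by
      intro y hy
      rw [hZmem]
      have h1 := h.lam_spec ψ₀ ⟨y, hy⟩ 1
      rw [mul_one] at h1
      have h2 : (χ : G → ℂ) y = (h.lam ψ₀ ⟨y, hy⟩ : ℂ) * (χ : G → ℂ) 1 := by
        have h3 := hres ⟨y, h.hPC hy⟩
        have h4 := hres 1
        rw [show ((⟨y, h.hPC hy⟩ : C) : G) = y from rfl] at h3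
        rw [Subgroup.coe_one] at h4
        rw [h3, h4]; exact h1
      have h3 : (h.lam ψ₀ ⟨y, hy⟩ : ℂ) ^ Nat.card P = 1 := by
        rw [← Units.val_pow_eq_pow_val, ← map_pow, pow_card_eq_one', map_one, Units.val_one]
      have h4 : ‖(h.lam ψ₀ ⟨y, hy⟩ : ℂ)‖ = 1 := Complex.norm_eq_one_of_pow_eq_one h3 Nat.card_pos.ne'
      rw [h2, norm_mul, h4, one_mul, hx]; simp
    have hZtop := hno Z hZ hPZ
    have h1 : ∀ g, ‖(χ : G → ℂ) g‖ = x := by
      intro g
      have h2 := (hZmem g).mp (by rw [hZtop]; exact mem_top g)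
      rw [h2, hx]; simp
    have h2 := irr_inner_self χ.2
    rw [inner_self_real] at h2
    simp only [h1, Finset.sum_const, Finset.card_univ, nsmul_eq_mul] at h2
    rw [← Nat.card_eq_fintype_card] at h2
    have h3 : ((Nat.card G : ℝ)⁻¹ * (Nat.card G * (x : ℝ) ^ 2) : ℝ) = 1 := by exact_mod_cast h2
    have hG : (Nat.card G : ℝ) ≠ 0 := by exact_mod_cast Nat.card_pos.ne'
    rw [← mul_assoc, inv_mul_cancel₀ hG, one_mul] at h3
    have h4 : x ^ 2 = 1 := by exact_mod_cast h3
    have := Nat.pow_eq_one.mp h4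
    omega

end CfsgLib.BrLeon
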