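import Mathlib

/-! A group of order `2p³` with trivial centralizer in `PSL(n,p)` (helper10). -/

set_option autoImplicit false

namespace CfsgLib.Brick

open Matrix

/-- elementary abelian group of order `p³` extended by inversion -/
@[ext] structure HH (p : ℕ) where
  a : ℤˣ
  v : Fin 3 → ZMod p

variable {p : ℕ}

instance : Mul (HH p) := ⟨fun x y => ⟨x.a * y.a, y.a • x.v + y.v⟩⟩
instance : One (HH p) := ⟨⟨1, 0⟩⟩
instance : Inv (HH p) := ⟨fun x => ⟨x.a, -(x.a • x.v)⟩⟩

@[simp] theorem mul_a (x y : HH p) : (x * y).a = x.a * y.a := rfl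
@[simp] theorem mul_v (x y : HH p) : (x * y).v = y.a • x.v + y.v := rfl
@[simp] theorem one_a : (1 : HH p).a = 1 := rfl
@[simp] theorem one_v : (1 : HH p).v = 0 := rfl
@[simp] theorem inv_a (x : HH p) : (x⁻¹).a = x.a := rfl
@[simp] theorem inv_v (x : HH p) : (x⁻¹).v = -(x.a • x.v) := rfl

instance : Group (HH p) := Group.ofLeftAxioms
  (by intro x y z; ext1
      · simp [mul_assoc]
      · simp [smul_add, smul_smul, mul_comm, add_assoc])
  (by intro x; ext1 <;> simp)
  (by intro x; ext1
      · simp
      · simp [smul_smul])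

def eqv (p : ℕ) : HH p ≃ ℤˣ × (Fin 3 → ZMod p) where
  toFun x := (x.a, x.v)
  invFun y := ⟨y.1, y.2⟩
  left_inv _ := rfl
  right_inv _ := rfl

instance [Fact p.Prime] : Finite (HH p) := Finite.of_equiv _ (eqv p).symm

theorem card_HH [Fact p.Prime] : Nat.card (HH p) = 2 * p ^ 3 := by
  rw [Nat.card_congr (eqv p), Nat.card_prod]
  simp


/-- the sign as a scalar -/
def sc (p : ℕ) : ℤˣ →* ZMod p where
  toFun a := ((a : ℤ) : ZMod p)
  map_one' := by simp
  map_mul' a b := by simp

theorem smul_eq (a : ℤˣ) (v : Fin 3 → ZMod p) : a • v = sc p a • v := by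
  rcases Int.units_eq_one_or a with rfl | rfl
  · simp
  · rw [Units.neg_smul, one_smul]
    ext i; simp [sc]

/-- the Kronecker module -/
def X (m : ℕ) (v : Fin 3 → ZMod p) : Matrix (Fin (m + 1)) (Fin m) (ZMod p) :=
  fun i j => (if i = j.castSucc then v 0 else 0) + (if i = j.succ then v 1 else 0) +
    (if i.val = 0 ∧ j.val = 1 then v 2 else 0)

theorem X_add (m : ℕ) (v w : Fin 3 → ZMod p) : X m (v + w) = X m v + X m w := by
  ext i j
  simp only [X, Pi.add_apply, Matrix.add_apply]
  split_ifs <;> ring

theorem X_smul (m : ℕ) (c : ZMod p) (v : Fin 3 → ZMod p) : X m (c • v) = c • X m v := by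
  ext i j
  simp only [X, Pi.smul_apply, Matrix.smul_apply, smul_eq_mul]
  split_ifs <;> ring

/-- block matrix -/
def B (m : ℕ) (h : HH p) : Matrix (Fin m ⊕ Fin (m + 1)) (Fin m ⊕ Fin (m + 1)) (ZMod p) :=
  fromBlocks (sc p h.a • 1) 0 (X m h.v) 1

theorem B_mul (m : ℕ) (x y : HH p) : B m (x * y) = B m x * B m y := by
  unfold B
  rw [fromBlocks_multiply]
  congr 1
  · simp [smul_smul, mul_comm]
  · simp
  · rw [mul_v, X_add, smul_eq, X_smul]
    simp
  · simp

theorem B_one (m : ℕ) : B m (1 : HH p) = 1 := by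
  have : X m (0 : Fin 3 → ZMod p) = 0 := by
    have := X_smul m (0 : ZMod p) (0 : Fin 3 → ZMod p)
    simpa using this
  unfold B
  rw [one_a, one_v, this, map_one, one_smul, fromBlocks_one]

theorem B_det {m : ℕ} (hm : Even m) (h : HH p) : (B m h).det = 1 := by
  unfold B
  rw [det_fromBlocks_zero₁₂, det_smul, det_one, det_one, mul_one, mul_one, Fintype.card_fin]
  rcases Int.units_eq_one_or h.a with h1 | h1
  · rw [h1, map_one, one_pow]
  · rw [h1]
    have : sc p (-1) = -1 := by simp [sc]
    rw [this, hm.neg_one_pow]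

/-- reindexing -/
def R (p m : ℕ) : Matrix (Fin m ⊕ Fin (m + 1)) (Fin m ⊕ Fin (m + 1)) (ZMod p) ≃ₐ[ZMod p]
    Matrix (Fin (m + (m + 1))) (Fin (m + (m + 1))) (ZMod p) :=
  reindexAlgEquiv (ZMod p) (ZMod p) finSumFinEquiv

theorem R_det {m : ℕ} (hm : Even m) (h : HH p) : (R p m (B m h)).det = 1 := by
  unfold R
  rw [det_reindexAlgEquiv]; exact B_det hm h

def rep {m : ℕ} (hm : Even m) : HH p →* SpecialLinearGroup (Fin (m + (m + 1))) (ZMod p) where
  toFun h := ⟨R p m (B m h), R_det hm h⟩
  map_one' := Subtype.ext (by simp [B_one])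
  map_mul' x y := Subtype.ext (by
    change R p m (B m (x * y)) = R p m (B m x) * R p m (B m y)
    rw [B_mul, map_mul])

theorem rep_coe {m : ℕ} (hm : Even m) (h : HH p) :
    ((rep hm h : SpecialLinearGroup (Fin (m + (m + 1))) (ZMod p)) : Matrix _ _ (ZMod p)) = R p m (B m h) := rfl

/-- matrices commuting with the image are scalar -/
theorem comm_scalar [Fact p.Prime] (hp : p ≠ 2) {m : ℕ} (hm : 2 ≤ m)
    (G : Matrix (Fin m ⊕ Fin (m + 1)) (Fin m ⊕ Fin (m + 1)) (ZMod p))
    (hG : ∀ h : HH p, G * B m h = B m h * G) : ∃ a : ZMod p, G = a • 1 := by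
  have h2 : (2 : ZMod p) ≠ 0 := by
    intro h
    have : ((2 : ℕ) : ZMod p) = 0 := by exact_mod_cast h
    rw [ZMod.natCast_eq_zero_iff] at this
    exact hp ((Nat.prime_dvd_prime_iff_eq Fact.out Nat.prime_two).1 this)
  obtain ⟨A, Y, C, D, rfl⟩ : ∃ A Y C D, G = fromBlocks A Y C D :=
    ⟨G.toBlocks₁₁, G.toBlocks₁₂, G.toBlocks₂₁, G.toBlocks₂₂, (fromBlocks_toBlocks G).symm⟩
  have ht := hG ⟨-1, 0⟩
  have hX0 : X m (0 : Fin 3 → ZMod p) = 0 := by
    have := X_smul m (0 : ZMod p) (0 : Fin 3 → ZMod p)
    simpa using this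
  have hs : sc p (-1) = -1 := by simp [sc]
  unfold B at ht
  simp only [hX0, hs] at ht
  rw [fromBlocks_multiply, fromBlocks_multiply, fromBlocks_inj] at ht
  obtain ⟨_, hY, hC, _⟩ := ht
  have hY0 : Y = 0 := by
    simp at hY
    ext i j
    have := congrFun (congrFun hY i) j
    simp only [Matrix.neg_apply] at this
    have h3 : 2 * Y i j = 0 := by linear_combination this
    exact (mul_eq_zero.1 h3).resolve_left h2
  have hC0 : C = 0 := by
    simp at hC
    ext i j
    have := congrFun (congrFun hC i) j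
    simp only [Matrix.neg_apply] at this
    have h3 : 2 * C i j = 0 := by linear_combination -this
    exact (mul_eq_zero.1 h3).resolve_left h2
  subst hY0; subst hC0
  have hX : ∀ v i j, ∑ k, D i k * X m v k j = ∑ k, X m v i k * A k j := by
    intro v i j
    have hu := hG ⟨1, v⟩
    have := congrFun (congrFun hu (Sum.inr i)) (Sum.inl j)
    simpa [Matrix.mul_apply, B, Fintype.sum_sum_type, Matrix.one_apply] using this
  have e1 : ∀ (i : Fin (m + 1)) (j : Fin m), D i j.castSucc = ∑ k, X m ![1, 0, 0] i k * A k j := by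
    intro i j
    rw [← hX, Finset.sum_eq_single j.castSucc]
    · simp [X]
    · intro b _ hb; simp [X, hb]
    · simp
  have e2 : ∀ (i : Fin (m + 1)) (j : Fin m), D i j.succ = ∑ k, X m ![0, 1, 0] i k * A k j := by
    intro i j
    rw [← hX, Finset.sum_eq_single j.succ]
    · simp [X]
    · intro b _ hb; simp [X, hb]
    · simp
  have f1 : ∀ (i j : Fin m), D i.castSucc j.castSucc = A i j := by
    intro i j
    rw [e1, Finset.sum_eq_single i]
    · simp [X]
    · intro b _ hb; simp [X, hb.symm]
    · simp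
  have f2 : ∀ (j : Fin m), D (Fin.last m) j.castSucc = 0 := by
    intro j
    rw [e1]
    refine Finset.sum_eq_zero (fun b _ => ?_)
    simp [X, (Fin.castSucc_lt_last b).ne']
  have f3 : ∀ (i j : Fin m), D i.succ j.succ = A i j := by
    intro i j
    rw [e2, Finset.sum_eq_single i]
    · simp [X]
    · intro b _ hb; simp [X, hb.symm]
    · simp
  have f4 : ∀ (j : Fin m), D 0 j.succ = 0 := by
    intro j
    rw [e2]
    refine Finset.sum_eq_zero (fun b _ => ?_)
    simp [X, (Fin.succ_ne_zero b).symm]
  -- Toeplitz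
  let d : ℕ → ℕ → ZMod p := fun i j => if h : i < m + 1 ∧ j < m + 1 then D ⟨i, h.1⟩ ⟨j, h.2⟩ else 0
  have hd : ∀ i j : Fin (m + 1), D i j = d i.val j.val := by
    intro i j
    simp only [d]
    rw [dif_pos ⟨i.2, j.2⟩]
  have hdT : ∀ i j, i < m → j < m → d (i + 1) (j + 1) = d i j := by
    intro i j hi hj
    have g1 := f1 ⟨i, hi⟩ ⟨j, hj⟩
    have g3 := f3 ⟨i, hi⟩ ⟨j, hj⟩
    rw [hd] at g1 g3
    simp only [Fin.val_castSucc, Fin.val_succ] at g1 g3
    rw [g3, g1]
  have hd0 : ∀ j, j < m → d 0 (j + 1) = 0 := by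
    intro j hj
    have := f4 ⟨j, hj⟩
    rw [hd] at this
    simpa using this
  have hdl : ∀ j, j < m → d m j = 0 := by
    intro j hj
    have := f2 ⟨j, hj⟩
    rw [hd] at this
    simpa using this
  have hup : ∀ i k, i + (k + 1) ≤ m → d i (i + (k + 1)) = 0 := by
    intro i
    induction i with
    | zero => intro k hk; rw [zero_add]; exact hd0 k (by omega)
    | succ i ih =>
      intro k hk
      rw [show i + 1 + (k + 1) = i + (k + 1) + 1 by ring, hdT i _ (by omega) (by omega)]
      exact ih k (by omega)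
  have hlow : ∀ l i j, i + l = m → j < i → d i j = 0 := by
    intro l
    induction l with
    | zero => intro i j hi hj; rw [show i = m by omega] at hj ⊢; exact hdl j hj
    | succ l ih =>
      intro i j hi hj
      rw [← hdT i j (by omega) (by omega)]
      exact ih (i + 1) (j + 1) (by omega) (by omega)
  have hdiag : ∀ i, i ≤ m → d i i = d 0 0 := by
    intro i
    induction i with
    | zero => intro _; rfl
    | succ i ih => intro hi; rw [hdT i i (by omega) (by omega)]; exact ih (by omega)
  have hD : D = d 0 0 • 1 := by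
    ext i j
    rw [hd, Matrix.smul_apply, Matrix.one_apply]
    split_ifs with hij
    · subst hij
      rw [hdiag _ (by omega)]; simp
    · have hne : i.val ≠ j.val := fun hc => hij (Fin.ext hc)
      rw [smul_zero]
      rcases lt_or_gt_of_ne hne with hlt | hlt
      · have := hup i.val (j.val - i.val - 1) (by omega)
        rwa [show i.val + (j.val - i.val - 1 + 1) = j.val by omega] at this
      · exact hlow (m - i.val) i.val j.val (by omega) hlt
  refine ⟨d 0 0, ?_⟩
  have hA : A = d 0 0 • 1 := by
    ext i j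
    rw [← f1, hD]
    simp [Matrix.one_apply]
  rw [hA, hD]
  ext i j
  rcases i with i | i <;> rcases j with j | j <;> simp [Matrix.one_apply]

theorem s2533 (p : ℕ) [Fact p.Prime] (hp : p ≠ 2) :
    ∃ (H : Type) (_ : Group H) (_ : Finite H), Nat.card H = 2 * p ^ 3 ∧
      ∀ N : ℕ, ∃ n, N ≤ n ∧ ∃ φ : H →* Matrix.ProjectiveSpecialLinearGroup (Fin n) (ZMod p),
        Function.Injective φ ∧ Subgroup.centralizer (φ.range : Set (Matrix.ProjectiveSpecialLinearGroup (Fin n) (ZMod p))) = ⊥ := by
  refine ⟨HH p, inferInstance, inferInstance, card_HH, fun N => ?_⟩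
  obtain ⟨m, hm2, hmN, hme⟩ : ∃ m, 2 ≤ m ∧ N ≤ m ∧ Even m := ⟨2 * (N + 1), by omega, by omega, by simp⟩
  have hne1 : (-1 : ZMod p) ≠ 1 := by
    intro h
    have h2 : (2 : ZMod p) = 0 := by linear_combination -h
    have : ((2 : ℕ) : ZMod p) = 0 := by exact_mod_cast h2
    rw [ZMod.natCast_eq_zero_iff] at this
    exact hp ((Nat.prime_dvd_prime_iff_eq Fact.out Nat.prime_two).1 this)
  refine ⟨m + (m + 1), by omega, (QuotientGroup.mk' _).comp (rep hme), ?_, ?_⟩
  · rw [injective_iff_map_eq_one]
    intro h hh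
    rw [MonoidHom.comp_apply, QuotientGroup.mk'_apply, QuotientGroup.eq_one_iff,
      Matrix.SpecialLinearGroup.mem_center_iff] at hh
    obtain ⟨c, _, hc⟩ := hh
    rw [rep_coe] at hc
    have h1 : B m h = c • 1 := by
      apply (R p m).injective
      rw [← hc, map_smul, map_one]
      ext i j; simp [Matrix.smul_apply, Matrix.one_apply, Matrix.diagonal_apply]
    unfold B at h1
    have h2 : sc p h.a = c := by
      have := congrFun (congrFun h1 (Sum.inl ⟨0, by omega⟩)) (Sum.inl ⟨0, by omega⟩)
      simpa using this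
    have h3 : 1 = c := by
      have := congrFun (congrFun h1 (Sum.inr 0)) (Sum.inr 0)
      simpa using this
    have hX : ∀ i j, X m h.v i j = 0 := by
      intro i j
      have := congrFun (congrFun h1 (Sum.inr i)) (Sum.inl j)
      simpa using this
    ext1
    · rcases Int.units_eq_one_or h.a with h4 | h4
      · exact h4
      · exfalso
        rw [h4, ← h3] at h2
        apply hne1
        simpa [sc] using h2
    · have g0 := hX 0 ⟨0, by omega⟩
      have g1 := hX 1 ⟨0, by omega⟩
      have g2 := hX 0 ⟨1, by omega⟩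
      have o1 : ((1 : Fin (m + 1)) : ℕ) = 1 := by
        rw [Fin.val_one']; exact Nat.mod_eq_of_lt (by omega)
      simp only [X, Fin.ext_iff, Fin.val_castSucc, Fin.val_succ, Fin.val_zero, o1] at g0 g1 g2
      ext i
      fin_cases i
      · simpa using g0
      · simpa using g1
      · simpa using g2
  · rw [eq_bot_iff]
    intro g hg
    rw [Subgroup.mem_centralizer_iff] at hg
    obtain ⟨G, rfl⟩ := QuotientGroup.mk_surjective g
    rw [Subgroup.mem_bot, QuotientGroup.eq_one_iff, Matrix.SpecialLinearGroup.mem_center_iff]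
    -- G commutes with everything up to scalars
    have hcomm : ∀ h : HH p, ∃ c : ZMod p, (rep hme h).1 * G.1 =
        c • (G.1 * (rep hme h).1) := by
      intro h
      have h1 := hg ((QuotientGroup.mk' _).comp (rep hme) h) ⟨h, rfl⟩
      rw [MonoidHom.comp_apply, QuotientGroup.mk'_apply, ← QuotientGroup.mk_mul, ← QuotientGroup.mk_mul,
        eq_comm, QuotientGroup.eq, Matrix.SpecialLinearGroup.mem_center_iff] at h1
      obtain ⟨c, _, hc⟩ := h1
      refine ⟨c, ?_⟩
      have h2 : rep hme h * G = (G * rep hme h) * ((G * rep hme h)⁻¹ * (rep hme h * G)) := by group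
      have h3 := congrArg Subtype.val h2
      have h4 : ((G * rep hme h) * ((G * rep hme h)⁻¹ * (rep hme h * G))).1 =
        (G * rep hme h).1 * ((G * rep hme h)⁻¹ * (rep hme h * G)).1 := rfl
      rw [h4] at h3
      have h5 : ((G * rep hme h)⁻¹ * (rep hme h * G)).1 = c • 1 := by
        rw [← hc]; ext i j; simp [Matrix.smul_apply, Matrix.one_apply, Matrix.diagonal_apply]
      rw [h5, mul_smul_comm, mul_one] at h3
      exact h3
    obtain ⟨G', hG'⟩ : ∃ G', R p m G' = G.1 := (R p m).surjective _
    have hdet : IsUnit G' := by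
      have : IsUnit G.1 := (Matrix.isUnit_iff_isUnit_det _).2 (by rw [G.2]; exact isUnit_one)
      rw [← hG'] at this
      exact (MulEquiv.isUnit_map (R p m)).1 this
    have hcomm' : ∀ h : HH p, ∃ c : ZMod p, B m h * G' = c • (G' * B m h) := by
      intro h
      obtain ⟨c, hc⟩ := hcomm h
      refine ⟨c, (R p m).injective ?_⟩
      rw [map_mul, map_smul, map_mul, hG', ← rep_coe hme]
      exact hc
    -- the scalars are trivial
    have htr : ∀ h : HH p, B m h * G' = G' * B m h := by
      intro h
      obtain ⟨c, hc⟩ := hcomm' h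
      obtain ⟨u, rfl⟩ := hdet
      have hpow : ∀ k : ℕ, B m h ^ k * (u : Matrix _ _ (ZMod p)) = c ^ k • ((u : Matrix _ _ (ZMod p)) * B m h ^ k) := by
        intro k
        induction k with
        | zero => simp
        | succ k ih =>
          rw [pow_succ, mul_assoc, hc, mul_smul_comm, ← mul_assoc, ih, smul_mul_assoc, smul_smul, mul_assoc,
            ← pow_succ, pow_succ c, mul_comm c]
      have hc1 : c = 1 := by
        rcases Int.units_eq_one_or h.a with h4 | h4
        · have h5 : ∀ k : ℕ, h ^ k = ⟨1, k • h.v⟩ := by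
            intro k
            induction k with
            | zero => ext1 <;> simp
            | succ k ih =>
              rw [pow_succ, ih]
              ext1
              · simp [h4]
              · simp [h4, add_smul]
          have h6 : h ^ p = 1 := by
            rw [h5]
            ext1
            · rfl
            · ext i; simp
          have h7 : B m h ^ p = 1 := by
            have h8 : ∀ k : ℕ, B m (h ^ k) = B m h ^ k := by
              intro k
              induction k with
              | zero => simp [B_one]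
              | succ k ih => rw [pow_succ, B_mul, ih, pow_succ]
            rw [← h8, h6, B_one]
          have h8 := hpow p
          rw [h7, one_mul, mul_one, ZMod.pow_card] at h8
          have h9 := congrArg (fun M => M * ((u⁻¹ : (Matrix (Fin m ⊕ Fin (m + 1)) (Fin m ⊕ Fin (m + 1)) (ZMod p))ˣ) : Matrix _ _ (ZMod p))) h8
          simp only [smul_mul_assoc, Units.mul_inv] at h9
          have h10 := congrFun (congrFun h9 (Sum.inr 0)) (Sum.inr 0)
          simp only [Matrix.smul_apply, Matrix.one_apply_eq, smul_eq_mul, mul_one] at h10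
          exact h10.symm
        · have h5 : (B m h).trace = 1 := by
            have h6 : sc p (-1) = -1 := by simp [sc]
            simp [Matrix.trace, B, Fintype.sum_sum_type, h4, h6]
          have h6 : B m h = c • ((u : Matrix _ _ (ZMod p)) * B m h * ((u⁻¹ : (Matrix (Fin m ⊕ Fin (m + 1)) (Fin m ⊕ Fin (m + 1)) (ZMod p))ˣ) : Matrix _ _ (ZMod p))) := by
            rw [← smul_mul_assoc, ← hc, mul_assoc, Units.mul_inv, mul_one]
          have h7 := congrArg Matrix.trace h6
          rw [Matrix.trace_smul, Matrix.trace_mul_cycle, Units.inv_mul, one_mul, h5] at h7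
          simpa using h7.symm
      rw [hc, hc1, one_smul]
    obtain ⟨a, ha⟩ := comm_scalar hp hm2 G' (fun h => (htr h).symm)
    have hG : G.1 = a • 1 := by
      rw [← hG', ha, map_smul, map_one]
    refine ⟨a, ?_, ?_⟩
    · have := G.2
      rw [hG, det_smul, det_one, mul_one] at this
      exact this
    · rw [hG]; ext i j; simp [Matrix.smul_apply, Matrix.one_apply, Matrix.diagonal_apply]

end CfsgLib.Brick
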