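import Mathlib
import Cfsg.Agent.LibSolvFitting
import Cfsg.Agent.LibTransFus

/-! Brodkey's theorem -/

set_option autoImplicit false
set_option linter.all false
open Pointwise
open scoped commutatorElement

namespace CfsgLib.Brodkey

open CfsgLib.SolvBasic CfsgLib.SolvCoprime CfsgLib.TransFus CfsgLib.SolvFitting

universe u
variable {G : Type u} [Group G]

theorem brodkey [Finite G] (p : ℕ) [hp : Fact p.Prime] (S : Sylow p G) (hS : IsMulCommutative S) :
    ∃ g : G, (S : Subgroup G) ⊓ MulAut.conj g • (S : Subgroup G) = Cfsg.pCore p G := by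
  -- minimal intersection
  obtain ⟨⟨P, Q⟩, hmin⟩ := (Set.toFinite (Set.univ : Set (Sylow p G × Sylow p G))).exists_minimalFor
    (fun x => Nat.card ((x.1 : Subgroup G) ⊓ (x.2 : Subgroup G) : Subgroup G)) _ Set.univ_nonempty
  have hmin' : ∀ P' Q' : Sylow p G, Nat.card ((P : Subgroup G) ⊓ (Q : Subgroup G) : Subgroup G) ≤
      Nat.card ((P' : Subgroup G) ⊓ (Q' : Subgroup G) : Subgroup G) := by
    intro P' Q'
    by_contra hlt
    push Not at hlt
    have := hmin.2 (j := (P', Q')) (Set.mem_univ _) hlt.le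
    exact absurd this (not_le.mpr hlt)
  obtain ⟨D, hD⟩ : ∃ D, D = (P : Subgroup G) ⊓ (Q : Subgroup G) := ⟨_, rfl⟩
  rw [← hD] at hmin'
  have hcomm : ∀ R : Sylow p G, ∀ x ∈ (R : Subgroup G), ∀ y ∈ (R : Subgroup G), x * y = y * x := by
    intro R x hx y hy
    obtain ⟨g, hg⟩ := MulAction.exists_smul_eq G S R
    have hg' : MulAut.conj g • (S : Subgroup G) = (R : Subgroup G) := by
      rw [← hg]; rfl
    rw [← hg', mem_conj_smul] at hx hy
    have h1 := congrArg Subtype.val (hS.is_comm.comm (⟨_, hx⟩ : S) ⟨_, hy⟩)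
    change g⁻¹ * x * g * (g⁻¹ * y * g) = g⁻¹ * y * g * (g⁻¹ * x * g) at h1
    calc x * y = g * (g⁻¹ * x * g * (g⁻¹ * y * g)) * g⁻¹ := by group
      _ = g * (g⁻¹ * y * g * (g⁻¹ * x * g)) * g⁻¹ := by rw [h1]
      _ = y * x := by group
  have hnorm : ∀ R : Sylow p G, D ≤ (R : Subgroup G) → (R : Subgroup G) ≤ Subgroup.normalizer (D : Set G) := by
    intro R hDR x hx
    rw [Subgroup.mem_normalizer_iff]
    intro y
    constructor
    · intro hy
      rw [hcomm R x hx y (hDR hy), mul_inv_cancel_right]; exact hy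
    · intro hy
      have h1 := hcomm R x⁻¹ (inv_mem hx) _ (hDR hy)
      have h2 : y = x⁻¹ * (x * y * x⁻¹) * x := by group
      rw [h2, h1, inv_mul_cancel_right]; exact hy
  have hDP : D ≤ (P : Subgroup G) := by rw [hD]; exact inf_le_left
  have hDQ : D ≤ (Q : Subgroup G) := by rw [hD]; exact inf_le_right
  have hPN := hnorm P hDP
  have hQN := hnorm Q hDQ
  obtain ⟨N, hN⟩ : ∃ N, N = Subgroup.normalizer (D : Set G) := ⟨_, rfl⟩
  rw [← hN] at hPN hQN
  have hPs : IsSylowIn p (P : Subgroup G) N := isSylowIn_of_sylow P hPN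
  -- D in every Sylow
  have hall : ∀ R : Sylow p G, D ≤ (R : Subgroup G) := by
    intro R
    have h1 : IsPGroup p ((R : Subgroup G) ⊓ N : Subgroup G) := R.isPGroup'.to_le inf_le_left
    obtain ⟨T, hT, hRT⟩ := IsSylowIn.exists_ge h1 (inf_le_right : (R : Subgroup G) ⊓ N ≤ N)
    obtain ⟨n, hn, hnT⟩ := hT.exists_conj hPs
    -- conj n • (R ⊓ N) ≤ P
    have hR' : ((n • R : Sylow p G) : Subgroup G) = MulAut.conj n • (R : Subgroup G) := rfl
    have h2 : (Q : Subgroup G) ⊓ ((n • R : Sylow p G) : Subgroup G) ≤ D := by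
      rw [hD]
      refine le_inf ?_ inf_le_left
      intro y hy
      obtain ⟨hyQ, hyR⟩ := Subgroup.mem_inf.mp hy
      rw [hR', mem_conj_smul] at hyR
      have h3 : n⁻¹ * y * n ∈ (R : Subgroup G) ⊓ N :=
        Subgroup.mem_inf.mpr ⟨hyR, mul_mem (mul_mem (inv_mem hn) (hQN hyQ)) hn⟩
      have h4 := hRT h3
      rw [← hnT, mem_conj_smul]
      exact h4
    have h3 : (Q : Subgroup G) ⊓ ((n • R : Sylow p G) : Subgroup G) = D :=
      Subgroup.eq_of_le_of_card_ge h2 (hmin' Q (n • R))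
    have h4 : D ≤ MulAut.conj n • (R : Subgroup G) := by
      rw [← h3, ← hR']; exact inf_le_right
    intro y hy
    have hn' := hn
    rw [hN] at hn'
    have h5 := h4 ((Subgroup.mem_normalizer_iff.mp hn' y).mp hy)
    rw [mem_conj_smul] at h5
    have e : n⁻¹ * (n * y * n⁻¹) * n = y := by group
    rwa [e] at h5
  have hDcore : D = Cfsg.pCore p G := by
    apply le_antisymm
    · rw [Cfsg.Agent.S0010.result]
      exact le_iInf hall
    · rw [Cfsg.Agent.S0010.result, hD]
      exact le_inf (iInf_le _ P) (iInf_le _ Q)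
  obtain ⟨a, ha⟩ := MulAction.exists_smul_eq G P S
  obtain ⟨b, hb⟩ := MulAction.exists_smul_eq G S Q
  have ha' : MulAut.conj a • (P : Subgroup G) = (S : Subgroup G) := by rw [← ha]; rfl
  have hb' : MulAut.conj b • (S : Subgroup G) = (Q : Subgroup G) := by rw [← hb]; rfl
  refine ⟨a * b, ?_⟩
  have h1 : (S : Subgroup G) ⊓ MulAut.conj (a * b) • (S : Subgroup G) = MulAut.conj a • D := by
    rw [conj_smul_mul, hb', ← ha', hD, Subgroup.smul_inf]
  rw [h1, hDcore]
  have := pCore_normal (G := G) p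
  rw [← mem_normalizer_iff_conj_smul, Subgroup.normalizer_eq_top]
  trivial

end CfsgLib.Brodkey
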