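import Cfsg.Agent.LibH22Spin4

set_option autoImplicit false

/-! Orthogonal element orders: generalities on linear maps of finite order (seat helper26). -/

namespace CfsgLib.Bs

open Module

theorem fix_modEq {X : Type*} [Finite X] (f : X → X) {r : ℕ} (hr : r.Prime) (hf : ∀ x, f^[r] x = x) :
    Nat.card X ≡ Nat.card {x // f x = x} [MOD r] := by
  classical
  haveI : Fact r.Prime := ⟨hr⟩
  haveI : Fintype X := Fintype.ofFinite X
  let f' : Function.End X := f
  have h1 : f' ^ r ^ 1 = 1 := by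
    rw [pow_one]
    funext x
    have h2 : ∀ n : ℕ, (f' ^ n) x = f^[n] x := by
      intro n
      induction n with
      | zero => rfl
      | succ n ih =>
        rw [pow_succ', Function.iterate_succ', Function.comp_apply, ← ih]
        rfl
    rw [h2]
    exact hf x
  have h3 := Equiv.Perm.card_fixedPoints_modEq h1
  rw [Nat.card_eq_fintype_card]
  refine h3.trans ?_
  rw [← Nat.card_eq_fintype_card]
  exact Nat.ModEq.refl _

variable {F V : Type*} [Field F] [AddCommGroup V] [Module F V]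

theorem iter_mem (f : V →ₗ[F] V) (U : Submodule F V) (hU : ∀ x ∈ U, f x ∈ U) (n : ℕ) : ∀ x ∈ U, f^[n] x ∈ U := by
  induction n with
  | zero => intro x hx; exact hx
  | succ n ih =>
    intro x hx
    rw [Function.iterate_succ_apply]
    exact ih _ (hU x hx)

/-- no nonzero fixed vector of the form `f y - y` -/
theorem fix_move (f : V →ₗ[F] V) {N : ℕ} (hN : (N : F) ≠ 0) {y : V} (hy : f^[N] y = y) (hx : f (f y - y) = f y - y) : f y - y = 0 := by
  have h1 : ∀ n : ℕ, f^[n] y = y + (n : F) • (f y - y) := by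
    intro n
    induction n with
    | zero => simp
    | succ n ih =>
      rw [Function.iterate_succ_apply', ih, map_add, map_smul, hx]
      push_cast
      rw [add_smul, one_smul]
      abel
  have h2 := h1 N
  rw [hy] at h2
  have h3 : (N : F) • (f y - y) = 0 := by
    have := h2.symm
    rwa [add_eq_left] at this
  exact (smul_eq_zero.1 h3).resolve_left hN

/-- fixed vectors -/
def fx (f : V →ₗ[F] V) (U : Submodule F V) : Submodule F V := U ⊓ LinearMap.ker (f - LinearMap.id)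
/-- moved vectors -/
def mv (f : V →ₗ[F] V) (U : Submodule F V) : Submodule F V := U.map (f - LinearMap.id)

theorem mem_fx {f : V →ₗ[F] V} {U : Submodule F V} {x : V} : x ∈ fx f U ↔ x ∈ U ∧ f x = x := by
  unfold fx
  rw [Submodule.mem_inf, LinearMap.mem_ker, LinearMap.sub_apply, LinearMap.id_apply, sub_eq_zero]

theorem mem_mv {f : V →ₗ[F] V} {U : Submodule F V} {x : V} : x ∈ mv f U ↔ ∃ y ∈ U, f y - y = x := by
  unfold mv
  rw [Submodule.mem_map]
  rfl

theorem mv_le {f : V →ₗ[F] V} {U : Submodule F V} (hU : ∀ x ∈ U, f x ∈ U) : mv f U ≤ U := by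
  intro x hx
  obtain ⟨y, hy, rfl⟩ := mem_mv.1 hx
  exact Submodule.sub_mem _ (hU y hy) hy

variable [FiniteDimensional F V]

theorem finrank_fx_mv (f : V →ₗ[F] V) (U : Submodule F V) : finrank F (fx f U) + finrank F (mv f U) = finrank F U := by
  have h1 := LinearMap.finrank_range_add_finrank_ker ((f - LinearMap.id).domRestrict U)
  have h2 : LinearMap.range ((f - LinearMap.id).domRestrict U) = mv f U := by
    ext x
    rw [mem_mv, LinearMap.mem_range]
    constructor
    · rintro ⟨y, rfl⟩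
      exact ⟨y.1, y.2, rfl⟩
    · rintro ⟨y, hy, rfl⟩
      exact ⟨⟨y, hy⟩, rfl⟩
  have h3 : finrank F (LinearMap.ker ((f - LinearMap.id).domRestrict U)) = finrank F (fx f U) := by
    have e : (LinearMap.ker ((f - LinearMap.id).domRestrict U)).map U.subtype = fx f U := by
      ext x
      constructor
      · rintro ⟨y, hy, rfl⟩
        exact ⟨y.2, hy⟩
      · rintro ⟨h1, h2⟩
        exact ⟨⟨x, h1⟩, h2, rfl⟩
    rw [← e]
    exact (LinearEquiv.finrank_eq (Submodule.equivMapOfInjective U.subtype U.subtype_injective _))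
  rw [h2, h3] at h1
  omega

theorem fx_mv_disj {f : V →ₗ[F] V} {U : Submodule F V} {N : ℕ} (hN : (N : F) ≠ 0) (hf : ∀ x ∈ U, f^[N] x = x) :
    fx f U ⊓ mv f U = ⊥ := by
  rw [eq_bot_iff]
  rintro x ⟨hx1, hx2⟩
  obtain ⟨_, hx1⟩ := mem_fx.1 hx1
  obtain ⟨y, hy, rfl⟩ := mem_mv.1 hx2
  rw [Submodule.mem_bot]
  exact fix_move f hN (hf y hy) hx1

theorem fx_sup_mv {f : V →ₗ[F] V} {U : Submodule F V} (hU : ∀ x ∈ U, f x ∈ U) {N : ℕ} (hN : (N : F) ≠ 0) (hf : ∀ x ∈ U, f^[N] x = x) :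
    fx f U ⊔ mv f U = U := by
  apply Submodule.eq_of_le_of_finrank_eq
  · exact sup_le inf_le_left (mv_le hU)
  · have h1 := Submodule.finrank_sup_add_finrank_inf_eq (fx f U) (mv f U)
    rw [fx_mv_disj hN hf, finrank_bot, add_zero] at h1
    rw [h1, finrank_fx_mv]

variable [Fintype F]

theorem card_sub (U : Submodule F V) : Nat.card U = Fintype.card F ^ finrank F U := by
  haveI : Finite V := Module.finite_of_finite F
  haveI : Fintype U := Fintype.ofFinite _
  rw [Nat.card_eq_fintype_card]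
  exact Module.card_eq_pow_finrank (K := F) (V := U)

/-- congruence for fixed vectors in an invariant subspace -/
theorem fix_modEq_sub {f : V →ₗ[F] V} {U : Submodule F V} (hU : ∀ x ∈ U, f x ∈ U) {r : ℕ} (hr : r.Prime) (hf : ∀ x ∈ U, f^[r] x = x) :
    Fintype.card F ^ finrank F U ≡ Fintype.card F ^ finrank F (fx f U) [MOD r] := by
  haveI : Finite V := Module.finite_of_finite F
  have h1 := fix_modEq (X := U) (fun x => ⟨f x.1, hU x.1 x.2⟩) hr (by
    intro x
    apply Subtype.ext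
    have h2 : ∀ n : ℕ, (((fun x : U => (⟨f x.1, hU x.1 x.2⟩ : U))^[n] x : U) : V) = f^[n] x.1 := by
      intro n
      induction n with
      | zero => rfl
      | succ n ih => rw [Function.iterate_succ_apply', Function.iterate_succ_apply', ← ih]
    rw [h2]
    exact hf x.1 x.2)
  rw [card_sub] at h1
  refine h1.trans ?_
  rw [← card_sub]
  rw [show Nat.card {x : U // (fun x : U => (⟨f x.1, hU x.1 x.2⟩ : U)) x = x} = Nat.card (fx f U) from ?_]
  refine Nat.card_congr ⟨fun x => ⟨x.1.1, mem_fx.2 ⟨x.1.2, congrArg Subtype.val x.2⟩⟩, fun x => ⟨⟨x.1, (mem_fx.1 x.2).1⟩, Subtype.ext (mem_fx.1 x.2).2⟩,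
    fun x => rfl, fun x => rfl⟩

/-- `p`-elements have fixed vectors -/
theorem exists_fixed {f : V →ₗ[F] V} {U : Submodule F V} (hU : ∀ x ∈ U, f x ∈ U) {p : ℕ} (hp : p.Prime) (hpq : p ∣ Fintype.card F)
    (hf : ∀ x ∈ U, f^[p] x = x) (hU0 : U ≠ ⊥) : fx f U ≠ ⊥ := by
  intro h0
  have h1 := fix_modEq_sub hU hp hf
  rw [h0, finrank_bot, pow_zero] at h1
  have h2 : 0 < finrank F U := by
    rw [Nat.pos_iff_ne_zero]
    intro h3
    exact hU0 (Submodule.finrank_eq_zero.1 h3)
  have h3 : Fintype.card F ^ finrank F U ≡ 0 [MOD p] := (Nat.modEq_zero_iff_dvd).2 (hpq.trans (dvd_pow_self _ h2.ne'))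
  have h4 := h3.symm.trans h1
  have h5 : p ∣ 1 := (Nat.modEq_zero_iff_dvd).1 h4.symm
  exact hp.one_lt.ne' (Nat.dvd_one.1 h5)

theorem ord_dvd_of {q M r : ℕ} (hq : 0 < q) (hM : 0 < M) (h1 : r ∣ q ^ M - 1) (h2 : ∀ k, 0 < k → k < M → ¬ r ∣ q ^ k - 1) {d : ℕ}
    (hd : r ∣ q ^ d - 1) : M ∣ d := by
  by_contra hcon
  have h3 : 0 < d % M := Nat.pos_of_ne_zero fun h => hcon (Nat.dvd_of_mod_eq_zero h)
  apply h2 _ h3 (Nat.mod_lt _ hM)
  have e1 : q ^ M ≡ 1 [MOD r] := ((Nat.modEq_iff_dvd' (Nat.one_le_pow _ _ hq)).2 h1).symm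
  have e2 : q ^ d ≡ 1 [MOD r] := ((Nat.modEq_iff_dvd' (Nat.one_le_pow _ _ hq)).2 hd).symm
  have e3 : q ^ d = (q ^ M) ^ (d / M) * q ^ (d % M) := by
    rw [← pow_mul, ← pow_add, Nat.div_add_mod]
  have e4 : q ^ (d % M) ≡ 1 [MOD r] := by
    have : (q ^ M) ^ (d / M) * q ^ (d % M) ≡ 1 * q ^ (d % M) [MOD r] := by
      apply Nat.ModEq.mul_right
      have := e1.pow (d / M)
      rwa [one_pow] at this
    rw [← e3, one_mul] at this
    exact this.symm.trans e2
  exact (Nat.modEq_iff_dvd' (Nat.one_le_pow _ _ hq)).1 e4.symm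

/-- invariant subspaces without fixed vectors have dimension divisible by the order -/
theorem dim_dvd {f : V →ₗ[F] V} {U : Submodule F V} (hU : ∀ x ∈ U, f x ∈ U) {r M : ℕ} (hr : r.Prime) (hf : ∀ x ∈ U, f^[r] x = x)
    (hM : 0 < M) (h1 : r ∣ Fintype.card F ^ M - 1) (h2 : ∀ k, 0 < k → k < M → ¬ r ∣ Fintype.card F ^ k - 1)
    (h0 : fx f U = ⊥) : M ∣ finrank F U := by
  have h3 := fix_modEq_sub hU hr hf
  rw [h0, finrank_bot, pow_zero] at h3
  apply ord_dvd_of Fintype.card_pos hM h1 h2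
  exact (Nat.modEq_iff_dvd' (Nat.one_le_pow _ _ Fintype.card_pos)).1 h3.symm

end CfsgLib.Bs
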