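import Cfsg.Agent.LibBs1

set_option autoImplicit false

/-! Orthogonal element orders: the decomposition by an element of primitive prime order (seat helper26). -/

namespace CfsgLib.Bs

open Module Cfsg.Agent.H22

variable {F V : Type*} [Field F] [AddCommGroup V] [Module F V] {Q : QuadraticForm F V}

/-- underlying linear map -/
def lin (g : OGrp Q) : V →ₗ[F] V := g.1.toLinearMap

theorem lin_apply (g : OGrp Q) (x : V) : lin g x = g.1 x := rfl

theorem lin_iter (g : OGrp Q) (n : ℕ) (x : V) : (lin g)^[n] x = (g ^ n).1 x := by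
  induction n generalizing x with
  | zero => rfl
  | succ n ih =>
    rw [Function.iterate_succ_apply, ih, pow_succ]
    rfl

theorem comm_apply {a b : OGrp Q} (h : a * b = b * a) (x : V) : a.1 (b.1 x) = b.1 (a.1 x) :=
  congrArg (fun g : OGrp Q => g.1 x) h

/-- fixed and moved vectors are orthogonal -/
theorem polar_fx_mv (g : OGrp Q) {x y : V} (hx : g.1 x = x) : QuadraticMap.polar Q x (g.1 y - y) = 0 := by
  have h1 : QuadraticMap.polar Q x (g.1 y) = QuadraticMap.polar Q x y := by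
    nth_rewrite 1 [← hx]
    exact og_polar g x y
  have h3 : QuadraticMap.polar Q x (g.1 y - y) = QuadraticMap.polar Q x (g.1 y) - QuadraticMap.polar Q x y := by
    rw [sub_eq_add_neg, QuadraticMap.polar_add_right, QuadraticMap.polar_neg_right, sub_eq_add_neg]
  rw [h3, h1, sub_self]

variable [FiniteDimensional F V] [Fintype F]

/-- the data: `h` of order `r` (primitive for `2m`) in dimension `2m+3` -/
structure Dat (Q : QuadraticForm F V) (h : OGrp Q) (r m : ℕ) : Prop where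
  hr : r.Prime
  hrF : (r : F) ≠ 0
  hm : 2 ≤ m
  hV : finrank F V = 2 * m + 3
  hQ : (QuadraticMap.polarBilin Q).Nondegenerate
  h2 : (2 : F) ≠ 0
  hz1 : r ∣ Fintype.card F ^ (2 * m) - 1
  hz2 : ∀ k, 0 < k → k < 2 * m → ¬ r ∣ Fintype.card F ^ k - 1
  hh : h ^ r = 1
  h1 : h ≠ 1

variable {h : OGrp Q} {r m : ℕ}

/-- fixed space -/
abbrev V0 (h : OGrp Q) : Submodule F V := fx (lin h) ⊤
/-- moved space -/
abbrev W0 (h : OGrp Q) : Submodule F V := mv (lin h) ⊤

theorem Dat.iter (D : Dat Q h r m) (x : V) : (lin h)^[r] x = x := by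
  rw [lin_iter, D.hh]; rfl

theorem Dat.sup (D : Dat Q h r m) : V0 h ⊔ W0 h = ⊤ :=
  fx_sup_mv (fun _ _ => Submodule.mem_top) D.hrF (fun x _ => D.iter x)

theorem Dat.inf (D : Dat Q h r m) : V0 h ⊓ W0 h = ⊥ :=
  fx_mv_disj D.hrF (fun x _ => D.iter x)

theorem mem_V0 {x : V} : x ∈ V0 h ↔ h.1 x = x := by
  rw [mem_fx]
  exact ⟨fun H => H.2, fun H => ⟨Submodule.mem_top, H⟩⟩

theorem mem_W0 {x : V} : x ∈ W0 h ↔ ∃ y, h.1 y - y = x := by
  rw [mem_mv]
  exact ⟨fun ⟨y, _, H⟩ => ⟨y, H⟩, fun ⟨y, H⟩ => ⟨y, Submodule.mem_top, H⟩⟩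

theorem Dat.decomp (D : Dat Q h r m) (x : V) : ∃ y ∈ V0 h, ∃ w ∈ W0 h, y + w = x := by
  have : x ∈ V0 h ⊔ W0 h := by rw [D.sup]; exact Submodule.mem_top
  exact Submodule.mem_sup.1 this

theorem polar_V0_W0 {x y : V} (hx : x ∈ V0 h) (hy : y ∈ W0 h) : QuadraticMap.polar Q x y = 0 := by
  obtain ⟨z, rfl⟩ := mem_W0.1 hy
  exact polar_fx_mv h (mem_V0.1 hx)

/-- invariant subspaces of the moved space -/
theorem Dat.dvd_of_le (D : Dat Q h r m) {U : Submodule F V} (hU : U ≤ W0 h) (hi : ∀ x ∈ U, h.1 x ∈ U) : 2 * m ∣ finrank F U := by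
  refine dim_dvd (f := lin h) hi D.hr (fun x _ => D.iter x) (by have := D.hm; omega) D.hz1 D.hz2 ?_
  rw [eq_bot_iff, ← D.inf]
  intro x hx
  obtain ⟨hx1, hx2⟩ := mem_fx.1 hx
  exact ⟨mem_V0.2 hx2, hU hx1⟩

theorem W0_inv {a : OGrp Q} (ha : a * h = h * a) : ∀ x ∈ W0 h, a.1 x ∈ W0 h := by
  intro x hx
  obtain ⟨y, rfl⟩ := mem_W0.1 hx
  refine mem_W0.2 ⟨a.1 y, ?_⟩
  rw [map_sub, comm_apply ha]

theorem V0_inv {a : OGrp Q} (ha : a * h = h * a) : ∀ x ∈ V0 h, a.1 x ∈ V0 h := by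
  intro x hx
  rw [mem_V0] at hx ⊢
  rw [← comm_apply ha, hx]

theorem Dat.finrank_W0 (D : Dat Q h r m) : finrank F (W0 h) = 2 * m := by
  have h1 := D.dvd_of_le (U := W0 h) le_rfl (W0_inv rfl)
  have h3 : finrank F (W0 h) ≤ 2 * m + 3 := by rw [← D.hV]; exact Submodule.finrank_le _
  have h4 : finrank F (W0 h) ≠ 0 := by
    intro h0
    apply D.h1
    apply og_ext
    intro x
    have h5 : W0 h = ⊥ := Submodule.finrank_eq_zero.1 h0
    have h6 : h.1 x - x ∈ W0 h := mem_W0.2 ⟨x, rfl⟩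
    rw [h5, Submodule.mem_bot, sub_eq_zero] at h6
    exact h6
  obtain ⟨c, hc⟩ := h1
  have hm := D.hm
  have hc1 : c = 1 := by
    rcases Nat.lt_or_ge c 2 with h7 | h7
    · interval_cases c
      · omega
      · rfl
    · exfalso
      have : 2 * m * 2 ≤ 2 * m * c := Nat.mul_le_mul_left _ h7
      omega
  rw [hc, hc1, mul_one]

theorem Dat.finrank_V0 (D : Dat Q h r m) : finrank F (V0 h) = 3 := by
  have h1 : finrank F (V0 h) + finrank F (W0 h) = finrank F (⊤ : Submodule F V) := finrank_fx_mv (lin h) (⊤ : Submodule F V)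
  rw [finrank_top, D.hV, D.finrank_W0] at h1
  omega

/-- irreducibility -/
theorem Dat.irr (D : Dat Q h r m) {a : OGrp Q} (ha : a * h = h * a) : fx (lin a) (W0 h) = ⊥ ∨ ∀ x ∈ W0 h, a.1 x = x := by
  have h1 := D.dvd_of_le (U := fx (lin a) (W0 h)) inf_le_left (by
    intro x hx
    obtain ⟨hx1, hx2⟩ := mem_fx.1 hx
    rw [lin_apply] at hx2
    refine mem_fx.2 ⟨W0_inv rfl x hx1, ?_⟩
    rw [lin_apply, comm_apply ha, hx2])
  by_cases h0 : finrank F (fx (lin a) (W0 h)) = 0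
  · exact Or.inl (Submodule.finrank_eq_zero.1 h0)
  · right
    have h3 : finrank F (fx (lin a) (W0 h)) = finrank F (W0 h) := by
      apply le_antisymm (Submodule.finrank_mono inf_le_left)
      rw [D.finrank_W0]
      exact Nat.le_of_dvd (Nat.pos_of_ne_zero h0) h1
    have h4 := Submodule.eq_of_le_of_finrank_eq (inf_le_left : fx (lin a) (W0 h) ≤ W0 h) h3
    intro x hx
    rw [← h4] at hx
    exact (mem_fx.1 hx).2

theorem Dat.nondeg_V0 (D : Dat Q h r m) {x : V} (hx : x ∈ V0 h) (H : ∀ y ∈ V0 h, QuadraticMap.polar Q x y = 0) : x = 0 := by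
  apply D.hQ.1
  intro y
  rw [QuadraticMap.polarBilin_apply_apply]
  obtain ⟨y0, hy0, w, hw, rfl⟩ := D.decomp y
  rw [QuadraticMap.polar_add_right, H y0 hy0, polar_V0_W0 hx hw, add_zero]

/-- equality of elements from the two pieces -/
theorem Dat.eq_one (D : Dat Q h r m) {a : OGrp Q} (h1 : ∀ x ∈ V0 h, a.1 x = x) (h3 : ∀ x ∈ W0 h, a.1 x = x) : a = 1 := by
  apply og_ext
  intro x
  obtain ⟨y, hy, w, hw, rfl⟩ := D.decomp x
  rw [map_add, h1 y hy, h3 w hw]
  rfl

/-- a `p`-element of the centralizer is trivial on the moved space -/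
theorem Dat.p_elt (D : Dat Q h r m) {u : OGrp Q} (hu : u * h = h * u) {p : ℕ} (hp : p.Prime) (hpq : p ∣ Fintype.card F) (hup : u ^ p = 1) :
    ∀ x ∈ W0 h, u.1 x = x := by
  rcases D.irr hu with h0 | h0
  · exfalso
    refine exists_fixed (f := lin u) (U := W0 h) (W0_inv hu) hp hpq (fun x _ => by rw [lin_iter, hup]; rfl) ?_ h0
    intro h3
    have := D.finrank_W0
    rw [h3, finrank_bot] at this
    have hm := D.hm
    omega
  · exact h0

/-- the fixed line of the unipotent part -/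
theorem Dat.line (D : Dat Q h r m) {u : OGrp Q} (hu : u * h = h * u) {p : ℕ} (hp : p.Prime) (hpq : p ∣ Fintype.card F) (hup : u ^ p = 1)
    (hu1 : u ≠ 1) : ∃ e ∈ V0 h, e ≠ 0 ∧ u.1 e = e ∧ Q e = 0 ∧ ∀ x ∈ V0 h, u.1 x = x → ∃ c : F, x = c • e := by
  have hW := D.p_elt hu hp hpq hup
  have hit : ∀ x, (lin u)^[p] x = x := fun x => by rw [lin_iter, hup]; rfl
  have hinv : ∀ x ∈ V0 h, lin u x ∈ V0 h := V0_inv hu
  set E := fx (lin u) (V0 h) with hE
  set M := mv (lin u) (V0 h) with hM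
  have hdim : finrank F E + finrank F M = 3 := by rw [hE, hM, finrank_fx_mv, D.finrank_V0]
  have hMne : M ≠ ⊥ := by
    intro h0
    apply hu1
    apply D.eq_one _ hW
    intro x hx
    have : u.1 x - x ∈ M := mem_mv.2 ⟨x, hx, rfl⟩
    rw [h0, Submodule.mem_bot, sub_eq_zero] at this
    exact this
  have hMinv : ∀ x ∈ M, lin u x ∈ M := by
    intro x hx
    obtain ⟨y, hy, rfl⟩ := mem_mv.1 hx
    refine mem_mv.2 ⟨lin u y, hinv y hy, ?_⟩
    rw [map_sub]
  have hMle : M ≤ V0 h := mv_le hinv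
  have hfM : fx (lin u) M ≠ ⊥ := exists_fixed hMinv hp hpq (fun x _ => hit x) hMne
  have hfME : fx (lin u) M ≤ E := by
    intro x hx
    obtain ⟨h3, h4⟩ := mem_fx.1 hx
    exact mem_fx.2 ⟨hMle h3, h4⟩
  have hEM : ∀ x ∈ E, ∀ y ∈ M, QuadraticMap.polar Q x y = 0 := by
    intro x hx y hy
    obtain ⟨z, hz, rfl⟩ := mem_mv.1 hy
    exact polar_fx_mv u (mem_fx.1 hx).2
  have hMpos : finrank F M ≠ 0 := fun h0 => hMne (Submodule.finrank_eq_zero.1 h0)
  have hEpos : finrank F E ≠ 0 := by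
    intro h0
    have h3 : E = ⊥ := Submodule.finrank_eq_zero.1 h0
    rw [h3, le_bot_iff] at hfME
    exact hfM hfME
  obtain ⟨e, he, he0⟩ := Submodule.exists_mem_ne_zero_of_ne_bot hfM
  have heM : e ∈ M := (mem_fx.1 he).1
  have heE : e ∈ E := hfME he
  have hQe : Q e = 0 := by
    have := hEM e heE e heM
    rw [pself] at this
    exact (mul_eq_zero.1 this).resolve_left D.h2
  have hE1 : finrank F E = 1 := by
    by_contra hne
    have hM1 : finrank F M = 1 := by omega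
    apply he0
    apply D.nondeg_V0 (hMle heM)
    intro y hy
    by_cases hyE : u.1 y = y
    · rw [QuadraticMap.polar_comm]
      exact hEM y (mem_fx.2 ⟨hy, hyE⟩) e heM
    · have hey : u.1 y - y ∈ M := mem_mv.2 ⟨y, hy, rfl⟩
      obtain ⟨c, hc⟩ := (finrank_eq_one_iff_of_nonzero' (⟨e, heM⟩ : M) (by
        intro h3; exact he0 (congrArg Subtype.val h3))).1 hM1 ⟨u.1 y - y, hey⟩
      have hc' : c • e = u.1 y - y := congrArg Subtype.val hc
      have hc0 : c ≠ 0 := by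
        rintro rfl
        rw [zero_smul] at hc'
        exact hyE (sub_eq_zero.1 hc'.symm)
      have h5 : u.1 y = y + c • e := by rw [hc']; abel
      have h6 : Q (y + c • e) = Q y := by rw [← h5, og_Q]
      have h7 : Q (y + c • e) = Q y + Q (c • e) + QuadraticMap.polar Q y (c • e) := by
        unfold QuadraticMap.polar; ring
      rw [h7, qsmul, hQe, mul_zero, add_zero, add_eq_left, QuadraticMap.polar_smul_right, smul_eq_mul] at h6
      rw [QuadraticMap.polar_comm]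
      exact (mul_eq_zero.1 h6).resolve_left hc0
  refine ⟨e, hMle heM, he0, (mem_fx.1 he).2, hQe, ?_⟩
  intro x hx hux
  obtain ⟨c, hc⟩ := (finrank_eq_one_iff_of_nonzero' (⟨e, heE⟩ : E) (by
    intro h3; exact he0 (congrArg Subtype.val h3))).1 hE1 ⟨x, mem_fx.2 ⟨hx, hux⟩⟩
  exact ⟨c, (congrArg Subtype.val hc).symm⟩

end CfsgLib.Bs
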