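import Cfsg.Agent.LibBs2

set_option autoImplicit false

/-! Orthogonal element orders: the 2-part (seat helper26). -/

namespace CfsgLib.Bs

open Module Cfsg.Agent.H22

theorem sign_pow2 {X : Type*} [Fintype X] [DecidableEq X] (σ : Equiv.Perm X) (a : ℕ) (ha : 1 ≤ a) (h1 : σ ^ (2 ^ a) = 1)
    (h2 : ∀ x, σ x ≠ x → ∀ j, 0 < j → j < 2 ^ a → (σ ^ j) x ≠ x) :
    ∃ k, Nat.card X = Nat.card {x // σ x = x} + 2 ^ a * k ∧ Equiv.Perm.sign σ = (-1) ^ k := by
  have h3 : ∀ n ∈ σ.cycleType, n = 2 ^ a := by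
    intro n hn
    have hdvd : n ∣ 2 ^ a := (Equiv.Perm.dvd_of_mem_cycleType hn).trans (orderOf_dvd_of_pow_eq_one h1)
    have hle : n ≤ 2 ^ a := Nat.le_of_dvd (by positivity) hdvd
    obtain ⟨c, τ, rfl, hd, hc, hcn⟩ := Equiv.Perm.mem_cycleType_iff.1 hn
    obtain ⟨x, hx, -⟩ := id hc
    have hcx : x ∈ c.support := Equiv.Perm.mem_support.2 hx
    have hτx : τ x = x := (hd x).resolve_left hx
    by_contra hne
    have hlt : n < 2 ^ a := lt_of_le_of_ne hle hne
    have hn0 : 0 < n := Nat.pos_of_dvd_of_pos hdvd (by positivity)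
    have hσx : (c * τ) x ≠ x := by
      rw [Equiv.Perm.mul_apply, hτx]; exact hx
    apply h2 x hσx n hn0 hlt
    rw [hd.commute.mul_pow, Equiv.Perm.mul_apply]
    have h4 : ∀ j : ℕ, (τ ^ j) x = x := by
      intro j
      induction j with
      | zero => rfl
      | succ j ih => rw [pow_succ, Equiv.Perm.mul_apply, hτx, ih]
    rw [h4]
    have h5 : c ^ n = 1 := by
      rw [← hcn, ← hc.orderOf]
      exact pow_orderOf_eq_one c
    rw [h5]; rfl
  have h4 := Multiset.eq_replicate_card.2 h3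
  have h5 : σ.cycleType.sum = Multiset.card σ.cycleType * 2 ^ a := by
    conv_lhs => rw [h4]
    rw [Multiset.sum_replicate, smul_eq_mul]
  refine ⟨Multiset.card σ.cycleType, ?_, ?_⟩
  · have h6 := Equiv.Perm.sum_cycleType σ
    rw [h5] at h6
    have h7 : Nat.card {x // σ x = x} + σ.support.card = Nat.card X := by
      rw [Nat.card_eq_fintype_card, Nat.card_eq_fintype_card, Fintype.card_subtype]
      have := Finset.card_filter_add_card_filter_not (s := (Finset.univ : Finset X)) (fun x => σ x = x)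
      rw [Finset.card_univ] at this
      exact this
    rw [mul_comm (2 ^ a), h6]
    exact h7.symm
  · rw [Equiv.Perm.sign_of_cycleType, h5, pow_add]
    have h6 : Even (Multiset.card σ.cycleType * 2 ^ a) := by
      apply Even.mul_left
      exact (Nat.even_pow.2 ⟨even_two, by omega⟩)
    rw [h6.neg_one_pow, one_mul]

variable {F V : Type*} [Field F] [AddCommGroup V] [Module F V] {Q : QuadraticForm F V}
variable [FiniteDimensional F V] [Fintype F] {h : OGrp Q} {r m : ℕ}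

theorem Dat.exists_ns (D : Dat Q h r m) : ∃ x ∈ V0 h, Q x ≠ 0 := by
  by_contra hcon
  push Not at hcon
  have h3 := D.finrank_V0
  have h4 : V0 h ≠ ⊥ := by
    intro h0
    rw [h0, finrank_bot] at h3
    omega
  obtain ⟨e, he, he0⟩ := Submodule.exists_mem_ne_zero_of_ne_bot h4
  apply he0
  apply D.nondeg_V0 he
  intro y hy
  unfold QuadraticMap.polar
  rw [hcon _ (Submodule.add_mem _ he hy), hcon _ he, hcon _ hy, sub_zero, sub_zero]

theorem Dat.scalar (D : Dat Q h r m) {u : OGrp Q} (hu : u * h = h * u) {p : ℕ} (hp : p.Prime) (hpq : p ∣ Fintype.card F) (hup : u ^ p = 1)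
    (hu1 : u ≠ 1) {z : OGrp Q} (hz : z * h = h * z) (hzu : z * u = u * z) {N : ℕ} (hzN : z ^ N = 1) (hN : (N : F) ≠ 0) :
    (∀ x ∈ V0 h, z.1 x = x) ∨ (∀ x ∈ V0 h, z.1 x = -x) := by
  obtain ⟨e, heV, he0, hue, -, hline⟩ := D.line hu hp hpq hup hu1
  obtain ⟨α, hα⟩ := hline (z.1 e) (V0_inv hz e heV) (by rw [← comm_apply hzu, hue])
  have hα0 : α ≠ 0 := by
    rintro rfl
    rw [zero_smul] at hα
    exact he0 ((LinearEquiv.map_eq_zero_iff z.1).1 hα)
  set f : V →ₗ[F] V := α⁻¹ • lin z with hf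
  have hfa : ∀ x, f x = α⁻¹ • z.1 x := fun x => rfl
  have hfit : ∀ (k : ℕ) (x : V), f^[k] x = (α⁻¹) ^ k • (z ^ k).1 x := by
    intro k
    induction k with
    | zero => intro x; rw [pow_zero, pow_zero, one_smul]; rfl
    | succ k ih =>
      intro x
      rw [Function.iterate_succ_apply', ih, hfa, map_smul, smul_smul, pow_succ' z k, ← pow_succ']
      rfl
  have hN' : ((N * (Fintype.card F - 1) : ℕ) : F) ≠ 0 := by
    rw [Nat.cast_mul, Nat.cast_sub Fintype.card_pos, FiniteField.cast_card_eq_zero]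
    simpa using hN
  have hfN : ∀ x ∈ V0 h, f^[N * (Fintype.card F - 1)] x = x := by
    intro x _
    rw [hfit, pow_mul z, hzN, one_pow, mul_comm, pow_mul, FiniteField.pow_card_sub_one_eq_one _ (inv_ne_zero hα0), one_pow, one_smul]
    rfl
  have hfinv : ∀ x ∈ V0 h, f x ∈ V0 h := fun x hx => Submodule.smul_mem _ _ (V0_inv hz x hx)
  have hdisj := fx_mv_disj (U := V0 h) hN' hfN
  have hbot : mv f (V0 h) = ⊥ := by
    by_contra hne
    have hinv : ∀ x ∈ mv f (V0 h), lin u x ∈ mv f (V0 h) := by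
      intro x hx
      obtain ⟨y, hy, rfl⟩ := mem_mv.1 hx
      refine mem_mv.2 ⟨u.1 y, V0_inv hu y hy, ?_⟩
      rw [map_sub, hfa, hfa, map_smul, comm_apply hzu]
      rfl
    have h3 := exists_fixed (f := lin u) (U := mv f (V0 h)) hinv hp hpq (fun x _ => by rw [lin_iter, hup]; rfl) hne
    obtain ⟨x, hx, hx0⟩ := Submodule.exists_mem_ne_zero_of_ne_bot h3
    obtain ⟨hx1, hx2⟩ := mem_fx.1 hx
    obtain ⟨c, rfl⟩ := hline x (mv_le hfinv hx1) hx2
    apply hx0
    rw [← Submodule.mem_bot F, ← hdisj]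
    refine ⟨mem_fx.2 ⟨Submodule.smul_mem _ _ heV, ?_⟩, hx1⟩
    rw [map_smul, hfa, hα, smul_smul α⁻¹, inv_mul_cancel₀ hα0, one_smul]
  have hz' : ∀ x ∈ V0 h, z.1 x = α • x := by
    intro x hx
    have h3 : f x - x ∈ mv f (V0 h) := mem_mv.2 ⟨x, hx, rfl⟩
    rw [hbot, Submodule.mem_bot, sub_eq_zero, hfa] at h3
    have h4 := congrArg (fun y => α • y) h3
    simp only [smul_smul, mul_inv_cancel₀ hα0, one_smul] at h4
    exact h4
  obtain ⟨x, hx, hQx⟩ := D.exists_ns
  have h5 : Q (z.1 x) = Q x := og_Q z x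
  rw [hz' x hx, qsmul] at h5
  have h6 : α * α = 1 := mul_right_cancel₀ hQx (by rw [h5, one_mul])
  rcases mul_self_eq_one_iff.1 h6 with rfl | rfl
  · left; intro x hx; rw [hz' x hx, one_smul]
  · right; intro x hx; rw [hz' x hx, neg_smul, one_smul]

theorem Dat.scalar_one (D : Dat Q h r m) {z : OGrp Q} (hz : z * h = h * z) (hzc : z ∈ commutator (OGrp Q))
    (hs : (∀ x ∈ V0 h, z.1 x = x) ∨ (∀ x ∈ V0 h, z.1 x = -x)) : ∀ x ∈ V0 h, z.1 x = x := by
  rcases hs with hs | hs
  · exact hs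
  exfalso
  obtain ⟨_, _, _, _, _, _, _, _, _, _, hmem⟩ := omega_odd D.h2 D.hQ (by rw [D.hV]; omega)
  have h3 : parFun z = 1 := ((hmem 1 one_ne_zero z).1 hzc).1
  have h4 : fixSp z = fx (lin z) (W0 h) := by
    ext x
    rw [mem_fixSp, mem_fx, lin_apply]
    constructor
    · intro hx
      refine ⟨?_, hx⟩
      obtain ⟨y, hy, w, hw, rfl⟩ := D.decomp x
      rw [map_add, hs y hy] at hx
      have h5 : z.1 w - w = 2 • y := by
        have : z.1 w = y + w + y := by
          rw [← hx]; abel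
        rw [this]; abel
      have h6 : z.1 w - w ∈ W0 h := Submodule.sub_mem _ (W0_inv hz w hw) hw
      have h7 : (2 : ℕ) • y ∈ V0 h ⊓ W0 h := ⟨Submodule.smul_of_tower_mem _ 2 hy, by rw [← h5]; exact h6⟩
      rw [D.inf, Submodule.mem_bot, two_smul, ← two_smul F] at h7
      rw [(smul_eq_zero.1 h7).resolve_left D.h2, zero_add]
      exact hw
    · exact fun hx => hx.2
  have h5 : 2 * m ∣ finrank F (fixSp z) := by
    rw [h4]
    rcases D.irr hz with h0 | h0
    · rw [h0, finrank_bot]; exact dvd_zero _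
    · have : fx (lin z) (W0 h) = W0 h := by
        apply le_antisymm inf_le_left
        intro x hx
        exact mem_fx.2 ⟨hx, h0 x hx⟩
      rw [this, D.finrank_W0]
  obtain ⟨c, hc⟩ := h5
  unfold parFun at h3
  rw [hc, D.hV] at h3
  have h6 : Odd (2 * m * c + (2 * m + 3)) := ⟨m * c + m + 1, by ring⟩
  rw [h6.neg_one_pow] at h3
  exact absurd h3 (by decide)

/-- fixed points of the nontrivial powers -/
theorem Dat.fix_of (D : Dat Q h r m) {z : OGrp Q} (hz : z * h = h * z) (hs : ∀ x ∈ V0 h, z.1 x = x) (hz1 : z ≠ 1) {x : V} (hx : z.1 x = x) :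
    x ∈ V0 h := by
  rcases D.irr hz with h0 | h0
  · obtain ⟨y, hy, w, hw, rfl⟩ := D.decomp x
    rw [map_add, hs y hy, add_right_inj] at hx
    have : w ∈ fx (lin z) (W0 h) := mem_fx.2 ⟨hw, hx⟩
    rw [h0, Submodule.mem_bot] at this
    rw [this, add_zero]; exact hy
  · exact absurd (D.eq_one hs h0) hz1

end CfsgLib.Bs
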