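import Cfsg.Agent.LibBs3
import Cfsg.Agent.LibH22Exist
import Cfsg.Agent.LibLEZsig

set_option autoImplicit false

/-! Orthogonal element orders: the sign argument (seat helper26). -/

namespace CfsgLib.Bs

open Module Cfsg.Agent.H22

theorem cnt_line {F V : Type*} [Field F] [AddCommGroup V] [Module F V] [FiniteDimensional F V] [Fintype F] (Q : QuadraticForm F V)
    (h2 : (2 : F) ≠ 0) (h1 : finrank F V = 1) : cnt Q 1 = 0 ∨ cnt Q 1 = 2 := by
  classical
  haveI : Finite V := Module.finite_of_finite F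
  by_cases hex : ∃ x, Q x = 1
  · right
    obtain ⟨x, hx⟩ := hex
    have hx0 : x ≠ 0 := by
      rintro rfl
      rw [QuadraticMap.map_zero] at hx
      exact zero_ne_one hx
    have hset : {v : V | Q v = 1} = {x, -x} := by
      ext y
      simp only [Set.mem_setOf_eq, Set.mem_insert_iff, Set.mem_singleton_iff]
      constructor
      · intro hy
        obtain ⟨c, rfl⟩ := (finrank_eq_one_iff_of_nonzero' x hx0).1 h1 y
        rw [qsmul, hx, mul_one] at hy
        rcases mul_self_eq_one_iff.1 hy with rfl | rfl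
        · left; rw [one_smul]
        · right; rw [neg_smul, one_smul]
      · rintro (rfl | rfl)
        · exact hx
        · rw [QuadraticMap.map_neg]; exact hx
    unfold cnt
    have : Nat.card {v : V // Q v = 1} = Set.ncard {v : V | Q v = 1} := rfl
    rw [this, hset, Set.ncard_pair]
    intro h
    exact neg_ne_self h2 hx0 h.symm
  · left
    unfold cnt
    have : IsEmpty {v : V // Q v = 1} := ⟨fun v => hex ⟨v.1, v.2⟩⟩
    exact Nat.card_of_isEmpty

theorem cnt_odd_one {F : Type*} [Field F] [Fintype F] (h2 : (2 : F) ≠ 0) (m : ℕ) :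
    cnt (qOdd m F) 1 = Fintype.card F ^ (2 * m) + Fintype.card F ^ m := by
  refine count_zero (fun j => 2 * j + 1) (fun j => Fintype.card F ^ (2 * j) + Fintype.card F ^ j) (fun j => by ring) (fun j => ?_) 1 m _ (qOdd m F) (by simp; ring)
    (famOdd m F) (qfam_odd m) ?_
  · obtain ⟨r, hr⟩ : ∃ r, Fintype.card F = r + 1 := ⟨Fintype.card F - 1, by have := Fintype.card_pos (α := F); omega⟩
    rw [hr, Nat.add_sub_cancel]; ring
  · have hval : ∀ t : F, (qOdd m F) (Pi.single (.inl ()) t) = t ^ 2 := by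
      intro t
      rw [coe_qOdd]
      unfold Cfsg.quadFormOdd
      simp
    have e : {x : Unit ⊕ (Fin m ⊕ Fin m) → F // cperp (qOdd m F) (famOdd m F) x ∧ (qOdd m F) x = 1} ≃ {t : F // t = 1 ∨ t = -1} := by
      refine ⟨fun x => ⟨x.1 (.inl ()), ?_⟩, fun t => ⟨Pi.single (.inl ()) t.1, ?_, ?_⟩, ?_, ?_⟩
      · have h1 := x.2.1
        have h3 := x.2.2
        rw [cperp_odd] at h1
        rw [h1, hval] at h3
        exact mul_self_eq_one_iff.1 (by rw [← pow_two]; exact h3)
      · rw [cperp_odd]; simp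
      · rw [hval]
        rcases t.2 with h | h <;> rw [h] <;> ring
      · intro x
        apply Subtype.ext
        have h1 := x.2.1
        rw [cperp_odd] at h1
        exact h1.symm
      · intro t
        apply Subtype.ext
        simp
    rw [Nat.card_congr e]
    have : Nat.card {t : F // t = 1 ∨ t = -1} = Set.ncard ({1, -1} : Set F) := rfl
    rw [this, Set.ncard_pair]
    · simp
    · intro h
      apply h2
      have : (2 : F) = 1 + 1 := by norm_num
      rw [this]
      nth_rewrite 2 [h]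
      simp

variable {F V : Type*} [Field F] [AddCommGroup V] [Module F V] {Q : QuadraticForm F V}
variable [FiniteDimensional F V] [Fintype F] {h : OGrp Q} {r m : ℕ}

theorem Dat.card_V0 (D : Dat Q h r m) {e : V} (he : e ∈ V0 h) (he0 : e ≠ 0) (hQe : Q e = 0) :
    cnt (qres Q (V0 h)) 1 = Fintype.card F ^ 2 + Fintype.card F ∨ cnt (qres Q (V0 h)) 1 + Fintype.card F = Fintype.card F ^ 2 := by
  have hnd : (QuadraticMap.polarBilin (qres Q (V0 h))).Nondegenerate := by
    apply nondeg_of_left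
    intro x hx
    apply Subtype.ext
    apply D.nondeg_V0 x.2
    intro y hy
    have := hx ⟨y, hy⟩
    rwa [polar_qres] at this
  obtain ⟨f, hf⟩ := exists_HP_of_singular hnd (⟨e, he⟩ : V0 h) (fun h0 => he0 (congrArg Subtype.val h0)) (by rw [qres_apply]; exact hQe)
  have h1 := hf.cnt_eq 1
  have h3 := hf.finrank_eq
  rw [D.finrank_V0] at h3
  have h4 : finrank F (perp2 (qres Q (V0 h)) ⟨e, he⟩ f) = 1 := by omega
  rw [h4, pow_one] at h1
  obtain ⟨q, hq⟩ : ∃ q, Fintype.card F = q + 1 := ⟨Fintype.card F - 1, by have := Fintype.card_pos (α := F); omega⟩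
  rw [hq, Nat.add_sub_cancel] at h1
  rcases cnt_line (qres (qres Q (V0 h)) (perp2 (qres Q (V0 h)) ⟨e, he⟩ f)) D.h2 h4 with h5 | h5
  · right
    rw [h5] at h1
    rw [h1, hq]; ring
  · left
    rw [h5] at h1
    rw [h1, hq]; ring

theorem og_one_apply (x : V) : (1 : OGrp Q).1 x = x := rfl

/-- the congruence modulo `r` -/
theorem Dat.cnt_modEq (D : Dat Q h r m) : cnt Q 1 ≡ cnt (qres Q (V0 h)) 1 [MOD r] := by
  haveI : Finite V := Module.finite_of_finite F
  have h1 := fix_modEq (X := {v : V // Q v = 1}) (fun v => ⟨h.1 v.1, by rw [og_Q]; exact v.2⟩) D.hr (by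
    intro x
    apply Subtype.ext
    have h2 : ∀ n : ℕ, (((fun v : {v : V // Q v = 1} => (⟨h.1 v.1, by rw [og_Q]; exact v.2⟩ : {v : V // Q v = 1}))^[n] x : {v : V // Q v = 1}) : V) = (lin h)^[n] x.1 := by
      intro n
      induction n with
      | zero => rfl
      | succ n ih => rw [Function.iterate_succ_apply', Function.iterate_succ_apply', ← ih]; rfl
    rw [h2]
    exact D.iter x.1)
  refine h1.trans ?_
  rw [show cnt (qres Q (V0 h)) 1 = Nat.card {x : {v : V // Q v = 1} // (fun v : {v : V // Q v = 1} => (⟨h.1 v.1, by rw [og_Q]; exact v.2⟩ : {v : V // Q v = 1})) x = x} from ?_]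
  exact Nat.card_congr ⟨fun v => ⟨⟨v.1.1, v.2⟩, Subtype.ext (mem_V0.1 v.1.2)⟩, fun x => ⟨⟨x.1.1, mem_V0.2 (congrArg Subtype.val x.2)⟩, x.1.2⟩,
    fun v => rfl, fun x => rfl⟩

theorem rhoC_apply (g : OGrp Q) (c : F) (v : {v : V // Q v = c}) : ((rhoC Q c g) v).1 = g.1 v.1 := rfl

/-- the sign -/
theorem Dat.sgn (D : Dat Q h r m) {z : OGrp Q} (hz : z * h = h * z) {a : ℕ} (ha : 1 ≤ a) (hz2 : orderOf z = 2 ^ a)
    (hs : ∀ x ∈ V0 h, z.1 x = x) : ∃ k, cnt Q 1 = cnt (qres Q (V0 h)) 1 + 2 ^ a * k ∧ sgnC Q 1 z = (-1) ^ k := by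
  classical
  haveI : Finite V := Module.finite_of_finite F
  haveI : Fintype {v : V // Q v = 1} := Fintype.ofFinite _
  have hpow : ∀ j : ℕ, ∀ x ∈ V0 h, (z ^ j).1 x = x := by
    intro j
    induction j with
    | zero => intro x _; rfl
    | succ j ih =>
      intro x hx
      rw [pow_succ]
      show (z ^ j).1 (z.1 x) = x
      rw [hs x hx, ih x hx]
  obtain ⟨k, hk1, hk2⟩ := sign_pow2 (rhoC Q 1 z) a ha (by rw [← map_pow, ← hz2, pow_orderOf_eq_one, map_one]) (by
    intro x hx j hj0 hj hfix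
    apply hx
    have h3 : (z ^ j).1 x.1 = x.1 := by
      have := congrArg Subtype.val hfix
      rw [← map_pow] at this
      exact this
    have h4 : z ^ j ≠ 1 := by
      intro h5
      have := orderOf_dvd_of_pow_eq_one h5
      rw [hz2] at this
      exact absurd (Nat.le_of_dvd hj0 this) (by omega)
    have h5 := D.fix_of (z := z ^ j) ((show Commute z h from hz).pow_left j) (hpow j) h4 h3
    exact Subtype.ext (hs _ h5))
  refine ⟨k, ?_, ?_⟩
  · have h3 : Nat.card {x : {v : V // Q v = 1} // (rhoC Q 1 z) x = x} = cnt (qres Q (V0 h)) 1 := by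
      have hz1 : z ≠ 1 := by
        rintro rfl
        rw [orderOf_one] at hz2
        have : 2 ^ 1 ≤ 2 ^ a := Nat.pow_le_pow_right (by norm_num) ha
        omega
      exact Nat.card_congr ⟨fun x => ⟨⟨x.1.1, D.fix_of hz hs hz1 (congrArg Subtype.val x.2)⟩, x.1.2⟩,
        fun v => ⟨⟨v.1.1, v.2⟩, Subtype.ext (hs _ v.1.2)⟩, fun x => rfl, fun v => rfl⟩
    rw [h3] at hk1
    exact hk1
  · rw [← hk2]
    unfold sgnC
    simp only [MonoidHom.comp_apply]
    congr!

end CfsgLib.Bs
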