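import Cfsg.Agent.LibBs4
import Cfsg.Agent.LibRk5

set_option autoImplicit false

/-! No element of order `p(q^m+1)` in `Ω_{2m+3}(q)` (seat helper26). -/

namespace CfsgLib.Bs

open Module Cfsg.Agent.H22

theorem arith {q m r a b X Y k : ℕ} (hq : Odd q) (hq1 : 1 < q) (hm : 1 ≤ m) (hr : r.Prime) (hr2 : r ≠ 2) (hrq : ¬ r ∣ q) (hrm : r ∣ q ^ m + 1)
    (hab : q ^ m + 1 = 2 ^ a * b) (hb : Odd b) (hX : X = q ^ (2 * m + 2) + q ^ (m + 1)) (hY : Y = q ^ 2 + q ∨ Y + q = q ^ 2)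
    (hmod : X ≡ Y [MOD r]) (hk : X = Y + 2 ^ a * k) : Odd k := by
  have e1 : (q : ZMod r) ^ m = -1 := by
    have := (ZMod.natCast_eq_zero_iff _ _).2 hrm
    push_cast at this
    exact eq_neg_of_add_eq_zero_left this
  have hq0 : (q : ZMod r) ≠ 0 := by
    intro h
    exact hrq ((ZMod.natCast_eq_zero_iff _ _).1 h)
  haveI : Fact r.Prime := ⟨hr⟩
  have h20 : (2 : ZMod r) ≠ 0 := by
    intro h
    have h3 : ((2 : ℕ) : ZMod r) = 0 := by exact_mod_cast h
    have h4 := (ZMod.natCast_eq_zero_iff _ _).1 h3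
    exact hr2 ((Nat.prime_dvd_prime_iff_eq hr Nat.prime_two).1 h4)
  have e2 : (X : ZMod r) = (Y : ZMod r) := (ZMod.natCast_eq_natCast_iff _ _ _).2 hmod
  have e3 : (X : ZMod r) = (q : ZMod r) ^ 2 - q := by
    rw [hX]
    push_cast
    have : (q : ZMod r) ^ (2 * m + 2) = ((q : ZMod r) ^ m) ^ 2 * q ^ 2 := by ring
    rw [this, pow_succ (q : ZMod r) m, e1]
    ring
  have hY2 : Y + q = q ^ 2 := by
    rcases hY with hY | hY
    · exfalso
      rw [e3, hY] at e2
      push_cast at e2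
      have : (2 : ZMod r) * q = 0 := by linear_combination -e2
      exact (mul_ne_zero h20 hq0) this
    · exact hY
  have h5 : 2 ^ a * k = 2 ^ a * (b * (q ^ 2 * (q ^ m - 1) + q)) := by
    have h6 : 1 ≤ q ^ m := Nat.one_le_pow _ _ (by omega)
    obtain ⟨t, ht⟩ : ∃ t, q ^ m = t + 1 := ⟨q ^ m - 1, by omega⟩
    rw [← mul_assoc, ← hab, ht, Nat.add_sub_cancel]
    have h7 : X + q = Y + q + 2 ^ a * k := by rw [hk]; ring
    rw [hY2, hX, show q ^ (2 * m + 2) = (q ^ m) ^ 2 * q ^ 2 by ring, pow_succ q m, ht] at h7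
    have h8 : q ^ 2 + 2 ^ a * k = q ^ 2 + (t + 1 + 1) * (q ^ 2 * t + q) := by
      rw [← h7]; ring
    omega
  have h6 : k = b * (q ^ 2 * (q ^ m - 1) + q) := Nat.eq_of_mul_eq_mul_left (by positivity) h5
  rw [h6]
  apply hb.mul
  have h7 : Even (q ^ m - 1) := by
    have : Odd (q ^ m) := hq.pow
    exact Nat.Odd.sub_odd this odd_one
  exact (h7.mul_left _).add_odd hq

variable {F V : Type*} [Field F] [AddCommGroup V] [Module F V] {Q : QuadraticForm F V}
variable [FiniteDimensional F V] [Fintype F]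

theorem no_element (h2 : (2 : F) ≠ 0) (hQ : (QuadraticMap.polarBilin Q).Nondegenerate) {m : ℕ} (hm : 2 ≤ m) (hV : finrank F V = 2 * m + 3)
    {p : ℕ} (hp : p.Prime) (hpq : p ∣ Fintype.card F) (hcnt : cnt Q 1 = Fintype.card F ^ (2 * m + 2) + Fintype.card F ^ (m + 1))
    {g : OGrp Q} (hg : g ∈ commutator (OGrp Q)) (ho : orderOf g = p * (Fintype.card F ^ m + 1)) : False := by
  set q := Fintype.card F with hq
  have hqodd : Odd q := odd_of_two_ne_zero h2
  have hq1 : 1 < q := Fintype.one_lt_card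
  obtain ⟨r, hr, hz1, hz2⟩ := CfsgLib.LEZsig.zsigmondy_gt_two (a := q) (n := 2 * m) hq1 (by omega) (by
    rintro ⟨h3, -⟩
    rw [h3] at hqodd
    exact absurd hqodd (by decide))
  have hqm1 : 1 ≤ q ^ m := Nat.one_le_pow _ _ (by omega)
  have hrm : r ∣ q ^ m + 1 := by
    have h3 : q ^ (2 * m) - 1 = (q ^ m + 1) * (q ^ m - 1) := by
      obtain ⟨t, ht⟩ : ∃ t, q ^ m = t + 1 := ⟨q ^ m - 1, by omega⟩
      rw [mul_comm 2 m, pow_mul, ht, Nat.add_sub_cancel]
      have : (t + 1) ^ 2 = (t + 1 + 1) * t + 1 := by ring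
      rw [this, Nat.add_sub_cancel]
    rw [h3] at hz1
    rcases (hr.dvd_mul).1 hz1 with h4 | h4
    · exact h4
    · exact absurd h4 (hz2 m (by omega) (by omega))
  have hrq : ¬ r ∣ q := by
    intro h3
    have h4 : r ∣ q ^ m := dvd_pow h3 (by omega)
    have h5 : r ∣ 1 := (Nat.dvd_add_right h4).1 hrm
    exact hr.one_lt.ne' (Nat.dvd_one.1 h5)
  have hr2 : r ≠ 2 := by
    rintro rfl
    apply hz2 1 (by omega) (by omega)
    rw [pow_one]
    exact even_iff_two_dvd.1 (Nat.Odd.sub_odd hqodd odd_one)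
  have hchar : ∀ n : ℕ, ¬ p ∣ n → (n : F) ≠ 0 := by
    intro n hn h3
    obtain ⟨p', hp'⟩ := CharP.exists F
    haveI := hp'
    have hp'' : p'.Prime := CharP.char_is_prime F p'
    obtain ⟨s, _, hs⟩ := FiniteField.card F p'
    rw [← hq] at hs
    rw [hs] at hpq
    have h4 : p = p' := (Nat.prime_dvd_prime_iff_eq hp hp'').1 (hp.dvd_of_dvd_pow hpq)
    subst h4
    exact hn ((CharP.cast_eq_zero_iff F p n).1 h3)
  have hpm : ¬ p ∣ q ^ m + 1 := by
    intro h3
    have h4 : p ∣ q ^ m := dvd_pow hpq (by omega)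
    have h5 : p ∣ 1 := (Nat.dvd_add_right h4).1 h3
    exact hp.one_lt.ne' (Nat.dvd_one.1 h5)
  have hN0 : p * (q ^ m + 1) ≠ 0 := Nat.mul_ne_zero hp.ne_zero (by omega)
  -- the element of order r
  obtain ⟨c, hc⟩ := hrm
  set h : OGrp Q := g ^ (p * c) with hh
  have hc0 : c ≠ 0 := by
    rintro rfl
    omega
  have hoh : orderOf h = r := by
    have h3 : orderOf g = r * (p * c) := by rw [ho, hc]; ring
    rw [hh, orderOf_pow_of_dvd (Nat.mul_ne_zero hp.ne_zero hc0) ⟨r, by rw [h3]; ring⟩, h3]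
    exact Nat.mul_div_cancel _ (Nat.mul_pos hp.pos (Nat.pos_of_ne_zero hc0))
  have D : Dat Q h r m := {
    hr := hr
    hrF := hchar r (by
      intro h3
      have := (Nat.prime_dvd_prime_iff_eq hp hr).1 h3
      rw [this] at hpq
      exact hrq hpq)
    hm := hm
    hV := hV
    hQ := hQ
    h2 := h2
    hz1 := hz1
    hz2 := hz2
    hh := by rw [← hoh]; exact pow_orderOf_eq_one h
    h1 := by
      intro h3
      rw [h3, orderOf_one] at hoh
      exact hr.one_lt.ne hoh }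
  have hcomm : ∀ i j : ℕ, g ^ i * g ^ j = g ^ j * g ^ i := fun i j => by rw [← pow_add, ← pow_add, add_comm]
  -- the unipotent part
  set u : OGrp Q := g ^ (q ^ m + 1) with hu
  have hup : u ^ p = 1 := by rw [hu, ← pow_mul, mul_comm, ← ho, pow_orderOf_eq_one]
  have hu1 : u ≠ 1 := by
    intro h3
    have h4 := orderOf_dvd_of_pow_eq_one h3
    rw [ho] at h4
    have h5 := Nat.le_of_dvd (by omega) h4
    have h6 : 2 * (q ^ m + 1) ≤ p * (q ^ m + 1) := Nat.mul_le_mul_right _ hp.two_le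
    omega
  -- the two-part
  obtain ⟨a, b, hb, hab⟩ := Nat.exists_eq_two_pow_mul_odd (n := q ^ m + 1) (by omega)
  have ha : 1 ≤ a := by
    by_contra h3
    have h4 : a = 0 := by omega
    rw [h4, pow_zero, one_mul] at hab
    have h5 : Odd (q ^ m) := hqodd.pow
    rw [← hab] at hb
    exact absurd (h5.add_one) (Nat.not_even_iff_odd.2 hb)
  set z : OGrp Q := g ^ (p * b) with hz
  have hb0 : b ≠ 0 := by
    rintro rfl
    exact absurd hb (by decide)
  have hoz : orderOf z = 2 ^ a := by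
    have h3 : orderOf g = 2 ^ a * (p * b) := by rw [ho, hab]; ring
    rw [hz, orderOf_pow_of_dvd (Nat.mul_ne_zero hp.ne_zero hb0) ⟨2 ^ a, by rw [h3]; ring⟩, h3]
    exact Nat.mul_div_cancel _ (Nat.mul_pos hp.pos (Nat.pos_of_ne_zero hb0))
  have hz2F : ((2 ^ a : ℕ) : F) ≠ 0 := by
    push_cast
    exact pow_ne_zero _ h2
  have hzh : z * h = h * z := hcomm _ _
  have hs := D.scalar (hcomm _ _ : u * h = h * u) hp hpq hup hu1 hzh (hcomm _ _ : z * u = u * z)
    (N := 2 ^ a) (by rw [← hoz]; exact pow_orderOf_eq_one z) hz2F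
  have hzc : z ∈ commutator (OGrp Q) := Subgroup.pow_mem _ hg _
  have hs1 := D.scalar_one hzh hzc hs
  obtain ⟨k, hk1, hk2⟩ := D.sgn hzh ha hoz hs1
  obtain ⟨e, heV, he0, -, hQe, -⟩ := D.line (hcomm _ _ : u * h = h * u) hp hpq hup hu1
  have hkodd : Odd k := arith hqodd hq1 (by omega) hr hr2 hrq (hc ▸ Dvd.intro _ rfl) hab hb hcnt (D.card_V0 heV he0 hQe) D.cnt_modEq hk1
  obtain ⟨_, _, _, _, _, _, _, _, _, _, hmem⟩ := omega_odd h2 hQ (by rw [hV]; omega)
  have h3 := ((hmem 1 one_ne_zero z).1 hzc).2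
  rw [hk2, hkodd.neg_one_pow] at h3
  exact absurd h3 (by decide)

end CfsgLib.Bs
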