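import Cfsg.Agent.LibH2SpE
import Cfsg.Agent.LibAff3
import Cfsg.Agent.LibH22Sp3

set_option autoImplicit false

/-! An element of order `p(q^m+1)` in `PSp_{2m+2}(q)` (seat helper26). -/

namespace CfsgLib.Bs

open Module Matrix

/-- the determinant form on `R²` -/
def dt {R : Type*} [CommRing R] (v w : Fin 2 → R) : R := v 0 * w 1 - v 1 * w 0

theorem dt_mulVec {R : Type*} [CommRing R] (A : Matrix (Fin 2) (Fin 2) R) (v w : Fin 2 → R) :
    dt (A *ᵥ v) (A *ᵥ w) = A.det * dt v w := by
  unfold dt
  rw [Matrix.det_fin_two]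
  simp only [Matrix.mulVec, dotProduct, Fin.sum_univ_two]
  ring

variable {F K : Type*} [Field F] [Field K] [Algebra F K]

/-- the alternating form -/
noncomputable def BB (F K : Type*) [Field F] [Field K] [Algebra F K] : LinearMap.BilinForm F ((Fin 2 → F) × (Fin 2 → K)) :=
  LinearMap.mk₂ F (fun x y => dt x.1 y.1 + Algebra.trace F K (dt x.2 y.2))
    (fun x x' y => by
      have h1 : dt (x + x').1 y.1 = dt x.1 y.1 + dt x'.1 y.1 := by unfold dt; simp; ring
      have h2 : dt (x + x').2 y.2 = dt x.2 y.2 + dt x'.2 y.2 := by unfold dt; simp; ring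
      rw [h1, h2, map_add]; ring)
    (fun c x y => by
      have h1 : dt (c • x).1 y.1 = c * dt x.1 y.1 := by unfold dt; simp; ring
      have h2 : dt (c • x).2 y.2 = c • dt x.2 y.2 := by
        unfold dt
        simp only [Prod.smul_snd, Pi.smul_apply, smul_mul_assoc, smul_sub]
      rw [h1, h2, map_smul, smul_eq_mul, smul_eq_mul]; ring)
    (fun x y y' => by
      have h1 : dt x.1 (y + y').1 = dt x.1 y.1 + dt x.1 y'.1 := by unfold dt; simp; ring
      have h2 : dt x.2 (y + y').2 = dt x.2 y.2 + dt x.2 y'.2 := by unfold dt; simp; ring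
      rw [h1, h2, map_add]; ring)
    (fun c x y => by
      have h1 : dt x.1 (c • y).1 = c * dt x.1 y.1 := by unfold dt; simp; ring
      have h2 : dt x.2 (c • y).2 = c • dt x.2 y.2 := by
        unfold dt
        simp only [Prod.smul_snd, Pi.smul_apply, mul_smul_comm, smul_sub]
      rw [h1, h2, map_smul, smul_eq_mul, smul_eq_mul]; ring)

theorem BB_apply (x y : (Fin 2 → F) × (Fin 2 → K)) : BB F K x y = dt x.1 y.1 + Algebra.trace F K (dt x.2 y.2) := rfl

theorem BB_alt : (BB F K).IsAlt := by
  intro x
  rw [BB_apply]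
  have h1 : dt x.1 x.1 = 0 := by unfold dt; ring
  have h2 : dt x.2 x.2 = 0 := by unfold dt; ring
  rw [h1, h2, map_zero, add_zero]

theorem dt_left {R : Type*} [CommRing R] (v : Fin 2 → R) (c : R) : dt v (Pi.single 1 c) = v 0 * c := by
  unfold dt; simp
theorem dt_right {R : Type*} [CommRing R] (v : Fin 2 → R) (c : R) : dt v (Pi.single 0 c) = - (v 1 * c) := by
  unfold dt; simp
theorem dt_zero {R : Type*} [CommRing R] (v : Fin 2 → R) : dt v 0 = 0 := by
  unfold dt; simp

theorem BB_nondeg [FiniteDimensional F K] [Algebra.IsSeparable F K] (v : (Fin 2 → F) × (Fin 2 → K)) (hv : v ≠ 0) : ∃ w, BB F K v w ≠ 0 := by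
  by_contra hcon
  push Not at hcon
  apply hv
  obtain ⟨t, ht⟩ := Algebra.trace_surjective F K 1
  apply Prod.ext
  · funext i
    fin_cases i
    · have := hcon (Pi.single 1 1, 0)
      rw [BB_apply, dt_left, dt_zero, map_zero, add_zero, mul_one] at this
      exact this
    · have := hcon (Pi.single 0 1, 0)
      rw [BB_apply, dt_right, dt_zero, map_zero, add_zero, mul_one, neg_eq_zero] at this
      exact this
  · funext i
    fin_cases i
    · by_contra h0
      have h0' : v.2 0 ≠ 0 := h0
      have := hcon (0, Pi.single 1 (t / v.2 0))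
      rw [BB_apply, dt_left, dt_zero, zero_add, mul_div_cancel₀ _ h0', ht] at this
      exact one_ne_zero this
    · by_contra h0
      have h0' : v.2 1 ≠ 0 := h0
      have := hcon (0, Pi.single 0 (t / v.2 1))
      rw [BB_apply, dt_right, dt_zero, zero_add, mul_div_cancel₀ _ h0', map_neg, ht, neg_eq_zero] at this
      exact one_ne_zero this

/-- the action -/
noncomputable def act (F K : Type*) [Field F] [Field K] [Algebra F K] :
    SpecialLinearGroup (Fin 2) F × SpecialLinearGroup (Fin 2) K →* ((Fin 2 → F) × (Fin 2 → K) →ₗ[F] (Fin 2 → F) × (Fin 2 → K)) where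
  toFun g := LinearMap.prodMap (Matrix.toLin' (g.1 : Matrix (Fin 2) (Fin 2) F)) ((Matrix.toLin' (g.2 : Matrix (Fin 2) (Fin 2) K)).restrictScalars F)
  map_one' := by
    apply LinearMap.ext
    intro x
    apply Prod.ext <;> simp
  map_mul' g h := by
    apply LinearMap.ext
    intro x
    apply Prod.ext <;> simp

theorem act_apply (g : SpecialLinearGroup (Fin 2) F × SpecialLinearGroup (Fin 2) K) (x : (Fin 2 → F) × (Fin 2 → K)) :
    act F K g x = ((g.1 : Matrix (Fin 2) (Fin 2) F) *ᵥ x.1, (g.2 : Matrix (Fin 2) (Fin 2) K) *ᵥ x.2) := by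
  show LinearMap.prodMap _ _ x = _
  rw [LinearMap.prodMap_apply, Matrix.toLin'_apply]
  rfl

theorem act_inj : Function.Injective (act F K) := by
  intro g h hgh
  apply Prod.ext
  · apply Subtype.ext
    apply Cfsg.Agent.H22.mat_ext_mulVec
    intro v
    have := LinearMap.congr_fun hgh (v, 0)
    rw [act_apply, act_apply] at this
    exact congrArg Prod.fst this
  · apply Subtype.ext
    apply Cfsg.Agent.H22.mat_ext_mulVec
    intro v
    have := LinearMap.congr_fun hgh (0, v)
    rw [act_apply, act_apply] at this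
    exact congrArg Prod.snd this

theorem act_isom (g : SpecialLinearGroup (Fin 2) F × SpecialLinearGroup (Fin 2) K) (x y : (Fin 2 → F) × (Fin 2 → K)) :
    BB F K (act F K g x) (act F K g y) = BB F K x y := by
  rw [BB_apply, BB_apply, act_apply, act_apply]
  simp only
  rw [dt_mulVec, dt_mulVec, g.1.2, g.2.2, one_mul, one_mul]

def unip (F : Type*) [Field F] : SpecialLinearGroup (Fin 2) F := ⟨!![1, 1; 0, 1], by simp [Matrix.det_fin_two]⟩

theorem unip_pow (n : ℕ) : ((unip F ^ n : SpecialLinearGroup (Fin 2) F) : Matrix (Fin 2) (Fin 2) F) = !![1, (n : F); 0, 1] := by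
  induction n with
  | zero =>
    ext i j
    fin_cases i <;> fin_cases j <;> simp
  | succ n ih =>
    rw [pow_succ]
    show ((unip F ^ n : SpecialLinearGroup (Fin 2) F) : Matrix (Fin 2) (Fin 2) F) * ((unip F : SpecialLinearGroup (Fin 2) F) : Matrix (Fin 2) (Fin 2) F) = _
    rw [ih]
    ext i j
    fin_cases i <;> fin_cases j <;> simp [unip, Matrix.mul_apply, Fin.sum_univ_two]
    ring

theorem orderOf_unip (p : ℕ) [Fact p.Prime] [CharP F p] : orderOf (unip F) = p := by
  apply orderOf_eq_prime
  · apply Subtype.ext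
    rw [unip_pow, CharP.cast_eq_zero]
    ext i j
    fin_cases i <;> fin_cases j <;> simp
  · intro h
    have := congrArg (fun A : SpecialLinearGroup (Fin 2) F => (A : Matrix (Fin 2) (Fin 2) F) 0 1) h
    simp [unip] at this

theorem exists_PSp {F : Type*} [Field F] [Fintype F] {p : ℕ} [Fact p.Prime] [CharP F p] (hp : p ≠ 2) {m : ℕ} (hm : 1 ≤ m) :
    ∃ x : Cfsg.PSp (m + 1) F, orderOf x = p * (Fintype.card F ^ m + 1) := by
  classical
  haveI : NeZero m := ⟨by omega⟩
  let K := FiniteField.Extension F p m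
  letI : Fintype K := Fintype.ofFinite K
  haveI : CharP K p := charP_of_injective_algebraMap (algebraMap F K).injective p
  have hcardK : Fintype.card K = Fintype.card F ^ m := by
    have := FiniteField.natCard_extension F p m
    rw [Nat.card_eq_fintype_card, Nat.card_eq_fintype_card] at this
    exact this
  obtain ⟨f, -, hf⟩ := FiniteField.card K p
  obtain ⟨s, hs⟩ := CfsgLib.Aff3.exists_nonsplit (F := K) hp hf
  rw [hcardK] at hs
  obtain ⟨m', b, hm', h1, h2, h3, h4⟩ := CfsgLib.Forms27.exists_symplectic_basis (BB F K) BB_alt BB_nondeg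
  have hfr : finrank F K = m := FiniteField.finrank_extension F p m
  have hfr2 : finrank F ((Fin 2 → F) × (Fin 2 → K)) = 2 * (m + 1) := by
    rw [finrank_prod, finrank_fintype_fun_eq_card, finrank_pi_fintype, Fintype.card_fin]
    simp only [Finset.sum_const, Finset.card_univ, Fintype.card_fin, smul_eq_mul]
    rw [hfr]; ring
  obtain rfl : m + 1 = m' := by omega
  let φ : SpecialLinearGroup (Fin 2) F × SpecialLinearGroup (Fin 2) K →* Matrix.symplecticGroup (Fin (m + 1)) F :=
    { toFun := fun g => ⟨LinearMap.toMatrix b b (act F K g),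
        (CfsgLib.Forms27.toMatrix_mem_symplectic_iff (BB F K) b h1 h2 h3 h4 (act F K g)).mpr (act_isom g)⟩
      map_one' := by
        apply Subtype.ext
        show LinearMap.toMatrix b b (act F K 1) = 1
        rw [map_one]
        exact LinearMap.toMatrix_one b
      map_mul' := fun g h => by
        apply Subtype.ext
        show LinearMap.toMatrix b b (act F K (g * h)) = LinearMap.toMatrix b b (act F K g) * LinearMap.toMatrix b b (act F K h)
        rw [map_mul]
        exact LinearMap.toMatrix_mul b _ _ }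
  let g : SpecialLinearGroup (Fin 2) F × SpecialLinearGroup (Fin 2) K := (unip F, s)
  have hgo : orderOf g = p * (Fintype.card F ^ m + 1) := by
    rw [Prod.orderOf]
    show (orderOf (unip F)).lcm (orderOf s) = _
    rw [orderOf_unip p, hs]
    apply Nat.Coprime.lcm_eq_mul
    rw [Nat.Prime.coprime_iff_not_dvd Fact.out]
    intro h
    obtain ⟨f', _, hf'⟩ := FiniteField.card F p
    have h5 : p ∣ Fintype.card F ^ m := by
      rw [hf', ← pow_mul]
      exact dvd_pow_self p (Nat.mul_pos f'.pos (by omega)).ne'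
    have h6 : p ∣ 1 := (Nat.dvd_add_right h5).1 h
    exact (Fact.out : p.Prime).one_lt.ne' (Nat.dvd_one.1 h6)
  refine ⟨QuotientGroup.mk' _ (φ g), ?_⟩
  rw [← hgo]
  apply orderOf_eq_orderOf_iff.2
  intro n
  rw [← map_pow, ← map_pow]
  constructor
  · intro hn
    have hc : φ (g ^ n) ∈ Subgroup.center (Matrix.symplecticGroup (Fin (m + 1)) F) := (QuotientGroup.eq_one_iff _).1 hn
    obtain ⟨a, ha⟩ := Cfsg.Agent.H22.center_sp_scalar hc
    have h5 : act F K (g ^ n) = a • LinearMap.id := by
      apply (LinearMap.toMatrix b b).injective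
      rw [map_smul, LinearMap.toMatrix_id]
      exact ha
    have h6 : (g ^ n).1 = unip F ^ n := rfl
    have h7 : a = 1 := by
      have h8 := LinearMap.congr_fun h5 (Pi.single 0 1, 0)
      rw [act_apply, h6, unip_pow] at h8
      have h9 := congrFun (congrArg Prod.fst h8) 0
      simp at h9
      exact h9.symm
    apply act_inj
    rw [h5, h7, one_smul, map_one]
    rfl
  · intro hn
    rw [hn, map_one, map_one]

end CfsgLib.Bs
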