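import Cfsg.Agent.LibBs5
import Cfsg.Agent.LibBs6

set_option autoImplicit false

/-! The centre of `Ω_{2n+1}(q)` is trivial (seat helper26). -/

namespace CfsgLib.Bs

open Module Cfsg.Agent.H22

variable {F V : Type*} [Field F] [AddCommGroup V] [Module F V] {Q : QuadraticForm F V} [FiniteDimensional F V]
variable [Fintype F]

theorem central_line (hQ : (QuadraticMap.polarBilin Q).Nondegenerate) (h3 : 3 ≤ finrank F V) {c : OGrp Q}
    (hc : ∀ y ∈ EG Q, c * y = y * c) (v : V) (hv : v ≠ 0) (hQv : Q v = 0) : ∃ a : F, c.1 v = a • v := by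
  obtain ⟨f, hf⟩ := exists_HP_of_singular hQ v hv hQv
  set y := c.1 v with hy
  have hfix : ∀ w, QuadraticMap.polar Q v w = 0 → QuadraticMap.polar Q v y • w - QuadraticMap.polar Q w y • v -
      (Q w * QuadraticMap.polar Q v y) • v = 0 := by
    intro w hw
    have h1 := congrArg (fun g : OGrp Q => g.1 v) (hc _ (oEich_mem v w hQv hw))
    have h4 : (c * oEich Q v w hQv hw).1 v = c.1 ((oEich Q v w hQv hw).1 v) := rfl
    have h5 : (oEich Q v w hQv hw * c).1 v = (oEich Q v w hQv hw).1 (c.1 v) := rfl
    rw [h4, h5, oEich_apply, oEich_apply, pself, hQv, mul_zero, zero_smul, add_zero, QuadraticMap.polar_comm Q w v, hw, zero_smul,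
      sub_zero, mul_zero, zero_smul, sub_zero, ← hy] at h1
    have h6 : y + (QuadraticMap.polar Q v y • w - QuadraticMap.polar Q w y • v - (Q w * QuadraticMap.polar Q v y) • v) = y + 0 := by
      rw [add_zero]
      conv_rhs => rw [h1]
      abel
    exact add_left_cancel h6
  have hvy : QuadraticMap.polar Q v y = 0 := by
    have hfr := hf.finrank_eq
    have hne : perp2 Q v f ≠ ⊥ := by
      intro h0
      rw [h0, finrank_bot] at hfr
      omega
    obtain ⟨w, hw, hw0⟩ := Submodule.exists_mem_ne_zero_of_ne_bot hne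
    have h1 := hfix w hw.1
    have h4 : QuadraticMap.polar Q f (QuadraticMap.polar Q v y • w - QuadraticMap.polar Q w y • v - (Q w * QuadraticMap.polar Q v y) • v) = 0 := by
      rw [h1, QuadraticMap.polar_zero_right]
    rw [sub_eq_add_neg, sub_eq_add_neg, QuadraticMap.polar_add_right, QuadraticMap.polar_add_right, QuadraticMap.polar_neg_right,
      QuadraticMap.polar_neg_right, QuadraticMap.polar_smul_right, QuadraticMap.polar_smul_right, QuadraticMap.polar_smul_right, hw.2,
      hf.fe, smul_zero, smul_eq_mul, smul_eq_mul, mul_one, mul_one, zero_add] at h4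
    have h5 : QuadraticMap.polar Q v y • w = (QuadraticMap.polar Q w y + Q w * QuadraticMap.polar Q v y) • v := by
      rw [add_smul]
      rw [sub_sub, sub_eq_zero] at h1
      exact h1
    have h6 : QuadraticMap.polar Q w y + Q w * QuadraticMap.polar Q v y = 0 := by linear_combination -h4
    rw [h6, zero_smul] at h5
    exact (smul_eq_zero.1 h5).resolve_right hw0
  have hwy : ∀ w, QuadraticMap.polar Q v w = 0 → QuadraticMap.polar Q w y = 0 := by
    intro w hw
    have h1 := hfix w hw
    rw [hvy, zero_smul, mul_zero, zero_smul, zero_sub, sub_zero, neg_eq_zero] at h1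
    exact (smul_eq_zero.1 h1).resolve_right hv
  refine ⟨QuadraticMap.polar Q f y, ?_⟩
  rw [← sub_eq_zero]
  apply hQ.1
  intro x
  rw [QuadraticMap.polarBilin_apply_apply]
  have hx : x = QuadraticMap.polar Q f x • v + QuadraticMap.polar Q v x • f + (x - QuadraticMap.polar Q f x • v - QuadraticMap.polar Q v x • f) := by
    abel
  have hmem := hf.proj_mem x
  rw [hx, QuadraticMap.polar_add_right, QuadraticMap.polar_add_right, QuadraticMap.polar_smul_right, QuadraticMap.polar_smul_right]
  have e1 : QuadraticMap.polar Q (y - QuadraticMap.polar Q f y • v) v = 0 := by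
    rw [sub_eq_add_neg, QuadraticMap.polar_add_left, QuadraticMap.polar_neg_left, QuadraticMap.polar_smul_left, pself, hQv,
      QuadraticMap.polar_comm, hvy]
    simp
  have e2 : QuadraticMap.polar Q (y - QuadraticMap.polar Q f y • v) f = 0 := by
    rw [sub_eq_add_neg, QuadraticMap.polar_add_left, QuadraticMap.polar_neg_left, QuadraticMap.polar_smul_left, hf.2.2,
      QuadraticMap.polar_comm]
    simp
  have e3 : QuadraticMap.polar Q (y - QuadraticMap.polar Q f y • v) (x - QuadraticMap.polar Q f x • v - QuadraticMap.polar Q v x • f) = 0 := by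
    rw [sub_eq_add_neg y, QuadraticMap.polar_add_left, QuadraticMap.polar_neg_left, QuadraticMap.polar_smul_left, hmem.1,
      QuadraticMap.polar_comm, hwy _ hmem.1]
    simp
  rw [e1, e2, e3]
  simp

theorem center_trivial (h2 : (2 : F) ≠ 0) (hQ : (QuadraticMap.polarBilin Q).Nondegenerate) {e f e' f' u : V} (hs : HS Q e f e' f' u)
    (hV : Odd (finrank F V)) (h3 : 3 ≤ finrank F V) {c : commutator (OGrp Q)} (hc : c ∈ Subgroup.center (commutator (OGrp Q))) : c = 1 := by
  have hcom := hs.commutator_eq hQ (Or.inl (exists_ne_one_of_odd h2))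
  have h1 : ∀ y ∈ EG Q, c.1 * y = y * c.1 := by
    intro y hy
    rw [← hcom] at hy
    exact (congrArg Subtype.val (Subgroup.mem_center_iff.1 hc ⟨y, hy⟩)).symm
  obtain ⟨a, ha⟩ := hs.scalar_of_fix hQ c.1 (fun v hv hQv => central_line hQ h3 h1 v hv hQv)
  by_cases ha1 : a = 1
  · apply Subtype.ext
    apply og_ext
    intro x
    rw [ha, ha1, one_smul]
    rfl
  · exfalso
    obtain ⟨_, _, _, _, _, _, _, _, _, _, hmem⟩ := omega_odd h2 hQ (by omega)
    have h4 : parFun c.1 = 1 := ((hmem 1 one_ne_zero c.1).1 c.2).1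
    have h5 : fixSp c.1 = ⊥ := by
      rw [eq_bot_iff]
      intro x hx
      rw [mem_fixSp, ha] at hx
      rw [Submodule.mem_bot]
      have h6 : (a - 1) • x = 0 := by rw [sub_smul, one_smul, hx, sub_self]
      exact (smul_eq_zero.1 h6).resolve_left (sub_ne_zero.2 ha1)
    unfold parFun at h4
    rw [h5, finrank_bot, zero_add, hV.neg_one_pow] at h4
    exact absurd h4 (by decide)

end CfsgLib.Bs
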