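import Mathlib
import Cfsg.Agent.EqBase
import Cfsg.Prelude.Def_Blocks
import Cfsg.Agent.LibBlichB19
import Cfsg.Agent.LibPerfB19
import Cfsg.Agent.LibDefB19
import Cfsg.Agent.LibDZ19

set_option autoImplicit false
set_option maxHeartbeats 800000
set_option linter.unusedSectionVars false

/-! Simple groups of order `p^a q^b g₀` (helper19) -/

universe u v w

open Cfsg
open scoped ComplexConjugate

namespace CfsgLib.BurnPQ19

open CfsgLib.Blich19 CfsgLib.BlichB19 CfsgLib.CharBasic CfsgLib.Self19 CfsgLib.BlockR CfsgLib.PerfB19 CfsgLib.FrobP19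

/-! ### boxes -/

noncomputable def box6 (z : ℂ) : Fin 6 :=
  ⟨(⌈(Complex.arg z + Real.pi) / (Real.pi / 3)⌉ - 1).toNat, by
    have hpi := Real.pi_pos
    have h1 := Complex.neg_pi_lt_arg z
    have h2 := Complex.arg_le_pi z
    have h3 : (Complex.arg z + Real.pi) / (Real.pi / 3) ≤ 6 := by
      rw [div_le_iff₀ (by positivity)]
      linarith
    have h4 : ⌈(Complex.arg z + Real.pi) / (Real.pi / 3)⌉ ≤ 6 := Int.ceil_le.2 (by exact_mod_cast h3)
    omega⟩

theorem box6_eq {z w : ℂ} (h : box6 z = box6 w) : |Complex.arg w - Complex.arg z| < Real.pi / 3 := by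
  have hpi := Real.pi_pos
  have hpos : ∀ u : ℂ, 1 ≤ ⌈(Complex.arg u + Real.pi) / (Real.pi / 3)⌉ := by
    intro u
    have h1 := Complex.neg_pi_lt_arg u
    have : 0 < ⌈(Complex.arg u + Real.pi) / (Real.pi / 3)⌉ := Int.ceil_pos.2 (div_pos (by linarith) (by positivity))
    omega
  have h1 := congrArg Fin.val h
  simp only [box6] at h1
  have h2 := hpos z
  have h3 := hpos w
  have h4 : ⌈(Complex.arg z + Real.pi) / (Real.pi / 3)⌉ = ⌈(Complex.arg w + Real.pi) / (Real.pi / 3)⌉ := by omega
  have h5 : |(Complex.arg w + Real.pi) / (Real.pi / 3) - (Complex.arg z + Real.pi) / (Real.pi / 3)| < 1 := by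
    have e1 := Int.le_ceil ((Complex.arg z + Real.pi) / (Real.pi / 3))
    have e2 := Int.ceil_lt_add_one ((Complex.arg z + Real.pi) / (Real.pi / 3))
    have e3 := Int.le_ceil ((Complex.arg w + Real.pi) / (Real.pi / 3))
    have e4 := Int.ceil_lt_add_one ((Complex.arg w + Real.pi) / (Real.pi / 3))
    rw [h4] at e1 e2
    rw [abs_lt]
    constructor <;> linarith
  rw [← sub_div, abs_div, abs_of_pos (by positivity : 0 < Real.pi / 3), div_lt_one (by positivity)] at h5
  have h6 : (Complex.arg w + Real.pi) - (Complex.arg z + Real.pi) = Complex.arg w - Complex.arg z := by ring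
  rwa [h6] at h5

theorem re_of_box6 {z w : ℂ} (hz : ‖z‖ = 1) (hw : ‖w‖ = 1) (h : box6 z = box6 w) : 1 / 2 < (conj z * w).re := by
  have h1 := box6_eq h
  have hz' : z = Complex.exp (Complex.arg z * Complex.I) := by
    have := Complex.norm_mul_exp_arg_mul_I z
    rw [hz] at this
    simpa using this.symm
  have hw' : w = Complex.exp (Complex.arg w * Complex.I) := by
    have := Complex.norm_mul_exp_arg_mul_I w
    rw [hw] at this
    simpa using this.symm
  have h2 : conj z * w = Complex.exp ((Complex.arg w - Complex.arg z : ℝ) * Complex.I) := by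
    conv_lhs => rw [hz', hw']
    rw [← Complex.exp_conj, ← Complex.exp_add]
    congr 1
    rw [map_mul, Complex.conj_I, Complex.conj_ofReal]
    push_cast
    ring
  rw [h2, Complex.exp_ofReal_mul_I_re, ← Real.cos_abs, ← Real.cos_pi_div_three]
  refine Real.cos_lt_cos_of_nonneg_of_le_pi (abs_nonneg _) ?_ h1
  have := Real.pi_pos
  linarith

theorem norm_sub_of_box6 {z w : ℂ} (hz : ‖z‖ = 1) (hw : ‖w‖ = 1) (h : box6 z = box6 w) : ‖conj z * w - 1‖ < 1 := by
  have h1 := re_of_box6 hz hw h
  have h2 : ‖conj z * w‖ = 1 := by rw [norm_mul, RCLike.norm_conj, hz, hw, one_mul]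
  set u := conj z * w with hu
  have h3 : ‖u - 1‖ ^ 2 = 2 - 2 * u.re := by
    rw [← Complex.normSq_eq_norm_sq, Complex.normSq_apply]
    have h2 : u.re * u.re + u.im * u.im = 1 := by
      rw [← Complex.normSq_apply, Complex.normSq_eq_norm_sq, h2]; norm_num
    simp only [Complex.sub_re, Complex.sub_im, Complex.one_re, Complex.one_im, sub_zero]
    nlinarith
  have h4 : ‖u - 1‖ ^ 2 < 1 ^ 2 := by rw [h3]; linarith
  exact (pow_lt_pow_iff_left₀ (norm_nonneg _) (by norm_num) two_ne_zero).1 h4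

section Rep
variable {G : Type u} [Group G] [Finite G]

/-- Blichfeldt's theorem in terms of a basis of eigenvectors -/
theorem rep_blich {V : Type v} [AddCommGroup V] [Module ℂ V] [FiniteDimensional ℂ V] (ρ : Representation ℂ G V) [hirr : ρ.IsIrreducible]
    {x : G} {ι : Type w} (b : Module.Basis ι ℂ V) (ω : ι → ℂ) (hb : ∀ i, ρ x (b i) = ω i • b i)
    (i0 : ι) (hn : ‖ω i0‖ = 1) (hcl : ∀ i, ‖ω i - ω i0‖ < 1) (hncl : Subgroup.normalClosure {x} = ⊤) : ∀ w, ρ x w = ω i0 • w := by
  classical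
  letI cd := avgCore ρ
  letI : NormedAddCommGroup V := cd.toNormedAddCommGroup
  letI : InnerProductSpace ℂ V := InnerProductSpace.ofCore cd.toCore
  have hu : ∀ g v w, inner ℂ (ρ g v) (ρ g w) = inner ℂ v w := fun g v w => avg_inv ρ g v w
  apply blich (ρ := ρ) hu hn
  · let A : Subgroup G := Subgroup.zpowers x
    have hab : ∀ a b : A, a * b = b * a := by
      rintro ⟨a, i, rfl⟩ ⟨b, j, rfl⟩
      exact Subtype.ext (zpow_mul_comm x i j)
    let ρA : Representation ℂ A V := ρ.comp A.subtype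
    have huA : ∀ (g : A) (v w : V), inner ℂ (ρA g v) (ρA g w) = inner ℂ v w := fun g v w => hu g v w
    have h1 := norm_lt_of_eig hab huA (a := ⟨x, Subgroup.mem_zpowers x⟩) (c := ω i0) (r := 1) one_pos (by
      rintro ψ ⟨v, hv⟩
      have h2 : ρ x (proj ρA ψ v) = (ψ ⟨x, Subgroup.mem_zpowers x⟩ : ℂ) • proj ρA ψ v := apply_proj ρA ψ v ⟨x, Subgroup.mem_zpowers x⟩
      set w := proj ρA ψ v with hw
      obtain ⟨i, hi⟩ : ∃ i, b.repr w i ≠ 0 := by
        by_contra hcon
        push Not at hcon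
        apply hv
        apply b.repr.injective
        rw [map_zero]
        exact Finsupp.ext hcon
      have h3 : b.repr (ρ x w) i = ω i * b.repr w i := by
        have h4 : (b.coord i).comp (ρ x) = ω i • b.coord i := by
          apply b.ext
          intro j
          rw [LinearMap.comp_apply, hb, map_smul, LinearMap.smul_apply, Module.Basis.coord_apply, Module.Basis.repr_self]
          by_cases hij : j = i
          · rw [hij]
          · rw [Finsupp.single_eq_of_ne' hij, smul_zero, smul_zero]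
        exact LinearMap.congr_fun h4 w
      rw [h2, map_smul, Finsupp.smul_apply, smul_eq_mul] at h3
      rw [mul_right_cancel₀ hi h3]
      exact hcl i)
    exact h1
  · exact ⟨b i0, b.ne_zero i0, hb i0⟩
  · exact hncl

end Rep

section Main
variable {G : Type u} [Group G] [Finite G]

theorem isIntegral_nat' (n : ℕ) : IsIntegral ℤ (n : ℂ) := isIntegral_natCast (R := ℤ) (a := n)

theorem isIntegral_int' (n : ℤ) : IsIntegral ℤ (n : ℂ) := by
  have h : ((n : ℤ) : ℂ) = algebraMap ℤ ℂ n := by simp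
  rw [h]; exact isIntegral_algebraMap

/-- a nonprincipal character of the principal `p`-block of degree prime to `q` -/
theorem exists_char {p q : ℕ} [Fact p.Prime] (hq : q.Prime) {M : Ideal AlgInt} (hM : IsPModular p M) {x : G} (hx : p ∣ orderOf x) :
    ∃ χ : IrrCharacter G, χ ∈ principalBlock M G ∧ (χ : G → ℂ) ≠ (fun _ => 1) ∧ ¬ q ∣ charDegree (χ : G → ℂ) := by
  classical
  letI := Fintype.ofFinite G
  letI : Fintype (IrrCharacter G) := Fintype.ofFinite _
  haveI : Fact q.Prime := ⟨hq⟩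
  have hp := isPrime_of_modular hM
  obtain ⟨Q, hQ⟩ := CfsgLib.DZ19.exists_modular q
  have hQp := isPrime_of_modular hQ
  have hone : IsIrrCharacter G (fun _ => (1 : ℂ)) := by
    have := isIrrCharacter_hom (1 : G →* ℂˣ)
    simpa using this
  let χ1 : IrrCharacter G := ⟨fun _ => 1, hone⟩
  have hB : IsPBlock M (principalBlock M G) := ⟨χ1, rfl⟩
  have hχ1 : χ1 ∈ principalBlock M G := CfsgLib.BlockIdem.sameBlock_refl hp _
  by_contra hcon
  push Not at hcon
  have h1 := CfsgLib.BlockOrth.weak_block_orth hM hB (x := (1 : G)) (by rw [orderOf_one, Nat.dvd_one]; exact (Fact.out : p.Prime).ne_one) hx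
  rw [finsum_mem_eq_finite_toFinset_sum _ (Set.toFinite _), ← Finset.add_sum_erase _ _ ((Set.Finite.mem_toFinset _).2 hχ1)] at h1
  have h2 : (χ1 : G → ℂ) 1 * conj ((χ1 : G → ℂ) x) = 1 := by
    change (1 : ℂ) * conj (1 : ℂ) = 1
    rw [map_one, one_mul]
  rw [h2] at h1
  have h3 : MemLocalIdeal Q (∑ χ ∈ ((Set.toFinite (principalBlock M G)).toFinset.erase χ1), (χ : G → ℂ) 1 * conj ((χ : G → ℂ) x)) := by
    apply ideal_sum hQp
    intro χ hχ
    rw [Finset.mem_erase, Set.Finite.mem_toFinset] at hχ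
    have h4 := hcon χ hχ.2 (fun h => hχ.1 (Subtype.ext h))
    apply ideal_mul_right hQp
    · rw [CfsgLib.CharInt.irr_one_eq_charDegree χ.2]
      exact (ideal_nat_iff hQ).2 h4
    · rw [← char_inv_eq_conj (irr_isCharacter χ.2)]
      exact ringOfInt hQp (CfsgLib.CharInt.irr_isIntegral χ.2 _)
  have h5 : MemLocalIdeal Q ((1 : ℕ) : ℂ) := by
    have h6 : ((1 : ℕ) : ℂ) = - ∑ χ ∈ ((Set.toFinite (principalBlock M G)).toFinset.erase χ1), (χ : G → ℂ) 1 * conj ((χ : G → ℂ) x) := by
      rw [Nat.cast_one]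
      exact eq_neg_of_add_eq_zero_left h1
    rw [h6]
    exact ideal_neg h3
  rw [ideal_nat_iff hQ] at h5
  exact hq.one_lt.ne' (Nat.dvd_one.1 h5)

theorem centralizer_zp {p : ℕ} [Fact p.Prime] {x : G} (hx : x ^ p = 1) {k : ZMod p} (hk : k ≠ 0) :
    Subgroup.centralizer ({zp p x k} : Set G) = Subgroup.centralizer ({x} : Set G) := by
  ext g
  rw [Subgroup.mem_centralizer_singleton_iff, Subgroup.mem_centralizer_singleton_iff]
  constructor
  · intro h
    have h1 : x = (zp p x k) ^ (k⁻¹ : ZMod p).val := by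
      rw [← zp_mul hx, mul_inv_cancel₀ hk, zp_one hx]
    have h2 : Commute g (zp p x k) := h
    rw [h1]
    exact h2.pow_right _
  · intro h
    have h2 : Commute g x := h
    exact h2.pow_right _

/-- values on powers of a central element of a Sylow subgroup -/
theorem mult_data {p : ℕ} [Fact p.Prime] {M : Ideal AlgInt} (hM : IsPModular p M) (P : Sylow p G) {χ : IrrCharacter G}
    (hχ : χ ∈ principalBlock M G) {x : G} (hx : x ^ p = 1) (hxP : x ∈ Subgroup.centralizer ((P : Subgroup G) : Set G))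
    {n : ℕ} (hn : (χ : G → ℂ) 1 = n) {e : ℕ} (he : e = Nat.gcd (Subgroup.centralizer ({x} : Set G)).index n) {mj : ℕ} {j : ZMod p}
    (hmj : ∑ k : ZMod p, (χ : G → ℂ) (zp p x k) * ZMod.stdAddChar (-(j * k)) = (p : ℂ) * mj) : ∃ bj : ℕ, e * mj = n * bj := by
  classical
  have hp := isPrime_of_modular hM
  have hpp : p.Prime := Fact.out
  haveI : NeZero p := ⟨hpp.ne_zero⟩
  have h2 := index_not_dvd P hxP
  set h := (Subgroup.centralizer ({x} : Set G)).index with hh
  have hn0 : (n : ℂ) ≠ 0 := by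
    rw [← hn]; exact CfsgLib.CharInt.irr_one_ne_zero χ.2
  have hn0' : n ≠ 0 := by exact_mod_cast hn0
  have hh0 : (h : ℂ) ≠ 0 := by
    intro h0
    apply h2
    rw [Nat.cast_eq_zero.1 h0]; exact dvd_zero p
  -- integrality
  have hint : ∀ k : ZMod p, IsIntegral ℤ ((e : ℂ) * (χ : G → ℂ) (zp p x k) / n) := by
    intro k
    by_cases hk : k = 0
    · rw [hk, zp_zero, hn, mul_div_assoc, div_self hn0, mul_one]
      exact isIntegral_nat' e
    · have h3 := CfsgLib.CharInt.centralChar_isIntegral χ.2 (zp p x k)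
      unfold centralChar at h3
      rw [centralizer_zp hx hk, ← hh, hn] at h3
      have h4 := CfsgLib.CharInt.irr_isIntegral χ.2 (zp p x k)
      have hbez := Nat.gcd_eq_gcd_ab h n
      rw [← he] at hbez
      have hbez' : (e : ℂ) = h * (Nat.gcdA h n : ℂ) + n * (Nat.gcdB h n : ℂ) := by exact_mod_cast hbez
      have h5 : (e : ℂ) * (χ : G → ℂ) (zp p x k) / n = (Nat.gcdA h n : ℂ) * ((h : ℂ) * (χ : G → ℂ) (zp p x k) / n) + (Nat.gcdB h n : ℂ) * (χ : G → ℂ) (zp p x k) := by
        rw [hbez']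
        field_simp
      rw [h5]
      exact ((isIntegral_int' _).mul h3).add ((isIntegral_int' _).mul h4)
  -- congruence
  have hcong : ∀ k : ZMod p, MemLocalIdeal M ((e : ℂ) * (χ : G → ℂ) (zp p x k) / n - e) := by
    intro k
    by_cases hk : k = 0
    · rw [hk, zp_zero, hn, mul_div_assoc, div_self hn0, mul_one, sub_self]
      exact ideal_zero hp
    · have h1 : MemLocalIdeal M (centralChar (fun _ : G => (1 : ℂ)) (zp p x k) - centralChar (χ : G → ℂ) (zp p x k)) := hχ _
      unfold centralChar at h1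
      rw [centralizer_zp hx hk, ← hh, hn, mul_one, div_one] at h1
      have h5 := ideal_mul_left hp (ring_mul hp (ring_nat hp e) (ring_inv_nat hM h2)) h1
      have h6 : (e : ℂ) * (h : ℂ)⁻¹ * ((h : ℂ) - h * (χ : G → ℂ) (zp p x k) / n) = e - e * (χ : G → ℂ) (zp p x k) / n := by
        field_simp
      rw [h6] at h5
      exact ideal_sub_comm h5
  have hS : ∑ k : ZMod p, ((e : ℂ) * (χ : G → ℂ) (zp p x k) / n) * ZMod.stdAddChar (-(j * k)) = ((e * (p * mj) : ℕ) : ℂ) / n := by
    have h3 : ∀ k : ZMod p, ((e : ℂ) * (χ : G → ℂ) (zp p x k) / n) * ZMod.stdAddChar (-(j * k)) =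
        (e / n : ℂ) * ((χ : G → ℂ) (zp p x k) * ZMod.stdAddChar (-(j * k))) := fun k => by ring
    rw [Finset.sum_congr rfl (fun k _ => h3 k), ← Finset.mul_sum, hmj]
    push_cast
    ring
  have hSint : IsIntegral ℤ (((e * (p * mj) : ℕ) : ℂ) / n) := by
    rw [← hS]
    apply IsIntegral.sum
    intro k _
    exact (hint k).mul (std_integral _)
  obtain ⟨c, hc⟩ := CfsgLib.CharInt2.div_isIntegral hn0' hSint
  have hcS : ((e * (p * mj) : ℕ) : ℂ) / n = c := by
    rw [hc]; push_cast
    field_simp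
  have hcI : MemLocalIdeal M (c : ℂ) := by
    rw [← hcS, ← hS]
    have h3 : ∑ k : ZMod p, ((e : ℂ) * (χ : G → ℂ) (zp p x k) / n) * ZMod.stdAddChar (-(j * k)) =
        ∑ k : ZMod p, ((e : ℂ) * (χ : G → ℂ) (zp p x k) / n - e) * ZMod.stdAddChar (-(j * k)) + e * ∑ k : ZMod p, (ZMod.stdAddChar ((-j) * k) : ℂ) := by
      rw [Finset.mul_sum, ← Finset.sum_add_distrib]
      apply Finset.sum_congr rfl
      intro k _
      rw [neg_mul]
      ring
    rw [h3, sum_std]
    apply ideal_add hp
    · apply ideal_sum hp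
      intro k _
      exact ideal_mul_right hp (hcong k) (ringOfInt hp (std_integral _))
    · apply ideal_mul_left hp (ring_nat hp e)
      split_ifs
      · exact ideal_p hM
      · exact ideal_zero hp
  obtain ⟨b, hb⟩ := (ideal_nat_iff hM).1 hcI
  refine ⟨b, ?_⟩
  rw [hb] at hc
  have h4 : p * (e * mj) = p * (n * b) := by
    calc p * (e * mj) = e * (p * mj) := by ring
      _ = n * (p * b) := hc
      _ = p * (n * b) := by ring
  exact Nat.eq_of_mul_eq_mul_left hpp.pos h4

theorem main [IsSimpleGroup G] (p q a b g₀ : ℕ) (hp : p.Prime) (hq : q.Prime) (hpq : p ≠ q) (ha : 0 < a)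
    (hg : Nat.card G = p ^ a * q ^ b * g₀) (hcop : ¬ p ∣ g₀) (hcoq : ¬ q ∣ g₀) (hne : Nat.card G ≠ p) : p < 6 ^ (g₀ - 1) := by
  classical
  haveI : Fact p.Prime := ⟨hp⟩
  haveI : Fact q.Prime := ⟨hq⟩
  haveI : NeZero p := ⟨hp.ne_zero⟩
  have hg0 : g₀ ≠ 0 := by rintro rfl; exact hcop (dvd_zero p)
  have hpG : p ∣ Nat.card G := by rw [hg, mul_assoc]; exact (dvd_pow_self p ha.ne').mul_right _
  -- trivial center
  have hZ : Subgroup.center G = ⊥ := by
    rcases (inferInstance : (Subgroup.center G).Normal).eq_bot_or_eq_top with h | h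
    · exact h
    · exfalso
      letI : CommGroup G := { (inferInstance : Group G) with
        mul_comm := fun x y => by
          have : y ∈ Subgroup.center G := by rw [h]; exact Subgroup.mem_top y
          exact Subgroup.mem_center_iff.1 this x }
      have h1 : (Nat.card G).Prime := IsSimpleGroup.prime_card
      exact hne (((Nat.prime_dvd_prime_iff_eq hp h1).1 hpG).symm)
  obtain ⟨M, hM⟩ := CfsgLib.DZ19.exists_modular p
  -- the central element
  obtain ⟨P⟩ : Nonempty (Sylow p G) := inferInstance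
  obtain ⟨x, hxo, hxP⟩ : ∃ x : G, orderOf x = p ∧ x ∈ Subgroup.centralizer ((P : Subgroup G) : Set G) := by
    haveI : Nontrivial (P : Subgroup G) := by
      rw [Subgroup.nontrivial_iff_ne_bot]
      exact P.ne_bot_of_dvd_card hpG
    have hc : Nontrivial (Subgroup.center (P : Subgroup G)) := P.isPGroup'.center_nontrivial
    have h2 : p ∣ Nat.card (Subgroup.center (P : Subgroup G)) := by
      obtain ⟨k, hk⟩ := IsPGroup.iff_card.1 (P.isPGroup'.to_subgroup (Subgroup.center (P : Subgroup G)))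
      rw [hk]
      apply dvd_pow_self
      rintro rfl
      rw [pow_zero] at hk
      exact (Finite.one_lt_card_iff_nontrivial.2 hc).ne' hk
    obtain ⟨z, hz⟩ := exists_prime_orderOf_dvd_card' p h2
    refine ⟨((z : (P : Subgroup G)) : G), ?_, ?_⟩
    · rw [Subgroup.orderOf_coe, Subgroup.orderOf_coe, hz]
    · rw [Subgroup.mem_centralizer_iff]
      intro y hy
      exact congrArg Subtype.val (Subgroup.mem_center_iff.1 z.2 ⟨y, hy⟩)
  have hxp : x ^ p = 1 := by rw [← hxo]; exact pow_orderOf_eq_one x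
  obtain ⟨χ, hχB, hχ1, hχq⟩ := exists_char (G := G) hq hM (x := x) (by rw [hxo])
  have hn := CfsgLib.CharInt.irr_one_eq_charDegree χ.2
  have hn0 := CfsgLib.CharInt.irr_one_ne_zero χ.2
  set n := charDegree (χ : G → ℂ) with hndef
  rw [hn] at hn0
  have hn0' : n ≠ 0 := by exact_mod_cast hn0
  set h := (Subgroup.centralizer ({x} : Set G)).index with hh
  have hph : ¬ p ∣ h := index_not_dvd P hxP
  set e := Nat.gcd h n with he
  have he0 : 0 < e := Nat.gcd_pos_of_pos_right _ (Nat.pos_of_ne_zero hn0')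
  have heg : e ≤ g₀ := by
    apply Nat.le_of_dvd (Nat.pos_of_ne_zero hg0)
    have h1 : e ∣ Nat.card G := (Nat.gcd_dvd_right h n).trans (CfsgLib.CharInt2.charDegree_dvd_card χ.2)
    rw [hg] at h1
    apply Nat.Coprime.dvd_of_dvd_mul_left _ h1
    apply Nat.Coprime.mul_right
    · apply Nat.Coprime.pow_right
      exact ((Nat.Prime.coprime_iff_not_dvd hp).2 (fun h2 => hph (h2.trans (Nat.gcd_dvd_left h n)))).symm
    · apply Nat.Coprime.pow_right
      exact ((Nat.Prime.coprime_iff_not_dvd hq).2 (fun h2 => hχq (h2.trans (Nat.gcd_dvd_right h n)))).symm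
  -- the representation
  obtain ⟨N, ρ, hρ, hρχ⟩ := χ.2
  have hN : N = n := by
    have : (χ : G → ℂ) 1 = N := by
      rw [← hρχ, Representation.char_one]; simp
    rw [hn] at this
    exact_mod_cast this.symm
  have hfin : Module.finrank ℂ (Fin N → ℂ) = n := by simp [hN]
  have hfin' : Fintype.card (Fin (Module.finrank ℂ (Fin N → ℂ))) = n := by rw [Fintype.card_fin, hfin]
  obtain ⟨bb, c, hb⟩ := exists_eig ρ hxp
  -- multiplicities
  let m : ZMod p → ℕ := fun j => (Finset.univ.filter (fun i => c i = j)).card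
  have hm : ∀ j, ∃ bj : ℕ, e * m j = n * bj := by
    intro j
    apply mult_data hM P hχB hxp hxP hn he (mj := m j) (j := j)
    have := mult_eq ρ hb j
    rw [hρχ] at this
    exact this
  choose bj hbj using hm
  have hsum : ∑ j, m j = n := by
    rw [← hfin', ← Finset.card_univ]
    exact (Finset.card_eq_sum_card_fiberwise (fun i _ => Finset.mem_univ (c i))).symm
  have hbsum : ∑ j, bj j = e := by
    apply Nat.eq_of_mul_eq_mul_left (Nat.pos_of_ne_zero hn0')
    rw [Finset.mul_sum, ← Finset.sum_congr rfl (fun j _ => hbj j), ← Finset.mul_sum, hsum, mul_comm]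
  let J : Finset (ZMod p) := Finset.univ.filter (fun j => m j ≠ 0)
  have hJ : J.card ≤ g₀ := by
    refine le_trans ?_ (hbsum ▸ heg : ∑ j, bj j ≤ g₀)
    calc J.card = ∑ j ∈ J, 1 := by simp
      _ ≤ ∑ j ∈ J, bj j := by
          apply Finset.sum_le_sum
          intro j hj
          have h1 : m j ≠ 0 := (Finset.mem_filter.1 hj).2
          have h2 : bj j ≠ 0 := by
            intro h3
            have h4 := hbj j
            rw [h3, mul_zero] at h4
            rcases Nat.mul_eq_zero.1 h4 with h5 | h5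
            · omega
            · exact h1 h5
          omega
      _ ≤ ∑ j, bj j := Finset.sum_le_sum_of_subset (Finset.subset_univ _)
  have hcJ : ∀ i, c i ∈ J := by
    intro i
    rw [Finset.mem_filter]
    refine ⟨Finset.mem_univ _, ?_⟩
    exact (Finset.card_pos.2 ⟨i, by simp⟩).ne'
  obtain ⟨i0⟩ : Nonempty (Fin (Module.finrank ℂ (Fin N → ℂ))) := by
    rw [← Fintype.card_pos_iff, hfin']
    exact Nat.pos_of_ne_zero hn0'
  have hJpos : 0 < J.card := Finset.card_pos.2 ⟨_, hcJ i0⟩
  -- pigeonhole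
  by_contra hcon
  push Not at hcon
  have hlt : 6 ^ (g₀ - 1) < p := by
    rcases lt_or_eq_of_le hcon with h1 | h1
    · exact h1
    · exfalso
      rcases Nat.eq_zero_or_pos (g₀ - 1) with h2 | h2
      · rw [h2, pow_zero] at h1
        exact hp.one_lt.ne h1
      · have h3 : 2 ∣ p := by
          rw [← h1]
          exact (by norm_num : 2 ∣ 6).trans (dvd_pow_self 6 h2.ne')
        have h4 : 3 ∣ p := by
          rw [← h1]
          exact (by norm_num : 3 ∣ 6).trans (dvd_pow_self 6 h2.ne')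
        have h5 := (Nat.prime_dvd_prime_iff_eq Nat.prime_two hp).1 h3
        have h6 := (Nat.prime_dvd_prime_iff_eq Nat.prime_three hp).1 h4
        omega
  set j0 := c i0 with hj0
  let Φ : ZMod p → ({j // j ∈ J.erase j0} → Fin 6) := fun k j => box6 (ZMod.stdAddChar (k * (j.1 - j0)) : ℂ)
  have hcard : Fintype.card ({j // j ∈ J.erase j0} → Fin 6) < Fintype.card (ZMod p) := by
    rw [Fintype.card_fun, Fintype.card_fin, Fintype.card_coe, ZMod.card, Finset.card_erase_of_mem (hcJ i0)]
    exact lt_of_le_of_lt (Nat.pow_le_pow_right (by norm_num) (Nat.sub_le_sub_right hJ 1)) hlt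
  obtain ⟨k, k', hkk, hΦ⟩ := Fintype.exists_ne_map_eq_of_card_lt Φ hcard
  set l := k' - k with hl
  have hl0 : l ≠ 0 := sub_ne_zero.2 (Ne.symm hkk)
  have hnorm : ∀ t : ZMod p, ‖(ZMod.stdAddChar t : ℂ)‖ = 1 := by
    intro t
    have h1 : (ZMod.stdAddChar t : ℂ) ^ p = 1 := by
      rw [stdAddChar_pow, ZMod.natCast_self, mul_zero, AddChar.map_zero_eq_one]
    exact Complex.norm_eq_one_of_pow_eq_one h1 hp.ne_zero
  have hconj : ∀ t : ZMod p, conj (ZMod.stdAddChar t : ℂ) = ZMod.stdAddChar (-t) := by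
    intro t
    have h1 : (ZMod.stdAddChar t : ℂ) * ZMod.stdAddChar (-t) = 1 := by
      rw [← AddChar.map_add_eq_mul, add_neg_cancel, AddChar.map_zero_eq_one]
    have h2 : (ZMod.stdAddChar t : ℂ) * conj (ZMod.stdAddChar t : ℂ) = 1 := by
      rw [Complex.mul_conj, Complex.normSq_eq_norm_sq, hnorm]; norm_num
    have h3 : (ZMod.stdAddChar t : ℂ) ≠ 0 := left_ne_zero_of_mul_eq_one h1
    exact mul_left_cancel₀ h3 (h2.trans h1.symm)
  have hclose : ∀ j ∈ J, ‖(ZMod.stdAddChar (j * l) : ℂ) - ZMod.stdAddChar (j0 * l)‖ < 1 := by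
    intro j hj
    by_cases hjj : j = j0
    · rw [hjj, sub_self, norm_zero]; exact one_pos
    · have h1 := congrFun hΦ ⟨j, Finset.mem_erase.2 ⟨hjj, hj⟩⟩
      have h2 := norm_sub_of_box6 (hnorm _) (hnorm _) h1
      rw [hconj, ← AddChar.map_add_eq_mul] at h2
      have h3 : (ZMod.stdAddChar (j * l) : ℂ) - ZMod.stdAddChar (j0 * l) =
          ZMod.stdAddChar (j0 * l) * ((ZMod.stdAddChar (-(k * (j - j0)) + k' * (j - j0)) : ℂ) - 1) := by
        rw [mul_sub (ZMod.stdAddChar (j0 * l) : ℂ), mul_one, ← AddChar.map_add_eq_mul]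
        have h5 : j0 * l + (-(k * (j - j0)) + k' * (j - j0)) = j * l := by rw [hl]; ring
        rw [h5]
      rw [h3, norm_mul, hnorm, one_mul]
      exact h2
  set x' := zp p x l with hx'
  have hx'1 : x' ≠ 1 := zp_ne_one hxo hl0
  have hev : ∀ i, ρ x' (bb i) = (ZMod.stdAddChar (c i * l) : ℂ) • bb i := by
    intro i
    rw [hx', zp, diag_pow ρ x (hb i), stdAddChar_pow, ZMod.natCast_val, ZMod.cast_id]
  have hncl : Subgroup.normalClosure {x'} = ⊤ := by
    rcases (inferInstance : (Subgroup.normalClosure {x'}).Normal).eq_bot_or_eq_top with h1 | h1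
    · exfalso
      apply hx'1
      have h2 : x' ∈ Subgroup.normalClosure {x'} := Subgroup.subset_normalClosure rfl
      rwa [h1, Subgroup.mem_bot] at h2
    · exact h1
  have hscal := rep_blich ρ bb (fun i => (ZMod.stdAddChar (c i * l) : ℂ)) hev i0 (hnorm _) (fun i => hclose _ (hcJ i)) hncl
  -- faithful
  have hker : (MonoidHom.ker ρ) = ⊥ := by
    rcases (inferInstance : (MonoidHom.ker ρ).Normal).eq_bot_or_eq_top with h1 | h1
    · exact h1
    · exfalso
      apply hχ1
      have hone : IsIrrCharacter G (fun _ => (1 : ℂ)) := by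
        have := isIrrCharacter_hom (1 : G →* ℂˣ)
        simpa using this
      by_contra hne'
      letI := Fintype.ofFinite G
      have h2 := irr_inner_ne χ.2 hone hne'
      have h3 : (χ : G → ℂ) = (n : ℂ) • (fun _ => (1 : ℂ)) := by
        funext g
        have h4 : ρ g = 1 := by
          have : g ∈ MonoidHom.ker ρ := by rw [h1]; exact Subgroup.mem_top g
          exact MonoidHom.mem_ker.1 this
        change (χ : G → ℂ) g = (n : ℂ) * 1
        rw [mul_one, ← hn, ← hρχ, Representation.character, Representation.character, h4, ← map_one ρ]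
      rw [h3, CfsgLib.CharNorm.ci_smul_l, irr_inner_self hone, mul_one] at h2
      exact hn0 h2
  have hcen : x' ∈ Subgroup.center G := by
    rw [Subgroup.mem_center_iff]
    intro g
    have h1 : (g * x') * (x' * g)⁻¹ ∈ MonoidHom.ker ρ := by
      rw [MonoidHom.mem_ker]
      have h2 : ρ (g * x') = ρ (x' * g) := by
        rw [map_mul, map_mul]
        apply LinearMap.ext
        intro w
        rw [Module.End.mul_apply, Module.End.mul_apply, hscal, hscal, map_smul]
      rw [map_mul, h2, ← map_mul, mul_inv_cancel, map_one]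
    rw [hker, Subgroup.mem_bot, mul_inv_eq_one] at h1
    exact h1
  rw [hZ, Subgroup.mem_bot] at hcen
  exact hx'1 hcen

end Main

end CfsgLib.BurnPQ19
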