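import Cfsg.Agent.LibCNS1
import Cfsg.Agent.LibCNOdd2
import Cfsg.Agent.LibFPF2
import Cfsg.Agent.LibFrob19
import Cfsg.Agent.LibBGCore
import Cfsg.Agent.LibH2Gen2
import Cfsg.Agent.LibTransNil

/-! Frobenius structure of solvable CN-groups (helper8). -/
set_option autoImplicit false

namespace CfsgLib.CNF8

open Subgroup Cfsg CfsgLib.CNOdd CfsgLib.FPF1

universe u
variable {G : Type u} [Group G] [Finite G]

/-- a group acting fixed point freely has a central element -/
theorem exists_central_fpf {A V : Subgroup G} (h : FPF A V) (hAV : A ≤ Subgroup.normalizer (V : Set G)) (hV : V ≠ ⊥) (hA1 : A ≠ ⊥) :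
    ∃ t ∈ A, t ≠ 1 ∧ ∀ y ∈ A, y * t = t * y := by
  by_cases h2 : 2 ∣ Nat.card A
  · obtain ⟨⟨s, hs, hs2, huniq, -⟩, -⟩ := h.even hAV hV h2
    have hs1 : s ≠ 1 := by rintro rfl; rw [orderOf_one] at hs2; omega
    refine ⟨s, hs, hs1, fun y hy => ?_⟩
    have h3 := huniq (y * s * y⁻¹) (A.mul_mem (A.mul_mem hy hs) (A.inv_mem hy)) (by
      have : orderOf (MulAut.conj y s) = orderOf s := MulEquiv.orderOf_eq _ _
      rw [← hs2]; exact this)
    exact mul_inv_eq_iff_eq_mul.1 h3
  · exact h.exists_central_odd hAV hV hA1 h2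

theorem nil_of_fpf (hCN : IsCNGroup G) {A V : Subgroup G} (h : FPF A V) (hAV : A ≤ Subgroup.normalizer (V : Set G)) (hV : V ≠ ⊥) :
    Group.IsNilpotent A := by
  by_cases hA1 : A = ⊥
  · rw [hA1]; infer_instance
  obtain ⟨t, -, ht1, htc⟩ := exists_central_fpf h hAV hV hA1
  exact nil_mono (fun y hy => Subgroup.mem_centralizer_singleton_iff.mpr (htc y hy)) (hCN t ht1)

/-- `r`-elements lie in a normal Sylow `r`-subgroup -/
theorem mem_sylow_normal {r : ℕ} [hr : Fact r.Prime] (R : Sylow r G) (hRn : (R : Subgroup G).Normal) {x : G} {k : ℕ} (hx : orderOf x = r ^ k) :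
    x ∈ (R : Subgroup G) := by
  haveI := hRn
  apply CfsgLib.H2Gen2.mem_of_coprime_index
  rw [hx]
  exact Nat.Coprime.pow_left k ((Nat.Prime.coprime_iff_not_dvd hr.out).2 R.not_dvd_index)

/-- normal Sylow subgroups lie in the Hall Fitting subgroup -/
theorem sylow_le {r : ℕ} [hr : Fact r.Prime] (R : Sylow r G) (hRn : (R : Subgroup G).Normal) : (R : Subgroup G) ≤ fittingHall G := by
  apply le_sSup
  refine ⟨hRn, R.isPGroup'.isNilpotent, ?_⟩
  exact R.card_coprime_index

theorem sylow_normal_of_dvd {r : ℕ} [hr : Fact r.Prime] (hd : r ∣ Nat.card (fittingHall G)) (R : Sylow r G) :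
    (R : Subgroup G).Normal := by
  obtain ⟨hn, hnil, hco⟩ := CfsgLib.BGPi.fittingHall_mem (G := G)
  haveI := hn
  have hri : ¬ r ∣ (fittingHall G).index := fun h => by
    have := Nat.dvd_gcd hd h
    rw [hco.gcd_eq_one] at this
    exact hr.out.one_lt.ne' (Nat.dvd_one.1 this)
  have hRle : (R : Subgroup G) ≤ fittingHall G := by
    apply CfsgLib.H2Gen2.le_of_coprime_index
    obtain ⟨n, hn⟩ := IsPGroup.iff_card.1 R.isPGroup'
    rw [hn]
    exact Nat.Coprime.pow_left n ((Nat.Prime.coprime_iff_not_dvd hr.out).2 hri)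
  have h1 : Subgroup.normalizer ((R : Subgroup G) : Set G) ⊔ fittingHall G = ⊤ := Sylow.normalizer_sup_eq_top' R hRle
  have h2 : ((R.subtype hRle : Sylow r (fittingHall G)) : Subgroup (fittingHall G)).Normal :=
    (Group.isNilpotent_of_finite_tfae.out 0 3 rfl rfl).mp hnil r inferInstance _
  have h3 : fittingHall G ≤ Subgroup.normalizer ((R : Subgroup G) : Set G) := by
    intro g hg
    rw [Subgroup.mem_normalizer_iff]
    have key : ∀ g ∈ fittingHall G, ∀ x ∈ (R : Subgroup G), g * x * g⁻¹ ∈ (R : Subgroup G) := by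
      intro g hg x hx
      have := h2.conj_mem ⟨x, hRle hx⟩ hx ⟨g, hg⟩
      exact this
    intro x
    refine ⟨key g hg x, fun hx => ?_⟩
    have := key g⁻¹ ((fittingHall G).inv_mem hg) _ hx
    have e : g⁻¹ * (g * x * g⁻¹) * g⁻¹⁻¹ = x := by group
    rwa [e] at this
  rw [sup_eq_left.2 h3] at h1
  exact Subgroup.normalizer_eq_top_iff.1 h1

/-- the key: centralizers of nontrivial elements of a normal Sylow subgroup -/
theorem cent_le_of_sylow (hCN : IsCNGroup G) {r : ℕ} [hr : Fact r.Prime] (R : Sylow r G) (hRn : (R : Subgroup G).Normal)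
    {x : G} (hx : x ∈ (R : Subgroup G)) (hx1 : x ≠ 1) : Subgroup.centralizer ({x} : Set G) ≤ fittingHall G := by
  have hR1 : (R : Subgroup G) ≠ ⊥ := by
    intro h; rw [h, Subgroup.mem_bot] at hx; exact hx1 hx
  obtain ⟨z, hz, hz1, hzc⟩ := exists_central R hRn hR1 le_rfl
  obtain ⟨kz, hkz⟩ := orderOf_mem_pgroup hr.out R.isPGroup' hz
  obtain ⟨kx, hkx⟩ := orderOf_mem_pgroup hr.out R.isPGroup' hx
  -- elements of prime power order
  have hel : ∀ s : ℕ, s.Prime → ∀ y : G, y * x = x * y → (∃ k, orderOf y = s ^ k) → y ∈ fittingHall G := by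
    intro s hs y hyx ⟨k, hk⟩
    haveI : Fact s.Prime := ⟨hs⟩
    by_cases hy1 : y = 1
    · rw [hy1]; exact one_mem _
    by_cases hsr : s = r
    · subst hsr
      exact sylow_le R hRn (mem_sylow_normal R hRn hk)
    have hcop : ∀ w : G, (∃ j, orderOf w = r ^ j) → (orderOf y).Coprime (orderOf w) := by
      rintro w ⟨j, hj⟩
      rw [hk, hj]
      exact Nat.Coprime.pow _ _ ((Nat.coprime_primes hs hr.out).2 hsr)
    have h1 : y * z = z * y := cn_comm hCN hx1 hyx (hzc x hx).symm (hcop z ⟨_, hkz⟩)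
    have h2 : ∀ w ∈ (R : Subgroup G), y * w = w * y := by
      intro w hw
      exact cn_comm hCN hz1 h1 (hzc w hw) (hcop w (orderOf_mem_pgroup hr.out R.isPGroup' hw))
    -- the centralizer of R
    set C : Subgroup G := Subgroup.centralizer ((R : Subgroup G) : Set G) with hC
    haveI := hRn
    haveI hCn : C.Normal := inferInstance
    have hyC : y ∈ C := Subgroup.mem_centralizer_iff.2 (fun w hw => (h2 w hw).symm)
    have hCnil : Group.IsNilpotent C := by
      refine nil_mono (B := Subgroup.centralizer ({z} : Set G)) ?_ (hCN z hz1)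
      exact Subgroup.centralizer_le (Set.singleton_subset_iff.2 hz)
    -- Sylow s-subgroup of C
    obtain ⟨S0⟩ : Nonempty (Sylow s C) := inferInstance
    have hS0n : (S0 : Subgroup C).Normal := (Group.isNilpotent_of_finite_tfae.out 0 3 rfl rfl).mp hCnil s inferInstance _
    haveI : (S0 : Subgroup C).Characteristic := S0.characteristic_of_normal hS0n
    have hVn : ((S0 : Subgroup C).map C.subtype).Normal := ConjAct.normal_of_characteristic_of_normal
    have hyS0 : (⟨y, hyC⟩ : C) ∈ (S0 : Subgroup C) := mem_sylow_normal S0 hS0n (k := k) (by rw [Subgroup.orderOf_mk]; exact hk)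
    have hyV : y ∈ (S0 : Subgroup C).map C.subtype := ⟨_, hyS0, rfl⟩
    have hV1 : (S0 : Subgroup C).map C.subtype ≠ ⊥ := by
      intro h; rw [h, Subgroup.mem_bot] at hyV; exact hy1 hyV
    obtain ⟨S⟩ : Nonempty (Sylow s G) := inferInstance
    have hSn : (S : Subgroup G).Normal := by
      refine sylow_normal hCN hVn hV1 (S0.isPGroup'.map _) ?_ S
      intro hpg
      have hzV : z ∈ Subgroup.centralizer (((S0 : Subgroup C).map C.subtype : Subgroup G) : Set G) := by
        rw [Subgroup.mem_centralizer_iff]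
        rintro _ ⟨w, -, rfl⟩
        exact (Subgroup.mem_centralizer_iff.1 w.2 z hz).symm
      obtain ⟨j, hj⟩ := orderOf_mem_pgroup hs hpg hzV
      rw [hkz] at hj
      have h3 : kz ≠ 0 := by
        rintro rfl
        rw [pow_zero] at hkz
        exact hz1 (orderOf_eq_one_iff.1 hkz)
      have h4 : r ∣ s ^ j := hj ▸ dvd_pow_self r h3
      exact hsr ((Nat.prime_dvd_prime_iff_eq hr.out hs).1 (hr.out.dvd_of_dvd_pow h4)).symm
    exact sylow_le S hSn (mem_sylow_normal S hSn hk)
  -- conclude by Sylow subgroups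
  have htop : (fittingHall G).subgroupOf (Subgroup.centralizer ({x} : Set G)) = ⊤ := by
    apply CfsgLib.SolvFitting.eq_top_of_forall_sylow_le
    intro s hs
    obtain ⟨T⟩ : Nonempty (Sylow s (Subgroup.centralizer ({x} : Set G))) := inferInstance
    refine ⟨T, fun t ht => ?_⟩
    rw [Subgroup.mem_subgroupOf]
    refine hel s hs.out _ (Subgroup.mem_centralizer_singleton_iff.1 t.2) ?_
    obtain ⟨j, hj⟩ := orderOf_mem_pgroup hs.out T.isPGroup' ht
    exact ⟨j, by rw [Subgroup.orderOf_coe]; exact hj⟩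
  exact Subgroup.subgroupOf_eq_top.1 htop

theorem cent_le (hCN : IsCNGroup G) {x : G} (hx : x ∈ fittingHall G) (hx1 : x ≠ 1) :
    Subgroup.centralizer ({x} : Set G) ≤ fittingHall G := by
  obtain ⟨r, k, hr, hk⟩ := exists_pow_prime hx1
  haveI : Fact r.Prime := ⟨hr⟩
  have h1 : x ^ k ∈ fittingHall G := pow_mem hx k
  have hne : x ^ k ≠ 1 := by
    intro h; rw [h, orderOf_one] at hk; exact hr.one_lt.ne hk
  obtain ⟨R⟩ : Nonempty (Sylow r G) := inferInstance
  have hd : r ∣ Nat.card (fittingHall G) := by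
    have h2 := orderOf_dvd_natCard (⟨x ^ k, h1⟩ : fittingHall G)
    rwa [Subgroup.orderOf_mk, hk] at h2
  have hRn := sylow_normal_of_dvd hd R
  have h3 : x ^ k ∈ (R : Subgroup G) := mem_sylow_normal R hRn (k := 1) (by rw [pow_one]; exact hk)
  exact (cent_pow x k).trans (cent_le_of_sylow hCN R hRn h3 hne)

/-- S1474 -/
theorem frob (hCN : IsCNGroup G) (hnn : ¬ Group.IsNilpotent G) {p : ℕ} [Fact p.Prime] (P : Sylow p G)
    (hP1 : (P : Subgroup G) ≠ ⊥) (hPn : (P : Subgroup G).Normal) :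
    fittingHall G ≠ ⊥ ∧ fittingHall G ≠ ⊤ ∧
      (∃ E : Subgroup G, Subgroup.IsComplement' (fittingHall G) E ∧ IsFrobeniusComplement E ∧
        ∀ e ∈ E, e ≠ 1 → fittingHall G ⊓ Subgroup.centralizer ({e} : Set G) = ⊥) ∧
      Group.IsNilpotent (G ⧸ fittingHall G) := by
  obtain ⟨hn, hnil, hco⟩ := CfsgLib.BGPi.fittingHall_mem (G := G)
  haveI := hn
  have hb : fittingHall G ≠ ⊥ := by
    intro h
    apply hP1
    rw [← le_bot_iff, ← h]
    exact sylow_le P hPn
  have ht : fittingHall G ≠ ⊤ := by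
    intro h
    apply hnn
    rw [h] at hnil
    haveI := hnil
    exact Group.nilpotent_of_mulEquiv Subgroup.topEquiv
  obtain ⟨E, hE⟩ := Subgroup.exists_right_complement'_of_coprime hco
  have hE1 : E ≠ ⊥ := by
    rintro rfl
    exact ht (Subgroup.isComplement'_bot_right.1 hE)
  have hcent : ∀ z ∈ fittingHall G, z ≠ 1 → ∀ x : G, x * z = z * x → x ∈ fittingHall G := by
    intro z hz hz1 x hx
    exact cent_le hCN hz hz1 (Subgroup.mem_centralizer_singleton_iff.2 hx)
  have hfpf : ∀ e ∈ E, e ≠ 1 → fittingHall G ⊓ Subgroup.centralizer ({e} : Set G) = ⊥ := by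
    intro e he he1
    rw [eq_bot_iff]
    rintro x ⟨hx1, hx2⟩
    rw [Subgroup.mem_bot]
    by_contra hx
    have h1 := hcent x hx1 hx e (Subgroup.mem_centralizer_singleton_iff.1 hx2).symm
    exact he1 (Subgroup.mem_bot.1 (hE.disjoint.le_bot ⟨h1, he⟩))
  refine ⟨hb, ht, ⟨E, hE, (CfsgLib.Frob19.frob_of_centralizers _ E hE hb hE1 hcent).1, hfpf⟩, ?_⟩
  have hEnil : Group.IsNilpotent E := nil_of_fpf hCN hfpf (by rw [Subgroup.normalizer_eq_top_iff.2 hn]; exact le_top) hb
  haveI := hEnil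
  exact Group.nilpotent_of_mulEquiv (hE.symm.QuotientMulEquiv).symm

end CfsgLib.CNF8
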