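import Cfsg.Agent.LibCNF8
import Cfsg.Agent.LibSolvHall
import Cfsg.Agent.LibBenderMax
import Cfsg.Agent.LibLE2

/-! Solvable CN-groups: the trichotomy (helper8). -/
set_option autoImplicit false

namespace CfsgLib.CNF8

open Subgroup Cfsg CfsgLib.CNOdd CfsgLib.FPF1

universe u
variable {G : Type u} [Group G] [Finite G]

theorem zgroup_of {A V : Subgroup G} (h : FPF A V) (hAV : A ≤ Subgroup.normalizer (V : Set G)) (hV : V ≠ ⊥)
    (h2 : ∀ S : Sylow 2 A, IsCyclic S) : IsZGroup A := by
  refine ⟨fun r hr R => ?_⟩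
  haveI := Fact.mk hr
  by_cases hr2 : r = 2
  · subst hr2
    exact h2 R
  · have hle : (R : Subgroup A).map A.subtype ≤ A := Subgroup.map_subtype_le _
    have h1 := (h.mono hle).pgroup_cyclic (hle.trans hAV) hV hr hr2 (R.isPGroup'.map _)
    exact isCyclic_of_surjective _ ((R : Subgroup A).equivMapOfInjective A.subtype A.subtype_injective).symm.surjective

theorem cyclic_of_odd {A V : Subgroup G} (h : FPF A V) (hAV : A ≤ Subgroup.normalizer (V : Set G)) (hV : V ≠ ⊥)
    (hnil : Group.IsNilpotent A) (hodd : Odd (Nat.card A)) : IsCyclic A := by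
  haveI := hnil
  haveI : Fact (Nat.Prime 2) := ⟨Nat.prime_two⟩
  haveI : IsZGroup A := zgroup_of h hAV hV (fun S => by
    have h1 : Nat.card S = 1 := by
      obtain ⟨n, hn⟩ := IsPGroup.iff_card.1 S.isPGroup'
      rcases Nat.eq_zero_or_pos n with h0 | h0
      · rw [hn, h0, pow_zero]
      · exfalso
        have h3 : 2 ∣ Nat.card A := ((dvd_pow_self 2 h0.ne').trans (dvd_of_eq hn.symm)).trans (Subgroup.card_subgroup_dvd_card _)
        exact (Nat.not_even_iff_odd.2 hodd) (even_iff_two_dvd.2 h3)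
    haveI : Subsingleton S := (Nat.card_eq_one_iff_unique.1 h1).1
    infer_instance)
  infer_instance

/-- nilpotent groups acting fixed point freely -/
theorem nilp_struct {A V : Subgroup G} (h : FPF A V) (hAV : A ≤ Subgroup.normalizer (V : Set G)) (hV : V ≠ ⊥)
    (hnil : Group.IsNilpotent A) :
    IsCyclic A ∨ ∃ C Q : Subgroup G, C ⊔ Q = A ∧ (∀ a ∈ C, ∀ b ∈ Q, a * b = b * a) ∧ IsCyclic C ∧ Odd (Nat.card C) ∧
          ∃ n : ℕ, Nonempty (↥Q ≃* QuaternionGroup (2 ^ n)) := by
  haveI := hnil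
  haveI : Fact (Nat.Prime 2) := ⟨Nat.prime_two⟩
  obtain ⟨S⟩ : Nonempty (Sylow 2 A) := inferInstance
  have hSn : (S : Subgroup A).Normal := (Group.isNilpotent_of_finite_tfae.out 0 3 rfl rfl).mp hnil 2 inferInstance _
  have hle : (S : Subgroup A).map A.subtype ≤ A := Subgroup.map_subtype_le _
  rcases (h.mono hle).two_group (hle.trans hAV) hV (S.isPGroup'.map _) with h1 | ⟨n, h1⟩
  · left
    haveI : IsZGroup A := zgroup_of h hAV hV (fun T => by
      have e : T = S := by
        obtain ⟨x, hx⟩ := MulAction.exists_smul_eq A S T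
        haveI := hSn
        rw [← hx, Sylow.smul_eq_of_normal]
      rw [e]
      exact isCyclic_of_surjective _ ((S : Subgroup A).equivMapOfInjective A.subtype A.subtype_injective).symm.surjective)
    infer_instance
  · right
    haveI := hSn
    obtain ⟨C, hC⟩ := Subgroup.exists_right_complement'_of_coprime S.card_coprime_index
    have hCodd : Odd (Nat.card C) := by
      rw [← hC.symm.index_eq_card, ← Nat.not_even_iff_odd, even_iff_two_dvd]
      exact S.not_dvd_index
    have hCm : C.map A.subtype ≤ A := Subgroup.map_subtype_le _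
    have hCc : Nat.card (C.map A.subtype : Subgroup G) = Nat.card C := Subgroup.card_map_of_injective A.subtype_injective
    refine ⟨C.map A.subtype, (S : Subgroup A).map A.subtype, ?_, ?_, ?_, ?_, n, h1⟩
    · rw [← Subgroup.map_sup, sup_comm, hC.sup_eq_top, ← MonoidHom.range_eq_map, Subgroup.range_subtype]
    · rintro _ ⟨a, ha, rfl⟩ _ ⟨b, hb, rfl⟩
      have h3 : a * b = b * a := by
        have := CfsgLib.TransNil.commute_of_coprime_mem (G := A) (H := ⊤) inferInstance (Subgroup.mem_top a) (Subgroup.mem_top b) (by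
          obtain ⟨k, hk⟩ := orderOf_mem_pgroup Nat.prime_two S.isPGroup' hb
          rw [hk]
          apply Nat.Coprime.pow_right
          rw [Nat.coprime_comm, Nat.Prime.coprime_iff_not_dvd Nat.prime_two]
          intro hd
          have h4 := orderOf_dvd_natCard (⟨a, ha⟩ : C)
          rw [Subgroup.orderOf_mk] at h4
          exact (Nat.not_even_iff_odd.2 hCodd) (even_iff_two_dvd.2 (hd.trans h4)))
        exact this
      exact congrArg Subtype.val h3
    · exact cyclic_of_odd (h.mono hCm) (hCm.trans hAV) hV (nil_mono hCm hnil) (by rw [hCc]; exact hCodd)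
    · rw [hCc]; exact hCodd

theorem threeStep [Group.IsSolvable G] (hCN : IsCNGroup G) (hnn : ¬ Group.IsNilpotent G)
    (hno : ∀ (p : ℕ) (_ : Fact p.Prime) (P : Sylow p G), (P : Subgroup G) ≠ ⊥ → ¬ (P : Subgroup G).Normal) :
    ∃ p : ℕ, p.Prime ∧ IsThreeStepGroup p G := by
  obtain ⟨p, hp, hH1⟩ : ∃ p : ℕ, p.Prime ∧ pCore p G ≠ ⊥ := by
    by_contra hcon
    push Not at hcon
    have h1 := CfsgLib.Cores.fittingSubgroup_eq_bot_of_pCore hcon
    have h2 := CfsgLib.Cores.centralizer_fittingSubgroup_le (G := G)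
    rw [h1] at h2
    apply hnn
    have h3 : (⊤ : Subgroup G) ≤ ⊥ := by
      refine le_trans (fun x _ => ?_) h2
      rw [Subgroup.mem_centralizer_iff]
      intro y hy
      rw [Subgroup.coe_bot, Set.mem_singleton_iff] at hy
      rw [hy, one_mul, mul_one]
    have h4 : Subsingleton G := ⟨fun a b => by
      have ha := Subgroup.mem_bot.1 (h3 (Subgroup.mem_top a))
      have hb := Subgroup.mem_bot.1 (h3 (Subgroup.mem_top b))
      rw [ha, hb]⟩
    infer_instance
  haveI := Fact.mk hp
  refine ⟨p, hp, ?_⟩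
  set H : Subgroup G := pCore p G with hH
  have hHp : IsPGroup p H := CfsgLib.Cores.pCore_isPGroup p
  obtain ⟨P⟩ : Nonempty (Sylow p G) := inferInstance
  have hHP : H ≤ P := CfsgLib.Cores.pCore_le_sylow P
  have hP1 : (P : Subgroup G) ≠ ⊥ := fun h => hH1 (le_bot_iff.1 (h ▸ hHP))
  have hPn : ¬ (P : Subgroup G).Normal := hno p inferInstance P hP1
  have hHi : p ∣ H.index := by
    by_contra h
    apply hPn
    rw [CfsgLib.Cores.sylow_eq_pCore_of_not_dvd_index h P]
    infer_instance
  haveI hHn : H.Normal := inferInstance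
  obtain ⟨z, hz, hz1, hzc⟩ := exists_central P hHn hH1 hHP
  have hCp : IsPGroup p (Subgroup.centralizer (H : Set G)) := by
    by_contra h
    exact hPn (sylow_normal hCN hHn hH1 hHp h P)
  -- fixed point free action of p'-elements
  have hstar : ∀ a : G, (orderOf a).Coprime p → a ≠ 1 → H ⊓ Subgroup.centralizer ({a} : Set G) = ⊥ := by
    intro a ha ha1
    rw [eq_bot_iff]
    rintro x ⟨hx, hxa⟩
    rw [Subgroup.mem_bot]
    by_contra hx1
    have hax : a * x = x * a := (Subgroup.mem_centralizer_singleton_iff.1 hxa).symm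
    have hcop : ∀ w ∈ (P : Subgroup G), (orderOf a).Coprime (orderOf w) := by
      intro w hw
      obtain ⟨k, hk⟩ := orderOf_mem_pgroup hp P.isPGroup' hw
      rw [hk]
      exact Nat.Coprime.pow_right k ha
    have h1 : a * z = z * a := cn_comm hCN hx1 hax (hzc x (hHP hx)).symm (hcop z (hHP hz))
    have h2 : a ∈ Subgroup.centralizer (H : Set G) := by
      rw [Subgroup.mem_centralizer_iff]
      intro w hw
      exact (cn_comm hCN hz1 h1 (hzc w (hHP hw)) (hcop w (hHP hw))).symm
    obtain ⟨k, hk⟩ := orderOf_mem_pgroup hp hCp h2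
    rw [hk] at ha
    rcases Nat.eq_zero_or_pos k with h0 | h0
    · rw [h0, pow_zero] at hk
      exact ha1 (orderOf_eq_one_iff.1 hk)
    · have := Nat.Coprime.eq_one_of_dvd (ha.symm) (dvd_pow_self p h0.ne')
      exact hp.one_lt.ne' this
  -- Hall p'-subgroup
  obtain ⟨B, hB⟩ := CfsgLib.SolvHall.hall_exists _ G rfl (P : Subgroup G).index (Nat.card P) (by rw [mul_comm]; exact ((P : Subgroup G).card_mul_index).symm) P.card_coprime_index.symm
  have hBco : (Nat.card B).Coprime p := by
    rw [hB]; exact ((Nat.Prime.coprime_iff_not_dvd hp).2 P.not_dvd_index).symm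
  have hBi : B.index = Nat.card P := by
    have h1 := B.card_mul_index
    have h2 := (P : Subgroup G).card_mul_index
    rw [hB, ← h2, mul_comm (Nat.card P)] at h1
    exact Nat.eq_of_mul_eq_mul_left (Nat.pos_of_ne_zero (P : Subgroup G).index_ne_zero_of_finite) h1
  have hord : ∀ b ∈ B, (orderOf b).Coprime p := by
    intro b hb
    have h1 := orderOf_dvd_natCard (⟨b, hb⟩ : B)
    rw [Subgroup.orderOf_mk] at h1
    exact Nat.Coprime.coprime_dvd_left h1 hBco
  have hBH : ∀ b ∈ B, b ∈ H → b = 1 := by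
    intro b hb hbH
    obtain ⟨k, hk⟩ := orderOf_mem_pgroup hp hHp hbH
    have h1 := hord b hb
    rw [hk] at h1
    rcases Nat.eq_zero_or_pos k with h0 | h0
    · rw [h0, pow_zero] at hk
      exact orderOf_eq_one_iff.1 hk
    · have := Nat.Coprime.eq_one_of_dvd (h1.symm) (dvd_pow_self p h0.ne')
      exact absurd this hp.one_lt.ne'
  have hfpf : FPF B H := fun b hb hb1 => hstar b (hord b hb) hb1
  have hBN : B ≤ Subgroup.normalizer (H : Set G) := by
    rw [Subgroup.normalizer_eq_top_iff.2 hHn]; exact le_top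
  have hBnil : Group.IsNilpotent B := nil_of_fpf hCN hfpf hBN hH1
  have hB1 : B ≠ ⊥ := by
    intro h
    rw [h, Subgroup.card_bot] at hB
    apply hnn
    have h2 : (P : Subgroup G) = ⊤ := Subgroup.index_eq_one.1 hB.symm
    have h3 := P.isPGroup'
    rw [h2] at h3
    have h4 : IsPGroup p G := h3.of_equiv Subgroup.topEquiv
    exact h4.isNilpotent
  -- the quotient
  have hCNq : IsCNGroup (G ⧸ H) := CfsgLib.CNS.cn_quot_solv _ G rfl H inferInstance hCN
  set f : G →* G ⧸ H := QuotientGroup.mk' H with hf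
  have hfs : Function.Surjective f := QuotientGroup.mk'_surjective H
  have hfk : f.ker = H := QuotientGroup.ker_mk' H
  have hfm : ∀ x : G, f x = 1 ↔ x ∈ H := fun x => by rw [← MonoidHom.mem_ker, hfk]
  have hOq : pCore p (G ⧸ H) = ⊥ := CfsgLib.Cores.pCore_quotient_pCore p
  set F : Subgroup (G ⧸ H) := fittingSubgroup (G ⧸ H) with hFdef
  haveI hFn : F.Normal := inferInstance
  have hFco : ¬ p ∣ Nat.card F := fun h => CfsgLib.BenderMax.pCore_ne_bot_of_dvd hp h hOq
  have hCF : Subgroup.centralizer (F : Set (G ⧸ H)) ≤ F := CfsgLib.Cores.centralizer_fittingSubgroup_le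
  have hBfi : (B.map f).index ∣ Nat.card P := by
    rw [← hBi]; exact Subgroup.index_map_dvd B hfs
  obtain ⟨nP, hnP⟩ := IsPGroup.iff_card.1 P.isPGroup'
  have hBfc : ¬ p ∣ Nat.card (B.map f) := by
    intro h
    have h1 := h.trans (Subgroup.card_map_dvd B f)
    exact hp.one_lt.ne' (Nat.Coprime.eq_one_of_dvd hBco.symm h1)
  have hFB : F ≤ B.map f := by
    have h1 : (B.map f).relIndex (B.map f ⊔ F) = 1 := by
      have h2 : (B.map f).relIndex (B.map f ⊔ F) ∣ Nat.card P := (Subgroup.relIndex_dvd_index_of_le le_sup_left).trans hBfi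
      have h3 : (B.map f).relIndex (B.map f ⊔ F) ∣ Nat.card (B.map f) * Nat.card F :=
        (Subgroup.relIndex_dvd_card _ _).trans (CfsgLib.Cores.card_sup_dvd_of_normal _ _)
      rw [hnP] at h2
      obtain ⟨j, -, hj⟩ := (Nat.dvd_prime_pow hp).1 h2
      rcases Nat.eq_zero_or_pos j with h0 | h0
      · rw [hj, h0, pow_zero]
      · exfalso
        have h4 : p ∣ Nat.card (B.map f) * Nat.card F := (dvd_pow_self p h0.ne').trans (hj ▸ h3)
        rcases (Nat.Prime.dvd_mul hp).1 h4 with h5 | h5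
        · exact hBfc h5
        · exact hFco h5
    exact le_sup_right.trans (Subgroup.relIndex_eq_one.1 h1)
  -- odd order
  have hBodd : Odd (Nat.card B) := by
    by_contra heven
    have h2 : 2 ∣ Nat.card B := by
      rw [← even_iff_two_dvd]; exact Nat.not_odd_iff_even.1 heven
    obtain ⟨⟨s, hs, hs2, huniq, -⟩, -⟩ := hfpf.even hBN hH1 h2
    have hs1 : s ≠ 1 := by rintro rfl; rw [orderOf_one] at hs2; omega
    have hscen : ∀ y ∈ B, y * s = s * y := by
      intro y hy
      have h3 := huniq (y * s * y⁻¹) (B.mul_mem (B.mul_mem hy hs) (B.inv_mem hy)) (by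
        have : orderOf (MulAut.conj y s) = orderOf s := MulEquiv.orderOf_eq _ _
        rw [← hs2]; exact this)
      exact mul_inv_eq_iff_eq_mul.1 h3
    have hsF : f s ∈ F := by
      apply hCF
      rw [Subgroup.mem_centralizer_iff]
      intro y hy
      obtain ⟨b, hb, rfl⟩ := hFB hy
      rw [← map_mul, ← map_mul, hscen b hb]
    have hs1' : f s ≠ 1 := fun h => hs1 (hBH s hs ((hfm s).1 h))
    have hss : s * s = 1 := by
      have := pow_orderOf_eq_one s
      rwa [hs2, pow_two] at this
    have hcen : Subgroup.centralizer ({f s} : Set (G ⧸ H)) = ⊤ := by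
      rw [eq_top_iff]
      intro g _
      rw [Subgroup.mem_centralizer_singleton_iff]
      have h3 : g * f s * g⁻¹ ∈ F := hFn.conj_mem _ hsF g
      obtain ⟨b, hb, hbe⟩ := hFB h3
      have h4 : b = s := by
        apply huniq b hb
        apply orderOf_eq_prime
        · rw [pow_two]
          apply hBH _ (B.mul_mem hb hb)
          rw [← hfm, map_mul, hbe]
          have e : g * f s * g⁻¹ * (g * f s * g⁻¹) = g * (f s * f s) * g⁻¹ := by group
          rw [e, ← map_mul, hss, map_one]; group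
        · rintro rfl
          rw [map_one] at hbe
          exact hs1' (conj_eq_one_iff.1 hbe.symm)
      rw [h4] at hbe
      exact (mul_inv_eq_iff_eq_mul.1 hbe.symm)
    have hqn : Group.IsNilpotent (G ⧸ H) := by
      have := hCNq (f s) hs1'
      rw [hcen] at this
      haveI := this
      exact Group.nilpotent_of_mulEquiv Subgroup.topEquiv
    have h5 := CfsgLib.Cores.isNilpotent_iff_not_dvd_index_pCore.1 hqn p hp
    rw [hOq, Subgroup.index_bot] at h5
    exact h5 hHi
  have hBcyc : IsCyclic B := cyclic_of_odd hfpf hBN hH1 hBnil hBodd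
  have hBcomm : ∀ a ∈ B, ∀ b ∈ B, a * b = b * a := by
    intro a ha b hb
    letI := hBcyc.commGroup
    exact congrArg Subtype.val (mul_comm (⟨a, ha⟩ : B) ⟨b, hb⟩)
  have hBF : B.map f = F := by
    apply le_antisymm _ hFB
    refine le_trans ?_ hCF
    rintro _ ⟨a, ha, rfl⟩
    rw [Subgroup.mem_centralizer_iff]
    intro y hy
    obtain ⟨b, hb, rfl⟩ := hFB hy
    rw [← map_mul, ← map_mul, hBcomm b hb a ha]
  have hcomap : H ⊔ B = F.comap f := by
    rw [← hBF, Subgroup.comap_map_eq, hfk, sup_comm]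
  refine ⟨hH1, B, hB1, hBcyc, hBodd, hBco, ?_, ?_, ?_, hfpf, ?_⟩
  · rw [hcomap]; exact hFn.comap f
  · intro htop
    rw [hcomap] at htop
    have h1 : F = ⊤ := by
      rw [eq_top_iff]
      intro y _
      obtain ⟨x, rfl⟩ := hfs y
      have : x ∈ F.comap f := by rw [htop]; exact Subgroup.mem_top _
      exact this
    apply hFco
    rw [h1, Subgroup.card_top]
    exact hHi
  · have h1 : (H ⊔ B).index ∣ p ^ nP := by
      rw [← hnP, ← hBi]
      exact Subgroup.index_dvd_of_le le_sup_right
    obtain ⟨j, -, hj⟩ := (Nat.dvd_prime_pow hp).1 h1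
    exact ⟨j, hj⟩
  · intro x hx a ha ha1 hmem
    apply hx
    rw [hcomap]
    show f x ∈ F
    have hfa : f a ≠ 1 := fun h => ha1 (hBH a ha ((hfm a).1 h))
    have hcomm : f x * f a = f a * f x := by
      have h1 := (hfm _).2 hmem
      rw [map_mul, map_mul, map_mul, map_inv, map_inv] at h1
      have h2 : f x * f a * (f x)⁻¹ = f a := by
        rw [mul_inv_eq_one] at h1; exact h1
      exact mul_inv_eq_iff_eq_mul.1 h2
    obtain ⟨i, j, hij, ⟨k, hk⟩, hj⟩ := CfsgLib.LE.exists_pPart_mul (p := p) (f x)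
    have hpw : ∀ m : ℕ, (f x) ^ m * f a = f a * (f x) ^ m := fun m => (Commute.pow_left (show Commute (f x) (f a) from hcomm) m).eq
    have hFbot : ∀ y ∈ F, (∃ k, orderOf y = p ^ k) → y = 1 := by
      rintro y hy ⟨k, hk⟩
      rcases Nat.eq_zero_or_pos k with h0 | h0
      · rw [h0, pow_zero] at hk
        exact orderOf_eq_one_iff.1 hk
      · exfalso
        apply hFco
        have h3 := orderOf_dvd_natCard (⟨y, hy⟩ : F)
        rw [Subgroup.orderOf_mk, hk] at h3
        exact (dvd_pow_self p h0.ne').trans h3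
    have h1 : (f x) ^ i ∈ F := by
      apply hCF
      rw [Subgroup.mem_centralizer_iff]
      intro y hy
      obtain ⟨b, hb, rfl⟩ := hFB hy
      have h2 : f b * f a = f a * f b := by rw [← map_mul, ← map_mul, hBcomm b hb a ha]
      refine (cn_comm hCNq hfa (hpw i) h2 ?_).symm
      rw [hk]
      apply Nat.Coprime.pow_left
      exact (Nat.Coprime.coprime_dvd_left (orderOf_map_dvd f b) (hord b hb)).symm
    have h2 : (f x) ^ j ∈ F := by
      apply CfsgLib.H2Gen2.mem_of_coprime_index
      rw [← hBF]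
      refine Nat.Coprime.coprime_dvd_right hBfi ?_
      rw [hnP]
      exact Nat.Coprime.pow_right _ hj
    rw [hij]
    exact F.mul_mem h1 h2

theorem main [Group.IsSolvable G] (hCN : IsCNGroup G) :
    Group.IsNilpotent G ∨
      (∃ K E : Subgroup G, K.Normal ∧ Subgroup.IsComplement' K E ∧ Cfsg.IsFrobeniusComplement E ∧
        (IsCyclic E ∨ ∃ C Q : Subgroup G, C ⊔ Q = E ∧ (∀ a ∈ C, ∀ b ∈ Q, a * b = b * a) ∧ IsCyclic C ∧ Odd (Nat.card C) ∧
          ∃ n : ℕ, Nonempty (↥Q ≃* QuaternionGroup (2 ^ n)))) ∨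
      ∃ p : ℕ, p.Prime ∧ Cfsg.IsThreeStepGroup p G := by
  by_cases hnn : Group.IsNilpotent G
  · exact Or.inl hnn
  right
  by_cases hno : ∀ (p : ℕ) (_ : Fact p.Prime) (P : Sylow p G), (P : Subgroup G) ≠ ⊥ → ¬ (P : Subgroup G).Normal
  · exact Or.inr (threeStep hCN hnn hno)
  · left
    push Not at hno
    obtain ⟨p, hp, P, hP1, hPn⟩ := hno
    obtain ⟨hb, ht, ⟨E, hE, hEf, hfpf⟩, -⟩ := frob hCN hnn P hP1 hPn
    have hEN : E ≤ Subgroup.normalizer ((fittingHall G : Subgroup G) : Set G) := by
      rw [Subgroup.normalizer_eq_top_iff.2 inferInstance]; exact le_top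
    exact ⟨fittingHall G, E, inferInstance, hE, hEf, nilp_struct hfpf hEN hb (nil_of_fpf hCN hfpf hEN hb)⟩

end CfsgLib.CNF8
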