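import Cfsg.Agent.EqBase
import Cfsg.Agent.LibCNOdd2
import Cfsg.Agent.LibSolvMin
import Cfsg.Agent.LibSolvFitting
import Cfsg.Agent.LibFgElt
/-!
# CN-groups (helper16): quotients by solvable normal subgroups, maximal nilpotent subgroups
-/
set_option autoImplicit false
set_option linter.all false
open Cfsg
open scoped commutatorElement Pointwise
namespace CfsgLib.CNS

open CfsgLib.CNOdd

universe u

theorem nil_of_inj {A B : Type*} [Group A] [Group B] (f : B →* A) (hf : Function.Injective f) (hA : Group.IsNilpotent A) : Group.IsNilpotent B := by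
  haveI := hA
  haveI : Group.IsNilpotent f.range := Subgroup.isNilpotent _
  exact Group.nilpotent_of_mulEquiv (MonoidHom.ofInjective hf).symm

theorem cn_of_inj {A B : Type*} [Group A] [Group B] (f : B →* A) (hf : Function.Injective f) (hA : IsCNGroup A) : IsCNGroup B := by
  intro g hg
  have h1 := hA (f g) (fun h => hg (hf (h.trans (map_one f).symm)))
  let F : Subgroup.centralizer ({g} : Set B) →* Subgroup.centralizer ({f g} : Set A) :=
    { toFun := fun x => ⟨f (x : B), by
        have := Subgroup.mem_centralizer_singleton_iff.mp x.2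
        rw [Subgroup.mem_centralizer_singleton_iff, ← map_mul, ← map_mul, this]⟩
      map_one' := Subtype.ext (map_one f)
      map_mul' := fun x y => Subtype.ext (map_mul f (x : B) (y : B)) }
  refine nil_of_inj F ?_ h1
  intro x y h
  exact Subtype.ext (hf (congrArg Subtype.val h))

theorem nil_of_top {G : Type u} [Group G] {K : Subgroup G} (hK : Group.IsNilpotent K) (h : K = ⊤) : Group.IsNilpotent G := by
  subst h
  exact Group.nilpotent_of_mulEquiv Subgroup.topEquiv

/-- a CN-group whose `p'`-elements centralize a nontrivial normal `p`-subgroup is nilpotent -/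
theorem nil_of_comm {C : Type u} [Group C] [Finite C] (hCN : IsCNGroup C) {p : ℕ} [hp : Fact p.Prime] {V : Subgroup C} (hVn : V.Normal) (hV1 : V ≠ ⊥)
    (hVp : IsPGroup p V) (h : ∀ t : C, Nat.Coprime (orderOf t) p → ∀ v ∈ V, t * v = v * t) : Group.IsNilpotent C := by
  obtain ⟨P⟩ : Nonempty (Sylow p C) := inferInstance
  obtain ⟨z, hz, hz1, hzc⟩ := exists_central P hVn hV1 (CfsgLib.Cores.normal_le_sylow hVn hVp P)
  refine nil_of_top (hCN z hz1) ?_
  apply CfsgLib.SolvFitting.eq_top_of_forall_sylow_le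
  intro s hs
  by_cases hsp : s = p
  · subst hsp
    exact ⟨P, fun y hy => Subgroup.mem_centralizer_singleton_iff.mpr (hzc y hy)⟩
  · obtain ⟨S⟩ : Nonempty (Sylow s C) := inferInstance
    refine ⟨S, fun y hy => Subgroup.mem_centralizer_singleton_iff.mpr (h y ?_ z hz)⟩
    obtain ⟨k, hk⟩ := orderOf_mem_pgroup hs.out S.isPGroup' hy
    rw [hk]
    exact Nat.Coprime.pow_left k ((Nat.coprime_primes hs.out hp.out).mpr hsp)

theorem exists_fixed_pt {G : Type u} [Group G] [Finite G] {p : ℕ} [hp : Fact p.Prime] {H : Subgroup G} (hH1 : H ≠ ⊥) (hHp : IsPGroup p H) {x : G} (hx : x ∈ Subgroup.normalizer (H : Set G))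
    (hxp : ∃ k, orderOf x = p ^ k) : ∃ w ∈ H, w ≠ 1 ∧ w * x = x * w := by
  have hcpg : IsPGroup p (Subgroup.zpowers x) := by
    rw [IsPGroup.iff_card, Nat.card_zpowers]
    exact hxp
  have hfixV : H ⊓ Subgroup.centralizer ((Subgroup.zpowers x : Subgroup G) : Set G) ≠ ⊥ := by
    intro hbot
    have h5 := CfsgLib.TransAb.card_modEq_centralizer (Subgroup.zpowers x) H hcpg (by
      rw [Subgroup.zpowers_le]; exact hx)
    rw [hbot, Subgroup.card_bot] at h5
    obtain ⟨m, hm⟩ := IsPGroup.iff_card.mp hHp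
    have hm0 : m ≠ 0 := by
      rintro rfl
      rw [pow_zero] at hm
      exact hH1 (Subgroup.card_eq_one.mp hm)
    rw [hm] at h5
    have h6 : p ∣ 1 := (Nat.modEq_zero_iff_dvd.mp (h5.symm.trans (Nat.modEq_zero_iff_dvd.mpr (dvd_pow_self p hm0))))
    exact hp.out.not_dvd_one h6
  obtain ⟨v, ⟨hv, hvc⟩, hv1⟩ := (Subgroup.bot_or_exists_ne_one _).resolve_left hfixV
  exact ⟨v, hv, hv1, (Subgroup.mem_centralizer_iff.mp hvc x (Subgroup.mem_zpowers x)).symm⟩

/-- lifting of commuting elements -/
theorem lift_comm {G : Type u} [Group G] [Finite G] {H : Subgroup G} [hHn : H.Normal] (hHs : Group.IsSolvable H) {t w : G} (hcop : (orderOf t).Coprime (Nat.card H))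
    (hcomm : QuotientGroup.mk' H t * QuotientGroup.mk' H w = QuotientGroup.mk' H w * QuotientGroup.mk' H t) : ∃ c : G, t * c = c * t ∧ w⁻¹ * c ∈ H := by
  have hfix : ∀ a ∈ Subgroup.zpowers t, a * w * a⁻¹ * w⁻¹ ∈ H := by
    intro a ha
    rw [← QuotientGroup.eq_one_iff]
    obtain ⟨j, rfl⟩ := ha
    have h4 : (QuotientGroup.mk' H (t ^ j)) * QuotientGroup.mk' H w = QuotientGroup.mk' H w * (QuotientGroup.mk' H (t ^ j)) := by
      rw [map_zpow]
      exact (Commute.zpow_left (show Commute _ _ from hcomm) j).eq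
    show QuotientGroup.mk' H (t ^ j * w * (t ^ j)⁻¹ * w⁻¹) = 1
    rw [map_mul, map_mul, map_mul, map_inv, map_inv, h4]; group
  have hn : Subgroup.normalizer (H : Set G) = ⊤ := Subgroup.normalizer_eq_top_iff.mpr hHn
  obtain ⟨c, hc, hxc⟩ := CfsgLib.SolvCoprime.exists_fixed_in_coset (Subgroup.zpowers t) H (by rw [hn]; exact le_top) (by rw [Nat.card_zpowers]; exact hcop) (Or.inr hHs) w (by
    rw [hn]; trivial) hfix
  exact ⟨c, Subgroup.mem_centralizer_iff.mp hc t (Subgroup.mem_zpowers t), hxc⟩

/-- quotients by normal elementary abelian subgroups -/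
theorem cn_quot_elem {G : Type u} [Group G] [Finite G] (hCN : IsCNGroup G) {H : Subgroup G} [hHn : H.Normal] (hH1 : H ≠ ⊥) (hHc : ∀ a ∈ H, ∀ b ∈ H, a * b = b * a)
    {p : ℕ} (hp : p.Prime) (hHp : IsPGroup p H) : IsCNGroup (G ⧸ H) := by
  haveI := Fact.mk hp
  obtain ⟨n, hn⟩ := IsPGroup.iff_card.mp hHp
  haveI hHs : Group.IsSolvable H := by
    haveI := hHp.isNilpotent
    infer_instance
  have hnorm : Subgroup.normalizer (H : Set G) = ⊤ := Subgroup.normalizer_eq_top_iff.mpr hHn
  intro x hx
  obtain ⟨r, k, hr, hrk⟩ := exists_pow_prime hx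
  refine nil_mono (cent_pow x k) ?_
  generalize x ^ k = y at hrk ⊢
  have hy1 : y ≠ 1 := by
    rintro rfl
    rw [orderOf_one] at hrk
    exact hr.one_lt.ne hrk
  by_cases hrp : r = p
  · subst hrp
    obtain ⟨x', hx'⟩ := QuotientGroup.mk'_surjective H y
    set C := (Subgroup.centralizer ({y} : Set (G ⧸ H))).comap (QuotientGroup.mk' H) with hC
    have hHC : H ≤ C := by
      intro h hh
      rw [hC, Subgroup.mem_comap]
      have : QuotientGroup.mk' H h = 1 := (QuotientGroup.eq_one_iff h).mpr hh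
      rw [this]
      exact Subgroup.one_mem _
    have hx'p : ∃ k, orderOf x' = r ^ k := by
      have hcp : x' ^ r ∈ H := by
        rw [← QuotientGroup.eq_one_iff]
        show QuotientGroup.mk' H (x' ^ r) = 1
        rw [map_pow, hx', ← hrk, pow_orderOf_eq_one]
      obtain ⟨j, hj⟩ := hHp ⟨_, hcp⟩
      have hj' : (x' ^ r) ^ r ^ j = 1 := congrArg Subtype.val hj
      rw [← pow_mul, ← pow_succ'] at hj'
      obtain ⟨i, -, hi⟩ := (Nat.dvd_prime_pow hr).mp (orderOf_dvd_of_pow_eq_one hj')
      exact ⟨i, hi⟩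
    obtain ⟨w, hw, hw1, hwx⟩ := exists_fixed_pt hH1 hHp (x := x') (by rw [hnorm]; trivial) hx'p
    have key : ∀ t : C, Nat.Coprime (orderOf t) r → ∀ v ∈ H.subgroupOf C, t * v = v * t := by
      rintro ⟨t, ht⟩ hto ⟨v, hvC⟩ hv
      rw [Subgroup.orderOf_mk] at hto
      have hv' : v ∈ H := hv
      have htc : QuotientGroup.mk' H t * y = y * QuotientGroup.mk' H t := Subgroup.mem_centralizer_singleton_iff.mp (Subgroup.mem_comap.mp ht)
      rw [← hx'] at htc
      obtain ⟨c, hc, hxc⟩ := lift_comm hHs (by rw [hn]; exact Nat.Coprime.pow_right n hto) htc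
      have hc1 : c ≠ 1 := by
        rintro rfl
        apply hy1
        have h1 : QuotientGroup.mk' H (x'⁻¹ * 1) = 1 := (QuotientGroup.eq_one_iff _).mpr hxc
        rw [mul_one, map_inv, inv_eq_one, hx'] at h1
        exact h1
      have hwc : w * c = c * w := by
        have h1 : c = x' * (x'⁻¹ * c) := by group
        rw [h1, ← mul_assoc, hwx, mul_assoc, hHc w hw _ hxc]; group
      obtain ⟨i, hi⟩ := orderOf_mem_pgroup hp hHp hw
      obtain ⟨i', hi'⟩ := orderOf_mem_pgroup hp hHp hv'
      have h2 : t * w = w * t := cn_comm hCN hc1 hc hwc (by rw [hi]; exact Nat.Coprime.pow_right i hto)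
      have h3 : t * v = v * t := cn_comm hCN hw1 h2 (hHc v hv' w hw) (by rw [hi']; exact Nat.Coprime.pow_right i' hto)
      exact Subtype.ext h3
    have hCnil : Group.IsNilpotent C := by
      haveI : (H.subgroupOf C).Normal := inferInstance
      refine nil_of_comm (cn_sub hCN C) (p := r) (V := H.subgroupOf C) inferInstance ?_ ?_ key
      · intro h
        rw [Subgroup.subgroupOf_eq_bot, disjoint_iff, inf_eq_left.mpr hHC] at h
        exact hH1 h
      · exact hHp.of_equiv (Subgroup.subgroupOfEquivOfLe hHC).symm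
    exact Group.nilpotent_of_surjective ((QuotientGroup.mk' H).subgroupComap (Subgroup.centralizer ({y} : Set (G ⧸ H))))
      (MonoidHom.subgroupComap_surjective_of_surjective _ _ (QuotientGroup.mk'_surjective H))
  · obtain ⟨x', hx'o, hx'z⟩ := lift_prime hHp hr hrp hp hrk
    have hx'1 : x' ≠ 1 := by
      rintro rfl
      rw [orderOf_one] at hx'o
      exact hr.one_lt.ne hx'o
    haveI := hCN x' hx'1
    have hle : Subgroup.centralizer ({y} : Set (G ⧸ H)) ≤ (Subgroup.centralizer ({x'} : Set G)).map (QuotientGroup.mk' H) := by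
      intro z hz
      obtain ⟨w, rfl⟩ := QuotientGroup.mk'_surjective H z
      have hcomm : QuotientGroup.mk' H x' * QuotientGroup.mk' H w = QuotientGroup.mk' H w * QuotientGroup.mk' H x' := by
        have h2 : QuotientGroup.mk' H x' ∈ Subgroup.zpowers y := by rw [← hx'z]; exact Subgroup.mem_zpowers _
        obtain ⟨j, hj⟩ := h2
        rw [← hj]
        have h3 : Commute y (QuotientGroup.mk' H w) := (Subgroup.mem_centralizer_singleton_iff.mp hz).symm
        exact (Commute.zpow_left h3 j).eq
      obtain ⟨c, hc, hxc⟩ := lift_comm hHs (by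
        rw [hx'o, hn]
        exact Nat.Coprime.pow_right n ((Nat.coprime_primes hr hp).mpr hrp)) hcomm
      refine ⟨c, Subgroup.mem_centralizer_singleton_iff.mpr hc.symm, ?_⟩
      have : QuotientGroup.mk' H (w⁻¹ * c) = 1 := (QuotientGroup.eq_one_iff _).mpr hxc
      rw [map_mul, map_inv, inv_mul_eq_one] at this
      exact this.symm
    refine nil_mono hle ?_
    exact Group.nilpotent_of_surjective ((QuotientGroup.mk' H).subgroupMap (Subgroup.centralizer ({x'} : Set G))) ((QuotientGroup.mk' H).subgroupMap_surjective _)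

/-- **quotients of CN-groups by solvable normal subgroups are CN-groups** -/
theorem cn_quot_solv (n : ℕ) : ∀ (G : Type u) [Group G] [Finite G], Nat.card G = n → ∀ (H : Subgroup G) [H.Normal], Group.IsSolvable H → IsCNGroup G → IsCNGroup (G ⧸ H) := by
  induction n using Nat.strong_induction_on with
  | _ n ih =>
  intro G _ _ hcard H hHn hHs hCN
  by_cases hH1 : H = ⊥
  · subst hH1
    exact cn_of_inj QuotientGroup.quotientBot.toMonoidHom QuotientGroup.quotientBot.injective hCN
  · obtain ⟨M, p, hp, hM, hMH, hMc, -, hMp⟩ := CfsgLib.SolvMin.exists_minNormal_pgroup_of_solvable' H hH1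
    haveI := hM.1
    have hMcc : ∀ a ∈ M, ∀ b ∈ M, a * b = b * a := fun a ha b hb => congrArg Subtype.val (hMc.is_comm.comm (⟨a, ha⟩ : M) ⟨b, hb⟩)
    have h1 : IsCNGroup (G ⧸ M) := cn_quot_elem hCN hM.2.1 hMcc hp hMp
    have hlt : Nat.card (G ⧸ M) < n := by
      have h2 := Subgroup.card_eq_card_quotient_mul_card_subgroup M
      have h3 : 1 < Nat.card M := by
        rw [Finite.one_lt_card_iff_nontrivial]
        exact (Subgroup.nontrivial_iff_ne_bot M).mpr hM.2.1
      have h4 : 0 < Nat.card (G ⧸ M) := Nat.card_pos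
      rw [← hcard, h2]
      nlinarith
    haveI : (H.map (QuotientGroup.mk' M)).Normal := hHn.map _ (QuotientGroup.mk'_surjective M)
    have hs : Group.IsSolvable (H.map (QuotientGroup.mk' M)) := by
      exact Group.isSolvable_of_surjective ((QuotientGroup.mk' M).subgroupMap_surjective H)
    have h5 := ih _ hlt (G ⧸ M) rfl (H.map (QuotientGroup.mk' M)) hs h1
    exact cn_of_inj (QuotientGroup.quotientQuotientEquivQuotient M H hMH).symm.toMonoidHom (QuotientGroup.quotientQuotientEquivQuotient M H hMH).symm.injective h5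

end CfsgLib.CNS
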