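import Cfsg.Agent.EqBase
import Cfsg.Agent.LibCNS1
import Cfsg.Agent.LibFrobK
/-!
# CN-groups (helper16): maximal nilpotent subgroups
-/
set_option autoImplicit false
set_option linter.all false
open Cfsg
open scoped commutatorElement Pointwise
namespace CfsgLib.CNS

open CfsgLib.CNOdd

universe u

/-- in a nilpotent group an element central in a Sylow subgroup is central -/
theorem central_of {H : Type u} [Group H] [Finite H] (hH : Group.IsNilpotent H) {p : ℕ} [hp : Fact p.Prime] (S : Sylow p H) {x : H} (hx : x ∈ (S : Subgroup H))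
    (hc : ∀ y ∈ (S : Subgroup H), y * x = x * y) (y : H) : y * x = x * y := by
  have h1 : Subgroup.centralizer ({x} : Set H) = ⊤ := by
    apply CfsgLib.SolvFitting.eq_top_of_forall_sylow_le
    intro s hs
    by_cases hsp : s = p
    · subst hsp
      exact ⟨S, fun y hy => Subgroup.mem_centralizer_singleton_iff.mpr (hc y hy)⟩
    · obtain ⟨R⟩ : Nonempty (Sylow s H) := inferInstance
      refine ⟨R, fun y hy => Subgroup.mem_centralizer_singleton_iff.mpr ?_⟩
      apply CfsgLib.TransNil.commute_of_coprime H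
      obtain ⟨k, hk⟩ := orderOf_mem_pgroup hs.out R.isPGroup' hy
      obtain ⟨j, hj⟩ := orderOf_mem_pgroup hp.out S.isPGroup' hx
      rw [hk, hj]
      exact Nat.Coprime.pow_left k (Nat.Coprime.pow_right j ((Nat.coprime_primes hs.out hp.out).mpr hsp))
  exact Subgroup.mem_centralizer_singleton_iff.mp (h1 ▸ Subgroup.mem_top y)

/-- central elements of prime order -/
theorem exists_central_prime {H : Type u} [Group H] [Finite H] (hH : Group.IsNilpotent H) {p : ℕ} (hp : p.Prime) (hd : p ∣ Nat.card H) :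
    ∃ z : H, orderOf z = p ∧ ∀ y : H, y * z = z * y := by
  haveI := Fact.mk hp
  obtain ⟨S⟩ : Nonempty (Sylow p H) := inferInstance
  have hdS : p ∣ Nat.card (S : Subgroup H) := S.dvd_card_of_dvd_card hd
  haveI hnt : Nontrivial (S : Subgroup H) := by
    rw [← Finite.one_lt_card_iff_nontrivial]
    exact lt_of_lt_of_le hp.one_lt (Nat.le_of_dvd Nat.card_pos hdS)
  have h1 : Nontrivial (Subgroup.center (S : Subgroup H)) := S.isPGroup'.center_nontrivial
  have h2 : IsPGroup p (Subgroup.center (S : Subgroup H)) := S.isPGroup'.to_subgroup _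
  obtain ⟨n, hn⟩ := IsPGroup.iff_card.mp h2
  have h3 : n ≠ 0 := by
    rintro rfl
    rw [pow_zero] at hn
    have := Finite.one_lt_card_iff_nontrivial.mpr h1
    omega
  have h4 : p ∣ Nat.card (Subgroup.center (S : Subgroup H)) := by rw [hn]; exact dvd_pow_self p h3
  obtain ⟨z, hz⟩ := exists_prime_orderOf_dvd_card' (G := Subgroup.center (S : Subgroup H)) p h4
  refine ⟨z.1.1, ?_, ?_⟩
  · rw [Subgroup.orderOf_coe, Subgroup.orderOf_coe, hz]
  · exact central_of hH S z.1.2 (fun y hy => congrArg Subtype.val (Subgroup.mem_center_iff.mp z.2 ⟨y, hy⟩))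

/-- maximal nilpotent subgroups -/
structure MaxNil {G : Type u} [Group G] (H : Subgroup G) : Prop where
  nil : Group.IsNilpotent H
  max : ∀ L : Subgroup G, Group.IsNilpotent L → H ≤ L → L = H

namespace MaxNil
variable {G : Type u} [Group G] [Finite G] (hCN : IsCNGroup G) {H : Subgroup G} (M : MaxNil H)
include M

include hCN in
omit [Finite G] in
theorem cent {z : G} (hz1 : z ≠ 1) (hz : ∀ y ∈ H, y * z = z * y) : Subgroup.centralizer ({z} : Set G) = H :=
  M.max _ (hCN z hz1) (fun y hy => Subgroup.mem_centralizer_singleton_iff.mpr (hz y hy))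

theorem exists_z {p : ℕ} (hp : p.Prime) (hd : p ∣ Nat.card H) : ∃ z ∈ H, orderOf z = p ∧ ∀ y ∈ H, y * z = z * y := by
  obtain ⟨z, hz, hzc⟩ := exists_central_prime M.nil hp hd
  exact ⟨z, z.2, by rw [Subgroup.orderOf_coe, hz], fun y hy => congrArg Subtype.val (hzc ⟨y, hy⟩)⟩

include hCN in
/-- maximal nilpotent subgroups are Hall subgroups -/
theorem hall : (Nat.card H).Coprime H.index := by
  rw [Nat.coprime_iff_gcd_eq_one]
  by_contra hne
  obtain ⟨p, hp, hd⟩ := Nat.exists_prime_and_dvd hne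
  have hpH : p ∣ Nat.card H := hd.trans (Nat.gcd_dvd_left _ _)
  have hpi : p ∣ H.index := hd.trans (Nat.gcd_dvd_right _ _)
  haveI := Fact.mk hp
  obtain ⟨S⟩ : Nonempty (Sylow p H) := inferInstance
  have hSp : IsPGroup p ((S : Subgroup H).map H.subtype) := S.isPGroup'.map _
  obtain ⟨P, hP⟩ := hSp.exists_le_sylow
  have hdS : p ∣ Nat.card (S : Subgroup H) := S.dvd_card_of_dvd_card hpH
  have hcardS : Nat.card ((S : Subgroup H).map H.subtype) = Nat.card (S : Subgroup H) := Subgroup.card_map_of_injective H.subtype_injective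
  have hPb : (P : Subgroup G) ≠ ⊥ := by
    intro h
    have h1 : Nat.card ((S : Subgroup H).map H.subtype) ∣ Nat.card (P : Subgroup G) := Subgroup.card_dvd_of_le hP
    rw [h, Subgroup.card_bot, hcardS] at h1
    exact hp.one_lt.ne' (Nat.dvd_one.mp (hdS.trans h1))
  -- it is enough to show `P ≤ H`
  have hfin : ¬ (P : Subgroup G) ≤ H := by
    intro h
    have h1 : H.index ∣ (P : Subgroup G).index := Subgroup.index_dvd_of_le h
    exact P.not_dvd_index (hpi.trans h1)
  by_cases hHp : IsPGroup p H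
  · obtain ⟨Q, hQ⟩ := hHp.exists_le_sylow
    have h1 : (Q : Subgroup G) = H := M.max _ Q.isPGroup'.isNilpotent hQ
    rw [← h1] at hpi
    exact Q.not_dvd_index hpi
  · haveI hPnt : Nontrivial (P : Subgroup G) := (Subgroup.nontrivial_iff_ne_bot _).mpr hPb
    have h1 : Nontrivial (Subgroup.center (P : Subgroup G)) := P.isPGroup'.center_nontrivial
    obtain ⟨⟨⟨x, hxP⟩, hxc⟩, hx1⟩ := exists_ne (1 : Subgroup.center (P : Subgroup G))
    have hx1' : x ≠ 1 := fun h => hx1 (Subtype.ext (Subtype.ext h))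
    have hxc' : ∀ y ∈ (P : Subgroup G), y * x = x * y := fun y hy => congrArg Subtype.val (Subgroup.mem_center_iff.mp hxc ⟨y, hy⟩)
    obtain ⟨z, hzH, hzo, hzc⟩ := M.exists_z hp hpH
    have hz1 : z ≠ 1 := by
      rintro rfl
      rw [orderOf_one] at hzo
      exact hp.one_lt.ne hzo
    have hnS : (S : Subgroup H).Normal := (CfsgLib.SolvFitting.isNilpotent_of_sylow_normal H).mp M.nil p inferInstance S
    have hmemS : ∀ y : H, (∃ k, orderOf y = p ^ k) → y ∈ (S : Subgroup H) := by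
      rintro y ⟨k, hk⟩
      haveI := hnS
      exact mem_sylow_of_nil (N := ⊤) (Group.nilpotent_of_mulEquiv (_h := M.nil) Subgroup.topEquiv.symm) S le_top (Subgroup.mem_top y) (k := k) (by rw [← hk]; exact pow_orderOf_eq_one y)
    have hzS : z ∈ (P : Subgroup G) := by
      apply hP
      exact ⟨⟨z, hzH⟩, hmemS _ ⟨1, by rw [Subgroup.orderOf_mk, hzo, pow_one]⟩, rfl⟩
    have hxH : x ∈ H := by
      rw [← M.cent hCN hz1 hzc, Subgroup.mem_centralizer_singleton_iff]
      exact (hxc' z hzS).symm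
    obtain ⟨k, hk⟩ := orderOf_mem_pgroup hp P.isPGroup' hxP
    have hxS : (⟨x, hxH⟩ : H) ∈ (S : Subgroup H) := hmemS _ ⟨k, by rw [Subgroup.orderOf_mk, hk]⟩
    have hxall : ∀ y ∈ H, y * x = x * y := by
      intro y hy
      have h5 := central_of M.nil S hxS (fun w hw => Subtype.ext (hxc' w (hP ⟨w, hw, rfl⟩))) ⟨y, hy⟩
      exact congrArg Subtype.val h5
    apply hfin
    intro y hy
    rw [← M.cent hCN hx1' hxall, Subgroup.mem_centralizer_singleton_iff]
    exact hxc' y hy

omit [Finite G] in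
theorem conj (g : G) : MaxNil (H.map (MulAut.conj g).toMonoidHom) := by
  have hinj : ∀ K : Subgroup G, Group.IsNilpotent K → ∀ g : G, Group.IsNilpotent (K.map (MulAut.conj g).toMonoidHom) := by
    intro K hK g
    haveI := hK
    exact Group.nilpotent_of_mulEquiv (K.equivMapOfInjective _ (MulAut.conj g).injective)
  have hback : ∀ K : Subgroup G, (K.map (MulAut.conj g⁻¹).toMonoidHom).map (MulAut.conj g).toMonoidHom = K := by
    intro K
    ext x
    constructor
    · rintro ⟨_, ⟨y, hy, rfl⟩, rfl⟩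
      have : (MulAut.conj g).toMonoidHom ((MulAut.conj g⁻¹).toMonoidHom y) = y := by
        show g * (g⁻¹ * y * g⁻¹⁻¹) * g⁻¹ = y
        group
      rw [this]; exact hy
    · intro hx
      exact ⟨_, ⟨x, hx, rfl⟩, by show g * (g⁻¹ * x * g⁻¹⁻¹) * g⁻¹ = x; group⟩
  refine ⟨hinj H M.nil g, ?_⟩
  intro L hL hHL
  have h1 : L.map (MulAut.conj g⁻¹).toMonoidHom = H := by
    apply M.max _ (hinj L hL g⁻¹)
    intro x hx
    refine ⟨g * x * g⁻¹, hHL ⟨x, hx, rfl⟩, ?_⟩
    show g⁻¹ * (g * x * g⁻¹) * g⁻¹⁻¹ = x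
    group
  rw [← h1, hback]

include hCN in
/-- maximal nilpotent subgroups whose orders are not prime powers are TI -/
theorem ti {H' : Subgroup G} (M' : MaxNil H') (hcard : Nat.card H' = Nat.card H) (hpp : ¬ IsPrimePow (Nat.card H)) (hne : H' ≠ H) : H ⊓ H' = ⊥ := by
  by_contra hinf
  obtain ⟨x₀, ⟨hx₀, hx₀'⟩, hx₀1⟩ := (Subgroup.bot_or_exists_ne_one _).resolve_left hinf
  obtain ⟨p, k, hp, hxo⟩ := exists_pow_prime hx₀1
  obtain ⟨x, hxdef⟩ : ∃ x, x = x₀ ^ k := ⟨_, rfl⟩
  rw [← hxdef] at hxo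
  have hx : x ∈ H := by rw [hxdef]; exact H.pow_mem hx₀ k
  have hx' : x ∈ H' := by rw [hxdef]; exact H'.pow_mem hx₀' k
  have hx1 : x ≠ 1 := by
    rintro h
    rw [h, orderOf_one] at hxo
    exact hp.one_lt.ne hxo
  have hpH : p ∣ Nat.card H := by
    have := orderOf_dvd_natCard (⟨x, hx⟩ : H)
    rwa [Subgroup.orderOf_mk, hxo] at this
  obtain ⟨q, hq, hqH, hqp⟩ : ∃ q : ℕ, q.Prime ∧ q ∣ Nat.card H ∧ q ≠ p := by
    by_contra hcon
    push Not at hcon
    apply hpp
    rw [isPrimePow_nat_iff]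
    have h1 := Nat.eq_prime_pow_of_unique_prime_dvd Nat.card_pos.ne' (fun {d} hd hdd => hcon d hd hdd)
    refine ⟨p, (Nat.card H).primeFactorsList.length, hp, ?_, h1.symm⟩
    rw [Nat.pos_iff_ne_zero]
    intro h0
    rw [h0, pow_zero] at h1
    rw [h1] at hpH
    exact hp.one_lt.ne' (Nat.dvd_one.mp hpH)
  have ne1 : ∀ {w : G} {r : ℕ}, r.Prime → orderOf w = r → w ≠ 1 := by
    rintro w r hr hw rfl
    rw [orderOf_one] at hw
    exact hr.one_lt.ne hw
  obtain ⟨y, hyH, hyo, hyc⟩ := M.exists_z hp hpH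
  obtain ⟨z, hzH, hzo, hzc⟩ := M.exists_z hq hqH
  obtain ⟨y', hyH', hyo', hyc'⟩ := M'.exists_z hp (hcard ▸ hpH)
  obtain ⟨z', hzH', hzo', hzc'⟩ := M'.exists_z hq (hcard ▸ hqH)
  have hcpq : Nat.Coprime q p := (Nat.coprime_primes hq hp).mpr hqp
  -- `z` and `y'` commute
  have e1 : z * y' = y' * z := cn_comm hCN hx1 (hzc x hx).symm (hyc' x hx').symm (by rw [hzo, hyo']; exact hcpq)
  have e2 : z' * y = y * z' := cn_comm hCN hx1 (hzc' x hx').symm (hyc x hx).symm (by rw [hzo', hyo]; exact hcpq)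
  have hzH2 : z ∈ H' := by
    rw [← M'.cent hCN (ne1 hp hyo') hyc', Subgroup.mem_centralizer_singleton_iff]; exact e1
  have hyH2 : y ∈ H' := by
    rw [← M'.cent hCN (ne1 hq hzo') hzc', Subgroup.mem_centralizer_singleton_iff]; exact e2.symm
  apply hne
  have hle : H' ≤ H := by
    intro h hh
    obtain ⟨a, b, ha, hb, hab, -, ⟨i, hap⟩, hbp⟩ := CfsgLib.FgElt.exists_p_decomp hq h
    have haH : a ∈ H' := (Subgroup.zpowers_le.mpr hh) ha
    have hbH : b ∈ H' := (Subgroup.zpowers_le.mpr hh) hb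
    rw [← hab]
    apply H.mul_mem
    · rw [← M.cent hCN (ne1 hp hyo) hyc, Subgroup.mem_centralizer_singleton_iff]
      exact CfsgLib.TransNil.commute_of_coprime_mem M'.nil haH hyH2 (by rw [hap, hyo]; exact Nat.Coprime.pow_left i hcpq)
    · rw [← M.cent hCN (ne1 hq hzo) hzc, Subgroup.mem_centralizer_singleton_iff]
      exact CfsgLib.TransNil.commute_of_coprime_mem M'.nil hbH hzH2 (by rw [hzo]; exact hbp)
  exact Subgroup.eq_of_le_of_card_ge hle hcard.ge

include hCN in
theorem cent_le (hTI : ∀ g : G, H.map (MulAut.conj g).toMonoidHom ≠ H → H ⊓ H.map (MulAut.conj g).toMonoidHom = ⊥) {x : G} (hx : x ∈ H) (hx1 : x ≠ 1) :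
    Subgroup.centralizer ({x} : Set G) ≤ H := by
  obtain ⟨p, k, hp, hxo⟩ := exists_pow_prime hx1
  refine (cent_pow x k).trans ?_
  obtain ⟨u, hu⟩ : ∃ u, u = x ^ k := ⟨_, rfl⟩
  rw [← hu] at hxo ⊢
  have huH : u ∈ H := by rw [hu]; exact H.pow_mem hx k
  have hu1 : u ≠ 1 := by
    rintro h
    rw [h, orderOf_one] at hxo
    exact hp.one_lt.ne hxo
  have hpH : p ∣ Nat.card H := by
    have := orderOf_dvd_natCard (⟨u, huH⟩ : H)
    rwa [Subgroup.orderOf_mk, hxo] at this
  obtain ⟨z, hzH, hzo, hzc⟩ := M.exists_z hp hpH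
  have hz1 : z ≠ 1 := by
    rintro rfl
    rw [orderOf_one] at hzo
    exact hp.one_lt.ne hzo
  intro y hy
  rw [Subgroup.mem_centralizer_singleton_iff] at hy
  obtain ⟨a, b, ha, hb, hab, -, ⟨i, hap⟩, hbp⟩ := CfsgLib.FgElt.exists_p_decomp hp y
  have hau : a * u = u * a := CfsgLib.FgElt.commute_of_mem_zpowers ha hy
  have hbu : b * u = u * b := CfsgLib.FgElt.commute_of_mem_zpowers hb hy
  rw [← hab]
  apply H.mul_mem
  · have h1 : H.map (MulAut.conj a).toMonoidHom = H := by
      by_contra hne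
      have h2 := hTI a hne
      have h3 : u ∈ H ⊓ H.map (MulAut.conj a).toMonoidHom := ⟨huH, ⟨u, huH, by
        show a * u * a⁻¹ = u
        rw [hau]; group⟩⟩
      rw [h2, Subgroup.mem_bot] at h3
      exact hu1 h3
    have haN : a ∈ Subgroup.normalizer (H : Set G) := by
      rw [Subgroup.mem_normalizer_iff]
      intro w
      constructor
      · intro hw
        rw [← h1]
        exact ⟨w, hw, rfl⟩
      · intro hw
        rw [← h1] at hw
        obtain ⟨v, hv, hvw⟩ := hw
        have h2 : v = w := (MulAut.conj a).injective hvw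
        rw [← h2]; exact hv
    haveI hn' : (H.subgroupOf (Subgroup.normalizer (H : Set G))).Normal := inferInstance
    haveI : Fintype (Subgroup.normalizer (H : Set G)) := Fintype.ofFinite _
    have h2 := CfsgLib.FrobK.mem_of_order hn' (x := ⟨a, haN⟩) (by
      rw [Subgroup.orderOf_mk, hap]
      apply Nat.Coprime.pow_left
      have h3 : (H.subgroupOf (Subgroup.normalizer (H : Set G))).index ∣ H.index := Subgroup.relIndex_dvd_index_of_le (Subgroup.le_normalizer)
      exact Nat.Coprime.coprime_dvd_left hpH (Nat.Coprime.coprime_dvd_right h3 (M.hall hCN)))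
    exact h2
  · rw [← M.cent hCN hz1 hzc, Subgroup.mem_centralizer_singleton_iff]
    exact cn_comm hCN hu1 hbu (hzc u huH).symm (by rw [hzo]; exact hbp)

end MaxNil
end CfsgLib.CNS
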