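import Mathlib
import Cfsg.Agent.LibCP2H13

/-! Symplectic companion operators (seat helper13). -/

namespace CfsgLib.CP

open Module Polynomial

/-- a nondegenerate functional -/
theorem exists_mu {F : Type*} [Field F] {R : F[X]} (hR : R.Monic) : ∃ μ : AdjoinRoot R →ₗ[F] F, ∀ s : AdjoinRoot R, s ≠ 0 → ∃ t, μ (s * t) ≠ 0 := by
  classical
  refine ⟨(lcoeff F (R.natDegree - 1)) ∘ₗ AdjoinRoot.modByMonicHom hR, fun s hs => ?_⟩
  have h1 : AdjoinRoot.mk R (AdjoinRoot.modByMonicHom hR s) = s := AdjoinRoot.mk_leftInverse hR s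
  obtain ⟨f, hf⟩ : ∃ f, f = AdjoinRoot.modByMonicHom hR s := ⟨_, rfl⟩
  rw [← hf] at h1
  have hf0 : f ≠ 0 := by
    rintro rfl
    rw [map_zero] at h1
    exact hs h1.symm
  have hdeg : f.degree < R.degree := by
    have h2 : f = f %ₘ R := by
      rw [← AdjoinRoot.modByMonicHom_mk hR, h1, hf]
    rw [h2]
    exact degree_modByMonic_lt f hR
  have hnd : f.natDegree < R.natDegree := natDegree_lt_natDegree hf0 hdeg
  refine ⟨AdjoinRoot.mk R (X ^ (R.natDegree - 1 - f.natDegree)), ?_⟩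
  have h3 : (f * X ^ (R.natDegree - 1 - f.natDegree)) %ₘ R = f * X ^ (R.natDegree - 1 - f.natDegree) := by
    rw [modByMonic_eq_self_iff hR]
    apply degree_lt_degree
    rw [natDegree_mul hf0 (pow_ne_zero _ X_ne_zero), natDegree_X_pow]
    omega
  have h4 : R.natDegree - 1 = f.natDegree + (R.natDegree - 1 - f.natDegree) := by omega
  have h5 : (f * X ^ (R.natDegree - 1 - f.natDegree)).coeff (R.natDegree - 1) = f.leadingCoeff := by
    conv_lhs => rw [h4]
    rw [Nat.add_sub_cancel_left, coeff_mul_X_pow]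
    rfl
  rw [← h1, ← map_mul, LinearMap.comp_apply, AdjoinRoot.modByMonicHom_mk, h3, lcoeff_apply, h5]
  exact leadingCoeff_ne_zero.2 hf0

open Matrix in
/-- the characteristic polynomial of the block matrix -/
theorem blk_eval {K : Type*} [Field K] {n : ℕ} (M : Matrix (Fin n) (Fin n) K) (a : K) (ha : a ≠ 0) :
    (fromBlocks 0 (-1) 1 M : Matrix (Fin n ⊕ Fin n) (Fin n ⊕ Fin n) K).charpoly.eval a = a ^ n * M.charpoly.eval (a + a⁻¹) := by
  rw [Matrix.eval_charpoly, Matrix.eval_charpoly]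
  have h1 : (scalar (Fin n ⊕ Fin n) a - fromBlocks 0 (-1) 1 M : Matrix (Fin n ⊕ Fin n) (Fin n ⊕ Fin n) K) =
      fromBlocks (scalar (Fin n) a) 1 (-1) (scalar (Fin n) a - M) := by
    ext i j
    rcases i with i | i <;> rcases j with j | j <;> simp [Matrix.diagonal_apply, Matrix.one_apply]
  have h2 : (fromBlocks (scalar (Fin n) a) 1 (-1) (scalar (Fin n) a - M) * Matrix.J (Fin n) K : Matrix (Fin n ⊕ Fin n) (Fin n ⊕ Fin n) K) =
      fromBlocks 1 (-scalar (Fin n) a) (scalar (Fin n) a - M) 1 := by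
    rw [Matrix.J, fromBlocks_multiply]
    simp
  have h3 : (Matrix.J (Fin n) K).det = 1 := SymplecticGroup.det_eq_one (SymplecticGroup.J_mem _ _)
  rw [h1, ← mul_one (det _), ← h3, ← det_mul, h2, det_fromBlocks_one₁₁]
  have h4 : (1 - (scalar (Fin n) a - M) * -scalar (Fin n) a : Matrix (Fin n) (Fin n) K) = a • (scalar (Fin n) (a + a⁻¹) - M) := by
    ext i j
    simp only [scalar_apply, Matrix.sub_apply, Matrix.mul_neg, Matrix.neg_apply, Matrix.smul_apply, Matrix.mul_diagonal, Matrix.diagonal_apply,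
      Matrix.one_apply, smul_eq_mul]
    split_ifs
    · field_simp
      ring
    · ring
  rw [h4, det_smul, Fintype.card_fin]

end CfsgLib.CP
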