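import Mathlib

/-! Norms from quadratic extensions of finite commutative rings; hermitian squares in finite rings with involution. -/

namespace CfsgLib.Norm

open Polynomial

/-- A non-degenerate binary form `a² + T a b + n b²` over a finite field is universal. -/
theorem universal {k : Type*} [Field k] [Finite k] (T n c : k) (h : T ^ 2 - 4 * n ≠ 0) : ∃ a b : k, a ^ 2 + T * a * b + n * b ^ 2 = c := by
  classical
  haveI : Fintype k := Fintype.ofFinite k
  by_cases h2 : ringChar k = 2
  · haveI : CharP k 2 := by rw [← h2]; exact ringChar.charP k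
    obtain ⟨a, ha⟩ := (PerfectRing.bijective_frobenius (R := k) (p := 2)).2 c
    exact ⟨a, 0, by rw [mul_zero, zero_pow two_ne_zero, mul_zero, add_zero, add_zero]; exact ha⟩
  · have h20 : (2 : k) ≠ 0 := by
      intro h0
      have : ((2 : ℕ) : k) = 0 := by exact_mod_cast h0
      have h3 := (ringChar.spec k 2).mp this
      exact h2 (((Nat.dvd_prime Nat.prime_two).mp h3).resolve_left (CharP.char_ne_one k (ringChar k)))
    have hodd : Fintype.card k % 2 = 1 := FiniteField.odd_card_of_char_ne_two h2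
    set δ := T ^ 2 - 4 * n with hδ
    obtain ⟨x, y, hxy⟩ := FiniteField.exists_root_sum_quadratic (R := k) (f := X ^ 2 - C (4 * c)) (g := C (-δ) * X ^ 2)
      (by rw [degree_X_pow_sub_C (by norm_num)]; rfl)
      (by rw [degree_C_mul_X_pow _ (neg_ne_zero.mpr h)]; rfl) hodd
    simp only [eval_sub, eval_pow, eval_X, eval_C, eval_mul] at hxy
    refine ⟨(x - T * y) / 2, y, ?_⟩
    field_simp
    have h4 : (4 : k) ≠ 0 := by
      have : (4 : k) = 2 * 2 := by norm_num
      rw [this]; exact mul_ne_zero h20 h20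
    linear_combination hxy + y ^ 2 * hδ

section ring

variable {S : Type*} [CommRing S]

/-- lifting along a nilpotent ideal -/
theorem lift_norm (τ : S →+* S) (t : S) (ht : t + τ t = 1) (hτ : ∀ x, τ (τ x) = x) (J : Ideal S) (hJ : IsNilpotent J) (hτJ : ∀ x ∈ J, τ x ∈ J) :
    ∀ k, 1 ≤ k → ∀ j ∈ J ^ k, τ j = j → ∃ d, d * τ d = 1 + j := by
  obtain ⟨N, hN⟩ := hJ
  -- reverse induction
  suffices H : ∀ m k, 1 ≤ k → N ≤ k + m → ∀ j ∈ J ^ k, τ j = j → ∃ d, d * τ d = 1 + j by
    intro k hk; exact H N k hk (by omega)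
  intro m
  induction m with
  | zero =>
    intro k _ hk j hj _
    have : j ∈ (⊥ : Ideal S) := by
      have h1 := Ideal.pow_le_pow_right hk hj
      rw [hN] at h1
      exact h1
    rw [Ideal.mem_bot] at this
    exact ⟨1, by rw [this, map_one]; ring⟩
  | succ m ih =>
    intro k hk hkm j hj hτj
    -- units: 1 + j t, 1 + j
    have hnil : ∀ x ∈ J ^ k, IsNilpotent x := by
      intro x hx
      refine ⟨N, ?_⟩
      have h1 : x ∈ J := Ideal.pow_le_self (by omega) hx
      have h2 : x ^ N ∈ J ^ N := Ideal.pow_mem_pow h1 N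
      rw [hN] at h2
      exact h2
    set u := 1 + j * t with hu
    have hjt : j * t ∈ J ^ k := Ideal.mul_mem_right _ _ hj
    have huu : IsUnit u := (hnil _ hjt).isUnit_one_add
    have hτt : τ t = 1 - t := by linear_combination ht
    have hτu : τ u = 1 + j * τ t := by rw [hu, map_add, map_one, map_mul, hτj]
    obtain ⟨w, hw⟩ := huu.exists_right_inv
    have hτw : τ u * τ w = 1 := by rw [← map_mul, hw, map_one]
    -- (1+j) / (u τu) = 1 + j'
    have hprod : u * τ u = 1 + j + j ^ 2 * (t * τ t) := by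
      rw [hτu, hτt, hu]; ring
    set j' := -(j ^ 2 * (t * τ t)) * (w * τ w) with hj'
    have hj'mem : j' ∈ J ^ (k + 1) := by
      have h1 : j ^ 2 ∈ J ^ (k + 1) := by
        rw [pow_two]
        have : j * j ∈ J ^ k * J ^ 1 := Ideal.mul_mem_mul hj (by rw [pow_one]; exact Ideal.pow_le_self (by omega) hj)
        rwa [← pow_add] at this
      rw [hj']
      exact Ideal.mul_mem_right _ _ (neg_mem (Ideal.mul_mem_right _ _ h1))
    have hτj' : τ j' = j' := by
      rw [hj']
      simp only [map_neg, map_mul, map_pow, hτ, hτj]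
      ring
    obtain ⟨d, hd⟩ := ih (k + 1) (by omega) (by omega) j' hj'mem hτj'
    refine ⟨u * d, ?_⟩
    rw [map_mul]
    calc u * d * (τ u * τ d) = (u * τ u) * (d * τ d) := by ring
      _ = (u * τ u) * (1 + j') := by rw [hd]
      _ = (u * τ u) - (j ^ 2 * (t * τ t)) * ((u * w) * (τ u * τ w)) := by rw [hj']; ring
      _ = 1 + j := by rw [hw, hτw, hprod]; ring

/-- Norms: if `θ - τ θ` is a unit in the finite ring `S` then every `τ`-fixed unit is a norm. -/
theorem exists_norm [Finite S] (τ : S →+* S) (hτ : ∀ x, τ (τ x) = x) (θ : S) (hθ : IsUnit (θ - τ θ)) (c : S) (hc : IsUnit c) (hτc : τ c = c) :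
    ∃ d, d * τ d = c := by
  classical
  rcases subsingleton_or_nontrivial S with hs | hs
  · exact ⟨0, Subsingleton.elim _ _⟩
  obtain ⟨w, hw⟩ := hθ.exists_right_inv
  set t := θ * w with ht
  have hτw : τ w = -w := by
    have h1 := congrArg τ hw
    rw [map_mul, map_sub, hτ, map_one] at h1
    calc τ w = τ w * ((θ - τ θ) * w) := by rw [hw, mul_one]
      _ = -((τ θ - θ) * τ w) * w := by ring
      _ = -w := by rw [h1]; ring
  have htt : t + τ t = 1 := by
    rw [ht, map_mul, hτw]
    linear_combination hw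
  -- the fixed ring
  let S0 : Subring S := RingHom.eqLocus τ (RingHom.id S)
  have hS0 : ∀ x, x ∈ S0 ↔ τ x = x := fun x => Iff.rfl
  have hτ2 : ∀ x y, x = y → τ x = τ y := fun _ _ h => congrArg τ h
  let T : S0 := ⟨θ + τ θ, by rw [hS0, map_add, hτ, add_comm]⟩
  let n : S0 := ⟨θ * τ θ, by rw [hS0, map_mul, hτ, mul_comm]⟩
  let c0 : S0 := ⟨c, hτc⟩
  have hdisc : ∃ z : S0, (T ^ 2 - 4 * n) * z = 1 := by
    refine ⟨⟨w ^ 2, by rw [hS0, map_pow, hτw]; ring⟩, ?_⟩
    apply Subtype.ext
    show ((θ + τ θ) ^ 2 - 4 * (θ * τ θ)) * w ^ 2 = 1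
    calc ((θ + τ θ) ^ 2 - 4 * (θ * τ θ)) * w ^ 2 = ((θ - τ θ) * w) ^ 2 := by ring
      _ = 1 := by rw [hw, one_pow]
  obtain ⟨z, hz⟩ := hdisc
  haveI : Finite S0 := inferInstance
  -- local solutions
  have hloc : ∀ m : MaximalSpectrum S0, ∃ a b : S0 ⧸ m.asIdeal, a ^ 2 + (Ideal.Quotient.mk m.asIdeal T) * a * b + (Ideal.Quotient.mk m.asIdeal n) * b ^ 2 = Ideal.Quotient.mk m.asIdeal c0 := by
    intro m
    haveI := m.isMaximal
    haveI : Finite (S0 ⧸ m.asIdeal) := Finite.of_surjective (Ideal.Quotient.mk m.asIdeal) Ideal.Quotient.mk_surjective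
    letI := Ideal.Quotient.field m.asIdeal
    apply universal
    intro h0
    have h1 := congrArg (Ideal.Quotient.mk m.asIdeal) hz
    rw [map_mul, map_sub, map_pow, map_mul, map_one] at h1
    have h4 : (Ideal.Quotient.mk m.asIdeal (4 : S0)) = 4 := map_ofNat _ 4
    rw [h4, h0, zero_mul] at h1
    exact zero_ne_one h1
  choose am bm hab using hloc
  have hcop : Pairwise (Function.onFun IsCoprime (fun m : MaximalSpectrum S0 => m.asIdeal)) := by
    intro m m' hmm
    haveI := m.isMaximal
    haveI := m'.isMaximal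
    exact Ideal.isCoprime_of_isMaximal (fun h => hmm (MaximalSpectrum.ext h))
  obtain ⟨a, ha⟩ := Ideal.pi_quotient_surjective hcop am
  obtain ⟨b, hb⟩ := Ideal.pi_quotient_surjective hcop bm
  set x : S0 := a ^ 2 + T * a * b + n * b ^ 2 - c0 with hx
  have hxm : ∀ m : MaximalSpectrum S0, x ∈ m.asIdeal := by
    intro m
    rw [← Ideal.Quotient.eq_zero_iff_mem, hx, map_sub, map_add, map_add, map_mul, map_mul, map_mul, map_pow, map_pow, ha, hb, hab, sub_self]
  have hxnil0 : IsNilpotent x := by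
    rw [nilpotent_iff_mem_prime]
    intro P hP
    haveI := hP
    have hPm : P.IsMaximal := IsArtinianRing.isMaximal_of_isPrime P
    exact hxm ⟨P, hPm⟩
  have hxnil : IsNilpotent (x : S) := hxnil0.map S0.subtype
  have hτx : τ (x : S) = x := x.2
  -- d0
  set d0 : S := (a : S) + b * θ with hd0
  have hτa : τ (a : S) = a := a.2
  have hτb : τ (b : S) = b := b.2
  have hN0 : d0 * τ d0 = c + x := by
    have : (x : S) = (a : S) ^ 2 + (θ + τ θ) * a * b + (θ * τ θ) * b ^ 2 - c := rfl
    rw [this, hd0, map_add, map_mul, hτa, hτb]; ring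
  have hunit : IsUnit (c + (x : S)) := hxnil.isUnit_add_left_of_commute hc (Commute.all _ _)
  obtain ⟨v, hv⟩ := hunit.exists_right_inv
  have hτv : τ v = v := by
    have h1 := congrArg τ hv
    rw [map_mul, map_add, hτc, hτx, map_one] at h1
    calc τ v = ((c + x) * v) * τ v := by rw [hv, one_mul]
      _ = v * ((c + x) * τ v) := by ring
      _ = v := by rw [h1, mul_one]
  have hJ : IsNilpotent (nilradical S) := IsNoetherianRing.isNilpotent_nilradical S
  have hj : -(x : S) * v ∈ nilradical S ^ 1 := by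
    rw [pow_one, mem_nilradical]
    exact (Commute.all _ _).isNilpotent_mul_right hxnil.neg
  obtain ⟨e, he⟩ := lift_norm τ t htt hτ (nilradical S) hJ (fun y hy => by
    rw [mem_nilradical] at hy ⊢; exact hy.map τ) 1 le_rfl _ hj (by rw [map_mul, map_neg, hτx, hτv])
  refine ⟨d0 * e, ?_⟩
  rw [map_mul]
  calc d0 * e * (τ d0 * τ e) = (d0 * τ d0) * (e * τ e) := by ring
    _ = (c + x) * (1 + -(x : S) * v) := by rw [hN0, he]
    _ = (c + x) - x * ((c + x) * v) := by ring
    _ = c := by rw [hv]; ring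

end ring

/-- The version inside a finite ring with an anti-involution. -/
theorem exists_star_mul {E : Type*} [Ring E] [Finite E] (st : E → E) (hadd : ∀ x y, st (x + y) = st x + st y) (hmul : ∀ x y, st (x * y) = st y * st x)
    (hone : st 1 = 1) (hinv : ∀ x, st (st x) = x) (S : Set E) (hcomm : ∀ x ∈ S, ∀ y ∈ S, x * y = y * x) (hst : ∀ x ∈ S, st x ∈ S)
    (θ : E) (hθS : θ ∈ S) (hθ : IsUnit (θ - st θ)) (c : E) (hcS : c ∈ S) (hc : IsUnit c) (hstc : st c = c) :
    ∃ d ∈ Subring.closure S, st d * d = c ∧ d * st d = c ∧ IsUnit d := by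
  classical
  have hzero : st 0 = 0 := by
    have := hadd 0 0
    rw [add_zero] at this
    exact left_eq_add.mp this
  have hneg : ∀ x, st (-x) = -st x := by
    intro x
    have := hadd x (-x)
    rw [add_neg_cancel, hzero] at this
    exact (neg_eq_of_add_eq_zero_right this.symm).symm
  let R := Subring.closure S
  have hRst : ∀ x ∈ R, st x ∈ R := by
    intro x hx
    induction hx using Subring.closure_induction with
    | mem x hx => exact Subring.subset_closure (hst x hx)
    | zero => rw [hzero]; exact R.zero_mem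
    | one => rw [hone]; exact R.one_mem
    | add x y _ _ hx hy => rw [hadd]; exact R.add_mem hx hy
    | neg x _ hx => rw [hneg]; exact R.neg_mem hx
    | mul x y _ _ hx hy => rw [hmul]; exact R.mul_mem hy hx
  letI : CommRing R := Subring.closureCommRingOfComm hcomm
  have hRcomm : ∀ x ∈ R, ∀ y ∈ R, x * y = y * x := by
    intro x hx y hy
    have := mul_comm (⟨x, hx⟩ : R) ⟨y, hy⟩
    exact congrArg Subtype.val this
  let τ : R →+* R :=
    { toFun := fun x => ⟨st x, hRst x x.2⟩
      map_one' := Subtype.ext hone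
      map_mul' := fun x y => Subtype.ext (by
        show st (x * y) = st x * st y
        rw [hmul]
        exact hRcomm _ (hRst y y.2) _ (hRst x x.2))
      map_zero' := Subtype.ext hzero
      map_add' := fun x y => Subtype.ext (hadd x y) }
  have hunit : ∀ x : R, IsUnit (x : E) → IsUnit x := by
    intro x hx
    obtain ⟨u, hu⟩ := hx
    have hfin : IsOfFinOrder u := isOfFinOrder_of_finite u
    obtain ⟨k, hk, hk1⟩ := isOfFinOrder_iff_pow_eq_one.mp hfin
    have h1 : (x : E) ^ k = 1 := by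
      rw [← hu, ← Units.val_pow_eq_pow_val, hk1, Units.val_one]
    have h2 : x ^ k = 1 := Subtype.ext h1
    exact IsUnit.of_pow_eq_one h2 (by omega)
  haveI : Finite R := inferInstance
  obtain ⟨d, hd⟩ := exists_norm τ (fun x => Subtype.ext (hinv x)) (⟨θ, Subring.subset_closure hθS⟩ : R) (by
    apply hunit
    exact hθ) (⟨c, Subring.subset_closure hcS⟩ : R) (by apply hunit; exact hc) (Subtype.ext hstc)
  have hd1 : (d : E) * st d = c := congrArg Subtype.val hd
  have hd2 : st d * (d : E) = c := by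
    rw [← hd1]; exact hRcomm _ (hRst d d.2) _ d.2
  refine ⟨d, d.2, hd2, hd1, ?_⟩
  obtain ⟨u, hu⟩ := hc
  have e1 : (d : E) * (st d * ((u⁻¹ : Eˣ) : E)) = 1 := by rw [← mul_assoc, hd1, ← hu, Units.mul_inv]
  have e2 : (((u⁻¹ : Eˣ) : E) * st d) * (d : E) = 1 := by rw [mul_assoc, hd2, ← hu, Units.inv_mul]
  exact isUnit_iff_exists.mpr ⟨st d * ((u⁻¹ : Eˣ) : E), e1, by
    have : st d * ((u⁻¹ : Eˣ) : E) = ((u⁻¹ : Eˣ) : E) * st d := by
      calc st d * ((u⁻¹ : Eˣ) : E) = (((u⁻¹ : Eˣ) : E) * st d) * (d : E) * (st d * ((u⁻¹ : Eˣ) : E)) := by rw [e2, one_mul]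
        _ = (((u⁻¹ : Eˣ) : E) * st d) * ((d : E) * (st d * ((u⁻¹ : Eˣ) : E))) := by rw [mul_assoc]
        _ = _ := by rw [e1, mul_one]
    rw [this]; exact e2⟩

/-- Conjugacy of "isometries" in a finite ring with anti-involution: if `g A = B g` with `g` invertible, and `θ`, `st θ` commute with `A`
and `st g * g`, and `θ - st θ` is a unit, then some unitary `u` has `u A = B u`. -/
theorem exists_unitary_conj {E : Type*} [Ring E] [Finite E] (st : E → E) (hadd : ∀ x y, st (x + y) = st x + st y) (hmul : ∀ x y, st (x * y) = st y * st x)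
    (hone : st 1 = 1) (hinv : ∀ x, st (st x) = x) (A B g θ : E) (hg : IsUnit g) (hgA : g * A = B * g) (hA : st A * A = 1) (hB : st B * B = 1)
    (hA' : A * st A = 1) (hB' : B * st B = 1)
    (hθ : IsUnit (θ - st θ)) (h1 : θ * st θ = st θ * θ) (h2 : θ * A = A * θ)
    (h3 : θ * (st g * g) = (st g * g) * θ) : ∃ u, st u * u = 1 ∧ u * st u = 1 ∧ u * A = B * u := by
  classical
  set C := st g * g with hC
  have hstC : st C = C := by rw [hC, hmul, hinv]
  have hCu : IsUnit C := by
    obtain ⟨u, hu⟩ := hg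
    have e1 : st g * st ((u⁻¹ : Eˣ) : E) = 1 := by rw [← hmul, ← hu, Units.inv_mul, hone]
    have e2 : st ((u⁻¹ : Eˣ) : E) * st g = 1 := by rw [← hmul, ← hu, Units.mul_inv, hone]
    have : IsUnit (st g) := isUnit_iff_exists.mpr ⟨_, e1, e2⟩
    exact this.mul ⟨u, hu⟩
  -- C A = A C
  have hAg : A * st g = st g * B := by
    -- st g * st B = st A * st g
    have e1 : st A * st g = st g * st B := by rw [← hmul, ← hmul, hgA]
    calc A * st g = A * st g * (st B * B) := by rw [hB, mul_one]
      _ = A * (st g * st B) * B := by simp only [mul_assoc]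
      _ = (A * st A) * st g * B := by rw [← e1]; simp only [mul_assoc]
      _ = st g * B := by rw [hA', one_mul]
  have hCA : C * A = A * C := by
    rw [hC, mul_assoc, hgA, ← mul_assoc, ← hAg, mul_assoc]
  have hθ' : st θ * C = C * st θ := by
    have := congrArg st h3
    rw [hmul θ C, hmul C θ, hstC] at this
    exact this.symm
  obtain ⟨d, hd, hd1, hd2, hdu⟩ := exists_star_mul st hadd hmul hone hinv {C, θ, st θ} (by
      intro x hx y hy
      simp only [Set.mem_insert_iff, Set.mem_singleton_iff] at hx hy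
      rcases hx with rfl | rfl | rfl <;> rcases hy with rfl | rfl | rfl
      · rfl
      · exact h3.symm
      · exact hθ'.symm
      · exact h3
      · rfl
      · exact h1
      · exact hθ'
      · exact h1.symm
      · rfl) (by
      intro x hx
      simp only [Set.mem_insert_iff, Set.mem_singleton_iff] at hx ⊢
      rcases hx with rfl | rfl | rfl
      · left; exact hstC
      · right; right; rfl
      · right; left; exact hinv _) θ (by simp) hθ C (by simp) hCu hstC
  -- d commutes with A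
  have hθA' : st θ * A = A * st θ := by
    -- from θ A = A θ:  st A st θ = st θ st A ; conj by A
    have e1 : st A * st θ = st θ * st A := by rw [← hmul, ← hmul, h2]
    calc st θ * A = (A * st A) * st θ * A := by rw [hA', one_mul]
      _ = A * (st A * st θ) * A := by simp only [mul_assoc]
      _ = A * st θ * (st A * A) := by rw [e1]; simp only [mul_assoc]
      _ = A * st θ := by rw [hA, mul_one]
  have hdA : ∀ x ∈ Subring.closure ({C, θ, st θ} : Set E), x * A = A * x := by
    intro x hx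
    induction hx using Subring.closure_induction with
    | mem x hx =>
      simp only [Set.mem_insert_iff, Set.mem_singleton_iff] at hx
      rcases hx with rfl | rfl | rfl
      · exact hCA
      · exact h2
      · exact hθA'
    | zero => rw [zero_mul, mul_zero]
    | one => rw [one_mul, mul_one]
    | add x y _ _ hx hy => rw [add_mul, mul_add, hx, hy]
    | neg x _ hx => rw [neg_mul, mul_neg, hx]
    | mul x y _ _ hx hy => rw [mul_assoc, hy, ← mul_assoc, hx, mul_assoc]
  obtain ⟨u, hu⟩ := hdu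
  have hstu : st d * st ((u⁻¹ : Eˣ) : E) = 1 := by rw [← hmul, ← hu, Units.inv_mul, hone]
  have hstu' : st ((u⁻¹ : Eˣ) : E) * st d = 1 := by rw [← hmul, ← hu, Units.mul_inv, hone]
  have hw1 : st (g * ((u⁻¹ : Eˣ) : E)) * (g * ((u⁻¹ : Eˣ) : E)) = 1 := by
    rw [hmul]
    calc st ((u⁻¹ : Eˣ) : E) * st g * (g * ((u⁻¹ : Eˣ) : E)) = st ((u⁻¹ : Eˣ) : E) * C * ((u⁻¹ : Eˣ) : E) := by rw [hC]; simp only [mul_assoc]
      _ = (st ((u⁻¹ : Eˣ) : E) * st d) * (d * ((u⁻¹ : Eˣ) : E)) := by rw [← hd1]; simp only [mul_assoc]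
      _ = 1 := by rw [hstu', ← hu, Units.mul_inv, mul_one]
  have hwu : IsUnit (g * ((u⁻¹ : Eˣ) : E)) := hg.mul (u⁻¹).isUnit
  refine ⟨g * ((u⁻¹ : Eˣ) : E), hw1, ?_, ?_⟩
  · obtain ⟨w, hw⟩ := hwu
    rw [← hw] at hw1 ⊢
    have : st (w : E) = ((w⁻¹ : Eˣ) : E) := by
      calc st (w : E) = st (w : E) * ((w : E) * ((w⁻¹ : Eˣ) : E)) := by rw [Units.mul_inv, mul_one]
        _ = (st (w : E) * (w : E)) * ((w⁻¹ : Eˣ) : E) := by rw [mul_assoc]
        _ = _ := by rw [hw1, one_mul]
    rw [this, Units.mul_inv]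
  · have e1 : ((u⁻¹ : Eˣ) : E) * A = A * ((u⁻¹ : Eˣ) : E) := by
      have e2 := hdA d hd
      rw [← hu] at e2
      calc ((u⁻¹ : Eˣ) : E) * A = ((u⁻¹ : Eˣ) : E) * (A * (u : E)) * ((u⁻¹ : Eˣ) : E) := by
            rw [mul_assoc, mul_assoc A, Units.mul_inv, mul_one]
        _ = (((u⁻¹ : Eˣ) : E) * (u : E)) * A * ((u⁻¹ : Eˣ) : E) := by rw [← e2]; simp only [mul_assoc]
        _ = _ := by rw [Units.inv_mul, one_mul]
    rw [mul_assoc, e1, ← mul_assoc, hgA, mul_assoc]

end CfsgLib.Norm
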