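import Mathlib
import Cfsg.Agent.LibNormH13

/-! Conjugacy of isometries of reflexive forms over finite fields through the norm argument. -/

namespace CfsgLib.Semi

open Module CfsgLib.Norm

variable {F : Type*} [Field F]

section adj

variable {V : Type*} [AddCommGroup V] [Module F V] [FiniteDimensional F V] (B : LinearMap.BilinForm F V) (hB : B.Nondegenerate)

/-- the adjoint -/
noncomputable def adj (X : End F V) : End F V := B.leftAdjointOfNondegenerate hB X

theorem adj_left (X : End F V) (x y : V) : B (adj B hB X x) y = B x (X y) :=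
  B.isAdjointPairLeftAdjointOfNondegenerate hB X x y

include hB in
theorem ext_left {u v : V} (h : ∀ y, B u y = B v y) : u = v := by
  have h1 := hB.1
  have : u - v = 0 := h1 (u - v) (fun y => by rw [map_sub, LinearMap.sub_apply, h, sub_self])
  exact sub_eq_zero.mp this

theorem adj_add (X Y : End F V) : adj B hB (X + Y) = adj B hB X + adj B hB Y := by
  ext x
  apply ext_left B hB
  intro y
  rw [adj_left, LinearMap.add_apply, LinearMap.add_apply, map_add, map_add, LinearMap.add_apply, adj_left, adj_left]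

theorem adj_mul (X Y : End F V) : adj B hB (X * Y) = adj B hB Y * adj B hB X := by
  ext x
  apply ext_left B hB
  intro y
  rw [adj_left, Module.End.mul_apply, Module.End.mul_apply, adj_left, adj_left]

theorem adj_one : adj B hB 1 = 1 := by
  ext x
  apply ext_left B hB
  intro y
  rw [adj_left]; rfl

variable {ε : F} (hε : ε * ε = 1) (hs : ∀ x y, B x y = ε * B y x)

include hε hs in
theorem adj_right (X : End F V) (x y : V) : B x (adj B hB X y) = B (X x) y := by
  rw [hs, adj_left, ← hs (X x) y]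

include hε hs in
theorem adj_adj (X : End F V) : adj B hB (adj B hB X) = X := by
  ext x
  apply ext_left B hB
  intro y
  rw [adj_left, adj_right B hB hε hs]

theorem adj_isom (T : V ≃ₗ[F] V) (hT : ∀ x y, B (T x) (T y) = B x y) : adj B hB (T : V →ₗ[F] V) = (T.symm : V →ₗ[F] V) := by
  ext x
  apply ext_left B hB
  intro y
  rw [adj_left]
  show B x (T y) = B (T.symm x) y
  rw [← hT (T.symm x) y, LinearEquiv.apply_symm_apply]

end adj

/-- The main lemma: intertwined isometries without eigenvalues `±1` are isometrically intertwined. -/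
theorem isom_of_conj [Finite F] {V V' : Type*} [AddCommGroup V] [Module F V] [FiniteDimensional F V] [AddCommGroup V'] [Module F V'] [FiniteDimensional F V']
    (B : LinearMap.BilinForm F V) (hB : B.Nondegenerate) (B' : LinearMap.BilinForm F V') (hB' : B'.Nondegenerate)
    {ε : F} (hε : ε * ε = 1) (hs : ∀ x y, B x y = ε * B y x) (hs' : ∀ x y, B' x y = ε * B' y x)
    (T : V ≃ₗ[F] V) (hT : ∀ x y, B (T x) (T y) = B x y) (T' : V' ≃ₗ[F] V') (hT' : ∀ x y, B' (T' x) (T' y) = B' x y)
    (hfix : ∀ v, T (T v) = v → v = 0) (g : V ≃ₗ[F] V') (hg : ∀ v, g (T v) = T' (g v)) :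
    ∃ u : V ≃ₗ[F] V', (∀ x y, B' (u x) (u y) = B x y) ∧ ∀ v, u (T v) = T' (u v) := by
  classical
  haveI : Finite V := Module.finite_of_finite F
  haveI : Finite (End F V) := DFunLike.finite _
  let B1 : LinearMap.BilinForm F V := LinearMap.mk₂ F (fun x y => B' (g x) (g y))
    (fun x x' y => by rw [map_add, map_add, LinearMap.add_apply]) (fun c x y => by rw [map_smul, map_smul, LinearMap.smul_apply])
    (fun x y y' => by rw [map_add, map_add]) (fun c x y => by rw [map_smul, map_smul])
  have hB1 : ∀ x y, B1 x y = B' (g x) (g y) := fun x y => rfl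
  let C : End F V := B1.symmCompOfNondegenerate B hB
  have hC : ∀ x y, B (C x) y = B1 x y := fun x y => LinearMap.BilinForm.symmCompOfNondegenerate_left_apply B1 hB y x
  have hadjC : adj B hB C = C := by
    ext x
    apply ext_left B hB
    intro y
    rw [adj_left, hs, hC, hC, hB1, hB1, ← hs' (g x) (g y)]
  have hCinj : Function.Injective C := by
    intro x y hxy
    apply g.injective
    apply ext_left B' hB'
    intro z
    obtain ⟨w, rfl⟩ := g.surjective z
    rw [← hB1, ← hB1, ← hC, ← hC, hxy]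
  have hCu : IsUnit C := by
    rw [Module.End.isUnit_iff]
    exact ⟨hCinj, LinearMap.surjective_of_injective hCinj⟩
  have hCT : C * (T : V →ₗ[F] V) = (T : V →ₗ[F] V) * C := by
    ext x
    apply ext_left B hB
    intro y
    show B (C (T x)) y = B (T (C x)) y
    rw [hC, hB1, hg]
    have h1 : B (T (C x)) y = B (C x) (T.symm y) := by
      conv_lhs => rw [← LinearEquiv.apply_symm_apply T y]
      exact hT _ _
    rw [h1, hC, hB1]
    have h2 : g y = T' (g (T.symm y)) := by rw [← hg, LinearEquiv.apply_symm_apply]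
    rw [h2, hT']
  have hTT : (T : V →ₗ[F] V) * (T.symm : V →ₗ[F] V) = 1 := by
    ext x; show T (T.symm x) = x; rw [LinearEquiv.apply_symm_apply]
  have hTT' : (T.symm : V →ₗ[F] V) * (T : V →ₗ[F] V) = 1 := by
    ext x; show T.symm (T x) = x; rw [LinearEquiv.symm_apply_apply]
  have hCT' : C * (T.symm : V →ₗ[F] V) = (T.symm : V →ₗ[F] V) * C := by
    calc C * (T.symm : V →ₗ[F] V) = ((T.symm : V →ₗ[F] V) * (T : V →ₗ[F] V)) * C * (T.symm : V →ₗ[F] V) := by rw [hTT', one_mul]
      _ = (T.symm : V →ₗ[F] V) * ((T : V →ₗ[F] V) * C) * (T.symm : V →ₗ[F] V) := by simp only [mul_assoc]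
      _ = (T.symm : V →ₗ[F] V) * C * ((T : V →ₗ[F] V) * (T.symm : V →ₗ[F] V)) := by rw [← hCT]; simp only [mul_assoc]
      _ = _ := by rw [hTT, mul_one]
  have hadjT : adj B hB (T : V →ₗ[F] V) = (T.symm : V →ₗ[F] V) := adj_isom B hB T hT
  have hadjT' : adj B hB (T.symm : V →ₗ[F] V) = (T : V →ₗ[F] V) := by
    rw [← hadjT, adj_adj B hB hε hs]
  have hθ : IsUnit ((T : V →ₗ[F] V) - adj B hB (T : V →ₗ[F] V)) := by
    rw [hadjT, Module.End.isUnit_iff]
    have hinj : Function.Injective ((T : V →ₗ[F] V) - (T.symm : V →ₗ[F] V)) := by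
      rw [← LinearMap.ker_eq_bot, LinearMap.ker_eq_bot']
      intro v hv
      apply hfix
      rw [LinearMap.sub_apply, sub_eq_zero] at hv
      have hv' : T v = T.symm v := hv
      rw [hv', LinearEquiv.apply_symm_apply]
    exact ⟨hinj, LinearMap.surjective_of_injective hinj⟩
  obtain ⟨d, hdS, hd1, hd2, hdu⟩ := exists_star_mul (adj B hB) (adj_add B hB) (adj_mul B hB) (adj_one B hB) (adj_adj B hB hε hs)
    {C, (T : V →ₗ[F] V), (T.symm : V →ₗ[F] V)} (by
      intro x hx y hy
      simp only [Set.mem_insert_iff, Set.mem_singleton_iff] at hx hy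
      rcases hx with rfl | rfl | rfl <;> rcases hy with rfl | rfl | rfl
      · rfl
      · exact hCT
      · exact hCT'
      · exact hCT.symm
      · rfl
      · exact hTT.trans hTT'.symm
      · exact hCT'.symm
      · exact hTT'.trans hTT.symm
      · rfl) (by
      intro x hx
      simp only [Set.mem_insert_iff, Set.mem_singleton_iff] at hx ⊢
      rcases hx with rfl | rfl | rfl
      · left; exact hadjC
      · right; right; exact hadjT
      · right; left; exact hadjT') (T : V →ₗ[F] V) (by simp) hθ C (by simp) hCu hadjC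
  have hdT : ∀ x ∈ Subring.closure ({C, (T : V →ₗ[F] V), (T.symm : V →ₗ[F] V)} : Set (End F V)), x * (T : V →ₗ[F] V) = (T : V →ₗ[F] V) * x := by
    intro x hx
    induction hx using Subring.closure_induction with
    | mem x hx =>
      simp only [Set.mem_insert_iff, Set.mem_singleton_iff] at hx
      rcases hx with rfl | rfl | rfl
      · exact hCT
      · rfl
      · exact hTT'.trans hTT.symm
    | zero => rw [zero_mul, mul_zero]
    | one => rw [one_mul, mul_one]
    | add x y _ _ hx hy => rw [add_mul, mul_add, hx, hy]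
    | neg x _ hx => rw [neg_mul, mul_neg, hx]
    | mul x y _ _ hx hy => rw [mul_assoc, hy, ← mul_assoc, hx, mul_assoc]
  have hdbij := (Module.End.isUnit_iff _).mp hdu
  let D : V ≃ₗ[F] V := LinearEquiv.ofBijective d hdbij
  have hD : ∀ v, D v = d v := fun v => rfl
  have hDT : ∀ v, D (T v) = T (D v) := fun v => LinearMap.congr_fun (hdT d hdS) v
  refine ⟨D.symm.trans g, ?_, ?_⟩
  · intro x y
    obtain ⟨x, rfl⟩ := D.surjective x
    obtain ⟨y, rfl⟩ := D.surjective y
    rw [LinearEquiv.trans_apply, LinearEquiv.trans_apply, LinearEquiv.symm_apply_apply, LinearEquiv.symm_apply_apply, ← hB1, ← hC, ← hd1,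
      Module.End.mul_apply, adj_left, hD, hD]
  · intro v
    obtain ⟨v, rfl⟩ := D.surjective v
    rw [← hDT, LinearEquiv.trans_apply, LinearEquiv.trans_apply, LinearEquiv.symm_apply_apply, LinearEquiv.symm_apply_apply, hg]

section fix

variable {V : Type*} [AddCommGroup V] [Module F V] [FiniteDimensional F V]

/-- fixed space and commutator space of an operator of finite order prime to the characteristic -/
theorem isCompl_fix (T : V ≃ₗ[F] V) {r : ℕ} (hr : (r : F) ≠ 0) (hT : T ^ r = 1) :
    IsCompl (LinearMap.ker ((T : V →ₗ[F] V) - 1)) (LinearMap.range ((T : V →ₗ[F] V) - 1)) := by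
  have hdisj : LinearMap.ker ((T : V →ₗ[F] V) - 1) ⊓ LinearMap.range ((T : V →ₗ[F] V) - 1) = ⊥ := by
    rw [eq_bot_iff]
    rintro v ⟨hv, w, hw⟩
    rw [SetLike.mem_coe, LinearMap.mem_ker, LinearMap.sub_apply, sub_eq_zero] at hv
    have hv' : T v = v := hv
    have hw' : T w = w + v := by
      have : T w - w = v := hw
      rw [← this]; abel
    have hk : ∀ k : ℕ, (T ^ k) w = w + (k : F) • v := by
      intro k
      induction k with
      | zero => simp
      | succ k ih =>
        rw [pow_succ', LinearEquiv.mul_apply, ih, map_add, map_smul, hv', hw']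
        push_cast
        rw [add_smul, one_smul]; abel
    have h1 := hk r
    rw [hT] at h1
    have h2 : (r : F) • v = 0 := by
      have : w = w + (r : F) • v := h1
      exact left_eq_add.mp this
    exact (smul_eq_zero.mp h2).resolve_left hr
  refine ⟨disjoint_iff.mpr hdisj, ?_⟩
  rw [codisjoint_iff]
  apply Submodule.eq_top_of_finrank_eq
  have h1 := Submodule.finrank_sup_add_finrank_inf_eq (LinearMap.ker ((T : V →ₗ[F] V) - 1)) (LinearMap.range ((T : V →ₗ[F] V) - 1))
  rw [hdisj, finrank_bot, add_zero] at h1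
  rw [h1, add_comm]
  exact LinearMap.finrank_range_add_finrank_ker _

theorem orth_fix (B : LinearMap.BilinForm F V) (T : V ≃ₗ[F] V) (hT : ∀ x y, B (T x) (T y) = B x y) {v w : V}
    (hv : v ∈ LinearMap.ker ((T : V →ₗ[F] V) - 1)) (hw : w ∈ LinearMap.range ((T : V →ₗ[F] V) - 1)) : B v w = 0 := by
  rw [LinearMap.mem_ker, LinearMap.sub_apply, sub_eq_zero] at hv
  have hv' : T v = v := hv
  obtain ⟨z, rfl⟩ := hw
  show B v (T z - z) = 0
  rw [map_sub]
  conv_lhs => rw [← hv']
  have : B (T v) (T z) = B v z := hT v z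
  rw [this, hv', sub_self]

/-- orthogonal direct summands are non-degenerate -/
theorem nondeg_restrict (B : LinearMap.BilinForm F V) (hB : B.Nondegenerate) {ε : F} (hs : ∀ x y, B x y = ε * B y x) {X Y : Submodule F V}
    (hXY : IsCompl X Y) (horth : ∀ x ∈ X, ∀ y ∈ Y, B x y = 0) :
    (B.restrict X).Nondegenerate ∧ (B.restrict Y).Nondegenerate := by
  have horth' : ∀ y ∈ Y, ∀ x ∈ X, B y x = 0 := fun y hy x hx => by rw [hs, horth x hx y hy, mul_zero]
  have key : ∀ {X Y : Submodule F V}, IsCompl X Y → (∀ x ∈ X, ∀ y ∈ Y, B x y = 0) → (∀ y ∈ Y, ∀ x ∈ X, B y x = 0) → (B.restrict X).Nondegenerate := by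
    intro X Y hXY h1 h2
    have hdec : ∀ v : V, ∃ x ∈ X, ∃ y ∈ Y, x + y = v := by
      intro v
      have : v ∈ X ⊔ Y := by rw [hXY.sup_eq_top]; trivial
      exact Submodule.mem_sup.mp this
    constructor
    · intro x hx
      apply Subtype.ext
      apply hB.1
      intro v
      obtain ⟨a, ha, b, hb, rfl⟩ := hdec v
      rw [map_add, h1 x x.2 b hb, add_zero]
      exact hx ⟨a, ha⟩
    · intro x hx
      apply Subtype.ext
      apply hB.2
      intro v
      obtain ⟨a, ha, b, hb, rfl⟩ := hdec v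
      rw [map_add, LinearMap.add_apply, h2 b hb x x.2, add_zero]
      exact hx ⟨a, ha⟩
  exact ⟨key hXY horth horth', key hXY.symm horth' horth⟩

end fix

section glue

variable {V V' : Type*} [AddCommGroup V] [Module F V] [AddCommGroup V'] [Module F V']

theorem glue (K R : Submodule F V) (h : IsCompl K R) (K' R' : Submodule F V') (h' : IsCompl K' R') (φ : K ≃ₗ[F] K') (u : R ≃ₗ[F] R') :
    ∃ G : V ≃ₗ[F] V', (∀ k : K, G k = (φ k : V')) ∧ ∀ r : R, G r = (u r : V') := by
  refine ⟨((Submodule.prodEquivOfIsCompl K R h).symm.trans (φ.prodCongr u)).trans (Submodule.prodEquivOfIsCompl K' R' h'), ?_, ?_⟩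
  · intro k
    rw [LinearEquiv.trans_apply, LinearEquiv.trans_apply, Submodule.prodEquivOfIsCompl_symm_apply_left]
    simp
  · intro r
    rw [LinearEquiv.trans_apply, LinearEquiv.trans_apply, Submodule.prodEquivOfIsCompl_symm_apply_right]
    simp

theorem decomp {K R : Submodule F V} (h : IsCompl K R) (v : V) : ∃ k : K, ∃ r : R, (k : V) + r = v := by
  have : v ∈ K ⊔ R := by rw [h.sup_eq_top]; trivial
  obtain ⟨a, ha, b, hb, hab⟩ := Submodule.mem_sup.mp this
  exact ⟨⟨a, ha⟩, ⟨b, hb⟩, hab⟩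

end glue

section restr

variable {V V' : Type*} [AddCommGroup V] [Module F V] [AddCommGroup V'] [Module F V']

theorem map_range (T : V ≃ₗ[F] V) : (LinearMap.range ((T : V →ₗ[F] V) - 1)).map (T : V →ₗ[F] V) = LinearMap.range ((T : V →ₗ[F] V) - 1) := by
  apply le_antisymm
  · rintro _ ⟨_, ⟨w, rfl⟩, rfl⟩
    refine ⟨T w, ?_⟩
    show T (T w) - T w = T (T w - w)
    rw [map_sub]
  · rintro _ ⟨w, rfl⟩
    refine ⟨T.symm w |> fun z => T z - z, ⟨T.symm w, rfl⟩, ?_⟩
    show T (T (T.symm w) - T.symm w) = T w - w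
    rw [map_sub, LinearEquiv.apply_symm_apply]

theorem map_range' (T : V ≃ₗ[F] V) (T' : V' ≃ₗ[F] V') (g : V ≃ₗ[F] V') (hg : ∀ v, g (T v) = T' (g v)) :
    (LinearMap.range ((T : V →ₗ[F] V) - 1)).map (g : V →ₗ[F] V') = LinearMap.range ((T' : V' →ₗ[F] V') - 1) := by
  apply le_antisymm
  · rintro _ ⟨_, ⟨w, rfl⟩, rfl⟩
    refine ⟨g w, ?_⟩
    show T' (g w) - g w = g (T w - w)
    rw [map_sub, hg]
  · rintro _ ⟨w, rfl⟩
    refine ⟨T (g.symm w) - g.symm w, ⟨g.symm w, rfl⟩, ?_⟩
    show g (T (g.symm w) - g.symm w) = T' w - w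
    rw [map_sub, hg, LinearEquiv.apply_symm_apply]

theorem map_ker' (T : V ≃ₗ[F] V) (T' : V' ≃ₗ[F] V') (g : V ≃ₗ[F] V') (hg : ∀ v, g (T v) = T' (g v)) :
    (LinearMap.ker ((T : V →ₗ[F] V) - 1)).map (g : V →ₗ[F] V') = LinearMap.ker ((T' : V' →ₗ[F] V') - 1) := by
  apply le_antisymm
  · rintro _ ⟨w, hw, rfl⟩
    rw [SetLike.mem_coe, LinearMap.mem_ker, LinearMap.sub_apply, sub_eq_zero] at hw
    have hw' : T w = w := hw
    rw [LinearMap.mem_ker, LinearMap.sub_apply, sub_eq_zero]
    show T' (g w) = g w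
    rw [← hg, hw']
  · intro w hw
    rw [LinearMap.mem_ker, LinearMap.sub_apply, sub_eq_zero] at hw
    have hw' : T' w = w := hw
    refine ⟨g.symm w, ?_, by simp⟩
    rw [SetLike.mem_coe, LinearMap.mem_ker, LinearMap.sub_apply, sub_eq_zero]
    show T (g.symm w) = g.symm w
    apply g.injective
    rw [hg, LinearEquiv.apply_symm_apply, hw']

/-- `T` restricted to `range (T - 1)` -/
noncomputable def rT (T : V ≃ₗ[F] V) : LinearMap.range ((T : V →ₗ[F] V) - 1) ≃ₗ[F] LinearMap.range ((T : V →ₗ[F] V) - 1) :=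
  LinearEquiv.ofSubmodules T _ _ (map_range T)

theorem rT_coe (T : V ≃ₗ[F] V) (x : LinearMap.range ((T : V →ₗ[F] V) - 1)) : (rT T x : V) = T x := rfl

theorem pow_conj (T : V ≃ₗ[F] V) (T' : V' ≃ₗ[F] V') (g : V ≃ₗ[F] V') (hg : ∀ v, g (T v) = T' (g v)) {r : ℕ} (hT : T ^ r = 1) : T' ^ r = 1 := by
  have h1 : ∀ k : ℕ, ∀ v, g ((T ^ k) v) = (T' ^ k) (g v) := by
    intro k
    induction k with
    | zero => intro v; rfl
    | succ k ih => intro v; rw [pow_succ, pow_succ, LinearEquiv.mul_apply, LinearEquiv.mul_apply, ih, hg]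
  apply LinearEquiv.ext
  intro w
  obtain ⟨v, rfl⟩ := g.surjective w
  rw [← h1, hT]
  rfl

end restr

end CfsgLib.Semi
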