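import Mathlib
import Cfsg.Agent.LibSemiH13
import Cfsg.Agent.LibForms27
import Cfsg.Agent.LibH22SpDec
import Cfsg.Agent.LibH22WittQ

/-! Semisimple isometries: conjugacy in the symplectic and orthogonal groups is linear conjugacy. -/

namespace CfsgLib.Semi

open Module

variable {F : Type*} [Field F] [Finite F]

theorem alt_iso {U U' : Type*} [AddCommGroup U] [Module F U] [FiniteDimensional F U] [AddCommGroup U'] [Module F U'] [FiniteDimensional F U']
    (B : LinearMap.BilinForm F U) (hA : B.IsAlt) (hB : B.Nondegenerate) (B' : LinearMap.BilinForm F U') (hA' : B'.IsAlt) (hB' : B'.Nondegenerate)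
    (hd : finrank F U = finrank F U') : ∃ φ : U ≃ₗ[F] U', ∀ x y, B' (φ x) (φ y) = B x y := by
  obtain ⟨m, b, hm, -⟩ := CfsgLib.Forms27.exists_symplectic_basis B hA (fun v hv => by
    by_contra hcon; push Not at hcon; exact hv (hB.1 v hcon))
  obtain ⟨φ, hφ⟩ := Cfsg.Agent.H22.exists_sp_iso B hA (fun x hx => hB.1 x hx) hm
  obtain ⟨φ', hφ'⟩ := Cfsg.Agent.H22.exists_sp_iso B' hA' (fun x hx => hB'.1 x hx) (hd ▸ hm : finrank F U' = 2 * m)
  refine ⟨φ.symm.trans φ', fun x y => ?_⟩
  obtain ⟨x, rfl⟩ := φ.surjective x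
  obtain ⟨y, rfl⟩ := φ.surjective y
  rw [LinearEquiv.trans_apply, LinearEquiv.trans_apply, LinearEquiv.symm_apply_apply, LinearEquiv.symm_apply_apply, hφ', hφ]

/-- gluing for alternating forms -/
theorem alt_glue {V V' : Type*} [AddCommGroup V] [Module F V] [FiniteDimensional F V] [AddCommGroup V'] [Module F V'] [FiniteDimensional F V']
    (B : LinearMap.BilinForm F V) (hA : B.IsAlt) (hB : B.Nondegenerate) (B' : LinearMap.BilinForm F V') (hA' : B'.IsAlt) (hB' : B'.Nondegenerate)
    (T : V ≃ₗ[F] V) (hT : ∀ x y, B (T x) (T y) = B x y) (T' : V' ≃ₗ[F] V') (hT' : ∀ x y, B' (T' x) (T' y) = B' x y)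
    {r : ℕ} (hr : (r : F) ≠ 0) (hTr : T ^ r = 1) (g : V ≃ₗ[F] V') (hg : ∀ v, g (T v) = T' (g v))
    (u : LinearMap.range ((T : V →ₗ[F] V) - 1) ≃ₗ[F] LinearMap.range ((T' : V' →ₗ[F] V') - 1))
    (hu : ∀ x y, B' (u x : V') (u y : V') = B (x : V) (y : V)) (huT : ∀ x, (u (rT T x) : V') = T' (u x : V')) :
    ∃ G : V ≃ₗ[F] V', (∀ x y, B' (G x) (G y) = B x y) ∧ ∀ v, G (T v) = T' (G v) := by
  have hT'r := pow_conj T T' g hg hTr
  have hc := isCompl_fix T hr hTr
  have hc' := isCompl_fix T' hr hT'r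
  have hs : ∀ x y, B x y = (-1) * B y x := fun x y => by rw [neg_one_mul]; exact (LinearMap.BilinForm.IsAlt.neg_eq hA y x).symm
  have hs' : ∀ x y, B' x y = (-1) * B' y x := fun x y => by rw [neg_one_mul]; exact (LinearMap.BilinForm.IsAlt.neg_eq hA' y x).symm
  have hnd := nondeg_restrict B hB hs hc (fun x hx y hy => orth_fix B T hT hx hy)
  have hnd' := nondeg_restrict B' hB' hs' hc' (fun x hx y hy => orth_fix B' T' hT' hx hy)
  obtain ⟨φ, hφ⟩ := alt_iso (B.restrict (LinearMap.ker ((T : V →ₗ[F] V) - 1))) (fun x => hA x) hnd.1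
    (B'.restrict (LinearMap.ker ((T' : V' →ₗ[F] V') - 1))) (fun x => hA' x) hnd'.1 (by
      rw [← map_ker' T T' g hg]
      exact (LinearEquiv.finrank_map_eq g _).symm)
  obtain ⟨G, hG1, hG2⟩ := glue _ _ hc _ _ hc' φ u
  refine ⟨G, fun x y => ?_, fun v => ?_⟩
  · obtain ⟨k, s, rfl⟩ := decomp hc x
    obtain ⟨k', s', rfl⟩ := decomp hc y
    have o1 := orth_fix B T hT k.2 s'.2
    have o2 : B (s : V) (k' : V) = 0 := by rw [hs, orth_fix B T hT k'.2 s.2, mul_zero]
    have o1' := orth_fix B' T' hT' (φ k).2 (u s').2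
    have o2' : B' (u s : V') (φ k' : V') = 0 := by rw [hs', orth_fix B' T' hT' (φ k').2 (u s).2, mul_zero]
    have h1 := hφ k k'
    have h1' : B' (φ k : V') (φ k' : V') = B (k : V) (k' : V) := h1
    simp only [map_add, LinearMap.add_apply, hG1, hG2, o1, o2, o1', o2', hu, h1']
  · obtain ⟨k, s, rfl⟩ := decomp hc v
    have hk : T (k : V) = k := by
      have := k.2
      rw [LinearMap.mem_ker, LinearMap.sub_apply, sub_eq_zero] at this
      exact this
    have hk' : T' (φ k : V') = φ k := by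
      have := (φ k).2
      rw [LinearMap.mem_ker, LinearMap.sub_apply, sub_eq_zero] at this
      exact this
    have e1 : T (s : V) = (rT T s : V) := (rT_coe T s).symm
    rw [map_add, map_add, map_add, map_add, hk, e1, hG1, hG2, hG2, hk', huT]

/-- Semisimple elements of symplectic groups. -/
theorem symp_conj {V V' : Type*} [AddCommGroup V] [Module F V] [FiniteDimensional F V] [AddCommGroup V'] [Module F V'] [FiniteDimensional F V']
    (B : LinearMap.BilinForm F V) (hA : B.IsAlt) (hB : B.Nondegenerate) (B' : LinearMap.BilinForm F V') (hA' : B'.IsAlt) (hB' : B'.Nondegenerate)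
    (T : V ≃ₗ[F] V) (hT : ∀ x y, B (T x) (T y) = B x y) (T' : V' ≃ₗ[F] V') (hT' : ∀ x y, B' (T' x) (T' y) = B' x y)
    {r : ℕ} (hr : (r : F) ≠ 0) (hTr : T ^ r = 1) (g : V ≃ₗ[F] V') (hg : ∀ v, g (T v) = T' (g v)) :
    ∃ G : V ≃ₗ[F] V', (∀ x y, B' (G x) (G y) = B x y) ∧ ∀ v, G (T v) = T' (G v) := by
  classical
  have hT'r := pow_conj T T' g hg hTr
  have hc := isCompl_fix T hr hTr
  have hc' := isCompl_fix T' hr hT'r
  have hs : ∀ x y, B x y = (-1) * B y x := fun x y => by rw [neg_one_mul]; exact (LinearMap.BilinForm.IsAlt.neg_eq hA y x).symm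
  have hs' : ∀ x y, B' x y = (-1) * B' y x := fun x y => by rw [neg_one_mul]; exact (LinearMap.BilinForm.IsAlt.neg_eq hA' y x).symm
  have hnd := nondeg_restrict B hB hs hc (fun x hx y hy => orth_fix B T hT hx hy)
  have hnd' := nondeg_restrict B' hB' hs' hc' (fun x hx y hy => orth_fix B' T' hT' hx hy)
  set R := LinearMap.range ((T : V →ₗ[F] V) - 1) with hR
  set R' := LinearMap.range ((T' : V' →ₗ[F] V') - 1) with hR'
  -- restrict g
  let gR : R ≃ₗ[F] R' := LinearEquiv.ofSubmodules g R R' (map_range' T T' g hg)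
  have hgR : ∀ x : R, (gR x : V') = g x := fun x => rfl
  have hgRT : ∀ x : R, gR (rT T x) = rT T' (gR x) := fun x => Subtype.ext (hg x)
  have hTR : ∀ x y : R, B.restrict R (rT T x) (rT T y) = B.restrict R x y := fun x y => hT x y
  have hTR' : ∀ x y : R', B'.restrict R' (rT T' x) (rT T' y) = B'.restrict R' x y := fun x y => hT' x y
  have hRr : (rT T) ^ r = 1 := by
    have h1 : ∀ k : ℕ, ∀ x : R, (((rT T) ^ k) x : V) = (T ^ k) x := by
      intro k
      induction k with
      | zero => intro x; rfl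
      | succ k ih => intro x; rw [pow_succ, LinearEquiv.mul_apply, ih, pow_succ, LinearEquiv.mul_apply, rT_coe]
    apply LinearEquiv.ext
    intro x
    apply Subtype.ext
    rw [h1, hTr]; rfl
  -- it suffices to find u on R
  suffices H : ∃ u : R ≃ₗ[F] R', (∀ x y, B'.restrict R' (u x) (u y) = B.restrict R x y) ∧ ∀ x, u (rT T x) = rT T' (u x) by
    obtain ⟨u, hu1, hu2⟩ := H
    exact alt_glue B hA hB B' hA' hB' T hT T' hT' hr hTr g hg u hu1 (fun x => by rw [hu2]; rfl)
  -- fixed points of rT are zero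
  have hRfix : ∀ x : R, rT T x = x → x = 0 := by
    intro x hx
    have h1 : (x : V) ∈ LinearMap.ker ((T : V →ₗ[F] V) - 1) := by
      rw [LinearMap.mem_ker, LinearMap.sub_apply, sub_eq_zero]
      exact congrArg Subtype.val hx
    have h2 : (x : V) ∈ LinearMap.ker ((T : V →ₗ[F] V) - 1) ⊓ R := ⟨h1, x.2⟩
    rw [hc.inf_eq_bot] at h2
    exact Subtype.ext h2
  by_cases h2 : (2 : F) = 0
  · -- characteristic two, odd order
    have hodd : Odd r := by
      rw [← Nat.not_even_iff_odd]
      rintro ⟨k, hk⟩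
      apply hr
      rw [hk]; push_cast; rw [← two_mul, h2, zero_mul]
    apply isom_of_conj (B.restrict R) hnd.2 (B'.restrict R') hnd'.2 (ε := -1) (by norm_num) (fun x y => hs x y) (fun x y => hs' x y)
      (rT T) hTR (rT T') hTR' ?_ gR hgRT
    intro x hx
    apply hRfix
    obtain ⟨k, hk⟩ := hodd
    have h3 : ∀ j : ℕ, ((rT T) ^ (2 * j)) x = x := by
      intro j
      induction j with
      | zero => rfl
      | succ j ih => rw [show 2 * (j + 1) = 2 * j + 2 by ring, pow_add, LinearEquiv.mul_apply, pow_two, LinearEquiv.mul_apply, hx, ih]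
    have h4 : ((rT T) ^ r) x = rT T x := by
      rw [hk, pow_succ', LinearEquiv.mul_apply, h3]
    rw [← h4, hRr]; rfl
  · -- odd characteristic: pass to -T on R
    let S : R ≃ₗ[F] R := (rT T).trans (LinearEquiv.neg F)
    let S' : R' ≃ₗ[F] R' := (rT T').trans (LinearEquiv.neg F)
    have hS : ∀ x, S x = -(rT T x) := fun x => rfl
    have hS' : ∀ x, S' x = -(rT T' x) := fun x => rfl
    have hSpow : ∀ k : ℕ, ∀ x, (S ^ (2 * k)) x = ((rT T) ^ (2 * k)) x := by
      intro k
      induction k with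
      | zero => intro x; rfl
      | succ k ih =>
        intro x
        rw [show 2 * (k + 1) = 2 * k + 2 by ring, pow_add, pow_add, LinearEquiv.mul_apply, LinearEquiv.mul_apply, ih]
        congr 1
        rw [pow_two, pow_two, LinearEquiv.mul_apply, LinearEquiv.mul_apply, hS, hS, map_neg, neg_neg]
    have hSr : S ^ (2 * r) = 1 := by
      apply LinearEquiv.ext
      intro x
      rw [hSpow, mul_comm, pow_mul, hRr, one_pow]
    have h2r : ((2 * r : ℕ) : F) ≠ 0 := by push_cast; exact mul_ne_zero h2 hr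
    have hSB : ∀ x y, B.restrict R (S x) (S y) = B.restrict R x y := by
      intro x y
      rw [hS, hS, map_neg, map_neg, LinearMap.neg_apply, neg_neg]; exact hTR x y
    have hSB' : ∀ x y, B'.restrict R' (S' x) (S' y) = B'.restrict R' x y := by
      intro x y
      rw [hS', hS', map_neg, map_neg, LinearMap.neg_apply, neg_neg]; exact hTR' x y
    have hgS : ∀ x, gR (S x) = S' (gR x) := by
      intro x; rw [hS, hS', map_neg, hgRT]
    have hAR : (B.restrict R).IsAlt := fun x => hA x
    have hAR' : (B'.restrict R').IsAlt := fun x => hA' x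
    have hcS := isCompl_fix S h2r hSr
    have hsR : ∀ x y : R, B.restrict R x y = (-1) * B.restrict R y x := fun x y => hs x y
    have hsR' : ∀ x y : R', B'.restrict R' x y = (-1) * B'.restrict R' y x := fun x y => hs' x y
    have hndS := nondeg_restrict (B.restrict R) hnd.2 hsR hcS (fun x hx y hy => orth_fix _ S hSB hx hy)
    have hS'r := pow_conj S S' gR hgS hSr
    have hcS' := isCompl_fix S' h2r hS'r
    have hndS' := nondeg_restrict (B'.restrict R') hnd'.2 hsR' hcS' (fun x hx y hy => orth_fix _ S' hSB' hx hy)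
    let gS : LinearMap.range ((S : R →ₗ[F] R) - 1) ≃ₗ[F] LinearMap.range ((S' : R' →ₗ[F] R') - 1) :=
      LinearEquiv.ofSubmodules gR _ _ (map_range' S S' gR hgS)
    have hgST : ∀ x, gS (rT S x) = rT S' (gS x) := fun x => Subtype.ext (hgS x)
    obtain ⟨u, hu1, hu2⟩ := isom_of_conj ((B.restrict R).restrict (LinearMap.range ((S : R →ₗ[F] R) - 1))) hndS.2
      ((B'.restrict R').restrict (LinearMap.range ((S' : R' →ₗ[F] R') - 1))) hndS'.2 (ε := -1) (by norm_num)
      (fun x y => hs _ _) (fun x y => hs' _ _) (rT S) (fun x y => hSB _ _) (rT S') (fun x y => hSB' _ _) (by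
        intro x hx
        -- S (S x) = x → T T x = x → (T + 1) x fixed by T → (T+1) x = 0 → S x = x → x = 0
        have h3 : rT T (rT T (x : R)) = (x : R) := by
          have := congrArg Subtype.val hx
          have h4 : S (S (x : R)) = (x : R) := this
          rw [hS, hS, map_neg, neg_neg] at h4
          exact h4
        have h5 : rT T (x : R) + (x : R) = 0 := by
          apply hRfix
          rw [map_add, h3, add_comm]
        have h6 : S (x : R) = (x : R) := by
          rw [hS]; exact (eq_neg_of_add_eq_zero_right h5).symm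
        have h7 : (x : R) ∈ LinearMap.ker ((S : R →ₗ[F] R) - 1) ⊓ LinearMap.range ((S : R →ₗ[F] R) - 1) := by
          refine ⟨?_, x.2⟩
          rw [SetLike.mem_coe, LinearMap.mem_ker, LinearMap.sub_apply, sub_eq_zero]
          exact h6
        rw [hcS.inf_eq_bot] at h7
        exact Subtype.ext h7) gS hgST
    obtain ⟨G, hG1, hG2⟩ := alt_glue (B.restrict R) hAR hnd.2 (B'.restrict R') hAR' hnd'.2 S hSB S' hSB' h2r hSr gR hgS u (fun x y => hu1 x y)
      (fun x => by rw [hu2]; rfl)
    refine ⟨G, hG1, fun x => ?_⟩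
    have := hG2 x
    rw [hS, hS', map_neg] at this
    exact neg_injective this

/-- Semisimple elements of odd order of orthogonal groups. -/
theorem orth_conj {V : Type*} [AddCommGroup V] [Module F V] [FiniteDimensional F V]
    (Q : QuadraticForm F V) (hQ : (QuadraticMap.polarBilin Q).Nondegenerate)
    (T : V ≃ₗ[F] V) (hT : ∀ x, Q (T x) = Q x) (T' : V ≃ₗ[F] V) (hT' : ∀ x, Q (T' x) = Q x)
    {r : ℕ} (hr : (r : F) ≠ 0) (hodd : Odd r) (hTr : T ^ r = 1) (g : V ≃ₗ[F] V) (hg : ∀ v, g (T v) = T' (g v)) :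
    ∃ G : V ≃ₗ[F] V, (∀ x, Q (G x) = Q x) ∧ ∀ v, G (T v) = T' (G v) := by
  classical
  haveI : Fintype F := Fintype.ofFinite F
  obtain ⟨B, hBdef⟩ : ∃ B : LinearMap.BilinForm F V, B = QuadraticMap.polarBilin Q := ⟨_, rfl⟩
  rw [← hBdef] at hQ
  have hBapp : ∀ x y, B x y = Q (x + y) - Q x - Q y := fun x y => by rw [hBdef]; rfl
  have hBT : ∀ x y, B (T x) (T y) = B x y := by
    intro x y; rw [hBapp, hBapp, ← map_add, hT, hT, hT]
  have hBT' : ∀ x y, B (T' x) (T' y) = B x y := by
    intro x y; rw [hBapp, hBapp, ← map_add, hT', hT', hT']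
  have hs : ∀ x y, B x y = 1 * B y x := by
    intro x y; rw [one_mul, hBapp, hBapp, add_comm x y]; ring
  have hT'r := pow_conj T T' g hg hTr
  have hc := isCompl_fix T hr hTr
  have hc' := isCompl_fix T' hr hT'r
  have hnd := nondeg_restrict B hQ hs hc (fun x hx y hy => orth_fix B T hBT hx hy)
  have hnd' := nondeg_restrict B hQ hs hc' (fun x hx y hy => orth_fix B T' hBT' hx hy)
  set R := LinearMap.range ((T : V →ₗ[F] V) - 1) with hR
  set R' := LinearMap.range ((T' : V →ₗ[F] V) - 1) with hR'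
  let gR : R ≃ₗ[F] R' := LinearEquiv.ofSubmodules g R R' (map_range' T T' g hg)
  have hgRT : ∀ x : R, gR (rT T x) = rT T' (gR x) := fun x => Subtype.ext (hg x)
  have hRr : (rT T) ^ r = 1 := by
    have h1 : ∀ k : ℕ, ∀ x : R, (((rT T) ^ k) x : V) = (T ^ k) x := by
      intro k
      induction k with
      | zero => intro x; rfl
      | succ k ih => intro x; rw [pow_succ, LinearEquiv.mul_apply, ih, pow_succ, LinearEquiv.mul_apply, rT_coe]
    apply LinearEquiv.ext
    intro x
    apply Subtype.ext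
    rw [h1, hTr]; rfl
  have hRfix : ∀ x : R, rT T x = x → x = 0 := by
    intro x hx
    have h1 : (x : V) ∈ LinearMap.ker ((T : V →ₗ[F] V) - 1) := by
      rw [LinearMap.mem_ker, LinearMap.sub_apply, sub_eq_zero]
      exact congrArg Subtype.val hx
    have h2 : (x : V) ∈ LinearMap.ker ((T : V →ₗ[F] V) - 1) ⊓ R := ⟨h1, x.2⟩
    rw [hc.inf_eq_bot] at h2
    exact Subtype.ext h2
  obtain ⟨u, hu1, hu2⟩ := isom_of_conj (B.restrict R) hnd.2 (B.restrict R') hnd'.2 (ε := 1) (by norm_num) (fun x y => hs x y) (fun x y => hs x y)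
      (rT T) (fun x y => hBT x y) (rT T') (fun x y => hBT' x y) (by
    intro x hx
    apply hRfix
    obtain ⟨k, hk⟩ := hodd
    have h3 : ∀ j : ℕ, ((rT T) ^ (2 * j)) x = x := by
      intro j
      induction j with
      | zero => rfl
      | succ j ih => rw [show 2 * (j + 1) = 2 * j + 2 by ring, pow_add, LinearEquiv.mul_apply, pow_two, LinearEquiv.mul_apply, hx, ih]
    have h4 : ((rT T) ^ r) x = rT T x := by
      rw [hk, pow_succ', LinearEquiv.mul_apply, h3]
    rw [← h4, hRr]; rfl) gR hgRT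
  -- u preserves Q
  have hadd : ∀ x y : R, Q (u (x + y) : V) - Q ((x + y : R) : V) = (Q (u x : V) - Q (x : V)) + (Q (u y : V) - Q (y : V)) := by
    intro x y
    have h1 : B (u x : V) (u y : V) = B (x : V) (y : V) := hu1 x y
    rw [hBapp, hBapp] at h1
    rw [map_add]
    show Q ((u x : V) + (u y : V)) - Q ((x : V) + (y : V)) = _
    linear_combination h1
  have hzero : Q (u (0 : R) : V) - Q ((0 : R) : V) = 0 := by
    rw [map_zero]; simp
  have huQ : ∀ x : R, Q (u x : V) = Q (x : V) := by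
    intro x
    obtain ⟨w, hw⟩ := x.2
    obtain ⟨k, s, rfl⟩ := decomp hc w
    have hk : T (k : V) = k := by
      have := k.2
      rw [LinearMap.mem_ker, LinearMap.sub_apply, sub_eq_zero] at this
      exact this
    have hx : x = rT T s + (-s) := by
      apply Subtype.ext
      rw [← hw]
      show T ((k : V) + s) - ((k : V) + s) = T (s : V) + -(s : V)
      rw [map_add, hk]; abel
    rw [← sub_eq_zero, hx, hadd, hu2]
    have h1 : Q ((rT T' (u s) : R') : V) = Q (u s : V) := hT' _
    have h2 : Q ((rT T s : R) : V) = Q (s : V) := hT _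
    rw [h1, h2]
    have h3 := hadd s (-s)
    rw [add_neg_cancel, hzero] at h3
    exact h3.symm
  obtain ⟨G, hG1, hG2⟩ := Cfsg.Agent.H22.witt_quad (hBdef ▸ hQ) R R' u huQ
  refine ⟨G, hG1, fun v => ?_⟩
  have hBG : ∀ x y, B (G x) (G y) = B x y := by
    intro x y; rw [hBapp, hBapp, ← map_add, hG1, hG1, hG1]
  obtain ⟨k, s, rfl⟩ := decomp hc v
  have hk : T (k : V) = k := by
    have := k.2
    rw [LinearMap.mem_ker, LinearMap.sub_apply, sub_eq_zero] at this
    exact this
  have hGk : T' (G (k : V)) = G (k : V) := by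
    obtain ⟨k', s', hks⟩ := decomp hc' (G (k : V))
    have hk' : T' (k' : V) = k' := by
      have := k'.2
      rw [LinearMap.mem_ker, LinearMap.sub_apply, sub_eq_zero] at this
      exact this
    have hs' : (s' : V) = 0 := by
      have h1 : s' = 0 := by
        apply hnd'.2.1
        intro y
        obtain ⟨y, rfl⟩ := u.surjective y
        show B (s' : V) (u y : V) = 0
        have h2 : B (G (k : V)) (u y : V) = 0 := by
          rw [← hG2, hBG]
          exact orth_fix B T hBT k.2 y.2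
        rw [← hks, map_add, LinearMap.add_apply, orth_fix B T' hBT' k'.2 (u y).2, zero_add] at h2
        exact h2
      rw [h1]; rfl
    rw [← hks, hs', add_zero, hk']
  have e1 : T (s : V) = (rT T s : V) := (rT_coe T s).symm
  rw [map_add, map_add, map_add, map_add, hk, hGk, e1, hG2, hG2, hu2]
  rfl

end CfsgLib.Semi
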