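import Mathlib
import Cfsg.Agent.LibCP3H13
import Cfsg.Agent.LibH22Sp
import Cfsg.Agent.LibH22SpDec
import Cfsg.Agent.LibSemi2H13

/-! Symplectic companion operators: existence (seat helper13). -/

namespace CfsgLib.CP

open Module Polynomial Cfsg.Agent.H22

/-- the symplectic companion -/
theorem exists_spc {F : Type*} [Field F] [Finite F] {n : ℕ} {R : F[X]} (hR : R.Monic) (hn : R.natDegree = n) :
    ∃ (M : Matrix (Fin n) (Fin n) F) (A : Matrix.symplecticGroup (Fin n) F), M.charpoly = R ∧
      (A : Matrix (Fin n ⊕ Fin n) (Fin n ⊕ Fin n) F).charpoly = (Matrix.fromBlocks 0 (-1) 1 M : Matrix (Fin n ⊕ Fin n) (Fin n ⊕ Fin n) F).charpoly := by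
  classical
  obtain ⟨μ, hμ⟩ := exists_mu hR
  have hf : FiniteDimensional F (AdjoinRoot R) := (AdjoinRoot.powerBasis' hR).finite
  have hfr : finrank F (AdjoinRoot R) = n := by rw [CfsgLib.Typ.finrank_adjoinRoot hR, hn]
  let b : Basis (Fin n) F (AdjoinRoot R) := Module.finBasisOfFinrankEq F _ hfr
  let y : AdjoinRoot R := AdjoinRoot.root R
  let T0 : (AdjoinRoot R × AdjoinRoot R) →ₗ[F] (AdjoinRoot R × AdjoinRoot R) :=
    { toFun := fun v => (-v.2, v.1 + y * v.2)
      map_add' := fun v w => by
        refine Prod.ext ?_ ?_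
        · simp only [Prod.fst_add, Prod.snd_add]; ring
        · simp only [Prod.fst_add, Prod.snd_add]; ring
      map_smul' := fun c v => by
        refine Prod.ext ?_ ?_
        · simp only [Prod.smul_snd, Prod.smul_fst, RingHom.id_apply, smul_neg]
        · simp only [Prod.smul_snd, Prod.smul_fst, RingHom.id_apply, smul_add, mul_smul_comm] }
  let T1 : (AdjoinRoot R × AdjoinRoot R) →ₗ[F] (AdjoinRoot R × AdjoinRoot R) :=
    { toFun := fun v => (v.2 + y * v.1, -v.1)
      map_add' := fun v w => by
        refine Prod.ext ?_ ?_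
        · simp only [Prod.fst_add, Prod.snd_add]; ring
        · simp only [Prod.fst_add, Prod.snd_add]; ring
      map_smul' := fun c v => by
        refine Prod.ext ?_ ?_
        · simp only [Prod.smul_snd, Prod.smul_fst, RingHom.id_apply, smul_add, mul_smul_comm]
        · simp only [Prod.smul_snd, Prod.smul_fst, RingHom.id_apply, smul_neg] }
  have hT0 : ∀ v, T0 v = (-v.2, v.1 + y * v.2) := fun v => rfl
  have hT1 : ∀ v, T1 v = (v.2 + y * v.1, -v.1) := fun v => rfl
  let T : (AdjoinRoot R × AdjoinRoot R) ≃ₗ[F] (AdjoinRoot R × AdjoinRoot R) :=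
    LinearEquiv.ofLinear T0 T1
      (LinearMap.ext fun v => by
        rw [LinearMap.comp_apply, hT1, hT0]
        refine Prod.ext ?_ ?_
        · simp
        · simp)
      (LinearMap.ext fun v => by
        rw [LinearMap.comp_apply, hT0, hT1]
        refine Prod.ext ?_ ?_
        · simp
        · simp)
  have hT : ∀ v, T v = (-v.2, v.1 + y * v.2) := fun v => rfl
  let B : LinearMap.BilinForm F (AdjoinRoot R × AdjoinRoot R) := LinearMap.mk₂ F (fun v w => μ (v.2 * w.1 - v.1 * w.2))
    (fun v v' w => by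
      rw [← map_add]; congr 1; simp only [Prod.fst_add, Prod.snd_add]; ring)
    (fun c v w => by
      rw [← map_smul]; congr 1; simp only [Prod.smul_snd, Prod.smul_fst, smul_mul_assoc, smul_sub])
    (fun v w w' => by
      rw [← map_add]; congr 1; simp only [Prod.fst_add, Prod.snd_add]; ring)
    (fun c v w => by
      rw [← map_smul]; congr 1; simp only [Prod.smul_snd, Prod.smul_fst, mul_smul_comm, smul_sub])
  have hB : ∀ v w, B v w = μ (v.2 * w.1 - v.1 * w.2) := fun v w => rfl
  have hA : B.IsAlt := by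
    intro v
    rw [hB, mul_comm, sub_self, map_zero]
  have hnd : ∀ v, (∀ w, B v w = 0) → v = 0 := by
    intro v hv
    have h2 : v.2 = 0 := by
      by_contra hne
      obtain ⟨t, ht⟩ := hμ _ hne
      have := hv (t, 0)
      rw [hB] at this
      simp only [mul_zero, sub_zero] at this
      exact ht this
    have h1 : v.1 = 0 := by
      by_contra hne
      obtain ⟨t, ht⟩ := hμ _ hne
      have := hv (0, t)
      rw [hB] at this
      simp only [mul_zero, zero_sub, map_neg, neg_eq_zero] at this
      exact ht this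
    exact Prod.ext h1 h2
  have hiso : ∀ v w, B (T v) (T w) = B v w := by
    intro v w
    rw [hB, hB, hT, hT]
    congr 1
    simp only
    ring
  obtain ⟨φ, hφ⟩ := exists_sp_iso B hA hnd (k := n) (by rw [finrank_prod, hfr]; ring)
  obtain ⟨A, hAT⟩ := exists_spToLin (φ.trans (T.trans φ.symm)) (by
    intro u v
    rw [← hφ, ← hφ]
    simp only [LinearEquiv.trans_apply, LinearEquiv.apply_symm_apply]
    rw [hiso])
  refine ⟨LinearMap.toMatrix b b (LinearMap.mulLeft F y), A, by rw [LinearMap.charpoly_toMatrix, charpoly_root hR], ?_⟩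
  have h1 : Matrix.toLin' (A : Matrix (Fin n ⊕ Fin n) (Fin n ⊕ Fin n) F) = φ.symm.conj T0 := by
    refine LinearMap.ext fun v => ?_
    have h2 : Matrix.toLin' (A : Matrix (Fin n ⊕ Fin n) (Fin n ⊕ Fin n) F) v = spToLin A v := rfl
    rw [h2, hAT]
    rfl
  rw [← Matrix.charpoly_toLin', h1, LinearEquiv.charpoly_conj, ← LinearMap.charpoly_toMatrix T0 (b.prod b)]
  congr 1
  ext i j
  rw [LinearMap.toMatrix_apply]
  rcases i with i | i <;> rcases j with j | j
  · simp [hT0]
  · simp [hT0, Matrix.one_apply, Finsupp.single_apply, eq_comm]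
  · simp [hT0, Matrix.one_apply, Finsupp.single_apply, eq_comm]
  · simp [hT0, Algebra.leftMulMatrix_eq_repr_mul]

end CfsgLib.CP
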