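import Mathlib

/-! Brauer's theorem: the number of simple modules in characteristic `p` is the number of `p`-regular classes (lead). -/

set_option autoImplicit false

namespace CfsgLib.CR

open MonoidAlgebra

section fixedsum

variable {P X k : Type*} [Group P] [MulAction P X] [Fintype X] [CommRing k]

/-- weighted fixed point congruence for `p`-groups -/
theorem sum_fixed [Finite P] {p : ℕ} [Fact p.Prime] [CharP k p] (hP : IsPGroup p P) (F : X → k) (hF : ∀ (g : P) (x : X), F (g • x) = F x)
    [Fintype (MulAction.fixedPoints P X)] :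
    ∑ x : X, F x = ∑ x : MulAction.fixedPoints P X, F x := by
  classical
  have h1 : ∀ c : k, ((Nat.card {x : X // F x = c} : ℕ) : k) = (Nat.card {x : MulAction.fixedPoints P X // F x = c} : ℕ) := by
    intro c
    let inst : MulAction P {x : X // F x = c} :=
      { smul := fun g x => ⟨g • x.1, by rw [hF, x.2]⟩
        one_smul := fun x => Subtype.ext (one_smul _ _)
        mul_smul := fun g h x => Subtype.ext (mul_smul _ _ _) }
    have h2 := hP.card_modEq_card_fixedPoints {x : X // F x = c}
    have h3 : Nat.card (MulAction.fixedPoints P {x : X // F x = c}) = Nat.card {x : MulAction.fixedPoints P X // F x = c} := by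
      apply Nat.card_congr
      refine ⟨fun x => ⟨⟨x.1.1, fun g => congrArg Subtype.val (x.2 g)⟩, x.1.2⟩, fun x => ⟨⟨x.1.1, x.2⟩, fun g => Subtype.ext (x.1.2 g)⟩, ?_, ?_⟩
      · intro x; rfl
      · intro x; rfl
    rw [h3] at h2
    exact (CharP.natCast_eq_natCast k p).2 h2
  have key : ∀ {Y : Type _} [Fintype Y] (E : Y → k) (S : Finset k) (hS : ∀ y, E y ∈ S), ∑ y, E y = ∑ c ∈ S, ((Nat.card {y : Y // E y = c} : ℕ) : k) * c := by
    intro Y _ E S hS
    rw [← Finset.sum_fiberwise_of_maps_to (s := Finset.univ) (t := S) (g := E) (fun y _ => hS y)]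
    apply Finset.sum_congr rfl
    intro c _
    rw [Finset.sum_congr rfl (fun y hy => (Finset.mem_filter.1 hy).2), Finset.sum_const, nsmul_eq_mul]
    congr 2
    rw [Nat.card_eq_fintype_card, Fintype.card_subtype]
  rw [key F (Finset.univ.image F) (fun y => Finset.mem_image_of_mem _ (Finset.mem_univ _)),
    key (fun x : MulAction.fixedPoints P X => F x) (Finset.univ.image F) (fun y => Finset.mem_image_of_mem _ (Finset.mem_univ _))]
  exact Finset.sum_congr rfl (fun c _ => by rw [h1 c])

end fixedsum

section pow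

variable {G k : Type*} [Group G] [Fintype G] [Field k]

theorem cf_ext {a b : MonoidAlgebra k G} (h : ∀ g, a.coeff g = b.coeff g) : a = b :=
  MonoidAlgebra.coeff_injective (Finsupp.ext h)

theorem single_cf [DecidableEq G] (g h : G) (c : k) : (single g c : MonoidAlgebra k G).coeff h = if g = h then c else 0 := by
  rw [MonoidAlgebra.coeff_single, Finsupp.single_apply]

theorem expand1 (a : MonoidAlgebra k G) : a = ∑ g : G, single g (a.coeff g) := by
  classical
  apply cf_ext
  intro x
  rw [MonoidAlgebra.coeff_sum, Finsupp.finsetSum_apply]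
  simp only [single_cf]
  rw [Finset.sum_ite_eq' Finset.univ x, if_pos (Finset.mem_univ _)]

theorem pow_expand (a : MonoidAlgebra k G) (n : ℕ) :
    a ^ n = ∑ w : Fin n → G, single ((List.ofFn w).prod) (∏ i, a.coeff (w i)) := by
  induction n with
  | zero => simp [MonoidAlgebra.one_def]
  | succ n ih =>
    rw [pow_succ', ih]
    conv_lhs => rw [expand1 a]
    rw [Finset.sum_mul, ← (Fin.consEquiv (fun _ : Fin (n + 1) => G)).sum_comp, Fintype.sum_prod_type]
    apply Finset.sum_congr rfl
    intro g _
    rw [Finset.mul_sum]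
    apply Finset.sum_congr rfl
    intro w _
    rw [single_mul_single]
    congr 1
    · simp [Fin.consEquiv]
    · rw [Fin.prod_univ_succ]; simp [Fin.consEquiv, ← expand1]

/-- linear extension of a function on `G` -/
noncomputable def ext (f : G → k) : MonoidAlgebra k G →ₗ[k] k where
  toFun a := ∑ g : G, a.coeff g * f g
  map_add' a b := by
    rw [← Finset.sum_add_distrib]
    exact Finset.sum_congr rfl (fun g _ => by rw [MonoidAlgebra.coeff_add, Finsupp.add_apply]; ring)
  map_smul' c a := by
    rw [RingHom.id_apply, smul_eq_mul, Finset.mul_sum]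
    exact Finset.sum_congr rfl (fun g _ => by rw [MonoidAlgebra.coeff_smul, Finsupp.smul_apply, smul_eq_mul]; ring)

theorem ext_apply (f : G → k) (a : MonoidAlgebra k G) : ext f a = ∑ g : G, a.coeff g * f g := rfl

theorem ext_single (f : G → k) (g : G) (c : k) : ext f (single g c) = c * f g := by
  classical
  rw [ext_apply]
  simp only [single_cf, ite_mul, zero_mul]
  rw [Finset.sum_ite_eq Finset.univ g, if_pos (Finset.mem_univ _)]

theorem ext_comm {f : G → k} (hf : ∀ x y, f (x * y) = f (y * x)) (a b : MonoidAlgebra k G) : ext f (a * b) = ext f (b * a) := by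
  conv_lhs => rw [expand1 a, expand1 b]
  conv_rhs => rw [expand1 a, expand1 b]
  simp only [Finset.sum_mul, Finset.mul_sum, map_sum, single_mul_single, ext_single]
  rw [Finset.sum_comm]
  refine Finset.sum_congr rfl (fun x _ => Finset.sum_congr rfl (fun y _ => ?_))
  rw [hf, mul_comm (a.coeff x)]

omit [Fintype G] [Field k] in
theorem prod_rot {f : G → k} (hf : ∀ x y, f (x * y) = f (y * x)) (n : ℕ) (w : Fin (n + 1) → G) :
    f ((List.ofFn (fun i => w (i + 1))).prod) = f ((List.ofFn w).prod) := by
  have e : List.ofFn (fun i => w (i + 1)) = List.ofFn (fun i : Fin n => w i.succ) ++ [w 0] := by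
    rw [List.ofFn_succ' (fun i => w (i + 1))]
    rw [List.concat_eq_append]
    congr 2
    · funext i
      congr 1
      exact Fin.coeSucc_eq_succ
    · rw [Fin.last_add_one]
  rw [e, List.prod_append, List.prod_singleton, List.ofFn_succ, List.prod_cons, hf]

omit [Fintype G] [Field k] in
theorem prod_rot' {f : G → k} (hf : ∀ x y, f (x * y) = f (y * x)) (n : ℕ) [NeZero n] (w : Fin n → G) (j : Fin n) :
    f ((List.ofFn (fun i => w (i + j))).prod) = f ((List.ofFn w).prod) := by
  obtain ⟨n, rfl⟩ : ∃ m, n = m + 1 := ⟨n - 1, by have := NeZero.ne n; omega⟩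
  obtain ⟨j, hj⟩ := j
  induction j with
  | zero =>
    congr 3
    funext i
    congr 1
    exact add_zero i
  | succ j ih =>
    have hj' : j < n + 1 := by omega
    rw [← ih hj']
    rw [← prod_rot hf n (fun i => w (i + ⟨j, hj'⟩))]
    congr 3
    funext i
    congr 1
    rw [add_assoc]
    congr 1
    apply Fin.ext
    have : (1 : Fin (n + 1)).val = 1 % (n + 1) := rfl
    rw [Fin.val_add, this]
    simp only
    rw [Nat.mod_add_mod, add_comm 1 j, Nat.mod_eq_of_lt hj]

/-- the Frobenius-type identity -/
theorem ext_pow {p : ℕ} [Fact p.Prime] [CharP k p] {f : G → k} (hf : ∀ x y, f (x * y) = f (y * x)) (a : MonoidAlgebra k G) (m : ℕ) :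
    ext f (a ^ (p ^ m)) = ∑ g : G, a.coeff g ^ (p ^ m) * f (g ^ (p ^ m)) := by
  classical
  have hn : NeZero (p ^ m) := ⟨pow_ne_zero _ (Fact.out : p.Prime).ne_zero⟩
  set n := p ^ m with hnd
  rw [pow_expand, map_sum]
  simp only [ext_single]
  let inst : MulAction (Multiplicative (Fin n)) (Fin n → G) :=
    { smul := fun j w => fun i => w (i + Multiplicative.toAdd j)
      one_smul := fun w => by funext i; show w (i + 0) = w i; rw [add_zero]
      mul_smul := fun a b w => by
        funext i
        show w (i + (Multiplicative.toAdd a + Multiplicative.toAdd b)) = w ((i + Multiplicative.toAdd a) + Multiplicative.toAdd b)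
        rw [add_assoc] }
  have hP : IsPGroup p (Multiplicative (Fin n)) := by
    apply IsPGroup.of_card (n := m)
    rw [Nat.card_eq_fintype_card, Fintype.card_multiplicative, Fintype.card_fin]
  rw [sum_fixed (P := Multiplicative (Fin n)) hP (fun w : Fin n → G => (∏ i, a.coeff (w i)) * f ((List.ofFn w).prod))]
  · symm
    have hfix : ∀ (w : Fin n → G), w ∈ MulAction.fixedPoints (Multiplicative (Fin n)) (Fin n → G) ↔ ∀ i, w i = w 0 := by
      intro w
      constructor
      · intro h i
        have := congrFun (h (Multiplicative.ofAdd i)) 0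
        have h2 : w (0 + i) = w 0 := this
        rwa [zero_add] at h2
      · intro h j
        funext i
        show w (i + Multiplicative.toAdd j) = w i
        rw [h, ← h i]
    apply Fintype.sum_bijective (fun g : G => (⟨fun _ => g, (hfix _).2 (fun _ => rfl)⟩ : MulAction.fixedPoints (Multiplicative (Fin n)) (Fin n → G)))
    · constructor
      · intro g h e
        exact congrFun (congrArg Subtype.val e) 0
      · rintro ⟨w, hw⟩
        refine ⟨w 0, Subtype.ext (funext fun i => ((hfix w).1 hw i).symm)⟩
    · intro g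
      simp
  · intro j w
    show (∏ i, a.coeff (w (i + Multiplicative.toAdd j))) * f ((List.ofFn (fun i => w (i + Multiplicative.toAdd j))).prod) = _
    rw [prod_rot' hf]
    congr 1
    exact Fintype.prod_equiv (Equiv.addRight (Multiplicative.toAdd j)) _ _ (fun i => rfl)

end pow

section reg

variable {G : Type*} [Group G] [Fintype G] (p : ℕ) [Fact p.Prime]

/-- the exponent of the `p'`-part map -/
theorem exists_pi : ∃ e : ℕ, 0 < e ∧ ∀ g : G, (orderOf (g ^ p ^ e)).Coprime p ∧ (∀ x : G, (orderOf x).Coprime p → x ^ p ^ e = x) ∧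
    ∀ M, Fintype.card G ≤ M → (g ^ p ^ e) ^ p ^ M = g ^ p ^ M := by
  have hp : p.Prime := Fact.out
  set N := Fintype.card G with hN
  have hN0 : N ≠ 0 := Fintype.card_ne_zero
  obtain ⟨a, b, hb, hab⟩ := Nat.exists_eq_pow_mul_and_not_dvd hN0 p hp.ne_one
  have hcop : Nat.Coprime p b := (hp.coprime_iff_not_dvd).2 hb
  have htot : 0 < Nat.totient b := Nat.totient_pos.2 (Nat.pos_of_ne_zero (by rintro rfl; simp at hb))
  refine ⟨Nat.totient b * (a + 1), Nat.mul_pos htot (Nat.succ_pos a), fun g => ?_⟩
  have hle : a ≤ Nat.totient b * (a + 1) := by nlinarith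
  have hg : ∀ g : G, g ^ (p ^ a * b) = 1 := fun g => by rw [← hab, hN]; exact pow_card_eq_one
  have hmod : p ^ (Nat.totient b * (a + 1)) ≡ 1 [MOD b] := by
    rw [pow_mul]
    have := (Nat.ModEq.pow_totient hcop).pow (a + 1)
    rwa [one_pow] at this
  have hx : ∀ x : G, orderOf x ∣ b → x ^ p ^ (Nat.totient b * (a + 1)) = x := by
    intro x hx
    conv_rhs => rw [← pow_one x]
    rw [pow_eq_pow_iff_modEq]
    exact hmod.of_dvd hx
  refine ⟨?_, ?_, ?_⟩
  · have h1 : (g ^ p ^ (Nat.totient b * (a + 1))) ^ b = 1 := by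
      rw [← pow_mul]
      obtain ⟨c, hc⟩ : p ^ a ∣ p ^ (Nat.totient b * (a + 1)) := pow_dvd_pow _ hle
      rw [hc, mul_assoc, mul_comm c b, ← mul_assoc, pow_mul, hg, one_pow]
    exact Nat.Coprime.coprime_dvd_left (orderOf_dvd_of_pow_eq_one h1) hcop.symm
  · intro x hxc
    apply hx
    have h1 : orderOf x ∣ p ^ a * b := by rw [← hab, hN]; exact orderOf_dvd_card
    exact (Nat.Coprime.pow_right a hxc).dvd_of_dvd_mul_left h1
  · intro M hM
    rw [← pow_mul, mul_comm, pow_mul]
    apply hx
    have haM : a ≤ M := by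
      have : a < p ^ a := Nat.lt_pow_self hp.one_lt
      have : p ^ a ≤ N := by rw [hab]; exact Nat.le_mul_of_pos_right _ (Nat.pos_of_ne_zero (by rintro rfl; simp at hb))
      omega
    apply orderOf_dvd_of_pow_eq_one
    obtain ⟨c, hc⟩ : p ^ a ∣ p ^ M := pow_dvd_pow _ haM
    rw [← pow_mul, hc, mul_assoc, mul_comm c b, ← mul_assoc, pow_mul, hg, one_pow]

end reg

end CfsgLib.CR
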