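import Cfsg.Agent.LibCR9

/-! The additional data of the split BN-pair of a Chevalley group (lead). -/

set_option autoImplicit false

namespace CfsgLib.Chev

open Cfsg.Lie Matrix

section inst

variable {D : ChevalleyDatum} {T : Tb} (g : Good3 D T) (P : CrP g) (F : Type*) [Field F] [Fintype F] (p : ℕ) [Fact p.Prime] [CharP F p]

theorem cr_mem_closure {K : Set (Fin T.l)} {m : ↥(D.group F)} (hm : m ∈ Subgroup.closure (crn g F '' K)) :
    ∃ w, VW T w ∧ JW (Fin.val '' K) w ∧ (m : GL D.Idx F) = g.nw w := by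
  induction hm using Subgroup.closure_induction with
  | mem x hx =>
    obtain ⟨i, hi, rfl⟩ := hx
    refine ⟨[(i : ℕ)], g.VW_single i.2, ?_, ?_⟩
    · intro j hj
      rw [List.mem_singleton] at hj
      exact ⟨i, hi, hj.symm⟩
    · show g.nn i = g.nw [(i : ℕ)]
      simp [Good3.nw]
  | one => exact ⟨[], by intro i hi; simp at hi, by intro i hi; simp at hi, rfl⟩
  | mul x y hx hy ihx ihy =>
    obtain ⟨v, hv, hv', e⟩ := ihx
    obtain ⟨w, hw, hw', e'⟩ := ihy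
    refine ⟨v ++ w, g.VW_append hv hw, ?_, ?_⟩
    · intro k hk
      rcases List.mem_append.1 hk with hk | hk
      · exact hv' k hk
      · exact hw' k hk
    · rw [Good3.nw_append, ← e, ← e']; rfl
  | inv x hx ihx =>
    obtain ⟨v, hv, hv', e⟩ := ihx
    -- nw v is of finite order
    have hfin : ∀ m : ℕ, ∃ w, VW T w ∧ JW (Fin.val '' K) w ∧ (g.nw (F := F) v) ^ m = g.nw w := by
      intro m
      induction m with
      | zero => exact ⟨[], by intro i hi; simp at hi, by intro i hi; simp at hi, rfl⟩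
      | succ m ih =>
        obtain ⟨w, hw, hw', e2⟩ := ih
        refine ⟨w ++ v, g.VW_append hw hv, ?_, ?_⟩
        · intro k hk
          rcases List.mem_append.1 hk with hk | hk
          · exact hw' k hk
          · exact hv' k hk
        · rw [pow_succ, e2, Good3.nw_append]
    obtain ⟨w, hw, hw', e2⟩ := hfin (orderOf x - 1)
    refine ⟨w, hw, hw', ?_⟩
    rw [← e2, ← e]
    have h1 : 0 < orderOf x := orderOf_pos x
    have h2 : x⁻¹ = x ^ (orderOf x - 1) := by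
      apply inv_eq_of_mul_eq_one_left
      rw [← pow_succ, Nat.sub_add_cancel h1, pow_orderOf_eq_one]
    rw [h2]; rfl

/-- torus of a simple root, in the group -/
def crHs (T : Tb) (F : Type*) [Field F] (i : Fin T.l) : Subgroup ↥(D.group F) := (crH D T F (i : ℕ)).subgroupOf (D.group F)

theorem cr_word' {K : Set (Fin T.l)} {m : ↥(D.group F)} (hm : m ∈ Subgroup.closure (crn g F '' K))
    (hmH : (m : GL D.Idx F) ∈ D.diagonalSubgroup F) : m ∈ ⨆ j ∈ K, crHs (D := D) T F j := by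
  obtain ⟨w, hw, hJ, e⟩ := cr_mem_closure g F hm
  rw [e] at hmH
  have h1 := g.cr_word (F := F) _ w rfl hw hJ ((g.nw_mem_H_iff hw).1 hmH)
  have h2 : (⨆ j ∈ (Fin.val '' K : Set ℕ), crH D T F j) ≤ (⨆ j ∈ K, crHs (D := D) T F j).map (D.group F).subtype := by
    apply iSup₂_le
    rintro _ ⟨j, hj, rfl⟩ x hx
    refine ⟨⟨x, g.H_le_G (g.crH_le j.2 hx)⟩, ?_, rfl⟩
    exact (le_iSup₂_of_le (f := fun (j : Fin T.l) (_ : j ∈ K) => crHs (D := D) T F j) j hj le_rfl) hx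
  obtain ⟨y, hy, e3⟩ := h2 h1
  have : y = m := Subtype.ext (e3.trans e.symm)
  rw [← this]; exact hy

theorem cr_low' {K : Set (Fin T.l)} {m : ↥(D.group F)} (hm : m ∈ Subgroup.closure (crn g F '' K)) {j : Fin T.l} (hj : j ∉ K)
    {y : ↥(D.group F)} (hy : (y : GL D.Idx F) ∈ g.crX F (T.n - 1 - T.sim j)) :
    ((m⁻¹ * y * m : ↥(D.group F)) : GL D.Idx F) ∈ D.negUnipotent F := by
  obtain ⟨w, hw, hJ, e⟩ := cr_mem_closure g F (inv_mem hm)
  have h1 := g.sim_lt j.2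
  have h2 := g.cr_nwX hw (r := T.n - 1 - T.sim j) (by omega) hy
  have h3 : (j : ℕ) ∉ (Fin.val '' K : Set ℕ) := by
    rintro ⟨i, hi, hij⟩
    exact hj (by rw [← Fin.ext hij]; exact hi)
  have h4 := g.cr_low hw hJ j.2 h3
  obtain ⟨t, ht⟩ := h2
  have h5 : ((m⁻¹ * y * m : ↥(D.group F)) : GL D.Idx F) = g.X (wact T w (T.n - 1 - T.sim j)) t := by
    rw [← ht, ← e]
    show (m : GL D.Idx F)⁻¹ * y * m = (m : GL D.Idx F)⁻¹ * y * (m : GL D.Idx F)⁻¹⁻¹
    rw [inv_inv]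
  rw [h5]
  exact g.X_mem_V h4 t

/-- the additional data -/
noncomputable def crExt : CR.Ext (crDat g P F p) where
  star := P.st
  Hs := crHs T F
  bru := by
    rintro ⟨x, hx⟩
    obtain ⟨u, hu, m, hm, u', hu', e⟩ := g.cr_bru hx
    exact ⟨⟨u, g.U_le_G hu⟩, hu, ⟨m, g.N_le_G hm⟩, hm, ⟨u', g.U_le_G hu'⟩, hu', Subtype.ext e⟩
  bru_u := by
    intro u hu m hm u' hu' m' hm' e
    exact Subtype.ext (g.cr_bru_u hm hm' hu hu' (congrArg Subtype.val e))
  HsH := fun (i : Fin T.l) x hx => g.crH_le i.2 hx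
  hhs := fun (i : Fin T.l) (x : ↥(D.group F)) _ _ => crhh_mem g i.2 (x : GL D.Idx F)
  sqs := fun (i : Fin T.l) => g.cr_sq i.2
  n0N := g.nw_mem_N P.hw
  star_inj := P.inj
  sX := fun (i : Fin T.l) x hx => cr_stX g P hx
  sn := by
    intro (i : Fin T.l)
    obtain ⟨z, hz, e2⟩ := g.cr_n0nn (F := F) P.hw i.2 (P.st i).2 (P.hst i)
    exact ⟨⟨z, g.H_le_G (g.crH_le (P.st i).2 hz)⟩, hz, Subtype.ext e2⟩
  sH := by
    rintro (i : Fin T.l) ⟨x, hx'⟩ ⟨c, hc⟩
    have hc' : x = hd D T (T.sim (P.st i)) c := hc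
    refine ⟨c⁻¹, ?_⟩
    show g.nw P.w * x * (g.nw P.w)⁻¹ = hd D T (T.sim i) c⁻¹
    rw [hc', g.nw_hd P.hw (g.sim_lt (P.st i).2), P.hst, g.cr_hd_neg (g.sim_lt i.2), Good3.hd_inv]
  comm := fun (i : Fin T.l) h hh => g.cr_comm i.2 hh
  word := fun (K : Set (Fin T.l)) m hm hmH => cr_word' g F hm hmH
  low := fun (K : Set (Fin T.l)) m hm (j : Fin T.l) hj y hy => cr_low' g F hm hj hy

end inst

end CfsgLib.Chev
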