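import Cfsg.Agent.LibCR10

/-! Counting the weights of a Chevalley group (lead). -/

set_option autoImplicit false

namespace CfsgLib.Chev

open Cfsg.Lie Matrix

section inst

variable {D : ChevalleyDatum} {T : Tb} (g : Good3 D T) (P : CrP g) (F : Type*) [Field F] [Fintype F] [DecidableEq F] [Fintype ↥(D.group F)]
  (p : ℕ) [Fact p.Prime] [CharP F p]

/-- one parameter subgroups of the torus -/
noncomputable def crPhi (i : Fin T.l) : Fˣ →* (crDat g P F p).H where
  toFun c := ⟨⟨hd D T (T.sim i) c, g.H_le_G (g.hd_mem (g.sim_lt i.2) c)⟩, g.hd_mem (g.sim_lt i.2) c⟩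
  map_one' := Subtype.ext (Subtype.ext (Good3.hd_one _))
  map_mul' _ _ := Subtype.ext (Subtype.ext (Good3.hd_mul _ _ _))

theorem crPhi_coe (i : Fin T.l) (c : Fˣ) : (((crPhi g P F p i c : (crDat g P F p).H) : ↥(D.group F)) : GL D.Idx F) = hd D T (T.sim i) c := rfl

theorem cr_cc {k : Type*} [Field k] [CharP k p] (ψ : (crDat g P F p).H →* kˣ) (i : Fin T.l) :
    (crDat g P F p).cc i ((crDat g P F p).ev ψ) = ∑ c : Fˣ, ((ψ (crPhi g P F p i c) : kˣ) : k) := by
  classical
  have hinj : Function.Injective (fun t : F => (⟨⟨g.X (T.sim i) t, g.X_mem_G _ _⟩, ⟨t, rfl⟩⟩ : (crDat g P F p).X i)) := by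
    intro t u h
    have h1 : g.X (T.sim i) t = g.X (T.sim i) u := congrArg Subtype.val (congrArg Subtype.val h)
    exact g.X_inj (g.sim_lt i.2) h1
  have hsurj : Function.Surjective (fun t : F => (⟨⟨g.X (T.sim i) t, g.X_mem_G _ _⟩, ⟨t, rfl⟩⟩ : (crDat g P F p).X i)) := by
    rintro ⟨⟨x, hx⟩, ⟨t, ht⟩⟩
    exact ⟨t, Subtype.ext (Subtype.ext (Eq.symm ht))⟩
  let e : F ≃ (crDat g P F p).X i := Equiv.ofBijective _ ⟨hinj, hsurj⟩
  unfold CR.Dat.cc
  rw [← e.sum_comp]
  have h0 : e 0 = 1 := Subtype.ext (Subtype.ext (g.X_zero _))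
  let G : F → k := fun t => if h : t = 0 then 0 else ((ψ (crPhi g P F p i (-(Units.mk0 t h))) : kˣ) : k)
  trans ∑ t : F, G t
  · apply Finset.sum_congr rfl
    intro t _
    show _ = if h : t = 0 then 0 else ((ψ (crPhi g P F p i (-(Units.mk0 t h))) : kˣ) : k)
    by_cases h : t = 0
    · rw [dif_pos h, if_pos]
      rw [h]; exact h0
    · have hne : e t ≠ 1 := by
        intro h'
        rw [← h0] at h'
        exact h (e.injective h')
      rw [dif_neg h, if_neg hne]
      have h2 : ((crDat g P F p).hh i (e t) * ((crDat g P F p).n i * (crDat g P F p).n i) : ↥(D.group F)) =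
          (crPhi g P F p i (-(Units.mk0 t h)) : (crDat g P F p).H) := by
        apply Subtype.ext
        show crhh g i (g.X (T.sim i) ((Units.mk0 t h : Fˣ) : F)) * (g.nn i * g.nn i) = hd D T (T.sim i) (-(Units.mk0 t h))
        rw [crhh_eq g i.2, g.nn_sq i.2, ← Good3.hd_mul, mul_neg, mul_one]
      rw [h2, CR.Dat.ev_mem (crPhi g P F p i (-(Units.mk0 t h))).2]
  · rw [← Finset.sum_subset (Finset.subset_univ ((Finset.univ : Finset Fˣ).map ⟨Units.val, Units.val_injective⟩))]
    · rw [Finset.sum_map]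
      rw [← Equiv.sum_comp (Equiv.neg Fˣ) (fun c => ((ψ (crPhi g P F p i c) : kˣ) : k))]
      apply Finset.sum_congr rfl
      intro c _
      show (if h : (c : F) = 0 then 0 else ((ψ (crPhi g P F p i (-(Units.mk0 (c : F) h))) : kˣ) : k)) = _
      rw [dif_neg c.ne_zero, Units.mk0_val]
      rfl
    · intro t _ ht
      show (if h : t = 0 then 0 else ((ψ (crPhi g P F p i (-(Units.mk0 t h))) : kˣ) : k)) = 0
      apply dif_pos
      by_contra ht0
      apply ht
      exact Finset.mem_map.2 ⟨Units.mk0 t ht0, Finset.mem_univ _, rfl⟩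

theorem cr_hcc {k : Type*} [Field k] [CharP k p] (ψ : (crDat g P F p).H →* kˣ) (i : Fin T.l) :
    (crDat g P F p).cc i ((crDat g P F p).ev ψ) ≠ 0 ↔ ψ.comp (crPhi g P F p i) = 1 := by
  classical
  rw [cr_cc]
  have h1 := sum_hom_units ((Units.coeHom k).comp (ψ.comp (crPhi g P F p i)))
  have h2 : ∑ c : Fˣ, ((ψ (crPhi g P F p i c) : kˣ) : k) = ∑ c : Fˣ, ((Units.coeHom k).comp (ψ.comp (crPhi g P F p i))) c := rfl
  rw [h2, h1]
  have h3 : (Units.coeHom k).comp (ψ.comp (crPhi g P F p i)) = 1 ↔ ψ.comp (crPhi g P F p i) = 1 := by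
    constructor
    · intro h
      ext c
      exact congrArg (fun f : Fˣ →* k => f c) h
    · intro h
      rw [h]; rfl
  split_ifs with h
  · have hp : p ∣ Fintype.card F := by
      rw [← CharP.cast_eq_zero_iff F p]
      exact FiniteField.cast_card_eq_zero F
    have h4 : (Fintype.card F : k) = 0 := (CharP.cast_eq_zero_iff k p _).2 hp
    have h5 : 1 ≤ Fintype.card F := Fintype.card_pos
    refine ⟨fun _ => h3.1 h, fun _ => ?_⟩
    rw [Fintype.card_units, Nat.cast_sub h5, h4, Nat.cast_one, zero_sub]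
    exact neg_ne_zero.2 one_ne_zero
  · exact ⟨fun h' => absurd (Nat.cast_zero) h', fun h' => absurd (h3.2 h') h⟩

theorem cr_card_preg (k : Type*) [Field k] [CharP k p] [IsAlgClosed k] :
    Nat.card (CR.PReg ↥(D.group F) p) = Nat.card ((crDat g P F p).Wt k) := by
  have : Finite (crDat g P F p).ι := inferInstanceAs (Finite (Fin T.l))
  apply CR.Dat.card_preg (crExt g P F p)
  intro ψ (i : Fin T.l) h x hx
  rw [cr_hcc] at h
  obtain ⟨c, hc⟩ := hx
  have h1 := congrArg (fun f : Fˣ →* kˣ => f c) h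
  have h2 : x = (crPhi g P F p i c : (crDat g P F p).H) := Subtype.ext hc
  rw [h2, CR.Dat.ev_mem (crPhi g P F p i c).2]
  have h3 : ψ (crPhi g P F p i c) = 1 := h1
  show ((ψ (crPhi g P F p i c) : kˣ) : k) = 1
  rw [h3]; rfl

end inst

section count

theorem card_hom_units {F k : Type*} [Field F] [Fintype F] [Field k] [IsAlgClosed k] (p : ℕ) [Fact p.Prime] [CharP F p] [CharP k p] :
    Nat.card (Fˣ →* kˣ) = Fintype.card F - 1 := by
  classical
  have hp : p ∣ Fintype.card F := by
    rw [← CharP.cast_eq_zero_iff F p]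
    exact FiniteField.cast_card_eq_zero F
  have h5 : 1 ≤ Fintype.card F := Fintype.card_pos
  have hexp : Monoid.exponent Fˣ = Fintype.card F - 1 := by
    rw [IsCyclic.exponent_eq_card, Nat.card_eq_fintype_card, Fintype.card_units]
  have hne : ((Monoid.exponent Fˣ : ℕ) : k) ≠ 0 := by
    rw [hexp, Nat.cast_sub h5, (CharP.cast_eq_zero_iff k p _).2 hp, Nat.cast_one, zero_sub]
    exact neg_ne_zero.2 one_ne_zero
  have : NeZero ((Monoid.exponent Fˣ : ℕ) : k) := ⟨hne⟩
  rw [CommGroup.card_monoidHom_of_hasEnoughRootsOfUnity Fˣ k, Nat.card_eq_fintype_card, Fintype.card_units]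

theorem card_opt {F k : Type*} [Field F] [Fintype F] [Field k] [IsAlgClosed k] (p : ℕ) [Fact p.Prime] [CharP F p] [CharP k p] :
    Nat.card {z : (Fˣ →* kˣ) × Prop // z.2 → z.1 = 1} = Fintype.card F := by
  classical
  let e : {z : (Fˣ →* kˣ) × Prop // z.2 → z.1 = 1} ≃ Option (Fˣ →* kˣ) :=
    { toFun := fun z => if z.1.2 then none else some z.1.1
      invFun := fun o => match o with
        | none => ⟨(1, True), fun _ => rfl⟩
        | some f => ⟨(f, False), fun h => h.elim⟩
      left_inv := by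
        rintro ⟨⟨f, b⟩, h⟩
        by_cases hb : b
        · have : f = 1 := h hb
          subst this
          simp [hb]
        · simp [hb]
      right_inv := by
        rintro (_ | f) <;> simp }
  have hfin : Finite (Fˣ →* kˣ) := inferInstance
  rw [Nat.card_congr e, Finite.card_option, card_hom_units (F := F) (k := k) p]
  have h5 : 1 ≤ Fintype.card F := Fintype.card_pos
  omega

end count

section inst2

variable {D : ChevalleyDatum} {T : Tb} (g : Good3 D T) (P : CrP g) (F : Type*) [Field F] [Fintype F] [DecidableEq F] [Fintype ↥(D.group F)]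
  (p : ℕ) [Fact p.Prime] [CharP F p]

theorem cr_wt (hH : Nat.card (D.diagonalSubgroup F) = (Fintype.card F - 1) ^ T.l) (k : Type*) [Field k] [CharP k p] [IsAlgClosed k] :
    Nat.card ((crDat g P F p).Wt k) = Fintype.card F ^ T.l := by
  classical
  -- the parametrization of the torus
  let θ0 : (Fin T.l → Fˣ) →* (crDat g P F p).H :=
    { toFun := fun a => ⟨⟨helHom D T a, g.H_le_G (g.hel_mem _)⟩, g.hel_mem _⟩
      map_one' := Subtype.ext (Subtype.ext (map_one _))
      map_mul' := fun _ _ => Subtype.ext (Subtype.ext (map_mul _ _ _)) }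
  have hsurj : Function.Surjective θ0 := by
    rintro ⟨⟨x, hx'⟩, hx⟩
    have hx2 : x ∈ D.diagonalSubgroup F := hx
    rw [← g.helHom_range] at hx2
    obtain ⟨a, ha⟩ := hx2
    exact ⟨a, Subtype.ext (Subtype.ext ha)⟩
  have hcard : Nat.card (Fin T.l → Fˣ) = Nat.card (crDat g P F p).H := by
    rw [Nat.card_fun, Nat.card_eq_fintype_card (α := Fˣ), Fintype.card_units, Nat.card_fin, ← hH]
    exact (Nat.card_congr (Subgroup.subgroupOfEquivOfLe g.H_le_G).toEquiv).symm
  have hbij : Function.Bijective θ0 := (Nat.bijective_iff_surjective_and_card _).2 ⟨hsurj, hcard⟩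
  let θ : (Fin T.l → Fˣ) ≃* (crDat g P F p).H := MulEquiv.ofBijective θ0 hbij
  have hθφ : ∀ (i : Fin T.l) (c : Fˣ), θ (Pi.mulSingle i c) = crPhi g P F p i c := by
    intro i c
    apply Subtype.ext; apply Subtype.ext
    show hel D T (ext1 (Pi.mulSingle i c)) = hd D T (T.sim i) c
    rw [g.cr_hd_sim i.2]
    apply g.cr_hel_congr
    intro j hj
    unfold ext1
    rw [dif_pos hj]
    by_cases h : i = ⟨j, hj⟩
    · subst h
      rw [Pi.mulSingle_eq_same, if_pos rfl]
    · rw [Pi.mulSingle_eq_of_ne (Ne.symm h), if_neg]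
      intro h'
      exact h (Fin.ext h')
  let f : (crDat g P F p).Wt k → (Fin T.l → {z : (Fˣ →* kˣ) × Prop // z.2 → z.1 = 1}) :=
    fun w i => ⟨(w.1.1.comp (crPhi g P F p i), (i : (crDat g P F p).ι) ∈ w.1.2), fun h => (cr_hcc g P F p w.1.1 i).1 (w.2 i h)⟩
  have hf : Function.Bijective f := by
    constructor
    · rintro ⟨⟨ψ, J⟩, h⟩ ⟨⟨ψ', J'⟩, h'⟩ e
      have h1 : ∀ i : Fin T.l, ψ.comp (crPhi g P F p i) = ψ'.comp (crPhi g P F p i) := fun i =>
        congrArg (fun z : {z : (Fˣ →* kˣ) × Prop // z.2 → z.1 = 1} => z.1.1) (congrFun e i)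
      have h2 : ∀ i : Fin T.l, ((i : (crDat g P F p).ι) ∈ J) = ((i : (crDat g P F p).ι) ∈ J') := fun i =>
        congrArg (fun z : {z : (Fˣ →* kˣ) × Prop // z.2 → z.1 = 1} => z.1.2) (congrFun e i)
      have h3 : ψ = ψ' := by
        have h4 : ψ.comp θ.toMonoidHom = ψ'.comp θ.toMonoidHom := by
          apply MonoidHom.pi_ext
          intro i c
          show ψ (θ (Pi.mulSingle i c)) = ψ' (θ (Pi.mulSingle i c))
          rw [hθφ]
          exact congrArg (fun f : Fˣ →* kˣ => f c) (h1 i)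
        ext x
        obtain ⟨y, rfl⟩ := θ.surjective x
        exact congrArg (fun f : (Fin T.l → Fˣ) →* kˣ => ((f y : kˣ) : k)) h4
      have h4 : J = J' := by
        ext i
        exact iff_of_eq (h2 i)
      subst h3 h4
      rfl
    · intro z
      let χ' : (Fin T.l → Fˣ) →* kˣ := ∏ i, ((z i).1.1).comp (Pi.evalMonoidHom (fun _ => Fˣ) i)
      have hχ' : ∀ (i : Fin T.l) (c : Fˣ), χ' (Pi.mulSingle i c) = (z i).1.1 c := by
        intro i c
        show (∏ i, ((z i).1.1).comp (Pi.evalMonoidHom (fun _ => Fˣ) i) : (Fin T.l → Fˣ) →* kˣ) (Pi.mulSingle i c) = _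
        rw [MonoidHom.finsetProd_apply, Finset.prod_eq_single i]
        · show (z i).1.1 ((Pi.mulSingle i c : Fin T.l → Fˣ) i) = _
          rw [Pi.mulSingle_eq_same]
        · intro j _ hj
          show (z j).1.1 ((Pi.mulSingle i c : Fin T.l → Fˣ) j) = _
          rw [Pi.mulSingle_eq_of_ne hj, map_one]
        · intro h; exact absurd (Finset.mem_univ _) h
      have hc : ∀ i : Fin T.l, (χ'.comp θ.symm.toMonoidHom).comp (crPhi g P F p i) = (z i).1.1 := by
        intro i
        apply MonoidHom.ext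
        intro c
        show χ' (θ.symm (crPhi g P F p i c)) = _
        rw [← hθφ, θ.symm_apply_apply, hχ']
      refine ⟨⟨(χ'.comp θ.symm.toMonoidHom, {i : Fin T.l | (z i).1.2}), ?_⟩, ?_⟩
      · intro (i : Fin T.l) hi
        rw [cr_hcc, hc i]
        exact (z i).2 hi
      · funext i
        apply Subtype.ext
        apply Prod.ext
        · exact hc i
        · rfl
  rw [Nat.card_congr (Equiv.ofBijective f hf), Nat.card_fun, card_opt (F := F) (k := k) p, Nat.card_fin]

include g in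
theorem card_preg_eq (hH : Nat.card (D.diagonalSubgroup F) = (Fintype.card F - 1) ^ T.l) :
    Nat.card (CR.PReg ↥(D.group F) p) = Fintype.card F ^ T.l := by
  obtain ⟨P⟩ := crP_nonempty g
  have : CharP (AlgebraicClosure (ZMod p)) p := inferInstance
  rw [cr_card_preg g P F p (AlgebraicClosure (ZMod p))]
  exact cr_wt g P F p hH (AlgebraicClosure (ZMod p))

end inst2

end CfsgLib.Chev
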