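import Cfsg.Agent.LibCR11
import Cfsg.Agent.LibChevAll
import Cfsg.Agent.LibChevSmith

/-! Numbers of semisimple classes (lead). -/

set_option autoImplicit false

namespace CfsgLib.Chev

open Cfsg.Lie Matrix

theorem card_ss_of {D : ChevalleyDatum} {T : Tb} (g : Good3 D T) (F : Type*) [Field F] [Fintype F] (p : ℕ) [Fact p.Prime] [CharP F p]
    {P Pi Q Qi : List (List ℤ)} {s : List ℤ} (h : T.SmithChk P Pi Q Qi s) (hs : s.length = T.l)
    (h1 : (s.map fun z => Nat.gcd z.natAbs (Fintype.card F - 1)).prod = 1) :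
    Nat.card {c : ConjClasses ↥(D.group F) // ∃ x : ↥(D.group F), ConjClasses.mk x = c ∧ (orderOf x).Coprime p} =
      Fintype.card F ^ D.rank := by
  classical
  have : Fintype ↥(D.group F) := Fintype.ofFinite _
  have h2 := g.card_H_list (F := F) h hs
  rw [h1, one_mul] at h2
  have hr : D.rank = T.l := g.hl
  have h3 : Nat.card (D.diagonalSubgroup F) = (Fintype.card F - 1) ^ T.l := by
    rw [h2]; exact congrArg _ hr
  have h4 := card_preg_eq g F p h3
  have h5 : Fintype.card F ^ D.rank = Fintype.card F ^ T.l := congrArg _ hr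
  rw [h5]
  exact h4

end CfsgLib.Chev
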