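import Cfsg.Agent.LibCR1

/-! Brauer's theorem, continued (lead). -/

set_option autoImplicit false

namespace CfsgLib.CR

open MonoidAlgebra

section

variable (k : Type*) [Field k] [IsAlgClosed k] (G : Type*) [Group G] [Finite G]

theorem exists_wed : ∃ (n : ℕ) (d : Fin n → ℕ) (π : MonoidAlgebra k G →ₐ[k] (∀ i, Matrix (Fin (d i)) (Fin (d i)) k)),
    (∀ i, NeZero (d i)) ∧ Function.Surjective π ∧ ∀ a, π a = 0 → IsNilpotent a := by
  have : Module.Finite k (MonoidAlgebra k G) := inferInstance
  have : IsArtinianRing (MonoidAlgebra k G) := IsArtinianRing.of_finite k _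
  have h1 : IsSemisimpleRing (MonoidAlgebra k G ⧸ Ring.jacobson (MonoidAlgebra k G)) := IsSemiprimaryRing.isSemisimpleRing
  have h2 : IsNilpotent (Ring.jacobson (MonoidAlgebra k G)) := IsSemiprimaryRing.isNilpotent
  have h3 : FiniteDimensional k (MonoidAlgebra k G ⧸ Ring.jacobson (MonoidAlgebra k G)) :=
    Module.Finite.of_surjective (Ideal.Quotient.mkₐ k (Ring.jacobson (MonoidAlgebra k G))).toLinearMap (Ideal.Quotient.mkₐ_surjective k _)
  obtain ⟨n, d, hd, ⟨e⟩⟩ := IsSemisimpleRing.exists_algEquiv_pi_matrix_of_isAlgClosed k (MonoidAlgebra k G ⧸ Ring.jacobson (MonoidAlgebra k G))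
  refine ⟨n, d, e.toAlgHom.comp (Ideal.Quotient.mkₐ k _), hd, ?_, ?_⟩
  · exact e.surjective.comp (Ideal.Quotient.mkₐ_surjective k _)
  · intro a ha
    have h4 : e (Ideal.Quotient.mkₐ k (Ring.jacobson (MonoidAlgebra k G)) a) = 0 := ha
    rw [map_eq_zero_iff e e.injective] at h4
    have h5 : a ∈ Ring.jacobson (MonoidAlgebra k G) := Ideal.Quotient.eq_zero_iff_mem.1 h4
    obtain ⟨m, hm⟩ := h2
    refine ⟨m, ?_⟩
    have := Ideal.pow_mem_pow h5 m
    rw [hm] at this
    exact this

end

section

variable {k : Type*} [Field k] {G : Type*} [Group G] [Fintype G] {p : ℕ} [Fact p.Prime] [CharP k p]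

theorem ext_nilp {e : ℕ} (he : 0 < e) {f : G → k} (hf : ∀ x y, f (x * y) = f (y * x)) (h1 : ∀ g, f (g ^ p ^ e) = f g)
    (h2 : ∀ g, f g ^ p ^ e = f g) {a : MonoidAlgebra k G} (ha : IsNilpotent a) : ext f a = 0 := by
  obtain ⟨M, hM⟩ := ha
  have h3 : ∀ j g, f (g ^ p ^ (e * j)) = f g := by
    intro j
    induction j with
    | zero => intro g; simp
    | succ j ih => intro g; rw [mul_add, mul_one, pow_add, pow_mul, h1, ih]
  have h4 : ∀ j g, f g ^ p ^ (e * j) = f g := by
    intro j
    induction j with
    | zero => intro g; simp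
    | succ j ih => intro g; rw [mul_add, mul_one, pow_add, pow_mul, ih, h2]
  have h5 := ext_pow (p := p) hf a (e * M)
  have h6 : a ^ p ^ (e * M) = 0 := by
    apply pow_eq_zero_of_le _ hM
    have : e * M < p ^ (e * M) := Nat.lt_pow_self (Fact.out : p.Prime).one_lt
    nlinarith
  rw [h6, map_zero] at h5
  have h7 : (ext f a) ^ p ^ (e * M) = 0 := by
    rw [ext_apply, sum_pow_char_pow, h5]
    apply Finset.sum_congr rfl
    intro g _
    rw [mul_pow, h4, h3]
  exact pow_eq_zero_iff (pow_ne_zero _ (Fact.out : p.Prime).ne_zero) |>.1 h7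

/-- `p`-regular classes -/
abbrev PReg (G : Type*) [Group G] (p : ℕ) : Type _ := {C : ConjClasses G // ∃ g, ConjClasses.mk g = C ∧ (orderOf g).Coprime p}

theorem ext_add (f g : G → k) : ext (f + g) = ext f + ext g := by
  ext a
  simp [ext_single]

variable {n : ℕ} {d : Fin n → ℕ} (π : MonoidAlgebra k G →ₐ[k] (∀ i, Matrix (Fin (d i)) (Fin (d i)) k))

theorem trace_pi {M : ℕ} (x y : G) (hxy : Commute x y) (h : x ^ p ^ M = y ^ p ^ M) (i : Fin n) :
    Matrix.trace (π (single x 1) i) = Matrix.trace (π (single y 1) i) := by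
  have h1 : IsNilpotent (π (single x 1) i - π (single y 1) i) := by
    refine ⟨p ^ M, ?_⟩
    have hc : Commute (π (single x (1 : k)) i) (π (single y 1) i) := by
      have : Commute (single x (1 : k)) (single y 1 : MonoidAlgebra k G) := by
        show _ * _ = _ * _
        rw [single_mul_single, single_mul_single, hxy.eq]
      have h2 := this.map π
      show _ * _ = _ * _
      have h3 := congrFun h2.eq i
      exact h3
    by_cases hd : IsEmpty (Fin (d i))
    · ext a; exact hd.elim a
    rw [not_isEmpty_iff] at hd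
    have : CharP (Matrix (Fin (d i)) (Fin (d i)) k) p := Matrix.charP p
    have : ExpChar (Matrix (Fin (d i)) (Fin (d i)) k) p := ExpChar.prime Fact.out
    rw [sub_pow_expChar_pow_of_commute p M hc]
    have h3 : ∀ g : G, (π (single g (1 : k)) i) ^ p ^ M = π (single (g ^ p ^ M) 1) i := by
      intro g
      have : (single g (1 : k) : MonoidAlgebra k G) ^ p ^ M = single (g ^ p ^ M) 1 := by
        rw [single_pow, one_pow]
      rw [← this, map_pow, Pi.pow_apply]
    rw [h3, h3, h, sub_self]
  have h2 := Matrix.isNilpotent_trace_of_isNilpotent h1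
  rw [Matrix.trace_sub] at h2
  exact sub_eq_zero.1 h2.eq_zero

theorem trace_conj (x y : G) (h : IsConj x y) (i : Fin n) : Matrix.trace (π (single x 1) i) = Matrix.trace (π (single y 1) i) := by
  obtain ⟨c, hc⟩ := isConj_iff.1 h
  have h1 : (single y (1 : k) : MonoidAlgebra k G) = single c 1 * (single x 1 * single c⁻¹ 1) := by
    rw [single_mul_single, single_mul_single, ← hc, mul_one, mul_one, mul_assoc]
  have h2 : (single c⁻¹ (1 : k) : MonoidAlgebra k G) * single c 1 = 1 := by
    rw [single_mul_single, inv_mul_cancel, mul_one, MonoidAlgebra.one_def]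
  rw [h1, map_mul, Pi.mul_apply, Matrix.trace_mul_comm, map_mul, Pi.mul_apply, mul_assoc, ← Pi.mul_apply, ← map_mul, h2, map_one,
    Pi.one_apply, mul_one]

theorem le_preg (hd : ∀ i, NeZero (d i)) (hs : Function.Surjective π) : n ≤ Nat.card (PReg G p) := by
  classical
  obtain ⟨e, he, hpi⟩ := exists_pi (G := G) p
  have : Finite (PReg G p) := inferInstance
  have : Fintype (PReg G p) := Fintype.ofFinite _
  choose r hr1 hr2 using fun C : PReg G p => C.2
  let T : (Fin n → k) →ₗ[k] (PReg G p → k) :=
    { toFun := fun c C => ∑ i, c i * Matrix.trace (π (single (r C) 1) i)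
      map_add' := by
        intro a b; funext C
        simp only [Pi.add_apply, add_mul, Finset.sum_add_distrib]
      map_smul' := by
        intro a b; funext C
        simp only [Pi.smul_apply, smul_eq_mul, RingHom.id_apply, Finset.mul_sum, mul_assoc] }
  have hT : Function.Injective T := by
    rw [← LinearMap.ker_eq_bot, LinearMap.ker_eq_bot']
    intro c hc
    have h1 : ∀ g : G, ∑ i, c i * Matrix.trace (π (single g 1) i) = 0 := by
      intro g
      obtain ⟨h2, _, h3⟩ := hpi g
      let C : PReg G p := ⟨ConjClasses.mk (g ^ p ^ e), g ^ p ^ e, rfl, h2⟩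
      have h4 : IsConj (g ^ p ^ e) (r C) := (ConjClasses.mk_eq_mk_iff_isConj.1 (hr1 C)).symm
      have h5 := congrFun hc C
      have h6 : ∑ i, c i * Matrix.trace (π (single (r C) 1) i) = 0 := h5
      rw [← h6]
      apply Finset.sum_congr rfl
      intro i _
      rw [← trace_conj π _ _ h4 i, trace_pi (p := p) (M := Fintype.card G) π (g ^ p ^ e) g (Commute.pow_left rfl _) (h3 _ le_rfl)]
    have h2 : ∀ a : MonoidAlgebra k G, ∑ i, c i * Matrix.trace (π a i) = 0 := by
      intro a
      rw [expand1 a]
      have : ∀ i, Matrix.trace (π (∑ g : G, single g (a.coeff g)) i) = ∑ g : G, a.coeff g * Matrix.trace (π (single g 1) i) := by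
        intro i
        rw [map_sum, Finset.sum_apply, Matrix.trace_sum]
        apply Finset.sum_congr rfl
        intro g _
        have : (single g (a.coeff g) : MonoidAlgebra k G) = a.coeff g • single g 1 := by
          rw [MonoidAlgebra.smul_single, smul_eq_mul, mul_one]
        rw [this, map_smul, Pi.smul_apply, Matrix.trace_smul, smul_eq_mul]
      simp only [this, Finset.mul_sum]
      rw [Finset.sum_comm]
      apply Finset.sum_eq_zero
      intro g _
      have h7 := congrArg (fun x => a.coeff g * x) (h1 g)
      simp only [mul_zero, Finset.mul_sum] at h7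
      rw [← h7]
      exact Finset.sum_congr rfl (fun i _ => by ring)
    funext i
    have := hd i
    obtain ⟨a, ha⟩ := hs (Pi.single i (Matrix.single (0 : Fin (d i)) 0 1))
    have h8 := h2 a
    rw [ha, Finset.sum_eq_single i] at h8
    · rw [Pi.single_eq_same, Matrix.trace_single_eq_same, mul_one] at h8
      exact h8
    · intro j _ hj
      rw [Pi.single_eq_of_ne hj, Matrix.trace_zero, mul_zero]
    · intro h; exact absurd (Finset.mem_univ _) h
  have h9 := LinearMap.finrank_le_finrank_of_injective hT
  rwa [Module.finrank_fin_fun, Module.finrank_fintype_fun_eq_card, ← Nat.card_eq_fintype_card] at h9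

theorem preg_le (hd : ∀ i, NeZero (d i)) (hs : Function.Surjective π) (hk : ∀ a, π a = 0 → IsNilpotent a) :
    Nat.card (PReg G p) ≤ n := by
  classical
  obtain ⟨e, he, hpi⟩ := exists_pi (G := G) p
  have : Finite (PReg G p) := inferInstance
  have : Fintype (PReg G p) := Fintype.ofFinite _
  -- the class of the p'-part
  let cl : G → PReg G p := fun g => ⟨ConjClasses.mk (g ^ p ^ e), g ^ p ^ e, rfl, (hpi g).1⟩
  have hcl1 : ∀ x y : G, cl (x * y) = cl (y * x) := by
    intro x y
    apply Subtype.ext
    apply ConjClasses.mk_eq_mk_iff_isConj.2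
    apply IsConj.pow
    exact isConj_iff.2 ⟨x⁻¹, by group⟩
  have hcl2 : ∀ x : G, cl (x ^ p ^ e) = cl x := by
    intro x
    apply Subtype.ext
    show ConjClasses.mk ((x ^ p ^ e) ^ p ^ e) = ConjClasses.mk (x ^ p ^ e)
    rw [(hpi (x ^ p ^ e)).2.1 _ (hpi x).1]
  have hvan : ∀ (b : PReg G p → k) (a : MonoidAlgebra k G), IsNilpotent a → ext (fun g => b (cl g)) a = 0 := by
    intro b a ha
    have h1 : ext (fun g => b (cl g)) a = ∑ C : PReg G p, b C * ext (fun g => if cl g = C then (1 : k) else 0) a := by
      simp only [ext_apply, Finset.mul_sum]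
      rw [Finset.sum_comm]
      apply Finset.sum_congr rfl
      intro g _
      rw [Finset.sum_eq_single (cl g)]
      · rw [if_pos rfl]; ring
      · intro C _ hC; rw [if_neg (fun h => hC h.symm)]; ring
      · intro h; exact absurd (Finset.mem_univ _) h
    rw [h1]
    apply Finset.sum_eq_zero
    intro C _
    rw [ext_nilp (p := p) he (f := fun g => if cl g = C then (1 : k) else 0) _ _ _ ha, mul_zero]
    · intro x y; simp only [hcl1 x y]
    · intro x; simp only [hcl2 x]
    · intro x
      by_cases h : cl x = C
      · simp only [if_pos h, one_pow]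
      · simp only [if_neg h]
        rw [zero_pow (pow_ne_zero _ (Fact.out : p.Prime).ne_zero)]
  have hex : ∀ (i : Fin n) (x y : Fin (d i)), ∃ a : MonoidAlgebra k G, π a = Pi.single i (Matrix.single x y 1) := fun i x y => hs _
  choose E hE using hex
  let T : (PReg G p → k) →ₗ[k] (Fin n → k) :=
    { toFun := fun b i => ext (fun g => b (cl g)) (E i (Fin.ofNat (d i) 0) (Fin.ofNat (d i) 0))
      map_add' := by
        intro a b; funext i
        simp only [ext_apply, Pi.add_apply, mul_add, Finset.sum_add_distrib]
      map_smul' := by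
        intro a b; funext i
        simp only [ext_apply, Pi.smul_apply, smul_eq_mul, RingHom.id_apply, Finset.mul_sum]
        exact Finset.sum_congr rfl (fun g _ => by ring) }
  have hT : Function.Injective T := by
    rw [← LinearMap.ker_eq_bot, LinearMap.ker_eq_bot']
    intro b hb
    have hcomm : ∀ x y : G, (fun g => b (cl g)) (x * y) = (fun g => b (cl g)) (y * x) := fun x y => by simp only [hcl1 x y]
    have hz : ∀ (a a' : MonoidAlgebra k G), π a = π a' → ext (fun g => b (cl g)) a = ext (fun g => b (cl g)) a' := by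
      intro a a' h
      have h1 : π (a - a') = 0 := by rw [map_sub, h, sub_self]
      have h2 := hvan b _ (hk _ h1)
      rw [map_sub] at h2
      exact sub_eq_zero.1 h2
    have hE0 : ∀ (i : Fin n) (x y : Fin (d i)), ext (fun g => b (cl g)) (E i x y) = 0 := by
      intro i x y
      set o : Fin (d i) := Fin.ofNat (d i) 0 with ho
      have h1 : π (E i x y) = π (E i x o * E i o y) := by
        rw [map_mul, hE, hE, hE, ← Pi.single_mul]
        congr 1
        rw [Matrix.single_mul_single_same, mul_one]
      rw [hz _ _ h1, ext_comm hcomm]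
      by_cases hxy : y = x
      · subst hxy
        have h2 : π (E i o y * E i y o) = π (E i o o) := by
          rw [map_mul, hE, hE, hE, ← Pi.single_mul]
          congr 1
          rw [Matrix.single_mul_single_same, mul_one]
        rw [hz _ _ h2]
        exact congrFun hb i
      · have h2 : π (E i o y * E i x o) = π 0 := by
          rw [map_mul, hE, hE, ← Pi.single_mul, map_zero]
          rw [Matrix.single_mul_single_of_ne _ _ _ _ hxy, Pi.single_zero]
        rw [hz _ _ h2, map_zero]
    have hall : ∀ a : MonoidAlgebra k G, ext (fun g => b (cl g)) a = 0 := by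
      intro a
      have h1 : π a = π (∑ i : Fin n, ∑ x : Fin (d i), ∑ y : Fin (d i), (π a i x y) • E i x y) := by
        simp only [map_sum, map_smul, hE]
        funext i
        rw [Finset.sum_apply, Finset.sum_eq_single i]
        · simp only [Finset.sum_apply, Pi.smul_apply, Pi.single_eq_same, Matrix.smul_single, smul_eq_mul, mul_one]
          exact Matrix.matrix_eq_sum_single (π a i)
        · intro j _ hj
          simp only [Finset.sum_apply, Pi.smul_apply]
          apply Finset.sum_eq_zero; intro x _
          apply Finset.sum_eq_zero; intro y _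
          rw [Pi.single_eq_of_ne (Ne.symm hj), smul_zero]
        · intro h; exact absurd (Finset.mem_univ _) h
      rw [hz _ _ h1]
      simp only [map_sum, map_smul, hE0, smul_zero, Finset.sum_const_zero]
    funext C
    obtain ⟨g, hg1, hg2⟩ := C.2
    have h1 := hall (single g 1)
    rw [ext_single, one_mul] at h1
    have h2 : cl g = C := by
      apply Subtype.ext
      show ConjClasses.mk (g ^ p ^ e) = C.1
      rw [(hpi g).2.1 g hg2, hg1]
    rw [h2] at h1
    exact h1
  have h9 := LinearMap.finrank_le_finrank_of_injective hT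
  rwa [Module.finrank_fin_fun, Module.finrank_fintype_fun_eq_card, ← Nat.card_eq_fintype_card] at h9

end

end CfsgLib.CR
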