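import Cfsg.Agent.LibCR2
import Cfsg.Agent.LibPFixed

/-! Weights of modular representations of split BN-pairs (Curtis-Richen), abstract part (lead). -/

set_option autoImplicit false

namespace CfsgLib.CR

/-- the data of a split BN-pair of characteristic `p` used below -/
structure Dat (G : Type*) [Group G] (p : ℕ) where
  ι : Type
  U : Subgroup G
  V : Subgroup G
  H : Subgroup G
  N : Subgroup G
  X : ι → Subgroup G
  Y : ι → Subgroup G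
  UU : ι → Subgroup G
  VV : ι → Subgroup G
  n : ι → G
  hh : ι → G → G
  n0 : G
  pU : IsPGroup p U
  pV : IsPGroup p V
  UV : ∀ x ∈ U, x ∈ V → x = 1
  HN : H ≤ N
  nN : ∀ i, n i ∈ N
  HU : ∀ h ∈ H, ∀ u ∈ U, h * u * h⁻¹ ∈ U
  HV : ∀ h ∈ H, ∀ u ∈ V, h * u * h⁻¹ ∈ V
  Hcomm : ∀ a ∈ H, ∀ b ∈ H, a * b = b * a
  Hp : ∀ h ∈ H, (orderOf h).Coprime p
  NH : ∀ m ∈ N, ∀ h ∈ H, m * h * m⁻¹ ∈ H
  XU : ∀ i, X i ≤ U
  YV : ∀ i, Y i ≤ V
  UUU : ∀ i, UU i ≤ U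
  VVV : ∀ i, VV i ≤ V
  nX : ∀ i, ∀ x ∈ X i, n i * x * (n i)⁻¹ ∈ Y i
  nX' : ∀ i, ∀ y ∈ Y i, (n i)⁻¹ * y * n i ∈ X i
  nY : ∀ i, ∀ y ∈ Y i, n i * y * (n i)⁻¹ ∈ X i
  nY' : ∀ i, ∀ x ∈ X i, (n i)⁻¹ * x * n i ∈ Y i
  nUU : ∀ i, ∀ w ∈ UU i, n i * w * (n i)⁻¹ ∈ UU i
  nUU' : ∀ i, ∀ w ∈ UU i, (n i)⁻¹ * w * n i ∈ UU i
  nVV : ∀ i, ∀ w ∈ VV i, n i * w * (n i)⁻¹ ∈ VV i
  facU : ∀ i, ∀ u ∈ U, ∃ x ∈ X i, ∃ w ∈ UU i, u = x * w
  facV : ∀ i, ∀ v ∈ V, ∃ w ∈ VV i, ∃ y ∈ Y i, v = w * y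
  XUU : ∀ i, ∀ x ∈ X i, ∀ w ∈ UU i, x⁻¹ * w * x ∈ UU i
  sq : ∀ i, n i * n i ∈ H
  R2 : ∀ i, ∀ x ∈ X i, x ≠ 1 → hh i x ∈ H ∧ ∃ f ∈ X i, ∃ g ∈ X i, n i * x * (n i)⁻¹ = f * n i * hh i x * g
  dich : ∀ i, ∀ m ∈ N, (∀ x ∈ X i, m⁻¹ * x * m ∈ U) ∧ (∀ y ∈ Y i, m⁻¹ * y * m ∈ V) ∨
    (∀ x ∈ X i, m⁻¹ * x * m ∈ V) ∧ (∀ y ∈ Y i, m⁻¹ * y * m ∈ U)
  facN : ∀ m ∈ N, ∀ u ∈ U, ∃ a ∈ U, m⁻¹ * a * m ∈ V ∧ ∃ b ∈ U, m⁻¹ * b * m ∈ U ∧ u = a * b
  gen : Subgroup.closure ((V : Set G) ∪ H ∪ Set.range n) = ⊤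
  Xne : ∀ i, ∃ x ∈ X i, x ≠ 1
  n0U : ∀ u ∈ U, n0 * u * n0⁻¹ ∈ V
  n0V : ∀ v ∈ V, n0⁻¹ * v * n0 ∈ U

namespace Dat

variable {G : Type*} [Group G] [Fintype G] {p : ℕ} [Fact p.Prime] (D : Dat G p)
variable {k : Type*} [Field k] [CharP k p] {W : Type*} [AddCommGroup W] [Module k W] (ρ : Representation k G W)

/-- fixed by `U` -/
def Fx (m : W) : Prop := ∀ u ∈ D.U, ρ u m = m

open Classical in
/-- the Hecke operators `A_i` -/
noncomputable def A (i : D.ι) (m : W) : W := ∑ x : D.X i, ρ ((x : G) * D.n i) m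

/-- the function on `G ⧸ U` -/
noncomputable def Fm (m : W) (c : G ⧸ D.U) : W := ρ c.out m

variable {D ρ}

theorem Fm_mk {m : W} (hm : D.Fx ρ m) (g : G) : D.Fm ρ m (g : G ⧸ D.U) = ρ g m := by
  unfold Fm
  obtain ⟨u, hu⟩ := QuotientGroup.mk_out_eq_mul D.U g
  rw [hu, map_mul, Module.End.mul_apply, hm u u.2]

open Classical in
/-- Hecke operators -/
noncomputable def S (D : Dat G p) (ρ : Representation k G W) (g : G) (m : W) : W :=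
  ∑ c ∈ (MulAction.orbit D.U (g : G ⧸ D.U)).toFinset, D.Fm ρ m c

theorem mem_orb {g : G} {c : G ⧸ D.U} : c ∈ MulAction.orbit D.U (g : G ⧸ D.U) ↔ ∃ u ∈ D.U, c = ((u * g : G) : G ⧸ D.U) := by
  constructor
  · rintro ⟨u, rfl⟩
    exact ⟨u, u.2, rfl⟩
  · rintro ⟨u, hu, rfl⟩
    exact ⟨⟨u, hu⟩, rfl⟩

theorem S_one {m : W} (hm : D.Fx ρ m) : D.S ρ 1 m = m := by
  classical
  unfold S
  have h : (MulAction.orbit D.U ((1 : G) : G ⧸ D.U)).toFinset = {((1 : G) : G ⧸ D.U)} := by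
    ext c
    rw [Set.mem_toFinset, mem_orb, Finset.mem_singleton]
    constructor
    · rintro ⟨u, hu, rfl⟩
      rw [mul_one]
      exact (QuotientGroup.eq.2 (by rw [inv_one, one_mul]; exact hu)).symm
    · intro h; exact ⟨1, one_mem _, by rw [h, mul_one]⟩
  rw [h, Finset.sum_singleton, Fm_mk hm, map_one, Module.End.one_apply]

theorem Fm_smul {m : W} (hm : D.Fx ρ m) (g : G) (c : G ⧸ D.U) : D.Fm ρ m (g • c) = ρ g (D.Fm ρ m c) := by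
  obtain ⟨x, rfl⟩ := QuotientGroup.mk_surjective c
  rw [show g • (x : G ⧸ D.U) = ((g * x : G) : G ⧸ D.U) from rfl, Fm_mk hm, Fm_mk hm, map_mul, Module.End.mul_apply]

theorem S_fx {m : W} (hm : D.Fx ρ m) (g : G) : D.Fx ρ (D.S ρ g m) := by
  classical
  intro u hu
  unfold S
  rw [map_sum]
  apply Finset.sum_bij (fun c _ => u • c)
  · intro c hc
    rw [Set.mem_toFinset] at hc ⊢
    obtain ⟨v, rfl⟩ := hc
    exact ⟨⟨u, hu⟩ * v, (mul_smul _ _ _)⟩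
  · intro c _ c' _ h
    exact smul_left_cancel _ h
  · intro c hc
    rw [Set.mem_toFinset] at hc
    obtain ⟨v, rfl⟩ := hc
    refine ⟨u⁻¹ • (v • (g : G ⧸ D.U)), ?_, smul_inv_smul _ _⟩
    rw [Set.mem_toFinset]
    exact ⟨⟨u, hu⟩⁻¹ * v, mul_smul _ _ _⟩
  · intro c _
    rw [Fm_smul hm]

theorem A_sum (i : D.ι) {α : Type*} (s : Finset α) (f : α → W) : D.A ρ i (∑ a ∈ s, f a) = ∑ a ∈ s, D.A ρ i (f a) := by
  classical
  unfold A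
  simp only [map_sum]
  rw [Finset.sum_comm]

theorem A_smul (i : D.ι) (c : k) (m : W) : D.A ρ i (c • m) = c • D.A ρ i m := by
  unfold A
  simp only [map_smul, Finset.smul_sum]

/-- the upward step -/
theorem A_S_up {m : W} (hm : D.Fx ρ m) {i : D.ι} {g : G} (hg : g ∈ D.N) (h1 : ∀ x ∈ D.X i, g⁻¹ * x * g ∈ D.U)
    (h2 : ∀ y ∈ D.Y i, g⁻¹ * y * g ∈ D.V) :
    D.A ρ i (D.S ρ g m) = D.S ρ (D.n i * g) m ∧
      Nat.card (MulAction.orbit D.U ((D.n i * g : G) : G ⧸ D.U)) = Nat.card (D.X i) * Nat.card (MulAction.orbit D.U (g : G ⧸ D.U)) := by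
  classical
  -- the bijection
  let φ : D.X i × MulAction.orbit D.U (g : G ⧸ D.U) → G ⧸ D.U := fun z => ((z.1 : G) * D.n i) • (z.2 : G ⧸ D.U)
  have hrep : ∀ c ∈ MulAction.orbit D.U (g : G ⧸ D.U), ∃ w ∈ D.UU i, c = ((w * g : G) : G ⧸ D.U) := by
    intro c hc
    obtain ⟨u, hu, rfl⟩ := mem_orb.1 hc
    obtain ⟨x, hx, w, hw, e⟩ := D.facU i u⁻¹ (inv_mem hu)
    refine ⟨w⁻¹, inv_mem hw, QuotientGroup.eq.2 ?_⟩
    have e2 : u = w⁻¹ * x⁻¹ := by rw [← inv_inv u, e]; group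
    have : (u * g)⁻¹ * (w⁻¹ * g) = g⁻¹ * x * g := by rw [e2]; group
    rw [this]; exact h1 x hx
  have hinj : Function.Injective φ := by
    rintro ⟨⟨x, hx⟩, ⟨c, hc⟩⟩ ⟨⟨x', hx'⟩, ⟨c', hc'⟩⟩ h
    obtain ⟨w, hw, rfl⟩ := hrep c hc
    obtain ⟨w', hw', rfl⟩ := hrep c' hc'
    have h3 : ((x * D.n i * (w * g) : G) : G ⧸ D.U) = ((x' * D.n i * (w' * g) : G) : G ⧸ D.U) := h
    rw [QuotientGroup.eq] at h3
    -- z = x⁻¹ x'
    have hz : x⁻¹ * x' ∈ D.X i := mul_mem (inv_mem hx) hx'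
    set z := x⁻¹ * x' with hzd
    have e1 : (x * D.n i * (w * g))⁻¹ * (x' * D.n i * (w' * g)) =
        g⁻¹ * (w⁻¹ * ((D.n i)⁻¹ * z * D.n i) * w') * g := by rw [hzd]; group
    rw [e1] at h3
    set y := (D.n i)⁻¹ * z * D.n i with hyd
    have hy : y ∈ D.Y i := D.nY' i z hz
    -- move w⁻¹ to the right of y
    have hw'' : y⁻¹ * w⁻¹ * y * w' ∈ D.UU i := by
      have h5 : y⁻¹ * w⁻¹ * y = (D.n i)⁻¹ * (z⁻¹ * (D.n i * w⁻¹ * (D.n i)⁻¹) * z) * D.n i := by rw [hyd]; group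
      rw [h5]
      exact mul_mem (D.nUU' i _ (D.XUU i z hz _ (D.nUU i _ (inv_mem hw)))) hw'
    obtain ⟨a, ha, ha2, b, hb, hb2, e3⟩ := D.facN g hg _ (D.UUU i hw'')
    have e4 : g⁻¹ * (w⁻¹ * y * w') * g = (g⁻¹ * y * g) * (g⁻¹ * a * g) * (g⁻¹ * b * g) := by
      have : w⁻¹ * y * w' = y * (y⁻¹ * w⁻¹ * y * w') := by group
      rw [this, e3]; group
    rw [e4] at h3
    have h6 : (g⁻¹ * y * g) * (g⁻¹ * a * g) ∈ D.U := by
      have := mul_mem h3 (inv_mem hb2)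
      rwa [mul_inv_cancel_right] at this
    have h7 : (g⁻¹ * y * g) * (g⁻¹ * a * g) = 1 := D.UV _ h6 (mul_mem (h2 y hy) ha2)
    have h8 : y = a⁻¹ := by
      have : g⁻¹ * (y * a) * g = 1 := by rw [← h7]; group
      have h9 : y * a = 1 := by
        have : g * (g⁻¹ * (y * a) * g) * g⁻¹ = g * 1 * g⁻¹ := by rw [this]
        rw [mul_one, mul_inv_cancel] at this
        rw [← this]; group
      exact eq_inv_of_mul_eq_one_left h9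
    have h9 : y = 1 := D.UV _ (by rw [h8]; exact inv_mem ha) (D.YV i hy)
    have h10 : z = 1 := by
      have : D.n i * y * (D.n i)⁻¹ = z := by rw [hyd]; group
      rw [← this, h9]; group
    have h11 : x' = x := by
      have : x * z = x' := by rw [hzd]; group
      rw [← this, h10, mul_one]
    subst h11
    congr 1
    apply Subtype.ext
    show ((w * g : G) : G ⧸ D.U) = ((w' * g : G) : G ⧸ D.U)
    rw [QuotientGroup.eq]
    have h12 : ((x' * D.n i * (w * g) : G) : G ⧸ D.U) = ((x' * D.n i * (w' * g) : G) : G ⧸ D.U) := h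
    rw [QuotientGroup.eq] at h12
    have e5 : (x' * D.n i * (w * g))⁻¹ * (x' * D.n i * (w' * g)) = (w * g)⁻¹ * (w' * g) := by group
    rwa [e5] at h12
  have hrange : Set.range φ = MulAction.orbit D.U ((D.n i * g : G) : G ⧸ D.U) := by
    ext c
    constructor
    · rintro ⟨⟨⟨x, hx⟩, ⟨c, hc⟩⟩, rfl⟩
      obtain ⟨w, hw, rfl⟩ := hrep c hc
      rw [mem_orb]
      refine ⟨x * (D.n i * w * (D.n i)⁻¹), mul_mem (D.XU i hx) (D.UUU i (D.nUU i w hw)), ?_⟩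
      show ((x * D.n i * (w * g) : G) : G ⧸ D.U) = _
      congr 1; group
    · intro hc
      obtain ⟨u, hu, rfl⟩ := mem_orb.1 hc
      obtain ⟨x, hx, w, hw, rfl⟩ := D.facU i u hu
      have hw' := D.nUU' i w hw
      refine ⟨⟨⟨x, hx⟩, ⟨(((D.n i)⁻¹ * w * D.n i * g : G) : G ⧸ D.U), mem_orb.2 ⟨_, D.UUU i hw', rfl⟩⟩⟩, ?_⟩
      show ((x * D.n i * ((D.n i)⁻¹ * w * D.n i * g) : G) : G ⧸ D.U) = _
      congr 1; group
  let e : D.X i × MulAction.orbit D.U (g : G ⧸ D.U) ≃ MulAction.orbit D.U ((D.n i * g : G) : G ⧸ D.U) :=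
    (Equiv.ofInjective φ hinj).trans (Equiv.setCongr hrange)
  constructor
  · have l1 : D.S ρ (D.n i * g) m = ∑ c : MulAction.orbit D.U ((D.n i * g : G) : G ⧸ D.U), D.Fm ρ m c := by
      unfold S
      rw [← Finset.sum_coe_sort]
      exact Fintype.sum_equiv (Equiv.subtypeEquivRight (fun c => Set.mem_toFinset)) _ _ (fun _ => rfl)
    have l2 : D.S ρ g m = ∑ c : MulAction.orbit D.U (g : G ⧸ D.U), D.Fm ρ m c := by
      unfold S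
      rw [← Finset.sum_coe_sort]
      exact Fintype.sum_equiv (Equiv.subtypeEquivRight (fun c => Set.mem_toFinset)) _ _ (fun _ => rfl)
    rw [l1, l2, ← e.sum_comp, Fintype.sum_prod_type]
    unfold A
    apply Finset.sum_congr rfl
    intro x _
    rw [map_sum]
    apply Finset.sum_congr rfl
    intro c _
    rw [← Fm_smul hm]
    rfl
  · rw [← Nat.card_congr e, Nat.card_prod]

end Dat

end CfsgLib.CR
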