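import Cfsg.Agent.LibCR3

/-! Existence of weight vectors (lead). -/

set_option autoImplicit false

namespace CfsgLib.CR

section eig
variable {k : Type*} [Field k] [IsAlgClosed k] {W : Type*} [AddCommGroup W] [Module k W] [FiniteDimensional k W]

/-- commuting endomorphisms have a common eigenvector in each nonzero invariant subspace -/
theorem common_eig {ι : Type*} (f : ι → Module.End k W) (hc : ∀ i j, f i * f j = f j * f i) :
    ∀ (r : ℕ) (S : Submodule k W), Module.finrank k S = r → S ≠ ⊥ → (∀ i, ∀ v ∈ S, f i v ∈ S) →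
      ∃ v ∈ S, v ≠ 0 ∧ ∀ i, ∃ c : k, f i v = c • v := by
  intro r
  induction r using Nat.strong_induction_on with
  | _ r ih =>
    intro S hr hS hf
    by_cases h : ∀ i, ∃ c : k, ∀ v ∈ S, f i v = c • v
    · obtain ⟨v, hv, hv0⟩ := Submodule.exists_mem_ne_zero_of_ne_bot hS
      exact ⟨v, hv, hv0, fun i => (h i).imp (fun c hc => hc v hv)⟩
    · push Not at h
      obtain ⟨i, hi⟩ := h
      have : Nontrivial S := Submodule.nontrivial_iff_ne_bot.2 hS
      let g : Module.End k S := (f i).restrict (hf i)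
      obtain ⟨c, hc1⟩ := Module.End.exists_eigenvalue g
      obtain ⟨w, hw⟩ := hc1.exists_hasEigenvector
      have hw1 : f i w = c • (w : W) := congrArg Subtype.val hw.apply_eq_smul
      let S' : Submodule k W := S ⊓ LinearMap.ker (f i - algebraMap k (Module.End k W) c)
      have hmem : ∀ v, v ∈ S' ↔ v ∈ S ∧ f i v = c • v := by
        intro v
        rw [Submodule.mem_inf, LinearMap.mem_ker, LinearMap.sub_apply, sub_eq_zero]
        rfl
      have hS' : S' ≠ ⊥ := by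
        intro h0
        have : (w : W) ∈ S' := (hmem w).2 ⟨w.2, hw1⟩
        rw [h0, Submodule.mem_bot] at this
        exact hw.2 (Subtype.ext this)
      have hlt : S' < S := by
        refine lt_of_le_of_ne inf_le_left ?_
        intro h0
        obtain ⟨v, hv, hv2⟩ := hi c
        exact hv2 ((hmem v).1 (by rw [h0]; exact hv)).2
      have h1 := Submodule.finrank_lt_finrank_of_lt hlt
      obtain ⟨v, hv, hv0, hv1⟩ := ih (Module.finrank k S') (by omega) S' rfl hS' (by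
        intro j v hv
        rw [hmem] at hv ⊢
        refine ⟨hf j v hv.1, ?_⟩
        have := LinearMap.congr_fun (hc i j) v
        simp only [Module.End.mul_apply] at this
        rw [this, hv.2, map_smul])
      exact ⟨v, ((hmem v).1 hv).1, hv0, hv1⟩

end eig

namespace Dat

variable {G : Type*} [Group G] [Fintype G] {p : ℕ} [Fact p.Prime] {D : Dat G p}
variable {k : Type*} [Field k] [CharP k p] {W : Type*} [AddCommGroup W] [Module k W] {ρ : Representation k G W}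

open Classical in
/-- the scalar of `A_i ^ 2 = c_i A_i` -/
noncomputable def cc (D : Dat G p) (i : D.ι) (χ : G → k) : k := ∑ x : D.X i, if x = 1 then 0 else χ (D.hh i x * (D.n i * D.n i))

theorem card_X (i : D.ι) : p ∣ Nat.card (D.X i) := by
  have hX : IsPGroup p (D.X i) := D.pU.to_le (D.XU i)
  obtain ⟨m, hm⟩ := (IsPGroup.iff_card).1 hX
  rw [hm]
  apply dvd_pow_self
  rintro rfl
  rw [pow_zero] at hm
  obtain ⟨x, hx, hx1⟩ := D.Xne i
  have := (Nat.card_eq_one_iff_unique.1 hm).1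
  exact hx1 (congrArg Subtype.val (Subsingleton.elim (⟨x, hx⟩ : D.X i) 1))

theorem A_sq {m : W} (hm : D.Fx ρ m) {χ : G → k} (hχ : ∀ h ∈ D.H, ρ h m = χ h • m) (i : D.ι) :
    D.A ρ i (D.A ρ i m) = D.cc i χ • D.A ρ i m := by
  classical
  have h1 : D.A ρ i (D.A ρ i m) = ∑ x' : D.X i, ∑ x : D.X i, ρ ((x : G) * D.n i * ((x' : G) * D.n i)) m := by
    conv_lhs => unfold A
    simp only [map_sum]
    rw [Finset.sum_comm]
    refine Finset.sum_congr rfl (fun x _ => Finset.sum_congr rfl (fun x' _ => ?_))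
    rw [← Module.End.mul_apply, ← map_mul]
  rw [h1]
  unfold cc
  rw [Finset.sum_smul]
  apply Finset.sum_congr rfl
  intro x' _
  split_ifs with hx
  · rw [zero_smul, hx]
    have h2 : ∀ x : D.X i, ρ ((x : G) * D.n i * (((1 : D.X i) : G) * D.n i)) m = χ (D.n i * D.n i) • m := by
      intro x
      have : (x : G) * D.n i * (((1 : D.X i) : G) * D.n i) = x * (D.n i * D.n i) := by
        rw [OneMemClass.coe_one]; group
      rw [this, map_mul, Module.End.mul_apply, hχ _ (D.sq i), map_smul, hm _ (D.XU i x.2)]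
    simp only [h2]
    rw [Finset.sum_const, Finset.card_univ, ← Nat.card_eq_fintype_card, ← Nat.cast_smul_eq_nsmul k]
    obtain ⟨c, hc⟩ := card_X (D := D) i
    rw [hc, Nat.cast_mul, CharP.cast_eq_zero, zero_mul, zero_smul]
  · have hx1 : (x' : G) ≠ 1 := fun h => hx (Subtype.ext h)
    obtain ⟨hh1, f, hf, g, hg, e⟩ := D.R2 i x' x'.2 hx1
    have h2 : ∀ x : D.X i, ρ ((x : G) * D.n i * ((x' : G) * D.n i)) m =
        χ (D.hh i x' * (D.n i * D.n i)) • ρ (((x * ⟨f, hf⟩ : D.X i) : G) * D.n i) m := by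
      intro x
      have e2 : (x : G) * D.n i * ((x' : G) * D.n i) = ((x : G) * f) * D.n i * (D.hh i x') * g * (D.n i * D.n i) := by
        have : (x : G) * D.n i * ((x' : G) * D.n i) = x * (D.n i * x' * (D.n i)⁻¹) * (D.n i * D.n i) := by group
        rw [this, e]; group
      rw [e2, map_mul, Module.End.mul_apply, hχ _ (D.sq i), map_smul, map_mul, Module.End.mul_apply, hm _ (D.XU i hg),
        ← map_smul, ← hχ _ (D.sq i), ← Module.End.mul_apply, ← map_mul]
      have e3 : (x : G) * f * D.n i * D.hh i x' * (D.n i * D.n i) = ((x : G) * f * D.n i) * (D.hh i x' * (D.n i * D.n i)) := by group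
      rw [e3, map_mul, Module.End.mul_apply, hχ _ (mul_mem hh1 (D.sq i)), map_smul]
      rfl
    simp only [h2]
    rw [← Finset.smul_sum]
    congr 1
    unfold A
    exact Fintype.sum_equiv (Equiv.mulRight (⟨f, hf⟩ : D.X i)) _ _ (fun x => rfl)

/-- `H` acts on `S_g m` -/
theorem S_H {m : W} (hm : D.Fx ρ m) {χ : G → k} (hχ : ∀ h ∈ D.H, ρ h m = χ h • m) {g : G} (hg : g ∈ D.N) {h : G} (hh : h ∈ D.H) :
    ρ h (D.S ρ g m) = χ (g⁻¹ * h * g) • D.S ρ g m := by
  classical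
  have hc : g⁻¹ * h * g ∈ D.H := by
    have := D.NH g⁻¹ (inv_mem hg) h hh
    rwa [inv_inv] at this
  unfold S
  rw [map_sum, Finset.smul_sum]
  -- reindex by conjugation by h
  have hh' : h⁻¹ ∈ D.H := inv_mem hh
  let ψ : G ⧸ D.U → G ⧸ D.U := Quotient.map' (fun x => h * x * (g⁻¹ * h * g)⁻¹) (by
    intro x y hxy
    rw [QuotientGroup.leftRel_apply] at hxy ⊢
    have e : (h * x * (g⁻¹ * h * g)⁻¹)⁻¹ * (h * y * (g⁻¹ * h * g)⁻¹) = (g⁻¹ * h * g) * (x⁻¹ * y) * (g⁻¹ * h * g)⁻¹ := by group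
    rw [e]; exact D.HU _ hc _ hxy)
  let ψ' : G ⧸ D.U → G ⧸ D.U := Quotient.map' (fun x => h⁻¹ * x * (g⁻¹ * h * g)) (by
    intro x y hxy
    rw [QuotientGroup.leftRel_apply] at hxy ⊢
    have e : (h⁻¹ * x * (g⁻¹ * h * g))⁻¹ * (h⁻¹ * y * (g⁻¹ * h * g)) = (g⁻¹ * h * g)⁻¹ * (x⁻¹ * y) * ((g⁻¹ * h * g)⁻¹)⁻¹ := by group
    rw [e]; exact D.HU _ (inv_mem hc) _ hxy)
  have hψ : ∀ x : G, ψ (x : G ⧸ D.U) = ((h * x * (g⁻¹ * h * g)⁻¹ : G) : G ⧸ D.U) := fun x => rfl
  have hψ' : ∀ x : G, ψ' (x : G ⧸ D.U) = ((h⁻¹ * x * (g⁻¹ * h * g) : G) : G ⧸ D.U) := fun x => rfl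
  apply Finset.sum_bij (fun c _ => ψ c)
  · intro c hc2
    rw [Set.mem_toFinset] at hc2 ⊢
    obtain ⟨u, hu, rfl⟩ := mem_orb.1 hc2
    rw [hψ, mem_orb]
    refine ⟨h * u * h⁻¹, D.HU _ hh _ hu, ?_⟩
    congr 1; group
  · intro c _ c' _ e
    obtain ⟨x, rfl⟩ := QuotientGroup.mk_surjective c
    obtain ⟨y, rfl⟩ := QuotientGroup.mk_surjective c'
    have := congrArg ψ' e
    rw [hψ, hψ, hψ', hψ'] at this
    have e1 : ∀ z : G, h⁻¹ * (h * z * (g⁻¹ * h * g)⁻¹) * (g⁻¹ * h * g) = z := fun z => by group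
    rwa [e1, e1] at this
  · intro c hc2
    rw [Set.mem_toFinset] at hc2
    obtain ⟨u, hu, rfl⟩ := mem_orb.1 hc2
    refine ⟨((h⁻¹ * (u * g) * (g⁻¹ * h * g) : G) : G ⧸ D.U), ?_, ?_⟩
    · rw [Set.mem_toFinset, mem_orb]
      refine ⟨h⁻¹ * u * (h⁻¹)⁻¹, D.HU _ hh' _ hu, ?_⟩
      congr 1; group
    · rw [hψ]
      congr 1; group
  · intro c _
    obtain ⟨x, rfl⟩ := QuotientGroup.mk_surjective c
    rw [hψ, Fm_mk hm, Fm_mk hm, ← map_smul, ← hχ _ hc, ← Module.End.mul_apply, ← Module.End.mul_apply, ← map_mul, ← map_mul]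
    congr 2
    group

/-- weight vectors -/
structure IsW (D : Dat G p) (ρ : Representation k G W) (m : W) (χ : G → k) (μ : D.ι → k) : Prop where
  ne : m ≠ 0
  fx : D.Fx ρ m
  hH : ∀ h ∈ D.H, ρ h m = χ h • m
  hA : ∀ i, D.A ρ i m = μ i • m

theorem IsW.mu {m : W} {χ : G → k} {μ : D.ι → k} (h : D.IsW ρ m χ μ) (i : D.ι) : μ i = 0 ∨ μ i = D.cc i χ := by
  have h1 := A_sq h.fx h.hH i
  rw [h.hA, A_smul, h.hA, smul_smul, smul_smul] at h1
  have h2 : μ i * μ i = D.cc i χ * μ i := by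
    by_contra hne
    have h3 : (μ i * μ i - D.cc i χ * μ i) • m = 0 := by rw [sub_smul, h1, sub_self]
    exact h.ne ((smul_eq_zero.1 h3).resolve_left (sub_ne_zero.2 hne))
  by_cases h0 : μ i = 0
  · exact Or.inl h0
  · exact Or.inr (mul_right_cancel₀ h0 h2)

theorem exists_fx [Nontrivial W] : ∃ m : W, m ≠ 0 ∧ D.Fx ρ m := by
  let inst : DistribMulAction D.U W :=
    { smul := fun u m => ρ (u : G) m
      one_smul := fun m => by show ρ ((1 : D.U) : G) m = m; rw [OneMemClass.coe_one, map_one]; rfl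
      mul_smul := fun a b m => by show ρ ((a * b : D.U) : G) m = ρ a (ρ b m); rw [Subgroup.coe_mul, map_mul]; rfl
      smul_zero := fun a => map_zero _
      smul_add := fun a x y => map_add _ _ _ }
  obtain ⟨w, _, hw, h⟩ := CfsgLib.PFixed.exists_fixed (P := D.U) (V := W) (p := p) D.pU
    (fun v => by rw [← Nat.cast_smul_eq_nsmul k, CharP.cast_eq_zero, zero_smul]) ⊤ (fun _ _ _ => AddSubgroup.mem_top _)
    (by
      intro h
      obtain ⟨x, hx⟩ := exists_ne (0 : W)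
      have : x ∈ (⊤ : AddSubgroup W) := AddSubgroup.mem_top x
      rw [h, AddSubgroup.mem_bot] at this
      exact hx this)
  exact ⟨w, hw, fun u hu => h ⟨u, hu⟩⟩

/-- every nonzero representation has a weight vector -/
theorem exists_isW [IsAlgClosed k] [FiniteDimensional k W] [Nontrivial W] :
    ∃ (m : W) (χ : G → k) (μ : D.ι → k), D.IsW ρ m χ μ := by
  classical
  -- common eigenvector for H in the fixed points of U
  let S0 : Submodule k W :=
    { carrier := {m | D.Fx ρ m}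
      add_mem' := fun ha hb u hu => by rw [map_add, ha u hu, hb u hu]
      zero_mem' := fun u _ => map_zero _
      smul_mem' := fun c x hx u hu => by rw [map_smul, hx u hu] }
  obtain ⟨m0, hm0, hf0⟩ := exists_fx (D := D) (ρ := ρ)
  obtain ⟨m, hm, hmne, hmH⟩ := common_eig (fun h : D.H => (ρ (h : G) : Module.End k W)) (fun a b => by
      rw [← map_mul, ← map_mul, D.Hcomm a a.2 b b.2]) _ S0 rfl (by
      intro h
      have : m0 ∈ S0 := hf0
      rw [h, Submodule.mem_bot] at this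
      exact hm0 this) (by
      intro h v hv u hu
      have h1 : (h : G)⁻¹ * u * ((h : G)⁻¹)⁻¹ ∈ D.U := D.HU _ (inv_mem h.2) _ hu
      have h2 := hv _ h1
      have e : u * (h : G) = h * ((h : G)⁻¹ * u * ((h : G)⁻¹)⁻¹) := by group
      show ρ u (ρ (h : G) v) = ρ (h : G) v
      rw [← Module.End.mul_apply, ← map_mul, e, map_mul, Module.End.mul_apply, h2])
  choose χ0 hχ0 using hmH
  let χ : G → k := fun g => if h : g ∈ D.H then χ0 ⟨g, h⟩ else 0
  have hχ : ∀ h ∈ D.H, ρ h m = χ h • m := by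
    intro h hh
    have : χ h = χ0 ⟨h, hh⟩ := dif_pos hh
    rw [this]; exact hχ0 ⟨h, hh⟩
  have hmf : D.Fx ρ m := hm
  -- maximal orbit
  let P : Set G := {g | g ∈ D.N ∧ D.S ρ g m ≠ 0}
  have hP : P.Nonempty := ⟨1, one_mem _, by rw [S_one hmf]; exact hmne⟩
  obtain ⟨g, ⟨hgN, hg0⟩, hgmax⟩ := Set.exists_max_image P (fun g => Nat.card (MulAction.orbit D.U (g : G ⧸ D.U))) (Set.toFinite P) hP
  refine ⟨D.S ρ g m, fun h => χ (g⁻¹ * h * g),
    fun i => if (∀ x ∈ D.X i, g⁻¹ * x * g ∈ D.U) ∧ (∀ y ∈ D.Y i, g⁻¹ * y * g ∈ D.V) then 0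
      else D.cc i (fun h => χ (((D.n i)⁻¹ * g)⁻¹ * h * ((D.n i)⁻¹ * g))), hg0, S_fx hmf g, fun h hh => S_H hmf hχ hgN hh, ?_⟩
  intro i
  rcases D.dich i g hgN with ⟨h1, h2⟩ | ⟨h1, h2⟩
  · rw [if_pos ⟨h1, h2⟩, zero_smul]
    obtain ⟨e1, e2⟩ := A_S_up hmf hgN h1 h2
    rw [e1]
    by_contra hne
    have h3 := hgmax (D.n i * g) ⟨mul_mem (D.nN i) hgN, hne⟩
    rw [e2] at h3
    have h4 : 0 < Nat.card (MulAction.orbit D.U (g : G ⧸ D.U)) := by
      have : Nonempty (MulAction.orbit D.U (g : G ⧸ D.U)) := ⟨⟨_, MulAction.mem_orbit_self _⟩⟩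
      exact Nat.card_pos
    have h5 : 2 ≤ Nat.card (D.X i) := le_trans (Fact.out : p.Prime).two_le (Nat.le_of_dvd Nat.card_pos (card_X i))
    nlinarith
  · set g' := (D.n i)⁻¹ * g with hg'
    have hg'N : g' ∈ D.N := mul_mem (inv_mem (D.nN i)) hgN
    have h3 : ∀ x ∈ D.X i, g'⁻¹ * x * g' ∈ D.U := by
      intro x hx
      have : g'⁻¹ * x * g' = g⁻¹ * (D.n i * x * (D.n i)⁻¹) * g := by rw [hg']; group
      rw [this]; exact h2 _ (D.nX i x hx)
    have h4 : ∀ y ∈ D.Y i, g'⁻¹ * y * g' ∈ D.V := by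
      intro y hy
      have : g'⁻¹ * y * g' = g⁻¹ * (D.n i * y * (D.n i)⁻¹) * g := by rw [hg']; group
      rw [this]; exact h1 _ (D.nY i y hy)
    have h5 : ¬ ((∀ x ∈ D.X i, g⁻¹ * x * g ∈ D.U) ∧ (∀ y ∈ D.Y i, g⁻¹ * y * g ∈ D.V)) := by
      rintro ⟨h6, _⟩
      obtain ⟨x, hx, hx1⟩ := D.Xne i
      have h7 : g⁻¹ * x * g = 1 := D.UV _ (h6 x hx) (h1 x hx)
      apply hx1
      have : g * (g⁻¹ * x * g) * g⁻¹ = x := by group
      rw [← this, h7]; group
    rw [if_neg h5]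
    obtain ⟨e1, e2⟩ := A_S_up hmf hg'N h3 h4
    have e3 : D.n i * g' = g := by rw [hg']; group
    rw [e3] at e1
    rw [← e1]
    exact A_sq (S_fx hmf g') (fun h hh => S_H hmf hχ hg'N hh) i

end Dat

end CfsgLib.CR
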