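import Cfsg.Agent.LibCR4

/-! Uniqueness of weights (lead). -/

set_option autoImplicit false

namespace CfsgLib.CR
namespace Dat

variable {G : Type*} [Group G] [Fintype G] {p : ℕ} [Fact p.Prime] {D : Dat G p}
variable {k : Type*} [Field k] [CharP k p] {W : Type*} [AddCommGroup W] [Module k W] {ρ : Representation k G W}

theorem exists_dual {k W : Type*} [Field k] [AddCommGroup W] [Module k W] {v : W} (hv : v ≠ 0) : ∃ f : Module.Dual k W, f v = 1 := by
  by_contra h
  push Not at h
  apply hv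
  rw [← Module.forall_dual_apply_eq_zero_iff k]
  intro f
  by_contra h0
  apply h ((f v)⁻¹ • f)
  rw [LinearMap.smul_apply, smul_eq_mul, inv_mul_cancel₀ h0]

/-- the span of the `V`-orbit -/
def sp (D : Dat G p) (ρ : Representation k G W) (m : W) : Submodule k W := Submodule.span k (Set.range fun v : D.V => ρ (v : G) m)

omit [Fintype G] [CharP k p] [Fact p.Prime] in
theorem mem_sp_V {m : W} {v : G} (hv : v ∈ D.V) : ρ v m ∈ D.sp ρ m := Submodule.subset_span ⟨⟨v, hv⟩, rfl⟩

omit [Fintype G] [CharP k p] [Fact p.Prime] in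
theorem sp_V {m : W} {v : G} (hv : v ∈ D.V) {w : W} (hw : w ∈ D.sp ρ m) : ρ v w ∈ D.sp ρ m := by
  unfold sp at hw
  induction hw using Submodule.span_induction with
  | mem x hx =>
    obtain ⟨a, rfl⟩ := hx
    simp only
    rw [← Module.End.mul_apply, ← map_mul]
    exact mem_sp_V (mul_mem hv a.2)
  | zero => rw [map_zero]; exact zero_mem _
  | add x y _ _ hx hy => rw [map_add]; exact add_mem hx hy
  | smul c x _ hx => rw [map_smul]; exact Submodule.smul_mem _ _ hx

theorem sp_H {m : W} {χ : G → k} {μ : D.ι → k} (h : D.IsW ρ m χ μ) {t : G} (ht : t ∈ D.H) {w : W} (hw : w ∈ D.sp ρ m) :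
    ρ t w ∈ D.sp ρ m := by
  unfold sp at hw
  induction hw using Submodule.span_induction with
  | mem x hx =>
    obtain ⟨a, rfl⟩ := hx
    simp only
    rw [← Module.End.mul_apply, ← map_mul]
    have e : t * (a : G) = (t * a * t⁻¹) * t := by group
    rw [e, map_mul, Module.End.mul_apply, h.hH t ht, map_smul]
    exact Submodule.smul_mem _ _ (mem_sp_V (D.HV t ht a a.2))
  | zero => rw [map_zero]; exact zero_mem _
  | add x y _ _ hx hy => rw [map_add]; exact add_mem hx hy
  | smul c x _ hx => rw [map_smul]; exact Submodule.smul_mem _ _ hx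

theorem sp_n_aux {m : W} {χ : G → k} {μ : D.ι → k} (h : D.IsW ρ m χ μ) (i : D.ι) {x : G} (hx : x ∈ D.X i) (hx1 : x ≠ 1) :
    ρ (x * D.n i) m ∈ D.sp ρ m := by
  -- x = n y n⁻¹ with y ∈ Y, write via R2
  set x' := (D.n i)⁻¹ * ((D.n i)⁻¹ * x * D.n i) * D.n i with hx'
  have hx'X : x' ∈ D.X i := D.nX' i _ (D.nY' i x hx)
  have hx'1 : x' ≠ 1 := by
    intro h0
    apply hx1
    have : x = D.n i * (D.n i * x' * (D.n i)⁻¹) * (D.n i)⁻¹ := by rw [hx']; group
    rw [this, h0]; group
  obtain ⟨hh1, f, hf, g, hg, e⟩ := D.R2 i x' hx'X hx'1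
  have e1 : x = (D.n i * f * (D.n i)⁻¹) * (D.n i * (D.n i * D.hh i x') * g * (D.n i)⁻¹) := by
    have : x = D.n i * (D.n i * x' * (D.n i)⁻¹) * (D.n i)⁻¹ := by rw [hx']; group
    rw [this, e]; group
  have e2 : x * D.n i = (D.n i * f * (D.n i)⁻¹) * ((D.n i * (D.n i * D.hh i x') * g)) := by
    conv_lhs => rw [e1]
    group
  have e3 : D.n i * (D.n i * D.hh i x') * g = (D.n i * D.n i) * D.hh i x' * g := by group
  rw [e2, e3, map_mul, Module.End.mul_apply]
  apply sp_V (D.YV i (D.nX i f hf))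
  rw [map_mul, Module.End.mul_apply, h.fx _ (D.XU i hg), h.hH _ (mul_mem (D.sq i) hh1)]
  refine Submodule.smul_mem _ _ ?_
  have := mem_sp_V (D := D) (ρ := ρ) (m := m) (one_mem D.V)
  rwa [map_one] at this

theorem sp_n {m : W} {χ : G → k} {μ : D.ι → k} (h : D.IsW ρ m χ μ) (i : D.ι) {w : W} (hw : w ∈ D.sp ρ m) :
    ρ (D.n i) w ∈ D.sp ρ m := by
  classical
  have hm : m ∈ D.sp ρ m := by
    have := mem_sp_V (D := D) (ρ := ρ) (m := m) (one_mem D.V)
    rwa [map_one] at this
  unfold sp at hw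
  induction hw using Submodule.span_induction with
  | mem x hx =>
    obtain ⟨⟨a, ha⟩, rfl⟩ := hx
    simp only
    obtain ⟨w, hw, y, hy, rfl⟩ := D.facV i a ha
    rw [← Module.End.mul_apply, ← map_mul]
    have e : D.n i * (w * y) = (D.n i * w * (D.n i)⁻¹) * (D.n i * y) := by group
    rw [e, map_mul, Module.End.mul_apply]
    apply sp_V (D.VVV i (D.nVV i w hw))
    by_cases hy1 : y = 1
    · subst hy1
      rw [mul_one]
      have hA := h.hA i
      unfold A at hA
      rw [← Finset.add_sum_erase _ _ (Finset.mem_univ (1 : D.X i))] at hA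
      simp only [OneMemClass.coe_one, one_mul] at hA
      have : ρ (D.n i) m = μ i • m - ∑ x ∈ Finset.univ.erase (1 : D.X i), ρ ((x : G) * D.n i) m := by
        rw [← hA]; abel
      rw [this]
      apply sub_mem (Submodule.smul_mem _ _ hm)
      apply sum_mem
      intro x hx
      exact sp_n_aux h i x.2 (fun h0 => (Finset.mem_erase.1 hx).1 (Subtype.ext h0))
    · have e2 : D.n i * y = (D.n i * y * (D.n i)⁻¹) * D.n i := by group
      rw [e2]
      apply sp_n_aux h i (D.nY i y hy)
      intro h0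
      apply hy1
      have : (D.n i)⁻¹ * (D.n i * y * (D.n i)⁻¹) * D.n i = y := by group
      rw [← this, h0]; group
  | zero => rw [map_zero]; exact zero_mem _
  | add x y _ _ hx hy => rw [map_add]; exact add_mem hx hy
  | smul c x _ hx => rw [map_smul]; exact Submodule.smul_mem _ _ hx

theorem sp_G {m : W} {χ : G → k} {μ : D.ι → k} (h : D.IsW ρ m χ μ) (g : G) : ∀ w ∈ D.sp ρ m, ρ g w ∈ D.sp ρ m := by
  have hg : g ∈ Subgroup.closure ((D.V : Set G) ∪ D.H ∪ Set.range D.n) := by rw [D.gen]; trivial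
  induction hg using Subgroup.closure_induction with
  | mem x hx =>
    intro w hw
    rcases hx with (hx | hx) | ⟨i, rfl⟩
    · exact sp_V hx hw
    · exact sp_H h hx hw
    · exact sp_n h i hw
  | one => intro w hw; rw [map_one]; exact hw
  | mul x y _ _ hx hy => intro w hw; rw [map_mul]; exact hx _ (hy w hw)
  | inv x _ hx =>
    intro w hw
    have h1 : ∀ j : ℕ, ρ (x ^ j) w ∈ D.sp ρ m := by
      intro j
      induction j with
      | zero => rw [pow_zero, map_one]; exact hw
      | succ j ih => rw [pow_succ', map_mul]; exact hx _ ih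
    have h2 : x⁻¹ = x ^ (orderOf x - 1) := by
      rw [eq_comm, ← mul_eq_one_iff_eq_inv, ← pow_succ, Nat.sub_add_cancel (orderOf_pos x), pow_orderOf_eq_one]
    rw [h2]; exact h1 _

theorem span_le_sp {m : W} {χ : G → k} {μ : D.ι → k} (h : D.IsW ρ m χ μ) :
    Submodule.span k (Set.range fun g : G => ρ g m) ≤ D.sp ρ m := by
  rw [Submodule.span_le]
  rintro _ ⟨g, rfl⟩
  apply sp_G h g
  have := mem_sp_V (D := D) (ρ := ρ) (m := m) (one_mem D.V)
  rwa [map_one] at this

/-- absolute irreducibility -/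
def AI (ρ : Representation k G W) : Prop := Submodule.span k (Set.range (fun g : G => (ρ g : Module.End k W))) = ⊤

omit [Fintype G] [CharP k p] [Fact p.Prime] in
theorem AI.span {ρ : Representation k G W} (h : AI ρ) {m : W} (hm : m ≠ 0) : Submodule.span k (Set.range fun g : G => ρ g m) = ⊤ := by
  rw [eq_top_iff]
  intro w _
  obtain ⟨f, hf⟩ := exists_dual (k := k) hm
  -- T = w ⊗ f
  let T : Module.End k W := f.smulRight w
  have hT : T ∈ Submodule.span k (Set.range (fun g : G => (ρ g : Module.End k W))) := by rw [h]; trivial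
  have h1 : ∀ T ∈ Submodule.span k (Set.range (fun g : G => (ρ g : Module.End k W))), T m ∈ Submodule.span k (Set.range fun g : G => ρ g m) := by
    intro T hT
    induction hT using Submodule.span_induction with
    | mem x hx => obtain ⟨g, rfl⟩ := hx; exact Submodule.subset_span ⟨g, rfl⟩
    | zero => exact zero_mem _
    | add x y _ _ hx hy => exact add_mem hx hy
    | smul c x _ hx => exact Submodule.smul_mem _ _ hx
  have h2 := h1 T hT
  have h3 : T m = w := by
    show f m • w = w
    rw [hf, one_smul]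
  rwa [h3] at h2

omit [Fintype G] [CharP k p] [Fact p.Prime] in
theorem AI.dual [FiniteDimensional k W] {ρ : Representation k G W} (h : AI ρ) {f : Module.Dual k W} (hf : f ≠ 0) :
    Submodule.span k (Set.range fun g : G => ρ.dual g f) = ⊤ := by
  rw [eq_top_iff]
  intro f' _
  obtain ⟨v, hv⟩ : ∃ v, f v ≠ 0 := by
    by_contra h0
    push Not at h0
    exact hf (LinearMap.ext h0)
  let T : Module.End k W := f'.smulRight ((f v)⁻¹ • v)
  have hT : T ∈ Submodule.span k (Set.range (fun g : G => (ρ g : Module.End k W))) := by rw [h]; trivial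
  have h1 : ∀ T ∈ Submodule.span k (Set.range (fun g : G => (ρ g : Module.End k W))), f ∘ₗ T ∈ Submodule.span k (Set.range fun g : G => ρ.dual g f) := by
    intro T hT
    induction hT using Submodule.span_induction with
    | mem x hx =>
      obtain ⟨g, rfl⟩ := hx
      apply Submodule.subset_span
      refine ⟨g⁻¹, ?_⟩
      ext w
      show f (ρ g⁻¹⁻¹ w) = f (ρ g w)
      rw [inv_inv]
    | zero => rw [LinearMap.comp_zero]; exact zero_mem _
    | add x y _ _ hx hy => rw [LinearMap.comp_add]; exact add_mem hx hy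
    | smul c x _ hx => rw [LinearMap.comp_smul]; exact Submodule.smul_mem _ _ hx
  have h2 := h1 T hT
  have h3 : f ∘ₗ T = f' := by
    ext w
    show f (f' w • ((f v)⁻¹ • v)) = f' w
    rw [map_smul, map_smul, smul_eq_mul, smul_eq_mul, inv_mul_cancel₀ hv, mul_one]
  rwa [h3] at h2

/-- a `V`-fixed nonzero functional exists -/
theorem exists_fun [Nontrivial W] : ∃ f : Module.Dual k W, f ≠ 0 ∧ ∀ v ∈ D.V, ∀ w, f (ρ v w) = f w := by
  let inst : DistribMulAction D.V (Module.Dual k W) :=
    { smul := fun u m => ρ.dual (u : G) m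
      one_smul := fun m => by show ρ.dual ((1 : D.V) : G) m = m; rw [OneMemClass.coe_one, map_one]; rfl
      mul_smul := fun a b m => by show ρ.dual ((a * b : D.V) : G) m = ρ.dual a (ρ.dual b m); rw [Subgroup.coe_mul, map_mul]; rfl
      smul_zero := fun a => map_zero _
      smul_add := fun a x y => map_add _ _ _ }
  obtain ⟨w, _, hw, h⟩ := CfsgLib.PFixed.exists_fixed (P := D.V) (V := Module.Dual k W) (p := p) D.pV
    (fun v => by rw [← Nat.cast_smul_eq_nsmul k, CharP.cast_eq_zero, zero_smul]) ⊤ (fun _ _ _ => AddSubgroup.mem_top _)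
    (by
      intro h
      obtain ⟨x, hx⟩ := exists_ne (0 : W)
      obtain ⟨f, hf⟩ := exists_dual (k := k) hx
      have : f ∈ (⊤ : AddSubgroup (Module.Dual k W)) := AddSubgroup.mem_top f
      rw [h, AddSubgroup.mem_bot] at this
      rw [this] at hf
      exact zero_ne_one hf)
  refine ⟨w, hw, fun v hv x => ?_⟩
  have h1 : ρ.dual (v⁻¹) w = w := h ⟨v⁻¹, inv_mem hv⟩
  conv_rhs => rw [← h1]
  show w (ρ v x) = w (ρ v⁻¹⁻¹ x)
  rw [inv_inv]

omit [Fintype G] [CharP k p] [Fact p.Prime] in
theorem fun_sp {f : Module.Dual k W} (hf : ∀ v ∈ D.V, ∀ w, f (ρ v w) = f w) {m : W} (hm : f m = 0) : ∀ w ∈ D.sp ρ m, f w = 0 := by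
  intro w hw
  unfold sp at hw
  induction hw using Submodule.span_induction with
  | mem x hx => obtain ⟨g, rfl⟩ := hx; simp only; rw [hf g g.2, hm]
  | zero => exact map_zero _
  | add x y _ _ hx hy => rw [map_add, hx, hy, add_zero]
  | smul c x _ hx => rw [map_smul, hx, smul_zero]

/-- the fixed points of `U` on an absolutely irreducible module form a line -/
theorem fx_unique [IsAlgClosed k] [FiniteDimensional k W] (h : AI ρ) {m m' : W} (hm : D.Fx ρ m) (hm' : D.Fx ρ m') (hm0 : m ≠ 0) :
    ∃ c : k, m' = c • m := by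
  have : Nontrivial W := ⟨m, 0, hm0⟩
  have : Nontrivial (Module.Dual k W) := by
    obtain ⟨f, hf⟩ := exists_dual (k := k) hm0
    exact ⟨f, 0, fun h0 => by rw [h0] at hf; exact zero_ne_one hf⟩
  obtain ⟨f, χ, μ, hf⟩ := exists_isW (D := D) (ρ := ρ.dual)
  have h1 : D.sp ρ.dual f = ⊤ := by
    rw [eq_top_iff, ← h.dual hf.ne]
    exact span_le_sp hf
  have h2 : ∀ w : W, (∀ v ∈ D.V, ρ v w = w) → f w = 0 → w = 0 := by
    intro w hw hfw
    by_contra hne
    obtain ⟨f', hf'⟩ := exists_dual (k := k) hne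
    have h3 : ∀ f'' ∈ D.sp ρ.dual f, f'' w = 0 := by
      intro f'' hf''
      unfold sp at hf''
      induction hf'' using Submodule.span_induction with
      | mem x hx =>
        obtain ⟨⟨g, hg⟩, rfl⟩ := hx
        simp only [Representation.dual_apply]
        show f (ρ g⁻¹ w) = 0
        rw [hw _ (inv_mem hg), hfw]
      | zero => rfl
      | add x y _ _ hx hy => rw [LinearMap.add_apply, hx, hy, add_zero]
      | smul c x _ hx => rw [LinearMap.smul_apply, hx, smul_zero]
    rw [h3 f' (by rw [h1]; trivial)] at hf'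
    exact zero_ne_one hf'
  have h4 : ∀ m : W, D.Fx ρ m → ∀ v ∈ D.V, ρ v (ρ D.n0 m) = ρ D.n0 m := by
    intro m hm v hv
    have e : v * D.n0 = D.n0 * (D.n0⁻¹ * v * D.n0) := by group
    rw [← Module.End.mul_apply, ← map_mul, e, map_mul, Module.End.mul_apply, hm _ (D.n0V v hv)]
  have hinj : ∀ a : W, ρ D.n0 a = 0 → a = 0 := by
    intro a ha
    have : ρ (D.n0⁻¹) (ρ D.n0 a) = a := by
      rw [← Module.End.mul_apply, ← map_mul, inv_mul_cancel, map_one]; rfl
    rw [← this, ha, map_zero]
  set a := f (ρ D.n0 m) with ha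
  set b := f (ρ D.n0 m') with hb
  have ha0 : a ≠ 0 := by
    intro h0
    exact hm0 (hinj _ (h2 _ (h4 m hm) h0))
  refine ⟨b / a, ?_⟩
  have h5 : ρ D.n0 (a • m' - b • m) = 0 := by
    apply h2
    · intro v hv
      rw [map_sub, map_smul, map_smul, map_sub, map_smul, map_smul, h4 m hm v hv, h4 m' hm' v hv]
    · rw [map_sub, map_smul, map_smul, map_sub, map_smul, map_smul, ← ha, ← hb, smul_eq_mul, smul_eq_mul]; ring
  have h6 := sub_eq_zero.1 (hinj _ h5)
  calc m' = a⁻¹ • (a • m') := by rw [smul_smul, inv_mul_cancel₀ ha0, one_smul]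
    _ = a⁻¹ • (b • m) := by rw [h6]
    _ = (b / a) • m := by rw [smul_smul]; congr 1; field_simp

theorem isW_unique [IsAlgClosed k] [FiniteDimensional k W] (h : AI ρ) {m m' : W} {χ χ' : G → k} {μ μ' : D.ι → k}
    (h1 : D.IsW ρ m χ μ) (h2 : D.IsW ρ m' χ' μ') : (∀ t ∈ D.H, χ t = χ' t) ∧ μ = μ' := by
  obtain ⟨c, hc⟩ := fx_unique h h1.fx h2.fx h1.ne
  have hc0 : c ≠ 0 := by rintro rfl; rw [zero_smul] at hc; exact h2.ne hc
  have hs : ∀ a b : k, a • m' = b • m' → a = b := by
    intro a b hab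
    by_contra hne
    have : (a - b) • m' = 0 := by rw [sub_smul, hab, sub_self]
    exact h2.ne ((smul_eq_zero.1 this).resolve_left (sub_ne_zero.2 hne))
  constructor
  · intro t ht
    apply hs
    rw [← h2.hH t ht, hc, map_smul, h1.hH t ht, smul_smul, smul_smul, mul_comm]
  · funext i
    apply hs
    rw [← h2.hA i, hc, A_smul, h1.hA i, smul_smul, smul_smul, mul_comm]

/-- product representation -/
noncomputable def prodRep {W' : Type*} [AddCommGroup W'] [Module k W'] (ρ : Representation k G W) (ρ' : Representation k G W') :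
    Representation k G (W × W') where
  toFun g := (ρ g).prodMap (ρ' g)
  map_one' := by rw [map_one, map_one]; rfl
  map_mul' a b := by rw [map_mul, map_mul]; rfl

/-- distinct absolutely irreducible modules have different weights -/
theorem weight_ne {W' : Type*} [AddCommGroup W'] [Module k W'] {ρ' : Representation k G W'}
    (hd : ∀ (T : Module.End k W) (T' : Module.End k W'), ∃ a : MonoidAlgebra k G, ρ.asAlgebraHom a = T ∧ ρ'.asAlgebraHom a = T')
    {m : W} {m' : W'} {χ χ' : G → k} {μ : D.ι → k} (h1 : D.IsW ρ m χ μ) (h2 : D.IsW ρ' m' χ' μ) (hχ : ∀ t ∈ D.H, χ t = χ' t) : False := by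
  classical
  have : Nontrivial W := ⟨m, 0, h1.ne⟩
  have : Nontrivial W' := ⟨m', 0, h2.ne⟩
  have h3 : D.IsW (prodRep ρ ρ') (m, m') χ μ := by
    refine ⟨fun h0 => h1.ne (congrArg Prod.fst h0), fun u hu => ?_, fun t ht => ?_, fun i => ?_⟩
    · exact Prod.ext (h1.fx u hu) (h2.fx u hu)
    · exact Prod.ext (h1.hH t ht) ((h2.hH t ht).trans (by rw [hχ t ht]; rfl))
    · apply Prod.ext
      · have := h1.hA i
        unfold A at this ⊢
        rw [Prod.fst_sum]
        exact this
      · have := h2.hA i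
        unfold A at this ⊢
        rw [Prod.snd_sum]
        exact this
  have hmem : ∀ a : MonoidAlgebra k G, ((ρ.asAlgebraHom a m, ρ'.asAlgebraHom a m') : W × W') ∈ D.sp (prodRep ρ ρ') (m, m') := by
    intro a
    induction a using MonoidAlgebra.induction_linear with
    | zero => rw [map_zero, map_zero]; exact zero_mem _
    | add x y hx hy =>
      rw [map_add, map_add]
      exact add_mem hx hy
    | single g c =>
      rw [Representation.asAlgebraHom_single, Representation.asAlgebraHom_single]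
      have h4 : (prodRep ρ ρ' g) (m, m') ∈ D.sp (prodRep ρ ρ') (m, m') := span_le_sp h3 (Submodule.subset_span ⟨g, rfl⟩)
      exact Submodule.smul_mem _ c h4
  have htop : ∀ (w : W) (w' : W'), (w, w') ∈ D.sp (prodRep ρ ρ') (m, m') := by
    intro w w'
    obtain ⟨f, hf⟩ := exists_dual (k := k) h1.ne
    obtain ⟨f', hf'⟩ := exists_dual (k := k) h2.ne
    obtain ⟨a, ha, ha'⟩ := hd (f.smulRight w) (f'.smulRight w')
    have := hmem a
    rw [ha, ha'] at this
    simpa [LinearMap.smulRight_apply, hf, hf'] using this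
  obtain ⟨f, hf0, hf⟩ := exists_fun (D := D) (ρ := ρ)
  obtain ⟨f', hf'0, hf'⟩ := exists_fun (D := D) (ρ := ρ')
  have hz' : f' m' ≠ 0 := by
    intro h0
    apply hf'0
    ext w'
    have h5 := fun_sp (D := D) (ρ := prodRep ρ ρ') (f := f' ∘ₗ LinearMap.snd k W W') (fun v hv w => hf' v hv w.2) (m := (m, m')) h0 _ (htop 0 w')
    exact h5
  let F : Module.Dual k (W × W') := (f' m') • (f ∘ₗ LinearMap.fst k W W') - (f m) • (f' ∘ₗ LinearMap.snd k W W')
  have hF : ∀ v ∈ D.V, ∀ w, F (prodRep ρ ρ' v w) = F w := by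
    intro v hv w
    show f' m' * f (ρ v w.1) - f m * f' (ρ' v w.2) = f' m' * f w.1 - f m * f' w.2
    rw [hf v hv, hf' v hv]
  have hF0 : F (m, m') = 0 := by
    show f' m' * f m - f m * f' m' = 0
    ring
  apply hf0
  ext w
  have h6 := fun_sp hF hF0 _ (htop w 0)
  have h7 : f' m' * f w - f m * f' 0 = 0 := h6
  rw [map_zero, mul_zero, sub_zero] at h7
  exact (mul_eq_zero.1 h7).resolve_left hz'

end Dat
end CfsgLib.CR
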