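import Cfsg.Agent.LibCR5

/-! Counting `p`-regular classes by weights (lead). -/

set_option autoImplicit false

namespace CfsgLib.CR

open MonoidAlgebra

section reps

variable {G k : Type*} [Group G] [Field k] {n : ℕ} {d : Fin n → ℕ}
  (π : MonoidAlgebra k G →ₐ[k] (∀ i, Matrix (Fin (d i)) (Fin (d i)) k))

/-- the simple modules attached to `π` -/
noncomputable def rep (i : Fin n) : Representation k G (Fin (d i) → k) where
  toFun g := Matrix.toLin' (π (single g 1) i)
  map_one' := by
    rw [← MonoidAlgebra.one_def, map_one, Pi.one_apply, Matrix.toLin'_one]; rfl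
  map_mul' a b := by
    have : (single (a * b) (1 : k) : MonoidAlgebra k G) = single a 1 * single b 1 := by rw [single_mul_single, mul_one]
    rw [this, map_mul, Pi.mul_apply, Matrix.toLin'_mul]; rfl

theorem rep_apply (i : Fin n) (g : G) (v : Fin (d i) → k) : rep π i g v = (π (single g 1) i).mulVec v := by
  show Matrix.toLin' (π (single g 1) i) v = _
  rw [Matrix.toLin'_apply]

theorem rep_alg (i : Fin n) (a : MonoidAlgebra k G) : (rep π i).asAlgebraHom a = Matrix.toLin' (π a i) := by
  induction a using MonoidAlgebra.induction_linear with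
  | zero => rw [map_zero, map_zero, Pi.zero_apply, map_zero]
  | add x y hx hy => rw [map_add, hx, hy, map_add, Pi.add_apply, map_add]
  | single g c =>
    rw [Representation.asAlgebraHom_single]
    have : (single g c : MonoidAlgebra k G) = c • single g 1 := by rw [MonoidAlgebra.smul_single, smul_eq_mul, mul_one]
    rw [this, map_smul, Pi.smul_apply, map_smul]
    rfl

theorem alg_mem_span {W : Type*} [AddCommGroup W] [Module k W] (ρ : Representation k G W) (a : MonoidAlgebra k G) :
    ρ.asAlgebraHom a ∈ Submodule.span k (Set.range (fun g : G => (ρ g : Module.End k W))) := by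
  induction a using MonoidAlgebra.induction_linear with
  | zero => rw [map_zero]; exact zero_mem _
  | add x y hx hy => rw [map_add]; exact add_mem hx hy
  | single g c => rw [Representation.asAlgebraHom_single]; exact Submodule.smul_mem _ _ (Submodule.subset_span ⟨g, rfl⟩)

variable {π}

theorem rep_AI (hs : Function.Surjective π) (i : Fin n) : Dat.AI (rep π i) := by
  classical
  unfold Dat.AI
  rw [eq_top_iff]
  intro T _
  obtain ⟨a, ha⟩ := hs (Pi.single i (LinearMap.toMatrix' T))
  have h1 := alg_mem_span (rep π i) a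
  rw [rep_alg, ha, Pi.single_eq_same, Matrix.toLin'_toMatrix'] at h1
  exact h1

theorem rep_dense (hs : Function.Surjective π) {i j : Fin n} (hij : i ≠ j) (T : Module.End k (Fin (d i) → k)) (T' : Module.End k (Fin (d j) → k)) :
    ∃ a : MonoidAlgebra k G, (rep π i).asAlgebraHom a = T ∧ (rep π j).asAlgebraHom a = T' := by
  classical
  obtain ⟨a, ha⟩ := hs (Pi.single i (LinearMap.toMatrix' T) + Pi.single j (LinearMap.toMatrix' T'))
  refine ⟨a, ?_, ?_⟩
  · rw [rep_alg, ha, Pi.add_apply, Pi.single_eq_same, Pi.single_eq_of_ne hij, add_zero, Matrix.toLin'_toMatrix']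
  · rw [rep_alg, ha, Pi.add_apply, Pi.single_eq_same, Pi.single_eq_of_ne hij.symm, zero_add, Matrix.toLin'_toMatrix']

/-- every cyclic vector maps to a simple module -/
theorem exists_simple_quot (hd : ∀ i, NeZero (d i)) (hs : Function.Surjective π) (hk : ∀ a, π a = 0 → IsNilpotent a)
    {L : Ideal (MonoidAlgebra k G)} (hL : L ≠ ⊤) : ∃ (i : Fin n) (v : Fin (d i) → k), v ≠ 0 ∧ ∀ a ∈ L, (π a i).mulVec v = 0 := by
  classical
  obtain ⟨M, hM, hLM⟩ := Ideal.exists_le_maximal L hL
  have h1M : (1 : MonoidAlgebra k G) ∉ M := fun h => hM.ne_top ((Ideal.eq_top_iff_one M).2 h)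
  have hker : ∀ a, π a = 0 → a ∈ M := by
    intro a ha
    by_contra hna
    have h1 : M ⊔ Ideal.span {a} = ⊤ := by
      apply hM.1.2
      refine lt_of_le_of_ne le_sup_left ?_
      intro h0
      apply hna
      rw [h0]
      exact Submodule.mem_sup_right (Ideal.subset_span rfl)
    have h2 : (1 : MonoidAlgebra k G) ∈ M ⊔ Ideal.span {a} := by rw [h1]; trivial
    obtain ⟨x, hx, y, hy, hxy⟩ := Submodule.mem_sup.1 h2
    obtain ⟨b, rfl⟩ := Ideal.mem_span_singleton'.1 hy
    have h3 : IsNilpotent (b * a) := hk _ (by rw [map_mul, ha, mul_zero])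
    have h4 : IsUnit x := by
      have : x = 1 - b * a := by rw [← hxy]; abel
      rw [this]
      exact h3.isUnit_one_sub
    exact hM.ne_top (Ideal.eq_top_of_isUnit_mem _ hx h4)
  have hex : ∀ (i : Fin n) (x y : Fin (d i)), ∃ a : MonoidAlgebra k G, π a = Pi.single i (Matrix.single x y 1) := fun i x y => hs _
  choose E hE using hex
  -- a diagonal idempotent outside M
  obtain ⟨i, x, hix⟩ : ∃ (i : Fin n) (x : Fin (d i)), E i x x ∉ M := by
    by_contra h0
    push Not at h0
    apply h1M
    have h1 : ∑ i, ∑ x, E i x x ∈ M := sum_mem (fun i _ => sum_mem (fun x _ => h0 i x))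
    have h2 : π (1 - ∑ i, ∑ x, E i x x) = 0 := by
      rw [map_sub, map_one, sub_eq_zero]
      simp only [map_sum, hE]
      funext j
      rw [Finset.sum_apply, Finset.sum_eq_single j]
      · simp only [Finset.sum_apply, Pi.single_eq_same]
        ext a b
        rw [Matrix.sum_apply, Pi.one_apply, Matrix.one_apply]
        by_cases hab : a = b
        · subst hab
          rw [if_pos rfl, Finset.sum_eq_single a]
          · rw [Matrix.single_apply_same]
          · intro c _ hc; rw [Matrix.single_apply, if_neg]; exact fun h => hc h.1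
          · intro h; exact absurd (Finset.mem_univ _) h
        · rw [if_neg hab]
          symm
          apply Finset.sum_eq_zero
          intro c _
          rw [Matrix.single_apply, if_neg]
          rintro ⟨rfl, rfl⟩; exact hab rfl
      · intro l _ hl
        simp only [Finset.sum_apply]
        apply Finset.sum_eq_zero; intro c _
        rw [Pi.single_eq_of_ne (Ne.symm hl)]
      · intro h; exact absurd (Finset.mem_univ _) h
    have h3 := add_mem (hker _ h2) h1
    rwa [sub_add_cancel] at h3
  let e : (Fin (d i) → k) → MonoidAlgebra k G := fun v => ∑ y, v y • E i y x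
  have hπe : ∀ v, π (e v) = Pi.single i (∑ y, v y • Matrix.single y x 1) := by
    intro v
    simp only [e, map_sum, map_smul, hE]
    funext j
    by_cases hj : j = i
    · subst hj; simp only [Finset.sum_apply, Pi.smul_apply, Pi.single_eq_same]
    · simp only [Finset.sum_apply, Pi.smul_apply, Pi.single_eq_of_ne hj, smul_zero, Finset.sum_const_zero]
  have hact : ∀ a v, a * e v - e ((π a i).mulVec v) ∈ M := by
    intro a v
    apply hker
    rw [map_sub, map_mul, hπe, hπe, sub_eq_zero]
    funext j
    by_cases hj : j = i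
    · subst hj
      rw [Pi.mul_apply, Pi.single_eq_same, Pi.single_eq_same]
      ext s t
      rw [Matrix.mul_apply, Matrix.sum_apply]
      have h1 : ∀ (w : Fin (d j) → k) (s t : Fin (d j)), (∑ y, w y • Matrix.single y x (1 : k)) s t = if x = t then w s else 0 := by
        intro w s t
        rw [Matrix.sum_apply, Finset.sum_eq_single s]
        · rw [Matrix.smul_apply, Matrix.single_apply]
          by_cases h : x = t
          · rw [if_pos ⟨rfl, h⟩, if_pos h, smul_eq_mul, mul_one]
          · rw [if_neg (fun h' => h h'.2), if_neg h, smul_zero]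
        · intro y _ hy; rw [Matrix.smul_apply, Matrix.single_apply, if_neg (fun h' => hy h'.1), smul_zero]
        · intro h; exact absurd (Finset.mem_univ _) h
      simp only [h1]
      have h2 := h1 ((π a j).mulVec v) s t
      rw [Matrix.sum_apply] at h2
      rw [h2]
      by_cases h : x = t
      · simp only [if_pos h]; rfl
      · simp only [if_neg h, mul_zero, Finset.sum_const_zero]
    · rw [Pi.mul_apply, Pi.single_eq_of_ne hj, Pi.single_eq_of_ne hj, mul_zero]
  have heE : e (Pi.single x 1) = E i x x := by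
    show ∑ y, (Pi.single x (1 : k) : Fin (d i) → k) y • E i y x = E i x x
    rw [Finset.sum_eq_single x]
    · rw [Pi.single_eq_same, one_smul]
    · intro y _ hy; rw [Pi.single_eq_of_ne hy, zero_smul]
    · intro h; exact absurd (Finset.mem_univ _) h
  have hadd : ∀ v w, e (v + w) = e v + e w := by
    intro v w
    simp only [e, Pi.add_apply, add_smul, Finset.sum_add_distrib]
  have he0 : e 0 = 0 := by simp [e]
  -- e u ∈ M → u = 0
  have hinj : ∀ u, e u ∈ M → u = 0 := by
    intro u hu
    by_contra hne
    obtain ⟨f, hf⟩ := Dat.exists_dual (k := k) hne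
    obtain ⟨b, hb⟩ := hs (Pi.single i (LinearMap.toMatrix' (f.smulRight (Pi.single x (1 : k)))))
    have h1 : (π b i).mulVec u = Pi.single x 1 := by
      rw [hb, Pi.single_eq_same, LinearMap.toMatrix'_mulVec, LinearMap.smulRight_apply, hf, one_smul]
    have h2 := hact b u
    rw [h1, heE] at h2
    have h3 := sub_mem (M.mul_mem_left b hu) h2
    rw [sub_sub_cancel] at h3
    exact hix h3
  -- 1 ≡ e v
  let M1 : Ideal (MonoidAlgebra k G) :=
    { carrier := {a | ∃ v, a - e v ∈ M}
      add_mem' := by
        rintro a b ⟨v, hv⟩ ⟨w, hw⟩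
        refine ⟨v + w, ?_⟩
        rw [hadd]
        have := add_mem hv hw
        have e1 : a + b - (e v + e w) = a - e v + (b - e w) := by abel
        rwa [e1]
      zero_mem' := ⟨0, by rw [he0, sub_zero]; exact zero_mem _⟩
      smul_mem' := by
        rintro a b ⟨v, hv⟩
        refine ⟨(π a i).mulVec v, ?_⟩
        have h1 := add_mem (M.mul_mem_left a hv) (hact a v)
        have e1 : a * (b - e v) + (a * e v - e ((π a i).mulVec v)) = a • b - e ((π a i).mulVec v) := by
          rw [smul_eq_mul, mul_sub]; abel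
        rwa [e1] at h1 }
  have hM1 : M1 = ⊤ := by
    apply hM.1.2
    refine lt_of_le_of_ne ?_ ?_
    · intro a ha; exact ⟨0, by rw [he0, sub_zero]; exact ha⟩
    · intro h0
      apply hix
      rw [h0]
      exact ⟨Pi.single x 1, by rw [heE, sub_self]; exact zero_mem _⟩
  obtain ⟨v, hv⟩ : (1 : MonoidAlgebra k G) ∈ M1 := by rw [hM1]; trivial
  refine ⟨i, v, ?_, ?_⟩
  · rintro rfl
    rw [he0, sub_zero] at hv
    exact h1M hv
  · intro a ha
    apply hinj
    have h1 := M.mul_mem_left a hv
    rw [mul_sub, mul_one] at h1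
    have h2 := sub_mem (hLM ha) h1
    rw [sub_sub_cancel] at h2
    have h3 := sub_mem h2 (hact a v)
    rwa [sub_sub_cancel] at h3

end reps

namespace Dat

variable {G : Type*} [Group G] [Fintype G] {p : ℕ} [Fact p.Prime] {D : Dat G p}
variable {k : Type*} [Field k] [CharP k p]

section
variable {n : ℕ} {d : Fin n → ℕ} {π : MonoidAlgebra k G →ₐ[k] (∀ i, Matrix (Fin (d i)) (Fin (d i)) k)}

theorem realize (hd : ∀ i, NeZero (d i)) (hs : Function.Surjective π) (hk : ∀ a, π a = 0 → IsNilpotent a)
    {W : Type*} [AddCommGroup W] [Module k W] {ρ : Representation k G W} {m : W} {χ : G → k} {μ : D.ι → k} (h : D.IsW ρ m χ μ) :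
    ∃ (i : Fin n) (v : Fin (d i) → k), D.IsW (rep π i) v χ μ := by
  classical
  let L : Ideal (MonoidAlgebra k G) :=
    { carrier := {a | ρ.asAlgebraHom a m = 0}
      add_mem' := by intro a b ha hb; show ρ.asAlgebraHom (a + b) m = 0; rw [map_add, LinearMap.add_apply, ha, hb, add_zero]
      zero_mem' := by show ρ.asAlgebraHom 0 m = 0; rw [map_zero]; rfl
      smul_mem' := by intro a b hb; show ρ.asAlgebraHom (a * b) m = 0; rw [map_mul, Module.End.mul_apply, hb, map_zero] }
  have hL : L ≠ ⊤ := by
    intro h0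
    have : (1 : MonoidAlgebra k G) ∈ L := by rw [h0]; trivial
    have h1 : ρ.asAlgebraHom 1 m = 0 := this
    rw [map_one] at h1
    exact h.ne h1
  obtain ⟨i, v, hv, hvL⟩ := exists_simple_quot hd hs hk hL
  refine ⟨i, v, hv, ?_, ?_, ?_⟩
  · intro u hu
    have h1 : (single u (1 : k) - 1 : MonoidAlgebra k G) ∈ L := by
      show ρ.asAlgebraHom _ m = 0
      rw [map_sub, LinearMap.sub_apply, Representation.asAlgebraHom_single, one_smul, map_one, h.fx u hu]
      exact sub_self _
    have h2 := hvL _ h1
    rw [map_sub, Pi.sub_apply, Matrix.sub_mulVec, map_one, Pi.one_apply, Matrix.one_mulVec] at h2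
    rw [rep_apply]
    exact sub_eq_zero.1 h2
  · intro t ht
    have h1 : (single t (1 : k) - χ t • 1 : MonoidAlgebra k G) ∈ L := by
      show ρ.asAlgebraHom _ m = 0
      rw [map_sub, LinearMap.sub_apply, Representation.asAlgebraHom_single, one_smul, map_smul, map_one, h.hH t ht]
      exact sub_self _
    have h2 := hvL _ h1
    rw [map_sub, Pi.sub_apply, Matrix.sub_mulVec, map_smul, Pi.smul_apply, map_one, Pi.one_apply, Matrix.smul_mulVec, Matrix.one_mulVec] at h2
    rw [rep_apply]
    exact sub_eq_zero.1 h2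
  · intro j
    have h1 : ((∑ x : D.X j, single ((x : G) * D.n j) (1 : k)) - μ j • 1 : MonoidAlgebra k G) ∈ L := by
      show ρ.asAlgebraHom _ m = 0
      have h3 := h.hA j
      unfold A at h3
      rw [map_sub, LinearMap.sub_apply, map_smul, map_one, map_sum, LinearMap.sum_apply]
      simp only [Representation.asAlgebraHom_single, one_smul]
      rw [h3]
      exact sub_self _
    have h2 := hvL _ h1
    rw [map_sub, Pi.sub_apply, Matrix.sub_mulVec, map_smul, Pi.smul_apply, map_one, Pi.one_apply, Matrix.smul_mulVec, Matrix.one_mulVec,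
      map_sum, Finset.sum_apply, Matrix.sum_mulVec] at h2
    unfold A
    simp only [rep_apply]
    exact sub_eq_zero.1 h2

end

/-- evaluation of a character of `H` -/
noncomputable def ev (D : Dat G p) (χ : D.H →* kˣ) (g : G) : k := by
  classical
  exact if h : g ∈ D.H then (χ ⟨g, h⟩ : k) else 0

theorem ev_mem {χ : D.H →* kˣ} {g : G} (h : g ∈ D.H) : D.ev χ g = (χ ⟨g, h⟩ : k) := by
  unfold ev
  rw [dif_pos h]

theorem cc_congr {χ χ' : G → k} (h : ∀ t ∈ D.H, χ t = χ' t) (i : D.ι) : D.cc i χ = D.cc i χ' := by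
  classical
  unfold cc
  apply Finset.sum_congr rfl
  intro x _
  split_ifs with hx
  · rfl
  · exact h _ (mul_mem (D.R2 i x x.2 (fun h0 => hx (Subtype.ext h0))).1 (D.sq i))

/-- the possible weights -/
abbrev Wt (D : Dat G p) (k : Type*) [Field k] : Type _ :=
  {w : (D.H →* kˣ) × Set D.ι // ∀ i ∈ w.2, D.cc i (D.ev w.1) ≠ 0}

theorem exists_hom {W : Type*} [AddCommGroup W] [Module k W] {ρ : Representation k G W} {m : W} {χ : G → k} {μ : D.ι → k} (h : D.IsW ρ m χ μ) :
    ∃ χ' : D.H →* kˣ, ∀ t ∈ D.H, χ t = D.ev χ' t := by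
  have hs : ∀ a b : k, a • m = b • m → a = b := by
    intro a b hab
    by_contra hne
    have : (a - b) • m = 0 := by rw [sub_smul, hab, sub_self]
    exact h.ne ((smul_eq_zero.1 this).resolve_left (sub_ne_zero.2 hne))
  have h1 : χ 1 = 1 := by
    apply hs
    rw [← h.hH 1 (one_mem _), map_one, one_smul]; rfl
  have hmul : ∀ a ∈ D.H, ∀ b ∈ D.H, χ (a * b) = χ a * χ b := by
    intro a ha b hb
    apply hs
    rw [← h.hH _ (mul_mem ha hb), map_mul, Module.End.mul_apply, h.hH b hb, map_smul, h.hH a ha, smul_smul, mul_comm]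
  let f : D.H →* k :=
    { toFun := fun t => χ t
      map_one' := h1
      map_mul' := fun a b => hmul a a.2 b b.2 }
  refine ⟨f.toHomUnits, fun t ht => ?_⟩
  rw [ev_mem ht]
  rfl

theorem card_preg_le [IsAlgClosed k] [Finite D.ι] : Nat.card (PReg G p) ≤ Nat.card (D.Wt k) := by
  classical
  obtain ⟨n, d, π, hd, hs, hk⟩ := exists_wed k G
  refine le_trans (preg_le π hd hs hk) ?_
  have hf : Finite (D.H →* kˣ) := inferInstance
  have hf2 : Finite (D.Wt k) := inferInstance
  have h1 : ∀ i : Fin n, ∃ (m : Fin (d i) → k) (χ : G → k) (μ : D.ι → k), D.IsW (rep π i) m χ μ := by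
    intro i
    have := hd i
    exact exists_isW
  choose m χ μ hW using h1
  have h2 : ∀ i, ∃ χ' : D.H →* kˣ, ∀ t ∈ D.H, χ i t = D.ev χ' t := fun i => exists_hom (hW i)
  choose χ' hχ' using h2
  let w : Fin n → D.Wt k := fun i => ⟨(χ' i, {j | μ i j ≠ 0}), by
    intro j hj h0
    apply hj
    rcases (hW i).mu j with h | h
    · exact h
    · rw [h, cc_congr (hχ' i)]; exact h0⟩
  have hinj : Function.Injective w := by
    intro i j hij
    by_contra hne
    have h3 : χ' i = χ' j := congrArg (fun z => z.1.1) hij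
    have h4 : {l | μ i l ≠ 0} = {l | μ j l ≠ 0} := congrArg (fun z => z.1.2) hij
    have h5 : ∀ t ∈ D.H, χ i t = χ j t := fun t ht => by rw [hχ' i t ht, hχ' j t ht, h3]
    have h6 : μ i = μ j := by
      funext l
      by_cases hl : μ i l = 0
      · have : l ∉ {l | μ i l ≠ 0} := fun h => h hl
        rw [h4] at this
        rw [hl]
        exact (not_not.1 this).symm
      · have : l ∈ {l | μ i l ≠ 0} := hl
        rw [h4] at this
        rw [((hW i).mu l).resolve_left hl, ((hW j).mu l).resolve_left this]
        exact cc_congr h5 l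
    have h7 := hW j
    rw [← h6] at h7
    exact weight_ne (rep_dense hs hne) (hW i) h7 h5
  have := Nat.card_le_card_of_injective w hinj
  rwa [Nat.card_fin] at this

theorem card_preg_ge [IsAlgClosed k] [Finite D.ι]
    (hex : ∀ w : D.Wt k, ∃ (W : Type) (_ : AddCommGroup W) (_ : Module k W) (ρ : Representation k G W) (m : W),
      D.IsW ρ m (D.ev w.1.1) (fun i => by classical exact if i ∈ w.1.2 then D.cc i (D.ev w.1.1) else 0)) :
    Nat.card (D.Wt k) ≤ Nat.card (PReg G p) := by
  classical
  obtain ⟨n, d, π, hd, hs, hk⟩ := exists_wed k G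
  refine le_trans ?_ (le_preg π hd hs)
  have h1 : ∀ w : D.Wt k, ∃ (i : Fin n) (v : Fin (d i) → k), D.IsW (rep π i) v (D.ev w.1.1) (fun i => if i ∈ w.1.2 then D.cc i (D.ev w.1.1) else 0) := by
    intro w
    obtain ⟨W, i1, i2, ρ, m, hm⟩ := hex w
    exact realize hd hs hk hm
  choose i v hv using h1
  have hinj : Function.Injective i := by
    intro w w' hww
    have h2 := hv w'
    have h3 : ∃ v', D.IsW (rep π (i w)) v' (D.ev w'.1.1) (fun i => if i ∈ w'.1.2 then D.cc i (D.ev w'.1.1) else 0) := by
      rw [hww]; exact ⟨_, h2⟩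
    obtain ⟨v', hv'⟩ := h3
    have := hd (i w)
    obtain ⟨h4, h5⟩ := isW_unique (rep_AI hs (i w)) (hv w) hv'
    apply Subtype.ext
    apply Prod.ext
    · ext t
      have := h4 t t.2
      rwa [ev_mem t.2, ev_mem t.2] at this
    · ext l
      have h6 := congrFun h5 l
      beta_reduce at h6
      constructor
      · intro hl
        by_contra hl'
        rw [if_pos hl, if_neg hl'] at h6
        exact w.2 l hl h6
      · intro hl
        by_contra hl'
        rw [if_neg hl', if_pos hl] at h6
        exact w'.2 l hl h6.symm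
  have := Nat.card_le_card_of_injective i hinj
  rwa [Nat.card_fin] at this

end Dat
end CfsgLib.CR
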