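import Cfsg.Agent.LibCR6

/-! Existence of the modules with a given weight (lead). -/

set_option autoImplicit false

namespace CfsgLib.CR

/-- left translation on functions -/
def lreg (k G : Type*) [Group G] [Field k] : Representation k G (G → k) where
  toFun g := { toFun := fun φ x => φ (g⁻¹ * x), map_add' := fun _ _ => rfl, map_smul' := fun _ _ => rfl }
  map_one' := by
    apply LinearMap.ext; intro φ; funext x
    show φ (1⁻¹ * x) = φ x
    rw [inv_one, one_mul]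
  map_mul' a b := by
    apply LinearMap.ext; intro φ; funext x
    show φ ((a * b)⁻¹ * x) = φ (b⁻¹ * (a⁻¹ * x))
    rw [mul_inv_rev, mul_assoc]

theorem lreg_apply {k G : Type*} [Group G] [Field k] (g : G) (φ : G → k) (x : G) : lreg k G g φ x = φ (g⁻¹ * x) := rfl

/-- additional data of a split BN-pair, for the existence of the modules -/
structure Ext {G : Type*} [Group G] {p : ℕ} (D : Dat G p) where
  star : D.ι → D.ι
  Hs : D.ι → Subgroup G
  bru : ∀ g : G, ∃ u ∈ D.U, ∃ m ∈ D.N, ∃ u' ∈ D.U, g = u * m * u'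
  bru_u : ∀ u ∈ D.U, ∀ m ∈ D.N, ∀ u' ∈ D.U, ∀ m' ∈ D.N, u * m * u' = m' → m = m'
  HsH : ∀ i, Hs i ≤ D.H
  hhs : ∀ i, ∀ x ∈ D.X i, x ≠ 1 → D.hh i x ∈ Hs i
  sqs : ∀ i, D.n i * D.n i ∈ Hs i
  n0N : D.n0 ∈ D.N
  star_inj : Function.Injective star
  sX : ∀ i, ∀ x ∈ D.X i, D.n0⁻¹ * x * D.n0 ∈ D.Y (star i)
  sn : ∀ i, ∃ h ∈ Hs (star i), D.n0⁻¹ * D.n i * D.n0 = D.n (star i) * h
  sH : ∀ i, ∀ h ∈ Hs (star i), D.n0 * h * D.n0⁻¹ ∈ Hs i
  comm : ∀ i, ∀ h ∈ D.H, D.n i * h * (D.n i)⁻¹ * h⁻¹ ∈ Hs i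
  word : ∀ K : Set D.ι, ∀ m ∈ Subgroup.closure (D.n '' K), m ∈ D.H → m ∈ ⨆ j ∈ K, Hs j
  low : ∀ K : Set D.ι, ∀ m ∈ Subgroup.closure (D.n '' K), ∀ j, j ∉ K → ∀ y ∈ D.Y j, m⁻¹ * y * m ∈ D.V

namespace Dat

variable {G : Type*} [Group G] [Fintype G] {p : ℕ} [Fact p.Prime] {D : Dat G p}
variable {k : Type*} [Field k] [CharP k p]

theorem ev_mul (ψ : D.H →* kˣ) {a b : G} (ha : a ∈ D.H) (hb : b ∈ D.H) : D.ev ψ (a * b) = D.ev ψ a * D.ev ψ b := by
  rw [ev_mem ha, ev_mem hb, ev_mem (mul_mem ha hb), ← Units.val_mul, ← map_mul]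
  rfl

theorem ev_one (ψ : D.H →* kˣ) : D.ev ψ 1 = 1 := by
  rw [ev_mem (one_mem _)]
  have : (⟨1, one_mem _⟩ : D.H) = 1 := rfl
  rw [this, map_one, Units.val_one]

theorem ev_inv (ψ : D.H →* kˣ) {a : G} (ha : a ∈ D.H) : D.ev ψ a⁻¹ = (D.ev ψ a)⁻¹ := by
  apply eq_inv_of_mul_eq_one_left
  rw [← ev_mul ψ (inv_mem ha) ha, inv_mul_cancel, ev_one]

theorem ev_ne (ψ : D.H →* kˣ) {a : G} (ha : a ∈ D.H) : D.ev ψ a ≠ 0 := by
  rw [ev_mem ha]; exact Units.ne_zero _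

theorem exists_chi (E : Ext D) (K : Set D.ι) (ψ : D.H →* kˣ) (hψ : ∀ j ∈ K, ∀ h ∈ E.Hs j, D.ev ψ h = 1) :
    ∃ (NK : Subgroup G) (χ : G → k), D.H ≤ NK ∧ NK ≤ D.N ∧ (∀ j ∈ K, D.n j ∈ NK) ∧
      (∀ a ∈ NK, ∃ h ∈ D.H, ∃ m ∈ Subgroup.closure (D.n '' K), a = h * m) ∧
      (∀ h ∈ D.H, χ h = D.ev ψ h) ∧ (∀ j ∈ K, χ (D.n j) = 1) ∧ (∀ a ∈ NK, ∀ b ∈ NK, χ (a * b) = χ a * χ b) := by
  classical
  set MK := Subgroup.closure (D.n '' K) with hMK
  have hMN : MK ≤ D.N := by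
    rw [hMK, Subgroup.closure_le]
    rintro _ ⟨j, _, rfl⟩
    exact D.nN j
  have hc : ∀ m ∈ MK, ∀ h ∈ D.H, D.ev ψ (m * h * m⁻¹) = D.ev ψ h := by
    intro m hm
    rw [hMK] at hm
    induction hm using Subgroup.closure_induction with
    | mem x hx =>
      obtain ⟨j, hj, rfl⟩ := hx
      intro h hh
      have h1 := hψ j hj _ (E.comm j h hh)
      rw [ev_mul ψ (D.NH _ (D.nN j) h hh) (inv_mem hh), ev_inv ψ hh] at h1
      field_simp [ev_ne ψ hh] at h1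
      exact h1
    | one => intro h _; rw [one_mul, inv_one, mul_one]
    | mul x y hx hy ihx ihy =>
      intro h hh
      have e : x * y * h * (x * y)⁻¹ = x * (y * h * y⁻¹) * x⁻¹ := by group
      rw [e, ihx _ (D.NH y (hMN hy) h hh), ihy h hh]
    | inv x hx ihx =>
      intro h hh
      have h1 := ihx (x⁻¹ * h * x⁻¹⁻¹) (D.NH x⁻¹ (inv_mem (hMN hx)) h hh)
      have e : x * (x⁻¹ * h * x⁻¹⁻¹) * x⁻¹ = h := by group
      rw [e] at h1
      exact h1.symm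
  have hMH : ∀ m ∈ MK, m ∈ D.H → D.ev ψ m = 1 := by
    intro m hm hmH
    have h1 := E.word K m hm hmH
    have h2 : (⨆ j ∈ K, E.Hs j) ≤ (ψ.ker).map D.H.subtype := by
      apply iSup₂_le
      intro j hj h hh
      refine ⟨⟨h, E.HsH j hh⟩, ?_, rfl⟩
      have h3 := hψ j hj h hh
      rw [ev_mem (E.HsH j hh)] at h3
      exact Units.ext h3
    obtain ⟨⟨x, hx⟩, hx1, rfl⟩ := h2 h1
    show D.ev ψ x = 1
    rw [ev_mem hx]
    have : ψ ⟨x, hx⟩ = 1 := hx1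
    rw [this, Units.val_one]
  let NK : Subgroup G :=
    { carrier := {a | ∃ h ∈ D.H, ∃ m ∈ MK, a = h * m}
      mul_mem' := by
        rintro _ _ ⟨h, hh, m, hm, rfl⟩ ⟨h', hh', m', hm', rfl⟩
        exact ⟨h * (m * h' * m⁻¹), mul_mem hh (D.NH m (hMN hm) h' hh'), m * m', mul_mem hm hm', by group⟩
      one_mem' := ⟨1, one_mem _, 1, one_mem _, by rw [one_mul]⟩
      inv_mem' := by
        rintro _ ⟨h, hh, m, hm, rfl⟩
        refine ⟨m⁻¹ * h⁻¹ * m⁻¹⁻¹, D.NH m⁻¹ (inv_mem (hMN hm)) h⁻¹ (inv_mem hh), m⁻¹, inv_mem hm, by group⟩ }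
  have huniq : ∀ h ∈ D.H, ∀ m ∈ MK, ∀ h' ∈ D.H, ∀ m' ∈ MK, h * m = h' * m' → D.ev ψ h = D.ev ψ h' := by
    intro h hh m hm h' hh' m' hm' e
    have e1 : h'⁻¹ * h = m' * m⁻¹ := by
      have : h = h' * m' * m⁻¹ := by rw [← e]; group
      rw [this]; group
    have h1 := hMH _ (mul_mem hm' (inv_mem hm)) (by rw [← e1]; exact mul_mem (inv_mem hh') hh)
    rw [← e1, ev_mul ψ (inv_mem hh') hh, ev_inv ψ hh'] at h1
    have h2 := ev_ne ψ hh'
    field_simp at h1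
    exact h1
  let χ : G → k := fun a => if h : ∃ h, h ∈ D.H ∧ ∃ m ∈ MK, a = h * m then D.ev ψ h.choose else 0
  have hχ : ∀ h ∈ D.H, ∀ m ∈ MK, χ (h * m) = D.ev ψ h := by
    intro h hh m hm
    have h1 : ∃ h', h' ∈ D.H ∧ ∃ m' ∈ MK, h * m = h' * m' := ⟨h, hh, m, hm, rfl⟩
    have h2 : χ (h * m) = D.ev ψ h1.choose := dif_pos h1
    rw [h2]
    obtain ⟨h3, m', hm', e⟩ := h1.choose_spec
    exact (huniq h hh m hm _ h3 m' hm' e).symm
  refine ⟨NK, χ, ?_, ?_, ?_, ?_, ?_, ?_, ?_⟩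
  · intro h hh; exact ⟨h, hh, 1, one_mem _, (mul_one _).symm⟩
  · rintro _ ⟨h, hh, m, hm, rfl⟩; exact mul_mem (D.HN hh) (hMN hm)
  · intro j hj; exact ⟨1, one_mem _, D.n j, Subgroup.subset_closure ⟨j, hj, rfl⟩, (one_mul _).symm⟩
  · intro a ha; exact ha
  · intro h hh
    have := hχ h hh 1 (one_mem _)
    rwa [mul_one] at this
  · intro j hj
    have := hχ 1 (one_mem _) (D.n j) (Subgroup.subset_closure ⟨j, hj, rfl⟩)
    rwa [one_mul, ev_one] at this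
  · rintro _ ⟨h, hh, m, hm, rfl⟩ _ ⟨h', hh', m', hm', rfl⟩
    have e : h * m * (h' * m') = h * (m * h' * m⁻¹) * (m * m') := by group
    rw [e, hχ _ (mul_mem hh (D.NH m (hMN hm) h' hh')) _ (mul_mem hm hm'), hχ h hh m hm, hχ h' hh' m' hm',
      ev_mul ψ hh (D.NH m (hMN hm) h' hh'), hc m hm h' hh']

/-- existence of the weight vector attached to `ψ` and `K'` -/
theorem exists_wt (E : Ext D) (ψ : D.H →* kˣ) (K' : Set D.ι) (hK' : ∀ i ∈ K', ∀ h ∈ E.Hs i, D.ev ψ h = 1) :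
    ∃ f : G → k, D.IsW (lreg k G) f (D.ev ψ) (fun i => by classical exact if i ∈ K' then 0 else D.cc i (D.ev ψ)) := by
  classical
  let c0 : D.H →* D.H :=
    { toFun := fun t => ⟨D.n0 * t * D.n0⁻¹, D.NH _ E.n0N t t.2⟩
      map_one' := by apply Subtype.ext; show D.n0 * 1 * D.n0⁻¹ = 1; group
      map_mul' := by
        intro a b; apply Subtype.ext
        show D.n0 * ((a : G) * b) * D.n0⁻¹ = D.n0 * a * D.n0⁻¹ * (D.n0 * b * D.n0⁻¹)
        group }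
  let ψ' : D.H →* kˣ := ψ.comp c0
  have hψ' : ∀ t ∈ D.H, D.ev ψ' t = D.ev ψ (D.n0 * t * D.n0⁻¹) := by
    intro t ht
    rw [ev_mem ht, ev_mem (D.NH _ E.n0N t ht)]
    rfl
  obtain ⟨NK, χ, hHK, hKN, hnK, hKf, hχH, hχn, hχm⟩ := exists_chi E (E.star '' K') ψ' (by
    rintro _ ⟨i, hi, rfl⟩ h hh
    rw [hψ' h (E.HsH _ hh)]
    exact hK' i hi _ (E.sH i h hh))
  have hχ1 : χ 1 = 1 := by rw [hχH 1 (one_mem _), ev_one]
  have hχ0 : ∀ a ∈ NK, χ a ≠ 0 := by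
    intro a ha h0
    have := hχm a ha a⁻¹ (inv_mem ha)
    rw [mul_inv_cancel, hχ1, h0, zero_mul] at this
    exact one_ne_zero this
  let f : G → k := fun g => if h : ∃ ν, ν ∈ NK ∧ ∃ u ∈ D.U, ∃ u' ∈ D.U, g = u * (D.n0 * ν) * u' then (χ h.choose)⁻¹ else 0
  have hof : ∀ u ∈ D.U, ∀ ν ∈ NK, ∀ u' ∈ D.U, f (u * (D.n0 * ν) * u') = (χ ν)⁻¹ := by
    intro u hu ν hν u' hu'
    have h1 : ∃ ν', ν' ∈ NK ∧ ∃ u1 ∈ D.U, ∃ u1' ∈ D.U, u * (D.n0 * ν) * u' = u1 * (D.n0 * ν') * u1' := ⟨ν, hν, u, hu, u', hu', rfl⟩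
    have h2 : f (u * (D.n0 * ν) * u') = (χ h1.choose)⁻¹ := dif_pos h1
    rw [h2]
    obtain ⟨h3, u1, hu1, u1', hu1', e⟩ := h1.choose_spec
    generalize h1.choose = ν1 at h3 e ⊢
    have h4 := E.bru_u (u1⁻¹ * u) (mul_mem (inv_mem hu1) hu) (D.n0 * ν) (mul_mem E.n0N (hKN hν)) (u' * u1'⁻¹) (mul_mem hu' (inv_mem hu1'))
      (D.n0 * ν1) (mul_mem E.n0N (hKN h3)) (by
        have : u1⁻¹ * u * (D.n0 * ν) * (u' * u1'⁻¹) = u1⁻¹ * (u * (D.n0 * ν) * u') * u1'⁻¹ := by group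
        rw [this, e]; group)
    rw [mul_left_cancel h4]
  have hzero : ∀ u ∈ D.U, ∀ m ∈ D.N, ∀ u' ∈ D.U, D.n0⁻¹ * m ∉ NK → f (u * m * u') = 0 := by
    intro u hu m hm u' hu' hn
    apply dif_neg
    rintro ⟨ν, hν, u1, hu1, u1', hu1', e⟩
    have h4 := E.bru_u (u1⁻¹ * u) (mul_mem (inv_mem hu1) hu) m hm (u' * u1'⁻¹) (mul_mem hu' (inv_mem hu1'))
      (D.n0 * ν) (mul_mem E.n0N (hKN hν)) (by
        have : u1⁻¹ * u * m * (u' * u1'⁻¹) = u1⁻¹ * (u * m * u') * u1'⁻¹ := by group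
        rw [this, e]; group)
    apply hn
    rw [h4, inv_mul_cancel_left]
    exact hν
  have hoN : ∀ ν ∈ NK, f (D.n0 * ν) = (χ ν)⁻¹ := by
    intro ν hν
    have := hof 1 (one_mem _) ν hν 1 (one_mem _)
    rwa [one_mul, mul_one] at this
  have hzN : ∀ m ∈ D.N, D.n0⁻¹ * m ∉ NK → f m = 0 := by
    intro m hm h
    have := hzero 1 (one_mem _) m hm 1 (one_mem _) h
    rwa [one_mul, mul_one] at this
  have hfN : ∀ u ∈ D.U, ∀ m ∈ D.N, ∀ u' ∈ D.U, f (u * m * u') = f m := by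
    intro u hu m hm u' hu'
    by_cases h : D.n0⁻¹ * m ∈ NK
    · have e : m = D.n0 * (D.n0⁻¹ * m) := by group
      rw [e, hof u hu _ h u' hu', hoN _ h]
    · rw [hzero u hu m hm u' hu' h, hzN m hm h]
  have hfr : ∀ g, ∀ u ∈ D.U, f (g * u) = f g := by
    intro g u hu
    obtain ⟨a, ha, m, hm, b, hb, rfl⟩ := E.bru g
    rw [mul_assoc, hfN a ha m hm _ (mul_mem hb hu), hfN a ha m hm b hb]
  have hfl : ∀ g, ∀ u ∈ D.U, f (u * g) = f g := by
    intro g u hu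
    obtain ⟨a, ha, m, hm, b, hb, rfl⟩ := E.bru g
    have e : u * (a * m * b) = (u * a) * m * b := by group
    rw [e, hfN _ (mul_mem hu ha) m hm b hb, hfN a ha m hm b hb]
  have hfx : D.Fx (lreg k G) f := by
    intro u hu; funext g
    rw [lreg_apply]; exact hfl g _ (inv_mem hu)
  -- the action of H
  have hHm : ∀ t ∈ D.H, ∀ m ∈ D.N, f (t⁻¹ * m) = D.ev ψ t * f m := by
    intro t ht m hm
    have h1 : D.n0⁻¹ * t⁻¹ * D.n0 ∈ D.H := by
      have := D.NH _ (inv_mem E.n0N) t⁻¹ (inv_mem ht)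
      rwa [inv_inv] at this
    have e : D.n0⁻¹ * (t⁻¹ * m) = (D.n0⁻¹ * t⁻¹ * D.n0) * (D.n0⁻¹ * m) := by group
    by_cases h : D.n0⁻¹ * m ∈ NK
    · have e2 : t⁻¹ * m = D.n0 * ((D.n0⁻¹ * t⁻¹ * D.n0) * (D.n0⁻¹ * m)) := by group
      have e3 : f m = (χ (D.n0⁻¹ * m))⁻¹ := by
        conv_lhs => rw [show m = D.n0 * (D.n0⁻¹ * m) by group]
        exact hoN _ h
      rw [e2, hoN _ (mul_mem (hHK h1) h), hχm _ (hHK h1) _ h, hχH _ h1, hψ' _ h1, e3]
      have e4 : D.n0 * (D.n0⁻¹ * t⁻¹ * D.n0) * D.n0⁻¹ = t⁻¹ := by group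
      rw [e4, ev_inv ψ ht, mul_inv, inv_inv]
    · rw [hzN m hm h, mul_zero]
      apply hzN _ (mul_mem (inv_mem (D.HN ht)) hm)
      rw [e]
      intro h2
      apply h
      have := mul_mem (inv_mem (hHK h1)) h2
      rwa [inv_mul_cancel_left] at this
  -- the Hecke operators
  have hup : ∀ i, ∀ m ∈ D.N, i ∉ K' → (∀ x ∈ D.X i, m⁻¹ * x * m ∈ D.U) → f m = 0 := by
    intro i m hm hi hx
    by_contra hne
    have h : D.n0⁻¹ * m ∈ NK := by
      by_contra h; exact hne (hzN m hm h)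
    obtain ⟨t, ht, μ, hμ, e⟩ := hKf _ h
    obtain ⟨x, hxX, hx1⟩ := D.Xne i
    have h1 : D.n0⁻¹ * x * D.n0 ∈ D.Y (E.star i) := E.sX i x hxX
    have hs : E.star i ∉ E.star '' K' := by
      rintro ⟨j, hj, hji⟩
      rw [E.star_inj hji] at hj
      exact hi hj
    have h2 := hx x hxX
    have e1 : m = D.n0 * t * μ := by
      have : m = D.n0 * (D.n0⁻¹ * m) := by group
      rw [this, e]; group
    -- conjugate the other way round: m⁻¹ x m = μ⁻¹ t⁻¹ y t μ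
    have e2 : m⁻¹ * x * m = (μ⁻¹ * t⁻¹ * μ) * (μ⁻¹ * (D.n0⁻¹ * x * D.n0) * μ) * (μ⁻¹ * t⁻¹ * μ)⁻¹ := by
      rw [e1]; group
    have hMN : Subgroup.closure (D.n '' (E.star '' K')) ≤ D.N := by
      rw [Subgroup.closure_le]
      rintro _ ⟨j, _, rfl⟩
      exact D.nN j
    have h3 : μ⁻¹ * t⁻¹ * μ ∈ D.H := by
      have := D.NH _ (inv_mem (hMN hμ)) t⁻¹ (inv_mem ht)
      rwa [inv_inv] at this
    have h4 : m⁻¹ * x * m ∈ D.V := by
      rw [e2]
      exact D.HV _ h3 _ (E.low _ μ hμ _ hs _ h1)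
    have h5 := D.UV _ h2 h4
    apply hx1
    have : m * (m⁻¹ * x * m) * m⁻¹ = x := by group
    rw [← this, h5]; group
  have hA1 : ∀ (i : D.ι) (g : G), D.A (lreg k G) i f g = ∑ x : D.X i, f (((x : G) * D.n i)⁻¹ * g) := by
    intro i g
    unfold A
    rw [Finset.sum_apply]
    rfl
  have hXU1 : ∀ i, D.Fx (lreg k G) (D.A (lreg k G) i f) := by
    intro i
    have h1 := (A_S_up hfx (i := i) (g := 1) (one_mem _) (by
      intro x hx; rw [inv_one, one_mul, mul_one]; exact D.XU i hx) (by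
      intro y hy; rw [inv_one, one_mul, mul_one]; exact D.YV i hy)).1
    rw [S_one hfx] at h1
    rw [h1]
    exact S_fx hfx _
  have hq : ∀ i, (Nat.card (D.X i) : k) = 0 := by
    intro i
    obtain ⟨c, hc⟩ := card_X (D := D) i
    rw [hc, Nat.cast_mul, CharP.cast_eq_zero, zero_mul]
  have hAN : ∀ i, ∀ m ∈ D.N, D.A (lreg k G) i f m = (if i ∈ K' then 0 else D.cc i (D.ev ψ)) * f m := by
    intro i m hm
    rw [hA1]
    rcases D.dich i m hm with ⟨h1, h2⟩ | ⟨h1, h2⟩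
    · have e : ∀ x : D.X i, f (((x : G) * D.n i)⁻¹ * m) = f ((D.n i)⁻¹ * m) := by
        intro x
        have e1 : ((x : G) * D.n i)⁻¹ * m = (D.n i)⁻¹ * m * (m⁻¹ * (x : G)⁻¹ * m) := by group
        rw [e1]
        exact hfr _ _ (h1 _ (inv_mem x.2))
      simp only [e]
      rw [Finset.sum_const, Finset.card_univ, ← Nat.card_eq_fintype_card, nsmul_eq_mul, hq, zero_mul]
      by_cases hi : i ∈ K'
      · rw [if_pos hi, zero_mul]
      · rw [hup i m hm hi h1, mul_zero]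
    · have hx1 : ∀ x : D.X i, f (((x : G) * D.n i)⁻¹ * m) =
          if x = 1 then f ((D.n i)⁻¹ * m) else D.ev ψ (D.hh i x * (D.n i * D.n i)) * f m := by
        intro x
        split_ifs with hx
        · rw [hx, OneMemClass.coe_one, one_mul]
        · have hx1 : (x : G) ≠ 1 := fun h => hx (Subtype.ext h)
          obtain ⟨hh1, a, ha, b, hb, e⟩ := D.R2 i x x.2 hx1
          have e1 : ((x : G) * D.n i)⁻¹ * m = ((D.n i * D.n i)⁻¹ * b⁻¹ * (D.n i * D.n i)⁻¹⁻¹) *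
              ((D.hh i x * (D.n i * D.n i))⁻¹ * m) * (m⁻¹ * ((D.n i)⁻¹ * a⁻¹ * D.n i) * m) := by
            have e2 : (D.n i * x * (D.n i)⁻¹)⁻¹ = (a * D.n i * D.hh i x * b)⁻¹ := by rw [e]
            have e3 : ((x : G) * D.n i)⁻¹ * m = (D.n i * D.n i)⁻¹ * (D.n i * x * (D.n i)⁻¹)⁻¹ * D.n i * m := by group
            rw [e3, e2]; group
          rw [e1]
          have h3 : (D.n i * D.n i)⁻¹ * b⁻¹ * (D.n i * D.n i)⁻¹⁻¹ ∈ D.U := D.HU _ (inv_mem (D.sq i)) _ (inv_mem (D.XU i hb))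
          have h4 : m⁻¹ * ((D.n i)⁻¹ * a⁻¹ * D.n i) * m ∈ D.U := h2 _ (D.nY' i _ (inv_mem ha))
          rw [hfr _ _ h4, hfl _ _ h3]
          exact hHm _ (mul_mem hh1 (D.sq i)) m hm
      have h3 : ∀ x ∈ D.X i, ((D.n i)⁻¹ * m)⁻¹ * x * ((D.n i)⁻¹ * m) ∈ D.U := by
        intro x hx
        have : ((D.n i)⁻¹ * m)⁻¹ * x * ((D.n i)⁻¹ * m) = m⁻¹ * (D.n i * x * (D.n i)⁻¹) * m := by group
        rw [this]; exact h2 _ (D.nX i x hx)
      have h4 : ∑ x : D.X i, f (((x : G) * D.n i)⁻¹ * m) = f ((D.n i)⁻¹ * m) + D.cc i (D.ev ψ) * f m := by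
        simp only [hx1]
        unfold cc
        have e5 : ∀ x : D.X i, (if x = 1 then f ((D.n i)⁻¹ * m) else D.ev ψ (D.hh i x * (D.n i * D.n i)) * f m) =
            (if x = 1 then f ((D.n i)⁻¹ * m) else 0) + (if x = 1 then 0 else D.ev ψ (D.hh i x * (D.n i * D.n i))) * f m := by
          intro x; split_ifs <;> simp
        simp only [e5]
        rw [Finset.sum_add_distrib, Finset.sum_ite_eq' , if_pos (Finset.mem_univ _), ← Finset.sum_mul]
      rw [h4]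
      by_cases hi : i ∈ K'
      · rw [if_pos hi, zero_mul]
        have h5 : D.cc i (D.ev ψ) = -1 := by
          unfold cc
          have e6 : ∀ x : D.X i, (if x = 1 then 0 else D.ev ψ (D.hh i x * (D.n i * D.n i))) = 1 - (if x = 1 then (1 : k) else 0) := by
            intro x
            split_ifs with hx
            · rw [sub_self]
            · rw [sub_zero]
              exact hK' i hi _ (mul_mem (E.hhs i x x.2 (fun h => hx (Subtype.ext h))) (E.sqs i))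
          simp only [e6]
          rw [Finset.sum_sub_distrib, Finset.sum_const, Finset.card_univ, ← Nat.card_eq_fintype_card, nsmul_eq_mul, hq, zero_mul,
            Finset.sum_ite_eq', if_pos (Finset.mem_univ _), zero_sub]
        rw [h5, neg_one_mul, ← sub_eq_add_neg, sub_eq_zero]
        -- f (n_i⁻¹ m) = f m
        have hsi : E.star i ∈ E.star '' K' := ⟨i, hi, rfl⟩
        obtain ⟨h, hh, e7⟩ := E.sn i
        have h6 : D.n0⁻¹ * D.n i * D.n0 ∈ NK := by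
          rw [e7]; exact mul_mem (hnK _ hsi) (hHK (E.HsH _ hh))
        have h7 : χ (D.n0⁻¹ * D.n i * D.n0) = 1 := by
          rw [e7, hχm _ (hnK _ hsi) _ (hHK (E.HsH _ hh)), hχn _ hsi, one_mul, hχH _ (E.HsH _ hh), hψ' _ (E.HsH _ hh)]
          exact hK' i hi _ (E.sH i h hh)
        have h8 : χ (D.n0⁻¹ * D.n i * D.n0)⁻¹ = 1 := by
          have := hχm _ h6 _ (inv_mem h6)
          rw [mul_inv_cancel, hχ1, h7, one_mul] at this
          exact this.symm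
        by_cases h : D.n0⁻¹ * m ∈ NK
        · have e8 : (D.n i)⁻¹ * m = D.n0 * ((D.n0⁻¹ * D.n i * D.n0)⁻¹ * (D.n0⁻¹ * m)) := by group
          have e3 : f m = (χ (D.n0⁻¹ * m))⁻¹ := by
            conv_lhs => rw [show m = D.n0 * (D.n0⁻¹ * m) by group]
            exact hoN _ h
          rw [e8, hoN _ (mul_mem (inv_mem h6) h), hχm _ (inv_mem h6) _ h, h8, one_mul, e3]
        · rw [hzN m hm h]
          apply hzN _ (mul_mem (inv_mem (D.nN i)) hm)
          intro h9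
          apply h
          have := mul_mem h6 h9
          have e8 : D.n0⁻¹ * D.n i * D.n0 * (D.n0⁻¹ * ((D.n i)⁻¹ * m)) = D.n0⁻¹ * m := by group
          rwa [e8] at this
      · rw [if_neg hi, hup i _ (mul_mem (inv_mem (D.nN i)) hm) hi h3, zero_add]
  refine ⟨f, ?_, hfx, ?_, ?_⟩
  · intro h0
    have h1 := hoN 1 (one_mem _)
    rw [hχ1, inv_one, h0] at h1
    exact zero_ne_one h1
  · intro t ht; funext g
    rw [lreg_apply, Pi.smul_apply, smul_eq_mul]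
    obtain ⟨a, ha, m, hm, b, hb, rfl⟩ := E.bru g
    have e : t⁻¹ * (a * m * b) = (t⁻¹ * a * t⁻¹⁻¹) * (t⁻¹ * m) * b := by group
    rw [e, hfN _ (D.HU _ (inv_mem ht) _ ha) _ (mul_mem (inv_mem (D.HN ht)) hm) b hb, hfN a ha m hm b hb, hHm t ht m hm]
  · intro i; funext g
    obtain ⟨a, ha, m, hm, b, hb, rfl⟩ := E.bru g
    rw [Pi.smul_apply, smul_eq_mul, hfN a ha m hm b hb]
    have h1 : D.A (lreg k G) i f (a * m * b) = D.A (lreg k G) i f m := by
      have h2 := congrFun (hXU1 i a⁻¹ (inv_mem ha)) (m * b)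
      rw [lreg_apply, inv_inv, ← mul_assoc] at h2
      rw [h2, hA1, hA1]
      apply Finset.sum_congr rfl
      intro x _
      rw [← mul_assoc]
      exact hfr _ b hb
    rw [h1]
    exact hAN i m hm

theorem card_preg_ge' [IsAlgClosed k] [Finite D.ι] {W : Type*} [AddCommGroup W] [Module k W] (ρ : Representation k G W)
    (hex : ∀ w : D.Wt k, ∃ m : W,
      D.IsW ρ m (D.ev w.1.1) (fun i => by classical exact if i ∈ w.1.2 then D.cc i (D.ev w.1.1) else 0)) :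
    Nat.card (D.Wt k) ≤ Nat.card (PReg G p) := by
  classical
  obtain ⟨n, d, π, hd, hs, hk⟩ := exists_wed k G
  refine le_trans ?_ (le_preg π hd hs)
  have h1 : ∀ w : D.Wt k, ∃ (i : Fin n) (v : Fin (d i) → k), D.IsW (rep π i) v (D.ev w.1.1) (fun i => if i ∈ w.1.2 then D.cc i (D.ev w.1.1) else 0) := by
    intro w
    obtain ⟨m, hm⟩ := hex w
    exact realize hd hs hk hm
  choose i v hv using h1
  have hinj : Function.Injective i := by
    intro w w' hww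
    have h2 := hv w'
    have h3 : ∃ v', D.IsW (rep π (i w)) v' (D.ev w'.1.1) (fun i => if i ∈ w'.1.2 then D.cc i (D.ev w'.1.1) else 0) := by
      rw [hww]; exact ⟨_, h2⟩
    obtain ⟨v', hv'⟩ := h3
    have := hd (i w)
    obtain ⟨h4, h5⟩ := isW_unique (rep_AI hs (i w)) (hv w) hv'
    apply Subtype.ext
    apply Prod.ext
    · ext t
      have := h4 t t.2
      rwa [ev_mem t.2, ev_mem t.2] at this
    · ext l
      have h6 := congrFun h5 l
      beta_reduce at h6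
      constructor
      · intro hl
        by_contra hl'
        rw [if_pos hl, if_neg hl'] at h6
        exact w.2 l hl h6
      · intro hl
        by_contra hl'
        rw [if_neg hl', if_pos hl] at h6
        exact w'.2 l hl h6.symm
  have := Nat.card_le_card_of_injective i hinj
  rwa [Nat.card_fin] at this

/-- the number of `p`-regular classes is the number of weights -/
theorem card_preg [IsAlgClosed k] [Finite D.ι] (E : Ext D)
    (hcc : ∀ (ψ : D.H →* kˣ) (i : D.ι), D.cc i (D.ev ψ) ≠ 0 → ∀ h ∈ E.Hs i, D.ev ψ h = 1) :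
    Nat.card (PReg G p) = Nat.card (D.Wt k) := by
  classical
  apply le_antisymm card_preg_le
  apply card_preg_ge' (lreg k G)
  intro w
  obtain ⟨f, hf⟩ := exists_wt E w.1.1 {i | D.cc i (D.ev w.1.1) ≠ 0 ∧ i ∉ w.1.2} (by
    rintro i ⟨hi, _⟩ h hh
    exact hcc w.1.1 i hi h hh)
  refine ⟨f, ?_⟩
  have e : (fun i => if i ∈ w.1.2 then D.cc i (D.ev w.1.1) else 0) =
      (fun i => if i ∈ {i | D.cc i (D.ev w.1.1) ≠ 0 ∧ i ∉ w.1.2} then 0 else D.cc i (D.ev w.1.1)) := by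
    funext i
    by_cases h1 : i ∈ w.1.2
    · rw [if_pos h1, if_neg]
      rintro ⟨_, h2⟩; exact h2 h1
    · rw [if_neg h1]
      split_ifs with h2
      · rfl
      · by_contra h3
        exact h2 ⟨fun h4 => h3 h4.symm, h1⟩
  rw [e]
  convert hf

end Dat
end CfsgLib.CR
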