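import Cfsg.Agent.LibCR7
import Cfsg.Agent.LibSA1
import Cfsg.Agent.LibChevS
import Cfsg.Agent.LibChevStb
import Cfsg.Agent.LibChevSyl

/-! The split BN-pair of a Chevalley group, matrix part (lead). -/

set_option autoImplicit false
set_option linter.unusedSectionVars false

namespace CfsgLib.Chev

open Cfsg.Lie Matrix

namespace Good3

variable {D : ChevalleyDatum} {T : Tb} (g : Good3 D T) {F : Type*} [Field F]
include g

theorem cr_hd_neg {r : ℕ} (hr : r < T.n) (c : Fˣ) : hd D T (T.n - 1 - r) c = (hd D T r c)⁻¹ := by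
  rw [eq_inv_iff_mul_eq_one]
  unfold hd
  rw [dg_mul, ← dg_one (D := D) (F := F)]
  apply congrArg
  funext s
  rw [g.pair_neg_left hr, _root_.zpow_neg, inv_mul_cancel]

theorem cr_hel_congr {a b : ℕ → Fˣ} (h : ∀ i < T.l, a i = b i) : hel D T a = hel D T b := by
  unfold hel
  apply congrArg
  funext s
  exact Finset.prod_congr rfl (fun i hi => by rw [h i (Finset.mem_range.1 hi)])

theorem cr_hd_sim {i : ℕ} (hi : i < T.l) (c : Fˣ) : hd D T (T.sim i) c = hel D T (fun j => if i = j then c else 1) := by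
  rw [hd_hel]
  apply g.cr_hel_congr
  intro j hj
  rw [g.c_sim hi hj]
  split_ifs with h
  · exact _root_.zpow_one c
  · exact _root_.zpow_zero c

theorem cr_hd_swap {i : ℕ} (hi : i < T.l) (c : Fˣ) :
    hd D T (T.sim i) c⁻¹ * g.nn i = g.nn i * hd D T (T.sim i) c := by
  have h := g.nn_hd (F := F) hi (g.sim_lt hi) c
  rw [g.w_sim hi, g.cr_hd_neg (g.sim_lt hi), ← hd_inv] at h
  rw [← h]; group

theorem cr_R2 {i : ℕ} (hi : i < T.l) (c : Fˣ) :
    g.nn i * g.X (T.sim i) (c : F) * (g.nn i)⁻¹ =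
      g.X (T.sim i) (-((c⁻¹ : Fˣ) : F)) * g.nn i * hd D T (T.sim i) c * g.X (T.sim i) (-((c⁻¹ : Fˣ) : F)) := by
  have h1 := g.nn_X_conj (F := F) hi (g.sim_lt hi) (c : F)
  rw [g.w_sim hi, g.eta_sim hi] at h1
  rw [h1]
  have h2 := g.Ng_tor (F := F) hi c⁻¹
  rw [g.cr_hd_swap hi] at h2
  unfold Ng at h2
  have e : -(((c⁻¹ : Fˣ) : F))⁻¹ = ((-1 : ℤ) : F) * (c : F) := by
    rw [← Units.val_inv_eq_inv_val, inv_inv]; push_cast; ring
  rw [e] at h2
  rw [mul_assoc (g.X (T.sim i) (-((c⁻¹ : Fˣ) : F))), ← h2, g.X_neg]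
  group

theorem cr_Ng_neg1 {i : ℕ} (hi : i < T.l) : g.Ng (T.n - 1 - T.sim i) (-1 : F) = g.nn i := by
  have h1 := g.nn_Ng (F := F) hi (g.sim_lt hi) 1
  rw [g.w_sim hi, g.eta_sim hi] at h1
  have h2 : g.nn i * g.Ng (T.sim i) (1 : F) * (g.nn i)⁻¹ = g.nn i := by
    show g.nn i * g.nn i * (g.nn i)⁻¹ = g.nn i
    group
  rw [h2] at h1
  have h3 : ((-1 : ℤ) : F) * 1 = -1 := by push_cast; ring
  rw [h3] at h1
  exact h1.symm

/-- the torus of a simple root -/
def _root_.CfsgLib.Chev.crH (D : ChevalleyDatum) (T : Tb) (F : Type*) [Field F] (i : ℕ) : Subgroup (GL D.Idx F) where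
  carrier := {x | ∃ c : Fˣ, x = hd D T (T.sim i) c}
  mul_mem' := by rintro _ _ ⟨c, rfl⟩ ⟨d, rfl⟩; exact ⟨c * d, (hd_mul _ _ _).symm⟩
  one_mem' := ⟨1, (hd_one _).symm⟩
  inv_mem' := by rintro _ ⟨c, rfl⟩; exact ⟨c⁻¹, (hd_inv _ _).symm⟩

omit g in
theorem cr_mem {i : ℕ} {x : GL D.Idx F} : x ∈ crH D T F i ↔ ∃ c : Fˣ, x = hd D T (T.sim i) c := Iff.rfl

theorem crH_le {i : ℕ} (hi : i < T.l) : crH D T F i ≤ D.diagonalSubgroup F := by
  rintro _ ⟨c, rfl⟩
  exact g.hd_mem (g.sim_lt hi) c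

theorem cr_sq {i : ℕ} (hi : i < T.l) : g.nn (F := F) i * g.nn i ∈ crH D T F i := ⟨-1, g.nn_sq hi⟩

theorem cr_comm {i : ℕ} (hi : i < T.l) {x : GL D.Idx F} (hx : x ∈ D.diagonalSubgroup F) :
    g.nn i * x * (g.nn i)⁻¹ * x⁻¹ ∈ crH D T F i := by
  have hab : ∀ a ∈ D.diagonalSubgroup F, ∀ b ∈ D.diagonalSubgroup F, a * b = b * a := by
    intro a ha b hb
    obtain ⟨α, rfl⟩ := g.mem_H.1 ha
    obtain ⟨β, rfl⟩ := g.mem_H.1 hb
    rw [hel_mul, hel_mul]
    congr 1; funext j; exact mul_comm _ _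
  let K : Subgroup (GL D.Idx F) :=
    { carrier := {x | x ∈ D.diagonalSubgroup F ∧ g.nn i * x * (g.nn i)⁻¹ * x⁻¹ ∈ crH D T F i}
      mul_mem' := by
        rintro a b ⟨ha, ha'⟩ ⟨hb, hb'⟩
        refine ⟨mul_mem ha hb, ?_⟩
        have hna := g.nn_H hi ha
        have hnb := g.nn_H hi hb
        have e : g.nn i * (a * b) * (g.nn i)⁻¹ * (a * b)⁻¹ =
            (g.nn i * a * (g.nn i)⁻¹ * a⁻¹) * (g.nn i * b * (g.nn i)⁻¹ * b⁻¹) := by
          have e1 : g.nn i * (a * b) * (g.nn i)⁻¹ * (a * b)⁻¹ = (g.nn i * a * (g.nn i)⁻¹) * ((g.nn i * b * (g.nn i)⁻¹ * b⁻¹) * a⁻¹) := by group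
          rw [e1, hab _ (mul_mem hnb (inv_mem hb)) _ (inv_mem ha)]
          group
        rw [e]
        exact mul_mem ha' hb'
      one_mem' := ⟨one_mem _, by
        have : g.nn (F := F) i * 1 * (g.nn i)⁻¹ * 1⁻¹ = 1 := by group
        rw [this]; exact one_mem _⟩
      inv_mem' := by
        rintro a ⟨ha, ha'⟩
        refine ⟨inv_mem ha, ?_⟩
        have hna := g.nn_H hi ha
        have e : g.nn i * a⁻¹ * (g.nn i)⁻¹ * a⁻¹⁻¹ = (g.nn i * a * (g.nn i)⁻¹ * a⁻¹)⁻¹ := by
          have e1 : g.nn i * a⁻¹ * (g.nn i)⁻¹ * a⁻¹⁻¹ = (g.nn i * a * (g.nn i)⁻¹)⁻¹ * a := by group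
          rw [e1, hab _ (inv_mem hna) _ ha]
          group
        rw [e]
        exact inv_mem ha' }
  have h : D.diagonalSubgroup F ≤ K := by
    apply g.H_le
    intro r hr c
    refine ⟨g.hd_mem hr c, ?_⟩
    rw [g.nn_hd hi hr, ← hd_inv, hd_hel, hd_hel, hel_mul]
    refine ⟨c ^ (T.c (T.w i r) i - T.c r i), ?_⟩
    rw [g.cr_hd_sim hi]
    apply g.cr_hel_congr
    intro j hj
    rw [_root_.inv_zpow, ← _root_.zpow_neg, ← _root_.zpow_add]
    split_ifs with h
    · subst h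
      rw [← sub_eq_add_neg]
    · rw [g.c_w hi hr hj, if_neg (Ne.symm h), sub_zero, add_neg_cancel, _root_.zpow_zero]
  exact (h hx).2

/-- elements represented by words in `J` lying in `H` -/
theorem cr_word {J : Set ℕ} : ∀ (k : ℕ) (w : List ℕ), w.length = k → VW T w → JW J w → (∀ r < T.n, wact T w r = r) →
    g.nw (F := F) w ∈ ⨆ j ∈ J, crH D T F j := by
  have hev := g.even
  intro k
  induction k using Nat.strong_induction_on with
  | _ k ih =>
    intro w hk hw hJ h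
    rcases List.eq_nil_or_concat w with rfl | ⟨w', i, rfl⟩
    · rw [nw_nil]; exact Subgroup.one_mem _
    · rw [List.concat_eq_append] at *
      have hw' : VW T w' := fun j hj => hw j (List.mem_append_left _ hj)
      have hJ' : JW J w' := fun j hj => hJ j (List.mem_append_left _ hj)
      have hi : i < T.l := hw i (List.mem_append_right _ (List.mem_singleton.2 rfl))
      have hiJ : i ∈ J := hJ i (List.mem_append_right _ (List.mem_singleton.2 rfl))
      have hs := g.sim_lt hi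
      have hsp := g.sim_pos hi
      have h1 : wact T w' (T.n - 1 - T.sim i) = T.sim i := by
        have := h (T.sim i) hs
        rw [wact_append, wact_cons, wact_nil, g.w_sim hi] at this
        exact this
      have h2 : wact T w' (T.sim i) < T.n / 2 := by
        have := g.wact_neg hw' hs
        rw [h1] at this
        have h3 := g.wact_lt hw' hs
        omega
      obtain ⟨w1, j, w2, rfl, h3⟩ := g.exch_pos hw' hs hsp h2
      have hw1 : VW T w1 := fun k hk => hw' k (List.mem_append_left _ hk)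
      have hw2 : VW T w2 := fun k hk => hw' k (List.mem_append_right _ (List.mem_cons_of_mem _ hk))
      have hJ1 : JW J w1 := fun k hk => hJ' k (List.mem_append_left _ hk)
      have hJ2 : JW J w2 := fun k hk => hJ' k (List.mem_append_right _ (List.mem_cons_of_mem _ hk))
      have hj : j < T.l := hw' j (List.mem_append_right _ List.mem_cons_self)
      -- nw w2 * nn i = nn j ^ (±1) * nw w2
      obtain ⟨e, h4⟩ : ∃ e : Fˣ, g.nn j * (g.nw w2 * g.nn i * (g.nw w2)⁻¹) = hd D T (T.sim j) e := by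
        have h5 := g.nw_Ng (F := F) hw2 hs 1
        rw [h3, mul_one] at h5
        have h6 : g.nw w2 * g.nn i * (g.nw w2)⁻¹ = g.Ng (T.sim j) ((sgn T w2 (T.sim i) : ℤ) : F) := h5
        rw [h6]
        rcases sgn_cases (T := T) w2 (T.sim i) with h7 | h7
        · rw [h7, Int.cast_one]
          exact ⟨-1, g.nn_sq hj⟩
        · rw [h7, Int.cast_neg, Int.cast_one, g.Ng_neg]
          refine ⟨1, ?_⟩
          rw [hd_one]
          exact mul_inv_cancel (g.nn j)
      have h8 : g.nw (F := F) (w1 ++ j :: w2 ++ [i]) = g.nw (w1 ++ w2) * hd D T (T.sim i) e := by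
        have e1 : g.nw [i] = (g.nn i : GL D.Idx F) := by simp [nw]
        rw [nw_append, nw_append, nw_append, nw_cons, e1]
        have e2 : g.nw (F := F) w1 * (g.nn j * g.nw w2) * g.nn i =
            g.nw w1 * (g.nn j * (g.nw w2 * g.nn i * (g.nw w2)⁻¹)) * g.nw w2 := by group
        have e3 := g.nw_hd (F := F) hw2 hs e
        rw [h3] at e3
        rw [e2, h4, ← e3]; group
      rw [h8]
      have hx : hd D T (T.sim i) e ∈ ⨆ j ∈ J, crH D T F j :=
        (le_iSup₂_of_le (f := fun j (_ : j ∈ J) => crH D T F j) i hiJ le_rfl) ⟨e, rfl⟩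
      apply Subgroup.mul_mem _ _ hx
      have hw12 : VW T (w1 ++ w2) := g.VW_append hw1 hw2
      apply ih (w1 ++ w2).length _ (w1 ++ w2) rfl hw12
      · intro k hk
        rcases List.mem_append.1 hk with hk | hk
        · exact hJ1 k hk
        · exact hJ2 k hk
      · intro r hr
        exact (g.wact_congr hw hw12 (g.hd_mem hs e) h8 r hr).symm.trans (h r hr)
      · rw [List.length_append, List.length_append, List.length_cons, List.length_singleton] at hk
        rw [List.length_append]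
        omega

/-- negative simple root outside `J` stays negative -/
theorem cr_low {J : Set ℕ} {w : List ℕ} (hw : VW T w) (hJ : JW J w) {j : ℕ} (hj : j < T.l) (hjJ : j ∉ J) :
    wact T w (T.n - 1 - T.sim j) < T.n / 2 := by
  have hev := g.even
  have hs := g.sim_lt hj
  rw [g.wact_neg hw hs]
  have h1 := g.v_wact_out hw hJ hs hj hjJ
  rw [g.v_sim hj hj, if_pos rfl] at h1
  have h2 := g.pos_of_v (g.wact_lt hw hs) hj (by rw [h1]; exact one_pos)
  have h3 := g.wact_lt hw hs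
  omega

/-- `V ∩ B = 1` -/
theorem cr_VB {v u h : GL D.Idx F} (hv : v ∈ D.negUnipotent F) (hu : u ∈ D.posUnipotent F) (hh : h ∈ D.diagonalSubgroup F)
    (e : v = u * h) : v = 1 := by
  obtain ⟨χ, _, rfl, _⟩ := g.H_X hh
  have h1 : dg D χ = (1 : GL D.Idx F) := by
    rw [← dg_one (D := D)]
    apply dg_congr
    intro r hr
    have h3 := (g.V_uni hv).1 (Sum.inr ⟨r, hr⟩) (Sum.inr ⟨r, hr⟩) (by omega)
    have h4 := (g.B_tri (U_le_B hu)).1
    have h5 := (g.B_tri (H_le_B hh)).1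
    have h6 := g.tri_diag_mul' h4 h5 ⟨r, hr⟩
    rw [← Units.val_mul, ← e, h3] at h6
    have h7 := (g.U_uni hu).1 (Sum.inr ⟨r, hr⟩) (Sum.inr ⟨r, hr⟩) (by omega)
    rw [h7, Matrix.one_apply_eq, one_mul, dg_val] at h6
    unfold ChevalleyDatum.charDiag at h6
    rw [Matrix.diagonal_apply_eq, Sum.elim_inr] at h6
    exact Units.ext h6.symm
  rw [h1, mul_one] at e
  exact g.U_inf_V (by rw [e]; exact hu) hv

end Good3
end CfsgLib.Chev
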