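import Cfsg.Agent.LibCR8

/-! The split BN-pair of a Chevalley group, the instance (lead). -/

set_option autoImplicit false
set_option linter.unusedSectionVars false

namespace CfsgLib.Chev

open Cfsg.Lie Matrix

namespace Good3

variable {D : ChevalleyDatum} {T : Tb} (g : Good3 D T) {F : Type*} [Field F]

/-- root subgroup -/
def crX (g : Good3 D T) (F : Type*) [Field F] (r : ℕ) : Subgroup (GL D.Idx F) where
  carrier := {x | ∃ t : F, x = g.X r t}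
  mul_mem' := by rintro _ _ ⟨t, rfl⟩ ⟨u, rfl⟩; exact ⟨t + u, (g.X_add r t u).symm⟩
  one_mem' := ⟨0, (g.X_zero r).symm⟩
  inv_mem' := by rintro _ ⟨t, rfl⟩; exact ⟨-t, (g.X_neg r t).symm⟩

include g

theorem cr_w0 : ∃ (w : List ℕ) (st : Fin T.l → Fin T.l), VW T w ∧ (∀ r, T.n / 2 ≤ r → r < T.n → wact T w r < T.n / 2) ∧
    Function.Injective st ∧ ∀ i, wact T w (T.sim (st i)) = T.n - 1 - T.sim i := by
  have hev := g.even
  obtain ⟨w, hw, hneg⟩ := g.exists_longest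
  have h : ∀ j : Fin T.l, ∃ i : Fin T.l, wact T w (T.sim i) = T.n - 1 - T.sim j := by
    intro j
    obtain ⟨i, hi, e⟩ := g.sa_long hw hneg j.2
    exact ⟨⟨i, hi⟩, e⟩
  choose st hst using h
  refine ⟨w, st, hw, hneg, ?_, hst⟩
  intro i j hij
  have h1 := hst i
  rw [hij, hst j] at h1
  have h2 := g.sim_lt i.2
  have h3 := g.sim_lt j.2
  have h4 : T.sim i = T.sim j := by omega
  have h5 := g.v_sim i.2 i.2
  rw [h4, g.v_sim j.2 i.2] at h5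
  by_contra hne
  have h6 : ¬ ((j : ℕ) = (i : ℕ)) := fun h => hne (Fin.ext h.symm)
  rw [if_neg h6, if_pos rfl] at h5
  exact zero_ne_one h5

theorem cr_nwX {w : List ℕ} (hw : VW T w) {r : ℕ} (hr : r < T.n) {x : GL D.Idx F} (hx : x ∈ g.crX F r) :
    g.nw w * x * (g.nw w)⁻¹ ∈ g.crX F (wact T w r) := by
  obtain ⟨t, rfl⟩ := hx
  exact ⟨_, g.nw_X hw hr t⟩

theorem cr_nnX {i r : ℕ} (hi : i < T.l) (hr : r < T.n) {x : GL D.Idx F} (hx : x ∈ g.crX F r) :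
    g.nn i * x * (g.nn i)⁻¹ ∈ g.crX F (T.w i r) := by
  obtain ⟨t, rfl⟩ := hx
  exact ⟨_, g.nn_X_conj hi hr t⟩

theorem cr_nnX' {i r : ℕ} (hi : i < T.l) (hr : r < T.n) {x : GL D.Idx F} (hx : x ∈ g.crX F r) :
    (g.nn i)⁻¹ * x * g.nn i ∈ g.crX F (T.w i r) := by
  obtain ⟨t, rfl⟩ := hx
  exact ⟨_, g.nn_X_conj' hi hr t⟩

/-- `m⁻¹ X_r m` for `m ∈ N` -/
theorem cr_Nact {m : GL D.Idx F} (hm : m ∈ D.monomialSubgroup F) : ∃ w, VW T w ∧ ∀ r < T.n, ∀ x ∈ g.crX F r,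
    m⁻¹ * x * m ∈ g.crX F (wact T w r) := by
  obtain ⟨w, hw, h⟩ := g.N_act (inv_mem hm)
  refine ⟨w, hw, ?_⟩
  rintro r hr _ ⟨t, rfl⟩
  obtain ⟨c, hc⟩ := h r hr
  have := hc t
  rw [inv_inv] at this
  exact ⟨_, this⟩

theorem cr_n0V {w : List ℕ} (hw : VW T w) (hneg : ∀ r, T.n / 2 ≤ r → r < T.n → wact T w r < T.n / 2) {v : GL D.Idx F}
    (hv : v ∈ D.negUnipotent F) : (g.nw w)⁻¹ * v * g.nw w ∈ D.posUnipotent F := by
  have hev := g.even
  have h : D.negUnipotent F ≤ (D.posUnipotent F).comap (MulAut.conj (g.nw w)⁻¹).toMonoidHom := by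
    conv_lhs => unfold ChevalleyDatum.negUnipotent
    rw [Subgroup.closure_le]
    rintro z ⟨s, u, hs, hz⟩
    rw [g.isNeg_iff] at hs
    rw [g.X_iff] at hz
    subst hz
    show (g.nw w)⁻¹ * g.X s u * (g.nw w)⁻¹⁻¹ ∈ D.posUnipotent F
    obtain ⟨r, hr, hrs⟩ := g.sa_wact_surj hw (s := s) (by omega)
    have hrp : T.n / 2 ≤ r := by
      by_contra hcon
      have h1 := hneg (T.n - 1 - r) (by omega) (by omega)
      rw [g.wact_neg hw hr, hrs] at h1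
      omega
    have h1 := g.nw_X (F := F) hw hr (((sgn T w r : ℤ) : F) * u)
    have h2 : ((sgn T w r : ℤ) : F) * (((sgn T w r : ℤ) : F) * u) = u := by
      rcases sgn_cases (T := T) w r with h | h <;> rw [h] <;> push_cast <;> ring
    rw [h2, hrs] at h1
    rw [← h1]
    have e : (g.nw w)⁻¹ * (g.nw w * g.X r (((sgn T w r : ℤ) : F) * u) * (g.nw w)⁻¹) * (g.nw w)⁻¹⁻¹ = g.X r (((sgn T w r : ℤ) : F) * u) := by group
    rw [e]
    exact g.X_mem_U hrp hr _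
  have := h hv
  have h2 : (g.nw w)⁻¹ * v * (g.nw w)⁻¹⁻¹ ∈ D.posUnipotent F := this
  rwa [inv_inv] at h2

theorem cr_n0U {w : List ℕ} (hw : VW T w) (hneg : ∀ r, T.n / 2 ≤ r → r < T.n → wact T w r < T.n / 2) {v : GL D.Idx F}
    (hv : v ∈ D.posUnipotent F) : g.nw w * v * (g.nw w)⁻¹ ∈ D.negUnipotent F := by
  have h : D.posUnipotent F ≤ (D.negUnipotent F).comap (MulAut.conj (g.nw w)).toMonoidHom := by
    conv_lhs => rw [g.U_eq]
    unfold Uge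
    rw [Subgroup.closure_le]
    rintro z ⟨s, u, h1, h2, rfl⟩
    show g.nw w * g.X s u * (g.nw w)⁻¹ ∈ D.negUnipotent F
    rw [g.nw_X hw h2]
    exact g.X_mem_V (hneg s h1 h2) _
  exact h hv

theorem cr_n0nn {w : List ℕ} (hw : VW T w) {i j : ℕ} (hi : i < T.l) (hj : j < T.l)
    (h : wact T w (T.sim j) = T.n - 1 - T.sim i) : ∃ x ∈ crH D T F j, (g.nw w)⁻¹ * g.nn i * g.nw w = g.nn j * x := by
  have h1 := g.nw_Ng (F := F) hw (g.sim_lt hj) 1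
  rw [h, mul_one] at h1
  have h1' : g.nw w * g.nn j * (g.nw w)⁻¹ = g.Ng (T.n - 1 - T.sim i) ((sgn T w (T.sim j) : ℤ) : F) := h1
  rcases sgn_cases (T := T) w (T.sim j) with h2 | h2
  · rw [h2, Int.cast_one] at h1'
    have h3 : g.Ng (T.n - 1 - T.sim i) (1 : F) = (g.nn i)⁻¹ := by
      have := g.cr_Ng_neg1 (F := F) hi
      rw [g.Ng_neg] at this
      rw [← this, inv_inv]
    rw [h3] at h1'
    refine ⟨(g.nn j * g.nn j)⁻¹, inv_mem (g.cr_sq hj), ?_⟩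
    have h4 : (g.nn i : GL D.Idx F) = g.nw w * (g.nn j)⁻¹ * (g.nw w)⁻¹ := by
      rw [← inv_inv (g.nn (F := F) i), ← h1']; group
    rw [h4]; group
  · rw [h2, Int.cast_neg, Int.cast_one, g.cr_Ng_neg1 hi] at h1'
    refine ⟨1, one_mem _, ?_⟩
    rw [← h1']; group

theorem cr_bru {x : GL D.Idx F} (hx : x ∈ D.group F) : ∃ u ∈ D.posUnipotent F, ∃ m ∈ D.monomialSubgroup F,
    ∃ u' ∈ D.posUnipotent F, x = u * m * u' := by
  obtain ⟨b, hb, n, hn, u, hu, rfl⟩ := g.bruhat hx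
  obtain ⟨u1, hu1, h, hh, rfl⟩ := g.mem_B.1 hb
  exact ⟨u1, hu1, h * n, mul_mem (H_le_N hh) hn, u, hu, by group⟩

theorem cr_facN {m : GL D.Idx F} (hm : m ∈ D.monomialSubgroup F) {u : GL D.Idx F} (hu : u ∈ D.posUnipotent F) :
    ∃ a ∈ D.posUnipotent F, m⁻¹ * a * m ∈ D.negUnipotent F ∧ ∃ b ∈ D.posUnipotent F, m⁻¹ * b * m ∈ D.posUnipotent F ∧ u = a * b := by
  obtain ⟨w, hw, h, hh, e⟩ := g.mem_N.1 (inv_mem hm)
  obtain ⟨χ, _, _, hX⟩ := g.H_X hh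
  have hh' := inv_mem hh
  -- m⁻¹ = nw w * h
  have hu2 : h * u⁻¹ * h⁻¹ ∈ D.posUnipotent F := g.H_norm_U hh (inv_mem hu)
  obtain ⟨a, ha, ha2, c, hc, e2⟩ := g.Um_decomp (F := F) _ w rfl hw _ hu2
  -- u⁻¹ = (h⁻¹ a h)(h⁻¹ c h); u = (h⁻¹ c⁻¹ h) (h⁻¹ a⁻¹ h)
  have hcU : c ∈ D.posUnipotent F := g.Um_le_U w hc
  refine ⟨h⁻¹ * c⁻¹ * h⁻¹⁻¹, g.H_norm_U hh' (inv_mem hcU), ?_, h⁻¹ * a⁻¹ * h⁻¹⁻¹, g.H_norm_U hh' (inv_mem ha), ?_, ?_⟩
  · have e3 : m = (g.nw w * h)⁻¹ := by rw [← e, inv_inv]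
    have e4 : m⁻¹ * (h⁻¹ * c⁻¹ * h⁻¹⁻¹) * m = (g.nw w * c * (g.nw w)⁻¹)⁻¹ := by
      rw [e, e3]; group
    rw [e4]
    exact inv_mem (g.Um_conj hw hc)
  · have e3 : m = (g.nw w * h)⁻¹ := by rw [← e, inv_inv]
    have e4 : m⁻¹ * (h⁻¹ * a⁻¹ * h⁻¹⁻¹) * m = (g.nw w * a * (g.nw w)⁻¹)⁻¹ := by
      rw [e, e3]; group
    rw [e4]
    exact inv_mem ha2
  · have e3 : u = h⁻¹ * (h * u⁻¹ * h⁻¹)⁻¹ * h := by group
    rw [e3, e2]; group

theorem cr_bru_u {m m' u u' : GL D.Idx F} (hm : m ∈ D.monomialSubgroup F) (hm' : m' ∈ D.monomialSubgroup F)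
    (hu : u ∈ D.posUnipotent F) (hu' : u' ∈ D.posUnipotent F) (e : u * m * u' = m') : m = m' := by
  have h1 := g.bruhat_uniq hm hm' (U_le_B hu) (U_le_B hu') e.symm
  obtain ⟨a, ha, ha2, b, hb, hb2, rfl⟩ := g.cr_facN hm hu
  -- m⁻¹ a m = h u'⁻¹ (m⁻¹ b m)⁻¹
  set h := m⁻¹ * m' with hdef
  have e1 : m⁻¹ * a * m = h * u'⁻¹ * (m⁻¹ * b * m)⁻¹ := by
    have : h * u'⁻¹ = m⁻¹ * (a * b * m * u') * u'⁻¹ := by rw [e, hdef]
    rw [this]; group
  have e2 : h * u'⁻¹ * (m⁻¹ * b * m)⁻¹ = (h * (u'⁻¹ * (m⁻¹ * b * m)⁻¹) * h⁻¹) * h := by group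
  have hU : u'⁻¹ * (m⁻¹ * b * m)⁻¹ ∈ D.posUnipotent F := mul_mem (inv_mem hu') (inv_mem hb2)
  have e3 := g.cr_VB ha2 (g.H_norm_U h1 hU) h1 (by rw [e1, e2])
  -- h = 1
  rw [e3] at e1
  have h4 : h = m⁻¹ * b * m * u' := by
    have : h = (h * u'⁻¹ * (m⁻¹ * b * m)⁻¹) * (m⁻¹ * b * m) * u' := by group
    rw [this, ← e1, one_mul]
  have h5 : h ∈ D.posUnipotent F := by rw [h4]; exact mul_mem hb2 hu'
  have h6 : h ∈ (D.posUnipotent F ⊓ D.diagonalSubgroup F : Subgroup (GL D.Idx F)) := ⟨h5, h1⟩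
  rw [g.U_inf_H, Subgroup.mem_bot] at h6
  rw [hdef] at h6
  exact (eq_of_inv_mul_eq_one h6)

theorem crX_inf {r : ℕ} (hr : r < T.n) (c : Fˣ) : g.X r (c : F) ≠ 1 := by
  rw [Ne, g.X_eq_one hr]
  exact c.ne_zero

end Good3

/-- `n_i` in the group -/
noncomputable def crn {D : ChevalleyDatum} {T : Tb} (g : Good3 D T) (F : Type*) [Field F] (i : Fin T.l) : ↥(D.group F) :=
  ⟨g.nn i, g.N_le_G (g.nn_mem_N i.2)⟩

open Classical in
/-- torus element of a root element -/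
noncomputable def crhh {D : ChevalleyDatum} {T : Tb} (g : Good3 D T) {F : Type*} [Field F] (i : ℕ) (x : GL D.Idx F) : GL D.Idx F :=
  if h : ∃ c : Fˣ, x = g.X (T.sim i) (c : F) then hd D T (T.sim i) h.choose else 1

theorem crhh_eq {D : ChevalleyDatum} {T : Tb} (g : Good3 D T) {F : Type*} [Field F] {i : ℕ} (hi : i < T.l) (c : Fˣ) :
    crhh g i (g.X (T.sim i) (c : F)) = hd D T (T.sim i) c := by
  unfold crhh
  have h : ∃ c' : Fˣ, g.X (T.sim i) (c : F) = g.X (T.sim i) (c' : F) := ⟨c, rfl⟩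
  rw [dif_pos h]
  have h2 := g.X_inj (g.sim_lt hi) h.choose_spec
  rw [← Units.ext h2]

open Classical in
theorem crhh_mem {D : ChevalleyDatum} {T : Tb} (g : Good3 D T) {F : Type*} [Field F] {i : ℕ} (_hi : i < T.l) (x : GL D.Idx F) :
    crhh g i x ∈ crH D T F i := by
  unfold crhh
  split_ifs with h
  · exact ⟨_, rfl⟩
  · exact one_mem _

/-- parameters of the instance -/
structure CrP {D : ChevalleyDatum} {T : Tb} (g : Good3 D T) where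
  w : List ℕ
  st : Fin T.l → Fin T.l
  hw : VW T w
  hneg : ∀ r, T.n / 2 ≤ r → r < T.n → wact T w r < T.n / 2
  inj : Function.Injective st
  hst : ∀ i, wact T w (T.sim (st i)) = T.n - 1 - T.sim i

theorem crP_nonempty {D : ChevalleyDatum} {T : Tb} (g : Good3 D T) : Nonempty (CrP g) := by
  obtain ⟨w, st, h1, h2, h3, h4⟩ := g.cr_w0
  exact ⟨⟨w, st, h1, h2, h3, h4⟩⟩

section inst

variable {D : ChevalleyDatum} {T : Tb} (g : Good3 D T) (P : CrP g) (F : Type*) [Field F] [Fintype F] (p : ℕ) [Fact p.Prime] [CharP F p]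

theorem cr_st_neg {i : Fin T.l} : wact T P.w (T.n - 1 - T.sim (P.st i)) = T.sim i := by
  have hs := g.sim_lt (P.st i).2
  have hs' := g.sim_lt i.2
  rw [g.wact_neg P.hw hs, P.hst]; omega

theorem cr_stX {F : Type*} [Field F] {i : Fin T.l} {x : GL D.Idx F} (hx : x ∈ g.crX F (T.sim i)) :
    (g.nw P.w)⁻¹ * x * g.nw P.w ∈ g.crX F (T.n - 1 - T.sim (P.st i)) := by
  obtain ⟨t, rfl⟩ := hx
  have hs := g.sim_lt (P.st i).2
  have h := g.nw_X (F := F) P.hw (r := T.n - 1 - T.sim (P.st i)) (by omega) (((sgn T P.w (T.n - 1 - T.sim (P.st i)) : ℤ) : F) * t)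
  have h2 : ((sgn T P.w (T.n - 1 - T.sim (P.st i)) : ℤ) : F) * (((sgn T P.w (T.n - 1 - T.sim (P.st i)) : ℤ) : F) * t) = t := by
    rcases Good3.sgn_cases (T := T) P.w (T.n - 1 - T.sim (P.st i)) with h | h <;> rw [h] <;> push_cast <;> ring
  rw [h2, cr_st_neg] at h
  refine ⟨((sgn T P.w (T.n - 1 - T.sim (P.st i)) : ℤ) : F) * t, ?_⟩
  rw [← h]; group

/-- the split BN-pair of a Chevalley group -/
noncomputable def crDat : CR.Dat ↥(D.group F) p where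
  ι := Fin T.l
  U := (D.posUnipotent F).subgroupOf (D.group F)
  V := (D.negUnipotent F).subgroupOf (D.group F)
  H := (D.diagonalSubgroup F).subgroupOf (D.group F)
  N := (D.monomialSubgroup F).subgroupOf (D.group F)
  X i := (g.crX F (T.sim i)).subgroupOf (D.group F)
  Y i := (g.crX F (T.n - 1 - T.sim i)).subgroupOf (D.group F)
  UU i := (g.Up i).subgroupOf (D.group F)
  VV i := ((g.Up (P.st i)).map (MulAut.conj (g.nw P.w)).toMonoidHom).subgroupOf (D.group F)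
  n := crn g F
  hh i x := ⟨crhh g i x, g.H_le_G (g.crH_le i.2 (crhh_mem g i.2 _))⟩
  n0 := ⟨g.nw P.w, g.N_le_G (g.nw_mem_N P.hw)⟩
  pU := (g.U_pgroup (p := p)).of_equiv (Subgroup.subgroupOfEquivOfLe g.U_le_G).symm
  pV := by
    rintro ⟨⟨x, hx'⟩, hx⟩
    obtain ⟨k, hk⟩ := UGL_pow (p := p) (g.V_uni hx)
    exact ⟨k, Subtype.ext (Subtype.ext hk)⟩
  UV := fun x hx hx' => Subtype.ext (g.U_inf_V hx hx')
  HN := fun x hx => Good3.H_le_N hx
  nN := fun i => g.nn_mem_N i.2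
  HU := fun h hh u hu => g.H_norm_U hh hu
  HV := fun h hh u hu => g.H_norm_V hh hu
  Hcomm := by
    rintro ⟨a, ha'⟩ ha ⟨b, hb'⟩ hb
    obtain ⟨α, hα⟩ := g.mem_H.1 ha
    obtain ⟨β, hβ⟩ := g.mem_H.1 hb
    apply Subtype.ext
    show a * b = b * a
    have hα' : a = hel D T α := hα
    have hβ' : b = hel D T β := hβ
    rw [hα', hβ', Good3.hel_mul, Good3.hel_mul]
    apply congrArg; funext j; exact mul_comm _ _
  Hp := by
    rintro ⟨x, hx'⟩ hx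
    have h1 : orderOf (⟨x, hx'⟩ : ↥(D.group F)) ∣ Nat.card ((D.diagonalSubgroup F).subgroupOf (D.group F)) := by
      have := orderOf_dvd_natCard (⟨⟨x, hx'⟩, hx⟩ : (D.diagonalSubgroup F).subgroupOf (D.group F))
      rwa [Subgroup.orderOf_mk] at this
    rw [Nat.card_congr (Subgroup.subgroupOfEquivOfLe g.H_le_G).toEquiv] at h1
    have h2 := h1.trans (g.card_H_dvd (F := F))
    have hp : p ∣ Fintype.card F := by
      rw [← CharP.cast_eq_zero_iff F p]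
      exact FiniteField.cast_card_eq_zero F
    have h3 : (Fintype.card F - 1).Coprime p := by
      have h4 : 1 ≤ Fintype.card F := Fintype.card_pos
      have h5 : (Fintype.card F).Coprime (Fintype.card F - 1) := by
        have : Fintype.card F = (Fintype.card F - 1) + 1 := by omega
        conv_lhs => rw [this]
        exact (Nat.coprime_self_add_left ..).2 (by simp)
      exact (Nat.Coprime.coprime_dvd_left hp h5).symm
    exact Nat.Coprime.coprime_dvd_left h2 (h3.pow_left _)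
  NH := fun m hm h hh => g.N_H hm hh
  XU := by
    rintro i ⟨x, hx'⟩ ⟨t, ht⟩
    have ht' : x = g.X (T.sim i) t := ht
    subst ht'
    exact g.X_mem_U (g.sim_pos i.2) (g.sim_lt i.2) t
  YV := by
    rintro i ⟨x, hx'⟩ ⟨t, ht⟩
    have ht' : x = g.X (T.n - 1 - T.sim i) t := ht
    subst ht'
    have h1 := g.sim_pos i.2
    have h2 := g.sim_lt i.2
    have hev := g.even
    exact g.X_mem_V (by omega) t
  UUU := fun i x hx => g.Up_le_U i hx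
  VVV := by
    rintro i ⟨x, hx'⟩ ⟨y, hy, e⟩
    have e' : g.nw P.w * y * (g.nw P.w)⁻¹ = x := e
    subst e'
    exact g.cr_n0U P.hw P.hneg (g.Up_le_U _ hy)
  nX := by
    intro i x hx
    have := g.cr_nnX i.2 (g.sim_lt i.2) hx
    rw [g.w_sim i.2] at this
    exact this
  nX' := by
    intro i x hx
    have := g.cr_nnX' i.2 (r := T.n - 1 - T.sim i) (by have := g.sim_lt i.2; omega) hx
    rw [g.w_neg i.2 (g.sim_lt i.2), g.w_sim i.2] at this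
    have h2 := g.sim_lt i.2
    have e : T.n - 1 - (T.n - 1 - T.sim i) = T.sim i := by omega
    rw [e] at this
    exact this
  nY := by
    intro i x hx
    have := g.cr_nnX i.2 (r := T.n - 1 - T.sim i) (by have := g.sim_lt i.2; omega) hx
    rw [g.w_neg i.2 (g.sim_lt i.2), g.w_sim i.2] at this
    have h2 := g.sim_lt i.2
    have e : T.n - 1 - (T.n - 1 - T.sim i) = T.sim i := by omega
    rw [e] at this
    exact this
  nY' := by
    intro i x hx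
    have := g.cr_nnX' i.2 (g.sim_lt i.2) hx
    rw [g.w_sim i.2] at this
    exact this
  nUU := fun i x hx => g.Up_nn i.2 hx
  nUU' := by
    rintro i ⟨x, hx'⟩ hx
    show (g.nn i)⁻¹ * x * g.nn i ∈ g.Up i
    have h1 := g.Up_nn i.2 hx
    have h2 := g.Up_H (inv_mem (g.nn_sq_mem (F := F) i.2)) h1
    have e : (g.nn (F := F) i * g.nn i)⁻¹ * (g.nn i * x * (g.nn i)⁻¹) * (g.nn (F := F) i * g.nn i)⁻¹⁻¹ = (g.nn i)⁻¹ * x * g.nn i := by group
    have h3 : (g.nn (F := F) i * g.nn i)⁻¹ * (g.nn i * x * (g.nn i)⁻¹) * (g.nn (F := F) i * g.nn i)⁻¹⁻¹ ∈ g.Up i := h2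
    rwa [e] at h3
  nVV := by
    rintro i ⟨x, hx'⟩ ⟨y, hy, e⟩
    have e' : g.nw P.w * y * (g.nw P.w)⁻¹ = x := e
    obtain ⟨z, hz, e2⟩ := g.cr_n0nn (F := F) P.hw i.2 (P.st i).2 (P.hst i)
    refine ⟨g.nn (P.st i) * (z * y * z⁻¹) * (g.nn (P.st i))⁻¹, g.Up_nn (P.st i).2 (g.Up_H (g.crH_le (P.st i).2 hz) hy), ?_⟩
    show g.nw P.w * (g.nn (P.st i) * (z * y * z⁻¹) * (g.nn (P.st i))⁻¹) * (g.nw P.w)⁻¹ = g.nn i * x * (g.nn i)⁻¹
    have e3 : g.nn i = g.nw P.w * (g.nn (P.st i) * z) * (g.nw P.w)⁻¹ := by rw [← e2]; group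
    rw [e3, ← e']; group
  facU := by
    rintro i ⟨u, hu'⟩ hu
    have h1 : u⁻¹ ∈ D.posUnipotent F := inv_mem hu
    obtain ⟨y, hy, t, e⟩ := (g.U_decomp i.2).1 h1
    refine ⟨⟨g.X (T.sim i) (-t), g.X_mem_G _ _⟩, ⟨-t, rfl⟩, ⟨y⁻¹, g.U_le_G (g.Up_le_U i (inv_mem hy))⟩, inv_mem hy, ?_⟩
    apply Subtype.ext
    show u = g.X (T.sim i) (-t) * y⁻¹
    rw [← inv_inv u, e, g.X_neg]; group
  facV := by
    rintro i ⟨v, hv'⟩ hv
    have h1 := g.cr_n0V P.hw P.hneg hv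
    obtain ⟨y, hy, t, e⟩ := (g.U_decomp (P.st i).2).1 h1
    have hVG : g.nw P.w * y * (g.nw P.w)⁻¹ ∈ D.group F := g.V_le_G (g.cr_n0U P.hw P.hneg (g.Up_le_U _ hy))
    have h2 := g.nw_X (F := F) P.hw (g.sim_lt (P.st i).2) t
    rw [P.hst] at h2
    refine ⟨⟨g.nw P.w * y * (g.nw P.w)⁻¹, hVG⟩, ⟨y, hy, rfl⟩,
      ⟨g.X (T.n - 1 - T.sim i) (((sgn T P.w (T.sim (P.st i)) : ℤ) : F) * t), g.X_mem_G _ _⟩, ⟨_, rfl⟩, ?_⟩
    apply Subtype.ext
    show v = g.nw P.w * y * (g.nw P.w)⁻¹ * g.X (T.n - 1 - T.sim i) (((sgn T P.w (T.sim (P.st i)) : ℤ) : F) * t)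
    rw [← h2]
    have e' : (g.nw P.w)⁻¹ * v * g.nw P.w = y * g.X (T.sim (P.st i)) t := e
    have : v = g.nw P.w * ((g.nw P.w)⁻¹ * v * g.nw P.w) * (g.nw P.w)⁻¹ := by group
    rw [this, e']; group
  XUU := by
    rintro i ⟨x, hx'⟩ ⟨t, ht⟩ w hw
    have ht' : x = g.X (T.sim i) t := ht
    subst ht'
    have := g.Up_norm i.2 (Or.inl rfl) (-t) hw
    rw [g.X_neg, inv_inv] at this
    exact this
  sq := fun i => g.nn_sq_mem i.2
  R2 := by
    rintro i ⟨x, hx'⟩ ⟨t, ht⟩ hx1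
    have ht' : x = g.X (T.sim i) t := ht
    have ht0 : t ≠ 0 := by
      rintro rfl
      apply hx1
      apply Subtype.ext
      show x = 1
      rw [ht', g.X_zero]
    have e1 : x = g.X (T.sim i) ((Units.mk0 t ht0 : Fˣ) : F) := ht'
    refine ⟨g.crH_le i.2 (crhh_mem g i.2 _), ⟨g.X (T.sim i) (-(((Units.mk0 t ht0)⁻¹ : Fˣ) : F)), g.X_mem_G _ _⟩, ⟨_, rfl⟩,
      ⟨g.X (T.sim i) (-(((Units.mk0 t ht0)⁻¹ : Fˣ) : F)), g.X_mem_G _ _⟩, ⟨_, rfl⟩, ?_⟩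
    apply Subtype.ext
    show g.nn i * x * (g.nn i)⁻¹ = g.X (T.sim i) (-(((Units.mk0 t ht0)⁻¹ : Fˣ) : F)) * g.nn i * crhh g i x *
      g.X (T.sim i) (-(((Units.mk0 t ht0)⁻¹ : Fˣ) : F))
    rw [e1, crhh_eq g i.2, g.cr_R2 i.2]
  dich := by
    rintro i ⟨m, hm'⟩ hm
    obtain ⟨w, hw, h⟩ := g.cr_Nact hm
    have h1 := g.sim_lt i.2
    have hev := g.even
    have h2 := g.wact_lt hw h1
    have h3 := g.wact_neg hw h1
    have h4 := h (T.sim i) h1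
    have h5 := h (T.n - 1 - T.sim i) (by omega)
    have hU : ∀ r, T.n / 2 ≤ r → r < T.n → ∀ x ∈ g.crX F r, x ∈ D.posUnipotent F := by
      rintro r hr hr' _ ⟨t, rfl⟩; exact g.X_mem_U hr hr' t
    have hV : ∀ r, r < T.n / 2 → ∀ x ∈ g.crX F r, x ∈ D.negUnipotent F := by
      rintro r hr _ ⟨t, rfl⟩; exact g.X_mem_V hr t
    by_cases hc : T.n / 2 ≤ wact T w (T.sim i)
    · left
      refine ⟨fun x hx => hU _ hc h2 _ (h4 x hx), fun y hy => hV _ ?_ _ (h5 y hy)⟩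
      rw [h3]; omega
    · right
      refine ⟨fun x hx => hV _ (by omega) _ (h4 x hx), fun y hy => hU _ ?_ ?_ _ (h5 y hy)⟩
      · rw [h3]; omega
      · rw [h3]; omega
  facN := by
    rintro ⟨m, hm'⟩ hm ⟨u, hu'⟩ hu
    obtain ⟨a, ha, ha2, b, hb, hb2, e⟩ := g.cr_facN hm hu
    exact ⟨⟨a, g.U_le_G ha⟩, ha, ha2, ⟨b, g.U_le_G hb⟩, hb, hb2, Subtype.ext e⟩
  gen := by
    rw [eq_top_iff]
    rintro ⟨x, hx⟩ _
    set C : Subgroup ↥(D.group F) := Subgroup.closure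
      ((((D.negUnipotent F).subgroupOf (D.group F) : Subgroup ↥(D.group F)) : Set ↥(D.group F)) ∪
        ((D.diagonalSubgroup F).subgroupOf (D.group F) : Subgroup ↥(D.group F)) ∪
        Set.range (crn g F)) with hC
    have hn : ∀ i : Fin T.l, crn g F i ∈ C :=
      fun i => Subgroup.subset_closure (Or.inr ⟨i, rfl⟩)
    have hle : D.group F ≤ C.map (D.group F).subtype := by
      apply g.G_le
      · intro i hi t
        have h1 := g.sim_lt hi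
        have h2 := g.sim_pos hi
        have hev := g.even
        have hv : (⟨g.X (T.n - 1 - T.sim i) (((T.eta i (T.sim i) : ℤ) : F) * t), g.X_mem_G _ _⟩ : ↥(D.group F)) ∈ C :=
          Subgroup.subset_closure (Or.inl (Or.inl (g.X_mem_V (by omega) _)))
        have h3 := g.nn_X_conj (F := F) hi h1 t
        rw [g.w_sim hi] at h3
        refine ⟨_, mul_mem (mul_mem (inv_mem (hn ⟨i, hi⟩)) hv) (hn ⟨i, hi⟩), ?_⟩
        show (g.nn i)⁻¹ * g.X (T.n - 1 - T.sim i) (((T.eta i (T.sim i) : ℤ) : F) * t) * g.nn i = g.X (T.sim i) t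
        rw [← h3]; group
      · intro i hi
        exact ⟨_, hn ⟨i, hi⟩, rfl⟩
    obtain ⟨y, hy, e⟩ := hle hx
    have : y = ⟨x, hx⟩ := Subtype.ext e
    rw [← this]; exact hy
  Xne := by
    intro i
    refine ⟨⟨g.X (T.sim i) 1, g.X_mem_G _ _⟩, ⟨1, rfl⟩, ?_⟩
    intro h
    have h1 : g.X (T.sim i) (1 : F) = 1 := congrArg Subtype.val h
    rw [g.X_eq_one (g.sim_lt i.2)] at h1
    exact one_ne_zero h1
  n0U := fun u hu => g.cr_n0U P.hw P.hneg hu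
  n0V := fun u hu => g.cr_n0V P.hw P.hneg hu

end inst

end CfsgLib.Chev
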