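import Mathlib
import Cfsg.Agent.EqBase
import Cfsg.Agent.LibCar4
import Cfsg.Agent.LibCon19
import Cfsg.Agent.S4438

/-!
# Weights (helper18)
-/

set_option autoImplicit false
set_option linter.unusedSectionVars false
set_option linter.style.haveILetI false
set_option linter.unusedSimpArgs false
set_option linter.unusedVariables false

namespace CfsgLib.Car

open CfsgLib.CharInt hiding irr_isCharacter irr_classFun irr_one_ne_zero schur_scalar
open Cfsg CfsgLib.CharInt2 CfsgLib.CharBasic CfsgLib.BlockR CfsgLib.BlockCore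
  CfsgLib.BlockIdem CfsgLib.BlockIdeal CfsgLib.BlockConj CfsgLib.BlockBrauer CfsgLib.BlockInd
  CfsgLib.BlockFMT CfsgLib.BlockFMT2 CfsgLib.PLocalInd CfsgLib.BlockOrth CfsgLib.BlockDefect
  CfsgLib.BlockReg CfsgLib.BlockReg2 CfsgLib.BlockCount CfsgLib.BlockCount2 CfsgLib.BlockQP
  CfsgLib.BlockCov3 CfsgLib.BlockCov4 CfsgLib.BlockLoc CfsgLib.BlockM CfsgLib.BlockSec3
  CfsgLib.BlockSec CfsgLib.CharNorm CfsgLib.BlockPC
open scoped ComplexConjugate

universe u

variable {M : Ideal AlgInt} {p : ℕ} [Fact p.Prime]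

theorem sum_comp_surj {A B : Type*} [Group A] [Fintype A] [Group B] [Fintype B] (f : A →* B)
    (hf : Function.Surjective f) (F : B → ℂ) :
    ∑ a : A, F (f a) = (Nat.card f.ker : ℂ) * ∑ b : B, F b := by
  classical
  rw [← Finset.sum_fiberwise Finset.univ (fun a : A => f a), Finset.mul_sum]
  refine Finset.sum_congr rfl fun b _ => ?_
  have h1 : ∀ a ∈ Finset.univ.filter (fun a : A => f a = b), F (f a) = F b := by
    intro a ha
    rw [Finset.mem_filter] at ha
    rw [ha.2]
  rw [Finset.sum_congr rfl h1, Finset.sum_const, nsmul_eq_mul]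
  congr 2
  obtain ⟨a₀, rfl⟩ := hf b
  rw [Nat.card_eq_fintype_card, Fintype.card_subtype]
  refine Finset.card_bij (fun a _ => a₀⁻¹ * a) ?_ ?_ ?_
  · intro a ha
    rw [Finset.mem_filter] at ha ⊢
    refine ⟨Finset.mem_univ _, ?_⟩
    rw [MonoidHom.mem_ker, map_mul, map_inv, ha.2, inv_mul_cancel]
  · intro a _ b _ h
    exact mul_left_cancel h
  · intro a ha
    rw [Finset.mem_filter] at ha
    refine ⟨a₀ * a, ?_, by group⟩
    rw [Finset.mem_filter]
    refine ⟨Finset.mem_univ _, ?_⟩
    rw [map_mul, MonoidHom.mem_ker.1 ha.2, mul_one]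

theorem card_ker_mul {A B : Type*} [Group A] [Finite A] [Group B] [Finite B] (f : A →* B)
    (hf : Function.Surjective f) : Nat.card A = Nat.card f.ker * Nat.card B := by
  rw [Subgroup.card_eq_card_quotient_mul_card_subgroup f.ker, mul_comm]
  congr 1
  exact Nat.card_congr (QuotientGroup.quotientKerEquivOfSurjective f hf).toEquiv

theorem inner_comp_surj' {A B : Type*} [Group A] [Fintype A] [Group B] [Fintype B] (f : A →* B)
    (hf : Function.Surjective f) (F F' : B → ℂ) :
    classInner (fun a => F (f a)) (fun a => F' (f a)) = classInner F F' := by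
  unfold classInner
  rw [sum_comp_surj f hf (fun b => F b * conj (F' b)), card_ker_mul f hf]
  have h1 : (Nat.card f.ker : ℂ) ≠ 0 := by exact_mod_cast Nat.card_pos.ne'
  have h2 : (Nat.card B : ℂ) ≠ 0 := by exact_mod_cast Nat.card_pos.ne'
  push_cast
  field_simp

variable {G : Type u} [Group G] [Fintype G]

/-- a defect zero character gives a trivial defect group -/
theorem defect_zero_trivial (hM : IsPModular p M) {χ : IrrCharacter G}
    (h : (charDegree (χ : G → ℂ)).factorization p = (Nat.card G).factorization p) :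
    IsPBlock M ({χ} : Set (IrrCharacter G)) ∧ blockDefect p ({χ} : Set (IrrCharacter G)) = 0 ∧
      ∀ D : Subgroup G, IsDefectGroup p M ({χ} : Set (IrrCharacter G)) D → D = ⊥ := by
  have hB : IsPBlock M ({χ} : Set (IrrCharacter G)) := ⟨χ, (defect_zero_block hM h).symm⟩
  have hd : blockDefect p ({χ} : Set (IrrCharacter G)) = 0 := by
    obtain ⟨χ', hχ', h'⟩ := exists_height_zero hM hB
    rw [Set.mem_singleton_iff] at hχ'
    subst hχ'
    omega
  refine ⟨hB, hd, fun D hD => ?_⟩
  have := card_defectGroup hM hB hD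
  rw [hd, pow_zero] at this
  exact Subgroup.card_eq_one.1 this

/-- constituents of a defect zero character in a normal subgroup have defect zero -/
theorem defect_zero_under (hM : IsPModular p M) {χ : IrrCharacter G}
    (h : (charDegree (χ : G → ℂ)).factorization p = (Nat.card G).factorization p)
    {N : Subgroup G} [N.Normal] [Fintype N] {φ : IrrCharacter N}
    (hφ : classInner (fun n : N => (χ : G → ℂ) n) (φ : N → ℂ) ≠ 0) :
    (charDegree (φ : N → ℂ)).factorization p = (Nat.card N).factorization p := by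
  have hp := isPrime_of_modular hM
  obtain ⟨hB, hd, hD⟩ := defect_zero_trivial hM h
  set b : Set (IrrCharacter N) := blockOf M (φ : N → ℂ) with hb
  have hbb : IsPBlock M b := ⟨φ, rfl⟩
  have hφb : φ ∈ b := mem_blockOf_self hp φ
  obtain ⟨Q, hQ⟩ := exists_defectGroup hM hbb
  have hQ' : IsDefectGroup p M b ((Q.map N.subtype).subgroupOf N) := by
    have : (Q.map N.subtype).subgroupOf N = Q :=
      Subgroup.comap_map_eq_self_of_injective (Subgroup.subtype_injective N) Q
    rwa [this]
  have hQN : Q.map N.subtype ≤ N := by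
    rintro _ ⟨x, _, rfl⟩; exact x.2
  obtain ⟨P, hP, hPN⟩ := Cfsg.Agent.S4438.result p M hM N b hbb (Q.map N.subtype) hQN hQ' {χ} hB
    ⟨χ, rfl, φ, hφb, hφ⟩
  have hP1 := hD P hP
  rw [hP1, bot_inf_eq] at hPN
  have hQ1 : Q = ⊥ := by
    have := Subgroup.map_eq_bot_iff_of_injective (H := Q) (f := N.subtype) (Subgroup.subtype_injective N)
    exact this.1 hPN.symm
  have hc := card_defectGroup hM hbb hQ
  rw [hQ1, Subgroup.card_bot] at hc
  have hd0 : blockDefect p b = 0 := by
    by_contra hne
    exact (Nat.one_lt_pow hne (Fact.out : p.Prime).one_lt).ne' hc.symm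
  have h1 := degree_eq hM hbb hφb
  rw [hd0] at h1
  have h2 : (charDegree (φ : N → ℂ)).factorization p ≤ (Nat.card N).factorization p :=
    (Nat.factorization_le_iff_dvd (irr_charDegree_pos φ.2).ne' Nat.card_pos.ne').mpr
      (charDegree_dvd_card φ.2) p
  omega

/-- no normal `p`-subgroup when there is a defect zero character -/
theorem defect_zero_core (hM : IsPModular p M) {χ : IrrCharacter G}
    (h : (charDegree (χ : G → ℂ)).factorization p = (Nat.card G).factorization p)
    {R : Subgroup G} [R.Normal] (hR : IsPGroup p R) : R = ⊥ := by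
  obtain ⟨hB, hd, hD⟩ := defect_zero_trivial hM h
  obtain ⟨D, hD'⟩ := exists_defectGroup hM hB
  have := normal_le_defect hM hB hD' hR
  rw [hD D hD', le_bot_iff] at this
  exact this

theorem blockPart_eq_prj (B : Set (IrrCharacter G)) (f : G → ℂ) : blockPart B f = prj B f := by
  funext x
  rw [prj_apply, blockPart_expand]
  apply Finset.sum_congr rfl
  intro χ _
  ring

theorem blockPart_irr {B : Set (IrrCharacter G)} {χ : IrrCharacter G} (hχ : χ ∈ B) (y : G) :
    blockPart B (χ : G → ℂ) y = (χ : G → ℂ) y := by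
  classical
  rw [blockPart_expand, Finset.sum_eq_single χ]
  · rw [ind_of hχ, (irr_iff_norm_one.mp χ.2).2]; ring
  · intro ψ _ hψ
    have h1 := irr_inner χ.2 ψ.2
    rw [if_neg (fun h => hψ (Subtype.ext h).symm)] at h1
    rw [h1]; ring
  · intro h; exact absurd (Finset.mem_univ _) h

/-- constituents of the restriction of a character of a block of `T` whose idempotent is that of
a block (or union) of the subgroup `C` -/
theorem mem_of_idem {T C : Subgroup G} (hCT : C ≤ T) [Fintype T] [Fintype C]
    {e : Set (IrrCharacter C)} {F' : Set (IrrCharacter T)}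
    (hF'e : ∀ t : T, blockCoeff F' t = subgroupBlockCoeff C e (t : G))
    {χ : IrrCharacter T} (hχ : χ ∈ F') {φ : IrrCharacter C}
    (hφ : classInner (fun c : C => (χ : T → ℂ) ⟨c, hCT c.2⟩) (φ : C → ℂ) ≠ 0) : φ ∈ e := by
  classical
  set F : C → ℂ := fun c => (χ : T → ℂ) ⟨c, hCT c.2⟩ with hF
  have hFcl : IsClassFunction C F := fun g h => irr_classFun χ.2 ⟨g, hCT g.2⟩ ⟨h, hCT h.2⟩
  have h1 : ∀ y : C, blockPart e F y = F y := by
    intro y
    rw [← sum_coeff_mul e hFcl y]
    have h2 := sum_coeff_mul F' (ϑ := (χ : T → ℂ)) (irr_classFun χ.2) ⟨y, hCT y.2⟩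
    rw [blockPart_irr hχ] at h2
    rw [show F y = (χ : T → ℂ) ⟨y, hCT y.2⟩ from rfl, ← h2]
    refine Finset.sum_of_injOn (fun c : C => (⟨c, hCT c.2⟩ : T)) ?_ ?_ ?_ ?_
    · intro a _ b _ h
      exact Subtype.ext (congrArg (Subtype.val : T → G) h)
    · intro a _
      exact Finset.mem_coe.2 (Finset.mem_univ _)
    · intro t _ ht
      rw [hF'e t]
      have : (t : G) ∉ C := by
        intro h
        exact ht ⟨⟨t, h⟩, by simp, rfl⟩
      rw [subgroupBlockCoeff_eq, ext0_not _ this, zero_mul]
    · intro c _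
      rw [hF'e, subgroupBlockCoeff_eq]
      show _ = ext0 C _ (c : G) * _
      rw [ext0_coe]
      rfl
  by_contra hne
  apply hφ
  have h3 : blockPart e F = F := funext h1
  rw [← h3, blockPart_eq_prj, inner_prj, ind_not hne, zero_mul]

end CfsgLib.Car
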