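import Cfsg.Agent.LibTransPC
import Cfsg.Agent.LibTransNil
import Cfsg.Agent.LibSolvHall

/-! Carter subgroups -/

set_option autoImplicit false

namespace CfsgLib.Carter

open Subgroup Pointwise CfsgLib.SolvBasic CfsgLib.SolvMin CfsgLib.SolvHall CfsgLib.TransPC CfsgLib.TransNil
open scoped commutatorElement

universe u

variable {G : Type u} [Group G]

/-- `K` is a `p`-complement -/
def PCompl (p : ℕ) (K : Subgroup G) : Prop := ¬ p ∣ Nat.card K ∧ ∃ j, K.index = p ^ j

theorem PCompl.card_dvd [Finite G] {p : ℕ} [hp : Fact p.Prime] {K L : Subgroup G} (hK : PCompl p K) (hL : PCompl p L) :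
    Nat.card K ∣ Nat.card L := by
  obtain ⟨j, hj⟩ := hL.2
  have h1 : (Nat.card K).Coprime (p ^ j) :=
    Nat.Coprime.pow_right _ ((Nat.Prime.coprime_iff_not_dvd hp.out).mpr hK.1).symm
  apply h1.dvd_of_dvd_mul_right
  rw [← hj, L.card_mul_index]
  exact card_subgroup_dvd_card K

section hall

variable [Finite G] {p : ℕ} [hp : Fact p.Prime] {N : Subgroup G} [hN : N.Normal]

omit hN in
theorem inf_eq_bot (hNp : IsPGroup p N) {K : Subgroup G} (hK : PCompl p K) : N ⊓ K = ⊥ := by
  apply inf_bot_of_coprime
  obtain ⟨k, hk⟩ := IsPGroup.iff_card.mp hNp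
  rw [hk]
  exact Nat.Coprime.pow_left k ((Nat.Prime.coprime_iff_not_dvd hp.out).mpr hK.1)

theorem sup_normal (hnil : Group.IsNilpotent (G ⧸ N)) {K : Subgroup G} (hK : PCompl p K) :
    (N ⊔ K).Normal := by
  obtain ⟨L, hL⟩ := (hasNPC_iff p).mp (hasNPC_of_isNilpotent hnil p)
  have hLn := hL.normal
  have h1 : N ⊔ K ≤ L.comap (QuotientGroup.mk' N) := by
    apply sup_le
    · intro x hx
      rw [mem_comap]
      have : QuotientGroup.mk' N x = 1 := (QuotientGroup.eq_one_iff x).mpr hx
      rw [this]; exact one_mem _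
    · intro x hx
      rw [mem_comap, hL.mem_iff]
      have h2 : orderOf (QuotientGroup.mk' N x) ∣ orderOf x := orderOf_map_dvd _ _
      have h3 : orderOf x ∣ Nat.card K := by
        have := orderOf_dvd_natCard (⟨x, hx⟩ : K)
        rwa [Subgroup.orderOf_mk] at this
      exact (((Nat.Prime.coprime_iff_not_dvd hp.out).mpr hK.1).symm).coprime_dvd_left (h2.trans h3)
  have h2 : N ⊔ K = L.comap (QuotientGroup.mk' N) := by
    apply le_antisymm h1
    rw [← relIndex_eq_one]
    obtain ⟨j, hj⟩ := hK.2
    have h3 : (N ⊔ K).relIndex (L.comap (QuotientGroup.mk' N)) ∣ p ^ j := by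
      rw [← hj]
      exact (relIndex_dvd_index_of_le h1).trans (index_dvd_of_le le_sup_right)
    have h4 : ((N ⊔ K).relIndex (L.comap (QuotientGroup.mk' N))).Coprime p := by
      have h5 : (N ⊔ K).relIndex (L.comap (QuotientGroup.mk' N)) ∣ Nat.card L := by
        have h6 := relIndex_mul_relIndex N (N ⊔ K) (L.comap (QuotientGroup.mk' N)) le_sup_left h1
        have h7 : N.relIndex (L.comap (QuotientGroup.mk' N)) = Nat.card L := by
          apply relIndex_eq_of_card_mul (le_sup_left.trans h1)
          rw [card_comap_mk', mul_comm]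
        rw [← h7, ← h6]
        exact dvd_mul_left _ _
      exact hL.coprime.coprime_dvd_left h5
    exact Nat.eq_one_of_dvd_coprimes (h4.symm.pow_left j) h3 (dvd_refl _)
  rw [h2]
  exact hLn.comap _

theorem frattini (hNp : IsPGroup p N) (hnil : Group.IsNilpotent (G ⧸ N)) {K : Subgroup G} (hK : PCompl p K) :
    N ⊔ normalizer (K : Set G) = ⊤ := by
  haveI := sup_normal hnil hK
  have hinf := inf_eq_bot hNp hK
  have hcard : Nat.card (N ⊔ K : Subgroup G) = Nat.card N * Nat.card K := by
    have := card_sup_of_normal N K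
    rw [hinf, card_bot, mul_one] at this
    exact this
  have hrel : N.relIndex (N ⊔ K) = Nat.card K := relIndex_eq_of_card_mul le_sup_left hcard
  have hco : (Nat.card N).Coprime (Nat.card K) := by
    obtain ⟨k, hk⟩ := IsPGroup.iff_card.mp hNp
    rw [hk]
    exact Nat.Coprime.pow_left k ((Nat.Prime.coprime_iff_not_dvd hp.out).mpr hK.1)
  rw [eq_top_iff]
  intro g _
  have h1 : MulAut.conj g • K ≤ N ⊔ K := by
    have h2 : MulAut.conj g • K ≤ MulAut.conj g • (N ⊔ K) := pointwise_smul_le_pointwise_smul_iff.mpr le_sup_right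
    rwa [Normal.conj_smul_eq_self g (N ⊔ K)] at h2
  haveI : Group.IsNilpotent N := hNp.isNilpotent
  obtain ⟨l, hl, hlK⟩ := sz_conj_in_subgroup N (N ⊔ K) le_sup_left (le_normalizer_of_normal) (by rwa [hrel])
    inferInstance K (MulAut.conj g • K) le_sup_right h1 hrel.symm (by rw [card_conj_smul, hrel])
  have h3 : l⁻¹ * g ∈ normalizer (K : Set G) := by
    rw [mem_normalizer_iff_conj_smul, conj_smul_mul, ← hlK, ← conj_smul_mul, inv_mul_cancel, conj_smul_one]
  have h4 : g = l * (l⁻¹ * g) := by group
  rw [h4]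
  apply mul_mem _ (mem_sup_right h3)
  exact (sup_le_sup_left le_normalizer N) hl

theorem normalizer_nilpotent (hNp : IsPGroup p N) (hnil : Group.IsNilpotent (G ⧸ N)) {K : Subgroup G}
    (hK : PCompl p K) : Group.IsNilpotent (normalizer (K : Set G)) := by
  have hinf := inf_eq_bot hNp hK
  obtain ⟨C, hC⟩ : ∃ C, C = normalizer (K : Set G) := ⟨_, rfl⟩
  rw [← hC]
  have hKC : K ≤ C := by rw [hC]; exact le_normalizer
  obtain ⟨P⟩ := (inferInstance : Nonempty (Sylow p C))
  have hcomm : ∀ (k : K.subgroupOf C) (x : (P : Subgroup C)), Commute ((K.subgroupOf C).subtype k) ((P : Subgroup C).subtype x) := by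
    intro k x
    have hk : ((k : C) : G) ∈ K := mem_subgroupOf.mp k.2
    have hko : (orderOf ((k : C) : G)).Coprime p := by
      have h3 : orderOf ((k : C) : G) ∣ Nat.card K := by
        have := orderOf_dvd_natCard (⟨_, hk⟩ : K)
        rwa [Subgroup.orderOf_mk] at this
      exact (((Nat.Prime.coprime_iff_not_dvd hp.out).mpr hK.1).symm).coprime_dvd_left h3
    obtain ⟨i, hi⟩ := (IsPGroup.iff_orderOf.mp P.isPGroup') x
    have hxo : orderOf ((x : C) : G) = p ^ i := by
      rw [← hi, orderOf_coe, orderOf_coe]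
    have h1 : QuotientGroup.mk' N ((k : C) : G) * QuotientGroup.mk' N ((x : C) : G) =
        QuotientGroup.mk' N ((x : C) : G) * QuotientGroup.mk' N ((k : C) : G) := by
      haveI := hnil
      apply commute_of_coprime
      refine Nat.Coprime.coprime_dvd_left (orderOf_map_dvd _ _) (Nat.Coprime.coprime_dvd_right (orderOf_map_dvd _ _) ?_)
      rw [hxo]
      exact hko.pow_right i
    have h2 : ((k : C) : G) * (x : C) * ((k : C) : G)⁻¹ * ((x : C) : G)⁻¹ ∈ N := by
      rw [← QuotientGroup.eq_one_iff]
      have h4 : QuotientGroup.mk' N (((k : C) : G) * (x : C) * ((k : C) : G)⁻¹ * ((x : C) : G)⁻¹) = 1 := by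
        rw [map_mul, map_mul, map_mul, h1, map_inv, map_inv]; group
      exact h4
    have h3 : ((k : C) : G) * (x : C) * ((k : C) : G)⁻¹ * ((x : C) : G)⁻¹ ∈ K := by
      have hxC : ((x : C) : G) ∈ normalizer (K : Set G) := by rw [← hC]; exact (x : C).2
      have h5 := (mem_normalizer_iff.mp hxC _).mp (inv_mem hk)
      have h6 : ((k : C) : G) * (x : C) * ((k : C) : G)⁻¹ * ((x : C) : G)⁻¹ =
        (k : C) * (((x : C) : G) * ((k : C) : G)⁻¹ * ((x : C) : G)⁻¹) := by group
      rw [h6]
      exact mul_mem hk h5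
    have h7 : ((k : C) : G) * (x : C) * ((k : C) : G)⁻¹ * ((x : C) : G)⁻¹ ∈ N ⊓ K := ⟨h2, h3⟩
    rw [hinf, mem_bot] at h7
    have h8 : ((k : C) : G) * (x : C) = (x : C) * (k : C) := by
      rw [mul_inv_eq_one, mul_inv_eq_iff_eq_mul] at h7
      exact h7
    exact Subtype.ext h8
  -- nilpotency
  haveI hKn : Group.IsNilpotent K := by
    have e : K.map (QuotientGroup.mk' N) ≤ ⊤ := le_top
    haveI := hnil
    have hinj : Function.Injective ((QuotientGroup.mk' N).comp K.subtype) := by
      rw [injective_iff_map_eq_one]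
      intro a ha
      have h1 : (a : G) ∈ N ⊓ K := ⟨(QuotientGroup.eq_one_iff _).mp ha, a.2⟩
      rw [hinf, mem_bot] at h1
      exact Subtype.ext h1
    exact (Group.isNilpotent_congr (MonoidHom.ofInjective hinj)).mpr inferInstance
  haveI hK'n : Group.IsNilpotent (K.subgroupOf C) := (Group.isNilpotent_congr (subgroupOfEquivOfLe hKC)).mpr hKn
  haveI hPn : Group.IsNilpotent (P : Subgroup C) := P.isPGroup'.isNilpotent
  have hsup : K.subgroupOf C ⊔ (P : Subgroup C) = ⊤ := by
    rw [← index_eq_one]
    obtain ⟨j, hj⟩ := hK.2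
    have h1 : (K.subgroupOf C ⊔ (P : Subgroup C)).index ∣ p ^ j := by
      rw [← hj]
      exact (index_dvd_of_le le_sup_left).trans (relIndex_dvd_index_of_le hKC)
    have h2 : ((K.subgroupOf C ⊔ (P : Subgroup C)).index).Coprime p := by
      have h3 : ((P : Subgroup C).index).Coprime p :=
        ((Nat.Prime.coprime_iff_not_dvd hp.out).mpr P.not_dvd_index).symm
      exact h3.coprime_dvd_left (index_dvd_of_le le_sup_right)
    exact Nat.eq_one_of_dvd_coprimes (h2.symm.pow_left j) h1 (dvd_refl _)
  let f := MonoidHom.noncommCoprod (K.subgroupOf C).subtype (P : Subgroup C).subtype hcomm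
  have hf : Function.Surjective f := by
    rw [← MonoidHom.range_eq_top, MonoidHom.noncommCoprod_range, range_subtype, range_subtype]
    exact hsup
  exact Group.nilpotent_of_surjective f hf

theorem normalizer_self (hNp : IsPGroup p N) {K : Subgroup G} (hK : PCompl p K) :
    normalizer ((normalizer (K : Set G) : Subgroup G) : Set G) = normalizer (K : Set G) := by
  apply le_antisymm _ le_normalizer
  intro g hg
  rw [mem_normalizer_iff_conj_smul]
  refine eq_of_le_of_card_ge ?_ (by rw [card_conj_smul])
  intro y hy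
  have hyo : (orderOf y).Coprime p := by
    have h3 : orderOf y ∣ Nat.card (MulAut.conj g • K : Subgroup G) := by
      have := orderOf_dvd_natCard (⟨_, hy⟩ : (MulAut.conj g • K : Subgroup G))
      rwa [Subgroup.orderOf_mk] at this
    rw [card_conj_smul] at h3
    exact (((Nat.Prime.coprime_iff_not_dvd hp.out).mpr hK.1).symm).coprime_dvd_left h3
  have hyC : y ∈ normalizer (K : Set G) := by
    rw [mem_conj_smul] at hy
    have h1 := (mem_normalizer_iff.mp hg _).mp (le_normalizer hy)
    have h2 : g * (g⁻¹ * y * g) * g⁻¹ = y := by group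
    rwa [h2] at h1
  -- `K` is the normal `p`-complement of its normalizer
  have hnpc : IsNPC p (K.subgroupOf (normalizer (K : Set G))) := by
    refine ⟨inferInstance, ?_, ?_⟩
    · rw [card_subgroupOf le_normalizer]; exact hK.1
    · obtain ⟨j, hj⟩ := hK.2
      have h1 : (K.subgroupOf (normalizer (K : Set G))).index ∣ p ^ j := by
        rw [← hj]; exact relIndex_dvd_index_of_le le_normalizer
      obtain ⟨k, _, hk⟩ := (Nat.dvd_prime_pow hp.out).mp h1
      exact ⟨k, hk⟩
  have h1 := (hnpc.mem_iff ⟨y, hyC⟩).mpr (by rwa [Subgroup.orderOf_mk])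
  exact mem_subgroupOf.mp h1

end hall

/-- Carter subgroups -/
def IsCarter (C : Subgroup G) : Prop := Group.IsNilpotent C ∧ normalizer (C : Set G) = C

theorem IsCarter.conj {C : Subgroup G} (h : IsCarter C) (g : G) : IsCarter (MulAut.conj g • C) := by
  refine ⟨?_, ?_⟩
  · exact (Group.isNilpotent_congr (Subgroup.equivSMul (MulAut.conj g) C)).mp h.1
  · rw [normalizer_conj_smul, h.2]

theorem IsCarter.subgroupOf {C H : Subgroup G} (h : IsCarter C) (hCH : C ≤ H) : IsCarter (C.subgroupOf H) := by
  refine ⟨(Group.isNilpotent_congr (subgroupOfEquivOfLe hCH)).mpr h.1, ?_⟩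
  rw [← subgroupOf_normalizer_eq hCH, h.2]

/-- a self-normalizing subgroup of a nilpotent group is everything -/
theorem eq_top_of_nilpotent [Finite G] (hG : Group.IsNilpotent G) {C : Subgroup G}
    (h : normalizer (C : Set G) = C) : C = ⊤ := by
  by_contra h1
  have h2 := Group.normalizerCondition_of_isNilpotent (G := G) C (lt_top_iff_ne_top.mpr h1)
  exact h2.ne h.symm

theorem IsCarter.eq_of_le_nilpotent [Finite G] {C H : Subgroup G} (h : IsCarter C) (hCH : C ≤ H)
    (hH : Group.IsNilpotent H) : C = H := by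
  have h1 := eq_top_of_nilpotent hH (h.subgroupOf hCH).2
  exact le_antisymm hCH (subgroupOf_eq_top.mp h1)

/-- images of Carter subgroups -/
theorem IsCarter.map [Finite G] {C : Subgroup G} (h : IsCarter C) (N : Subgroup G) [N.Normal]
    (hconj : ∀ H : Subgroup G, H ≠ ⊤ → ∀ C D : Subgroup H, IsCarter C → IsCarter D → ∃ g : H, MulAut.conj g • C = D) :
    IsCarter (C.map (QuotientGroup.mk' N)) := by
  refine ⟨?_, ?_⟩
  · haveI := h.1
    have h1 : Function.Surjective ((QuotientGroup.mk' N).subgroupMap C) := (QuotientGroup.mk' N).subgroupMap_surjective C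
    exact Group.nilpotent_of_surjective _ h1
  · apply le_antisymm _ le_normalizer
    intro x hx
    obtain ⟨x, rfl⟩ := QuotientGroup.mk'_surjective N x
    by_cases hT : C ⊔ N = ⊤
    · have h1 : x ∈ C ⊔ N := by rw [hT]; exact mem_top _
      have h2 := mem_map_of_mem (QuotientGroup.mk' N) h1
      rwa [Subgroup.map_sup, QuotientGroup.map_mk'_self, sup_bot_eq] at h2
    · rw [mem_normalizer_iff_conj_smul, conj_smul_map_mk'] at hx
      have hx1 := sup_eq_sup_of_map_mk'_eq N hx
      have hle : MulAut.conj x • C ≤ C ⊔ N := by rw [← hx1]; exact le_sup_left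
      obtain ⟨l, hl⟩ := hconj _ hT _ _ (h.subgroupOf le_sup_left) ((h.conj x).subgroupOf hle)
      have h1 := conj_smul_of_subgroupOf l le_sup_left hle hl
      have h2 : (l : G)⁻¹ * x ∈ normalizer (C : Set G) := by
        rw [mem_normalizer_iff_conj_smul, conj_smul_mul, ← h1, ← conj_smul_mul, inv_mul_cancel, conj_smul_one]
      rw [h.2] at h2
      have h3 : x ∈ C ⊔ N := by
        have h4 : x = l * ((l : G)⁻¹ * x) := by group
        rw [h4]
        exact mul_mem l.2 (mem_sup_left h2)
      have h5 := mem_map_of_mem (QuotientGroup.mk' N) h3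
      rwa [Subgroup.map_sup, QuotientGroup.map_mk'_self, sup_bot_eq] at h5

/-- the case of nilpotent quotient -/
theorem IsCarter.eq_normalizer [Finite G] {p : ℕ} [hp : Fact p.Prime] {N : Subgroup G} [hN : N.Normal]
    (hNp : IsPGroup p N) (hnil : Group.IsNilpotent (G ⧸ N)) {C : Subgroup G} (h : IsCarter C)
    (hCN : C ⊔ N = ⊤) : ∃ K : Subgroup G, PCompl p K ∧ C = normalizer (K : Set G) := by
  obtain ⟨K₀, hK₀⟩ := (hasNPC_iff p).mp (hasNPC_of_isNilpotent h.1 p)
  have hcard : Nat.card (K₀.map C.subtype) = Nat.card K₀ :=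
    card_map_of_injective C.subtype_injective
  have hK : PCompl p (K₀.map C.subtype) := by
    refine ⟨by rw [hcard]; exact hK₀.2.1, ?_⟩
    -- index
    have h1 : (K₀.map C.subtype).index = K₀.index * C.index := by
      rw [index_map_subtype]
    obtain ⟨j, hj⟩ := hK₀.2.2
    have h2 : C.index ∣ Nat.card N := by
      have h3 := card_sup_of_normal N C
      rw [sup_comm, hCN, card_top, ← C.card_mul_index] at h3
      have h4 : C.index * Nat.card (N ⊓ C : Subgroup G) = Nat.card N := by
        apply Nat.eq_of_mul_eq_mul_left (Nat.card_pos (α := C))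
        rw [← mul_assoc, h3, mul_comm]
      exact Dvd.intro _ h4
    obtain ⟨k, hk⟩ := IsPGroup.iff_card.mp hNp
    rw [hk] at h2
    obtain ⟨i, _, hi⟩ := (Nat.dvd_prime_pow hp.out).mp h2
    exact ⟨j + i, by rw [h1, hj, hi, pow_add]⟩
  refine ⟨_, hK, ?_⟩
  apply h.eq_of_le_nilpotent _ (normalizer_nilpotent hNp hnil hK)
  intro c hc
  haveI := hK₀.normal
  rw [mem_normalizer_iff_conj_smul]
  refine eq_of_le_of_card_ge ?_ (by rw [card_conj_smul])
  intro y hy
  rw [mem_conj_smul] at hy
  obtain ⟨k, hk, hky⟩ := hy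
  have h1 := hK₀.normal.conj_mem k hk ⟨c, hc⟩
  refine ⟨_, h1, ?_⟩
  have : c * (k : G) * c⁻¹ = y := by
    have h2 : (k : G) = c⁻¹ * y * c := hky
    rw [h2]; group
  exact this

theorem main (n : ℕ) : ∀ (G : Type u) [Group G] [Finite G] [Group.IsSolvable G], Nat.card G ≤ n →
    (∃ C : Subgroup G, IsCarter C) ∧ ∀ C D : Subgroup G, IsCarter C → IsCarter D → ∃ g : G, MulAut.conj g • C = D := by
  induction n with
  | zero => intro G _ _ _ h; exact absurd h (by have := Nat.card_pos (α := G); omega)
  | succ n ih =>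
    intro G _ _ _ hcard
    by_cases hnil : Group.IsNilpotent G
    · refine ⟨⟨⊤, ?_, ?_⟩, ?_⟩
      · exact (Group.isNilpotent_congr topEquiv).mpr hnil
      · exact top_le_iff.mp le_normalizer
      · intro C D hC hD
        exact ⟨1, by rw [conj_smul_one, eq_top_of_nilpotent hnil hC.2, eq_top_of_nilpotent hnil hD.2]⟩
    have hntr : (⊤ : Subgroup G) ≠ ⊥ := by
      intro h
      apply hnil
      haveI : Subsingleton G := Subgroup.subsingleton_iff.mp (subsingleton_of_bot_eq_top h.symm)
      infer_instance
    have hconj : ∀ H : Subgroup G, H ≠ ⊤ → ∀ C D : Subgroup H, IsCarter C → IsCarter D →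
        ∃ g : H, MulAut.conj g • C = D := by
      intro H hH
      have h1 := card_lt_of_ne_top hH
      exact (ih H (by omega)).2
    obtain ⟨N, p, hpp, hNm, -, -, -, hNp⟩ := exists_minNormal_pgroup_of_solvable (⊤ : Subgroup G) hntr
    haveI hNn : N.Normal := hNm.1
    haveI : Fact p.Prime := ⟨hpp⟩
    have hNb : N ≠ ⊥ := hNm.2.1
    have hQ := card_quotient_lt N hNb
    obtain ⟨hQe, hQc⟩ := ih (G ⧸ N) (by omega)
    constructor
    · obtain ⟨Rb, hRb⟩ := hQe
      by_cases hT : Rb = ⊤
      · -- nilpotent quotient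
        have hqn : Group.IsNilpotent (G ⧸ N) := by
          have := hRb.1
          rw [hT] at this
          exact (Group.isNilpotent_congr topEquiv).mp this
        -- a `p`-complement
        obtain ⟨K, hK⟩ : ∃ K : Subgroup G, PCompl p K := by
          obtain ⟨k, m, hm, h1⟩ := Nat.exists_eq_pow_mul_and_not_dvd (n := Nat.card G) Nat.card_pos.ne' p hpp.ne_one
          have h3 : m.Coprime (p ^ k) :=
            Nat.Coprime.pow_right _ ((Nat.Prime.coprime_iff_not_dvd hpp).mpr hm).symm
          obtain ⟨K, hK⟩ := hall_exists _ G rfl m (p ^ k) (by rw [mul_comm]; exact h1) h3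
          refine ⟨K, by rw [hK]; exact hm, k, ?_⟩
          apply Nat.eq_of_mul_eq_mul_left (Nat.card_pos (α := K))
          rw [K.card_mul_index, hK, mul_comm]; exact h1
        exact ⟨normalizer (K : Set G), normalizer_nilpotent hNp hqn hK, normalizer_self hNp hK⟩
      · obtain ⟨R, hR⟩ : ∃ R, R = Rb.comap (QuotientGroup.mk' N) := ⟨_, rfl⟩
        have hRT : R ≠ ⊤ := by
          intro h
          apply hT
          rw [eq_top_iff]
          intro x _
          obtain ⟨x, rfl⟩ := QuotientGroup.mk'_surjective N x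
          have : x ∈ R := by rw [h]; exact mem_top _
          rw [hR] at this; exact this
        have hNR : N ≤ R := by
          rw [hR]
          intro x hx
          rw [mem_comap]
          have : QuotientGroup.mk' N x = 1 := (QuotientGroup.eq_one_iff x).mpr hx
          rw [this]; exact one_mem _
        have hRc := card_lt_of_ne_top hRT
        obtain ⟨⟨C₀, hC₀⟩, hRconj⟩ := ih R (by omega)
        -- `C₀ N = R`
        have hC₀N : C₀ ⊔ N.subgroupOf R = ⊤ := by
          have h1 := hC₀.map (N.subgroupOf R) (by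
            intro H hH
            have h2 := card_lt_of_ne_top hH
            exact (ih H (by omega)).2)
          have h2 : Group.IsNilpotent (R ⧸ N.subgroupOf R) := by
            let f : R →* Rb := ((QuotientGroup.mk' N).comp R.subtype).codRestrict Rb (fun r => (le_of_eq hR) r.2)
            have hf : f.ker = N.subgroupOf R := by
              ext r
              rw [MonoidHom.mem_ker, mem_subgroupOf, ← QuotientGroup.eq_one_iff]
              constructor
              · intro h; exact congrArg Subtype.val h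
              · intro h; exact Subtype.ext h
            haveI := hRb.1
            have hinj := QuotientGroup.kerLift_injective f
            have h3 : Group.IsNilpotent (R ⧸ f.ker) :=
              (Group.isNilpotent_congr (MonoidHom.ofInjective hinj)).mpr inferInstance
            exact (Group.isNilpotent_congr (QuotientGroup.quotientMulEquivOfEq hf)).mp h3
          have h3 := eq_top_of_nilpotent h2 h1.2
          have h4 : C₀.map (QuotientGroup.mk' (N.subgroupOf R)) = (⊤ : Subgroup R).map (QuotientGroup.mk' (N.subgroupOf R)) := by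
            rw [h3, map_top_of_surjective _ (QuotientGroup.mk'_surjective _)]
          have h5 := sup_eq_sup_of_map_mk'_eq _ h4
          rw [h5, top_sup_eq]
        have hCN : C₀.map R.subtype ⊔ N = R := by
          have h1 := congrArg (Subgroup.map R.subtype) hC₀N
          rw [Subgroup.map_sup, subgroupOf_map_subtype, inf_of_le_left hNR, ← MonoidHom.range_eq_map, range_subtype] at h1
          exact h1
        refine ⟨C₀.map R.subtype, ?_, ?_⟩
        · haveI := hC₀.1
          exact (Group.isNilpotent_congr (C₀.equivMapOfInjective R.subtype R.subtype_injective)).mp hC₀.1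
        · apply le_antisymm _ le_normalizer
          intro g hg
          have hgR : g ∈ R := by
            have h1 : g ∈ normalizer (R : Set G) := by
              rw [mem_normalizer_iff_conj_smul] at hg ⊢
              rw [← hCN, smul_sup, hg, Normal.conj_smul_eq_self g N]
            have h2 : QuotientGroup.mk' N g ∈ normalizer (Rb : Set (G ⧸ N)) := by
              have h3 : Rb = R.map (QuotientGroup.mk' N) := by
                rw [hR, map_comap_eq_self_of_surjective (QuotientGroup.mk'_surjective N)]
              rw [mem_normalizer_iff_conj_smul, h3, conj_smul_map_mk', mem_normalizer_iff_conj_smul.mp h1]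
            rw [hRb.2] at h2
            rw [hR]; exact h2
          have h1 : (⟨g, hgR⟩ : R) ∈ normalizer (C₀ : Set R) := by
            rw [mem_normalizer_iff]
            intro x
            have h2 := mem_normalizer_iff.mp hg x
            have h3 : ∀ y : R, (y : G) ∈ C₀.map R.subtype ↔ y ∈ C₀ := by
              intro y
              exact mem_map_iff_mem R.subtype_injective
            rw [h3] at h2
            rw [h2]
            exact h3 (⟨g, hgR⟩ * x * ⟨g, hgR⟩⁻¹)
          rw [hC₀.2] at h1
          exact ⟨⟨g, hgR⟩, h1, rfl⟩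
    · intro C D hC hD
      obtain ⟨gb, hgb⟩ := hQc _ _ (hC.map N hconj) (hD.map N hconj)
      obtain ⟨g, rfl⟩ := QuotientGroup.mk'_surjective N gb
      rw [conj_smul_map_mk'] at hgb
      have h1 := sup_eq_sup_of_map_mk'_eq N hgb
      by_cases hT : D ⊔ N = ⊤
      · have hqn : Group.IsNilpotent (G ⧸ N) := by
          have h2 := (hD.map N hconj).1
          have h3 : D.map (QuotientGroup.mk' N) = ⊤ := by
            have h4 := congrArg (Subgroup.map (QuotientGroup.mk' N)) hT
            rwa [Subgroup.map_sup, QuotientGroup.map_mk'_self, sup_bot_eq,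
              map_top_of_surjective _ (QuotientGroup.mk'_surjective _)] at h4
          rw [h3] at h2
          exact (Group.isNilpotent_congr topEquiv).mp h2
        rw [hT] at h1
        obtain ⟨K₁, hK₁, hCK⟩ := (hC.conj g).eq_normalizer hNp hqn h1
        obtain ⟨K₂, hK₂, hDK⟩ := hD.eq_normalizer hNp hqn hT
        have hcard : Nat.card K₁ = Nat.card K₂ := by
          exact Nat.dvd_antisymm (hK₁.card_dvd hK₂) (hK₂.card_dvd hK₁)
        obtain ⟨k, hk⟩ := hall_conj (Nat.card K₁) K₁.index K₁.card_mul_index.symm (by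
          obtain ⟨j, hj⟩ := hK₁.2
          rw [hj]
          exact Nat.Coprime.pow_right _ ((Nat.Prime.coprime_iff_not_dvd hpp).mpr hK₁.1).symm) K₁ K₂ rfl hcard.symm
        refine ⟨k * g, ?_⟩
        rw [conj_smul_mul, hCK, ← normalizer_conj_smul, hk, hDK]
      · have hle : MulAut.conj g • C ≤ D ⊔ N := by rw [← h1]; exact le_sup_left
        obtain ⟨l, hl⟩ := hconj _ hT _ _ ((hC.conj g).subgroupOf hle) (hD.subgroupOf le_sup_left)
        refine ⟨l * g, ?_⟩
        rw [conj_smul_mul]
        exact conj_smul_of_subgroupOf l hle le_sup_left hl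

end CfsgLib.Carter
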