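import Cfsg.Agent.LibOmAH13

set_option autoImplicit false

/-! Orthogonal sums and `Ω` (seat helper13). -/

namespace CfsgLib.OSum

open Module LinearMap Submodule Cfsg.Agent.H22 CfsgLib.Inv2 CfsgLib.OmA

section abs
variable {F V W : Type*} [Field F] [AddCommGroup V] [Module F V] [AddCommGroup W] [Module F W]
  {Q : QuadraticForm F V} {R : QuadraticForm F W}

/-- an embedding of orthogonal groups which sends reflections to reflections of equal norm -/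
structure Emb (Q : QuadraticForm F V) (R : QuadraticForm F W) where
  φ : OGrp Q →* OGrp R
  j : V →ₗ[F] W
  hj : ∀ v, R (j v) = Q v
  hφ : ∀ (v : V) (hv : Q v ≠ 0), φ (oRefl Q v hv) = oRefl R (j v) (by rw [hj]; exact hv)

variable [FiniteDimensional F V] [FiniteDimensional F W]

theorem Emb.par_eq (E : Emb Q R) (hQ : (QuadraticMap.polarBilin Q).Nondegenerate) (hR : (QuadraticMap.polarBilin R).Nondegenerate)
    (hF : (∃ a : F, a ≠ 0 ∧ a ≠ 1) ∨ finrank F V ≠ 4) (hF' : (∃ a : F, a ≠ 0 ∧ a ≠ 1) ∨ finrank F W ≠ 4) (g : OGrp Q) :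
    par hR hF' (E.φ g) = par hQ hF g := by
  have h : (par hR hF').comp E.φ = par hQ hF := by
    apply MonoidHom.eq_of_eqOn_dense (closure_oRefl hQ hF)
    rintro _ ⟨v, hv, rfl⟩
    show par hR hF' (E.φ (oRefl Q v hv)) = par hQ hF (oRefl Q v hv)
    rw [E.hφ, par_refl, par_refl]
  exact DFunLike.congr_fun h g

variable [Fintype F]

theorem Emb.sgn_eq (E : Emb Q R) (h2 : (2 : F) ≠ 0) (hQ : (QuadraticMap.polarBilin Q).Nondegenerate) (hR : (QuadraticMap.polarBilin R).Nondegenerate)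
    (h : 2 ≤ finrank F V) (h' : 2 ≤ finrank F W) (g : OGrp Q) (hg : par hQ (Or.inl (exists_ne_one_of_odd h2)) g = 1) :
    sgnC R 1 (E.φ g) = sgnC Q 1 g := by
  have hpair : ∀ (u v : V) (hu : Q u ≠ 0) (hv : Q v ≠ 0), sgnC R 1 (E.φ (oRefl Q u hu * oRefl Q v hv)) = sgnC Q 1 (oRefl Q u hu * oRefl Q v hv) := by
    intro u v hu hv
    rw [map_mul, E.hφ, E.hφ, map_mul, map_mul]
    by_cases hsq : IsSquare (Q u / Q v)
    · rw [(sgn_two_refl h2 hQ h u v hu hv).1 hsq, (sgn_two_refl h2 hR h' (E.j u) (E.j v) _ _).1 (by rw [E.hj, E.hj]; exact hsq)]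
    · rw [(sgn_two_refl h2 hQ h u v hu hv).2 hsq, (sgn_two_refl h2 hR h' (E.j u) (E.j v) _ _).2 (by rw [E.hj, E.hj]; exact hsq)]
  have hF := exists_ne_one_of_odd h2
  let K : Subgroup (OGrp Q) := Subgroup.closure {g : OGrp Q | ∃ (u v : V) (hu : Q u ≠ 0) (hv : Q v ≠ 0), g = oRefl Q u hu * oRefl Q v hv}
  have h1 := mem_even_or {g : OGrp Q | ∃ v, ∃ hv : Q v ≠ 0, g = oRefl Q v hv} (by
      rintro s ⟨v, hv, rfl⟩
      exact ⟨v, hv, oRefl_inv _ _⟩) (closure_oRefl hQ (Or.inl hF)) K (by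
      rintro s ⟨v, hv, rfl⟩ t ⟨w, hw, rfl⟩
      exact Subgroup.subset_closure ⟨v, w, hv, hw, rfl⟩) g
  have hK : K ≤ (par hQ (Or.inl hF)).ker := by
    show Subgroup.closure _ ≤ _
    rw [Subgroup.closure_le]
    rintro _ ⟨u, v, hu, hv, rfl⟩
    show _ ∈ (par hQ (Or.inl hF)).ker
    rw [MonoidHom.mem_ker, map_mul, par_refl, par_refl]; rfl
  have hgK : g ∈ K := by
    rcases h1 with h1 | h1
    · exact h1
    · exfalso
      have hnt : Nontrivial V := Module.nontrivial_of_finrank_pos (R := F) (by omega)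
      obtain ⟨x, hx⟩ := exists_nonsing hQ (exists_ne 0)
      have h3 := hK (h1 (oRefl Q x hx) ⟨x, hx, rfl⟩)
      rw [MonoidHom.mem_ker, map_mul, par_refl, hg] at h3
      exact absurd h3 (by decide)
  have hKle : K ≤ MonoidHom.eqLocus ((sgnC R 1).comp E.φ) (sgnC Q 1) := by
    show Subgroup.closure _ ≤ _
    rw [Subgroup.closure_le]
    rintro _ ⟨u, v, hu, hv, rfl⟩
    exact hpair u v hu hv
  exact hKle hgK

/-- membership in `Ω` is not changed by the embedding -/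
theorem Emb.mem_iff (E : Emb Q R) (hQ : (QuadraticMap.polarBilin Q).Nondegenerate) (hR : (QuadraticMap.polarBilin R).Nondegenerate)
    (hF : (∃ a : F, a ≠ 0 ∧ a ≠ 1) ∨ (finrank F V ≠ 4 ∧ finrank F W ≠ 4)) (hle : finrank F V ≤ finrank F W) (g : OGrp Q) :
    E.φ g ∈ commutator (OGrp R) ↔ g ∈ commutator (OGrp Q) := by
  have hF1 : (∃ a : F, a ≠ 0 ∧ a ≠ 1) ∨ finrank F V ≠ 4 := hF.imp id (fun h => h.1)
  have hF2 : (∃ a : F, a ≠ 0 ∧ a ≠ 1) ∨ finrank F W ≠ 4 := hF.imp id (fun h => h.2)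
  constructor
  · intro h
    rcases Nat.eq_zero_or_pos (finrank F V) with h0 | h0
    · have hs1 : Subsingleton V := Module.finrank_zero_iff.1 h0
      have : g = 1 := og_ext fun a => Subsingleton.elim _ _
      rw [this]; exact one_mem _
    have hnt : Nontrivial V := Module.nontrivial_of_finrank_pos (R := F) h0
    have hnt' : Nontrivial W := Module.nontrivial_of_finrank_pos (R := F) (by omega)
    by_cases h2 : (2 : F) = 0
    · have : CharP F 2 := CharTwo.of_one_ne_zero_of_two_eq_zero one_ne_zero h2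
      rw [(omega_even hQ hF1 (exists_ne 0)).2, ← E.par_eq hQ hR hF1 hF2]
      exact ((omega_even hR hF2 (exists_ne 0)).2 _).1 h
    · have hpar : par hQ hF1 g = 1 := by
        rw [← E.par_eq hQ hR hF1 hF2]
        exact Abelianization.commutator_subset_ker (par hR hF2) h
      rcases Nat.lt_or_ge (finrank F V) 2 with h1 | h1
      · -- one-dimensional
        have h3 : finrank F V = 1 := by omega
        have h4 : finrank F (fixSp g) ≤ 1 := by rw [← h3]; exact Submodule.finrank_le _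
        have h5 : par hQ hF1 g = (-1) ^ (finrank F (fixSp g) + finrank F V) := rfl
        rw [h3] at h5
        have h6 : finrank F (fixSp g) = 1 := by
          by_contra h6
          have h7 : finrank F (fixSp g) = 0 := by omega
          rw [h7, hpar] at h5
          exact absurd h5 (by decide)
        have h7 : fixSp g = ⊤ := Submodule.eq_top_of_finrank_eq (by rw [h6, h3])
        have : g = 1 := og_ext fun a => by
          have : a ∈ fixSp g := by rw [h7]; trivial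
          exact this
        rw [this]; exact one_mem _
      · obtain ⟨_, _, _, _, _, _, _, _, _, _, hO⟩ := omega_odd h2 hQ h1
        rw [hO 1 one_ne_zero]
        refine ⟨hpar, ?_⟩
        rw [← E.sgn_eq h2 hQ hR h1 (by omega) g hpar]
        exact Abelianization.commutator_subset_ker (sgnC R 1) h
  · intro h
    have h1 : E.φ g ∈ (commutator (OGrp Q)).map E.φ := ⟨g, h, rfl⟩
    rw [commutator_def, Subgroup.map_commutator] at h1
    exact Subgroup.commutator_mono le_top le_top h1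

end abs

section sum
variable {F : Type*} [Field F] {ι κ : Type} [Fintype ι] [Fintype κ]

/-- the orthogonal sum -/
def osum (Q₁ : QuadraticForm F (ι → F)) (Q₂ : QuadraticForm F (κ → F)) : QuadraticForm F (ι ⊕ κ → F) :=
  Q₁.comp (LinearMap.funLeft F F Sum.inl) + Q₂.comp (LinearMap.funLeft F F Sum.inr)

variable (Q₁ : QuadraticForm F (ι → F)) (Q₂ : QuadraticForm F (κ → F))

theorem osum_apply (v : ι ⊕ κ → F) : osum Q₁ Q₂ v = Q₁ (v ∘ Sum.inl) + Q₂ (v ∘ Sum.inr) := rfl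

theorem coe_osum : ⇑(osum Q₁ Q₂) = fun v : ι ⊕ κ → F => Q₁ (v ∘ Sum.inl) + Q₂ (v ∘ Sum.inr) := rfl

theorem polar_osum (u v : ι ⊕ κ → F) : QuadraticMap.polar (osum Q₁ Q₂) u v =
    QuadraticMap.polar Q₁ (u ∘ Sum.inl) (v ∘ Sum.inl) + QuadraticMap.polar Q₂ (u ∘ Sum.inr) (v ∘ Sum.inr) := by
  unfold QuadraticMap.polar
  rw [osum_apply, osum_apply, osum_apply]
  have h1 : (u + v) ∘ Sum.inl = u ∘ (Sum.inl : ι → ι ⊕ κ) + v ∘ Sum.inl := rfl
  have h2 : (u + v) ∘ Sum.inr = u ∘ (Sum.inr : κ → ι ⊕ κ) + v ∘ Sum.inr := rfl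
  rw [h1, h2]; ring

variable {Q₁ Q₂}

theorem osum_nondeg (h₁ : (QuadraticMap.polarBilin Q₁).Nondegenerate) (h₂ : (QuadraticMap.polarBilin Q₂).Nondegenerate) :
    (QuadraticMap.polarBilin (osum Q₁ Q₂)).Nondegenerate := by
  apply nondeg_of_left
  intro x hx
  have h3 : x ∘ Sum.inl = 0 := by
    apply h₁.1
    intro y
    have := hx (Sum.elim y 0)
    rw [polar_osum] at this
    have h4 : (Sum.elim y 0 : ι ⊕ κ → F) ∘ Sum.inr = 0 := rfl
    have h5 : (Sum.elim y 0 : ι ⊕ κ → F) ∘ Sum.inl = y := rfl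
    rw [h4, h5, QuadraticMap.polar_zero_right, add_zero] at this
    exact this
  have h3' : x ∘ Sum.inr = 0 := by
    apply h₂.1
    intro y
    have := hx (Sum.elim 0 y)
    rw [polar_osum] at this
    have h4 : (Sum.elim 0 y : ι ⊕ κ → F) ∘ Sum.inr = y := rfl
    have h5 : (Sum.elim 0 y : ι ⊕ κ → F) ∘ Sum.inl = 0 := rfl
    rw [h4, h5, QuadraticMap.polar_zero_right, zero_add] at this
    exact this
  funext i
  rcases i with i | i
  · exact congrFun h3 i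
  · exact congrFun h3' i

/-- sum of two linear automorphisms -/
def sumEq (g₁ : (ι → F) ≃ₗ[F] (ι → F)) (g₂ : (κ → F) ≃ₗ[F] (κ → F)) : (ι ⊕ κ → F) ≃ₗ[F] (ι ⊕ κ → F) where
  toFun v := Sum.elim (g₁ (v ∘ Sum.inl)) (g₂ (v ∘ Sum.inr))
  map_add' u v := by
    have h1 : (u + v) ∘ Sum.inl = u ∘ (Sum.inl : ι → ι ⊕ κ) + v ∘ Sum.inl := rfl
    have h2 : (u + v) ∘ Sum.inr = u ∘ (Sum.inr : κ → ι ⊕ κ) + v ∘ Sum.inr := rfl
    rw [h1, h2, map_add, map_add]
    funext i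
    rcases i with i | i <;> rfl
  map_smul' c v := by
    have h1 : (c • v) ∘ Sum.inl = c • (v ∘ (Sum.inl : ι → ι ⊕ κ)) := rfl
    have h2 : (c • v) ∘ Sum.inr = c • (v ∘ (Sum.inr : κ → ι ⊕ κ)) := rfl
    rw [h1, h2, map_smul, map_smul]
    funext i
    rcases i with i | i <;> rfl
  invFun v := Sum.elim (g₁.symm (v ∘ Sum.inl)) (g₂.symm (v ∘ Sum.inr))
  left_inv v := by
    funext i
    rcases i with i | i
    · exact congrFun (g₁.symm_apply_apply (v ∘ Sum.inl)) i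
    · exact congrFun (g₂.symm_apply_apply (v ∘ Sum.inr)) i
  right_inv v := by
    funext i
    rcases i with i | i
    · exact congrFun (g₁.apply_symm_apply (v ∘ Sum.inl)) i
    · exact congrFun (g₂.apply_symm_apply (v ∘ Sum.inr)) i

theorem sumEq_apply (g₁ : (ι → F) ≃ₗ[F] (ι → F)) (g₂ : (κ → F) ≃ₗ[F] (κ → F)) (v : ι ⊕ κ → F) :
    sumEq g₁ g₂ v = Sum.elim (g₁ (v ∘ Sum.inl)) (g₂ (v ∘ Sum.inr)) := rfl

/-- the homomorphism `O(Q₁) × O(Q₂) → O(Q₁ ⊥ Q₂)` -/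
def sumHom (Q₁ : QuadraticForm F (ι → F)) (Q₂ : QuadraticForm F (κ → F)) : OGrp Q₁ × OGrp Q₂ →* OGrp (osum Q₁ Q₂) where
  toFun g := ⟨sumEq g.1.1 g.2.1, by
    intro v
    rw [sumEq_apply, osum_apply, osum_apply, Sum.elim_comp_inl, Sum.elim_comp_inr, og_Q, og_Q]⟩
  map_one' := by
    apply og_ext
    intro v
    show Sum.elim (v ∘ Sum.inl) (v ∘ Sum.inr) = v
    funext i
    rcases i with i | i <;> rfl
  map_mul' g h := by
    apply og_ext
    intro v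
    rfl

/-- the embedding of the first summand -/
def embL (Q₁ : QuadraticForm F (ι → F)) (Q₂ : QuadraticForm F (κ → F)) : Emb Q₁ (osum Q₁ Q₂) where
  φ := (sumHom Q₁ Q₂).comp (MonoidHom.inl _ _)
  j := { toFun := fun v => Sum.elim v 0
         map_add' := fun u v => by funext i; rcases i with i | i <;> simp
         map_smul' := fun c v => by funext i; rcases i with i | i <;> simp }
  hj v := by
    show Q₁ v + Q₂ 0 = Q₁ v
    rw [QuadraticMap.map_zero, add_zero]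
  hφ v hv := by
    apply og_ext
    intro x
    show Sum.elim ((oRefl Q₁ v hv).1 (x ∘ Sum.inl)) (x ∘ Sum.inr) = _
    rw [oRefl_apply, oRefl_apply, polar_osum]
    have h1 : osum Q₁ Q₂ (Sum.elim v 0 : ι ⊕ κ → F) = Q₁ v := by
      show Q₁ v + Q₂ 0 = Q₁ v
      rw [QuadraticMap.map_zero, add_zero]
    have h2 : QuadraticMap.polar Q₁ ((Sum.elim v 0 : ι ⊕ κ → F) ∘ Sum.inl) (x ∘ Sum.inl) + QuadraticMap.polar Q₂ ((Sum.elim v 0 : ι ⊕ κ → F) ∘ Sum.inr) (x ∘ Sum.inr) = QuadraticMap.polar Q₁ v (x ∘ Sum.inl) := by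
      have h4 : (Sum.elim v 0 : ι ⊕ κ → F) ∘ Sum.inr = 0 := rfl
      have h5 : (Sum.elim v 0 : ι ⊕ κ → F) ∘ Sum.inl = v := rfl
      rw [h4, h5, QuadraticMap.polar_zero_left, add_zero]
    funext i
    rcases i with i | i
    · show (x ∘ Sum.inl) i - _ = x (Sum.inl i) - (((osum Q₁ Q₂ (Sum.elim v 0 : ι ⊕ κ → F))⁻¹ * (QuadraticMap.polar Q₁ ((Sum.elim v 0 : ι ⊕ κ → F) ∘ Sum.inl) (x ∘ Sum.inl) + QuadraticMap.polar Q₂ ((Sum.elim v 0 : ι ⊕ κ → F) ∘ Sum.inr) (x ∘ Sum.inr))) • (Sum.elim v 0 : ι ⊕ κ → F)) (Sum.inl i)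
      rw [h1, h2]; rfl
    · show x (Sum.inr i) = x (Sum.inr i) - (((osum Q₁ Q₂ (Sum.elim v 0 : ι ⊕ κ → F))⁻¹ * (QuadraticMap.polar Q₁ ((Sum.elim v 0 : ι ⊕ κ → F) ∘ Sum.inl) (x ∘ Sum.inl) + QuadraticMap.polar Q₂ ((Sum.elim v 0 : ι ⊕ κ → F) ∘ Sum.inr) (x ∘ Sum.inr))) • (Sum.elim v 0 : ι ⊕ κ → F)) (Sum.inr i)
      simp

/-- the embedding of the second summand -/
def embR (Q₁ : QuadraticForm F (ι → F)) (Q₂ : QuadraticForm F (κ → F)) : Emb Q₂ (osum Q₁ Q₂) where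
  φ := (sumHom Q₁ Q₂).comp (MonoidHom.inr _ _)
  j := { toFun := fun v => Sum.elim 0 v
         map_add' := fun u v => by funext i; rcases i with i | i <;> simp
         map_smul' := fun c v => by funext i; rcases i with i | i <;> simp }
  hj v := by
    show Q₁ 0 + Q₂ v = Q₂ v
    rw [QuadraticMap.map_zero, zero_add]
  hφ v hv := by
    apply og_ext
    intro x
    show Sum.elim (x ∘ Sum.inl) ((oRefl Q₂ v hv).1 (x ∘ Sum.inr)) = _
    rw [oRefl_apply, oRefl_apply, polar_osum]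
    have h1 : osum Q₁ Q₂ (Sum.elim 0 v : ι ⊕ κ → F) = Q₂ v := by
      show Q₁ 0 + Q₂ v = Q₂ v
      rw [QuadraticMap.map_zero, zero_add]
    have h2 : QuadraticMap.polar Q₁ ((Sum.elim 0 v : ι ⊕ κ → F) ∘ Sum.inl) (x ∘ Sum.inl) + QuadraticMap.polar Q₂ ((Sum.elim 0 v : ι ⊕ κ → F) ∘ Sum.inr) (x ∘ Sum.inr) = QuadraticMap.polar Q₂ v (x ∘ Sum.inr) := by
      have h4 : (Sum.elim 0 v : ι ⊕ κ → F) ∘ Sum.inr = v := rfl
      have h5 : (Sum.elim 0 v : ι ⊕ κ → F) ∘ Sum.inl = 0 := rfl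
      rw [h4, h5, QuadraticMap.polar_zero_left, zero_add]
    funext i
    rcases i with i | i
    · show x (Sum.inl i) = x (Sum.inl i) - (((osum Q₁ Q₂ (Sum.elim 0 v : ι ⊕ κ → F))⁻¹ * (QuadraticMap.polar Q₁ ((Sum.elim 0 v : ι ⊕ κ → F) ∘ Sum.inl) (x ∘ Sum.inl) + QuadraticMap.polar Q₂ ((Sum.elim 0 v : ι ⊕ κ → F) ∘ Sum.inr) (x ∘ Sum.inr))) • (Sum.elim 0 v : ι ⊕ κ → F)) (Sum.inl i)
      simp
    · show (x ∘ Sum.inr) i - _ = x (Sum.inr i) - (((osum Q₁ Q₂ (Sum.elim 0 v : ι ⊕ κ → F))⁻¹ * (QuadraticMap.polar Q₁ ((Sum.elim 0 v : ι ⊕ κ → F) ∘ Sum.inl) (x ∘ Sum.inl) + QuadraticMap.polar Q₂ ((Sum.elim 0 v : ι ⊕ κ → F) ∘ Sum.inr) (x ∘ Sum.inr))) • (Sum.elim 0 v : ι ⊕ κ → F)) (Sum.inr i)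
      rw [h1, h2]; rfl

variable [DecidableEq ι] [DecidableEq κ]

theorem mulVec_fromBlocks (A : Matrix ι ι F) (B : Matrix κ κ F) (v : ι ⊕ κ → F) :
    (Matrix.fromBlocks A 0 0 B).mulVec v = Sum.elim (A.mulVec (v ∘ Sum.inl)) (B.mulVec (v ∘ Sum.inr)) := by
  rw [Matrix.fromBlocks_mulVec]
  simp

/-- matrix transfer -/
theorem oIso_blocks (g₁ : ↥(Cfsg.isometryGroup F ⇑Q₁)) (g₂ : ↥(Cfsg.isometryGroup F ⇑Q₂)) (g : ↥(Cfsg.isometryGroup F ⇑(osum Q₁ Q₂))) :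
    ((g : Matrix.GeneralLinearGroup (ι ⊕ κ) F) : Matrix (ι ⊕ κ) (ι ⊕ κ) F) = Matrix.fromBlocks ((g₁ : Matrix.GeneralLinearGroup ι F) : Matrix ι ι F) 0 0 ((g₂ : Matrix.GeneralLinearGroup κ F) : Matrix κ κ F) ↔
      oIso (osum Q₁ Q₂) g = sumHom Q₁ Q₂ (oIso Q₁ g₁, oIso Q₂ g₂) := by
  rw [← oIso_eq_iff (osum Q₁ Q₂) g (sumHom Q₁ Q₂ (oIso Q₁ g₁, oIso Q₂ g₂)).1 _ (fun x => by rw [mulVec_fromBlocks]; rfl)]
  constructor
  · intro h; exact Subtype.ext h
  · intro h; rw [h]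

end sum

end CfsgLib.OSum
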