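import Mathlib
import Cfsg.Agent.LibInv2pH13
import Cfsg.Agent.LibInv2mH13
import Cfsg.Agent.LibInv2sH13
import Cfsg.Agent.LibOSumH13
import Cfsg.Agent.LibClsH13

/-! Classes of involutions in characteristic two: types and representatives (seat helper13). -/

namespace CfsgLib.InvC

open Module LinearMap CfsgLib.Inv2 Cfsg.Agent.H22 CfsgLib.Cls CfsgLib.OSum

section cnt

theorem card_types {G X : Type*} [Group G] [DecidableEq X] (P : G → Prop) (f : G → X) (T : Finset X) (h1 : ∀ g, P g → f g ∈ T)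
    (h2 : ∀ x ∈ T, ∃ g, P g ∧ f g = x) (h3 : ∀ g h, P g → P h → (IsConj g h ↔ f g = f h)) :
    Nat.card {C : ConjClasses G // ∃ g, ConjClasses.mk g = C ∧ P g} = T.card := by
  have h4 := card_eq_of_fibres (G := {g : G // P g}) (X := {C : ConjClasses G // ∃ g, ConjClasses.mk g = C ∧ P g}) (Y := {x // x ∈ T})
    (fun g => ⟨ConjClasses.mk g.1, g.1, rfl, g.2⟩) (fun g => ⟨f g.1, h1 _ g.2⟩) (by
      rintro ⟨C, g, rfl, hg⟩
      exact ⟨⟨g, hg⟩, rfl⟩) (by
      rintro ⟨x, hx⟩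
      obtain ⟨g, hg, rfl⟩ := h2 x hx
      exact ⟨⟨g, hg⟩, rfl⟩) (by
      intro g g'
      rw [Subtype.mk.injEq, Subtype.mk.injEq, ConjClasses.mk_eq_mk_iff_isConj]
      exact h3 _ _ g.2 g'.2)
  rw [h4, Nat.card_eq_fintype_card, Fintype.card_coe]

theorem card_classes_congr {G H : Type*} [Group G] [Group H] (e : G ≃* H) (n : ℕ) :
    Nat.card {C : ConjClasses G // ∃ g, ConjClasses.mk g = C ∧ orderOf g = n} = Nat.card {C : ConjClasses H // ∃ g, ConjClasses.mk g = C ∧ orderOf g = n} := by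
  refine card_eq_of_fibres (G := {g : G // orderOf g = n}) (fun g => ⟨ConjClasses.mk g.1, g.1, rfl, g.2⟩)
    (fun g => ⟨ConjClasses.mk (e g.1), e g.1, rfl, by rw [MulEquiv.orderOf_eq]; exact g.2⟩) ?_ ?_ ?_
  · rintro ⟨C, g, rfl, hg⟩
    exact ⟨⟨g, hg⟩, rfl⟩
  · rintro ⟨C, g, rfl, hg⟩
    exact ⟨⟨e.symm g, by rw [MulEquiv.orderOf_eq]; exact hg⟩, Subtype.ext (by show ConjClasses.mk (e (e.symm g)) = _; rw [MulEquiv.apply_symm_apply])⟩
  · intro g g'
    rw [Subtype.mk.injEq, Subtype.mk.injEq, ConjClasses.mk_eq_mk_iff_isConj, ConjClasses.mk_eq_mk_iff_isConj]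
    constructor
    · intro h
      exact e.toMonoidHom.map_isConj h
    · intro h
      have := e.symm.toMonoidHom.map_isConj h
      simpa using this

theorem card_even_Icc (m : ℕ) : ((Finset.Icc 1 m).filter (fun s => Even s)).card = m / 2 := by
  induction m with
  | zero => rfl
  | succ m ih =>
    rw [← Finset.insert_Icc_right_eq_Icc_add_one (by omega), Finset.filter_insert]
    by_cases h : Even (m + 1)
    · rw [if_pos h, Finset.card_insert_of_notMem (by simp), ih]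
      rw [Nat.even_iff] at h; omega
    · rw [if_neg h, ih]
      rw [Nat.even_iff] at h; omega

end cnt

section abs
variable {F V : Type*} [Field F] [AddCommGroup V] [Module F V] [FiniteDimensional F V]

theorem finrank_range_comp {W V' : Type*} [AddCommGroup W] [Module F W] [AddCommGroup V'] [Module F V'] [FiniteDimensional F W] (L : V →ₗ[F] W) (U : W →ₗ[F] V')
    (hL : Function.Surjective L) (hU : Function.Injective U) {N : V →ₗ[F] V'} (hN : ∀ v, N v = U (L v)) : finrank F (range N) = finrank F W := by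
  have : range N = range U := by
    apply le_antisymm
    · rintro _ ⟨v, rfl⟩
      exact ⟨L v, (hN v).symm⟩
    · rintro _ ⟨w, rfl⟩
      obtain ⟨v, rfl⟩ := hL w
      exact ⟨v, hN v⟩
  rw [this, LinearMap.finrank_range_of_inj hU]

/-- the type of an involution -/
noncomputable def ty (Q : QuadraticForm F V) (T : V ≃ₗ[F] V) : ℕ ⊕ ℕ :=
  open Classical in if (∀ v, Q (nl T v) = 0) then Sum.inr (finrank F (range (nl T))) else Sum.inl (finrank F (range (nl T)))

variable {Q : QuadraticForm F V}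

theorem ty_alt {T : V ≃ₗ[F] V} (h : ∀ v, Q (nl T v) = 0) : ty Q T = Sum.inr (finrank F (range (nl T))) := by
  unfold ty; rw [if_pos h]

theorem ty_ne {T : V ≃ₗ[F] V} (h : ∃ v, Q (nl T v) ≠ 0) : ty Q T = Sum.inl (finrank F (range (nl T))) := by
  unfold ty; rw [if_neg (by push Not; exact h)]

theorem ty_eq_iff {T S : V ≃ₗ[F] V} : ty Q T = ty Q S ↔ finrank F (range (nl T)) = finrank F (range (nl S)) ∧
    ((∀ v, Q (nl T v) = 0) ↔ ∀ v, Q (nl S v) = 0) := by
  by_cases h1 : ∀ v, Q (nl T v) = 0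
  · rw [ty_alt h1]
    by_cases h2 : ∀ v, Q (nl S v) = 0
    · rw [ty_alt h2, Sum.inr.injEq]; tauto
    · rw [ty_ne (by push Not at h2; exact h2)]
      simp only [reduceCtorEq, false_iff]; tauto
  · rw [ty_ne (by push Not at h1; exact h1)]
    by_cases h2 : ∀ v, Q (nl S v) = 0
    · rw [ty_alt h2]
      simp only [reduceCtorEq, false_iff]; tauto
    · rw [ty_ne (by push Not at h2; exact h2), Sum.inl.injEq]; tauto

theorem nl_conj {T S g : V ≃ₗ[F] V} (h : g * T = S * g) (x : V) : g (nl T x) = nl S (g x) := by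
  have h1 : g (T x) = S (g x) := congrArg (fun z : V ≃ₗ[F] V => z x) h
  rw [nl_apply, nl_apply, map_sub, h1]

theorem rank_conj {T S g : V ≃ₗ[F] V} (h : g * T = S * g) : finrank F (range (nl T)) = finrank F (range (nl S)) := by
  have : range (nl S) = (range (nl T)).map (g : V →ₗ[F] V) := by
    apply le_antisymm
    · rintro _ ⟨y, rfl⟩
      obtain ⟨x, rfl⟩ := g.surjective y
      exact ⟨_, ⟨x, rfl⟩, nl_conj h x⟩
    · rintro _ ⟨_, ⟨x, rfl⟩, rfl⟩
      exact ⟨g x, (nl_conj h x).symm⟩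
  rw [this]
  exact (LinearEquiv.finrank_map_eq g _).symm

theorem ty_conj {T S g : V ≃ₗ[F] V} (hg : ∀ x, Q (g x) = Q x) (h : g * T = S * g) : ty Q T = ty Q S := by
  rw [ty_eq_iff]
  refine ⟨rank_conj h, ?_⟩
  constructor
  · intro h1 v
    obtain ⟨v, rfl⟩ := g.surjective v
    rw [← nl_conj h, hg, h1]
  · intro h1 v
    rw [← hg, nl_conj h, h1]

theorem q_iff [CharP F 2] {T : V ≃ₗ[F] V} (hT : T ∈ OGrp Q) : (∀ v, QuadraticMap.polarBilin Q v (nl T v) = 0) ↔ ∀ v, Q (nl T v) = 0 := by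
  constructor
  · intro h v
    rw [q_nl Q T hT]
    exact h v
  · intro h v
    have := q_nl Q T hT v
    rw [h v] at this
    exact this.symm

theorem polar_isom {T : V ≃ₗ[F] V} (hT : T ∈ OGrp Q) (x y : V) : QuadraticMap.polarBilin Q (T x) (T y) = QuadraticMap.polarBilin Q x y := by
  rw [QuadraticMap.polarBilin_apply_apply, QuadraticMap.polarBilin_apply_apply]
  exact OGrp_polar hT x y

theorem polar_alt [CharP F 2] (Q : QuadraticForm F V) : LinearMap.BilinForm.IsAlt (QuadraticMap.polarBilin Q : LinearMap.BilinForm F V) := by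
  intro x
  rw [QuadraticMap.polarBilin_apply_apply, pself, CharTwo.two_eq_zero, zero_mul]

theorem exists_conj [Finite F] [CharP F 2] (hQ : (QuadraticMap.polarBilin Q).Nondegenerate) {T S : V ≃ₗ[F] V} (hT : T ∈ OGrp Q) (hS : S ∈ OGrp Q)
    (hT2 : T * T = 1) (hS2 : S * S = 1) (h : ty Q T = ty Q S) : ∃ g ∈ OGrp Q, g * T = S * g := by
  have hsq : ∀ x : F, IsSquare x := fun x => FiniteField.isSquare_of_char_two (ringChar.eq F 2) x
  rw [ty_eq_iff] at h
  obtain ⟨g, hg1, hg2⟩ := alt_conj (QuadraticMap.polarBilin Q : LinearMap.BilinForm F V) hsq (polar_alt Q) hQ T S (polar_isom hT) (polar_isom hS) hT2 hS2 h.1 (by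
    rw [q_iff hT, q_iff hS]; exact h.2)
  exact exists_conj_of_symp hQ T S hT hS hT2 hS2 g (fun x y => hg1 x y) (fun x => congrArg (fun z : V ≃ₗ[F] V => z x) hg2)

theorem rank_le [CharP F 2] {T : V ≃ₗ[F] V} (hT2 : T * T = 1) : 2 * finrank F (range (nl T)) ≤ finrank F V := by
  have h1 := LinearMap.finrank_range_add_finrank_ker (nl T)
  have h2 : range (nl T) ≤ ker (nl T) := by
    rintro _ ⟨x, rfl⟩; exact nl_sq T hT2 x
  have := Submodule.finrank_mono h2
  omega

theorem rank_pos {T : V ≃ₗ[F] V} (hT : T ≠ 1) : 0 < finrank F (range (nl T)) := by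
  rw [Nat.pos_iff_ne_zero]
  intro h
  rw [Submodule.finrank_eq_zero, LinearMap.range_eq_bot] at h
  apply hT
  ext x
  have : nl T x = 0 := by rw [h]; rfl
  rw [nl_apply, sub_eq_zero] at this
  exact this

theorem even_of_alt [CharP F 2] (hQ : (QuadraticMap.polarBilin Q).Nondegenerate) {T : V ≃ₗ[F] V} (hT : T ∈ OGrp Q) (hT2 : T * T = 1)
    (h : ∀ v, Q (nl T v) = 0) : Even (finrank F (range (nl T))) :=
  even_of_zero (QuadraticMap.polarBilin Q : LinearMap.BilinForm F V) (polar_alt Q) hQ T (polar_isom hT) hT2 ((q_iff hT).mpr h)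

end abs

section plus
variable {F : Type*} [Field F] [CharP F 2] {m : ℕ}

/-- the swap -/
def swapFun (s : ℕ) (i : Fin m ⊕ Fin m) : Fin m ⊕ Fin m :=
  Sum.elim (fun i : Fin m => if (i : ℕ) < s then Sum.inr i else Sum.inl i) (fun i : Fin m => if (i : ℕ) < s then Sum.inl i else Sum.inr i) i

theorem swap_swap (s : ℕ) (i : Fin m ⊕ Fin m) : swapFun s (swapFun s i) = i := by
  rcases i with i | i
  · by_cases h : (i : ℕ) < s <;> simp [swapFun, h]
  · by_cases h : (i : ℕ) < s <;> simp [swapFun, h]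

theorem exists_nonalt {s : ℕ} (hs : s ≤ m) : ∃ T ∈ OGrp (qPlus m F), T * T = 1 ∧ finrank F (range (nl T)) = s ∧
    (1 ≤ s → ∃ v, qPlus m F (nl T v) ≠ 0) := by
  let σ : Fin m ⊕ Fin m ≃ Fin m ⊕ Fin m := ⟨swapFun s, swapFun s, swap_swap s, swap_swap s⟩
  let T : (Fin m ⊕ Fin m → F) ≃ₗ[F] (Fin m ⊕ Fin m → F) := LinearEquiv.funCongrLeft F F σ
  have hT : ∀ v i, T v i = v (swapFun s i) := fun v i => rfl
  have hT2 : T * T = 1 := by
    ext1 v
    funext i
    show T (T v) i = v i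
    rw [hT, hT, swap_swap]
  let L : (Fin m ⊕ Fin m → F) →ₗ[F] (Fin s → F) := LinearMap.pi fun j => (LinearMap.proj (Sum.inr (Fin.castLE hs j)) : (Fin m ⊕ Fin m → F) →ₗ[F] F) - LinearMap.proj (Sum.inl (Fin.castLE hs j))
  have hL : ∀ v j, L v j = v (Sum.inr (Fin.castLE hs j)) - v (Sum.inl (Fin.castLE hs j)) := fun v j => rfl
  let U : (Fin s → F) →ₗ[F] (Fin m ⊕ Fin m → F) := LinearMap.pi (fun i => Sum.elim (fun i : Fin m => if h : (i : ℕ) < s then (LinearMap.proj ⟨i, h⟩ : (Fin s → F) →ₗ[F] F) else 0)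
    (fun i : Fin m => if h : (i : ℕ) < s then (LinearMap.proj ⟨i, h⟩ : (Fin s → F) →ₗ[F] F) else 0) i)
  have hU1 : ∀ (w : Fin s → F) (i : Fin m), (h : (i : ℕ) < s) → U w (Sum.inl i) = w ⟨i, h⟩ := by
    intro w i h
    show (Sum.elim (fun i : Fin m => if h : (i : ℕ) < s then (LinearMap.proj ⟨i, h⟩ : (Fin s → F) →ₗ[F] F) else 0) _ (Sum.inl i : Fin m ⊕ Fin m)) w = _
    rw [Sum.elim_inl, dif_pos h]; rfl
  have hU2 : ∀ (w : Fin s → F) (i : Fin m), (h : (i : ℕ) < s) → U w (Sum.inr i) = w ⟨i, h⟩ := by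
    intro w i h
    show (Sum.elim _ (fun i : Fin m => if h : (i : ℕ) < s then (LinearMap.proj ⟨i, h⟩ : (Fin s → F) →ₗ[F] F) else 0) (Sum.inr i : Fin m ⊕ Fin m)) w = _
    rw [Sum.elim_inr, dif_pos h]; rfl
  have hU3 : ∀ (w : Fin s → F) (i : Fin m), ¬ (i : ℕ) < s → U w (Sum.inl i) = 0 := by
    intro w i h
    show (Sum.elim (fun i : Fin m => if h : (i : ℕ) < s then (LinearMap.proj ⟨i, h⟩ : (Fin s → F) →ₗ[F] F) else 0) _ (Sum.inl i : Fin m ⊕ Fin m)) w = _
    rw [Sum.elim_inl, dif_neg h]; rfl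
  have hU4 : ∀ (w : Fin s → F) (i : Fin m), ¬ (i : ℕ) < s → U w (Sum.inr i) = 0 := by
    intro w i h
    show (Sum.elim _ (fun i : Fin m => if h : (i : ℕ) < s then (LinearMap.proj ⟨i, h⟩ : (Fin s → F) →ₗ[F] F) else 0) (Sum.inr i : Fin m ⊕ Fin m)) w = _
    rw [Sum.elim_inr, dif_neg h]; rfl
  have hN : ∀ v, nl T v = U (L v) := by
    intro v
    funext i
    rw [nl_apply]
    show T v i - v i = _
    rw [hT]
    rcases i with i | i
    · by_cases h : (i : ℕ) < s
      · rw [hU1 _ _ h, hL]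
        have : swapFun s (Sum.inl i : Fin m ⊕ Fin m) = Sum.inr i := by simp [swapFun, h]
        rw [this]; rfl
      · rw [hU3 _ _ h]
        have : swapFun s (Sum.inl i : Fin m ⊕ Fin m) = Sum.inl i := by simp [swapFun, h]
        rw [this, sub_self]
    · by_cases h : (i : ℕ) < s
      · rw [hU2 _ _ h, hL]
        have : swapFun s (Sum.inr i : Fin m ⊕ Fin m) = Sum.inl i := by simp [swapFun, h]
        rw [this]
        show v (Sum.inl i) - v (Sum.inr i) = v (Sum.inr i) - v (Sum.inl i)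
        rw [CharTwo.sub_eq_add, CharTwo.sub_eq_add, add_comm]
      · rw [hU4 _ _ h]
        have : swapFun s (Sum.inr i : Fin m ⊕ Fin m) = Sum.inr i := by simp [swapFun, h]
        rw [this, sub_self]
  have hLs : Function.Surjective L := by
    intro w
    refine ⟨fun i => Sum.elim (fun _ => 0) (fun i : Fin m => if h : (i : ℕ) < s then w ⟨i, h⟩ else 0) i, ?_⟩
    funext j
    rw [hL]
    simp
  have hUi : Function.Injective U := by
    intro w w' hw
    funext j
    have h1 := congrFun hw (Sum.inl (Fin.castLE hs j))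
    rw [hU1 _ _ (by simp), hU1 _ _ (by simp)] at h1
    exact h1
  refine ⟨T, ?_, hT2, ?_, ?_⟩
  · intro v
    rw [coe_qPlus]
    unfold Cfsg.quadFormPlus
    refine Finset.sum_congr rfl fun i _ => ?_
    rw [hT, hT]
    by_cases h : (i : ℕ) < s
    · simp only [swapFun, Sum.elim_inl, Sum.elim_inr, h, if_true]; ring
    · simp only [swapFun, Sum.elim_inl, Sum.elim_inr, h, if_false]
  · rw [finrank_range_comp L U hLs hUi hN, Module.finrank_fintype_fun_eq_card, Fintype.card_fin]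
  · intro h1
    obtain ⟨v, hv⟩ := hLs (Pi.single ⟨0, h1⟩ 1)
    refine ⟨v, ?_⟩
    rw [hN, hv, coe_qPlus]
    unfold Cfsg.quadFormPlus
    have hm : 0 < m := by omega
    rw [Finset.sum_eq_single (⟨0, hm⟩ : Fin m)]
    · rw [hU1 _ ⟨0, hm⟩ h1, hU2 _ ⟨0, hm⟩ h1, Pi.single_eq_same]; simp
    · intro i _ hi
      by_cases h : (i : ℕ) < s
      · rw [hU1 _ _ h, Pi.single_eq_of_ne (by intro h'; apply hi; rw [Fin.mk.injEq] at h'; exact Fin.ext h'), zero_mul]
      · rw [hU3 _ _ h, zero_mul]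
    · intro h; exact absurd (Finset.mem_univ _) h

/-- pairing -/
def tau (i : ℕ) : ℕ := if i % 2 = 0 then i + 1 else i - 1

theorem tau_tau (i : ℕ) : tau (tau i) = i := by
  unfold tau
  rcases Nat.mod_two_eq_zero_or_one i with h | h
  · simp only [if_pos h]
    rw [if_neg (by omega)]; omega
  · simp only [if_neg (show ¬ i % 2 = 0 by omega)]
    rw [if_pos (by omega)]; omega

theorem tau_ne (i : ℕ) : tau i ≠ i := by
  unfold tau
  rcases Nat.mod_two_eq_zero_or_one i with h | h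
  · rw [if_pos h]; omega
  · rw [if_neg (by omega)]; omega

theorem tau_lt {s : ℕ} (he : Even s) {i : ℕ} (h : i < s) : tau i < s := by
  unfold tau
  rw [Nat.even_iff] at he
  rcases Nat.mod_two_eq_zero_or_one i with h' | h'
  · rw [if_pos h']; omega
  · rw [if_neg (by omega)]; omega

theorem exists_alt {s : ℕ} (hs : s ≤ m) (he : Even s) : ∃ T ∈ OGrp (qPlus m F), T * T = 1 ∧ finrank F (range (nl T)) = s ∧
    ∀ v, qPlus m F (nl T v) = 0 := by
  let L : (Fin m ⊕ Fin m → F) →ₗ[F] (Fin s → F) := LinearMap.pi fun j => LinearMap.proj (Sum.inr ⟨tau j, (tau_lt he j.2).trans_le hs⟩)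
  have hL : ∀ v j, L v j = v (Sum.inr ⟨tau j, (tau_lt he j.2).trans_le hs⟩) := fun v j => rfl
  let U : (Fin s → F) →ₗ[F] (Fin m ⊕ Fin m → F) := LinearMap.pi (fun i => Sum.elim (fun i : Fin m => if h : (i : ℕ) < s then (LinearMap.proj ⟨i, h⟩ : (Fin s → F) →ₗ[F] F) else 0)
    (fun _ : Fin m => 0) i)
  have hU1 : ∀ (w : Fin s → F) (i : Fin m), (h : (i : ℕ) < s) → U w (Sum.inl i) = w ⟨i, h⟩ := by
    intro w i h
    show (Sum.elim (fun i : Fin m => if h : (i : ℕ) < s then (LinearMap.proj ⟨i, h⟩ : (Fin s → F) →ₗ[F] F) else 0) _ (Sum.inl i : Fin m ⊕ Fin m)) w = _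
    rw [Sum.elim_inl, dif_pos h]; rfl
  have hU3 : ∀ (w : Fin s → F) (i : Fin m), ¬ (i : ℕ) < s → U w (Sum.inl i) = 0 := by
    intro w i h
    show (Sum.elim (fun i : Fin m => if h : (i : ℕ) < s then (LinearMap.proj ⟨i, h⟩ : (Fin s → F) →ₗ[F] F) else 0) _ (Sum.inl i : Fin m ⊕ Fin m)) w = _
    rw [Sum.elim_inl, dif_neg h]; rfl
  have hU4 : ∀ (w : Fin s → F) (i : Fin m), U w (Sum.inr i) = 0 := fun w i => rfl
  have hLU : ∀ w, L (U w) = 0 := fun w => rfl
  have h2 : ∀ v : Fin m ⊕ Fin m → F, v + v = 0 := by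
    intro v; funext i; exact CharTwo.add_self_eq_zero _
  let T0 : (Fin m ⊕ Fin m → F) →ₗ[F] (Fin m ⊕ Fin m → F) := LinearMap.id + U.comp L
  have hT0 : ∀ v, T0 v = v + U (L v) := fun v => rfl
  have hT00 : ∀ v, T0 (T0 v) = v := by
    intro v
    rw [hT0, hT0, map_add, hLU, add_zero, add_assoc, h2, add_zero]
  let T : (Fin m ⊕ Fin m → F) ≃ₗ[F] (Fin m ⊕ Fin m → F) := LinearEquiv.ofLinear T0 T0 (LinearMap.ext hT00) (LinearMap.ext hT00)
  have hT : ∀ v, T v = v + U (L v) := fun v => rfl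
  have hT2 : T * T = 1 := by
    ext1 v
    exact hT00 v
  have hN : ∀ v, nl T v = U (L v) := by
    intro v
    rw [nl_apply, hT, add_sub_cancel_left]
  have hLs : Function.Surjective L := by
    intro w
    refine ⟨fun i => Sum.elim (fun _ => 0) (fun i : Fin m => if h : (i : ℕ) < s then w ⟨tau i, tau_lt he h⟩ else 0) i, ?_⟩
    funext j
    rw [hL]
    simp only [Sum.elim_inr]
    rw [dif_pos (tau_lt he j.2)]
    congr 1
    apply Fin.ext
    exact tau_tau j
  have hUi : Function.Injective U := by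
    intro w w' hw
    funext j
    have h1 := congrFun hw (Sum.inl (Fin.castLE hs j))
    rw [hU1 _ _ (by simp), hU1 _ _ (by simp)] at h1
    exact h1
  refine ⟨T, ?_, hT2, ?_, ?_⟩
  · intro v
    rw [coe_qPlus]
    unfold Cfsg.quadFormPlus
    have h3 : ∀ i : Fin m, (T v) (Sum.inl i) * (T v) (Sum.inr i) = v (Sum.inl i) * v (Sum.inr i) + U (L v) (Sum.inl i) * v (Sum.inr i) := by
      intro i
      rw [hT, Pi.add_apply, Pi.add_apply, hU4]; ring
    rw [Finset.sum_congr rfl (fun i _ => h3 i), Finset.sum_add_distrib]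
    have h4 : ∑ i : Fin m, U (L v) (Sum.inl i) * v (Sum.inr i) = 0 := by
      refine Finset.sum_involution (fun i _ => if h : (i : ℕ) < s then ⟨tau i, (tau_lt he h).trans_le hs⟩ else i) ?_ ?_ ?_ ?_
      · intro i _
        by_cases h : (i : ℕ) < s
        · rw [dif_pos h, hU1 _ _ h, hU1 _ _ (show ((⟨tau i, (tau_lt he h).trans_le hs⟩ : Fin m) : ℕ) < s from tau_lt he h), hL, hL]
          simp only [tau_tau]
          rw [mul_comm]
          exact CharTwo.add_self_eq_zero _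
        · rw [dif_neg h, hU3 _ _ h]; ring
      · intro i _ hi
        by_cases h : (i : ℕ) < s
        · rw [dif_pos h]
          intro h'
          exact tau_ne i (congrArg Fin.val h')
        · exfalso; apply hi; rw [hU3 _ _ h, zero_mul]
      · intro i _; exact Finset.mem_univ _
      · intro i _
        by_cases h : (i : ℕ) < s
        · simp only [dif_pos h]
          rw [dif_pos (tau_lt he h)]
          apply Fin.ext
          exact tau_tau i
        · simp only [dif_neg h]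
    rw [h4, add_zero]
  · rw [finrank_range_comp L U hLs hUi hN, Module.finrank_fintype_fun_eq_card, Fintype.card_fin]
  · intro v
    rw [hN, coe_qPlus]
    unfold Cfsg.quadFormPlus
    refine Finset.sum_eq_zero fun i _ => ?_
    rw [hU4, mul_zero]

end plus

section minus
variable {F : Type*} [Field F] {k : ℕ} {a b : F}

/-- the anisotropic plane -/
def bf (a b : F) (w : Fin 2 → F) : F := w 0 ^ 2 + a * w 0 * w 1 + b * w 1 ^ 2

theorem qMinus_sum (v : (Fin k ⊕ Fin k) ⊕ Fin 2 → F) : qMinus k F a b v = qPlus k F (v ∘ Sum.inl) + bf a b (v ∘ Sum.inr) := by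
  rw [coe_qMinus, coe_qPlus]; rfl

theorem sumEq_mem {T : (Fin k ⊕ Fin k → F) ≃ₗ[F] (Fin k ⊕ Fin k → F)} {R : (Fin 2 → F) ≃ₗ[F] (Fin 2 → F)} (hT : T ∈ OGrp (qPlus k F))
    (hR : ∀ w, bf a b (R w) = bf a b w) : sumEq T R ∈ OGrp (qMinus k F a b) := by
  intro v
  rw [qMinus_sum, qMinus_sum, sumEq_apply, Sum.elim_comp_inl, Sum.elim_comp_inr, hR]
  congr 1
  exact hT _

theorem sumEq_sq {T : (Fin k ⊕ Fin k → F) ≃ₗ[F] (Fin k ⊕ Fin k → F)} {R : (Fin 2 → F) ≃ₗ[F] (Fin 2 → F)} (hT : T * T = 1) (hR : R * R = 1) :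
    sumEq T R * sumEq T R = 1 := by
  ext1 v
  show sumEq T R (sumEq T R v) = v
  rw [sumEq_apply, sumEq_apply, Sum.elim_comp_inl, Sum.elim_comp_inr]
  have h1 : T (T (v ∘ Sum.inl)) = v ∘ Sum.inl := congrArg (fun z : (Fin k ⊕ Fin k → F) ≃ₗ[F] (Fin k ⊕ Fin k → F) => z (v ∘ Sum.inl)) hT
  have h2 : R (R (v ∘ Sum.inr)) = v ∘ Sum.inr := congrArg (fun z : (Fin 2 → F) ≃ₗ[F] (Fin 2 → F) => z (v ∘ Sum.inr)) hR
  rw [h1, h2]
  funext i
  rcases i with i | i <;> rfl

theorem nl_sumEq {T : (Fin k ⊕ Fin k → F) ≃ₗ[F] (Fin k ⊕ Fin k → F)} {R : (Fin 2 → F) ≃ₗ[F] (Fin 2 → F)} (v : (Fin k ⊕ Fin k) ⊕ Fin 2 → F) :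
    nl (sumEq T R) v = Sum.elim (nl T (v ∘ Sum.inl)) (nl R (v ∘ Sum.inr)) := by
  rw [nl_apply, sumEq_apply]
  funext i
  rcases i with i | i <;> rfl

theorem rank_sumEq {T : (Fin k ⊕ Fin k → F) ≃ₗ[F] (Fin k ⊕ Fin k → F)} {R : (Fin 2 → F) ≃ₗ[F] (Fin 2 → F)} :
    finrank F (range (nl (sumEq T R))) = finrank F (range (nl T)) + finrank F (range (nl R)) := by
  rw [← Module.finrank_prod]
  let L : ((Fin k ⊕ Fin k) ⊕ Fin 2 → F) →ₗ[F] (range (nl T) × range (nl R)) :=
    ((nl T).rangeRestrict.comp (LinearMap.funLeft F F Sum.inl)).prod ((nl R).rangeRestrict.comp (LinearMap.funLeft F F Sum.inr))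
  let U : (range (nl T) × range (nl R)) →ₗ[F] ((Fin k ⊕ Fin k) ⊕ Fin 2 → F) :=
    { toFun := fun w => Sum.elim w.1.1 w.2.1
      map_add' := fun x y => by funext i; rcases i with i | i <;> rfl
      map_smul' := fun c x => by funext i; rcases i with i | i <;> rfl }
  refine finrank_range_comp L U ?_ ?_ ?_
  · rintro ⟨⟨_, x, rfl⟩, ⟨_, y, rfl⟩⟩
    exact ⟨Sum.elim x y, rfl⟩
  · rintro ⟨⟨x, hx⟩, ⟨y, hy⟩⟩ ⟨⟨x', hx'⟩, ⟨y', hy'⟩⟩ h
    have h' : Sum.elim x y = Sum.elim x' y' := h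
    have h1 : x = x' := by funext i; exact congrFun h' (Sum.inl i)
    have h2 : y = y' := by funext i; exact congrFun h' (Sum.inr i)
    subst h1 h2; rfl
  · intro v
    rw [nl_sumEq]; rfl

/-- the reflection of the plane -/
theorem exists_refl [CharP F 2] (ha : a ≠ 0) : ∃ R : (Fin 2 → F) ≃ₗ[F] (Fin 2 → F), (∀ w, bf a b (R w) = bf a b w) ∧ R * R = 1 ∧ finrank F (range (nl R)) = 1 ∧
    ∃ w, bf a b (nl R w) ≠ 0 := by
  let U : F →ₗ[F] (Fin 2 → F) := LinearMap.toSpanSingleton F _ (Pi.single 0 1)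
  have hU : ∀ c, U c = Pi.single 0 c := by
    intro c
    show c • (Pi.single 0 1 : Fin 2 → F) = _
    rw [← Pi.single_smul', smul_eq_mul, mul_one]
  let L : (Fin 2 → F) →ₗ[F] F := a • LinearMap.proj 1
  have hL : ∀ w, L w = a * w 1 := fun w => rfl
  let R0 : (Fin 2 → F) →ₗ[F] (Fin 2 → F) := LinearMap.id + U.comp L
  have hR0 : ∀ w, R0 w = w + Pi.single 0 (a * w 1) := by
    intro w
    show w + U (L w) = _
    rw [hU, hL]
  have hR00 : ∀ w, R0 (R0 w) = w := by
    intro w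
    rw [hR0, hR0]
    funext i
    fin_cases i
    · simp only [Fin.zero_eta, Pi.add_apply, Pi.single_eq_same]
      rw [Pi.single_eq_of_ne (show (1 : Fin 2) ≠ 0 by decide), add_zero, add_assoc, CharTwo.add_self_eq_zero (R := F), add_zero]
    · simp
  let R : (Fin 2 → F) ≃ₗ[F] (Fin 2 → F) := LinearEquiv.ofLinear R0 R0 (LinearMap.ext hR00) (LinearMap.ext hR00)
  have hR : ∀ w, R w = w + Pi.single 0 (a * w 1) := hR0
  have hN : ∀ w, nl R w = Pi.single 0 (a * w 1) := by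
    intro w; rw [nl_apply, hR, add_sub_cancel_left]
  refine ⟨R, ?_, ?_, ?_, ?_⟩
  · intro w
    unfold bf
    have h0 : R w 0 = w 0 + a * w 1 := by rw [hR]; simp
    have h1 : R w 1 = w 1 := by rw [hR]; simp
    rw [h0, h1]
    have h2 : (2 : F) = 0 := CharTwo.two_eq_zero
    linear_combination (a * w 0 * w 1 + a ^ 2 * w 1 ^ 2) * h2
  · ext1 w; exact hR00 w
  · rw [finrank_range_comp L U ?_ ?_ (fun v => by rw [hN, hU, hL]), Module.finrank_self]
    · intro c
      exact ⟨Pi.single 1 (a⁻¹ * c), by rw [hL, Pi.single_eq_same, ← mul_assoc, mul_inv_cancel₀ ha, one_mul]⟩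
    · intro c d h
      rw [hU, hU] at h
      exact Pi.single_injective _ h
  · refine ⟨Pi.single 1 1, ?_⟩
    rw [hN]
    unfold bf
    simp [ha]

end minus

end CfsgLib.InvC
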