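import Mathlib
import Cfsg.Agent.LibInvCH13

/-! Classes of involutions in characteristic two: the counts (seat helper13). -/

namespace CfsgLib.InvC

open Module LinearMap CfsgLib.Inv2 Cfsg.Agent.H22 CfsgLib.Cls CfsgLib.OSum

section abs
variable {F V : Type*} [Field F] [Fintype F] [CharP F 2] [AddCommGroup V] [Module F V] [FiniteDimensional F V] {Q : QuadraticForm F V}

theorem ord_two {G : Type*} [Group G] (g : G) : orderOf g = 2 ↔ g * g = 1 ∧ g ≠ 1 := by
  rw [orderOf_eq_prime_iff, pow_two]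

theorem isConj_iff_ty (hQ : (QuadraticMap.polarBilin Q).Nondegenerate) (g h : OGrp Q) (hg : orderOf g = 2) (hh : orderOf h = 2) :
    IsConj g h ↔ ty Q (g : V ≃ₗ[F] V) = ty Q (h : V ≃ₗ[F] V) := by
  rw [ord_two] at hg hh
  constructor
  · intro hc
    obtain ⟨c, hc⟩ := isConj_iff.1 hc
    have h2 : c * g = h * c := by rw [← hc]; group
    exact ty_conj c.2 (congrArg Subtype.val h2)
  · intro hty
    obtain ⟨c, hc, hc2⟩ := exists_conj hQ g.2 h.2 (congrArg Subtype.val hg.1) (congrArg Subtype.val hh.1) hty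
    rw [isConj_iff]
    refine ⟨⟨c, hc⟩, ?_⟩
    rw [mul_inv_eq_iff_eq_mul]
    exact Subtype.ext hc2

theorem count_O (hQ : (QuadraticMap.polarBilin Q).Nondegenerate) {m k : ℕ} (hV : finrank F V = 2 * m)
    (hk : ∀ T ∈ OGrp Q, T * T = 1 → (∀ v, Q (nl T v) = 0) → finrank F (range (nl T)) ≤ k)
    (hn : ∀ s, 1 ≤ s → s ≤ m → ∃ T ∈ OGrp Q, T * T = 1 ∧ finrank F (range (nl T)) = s ∧ ∃ v, Q (nl T v) ≠ 0)
    (ha : ∀ s, 1 ≤ s → s ≤ k → Even s → ∃ T ∈ OGrp Q, T * T = 1 ∧ finrank F (range (nl T)) = s ∧ ∀ v, Q (nl T v) = 0) :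
    Nat.card {C : ConjClasses (OGrp Q) // ∃ g, ConjClasses.mk g = C ∧ orderOf g = 2} = m + k / 2 := by
  rw [card_types (fun g : OGrp Q => orderOf g = 2) (fun g => ty Q (g : V ≃ₗ[F] V)) ((Finset.Icc 1 m).disjSum ((Finset.Icc 1 k).filter (fun s => Even s)))
    ?_ ?_ (isConj_iff_ty hQ), Finset.card_disjSum, card_even_Icc, Nat.card_Icc, Nat.add_sub_cancel]
  · intro g hg
    rw [ord_two] at hg
    have hT2 : (g : V ≃ₗ[F] V) * (g : V ≃ₗ[F] V) = 1 := congrArg Subtype.val hg.1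
    have hpos := rank_pos (T := (g : V ≃ₗ[F] V)) (fun h => hg.2 (Subtype.ext h))
    have hle := rank_le hT2
    by_cases h : ∀ v, Q (nl (g : V ≃ₗ[F] V) v) = 0
    · simp only [ty_alt h, Finset.inr_mem_disjSum, Finset.mem_filter, Finset.mem_Icc]
      exact ⟨⟨hpos, hk _ g.2 hT2 h⟩, even_of_alt hQ g.2 hT2 h⟩
    · push Not at h
      simp only [ty_ne h, Finset.inl_mem_disjSum, Finset.mem_Icc]
      exact ⟨hpos, by omega⟩
  · intro x hx
    rcases x with s | s
    · simp only [Finset.inl_mem_disjSum, Finset.mem_Icc] at hx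
      obtain ⟨T, hT, hT2, hr, hv⟩ := hn s hx.1 hx.2
      refine ⟨⟨T, hT⟩, (ord_two _).mpr ⟨Subtype.ext hT2, ?_⟩, ?_⟩
      · intro h
        have h1 : T = 1 := congrArg Subtype.val h
        obtain ⟨v, hv⟩ := hv
        apply hv
        rw [nl_apply, h1]
        show Q (v - v) = 0
        rw [sub_self, QuadraticMap.map_zero]
      · show ty Q T = _
        rw [ty_ne hv, hr]
    · simp only [Finset.inr_mem_disjSum, Finset.mem_filter, Finset.mem_Icc] at hx
      obtain ⟨T, hT, hT2, hr, hv⟩ := ha s hx.1.1 hx.1.2 hx.2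
      refine ⟨⟨T, hT⟩, (ord_two _).mpr ⟨Subtype.ext hT2, ?_⟩, ?_⟩
      · intro h
        have h1 : T = 1 := congrArg Subtype.val h
        have h2 : nl (1 : V ≃ₗ[F] V) = 0 := by
          apply LinearMap.ext
          intro x
          rw [nl_apply]; show x - x = 0; rw [sub_self]
        rw [h1, h2, LinearMap.range_zero, finrank_bot] at hr
        omega
      · show ty Q T = _
        rw [ty_alt hv, hr]

end abs

section plus
variable {F : Type*} [Field F] [Fintype F] [CharP F 2]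

theorem count_plus {m : ℕ} :
    Nat.card {C : ConjClasses (OGrp (qPlus m F)) // ∃ g, ConjClasses.mk g = C ∧ orderOf g = 2} = m + m / 2 := by
  have hV : finrank F (Fin m ⊕ Fin m → F) = 2 * m := by simp; omega
  refine count_O (nondeg_qPlus m) hV ?_ ?_ ?_
  · intro T hT hT2 h
    have := rank_le hT2
    omega
  · intro s h1 h2
    obtain ⟨T, hT, hT2, hr, hv⟩ := exists_nonalt (F := F) h2
    exact ⟨T, hT, hT2, hr, hv h1⟩
  · intro s _ h2 h3
    exact exists_alt h2 h3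

end plus

section minus
variable {F : Type*} [Field F] [Fintype F] [CharP F 2] {a b : F} (hab : ∀ z₁ z₂ : F, z₁ ^ 2 + a * z₁ * z₂ + b * z₂ ^ 2 = 0 → z₁ = 0 ∧ z₂ = 0)
include hab

theorem a_ne : a ≠ 0 := by
  rintro rfl
  obtain ⟨c, hc⟩ : IsSquare b := FiniteField.isSquare_of_char_two (ringChar.eq F 2) b
  have := hab c 1 (by
    have h2 : (2 : F) = 0 := CharTwo.two_eq_zero
    rw [hc]
    linear_combination c ^ 2 * h2)
  exact one_ne_zero this.2

theorem bf_ne {w : Fin 2 → F} (hw : w ≠ 0) : bf a b w ≠ 0 := by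
  intro h
  obtain ⟨h0, h1⟩ := hab _ _ h
  apply hw
  funext i
  fin_cases i
  · exact h0
  · exact h1

theorem minus_nonalt {k s : ℕ} (h1 : 1 ≤ s) (h2 : s ≤ k + 1) : ∃ T ∈ OGrp (qMinus k F a b), T * T = 1 ∧ finrank F (range (nl T)) = s ∧ ∃ v, qMinus k F a b (nl T v) ≠ 0 := by
  have hnl1 : nl (1 : (Fin 2 → F) ≃ₗ[F] (Fin 2 → F)) = 0 := by
    apply LinearMap.ext
    intro x
    rw [nl_apply]; show x - x = 0; rw [sub_self]
  by_cases h : s ≤ k
  · obtain ⟨T, hT, hT2, hr, hv⟩ := exists_nonalt (F := F) h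
    obtain ⟨v, hv⟩ := hv h1
    refine ⟨sumEq T 1, sumEq_mem hT (fun _ => rfl), sumEq_sq hT2 (one_mul 1), ?_, Sum.elim v 0, ?_⟩
    · rw [rank_sumEq, hr, hnl1, LinearMap.range_zero, finrank_bot]; omega
    · rw [nl_sumEq, qMinus_sum, Sum.elim_comp_inl, Sum.elim_comp_inr, Sum.elim_comp_inl, Sum.elim_comp_inr, map_zero]
      have : bf a b (0 : Fin 2 → F) = 0 := by unfold bf; simp
      rw [this, add_zero]
      exact hv
  · have hs : s = k + 1 := by omega
    subst hs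
    obtain ⟨T, hT, hT2, hr, -⟩ := exists_nonalt (F := F) (le_refl k)
    obtain ⟨R, hR, hR2, hRr, w, hw⟩ := exists_refl (b := b) (a_ne hab)
    refine ⟨sumEq T R, sumEq_mem hT hR, sumEq_sq hT2 hR2, ?_, Sum.elim 0 w, ?_⟩
    · rw [rank_sumEq, hr, hRr]
    · rw [nl_sumEq, qMinus_sum, Sum.elim_comp_inl, Sum.elim_comp_inr, Sum.elim_comp_inl, Sum.elim_comp_inr, map_zero, QuadraticMap.map_zero, zero_add]
      exact hw

omit hab in
theorem minus_alt {k s : ℕ} (h2 : s ≤ k) (h3 : Even s) : ∃ T ∈ OGrp (qMinus k F a b), T * T = 1 ∧ finrank F (range (nl T)) = s ∧ ∀ v, qMinus k F a b (nl T v) = 0 := by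
  have hnl1 : nl (1 : (Fin 2 → F) ≃ₗ[F] (Fin 2 → F)) = 0 := by
    apply LinearMap.ext
    intro x
    rw [nl_apply]; show x - x = 0; rw [sub_self]
  obtain ⟨T, hT, hT2, hr, hv⟩ := exists_alt (F := F) h2 h3
  refine ⟨sumEq T 1, sumEq_mem hT (fun _ => rfl), sumEq_sq hT2 (one_mul 1), ?_, fun v => ?_⟩
  · rw [rank_sumEq, hr, hnl1, LinearMap.range_zero, finrank_bot]; omega
  · rw [nl_sumEq, qMinus_sum, Sum.elim_comp_inl, Sum.elim_comp_inr, hv, hnl1, zero_add]
    unfold bf; simp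

theorem minus_alt_le {k : ℕ} {T : ((Fin k ⊕ Fin k) ⊕ Fin 2 → F) ≃ₗ[F] ((Fin k ⊕ Fin k) ⊕ Fin 2 → F)} (hT2 : T * T = 1)
    (h : ∀ v, qMinus k F a b (nl T v) = 0) : finrank F (range (nl T)) ≤ k := by
  have hV : finrank F ((Fin k ⊕ Fin k) ⊕ Fin 2 → F) = 2 * (k + 1) := by simp; omega
  have h1 := rank_le hT2
  have h2 : finrank F (range (nl T)) ≠ k + 1 := qMinus_TS a b hab (by rintro _ ⟨x, rfl⟩; exact h x)
  omega

theorem count_minus {k : ℕ} :
    Nat.card {C : ConjClasses (OGrp (qMinus k F a b)) // ∃ g, ConjClasses.mk g = C ∧ orderOf g = 2} = (k + 1) + k / 2 := by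
  have hV : finrank F ((Fin k ⊕ Fin k) ⊕ Fin 2 → F) = 2 * (k + 1) := by simp; omega
  exact count_O (nondeg_qMinus k a b hab) hV (fun T hT hT2 h => minus_alt_le hab hT2 h) (fun s h1 h2 => minus_nonalt hab h1 h2) (fun s _ h2 h3 => minus_alt h2 h3)

end minus

end CfsgLib.InvC
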