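import Mathlib
import Cfsg.Agent.LibInvC2H13
import Cfsg.Agent.LibH22SpOrder

/-! Orders of centralisers of involutions in characteristic two (seat helper13). -/

namespace CfsgLib.Cen2

open Module LinearMap Submodule CfsgLib.Inv2 Cfsg.Agent.H22 CfsgLib.InvC

section gen

theorem card_fibre {G : Type*} [Group G] [Finite G] (K : Subgroup G) {Z : Type*} (φ : G → Z) (hφ : Function.Surjective φ)
    (h : ∀ g h, φ g = φ h ↔ g⁻¹ * h ∈ K) : Nat.card G = Nat.card Z * Nat.card K := by
  have h1 : Nat.card Z = Nat.card (G ⧸ K) := CfsgLib.Cls.card_eq_of_fibres φ (fun g => (QuotientGroup.mk g : G ⧸ K)) hφ (Quotient.mk_surjective) (by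
    intro g g'
    rw [h, QuotientGroup.eq])
  rw [h1]
  exact Subgroup.card_eq_card_quotient_mul_card_subgroup K

theorem card_sigma_const {α : Type*} {β : α → Type*} [Finite α] [∀ a, Finite (β a)] (c : ℕ) (h : ∀ a, Nat.card (β a) = c) :
    Nat.card (Σ a, β a) = Nat.card α * c := by
  classical
  haveI := Fintype.ofFinite α
  rw [Nat.card_sigma, Finset.sum_congr rfl (fun a _ => h a), Finset.sum_const, Finset.card_univ, smul_eq_mul, Nat.card_eq_fintype_card]

end gen

section isot
variable {F V : Type*} [Field F] [Finite F] [AddCommGroup V] [Module F V] [FiniteDimensional F V] (B : LinearMap.BilinForm F V)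

/-- isotropic independent families -/
def IsoFam (k : ℕ) (y : Fin k → V) : Prop := LinearIndependent F y ∧ ∀ i j, B (y i) (y j) = 0

theorem card_diff {P S : Submodule F V} (h : S ≤ P) : Nat.card {v : V // v ∈ P ∧ v ∉ S} = Nat.card F ^ finrank F P - Nat.card F ^ finrank F S := by
  haveI : Finite V := Module.finite_of_finite F
  have h1 : {v : V | v ∈ P ∧ v ∉ S} = (P : Set V) \ (S : Set V) := rfl
  have h2 : Nat.card {v : V // v ∈ P ∧ v ∉ S} = ((P : Set V) \ (S : Set V)).ncard := by
    rw [← h1]; exact Nat.card_coe_set_eq _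
  rw [h2, Set.ncard_sdiff h (Set.toFinite _), ← Module.natCard_eq_pow_finrank (K := F) (V := P), ← Module.natCard_eq_pow_finrank (K := F) (V := S)]
  rw [← Nat.card_coe_set_eq, ← Nat.card_coe_set_eq]
  rfl

theorem isoFam_succ (hA : B.IsAlt) (k : ℕ) (y : Fin (k + 1) → V) : IsoFam B (k + 1) y ↔ IsoFam B k (Fin.tail y) ∧
    (y 0 ∈ LinearMap.BilinForm.orthogonal B (span F (Set.range (Fin.tail y))) ∧ y 0 ∉ span F (Set.range (Fin.tail y))) := by
  have hsym : ∀ x z, B x z = 0 → B z x = 0 := by
    intro x z h
    rw [← LinearMap.BilinForm.IsAlt.neg_eq hA x z, h, neg_zero]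
  have hli : LinearIndependent F y ↔ LinearIndependent F (Fin.tail y) ∧ y 0 ∉ span F (Set.range (Fin.tail y)) := by
    conv_lhs => rw [← Fin.cons_self_tail y]
    exact linearIndependent_finCons
  unfold IsoFam
  rw [hli, LinearMap.BilinForm.mem_orthogonal_iff]
  constructor
  · rintro ⟨⟨h1, h2⟩, h3⟩
    refine ⟨⟨h1, fun i j => h3 _ _⟩, ?_, h2⟩
    intro x hx
    induction hx using Submodule.span_induction with
    | mem x hx => obtain ⟨i, rfl⟩ := hx; exact h3 _ _
    | zero => exact by show B 0 _ = 0; rw [map_zero, LinearMap.zero_apply]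
    | add a b _ _ ha hb =>
      show B (a + b) _ = 0
      have ha' : B a (y 0) = 0 := ha
      have hb' : B b (y 0) = 0 := hb
      rw [map_add, LinearMap.add_apply, ha', hb', add_zero]
    | smul c a _ ha =>
      show B (c • a) _ = 0
      have ha' : B a (y 0) = 0 := ha
      rw [map_smul, LinearMap.smul_apply, ha', smul_zero]
  · rintro ⟨⟨h1, h2⟩, h3, h4⟩
    refine ⟨⟨h1, h4⟩, ?_⟩
    intro i j
    refine Fin.cases ?_ (fun i => ?_) i
    · refine Fin.cases ?_ (fun j => ?_) j
      · exact hA _
      · exact hsym _ _ (h3 _ (subset_span ⟨j, rfl⟩))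
    · refine Fin.cases ?_ (fun j => ?_) j
      · exact h3 _ (subset_span ⟨i, rfl⟩)
      · exact h2 i j

theorem card_isoFam (hA : B.IsAlt) (hB : B.Nondegenerate) {n : ℕ} (hV : finrank F V = n) (k : ℕ) :
    Nat.card {y : Fin k → V // IsoFam B k y} = ∏ i ∈ Finset.range k, (Nat.card F ^ (n - i) - Nat.card F ^ i) := by
  haveI : Finite V := Module.finite_of_finite F
  induction k with
  | zero =>
    rw [Finset.prod_range_zero, Nat.card_eq_one_iff_unique]
    exact ⟨⟨fun a b => Subtype.ext (Subsingleton.elim _ _)⟩, ⟨⟨fun i => i.elim0, linearIndependent_empty_type, fun i => i.elim0⟩⟩⟩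
  | succ k ih =>
    rw [Finset.prod_range_succ, ← ih]
    let e : {y : Fin (k + 1) → V // IsoFam B (k + 1) y} ≃ Σ y : {y : Fin k → V // IsoFam B k y},
        {v : V // v ∈ LinearMap.BilinForm.orthogonal B (span F (Set.range y.1)) ∧ v ∉ span F (Set.range y.1)} :=
      { toFun := fun y => ⟨⟨Fin.tail y.1, ((isoFam_succ B hA k y.1).mp y.2).1⟩, ⟨y.1 0, ((isoFam_succ B hA k y.1).mp y.2).2⟩⟩
        invFun := fun z => ⟨Fin.cons z.2.1 z.1.1, by
          rw [isoFam_succ B hA, Fin.tail_cons, Fin.cons_zero]
          exact ⟨z.1.2, z.2.2⟩⟩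
        left_inv := fun y => Subtype.ext (Fin.cons_self_tail y.1)
        right_inv := fun z => by
          obtain ⟨⟨y, hy⟩, ⟨v, hv⟩⟩ := z
          rfl }
    rw [Nat.card_congr e]
    refine card_sigma_const _ ?_
    rintro ⟨y, hy⟩
    rw [card_diff]
    · rw [LinearMap.BilinForm.finrank_orthogonal hB, finrank_span_eq_card hy.1, hV, Fintype.card_fin]
    · rw [Submodule.span_le]
      rintro _ ⟨j, rfl⟩
      show y j ∈ LinearMap.BilinForm.orthogonal B (span F (Set.range y))
      rw [LinearMap.BilinForm.mem_orthogonal_iff]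
      intro x hx
      induction hx using Submodule.span_induction with
      | mem x hx => obtain ⟨i, rfl⟩ := hx; exact hy.2 _ _
      | zero => exact by show B 0 _ = 0; rw [map_zero, LinearMap.zero_apply]
      | add a b _ _ ha hb =>
        show B (a + b) _ = 0
        have ha' : B a (y j) = 0 := ha
        have hb' : B b (y j) = 0 := hb
        rw [map_add, LinearMap.add_apply, ha', hb', add_zero]
      | smul c a _ ha =>
        show B (c • a) _ = 0
        have ha' : B a (y j) = 0 := ha
        rw [map_smul, LinearMap.smul_apply, ha', smul_zero]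

end isot

section cen
variable {F V : Type*} [Field F] [AddCommGroup V] [Module F V] (B : LinearMap.BilinForm F V)

/-- isometry group -/
def Iso : Subgroup (V ≃ₗ[F] V) where
  carrier := {g | ∀ x y, B (g x) (g y) = B x y}
  mul_mem' {a b} ha hb := fun x y => by
    rw [LinearEquiv.mul_apply, LinearEquiv.mul_apply]; exact (ha _ _).trans (hb x y)
  one_mem' := fun _ _ => rfl
  inv_mem' {a} ha := fun x y => by
    have h := ha (a⁻¹ x) (a⁻¹ y)
    have h1 : ∀ z, a (a⁻¹ z) = z := fun z => by rw [← LinearEquiv.mul_apply, mul_inv_cancel]; rfl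
    rw [h1, h1] at h
    exact h.symm

/-- centraliser of `N` -/
def Cen (N : V →ₗ[F] V) : Subgroup (V ≃ₗ[F] V) where
  carrier := {g | (∀ x y, B (g x) (g y) = B x y) ∧ ∀ x, g (N x) = N (g x)}
  mul_mem' {a b} ha hb := ⟨(Iso B).mul_mem ha.1 hb.1, fun x => by
    rw [LinearEquiv.mul_apply, LinearEquiv.mul_apply, hb.2, ha.2]⟩
  one_mem' := ⟨fun _ _ => rfl, fun _ => rfl⟩
  inv_mem' {a} ha := ⟨(Iso B).inv_mem ha.1, fun x => by
    apply a.injective
    have h1 : ∀ z, a (a⁻¹ z) = z := fun z => by rw [← LinearEquiv.mul_apply, mul_inv_cancel]; rfl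
    rw [h1, ha.2, h1]⟩

/-- pointwise stabiliser of the image -/
def Fx (N : V →ₗ[F] V) : Subgroup (V ≃ₗ[F] V) where
  carrier := {g | (∀ x y, B (g x) (g y) = B x y) ∧ ∀ x, g (N x) = N x}
  mul_mem' {a b} ha hb := ⟨(Iso B).mul_mem ha.1 hb.1, fun x => by
    rw [LinearEquiv.mul_apply, hb.2, ha.2]⟩
  one_mem' := ⟨fun _ _ => rfl, fun _ => rfl⟩
  inv_mem' {a} ha := ⟨(Iso B).inv_mem ha.1, fun x => by
    apply a.injective
    have h1 : ∀ z, a (a⁻¹ z) = z := fun z => by rw [← LinearEquiv.mul_apply, mul_inv_cancel]; rfl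
    rw [h1, ha.2]⟩

theorem gram_expand {ι : Type*} [Fintype ι] (N : V →ₗ[F] V) (b : ι → V) (G : Matrix ι ι F) (hG : ∀ i j, B (b i) (N (b j)) = G i j) (A : Matrix ι ι F) (i j : ι) :
    B (∑ k, A k i • b k) (N (∑ l, A l j • b l)) = (A.transpose * G * A) i j := by
  have h1 : ∀ l, B (∑ k, A k i • b k) (N (b l)) = (A.transpose * G) i l := by
    intro l
    rw [Matrix.mul_apply]
    simp only [map_sum, LinearMap.sum_apply, map_smul, LinearMap.smul_apply, smul_eq_mul, hG, Matrix.transpose_apply]
  have h2 : N (∑ l, A l j • b l) = ∑ l, A l j • N (b l) := by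
    rw [map_sum]; exact Finset.sum_congr rfl fun l _ => map_smul _ _ _
  have h3 : B (∑ k, A k i • b k) (∑ l, A l j • N (b l)) = ∑ l, A l j * B (∑ k, A k i • b k) (N (b l)) := by
    rw [map_sum (B (∑ k, A k i • b k))]
    exact Finset.sum_congr rfl fun l _ => map_smul (B (∑ k, A k i • b k)) _ _
  rw [Matrix.mul_apply, h2, h3]
  refine Finset.sum_congr rfl fun l _ => ?_
  rw [h1, mul_comm]

variable [CharP F 2] [Finite F] [FiniteDimensional F V] (hA : B.IsAlt) (hB : B.Nondegenerate) (N : V →ₗ[F] V) (hN : ∀ x y, B (N x) y = B x (N y))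
  (hN2 : ∀ x, N (N x) = 0)
include hA hB hN hN2

omit [CharP F 2] in
theorem card_Iso {s n : ℕ} (hV : finrank F V = n) (hs : finrank F (range N) = s) :
    Nat.card (Iso B) = (∏ i ∈ Finset.range s, (Nat.card F ^ (n - i) - Nat.card F ^ i)) * Nat.card (Fx B N) := by
  haveI : Finite V := Module.finite_of_finite F
  haveI : Finite (V ≃ₗ[F] V) := Finite.of_injective (fun e : V ≃ₗ[F] V => (e : V → V)) DFunLike.coe_injective
  subst hs
  obtain ⟨u, hu1, hu2⟩ := exists_lift N
  rw [← card_isoFam B hA hB hV]
  have hperp : ∀ x y, B (N x) (N y) = 0 := by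
    intro x y; rw [hN, hN2, map_zero]
  have hK : Nat.card (Fx B N) = Nat.card ((Fx B N).subgroupOf (Iso B)) := by
    refine Nat.card_congr (Subgroup.subgroupOfEquivOfLe ?_).toEquiv.symm
    exact fun g hg => hg.1
  rw [hK]
  refine card_fibre _ (fun g : Iso B => (⟨fun i => g.1 (N (u i)), ?_, ?_⟩ : {y : Fin (finrank F (range N)) → V // IsoFam B _ y})) ?_ ?_
  · exact hu1.map' (g.1 : V →ₗ[F] V) (LinearEquiv.ker g.1)
  · intro i j
    have := g.2 (N (u i)) (N (u j))
    rw [this, hperp]
  · rintro ⟨y, hy1, hy2⟩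
    obtain ⟨g, hg, hgu⟩ := alt_ext B hA hB _ (fun i => N (u i)) y hu1 hy1 (fun i j => by rw [hperp, hy2])
    exact ⟨⟨g, TGrp_isometry B hA hg⟩, Subtype.ext (funext hgu)⟩
  · intro g h
    constructor
    · intro hgh'
      have hgh : (fun i => g.1 (N (u i))) = (fun i => h.1 (N (u i))) := congrArg Subtype.val hgh'
      refine ⟨(g⁻¹ * h).2, fun x => ?_⟩
      have hx : N x ∈ span F (Set.range fun i => N (u i)) := by rw [hu2]; exact ⟨x, rfl⟩
      have key : ∀ z ∈ span F (Set.range fun i => N (u i)), h.1 z = g.1 z := by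
        intro z hz
        induction hz using Submodule.span_induction with
        | mem z hz => obtain ⟨i, rfl⟩ := hz; exact (congrFun hgh i).symm
        | zero => rw [map_zero, map_zero]
        | add a b _ _ ha hb => rw [map_add, map_add, ha, hb]
        | smul c a _ ha => rw [map_smul, map_smul, ha]
      have h1 := key _ hx
      show g.1⁻¹ (h.1 (N x)) = N x
      rw [h1, ← LinearEquiv.mul_apply, inv_mul_cancel]; rfl
    · intro hgh
      apply Subtype.ext
      funext i
      show g.1 (N (u i)) = h.1 (N (u i))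
      have h1 : g.1⁻¹ (h.1 (N (u i))) = N (u i) := hgh.2 (u i)
      have h2 : ∀ z, g.1 (g.1⁻¹ z) = z := fun z => by rw [← LinearEquiv.mul_apply, mul_inv_cancel]; rfl
      rw [← h1, h2, h1]

/-- the fundamental count -/
theorem card_Cen {ι : Type*} [Fintype ι] [DecidableEq ι] (b : ι → V) (hb1 : LinearIndependent F (fun i => N (b i))) (hb2 : span F (Set.range fun i => N (b i)) = range N)
    (G : Matrix ι ι F) (hG : ∀ i j, B (b i) (N (b j)) = G i j) :
    Nat.card (Cen B N) = Nat.card {A : Matrix ι ι F // A.transpose * G * A = G} * Nat.card (Fx B N) := by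
  haveI : Finite V := Module.finite_of_finite F
  haveI : Finite (V ≃ₗ[F] V) := Finite.of_injective (fun e : V ≃ₗ[F] V => (e : V → V)) DFunLike.coe_injective
  have hperp : ∀ x y, B (N x) (N y) = 0 := by
    intro x y; rw [hN, hN2, map_zero]
  have hnd : ∀ x, (∀ y, B y x = 0) → x = 0 := fun x hx => hB.1 x (fun y => by rw [alt_symm B hA]; exact hx y)
  have hFC : Fx B N ≤ Cen B N := by
    intro g hg
    refine ⟨hg.1, ?_⟩
    exact comm_of_gram B hnd N N hN hN b b hb2 hb2 (fun i j => rfl) (g : V →ₗ[F] V) hg.1 (fun i => hg.2 _)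
  have hK : Nat.card (Fx B N) = Nat.card ((Fx B N).subgroupOf (Cen B N)) :=
    Nat.card_congr (Subgroup.subgroupOfEquivOfLe hFC).toEquiv.symm
  rw [hK]
  -- the intermediate set
  let X := {x : ι → V // ∃ u : ι → V, (∀ i, x i = N (u i)) ∧ ∀ i j, B (u i) (N (u j)) = G i j}
  have e1 : Nat.card (Cen B N) = Nat.card X * Nat.card ((Fx B N).subgroupOf (Cen B N)) := by
    refine card_fibre _ (fun g : Cen B N => (⟨fun i => g.1 (N (b i)), fun i => g.1 (b i), fun i => g.2.2 _, fun i j => ?_⟩ : X)) ?_ ?_
    · have h1 := g.2.1 (b i) (N (b j))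
      rw [← g.2.2, h1, hG]
    · rintro ⟨x, u, hx, hu⟩
      -- `N u` is independent
      have hxspan : span F (Set.range x) = range N ∧ LinearIndependent F x := by
        have hli : LinearIndependent F x := by
          rw [Fintype.linearIndependent_iff]
          intro c hc
          -- G is nondegenerate: use b
          have h3 : ∀ i, ∑ j, c j * G i j = 0 := by
            intro i
            have h4 : B (u i) (∑ j, c j • x j) = 0 := by rw [hc, map_zero]
            rw [map_sum] at h4
            rw [← h4]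
            refine Finset.sum_congr rfl fun j _ => ?_
            rw [map_smul, smul_eq_mul, hx, hu]
          have h5 : N (∑ j, c j • b j) = 0 := by
            have h6 : ∀ i, B (b i) (N (∑ j, c j • b j)) = 0 := by
              intro i
              rw [map_sum, map_sum, ← h3 i]
              refine Finset.sum_congr rfl fun j _ => ?_
              rw [map_smul, map_smul, smul_eq_mul, hG]
            apply hnd
            intro y
            rw [← hN]
            have hy : N y ∈ span F (Set.range fun i => N (b i)) := by rw [hb2]; exact ⟨y, rfl⟩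
            have key : ∀ z ∈ span F (Set.range fun i => N (b i)), B z (∑ j, c j • b j) = 0 := by
              intro z hz
              induction hz using Submodule.span_induction with
              | mem z hz => obtain ⟨i, rfl⟩ := hz; show B (N (b i)) _ = 0; rw [hN, h6]
              | zero => rw [map_zero, LinearMap.zero_apply]
              | add a b _ _ ha hb => rw [map_add, LinearMap.add_apply, ha, hb, add_zero]
              | smul c a _ ha => rw [map_smul, LinearMap.smul_apply, ha, smul_zero]
            exact key _ hy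
          rw [map_sum] at h5
          have h7 : ∑ j, c j • N (b j) = 0 := by rw [← h5]; exact Finset.sum_congr rfl fun j _ => (map_smul _ _ _).symm
          exact fun i => Fintype.linearIndependent_iff.mp hb1 c h7 i
        refine ⟨?_, hli⟩
        apply Submodule.eq_of_le_of_finrank_eq
        · rw [Submodule.span_le]
          rintro _ ⟨i, rfl⟩
          rw [hx]; exact ⟨_, rfl⟩
        · rw [finrank_span_eq_card hli, ← hb2, finrank_span_eq_card hb1]
      obtain ⟨hxs, hxl⟩ := hxspan
      let e := Fintype.equivFin ι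
      obtain ⟨g, hg, hgu⟩ := alt_ext B hA hB _ (fun i => N (b (e.symm i))) (fun i => x (e.symm i))
        (hb1.comp _ e.symm.injective) (hxl.comp _ e.symm.injective) (fun i j => by
          rw [hperp, hx, hx, hperp])
      have hgiso := TGrp_isometry B hA hg
      have hgu' : ∀ i, g (N (b i)) = x i := by
        intro i
        have := hgu (e i)
        rw [e.symm_apply_apply] at this
        exact this
      have hxN : x = fun i => N (u i) := funext hx
      have hcomm := comm_of_gram B hnd N N hN hN b u hb2 (by rw [← hxN]; exact hxs) (fun i j => by rw [hG, hu]) (g : V →ₗ[F] V) hgiso (fun i => by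
        rw [← hx]; exact hgu' i)
      exact ⟨⟨g, hgiso, hcomm⟩, Subtype.ext (funext hgu')⟩
    · intro g h
      constructor
      · intro hgh'
        have hgh : (fun i => g.1 (N (b i))) = (fun i => h.1 (N (b i))) := congrArg Subtype.val hgh'
        refine ⟨(g⁻¹ * h).2.1, fun x => ?_⟩
        have hx : N x ∈ span F (Set.range fun i => N (b i)) := by rw [hb2]; exact ⟨x, rfl⟩
        have key : ∀ z ∈ span F (Set.range fun i => N (b i)), h.1 z = g.1 z := by
          intro z hz
          induction hz using Submodule.span_induction with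
          | mem z hz => obtain ⟨i, rfl⟩ := hz; exact (congrFun hgh i).symm
          | zero => rw [map_zero, map_zero]
          | add a b _ _ ha hb => rw [map_add, map_add, ha, hb]
          | smul c a _ ha => rw [map_smul, map_smul, ha]
        have h1 := key _ hx
        show g.1⁻¹ (h.1 (N x)) = N x
        rw [h1, ← LinearEquiv.mul_apply, inv_mul_cancel]; rfl
      · intro hgh
        apply Subtype.ext
        funext i
        show g.1 (N (b i)) = h.1 (N (b i))
        have h1 : g.1⁻¹ (h.1 (N (b i))) = N (b i) := hgh.2 (b i)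
        have h2 : ∀ z, g.1 (g.1⁻¹ z) = z := fun z => by rw [← LinearEquiv.mul_apply, mul_inv_cancel]; rfl
        rw [← h1, h2, h1]
  rw [e1]
  congr 1
  -- the matrices
  symm
  refine Nat.card_congr (Equiv.ofBijective (fun A => (⟨fun i => ∑ k, A.1 k i • N (b k), fun i => ∑ k, A.1 k i • b k, fun i => ?_, fun i j => ?_⟩ : X)) ⟨?_, ?_⟩)
  · rw [map_sum]; exact Finset.sum_congr rfl fun j _ => (map_smul _ _ _).symm
  · rw [gram_expand B N b G hG, A.2]
  · intro A A' h
    apply Subtype.ext
    ext k i
    have h1 := congrFun (congrArg Subtype.val h) i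
    have h2 : ∑ k, (A.1 k i - A'.1 k i) • N (b k) = 0 := by
      simp only [sub_smul, Finset.sum_sub_distrib]
      exact sub_eq_zero.mpr h1
    exact sub_eq_zero.mp (Fintype.linearIndependent_iff.mp hb1 _ h2 k)
  · rintro ⟨x, u, hx, hu⟩
    have hex : ∀ i, ∃ c : ι → F, ∑ k, c k • N (b k) = x i := by
      intro i
      have : x i ∈ span F (Set.range fun i => N (b i)) := by rw [hb2, hx]; exact ⟨_, rfl⟩
      exact (Submodule.mem_span_range_iff_exists_fun F).mp this
    choose c hc using hex
    refine ⟨⟨Matrix.of fun k i => c i k, ?_⟩, Subtype.ext (funext hc)⟩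
    ext i j
    rw [← gram_expand B N b G hG]
    have hNu : ∀ i, N (∑ k, Matrix.of (fun k i => c i k) k i • b k) = N (u i) := by
      intro i
      rw [← hx, ← hc, map_sum]
      exact Finset.sum_congr rfl fun j _ => map_smul _ _ _
    rw [hNu, ← hN, hNu, hN, hu]

end cen

end CfsgLib.Cen2
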