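import Mathlib
import Cfsg.Agent.LibCen2H13

/-! Number of orthonormal bases in characteristic two, arithmetic (seat helper13). -/

namespace CfsgLib.Cen2

open Module LinearMap Submodule CfsgLib.Inv2 Cfsg.Agent.H22 CfsgLib.InvC

section onb
universe u v
variable {F : Type u} [Field F] [CharP F 2] [Finite F]

/-- number of orthonormal bases -/
def nO (q : ℕ) : ℕ → ℕ
  | 0 => 1
  | n + 1 => (if n = 0 then 1 else if Even n then q ^ n - 1 else q ^ n) * nO q n

/-- the count of suitable first vectors -/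
theorem card_first {V : Type v} [AddCommGroup V] [Module F V] [FiniteDimensional F V] (B : LinearMap.BilinForm F V) (hB : B.Nondegenerate) (hs : B.IsSymm)
    {n : ℕ} (hn : finrank F V = n + 1) (hna : ∃ v, B v v ≠ 0) :
    Nat.card {x : V // B x x = 1 ∧ (n = 0 ∨ ∃ y ∈ LinearMap.BilinForm.orthogonal B (span F {x}), B y y ≠ 0)} =
      (if n = 0 then 1 else if Even n then Nat.card F ^ n - 1 else Nat.card F ^ n) := by
  classical
  haveI : Finite V := Module.finite_of_finite F
  haveI := Fintype.ofFinite F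
  have hsq : ∀ x : F, IsSquare x := fun x => FiniteField.isSquare_of_char_two (ringChar.eq F 2) x
  obtain ⟨b, hb⟩ := exists_orth_basis hsq B hB hs hna
  -- the vector `v0`
  obtain ⟨v0, hv0def⟩ : ∃ v0 : V, v0 = ∑ i, b i := ⟨_, rfl⟩
  have hv0b : ∀ i, B (b i) v0 = 1 := by
    intro i
    rw [hv0def, map_sum, Finset.sum_congr rfl (fun j _ => hb i j)]
    simp
  have hv0 : ∀ x, B x x = B x v0 ^ 2 := by
    intro x
    have h1 : x = ∑ i, b.repr x i • b i := (b.sum_repr x).symm
    have h2 : B x v0 = ∑ i, b.repr x i := by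
      conv_lhs => rw [h1]
      rw [map_sum, LinearMap.sum_apply]
      refine Finset.sum_congr rfl fun i _ => ?_
      rw [map_smul, LinearMap.smul_apply, hv0b, smul_eq_mul, mul_one]
    have h3 : ∀ i, B (b i) x = b.repr x i := by
      intro i
      conv_lhs => rw [h1]
      rw [map_sum, Finset.sum_congr rfl (fun j _ => by rw [map_smul, hb i j, smul_eq_mul])]
      simp
    rw [h2]
    have h4 : B x x = ∑ i, (b.repr x i) ^ 2 := by
      nth_rewrite 1 [h1]
      rw [map_sum, LinearMap.sum_apply]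
      refine Finset.sum_congr rfl fun i _ => ?_
      rw [map_smul, LinearMap.smul_apply, h3, smul_eq_mul, pow_two]
    rw [h4]
    exact (sum_pow_char (p := 2) (R := F) _ _).symm
  have hv00 : B v0 v0 = ((n + 1 : ℕ) : F) := by
    nth_rewrite 1 [hv0def]
    rw [map_sum, LinearMap.sum_apply, Finset.sum_congr rfl (fun i _ => hv0b i), Finset.sum_const, Finset.card_univ, Fintype.card_fin, hn]
    simp
  have hone : ∀ x, B x x = 1 ↔ B x v0 = 1 := by
    intro x
    rw [hv0]
    constructor
    · intro h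
      have h2 : (B x v0 - 1) ^ 2 = 0 := by
        have h2 : (2 : F) = 0 := CharTwo.two_eq_zero
        linear_combination h + (1 - B x v0) * h2
      exact sub_eq_zero.mp (pow_eq_zero_iff (two_ne_zero) |>.mp h2)
    · intro h; rw [h, one_pow]
  -- total number of unit vectors
  have hv0ne : v0 ≠ 0 := by
    intro h
    obtain ⟨v, hv⟩ := hna
    apply hv
    rw [hv0, h, map_zero]; ring
  have htot : {x : V | B x v0 = 1}.ncard = Nat.card F ^ n := by
    -- linear functional
    let ℓ : V →ₗ[F] F := B.flip v0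
    have hℓ : ∀ x, ℓ x = B x v0 := fun x => rfl
    obtain ⟨x0, hx0⟩ : ∃ x0, ℓ x0 = 1 := by
      obtain ⟨y, hy⟩ : ∃ y, B y v0 ≠ 0 := by
        by_contra hcon
        push Not at hcon
        exact hv0ne (hB.2 v0 hcon)
      exact ⟨(B y v0)⁻¹ • y, by rw [map_smul, hℓ, smul_eq_mul, inv_mul_cancel₀ hy]⟩
    have hker : finrank F (ker ℓ) = n := by
      have h1 := LinearMap.finrank_range_add_finrank_ker ℓ
      have h2 : range ℓ = ⊤ := by
        rw [LinearMap.range_eq_top]
        intro c
        exact ⟨c • x0, by rw [map_smul, hx0, smul_eq_mul, mul_one]⟩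
      rw [h2, finrank_top, Module.finrank_self, hn] at h1
      omega
    rw [← hker, ← Module.natCard_eq_pow_finrank (K := F) (V := ker ℓ), ← Nat.card_coe_set_eq]
    refine Nat.card_congr (Equiv.ofBijective (fun x => (⟨x.1 - x0, ?_⟩ : ker ℓ)) ⟨?_, ?_⟩)
    · rw [LinearMap.mem_ker, map_sub, hx0]
      have : ℓ x.1 = 1 := x.2
      rw [this, sub_self]
    · intro x y hxy
      have : x.1 - x0 = y.1 - x0 := congrArg Subtype.val hxy
      exact Subtype.ext (sub_left_injective this)
    · rintro ⟨y, hy⟩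
      refine ⟨⟨y + x0, ?_⟩, Subtype.ext (by simp)⟩
      show ℓ (y + x0) = 1
      rw [map_add, hx0, LinearMap.mem_ker.mp hy, zero_add]
  by_cases hn0 : n = 0
  · subst hn0
    rw [if_pos rfl]
    have : {x : V // B x x = 1 ∧ ((0 : ℕ) = 0 ∨ ∃ y ∈ LinearMap.BilinForm.orthogonal B (span F {x}), B y y ≠ 0)} = {x : V | B x v0 = 1} := by
      congr 1
      ext x
      rw [hone]; simp
    rw [this]
    show Nat.card {x : V | B x v0 = 1} = 1
    rw [Nat.card_coe_set_eq, htot, pow_zero]
  · rw [if_neg hn0]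
    -- the complement condition
    have hcond : ∀ x, B x x = 1 → ((∃ y ∈ LinearMap.BilinForm.orthogonal B (span F {x}), B y y ≠ 0) ↔ x ≠ v0) := by
      intro x hx
      constructor
      · rintro ⟨y, hy, hyy⟩ hxv
        rw [hxv] at hy
        apply hyy
        have h1 : B v0 y = 0 := hy v0 (mem_span_singleton_self v0)
        rw [hv0, ← hs.eq v0 y]
        rw [h1]; ring
      · intro hne
        by_contra hcon
        push Not at hcon
        apply hne
        have h1 : v0 ∈ LinearMap.BilinForm.orthogonal B (LinearMap.BilinForm.orthogonal B (span F {x})) := by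
          rw [LinearMap.BilinForm.mem_orthogonal_iff]
          intro y hy
          have h2 := hcon y hy
          rw [hv0] at h2
          exact pow_eq_zero_iff (two_ne_zero) |>.mp h2
        rw [LinearMap.BilinForm.orthogonal_orthogonal hB hs.isRefl] at h1
        obtain ⟨c, hc⟩ := mem_span_singleton.1 h1
        have h3 : B x v0 = 1 := (hone x).mp hx
        rw [← hc, map_smul, hx, smul_eq_mul, mul_one] at h3
        rw [← hc, h3, one_smul]
    have hset : {x : V | B x x = 1 ∧ (n = 0 ∨ ∃ y ∈ LinearMap.BilinForm.orthogonal B (span F {x}), B y y ≠ 0)} = {x : V | B x v0 = 1} \ {v0} := by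
      ext x
      simp only [Set.mem_setOf_eq, Set.mem_sdiff, Set.mem_singleton_iff]
      constructor
      · rintro ⟨h1, h2⟩
        exact ⟨(hone x).mp h1, (hcond x h1).mp (h2.resolve_left hn0)⟩
      · rintro ⟨h1, h2⟩
        have h1' := (hone x).mpr h1
        exact ⟨h1', Or.inr ((hcond x h1').mpr h2)⟩
    show Nat.card {x : V | B x x = 1 ∧ (n = 0 ∨ ∃ y ∈ LinearMap.BilinForm.orthogonal B (span F {x}), B y y ≠ 0)} = _
    rw [Nat.card_coe_set_eq, hset]
    by_cases he : Even n
    · rw [if_pos he, Set.ncard_sdiff_singleton_of_mem, htot]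
      show B v0 v0 = 1
      rw [hv00, Nat.cast_add, Nat.cast_one]
      have : ((n : ℕ) : F) = 0 := by rw [CharP.cast_eq_zero_iff F 2]; exact he.two_dvd
      rw [this, zero_add]
    · rw [if_neg he, Set.sdiff_singleton_eq_self, htot]
      show ¬ B v0 v0 = 1
      rw [hv00]
      have : ((n + 1 : ℕ) : F) = 0 := by
        rw [CharP.cast_eq_zero_iff F 2]
        rw [Nat.not_even_iff_odd] at he
        exact he.add_one.two_dvd
      rw [this]; exact zero_ne_one

theorem card_onb (n : ℕ) : ∀ {V : Type v} [AddCommGroup V] [Module F V] [FiniteDimensional F V]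
    (B : LinearMap.BilinForm F V), B.Nondegenerate → B.IsSymm → (n = 0 ∨ ∃ v, B v v ≠ 0) → finrank F V = n →
    Nat.card {u : Fin n → V // ∀ i j, B (u i) (u j) = if i = j then 1 else 0} = nO (Nat.card F) n := by
  induction n with
  | zero =>
    intro V _ _ _ B _ _ _ _
    show _ = 1
    rw [Nat.card_eq_one_iff_unique]
    exact ⟨⟨fun a b => Subtype.ext (Subsingleton.elim _ _)⟩, ⟨⟨fun i => i.elim0, fun i => i.elim0⟩⟩⟩
  | succ n IH =>
    intro V _ _ _ B hB hs hna hn
    haveI : Finite V := Module.finite_of_finite F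
    have hna' : ∃ v, B v v ≠ 0 := by
      rcases hna with h | h
      · omega
      · exact h
    show _ = (if n = 0 then 1 else if Even n then (Nat.card F) ^ n - 1 else (Nat.card F) ^ n) * nO (Nat.card F) n
    rw [← card_first B hB hs hn hna']
    let e : {u : Fin (n + 1) → V // ∀ i j, B (u i) (u j) = if i = j then 1 else 0} ≃
        Σ x : {x : V // B x x = 1 ∧ (n = 0 ∨ ∃ y ∈ LinearMap.BilinForm.orthogonal B (span F {x}), B y y ≠ 0)},
          {u : Fin n → ↥(LinearMap.BilinForm.orthogonal B (span F {x.1})) // ∀ i j, (B.restrict (LinearMap.BilinForm.orthogonal B (span F {x.1}))) (u i) (u j) = if i = j then 1 else 0} :=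
      { toFun := fun u => ⟨⟨u.1 0, by
            refine ⟨by rw [u.2, if_pos rfl], ?_⟩
            by_cases h0 : n = 0
            · exact Or.inl h0
            · right
              obtain ⟨k, rfl⟩ : ∃ k, n = k + 1 := ⟨n - 1, by omega⟩
              refine ⟨u.1 1, ?_, by rw [u.2, if_pos rfl]; exact one_ne_zero⟩
              rw [LinearMap.BilinForm.mem_orthogonal_iff]
              intro y hy
              obtain ⟨c, rfl⟩ := mem_span_singleton.1 hy
              show B (c • u.1 0) (u.1 1) = 0
              rw [LinearMap.map_smul₂, u.2, if_neg (by exact Fin.zero_ne_one), smul_zero]⟩,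
          ⟨fun i => ⟨u.1 i.succ, by
            rw [LinearMap.BilinForm.mem_orthogonal_iff]
            intro y hy
            obtain ⟨c, rfl⟩ := mem_span_singleton.1 hy
            show B (c • u.1 0) (u.1 i.succ) = 0
            rw [LinearMap.map_smul₂, u.2, if_neg (Fin.succ_ne_zero i).symm, smul_zero]⟩, fun i j => by
            show B (u.1 i.succ) (u.1 j.succ) = _
            rw [u.2]; simp only [Fin.succ_inj]⟩⟩
        invFun := fun z => ⟨Fin.cons z.1.1 (fun i => (z.2.1 i : V)), by
          obtain ⟨⟨w, hw, hw'⟩, ⟨x, hx⟩⟩ := z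
          have hwx : ∀ i, B w (x i) = 0 := fun i => (x i).2 w (mem_span_singleton_self w)
          intro i j
          refine Fin.cases ?_ (fun i => ?_) i <;> refine Fin.cases ?_ (fun j => ?_) j
          · rw [Fin.cons_zero, hw, if_pos rfl]
          · rw [Fin.cons_zero, Fin.cons_succ, hwx, if_neg (Fin.succ_ne_zero j).symm]
          · rw [Fin.cons_zero, Fin.cons_succ, if_neg (Fin.succ_ne_zero i)]
            have := hs.eq w (x i : V)
            rw [← this]
            exact hwx i
          · rw [Fin.cons_succ, Fin.cons_succ]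
            have := hx i j
            simp only [Fin.succ_inj]
            exact this⟩
        left_inv := fun u => Subtype.ext (Fin.cons_self_tail u.1)
        right_inv := fun z => by
          obtain ⟨⟨w, hw⟩, ⟨x, hx⟩⟩ := z
          rfl }
    rw [Nat.card_congr e]
    refine card_sigma_const _ ?_
    rintro ⟨w, hw, hw'⟩
    have hw0 : B w w ≠ 0 := by rw [hw]; exact one_ne_zero
    have hwne : w ≠ 0 := by rintro rfl; rw [map_zero] at hw0; exact hw0 rfl
    have hB' := LinearMap.BilinForm.restrict_nondegenerate_orthogonal_spanSingleton B hB hs.isRefl hw0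
    refine IH (B.restrict (LinearMap.BilinForm.orthogonal B (span F {w}))) hB' ⟨fun a b => hs.eq _ _⟩ ?_ ?_
    · rcases hw' with h | ⟨v, hv, hvv⟩
      · exact Or.inl h
      · exact Or.inr ⟨⟨v, hv⟩, hvv⟩
    · have h1 := LinearMap.BilinForm.finrank_orthogonal hB (span F {w})
      rw [h1, hn, finrank_span_singleton hwne]; omega

/-- matrix form -/
theorem card_orth_matrix (n : ℕ) : Nat.card {A : Matrix (Fin n) (Fin n) F // A.transpose * (1 : Matrix (Fin n) (Fin n) F) * A = 1} = nO (Nat.card F) n := by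
  classical
  let B : LinearMap.BilinForm F (Fin n → F) := Matrix.toBilin' (1 : Matrix (Fin n) (Fin n) F)
  have hBv : ∀ x y, B x y = ∑ i, x i * y i := by
    intro x y
    show Matrix.toBilin' (1 : Matrix (Fin n) (Fin n) F) x y = _
    rw [Matrix.toBilin'_apply']; simp [dotProduct]
  have hB : B.Nondegenerate := Matrix.Nondegenerate.toBilin' (by
    rw [Matrix.nondegenerate_iff_det_ne_zero]; simp)
  have hs : B.IsSymm := ⟨fun x y => by
    show B x y = B y x
    rw [hBv, hBv]; exact Finset.sum_congr rfl fun i _ => mul_comm _ _⟩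
  rw [← card_onb n B hB hs (by
    by_cases h : n = 0
    · exact Or.inl h
    · right
      refine ⟨Pi.single ⟨0, by omega⟩ 1, ?_⟩
      rw [hBv, Finset.sum_eq_single ⟨0, by omega⟩]
      · simp
      · intro j _ hj; rw [Pi.single_eq_of_ne hj]; ring
      · intro h; exact absurd (Finset.mem_univ _) h) (by simp)]
  refine Nat.card_congr (Equiv.subtypeEquiv ⟨fun A i k => A k i, fun u => Matrix.of fun k i => u i k, fun _ => rfl, fun _ => rfl⟩ ?_)
  intro A
  rw [Matrix.mul_one, ← Matrix.ext_iff]
  simp only [hBv, Matrix.mul_apply, Matrix.transpose_apply, Matrix.one_apply]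
  exact Iff.rfl

theorem nO_odd (q k : ℕ) : nO q (2 * k + 1) = q ^ (k ^ 2) * ∏ i : Fin k, (q ^ (2 * ((i : ℕ) + 1)) - 1) := by
  induction k with
  | zero => simp [nO]
  | succ k ih =>
    have h1 : nO q (2 * (k + 1) + 1) = (q ^ (2 * (k + 1)) - 1) * (q ^ (2 * k + 1) * nO q (2 * k + 1)) := by
      show (if 2 * (k + 1) = 0 then 1 else if Even (2 * (k + 1)) then q ^ (2 * (k + 1)) - 1 else q ^ (2 * (k + 1))) *
        ((if 2 * k + 1 = 0 then 1 else if Even (2 * k + 1) then q ^ (2 * k + 1) - 1 else q ^ (2 * k + 1)) * nO q (2 * k + 1)) = _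
      rw [if_neg (by omega), if_pos (by simp), if_neg (by omega), if_neg (by simp)]
    rw [h1, ih, Fin.prod_univ_castSucc]
    simp only [Fin.val_castSucc, Fin.val_last]
    rw [show (k + 1) ^ 2 = (2 * k + 1) + k ^ 2 by ring, pow_add]
    ring

theorem nO_even (q k : ℕ) : nO q (2 * k + 2) = q ^ (2 * k + 1) * nO q (2 * k + 1) := by
  show (if 2 * k + 1 = 0 then 1 else if Even (2 * k + 1) then q ^ (2 * k + 1) - 1 else q ^ (2 * k + 1)) * nO q (2 * k + 1) = _
  rw [if_neg (by omega), if_neg (by simp)]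

end onb

section arith

theorem prod_isot (q m s : ℕ) (hs : s ≤ m) : ∏ i ∈ Finset.range s, (q ^ (2 * m - i) - q ^ i) =
    q ^ (s * (s - 1) / 2) * ∏ i ∈ Finset.range s, (q ^ (2 * (m - i)) - 1) := by
  rw [← Finset.sum_range_id, ← Finset.prod_pow_eq_pow_sum, ← Finset.prod_mul_distrib]
  refine Finset.prod_congr rfl fun i hi => ?_
  rw [Finset.mem_range] at hi
  rw [Nat.mul_sub, mul_one, ← pow_add]
  congr 2
  omega

theorem prod_split (q s d : ℕ) : ∏ i ∈ Finset.range (s + d), (q ^ (2 * (i + 1)) - 1) =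
    (∏ i ∈ Finset.range d, (q ^ (2 * (i + 1)) - 1)) * ∏ i ∈ Finset.range s, (q ^ (2 * (s + d - i)) - 1) := by
  rw [add_comm s d, Finset.prod_range_add]
  congr 1
  rw [← Finset.prod_range_reflect]
  refine Finset.prod_congr rfl fun i hi => ?_
  rw [Finset.mem_range] at hi
  congr 3
  omega

/-- order of the pointwise stabiliser -/
theorem fx_arith {q m s x : ℕ} (hq : 2 ≤ q) (hs : s ≤ m)
    (h : q ^ (m ^ 2) * ∏ i ∈ Finset.range m, (q ^ (2 * (i + 1)) - 1) = (∏ i ∈ Finset.range s, (q ^ (2 * m - i) - q ^ i)) * x) :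
    x = q ^ (2 * m * s - (3 * s ^ 2 - s) / 2) * ((q : ℕ) ^ ((m - s) ^ 2) * ∏ i : Fin (m - s), (q ^ (2 * ((i : ℕ) + 1)) - 1)) := by
  obtain ⟨d, rfl⟩ := Nat.exists_eq_add_of_le hs
  rw [prod_isot q _ s hs, prod_split, Nat.add_sub_cancel_left] at *
  rw [Fin.prod_univ_eq_prod_range (fun i => q ^ (2 * (i + 1)) - 1) d]
  have hP : 0 < ∏ i ∈ Finset.range s, (q ^ (2 * (s + d - i)) - 1) := by
    apply Finset.prod_pos
    intro i hi
    rw [Finset.mem_range] at hi
    have : 2 ^ 1 ≤ q ^ (2 * (s + d - i)) := (Nat.pow_le_pow_left hq 1).trans (Nat.pow_le_pow_right (by omega) (by omega))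
    omega
  have ha : s * (s - 1) / 2 * 2 = s * (s - 1) := Nat.div_mul_cancel (Nat.even_mul_pred_self s).two_dvd
  set a := s * (s - 1) / 2 with hadef
  have hs1 : s * (s - 1) + s = s ^ 2 := by
    rcases s with _ | s
    · rfl
    · simp only [Nat.add_sub_cancel]; ring
  have hle : a ≤ s ^ 2 := by
    have : s * (s - 1) ≤ s ^ 2 := by omega
    omega
  have h3 : (3 * s ^ 2 - s) / 2 = s ^ 2 + a := by omega
  have hexp : (s + d) ^ 2 = a + ((2 * (s + d) * s - (3 * s ^ 2 - s) / 2) + d ^ 2) := by
    rw [h3]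
    have e1 : 2 * (s + d) * s = s ^ 2 + s ^ 2 + 2 * s * d := by ring
    have e2 : (s + d) ^ 2 = s ^ 2 + 2 * s * d + d ^ 2 := by ring
    rw [e1, e2]
    omega
  rw [hexp, pow_add, pow_add] at h
  have hq0 : 0 < q ^ a := Nat.pow_pos (by omega)
  have h4 : q ^ a * (∏ i ∈ Finset.range s, (q ^ (2 * (s + d - i)) - 1)) * x =
      q ^ a * (∏ i ∈ Finset.range s, (q ^ (2 * (s + d - i)) - 1)) * (q ^ (2 * (s + d) * s - (3 * s ^ 2 - s) / 2) * (q ^ (d ^ 2) * ∏ i ∈ Finset.range d, (q ^ (2 * (i + 1)) - 1))) := by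
    rw [← h]; ring
  exact Nat.eq_of_mul_eq_mul_left (Nat.mul_pos hq0 hP) h4

end arith

end CfsgLib.Cen2
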