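import Mathlib
import Cfsg.Agent.LibInvC2H13

/-! Classes of involutions in characteristic two: the subgroup `Ω` (seat helper13). -/

namespace CfsgLib.InvC

open Module LinearMap CfsgLib.Inv2 Cfsg.Agent.H22 CfsgLib.Cls CfsgLib.OSum

section abs
variable {F V : Type*} [Field F] [Fintype F] [CharP F 2] [AddCommGroup V] [Module F V] [FiniteDimensional F V] {Q : QuadraticForm F V}
  (hQ : (QuadraticMap.polarBilin Q).Nondegenerate) (hF : (∃ a : F, a ≠ 0 ∧ a ≠ 1) ∨ finrank F V ≠ 4) (K : Subgroup (OGrp Q))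
  (hK : ∀ g, g ∈ K ↔ par hQ hF g = 1)

theorem isConj_K {K : Subgroup (OGrp Q)} {g h : K} : IsConj g h ↔ ∃ c ∈ K, c * (g : OGrp Q) * c⁻¹ = (h : OGrp Q) := by
  rw [isConj_iff]
  constructor
  · rintro ⟨c, hc⟩
    exact ⟨c, c.2, congrArg Subtype.val hc⟩
  · rintro ⟨c, hc, h⟩
    exact ⟨⟨c, hc⟩, Subtype.ext h⟩

theorem ord_K {K : Subgroup (OGrp Q)} {g : K} (hg : orderOf g = 2) : orderOf (g : OGrp Q) = 2 := by
  rw [Subgroup.orderOf_coe]; exact hg

include hK in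
theorem mem_K_iff (g : OGrp Q) : g ∈ K ↔ Even (finrank F (range (nl (g : V ≃ₗ[F] V)))) := by
  rw [hK, par_eq, neg_one_pow_eq_one_iff_even (by decide)]

include hK in
/-- no splitting -/
theorem conj_K {m : ℕ} (hV : finrank F V = 2 * m) (g h : K) (hg : orderOf g = 2) (hh : orderOf h = 2)
    (hb : ¬ (finrank F (range (nl ((g : OGrp Q) : V ≃ₗ[F] V))) = m ∧ ∀ v, Q (nl ((g : OGrp Q) : V ≃ₗ[F] V) v) = 0))
    (hty : ty Q ((g : OGrp Q) : V ≃ₗ[F] V) = ty Q ((h : OGrp Q) : V ≃ₗ[F] V)) : IsConj g h := by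
  have hc := (isConj_iff_ty hQ (g : OGrp Q) (h : OGrp Q) (ord_K hg) (ord_K hh)).mpr hty
  obtain ⟨c, hc⟩ := isConj_iff.1 hc
  have hT2 : ((g : OGrp Q) : V ≃ₗ[F] V) * ((g : OGrp Q) : V ≃ₗ[F] V) = 1 := congrArg Subtype.val ((ord_two _).mp (ord_K hg)).1
  have hw : ∃ w, nl ((g : OGrp Q) : V ≃ₗ[F] V) w = 0 ∧ Q w ≠ 0 := by
    by_contra hcon
    push Not at hcon
    exact hb (fix_TS hQ hV hT2 hcon)
  obtain ⟨w, hw1, hw2⟩ := hw
  obtain ⟨d, hd1, hd2⟩ := exists_par_one hQ hF c hc w hw1 hw2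
  exact isConj_K.mpr ⟨d, (hK d).mpr hd1, hd2⟩

theorem ty_of_conj {g h : OGrp Q} {c : OGrp Q} (hc : c * g * c⁻¹ = h) : ty Q (g : V ≃ₗ[F] V) = ty Q (h : V ≃ₗ[F] V) := by
  have h2 : c * g = h * c := by rw [← hc]; group
  exact ty_conj c.2 (congrArg Subtype.val h2)

theorem ty_inr {T : V ≃ₗ[F] V} {s : ℕ} : ty Q T = Sum.inr s ↔ finrank F (range (nl T)) = s ∧ ∀ v, Q (nl T v) = 0 := by
  by_cases h : ∀ v, Q (nl T v) = 0
  · rw [ty_alt h, Sum.inr.injEq]; tauto
  · rw [ty_ne (by push Not at h; exact h)]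
    simp only [reduceCtorEq, false_iff]; tauto

include hK in
theorem ty_mem {m k : ℕ} (hV : finrank F V = 2 * m)
    (hk : ∀ T ∈ OGrp Q, T * T = 1 → (∀ v, Q (nl T v) = 0) → finrank F (range (nl T)) ≤ k) (g : K) (hg : orderOf g = 2) :
    ty Q ((g : OGrp Q) : V ≃ₗ[F] V) ∈ ((Finset.Icc 1 m).filter (fun s => Even s)).disjSum ((Finset.Icc 1 k).filter (fun s => Even s)) := by
  have hg' := (ord_two _).mp (ord_K hg)
  have hT2 : ((g : OGrp Q) : V ≃ₗ[F] V) * ((g : OGrp Q) : V ≃ₗ[F] V) = 1 := congrArg Subtype.val hg'.1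
  have hpos := rank_pos (T := ((g : OGrp Q) : V ≃ₗ[F] V)) (fun h => hg'.2 (Subtype.ext h))
  have hle := rank_le hT2
  have hev := (mem_K_iff hQ hF K hK (g : OGrp Q)).mp g.2
  by_cases h : ∀ v, Q (nl ((g : OGrp Q) : V ≃ₗ[F] V) v) = 0
  · simp only [ty_alt h, Finset.inr_mem_disjSum, Finset.mem_filter, Finset.mem_Icc]
    exact ⟨⟨hpos, hk _ g.1.2 hT2 h⟩, hev⟩
  · push Not at h
    simp only [ty_ne h, Finset.inl_mem_disjSum, Finset.mem_filter, Finset.mem_Icc]
    exact ⟨⟨hpos, by omega⟩, hev⟩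

include hK in
theorem exists_K {T : V ≃ₗ[F] V} (hT : T ∈ OGrp Q) (hT2 : T * T = 1) {s : ℕ} (hs : Even s) (hs1 : 1 ≤ s) (hr : finrank F (range (nl T)) = s) :
    ∃ g : K, orderOf g = 2 ∧ ((g : OGrp Q) : V ≃ₗ[F] V) = T := by
  refine ⟨⟨⟨T, hT⟩, (mem_K_iff hQ hF K hK _).mpr (by rw [hr]; exact hs)⟩, ?_, rfl⟩
  rw [ord_two]
  refine ⟨Subtype.ext (Subtype.ext hT2), ?_⟩
  intro h
  have h1 : T = 1 := congrArg (fun z : K => ((z : OGrp Q) : V ≃ₗ[F] V)) h
  have h2 : nl (1 : V ≃ₗ[F] V) = 0 := by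
    apply LinearMap.ext
    intro x
    rw [nl_apply]; show x - x = 0; rw [sub_self]
  rw [h1, h2, LinearMap.range_zero, finrank_bot] at hr
  omega

include hK in
/-- the count when no class splits -/
theorem count_K {m k : ℕ} (hV : finrank F V = 2 * m)
    (hk : ∀ T ∈ OGrp Q, T * T = 1 → (∀ v, Q (nl T v) = 0) → finrank F (range (nl T)) ≤ k)
    (hn : ∀ s, 1 ≤ s → s ≤ m → ∃ T ∈ OGrp Q, T * T = 1 ∧ finrank F (range (nl T)) = s ∧ ∃ v, Q (nl T v) ≠ 0)
    (ha : ∀ s, 1 ≤ s → s ≤ k → Even s → ∃ T ∈ OGrp Q, T * T = 1 ∧ finrank F (range (nl T)) = s ∧ ∀ v, Q (nl T v) = 0)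
    (hb : ∀ g : K, orderOf g = 2 → ¬ (finrank F (range (nl ((g : OGrp Q) : V ≃ₗ[F] V))) = m ∧ ∀ v, Q (nl ((g : OGrp Q) : V ≃ₗ[F] V) v) = 0)) :
    Nat.card {C : ConjClasses K // ∃ g, ConjClasses.mk g = C ∧ orderOf g = 2} = m / 2 + k / 2 := by
  rw [card_types (fun g : K => orderOf g = 2) (fun g => ty Q ((g : OGrp Q) : V ≃ₗ[F] V)) (((Finset.Icc 1 m).filter (fun s => Even s)).disjSum ((Finset.Icc 1 k).filter (fun s => Even s)))
    (ty_mem hQ hF K hK hV hk) ?_ ?_, Finset.card_disjSum, card_even_Icc, card_even_Icc]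
  · intro x hx
    rcases x with s | s
    · simp only [Finset.inl_mem_disjSum, Finset.mem_filter, Finset.mem_Icc] at hx
      obtain ⟨T, hT, hT2, hr, hv⟩ := hn s hx.1.1 hx.1.2
      obtain ⟨g, hg, hgT⟩ := exists_K hQ hF K hK hT hT2 hx.2 hx.1.1 hr
      refine ⟨g, hg, ?_⟩
      rw [hgT, ty_ne hv, hr]
    · simp only [Finset.inr_mem_disjSum, Finset.mem_filter, Finset.mem_Icc] at hx
      obtain ⟨T, hT, hT2, hr, hv⟩ := ha s hx.1.1 hx.1.2 hx.2
      obtain ⟨g, hg, hgT⟩ := exists_K hQ hF K hK hT hT2 hx.2 hx.1.1 hr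
      refine ⟨g, hg, ?_⟩
      rw [hgT, ty_alt hv, hr]
  · intro g h hg hh
    constructor
    · intro hc
      obtain ⟨c, _, hc⟩ := isConj_K.mp hc
      exact ty_of_conj hc
    · intro hty
      exact conj_K hQ hF K hK hV g h hg hh (hb g hg) hty

include hK in
/-- the count when one class splits -/
theorem count_K' {m : ℕ} (hV : finrank F V = 2 * m) (hm : Even m) (hm1 : 1 ≤ m)
    (hn : ∀ s, 1 ≤ s → s ≤ m → ∃ T ∈ OGrp Q, T * T = 1 ∧ finrank F (range (nl T)) = s ∧ ∃ v, Q (nl T v) ≠ 0)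
    (ha : ∀ s, 1 ≤ s → s ≤ m → Even s → ∃ T ∈ OGrp Q, T * T = 1 ∧ finrank F (range (nl T)) = s ∧ ∀ v, Q (nl T v) = 0) :
    Nat.card {C : ConjClasses K // ∃ g, ConjClasses.mk g = C ∧ orderOf g = 2} = m / 2 + m / 2 + 1 := by
  classical
  obtain ⟨T, hT, hT2, hr, hv⟩ := ha m hm1 le_rfl hm
  obtain ⟨t0, ht0, hT0⟩ := exists_K hQ hF K hK hT hT2 hm hm1 hr
  have ht0' : ty Q ((t0 : OGrp Q) : V ≃ₗ[F] V) = Sum.inr m := by rw [hT0, ty_alt hv, hr]
  -- a reflection
  obtain ⟨x, hx⟩ := exists_nonsing hQ (by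
    haveI : Nontrivial V := Module.nontrivial_of_finrank_pos (R := F) (by omega)
    exact exists_ne (0 : V))
  have hsplit : ∀ (c : OGrp Q), c * (t0 : OGrp Q) * c⁻¹ = (t0 : OGrp Q) → par hQ hF c = 1 := by
    intro c hc
    rw [split_iff hQ hF hV c hc (by rw [hT0]; exact hr) (by rw [hT0]; exact hv) ((hK _).mp t0.2), inf_idem, hT0, hr]
    exact hm
  have hcase : ∀ g : K, orderOf g = 2 → ty Q ((g : OGrp Q) : V ≃ₗ[F] V) = Sum.inr m → ∃ c : OGrp Q, c * (t0 : OGrp Q) * c⁻¹ = (g : OGrp Q) := by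
    intro g hg hty
    exact isConj_iff.mp ((isConj_iff_ty hQ _ _ (ord_K ht0) (ord_K hg)).mpr (by rw [ht0', hty]))
  have hpar : ∀ (g : K) (c : OGrp Q), c * (t0 : OGrp Q) * c⁻¹ = (g : OGrp Q) → (IsConj g t0 ↔ par hQ hF c = 1) := by
    intro g c hc
    constructor
    · intro h
      obtain ⟨d, hd, hdc⟩ := isConj_K.mp h
      have h3 := hsplit (d * c) (by
        have e1 : d * c * (t0 : OGrp Q) * (d * c)⁻¹ = d * (c * (t0 : OGrp Q) * c⁻¹) * d⁻¹ := by group
        rw [e1, hc, hdc])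
      rw [map_mul, (hK d).mp hd, one_mul] at h3
      exact h3
    · intro h
      apply IsConj.symm
      exact isConj_K.mpr ⟨c, (hK c).mpr h, hc⟩
  let f : K → Option (ℕ ⊕ ℕ) := fun g => if ty Q ((g : OGrp Q) : V ≃ₗ[F] V) = Sum.inr m ∧ ¬ IsConj g t0 then none else some (ty Q ((g : OGrp Q) : V ≃ₗ[F] V))
  rw [card_types (fun g : K => orderOf g = 2) f (Finset.insertNone (((Finset.Icc 1 m).filter (fun s => Even s)).disjSum ((Finset.Icc 1 m).filter (fun s => Even s))))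
    ?_ ?_ ?_, Finset.card_insertNone, Finset.card_disjSum, card_even_Icc]
  · intro g hg
    by_cases h : ty Q ((g : OGrp Q) : V ≃ₗ[F] V) = Sum.inr m ∧ ¬ IsConj g t0
    · simp only [f, if_pos h, Finset.none_mem_insertNone]
    · simp only [f, if_neg h, Finset.some_mem_insertNone]
      exact ty_mem hQ hF K hK hV (fun T hT hT2 h => by have := rank_le hT2; omega) g hg
  · intro x' hx'
    rcases x' with _ | x'
    · -- the second class
      let r := oRefl Q x hx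
      have hrr : r⁻¹ = r := oRefl_inv x hx
      have hmem : r * (t0 : OGrp Q) * r⁻¹ ∈ K := by
        rw [hK, map_mul, map_mul, (hK _).mp t0.2, mul_one, ← map_mul, mul_inv_cancel, map_one]
      refine ⟨⟨r * (t0 : OGrp Q) * r⁻¹, hmem⟩, ?_, ?_⟩
      · rw [← Subgroup.orderOf_coe]
        show orderOf (r * (t0 : OGrp Q) * r⁻¹) = 2
        have h1 := (ord_two _).mp (ord_K ht0)
        rw [ord_two]
        refine ⟨?_, ?_⟩
        · have : r * (t0 : OGrp Q) * r⁻¹ * (r * (t0 : OGrp Q) * r⁻¹) = r * ((t0 : OGrp Q) * (t0 : OGrp Q)) * r⁻¹ := by group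
          rw [this, h1.1]; group
        · intro h
          apply h1.2
          have : (t0 : OGrp Q) = r⁻¹ * (r * (t0 : OGrp Q) * r⁻¹) * r := by group
          rw [this, h]; group
      · have h1 : ty Q ((r * (t0 : OGrp Q) * r⁻¹ : OGrp Q) : V ≃ₗ[F] V) = Sum.inr m := by
          rw [← ht0']; exact (ty_of_conj rfl).symm
        have h2 : ¬ IsConj (⟨r * (t0 : OGrp Q) * r⁻¹, hmem⟩ : K) t0 := by
          rw [hpar _ r rfl, par_refl]
          decide
        simp only [f]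
        rw [if_pos ⟨h1, h2⟩]
    · simp only [Finset.some_mem_insertNone] at hx'
      rcases x' with s | s
      · simp only [Finset.inl_mem_disjSum, Finset.mem_filter, Finset.mem_Icc] at hx'
        obtain ⟨T, hT, hT2, hr, hv⟩ := hn s hx'.1.1 hx'.1.2
        obtain ⟨g, hg, hgT⟩ := exists_K hQ hF K hK hT hT2 hx'.2 hx'.1.1 hr
        refine ⟨g, hg, ?_⟩
        simp only [f]
        rw [hgT, ty_ne hv, hr, if_neg (by simp)]
      · simp only [Finset.inr_mem_disjSum, Finset.mem_filter, Finset.mem_Icc] at hx'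
        by_cases hsm : s = m
        · subst hsm
          refine ⟨t0, ht0, ?_⟩
          simp only [f]
          rw [if_neg (fun h' => h'.2 (IsConj.refl _)), ht0']
        · obtain ⟨T, hT, hT2, hr, hv⟩ := ha s hx'.1.1 hx'.1.2 hx'.2
          obtain ⟨g, hg, hgT⟩ := exists_K hQ hF K hK hT hT2 hx'.2 hx'.1.1 hr
          refine ⟨g, hg, ?_⟩
          simp only [f]
          rw [hgT, ty_alt hv, hr, if_neg (by simp [hsm])]
  · intro g h hg hh
    constructor
    · intro hc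
      have h1 : ty Q ((g : OGrp Q) : V ≃ₗ[F] V) = ty Q ((h : OGrp Q) : V ≃ₗ[F] V) := by
        obtain ⟨c, _, hc⟩ := isConj_K.mp hc
        exact ty_of_conj hc
      have h2 : IsConj g t0 ↔ IsConj h t0 := ⟨fun h3 => hc.symm.trans h3, fun h3 => hc.trans h3⟩
      simp only [f, h1, h2]
    · intro hf
      by_cases h1 : ty Q ((g : OGrp Q) : V ≃ₗ[F] V) = Sum.inr m ∧ ¬ IsConj g t0
      · simp only [f] at hf
        rw [if_pos h1] at hf
        have h2 : ty Q ((h : OGrp Q) : V ≃ₗ[F] V) = Sum.inr m ∧ ¬ IsConj h t0 := by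
          by_contra hcon
          rw [if_neg hcon] at hf
          exact absurd hf (by simp)
        obtain ⟨c, hc⟩ := hcase g hg h1.1
        obtain ⟨d, hd⟩ := hcase h hh h2.1
        have hc1 : par hQ hF c = -1 := (Int.units_eq_one_or _).resolve_left (fun h' => h1.2 ((hpar g c hc).mpr h'))
        have hd1 : par hQ hF d = -1 := (Int.units_eq_one_or _).resolve_left (fun h' => h2.2 ((hpar h d hd).mpr h'))
        refine isConj_K.mpr ⟨d * c⁻¹, ?_, ?_⟩
        · rw [hK, map_mul, map_inv, hc1, hd1]; decide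
        · rw [← hc, ← hd]; group
      · simp only [f] at hf
        rw [if_neg h1] at hf
        by_cases h2 : ty Q ((h : OGrp Q) : V ≃ₗ[F] V) = Sum.inr m ∧ ¬ IsConj h t0
        · rw [if_pos h2] at hf; exact absurd hf (by simp)
        · rw [if_neg h2, Option.some.injEq] at hf
          by_cases h3 : ty Q ((g : OGrp Q) : V ≃ₗ[F] V) = Sum.inr m
          · have h4 : IsConj g t0 := by
              by_contra h5; exact h1 ⟨h3, h5⟩
            have h6 : IsConj h t0 := by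
              by_contra h5; exact h2 ⟨by rw [← hf]; exact h3, h5⟩
            exact h4.trans h6.symm
          · exact conj_K hQ hF K hK hV g h hg hh (fun h' => h3 (ty_inr.mpr h')) hf

end abs

/-- `Ω` as a matrix group -/
noncomputable def omIso {F : Type*} [Field F] {ι : Type} [Fintype ι] [DecidableEq ι] (Q : QuadraticForm F (ι → F)) :
    ↥(Cfsg.Omega F ⇑Q) ≃* ↥(commutator (OGrp Q)) :=
  ((oIso Q).subgroupMap (Cfsg.Omega F ⇑Q)).trans (MulEquiv.subgroupCongr (by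
    ext x
    rw [Subgroup.mem_map]
    constructor
    · rintro ⟨t, ht, rfl⟩
      exact (mem_Omega_iff Q t).mp ht
    · intro hx
      refine ⟨(oIso Q).symm x, ?_, by simp⟩
      rw [mem_Omega_iff]
      simpa using hx))

end CfsgLib.InvC
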