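import Mathlib
import Cfsg.Agent.LibCen3H13
import Cfsg.Agent.LibInvC3H13

/-! Quadratic forms polarising to a fixed alternating form in characteristic two (seat helper13). -/

namespace CfsgLib.Cen2

open Module LinearMap Submodule CfsgLib.Inv2 Cfsg.Agent.H22 CfsgLib.InvC

section wp
variable (F : Type*) [Field F] [CharP F 2]

/-- the Artin-Schreier subgroup -/
def wp : AddSubgroup F where
  carrier := {x | ∃ y, x = y ^ 2 + y}
  add_mem' := by
    rintro _ _ ⟨a, rfl⟩ ⟨b, rfl⟩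
    refine ⟨a + b, ?_⟩
    have h2 : (2 : F) = 0 := CharTwo.two_eq_zero
    linear_combination -(a * b) * h2
  zero_mem' := ⟨0, by ring⟩
  neg_mem' := by
    rintro _ ⟨a, rfl⟩
    exact ⟨a, CharTwo.neg_eq _⟩

theorem mem_wp {x : F} : x ∈ wp F ↔ ∃ y, x = y ^ 2 + y := Iff.rfl

theorem wp_index [Finite F] : (wp F).index = 2 := by
  classical
  let f : F →+ F :=
    { toFun := fun y => y ^ 2 + y
      map_zero' := by ring
      map_add' := fun a b => by
        have h2 : (2 : F) = 0 := CharTwo.two_eq_zero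
        linear_combination (a * b) * h2 }
  have hr : f.range = wp F := by
    ext x
    constructor
    · rintro ⟨y, rfl⟩; exact ⟨y, rfl⟩
    · rintro ⟨y, rfl⟩; exact ⟨y, rfl⟩
  have hk : Nat.card f.ker = 2 := by
    rw [Nat.card_eq_two_iff]
    refine ⟨⟨0, by rw [AddMonoidHom.mem_ker, map_zero]⟩, ⟨1, ?_⟩, ?_, ?_⟩
    · rw [AddMonoidHom.mem_ker]
      show (1 : F) ^ 2 + 1 = 0
      rw [one_pow]; exact CharTwo.add_self_eq_zero 1
    · intro h; exact zero_ne_one (congrArg Subtype.val h)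
    · ext ⟨y, hy⟩
      simp only [Set.mem_insert_iff, Set.mem_singleton_iff, Set.mem_univ, iff_true, Subtype.mk.injEq]
      rw [AddMonoidHom.mem_ker] at hy
      have hy' : y * (y + 1) = 0 := by
        have : y ^ 2 + y = 0 := hy
        linear_combination this
      rcases mul_eq_zero.mp hy' with h | h
      · exact Or.inl h
      · right
        rw [← CharTwo.neg_eq (1 : F)]
        exact eq_neg_of_add_eq_zero_left h
  have h1 : Nat.card F = Nat.card f.range * Nat.card f.ker := by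
    have := AddSubgroup.card_eq_card_quotient_mul_card_addSubgroup f.ker
    rw [this, Nat.card_congr (QuotientAddGroup.quotientKerEquivRange f).toEquiv]
  have h2 := (wp F).card_mul_index
  rw [← hr, h1, hk] at h2
  have hpos : 0 < Nat.card f.range := Nat.card_pos
  exact Nat.eq_of_mul_eq_mul_left hpos (by rw [← hr]; exact h2)

theorem exists_notMem_wp [Finite F] : ∃ c, c ∉ wp F := by
  by_contra h
  push Not at h
  have h1 : wp F = ⊤ := by ext x; simp [h x]
  have h2 := wp_index F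
  rw [h1, AddSubgroup.index_top] at h2
  omega

theorem add_mem_wp [Finite F] {a c : F} (hc : c ∉ wp F) : a + c ∈ wp F ↔ a ∉ wp F := by
  rw [AddSubgroup.add_mem_iff_of_index_two (wp_index F)]
  tauto

end wp

section arf
variable {F V : Type*} [Field F] [CharP F 2] [Finite F] [AddCommGroup V] [Module F V] [FiniteDimensional F V] {Q : QuadraticForm F V}

theorem exists_vec (hQ : (QuadraticMap.polarBilin Q).Nondegenerate) (D : V → F) (hadd : ∀ x y, D (x + y) = D x + D y) (hsm : ∀ (c : F) x, D (c • x) = c ^ 2 * D x) :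
    ∃ a, ∀ x, D x = (QuadraticMap.polar Q a x) ^ 2 := by
  haveI : PerfectRing F 2 := PerfectRing.ofFiniteOfIsReduced 2 F
  let r := (frobeniusEquiv F 2).symm
  have hr : ∀ x, (r x) ^ 2 = x := fun x => (frobeniusEquiv F 2).apply_symm_apply x
  have hr' : ∀ x, r (x ^ 2) = x := fun x => (frobeniusEquiv F 2).symm_apply_apply x
  let ℓ : V →ₗ[F] F :=
    { toFun := fun x => r (D x)
      map_add' := fun x y => by rw [hadd, map_add]
      map_smul' := fun c x => by rw [hsm, map_mul, hr']; rfl }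
  obtain ⟨a, ha⟩ := (LinearMap.BilinForm.toDual (QuadraticMap.polarBilin Q) hQ).surjective ℓ
  refine ⟨a, fun x => ?_⟩
  have h1 : QuadraticMap.polar Q a x = ℓ x := by
    rw [← ha]; rfl
  rw [h1]
  exact (hr _).symm

theorem vec_unique (hQ : (QuadraticMap.polarBilin Q).Nondegenerate) {a b : V} (h : ∀ x, (QuadraticMap.polar Q a x) ^ 2 = (QuadraticMap.polar Q b x) ^ 2) : a = b := by
  rw [← sub_eq_zero]
  apply hQ.1
  intro x
  rw [QuadraticMap.polarBilin_apply_apply, QuadraticMap.polar_sub_left]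
  have h1 := h x
  have h2 : (QuadraticMap.polar Q a x - QuadraticMap.polar Q b x) ^ 2 = 0 := by
    have h2 : (2 : F) = 0 := CharTwo.two_eq_zero
    linear_combination h1 + (QuadraticMap.polar Q b x ^ 2 - QuadraticMap.polar Q a x * QuadraticMap.polar Q b x) * h2
  exact pow_eq_zero_iff (two_ne_zero) |>.mp h2

theorem arf_mem {ρ : V ≃ₗ[F] V} (hρ : ρ ∈ TGrp (QuadraticMap.polarBilin Q : LinearMap.BilinForm F V)) :
    ∃ a, (∀ x, Q (ρ x) = Q x + (QuadraticMap.polar Q a x) ^ 2) ∧ Q a ∈ wp F := by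
  have h2 : (2 : F) = 0 := CharTwo.two_eq_zero
  have hiso : ∀ {ρ : V ≃ₗ[F] V}, ρ ∈ TGrp (QuadraticMap.polarBilin Q : LinearMap.BilinForm F V) → ∀ x y, QuadraticMap.polar Q (ρ x) (ρ y) = QuadraticMap.polar Q x y :=
    fun hρ x y => TGrp_isometry _ (polar_alt Q) hρ x y
  induction hρ using Subgroup.closure_induction with
  | mem ρ h =>
    obtain ⟨v, c, h⟩ := h
    obtain ⟨r, hr⟩ : IsSquare (c ^ 2 * Q v + c) := by
      haveI := Fintype.ofFinite F
      exact FiniteField.isSquare_of_char_two (ringChar.eq F 2) _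
    refine ⟨r • v, fun x => ?_, c * Q v, ?_⟩
    · have h1 : QuadraticMap.polarBilin Q x v = QuadraticMap.polar Q x v := rfl
      rw [h x, h1, qadd, qsmul, QuadraticMap.polar_smul_right, QuadraticMap.polar_smul_left, QuadraticMap.polar_comm Q v x, smul_eq_mul, smul_eq_mul]
      linear_combination (QuadraticMap.polar Q x v) ^ 2 * hr
    · rw [qsmul]
      linear_combination -(Q v) * hr
  | one => exact ⟨0, fun x => by rw [QuadraticMap.polar_zero_left]; show Q x = _; ring, by rw [QuadraticMap.map_zero]; exact zero_mem _⟩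
  | mul ρ σ hρ hσ ihρ ihσ =>
    obtain ⟨a, ha, ha'⟩ := ihρ
    obtain ⟨b, hb, hb'⟩ := ihσ
    obtain ⟨a', rfl⟩ := σ.surjective a
    refine ⟨b + a', fun x => ?_, ?_⟩
    · show Q (ρ (σ x)) = _
      rw [ha, hb, hiso hσ, QuadraticMap.polar_add_left]
      linear_combination -(QuadraticMap.polar Q b x * QuadraticMap.polar Q a' x) * h2
    · rw [qadd]
      rw [hb] at ha'
      obtain ⟨y, hy⟩ := ha'
      obtain ⟨z, hz⟩ := hb'
      refine ⟨y + z + QuadraticMap.polar Q b a', ?_⟩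
      rw [hz]
      linear_combination hy - (y * z + y * QuadraticMap.polar Q b a' + z * QuadraticMap.polar Q b a' + QuadraticMap.polar Q b a' ^ 2) * h2
  | inv ρ hρ ih =>
    obtain ⟨a, ha, ha'⟩ := ih
    have hinv : ∀ x, ρ (ρ⁻¹ x) = x := fun x => by rw [← LinearEquiv.mul_apply, mul_inv_cancel]; rfl
    refine ⟨ρ a, fun x => ?_, ?_⟩
    · have h1 := ha (ρ⁻¹ x)
      rw [hinv, ← hiso hρ a (ρ⁻¹ x), hinv] at h1
      linear_combination -h1 - (QuadraticMap.polar Q (ρ a) x) ^ 2 * h2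
    · rw [ha, pself, h2, zero_mul]
      simpa using ha'

theorem mem_TGrp (hQ : (QuadraticMap.polarBilin Q).Nondegenerate) {g : V ≃ₗ[F] V} (hg : ∀ x y, QuadraticMap.polar Q (g x) (g y) = QuadraticMap.polar Q x y) :
    g ∈ TGrp (QuadraticMap.polarBilin Q : LinearMap.BilinForm F V) := by
  let b := Module.finBasis F V
  obtain ⟨h, hh, hb⟩ := alt_ext (QuadraticMap.polarBilin Q : LinearMap.BilinForm F V) (polar_alt Q) hQ _ b (fun i => g (b i)) b.linearIndependent
    (b.linearIndependent.map' (g : V →ₗ[F] V) (LinearEquiv.ker g)) (fun i j => (hg _ _).symm)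
  have : g = h := by
    apply LinearEquiv.toLinearMap_injective
    exact b.ext (fun i => (hb i).symm)
  rw [this]; exact hh

theorem arf_iff (hQ : (QuadraticMap.polarBilin Q).Nondegenerate) (a : V) :
    (∃ g : V ≃ₗ[F] V, (∀ x y, QuadraticMap.polar Q (g x) (g y) = QuadraticMap.polar Q x y) ∧ ∀ x, Q (g x) = Q x + (QuadraticMap.polar Q a x) ^ 2) ↔ Q a ∈ wp F := by
  have h2 : (2 : F) = 0 := CharTwo.two_eq_zero
  constructor
  · rintro ⟨g, hg, hga⟩
    obtain ⟨b, hb, hb'⟩ := arf_mem (mem_TGrp hQ hg)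
    have : a = b := vec_unique hQ (fun x => by
      have h1 := hga x
      rw [hb] at h1
      exact (add_left_cancel h1).symm)
    rw [this]; exact hb'
  · rintro ⟨ν, hν⟩
    obtain ⟨μ, hμ⟩ : ∃ μ : F, μ ^ 2 * Q a + μ = 1 := by
      by_cases h : Q a = 0
      · exact ⟨1, by rw [h]; ring⟩
      · refine ⟨ν / Q a, ?_⟩
        field_simp
        rw [hν]; ring
    let τ0 : V →ₗ[F] V := LinearMap.id + (μ • (QuadraticMap.polarBilin Q a)).smulRight a
    have hτ0 : ∀ x, τ0 x = x + (μ * QuadraticMap.polar Q a x) • a := fun x => rfl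
    have hτ00 : ∀ x, τ0 (τ0 x) = x := by
      intro x
      rw [hτ0, hτ0, QuadraticMap.polar_add_right, QuadraticMap.polar_smul_right, pself, h2, zero_mul, smul_zero, add_zero, add_assoc, ← add_smul,
        CharTwo.add_self_eq_zero, zero_smul, add_zero]
    refine ⟨LinearEquiv.ofLinear τ0 τ0 (LinearMap.ext hτ00) (LinearMap.ext hτ00), ?_, ?_⟩
    · intro x y
      show QuadraticMap.polar Q (τ0 x) (τ0 y) = _
      rw [hτ0, hτ0]
      simp only [QuadraticMap.polar_add_right, QuadraticMap.polar_add_left, QuadraticMap.polar_smul_right, QuadraticMap.polar_smul_left, smul_eq_mul, pself, h2,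
        QuadraticMap.polar_comm Q x a]
      linear_combination (μ * QuadraticMap.polar Q a x * QuadraticMap.polar Q a y) * h2
    · intro x
      show Q (τ0 x) = _
      rw [hτ0, qadd, qsmul, QuadraticMap.polar_smul_right, smul_eq_mul, QuadraticMap.polar_comm Q x a]
      linear_combination (QuadraticMap.polar Q a x) ^ 2 * hμ

/-- centraliser in the orthogonal group -/
def CenO (Q : QuadraticForm F V) (N : V →ₗ[F] V) : Subgroup (V ≃ₗ[F] V) where
  carrier := {g | (∀ x, Q (g x) = Q x) ∧ ∀ x, g (N x) = N (g x)}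
  mul_mem' {a b} ha hb := ⟨(OGrp Q).mul_mem ha.1 hb.1, fun x => by
    rw [LinearEquiv.mul_apply, LinearEquiv.mul_apply, hb.2, ha.2]⟩
  one_mem' := ⟨fun _ => rfl, fun _ => rfl⟩
  inv_mem' {a} ha := ⟨(OGrp Q).inv_mem ha.1, fun x => by
    apply a.injective
    have h1 : ∀ z, a (a⁻¹ z) = z := fun z => by rw [← LinearEquiv.mul_apply, mul_inv_cancel]; rfl
    rw [h1, ha.2, h1]⟩

theorem card_CenO (hQ : (QuadraticMap.polarBilin Q).Nondegenerate) {T : V ≃ₗ[F] V} (hT : T ∈ OGrp Q) (hT2 : T * T = 1) :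
    Nat.card (Cen (QuadraticMap.polarBilin Q : LinearMap.BilinForm F V) (nl T)) = Nat.card {a : V // nl T a = 0 ∧ Q a ∈ wp F} * Nat.card (CenO Q (nl T)) := by
  haveI : Finite V := Module.finite_of_finite F
  haveI : Finite (V ≃ₗ[F] V) := Finite.of_injective (fun e : V ≃ₗ[F] V => (e : V → V)) DFunLike.coe_injective
  have h2 : (2 : F) = 0 := CharTwo.two_eq_zero
  have hle : CenO Q (nl T) ≤ Cen (QuadraticMap.polarBilin Q : LinearMap.BilinForm F V) (nl T) := fun g hg =>
    ⟨fun x y => polar_isom (T := g) hg.1 x y, hg.2⟩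
  have hK : Nat.card (CenO Q (nl T)) = Nat.card ((CenO Q (nl T)).subgroupOf (Cen (QuadraticMap.polarBilin Q : LinearMap.BilinForm F V) (nl T))) :=
    Nat.card_congr (Subgroup.subgroupOfEquivOfLe hle).toEquiv.symm
  rw [hK]
  have hpol : ∀ (g : V ≃ₗ[F] V), (∀ x y, QuadraticMap.polarBilin Q (g x) (g y) = QuadraticMap.polarBilin Q x y) → ∀ x y, QuadraticMap.polar Q (g x) (g y) = QuadraticMap.polar Q x y :=
    fun g hg x y => hg x y
  have hex : ∀ g : V ≃ₗ[F] V, (∀ x y, QuadraticMap.polarBilin Q (g x) (g y) = QuadraticMap.polarBilin Q x y) → ∃ a, ∀ x, Q (g x) = Q x + (QuadraticMap.polar Q a x) ^ 2 := by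
    intro g hg
    obtain ⟨a, ha⟩ := exists_vec hQ (fun x => Q (g x) + Q x) (by
      intro x y
      simp only [map_add, qadd, hpol g hg]
      linear_combination (QuadraticMap.polar Q x y) * h2) (by
      intro c x
      simp only [map_smul, qsmul]; ring)
    refine ⟨a, fun x => ?_⟩
    rw [← ha]
    linear_combination -(Q x) * h2
  have hNa : ∀ g : V ≃ₗ[F] V, g ∈ Cen (QuadraticMap.polarBilin Q : LinearMap.BilinForm F V) (nl T) → ∀ a, (∀ x, Q (g x) = Q x + (QuadraticMap.polar Q a x) ^ 2) → nl T a = 0 := by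
    intro g hg a ha
    -- B(a, N x) = 0 for all x
    have h1 : ∀ x, QuadraticMap.polar Q a (nl T x) = 0 := by
      intro x
      have h3 := ha (nl T x)
      have h4 : Q (nl T (g x)) = QuadraticMap.polar Q (g x) (nl T (g x)) := q_nl Q T hT _
      rw [hg.2, h4, ← hg.2, hpol g hg.1, q_nl Q T hT] at h3
      have h5 : (QuadraticMap.polar Q a (nl T x)) ^ 2 = 0 := by linear_combination -h3
      exact pow_eq_zero_iff (two_ne_zero) |>.mp h5
    apply hQ.1
    intro y
    have hN := nl_selfadj (QuadraticMap.polarBilin Q : LinearMap.BilinForm F V) T hT2 (polar_isom hT) a y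
    rw [hN]
    exact h1 y
  refine card_fibre _ (fun g : Cen (QuadraticMap.polarBilin Q : LinearMap.BilinForm F V) (nl T) => (⟨Classical.choose (hex (g⁻¹ : Cen (QuadraticMap.polarBilin Q : LinearMap.BilinForm F V) (nl T)).1 (g⁻¹).2.1), ?_, ?_⟩ : {a : V // nl T a = 0 ∧ Q a ∈ wp F})) ?_ ?_
  · exact hNa _ (g⁻¹).2 _ (Classical.choose_spec (hex (g⁻¹ : Cen (QuadraticMap.polarBilin Q : LinearMap.BilinForm F V) (nl T)).1 (g⁻¹).2.1))
  · exact (arf_iff hQ _).mp ⟨(g⁻¹ : Cen (QuadraticMap.polarBilin Q : LinearMap.BilinForm F V) (nl T)).1, (g⁻¹).2.1, Classical.choose_spec (hex (g⁻¹ : Cen (QuadraticMap.polarBilin Q : LinearMap.BilinForm F V) (nl T)).1 (g⁻¹).2.1)⟩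
  · rintro ⟨a, ha1, ha2⟩
    obtain ⟨g0, hg0, hg0a⟩ := (arf_iff hQ a).mpr ha2
    have hTx : ∀ x, QuadraticMap.polar Q a (T x) = QuadraticMap.polar Q a x := by
      intro x
      have hTa : T a = a := by rw [nl_apply, sub_eq_zero] at ha1; exact ha1
      conv_lhs => rw [← hTa]
      exact polar_isom hT a x
    let T' : V ≃ₗ[F] V := g0 * T * g0⁻¹
    have hinv : ∀ x, g0 (g0⁻¹ x) = x := fun x => by rw [← LinearEquiv.mul_apply, mul_inv_cancel]; rfl
    have hT' : T' ∈ OGrp Q := by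
      intro x
      show Q (g0 (T (g0⁻¹ x))) = Q x
      have h3 : Q (T (g0⁻¹ x)) = Q (g0⁻¹ x) := hT _
      rw [hg0a, h3, hTx, ← hg0a, hinv]
    have hT'2 : T' * T' = 1 := by
      show g0 * T * g0⁻¹ * (g0 * T * g0⁻¹) = 1
      have : g0 * T * g0⁻¹ * (g0 * T * g0⁻¹) = g0 * (T * T) * g0⁻¹ := by group
      rw [this, hT2]; group
    obtain ⟨h, hh, hhT⟩ := exists_conj_of_symp hQ T T' hT hT' hT2 hT'2 g0 hg0 (fun x => by
      show g0 (T x) = g0 (T (g0⁻¹ (g0 x)))
      congr 2
      rw [← LinearEquiv.mul_apply, inv_mul_cancel]; rfl)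
    have hcomm : (h⁻¹ * g0) * T = T * (h⁻¹ * g0) := by
      have e1 : g0 * T = T' * g0 := by show g0 * T = g0 * T * g0⁻¹ * g0; group
      calc (h⁻¹ * g0) * T = h⁻¹ * (g0 * T) := by group
        _ = h⁻¹ * T' * g0 := by rw [e1]; group
        _ = h⁻¹ * (T' * h) * h⁻¹ * g0 := by group
        _ = h⁻¹ * (h * T) * h⁻¹ * g0 := by rw [hhT]
        _ = T * (h⁻¹ * g0) := by group
    have hmem : h⁻¹ * g0 ∈ Cen (QuadraticMap.polarBilin Q : LinearMap.BilinForm F V) (nl T) := by
      refine ⟨(Iso _).mul_mem ((Iso (QuadraticMap.polarBilin Q : LinearMap.BilinForm F V)).inv_mem (polar_isom hh)) hg0, nl_conj hcomm⟩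
    refine ⟨(⟨h⁻¹ * g0, hmem⟩ : Cen (QuadraticMap.polarBilin Q : LinearMap.BilinForm F V) (nl T))⁻¹, ?_⟩
    apply Subtype.ext
    apply vec_unique hQ
    intro x
    have h5 := Classical.choose_spec (hex ((⟨h⁻¹ * g0, hmem⟩ : Cen (QuadraticMap.polarBilin Q : LinearMap.BilinForm F V) (nl T))⁻¹⁻¹).1 ((⟨h⁻¹ * g0, hmem⟩ : Cen (QuadraticMap.polarBilin Q : LinearMap.BilinForm F V) (nl T))⁻¹⁻¹).2.1) x
    have h6 : Q (h⁻¹ (g0 x)) = Q x + (QuadraticMap.polar Q a x) ^ 2 := by
      rw [← hg0a]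
      exact (OGrp Q).inv_mem hh _
    have h7 : Q (((⟨h⁻¹ * g0, hmem⟩ : Cen (QuadraticMap.polarBilin Q : LinearMap.BilinForm F V) (nl T))⁻¹⁻¹).1 x) = Q x + (QuadraticMap.polar Q a x) ^ 2 := by
      rw [inv_inv]; exact h6
    rw [h7] at h5
    exact (add_left_cancel h5).symm
  · intro g h
    have hg := Classical.choose_spec (hex (g⁻¹ : Cen (QuadraticMap.polarBilin Q : LinearMap.BilinForm F V) (nl T)).1 (g⁻¹).2.1)
    have hh := Classical.choose_spec (hex (h⁻¹ : Cen (QuadraticMap.polarBilin Q : LinearMap.BilinForm F V) (nl T)).1 (h⁻¹).2.1)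
    have hgi : ∀ x, g.1⁻¹ (g.1 x) = x := fun x => by rw [← LinearEquiv.mul_apply, inv_mul_cancel]; rfl
    have hhi : ∀ x, h.1 (h.1⁻¹ x) = x := fun x => by rw [← LinearEquiv.mul_apply, mul_inv_cancel]; rfl
    have hhi' : ∀ x, h.1⁻¹ (h.1 x) = x := fun x => by rw [← LinearEquiv.mul_apply, inv_mul_cancel]; rfl
    constructor
    · intro hgh
      have hgh' := congrArg Subtype.val hgh
      simp only at hgh'
      refine ⟨fun x => ?_, (g⁻¹ * h).2.2⟩
      show Q (g.1⁻¹ (h.1 x)) = Q x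
      have h1 := hg (h.1 x)
      have h3 := hh (h.1 x)
      rw [hgh'] at h1
      have h4 : Q (g.1⁻¹ (h.1 x)) = Q (h.1⁻¹ (h.1 x)) := h1.trans h3.symm
      rw [h4, hhi']
    · intro hgh
      apply Subtype.ext
      apply vec_unique hQ
      intro x
      have h1 := hg x
      have h3 := hh x
      have h4 : Q (g.1⁻¹ (h.1 (h.1⁻¹ x))) = Q (h.1⁻¹ x) := hgh.1 _
      rw [hhi] at h4
      have h5 : Q (g.1⁻¹ x) = Q (h.1⁻¹ x) := h4
      have h6 := h1.symm.trans (h5.trans h3)
      exact add_left_cancel h6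

end arf

end CfsgLib.Cen2
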