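import Mathlib
import Cfsg.Agent.LibCen4H13

/-! Centralisers of involutions in `Ω⁺`, characteristic two (seat helper13). -/

namespace CfsgLib.Cen2

open Module LinearMap Submodule CfsgLib.Inv2 Cfsg.Agent.H22 CfsgLib.InvC

theorem half {X : Type*} [Finite X] (S : X → Prop) (σ : X → X) (hσ : ∀ x, σ (σ x) = x) (h : ∀ x, S (σ x) ↔ ¬ S x) :
    2 * Nat.card {x // S x} = Nat.card X := by
  classical
  have h1 : Nat.card {x // S x} = Nat.card {x // ¬ S x} := by
    refine Nat.card_congr ⟨fun x => ⟨σ x.1, by rw [h, not_not]; exact x.2⟩, fun x => ⟨σ x.1, (h _).mpr x.2⟩, fun x => Subtype.ext (hσ _), fun x => Subtype.ext (hσ _)⟩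
  rw [← Nat.card_congr (Equiv.sumCompl S), Nat.card_sum, ← h1]
  ring

section cnt
variable {F V : Type*} [Field F] [CharP F 2] [Finite F] [AddCommGroup V] [Module F V] [FiniteDimensional F V] {Q : QuadraticForm F V}

theorem polar_ker {T : V ≃ₗ[F] V} (hT : T ∈ OGrp Q) (hT2 : T * T = 1) {a : V} (ha : nl T a = 0) (x : V) : QuadraticMap.polar Q a (nl T x) = 0 := by
  have hN := nl_selfadj (QuadraticMap.polarBilin Q : LinearMap.BilinForm F V) T hT2 (polar_isom hT) a x
  have h1 : QuadraticMap.polarBilin Q a (nl T x) = 0 := by rw [← hN, ha, map_zero, LinearMap.zero_apply]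
  exact h1

theorem card_ker {T : V ≃ₗ[F] V} : Nat.card (ker (nl T)) = Nat.card F ^ (finrank F V - finrank F (range (nl T))) := by
  rw [Module.natCard_eq_pow_finrank (K := F) (V := ker (nl T))]
  congr 1
  have := LinearMap.finrank_range_add_finrank_ker (nl T)
  omega

theorem card_A_ne {T : V ≃ₗ[F] V} (hT : T ∈ OGrp Q) (hT2 : T * T = 1) (hv : ∃ v, Q (nl T v) ≠ 0) :
    2 * Nat.card {a : V // nl T a = 0 ∧ Q a ∈ wp F} = Nat.card F ^ (finrank F V - finrank F (range (nl T))) := by
  haveI : Finite V := Module.finite_of_finite F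
  haveI := Fintype.ofFinite F
  obtain ⟨v, hv⟩ := hv
  obtain ⟨c, hc⟩ := exists_notMem_wp F
  obtain ⟨d, hd⟩ : IsSquare (c / Q (nl T v)) := FiniteField.isSquare_of_char_two (ringChar.eq F 2) _
  have hQr : Q (nl T (d • v)) = c := by
    rw [map_smul, qsmul, ← hd, div_mul_cancel₀ _ hv]
  rw [← card_ker, ← half (X := ker (nl T)) (fun a => Q (a : V) ∈ wp F) (fun a => a + ⟨nl T (d • v), LinearMap.mem_ker.mpr (nl_sq T hT2 _)⟩) ?_ ?_]
  · congr 1
    refine Nat.card_congr ⟨fun a => ⟨⟨a.1, a.2.1⟩, a.2.2⟩, fun a => ⟨a.1.1, a.1.2, a.2⟩, fun _ => rfl, fun _ => rfl⟩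
  · intro x
    apply Subtype.ext
    show (x : V) + nl T (d • v) + nl T (d • v) = x
    have h2 : nl T (d • v) + nl T (d • v) = (2 : F) • nl T (d • v) := (two_smul _ _).symm
    rw [add_assoc, h2, CharTwo.two_eq_zero, zero_smul, add_zero]
  · intro x
    show Q ((x : V) + nl T (d • v)) ∈ wp F ↔ _
    rw [qadd, hQr, polar_ker hT hT2 x.2, add_zero, add_mem_wp F hc]

theorem card_A_alt (hQ : (QuadraticMap.polarBilin Q).Nondegenerate) {m : ℕ} (hV : finrank F V = 2 * m) {T : V ≃ₗ[F] V} (hT : T ∈ OGrp Q) (hT2 : T * T = 1)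
    {W : Submodule F V} (hW : TS Q W) (hWm : finrank F W = m) (hTW : range (nl T) ≤ W) :
    2 * Nat.card {a : V // nl T a = 0 ∧ Q a ∈ wp F} = Nat.card F ^ (finrank F V - finrank F (range (nl T))) + Nat.card F ^ m := by
  classical
  haveI : Finite V := Module.finite_of_finite F
  obtain ⟨c, hc⟩ := exists_notMem_wp F
  have hWp : perp Q W = W := hW.perp_eq hQ hV hWm
  -- W ≤ ker
  have hker : ∀ a, nl T a = 0 ↔ ∀ x, QuadraticMap.polar Q (nl T x) a = 0 := by
    intro a
    constructor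
    · intro ha x
      rw [QuadraticMap.polar_comm]; exact polar_ker hT hT2 ha x
    · intro h
      apply hQ.1
      intro y
      have hN := nl_selfadj (QuadraticMap.polarBilin Q : LinearMap.BilinForm F V) T hT2 (polar_isom hT) a y
      rw [hN]
      show QuadraticMap.polar Q a (nl T y) = 0
      rw [QuadraticMap.polar_comm]; exact h y
  have hWk : ∀ w ∈ W, nl T w = 0 := by
    intro w hw
    rw [hker]
    intro x
    exact hW.polar (hTW ⟨x, rfl⟩) hw
  -- the shift
  let g : (W → F) → V := fun f => if h : ∃ u : W, f u = c then ((Classical.choose h : W) : V) else 0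
  have hgW : ∀ f, g f ∈ W := by
    intro f
    by_cases h : ∃ u : W, f u = c
    · simp only [g, dif_pos h]; exact (Classical.choose h).2
    · simp only [g, dif_neg h]; exact zero_mem _
  have hgc : ∀ a, a ∉ W → QuadraticMap.polar Q a (g fun u => QuadraticMap.polar Q a u) = c := by
    intro a ha
    have h : ∃ u : W, (fun u : W => QuadraticMap.polar Q a u) u = c := by
      have h1 : ∃ w ∈ W, QuadraticMap.polar Q w a ≠ 0 := by
        by_contra hcon
        push Not at hcon
        apply ha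
        rw [← hWp, mem_perp]
        exact hcon
      obtain ⟨w, hw, hwa⟩ := h1
      refine ⟨⟨(c / QuadraticMap.polar Q w a) • w, W.smul_mem _ hw⟩, ?_⟩
      show QuadraticMap.polar Q a ((c / QuadraticMap.polar Q w a) • w) = c
      rw [QuadraticMap.polar_smul_right, QuadraticMap.polar_comm Q a w, smul_eq_mul, div_mul_cancel₀ _ hwa]
    have h2 := Classical.choose_spec h
    simp only [g, dif_pos h]
    exact h2
  have hshift : ∀ a w, w ∈ W → (fun u : W => QuadraticMap.polar Q (a + w) u) = fun u : W => QuadraticMap.polar Q a u := by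
    intro a w hw
    funext u
    rw [QuadraticMap.polar_add_left, hW.polar hw u.2, add_zero]
  let σ : {a : V // nl T a = 0 ∧ a ∉ W} → {a : V // nl T a = 0 ∧ a ∉ W} := fun a => ⟨a.1 + g fun u => QuadraticMap.polar Q a.1 u, by
    refine ⟨by rw [map_add, a.2.1, hWk _ (hgW _), add_zero], ?_⟩
    intro h
    apply a.2.2
    have := W.sub_mem h (hgW fun u => QuadraticMap.polar Q a.1 u)
    rwa [add_sub_cancel_right] at this⟩
  have h1 := half (X := {a : V // nl T a = 0 ∧ a ∉ W}) (fun a => Q a.1 ∈ wp F) σ (by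
    intro a
    apply Subtype.ext
    show a.1 + g (fun u => QuadraticMap.polar Q a.1 u) + g (fun u => QuadraticMap.polar Q (a.1 + g (fun u => QuadraticMap.polar Q a.1 u)) u) = a.1
    rw [hshift _ _ (hgW _)]
    have h2 : g (fun u => QuadraticMap.polar Q a.1 u) + g (fun u => QuadraticMap.polar Q a.1 u) = (2 : F) • g (fun u => QuadraticMap.polar Q a.1 u) := (two_smul _ _).symm
    rw [add_assoc, h2, CharTwo.two_eq_zero, zero_smul, add_zero]) (by
    intro a
    show Q (a.1 + g (fun u => QuadraticMap.polar Q a.1 u)) ∈ wp F ↔ _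
    rw [qadd, hW _ (hgW _), hgc _ a.2.2, add_zero, add_mem_wp F hc])
  -- assemble
  have hWker : W ≤ ker (nl T) := fun w hw => LinearMap.mem_ker.mpr (hWk w hw)
  have h3 : Nat.card {a : V // nl T a = 0 ∧ a ∉ W} + Nat.card F ^ m = Nat.card F ^ (finrank F V - finrank F (range (nl T))) := by
    have h4 := card_diff (F := F) (P := ker (nl T)) (S := W) hWker
    have h5 : Nat.card {a : V // nl T a = 0 ∧ a ∉ W} = Nat.card {v : V // v ∈ ker (nl T) ∧ v ∉ W} := rfl
    rw [h5, h4, hWm, ← card_ker (T := T), ← Module.natCard_eq_pow_finrank (K := F) (V := ker (nl T))]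
    refine Nat.sub_add_cancel ?_
    rw [← hWm, ← Module.natCard_eq_pow_finrank (K := F) (V := W)]
    exact Nat.card_le_card_of_injective (Submodule.inclusion hWker) (Submodule.inclusion_injective hWker)
  have h6 : Nat.card {a : V // nl T a = 0 ∧ Q a ∈ wp F} = Nat.card {a : {a : V // nl T a = 0 ∧ a ∉ W} // Q a.1 ∈ wp F} + Nat.card F ^ m := by
    have h7 : Nat.card F ^ m = Nat.card W := by rw [Module.natCard_eq_pow_finrank (K := F) (V := W), hWm]
    rw [h7, ← Nat.card_sum]
    refine Nat.card_congr (Equiv.ofBijective (fun a : {a : V // nl T a = 0 ∧ Q a ∈ wp F} =>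
      if h : a.1 ∈ W then Sum.inr ⟨a.1, h⟩ else Sum.inl ⟨⟨a.1, a.2.1, h⟩, a.2.2⟩) ⟨?_, ?_⟩)
    · intro a b hab
      by_cases ha : a.1 ∈ W <;> by_cases hb : b.1 ∈ W
      · simp only [dif_pos ha, dif_pos hb, Sum.inr.injEq, Subtype.mk.injEq] at hab
        exact Subtype.ext hab
      · simp only [dif_pos ha, dif_neg hb, reduceCtorEq] at hab
      · simp only [dif_neg ha, dif_pos hb, reduceCtorEq] at hab
      · simp only [dif_neg ha, dif_neg hb, Sum.inl.injEq, Subtype.mk.injEq] at hab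
        exact Subtype.ext hab
    · rintro (⟨⟨a, ha1, ha2⟩, ha3⟩ | ⟨w, hw⟩)
      · exact ⟨⟨a, ha1, ha3⟩, dif_neg ha2⟩
      · exact ⟨⟨w, hWk w hw, by rw [hW w hw]; exact zero_mem _⟩, dif_pos hw⟩
  rw [h6, mul_add, h1, ← h3]
  ring

end cnt

section omega
variable {F V : Type*} [Field F] [Fintype F] [CharP F 2] [AddCommGroup V] [Module F V] [FiniteDimensional F V] {Q : QuadraticForm F V}
  (hQ : (QuadraticMap.polarBilin Q).Nondegenerate) (hF : (∃ a : F, a ≠ 0 ∧ a ≠ 1) ∨ finrank F V ≠ 4)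

theorem card_CenO_eq (T : OGrp Q) : Nat.card (CenO Q (nl (T : V ≃ₗ[F] V))) = Nat.card {g : OGrp Q // g * T = T * g} := by
  refine Nat.card_congr ⟨fun g => ⟨⟨g.1, g.2.1⟩, ?_⟩, fun g => ⟨g.1.1, g.1.2, nl_conj (congrArg Subtype.val g.2)⟩, fun _ => rfl, fun _ => rfl⟩
  apply Subtype.ext
  ext1 x
  have h1 := g.2.2 x
  rw [nl_apply, nl_apply, map_sub, sub_left_inj] at h1
  exact h1

include hQ hF in
theorem card_CenOm (T : OGrp Q) {w : V} (hw : nl (T : V ≃ₗ[F] V) w = 0) (hQw : Q w ≠ 0) :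
    2 * Nat.card {g : OGrp Q // par hQ hF g = 1 ∧ g * T = T * g} = Nat.card (CenO Q (nl (T : V ≃ₗ[F] V))) := by
  haveI : Finite V := Module.finite_of_finite F
  haveI : Finite (V ≃ₗ[F] V) := Finite.of_injective (fun e : V ≃ₗ[F] V => (e : V → V)) DFunLike.coe_injective
  have hr := comm_refl w hw hQw
  rw [card_CenO_eq, ← half (X := {g : OGrp Q // g * T = T * g}) (fun g => par hQ hF g.1 = 1) (fun g => ⟨g.1 * oRefl Q w hQw, by
    rw [mul_assoc, hr, ← mul_assoc, g.2, mul_assoc]⟩) ?_ ?_]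
  · congr 1
    exact Nat.card_congr ⟨fun g => ⟨⟨g.1, g.2.2⟩, g.2.1⟩, fun g => ⟨g.1.1, g.2, g.1.2⟩, fun _ => rfl, fun _ => rfl⟩
  · intro g
    apply Subtype.ext
    show g.1 * oRefl Q w hQw * oRefl Q w hQw = g.1
    rw [mul_assoc, oRefl_mul_self, mul_one]
  · intro g
    show par hQ hF (g.1 * oRefl Q w hQw) = 1 ↔ _
    rw [map_mul, par_refl]
    rcases Int.units_eq_one_or (par hQ hF g.1) with h | h <;> rw [h] <;> decide

theorem card_Om {ι : Type} [Fintype ι] [DecidableEq ι] (Q : QuadraticForm F (ι → F)) (hQ : (QuadraticMap.polarBilin Q).Nondegenerate)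
    (hF : (∃ a : F, a ≠ 0 ∧ a ≠ 1) ∨ finrank F (ι → F) ≠ 4) (hne : ∃ x : ι → F, x ≠ 0) (x : ↥(Cfsg.isometryGroup F ⇑Q)) :
    Nat.card {g : ↥(Cfsg.Omega F ⇑Q) // (g : ↥(Cfsg.isometryGroup F ⇑Q)) * x = x * (g : ↥(Cfsg.isometryGroup F ⇑Q))} =
      Nat.card {g : OGrp Q // par hQ hF g = 1 ∧ g * oIso Q x = oIso Q x * g} := by
  have hK := (omega_even hQ hF hne).2
  refine Nat.card_congr ⟨fun g => ⟨oIso Q g.1.1, (hK _).mp ((mem_Omega_iff Q g.1.1).mp g.1.2), by rw [← map_mul, ← map_mul, g.2]⟩,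
    fun g => ⟨⟨(oIso Q).symm g.1, (mem_Omega_iff Q _).mpr (by rw [MulEquiv.apply_symm_apply]; exact (hK _).mpr g.2.1)⟩, ?_⟩, ?_, ?_⟩
  · apply (oIso Q).injective
    rw [map_mul, map_mul]
    show oIso Q ((oIso Q).symm g.1) * oIso Q x = oIso Q x * oIso Q ((oIso Q).symm g.1)
    rw [MulEquiv.apply_symm_apply]; exact g.2.2
  · intro g
    apply Subtype.ext
    apply Subtype.ext
    exact (oIso Q).symm_apply_apply _
  · intro g
    apply Subtype.ext
    exact (oIso Q).apply_symm_apply _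

end omega

section plus
variable {F : Type*} [Field F] {m : ℕ}

/-- the standard maximal totally singular subspace contains every isotropic family up to isometry -/
theorem exists_max_TS {U : Submodule F (Fin m ⊕ Fin m → F)} (hU : TS (qPlus m F) U) (hs : finrank F U ≤ m) :
    ∃ W : Submodule F (Fin m ⊕ Fin m → F), TS (qPlus m F) W ∧ finrank F W = m ∧ U ≤ W := by
  let b := Module.finBasis F U
  let e : Fin (finrank F U) → (Fin m ⊕ Fin m → F) := fun i => Pi.single (Sum.inl (Fin.castLE hs i)) 1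
  have he : LinearIndependent F e := by
    have h1 := (Pi.basisFun F (Fin m ⊕ Fin m)).linearIndependent
    have h2 : e = (Pi.basisFun F (Fin m ⊕ Fin m)) ∘ (fun i => Sum.inl (Fin.castLE hs i)) := by
      funext i; simp [e]
    rw [h2]
    exact h1.comp _ (fun i j h => Fin.castLE_injective hs (Sum.inl_injective h))
  have hb : LinearIndependent F (fun i => (b i : Fin m ⊕ Fin m → F)) := b.linearIndependent.map' U.subtype (Submodule.ker_subtype U)
  obtain ⟨g, hg, hge⟩ := CfsgLib.Inv2.witt_fam (nondeg_qPlus m) e (fun i => (b i : Fin m ⊕ Fin m → F)) he hb (fun i => by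
    rw [hU _ (b i).2, coe_qPlus]; unfold Cfsg.quadFormPlus
    refine Finset.sum_eq_zero fun j _ => ?_
    show e i (Sum.inl j) * e i (Sum.inr j) = 0
    have : e i (Sum.inr j) = 0 := by simp [e]
    rw [this, mul_zero]) (fun i j => by
    rw [hU.polar (b i).2 (b j).2, polar_qPlus]
    refine Finset.sum_eq_zero fun k _ => ?_
    have h1 : e i (Sum.inr k) = 0 := by simp [e]
    have h2 : e j (Sum.inr k) = 0 := by simp [e]
    rw [h1, h2]; ring)
  let ψ : (Fin m → F) →ₗ[F] (Fin m ⊕ Fin m → F) :=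
    { toFun := fun x => Sum.elim x 0
      map_add' := fun x y => by funext i; rcases i with i | i <;> simp
      map_smul' := fun c x => by funext i; rcases i with i | i <;> simp }
  have hψ : ∀ x, ψ x = Sum.elim x 0 := fun x => rfl
  have hψi : Function.Injective ψ := by
    intro x y h
    funext i
    exact congrFun h (Sum.inl i)
  refine ⟨(range ψ).map (g : (Fin m ⊕ Fin m → F) →ₗ[F] (Fin m ⊕ Fin m → F)), ?_, ?_, ?_⟩
  · apply TS.map _ hg
    rintro _ ⟨x, rfl⟩
    rw [coe_qPlus]; unfold Cfsg.quadFormPlus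
    refine Finset.sum_eq_zero fun j _ => ?_
    rw [hψ]; simp
  · rw [finrank_map_equiv, LinearMap.finrank_range_of_inj hψi]; simp
  · have h3 : U = span F (Set.range fun i => (b i : Fin m ⊕ Fin m → F)) := by
      have h4 : Set.range (fun i => (b i : Fin m ⊕ Fin m → F)) = U.subtype '' (Set.range b) := by
        rw [← Set.range_comp]; rfl
      rw [h4, ← Submodule.map_span, b.span_eq, Submodule.map_top, Submodule.range_subtype]
    rw [h3, Submodule.span_le]
    rintro _ ⟨i, rfl⟩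
    refine ⟨e i, ⟨Pi.single (Fin.castLE hs i) 1, ?_⟩, hge i⟩
    rw [hψ]
    funext k
    rcases k with k | k
    · simp [e, Pi.single_apply]
    · simp [e]

end plus

end CfsgLib.Cen2
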