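import Cfsg.Agent.LibChevStb
import Cfsg.Agent.LibChevU2

set_option autoImplicit false
set_option linter.unusedSectionVars false

/-! `C_G(U_J) ≤ U_J` for proper parabolics (seat helper15). -/

namespace CfsgLib.Chev

open Cfsg.Lie Matrix

/-- any two fundamental roots are connected: there are positive roots `s`, `s + α_j` involving `α_i` -/
def Adj (T : Tb) : Prop := ∀ i < T.l, ∀ j < T.l, i ≠ j → ∃ s s', T.n / 2 ≤ s ∧ s < T.n ∧ T.n / 2 ≤ s' ∧ s' < T.n ∧
  T.v s i ≠ 0 ∧ T.v s' i ≠ 0 ∧ ∀ k < T.l, T.v s' k = T.v s k + if k = j then 1 else 0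

/-- checker for `Adj` -/
def chkAdj (T : Tb) (L : List (ℕ × ℕ × ℕ × ℕ)) : Bool :=
  (List.range T.l).all fun i => (List.range T.l).all fun j => i == j || L.any fun q =>
    q.1 == i && q.2.1 == j && Nat.ble (T.n / 2) q.2.2.1 && Nat.blt q.2.2.1 T.n && Nat.ble (T.n / 2) q.2.2.2 && Nat.blt q.2.2.2 T.n &&
    (T.v q.2.2.1 i != 0) && (T.v q.2.2.2 i != 0) &&
    (List.range T.l).all fun k => T.v q.2.2.2 k == T.v q.2.2.1 k + if k = j then 1 else 0

theorem adj_of_chk {T : Tb} {L : List (ℕ × ℕ × ℕ × ℕ)} (h : chkAdj T L = true) : Adj T := by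
  intro i hi j hj hij
  unfold chkAdj at h
  rw [List.all_eq_true] at h
  have h1 := h i (List.mem_range.2 hi)
  rw [List.all_eq_true] at h1
  have h2 := h1 j (List.mem_range.2 hj)
  rw [Bool.or_eq_true] at h2
  rcases h2 with h2 | h2
  · exact absurd (eq_of_beq h2) hij
  · rw [List.any_eq_true] at h2
    obtain ⟨⟨a, b, s, s'⟩, -, hq⟩ := h2
    simp only [Bool.and_eq_true, beq_iff_eq, bne_iff_ne, ne_eq, List.all_eq_true, List.mem_range] at hq
    obtain ⟨⟨⟨⟨⟨⟨⟨⟨-, -⟩, h3⟩, h4⟩, h5⟩, h6⟩, h7⟩, h8⟩, h9⟩ := hq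
    exact ⟨s, s', Nat.le_of_ble_eq_true h3, by simpa [Nat.blt_eq] using h4, Nat.le_of_ble_eq_true h5, by simpa [Nat.blt_eq] using h6, h7, h8, h9⟩

namespace Good3

variable {D : ChevalleyDatum} {T : Tb} (g : Good3 D T)
include g

section Mat
variable {F : Type*} [Field F]

theorem B_norm_Uge {k : ℕ} (hk : T.n / 2 ≤ k) {b y : GL D.Idx F} (hb : b ∈ D.borelSubgroup F) (hy : y ∈ g.Uge (F := F) k) :
    b * y * b⁻¹ ∈ g.Uge (F := F) k := by
  obtain ⟨u, hu, h, hh, rfl⟩ := g.mem_B.1 hb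
  have h1 := g.H_norm_Uge hh hy
  have h2 := g.Uge_comm hk hu (Subgroup.inv_mem _ h1)
  have e : u * h * y * (u * h)⁻¹ = (h * y * h⁻¹) * ((h * y * h⁻¹)⁻¹ * u * ((h * y * h⁻¹)⁻¹)⁻¹ * u⁻¹) := by group
  rw [e]
  exact Subgroup.mul_mem _ h1 (g.Uge_mono (by omega) h2)

theorem X_Uge {k r : ℕ} (hk : T.n / 2 ≤ k) (hr : r < T.n) {c : F} (hc : c ≠ 0) (h : g.X r c ∈ g.Uge (F := F) k) : k ≤ r := by
  by_contra hcon
  push Not at hcon
  have hev := g.even
  by_cases hp : T.n / 2 ≤ r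
  · have h1 : g.X r c ∈ g.Uge (F := F) (r + 1) := g.Uge_mono (by omega) h
    have h2 := g.Uge_unique hp hr (t := c) (t' := 0) (Subgroup.one_mem _) h1 (by rw [g.X_zero]; group)
    exact hc h2.1
  · have h1 : g.X r c ∈ D.posUnipotent F := by rw [g.U_eq]; exact g.Uge_mono hk h
    have h2 := g.U_inf_V h1 (g.X_mem_V (by omega) c)
    rw [g.X_eq_one hr] at h2
    exact hc h2

theorem not_inSub_of {J : Set ℕ} {r i : ℕ} (hi : i < T.l) (hJ : i ∉ J) (h : T.v r i ≠ 0) : ¬ D.InRootSub J r := by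
  intro hcon
  rw [g.inSub_iff] at hcon
  exact h (hcon.2 i hi hJ)

theorem X_notin_UJ {J : Set ℕ} {r : ℕ} (hr : r < T.n) {c : F} (hc : c ≠ 0) (h : g.X r c ∈ D.unipotentRadical F J) : ¬ D.InRootSub J r := by
  intro hJ
  have h1 : g.X r c ∈ D.unipotentRadical F J ⊓ D.leviSubgroup F J := ⟨h, Subgroup.mem_sup_right (Subgroup.subset_closure ⟨r, c, hJ, rfl⟩)⟩
  rw [g.levi_inf, Subgroup.mem_bot, g.X_eq_one hr] at h1
  exact hc h1

theorem cent_in_B {J : Set ℕ} (hA : Adj T) (hJ : ∃ i < T.l, i ∉ J) {x : GL D.Idx F} (hxG : x ∈ D.group F)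
    (hx : ∀ u ∈ D.unipotentRadical F J, x * u = u * x) : x ∈ D.borelSubgroup F := by
  have hev := g.even
  have hxP : x ∈ D.parabolicSubgroup F J := by
    rw [← g.norm_UJ]
    refine ⟨?_, hxG⟩
    show x ∈ Subgroup.normalizer (D.unipotentRadical F J : Set (GL D.Idx F))
    rw [Subgroup.mem_normalizer_iff]
    intro y
    constructor
    · intro hy
      rw [hx y hy, mul_assoc, mul_inv_cancel, mul_one]; exact hy
    · intro hy
      have h1 := hx _ hy
      have h2 : y = x⁻¹ * (x * y * x⁻¹) * x := by group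
      have h3 : x⁻¹ * (x * y * x⁻¹) * x = x * y * x⁻¹ := by
        rw [mul_assoc, ← h1]; group
      rw [h2, h3]; exact hy
  obtain ⟨b, hb, w, hw, b', hb', e⟩ := g.bruhat_nw hxG
  have hn : g.nw w = b⁻¹ * x * b'⁻¹ := by rw [e]; group
  have hnP : g.nw (F := F) w ∈ D.parabolicSubgroup F J := by
    rw [hn]
    exact Subgroup.mul_mem _ (Subgroup.mul_mem _ (Subgroup.inv_mem _ (B_le_par _ hb)) hxP) (Subgroup.inv_mem _ (B_le_par _ hb'))
  have hone : (1 : F) ≠ 0 := one_ne_zero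
  have hsgn : ∀ s, ((sgn T w s : ℤ) : F) * 1 ≠ 0 := by
    intro s
    rcases sgn_cases (T := T) w s with h | h <;> rw [h] <;> simp
  -- w preserves the set and is increasing
  have hinc : ∀ s, T.n / 2 ≤ s → s < T.n → ¬ D.InRootSub J s → s ≤ wact T w s ∧ ¬ D.InRootSub J (wact T w s) := by
    intro s hp hs hsJ
    have hX : g.X s (1 : F) ∈ D.unipotentRadical F J := g.X_mem_UJ hp hs hsJ 1
    have hlt := g.wact_lt hw hs
    have hconj : g.nw w * g.X s 1 * (g.nw w)⁻¹ = g.X (wact T w s) (((sgn T w s : ℤ) : F) * 1) := g.nw_X hw hs 1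
    constructor
    · apply g.X_Uge (F := F) hp hlt (hsgn s)
      rw [← hconj]
      have h1 : b'⁻¹ * g.X s 1 * b'⁻¹⁻¹ ∈ g.Uge (F := F) s := g.B_norm_Uge hp (Subgroup.inv_mem _ hb') (g.X_mem_Uge le_rfl hs 1)
      have h2 : b'⁻¹ * g.X s 1 * b'⁻¹⁻¹ ∈ D.unipotentRadical F J := g.conj_UJ (Subgroup.inv_mem _ (B_le_par _ hb')) hX
      have h3 := hx _ h2
      have h4 : g.nw w * g.X s 1 * (g.nw w)⁻¹ = b⁻¹ * (b'⁻¹ * g.X s 1 * b'⁻¹⁻¹) * b⁻¹⁻¹ := by
        calc g.nw w * g.X s 1 * (g.nw w)⁻¹ = b⁻¹ * (x * (b'⁻¹ * g.X s 1 * b'⁻¹⁻¹) * x⁻¹) * b⁻¹⁻¹ := by rw [hn]; group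
          _ = _ := by rw [h3]; group
      rw [h4]
      exact g.B_norm_Uge hp (Subgroup.inv_mem _ hb) h1
    · apply g.X_notin_UJ (F := F) hlt (hsgn s)
      rw [← hconj]
      exact g.conj_UJ hnP hX
  have hfix : ∀ (m s : ℕ), T.n - s = m → T.n / 2 ≤ s → s < T.n → ¬ D.InRootSub J s → wact T w s = s := by
    intro m
    induction m using Nat.strong_induction_on with
    | _ m ih =>
      intro s hm hp hs hsJ
      obtain ⟨h1, h2⟩ := hinc s hp hs hsJ
      have hlt := g.wact_lt hw hs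
      by_contra hcon
      have h3 := ih (T.n - wact T w s) (by omega) (wact T w s) rfl (by omega) hlt h2
      exact hcon (g.wact_inj hw hlt hs h3)
  have hfix' : ∀ s, T.n / 2 ≤ s → s < T.n → ¬ D.InRootSub J s → wact T w s = s := fun s => hfix _ s rfl
  obtain ⟨i, hi, hiJ⟩ := hJ
  have hsim : ∀ j < T.l, wact T w (T.sim j) = T.sim j := by
    intro j hj
    by_cases hij : i = j
    · subst hij
      exact hfix' _ (g.sim_pos hi) (g.sim_lt hi) (g.sim_notIn hi hiJ)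
    · obtain ⟨s, s', h1, h2, h3, h4, h5, h6, h7⟩ := hA i hi j hj hij
      have e1 := hfix' s h1 h2 (g.not_inSub_of hi hiJ h5)
      have e2 := hfix' s' h3 h4 (g.not_inSub_of hi hiJ h6)
      apply g.idx_ext (g.wact_lt hw (g.sim_lt hj)) (g.sim_lt hj)
      intro m hm
      have e3 := g.v_wact hw h2 hm
      have e4 := g.v_wact hw h4 hm
      rw [e1] at e3
      rw [e2] at e4
      have e5 : ∑ k ∈ Finset.range T.l, T.v s' k * T.v (wact T w (T.sim k)) m =
          ∑ k ∈ Finset.range T.l, T.v s k * T.v (wact T w (T.sim k)) m + T.v (wact T w (T.sim j)) m := by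
        rw [Finset.sum_congr rfl (fun k hk => by rw [h7 k (Finset.mem_range.1 hk), add_mul]), Finset.sum_add_distrib]
        congr 1
        rw [Finset.sum_eq_single j]
        · simp
        · intro k _ hkj; simp [hkj]
        · intro h; exact absurd (Finset.mem_range.2 hj) h
      rw [← e4, ← e3, h7 m hm] at e5
      have e6 : T.v (wact T w (T.sim j)) m = if m = j then 1 else 0 := by linarith
      rw [e6, g.v_sim hj hm]
      simp only [eq_comm]
  have hnH : g.nw (F := F) w ∈ D.diagonalSubgroup F := by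
    apply g.mem_H_of_pos hw
    intro j hj
    rw [hsim j hj]; exact g.sim_pos hj
  rw [e]
  exact Subgroup.mul_mem _ (Subgroup.mul_mem _ hb (H_le_B hnH)) hb'

theorem cent_in_U {J : Set ℕ} (hA : Adj T) (hJ : ∃ i < T.l, i ∉ J) {x : GL D.Idx F} (hxG : x ∈ D.group F)
    (hx : ∀ u ∈ D.unipotentRadical F J, x * u = u * x) : x ∈ D.posUnipotent F := by
  have hev := g.even
  obtain ⟨u, hu, h, hh, rfl⟩ := g.mem_B.1 (g.cent_in_B hA hJ hxG hx)
  obtain ⟨a, rfl⟩ := g.mem_H.1 hh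
  rw [g.hel_eq_tor] at hx ⊢
  set β : ℕ → Fˣ := fun j => hchi T a (T.sim j) with hβ
  have hchi : ∀ s, T.n / 2 ≤ s → s < T.n → ¬ D.InRootSub J s → chi T β s = 1 := by
    intro s hp hs hsJ
    have h1 := hx _ (g.X_mem_UJ hp hs hsJ 1)
    have h2 := g.tor_X (D := D) β hs (1 : F)
    rw [mul_one] at h2
    have h3 : g.X s ((chi T β s : Fˣ) : F) * 1 = g.X s 1 * ((g.X s 1)⁻¹ * u⁻¹ * ((g.X s 1)⁻¹)⁻¹ * u⁻¹⁻¹) := by
      have h4 : u * (tor D T β * g.X s 1) = g.X s 1 * (u * tor D T β) := by rw [← mul_assoc]; exact h1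
      rw [h2] at h4
      have h5 : u * g.X s ((chi T β s : Fˣ) : F) = g.X s 1 * u := by
        have : (u * g.X s ((chi T β s : Fˣ) : F)) * tor D T β = (g.X s 1 * u) * tor D T β := by
          rw [mul_assoc, h4, mul_assoc]
        exact mul_right_cancel this
      rw [mul_one]
      have h6 : g.X s ((chi T β s : Fˣ) : F) = u⁻¹ * (u * g.X s ((chi T β s : Fˣ) : F)) := by group
      rw [h6, h5]; group
    have h4 := g.Uge_comm (F := F) hp (Subgroup.inv_mem _ hu) (Subgroup.inv_mem _ (g.X_mem_Uge (F := F) (le_refl s) hs 1))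
    have h5 := g.Uge_unique hp hs (Subgroup.one_mem _) h4 h3
    exact Units.ext h5.1
  obtain ⟨i, hi, hiJ⟩ := hJ
  have hb : ∀ j < T.l, β j = 1 := by
    intro j hj
    by_cases hij : i = j
    · subst hij
      rw [← g.chi_sim β hi]
      exact hchi _ (g.sim_pos hi) (g.sim_lt hi) (g.sim_notIn hi hiJ)
    · obtain ⟨s, s', h1, h2, h3, h4, h5, h6, h7⟩ := hA i hi j hj hij
      have e1 := hchi s h1 h2 (g.not_inSub_of hi hiJ h5)
      have e2 := hchi s' h3 h4 (g.not_inSub_of hi hiJ h6)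
      have e3 : chi T β s' = chi T β s * β j := by
        unfold chi
        rw [Finset.prod_congr rfl (fun k hk => by rw [h7 k (Finset.mem_range.1 hk), _root_.zpow_add]), Finset.prod_mul_distrib]
        congr 1
        rw [Finset.prod_eq_single j]
        · simp
        · intro k _ hkj; simp [hkj]
        · intro h; exact absurd (Finset.mem_range.2 hj) h
      rw [e1, e2, one_mul] at e3
      exact e3.symm
  have ht : tor D T β = 1 := by
    unfold tor
    rw [← dg_one (D := D) (F := F)]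
    congr 1
    funext s
    unfold chi
    apply Finset.prod_eq_one
    intro k hk
    rw [hb k (Finset.mem_range.1 hk), _root_.one_zpow]
  rw [ht, mul_one]
  exact hu

/-- the centralizer of the unipotent radical -/
theorem cent_UJ {J : Set ℕ} (hA : Adj T) (hJ : ∃ i < T.l, i ∉ J) {x : GL D.Idx F} (hxG : x ∈ D.group F)
    (hx : ∀ u ∈ D.unipotentRadical F J, x * u = u * x) : x ∈ D.unipotentRadical F J := by
  have hxU := g.cent_in_U hA hJ hxG hx
  obtain ⟨c, hc, a, ha, rfl⟩ := g.U_split (J := J) hxU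
  obtain ⟨w, hw, hwJ, hneg⟩ := g.exists_longest_J J
  have hn := g.nw_par (F := F) hw hwJ
  have h1 : g.nw w * (c * a) * (g.nw w)⁻¹ ∈ D.posUnipotent F := by
    apply g.cent_in_U hA hJ (Subgroup.mul_mem _ (Subgroup.mul_mem _ (g.nw_mem_G w) hxG) (Subgroup.inv_mem _ (g.nw_mem_G w)))
    intro u hu
    have h2 := g.conj_UJ' hn hu
    have h3 := hx _ h2
    calc g.nw w * (c * a) * (g.nw w)⁻¹ * u = g.nw w * ((c * a) * ((g.nw w)⁻¹ * u * g.nw w)) * (g.nw w)⁻¹ := by group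
      _ = g.nw w * (((g.nw w)⁻¹ * u * g.nw w) * (c * a)) * (g.nw w)⁻¹ := by rw [h3]
      _ = _ := by group
  have h2 := g.UJ_le_U J (g.conj_UJ hn hc)
  have h3 : g.nw w * a * (g.nw w)⁻¹ ∈ D.posUnipotent F := by
    have e : g.nw w * a * (g.nw w)⁻¹ = (g.nw w * c * (g.nw w)⁻¹)⁻¹ * (g.nw w * (c * a) * (g.nw w)⁻¹) := by group
    rw [e]
    exact Subgroup.mul_mem _ (Subgroup.inv_mem _ h2) h1
  have h4 := g.UPJ_conj_neg hw (fun r hr hrn hrJ => g.neg_J hw hneg hr hrn hrJ) ha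
  have h5 := g.U_inf_V h3 h4
  have h6 : a = 1 := by
    have : a = (g.nw w)⁻¹ * (g.nw w * a * (g.nw w)⁻¹) * g.nw w := by group
    rw [this, h5]; group
  rw [h6, mul_one]
  exact hc

end Mat

end Good3

end CfsgLib.Chev
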