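import Cfsg.Agent.LibChevPoinT

set_option autoImplicit false

/-! The order of the Weyl group -/

namespace CfsgLib.Chev

open Cfsg.Lie

theorem Good3.Wq_one {D : ChevalleyDatum} {T : Tb} (g : Good3 D T) : g.Wq Set.univ 1 = Nat.card (g.WJ Set.univ) := by
  classical
  unfold Good3.Wq
  simp only [one_pow, Finset.sum_const, nsmul_eq_mul, mul_one]
  congr 1
  rw [Nat.card_eq_fintype_card, Fintype.card_subtype]

theorem card_of_chain {D : ChevalleyDatum} {T : Tb} (g : Good3 D T) (hc : T.chkCnn = true)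
    {ch : List (ℕ × OT × List ℤ)} (h1 : chkChain T (List.range T.l) ch = true) {N : ℕ}
    (hN : lpev 1 (headQ ch) = N) : Nat.card (g.WJ Set.univ) = N := by
  have h3 := g.chain_sound hc 1 ch _ h1
  have h4 : g.Wq {i | i ∈ List.range T.l} 1 = g.Wq Set.univ 1 := by
    unfold Good3.Wq
    rw [g.WJ_range]
  rw [h4, g.Wq_one, hN] at h3
  exact_mod_cast h3

end CfsgLib.Chev
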