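import Cfsg.Agent.LibChevCox2
import Cfsg.Agent.LibChevAll

set_option autoImplicit false
set_option maxRecDepth 100000

/-! Coxeter matrices of the seven types -/

namespace CfsgLib.Chev

open Cfsg.Lie

theorem cox_G2 : ∀ i j : Fin tG2.l, chkOrd tG2 [(i : ℕ), (j : ℕ)] ((CoxeterMatrix.G₂ : CoxeterMatrix (Fin tG2.l)) i j) = true := by
  decide +kernel

theorem cox_B2 : ∀ i j : Fin tB2.l, chkOrd tB2 [(i : ℕ), (j : ℕ)] ((CoxeterMatrix.B 2 : CoxeterMatrix (Fin tB2.l)) i j) = true := by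
  decide +kernel

theorem cox_D4 : ∀ i j : Fin tD4.l, chkOrd tD4 [(i : ℕ), (j : ℕ)] ((coxeterD4 : CoxeterMatrix (Fin tD4.l)) i j) = true := by
  decide +kernel

theorem cox_F4 : ∀ i j : Fin tF4.l, chkOrd tF4 [(i : ℕ), (j : ℕ)] ((CoxeterMatrix.F₄ : CoxeterMatrix (Fin tF4.l)) i j) = true := by
  decide +kernel

theorem cox_E6 : ∀ i j : Fin tE6.l, chkOrd tE6 [(i : ℕ), (j : ℕ)] ((CoxeterMatrix.E₆ : CoxeterMatrix (Fin tE6.l)) i j) = true := by
  decide +kernel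

theorem cox_E7 : ∀ i j : Fin tE7.l, chkOrd tE7 [(i : ℕ), (j : ℕ)] ((CoxeterMatrix.E₇ : CoxeterMatrix (Fin tE7.l)) i j) = true := by
  decide +kernel

theorem cox_E8 : ∀ i j : Fin tE8.l, chkOrd tE8 [(i : ℕ), (j : ℕ)] ((CoxeterMatrix.E₈ : CoxeterMatrix (Fin tE8.l)) i j) = true := by
  decide +kernel

theorem coxo_G2 : chkOrd tG2 [0, 1] 6 = true := by decide +kernel
theorem coxo_B2 : chkOrd tB2 [0, 1] 4 = true := by decide +kernel
theorem coxo_D4 : chkOrd tD4 [0, 1, 2, 3] 6 = true := by decide +kernel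
theorem coxo_F4 : chkOrd tF4 [0, 1, 2, 3] 12 = true := by decide +kernel
theorem coxo_E6 : chkOrd tE6 [0, 1, 2, 3, 4, 5] 12 = true := by decide +kernel
theorem coxo_E7 : chkOrd tE7 [0, 1, 2, 3, 4, 5, 6] 18 = true := by decide +kernel
theorem coxo_E8 : chkOrd tE8 [0, 1, 2, 3, 4, 5, 6, 7] 30 = true := by decide +kernel

end CfsgLib.Chev
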