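import Cfsg.Agent.LibChevAll4

set_option autoImplicit false
set_option maxRecDepth 1000000
set_option linter.unusedSectionVars false

/-! generation of Chevalley groups by N and root subgroups -/

namespace CfsgLib.Chev

open Cfsg.Lie Matrix
open scoped commutatorElement

namespace Tb

/-- pairs of roots whose commutator is a single root element, with coefficient ±C -/
def isCommC (T : Tb) (C : ℤ) (r s1 s2 : ℕ) : Bool :=
  Nat.ble (s1 + 1) T.n && (Nat.ble (s2 + 1) T.n && (!Nat.beq s2 s1 && (!Nat.beq s2 (T.n - 1 - s1) &&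
  match commT T.ent s1 s2 with
  | [c] => Nat.beq c.1 r && (decide (c.2.1 = C ∨ c.2.1 = -C) && (Nat.beq c.2.2.1 1 && Nat.beq c.2.2.2 1))
  | _ => false)))

/-- image under a word of simple reflections -/
def wimg (T : Tb) (L : List ℕ) (r : ℕ) : ℕ := L.foldr (fun i s => T.w i s) r

def chkW1 (T : Tb) (L : List ℕ) (r s : ℕ) : Bool := Nat.ble (r + 1) T.n && (L.all (fun i => Nat.ble (i + 1) T.l) && Nat.beq (T.wimg L r) s)

end Tb

namespace Good3

variable {D : ChevalleyDatum} {T : Tb} (g : Good3 D T)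
include g

section Mat
variable {F : Type*} [Field F]

theorem mono_w {M : Subgroup (GL D.Idx F)} (hM : D.monomialSubgroup F ≤ M) {i r : ℕ} (hi : i < T.l) (hr : r < T.n)
    (h : ∀ t : F, g.X r t ∈ M) (t : F) : g.X (T.w i r) t ∈ M := by
  have e := g.nn_X_conj (F := F) hi hr (((T.eta i r : ℤ) : F) * t)
  rw [← mul_assoc, Good.eta_cast_mul_self, one_mul] at e
  rw [← e]
  have hn : g.nn i ∈ M := hM (g.nn_mem_N hi)
  exact Subgroup.mul_mem _ (Subgroup.mul_mem _ hn (h _)) (Subgroup.inv_mem _ hn)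

theorem mono_word {M : Subgroup (GL D.Idx F)} (hM : D.monomialSubgroup F ≤ M) (L : List ℕ) {r s : ℕ}
    (h : T.chkW1 L r s = true) (hr : ∀ t : F, g.X r t ∈ M) (t : F) : g.X s t ∈ M := by
  unfold Tb.chkW1 at h
  simp only [Bool.and_eq_true, Nat.ble_eq, List.all_eq_true, Nat.beq_eq] at h
  obtain ⟨h1, h2, h3⟩ := h
  rw [← h3]
  have key : ∀ L : List ℕ, (∀ i ∈ L, i + 1 ≤ T.l) → T.wimg L r < T.n ∧ ∀ t : F, g.X (T.wimg L r) t ∈ M := by
    intro L
    induction L with
    | nil => intro _; exact ⟨h1, hr⟩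
    | cons i L ih =>
      intro h
      obtain ⟨h5, h6⟩ := ih (fun j hj => h j (List.mem_cons_of_mem _ hj))
      have hi : i < T.l := h i List.mem_cons_self
      exact ⟨g.w_lt hi h5, fun t => g.mono_w hM hi h5 h6 t⟩
  exact (key L h2).2 t

theorem mono_comm {M : Subgroup (GL D.Idx F)} {C : ℤ} {r s1 s2 : ℕ} (h : T.isCommC C r s1 s2 = true)
    (hC : (C : F) ≠ 0) (h1M : ∀ t : F, g.X s1 t ∈ M) (h2M : ∀ t : F, g.X s2 t ∈ M) (t : F) : g.X r t ∈ M := by
  unfold Tb.isCommC at h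
  simp only [Bool.and_eq_true, Nat.ble_eq, Bool.not_eq_true'] at h
  obtain ⟨h1, h2, h3', h4', h5⟩ := h
  have h3 : s2 ≠ s1 := Nat.ne_of_beq_eq_false h3'
  have h4 : s2 ≠ T.n - 1 - s1 := Nat.ne_of_beq_eq_false h4'
  have hs1 : s1 < T.n := h1
  have hs2 : s2 < T.n := h2
  generalize hL : Tb.commT T.ent s1 s2 = L at h5
  match L, h5 with
  | [c], h5 =>
    simp only [Bool.and_eq_true, Nat.beq_eq, decide_eq_true_eq] at h5
    obtain ⟨h6, h7, h8, h9⟩ := h5
    have key : ∀ u : F, g.X r ((c.2.1 : F) * u) ∈ M := by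
      intro u
      have h10 := g.X_comm (F := F) hs1 hs2 h3 h4 (-1) u
      rw [hL] at h10
      simp only [List.map_cons, List.map_nil, List.prod_cons, List.prod_nil, mul_one, h6, h8, h9, pow_one, neg_neg, mul_one] at h10
      have : g.X r ((c.2.1 : F) * u) = (g.X s1 (-1) * g.X s2 u)⁻¹ * (g.X s2 u * g.X s1 (-1)) := by rw [h10]; group
      rw [this]
      exact Subgroup.mul_mem _ (Subgroup.inv_mem _ (Subgroup.mul_mem _ (h1M _) (h2M _))) (Subgroup.mul_mem _ (h2M _) (h1M _))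
    have hc : (c.2.1 : F) ≠ 0 := by
      rcases h7 with h7 | h7
      · rw [h7]; exact hC
      · rw [h7]; push_cast; exact neg_ne_zero.2 hC
    have := key ((c.2.1 : F)⁻¹ * t)
    rwa [← mul_assoc, mul_inv_cancel₀ hc, one_mul] at this

theorem mono_top {M : Subgroup (GL D.Idx F)} (hM : D.monomialSubgroup F ≤ M)
    (h : ∀ i < T.l, ∀ t : F, g.X (T.sim i) t ∈ M) : D.group F ≤ M := by
  rw [g.G_eq, Subgroup.closure_le]
  rintro x ⟨r, t, hr, rfl⟩
  have key : ∀ r < T.n, ∀ t : F, g.X r t ∈ M := by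
    apply g.root_ind
    · exact h
    · intro i hi r hr ih t
      have := g.mono_w hM hi (g.w_lt hi hr) ih t
      rwa [g.w_w hi hr] at this
  exact key r hr t

theorem rootSubgroup_le_iff {M : Subgroup (GL D.Idx F)} {r : ℕ} (hr : r < T.n) (h : D.rootSubgroup F r ≤ M) (t : F) :
    g.X r t ∈ M := by
  apply h
  unfold ChevalleyDatum.rootSubgroup
  apply Subgroup.subset_closure
  exact ⟨t, g.X_val r t⟩

end Mat

end Good3

end CfsgLib.Chev
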