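import Cfsg.Agent.LibChevStb

set_option autoImplicit false
set_option linter.unusedSectionVars false

/-! The Steinberg character: counting (seat helper15). -/

namespace CfsgLib.Chev

open Cfsg.Lie Matrix
open scoped Pointwise

theorem conj_into_sub {G : Type*} [Group G] [Finite G] {p : ℕ} [Fact p.Prime] {U P : Subgroup G} (hUP : U ≤ P)
    (hU : IsPGroup p U) (hidx : ¬ p ∣ U.index) {x : G} (hx : x ∈ P) (hp : ∃ k : ℕ, orderOf x = p ^ k) :
    ∃ y ∈ P, y⁻¹ * x * y ∈ U := by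
  have h1 : IsPGroup p (U.subgroupOf P) := hU.of_equiv (Subgroup.subgroupOfEquivOfLe hUP).symm
  have h2 : ¬ p ∣ (U.subgroupOf P).index := by
    intro h
    apply hidx
    exact h.trans (Subgroup.relIndex_dvd_index_of_le hUP)
  let Q := h1.toSylow h2
  have h3 : IsPGroup p (Subgroup.zpowers (⟨x, hx⟩ : P)) := by
    obtain ⟨k, hk⟩ := hp
    apply IsPGroup.of_card (n := k)
    rw [Nat.card_zpowers, ← hk]
    exact orderOf_injective P.subtype P.subtype_injective ⟨x, hx⟩ |>.symm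
  obtain ⟨R, hR⟩ := h3.exists_le_sylow
  obtain ⟨y, hy⟩ := MulAction.exists_smul_eq P Q R
  refine ⟨y, y.2, ?_⟩
  have h4 : (⟨x, hx⟩ : P) ∈ R := hR (Subgroup.mem_zpowers _)
  rw [← hy] at h4
  have h5 : (⟨x, hx⟩ : P) ∈ (MulAut.conj y) • (Q : Subgroup P) := h4
  rw [Subgroup.mem_pointwise_smul_iff_inv_smul_mem] at h5
  have h6 : (MulAut.conj y)⁻¹ • (⟨x, hx⟩ : P) = y⁻¹ * ⟨x, hx⟩ * y := by
    rw [← map_inv]; simp [MulAut.smul_def]
  rw [h6] at h5
  have h7 : y⁻¹ * ⟨x, hx⟩ * y ∈ U.subgroupOf P := h5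
  rw [Subgroup.mem_subgroupOf] at h7
  exact h7

theorem fix_BH {Γ : Type*} [Group Γ] (U H B : Subgroup Γ) (hUB : U ≤ B) (hHB : H ≤ B)
    (hdec : ∀ x ∈ B, ∃ u ∈ U, ∃ k ∈ H, x = u * k) (hint : ∀ x ∈ U, x ∈ H → x = 1) (b : B) :
    Nat.card (MulAction.fixedBy (B ⧸ H.subgroupOf B) b) = Nat.card {a : Γ // a ∈ U ∧ a⁻¹ * b * a ∈ H} := by
  symm
  have key : ∀ x : B, ((x : B) : B ⧸ H.subgroupOf B) ∈ MulAction.fixedBy (B ⧸ H.subgroupOf B) b ↔ (x : Γ)⁻¹ * b * x ∈ H := by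
    intro x
    rw [MulAction.mem_fixedBy]
    have : b • ((x : B) : B ⧸ H.subgroupOf B) = ((b * x : B) : B ⧸ H.subgroupOf B) := rfl
    rw [this, eq_comm, QuotientGroup.eq, ← mul_assoc]
    rfl
  refine Nat.card_eq_of_bijective (fun a : {a : Γ // a ∈ U ∧ a⁻¹ * b * a ∈ H} =>
    (⟨((⟨a.1, hUB a.2.1⟩ : B) : B ⧸ H.subgroupOf B), (key _).2 a.2.2⟩ : MulAction.fixedBy (B ⧸ H.subgroupOf B) b)) ⟨?_, ?_⟩
  · rintro ⟨a, ha, ha'⟩ ⟨c, hc, hc'⟩ e
    apply Subtype.ext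
    have e1 := congrArg Subtype.val e
    simp only at e1
    rw [QuotientGroup.eq] at e1
    have e2 : a⁻¹ * c ∈ H := e1
    have e3 := hint _ (U.mul_mem (U.inv_mem ha) hc) e2
    rwa [inv_mul_eq_one] at e3
  · rintro ⟨q, hq⟩
    obtain ⟨⟨x, hxB⟩, rfl⟩ := QuotientGroup.mk_surjective q
    obtain ⟨u, hu, k, hk, rfl⟩ := hdec x hxB
    have h1 := (key _).1 hq
    have h2 : (u * k)⁻¹ * b * (u * k) ∈ H := h1
    refine ⟨⟨u, hu, ?_⟩, ?_⟩
    · have : u⁻¹ * b * u = k * ((u * k)⁻¹ * b * (u * k)) * k⁻¹ := by group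
      rw [this]
      exact H.mul_mem (H.mul_mem hk h2) (H.inv_mem hk)
    · apply Subtype.ext
      simp only
      rw [QuotientGroup.eq]
      show u⁻¹ * (u * k) ∈ H
      rw [inv_mul_cancel_left]; exact hk

namespace Good3

variable {D : ChevalleyDatum} {T : Tb} (g : Good3 D T)
include g

section Mat
variable {F : Type*} [Field F]

theorem par_mono {J I : Set ℕ} (h : J ⊆ I) : D.parabolicSubgroup F J ≤ D.parabolicSubgroup F I := by
  unfold ChevalleyDatum.parabolicSubgroup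
  apply sup_le_sup le_rfl
  apply Subgroup.closure_mono
  rintro x ⟨j, hj, h1, h2⟩
  exact ⟨j, h hj, h1, h2⟩

theorem par_top : D.parabolicSubgroup F (↑(Finset.range T.l) : Set ℕ) = D.group F := by
  apply le_antisymm (g.par_le_G _)
  apply g.G_le
  · intro i hi t
    exact B_le_par _ (U_le_B (g.X_mem_U (g.sim_pos hi) (g.sim_lt hi) t))
  · intro i hi
    exact g.nn_mem_par hi (by simp [hi])

/-- the abstract system -/
theorem sys [Finite F] : AltSum.Sys (G := ↥(D.group F)) ((D.borelSubgroup F).subgroupOf (D.group F)) (D.parabolicIn F)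
    (fun x i => PosG g (x : GL D.Idx F) i) where
  BP := by
    intro J x hx
    exact B_le_par _ hx
  mono := by
    intro J I h x hx
    exact g.par_mono (by exact_mod_cast h) hx
  dc := by
    intro b hb b' hb' x i
    exact g.PosG_dc hb hb' _ i
  ex := by
    intro J x
    obtain ⟨p, hp, h⟩ := g.PosG_ex (J := (↑J : Set ℕ)) x.2
    exact ⟨⟨p, g.par_le_G _ hp⟩, hp, fun i hi => h i (by exact_mod_cast hi)⟩
  un := by
    intro J x p hp h1 h2
    exact g.PosG_un (J := (↑J : Set ℕ)) x.2 hp (fun i hi => h1 i (by exact_mod_cast hi)) (fun i hi => h2 i (by exact_mod_cast hi))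

/-- the negative cosets in `P_I` -/
theorem neg_card [Finite F] (I : Finset ℕ) (hI : I ⊆ Finset.range T.l) {w0 : List ℕ} (hw0 : VW T w0) (hI0 : JW (↑I : Set ℕ) w0)
    (h0 : ∀ i < T.l, i ∈ (↑I : Set ℕ) → wact T w0 (T.sim i) < T.n / 2) (b : ↥(D.group F)) :
    Nat.card {q : ↥(D.group F) ⧸ ((D.borelSubgroup F).subgroupOf (D.group F)) //
      ∃ x ∈ D.parabolicIn F I, (x : ↥(D.group F) ⧸ ((D.borelSubgroup F).subgroupOf (D.group F))) = q ∧
        x⁻¹ * b * x ∈ (D.borelSubgroup F).subgroupOf (D.group F) ∧ ∀ i ∈ I, ¬ PosG g (x : GL D.Idx F) i} =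
    Nat.card {a : GL D.Idx F // a ∈ UPJ g F (↑I : Set ℕ) ∧ (a * g.nw w0)⁻¹ * (b : GL D.Idx F) * (a * g.nw w0) ∈ D.borelSubgroup F} := by
  symm
  have hG : ∀ a ∈ UPJ g F (↑I : Set ℕ), a * g.nw w0 ∈ D.group F := fun a ha =>
    Subgroup.mul_mem _ (g.U_le_G (g.UPJ_le_U _ ha)) (g.nw_mem_G w0)
  have hP : ∀ a ∈ UPJ g F (↑I : Set ℕ), a * g.nw w0 ∈ D.parabolicSubgroup F (↑I : Set ℕ) := fun a ha =>
    Subgroup.mul_mem _ (g.UPJ_le_par _ ha) (g.nw_par hw0 hI0)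
  have hneg : ∀ a ∈ UPJ g F (↑I : Set ℕ), ∀ i ∈ I, ¬ PosG g (a * g.nw w0) i := by
    intro a ha i hi hpos
    have hil : i < T.l := Finset.mem_range.1 (hI hi)
    have h1 := (g.PosG_iff hw0 (U_le_B (g.UPJ_le_U _ ha)) (Subgroup.one_mem _) hil).1 (by rw [mul_one]; exact hpos)
    have h2 := h0 i hil (by exact_mod_cast hi)
    omega
  let f : {a : GL D.Idx F // a ∈ UPJ g F (↑I : Set ℕ) ∧ (a * g.nw w0)⁻¹ * (b : GL D.Idx F) * (a * g.nw w0) ∈ D.borelSubgroup F} →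
      {q : ↥(D.group F) ⧸ ((D.borelSubgroup F).subgroupOf (D.group F)) //
      ∃ x ∈ D.parabolicIn F I, (x : ↥(D.group F) ⧸ ((D.borelSubgroup F).subgroupOf (D.group F))) = q ∧
        x⁻¹ * b * x ∈ (D.borelSubgroup F).subgroupOf (D.group F) ∧ ∀ i ∈ I, ¬ PosG g (x : GL D.Idx F) i} := fun a =>
    ⟨((⟨a.1 * g.nw w0, hG _ a.2.1⟩ : ↥(D.group F)) : ↥(D.group F) ⧸ _), ⟨a.1 * g.nw w0, hG _ a.2.1⟩, hP _ a.2.1, rfl, a.2.2,
      hneg _ a.2.1⟩
  refine Nat.card_eq_of_bijective f ⟨?_, ?_⟩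
  · rintro ⟨a, ha, ha'⟩ ⟨c, hc, hc'⟩ e
    apply Subtype.ext
    have e1 := congrArg Subtype.val e
    simp only [f] at e1
    rw [QuotientGroup.eq, Subgroup.mem_subgroupOf] at e1
    have e2 : (g.nw w0)⁻¹ * (a⁻¹ * c) * g.nw w0 ∈ D.borelSubgroup F := by
      have : (g.nw w0)⁻¹ * (a⁻¹ * c) * g.nw w0 = (a * g.nw w0)⁻¹ * (c * g.nw w0) := by group
      rw [this]; exact e1
    have e3 := g.neg_inj hw0 hI0 h0 (Subgroup.mul_mem _ (Subgroup.inv_mem _ ha) hc) e2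
    show a = c
    rw [inv_mul_eq_one] at e3
    exact e3
  · rintro ⟨q, x, hx, e, h1, h2⟩
    obtain ⟨a, ha, c, hc, e2⟩ := g.neg_par (I := (↑I : Set ℕ)) hw0 hI0 h0 (x := (x : GL D.Idx F)) hx
      (fun i _ hi => h2 i (by exact_mod_cast hi))
    have e3 : a * g.nw w0 = (x : GL D.Idx F) * c⁻¹ := by rw [e2]; group
    refine ⟨⟨a, ha, ?_⟩, ?_⟩
    · have : (a * g.nw w0)⁻¹ * (b : GL D.Idx F) * (a * g.nw w0) = c * ((x : GL D.Idx F)⁻¹ * (b : GL D.Idx F) * (x : GL D.Idx F)) * c⁻¹ := by rw [e3]; group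
      rw [this]
      exact Subgroup.mul_mem _ (Subgroup.mul_mem _ hc h1) (Subgroup.inv_mem _ hc)
    · apply Subtype.ext
      simp only [f]
      rw [← e, QuotientGroup.eq, Subgroup.mem_subgroupOf]
      show (a * g.nw w0)⁻¹ * (x : GL D.Idx F) ∈ D.borelSubgroup F
      rw [e3]
      have : ((x : GL D.Idx F) * c⁻¹)⁻¹ * (x : GL D.Idx F) = c := by group
      rw [this]; exact hc

theorem card_split (J : Set ℕ) : Nat.card (UPJ g F J) * Nat.card (D.unipotentRadical F J) = Nat.card (D.posUnipotent F) := by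
  rw [← Nat.card_prod]
  refine Nat.card_eq_of_bijective (fun z : UPJ g F J × D.unipotentRadical F J =>
    (⟨(z.2 : GL D.Idx F) * (z.1 : GL D.Idx F), Subgroup.mul_mem _ (g.UJ_le_U J z.2.2) (g.UPJ_le_U J z.1.2)⟩ : D.posUnipotent F)) ⟨?_, ?_⟩
  · rintro ⟨⟨a, ha⟩, ⟨c, hc⟩⟩ ⟨⟨a', ha'⟩, ⟨c', hc'⟩⟩ e
    have e1 : c * a = c' * a' := congrArg Subtype.val e
    have e2 : c'⁻¹ * c = a' * a⁻¹ := by
      rw [eq_mul_inv_iff_mul_eq, mul_assoc, e1]; group
    have e3 : c'⁻¹ * c = 1 := by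
      apply g.UPJ_inf J
      · exact Subgroup.mul_mem _ (Subgroup.inv_mem _ hc') hc
      · rw [e2]; exact Subgroup.mul_mem _ ha' (Subgroup.inv_mem _ ha)
    have e4 : c' = c := by rwa [inv_mul_eq_one] at e3
    subst e4
    have e5 : a = a' := mul_left_cancel e1
    subst e5
    rfl
  · rintro ⟨u, hu⟩
    obtain ⟨c, hc, a, ha, rfl⟩ := g.U_split (J := J) hu
    exact ⟨⟨⟨a, ha⟩, ⟨c, hc⟩⟩, rfl⟩

theorem card_sub {G : Type*} [Group G] {H K : Subgroup G} (h : H ≤ K) : Nat.card (H.subgroupOf K) = Nat.card H :=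
  Nat.card_congr (Subgroup.subgroupOfEquivOfLe h).toEquiv

theorem UPJ_bot : UPJ g F (∅ : Set ℕ) = ⊥ := by
  unfold UPJ
  rw [Subgroup.closure_eq_bot_iff]
  rintro x ⟨r, t, h1, h2, h3, rfl⟩
  exfalso
  rw [g.inSub_iff] at h3
  obtain ⟨j, hj, hne⟩ := g.v_ne_zero h2
  exact hne (h3.2 j hj (by simp))

theorem UJ_top : D.unipotentRadical F (↑(Finset.range T.l) : Set ℕ) = ⊥ := by
  unfold ChevalleyDatum.unipotentRadical
  rw [Subgroup.closure_eq_bot_iff]
  rintro x ⟨r, t, h1, h2, _⟩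
  exfalso
  apply h2
  rw [g.inSub_iff]
  refine ⟨(g.isPos_iff.1 h1).2, fun i hi hn => ?_⟩
  exfalso; apply hn; simp [hi]

/-- data for the count -/
theorem cnt [Fintype F] {p : ℕ} [Fact p.Prime] [CharP F p] :
    AltSum.Cnt (G := ↥(D.group F)) p ((D.borelSubgroup F).subgroupOf (D.group F)) (D.parabolicIn F)
    (fun x i => PosG g (x : GL D.Idx F) i) ((D.posUnipotent F).subgroupOf (D.group F))
    (fun J => (D.unipotentRadical F (↑J : Set ℕ)).subgroupOf (D.group F)) (Finset.range T.l) where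
  toSys := g.sys
  UB := fun x hx => U_le_B hx
  Rn := fun I hI x hx y hy => g.conj_UJ (J := (↑I : Set ℕ)) hx hy
  RU := fun I hI x hx => g.UJ_le_U _ hx
  Up := by
    intro u hu
    have h1 : IsPGroup p ((D.posUnipotent F).subgroupOf (D.group F)) :=
      (g.U_pgroup (p := p)).of_equiv (Subgroup.subgroupOfEquivOfLe g.U_le_G).symm
    obtain ⟨k, hk⟩ := IsPGroup.iff_orderOf.1 h1 ⟨u, hu⟩
    refine ⟨k, ?_⟩
    rw [← hk]
    exact (orderOf_injective (Subgroup.subtype _) (Subgroup.subtype_injective _) ⟨u, hu⟩)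
  cj := by
    intro I hI x hx hp
    have h1 : IsPGroup p ((D.posUnipotent F).subgroupOf (D.group F)) :=
      (g.U_pgroup (p := p)).of_equiv (Subgroup.subgroupOfEquivOfLe g.U_le_G).symm
    exact conj_into_sub (P := D.parabolicIn F I) (U := (D.posUnipotent F).subgroupOf (D.group F))
      (fun y hy => B_le_par _ (U_le_B hy)) h1 g.index_U hx hp
  ct := by
    intro I hI b hb hbR
    obtain ⟨w0, hw0, hI0, h0⟩ := g.exists_longest_J (↑I : Set ℕ)
    rw [g.neg_card I hI hw0 hI0 h0 b, g.card_sub (g.U_le_G), ← g.card_split (F := F) (↑I : Set ℕ),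
      g.card_sub ((g.UJ_le_U _).trans g.U_le_G)]
    congr 1
    apply Nat.card_congr
    apply Equiv.subtypeEquivRight
    intro a
    constructor
    · exact fun h => h.1
    · intro ha
      refine ⟨ha, ?_⟩
      apply U_le_B
      apply g.UJ_le_U (↑I : Set ℕ)
      exact g.conj_UJ' (Subgroup.mul_mem _ (g.UPJ_le_par _ ha) (g.nw_par hw0 hI0)) hbR
  ct' := by
    intro I hI b hb hbR
    obtain ⟨w0, hw0, hI0, h0⟩ := g.exists_longest_J (↑I : Set ℕ)
    rw [g.neg_card I hI hw0 hI0 h0 b, Nat.card_eq_zero]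
    left
    constructor
    rintro ⟨a, ha, h1⟩
    obtain ⟨c, hc, d, hd, e⟩ := g.U_split (J := (↑I : Set ℕ)) (u := (b : GL D.Idx F)) hb
    have h2 : (a * g.nw w0)⁻¹ * c * (a * g.nw w0) ∈ D.unipotentRadical F (↑I : Set ℕ) :=
      g.conj_UJ' (Subgroup.mul_mem _ (g.UPJ_le_par _ ha) (g.nw_par hw0 hI0)) hc
    have h3 : (g.nw w0)⁻¹ * (a⁻¹ * d * a) * g.nw w0 ∈ D.borelSubgroup F := by
      have e2 : (g.nw w0)⁻¹ * (a⁻¹ * d * a) * g.nw w0 = ((a * g.nw w0)⁻¹ * c * (a * g.nw w0))⁻¹ *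
          ((a * g.nw w0)⁻¹ * (b : GL D.Idx F) * (a * g.nw w0)) := by rw [e]; group
      rw [e2]
      exact Subgroup.mul_mem _ (Subgroup.inv_mem _ (U_le_B (g.UJ_le_U _ h2))) h1
    have h4 := g.neg_inj hw0 hI0 h0 (Subgroup.mul_mem _ (Subgroup.mul_mem _ (Subgroup.inv_mem _ ha) hd) ha) h3
    have h5 : d = 1 := by
      have : d = a * (a⁻¹ * d * a) * a⁻¹ := by group
      rw [this, h4]; group
    apply hbR
    rw [Subgroup.mem_subgroupOf, e, h5, mul_one]; exact hc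
  PS := by
    show (D.parabolicSubgroup F (↑(Finset.range T.l) : Set ℕ)).subgroupOf (D.group F) = ⊤
    rw [g.par_top]; exact Subgroup.subgroupOf_self _
  RS := by
    show (D.unipotentRadical F (↑(Finset.range T.l) : Set ℕ)).subgroupOf (D.group F) = ⊥
    rw [g.UJ_top]; exact Subgroup.bot_subgroupOf _

theorem unip_count [Fintype F] {p : ℕ} [Fact p.Prime] [CharP F p] :
    Nat.card {x : ↥(D.group F) // ∃ k : ℕ, orderOf x = p ^ k} = Nat.card (D.posUnipotent F) ^ 2 := by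
  rw [AltSum.main (g.cnt (F := F) (p := p)), g.card_sub g.U_le_G]

theorem fixedPt_eq (J : Finset ℕ) (x : ↥(D.group F)) : Cfsg.fixedPointCharacter (D.parabolicIn F J) x =
    (Nat.card {q : ↥(D.group F) ⧸ D.parabolicIn F J // ∃ y ∈ D.parabolicIn F (Finset.range T.l),
      (y : ↥(D.group F) ⧸ D.parabolicIn F J) = q ∧ y⁻¹ * x * y ∈ D.parabolicIn F J} : ℂ) := by
  unfold Cfsg.fixedPointCharacter
  congr 1
  apply Nat.card_congr
  apply Equiv.subtypeEquivRight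
  intro q
  obtain ⟨y, rfl⟩ := QuotientGroup.mk_surjective q
  rw [MulAction.mem_fixedBy]
  have htop : ∀ y : ↥(D.group F), y ∈ D.parabolicIn F (Finset.range T.l) := by
    intro y
    show (y : GL D.Idx F) ∈ D.parabolicSubgroup F (↑(Finset.range T.l) : Set ℕ)
    rw [g.par_top]; exact y.2
  constructor
  · intro h
    refine ⟨y, htop y, rfl, ?_⟩
    have h2 : ((x * y : ↥(D.group F)) : ↥(D.group F) ⧸ D.parabolicIn F J) = (y : ↥(D.group F) ⧸ D.parabolicIn F J) := h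
    rw [eq_comm, QuotientGroup.eq, ← mul_assoc] at h2
    exact h2
  · rintro ⟨z, _, e, h⟩
    rw [← e]
    show ((x * z : ↥(D.group F)) : ↥(D.group F) ⧸ D.parabolicIn F J) = _
    rw [eq_comm, QuotientGroup.eq, ← mul_assoc]
    exact h

/-- the Steinberg character on `B` -/
theorem stein_B [Finite F] {w0 : List ℕ} (hw0 : VW T w0) (h0 : ∀ i < T.l, wact T w0 (T.sim i) < T.n / 2)
    (b : ↥(D.group F)) (hb : (b : GL D.Idx F) ∈ D.borelSubgroup F) : D.steinbergCharacter F b =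
    (Nat.card {a : GL D.Idx F // a ∈ D.posUnipotent F ∧ a⁻¹ * b * a ∈ D.diagonalSubgroup F} : ℂ) := by
  unfold ChevalleyDatum.steinbergCharacter
  have hrk : (Finset.range D.rank).powerset = (Finset.range T.l).powerset := congrArg (fun k => (Finset.range k).powerset) g.hl
  rw [hrk]
  have h1 := AltSum.alt_sum (g.sys (F := F)) (Finset.range T.l) (b := b) hb
  rw [Finset.sum_congr rfl (fun J _ => by rw [g.fixedPt_eq J b])]
  have h2 := congrArg (Int.cast : ℤ → ℂ) h1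
  push_cast at h2
  rw [h2, g.neg_card _ subset_rfl hw0 (by intro i hi; simp [hw0 i hi]) (fun i hi _ => h0 i hi) b]
  congr 1
  apply Nat.card_congr
  apply Equiv.subtypeEquivRight
  intro a
  have hUP : ∀ a : GL D.Idx F, a ∈ UPJ g F (↑(Finset.range T.l) : Set ℕ) ↔ a ∈ D.posUnipotent F := by
    intro a
    refine ⟨fun h => g.UPJ_le_U _ h, fun h => ?_⟩
    obtain ⟨c, hc, d, hd, rfl⟩ := g.U_split (J := (↑(Finset.range T.l) : Set ℕ)) h
    rw [g.UJ_top, Subgroup.mem_bot] at hc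
    rw [hc, one_mul]; exact hd
  rw [hUP]
  constructor
  · rintro ⟨ha, h3⟩
    refine ⟨ha, ?_⟩
    have h4 : a⁻¹ * b * a ∈ D.borelSubgroup F :=
      Subgroup.mul_mem _ (Subgroup.mul_mem _ (Subgroup.inv_mem _ (U_le_B ha)) hb) (U_le_B ha)
    obtain ⟨u, hu, k, hk, e⟩ := g.mem_B.1 h4
    have h5 : (g.nw w0)⁻¹ * u * g.nw w0 ∈ D.borelSubgroup F := by
      have h6 : (g.nw w0)⁻¹ * k * g.nw w0 ∈ D.diagonalSubgroup F := by
        have := g.N_H (Subgroup.inv_mem _ (g.nw_mem_N hw0)) hk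
        rwa [inv_inv] at this
      have e2 : (g.nw w0)⁻¹ * u * g.nw w0 = ((a * g.nw w0)⁻¹ * (b : GL D.Idx F) * (a * g.nw w0)) * ((g.nw w0)⁻¹ * k * g.nw w0)⁻¹ := by
        have : (a * g.nw w0)⁻¹ * (b : GL D.Idx F) * (a * g.nw w0) = (g.nw w0)⁻¹ * (a⁻¹ * (b : GL D.Idx F) * a) * g.nw w0 := by group
        rw [this, e]; group
      rw [e2]
      exact Subgroup.mul_mem _ h3 (Subgroup.inv_mem _ (H_le_B h6))
    have h7 : u = 1 := g.neg_inj (I := (↑(Finset.range T.l) : Set ℕ)) hw0 (by intro i hi; simp [hw0 i hi])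
      (fun i hi _ => h0 i hi) ((hUP u).2 hu) h5
    rw [e, h7, one_mul]; exact hk
  · rintro ⟨ha, h3⟩
    refine ⟨ha, ?_⟩
    have h6 : (g.nw w0)⁻¹ * (a⁻¹ * (b : GL D.Idx F) * a) * g.nw w0 ∈ D.diagonalSubgroup F := by
      have := g.N_H (Subgroup.inv_mem _ (g.nw_mem_N hw0)) h3
      rwa [inv_inv] at this
    have : (a * g.nw w0)⁻¹ * (b : GL D.Idx F) * (a * g.nw w0) = (g.nw w0)⁻¹ * (a⁻¹ * (b : GL D.Idx F) * a) * g.nw w0 := by group
    rw [this]; exact H_le_B h6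

theorem stein_one [Fintype F] : D.steinbergCharacter F 1 = (Nat.card (D.posUnipotent F) : ℂ) := by
  obtain ⟨w0, hw0, h0⟩ := g.exists_longest
  rw [g.stein_B hw0 (fun i hi => h0 _ (g.sim_pos hi) (g.sim_lt hi)) 1 (Subgroup.one_mem _)]
  congr 1
  apply Nat.card_congr
  apply Equiv.subtypeEquivRight
  intro a
  constructor
  · exact fun h => h.1
  · intro h
    refine ⟨h, ?_⟩
    have : a⁻¹ * ((1 : ↥(D.group F)) : GL D.Idx F) * a = 1 := by rw [OneMemClass.coe_one]; group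
    rw [this]; exact Subgroup.one_mem _

theorem stein_perm [Fintype F] (b : ↥((D.borelSubgroup F).subgroupOf (D.group F))) :
    D.steinbergCharacter F ((((D.borelSubgroup F).subgroupOf (D.group F)).subtype) b) =
      Cfsg.fixedPointCharacter (((D.diagonalSubgroup F).subgroupOf (D.group F)).subgroupOf ((D.borelSubgroup F).subgroupOf (D.group F))) b := by
  obtain ⟨w0, hw0, h0⟩ := g.exists_longest
  rw [Subgroup.subtype_apply, g.stein_B hw0 (fun i hi => h0 _ (g.sim_pos hi) (g.sim_lt hi)) _ b.2]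
  unfold Cfsg.fixedPointCharacter
  rw [fix_BH ((D.posUnipotent F).subgroupOf (D.group F)) ((D.diagonalSubgroup F).subgroupOf (D.group F))
    ((D.borelSubgroup F).subgroupOf (D.group F)) (fun x hx => U_le_B hx) (fun x hx => H_le_B hx)]
  · congr 1
    refine Nat.card_congr
      { toFun := fun a => ⟨⟨a.1, g.U_le_G a.2.1⟩, a.2⟩
        invFun := fun a => ⟨a.1, a.2⟩
        left_inv := fun a => rfl
        right_inv := fun a => rfl }
  · rintro ⟨x, hx⟩ hxB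
    obtain ⟨u, hu, k, hk, e⟩ := g.mem_B.1 hxB
    exact ⟨⟨u, g.U_le_G hu⟩, hu, ⟨k, g.H_le_G hk⟩, hk, Subtype.ext e⟩
  · rintro ⟨x, hx⟩ h1 h2
    have e2 : x ∈ D.posUnipotent F ⊓ D.diagonalSubgroup F := ⟨h1, h2⟩
    rw [g.U_inf_H, Subgroup.mem_bot] at e2
    exact Subtype.ext e2

end Mat

end Good3

end CfsgLib.Chev
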