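import Cfsg.Statements.S2569
import Cfsg.Agent.LibSSH13
import Cfsg.Agent.LibClsH13

set_option autoImplicit false
open Cfsg

namespace Cfsg.Agent.S2569

open Module

/-- In GL_n over a finite field of characteristic p, the conjugacy class of a semisimple element (an element of order prime to p) under the special linear group is its whole GL-conjugacy class: for every such x and every invertible g there is h of determinant one with h x h⁻¹ = g x g⁻¹. -/
theorem result {F : Type*} [Field F] [Fintype F] {p : ℕ} [Fact p.Prime] [CharP F p] {n : ℕ} (x g : GL (Fin n) F) (hx : (orderOf x).Coprime p) : ∃ h : GL (Fin n) F, (h : Matrix (Fin n) (Fin n) F).det = 1 ∧ h * x * h⁻¹ = g * x * g⁻¹ := by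
  classical
  rcases Nat.eq_zero_or_pos n with rfl | hn
  · exact ⟨g, Matrix.det_isEmpty, rfl⟩
  · haveI : Nonempty (Fin n) := ⟨⟨0, hn⟩⟩
    have hT : (Matrix.toLin' (x : Matrix (Fin n) (Fin n) F)) ^ orderOf x = 1 := by
      rw [← Matrix.toLin'_pow, ← Units.val_pow_eq_pow_val, pow_orderOf_eq_one, Units.val_one, Matrix.toLin'_one]; rfl
    obtain ⟨z, hz1, hz2⟩ := CfsgLib.SS.exists_det (p' := p) (Matrix.toLin' (x : Matrix (Fin n) (Fin n) F)) hx hT (((g : Matrix (Fin n) (Fin n) F).det)⁻¹)
    have hg0 : (g : Matrix (Fin n) (Fin n) F).det ≠ 0 := (Matrix.isUnits_det_units g).ne_zero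
    have hZd : (LinearMap.toMatrix' z).det = ((g : Matrix (Fin n) (Fin n) F).det)⁻¹ := by
      rw [← hz2, LinearMap.det_toMatrix']
    let Z : GL (Fin n) F := Matrix.GeneralLinearGroup.mkOfDetNeZero (LinearMap.toMatrix' z) (by rw [hZd]; exact inv_ne_zero hg0)
    have hZ : (Z : Matrix (Fin n) (Fin n) F) = LinearMap.toMatrix' z := rfl
    have hZx : Z * x = x * Z := by
      apply Units.ext
      rw [Units.val_mul, Units.val_mul, hZ]
      apply Matrix.toLin'.injective
      rw [Matrix.toLin'_mul, Matrix.toLin'_mul, Matrix.toLin'_toMatrix']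
      exact hz1
    refine ⟨g * Z, ?_, ?_⟩
    · rw [Units.val_mul, Matrix.det_mul, hZ, hZd, mul_inv_cancel₀ hg0]
    · rw [mul_assoc g Z x, hZx]; group

end Cfsg.Agent.S2569
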