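import Mathlib
import Cfsg.Prelude
import Cfsg.Agent.LibCPH13
import Cfsg.Agent.S2569

/-! Conjugacy in the special linear group from the characteristic polynomial; coprime action on a finite subgroup. -/

set_option autoImplicit false

namespace CfsgLib.CjSL

open Module Polynomial Cfsg.Geo
open scoped Matrix MatrixGroups

variable {F : Type*} [Field F]

theorem mem_sl {n : ℕ} {x : GL (Fin n) F} : x ∈ specialLinear (Fin n) F ↔ x.1.det = 1 := by
  rw [specialLinear, MonoidHom.mem_ker]
  constructor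
  · intro h
    exact congrArg Units.val h
  · intro h
    exact Units.ext h

theorem conj_sl [Fintype F] {p : ℕ} [Fact p.Prime] [CharP F p] {n N : ℕ} (hN : N.Coprime p) (x y : GL (Fin n) F) (hx : x.1 ^ N = 1) (hy : y.1 ^ N = 1)
    (h : x.1.charpoly = y.1.charpoly) : ∃ g ∈ specialLinear (Fin n) F, g⁻¹ * x * g = y := by
  classical
  have h1 : (Matrix.toLinAlgEquiv' (R := F) x.1) ^ N = 1 := by rw [← map_pow, hx, map_one]
  have h2 : (Matrix.toLinAlgEquiv' (R := F) y.1) ^ N = 1 := by rw [← map_pow, hy, map_one]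
  have hch : ∀ M : Matrix (Fin n) (Fin n) F, (Matrix.toLinAlgEquiv' (R := F) M).charpoly = M.charpoly := by
    intro M
    exact Matrix.charpoly_toLin' M
  obtain ⟨ψ, hψ⟩ := CfsgLib.CP.conj_of_charpoly (p := p) hN h1 hN h2 (by rw [hch, hch, h])
  let k : GL (Fin n) F := ⟨LinearMap.toMatrix' ψ.toLinearMap, LinearMap.toMatrix' ψ.symm.toLinearMap, by
    rw [← LinearMap.toMatrix'_comp]
    rw [LinearEquiv.comp_coe, LinearEquiv.symm_trans_self]; exact LinearMap.toMatrix'_id, by
    rw [← LinearMap.toMatrix'_comp]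
    rw [LinearEquiv.comp_coe, LinearEquiv.self_trans_symm]; exact LinearMap.toMatrix'_id⟩
  have hh : k.1 * x.1 = y.1 * k.1 := by
    apply Matrix.toLin'.injective
    apply LinearMap.ext
    intro u
    have h3 : ∀ w, k.1 *ᵥ w = ψ w := fun w => LinearMap.toMatrix'_mulVec _ _
    rw [Matrix.toLin'_apply, Matrix.toLin'_apply, ← Matrix.mulVec_mulVec, ← Matrix.mulVec_mulVec, h3, h3]
    exact hψ u
  have hh2 : k * x * k⁻¹ = y := by
    rw [mul_inv_eq_iff_eq_mul]
    exact Units.ext hh
  have hxn' : x ^ N = 1 := by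
    apply Units.ext
    rw [Units.val_pow_eq_pow_val]
    exact hx
  obtain ⟨h', hd, hc⟩ := Cfsg.Agent.S2569.result (p := p) x k
    (Nat.Coprime.coprime_dvd_left (orderOf_dvd_of_pow_eq_one hxn') hN)
  rw [hh2] at hc
  refine ⟨h'⁻¹, ?_, by rw [inv_inv]; exact hc⟩
  exact Subgroup.inv_mem _ (mem_sl.mpr hd)

/-- the number of fixed points of an element of order `r` normalising a finite subgroup -/
theorem card_fix {G : Type*} [Group G] (R : Subgroup G) [Finite R] (y : G) (hy : y ∈ Subgroup.normalizer (R : Set G)) {r : ℕ} [Fact r.Prime] (hyr : y ^ r = 1) :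
    Nat.card R ≡ Nat.card ((Subgroup.centralizer {y}).subgroupOf R) [MOD r] := by
  classical
  haveI : Fintype R := Fintype.ofFinite R
  have hmem : ∀ h : R, y * h.1 * y⁻¹ ∈ R := fun h => (Subgroup.mem_normalizer_iff.mp hy h.1).mp h.2
  let f : Function.End R := fun h => ⟨y * h.1 * y⁻¹, hmem h⟩
  have hf : ∀ k : ℕ, ∀ h : R, ((f ^ k) h : R).1 = y ^ k * h.1 * (y ^ k)⁻¹ := by
    intro k
    induction k with
    | zero =>
      intro h
      show h.1 = y ^ 0 * h.1 * (y ^ 0)⁻¹
      rw [pow_zero, one_mul, inv_one, mul_one]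
    | succ k ih =>
      intro h
      rw [pow_succ']
      show y * ((f ^ k) h : R).1 * y⁻¹ = _
      rw [ih, pow_succ']
      group
  have hf1 : f ^ r ^ 1 = 1 := by
    funext h
    apply Subtype.ext
    show ((f ^ r ^ 1) h : R).1 = h.1
    rw [pow_one, hf, hyr, one_mul, inv_one, mul_one]
  have h1 := Equiv.Perm.card_fixedPoints_modEq (p := r) (n := 1) hf1
  rw [← Nat.card_eq_fintype_card, ← Nat.card_eq_fintype_card] at h1
  have h2 : Nat.card (Function.fixedPoints f) = Nat.card ((Subgroup.centralizer {y}).subgroupOf R) := by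
    apply Nat.card_congr
    refine Equiv.subtypeEquivRight fun h => ?_
    show f h = h ↔ h ∈ (Subgroup.centralizer {y}).subgroupOf R
    rw [Subgroup.mem_subgroupOf, Subgroup.mem_centralizer_singleton_iff]
    constructor
    · intro h3
      have h4 : y * h.1 * y⁻¹ = h.1 := congrArg Subtype.val h3
      rw [mul_inv_eq_iff_eq_mul] at h4
      exact h4.symm
    · intro h3
      apply Subtype.ext
      show y * h.1 * y⁻¹ = h.1
      rw [mul_inv_eq_iff_eq_mul]
      exact h3.symm
  rw [h2] at h1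
  exact h1

theorem mem_normalizer_of {G : Type*} [Group G] (R : Subgroup G) [Finite R] (y : G) (h : ∀ n ∈ R, y * n * y⁻¹ ∈ R) : y ∈ Subgroup.normalizer (R : Set G) := by
  rw [Subgroup.mem_normalizer_iff]
  intro n
  refine ⟨h n, fun hn => ?_⟩
  let f : R → R := fun m => ⟨y * m.1 * y⁻¹, h m.1 m.2⟩
  have hf : Function.Injective f := by
    intro a b hab
    have h1 : y * a.1 * y⁻¹ = y * b.1 * y⁻¹ := congrArg Subtype.val hab
    exact Subtype.ext (mul_left_cancel (mul_right_cancel h1))
  obtain ⟨m, hm⟩ := Finite.surjective_of_injective hf ⟨_, hn⟩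
  have h1 : y * m.1 * y⁻¹ = y * n * y⁻¹ := congrArg Subtype.val hm
  rw [← mul_left_cancel (mul_right_cancel h1)]
  exact m.2

end CfsgLib.CjSL
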