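import Mathlib

/-! Counting functions with bounded or prescribed sum (seat helper13). -/

namespace CfsgLib.Cnt

open Finset

variable (A : Type*) [Fintype A] [DecidableEq A]

/-- functions with sum at most `N` -/
noncomputable def bd (N : ℕ) : Finset (A → ℕ) := (Finset.finsuppAntidiag (Finset.univ : Finset (Option A)) N).image (fun f a => f (some a))

/-- functions with sum exactly `N` -/
noncomputable def ex (N : ℕ) : Finset (A → ℕ) := (Finset.finsuppAntidiag (Finset.univ : Finset A) N).image (fun f a => f a)

variable {A}

theorem mem_bd {N : ℕ} {a : A → ℕ} : a ∈ bd A N ↔ ∑ x, a x ≤ N := by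
  unfold bd
  rw [Finset.mem_image]
  constructor
  · rintro ⟨f, hf, rfl⟩
    rw [Finset.mem_finsuppAntidiag, Fintype.sum_option] at hf
    simp only
    omega
  · intro h
    refine ⟨Finsupp.equivFunOnFinite.symm (fun o : Option A => Option.elim o (N - ∑ x, a x) a), ?_, ?_⟩
    · rw [Finset.mem_finsuppAntidiag, Fintype.sum_option]
      refine ⟨?_, Finset.subset_univ _⟩
      show (N - ∑ x, a x) + ∑ x, a x = N
      omega
    · funext x; rfl

theorem mem_ex {N : ℕ} {a : A → ℕ} : a ∈ ex A N ↔ ∑ x, a x = N := by
  unfold ex
  rw [Finset.mem_image]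
  constructor
  · rintro ⟨f, hf, rfl⟩
    rw [Finset.mem_finsuppAntidiag] at hf
    exact hf.1
  · intro h
    refine ⟨Finsupp.equivFunOnFinite.symm a, ?_, ?_⟩
    · rw [Finset.mem_finsuppAntidiag]
      exact ⟨h, Finset.subset_univ _⟩
    · funext x; rfl

theorem card_bd (N : ℕ) : (bd A N).card = (N + Fintype.card A).choose (Fintype.card A) := by
  unfold bd
  rw [Finset.card_image_of_injOn, Finset.card_finsuppAntidiag_nat_eq_choose, Finset.card_univ, Fintype.card_option]
  · rw [show Fintype.card A + 1 + N - 1 = N + Fintype.card A by omega]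
    exact (Nat.choose_symm_add (a := N) (b := Fintype.card A))
  · intro f hf g hg h
    rw [Finset.mem_coe, Finset.mem_finsuppAntidiag, Fintype.sum_option] at hf hg
    have h1 : ∀ x, f (some x) = g (some x) := fun x => congrFun h x
    ext o
    cases o with
    | some x => exact h1 x
    | none =>
      have h2 : ∑ x, f (some x) = ∑ x, g (some x) := Finset.sum_congr rfl fun x _ => h1 x
      omega

theorem card_ex (N : ℕ) (h : 1 ≤ Fintype.card A) : (ex A N).card = (N + Fintype.card A - 1).choose (Fintype.card A - 1) := by
  unfold ex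
  rw [Finset.card_image_of_injOn, Finset.card_finsuppAntidiag_nat_eq_choose, Finset.card_univ]
  · rw [show Fintype.card A + N - 1 = N + (Fintype.card A - 1) by omega, show N + Fintype.card A - 1 = N + (Fintype.card A - 1) by omega]
    exact (Nat.choose_symm_add (a := N) (b := Fintype.card A - 1))
  · intro f hf g hg h
    exact DFunLike.coe_injective h

theorem zero_mem_bd (N : ℕ) : (0 : A → ℕ) ∈ bd A N := by rw [mem_bd]; simp

end CfsgLib.Cnt
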