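import Cfsg.Agent.EqBase
import Mathlib
import Cfsg.Agent.LibCoX

/-!
Orbits on 11178 and 2025 vectors.
-/

set_option autoImplicit false
set_option linter.constructorNameAsVariable false

namespace CfsgLib.Co

open Cfsg CfsgLib.Golay CfsgLib.M24 CfsgLib.Leech CfsgLib.Frame MulAction

/-! ### the Higman-Sims group on 11178 vectors -/

theorem eq_of_dot {a b : LL} (ha : sqNorm (a : E) = 32) (hb : sqNorm (b : E) = 32) (h : dotInt (a : E) (b : E) = 32) : a = b := by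
  rcases norm_cases (a - b) with h1 | h1
  · exact sub_eq_zero.1 h1.2
  · rw [AddSubgroup.coe_sub, sqNorm_sub, ha, hb, h] at h1
    norm_num at h1

theorem trA (c : ℤ) (hc : c = -8 ∨ c = 0 ∨ c = 8 ∨ c = 16) :
    ∀ x ∈ SS 16, dotInt (p4m : E) (x : E) = c → ∀ y ∈ SS 16, dotInt (p4m : E) (y : E) = c → ∃ g ∈ GH, g • x = y := by
  rcases hc with rfl | rfl | rfl | rfl
  · exact trH PA (-8) 1 (Or.inl rfl) 2 vA invA (by decide) (by decide)
  · exact trH PA 0 (-1) (Or.inr rfl) 8 vA invA (by decide) (by decide)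
  · exact trH PA 8 1 (Or.inl rfl) 9 vA invA (by decide) (by decide)
  · exact trH PA 16 1 (Or.inl rfl) 5 vA invA (by decide) (by decide)

theorem cntA (c : ℤ) : {b | b ∈ SS 16 ∧ dotInt (p4m : E) (b : E) = c}.ncard =
    ∑ j ∈ Finset.univ.filter (fun j => 4 * (vA j).1 - 4 * (vA j).2.1 = c), nA j := by
  rw [PA.count (fun b => dotInt (p4m : E) (b : E) = c) (fun σ hσ b => by rw [p4m_inv, p4m_inv, inv3_inv hσ])]
  simp only [p4m_inv, invA]

theorem casesA {b : LL} (hb : b ∈ SS 16) : dotInt (p4m : E) (b : E) = 32 ∨ dotInt (p4m : E) (b : E) = -8 ∨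
    dotInt (p4m : E) (b : E) = 0 ∨ dotInt (p4m : E) (b : E) = 8 ∨ dotInt (p4m : E) (b : E) = 16 :=
  PA.all (fun b => dotInt (p4m : E) (b : E) = 32 ∨ dotInt (p4m : E) (b : E) = -8 ∨
    dotInt (p4m : E) (b : E) = 0 ∨ dotInt (p4m : E) (b : E) = 8 ∨ dotInt (p4m : E) (b : E) = 16) (fun σ hσ b => by
        rw [p4m_inv, p4m_inv, inv3_inv hσ]) (fun j => by
        rw [p4m_inv, invA]; revert j; decide) hb

theorem XA_mem (j : Fin 12) : XA j ∈ SS 16 := ⟨by rw [XA_coe]; exact (propA j).1, by rw [XA_coe]; exact (propA j).2⟩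

section

variable {u x : LL} {g : Co0} (hgu : g • u = w5) (hgx : g • x = -p4m)
include hgu hgx

theorem orbA (c : ℤ) (hc : c = -8 ∨ c = 0 ∨ c = 8 ∨ c = 16) (j : Fin 12) (hj : 4 * (vA j).1 - 4 * (vA j).2.1 = c) :
    orbit ↥(stabilizer Co0 u ⊓ stabilizer Co0 x) (g⁻¹ • (-XA j)) =
      {y : LL | -(g • y) ∈ SS 16 ∧ dotInt (p4m : E) ((-(g • y) : LL) : E) = c} := by
  have hXj : dotInt (p4m : E) (XA j : E) = c := by rw [p4m_inv, invA]; exact hj
  ext y
  constructor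
  · rintro ⟨⟨s, hs⟩, rfl⟩
    obtain ⟨s1, s2⟩ := Subgroup.mem_inf.1 hs
    have hk : g * s * g⁻¹ ∈ GH := by
      refine Subgroup.mem_inf.2 ⟨?_, ?_⟩
      · change (g * s * g⁻¹) • w5 = w5
        rw [← hgu, mul_smul, mul_smul, inv_smul_smul, mem_stabilizer_iff.1 s1]
      · change (g * s * g⁻¹) • p4m = p4m
        have h1 : p4m = g • (-x) := by rw [act_neg, hgx, neg_neg]
        rw [h1, mul_smul, mul_smul, inv_smul_smul, act_neg, mem_stabilizer_iff.1 s2]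
    have e : -(g • (s • g⁻¹ • (-XA j))) = (g * s * g⁻¹) • XA j := by
      rw [mul_smul, mul_smul, ← act_neg, ← act_neg, ← act_neg, neg_neg]
    change -(g • (s • g⁻¹ • (-XA j))) ∈ SS 16 ∧ dotInt (p4m : E) ((-(g • (s • g⁻¹ • (-XA j))) : LL) : E) = c
    rw [e]
    obtain ⟨e1, e2⟩ := GH_dot hk (XA j)
    exact ⟨⟨by rw [act_norm]; exact (XA_mem j).1, by rw [e1]; exact (XA_mem j).2⟩, by rw [e2]; exact hXj⟩
  · rintro ⟨h1, h2⟩
    obtain ⟨k, hk, h3⟩ := trA c hc (XA j) (XA_mem j) hXj _ h1 h2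
    obtain ⟨k1, k2⟩ := Subgroup.mem_inf.1 hk
    refine ⟨⟨g⁻¹ * k * g, Subgroup.mem_inf.2 ⟨?_, ?_⟩⟩, ?_⟩
    · change (g⁻¹ * k * g) • u = u
      rw [mul_smul, mul_smul, hgu, mem_stabilizer_iff.1 k1, ← hgu, inv_smul_smul]
    · change (g⁻¹ * k * g) • x = x
      rw [mul_smul, mul_smul, hgx, act_neg, mem_stabilizer_iff.1 k2, ← hgx, inv_smul_smul]
    · change (g⁻¹ * k * g) • g⁻¹ • (-XA j) = y
      rw [mul_smul, mul_smul, smul_inv_smul, act_neg, h3, neg_neg, inv_smul_smul]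

theorem orbA_card (c : ℤ) (hc : c = -8 ∨ c = 0 ∨ c = 8 ∨ c = 16) (j : Fin 12) (hj : 4 * (vA j).1 - 4 * (vA j).2.1 = c) :
    (orbit ↥(stabilizer Co0 u ⊓ stabilizer Co0 x) (g⁻¹ • (-XA j))).ncard =
      ∑ j ∈ Finset.univ.filter (fun j => 4 * (vA j).1 - 4 * (vA j).2.1 = c), nA j := by
  rw [orbA hgu hgx c hc j hj, ← cntA c]
  have h : {y : LL | -(g • y) ∈ SS 16 ∧ dotInt (p4m : E) ((-(g • y) : LL) : E) = c} =
      (fun b : LL => g⁻¹ • (-b)) '' {b | b ∈ SS 16 ∧ dotInt (p4m : E) (b : E) = c} := by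
    ext y
    constructor
    · intro hy
      exact ⟨-(g • y), hy, by
        change g⁻¹ • (- -(g • y)) = y
        rw [neg_neg, inv_smul_smul]⟩
    · rintro ⟨b, hb, rfl⟩
      change -(g • g⁻¹ • (-b)) ∈ SS 16 ∧ dotInt (p4m : E) ((-(g • g⁻¹ • (-b)) : LL) : E) = c
      rw [smul_inv_smul, neg_neg]; exact hb
  rw [h, Set.ncard_image_of_injective]
  intro a b hab
  exact neg_injective (MulAction.injective g⁻¹ hab)

end

theorem rank5 (u x : LL) (hu : sqNorm (u : E) = 48) (hx : x ∈ {x : LL | sqNorm (x : E) = 32 ∧ dotInt (u : E) (x : E) = -16}) :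
    ∃ y₁ ∈ {x : LL | sqNorm (x : E) = 32 ∧ dotInt (u : E) (x : E) = -16},
    ∃ y₂ ∈ {x : LL | sqNorm (x : E) = 32 ∧ dotInt (u : E) (x : E) = -16},
    ∃ y₃ ∈ {x : LL | sqNorm (x : E) = 32 ∧ dotInt (u : E) (x : E) = -16},
    ∃ y₄ ∈ {x : LL | sqNorm (x : E) = 32 ∧ dotInt (u : E) (x : E) = -16},
      (orbit ↥(stabilizer Co0 u ⊓ stabilizer Co0 x) y₁).ncard = 352 ∧
      (orbit ↥(stabilizer Co0 u ⊓ stabilizer Co0 x) y₂).ncard = 1100 ∧
      (orbit ↥(stabilizer Co0 u ⊓ stabilizer Co0 x) y₃).ncard = 4125 ∧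
      (orbit ↥(stabilizer Co0 u ⊓ stabilizer Co0 x) y₄).ncard = 5600 ∧
      {x : LL | sqNorm (x : E) = 32 ∧ dotInt (u : E) (x : E) = -16} =
        {x} ∪ orbit ↥(stabilizer Co0 u ⊓ stabilizer Co0 x) y₁ ∪ orbit ↥(stabilizer Co0 u ⊓ stabilizer Co0 x) y₂ ∪
          orbit ↥(stabilizer Co0 u ⊓ stabilizer Co0 x) y₃ ∪ orbit ↥(stabilizer Co0 u ⊓ stabilizer Co0 x) y₄ := by
  have hx2 : sqNorm ((-x : LL) : E) = 32 := by
    change sqNorm (-(x : E)) = 32
    rw [sqNorm_neg]; exact hx.1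
  have hx3 : dotInt (u : E) ((-x : LL) : E) = 16 := by
    change dotInt (u : E) (-(x : E)) = 16
    rw [dot_neg_right, hx.2]; norm_num
  obtain ⟨g, hgu, h2⟩ := tr_p16 u (-x) hu hx2 hx3
  have hgx : g • x = -p4m := by
    have h3 : g • (-x) = p4m := Subtype.ext h2
    rw [act_neg] at h3
    rw [← h3, neg_neg]
  have hset : ∀ y : LL, (sqNorm (y : E) = 32 ∧ dotInt (u : E) (y : E) = -16) ↔ -(g • y) ∈ SS 16 := by
    intro y
    have e1 : sqNorm ((-(g • y) : LL) : E) = sqNorm (y : E) := by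
      change sqNorm (-((g • y : LL) : E)) = _
      rw [sqNorm_neg, act_norm]
    have e2 : dotInt (w5 : E) ((-(g • y) : LL) : E) = -dotInt (u : E) (y : E) := by
      change dotInt (w5 : E) (-((g • y : LL) : E)) = _
      rw [dot_neg_right, ← hgu, act_dot]
    rw [SS, Set.mem_ofPred_eq, e1, e2]
    constructor
    · rintro ⟨a, b⟩; exact ⟨a, by omega⟩
    · rintro ⟨a, b⟩; exact ⟨a, by omega⟩
  have hy : ∀ j, g⁻¹ • (-XA j) ∈ {x : LL | sqNorm (x : E) = 32 ∧ dotInt (u : E) (x : E) = -16} := by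
    intro j
    rw [Set.mem_ofPred_eq, hset, smul_inv_smul, neg_neg]
    exact XA_mem j
  refine ⟨_, hy 2, _, hy 1, _, hy 8, _, hy 9, ?_, ?_, ?_, ?_, ?_⟩
  · rw [orbA_card hgu hgx (-8) (by norm_num) 2 (by decide)]; decide
  · rw [orbA_card hgu hgx 16 (by norm_num) 1 (by decide)]; decide
  · rw [orbA_card hgu hgx 0 (by norm_num) 8 (by decide)]; decide
  · rw [orbA_card hgu hgx 8 (by norm_num) 9 (by decide)]; decide
  · rw [orbA hgu hgx (-8) (by norm_num) 2 (by decide), orbA hgu hgx 16 (by norm_num) 1 (by decide),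
      orbA hgu hgx 0 (by norm_num) 8 (by decide), orbA hgu hgx 8 (by norm_num) 9 (by decide)]
    ext y
    rw [Set.mem_ofPred_eq, hset]
    constructor
    · intro h
      rcases casesA h with h1 | h1 | h1 | h1 | h1
      · left; left; left; left
        have h3 := eq_of_dot p4m_norm h.1 h1
        have h4 : g • x = g • y := by rw [hgx, h3, neg_neg]
        exact (MulAction.injective g h4).symm
      · left; left; left; right; exact ⟨h, h1⟩
      · left; right; exact ⟨h, h1⟩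
      · right; exact ⟨h, h1⟩
      · left; left; right; exact ⟨h, h1⟩
    · rintro ((((rfl | h) | h) | h) | h)
      · rw [hgx, neg_neg]; exact ⟨p4m_norm, w5_p4m⟩
      · exact h.1
      · exact h.1
      · exact h.1
      · exact h.1


/-! ### the McLaughlin group on 2025 vectors -/

theorem w5_p4m' : p4m ∈ SS 16 ∧ dotInt (p44 : E) (p4m : E) = 0 := by
  refine ⟨⟨p4m_norm, w5_p4m⟩, ?_⟩
  rw [p44_inv, inv3]
  change 4 * P none pz 4 (-4) none + 4 * P none pz 4 (-4) pz = 0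
  rw [P_left nz, P_right nz]; norm_num

theorem p44_add_p4m : p44 + p4m = e8 none := by
  apply Subtype.ext
  funext k
  change P none pz 4 4 k + P none pz 4 (-4) k = (Pi.single none 8 : E) k
  rw [P_apply, P_apply, Pi.single_apply]
  split_ifs <;> norm_num

theorem cntR : {b | b ∈ SS 16 ∧ dotInt (p44 : E) (b : E) = 0}.ncard = 2025 := by
  rw [PA.count (fun b => dotInt (p44 : E) (b : E) = 0) (fun σ hσ b => by rw [p44_inv, p44_inv, inv3_inv hσ])]
  simp only [p44_inv, invA]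
  decide

theorem mem_three (g : Co0) : (g • w5 = w5 ∧ g • p44 = p44 ∧ g • p4m = p4m) ↔ ∃ σ ∈ D2, g = pm σ := by
  constructor
  · rintro ⟨h1, h2, h3⟩
    have h4 : g • e8 none = e8 none := by rw [← p44_add_p4m, act_add, h2, h3]
    have h5 : g ∈ stabilizer Co0 (e8 none) ⊓ (stabilizer Co0 w5 ⊓ stabilizer Co0 (PL none pz (Or.inl rfl : (4 : ℤ) = 4 ∨ (4 : ℤ) = -4) (Or.inl rfl))) :=
      Subgroup.mem_inf.2 ⟨h4, Subgroup.mem_inf.2 ⟨h1, h2⟩⟩
    rw [stab_eq2 nz (Or.inl rfl)] at h5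
    obtain ⟨σ, hσ, h6⟩ := h5
    exact ⟨σ, hσ, h6.symm⟩
  · rintro ⟨σ, hσ, rfl⟩
    exact ⟨pm_w5 (D2_none hσ), D2_p44 hσ, D2_p4m hσ⟩

/-- transitivity on the 2025 vectors -/
theorem trR {b : LL} (hb : b ∈ SS 16) (h0 : dotInt (p44 : E) (b : E) = 0) : ∃ k ∈ GM, k • p4m = b := by
  have h1 : (orbit GM p4m).ncard * 443520 = 898128000 := by
    have e1 := (stabilizer GM p4m).index_mul_card
    rw [index_stabilizer] at e1
    have e2 : Nat.card (stabilizer GM p4m) = 443520 := by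
      rw [← card_D2, ← card_map (D := D2)]
      refine Nat.card_congr ⟨fun g => ⟨g.1.1, ?_⟩, fun g => ⟨⟨g.1, ?_⟩, ?_⟩, fun g => ?_, fun g => ?_⟩
      · obtain ⟨σ, hσ, h⟩ := (mem_three g.1.1).1 ⟨(Subgroup.mem_inf.1 g.1.2).1, (Subgroup.mem_inf.1 g.1.2).2, g.2⟩
        exact ⟨σ, hσ, h.symm⟩
      · obtain ⟨σ, hσ, h⟩ := g.2
        rw [← h]; exact D2_GM hσ
      · obtain ⟨σ, hσ, h⟩ := g.2
        change g.1 • p4m = p4m
        rw [← h]; exact D2_p4m hσ
      · rfl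
      · rfl
    have e3 : Nat.card GM = 898128000 := card_McL
    rw [e2, e3] at e1
    exact e1
  have h2 : (orbit GM p4m).ncard = 2025 := Nat.eq_of_mul_eq_mul_right (by norm_num : 0 < 443520) (h1.trans (by norm_num))
  have h3 : orbit GM p4m = {b | b ∈ SS 16 ∧ dotInt (p44 : E) (b : E) = 0} := by
    apply Set.eq_of_subset_of_ncard_le
    · rintro _ ⟨⟨k, hk⟩, rfl⟩
      obtain ⟨e1, e2⟩ := GM_dot hk p4m
      exact ⟨⟨by
        change sqNorm ((k • p4m : LL) : E) = 32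
        rw [act_norm]; exact p4m_norm, by
        change dotInt (w5 : E) ((k • p4m : LL) : E) = 16
        rw [e1]; exact w5_p4m⟩, by
        change dotInt (p44 : E) ((k • p4m : LL) : E) = 0
        rw [e2]; exact w5_p4m'.2⟩
    · rw [h2, cntR]
    · exact (SS_fin 16).subset fun b hb => hb.1
  have h4 : b ∈ orbit GM p4m := by rw [h3]; exact ⟨hb, h0⟩
  obtain ⟨⟨k, hk⟩, h5⟩ := h4
  exact ⟨k, hk, h5⟩

theorem vA_inj : Function.Injective vA := by
  have : ∀ i j, vA i = vA j → i = j := by decide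
  exact fun i j => this i j

theorem orbD2 (j : Fin 12) : {b : LL | ∃ σ ∈ D2, pm σ • XA j = b}.ncard = nA j := by
  have h : {b : LL | ∃ σ ∈ D2, pm σ • XA j = b} = {b | b ∈ SS 16 ∧ inv3 b = vA j} := by
    ext b
    constructor
    · rintro ⟨σ, hσ, rfl⟩
      exact ⟨SS_D2 _ hσ _ (XA_mem j), by rw [inv3_inv hσ, invA]⟩
    · rintro ⟨h1, h2⟩
      exact PA.one (fun b => inv3 b = vA j) (fun σ hσ b => by rw [inv3_inv hσ]) j (fun i hi => by
        rw [invA] at hi; exact vA_inj hi) (XA_mem j) h1 (invA j) h2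
  rw [h, PA.count (fun b => inv3 b = vA j) (fun σ hσ b => by rw [inv3_inv hσ])]
  simp only [invA]
  have : (Finset.univ.filter fun i => vA i = vA j) = {j} := by
    ext i
    rw [Finset.mem_filter, Finset.mem_singleton]
    exact ⟨fun h => vA_inj h.2, fun h => ⟨Finset.mem_univ _, by rw [h]⟩⟩
  rw [this, Finset.sum_singleton]

theorem m2025 (v w : LL) (hv : sqNorm (v : E) = 32) (hw : sqNorm (w : E) = 32) (hvw : dotInt (v : E) (w : E) = -8) :
    {x : LL | sqNorm (x : E) = 32 ∧ dotInt (v : E) (x : E) = 0 ∧ dotInt (w : E) (x : E) = 16}.ncard = 2025 ∧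
    (∀ x ∈ {x : LL | sqNorm (x : E) = 32 ∧ dotInt (v : E) (x : E) = 0 ∧ dotInt (w : E) (x : E) = 16},
      ∀ x' ∈ {x : LL | sqNorm (x : E) = 32 ∧ dotInt (v : E) (x : E) = 0 ∧ dotInt (w : E) (x : E) = 16},
        ∃ g : Co0, g • v = v ∧ g • w = w ∧ g • x = x') ∧
    ∀ x ∈ {x : LL | sqNorm (x : E) = 32 ∧ dotInt (v : E) (x : E) = 0 ∧ dotInt (w : E) (x : E) = 16},
      ∃ y₁ ∈ {x : LL | sqNorm (x : E) = 32 ∧ dotInt (v : E) (x : E) = 0 ∧ dotInt (w : E) (x : E) = 16},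
      ∃ y₂ ∈ {x : LL | sqNorm (x : E) = 32 ∧ dotInt (v : E) (x : E) = 0 ∧ dotInt (w : E) (x : E) = 16},
      ∃ y₃ ∈ {x : LL | sqNorm (x : E) = 32 ∧ dotInt (v : E) (x : E) = 0 ∧ dotInt (w : E) (x : E) = 16},
        (orbit ↥(stabilizer Co0 v ⊓ stabilizer Co0 w ⊓ stabilizer Co0 x) y₁).ncard = 330 ∧
        (orbit ↥(stabilizer Co0 v ⊓ stabilizer Co0 w ⊓ stabilizer Co0 x) y₂).ncard = 462 ∧
        (orbit ↥(stabilizer Co0 v ⊓ stabilizer Co0 w ⊓ stabilizer Co0 x) y₃).ncard = 1232 := by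
  obtain ⟨g, h2, h1⟩ := tr_m8 v w hv hw hvw
  have h1' : g • (v + w) = w5 := Subtype.ext h1
  have h2' : g • v = p44 := Subtype.ext h2
  have h3' : g • w = w5 - p44 := by
    rw [act_add, h2'] at h1'
    rw [← h1']; abel
  have hset : ∀ x : LL, (sqNorm (x : E) = 32 ∧ dotInt (v : E) (x : E) = 0 ∧ dotInt (w : E) (x : E) = 16) ↔
      (g • x ∈ SS 16 ∧ dotInt (p44 : E) ((g • x : LL) : E) = 0) := by
    intro x
    rw [← act_dot g v x, ← act_dot g w x, h2', h3', SS, Set.mem_ofPred_eq, act_norm, AddSubgroup.coe_sub, dot_sub_left]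
    constructor
    · rintro ⟨a, b, c⟩; exact ⟨⟨a, by omega⟩, b⟩
    · rintro ⟨⟨a, b⟩, c⟩; exact ⟨a, c, by omega⟩
  refine ⟨?_, ?_, ?_⟩
  · rw [show {x : LL | sqNorm (x : E) = 32 ∧ dotInt (v : E) (x : E) = 0 ∧ dotInt (w : E) (x : E) = 16} =
      {x : LL | g • x ∈ SS 16 ∧ dotInt (p44 : E) ((g • x : LL) : E) = 0} from Set.ext hset,
      ncard_tr g (fun y => y ∈ SS 16 ∧ dotInt (p44 : E) (y : E) = 0), cntR]
  · intro x hx x' hx'
    have hx1 := (hset x).1 hx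
    have hx2 := (hset x').1 hx'
    obtain ⟨k, hk, e1⟩ := trR hx1.1 hx1.2
    obtain ⟨k', hk', e2⟩ := trR hx2.1 hx2.2
    have k1 := mem_stabilizer_iff.1 (Subgroup.mem_inf.1 hk).1
    have k2 := mem_stabilizer_iff.1 (Subgroup.mem_inf.1 hk).2
    have k1' := mem_stabilizer_iff.1 (Subgroup.mem_inf.1 hk').1
    have k2' := mem_stabilizer_iff.1 (Subgroup.mem_inf.1 hk').2
    have l1 : k⁻¹ • w5 = w5 := by rw [inv_smul_eq_iff, k1]
    have l2 : k⁻¹ • p44 = p44 := by rw [inv_smul_eq_iff, k2]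
    refine ⟨g⁻¹ * k' * k⁻¹ * g, ?_, ?_, ?_⟩
    · rw [mul_smul, mul_smul, mul_smul, h2', l2, k2', ← h2', inv_smul_smul]
    · rw [mul_smul, mul_smul, mul_smul, h3', act_sub, l1, l2, act_sub, k1', k2', ← h3', inv_smul_smul]
    · rw [mul_smul, mul_smul, mul_smul, ← e1, inv_smul_smul, e2, inv_smul_smul]
  · intro x hx
    have hx1 := (hset x).1 hx
    obtain ⟨k, hk, e1⟩ := trR hx1.1 hx1.2
    have k1 := mem_stabilizer_iff.1 (Subgroup.mem_inf.1 hk).1
    have k2 := mem_stabilizer_iff.1 (Subgroup.mem_inf.1 hk).2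
    set G : Co0 := k⁻¹ * g with hG
    have G1 : G • v = p44 := by rw [hG, mul_smul, h2', inv_smul_eq_iff, k2]
    have G2 : G • w = w5 - p44 := by rw [hG, mul_smul, h3', inv_smul_eq_iff, act_sub, k1, k2]
    have G3 : G • x = p4m := by rw [hG, mul_smul, inv_smul_eq_iff, e1]
    have hset' : ∀ x : LL, (sqNorm (x : E) = 32 ∧ dotInt (v : E) (x : E) = 0 ∧ dotInt (w : E) (x : E) = 16) ↔
        (G • x ∈ SS 16 ∧ dotInt (p44 : E) ((G • x : LL) : E) = 0) := by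
      intro x
      rw [← act_dot G v x, ← act_dot G w x, G1, G2, SS, Set.mem_ofPred_eq, act_norm, AddSubgroup.coe_sub, dot_sub_left]
      constructor
      · rintro ⟨a, b, c⟩; exact ⟨⟨a, by omega⟩, b⟩
      · rintro ⟨⟨a, b⟩, c⟩; exact ⟨a, c, by omega⟩
    have hy : ∀ j, 4 * (vA j).1 + 4 * (vA j).2.1 = 0 → G⁻¹ • XA j ∈
        {x : LL | sqNorm (x : E) = 32 ∧ dotInt (v : E) (x : E) = 0 ∧ dotInt (w : E) (x : E) = 16} := by
      intro j hj
      rw [Set.mem_ofPred_eq, hset', smul_inv_smul]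
      exact ⟨XA_mem j, by rw [p44_inv, invA]; exact hj⟩
    have horb : ∀ j, (orbit ↥(stabilizer Co0 v ⊓ stabilizer Co0 w ⊓ stabilizer Co0 x) (G⁻¹ • XA j)).ncard = nA j := by
      intro j
      rw [← orbD2 j]
      have e : orbit ↥(stabilizer Co0 v ⊓ stabilizer Co0 w ⊓ stabilizer Co0 x) (G⁻¹ • XA j) =
          (fun b : LL => G⁻¹ • b) '' {b : LL | ∃ σ ∈ D2, pm σ • XA j = b} := by
        ext y
        constructor
        · rintro ⟨⟨s, hs⟩, rfl⟩
          obtain ⟨s12, s3⟩ := Subgroup.mem_inf.1 hs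
          obtain ⟨s1, s2⟩ := Subgroup.mem_inf.1 s12
          have t1 : (G * s * G⁻¹) • p44 = p44 := by
            rw [← G1, mul_smul, mul_smul, inv_smul_smul, mem_stabilizer_iff.1 s1]
          have t2 : (G * s * G⁻¹) • (w5 - p44) = w5 - p44 := by
            rw [← G2, mul_smul, mul_smul, inv_smul_smul, mem_stabilizer_iff.1 s2]
          have t3 : (G * s * G⁻¹) • p4m = p4m := by
            rw [← G3, mul_smul, mul_smul, inv_smul_smul, mem_stabilizer_iff.1 s3]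
          have t4 : (G * s * G⁻¹) • w5 = w5 := by
            rw [act_sub, t1] at t2
            exact sub_left_injective t2
          obtain ⟨σ, hσ, hs'⟩ := (mem_three _).1 ⟨t4, t1, t3⟩
          refine ⟨pm σ • XA j, ⟨σ, hσ, rfl⟩, ?_⟩
          change G⁻¹ • pm σ • XA j = s • G⁻¹ • XA j
          rw [← hs', mul_smul, mul_smul, inv_smul_smul]
        · rintro ⟨_, ⟨σ, hσ, rfl⟩, rfl⟩
          obtain ⟨t1, t2, t3⟩ := (mem_three _).2 ⟨σ, hσ, rfl⟩
          refine ⟨⟨G⁻¹ * pm σ * G, Subgroup.mem_inf.2 ⟨Subgroup.mem_inf.2 ⟨?_, ?_⟩, ?_⟩⟩, ?_⟩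
          · change (G⁻¹ * pm σ * G) • v = v
            rw [mul_smul, mul_smul, G1, t2, ← G1, inv_smul_smul]
          · change (G⁻¹ * pm σ * G) • w = w
            rw [mul_smul, mul_smul, G2, act_sub, t1, t2, ← G2, inv_smul_smul]
          · change (G⁻¹ * pm σ * G) • x = x
            rw [mul_smul, mul_smul, G3, t3, ← G3, inv_smul_smul]
          · change (G⁻¹ * pm σ * G) • G⁻¹ • XA j = G⁻¹ • pm σ • XA j
            rw [mul_smul, mul_smul, smul_inv_smul]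
      rw [e, Set.ncard_image_of_injective _ (MulAction.injective G⁻¹)]
    exact ⟨_, hy 4 (by decide), _, hy 5 (by decide), _, hy 9 (by decide), by rw [horb]; rfl, by rw [horb]; rfl, by rw [horb]; rfl⟩

end CfsgLib.Co
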