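import Cfsg.Agent.EqBase
import Mathlib
import Cfsg.Agent.LibCoY

/-!
Rank three on 275 vectors.
-/

set_option autoImplicit false
set_option linter.constructorNameAsVariable false

namespace CfsgLib.Co

open Cfsg CfsgLib.Golay CfsgLib.M24 CfsgLib.Leech CfsgLib.Frame MulAction

/-- `(4, 0, 4, 0, ...)` -/
def p45 : LL := PL none po (Or.inl rfl : (4 : ℤ) = 4 ∨ (4 : ℤ) = -4) (Or.inl rfl : (4 : ℤ) = 4 ∨ (4 : ℤ) = -4)

theorem p45_coe : (p45 : E) = P none po 4 4 := rfl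
theorem p45_norm : sqNorm (p45 : E) = 32 := norm_PL no _ _

theorem dot_p45 (b : LL) : dotInt (p45 : E) (b : E) = 4 * (b : E) none + 4 * (b : E) po := by
  rw [p45_coe, dot_P_left]

theorem D3_p45 {σ : M24} (h : σ ∈ D3) : pm σ • p45 = p45 := (pm_P σ (D2_none (D3_D2 h)) no (Or.inl rfl)).2 (D3_po h)

theorem D3_inv {σ : M24} (h : σ ∈ D3) (b : LL) : ((pm σ • b : LL) : E) po = (b : E) po := by
  have e1 : (σ : Equiv.Perm GolayPt)⁻¹ po = po := by rw [Equiv.Perm.inv_eq_iff_eq]; exact (D3_po h).symm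
  rw [pm_apply, e1]

/-- the stabiliser of the three vectors -/
def GU : Subgroup Co0 := GM ⊓ stabilizer Co0 p45

theorem D3_GU {σ : M24} (h : σ ∈ D3) : pm σ ∈ GU := Subgroup.mem_inf.2 ⟨D2_GM (D3_D2 h), D3_p45 h⟩

theorem m24_four {a b c d d' : GolayPt} (hab : a ≠ b) (hac : a ≠ c) (had : a ≠ d) (hbc : b ≠ c) (hbd : b ≠ d) (hcd : c ≠ d)
    (had' : a ≠ d') (hbd' : b ≠ d') (hcd' : c ≠ d') : ∃ σ ∈ M24, σ a = a ∧ σ b = b ∧ σ c = c ∧ σ d = d' := by
  obtain ⟨x, hx⟩ := exists_emb (s := {0, 1, 2, 3}) ![a, b, c, d, a] (by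
    intro i hi j hj h
    fin_cases i <;> fin_cases j <;> simp_all)
  obtain ⟨y, hy⟩ := exists_emb (s := {0, 1, 2, 3}) ![a, b, c, d', a] (by
    intro i hi j hj h
    fin_cases i <;> fin_cases j <;> simp_all)
  obtain ⟨σ, hσ, h⟩ := m24_trans x y
  refine ⟨σ, hσ, ?_, ?_, ?_, ?_⟩
  · have := h 0
    rw [hx 0 (by decide), hy 0 (by decide)] at this
    exact this
  · have := h 1
    rw [hx 1 (by decide), hy 1 (by decide)] at this
    exact this
  · have := h 2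
    rw [hx 2 (by decide), hy 2 (by decide)] at this
    exact this
  · have := h 3
    rw [hx 3 (by decide), hy 3 (by decide)] at this
    exact this

/-- the fourth base point -/
def pw : GolayPt := some 2

theorem fix_D3 {w : LL} (h : ∀ σ ∈ D3, pm σ • w = w) : ∀ k, k ≠ none → k ≠ pz → k ≠ po → (w : E) k = (w : E) pw := by
  intro k h1 h2 h3
  obtain ⟨σ, hσ, e1, e2, e3, e4⟩ := m24_four (d := pw) (d' := k) nz no (by decide) zo (by decide) (by decide) h1.symm h2.symm h3.symm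
  have h3 := h ⟨σ, hσ⟩ (Subgroup.mem_inf.2 ⟨Subgroup.mem_inf.2 ⟨e1, e2⟩, e3⟩)
  have h4 : ((pm ⟨σ, hσ⟩ • w : LL) : E) k = (w : E) k := by rw [h3]
  rw [pm_apply] at h4
  have e5 : σ⁻¹ k = pw := by rw [Equiv.Perm.inv_eq_iff_eq, e4]
  change (w : E) (σ⁻¹ k) = (w : E) k at h4
  rw [← h4, e5]

theorem sum_D3 {w : LL} (h : ∀ k, k ≠ none → k ≠ pz → k ≠ po → (w : E) k = (w : E) pw) :
    ∑ k, (w : E) k = (w : E) none + (w : E) pz + (w : E) po + 21 * (w : E) pw := by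
  rw [Fintype.sum_option, ← Finset.add_sum_erase _ _ (Finset.mem_univ (0 : ZMod 23)),
    ← Finset.add_sum_erase _ _ (Finset.mem_erase.2 ⟨(by decide : (1 : ZMod 23) ≠ 0), Finset.mem_univ (1 : ZMod 23)⟩)]
  have h1 : ∑ k ∈ (Finset.univ.erase (0 : ZMod 23)).erase 1, (w : E) (some k) =
      ∑ k ∈ (Finset.univ.erase (0 : ZMod 23)).erase 1, (w : E) pw :=
    Finset.sum_congr rfl fun k hk => h (some k) (by simp) (by
      intro h2
      exact (Finset.mem_erase.1 (Finset.mem_erase.1 hk).2).1 (Option.some_injective _ h2)) (by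
      intro h2
      exact (Finset.mem_erase.1 hk).1 (Option.some_injective _ h2))
  have hc : ((Finset.univ.erase (0 : ZMod 23)).erase 1).card = 21 := by decide
  rw [h1, Finset.sum_const, hc, nsmul_eq_mul]
  change (w : E) none + ((w : E) pz + ((w : E) po + ((21 : ℕ) : ℤ) * (w : E) pw)) = _
  norm_num
  ring

/-! ### an explicit element -/

/-- code of an auxiliary vector -/
def cX : ℕ := 52777510931829226794763454630

theorem cX_lam : dec cX ∈ Lam := lam_of_chkL (m := 0) (k0 := 2087) (by decide +kernel)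

/-- auxiliary vector -/
def vX : LL := ⟨dec cX, mem_LL.2 cX_lam⟩

theorem vX_norm : sqNorm (vX : E) = 32 := by
  change sqNorm (dec cX) = 32
  decide +kernel

theorem vX_dot : dotInt W5 (dec cX) = 16 ∧ dotInt (P none pz 4 4) (dec cX) = 0 ∧ dotInt (P none po 4 4) (dec cX) = 16 ∧
    dotInt (dec (eC (stC 13))) (dec cX) = 16 ∧ dotInt (dec (eC (stC 13))) (P none pz 4 4) = 16 ∧
    dotInt (dec (eC (stC 13))) (P none po 4 4) = 16 := by decide +kernel

theorem p_of {z : LL} (hz : sqNorm (z : E) = 32) (h4 : (z : E) none = 4) (h24 : dotInt (w5 : E) (z : E) = 24) :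
    ∃ a, none ≠ a ∧ (z : E) = P none a 4 4 := by
  obtain ⟨a, t, ha, ht, h⟩ := shape4 (mem_LL.1 z.2) hz (Or.inl rfl) h4
  rw [h, dot_P_right, w5_coe, W5_none, W5_other (Ne.symm ha)] at h24
  have : t = 4 := by omega
  subst this
  exact ⟨a, ha, h⟩

theorem P_dot {a b : GolayPt} (ha : none ≠ a) (hb : none ≠ b) (h : dotInt (P none a 4 4) (P none b 4 4) = 16) : a ≠ b := by
  rintro rfl
  rw [← sqNorm_dot, norm_P ha] at h
  norm_num at h

theorem pm_P' {σ : Equiv.Perm GolayPt} (hσ : σ ∈ M24) (hn : σ none = none) {z : LL} {a : GolayPt} (hz : (z : E) = P none a 4 4) :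
    ((pm ⟨σ, hσ⟩ • z : LL) : E) = P none (σ a) 4 4 := by
  have hn' : σ⁻¹ none = none := by rw [Equiv.Perm.inv_eq_iff_eq, hn]
  funext k
  rw [pm_apply, hz, P_apply, P_apply]
  change ((if σ⁻¹ k = none then (4 : ℤ) else 0) + if σ⁻¹ k = a then 4 else 0) = _
  have e1 : (σ⁻¹ k = none) ↔ k = none := by rw [Equiv.Perm.inv_eq_iff_eq, hn]
  have e2 : (σ⁻¹ k = a) ↔ k = σ a := by rw [Equiv.Perm.inv_eq_iff_eq]
  simp only [e1, e2]

theorem exists_h : ∃ h ∈ GU, ∃ c, c ≠ none ∧ c ≠ pz ∧ c ≠ po ∧ ((h • XC 13 : LL) : E) = P none c 4 4 ∧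
    h • e8 none ≠ e8 none := by
  obtain ⟨d1, d2, d3, d4, d5, d6⟩ := vX_dot
  have hy0 : (XC 13 : E) = dec (eC (stC 13)) := XC_coe 13
  have e44 : dotInt (p44 : E) (vX : E) = 0 := d2
  have e45 : dotInt (p45 : E) (vX : E) = 16 := d3
  have e5 : dotInt (w5 : E) (vX : E) = 16 := d1
  have ey : dotInt (XC 13 : E) (vX : E) = 16 := by rw [hy0]; exact d4
  have ey4 : dotInt (XC 13 : E) (p44 : E) = 16 := by rw [hy0]; exact d5
  have ey5 : dotInt (XC 13 : E) (p45 : E) = 16 := by rw [hy0]; exact d6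
  have e4445 : dotInt (p44 : E) (p45 : E) = 16 := by
    rw [dot_comm, dot_p45]
    change 4 * P none pz 4 4 none + 4 * P none pz 4 4 po = 16
    rw [P_left nz, P_other (Ne.symm no) (Ne.symm zo)]; norm_num
  have ew45 : dotInt (w5 : E) (p45 : E) = 24 := by
    rw [dot_comm, dot_p45, w5_coe, W5_none, W5_other (Ne.symm no)]; norm_num
  have hyn : sqNorm (XC 13 : E) = 32 ∧ dotInt (w5 : E) (XC 13 : E) = 24 := by rw [hy0]; exact propC 13
  set f : LL := p44 + vX with hf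
  have hfn : sqNorm (f : E) = 64 := by
    rw [hf, AddSubgroup.coe_add, sqNorm_add, p44_norm, vX_norm, e44]; norm_num
  obtain ⟨g, g1, g2⟩ := std_uf w5 f W5_norm hfn (by rw [hf, AddSubgroup.coe_add, dot_add_right, w5_p44, e5]; norm_num)
  have key : ∀ z : LL, sqNorm (z : E) = 32 → dotInt (w5 : E) (z : E) = 24 → dotInt (z : E) (f : E) = 32 →
      ∃ a, none ≠ a ∧ ((g • z : LL) : E) = P none a 4 4 := by
    intro z hz h24 h32
    apply p_of
    · rw [act_norm, hz]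
    · have := act_dot g z f
      rw [g1, dot_e8, h32] at this
      omega
    · have := act_dot g w5 z
      rw [g2] at this
      rw [this, h24]
  obtain ⟨a, ha, ha'⟩ := key p44 p44_norm w5_p44 (by
    rw [hf, AddSubgroup.coe_add, dot_add_right, e44, ← sqNorm_dot, p44_norm]; norm_num)
  obtain ⟨b, hb, hb'⟩ := key p45 p45_norm ew45 (by
    rw [hf, AddSubgroup.coe_add, dot_add_right, e45, dot_comm, e4445]; norm_num)
  obtain ⟨c, hc, hc'⟩ := key (XC 13) hyn.1 hyn.2 (by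
    rw [hf, AddSubgroup.coe_add, dot_add_right, ey, ey4]; norm_num)
  have hab : a ≠ b := P_dot ha hb (by rw [← ha', ← hb', act_dot, e4445])
  have hca : c ≠ a := P_dot hc ha (by rw [← ha', ← hc', act_dot, ey4])
  have hcb : c ≠ b := P_dot hc hb (by rw [← hb', ← hc', act_dot, ey5])
  obtain ⟨σ, hσ, s1, s2, s3⟩ := m24_three ha hb hab nz no zo
  have h5 : pm ⟨σ, hσ⟩ • w5 = w5 := pm_w5 s1
  refine ⟨pm ⟨σ, hσ⟩ * g, Subgroup.mem_inf.2 ⟨Subgroup.mem_inf.2 ⟨?_, ?_⟩, ?_⟩, σ c, ?_, ?_, ?_, ?_, ?_⟩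
  · change (pm ⟨σ, hσ⟩ * g) • w5 = w5
    rw [mul_smul, g2, h5]
  · change (pm ⟨σ, hσ⟩ * g) • p44 = p44
    apply Subtype.ext
    rw [mul_smul, pm_P' hσ s1 ha', s2]; rfl
  · change (pm ⟨σ, hσ⟩ * g) • p45 = p45
    apply Subtype.ext
    rw [mul_smul, pm_P' hσ s1 hb', s3]; rfl
  · intro h; exact hc (σ.injective (s1.trans h.symm))
  · intro h; exact hca (σ.injective (h.trans s2.symm))
  · intro h; exact hcb (σ.injective (h.trans s3.symm))
  · rw [mul_smul, pm_P' hσ s1 hc']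
  · intro h
    have h6 : (pm ⟨σ, hσ⟩ * g) • f = e8 none := by rw [mul_smul, g1, pm_e8 s1]
    have h7 : e8 none = f := MulAction.injective (pm ⟨σ, hσ⟩ * g) (h.trans h6.symm)
    have h9 : (vX : E) none = 2 := by
      change dec cX none = 2
      decide +kernel
    have h10 := congrFun (congrArg Subtype.val h7) none
    change (Pi.single none 8 : E) none = P none pz 4 4 none + (vX : E) none at h10
    rw [Pi.single_eq_same, P_left nz, h9] at h10
    norm_num at h10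


/-! ### the fixed vectors -/

theorem GU_not : ¬ ∀ g ∈ GU, g • e8 none = e8 none := by
  intro h
  obtain ⟨k, hk, _, _, _, _, _, h1⟩ := exists_h
  exact h1 (h k hk)

theorem fixU (w : LL) (h : ∀ g ∈ GU, g • w = w) : lin 8 (-6) (-6) (-1) w = 0 := by
  have h1 := fix_D3 fun σ hσ => h _ (D3_GU hσ)
  have h2 := sum_D3 h1
  by_contra hne
  apply GU_not
  intro g hg
  apply fixes_e8 (N := (w : E) none - (w : E) pz - (w : E) po - 3 * (w : E) pw)
  · intro h0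
    apply hne
    rw [lin_apply, h2]
    linear_combination 7 * h0
  · have e : ((w : E) none - (w : E) pz - (w : E) po - 3 * (w : E) pw) • e8 none =
        (8 : ℤ) • w - (8 * (w : E) pw) • w5 - (2 * ((w : E) pz - (w : E) pw)) • p44 - (2 * ((w : E) po - (w : E) pw)) • p45 := by
      apply Subtype.ext
      funext k
      change ((w : E) none - (w : E) pz - (w : E) po - 3 * (w : E) pw) * (Pi.single none 8 : E) k =
        8 * (w : E) k - (8 * (w : E) pw) * W5 k - (2 * ((w : E) pz - (w : E) pw)) * P none pz 4 4 k -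
          (2 * ((w : E) po - (w : E) pw)) * P none po 4 4 k
      rw [P_apply, P_apply, Pi.single_apply]
      by_cases h3 : k = none
      · rw [if_pos h3, if_pos h3, h3, if_neg nz, if_neg no, W5_none]; ring
      · by_cases h4 : k = pz
        · rw [if_neg h3, if_neg h3, h4, if_pos rfl, if_neg zo, W5_other (Ne.symm nz)]; ring
        · by_cases h5 : k = po
          · rw [if_neg h3, if_neg h3, h5, if_neg (Ne.symm zo), if_pos rfl, W5_other (Ne.symm no)]; ring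
          · rw [if_neg h3, if_neg h3, if_neg h4, if_neg h5, W5_other h3, h1 k h3 h4 h5]; ring
    obtain ⟨hm, h45⟩ := Subgroup.mem_inf.1 hg
    rw [e, act_sub, act_sub, act_sub, act_zsmul, act_zsmul, act_zsmul, act_zsmul, h g hg, mem_stabilizer_iff.1 (Subgroup.mem_inf.1 hm).1,
      mem_stabilizer_iff.1 (Subgroup.mem_inf.1 hm).2, mem_stabilizer_iff.1 h45]

theorem GU_dot {g : Co0} (hg : g ∈ GU) (x : LL) : dotInt (w5 : E) ((g • x : LL) : E) = dotInt (w5 : E) (x : E) ∧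
    dotInt (p44 : E) ((g • x : LL) : E) = dotInt (p44 : E) (x : E) ∧
    dotInt (p45 : E) ((g • x : LL) : E) = dotInt (p45 : E) (x : E) := by
  obtain ⟨hm, h45⟩ := Subgroup.mem_inf.1 hg
  obtain ⟨e1, e2⟩ := GM_dot hm x
  have h3 := act_dot g p45 x
  rw [mem_stabilizer_iff.1 h45] at h3
  exact ⟨e1, e2, h3⟩

/-- invariants -/
def inv4 (b : LL) : (ℤ × ℤ × ℤ) × ℤ := (inv3 b, (b : E) po)

theorem inv4_inv {σ : M24} (h : σ ∈ D3) (b : LL) : inv4 (pm σ • b) = inv4 b := by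
  rw [inv4, inv4, inv3_inv (D3_D2 h), D3_inv h]

/-- values -/
def wC (j : Fin 14) : (ℤ × ℤ × ℤ) × ℤ := (vC j, vC' j)

theorem inv4C (j : Fin 14) : inv4 (XC j) = wC j := by rw [inv4, invC, invC']; rfl

theorem p44_inv4 (b : LL) : dotInt (p44 : E) (b : E) = 4 * (inv4 b).1.1 + 4 * (inv4 b).1.2.1 := dot_p44 b
theorem p45_inv4 (b : LL) : dotInt (p45 : E) (b : E) = 4 * (inv4 b).1.1 + 4 * (inv4 b).2 := dot_p45 b
theorem linU_inv4 (b : LL) : lin 8 (-6) (-6) (-1) b = 8 * (inv4 b).1.1 + (-6) * (inv4 b).1.2.1 + (-6) * (inv4 b).2 + (-1) * (inv4 b).1.2.2 := by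
  rw [lin_apply, inv4, inv3]

/-- the sets -/
def UU (c : ℤ) : Set LL := {b | b ∈ SS 24 ∧ dotInt (p44 : E) (b : E) = 16 ∧ dotInt (p45 : E) (b : E) = c}

theorem UU_inv {c : ℤ} {g : Co0} (hg : g ∈ GU) {x : LL} (hx : x ∈ UU c) : g • x ∈ UU c := by
  obtain ⟨e1, e2, e3⟩ := GU_dot hg x
  exact ⟨⟨by rw [act_norm]; exact hx.1.1, by rw [e1]; exact hx.1.2⟩, by rw [e2]; exact hx.2.1, by rw [e3]; exact hx.2.2⟩

theorem UU_card (c : ℤ) : (UU c).ncard = ∑ j ∈ Finset.univ.filter (fun j => 4 * (wC j).1.1 + 4 * (wC j).1.2.1 = 16 ∧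
    4 * (wC j).1.1 + 4 * (wC j).2 = c), nC j := by
  rw [UU, PC.count (fun b => dotInt (p44 : E) (b : E) = 16 ∧ dotInt (p45 : E) (b : E) = c) (fun σ hσ b => by
    rw [p44_inv4, p44_inv4, p45_inv4, p45_inv4, inv4_inv hσ])]
  simp only [p44_inv4, p45_inv4, inv4C]

theorem tr8 : ∀ x ∈ UU 8, ∀ y ∈ UU 8, ∃ g ∈ GU, g • x = y :=
  trans_of_sign GU (lin 8 (-6) (-6) (-1)) fixU (UU 8) (fun g hg x hx => UU_inv hg hx)
    (fun x hx => PC.all (fun b => (dotInt (p44 : E) (b : E) = 16 ∧ dotInt (p45 : E) (b : E) = 8) → lin 8 (-6) (-6) (-1) b ≠ 0)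
      (fun σ hσ b => by rw [p44_inv4, p44_inv4, p45_inv4, p45_inv4, linU_inv4, linU_inv4, inv4_inv hσ]) (fun j => by
      rw [p44_inv4, p45_inv4, linU_inv4, inv4C]; revert j; decide) hx.1 hx.2)
    (fun x hx y hy hFx hFy => by
      obtain ⟨σ, hσ, h⟩ := PC.one (fun b => (dotInt (p44 : E) (b : E) = 16 ∧ dotInt (p45 : E) (b : E) = 8) ∧ lin 8 (-6) (-6) (-1) b < 0)
        (fun σ hσ b => by rw [p44_inv4, p44_inv4, p45_inv4, p45_inv4, linU_inv4, linU_inv4, inv4_inv hσ]) 11 (fun j => by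
        rw [p44_inv4, p45_inv4, linU_inv4, inv4C]; revert j; decide) hx.1 hy.1 ⟨hx.2, hFx⟩ ⟨hy.2, hFy⟩
      exact ⟨pm σ, D3_GU hσ, h⟩)

theorem sum_P (i j : GolayPt) (s t : ℤ) : ∑ k, P i j s t k = s + t := by
  rw [Finset.sum_congr rfl fun k _ => P_apply i j s t k, Finset.sum_add_distrib, Finset.sum_ite_eq' Finset.univ i,
    Finset.sum_ite_eq' Finset.univ j]
  simp

/-- moving to the special class -/
theorem to5 {x : LL} (hx : x ∈ UU 16) : ∃ g ∈ GU, inv4 (g • x) = wC 5 := by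
  have hcl : ∀ y ∈ UU 16, inv4 y = wC 5 ∨ inv4 y = wC 7 ∨ inv4 y = wC 13 := fun y hy =>
    PC.all (fun b => (dotInt (p44 : E) (b : E) = 16 ∧ dotInt (p45 : E) (b : E) = 16) → inv4 b = wC 5 ∨ inv4 b = wC 7 ∨ inv4 b = wC 13)
      (fun σ hσ b => by rw [p44_inv4, p44_inv4, p45_inv4, p45_inv4, inv4_inv hσ]) (fun j => by
      rw [p44_inv4, p45_inv4, inv4C]; revert j; decide) hy.1 hy.2
  have h13 : ∀ y ∈ UU 16, inv4 y = wC 13 → ∃ g ∈ GU, inv4 (g • y) = wC 5 := by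
    intro y hy hy13
    have hm : XC 13 ∈ SS 24 := ⟨by rw [XC_coe]; exact (propC 13).1, by rw [XC_coe]; exact (propC 13).2⟩
    obtain ⟨σ, hσ, h1⟩ := PC.one (fun b => inv4 b = wC 13) (fun σ hσ b => by rw [inv4_inv hσ]) 13 (fun j => by
      rw [inv4C]; revert j; decide) hy.1 hm hy13 (inv4C 13)
    obtain ⟨h, hh, c, hc1, hc2, hc3, h2, _⟩ := exists_h
    refine ⟨h * pm σ, GU.mul_mem hh (D3_GU hσ), ?_⟩
    rw [mul_smul, h1, inv4, inv3, h2, P_left (Ne.symm hc1), P_other (Ne.symm nz) (Ne.symm hc2), P_other (Ne.symm no) (Ne.symm hc3),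
      sum_P]
    decide
  have hpos : ∀ y ∈ UU 16, 0 < lin 8 (-6) (-6) (-1) y → inv4 y = wC 5 := by
    intro y hy h0
    rcases hcl y hy with h | h | h
    · exact h
    · rw [linU_inv4, h] at h0; exact absurd h0 (by decide)
    · rw [linU_inv4, h] at h0; exact absurd h0 (by decide)
  rcases hcl x hx with h | h | h
  · exact ⟨1, GU.one_mem, by rw [one_smul, h]⟩
  · have hneg : lin 8 (-6) (-6) (-1) x < 0 := by rw [linU_inv4, h]; decide
    by_contra hcon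
    push Not at hcon
    obtain ⟨s, hxs, hs, hsum⟩ := avg GU (lin 8 (-6) (-6) (-1)) fixU x
    have hle : ∀ y ∈ s, lin 8 (-6) (-6) (-1) y ≤ 0 := by
      intro y hy
      obtain ⟨g, hg, rfl⟩ := hs y hy
      by_contra h3
      exact hcon g hg (hpos _ (UU_inv hg hx) (not_le.1 h3))
    have := Finset.sum_lt_sum hle ⟨x, hxs, hneg⟩
    rw [hsum, Finset.sum_const_zero] at this
    exact absurd this (lt_irrefl _)
  · exact h13 x hx h

theorem tr16 : ∀ x ∈ UU 16, ∀ y ∈ UU 16, ∃ g ∈ GU, g • x = y := by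
  intro x hx y hy
  obtain ⟨g, hg, h1⟩ := to5 hx
  obtain ⟨k, hk, h2⟩ := to5 hy
  obtain ⟨σ, hσ, h3⟩ := PC.one (fun b => inv4 b = wC 5) (fun σ hσ b => by rw [inv4_inv hσ]) 5 (fun j => by
      rw [inv4C]; revert j; decide) (UU_inv hg hx).1 (UU_inv hk hy).1 h1 h2
  refine ⟨k⁻¹ * pm σ * g, GU.mul_mem (GU.mul_mem (GU.inv_mem hk) (D3_GU hσ)) hg, ?_⟩
  rw [mul_smul, mul_smul, h3, inv_smul_smul]


theorem casesU {b : LL} (hb : b ∈ SS 24) (h : dotInt (p44 : E) (b : E) = 16) : b = p45 ∨ b ∈ UU 8 ∨ b ∈ UU 16 := by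
  have := PC.all (fun b => dotInt (p44 : E) (b : E) = 16 → dotInt (p45 : E) (b : E) = 32 ∨ dotInt (p45 : E) (b : E) = 8 ∨
    dotInt (p45 : E) (b : E) = 16) (fun σ hσ b => by rw [p44_inv4, p44_inv4, p45_inv4, p45_inv4, inv4_inv hσ]) (fun j => by
      rw [p44_inv4, p45_inv4, inv4C]; revert j; decide) hb h
  rcases this with h1 | h1 | h1
  · left; exact (eq_of_dot p45_norm hb.1 h1).symm
  · right; left; exact ⟨hb, h, h1⟩
  · right; right; exact ⟨hb, h, h1⟩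

theorem p45_mem : p45 ∈ SS 24 ∧ dotInt (p44 : E) (p45 : E) = 16 := by
  refine ⟨⟨p45_norm, ?_⟩, ?_⟩
  · rw [dot_comm, dot_p45, w5_coe, W5_none, W5_other (Ne.symm no)]; norm_num
  · rw [dot_comm, dot_p45]
    change 4 * P none pz 4 4 none + 4 * P none pz 4 4 po = 16
    rw [P_left nz, P_other (Ne.symm no) (Ne.symm zo)]; norm_num

theorem m275r (u v x : LL) (hu : sqNorm (u : E) = 48) (hv : sqNorm (v : E) = 32 ∧ sqNorm ((u : E) - (v : E)) = 32)
    (hx : x ∈ {x : LL | sqNorm (x : E) = 32 ∧ sqNorm ((u : E) - (x : E)) = 32 ∧ dotInt (v : E) (x : E) = 16}) :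
    {y : LL | y ∈ {x : LL | sqNorm (x : E) = 32 ∧ sqNorm ((u : E) - (x : E)) = 32 ∧ dotInt (v : E) (x : E) = 16} ∧
      dotInt (x : E) (y : E) = 8}.ncard = 112 ∧
    {y : LL | y ∈ {x : LL | sqNorm (x : E) = 32 ∧ sqNorm ((u : E) - (x : E)) = 32 ∧ dotInt (v : E) (x : E) = 16} ∧
      y ≠ x ∧ dotInt (x : E) (y : E) = 16}.ncard = 162 ∧
    ∀ y ∈ {x : LL | sqNorm (x : E) = 32 ∧ sqNorm ((u : E) - (x : E)) = 32 ∧ dotInt (v : E) (x : E) = 16},
    ∀ y' ∈ {x : LL | sqNorm (x : E) = 32 ∧ sqNorm ((u : E) - (x : E)) = 32 ∧ dotInt (v : E) (x : E) = 16},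
      y ≠ x → y' ≠ x → dotInt (x : E) (y : E) = dotInt (x : E) (y' : E) →
      ∃ g : Co0, g • u = u ∧ g • v = v ∧ g • x = x ∧ g • y = y' := by
  have huv := (norm_sub_iff hu hv.1).1 hv.2
  obtain ⟨g0, h2, h1⟩ := tr48' u v hu hv.1 (by rw [dot_comm]; exact huv)
  have h1' : g0 • u = w5 := Subtype.ext h1
  have h2' : g0 • v = p44 := Subtype.ext h2
  have hx0 : g0 • x ∈ SS 24 ∧ dotInt (p44 : E) ((g0 • x : LL) : E) = 16 := by
    obtain ⟨a, b, c⟩ := hx
    rw [← act_dot g0 v x, h2'] at c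
    refine ⟨⟨by rw [act_norm]; exact a, ?_⟩, c⟩
    rw [← h1', act_dot]
    exact (norm_sub_iff hu a).1 b
  obtain ⟨k, hk, h3⟩ := trM PB 16 1 (Or.inl rfl) 5 vB invB (by decide) (by decide) _ hx0.1 hx0.2 p45 p45_mem.1 p45_mem.2
  have k1 := mem_stabilizer_iff.1 (Subgroup.mem_inf.1 hk).1
  have k2 := mem_stabilizer_iff.1 (Subgroup.mem_inf.1 hk).2
  set g : Co0 := k * g0 with hg
  have g1 : g • u = w5 := by rw [hg, mul_smul, h1', k1]
  have g2 : g • v = p44 := by rw [hg, mul_smul, h2', k2]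
  have g3 : g • x = p45 := by rw [hg, mul_smul, h3]
  have hset : ∀ y : LL, y ∈ {x : LL | sqNorm (x : E) = 32 ∧ sqNorm ((u : E) - (x : E)) = 32 ∧ dotInt (v : E) (x : E) = 16} ↔
      (g • y ∈ SS 24 ∧ dotInt (p44 : E) ((g • y : LL) : E) = 16) := by
    intro y
    rw [Set.mem_ofPred_eq, ← act_dot g v y, g2, SS, Set.mem_ofPred_eq, act_norm, ← g1, act_dot]
    constructor
    · rintro ⟨a, b, c⟩; exact ⟨⟨a, (norm_sub_iff hu a).1 b⟩, c⟩
    · rintro ⟨⟨a, b⟩, c⟩; exact ⟨a, (norm_sub_iff hu a).2 b, c⟩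
  have hdot : ∀ y : LL, dotInt (x : E) (y : E) = dotInt (p45 : E) ((g • y : LL) : E) := by
    intro y; rw [← act_dot g x y, g3]
  refine ⟨?_, ?_, ?_⟩
  · have e : {y : LL | y ∈ {x : LL | sqNorm (x : E) = 32 ∧ sqNorm ((u : E) - (x : E)) = 32 ∧ dotInt (v : E) (x : E) = 16} ∧
        dotInt (x : E) (y : E) = 8} = {y : LL | g • y ∈ UU 8} := by
      ext y
      rw [Set.mem_ofPred_eq, hset, hdot, Set.mem_ofPred_eq, and_assoc]; rfl
    rw [e, ncard_tr g (fun y => y ∈ UU 8)]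
    refine (UU_card 8).trans ?_
    decide
  · have e : {y : LL | y ∈ {x : LL | sqNorm (x : E) = 32 ∧ sqNorm ((u : E) - (x : E)) = 32 ∧ dotInt (v : E) (x : E) = 16} ∧
        y ≠ x ∧ dotInt (x : E) (y : E) = 16} = {y : LL | g • y ∈ UU 16} := by
      ext y
      rw [Set.mem_ofPred_eq, hset, hdot, Set.mem_ofPred_eq, and_assoc]
      constructor
      · rintro ⟨a, b, _, c⟩; exact ⟨a, b, c⟩
      · rintro ⟨a, b, c⟩
        refine ⟨a, b, ?_, c⟩
        rintro rfl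
        rw [g3, ← sqNorm_dot, p45_norm] at c
        norm_num at c
    rw [e, ncard_tr g (fun y => y ∈ UU 16)]
    refine (UU_card 16).trans ?_
    decide
  · intro y hy y' hy' hyx hyx' hd
    rw [hset] at hy hy'
    rw [hdot, hdot] at hd
    have hne : ∀ z : LL, z ≠ x → g • z ≠ p45 := by
      intro z hz h
      rw [← g3] at h
      exact hz (MulAction.injective g h)
    have hkey : ∃ s ∈ GU, s • (g • y) = g • y' := by
      rcases casesU hy.1 hy.2 with h | h | h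
      · exact absurd h (hne y hyx)
      · exact tr8 _ h _ ⟨hy'.1, hy'.2, by rw [← hd]; exact h.2.2⟩
      · exact tr16 _ h _ ⟨hy'.1, hy'.2, by rw [← hd]; exact h.2.2⟩
    obtain ⟨s, hs, h5⟩ := hkey
    obtain ⟨hm, hs3⟩ := Subgroup.mem_inf.1 hs
    have s1 := mem_stabilizer_iff.1 (Subgroup.mem_inf.1 hm).1
    have s2 := mem_stabilizer_iff.1 (Subgroup.mem_inf.1 hm).2
    have s3 := mem_stabilizer_iff.1 hs3
    refine ⟨g⁻¹ * s * g, ?_, ?_, ?_, ?_⟩
    · rw [mul_smul, mul_smul, g1, s1, ← g1, inv_smul_smul]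
    · rw [mul_smul, mul_smul, g2, s2, ← g2, inv_smul_smul]
    · rw [mul_smul, mul_smul, g3, s3, ← g3, inv_smul_smul]
    · rw [mul_smul, mul_smul, h5, inv_smul_smul]

end CfsgLib.Co
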