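import Cfsg.Statements.S0173
import Cfsg.Agent.LibPermLemma

set_option autoImplicit false
set_option linter.all false
open Cfsg

namespace Cfsg.Agent.S0173

open CfsgLib.CharBasic

/-- Brauer's permutation lemma for a single automorphism: the number of conjugacy classes mapped to themselves equals the number of irreducible complex characters χ with χ ∘ α = χ. -/
theorem result {G : Type*} [Group G] [Finite G] (α : G ≃* G) : Nat.card {C : ConjClasses G // ConjClasses.map α.toMonoidHom C = C} = Nat.card {χ : Cfsg.IrrCharacter G // (χ : G → ℂ) ∘ α = (χ : G → ℂ)} := by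
  classical
  let π : IrrCharacter G → IrrCharacter G := fun χ => ⟨_, isIrrCharacter_comp_equiv χ.2 α⟩
  have h := CfsgLib.PermLemma.brauer_perm (ConjClasses.map α.toMonoidHom) π (by
    haveI := Fintype.ofFinite G
    intro χ g g' hgg
    exact (isClassFunction_iff_mem.mp (irr_classFun χ.2) g' (α g) (ConjClasses.mk_eq_mk_iff_isConj.mp hgg)).symm)
  rw [← h]
  apply Nat.card_congr
  apply Equiv.subtypeEquivRight
  intro χ
  constructor
  · intro h; exact congrArg Subtype.val h
  · intro h; exact Subtype.ext h

end Cfsg.Agent.S0173
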