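import Cfsg.Agent.EqBase
import Cfsg.Agent.LibDade2
import Cfsg.Agent.LibPermLemma
import Cfsg.Agent.S0173
/-!
# Coprime action on classes and characters of a normal subgroup (helper16)
-/
set_option autoImplicit false
set_option linter.all false
open Cfsg CfsgLib.CharBasic
namespace CfsgLib.CopAct

universe u
variable {M : Type u} [Group M] [Finite M]

/-- a class of `K` fixed by a coprime element `x` contains an element commuting with `x` -/
theorem fixed_class {K : Subgroup M} {x : M} (hK : ∀ k ∈ K, x * k * x⁻¹ ∈ K)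
    (hcop : Nat.Coprime (orderOf x) (Nat.card K)) {h k : M} (hh : h ∈ K) (hk : k ∈ K)
    (hfix : x * h * x⁻¹ = k * h * k⁻¹) : ∃ t ∈ K, (t * h * t⁻¹) * x = x * (t * h * t⁻¹) := by
  obtain ⟨t, ht, c, hc, hcx, h1⟩ := CfsgLib.Dade.coset_conj hK hcop k⁻¹ (K.inv_mem hk)
  refine ⟨t, ht, ?_⟩
  have h2 : h * (k⁻¹ * x) = (k⁻¹ * x) * h := by
    calc h * (k⁻¹ * x) = k⁻¹ * (k * h * k⁻¹) * x := by group
      _ = _ := by rw [← hfix]; group
  have h3 : Commute (t * h * t⁻¹) (c * x) := by
    change t * h * t⁻¹ * (c * x) = c * x * (t * h * t⁻¹)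
    rw [← h1]
    calc t * h * t⁻¹ * (t * (k⁻¹ * x) * t⁻¹) = t * (h * (k⁻¹ * x)) * t⁻¹ := by group
      _ = _ := by rw [h2]; group
  obtain ⟨m, hm1, hm2⟩ := Nat.chineseRemainder hcop 1 0
  have hpow : (c * x) ^ m = x := by
    rw [(show Commute c x from hcx).mul_pow]
    have e1 : c ^ m = 1 := by
      obtain ⟨j, hj⟩ := Nat.modEq_zero_iff_dvd.mp hm2
      have h2 : c ^ Nat.card K = 1 := by
        have := pow_card_eq_one' (x := (⟨c, hc⟩ : K))
        have h5 := congrArg Subtype.val this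
        rwa [Subgroup.coe_pow, Subgroup.coe_one] at h5
      rw [hj, pow_mul, h2, one_pow]
    have e2 : x ^ m = x := by
      have : x ^ m = x ^ 1 := pow_eq_pow_iff_modEq.mpr hm1
      rwa [pow_one] at this
    rw [e1, e2, one_mul]
  have h4 := h3.pow_right m
  rw [hpow] at h4
  exact h4

/-- class fixed by conjugation, in terms of elements -/
theorem map_conj_eq_iff {K : Subgroup M} [hK : K.Normal] (x : M) (h : K) :
    ConjClasses.map (MulEquiv.toMonoidHom ((MulAut.conjNormal x : MulAut K))) (ConjClasses.mk h) = ConjClasses.mk h ↔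
      ∃ k : K, x * h * x⁻¹ = k * h * (k : M)⁻¹ := by
  have e : ConjClasses.map (MulEquiv.toMonoidHom ((MulAut.conjNormal x : MulAut K))) (ConjClasses.mk h) =
      ConjClasses.mk ((MulAut.conjNormal x : MulAut K) h) := rfl
  rw [e, ConjClasses.mk_eq_mk_iff_isConj, isConj_comm, isConj_iff]
  constructor
  · rintro ⟨k, hk⟩
    refine ⟨k, ?_⟩
    have := congrArg Subtype.val hk
    simp only [Subgroup.coe_mul, Subgroup.coe_inv, MulAut.conjNormal_apply] at this
    exact this.symm
  · rintro ⟨k, hk⟩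
    refine ⟨k, ?_⟩
    apply Subtype.ext
    simp only [Subgroup.coe_mul, Subgroup.coe_inv, MulAut.conjNormal_apply]
    exact hk.symm

/-- every fixed class is the class of a fixed element -/
theorem exists_fixed_rep {K : Subgroup M} [hK : K.Normal] {x : M} (hcop : Nat.Coprime (orderOf x) (Nat.card K))
    {C : ConjClasses K} (hC : ConjClasses.map (MulEquiv.toMonoidHom ((MulAut.conjNormal x : MulAut K))) C = C) :
    ∃ h : K, ConjClasses.mk h = C ∧ (h : M) * x = x * h := by
  obtain ⟨h, rfl⟩ := ConjClasses.exists_rep C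
  obtain ⟨k, hk⟩ := (map_conj_eq_iff x h).mp hC
  obtain ⟨t, ht, h1⟩ := fixed_class (fun k hk => hK.conj_mem k hk x) hcop h.2 k.2 hk
  refine ⟨⟨t, ht⟩ * h * ⟨t, ht⟩⁻¹, ?_, ?_⟩
  · rw [ConjClasses.mk_eq_mk_iff_isConj, isConj_comm, isConj_iff]
    exact ⟨⟨t, ht⟩, rfl⟩
  · simpa using h1

/-- number of fixed classes = number of fixed irreducible characters -/
theorem card_fixed {K : Subgroup M} [hK : K.Normal] (x : M) :
    Nat.card {C : ConjClasses K // ConjClasses.map (MulEquiv.toMonoidHom ((MulAut.conjNormal x : MulAut K))) C = C} =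
      Nat.card {θ : IrrCharacter K // (fun h : K => (θ : K → ℂ) ⟨x * h * x⁻¹, hK.conj_mem h h.2 x⟩) = θ} := by
  rw [Cfsg.Agent.S0173.result (MulAut.conjNormal x : MulAut K)]
  apply Nat.card_congr
  apply Equiv.subtypeEquivRight
  intro θ
  have e : (θ : K → ℂ) ∘ (MulAut.conjNormal x : MulAut K) = fun h : K => (θ : K → ℂ) ⟨x * h * x⁻¹, hK.conj_mem h h.2 x⟩ := by
    ext h
    simp only [Function.comp_apply]
    congr 1
  rw [e]

end CfsgLib.CopAct
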