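import Mathlib

/-! Fixed points of elements on coset spaces (seat helper15). -/

set_option autoImplicit false

namespace CfsgLib.CosetFix

open MulAction

theorem smul_mk_eq_iff {G : Type*} [Group G] (H : Subgroup G) (g k : G) :
    g • (QuotientGroup.mk k : G ⧸ H) = QuotientGroup.mk k ↔ k⁻¹ * g * k ∈ H := by
  have h : g • (QuotientGroup.mk k : G ⧸ H) = QuotientGroup.mk (g * k) := rfl
  rw [h, eq_comm, QuotientGroup.eq, mul_assoc]

theorem smul_mk_eq_iff' {G : Type*} [Group G] (H : Subgroup G) (g k : G) :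
    g • (QuotientGroup.mk k : G ⧸ H) = QuotientGroup.mk k ↔ g ∈ H.map (MulAut.conj k).toMonoidHom := by
  rw [smul_mk_eq_iff, Subgroup.mem_map]
  constructor
  · intro h
    exact ⟨_, h, by simp [mul_assoc]⟩
  · rintro ⟨y, hy, rfl⟩
    simpa [mul_assoc] using hy

theorem card_fixedBy_of_isConj {G Ω : Type*} [Group G] [MulAction G Ω] {x g : G} (h : IsConj x g) :
    Nat.card (fixedBy Ω g) = Nat.card (fixedBy Ω x) := by
  obtain ⟨k, rfl⟩ := isConj_iff.mp h
  refine (Nat.card_congr ((MulAction.toPerm k).subtypeEquiv (fun c => ?_))).symm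
  show x • c = c ↔ (k * x * k⁻¹) • k • c = k • c
  rw [mul_smul, mul_smul, inv_smul_smul]
  constructor
  · intro h; rw [h]
  · intro h; exact MulAction.injective k h

/-- the number of conjugates of `x` times the number of fixed cosets equals the index times the number of
conjugates in `H` -/
theorem card_fixedBy_mul {G : Type*} [Group G] [Finite G] (H : Subgroup G) (x : G) :
    Nat.card (fixedBy (G ⧸ H) x) * Nat.card {g : G // IsConj x g} =
      H.index * Nat.card {g : G // IsConj x g ∧ g ∈ H} := by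
  classical
  have hfG : Fintype G := Fintype.ofFinite G
  have e : (Σ g : {g : G // IsConj x g}, fixedBy (G ⧸ H) (g : G)) ≃
      (Σ c : G ⧸ H, {g : G // IsConj x g ∧ g • c = c}) :=
    { toFun := fun p => ⟨(p.2 : G ⧸ H), ⟨(p.1 : G), p.1.2, p.2.2⟩⟩
      invFun := fun p => ⟨⟨(p.2 : G), p.2.2.1⟩, ⟨p.1, p.2.2.2⟩⟩
      left_inv := fun p => rfl
      right_inv := fun p => rfl }
  have h1 : ∀ g : {g : G // IsConj x g}, Nat.card (fixedBy (G ⧸ H) (g : G)) = Nat.card (fixedBy (G ⧸ H) x) :=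
    fun g => card_fixedBy_of_isConj g.2
  have h2 : ∀ c : G ⧸ H, Nat.card {g : G // IsConj x g ∧ g • c = c} = Nat.card {g : G // IsConj x g ∧ g ∈ H} := by
    intro c
    obtain ⟨k, rfl⟩ := QuotientGroup.mk_surjective c
    refine Nat.card_congr ((MulAut.conj k⁻¹).toEquiv.subtypeEquiv (fun g => ?_))
    show (IsConj x g ∧ g • (QuotientGroup.mk k : G ⧸ H) = QuotientGroup.mk k) ↔
      (IsConj x (k⁻¹ * g * k⁻¹⁻¹) ∧ k⁻¹ * g * k⁻¹⁻¹ ∈ H)
    rw [smul_mk_eq_iff, inv_inv]
    have h3 : IsConj g (k⁻¹ * g * k) := by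
      rw [isConj_iff]
      exact ⟨k⁻¹, by rw [inv_inv]⟩
    constructor
    · rintro ⟨h4, h5⟩; exact ⟨h4.trans h3, h5⟩
    · rintro ⟨h4, h5⟩; exact ⟨h4.trans h3.symm, h5⟩
  have h3 := Nat.card_congr e
  rw [Nat.card_sigma, Nat.card_sigma, Finset.sum_congr rfl (fun g _ => h1 g), Finset.sum_congr rfl (fun c _ => h2 c)] at h3
  simp only [Finset.sum_const, Finset.card_univ, smul_eq_mul] at h3
  rw [Subgroup.index, mul_comm, Nat.card_eq_fintype_card (α := {g : G // IsConj x g}), h3, Nat.card_eq_fintype_card (α := G ⧸ H)]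

end CfsgLib.CosetFix
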