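import Cfsg.Agent.LibChevCoxT
import Cfsg.Agent.LibChevCard

set_option autoImplicit false
set_option linter.unusedSectionVars false
set_option linter.unusedVariables false

/-! Centres of Weyl groups; generation of Weyl groups -/

namespace CfsgLib.Chev

open Cfsg.Lie Matrix CfsgLib.Cox

namespace Good3

variable {D : ChevalleyDatum} {T : Tb} (g : Good3 D T)
include g

/-- a root with the coordinates of a multiple of a fundamental root -/
theorem eq_sim_of_v {s i : ℕ} (hs : s < T.n) (hi : i < T.l) (h : ∀ j < T.l, j ≠ i → T.v s j = 0) :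
    s = T.sim i ∨ s = T.n - 1 - T.sim i := by
  have hev := g.even
  by_cases hp : T.n / 2 ≤ s
  · left
    by_contra hne
    obtain ⟨j, hj, hji, h1⟩ := g.v_ex hs hp hi hne
    rw [h j hj hji] at h1
    exact absurd h1 (lt_irrefl _)
  · right
    by_contra hne
    have hs' : T.n - 1 - s < T.n := by omega
    have hsl := g.sim_lt hi
    obtain ⟨j, hj, hji, h1⟩ := g.v_ex hs' (by omega) hi (by omega)
    rw [g.v_neg hs hj, h j hj hji] at h1
    simp at h1

theorem v_inj : ∀ r < T.n, ∀ s < T.n, (∀ j < T.l, T.v s j = T.v r j) → s = r := by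
  apply g.root_ind
  · intro i hi s hs h
    rcases g.eq_sim_of_v hs hi (fun j hj hji => by rw [h j hj, g.v_sim hi hj, if_neg (Ne.symm hji)]) with h1 | h1
    · exact h1
    · exfalso
      have h2 := h i hi
      rw [h1, g.v_neg (g.sim_lt hi) hi, g.v_sim hi hi, if_pos rfl] at h2
      norm_num at h2
  · intro i hi r hr ih s hs h
    have h1 : T.w i s = T.w i r := by
      apply ih _ (g.w_lt hi hs)
      intro j hj
      have hA : T.A i s = T.A i r := by
        rw [g.A_eq hs hi, g.A_eq hr hi]
        apply Finset.sum_congr rfl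
        intro k hk
        rw [h k (Finset.mem_range.1 hk)]
      rw [g.v_w hi hs hj, g.v_w hi hr hj, h j hj, hA]
    have h2 := congrArg (T.w i) h1
    rwa [g.w_w hi hs, g.w_w hi hr] at h2

/-- words are determined by their action on the fundamental roots -/
theorem pw_eq_of_sim {u v : List ℕ} (hu : VW T u) (hv : VW T v)
    (h : ∀ j < T.l, wact T u (T.sim j) = wact T v (T.sim j)) : g.pw u = g.pw v := by
  rw [g.pw_eq_iff hu hv]
  intro r hr
  apply g.v_inj _ (g.wact_lt hv hr) _ (g.wact_lt hu hr)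
  intro j hj
  rw [g.v_wact hu hr hj, g.v_wact hv hr hj]
  apply Finset.sum_congr rfl
  intro k hk
  rw [h k (Finset.mem_range.1 hk)]

/-- the centre of the Weyl group acts as ±1 -/
theorem center_pm {w : List ℕ} (hw : VW T w) (hc : ∀ i < T.l, g.pw w * g.ps i = g.ps i * g.pw w)
    {r0 : ℕ} (hr0 : r0 < T.n) (hp0 : ∀ j < T.l, 0 < T.v r0 j) (hl : 0 < T.l) :
    (∀ r < T.n, wact T w r = r) ∨ (∀ r < T.n, wact T w r = T.n - 1 - r) := by
  have hev := g.even
  have h1 : ∀ i < T.l, wact T w (T.sim i) = T.sim i ∨ wact T w (T.sim i) = T.n - 1 - T.sim i := by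
    intro i hi
    have hsl := g.sim_lt hi
    have h2 := DFunLike.congr_fun (hc i hi) (g.fs hi)
    rw [Equiv.Perm.mul_apply, Equiv.Perm.mul_apply] at h2
    have h3 := congrArg Fin.val h2
    have e : g.ps i (g.fs hi) = ng (g.fs hi) := by
      ext
      rw [g.ps_val hi]
      exact g.w_sim hi
    rw [e, g.pw_ng hw, g.ps_val hi, g.pw_val hw] at h3
    have h4 : ((ng (g.pw w (g.fs hi)) : Fin T.n) : ℕ) = T.n - 1 - wact T w (T.sim i) := by
      show T.n - 1 - ((g.pw w (g.fs hi) : Fin T.n) : ℕ) = _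
      rw [g.pw_val hw]
      rfl
    rw [h4] at h3
    have hs := g.wact_lt hw hsl
    have h5 : T.w i (wact T w (T.sim i)) = T.n - 1 - wact T w (T.sim i) := h3.symm
    apply g.eq_sim_of_v hs hi
    intro j hj hji
    have h6 := g.v_w hi hs hj
    rw [if_neg hji, h5, g.v_neg hs hj] at h6
    omega
  -- signs
  have h2 : ∀ i < T.l, ∃ ε : ℤ, (ε = 1 ∨ ε = -1) ∧ ∀ j < T.l, T.v (wact T w (T.sim i)) j = if i = j then ε else 0 := by
    intro i hi
    rcases h1 i hi with h | h
    · exact ⟨1, Or.inl rfl, fun j hj => by rw [h, g.v_sim hi hj]⟩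
    · refine ⟨-1, Or.inr rfl, fun j hj => ?_⟩
      rw [h, g.v_neg (g.sim_lt hi) hj, g.v_sim hi hj]
      split_ifs <;> simp
  have h3 : ∀ r < T.n, ∀ i < T.l, ∀ ε : ℤ, T.v (wact T w (T.sim i)) i = ε → T.v (wact T w r) i = T.v r i * ε := by
    intro r hr i hi ε hε
    rw [g.v_wact hw hr hi, Finset.sum_eq_single i]
    · rw [hε]
    · intro k hk hki
      obtain ⟨ε', _, h⟩ := h2 k (Finset.mem_range.1 hk)
      rw [h i hi, if_neg hki, mul_zero]
    · intro hn; exact absurd (Finset.mem_range.2 hi) hn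
  have h4 : (∀ i < T.l, T.v (wact T w (T.sim i)) i = 1) ∨ (∀ i < T.l, T.v (wact T w (T.sim i)) i = -1) := by
    by_cases hp : T.n / 2 ≤ wact T w r0
    · left
      intro i hi
      obtain ⟨ε, hε, h⟩ := h2 i hi
      have h5 := h i hi
      rw [if_pos rfl] at h5
      have h6 := h3 r0 hr0 i hi ε h5
      have h7 := g.v_nonneg (g.wact_lt hw hr0) hi hp
      rw [h6] at h7
      have h8 := hp0 i hi
      rw [h5]
      rcases hε with rfl | rfl
      · rfl
      · omega
    · right
      intro i hi
      obtain ⟨ε, hε, h⟩ := h2 i hi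
      have h5 := h i hi
      rw [if_pos rfl] at h5
      have h6 := h3 r0 hr0 i hi ε h5
      have h7 := g.v_nonpos (g.wact_lt hw hr0) (not_le.1 hp) hi
      rw [h6] at h7
      have h8 := hp0 i hi
      rw [h5]
      rcases hε with rfl | rfl
      · omega
      · rfl
  rcases h4 with h4 | h4
  · left
    intro r hr
    apply g.v_inj _ hr _ (g.wact_lt hw hr)
    intro j hj
    rw [h3 r hr j hj 1 (h4 j hj), mul_one]
  · right
    intro r hr
    apply g.v_inj _ (by omega) _ (g.wact_lt hw hr)
    intro j hj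
    rw [h3 r hr j hj (-1) (h4 j hj), g.v_neg hr hj]
    ring

/-- a word preserving the positive roots is trivial -/
theorem pw_eq_one {w : List ℕ} (hw : VW T w) (h : ∀ i < T.l, T.n / 2 ≤ wact T w (T.sim i)) : g.pw w = 1 := by
  have hev := g.even
  have h1 : ∀ r, T.n / 2 ≤ r → r < T.n → T.n / 2 ≤ wact T w r := by
    intro r hp hr
    obtain ⟨j, hj, hne⟩ := g.v_ne_zero hr
    have hlt := g.wact_lt hw hr
    by_contra hcon
    -- all coordinates are nonnegative
    have h2 : ∀ j < T.l, 0 ≤ T.v (wact T w r) j := by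
      intro j hj
      rw [g.v_wact hw hr hj]
      apply Finset.sum_nonneg
      intro k hk
      have hk' := Finset.mem_range.1 hk
      exact mul_nonneg (g.v_nonneg hr hk' hp) (g.v_nonneg (g.wact_lt hw (g.sim_lt hk')) hj (h k hk'))
    obtain ⟨m, hm, hne'⟩ := g.v_ne_zero hlt
    have h3 := g.v_nonpos hlt (not_le.1 hcon) hm
    have h4 := h2 m hm
    omega
  obtain ⟨w', hw', e1, e2⟩ := g.exists_redw _ w rfl hw
  have h2 : lenP (g.pw w) = 0 := by
    rw [g.len_pw hw]
    unfold ninv
    rw [Finset.card_eq_zero, Finset.filter_eq_empty_iff]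
    rintro r hr ⟨h3, h4⟩
    have := h1 r h3 (Finset.mem_range.1 hr)
    omega
  rw [h2, List.length_eq_zero_iff] at e2
  rw [← e1, e2, pw_nil]

end Good3

/-- check: the word sends all the fundamental roots to their negatives -/
def chkNeg (T : Tb) (w : List ℕ) : Bool :=
  (w.all fun i => Nat.ble (i + 1) T.l) && (List.range T.l).all fun j => Nat.beq (wact T w (T.sim j)) (T.n - 1 - T.sim j)

/-- check: the word sends all the fundamental roots to negative roots, and not all to their negatives -/
def chkNeg' (T : Tb) (w : List ℕ) : Bool :=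
  (w.all fun i => Nat.ble (i + 1) T.l) && (((List.range T.l).all fun j => Nat.ble (wact T w (T.sim j) + 1) (T.n / 2)) &&
    (List.range T.l).any fun j => !Nat.beq (wact T w (T.sim j)) (T.n - 1 - T.sim j))

/-- a root with full support -/
def chkSupp (T : Tb) (r : ℕ) : Bool := Nat.ble (r + 1) T.n && (Nat.ble 1 T.l && (List.range T.l).all fun j => decide (0 < T.v r j))

theorem VW_of_all {T : Tb} {w : List ℕ} (h : (w.all fun i => Nat.ble (i + 1) T.l) = true) : VW T w := by
  rw [List.all_eq_true] at h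
  intro i hi
  have := h i hi
  rw [Nat.ble_eq] at this
  omega

namespace Good3

variable {D : ChevalleyDatum} {T : Tb} (g : Good3 D T)
include g

theorem exists_cox' {M : CoxeterMatrix (Fin T.l)} (hM : ∀ i j : Fin T.l, chkOrd T [(i : ℕ), (j : ℕ)] (M i j) = true) :
    ∃ ψ : M.Group →* Equiv.Perm (Fin T.n), Function.Injective ψ ∧ (∀ x, ∃ w, VW T w ∧ ψ x = g.pw w) ∧
      (∀ w, VW T w → ∃ x, ψ x = g.pw w) ∧
      (∀ i : Fin T.l, ψ (M.simple i) = g.ps i) ∧ ∀ ω : List (Fin T.l), ψ (ω.map M.simple).prod = g.pw (ω.map Fin.val) := by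
  have hM' : ∀ i j : Fin T.l, M i j = orderOf (g.psF i * g.psF j) := by
    intro i j
    have := g.orderOf_pw (hM i j)
    rw [← this, pw_cons, pw_single]
    rfl
  obtain ⟨ψ, hψ, hr, hs⟩ := g.exists_cox hM'
  refine ⟨ψ, hψ, ?_, ?_, hs, ?_⟩
  · intro x
    have h1 : ψ x ∈ g.WJ Set.univ := by rw [← hr]; exact ⟨x, rfl⟩
    obtain ⟨w, hw, _, e⟩ := g.mem_WJ.1 h1
    exact ⟨w, hw, e⟩
  · intro w hw
    have h1 : g.pw w ∈ ψ.range := by rw [hr]; exact g.pw_mem hw
    exact h1
  · intro ω
    induction ω with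
    | nil => simp [pw_nil]
    | cons i ω ih => rw [List.map_cons, List.prod_cons, map_mul, ih, hs, List.map_cons, pw_cons]; rfl

theorem center_two {M : CoxeterMatrix (Fin T.l)} (hM : ∀ i j : Fin T.l, chkOrd T [(i : ℕ), (j : ℕ)] (M i j) = true)
    {r0 : ℕ} (h0 : chkSupp T r0 = true) (ω : List (Fin T.l)) (k : ℕ)
    (hk : chkNeg T (List.flatten (List.replicate k (ω.map Fin.val))) = true) :
    Nat.card (Subgroup.center M.Group) = 2 ∧ Subgroup.center M.Group ≤ Subgroup.zpowers (ω.map M.simple).prod := by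
  have hev := g.even
  obtain ⟨ψ, hψ, hr, hr', hs, hω⟩ := g.exists_cox' hM
  unfold chkSupp at h0
  simp only [Bool.and_eq_true, Nat.ble_eq, List.all_eq_true, decide_eq_true_eq, List.mem_range] at h0
  obtain ⟨h01, h02, h03⟩ := h0
  unfold chkNeg at hk
  rw [Bool.and_eq_true] at hk
  obtain ⟨hk1, hk2⟩ := hk
  simp only [List.all_eq_true, Nat.beq_eq, List.mem_range] at hk2
  have hu := VW_of_all hk1
  set u := List.flatten (List.replicate k (ω.map Fin.val)) with hudef
  have hupw : g.pw u = ψ ((ω.map M.simple).prod ^ k) := by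
    rw [map_pow, hω, hudef]
    clear hk1 hk2 hu hudef
    induction k with
    | zero => simp [pw_nil]
    | succ k ih =>
      rw [List.replicate_succ, List.flatten_cons, pw_append, ih, _root_.pow_succ']
  -- u acts as -1
  have hneg : ∀ r < T.n, wact T u r = T.n - 1 - r := by
    intro r hr
    apply g.v_inj _ (by omega) _ (g.wact_lt hu hr)
    intro j hj
    rw [g.v_wact hu hr hj, Finset.sum_eq_single j]
    · rw [hk2 j hj, g.v_neg (g.sim_lt hj) hj, g.v_neg hr hj, g.v_sim hj hj, if_pos rfl]; ring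
    · intro i hi hij
      have hi' := Finset.mem_range.1 hi
      rw [hk2 i hi', g.v_neg (g.sim_lt hi') hj, g.v_sim hi' hj, if_neg hij]; simp
    · intro hn; exact absurd (Finset.mem_range.2 hj) hn
  set z := (ω.map M.simple).prod ^ k with hz
  have hzv : ∀ r : Fin T.n, ψ z r = ng r := by
    intro r
    rw [← hupw]
    ext
    rw [g.pw_val hu, hneg r r.2]
    rfl
  have hzc : z ∈ Subgroup.center M.Group := by
    rw [Subgroup.mem_center_iff]
    intro x
    apply hψ
    rw [map_mul, map_mul]
    obtain ⟨w, hw, e⟩ := hr x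
    ext r
    rw [Equiv.Perm.mul_apply, Equiv.Perm.mul_apply, hzv, hzv, e, g.pw_ng hw]
  have hz1 : z ≠ 1 := by
    intro h
    have h1 := hzv ⟨0, by omega⟩
    rw [h, map_one] at h1
    have h2 := congrArg Fin.val h1
    have h3 : (0 : ℕ) = T.n - 1 - 0 := h2
    omega
  have hall : ∀ x ∈ Subgroup.center M.Group, x = 1 ∨ x = z := by
    intro x hx
    obtain ⟨w, hw, e⟩ := hr x
    have h1 : ∀ i < T.l, g.pw w * g.ps i = g.ps i * g.pw w := by
      intro i hi
      have h2 := (Subgroup.mem_center_iff.1 hx) (M.simple ⟨i, hi⟩)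
      have h3 := congrArg ψ h2
      rw [map_mul, map_mul, hs, e] at h3
      exact h3.symm
    rcases g.center_pm hw h1 h01 h03 h02 with h | h
    · left
      apply hψ
      rw [e, map_one]
      ext r
      rw [g.pw_val hw, h r r.2]
      rfl
    · right
      apply hψ
      rw [e]
      ext r
      rw [hzv, g.pw_val hw, h r r.2]
      rfl
  have hset : (Subgroup.center M.Group : Set M.Group) = {1, z} := by
    ext x
    constructor
    · intro hx
      rcases hall x hx with rfl | rfl
      · exact Set.mem_insert _ _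
      · exact Set.mem_insert_of_mem _ rfl
    · rintro (rfl | rfl)
      · exact Subgroup.one_mem _
      · exact hzc
  constructor
  · have : Nat.card (Subgroup.center M.Group) = (Subgroup.center M.Group : Set M.Group).ncard := rfl
    rw [this, hset, Set.ncard_pair (Ne.symm hz1)]
  · intro x hx
    rcases hall x hx with rfl | rfl
    · exact Subgroup.one_mem _
    · exact Subgroup.pow_mem _ (Subgroup.mem_zpowers _) _

theorem center_one {M : CoxeterMatrix (Fin T.l)} (hM : ∀ i j : Fin T.l, chkOrd T [(i : ℕ), (j : ℕ)] (M i j) = true)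
    {r0 : ℕ} (h0 : chkSupp T r0 = true) {u : List ℕ} (hk : chkNeg' T u = true) :
    Subgroup.center M.Group = ⊥ := by
  have hev := g.even
  obtain ⟨ψ, hψ, hr, hr', hs, hω⟩ := g.exists_cox' hM
  unfold chkSupp at h0
  simp only [Bool.and_eq_true, Nat.ble_eq, List.all_eq_true, decide_eq_true_eq, List.mem_range] at h0
  obtain ⟨h01, h02, h03⟩ := h0
  unfold chkNeg' at hk
  rw [Bool.and_eq_true, Bool.and_eq_true] at hk
  obtain ⟨hk1, hk2, hk3⟩ := hk
  simp only [List.all_eq_true, Nat.ble_eq, List.mem_range] at hk2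
  simp only [List.any_eq_true, List.mem_range, Bool.not_eq_true'] at hk3
  obtain ⟨i0, hi0, hi1⟩ := hk3
  have hi1' := Nat.ne_of_beq_eq_false hi1
  have hu := VW_of_all hk1
  rw [eq_bot_iff]
  intro x hx
  obtain ⟨w, hw, e⟩ := hr x
  have h1 : ∀ i < T.l, g.pw w * g.ps i = g.ps i * g.pw w := by
    intro i hi
    have h2 := (Subgroup.mem_center_iff.1 hx) (M.simple ⟨i, hi⟩)
    have h3 := congrArg ψ h2
    rw [map_mul, map_mul, hs, e] at h3
    exact h3.symm
  rcases g.center_pm hw h1 h01 h03 h02 with h | h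
  · rw [Subgroup.mem_bot]
    apply hψ
    rw [e, map_one]
    ext r
    rw [g.pw_val hw, h r r.2]
    rfl
  · exfalso
    have h5 : g.pw (w ++ u) = 1 := by
      apply g.pw_eq_one (g.VW_append hw hu)
      intro i hi
      rw [wact_append, h _ (g.wact_lt hu (g.sim_lt hi))]
      have := hk2 i hi
      omega
    have h6 : ((g.pw (w ++ u) (g.fs hi0) : Fin T.n) : ℕ) = ((1 : Equiv.Perm (Fin T.n)) (g.fs hi0) : Fin T.n) := by rw [h5]
    rw [g.pw_val (g.VW_append hw hu), wact_append, h _ (g.wact_lt hu (Fin.is_lt _))] at h6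
    have h7 : ((1 : Equiv.Perm (Fin T.n)) (g.fs hi0) : ℕ) = T.sim i0 := rfl
    rw [h7] at h6
    have h8 : ((g.fs hi0 : Fin T.n) : ℕ) = T.sim i0 := rfl
    rw [h8] at h6
    have h9 := g.wact_lt hu (g.sim_lt hi0)
    have h10 := g.sim_lt hi0
    omega

end Good3

/-- expansion of a word in extended letters: `l` is the Coxeter element and `l + 1` its inverse -/
def expW (l : ℕ) (L : List ℕ) : List ℕ :=
  L.flatMap fun k => if Nat.beq k l then List.range l else if Nat.beq k (l + 1) then (List.range l).reverse else [k]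

/-- check: the extended word `L` in the letters `S` and the Coxeter element equals the reflection `i` -/
def chkGen1 (T : Tb) (S : List ℕ) (i : ℕ) (L : List ℕ) : Bool :=
  (L.all fun k => S.contains k || Nat.beq k T.l || Nat.beq k (T.l + 1)) &&
    (List.range T.l).all fun j => Nat.beq (wact T (expW T.l L) (T.sim j)) (T.w i (T.sim j))

def chkGen (T : Tb) (S : List ℕ) (LL : List (List ℕ)) : Bool :=
  (S.all fun k => Nat.ble (k + 1) T.l) && (List.range T.l).all fun i => chkGen1 T S i (LL.getD i [])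

namespace Good3

variable {D : ChevalleyDatum} {T : Tb} (g : Good3 D T)
include g

theorem gen_cox {M : CoxeterMatrix (Fin T.l)} (hM : ∀ i j : Fin T.l, chkOrd T [(i : ℕ), (j : ℕ)] (M i j) = true)
    (S : List (Fin T.l)) (LL : List (List ℕ)) (h : chkGen T (S.map Fin.val) LL = true) :
    Subgroup.closure (({((List.finRange T.l).map M.simple).prod} : Set M.Group) ∪ {x | ∃ i ∈ S, x = M.simple i}) = ⊤ := by
  obtain ⟨ψ, hψ, hr, hr', hs, hω⟩ := g.exists_cox' hM
  unfold chkGen at h
  rw [Bool.and_eq_true] at h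
  obtain ⟨h1, h2⟩ := h
  simp only [List.all_eq_true, List.mem_range] at h2
  set H := Subgroup.closure (({((List.finRange T.l).map M.simple).prod} : Set M.Group) ∪ {x | ∃ i ∈ S, x = M.simple i}) with hH
  have hc : ((List.finRange T.l).map M.simple).prod ∈ H := Subgroup.subset_closure (Or.inl rfl)
  have hS : ∀ i ∈ S, M.simple i ∈ H := fun i hi => Subgroup.subset_closure (Or.inr ⟨i, hi, rfl⟩)
  have hfr : (List.finRange T.l).map Fin.val = List.range T.l := List.map_coe_finRange_eq_range
  have hψc : ψ ((List.finRange T.l).map M.simple).prod = g.pw (List.range T.l) := by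
    rw [hω, hfr]
  have hvr : VW T (List.range T.l) := fun i hi => List.mem_range.1 hi
  have key : ∀ L : List ℕ, (∀ k ∈ L, ((S.map Fin.val).contains k || Nat.beq k T.l || Nat.beq k (T.l + 1)) = true) →
      VW T (expW T.l L) ∧ ∃ x ∈ H, ψ x = g.pw (expW T.l L) := by
    intro L
    induction L with
    | nil => intro _; exact ⟨fun i hi => by simp [expW] at hi, 1, Subgroup.one_mem _, by simp [expW, pw_nil]⟩
    | cons k L ih =>
      intro h
      obtain ⟨h3, x, hx, e⟩ := ih (fun j hj => h j (List.mem_cons_of_mem _ hj))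
      have h4 := h k List.mem_cons_self
      have h5 : ∃ y ∈ H, VW T (expW T.l [k]) ∧ ψ y = g.pw (expW T.l [k]) := by
        unfold expW
        rw [List.flatMap_singleton]
        by_cases hk : k = T.l
        · rw [if_pos (by rw [Nat.beq_eq]; exact hk)]
          exact ⟨_, hc, hvr, hψc⟩
        · rw [if_neg (by rw [Nat.beq_eq]; exact hk)]
          by_cases hk2 : k = T.l + 1
          · rw [if_pos (by rw [Nat.beq_eq]; exact hk2)]
            exact ⟨_, Subgroup.inv_mem _ hc, VW_reverse hvr, by rw [map_inv, hψc, g.pw_reverse hvr]⟩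
          · rw [if_neg (by rw [Nat.beq_eq]; exact hk2)]
            simp only [Bool.or_eq_true, Nat.beq_eq, hk, hk2, or_false, List.contains_iff_mem, List.mem_map] at h4
            obtain ⟨i, hi, rfl⟩ := h4
            exact ⟨_, hS i hi, g.VW_single i.2, by rw [hs, pw_single]⟩
      obtain ⟨y, hy, h6, h7⟩ := h5
      have h8 : expW T.l (k :: L) = expW T.l [k] ++ expW T.l L := by
        unfold expW
        rw [← List.flatMap_append]
        rfl
      rw [h8]
      exact ⟨g.VW_append h6 h3, y * x, Subgroup.mul_mem _ hy hx, by rw [map_mul, h7, e, pw_append]⟩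
  have hsim : ∀ i : Fin T.l, M.simple i ∈ H := by
    intro i
    have h3 := h2 i i.2
    unfold chkGen1 at h3
    rw [Bool.and_eq_true] at h3
    obtain ⟨h4, h5⟩ := h3
    rw [List.all_eq_true] at h4
    simp only [List.all_eq_true, Nat.beq_eq, List.mem_range] at h5
    obtain ⟨h6, x, hx, e⟩ := key _ h4
    have h7 : x = M.simple i := by
      apply hψ
      rw [e, hs, ← pw_single]
      apply g.pw_eq_of_sim h6 (g.VW_single i.2)
      intro j hj
      rw [h5 j hj]
      rfl
    rw [← h7]; exact hx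
  rw [eq_top_iff]
  intro x _
  obtain ⟨ω, hω'⟩ := M.toCoxeterSystem.wordProd_surjective x
  rw [← hω']
  unfold CoxeterSystem.wordProd
  apply Subgroup.list_prod_mem
  intro y hy
  rw [List.mem_map] at hy
  obtain ⟨i, _, rfl⟩ := hy
  rw [CoxeterMatrix.toCoxeterSystem_simple]
  exact hsim i

end Good3

end CfsgLib.Chev
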