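import Mathlib
import Cfsg.Agent.LibNSNumH12
import Cfsg.Prelude.Def_Sporadic
import Cfsg.Prelude.Def_Classical

/-! Alternating and sporadic orders: cubes of odd primes (helper12). -/

set_option autoImplicit false
set_option linter.all false
set_option maxRecDepth 100000

namespace CfsgLib.CubeH12

def pl : List ℕ := [2,3,5,7,11,13,17,19,23,29,31,37,41,43,47,59,67,71]

theorem pl_prime : ∀ q ∈ pl, q.Prime := by
  intro q hq
  simp only [pl, List.mem_cons, List.not_mem_nil, or_false] at hq
  rcases hq with rfl | rfl | rfl | rfl | rfl | rfl | rfl | rfl | rfl | rfl | rfl | rfl | rfl | rfl | rfl | rfl | rfl | rfl <;> norm_num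

theorem spor (N a : ℕ) (hN0 : N ≠ 0) (h2 : 2 ^ a ∣ N) (hd : N ∣ pl.prod ^ 46)
    (hc : ∀ q ∈ pl, q ≠ 2 → q ^ 3 ∣ N → ¬ q ^ 4 ∣ N → q ^ 3 < 2 ^ a)
    (p : ℕ) (hp : p.Prime) (hodd : p ≠ 2) (h3 : N.factorization p = 3) :
    p ^ 3 < 2 ^ N.factorization 2 := by
  have h1 : p ^ 3 ∣ N := (hp.pow_dvd_iff_le_factorization hN0).mpr (by omega)
  have h4 : ¬ p ^ 4 ∣ N := by
    rw [hp.pow_dvd_iff_le_factorization hN0]
    omega
  have h5 : p ∣ pl.prod := by
    apply hp.dvd_of_dvd_pow
    exact ((dvd_pow_self p (by norm_num)).trans h1).trans hd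
  obtain ⟨q, hq, hpq⟩ := (Prime.dvd_prod_iff hp.prime).mp h5
  have h6 : p = q := (Nat.prime_dvd_prime_iff_eq hp (pl_prime q hq)).mp hpq
  subst h6
  have h7 : a ≤ N.factorization 2 := (Nat.prime_two.pow_dvd_iff_le_factorization hN0).mp h2
  exact (hc p hq hodd h1 h4).trans_le (Nat.pow_le_pow_right (by norm_num) h7)

theorem v_rec' (p : ℕ) [Fact p.Prime] (n : ℕ) :
    padicValNat p n.factorial = padicValNat p (n / p).factorial + n / p := by
  have h1 := padicValNat_mul_div_factorial (p := p) n
  have h2 := padicValNat_factorial_mul (p := p) (n / p)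
  rw [← h1, h2]

theorem pow_bound (p : ℕ) (hp : 5 ≤ p) : p ^ 3 < 2 ^ (2 * p - 1) := by
  induction p, hp using Nat.le_induction with
  | base => norm_num
  | succ p hp ih =>
    have h1 : 2 * (p + 1) - 1 = (2 * p - 1) + 2 := by omega
    rw [h1, pow_add]
    have h2 : (p + 1) ^ 3 ≤ 4 * p ^ 3 := by nlinarith [sq_nonneg p, mul_pos (show 0 < p by omega) (show 0 < p by omega)]
    omega

theorem alt (n N : ℕ) (hn : 5 ≤ n) (hN : 2 * N = n.factorial) (p : ℕ) (hp : p.Prime) (hodd : p ≠ 2)
    (h3 : N.factorization p = 3) : p ^ 3 < 2 ^ N.factorization 2 := by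
  haveI : Fact p.Prime := ⟨hp⟩
  haveI : Fact (Nat.Prime 2) := ⟨Nat.prime_two⟩
  have hN0 : N ≠ 0 := by
    rintro rfl
    exact (Nat.factorial_ne_zero n) hN.symm
  have h3p : 3 ≤ p := by
    have := hp.two_le
    omega
  have e1 : padicValNat p n.factorial = 3 := by
    rw [← hN, padicValNat.mul (by norm_num) hN0]
    rw [← Nat.factorization_def _ hp, ← Nat.factorization_def _ hp, h3]
    have : (2 : ℕ).factorization p = 0 := by
      apply Nat.factorization_eq_zero_of_not_dvd
      intro h
      exact hodd ((Nat.prime_dvd_prime_iff_eq hp Nat.prime_two).mp h)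
    rw [this]
  have e2 : padicValNat 2 n.factorial = 1 + N.factorization 2 := by
    rw [← hN, padicValNat.mul (by norm_num) hN0, padicValNat.self (by norm_num),
      ← Nat.factorization_def _ Nat.prime_two]
  have hsmall : ∀ m : ℕ, m < p → padicValNat p m.factorial = 0 := by
    intro m hm
    apply padicValNat.eq_zero_of_not_dvd
    rw [hp.dvd_factorial]
    omega
  rw [v_rec'] at e1
  have hm3 : n / p ≤ 3 := by omega
  have hm : n / p = 3 := by
    by_contra hne
    have := hsmall (n / p) (by omega)
    omega
  have hp5 : 5 ≤ p := by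
    by_contra hlt
    have : p = 3 ∨ p = 4 := by omega
    rcases this with rfl | rfl
    · rw [hm] at e1
      have : padicValNat 3 (Nat.factorial 3) ≠ 0 := by
        intro h
        have h2 := (dvd_iff_padicValNat_ne_zero (p := 3) (Nat.factorial_ne_zero 3)).mp (by decide)
        exact h2 h
      omega
    · exact absurd hp (by norm_num)
  have hnp : 3 * p ≤ n := by
    rw [← hm]
    exact Nat.div_mul_le_self n p
  have h5 : CfsgLib.NSNumH12.v (3 * p) ≤ CfsgLib.NSNumH12.v n := CfsgLib.NSNumH12.v_mono hnp
  have h6 := CfsgLib.NSNumH12.v_rec (3 * p)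
  have h7 := CfsgLib.NSNumH12.v_rec (3 * p / 2)
  have h8 : CfsgLib.NSNumH12.v n = 1 + N.factorization 2 := e2
  have h9 : 2 * p - 1 ≤ N.factorization 2 := by omega
  exact (pow_bound p hp5).trans_le (Nat.pow_le_pow_right (by norm_num) h9)

open Cfsg in
theorem main {G : Type*} [Group G] [Finite G] (hG : IsAlternating G ∨ IsSporadic G)
    (p : ℕ) (hp : p.Prime) (hodd : p ≠ 2) (h3 : (Nat.card G).factorization p = 3) :
    p ^ 3 < 2 ^ (Nat.card G).factorization 2 := by
  rcases hG with ⟨n, hn, ⟨e⟩⟩ | hG
  · refine alt n (Nat.card G) hn ?_ p hp hodd h3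
    rw [Nat.card_congr e.toEquiv]
    haveI : Nontrivial (Fin n) := Fin.nontrivial_iff_two_le.mpr (by omega)
    rw [two_mul_nat_card_alternatingGroup, Nat.card_perm, Nat.card_eq_fintype_card, Fintype.card_fin]
  · rcases hG with h | h | h | h | h | h | h | h | h | h | h | h | h | h | h | h | h | h | h | h | h | h | h | h | h | h <;>
      rw [h.2] at h3 ⊢
    · exact spor _ 4 (by norm_num) (by norm_num) (by decide) (by decide) p hp hodd h3
    · exact spor _ 6 (by norm_num) (by norm_num) (by decide) (by decide) p hp hodd h3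
    · exact spor _ 7 (by norm_num) (by norm_num) (by decide) (by decide) p hp hodd h3
    · exact spor _ 7 (by norm_num) (by norm_num) (by decide) (by decide) p hp hodd h3
    · exact spor _ 10 (by norm_num) (by norm_num) (by decide) (by decide) p hp hodd h3
    · exact spor _ 3 (by norm_num) (by norm_num) (by decide) (by decide) p hp hodd h3
    · exact spor _ 7 (by norm_num) (by norm_num) (by decide) (by decide) p hp hodd h3
    · exact spor _ 7 (by norm_num) (by norm_num) (by decide) (by decide) p hp hodd h3
    · exact spor _ 21 (by norm_num) (by norm_num) (by decide) (by decide) p hp hodd h3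
    · exact spor _ 21 (by norm_num) (by norm_num) (by decide) (by decide) p hp hodd h3
    · exact spor _ 18 (by norm_num) (by norm_num) (by decide) (by decide) p hp hodd h3
    · exact spor _ 10 (by norm_num) (by norm_num) (by decide) (by decide) p hp hodd h3
    · exact spor _ 17 (by norm_num) (by norm_num) (by decide) (by decide) p hp hodd h3
    · exact spor _ 18 (by norm_num) (by norm_num) (by decide) (by decide) p hp hodd h3
    · exact spor _ 21 (by norm_num) (by norm_num) (by decide) (by decide) p hp hodd h3
    · exact spor _ 9 (by norm_num) (by norm_num) (by decide) (by decide) p hp hodd h3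
    · exact spor _ 7 (by norm_num) (by norm_num) (by decide) (by decide) p hp hodd h3
    · exact spor _ 10 (by norm_num) (by norm_num) (by decide) (by decide) p hp hodd h3
    · exact spor _ 14 (by norm_num) (by norm_num) (by decide) (by decide) p hp hodd h3
    · exact spor _ 13 (by norm_num) (by norm_num) (by decide) (by decide) p hp hodd h3
    · exact spor _ 9 (by norm_num) (by norm_num) (by decide) (by decide) p hp hodd h3
    · exact spor _ 14 (by norm_num) (by norm_num) (by decide) (by decide) p hp hodd h3
    · exact spor _ 8 (by norm_num) (by norm_num) (by decide) (by decide) p hp hodd h3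
    · exact spor _ 15 (by norm_num) (by norm_num) (by decide) (by decide) p hp hodd h3
    · exact spor _ 41 (by norm_num) (by norm_num) (by decide) (by decide) p hp hodd h3
    · exact spor _ 46 (by norm_num) (by norm_num) (by decide) (by decide) p hp hodd h3

end CfsgLib.CubeH12
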