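import Cfsg.Agent.EqBase
import Cfsg.Agent.LibCyc
/-!
# Cyclic TI subgroups `W₁ × W₂`, part 2: functions supported on `V` (helper16)
-/
set_option autoImplicit false
set_option linter.all false
open Cfsg CfsgLib.CharBasic CfsgLib.CharIndA CfsgLib.CharNorm
open scoped ComplexConjugate
namespace CfsgLib.Cyc

/-- linear characters of a finite abelian group separate points from subgroups -/
theorem exists_hom_ne {A : Type*} [Group A] [Finite A] (hab : ∀ a b : A, a * b = b * a) {N : Subgroup A} {x : A}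
    (hx : x ∉ N) : ∃ f : A →* ℂˣ, (∀ n ∈ N, f n = 1) ∧ f x ≠ 1 := by
  letI : CommGroup A := { (inferInstance : Group A) with mul_comm := hab }
  haveI : N.Normal := inferInstance
  haveI : NeZero (Monoid.exponent (A ⧸ N)) := ⟨Monoid.exponent_ne_zero_of_finite⟩
  have hx1 : (x : A ⧸ N) ≠ 1 := by rwa [Ne, QuotientGroup.eq_one_iff]
  obtain ⟨φ, hφ⟩ := CommGroup.exists_apply_ne_one_of_hasEnoughRootsOfUnity (A ⧸ N) ℂ hx1
  refine ⟨φ.comp (QuotientGroup.mk' N), ?_, hφ⟩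
  intro n hn
  rw [MonoidHom.comp_apply]
  have : QuotientGroup.mk' N n = 1 := (QuotientGroup.eq_one_iff _).2 hn
  rw [this, map_one]

instance homFinite {A : Type*} [Group A] [Finite A] : Finite (A →* ℂˣ) := by
  haveI := Fintype.ofFinite A
  have h : Function.Injective (fun f : A →* ℂˣ => (⟨fun g => (f g : ℂ), isIrrCharacter_hom f⟩ : IrrCharacter A)) := by
    intro f f' h
    exact hom_ext_fun (congrArg Subtype.val h)
  exact Finite.of_injective _ h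

universe u
variable {G : Type u} [Group G] {W₁ W₂ : Subgroup G}

open Classical in
/-- the sum over linear characters trivial on `X` -/
theorem sum_Tr {W X : Subgroup G} [Finite W] [Fintype (W →* ℂˣ)] (hab : ∀ a b : W, a * b = b * a) (y : W) :
    ∑ φ ∈ Finset.univ.filter (fun φ : W →* ℂˣ => Tr W X φ), (φ y : ℂ) =
      if (y : G) ∈ X then ((Finset.univ.filter (fun φ : W →* ℂˣ => Tr W X φ)).card : ℂ) else 0 := by
  split_ifs with hy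
  · rw [Finset.card_eq_sum_ones, Nat.cast_sum]
    refine Finset.sum_congr rfl fun φ hφ => ?_
    rw [Finset.mem_filter] at hφ
    rw [hφ.2 y hy]; simp
  · obtain ⟨f, hf, hfy⟩ := exists_hom_ne hab (N := X.subgroupOf W) (x := y) (by rwa [Subgroup.mem_subgroupOf])
    have hfT : Tr W X f := fun w hw => hf w (by rwa [Subgroup.mem_subgroupOf])
    have h1 : ∑ φ ∈ Finset.univ.filter (fun φ : W →* ℂˣ => Tr W X φ), (φ y : ℂ) =
        ∑ φ ∈ Finset.univ.filter (fun φ : W →* ℂˣ => Tr W X φ), ((f * φ) y : ℂ) := by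
      refine Finset.sum_bij' (fun φ _ => f⁻¹ * φ) (fun φ _ => f * φ) ?_ ?_ ?_ ?_ ?_
      · intro φ hφ
        rw [Finset.mem_filter] at hφ ⊢
        exact ⟨Finset.mem_univ _, hfT.inv.mul hφ.2⟩
      · intro φ hφ
        rw [Finset.mem_filter] at hφ ⊢
        exact ⟨Finset.mem_univ _, hfT.mul hφ.2⟩
      · intro φ _; exact mul_inv_cancel_left f φ
      · intro φ _; exact inv_mul_cancel_left f φ
      · intro φ _
        have e : f * (f⁻¹ * φ) = φ := mul_inv_cancel_left f φ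
        rw [e]
    have h2 : ∑ φ ∈ Finset.univ.filter (fun φ : W →* ℂˣ => Tr W X φ), ((f * φ) y : ℂ) =
        (f y : ℂ) * ∑ φ ∈ Finset.univ.filter (fun φ : W →* ℂˣ => Tr W X φ), (φ y : ℂ) := by
      rw [Finset.mul_sum]
      exact Finset.sum_congr rfl fun φ _ => by simp
    rw [h2] at h1
    have h3 : (1 - (f y : ℂ)) * ∑ φ ∈ Finset.univ.filter (fun φ : W →* ℂˣ => Tr W X φ), (φ y : ℂ) = 0 := by
      rw [sub_mul, one_mul]; exact sub_eq_zero.mpr h1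
    rcases mul_eq_zero.mp h3 with h4 | h4
    · exfalso; apply hfy
      apply Units.ext
      rw [Units.val_one]; exact (sub_eq_zero.mp h4).symm
    · exact h4

theorem comm_of_cyclic {W : Subgroup G} (h : IsCyclic W) (a b : W) : a * b = b * a := by
  obtain ⟨g, hg⟩ := h
  obtain ⟨i, rfl⟩ := hg a
  obtain ⟨j, rfl⟩ := hg b
  simp only
  rw [← zpow_add, ← zpow_add, add_comm]

/-- a function orthogonal to all `al φ ψ` vanishes on `V` -/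
theorem span_V [Finite G] [Fintype ↥(W₁ ⊔ W₂)] (hd : W₁ ⊓ W₂ = ⊥) (hab : ∀ a b : ↥(W₁ ⊔ W₂), a * b = b * a)
    {f : ↥(W₁ ⊔ W₂) → ℂ}
    (h : ∀ φ ψ : ↥(W₁ ⊔ W₂) →* ℂˣ, Tr _ W₂ φ → Tr _ W₁ ψ → classInner (al φ ψ) f = 0)
    (v : ↥(W₁ ⊔ W₂)) (hv : (v : G) ∈ V W₁ W₂) : f v = 0 := by
  classical
  haveI : Fintype (↥(W₁ ⊔ W₂) →* ℂˣ) := Fintype.ofFinite _
  obtain ⟨-, hv1, hv2⟩ := mem_V.mp hv
  set Φ := Finset.univ.filter (fun φ : ↥(W₁ ⊔ W₂) →* ℂˣ => Tr _ W₂ φ) with hΦ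
  set Ψ := Finset.univ.filter (fun φ : ↥(W₁ ⊔ W₂) →* ℂˣ => Tr _ W₁ φ) with hΨ
  have h1 : ∑ φ ∈ Φ, ∑ ψ ∈ Ψ, ((φ v⁻¹ : ℂ) * (ψ v⁻¹ : ℂ)) * classInner (al φ ψ) f = 0 := by
    refine Finset.sum_eq_zero fun φ hφ => Finset.sum_eq_zero fun ψ hψ => ?_
    rw [h φ ψ (Finset.mem_filter.mp hφ).2 (Finset.mem_filter.mp hψ).2, mul_zero]
  have h2 : ∑ φ ∈ Φ, ∑ ψ ∈ Ψ, ((φ v⁻¹ : ℂ) * (ψ v⁻¹ : ℂ)) * classInner (al φ ψ) f =
      classInner (∑ φ ∈ Φ, ∑ ψ ∈ Ψ, ((φ v⁻¹ : ℂ) * (ψ v⁻¹ : ℂ)) • al φ ψ) f := by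
    rw [ci_sum_l]
    refine Finset.sum_congr rfl fun φ _ => ?_
    rw [ci_sum_l]
    refine Finset.sum_congr rfl fun ψ _ => ?_
    rw [ci_smul_l]
  have hne : ∀ X : Subgroup G, (v : G) ∉ X → ((v⁻¹ : ↥(W₁ ⊔ W₂)) : G) ∉ X := by
    intro X hX hX'
    exact hX (by simpa using hX')
  have h3 : ∀ (X : Subgroup G) (x : ↥(W₁ ⊔ W₂)), (v : G) ∉ X →
      ∑ φ ∈ Finset.univ.filter (fun φ : ↥(W₁ ⊔ W₂) →* ℂˣ => Tr _ X φ), (φ v⁻¹ : ℂ) * (1 - (φ x : ℂ)) =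
      - (if ((v⁻¹ * x : ↥(W₁ ⊔ W₂)) : G) ∈ X then ((Finset.univ.filter (fun φ : ↥(W₁ ⊔ W₂) →* ℂˣ => Tr _ X φ)).card : ℂ) else 0) := by
    intro X x hX
    have e1 : ∀ φ : ↥(W₁ ⊔ W₂) →* ℂˣ, (φ v⁻¹ : ℂ) * (1 - (φ x : ℂ)) = (φ v⁻¹ : ℂ) - (φ (v⁻¹ * x) : ℂ) := by
      intro φ; rw [map_mul, Units.val_mul]; ring
    rw [Finset.sum_congr rfl fun φ _ => e1 φ, Finset.sum_sub_distrib, sum_Tr hab, sum_Tr hab, if_neg (hne X hX), zero_sub]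
  have h4 : ∀ x : ↥(W₁ ⊔ W₂), (∑ φ ∈ Φ, ∑ ψ ∈ Ψ, ((φ v⁻¹ : ℂ) * (ψ v⁻¹ : ℂ)) • al φ ψ) x =
      if x = v then (Φ.card : ℂ) * Ψ.card else 0 := by
    intro x
    simp only [Finset.sum_apply, Pi.smul_apply, smul_eq_mul]
    have e1 : ∑ φ ∈ Φ, ∑ ψ ∈ Ψ, ((φ v⁻¹ : ℂ) * (ψ v⁻¹ : ℂ)) * al φ ψ x =
        (∑ φ ∈ Φ, (φ v⁻¹ : ℂ) * (1 - (φ x : ℂ))) * ∑ ψ ∈ Ψ, (ψ v⁻¹ : ℂ) * (1 - (ψ x : ℂ)) := by
      rw [Finset.sum_mul_sum]
      refine Finset.sum_congr rfl fun φ _ => Finset.sum_congr rfl fun ψ _ => ?_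
      rw [al_eq]; ring
    rw [e1, h3 W₂ x hv2, h3 W₁ x hv1]
    split_ifs with a b c c b c c
    · ring
    · exfalso; apply c
      have : ((v⁻¹ * x : ↥(W₁ ⊔ W₂)) : G) ∈ W₁ ⊓ W₂ := ⟨b, a⟩
      rw [hd, Subgroup.mem_bot] at this
      have := Subtype.ext (a1 := v⁻¹ * x) (a2 := 1) this
      exact (inv_mul_eq_one.mp this).symm
    · exfalso; apply b; rw [c, inv_mul_cancel]; exact W₁.one_mem
    · ring
    · exfalso; apply a; rw [c, inv_mul_cancel]; exact W₂.one_mem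
    · ring
    · exfalso; apply a; rw [c, inv_mul_cancel]; exact W₂.one_mem
    · ring
  rw [h2] at h1
  unfold classInner at h1
  have h5 : ∀ x : ↥(W₁ ⊔ W₂), (∑ φ ∈ Φ, ∑ ψ ∈ Ψ, ((φ v⁻¹ : ℂ) * (ψ v⁻¹ : ℂ)) • al φ ψ) x * conj (f x) =
      if x = v then (Φ.card : ℂ) * Ψ.card * conj (f v) else 0 := by
    intro x
    rw [h4 x]
    split_ifs with hx
    · rw [hx]
    · rw [zero_mul]
  rw [Finset.sum_congr rfl fun x _ => h5 x, Finset.sum_ite_eq' Finset.univ v, if_pos (Finset.mem_univ _)] at h1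
  have hΦ0 : (Φ.card : ℂ) ≠ 0 := by
    have : (1 : ↥(W₁ ⊔ W₂) →* ℂˣ) ∈ Φ := Finset.mem_filter.mpr ⟨Finset.mem_univ _, Tr.one⟩
    exact_mod_cast (Finset.card_pos.mpr ⟨_, this⟩).ne'
  have hΨ0 : (Ψ.card : ℂ) ≠ 0 := by
    have : (1 : ↥(W₁ ⊔ W₂) →* ℂˣ) ∈ Ψ := Finset.mem_filter.mpr ⟨Finset.mem_univ _, Tr.one⟩
    exact_mod_cast (Finset.card_pos.mpr ⟨_, this⟩).ne'
  have hW0 : (Nat.card ↥(W₁ ⊔ W₂) : ℂ) ≠ 0 := by exact_mod_cast Nat.card_pos.ne'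
  have h6 : conj (f v) = 0 := by
    simp only [mul_eq_zero, inv_eq_zero] at h1
    tauto
  simpa using h6

/-- the induction identity, in all cases -/
theorem fam_ind [Fintype G] {χ : (↥(W₁ ⊔ W₂) →* ℂˣ) → (G → ℂ)} (hχ : IsCyclicTIFamily W₁ W₂ χ)
    {φ ψ : ↥(W₁ ⊔ W₂) →* ℂˣ} (h1 : Tr _ W₂ φ) (h2 : Tr _ W₁ ψ) :
    indFun (W₁ ⊔ W₂) (al φ ψ) = χ 1 - χ φ - χ ψ + χ (φ * ψ) := by
  have h0 : indFun (W₁ ⊔ W₂) (0 : ↥(W₁ ⊔ W₂) → ℂ) = 0 := by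
    have := ind_smul (W₁ ⊔ W₂) (0 : ℂ) (0 : ↥(W₁ ⊔ W₂) → ℂ)
    rwa [zero_smul, zero_smul] at this
  by_cases hφ : φ = 1
  · subst hφ
    have e : (1 : ↥(W₁ ⊔ W₂) →* ℂˣ) * ψ = ψ := one_mul ψ
    rw [al_one_left, h0, e]; ring
  by_cases hψ : ψ = 1
  · subst hψ
    have e : φ * (1 : ↥(W₁ ⊔ W₂) →* ℂˣ) = φ := mul_one φ
    rw [al_one_right, h0, e]; ring
  · have := hχ.induced_eq φ ψ hφ hψ h1 h2
    have h3 : indFun (W₁ ⊔ W₂) (al φ ψ) = fun g => 1 - χ φ g - χ ψ g + χ (φ * ψ) g := this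
    rw [h3, hχ.map_one]
    rfl

theorem fam_inner [Fintype G] {χ : (↥(W₁ ⊔ W₂) →* ℂˣ) → (G → ℂ)} (hχ : IsCyclicTIFamily W₁ W₂ χ)
    {φ ψ : ↥(W₁ ⊔ W₂) →* ℂˣ} (h1 : Tr _ W₂ φ) (h2 : Tr _ W₁ ψ) [Fintype ↥(W₁ ⊔ W₂)]
    {θ : G → ℂ} (hθ : IsClassFunction G θ) :
    classInner (al φ ψ) (fun w : ↥(W₁ ⊔ W₂) => θ w) =
      classInner (χ 1) θ - classInner (χ φ) θ - classInner (χ ψ) θ + classInner (χ (φ * ψ)) θ := by
  rw [← inner_ind_al hθ, fam_ind hχ h1 h2, ci_add_l, ci_sub_l, ci_sub_l]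

/-- class functions vanishing on `V` -/
theorem inner_vanish [Fintype G] {χ : (↥(W₁ ⊔ W₂) →* ℂˣ) → (G → ℂ)} (hχ : IsCyclicTIFamily W₁ W₂ χ)
    {φ ψ : ↥(W₁ ⊔ W₂) →* ℂˣ} (h1 : Tr _ W₂ φ) (h2 : Tr _ W₁ ψ)
    {θ : G → ℂ} (hθ : IsClassFunction G θ) (hV : ∀ w : ↥(W₁ ⊔ W₂), (w : G) ∉ W₁ → (w : G) ∉ W₂ → θ w = 0) :
    classInner θ (χ (φ * ψ)) = classInner θ (χ φ) + classInner θ (χ ψ) - classInner θ (χ 1) := by
  haveI : Fintype ↥(W₁ ⊔ W₂) := Fintype.ofFinite _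
  have h3 := fam_inner hχ h1 h2 hθ
  have h4 : classInner (al φ ψ) (fun w : ↥(W₁ ⊔ W₂) => θ w) = 0 := by
    unfold classInner
    rw [Finset.sum_eq_zero, mul_zero]
    intro x _
    by_cases hx : (x : G) ∈ V W₁ W₂
    · obtain ⟨-, a, b⟩ := mem_V.mp hx
      rw [hV x a b, map_zero, mul_zero]
    · rw [al_off h1 h2 x hx, zero_mul]
  rw [h4] at h3
  have h5 := congrArg conj h3
  rw [map_zero, map_add, map_sub, map_sub, ci_conj, ci_conj, ci_conj, ci_conj] at h5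
  linear_combination -h5

theorem card_Tr_gen {K Q W : Subgroup G} (hW : W = K ⊔ Q) (hd : K ⊓ Q = ⊥) (hn : ∀ q ∈ Q, ∀ k ∈ K, q * k * q⁻¹ ∈ K) :
    Nat.card {φ : W →* ℂˣ // Tr W K φ} = Nat.card (Q →* ℂˣ) := by
  subst hW
  obtain ⟨hm, π, hπ⟩ := CfsgLib.Dade.exists_proj hn hd
  refine Nat.card_congr
    { toFun := fun φ => φ.1.comp (Subgroup.inclusion (le_sup_right : Q ≤ K ⊔ Q))
      invFun := fun f => ⟨f.comp π, fun w hw => ?_⟩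
      left_inv := ?_
      right_inv := ?_ }
  · have h1 : π w = 1 := hπ w hw 1 w (by simp)
    rw [MonoidHom.comp_apply, h1, map_one]
  · rintro ⟨φ, hφ⟩
    apply Subtype.ext
    ext w
    obtain ⟨k, hk, q, hq, e⟩ := hm w w.2
    have h1 : π w = ⟨q, hq⟩ := hπ k hk ⟨q, hq⟩ w e
    simp only [MonoidHom.comp_apply]
    rw [h1]
    have h2 : w = ⟨k, Subgroup.mem_sup_left hk⟩ * ⟨q, Subgroup.mem_sup_right hq⟩ := Subtype.ext e.symm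
    conv_rhs => rw [h2, map_mul, hφ ⟨k, _⟩ hk, one_mul]
    rfl
  · intro f
    ext q
    simp only [MonoidHom.comp_apply]
    have h1 : π (Subgroup.inclusion (le_sup_right : Q ≤ K ⊔ Q) q) = q := hπ 1 K.one_mem q _ (by simp)
    rw [h1]

theorem card_hom_of_comm' {Q : Subgroup G} [Finite Q] (hab : ∀ a ∈ Q, ∀ b ∈ Q, a * b = b * a) :
    Nat.card (Q →* ℂˣ) = Nat.card Q := by
  letI : CommGroup Q := { (inferInstance : Group Q) with mul_comm := fun a b => Subtype.ext (hab a a.2 b b.2) }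
  exact card_hom_of_comm

theorem card_Tr_right [Finite G] (hd : W₁ ⊓ W₂ = ⊥) (hc : ∀ a ∈ W₁, ∀ b ∈ W₂, a * b = b * a)
    (hab : ∀ a b : ↥(W₁ ⊔ W₂), a * b = b * a) :
    Nat.card {φ : ↥(W₁ ⊔ W₂) →* ℂˣ // Tr _ W₁ φ} = Nat.card W₂ := by
  rw [card_Tr_gen rfl hd, card_hom_of_comm']
  · intro a ha b hb
    have := hab ⟨a, Subgroup.mem_sup_right ha⟩ ⟨b, Subgroup.mem_sup_right hb⟩
    simpa using congrArg Subtype.val this
  · intro q hq k hk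
    rw [← hc k hk q hq]; simpa using hk

theorem card_Tr_left [Finite G] (hd : W₁ ⊓ W₂ = ⊥) (hc : ∀ a ∈ W₁, ∀ b ∈ W₂, a * b = b * a)
    (hab : ∀ a b : ↥(W₁ ⊔ W₂), a * b = b * a) :
    Nat.card {φ : ↥(W₁ ⊔ W₂) →* ℂˣ // Tr _ W₂ φ} = Nat.card W₁ := by
  rw [card_Tr_gen (Q := W₁) (sup_comm _ _) (by rw [inf_comm]; exact hd), card_hom_of_comm']
  · intro a ha b hb
    have := hab ⟨a, Subgroup.mem_sup_left ha⟩ ⟨b, Subgroup.mem_sup_left hb⟩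
    simpa using congrArg Subtype.val this
  · intro q hq k hk
    rw [hc q hq k hk]; simpa using hk

end CfsgLib.Cyc
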