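import Cfsg.Agent.EqBase
/-!
# The combinatorics behind the cyclic TI theorem (helper16)

Integer vectors indexed by a finite set `R` with an involution `c`.
-/
set_option autoImplicit false
set_option linter.all false
namespace CfsgLib.CycComb

open Finset

section Basic
variable {R : Type*} [Fintype R] [DecidableEq R]

theorem small {a : R → ℤ} {n : ℤ} (h : ∑ r, a r ^ 2 = n) (r : R) : a r ^ 2 ≤ n := by
  rw [← h]
  exact Finset.single_le_sum (f := fun r => a r ^ 2) (fun _ _ => sq_nonneg _) (Finset.mem_univ r)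

theorem vals {a : R → ℤ} (h : ∑ r, a r ^ 2 = 3) (r : R) : a r = 0 ∨ a r = 1 ∨ a r = -1 := by
  have h1 := small h r
  have h2 : -2 < a r := by nlinarith
  have h3 : a r < 2 := by nlinarith
  omega

/-- a vector of norm three -/
theorem supp3 {a : R → ℤ} (h : ∑ r, a r ^ 2 = 3) : ∃ u v w : R, u ≠ v ∧ u ≠ w ∧ v ≠ w ∧
    (∀ r, a r ≠ 0 ↔ (r = u ∨ r = v ∨ r = w)) := by
  have h1 : ∀ r, a r ^ 2 = if a r ≠ 0 then 1 else 0 := by
    intro r
    rcases vals h r with h1 | h1 | h1 <;> rw [h1] <;> simp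
  rw [Finset.sum_congr rfl fun r _ => h1 r, ← Finset.sum_filter, Finset.sum_const, nsmul_eq_mul, mul_one] at h
  have h2 : (Finset.univ.filter (fun r => a r ≠ 0)).card = 3 := by exact_mod_cast h
  obtain ⟨u, v, w, h3, h4, h5, h6⟩ := Finset.card_eq_three.mp h2
  refine ⟨u, v, w, h3, h4, h5, fun r => ?_⟩
  have : r ∈ Finset.univ.filter (fun r => a r ≠ 0) ↔ r ∈ ({u, v, w} : Finset R) := by rw [h6]
  simpa using this

theorem sum3 {a : R → ℤ} {u v w : R} (huv : u ≠ v) (huw : u ≠ w) (hvw : v ≠ w)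
    (hs : ∀ r, a r ≠ 0 → (r = u ∨ r = v ∨ r = w)) (f : R → ℤ) :
    ∑ r, a r * f r = a u * f u + a v * f v + a w * f w := by
  have h1 : ∑ r, a r * f r = ∑ r ∈ ({u, v, w} : Finset R), a r * f r := by
    symm
    apply Finset.sum_subset (Finset.subset_univ _)
    intro r _ hr
    have : a r = 0 := by
      by_contra hne
      have := hs r hne
      apply hr
      simpa using this
    rw [this, zero_mul]
  rw [h1, Finset.sum_insert (by simp [huv, huw]), Finset.sum_insert (by simp [hvw]), Finset.sum_singleton]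
  ring

/-- orthogonality of `a` to its conjugate, pointwise -/
theorem self_conj {c : R → R} (hc : ∀ r, c (c r) = r) {a : R → ℤ} (h : ∑ r, a r ^ 2 = 3)
    (h0 : ∑ r, a r * a (c r) = 0) (r : R) : a r * a (c r) = 0 := by
  obtain ⟨u, v, w, huv, huw, hvw, hs⟩ := supp3 h
  rw [sum3 huv huw hvw (fun r => (hs r).mp) (fun r => a (c r))] at h0
  by_contra hcon
  have hu := (hs u).mpr (Or.inl rfl)
  have hv := (hs v).mpr (Or.inr (Or.inl rfl))
  have hw := (hs w).mpr (Or.inr (Or.inr rfl))
  have ku : a u = 1 ∨ a u = -1 := (vals h u).resolve_left hu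
  have kv : a v = 1 ∨ a v = -1 := (vals h v).resolve_left hv
  have kw : a w = 1 ∨ a w = -1 := (vals h w).resolve_left hw
  have hr := (hs r).mp (left_ne_zero_of_mul hcon)
  have cu := hs (c u)
  have cv := hs (c v)
  have cw := hs (c w)
  have c1 : ∀ p q, c p = q → c q = p := by rintro p q rfl; exact hc p
  have hinj : ∀ p q, c p = c q → p = q := by
    intro p q h
    rw [← hc p, h, hc]
  have key : ∀ p, a p * a (c p) ≠ 0 → (c p = u ∨ c p = v ∨ c p = w) := fun p hp => (hs _).mp (right_ne_zero_of_mul hp)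
  have fu := key u
  have fv := key v
  have fw := key w
  have z : ∀ p, ¬ (c p = u ∨ c p = v ∨ c p = w) → a (c p) = 0 := by
    intro p hp
    by_contra hne
    exact hp ((hs _).mp hne)
  have zu := z u
  have zv := z v
  have zw := z w
  clear hs cu cv cw key z h
  by_cases huu : c u = u
  · rw [huu] at h0
    by_cases hvv : c v = v
    · rw [hvv] at h0
      by_cases hww : c w = w
      · rw [hww] at h0
        rcases ku with h1 | h1 <;> rcases kv with h2 | h2 <;> rcases kw with h3 | h3 <;> rw [h1, h2, h3] at h0 <;> omega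
      · have : a (c w) = 0 := zw (by
          rintro (h | h | h)
          · exact huw (hinj _ _ (huu.trans h.symm))
          · exact hvw (hinj _ _ (hvv.trans h.symm))
          · exact hww h)
        rw [this] at h0
        rcases ku with h1 | h1 <;> rcases kv with h2 | h2 <;> rw [h1, h2] at h0 <;> omega
    · by_cases hvw' : c v = w
      · rw [hvw', c1 _ _ hvw'] at h0
        rcases ku with h1 | h1 <;> rcases kv with h2 | h2 <;> rcases kw with h3 | h3 <;> rw [h1, h2, h3] at h0 <;> omega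
      · have : a (c v) = 0 := zv (by
          rintro (h | h | h)
          · exact huv (hinj _ _ (huu.trans h.symm))
          · exact hvv h
          · exact hvw' h)
        rw [this] at h0
        have kc : a (c w) = 0 ∨ a (c w) = a w := by
          by_cases hww : c w = w
          · right; rw [hww]
          · left
            exact zw (by
              rintro (h | h | h)
              · exact huw (hinj _ _ (huu.trans h.symm))
              · exact hvw' (c1 _ _ h)
              · exact hww h)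
        rcases kc with h4 | h4 <;> rw [h4] at h0 <;>
        rcases ku with h1 | h1 <;> rcases kw with h3 | h3 <;> rw [h1, h3] at h0 <;> omega
  · by_cases huv' : c u = v
    · have hvu := c1 _ _ huv'
      rw [huv', hvu] at h0
      have kc : a (c w) = 0 ∨ a (c w) = a w := by
        by_cases hww : c w = w
        · right; rw [hww]
        · left
          exact zw (by
            rintro (h | h | h)
            · exact hvw (hinj _ _ (hvu.trans h.symm))
            · exact huw (hinj _ _ (huv'.trans h.symm))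
            · exact hww h)
      rcases kc with h4 | h4 <;> rw [h4] at h0 <;>
      rcases ku with h1 | h1 <;> rcases kv with h2 | h2 <;> rcases kw with h3 | h3 <;> rw [h1, h2, h3] at h0 <;> omega
    · by_cases huw' : c u = w
      · have hwu := c1 _ _ huw'
        rw [huw', hwu] at h0
        have kc : a (c v) = 0 ∨ a (c v) = a v := by
          by_cases hvv : c v = v
          · right; rw [hvv]
          · left
            exact zv (by
              rintro (h | h | h)
              · exact huv' (c1 _ _ h)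
              · exact hvv h
              · exact huv (hinj _ _ (huw'.trans h.symm)))
        rcases kc with h4 | h4 <;> rw [h4] at h0 <;>
        rcases ku with h1 | h1 <;> rcases kv with h2 | h2 <;> rcases kw with h3 | h3 <;> rw [h1, h2, h3] at h0 <;> omega
      · have hcu : a (c u) = 0 := zu (by rintro (h | h | h); exacts [huu h, huv' h, huw' h])
        rw [hcu] at h0
        by_cases hvv : c v = v
        · rw [hvv] at h0
          have kc : a (c w) = 0 ∨ a (c w) = a w := by
            by_cases hww : c w = w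
            · right; rw [hww]
            · left
              exact zw (by
                rintro (h | h | h)
                · exact huw' (c1 _ _ h)
                · exact hvw (hinj _ _ (hvv.trans h.symm))
                · exact hww h)
          rcases kc with h4 | h4 <;> rw [h4] at h0 <;>
          rcases kv with h2 | h2 <;> rcases kw with h3 | h3 <;> rw [h2, h3] at h0 <;> omega
        · by_cases hvw' : c v = w
          · rw [hvw', c1 _ _ hvw'] at h0
            rcases kv with h2 | h2 <;> rcases kw with h3 | h3 <;> rw [h2, h3] at h0 <;> omega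
          · have hcv : a (c v) = 0 := zv (by rintro (h | h | h); exacts [huv' (c1 _ _ h), hvv h, hvw' h])
            rw [hcv] at h0
            have hcw : a (c w) = 0 := by
              have h5 : a w * a (c w) = 0 := by linarith
              rcases mul_eq_zero.mp h5 with h6 | h6
              · exact absurd h6 hw
              · exact h6
            rcases hr with rfl | rfl | rfl
            · exact hcon (by rw [hcu, mul_zero])
            · exact hcon (by rw [hcv, mul_zero])
            · exact hcon (by rw [hcw, mul_zero])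

/-- two vectors of norm three with product one and the same degree have no opposite entries -/
theorem no_opp {d : R → ℤ} (hd : ∀ r, 0 < d r) {a b : R → ℤ} (ha : ∑ r, a r ^ 2 = 3) (hb : ∑ r, b r ^ 2 = 3)
    (hab : ∑ r, a r * b r = 1) (hdeg : ∑ r, d r * a r = ∑ r, d r * b r) (r : R) : 0 ≤ a r * b r := by
  by_contra hcon
  push Not at hcon
  have h1 : ∑ r, (a r - b r) ^ 2 = 4 := by
    have : ∀ r, (a r - b r) ^ 2 = a r ^ 2 + b r ^ 2 - 2 * (a r * b r) := fun r => by ring
    rw [Finset.sum_congr rfl fun r _ => this r, Finset.sum_sub_distrib, Finset.sum_add_distrib, ha, hb, ← Finset.mul_sum, hab]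
    norm_num
  have h2 : (a r - b r) ^ 2 ≥ 4 := by
    rcases vals ha r with h | h | h <;> rcases vals hb r with h' | h' | h' <;> rw [h, h'] at hcon ⊢ <;> revert hcon <;> norm_num
  have h3 : ∀ s, s ≠ r → a s = b s := by
    intro s hs
    have h4 : (a r - b r) ^ 2 + (a s - b s) ^ 2 ≤ 4 := by
      rw [← h1, ← Finset.sum_pair (f := fun t => (a t - b t) ^ 2) hs.symm]
      exact Finset.sum_le_sum_of_subset_of_nonneg (Finset.subset_univ _) fun _ _ _ => sq_nonneg _
    have h5 : (a s - b s) ^ 2 = 0 := le_antisymm (by linarith) (sq_nonneg _)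
    have := pow_eq_zero_iff (two_ne_zero) |>.mp h5
    linarith
  have h4 : ∑ s, d s * (a s - b s) = d r * (a r - b r) := by
    apply Finset.sum_eq_single r
    · intro s _ hs
      rw [h3 s hs, sub_self, mul_zero]
    · intro h; exact absurd (Finset.mem_univ r) h
  have h5 : ∑ s, d s * (a s - b s) = 0 := by
    have : ∀ s, d s * (a s - b s) = d s * a s - d s * b s := fun s => by ring
    rw [Finset.sum_congr rfl fun s _ => this s, Finset.sum_sub_distrib, hdeg, sub_self]
  rw [h5] at h4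
  have h6 : a r - b r = 0 := by
    rcases mul_eq_zero.mp h4.symm with h | h
    · exact absurd h (hd r).ne'
    · exact h
  rw [h6] at h2
  norm_num at h2

/-- nonnegative products with sum one: exactly one common element -/
theorem exists_common {a b : R → ℤ} (ha : ∑ r, a r ^ 2 = 3) (hb : ∑ r, b r ^ 2 = 3)
    (hab : ∑ r, a r * b r = 1) (hn : ∀ r, 0 ≤ a r * b r) :
    ∃ x, a x = b x ∧ a x ≠ 0 ∧ ∀ r, r ≠ x → a r * b r = 0 := by
  have h1 : ∀ r, a r * b r = if a r * b r ≠ 0 then 1 else 0 := by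
    intro r
    have h2 := hn r
    rcases vals ha r with h | h | h <;> rcases vals hb r with h' | h' | h' <;> rw [h, h'] at h2 ⊢ <;> revert h2 <;> norm_num
  have hab' := hab
  rw [Finset.sum_congr rfl fun r _ => h1 r, ← Finset.sum_filter, Finset.sum_const, nsmul_eq_mul, mul_one] at hab'
  have h2 : (Finset.univ.filter (fun r => a r * b r ≠ 0)).card = 1 := by exact_mod_cast hab'
  obtain ⟨x, hx⟩ := Finset.card_eq_one.mp h2
  have h3 : ∀ r, a r * b r ≠ 0 ↔ r = x := by
    intro r
    have : r ∈ Finset.univ.filter (fun r => a r * b r ≠ 0) ↔ r ∈ ({x} : Finset R) := by rw [hx]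
    simpa using this
  refine ⟨x, ?_, left_ne_zero_of_mul ((h3 x).mpr rfl), ?_⟩
  · have h4 := (h3 x).mpr rfl
    have h5 := hn x
    rcases vals ha x with h | h | h <;> rcases vals hb x with h' | h' | h' <;> rw [h, h'] at h4 h5 ⊢ <;> revert h4 h5 <;> norm_num
  · intro r hr
    by_contra hne
    exact hr ((h3 r).mp hne)

end Basic

section Row
variable {R : Type*} [Fintype R] [DecidableEq R]

theorem third {a : R → ℤ} (h : ∑ r, a r ^ 2 = 3) {x y : R} (hx : a x ≠ 0) (hy : a y ≠ 0) (hxy : x ≠ y) :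
    ∃ z, z ≠ x ∧ z ≠ y ∧ a z ≠ 0 ∧ ∀ r, a r ≠ 0 → (r = x ∨ r = y ∨ r = z) := by
  obtain ⟨u, v, w, huv, huw, hvw, hs⟩ := supp3 h
  have hu := (hs u).mpr (Or.inl rfl)
  have hv := (hs v).mpr (Or.inr (Or.inl rfl))
  have hw := (hs w).mpr (Or.inr (Or.inr rfl))
  rcases (hs x).mp hx with rfl | rfl | rfl <;> rcases (hs y).mp hy with rfl | rfl | rfl
  · exact absurd rfl hxy
  · exact ⟨w, huw.symm, hvw.symm, hw, fun r hr => by have := (hs r).mp hr; tauto⟩
  · exact ⟨v, huv.symm, hvw, hv, fun r hr => by have := (hs r).mp hr; tauto⟩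
  · exact ⟨w, hvw.symm, huw.symm, hw, fun r hr => by have := (hs r).mp hr; tauto⟩
  · exact absurd rfl hxy
  · exact ⟨u, huv, huw, hu, fun r hr => by have := (hs r).mp hr; tauto⟩
  · exact ⟨v, hvw, huv.symm, hv, fun r hr => by have := (hs r).mp hr; tauto⟩
  · exact ⟨u, huw, huv, hu, fun r hr => by have := (hs r).mp hr; tauto⟩
  · exact absurd rfl hxy

/-- a `2 × 2` block closed under conjugation -/
structure Blk (c : R → R) (a b : R → ℤ) : Prop where
  aa : ∑ r, a r ^ 2 = 3
  bb : ∑ r, b r ^ 2 = 3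
  ab : ∑ r, a r * b r = 1
  ab' : ∑ r, a r * b (c r) = 1
  nab : ∀ r, 0 ≤ a r * b r
  nab' : ∀ r, 0 ≤ a r * b (c r)
  ac : ∀ r, a r * a (c r) = 0
  bc : ∀ r, b r * b (c r) = 0

theorem sum_conj {c : R → R} (hc : ∀ r, c (c r) = r) (f : R → ℤ) : ∑ r, f (c r) = ∑ r, f r :=
  Equiv.sum_comp (⟨c, c, hc, hc⟩ : R ≃ R) f

theorem Blk.elems {c : R → R} (hc : ∀ r, c (c r) = r) {a b : R → ℤ} (B : Blk c a b) :
    ∃ x y z t : R, x ≠ y ∧ x ≠ z ∧ y ≠ z ∧ x ≠ c y ∧ x ≠ t ∧ c y ≠ t ∧
      a x = b x ∧ a y = b (c y) ∧ a x ≠ 0 ∧ a y ≠ 0 ∧ a z ≠ 0 ∧ b t ≠ 0 ∧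
      (∀ r, a r ≠ 0 → (r = x ∨ r = y ∨ r = z)) ∧ (∀ r, b r ≠ 0 → (r = x ∨ r = c y ∨ r = t)) ∧
      b z = 0 ∧ b (c z) = 0 ∧ a t = 0 ∧ a (c t) = 0 ∧ a (c x) = 0 ∧ b (c x) = 0 ∧ a (c y) = 0 ∧ b y = 0 := by
  obtain ⟨x, hx1, hx2, hx3⟩ := exists_common B.aa B.bb B.ab B.nab
  have hbb : ∑ r, (fun r => b (c r)) r ^ 2 = 3 := by
    rw [← B.bb]; exact sum_conj hc (fun r => b r ^ 2)
  obtain ⟨y, hy1, hy2, hy3⟩ := exists_common B.aa hbb B.ab' B.nab'
  have hbx : b x ≠ 0 := by rw [← hx1]; exact hx2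
  have hbcy : b (c y) ≠ 0 := by rw [← show a y = b (c y) from hy1]; exact hy2
  have hbcx : b (c x) = 0 := (mul_eq_zero.mp (B.bc x)).resolve_left hbx
  have hxy : x ≠ y := by rintro rfl; exact hbcy hbcx
  have hacx : a (c x) = 0 := (mul_eq_zero.mp (B.ac x)).resolve_left hx2
  have hacy : a (c y) = 0 := (mul_eq_zero.mp (B.ac y)).resolve_left hy2
  have hby : b y = 0 := by
    have := B.bc y
    exact (mul_eq_zero.mp this).resolve_right hbcy
  have hxcy : x ≠ c y := by intro h; rw [← h] at hacy; exact hx2 hacy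
  obtain ⟨z, hz1, hz2, hz3, hz4⟩ := third B.aa hx2 hy2 hxy
  obtain ⟨t, ht1, ht2, ht3, ht4⟩ := third B.bb hbx hbcy hxcy
  refine ⟨x, y, z, t, hxy, hz1.symm, hz2.symm, hxcy, ht1.symm, ht2.symm, hx1, hy1, hx2, hy2, hz3, ht3, hz4, ht4,
    ?_, ?_, ?_, ?_, hacx, hbcx, hacy, hby⟩
  · exact (mul_eq_zero.mp (hx3 z hz1)).resolve_left hz3
  · exact (mul_eq_zero.mp (hy3 z hz2)).resolve_left hz3
  · exact (mul_eq_zero.mp (hx3 t ht1)).resolve_right ht3
  · have h1 : c t ≠ y := by rintro rfl; exact ht2 (hc t).symm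
    have h2 := hy3 (c t) h1
    simp only [hc] at h2
    exact (mul_eq_zero.mp h2).resolve_right ht3

/-- zero patterns separate the elements of a block -/
theorem Blk.inj {c : R → R} (hc : ∀ r, c (c r) = r) {a b : R → ℤ} (B : Blk c a b) {r s : R}
    (h1 : a r = 0 ↔ a s = 0) (h2 : b r = 0 ↔ b s = 0) (h3 : a (c r) = 0 ↔ a (c s) = 0) (h4 : b (c r) = 0 ↔ b (c s) = 0)
    (hne : ¬ (a r = 0 ∧ b r = 0 ∧ a (c r) = 0 ∧ b (c r) = 0)) : r = s := by
  obtain ⟨x, y, z, t, -, -, -, -, -, -, e1, e2, ax, ay, az, bt, sa, sb, bz, bcz, at0, act, acx, bcx, acy, by0⟩ := B.elems hc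
  have bx : b x ≠ 0 := by rw [← e1]; exact ax
  have bcy : b (c y) ≠ 0 := by rw [← e2]; exact ay
  have key : ∀ r s : R, (a r = 0 ↔ a s = 0) → (b r = 0 ↔ b s = 0) → (a (c r) = 0 ↔ a (c s) = 0) → (b (c r) = 0 ↔ b (c s) = 0) →
      ¬ (a r = 0 ∧ b r = 0) → r = s := by
    intro r s h1 h2 h3 h4 h5
    by_cases har : a r = 0
    · have hbr : b r ≠ 0 := fun h => h5 ⟨har, h⟩
      have hbs : b s ≠ 0 := fun h => hbr (h2.mpr h)
      rcases sb r hbr with rfl | rfl | rfl
      · exact absurd har ax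
      · rcases sb s hbs with rfl | rfl | rfl
        · exact absurd (h1.mp har) ax
        · rfl
        · rw [hc] at h3
          exact absurd (h3.mpr act) ay
      · rcases sb s hbs with rfl | rfl | rfl
        · exact absurd (h1.mp har) ax
        · rw [hc] at h3
          exact absurd (h3.mp act) ay
        · rfl
    · have has : a s ≠ 0 := fun h => har (h1.mpr h)
      rcases sa r har with rfl | rfl | rfl
      · rcases sa s has with rfl | rfl | rfl
        · rfl
        · exact absurd (h2.mpr by0) bx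
        · exact absurd (h2.mpr bz) bx
      · rcases sa s has with rfl | rfl | rfl
        · exact absurd (h2.mp by0) bx
        · rfl
        · exact absurd (h4.mpr bcz) bcy
      · rcases sa s has with rfl | rfl | rfl
        · exact absurd (h2.mp bz) bx
        · exact absurd (h4.mp bcz) bcy
        · rfl
  by_cases h5 : a r = 0 ∧ b r = 0
  · have h6 : ¬ (a (c r) = 0 ∧ b (c r) = 0) := fun h => hne ⟨h5.1, h5.2, h.1, h.2⟩
    have h7 := key (c r) (c s) h3 h4 (by rw [hc, hc]; exact h1) (by rw [hc, hc]; exact h2) h6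
    rw [← hc r, h7, hc]
  · exact key r s h1 h2 h3 h4 h5

/-- the finite check -/
abbrev Q4 := ℤ × ℤ × ℤ × ℤ

def sw (p : Q4) : Q4 := (p.2.2.1, p.2.2.2, p.1, p.2.1)

def good (p : Q4) : Bool :=
  p == (0, 0, 0, 0) || p == (1, 0, 0, 0) || p == (-1, 0, 0, 0) || p == (0, 1, 0, 0) || p == (0, -1, 0, 0) ||
  p == (0, 0, 1, 0) || p == (0, 0, -1, 0) || p == (0, 0, 0, 1) || p == (0, 0, 0, -1) ||
  p == (1, 1, 0, 0) || p == (-1, -1, 0, 0) || p == (0, 0, 1, 1) || p == (0, 0, -1, -1) ||
  p == (1, 0, 0, 1) || p == (-1, 0, 0, -1) || p == (0, 1, 1, 0) || p == (0, -1, -1, 0)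

def L17 : List Q4 := [(0, 0, 0, 0), (1, 0, 0, 0), (-1, 0, 0, 0), (0, 1, 0, 0), (0, -1, 0, 0),
  (0, 0, 1, 0), (0, 0, -1, 0), (0, 0, 0, 1), (0, 0, 0, -1),
  (1, 1, 0, 0), (-1, -1, 0, 0), (0, 0, 1, 1), (0, 0, -1, -1),
  (1, 0, 0, 1), (-1, 0, 0, -1), (0, 1, 1, 0), (0, -1, -1, 0)]

def dis (p q : Q4) : Bool := p == (0, 0, 0, 0) || (p != q && p != (-q.1, -q.2.1, -q.2.2.1, -q.2.2.2))

def okc (px py : Q4) : Bool :=
  let pz : Q4 := (1 - px.1 - py.1, 1 - px.2.1 - py.2.1, 0 - px.2.2.1 - py.2.2.1, 0 - px.2.2.2 - py.2.2.2)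
  let pt : Q4 := (1 - px.1 - py.2.2.1, 1 - px.2.1 - py.2.2.2, 0 - px.2.2.1 - py.1, 0 - px.2.2.2 - py.2.1)
  decide (0 ≤ px.1) && decide (0 ≤ px.2.1) && decide (0 ≤ py.1) && decide (0 ≤ py.2.1) &&
  decide (0 ≤ py.2.2.1) && decide (0 ≤ py.2.2.2) && good pz && good pt &&
  decide (0 ≤ pz.1) && decide (0 ≤ pz.2.1) && decide (0 ≤ pt.1) && decide (0 ≤ pt.2.1) &&
  dis px py && dis py pt && dis px pz && dis (sw px) py && dis pz pt

theorem fin_check : ∀ px ∈ L17, ∀ py ∈ L17, okc px py = true → px = (1, 1, 0, 0) := by decide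

theorem good_aux (A B C D e : ℤ) (hA : A = 0 ∨ A = 1 ∨ A = -1) (hB : B = 0 ∨ B = 1 ∨ B = -1)
    (hC : C = 0 ∨ C = 1 ∨ C = -1) (hD : D = 0 ∨ D = 1 ∨ D = -1) (he : e = 1 ∨ e = -1)
    (h1 : A * C = 0) (h2 : B * D = 0) (h3 : 0 ≤ A * B) (h4 : 0 ≤ A * D) (h5 : 0 ≤ C * D) (h6 : 0 ≤ C * B) :
    good (e * A, e * B, e * C, e * D) = true ∧ (e * A, e * B, e * C, e * D) ∈ L17 := by
  rcases hA with rfl | rfl | rfl <;> rcases hB with rfl | rfl | rfl <;> rcases hC with rfl | rfl | rfl <;>
    rcases hD with rfl | rfl | rfl <;>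
    first
    | (exfalso; revert h1; decide)
    | (exfalso; revert h2; decide)
    | (exfalso; revert h3; decide)
    | (exfalso; revert h4; decide)
    | (exfalso; revert h5; decide)
    | (exfalso; revert h6; decide)
    | (rcases he with rfl | rfl <;> decide)

theorem Blk.good {c : R → R} (hc : ∀ r, c (c r) = r) {a b : R → ℤ} (B : Blk c a b) (r : R) {e : ℤ} (he : e = 1 ∨ e = -1) :
    CycComb.good (e * a r, e * b r, e * a (c r), e * b (c r)) = true ∧ (e * a r, e * b r, e * a (c r), e * b (c r)) ∈ L17 := by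
  refine good_aux _ _ _ _ e (vals B.aa r) (vals B.bb r) (vals B.aa _) (vals B.bb _) he (B.ac r) (B.bc r) (B.nab r) (B.nab' r)
    (B.nab (c r)) ?_
  have := B.nab' (c r)
  rwa [hc] at this

theorem Blk.dis {c : R → R} (hc : ∀ r, c (c r) = r) {a b : R → ℤ} (B : Blk c a b) {r s : R} (hrs : r ≠ s) {e e' : ℤ}
    (he : e = 1 ∨ e = -1) (he' : e' = 1 ∨ e' = -1) :
    CycComb.dis (e * a r, e * b r, e * a (c r), e * b (c r)) (e' * a s, e' * b s, e' * a (c s), e' * b (c s)) = true := by
  unfold CycComb.dis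
  by_contra hcon
  simp only [Bool.or_eq_true, Bool.and_eq_true, beq_iff_eq, bne_iff_ne, not_or, ne_eq, Prod.mk.injEq] at hcon
  obtain ⟨h0, h1⟩ := hcon
  apply hrs
  have hor : (e * a r = e' * a s ∧ e * b r = e' * b s ∧ e * a (c r) = e' * a (c s) ∧ e * b (c r) = e' * b (c s)) ∨
      (e * a r = -(e' * a s) ∧ e * b r = -(e' * b s) ∧ e * a (c r) = -(e' * a (c s)) ∧ e * b (c r) = -(e' * b (c s))) := by
    tauto
  have z : ∀ A B : ℤ, (e * A = e' * B ∨ e * A = -(e' * B)) → (A = 0 ↔ B = 0) := by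
    intro A B h
    rcases he with rfl | rfl <;> rcases he' with rfl | rfl <;> omega
  refine B.inj hc (z _ _ ?_) (z _ _ ?_) (z _ _ ?_) (z _ _ ?_) ?_
  · rcases hor with h | h; exacts [Or.inl h.1, Or.inr h.1]
  · rcases hor with h | h; exacts [Or.inl h.2.1, Or.inr h.2.1]
  · rcases hor with h | h; exacts [Or.inl h.2.2.1, Or.inr h.2.2.1]
  · rcases hor with h | h; exacts [Or.inl h.2.2.2, Or.inr h.2.2.2]
  · rintro ⟨z1, z2, z3, z4⟩
    apply h0
    rw [z1, z2, z3, z4]
    simp

/-- the row elements of two blocks in the same rows coincide -/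
theorem row {c : R → R} (hc : ∀ r, c (c r) = r) {a b a' b' : R → ℤ} (B : Blk c a b) (B' : Blk c a' b')
    (h1 : ∑ r, a r * a' r = 1) (h2 : ∑ r, a r * b' r = 1) (h3 : ∑ r, a r * a' (c r) = 0) (h4 : ∑ r, a r * b' (c r) = 0)
    (k1 : ∑ r, b r * a' r = 1) (k2 : ∑ r, b r * b' r = 1) (k3 : ∑ r, b r * a' (c r) = 0) (k4 : ∑ r, b r * b' (c r) = 0)
    (n1 : ∀ r, 0 ≤ a r * a' r) (n2 : ∀ r, 0 ≤ a r * b' r) (m1 : ∀ r, 0 ≤ b r * a' r) (m2 : ∀ r, 0 ≤ b r * b' r) :
    ∃ x, a x ≠ 0 ∧ a x = b x ∧ a x = a' x ∧ a x = b' x := by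
  obtain ⟨x, y, z, t, hxy, hxz, hyz, hxcy, hxt, hcyt, e1, e2, ax, ay, az, bt, sa, sb, bz, bcz, at0, act, acx, bcx, acy, by0⟩ := B.elems hc
  have hyt : y ≠ t := by rintro rfl; exact ay at0
  have hcxy : c x ≠ y := by rintro rfl; exact ay acx
  have hzt : z ≠ t := by rintro rfl; exact az at0
  have ex : a x = 1 ∨ a x = -1 := (vals B.aa x).resolve_left ax
  have ey : a y = 1 ∨ a y = -1 := (vals B.aa y).resolve_left ay
  have ez : a z = 1 ∨ a z = -1 := (vals B.aa z).resolve_left az
  have et : b t = 1 ∨ b t = -1 := (vals B.bb t).resolve_left bt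
  have Sa := fun f => sum3 hxy hxz hyz sa f
  have Sb := fun f => sum3 hxcy hxt hcyt sb f
  rw [Sa] at h1 h2 h3 h4
  rw [Sb] at k1 k2 k3 k4
  rw [← e1, ← e2] at k1 k2 k3 k4
  simp only [hc] at k1 k2 k3 k4
  have gx := B'.good hc x ex
  have gy := B'.good hc y ey
  have gz := B'.good hc z ez
  have gt := B'.good hc t et
  have dxy := B'.dis hc hxy ex ey
  have dyt := B'.dis hc hyt ey et
  have dxz := B'.dis hc hxz ex ez
  have dcxy := B'.dis hc hcxy ex ey
  have dzt := B'.dis hc hzt ez et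
  have hz : (a z * a' z, a z * b' z, a z * a' (c z), a z * b' (c z)) =
      (1 - a x * a' x - a y * a' y, 1 - a x * b' x - a y * b' y, 0 - a x * a' (c x) - a y * a' (c y), 0 - a x * b' (c x) - a y * b' (c y)) := by
    simp only [Prod.mk.injEq]
    refine ⟨?_, ?_, ?_, ?_⟩ <;> linarith
  have ht : (b t * a' t, b t * b' t, b t * a' (c t), b t * b' (c t)) =
      (1 - a x * a' x - a y * a' (c y), 1 - a x * b' x - a y * b' (c y), 0 - a x * a' (c x) - a y * a' y, 0 - a x * b' (c x) - a y * b' y) := by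
    simp only [Prod.mk.injEq]
    refine ⟨?_, ?_, ?_, ?_⟩ <;> linarith
  rw [hz] at gz dxz dzt
  rw [ht] at gt dyt dzt
  rw [hc] at dcxy
  have s5 : 0 ≤ a y * a' (c y) := by rw [e2]; exact m1 (c y)
  have s6 : 0 ≤ a y * b' (c y) := by rw [e2]; exact m2 (c y)
  have s7 : 0 ≤ 1 - a x * a' x - a y * a' y := by have := n1 z; linarith
  have s8 : 0 ≤ 1 - a x * b' x - a y * b' y := by have := n2 z; linarith
  have s9 : 0 ≤ 1 - a x * a' x - a y * a' (c y) := by have := m1 t; linarith
  have s10 : 0 ≤ 1 - a x * b' x - a y * b' (c y) := by have := m2 t; linarith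
  have hok : okc (a x * a' x, a x * b' x, a x * a' (c x), a x * b' (c x)) (a y * a' y, a y * b' y, a y * a' (c y), a y * b' (c y)) = true := by
    unfold okc
    simp only [Bool.and_eq_true, decide_eq_true_eq]
    exact ⟨⟨⟨⟨⟨⟨⟨⟨⟨⟨⟨⟨⟨⟨⟨⟨n1 x, n2 x⟩, n1 y⟩, n2 y⟩, s5⟩, s6⟩, gz.1⟩, gt.1⟩, s7⟩, s8⟩, s9⟩, s10⟩, dxy⟩, dyt⟩, dxz⟩, dcxy⟩, dzt⟩
  have hfin := fin_check _ gx.2 _ gy.2 hok
  simp only [Prod.mk.injEq] at hfin
  refine ⟨x, ax, e1, ?_, ?_⟩
  · have := hfin.1
    rcases ex with h | h <;> rw [h] at this ⊢ <;> omega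
  · have := hfin.2.1
    rcases ex with h | h <;> rw [h] at this ⊢ <;> omega

end Row

section Config
variable {R I J : Type*} [Fintype R] [DecidableEq R]

structure Conf (c : R → R) (d : R → ℤ) (bi : I → I) (bj : J → J) (B : I → J → R → ℤ) : Prop where
  cc : ∀ r, c (c r) = r
  dpos : ∀ r, 0 < d r
  bi2 : ∀ i, bi (bi i) = i
  bine : ∀ i, bi i ≠ i
  bj2 : ∀ j, bj (bj j) = j
  bjne : ∀ j, bj j ≠ j
  norm : ∀ i j, ∑ r, B i j r ^ 2 = 3
  row : ∀ i j j', j ≠ j' → ∑ r, B i j r * B i j' r = 1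
  col : ∀ i i' j, i ≠ i' → ∑ r, B i j r * B i' j r = 1
  diag : ∀ i i' j j', i ≠ i' → j ≠ j' → ∑ r, B i j r * B i' j' r = 0
  deg : ∀ i j i' j', ∑ r, d r * B i j r = ∑ r, d r * B i' j' r
  cjB : ∀ i j r, B (bi i) (bj j) r = B i j (c r)

variable {c : R → R} {d : R → ℤ} {bi : I → I} {bj : J → J} {B : I → J → R → ℤ}

theorem Conf.transpose (h : Conf c d bi bj B) : Conf c d bj bi (fun j i => B i j) where
  cc := h.cc
  dpos := h.dpos
  bi2 := h.bj2
  bine := h.bjne
  bj2 := h.bi2
  bjne := h.bine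
  norm := fun j i => h.norm i j
  row := fun j i i' hi => h.col i i' j hi
  col := fun j j' i hj => h.row i j j' hj
  diag := fun j j' i i' hj hi => h.diag i i' j j' hi hj
  deg := fun j i j' i' => h.deg i j i' j'
  cjB := fun j i r => h.cjB i j r

theorem Conf.nrow (h : Conf c d bi bj B) {i : I} {j j' : J} (hj : j ≠ j') (r : R) : 0 ≤ B i j r * B i j' r :=
  no_opp h.dpos (h.norm i j) (h.norm i j') (h.row i j j' hj) (h.deg i j i j') r

theorem Conf.ncol (h : Conf c d bi bj B) {i i' : I} {j : J} (hi : i ≠ i') (r : R) : 0 ≤ B i j r * B i' j r :=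
  no_opp h.dpos (h.norm i j) (h.norm i' j) (h.col i i' j hi) (h.deg i j i' j) r

theorem Conf.ac (h : Conf c d bi bj B) (i : I) (j : J) (r : R) : B i j r * B i j (c r) = 0 := by
  apply self_conj h.cc (h.norm i j)
  rw [← h.diag i (bi i) j (bj j) (h.bine i).symm (h.bjne j).symm]
  exact Finset.sum_congr rfl fun r _ => by rw [h.cjB]

theorem Conf.bic (h : Conf c d bi bj B) (i : I) (j : J) (r : R) : B i (bj j) (c r) = B (bi i) j r := by
  rw [← h.cjB, h.bj2]

theorem Conf.blk (h : Conf c d bi bj B) (i : I) (j : J) : Blk c (B i j) (B i (bj j)) where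
  aa := h.norm i j
  bb := h.norm i _
  ab := h.row i j _ (h.bjne j).symm
  ab' := by
    rw [← h.col i (bi i) j (h.bine i).symm]
    exact Finset.sum_congr rfl fun r _ => by rw [h.bic]
  nab := fun r => h.nrow (h.bjne j).symm r
  nab' := fun r => by
    rw [h.bic]
    exact h.ncol (h.bine i).symm r
  ac := h.ac i j
  bc := h.ac i _

theorem Conf.rowElem (h : Conf c d bi bj B) (i : I) (j₀ : J) : ∃ x, B i j₀ x ≠ 0 ∧ ∀ j, B i j x = B i j₀ x := by
  have b0 := h.blk i j₀
  obtain ⟨x, hx1, hx2, hx3⟩ := exists_common b0.aa b0.bb b0.ab b0.nab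
  refine ⟨x, hx2, fun j => ?_⟩
  by_cases h1 : j = j₀
  · rw [h1]
  by_cases h2 : j = bj j₀
  · rw [h2, hx1]
  have h3 : j₀ ≠ bj j := by
    intro h'; apply h2; rw [h', h.bj2]
  have h4 : bj j₀ ≠ bj j := by
    intro h'; apply h1; rw [← h.bj2 j, ← h', h.bj2]
  obtain ⟨x', hx1', hx2', hx3', hx4'⟩ := CycComb.row h.cc b0 (h.blk i j) (h.row i _ _ (Ne.symm h1)) (h.row i _ _ h3)
    (by
      rw [← h.diag i (bi i) j₀ (bj j) (h.bine i).symm h3]
      exact Finset.sum_congr rfl fun r _ => by rw [h.cjB])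
    (by
      rw [← h.diag i (bi i) j₀ j (h.bine i).symm (Ne.symm h1)]
      exact Finset.sum_congr rfl fun r _ => by rw [h.bic])
    (h.row i _ _ (Ne.symm h2)) (h.row i _ _ h4)
    (by
      rw [← h.diag i (bi i) (bj j₀) (bj j) (h.bine i).symm h4]
      exact Finset.sum_congr rfl fun r _ => by rw [h.cjB])
    (by
      rw [← h.diag i (bi i) (bj j₀) j (h.bine i).symm (Ne.symm h2)]
      exact Finset.sum_congr rfl fun r _ => by rw [h.bic])
    (h.nrow (Ne.symm h1)) (h.nrow h3) (h.nrow (Ne.symm h2)) (h.nrow h4)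
  have hxx : x' = x := by
    by_contra hne
    have := hx3 x' hne
    rw [← hx2', mul_self_eq_zero] at this
    exact hx1' this
  rw [hxx] at hx3'
  exact hx3'.symm

theorem Conf.common_unique {a b : R → ℤ} (ha : ∑ r, a r ^ 2 = 3) (hb : ∑ r, b r ^ 2 = 3)
    (hab : ∑ r, a r * b r = 1) (hn : ∀ r, 0 ≤ a r * b r) {x y : R} (hx : a x ≠ 0) (hx' : b x ≠ 0) (hy : a y ≠ 0) (hy' : b y ≠ 0) :
    x = y := by
  obtain ⟨z, -, -, hz⟩ := exists_common ha hb hab hn
  have h1 : x = z := by
    by_contra hne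
    exact (mul_ne_zero hx hx') (hz x hne)
  have h2 : y = z := by
    by_contra hne
    exact (mul_ne_zero hy hy') (hz y hne)
  rw [h1, h2]

/-- the structure theorem -/
theorem Conf.structure [Nonempty I] [Nonempty J] (h : Conf c d bi bj B) :
    ∃ (X : I → R) (Y : J → R) (Z : I → J → R) (sX : I → ℤ) (sY : J → ℤ) (sZ : I → J → ℤ),
      (∀ i, sX i = 1 ∨ sX i = -1) ∧ (∀ j, sY j = 1 ∨ sY j = -1) ∧ (∀ i j, sZ i j = 1 ∨ sZ i j = -1) ∧
      (∀ i j r, B i j r = (if r = X i then sX i else 0) + (if r = Y j then sY j else 0) + (if r = Z i j then sZ i j else 0)) ∧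
      Function.Injective X ∧ Function.Injective Y ∧ (∀ i j i' j', Z i j = Z i' j' → i = i' ∧ j = j') ∧
      (∀ i j, X i ≠ Y j) ∧ (∀ i i' j, X i' ≠ Z i j) ∧ (∀ i j j', Y j' ≠ Z i j) := by
  have i₀ : I := Classical.arbitrary I
  have j₀ : J := Classical.arbitrary J
  have hX := fun i => h.rowElem i j₀
  have hY := fun j => h.transpose.rowElem j i₀
  choose X hX0 hX using hX
  choose Y hY0 hY using hY
  have hXn : ∀ i j, B i j (X i) ≠ 0 := fun i j => by rw [hX i j]; exact hX0 i
  have hYn : ∀ i j, B i j (Y j) ≠ 0 := fun i j => by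
    have := hY j i
    rw [this]; exact hY0 j
  have hXY : ∀ i j, X i ≠ Y j := by
    intro i j he
    have h1 := h.ac i (bj j) (X i)
    rw [h.bic] at h1
    rcases mul_eq_zero.mp h1 with h2 | h2
    · exact hXn i _ h2
    · rw [he] at h2; exact hYn _ _ h2
  have hZ := fun i j => third (h.norm i j) (hXn i j) (hYn i j) (hXY i j)
  choose Z hZX hZY hZn hZs using hZ
  have hrowu : ∀ i j j' r, j ≠ j' → B i j r ≠ 0 → B i j' r ≠ 0 → r = X i := fun i j j' r hj h1 h2 =>
    Conf.common_unique (h.norm i j) (h.norm i j') (h.row i j j' hj) (h.nrow hj) h1 h2 (hXn i j) (hXn i j')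
  have hcolu : ∀ i i' j r, i ≠ i' → B i j r ≠ 0 → B i' j r ≠ 0 → r = Y j := fun i i' j r hi h1 h2 =>
    Conf.common_unique (h.norm i j) (h.norm i' j) (h.col i i' j hi) (h.ncol hi) h1 h2 (hYn i j) (hYn i' j)
  have hXi : Function.Injective X := by
    intro i i' he
    by_contra hne
    have := hcolu i i' j₀ (X i) hne (hXn i j₀) (by rw [he]; exact hXn i' j₀)
    exact hXY i j₀ this
  have hYi : Function.Injective Y := by
    intro j j' he
    by_contra hne
    have := hrowu i₀ j j' (Y j) hne (hYn i₀ j) (by rw [he]; exact hYn i₀ j')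
    exact hXY i₀ j this.symm
  have hXZ : ∀ i i' j, X i' ≠ Z i j := by
    intro i i' j he
    by_cases hi : i' = i
    · rw [hi] at he; exact hZX i j he.symm
    · have := hcolu i' i j (X i') hi (hXn i' j) (by rw [he]; exact hZn i j)
      exact hXY i' j this
  have hYZ : ∀ i j j', Y j' ≠ Z i j := by
    intro i j j' he
    by_cases hj : j' = j
    · rw [hj] at he; exact hZY i j he.symm
    · have := hrowu i j' j (Y j') hj (hYn i j') (by rw [he]; exact hZn i j)
      exact hXY i j' this.symm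
  have hsum : ∀ i j (f : R → ℤ), ∑ r, B i j r * f r = B i j (X i) * f (X i) + B i j (Y j) * f (Y j) + B i j (Z i j) * f (Z i j) :=
    fun i j f => sum3 (hXY i j) (hZX i j).symm (hZY i j).symm (hZs i j) f
  have hZZ : ∀ i j i' j', Z i j = Z i' j' → i = i' ∧ j = j' := by
    intro i j i' j' he
    by_cases hi : i = i'
    · subst hi
      refine ⟨rfl, ?_⟩
      by_contra hj
      have := hrowu i j j' (Z i j) hj (hZn i j) (by rw [he]; exact hZn i j')
      exact hXZ i i j this.symm
    · by_cases hj : j = j'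
      · subst hj
        exfalso
        have := hcolu i i' j (Z i j) hi (hZn i j) (by rw [he]; exact hZn i' j)
        exact hYZ i j j this.symm
      · exfalso
        have h1 := h.diag i i' j j' hi hj
        rw [hsum] at h1
        have h2 : B i' j' (X i) = 0 := by
          by_contra hne
          rcases hZs i' j' _ hne with h3 | h3 | h3
          · exact hi (hXi h3)
          · exact hXY _ _ h3
          · exact hXZ _ _ _ h3
        have h3 : B i' j' (Y j) = 0 := by
          by_contra hne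
          rcases hZs i' j' _ hne with h3 | h3 | h3
          · exact hXY _ _ h3.symm
          · exact hj (hYi h3)
          · exact hYZ _ _ _ h3
        rw [h2, h3, mul_zero, mul_zero, zero_add, zero_add] at h1
        rcases mul_eq_zero.mp h1 with h4 | h4
        · exact hZn i j h4
        · rw [he] at h4; exact hZn i' j' h4
  refine ⟨X, Y, Z, fun i => B i j₀ (X i), fun j => B i₀ j (Y j), fun i j => B i j (Z i j),
    fun i => (vals (h.norm i j₀) _).resolve_left (hX0 i), fun j => (vals (h.norm i₀ j) _).resolve_left (hY0 j),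
    fun i j => (vals (h.norm i j) _).resolve_left (hZn i j), ?_, hXi, hYi, hZZ, hXY, hXZ, hYZ⟩
  intro i j r
  have hYj : B i₀ j (Y j) = B i j (Y j) := (hY j i).symm
  simp only
  rw [← hX i j, hYj]
  by_cases h1 : r = X i
  · rw [if_pos h1, if_neg (fun h2 => hXY i j (h1.symm.trans h2)), if_neg (fun h2 => hXZ i i j (h1.symm.trans h2)), h1]; ring
  · rw [if_neg h1]
    by_cases h2 : r = Y j
    · rw [if_pos h2, if_neg (fun h3 => hYZ i j j (h2.symm.trans h3)), h2]; ring
    · rw [if_neg h2]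
      by_cases h3 : r = Z i j
      · rw [if_pos h3, h3]; ring
      · rw [if_neg h3]
        by_contra hne
        have := hZs i j r (by intro h0; apply hne; rw [h0]; ring)
        tauto

end Config

end CfsgLib.CycComb
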