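import Cfsg.Agent.EqBase
import Cfsg.Agent.LibCyc2
import Cfsg.Agent.LibCycComb
/-!
# Existence of the cyclic TI family (helper16)
-/
set_option autoImplicit false
set_option linter.all false
open Cfsg CfsgLib.CharBasic CfsgLib.CharIndA CfsgLib.CharNorm
open scoped ComplexConjugate
namespace CfsgLib.Cyc

theorem hom_conj {A : Type*} [Group A] [Finite A] (f : A →* ℂˣ) (a : A) : conj (f a : ℂ) = ((f⁻¹ : A →* ℂˣ) a : ℂ) := by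
  haveI := Fintype.ofFinite A
  rw [← char_inv_eq_conj (isCharacter_hom f) a, MonoidHom.inv_apply, map_inv]

universe u
variable {G : Type u} [Group G] [Fintype G] {W₁ W₂ : Subgroup G}

theorem ind_conj {H : Subgroup G} (θ : H → ℂ) : indFun H (fun h => conj (θ h)) = fun g => conj (indFun H θ g) := by
  ext g
  rw [ind_apply, ind_apply, map_mul, map_sum, map_inv₀, map_natCast]
  congr 1
  refine Finset.sum_congr rfl fun x _ => ?_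
  by_cases hx : x⁻¹ * g * x ∈ H
  · rw [ext_mem _ _ hx, ext_mem _ _ hx]
  · rw [ext_not_mem _ _ hx, ext_not_mem _ _ hx, map_zero]

/-- `Ind ((1 - φ)(1 - ψ)) - 1` -/
noncomputable def be (φ ψ : ↥(W₁ ⊔ W₂) →* ℂˣ) : G → ℂ := indFun (W₁ ⊔ W₂) (al φ ψ) - fun _ => 1

theorem al_gen (φ ψ : ↥(W₁ ⊔ W₂) →* ℂˣ) : IsGeneralizedCharacter ↥(W₁ ⊔ W₂) (al φ ψ) := by
  haveI : Fintype ↥(W₁ ⊔ W₂) := Fintype.ofFinite _
  rw [al_eq_comb]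
  exact gen_add (gen_sub (gen_sub (gen_of_irr isIrrCharacter_one) (gen_of_char (isCharacter_hom φ)))
    (gen_of_char (isCharacter_hom ψ))) (gen_of_char (isCharacter_hom (φ * ψ)))

theorem be_gen (φ ψ : ↥(W₁ ⊔ W₂) →* ℂˣ) : IsGeneralizedCharacter G (be φ ψ) :=
  gen_sub (gen_ind (W₁ ⊔ W₂) (al_gen φ ψ)) (gen_of_irr isIrrCharacter_one)

theorem be_deg (φ ψ : ↥(W₁ ⊔ W₂) →* ℂˣ) : be φ ψ 1 = -1 := by
  unfold be
  rw [Pi.sub_apply, ind_one, al_eq]; simp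

theorem be_conj (φ ψ : ↥(W₁ ⊔ W₂) →* ℂˣ) (g : G) : be φ⁻¹ ψ⁻¹ g = conj (be φ ψ g) := by
  unfold be
  rw [Pi.sub_apply, Pi.sub_apply, map_sub, map_one]
  have h1 : al φ⁻¹ ψ⁻¹ = fun w => conj (al φ ψ w) := by
    ext w
    rw [al_eq, al_eq, map_mul, map_sub, map_sub, map_one, hom_conj, hom_conj]
  rw [h1, ind_conj]

theorem be_one (hW : IsSelfNormalizingCyclic W₁ W₂) {φ ψ : ↥(W₁ ⊔ W₂) →* ℂˣ} (h1 : Tr _ W₂ φ) (h2 : Tr _ W₁ ψ)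
    (hφ : φ ≠ 1) (hψ : ψ ≠ 1) : classInner (be φ ψ) (fun _ => 1) = 0 := by
  unfold be
  rw [ci_sub_l, ind_al_one hW h1 h2 hφ hψ, irr_inner_self isIrrCharacter_one, sub_self]

open Classical in
theorem be_inner (hW : IsSelfNormalizingCyclic W₁ W₂)
    {φ φ' ψ ψ' : ↥(W₁ ⊔ W₂) →* ℂˣ} (h1 : Tr _ W₂ φ) (h1' : Tr _ W₂ φ') (h2 : Tr _ W₁ ψ) (h2' : Tr _ W₁ ψ')
    (hφ : φ ≠ 1) (hφ' : φ' ≠ 1) (hψ : ψ ≠ 1) (hψ' : ψ' ≠ 1) :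
    classInner (be φ ψ) (be φ' ψ') =
      (if φ = φ' then 1 else 0) + (if ψ = ψ' then 1 else 0) +
      (if φ = φ' then 1 else 0) * (if ψ = ψ' then 1 else 0) := by
  have e1 : classInner (fun _ => 1) (be φ' ψ') = 0 := ci_zero_comm (be_one hW h1' h2' hφ' hψ')
  have e2 : classInner (fun _ => 1) (indFun (W₁ ⊔ W₂) (al φ' ψ')) = 1 := by
    rw [← ci_conj, ind_al_one hW h1' h2' hφ' hψ', map_one]
  conv_lhs => rw [be, ci_sub_l, e1, sub_zero, be, ci_sub_r, ind_al_one hW h1 h2 hφ hψ, ind_al_inner hW h1 h1' h2 h2' hφ hφ' hψ hψ']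
  ring

theorem hom_inv_ne {A : Type*} [Group A] [Finite A] (ho : Odd (Nat.card A)) {f : A →* ℂˣ} (hf : f ≠ 1) : f⁻¹ ≠ f := by
  intro h
  apply hf
  ext a
  have h1 : f a * f a = 1 := by
    have h2 := DFunLike.congr_fun h a
    rw [MonoidHom.inv_apply] at h2
    nth_rewrite 1 [← h2]
    exact inv_mul_cancel _
  have h2 : f a ^ Nat.card A = 1 := by rw [← map_pow, pow_card_eq_one', map_one]
  obtain ⟨k, hk⟩ := ho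
  rw [hk, pow_succ, pow_mul, pow_two, h1, one_pow, one_mul] at h2
  rw [h2]; rfl

theorem hom_inv_ne_one {A : Type*} [Group A] {f : A →* ℂˣ} (hf : f ≠ 1) : f⁻¹ ≠ 1 := by
  intro h
  apply hf
  have h2 : f⁻¹⁻¹ = (1 : A →* ℂˣ)⁻¹ := by rw [h]
  have h3 : f⁻¹⁻¹ = f := inv_inv f
  have h4 : (1 : A →* ℂˣ)⁻¹ = 1 := by ext a; simp
  rw [← h3, h2, h4]

theorem exists_nontriv (hd : W₁ ⊓ W₂ = ⊥) (hab : ∀ a b : ↥(W₁ ⊔ W₂), a * b = b * a) (h1 : W₁ ≠ ⊥) :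
    ∃ φ : ↥(W₁ ⊔ W₂) →* ℂˣ, Tr _ W₂ φ ∧ φ ≠ 1 := by
  obtain ⟨⟨w, hw⟩, hw0⟩ := Subgroup.ne_bot_iff_exists_ne_one.mp h1
  have hw1 : w ≠ 1 := fun h => hw0 (Subtype.ext h)
  have hw2 : w ∉ W₂ := by
    intro h
    apply hw1
    have : w ∈ W₁ ⊓ W₂ := ⟨hw, h⟩
    rwa [hd, Subgroup.mem_bot] at this
  obtain ⟨f, hf, hf1⟩ := exists_hom_ne hab (N := W₂.subgroupOf (W₁ ⊔ W₂)) (x := ⟨w, Subgroup.mem_sup_left hw⟩)
    (by rw [Subgroup.mem_subgroupOf]; exact hw2)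
  refine ⟨f, fun w hw => hf w (by rwa [Subgroup.mem_subgroupOf]), ?_⟩
  rintro rfl
  exact hf1 rfl

theorem exists_nontriv' (hd : W₁ ⊓ W₂ = ⊥) (hab : ∀ a b : ↥(W₁ ⊔ W₂), a * b = b * a) (h2 : W₂ ≠ ⊥) :
    ∃ φ : ↥(W₁ ⊔ W₂) →* ℂˣ, Tr _ W₁ φ ∧ φ ≠ 1 := by
  obtain ⟨⟨w, hw⟩, hw0⟩ := Subgroup.ne_bot_iff_exists_ne_one.mp h2
  have hw1 : w ≠ 1 := fun h => hw0 (Subtype.ext h)
  have hw2 : w ∉ W₁ := by
    intro h
    apply hw1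
    have : w ∈ W₁ ⊓ W₂ := ⟨h, hw⟩
    rwa [hd, Subgroup.mem_bot] at this
  obtain ⟨f, hf, hf1⟩ := exists_hom_ne hab (N := W₁.subgroupOf (W₁ ⊔ W₂)) (x := ⟨w, Subgroup.mem_sup_right hw⟩)
    (by rw [Subgroup.mem_subgroupOf]; exact hw2)
  refine ⟨f, fun w hw => hf w (by rwa [Subgroup.mem_subgroupOf]), ?_⟩
  rintro rfl
  exact hf1 rfl

/-- index types -/
abbrev II (W₁ W₂ : Subgroup G) := {φ : ↥(W₁ ⊔ W₂) →* ℂˣ // Tr _ W₂ φ ∧ φ ≠ 1}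
abbrev JJ (W₁ W₂ : Subgroup G) := {φ : ↥(W₁ ⊔ W₂) →* ℂˣ // Tr _ W₁ φ ∧ φ ≠ 1}

/-- coefficients of `be` -/
noncomputable def co (φ ψ : ↥(W₁ ⊔ W₂) →* ℂˣ) : IrrCharacter G → ℤ := Classical.choose (gen_expand (be_gen φ ψ))

theorem co_spec (φ ψ : ↥(W₁ ⊔ W₂) →* ℂˣ) (ρ : IrrCharacter G) : classInner (be φ ψ) ρ = co φ ψ ρ :=
  (Classical.choose_spec (gen_expand (be_gen φ ψ))).1 ρ

theorem be_expand (φ ψ : ↥(W₁ ⊔ W₂) →* ℂˣ) : be φ ψ = ∑ ρ : IrrCharacter G, (co φ ψ ρ : ℂ) • (ρ : G → ℂ) :=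
  (Classical.choose_spec (gen_expand (be_gen φ ψ))).2.1

theorem co_inner (φ ψ φ' ψ' : ↥(W₁ ⊔ W₂) →* ℂˣ) : classInner (be φ ψ) (be φ' ψ') = ((∑ ρ, co φ ψ ρ * co φ' ψ' ρ : ℤ) : ℂ) := by
  rw [parseval (gen_classFun (be_gen φ ψ)) (gen_classFun (be_gen φ' ψ'))]
  push_cast
  refine Finset.sum_congr rfl fun ρ _ => ?_
  rw [co_spec, co_spec]; simp

/-- complex conjugation of irreducible characters -/
noncomputable def cj (ρ : IrrCharacter G) : IrrCharacter G := ⟨fun g => conj ((ρ : G → ℂ) g), isIrrCharacter_conj ρ.2⟩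

theorem cj_cj (ρ : IrrCharacter G) : cj (cj ρ) = ρ := by
  apply Subtype.ext
  ext g
  exact Complex.conj_conj _

noncomputable def dg (ρ : IrrCharacter G) : ℕ := Classical.choose (irr_one_nat ρ.2)
theorem dg_pos (ρ : IrrCharacter G) : 0 < dg ρ := (Classical.choose_spec (irr_one_nat ρ.2)).1
theorem dg_spec (ρ : IrrCharacter G) : (ρ : G → ℂ) 1 = dg ρ := (Classical.choose_spec (irr_one_nat ρ.2)).2

theorem conf (hW : IsSelfNormalizingCyclic W₁ W₂) (hodd : Odd (Nat.card ↥(W₁ ⊔ W₂))) :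
    CycComb.Conf (R := IrrCharacter G) cj (fun ρ => (dg ρ : ℤ)) (fun i : II W₁ W₂ => ⟨i.1⁻¹, i.2.1.inv, hom_inv_ne_one i.2.2⟩)
      (fun j : JJ W₁ W₂ => ⟨j.1⁻¹, j.2.1.inv, hom_inv_ne_one j.2.2⟩) (fun i j => co i.1 j.1) where
  cc := cj_cj
  dpos := fun ρ => by exact_mod_cast dg_pos ρ
  bi2 := fun i => Subtype.ext (inv_inv i.1)
  bine := fun i h => hom_inv_ne hodd i.2.2 (congrArg Subtype.val h)
  bj2 := fun i => Subtype.ext (inv_inv i.1)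
  bjne := fun i h => hom_inv_ne hodd i.2.2 (congrArg Subtype.val h)
  norm := fun i j => by
    have h1 := co_inner i.1 j.1 i.1 j.1
    rw [be_inner hW i.2.1 i.2.1 j.2.1 j.2.1 i.2.2 i.2.2 j.2.2 j.2.2, if_pos rfl, if_pos rfl] at h1
    have h2 : ∑ ρ, co i.1 j.1 ρ * co i.1 j.1 ρ = 3 := by
      have : ((∑ ρ, co i.1 j.1 ρ * co i.1 j.1 ρ : ℤ) : ℂ) = ((3 : ℤ) : ℂ) := by rw [← h1]; norm_num
      exact_mod_cast this
    rw [← h2]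
    exact Finset.sum_congr rfl fun ρ _ => sq _
  row := fun i j j' hj => by
    have h1 := co_inner i.1 j.1 i.1 j'.1
    rw [be_inner hW i.2.1 i.2.1 j.2.1 j'.2.1 i.2.2 i.2.2 j.2.2 j'.2.2, if_pos rfl, if_neg (fun h => hj (Subtype.ext h))] at h1
    have : ((∑ ρ, co i.1 j.1 ρ * co i.1 j'.1 ρ : ℤ) : ℂ) = ((1 : ℤ) : ℂ) := by rw [← h1]; norm_num
    exact_mod_cast this
  col := fun i i' j hi => by
    have h1 := co_inner i.1 j.1 i'.1 j.1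
    rw [be_inner hW i.2.1 i'.2.1 j.2.1 j.2.1 i.2.2 i'.2.2 j.2.2 j.2.2, if_neg (fun h => hi (Subtype.ext h)), if_pos rfl] at h1
    have : ((∑ ρ, co i.1 j.1 ρ * co i'.1 j.1 ρ : ℤ) : ℂ) = ((1 : ℤ) : ℂ) := by rw [← h1]; norm_num
    exact_mod_cast this
  diag := fun i i' j j' hi hj => by
    have h1 := co_inner i.1 j.1 i'.1 j'.1
    rw [be_inner hW i.2.1 i'.2.1 j.2.1 j'.2.1 i.2.2 i'.2.2 j.2.2 j'.2.2, if_neg (fun h => hi (Subtype.ext h)),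
      if_neg (fun h => hj (Subtype.ext h))] at h1
    have : ((∑ ρ, co i.1 j.1 ρ * co i'.1 j'.1 ρ : ℤ) : ℂ) = ((0 : ℤ) : ℂ) := by rw [← h1]; norm_num
    exact_mod_cast this
  deg := fun i j i' j' => by
    have key : ∀ φ ψ : ↥(W₁ ⊔ W₂) →* ℂˣ, (∑ ρ : IrrCharacter G, (dg ρ : ℤ) * co φ ψ ρ) = -1 := by
      intro φ ψ
      have h1 := be_deg φ ψ
      rw [be_expand] at h1
      have h2 : ((∑ ρ : IrrCharacter G, (dg ρ : ℤ) * co φ ψ ρ : ℤ) : ℂ) = ((-1 : ℤ) : ℂ) := by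
        push_cast
        rw [← h1, Finset.sum_apply]
        refine Finset.sum_congr rfl fun ρ _ => ?_
        rw [Pi.smul_apply, dg_spec, smul_eq_mul, mul_comm]
      exact_mod_cast h2
    simp only [key]
  cjB := fun i j ρ => by
    have h1 := co_spec i.1⁻¹ j.1⁻¹ ρ
    have h2 := co_spec i.1 j.1 (cj ρ)
    have h3 : classInner (be i.1⁻¹ j.1⁻¹) (ρ : G → ℂ) = classInner (be i.1 j.1) (cj ρ : G → ℂ) := by
      have h4 := inner_conj_conj (be i.1⁻¹ j.1⁻¹) (ρ : G → ℂ)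
      have h5 : (fun g => conj (be i.1⁻¹ j.1⁻¹ g)) = be i.1 j.1 := by
        ext g; rw [be_conj]; exact Complex.conj_conj _
      rw [h5] at h4
      have h6 : classInner (be i.1 j.1) (cj ρ : G → ℂ) = conj (classInner (be i.1⁻¹ j.1⁻¹) (ρ : G → ℂ)) := h4
      rw [h6, h1]; simp
    rw [h1, h2] at h3
    exact_mod_cast h3

/-- the agreement on `V` follows from the other properties -/
theorem eq_on_V (hW : IsSelfNormalizingCyclic W₁ W₂) {χ : (↥(W₁ ⊔ W₂) →* ℂˣ) → (G → ℂ)}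
    (hcf : ∀ ω, IsClassFunction G (χ ω)) [DecidableEq (↥(W₁ ⊔ W₂) →* ℂˣ)]
    (horth : ∀ ω ω', classInner (χ ω) (χ ω') = if ω = ω' then 1 else 0)
    (hind : ∀ φ ψ : ↥(W₁ ⊔ W₂) →* ℂˣ, φ ≠ 1 → ψ ≠ 1 → Tr _ W₂ φ → Tr _ W₁ ψ →
      indFun (W₁ ⊔ W₂) (al φ ψ) = χ 1 - χ φ - χ ψ + χ (φ * ψ)) (ω : ↥(W₁ ⊔ W₂) →* ℂˣ)
    (v : ↥(W₁ ⊔ W₂)) (hv : (v : G) ∈ V W₁ W₂) : χ ω v = (ω v : ℂ) := by
  haveI : Fintype ↥(W₁ ⊔ W₂) := Fintype.ofFinite _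
  have hd := hW.2.2.1
  have hc := hW.2.2.2.1
  have hab := comm_of_cyclic hW.2.2.2.2.1
  have h := span_V (f := fun w : ↥(W₁ ⊔ W₂) => χ ω w - (ω w : ℂ)) hd hab ?_ v hv
  · exact sub_eq_zero.mp h
  intro φ ψ h1 h2
  by_cases hφ : φ = 1
  · rw [hφ, al_one_left]; exact ci_zero_l _
  by_cases hψ : ψ = 1
  · rw [hψ, al_one_right]; exact ci_zero_l _
  have e1 : (fun w : ↥(W₁ ⊔ W₂) => χ ω w - (ω w : ℂ)) = (fun w : ↥(W₁ ⊔ W₂) => χ ω w) - (fun w => (ω w : ℂ)) := rfl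
  rw [e1, ci_sub_r, ← inner_ind_al (hcf ω), hind φ ψ hφ hψ h1 h2, ci_add_l, ci_sub_l, ci_sub_l, horth, horth, horth, horth]
  rw [al_inner_hom]
  refine sub_eq_zero.mpr ?_
  congr!

theorem exists_family (hW : IsSelfNormalizingCyclic W₁ W₂) (hodd : Odd (Nat.card ↥(W₁ ⊔ W₂))) :
    ∃ χ : (↥(W₁ ⊔ W₂) →* ℂˣ) → (G → ℂ), IsCyclicTIFamily W₁ W₂ χ := by
  classical
  have hd := hW.2.2.1
  have hc := hW.2.2.2.1
  have hab := comm_of_cyclic hW.2.2.2.2.1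
  haveI hI : Nonempty (II W₁ W₂) := by
    obtain ⟨φ, h1, h2⟩ := exists_nontriv hd hab hW.1
    exact ⟨⟨φ, h1, h2⟩⟩
  haveI hJ : Nonempty (JJ W₁ W₂) := by
    obtain ⟨φ, h1, h2⟩ := exists_nontriv' hd hab hW.2.1
    exact ⟨⟨φ, h1, h2⟩⟩
  obtain ⟨X, Y, Z, sX, sY, sZ, hsX, hsY, hsZ, hB, hXi, hYi, hZi, hXY, hXZ, hYZ⟩ := (conf (W₁ := W₁) (W₂ := W₂) hW hodd).structure
  set r0 : IrrCharacter G := ⟨fun _ => 1, isIrrCharacter_one⟩ with hr0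
  have hco0 : ∀ (i : II W₁ W₂) (j : JJ W₁ W₂), co i.1 j.1 r0 = 0 := by
    intro i j
    have h1 := co_spec i.1 j.1 r0
    rw [show (r0 : G → ℂ) = fun _ => 1 from rfl, be_one hW i.2.1 j.2.1 i.2.2 j.2.2] at h1
    exact_mod_cast h1.symm
  have i₀ : II W₁ W₂ := Classical.arbitrary _
  have j₀ : JJ W₁ W₂ := Classical.arbitrary _
  have hX0 : ∀ i, r0 ≠ X i := by
    intro i he
    have h1 := hB i j₀ r0
    rw [hco0, if_pos he, if_neg (fun h => hXY i j₀ (he.symm.trans h)), if_neg (fun h => hXZ i i j₀ (he.symm.trans h))] at h1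
    rcases hsX i with h | h <;> rw [h] at h1 <;> omega
  have hY0 : ∀ j, r0 ≠ Y j := by
    intro j he
    have h1 := hB i₀ j r0
    rw [hco0, if_pos he, if_neg (fun h => hXY i₀ j (h.symm.trans he)), if_neg (fun h => hYZ i₀ j j (he.symm.trans h))] at h1
    rcases hsY j with h | h <;> rw [h] at h1 <;> omega
  have hZ0 : ∀ i j, r0 ≠ Z i j := by
    intro i j he
    have h1 := hB i j r0
    rw [hco0, if_pos he, if_neg (fun h => hXZ i i j (h.symm.trans he)), if_neg (fun h => hYZ i j j (h.symm.trans he))] at h1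
    rcases hsZ i j with h | h <;> rw [h] at h1 <;> omega
  have hex : ∀ ω : ↥(W₁ ⊔ W₂) →* ℂˣ, ∃ (ℓ : IrrCharacter G) (s : ℤ), (ω = 1 ∧ ℓ = r0 ∧ s = 1) ∨
      (∃ i : II W₁ W₂, ω = i.1 ∧ ℓ = X i ∧ s = - sX i) ∨ (∃ j : JJ W₁ W₂, ω = j.1 ∧ ℓ = Y j ∧ s = - sY j) ∨
      (∃ (i : II W₁ W₂) (j : JJ W₁ W₂), ω = i.1 * j.1 ∧ ℓ = Z i j ∧ s = sZ i j) := by
    intro ω
    obtain ⟨φ, ψ, h1, h2, h3⟩ := exists_prod hd hc ω
    by_cases hφ : φ = 1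
    · by_cases hψ : ψ = 1
      · exact ⟨r0, 1, Or.inl ⟨by rw [← h3, hφ, hψ]; exact one_mul (1 : ↥(W₁ ⊔ W₂) →* ℂˣ), rfl, rfl⟩⟩
      · refine ⟨Y ⟨ψ, h2, hψ⟩, - sY ⟨ψ, h2, hψ⟩, Or.inr (Or.inr (Or.inl ⟨⟨ψ, h2, hψ⟩, ?_, rfl, rfl⟩))⟩
        rw [← h3, hφ]; exact one_mul ψ
    · by_cases hψ : ψ = 1
      · refine ⟨X ⟨φ, h1, hφ⟩, - sX ⟨φ, h1, hφ⟩, Or.inr (Or.inl ⟨⟨φ, h1, hφ⟩, ?_, rfl, rfl⟩)⟩
        rw [← h3, hψ]; exact mul_one φ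
      · exact ⟨Z ⟨φ, h1, hφ⟩ ⟨ψ, h2, hψ⟩, sZ ⟨φ, h1, hφ⟩ ⟨ψ, h2, hψ⟩, Or.inr (Or.inr (Or.inr ⟨⟨φ, h1, hφ⟩, ⟨ψ, h2, hψ⟩, h3.symm, rfl, rfl⟩))⟩
  choose L S hLS using hex
  have hLinj : Function.Injective L := by
    intro ω ω' he
    rcases hLS ω with ⟨a, b, -⟩ | ⟨i, a, b, -⟩ | ⟨j, a, b, -⟩ | ⟨i, j, a, b, -⟩ <;>
    rcases hLS ω' with ⟨a', b', -⟩ | ⟨i', a', b', -⟩ | ⟨j', a', b', -⟩ | ⟨i', j', a', b', -⟩ <;>
    rw [b, b'] at he <;> rw [a, a']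
    · exact absurd he (hX0 i')
    · exact absurd he (hY0 j')
    · exact absurd he (hZ0 i' j')
    · exact absurd he.symm (hX0 i)
    · rw [hXi he]
    · exact absurd he (hXY _ _)
    · exact absurd he (hXZ _ _ _)
    · exact absurd he.symm (hY0 j)
    · exact absurd he.symm (hXY _ _)
    · rw [hYi he]
    · exact absurd he (hYZ _ _ _)
    · exact absurd he.symm (hZ0 i j)
    · exact absurd he.symm (hXZ _ _ _)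
    · exact absurd he.symm (hYZ _ _ _)
    · obtain ⟨e1, e2⟩ := hZi _ _ _ _ he
      rw [e1, e2]
  have u1 : Tr (W₁ ⊔ W₂) W₂ (1 : ↥(W₁ ⊔ W₂) →* ℂˣ) := Tr.one
  have u2 : Tr (W₁ ⊔ W₂) W₁ (1 : ↥(W₁ ⊔ W₂) →* ℂˣ) := Tr.one
  have hm1 : ∀ φ : ↥(W₁ ⊔ W₂) →* ℂˣ, φ * 1 = φ := fun φ => mul_one φ
  have hm2 : ∀ φ : ↥(W₁ ⊔ W₂) →* ℂˣ, 1 * φ = φ := fun φ => one_mul φ
  have hL1 : L 1 = r0 ∧ S 1 = 1 := by
    rcases hLS 1 with ⟨a, b, c⟩ | ⟨i, a, b, c⟩ | ⟨j, a, b, c⟩ | ⟨i, j, a, b, c⟩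
    · exact ⟨b, c⟩
    · exact absurd a.symm i.2.2
    · exact absurd a.symm j.2.2
    · exact absurd (prod_inj hd hc u1 i.2.1 u2 j.2.1 ((hm1 1).trans a)).1.symm i.2.2
  have hLX : ∀ i : II W₁ W₂, L i.1 = X i ∧ S i.1 = - sX i := by
    intro k
    rcases hLS k.1 with ⟨a, b, c⟩ | ⟨i, a, b, c⟩ | ⟨j, a, b, c⟩ | ⟨i, j, a, b, c⟩
    · exact absurd a k.2.2
    · have := Subtype.ext a
      subst this
      exact ⟨b, c⟩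
    · exact absurd (prod_inj hd hc k.2.1 u1 u2 j.2.1 ((hm1 _).trans (a.trans (hm2 _).symm))).1 k.2.2
    · exact absurd (prod_inj hd hc k.2.1 i.2.1 u2 j.2.1 ((hm1 _).trans a)).2.symm j.2.2
  have hLY : ∀ i : JJ W₁ W₂, L i.1 = Y i ∧ S i.1 = - sY i := by
    intro k
    rcases hLS k.1 with ⟨a, b, c⟩ | ⟨i, a, b, c⟩ | ⟨j, a, b, c⟩ | ⟨i, j, a, b, c⟩
    · exact absurd a k.2.2
    · exact absurd (prod_inj hd hc u1 i.2.1 k.2.1 u2 ((hm2 _).trans (a.trans (hm1 _).symm))).2 k.2.2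
    · have := Subtype.ext a
      subst this
      exact ⟨b, c⟩
    · exact absurd (prod_inj hd hc u1 i.2.1 k.2.1 j.2.1 ((hm2 _).trans a)).1.symm i.2.2
  have hLZ : ∀ (i : II W₁ W₂) (j : JJ W₁ W₂), L (i.1 * j.1) = Z i j ∧ S (i.1 * j.1) = sZ i j := by
    intro k l
    rcases hLS (k.1 * l.1) with ⟨a, b, c⟩ | ⟨i, a, b, c⟩ | ⟨j, a, b, c⟩ | ⟨i, j, a, b, c⟩
    · exact absurd (prod_inj hd hc k.2.1 u1 l.2.1 u2 (a.trans (hm1 _).symm)).1 k.2.2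
    · exact absurd (prod_inj hd hc k.2.1 i.2.1 l.2.1 u2 (a.trans (hm1 _).symm)).2 l.2.2
    · exact absurd (prod_inj hd hc k.2.1 u1 l.2.1 j.2.1 (a.trans (hm2 _).symm)).1 k.2.2
    · obtain ⟨e1, e2⟩ := prod_inj hd hc k.2.1 i.2.1 l.2.1 j.2.1 a
      have e1' := Subtype.ext e1
      have e2' := Subtype.ext e2
      subst e1'; subst e2'
      exact ⟨b, c⟩
  have hS : ∀ ω, S ω = 1 ∨ S ω = -1 := by
    intro ω
    rcases hLS ω with ⟨-, -, c⟩ | ⟨i, -, -, c⟩ | ⟨j, -, -, c⟩ | ⟨i, j, -, -, c⟩ <;> rw [c]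
    · exact Or.inl rfl
    · rcases hsX i with h | h <;> rw [h] <;> simp
    · rcases hsY j with h | h <;> rw [h] <;> simp
    · exact hsZ i j
  have horth : ∀ ω ω', classInner ((S ω : ℂ) • (L ω : G → ℂ)) ((S ω' : ℂ) • (L ω' : G → ℂ)) = if ω = ω' then 1 else 0 := by
    intro ω ω'
    rw [ci_smul_l, ci_smul_r]
    by_cases h : ω = ω'
    · subst h
      rw [if_pos rfl, irr_inner_self (L ω).2]
      rcases hS ω with h | h <;> rw [h] <;> simp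
    · rw [if_neg h, irr_inner_ne (L ω).2 (L ω').2 (fun h' => h (hLinj (Subtype.ext h'))), mul_zero, mul_zero]
  have hind : ∀ φ ψ : ↥(W₁ ⊔ W₂) →* ℂˣ, φ ≠ 1 → ψ ≠ 1 → Tr _ W₂ φ → Tr _ W₁ ψ →
      indFun (W₁ ⊔ W₂) (al φ ψ) = (S 1 : ℂ) • (L 1 : G → ℂ) - (S φ : ℂ) • (L φ : G → ℂ) - (S ψ : ℂ) • (L ψ : G → ℂ) +
        (S (φ * ψ) : ℂ) • (L (φ * ψ) : G → ℂ) := by
    intro φ ψ hφ hψ h1 h2
    obtain ⟨x1, x2⟩ := hLX ⟨φ, h1, hφ⟩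
    obtain ⟨y1, y2⟩ := hLY ⟨ψ, h2, hψ⟩
    obtain ⟨z1, z2⟩ := hLZ ⟨φ, h1, hφ⟩ ⟨ψ, h2, hψ⟩
    simp only at x1 x2 y1 y2 z1 z2
    rw [hL1.1, hL1.2, x1, x2, y1, y2, z1, z2]
    have e1 : indFun (W₁ ⊔ W₂) (al φ ψ) = be φ ψ + (fun _ => 1) := by unfold be; rw [sub_add_cancel]
    have e2 := be_expand (G := G) φ ψ
    have e3 : ∀ ρ : IrrCharacter G, ((co φ ψ ρ : ℤ) : ℂ) = (if ρ = X ⟨φ, h1, hφ⟩ then (sX ⟨φ, h1, hφ⟩ : ℂ) else 0) +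
        (if ρ = Y ⟨ψ, h2, hψ⟩ then (sY ⟨ψ, h2, hψ⟩ : ℂ) else 0) + (if ρ = Z ⟨φ, h1, hφ⟩ ⟨ψ, h2, hψ⟩ then (sZ ⟨φ, h1, hφ⟩ ⟨ψ, h2, hψ⟩ : ℂ) else 0) := by
      intro ρ
      have := hB ⟨φ, h1, hφ⟩ ⟨ψ, h2, hψ⟩ ρ
      simp only at this
      rw [this]
      push_cast
      rfl
    rw [e1, e2]
    have e4 : ∑ ρ : IrrCharacter G, ((co φ ψ ρ : ℤ) : ℂ) • (ρ : G → ℂ) = (sX ⟨φ, h1, hφ⟩ : ℂ) • (X ⟨φ, h1, hφ⟩ : G → ℂ) +
        (sY ⟨ψ, h2, hψ⟩ : ℂ) • (Y ⟨ψ, h2, hψ⟩ : G → ℂ) + (sZ ⟨φ, h1, hφ⟩ ⟨ψ, h2, hψ⟩ : ℂ) • (Z ⟨φ, h1, hφ⟩ ⟨ψ, h2, hψ⟩ : G → ℂ) := by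
      rw [Finset.sum_congr rfl fun ρ _ => by rw [e3 ρ, add_smul, add_smul]]
      rw [Finset.sum_add_distrib, Finset.sum_add_distrib]
      simp only [ite_smul, zero_smul, Finset.sum_ite_eq', Finset.mem_univ, if_true]
    rw [e4]
    ext g
    simp only [Pi.add_apply, Pi.sub_apply, Pi.smul_apply, smul_eq_mul, Int.cast_neg, Int.cast_one]
    rw [show (r0 : G → ℂ) g = 1 from rfl]
    ring
  refine ⟨fun ω => (S ω : ℂ) • (L ω : G → ℂ), ?_, ?_, ?_, ?_, ?_⟩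
  · intro ω
    rcases hS ω with h | h
    · left; simp only [h]; rw [Int.cast_one, one_smul]; exact (L ω).2
    · right; simp only [h]; rw [Int.cast_neg, Int.cast_one, neg_smul, one_smul, neg_neg]; exact (L ω).2
  · intro ω ω'
    convert horth ω ω'
  · simp only [hL1.1, hL1.2]
    rw [Int.cast_one, one_smul]
  · intro ω w hw1 hw2
    exact eq_on_V hW (χ := fun ω => (S ω : ℂ) • (L ω : G → ℂ)) (fun ω => classFun_smul _ (CharBasic.irr_classFun (L ω).2)) horth hind ω w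
      (mem_V.mpr ⟨w.2, hw1, hw2⟩)
  · intro φ ψ hφ hψ h1 h2
    have h3 := hind φ ψ hφ hψ h1 h2
    have h4 : (fun w : ↥(W₁ ⊔ W₂) => 1 - (φ w : ℂ) - (ψ w : ℂ) + (φ w : ℂ) * (ψ w : ℂ)) = al φ ψ := rfl
    rw [h4, h3, hL1.1, hL1.2]
    ext g
    simp only [Pi.add_apply, Pi.sub_apply, Pi.smul_apply, smul_eq_mul, Int.cast_one, one_mul]
    rfl

end CfsgLib.Cyc
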