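import Cfsg.Agent.EqBase
import Cfsg.Agent.LibCyc3
import Cfsg.Agent.LibSgn
import Cfsg.Agent.LibGalChar
/-!
# Uniqueness of the cyclic TI family and its rationality properties (helper16)
-/
set_option autoImplicit false
set_option linter.all false
open Cfsg CfsgLib.CharBasic CfsgLib.CharIndA CfsgLib.CharNorm CfsgLib.Sgn
open scoped ComplexConjugate
namespace CfsgLib.Cyc

universe u
variable {G : Type u} [Group G] [Fintype G] {W₁ W₂ : Subgroup G}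

theorem pick {ι : Type*} {χ : ι → G → ℂ} (h : ∀ i, SIrr (χ i)) (horth : ∀ i j, i ≠ j → classInner (χ i) (χ j) = 0)
    {x : G → ℂ} (hx : SIrr x) {a b c b' c' : ι} (hab : a ≠ b) (hac : a ≠ c) (h1 : b ≠ b') (h2 : b ≠ c') (h3 : c ≠ b')
    (h4 : c ≠ c') (e1 : classInner (χ a) x + classInner (χ b) x - classInner (χ c) x = 1)
    (e2 : classInner (χ a) x + classInner (χ b') x - classInner (χ c') x = 1) : χ a = x := by
  have hpm : ∀ i, classInner (χ i) x ≠ 0 → ∀ j, i ≠ j → classInner (χ j) x = 0 := by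
    intro i hi j hij
    rcases (h i).inner hx with h5 | h5 | h5
    · exact absurd h5 hi
    · rw [← h5.1]; exact horth j i hij.symm
    · have : x = - χ i := by rw [h5.1, neg_neg]
      rw [this, ci_neg_r, horth j i hij.symm, neg_zero]
  rcases (h a).inner hx with h5 | h5 | h5
  · exfalso
    rw [h5] at e1 e2
    have hex : ∃ i, (i = b ∨ i = c) ∧ classInner (χ i) x ≠ 0 := by
      by_contra hcon
      push Not at hcon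
      rw [hcon b (Or.inl rfl), hcon c (Or.inr rfl)] at e1
      norm_num at e1
    obtain ⟨i, hi, hi'⟩ := hex
    have z1 : classInner (χ b') x = 0 := hpm i hi' b' (by rcases hi with rfl | rfl; exacts [h1, h3])
    have z2 : classInner (χ c') x = 0 := hpm i hi' c' (by rcases hi with rfl | rfl; exacts [h2, h4])
    rw [z1, z2] at e2
    norm_num at e2
  · exact h5.1
  · exfalso
    have hne : classInner (χ a) x ≠ 0 := by rw [h5.2]; norm_num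
    rw [h5.2, hpm a hne b hab, hpm a hne c hac] at e1
    norm_num at e1

theorem fam_unique (hW : IsSelfNormalizingCyclic W₁ W₂) (hodd : Odd (Nat.card ↥(W₁ ⊔ W₂)))
    {χ χ' : (↥(W₁ ⊔ W₂) →* ℂˣ) → (G → ℂ)} (hχ : IsCyclicTIFamily W₁ W₂ χ) (hχ' : IsCyclicTIFamily W₁ W₂ χ') : χ = χ' := by
  classical
  have hd := hW.2.2.1
  have hc := hW.2.2.2.1
  have hab := comm_of_cyclic hW.2.2.2.2.1
  obtain ⟨φ₀, f1, f2⟩ := exists_nontriv hd hab hW.1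
  obtain ⟨ψ₀, g1, g2⟩ := exists_nontriv' hd hab hW.2.1
  have u1 : Tr (W₁ ⊔ W₂) W₂ (1 : ↥(W₁ ⊔ W₂) →* ℂˣ) := Tr.one
  have u2 : Tr (W₁ ⊔ W₂) W₁ (1 : ↥(W₁ ⊔ W₂) →* ℂˣ) := Tr.one
  have hm1 : ∀ φ : ↥(W₁ ⊔ W₂) →* ℂˣ, φ * 1 = φ := fun φ => mul_one φ
  have hm2 : ∀ φ : ↥(W₁ ⊔ W₂) →* ℂˣ, 1 * φ = φ := fun φ => one_mul φ
  have ho : ∀ i j, i ≠ j → classInner (χ i) (χ j) = 0 := fun i j hij => by rw [hχ.orthonormal]; convert if_neg hij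
  have ho' : ∀ i j, i ≠ j → classInner (χ' i) (χ' j) = 0 := fun i j hij => by rw [hχ'.orthonormal]; convert if_neg hij
  have hs' : ∀ i, classInner (χ' i) (χ' i) = 1 := fun i => by rw [hχ'.orthonormal]; convert if_pos rfl
  have heq : ∀ {φ ψ : ↥(W₁ ⊔ W₂) →* ℂˣ}, Tr _ W₂ φ → Tr _ W₁ ψ → χ φ + χ ψ - χ (φ * ψ) = χ' φ + χ' ψ - χ' (φ * ψ) := by
    intro φ ψ h1 h2
    have e1 := fam_ind hχ h1 h2
    have e2 := fam_ind hχ' h1 h2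
    rw [e1, hχ.map_one, hχ'.map_one] at e2
    have : χ φ + χ ψ - χ (φ * ψ) = (fun _ => 1) - ((fun _ => 1) - χ φ - χ ψ + χ (φ * ψ)) := by abel
    rw [this, e2]; abel
  -- distinctness facts
  have d1 : ∀ {φ ψ : ↥(W₁ ⊔ W₂) →* ℂˣ}, Tr _ W₂ φ → Tr _ W₁ ψ → φ ≠ 1 → φ ≠ ψ := fun h1 h2 h3 he =>
    h3 (prod_inj hd hc h1 u1 u2 h2 ((hm1 _).trans (he.trans (hm2 _).symm))).1
  have d2 : ∀ {φ ψ : ↥(W₁ ⊔ W₂) →* ℂˣ}, Tr _ W₂ φ → Tr _ W₁ ψ → ψ ≠ 1 → φ ≠ φ * ψ := fun h1 h2 h3 he =>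
    h3 (prod_inj hd hc h1 h1 u2 h2 ((hm1 _).trans he)).2.symm
  have d3 : ∀ {φ ψ : ↥(W₁ ⊔ W₂) →* ℂˣ}, Tr _ W₂ φ → Tr _ W₁ ψ → φ ≠ 1 → ψ ≠ φ * ψ := fun h1 h2 h3 he =>
    h3 (prod_inj hd hc u1 h1 h2 h2 ((hm2 _).trans he)).1.symm
  have d4 : ∀ {φ ψ ψ' : ↥(W₁ ⊔ W₂) →* ℂˣ}, Tr _ W₂ φ → Tr _ W₁ ψ → Tr _ W₁ ψ' → φ ≠ 1 → ψ ≠ φ * ψ' := fun h1 h2 h2' h3 he =>
    h3 (prod_inj hd hc u1 h1 h2 h2' ((hm2 _).trans he)).1.symm
  have d5 : ∀ {φ φ' ψ : ↥(W₁ ⊔ W₂) →* ℂˣ}, Tr _ W₂ φ → Tr _ W₂ φ' → Tr _ W₁ ψ → ψ ≠ 1 → φ ≠ φ' * ψ := fun h1 h1' h2 h3 he =>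
    h3 (prod_inj hd hc h1 h1' u2 h2 ((hm1 _).trans he)).2.symm
  have kφ : ∀ φ : ↥(W₁ ⊔ W₂) →* ℂˣ, Tr _ W₂ φ → φ ≠ 1 → χ φ = χ' φ := by
    intro φ h1 h2
    have hsum : ∀ ψ : ↥(W₁ ⊔ W₂) →* ℂˣ, Tr _ W₁ ψ → ψ ≠ 1 → classInner (χ φ) (χ' φ) + classInner (χ ψ) (χ' φ) -
        classInner (χ (φ * ψ)) (χ' φ) = 1 := by
      intro ψ h3 h4
      rw [← ci_add_l, ← ci_sub_l, heq h1 h3, ci_sub_l, ci_add_l, hs', ho' _ _ (d1 h1 h3 h2).symm, ho' _ _ (d2 h1 h3 h4).symm]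
      ring
    have hne : ψ₀ ≠ ψ₀⁻¹ := fun h => hom_inv_ne hodd g2 h.symm
    exact pick hχ.irr_or_neg ho (hχ'.irr_or_neg φ) (a := φ) (b := ψ₀) (c := φ * ψ₀) (b' := ψ₀⁻¹) (c' := φ * ψ₀⁻¹)
      (d1 h1 g1 h2) (d2 h1 g1 g2) hne (d4 h1 g1 g1.inv h2) (d4 h1 g1.inv g1 h2).symm
      (fun h => hne (mul_left_cancel h)) (hsum ψ₀ g1 g2) (hsum ψ₀⁻¹ g1.inv (hom_inv_ne_one g2))
  have kψ : ∀ ψ : ↥(W₁ ⊔ W₂) →* ℂˣ, Tr _ W₁ ψ → ψ ≠ 1 → χ ψ = χ' ψ := by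
    intro ψ h1 h2
    have hsum : ∀ φ : ↥(W₁ ⊔ W₂) →* ℂˣ, Tr _ W₂ φ → φ ≠ 1 → classInner (χ ψ) (χ' ψ) + classInner (χ φ) (χ' ψ) -
        classInner (χ (φ * ψ)) (χ' ψ) = 1 := by
      intro φ h3 h4
      have e : χ ψ + χ φ - χ (φ * ψ) = χ' ψ + χ' φ - χ' (φ * ψ) := by
        rw [add_comm (χ ψ), add_comm (χ' ψ)]; exact heq h3 h1
      rw [← ci_add_l, ← ci_sub_l, e, ci_sub_l, ci_add_l, hs', ho' _ _ (d1 h3 h1 h4), ho' _ _ (d3 h3 h1 h4).symm]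
      ring
    have hne : φ₀ ≠ φ₀⁻¹ := fun h => hom_inv_ne hodd f2 h.symm
    exact pick hχ.irr_or_neg ho (hχ'.irr_or_neg ψ) (a := ψ) (b := φ₀) (c := φ₀ * ψ) (b' := φ₀⁻¹) (c' := φ₀⁻¹ * ψ)
      (d1 f1 h1 f2).symm (d3 f1 h1 f2) hne (d5 f1 f1.inv h1 h2) (d5 f1.inv f1 h1 h2).symm
      (fun h => hne (mul_right_cancel h)) (hsum φ₀ f1 f2) (hsum φ₀⁻¹ f1.inv (hom_inv_ne_one f2))
  have kφ' : ∀ φ : ↥(W₁ ⊔ W₂) →* ℂˣ, Tr _ W₂ φ → χ φ = χ' φ := by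
    intro φ h1
    by_cases h2 : φ = 1
    · rw [h2, hχ.map_one, hχ'.map_one]
    · exact kφ φ h1 h2
  have kψ' : ∀ ψ : ↥(W₁ ⊔ W₂) →* ℂˣ, Tr _ W₁ ψ → χ ψ = χ' ψ := by
    intro ψ h1
    by_cases h2 : ψ = 1
    · rw [h2, hχ.map_one, hχ'.map_one]
    · exact kψ ψ h1 h2
  ext1 ω
  obtain ⟨φ, ψ, h1, h2, rfl⟩ := exists_prod hd hc ω
  have e := heq h1 h2
  rw [kφ' φ h1, kψ' ψ h2] at e
  exact sub_right_injective e

/-- Galois twist of a linear character -/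
noncomputable def gal {W : Type*} [Group W] (σ : ℂ ≃+* ℂ) (ω : W →* ℂˣ) : W →* ℂˣ := (Units.map (σ : ℂ →* ℂ)).comp ω

theorem gal_apply {W : Type*} [Group W] (σ : ℂ ≃+* ℂ) (ω : W →* ℂˣ) (w : W) : ((gal σ ω) w : ℂ) = σ (ω w : ℂ) := rfl

theorem gen_gal (σ : ℂ ≃+* ℂ) {θ : G → ℂ} (h : IsGeneralizedCharacter G θ) : IsGeneralizedCharacter G (σ ∘ θ) := by
  obtain ⟨χ, ψ, h1, h2, rfl⟩ := h
  exact ⟨_, _, CfsgLib.GalChar.isCharacter_gal σ h1, CfsgLib.GalChar.isCharacter_gal σ h2, by ext g; simp⟩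

theorem inner_gal' (σ : ℂ ≃+* ℂ) {χ ψ : G → ℂ} (h : IsGeneralizedCharacter G ψ) :
    classInner (σ ∘ χ) (σ ∘ ψ) = σ (classInner χ ψ) := by
  simp only [classInner, map_mul, map_inv₀, map_natCast, map_sum]
  congr 1
  refine Finset.sum_congr rfl fun g _ => ?_
  rw [← gen_inv_eq_conj (gen_gal σ h), ← gen_inv_eq_conj h]
  rfl

theorem ind_gal (σ : ℂ ≃+* ℂ) {H : Subgroup G} (θ : H → ℂ) : indFun H (fun h => σ (θ h)) = fun g => σ (indFun H θ g) := by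
  ext g
  rw [ind_apply, ind_apply, map_mul, map_sum, map_inv₀, map_natCast]
  congr 1
  refine Finset.sum_congr rfl fun x _ => ?_
  by_cases hx : x⁻¹ * g * x ∈ H
  · rw [ext_mem _ _ hx, ext_mem _ _ hx]
  · rw [ext_not_mem _ _ hx, ext_not_mem _ _ hx, map_zero]

/-- the Galois twist of the family -/
theorem fam_gal (hW : IsSelfNormalizingCyclic W₁ W₂) (hodd : Odd (Nat.card ↥(W₁ ⊔ W₂)))
    {χ : (↥(W₁ ⊔ W₂) →* ℂˣ) → (G → ℂ)} (hχ : IsCyclicTIFamily W₁ W₂ χ) (σ : ℂ ≃+* ℂ) (ω : ↥(W₁ ⊔ W₂) →* ℂˣ) (g : G) :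
    σ (χ ω g) = χ (gal σ ω) g := by
  classical
  have hinv : ∀ ω : ↥(W₁ ⊔ W₂) →* ℂˣ, gal σ (gal σ.symm ω) = ω := by
    intro ω; ext w
    rw [gal_apply, gal_apply, RingEquiv.apply_symm_apply]
  have hinv' : ∀ ω : ↥(W₁ ⊔ W₂) →* ℂˣ, gal σ.symm (gal σ ω) = ω := by
    intro ω; ext w
    rw [gal_apply, gal_apply, RingEquiv.symm_apply_apply]
  have hgone : gal σ.symm (1 : ↥(W₁ ⊔ W₂) →* ℂˣ) = 1 := by
    ext w; rw [gal_apply]; simp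
  have hgmul : ∀ φ ψ : ↥(W₁ ⊔ W₂) →* ℂˣ, gal σ.symm (φ * ψ) = gal σ.symm φ * gal σ.symm ψ := by
    intro φ ψ; ext w
    rw [gal_apply, MonoidHom.mul_apply, MonoidHom.mul_apply, Units.val_mul, Units.val_mul, map_mul, gal_apply, gal_apply]
  have hinj : Function.Injective (gal σ.symm : (↥(W₁ ⊔ W₂) →* ℂˣ) → _) := by
    intro ω ω' h
    rw [← hinv ω, h, hinv]
  have hgne : ∀ φ : ↥(W₁ ⊔ W₂) →* ℂˣ, φ ≠ 1 → gal σ.symm φ ≠ 1 := by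
    intro φ hφ h
    apply hφ
    apply hinj
    rw [h, hgone]
  have hfam : IsCyclicTIFamily W₁ W₂ (fun ω => σ ∘ χ (gal σ.symm ω)) := by
    refine ⟨?_, ?_, ?_, ?_, ?_⟩
    · intro ω
      rcases hχ.irr_or_neg (gal σ.symm ω) with h | h
      · left; exact CfsgLib.GalChar.isIrrCharacter_gal σ h
      · right
        have := CfsgLib.GalChar.isIrrCharacter_gal σ h
        have e : σ ∘ (-χ (gal σ.symm ω)) = -(σ ∘ χ (gal σ.symm ω)) := by ext g; simp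
        rwa [e] at this
    · intro ω ω'
      have hgen : IsGeneralizedCharacter G (χ (gal σ.symm ω')) := SIrr.gen (hχ.irr_or_neg _)
      rw [inner_gal' σ hgen, hχ.orthonormal]
      by_cases h : ω = ω'
      · rw [if_pos h, if_pos (by rw [h]), map_one]
      · rw [if_neg h, if_neg (fun h' => h (hinj h')), map_zero]
    · rw [hgone, hχ.map_one]
      ext g; simp
    · intro ω w h1 h2
      simp only [Function.comp_apply]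
      rw [hχ.eq_on _ w h1 h2, gal_apply, RingEquiv.apply_symm_apply]
    · intro φ ψ hφ hψ h1 h2
      have t1 : Tr _ W₂ (gal σ.symm φ) := fun w hw => by
        apply Units.ext; rw [gal_apply, h1 w hw]; simp
      have t2 : Tr _ W₁ (gal σ.symm ψ) := fun w hw => by
        apply Units.ext; rw [gal_apply, h2 w hw]; simp
      have e1 := hχ.induced_eq (gal σ.symm φ) (gal σ.symm ψ) (hgne φ hφ) (hgne ψ hψ) t1 t2
      have e2 : (fun w : ↥(W₁ ⊔ W₂) => 1 - (φ w : ℂ) - (ψ w : ℂ) + (φ w : ℂ) * (ψ w : ℂ)) =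
          fun w => σ (1 - (gal σ.symm φ w : ℂ) - (gal σ.symm ψ w : ℂ) + (gal σ.symm φ w : ℂ) * (gal σ.symm ψ w : ℂ)) := by
        ext w
        simp only [map_add, map_sub, map_mul, map_one, gal_apply, RingEquiv.apply_symm_apply]
      rw [e2, ind_gal σ (fun w : ↥(W₁ ⊔ W₂) => 1 - (gal σ.symm φ w : ℂ) - (gal σ.symm ψ w : ℂ) + (gal σ.symm φ w : ℂ) * (gal σ.symm ψ w : ℂ)), e1]
      ext g
      simp only [map_add, map_sub, map_one, Function.comp_apply]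
      rw [hgmul]
  have h1 := fam_unique hW hodd hfam hχ
  have h2 := congrFun (congrFun h1 (gal σ ω)) g
  simp only [Function.comp_apply] at h2
  rw [hinv'] at h2
  exact h2

end CfsgLib.Cyc
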