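import Cfsg.Agent.EqBase
import Cfsg.Agent.LibCyc4
/-!
# The groups `K ⋊ W₁` with `C_K(x) = W₂` for `x ∈ W₁ ∖ 1` (helper16)
-/
set_option autoImplicit false
set_option linter.all false
open Cfsg CfsgLib.CharBasic CfsgLib.CharIndA CfsgLib.CharNorm CfsgLib.Sgn
open scoped ComplexConjugate
namespace CfsgLib.Cyc

universe u
variable {L : Type u} [Group L] [Fintype L]

structure Setup (K W₁ W₂ : Subgroup L) : Prop where
  nK : K.Normal
  inf : K ⊓ W₁ = ⊥
  sup : K ⊔ W₁ = ⊤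
  ne1 : W₁ ≠ ⊥
  cyc1 : IsCyclic W₁
  hall : Nat.Coprime (Nat.card W₁) W₁.index
  ne2 : W₂ ≠ ⊥
  cyc2 : IsCyclic W₂
  le : W₂ ≤ K
  cent : ∀ x ∈ W₁, x ≠ 1 → K ⊓ Subgroup.centralizer ({x} : Set L) = W₂
  odd : Odd (Nat.card ↥(W₁ ⊔ W₂))

variable {K W₁ W₂ : Subgroup L}

theorem Setup.comm (h : Setup K W₁ W₂) : ∀ a ∈ W₁, ∀ b ∈ W₂, a * b = b * a := by
  intro a ha b hb
  by_cases h1 : a = 1
  · rw [h1, one_mul, mul_one]
  · rw [← h.cent a ha h1] at hb
    exact Subgroup.mem_centralizer_iff.mp hb.2 a rfl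

theorem Setup.disj (h : Setup K W₁ W₂) : W₁ ⊓ W₂ = ⊥ := by
  rw [eq_bot_iff, ← h.inf]
  rintro x ⟨h1, h2⟩
  exact ⟨h.le h2, h1⟩

theorem Setup.hn (h : Setup K W₁ W₂) : ∀ q ∈ W₁, ∀ k ∈ K, q * k * q⁻¹ ∈ K := fun q _ k hk => h.nK.conj_mem k hk q

theorem Setup.decomp (h : Setup K W₁ W₂) (g : L) : ∃ k ∈ K, ∃ w ∈ W₁, k * w = g :=
  (CfsgLib.Dade.exists_proj h.hn h.inf).1 g (by rw [h.sup]; trivial)

/-- the projection to `W₁` -/
theorem Setup.exists_p (h : Setup K W₁ W₂) : ∃ p : L →* W₁, (∀ k ∈ K, p k = 1) ∧ ∀ w : W₁, p (w : L) = w := by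
  obtain ⟨hm, π, hπ⟩ := CfsgLib.Dade.exists_proj h.hn h.inf
  have ht : ∀ x : L, x ∈ K ⊔ W₁ := fun x => by rw [h.sup]; trivial
  refine ⟨π.comp { toFun := fun x => ⟨x, ht x⟩, map_one' := rfl, map_mul' := fun _ _ => rfl }, ?_, ?_⟩
  · intro k hk
    exact hπ k hk 1 _ (by simp)
  · intro w
    exact hπ 1 K.one_mem w _ (by simp)

theorem Setup.card (h : Setup K W₁ W₂) : Nat.card L = Nat.card K * Nat.card W₁ := by
  have := CfsgLib.Dade.card_sup_disjoint h.hn h.inf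
  rw [h.sup, Subgroup.card_top] at this
  exact this

theorem Setup.index (h : Setup K W₁ W₂) : W₁.index = Nat.card K := by
  have h1 := h.card
  have h2 := Subgroup.card_mul_index W₁
  rw [h1, mul_comm] at h2
  exact Nat.eq_of_mul_eq_mul_right Nat.card_pos h2

theorem Setup.coprime (h : Setup K W₁ W₂) : Nat.Coprime (Nat.card W₁) (Nat.card W₂) := by
  have := h.hall
  rw [h.index] at this
  exact this.coprime_dvd_right (Subgroup.card_dvd_of_le h.le)

/-- `W ∖ W₂` is a TI subset with normalizer `W` -/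
theorem Setup.key (h : Setup K W₁ W₂) {a b g : L} (ha : a ∈ W₁) (hb : b ∈ W₂) (ha1 : a ≠ 1)
    (hg : g * (a * b) * g⁻¹ ∈ W₁ ⊔ W₂) : g ∈ W₁ ⊔ W₂ := by
  obtain ⟨p, hpK, hpW⟩ := h.exists_p
  obtain ⟨a', ha', b', hb', e⟩ := mem_sup h.disj h.comm hg
  have hcomm : ∀ x y : W₁, x * y = y * x := comm_of_cyclic h.cyc1
  have e1 : a' = a := by
    have h1 := congrArg p e
    rw [map_mul, map_mul, map_mul, map_mul, hpK b (h.le hb), hpK b' (h.le hb'), mul_one, mul_one, map_inv,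
      hcomm (p g), mul_assoc, mul_inv_cancel, mul_one] at h1
    have h2 := hpW ⟨a', ha'⟩
    have h3 := hpW ⟨a, ha⟩
    simp only at h2 h3
    rw [h2, h3] at h1
    exact congrArg Subtype.val h1
  subst e1
  obtain ⟨m, hm1, hm2⟩ := Nat.chineseRemainder h.coprime 1 0
  have pw : ∀ a ∈ W₁, ∀ b ∈ W₂, (a * b) ^ m = a := by
    intro a ha b hb
    have hc : Commute a b := h.comm a ha b hb
    rw [hc.mul_pow]
    have h1 : a ^ m = a ^ 1 := by
      apply pow_eq_pow_iff_modEq.mpr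
      exact hm1.of_dvd (by rw [← Subgroup.orderOf_mk a ha]; exact orderOf_dvd_natCard _)
    have h2 : b ^ m = b ^ 0 := by
      apply pow_eq_pow_iff_modEq.mpr
      exact hm2.of_dvd (by rw [← Subgroup.orderOf_mk b hb]; exact orderOf_dvd_natCard _)
    rw [h1, h2, pow_one, pow_zero, mul_one]
  have e2 : g * a' * g⁻¹ = a' := by
    have h1 := congrArg (· ^ m) e
    rw [conj_pow, pw a' ha b hb, pw a' ha b' hb'] at h1
    exact h1.symm
  obtain ⟨k, hk, w, hw, rfl⟩ := h.decomp g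
  have e3 : w * a' * w⁻¹ = a' := by
    have := congrArg Subtype.val (hcomm ⟨w, hw⟩ ⟨a', ha⟩)
    simp only [Subgroup.coe_mul] at this
    rw [this, mul_inv_cancel_right]
  have e4 : k * a' * k⁻¹ = a' := by
    have : k * w * a' * (k * w)⁻¹ = k * (w * a' * w⁻¹) * k⁻¹ := by group
    rw [this, e3] at e2
    exact e2
  have hk2 : k ∈ W₂ := by
    rw [← h.cent a' ha ha1]
    refine ⟨hk, Subgroup.mem_centralizer_iff.mpr ?_⟩
    intro y hy
    rw [Set.mem_singleton_iff.mp hy]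
    exact (mul_inv_eq_iff_eq_mul.mp e4).symm
  exact (W₁ ⊔ W₂).mul_mem (Subgroup.mem_sup_right hk2) (Subgroup.mem_sup_left hw)

theorem Setup.cyc (h : Setup K W₁ W₂) : IsCyclic ↥(W₁ ⊔ W₂) := by
  obtain ⟨⟨x, hx⟩, hx1⟩ := h.cyc1
  obtain ⟨⟨y, hy⟩, hy1⟩ := h.cyc2
  have ox : orderOf x = Nat.card W₁ := by
    rw [← Subgroup.orderOf_mk x hx, ← Nat.card_zpowers]
    have : Subgroup.zpowers (⟨x, hx⟩ : W₁) = ⊤ := by
      rw [Subgroup.eq_top_iff']; exact hx1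
    rw [this, Subgroup.card_top]
  have oy : orderOf y = Nat.card W₂ := by
    rw [← Subgroup.orderOf_mk y hy, ← Nat.card_zpowers]
    have : Subgroup.zpowers (⟨y, hy⟩ : W₂) = ⊤ := by
      rw [Subgroup.eq_top_iff']; exact hy1
    rw [this, Subgroup.card_top]
  have hcard : Nat.card ↥(W₁ ⊔ W₂) = Nat.card W₁ * Nat.card W₂ := by
    apply CfsgLib.Dade.card_sup_disjoint _ h.disj
    intro q hq k hk
    rw [← h.comm k hk q hq]; simpa using hk
  have hcm : Commute x y := h.comm x hx y hy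
  apply isCyclic_of_orderOf_eq_card (⟨x * y, (W₁ ⊔ W₂).mul_mem (Subgroup.mem_sup_left hx) (Subgroup.mem_sup_right hy)⟩ : ↥(W₁ ⊔ W₂))
  rw [Subgroup.orderOf_mk, hcm.orderOf_mul_eq_mul_orderOf_of_coprime (by rw [ox, oy]; exact h.coprime), ox, oy, hcard]

theorem Setup.selfNorm (h : Setup K W₁ W₂) : IsSelfNormalizingCyclic W₁ W₂ := by
  refine ⟨h.ne1, h.ne2, h.disj, h.comm, h.cyc, ?_⟩
  intro X hX hne
  obtain ⟨x, hx⟩ := hne
  have hab := comm_of_cyclic h.cyc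
  apply le_antisymm
  · intro g hg
    obtain ⟨h1, h2, h3⟩ := mem_V.mp (hX hx)
    obtain ⟨a, ha, b, hb, e⟩ := mem_sup h.disj h.comm h1
    have ha1 : a ≠ 1 := by
      rintro rfl
      rw [one_mul] at e
      rw [← e] at h3
      exact h3 hb
    have h4 : g * x * g⁻¹ ∈ X := (Subgroup.mem_set_normalizer_iff.mp hg x).mp hx
    have h5 := (mem_V.mp (hX h4)).1
    rw [← e] at h5
    exact h.key ha hb ha1 h5
  · intro g hg
    rw [Subgroup.mem_set_normalizer_iff]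
    intro y
    have hy : y ∈ W₁ ⊔ W₂ → g * y * g⁻¹ = y := by
      intro hy
      have := congrArg Subtype.val (hab ⟨g, hg⟩ ⟨y, hy⟩)
      simp only [Subgroup.coe_mul] at this
      rw [this, mul_inv_cancel_right]
    constructor
    · intro h1
      rw [hy (mem_V.mp (hX h1)).1]; exact h1
    · intro h1
      have h2 := (mem_V.mp (hX h1)).1
      have h3 : y ∈ W₁ ⊔ W₂ := by
        have := (W₁ ⊔ W₂).mul_mem ((W₁ ⊔ W₂).mul_mem ((W₁ ⊔ W₂).inv_mem hg) h2) hg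
        have e : g⁻¹ * (g * y * g⁻¹) * g = y := by group
        rwa [e] at this
      rwa [hy h3] at h1

end CfsgLib.Cyc
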