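import Cfsg.Agent.EqBase
import Cfsg.Agent.LibCyc5
import Cfsg.Agent.LibCopAct
/-!
# Characters of `K ⋊ W₁` (helper16)
-/
set_option autoImplicit false
set_option linter.all false
open Cfsg CfsgLib.CharBasic CfsgLib.CharIndA CfsgLib.CharNorm CfsgLib.Sgn
open scoped ComplexConjugate
namespace CfsgLib.Cyc

universe u
variable {L : Type u} [Group L] [Fintype L]
variable {K W₁ W₂ : Subgroup L}

/-- the set `W ∖ W₂` -/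
def V2 (W₁ W₂ : Subgroup L) : Set L := (↑(W₁ ⊔ W₂) : Set L) \ ↑W₂

theorem mem_V2 {x : L} : x ∈ V2 W₁ W₂ ↔ x ∈ W₁ ⊔ W₂ ∧ x ∉ W₂ := Iff.rfl

theorem Setup.ti2 (h : Setup K W₁ W₂) : ∀ g : L, g ∉ W₁ ⊔ W₂ → ∀ s ∈ V2 W₁ W₂, g * s * g⁻¹ ∉ V2 W₁ W₂ := by
  intro g hg s hs hs'
  obtain ⟨h1, h2⟩ := hs
  obtain ⟨a, ha, b, hb, e⟩ := mem_sup h.disj h.comm h1
  have ha1 : a ≠ 1 := by
    rintro rfl
    rw [one_mul] at e
    rw [← e] at h2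
    exact h2 hb
  apply hg
  apply h.key ha hb ha1
  rw [e]; exact hs'.1

/-- agreeing on `W₂` -/
def Ag (ω ω' : ↥(W₁ ⊔ W₂) →* ℂˣ) : Prop := ∀ w : ↥(W₁ ⊔ W₂), (w : L) ∈ W₂ → ω w = ω' w

theorem Ag.refl (ω : ↥(W₁ ⊔ W₂) →* ℂˣ) : Ag ω ω := fun _ _ => rfl
theorem Ag.symm {ω ω' : ↥(W₁ ⊔ W₂) →* ℂˣ} (h : Ag ω ω') : Ag ω' ω := fun w hw => (h w hw).symm
theorem Ag.trans {ω ω' ω'' : ↥(W₁ ⊔ W₂) →* ℂˣ} (h : Ag ω ω') (h' : Ag ω' ω'') : Ag ω ω'' := fun w hw => (h w hw).trans (h' w hw)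

/-- difference of two linear characters -/
def df (ω ω' : ↥(W₁ ⊔ W₂) →* ℂˣ) : ↥(W₁ ⊔ W₂) → ℂ := fun w => (ω w : ℂ) - (ω' w : ℂ)

theorem df_eq (ω ω' : ↥(W₁ ⊔ W₂) →* ℂˣ) : df ω ω' = (fun w => (ω w : ℂ)) - fun w => (ω' w : ℂ) := rfl

theorem df_off {ω ω' : ↥(W₁ ⊔ W₂) →* ℂˣ} (h : Ag ω ω') (w : ↥(W₁ ⊔ W₂)) (hw : (w : L) ∉ V2 W₁ W₂) : df ω ω' w = 0 := by
  have : (w : L) ∈ W₂ := by
    by_contra hcon
    exact hw ⟨w.2, hcon⟩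
  unfold df
  rw [h w this, sub_self]

theorem df_iso (h : Setup K W₁ W₂) [Fintype ↥(W₁ ⊔ W₂)] {ω ω' η η' : ↥(W₁ ⊔ W₂) →* ℂˣ} (h1 : Ag ω ω') (h2 : Ag η η') :
    classInner (indFun (W₁ ⊔ W₂) (df ω ω')) (indFun (W₁ ⊔ W₂) (df η η')) = classInner (df ω ω') (df η η') :=
  CfsgLib.TI.ind_isom_ti h.ti2 (classFun_sub (hom_classFun η) (hom_classFun η')) (df_off h1) (df_off h2)

/-- functions orthogonal to all differences vanish on `W ∖ W₂` -/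
theorem span_V2 [Fintype ↥(W₁ ⊔ W₂)] (hd : W₁ ⊓ W₂ = ⊥) (hc : ∀ a ∈ W₁, ∀ b ∈ W₂, a * b = b * a) (hab : ∀ a b : ↥(W₁ ⊔ W₂), a * b = b * a)
    {f : ↥(W₁ ⊔ W₂) → ℂ}
    (h : ∀ ω ω' : ↥(W₁ ⊔ W₂) →* ℂˣ, Ag ω ω' → classInner (df ω ω') f = 0)
    (v : ↥(W₁ ⊔ W₂)) (hv : (v : L) ∈ V2 W₁ W₂) : f v = 0 := by
  classical
  haveI : Fintype (↥(W₁ ⊔ W₂) →* ℂˣ) := Fintype.ofFinite _
  obtain ⟨-, hv2⟩ := hv
  set Φ := Finset.univ.filter (fun φ : ↥(W₁ ⊔ W₂) →* ℂˣ => Tr _ W₂ φ) with hΦ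
  set Ψ := Finset.univ.filter (fun φ : ↥(W₁ ⊔ W₂) →* ℂˣ => Tr _ W₁ φ) with hΨ
  have h1 : ∑ φ ∈ Φ, ∑ ψ ∈ Ψ, ((φ v⁻¹ : ℂ) * (ψ v⁻¹ : ℂ)) * classInner (df (φ * ψ) ψ) f = 0 := by
    refine Finset.sum_eq_zero fun φ hφ => Finset.sum_eq_zero fun ψ hψ => ?_
    rw [h (φ * ψ) ψ, mul_zero]
    intro w hw
    rw [MonoidHom.mul_apply, (Finset.mem_filter.mp hφ).2 w hw, one_mul]
  have h2 : ∑ φ ∈ Φ, ∑ ψ ∈ Ψ, ((φ v⁻¹ : ℂ) * (ψ v⁻¹ : ℂ)) * classInner (df (φ * ψ) ψ) f =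
      classInner (∑ φ ∈ Φ, ∑ ψ ∈ Ψ, ((φ v⁻¹ : ℂ) * (ψ v⁻¹ : ℂ)) • df (φ * ψ) ψ) f := by
    rw [ci_sum_l]
    refine Finset.sum_congr rfl fun φ _ => ?_
    rw [ci_sum_l]
    refine Finset.sum_congr rfl fun ψ _ => ?_
    rw [ci_smul_l]
  have hne : ∀ X : Subgroup L, (v : L) ∉ X → ((v⁻¹ : ↥(W₁ ⊔ W₂)) : L) ∉ X := by
    intro X hX hX'
    exact hX (by simpa using hX')
  have h4 : ∀ x : ↥(W₁ ⊔ W₂), (∑ φ ∈ Φ, ∑ ψ ∈ Ψ, ((φ v⁻¹ : ℂ) * (ψ v⁻¹ : ℂ)) • df (φ * ψ) ψ) x =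
      if x = v then (Φ.card : ℂ) * Ψ.card else 0 := by
    intro x
    simp only [Finset.sum_apply, Pi.smul_apply, smul_eq_mul]
    have e1 : ∑ φ ∈ Φ, ∑ ψ ∈ Ψ, ((φ v⁻¹ : ℂ) * (ψ v⁻¹ : ℂ)) * df (φ * ψ) ψ x =
        (∑ φ ∈ Φ, (φ (v⁻¹ * x) : ℂ)) * (∑ ψ ∈ Ψ, (ψ (v⁻¹ * x) : ℂ)) - (∑ φ ∈ Φ, (φ v⁻¹ : ℂ)) * (∑ ψ ∈ Ψ, (ψ (v⁻¹ * x) : ℂ)) := by
      rw [Finset.sum_mul_sum, Finset.sum_mul_sum, ← Finset.sum_sub_distrib]
      refine Finset.sum_congr rfl fun φ _ => ?_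
      rw [← Finset.sum_sub_distrib]
      refine Finset.sum_congr rfl fun ψ _ => ?_
      unfold df
      rw [map_mul φ, map_mul ψ, MonoidHom.mul_apply, Units.val_mul, Units.val_mul, Units.val_mul]
      ring
    rw [e1, sum_Tr hab v⁻¹, if_neg (hne W₂ hv2), zero_mul, sub_zero, sum_Tr hab, sum_Tr hab]
    split_ifs with a b c c b c c
    · ring
    · exfalso; apply c
      have : ((v⁻¹ * x : ↥(W₁ ⊔ W₂)) : L) ∈ W₁ ⊓ W₂ := ⟨b, a⟩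
      rw [hd, Subgroup.mem_bot] at this
      have := Subtype.ext (a1 := v⁻¹ * x) (a2 := 1) this
      exact (inv_mul_eq_one.mp this).symm
    · exfalso; apply b; rw [c, inv_mul_cancel]; exact W₁.one_mem
    · ring
    · exfalso; apply a; rw [c, inv_mul_cancel]; exact W₂.one_mem
    · ring
    · exfalso; apply a; rw [c, inv_mul_cancel]; exact W₂.one_mem
    · ring
  rw [h2] at h1
  unfold classInner at h1
  have h5 : ∀ x : ↥(W₁ ⊔ W₂), (∑ φ ∈ Φ, ∑ ψ ∈ Ψ, ((φ v⁻¹ : ℂ) * (ψ v⁻¹ : ℂ)) • df (φ * ψ) ψ) x * conj (f x) =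
      if x = v then (Φ.card : ℂ) * Ψ.card * conj (f v) else 0 := by
    intro x
    rw [h4 x]
    split_ifs with hx
    · rw [hx]
    · rw [zero_mul]
  rw [Finset.sum_congr rfl fun x _ => h5 x, Finset.sum_ite_eq' Finset.univ v, if_pos (Finset.mem_univ _)] at h1
  have hΦ0 : (Φ.card : ℂ) ≠ 0 := by
    have : (1 : ↥(W₁ ⊔ W₂) →* ℂˣ) ∈ Φ := Finset.mem_filter.mpr ⟨Finset.mem_univ _, Tr.one⟩
    exact_mod_cast (Finset.card_pos.mpr ⟨_, this⟩).ne'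
  have hΨ0 : (Ψ.card : ℂ) ≠ 0 := by
    have : (1 : ↥(W₁ ⊔ W₂) →* ℂˣ) ∈ Ψ := Finset.mem_filter.mpr ⟨Finset.mem_univ _, Tr.one⟩
    exact_mod_cast (Finset.card_pos.mpr ⟨_, this⟩).ne'
  have hW0 : (Nat.card ↥(W₁ ⊔ W₂) : ℂ) ≠ 0 := by exact_mod_cast Nat.card_pos.ne'
  have h6 : conj (f v) = 0 := by
    simp only [mul_eq_zero, inv_eq_zero] at h1
    tauto
  simpa using h6

/-- the irreducible characters `μ ω` -/
structure MuFam (W₁ W₂ : Subgroup L) (μ : (↥(W₁ ⊔ W₂) →* ℂˣ) → (L → ℂ)) (δ : (↥(W₁ ⊔ W₂) →* ℂˣ) → ℂ) : Prop where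
  inj : Function.Injective μ
  irr : ∀ ω, IsIrrCharacter L (μ ω)
  sign : ∀ ω, δ ω = 1 ∨ δ ω = -1
  ag : ∀ ω ω' : ↥(W₁ ⊔ W₂) →* ℂˣ, Ag ω ω' → δ ω = δ ω'
  ind : ∀ ω ω' : ↥(W₁ ⊔ W₂) →* ℂˣ, Ag ω ω' → indFun (W₁ ⊔ W₂) (df ω ω') = δ ω • (μ ω - μ ω')
  val : ∀ ω, ∀ w : ↥(W₁ ⊔ W₂), (w : L) ∉ W₂ → μ ω w = δ ω * (ω w : ℂ)
  van : ∀ θ : L → ℂ, IsIrrCharacter L θ → (∀ ω, θ ≠ μ ω) → ∀ w : ↥(W₁ ⊔ W₂), (w : L) ∉ W₂ → θ w = 0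
  deg : ∀ ω, ∃ n : ℤ, μ ω 1 - δ ω = n * (Nat.card W₁ : ℂ)

theorem Setup.exists_mu (h : Setup K W₁ W₂) : ∃ (μ : (↥(W₁ ⊔ W₂) →* ℂˣ) → (L → ℂ)) (δ : (↥(W₁ ⊔ W₂) →* ℂˣ) → ℂ),
    MuFam W₁ W₂ μ δ := by
  classical
  haveI : Fintype ↥(W₁ ⊔ W₂) := Fintype.ofFinite _
  have hd := h.disj
  have hc := h.comm
  have hab := comm_of_cyclic h.cyc
  -- the families
  have hfam : ∀ ψ : ↥(W₁ ⊔ W₂) →* ℂˣ, ∃ ε : ℂ, (ε = 1 ∨ ε = -1) ∧ ∃ μ : {φ : ↥(W₁ ⊔ W₂) →* ℂˣ // Tr _ W₂ φ} → (L → ℂ),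
      (∀ i, IsIrrCharacter L (μ i)) ∧ Function.Injective μ ∧
      ∀ i j, indFun (W₁ ⊔ W₂) (fun w => ((i.1 * ψ) w : ℂ)) - indFun (W₁ ⊔ W₂) (fun w => ((j.1 * ψ) w : ℂ)) = ε • (μ i - μ j) := by
    intro ψ
    refine CfsgLib.Exc.exceptional_ind (N := W₁ ⊔ W₂) (ι := {φ : ↥(W₁ ⊔ W₂) →* ℂˣ // Tr _ W₂ φ}) ⟨1, Tr.one⟩
      (fun φ => fun w => ((φ.1 * ψ) w : ℂ)) (fun i => isIrrCharacter_hom (i.1 * ψ)) ?_ ?_ ?_
    · intro i j hij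
      have := hom_ext_fun hij
      exact Subtype.ext (mul_right_cancel this)
    · intro i j; simp
    · intro i j
      have ag : ∀ i : {φ : ↥(W₁ ⊔ W₂) →* ℂˣ // Tr _ W₂ φ}, Ag (i.1 * ψ) ((1 : ↥(W₁ ⊔ W₂) →* ℂˣ) * ψ) := by
        intro i w hw
        rw [MonoidHom.mul_apply, MonoidHom.mul_apply, i.2 w hw]; rfl
      exact df_iso h (ag i) (ag j)
  choose ε hε μ hirr hinj hind using hfam
  have hdec : ∀ ω : ↥(W₁ ⊔ W₂) →* ℂˣ, ∃ (φ : {φ : ↥(W₁ ⊔ W₂) →* ℂˣ // Tr _ W₂ φ}) (ψ : {ψ : ↥(W₁ ⊔ W₂) →* ℂˣ // Tr _ W₁ ψ}), φ.1 * ψ.1 = ω := by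
    intro ω
    obtain ⟨φ, ψ, h1, h2, h3⟩ := exists_prod hd hc ω
    exact ⟨⟨φ, h1⟩, ⟨ψ, h2⟩, h3⟩
  choose P Q hPQ using hdec
  have hQ : ∀ ω ω', Ag ω ω' → Q ω = Q ω' := by
    intro ω ω' hag
    apply Subtype.ext
    apply hom_ext_factors hd hc
    · intro w hw; rw [(Q ω).2 w hw, (Q ω').2 w hw]
    · intro w hw
      have h1 := hag w hw
      rw [← hPQ ω, ← hPQ ω', MonoidHom.mul_apply, MonoidHom.mul_apply, (P ω).2 w hw, (P ω').2 w hw, one_mul, one_mul] at h1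
      exact h1
  have hQag : ∀ ω ω', Q ω = Q ω' → Ag ω ω' := by
    intro ω ω' hq w hw
    rw [← hPQ ω, ← hPQ ω', MonoidHom.mul_apply, MonoidHom.mul_apply, (P ω).2 w hw, (P ω').2 w hw, hq]
  let M : (↥(W₁ ⊔ W₂) →* ℂˣ) → (L → ℂ) := fun ω => μ (Q ω) (P ω)
  let D : (↥(W₁ ⊔ W₂) →* ℂˣ) → ℂ := fun ω => ε (Q ω)
  have hMirr : ∀ ω, IsIrrCharacter L (M ω) := fun ω => hirr _ _
  have hag : ∀ ω ω', Ag ω ω' → D ω = D ω' := fun ω ω' hh => by simp only [D]; rw [hQ _ _ hh]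
  have hMind : ∀ ω ω', Ag ω ω' → indFun (W₁ ⊔ W₂) (df ω ω') = D ω • (M ω - M ω') := by
    intro ω ω' hh
    have h1 := hind (Q ω) (P ω) (P ω')
    rw [hPQ ω] at h1
    have h2 : (P ω').1 * (Q ω).1 = ω' := by rw [hQ _ _ hh]; exact hPQ ω'
    rw [h2] at h1
    rw [df_eq, ind_sub, h1]
    simp only [D, M]
    rw [hQ _ _ hh]
  have hMinj' : ∀ ω ω', Ag ω ω' → M ω = M ω' → ω = ω' := by
    intro ω ω' hh he
    simp only [M] at he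
    rw [hQ _ _ hh] at he
    have h1 := hinj _ he
    rw [← hPQ ω, ← hPQ ω', h1, hQ _ _ hh]
  have hD1 : ∀ ω, D ω = 1 ∨ D ω = -1 := fun ω => hε _
  have hDne : ∀ ω, D ω ≠ 0 := by
    intro ω; rcases hD1 ω with h1 | h1 <;> rw [h1] <;> norm_num
  obtain ⟨φ₀, f1, f2⟩ := exists_nontriv hd hab h.ne1
  have hother : ∀ ω : ↥(W₁ ⊔ W₂) →* ℂˣ, ∃ ω', Ag ω ω' ∧ ω ≠ ω' := by
    intro ω
    refine ⟨φ₀ * ω, ?_, ?_⟩
    · intro w hw; rw [MonoidHom.mul_apply, f1 w hw, one_mul]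
    · intro he
      apply f2
      have h1 : (1 : ↥(W₁ ⊔ W₂) →* ℂˣ) * ω = φ₀ * ω := (one_mul ω).trans he
      exact (mul_right_cancel h1).symm
  have hMinj : Function.Injective M := by
    intro ω η he
    by_cases hh : Ag ω η
    · exact hMinj' ω η hh he
    exfalso
    obtain ⟨ω', a1, a2⟩ := hother ω
    obtain ⟨η', b1, b2⟩ := hother η
    have h1 := df_iso h a1 b1
    have n1 : ω ≠ η := fun e => hh (by rw [e]; exact Ag.refl _)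
    have n2 : ω ≠ η' := fun e => hh (by rw [e]; exact b1.symm)
    have n3 : ω' ≠ η := fun e => hh (by rw [← e]; exact a1)
    have n4 : ω' ≠ η' := fun e => hh (a1.trans (by rw [e]; exact b1.symm))
    have q1 : M ω ≠ M η' := fun e => b2 (hMinj' _ _ b1 (he.symm.trans e))
    have q2 : M ω' ≠ M η := fun e => a2 (hMinj' _ _ a1 (he.trans e.symm))
    rw [df_eq ω, df_eq η, ci_sub_l, ci_sub_r, ci_sub_r, hom_inner, hom_inner, hom_inner, hom_inner, if_neg n1, if_neg n2,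
      if_neg n3, if_neg n4, ← df_eq, ← df_eq, hMind _ _ a1, hMind _ _ b1, ci_smul_l, ci_smul_r,
      CfsgLib.Exc.diff_inner (hMirr _) (hMirr _) (hMirr _) (hMirr _), if_pos he,
      if_neg q1, if_neg q2] at h1
    simp only [sub_zero, mul_eq_zero, map_eq_zero] at h1
    rcases h1 with h1 | h1 | h1
    · exact hDne _ h1
    · exact hDne _ h1
    · have key : ∀ p : Prop, [Decidable p] → (1 + (if p then (1:ℂ) else 0)) ≠ 0 := by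
        intro p _
        split_ifs <;> norm_num
      exact key _ h1
  have hval : ∀ ω, ∀ w : ↥(W₁ ⊔ W₂), (w : L) ∉ W₂ → M ω w = D ω * (ω w : ℂ) := by
    intro ω w hw
    have h1 := span_V2 (f := fun w : ↥(W₁ ⊔ W₂) => M ω w - D ω * (ω w : ℂ)) hd hc hab ?_ w ⟨w.2, hw⟩
    · exact sub_eq_zero.mp h1
    intro η η' hη
    have e1 : (fun w : ↥(W₁ ⊔ W₂) => M ω w - D ω * (ω w : ℂ)) = (fun w : ↥(W₁ ⊔ W₂) => M ω w) - D ω • (fun w => (ω w : ℂ)) := rfl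
    have e2 := CharIndA.frobenius (W₁ ⊔ W₂) (df η η') (CharBasic.irr_classFun (hMirr ω))
    rw [e1, ci_sub_r, ci_smul_r, ← e2, hMind _ _ hη, ci_smul_l, ci_sub_l, df_eq, ci_sub_l, hom_inner, hom_inner,
      CfsgLib.Exc.irr_inner_ite (hMirr _) (hMirr _), CfsgLib.Exc.irr_inner_ite (hMirr _) (hMirr _)]
    have hDc : conj (D ω) = D ω := by rcases hD1 ω with h1 | h1 <;> rw [h1] <;> simp
    rw [hDc]
    have i1 : M η = M ω ↔ η = ω := hMinj.eq_iff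
    have i2 : M η' = M ω ↔ η' = ω := hMinj.eq_iff
    simp only [i1, i2]
    by_cases c1 : η = ω
    · rw [c1]; ring
    · by_cases c2 : η' = ω
      · rw [hag _ _ hη, c2]; ring
      · rw [if_neg c1, if_neg c2]; ring
  refine ⟨M, D, hMinj, hMirr, hD1, hag, hMind, hval, ?_, ?_⟩
  · intro θ hθ hne w hw
    refine span_V2 (f := fun w : ↥(W₁ ⊔ W₂) => θ w) hd hc hab ?_ w ⟨w.2, hw⟩
    intro η η' hη
    rw [← CharIndA.frobenius (W₁ ⊔ W₂) (df η η') (CharBasic.irr_classFun hθ), hMind _ _ hη, ci_smul_l, ci_sub_l,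
      irr_inner_ne (hMirr η) hθ (hne η).symm, irr_inner_ne (hMirr η') hθ (hne η').symm]
    ring
  · intro ω
    haveI : Fintype W₁ := Fintype.ofFinite _
    let ι : W₁ →* ↥(W₁ ⊔ W₂) := Subgroup.inclusion le_sup_left
    have g1 : IsGeneralizedCharacter W₁ (fun x : W₁ => M ω x) := gen_restrict (gen_of_irr (hMirr ω)) W₁
    have g2 : IsGeneralizedCharacter W₁ (fun x : W₁ => ((ω.comp ι) x : ℂ)) := gen_of_char (isCharacter_hom _)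
    have g3 : IsGeneralizedCharacter W₁ (fun x : W₁ => M ω x - D ω * ((ω.comp ι) x : ℂ)) := by
      rcases hD1 ω with h1 | h1 <;> rw [h1]
      · have := gen_sub g1 g2
        convert this using 1
        ext x; simp
      · have := gen_add g1 g2
        convert this using 1
        ext x; simp
    obtain ⟨n, hn⟩ := gen_inner_int g3 (gen_of_irr (isIrrCharacter_one (G := W₁)))
    rw [inner_one_right, Finset.sum_eq_single 1] at hn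
    · refine ⟨n, ?_⟩
      rw [← hn]
      have hW0 : (Nat.card W₁ : ℂ) ≠ 0 := by exact_mod_cast Nat.card_pos.ne'
      simp only [map_one, Units.val_one, mul_one, Subgroup.coe_one]
      field_simp
    · intro x _ hx
      have hx2 : (x : L) ∉ W₂ := by
        intro hx2
        have : (x : L) ∈ W₁ ⊓ W₂ := ⟨x.2, hx2⟩
        rw [hd, Subgroup.mem_bot] at this
        exact hx (Subtype.ext this)
      have := hval ω (ι x) hx2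
      have e : ((ι x : ↥(W₁ ⊔ W₂)) : L) = x := rfl
      rw [e] at this
      rw [this, MonoidHom.comp_apply, sub_self]
    · intro h; exact absurd (Finset.mem_univ _) h

end CfsgLib.Cyc
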