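import Cfsg.Agent.EqBase
import Cfsg.Agent.LibCyc6
/-!
# Restriction of the characters `μ ω` to `K` (helper16)
-/
set_option autoImplicit false
set_option linter.all false
open Cfsg CfsgLib.CharBasic CfsgLib.CharIndA CfsgLib.CharNorm CfsgLib.Sgn
open scoped ComplexConjugate
namespace CfsgLib.Cyc

universe u
variable {L : Type u} [Group L] [Fintype L]
variable {K W₁ W₂ : Subgroup L}

theorem Setup.exists_lam (h : Setup K W₁ W₂) (φ : ↥(W₁ ⊔ W₂) →* ℂˣ) (hφ : Tr _ W₂ φ) :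
    ∃ lam : L →* ℂˣ, (∀ k ∈ K, lam k = 1) ∧ ∀ w : ↥(W₁ ⊔ W₂), lam w = φ w := by
  obtain ⟨p, hpK, hpW⟩ := h.exists_p
  refine ⟨(φ.comp (Subgroup.inclusion le_sup_left)).comp p, ?_, ?_⟩
  · intro k hk
    rw [MonoidHom.comp_apply, hpK k hk, map_one]
  · intro w
    obtain ⟨a, ha, b, hb, e⟩ := mem_sup h.disj h.comm w.2
    have e1 : p (w : L) = ⟨a, ha⟩ := by
      rw [← e, map_mul, hpK b (h.le hb), mul_one]
      exact hpW ⟨a, ha⟩
    have e2 : w = ⟨a, Subgroup.mem_sup_left ha⟩ * ⟨b, Subgroup.mem_sup_right hb⟩ := Subtype.ext e.symm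
    rw [MonoidHom.comp_apply, e1, e2, map_mul, hφ ⟨b, _⟩ hb, mul_one]
    rfl

theorem irr_diff_eq {G : Type*} [Group G] [Fintype G] {a b c d : G → ℂ} (ha : IsIrrCharacter G a) (hb : IsIrrCharacter G b)
    (hc : IsIrrCharacter G c) (hd : IsIrrCharacter G d) (hab : a ≠ b) (h : a - b = c - d) : a = c := by
  by_contra hne
  have h1 : classInner (a - b) a = 1 := by
    rw [ci_sub_l, irr_inner_self ha, irr_inner_ne hb ha hab.symm, sub_zero]
  rw [h, ci_sub_l, irr_inner_ne hc ha (Ne.symm hne), zero_sub] at h1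
  by_cases hda : d = a
  · rw [hda, irr_inner_self ha] at h1; norm_num at h1
  · rw [irr_inner_ne hd ha hda] at h1; norm_num at h1

variable {μ : (↥(W₁ ⊔ W₂) →* ℂˣ) → (L → ℂ)} {δ : (↥(W₁ ⊔ W₂) →* ℂˣ) → ℂ}

theorem MuFam.delta_ne (hm : MuFam W₁ W₂ μ δ) (ω : ↥(W₁ ⊔ W₂) →* ℂˣ) : δ ω ≠ 0 := by
  rcases hm.sign ω with h | h <;> rw [h] <;> norm_num

theorem MuFam.lam_mu (h : Setup K W₁ W₂) (hm : MuFam W₁ W₂ μ δ) {φ : ↥(W₁ ⊔ W₂) →* ℂˣ} (hφ : Tr _ W₂ φ)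
    {lam : L →* ℂˣ} (hl : ∀ w : ↥(W₁ ⊔ W₂), lam w = φ w) (ω : ↥(W₁ ⊔ W₂) →* ℂˣ) :
    (fun g => (lam g : ℂ)) * μ ω = μ (φ * ω) := by
  obtain ⟨φ₀, f1, f2⟩ := exists_nontriv h.disj (comm_of_cyclic h.cyc) h.ne1
  have agm : ∀ {ω : ↥(W₁ ⊔ W₂) →* ℂˣ} {φ : ↥(W₁ ⊔ W₂) →* ℂˣ}, Tr _ W₂ φ → Ag ω (φ * ω) := by
    intro ω φ hφ w hw
    rw [MonoidHom.mul_apply, hφ w hw, one_mul]
  have hne : ω ≠ φ₀ * ω := by
    intro he
    apply f2
    have h1 : (1 : ↥(W₁ ⊔ W₂) →* ℂˣ) * ω = φ₀ * ω := (one_mul ω).trans he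
    exact (mul_right_cancel h1).symm
  have ag1 : Ag ω (φ₀ * ω) := agm f1
  have ag2 : Ag (φ * ω) (φ * (φ₀ * ω)) := ((agm hφ).symm.trans ag1).trans (agm hφ)
  have hlc : IsClassFunction L (fun g => (lam g : ℂ)) := hom_classFun lam
  have h1 := ind_mul_restrict (W₁ ⊔ W₂) (df ω (φ₀ * ω)) hlc
  have h2 : (fun w : ↥(W₁ ⊔ W₂) => df ω (φ₀ * ω) w * (lam w : ℂ)) = df (φ * ω) (φ * (φ₀ * ω)) := by
    ext w
    unfold df
    rw [hl w, MonoidHom.mul_apply φ ω, MonoidHom.mul_apply φ (φ₀ * ω), Units.val_mul, Units.val_mul]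
    ring
  rw [h2, hm.ind _ _ ag2, hm.ind _ _ ag1, ← hm.ag _ _ (agm hφ), smul_mul_assoc] at h1
  have h3 := smul_right_injective _ (hm.delta_ne ω) h1
  have h4 : (fun g => (lam g : ℂ)) * μ ω - (fun g => (lam g : ℂ)) * μ (φ₀ * ω) = μ (φ * ω) - μ (φ * (φ₀ * ω)) := by
    have h5 : (fun g => (lam g : ℂ)) * μ ω - (fun g => (lam g : ℂ)) * μ (φ₀ * ω) = (μ ω - μ (φ₀ * ω)) * (fun g => (lam g : ℂ)) := by ring
    rw [h5]; exact h3.symm
  have hmul : ∀ ω, IsIrrCharacter L ((fun g => (lam g : ℂ)) * μ ω) := by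
    intro ω
    rw [irr_iff_norm_one]
    refine ⟨isCharacter_mul (isCharacter_hom lam) (CharBasic.irr_isCharacter (hm.irr ω)), ?_⟩
    rw [← irr_inner_self (hm.irr ω)]
    unfold classInner
    congr 1
    refine Finset.sum_congr rfl fun g _ => ?_
    simp only [Pi.mul_apply, map_mul]
    have e : (lam g : ℂ) * conj (lam g : ℂ) = 1 := by
      rw [hom_conj, MonoidHom.inv_apply, ← Units.val_mul, mul_inv_cancel, Units.val_one]
    linear_combination (μ ω g * conj (μ ω g)) * e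
  refine irr_diff_eq (hmul ω) (hmul _) (hm.irr _) (hm.irr _) ?_ h4
  intro he
  apply hne
  apply hm.inj
  ext g
  have := congrFun he g
  simp only [Pi.mul_apply] at this
  exact mul_left_cancel₀ (Units.ne_zero _) this

open Classical in
theorem Setup.card_Phi (h : Setup K W₁ W₂) [Fintype (↥(W₁ ⊔ W₂) →* ℂˣ)] :
    (Finset.univ.filter (fun φ : ↥(W₁ ⊔ W₂) →* ℂˣ => Tr _ W₂ φ)).card = Nat.card W₁ := by
  rw [← card_Tr_left h.disj h.comm (comm_of_cyclic h.cyc), Nat.card_eq_fintype_card, Fintype.card_subtype]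

open Classical in
theorem MuFam.ind_res (h : Setup K W₁ W₂) (hm : MuFam W₁ W₂ μ δ) [Fintype (↥(W₁ ⊔ W₂) →* ℂˣ)] (ω : ↥(W₁ ⊔ W₂) →* ℂˣ) :
    indFun K (fun k : K => μ ω k) = ∑ φ ∈ Finset.univ.filter (fun φ : ↥(W₁ ⊔ W₂) →* ℂˣ => Tr _ W₂ φ), μ (φ * ω) := by
  have hab := comm_of_cyclic h.cyc
  obtain ⟨p, hpK, hpW⟩ := h.exists_p
  have hex : ∀ φ : ↥(W₁ ⊔ W₂) →* ℂˣ, ∃ lam : L →* ℂˣ, Tr _ W₂ φ → (∀ k ∈ K, lam k = 1) ∧ ∀ w : ↥(W₁ ⊔ W₂), lam w = φ w := by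
    intro φ
    by_cases hφ : Tr _ W₂ φ
    · obtain ⟨lam, h1, h2⟩ := h.exists_lam φ hφ
      exact ⟨lam, fun _ => ⟨h1, h2⟩⟩
    · exact ⟨1, fun h => absurd h hφ⟩
  choose lam hlam using hex
  have h1 : indFun K (fun _ : K => (1 : ℂ)) =
      ∑ φ ∈ Finset.univ.filter (fun φ : ↥(W₁ ⊔ W₂) →* ℂˣ => Tr _ W₂ φ), (fun g => (lam φ g : ℂ)) := by
    ext g
    rw [Finset.sum_apply]
    by_cases hg : g ∈ K
    · have e1 : ∀ φ ∈ Finset.univ.filter (fun φ : ↥(W₁ ⊔ W₂) →* ℂˣ => Tr _ W₂ φ), (lam φ g : ℂ) = 1 := by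
        intro φ hφ
        rw [(hlam φ (Finset.mem_filter.mp hφ).2).1 g hg]; rfl
      rw [Finset.sum_congr rfl e1, Finset.sum_const, nsmul_eq_mul, mul_one, h.card_Phi, ind_apply]
      have e2 : ∀ x : L, extendByZero K (fun _ : K => (1 : ℂ)) (x⁻¹ * g * x) = 1 := by
        intro x
        have hm : x⁻¹ * g * x ∈ K := by
          have := h.nK.conj_mem g hg x⁻¹
          rwa [inv_inv] at this
        rw [ext_mem _ _ hm]
      rw [Finset.sum_congr rfl fun x _ => e2 x, Finset.sum_const, Finset.card_univ, nsmul_eq_mul, mul_one,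
        ← Nat.card_eq_fintype_card, h.card]
      push_cast
      have hK0 : (Nat.card K : ℂ) ≠ 0 := by exact_mod_cast Nat.card_pos.ne'
      field_simp
    · rw [CfsgLib.Clifford.ind_eq_zero_off h.nK _ hg]
      obtain ⟨k, hk, w, hw, rfl⟩ := h.decomp g
      have hw2 : w ∉ W₂ := by
        intro hw2
        have : w ∈ W₁ ⊓ W₂ := ⟨hw, hw2⟩
        rw [h.disj, Subgroup.mem_bot] at this
        rw [this, mul_one] at hg
        exact hg hk
      have e1 : ∀ φ ∈ Finset.univ.filter (fun φ : ↥(W₁ ⊔ W₂) →* ℂˣ => Tr _ W₂ φ), (lam φ (k * w) : ℂ) =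
          (φ ⟨w, Subgroup.mem_sup_left hw⟩ : ℂ) := by
        intro φ hφ
        have := hlam φ (Finset.mem_filter.mp hφ).2
        rw [map_mul, this.1 k hk, one_mul, ← this.2 ⟨w, Subgroup.mem_sup_left hw⟩]
      rw [Finset.sum_congr rfl e1]
      rw [sum_Tr hab, if_neg hw2]
  have h2 := ind_mul_restrict K (fun _ : K => (1 : ℂ)) (CharBasic.irr_classFun (hm.irr ω))
  simp only [one_mul] at h2
  rw [h2, h1, Finset.sum_mul]
  refine Finset.sum_congr rfl fun φ hφ => ?_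
  have h3 := (Finset.mem_filter.mp hφ).2
  exact MuFam.lam_mu h hm h3 (hlam φ h3).2 ω

theorem MuFam.res_irr (h : Setup K W₁ W₂) (hm : MuFam W₁ W₂ μ δ) (ω : ↥(W₁ ⊔ W₂) →* ℂˣ) :
    IsIrrCharacter K (fun k : K => μ ω k) := by
  classical
  haveI : Fintype K := Fintype.ofFinite _
  haveI : Fintype (↥(W₁ ⊔ W₂) →* ℂˣ) := Fintype.ofFinite _
  rw [irr_iff_norm_one]
  refine ⟨isCharacter_restrict (CharBasic.irr_isCharacter (hm.irr ω)) K, ?_⟩
  rw [← CharIndA.frobenius K (fun k : K => μ ω k) (CharBasic.irr_classFun (hm.irr ω)), MuFam.ind_res h hm, ci_sum_l,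
    Finset.sum_eq_single 1]
  · have e : (1 : ↥(W₁ ⊔ W₂) →* ℂˣ) * ω = ω := one_mul ω
    rw [e, irr_inner_self (hm.irr ω)]
  · intro φ _ hφ
    apply irr_inner_ne (hm.irr _) (hm.irr _)
    intro he
    apply hφ
    have h1 := hm.inj he
    exact mul_right_cancel (h1.trans (one_mul ω).symm)
  · intro hn
    exact absurd (Finset.mem_filter.mpr ⟨Finset.mem_univ _, Tr.one⟩) hn

/-- `θ` is fixed by `x` -/
def Fx (hN : K.Normal) (x : L) (θ : K → ℂ) : Prop := (fun k : K => θ ⟨x * k * x⁻¹, hN.conj_mem (k : L) k.2 x⟩) = θ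

theorem res_fixed (hN : K.Normal) {χ : L → ℂ} (hχ : IsClassFunction L χ) (x : L) : Fx hN x (fun k : K => χ k) := by
  ext k
  exact hχ k x

theorem Setup.card_fix_le (h : Setup K W₁ W₂) {x : L} (hx : x ∈ W₁) (hx1 : x ≠ 1) :
    Nat.card {θ : IrrCharacter K // Fx h.nK x (θ : K → ℂ)} ≤ Nat.card W₂ := by
  haveI := h.nK
  have hW := h.cent x hx hx1
  have hcop : Nat.Coprime (orderOf x) (Nat.card K) := by
    have h1 := h.hall
    rw [h.index] at h1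
    refine h1.coprime_dvd_left ?_
    rw [← Subgroup.orderOf_mk x hx]
    exact orderOf_dvd_natCard _
  have h1 := CfsgLib.CopAct.card_fixed (K := K) x
  have h2 : Nat.card {θ : IrrCharacter K // Fx h.nK x (θ : K → ℂ)} =
      Nat.card {C : ConjClasses K // ConjClasses.map (MulEquiv.toMonoidHom ((MulAut.conjNormal x : MulAut K))) C = C} := h1.symm
  rw [h2]
  let f : W₂ → {C : ConjClasses K // ConjClasses.map (MulEquiv.toMonoidHom ((MulAut.conjNormal x : MulAut K))) C = C} := fun w =>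
    ⟨ConjClasses.mk ⟨w, h.le w.2⟩, by
      rw [CfsgLib.CopAct.map_conj_eq_iff]
      refine ⟨1, ?_⟩
      have h1 : (w : L) ∈ K ⊓ Subgroup.centralizer ({x} : Set L) := by rw [hW]; exact w.2
      have h2 := Subgroup.mem_centralizer_singleton_iff.mp h1.2
      simp only [Subgroup.coe_one, one_mul, inv_one, mul_one]
      rw [← h2]; group⟩
  apply Nat.card_le_card_of_surjective f
  rintro ⟨C, hC'⟩
  obtain ⟨y, hh, hx'⟩ := CfsgLib.CopAct.exists_fixed_rep hcop hC'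
  have h1 : (y : L) ∈ W₂ := by
    rw [← hW]
    exact ⟨y.2, Subgroup.mem_centralizer_singleton_iff.mpr hx'⟩
  refine ⟨⟨y, h1⟩, ?_⟩
  apply Subtype.ext
  exact hh

/-- the restrictions `μ ψ` -/
theorem MuFam.res_inj (h : Setup K W₁ W₂) (hm : MuFam W₁ W₂ μ δ) {ψ ψ' : ↥(W₁ ⊔ W₂) →* ℂˣ} (h1 : Tr _ W₁ ψ) (h2 : Tr _ W₁ ψ')
    (he : (fun k : K => μ ψ k) = fun k : K => μ ψ' k) : ψ = ψ' := by
  classical
  haveI : Fintype (↥(W₁ ⊔ W₂) →* ℂˣ) := Fintype.ofFinite _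
  have e1 := MuFam.ind_res h hm ψ
  rw [he, MuFam.ind_res h hm ψ'] at e1
  have e2 := congrArg (fun f => classInner f (μ ψ)) e1
  rw [ci_sum_l, ci_sum_l] at e2
  have e3 : ∑ φ ∈ Finset.univ.filter (fun φ : ↥(W₁ ⊔ W₂) →* ℂˣ => Tr _ W₂ φ), classInner (μ (φ * ψ)) (μ ψ) = 1 := by
    rw [Finset.sum_eq_single 1]
    · have e : (1 : ↥(W₁ ⊔ W₂) →* ℂˣ) * ψ = ψ := one_mul ψ
      rw [e, irr_inner_self (hm.irr ψ)]
    · intro φ _ hφ
      apply irr_inner_ne (hm.irr _) (hm.irr _)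
      intro he
      apply hφ
      have h1 := hm.inj he
      exact mul_right_cancel (h1.trans (one_mul ψ).symm)
    · intro hn
      exact absurd (Finset.mem_filter.mpr ⟨Finset.mem_univ _, Tr.one⟩) hn
  rw [e3] at e2
  by_contra hne
  rw [Finset.sum_eq_zero] at e2
  · norm_num at e2
  · intro φ hφ
    apply irr_inner_ne (hm.irr _) (hm.irr _)
    intro he'
    have h3 := hm.inj he'
    have h4 : φ * ψ' = 1 * ψ := h3.trans (one_mul ψ).symm
    exact hne (prod_inj h.disj h.comm (Finset.mem_filter.mp hφ).2 Tr.one h2 h1 h4).2.symm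

/-- the invariant characters are exactly the restrictions -/
theorem MuFam.all (h : Setup K W₁ W₂) (hm : MuFam W₁ W₂ μ δ) {x : L} (hx : x ∈ W₁) (hx1 : x ≠ 1) {θ : K → ℂ}
    (hθ : IsIrrCharacter K θ) (hfix : Fx h.nK x θ) : ∃ ψ : ↥(W₁ ⊔ W₂) →* ℂˣ, Tr _ W₁ ψ ∧ θ = fun k : K => μ ψ k := by
  let f : {ψ : ↥(W₁ ⊔ W₂) →* ℂˣ // Tr _ W₁ ψ} → {θ : IrrCharacter K // Fx h.nK x (θ : K → ℂ)} := fun ψ =>
    ⟨⟨fun k : K => μ ψ.1 k, MuFam.res_irr h hm ψ.1⟩, res_fixed h.nK (CharBasic.irr_classFun (hm.irr ψ.1)) x⟩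
  have hf : Function.Injective f := by
    intro ψ ψ' he
    apply Subtype.ext
    exact MuFam.res_inj h hm ψ.2 ψ'.2 (congrArg (fun t => ((t.1 : IrrCharacter K) : K → ℂ)) he)
  have h1 : Nat.card {ψ : ↥(W₁ ⊔ W₂) →* ℂˣ // Tr _ W₁ ψ} = Nat.card W₂ := card_Tr_right h.disj h.comm (comm_of_cyclic h.cyc)
  have h2 := h.card_fix_le hx hx1
  have hsurj : Function.Surjective f := by
    have hle : Nat.card {θ : IrrCharacter K // Fx h.nK x (θ : K → ℂ)} ≤ Nat.card {ψ : ↥(W₁ ⊔ W₂) →* ℂˣ // Tr _ W₁ ψ} := by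
      rw [h1]; exact h2
    exact (Function.Injective.bijective_of_nat_card_le hf hle).2
  obtain ⟨ψ, hψ⟩ := hsurj ⟨⟨θ, hθ⟩, hfix⟩
  exact ⟨ψ.1, ψ.2, (congrArg (fun t => ((t.1 : IrrCharacter K) : K → ℂ)) hψ).symm⟩

theorem MuFam.inv_all (h : Setup K W₁ W₂) (hm : MuFam W₁ W₂ μ δ) {x : L} (hx : x ∈ W₁) (hx1 : x ≠ 1) {θ : K → ℂ}
    (hθ : IsIrrCharacter K θ) (hfix : Fx h.nK x θ) (y : L) : Fx h.nK y θ := by
  obtain ⟨ψ, -, rfl⟩ := MuFam.all h hm hx hx1 hθ hfix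
  exact res_fixed h.nK (CharBasic.irr_classFun (hm.irr ψ)) y

/-- non-invariant characters induce irreducibly -/
theorem MuFam.ind_irr (h : Setup K W₁ W₂) (hm : MuFam W₁ W₂ μ δ) {θ : K → ℂ}
    (hθ : IsIrrCharacter K θ) (hne : ∃ x ∈ W₁, ¬ Fx h.nK x θ) : IsIrrCharacter L (indFun K θ) := by
  haveI : Fintype K := Fintype.ofFinite _
  rw [irr_iff_norm_one]
  refine ⟨isCharacter_ind K (CharBasic.irr_isCharacter hθ), ?_⟩
  rw [CfsgLib.Clifford.ci_ind_self h.nK hθ]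
  have hK0 : (Nat.card K : ℂ) ≠ 0 := by exact_mod_cast Nat.card_pos.ne'
  have hT : CfsgLib.Clifford.inertia h.nK θ = K := by
    apply le_antisymm _ (CfsgLib.Clifford.le_inertia h.nK (CharBasic.irr_classFun hθ))
    intro g hg
    obtain ⟨k, hk, w, hw, rfl⟩ := h.decomp g
    have hw' : w ∈ CfsgLib.Clifford.inertia h.nK θ := by
      have h1 := CfsgLib.Clifford.le_inertia h.nK (CharBasic.irr_classFun hθ) hk
      have := (CfsgLib.Clifford.inertia h.nK θ).mul_mem ((CfsgLib.Clifford.inertia h.nK θ).inv_mem h1) hg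
      rwa [inv_mul_cancel_left] at this
    have hw1 : w = 1 := by
      by_contra hw1
      obtain ⟨x, hx, hnx⟩ := hne
      exact hnx (MuFam.inv_all h hm hw hw1 hθ hw' x)
    rw [hw1, mul_one]; exact hk
  rw [hT, inv_mul_cancel₀ hK0]

end CfsgLib.Cyc
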