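import Mathlib
set_option autoImplicit false
namespace CfsgLib.CycBH14
open MulAction
open scoped Pointwise

section
variable {Ω G : Type*} [Group G] [MulAction G Ω] [Fintype Ω] {n : ℕ} [NeZero n]

/-- regular cyclic subgroup data -/
structure Reg (γ : ZMod n → G) (α : Ω) : Prop where
  add : ∀ i j, γ (i + j) = γ i * γ j
  bij : Function.Bijective (fun i => γ i • α)

variable {γ : ZMod n → G} {α : Ω}

theorem Reg.zero (h : Reg γ α) : γ 0 = 1 := by
  have := h.add 0 0
  rw [add_zero] at this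
  exact (left_eq_mul.1 this)

theorem Reg.neg (h : Reg γ α) (i : ZMod n) : γ (-i) = (γ i)⁻¹ := by
  rw [eq_inv_iff_mul_eq_one, ← h.add, neg_add_cancel, h.zero]

theorem Reg.smul (h : Reg γ α) (i j : ZMod n) : γ i • (γ j • α) = γ (i + j) • α := by
  rw [h.add, mul_smul]

theorem Reg.inj (h : Reg γ α) {i j : ZMod n} (hij : γ i • α = γ j • α) : i = j := h.bij.1 hij

theorem Reg.exists_idx (h : Reg γ α) (x : Ω) : ∃ i, γ i • α = x := h.bij.2 x

/-- orbits of the point stabilizer, in index form -/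
def R (γ : ZMod n → G) (α : Ω) (i j : ZMod n) : Prop := ∃ h : G, h • α = α ∧ h • (γ i • α) = γ j • α

theorem R_refl (i : ZMod n) : R γ α i i := ⟨1, one_smul _ _, one_smul _ _⟩

theorem R_symm {i j : ZMod n} (h : R γ α i j) : R γ α j i := by
  obtain ⟨g, h1, h2⟩ := h
  exact ⟨g⁻¹, by rw [inv_smul_eq_iff, h1], by rw [inv_smul_eq_iff, h2]⟩

theorem R_trans {i j k : ZMod n} (h : R γ α i j) (h' : R γ α j k) : R γ α i k := by
  obtain ⟨g, h1, h2⟩ := h
  obtain ⟨g', h1', h2'⟩ := h'
  exact ⟨g' * g, by rw [mul_smul, h1, h1'], by rw [mul_smul, h2, h2']⟩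

theorem Reg.R_zero (h : Reg γ α) {i : ZMod n} (hi : R γ α i 0) : i = 0 := by
  obtain ⟨g, h1, h2⟩ := hi
  apply h.inj
  rw [h.zero, one_smul] at h2 ⊢
  exact smul_left_cancel g (h2.trans h1.symm)

/-- translated relation on points -/
def Rel (γ : ZMod n → G) (α : Ω) (q : ZMod n) (x y : Ω) : Prop := ∃ h : G, h • α = x ∧ h • (γ q • α) = y

theorem Rel_smul {q : ZMod n} {x y : Ω} (g : G) (h : Rel γ α q x y) : Rel γ α q (g • x) (g • y) := by
  obtain ⟨k, h1, h2⟩ := h
  exact ⟨g * k, by rw [mul_smul, h1], by rw [mul_smul, h2]⟩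

theorem Rel_smul_iff {q : ZMod n} {x y : Ω} (g : G) : Rel γ α q (g • x) (g • y) ↔ Rel γ α q x y := by
  constructor
  · intro h
    have := Rel_smul g⁻¹ h
    rwa [inv_smul_smul, inv_smul_smul] at this
  · exact Rel_smul g

theorem Reg.Rel_iff (h : Reg γ α) {q i j : ZMod n} : Rel γ α q (γ i • α) (γ j • α) ↔ R γ α q (j - i) := by
  constructor
  · rintro ⟨g, h1, h2⟩
    refine ⟨γ (-i) * g, ?_, ?_⟩
    · rw [mul_smul, h1, h.smul, neg_add_cancel, h.zero, one_smul]
    · rw [mul_smul, h2, h.smul, neg_add_eq_sub]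
  · rintro ⟨g, h1, h2⟩
    refine ⟨γ i * g, ?_, ?_⟩
    · rw [mul_smul, h1]
    · rw [mul_smul, h2, h.smul, add_sub_cancel]

/-- moving both ends -/
theorem Reg.R_sub (h : Reg γ α) {g : G} {i j i' j' : ZMod n} (hi : g • (γ i • α) = γ i' • α) (hj : g • (γ j • α) = γ j' • α) :
    R γ α (j - i) (j' - i') := by
  refine ⟨γ (-i') * g * γ i, ?_, ?_⟩
  · rw [mul_smul, mul_smul, hi, h.smul, neg_add_cancel, h.zero, one_smul]
  · rw [mul_smul, mul_smul, h.smul, add_sub_cancel, hj, h.smul, neg_add_eq_sub]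

theorem block_of_setoid (s : Setoid Ω) (hs : ∀ (g : G) (x y : Ω), s x y → s (g • x) (g • y)) (x : Ω) :
    IsBlock G {y | s x y} := by
  rw [isBlock_iff_smul_eq_or_disjoint]
  intro g
  by_cases hd : Disjoint (g • {y | s x y}) {y | s x y}
  · right; exact hd
  · left
    rw [Set.not_disjoint_iff] at hd
    obtain ⟨z, hz1, hz2⟩ := hd
    obtain ⟨w, hw, rfl⟩ := hz1
    have hw' : s x w := hw
    have hz2' : s x (g • w) := hz2
    have h1 : s (g • x) (g • w) := hs g _ _ hw'
    have h2 : s x (g • x) := s.trans hz2' (s.symm h1)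
    ext y
    constructor
    · rintro ⟨v, hv, rfl⟩
      have hv' : s x v := hv
      exact s.trans h2 (hs g _ _ hv')
    · intro hy
      have hy' : s x y := hy
      refine ⟨g⁻¹ • y, ?_, smul_inv_smul g y⟩
      show s x (g⁻¹ • y)
      have h3 : s (g • x) y := s.trans (s.symm h2) hy'
      have := hs g⁻¹ _ _ h3
      rwa [inv_smul_smul] at this

/-- Lemma B -/
theorem Reg.lemB [IsPreprimitive G Ω] (h : Reg γ α) {q ε : ZMod n} (hq : q ≠ 0) (hε : ε ≠ 0) :
    ∃ j, ¬ (R γ α q j ↔ R γ α q (j - ε)) := by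
  let s : Setoid Ω :=
    { r := fun x y => ∀ z, Rel γ α q x z ↔ Rel γ α q y z
      iseqv := ⟨fun x z => Iff.rfl, fun h z => (h z).symm, fun h h' z => (h z).trans (h' z)⟩ }
  have hs : ∀ (g : G) (x y : Ω), s x y → s (g • x) (g • y) := by
    intro g x y hxy z
    have h1 := hxy (g⁻¹ • z)
    rw [← Rel_smul_iff g (x := x), ← Rel_smul_iff g (x := y), smul_inv_smul] at h1
    exact h1
  rcases IsPreprimitive.isTrivialBlock_of_isBlock (block_of_setoid s hs α) with h1 | h1
  · by_contra hcon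
    push Not at hcon
    have h2 : γ ε • α ∈ {y | s α y} := by
      intro z
      obtain ⟨j, rfl⟩ := h.exists_idx z
      have h3 : Rel γ α q α (γ j • α) ↔ R γ α q j := by
        have := h.Rel_iff (q := q) (i := 0) (j := j)
        rwa [h.zero, one_smul, sub_zero] at this
      rw [h3, h.Rel_iff]
      exact hcon j
    have h3 := h1 (s.refl α) h2
    apply hε
    apply h.inj
    rw [h.zero, one_smul, ← h3]
  · exfalso
    have h2 : γ q • α ∈ {y | s α y} := by rw [h1]; exact Set.mem_univ _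
    have h3 : Rel γ α q α (γ q • α) ↔ Rel γ α q (γ q • α) (γ q • α) := h2 _
    have h4 : Rel γ α q α (γ q • α) := ⟨1, one_smul _ _, one_smul _ _⟩
    have h5 := h3.1 h4
    rw [h.Rel_iff, sub_self] at h5
    exact hq (h.R_zero h5)

/-- Lemma A -/
theorem Reg.lemA [IsPreprimitive G Ω] (h : Reg γ α) {p : ℕ} (hp : p.Prime) (π : ZMod n →+* ZMod p) {q : ZMod n} (hq : q ≠ 0) :
    ∃ j, R γ α q j ∧ π j ≠ 0 := by
  by_contra hcon
  push Not at hcon
  haveI : Fact p.Prime := ⟨hp⟩
  have hs : ∀ (g : G) (x y : Ω), Relation.EqvGen.setoid (Rel γ α q) x y → Relation.EqvGen.setoid (Rel γ α q) (g • x) (g • y) := by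
    intro g x y hxy
    have hxy' : Relation.EqvGen (Rel γ α q) x y := hxy
    show Relation.EqvGen (Rel γ α q) (g • x) (g • y)
    induction hxy' with
    | rel x y h1 => exact Relation.EqvGen.rel _ _ (Rel_smul g h1)
    | refl x => exact Relation.EqvGen.refl _
    | symm x y h1 ih => exact Relation.EqvGen.symm _ _ (ih h1)
    | trans x y z h1 h2 ih1 ih2 => exact Relation.EqvGen.trans _ _ _ (ih1 h1) (ih2 h2)
  have hφ : ∀ x y : Ω, Relation.EqvGen (Rel γ α q) x y → ∀ i j, γ i • α = x → γ j • α = y → π i = π j := by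
    intro x y hxy
    induction hxy with
    | rel x y h1 =>
      rintro i j rfl rfl
      rw [h.Rel_iff] at h1
      have := hcon _ h1
      rw [map_sub, sub_eq_zero] at this
      exact this.symm
    | refl x => intro i j hi hj; rw [h.inj (hi.trans hj.symm)]
    | symm x y h1 ih => intro i j hi hj; exact (ih j i hj hi).symm
    | trans x y z h1 h2 ih1 ih2 =>
      intro i j hi hj
      obtain ⟨k, hk⟩ := h.exists_idx y
      exact (ih1 i k hi hk).trans (ih2 k j hk hj)
  rcases IsPreprimitive.isTrivialBlock_of_isBlock (block_of_setoid (Relation.EqvGen.setoid (Rel γ α q)) hs α) with h1 | h1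
  · have h2 : γ q • α ∈ {y | Relation.EqvGen.setoid (Rel γ α q) α y} :=
      Relation.EqvGen.rel _ _ ⟨1, one_smul _ _, one_smul _ _⟩
    have h3 := h1 (Relation.EqvGen.refl α) h2
    apply hq
    apply h.inj
    rw [h.zero, one_smul, ← h3]
  · have h2 : γ 1 • α ∈ {y | Relation.EqvGen.setoid (Rel γ α q) α y} := by rw [h1]; exact Set.mem_univ _
    have h3 := hφ _ _ h2 0 1 (by rw [h.zero, one_smul]) rfl
    rw [map_zero, map_one] at h3
    exact zero_ne_one h3

open Classical in
theorem inv_pow (p k : ℕ) (M : Matrix Ω Ω (ZMod p)) (hM : ∀ (g : G) (x y : Ω), M (g • x) (g • y) = M x y) :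
    ∀ (g : G) (x y : Ω), (M ^ k) (g • x) (g • y) = (M ^ k) x y := by
  induction k with
  | zero =>
    intro g x y
    rw [pow_zero, Matrix.one_apply, Matrix.one_apply]
    by_cases hxy : x = y
    · rw [if_pos hxy, if_pos (by rw [hxy])]
    · rw [if_neg hxy, if_neg (fun h => hxy (smul_left_cancel g h))]
  | succ k ih =>
    intro g x y
    rw [pow_succ, Matrix.mul_apply, Matrix.mul_apply, ← Equiv.sum_comp (MulAction.toPerm g)]
    apply Finset.sum_congr rfl
    intro z _
    rw [MulAction.toPerm_apply, ih, hM]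

open Classical in
/-- Lemma C -/
theorem Reg.lemC (h : Reg γ α) {p : ℕ} (hp : p.Prime) (q : ZMod n) {i j : ZMod n} (hij : R γ α i j) :
    (((Finset.univ.filter (fun t : ZMod n => R γ α q t ∧ (p : ZMod n) * t = i)).card : ℕ) : ZMod p) =
      (((Finset.univ.filter (fun t : ZMod n => R γ α q t ∧ (p : ZMod n) * t = j)).card : ℕ) : ZMod p) := by
  haveI : Fact p.Prime := ⟨hp⟩
  let P : Matrix Ω Ω (ZMod p) := Matrix.of fun x y => if y = γ 1 • x then 1 else 0
  have hP : ∀ (k : ℕ) (x y : Ω), (P ^ k) x y = if y = γ (k : ZMod n) • x then 1 else 0 := by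
    intro k
    induction k with
    | zero =>
      intro x y
      rw [pow_zero, Matrix.one_apply, Nat.cast_zero, h.zero, one_smul]
      by_cases hxy : x = y
      · rw [if_pos hxy, if_pos hxy.symm]
      · rw [if_neg hxy, if_neg (Ne.symm hxy)]
    | succ k ih =>
      intro x y
      rw [pow_succ, Matrix.mul_apply, Finset.sum_eq_single (γ (k : ZMod n) • x)]
      · rw [ih, if_pos rfl, one_mul, Nat.cast_add, Nat.cast_one, add_comm, h.add, mul_smul]
        rfl
      · intro z _ hz
        rw [ih, if_neg hz, zero_mul]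
      · intro hn
        exact absurd (Finset.mem_univ _) hn
  let M : Matrix Ω Ω (ZMod p) := Matrix.of fun x y => if Rel γ α q x y then 1 else 0
  have hMi : ∀ (g : G) (x y : Ω), M (g • x) (g • y) = M x y := by
    intro g x y
    show (if Rel γ α q (g • x) (g • y) then (1 : ZMod p) else 0) = if Rel γ α q x y then 1 else 0
    rw [Rel_smul_iff]
  set T := Finset.univ.filter (fun t : ZMod n => R γ α q t) with hT
  have hMP : M = ∑ t ∈ T, P ^ t.val := by
    ext x y
    obtain ⟨a, rfl⟩ := h.exists_idx x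
    obtain ⟨b, rfl⟩ := h.exists_idx y
    rw [Matrix.sum_apply]
    show (if Rel γ α q (γ a • α) (γ b • α) then (1 : ZMod p) else 0) = _
    rw [h.Rel_iff]
    have h1 : ∀ t ∈ T, (P ^ t.val) (γ a • α) (γ b • α) = if b - a = t then 1 else 0 := by
      intro t _
      rw [hP, ZMod.natCast_zmod_val, h.smul]
      by_cases hb : b - a = t
      · rw [if_pos hb, if_pos]
        rw [← hb, sub_add_cancel]
      · rw [if_neg hb, if_neg]
        intro h2
        exact hb (by rw [h.inj h2]; ring)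
    rw [Finset.sum_congr rfl h1, Finset.sum_ite_eq]
    by_cases hr : R γ α q (b - a)
    · rw [if_pos hr, if_pos (by rw [hT, Finset.mem_filter]; exact ⟨Finset.mem_univ _, hr⟩)]
    · rw [if_neg hr, if_neg (by rw [hT, Finset.mem_filter]; exact fun h2 => hr h2.2)]
  have hMp : M ^ p = ∑ t ∈ T, P ^ (p * t.val) := by
    have h1 : M = Polynomial.aeval P (∑ t ∈ T, (Polynomial.X : Polynomial (ZMod p)) ^ t.val) := by
      rw [hMP, map_sum]
      exact Finset.sum_congr rfl (fun t _ => by rw [map_pow, Polynomial.aeval_X])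
    rw [h1, ← map_pow, sum_pow_char, map_sum]
    exact Finset.sum_congr rfl (fun t _ => by rw [← pow_mul, map_pow, Polynomial.aeval_X, mul_comm])
  have key : ∀ i : ZMod n, (M ^ p) α (γ i • α) = (((Finset.univ.filter (fun t : ZMod n => R γ α q t ∧ (p : ZMod n) * t = i)).card : ℕ) : ZMod p) := by
    intro i
    rw [hMp, Matrix.sum_apply]
    have h1 : ∀ t ∈ T, (P ^ (p * t.val)) α (γ i • α) = if (p : ZMod n) * t = i then 1 else 0 := by
      intro t _
      rw [hP, Nat.cast_mul, ZMod.natCast_zmod_val]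
      by_cases hb : (p : ZMod n) * t = i
      · rw [if_pos hb, if_pos (by rw [hb])]
      · rw [if_neg hb, if_neg (fun h2 => hb (h.inj h2).symm)]
    rw [Finset.sum_congr rfl h1, Finset.sum_ite, Finset.sum_const_zero, add_zero, Finset.sum_const, nsmul_eq_mul, mul_one,
      hT, Finset.filter_filter]
  rw [← key, ← key]
  obtain ⟨g, hg1, hg2⟩ := hij
  rw [← hg2]
  conv_rhs => rw [← hg1]
  rw [inv_pow p p M hMi, hg1]

open Classical in
/-- intersection numbers are constant -/
theorem Reg.lemN (h : Reg γ α) (q : ZMod n) {i j : ZMod n} (hij : R γ α i j) :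
    (Finset.univ.filter (fun z : ZMod n => R γ α q z ∧ R γ α q (z - i))).card =
      (Finset.univ.filter (fun z : ZMod n => R γ α q z ∧ R γ α q (z - j))).card := by
  obtain ⟨g, hg1, hg2⟩ := hij
  have hex : ∀ z : ZMod n, ∃ z', γ z' • α = g • (γ z • α) := fun z => h.exists_idx _
  choose f hf using hex
  have hfi : Function.Injective f := by
    intro a b hab
    have h1 := hf a
    rw [hab, hf b] at h1
    exact (h.inj (smul_left_cancel g h1)).symm
  have hfb : Function.Bijective f := Finite.injective_iff_bijective.1 hfi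
  apply Finset.card_bij (fun z _ => f z)
  · intro z hz
    rw [Finset.mem_filter] at hz ⊢
    obtain ⟨-, h1, h2⟩ := hz
    refine ⟨Finset.mem_univ _, R_trans h1 ⟨g, hg1, (hf z).symm⟩, ?_⟩
    exact R_trans h2 (h.R_sub hg2 (hf z).symm)
  · intro a _ b _ hab
    exact hfi hab
  · intro z hz
    obtain ⟨w, rfl⟩ := hfb.2 z
    rw [Finset.mem_filter] at hz
    obtain ⟨-, h1, h2⟩ := hz
    refine ⟨w, ?_, rfl⟩
    rw [Finset.mem_filter]
    refine ⟨Finset.mem_univ _, R_trans h1 (R_symm ⟨g, hg1, (hf w).symm⟩), ?_⟩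
    exact R_trans h2 (R_symm (h.R_sub hg2 (hf w).symm))

open Classical in
theorem Reg.two_trans {p m : ℕ} (hp : p.Prime) (hm : 2 ≤ m) (hn : n = p ^ m) [IsPreprimitive G Ω] (h : Reg γ α)
    {i j : ZMod n} (hi : i ≠ 0) (hj : j ≠ 0) : R γ α i j := by
  haveI : Fact p.Prime := ⟨hp⟩
  by_contra hcon
  have hpn : p ∣ n := by rw [hn]; exact dvd_pow_self p (by omega)
  have hcardn : Fintype.card (ZMod n) = n := ZMod.card n
  let π : ZMod n →+* ZMod p := ZMod.castHom hpn (ZMod p)
  set T : ZMod n → Finset (ZMod n) := fun q => Finset.univ.filter (fun t => R γ α q t) with hT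
  have hmT : ∀ q t, t ∈ T q ↔ R γ α q t := fun q t => by rw [hT, Finset.mem_filter]; simp
  -- a small class
  obtain ⟨q, hq, hq2⟩ : ∃ q : ZMod n, q ≠ 0 ∧ 2 * (T q).card ≤ n - 1 := by
    have hd : Disjoint (T i) (T j) := by
      rw [Finset.disjoint_left]
      intro t h1 h2
      rw [hmT] at h1 h2
      exact hcon (R_trans h1 (R_symm h2))
    have hsub : T i ∪ T j ⊆ Finset.univ.erase 0 := by
      intro t ht
      rw [Finset.mem_union, hmT, hmT] at ht
      rw [Finset.mem_erase]
      refine ⟨?_, Finset.mem_univ _⟩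
      rintro rfl
      rcases ht with h1 | h1
      · exact hi (h.R_zero h1)
      · exact hj (h.R_zero h1)
    have h1 := Finset.card_le_card hsub
    rw [Finset.card_union_of_disjoint hd, Finset.card_erase_of_mem (Finset.mem_univ _), Finset.card_univ, hcardn] at h1
    by_cases h2 : 2 * (T i).card ≤ n - 1
    · exact ⟨i, hi, h2⟩
    · exact ⟨j, hj, by omega⟩
  -- the subgroup of elements killed by p
  set E : Finset (ZMod n) := Finset.univ.filter (fun x => (p : ZMod n) * x = 0) with hE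
  have hmE : ∀ x, x ∈ E ↔ (p : ZMod n) * x = 0 := fun x => by rw [hE, Finset.mem_filter]; simp
  have hEcard : E.card ≤ p := by
    have h1 := IsCyclic.card_pow_eq_one_le (α := Multiplicative (ZMod n)) hp.pos
    refine le_trans (le_of_eq ?_) h1
    refine Finset.card_bij (fun x _ => Multiplicative.ofAdd x) ?_ ?_ ?_
    · intro x hx
      rw [Finset.mem_filter]
      refine ⟨Finset.mem_univ _, ?_⟩
      rw [← ofAdd_nsmul, nsmul_eq_mul, (hmE x).1 hx]; rfl
    · intro x _ y _ hxy
      exact hxy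
    · intro x hx
      rw [Finset.mem_filter] at hx
      refine ⟨x.toAdd, ?_, rfl⟩
      rw [hmE]
      have h2 : p • x.toAdd = 0 := by
        rw [← toAdd_pow, hx.2]; rfl
      rwa [nsmul_eq_mul] at h2
  have hE0 : (0 : ZMod n) ∈ E := by rw [hmE, mul_zero]
  have hEneg : ∀ x ∈ E, -x ∈ E := fun x hx => by rw [hmE, mul_neg, (hmE x).1 hx, neg_zero]
  obtain ⟨ε, hεE, hε0⟩ : ∃ ε ∈ E, ε ≠ 0 := by
    refine ⟨((p ^ (m - 1) : ℕ) : ZMod n), ?_, ?_⟩
    · rw [hmE, ← Nat.cast_mul, ← pow_succ', show m - 1 + 1 = m by omega, ← hn, ZMod.natCast_self]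
    · intro h0
      rw [ZMod.natCast_eq_zero_iff, hn] at h0
      have := Nat.le_of_dvd (pow_pos hp.pos _) h0
      have h2 := (Nat.pow_lt_pow_iff_right hp.one_lt).2 (show m - 1 < m by omega)
      omega
  have hEπ : ∀ x ∈ E, π x = 0 := by
    intro x hx
    rw [hmE] at hx
    have h1 : ((p * x.val : ℕ) : ZMod n) = 0 := by rw [Nat.cast_mul, ZMod.natCast_zmod_val]; exact hx
    rw [ZMod.natCast_eq_zero_iff] at h1
    have h1' : p ^ m ∣ p * x.val := (dvd_of_eq hn.symm).trans h1
    have h2 : p * p ∣ p * x.val := (show p * p ∣ p ^ m by rw [← sq]; exact pow_dvd_pow p hm).trans h1'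
    have h3 : p ∣ x.val := Nat.dvd_of_mul_dvd_mul_left hp.pos h2
    have h4 : x = ((x.val : ℕ) : ZMod n) := (ZMod.natCast_zmod_val x).symm
    rw [h4, map_natCast, ZMod.natCast_eq_zero_iff]
    exact h3
  -- multiplicity counts
  have hF : ∀ q' x : ZMod n, x ≠ 0 → p ∣ (Finset.univ.filter (fun t : ZMod n => R γ α q' t ∧ (p : ZMod n) * t = x)).card := by
    intro q' x hx
    obtain ⟨x', hx', hπ⟩ := h.lemA hp π hx
    rw [← ZMod.natCast_eq_zero_iff, h.lemC hp q' hx']
    have : Finset.univ.filter (fun t : ZMod n => R γ α q' t ∧ (p : ZMod n) * t = x') = ∅ := by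
      rw [Finset.filter_eq_empty_iff]
      rintro t - ⟨-, ht⟩
      apply hπ
      rw [← ht, map_mul, map_natCast, CharP.cast_eq_zero, zero_mul]
    rw [this]; simp
  have hfib : ∀ q' t : ZMod n, R γ α q' t → (p : ZMod n) * t ≠ 0 →
      (Finset.univ.filter (fun s : ZMod n => R γ α q' s ∧ (p : ZMod n) * s = (p : ZMod n) * t)).card = p ∧
      ∀ x ∈ E, R γ α q' (t + x) := by
    intro q' t ht hpt
    set S := Finset.univ.filter (fun s : ZMod n => R γ α q' s ∧ (p : ZMod n) * s = (p : ZMod n) * t) with hS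
    have h1 := hF q' _ hpt
    have htS : t ∈ S := by rw [hS, Finset.mem_filter]; exact ⟨Finset.mem_univ _, ht, rfl⟩
    have h2 : 0 < S.card := Finset.card_pos.2 ⟨t, htS⟩
    have h3 : p ≤ S.card := Nat.le_of_dvd h2 h1
    have hsub : S ⊆ E.map (addLeftEmbedding t) := by
      intro s hs
      rw [hS, Finset.mem_filter] at hs
      rw [Finset.mem_map]
      refine ⟨s - t, ?_, add_sub_cancel t s⟩
      rw [hmE, mul_sub, hs.2.2, sub_self]
    have h4 := Finset.card_le_card hsub
    rw [Finset.card_map] at h4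
    refine ⟨by omega, ?_⟩
    have h5 : S = E.map (addLeftEmbedding t) := Finset.eq_of_subset_of_card_le hsub (by rw [Finset.card_map]; omega)
    intro x hx
    have h6 : t + x ∈ E.map (addLeftEmbedding t) := Finset.mem_map.2 ⟨x, hx, rfl⟩
    rw [← h5, hS, Finset.mem_filter] at h6
    exact h6.2.1
  -- every class meets E
  have hmeet : ∀ x : ZMod n, x ≠ 0 → ∃ x' ∈ E, R γ α x x' := by
    intro x hx
    by_contra hno
    push Not at hno
    have h1 : ∀ t, R γ α x t → (p : ZMod n) * t ≠ 0 := fun t ht h0 => hno t ((hmE t).2 h0) ht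
    obtain ⟨a, ha⟩ := h.lemB hx hε0
    apply ha
    constructor
    · intro h2
      have := (hfib x a h2 (h1 a h2)).2 (-ε) (hEneg ε hεE)
      rwa [← sub_eq_add_neg] at this
    · intro h2
      have := (hfib x _ h2 (h1 _ h2)).2 ε hεE
      rwa [sub_add_cancel] at this
  -- the counting
  set T' := (T q).filter (fun t => t ∉ E) with hT'
  have hN : ∀ x : ZMod n, x ≠ 0 → T'.card ≤ (Finset.univ.filter (fun z : ZMod n => R γ α q z ∧ R γ α q (z - x))).card := by
    intro x hx
    obtain ⟨x', hx'E, hxx⟩ := hmeet x hx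
    rw [h.lemN q hxx]
    apply Finset.card_le_card
    intro t ht
    rw [hT', Finset.mem_filter, hmT] at ht
    rw [Finset.mem_filter]
    refine ⟨Finset.mem_univ _, ht.1, ?_⟩
    rw [sub_eq_add_neg]
    exact (hfib q t ht.1 (fun h0 => ht.2 ((hmE t).2 h0))).2 _ (hEneg x' hx'E)
  have hN0 : (Finset.univ.filter (fun z : ZMod n => R γ α q z ∧ R γ α q (z - 0))).card = (T q).card := by
    congr 1
    ext z
    rw [Finset.mem_filter, hmT, sub_zero]
    simp
  have hsum : ∑ x : ZMod n, (Finset.univ.filter (fun z : ZMod n => R γ α q z ∧ R γ α q (z - x))).card = (T q).card * (T q).card := by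
    have h1 : ∀ x : ZMod n, (Finset.univ.filter (fun z : ZMod n => R γ α q z ∧ R γ α q (z - x))).card = ∑ z ∈ T q, if R γ α q (z - x) then 1 else 0 := by
      intro x
      rw [← Finset.sum_filter, Finset.sum_const, smul_eq_mul, mul_one, hT, Finset.filter_filter]
    rw [Finset.sum_congr rfl (fun x _ => h1 x), Finset.sum_comm]
    have h2 : ∀ z ∈ T q, ∑ x : ZMod n, (if R γ α q (z - x) then 1 else 0) = (T q).card := by
      intro z _
      rw [← Finset.sum_filter, Finset.sum_const, smul_eq_mul, mul_one]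
      refine Finset.card_bij (fun x _ => z - x) ?_ ?_ ?_
      · intro x hx
        rw [Finset.mem_filter] at hx
        rw [hmT]; exact hx.2
      · intro a _ b _ hab
        exact sub_right_injective hab
      · intro b hb
        rw [hmT] at hb
        refine ⟨z - b, ?_, sub_sub_cancel z b⟩
        rw [Finset.mem_filter, sub_sub_cancel]
        exact ⟨Finset.mem_univ _, hb⟩
    rw [Finset.sum_congr rfl h2, Finset.sum_const, smul_eq_mul]
  have hbig : (T q).card + (n - 1) * T'.card ≤ (T q).card * (T q).card := by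
    rw [← hsum, ← Finset.add_sum_erase _ _ (Finset.mem_univ (0 : ZMod n)), hN0]
    apply Nat.add_le_add_left
    calc (n - 1) * T'.card = ∑ _x ∈ (Finset.univ : Finset (ZMod n)).erase 0, T'.card := by
          rw [Finset.sum_const, smul_eq_mul, Finset.card_erase_of_mem (Finset.mem_univ _), Finset.card_univ, hcardn]
      _ ≤ _ := Finset.sum_le_sum (fun x hx => hN x (Finset.ne_of_mem_erase hx))
  have hsplit : (T q).card ≤ T'.card + (p - 1) := by
    have h1 : ((T q).filter (fun t => t ∈ E)).card + T'.card = (T q).card := Finset.card_filter_add_card_filter_not _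
    have h2 : (T q).filter (fun t => t ∈ E) ⊆ E.erase 0 := by
      intro t ht
      rw [Finset.mem_filter, hmT] at ht
      rw [Finset.mem_erase]
      refine ⟨?_, ht.2⟩
      rintro rfl
      exact hq (h.R_zero ht.1)
    have h3 := Finset.card_le_card h2
    rw [Finset.card_erase_of_mem hE0] at h3
    omega
  have hT'p : p ≤ T'.card := by
    obtain ⟨t, ht, htπ⟩ := h.lemA hp π hq
    have htE : (p : ZMod n) * t ≠ 0 := fun h0 => htπ (hEπ t ((hmE t).2 h0))
    obtain ⟨h1, -⟩ := hfib q t ht htE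
    rw [← h1]
    apply Finset.card_le_card
    intro s hs
    rw [Finset.mem_filter] at hs
    rw [hT', Finset.mem_filter, hmT, hmE]
    exact ⟨hs.2.1, fun h0 => htE (by rw [← hs.2.2, h0])⟩
  have hTpos : 0 < (T q).card := Finset.card_pos.2 ⟨q, (hmT q q).2 (R_refl q)⟩
  have h1 : (T q).card * (1 + 2 * T'.card) ≤ (T q).card * (T q).card := by
    calc (T q).card * (1 + 2 * T'.card) = (T q).card + (2 * (T q).card) * T'.card := by ring
      _ ≤ (T q).card + (n - 1) * T'.card := by
          apply Nat.add_le_add_left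
          exact Nat.mul_le_mul_right _ hq2
      _ ≤ _ := hbig
  have h2 := Nat.le_of_mul_le_mul_left h1 hTpos
  have := hp.two_le
  omega

theorem Reg.isMulti {p m : ℕ} (hp : p.Prime) (hm : 2 ≤ m) (hn : n = p ^ m) [IsPreprimitive G Ω] (h : Reg γ α) :
    IsMultiplyPretransitive G Ω 2 := by
  rw [is_two_pretransitive_iff]
  intro a b c d hab hcd
  obtain ⟨i, rfl⟩ := h.exists_idx a
  obtain ⟨j, rfl⟩ := h.exists_idx b
  obtain ⟨k, rfl⟩ := h.exists_idx c
  obtain ⟨l, rfl⟩ := h.exists_idx d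
  have h1 : j - i ≠ 0 := fun h0 => hab (by rw [sub_eq_zero.1 h0])
  have h2 : l - k ≠ 0 := fun h0 => hcd (by rw [sub_eq_zero.1 h0])
  obtain ⟨g, hg1, hg2⟩ := h.two_trans hp hm hn h1 h2
  refine ⟨γ k * g * γ (-i), ?_, ?_⟩
  · rw [mul_smul, mul_smul, h.smul, neg_add_cancel, h.zero, one_smul, hg1]
  · rw [mul_smul, mul_smul, h.smul, neg_add_eq_sub, hg2, h.smul, add_sub_cancel]

/-- in the imprimitive case the socle element of the cyclic group lies in an intransitive normal subgroup -/
theorem Reg.intrans {p m : ℕ} (hp : p.Prime) (hm : 2 ≤ m) (hn : n = p ^ m) [IsPretransitive G Ω] (h : Reg γ α)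
    (hni : ¬ IsPreprimitive G Ω) :
    ¬ IsPretransitive (Subgroup.normalClosure ({γ ((p ^ (m - 1) : ℕ) : ZMod n)} : Set G)) Ω := by
  classical
  obtain ⟨B, hB, hBn⟩ : ∃ B : Set Ω, IsBlock G B ∧ ¬ IsTrivialBlock B := by
    by_contra hcon
    push Not at hcon
    exact hni { isTrivialBlock_of_isBlock := fun {B} hB => hcon B hB }
  rw [IsTrivialBlock, not_or, Set.not_subsingleton_iff] at hBn
  obtain ⟨⟨b1, hb1, b2, hb2, hb12⟩, hBu⟩ := hBn
  -- translate so that α ∈ B
  obtain ⟨g0, hg0⟩ := exists_smul_eq G b1 α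
  set D := g0 • B with hD
  have hDb : IsBlock G D := hB.translate g0
  have hαD : α ∈ D := ⟨b1, hb1, hg0⟩
  have hDne : ∃ x ∈ D, x ≠ α := ⟨g0 • b2, ⟨b2, hb2, rfl⟩, fun he => hb12 (smul_left_cancel g0 (hg0.trans he.symm))⟩
  have hDu : D ≠ Set.univ := by
    intro hu
    apply hBu
    have : B = g0⁻¹ • D := by rw [hD, inv_smul_smul]
    rw [this, hu, Set.smul_set_univ]
  have hstab : ∀ i : ZMod n, γ i • α ∈ D → γ i • D = D := by
    intro i hi
    exact hDb.smul_eq_of_nonempty ⟨γ i • α, ⟨α, hαD, rfl⟩, hi⟩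
  -- the subgroup
  let H : AddSubgroup (ZMod n) :=
    { carrier := {i | γ i • α ∈ D}
      zero_mem' := by
        show γ 0 • α ∈ D
        rw [h.zero, one_smul]; exact hαD
      add_mem' := by
        intro a b ha hb
        show γ (a + b) • α ∈ D
        rw [← h.smul]
        have h1 : γ a • (γ b • α) ∈ γ a • D := Set.smul_mem_smul_set hb
        rwa [hstab a ha] at h1
      neg_mem' := by
        intro a ha
        show γ (-a) • α ∈ D
        have h1 : γ a • D = D := hstab a ha
        have h2 : (γ a)⁻¹ • D = D := by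
          rw [inv_smul_eq_iff, h1]
        rw [h.neg, ← h2]
        exact Set.smul_mem_smul_set hαD }
  have hεH : ((p ^ (m - 1) : ℕ) : ZMod n) ∈ H := by
    obtain ⟨x, hx, hxα⟩ := hDne
    obtain ⟨i, rfl⟩ := h.exists_idx x
    have hiH : i ∈ H := hx
    have hi0 : i ≠ 0 := by
      rintro rfl
      rw [h.zero, one_smul] at hxα
      exact hxα rfl
    have hv0 : i.val ≠ 0 := by
      rwa [Ne, ZMod.val_eq_zero]
    obtain ⟨a, u, hup, hu⟩ := Nat.exists_eq_pow_mul_and_not_dvd hv0 p hp.ne_one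
    have ham : a < m := by
      have h1 : i.val < p ^ m := by rw [← hn]; exact ZMod.val_lt i
      have h2 : p ^ a ≤ i.val := Nat.le_of_dvd (Nat.pos_of_ne_zero hv0) ⟨u, hu⟩
      exact (Nat.pow_lt_pow_iff_right hp.one_lt).1 (lt_of_le_of_lt h2 h1)
    -- multiply by p^(k-1) * u^{-1}
    have hcop : Nat.Coprime u (p ^ m) := Nat.Coprime.pow_right m ((Nat.coprime_comm.1 ((Nat.Prime.coprime_iff_not_dvd hp).2 hup)))
    have huu : IsUnit ((u : ℕ) : ZMod n) := by
      rw [ZMod.isUnit_iff_coprime, hn]; exact hcop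
    obtain ⟨w, hw⟩ := huu.exists_right_inv
    have h6 : ((p ^ (m - 1) : ℕ) : ZMod n) = (w.val * p ^ (m - 1 - a)) • i := by
      rw [nsmul_eq_mul, Nat.cast_mul, ZMod.natCast_zmod_val]
      have h7 : i = ((p ^ a : ℕ) : ZMod n) * ((u : ℕ) : ZMod n) := by
        rw [← Nat.cast_mul, ← hu, ZMod.natCast_zmod_val]
      rw [h7]
      have h8 : p ^ (m - 1) = p ^ (m - 1 - a) * p ^ a := by rw [← pow_add]; congr 1; omega
      rw [h8, Nat.cast_mul]
      linear_combination (-(((p ^ (m - 1 - a) : ℕ) : ZMod n) * ((p ^ a : ℕ) : ZMod n))) * hw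
    rw [h6]
    exact H.nsmul_mem hiH _
  -- kernel of the block action
  let K : Subgroup G :=
    { carrier := {k | ∀ g : G, k • (g • D) = g • D}
      one_mem' := fun g => one_smul _ _
      mul_mem' := by
        intro a b ha hb g
        rw [mul_smul, hb, ha]
      inv_mem' := by
        intro a ha g
        rw [inv_smul_eq_iff, ha] }
  have hKn : K.Normal := by
    refine ⟨fun k hk g g' => ?_⟩
    have h1 := hk (g⁻¹ * g')
    rw [mul_smul, mul_smul, ← mul_smul g⁻¹ g' D, h1, ← mul_smul, mul_inv_cancel_left]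
  have hεK : γ ((p ^ (m - 1) : ℕ) : ZMod n) ∈ K := by
    intro g
    obtain ⟨j, hj⟩ := h.exists_idx (g • α)
    have h1 : g • D = γ j • D := by
      have h2 : ((γ j)⁻¹ * g) • D = D := by
        apply hDb.smul_eq_of_nonempty
        refine ⟨α, ⟨α, hαD, ?_⟩, hαD⟩
        show ((γ j)⁻¹ * g) • α = α
        rw [mul_smul, ← hj, inv_smul_smul]
      rw [mul_smul, inv_smul_eq_iff] at h2
      exact h2
    rw [h1, ← mul_smul, ← h.add, add_comm, h.add, mul_smul, hstab _ hεH]
  intro htr
  apply hDu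
  rw [Set.eq_univ_iff_forall]
  intro x
  obtain ⟨⟨k, hk⟩, hkx⟩ := htr.exists_smul_eq α x
  have hkK : k ∈ K := (Subgroup.normalClosure_le_normal (Set.singleton_subset_iff.2 hεK)) hk
  have h1 := hkK 1
  rw [one_smul] at h1
  rw [← hkx, ← h1]
  exact Set.smul_mem_smul_set hαD

theorem Reg.intrans' {p m : ℕ} (hp : p.Prime) (hm : 2 ≤ m) (hn : n = p ^ m) [IsPretransitive G Ω] (h : Reg γ α)
    (hni : ¬ IsPreprimitive G Ω) (z : G) (ε : ZMod n) (hε : ε.val = p ^ (m - 1)) (hz : γ ε = z) :
    ¬ IsPretransitive (Subgroup.normalClosure ({z} : Set G)) Ω := by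
  have h1 : ε = ((p ^ (m - 1) : ℕ) : ZMod n) := by
    rw [← hε, ZMod.natCast_zmod_val]
  rw [← hz, h1]
  exact h.intrans hp hm hn hni

end
end CfsgLib.CycBH14

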