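import Mathlib
import Cfsg.Agent.EqBase

/-! lower bounds for cyclotomic values -/

set_option autoImplicit false

namespace CfsgLib.CycBdH12

open Polynomial

/-! ### totient -/

theorem tot_big (n : ℕ) (hn : 0 < n) : (∀ p : ℕ, p.Prime → p ∣ n → 5 ≤ p) →
    n ^ 3 ≤ (Nat.totient n) ^ 4 := by
  induction n using Nat.recOnPosPrimePosCoprime with
  | prime_pow p k hp hk =>
    intro h
    have h5 : 5 ≤ p := h p hp (dvd_pow_self p hk.ne')
    rw [Nat.totient_prime_pow hp hk]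
    obtain ⟨j, rfl⟩ : ∃ j, k = j + 1 := ⟨k - 1, by omega⟩
    rw [show j + 1 - 1 = j by omega, mul_pow]
    have h1 : p ^ 3 ≤ (p - 1) ^ 4 := by
      obtain ⟨q, rfl⟩ : ∃ q, p = q + 5 := ⟨p - 5, by omega⟩
      rw [show q + 5 - 1 = q + 4 by omega]
      nlinarith [sq_nonneg q, Nat.zero_le (q ^ 3), Nat.zero_le (q ^ 4)]
    calc (p ^ (j + 1)) ^ 3 = (p ^ j) ^ 3 * p ^ 3 := by rw [pow_succ p j, mul_pow]
      _ ≤ (p ^ j) ^ 4 * (p - 1) ^ 4 :=
        Nat.mul_le_mul (Nat.pow_le_pow_right (pow_pos hp.pos j) (by norm_num)) h1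
  | zero => omega
  | one => intro _; simp
  | coprime a b ha hb hab iha ihb =>
    intro h
    rw [Nat.totient_mul hab, mul_pow, mul_pow]
    exact Nat.mul_le_mul (iha (by omega) (fun p hp hpa => h p hp (hpa.mul_right b)))
      (ihb (by omega) (fun p hp hpb => h p hp (hpb.mul_left a)))

theorem tot_bound (n : ℕ) (hn : 0 < n) : 2 * n ^ 3 ≤ 27 * (Nat.totient n) ^ 4 := by
  obtain ⟨a, n1, hn1, rfl⟩ := Nat.exists_eq_pow_mul_and_not_dvd hn.ne' 2 (by norm_num)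
  have hn1' : n1 ≠ 0 := by rintro rfl; simp at hn1
  obtain ⟨b, m, hm, rfl⟩ := Nat.exists_eq_pow_mul_and_not_dvd hn1' 3 (by norm_num)
  have hm' : 0 < m := by
    rcases Nat.eq_zero_or_pos m with h | h
    · subst h; simp at hm
    · exact h
  have h2m : ¬ 2 ∣ m := fun h => hn1 (h.mul_left _)
  have c1 : Nat.Coprime (2 ^ a) (3 ^ b * m) := by
    apply Nat.Coprime.pow_left
    exact (Nat.prime_two.coprime_iff_not_dvd).mpr hn1
  have c2 : Nat.Coprime (3 ^ b) m := by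
    apply Nat.Coprime.pow_left
    exact (Nat.prime_three.coprime_iff_not_dvd).mpr hm
  rw [Nat.totient_mul c1, Nat.totient_mul c2]
  have e1 : (2 ^ a) ^ 3 ≤ 8 * (Nat.totient (2 ^ a)) ^ 4 := by
    rcases Nat.eq_zero_or_pos a with h | h
    · subst h; simp
    · obtain ⟨j, rfl⟩ : ∃ j, a = j + 1 := ⟨a - 1, by omega⟩
      rw [Nat.totient_prime_pow Nat.prime_two h, show j + 1 - 1 = j by omega]
      have : (2 ^ j) ^ 3 ≤ (2 ^ j) ^ 4 := Nat.pow_le_pow_right (by positivity) (by norm_num)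
      calc (2 ^ (j + 1)) ^ 3 = 8 * (2 ^ j) ^ 3 := by rw [pow_succ 2 j, mul_pow]; ring
        _ ≤ 8 * (2 ^ j) ^ 4 := Nat.mul_le_mul_left _ this
        _ = _ := by ring
  have e2 : 16 * (3 ^ b) ^ 3 ≤ 27 * (Nat.totient (3 ^ b)) ^ 4 := by
    rcases Nat.eq_zero_or_pos b with h | h
    · subst h; simp
    · obtain ⟨j, rfl⟩ : ∃ j, b = j + 1 := ⟨b - 1, by omega⟩
      rw [Nat.totient_prime_pow Nat.prime_three h, show j + 1 - 1 = j by omega]
      have : (3 ^ j) ^ 3 ≤ (3 ^ j) ^ 4 := Nat.pow_le_pow_right (by positivity) (by norm_num)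
      calc 16 * (3 ^ (j + 1)) ^ 3 = 27 * 16 * (3 ^ j) ^ 3 := by rw [pow_succ 3 j, mul_pow]; ring
        _ ≤ 27 * 16 * (3 ^ j) ^ 4 := Nat.mul_le_mul_left _ this
        _ = _ := by ring
  have e3 := tot_big m hm' (by
    intro p hp hpm
    have h2 := hp.two_le
    by_contra hlt
    push Not at hlt
    interval_cases p
    · exact h2m hpm
    · exact hm hpm
    · exact absurd hp (by norm_num))
  have key : 16 * (2 ^ a * (3 ^ b * m)) ^ 3 ≤
      8 * (27 * (Nat.totient (2 ^ a) * (Nat.totient (3 ^ b) * Nat.totient m)) ^ 4) := by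
    calc 16 * (2 ^ a * (3 ^ b * m)) ^ 3 = (2 ^ a) ^ 3 * ((16 * (3 ^ b) ^ 3) * m ^ 3) := by ring
      _ ≤ (8 * (Nat.totient (2 ^ a)) ^ 4) * ((27 * (Nat.totient (3 ^ b)) ^ 4) * (Nat.totient m) ^ 4) :=
        Nat.mul_le_mul e1 (Nat.mul_le_mul e2 e3)
      _ = _ := by ring
  omega

theorem exp_big (f : ℕ) (hf : 28 ≤ f) : 1470 * f ^ 8 * 8 ^ f < 27 ^ f := by
  induction f, hf using Nat.le_induction with
  | base => norm_num
  | succ f hf ih =>
    have h1 : 8 * (f + 1) ^ 8 ≤ 27 * f ^ 8 := by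
      have h2 : 28 * (f + 1) ≤ 29 * f := by omega
      have h3 : (28 * (f + 1)) ^ 8 ≤ (29 * f) ^ 8 := Nat.pow_le_pow_left h2 8
      rw [mul_pow, mul_pow] at h3
      have h4 : 8 * 29 ^ 8 ≤ 27 * 28 ^ 8 := by norm_num
      have h5 : 28 ^ 8 * (8 * (f + 1) ^ 8) ≤ 28 ^ 8 * (27 * f ^ 8) := by
        calc 28 ^ 8 * (8 * (f + 1) ^ 8) = 8 * (28 ^ 8 * (f + 1) ^ 8) := by ring
          _ ≤ 8 * (29 ^ 8 * f ^ 8) := Nat.mul_le_mul_left _ h3
          _ = (8 * 29 ^ 8) * f ^ 8 := by ring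
          _ ≤ (27 * 28 ^ 8) * f ^ 8 := Nat.mul_le_mul_right _ h4
          _ = _ := by ring
      exact Nat.le_of_mul_le_mul_left h5 (by norm_num)
    calc 1470 * (f + 1) ^ 8 * 8 ^ (f + 1) = 1470 * (8 * (f + 1) ^ 8) * 8 ^ f := by
          rw [pow_succ 8 f]; ring
      _ ≤ 1470 * (27 * f ^ 8) * 8 ^ f := Nat.mul_le_mul_right _ (Nat.mul_le_mul_left _ h1)
      _ = 27 * (1470 * f ^ 8 * 8 ^ f) := by ring
      _ < 27 * 27 ^ f := Nat.mul_lt_mul_of_pos_left ih (by norm_num)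
      _ = 27 ^ (f + 1) := by rw [pow_succ]; ring

/-- `n (2n+1) 2^φ < 3^φ` for large `n` -/
theorem big_n (n : ℕ) (hn : 193 ≤ n) :
    n * (2 * n + 1) * 2 ^ (Nat.totient n) < 3 ^ (Nat.totient n) := by
  have h1 := tot_bound n (by omega)
  set f := Nat.totient n with hf
  have hf28 : 28 ≤ f := by
    by_contra hlt
    push Not at hlt
    have h2 : f ^ 4 ≤ 27 ^ 4 := Nat.pow_le_pow_left (by omega) 4
    have h3 : 193 ^ 3 ≤ n ^ 3 := Nat.pow_le_pow_left hn 3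
    norm_num at h2 h3
    omega
  have h2 := exp_big f hf28
  have h3 : 193 * (2 * n + 1) ≤ 387 * n := by omega
  have h4 : (n * (2 * n + 1)) ^ 3 ≤ 1470 * f ^ 8 := by
    have h5 : (193 * (2 * n + 1)) ^ 3 ≤ (387 * n) ^ 3 := Nat.pow_le_pow_left h3 3
    have h6 : 193 ^ 3 * (n * (2 * n + 1)) ^ 3 ≤ 387 ^ 3 * (n ^ 3) ^ 2 := by
      calc 193 ^ 3 * (n * (2 * n + 1)) ^ 3 = n ^ 3 * (193 * (2 * n + 1)) ^ 3 := by ring
        _ ≤ n ^ 3 * (387 * n) ^ 3 := Nat.mul_le_mul_left _ h5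
        _ = _ := by ring
    have h7 : (2 * n ^ 3) ^ 2 ≤ (27 * f ^ 4) ^ 2 := Nat.pow_le_pow_left h1 2
    have h8 : 4 * (193 ^ 3 * (n * (2 * n + 1)) ^ 3) ≤ 387 ^ 3 * (729 * f ^ 8) := by
      calc 4 * (193 ^ 3 * (n * (2 * n + 1)) ^ 3) ≤ 4 * (387 ^ 3 * (n ^ 3) ^ 2) :=
            Nat.mul_le_mul_left _ h6
        _ = 387 ^ 3 * (2 * n ^ 3) ^ 2 := by ring
        _ ≤ 387 ^ 3 * (27 * f ^ 4) ^ 2 := Nat.mul_le_mul_left _ h7
        _ = _ := by ring
    have h9 : 387 ^ 3 * (729 * f ^ 8) ≤ 4 * (193 ^ 3 * (1470 * f ^ 8)) := by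
      have : 387 ^ 3 * 729 ≤ 4 * (193 ^ 3 * 1470) := by norm_num
      calc 387 ^ 3 * (729 * f ^ 8) = (387 ^ 3 * 729) * f ^ 8 := by ring
        _ ≤ (4 * (193 ^ 3 * 1470)) * f ^ 8 := Nat.mul_le_mul_right _ this
        _ = _ := by ring
    have h10 := h8.trans h9
    have h11 : 4 * 193 ^ 3 * (n * (2 * n + 1)) ^ 3 ≤ 4 * 193 ^ 3 * (1470 * f ^ 8) := by
      calc _ = 4 * (193 ^ 3 * (n * (2 * n + 1)) ^ 3) := by ring
        _ ≤ _ := h10
        _ = _ := by ring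
    exact Nat.le_of_mul_le_mul_left h11 (by norm_num)
  have h5 : (n * (2 * n + 1) * 2 ^ f) ^ 3 < (3 ^ f) ^ 3 := by
    calc (n * (2 * n + 1) * 2 ^ f) ^ 3 = (n * (2 * n + 1)) ^ 3 * 8 ^ f := by
          rw [mul_pow, ← pow_mul, mul_comm f 3, pow_mul]; norm_num
      _ ≤ 1470 * f ^ 8 * 8 ^ f := Nat.mul_le_mul_right _ h4
      _ < 27 ^ f := h2
      _ = (3 ^ f) ^ 3 := by rw [← pow_mul, mul_comm f 3, pow_mul]; norm_num
  exact lt_of_pow_lt_pow_left₀ 3 (Nat.zero_le _) h5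

/-! ### value at 2 -/

theorem pow_a (k : ℕ) (hk : 2 ≤ k) : (3 / 2 : ℝ) ^ k ≤ 2 ^ k - 1 := by
  induction k, hk using Nat.le_induction with
  | base => norm_num
  | succ k hk ih =>
    rw [pow_succ, pow_succ]
    have : (1 : ℝ) ≤ 2 ^ k := one_le_pow₀ (by norm_num)
    nlinarith

theorem pow_b (k : ℕ) (hk : 2 ≤ k) : (3 / 2 : ℝ) ^ k * 3 ≤ 2 ^ (k + 1) - 1 := by
  induction k, hk using Nat.le_induction with
  | base => norm_num
  | succ k hk ih =>
    rw [pow_succ, pow_succ 2 (k + 1)]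
    have : (1 : ℝ) ≤ 2 ^ (k + 1) := one_le_pow₀ (by norm_num)
    nlinarith

theorem two_lower (n : ℕ) (hn : 2 ≤ n) : (3 / 2 : ℝ) ^ (Nat.totient n) ≤ (cyclotomic n ℝ).eval 2 := by
  have sqcase : ∀ p m : ℕ, p.Prime → p ∣ m →
      (3 / 2 : ℝ) ^ (Nat.totient (m * p)) ≤ (cyclotomic (m * p) ℝ).eval 2 := by
    intro p m hp hpm
    have h1 := cyclotomic_expand_eq_cyclotomic hp hpm ℝ
    have h2 : (cyclotomic (m * p) ℝ).eval 2 = (cyclotomic m ℝ).eval (2 ^ p) := by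
      rw [← h1, expand_eval]
    rw [h2, mul_comm, Nat.totient_mul_of_prime_of_dvd hp hpm, pow_mul]
    have h3 : (1 : ℝ) < 2 ^ p := one_lt_pow₀ (by norm_num) hp.ne_zero
    exact (pow_le_pow_left₀ (by positivity) (pow_a p hp.two_le) _).trans
      (sub_one_pow_totient_le_cyclotomic_eval h3 m)
  by_cases hodd : ∃ p, p.Prime ∧ 3 ≤ p ∧ p ∣ n
  · obtain ⟨p, hp, hp3, m, rfl⟩ := hodd
    by_cases hpm : p ∣ m
    · rw [mul_comm]; exact sqcase p m hp hpm
    · have h1 := cyclotomic_expand_eq_cyclotomic_mul hp hpm ℝ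
      have h2 : (cyclotomic m ℝ).eval (2 ^ p) =
          (cyclotomic (m * p) ℝ).eval 2 * (cyclotomic m ℝ).eval 2 := by
        have := congrArg (fun P => P.eval (2 : ℝ)) h1
        simp only [expand_eval, eval_mul] at this
        exact this
      have h3 : (1 : ℝ) < 2 ^ p := one_lt_pow₀ (by norm_num) hp.ne_zero
      have h4 := sub_one_pow_totient_le_cyclotomic_eval h3 m
      have h5 := cyclotomic_eval_le_add_one_pow_totient (q := (2 : ℝ)) (by norm_num) m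
      have h6 : 0 < (cyclotomic m ℝ).eval (2 : ℝ) := cyclotomic_pos' m (by norm_num)
      rw [Nat.totient_mul_of_prime_of_not_dvd hp hpm, mul_comm p m]
      have h7 : ((3 / 2 : ℝ) ^ (p - 1) * 3) ^ (Nat.totient m) ≤ (2 ^ p - 1) ^ (Nat.totient m) := by
        apply pow_le_pow_left₀ (by positivity)
        have := pow_b (p - 1) (by omega)
        rwa [show p - 1 + 1 = p by omega] at this
      rw [mul_pow, ← pow_mul] at h7
      have h8 : (2 : ℝ) + 1 = 3 := by norm_num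
      rw [h8] at h5
      rw [h2] at h4
      have h9 : (3 / 2 : ℝ) ^ ((p - 1) * Nat.totient m) * (cyclotomic m ℝ).eval 2 ≤
          (cyclotomic (m * p) ℝ).eval 2 * (cyclotomic m ℝ).eval 2 := by
        calc _ ≤ (3 / 2 : ℝ) ^ ((p - 1) * Nat.totient m) * 3 ^ (Nat.totient m) :=
              mul_le_mul_of_nonneg_left h5 (by positivity)
          _ ≤ _ := h7.trans h4
      exact le_of_mul_le_mul_right h9 h6
  · -- n is a power of two
    push Not at hodd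
    have hall : ∀ {q : ℕ}, q.Prime → q ∣ n → q = 2 := by
      intro q hq hqn
      have := hq.two_le
      by_contra hne
      exact hodd q hq (by omega) hqn
    have h1 := Nat.eq_prime_pow_of_unique_prime_dvd (by omega : n ≠ 0) hall
    set k := n.primeFactorsList.length
    rcases (show k = 0 ∨ k = 1 ∨ 2 ≤ k by omega) with h | h | h
    · rw [h] at h1; omega
    · rw [h] at h1
      rw [h1]
      norm_num [cyclotomic_two]
    · obtain ⟨j, hj⟩ : ∃ j, k = j + 2 := ⟨k - 2, by omega⟩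
      rw [hj, pow_succ] at h1
      rw [h1]
      exact sqcase 2 (2 ^ (j + 1)) Nat.prime_two (dvd_pow_self 2 (by omega))

end CfsgLib.CycBdH12
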