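import Mathlib
import Cfsg.Agent.LibCycCorr

/-!
# The character correspondence for a cyclic group of operators, main statements (helper20)
-/

set_option autoImplicit false
set_option linter.all false

namespace CfsgLib.CycCorr

open Cfsg CfsgLib.CharBasic CfsgLib.Clifford CfsgLib.Gallagher CfsgLib.Extend CfsgLib.GalChar
open scoped Pointwise ComplexConjugate

universe u v w
variable {Γ : Type u} [Group Γ] [Fintype Γ] {G S : Subgroup Γ}

omit [Fintype Γ] in
theorem normal_of (hnorm : ∀ s ∈ S, ∀ g ∈ G, s * g * s⁻¹ ∈ G) (htop : G ⊔ S = ⊤) : G.Normal := by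
  rw [← Subgroup.normalizer_eq_top_iff, eq_top_iff, ← htop]
  apply sup_le Subgroup.le_normalizer
  intro s hs
  rw [Subgroup.mem_normalizer_iff]
  intro g
  constructor
  · exact hnorm s hs g
  · intro h
    have := hnorm s⁻¹ (S.inv_mem hs) _ h
    convert this using 1
    group

omit [Fintype Γ] in
theorem decomp [hG : G.Normal] (htop : G ⊔ S = ⊤) (x : Γ) : ∃ g ∈ G, ∃ s ∈ S, g * s = x := by
  have h1 : x ∈ G ⊔ S := by rw [htop]; trivial
  exact Subgroup.mem_sup_of_normal_left.mp h1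

theorem inv_of [hG : G.Normal] (htop : G ⊔ S = ⊤) [Fintype G] {χ : G → ℂ} (hχ : IsClassFunction G χ)
    (h : ∀ s ∈ S, ∀ g g' : G, (g' : Γ) = s * g * s⁻¹ → χ g' = χ g) : Inv G χ := by
  intro x n
  obtain ⟨g, hg, s, hs, rfl⟩ := decomp htop x
  have h1 : (⟨g * s * n * (g * s)⁻¹, hG.conj_mem (n : Γ) n.2 (g * s)⟩ : G) =
      ⟨g, hg⟩ * ⟨s * n * s⁻¹, hG.conj_mem (n : Γ) n.2 s⟩ * (⟨g, hg⟩ : G)⁻¹ := by
    apply Subtype.ext
    show g * s * n * (g * s)⁻¹ = g * (s * n * s⁻¹) * g⁻¹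
    group
  rw [h1, hχ]
  exact h s hs n _ rfl

omit [Fintype Γ] in
theorem centralizer_gen {s : Γ} (hs : Subgroup.zpowers s = S) : Subgroup.centralizer (S : Set Γ) = Subgroup.centralizer ({s} : Set Γ) := by
  rw [← hs]
  ext x
  rw [Subgroup.mem_centralizer_singleton_iff, Subgroup.mem_centralizer_iff]
  constructor
  · intro h; exact (h s (Subgroup.mem_zpowers s)).symm
  · rintro h _ ⟨k, rfl⟩
    exact (Commute.zpow_right h k).symm

omit [Fintype Γ] in
theorem exists_gen (hcyc : IsCyclic S) : ∃ s : Γ, Subgroup.zpowers s = S := by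
  obtain ⟨g, hg⟩ := hcyc.exists_generator
  refine ⟨g, le_antisymm ((Subgroup.zpowers_le).mpr g.2) fun x hx => ?_⟩
  obtain ⟨k, hk⟩ := Subgroup.mem_zpowers_iff.mp (hg ⟨x, hx⟩)
  refine Subgroup.mem_zpowers_iff.mpr ⟨k, ?_⟩
  have := congrArg (fun z : S => (z : Γ)) hk
  simpa using this

/-- a character vanishing at one vanishes -/
theorem char_zero {χ : Γ → ℂ} (h : IsCharacter Γ χ) (h1 : χ 1 = 0) (g : Γ) : χ g = 0 := by
  have h2 := char_norm_le h g
  rw [h1] at h2
  exact norm_le_zero_iff.mp h2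

section Main
variable [hG : G.Normal] [Fintype G] (hcop : (Nat.card G).Coprime (Nat.card S)) (htop : G ⊔ S = ⊤)
  (C : Subgroup Γ) [Fintype C] (hC : C = G ⊓ Subgroup.centralizer (S : Set Γ))
  {χ : G → ℂ} (hχ : IsIrrCharacter G χ) {χh : Γ → ℂ} (hχh : IsIrrCharacter Γ χh) (hext : ∀ g : G, χh g = χ g)
  (hdet : (detOrder χh).Coprime (Nat.card S))

omit [Fintype Γ] hG [Fintype G] [Fintype C] in
include hC in
theorem comm_of : ∀ c ∈ C, ∀ s ∈ S, c * s = s * c := by
  intro c hc s hs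
  rw [hC] at hc
  exact (Subgroup.mem_centralizer_iff.mp hc.2 s hs).symm

include hcop htop hC hχ hχh hext hdet in
/-- multiplicities at generators agree -/
theorem mult_gen {s s' : Γ} (hs : Subgroup.zpowers s = S) (hs' : Subgroup.zpowers s' = S) {β : C → ℂ} (hβ : IsIrrCharacter C β) :
    mult C χh β s = mult C χh β s' := by
  have hCG : C ≤ G := by rw [hC]; exact inf_le_left
  have hsS : s ∈ S := by rw [← hs]; exact Subgroup.mem_zpowers s
  have hsS' : s' ∈ S := by rw [← hs']; exact Subgroup.mem_zpowers s'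
  have hord : orderOf s = Nat.card S := by rw [← Nat.card_zpowers, hs]
  have hord' : orderOf s' = Nat.card S := by rw [← Nat.card_zpowers, hs']
  have hcomm := comm_of C hC
  have h1 : s' ∈ Subgroup.zpowers s := by rw [hs]; exact hsS'
  obtain ⟨j, hj⟩ := (mem_powers_iff_mem_zpowers.mpr h1)
  have hj' : s ^ j = s' := hj
  have hjc : j.Coprime (Nat.card S) := by
    have h2 := orderOf_pow (n := j) s
    rw [hj', hord', hord] at h2
    have h3 : Nat.gcd (Nat.card S) j ∣ Nat.card S := Nat.gcd_dvd_left _ _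
    have h4 : Nat.gcd (Nat.card S) j * (Nat.card S / Nat.gcd (Nat.card S) j) = Nat.card S := Nat.mul_div_cancel' h3
    rw [← h2] at h4
    have h5 : 0 < Nat.card S := Nat.card_pos
    have h6 : Nat.gcd (Nat.card S) j = 1 := Nat.eq_of_mul_eq_mul_right h5 (by rw [h4, one_mul])
    rw [Nat.Coprime, Nat.gcd_comm]; exact h6
  obtain ⟨σ, hσ⟩ := exists_gal_of_coprime (G := S) hjc
  have hAc := mult_isCharacter C S hcomm (irr_isCharacter hχh) (irr_isCharacter hβ)
  have h2 := hσ _ hAc ⟨s, hsS⟩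
  obtain ⟨z, hz⟩ := mult_int hcop htop hχ hχh hext hdet C hCG hcomm hβ s hsS
  have h3 : mult C χh β s' = σ (mult C χh β s) := by
    rw [← hj']; exact h2
  rw [h3, hz, map_intCast]

include hcop htop hC hχ hχh hext hdet in
theorem exists_corr (hcyc : IsCyclic S) : ∃ (β : IrrCharacter C) (ε : ℤ), (ε = 1 ∨ ε = -1) ∧
    ∀ s : Γ, Subgroup.zpowers s = S → mult C χh (β : C → ℂ) s = ε ∧ (∀ β' : IrrCharacter C, β' ≠ β → mult C χh (β' : C → ℂ) s = 0) ∧
      ∀ c : C, χh (c * s) = ε * (β : C → ℂ) c := by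
  obtain ⟨s₀, hs₀⟩ := exists_gen hcyc
  have hCG : C ≤ G := by rw [hC]; exact inf_le_left
  have hcomm := comm_of C hC
  have key : ∀ s : Γ, Subgroup.zpowers s = S → ∃ (β : IrrCharacter C) (ε : ℤ), (ε = 1 ∨ ε = -1) ∧ mult C χh (β : C → ℂ) s = ε ∧
      (∀ β' : IrrCharacter C, β' ≠ β → mult C χh (β' : C → ℂ) s = 0) ∧ ∀ c : C, χh (c * s) = ε * (β : C → ℂ) c := by
    intro s hs
    exact exists_beta hcop htop hχ hχh hext hdet s (by rw [← hs]; exact Subgroup.mem_zpowers s) C hCG hcomm (by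
      rw [hC, centralizer_gen hs])
  obtain ⟨β, ε, hε, h1, h2, h3⟩ := key s₀ hs₀
  refine ⟨β, ε, hε, fun s hs => ?_⟩
  obtain ⟨β', ε', hε', h1', h2', h3'⟩ := key s hs
  have h4 := mult_gen hcop htop C hC hχ hχh hext hdet hs hs₀ β'.2
  have h5 : β' = β := by
    by_contra hne
    rw [h1', h2 β' hne] at h4
    have h6 : ε' = 0 := by exact_mod_cast h4
    rcases hε' with h | h <;> omega
  subst h5
  rw [h1', h1] at h4
  have h6 : ε' = ε := by exact_mod_cast h4
  subst h6
  exact ⟨h1', h2', h3'⟩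

omit [Fintype Γ] hG [Fintype G] in
theorem corr_unique {β β' : IrrCharacter C} {ε ε' : ℤ} (hε : ε = 1 ∨ ε = -1) (hε' : ε' = 1 ∨ ε' = -1)
    (h : ∀ c : C, (ε : ℂ) * (β : C → ℂ) c = (ε' : ℂ) * (β' : C → ℂ) c) : β = β' ∧ ε = ε' := by
  obtain ⟨d, hd0, hd⟩ := irr_one_nat β.2
  obtain ⟨d', hd0', hd'⟩ := irr_one_nat β'.2
  have h1 := h 1
  rw [hd, hd'] at h1
  have h2 : ε * (d : ℤ) = ε' * (d' : ℤ) := by exact_mod_cast h1
  have h3 : ε = ε' := by
    rcases hε with h4 | h4 <;> rcases hε' with h5 | h5 <;> rw [h4, h5] at h2 ⊢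
    · exfalso; omega
    · exfalso; omega
  refine ⟨?_, h3⟩
  apply Subtype.ext
  ext c
  have h4 := h c
  rw [h3] at h4
  have h5 : (ε' : ℂ) ≠ 0 := by
    rcases hε' with h | h <;> rw [h] <;> norm_num
  exact mul_left_cancel₀ h5 h4

omit [Fintype Γ] hG [Fintype G] in
theorem mult_of_eq {s : Γ} {β : C → ℂ} (hβ : IsIrrCharacter C β) {ε : ℤ} (h : ∀ c : C, χh (c * s) = ε * β c) :
    mult C χh β s = ε := by
  have h1 : mult C χh β s = classInner ((ε : ℂ) • β) β := by
    unfold mult classInner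
    congr 1
    refine Finset.sum_congr rfl fun c _ => ?_
    rw [h]; rfl
  rw [h1, CfsgLib.CharBasic.inner_smul_left, irr_inner_self hβ, mul_one]

omit [Fintype Γ] hG [Fintype G] in
include hC in
theorem below_of_mult [Finite Γ] (hCG : C ≤ G) (hχh : IsCharacter Γ χh) (hext : ∀ g : G, χh g = χ g) {s : Γ} (hs : s ∈ S) {β : C → ℂ} (hβ : IsIrrCharacter C β)
    (h : mult C χh β s ≠ 0) : classInner (fun c : C => χ ⟨c, hCG c.2⟩) β ≠ 0 := by
  intro h0
  have hAc := mult_isCharacter C S (comm_of C hC) hχh (irr_isCharacter hβ)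
  haveI := Fintype.ofFinite S
  apply h
  have h1 := char_zero hAc (by
    show mult C χh β 1 = 0
    rw [mult_one, ← h0]
    congr 1
    ext c
    exact hext ⟨c, hCG c.2⟩) ⟨s, hs⟩
  exact h1

include hcop hC hχ hχh hext in
theorem corr_inj {s : Γ} (hs : Subgroup.zpowers s = S) {χ' : G → ℂ} (hχ' : IsIrrCharacter G χ') {χh' : Γ → ℂ} (hχh' : IsIrrCharacter Γ χh')
    (hext' : ∀ g : G, χh' g = χ' g) {β : C → ℂ} (hβ : IsIrrCharacter C β) {ε ε' : ℤ} (hε : ε = 1 ∨ ε = -1) (hε' : ε' = 1 ∨ ε' = -1)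
    (h : ∀ c : C, χh (c * s) = ε * β c) (h' : ∀ c : C, χh' (c * s) = ε' * β c) : χ = χ' := by
  by_contra hne
  have hcx : (Nat.card G).Coprime (orderOf s) := by
    rw [← Nat.card_zpowers, hs]; exact hcop
  have h1 := coset_sum (G := G) hcx C (by rw [hC, centralizer_gen hs]) (fun z => χh z * conj (χh' z)) (fun a _ z => by
    show χh (a * z * a⁻¹) * conj (χh' (a * z * a⁻¹)) = χh z * conj (χh' z)
    rw [irr_classFun hχh z a, irr_classFun hχh' z a])
  have hc : IsCharacter Γ (avg G (fun z => χh z * conj (χh' z))) :=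
    avg_char G (isCharacter_mul (irr_isCharacter hχh) (isCharacter_conj (irr_isCharacter hχh')))
  have h2 : avg G (fun z => χh z * conj (χh' z)) 1 = 0 := by
    rw [avg_one]
    have e1 : (fun g : G => χh g) = χ := funext hext
    have e2 : (fun g : G => χh' g) = χ' := funext hext'
    rw [e1, e2, irr_inner_ne hχ hχ' hne]
  have h3 : avg G (fun z => χh z * conj (χh' z)) s = 0 := char_zero hc h2 s
  have h4 : (Nat.card C : ℂ)⁻¹ * ∑ c : C, χh (c * s) * conj (χh' (c * s)) = ε * ε' := by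
    have h5 : ∀ c : C, χh (c * s) * conj (χh' (c * s)) = (ε * ε') * (β c * conj (β c)) := by
      intro c
      rw [h, h', map_mul, map_intCast]; ring
    rw [Finset.sum_congr rfl fun c _ => h5 c, ← Finset.mul_sum]
    have h6 := irr_inner_self hβ
    unfold classInner at h6
    rw [mul_left_comm, h6, mul_one]
  have h5 : ((ε * ε' : ℤ) : ℂ) = 0 := by
    push_cast
    rw [← h4, ← h1]
    exact h3
  have h6 : ε * ε' = 0 := by exact_mod_cast h5
  rcases hε with h | h <;> rcases hε' with h' | h' <;> rw [h, h'] at h6 <;> omega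

end Main
end CfsgLib.CycCorr
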