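import Mathlib
import Cfsg.Agent.EqBase
import Cfsg.Agent.LibCycBdH12

/-! table of cyclotomic values -/

set_option autoImplicit false

namespace CfsgLib.CycTabH12

open Polynomial CfsgLib.CycBdH12

/-- natural number value -/
noncomputable def P (q n : ℕ) : ℕ := ((cyclotomic n ℤ).eval (q : ℤ)).natAbs

theorem P_cast (q n : ℕ) (hq : 2 ≤ q) : (P q n : ℤ) = (cyclotomic n ℤ).eval (q : ℤ) := by
  unfold P
  apply Int.natAbs_of_nonneg
  have h1 : (0 : ℝ) < (cyclotomic n ℝ).eval (q : ℝ) :=
    cyclotomic_pos' n (by exact_mod_cast hq)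
  have h2 : (((cyclotomic n ℤ).eval (q : ℤ) : ℤ) : ℝ) = (cyclotomic n ℝ).eval (q : ℝ) := by
    rw [← map_cyclotomic_int n ℝ]
    have h := Polynomial.eval_intCast_map (Int.castRingHom ℝ) (cyclotomic n ℤ) (q : ℤ)
    rw [Int.cast_natCast] at h
    rw [h]; rfl
  have h3 : (0 : ℝ) < (((cyclotomic n ℤ).eval (q : ℤ) : ℤ) : ℝ) := by rw [h2]; exact h1
  exact_mod_cast h3.le

theorem P_real (q n : ℕ) (hq : 2 ≤ q) : (P q n : ℝ) = (cyclotomic n ℝ).eval (q : ℝ) := by
  have h2 : (((cyclotomic n ℤ).eval (q : ℤ) : ℤ) : ℝ) = (cyclotomic n ℝ).eval (q : ℝ) := by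
    rw [← map_cyclotomic_int n ℝ]
    have h := Polynomial.eval_intCast_map (Int.castRingHom ℝ) (cyclotomic n ℤ) (q : ℤ)
    rw [Int.cast_natCast] at h
    rw [h]; rfl
  rw [← h2, ← P_cast q n hq, Int.cast_natCast]

theorem P_pos (q n : ℕ) (hq : 2 ≤ q) : 0 < P q n := by
  have h1 : (0 : ℝ) < (cyclotomic n ℝ).eval (q : ℝ) :=
    cyclotomic_pos' n (by exact_mod_cast hq)
  rw [← P_real q n hq] at h1
  exact_mod_cast h1

theorem P_prod (q n : ℕ) (hq : 2 ≤ q) (hn : 0 < n) :
    ∏ d ∈ Nat.divisors n, P q d = q ^ n - 1 := by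
  have h := congrArg (fun f => f.eval (q : ℤ)) (prod_cyclotomic_eq_X_pow_sub_one hn ℤ)
  simp only [eval_prod, eval_sub, eval_pow, eval_X, eval_one] at h
  have h1 : ((∏ d ∈ Nat.divisors n, P q d : ℕ) : ℤ) = (q : ℤ) ^ n - 1 := by
    rw [← h]; push_cast
    exact Finset.prod_congr rfl (fun d _ => P_cast q d hq)
  have h2 : (1 : ℕ) ≤ q ^ n := Nat.one_le_pow _ _ (by omega)
  zify [h2]
  push_cast at h1
  exact h1

/-- product over proper divisors, from a list of values -/
def pd (L : List ℕ) (n : ℕ) : ℕ → ℕ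
  | 0 => 1
  | k + 1 => if k ≠ 0 ∧ n % k = 0 then pd L n k * L.getD k 0 else pd L n k

def tb (q : ℕ) : ℕ → List ℕ
  | 0 => [1]
  | n + 1 => tb q n ++ [(q ^ (n + 1) - 1) / pd (tb q n) (n + 1) (n + 1)]

theorem pd_eq (q : ℕ) (L : List ℕ) (n : ℕ) : ∀ k : ℕ, k ≤ n → (∀ j, j < k → L.getD j 0 = P q j) →
    pd L n k = ∏ d ∈ (Finset.range k).filter (fun d => d ≠ 0 ∧ d ∣ n), P q d := by
  intro k
  induction k with
  | zero => intro _ _; simp [pd]
  | succ k ih =>
    intro hk hL
    have ih' := ih (by omega) (fun j hj => hL j (by omega))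
    rw [Finset.range_add_one, Finset.filter_insert]
    unfold pd
    by_cases h : k ≠ 0 ∧ n % k = 0
    · rw [if_pos h, if_pos ⟨h.1, Nat.dvd_of_mod_eq_zero h.2⟩, Finset.prod_insert (by simp), ih',
        hL k (by omega), mul_comm]
    · rw [if_neg h, if_neg (fun h' => h ⟨h'.1, Nat.mod_eq_zero_of_dvd h'.2⟩), ih']

theorem tb_len (q n : ℕ) : (tb q n).length = n + 1 := by
  induction n with
  | zero => rfl
  | succ n ih => rw [tb, List.length_append, ih]; rfl

theorem tb_spec (q : ℕ) (hq : 2 ≤ q) (n : ℕ) : ∀ k, k ≤ n → (tb q n).getD k 0 = P q k := by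
  induction n with
  | zero =>
    intro k hk
    have : k = 0 := by omega
    subst this
    simp [tb, P]
  | succ n ih =>
    intro k hk
    have hlen := tb_len q n
    rcases Nat.lt_or_ge k (n + 1) with h | h
    · rw [tb, List.getD_append _ _ _ _ (by rw [hlen]; exact h)]
      exact ih k (by omega)
    · have hk' : k = n + 1 := by omega
      subst hk'
      rw [tb, List.getD_append_right _ _ _ _ (by rw [hlen]), hlen, Nat.sub_self]
      simp only [List.getD_cons_zero]
      rw [pd_eq q (tb q n) (n + 1) (n + 1) le_rfl (fun j hj => ih j (by omega))]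
      have h1 : (Finset.range (n + 1)).filter (fun d => d ≠ 0 ∧ d ∣ n + 1) =
          Nat.properDivisors (n + 1) := by
        ext d
        simp only [Finset.mem_filter, Finset.mem_range, Nat.mem_properDivisors]
        constructor
        · rintro ⟨h1, h2, h3⟩; exact ⟨h3, h1⟩
        · rintro ⟨h1, h2⟩
          refine ⟨h2, ?_, h1⟩
          rintro rfl
          rw [Nat.zero_dvd] at h1
          omega
      rw [h1]
      have h2 := P_prod q (n + 1) hq (by omega)
      rw [← Nat.cons_self_properDivisors (by omega), Finset.prod_cons] at h2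
      rw [← h2]
      apply Nat.mul_div_left
      exact Finset.prod_pos (fun d _ => P_pos q d hq)

/-- boolean check -/
def chk (L : List ℕ) (ex : List ℕ) : ℕ → Bool
  | 0 => true
  | n + 1 => (n < 3 || ex.contains n || n * (2 * n + 1) < L.getD n 0) && chk L ex n

theorem chk_spec (L ex : List ℕ) : ∀ N, chk L ex N = true → ∀ n, 3 ≤ n → n < N → n ∉ ex →
    n * (2 * n + 1) < L.getD n 0 := by
  intro N
  induction N with
  | zero => intro _ n _ h; omega
  | succ N ih =>
    intro h n hn hN hex
    rw [chk, Bool.and_eq_true, Bool.or_eq_true, Bool.or_eq_true] at h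
    rcases Nat.lt_or_ge n N with h' | h'
    · exact ih h.2 n hn h' hex
    · have : n = N := by omega
      subst this
      rcases h.1 with (h1 | h1) | h1
      · have := of_decide_eq_true h1; omega
      · exact absurd (List.contains_iff_mem.mp h1) hex
      · exact of_decide_eq_true h1

theorem c2 : chk (tb 2 192) [3, 4, 5, 6, 8, 9, 10, 12, 14, 15, 16, 18, 20, 22, 24, 30] 193 = true := by
  decide +kernel
theorem c3 : chk (tb 3 192) [3, 4, 6, 8, 10, 12] 193 = true := by decide +kernel
theorem c4 : chk (tb 4 192) [3, 4, 6, 10, 12] 193 = true := by decide +kernel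
theorem c5 : chk (tb 5 192) [4, 6] 193 = true := by decide +kernel

def chkT : ℕ → Bool
  | 0 => true
  | n + 1 => (n < 3 || n == 4 || n == 6 || n * (2 * n + 1) < 5 ^ (Nat.totient n)) && chkT n

theorem chkT_spec : ∀ N, chkT N = true → ∀ n, 3 ≤ n → n < N → n ≠ 4 → n ≠ 6 →
    n * (2 * n + 1) < 5 ^ (Nat.totient n) := by
  intro N
  induction N with
  | zero => intro _ n _ h; omega
  | succ N ih =>
    intro h n hn hN h4 h6
    rw [chkT, Bool.and_eq_true, Bool.or_eq_true, Bool.or_eq_true, Bool.or_eq_true] at h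
    rcases Nat.lt_or_ge n N with h' | h'
    · exact ih h.2 n hn h' h4 h6
    · have : n = N := by omega
      subst this
      rcases h.1 with ((h1 | h1) | h1) | h1
      · have := of_decide_eq_true h1; omega
      · exact absurd (by simpa using h1) h4
      · exact absurd (by simpa using h1) h6
      · exact of_decide_eq_true h1

theorem cT : chkT 193 = true := by decide +kernel

end CfsgLib.CycTabH12
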