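import Mathlib
import Cfsg.Agent.EqBase
import Cfsg.Agent.LibCycTabH12
import Cfsg.Agent.LibLEZsig

/-! small cyclotomic values: the list; structure of primes dividing the value -/

set_option autoImplicit false

namespace CfsgLib.CycListH12

open Polynomial CfsgLib.CycBdH12 CfsgLib.CycTabH12

theorem P_four (q : ℕ) (hq : 2 ≤ q) : P q 4 = q ^ 2 + 1 := by
  have h1 := cyclotomic_expand_eq_cyclotomic Nat.prime_two (dvd_refl 2) ℤ
  have h2 := congrArg (fun f => f.eval (q : ℤ)) h1
  simp only [expand_eval, cyclotomic_two, eval_add, eval_X, eval_one] at h2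
  have h3 := P_cast q 4 hq
  have h4 : (2 * 2 : ℕ) = 4 := rfl
  rw [h4] at h2
  rw [← h2] at h3
  exact_mod_cast h3

theorem P_six (q : ℕ) (hq : 2 ≤ q) : P q 6 + q = q ^ 2 + 1 := by
  have h1 := cyclotomic_expand_eq_cyclotomic_mul Nat.prime_three (show ¬ 3 ∣ 2 by norm_num) ℤ
  have h2 := congrArg (fun f => f.eval (q : ℤ)) h1
  simp only [expand_eval, cyclotomic_two, eval_add, eval_X, eval_one, eval_mul] at h2
  have h3 := P_cast q 6 hq
  have h4 : (2 * 3 : ℕ) = 6 := rfl
  rw [h4, ← h3] at h2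
  have h5 : ((q : ℤ) ^ 3 + 1) = ((q : ℤ) ^ 2 + 1 - q) * ((q : ℤ) + 1) := by ring
  rw [h5] at h2
  have h6 : (q : ℤ) + 1 ≠ 0 := by positivity
  have h7 := mul_right_cancel₀ h6 h2
  zify
  linarith

theorem lower_gen (q n : ℕ) (hq : 2 ≤ q) (hn : 2 ≤ n) : (q - 1) ^ (Nat.totient n) < P q n :=
  sub_one_pow_totient_lt_natAbs_cyclotomic_eval (by omega) (by omega)

theorem small_list (q n : ℕ) (hq : 2 ≤ q) (hn : 3 ≤ n) (h : P q n ≤ n * (2 * n + 1)) :
    (q = 2 ∧ n ∈ [3, 4, 5, 6, 8, 9, 10, 12, 14, 15, 16, 18, 20, 22, 24, 30]) ∨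
    (q = 3 ∧ n ∈ [3, 4, 6, 8, 10, 12]) ∨ (q = 4 ∧ n ∈ [3, 4, 6, 10, 12]) ∨
    (q = 5 ∧ n ∈ [4, 6]) ∨ (n = 6 ∧ 6 ≤ q ∧ q ≤ 9) := by
  rcases Nat.lt_or_ge n 193 with hs | hb
  · rcases (show q = 2 ∨ q = 3 ∨ q = 4 ∨ q = 5 ∨ 6 ≤ q by omega) with rfl | rfl | rfl | rfl | h6
    · left
      refine ⟨rfl, ?_⟩
      by_contra hne
      have := chk_spec _ _ 193 c2 n hn hs hne
      rw [tb_spec 2 le_rfl 192 n (by omega)] at this
      omega
    · right; left
      refine ⟨rfl, ?_⟩
      by_contra hne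
      have := chk_spec _ _ 193 c3 n hn hs hne
      rw [tb_spec 3 hq 192 n (by omega)] at this
      omega
    · right; right; left
      refine ⟨rfl, ?_⟩
      by_contra hne
      have := chk_spec _ _ 193 c4 n hn hs hne
      rw [tb_spec 4 hq 192 n (by omega)] at this
      omega
    · right; right; right; left
      refine ⟨rfl, ?_⟩
      by_contra hne
      have := chk_spec _ _ 193 c5 n hn hs hne
      rw [tb_spec 5 hq 192 n (by omega)] at this
      omega
    · right; right; right; right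
      by_cases h4 : n = 4
      · subst h4
        rw [P_four q hq] at h
        nlinarith
      · by_cases h6' : n = 6
        · subst h6'
          have h7 := P_six q hq
          refine ⟨rfl, h6, ?_⟩
          by_contra hlt
          push Not at hlt
          nlinarith
        · exfalso
          have h1 := chkT_spec 193 cT n hn hs h4 h6'
          have h2 := lower_gen q n hq (by omega)
          have h3 : 5 ^ (Nat.totient n) ≤ (q - 1) ^ (Nat.totient n) :=
            Nat.pow_le_pow_left (by omega) _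
          omega
  · exfalso
    have h1 := big_n n hb
    rcases Nat.lt_or_ge q 3 with h3 | h3
    · have hq2 : q = 2 := by omega
      subst hq2
      have h4 := two_lower n (by omega)
      have h5 := P_real 2 n le_rfl
      rw [show ((2 : ℕ) : ℝ) = 2 by norm_num] at h5
      rw [← h5, div_pow, div_le_iff₀ (by positivity)] at h4
      have h6 : 3 ^ (Nat.totient n) ≤ P 2 n * 2 ^ (Nat.totient n) := by exact_mod_cast h4
      have h7 : P 2 n * 2 ^ (Nat.totient n) ≤ n * (2 * n + 1) * 2 ^ (Nat.totient n) :=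
        Nat.mul_le_mul_right _ h
      omega
    · have h2 := lower_gen q n hq (by omega)
      have h4 : 2 ^ (Nat.totient n) ≤ (q - 1) ^ (Nat.totient n) :=
        Nat.pow_le_pow_left (by omega) _
      have h5 : 3 ^ (Nat.totient n) ≤ 2 ^ (Nat.totient n) * 2 ^ (Nat.totient n) := by
        rw [← mul_pow]; exact Nat.pow_le_pow_left (by norm_num) _
      have h6 : n * (2 * n + 1) * 2 ^ (Nat.totient n) < 2 ^ (Nat.totient n) * 2 ^ (Nat.totient n) := by
        omega
      have h7 := Nat.lt_of_mul_lt_mul_right h6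
      omega

/-! ### primes dividing the value -/

/-- primitive prime for `q ^ n - 1` -/
def Prim (q n p : ℕ) : Prop := ∀ k : ℕ, 0 < k → k < n → ¬ p ∣ q ^ k - 1

theorem P_dvd (q n : ℕ) (hq : 2 ≤ q) (hn : 0 < n) : P q n ∣ q ^ n - 1 := by
  rw [← P_prod q n hq hn]
  exact Finset.dvd_prod_of_mem _ (Nat.mem_divisors_self n hn.ne')

theorem cast_dvd (q n m : ℕ) (hq : 2 ≤ q) (h : m ∣ P q n) :
    (m : ℤ) ∣ (cyclotomic n ℤ).eval (q : ℤ) := by
  rw [← P_cast q n hq]; exact_mod_cast h

/-- the nonprimitive primes: all equal to some `r ∣ n`, and `r ^ 2` does not divide -/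
theorem nonprim (q n : ℕ) (hq : 2 ≤ q) (hn : 3 ≤ n) :
    (∀ p, p.Prime → p ∣ P q n → Prim q n p) ∨
    ∃ r, r.Prime ∧ r ∣ n ∧ r ∣ P q n ∧ ¬ r ^ 2 ∣ P q n ∧
      ∀ p, p.Prime → p ∣ P q n → p ≠ r → Prim q n p := by
  by_cases hall : ∀ p, p.Prime → p ∣ P q n → Prim q n p
  · exact Or.inl hall
  · right
    push Not at hall
    obtain ⟨r, hr, hrP, hrn⟩ := hall
    have hnp : ∀ p, ¬ Prim q n p → ∃ k : ℕ, 0 < k ∧ k < n ∧ p ∣ q ^ k - 1 := by
      intro p hp
      unfold Prim at hp
      push Not at hp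
      obtain ⟨k, h1, h2, h3⟩ := hp
      exact ⟨k, h1, h2, h3⟩
    obtain ⟨d, j, hnd, hdr, hd0⟩ := CfsgLib.LEZsig.structure_np (a := q) (n := n) (r := r)
      (by omega) (by omega) hr (cast_dvd q n r hq hrP) (hnp r hrn)
    refine ⟨r, hr, by rw [hnd]; exact Dvd.dvd.mul_left (dvd_pow_self r (by omega)) _, hrP, ?_, ?_⟩
    · intro h2
      apply CfsgLib.LEZsig.not_sq_dvd (a := q) (n := n) (r := r) (by omega) (by omega) hr
        (cast_dvd q n r hq hrP) (hnp r hrn)
      have := cast_dvd q n _ hq h2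
      push_cast at this
      exact this
    · intro p hp hpP hpr
      by_contra hpn
      obtain ⟨d', j', hnd', hdr', hd0'⟩ := CfsgLib.LEZsig.structure_np (a := q) (n := n) (r := p)
        (by omega) (by omega) hp (cast_dvd q n p hq hpP) (hnp p hpn)
      have h1 : p ∣ n := by rw [hnd']; exact Dvd.dvd.mul_left (dvd_pow_self p (by omega)) _
      have h2 : r ∣ n := by rw [hnd]; exact Dvd.dvd.mul_left (dvd_pow_self r (by omega)) _
      have h3 : p ∣ d := by
        rw [hnd] at h1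
        rcases (Nat.Prime.dvd_mul hp).1 h1 with h | h
        · exact h
        · exact absurd ((Nat.prime_dvd_prime_iff_eq hp hr).1 (hp.dvd_of_dvd_pow h)) hpr
      have h4 : r ∣ d' := by
        rw [hnd'] at h2
        rcases (Nat.Prime.dvd_mul hr).1 h2 with h | h
        · exact h
        · exact absurd ((Nat.prime_dvd_prime_iff_eq hr hp).1 (hr.dvd_of_dvd_pow h)).symm hpr
      have h5 := Nat.le_of_dvd (by have := hr.two_le; omega) (h3.trans hdr)
      have h6 := Nat.le_of_dvd (by have := hp.two_le; omega) (h4.trans hdr')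
      have := hr.two_le
      have := hp.two_le
      omega

/-- primitive primes are `1 mod n` -/
theorem prim_mod (q n p : ℕ) (hq : 2 ≤ q) (hn : 0 < n) (hp : p.Prime) (hd : p ∣ q ^ n - 1)
    (hprim : Prim q n p) : n ∣ p - 1 := by
  have : Fact p.Prime := ⟨hp⟩
  have hcast : ∀ k : ℕ, p ∣ q ^ k - 1 ↔ (q : ZMod p) ^ k = 1 := by
    intro k
    have h1 : 1 ≤ q ^ k := Nat.one_le_pow _ _ (by omega)
    rw [← ZMod.natCast_eq_zero_iff, Nat.cast_sub h1]
    push_cast
    exact sub_eq_zero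
  have h1 : (q : ZMod p) ^ n = 1 := (hcast n).mp hd
  have h0 : (q : ZMod p) ≠ 0 := by
    intro h
    rw [h, zero_pow hn.ne'] at h1
    exact zero_ne_one h1
  have h2 : orderOf (q : ZMod p) = n := by
    have h3 : orderOf (q : ZMod p) ∣ n := orderOf_dvd_of_pow_eq_one h1
    have h4 := Nat.le_of_dvd hn h3
    have h5 : 0 < orderOf (q : ZMod p) := Nat.pos_of_dvd_of_pos h3 hn
    by_contra hne
    exact hprim _ h5 (by omega) ((hcast _).mpr (pow_orderOf_eq_one _))
  rw [← h2]
  exact orderOf_dvd_of_pow_eq_one (ZMod.pow_card_sub_one_eq_one h0)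

end CfsgLib.CycListH12
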