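import Mathlib
import Cfsg.Agent.LibExtraH28
import Cfsg.Agent.LibZStar3
import Cfsg.Agent.LibThompTr
import Cfsg.Agent.LibSmall27

set_option autoImplicit false

/-! Simple groups with `C(z) = R` Sylow and `Φ(R) = ⟨z⟩` (helper28). -/

namespace CfsgLib.CzD828

open Subgroup

variable {L : Type*} [Group L]

structure Cz (z : L) : Prop where
  zz : z * z = 1
  z1 : z ≠ 1
  sq : ∀ a, a * z = z * a → a * a = 1 ∨ a * a = z
  cm : ∀ a b, a * z = z * a → b * z = z * b → a * b = b * a ∨ a * b = z * (b * a)
  rt : ∃ r, r * r = z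

namespace Cz

variable {z x : L}

theorem conj (h : Cz z) (g : L) : Cz (g * z * g⁻¹) where
  zz := by
    have : g * z * g⁻¹ * (g * z * g⁻¹) = g * (z * z) * g⁻¹ := by group
    rw [this, h.zz]; group
  z1 := by
    intro hc
    apply h.z1
    calc z = g⁻¹ * (g * z * g⁻¹) * g := by group
      _ = 1 := by rw [hc]; group
  sq := by
    intro a ha
    have h1 : (g⁻¹ * a * g) * z = z * (g⁻¹ * a * g) := by
      calc (g⁻¹ * a * g) * z = g⁻¹ * (a * (g * z * g⁻¹)) * g := by group
        _ = g⁻¹ * ((g * z * g⁻¹) * a) * g := by rw [ha]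
        _ = _ := by group
    have e : (g⁻¹ * a * g) * (g⁻¹ * a * g) = g⁻¹ * (a * a) * g := by group
    rcases h.sq _ h1 with h2 | h2
    · left
      rw [e] at h2
      calc a * a = g * (g⁻¹ * (a * a) * g) * g⁻¹ := by group
        _ = 1 := by rw [h2]; group
    · right
      rw [e] at h2
      calc a * a = g * (g⁻¹ * (a * a) * g) * g⁻¹ := by group
        _ = _ := by rw [h2]
  cm := by
    intro a b ha hb
    have hc : ∀ a, a * (g * z * g⁻¹) = (g * z * g⁻¹) * a →
        (g⁻¹ * a * g) * z = z * (g⁻¹ * a * g) := by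
      intro a ha
      calc (g⁻¹ * a * g) * z = g⁻¹ * (a * (g * z * g⁻¹)) * g := by group
        _ = g⁻¹ * ((g * z * g⁻¹) * a) * g := by rw [ha]
        _ = _ := by group
    have e : ∀ a b : L, (g⁻¹ * a * g) * (g⁻¹ * b * g) = g⁻¹ * (a * b) * g := by
      intro a b; group
    rcases h.cm _ _ (hc a ha) (hc b hb) with h2 | h2
    · left
      rw [e, e] at h2
      exact mul_left_cancel (mul_right_cancel h2)
    · right
      rw [e, e] at h2
      calc a * b = g * (g⁻¹ * (a * b) * g) * g⁻¹ := by group
        _ = g * (z * (g⁻¹ * (b * a) * g)) * g⁻¹ := by rw [h2]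
        _ = _ := by group
  rt := by
    obtain ⟨r, hr⟩ := h.rt
    exact ⟨g * r * g⁻¹, by rw [← hr]; group⟩

theorem rc (_h : Cz z) {r : L} (hr : r * r = z) : r * z = z * r := by rw [← hr]; group

theorem eq_of_rt (h : Cz z) (hx : Cz x) {r : L} (hr : r * r = z) (hxr : x * r = r * x) :
    x = z := by
  rcases hx.sq r hxr.symm with h1 | h1
  · exact absurd (hr.symm.trans h1) h.z1
  · rw [← hr, h1]

theorem exp_two (h : Cz z) (hx : Cz x) (hne : x ≠ z) {a : L} (ha : a * z = z * a)
    (hax : a * x = x * a) : a * a = 1 := by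
  rcases h.sq a ha with h1 | h1
  · exact h1
  · rcases hx.sq a hax with h2 | h2
    · exact h2
    · exact absurd (h2.symm.trans h1) hne

theorem comm_T (h : Cz z) (hx : Cz x) (hne : x ≠ z) {a b : L} (ha : a * z = z * a)
    (hax : a * x = x * a) (hb : b * z = z * b) (hbx : b * x = x * b) : a * b = b * a := by
  have h1 := h.exp_two hx hne ha hax
  have h2 := h.exp_two hx hne hb hbx
  have h3 : (a * b) * (a * b) = 1 := by
    apply h.exp_two hx hne
    · rw [mul_assoc, hb, ← mul_assoc, ha, mul_assoc]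
    · rw [mul_assoc, hbx, ← mul_assoc, hax, mul_assoc]
  have i1 : a⁻¹ = a := inv_eq_of_mul_eq_one_left h1
  have i2 : b⁻¹ = b := inv_eq_of_mul_eq_one_left h2
  have i3 : (a * b)⁻¹ = a * b := inv_eq_of_mul_eq_one_left h3
  rw [← i3, mul_inv_rev, i1, i2]

/-- `x ≠ z` commuting, `r² = z`: `x r = z r x`. -/
theorem anti (h : Cz z) (hx : Cz x) (hne : x ≠ z) (hxz : x * z = z * x) {r : L}
    (hr : r * r = z) : r * x = z * (x * r) := by
  rcases h.cm r x (h.rc hr) hxz with h1 | h1
  · exact absurd (h.eq_of_rt hx hr h1.symm) hne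
  · exact h1

theorem split (h : Cz z) (hx : Cz x) (hne : x ≠ z) (hxz : x * z = z * x) {r : L}
    (hr : r * r = z) {a : L} (ha : a * z = z * a) : a * x = x * a ∨ (a * r) * x = x * (a * r) := by
  rcases h.cm a x ha hxz with h1 | h1
  · exact Or.inl h1
  · right
    have h2 := h.anti hx hne hxz hr
    calc (a * r) * x = a * (r * x) := by group
      _ = (a * z) * (x * r) := by rw [h2]; group
      _ = z * (a * x) * r := by rw [ha]; group
      _ = (z * z) * (x * (a * r)) := by rw [h1]; group
      _ = _ := by rw [h.zz, one_mul]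

theorem central_or (h : Cz z) (hx : Cz x) (hne : x ≠ z) (hxz : x * z = z * x) {r : L}
    (hr : r * r = z) {a : L} (ha : a * z = z * a) (hax : a * x = x * a) :
    (∀ b, b * z = z * b → a * b = b * a) ∨ (∀ b, b * z = z * b → (a * x) * b = b * (a * x)) := by
  have key : ∀ a, a * z = z * a → a * x = x * a → a * r = r * a →
      ∀ b, b * z = z * b → a * b = b * a := by
    intro a ha hax har b hb
    rcases h.split hx hne hxz hr hb with h1 | h1
    · exact h.comm_T hx hne ha hax hb h1
    · have h2 := h.comm_T hx hne ha hax (b := b * r) (by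
        rw [mul_assoc, h.rc hr, ← mul_assoc, hb, mul_assoc]) h1
      have h3 : a * b * r = b * a * r := by
        calc a * b * r = a * (b * r) := by group
          _ = (b * r) * a := h2
          _ = b * (r * a) := by group
          _ = _ := by rw [← har]; group
      exact mul_right_cancel h3
  rcases h.cm r a (h.rc hr) ha with h1 | h1
  · exact Or.inl (key a ha hax h1.symm)
  · right
    apply key (a * x)
    · rw [mul_assoc, hxz, ← mul_assoc, ha, mul_assoc]
    · rw [mul_assoc, ← mul_assoc x, ← hax]; group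
    · have h2 := h.anti hx hne hxz hr
      symm
      calc r * (a * x) = (r * a) * x := by group
        _ = z * a * (r * x) := by rw [h1]; group
        _ = z * (a * z) * (x * r) := by rw [h2]; group
        _ = (z * z) * (a * x * r) := by rw [ha]; group
        _ = _ := by rw [h.zz, one_mul]

theorem comm_conj (h : Cz z) (hx : Cz x) (hne : x ≠ z) (hxz : x * z = z * x) {r : L}
    (hr : r * r = z) : r * x * r⁻¹ = z * x := by
  rw [h.anti hx hne hxz hr]; group

/-- the conjugates of `z` in `C(z) ∩ C(x)` are `z, x, zx`. -/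
theorem three (h : Cz z) (hx : Cz x) (hne : x ≠ z) (hxz : x * z = z * x) {y : L} (hy : Cz y)
    (hyz : y * z = z * y) (hyx : y * x = x * y) : y = z ∨ y = x ∨ y = z * x := by
  by_contra hcon
  push Not at hcon
  obtain ⟨h1, h2, h3⟩ := hcon
  obtain ⟨r, hr⟩ := h.rt
  have hzx : Cz (z * x) := by rw [← h.comm_conj hx hne hxz hr]; exact hx.conj r
  obtain ⟨s, hs⟩ := hy.rt
  have e1 := hy.anti hx (fun e => h2 e.symm) hyx.symm hs
  have e2 := hy.anti hzx (fun e => h3 e.symm) (by
    rw [mul_assoc, ← hyx, ← mul_assoc, ← hyz, mul_assoc]) hs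
  -- s commutes with z = (zx) x
  apply h1
  symm
  apply hy.eq_of_rt h hs
  have hxx : x * x = 1 := hx.zz
  have hyy := hy.zz
  have hys := hy.rc hs
  -- s * (zx) = y * (zx * s)
  have e3 : s * (z * x * x) = (z * x * x) * s := by
    calc s * (z * x * x) = (s * (z * x)) * x := by group
      _ = y * (z * x) * (s * x) := by rw [e2]; group
      _ = y * (z * (x * y)) * (x * s) := by rw [e1]; group
      _ = y * ((z * y) * x) * (x * s) := by rw [← hyx]; group
      _ = y * (y * z * x) * (x * s) := by rw [← hyz]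
      _ = (y * y) * (z * x * x * s) := by group
      _ = _ := by rw [hyy]; group
  have e4 : z * x * x = z := by rw [mul_assoc, hxx, mul_one]
  rw [e4] at e3
  exact e3.symm

/-- classification of the conjugates of `z` in `C(z)`. -/
theorem five (h : Cz z) (hx : Cz x) (hne : x ≠ z) (hxz : x * z = z * x) {x2 : L} (hx2 : Cz x2)
    (hx2z : x2 * z = z * x2) (hx2x : x2 * x ≠ x * x2) {y : L} (hy : Cz y)
    (hyz : y * z = z * y) : y = z ∨ y = x ∨ y = z * x ∨ y = x2 ∨ y = z * x2 := by
  have hne2 : x2 ≠ z := by rintro rfl; exact hx2x hxz.symm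
  by_cases h1 : y * x = x * y
  · rcases h.three hx hne hxz hy hyz h1 with h2 | h2 | h2 <;> tauto
  by_cases h2 : y * x2 = x2 * y
  · rcases h.three hx2 hne2 hx2z hy hyz h2 with h2 | h2 | h2 <;> tauto
  exfalso
  have e1 : y * x = z * (x * y) := (h.cm y x hyz hxz).resolve_left h1
  have e2 : x2 * x = z * (x * x2) := (h.cm x2 x hx2z hxz).resolve_left hx2x
  have e3 : y * x2 = z * (x2 * y) := (h.cm y x2 hyz hx2z).resolve_left h2
  have e4 : (y * x2) * (y * x2) = 1 := by
    apply h.exp_two hx hne
    · rw [mul_assoc, hx2z, ← mul_assoc, hyz, mul_assoc]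
    · calc (y * x2) * x = y * (x2 * x) := by group
        _ = (y * z) * (x * x2) := by rw [e2]; group
        _ = z * (y * x) * x2 := by rw [hyz]; group
        _ = (z * z) * (x * (y * x2)) := by rw [e1]; group
        _ = _ := by rw [h.zz, one_mul]
  have e5 : (y * x2) * (y * x2) = z := by
    calc (y * x2) * (y * x2) = z * (x2 * y) * (y * x2) := by rw [← e3]
      _ = z * x2 * (y * y) * x2 := by group
      _ = z * (x2 * x2) := by rw [hy.zz]; group
      _ = z := by rw [hx2.zz, mul_one]
  exact h.z1 (e5.symm.trans e4)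

end Cz

end CfsgLib.CzD828
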