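import Mathlib
import Cfsg.Agent.LibCzD828
import Cfsg.Agent.LibLargeExtraH28

set_option autoImplicit false

/-! Simple groups with `C(z) = R` Sylow and `Φ(R) = ⟨z⟩`, II (helper28). -/

namespace CfsgLib.CzD828

open Subgroup
open CfsgLib.LargeExtraH28 (closure_pair_le mem_closure_pair_iff)

variable {L : Type*} [Group L] {z x : L}

theorem syl [Finite L] {P : Sylow 2 L} {H T : Subgroup L} (hP : (P : Subgroup L) ≤ H) (hT : T ≤ H)
    (hT2 : IsPGroup 2 T) : ∃ k ∈ H, ∀ t ∈ T, k⁻¹ * t * k ∈ (P : Subgroup L) := by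
  have h1 : IsPGroup 2 (T.subgroupOf H) := hT2.of_equiv (subgroupOfEquivOfLe hT).symm
  obtain ⟨g, hg⟩ := BSz.exists_conj_le (P.subtype hP) h1
  refine ⟨(g : L)⁻¹, inv_mem g.2, ?_⟩
  intro t ht
  have h2 := hg ⟨t, hT ht⟩ ht
  rw [inv_inv]
  exact h2

theorem card_rel {T K : Subgroup L} (hTK : T ≤ K) : T.relIndex K * Nat.card T = Nat.card K := by
  have h1 := (T.subgroupOf K).card_mul_index
  rw [Nat.card_congr (subgroupOfEquivOfLe hTK).toEquiv] at h1
  rw [mul_comm]; exact h1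

structure Set (z : L) (R : Sylow 2 L) : Prop extends Cz z where
  hR : ∀ a, a ∈ (R : Subgroup L) ↔ a * z = z * a

variable {R : Sylow 2 L}

namespace Set

theorem self_norm (h : Set z R) {u : L} (hu : ∀ a ∈ (R : Subgroup L), u * a * u⁻¹ ∈ (R : Subgroup L)) :
    u * z = z * u := by
  obtain ⟨r, hr⟩ := h.rt
  have h1 := (h.hR _).mp (hu r ((h.hR r).mpr (h.rc hr)))
  have h2 : u * r * u⁻¹ * (u * r * u⁻¹) = u * z * u⁻¹ := by rw [← hr]; group
  rcases h.sq _ h1 with h3 | h3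
  · exfalso
    rw [h2] at h3
    apply h.z1
    calc z = u⁻¹ * (u * z * u⁻¹) * u := by group
      _ = 1 := by rw [h3]; group
  · rw [h2] at h3
    nth_rw 2 [← h3]; group

theorem fus_aux [Finite L] (h : Set z R) {c i v : L} (hcc : c * c = 1)
    (hcR : ∀ a, a * z = z * a → c * a = a * c) (hiz : i * z = z * i)
    (hv : v * c * v⁻¹ = i) (hic : ¬ ∀ a, a * z = z * a → i * a = a * i)
    (hvT : ∀ t, t * z = z * t → t * i = i * t → v⁻¹ * t * v ∈ (R : Subgroup L)) :
    i = c ∨ ∃ g : L, c * i = g * z * g⁻¹ := by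
  haveI : Fact (Nat.Prime 2) := ⟨Nat.prime_two⟩
  have hcz : c * z = z * c := hcR z rfl
  set T : Subgroup L := (R : Subgroup L) ⊓ centralizer ({i} : _root_.Set L) with hT
  have hTm : ∀ t, t ∈ T ↔ t * z = z * t ∧ t * i = i * t := by
    intro t
    rw [hT, mem_inf, h.hR, mem_centralizer_singleton_iff]
  have hTR : T ≤ (R : Subgroup L) := inf_le_left
  push Not at hic
  obtain ⟨y, hyz, hyi⟩ := hic
  have hidx : T.relIndex (R : Subgroup L) = 2 := by
    rw [relIndex_eq_two_iff_exists_notMem_and]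
    refine ⟨y, (h.hR y).mpr hyz, fun hc => hyi ((hTm y).mp hc).2.symm, ?_⟩
    intro b hb
    rw [h.hR] at hb
    rcases h.cm b i hb hiz with h1 | h1
    · right; exact (hTm b).mpr ⟨hb, h1⟩
    · left
      refine (hTm _).mpr ⟨by rw [mul_assoc, hyz, ← mul_assoc, hb, mul_assoc], ?_⟩
      have h2 : y * i = z * (i * y) := (h.cm y i hyz hiz).resolve_left (fun e => hyi e.symm)
      calc b * y * i = b * (y * i) := by group
        _ = (b * z) * (i * y) := by rw [h2]; group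
        _ = z * (b * i) * y := by rw [hb]; group
        _ = (z * z) * (i * (b * y)) := by rw [h1]; group
        _ = _ := by rw [h.zz, one_mul]
  set S : Subgroup L := (R : Subgroup L).map (MulAut.conj v).toMonoidHom with hS
  have hTS : T ≤ S := by
    intro t ht
    have h1 := hvT t ((hTm t).mp ht).1 ((hTm t).mp ht).2
    refine ⟨_, h1, ?_⟩
    show v * (v⁻¹ * t * v) * v⁻¹ = t
    group
  have hcardS : Nat.card S = Nat.card (R : Subgroup L) :=
    (Nat.card_congr ((R : Subgroup L).equivMapOfInjective _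
      (MulAut.conj v).injective).toEquiv).symm
  have hidxS : T.relIndex S = 2 := by
    have e1 := card_rel hTR
    have e2 := card_rel hTS
    rw [hcardS, ← e1, hidx] at e2
    exact Nat.eq_of_mul_eq_mul_right Nat.card_pos e2
  have hSN : S ≤ normalizer (T : _root_.Set L) := by
    rw [← normal_subgroupOf_iff_le_normalizer hTS]
    exact normal_of_index_eq_two hidxS
  have hRN : (R : Subgroup L) ≤ normalizer (T : _root_.Set L) := by
    rw [← normal_subgroupOf_iff_le_normalizer hTR]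
    exact normal_of_index_eq_two hidx
  have hS2 : IsPGroup 2 S := R.2.map _
  obtain ⟨m, hm, hmS⟩ := syl hRN hSN hS2
  have hu : (m⁻¹ * v) * z = z * (m⁻¹ * v) := by
    apply h.self_norm
    intro a ha
    have h1 := hmS (v * a * v⁻¹) ⟨a, ha, rfl⟩
    have e : m⁻¹ * v * a * (m⁻¹ * v)⁻¹ = m⁻¹ * (v * a * v⁻¹) * m := by group
    rw [e]; exact h1
  have hmc : m * c * m⁻¹ = i := by
    have h1 := hcR _ hu
    calc m * c * m⁻¹ = v * ((m⁻¹ * v)⁻¹ * (c * (m⁻¹ * v))) * v⁻¹ := by group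
      _ = v * ((m⁻¹ * v)⁻¹ * ((m⁻¹ * v) * c)) * v⁻¹ := by rw [h1]
      _ = v * c * v⁻¹ := by group
      _ = i := hv
  -- now the three-cycle
  obtain ⟨x, hx⟩ : ∃ x, x = m * z * m⁻¹ := ⟨_, rfl⟩
  have hCx : Cz x := by rw [hx]; exact h.toCz.conj m
  have hzT : z ∈ T := (hTm z).mpr ⟨rfl, hiz.symm⟩
  have hxT : x ∈ T := by rw [hx]; exact (mem_normalizer_iff.mp hm z).mp hzT
  obtain ⟨hxz, hxi⟩ := (hTm x).mp hxT
  by_cases hne : x = z
  · left
    rw [hne] at hx
    have h1 : m * z = z * m := by nth_rw 2 [hx]; group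
    rw [← hmc, ← hcR m h1]; group
  right
  obtain ⟨r, hr⟩ := h.rt
  obtain ⟨s, hs⟩ := hCx.rt
  have e1 := h.toCz.comm_conj hCx hne hxz hr
  have e2 := hCx.comm_conj h.toCz (Ne.symm hne) hxz.symm hs
  have e3 : r⁻¹ * (z * x) * r = x := by rw [← e1]; group
  have hw : (r⁻¹ * s) * z * (r⁻¹ * s)⁻¹ = x := by
    calc (r⁻¹ * s) * z * (r⁻¹ * s)⁻¹ = r⁻¹ * (s * z * s⁻¹) * r := by group
      _ = x := by rw [e2, hxz, e3]
  have hb : ((r⁻¹ * s)⁻¹ * m) * z = z * ((r⁻¹ * s)⁻¹ * m) := by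
    have h1 : m * z = x * m := by rw [hx]; group
    calc ((r⁻¹ * s)⁻¹ * m) * z = (r⁻¹ * s)⁻¹ * (m * z) := by group
      _ = (r⁻¹ * s)⁻¹ * (((r⁻¹ * s) * z * (r⁻¹ * s)⁻¹) * m) := by rw [h1, hw]
      _ = _ := by group
  have hi : i = r⁻¹ * (s * c * s⁻¹) * r := by
    have h1 := hcR _ hb
    calc i = m * c * m⁻¹ := hmc.symm
      _ = (r⁻¹ * s) * (((r⁻¹ * s)⁻¹ * m) * c) * m⁻¹ := by group
      _ = (r⁻¹ * s) * (c * ((r⁻¹ * s)⁻¹ * m)) * m⁻¹ := by rw [← h1]
      _ = _ := by group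
  have hcx : c * x = x * c := hcR x hxz
  have hcr : c * r = r * c := hcR r (h.toCz.rc hr)
  rcases hCx.cm s c (hCx.rc hs) hcx with h1 | h1
  · -- then i = c, impossible
    exfalso
    apply hyi
    have h2 : i = c := by
      rw [hi]
      calc r⁻¹ * (s * c * s⁻¹) * r = r⁻¹ * ((c * s) * s⁻¹) * r := by rw [h1]
        _ = r⁻¹ * (c * r) := by group
        _ = c := by rw [hcr]; group
    rw [h2]; exact hcR y hyz
  · refine ⟨r * m, ?_⟩
    have e4 : r * m * z * (r * m)⁻¹ = z * x := by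
      rw [← e1, hx]; group
    rw [e4]
    have h2 : i = z * x * c := by
      rw [hi]
      have h3 : r⁻¹ * x * r = z * x := by
        have h4 : z * (r⁻¹ * x * r) = x := by
          calc z * (r⁻¹ * x * r) = r⁻¹ * (r * z) * r⁻¹ * x * r := by group
            _ = r⁻¹ * (z * r) * r⁻¹ * x * r := by rw [h.toCz.rc hr]
            _ = r⁻¹ * (z * x) * r := by group
            _ = x := e3
        calc r⁻¹ * x * r = (z * z) * (r⁻¹ * x * r) := by rw [h.zz, one_mul]
          _ = z * (z * (r⁻¹ * x * r)) := by group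
          _ = z * x := by rw [h4]
      calc r⁻¹ * (s * c * s⁻¹) * r = r⁻¹ * (x * (c * s) * s⁻¹) * r := by rw [h1]
        _ = r⁻¹ * x * (c * r) := by group
        _ = (r⁻¹ * x * r) * c := by rw [hcr]; group
        _ = _ := by rw [h3]
    rw [h2]
    calc c * (z * x * c) = (c * z) * x * c := by group
      _ = z * (c * x) * c := by rw [hcz]; group
      _ = z * x * (c * c) := by rw [hcx]; group
      _ = z * x := by rw [hcc, mul_one]

theorem fus [Finite L] (h : Set z R) {c i g : L} (hcc : c * c = 1)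
    (hcR : ∀ a, a * z = z * a → c * a = a * c) (hiz : i * z = z * i)
    (hg : g * c * g⁻¹ = i) :
    i = c ∨ ∃ g : L, c * i = g * z * g⁻¹ := by
  -- Sylow in `C(c)`
  have key : ∀ T : Subgroup L, T ≤ (R : Subgroup L) → (∀ t ∈ T, t * i = i * t) →
      ∃ v, v * c * v⁻¹ = i ∧ ∀ t ∈ T, v⁻¹ * t * v ∈ (R : Subgroup L) := by
    intro T hTR hTi
    have hRc : (R : Subgroup L) ≤ centralizer ({c} : _root_.Set L) := by
      intro a ha
      rw [mem_centralizer_singleton_iff]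
      exact (hcR a ((h.hR a).mp ha)).symm
    have hT' : T.map (MulAut.conj g⁻¹).toMonoidHom ≤ centralizer ({c} : _root_.Set L) := by
      rintro _ ⟨t, ht, rfl⟩
      rw [mem_centralizer_singleton_iff]
      show g⁻¹ * t * g⁻¹⁻¹ * c = c * (g⁻¹ * t * g⁻¹⁻¹)
      have h1 := hTi t ht
      rw [← hg] at h1
      calc g⁻¹ * t * g⁻¹⁻¹ * c = g⁻¹ * (t * (g * c * g⁻¹)) * g := by group
        _ = g⁻¹ * ((g * c * g⁻¹) * t) * g := by rw [h1]
        _ = _ := by group
    have hT2 : IsPGroup 2 (T.map (MulAut.conj g⁻¹).toMonoidHom) := (R.2.to_le hTR).map _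
    obtain ⟨k, hk, hkT⟩ := syl hRc hT' hT2
    rw [mem_centralizer_singleton_iff] at hk
    refine ⟨g * k, ?_, ?_⟩
    · calc g * k * c * (g * k)⁻¹ = g * (k * c) * k⁻¹ * g⁻¹ := by group
        _ = g * c * g⁻¹ := by rw [hk]; group
        _ = i := hg
    · intro t ht
      have := hkT (g⁻¹ * t * g⁻¹⁻¹) ⟨t, ht, rfl⟩
      have e : (g * k)⁻¹ * t * (g * k) = k⁻¹ * (g⁻¹ * t * g⁻¹⁻¹) * k := by group
      rw [e]; exact this
  by_cases hic : ∀ a, a * z = z * a → i * a = a * i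
  · left
    obtain ⟨v, hv, hvT⟩ := key (R : Subgroup L) le_rfl (fun t ht => (hic t ((h.hR t).mp ht)).symm)
    have h1 : v⁻¹ * z = z * v⁻¹ := by
      apply h.self_norm
      intro a ha
      rw [inv_inv]
      exact hvT a ha
    have h2 := hcR _ h1
    rw [← hv]
    calc v * c * v⁻¹ = v * (c * v⁻¹) := by group
      _ = v * (v⁻¹ * c) := by rw [h2]
      _ = c := by group
  · obtain ⟨v, hv, hvT⟩ := key ((R : Subgroup L) ⊓ centralizer ({i} : _root_.Set L)) inf_le_left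
      (fun t ht => mem_centralizer_singleton_iff.mp ht.2)
    refine h.fus_aux hcc hcR hiz hv hic ?_
    intro t ht hti
    exact hvT t (mem_inf.mpr ⟨(h.hR t).mpr ht, mem_centralizer_singleton_iff.mpr hti⟩)

end Set

end CfsgLib.CzD828
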