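import Mathlib
import Cfsg.Agent.LibCzD828B

set_option autoImplicit false

/-! Simple groups with `C(z) = R` Sylow and `Φ(R) = ⟨z⟩`, III (helper28). -/

namespace CfsgLib.CzD828

open Subgroup
open CfsgLib.LargeExtraH28 (closure_pair_le mem_closure_pair_iff)

variable {L : Type*} [Group L] {z x : L} {R : Sylow 2 L}

namespace Set

theorem exists_F (h : Set z R) (hx : Cz x) (hne : x ≠ z) (hxz : x * z = z * x) {c : L}
    (hcR : ∀ a, a * z = z * a → c * a = a * c) (hc1 : c ≠ 1) (hcz : c ≠ z) :
    ∃ F : Subgroup L, F ≤ (R : Subgroup L) ∧ z ∈ F ∧ c ∉ F ∧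
      ∀ y, Cz y → y * z = z * y → y ∈ F := by
  obtain ⟨r, hr⟩ := h.rt
  have e1 := h.toCz.anti hx hne hxz hr
  have hcr := hcR r (h.toCz.rc hr)
  have hzR : z ∈ (R : Subgroup L) := (h.hR z).mpr rfl
  have hxR : x ∈ (R : Subgroup L) := (h.hR x).mpr hxz
  have hcK : c ∉ closure ({z, x} : _root_.Set L) := by
    intro hc
    rw [mem_closure_pair_iff h.zz hxz (Or.inl hx.zz)] at hc
    rcases hc with hc | hc | hc | hc
    · exact hc1 hc
    · exact hcz hc
    · rw [hc] at hcr
      rw [← hcr] at e1
      exact h.z1 (mul_eq_right.mp e1.symm)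
    · rw [hc] at hcr
      have e2 : r * (z * x) = z * (z * x * r) := by
        calc r * (z * x) = (r * z) * x := by group
          _ = z * (r * x) := by rw [h.toCz.rc hr]; group
          _ = _ := by rw [e1]; group
      rw [← hcr] at e2
      exact h.z1 (mul_eq_right.mp e2.symm)
  have hKR : closure ({z, x} : _root_.Set L) ≤ (R : Subgroup L) := by
    rw [closure_le]
    rintro y (rfl | rfl)
    · exact hzR
    · exact hxR
  have hzK : z ∈ closure ({z, x} : _root_.Set L) := subset_closure (by simp)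
  have hxK : x ∈ closure ({z, x} : _root_.Set L) := subset_closure (by simp)
  by_cases hA : ∀ y, Cz y → y * z = z * y → y * x = x * y
  · refine ⟨closure ({z, x} : _root_.Set L), hKR, hzK, hcK, ?_⟩
    intro y hy hyz
    rcases h.toCz.three hx hne hxz hy hyz (hA y hy hyz) with h1 | h1 | h1
    · rw [h1]; exact hzK
    · rw [h1]; exact hxK
    · rw [h1]; exact mul_mem hzK hxK
  · push Not at hA
    obtain ⟨x2, hx2, hx2z, hx2x⟩ := hA
    set K := closure ({z, x} : _root_.Set L) with hK
    have hKm : ∀ a, a ∈ K ↔ a = 1 ∨ a = z ∨ a = x ∨ a = z * x := fun a =>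
      mem_closure_pair_iff h.zz hxz (Or.inl hx.zz)
    have i2 : x2⁻¹ = x2 := inv_eq_of_mul_eq_one_left hx2.zz
    have e2 : x2 * x = z * (x * x2) := (h.toCz.cm x2 x hx2z hxz).resolve_left hx2x
    have e3 : x2 * x * x2 = z * x := by rw [e2]; simp only [mul_assoc, hx2.zz, mul_one]
    have key : ∀ a ∈ K, x2 * a * x2 ∈ K := by
      intro a ha
      rcases (hKm a).mp ha with h1 | h1 | h1 | h1
      · rw [h1, mul_one, hx2.zz]; exact one_mem _
      · rw [h1, hx2z, mul_assoc, hx2.zz, mul_one]; exact hzK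
      · rw [h1, e3]; exact mul_mem hzK hxK
      · rw [h1, ← mul_assoc, hx2z, mul_assoc z, mul_assoc z, e3, ← mul_assoc, h.zz, one_mul]
        exact hxK
    have hN : zpowers x2 ≤ normalizer (K : _root_.Set L) := by
      rw [zpowers_le, mem_normalizer_iff]
      intro a
      rw [i2]
      refine ⟨fun ha => key a ha, fun ha => ?_⟩
      have := key _ ha
      have e : x2 * (x2 * a * x2) * x2 = a := by
        calc x2 * (x2 * a * x2) * x2 = (x2 * x2) * a * (x2 * x2) := by group
          _ = a := by rw [hx2.zz]; group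
      rwa [e] at this
    refine ⟨K ⊔ zpowers x2, sup_le hKR ?_, mem_sup_left hzK, ?_, ?_⟩
    · rw [zpowers_le]; exact (h.hR x2).mpr hx2z
    · intro hc
      rw [← SetLike.mem_coe, Subgroup.coe_mul_of_right_le_normalizer_left _ _ hN] at hc
      obtain ⟨k, hk, b, hb, hkb⟩ := hc
      obtain ⟨n, rfl⟩ := hb
      have hord : orderOf x2 = 2 := by
        rw [orderOf_eq_prime_iff]
        exact ⟨by rw [pow_two]; exact hx2.zz, hx2.z1⟩
      change k * x2 ^ n = c at hkb
      rw [← zpow_mod_orderOf, hord] at hkb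
      change k * x2 ^ (n % (2 : ℤ)) = c at hkb
      rcases Int.emod_two_eq_zero_or_one n with hn | hn
      · rw [hn, zpow_zero, mul_one] at hkb
        exact hcK (hkb ▸ hk)
      · rw [hn, zpow_one] at hkb
        have h1 := hcR x hxz
        rw [← hkb] at h1
        have hkx : k * x = x * k := by
          rcases (hKm k).mp hk with h2 | h2 | h2 | h2
          · rw [h2]; simp
          · rw [h2]; exact hxz.symm
          · rw [h2]
          · rw [h2, mul_assoc, ← mul_assoc x, hxz, mul_assoc]
        apply hx2x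
        have h3 : k * (x2 * x) = k * (x * x2) := by
          calc k * (x2 * x) = k * x2 * x := by group
            _ = x * (k * x2) := h1
            _ = (x * k) * x2 := by group
            _ = _ := by rw [← hkx]; group
        exact mul_left_cancel h3
    · intro y hy hyz
      have hx2F : x2 ∈ K ⊔ zpowers x2 := mem_sup_right (Subgroup.mem_zpowers x2)
      rcases h.toCz.five hx hne hxz hx2 hx2z hx2x hy hyz with h1 | h1 | h1 | h1 | h1
      · rw [h1]; exact mem_sup_left hzK
      · rw [h1]; exact mem_sup_left hxK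
      · rw [h1]; exact mem_sup_left (mul_mem hzK hxK)
      · rw [h1]; exact hx2F
      · rw [h1]; exact mul_mem (mem_sup_left hzK) hx2F

theorem exists_M [Finite L] (h : Set z R) {c : L} (hcc : c * c = 1)
    (hcR : ∀ a, a * z = z * a → c * a = a * c)
    {F : Subgroup L} (hFR : F ≤ (R : Subgroup L)) (hzF : z ∈ F) (hcF : c ∉ F) :
    ∃ M : Subgroup L, F ≤ M ∧ M ≤ (R : Subgroup L) ∧ c ∉ M ∧ M.relIndex (R : Subgroup L) = 2 := by
  have hfin : {M : Subgroup L | F ≤ M ∧ M ≤ (R : Subgroup L) ∧ c ∉ M}.Finite :=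
    _root_.Set.toFinite _
  obtain ⟨M, hFM, hM⟩ := hfin.exists_le_maximal (a := F) ⟨le_rfl, hFR, hcF⟩
  obtain ⟨⟨_, hMR, hcM⟩, hmax⟩ := hM
  refine ⟨M, hFM, hMR, hcM, ?_⟩
  rw [relIndex_eq_two_iff_exists_notMem_and]
  have hcR' : c ∈ (R : Subgroup L) := (h.hR c).mpr (hcR z rfl)
  refine ⟨c, hcR', hcM, ?_⟩
  intro a ha
  by_cases haM : a ∈ M
  · exact Or.inr haM
  left
  have haz := (h.hR a).mp ha
  have hzM := hFM hzF
  have hN : zpowers a ≤ normalizer (M : _root_.Set L) := by
    have key : ∀ b, b * z = z * b → ∀ m ∈ M, b * m * b⁻¹ ∈ M := by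
      intro b hb m hm
      rcases h.toCz.cm b m hb ((h.hR m).mp (hMR hm)) with h1 | h1
      · rw [h1]
        have : m * b * b⁻¹ = m := by group
        rw [this]; exact hm
      · rw [h1]
        have : z * (m * b) * b⁻¹ = z * m := by group
        rw [this]; exact mul_mem hzM hm
    rw [zpowers_le, mem_normalizer_iff]
    intro m
    refine ⟨fun hm => key a haz m hm, fun hm => ?_⟩
    have h1 : a⁻¹ * z = z * a⁻¹ := by
      calc a⁻¹ * z = a⁻¹ * (z * a) * a⁻¹ := by group
        _ = a⁻¹ * (a * z) * a⁻¹ := by rw [haz]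
        _ = z * a⁻¹ := by group
    have := key a⁻¹ h1 _ hm
    have e : a⁻¹ * (a * m * a⁻¹) * a⁻¹⁻¹ = m := by group
    rwa [e] at this
  have hc1 : c ∈ M ⊔ zpowers a := by
    by_contra hc
    have h1 := hmax (y := M ⊔ zpowers a) ⟨hFM.trans le_sup_left, sup_le hMR (by
      rw [zpowers_le]; exact ha), hc⟩ le_sup_left
    exact haM (h1 (mem_sup_right (Subgroup.mem_zpowers a)))
  rw [← SetLike.mem_coe, Subgroup.coe_mul_of_right_le_normalizer_left _ _ hN] at hc1
  obtain ⟨m, hm, b, hb, hmb⟩ := hc1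
  obtain ⟨n, rfl⟩ := hb
  change m * a ^ n = c at hmb
  have haa : a * a ∈ M := by
    rcases h.toCz.sq a haz with h1 | h1
    · rw [h1]; exact one_mem _
    · rw [h1]; exact hzM
  rcases Int.even_or_odd' n with ⟨k, hk | hk⟩
  · exfalso
    apply hcM
    rw [← hmb, hk, zpow_mul]
    have : a ^ (2 : ℤ) = a * a := by
      rw [show (2 : ℤ) = ((2 : ℕ) : ℤ) by norm_num, zpow_natCast, pow_two]
    rw [this]
    exact mul_mem hm (zpow_mem haa k)
  · have h1 : a ^ n = (a * a) ^ k * a := by
      rw [hk, zpow_add, zpow_mul, zpow_one]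
      congr 2
      rw [show (2 : ℤ) = ((2 : ℕ) : ℤ) by norm_num, zpow_natCast, pow_two]
    rw [h1] at hmb
    have h2 : a = (m * (a * a) ^ k)⁻¹ * c := by
      rw [← hmb]; group
    have h3 : a * c = (m * (a * a) ^ k)⁻¹ := by
      calc a * c = (m * (a * a) ^ k)⁻¹ * (c * c) := by
            nth_rw 1 [h2]; group
        _ = _ := by rw [hcc, mul_one]
    rw [h3]
    exact inv_mem (mul_mem hm (zpow_mem haa k))

theorem center_small [Finite L] (h : Set z R)
    (hno : ∀ N : Subgroup L, N.Normal → N.index ≠ 2)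
    (hx : Cz x) (hne : x ≠ z) (hxz : x * z = z * x) {c : L}
    (hcR : ∀ a, a * z = z * a → c * a = a * c) : c = 1 ∨ c = z := by
  by_contra hcon
  push Not at hcon
  haveI : Fact (Nat.Prime 2) := ⟨Nat.prime_two⟩
  have hcc : c * c = 1 := h.toCz.exp_two hx hne (hcR z rfl) (hcR x hxz)
  obtain ⟨F, hFR, hzF, hcF, hJ⟩ := h.exists_F hx hne hxz hcR hcon.1 hcon.2
  obtain ⟨M, hFM, hMR, hcM, hidx⟩ := h.exists_M hcc hcR hFR hzF hcF
  have hind : (M.index / 2) % 2 = 1 := by
    have h1 := Subgroup.relIndex_mul_index hMR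
    rw [hidx] at h1
    rw [← h1, Nat.mul_div_cancel_left _ (by norm_num)]
    have := R.not_dvd_index
    omega
  obtain ⟨N, hN, hN2, _⟩ := ThompTr.exists_index_two M hind c (by rw [pow_two]; exact hcc) (by
    intro g hg
    have hi := (h.hR _).mp (hMR hg)
    rcases h.fus hcc hcR hi rfl with h1 | ⟨k, hk⟩
    · rw [h1] at hg; exact hcM hg
    · apply hcM
      have h2 : c * (g * c * g⁻¹) ∈ F := by
        rw [hk]
        apply hJ _ (h.toCz.conj k)
        rw [← hk, mul_assoc, hi, ← mul_assoc, hcR z rfl, mul_assoc]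
      have h3 : c = (c * (g * c * g⁻¹)) * (g * c * g⁻¹)⁻¹ := by group
      rw [h3]
      exact mul_mem (hFM h2) (inv_mem hg))
  exact hno N hN hN2

theorem card_R [Finite L] (h : Set z R)
    (hno : ∀ N : Subgroup L, N.Normal → N.index ≠ 2)
    (hx : Cz x) (hne : x ≠ z) (hxz : x * z = z * x) : Nat.card (R : Subgroup L) = 8 := by
  obtain ⟨r, hr⟩ := h.rt
  have hrz := h.toCz.rc hr
  have e1 := h.toCz.anti hx hne hxz hr
  have hzR : z ∈ (R : Subgroup L) := (h.hR z).mpr rfl
  have hxR : x ∈ (R : Subgroup L) := (h.hR x).mpr hxz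
  have hmem : ∀ a, a ∈ closure ({z, x} : _root_.Set L) ↔ a = 1 ∨ a = z ∨ a = x ∨ a = z * x :=
    fun a => mem_closure_pair_iff h.zz hxz (Or.inl hx.zz)
  have hKR : closure ({z, x} : _root_.Set L) ≤ (R : Subgroup L) := by
    rw [closure_le]
    rintro y (rfl | rfl)
    · exact hzR
    · exact hxR
  have hzx1 : z * x ≠ 1 := by
    intro hc
    apply hne
    have := h.zz
    rw [← hc] at this
    exact (mul_left_cancel this).symm
  have hcard4 : Nat.card (closure ({z, x} : _root_.Set L)) = 4 := by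
    classical
    have h1 : ((closure ({z, x} : _root_.Set L) : Subgroup L) : _root_.Set L) =
        (({1, z, x, z * x} : Finset L) : _root_.Set L) := by
      ext a
      rw [SetLike.mem_coe, hmem]
      simp
    have h2 : Nat.card (closure ({z, x} : _root_.Set L)) =
        Nat.card (({1, z, x, z * x} : Finset L) : _root_.Set L) := by
      rw [← h1]; rfl
    rw [h2, Nat.card_coe_set_eq, _root_.Set.ncard_coe_finset]
    rw [Finset.card_insert_of_notMem, Finset.card_insert_of_notMem, Finset.card_insert_of_notMem,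
      Finset.card_singleton]
    · rw [Finset.mem_singleton]
      intro hc
      exact h.z1 (mul_eq_right.mp hc.symm)
    · simp only [Finset.mem_insert, Finset.mem_singleton, not_or]
      exact ⟨hne.symm, fun hc => hx.z1 (mul_eq_left.mp hc.symm)⟩
    · simp only [Finset.mem_insert, Finset.mem_singleton, not_or]
      exact ⟨h.z1.symm, hx.z1.symm, hzx1.symm⟩
  have hrK : r ∉ closure ({z, x} : _root_.Set L) := by
    intro hc
    have : r * r = 1 := by
      rcases (hmem r).mp hc with h1 | h1 | h1 | h1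
      · rw [h1, one_mul]
      · rw [h1, h.zz]
      · rw [h1, hx.zz]
      · rw [h1]
        calc z * x * (z * x) = z * (x * z) * x := by group
          _ = (z * z) * (x * x) := by rw [hxz]; group
          _ = 1 := by rw [h.zz, hx.zz, one_mul]
    exact h.z1 (hr.symm.trans this)
  have hT : ∀ a, a * z = z * a → a * x = x * a → a ∈ closure ({z, x} : _root_.Set L) := by
    intro a ha hax
    rcases h.toCz.central_or hx hne hxz hr ha hax with h1 | h1
    · rcases h.center_small hno hx hne hxz h1 with h2 | h2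
      · rw [h2]; exact one_mem _
      · rw [h2]; exact subset_closure (by simp)
    · have h3 : a = (a * x) * x := by rw [mul_assoc, hx.zz, mul_one]
      rw [h3]
      rcases h.center_small hno hx hne hxz h1 with h2 | h2
      · rw [h2, one_mul]; exact subset_closure (by simp)
      · rw [h2]; exact mul_mem (subset_closure (by simp)) (subset_closure (by simp))
  have hidx : (closure ({z, x} : _root_.Set L)).relIndex (R : Subgroup L) = 2 := by
    rw [relIndex_eq_two_iff_exists_notMem_and]
    refine ⟨r, (h.hR r).mpr hrz, hrK, ?_⟩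
    intro a ha
    rw [h.hR] at ha
    rcases h.toCz.split hx hne hxz hr ha with h1 | h1
    · right; exact hT a ha h1
    · left
      exact hT _ (by rw [mul_assoc, hrz, ← mul_assoc, ha, mul_assoc]) h1
  rw [← card_rel hKR, hidx, hcard4]

theorem d8 [Finite L] (h : Set z R)
    (hno : ∀ N : Subgroup L, N.Normal → N.index ≠ 2)
    (hx : Cz x) (hne : x ≠ z) (hxz : x * z = z * x) :
    Nonempty (↥(R : Subgroup L) ≃* DihedralGroup 4) := by
  obtain ⟨r, hr⟩ := h.rt
  have hrz := h.toCz.rc hr
  have e1 := h.toCz.anti hx hne hxz hr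
  have hrR : r ∈ (R : Subgroup L) := (h.hR r).mpr hrz
  have hxR : x ∈ (R : Subgroup L) := (h.hR x).mpr hxz
  refine Small27.d8_of (a := (⟨r, hrR⟩ : (R : Subgroup L))) (b := ⟨x, hxR⟩)
    (h.card_R hno hx hne hxz) ?_ ?_ ?_ ?_
  · intro hc
    exact h.z1 (hr.symm.trans (congrArg Subtype.val hc))
  · apply Subtype.ext
    show r * r * (r * r) = 1
    rw [hr, h.zz]
  · exact Subtype.ext hx.zz
  · apply Subtype.ext
    show x * r * x = r⁻¹
    rw [eq_inv_iff_mul_eq_one]
    calc x * r * x * r = x * (r * x) * r := by group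
      _ = x * z * (x * (r * r)) := by rw [e1]; group
      _ = x * z * (x * z) := by rw [hr]
      _ = x * (z * x) * z := by group
      _ = (x * x) * (z * z) := by rw [← hxz]; group
      _ = 1 := by rw [h.zz, hx.zz, one_mul]

end Set

end CfsgLib.CzD828
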