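import Cfsg.Agent.LibChevStb2

set_option autoImplicit false
set_option linter.unusedSectionVars false

/-! Double cosets of parabolic subgroups (seat helper15). -/

namespace CfsgLib.Chev

open Cfsg.Lie Matrix

namespace Good3

variable {D : ChevalleyDatum} {T : Tb} (g : Good3 D T)
include g

theorem ht_pos15 {s : ℕ} (hp : T.n / 2 ≤ s) (hs : s < T.n) : 1 ≤ ∑ m ∈ Finset.range T.l, T.v s m := by
  obtain ⟨j, hj, hne⟩ := g.v_ne_zero hs
  have h1 := g.v_nonneg hs hj hp
  have h2 : T.v s j ≤ ∑ m ∈ Finset.range T.l, T.v s m :=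
    Finset.single_le_sum (f := fun m => T.v s m) (fun m hm => g.v_nonneg hs (Finset.mem_range.1 hm) hp) (Finset.mem_range.2 hj)
  omega

/-- a positive root of `Φ_I` sent to a fundamental root by `u` positive on `I` is fundamental -/
theorem deod {I : Set ℕ} {u : List ℕ} (hu : VW T u) (h : ∀ i < T.l, i ∈ I → T.n / 2 ≤ wact T u (T.sim i)) {b j : ℕ}
    (hp : T.n / 2 ≤ b) (hb : b < T.n) (hbI : D.InRootSub I b) (hj : j < T.l) (e : wact T u b = T.sim j) :
    ∃ i < T.l, i ∈ I ∧ b = T.sim i := by
  classical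
  have hv : ∀ m < T.l, T.v (T.sim j) m = ∑ k ∈ Finset.range T.l, T.v b k * T.v (wact T u (T.sim k)) m := by
    intro m hm
    rw [← e, g.v_wact hu hb hm]
  have h1 : ∑ m ∈ Finset.range T.l, T.v (T.sim j) m = 1 := by
    rw [Finset.sum_congr rfl (fun m hm => g.v_sim hj (Finset.mem_range.1 hm))]
    simp [hj]
  have h2 : ∑ m ∈ Finset.range T.l, T.v (T.sim j) m =
      ∑ k ∈ Finset.range T.l, T.v b k * ∑ m ∈ Finset.range T.l, T.v (wact T u (T.sim k)) m := by
    rw [Finset.sum_congr rfl (fun m hm => hv m (Finset.mem_range.1 hm)), Finset.sum_comm]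
    simp only [Finset.mul_sum]
  rw [g.inSub_iff] at hbI
  have h3 : ∀ k < T.l, T.v b k ≤ T.v b k * ∑ m ∈ Finset.range T.l, T.v (wact T u (T.sim k)) m := by
    intro k hk
    by_cases hkI : k ∈ I
    · have h4 := g.ht_pos15 (h k hk hkI) (g.wact_lt hu (g.sim_lt hk))
      have h5 := g.v_nonneg hb hk hp
      nlinarith
    · rw [hbI.2 k hk hkI]; simp
  have h4 : ∑ k ∈ Finset.range T.l, T.v b k ≤ 1 := by
    rw [← h1, h2]
    exact Finset.sum_le_sum (fun k hk => h3 k (Finset.mem_range.1 hk))
  obtain ⟨k0, hk0, hne⟩ := g.v_ne_zero hb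
  have hk0I : k0 ∈ I := by
    by_contra hcon
    exact hne (hbI.2 k0 hk0 hcon)
  refine ⟨k0, hk0, hk0I, ?_⟩
  by_contra hcon
  obtain ⟨k1, hk1, hk1ne, hpos⟩ := g.v_ex hb hp hk0 hcon
  have h5 := g.v_nonneg hb hk0 hp
  have h6 : T.v b k0 + T.v b k1 ≤ ∑ k ∈ Finset.range T.l, T.v b k := by
    rw [← Finset.sum_pair (f := fun k => T.v b k) hk1ne.symm]
    apply Finset.sum_le_sum_of_subset_of_nonneg
    · intro x hx
      simp only [Finset.mem_insert, Finset.mem_singleton] at hx
      rcases hx with rfl | rfl <;> simp [*]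
    · intro k hk _
      exact g.v_nonneg hb (Finset.mem_range.1 hk) hp
  omega

theorem act_of_J_pos {J : Set ℕ} {v : List ℕ} (hv : VW T v) (hJ : JW J v)
    (h : ∀ i < T.l, i ∈ J → T.n / 2 ≤ wact T v (T.sim i)) : ∀ r < T.n, wact T v r = r :=
  (g.nw_mem_H_iff (F := ℚ) hv).1 (g.J_pos hv hJ h)

/-- conjugation of a fundamental reflection -/
theorem conj_sim {w : List ℕ} (hw : VW T w) {i j : ℕ} (hi : i < T.l) (hj : j < T.l) (e : wact T w (T.sim j) = T.sim i) :
    ∀ r < T.n, wact T w (T.w j r) = T.w i (wact T w r) := by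
  have hev := g.even
  have hsi := g.sim_lt hi
  have hsip := g.sim_pos hi
  have hsj := g.sim_lt hj
  have hr := VW_reverse hw
  have hwj : VW T [j] := g.VW_single hj
  have hz : VW T (w ++ [j] ++ w.reverse) := g.VW_append (g.VW_append hw hwj) hr
  -- nw w nn_j nw w⁻¹ in P_i
  have hmem : g.nw w * g.nn j * (g.nw w)⁻¹ ∈ D.parabolicSubgroup ℚ ({i} : Set ℕ) := by
    have h1 : ∀ t : ℚ, g.nw w * g.X (T.sim j) t * (g.nw w)⁻¹ ∈ D.parabolicSubgroup ℚ ({i} : Set ℕ) := by
      intro t
      rw [g.nw_X hw hsj, e]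
      exact g.X_mem_par (g.sim_inSub hi (Set.mem_singleton i)) _
    have h2 : ∀ t : ℚ, g.nw w * g.X (T.n - 1 - T.sim j) t * (g.nw w)⁻¹ ∈ D.parabolicSubgroup ℚ ({i} : Set ℕ) := by
      intro t
      rw [g.nw_X hw (by omega), g.wact_neg hw hsj, e]
      exact g.X_mem_par ((g.neg_inSub hsi).2 (g.sim_inSub hi (Set.mem_singleton i))) _
    have e2 : g.nw w * g.nn j * (g.nw w)⁻¹ = (g.nw w * g.X (T.sim j) 1 * (g.nw w)⁻¹) *
        (g.nw w * g.X (T.n - 1 - T.sim j) (-(1:ℚ)⁻¹) * (g.nw w)⁻¹) * (g.nw w * g.X (T.sim j) 1 * (g.nw w)⁻¹) := by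
      unfold nn Ng
      group
    rw [e2]
    exact Subgroup.mul_mem _ (Subgroup.mul_mem _ (h1 _) (h2 _)) (h1 _)
  have hH : g.nw (F := ℚ) (w ++ w.reverse) ∈ D.diagonalSubgroup ℚ := by
    apply g.nw_mem_H (g.VW_append hw hr)
    intro r hrn
    rw [wact_append]
    have := g.wact_rev hr hrn
    rw [List.reverse_reverse] at this
    exact this
  have hzm : g.nw (F := ℚ) (w ++ [j] ++ w.reverse) ∈ D.parabolicSubgroup ℚ ({i} : Set ℕ) := by
    have e3 : g.nw (F := ℚ) (w ++ [j] ++ w.reverse) = (g.nw w * g.nn j * (g.nw w)⁻¹) * g.nw (w ++ w.reverse) := by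
      rw [nw_append, nw_append, nw_append]
      have : g.nw [j] = g.nn (F := ℚ) j := by simp [nw]
      rw [this]; group
    rw [e3]
    exact Subgroup.mul_mem _ hmem (B_le_par _ (H_le_B hH))
  obtain ⟨b, hb, v, hv, hvi, b', hb', e4⟩ := g.par_mem hzm
  have h5 : ∀ r < T.n, wact T (w ++ [j] ++ w.reverse) r = wact T v r :=
    g.dc_wact hz hv (b := 1) (b' := 1) (Subgroup.one_mem _) (Subgroup.one_mem _) hb hb' (by rw [one_mul, mul_one]; exact e4)
  have hzr : ∀ r < T.n, wact T (w ++ [j] ++ w.reverse) (wact T w r) = wact T w (T.w j r) := by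
    intro r hrn
    rw [wact_append, wact_append, g.wact_rev hw hrn]
    rfl
  have h6 : wact T v (T.sim i) = T.n - 1 - T.sim i := by
    rw [← h5 _ hsi, ← e, hzr _ hsj, g.w_sim hj, g.wact_neg hw hsj]
  have hvi' : JW ({i} : Set ℕ) (v ++ [i]) := by
    intro k hk
    rw [List.mem_append, List.mem_singleton] at hk
    rcases hk with hk | rfl
    · exact hvi k hk
    · rfl
  have h7 := g.act_of_J_pos (J := ({i} : Set ℕ)) (g.VW_append hv (g.VW_single hi)) hvi' (by
    intro k hk hki
    have hki : k = i := hki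
    subst hki
    rw [wact_append]
    show T.n / 2 ≤ wact T v (T.w k (T.sim k))
    rw [g.w_sim hk, g.wact_neg hv hsi, h6]
    omega)
  intro r hrn
  have h8 := h7 (T.w i (wact T w r)) (g.w_lt hi (g.wact_lt hw hrn))
  rw [wact_append] at h8
  have h9 : wact T [i] (T.w i (wact T w r)) = wact T w r := g.w_w hi (g.wact_lt hw hrn)
  rw [h9, ← h5 _ (g.wact_lt hw hrn), hzr r hrn] at h8
  exact h8

theorem ninv_congr {v v' : List ℕ} (h : ∀ r < T.n, wact T v r = wact T v' r) : ninv T v = ninv T v' := by
  unfold ninv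
  congr 1
  apply Finset.filter_congr
  intro r hr
  rw [h r (Finset.mem_range.1 hr)]

/-- a word positive on `J` sends negative roots of `Φ_J` to negative roots -/
theorem neg_of_J {J : Set ℕ} {w : List ℕ} (hw : VW T w) (h : ∀ i < T.l, i ∈ J → T.n / 2 ≤ wact T w (T.sim i)) {r : ℕ}
    (hn : r < T.n / 2) (hr : r < T.n) (hrJ : D.InRootSub J r) : wact T w r < T.n / 2 := by
  have hev := g.even
  have h1 := g.pos_J hw h (r := T.n - 1 - r) (by omega) (by omega) ((g.neg_inSub hr).2 hrJ)
  rw [g.wact_neg hw hr] at h1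
  have := g.wact_lt hw hr
  omega

/-- double cosets `W_I w W_J`: two-sided positive elements are unique, and stabilisers are standard -/
theorem dc_aux {I J : Set ℕ} : ∀ (k : ℕ) {w w' a v : List ℕ}, ninv T v = k → VW T w → VW T w' → VW T a → VW T v → JW I a → JW J v →
    (∀ j < T.l, j ∈ J → T.n / 2 ≤ wact T w (T.sim j)) → (∀ j < T.l, j ∈ J → T.n / 2 ≤ wact T w' (T.sim j)) →
    (∀ i < T.l, i ∈ I → T.n / 2 ≤ wact T w.reverse (T.sim i)) → (∀ i < T.l, i ∈ I → T.n / 2 ≤ wact T w'.reverse (T.sim i)) →
    (∀ r < T.n, wact T a (wact T w r) = wact T w' (wact T v r)) →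
    (∀ r < T.n, wact T w r = wact T w' r) ∧
      ∃ a', VW T a' ∧ JW {i | i ∈ I ∧ ∃ j < T.l, j ∈ J ∧ wact T w (T.sim j) = T.sim i} a' ∧ ∀ r < T.n, wact T a r = wact T a' r := by
  intro k
  induction k using Nat.strong_induction_on with
  | _ k ih =>
    intro w w' a v hk hw hw' ha hv haI hvJ h1 h1' h2 h2' e
    have hev := g.even
    by_cases hpos : ∀ j < T.l, j ∈ J → T.n / 2 ≤ wact T v (T.sim j)
    · -- v trivial
      have hvt := g.act_of_J_pos hv hvJ hpos
      have e1 : ∀ r < T.n, wact T a (wact T w r) = wact T w' r := by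
        intro r hr; rw [e r hr, hvt r hr]
      have har := VW_reverse ha
      have haIr : JW I a.reverse := fun i hi => haI i (List.mem_reverse.1 hi)
      have hat : ∀ r < T.n, wact T a.reverse r = r := by
        apply g.act_of_J_pos har haIr
        intro i hi hiI
        by_contra hcon
        have hlt := g.wact_lt har (g.sim_lt hi)
        have hI : D.InRootSub I (wact T a.reverse (T.sim i)) := by
          rw [g.inSub_wact har haIr (g.sim_lt hi)]; exact g.sim_inSub hi hiI
        have h3 := g.neg_of_J (VW_reverse hw) h2 (r := wact T a.reverse (T.sim i)) (by omega) hlt hI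
        -- w'⁻¹ = w⁻¹ a⁻¹
        have h4 : wact T w'.reverse (T.sim i) = wact T w.reverse (wact T a.reverse (T.sim i)) := by
          have hs := g.sim_lt hi
          set s := wact T w.reverse (wact T a.reverse (T.sim i)) with hsdef
          have hsl : s < T.n := g.wact_lt (VW_reverse hw) hlt
          have h5 : wact T w s = wact T a.reverse (T.sim i) := by
            have := g.wact_rev (VW_reverse hw) hlt
            rw [List.reverse_reverse] at this
            exact this
          have h6 : wact T w' s = T.sim i := by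
            rw [← e1 s hsl, h5]
            have := g.wact_rev har hs
            rw [List.reverse_reverse] at this
            exact this
          rw [← h6]
          exact g.wact_rev hw' hsl
        have h5 := h2' i hi hiI
        omega
      have hat' : ∀ r < T.n, wact T a r = r := by
        intro r hr
        have := g.wact_rev ha hr
        rw [hat _ (g.wact_lt ha hr)] at this
        exact this
      refine ⟨?_, [], by intro i hi; simp at hi, by intro i hi; simp at hi, ?_⟩
      · intro r hr
        rw [← e1 r hr, hat' _ (g.wact_lt hw hr)]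
      · intro r hr; rw [hat' r hr]; rfl
    · push Not at hpos
      obtain ⟨j, hj, hjJ, hneg⟩ := hpos
      have hsj := g.sim_lt hj
      have hvl := g.wact_lt hv hsj
      have h3 : wact T w' (wact T v (T.sim j)) < T.n / 2 := by
        apply g.neg_of_J hw' h1' hneg hvl
        rw [g.inSub_wact hv hvJ hsj]; exact g.sim_inSub hj hjJ
      rw [← e _ hsj] at h3
      have h4 := h1 j hj hjJ
      have hwl := g.wact_lt hw hsj
      have h5 : D.InRootSub I (wact T w (T.sim j)) := by
        by_contra hcon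
        have := (g.out_pos ha haI hwl h4 hcon).1
        omega
      obtain ⟨i, hi, hiI, e2⟩ := g.deod (VW_reverse hw) h2 h4 hwl h5 hj (g.wact_rev hw hsj)
      have hv1 : VW T (v ++ [j]) := g.VW_append hv (g.VW_single hj)
      have ha1 : VW T (a ++ [i]) := g.VW_append ha (g.VW_single hi)
      have hv1J : JW J (v ++ [j]) := by
        intro m hm
        rw [List.mem_append, List.mem_singleton] at hm
        rcases hm with hm | rfl
        · exact hvJ m hm
        · exact hjJ
      have ha1I : JW I (a ++ [i]) := by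
        intro m hm
        rw [List.mem_append, List.mem_singleton] at hm
        rcases hm with hm | rfl
        · exact haI m hm
        · exact hiI
      have h6 : ninv T (v ++ [j] ++ [j]) = ninv T (v ++ [j]) + 1 := by
        apply g.ninv_append hv1 hj
        rw [wact_append]
        show T.n / 2 ≤ wact T v (T.w j (T.sim j))
        rw [g.w_sim hj, g.wact_neg hv hsj]
        omega
      have h7 : ninv T (v ++ [j] ++ [j]) = ninv T v := by
        apply g.ninv_congr
        intro r hr
        rw [wact_append, wact_append]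
        show wact T v (T.w j (T.w j r)) = _
        rw [g.w_w hj hr]
      have e3 : ∀ r < T.n, wact T (a ++ [i]) (wact T w r) = wact T w' (wact T (v ++ [j]) r) := by
        intro r hr
        rw [wact_append, wact_append]
        show wact T a (T.w i (wact T w r)) = wact T w' (wact T v (T.w j r))
        rw [← g.conj_sim hw hi hj e2 r hr, e _ (g.w_lt hj hr)]
      obtain ⟨h8, a', ha', haI', h9⟩ := ih (ninv T (v ++ [j])) (by omega) rfl hw hw' ha1 hv1 ha1I hv1J h1 h1' h2 h2' e3
      refine ⟨h8, a' ++ [i], g.VW_append ha' (g.VW_single hi), ?_, ?_⟩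
      · intro m hm
        rw [List.mem_append, List.mem_singleton] at hm
        rcases hm with hm | rfl
        · exact haI' m hm
        · exact ⟨hiI, j, hj, hjJ, e2⟩
      · intro r hr
        rw [wact_append]
        show _ = wact T a' (T.w i r)
        rw [← h9 _ (g.w_lt hi hr), wact_append]
        show _ = wact T a (T.w i (T.w i r))
        rw [g.w_w hi hr]

end Good3

end CfsgLib.Chev
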