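import Cfsg.Agent.LibDC15
import Cfsg.Agent.LibAltSum3

set_option autoImplicit false
set_option linter.unusedSectionVars false

/-! Double cosets of parabolic subgroups: group level (seat helper15). -/

namespace CfsgLib.Chev

open Cfsg.Lie Matrix

namespace Good3

variable {D : ChevalleyDatum} {T : Tb} (g : Good3 D T)
include g

section Mat
variable {F : Type*} [Field F]

/-- words acting equally give equal monomials modulo H -/
theorem nw_congr15 {w w' : List ℕ} (hw : VW T w) (hw' : VW T w') (h : ∀ r < T.n, wact T w r = wact T w' r) :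
    ∃ x ∈ D.diagonalSubgroup F, g.nw w' = g.nw w * x := by
  have hr := VW_reverse hw
  have h2 : g.nw (F := F) (w.reverse ++ w') ∈ D.diagonalSubgroup F := by
    apply g.nw_mem_H (g.VW_append hr hw')
    intro r hrn
    rw [wact_append, ← h r hrn]
    exact g.wact_rev hw hrn
  have h3 : g.nw (F := F) (w.reverse ++ w) ∈ D.diagonalSubgroup F := by
    apply g.nw_mem_H (g.VW_append hr hw)
    intro r hrn
    rw [wact_append]
    exact g.wact_rev hw hrn
  rw [nw_append] at h2 h3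
  refine ⟨(g.nw w.reverse * g.nw w)⁻¹ * (g.nw w.reverse * g.nw w'), Subgroup.mul_mem _ (Subgroup.inv_mem _ h3) h2, ?_⟩
  group

theorem nw_inv15 {w : List ℕ} (hw : VW T w) : ∃ x ∈ D.diagonalSubgroup F, (g.nw w)⁻¹ = g.nw w.reverse * x := by
  have hr := VW_reverse hw
  have h3 : g.nw (F := F) (w ++ w.reverse) ∈ D.diagonalSubgroup F := by
    apply g.nw_mem_H (g.VW_append hw hr)
    intro r hrn
    rw [wact_append]
    have := g.wact_rev hr hrn
    rw [List.reverse_reverse] at this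
    exact this
  rw [nw_append] at h3
  refine ⟨(g.nw w * g.nw w.reverse)⁻¹, Subgroup.inv_mem _ h3, by group⟩

/-- left multiplication by a parabolic element -/
theorem left_mul15 {I : Set ℕ} {y : List ℕ} (hy : VW T y) : ∀ (v : List ℕ), VW T v → JW I v → ∀ b ∈ D.borelSubgroup F,
    ∃ a, VW T a ∧ JW I a ∧ ∃ c ∈ D.borelSubgroup F, ∃ c' ∈ D.borelSubgroup F, g.nw v * b * g.nw y = c * g.nw (a ++ y) * c' := by
  intro v
  induction v with
  | nil =>
    intro _ _ b hb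
    exact ⟨[], by intro i hi; simp at hi, by intro i hi; simp at hi, b, hb, 1, Subgroup.one_mem _, by rw [nw_nil]; simp⟩
  | cons i v ih =>
    intro hv hvI b hb
    have hi : i < T.l := hv i List.mem_cons_self
    have hiI : i ∈ I := hvI i List.mem_cons_self
    obtain ⟨a, ha, haI, c, hc, c', hc', e⟩ := ih (fun k hk => hv k (List.mem_cons_of_mem _ hk))
      (fun k hk => hvI k (List.mem_cons_of_mem _ hk)) b hb
    have e1 : g.nw (i :: v) * b * g.nw y = g.nn i * c * g.nw (a ++ y) * c' := by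
      rw [nw_cons]
      calc _ = g.nn i * (g.nw v * b * g.nw y) := by group
        _ = _ := by rw [e]; group
    rcases g.BN_axiom (F := F) hi (g.nw_mem_N (g.VW_append ha hy)) hc with ⟨d, hd, d', hd', e2⟩ | ⟨d, hd, d', hd', e2⟩
    · refine ⟨i :: a, ?_, ?_, d, hd, d' * c', Subgroup.mul_mem _ hd' hc', ?_⟩
      · intro k hk
        rcases List.mem_cons.1 hk with rfl | hk
        · exact hi
        · exact ha k hk
      · intro k hk
        rcases List.mem_cons.1 hk with rfl | hk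
        · exact hiI
        · exact haI k hk
      · rw [e1, e2, List.cons_append, nw_cons]; group
    · refine ⟨a, ha, haI, d, hd, d' * c', Subgroup.mul_mem _ hd' hc', ?_⟩
      rw [e1, e2]; group

/-- inverse positivity -/
theorem PosG_inv_iff {w : List ℕ} (hw : VW T w) {b b' : GL D.Idx F} (hb : b ∈ D.borelSubgroup F) (hb' : b' ∈ D.borelSubgroup F)
    {i : ℕ} (hi : i < T.l) : PosG g (b * g.nw w * b')⁻¹ i ↔ T.n / 2 ≤ wact T w.reverse (T.sim i) := by
  obtain ⟨x, hx, e⟩ := g.nw_inv15 (F := F) hw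
  have e2 : (b * g.nw w * b')⁻¹ = b'⁻¹ * g.nw w.reverse * (x * b⁻¹) := by
    calc (b * g.nw w * b')⁻¹ = b'⁻¹ * (g.nw w)⁻¹ * b⁻¹ := by group
      _ = _ := by rw [e]; group
  rw [e2]
  exact g.PosG_iff (VW_reverse hw) (Subgroup.inv_mem _ hb') (Subgroup.mul_mem _ (H_le_B hx) (Subgroup.inv_mem _ hb)) hi

theorem dc_un {I J : Set ℕ} {x p q : GL D.Idx F} (hx : x ∈ D.group F) (hp : p ∈ D.parabolicSubgroup F I)
    (hq : q ∈ D.parabolicSubgroup F J) (h1 : ∀ j ∈ J, PosG g x j) (h2 : ∀ i ∈ I, PosG g x⁻¹ i)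
    (h1' : ∀ j ∈ J, PosG g (p * x * q) j) (h2' : ∀ i ∈ I, PosG g (p * x * q)⁻¹ i) :
    ∃ b ∈ D.borelSubgroup F, ∃ b' ∈ D.borelSubgroup F, p * x * q = b * x * b' := by
  obtain ⟨b, hb, w, hw, b', hb', rfl⟩ := g.bruhat_nw hx
  obtain ⟨c, hc, v, hv, hvJ, c', hc', rfl⟩ := g.par_mem hq
  obtain ⟨d, hd, a0, ha0, ha0I, d', hd', rfl⟩ := g.par_mem hp
  have h3 : ∀ j < T.l, j ∈ J → T.n / 2 ≤ wact T w (T.sim j) := fun i hi hiJ => (g.PosG_iff hw hb hb' hi).1 (h1 i hiJ)
  have h4 : ∀ i < T.l, i ∈ I → T.n / 2 ≤ wact T w.reverse (T.sim i) := fun i hi hiI => (g.PosG_inv_iff hw hb hb' hi).1 (h2 i hiI)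
  obtain ⟨b1, hb1, b2, hb2, e⟩ := g.prod_dc hw h3 (Subgroup.mul_mem _ hb' hc) hv hvJ
  obtain ⟨a, ha, haI, e1, he1, e1', he1', e2⟩ := g.left_mul15 (F := F) (I := I) (g.VW_append hw hv) a0 ha0 ha0I
    (d' * b * b1) (Subgroup.mul_mem _ (Subgroup.mul_mem _ hd' hb) hb1)
  have hw' : VW T (a ++ (w ++ v)) := g.VW_append ha (g.VW_append hw hv)
  have e3 : d * g.nw a0 * d' * (b * g.nw w * b') * (c * g.nw v * c') = (d * e1) * g.nw (a ++ (w ++ v)) * (e1' * (b2 * c')) := by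
    calc _ = d * (g.nw a0 * d' * b * (g.nw w * (b' * c) * g.nw v) * c') := by group
      _ = d * (g.nw a0 * d' * b * (b1 * g.nw (w ++ v) * b2) * c') := by rw [e]
      _ = d * (g.nw a0 * (d' * b * b1) * g.nw (w ++ v)) * (b2 * c') := by group
      _ = _ := by rw [e2]; group
  rw [e3] at h1' h2'
  have hl1 := Subgroup.mul_mem _ hd he1
  have hl2 := Subgroup.mul_mem _ he1' (Subgroup.mul_mem _ hb2 hc')
  have h5 : ∀ j < T.l, j ∈ J → T.n / 2 ≤ wact T (a ++ (w ++ v)) (T.sim j) := fun i hi hiJ => (g.PosG_iff hw' hl1 hl2 hi).1 (h1' i hiJ)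
  have h6 : ∀ i < T.l, i ∈ I → T.n / 2 ≤ wact T (a ++ (w ++ v)).reverse (T.sim i) :=
    fun i hi hiI => (g.PosG_inv_iff hw' hl1 hl2 hi).1 (h2' i hiI)
  have hvr := VW_reverse hv
  have hvJr : JW J v.reverse := fun i hi => hvJ i (List.mem_reverse.1 hi)
  obtain ⟨h7, _⟩ := g.dc_aux (I := I) (J := J) _ (w := w) (w' := a ++ (w ++ v)) (a := a) (v := v.reverse) rfl hw hw' ha hvr haI hvJr
    h3 h5 h4 h6 (by
      intro r hr
      rw [wact_append, wact_append]
      have := g.wact_rev hvr hr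
      rw [List.reverse_reverse] at this
      rw [this])
  obtain ⟨x, hx, e4⟩ := g.nw_congr15 (F := F) hw hw' h7
  refine ⟨d * e1 * b⁻¹, Subgroup.mul_mem _ hl1 (Subgroup.inv_mem _ hb), b'⁻¹ * (x * (e1' * (b2 * c'))),
    Subgroup.mul_mem _ (Subgroup.inv_mem _ hb') (Subgroup.mul_mem _ (H_le_B hx) hl2), ?_⟩
  rw [e3, e4]; group

theorem dc_ex {I J : Set ℕ} {x : GL D.Idx F} (hx : x ∈ D.group F) :
    ∃ p ∈ D.parabolicSubgroup F I, ∃ q ∈ D.parabolicSubgroup F J, (∀ j ∈ J, PosG g (p * x * q) j) ∧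
      ∀ i ∈ I, PosG g (p * x * q)⁻¹ i := by
  classical
  have hne : ∃ k, ∃ w, w.length = k ∧ VW T w ∧ ∃ p ∈ D.parabolicSubgroup F I, ∃ q ∈ D.parabolicSubgroup F J,
      ∃ b ∈ D.borelSubgroup F, ∃ b' ∈ D.borelSubgroup F, p * x * q = b * g.nw w * b' := by
    obtain ⟨b, hb, w, hw, b', hb', e⟩ := g.bruhat_nw hx
    exact ⟨w.length, w, rfl, hw, 1, Subgroup.one_mem _, 1, Subgroup.one_mem _, b, hb, b', hb', by rw [mul_one, one_mul]; exact e⟩
  obtain ⟨w, hlen, hw, p, hp, q, hq, b, hb, b', hb', e⟩ := Nat.find_spec hne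
  refine ⟨p, hp, q, hq, fun i hiJ hi => ?_, fun i hiI hi => ?_⟩
  · by_cases h : T.n / 2 ≤ wact T w (T.sim i)
    · exact ⟨w, hw, ⟨b, hb, b', hb', e⟩, h⟩
    · exfalso
      obtain ⟨w', hw', hl', h', hh', e'⟩ := g.exch' (F := F) hw hi (by omega)
      have := Nat.find_min hne (m := w'.length) (by omega)
      apply this
      refine ⟨w', rfl, hw', p, hp, q * (b'⁻¹ * g.nn i), Subgroup.mul_mem _ hq (Subgroup.mul_mem _
        (Subgroup.inv_mem _ (B_le_par J hb')) (g.nn_mem_par hi hiJ)), b, hb, h', H_le_B hh', ?_⟩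
      rw [← mul_assoc, mul_assoc b, ← e', ← mul_assoc, e, nw_append]
      have : g.nw [i] = g.nn (F := F) i := by simp [nw]
      rw [this]; group
  · have e5 : p * x * q = b * g.nw w * b' := e
    rw [e5]
    by_cases h : T.n / 2 ≤ wact T w.reverse (T.sim i)
    · exact (g.PosG_inv_iff hw hb hb' hi).2 h hi
    · exfalso
      obtain ⟨w', hw', hl', h', hh', e'⟩ := g.exch' (F := F) (VW_reverse hw) hi (by omega)
      rw [List.length_reverse] at hl'
      have := Nat.find_min hne (m := w'.reverse.length) (by rw [List.length_reverse]; omega)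
      apply this
      obtain ⟨y, hy, e6⟩ := g.nw_inv15 (F := F) hw
      obtain ⟨z, hz, e7⟩ := g.nw_inv15 (F := F) (w := w') hw'
      have e8 : g.nw w.reverse * g.nn i = g.nw w' * h' := by
        rw [← e', nw_append]
        have : g.nw [i] = g.nn (F := F) i := by simp [nw]
        rw [this]
      have e9 : y * g.nw w = (g.nw w.reverse)⁻¹ := by
        have : y = (g.nw w.reverse)⁻¹ * (g.nw w)⁻¹ := by rw [e6]; group
        rw [this]; group
      refine ⟨w'.reverse, rfl, VW_reverse hw', (g.nn i)⁻¹ * y * b⁻¹ * p, ?_, q, hq, h'⁻¹, Subgroup.inv_mem _ (H_le_B hh'),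
        z * b', Subgroup.mul_mem _ (H_le_B hz) hb', ?_⟩
      · exact Subgroup.mul_mem _ (Subgroup.mul_mem _ (Subgroup.mul_mem _ (Subgroup.inv_mem _ (g.nn_mem_par hi hiI))
          (B_le_par _ (H_le_B hy))) (Subgroup.inv_mem _ (B_le_par _ hb))) hp
      · calc (g.nn i)⁻¹ * y * b⁻¹ * p * x * q = (g.nn i)⁻¹ * y * b⁻¹ * (p * x * q) := by group
          _ = (g.nn i)⁻¹ * (y * g.nw w) * b' := by rw [e5]; group
          _ = (g.nw w.reverse * g.nn i)⁻¹ * b' := by rw [e9]; group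
          _ = h'⁻¹ * (g.nw w')⁻¹ * b' := by rw [e8]; group
          _ = _ := by rw [e7]; group

/-- Kilmoyer: the stabiliser in `P_I` of the residue `n_w P_J` -/
theorem kil {I J : Set ℕ} {w : List ℕ} (hw : VW T w) (h1 : ∀ j < T.l, j ∈ J → T.n / 2 ≤ wact T w (T.sim j))
    (h2 : ∀ i < T.l, i ∈ I → T.n / 2 ≤ wact T w.reverse (T.sim i)) {s : GL D.Idx F} (hs : s ∈ D.parabolicSubgroup F I)
    (hs' : (g.nw w)⁻¹ * s * g.nw w ∈ D.parabolicSubgroup F J) :
    s ∈ D.parabolicSubgroup F {i | i ∈ I ∧ ∃ j < T.l, j ∈ J ∧ wact T w (T.sim j) = T.sim i} := by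
  obtain ⟨c, hc, a, ha, haI, c', hc', rfl⟩ := g.par_mem hs
  obtain ⟨d, hd, v, hv, hvJ, d', hd', e⟩ := g.par_mem hs'
  have har := VW_reverse ha
  have haIr : JW I a.reverse := fun i hi => haI i (List.mem_reverse.1 hi)
  -- right side
  obtain ⟨b1, hb1, b2, hb2, e1⟩ := g.prod_dc hw h1 hd hv hvJ
  have e2 : (c * g.nw a * c') * g.nw w = b1 * g.nw (w ++ v) * (b2 * d') := by
    calc (c * g.nw a * c') * g.nw w = g.nw w * ((g.nw w)⁻¹ * (c * g.nw a * c') * g.nw w) := by group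
      _ = (g.nw w * d * g.nw v) * d' := by rw [e]; group
      _ = _ := by rw [e1]; group
  -- left side
  obtain ⟨x, hx, e3⟩ := g.nw_inv15 (F := F) hw
  obtain ⟨y, hy, e4⟩ := g.nw_inv15 (F := F) ha
  obtain ⟨b3, hb3, b4, hb4, e5⟩ := g.prod_dc (VW_reverse hw) h2 (b := x * c'⁻¹)
    (Subgroup.mul_mem _ (H_le_B hx) (Subgroup.inv_mem _ hc')) har haIr
  obtain ⟨z, hz, e6⟩ := g.nw_inv15 (F := F) (g.VW_append (VW_reverse hw) har)
  have e7 : (c * g.nw a * c') * g.nw w = (c * y⁻¹ * b4⁻¹) * g.nw (w.reverse ++ a.reverse).reverse * (z * b3⁻¹) := by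
    have e8 : ((c * g.nw a * c') * g.nw w)⁻¹ = b3 * g.nw (w.reverse ++ a.reverse) * (b4 * (y * c⁻¹)) := by
      calc ((c * g.nw a * c') * g.nw w)⁻¹ = (g.nw w)⁻¹ * c'⁻¹ * (g.nw a)⁻¹ * c⁻¹ := by group
        _ = (g.nw w.reverse * (x * c'⁻¹) * g.nw a.reverse) * (y * c⁻¹) := by rw [e3, e4]; group
        _ = _ := by rw [e5]; group
    calc (c * g.nw a * c') * g.nw w = (((c * g.nw a * c') * g.nw w)⁻¹)⁻¹ := by group
      _ = (b4 * (y * c⁻¹))⁻¹ * (g.nw (w.reverse ++ a.reverse))⁻¹ * b3⁻¹ := by rw [e8]; group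
      _ = _ := by rw [e6]; group
  have hrev : (w.reverse ++ a.reverse).reverse = a ++ w := by simp
  rw [hrev] at e7
  have h3 := g.dc_wact (g.VW_append ha hw) (g.VW_append hw hv)
    (Subgroup.mul_mem _ (Subgroup.mul_mem _ hc (Subgroup.inv_mem _ (H_le_B hy))) (Subgroup.inv_mem _ hb4))
    (Subgroup.mul_mem _ (H_le_B hz) (Subgroup.inv_mem _ hb3)) hb1 (Subgroup.mul_mem _ hb2 hd') (e7.symm.trans e2)
  obtain ⟨_, a', ha', haI', h4⟩ := g.dc_aux (I := I) (J := J) _ (w := w) (w' := w) (a := a) (v := v) rfl hw hw ha hv haI hvJ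
    h1 h1 h2 h2 (by
      intro r hr
      have := h3 r hr
      rw [wact_append, wact_append] at this
      exact this)
  obtain ⟨u, hu, e9⟩ := g.nw_congr15 (F := F) ha' ha (fun r hr => (h4 r hr).symm)
  rw [e9]
  exact Subgroup.mul_mem _ (Subgroup.mul_mem _ (B_le_par _ hc) (Subgroup.mul_mem _ (g.nw_par ha' haI') (B_le_par _ (H_le_B hu))))
    (B_le_par _ hc')

/-- all fundamental roots negative: a single double coset -/
theorem all_neg_dc {w0 : List ℕ} (hw0 : VW T w0) (h0 : ∀ i < T.l, wact T w0 (T.sim i) < T.n / 2) {x : GL D.Idx F}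
    (hx : x ∈ D.group F) (h : ∀ i < T.l, ¬ PosG g x i) : ∃ b ∈ D.borelSubgroup F, ∃ b' ∈ D.borelSubgroup F, x = b * g.nw w0 * b' := by
  have htop : x ∈ D.parabolicSubgroup F (↑(Finset.range T.l) : Set ℕ) := by rw [g.par_top]; exact hx
  obtain ⟨a, ha, b, hb, e⟩ := g.neg_par (I := (↑(Finset.range T.l) : Set ℕ)) hw0 (by intro i hi; simp [hw0 i hi])
    (fun i hi _ => h0 i hi) htop (fun i hi _ => h i hi)
  exact ⟨a, U_le_B (g.UPJ_le_U _ ha), b, hb, e⟩

theorem sys2 [Finite F] : AltSum.Sys2 (G := ↥(D.group F)) ((D.borelSubgroup F).subgroupOf (D.group F)) (D.parabolicIn F)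
    (fun x i => PosG g (x : GL D.Idx F) i) (Finset.range T.l) where
  BP := by
    intro J x hx
    exact B_le_par _ hx
  dc := by
    intro b hb b' hb' x i
    exact g.PosG_dc hb hb' _ i
  ex := by
    intro I J x
    obtain ⟨p, hp, q, hq, h1, h2⟩ := g.dc_ex (I := (↑I : Set ℕ)) (J := (↑J : Set ℕ)) x.2
    exact ⟨⟨p, g.par_le_G _ hp⟩, hp, ⟨q, g.par_le_G _ hq⟩, hq, fun i hi => h1 i (by exact_mod_cast hi),
      fun i hi => h2 i (by exact_mod_cast hi)⟩
  un := by
    intro I J x p q hp hq h1 h2 h3 h4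
    obtain ⟨b, hb, b', hb', e⟩ := g.dc_un (I := (↑I : Set ℕ)) (J := (↑J : Set ℕ)) x.2 hp hq (fun i hi => h1 i (by exact_mod_cast hi))
      (fun i hi => h2 i (by exact_mod_cast hi)) (fun i hi => h3 i (by exact_mod_cast hi)) (fun i hi => h4 i (by exact_mod_cast hi))
    exact ⟨⟨b, g.B_le_G hb⟩, hb, ⟨b', g.B_le_G hb'⟩, hb', Subtype.ext e⟩
  neg := by
    have hev := g.even
    obtain ⟨w0, hw0, h0⟩ := g.exists_longest
    have h0' : ∀ i < T.l, wact T w0 (T.sim i) < T.n / 2 := fun i hi => h0 _ (g.sim_pos hi) (g.sim_lt hi)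
    refine ⟨⟨g.nw w0, g.nw_mem_G w0⟩, ?_, ?_, ?_⟩
    · intro i hi hp
      have hil := Finset.mem_range.1 hi
      have e1 : g.nw (F := F) w0 = 1 * g.nw w0 * 1 := by group
      have hp' : PosG g (g.nw (F := F) w0) i := hp
      rw [e1] at hp'
      have := (g.PosG_iff hw0 (Subgroup.one_mem _) (Subgroup.one_mem _) hil).1 hp'
      have := h0' i hil
      omega
    · intro i hi hp
      have hil := Finset.mem_range.1 hi
      have e1 : (g.nw (F := F) w0)⁻¹ = (1 * g.nw w0 * 1)⁻¹ := by group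
      have hp' : PosG g (g.nw (F := F) w0)⁻¹ i := hp
      rw [e1] at hp'
      have h3 := (g.PosG_inv_iff hw0 (Subgroup.one_mem _) (Subgroup.one_mem _) hil).1 hp'
      have hr := VW_reverse hw0
      have h4 := h0 _ h3 (g.wact_lt hr (g.sim_lt hil))
      have h5 := g.wact_rev hr (g.sim_lt hil)
      rw [List.reverse_reverse] at h5
      rw [h5] at h4
      have := g.sim_pos hil
      omega
    · intro x hx
      obtain ⟨b, hb, b', hb', e⟩ := g.all_neg_dc hw0 h0' x.2 (fun i hi => hx i (Finset.mem_range.2 hi))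
      exact ⟨⟨b, g.B_le_G hb⟩, hb, ⟨b', g.B_le_G hb'⟩, hb', Subtype.ext e⟩

end Mat

end Good3

end CfsgLib.Chev
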