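import Cfsg.Agent.LibDC15b

set_option autoImplicit false
set_option linter.unusedSectionVars false

/-! Opposite residues (seat helper15). -/

namespace CfsgLib.Chev

open Cfsg.Lie Matrix

namespace Good3

variable {D : ChevalleyDatum} {T : Tb} (g : Good3 D T)
include g

/-- negative version of `deod` -/
theorem deod_neg {I : Set ℕ} {u : List ℕ} (hu : VW T u) (h : ∀ i < T.l, i ∈ I → wact T u (T.sim i) < T.n / 2) {b j : ℕ}
    (hp : T.n / 2 ≤ b) (hb : b < T.n) (hbI : D.InRootSub I b) (hj : j < T.l) (e : wact T u b = T.n - 1 - T.sim j) :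
    ∃ i < T.l, i ∈ I ∧ b = T.sim i := by
  classical
  have hev := g.even
  have hsj := g.sim_lt hj
  have hv : ∀ m < T.l, -T.v (T.sim j) m = ∑ k ∈ Finset.range T.l, T.v b k * T.v (wact T u (T.sim k)) m := by
    intro m hm
    rw [← g.v_neg hsj hm, ← e, g.v_wact hu hb hm]
  have h1 : ∑ m ∈ Finset.range T.l, -T.v (T.sim j) m = -1 := by
    rw [Finset.sum_neg_distrib, Finset.sum_congr rfl (fun m hm => g.v_sim hj (Finset.mem_range.1 hm))]
    simp [hj]
  have h2 : ∑ m ∈ Finset.range T.l, -T.v (T.sim j) m =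
      ∑ k ∈ Finset.range T.l, T.v b k * ∑ m ∈ Finset.range T.l, T.v (wact T u (T.sim k)) m := by
    rw [Finset.sum_congr rfl (fun m hm => hv m (Finset.mem_range.1 hm)), Finset.sum_comm]
    simp only [Finset.mul_sum]
  rw [g.inSub_iff] at hbI
  have h3 : ∀ k < T.l, T.v b k * ∑ m ∈ Finset.range T.l, T.v (wact T u (T.sim k)) m ≤ -T.v b k := by
    intro k hk
    by_cases hkI : k ∈ I
    · have hlt := g.wact_lt hu (g.sim_lt hk)
      have h0 := h k hk hkI
      have h4 := g.ht_pos15 (s := T.n - 1 - wact T u (T.sim k)) (by omega) (by omega)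
      rw [Finset.sum_congr rfl (fun m hm => g.v_neg hlt (Finset.mem_range.1 hm)), Finset.sum_neg_distrib] at h4
      have h5 := g.v_nonneg hb hk hp
      nlinarith
    · rw [hbI.2 k hk hkI]; simp
  have h4 : ∑ k ∈ Finset.range T.l, T.v b k ≤ 1 := by
    have h5 : -1 ≤ ∑ k ∈ Finset.range T.l, -T.v b k := by
      rw [← h1, h2]
      exact Finset.sum_le_sum (fun k hk => h3 k (Finset.mem_range.1 hk))
    rw [Finset.sum_neg_distrib] at h5
    linarith
  obtain ⟨k0, hk0, hne⟩ := g.v_ne_zero hb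
  have hk0I : k0 ∈ I := by
    by_contra hcon
    exact hne (hbI.2 k0 hk0 hcon)
  refine ⟨k0, hk0, hk0I, ?_⟩
  by_contra hcon
  obtain ⟨k1, hk1, hk1ne, hpos⟩ := g.v_ex hb hp hk0 hcon
  have h5 := g.v_nonneg hb hk0 hp
  have h6 : T.v b k0 + T.v b k1 ≤ ∑ k ∈ Finset.range T.l, T.v b k := by
    rw [← Finset.sum_pair (f := fun k => T.v b k) hk1ne.symm]
    apply Finset.sum_le_sum_of_subset_of_nonneg
    · intro x hx
      simp only [Finset.mem_insert, Finset.mem_singleton] at hx
      rcases hx with rfl | rfl <;> simp [*]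
    · intro k hk _
      exact g.v_nonneg hb (Finset.mem_range.1 hk) hp
  omega

/-- the inverse of a word negative on `I` is negative on `I` -/
theorem neg_rev {I : Set ℕ} {u : List ℕ} (hu : VW T u) (hI : JW I u) (h : ∀ i < T.l, i ∈ I → wact T u (T.sim i) < T.n / 2) :
    ∀ i < T.l, i ∈ I → wact T u.reverse (T.sim i) < T.n / 2 := by
  intro i hi hiI
  have hev := g.even
  by_contra hcon
  have hr := VW_reverse hu
  have hrI : JW I u.reverse := fun i hi => hI i (List.mem_reverse.1 hi)
  have hlt := g.wact_lt hr (g.sim_lt hi)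
  have h1 := g.neg_J hu h (r := wact T u.reverse (T.sim i)) (by omega) hlt
    ((g.inSub_wact hr hrI (g.sim_lt hi)).2 (g.sim_inSub hi hiI))
  have h2 := g.wact_rev hr (g.sim_lt hi)
  rw [List.reverse_reverse] at h2
  rw [h2] at h1
  have := g.sim_pos hi
  omega

/-- the longest word of `W_I` permutes the fundamental roots of `I` up to sign -/
theorem neg_sim {I : Set ℕ} {u : List ℕ} (hu : VW T u) (hI : JW I u) (h : ∀ i < T.l, i ∈ I → wact T u (T.sim i) < T.n / 2)
    {i : ℕ} (hi : i < T.l) (hiI : i ∈ I) : ∃ i' < T.l, i' ∈ I ∧ wact T u (T.sim i) = T.n - 1 - T.sim i' := by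
  have hev := g.even
  have hr := VW_reverse hu
  have hlt := g.wact_lt hu (g.sim_lt hi)
  have h0 := h i hi hiI
  obtain ⟨i', hi', hi'I, e⟩ := g.deod_neg hr (g.neg_rev hu hI h) (b := T.n - 1 - wact T u (T.sim i)) (j := i) (by omega) (by omega)
    ((g.neg_inSub hlt).2 ((g.inSub_wact hu hI (g.sim_lt hi)).2 (g.sim_inSub hi hiI))) hi
    (by rw [g.wact_neg hr hlt, g.wact_rev hu (g.sim_lt hi)])
  exact ⟨i', hi', hi'I, by omega⟩

/-- `w` is the opposite type word for `I` -/
def _root_.CfsgLib.Chev.OppW (T : Tb) (I : Set ℕ) (w : List ℕ) : Prop :=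
  VW T w ∧ (∀ i < T.l, i ∈ I → ∃ j < T.l, wact T w (T.sim j) = T.sim i) ∧
    ∀ j < T.l, (∃ i < T.l, i ∈ I ∧ wact T w (T.sim j) = T.sim i) ∨ wact T w (T.sim j) < T.n / 2

theorem exists_opp (I : Set ℕ) : ∃ w, OppW T I w := by
  have hev := g.even
  obtain ⟨u, hu, huI, hun⟩ := g.exists_longest_J I
  obtain ⟨w0, hw0, h0⟩ := g.exists_longest
  have h0' : ∀ i < T.l, i ∈ (Set.univ : Set ℕ) → wact T w0 (T.sim i) < T.n / 2 := fun i hi _ => h0 _ (g.sim_pos hi) (g.sim_lt hi)
  have hJ0 : JW (Set.univ : Set ℕ) w0 := fun i _ => Set.mem_univ _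
  have hur := VW_reverse hu
  have hurI : JW I u.reverse := fun i hi => huI i (List.mem_reverse.1 hi)
  have hurn := g.neg_rev hu huI hun
  have hw0r := VW_reverse hw0
  refine ⟨u.reverse ++ w0, g.VW_append hur hw0, ?_, ?_⟩
  · intro i hi hiI
    obtain ⟨i', hi', hi'I, e1⟩ := g.neg_sim hu huI hun hi hiI
    obtain ⟨j, hj, -, e2⟩ := g.neg_sim hw0r (I := Set.univ) (fun i _ => Set.mem_univ _) (g.neg_rev hw0 hJ0 h0') hi' (Set.mem_univ _)
    refine ⟨j, hj, ?_⟩
    have hsj := g.sim_lt hj
    have hsi' := g.sim_lt hi'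
    have e3 : wact T w0 (T.n - 1 - T.sim j) = T.sim i' := by
      rw [← e2]
      have := g.wact_rev hw0r hsi'
      rw [List.reverse_reverse] at this
      exact this
    rw [g.wact_neg hw0 hsj] at e3
    have hlt := g.wact_lt hw0 hsj
    have e4 : wact T w0 (T.sim j) = wact T u (T.sim i) := by rw [e1]; omega
    rw [wact_append, e4]
    exact g.wact_rev hu (g.sim_lt hi)
  · intro j hj
    obtain ⟨j', hj', -, e1⟩ := g.neg_sim hw0 hJ0 h0' hj (Set.mem_univ _)
    rw [wact_append, e1, g.wact_neg hur (g.sim_lt hj')]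
    by_cases hI : j' ∈ I
    · left
      obtain ⟨i'', hi'', hi''I, e2⟩ := g.neg_sim hur hurI hurn hj' hI
      have := g.sim_lt hi''
      exact ⟨i'', hi'', hi''I, by rw [e2]; omega⟩
    · right
      have h1 := (g.out_pos hur hurI (g.sim_lt hj') (g.sim_pos hj') (g.sim_notIn hj' hI)).1
      have := g.wact_lt hur (g.sim_lt hj')
      omega

theorem opp_unique {I : Set ℕ} {w w' : List ℕ} (h : OppW T I w) (h' : OppW T I w') : ∀ r < T.n, wact T w r = wact T w' r := by
  have hev := g.even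
  obtain ⟨u, hu, huI, hun⟩ := g.exists_longest_J I
  have hall : ∀ w, OppW T I w → ∀ j < T.l, wact T (u ++ w) (T.sim j) < T.n / 2 := by
    rintro w ⟨hw, h1, h2⟩ j hj
    rw [wact_append]
    have hlt := g.wact_lt hw (g.sim_lt hj)
    rcases h2 j hj with ⟨i, hi, hiI, e⟩ | h3
    · rw [e]; exact hun i hi hiI
    · by_cases hI : D.InRootSub I (wact T w (T.sim j))
      · exfalso
        have h4 : ∀ i < T.l, i ∈ I → T.n / 2 ≤ wact T w.reverse (T.sim i) := by
          intro i hi hiI
          obtain ⟨k, hk, e⟩ := h1 i hi hiI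
          rw [← e, g.wact_rev hw (g.sim_lt hk)]
          exact g.sim_pos hk
        have h5 := g.neg_of_J (VW_reverse hw) h4 h3 hlt hI
        rw [g.wact_rev hw (g.sim_lt hj)] at h5
        have := g.sim_pos hj
        omega
      · have h4 := (g.out_pos hu huI (r := T.n - 1 - wact T w (T.sim j)) (by omega) (by omega)
          (fun h => hI ((g.neg_inSub hlt).1 h))).1
        rw [g.wact_neg hu hlt] at h4
        have := g.wact_lt hu hlt
        omega
  have hz : VW T (u ++ w') := g.VW_append hu h'.1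
  have hzr := VW_reverse hz
  have hzn := g.neg_rev (I := Set.univ) hz (fun i _ => Set.mem_univ _) (fun i hi _ => hall w' h' i hi)
  have ht := g.act_of_J_pos (J := Set.univ) (v := (u ++ w').reverse ++ (u ++ w)) (g.VW_append hzr (g.VW_append hu h.1))
    (fun i _ => Set.mem_univ _) (by
      intro j hj _
      rw [wact_append]
      have h1 := hall w h j hj
      have hlt := g.wact_lt (g.VW_append hu h.1) (g.sim_lt hj)
      set s := wact T (u ++ w) (T.sim j) with hs
      have h2 := g.neg_J hzr hzn (r := T.n - 1 - s) (by omega) (by omega) (by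
        rw [g.inSub_iff]; exact ⟨by omega, fun i _ hi => absurd (Set.mem_univ i) hi⟩)
      rw [g.wact_neg hzr hlt] at h2
      have := g.wact_lt hzr hlt
      omega)
  intro r hr
  have h1 := ht r hr
  rw [wact_append] at h1
  have h2 : wact T (u ++ w) r = wact T (u ++ w') r := by
    have h3 := g.wact_rev hzr (g.wact_lt (g.VW_append hu h.1) hr)
    rw [List.reverse_reverse, h1] at h3
    exact h3.symm
  rw [wact_append, wact_append] at h2
  have h3 := g.wact_rev hu (g.wact_lt h.1 hr)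
  rw [h2, g.wact_rev hu (g.wact_lt h'.1 hr)] at h3
  exact h3.symm

end Good3

end CfsgLib.Chev
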