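import Cfsg.Agent.LibSemi29c
import Cfsg.Prelude.Def_GeometricClasses

/-! Decompositions permuted by a linear map (seat helper29). -/

namespace CfsgLib.Dec29

open Module CfsgLib.Semi29

variable {F V : Type*} [Field F] [AddCommGroup V] [Module F V]

/-- `W` is a direct sum of `t` subspaces of dimension `a` permuted by `x`. -/
def Dec (x : V →ₗ[F] V) (a : ℕ) (W : Submodule F V) (t : ℕ) : Prop :=
  ∃ (ι : Type) (_ : Fintype ι) (b : ι × Fin a → V) (σ : Equiv.Perm ι), Fintype.card ι = t ∧ LinearIndependent F b ∧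
    Submodule.span F (Set.range b) = W ∧ ∀ i k, x (b (i, k)) ∈ Submodule.span F (Set.range fun l => b (σ i, l))

lemma Dec.bot (x : V →ₗ[F] V) (a : ℕ) : Dec x a ⊥ 0 := by
  refine ⟨Empty, inferInstance, fun p => p.1.elim, 1, Fintype.card_empty, ?_, ?_, fun i => i.elim⟩
  · exact linearIndependent_empty_type
  · rw [Set.range_eq_empty, Submodule.span_empty]

lemma Dec.sup {x : V →ₗ[F] V} {a t t' : ℕ} {W W' : Submodule F V} (h : Dec x a W t)
    (h' : Dec x a W' t') (hd : Disjoint W W') : Dec x a (W ⊔ W') (t + t') := by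
  obtain ⟨ι, _, b, τ, h1, h2, h3, h5⟩ := h
  obtain ⟨ι', _, b', τ', h1', h2', h3', h5'⟩ := h'
  have hbW : ∀ p, b p ∈ W := fun p => by rw [← h3]; exact Submodule.subset_span ⟨p, rfl⟩
  have hbW' : ∀ p, b' p ∈ W' := fun p => by rw [← h3']; exact Submodule.subset_span ⟨p, rfl⟩
  refine ⟨ι ⊕ ι', inferInstance, fun p => Sum.elim (fun i => b (i, p.2)) (fun i => b' (i, p.2)) p.1,
    Equiv.sumCongr τ τ', ?_, ?_, ?_, ?_⟩
  · rw [Fintype.card_sum, h1, h1']
  · have hs : LinearIndependent F (Sum.elim b b') := h2.sum_type h2' (by rw [h3, h3']; exact hd)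
    have := hs.comp (Equiv.sumProdDistrib ι ι' (Fin a)) (Equiv.injective _)
    convert this using 1
    ext ⟨i | i, k⟩ <;> rfl
  · apply le_antisymm
    · rw [Submodule.span_le]
      rintro _ ⟨⟨i | i, k⟩, rfl⟩
      · exact (le_sup_left : W ≤ W ⊔ W') (hbW _)
      · exact (le_sup_right : W' ≤ W ⊔ W') (hbW' _)
    · refine sup_le ?_ ?_
      · rw [← h3, Submodule.span_le]
        rintro _ ⟨⟨i, k⟩, rfl⟩
        exact Submodule.subset_span ⟨(Sum.inl i, k), rfl⟩
      · rw [← h3', Submodule.span_le]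
        rintro _ ⟨⟨i, k⟩, rfl⟩
        exact Submodule.subset_span ⟨(Sum.inr i, k), rfl⟩
  · rintro (i | i) k
    · exact h5 i k
    · exact h5' i k

lemma Dec.smul {x : V →ₗ[F] V} {a t : ℕ} {W : Submodule F V} (h : Dec x a W t) (c : F) (y : V →ₗ[F] V) (hy : ∀ v, y v = c • x v) :
    Dec y a W t := by
  obtain ⟨ι, i1, b, τ, h1, h2, h3, h5⟩ := h
  refine ⟨ι, i1, b, τ, h1, h2, h3, fun i k => ?_⟩
  rw [hy]
  exact Submodule.smul_mem _ _ (h5 i k)

lemma Dec.inv [FiniteDimensional F V] {x : V →ₗ[F] V} {a : ℕ} {D : Submodule F V} (hD : Inv x D) (ha : finrank F D = a) : Dec x a D 1 := by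
  let b : Basis (Fin a) F D := finBasisOfFinrankEq F D ha
  have hsp : Submodule.span F (Set.range fun k => (b k : V)) = D := by
    have e1 : Set.range (fun k => (b k : V)) = D.subtype '' Set.range b := by
      rw [← Set.range_comp]; rfl
    rw [e1, ← Submodule.map_span, b.span_eq, Submodule.map_top, Submodule.range_subtype]
  refine ⟨Unit, inferInstance, fun p => (b p.2 : V), 1, Fintype.card_unit, ?_, ?_, ?_⟩
  · have h1 : LinearIndependent F (fun k => (b k : V)) := b.linearIndependent.map' D.subtype (Submodule.ker_subtype _)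
    exact h1.comp (fun p : Unit × Fin a => p.2) (by
      rintro ⟨i, k⟩ ⟨j, l⟩ h
      exact Prod.ext rfl h)
  · refine Eq.trans (congrArg (Submodule.span F) ?_) hsp
    ext v
    constructor
    · rintro ⟨⟨i, k⟩, rfl⟩
      exact ⟨k, rfl⟩
    · rintro ⟨k, rfl⟩
      exact ⟨((), k), rfl⟩
  · intro i k
    rw [hsp]
    exact hD _ (b k).2

/-- fixed vectors -/
lemma Dec.fix [FiniteDimensional F V] {x : V →ₗ[F] V} {D : Submodule F V} (hD : D ≤ Fx x) : Dec x 1 D (finrank F D) := by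
  let b : Basis (Fin (finrank F D)) F D := finBasis F D
  have hsp : Submodule.span F (Set.range fun k => (b k : V)) = D := by
    have e1 : Set.range (fun k => (b k : V)) = D.subtype '' Set.range b := by
      rw [← Set.range_comp]; rfl
    rw [e1, ← Submodule.map_span, b.span_eq, Submodule.map_top, Submodule.range_subtype]
  refine ⟨Fin (finrank F D), inferInstance, fun p => (b p.1 : V), 1, Fintype.card_fin _, ?_, ?_, ?_⟩
  · have h1 : LinearIndependent F (fun k => (b k : V)) := b.linearIndependent.map' D.subtype (Submodule.ker_subtype _)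
    exact h1.comp (fun p : Fin (finrank F D) × Fin 1 => p.1) (by
      rintro ⟨i, k⟩ ⟨j, l⟩ h
      exact Prod.ext h (Subsingleton.elim _ _))
  · refine Eq.trans (congrArg (Submodule.span F) ?_) hsp
    ext v
    constructor
    · rintro ⟨⟨i, k⟩, rfl⟩
      exact ⟨i, rfl⟩
    · rintro ⟨k, rfl⟩
      exact ⟨(k, 0), rfl⟩
  · intro i k
    rw [mem_Fx.1 (hD (b i).2)]
    exact Submodule.subset_span ⟨0, rfl⟩

/-- `W` has a basis consisting of `m` chains of length `r`. -/
def Cyc (r : ℕ) (x : V →ₗ[F] V) (W : Submodule F V) (m : ℕ) : Prop :=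
  ∃ (κ : Type) (_ : Fintype κ) (v : κ → V), Fintype.card κ = m ∧
    LinearIndependent F (fun p : κ × Fin r => (x ^ (p.2 : ℕ)) (v p.1)) ∧
    Submodule.span F (Set.range (fun p : κ × Fin r => (x ^ (p.2 : ℕ)) (v p.1))) = W

lemma Cyc.bot (r : ℕ) (x : V →ₗ[F] V) : Cyc r x ⊥ 0 := by
  refine ⟨Empty, inferInstance, fun p => p.elim, Fintype.card_empty, ?_, ?_⟩
  · exact linearIndependent_empty_type
  · rw [Set.range_eq_empty, Submodule.span_empty]

lemma Cyc.sup {r : ℕ} {x : V →ₗ[F] V} {m m' : ℕ} {W W' : Submodule F V} (h : Cyc r x W m)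
    (h' : Cyc r x W' m') (hd : Disjoint W W') : Cyc r x (W ⊔ W') (m + m') := by
  obtain ⟨ι, _, v, h1, h2, h3⟩ := h
  obtain ⟨ι', _, v', h1', h2', h3'⟩ := h'
  have hbW : ∀ p : ι × Fin r, (x ^ (p.2 : ℕ)) (v p.1) ∈ W := fun p => by rw [← h3]; exact Submodule.subset_span ⟨p, rfl⟩
  have hbW' : ∀ p : ι' × Fin r, (x ^ (p.2 : ℕ)) (v' p.1) ∈ W' := fun p => by rw [← h3']; exact Submodule.subset_span ⟨p, rfl⟩
  refine ⟨ι ⊕ ι', inferInstance, Sum.elim v v', ?_, ?_, ?_⟩
  · rw [Fintype.card_sum, h1, h1']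
  · have hs := h2.sum_type h2' (by rw [h3, h3']; exact hd)
    have := hs.comp (Equiv.sumProdDistrib ι ι' (Fin r)) (Equiv.injective _)
    have e1 : (fun p : (ι ⊕ ι') × Fin r => (x ^ (p.2 : ℕ)) (Sum.elim v v' p.1)) =
        (Sum.elim (fun p : ι × Fin r => (x ^ (p.2 : ℕ)) (v p.1)) fun p : ι' × Fin r => (x ^ (p.2 : ℕ)) (v' p.1)) ∘
          (Equiv.sumProdDistrib ι ι' (Fin r)) := by
      funext ⟨i, k⟩
      rcases i with i | i <;> rfl
    rw [e1]; exact this
  · apply le_antisymm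
    · rw [Submodule.span_le]
      rintro _ ⟨⟨i | i, k⟩, rfl⟩
      · exact (le_sup_left : W ≤ W ⊔ W') (hbW (i, k))
      · exact (le_sup_right : W' ≤ W ⊔ W') (hbW' (i, k))
    · refine sup_le ?_ ?_
      · rw [← h3, Submodule.span_le]
        rintro _ ⟨⟨i, k⟩, rfl⟩
        exact Submodule.subset_span ⟨(Sum.inl i, k), rfl⟩
      · rw [← h3', Submodule.span_le]
        rintro _ ⟨⟨i, k⟩, rfl⟩
        exact Submodule.subset_span ⟨(Sum.inr i, k), rfl⟩

lemma Cyc.dec {r : ℕ} (hr : 0 < r) {x : V →ₗ[F] V} {a : ℕ} {W : Submodule F V} (h : Cyc r x W a) (z : F) (hx : x ^ r = z • 1) :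
    Dec x a W r := by
  obtain ⟨κ, _, v, h1, h2, h3⟩ := h
  let e : Fin a ≃ κ := (Fintype.equivFinOfCardEq h1).symm
  obtain ⟨m, rfl⟩ : ∃ m, r = m + 1 := ⟨r - 1, by omega⟩
  refine ⟨Fin (m + 1), inferInstance, fun p => (x ^ (p.1 : ℕ)) (v (e p.2)), finRotate (m + 1), Fintype.card_fin _, ?_, ?_, ?_⟩
  · exact h2.comp (fun p : Fin (m + 1) × Fin a => (e p.2, p.1)) (by
      rintro ⟨i, k⟩ ⟨j, l⟩ h
      have h4 : (e k, i) = (e l, j) := h
      rw [Prod.mk.injEq] at h4
      exact Prod.ext h4.2 (e.injective h4.1))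
  · rw [← h3]
    refine congrArg (Submodule.span F) ?_
    ext u
    constructor
    · rintro ⟨⟨i, k⟩, rfl⟩
      exact ⟨(e k, i), rfl⟩
    · rintro ⟨⟨k, i⟩, rfl⟩
      exact ⟨(i, e.symm k), by simp⟩
  · intro i k
    show x ((x ^ (i : ℕ)) (v (e k))) ∈ _
    rw [← Module.End.mul_apply, ← pow_succ', finRotate_apply]
    by_cases hi : i = Fin.last m
    · rw [hi, Fin.val_last, hx]
      have h5 : (Fin.last m + 1 : Fin (m + 1)) = 0 := Fin.last_add_one m
      rw [h5]
      refine Submodule.smul_mem _ _ (Submodule.subset_span ⟨k, ?_⟩)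
      simp
    · refine Submodule.subset_span ⟨k, ?_⟩
      show (x ^ ((i + 1 : Fin (m + 1)) : ℕ)) (v (e k)) = _
      rw [Fin.val_add_one_of_lt (lt_of_le_of_ne (Fin.le_last i) hi)]

lemma cyc_one [FiniteDimensional F V] {r : ℕ} {x : V →ₗ[F] V} {W : Submodule F V} (hW : finrank F W = r) (v : V)
    (hv : Submodule.span F (Set.range (fun j : Fin r => (x ^ (j : ℕ)) v)) = W) : Cyc r x W 1 := by
  have h1 : LinearIndependent F (fun j : Fin r => (x ^ (j : ℕ)) v) := by
    rw [linearIndependent_iff_card_eq_finrank_span, Fintype.card_fin, Set.finrank, hv, hW]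
  refine ⟨Unit, inferInstance, fun _ => v, Fintype.card_unit, ?_, ?_⟩
  · exact h1.comp (fun p : Unit × Fin r => p.2) (by
      rintro ⟨i, k⟩ ⟨j, l⟩ h
      exact Prod.ext rfl h)
  · rw [← hv]
    refine congrArg (Submodule.span F) ?_
    ext u
    constructor
    · rintro ⟨⟨i, k⟩, rfl⟩
      exact ⟨k, rfl⟩
    · rintro ⟨k, rfl⟩
      exact ⟨((), k), rfl⟩

/-- the final form -/
theorem Dec.boxes [FiniteDimensional F V] {x : V →ₗ[F] V} (hx : Function.Injective x) {a t : ℕ} (h : Dec x a ⊤ t) :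
    ∃ (D : Fin t → Submodule F V) (σ : Equiv.Perm (Fin t)), (∀ k, finrank F (D k) = a) ∧ iSupIndep D ∧
      iSup D = ⊤ ∧ (∀ k, (D k).map x = D (σ k)) := by
  classical
  obtain ⟨ι, _, b, τ, h1, h2, h3, h5⟩ := h
  let e : ι ≃ Fin t := Fintype.equivFinOfCardEq h1
  let D : Fin t → Submodule F V := fun k => Submodule.span F (Set.range fun l => b (e.symm k, l))
  have hrank : ∀ k, finrank F (D k) = a := by
    intro k
    have hli : LinearIndependent F (fun l : Fin a => b (e.symm k, l)) :=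
      h2.comp (fun l => (e.symm k, l)) (fun l l' h => congrArg Prod.snd h)
    show finrank F (Submodule.span F (Set.range fun l => b (e.symm k, l))) = a
    rw [finrank_span_eq_card hli, Fintype.card_fin]
  refine ⟨D, (e.symm.trans τ).trans e, hrank, ?_, ?_, ?_⟩
  · intro k
    have e3 : (⨆ j, ⨆ (_ : j ≠ k), D j) ≤ Submodule.span F (b '' {p | e p.1 ≠ k}) := by
      refine iSup₂_le fun j hj => Submodule.span_mono ?_
      rintro _ ⟨l, rfl⟩
      exact ⟨(e.symm j, l), by
        show e (e.symm j) ≠ k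
        rw [Equiv.apply_symm_apply]; exact hj, rfl⟩
    have e4 : D k ≤ Submodule.span F (b '' {p | e p.1 = k}) := by
      refine Submodule.span_mono ?_
      rintro _ ⟨l, rfl⟩
      exact ⟨(e.symm k, l), by
        show e (e.symm k) = k
        rw [Equiv.apply_symm_apply], rfl⟩
    refine Disjoint.mono e4 e3 (h2.disjoint_span_image ?_)
    rw [Set.disjoint_left]
    intro p hp hp2
    exact hp2 hp
  · rw [eq_top_iff, ← h3, Submodule.span_le]
    rintro _ ⟨p, rfl⟩
    refine (le_iSup D (e p.1)) (Submodule.subset_span ⟨p.2, ?_⟩)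
    simp
  · intro k
    have hle : (D k).map x ≤ D (((e.symm.trans τ).trans e) k) := by
      show (Submodule.span F (Set.range fun l => b (e.symm k, l))).map x ≤ _
      rw [Submodule.map_span, Submodule.span_le]
      rintro _ ⟨_, ⟨l, rfl⟩, rfl⟩
      have hmem := h5 (e.symm k) l
      show _ ∈ Submodule.span F (Set.range fun l => b (e.symm (e (τ (e.symm k))), l))
      rw [Equiv.symm_apply_apply]
      exact hmem
    refine Submodule.eq_of_le_of_finrank_eq hle ?_
    rw [hrank, ← (Submodule.equivMapOfInjective x hx (D k)).finrank_eq, hrank]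

end CfsgLib.Dec29
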