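import Cfsg.Agent.LibDec29a

/-! Construction of decompositions permuted by a map of prime order (seat helper29). -/

namespace CfsgLib.Dec29

open Module CfsgLib.Semi29 Polynomial

variable {F V : Type*} [Field F] [AddCommGroup V] [Module F V]

lemma e_add [FiniteDimensional F V] {x : V →ₗ[F] V} {U U' : Submodule F V} (hU : Inv x U) (hU' : Inv x U') (h : U ⊓ U' = ⊥) :
    finrank F ((U ⊔ U') ⊓ Fx x : Submodule F V) = finrank F (U ⊓ Fx x : Submodule F V) + finrank F (U' ⊓ Fx x : Submodule F V) := by
  apply finrank_add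
  · rw [eq_bot_iff, ← h]
    exact inf_le_inf inf_le_left inf_le_left
  · apply le_antisymm
    · exact sup_le (inf_le_inf_right _ le_sup_left) (inf_le_inf_right _ le_sup_right)
    · rintro v ⟨hv, hvx⟩
      obtain ⟨u, hu, u', hu', rfl⟩ := Submodule.mem_sup.1 hv
      have h1 := mem_Fx.1 hvx
      rw [map_add] at h1
      have h2 : x u - u = u' - x u' := by
        rw [sub_eq_sub_iff_add_eq_add, h1, add_comm]
      have h3 : x u - u ∈ U ⊓ U' := by
        refine ⟨U.sub_mem (hU u hu) hu, ?_⟩
        rw [h2]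
        exact U'.sub_mem hu' (hU' u' hu')
      have h4 : u' - x u' ∈ U ⊓ U' := by rw [← h2]; exact h3
      rw [h, Submodule.mem_bot, sub_eq_zero] at h3 h4
      exact Submodule.add_mem_sup ⟨hu, mem_Fx.2 h3⟩ ⟨hu', mem_Fx.2 h4.symm⟩

/-- splitting off an invariant subspace with prescribed dimensions -/
lemma split_one [FiniteDimensional F V] {x : V →ₗ[F] V} (hss : Semi x) {c : ℕ} (hmin : Dim x c) {W : Submodule F V} (hW : Inv x W)
    (m κ : ℕ) (hm : m ≤ finrank F (W ⊓ Fx x : Submodule F V)) (hκ : finrank F (W ⊓ Fx x : Submodule F V) + κ * c ≤ finrank F W) :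
    ∃ D W' : Submodule F V, Inv x D ∧ Inv x W' ∧ D ⊓ W' = ⊥ ∧ D ⊔ W' = W ∧ finrank F D = m + κ * c ∧
      finrank F (W' ⊓ Fx x : Submodule F V) + m = finrank F (W ⊓ Fx x : Submodule F V) := by
  obtain ⟨C, hC, hCi, hC1, hC2⟩ := rel_compl hss (hW.inf (inv_Fx x)) hW inf_le_left
  have hC3 := finrank_add hC1 hC2
  have hCF : C ⊓ Fx x = ⊥ := by
    rw [eq_bot_iff, ← hC1]
    exact le_inf (le_inf (inf_le_left.trans hC) inf_le_right) inf_le_left
  obtain ⟨A, hA, hAd⟩ := exists_sub (W ⊓ Fx x) m hm
  obtain ⟨B, hB, hBi, hBd⟩ := block_exists hss c C hCi (fun R hR hR2 => hmin R hR2 (min_nonfix hCF hR hR2)) κ (by omega)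
  have hAi : Inv x A := inv_of_le_Fx (hA.trans inf_le_right)
  have hAB : A ⊓ B = ⊥ := by
    rw [eq_bot_iff, ← hC1]
    exact inf_le_inf hA hB
  have hDW : A ⊔ B ≤ W := sup_le (hA.trans inf_le_left) (hB.trans hC)
  obtain ⟨W', hW', hW'i, h1, h2⟩ := rel_compl hss (hAi.sup hBi) hW hDW
  refine ⟨A ⊔ B, W', hAi.sup hBi, hW'i, h1, h2, ?_, ?_⟩
  · rw [finrank_add hAB rfl, hAd, hBd]
  · have h3 := e_add (hAi.sup hBi) hW'i h1
    have h4 := e_add hAi hBi hAB
    rw [h2, h4] at h3
    have h5 : A ⊓ Fx x = A := inf_eq_left.2 (hA.trans inf_le_right)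
    have h6 : B ⊓ Fx x = ⊥ := by
      rw [eq_bot_iff, ← hCF]
      exact inf_le_inf_right _ hB
    rw [h5, h6, finrank_bot, hAd] at h3
    omega

/-- invariant summands -/
theorem dec_of_small [FiniteDimensional F V] {x : V →ₗ[F] V} (hss : Semi x) {c : ℕ} (hmin : Dim x c) (a : ℕ) :
    ∀ t, ∀ W : Submodule F V, Inv x W → finrank F W = t * a → t * (a % c) ≤ finrank F (W ⊓ Fx x : Submodule F V) → Dec x a W t := by
  intro t
  induction t with
  | zero =>
    intro W hW h1 _
    rw [zero_mul, Submodule.finrank_eq_zero] at h1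
    rw [h1]
    exact Dec.bot x a
  | succ t ih =>
    intro W hW h1 h2
    obtain ⟨K, hK⟩ := dims hss hmin W hW
    have hac := Nat.mod_add_div a c
    have hmul : (t + 1) * a = t * a + a := by ring
    have hmul2 : (t + 1) * (a % c) = t * (a % c) + a % c := by ring
    rw [hmul] at h1
    rw [hmul2] at h2
    have hle : t * (a % c) ≤ t * a := Nat.mul_le_mul_left t (Nat.mod_le a c)
    rcases le_total (a / c) K with h3 | h3
    · have h4 : (a / c) * c ≤ K * c := Nat.mul_le_mul_right c h3
      obtain ⟨D, W', hD, hW', h5, h6, h7, h8⟩ := split_one hss hmin hW (a % c) (a / c) (by omega) (by omega)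
      have h9 := finrank_add h5 h6
      have h10 : a / c * c = c * (a / c) := mul_comm _ _
      have := (Dec.inv hD (show finrank F D = a by omega)).sup (ih W' hW' (by omega) (by omega)) (disjoint_iff.2 h5)
      rw [h6, add_comm 1 t] at this
      exact this
    · have h4 : K * c ≤ (a / c) * c := Nat.mul_le_mul_right c h3
      have h10 : a / c * c = c * (a / c) := mul_comm _ _
      obtain ⟨D, W', hD, hW', h5, h6, h7, h8⟩ := split_one hss hmin hW (a - K * c) K (by omega) (by omega)
      have h9 := finrank_add h5 h6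
      have := (Dec.inv hD (show finrank F D = a by omega)).sup (ih W' hW' (by omega) (by omega)) (disjoint_iff.2 h5)
      rw [h6, add_comm 1 t] at this
      exact this

lemma span_inv {x : V →ₗ[F] V} {r : ℕ} (hr : 0 < r) {z : F} (hx : x ^ r = z • 1) (v : V) :
    Inv x (Submodule.span F (Set.range (fun j : Fin r => (x ^ (j : ℕ)) v))) := by
  have h1 : (Submodule.span F (Set.range (fun j : Fin r => (x ^ (j : ℕ)) v))).map x ≤ Submodule.span F (Set.range (fun j : Fin r => (x ^ (j : ℕ)) v)) := by
    rw [Submodule.map_span, Submodule.span_le]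
    rintro _ ⟨_, ⟨j, rfl⟩, rfl⟩
    show x ((x ^ (j : ℕ)) v) ∈ _
    rw [← Module.End.mul_apply, ← pow_succ']
    by_cases hj : (j : ℕ) + 1 < r
    · exact Submodule.subset_span ⟨⟨(j : ℕ) + 1, hj⟩, rfl⟩
    · have hj2 : (j : ℕ) + 1 = r := by have := j.2; omega
      rw [hj2, hx]
      refine Submodule.smul_mem _ _ (Submodule.subset_span ⟨⟨0, hr⟩, ?_⟩)
      simp
  intro u hu
  exact h1 ⟨u, hu, rfl⟩

lemma mem_pow {x : V →ₗ[F] V} {W : Submodule F V} (hW : Inv x W) (k : ℕ) : ∀ u ∈ W, (x ^ k) u ∈ W := by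
  induction k with
  | zero => intro u hu; simpa using hu
  | succ k ih =>
    intro u hu
    rw [pow_succ', Module.End.mul_apply]
    exact hW _ (ih u hu)

lemma span_le_of {x : V →ₗ[F] V} {W : Submodule F V} (hW : Inv x W) {r : ℕ} {v : V} (hv : v ∈ W) :
    Submodule.span F (Set.range (fun j : Fin r => (x ^ (j : ℕ)) v)) ≤ W := by
  rw [Submodule.span_le]
  rintro _ ⟨j, rfl⟩
  exact mem_pow hW _ v hv

lemma cyc_min [FiniteDimensional F V] {x : V →ₗ[F] V} {r : ℕ} (hr : 0 < r) {z : F} (hx : x ^ r = z • 1) {R : Submodule F V} (hR : IsMinInv x R)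
    (hd : finrank F R = r) : Cyc r x R 1 := by
  obtain ⟨v, hv, hv0⟩ := (Submodule.ne_bot_iff R).1 hR.1
  refine cyc_one hd v ?_
  rcases hR.2.2 _ (span_le_of (r := r) hR.2.1 hv) (span_inv hr hx v) with h | h
  · exfalso
    apply hv0
    have h1 : v ∈ Submodule.span F (Set.range (fun j : Fin r => (x ^ (j : ℕ)) v)) := Submodule.subset_span ⟨⟨0, hr⟩, by simp⟩
    rw [h] at h1
    exact h1
  · exact h

/-- chains in the irreducible case -/
theorem cyc_of_irred [FiniteDimensional F V] {x : V →ₗ[F] V} (hss : Semi x) {r : ℕ} (hr : 0 < r) {z : F} (hx : x ^ r = z • 1)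
    (hmin : ∀ R : Submodule F V, IsMinInv x R → finrank F R = r) :
    ∀ m, ∀ W : Submodule F V, Inv x W → finrank F W = m * r → Cyc r x W m := by
  intro m
  induction m with
  | zero =>
    intro W _ h
    rw [zero_mul, Submodule.finrank_eq_zero] at h
    rw [h]; exact Cyc.bot r x
  | succ m ih =>
    intro W hW h
    have hmul : (m + 1) * r = m * r + r := by ring
    rw [hmul] at h
    have h0 : W ≠ ⊥ := by
      intro h0
      rw [h0, finrank_bot] at h
      omega
    obtain ⟨R, hRW, hR⟩ := exists_minInv x _ W rfl h0 hW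
    obtain ⟨W', h1, h2, h3, h4⟩ := rel_compl hss hR.2.1 hW hRW
    have h5 := finrank_add h3 h4
    have h6 := hmin R hR
    have := (cyc_min hr hx hR h6).sup (ih W' h2 (by omega)) (disjoint_iff.2 h3)
    rw [h4, add_comm 1 m] at this
    exact this

theorem dec_of_irred [FiniteDimensional F V] {x : V →ₗ[F] V} (hss : Semi x) {r : ℕ} (hr : r.Prime) {z : F} (hx : x ^ r = z • 1)
    (hmin : ∀ R : Submodule F V, IsMinInv x R → finrank F R = r) (a t : ℕ) (hat : r ∣ a * t) (W : Submodule F V) (hW : Inv x W)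
    (hd : finrank F W = t * a) : Dec x a W t := by
  rcases (Nat.Prime.dvd_mul hr).1 hat with h | h
  · obtain ⟨m, rfl⟩ := h
    clear hat
    induction t generalizing W with
    | zero =>
      rw [zero_mul, Submodule.finrank_eq_zero] at hd
      rw [hd]; exact Dec.bot x _
    | succ t ih =>
      have hmul : (t + 1) * (r * m) = t * (r * m) + m * r := by ring
      rw [hmul] at hd
      obtain ⟨D, h1, h2, h3⟩ := block_exists hss r W hW (fun R _ hR => hmin R hR) m (by omega)
      obtain ⟨W', h4, h5, h6, h7⟩ := rel_compl hss h2 hW h1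
      have h8 := finrank_add h6 h7
      have := (Dec.inv h2 (show finrank F D = r * m by rw [h3, mul_comm])).sup (ih W' h5 (by omega)) (disjoint_iff.2 h6)
      rw [h7, add_comm 1 t] at this
      exact this
  · obtain ⟨s, rfl⟩ := h
    clear hat
    induction s generalizing W with
    | zero =>
      rw [mul_zero, zero_mul, Submodule.finrank_eq_zero] at hd
      rw [hd, mul_zero]; exact Dec.bot x _
    | succ s ih =>
      have hmul : r * (s + 1) * a = r * s * a + a * r := by ring
      rw [hmul] at hd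
      obtain ⟨D, h1, h2, h3⟩ := block_exists hss r W hW (fun R _ hR => hmin R hR) a (by omega)
      obtain ⟨W', h4, h5, h6, h7⟩ := rel_compl hss h2 hW h1
      have h8 := finrank_add h6 h7
      have h9 := (cyc_of_irred hss hr.pos hx hmin a D h2 h3).dec hr.pos z hx
      have := h9.sup (ih W' h5 (by omega)) (disjoint_iff.2 h6)
      rw [h7, show r + r * s = r * (s + 1) by ring] at this
      exact this

/-- permuted bases -/
theorem dec_lines [FiniteDimensional F V] {x : V →ₗ[F] V} (hss : Semi x) {r : ℕ} (hr : r.Prime) (hrF : (r : F) ≠ 0) (hx : x ^ r = 1)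
    (hmin : Dim x (r - 1)) :
    ∀ K, ∀ W : Submodule F V, Inv x W → finrank F W = finrank F (W ⊓ Fx x : Submodule F V) + K * (r - 1) →
      K ≤ finrank F (W ⊓ Fx x : Submodule F V) → Dec x 1 W (finrank F W) := by
  intro K
  induction K with
  | zero =>
    intro W hW h1 _
    rw [zero_mul, add_zero] at h1
    have h2 : W ⊓ Fx x = W := Submodule.eq_of_le_of_finrank_eq inf_le_left h1.symm
    exact Dec.fix (inf_eq_left.1 h2)
  | succ K ih =>
    intro W hW h1 h2
    have hr2 := hr.two_le
    have hmul : (K + 1) * (r - 1) = K * (r - 1) + (r - 1) := by ring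
    rw [hmul] at h1
    obtain ⟨C, hC, hCi, hC1, hC2⟩ := rel_compl hss (hW.inf (inv_Fx x)) hW inf_le_left
    have hC3 := finrank_add hC1 hC2
    have hCF : C ⊓ Fx x = ⊥ := by
      rw [eq_bot_iff, ← hC1]
      exact le_inf (le_inf (inf_le_left.trans hC) inf_le_right) inf_le_left
    have hC0 : C ≠ ⊥ := by
      intro h
      rw [h, finrank_bot] at hC3
      omega
    obtain ⟨R, hRC, hR⟩ := exists_minInv x _ C rfl hC0 hCi
    have hRd : finrank F R = r - 1 := hmin R hR (min_nonfix hCF hRC hR)
    have hRF : R ⊓ Fx x = ⊥ := by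
      rw [eq_bot_iff, ← hCF]
      exact inf_le_inf_right _ hRC
    obtain ⟨f, hf, hf0⟩ : ∃ f ∈ W ⊓ Fx x, f ≠ 0 := by
      apply (Submodule.ne_bot_iff _).1
      intro h
      rw [h, finrank_bot] at h2
      omega
    obtain ⟨b, hb, hb0⟩ := (Submodule.ne_bot_iff R).1 hR.1
    have hfx : x f = f := mem_Fx.1 hf.2
    have hL : Submodule.span F {f} ≤ W ⊓ Fx x := by
      rw [Submodule.span_le]
      rintro _ rfl
      exact hf
    have hLi : Inv x (Submodule.span F {f}) := inv_of_le_Fx (hL.trans inf_le_right)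
    have hLR : Submodule.span F {f} ⊓ R = ⊥ := by
      rw [eq_bot_iff, ← hC1]
      exact inf_le_inf hL hRC
    have hLd : finrank F (Submodule.span F {f}) = 1 := finrank_span_singleton hf0
    have hUd : finrank F (Submodule.span F {f} ⊔ R : Submodule F V) = r := by
      rw [finrank_add hLR rfl, hLd, hRd]; omega
    have hx1 : x ^ r = (1 : F) • 1 := by rw [hx, one_smul]
    have hcyc : Cyc r x (Submodule.span F {f} ⊔ R) 1 := by
      refine cyc_one hUd (f + b) ?_
      have hS := span_inv hr.pos hx1 (f + b)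
      obtain ⟨S, hSd⟩ : ∃ S, S = Submodule.span F (Set.range (fun j : Fin r => (x ^ (j : ℕ)) (f + b))) := ⟨_, rfl⟩
      rw [← hSd] at hS ⊢
      have hfS : f ∈ S := by
        have h3 : ∑ j : Fin r, (x ^ (j : ℕ)) (f + b) ∈ S := by
          rw [hSd]
          exact Submodule.sum_mem _ fun j _ => Submodule.subset_span ⟨j, rfl⟩
        have h4 : ∀ k : ℕ, (x ^ k) f = f := by
          intro k
          induction k with
          | zero => simp
          | succ k ihk => rw [pow_succ', Module.End.mul_apply, ihk, hfx]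
        have h5 : ∑ j : Fin r, (x ^ (j : ℕ)) b = 0 := by
          have h6 : ∑ j : Fin r, (x ^ (j : ℕ)) b ∈ R ⊓ Fx x := by
            refine ⟨Submodule.sum_mem _ fun j _ => mem_pow hR.2.1 _ b hb, mem_Fx.2 ?_⟩
            rw [Fin.sum_univ_eq_sum_range (fun j => (x ^ j) b) r, map_sum]
            have h7 : ∀ j ∈ Finset.range r, x ((x ^ j) b) = (x ^ (j + 1)) b := fun j _ => by rw [pow_succ', Module.End.mul_apply]
            rw [Finset.sum_congr rfl h7]
            have h8 := Finset.sum_range_succ (fun j => (x ^ j) b) r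
            rw [Finset.sum_range_succ' (fun j => (x ^ j) b) r] at h8
            rw [hx, pow_zero] at h8
            exact add_right_cancel h8
          rw [hRF] at h6
          exact h6
        have h9 : ∑ j : Fin r, (x ^ (j : ℕ)) (f + b) = (r : F) • f := by
          simp only [map_add, h4, Finset.sum_add_distrib, h5, add_zero, Finset.sum_const, Finset.card_univ, Fintype.card_fin]
          rw [Nat.cast_smul_eq_nsmul]
        rw [h9] at h3
        have h10 := S.smul_mem (r : F)⁻¹ h3
        rw [smul_smul, inv_mul_cancel₀ hrF, one_smul] at h10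
        exact h10
      have hvS : f + b ∈ S := by
        rw [hSd]
        exact Submodule.subset_span ⟨⟨0, hr.pos⟩, by simp⟩
      have hbS : b ∈ S := by
        have := S.sub_mem hvS hfS
        rwa [add_sub_cancel_left] at this
      apply le_antisymm
      · rw [hSd]
        exact span_le_of (hLi.sup hR.2.1) (Submodule.add_mem_sup (Submodule.mem_span_singleton_self f) hb)
      · refine sup_le ?_ ?_
        · rw [Submodule.span_le]
          rintro _ rfl
          exact hfS
        · rcases hR.2.2 (S ⊓ R) inf_le_right (fun u hu => ⟨hS u hu.1, hR.2.1 u hu.2⟩) with h | h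
          · exfalso
            apply hb0
            have : b ∈ S ⊓ R := ⟨hbS, hb⟩
            rw [h] at this
            exact this
          · exact inf_eq_right.1 h
    have hUi : Inv x (Submodule.span F {f} ⊔ R) := hLi.sup hR.2.1
    have hUW : Submodule.span F {f} ⊔ R ≤ W := sup_le (hL.trans inf_le_left) (hRC.trans hC)
    obtain ⟨W', h3, h4, h5, h6⟩ := rel_compl hss hUi hW hUW
    have h7 := finrank_add h5 h6
    have h8 := e_add hUi h4 h5
    have h9 := e_add hLi hR.2.1 hLR
    rw [h6, h9, hRF, finrank_bot, inf_eq_left.2 (hL.trans inf_le_right), hLd] at h8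
    have h10 := ((hcyc.dec hr.pos 1 hx1).sup (ih W' h4 (by omega) (by omega)) (disjoint_iff.2 h5))
    rw [h6, show r + finrank F W' = finrank F W by omega] at h10
    exact h10

end CfsgLib.Dec29
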