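import Cfsg.Agent.LibDec29b

/-! Restrictions on decompositions permuted by a map of prime order (seat helper29). -/

namespace CfsgLib.Dec29

open Module CfsgLib.Semi29

variable {F V : Type*} [Field F] [AddCommGroup V] [Module F V]

lemma inj_of_indep {κ : Type*} [Fintype κ] {E : κ → Submodule F V} (h : iSupIndep E) (v : κ → V) (hv : ∀ i, v i ∈ E i)
    (h0 : ∑ i, v i = 0) : ∀ i, v i = 0 := fun i =>
  (iSupIndep_iff_finsetSum_eq_zero_imp_eq_zero E).1 h Finset.univ v (fun i _ => hv i) h0 i (Finset.mem_univ i)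

/-- invariant summands give fixed vectors -/
theorem sum_fix [FiniteDimensional F V] {x : V →ₗ[F] V} {t : ℕ} {D : Fin t → Submodule F V} (hD : iSupIndep D) (l : ℕ)
    (h : ∀ i, l ≤ finrank F (D i ⊓ Fx x : Submodule F V)) : t * l ≤ finrank F (Fx x) := by
  let Ψ : ((i : Fin t) → (D i ⊓ Fx x : Submodule F V)) →ₗ[F] Fx x :=
    ∑ i, (Submodule.inclusion (inf_le_right : D i ⊓ Fx x ≤ Fx x)) ∘ₗ LinearMap.proj i
  have hΨ : ∀ w, ((Ψ w : Fx x) : V) = ∑ i, (w i : V) := by
    intro w
    simp [Ψ, LinearMap.sum_apply]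
  have hinj : Function.Injective Ψ := by
    rw [← LinearMap.ker_eq_bot, eq_bot_iff]
    intro w hw
    have h1 : ∑ i, (w i : V) = 0 := by rw [← hΨ, LinearMap.mem_ker.1 hw]; rfl
    have h2 := inj_of_indep hD (fun i => (w i : V)) (fun i => (w i).2.1) h1
    exact funext fun i => Subtype.ext (h2 i)
  have h1 := LinearMap.finrank_le_finrank_of_injective hinj
  rw [Module.finrank_pi_fintype] at h1
  refine le_trans ?_ h1
  calc t * l = ∑ _i : Fin t, l := by rw [Finset.sum_const, Finset.card_univ, Fintype.card_fin, smul_eq_mul]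
    _ ≤ _ := Finset.sum_le_sum fun i _ => h i

section moved
variable [FiniteDimensional F V] {x : V →ₗ[F] V} {r : ℕ} {t a : ℕ} {D : Fin t → Submodule F V} {σ : Equiv.Perm (Fin t)}

lemma map_iter (hσ : ∀ k, (D k).map x = D (σ k)) (j : Fin t) (l : ℕ) (u : V) (hu : u ∈ D j) : (x ^ l) u ∈ D ((⇑σ)^[l] j) := by
  induction l with
  | zero => simpa using hu
  | succ l ih =>
    rw [pow_succ', Module.End.mul_apply, Function.iterate_succ_apply', ← hσ]
    exact ⟨_, ih, rfl⟩

/-- the period of a moved summand -/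
lemma period (hr : r.Prime) (hx : x ^ r = 1) (hD : iSupIndep D) (hne : ∀ k, D k ≠ ⊥) (hσ : ∀ k, (D k).map x = D (σ k)) (j : Fin t)
    (hj : σ j ≠ j) : Function.minimalPeriod σ j = r := by
  haveI := Fact.mk hr
  refine Function.minimalPeriod_eq_prime ?_ hj
  have hinj := hD.injective hne
  show (⇑σ)^[r] j = j
  by_contra hcon
  obtain ⟨u, hu, hu0⟩ := (Submodule.ne_bot_iff _).1 (hne j)
  have h1 := map_iter hσ j r u hu
  rw [hx, Module.End.one_apply] at h1
  have h2 := hD.pairwiseDisjoint hcon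
  exact hu0 ((Submodule.disjoint_def.1 h2) u h1 hu)

/-- bounds from a moved summand -/
theorem moved (hr : r.Prime) (hx : x ^ r = 1) (hD : iSupIndep D) (hne : ∀ k, D k ≠ ⊥) (hσ : ∀ k, (D k).map x = D (σ k)) (j : Fin t)
    (hj : σ j ≠ j) : finrank F (D j) ≤ finrank F (Fx x) ∧ finrank F (Fx x) + (r - 1) * finrank F (D j) ≤ finrank F V := by
  have hp := period hr hx hD hne hσ j hj
  obtain ⟨m, rfl⟩ : ∃ m, r = m + 1 := ⟨r - 1, by have := hr.pos; omega⟩
  have hinjσ : Function.Injective (fun l : Fin (m + 1) => (⇑σ)^[(l : ℕ)] j) := by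
    intro l l' h
    apply Fin.ext
    exact Function.iterate_injOn_Iio_minimalPeriod (by rw [hp]; exact l.2) (by rw [hp]; exact l'.2) h
  have hE : iSupIndep (fun l : Fin (m + 1) => D ((⇑σ)^[(l : ℕ)] j)) := hD.comp hinjσ
  let Ψ : (Fin (m + 1) → D j) →ₗ[F] V := ∑ l : Fin (m + 1), (x ^ (l : ℕ)) ∘ₗ (D j).subtype ∘ₗ LinearMap.proj l
  have hΨ : ∀ w, Ψ w = ∑ l : Fin (m + 1), (x ^ (l : ℕ)) (w l : V) := by
    intro w
    simp [Ψ, LinearMap.sum_apply]
  have hxinj : ∀ (l : ℕ) (u : V), (x ^ l) u = 0 → u = 0 := by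
    intro l u hu
    have h1 : (x ^ (l * m)) ((x ^ l) u) = u := by
      rw [← Module.End.mul_apply, ← pow_add, show l * m + l = (m + 1) * l by ring, pow_mul, hx, one_pow, Module.End.one_apply]
    rw [← h1, hu, map_zero]
  have hker : ∀ w, Ψ w = 0 → w = 0 := by
    intro w hw
    rw [hΨ] at hw
    have h1 := inj_of_indep hE (fun l => (x ^ (l : ℕ)) (w l : V)) (fun l => map_iter hσ j l _ (w l).2) hw
    exact funext fun l => Subtype.ext (hxinj l _ (h1 l))
  have hinj : Function.Injective Ψ := by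
    rw [← LinearMap.ker_eq_bot, eq_bot_iff]
    intro w hw
    exact hker w (LinearMap.mem_ker.1 hw)
  have hshift : ∀ w, x (Ψ w) = Ψ (fun l => w (l - 1)) := by
    intro w
    rw [hΨ, hΨ, map_sum]
    refine Eq.trans ?_ (Equiv.sum_comp (Equiv.addRight (1 : Fin (m + 1))) (fun l => (x ^ (l : ℕ)) ((w (l - 1) : D j) : V)))
    refine Finset.sum_congr rfl fun l _ => ?_
    simp only [Equiv.coe_addRight, add_sub_cancel_right]
    rw [← Module.End.mul_apply, ← pow_succ']
    by_cases hl : l = Fin.last m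
    · rw [hl, Fin.val_last, hx, Fin.last_add_one, Fin.val_zero, pow_zero]
    · rw [Fin.val_add_one_of_lt (lt_of_le_of_ne (Fin.le_last l) hl)]
  constructor
  · -- diagonal
    let Δ : D j →ₗ[F] Fx x := LinearMap.codRestrict (Fx x) (Ψ ∘ₗ LinearMap.pi fun _ => LinearMap.id) (fun u => by
      rw [mem_Fx]
      show x (Ψ fun _ => u) = Ψ fun _ => u
      rw [hshift])
    refine LinearMap.finrank_le_finrank_of_injective (f := Δ) ?_
    intro u u' h
    have h1 : Ψ (fun _ => u) = Ψ (fun _ => u') := congrArg Subtype.val h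
    exact congrFun (hinj h1) 0
  · -- vectors with trivial first coordinate
    let ι0 : (Fin m → D j) →ₗ[F] (Fin (m + 1) → D j) := LinearMap.pi (fun l => Fin.cases 0 (fun i => LinearMap.proj i) l)
    have hι0 : ∀ w, (ι0 w) 0 = 0 := fun w => rfl
    have hι1 : ∀ w i, (ι0 w) (Fin.succ i) = w i := fun w i => rfl
    have hι0inj : Function.Injective ι0 := by
      intro w w' h
      funext i
      have h9 := congrFun h (Fin.succ i)
      rw [hι1, hι1] at h9
      exact h9
    have h1 : finrank F (LinearMap.range (Ψ ∘ₗ ι0)) = m * finrank F (D j) := by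
      rw [LinearMap.finrank_range_of_inj (show Function.Injective (Ψ ∘ₗ ι0) from fun a b h => hι0inj (hinj h)), Module.finrank_pi_fintype]
      rw [Finset.sum_const, Finset.card_univ, Fintype.card_fin, smul_eq_mul]
    have h2 : Fx x ⊓ LinearMap.range (Ψ ∘ₗ ι0) = ⊥ := by
      rw [eq_bot_iff]
      rintro _ ⟨hfix, w, rfl⟩
      have h3 : x (Ψ (ι0 w)) = Ψ (ι0 w) := mem_Fx.1 hfix
      rw [hshift] at h3
      have h4 := hinj h3
      have h5 : ∀ l : ℕ, ∀ hl : l < m + 1, (ι0 w) ⟨l, hl⟩ = 0 := by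
        intro l
        induction l with
        | zero => intro hl; exact hι0 w
        | succ l ih =>
          intro hl
          have h6 := congrFun h4 ⟨l + 1, hl⟩
          have h7 : (⟨l + 1, hl⟩ : Fin (m + 1)) - 1 = ⟨l, by omega⟩ := by
            rw [sub_eq_iff_eq_add]
            apply Fin.ext
            rw [Fin.val_add_one_of_lt]
            rw [Fin.lt_def, Fin.val_last]
            show l < m
            omega
          rw [← h6]
          show (ι0 w) (⟨l + 1, hl⟩ - 1) = 0
          rw [h7]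
          exact ih _
      have h8 : ι0 w = 0 := funext fun l => h5 l l.2
      show Ψ (ι0 w) ∈ (⊥ : Submodule F V)
      rw [h8, map_zero]
      exact Submodule.zero_mem _
    have h3 := finrank_add h2 rfl
    rw [h1] at h3
    have h4 := Submodule.finrank_le (Fx x ⊔ LinearMap.range (Ψ ∘ₗ ι0))
    rw [Nat.add_sub_cancel]
    omega

end moved

/-- permuted lines -/
theorem lines_le [FiniteDimensional F V] {x : V →ₗ[F] V} {r : ℕ} (hr : r.Prime) (hrF : (r : F) ≠ 0) (hx : x ^ r = 1)
    (hroot : ∀ b : F, b ^ r = 1 → b = 1) {t : ℕ} {D : Fin t → Submodule F V} {σ : Equiv.Perm (Fin t)} (hD : iSupIndep D)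
    (hfr : ∀ k, finrank F (D k) = 1) (htop : finrank F V = t) (hσ : ∀ k, (D k).map x = D (σ k)) : t ≤ r * finrank F (Fx x) := by
  classical
  have hne : ∀ k, D k ≠ ⊥ := by
    intro k h
    have := hfr k
    rw [h, finrank_bot] at this
    omega
  have hex : ∀ k, ∃ v ∈ D k, v ≠ 0 := fun k => (Submodule.ne_bot_iff _).1 (hne k)
  choose b hb hb0 using hex
  have hli : LinearIndependent F b := hD.linearIndependent D hb hb0
  rcases Nat.eq_zero_or_pos t with ht | ht
  · rw [ht]; exact Nat.zero_le _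
  haveI : Nonempty (Fin t) := ⟨⟨0, ht⟩⟩
  let B : Basis (Fin t) F V := basisOfLinearIndependentOfCardEqFinrank hli (by rw [Fintype.card_fin, htop])
  have hB : ∀ i, B i = b i := fun i => by
    show (basisOfLinearIndependentOfCardEqFinrank hli _) i = b i
    rw [coe_basisOfLinearIndependentOfCardEqFinrank]
  have hspan : ∀ k, ∀ v ∈ D k, ∃ c : F, v = c • b k := by
    intro k v hv
    obtain ⟨c, hc⟩ := (finrank_eq_one_iff_of_nonzero' (⟨b k, hb k⟩ : D k) (fun h => hb0 k (congrArg Subtype.val h))).1 (hfr k) ⟨v, hv⟩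
    exact ⟨c, (congrArg Subtype.val hc).symm⟩
  -- coordinates of members of the lines
  have hcoord : ∀ k, ∀ v ∈ D k, ∀ i, i ≠ k → B.repr v i = 0 := by
    intro k v hv i hik
    obtain ⟨c, rfl⟩ := hspan k v hv
    rw [map_smul, ← hB, B.repr_self, Finsupp.smul_apply, Finsupp.single_apply, if_neg (fun h => hik h.symm), smul_zero]
  let w : Fin t → V := fun i => ∑ l ∈ Finset.range r, (x ^ l) (b i)
  have hwF : ∀ i, w i ∈ Fx x := by
    intro i
    rw [mem_Fx]
    show x (∑ l ∈ Finset.range r, (x ^ l) (b i)) = ∑ l ∈ Finset.range r, (x ^ l) (b i)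
    rw [map_sum]
    have h7 : ∀ j ∈ Finset.range r, x ((x ^ j) (b i)) = (x ^ (j + 1)) (b i) := fun j _ => by rw [pow_succ', Module.End.mul_apply]
    rw [Finset.sum_congr rfl h7]
    have h8 := Finset.sum_range_succ (fun j => (x ^ j) (b i)) r
    rw [Finset.sum_range_succ' (fun j => (x ^ j) (b i)) r] at h8
    rw [hx, pow_zero] at h8
    exact add_right_cancel h8
  have hwi : ∀ i, B.repr (w i) i ≠ 0 := by
    intro i
    by_cases hi : σ i = i
    · have h1 : x (b i) ∈ D (σ i) := by
        rw [← hσ]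
        exact ⟨b i, hb i, rfl⟩
      rw [hi] at h1
      obtain ⟨c, hc⟩ := hspan i _ h1
      have h2 : ∀ l : ℕ, (x ^ l) (b i) = c ^ l • b i := by
        intro l
        induction l with
        | zero => simp
        | succ l ih => rw [pow_succ', Module.End.mul_apply, ih, map_smul, hc, smul_smul, pow_succ]
      have h3 : c = 1 := by
        apply hroot
        have h4 := h2 r
        rw [hx, Module.End.one_apply] at h4
        have h5 : (c ^ r - 1) • b i = 0 := by rw [sub_smul, ← h4, one_smul, sub_self]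
        exact sub_eq_zero.1 ((smul_eq_zero.1 h5).resolve_right (hb0 i))
      have h6 : w i = (r : F) • b i := by
        show ∑ l ∈ Finset.range r, (x ^ l) (b i) = _
        have h7 : ∀ l ∈ Finset.range r, (x ^ l) (b i) = b i := fun l _ => by rw [h2, h3, one_pow, one_smul]
        rw [Finset.sum_congr rfl h7, Finset.sum_const, Finset.card_range, Nat.cast_smul_eq_nsmul]
      rw [h6, map_smul, ← hB, B.repr_self, Finsupp.smul_apply, Finsupp.single_eq_same, smul_eq_mul, mul_one]
      exact hrF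
    · have hp := period hr hx hD hne hσ i hi
      have h1 : B.repr (w i) i = ∑ l ∈ Finset.range r, B.repr ((x ^ l) (b i)) i := by
        show B.repr (∑ l ∈ Finset.range r, (x ^ l) (b i)) i = _
        rw [map_sum, Finsupp.finsetSum_apply]
      rw [h1, Finset.sum_eq_single_of_mem 0 (Finset.mem_range.2 hr.pos)]
      · rw [pow_zero, Module.End.one_apply, ← hB, B.repr_self, Finsupp.single_eq_same]
        exact one_ne_zero
      · intro l hl hl0
        refine hcoord _ _ (map_iter hσ i l (b i) (hb i)) i ?_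
        intro h
        have h2 : Function.minimalPeriod σ i ≤ l := Function.IsPeriodicPt.minimalPeriod_le (Nat.pos_of_ne_zero hl0) h.symm
        rw [hp] at h2
        exact absurd (Finset.mem_range.1 hl) (by omega)
  have hwj : ∀ i j, B.repr (w j) i ≠ 0 → ∃ l : Fin r, (⇑σ)^[(l : ℕ)] j = i := by
    intro i j h
    by_contra hcon
    push Not at hcon
    apply h
    show B.repr (∑ l ∈ Finset.range r, (x ^ l) (b j)) i = 0
    rw [map_sum, Finsupp.finsetSum_apply]
    refine Finset.sum_eq_zero fun l hl => ?_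
    exact hcoord _ _ (map_iter hσ j l (b j) (hb j)) i (fun h => hcon ⟨l, Finset.mem_range.1 hl⟩ h.symm)
  obtain ⟨κ, α, hα, hsp, hlin⟩ := exists_linearIndependent' F w
  haveI : Finite κ := Finite.of_injective α hα
  haveI : Fintype κ := Fintype.ofFinite κ
  have hcard : Fintype.card κ ≤ finrank F (Fx x) := by
    have h1 : LinearIndependent F (fun k : κ => (⟨w (α k), hwF _⟩ : Fx x)) :=
      LinearIndependent.of_comp (Fx x).subtype hlin
    exact h1.fintype_card_le_finrank
  have hsurj : Function.Surjective (fun p : κ × Fin r => (⇑σ)^[(p.2 : ℕ)] (α p.1)) := by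
    intro i
    have h1 : ∃ k, B.repr (w (α k)) i ≠ 0 := by
      by_contra hcon
      push Not at hcon
      have h2 : Submodule.span F (Set.range (w ∘ α)) ≤ LinearMap.ker (B.coord i) := by
        rw [Submodule.span_le]
        rintro _ ⟨k, rfl⟩
        exact hcon k
      rw [hsp] at h2
      exact hwi i (h2 (Submodule.subset_span ⟨i, rfl⟩))
    obtain ⟨k, hk⟩ := h1
    obtain ⟨l, hl⟩ := hwj i (α k) hk
    exact ⟨(k, l), hl⟩
  have h1 := Fintype.card_le_of_surjective _ hsurj
  rw [Fintype.card_fin, Fintype.card_prod, Fintype.card_fin] at h1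
  calc t ≤ Fintype.card κ * r := h1
    _ ≤ finrank F (Fx x) * r := Nat.mul_le_mul_right r hcard
    _ = r * finrank F (Fx x) := mul_comm _ _

end CfsgLib.Dec29
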