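import Cfsg.Agent.LibDec29c

/-! The number of decompositions (seat helper29). -/

namespace CfsgLib.Dec29

open Module CfsgLib.Semi29

variable {F : Type*} [Field F] {n a t : ℕ}

lemma exists_dec (hat : n = a * t) (ht : 2 ≤ t) (ha : 1 ≤ a) : ∃ D : Fin t → Submodule F (Fin n → F), Cfsg.Geo.IsMDecomposition a D := by
  have h1 : Dec (LinearMap.id : (Fin n → F) →ₗ[F] (Fin n → F)) a ⊤ t := by
    let e : Fin n ≃ Fin t × Fin a := Fintype.equivOfCardEq (by simp [hat, mul_comm])
    let b := (Pi.basisFun F (Fin n)).reindex e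
    exact ⟨Fin t, inferInstance, b, 1, Fintype.card_fin t, b.linearIndependent, b.span_eq, fun i k => Submodule.subset_span ⟨k, rfl⟩⟩
  obtain ⟨D, -, h2, h3, h4, -⟩ := h1.boxes (fun _ _ h => h)
  exact ⟨D, ht, ha, h2, h3, h4⟩

lemma dec_injective {D : Fin t → Submodule F (Fin n → F)} (h : Cfsg.Geo.IsMDecomposition a D) : Function.Injective D := by
  refine h.indep.injective fun k hk => ?_
  have h1 := h.finrank_eq k
  rw [hk, finrank_bot] at h1
  have := h.pos
  omega

theorem fact_dvd : Nat.factorial t ∣ Nat.card {D : Fin t → Submodule F (Fin n → F) // Cfsg.Geo.IsMDecomposition a D} := by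
  classical
  letI : MulAction (Equiv.Perm (Fin t)) {D : Fin t → Submodule F (Fin n → F) // Cfsg.Geo.IsMDecomposition a D} :=
    { smul := fun σ D => ⟨fun k => D.1 (σ.symm k), ⟨D.2.two_le, D.2.pos, fun i => D.2.finrank_eq _,
        D.2.indep.comp σ.symm.injective, by rw [← D.2.iSup_eq_top]; exact σ.symm.iSup_comp⟩⟩
      one_smul := fun D => rfl
      mul_smul := fun σ τ D => rfl }
  have hst : ∀ D : {D : Fin t → Submodule F (Fin n → F) // Cfsg.Geo.IsMDecomposition a D}, MulAction.stabilizer (Equiv.Perm (Fin t)) D = ⊥ := by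
    intro D
    rw [eq_bot_iff]
    intro σ hσ
    rw [MulAction.mem_stabilizer_iff] at hσ
    rw [Subgroup.mem_bot]
    have h1 : ∀ k, D.1 (σ.symm k) = D.1 k := fun k => congrFun (congrArg Subtype.val hσ) k
    have h2 : ∀ k, σ.symm k = k := fun k => dec_injective D.2 (h1 k)
    ext k
    rw [Equiv.Perm.one_apply]
    congr 1
    have := h2 (σ k)
    rw [Equiv.symm_apply_apply] at this
    exact this.symm
  rw [Nat.card_congr (MulAction.selfEquivOrbitsQuotientProd hst), Nat.card_prod, Nat.card_perm, Nat.card_fin]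
  exact dvd_mul_left _ _

lemma span_of_finrank {V : Type*} [AddCommGroup V] [Module F V] (D : Submodule F V) (b : Basis (Fin a) F D) :
    Submodule.span F (Set.range fun k => (b k : V)) = D := by
  have e1 : Set.range (fun k => (b k : V)) = D.subtype '' Set.range b := by
    rw [← Set.range_comp]; rfl
  rw [e1, ← Submodule.map_span, b.span_eq, Submodule.map_top, Submodule.range_subtype]

lemma trans_dec {D D' : Fin t → Submodule F (Fin n → F)} (h : Cfsg.Geo.IsMDecomposition a D) (h' : Cfsg.Geo.IsMDecomposition a D') :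
    ∃ g : (Fin n → F) ≃ₗ[F] (Fin n → F), ∀ k, (D k).map g.toLinearMap = D' k := by
  classical
  have hI := DirectSum.isInternal_submodule_of_iSupIndep_of_iSup_eq_top h.indep h.iSup_eq_top
  have hI' := DirectSum.isInternal_submodule_of_iSupIndep_of_iSup_eq_top h'.indep h'.iSup_eq_top
  let v : ∀ i, Basis (Fin a) F (D i) := fun i => finBasisOfFinrankEq F (D i) (h.finrank_eq i)
  let v' : ∀ i, Basis (Fin a) F (D' i) := fun i => finBasisOfFinrankEq F (D' i) (h'.finrank_eq i)
  let B := hI.collectedBasis v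
  let B' := hI'.collectedBasis v'
  have hB : ∀ i k, B ⟨i, k⟩ = (v i k : Fin n → F) := fun i k => by
    show (hI.collectedBasis v) ⟨i, k⟩ = _
    rw [hI.collectedBasis_coe]
  have hB' : ∀ i k, B' ⟨i, k⟩ = (v' i k : Fin n → F) := fun i k => by
    show (hI'.collectedBasis v') ⟨i, k⟩ = _
    rw [hI'.collectedBasis_coe]
  let g := B.equiv B' (Equiv.refl _)
  have hg : ∀ i k, g (v i k : Fin n → F) = (v' i k : Fin n → F) := by
    intro i k
    rw [← hB, ← hB']
    show B.equiv B' (Equiv.refl _) (B ⟨i, k⟩) = _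
    rw [Basis.equiv_apply]; rfl
  refine ⟨g, fun k => ?_⟩
  have hle : (D k).map g.toLinearMap ≤ D' k := by
    rw [← span_of_finrank (D k) (v k), Submodule.map_span, Submodule.span_le]
    rintro _ ⟨_, ⟨l, rfl⟩, rfl⟩
    show g (v k l : Fin n → F) ∈ D' k
    rw [hg]
    exact (v' k l).2
  refine Submodule.eq_of_le_of_finrank_eq hle ?_
  rw [h'.finrank_eq, ← (Submodule.equivMapOfInjective g.toLinearMap g.injective (D k)).finrank_eq, h.finrank_eq]

theorem dvd_GL [Fintype F] (hat : n = a * t) (ht : 2 ≤ t) (ha : 1 ≤ a) :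
    Nat.card {D : Fin t → Submodule F (Fin n → F) // Cfsg.Geo.IsMDecomposition a D} ∣ Nat.card (GL (Fin n) F) := by
  classical
  letI : MulAction ((Fin n → F) ≃ₗ[F] (Fin n → F)) {D : Fin t → Submodule F (Fin n → F) // Cfsg.Geo.IsMDecomposition a D} :=
    { smul := fun g D => ⟨fun k => (D.1 k).map g.toLinearMap, ⟨D.2.two_le, D.2.pos, fun i => by
          rw [← (Submodule.equivMapOfInjective g.toLinearMap g.injective (D.1 i)).finrank_eq]; exact D.2.finrank_eq _,
        (iSupIndep_map_orderIso_iff (Submodule.orderIsoMapComap g)).2 D.2.indep, by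
          rw [← Submodule.map_iSup, show iSup (fun i => D.1 i) = iSup D.1 from rfl, D.2.iSup_eq_top, Submodule.map_top]
          exact LinearMap.range_eq_top.2 g.surjective⟩⟩
      one_smul := fun D => Subtype.ext (funext fun k => Submodule.map_id _)
      mul_smul := fun g h D => Subtype.ext (funext fun k => Submodule.map_comp _ _ _) }
  haveI : MulAction.IsPretransitive ((Fin n → F) ≃ₗ[F] (Fin n → F)) {D : Fin t → Submodule F (Fin n → F) // Cfsg.Geo.IsMDecomposition a D} := by
    refine ⟨fun D D' => ?_⟩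
    obtain ⟨g, hg⟩ := trans_dec D.2 D'.2
    exact ⟨g, Subtype.ext (funext hg)⟩
  obtain ⟨D0, hD0⟩ := exists_dec (F := F) hat ht ha
  rw [← MulAction.index_stabilizer_of_transitive ((Fin n → F) ≃ₗ[F] (Fin n → F)) (⟨D0, hD0⟩ : {D : Fin t → Submodule F (Fin n → F) // Cfsg.Geo.IsMDecomposition a D})]
  have h1 : Nat.card (GL (Fin n) F) = Nat.card ((Fin n → F) ≃ₗ[F] (Fin n → F)) :=
    Nat.card_congr ((Matrix.GeneralLinearGroup.toLin (n := Fin n) (R := F)).trans (LinearMap.GeneralLinearGroup.generalLinearEquiv F (Fin n → F))).toEquiv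
  rw [h1]
  exact Subgroup.index_dvd_card _

theorem order_le [Fintype F] {p : ℕ} [Fact p.Prime] [CharP F p] (hat : n = a * t) (ht : 2 ≤ t) (ha : 1 ≤ a) (r : ℕ) [hr : Fact r.Prime] (hrp : r ≠ p)
    (h : r ∣ Nat.card {D : Fin t → Submodule F (Fin n → F) // Cfsg.Geo.IsMDecomposition a D} / Nat.factorial t) :
    orderOf ((Fintype.card F : ℕ) : ZMod r) ≤ n := by
  classical
  have h1 := (h.trans (Nat.div_dvd_of_dvd (fact_dvd (F := F) (n := n) (a := a) (t := t)))).trans (dvd_GL hat ht ha)
  rw [Matrix.card_GL_field, Prime.dvd_finsetProd_iff hr.out.prime] at h1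
  obtain ⟨i, -, hi⟩ := h1
  have h2 : Fintype.card F ^ n - Fintype.card F ^ (i : ℕ) = Fintype.card F ^ (i : ℕ) * (Fintype.card F ^ (n - i) - 1) := by
    have := i.2
    rw [Nat.mul_sub, mul_one, ← pow_add]
    congr 2
    omega
  rw [h2] at hi
  rcases (Nat.Prime.dvd_mul hr.out).1 hi with h3 | h3
  · exfalso
    have h4 := hr.out.dvd_of_dvd_pow h3
    obtain ⟨k, -, hk⟩ := FiniteField.card F p
    rw [hk] at h4
    exact hrp ((Nat.prime_dvd_prime_iff_eq hr.out Fact.out).1 (hr.out.dvd_of_dvd_pow h4))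
  · rw [dvd_of_order hr.out Fintype.card_pos] at h3
    have := i.2
    exact (Nat.le_of_dvd (by omega) h3).trans (Nat.sub_le _ _)

end CfsgLib.Dec29
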