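import Cfsg.Agent.LibNil29d
import Cfsg.Prelude.Def_GeometricClasses

/-! Unipotent matrices of a given Jordan type (seat helper29). -/

namespace CfsgLib.Nil29

open Module Matrix

lemma tsum_eq_zero (M : Multiset ℕ) (k : ℕ) (h : ∀ b ∈ M, b ≤ k) : tsum M k = 0 := by
  unfold tsum
  rw [Multiset.sum_eq_zero]
  intro x hx
  obtain ⟨b, hb, rfl⟩ := Multiset.mem_map.1 hx
  have := h b hb
  omega

lemma fl_eq_zero (M : Multiset ℕ) (k : ℕ) (h : ∀ b ∈ M, b ≤ k) : fl M k = 0 := by
  unfold fl
  rw [Multiset.card_eq_zero, Multiset.filter_eq_nil]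
  intro b hb
  have := h b hb
  omega

/-- A unipotent matrix of order dividing `p` with given Jordan type. -/
theorem exists_unipotent {F : Type*} [Field F] (p : ℕ) [Fact p.Prime] [CharP F p] (n : ℕ) (M : Multiset ℕ)
    (h0 : ∀ b ∈ M, 0 < b ∧ b ≤ p) (hM : M.sum = n) :
    ∃ x : Matrix.SpecialLinearGroup (Fin n) F, JT (Matrix.toLin' (x : Matrix (Fin n) (Fin n) F) - LinearMap.id) ⊤ M ∧
      x ^ p = 1 := by
  obtain ⟨N, hN⟩ := exists_of_type (F := F) n M (fun a ha => (h0 a ha).1) hM
  have hNp : N ^ p = 0 := by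
    have h1 := hN.finrank_map p
    rw [tsum_eq_zero M p (fun b hb => (h0 b hb).2)] at h1
    have h2 : (⊤ : Submodule F (Fin n → F)).map (N ^ p) = ⊥ := Submodule.finrank_eq_zero.1 h1
    refine LinearMap.ext fun v => ?_
    have : (N ^ p) v ∈ (⊤ : Submodule F (Fin n → F)).map (N ^ p) := ⟨v, trivial, rfl⟩
    rw [h2] at this
    exact this
  let Nm := LinearMap.toMatrix' N
  have hNmp : Nm ^ p = 0 := by
    have h1 : Nm ^ p = LinearMap.toMatrix' (N ^ p) := by
      have : Matrix.toLin' (Nm ^ p) = N ^ p := by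
        rw [Matrix.toLin'_pow, Matrix.toLin'_toMatrix']
      rw [← this, LinearMap.toMatrix'_toLin']
    rw [h1, hNp, map_zero]
  rcases Nat.eq_zero_or_pos n with hn | hn
  · subst hn
    refine ⟨1, ?_, Subsingleton.elim _ _⟩
    have : Matrix.toLin' ((1 : Matrix.SpecialLinearGroup (Fin 0) F) : Matrix (Fin 0) (Fin 0) F) - LinearMap.id = N := Subsingleton.elim _ _
    rw [this]; exact hN
  haveI : Nonempty (Fin n) := ⟨⟨0, hn⟩⟩
  have hpow : (1 + Nm) ^ p = 1 := by
    rw [add_pow_char_of_commute p (Commute.one_left Nm), one_pow, hNmp, add_zero]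
  have hdet : (1 + Nm).det = 1 := by
    have h1 : (1 + Nm).det ^ p = 1 := by rw [← Matrix.det_pow, hpow, Matrix.det_one]
    have h2 : frobenius F p (1 + Nm).det = frobenius F p 1 := by
      rw [map_one]; exact h1
    exact frobenius_inj F p h2
  let x : Matrix.SpecialLinearGroup (Fin n) F := ⟨1 + Nm, hdet⟩
  refine ⟨x, ?_, ?_⟩
  · have : Matrix.toLin' (x : Matrix (Fin n) (Fin n) F) - LinearMap.id = N := by
      show Matrix.toLin' (1 + Nm) - LinearMap.id = N
      rw [map_add, Matrix.toLin'_one, add_sub_cancel_left, Matrix.toLin'_toMatrix']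
    rw [this]; exact hN
  · apply Subtype.ext
    rw [Matrix.SpecialLinearGroup.coe_pow]
    exact hpow

/-- `(x - 1)^(p-1) = 1 + x + ... + x^(p-1)` in characteristic `p` -/
lemma sub_one_pow {F V : Type*} [Field F] [AddCommGroup V] [Module F V] (p : ℕ) [Fact p.Prime] [CharP F p] (x : V →ₗ[F] V) :
    (x - LinearMap.id) ^ (p - 1) = ∑ i ∈ Finset.range p, x ^ i := by
  have hp : p = (p - 1) + 1 := by have := (Fact.out : p.Prime).pos; omega
  have h1 : ((Polynomial.X : Polynomial F) - 1) ^ (p - 1) = ∑ i ∈ Finset.range p, Polynomial.X ^ i := by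
    have h2 : ((Polynomial.X : Polynomial F) - 1) ≠ 0 := by
      have := Polynomial.X_sub_C_ne_zero (1 : F)
      simpa using this
    apply mul_right_cancel₀ h2
    rw [geom_sum_mul, ← pow_succ, ← hp, sub_pow_char, one_pow]
  have h3 := congrArg (Polynomial.aeval (R := F) (A := Module.End F V) x) h1
  rw [map_pow, map_sub, Polynomial.aeval_X, map_one, map_sum] at h3
  simp only [map_pow, Polynomial.aeval_X] at h3
  exact h3

end CfsgLib.Nil29
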