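import Cfsg.Agent.LibSp29b
import Cfsg.Agent.LibNil29e

/-! Elements of prime order outside symplectic similarity groups (seat helper29). -/

namespace CfsgLib.Sp29

open Module CfsgLib.Invo29 CfsgLib.Semi29 Polynomial

variable {F : Type*} [Field F]

/-- an element of order `r` of `SL_n` with one nontrivial irreducible summand -/
theorem exists_one_block [Fintype F] {p r i n : ℕ} [Fact p.Prime] [CharP F p] [hr : Fact r.Prime] (hrp : r ≠ p)
    (hi : orderOf ((Fintype.card F : ℕ) : ZMod r) = i) (h2 : 2 ≤ i) (hn : i ≤ n) :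
    ∃ x : Matrix.SpecialLinearGroup (Fin n) F, x ^ r = 1 ∧
      finrank F (Fx (Matrix.toLin' (x : Matrix (Fin n) (Fin n) F))) + i = n := by
  classical
  have hq0 : 0 < Fintype.card F := Fintype.card_pos
  have hnd : ¬ r ∣ Fintype.card F - 1 := by
    intro h
    have h3 : r ∣ Fintype.card F ^ 1 - 1 := by rwa [pow_one]
    rw [dvd_of_order hr.out hq0, hi] at h3
    have := Nat.le_of_dvd one_pos h3
    omega
  -- an element of order `r` of `GL_i`
  obtain ⟨y, hy⟩ : ∃ y : GL (Fin i) F, orderOf y = r := by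
    apply exists_prime_orderOf_dvd_card'
    rw [Matrix.card_GL_field]
    have hi0 : 0 < i := by omega
    refine Dvd.dvd.trans ?_ (Finset.dvd_prod_of_mem _ (Finset.mem_univ (⟨0, hi0⟩ : Fin i)))
    have := (dvd_of_order hr.out hq0 i).2 (by rw [hi])
    simpa using this
  obtain ⟨Y, hY⟩ : ∃ Y : (Fin i → F) →ₗ[F] (Fin i → F), Y = Matrix.toLin' (y : Matrix (Fin i) (Fin i) F) := ⟨_, rfl⟩
  have hYr : Y ^ r = 1 := by
    rw [hY, ← Matrix.toLin'_pow, ← Units.val_pow_eq_pow_val, ← hy, pow_orderOf_eq_one, Units.val_one, Matrix.toLin'_one]; rfl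
  have hY1 : Y ≠ 1 := by
    intro h
    have h3 : (y : Matrix (Fin i) (Fin i) F) = 1 := by
      apply Matrix.toLin'.injective
      rw [← hY, h, Matrix.toLin'_one]; rfl
    have h4 : y = 1 := Units.ext h3
    rw [h4, orderOf_one] at hy
    exact hr.out.one_lt.ne hy
  have hYfix : ∀ w, Y w = w → w = 0 := by
    obtain ⟨k, hk⟩ := dims (semi_of_pow hr.out hrp one_ne_zero Y (by rw [hYr, one_smul])) (dim_of_pow hrp Y hYr) ⊤ (inv_top Y)
    rw [top_inf_eq, finrank_top, hi, Module.finrank_fin_fun] at hk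
    have hlt : finrank F (Fx Y) ≠ i := by
      intro h
      apply hY1
      have h3 : Fx Y = ⊤ := Submodule.eq_top_of_finrank_eq (by rw [h, Module.finrank_fin_fun])
      have h4 : ∀ w, Y w = w := fun w => mem_Fx.1 (by rw [h3]; trivial)
      exact LinearMap.ext h4
    have h0 : finrank F (Fx Y) = 0 := by
      rcases Nat.eq_zero_or_pos k with h3 | h3
      · rw [h3] at hk; omega
      · have : i ≤ k * i := Nat.le_mul_of_pos_left i h3
        omega
    rw [Submodule.finrank_eq_zero] at h0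
    intro w hw
    have : w ∈ Fx Y := mem_Fx.2 hw
    rw [h0] at this
    exact this
  -- glue
  have hdim : finrank F (Fin n → F) = finrank F ((Fin i → F) × (Fin (n - i) → F)) := by
    rw [Module.finrank_fin_fun, Module.finrank_prod, Module.finrank_fin_fun, Module.finrank_fin_fun]
    omega
  obtain ⟨E⟩ : Nonempty ((Fin n → F) ≃ₗ[F] ((Fin i → F) × (Fin (n - i) → F))) :=
    FiniteDimensional.nonempty_linearEquiv_of_finrank_eq hdim
  let X0 : ((Fin i → F) × (Fin (n - i) → F)) →ₗ[F] ((Fin i → F) × (Fin (n - i) → F)) :=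
    LinearMap.prodMap Y LinearMap.id
  let T : (Fin n → F) →ₗ[F] (Fin n → F) := E.symm.toLinearMap ∘ₗ X0 ∘ₗ E.toLinearMap
  have hTv : ∀ v, E (T v) = (Y (E v).1, (E v).2) := by
    intro v
    show E (E.symm (X0 (E v))) = _
    rw [LinearEquiv.apply_symm_apply]
    rfl
  have hTk : ∀ k v, E ((T ^ k) v) = ((Y ^ k) (E v).1, (E v).2) := by
    intro k
    induction k with
    | zero => intro v; simp
    | succ k ih =>
      intro v
      rw [pow_succ', Module.End.mul_apply, hTv, ih]
      simp only [pow_succ', Module.End.mul_apply]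
  have hTr : T ^ r = 1 := by
    apply LinearMap.ext
    intro v
    apply E.injective
    rw [hTk, hYr]
    rfl
  obtain ⟨M, hM⟩ : ∃ M : Matrix (Fin n) (Fin n) F, M = LinearMap.toMatrix' T := ⟨_, rfl⟩
  have hMT : Matrix.toLin' M = T := by rw [hM, Matrix.toLin'_toMatrix']
  have hMr : M ^ r = 1 := by
    apply Matrix.toLin'.injective
    rw [Matrix.toLin'_pow, hMT, hTr, Matrix.toLin'_one]; rfl
  have hdet : M.det = 1 := by
    apply pow_one_of hr.out hnd
    rw [← Matrix.det_pow, hMr, Matrix.det_one]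
  let x0 : Matrix.SpecialLinearGroup (Fin n) F := ⟨M, hdet⟩
  refine ⟨x0, ?_, ?_⟩
  · apply Subtype.ext
    rw [Matrix.SpecialLinearGroup.coe_pow]
    exact hMr
  · show finrank F (Fx (Matrix.toLin' M)) + i = n
    rw [hMT]
    have hle : Fx T = LinearMap.range (E.symm.toLinearMap ∘ₗ LinearMap.inr F (Fin i → F) (Fin (n - i) → F)) := by
      apply le_antisymm
      · intro v hv
        have h3 := hTv v
        rw [mem_Fx.1 hv] at h3
        have h4 : (E v).1 = 0 := by
          have h5 := congrArg Prod.fst h3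
          exact hYfix _ h5.symm
        refine ⟨(E v).2, ?_⟩
        show E.symm ((0 : Fin i → F), (E v).2) = v
        rw [LinearEquiv.symm_apply_eq, ← h4]
      · rintro _ ⟨w, rfl⟩
        rw [mem_Fx]
        apply E.injective
        rw [hTv]
        show (Y (E (E.symm ((0 : Fin i → F), w))).1, (E (E.symm ((0 : Fin i → F), w))).2) = E (E.symm ((0 : Fin i → F), w))
        rw [LinearEquiv.apply_symm_apply, map_zero]
    rw [hle, LinearMap.finrank_range_of_inj, Module.finrank_fin_fun]
    · omega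
    · intro a b hab
      have h1 : E.symm ((0 : Fin i → F), a) = E.symm ((0 : Fin i → F), b) := hab
      exact congrArg Prod.snd (E.symm.injective h1)

/-- eigenspaces of diagonal matrices -/
lemma diag_eig {n : ℕ} (d : Fin n → F) (ν : F) [DecidablePred fun i => d i - ν ≠ 0] :
    ∃ W : Submodule F (Fin n → F), (∀ u, u ∈ W ↔ Matrix.toLin' (Matrix.diagonal d) u = ν • u) ∧
      Fintype.card {i // d i - ν ≠ 0} + finrank F W = n := by
  classical
  refine ⟨LinearMap.ker (Matrix.toLin' (Matrix.diagonal fun i => d i - ν)), ?_, ?_⟩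
  · intro u
    rw [LinearMap.mem_ker, Matrix.toLin'_apply, Matrix.toLin'_apply]
    constructor
    · intro h
      funext i
      have h1 := congrFun h i
      rw [Matrix.mulVec_diagonal] at h1 ⊢
      rw [Pi.smul_apply, smul_eq_mul]
      rw [Pi.zero_apply] at h1
      linear_combination h1
    · intro h
      funext i
      have h1 := congrFun h i
      rw [Matrix.mulVec_diagonal] at h1 ⊢
      rw [Pi.smul_apply, smul_eq_mul] at h1
      rw [Pi.zero_apply]
      linear_combination h1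
  · have h1 := Matrix.rank_diagonal (fun i => d i - ν)
    have h2 := LinearMap.finrank_range_add_finrank_ker (Matrix.toLin' (Matrix.diagonal fun i => d i - ν))
    rw [Module.finrank_fin_fun] at h2
    rw [Matrix.rank, ← Matrix.toLin'_apply'] at h1
    rw [h1] at h2
    convert h2

lemma diag_pow {n r : ℕ} (d : Fin n → F) (c : F) (h : ∀ i, d i ^ r = c) : (Matrix.diagonal d) ^ r = c • (1 : Matrix (Fin n) (Fin n) F) := by
  rw [Matrix.diagonal_pow]
  ext i j
  by_cases hij : i = j
  · subst hij; simp [h]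
  · simp [hij]

/-- a primitive `r`-th root of unity -/
lemma exists_prim [Fintype F] {r : ℕ} (hr : r.Prime) (h : r ∣ Fintype.card F - 1) : ∃ z : F, z ≠ 0 ∧ z ^ r = 1 ∧ ∀ k, z ^ k = 1 → r ∣ k := by
  classical
  haveI := Fact.mk hr
  have h1 : r ∣ Fintype.card Fˣ := by rwa [Fintype.card_units]
  obtain ⟨z, hz⟩ := exists_prime_orderOf_dvd_card r h1
  refine ⟨z, z.ne_zero, ?_, ?_⟩
  · rw [← Units.val_pow_eq_pow_val, ← hz, pow_orderOf_eq_one, Units.val_one]
  · intro k hk
    rw [← hz, orderOf_dvd_iff_pow_eq_one]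
    apply Units.ext
    rw [Units.val_pow_eq_pow_val, hk, Units.val_one]

/-- homologies: an eigenspace of dimension `n - 1` -/
theorem exists_homology [Fintype F] {p r n : ℕ} [Fact p.Prime] [CharP F p] (hr : r.Prime) (hrq : r ∣ Fintype.card F - 1)
    (hrn : ¬ r ∣ n) (hn : 2 ≤ n) :
    ∃ (x : Matrix.SpecialLinearGroup (Fin n) F) (ν : F) (W : Submodule F (Fin n → F)), x ^ r = 1 ∧ ν ≠ 0 ∧
      (∀ u, u ∈ W ↔ Matrix.toLin' (x : Matrix (Fin n) (Fin n) F) u = ν • u) ∧ 1 + finrank F W = n := by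
  classical
  obtain ⟨m, rfl⟩ : ∃ m, n = m + 1 := ⟨n - 1, by omega⟩
  obtain ⟨z, hz0, hz1, hz2⟩ := exists_prim hr hrq
  -- k (m+1) + 1 ≡ 0 mod r
  obtain ⟨k, hk⟩ : ∃ k : ℕ, r ∣ k * (m + 1) + 1 := by
    have hc : Nat.Coprime (m + 1) r := ((Nat.Prime.coprime_iff_not_dvd hr).2 hrn).symm
    obtain ⟨k, -, hk⟩ := Nat.exists_mul_mod_eq_one_of_coprime hc hr.one_lt
    refine ⟨k * (r - 1), ?_⟩
    have h1 : (m + 1) * k ≡ 1 [MOD r] := by
      rw [Nat.ModEq, hk, Nat.mod_eq_of_lt hr.one_lt]
    have h2 : k * (r - 1) * (m + 1) + 1 ≡ 0 [MOD r] := by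
      have h3 : k * (r - 1) * (m + 1) ≡ 1 * (r - 1) [MOD r] := by
        rw [show k * (r - 1) * (m + 1) = (m + 1) * k * (r - 1) by ring]
        exact h1.mul_right _
      have h4 := h3.add_right 1
      have h5 : 1 * (r - 1) + 1 = r := by have := hr.one_lt; omega
      rw [h5] at h4
      exact h4.trans (by rw [Nat.ModEq, Nat.mod_self, Nat.zero_mod])
    exact (Nat.modEq_zero_iff_dvd).1 h2
  let d : Fin (m + 1) → F := Fin.cons (z ^ (k + 1)) (fun _ => z ^ k)
  have hzk : z ^ k ≠ 0 := pow_ne_zero _ hz0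
  have hdet : (Matrix.diagonal d).det = 1 := by
    rw [Matrix.det_diagonal, Fin.prod_univ_succ]
    simp only [d, Fin.cons_zero, Fin.cons_succ, Finset.prod_const, Finset.card_univ, Fintype.card_fin]
    rw [← pow_mul, ← pow_add]
    obtain ⟨t, ht⟩ := hk
    rw [show k + 1 + k * m = k * (m + 1) + 1 by ring, ht, pow_mul, hz1, one_pow]
  obtain ⟨W, hW1, hW2⟩ := diag_eig d (z ^ k)
  let x0 : Matrix.SpecialLinearGroup (Fin (m + 1)) F := ⟨Matrix.diagonal d, hdet⟩
  refine ⟨x0, z ^ k, W, ?_, hzk, hW1, ?_⟩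
  · apply Subtype.ext
    rw [Matrix.SpecialLinearGroup.coe_pow]
    show (Matrix.diagonal d) ^ r = 1
    rw [diag_pow d 1, one_smul]
    intro i
    refine Fin.cases ?_ (fun j => ?_) i
    · simp only [d, Fin.cons_zero]
      rw [← pow_mul, mul_comm, pow_mul, hz1, one_pow]
    · simp only [d, Fin.cons_succ]
      rw [← pow_mul, mul_comm, pow_mul, hz1, one_pow]
  · have h1 : Fintype.card {i // d i - z ^ k ≠ 0} = 1 := by
      rw [Fintype.card_eq_one_iff]
      have h0 : z ^ (k + 1) - z ^ k ≠ 0 := by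
        intro h
        rw [pow_succ, ← mul_sub_one] at h
        have h3 : z = 1 := sub_eq_zero.1 ((mul_eq_zero.1 h).resolve_left hzk)
        have h4 := hz2 1 (by rw [pow_one, h3])
        exact hr.one_lt.not_ge (Nat.le_of_dvd one_pos h4)
      refine ⟨⟨0, h0⟩, ?_⟩
      rintro ⟨i, hi⟩
      apply Subtype.ext
      revert hi
      refine Fin.cases (fun _ => rfl) (fun j => ?_) i
      intro hj
      exact absurd (sub_self _) hj
    omega

/-- three nontrivial eigenvalues -/
theorem exists_three_eig [Fintype F] {p r n : ℕ} [Fact p.Prime] [CharP F p] (hr : r.Prime) (hr2 : r ≠ 2) (hrq : r ∣ Fintype.card F - 1)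
    (hn : 3 ≤ n) :
    ∃ (x : Matrix.SpecialLinearGroup (Fin n) F) (W : Submodule F (Fin n → F)), x ^ r = 1 ∧
      (∀ u, u ∈ W ↔ Matrix.toLin' (x : Matrix (Fin n) (Fin n) F) u = (1 : F) • u) ∧ 3 + finrank F W = n := by
  classical
  obtain ⟨m, rfl⟩ : ∃ m, n = m + 3 := ⟨n - 3, by omega⟩
  obtain ⟨z, hz0, hz1, hz2⟩ := exists_prim hr hrq
  let d : Fin (m + 3) → F := Fin.cons (z ^ 2) (Fin.cons z⁻¹ (Fin.cons z⁻¹ (fun _ => 1)))
  have hzi : z⁻¹ ^ r = 1 := by rw [inv_pow, hz1, inv_one]
  have hz21 : z ^ 2 - 1 ≠ 0 := by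
    intro h
    have h1 := hz2 2 (sub_eq_zero.1 h)
    exact hr2 ((Nat.prime_dvd_prime_iff_eq hr Nat.prime_two).1 h1)
  have hzi1 : z⁻¹ - 1 ≠ 0 := by
    intro h
    have h1 : z = 1 := by rw [← inv_inv z, sub_eq_zero.1 h, inv_one]
    exact hz21 (by rw [h1]; ring)
  have hdet : (Matrix.diagonal d).det = 1 := by
    rw [Matrix.det_diagonal, Fin.prod_univ_succ, Fin.prod_univ_succ, Fin.prod_univ_succ]
    simp only [d, Fin.cons_zero, Fin.cons_succ, Finset.prod_const_one, mul_one]
    field_simp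
  obtain ⟨W, hW1, hW2⟩ := diag_eig d 1
  let x0 : Matrix.SpecialLinearGroup (Fin (m + 3)) F := ⟨Matrix.diagonal d, hdet⟩
  refine ⟨x0, W, ?_, hW1, ?_⟩
  · apply Subtype.ext
    rw [Matrix.SpecialLinearGroup.coe_pow]
    show (Matrix.diagonal d) ^ r = 1
    rw [diag_pow d 1, one_smul]
    intro i
    refine Fin.cases ?_ (fun i => Fin.cases ?_ (fun i => Fin.cases ?_ (fun i => ?_) i) i) i
    · simp only [d, Fin.cons_zero]
      rw [← pow_mul, mul_comm, pow_mul, hz1, one_pow]
    · simp only [d, Fin.cons_succ, Fin.cons_zero]; exact hzi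
    · simp only [d, Fin.cons_succ, Fin.cons_zero]; exact hzi
    · simp only [d, Fin.cons_succ]; exact one_pow _
  · have h1 : Fintype.card {i // d i - 1 ≠ 0} = 3 := by
      rw [Fintype.card_subtype]
      have h2 : (Finset.univ.filter fun i : Fin (m + 3) => d i - 1 ≠ 0) = {0, Fin.succ 0, Fin.succ (Fin.succ 0)} := by
        ext i
        simp only [Finset.mem_filter, Finset.mem_univ, true_and, Finset.mem_insert, Finset.mem_singleton]
        constructor
        · refine Fin.cases (fun _ => Or.inl rfl) (fun i => Fin.cases (fun _ => Or.inr (Or.inl rfl)) (fun i => Fin.cases (fun _ => Or.inr (Or.inr rfl)) (fun i => ?_) i) i) i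
          intro h
          exact absurd (sub_self _) h
        · rintro (rfl | rfl | rfl)
          · exact hz21
          · exact hzi1
          · exact hzi1
      rw [h2]
      rw [Finset.card_insert_of_notMem, Finset.card_insert_of_notMem, Finset.card_singleton]
      · rw [Finset.mem_singleton, Fin.succ_inj]
        exact (Fin.succ_ne_zero _).symm
      · rw [Finset.mem_insert, Finset.mem_singleton]
        rintro (h | h)
        · exact (Fin.succ_ne_zero _).symm h
        · exact (Fin.succ_ne_zero _).symm h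
    omega

end CfsgLib.Sp29
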