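import Cfsg.Agent.LibDec29d
import Cfsg.Agent.LibSp29c

/-! Elements of odd prime order and imprimitive subgroups (seat helper29). -/

namespace CfsgLib.Dec29

open Module CfsgLib.Semi29 Polynomial

variable {F : Type*} [Field F]

lemma toLin_inj {n : ℕ} (x : Matrix.SpecialLinearGroup (Fin n) F) : Function.Injective (Matrix.toLin' (x : Matrix (Fin n) (Fin n) F)) := by
  have h3 : ((x⁻¹ : Matrix.SpecialLinearGroup (Fin n) F) : Matrix (Fin n) (Fin n) F) * (x : Matrix (Fin n) (Fin n) F) = 1 := by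
    have := congrArg Subtype.val (inv_mul_cancel x)
    exact this
  refine Function.LeftInverse.injective (g := Matrix.toLin' ((x⁻¹ : Matrix.SpecialLinearGroup (Fin n) F) : Matrix (Fin n) (Fin n) F)) ?_
  intro v
  rw [← Matrix.toLin'_mul_apply, h3, Matrix.toLin'_one]; rfl

theorem backward [Fintype F] {p : ℕ} [Fact p.Prime] [CharP F p] {n a t : ℕ} (hn : 2 ≤ n) (hat : n = a * t) (ha : 1 ≤ a) (ht : 2 ≤ t)
    (r : ℕ) [hr : Fact r.Prime] (hrp : r ≠ p) (c : ℕ) (hc : c = orderOf ((Fintype.card F : ℕ) : ZMod r))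
    (hcond : (a = 1 ∧ 1 < c ∧ c = r - 1 ∧ n ≤ (n % c) * r) ∨ (c ≤ a ∧ n % c = t * (a % c)))
    (x : Matrix.SpecialLinearGroup (Fin n) F) (z : F)
    (hx : ((x ^ r : Matrix.SpecialLinearGroup (Fin n) F) : Matrix (Fin n) (Fin n) F) = z • (1 : Matrix (Fin n) (Fin n) F)) :
    ∃ D : Fin t → Submodule F (Fin n → F), Cfsg.Geo.IsMDecomposition a D ∧
        ∃ σ : Equiv.Perm (Fin t), ∀ j, (D j).map (Matrix.toLin' (x : Matrix (Fin n) (Fin n) F)) = D (σ j) := by
  classical
  obtain ⟨X, hX⟩ : ∃ X, X = Matrix.toLin' (x : Matrix (Fin n) (Fin n) F) := ⟨_, rfl⟩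
  have hXr : X ^ r = z • 1 := by rw [hX]; exact toLin_pow x hx
  have hinj : Function.Injective X := by rw [hX]; exact toLin_inj x
  rw [← hX]
  have hz0 : z ≠ 0 := by
    rintro rfl
    haveI : Nonempty (Fin n) := ⟨⟨0, by omega⟩⟩
    obtain ⟨v, hv⟩ := exists_ne (0 : Fin n → F)
    have h1 : Function.Injective (X ^ r) := by
      rw [Module.End.coe_pow]; exact hinj.iterate r
    apply hv
    apply h1
    rw [hXr, zero_smul]; simp
  have hfin : finrank F (⊤ : Submodule F (Fin n → F)) = n := by rw [finrank_top, Module.finrank_fin_fun]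
  suffices hD : Dec X a ⊤ t by
    obtain ⟨D, σ, h1, h2, h3, h4⟩ := hD.boxes hinj
    exact ⟨D, ⟨ht, ha, h1, h2, h3⟩, σ, h4⟩
  by_cases hroot : ∃ b : F, b ^ r = z
  · obtain ⟨β, hβ⟩ := hroot
    have hβ0 : β ≠ 0 := by
      rintro rfl
      rw [zero_pow hr.out.ne_zero] at hβ
      exact hz0 hβ.symm
    obtain ⟨Y, hY⟩ : ∃ Y, Y = β⁻¹ • X := ⟨_, rfl⟩
    have hYr : Y ^ r = 1 := by
      rw [hY, _root_.smul_pow, hXr, smul_smul, inv_pow, hβ, inv_mul_cancel₀ hz0, one_smul]
    have hXY : ∀ v, X v = β • Y v := by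
      intro v
      rw [hY, LinearMap.smul_apply, smul_smul, mul_inv_cancel₀ hβ0, one_smul]
    have hss : Semi Y := semi_of_pow hr.out hrp one_ne_zero Y (by rw [hYr, one_smul])
    have hdim : Dim Y c := by rw [hc]; exact dim_of_pow hrp Y hYr
    obtain ⟨K, hK⟩ := dims hss hdim ⊤ (inv_top Y)
    rw [hfin] at hK
    rcases hcond with ⟨h1, h2, h3, h4⟩ | ⟨h1, h2⟩
    · subst h1
      have hr2 := hr.out.two_le
      have hn1 : n % c = finrank F ((⊤ : Submodule F (Fin n → F)) ⊓ Fx Y : Submodule F (Fin n → F)) % c := by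
        conv_lhs => rw [hK]
        rw [Nat.add_mul_mod_self_right]
      have hle : n % c ≤ finrank F ((⊤ : Submodule F (Fin n → F)) ⊓ Fx Y : Submodule F (Fin n → F)) := by
        rw [hn1]; exact Nat.mod_le _ _
      obtain ⟨e, he⟩ : ∃ e, e = finrank F ((⊤ : Submodule F (Fin n → F)) ⊓ Fx Y : Submodule F (Fin n → F)) := ⟨_, rfl⟩
      rw [← he] at hK hle
      have hKe : K ≤ e := by
        have h5 : e + K * c ≤ e * r := by
          rw [← hK]
          exact h4.trans (Nat.mul_le_mul_right r hle)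
        rw [h3] at h5
        have h6 : e * r = e + e * (r - 1) := by
          obtain ⟨m, rfl⟩ : ∃ m, r = m + 1 := ⟨r - 1, by omega⟩
          rw [Nat.add_sub_cancel]; ring
        rw [h6] at h5
        have h7 : K * (r - 1) ≤ e * (r - 1) := by omega
        exact Nat.le_of_mul_le_mul_right h7 (by omega)
      have hrF : (r : F) ≠ 0 := by
        intro h
        rw [CharP.cast_eq_zero_iff F p] at h
        exact hrp ((Nat.prime_dvd_prime_iff_eq Fact.out hr.out).1 h).symm
      have h8 := dec_lines hss hr.out hrF hYr (by rw [← h3]; exact hdim) K ⊤ (inv_top Y) (by rw [hfin, ← he, ← h3]; exact hK) (by rw [← he]; exact hKe)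
      have hfin2 : finrank F (⊤ : Submodule F (Fin n → F)) = t := by rw [hfin, hat, one_mul]
      rw [hfin2] at h8
      exact h8.smul β X hXY
    · have hn1 : n % c = finrank F ((⊤ : Submodule F (Fin n → F)) ⊓ Fx Y : Submodule F (Fin n → F)) % c := by
        conv_lhs => rw [hK]
        rw [Nat.add_mul_mod_self_right]
      have h8 := dec_of_small hss hdim a t ⊤ (inv_top Y) (by rw [hfin, hat, mul_comm]) (by
        rw [← h2, hn1]; exact Nat.mod_le _ _)
      exact h8.smul β X hXY
  · have hirr : Irreducible (Polynomial.X ^ r - C z : F[X]) := X_pow_sub_C_irreducible_of_prime hr.out (fun b hb => hroot ⟨b, hb⟩)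
    have hss : Semi X := semi_of_pow hr.out hrp hz0 X hXr
    have hmin : ∀ R : Submodule F (Fin n → F), IsMinInv X R → finrank F R = r := fun R hR => dim_of_irred hirr X hXr R hR
    have hrn : r ∣ n := block_dvd hss r n ⊤ hfin (inv_top X) (fun R _ hR => hmin R hR)
    exact dec_of_irred hss hr.out hXr hmin a t (by rw [← hat]; exact hrn) ⊤ (inv_top X) (by rw [hfin, hat, mul_comm])

theorem forward [Fintype F] {p : ℕ} [Fact p.Prime] [CharP F p] {n a t : ℕ} (hn : 2 ≤ n) (hat : n = a * t) (ha : 1 ≤ a) (ht : 2 ≤ t)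
    (r : ℕ) [hr : Fact r.Prime] (hrp : r ≠ p)
    (hΩ : r ∣ Nat.card {D : Fin t → Submodule F (Fin n → F) // Cfsg.Geo.IsMDecomposition a D} / Nat.factorial t)
    (c : ℕ) (hc : c = orderOf ((Fintype.card F : ℕ) : ZMod r))
    (H : ∀ x : Matrix.SpecialLinearGroup (Fin n) F,
      (∃ z : F, ((x ^ r : Matrix.SpecialLinearGroup (Fin n) F) : Matrix (Fin n) (Fin n) F) = z • (1 : Matrix (Fin n) (Fin n) F)) →
      (∀ z : F, (x : Matrix (Fin n) (Fin n) F) ≠ z • (1 : Matrix (Fin n) (Fin n) F)) →
      ∃ D : Fin t → Submodule F (Fin n → F), Cfsg.Geo.IsMDecomposition a D ∧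
        ∃ σ : Equiv.Perm (Fin t), ∀ j, (D j).map (Matrix.toLin' (x : Matrix (Fin n) (Fin n) F)) = D (σ j)) :
    (a = 1 ∧ 1 < c ∧ c = r - 1 ∧ n ≤ (n % c) * r) ∨ (c ≤ a ∧ n % c = t * (a % c)) := by
  classical
  have hcn : c ≤ n := by rw [hc]; exact order_le hat ht ha r hrp hΩ
  rcases Nat.lt_or_ge c 2 with hc2 | hc2
  · right
    refine ⟨by omega, ?_⟩
    rcases Nat.eq_zero_or_pos c with h0 | h0
    · rw [h0, Nat.mod_zero, Nat.mod_zero, hat, mul_comm]
    · have h1 : c = 1 := by omega
      rw [h1, Nat.mod_one, Nat.mod_one, mul_zero]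
  have hr2 := hr.out.two_le
  have hnd : ¬ r ∣ Fintype.card F - 1 := by
    intro h
    have h3 : r ∣ Fintype.card F ^ 1 - 1 := by rwa [pow_one]
    rw [dvd_of_order hr.out Fintype.card_pos, ← hc] at h3
    have := Nat.le_of_dvd one_pos h3
    omega
  haveI : Nonempty (Fin n) := ⟨⟨0, by omega⟩⟩
  have H' : ∀ x : Matrix.SpecialLinearGroup (Fin n) F, x ^ r = 1 → x ≠ 1 →
      ∃ D : Fin t → Submodule F (Fin n → F), Cfsg.Geo.IsMDecomposition a D ∧
        ∃ σ : Equiv.Perm (Fin t), ∀ j, (D j).map (Matrix.toLin' (x : Matrix (Fin n) (Fin n) F)) = D (σ j) := by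
    intro x hx hx1
    refine H x ⟨1, by rw [hx, Matrix.SpecialLinearGroup.coe_one, one_smul]⟩ ?_
    intro z hz
    apply hx1
    have h1 : ((x ^ r : Matrix.SpecialLinearGroup (Fin n) F) : Matrix (Fin n) (Fin n) F) = z ^ r • (1 : Matrix (Fin n) (Fin n) F) := by
      rw [Matrix.SpecialLinearGroup.coe_pow, hz, _root_.smul_pow, one_pow]
    rw [hx, Matrix.SpecialLinearGroup.coe_one] at h1
    have h2 : z ^ r = 1 := by
      have h3 := congrFun (congrFun h1 (Classical.arbitrary (Fin n))) (Classical.arbitrary (Fin n))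
      rw [Matrix.smul_apply, Matrix.one_apply_eq, smul_eq_mul, mul_one] at h3
      exact h3.symm
    have h3 : z = 1 := pow_one_of hr.out hnd h2
    apply Subtype.ext
    show (x : Matrix (Fin n) (Fin n) F) = 1
    rw [hz, h3, one_smul]
  have hpow : ∀ x : Matrix.SpecialLinearGroup (Fin n) F, x ^ r = 1 → (Matrix.toLin' (x : Matrix (Fin n) (Fin n) F)) ^ r = 1 := by
    intro x hx
    have h3 := toLin_pow (r := r) (c := 1) x (by rw [hx, Matrix.SpecialLinearGroup.coe_one, one_smul])
    rw [one_smul] at h3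
    exact h3
  have hne : ∀ D : Fin t → Submodule F (Fin n → F), Cfsg.Geo.IsMDecomposition a D → ∀ k, D k ≠ ⊥ := by
    intro D hD k hk
    have h1 := hD.finrank_eq k
    rw [hk, finrank_bot] at h1
    omega
  have hss : ∀ x : Matrix.SpecialLinearGroup (Fin n) F, x ^ r = 1 → Semi (Matrix.toLin' (x : Matrix (Fin n) (Fin n) F)) := by
    intro x hx
    exact semi_of_pow hr.out hrp one_ne_zero _ (by rw [hpow x hx, one_smul])
  have hdim : ∀ x : Matrix.SpecialLinearGroup (Fin n) F, x ^ r = 1 → Dim (Matrix.toLin' (x : Matrix (Fin n) (Fin n) F)) c := by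
    intro x hx
    rw [hc]; exact dim_of_pow hrp _ (hpow x hx)
  have hcr : c ∣ r - 1 := by
    rw [hc]
    apply orderOf_dvd_of_pow_eq_one
    apply ZMod.pow_card_sub_one_eq_one
    intro h0
    rw [h0] at hc
    have h1 : orderOf (0 : ZMod r) = 0 := by
      rw [orderOf_eq_zero_iff']
      intro k hk h2
      rw [zero_pow hk.ne'] at h2
      exact zero_ne_one h2
    omega
  by_cases hca : c ≤ a
  · right
    refine ⟨hca, ?_⟩
    obtain ⟨x, hx, hx1, hfix⟩ := exists_block (p := p) (n := n) hrp hc.symm hc2 hcn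
    obtain ⟨D, hD, σ, hσ⟩ := H' x hx hx1
    by_cases hall : ∀ j, σ j = j
    · have h1 : t * (a % c) ≤ n % c := by
        refine (sum_fix hD.indep (a % c) fun i => ?_).trans hfix
        have hi : Inv (Matrix.toLin' (x : Matrix (Fin n) (Fin n) F)) (D i) := by
          intro u hu
          have h2 := hσ i
          rw [hall i] at h2
          rw [← h2]
          exact ⟨u, hu, rfl⟩
        obtain ⟨k, hk⟩ := dims (hss x hx) (hdim x hx) (D i) hi
        rw [hD.finrank_eq] at hk
        rw [hk, Nat.add_mul_mod_self_right]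
        exact Nat.mod_le _ _
      have h2 : n % c = (t * (a % c)) % c := by
        rw [hat, mul_comm a t, Nat.mul_mod t a c, Nat.mul_mod t (a % c) c, Nat.mod_mod]
      rw [h2]
      refine Nat.mod_eq_of_lt (lt_of_le_of_lt h1 (Nat.mod_lt _ (by omega)))
    · exfalso
      push Not at hall
      obtain ⟨j, hj⟩ := hall
      have h1 := (moved hr.out (hpow x hx) hD.indep (hne D hD) hσ j hj).1
      rw [hD.finrank_eq] at h1
      have h2 := Nat.mod_lt n (show 0 < c by omega)
      omega
  · by_cases h1 : a = 1 ∧ c = r - 1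
    · left
      refine ⟨h1.1, by omega, h1.2, ?_⟩
      obtain ⟨x, hx, hx1, hfix⟩ := exists_block (p := p) (n := n) hrp hc.symm hc2 hcn
      obtain ⟨D, hD, σ, hσ⟩ := H' x hx hx1
      have hrF : (r : F) ≠ 0 := by
        intro h
        rw [CharP.cast_eq_zero_iff F p] at h
        exact hrp ((Nat.prime_dvd_prime_iff_eq Fact.out hr.out).1 h).symm
      have hnt : n = t := by rw [hat, h1.1, one_mul]
      have h2 := lines_le hr.out hrF (hpow x hx) (fun b hb => pow_one_of hr.out hnd hb) hD.indep (fun k => by rw [hD.finrank_eq, h1.1])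
        (by rw [Module.finrank_fin_fun, hnt]) hσ
      calc n = t := hnt
        _ ≤ r * finrank F (Fx (Matrix.toLin' (x : Matrix (Fin n) (Fin n) F))) := h2
        _ ≤ r * (n % c) := Nat.mul_le_mul_left r hfix
        _ = n % c * r := mul_comm _ _
    · exfalso
      obtain ⟨x, hx, hd⟩ := CfsgLib.Sp29.exists_one_block (p := p) (n := n) hrp hc.symm hc2 hcn
      have hx1 : x ≠ 1 := by
        rintro rfl
        have h2 : Fx (Matrix.toLin' ((1 : Matrix.SpecialLinearGroup (Fin n) F) : Matrix (Fin n) (Fin n) F)) = ⊤ := by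
          rw [eq_top_iff]
          intro u _
          rw [mem_Fx, Matrix.SpecialLinearGroup.coe_one, Matrix.toLin'_one]; rfl
        rw [h2, finrank_top, Module.finrank_fin_fun] at hd
        omega
      obtain ⟨D, hD, σ, hσ⟩ := H' x hx hx1
      by_cases hall : ∀ j, σ j = j
      · have h2 : ∀ i, D i ≤ Fx (Matrix.toLin' (x : Matrix (Fin n) (Fin n) F)) := by
          intro i
          have hi : Inv (Matrix.toLin' (x : Matrix (Fin n) (Fin n) F)) (D i) := by
            intro u hu
            have h2 := hσ i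
            rw [hall i] at h2
            rw [← h2]
            exact ⟨u, hu, rfl⟩
          obtain ⟨k, hk⟩ := dims (hss x hx) (hdim x hx) (D i) hi
          have hk0 : k = 0 := by
            by_contra hk0
            have h3 : c ≤ k * c := Nat.le_mul_of_pos_left c (Nat.pos_of_ne_zero hk0)
            rw [hD.finrank_eq] at hk
            omega
          rw [hk0, zero_mul, add_zero] at hk
          exact inf_eq_left.1 (Submodule.eq_of_le_of_finrank_eq inf_le_left hk.symm)
        have h3 : Fx (Matrix.toLin' (x : Matrix (Fin n) (Fin n) F)) = ⊤ := by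
          rw [eq_top_iff, ← hD.iSup_eq_top]
          exact iSup_le h2
        rw [h3, finrank_top, Module.finrank_fin_fun] at hd
        omega
      · push Not at hall
        obtain ⟨j, hj⟩ := hall
        have h2 := (moved hr.out (hpow x hx) hD.indep (hne D hD) hσ j hj).2
        rw [hD.finrank_eq, Module.finrank_fin_fun] at h2
        have h3 : (r - 1) * a ≤ c := by omega
        have h4 : c ≤ r - 1 := Nat.le_of_dvd (by omega) hcr
        have h5 : a = 1 := by
          by_contra h5
          have h6 : (r - 1) * 2 ≤ (r - 1) * a := Nat.mul_le_mul_left _ (by omega)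
          omega
        rw [h5, mul_one] at h3
        exact h1 ⟨h5, by omega⟩

end CfsgLib.Dec29
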