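import Cfsg.Agent.LibPermAlg20f

set_option autoImplicit false
set_option linter.all false
set_option maxHeartbeats 1000000

/-! # Primitive groups of degree `2p`: the modular part (helper20) -/

namespace CfsgLib.DegTwoP20

open Cfsg Polynomial

universe u v

/-- the modular setting -/
structure Su (G : Type u) [Group G] (Ω : Type v) [Fintype Ω] [MulAction G Ω] (p : ℕ) [Fact p.Prime] where
  z : G
  E : Module.End (ZMod p) (Ω → ZMod p)
  hz : z ^ p = 1
  hp : 3 ≤ p
  idem : ∀ v, E (E v) = E v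
  comm : ∀ (g : G) v, E (permRep (ZMod p) G Ω g v) = permRep (ZMod p) G Ω g (E v)
  one : E (fun _ => 1) = fun _ => 1
  symm : ∀ u v : Ω → ZMod p, ∑ x, E u x * v x = ∑ x, u x * E v x
  ker : ∀ v, E v = v → permRep (ZMod p) G Ω z v = v → ∃ c : ZMod p, v = c • fun _ => 1
  top : ∃ w, E w = w ∧ ((permRep (ZMod p) G Ω z - 1) ^ (p - 1)) w = fun _ => 1

namespace Su

variable {G : Type u} [Group G] {Ω : Type v} [Fintype Ω] [MulAction G Ω] {p : ℕ} [Fact p.Prime] (S : Su G Ω p)

/-- the nilpotent operator -/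
noncomputable def N : Module.End (ZMod p) (Ω → ZMod p) := permRep (ZMod p) G Ω S.z - 1

theorem N_apply (v : Ω → ZMod p) : S.N v = permRep (ZMod p) G Ω S.z v - v := rfl

theorem N_pow : S.N ^ p = 0 := by
  have h1 : ((X - 1 : (ZMod p)[X])) ^ p = X ^ p - 1 := by
    rw [sub_pow_char, one_pow]
  have h2 := congrArg (Polynomial.aeval (permRep (ZMod p) G Ω S.z)) h1
  rw [map_pow, map_sub, map_sub, map_pow, map_one, Polynomial.aeval_X] at h2
  show (permRep (ZMod p) G Ω S.z - 1) ^ p = 0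
  rw [h2, ← map_pow, S.hz, map_one, sub_self]

theorem act_one (g : G) : permRep (ZMod p) G Ω g (fun _ => 1) = fun _ => 1 := rfl

theorem N_one : S.N (fun _ => 1) = 0 := by
  rw [N_apply, act_one, sub_self]

theorem EN (v : Ω → ZMod p) : S.E (S.N v) = S.N (S.E v) := by
  rw [N_apply, N_apply, map_sub, S.comm]

theorem ENk (k : ℕ) (v : Ω → ZMod p) : S.E ((S.N ^ k) v) = (S.N ^ k) (S.E v) := by
  induction k generalizing v with
  | zero => rfl
  | succ k ih => rw [pow_succ, Module.End.mul_apply, Module.End.mul_apply, ih, EN]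

theorem N_ker {v : Ω → ZMod p} (h1 : S.E v = v) (h2 : S.N v = 0) : ∃ c : ZMod p, v = c • fun _ => 1 := by
  apply S.ker v h1
  rw [N_apply] at h2
  exact sub_eq_zero.mp h2

theorem fill {U : Submodule (ZMod p) (Ω → ZMod p)} (hU : ∀ v ∈ U, S.N v ∈ U) (i : ℕ) :
    ∀ v ∈ U, S.E v = v → (S.N ^ i) v = (fun _ => 1) → ∀ u, S.E u = u → (S.N ^ (i + 1)) u = 0 → u ∈ U := by
  induction i with
  | zero =>
    intro v hv _ h1 u hu h2
    rw [pow_zero, Module.End.one_apply] at h1
    rw [zero_add, pow_one] at h2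
    obtain ⟨c, hc⟩ := S.N_ker hu h2
    rw [hc, ← h1]
    exact U.smul_mem c hv
  | succ i ih =>
    intro v hv hEv h1 u hu h2
    rw [pow_succ', Module.End.mul_apply] at h2
    obtain ⟨c, hc⟩ := S.N_ker (by rw [ENk, hu]) h2
    have h3 : (S.N ^ (i + 1)) (u - c • v) = 0 := by
      rw [map_sub, map_smul, h1, hc, sub_self]
    have h4 : u - c • v ∈ U := by
      apply ih (S.N v) (hU v hv) (by rw [EN, hEv]) (by rw [← h1, pow_succ, Module.End.mul_apply]) _ _ h3
      rw [map_sub, map_smul, hu, hEv]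
    have h5 := U.add_mem h4 (U.smul_mem c hv)
    rwa [sub_add_cancel] at h5

theorem exists_top (i : ℕ) (hi : i + 1 ≤ p) : ∃ v, S.E v = v ∧ (S.N ^ i) v = fun _ => 1 := by
  obtain ⟨w, h1, h2⟩ := S.top
  refine ⟨(S.N ^ (p - 1 - i)) w, by rw [ENk, h1], ?_⟩
  rw [← Module.End.mul_apply, ← pow_add, show i + (p - 1 - i) = p - 1 by omega]
  exact h2

/-- the `i`-th layer is invariant -/
def Inv (i : ℕ) : Prop := ∀ v, S.E v = v → (S.N ^ (i + 1)) v = 0 → ∀ g : G, (S.N ^ (i + 1)) (permRep (ZMod p) G Ω g v) = 0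

theorem inv_zero : S.Inv 0 := by
  intro v hv h1 g
  rw [zero_add, pow_one] at h1 ⊢
  obtain ⟨c, hc⟩ := S.N_ker hv h1
  rw [hc, map_smul, act_one, map_smul, N_one, smul_zero]

theorem act_mul (g : G) (u v : Ω → ZMod p) : permRep (ZMod p) G Ω g (u * v) = permRep (ZMod p) G Ω g u * permRep (ZMod p) G Ω g v := rfl

theorem N_mul (u v : Ω → ZMod p) : S.N (u * v) = S.N u * v + u * S.N v + S.N u * S.N v := by
  rw [N_apply, N_apply, N_apply, act_mul]
  ring

theorem N_pow_le {a b : ℕ} (hab : a ≤ b) {v : Ω → ZMod p} (h : (S.N ^ a) v = 0) : (S.N ^ b) v = 0 := by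
  rw [show b = (b - a) + a by omega, pow_add, Module.End.mul_apply, h, map_zero]

theorem leib1 (n : ℕ) : ∀ (a b : ℕ) (u v : Ω → ZMod p), a + b = n + 1 → (S.N ^ a) u = 0 → (S.N ^ b) v = 0 → (S.N ^ n) (u * v) = 0 := by
  induction n with
  | zero =>
    intro a b u v hab hu hv
    rcases Nat.eq_zero_or_pos a with ha | ha
    · subst ha
      rw [pow_zero, Module.End.one_apply] at hu
      rw [hu, zero_mul, map_zero]
    · have : b = 0 := by omega
      subst this
      rw [pow_zero, Module.End.one_apply] at hv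
      rw [hv, mul_zero, map_zero]
  | succ n ih =>
    intro a b u v hab hu hv
    rcases Nat.eq_zero_or_pos a with ha | ha
    · subst ha
      rw [pow_zero, Module.End.one_apply] at hu
      rw [hu, zero_mul, map_zero]
    rcases Nat.eq_zero_or_pos b with hb | hb
    · subst hb
      rw [pow_zero, Module.End.one_apply] at hv
      rw [hv, mul_zero, map_zero]
    obtain ⟨a, rfl⟩ : ∃ a', a = a' + 1 := ⟨a - 1, by omega⟩
    obtain ⟨b, rfl⟩ : ∃ b', b = b' + 1 := ⟨b - 1, by omega⟩
    have hu' : (S.N ^ a) (S.N u) = 0 := by rw [← Module.End.mul_apply, ← pow_succ]; exact hu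
    have hv' : (S.N ^ b) (S.N v) = 0 := by rw [← Module.End.mul_apply, ← pow_succ]; exact hv
    rw [pow_succ, Module.End.mul_apply, N_mul, map_add, map_add, ih a (b + 1) _ _ (by omega) hu' hv, ih (a + 1) b _ _ (by omega) hu hv',
      ih a (b + 1) _ _ (by omega) hu' (S.N_pow_le (Nat.le_succ b) hv'), add_zero, add_zero]

theorem leib2 (n : ℕ) : ∀ (i j : ℕ) (u v : Ω → ZMod p), i + j = n → (S.N ^ (i + 1)) u = 0 → (S.N ^ (j + 1)) v = 0 →
    (S.N ^ n) (u * v) = (n.choose i : ZMod p) • ((S.N ^ i) u * (S.N ^ j) v) := by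
  induction n with
  | zero =>
    intro i j u v hij hu hv
    have h1 : i = 0 := by omega
    have h2 : j = 0 := by omega
    subst h1; subst h2
    simp
  | succ n ih =>
    intro i j u v hij hu hv
    have h3 : (S.N ^ n) (S.N u * S.N v) = 0 :=
      S.leib1 n i j _ _ (by omega) (by rw [← Module.End.mul_apply, ← pow_succ]; exact hu) (by rw [← Module.End.mul_apply, ← pow_succ]; exact hv) |> fun h => h
    rw [pow_succ, Module.End.mul_apply, N_mul, map_add, map_add, h3, add_zero]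
    rcases Nat.eq_zero_or_pos i with hi | hi
    · subst hi
      have h4 : S.N u = 0 := by rw [zero_add, pow_one] at hu; exact hu
      rw [h4, zero_mul, map_zero, zero_add]
      obtain ⟨j, rfl⟩ : ∃ j', j = j' + 1 := ⟨j - 1, by omega⟩
      rw [ih 0 j u (S.N v) (by omega) hu (by rw [← Module.End.mul_apply, ← pow_succ]; exact hv), Nat.choose_zero_right, Nat.choose_zero_right,
        ← Module.End.mul_apply (S.N ^ j), ← pow_succ]
    · obtain ⟨i, rfl⟩ : ∃ i', i = i' + 1 := ⟨i - 1, by omega⟩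
      rw [ih i j (S.N u) v (by omega) (by rw [← Module.End.mul_apply, ← pow_succ]; exact hu) hv, ← Module.End.mul_apply (S.N ^ i), ← pow_succ]
      rcases Nat.eq_zero_or_pos j with hj | hj
      · subst hj
        have h4 : S.N v = 0 := by rw [zero_add, pow_one] at hv; exact hv
        rw [h4, mul_zero, map_zero, add_zero]
        have h5 : n = i := by omega
        subst h5
        rw [Nat.choose_self, Nat.choose_self]
      · obtain ⟨j, rfl⟩ : ∃ j', j = j' + 1 := ⟨j - 1, by omega⟩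
        rw [ih (i + 1) j u (S.N v) (by omega) hu (by rw [← Module.End.mul_apply, ← pow_succ]; exact hv),
          ← Module.End.mul_apply (S.N ^ j), ← pow_succ, ← add_smul, Nat.choose_succ_succ]
        push_cast
        rfl

/-- the layers are closed under addition -/
theorem inv_add {i j : ℕ} (hi : S.Inv i) (hj : S.Inv j) (hij : i + j + 1 ≤ p) : S.Inv (i + j) := by
  obtain ⟨X, hX⟩ : ∃ X : Set (Ω → ZMod p), X = {y | ∃ u v, S.E u = u ∧ S.E v = v ∧ (S.N ^ (i + 1)) u = 0 ∧ (S.N ^ (j + 1)) v = 0 ∧ y = S.E (u * v)} := ⟨_, rfl⟩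
  have hUg : ∀ g : G, ∀ y ∈ Submodule.span (ZMod p) X, permRep (ZMod p) G Ω g y ∈ Submodule.span (ZMod p) X := by
    intro g y hy
    induction hy using Submodule.span_induction with
    | mem x hx =>
      rw [hX] at hx
      obtain ⟨u, v, h1, h2, h3, h4, rfl⟩ := hx
      apply Submodule.subset_span
      rw [hX]
      exact ⟨permRep (ZMod p) G Ω g u, permRep (ZMod p) G Ω g v, by rw [S.comm, h1], by rw [S.comm, h2], hi u h1 h3 g, hj v h2 h4 g,
        by rw [← S.comm, act_mul]⟩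
    | zero => rw [map_zero]; exact Submodule.zero_mem _
    | add x y _ _ h1 h2 => rw [map_add]; exact Submodule.add_mem _ h1 h2
    | smul c x _ h1 => rw [map_smul]; exact Submodule.smul_mem _ c h1
  have hUN : ∀ y ∈ Submodule.span (ZMod p) X, S.N y ∈ Submodule.span (ZMod p) X := by
    intro y hy
    rw [N_apply]
    exact Submodule.sub_mem _ (hUg S.z y hy) hy
  have hU0 : ∀ y ∈ Submodule.span (ZMod p) X, (S.N ^ (i + j + 1)) y = 0 := by
    intro y hy
    induction hy using Submodule.span_induction with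
    | mem x hx =>
      rw [hX] at hx
      obtain ⟨u, v, h1, h2, h3, h4, rfl⟩ := hx
      rw [← ENk, S.leib1 (i + j + 1) (i + 1) (j + 1) u v (by omega) h3 h4, map_zero]
    | zero => rw [map_zero]
    | add x y _ _ h1 h2 => rw [map_add, h1, h2, add_zero]
    | smul c x _ h1 => rw [map_smul, h1, smul_zero]
  obtain ⟨u, hu1, hu2⟩ := S.exists_top i (by omega)
  obtain ⟨v, hv1, hv2⟩ := S.exists_top j (by omega)
  have hu3 : (S.N ^ (i + 1)) u = 0 := by rw [pow_succ', Module.End.mul_apply, hu2, N_one]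
  have hv3 : (S.N ^ (j + 1)) v = 0 := by rw [pow_succ', Module.End.mul_apply, hv2, N_one]
  have hc : (((i + j).choose i : ℕ) : ZMod p) ≠ 0 := by
    rw [Ne, ZMod.natCast_eq_zero_iff]
    intro h
    have h1 : ((i + j).choose i) ∣ (i + j).factorial := by
      rw [← Nat.choose_mul_factorial_mul_factorial (Nat.le_add_right i j), mul_assoc]
      exact dvd_mul_right _ _
    have h2 := (Nat.Prime.dvd_factorial (Fact.out : p.Prime)).mp (h.trans h1)
    omega
  have htop : (S.N ^ (i + j)) ((((i + j).choose i : ℕ) : ZMod p)⁻¹ • S.E (u * v)) = fun _ => 1 := by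
    rw [map_smul, ← ENk, S.leib2 (i + j) i j u v rfl hu3 hv3, hu2, hv2, map_smul, smul_smul, inv_mul_cancel₀ hc, one_smul]
    have : ((fun _ => 1) * (fun _ => 1) : Ω → ZMod p) = fun _ => 1 := by funext x; simp
    rw [this, S.one]
  intro y hy h1 g
  have h2 : y ∈ Submodule.span (ZMod p) X := by
    apply S.fill hUN (i + j) _ (Submodule.smul_mem _ _ (Submodule.subset_span (by rw [hX]; exact ⟨u, v, hu1, hv1, hu3, hv3, rfl⟩))) _ htop y hy h1
    rw [map_smul, S.idem]
  exact hU0 _ (hUg g y h2)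

/-- the form -/
def B (u v : Ω → ZMod p) : ZMod p := ∑ x, u x * v x

theorem B_act (g : G) (u v : Ω → ZMod p) : B (permRep (ZMod p) G Ω g u) (permRep (ZMod p) G Ω g v) = B u v := by
  unfold B
  exact Equiv.sum_comp (MulAction.toPerm (g⁻¹ : G)) (fun x => u x * v x)

theorem B_sub_left (u u' v : Ω → ZMod p) : B (u - u') v = B u v - B u' v := by
  unfold B
  rw [← Finset.sum_sub_distrib]
  apply Finset.sum_congr rfl
  intro x _
  rw [Pi.sub_apply, sub_mul]

theorem B_sub_right (u v v' : Ω → ZMod p) : B u (v - v') = B u v - B u v' := by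
  unfold B
  rw [← Finset.sum_sub_distrib]
  apply Finset.sum_congr rfl
  intro x _
  rw [Pi.sub_apply, mul_sub]

/-- the adjoint operator -/
noncomputable def N' : Module.End (ZMod p) (Ω → ZMod p) := permRep (ZMod p) G Ω S.z⁻¹ - 1

theorem N'_apply (v : Ω → ZMod p) : S.N' v = permRep (ZMod p) G Ω S.z⁻¹ v - v := rfl

theorem act_act (g h : G) (v : Ω → ZMod p) : permRep (ZMod p) G Ω g (permRep (ZMod p) G Ω h v) = permRep (ZMod p) G Ω (g * h) v := by
  rw [map_mul]; rfl

theorem act_id (v : Ω → ZMod p) : permRep (ZMod p) G Ω 1 v = v := by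
  rw [map_one]; rfl

theorem B_N (u v : Ω → ZMod p) : B (S.N u) v = B u (S.N' v) := by
  rw [N_apply, N'_apply, B_sub_left, B_sub_right]
  congr 1
  conv_rhs => rw [← B_act S.z]
  rw [act_act, mul_inv_cancel, act_id]

theorem B_Nk (k : ℕ) : ∀ (u v : Ω → ZMod p), B ((S.N ^ k) u) v = B u ((S.N' ^ k) v) := by
  induction k with
  | zero => intro u v; rfl
  | succ k ih =>
    intro u v
    rw [pow_succ, Module.End.mul_apply, ih, B_N, pow_succ', Module.End.mul_apply]

theorem B_comm (u v : Ω → ZMod p) : B u v = B v u := by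
  unfold B
  exact Finset.sum_congr rfl fun x _ => mul_comm _ _

theorem N'_eq : S.N' = (-1 : ZMod p) • (permRep (ZMod p) G Ω S.z⁻¹ * S.N) := by
  apply LinearMap.ext; intro v; funext x
  show v (S.z⁻¹⁻¹ • x) - v x = (-1 : ZMod p) * (v (S.z⁻¹ • S.z⁻¹⁻¹ • x) - v (S.z⁻¹⁻¹ • x))
  rw [smul_smul, mul_inv_cancel, one_smul]; ring

theorem N'_comm : Commute (permRep (ZMod p) G Ω S.z⁻¹) S.N := by
  unfold N
  apply Commute.sub_right
  · show permRep (ZMod p) G Ω S.z⁻¹ * permRep (ZMod p) G Ω S.z = permRep (ZMod p) G Ω S.z * permRep (ZMod p) G Ω S.z⁻¹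
    rw [← map_mul, ← map_mul, inv_mul_cancel, mul_inv_cancel]
  · exact Commute.one_right _

theorem N'_pow_zero_iff (k : ℕ) (v : Ω → ZMod p) : (S.N' ^ k) v = 0 ↔ (S.N ^ k) v = 0 := by
  rw [N'_eq, _root_.smul_pow, S.N'_comm.mul_pow, ← map_pow]
  have hinj : ∀ (g : G) (u : Ω → ZMod p), permRep (ZMod p) G Ω g u = 0 ↔ u = 0 := by
    intro g u
    constructor
    · intro h
      have := congrArg (permRep (ZMod p) G Ω g⁻¹) h
      rw [act_act, inv_mul_cancel, act_id, map_zero] at this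
      exact this
    · intro h; rw [h, map_zero]
  have h1 : (((-1 : ZMod p) ^ k) • (permRep (ZMod p) G Ω (S.z⁻¹ ^ k) * S.N ^ k)) v =
      ((-1 : ZMod p) ^ k) • (permRep (ZMod p) G Ω (S.z⁻¹ ^ k) ((S.N ^ k) v)) := rfl
  rw [h1, smul_eq_zero_iff_right (pow_ne_zero _ (neg_ne_zero.mpr one_ne_zero)), hinj]

theorem EN' (v : Ω → ZMod p) : S.E (S.N' v) = S.N' (S.E v) := by
  rw [N'_apply, N'_apply, map_sub, S.comm]

theorem EN'k (k : ℕ) (v : Ω → ZMod p) : S.E ((S.N' ^ k) v) = (S.N' ^ k) (S.E v) := by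
  induction k generalizing v with
  | zero => rfl
  | succ k ih => rw [pow_succ, Module.End.mul_apply, Module.End.mul_apply, ih, EN']

theorem B_nondeg {y : Ω → ZMod p} (hy : S.E y = y) (h : ∀ u, S.E u = u → B y u = 0) : y = 0 := by
  classical
  funext x
  have h1 := h (S.E (Pi.single x 1)) (S.idem _)
  have h2 : B y (S.E (Pi.single x 1)) = B (S.E y) (Pi.single x 1) := (S.symm y (Pi.single x 1)).symm
  rw [h2, hy] at h1
  unfold B at h1
  rw [Finset.sum_eq_single x] at h1
  · simpa using h1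
  · intro b _ hb; rw [Pi.single_eq_of_ne hb, mul_zero]
  · intro h3; exact absurd (Finset.mem_univ _) h3

/-- the fixed space of `E` -/
noncomputable def L : Submodule (ZMod p) (Ω → ZMod p) := LinearMap.eqLocus S.E LinearMap.id

theorem mem_L {v : Ω → ZMod p} : v ∈ S.L ↔ S.E v = v := Iff.rfl

theorem exists_preimage {k i : ℕ} (hki : k + i + 1 = p) {u : Ω → ZMod p} (hu : S.E u = u) (h : (S.N ^ (i + 1)) u = 0) :
    ∃ u', S.E u' = u' ∧ u = (S.N ^ k) u' := by
  obtain ⟨w, hw1, hw2⟩ := S.top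
  have h1 : u ∈ Submodule.map (S.N ^ k) S.L := by
    apply S.fill (U := Submodule.map (S.N ^ k) S.L) _ i ((S.N ^ k) w) ⟨w, hw1, rfl⟩ (by rw [ENk, hw1]) _ u hu h
    · rintro v ⟨v', hv', rfl⟩
      refine ⟨S.N v', ?_, ?_⟩
      · show S.E (S.N v') = S.N v'
        rw [EN]; congr 1
      · rw [← Module.End.mul_apply, ← Module.End.mul_apply, ← pow_succ, ← pow_succ']
    · rw [← Module.End.mul_apply, ← pow_add, show i + k = p - 1 by omega]
      exact hw2
  obtain ⟨u', h2, h3⟩ := h1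
  exact ⟨u', h2, h3.symm⟩

theorem orth_iff {k i : ℕ} (hki : k + i + 1 = p) {y : Ω → ZMod p} (hy : S.E y = y) :
    (S.N ^ k) y = 0 ↔ ∀ u, S.E u = u → (S.N ^ (i + 1)) u = 0 → B y u = 0 := by
  constructor
  · intro h u hu h1
    obtain ⟨u', h2, rfl⟩ := S.exists_preimage hki hu h1
    rw [B_comm, B_Nk, (S.N'_pow_zero_iff k y).mpr h]
    unfold B; simp
  · intro h
    rw [← S.N'_pow_zero_iff]
    apply S.B_nondeg
    · rw [EN'k, hy]
    · intro u hu
      rw [B_comm, ← B_Nk, B_comm]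
      apply h _ (by rw [ENk, hu])
      rw [← Module.End.mul_apply, ← pow_add, show i + 1 + k = p by omega, N_pow]
      rfl

/-- the layers are symmetric -/
theorem inv_symm {i j : ℕ} (hij : i + j + 2 = p) (hi : S.Inv i) : S.Inv j := by
  intro y hy h1 g
  rw [S.orth_iff (k := j + 1) (i := i) (by omega) (by rw [S.comm, hy])]
  intro u hu h2
  have h3 : B (permRep (ZMod p) G Ω g y) u = B y (permRep (ZMod p) G Ω g⁻¹ u) := by
    rw [← B_act g⁻¹, act_act, inv_mul_cancel, act_id]
  rw [h3]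
  exact (S.orth_iff (k := j + 1) (i := i) (by omega) hy).mp h1 _ (by rw [S.comm, hu]) (hi u hu h2 g⁻¹)

theorem exists_poly {w : Ω → ZMod p} (hw1 : S.E w = w) (hw2 : (S.N ^ (p - 1)) w = fun _ => 1) {v : Ω → ZMod p} (hv : S.E v = v) :
    ∃ R : (ZMod p)[X], v = Polynomial.aeval S.N R w := by
  let F : (ZMod p)[X] →ₗ[ZMod p] (Ω → ZMod p) :=
    { toFun := fun R => Polynomial.aeval S.N R w
      map_add' := fun R R' => by rw [map_add]; rfl
      map_smul' := fun c R => by rw [map_smul]; rfl }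
  have h1 : v ∈ LinearMap.range F := by
    apply S.fill (U := LinearMap.range F) _ (p - 1) w ⟨1, by show Polynomial.aeval S.N 1 w = w; rw [map_one]; rfl⟩ hw1 hw2 v hv
    · have hp := S.hp
      rw [show p - 1 + 1 = p by omega, N_pow]; rfl
    · rintro x ⟨R, rfl⟩
      refine ⟨X * R, ?_⟩
      show Polynomial.aeval S.N (X * R) w = S.N (Polynomial.aeval S.N R w)
      rw [map_mul, Polynomial.aeval_X]; rfl
  obtain ⟨R, hR⟩ := h1
  exact ⟨R, hR.symm⟩

theorem E_comm' : Commute S.E S.N := LinearMap.ext fun v => S.EN v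

theorem E_aeval (R : (ZMod p)[X]) (v : Ω → ZMod p) : S.E (Polynomial.aeval S.N R v) = Polynomial.aeval S.N R (S.E v) := by
  have h1 : Commute S.E (Polynomial.aeval S.N R) := by
    induction R using Polynomial.induction_on' with
    | add a b ha hb => rw [map_add]; exact ha.add_right hb
    | monomial n a =>
      rw [Polynomial.aeval_monomial]
      exact (Algebra.commute_algebraMap_right a _).mul_right (S.E_comm'.pow_right n)
  exact LinearMap.congr_fun h1.eq v

theorem act_poly (T : Module.End (ZMod p) (Ω → ZMod p)) (hT : ∀ (g : G) v, T (permRep (ZMod p) G Ω g v) = permRep (ZMod p) G Ω g (T v))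
    (hTE : ∀ v, T (S.E v) = S.E (T v)) :
    ∃ Q : (ZMod p)[X], ∀ v, S.E v = v → T v = Polynomial.aeval S.N Q v := by
  obtain ⟨w, hw1, hw2⟩ := S.top
  obtain ⟨Q, hQ⟩ := S.exists_poly hw1 hw2 (v := T w) (by rw [← hTE, hw1])
  refine ⟨Q, ?_⟩
  intro v hv
  obtain ⟨R, hR⟩ := S.exists_poly hw1 hw2 hv
  have hTN : Commute T S.N := by
    apply LinearMap.ext
    intro v
    show T (S.N v) = S.N (T v)
    rw [N_apply, N_apply, map_sub, hT]
  have h1 : Commute T (Polynomial.aeval S.N R) := by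
    clear hR
    induction R using Polynomial.induction_on' with
    | add a b ha hb => rw [map_add]; exact ha.add_right hb
    | monomial n a =>
      rw [Polynomial.aeval_monomial]
      exact (Algebra.commute_algebraMap_right a _).mul_right (hTN.pow_right n)
  have h2 : T v = Polynomial.aeval S.N R (T w) := by
    rw [hR]; exact LinearMap.congr_fun h1.eq w
  rw [h2, hQ, hR, ← Module.End.mul_apply, ← Module.End.mul_apply, ← map_mul, ← map_mul, mul_comm]

theorem aeval_one (R : (ZMod p)[X]) : Polynomial.aeval S.N R (fun _ => 1) = R.coeff 0 • (fun _ => 1 : Ω → ZMod p) := by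
  conv_lhs => rw [← Polynomial.divX_mul_X_add R]
  rw [map_add, map_mul, Polynomial.aeval_X, Polynomial.aeval_C, LinearMap.add_apply, Module.End.mul_apply, N_one, map_zero, zero_add]
  rfl

theorem exists_inverse {Q : (ZMod p)[X]} (hQ : Q.coeff 0 ≠ 0) : ∃ A : (ZMod p)[X], Polynomial.aeval S.N A * Polynomial.aeval S.N Q = 1 := by
  have h1 : IsCoprime Q (X ^ p) := by
    apply IsCoprime.pow_right
    apply IsCoprime.symm
    rw [Polynomial.irreducible_X.coprime_iff_not_dvd, Polynomial.X_dvd_iff]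
    exact hQ
  obtain ⟨a, b, hab⟩ := h1
  refine ⟨a, ?_⟩
  have h2 := congrArg (Polynomial.aeval S.N) hab
  rw [map_add, map_mul, map_mul, map_pow, Polynomial.aeval_X, N_pow, mul_zero, add_zero, map_one] at h2
  exact h2

/-- an endomorphism of intermediate order gives consecutive layers -/
theorem inv_of_order (T : Module.End (ZMod p) (Ω → ZMod p)) (hT : ∀ (g : G) v, T (permRep (ZMod p) G Ω g v) = permRep (ZMod p) G Ω g (T v))
    (hTE : ∀ v, T (S.E v) = S.E (T v)) {o : ℕ} (ho1 : 1 ≤ o) (ho2 : o + 2 ≤ p) {Q : (ZMod p)[X]} (hQ : Q.coeff 0 ≠ 0)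
    (hTQ : ∀ v, S.E v = v → T v = Polynomial.aeval S.N (X ^ o * Q) v) : S.Inv (o - 1) ∧ S.Inv o := by
  obtain ⟨A, hA⟩ := S.exists_inverse hQ
  have hTQ' : ∀ v, S.E v = v → T v = Polynomial.aeval S.N Q ((S.N ^ o) v) := by
    intro v hv
    rw [hTQ v hv, mul_comm, map_mul, map_pow, Polynomial.aeval_X]
    rfl
  have hTQ'' : ∀ v, S.E v = v → T v = (S.N ^ o) (Polynomial.aeval S.N Q v) := by
    intro v hv
    rw [hTQ v hv, map_mul, map_pow, Polynomial.aeval_X]
    rfl
  constructor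
  · intro v hv h1 g
    rw [show o - 1 + 1 = o by omega] at h1 ⊢
    have h2 : T v = 0 := by rw [hTQ' v hv, h1, map_zero]
    have h3 : T (permRep (ZMod p) G Ω g v) = 0 := by rw [hT, h2, map_zero]
    rw [hTQ' _ (by rw [S.comm, hv])] at h3
    have h4 := congrArg (Polynomial.aeval S.N A) h3
    rw [← Module.End.mul_apply, hA, map_zero] at h4
    exact h4
  · apply S.inv_symm (i := p - 2 - o) (by omega)
    have hp2 : S.Inv (p - 2) := S.inv_symm (i := 0) (by omega) S.inv_zero
    obtain ⟨L', hL'⟩ : ∃ L' : Submodule (ZMod p) (Ω → ZMod p), L' = S.L ⊓ LinearMap.ker (S.N ^ (p - 1)) := ⟨_, rfl⟩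
    have hmem : ∀ v, v ∈ L' ↔ S.E v = v ∧ (S.N ^ (p - 1)) v = 0 := by
      intro v; rw [hL', Submodule.mem_inf, mem_L, LinearMap.mem_ker]
    have hL'g : ∀ (g : G) v, v ∈ L' → permRep (ZMod p) G Ω g v ∈ L' := by
      intro g v hv
      rw [hmem] at hv ⊢
      refine ⟨by rw [S.comm, hv.1], ?_⟩
      have := hp2 v hv.1 (by rw [show p - 2 + 1 = p - 1 by omega]; exact hv.2) g
      rwa [show p - 2 + 1 = p - 1 by omega] at this
    have hUg : ∀ (g : G) y, y ∈ Submodule.map T L' → permRep (ZMod p) G Ω g y ∈ Submodule.map T L' := by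
      rintro g y ⟨v, hv, rfl⟩
      exact ⟨_, hL'g g v hv, hT g v⟩
    have hUN : ∀ y ∈ Submodule.map T L', S.N y ∈ Submodule.map T L' := by
      intro y hy
      rw [N_apply]
      exact Submodule.sub_mem _ (hUg S.z y hy) hy
    have hU0 : ∀ y ∈ Submodule.map T L', (S.N ^ (p - 2 - o + 1)) y = 0 := by
      rintro y ⟨v, hv, rfl⟩
      rw [SetLike.mem_coe, hmem] at hv
      rw [hTQ'' v hv.1, ← Module.End.mul_apply, ← pow_add, show p - 2 - o + 1 + o = p - 1 by omega,
        ← Module.End.mul_apply]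
      have h5 : (S.N ^ (p - 1)) * (Polynomial.aeval S.N Q) = (Polynomial.aeval S.N Q) * (S.N ^ (p - 1)) := by
        have : S.N ^ (p - 1) = Polynomial.aeval S.N (X ^ (p - 1) : (ZMod p)[X]) := by rw [map_pow, Polynomial.aeval_X]
        rw [this, ← map_mul, mul_comm, map_mul]
      rw [h5, Module.End.mul_apply, hv.2, map_zero]
    obtain ⟨w, hw1, hw2⟩ := S.exists_top (p - 1) (by omega)
    have hNw : S.N w ∈ L' := by
      rw [hmem]
      refine ⟨by rw [EN, hw1], ?_⟩
      rw [← Module.End.mul_apply, ← pow_succ, pow_succ', Module.End.mul_apply, hw2, N_one]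
    intro y hy h1 g
    apply hU0
    apply hUg
    apply S.fill hUN (p - 2 - o) ((Q.coeff 0)⁻¹ • T (S.N w)) (Submodule.smul_mem _ _ ⟨_, hNw, rfl⟩) _ _ y hy h1
    · rw [map_smul, ← hTE, EN, hw1]
    · rw [map_smul, hTQ' _ (by rw [EN, hw1]), ← Module.End.mul_apply]
      have h5 : (S.N ^ (p - 2 - o)) * (Polynomial.aeval S.N Q) = (Polynomial.aeval S.N Q) * (S.N ^ (p - 2 - o)) := by
        have : S.N ^ (p - 2 - o) = Polynomial.aeval S.N (X ^ (p - 2 - o) : (ZMod p)[X]) := by rw [map_pow, Polynomial.aeval_X]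
        rw [this, ← map_mul, mul_comm, map_mul]
      rw [h5, Module.End.mul_apply, ← Module.End.mul_apply (S.N ^ (p - 2 - o)), ← pow_add, show p - 2 - o + o = p - 2 by omega,
        ← Module.End.mul_apply (S.N ^ (p - 2)), ← pow_succ, show p - 2 + 1 = p - 1 by omega, hw2, aeval_one, smul_smul, inv_mul_cancel₀ hQ, one_smul]

end Su

/-- the arithmetic of the layers -/
theorem layer_arith {p : ℕ} (hp : 3 ≤ p) (Inv : ℕ → Prop) (h0 : Inv 0) (hadd : ∀ i j, Inv i → Inv j → i + j + 1 ≤ p → Inv (i + j))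
    (hsymm : ∀ i j, i + j + 2 = p → Inv i → Inv j) {o : ℕ} (ho1 : 1 ≤ o) (ho2 : o + 2 ≤ p) (h1 : Inv (o - 1)) (h2 : Inv o) : Inv 1 := by
  classical
  have hex : ∃ i, 0 < i ∧ i + 2 ≤ p ∧ Inv i := ⟨o, ho1, ho2, h2⟩
  obtain ⟨i₀, hi₀⟩ : ∃ i, i = Nat.find hex := ⟨_, rfl⟩
  obtain ⟨a1, a2, a3⟩ := Nat.find_spec hex
  rw [← hi₀] at a1 a2 a3
  have hmin : ∀ j, 0 < j → j < i₀ → ¬ Inv j := by
    intro j hj1 hj2 hj3
    rw [hi₀] at hj2
    exact Nat.find_min hex hj2 ⟨hj1, by omega, hj3⟩
  have key : ∀ j, j + 2 ≤ p → Inv j → i₀ ∣ (p - 2 - j) := by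
    intro j hj1 hj2
    have hq : ∀ q, j + q * i₀ + 2 ≤ p → Inv (j + q * i₀) := by
      intro q
      induction q with
      | zero => intro _; rw [zero_mul, add_zero]; exact hj2
      | succ q ih =>
        intro h
        rw [Nat.succ_mul] at h ⊢
        rw [← add_assoc]
        exact hadd _ _ (ih (by omega)) a3 (by omega)
    have h3 := Nat.div_add_mod (p - 2 - j) i₀
    have h4 := Nat.mod_lt (p - 2 - j) a1
    have h5 : (p - 2 - j) / i₀ * i₀ = i₀ * ((p - 2 - j) / i₀) := mul_comm _ _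
    have h6 := hq ((p - 2 - j) / i₀) (by omega)
    have h7 := hsymm _ ((p - 2 - j) % i₀) (by omega) h6
    rcases Nat.eq_zero_or_pos ((p - 2 - j) % i₀) with h8 | h8
    · exact Nat.dvd_of_mod_eq_zero h8
    · exact absurd h7 (hmin _ h8 h4)
  have k1 := key (o - 1) (by omega) h1
  have k2 := key o ho2 h2
  have k3 : i₀ ∣ 1 := by
    have : 1 = (p - 2 - (o - 1)) - (p - 2 - o) := by omega
    rw [this]
    exact Nat.dvd_sub k1 k2
  have : i₀ = 1 := Nat.dvd_one.mp k3
  rw [this] at a3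
  exact a3

namespace Su

variable {G : Type u} [Group G] {Ω : Type v} [Fintype Ω] [MulAction G Ω] {p : ℕ} [Fact p.Prime] (S : Su G Ω p)

/-- the second layer gives a system of imprimitivity -/
theorem not_prim (h : S.Inv 1) (hcard : p < Fintype.card Ω) : ¬ MulAction.IsPreprimitive G Ω := by
  classical
  intro hprim
  haveI := hprim.toIsPretransitive
  obtain ⟨l, hl1, hl2⟩ := S.exists_top 1 (by have := S.hp; omega)
  rw [pow_one] at hl2
  have hz : ∀ x : Ω, l (S.z⁻¹ • x) = l x + 1 := by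
    intro x
    have := congrFun hl2 x
    rw [N_apply] at this
    have h1 : (permRep (ZMod p) G Ω S.z l) x = l (S.z⁻¹ • x) := rfl
    rw [Pi.sub_apply, h1] at this
    rw [← this]; ring
  -- the action on the layer
  have hact : ∀ g : G, ∃ a b : ZMod p, ∀ x, l (g⁻¹ • x) = a * l x + b := by
    intro g
    have h1 : permRep (ZMod p) G Ω g l ∈ Submodule.span (ZMod p) {l, (fun _ => 1 : Ω → ZMod p)} := by
      apply S.fill (i := 1) _ l (Submodule.subset_span (by simp)) hl1 (by rw [pow_one]; exact hl2) _ (by rw [S.comm, hl1])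
      · exact h l hl1 (by rw [pow_succ', Module.End.mul_apply, pow_one, hl2, N_one]) g
      · intro v hv
        rw [Submodule.mem_span_pair] at hv
        obtain ⟨a, b, rfl⟩ := hv
        rw [map_add, map_smul, map_smul, N_one, smul_zero, add_zero, hl2]
        exact Submodule.smul_mem _ _ (Submodule.subset_span (by simp))
    rw [Submodule.mem_span_pair] at h1
    obtain ⟨a, b, hab⟩ := h1
    refine ⟨a, b, ?_⟩
    intro x
    have := congrFun hab x
    have h2 : (permRep (ZMod p) G Ω g l) x = l (g⁻¹ • x) := rfl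
    rw [h2] at this
    rw [← this]
    simp
  have hp := S.hp
  have h10 : (1 : ZMod p) ≠ 0 := one_ne_zero
  have hact2 : ∀ (g : G) (x y : Ω), l x = l y → l (g • x) = l (g • y) := by
    intro g x y hxy
    obtain ⟨a, b, hab⟩ := hact g⁻¹
    have h1 := hab x
    have h2 := hab y
    rw [inv_inv] at h1 h2
    rw [h1, h2, hxy]
  have hne : Nonempty Ω := by
    rw [← Fintype.card_pos_iff]; omega
  obtain ⟨x₀⟩ := hne
  have hbl : MulAction.IsBlock G {x : Ω | l x = l x₀} := by
    rw [MulAction.isBlock_iff_smul_eq_of_mem]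
    intro g x hx hgx
    ext y
    rw [Set.mem_smul_set_iff_inv_smul_mem]
    have hx' : l x = l x₀ := hx
    have hgx' : l (g • x) = l x₀ := hgx
    constructor
    · intro hy
      have hy' : l (g⁻¹ • y) = l x₀ := hy
      show l y = l x₀
      have := hact2 g _ _ (hy'.trans hx'.symm)
      rw [smul_inv_smul] at this
      rw [this, hgx']
    · intro hy
      have hy' : l y = l x₀ := hy
      show l (g⁻¹ • y) = l x₀
      have := hact2 g⁻¹ _ _ (hy'.trans hgx'.symm)
      rw [inv_smul_smul] at this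
      rw [this, hx']
  rcases hprim.isTrivialBlock_of_isBlock hbl with h1 | h1
  · -- all fibres have at most one element
    have hinj : Function.Injective l := by
      intro x y hxy
      obtain ⟨g, hg⟩ := MulAction.exists_smul_eq G x x₀
      have h2 := hact2 g _ _ hxy
      rw [hg] at h2
      have h3 : x₀ = g • y := h1 (show l x₀ = l x₀ from rfl) (show l (g • y) = l x₀ from h2.symm)
      rw [← hg] at h3
      exact smul_left_cancel g h3
    have h2 := Fintype.card_le_of_injective l hinj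
    rw [ZMod.card] at h2
    omega
  · have h2 : S.z⁻¹ • x₀ ∈ {x : Ω | l x = l x₀} := by rw [h1]; trivial
    have h3 : l (S.z⁻¹ • x₀) = l x₀ := h2
    rw [hz] at h3
    apply h10
    rw [← add_right_inj (l x₀), h3, add_zero]

/-- the endomorphisms in the primitive case -/
theorem endo (hprim : MulAction.IsPreprimitive G Ω) (hcard : p < Fintype.card Ω)
    (T : Module.End (ZMod p) (Ω → ZMod p)) (hT : ∀ (g : G) v, T (permRep (ZMod p) G Ω g v) = permRep (ZMod p) G Ω g (T v))
    (hTE : ∀ v, T (S.E v) = S.E (T v)) : ∃ c c' : ZMod p, ∀ v, S.E v = v → T v = c • v + c' • (S.N ^ (p - 1)) v := by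
  obtain ⟨Q, hQ⟩ := S.act_poly T hT hTE
  have hp := S.hp
  refine ⟨Q.coeff 0, ?_⟩
  by_cases h0 : Q - C (Q.coeff 0) = 0
  · refine ⟨0, ?_⟩
    intro v hv
    have : Q = C (Q.coeff 0) := sub_eq_zero.mp h0
    rw [hQ v hv, zero_smul, add_zero]
    conv_lhs => rw [this]
    rw [Polynomial.aeval_C]; rfl
  obtain ⟨R, hR1, hR2⟩ := Polynomial.exists_eq_pow_rootMultiplicity_mul_and_not_dvd (Q - C (Q.coeff 0)) h0 0
  obtain ⟨o, ho⟩ : ∃ o, o = (Q - C (Q.coeff 0)).rootMultiplicity 0 := ⟨_, rfl⟩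
  rw [← ho, map_zero, sub_zero] at hR1
  rw [map_zero, sub_zero, Polynomial.X_dvd_iff] at hR2
  have ho1 : 1 ≤ o := by
    rcases Nat.eq_zero_or_pos o with h1 | h1
    · exfalso
      rw [h1, pow_zero, one_mul] at hR1
      apply hR2
      rw [← hR1]; simp
    · exact h1
  have hT' : ∀ v, S.E v = v → (T - Q.coeff 0 • (1 : Module.End (ZMod p) (Ω → ZMod p))) v = Polynomial.aeval S.N (X ^ o * R) v := by
    intro v hv
    rw [← hR1, map_sub, Polynomial.aeval_C, LinearMap.sub_apply, LinearMap.sub_apply, hQ v hv]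
    rfl
  have ho2 : p ≤ o + 1 := by
    by_contra hcon
    push Not at hcon
    obtain ⟨i1, i2⟩ := S.inv_of_order (T - Q.coeff 0 • (1 : Module.End (ZMod p) (Ω → ZMod p)))
      (by intro g v; rw [LinearMap.sub_apply, LinearMap.sub_apply, hT, map_sub]; simp)
      (by intro v; rw [LinearMap.sub_apply, LinearMap.sub_apply, hTE, map_sub]; simp) ho1 (by omega) hR2 hT'
    exact S.not_prim (layer_arith hp S.Inv S.inv_zero (fun i j h1 h2 h3 => S.inv_add h1 h2 h3) (fun i j h1 h2 => S.inv_symm h1 h2) ho1 (by omega) i1 i2)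
      hcard hprim
  refine ⟨(X ^ (o + 1 - p) * R).coeff 0, ?_⟩
  intro v hv
  have h1 : T v = Q.coeff 0 • v + Polynomial.aeval S.N (X ^ o * R) v := by
    rw [← hT' v hv, LinearMap.sub_apply]; simp
  rw [h1]
  congr 1
  rw [show X ^ o * R = (X ^ (p - 1) : (ZMod p)[X]) * (X ^ (o + 1 - p) * R) by rw [← mul_assoc, ← pow_add]; congr 2; omega]
  obtain ⟨R', hR'⟩ : ∃ R', R' = X ^ (o + 1 - p) * R := ⟨_, rfl⟩
  rw [← hR']
  conv_lhs => rw [← Polynomial.divX_mul_X_add R']
  rw [mul_add, map_add, show (X ^ (p - 1) : (ZMod p)[X]) * (R'.divX * X) = R'.divX * X ^ (p - 1 + 1) by rw [pow_succ]; ring,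
    show p - 1 + 1 = p by omega, map_mul, map_pow, Polynomial.aeval_X, N_pow, mul_zero, zero_add, mul_comm, map_mul, Polynomial.aeval_C, map_pow,
    Polynomial.aeval_X]
  rfl

end Su

end CfsgLib.DegTwoP20
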