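import Cfsg.Agent.LibDegTwoP20a

set_option autoImplicit false
set_option linter.all false
set_option maxHeartbeats 1000000

/-! # Primitive groups of degree `2p`: construction of the modular setting (helper20) -/

namespace CfsgLib.DegTwoP20

open Cfsg Polynomial

universe u v

variable {G : Type u} [Group G] {Ω : Type v} [Fintype Ω] [MulAction G Ω] {p : ℕ} [Fact p.Prime]

theorem geom_pow (A : Module.End (ZMod p) (Ω → ZMod p)) : (A - 1) ^ (p - 1) = ∑ i ∈ Finset.range p, A ^ i := by
  have hp := (Fact.out : p.Prime).one_lt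
  have h1 : ((X - 1 : (ZMod p)[X])) ^ (p - 1) = ∑ i ∈ Finset.range p, X ^ i := by
    have h2 : (∑ i ∈ Finset.range p, (X : (ZMod p)[X]) ^ i) * (X - 1) = (X - 1) ^ (p - 1) * (X - 1) := by
      rw [geom_sum_mul, ← pow_succ, show p - 1 + 1 = p by omega, sub_pow_char, one_pow]
    have h3 : (X - 1 : (ZMod p)[X]) ≠ 0 := Polynomial.X_sub_C_ne_zero 1
    exact (mul_right_cancel₀ h3 h2).symm
  have h2 := congrArg (Polynomial.aeval A) h1
  rw [map_pow, map_sub, map_one, Polynomial.aeval_X, map_sum] at h2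
  rw [h2]
  apply Finset.sum_congr rfl
  intro i _
  rw [map_pow, Polynomial.aeval_X]

theorem act_pow (z : G) (i : ℕ) (v : Ω → ZMod p) (x : Ω) : ((permRep (ZMod p) G Ω z) ^ i) v x = v ((z ^ i)⁻¹ • x) := by
  rw [← map_pow]
  rfl

section

variable {z : G} (hz : z ^ p = 1) (hfree : ∀ x : Ω, z • x ≠ x)

include hz hfree in
theorem pow_free {d : ℕ} (hd : ¬ p ∣ d) (x : Ω) : z ^ d • x ≠ x := by
  intro h
  have hco : Nat.Coprime d p := ((Nat.Prime.coprime_iff_not_dvd (Fact.out : p.Prime)).mpr hd).symm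
  apply hfree x
  have h1 : ∀ n : ℕ, (z ^ d) ^ n • x = x := by
    intro n
    induction n with
    | zero => rw [pow_zero, one_smul]
    | succ n ih => rw [pow_succ, mul_smul, h, ih]
  obtain ⟨e, he⟩ := exists_pow_eq_self_of_coprime (x := z) (n := d) (by
    have h2 : orderOf z ∣ p := orderOf_dvd_of_pow_eq_one hz
    exact hco.symm.coprime_dvd_left h2 |>.symm)
  rw [← he]
  exact h1 e

include hz in
theorem pow_mod (d : ℕ) : z ^ d = z ^ (d % p) := by
  conv_lhs => rw [← Nat.div_add_mod d p, pow_add, pow_mul, hz, one_pow, one_mul]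

open Classical in
/-- the orbit of `x` -/
noncomputable def D (p : ℕ) (z : G) (x : Ω) : Finset Ω := (Finset.range p).image (fun i => z ^ i • x)

include hz hfree in
theorem D_inj (x : Ω) : Set.InjOn (fun i : ℕ => z ^ i • x) (Finset.range p) := by
  have key : ∀ i j : ℕ, i < j → j < p → z ^ i • x ≠ z ^ j • x := by
    intro i j hij hj h
    apply pow_free hz hfree (d := j - i) (fun hd => by have := Nat.le_of_dvd (by omega) hd; omega) x
    apply smul_left_cancel (z ^ i)
    rw [← mul_smul, ← pow_add, show i + (j - i) = j by omega]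
    exact h.symm
  intro i hi j hj h
  rw [Finset.coe_range, Set.mem_Iio] at hi hj
  rcases lt_trichotomy i j with h1 | h1 | h1
  · exact absurd h (key i j h1 hj)
  · exact h1
  · exact absurd h.symm (key j i h1 hi)

include hz hfree in
theorem D_card (x : Ω) : (D p z x).card = p := by
  classical
  unfold D
  rw [Finset.card_image_of_injOn (D_inj hz hfree x), Finset.card_range]

include hz in
theorem mem_D {x : Ω} (i : ℕ) : z ^ i • x ∈ D p z x := by
  classical
  unfold D
  rw [Finset.mem_image]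
  exact ⟨i % p, Finset.mem_range.mpr (Nat.mod_lt _ (Fact.out : p.Prime).pos), by rw [← pow_mod hz]⟩

include hz in
theorem D_disj {x y : Ω} (h : y ∉ D p z x) : Disjoint (D p z x) (D p z y) := by
  classical
  rw [Finset.disjoint_left]
  intro w hw1 hw2
  unfold D at hw1 hw2
  rw [Finset.mem_image] at hw1 hw2
  obtain ⟨i, hi, rfl⟩ := hw1
  obtain ⟨j, hj, hij⟩ := hw2
  rw [Finset.mem_range] at hi hj
  apply h
  have h1 : y = z ^ (p - j + i) • x := by
    rw [pow_add, mul_smul, ← hij, ← mul_smul, ← pow_add, show p - j + j = p by omega, hz, one_smul]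
  rw [h1]
  exact mem_D hz _

theorem fix_D {v : Ω → ZMod p} (hv : permRep (ZMod p) G Ω z v = v) {x y : Ω} (hy : y ∈ D p z x) : v y = v x := by
  classical
  unfold D at hy
  rw [Finset.mem_image] at hy
  obtain ⟨i, -, rfl⟩ := hy
  induction i with
  | zero => rw [pow_zero, one_smul]
  | succ i ih =>
    rw [← ih]
    have h1 := congrFun hv (z ^ (i + 1) • x)
    have h2 : permRep (ZMod p) G Ω z v (z ^ (i + 1) • x) = v (z⁻¹ • z ^ (i + 1) • x) := rfl
    rw [h2, pow_succ', mul_smul, inv_smul_smul] at h1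
    rw [pow_succ', mul_smul]
    exact h1.symm

open Classical in
include hz hfree in
/-- the norm of a delta function -/
theorem norm_delta (x y : Ω) : (((permRep (ZMod p) G Ω z - 1) ^ (p - 1)) (Pi.single x 1)) y = if y ∈ D p z x then 1 else 0 := by
  rw [geom_pow, LinearMap.sum_apply, Finset.sum_apply]
  have h1 : ∀ i ∈ Finset.range p, (((permRep (ZMod p) G Ω z) ^ i) (Pi.single x 1)) y = if z ^ i • x = y then 1 else 0 := by
    intro i _
    rw [act_pow, Pi.single_apply]
    have : ((z ^ i)⁻¹ • y = x) ↔ (z ^ i • x = y) := by rw [inv_smul_eq_iff]; exact eq_comm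
    simp only [this]
  rw [Finset.sum_congr rfl h1]
  split_ifs with h
  · unfold D at h
    rw [Finset.mem_image] at h
    obtain ⟨i, hi, hiy⟩ := h
    rw [Finset.sum_eq_single i]
    · rw [if_pos hiy]
    · intro j hj hji
      rw [if_neg]
      intro h2
      exact hji (D_inj hz hfree x hj hi (h2.trans hiy.symm))
    · intro h2; exact absurd hi h2
  · apply Finset.sum_eq_zero
    intro i hi
    rw [if_neg]
    intro h2
    apply h
    rw [← h2]
    exact mem_D hz i

include hz hfree in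
/-- construction of the modular setting -/
theorem exists_Su (hp : 3 ≤ p) (hcard : Fintype.card Ω = 2 * p) (E₁ : Module.End (ZMod p) (Ω → ZMod p))
    (idem : ∀ v, E₁ (E₁ v) = E₁ v)
    (comm : ∀ (g : G) v, E₁ (permRep (ZMod p) G Ω g v) = permRep (ZMod p) G Ω g (E₁ v))
    (zero : E₁ (fun _ => 1) = 0) (symm : ∀ u v : Ω → ZMod p, ∑ x, E₁ u x * v x = ∑ x, u x * E₁ v x) (hne : E₁ ≠ 0) :
    ∃ S : Su G Ω p, S.z = z ∧ S.E = 1 - E₁ := by
  classical
  have hΩ : Nonempty Ω := by rw [← Fintype.card_pos_iff]; omega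
  obtain ⟨x₀⟩ := hΩ
  obtain ⟨y₀, hy₀⟩ : ∃ y, y ∉ D p z x₀ := by
    by_contra hcon
    push Not at hcon
    have h1 : D p z x₀ = Finset.univ := Finset.eq_univ_iff_forall.mpr hcon
    have h2 := D_card hz hfree x₀
    rw [h1, Finset.card_univ] at h2
    omega
  have hdis := D_disj hz hy₀
  have hcov : ∀ x, x ∈ D p z x₀ ∨ x ∈ D p z y₀ := by
    intro x
    have h1 : (D p z x₀ ∪ D p z y₀).card = Fintype.card Ω := by
      rw [Finset.card_union_of_disjoint hdis, D_card hz hfree, D_card hz hfree, hcard]; ring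
    have h2 := (Finset.card_eq_iff_eq_univ _).mp h1
    have h3 : x ∈ D p z x₀ ∪ D p z y₀ := by rw [h2]; exact Finset.mem_univ _
    exact Finset.mem_union.mp h3
  have hx₀ : x₀ ∈ D p z x₀ := by have := mem_D (p := p) hz (x := x₀) 0; rwa [pow_zero, one_smul] at this
  have hy₀' : y₀ ∈ D p z y₀ := by have := mem_D (p := p) hz (x := y₀) 0; rwa [pow_zero, one_smul] at this
  obtain ⟨s, hs⟩ : ∃ s : Ω → ZMod p, s = fun x => if x ∈ D p z x₀ then 1 else 0 := ⟨_, rfl⟩
  obtain ⟨N, hN⟩ : ∃ N : Module.End (ZMod p) (Ω → ZMod p), N = permRep (ZMod p) G Ω z - 1 := ⟨_, rfl⟩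
  -- fixed vectors
  have hfixed : ∀ v, permRep (ZMod p) G Ω z v = v → v = (v x₀ - v y₀) • s + v y₀ • (fun _ => 1) := by
    intro v hv
    funext x
    rw [hs]
    simp only [Pi.add_apply, Pi.smul_apply, smul_eq_mul, mul_one]
    rcases hcov x with h1 | h1
    · rw [if_pos h1, fix_D hv h1]; ring
    · rw [if_neg (fun h2 => Finset.disjoint_left.mp hdis h2 h1), fix_D hv h1]; ring
  have hNp : ∀ v, (N ^ p) v = 0 := by
    intro v
    have h1 : ((X - 1 : (ZMod p)[X])) ^ p = X ^ p - 1 := by
      rw [sub_pow_char, one_pow]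
    have h2 := congrArg (Polynomial.aeval (permRep (ZMod p) G Ω z)) h1
    rw [map_pow, map_sub, map_sub, map_pow, map_one, Polynomial.aeval_X] at h2
    rw [hN, h2, ← map_pow, hz, map_one, sub_self]
    rfl
  have hNE : ∀ v, E₁ (N v) = N (E₁ v) := by
    intro v
    rw [hN, LinearMap.sub_apply, LinearMap.sub_apply, map_sub, comm]; rfl
  have hNkE : ∀ k v, E₁ ((N ^ k) v) = (N ^ k) (E₁ v) := by
    intro k
    induction k with
    | zero => intro v; rfl
    | succ k ih => intro v; rw [pow_succ, Module.End.mul_apply, Module.End.mul_apply, ih, hNE]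
  have hker : ∀ v, N v = 0 → permRep (ZMod p) G Ω z v = v := by
    intro v hv
    rw [hN, LinearMap.sub_apply] at hv
    exact sub_eq_zero.mp hv
  have hact1 : permRep (ZMod p) G Ω z (fun _ => 1) = fun _ => 1 := rfl
  -- `s` is fixed
  have hsN : s = (N ^ (p - 1)) (Pi.single x₀ 1) := by
    funext y
    rw [hN, norm_delta hz hfree, hs]
  have htN : (fun _ => 1) - s = (N ^ (p - 1)) (Pi.single y₀ 1) := by
    funext y
    rw [hN, norm_delta hz hfree, hs]
    simp only [Pi.sub_apply]
    rcases hcov y with h1 | h1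
    · rw [if_pos h1, if_neg (fun h2 => Finset.disjoint_left.mp hdis h1 h2)]; ring
    · rw [if_pos h1, if_neg (fun h2 => Finset.disjoint_left.mp hdis h2 h1)]; ring
  have hsfix : permRep (ZMod p) G Ω z s = s := by
    apply hker
    rw [hsN, ← Module.End.mul_apply, ← pow_succ', show p - 1 + 1 = p by omega]
    exact hNp _
  obtain ⟨α, β, hαβ⟩ : ∃ α β : ZMod p, E₁ s = α • s + β • (fun _ => 1) :=
    ⟨_, _, hfixed (E₁ s) (by rw [← comm, hsfix])⟩
  have hα : α = 1 := by
    have h1 := idem s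
    rw [hαβ, map_add, map_smul, map_smul, zero, smul_zero, add_zero] at h1
    by_contra hα
    have h2 : E₁ s = 0 := by
      have h3 : (α - 1) • E₁ s = 0 := by
        rw [sub_smul, one_smul, h1, hαβ, sub_self]
      exact (smul_eq_zero.mp h3).resolve_left (sub_ne_zero.mpr hα)
    apply hne
    -- `E₁` kills the fixed vectors hence is zero
    have hk0 : ∀ v, N v = 0 → E₁ v = 0 := by
      intro v hv
      rw [hfixed v (hker v hv), map_add, map_smul, map_smul, zero, h2, smul_zero, smul_zero, add_zero]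
    have hkk : ∀ k v, (N ^ k) v = 0 → E₁ v = v → v = 0 := by
      intro k
      induction k with
      | zero => intro v h3 _; exact h3
      | succ k ih =>
        intro v h3 h4
        rw [pow_succ', Module.End.mul_apply] at h3
        apply ih v _ h4
        have h5 := hk0 _ h3
        rw [hNkE, h4] at h5
        exact h5
    apply LinearMap.ext
    intro v
    exact hkk p (E₁ v) (hNp _) (idem v)
  subst hα
  rw [one_smul] at hαβ
  have hsx : s x₀ = 1 := by rw [hs]; simp only [if_pos hx₀]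
  have hsy : s y₀ = 0 := by rw [hs]; simp only [if_neg hy₀]
  refine ⟨{ z := z, E := 1 - E₁, hz := hz, hp := hp, idem := ?_, comm := ?_, one := ?_, symm := ?_, ker := ?_, top := ?_ }, rfl, rfl⟩
  · intro v
    show (v - E₁ v) - E₁ (v - E₁ v) = v - E₁ v
    rw [map_sub, idem, sub_self, sub_zero]
  · intro g v
    show permRep (ZMod p) G Ω g v - E₁ (permRep (ZMod p) G Ω g v) = permRep (ZMod p) G Ω g (v - E₁ v)
    rw [map_sub, comm]
  · show (fun _ => 1) - E₁ (fun _ => 1) = fun _ => 1
    rw [zero, sub_zero]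
  · intro u v
    show ∑ x, (u - E₁ u) x * v x = ∑ x, u x * (v - E₁ v) x
    simp only [Pi.sub_apply, sub_mul, mul_sub]
    rw [Finset.sum_sub_distrib, Finset.sum_sub_distrib, symm]
  · intro v hv1 hv2
    have hv3 : E₁ v = 0 := by
      have h1 : v - E₁ v = v := hv1
      exact sub_eq_self.mp h1
    have h2 := hfixed v hv2
    have h4 : (v x₀ - v y₀) • (s + β • (fun _ => 1)) = 0 := by
      rw [← hαβ]
      have := congrArg E₁ h2
      rw [hv3, map_add, map_smul, map_smul, zero, smul_zero, add_zero] at this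
      exact this.symm
    have h5 := congrFun h4 x₀
    have h6 := congrFun h4 y₀
    simp only [Pi.smul_apply, Pi.add_apply, Pi.zero_apply, smul_eq_mul, mul_one, hsx, hsy] at h5 h6
    have h7 : v x₀ - v y₀ = 0 := by linear_combination h5 - h6
    refine ⟨v y₀, ?_⟩
    rw [h7, zero_smul, zero_add] at h2
    exact h2
  · -- the top vector
    have key : ∀ (δ : Ω → ZMod p) (c : ZMod p), (N ^ (p - 1)) ((1 - E₁ : Module.End (ZMod p) (Ω → ZMod p)) δ) = c • (fun _ => 1) → c ≠ 0 →
        ∃ w, (1 - E₁ : Module.End (ZMod p) (Ω → ZMod p)) w = w ∧ ((permRep (ZMod p) G Ω z - 1) ^ (p - 1)) w = fun _ => 1 := by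
      intro δ c h1 hc
      refine ⟨c⁻¹ • (1 - E₁ : Module.End (ZMod p) (Ω → ZMod p)) δ, ?_, ?_⟩
      · rw [map_smul]
        congr 1
        show (δ - E₁ δ) - E₁ (δ - E₁ δ) = δ - E₁ δ
        rw [map_sub, idem, sub_self, sub_zero]
      · rw [map_smul, ← hN, h1, smul_smul, inv_mul_cancel₀ hc, one_smul]
    have k1 : (N ^ (p - 1)) ((1 - E₁ : Module.End (ZMod p) (Ω → ZMod p)) (Pi.single x₀ 1)) = (-β) • (fun _ => 1) := by
      show (N ^ (p - 1)) (Pi.single x₀ 1 - E₁ (Pi.single x₀ 1)) = _
      rw [map_sub, ← hNkE, ← hsN, hαβ, neg_smul]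
      abel
    have k2 : (N ^ (p - 1)) ((1 - E₁ : Module.End (ZMod p) (Ω → ZMod p)) (Pi.single y₀ 1)) = (1 + β) • (fun _ => 1) := by
      show (N ^ (p - 1)) (Pi.single y₀ 1 - E₁ (Pi.single y₀ 1)) = _
      rw [map_sub, ← hNkE, ← htN, map_sub, zero, hαβ, add_smul, one_smul]
      abel
    by_cases hβ : β = 0
    · exact key _ _ k2 (by rw [hβ, add_zero]; exact one_ne_zero)
    · exact key _ _ k1 (neg_ne_zero.mpr hβ)

end

end CfsgLib.DegTwoP20
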