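import Cfsg.Agent.LibDegTwoP20b

set_option autoImplicit false
set_option linter.all false
set_option maxHeartbeats 1000000

/-! # Primitive groups of degree `2p`: the rank is at most three (helper20) -/

namespace CfsgLib.DegTwoP20

open Cfsg Polynomial
open CfsgLib.PermAlg20 (orbM)

universe u v

variable {G : Type u} [Group G] {Ω : Type v} [Fintype Ω] [MulAction G Ω] {p : ℕ} [Fact p.Prime]

/-- kernel operators modulo `p` -/
def kp (K : Ω → Ω → ZMod p) : Module.End (ZMod p) (Ω → ZMod p) where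
  toFun v x := ∑ y, K x y * v y
  map_add' u v := by
    funext x
    simp only [Pi.add_apply, mul_add, Finset.sum_add_distrib]
  map_smul' c v := by
    funext x
    simp only [Pi.smul_apply, smul_eq_mul, RingHom.id_apply, Finset.mul_sum]
    apply Finset.sum_congr rfl
    intro y _
    ring

theorem kp_apply (K : Ω → Ω → ZMod p) (v : Ω → ZMod p) (x : Ω) : kp K v x = ∑ y, K x y * v y := rfl

theorem kp_single [DecidableEq Ω] (K : Ω → Ω → ZMod p) (x y : Ω) : kp K (Pi.single y 1) x = K x y := by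
  rw [kp_apply, Finset.sum_eq_single y]
  · simp
  · intro b _ hb; rw [Pi.single_eq_of_ne hb, mul_zero]
  · intro h; exact absurd (Finset.mem_univ _) h

theorem kp_comm {K : Ω → Ω → ZMod p} (hK : ∀ (g : G) x y, K (g • x) (g • y) = K x y) (g : G) (v : Ω → ZMod p) :
    kp K (permRep (ZMod p) G Ω g v) = permRep (ZMod p) G Ω g (kp K v) := by
  funext x
  have h1 : permRep (ZMod p) G Ω g (kp K v) x = ∑ y, K (g⁻¹ • x) y * v y := rfl
  have h2 : kp K (permRep (ZMod p) G Ω g v) x = ∑ y, K x y * v (g⁻¹ • y) := rfl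
  rw [h1, h2, ← Equiv.sum_comp (MulAction.toPerm g⁻¹) (fun y => K (g⁻¹ • x) y * v y)]
  apply Finset.sum_congr rfl
  intro y _
  have h3 : K (g⁻¹ • x) (g⁻¹ • y) = K x y := hK _ _ _
  have h4 : (MulAction.toPerm g⁻¹ : Equiv.Perm Ω) y = g⁻¹ • y := rfl
  rw [h4, h3]

theorem orb_inv' (a b : Ω) (g : G) (x y : Ω) : ((orbM G a b (g • x) (g • y) : ℤ) : ZMod p) = ((orbM G a b x y : ℤ) : ZMod p) := by
  classical
  have : (∃ h : G, h • a = g • x ∧ h • b = g • y) ↔ ∃ h : G, h • a = x ∧ h • b = y := by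
    constructor
    · rintro ⟨h, h1, h2⟩
      exact ⟨g⁻¹ * h, by rw [mul_smul, h1, inv_smul_smul], by rw [mul_smul, h2, inv_smul_smul]⟩
    · rintro ⟨h, h1, h2⟩
      exact ⟨g * h, by rw [mul_smul, h1], by rw [mul_smul, h2]⟩
  congr 1
  unfold orbM
  by_cases h : ∃ h : G, h • a = x ∧ h • b = y
  · rw [if_pos h, if_pos (this.mpr h)]
  · rw [if_neg h, if_neg (fun h' => h (this.mp h'))]

/-- rank at most three -/
theorem rank_le_three {z : G} (hz : z ^ p = 1) (hfree : ∀ x : Ω, z • x ≠ x) (hp : 3 ≤ p) (hcard : Fintype.card Ω = 2 * p)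
    (E₁ : Module.End (ZMod p) (Ω → ZMod p))
    (idem : ∀ v, E₁ (E₁ v) = E₁ v)
    (comm : ∀ (g : G) v, E₁ (permRep (ZMod p) G Ω g v) = permRep (ZMod p) G Ω g (E₁ v))
    (zero : E₁ (fun _ => 1) = 0) (symm : ∀ u v : Ω → ZMod p, ∑ x, E₁ u x * v x = ∑ x, u x * E₁ v x) (hne : E₁ ≠ 0)
    (hsc : ∀ T : Module.End (ZMod p) (Ω → ZMod p), (∀ (g : G) v, T (permRep (ZMod p) G Ω g v) = permRep (ZMod p) G Ω g (T v)) →
      (∀ v, T (E₁ v) = E₁ (T v)) ∧ ∃ θ : ZMod p, ∀ v, T (E₁ v) = θ • E₁ v)
    (hprim : MulAction.IsPreprimitive G Ω) (a : Ω) :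
    Nat.card (MulAction.orbitRel.Quotient (MulAction.stabilizer G a) Ω) ≤ 3 := by
  classical
  obtain ⟨S, hSz, hSE⟩ := exists_Su hz hfree hp hcard E₁ idem comm zero symm hne
  have hSE' : ∀ v, S.E v = v - E₁ v := by intro v; rw [hSE]; rfl
  obtain ⟨W, hW⟩ : ∃ W : Submodule (ZMod p) (Module.End (ZMod p) (Ω → ZMod p)), W = Submodule.span (ZMod p) {S.E, S.N ^ (p - 1) * S.E, E₁} := ⟨_, rfl⟩
  have hTW : ∀ T : Module.End (ZMod p) (Ω → ZMod p), (∀ (g : G) v, T (permRep (ZMod p) G Ω g v) = permRep (ZMod p) G Ω g (T v)) → T ∈ W := by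
    intro T hT
    obtain ⟨h1, θ, h2⟩ := hsc T hT
    obtain ⟨c, c', h3⟩ := S.endo hprim (by omega) T hT (by intro v; rw [hSE', hSE', map_sub, h1])
    have h4 : T = c • S.E + (c' • (S.N ^ (p - 1) * S.E) + θ • E₁) := by
      apply LinearMap.ext
      intro v
      have h5 : T v = T (S.E v) + T (E₁ v) := by
        rw [← map_add, hSE', sub_add_cancel]
      rw [h5, h3 _ (S.idem v), h2]
      simp only [LinearMap.add_apply, LinearMap.smul_apply, Module.End.mul_apply]
      abel
    rw [h4, hW]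
    apply Submodule.add_mem _ (Submodule.smul_mem _ _ (Submodule.subset_span (by simp)))
    apply Submodule.add_mem _ (Submodule.smul_mem _ _ (Submodule.subset_span (by simp))) (Submodule.smul_mem _ _ (Submodule.subset_span (by simp)))
  letI : Fintype (MulAction.orbitRel.Quotient (MulAction.stabilizer G a) Ω) := Fintype.ofFinite _
  let f : MulAction.orbitRel.Quotient (MulAction.stabilizer G a) Ω → W := fun ω =>
    ⟨kp (fun x y => ((orbM G a ω.out x y : ℤ) : ZMod p)), hTW _ (kp_comm (orb_inv' a ω.out))⟩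
  have hli : LinearIndependent (ZMod p) f := by
    rw [Fintype.linearIndependent_iff]
    intro c hc ω₀
    have h1 : ∑ ω, c ω • kp (fun x y => ((orbM G a ω.out x y : ℤ) : ZMod p)) = 0 := by
      have := congrArg Subtype.val hc
      rw [Submodule.coe_sum] at this
      exact this
    have h2 := congrFun (LinearMap.congr_fun h1 (Pi.single ω₀.out 1)) a
    rw [LinearMap.sum_apply, Finset.sum_apply, Finset.sum_eq_single ω₀] at h2
    · rw [LinearMap.smul_apply, Pi.smul_apply, kp_single] at h2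
      have h3 : orbM G a ω₀.out a ω₀.out = 1 := by
        unfold orbM
        rw [if_pos ⟨1, one_smul _ _, one_smul _ _⟩]
      rw [h3] at h2
      simpa using h2
    · intro ω _ hω
      rw [LinearMap.smul_apply, Pi.smul_apply, kp_single]
      have h3 : orbM G a ω.out a ω₀.out = 0 := by
        unfold orbM
        rw [if_neg]
        rintro ⟨g, h4, h5⟩
        apply hω
        rw [← Quotient.out_eq' ω, ← Quotient.out_eq' ω₀]
        apply Quotient.eq''.mpr
        rw [MulAction.orbitRel_apply]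
        refine ⟨⟨g⁻¹, ?_⟩, ?_⟩
        · rw [MulAction.mem_stabilizer_iff, inv_smul_eq_iff, h4]
        · show g⁻¹ • ω₀.out = ω.out
          rw [inv_smul_eq_iff, h5]
      rw [h3]
      simp
    · intro h; exact absurd (Finset.mem_univ _) h
  have h5 := hli.fintype_card_le_finrank
  have h6 : Module.finrank (ZMod p) W ≤ 3 := by
    rw [hW]
    have h7 := finrank_span_finset_le_card (R := ZMod p) ({S.E, S.N ^ (p - 1) * S.E, E₁} : Finset (Module.End (ZMod p) (Ω → ZMod p)))
    have h8 : (({S.E, S.N ^ (p - 1) * S.E, E₁} : Finset (Module.End (ZMod p) (Ω → ZMod p))) : Set (Module.End (ZMod p) (Ω → ZMod p))) =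
        {S.E, S.N ^ (p - 1) * S.E, E₁} := by push_cast; rfl
    rw [h8] at h7
    exact h7.trans Finset.card_le_three
  rw [Nat.card_eq_fintype_card]
  exact h5.trans h6

end CfsgLib.DegTwoP20
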