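import Cfsg.Agent.LibDegTwoP20c

set_option autoImplicit false
set_option linter.all false
set_option maxHeartbeats 1000000

/-! # Primitive groups of degree `2p`: complex characters (helper20) -/

namespace CfsgLib.DegTwoP20

open Cfsg CfsgLib.CharBasic CfsgLib.PermAlg20
open scoped ComplexConjugate
open Representation (IntertwiningMap)

universe u v

section

variable {G : Type u} [Group G] [Fintype G] {V : Type v} [AddCommGroup V] [Module ℂ V] [FiniteDimensional ℂ V]

/-- Schur's lemma for constituents of multiplicity one -/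
theorem mult_one_scalar (ρ : Representation ℂ G V) (χ : IrrCharacter G) (h1 : classInner ρ.character (χ : G → ℂ) = 1)
    {T : Module.End ℂ V} (hT : ∀ g, Commute T (ρ g)) : ∃ θ : ℂ, ∀ v, T (E ρ χ v) = θ • E ρ χ v := by
  obtain ⟨d, σ, hσ, hχ⟩ := χ.2
  haveI := hσ
  have hdeg : (χ : G → ℂ) 1 = d := by
    rw [← hχ, Representation.char_one]; simp
  have h2 := inner_reps ρ σ
  rw [hχ, h1] at h2
  have h3 : Module.finrank ℂ (IntertwiningMap σ ρ) = 1 := by exact_mod_cast h2.symm
  obtain ⟨i₀, hi₀, hspan⟩ := finrank_eq_one_iff'.mp h3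
  have hinj : Function.Injective i₀ := (Representation.IsIrreducible.injective_or_eq_zero i₀).resolve_right hi₀
  have hEσ : ∀ w, E σ χ w = w := by
    obtain ⟨c, hc⟩ := CfsgLib.CharInt.schur_scalar σ (E σ χ) (fun g => E_comm' σ χ g)
    have h4 := E_trace σ χ
    rw [hc, map_smul, LinearMap.trace_id, hχ, CfsgLib.CharBasic.irr_inner_self χ.2, mul_one, smul_eq_mul, hdeg] at h4
    have h5 : (d : ℂ) ≠ 0 := by rw [← hdeg]; exact CfsgLib.CharInt.irr_one_ne_zero χ.2
    have h6 : Module.finrank ℂ (Fin d → ℂ) = d := by simp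
    rw [h6] at h4
    have h7 : c = 1 := by
      have := mul_right_cancel₀ h5 (h4.trans (one_mul _).symm)
      exact this
    intro w
    rw [hc, h7, one_smul]; rfl
  have hint : ∀ (g : G) w, ρ g (i₀ w) = i₀ (σ g w) := by
    intro g w
    exact (LinearMap.congr_fun (i₀.isIntertwining' g) w).symm
  have hEi : ∀ w, E ρ χ (i₀ w) = i₀ w := by
    intro w
    have h4 : E ρ χ (i₀ w) = i₀ (E σ χ w) := by
      unfold E R
      rw [LinearMap.sum_apply, LinearMap.sum_apply]
      have h5 : i₀ (∑ g : G, (ee (χ : G → ℂ) g • σ g) w) = i₀.toLinearMap (∑ g : G, (ee (χ : G → ℂ) g • σ g) w) := rfl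
      rw [h5, map_sum]
      apply Finset.sum_congr rfl
      intro g _
      rw [LinearMap.smul_apply, LinearMap.smul_apply, hint, map_smul]
      rfl
    rw [h4, hEσ]
  have hproj : LinearMap.IsProj (LinearMap.range (E ρ χ)) (E ρ χ) := by
    constructor
    · intro v; exact ⟨v, rfl⟩
    · rintro _ ⟨v, rfl⟩
      have := LinearMap.congr_fun (E_comp ρ χ χ) v
      rw [if_pos rfl] at this
      exact this
  have hrange : LinearMap.range i₀.toLinearMap = LinearMap.range (E ρ χ) := by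
    apply Submodule.eq_of_le_of_finrank_eq
    · rintro _ ⟨w, rfl⟩; exact ⟨i₀ w, hEi w⟩
    · rw [LinearMap.finrank_range_of_inj (f := i₀.toLinearMap) hinj]
      have h4 := hproj.trace
      rw [E_trace, h1, mul_one, hdeg] at h4
      have h6 : Module.finrank ℂ (Fin d → ℂ) = d := by simp
      rw [h6]
      exact_mod_cast h4
  have hT' : ∀ g : G, (T ∘ₗ i₀.toLinearMap) ∘ₗ σ g = ρ g ∘ₗ (T ∘ₗ i₀.toLinearMap) := by
    intro g
    apply LinearMap.ext
    intro w
    show T (i₀ (σ g w)) = ρ g (T (i₀ w))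
    rw [← hint]
    exact LinearMap.congr_fun (hT g).eq (i₀ w)
  let T' : IntertwiningMap σ ρ := { toLinearMap := T ∘ₗ i₀.toLinearMap, isIntertwining' := hT' }
  obtain ⟨θ, hθ⟩ := hspan T'
  refine ⟨θ, ?_⟩
  intro v
  have h5 : E ρ χ v ∈ LinearMap.range i₀.toLinearMap := by rw [hrange]; exact ⟨v, rfl⟩
  obtain ⟨w, hw⟩ := h5
  rw [← hw]
  have h6 := congrArg (fun f : IntertwiningMap σ ρ => f.toLinearMap w) hθ
  exact h6.symm

end

section

variable {G : Type u} [Group G] [Fintype G] {Ω : Type v} [Fintype Ω] [MulAction G Ω]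

theorem exists_unique_of_sum_one {ι : Type*} [DecidableEq ι] {s : Finset ι} {f : ι → ℕ} (h : ∑ i ∈ s, f i = 1) :
    ∃ i ∈ s, f i = 1 ∧ ∀ j ∈ s, j ≠ i → f j = 0 := by
  obtain ⟨i, hi, hi0⟩ := Finset.exists_ne_zero_of_sum_ne_zero (s := s) (f := f) (by rw [h]; norm_num)
  rw [Finset.sum_eq_add_sum_sdiff_singleton_of_mem hi] at h
  refine ⟨i, hi, by omega, ?_⟩
  intro j hj hji
  have h1 : ∑ x ∈ s \ {i}, f x = 0 := by omega
  exact (Finset.sum_eq_zero_iff.mp h1) j (by rw [Finset.mem_sdiff, Finset.mem_singleton]; exact ⟨hj, hji⟩)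

/-- the character data of a transitive group of degree `2p` with a fixed-point-free element of order `p` -/
theorem exists_chi [MulAction.IsPretransitive G Ω] {p : ℕ} (hp : p.Prime) (hcard : Fintype.card Ω = 2 * p) {z : G} (hz : z ^ p = 1)
    (hz1 : z ≠ 1) (hfree : ∀ i : ℕ, ¬ p ∣ i → ∀ x : Ω, z ^ i • x ≠ x) (a : Ω) :
    ∃ (χ₁ : IrrCharacter G) (n : G → ℤ), χ₁ ≠ oneI G ∧ classInner (pic G Ω) (χ₁ : G → ℂ) = 1 ∧ (∀ g, (χ₁ : G → ℂ) g = n g) ∧
      ∃ b : ℕ, n 1 = 1 + (p - 1) * b ∧ n z = 1 - b ∧ b ≤ 2 := by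
  classical
  obtain ⟨H, hH⟩ : ∃ H : Subgroup G, H = Subgroup.zpowers z := ⟨_, rfl⟩
  have hord : orderOf z = p := by haveI := Fact.mk hp; exact orderOf_eq_prime hz hz1
  have hHc : Nat.card H = p := by rw [hH, Nat.card_zpowers, hord]
  have hpc : (p : ℂ) ≠ 0 := by exact_mod_cast hp.ne_zero
  letI : Fintype H := Fintype.ofFinite _
  have hex : ∀ χ : IrrCharacter G, ∃ n : ℕ, classInner (pic G Ω) (χ : G → ℂ) = n := fun χ => char_mult pic_char (irr_isCharacter χ.2)
  choose m hm using hex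
  have hex2 : ∀ χ : IrrCharacter G, ∃ n : ℕ, classInner (fun h : H => (χ : G → ℂ) h) (fun _ => 1) = n :=
    fun χ => char_mult (isCharacter_restrict (irr_isCharacter χ.2) H) isCharacter_one
  choose e he using hex2
  have he' : ∀ χ : IrrCharacter G, ∑ h : H, (χ : G → ℂ) h = p * e χ := by
    intro χ
    have h1 := he χ
    unfold classInner at h1
    rw [hHc] at h1
    simp only [map_one, mul_one] at h1
    rw [← h1, ← mul_assoc, mul_inv_cancel₀ hpc, one_mul]
  have hm1 : m (oneI G) = 1 := by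
    have h1 := hm (oneI G)
    have e1 : ((oneI G : IrrCharacter G) : G → ℂ) = fun _ => 1 := rfl
    rw [e1, inner_pic_one a] at h1
    exact_mod_cast h1.symm
  have he1 : e (oneI G) = 1 := by
    have h1 := he' (oneI G)
    have e1 : ∀ g, ((oneI G : IrrCharacter G) : G → ℂ) g = 1 := fun _ => rfl
    simp only [e1] at h1
    rw [Finset.sum_const, Finset.card_univ, ← Nat.card_eq_fintype_card, hHc, nsmul_eq_mul] at h1
    have h2 := mul_left_cancel₀ hpc h1
    exact_mod_cast h2.symm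
  -- the elements of `H`
  have hHel : ∀ h : H, h ≠ 1 → ∃ i : ℕ, ¬ p ∣ i ∧ (h : G) = z ^ i := by
    intro h h1
    have h2 : (h : G) ∈ Subgroup.zpowers z := by rw [← hH]; exact h.2
    rw [mem_zpowers_iff_mem_range_orderOf, Finset.mem_image] at h2
    obtain ⟨i, hi, hi2⟩ := h2
    refine ⟨i, ?_, hi2.symm⟩
    intro hd
    apply h1
    apply Subtype.ext
    obtain ⟨k, rfl⟩ := hd
    rw [← hi2, pow_mul, hz, one_pow]; rfl
  have hπH : ∀ h : H, h ≠ 1 → pic G Ω (h : G) = 0 := by
    intro h h1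
    obtain ⟨i, hi, hi2⟩ := hHel h h1
    unfold pic
    rw [hi2]
    have : MulAction.fixedBy Ω (z ^ i) = ∅ := by
      rw [Set.eq_empty_iff_forall_notMem]
      intro x hx
      exact hfree i hi x hx
    rw [this]; simp
  have hsum2 : ∑ χ : IrrCharacter G, m χ * e χ = 2 := by
    have h1 : ∑ h : H, pic G Ω (h : G) = 2 * p := by
      rw [Finset.sum_eq_single (1 : H)]
      · rw [show ((1 : H) : G) = 1 from rfl, pic_deg, hcard]; push_cast; ring
      · intro h _ h1; exact hπH h h1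
      · intro h; exact absurd (Finset.mem_univ _) h
    have h2 : ∑ h : H, pic G Ω (h : G) = ∑ χ : IrrCharacter G, (m χ : ℂ) * (p * e χ) := by
      have h3 : ∑ h : H, pic G Ω (h : G) = ∑ h : H, ∑ χ : IrrCharacter G, classInner (pic G Ω) (χ : G → ℂ) * (χ : G → ℂ) (h : G) :=
        Finset.sum_congr rfl (fun h _ => classFun_expand_apply (char_classFun pic_char) (h : G))
      rw [h3, Finset.sum_comm]
      apply Finset.sum_congr rfl
      intro χ _
      rw [← Finset.mul_sum, he', hm χ]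
    rw [h1] at h2
    have h3 : (p : ℂ) * 2 = p * ((∑ χ : IrrCharacter G, m χ * e χ : ℕ) : ℂ) := by
      push_cast
      rw [Finset.mul_sum, mul_comm, h2]
      apply Finset.sum_congr rfl
      intro χ _
      ring
    have h4 := mul_left_cancel₀ hpc h3
    exact_mod_cast h4.symm
  have hsum1 : ∑ χ ∈ Finset.univ \ {oneI G}, m χ * e χ = 1 := by
    rw [Finset.sum_eq_add_sum_sdiff_singleton_of_mem (Finset.mem_univ (oneI G)), hm1, he1] at hsum2
    omega
  obtain ⟨χ₁, hχ₁, hχ₁m, hχ₁u⟩ := exists_unique_of_sum_one hsum1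
  rw [Finset.mem_sdiff, Finset.mem_singleton] at hχ₁
  have hmχ₁ : m χ₁ = 1 := Nat.eq_one_of_mul_eq_one_right hχ₁m
  have heχ₁ : e χ₁ = 1 := Nat.eq_one_of_mul_eq_one_left hχ₁m
  -- rationality
  have hfix : ∀ τ : ℂ ≃+* ℂ, ∀ g, τ ((χ₁ : G → ℂ) g) = (χ₁ : G → ℂ) g := by
    intro τ
    have h1 : (CfsgLib.GalChar.galIrr τ χ₁ : IrrCharacter G) = χ₁ := by
      by_contra hcon
      have h2 : CfsgLib.GalChar.galIrr τ χ₁ ≠ oneI G := by
        intro h3
        apply hχ₁.2
        apply Subtype.ext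
        funext g
        have h4 : τ ((χ₁ : G → ℂ) g) = 1 := by
          rw [← CfsgLib.GalChar.galIrr_apply, h3]; rfl
        have h5 : τ ((χ₁ : G → ℂ) g) = τ 1 := by rw [h4, map_one]
        exact τ.injective h5
      have h3 := hχ₁u (CfsgLib.GalChar.galIrr τ χ₁) (by rw [Finset.mem_sdiff, Finset.mem_singleton]; exact ⟨Finset.mem_univ _, h2⟩) hcon
      have h4 : m (CfsgLib.GalChar.galIrr τ χ₁) = m χ₁ := by
        have h5 := CfsgLib.GalChar.inner_gal τ (pic_char (G := G) (Ω := Ω)) (irr_isCharacter χ₁.2)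
        have h6 : (τ ∘ pic G Ω) = pic G Ω := by
          funext g
          show τ (pic G Ω g) = pic G Ω g
          unfold pic
          exact map_natCast τ _
        rw [h6, hm χ₁, map_natCast] at h5
        have h7 : (τ ∘ (χ₁ : G → ℂ)) = (CfsgLib.GalChar.galIrr τ χ₁ : G → ℂ) := rfl
        rw [h7, hm] at h5
        exact_mod_cast h5
      have h5 : e (CfsgLib.GalChar.galIrr τ χ₁) = e χ₁ := by
        have h6 := he' (CfsgLib.GalChar.galIrr τ χ₁)
        simp only [CfsgLib.GalChar.galIrr_apply] at h6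
        rw [← map_sum, he' χ₁, map_mul, map_natCast, map_natCast] at h6
        have h7 := mul_left_cancel₀ hpc h6
        exact_mod_cast h7.symm
      rw [h4, h5, hmχ₁, heχ₁] at h3
      omega
    intro g
    rw [← CfsgLib.GalChar.galIrr_apply, h1]
  have hint : ∀ g, ∃ n : ℤ, (χ₁ : G → ℂ) g = n := fun g =>
    CfsgLib.GalChar.exists_int_of_fixed (CfsgLib.GalChar.isIntegral_char (irr_isCharacter χ₁.2) g) (fun τ => hfix τ g)
  choose n hn using hint
  have hconst : ∀ h : H, h ≠ 1 → (χ₁ : G → ℂ) (h : G) = (χ₁ : G → ℂ) z := by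
    intro h h1
    obtain ⟨i, hi, hi2⟩ := hHel h h1
    obtain ⟨σ, hσ⟩ := CfsgLib.GalField.exists_ringEquiv_pow p i hp.pos ((Nat.Prime.coprime_iff_not_dvd hp).mpr hi).symm
    rw [hi2, CfsgLib.GalChar.char_pow_eq_of_roots (irr_isCharacter χ₁.2) z i σ (by rw [hord]; exact hσ), hfix]
  have hdeg : (n 1 : ℤ) + (p - 1) * n z = p := by
    have h1 := he' χ₁
    rw [heχ₁, Finset.sum_eq_add_sum_sdiff_singleton_of_mem (Finset.mem_univ (1 : H)), Finset.sum_congr rfl (g := fun _ => (χ₁ : G → ℂ) z) (by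
      intro h hh
      rw [Finset.mem_sdiff, Finset.mem_singleton] at hh
      exact hconst h hh.2), Finset.sum_const, Finset.card_sdiff_of_subset (Finset.subset_univ _), Finset.card_singleton, Finset.card_univ,
      ← Nat.card_eq_fintype_card, hHc, show ((1 : H) : G) = 1 from rfl, hn, hn, nsmul_eq_mul, Nat.cast_sub hp.one_lt.le] at h1
    push_cast at h1
    rw [mul_one] at h1
    exact_mod_cast h1
  -- degree bounds
  have hd1 : (n 1 : ℤ) = charDegree (χ₁ : G → ℂ) := by
    have h1 := CfsgLib.CharInt.irr_one_eq_charDegree χ₁.2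
    rw [hn] at h1
    exact_mod_cast h1
  have hd2 : 1 ≤ charDegree (χ₁ : G → ℂ) := by
    rcases Nat.eq_zero_or_pos (charDegree (χ₁ : G → ℂ)) with h1 | h1
    · exfalso
      apply CfsgLib.CharInt.irr_one_ne_zero χ₁.2
      rw [CfsgLib.CharInt.irr_one_eq_charDegree χ₁.2, h1]; simp
    · exact h1
  have hd3 : charDegree (χ₁ : G → ℂ) + 1 ≤ 2 * p := by
    have h1 := classFun_expand_apply (char_classFun (pic_char (G := G) (Ω := Ω))) 1
    rw [pic_deg, hcard, Finset.sum_congr rfl (g := fun χ : IrrCharacter G => ((m χ * charDegree (χ : G → ℂ) : ℕ) : ℂ)) (by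
      intro χ _
      rw [hm χ, CfsgLib.CharInt.irr_one_eq_charDegree χ.2]; push_cast; ring), ← Nat.cast_sum] at h1
    have h2 : 2 * p = ∑ χ : IrrCharacter G, m χ * charDegree (χ : G → ℂ) := by exact_mod_cast h1
    rw [h2]
    have h3 : ∑ χ ∈ ({oneI G, χ₁} : Finset (IrrCharacter G)), m χ * charDegree (χ : G → ℂ) ≤ ∑ χ : IrrCharacter G, m χ * charDegree (χ : G → ℂ) :=
      Finset.sum_le_sum_of_subset (Finset.subset_univ _)
    rw [Finset.sum_pair (Ne.symm hχ₁.2), hm1, hmχ₁] at h3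
    have h4 : charDegree ((oneI G : IrrCharacter G) : G → ℂ) = 1 := by
      have h5 := CfsgLib.CharInt.irr_one_eq_charDegree (oneI G).2
      have e1 : ((oneI G : IrrCharacter G) : G → ℂ) 1 = 1 := rfl
      rw [e1] at h5
      exact_mod_cast h5.symm
    rw [h4] at h3
    omega
  have hp2 := hp.two_le
  have hb0 : 0 ≤ 1 - n z := by
    by_contra hcon
    push Not at hcon
    have h1 : 2 ≤ n z := by omega
    have h2 : (1 : ℤ) ≤ (p : ℤ) - 1 := by omega
    nlinarith
  refine ⟨χ₁, n, hχ₁.2, by rw [hm χ₁, hmχ₁]; norm_num, hn, (1 - n z).toNat, ?_, ?_, ?_⟩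
  · rw [Int.toNat_of_nonneg hb0]
    linarith
  · rw [Int.toNat_of_nonneg hb0]; ring
  · have h1 : (1 - n z) ≤ 2 := by
      by_contra hcon
      push Not at hcon
      have h2 : n z ≤ -2 := by omega
      have h3 : (1 : ℤ) ≤ (p : ℤ) - 1 := by omega
      have h4 : (charDegree (χ₁ : G → ℂ) : ℤ) + 1 ≤ 2 * p := by exact_mod_cast hd3
      nlinarith
    omega

end

end CfsgLib.DegTwoP20
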