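import Cfsg.Agent.LibDegTwoP20d

set_option autoImplicit false
set_option linter.all false
set_option maxHeartbeats 1000000

/-! # Primitive groups of degree `2p`: reduction modulo `p` (helper20) -/

namespace CfsgLib.DegTwoP20

open Cfsg CfsgLib.CharBasic CfsgLib.PermAlg20
open scoped ComplexConjugate

universe u v

variable {G : Type u} [Group G] [Fintype G] {Ω : Type v} [Fintype Ω] [MulAction G Ω]

open Classical in
/-- the integral kernel -/
noncomputable def FF (Ω : Type v) [Fintype Ω] [MulAction G Ω] (n : G → ℤ) (x y : Ω) : ℤ := ∑ g : G, n g * if g • y = x then 1 else 0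

theorem FF_row (n : G → ℤ) (x : Ω) (f : Ω → ℤ) : ∑ y, FF Ω n x y * f y = ∑ g, n g * f (g⁻¹ • x) := by
  classical
  unfold FF
  simp only [Finset.sum_mul]
  rw [Finset.sum_comm]
  apply Finset.sum_congr rfl
  intro g _
  rw [Finset.sum_eq_single (g⁻¹ • x)]
  · rw [smul_inv_smul, if_pos rfl, mul_one]
  · intro y _ hy
    rw [if_neg, mul_zero, zero_mul]
    intro h
    apply hy
    rw [← h, inv_smul_smul]
  · intro h; exact absurd (Finset.mem_univ _) h

/-- the data -/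
structure Dat (G : Type u) [Group G] [Fintype G] (Ω : Type v) [Fintype Ω] [MulAction G Ω] (p M : ℕ) where
  χ : IrrCharacter G
  n : G → ℤ
  hn : ∀ g, (χ : G → ℂ) g = n g
  hne : χ ≠ oneI G
  hm : classInner (pic G Ω) (χ : G → ℂ) = 1
  hdeg : n 1 = p
  hG : Nat.card G = p * M
  hp : p ≠ 0
  hcard : Fintype.card Ω = 2 * p

namespace Dat

variable {p M : ℕ} (S : Dat G Ω p M)

include S in
theorem M_ne : (M : ℂ) ≠ 0 := by
  have h1 := S.hG
  have h2 : 0 < Nat.card G := Nat.card_pos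
  have : M ≠ 0 := by rintro rfl; rw [mul_zero] at h1; omega
  exact_mod_cast this

theorem tkE (x y : Ω) : (M : ℂ) * tk (E (permRep ℂ G Ω) S.χ) x y = (FF Ω S.n x y : ℂ) := by
  classical
  rw [tk_E]
  unfold FF
  push_cast
  rw [Finset.mul_sum]
  apply Finset.sum_congr rfl
  intro g _
  have h1 : ee (S.χ : G → ℂ) g = (M : ℂ)⁻¹ * S.n g := by
    unfold ee
    rw [S.hn, S.hn, S.hG, S.hdeg]
    push_cast
    rw [map_intCast]
    have hp : (p : ℂ) ≠ 0 := by exact_mod_cast S.hp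
    have hM := S.M_ne
    field_simp
  rw [h1]
  have hM := S.M_ne
  rw [← mul_assoc, ← mul_assoc, mul_inv_cancel₀ hM, one_mul]

theorem bar_eq : bar S.χ = S.χ := by
  apply Subtype.ext
  funext g
  show conj ((S.χ : G → ℂ) g) = (S.χ : G → ℂ) g
  rw [S.hn, map_intCast]

theorem F_symm (x y : Ω) : FF Ω S.n x y = FF Ω S.n y x := by
  have h1 : (FF Ω S.n x y : ℂ) = (FF Ω S.n y x : ℂ) := by
    rw [← S.tkE, ← S.tkE, tk_E_symm, S.bar_eq]
  exact_mod_cast h1

theorem F_inv (g : G) (x y : Ω) : FF Ω S.n (g • x) (g • y) = FF Ω S.n x y := by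
  have h1 : (FF Ω S.n (g • x) (g • y) : ℂ) = (FF Ω S.n x y : ℂ) := by
    rw [← S.tkE, ← S.tkE, tk_inv (fun g => E_comm' (permRep ℂ G Ω) S.χ g) g x y]
  exact_mod_cast h1

theorem F_sq (x y : Ω) : ∑ w, FF Ω S.n x w * FF Ω S.n w y = M * FF Ω S.n x y := by
  have h0 := E_comp (permRep ℂ G Ω) S.χ S.χ
  rw [if_pos rfl] at h0
  have h2 : ∑ w, tk (E (permRep ℂ G Ω) S.χ) x w * tk (E (permRep ℂ G Ω) S.χ) w y = tk (E (permRep ℂ G Ω) S.χ) x y := by
    rw [← tk_comp, h0]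
  have h1 : ((∑ w, FF Ω S.n x w * FF Ω S.n w y : ℤ) : ℂ) = ((M * FF Ω S.n x y : ℤ) : ℂ) := by
    push_cast
    rw [← S.tkE x y, ← h2, Finset.mul_sum, Finset.mul_sum]
    apply Finset.sum_congr rfl
    intro w _
    rw [← S.tkE, ← S.tkE]; ring
  exact_mod_cast h1

theorem F_row (x : Ω) : ∑ y, FF Ω S.n x y = 0 := by
  have h1 := FF_row S.n x (fun _ => 1)
  simp only [mul_one] at h1
  rw [h1]
  have h2 := CfsgLib.CharBasic.irr_inner_ne S.χ.2 (oneI G).2 (fun h => S.hne (Subtype.ext h))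
  unfold classInner at h2
  have hG : (Nat.card G : ℂ) ≠ 0 := by exact_mod_cast Nat.card_pos.ne'
  have h3 := (mul_eq_zero.mp h2).resolve_left (inv_ne_zero hG)
  have e1 : ∀ g, ((oneI G : IrrCharacter G) : G → ℂ) g = 1 := fun _ => rfl
  simp only [e1, map_one, mul_one, S.hn] at h3
  exact_mod_cast h3

theorem F_diag [MulAction.IsPretransitive G Ω] (a : Ω) : 2 * FF Ω S.n a a = M := by
  have h1 := E_trace (permRep ℂ G Ω) S.χ
  rw [perm_char_eq, S.hm, mul_one, S.hn, S.hdeg] at h1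
  have htrtk : ∀ T : Module.End ℂ (Ω → ℂ), LinearMap.trace ℂ (Ω → ℂ) T = ∑ x, tk T x x := by
    classical
    intro T
    rw [LinearMap.trace_eq_matrix_trace ℂ (Pi.basisFun ℂ Ω), Matrix.trace]
    apply Finset.sum_congr rfl
    intro x _
    rw [Matrix.diag_apply, LinearMap.toMatrix_apply]
    simp only [Pi.basisFun_apply, Pi.basisFun_repr]
    unfold tk
    congr!
  rw [htrtk] at h1
  have h2 : ∀ x, (M : ℂ) * tk (E (permRep ℂ G Ω) S.χ) x x = (FF Ω S.n a a : ℂ) := by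
    intro x
    rw [S.tkE]
    obtain ⟨g, hg⟩ := MulAction.exists_smul_eq G a x
    rw [← hg, S.F_inv]
  have h3 : (Fintype.card Ω : ℂ) * (FF Ω S.n a a : ℂ) = M * p := by
    have h4 := congrArg (fun t => (M : ℂ) * t) h1
    beta_reduce at h4
    rw [Finset.mul_sum, Finset.sum_congr rfl (fun x _ => h2 x), Finset.sum_const, Finset.card_univ, nsmul_eq_mul] at h4
    rw [h4]; push_cast; ring
  rw [S.hcard] at h3
  have hp : (p : ℂ) ≠ 0 := by exact_mod_cast S.hp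
  have h5 : (p : ℂ) * (2 * (FF Ω S.n a a : ℂ)) = p * M := by
    rw [mul_comm (p : ℂ) (M : ℂ), ← h3]; push_cast; ring
  have h6 := mul_left_cancel₀ hp h5
  exact_mod_cast h6

theorem F_scalar [MulAction.IsPretransitive G Ω] (a : Ω) (t : Ω → Ω → ℤ) (ht : ∀ (g : G) x y, t (g • x) (g • y) = t x y) :
    ∀ x y, (M : ℤ) * ∑ w, t x w * FF Ω S.n w y = (2 * ∑ w, t a w * FF Ω S.n w a) * FF Ω S.n x y := by
  obtain ⟨T, hT⟩ : ∃ T : Module.End ℂ (Ω → ℂ), T = kop (fun x y => (t x y : ℂ)) := ⟨_, rfl⟩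
  have hTc : ∀ g : G, Commute T (permRep ℂ G Ω g) := by
    rw [hT]
    apply kop_comm
    intro g x y
    show ((t (g • x) (g • y) : ℤ) : ℂ) = _
    rw [ht]
  obtain ⟨θ, hθ⟩ := mult_one_scalar (permRep ℂ G Ω) S.χ (by rw [perm_char_eq]; exact S.hm) hTc
  have h1 : T ∘ₗ E (permRep ℂ G Ω) S.χ = θ • E (permRep ℂ G Ω) S.χ := LinearMap.ext hθ
  have h2 : ∀ x y, ∑ w, (t x w : ℂ) * (FF Ω S.n w y : ℂ) = θ * (FF Ω S.n x y : ℂ) := by
    intro x y
    have h3 : tk (T ∘ₗ E (permRep ℂ G Ω) S.χ) x y = tk (θ • E (permRep ℂ G Ω) S.χ) x y := by rw [h1]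
    rw [tk_comp, tk_smul] at h3
    have h4 := congrArg (fun s => (M : ℂ) * s) h3
    beta_reduce at h4
    rw [Finset.mul_sum] at h4
    rw [← S.tkE x y, mul_left_comm, ← h4]
    apply Finset.sum_congr rfl
    intro w _
    rw [← S.tkE w y, hT, tk_kop]; ring
  intro x y
  have h5 : (((M : ℤ) * ∑ w, t x w * FF Ω S.n w y : ℤ) : ℂ) = (((2 * ∑ w, t a w * FF Ω S.n w a) * FF Ω S.n x y : ℤ) : ℂ) := by
    push_cast
    rw [h2, h2]
    have h6 : (2 * (FF Ω S.n a a : ℂ)) = M := by exact_mod_cast S.F_diag a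
    rw [← h6]; ring
  exact_mod_cast h5

end Dat

end CfsgLib.DegTwoP20
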