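import Cfsg.Agent.LibDegTwoP20e

set_option autoImplicit false
set_option linter.all false
set_option maxHeartbeats 1000000

/-! # Primitive groups of degree `2p`: the rank (helper20) -/

namespace CfsgLib.DegTwoP20

open Cfsg CfsgLib.CharBasic CfsgLib.PermAlg20
open scoped ComplexConjugate

universe u v

section

variable {Ω : Type v} [Fintype Ω] {p : ℕ} [Fact p.Prime]

theorem kp_kp (K K' : Ω → Ω → ZMod p) (v : Ω → ZMod p) : kp K (kp K' v) = kp (fun x y => ∑ w, K x w * K' w y) v := by
  funext x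
  rw [kp_apply, kp_apply]
  simp only [kp_apply, Finset.mul_sum, Finset.sum_mul]
  rw [Finset.sum_comm]
  apply Finset.sum_congr rfl
  intro y _
  apply Finset.sum_congr rfl
  intro w _
  ring

theorem kp_smul (c : ZMod p) (K : Ω → Ω → ZMod p) (v : Ω → ZMod p) : kp (fun x y => c * K x y) v = c • kp K v := by
  funext x
  rw [kp_apply, Pi.smul_apply, kp_apply, smul_eq_mul, Finset.mul_sum]
  apply Finset.sum_congr rfl
  intro y _
  ring

open Classical in
theorem eq_kp (T : Module.End (ZMod p) (Ω → ZMod p)) : T = kp (fun x y => T (Pi.single y 1) x) := by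
  apply (Pi.basisFun (ZMod p) Ω).ext
  intro y
  rw [Pi.basisFun_apply]
  funext x
  rw [kp_single]

end

variable {G : Type u} [Group G] [Fintype G] {Ω : Type v} [Fintype Ω] [MulAction G Ω] {p : ℕ} [Fact p.Prime]

theorem act_single [DecidableEq Ω] (g : G) (y : Ω) : permRep (ZMod p) G Ω g (Pi.single y 1) = Pi.single (g • y) 1 := by
  funext x
  show (Pi.single y (1 : ZMod p) : Ω → ZMod p) (g⁻¹ • x) = (Pi.single (g • y) (1 : ZMod p) : Ω → ZMod p) x
  rw [Pi.single_apply, Pi.single_apply]
  have : g⁻¹ • x = y ↔ x = g • y := inv_smul_eq_iff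
  simp only [this]

theorem dat_rank {M : ℕ} (S : Dat G Ω p M) (hM : ¬ p ∣ M) (hp3 : 3 ≤ p) {z : G} (hz : z ^ p = 1) (hfree : ∀ x : Ω, z • x ≠ x)
    (hprim : MulAction.IsPreprimitive G Ω) (a : Ω) :
    Nat.card (MulAction.orbitRel.Quotient (MulAction.stabilizer G a) Ω) ≤ 3 := by
  classical
  haveI := hprim.toIsPretransitive
  obtain ⟨c, hc⟩ : ∃ c : ZMod p, c = (M : ZMod p)⁻¹ := ⟨_, rfl⟩
  have hM0 : (M : ZMod p) ≠ 0 := by rw [Ne, ZMod.natCast_eq_zero_iff]; exact hM
  have hcM : c * (M : ZMod p) = 1 := by rw [hc]; exact inv_mul_cancel₀ hM0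
  obtain ⟨K, hK⟩ : ∃ K : Ω → Ω → ZMod p, K = fun x y => ((FF Ω S.n x y : ℤ) : ZMod p) := ⟨_, rfl⟩
  obtain ⟨E₁, hE₁⟩ : ∃ E₁ : Module.End (ZMod p) (Ω → ZMod p), E₁ = kp (fun x y => c * K x y) := ⟨_, rfl⟩
  have hE : ∀ v, E₁ v = c • kp K v := by intro v; rw [hE₁, kp_smul]
  have hKK : ∀ x y, ∑ w, K x w * K w y = (M : ZMod p) * K x y := by
    intro x y
    rw [hK]
    have := congrArg (fun s : ℤ => (s : ZMod p)) (S.F_sq x y)
    push_cast at this
    exact this
  have hKKv : ∀ v, kp K (kp K v) = (M : ZMod p) • kp K v := by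
    intro v
    rw [kp_kp, ← kp_smul]
    simp only [hKK]
  have hKsum : ∀ v, kp K v = ∑ g : G, ((S.n g : ℤ) : ZMod p) • permRep (ZMod p) G Ω g v := by
    intro v
    funext x
    rw [kp_apply, hK, Finset.sum_apply]
    unfold FF
    push_cast
    simp only [Finset.sum_mul]
    rw [Finset.sum_comm]
    apply Finset.sum_congr rfl
    intro g _
    rw [Finset.sum_eq_single (g⁻¹ • x)]
    · rw [smul_inv_smul, if_pos rfl, mul_one]; rfl
    · intro y _ hy
      rw [if_neg, mul_zero, zero_mul]
      intro h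
      apply hy
      rw [← h, inv_smul_smul]
    · intro h; exact absurd (Finset.mem_univ _) h
  apply rank_le_three hz hfree hp3 S.hcard E₁ _ _ _ _ _ _ hprim a
  · intro v
    rw [hE, hE, map_smul, hKKv, smul_smul, smul_smul, mul_assoc, hcM, mul_one]
  · intro g v
    rw [hE, hE, map_smul, kp_comm]
    intro g x y
    rw [hK]
    show ((FF Ω S.n (g • x) (g • y) : ℤ) : ZMod p) = _
    rw [S.F_inv]
  · rw [hE]
    have : kp K (fun _ => 1) = 0 := by
      funext x
      rw [kp_apply, hK]
      simp only [mul_one]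
      have := congrArg (fun s : ℤ => (s : ZMod p)) (S.F_row x)
      push_cast at this
      exact this
    rw [this, smul_zero]
  · intro u v
    rw [hE, hE]
    simp only [Pi.smul_apply, smul_eq_mul, kp_apply, Finset.mul_sum, Finset.sum_mul]
    rw [Finset.sum_comm]
    apply Finset.sum_congr rfl
    intro y _
    apply Finset.sum_congr rfl
    intro x _
    have : K x y = K y x := by rw [hK]; show ((FF Ω S.n x y : ℤ) : ZMod p) = ((FF Ω S.n y x : ℤ) : ZMod p); rw [S.F_symm]
    rw [this]; ring
  · intro h0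
    have h1 := congrFun (LinearMap.congr_fun h0 (Pi.single a 1)) a
    rw [hE, Pi.smul_apply, kp_single, hK] at h1
    have h2 := congrArg (fun s : ℤ => (s : ZMod p)) (S.F_diag a)
    push_cast at h2
    have h3 : c * ((FF Ω S.n a a : ℤ) : ZMod p) = 0 := h1
    apply hM0
    rw [← h2]
    have h4 : c ≠ 0 := by
      intro h4
      rw [h4, zero_mul] at hcM
      exact zero_ne_one hcM
    rw [(mul_eq_zero.mp h3).resolve_left h4, mul_zero]
  · intro T hT
    constructor
    · intro v
      rw [hE, hE, map_smul, hKsum, hKsum, map_sum]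
      congr 1
      apply Finset.sum_congr rfl
      intro g _
      rw [map_smul, hT]
    · -- scalar
      obtain ⟨t, ht⟩ : ∃ t : Ω → Ω → ZMod p, t = fun x y => T (Pi.single y 1) x := ⟨_, rfl⟩
      have hTt : T = kp t := by rw [ht]; exact eq_kp T
      have htinv : ∀ (g : G) x y, t (g • x) (g • y) = t x y := by
        intro g x y
        rw [ht]
        show T (Pi.single (g • y) 1) (g • x) = T (Pi.single y 1) x
        rw [← act_single, hT]
        show T (Pi.single y 1) (g⁻¹ • g • x) = _
        rw [inv_smul_smul]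
      haveI : NeZero p := ⟨(Fact.out : p.Prime).ne_zero⟩
      obtain ⟨t', ht'⟩ : ∃ t' : Ω → Ω → ℤ, t' = fun x y => ((t x y).val : ℤ) := ⟨_, rfl⟩
      have htt' : ∀ x y, ((t' x y : ℤ) : ZMod p) = t x y := by
        intro x y
        rw [ht']
        show (((t x y).val : ℤ) : ZMod p) = t x y
        rw [Int.cast_natCast, ZMod.natCast_zmod_val]
      have h1 := S.F_scalar a t' (by
        intro g x y
        rw [ht']
        show ((t (g • x) (g • y)).val : ℤ) = ((t x y).val : ℤ)
        rw [htinv])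
      obtain ⟨s, hs⟩ : ∃ s : ℤ, s = 2 * ∑ w, t' a w * FF Ω S.n w a := ⟨_, rfl⟩
      rw [← hs] at h1
      have h2 : ∀ x y, (M : ZMod p) * ∑ w, t x w * K w y = (s : ZMod p) * K x y := by
        intro x y
        have h3 := congrArg (fun s : ℤ => (s : ZMod p)) (h1 x y)
        push_cast at h3
        simp only [htt'] at h3
        rw [hK]
        exact h3
      refine ⟨c * (s : ZMod p), ?_⟩
      intro v
      rw [hE, map_smul, hTt, kp_kp, smul_smul]
      have h4 : kp (fun x y => ∑ w, t x w * K w y) v = (c * (s : ZMod p)) • kp K v := by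
        rw [← kp_smul]
        congr 2
        funext x y
        have h5 := h2 x y
        calc ∑ w, t x w * K w y = (c * (M : ZMod p)) * ∑ w, t x w * K w y := by rw [hcM, one_mul]
          _ = c * ((M : ZMod p) * ∑ w, t x w * K w y) := by ring
          _ = c * (s : ZMod p) * K x y := by rw [h5]; ring
      rw [h4, smul_smul]
      congr 1
      ring

end CfsgLib.DegTwoP20
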