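import Cfsg.Agent.LibDegTwoP20f

set_option autoImplicit false
set_option linter.all false
set_option maxHeartbeats 1000000

/-! # Primitive groups of degree `2p`: the main case (helper20) -/

namespace CfsgLib.DegTwoP20

open Cfsg CfsgLib.CharBasic CfsgLib.PermAlg20
open scoped ComplexConjugate

universe u v

variable {G : Type u} [Group G] {Ω : Type v} [Fintype Ω] [MulAction G Ω]

theorem same_orbit_of_rank_two (a : Ω) (h : Nat.card (MulAction.orbitRel.Quotient (MulAction.stabilizer G a) Ω) ≤ 2)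
    (b c : Ω) (hb : b ≠ a) (hc : c ≠ a) : b ∈ MulAction.orbit (MulAction.stabilizer G a) c := by
  classical
  by_contra hcon
  have hfix : ∀ g : MulAction.stabilizer G a, g • a = a := fun g => g.2
  have h1 : (Quotient.mk'' a : MulAction.orbitRel.Quotient (MulAction.stabilizer G a) Ω) ≠ Quotient.mk'' b := by
    intro h2
    have := Quotient.eq''.mp h2
    rw [MulAction.orbitRel_apply] at this
    obtain ⟨g, hg⟩ := this
    apply hb
    have h3 : g • b = a := hg
    rw [← inv_smul_smul g b, h3]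
    exact hfix g⁻¹
  have h2 : (Quotient.mk'' a : MulAction.orbitRel.Quotient (MulAction.stabilizer G a) Ω) ≠ Quotient.mk'' c := by
    intro h2
    have := Quotient.eq''.mp h2
    rw [MulAction.orbitRel_apply] at this
    obtain ⟨g, hg⟩ := this
    apply hc
    have h3 : g • c = a := hg
    rw [← inv_smul_smul g c, h3]
    exact hfix g⁻¹
  have h3 : (Quotient.mk'' b : MulAction.orbitRel.Quotient (MulAction.stabilizer G a) Ω) ≠ Quotient.mk'' c := by
    intro h2
    have := Quotient.eq''.mp h2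
    rw [MulAction.orbitRel_apply] at this
    exact hcon this
  letI : Fintype (MulAction.orbitRel.Quotient (MulAction.stabilizer G a) Ω) := Fintype.ofFinite _
  have h4 := Finset.card_le_univ ({Quotient.mk'' a, Quotient.mk'' b, Quotient.mk'' c} : Finset (MulAction.orbitRel.Quotient (MulAction.stabilizer G a) Ω))
  rw [Finset.card_eq_three.mpr ⟨_, _, _, h1, h2, h3, rfl⟩, ← Nat.card_eq_fintype_card] at h4
  omega

theorem two_trans_of_rank_two [MulAction.IsPretransitive G Ω] (a : Ω)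
    (h : Nat.card (MulAction.orbitRel.Quotient (MulAction.stabilizer G a) Ω) ≤ 2) (x y u v : Ω) (hxy : x ≠ y) (huv : u ≠ v) :
    ∃ g : G, g • x = u ∧ g • y = v := by
  obtain ⟨g₁, hg₁⟩ := MulAction.exists_smul_eq G x a
  obtain ⟨g₂, hg₂⟩ := MulAction.exists_smul_eq G u a
  have h1 : g₁ • y ≠ a := by
    intro h2
    exact hxy (smul_left_cancel g₁ (hg₁.trans h2.symm))
  have h2 : g₂ • v ≠ a := by
    intro h2
    exact huv (smul_left_cancel g₂ (hg₂.trans h2.symm))
  obtain ⟨⟨k, hk⟩, hk2⟩ := same_orbit_of_rank_two a h (g₂ • v) (g₁ • y) h2 h1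
  have hk3 : k • g₁ • y = g₂ • v := hk2
  have hk4 : k • a = a := hk
  refine ⟨g₂⁻¹ * k * g₁, ?_, ?_⟩
  · rw [mul_smul, mul_smul, hg₁, hk4, ← hg₂, inv_smul_smul]
  · rw [mul_smul, mul_smul, hk3, inv_smul_smul]

variable [Fintype G]

/-- the linear case is impossible -/
theorem not_linear (hprim : MulAction.IsPreprimitive G Ω) (χ : IrrCharacter G) (hne : χ ≠ oneI G)
    (hm : classInner (pic G Ω) (χ : G → ℂ) = 1) (h1 : (χ : G → ℂ) 1 = 1) {z : G} (hz : (χ : G → ℂ) z = 1) (x₀ : Ω) (hzx : z • x₀ ≠ x₀) : False := by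
  classical
  haveI := hprim.toIsPretransitive
  have hmul := fun x y => linear_mul (irr_isCharacter χ.2) h1 x y
  obtain ⟨f, hf⟩ := exists_hom_of_linear (irr_isCharacter χ.2) h1
  have hE0 : E (permRep ℂ G Ω) χ ≠ 0 := by
    intro h0
    have h3 := E_trace (permRep ℂ G Ω) χ
    rw [h0, map_zero, perm_char_eq, hm, h1, mul_one] at h3
    exact zero_ne_one h3
  obtain ⟨v₀, hv₀⟩ : ∃ v, E (permRep ℂ G Ω) χ v ≠ 0 := by
    by_contra hcon
    push Not at hcon
    exact hE0 (LinearMap.ext hcon)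
  obtain ⟨v, hv⟩ : ∃ v, v = E (permRep ℂ G Ω) χ v₀ := ⟨_, rfl⟩
  rw [← hv] at hv₀
  have hact : ∀ g : G, permRep ℂ G Ω g v = (χ : G → ℂ) g • v := by
    intro g
    rw [hv]
    unfold E R
    rw [LinearMap.sum_apply, map_sum, Finset.smul_sum, ← Equiv.sum_comp (Equiv.mulLeft g) (fun h => (χ : G → ℂ) g • (ee (χ : G → ℂ) h • permRep ℂ G Ω h) v₀)]
    apply Finset.sum_congr rfl
    intro h _
    rw [Equiv.coe_mulLeft, LinearMap.smul_apply, LinearMap.smul_apply, map_smul, map_mul, Module.End.mul_apply, smul_smul]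
    congr 1
    unfold ee
    rw [hmul g h, map_mul]
    have h3 : (χ : G → ℂ) g * conj ((χ : G → ℂ) g) = 1 := by
      rw [← char_inv_eq_conj (irr_isCharacter χ.2), ← hmul, mul_inv_cancel, h1]
    calc (χ : G → ℂ) 1 / (Nat.card G : ℂ) * conj ((χ : G → ℂ) h) = ((χ : G → ℂ) g * conj ((χ : G → ℂ) g)) * ((χ : G → ℂ) 1 / (Nat.card G : ℂ) * conj ((χ : G → ℂ) h)) := by rw [h3, one_mul]
      _ = _ := by ring
  haveI : MulAction.IsQuasiPreprimitive G Ω := inferInstance
  have htrans : MulAction.IsPretransitive f.ker Ω := by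
    apply MulAction.IsQuasiPreprimitive.isPretransitive_of_normal
    intro h3
    have h4 : x₀ ∈ MulAction.fixedPoints f.ker Ω := by rw [h3]; trivial
    apply hzx
    have h5 : z ∈ f.ker := by
      rw [MonoidHom.mem_ker]
      apply Units.ext
      rw [← hf, hz]; rfl
    exact h4 ⟨z, h5⟩
  have hconst : ∀ x, v x = v x₀ := by
    intro x
    obtain ⟨⟨k, hk⟩, hkx⟩ := htrans.exists_smul_eq x x₀
    have h5 : (χ : G → ℂ) k = 1 := by
      rw [hf, MonoidHom.mem_ker.mp hk]; rfl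
    have h6 := congrFun (hact k) (k • x)
    have h7 : permRep ℂ G Ω k v (k • x) = v (k⁻¹ • k • x) := rfl
    rw [h7, inv_smul_smul, h5, one_smul] at h6
    rw [h6]
    congr 1
  have hvx : v x₀ ≠ 0 := by
    intro h3
    apply hv₀
    funext x
    rw [hconst, h3]; rfl
  apply hne
  apply Subtype.ext
  funext g
  have h6 := congrFun (hact g) x₀
  have h7 : permRep ℂ G Ω g v x₀ = v (g⁻¹ • x₀) := rfl
  rw [h7, hconst, Pi.smul_apply, smul_eq_mul] at h6
  have h8 : (χ : G → ℂ) g = 1 := by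
    have := mul_right_cancel₀ hvx (h6.symm.trans (one_mul _).symm)
    exact this
  rw [h8]; rfl

/-- the main case of Wielandt's theorem -/
theorem main_case (hprim : MulAction.IsPreprimitive G Ω) {p : ℕ} (hp : p.Prime) (hp3 : 3 ≤ p) (hcard : Fintype.card Ω = 2 * p)
    {z : G} (hz : z ^ p = 1) (hz1 : z ≠ 1) (hfree : ∀ i : ℕ, ¬ p ∣ i → ∀ x : Ω, z ^ i • x ≠ x) (hpp : ¬ p ^ 2 ∣ Nat.card G) (a : Ω) :
    (∀ x y u v : Ω, x ≠ y → u ≠ v → ∃ g : G, g • x = u ∧ g • y = v) ∨
    (Nat.card (MulAction.orbitRel.Quotient (MulAction.stabilizer G a) Ω) = 3 ∧ ∃ c : ℕ, 0 < c ∧ p = 2 * c ^ 2 + 2 * c + 1 ∧ ∀ b : Ω, b ≠ a →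
      Nat.card (MulAction.orbit (MulAction.stabilizer G a) b) = c * (2 * c + 1) ∨ Nat.card (MulAction.orbit (MulAction.stabilizer G a) b) = (c + 1) * (2 * c + 1)) := by
  classical
  haveI := hprim.toIsPretransitive
  haveI := Fact.mk hp
  obtain ⟨χ₁, n, hχ1, hχm, hn, b, hb1, hbz, hb2⟩ := exists_chi hp hcard hz hz1 hfree a
  have hex : ∀ χ : IrrCharacter G, ∃ n : ℕ, classInner (pic G Ω) (χ : G → ℂ) = n := fun χ => char_mult pic_char (irr_isCharacter χ.2)
  choose m hm using hex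
  have hm1 : m (oneI G) = 1 := by
    have h1 := hm (oneI G)
    have e1 : ((oneI G : IrrCharacter G) : G → ℂ) = fun _ => 1 := rfl
    rw [e1, inner_pic_one a] at h1
    exact_mod_cast h1.symm
  have hmχ₁ : m χ₁ = 1 := by
    have h1 := hm χ₁
    rw [hχm] at h1
    exact_mod_cast h1.symm
  have hdpos : ∀ χ : IrrCharacter G, 1 ≤ charDegree (χ : G → ℂ) := by
    intro χ
    rcases Nat.eq_zero_or_pos (charDegree (χ : G → ℂ)) with h1 | h1
    · exfalso
      apply CfsgLib.CharInt.irr_one_ne_zero χ.2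
      rw [CfsgLib.CharInt.irr_one_eq_charDegree χ.2, h1]; simp
    · exact h1
  have hdone : charDegree ((oneI G : IrrCharacter G) : G → ℂ) = 1 := by
    have h5 := CfsgLib.CharInt.irr_one_eq_charDegree (oneI G).2
    have e1 : ((oneI G : IrrCharacter G) : G → ℂ) 1 = 1 := rfl
    rw [e1] at h5
    exact_mod_cast h5.symm
  have hdχ₁ : (charDegree (χ₁ : G → ℂ) : ℤ) = 1 + (p - 1) * b := by
    have h1 := CfsgLib.CharInt.irr_one_eq_charDegree χ₁.2
    rw [hn, hb1] at h1
    exact_mod_cast h1.symm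
  obtain ⟨X, hX⟩ : ∃ X : Finset (IrrCharacter G), X = Finset.univ \ {oneI G, χ₁} := ⟨_, rfl⟩
  have hsub : ({oneI G, χ₁} : Finset (IrrCharacter G)) ⊆ Finset.univ := Finset.subset_univ _
  have hdeg : 2 * p = 1 + charDegree (χ₁ : G → ℂ) + ∑ χ ∈ X, m χ * charDegree (χ : G → ℂ) := by
    have h1 := classFun_expand_apply (char_classFun (pic_char (G := G) (Ω := Ω))) 1
    rw [pic_deg, hcard, Finset.sum_congr rfl (g := fun χ : IrrCharacter G => ((m χ * charDegree (χ : G → ℂ) : ℕ) : ℂ)) (by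
      intro χ _
      rw [hm χ, CfsgLib.CharInt.irr_one_eq_charDegree χ.2]; push_cast; ring), ← Nat.cast_sum] at h1
    have h2 : 2 * p = ∑ χ : IrrCharacter G, m χ * charDegree (χ : G → ℂ) := by exact_mod_cast h1
    rw [h2, ← Finset.sum_sdiff hsub, Finset.sum_pair (Ne.symm hχ1), hm1, hmχ₁, hdone, hX]; ring
  have hrank : Nat.card (MulAction.orbitRel.Quotient (MulAction.stabilizer G a) Ω) = 2 + ∑ χ ∈ X, (m χ) ^ 2 := by
    have h1 := inner_pic_self (G := G) a
    rw [parseval (char_classFun pic_char) (char_classFun pic_char)] at h1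
    rw [Finset.sum_congr rfl (g := fun χ : IrrCharacter G => (((m χ) ^ 2 : ℕ) : ℂ)) (by
      intro χ _
      rw [hm χ, Complex.conj_natCast]; push_cast; ring), ← Nat.cast_sum] at h1
    have h2 : ∑ χ : IrrCharacter G, (m χ) ^ 2 = Nat.card (MulAction.orbitRel.Quotient (MulAction.stabilizer G a) Ω) := by exact_mod_cast h1
    rw [← h2, ← Finset.sum_sdiff hsub, Finset.sum_pair (Ne.symm hχ1), hm1, hmχ₁, hX]; ring
  obtain ⟨M, hM⟩ : p ∣ Nat.card G := by
    have h1 : orderOf z = p := orderOf_eq_prime hz hz1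
    rw [← h1]; exact orderOf_dvd_natCard z
  have hMp : ¬ p ∣ M := by
    rintro ⟨k, rfl⟩
    apply hpp
    rw [hM]; exact ⟨k, by ring⟩
  interval_cases b
  · -- linear
    exfalso
    refine not_linear hprim χ₁ hχ1 hχm ?_ ?_ a (z := z) ?_
    · rw [hn, hb1]; simp
    · rw [hn, hbz]; simp
    · have := hfree 1 (by intro h; have := Nat.le_of_dvd one_pos h; omega) a
      rwa [pow_one] at this
  · -- degree p
    right
    have hd : charDegree (χ₁ : G → ℂ) = p := by
      push_cast at hdχ₁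
      have : (charDegree (χ₁ : G → ℂ) : ℤ) = p := by rw [hdχ₁]; ring
      exact_mod_cast this
    let S : Dat G Ω p M := { χ := χ₁, n := n, hn := hn, hne := hχ1, hm := hχm, hdeg := by rw [hb1]; push_cast; ring, hG := hM, hp := hp.ne_zero, hcard := hcard }
    have hr3 := dat_rank S hMp hp3 hz (by
      intro x
      have := hfree 1 (by intro h; have := Nat.le_of_dvd one_pos h; omega) x
      rwa [pow_one] at this) hprim a
    have hXne : ∑ χ ∈ X, m χ * charDegree (χ : G → ℂ) ≠ 0 := by omega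
    obtain ⟨χ₂, hχ₂, hχ₂0⟩ := Finset.exists_ne_zero_of_sum_ne_zero hXne
    have hmχ₂ : 1 ≤ m χ₂ := by
      rcases Nat.eq_zero_or_pos (m χ₂) with h1 | h1
      · exfalso; apply hχ₂0; rw [h1, zero_mul]
      · exact h1
    have hsum : ∑ χ ∈ X, (m χ) ^ 2 = 1 := by
      have h1 : (m χ₂) ^ 2 ≤ ∑ χ ∈ X, (m χ) ^ 2 := Finset.single_le_sum (f := fun χ : IrrCharacter G => (m χ) ^ 2) (fun _ _ => Nat.zero_le _) hχ₂
      have h2 : 1 ≤ (m χ₂) ^ 2 := Nat.one_le_pow _ _ hmχ₂
      omega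
    obtain ⟨χ₃, hχ₃, hχ₃1, hχ₃u⟩ := exists_unique_of_sum_one hsum
    have h23 : χ₂ = χ₃ := by
      by_contra h1
      have h2 := hχ₃u χ₂ hχ₂ h1
      have : m χ₂ = 0 := by
        by_contra h3
        exact pow_ne_zero 2 h3 h2
      omega
    subst h23
    have hmχ₂' : m χ₂ = 1 := by
      have : m χ₂ * m χ₂ = 1 := by rw [← pow_two]; exact hχ₃1
      exact Nat.eq_one_of_mul_eq_one_right this
    have hother : ∀ χ ∈ X, χ ≠ χ₂ → m χ = 0 := by
      intro χ h1 h2
      have h3 := hχ₃u χ h1 h2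
      by_contra h4
      exact pow_ne_zero 2 h4 h3
    have hrk : Nat.card (MulAction.orbitRel.Quotient (MulAction.stabilizer G a) Ω) = 3 := by rw [hrank, hsum]
    refine ⟨hrk, ?_⟩
    have hπ : ∀ g, pic G Ω g = 1 + (χ₂ : G → ℂ) g + (χ₁ : G → ℂ) g := by
      intro g
      rw [classFun_expand_apply (char_classFun (pic_char (G := G) (Ω := Ω))) g, ← Finset.sum_sdiff hsub, Finset.sum_pair (Ne.symm hχ1), ← hX,
        Finset.sum_eq_single_of_mem χ₂ hχ₂ (by
          intro χ h1 h2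
          rw [hm χ, hother χ h1 h2]; simp), hm χ₂, hm (oneI G), hm χ₁, hmχ₂', hm1, hmχ₁]
      have e1 : ((oneI G : IrrCharacter G) : G → ℂ) g = 1 := rfl
      rw [e1]; push_cast; ring
    have hd1 : (χ₁ : G → ℂ) 1 = (p : ℂ) := by rw [hn, hb1]; push_cast; ring
    have hd2 : (χ₂ : G → ℂ) 1 = (p : ℂ) - 1 := by
      have h1 := hπ 1
      rw [pic_deg, hcard, hd1] at h1
      push_cast at h1
      linear_combination -h1
    exact wielandt_main hprim hcard a hrk χ₂ χ₁ (funext hπ) hd2 hd1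
  · -- 2-transitive
    left
    have hd : charDegree (χ₁ : G → ℂ) = 2 * p - 1 := by
      push_cast at hdχ₁
      have : (charDegree (χ₁ : G → ℂ) : ℤ) = 2 * p - 1 := by rw [hdχ₁]; ring
      omega
    have hX0 : ∑ χ ∈ X, m χ * charDegree (χ : G → ℂ) = 0 := by omega
    have hX1 : ∑ χ ∈ X, (m χ) ^ 2 = 0 := by
      apply Finset.sum_eq_zero
      intro χ hχ
      have h1 := (Finset.sum_eq_zero_iff.mp hX0) χ hχ
      have h2 := hdpos χ
      rcases Nat.mul_eq_zero.mp h1 with h3 | h3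
      · rw [h3]; rfl
      · omega
    intro x y u v hxy huv
    exact two_trans_of_rank_two a (by rw [hrank, hX1]) x y u v hxy huv

end CfsgLib.DegTwoP20
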