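import Cfsg.Agent.LibDegTwoP20g

set_option autoImplicit false
set_option linter.all false
set_option maxHeartbeats 1000000

/-! # Primitive groups of degree `2p` (helper20) -/

namespace CfsgLib.DegTwoP20

open Cfsg

universe u

variable {α : Type u} [Fintype α] [DecidableEq α]

theorem two_trans_of_cycle (G : Subgroup (Equiv.Perm α)) (hG : MulAction.IsPreprimitive G α) {p : ℕ} (hp : p.Prime) (hp3 : 3 ≤ p)
    (hα : Fintype.card α = 2 * p) {g : Equiv.Perm α} (hg : g ∈ G) (hgp : orderOf g = p) {x : α} (hx : g x = x) :
    MulAction.IsMultiplyPretransitive G α 2 := by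
  classical
  have hcyc : g.IsCycle ∧ g.support.card = p := by
    obtain ⟨n, hn⟩ := Equiv.Perm.cycleType_prime_order (σ := g) (by rw [hgp]; exact hp)
    have h1 := g.sum_cycleType
    rw [hn, Multiset.sum_replicate, hgp, smul_eq_mul] at h1
    have h2 : g.support.card < Fintype.card α := by
      rw [← Finset.card_univ]
      apply Finset.card_lt_card
      rw [Finset.ssubset_univ_iff]
      intro h3
      have : x ∈ g.support := by rw [h3]; exact Finset.mem_univ _
      rw [Equiv.Perm.mem_support] at this
      exact this hx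
    rw [hα, ← h1] at h2
    have h3 : n + 1 < 2 := by
      by_contra h4
      push Not at h4
      have := Nat.mul_le_mul_right p h4
      omega
    have h4 : n = 0 := by omega
    subst h4
    refine ⟨?_, by omega⟩
    rw [← Equiv.Perm.card_cycleType_eq_one, hn]; simp
  obtain ⟨hc, hcs⟩ := hcyc
  have hpre : MulAction.IsMultiplyPreprimitive G α (p - 1 + 2) := by
    apply hG.isMultiplyPreprimitive (s := (g.supportᶜ : Set α))
    · apply Nat.add_left_cancel
      rw [Set.ncard_add_ncard_compl, Set.ncard_coe_finset, hcs, Nat.card_eq_fintype_card, hα]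
      omega
    · rw [Nat.card_eq_fintype_card, hα]; omega
    have := Equiv.Perm.isPretransitive_of_isCycle_mem hc hg
    apply MulAction.IsPreprimitive.of_prime_card
    convert! hp
    rw [Nat.card_eq_fintype_card, Fintype.card_subtype, ← hcs]
    apply congr_arg
    ext x
    simp [SubMulAction.mem_ofFixingSubgroup_iff]
  haveI : MulAction.IsMultiplyPretransitive G α (p - 1 + 2) := hpre.isMultiplyPretransitive
  apply MulAction.isMultiplyPretransitive_of_le (n := p - 1 + 2) (by omega)
  rw [Nat.card_eq_fintype_card, hα]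
  omega

theorem degree_four (G : Subgroup (Equiv.Perm α)) (hG : MulAction.IsPreprimitive G α) (hα : Fintype.card α = 4) (a : α) :
    MulAction.IsMultiplyPretransitive G α 2 := by
  classical
  haveI := hG.toIsPretransitive
  rw [MulAction.is_two_pretransitive_iff]
  have hrank : Nat.card (MulAction.orbitRel.Quotient (MulAction.stabilizer G a) α) ≤ 2 := by
    by_contra hcon
    push Not at hcon
    -- all suborbits have size one
    have hk0 : ∀ b : α, 0 < Nat.card (MulAction.orbit (MulAction.stabilizer G a) b) := by
      intro b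
      haveI : Nonempty (MulAction.orbit (MulAction.stabilizer G a) b) := ⟨⟨b, MulAction.mem_orbit_self b⟩⟩
      exact Nat.card_pos
    have hex : ∃ b : α, b ≠ a ∧ Nat.card (MulAction.orbit (MulAction.stabilizer G a) b) = 1 := by
      by_contra hno
      push Not at hno
      -- three orbits
      letI : Fintype (MulAction.orbitRel.Quotient (MulAction.stabilizer G a) α) := Fintype.ofFinite _
      have h1 : Fintype.card α = ∑ ω : MulAction.orbitRel.Quotient (MulAction.stabilizer G a) α, Nat.card (MulAction.orbit (MulAction.stabilizer G a) ω.out) := by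
        rw [Fintype.card_congr (MulAction.selfEquivSigmaOrbits (MulAction.stabilizer G a) α), Fintype.card_sigma]
        apply Finset.sum_congr rfl
        intro ω _
        rw [Nat.card_eq_fintype_card]
      obtain ⟨ωa, hωa⟩ : ∃ ωa : MulAction.orbitRel.Quotient (MulAction.stabilizer G a) α, ωa = Quotient.mk'' a := ⟨_, rfl⟩
      rw [Finset.sum_eq_add_sum_sdiff_singleton_of_mem (Finset.mem_univ ωa)] at h1
      have h2 : ∑ ω ∈ Finset.univ \ {ωa}, 2 ≤ ∑ ω ∈ Finset.univ \ {ωa}, Nat.card (MulAction.orbit (MulAction.stabilizer G a) ω.out) := by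
        apply Finset.sum_le_sum
        intro ω hω
        rw [Finset.mem_sdiff, Finset.mem_singleton] at hω
        have h3 : ω.out ≠ a := by
          intro h4
          apply hω.2
          calc ω = Quotient.mk'' ω.out := (Quotient.out_eq' ω).symm
            _ = Quotient.mk'' a := congrArg _ h4
            _ = ωa := hωa.symm
        have h4 := hno _ h3
        have h5 := hk0 ω.out
        omega
      rw [Finset.sum_const, Finset.card_sdiff_of_subset (Finset.subset_univ _), Finset.card_singleton, Finset.card_univ, smul_eq_mul,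
        ← Nat.card_eq_fintype_card] at h2
      have h3 := hk0 ωa.out
      omega
    obtain ⟨b, hb, hb1⟩ := hex
    have h1 := CfsgLib.PermAlg20.subdeg_one hG a b hb hb1
    -- the stabilizer is trivial
    have hsurj : Function.Surjective (fun x : α => (Quotient.mk'' x : MulAction.orbitRel.Quotient (MulAction.stabilizer G a) α)) := by
      intro ω
      exact ⟨ω.out, Quotient.out_eq' ω⟩
    have hbij := hsurj.bijective_of_nat_card_le (by rw [h1, Nat.card_eq_fintype_card])
    have hbot : MulAction.stabilizer G a = ⊥ := by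
      rw [eq_bot_iff]
      intro g hg
      rw [Subgroup.mem_bot]
      apply Subtype.ext
      apply Equiv.Perm.ext
      intro x
      have h2 : (Quotient.mk'' (g • x) : MulAction.orbitRel.Quotient (MulAction.stabilizer G a) α) = Quotient.mk'' x :=
        Quotient.eq''.mpr (MulAction.orbitRel_apply.mpr ⟨⟨g, hg⟩, rfl⟩)
      exact hbij.injective h2
    haveI : Nontrivial α := by rw [← Fintype.one_lt_card_iff_nontrivial, hα]; norm_num
    have hco := MulAction.IsPreprimitive.isCoatom_stabilizer_of_isPreprimitive G a
    rw [hbot] at hco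
    have hcardG : Nat.card G = 4 := by
      have h2 := MulAction.index_stabilizer_of_transitive G a
      rw [hbot, Subgroup.index_bot] at h2
      rw [h2, Nat.card_eq_fintype_card, hα]
    haveI : Fact (Nat.Prime 2) := ⟨Nat.prime_two⟩
    obtain ⟨t, ht⟩ := exists_prime_orderOf_dvd_card' (G := G) 2 (by rw [hcardG]; norm_num)
    have h3 : (⊥ : Subgroup G) < Subgroup.zpowers t := by
      rw [bot_lt_iff_ne_bot]
      intro h4
      rw [Subgroup.zpowers_eq_bot] at h4
      rw [h4, orderOf_one] at ht
      norm_num at ht
    have h4 := hco.2 _ h3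
    have h5 : Nat.card (Subgroup.zpowers t) = 4 := by rw [h4, Subgroup.card_top, hcardG]
    rw [Nat.card_zpowers, ht] at h5
    norm_num at h5
  intro x y u v hxy huv
  exact two_trans_of_rank_two a hrank x y u v hxy huv

/-- Wielandt's theorem on primitive groups of degree `2p` -/
theorem wielandt_two_p {p : ℕ} (hp : p.Prime) (hα : Fintype.card α = 2 * p) (G : Subgroup (Equiv.Perm α)) (hG : MulAction.IsPreprimitive G α) (a₀ : α) :
    MulAction.IsMultiplyPretransitive G α 2 ∨ (Nat.card (MulAction.orbitRel.Quotient (MulAction.stabilizer G a₀) α) = 3 ∧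
      ∃ a : ℕ, 0 < a ∧ p = 2 * a ^ 2 + 2 * a + 1 ∧ ∀ b : α, b ≠ a₀ →
        Nat.card (MulAction.orbit (MulAction.stabilizer G a₀) b) = a * (2 * a + 1) ∨ Nat.card (MulAction.orbit (MulAction.stabilizer G a₀) b) = (a + 1) * (2 * a + 1)) := by
  classical
  haveI := hG.toIsPretransitive
  rcases Nat.lt_or_ge p 3 with hp3 | hp3
  · left
    have hp2 := hp.two_le
    have : p = 2 := by omega
    subst this
    exact degree_four G hG hα a₀
  by_cases hI : ∃ g : G, orderOf g = p ∧ ∃ x : α, g • x = x
  · left
    obtain ⟨g, hg, x, hx⟩ := hI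
    exact two_trans_of_cycle G hG hp hp3 hα (g := (g : Equiv.Perm α)) g.2 (by rw [Subgroup.orderOf_coe, hg]) (x := x) hx
  push Not at hI
  haveI := Fact.mk hp
  have hdvd : 2 * p ∣ Nat.card G := by
    rw [← hα, ← Nat.card_eq_fintype_card, ← MulAction.index_stabilizer_of_transitive G a₀]
    exact Subgroup.index_dvd_card _
  obtain ⟨z, hz⟩ := exists_prime_orderOf_dvd_card' (G := G) p ((Dvd.intro_left 2 rfl).trans hdvd)
  have hzp : z ^ p = 1 := by rw [← hz]; exact pow_orderOf_eq_one z
  have hz1 : z ≠ 1 := by
    rintro rfl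
    rw [orderOf_one] at hz
    exact hp.one_lt.ne hz
  have hfree : ∀ i : ℕ, ¬ p ∣ i → ∀ x : α, z ^ i • x ≠ x := by
    intro i hi x
    apply hI
    rw [orderOf_pow, hz, (Nat.Coprime.gcd_eq_one ((Nat.Prime.coprime_iff_not_dvd hp).mpr hi)), Nat.div_one]
  have hpp : ¬ p ^ 2 ∣ Nat.card G := by
    intro h
    obtain ⟨Q, hQ⟩ := Sylow.exists_subgroup_card_pow_prime p h
    -- the stabilizer in `Q` is non-trivial
    have h1 : (MulAction.stabilizer Q a₀).index ≤ 2 * p := by
      rw [MulAction.index_stabilizer, ← hα, ← Nat.card_eq_fintype_card, ← Set.ncard_univ]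
      exact Set.ncard_le_ncard (Set.subset_univ _) (Set.toFinite _)
    have h2 : (MulAction.stabilizer Q a₀).index ∣ p ^ 2 := by
      rw [← hQ]; exact Subgroup.index_dvd_card _
    obtain ⟨k, hk, hk2⟩ := (Nat.dvd_prime_pow hp).mp h2
    have h3 : k ≤ 1 := by
      by_contra h4
      have : k = 2 := by omega
      rw [this] at hk2
      rw [hk2] at h1
      nlinarith
    have h4 := (MulAction.stabilizer Q a₀).index_mul_card
    rw [hk2, hQ] at h4
    have h5 : p ∣ Nat.card (MulAction.stabilizer Q a₀) := by
      rcases Nat.le_one_iff_eq_zero_or_eq_one.mp h3 with h6 | h6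
      · rw [h6, pow_zero, one_mul] at h4
        rw [h4]; exact dvd_pow_self p two_ne_zero
      · rw [h6, pow_one, pow_two] at h4
        rw [Nat.eq_of_mul_eq_mul_left hp.pos h4]
    obtain ⟨t, ht⟩ := exists_prime_orderOf_dvd_card' (G := MulAction.stabilizer Q a₀) p h5
    apply hI ((t : Q) : G) _ a₀
    · exact t.2
    · rw [Subgroup.orderOf_coe, Subgroup.orderOf_coe, ht]
  letI : Fintype G := Fintype.ofFinite _
  rcases main_case hG hp hp3 hα hzp hz1 hfree hpp a₀ with h | h
  · left
    rw [MulAction.is_two_pretransitive_iff]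
    intro x y u v hxy huv
    exact h x y u v hxy huv
  · exact Or.inr h

end CfsgLib.DegTwoP20
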