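import Cfsg.Agent.EqBase
import Cfsg.Agent.LibOdd8
import Cfsg.Agent.LibKlein8

set_option autoImplicit false

/-! Dihedral Sylow 2-subgroups (seat helper8). -/

namespace CfsgLib.Dih8

open Cfsg Subgroup CfsgLib.FusionH12 CfsgLib.F8

universe u
variable {G : Type u} [Group G]

/-- `S` is the dihedral group of order `2 m` with rotations `⟨r⟩`, inside `G` -/
structure DHi (S : Subgroup G) (m : ℕ) (r s : G) : Prop where
  hr : r ∈ S
  hs : s ∈ S
  or : orderOf r = m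
  ss : s * s = 1
  inv : s * r * s⁻¹ = r⁻¹
  not_mem : s ∉ zpowers r
  all : ∀ x ∈ S, x ∈ zpowers r ∨ ∃ i : ℤ, x = r ^ i * s

theorem exists_DHi {S : Subgroup G} {m : ℕ} (eS : S ≃* DihedralGroup m) : ∃ r s : G, DHi S m r s := by
  set r' := eS.symm (DihedralGroup.r 1) with hr'
  set s' := eS.symm (DihedralGroup.sr 0) with hs'
  have hrr : eS r' = DihedralGroup.r 1 := by rw [hr']; simp
  have hss : eS s' = DihedralGroup.sr 0 := by rw [hs']; simp
  have hri : ∀ i : ℤ, eS (r' ^ i) = DihedralGroup.r (i : ZMod m) := by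
    intro i
    rw [map_zpow, hrr]
    induction i using Int.induction_on with
    | zero => simp
    | succ n ih => rw [zpow_add_one, ih, DihedralGroup.r_mul_r]; push_cast; rfl
    | pred n ih =>
      rw [zpow_sub_one, ih, DihedralGroup.inv_r, DihedralGroup.r_mul_r]; push_cast; rw [sub_eq_add_neg]
  refine ⟨r', s', r'.2, s'.2, ?_, ?_, ?_, ?_, ?_⟩
  · rw [Subgroup.orderOf_coe, ← MulEquiv.orderOf_eq eS, hrr, DihedralGroup.orderOf_r_one]
  · have : s' * s' = 1 := by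
      apply eS.injective
      rw [map_mul, hss, map_one, DihedralGroup.sr_mul_sr]; simp
    exact congrArg Subtype.val this
  · have : s' * r' * s'⁻¹ = r'⁻¹ := by
      apply eS.injective
      rw [map_mul, map_mul, map_inv, map_inv, hss, hrr]
      rw [DihedralGroup.sr_mul_r, DihedralGroup.inv_sr, DihedralGroup.sr_mul_sr, DihedralGroup.inv_r]
      simp
    exact congrArg Subtype.val this
  · rintro ⟨i, hi⟩
    have h1 : r' ^ i = s' := Subtype.ext (by rw [Subgroup.coe_zpow]; exact hi)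
    have h2 := congrArg eS h1
    rw [hri, hss] at h2
    cases h2
  · intro x hx
    rcases h : eS ⟨x, hx⟩ with a | a
    · left
      obtain ⟨i, rfl⟩ := ZMod.intCast_surjective a
      refine mem_zpowers_iff.2 ⟨i, ?_⟩
      have h1 : r' ^ i = ⟨x, hx⟩ := eS.injective (by rw [hri, h])
      rw [← Subgroup.coe_zpow, h1]
    · right
      obtain ⟨i, rfl⟩ := ZMod.intCast_surjective a
      refine ⟨-i, ?_⟩
      have h1 : r' ^ (-i) * s' = ⟨x, hx⟩ := eS.injective (by
        rw [map_mul, hri, hss, h, DihedralGroup.r_mul_sr]; simp)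
      rw [← Subgroup.coe_zpow, ← Subgroup.coe_mul, h1]

namespace DHi

variable {S : Subgroup G} {m : ℕ} {r s : G}

theorem s_inv (h : DHi S m r s) : s⁻¹ = s := inv_eq_of_mul_eq_one_left h.ss

theorem rot_mem (h : DHi S m r s) (i : ℤ) : r ^ i ∈ S := zpow_mem h.hr i

theorem ref_mem (h : DHi S m r s) (i : ℤ) : r ^ i * s ∈ S := mul_mem (h.rot_mem i) h.hs

theorem conj_s (h : DHi S m r s) (i : ℤ) : s * r ^ i * s⁻¹ = r ^ (-i) := by
  rw [← conj_zpow, h.inv, inv_zpow, zpow_neg]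

theorem s_mul (h : DHi S m r s) (i : ℤ) : s * r ^ i = r ^ (-i) * s := by
  rw [← h.conj_s i]; group

theorem ref_sq (h : DHi S m r s) (i : ℤ) : r ^ i * s * (r ^ i * s) = 1 := by
  calc r ^ i * s * (r ^ i * s) = r ^ i * (s * r ^ i) * s := by group
    _ = r ^ i * (r ^ (-i) * s) * s := by rw [h.s_mul]
    _ = (r ^ i * r ^ (-i)) * (s * s) := by group
    _ = 1 := by rw [h.ss, mul_one, ← zpow_add, add_neg_cancel, zpow_zero]

theorem ref_inv (h : DHi S m r s) (i : ℤ) : (r ^ i * s)⁻¹ = r ^ i * s :=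
  inv_eq_of_mul_eq_one_left (h.ref_sq i)

theorem ref_not_rot (h : DHi S m r s) (i : ℤ) : r ^ i * s ∉ zpowers r := by
  intro h1
  apply h.not_mem
  have h2 := mul_mem (zpow_mem (mem_zpowers r) (-i)) h1
  rw [← mul_assoc, ← zpow_add, neg_add_cancel, zpow_zero, one_mul] at h2
  exact h2

theorem ref_ne_one (h : DHi S m r s) (i : ℤ) : r ^ i * s ≠ 1 := fun h1 =>
  h.ref_not_rot i (h1 ▸ one_mem _)

theorem ref_mul_ref (h : DHi S m r s) (i j : ℤ) : r ^ i * s * (r ^ j * s) = r ^ (i - j) := by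
  calc r ^ i * s * (r ^ j * s) = r ^ i * (s * r ^ j) * s := by group
    _ = r ^ i * (r ^ (-j) * s) * s := by rw [h.s_mul]
    _ = (r ^ i * r ^ (-j)) * (s * s) := by group
    _ = r ^ (i - j) := by rw [h.ss, mul_one, ← zpow_add, sub_eq_add_neg]

theorem ref_mul_rot (h : DHi S m r s) (i j : ℤ) : r ^ i * s * r ^ j = r ^ (i - j) * s := by
  calc r ^ i * s * r ^ j = r ^ i * (s * r ^ j) := by group
    _ = r ^ i * (r ^ (-j) * s) := by rw [h.s_mul]
    _ = r ^ (i - j) * s := by rw [← mul_assoc, ← zpow_add, sub_eq_add_neg]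

theorem conj_rot_ref (h : DHi S m r s) (j i : ℤ) : r ^ j * (r ^ i * s) * (r ^ j)⁻¹ = r ^ (i + 2 * j) * s := by
  calc r ^ j * (r ^ i * s) * (r ^ j)⁻¹ = r ^ j * (r ^ i * s * r ^ (-j)) := by rw [zpow_neg]; group
    _ = r ^ j * (r ^ (i - -j) * s) := by rw [h.ref_mul_rot]
    _ = r ^ (i + 2 * j) * s := by rw [← mul_assoc, ← zpow_add]; congr 2; ring

theorem conj_ref_ref (h : DHi S m r s) (j i : ℤ) :
    (r ^ j * s) * (r ^ i * s) * (r ^ j * s)⁻¹ = r ^ (2 * j - i) * s := by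
  rw [h.ref_inv, h.ref_mul_ref, ← mul_assoc, ← zpow_add]; congr 2; ring

theorem conj_ref_rot (h : DHi S m r s) (j i : ℤ) : (r ^ j * s) * r ^ i * (r ^ j * s)⁻¹ = r ^ (-i) := by
  rw [h.ref_inv, h.ref_mul_rot, h.ref_mul_ref]; congr 1; ring

theorem rot_eq (h : DHi S m r s) (i j : ℤ) : r ^ i = r ^ j ↔ (m : ℤ) ∣ i - j := by
  rw [← mul_inv_eq_one, ← zpow_neg, ← zpow_add, ← sub_eq_add_neg, ← orderOf_dvd_iff_zpow_eq_one, h.or]

theorem rot_eq_one (h : DHi S m r s) (i : ℤ) : r ^ i = 1 ↔ (m : ℤ) ∣ i := by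
  rw [← orderOf_dvd_iff_zpow_eq_one, h.or]

theorem ref_eq (h : DHi S m r s) (i j : ℤ) : r ^ i * s = r ^ j * s ↔ (m : ℤ) ∣ i - j := by
  rw [mul_left_inj, h.rot_eq]

variable [Finite G]

theorem pos (h : DHi S m r s) : 0 < m := by rw [← h.or]; exact orderOf_pos r

theorem card (h : DHi S m r s) : Nat.card S = 2 * m := by
  have h1 : zpowers r ≤ S := by rw [zpowers_le]; exact h.hr
  have h2 : (zpowers r).relIndex S = 2 := by
    rw [Subgroup.relIndex, Subgroup.index_eq_two_iff]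
    refine ⟨⟨s, h.hs⟩, ?_⟩
    intro b
    rw [Subgroup.mem_subgroupOf, Subgroup.mem_subgroupOf]
    change Xor ((b : G) * s ∈ zpowers r) ((b : G) ∈ zpowers r)
    rcases h.all b b.2 with hb | ⟨i, hi⟩
    · refine Or.inr ⟨hb, ?_⟩
      intro h3
      exact h.not_mem ((mul_mem_cancel_left hb).1 h3)
    · refine Or.inl ⟨?_, ?_⟩
      · rw [hi, mul_assoc, h.ss, mul_one]; exact zpow_mem (mem_zpowers r) i
      · rw [hi]; exact h.ref_not_rot i
  have h3 := Subgroup.card_mul_index ((zpowers r).subgroupOf S)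
  rw [Nat.card_congr (Subgroup.subgroupOfEquivOfLe h1).toEquiv, Nat.card_zpowers, h.or] at h3
  rw [Subgroup.relIndex] at h2
  rw [h2] at h3
  rw [← h3, mul_comm]

/-- subgroups of a dihedral 2-group with an odd automorphism are four-groups -/
theorem klein_of_oddAut (h : DHi S m r s) {k : ℕ} (hm : m = 2 ^ k) {U : Subgroup G} (hU : U ≤ S)
    (ho : OddAut 2 U) : IsKleinFour U := by
  obtain ⟨y, hyU, hyo, hyc⟩ := ho
  have hrk : r ^ 2 ^ k = 1 := by rw [← hm, ← h.or]; exact pow_orderOf_eq_one r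
  have hrp : IsPGroup 2 (zpowers r) := by
    rintro ⟨x, hx⟩
    obtain ⟨i, rfl⟩ := mem_zpowers_iff.1 hx
    refine ⟨k, Subtype.ext ?_⟩
    change (r ^ i) ^ 2 ^ k = 1
    rw [← zpow_natCast, ← zpow_mul, mul_comm, zpow_mul, zpow_natCast, hrk, one_zpow]
  have hcyc : ∀ V : Subgroup G, V ≤ zpowers r → y ∈ normalizer (V : Set G) → y ∈ centralizer (V : Set G) := by
    intro V hV hyV
    haveI : IsCyclic V := isCyclic_of_injective (Subgroup.inclusion hV) (Subgroup.inclusion_injective hV)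
    obtain ⟨v, hv⟩ := (Subgroup.isCyclic_iff_exists_zpowers_eq_top V).1 inferInstance
    have hvV : v ∈ V := by rw [← hv]; exact mem_zpowers v
    obtain ⟨j, hj⟩ := hrp ⟨v, hV hvV⟩
    exact cyc' hyo ⟨j, congrArg Subtype.val hj⟩ hv.symm hyV
  by_cases hUr : U ≤ zpowers r
  · exact absurd (hcyc U hUr hyU) hyc
  -- `R = U ∩ ⟨r⟩`
  set R := U ⊓ zpowers r with hR
  have h2 : ∀ u ∈ U, ∀ v ∈ U, u ∉ R → v ∉ R → u * v⁻¹ ∈ R := by
    intro u hu v hv huR hvR
    refine Subgroup.mem_inf.2 ⟨mul_mem hu (inv_mem hv), ?_⟩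
    rcases h.all u (hU hu) with h1 | ⟨i, rfl⟩
    · exact absurd ⟨hu, h1⟩ huR
    rcases h.all v (hU hv) with h1 | ⟨j, rfl⟩
    · exact absurd ⟨hv, h1⟩ hvR
    rw [h.ref_inv, h.ref_mul_ref]
    exact zpow_mem (mem_zpowers r) _
  by_cases hsq : ∀ u ∈ R, u * u = 1
  · -- exponent two
    have hsqU : ∀ u ∈ U, u * u = 1 := by
      intro u hu
      rcases h.all u (hU hu) with h1 | ⟨i, rfl⟩
      · exact hsq u ⟨hu, h1⟩
      · exact h.ref_sq i
    have hRc : Nat.card R ≤ 2 := by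
      haveI : IsCyclic R := isCyclic_of_injective (Subgroup.inclusion (inf_le_right : R ≤ zpowers r))
        (Subgroup.inclusion_injective _)
      have h3 : Monoid.exponent R = Nat.card R := IsCyclic.exponent_eq_card
      rw [← h3]
      apply Nat.le_of_dvd (by norm_num)
      rw [Monoid.exponent_dvd_iff_forall_pow_eq_one]
      intro u
      apply Subtype.ext
      have := hsq u u.2
      simpa [pow_two] using this
    obtain ⟨t, ht, htr⟩ := SetLike.not_le_iff_exists.1 hUr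
    have htR : t ∉ R := fun h => htr h.2
    have hrel : R.relIndex U = 2 := by
      rw [Subgroup.relIndex, Subgroup.index_eq_two_iff]
      refine ⟨⟨t, ht⟩, fun b => ?_⟩
      rw [Subgroup.mem_subgroupOf, Subgroup.mem_subgroupOf]
      change Xor ((b : G) * t ∈ R) ((b : G) ∈ R)
      by_cases hb : (b : G) ∈ R
      · exact Or.inr ⟨hb, fun h3 => htR ((mul_mem_cancel_left hb).1 h3)⟩
      · refine Or.inl ⟨?_, hb⟩
        have h3 := h2 b b.2 t ht hb htR
        have h4 : t⁻¹ = t := inv_eq_of_mul_eq_one_left (hsqU t ht)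
        rwa [h4] at h3
    have h5 := Subgroup.card_mul_index (R.subgroupOf U)
    rw [Nat.card_congr (Subgroup.subgroupOfEquivOfLe (inf_le_left : R ≤ U)).toEquiv] at h5
    rw [Subgroup.relIndex] at hrel
    rw [hrel] at h5
    have h6 : Nat.card U ≠ 2 := by
      intro h6
      exact hyc (card_two_cent (U := U) (by omega) hyU)
    have h7 : 0 < Nat.card R := Nat.card_pos
    rw [← hR] at h5
    have h8 : Nat.card U = 4 := by omega
    exact isKleinFour_of h8 hsqU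
  · -- `R` is normalized
    exfalso
    push_neg at hsq
    obtain ⟨u₀, hu₀, hu₀sq⟩ := hsq
    have hyR : y ∈ normalizer (R : Set G) := by
      haveI : IsCyclic R := isCyclic_of_injective (Subgroup.inclusion (inf_le_right : R ≤ zpowers r))
        (Subgroup.inclusion_injective _)
      obtain ⟨v, hv⟩ := (Subgroup.isCyclic_iff_exists_zpowers_eq_top R).1 inferInstance
      have hvR : v ∈ R := by rw [← hv]; exact mem_zpowers v
      have hvsq : v * v ≠ 1 := by
        intro h3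
        apply hu₀sq
        rw [← hv] at hu₀
        obtain ⟨i, rfl⟩ := mem_zpowers_iff.1 hu₀
        rw [← zpow_add, ← two_mul, zpow_mul]
        have : v ^ (2 : ℤ) = 1 := by rw [zpow_two, h3]
        rw [this, one_zpow]
      have hyv : y * v * y⁻¹ ∈ R := by
        have h3 : y * v * y⁻¹ ∈ U := (mem_normalizer_iff.1 hyU v).1 hvR.1
        refine ⟨h3, ?_⟩
        rcases h.all _ (hU h3) with h4 | ⟨i, hi⟩
        · exact h4
        · exfalso
          apply hvsq
          have h5 : y * (v * v) * y⁻¹ = (y * v * y⁻¹) * (y * v * y⁻¹) := by group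
          rw [hi, h.ref_sq] at h5
          have h6 : v * v = y⁻¹ * (y * (v * v) * y⁻¹) * y := by group
          rw [h6, h5]; group
      rw [mem_nrm]
      apply Subgroup.eq_of_le_of_card_ge
      · rw [cj_le', ← hv]
        intro d hd
        obtain ⟨i, rfl⟩ := mem_zpowers_iff.1 hd
        rw [← conj_zpow]
        exact zpow_mem (hv.symm ▸ hyv) i
      · rw [card_cj]
    exact hyc (cent_of_index_two hyo hyU inf_le_left hyR (hcyc R inf_le_right hyR)
      (hrp.to_le inf_le_right) h2)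

omit [Finite G] in
/-- the dihedral subgroups -/
def D (h : DHi S m r s) (a : ℕ) (i : ℤ) : Subgroup G where
  carrier := {x | ∃ e : ℤ, x = r ^ (a * e) ∨ x = r ^ (i + a * e) * s}
  one_mem' := ⟨0, Or.inl (by simp)⟩
  mul_mem' := by
    rintro x y ⟨e, rfl | rfl⟩ ⟨f, rfl | rfl⟩
    · exact ⟨e + f, Or.inl (by rw [← zpow_add]; congr 1; ring)⟩
    · exact ⟨e + f, Or.inr (by rw [← mul_assoc, ← zpow_add]; congr 2; ring)⟩
    · exact ⟨e - f, Or.inr (by rw [h.ref_mul_rot]; congr 2; ring)⟩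
    · exact ⟨e - f, Or.inl (by rw [h.ref_mul_ref]; congr 1; ring)⟩
  inv_mem' := by
    rintro x ⟨e, rfl | rfl⟩
    · exact ⟨-e, Or.inl (by rw [← zpow_neg]; congr 1; ring)⟩
    · exact ⟨e, Or.inr (h.ref_inv _)⟩

omit [Finite G] in
theorem mem_D (h : DHi S m r s) {a : ℕ} {i : ℤ} {x : G} :
    x ∈ h.D a i ↔ ∃ e : ℤ, x = r ^ (a * e) ∨ x = r ^ (i + a * e) * s := Iff.rfl

omit [Finite G] in
theorem D_le (h : DHi S m r s) (a : ℕ) (i : ℤ) : h.D a i ≤ S := by
  rintro x ⟨e, rfl | rfl⟩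
  · exact h.rot_mem _
  · exact h.ref_mem _

omit [Finite G] in
theorem ref_mem_D (h : DHi S m r s) {a : ℕ} {i j : ℤ} (ham : a ∣ m) : r ^ j * s ∈ h.D a i ↔ (a : ℤ) ∣ j - i := by
  rw [h.mem_D]
  constructor
  · rintro ⟨e, h1 | h1⟩
    · exact absurd (h1 ▸ zpow_mem (mem_zpowers r) _) (h.ref_not_rot j)
    · rw [h.ref_eq] at h1
      have h2 : (a : ℤ) ∣ j - (i + a * e) := dvd_trans (Int.natCast_dvd_natCast.2 ham) h1
      have : j - i = (j - (i + a * e)) + a * e := by ring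
      rw [this]
      exact dvd_add h2 (dvd_mul_right _ _)
  · rintro ⟨e, he⟩
    exact ⟨e, Or.inr (by rw [← he]; congr 2; ring)⟩

omit [Finite G] in
theorem DHi_D (h : DHi S m r s) {a m' : ℕ} (i : ℤ) (ham : m = a * m') (ha : 0 < a) :
    DHi (h.D a i) m' (r ^ a) (r ^ i * s) := by
  refine ⟨⟨1, Or.inl (by rw [mul_one, zpow_natCast])⟩, ⟨0, Or.inr (by simp)⟩, ?_, h.ref_sq i, ?_, ?_, ?_⟩
  · rw [orderOf_pow_of_dvd (by omega) (by rw [h.or, ham]; exact dvd_mul_right _ _), h.or, ham,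
      Nat.mul_div_cancel_left _ ha]
  · rw [← zpow_natCast, h.conj_ref_rot, zpow_neg]
  · intro h1
    obtain ⟨j, hj⟩ := mem_zpowers_iff.1 h1
    apply h.ref_not_rot i
    rw [← hj]
    exact zpow_mem (pow_mem (mem_zpowers r) a) j
  · rintro x ⟨e, rfl | rfl⟩
    · left
      rw [zpow_mul, zpow_natCast]
      exact zpow_mem (mem_zpowers _) e
    · right
      refine ⟨e, ?_⟩
      rw [← zpow_natCast, ← zpow_mul, ← mul_assoc, ← zpow_add]
      congr 2; ring

omit [Finite G] in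
theorem cj_rot_D (h : DHi S m r s) (a : ℕ) (i j : ℤ) : cj (r ^ j) (h.D a i) ≤ h.D a (i + 2 * j) := by
  rw [cj_le']
  rintro x ⟨e, rfl | rfl⟩
  · refine ⟨e, Or.inl ?_⟩
    rw [← zpow_neg, ← zpow_add, ← zpow_add]; congr 1; ring
  · refine ⟨e, Or.inr ?_⟩
    rw [h.conj_rot_ref]; congr 2; ring

omit [Finite G] in
theorem cj_ref_D (h : DHi S m r s) (a : ℕ) (i j : ℤ) : cj (r ^ j * s) (h.D a i) ≤ h.D a (2 * j - i) := by
  rw [cj_le']
  rintro x ⟨e, rfl | rfl⟩
  · refine ⟨-e, Or.inl ?_⟩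
    rw [h.conj_ref_rot]; congr 1; ring
  · refine ⟨-e, Or.inr ?_⟩
    rw [h.conj_ref_ref]; congr 2; ring

theorem card_D (h : DHi S m r s) {a m' : ℕ} (i : ℤ) (ham : m = a * m') (ha : 0 < a) :
    Nat.card (h.D a i) = 2 * m' := (h.DHi_D i ham ha).card

theorem cj_rot_D' (h : DHi S m r s) {a m' : ℕ} (i j : ℤ) (ham : m = a * m') (ha : 0 < a) :
    cj (r ^ j) (h.D a i) = h.D a (i + 2 * j) := by
  apply Subgroup.eq_of_le_of_card_ge (h.cj_rot_D a i j)
  rw [card_cj, h.card_D _ ham ha, h.card_D _ ham ha]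

theorem klein_D (h : DHi S m r s) {a : ℕ} (i : ℤ) (ham : m = a * 2) (ha : 0 < a) :
    IsKleinFour (h.D a i) := by
  apply isKleinFour_of
  · rw [h.card_D i ham ha]
  · rintro x ⟨e, rfl | rfl⟩
    · rw [← zpow_add, h.rot_eq_one, ham]
      refine ⟨e, ?_⟩
      push_cast; ring
    · exact h.ref_sq _

omit [Finite G] in
theorem rot_sq (h : DHi S m r s) {a : ℕ} (ham : m = a * 2) (ha : 0 < a) {i : ℤ} (hi : r ^ i * r ^ i = 1)
    (h1 : r ^ i ≠ 1) : r ^ i = r ^ (a : ℤ) := by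
  rw [← zpow_add, h.rot_eq_one, ham] at hi
  obtain ⟨c, hc⟩ := hi
  have h2 : i = a * c := by
    have : (2 : ℤ) * i = 2 * (a * c) := by
      rw [two_mul, hc]; push_cast; ring
    exact mul_left_cancel₀ (by norm_num) this
  rw [h.rot_eq, ham, h2]
  rcases Int.even_or_odd' c with ⟨d, rfl | rfl⟩
  · exfalso
    apply h1
    rw [h.rot_eq_one, h2, ham]
    exact ⟨d, by push_cast; ring⟩
  · exact ⟨d, by push_cast; ring⟩

theorem klein_cases (h : DHi S m r s) {a : ℕ} (ham : m = a * 2) (ha : 0 < a) {U : Subgroup G}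
    (hU : U ≤ S) (hK : IsKleinFour U) : ∃ i : ℤ, U = h.D a i := by
  obtain ⟨x, y, hx, hy, ox, oy, oxy, hxy, -, -, hcom, hall⟩ := CfsgLib.Klein8.four_enum hK
  have hrot : ∀ w ∈ U, orderOf w = 2 → w = r ^ (a : ℤ) ∨ ∃ i : ℤ, w = r ^ i * s := by
    intro w hw ow
    rcases h.all w (hU hw) with h1 | h1
    · left
      obtain ⟨i, rfl⟩ := mem_zpowers_iff.1 h1
      exact h.rot_sq ham ha (CfsgLib.Invol.mul_self ow) (CfsgLib.Invol.ne_one ow)
    · exact Or.inr h1
  have key : ∃ i : ℤ, r ^ i * s ∈ U ∧ r ^ (a : ℤ) ∈ U := by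
    rcases hrot x hx ox with h1 | ⟨i, hi⟩
    · rcases hrot y hy oy with h2 | ⟨j, hj⟩
      · exact absurd (h1.trans h2.symm) hxy
      · exact ⟨j, hj ▸ hy, h1 ▸ hx⟩
    · rcases hrot y hy oy with h2 | ⟨j, hj⟩
      · exact ⟨i, hi ▸ hx, h2 ▸ hy⟩
      · refine ⟨i, hi ▸ hx, ?_⟩
        rcases hrot (x * y) (mul_mem hx hy) oxy with h3 | ⟨l, hl⟩
        · rw [← h3]; exact mul_mem hx hy
        · exfalso
          rw [hi, hj, h.ref_mul_ref] at hl
          exact h.ref_not_rot l (hl ▸ zpow_mem (mem_zpowers r) _)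
  obtain ⟨i, h1, h2⟩ := key
  refine ⟨i, (Subgroup.eq_of_le_of_card_ge ?_ ?_).symm⟩
  · rintro w ⟨e, rfl | rfl⟩
    · rw [zpow_mul]; exact zpow_mem h2 e
    · rw [add_comm, zpow_add, mul_assoc, zpow_mul]
      exact mul_mem (zpow_mem h2 e) h1
  · rw [hK.card_four, h.card_D i ham ha]

omit [Finite G] in
/-- parity is invariant under conjugation in `S` -/
theorem par (h : DHi S m r s) {a : ℕ} (ham : a ∣ m) (ha : 2 ∣ a) {i j : ℤ} {x : G} (hx : x ∈ S)
    (hxD : cj x (h.D a i) = h.D a j) : (2 : ℤ) ∣ j - i := by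
  have h1 : r ^ i * s ∈ h.D a i := by rw [h.ref_mem_D ham]; simp
  have h2 := conj_mem_cj (g := x) h1
  rw [hxD] at h2
  have ha' : (2 : ℤ) ∣ a := by exact_mod_cast ha
  rcases h.all x hx with h3 | ⟨l, rfl⟩
  · obtain ⟨l, rfl⟩ := mem_zpowers_iff.1 h3
    rw [h.conj_rot_ref, h.ref_mem_D ham] at h2
    have := ha'.trans h2
    omega
  · rw [h.conj_ref_ref, h.ref_mem_D ham] at h2
    have := ha'.trans h2
    omega

theorem exists_conj_of_par (h : DHi S m r s) {a m' : ℕ} (ham : m = a * m') (ha : 0 < a) {i j : ℤ}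
    (hp : (2 : ℤ) ∣ j - i) : ∃ x ∈ S, cj x (h.D a i) = h.D a j := by
  obtain ⟨l, hl⟩ := hp
  refine ⟨r ^ l, h.rot_mem l, ?_⟩
  rw [h.cj_rot_D' i l ham ha]
  congr 1; omega

end DHi

end CfsgLib.Dih8
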