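import Cfsg.Agent.LibDih8
import Cfsg.Agent.S0514
import Cfsg.Agent.LibBlockSec2

set_option autoImplicit false
set_option linter.all false
set_option maxHeartbeats 1000000

/-! # Groups with dihedral Sylow 2-subgroups: local data for the principal block (helper20) -/

namespace CfsgLib.DihBlk20

open Cfsg Subgroup CfsgLib.Dih8

universe u

structure Hyp {G : Type u} [Group G] [Finite G] (P : Sylow 2 G) (n : ℕ) (σ s : G) : Prop where
  hn : 3 ≤ n
  d : DHi (P : Subgroup G) (2 ^ (n - 1)) σ s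
  iso : Nonempty ((P : Subgroup G) ≃* DihedralGroup (2 ^ (n - 1)))

variable {G : Type u} [Group G] [Finite G] {P : Sylow 2 G} {n : ℕ} {σ s : G}

theorem mkHyp (hn : 3 ≤ n) (hP : Nonempty ((P : Subgroup G) ≃* DihedralGroup (2 ^ (n - 1))))
    (hσ : σ ∈ (P : Subgroup G)) (hσo : orderOf σ = 2 ^ (n - 1)) : ∃ s, Hyp P n σ s := by
  obtain ⟨e⟩ := hP
  obtain ⟨r, s, h⟩ := exists_DHi e
  have h4 : 4 ≤ 2 ^ (n - 1) := by
    calc 4 = 2 ^ 2 := by norm_num
      _ ≤ 2 ^ (n - 1) := Nat.pow_le_pow_right (by norm_num) (by omega)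
  have hσr : σ ∈ zpowers r := by
    rcases h.all σ hσ with h1 | ⟨i, hi⟩
    · exact h1
    · exfalso
      have h2 : σ ^ 2 = 1 := by rw [pow_two, hi]; exact h.ref_sq i
      have h3 := orderOf_le_of_pow_eq_one (by norm_num) h2
      omega
  have heq : zpowers σ = zpowers r := by
    apply Subgroup.eq_of_le_of_card_ge
    · rw [zpowers_le]; exact hσr
    · rw [Nat.card_zpowers, Nat.card_zpowers, hσo, h.or]
  refine ⟨s, hn, ⟨hσ, h.hs, hσo, h.ss, ?_, ?_, ?_⟩, ⟨e⟩⟩
  · obtain ⟨i, hi⟩ := mem_zpowers_iff.mp hσr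
    rw [← hi, h.conj_s, zpow_neg]
  · rw [heq]; exact h.not_mem
  · intro x hx
    rcases h.all x hx with h1 | ⟨i, hi⟩
    · left; rw [heq]; exact h1
    · right
      have h2 : r ^ i ∈ zpowers σ := by rw [heq]; exact zpow_mem (mem_zpowers r) i
      obtain ⟨j, hj⟩ := mem_zpowers_iff.mp h2
      exact ⟨j, by rw [hj]; exact hi⟩

namespace Hyp

variable (h : Hyp P n σ s)

include h

theorem N4 : 4 ≤ 2 ^ (n - 1) := by
  have := h.hn
  calc 4 = 2 ^ 2 := by norm_num
    _ ≤ 2 ^ (n - 1) := Nat.pow_le_pow_right (by norm_num) (by omega)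

theorem N2 : 2 ^ (n - 1) = 2 * 2 ^ (n - 2) := by
  have := h.hn
  rw [← pow_succ']
  congr 1; omega

theorem M2 : 2 ^ (n - 2) = 2 * 2 ^ (n - 3) := by
  have := h.hn
  rw [← pow_succ']
  congr 1; omega

theorem ord : orderOf σ = 2 ^ (n - 1) := h.d.or

theorem rot_of_sq {x : G} (hx : x ∈ (P : Subgroup G)) (hx2 : x * x ≠ 1) : x ∈ zpowers σ := by
  rcases h.d.all x hx with h1 | ⟨i, hi⟩
  · exact h1
  · exact absurd (by rw [hi]; exact h.d.ref_sq i) hx2

theorem rot_pgroup : IsPGroup 2 (zpowers σ) := IsPGroup.of_card (n := n - 1) (by rw [Nat.card_zpowers, h.ord])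

/-- the central involution -/
theorem J_ord : orderOf (σ ^ (2 ^ (n - 2))) = 2 := by
  have h1 := h.N2
  rw [orderOf_pow_of_dvd (by positivity) (by rw [h.ord, h1]; exact Dvd.intro_left _ rfl), h.ord, h1]
  exact Nat.mul_div_cancel _ (by positivity)

theorem J_sq : σ ^ (2 ^ (n - 2)) * σ ^ (2 ^ (n - 2)) = 1 := by
  rw [← pow_add, ← two_mul, ← h.N2, ← h.ord, pow_orderOf_eq_one]

theorem J_ne : σ ^ (2 ^ (n - 2)) ≠ 1 := by
  intro h1
  have := h.J_ord
  rw [h1, orderOf_one] at this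
  norm_num at this

theorem eq_J {x : G} (hx : x ∈ zpowers σ) (hx2 : x * x = 1) (hx1 : x ≠ 1) : x = σ ^ (2 ^ (n - 2)) := by
  obtain ⟨i, rfl⟩ := mem_zpowers_iff.mp hx
  have h1 := h.d.rot_sq (a := 2 ^ (n - 2)) (by rw [h.N2, mul_comm]) (by positivity) hx2 hx1
  rw [h1, zpow_natCast]

theorem conj_inv {x z : G} (hx : x ∈ (P : Subgroup G)) (hz : z ∈ zpowers σ) : x * z * x⁻¹ = z ∨ x * z * x⁻¹ = z⁻¹ := by
  obtain ⟨j, rfl⟩ := mem_zpowers_iff.mp hz
  rcases h.d.all x hx with h1 | ⟨i, hi⟩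
  · obtain ⟨i, rfl⟩ := mem_zpowers_iff.mp h1
    left
    rw [← zpow_neg, ← zpow_add, ← zpow_add]
    congr 1; ring
  · right
    rw [hi, h.d.conj_ref_rot, zpow_neg]

theorem conj_ref {x z : G} (hx : x ∈ (P : Subgroup G)) (hx' : x ∉ zpowers σ) (hz : z ∈ zpowers σ) : x * z * x⁻¹ = z⁻¹ := by
  obtain ⟨j, rfl⟩ := mem_zpowers_iff.mp hz
  rcases h.d.all x hx with h1 | ⟨i, hi⟩
  · exact absurd h1 hx'
  · rw [hi, h.d.conj_ref_rot, zpow_neg]

theorem rot_of_comm {x z : G} (hx : x ∈ (P : Subgroup G)) (hz : z ∈ zpowers σ) (hz2 : z * z ≠ 1) (hc : x * z = z * x) :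
    x ∈ zpowers σ := by
  by_contra hx'
  have h1 := h.conj_ref hx hx' hz
  rw [hc, mul_inv_cancel_right] at h1
  apply hz2
  conv_lhs => rw [h1]
  rw [← h1]
  have : z⁻¹ * z = 1 := inv_mul_cancel z
  rw [← h1] at this
  exact this

theorem J_comm {x : G} (hx : x ∈ (P : Subgroup G)) : x * σ ^ (2 ^ (n - 2)) = σ ^ (2 ^ (n - 2)) * x := by
  have hJi : (σ ^ (2 ^ (n - 2)))⁻¹ = σ ^ (2 ^ (n - 2)) := inv_eq_of_mul_eq_one_left h.J_sq
  have h1 : x * σ ^ (2 ^ (n - 2)) * x⁻¹ = σ ^ (2 ^ (n - 2)) := by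
    rcases h.conj_inv hx (pow_mem (mem_zpowers σ) _) with h2 | h2
    · exact h2
    · rw [h2, hJi]
  calc x * σ ^ (2 ^ (n - 2)) = x * σ ^ (2 ^ (n - 2)) * x⁻¹ * x := by group
    _ = _ := by rw [h1]

theorem card_P : Nat.card (P : Subgroup G) = 2 ^ n := by
  have := h.hn
  rw [h.d.card, ← pow_succ']
  congr 1; omega

end Hyp

/-- upper bound for the 2-part of a centralizer -/
theorem fact_le {u : G} {k : ℕ} (hu : IsPGroup 2 (zpowers u))
    (hle : ∀ g : G, g * u * g⁻¹ ∈ (P : Subgroup G) → ∀ T : Subgroup G, T ≤ (P : Subgroup G) →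
      (∀ t ∈ T, t * (g * u * g⁻¹) = (g * u * g⁻¹) * t) → Nat.card T ≤ 2 ^ k) :
    (Nat.card (centralizer ({u} : Set G))).factorization 2 ≤ k := by
  obtain ⟨C, hC⟩ : ∃ C, C = centralizer ({u} : Set G) := ⟨_, rfl⟩
  rw [← hC]
  obtain ⟨Q⟩ : Nonempty (Sylow 2 C) := inferInstance
  have hQc : Nat.card (Q : Subgroup C) = 2 ^ (Nat.card C).factorization 2 := Q.card_eq_multiplicity
  obtain ⟨Q', hQ'⟩ : ∃ Q', Q' = (Q : Subgroup C).map C.subtype := ⟨_, rfl⟩
  have hQ'c : Nat.card Q' = 2 ^ (Nat.card C).factorization 2 := by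
    rw [hQ', ← hQc]
    exact Nat.card_congr (Subgroup.equivMapOfInjective _ _ C.subtype_injective).symm.toEquiv
  have hQ'C : Q' ≤ C := by rw [hQ']; exact Subgroup.map_subtype_le _
  have hQ'p : IsPGroup 2 Q' := IsPGroup.of_card hQ'c
  have hcomm : ∀ x ∈ C, x * u = u * x := by
    intro x hx
    rw [hC, mem_centralizer_singleton_iff] at hx
    exact hx
  have hR : IsPGroup 2 (zpowers u ⊔ Q' : Subgroup G) := by
    apply IsPGroup.to_sup_of_normal_right' hu hQ'p
    rw [zpowers_le, mem_normalizer_iff]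
    intro y
    constructor
    · intro hy
      have := hcomm y (hQ'C hy)
      rw [← this, mul_inv_cancel_right]; exact hy
    · intro hy
      have h1 := hcomm _ (hQ'C hy)
      have h2 : y = u⁻¹ * (u * y * u⁻¹) * u := by group
      rw [h2]
      have h3 : u⁻¹ * (u * y * u⁻¹) * u = u⁻¹ * ((u * y * u⁻¹) * u) := by group
      rw [h3, h1]
      have h4 : u⁻¹ * (u * (u * y * u⁻¹)) = u * y * u⁻¹ := by group
      rw [h4]; exact hy
  obtain ⟨S', hS'⟩ := hR.exists_le_sylow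
  obtain ⟨g, hg⟩ := MulAction.exists_smul_eq G S' P
  have hconj : ∀ x ∈ (zpowers u ⊔ Q' : Subgroup G), g * x * g⁻¹ ∈ (P : Subgroup G) := by
    intro x hx
    rw [← hg, Sylow.coe_subgroup_smul]
    exact ⟨x, hS' hx, rfl⟩
  have h1 := hle g (hconj u ((le_sup_left : zpowers u ≤ _) (mem_zpowers u))) (Q'.map (MulAut.conj g).toMonoidHom) (by
    rintro x ⟨y, hy, rfl⟩
    exact hconj y ((le_sup_right : Q' ≤ _) hy)) (by
    rintro x ⟨y, hy, rfl⟩
    change (g * y * g⁻¹) * (g * u * g⁻¹) = (g * u * g⁻¹) * (g * y * g⁻¹)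
    have := hcomm y (hQ'C hy)
    calc (g * y * g⁻¹) * (g * u * g⁻¹) = g * (y * u) * g⁻¹ := by group
      _ = g * (u * y) * g⁻¹ := by rw [this]
      _ = _ := by group)
  rw [Nat.card_congr (Subgroup.equivMapOfInjective Q' _ (MulAut.conj g).injective).symm.toEquiv, hQ'c] at h1
  exact (Nat.pow_le_pow_iff_right (by norm_num)).mp h1

/-- lower bound -/
theorem le_fact {u : G} {k : ℕ} {T : Subgroup G} (hT : Nat.card T = 2 ^ k) (hTC : T ≤ centralizer ({u} : Set G)) :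
    k ≤ (Nat.card (centralizer ({u} : Set G))).factorization 2 := by
  have h1 : 2 ^ k ∣ Nat.card (centralizer ({u} : Set G)) := by
    rw [← hT]; exact Subgroup.card_dvd_of_le hTC
  exact (Nat.Prime.pow_dvd_iff_le_factorization Nat.prime_two Nat.card_pos.ne').mp h1

namespace Hyp

variable (h : Hyp P n σ s)

include h

theorem sq_conj {g z : G} (hz2 : z * z ≠ 1) : (g * z * g⁻¹) * (g * z * g⁻¹) ≠ 1 := by
  intro h1
  apply hz2
  have h2 : (g * z * g⁻¹) * (g * z * g⁻¹) = g * (z * z) * g⁻¹ := by group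
  rw [h2] at h1
  have h3 : z * z = g⁻¹ * (g * (z * z) * g⁻¹) * g := by group
  rw [h3, h1]; group

theorem fact_rot {z : G} (hz : z ∈ zpowers σ) (hz2 : z * z ≠ 1) :
    (Nat.card (centralizer ({z} : Set G))).factorization 2 = n - 1 := by
  apply le_antisymm
  · apply fact_le (P := P) (h.rot_pgroup.to_le (by rw [zpowers_le]; exact hz))
    intro g hg T hT hc
    have h1 : T ≤ zpowers σ := fun x hx => h.rot_of_comm (hT hx) (h.rot_of_sq hg (h.sq_conj hz2)) (h.sq_conj hz2) (hc x hx)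
    have h2 := Subgroup.card_le_of_le h1
    rwa [Nat.card_zpowers, h.ord] at h2
  · apply le_fact (T := zpowers σ) (by rw [Nat.card_zpowers, h.ord])
    rw [zpowers_le, mem_centralizer_singleton_iff]
    obtain ⟨j, rfl⟩ := mem_zpowers_iff.mp hz
    exact (Commute.refl σ).zpow_right j

theorem fact_J : (Nat.card (centralizer ({σ ^ (2 ^ (n - 2))} : Set G))).factorization 2 = n := by
  apply le_antisymm
  · apply fact_le (P := P) (h.rot_pgroup.to_le (by rw [zpowers_le]; exact pow_mem (mem_zpowers σ) _))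
    intro g hg T hT hc
    have h2 := Subgroup.card_le_of_le hT
    rwa [h.card_P] at h2
  · apply le_fact (T := (P : Subgroup G)) h.card_P
    intro x hx
    rw [mem_centralizer_singleton_iff]
    exact h.J_comm hx

theorem fact_ref {t : G} (ht : t * t = 1) (ht1 : t ≠ 1) (hJ : ¬ IsConj (σ ^ (2 ^ (n - 2))) t) :
    (Nat.card (centralizer ({t} : Set G))).factorization 2 ≤ 2 := by
  have hto : orderOf t = 2 := orderOf_eq_prime (by rw [pow_two]; exact ht) ht1
  apply fact_le (P := P) (IsPGroup.of_card (n := 1) (by rw [Nat.card_zpowers, hto, pow_one]))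
  intro g hg T hT hc
  obtain ⟨t', ht'⟩ : ∃ t', t' = g * t * g⁻¹ := ⟨_, rfl⟩
  rw [← ht'] at hg hc
  have hconj : IsConj t t' := isConj_iff.mpr ⟨g, ht'.symm⟩
  have ht'2 : t' * t' = 1 := by
    have : (g * t * g⁻¹) * (g * t * g⁻¹) = g * (t * t) * g⁻¹ := by group
    rw [ht', this, ht]; group
  have ht'1 : t' ≠ 1 := by
    intro h1
    rw [h1] at hconj
    exact ht1 (isConj_one_right.mp hconj.symm |>.symm ▸ rfl)
  have ht'r : t' ∉ zpowers σ := by
    intro h1
    apply hJ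
    rw [← h.eq_J h1 ht'2 ht'1]
    exact hconj.symm
  have hsub : (T : Set G) ⊆ ({1, σ ^ (2 ^ (n - 2)), t', σ ^ (2 ^ (n - 2)) * t'} : Set G) := by
    intro x hx
    have hrot : ∀ y : G, y ∈ zpowers σ → y * t' = t' * y → y = 1 ∨ y = σ ^ (2 ^ (n - 2)) := by
      intro y hy hyc
      by_cases hy1 : y = 1
      · left; exact hy1
      · right
        apply h.eq_J hy _ hy1
        have h1 := h.conj_ref hg ht'r hy
        rw [← hyc, mul_inv_cancel_right] at h1
        nth_rewrite 1 [h1]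
        exact inv_mul_cancel y
    by_cases hxr : x ∈ zpowers σ
    · rcases hrot x hxr (hc x hx) with h1 | h1
      · left; exact h1
      · right; left; exact h1
    · have h1 : x * t' ∈ zpowers σ := by
        rcases h.d.all x (hT hx) with h2 | ⟨i, hi⟩
        · exact absurd h2 hxr
        · rcases h.d.all t' hg with h3 | ⟨j, hj⟩
          · exact absurd h3 ht'r
          · rw [hi, hj, h.d.ref_mul_ref]
            exact zpow_mem (mem_zpowers σ) _
      have h2 : (x * t') * t' = t' * (x * t') := by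
        have := hc x hx
        calc (x * t') * t' = (t' * x) * t' := by rw [this]
          _ = t' * (x * t') := by group
      have h3 : x = (x * t') * t' := by rw [mul_assoc, ht'2, mul_one]
      rcases hrot _ h1 h2 with h4 | h4
      · right; right; left
        rw [h3, h4, one_mul]
      · right; right; right
        rw [Set.mem_singleton_iff]
        rw [h4] at h3
        exact h3
  have h5 : Nat.card T ≤ 4 := by
    have h6 : Nat.card T = Set.ncard (T : Set G) := rfl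
    rw [h6]
    exact (Set.ncard_le_ncard hsub (Set.toFinite _)).trans (Cfsg.Agent.S0514.ncard_four _ _ _ _)
  exact h5.trans (by norm_num)

/-- odd elements normalizing the rotation group centralize it -/
theorem odd_cent {y : G} (hy : y ∈ normalizer (zpowers σ : Set G)) (hyo : Nat.Coprime (orderOf y) 2) :
    y * σ * y⁻¹ = σ := by
  by_contra hne
  have h1 : CfsgLib.F8.OddAut 2 (zpowers σ) := by
    refine ⟨y, hy, hyo, fun hc => hne ?_⟩
    rw [mem_centralizer_iff] at hc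
    have := hc σ (mem_zpowers σ)
    rw [← this, mul_inv_cancel_right]
  have h2 := h.d.klein_of_oddAut rfl (U := zpowers σ) (by rw [zpowers_le]; exact h.d.hr) h1
  have h3 : ((⟨σ, mem_zpowers σ⟩ : zpowers σ)) * ⟨σ, mem_zpowers σ⟩ = 1 := h2.mul_self _
  have h4 : σ ^ 2 = 1 := by rw [pow_two]; exact congrArg Subtype.val h3
  have h5 := orderOf_le_of_pow_eq_one (by norm_num) h4
  rw [h.ord] at h5
  have := h.N4
  omega

/-- the automizer of the rotation group -/
theorem norm_rot {y : G} (hy : y ∈ normalizer (zpowers σ : Set G)) : y * σ * y⁻¹ = σ ∨ y * σ * y⁻¹ = σ⁻¹ := by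
  haveI : Fact (Nat.Prime 2) := ⟨Nat.prime_two⟩
  obtain ⟨X, hX⟩ : ∃ X, X = normalizer (zpowers σ : Set G) := ⟨_, rfl⟩
  have hPX : (P : Subgroup G) ≤ X := by
    intro x hx
    rw [hX, mem_normalizer_iff]
    intro z
    constructor
    · intro hz
      rcases h.conj_inv hx hz with h1 | h1
      · rw [h1]; exact hz
      · rw [h1]; exact inv_mem hz
    · intro hz
      have hx' := inv_mem hx
      have h2 : z = x⁻¹ * (x * z * x⁻¹) * x⁻¹⁻¹ := by group
      rcases h.conj_inv hx' hz with h1 | h1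
      · rw [h2, h1]; exact hz
      · rw [h2, h1]; exact inv_mem hz
  rw [← hX] at hy
  obtain ⟨a, b, hab, hcop, ha, hb⟩ : ∃ a b : G, a * b = y ∧ Commute a b ∧ (∃ k : ℕ, orderOf a = 2 ^ k) ∧ ¬ 2 ∣ orderOf b := by
    obtain ⟨a, b, h1, h2, h3, h4⟩ := CfsgLib.BlockOrth.isPPart_exists 2 y
    exact ⟨a, b, h1, h2, h3, h4⟩
  have haX : a ∈ X := by
    have : IsPPart 2 y a := ⟨b, hab, hcop, ha, hb⟩
    obtain ⟨e, he, -⟩ := CfsgLib.BlockOrth.exists_zpow_pparts this this (k := 1) (by norm_num)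
    rw [zpow_one] at he
    rw [← he]; exact zpow_mem hy e
  have hbX : b ∈ X := by
    have : b = a⁻¹ * y := by rw [← hab]; group
    rw [this]; exact mul_mem (inv_mem haX) hy
  have hbσ : b * σ * b⁻¹ = σ := h.odd_cent (by rw [← hX]; exact hbX) ((Nat.Prime.coprime_iff_not_dvd Nat.prime_two).mpr hb).symm
  -- conjugate `a` into `P` inside `X`
  obtain ⟨k, hk⟩ := ha
  have hap : IsPGroup 2 (zpowers (⟨a, haX⟩ : X)) := IsPGroup.of_card (n := k) (by
    rw [Nat.card_zpowers, ← hk, ← Subgroup.orderOf_coe])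
  obtain ⟨S', hS'⟩ := hap.exists_le_sylow
  obtain ⟨g, hg⟩ := MulAction.exists_smul_eq X S' (P.subtype hPX)
  have hga : (g : G) * a * (g : G)⁻¹ ∈ (P : Subgroup G) := by
    have h1 : g * ⟨a, haX⟩ * g⁻¹ ∈ (P.subtype hPX : Subgroup X) := by
      rw [← hg, Sylow.coe_subgroup_smul]
      exact ⟨_, hS' (mem_zpowers _), rfl⟩
    rw [Sylow.coe_subtype, mem_subgroupOf] at h1
    exact h1
  have hgσ : (g : G) * σ * (g : G)⁻¹ ∈ zpowers σ := by
    have hgX : ∀ x ∈ X, x ∈ normalizer (zpowers σ : Set G) := fun x hx => by rw [← hX]; exact hx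
    exact (mem_normalizer_iff.mp (hgX g g.2) σ).mp (mem_zpowers σ)
  have haσ : a * σ * a⁻¹ = σ ∨ a * σ * a⁻¹ = σ⁻¹ := by
    rcases h.conj_inv hga hgσ with h1 | h1
    · left
      have h2 : a * σ * a⁻¹ = (g : G)⁻¹ * (((g : G) * a * (g : G)⁻¹) * ((g : G) * σ * (g : G)⁻¹) * ((g : G) * a * (g : G)⁻¹)⁻¹) * g := by group
      rw [h2, h1]; group
    · right
      have h2 : a * σ * a⁻¹ = (g : G)⁻¹ * (((g : G) * a * (g : G)⁻¹) * ((g : G) * σ * (g : G)⁻¹) * ((g : G) * a * (g : G)⁻¹)⁻¹) * g := by group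
      rw [h2, h1]; group
  have h3 : y * σ * y⁻¹ = a * (b * σ * b⁻¹) * a⁻¹ := by rw [← hab]; group
  rw [h3, hbσ]
  exact haσ

/-- fusion of rotations -/
theorem rot_conj {z w : G} (hz : z ∈ zpowers σ) (hw : w ∈ zpowers σ) (hz2 : z * z ≠ 1) (hzw : IsConj z w) : w = z ∨ w = z⁻¹ := by
  haveI : Fact (Nat.Prime 2) := ⟨Nat.prime_two⟩
  obtain ⟨g, hg⟩ := isConj_iff.mp hzw
  have hw2 : w * w ≠ 1 := by rw [← hg]; exact h.sq_conj hz2
  obtain ⟨C, hC⟩ : ∃ C, C = centralizer ({w} : Set G) := ⟨_, rfl⟩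
  have hσC : zpowers σ ≤ C := by
    rw [zpowers_le, hC, mem_centralizer_singleton_iff]
    obtain ⟨j, rfl⟩ := mem_zpowers_iff.mp hw
    exact (Commute.refl σ).zpow_right j
  have hσC' : (zpowers (g * σ * g⁻¹)) ≤ C := by
    rw [zpowers_le, hC, mem_centralizer_singleton_iff, ← hg]
    obtain ⟨j, rfl⟩ := mem_zpowers_iff.mp hz
    have h1 : σ * σ ^ j = σ ^ j * σ := (Commute.refl σ).zpow_right j
    calc g * σ * g⁻¹ * (g * σ ^ j * g⁻¹) = g * (σ * σ ^ j) * g⁻¹ := by group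
      _ = g * (σ ^ j * σ) * g⁻¹ := by rw [h1]
      _ = _ := by group
  have hfac : (Nat.card C).factorization 2 = n - 1 := by rw [hC]; exact h.fact_rot hw hw2
  have hcard1 : Nat.card ((zpowers σ).subgroupOf C) = 2 ^ (Nat.card C).factorization 2 := by
    rw [Nat.card_congr (Subgroup.subgroupOfEquivOfLe hσC).toEquiv, Nat.card_zpowers, h.ord, hfac]
  have hcard2 : Nat.card ((zpowers (g * σ * g⁻¹)).subgroupOf C) = 2 ^ (Nat.card C).factorization 2 := by
    rw [Nat.card_congr (Subgroup.subgroupOfEquivOfLe hσC').toEquiv, Nat.card_zpowers, hfac, ← h.ord]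
    exact orderOf_injective (MulAut.conj g).toMonoidHom (MulAut.conj g).injective σ
  obtain ⟨S1, hS1⟩ : ∃ S1 : Sylow 2 C, (S1 : Subgroup C) = (zpowers σ).subgroupOf C := ⟨Sylow.ofCard _ hcard1, rfl⟩
  obtain ⟨S2, hS2⟩ : ∃ S2 : Sylow 2 C, (S2 : Subgroup C) = (zpowers (g * σ * g⁻¹)).subgroupOf C := ⟨Sylow.ofCard _ hcard2, rfl⟩
  obtain ⟨c, hc⟩ := MulAction.exists_smul_eq C S2 S1
  have hcg : (c : G) * g * σ * ((c : G) * g)⁻¹ ∈ zpowers σ := by
    have h1 : c * ⟨g * σ * g⁻¹, hσC' (mem_zpowers _)⟩ * c⁻¹ ∈ (S1 : Subgroup C) := by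
      rw [← hc, Sylow.coe_subgroup_smul]
      refine ⟨_, ?_, rfl⟩
      rw [hS2]
      exact mem_subgroupOf.mpr (mem_zpowers _)
    rw [hS1, mem_subgroupOf] at h1
    have h2 : (c : G) * g * σ * ((c : G) * g)⁻¹ = (c : G) * (g * σ * g⁻¹) * (c : G)⁻¹ := by group
    rw [h2]; exact h1
  have hcn : (c : G) * g ∈ normalizer (zpowers σ : Set G) := by
    rw [CfsgLib.FusionH12.mem_nrm]
    apply Subgroup.eq_of_le_of_card_ge
    · rw [CfsgLib.FusionH12.cj_le']
      intro x hx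
      obtain ⟨j, rfl⟩ := mem_zpowers_iff.mp hx
      rw [← conj_zpow]
      exact zpow_mem hcg j
    · rw [CfsgLib.FusionH12.card_cj]
  have hcw : (c : G) * w * (c : G)⁻¹ = w := by
    have hcC : ∀ x ∈ C, x * w = w * x := fun x hx => by
      rw [hC, mem_centralizer_singleton_iff] at hx; exact hx
    rw [hcC c c.2, mul_inv_cancel_right]
  obtain ⟨j, hj⟩ := mem_zpowers_iff.mp hz
  have hfin : w = ((c : G) * g * σ * ((c : G) * g)⁻¹) ^ j := by
    rw [conj_zpow, hj]
    have : (c : G) * g * z * ((c : G) * g)⁻¹ = (c : G) * (g * z * g⁻¹) * (c : G)⁻¹ := by group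
    rw [this, hg, hcw]
  rcases h.norm_rot hcn with h1 | h1
  · left; rw [hfin, h1, hj]
  · right; rw [hfin, h1, inv_zpow, hj]

/-- two-elements are conjugate into `P` -/
theorem conj_into {u : G} (hu : ∃ k : ℕ, orderOf u = 2 ^ k) : ∃ g : G, g * u * g⁻¹ ∈ (P : Subgroup G) := by
  haveI : Fact (Nat.Prime 2) := ⟨Nat.prime_two⟩
  obtain ⟨k, hk⟩ := hu
  have hup : IsPGroup 2 (zpowers u) := IsPGroup.of_card (n := k) (by rw [Nat.card_zpowers, hk])
  obtain ⟨S', hS'⟩ := hup.exists_le_sylow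
  obtain ⟨g, hg⟩ := MulAction.exists_smul_eq G S' P
  refine ⟨g, ?_⟩
  rw [← hg, Sylow.coe_subgroup_smul]
  exact ⟨u, hS' (mem_zpowers u), rfl⟩

/-- centralizers of nontrivial 2-elements are 2-nilpotent -/
theorem nilp {u : G} (hu : ∃ k : ℕ, orderOf u = 2 ^ k) (hu1 : u ≠ 1) :
    ∃ k : ℕ, (pPrimeCore 2 (centralizer ({u} : Set G))).index = 2 ^ k := by
  haveI : Fact (Nat.Prime 2) := ⟨Nat.prime_two⟩
  obtain ⟨k, hk⟩ := hu
  obtain ⟨k', rfl⟩ : ∃ k', k = k' + 1 := by
    cases k with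
    | zero => rw [pow_zero, orderOf_eq_one_iff] at hk; exact absurd hk hu1
    | succ k' => exact ⟨k', rfl⟩
  have ht : orderOf (u ^ (2 ^ k')) = 2 := by
    rw [orderOf_pow_of_dvd (by positivity) (by rw [hk, pow_succ]; exact Dvd.intro _ rfl), hk, pow_succ]
    exact Nat.mul_div_cancel_left _ (by positivity)
  have h1 := Cfsg.Agent.S0514.main P (2 ^ (n - 1)) (by positivity) h.iso (u ^ (2 ^ k')) ht
  rw [CfsgLib.TransPC.hasNPC_iff] at h1
  obtain ⟨N, hN⟩ := h1
  have hle : centralizer ({u} : Set G) ≤ centralizer ({u ^ (2 ^ k')} : Set G) := by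
    intro x hx
    rw [mem_centralizer_singleton_iff] at hx ⊢
    exact (show Commute x u from hx).pow_right _
  have h2 := hN.subgroupOf ((centralizer ({u} : Set G)).subgroupOf (centralizer ({u ^ (2 ^ k')} : Set G)))
  have h3 := h2.map (Subgroup.subgroupOfEquivOfLe hle).toMonoidHom (Subgroup.subgroupOfEquivOfLe hle).surjective
  have h4 := CfsgLib.Cores.le_pPrimeCore h3.normal h3.coprime
  obtain ⟨-, -, j, hj⟩ := h3
  have h5 := Subgroup.index_dvd_of_le h4
  rw [hj] at h5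
  obtain ⟨i, -, hi⟩ := (Nat.dvd_prime_pow Nat.prime_two).mp h5
  exact ⟨i, hi⟩

end Hyp

end CfsgLib.DihBlk20
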