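import Mathlib

set_option autoImplicit false
set_option linter.all false
set_option maxHeartbeats 1000000

/-! # An integral lattice configuration (helper20) -/

namespace CfsgLib.DihComb20

variable {X : Type*} [Fintype X] [DecidableEq X]

theorem sq_small {s : Finset X} {f : X → ℤ} {k : ℕ} (hk : k ≤ 3) (h : ∑ x ∈ s, f x ^ 2 = k) :
    (∀ x ∈ s, f x = 0 ∨ f x = 1 ∨ f x = -1) ∧ (s.filter (fun x => f x ≠ 0)).card = k := by
  have h1 : ∀ x ∈ s, f x ^ 2 ≤ 3 := by
    intro x hx
    have h2 := Finset.single_le_sum (f := fun x => f x ^ 2) (fun y _ => by positivity) hx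
    rw [h] at h2
    have h3 : (k : ℤ) ≤ 3 := by exact_mod_cast hk
    exact h2.trans h3
  have h2 : ∀ x ∈ s, f x = 0 ∨ f x = 1 ∨ f x = -1 := by
    intro x hx
    have := h1 x hx
    have h5 : f x ≤ 1 := by nlinarith
    have h6 : -1 ≤ f x := by nlinarith
    omega
  refine ⟨h2, ?_⟩
  have h3 : ((s.filter (fun x => f x ≠ 0)).card : ℤ) = k := by
    rw [← h, Finset.card_filter]
    push_cast
    apply Finset.sum_congr rfl
    intro x hx
    rcases h2 x hx with h4 | h4 | h4 <;> simp [h4]
  exact_mod_cast h3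

theorem comb (o : X) {K : ℕ} (hK : K = 1 ∨ 3 ≤ K) (w : Fin K → X → ℤ) (v : X → ℤ) (d : X → ℤ)
    (hd : ∀ x, 0 < d x) (hdo : d o = 1) (hwo : ∀ j, w j o = -1) (hvo : v o = -1)
    (hww : ∀ j, ∑ x, w j x ^ 2 = 3) (hwk : ∀ j k, j ≠ k → ∑ x, w j x * w k x = 2)
    (hvv : ∑ x, v x ^ 2 = 4) (hwv : ∀ j, ∑ x, w j x * v x = 2)
    (hdw : ∀ j, ∑ x, d x * w j x = 0) (hdv : ∑ x, d x * v x = 0) :
    ∃ (a b c : X) (y : Fin K → X) (ε εb εc : ℤ), (ε = 1 ∨ ε = -1) ∧ (εb = 1 ∨ εb = -1) ∧ (εc = 1 ∨ εc = -1) ∧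
      a ≠ o ∧ b ≠ o ∧ c ≠ o ∧ a ≠ b ∧ a ≠ c ∧ b ≠ c ∧ Function.Injective y ∧
      (∀ j, y j ≠ o ∧ y j ≠ a ∧ y j ≠ b ∧ y j ≠ c) ∧
      (∀ j x, w j x = if x = o then -1 else if x = a then ε else if x = y j then -ε else 0) ∧
      (∀ x, v x = if x = o then -1 else if x = a then ε else if x = b then εb else if x = c then εc else 0) := by
  classical
  have hsplit : ∀ f : X → ℤ, ∑ x, f x = f o + ∑ x ∈ Finset.univ.erase o, f x := fun f =>
    (Finset.add_sum_erase _ _ (Finset.mem_univ o)).symm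
  -- v
  have hv3 : ∑ x ∈ Finset.univ.erase o, v x ^ 2 = ((3 : ℕ) : ℤ) := by
    have := hsplit (fun x => v x ^ 2)
    rw [hvv] at this
    simp only [hvo] at this
    push_cast; linarith
  obtain ⟨hv1, hvc⟩ := sq_small (by norm_num) hv3
  obtain ⟨V, hV⟩ : ∃ V, V = (Finset.univ.erase o).filter (fun x => v x ≠ 0) := ⟨_, rfl⟩
  rw [← hV] at hvc
  have hVm : ∀ x, x ∈ V ↔ x ≠ o ∧ v x ≠ 0 := by
    intro x; rw [hV, Finset.mem_filter, Finset.mem_erase]; simp
  -- w
  have hwj : ∀ j, ∃ a y : X, a ≠ y ∧ a ≠ o ∧ y ≠ o ∧ v a ≠ 0 ∧ v y = 0 ∧ w j a = v a ∧ w j y = - v a ∧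
      (∀ x, x ≠ o → x ≠ a → x ≠ y → w j x = 0) ∧ d a * v a - d y * v a = 1 := by
    intro j
    have hw2 : ∑ x ∈ Finset.univ.erase o, w j x ^ 2 = ((2 : ℕ) : ℤ) := by
      have := hsplit (fun x => w j x ^ 2)
      rw [hww] at this
      simp only [hwo] at this
      push_cast; linarith
    obtain ⟨hw1, hwc⟩ := sq_small (by norm_num) hw2
    obtain ⟨p, q, hpq, hS⟩ := Finset.card_eq_two.mp hwc
    have hp : p ∈ (Finset.univ.erase o).filter (fun x => w j x ≠ 0) := by rw [hS]; simp
    have hq : q ∈ (Finset.univ.erase o).filter (fun x => w j x ≠ 0) := by rw [hS]; simp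
    rw [Finset.mem_filter, Finset.mem_erase] at hp hq
    have hoth : ∀ x, x ≠ o → x ≠ p → x ≠ q → w j x = 0 := by
      intro x hx hxp hxq
      by_contra hne
      have : x ∈ (Finset.univ.erase o).filter (fun x => w j x ≠ 0) := Finset.mem_filter.mpr ⟨Finset.mem_erase.mpr ⟨hx, Finset.mem_univ _⟩, hne⟩
      rw [hS] at this
      simp at this
      rcases this with h | h
      · exact hxp h
      · exact hxq h
    have hsum : ∀ g : X → ℤ, ∑ x ∈ Finset.univ.erase o, w j x * g x = w j p * g p + w j q * g q := by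
      intro g
      rw [← Finset.sum_subset (s₁ := {p, q})]
      · rw [Finset.sum_pair hpq]
      · intro x hx
        simp at hx
        rcases hx with rfl | rfl
        · exact Finset.mem_erase.mpr ⟨hp.1.1, Finset.mem_univ _⟩
        · exact Finset.mem_erase.mpr ⟨hq.1.1, Finset.mem_univ _⟩
      · intro x hx hx2
        simp at hx2
        rw [hoth x (Finset.mem_erase.mp hx).1 (fun h => hx2.1 h) (fun h => hx2.2 h), zero_mul]
    have h1 := hsplit (fun x => w j x * v x)
    rw [hwv, hsum] at h1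
    simp only [hwo, hvo] at h1
    have h2 := hsplit (fun x => d x * w j x)
    rw [hdw] at h2
    have h2' : ∑ x ∈ Finset.univ.erase o, d x * w j x = w j p * d p + w j q * d q := by
      rw [← hsum d]
      apply Finset.sum_congr rfl; intro x _; ring
    rw [h2'] at h2
    simp only [hwo, hdo] at h2
    have hdp := hd p
    have hdq := hd q
    have hwp := (hw1 p (Finset.mem_erase.mpr hp.1)).resolve_left hp.2
    have hwq := (hw1 q (Finset.mem_erase.mpr hq.1)).resolve_left hq.2
    have hvp := hv1 p (Finset.mem_erase.mpr hp.1)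
    have hvq := hv1 q (Finset.mem_erase.mpr hq.1)
    rcases hwp with hwp | hwp <;> rcases hwq with hwq | hwq <;> rw [hwp, hwq] at h1 h2
    · exfalso; linarith
    · rcases hvp with hvp | hvp | hvp <;> rcases hvq with hvq | hvq | hvq <;> rw [hvp, hvq] at h1 <;> norm_num at h1
      · exact ⟨q, p, hpq.symm, hq.1.1, hp.1.1, by rw [hvq]; norm_num, hvp, by rw [hwq, hvq], by rw [hwp, hvq]; norm_num,
          fun x h3 h4 h5 => hoth x h3 h5 h4, by rw [hvq]; linarith⟩
      · exact ⟨p, q, hpq, hp.1.1, hq.1.1, by rw [hvp]; norm_num, hvq, by rw [hwp, hvp], by rw [hwq, hvp], hoth, by rw [hvp]; linarith⟩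
    · rcases hvp with hvp | hvp | hvp <;> rcases hvq with hvq | hvq | hvq <;> rw [hvp, hvq] at h1 <;> norm_num at h1
      · exact ⟨q, p, hpq.symm, hq.1.1, hp.1.1, by rw [hvq]; norm_num, hvp, by rw [hwq, hvq], by rw [hwp, hvq],
          fun x h3 h4 h5 => hoth x h3 h5 h4, by rw [hvq]; linarith⟩
      · exact ⟨p, q, hpq, hp.1.1, hq.1.1, by rw [hvp]; norm_num, hvq, by rw [hwp, hvp], by rw [hwq, hvp]; norm_num, hoth, by rw [hvp]; linarith⟩
    · exfalso; linarith
  choose a y hay hao hyo hva hvy hwa hwy hoth hdeg using hwj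
  -- the values of `v` at `a j`
  have hva1 : ∀ j, v (a j) = 1 ∨ v (a j) = -1 := fun j =>
    (hv1 (a j) (Finset.mem_erase.mpr ⟨hao j, Finset.mem_univ _⟩)).resolve_left (hva j)
  have hpair : ∀ j k, j ≠ k → (a j = a k ∧ y j ≠ y k) ∨ (a j ≠ a k ∧ y j = y k ∧ v (a j) = v (a k)) := by
    intro j k hjk
    have h1 := hsplit (fun x => w j x * w k x)
    rw [hwk j k hjk] at h1
    simp only [hwo] at h1
    have h2 : ∑ x ∈ Finset.univ.erase o, w j x * w k x = w j (a j) * w k (a j) + w j (y j) * w k (y j) := by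
      rw [← Finset.sum_subset (s₁ := {a j, y j})]
      · rw [Finset.sum_pair (hay j)]
      · intro x hx
        simp at hx
        rcases hx with rfl | rfl
        · exact Finset.mem_erase.mpr ⟨hao j, Finset.mem_univ _⟩
        · exact Finset.mem_erase.mpr ⟨hyo j, Finset.mem_univ _⟩
      · intro x hx hx2
        simp at hx2
        rw [hoth j x (Finset.mem_erase.mp hx).1 (fun h => hx2.1 h) (fun h => hx2.2 h), zero_mul]
    rw [h2] at h1
    have hay' : a j ≠ y k := by intro h; apply hva j; rw [h]; exact hvy k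
    have hya' : y j ≠ a k := by intro h; apply hva k; rw [← h]; exact hvy j
    by_cases ha : a j = a k
    · by_cases hy : y j = y k
      · exfalso
        rw [ha, hy, hwa k, hwy k] at h1
        rw [← ha, hwa j, ← hy, hwy j] at h1
        rcases hva1 j with h3 | h3 <;> rw [h3] at h1 <;> norm_num at h1
      · left; exact ⟨ha, hy⟩
    · right
      have h3 : w k (a j) = 0 := hoth k _ (hao j) ha hay'
      rw [h3, mul_zero, zero_add] at h1
      by_cases hy : y j = y k
      · refine ⟨ha, hy, ?_⟩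
        rw [hwy j, hy, hwy k] at h1
        rcases hva1 j with h4 | h4 <;> rcases hva1 k with h5 | h5 <;> rw [h4, h5] at h1 ⊢ <;> norm_num at h1
      · exfalso
        have h4 : w k (y j) = 0 := hoth k _ (hyo j) hya' hy
        rw [h4, mul_zero] at h1
        norm_num at h1
  have hall : ∀ j k, a j = a k := by
    intro j k
    by_contra hne
    have hjk : j ≠ k := fun h => hne (by rw [h])
    have hK3 : 3 ≤ K := by
      rcases hK with h | h
      · subst h; exact absurd (Subsingleton.elim j k) hjk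
      · exact h
    obtain ⟨l, hl⟩ : ∃ l : Fin K, l ∉ ({j, k} : Finset (Fin K)) := by
      by_contra hcon
      push Not at hcon
      have h1 : (Finset.univ : Finset (Fin K)) ⊆ {j, k} := fun x _ => hcon x
      have h2 := Finset.card_le_card h1
      rw [Finset.card_univ, Fintype.card_fin] at h2
      have h3 : ({j, k} : Finset (Fin K)).card ≤ 2 := Finset.card_le_two
      omega
    simp at hl
    obtain ⟨hlj, hlk⟩ := hl
    have h1 := (hpair j k hjk).resolve_left (fun h => hne h.1)
    have h2 : a l ≠ a j := by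
      intro h
      have h3 := (hpair l k hlk).resolve_left (fun h3 => hne (h.symm.trans h3.1))
      have h4 := (hpair l j hlj).resolve_right (fun h4 => h4.1 h)
      exact h4.2 (h3.2.1.trans h1.2.1.symm)
    have h3 : a l ≠ a k := by
      intro h
      have h4 := (hpair l j hlj).resolve_left (fun h3 => h2 h3.1)
      have h5 := (hpair l k hlk).resolve_right (fun h4 => h4.1 h)
      exact h5.2 (h4.2.1.trans h1.2.1)
    have h4 := (hpair l j hlj).resolve_left (fun h => h2 h.1)
    have h5 := (hpair l k hlk).resolve_left (fun h => h3 h.1)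
    -- the support of `v`
    have hsub : ({a j, a k, a l} : Finset X) ⊆ V := by
      intro x hx
      simp at hx
      rcases hx with rfl | rfl | rfl
      · exact (hVm _).mpr ⟨hao j, hva j⟩
      · exact (hVm _).mpr ⟨hao k, hva k⟩
      · exact (hVm _).mpr ⟨hao l, hva l⟩
    have hc3 : ({a j, a k, a l} : Finset X).card = 3 := Finset.card_eq_three.mpr ⟨_, _, _, hne, h2.symm, h3.symm, rfl⟩
    have hVe : ({a j, a k, a l} : Finset X) = V := Finset.eq_of_subset_of_card_le hsub (by rw [hvc, hc3])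
    have h6 := hsplit (fun x => d x * v x)
    rw [hdv] at h6
    have h7 : ∑ x ∈ Finset.univ.erase o, d x * v x = d (a j) * v (a j) + (d (a k) * v (a k) + d (a l) * v (a l)) := by
      rw [← Finset.sum_subset (s₁ := {a j, a k, a l})]
      · rw [Finset.sum_insert, Finset.sum_pair h3.symm]
        simp
        exact ⟨hne, fun h => h2 h.symm⟩
      · intro x hx
        rw [hVe] at hx
        exact Finset.mem_erase.mpr ⟨((hVm x).mp hx).1, Finset.mem_univ _⟩
      · intro x hx hx2
        rw [hVe] at hx2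
        have : v x = 0 := by
          by_contra h
          exact hx2 ((hVm x).mpr ⟨(Finset.mem_erase.mp hx).1, h⟩)
        rw [this, mul_zero]
    rw [h7] at h6
    simp only [hdo, hvo] at h6
    have h8 := hdeg j
    have h9 := hdeg k
    have h10 := hdeg l
    have e1 : v (a k) = v (a j) := h1.2.2.symm
    have e2 : v (a l) = v (a j) := h4.2.2
    have e3 : y k = y j := h1.2.1.symm
    have e4 : y l = y j := h4.2.1
    rw [e1, e3] at h9
    rw [e2, e4] at h10
    rw [e1, e2] at h6
    rcases hva1 j with h11 | h11 <;> rw [h11] at h6 h8 h9 h10 <;> omega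
  have hK0 : 0 < K := by rcases hK with h | h <;> omega
  obtain ⟨j₀, hj₀⟩ : ∃ j₀ : Fin K, True := ⟨⟨0, hK0⟩, trivial⟩
  have haV : a j₀ ∈ V := (hVm _).mpr ⟨hao j₀, hva j₀⟩
  have hc2 : (V.erase (a j₀)).card = 2 := by rw [Finset.card_erase_of_mem haV, hvc]
  obtain ⟨b, c, hbc, hbcV⟩ := Finset.card_eq_two.mp hc2
  have hb : b ∈ V.erase (a j₀) := by rw [hbcV]; simp
  have hc : c ∈ V.erase (a j₀) := by rw [hbcV]; simp
  rw [Finset.mem_erase, hVm] at hb hc
  have hVoth : ∀ x, x ≠ o → x ≠ a j₀ → x ≠ b → x ≠ c → v x = 0 := by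
    intro x h1 h2 h3 h4
    by_contra h
    have : x ∈ V.erase (a j₀) := Finset.mem_erase.mpr ⟨h2, (hVm x).mpr ⟨h1, h⟩⟩
    rw [hbcV] at this
    simp at this
    rcases this with h5 | h5
    · exact h3 h5
    · exact h4 h5
  refine ⟨a j₀, b, c, y, v (a j₀), v b, v c, hva1 j₀, ?_, ?_, hao j₀, hb.2.1, hc.2.1, hb.1.symm, hc.1.symm, hbc, ?_, ?_, ?_, ?_⟩
  · exact (hv1 b (Finset.mem_erase.mpr ⟨hb.2.1, Finset.mem_univ _⟩)).resolve_left hb.2.2
  · exact (hv1 c (Finset.mem_erase.mpr ⟨hc.2.1, Finset.mem_univ _⟩)).resolve_left hc.2.2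
  · intro j k hjk
    by_contra hne
    rcases hpair j k hne with h1 | h1
    · exact h1.2 hjk
    · exact h1.1 (hall j k)
  · intro j
    refine ⟨hyo j, ?_, ?_, ?_⟩
    · intro h; apply hva j₀; rw [← h]; exact hvy j
    · intro h; apply hb.2.2; rw [← h]; exact hvy j
    · intro h; apply hc.2.2; rw [← h]; exact hvy j
  · intro j x
    by_cases h1 : x = o
    · rw [if_pos h1, h1, hwo]
    · rw [if_neg h1]
      by_cases h2 : x = a j₀
      · rw [if_pos h2, h2, hall j₀ j, hwa j]
      · rw [if_neg h2]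
        by_cases h3 : x = y j
        · rw [if_pos h3, h3, hwy j, hall j₀ j]
        · rw [if_neg h3]
          exact hoth j x h1 (by rw [hall j j₀]; exact h2) h3
  · intro x
    by_cases h1 : x = o
    · rw [if_pos h1, h1, hvo]
    · rw [if_neg h1]
      by_cases h2 : x = a j₀
      · rw [if_pos h2, h2]
      · rw [if_neg h2]
        by_cases h3 : x = b
        · rw [if_pos h3, h3]
        · rw [if_neg h3]
          by_cases h4 : x = c
          · rw [if_pos h4, h4]
          · rw [if_neg h4]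
            exact hVoth x h1 h2 h3 h4

end CfsgLib.DihComb20
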