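import Cfsg.Agent.LibDihBlk20
import Cfsg.Agent.LibDihComb20
import Cfsg.Agent.LibKlein

set_option autoImplicit false
set_option linter.all false
set_option maxHeartbeats 1000000

/-! # Groups with dihedral Sylow 2-subgroups: the principal block (helper20) -/

namespace CfsgLib.DihBlk20

open Cfsg Subgroup CfsgLib.Dih8 CfsgLib.CharBasic CfsgLib.BlockIdem CfsgLib.BlockOrth CfsgLib.BlockSec2
open scoped ComplexConjugate

universe u

/-! ### geometric sums -/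

section Geom

variable {N : ℕ} {ζ : ℂ}

theorem gs (hN : 0 < N) (hζ : IsPrimitiveRoot ζ N) (a : ℤ) :
    ∑ l ∈ Finset.range N, ζ ^ (a * (l : ℤ)) = if (N : ℤ) ∣ a then (N : ℂ) else 0 := by
  have h0 : ζ ≠ 0 := hζ.ne_zero hN.ne'
  have h1 : ∀ l : ℕ, ζ ^ (a * (l : ℤ)) = (ζ ^ a) ^ l := by
    intro l
    rw [zpow_mul, zpow_natCast]
  simp only [h1]
  have h2 : (ζ ^ a) ^ N = 1 := by
    rw [← zpow_natCast, ← zpow_mul, mul_comm, zpow_mul, zpow_natCast, hζ.pow_eq_one, one_zpow]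
  split_ifs with h
  · have h3 : ζ ^ a = 1 := (hζ.zpow_eq_one_iff_dvd a).mpr h
    simp [h3]
  · have h3 : ζ ^ a ≠ 1 := fun h4 => h ((hζ.zpow_eq_one_iff_dvd a).mp h4)
    have h4 := mul_geom_sum (ζ ^ a) N
    rw [h2, sub_self] at h4
    exact (mul_eq_zero.mp h4).resolve_left (sub_ne_zero.mpr h3)

theorem conj_zpow_root (hN : 0 < N) (hζ : IsPrimitiveRoot ζ N) (a : ℤ) : conj (ζ ^ a) = ζ ^ (-a) := by
  have h1 : ζ⁻¹ = conj ζ := inv_eq_conj_of_norm (norm_one_of_pow hN.ne' hζ.pow_eq_one)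
  rw [map_zpow₀, ← h1, inv_zpow, zpow_neg]

end Geom

section Mult

variable {G : Type u} [Group G] [Fintype G] {N : ℕ} {ζ : ℂ} {σ : G}

theorem exists_m (hN : 0 < N) (hζ : IsPrimitiveRoot ζ N) (hσ : orderOf σ = N) {χ : G → ℂ} (hχ : IsCharacter G χ) :
    ∃ m : ℕ → ℤ, ∀ l : ℕ, χ (σ ^ l) = ∑ j ∈ Finset.range N, (m j : ℂ) * ζ ^ ((j : ℤ) * (l : ℤ)) := by
  classical
  haveI : NeZero N := ⟨hN.ne'⟩
  obtain ⟨d, ρ, rfl⟩ := hχ
  obtain ⟨b, ω, h1, h2⟩ := exists_diag_rep ρ σ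
  rw [hσ] at h1
  have h3 : ∀ i, ∃ a : ℕ, a < N ∧ ζ ^ a = ω i := fun i => hζ.eq_pow_of_pow_eq_one (h1 i)
  choose a ha1 ha2 using h3
  refine ⟨fun j => ((Finset.univ.filter (fun i => a i = j)).card : ℤ), fun l => ?_⟩
  rw [Representation.character, trace_of_diag b _ (fun i => (ω i) ^ l) (fun i => diag_pow ρ σ (h2 i) l)]
  rw [← Finset.sum_fiberwise_of_maps_to (s := Finset.univ) (t := Finset.range N) (g := a) (fun i _ => Finset.mem_range.mpr (ha1 i))]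
  apply Finset.sum_congr rfl
  intro j _
  rw [Finset.sum_congr rfl (g := fun _ => ζ ^ ((j : ℤ) * (l : ℤ))) (by
    intro i hi
    rw [Finset.mem_filter] at hi
    rw [← ha2 i, hi.2, ← pow_mul]
    rw [← Nat.cast_mul, zpow_natCast])]
  rw [Finset.sum_const, nsmul_eq_mul]
  push_cast; rfl

/-- normalized multiplicities -/
noncomputable def WW (N : ℕ) (ζ : ℂ) (σ : G) (χ : G → ℂ) (j : ℕ) : ℂ :=
  (N : ℂ)⁻¹ * ∑ l ∈ Finset.range N, χ (σ ^ l) * (ζ ^ (-((j : ℤ) * (l : ℤ))) - 1)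

theorem WW_eq (hN : 0 < N) (hζ : IsPrimitiveRoot ζ N) {χ : G → ℂ} {m : ℕ → ℤ}
    (hm : ∀ l : ℕ, χ (σ ^ l) = ∑ j ∈ Finset.range N, (m j : ℂ) * ζ ^ ((j : ℤ) * (l : ℤ))) {j : ℕ} (hj : j < N) :
    WW N ζ σ χ j = (m j : ℂ) - m 0 := by
  have h0 : ζ ≠ 0 := hζ.ne_zero hN.ne'
  have hNc : (N : ℂ) ≠ 0 := by exact_mod_cast hN.ne'
  unfold WW
  have h1 : ∑ l ∈ Finset.range N, χ (σ ^ l) * (ζ ^ (-((j : ℤ) * (l : ℤ))) - 1) =
      ∑ i ∈ Finset.range N, (m i : ℂ) * (∑ l ∈ Finset.range N, ζ ^ (((i : ℤ) - j) * (l : ℤ)) - ∑ l ∈ Finset.range N, ζ ^ ((i : ℤ) * (l : ℤ))) := by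
    simp only [hm, Finset.sum_mul]
    rw [Finset.sum_comm]
    apply Finset.sum_congr rfl
    intro i _
    rw [← Finset.sum_sub_distrib, Finset.mul_sum]
    apply Finset.sum_congr rfl
    intro l _
    have : ζ ^ (((i : ℤ) - j) * (l : ℤ)) = ζ ^ ((i : ℤ) * (l : ℤ)) * ζ ^ (-((j : ℤ) * (l : ℤ))) := by
      rw [← zpow_add₀ h0]; congr 1; ring
    rw [this]; ring
  rw [h1]
  have h2 : ∀ i ∈ Finset.range N, (m i : ℂ) * (∑ l ∈ Finset.range N, ζ ^ (((i : ℤ) - j) * (l : ℤ)) - ∑ l ∈ Finset.range N, ζ ^ ((i : ℤ) * (l : ℤ))) =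
      (if i = j then (N : ℂ) * m i else 0) - (if i = 0 then (N : ℂ) * m i else 0) := by
    intro i hi
    rw [Finset.mem_range] at hi
    rw [gs hN hζ, gs hN hζ]
    have e1 : (N : ℤ) ∣ (i : ℤ) - j ↔ i = j := by
      constructor
      · intro h3
        have h4 : ((i : ℤ) - j) = 0 := Int.eq_zero_of_abs_lt_dvd h3 (by rw [abs_lt]; constructor <;> omega)
        omega
      · rintro rfl; simp
    have e2 : (N : ℤ) ∣ (i : ℤ) ↔ i = 0 := by
      constructor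
      · intro h3
        have h4 : ((i : ℤ)) = 0 := Int.eq_zero_of_abs_lt_dvd h3 (by rw [abs_lt]; constructor <;> omega)
        omega
      · rintro rfl; simp
    simp only [e1, e2]
    split_ifs <;> ring
  rw [Finset.sum_congr rfl h2, Finset.sum_sub_distrib, Finset.sum_ite_eq' , Finset.sum_ite_eq', if_pos (Finset.mem_range.mpr hj),
    if_pos (Finset.mem_range.mpr hN)]
  field_simp

theorem WW_int (hN : 0 < N) (hζ : IsPrimitiveRoot ζ N) (hσ : orderOf σ = N) {χ : G → ℂ} (hχ : IsCharacter G χ) (j : ℕ) :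
    ∃ m : ℤ, j < N → WW N ζ σ χ j = m := by
  obtain ⟨m, hm⟩ := exists_m hN hζ hσ hχ
  exact ⟨m j - m 0, fun hj => by rw [WW_eq hN hζ hm hj]; push_cast; rfl⟩

theorem WW_inv (hN : 0 < N) (hζ : IsPrimitiveRoot ζ N) (hσ : orderOf σ = N) {χ : G → ℂ} (hχ : IsCharacter G χ) {l : ℕ}
    (hl : 0 < l) (hlN : l < N) : χ (σ ^ l) = ∑ j ∈ Finset.range N, WW N ζ σ χ j * ζ ^ ((j : ℤ) * (l : ℤ)) := by
  obtain ⟨m, hm⟩ := exists_m hN hζ hσ hχ
  rw [Finset.sum_congr rfl (g := fun j : ℕ => (m j : ℂ) * ζ ^ ((j : ℤ) * (l : ℤ)) - m 0 * ζ ^ ((j : ℤ) * (l : ℤ))) (by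
    intro j hj
    rw [WW_eq hN hζ hm (Finset.mem_range.mp hj)]; ring)]
  rw [Finset.sum_sub_distrib, ← Finset.mul_sum]
  have h1 : ∑ j ∈ Finset.range N, ζ ^ ((j : ℤ) * (l : ℤ)) = 0 := by
    have h2 := gs hN hζ (l : ℤ)
    rw [if_neg] at h2
    · rw [← h2]; apply Finset.sum_congr rfl; intro j _; congr 1; ring
    · intro h3
      have h4 : ((l : ℤ)) = 0 := Int.eq_zero_of_abs_lt_dvd h3 (by rw [abs_lt]; constructor <;> omega)
      omega
  rw [h1, mul_zero, sub_zero]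
  exact hm l

end Mult

/-! ### block sums -/

section Block

variable {G : Type u} [Group G] [Fintype G] {P : Sylow 2 G} {n : ℕ} {σ s : G} {M : Ideal AlgInt}

instance fact_two : Fact (Nat.Prime 2) := ⟨Nat.prime_two⟩

theorem sum_norm (h : Hyp P n σ s) (hM : IsPModular 2 M) {u : G} (hu : ∃ k : ℕ, orderOf u = 2 ^ k) (hu1 : u ≠ 1) :
    ∑ χ : IrrCharacter G, ind (principalBlock M G) χ * ((χ : G → ℂ) u * conj ((χ : G → ℂ) u)) =
      ((2 ^ (Nat.card (centralizer ({u} : Set G))).factorization 2 : ℕ) : ℂ) := by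
  letI : Fintype (centralizer ({u} : Set G)) := Fintype.ofFinite _
  have hy : ¬ 2 ∣ orderOf (1 : centralizer ({u} : Set G)) := by rw [orderOf_one]; norm_num
  have h1 := principal_sum hM hu hy
  rw [OneMemClass.coe_one, mul_one] at h1
  have h2 := principal_sum_nilpotent hM (h.nilp hu hu1) hy
  rw [← finsum_norm_eq, h1, h2]
  push_cast; rfl

theorem sum_orth (hM : IsPModular 2 M) {u v x y : G} (hu : IsPPart 2 u x) (hv : IsPPart 2 v y) (hxy : ¬ IsConj x y) :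
    ∑ χ : IrrCharacter G, ind (principalBlock M G) χ * ((χ : G → ℂ) u * conj ((χ : G → ℂ) v)) = 0 := by
  rw [sum_ind]
  exact block_orth_conj hM ⟨CfsgLib.Klein.one G, rfl⟩ hu hv hxy

variable (h : Hyp P n σ s)

include h

theorem pow_ppart (l : ℕ) : ∃ k : ℕ, orderOf (σ ^ l) = 2 ^ k := by
  have h1 : orderOf (σ ^ l) ∣ 2 ^ (n - 1) := by
    rw [← h.ord]; exact orderOf_pow_dvd l
  obtain ⟨k, -, hk⟩ := (Nat.dvd_prime_pow Nat.prime_two).mp h1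
  exact ⟨k, hk⟩

theorem pow_ne_one {l : ℕ} (hl : 0 < l) (hlN : l < 2 ^ (n - 1)) : σ ^ l ≠ 1 := by
  intro h1
  have := Nat.le_of_dvd hl (orderOf_dvd_of_pow_eq_one h1)
  rw [h.ord] at this
  omega

theorem pow_inj {l l' : ℕ} (hlN : l < 2 ^ (n - 1)) (hlN' : l' < 2 ^ (n - 1)) (heq : σ ^ l = σ ^ l') : l = l' := by
  rw [pow_inj_mod, h.ord, Nat.mod_eq_of_lt hlN, Nat.mod_eq_of_lt hlN'] at heq
  exact heq

theorem pow_neg_eq {l : ℕ} (hlN : l < 2 ^ (n - 1)) : (σ ^ l)⁻¹ = σ ^ (2 ^ (n - 1) - l) := by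
  rw [inv_eq_iff_mul_eq_one, ← pow_add, Nat.add_sub_cancel' hlN.le, ← h.ord, pow_orderOf_eq_one]

theorem char_inv_eq {χ : G → ℂ} (hχ : IsClassFunction G χ) (l : ℕ) : χ ((σ ^ l)⁻¹) = χ (σ ^ l) := by
  have h1 : s * σ ^ l * s⁻¹ = (σ ^ l)⁻¹ := by
    rw [← conj_pow, h.d.inv, inv_pow]
  rw [← h1, hχ]

/-- the Gram matrix -/
theorem gram (hM : IsPModular 2 M) {l l' : ℕ} (hl : 0 < l) (hlN : l < 2 ^ (n - 1)) (hl' : 0 < l') (hlN' : l' < 2 ^ (n - 1)) :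
    ∑ χ : IrrCharacter G, ind (principalBlock M G) χ * ((χ : G → ℂ) (σ ^ l) * conj ((χ : G → ℂ) (σ ^ l'))) =
      (2 ^ (n - 1) : ℂ) * ((if l' = l then 1 else 0) + (if l' = 2 ^ (n - 1) - l then 1 else 0)) := by
  have hN2 := h.N2
  have hzl : σ ^ l ∈ zpowers σ := pow_mem (mem_zpowers σ) l
  have hzl' : σ ^ l' ∈ zpowers σ := pow_mem (mem_zpowers σ) l'
  by_cases h2 : σ ^ l * σ ^ l = 1
  · -- involution
    have hJ := h.eq_J hzl h2 (pow_ne_one h hl hlN)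
    have hlJ : l = 2 ^ (n - 2) := pow_inj h hlN (by omega) hJ
    by_cases he : l' = l
    · rw [he, if_pos rfl, if_pos (by omega), sum_norm h hM (pow_ppart h l) (pow_ne_one h hl hlN), hlJ, h.fact_J]
      have hn := h.hn
      have e1 : (2 : ℂ) ^ n = 2 ^ (n - 1) * 2 := by rw [← pow_succ]; congr 1; omega
      push_cast
      rw [e1]; ring
    · rw [if_neg he, if_neg (by omega), add_zero, mul_zero]
      apply sum_orth hM (isPPart_self (pow_ppart h l)) (isPPart_self (pow_ppart h l'))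
      intro hc
      obtain ⟨g, hg⟩ := isConj_iff.mp hc
      have h3 : σ ^ l' * σ ^ l' = 1 := by
        rw [← hg]
        have : g * σ ^ l * g⁻¹ * (g * σ ^ l * g⁻¹) = g * (σ ^ l * σ ^ l) * g⁻¹ := by group
        rw [this, h2]; group
      have h4 := h.eq_J hzl' h3 (pow_ne_one h hl' hlN')
      exact he (pow_inj h hlN' hlN (h4.trans hJ.symm))
  · have hne : l ≠ 2 ^ (n - 1) - l := by
      intro h3
      apply h2
      rw [← pow_add]
      have : l + l = orderOf σ := by rw [h.ord]; omega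
      rw [this, pow_orderOf_eq_one]
    by_cases he : l' = l
    · rw [he, if_pos rfl, if_neg hne, sum_norm h hM (pow_ppart h l) (pow_ne_one h hl hlN), h.fact_rot hzl h2]
      push_cast; ring
    · rw [if_neg he]
      by_cases he2 : l' = 2 ^ (n - 1) - l
      · rw [if_pos he2, he2, ← pow_neg_eq h hlN]
        rw [Finset.sum_congr rfl (g := fun χ : IrrCharacter G => ind (principalBlock M G) χ * ((χ : G → ℂ) (σ ^ l) * conj ((χ : G → ℂ) (σ ^ l)))) (by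
          intro χ _
          rw [char_inv_eq h (irr_classFun χ.2)])]
        rw [sum_norm h hM (pow_ppart h l) (pow_ne_one h hl hlN), h.fact_rot hzl h2]
        push_cast; ring
      · rw [if_neg he2, add_zero, mul_zero]
        apply sum_orth hM (isPPart_self (pow_ppart h l)) (isPPart_self (pow_ppart h l'))
        intro hc
        rcases h.rot_conj hzl hzl' h2 hc with h3 | h3
        · exact he (pow_inj h hlN' hlN h3)
        · rw [pow_neg_eq h hlN] at h3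
          exact he2 (pow_inj h hlN' (by omega) h3)

/-- orthogonality to odd elements -/
theorem orth_odd (hM : IsPModular 2 M) {l : ℕ} (hl : 0 < l) (hlN : l < 2 ^ (n - 1)) {ρ : G} (hρ : ¬ 2 ∣ orderOf ρ) :
    ∑ χ : IrrCharacter G, ind (principalBlock M G) χ * ((χ : G → ℂ) (σ ^ l) * conj ((χ : G → ℂ) ρ)) = 0 := by
  apply sum_orth hM (isPPart_self (pow_ppart h l)) (isPPart_one hρ)
  intro hc
  exact pow_ne_one h hl hlN (isConj_one_left.mp hc)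

omit h

section

variable {ζ : ℂ} (hζ : IsPrimitiveRoot ζ (2 ^ (n - 1)))

include hζ h

theorem WW_symm {χ : G → ℂ} (hχ : IsCharacter G χ) {j : ℕ} (hj : 0 < j) (hjN : j < 2 ^ (n - 1)) :
    WW (2 ^ (n - 1)) ζ σ χ (2 ^ (n - 1) - j) = WW (2 ^ (n - 1)) ζ σ χ j := by
  have hN : 0 < 2 ^ (n - 1) := by positivity
  have h0 : ζ ≠ 0 := hζ.ne_zero hN.ne'
  obtain ⟨m, hm⟩ := WW_int hN hζ h.ord hχ j
  have h1 : conj (WW (2 ^ (n - 1)) ζ σ χ j) = WW (2 ^ (n - 1)) ζ σ χ j := by rw [hm hjN]; simp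
  rw [← h1]
  unfold WW
  rw [map_mul, map_sum, map_inv₀]
  have e0 : conj ((2 ^ (n - 1) : ℕ) : ℂ) = ((2 ^ (n - 1) : ℕ) : ℂ) := Complex.conj_natCast _
  rw [e0]
  congr 1
  apply Finset.sum_congr rfl
  intro l _
  rw [map_mul, map_sub, map_one, conj_zpow_root hN hζ, neg_neg]
  have e1 : conj (χ (σ ^ l)) = χ (σ ^ l) := by
    rw [← char_inv_eq_conj hχ]; exact char_inv_eq h (char_classFun hχ) l
  rw [e1]
  congr 2
  rw [Nat.cast_sub hjN.le]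
  have e2 : -((((2 ^ (n - 1) : ℕ) : ℤ) - (j : ℤ)) * (l : ℤ)) = (j : ℤ) * l + ((2 ^ (n - 1) : ℕ) : ℤ) * (-(l : ℤ)) := by ring
  have hz1 : ζ ^ ((2 ^ (n - 1) : ℕ) : ℤ) = 1 := by rw [zpow_natCast, hζ.pow_eq_one]
  rw [e2, zpow_add₀ h0, zpow_mul ζ ((2 ^ (n - 1) : ℕ) : ℤ), hz1, one_zpow, mul_one]

/-- the Gram matrix of the normalized multiplicities -/
theorem gramW (hM : IsPModular 2 M) {j k : ℕ} (hj : 0 < j) (hjN : j < 2 ^ (n - 1)) (hk : 0 < k) (hkN : k < 2 ^ (n - 1)) :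
    ∑ χ : IrrCharacter G, ind (principalBlock M G) χ * (WW (2 ^ (n - 1)) ζ σ (χ : G → ℂ) j * WW (2 ^ (n - 1)) ζ σ (χ : G → ℂ) k) =
      2 + (if j = k then 1 else 0) + (if j + k = 2 ^ (n - 1) then 1 else 0) := by
  have hN : 0 < 2 ^ (n - 1) := by positivity
  have hNc : ((2 ^ (n - 1) : ℕ) : ℂ) ≠ 0 := by exact_mod_cast hN.ne'
  have h0 : ζ ≠ 0 := hζ.ne_zero hN.ne'
  obtain ⟨N, hNd⟩ : ∃ N, N = 2 ^ (n - 1) := ⟨_, rfl⟩
  have hconj : ∀ χ : IrrCharacter G, WW (2 ^ (n - 1)) ζ σ (χ : G → ℂ) k = conj (WW (2 ^ (n - 1)) ζ σ (χ : G → ℂ) k) := by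
    intro χ
    obtain ⟨m, hm⟩ := WW_int hN hζ h.ord (irr_isCharacter χ.2) k
    rw [hm hkN]; simp
  have hin : ∀ l ∈ Finset.range (2 ^ (n - 1)), l ≠ 0 →
      ∑ χ : IrrCharacter G, ind (principalBlock M G) χ * ((χ : G → ℂ) (σ ^ l) * conj (∑ l' ∈ Finset.range (2 ^ (n - 1)),
        (χ : G → ℂ) (σ ^ l') * (ζ ^ (-((k : ℤ) * (l' : ℤ))) - 1))) =
      (2 ^ (n - 1) : ℂ) * (ζ ^ ((k : ℤ) * l) + ζ ^ (-((k : ℤ) * l)) - 2) := by
    intro l hl hl0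
    rw [Finset.mem_range] at hl
    have e1 : ∑ χ : IrrCharacter G, ind (principalBlock M G) χ * ((χ : G → ℂ) (σ ^ l) * conj (∑ l' ∈ Finset.range (2 ^ (n - 1)),
        (χ : G → ℂ) (σ ^ l') * (ζ ^ (-((k : ℤ) * (l' : ℤ))) - 1))) =
        ∑ l' ∈ Finset.range (2 ^ (n - 1)), (ζ ^ ((k : ℤ) * (l' : ℤ)) - 1) * ∑ χ : IrrCharacter G, ind (principalBlock M G) χ *
          ((χ : G → ℂ) (σ ^ l) * conj ((χ : G → ℂ) (σ ^ l'))) := by
      simp only [map_sum, Finset.mul_sum]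
      rw [Finset.sum_comm]
      apply Finset.sum_congr rfl
      intro l' _
      apply Finset.sum_congr rfl
      intro χ _
      rw [map_mul, map_sub, map_one, conj_zpow_root hN hζ, neg_neg]
      ring
    rw [e1]
    have e2 : ∀ l' ∈ Finset.range (2 ^ (n - 1)), (ζ ^ ((k : ℤ) * (l' : ℤ)) - 1) * ∑ χ : IrrCharacter G, ind (principalBlock M G) χ *
          ((χ : G → ℂ) (σ ^ l) * conj ((χ : G → ℂ) (σ ^ l'))) =
        (if l' = l then (2 ^ (n - 1) : ℂ) * (ζ ^ ((k : ℤ) * (l' : ℤ)) - 1) else 0) +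
        (if l' = 2 ^ (n - 1) - l then (2 ^ (n - 1) : ℂ) * (ζ ^ ((k : ℤ) * (l' : ℤ)) - 1) else 0) := by
      intro l' hl'
      rw [Finset.mem_range] at hl'
      by_cases h3 : l' = 0
      · rw [h3]
        simp
      · rw [gram h hM (Nat.pos_of_ne_zero hl0) hl (Nat.pos_of_ne_zero h3) hl']
        split_ifs <;> ring
    rw [Finset.sum_congr rfl e2, Finset.sum_add_distrib, Finset.sum_ite_eq', Finset.sum_ite_eq',
      if_pos (Finset.mem_range.mpr hl), if_pos (Finset.mem_range.mpr (by omega))]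
    have e3 : ζ ^ ((k : ℤ) * ((2 ^ (n - 1) - l : ℕ) : ℤ)) = ζ ^ (-((k : ℤ) * l)) := by
      rw [Nat.cast_sub hl.le]
      have e2 : (k : ℤ) * (((2 ^ (n - 1) : ℕ) : ℤ) - (l : ℤ)) = -((k : ℤ) * l) + ((2 ^ (n - 1) : ℕ) : ℤ) * k := by ring
      have hz1 : ζ ^ ((2 ^ (n - 1) : ℕ) : ℤ) = 1 := by rw [zpow_natCast, hζ.pow_eq_one]
      rw [e2, zpow_add₀ h0, zpow_mul ζ ((2 ^ (n - 1) : ℕ) : ℤ), hz1, one_zpow, mul_one]
    rw [e3]
    ring
  have h1 : ∑ χ : IrrCharacter G, ind (principalBlock M G) χ * (WW (2 ^ (n - 1)) ζ σ (χ : G → ℂ) j * WW (2 ^ (n - 1)) ζ σ (χ : G → ℂ) k) =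
      ((2 ^ (n - 1) : ℕ) : ℂ)⁻¹ * ((2 ^ (n - 1) : ℕ) : ℂ)⁻¹ * ∑ l ∈ Finset.range (2 ^ (n - 1)), (ζ ^ (-((j : ℤ) * (l : ℤ))) - 1) *
        ((2 ^ (n - 1) : ℂ) * (ζ ^ ((k : ℤ) * l) + ζ ^ (-((k : ℤ) * l)) - 2)) := by
    have e1 : ∀ l ∈ Finset.range (2 ^ (n - 1)), (ζ ^ (-((j : ℤ) * (l : ℤ))) - 1) *
        ((2 ^ (n - 1) : ℂ) * (ζ ^ ((k : ℤ) * l) + ζ ^ (-((k : ℤ) * l)) - 2)) =
        (ζ ^ (-((j : ℤ) * (l : ℤ))) - 1) * ∑ χ : IrrCharacter G, ind (principalBlock M G) χ * ((χ : G → ℂ) (σ ^ l) * conj (∑ l' ∈ Finset.range (2 ^ (n - 1)),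
        (χ : G → ℂ) (σ ^ l') * (ζ ^ (-((k : ℤ) * (l' : ℤ))) - 1))) := by
      intro l hl
      by_cases h3 : l = 0
      · rw [h3]; simp
      · rw [hin l hl h3]
    rw [Finset.sum_congr rfl e1]
    simp only [Finset.mul_sum]
    rw [Finset.sum_comm]
    apply Finset.sum_congr rfl
    intro χ _
    rw [hconj χ]
    unfold WW
    rw [map_mul, map_inv₀]
    have e0 : conj ((2 ^ (n - 1) : ℕ) : ℂ) = ((2 ^ (n - 1) : ℕ) : ℂ) := Complex.conj_natCast _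
    rw [e0, Finset.mul_sum, Finset.sum_mul, Finset.mul_sum]
    apply Finset.sum_congr rfl
    intro l _
    ring
  rw [h1]
  have h2 : ∑ l ∈ Finset.range (2 ^ (n - 1)), (ζ ^ (-((j : ℤ) * (l : ℤ))) - 1) *
        ((2 ^ (n - 1) : ℂ) * (ζ ^ ((k : ℤ) * l) + ζ ^ (-((k : ℤ) * l)) - 2)) =
      (2 ^ (n - 1) : ℂ) * (∑ l ∈ Finset.range (2 ^ (n - 1)), ζ ^ (((k : ℤ) - j) * (l : ℤ)) +
        ∑ l ∈ Finset.range (2 ^ (n - 1)), ζ ^ ((-(k : ℤ) - j) * (l : ℤ)) - 2 * ∑ l ∈ Finset.range (2 ^ (n - 1)), ζ ^ ((-(j : ℤ)) * (l : ℤ)) -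
        ∑ l ∈ Finset.range (2 ^ (n - 1)), ζ ^ ((k : ℤ) * (l : ℤ)) - ∑ l ∈ Finset.range (2 ^ (n - 1)), ζ ^ ((-(k : ℤ)) * (l : ℤ)) +
        2 * ∑ l ∈ Finset.range (2 ^ (n - 1)), 1) := by
    rw [Finset.mul_sum (f := fun l : ℕ => ζ ^ ((-(j : ℤ)) * (l : ℤ))), Finset.mul_sum (f := fun _ => (1 : ℂ)), ← Finset.sum_add_distrib, ← Finset.sum_sub_distrib, ← Finset.sum_sub_distrib,
      ← Finset.sum_sub_distrib, ← Finset.sum_add_distrib, Finset.mul_sum]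
    apply Finset.sum_congr rfl
    intro l _
    have e1 : ζ ^ (((k : ℤ) - j) * (l : ℤ)) = ζ ^ ((k : ℤ) * l) * ζ ^ (-((j : ℤ) * (l : ℤ))) := by
      rw [← zpow_add₀ h0]; congr 1; ring
    have e2 : ζ ^ ((-(k : ℤ) - j) * (l : ℤ)) = ζ ^ (-((k : ℤ) * l)) * ζ ^ (-((j : ℤ) * (l : ℤ))) := by
      rw [← zpow_add₀ h0]; congr 1; ring
    have e3 : ζ ^ ((-(j : ℤ)) * (l : ℤ)) = ζ ^ (-((j : ℤ) * (l : ℤ))) := by congr 1; ring
    have e4 : ζ ^ ((-(k : ℤ)) * (l : ℤ)) = ζ ^ (-((k : ℤ) * (l : ℤ))) := by congr 1; ring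
    rw [e1, e2, e3, e4]
    ring
  rw [h2, gs hN hζ, gs hN hζ, gs hN hζ, gs hN hζ, gs hN hζ]
  rw [← hNd] at hjN hkN hNc hN ⊢
  have e1 : (N : ℤ) ∣ (k : ℤ) - j ↔ j = k := by
    constructor
    · intro h3
      have h4 : ((k : ℤ) - j) = 0 := Int.eq_zero_of_abs_lt_dvd h3 (by rw [abs_lt]; constructor <;> omega)
      omega
    · rintro rfl; simp
  have e2 : (N : ℤ) ∣ -(k : ℤ) - j ↔ j + k = N := by
    constructor
    · intro h3
      have h5 : (N : ℤ) ∣ ((j : ℤ) + k) - N := by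
        have h6 := dvd_neg.mpr h3
        have h7 := dvd_sub h6 (dvd_refl (N : ℤ))
        have h8 : -(-(k : ℤ) - j) - N = ((j : ℤ) + k) - N := by ring
        rwa [h8] at h7
      have h4 : ((j : ℤ) + k) - N = 0 := Int.eq_zero_of_abs_lt_dvd h5 (by rw [abs_lt]; constructor <;> omega)
      omega
    · intro h3
      have h4 : -(k : ℤ) - j = -(N : ℤ) := by omega
      rw [h4]; exact (dvd_refl _).neg_right
  have e3 : ¬ (N : ℤ) ∣ -(j : ℤ) := by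
    intro h3
    have h4 : -(j : ℤ) = 0 := Int.eq_zero_of_abs_lt_dvd h3 (by rw [abs_lt]; constructor <;> omega)
    omega
  have e4 : ¬ (N : ℤ) ∣ (k : ℤ) := by
    intro h3
    have h4 : (k : ℤ) = 0 := Int.eq_zero_of_abs_lt_dvd h3 (by rw [abs_lt]; constructor <;> omega)
    omega
  have e5 : ¬ (N : ℤ) ∣ -(k : ℤ) := by
    intro h3
    have h4 : -(k : ℤ) = 0 := Int.eq_zero_of_abs_lt_dvd h3 (by rw [abs_lt]; constructor <;> omega)
    omega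
  rw [if_neg e3, if_neg e4, if_neg e5, Finset.sum_const, Finset.card_range, nsmul_eq_mul, mul_one]
  simp only [e1, e2]
  have e6 : (2 ^ (n - 1) : ℂ) = (N : ℂ) := by rw [hNd]; push_cast; rfl
  rw [e6]
  split_ifs <;> field_simp <;> ring

theorem orthW (hM : IsPModular 2 M) {j : ℕ} (hjN : j < 2 ^ (n - 1)) {ρ : G} (hρ : ¬ 2 ∣ orderOf ρ) :
    ∑ χ : IrrCharacter G, ind (principalBlock M G) χ * (WW (2 ^ (n - 1)) ζ σ (χ : G → ℂ) j * (χ : G → ℂ) ρ) = 0 := by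
  have hN : 0 < 2 ^ (n - 1) := by positivity
  have h1 : ∑ χ : IrrCharacter G, ind (principalBlock M G) χ * (WW (2 ^ (n - 1)) ζ σ (χ : G → ℂ) j * conj ((χ : G → ℂ) ρ)) = 0 := by
    have e1 : ∑ χ : IrrCharacter G, ind (principalBlock M G) χ * (WW (2 ^ (n - 1)) ζ σ (χ : G → ℂ) j * conj ((χ : G → ℂ) ρ)) =
        ((2 ^ (n - 1) : ℕ) : ℂ)⁻¹ * ∑ l ∈ Finset.range (2 ^ (n - 1)), (ζ ^ (-((j : ℤ) * (l : ℤ))) - 1) *
          ∑ χ : IrrCharacter G, ind (principalBlock M G) χ * ((χ : G → ℂ) (σ ^ l) * conj ((χ : G → ℂ) ρ)) := by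
      simp only [Finset.mul_sum]
      rw [Finset.sum_comm]
      apply Finset.sum_congr rfl
      intro χ _
      unfold WW
      rw [Finset.mul_sum, Finset.sum_mul, Finset.mul_sum]
      apply Finset.sum_congr rfl
      intro l _
      ring
    rw [e1, Finset.sum_eq_zero, mul_zero]
    intro l hl
    by_cases h3 : l = 0
    · rw [h3]; simp
    · rw [orth_odd h hM (Nat.pos_of_ne_zero h3) (Finset.mem_range.mp hl) hρ, mul_zero]
  have h2 := congrArg conj h1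
  rw [map_sum, map_zero] at h2
  rw [← h2]
  apply Finset.sum_congr rfl
  intro χ _
  rw [map_mul, map_mul, Complex.conj_conj]
  obtain ⟨m, hm⟩ := WW_int hN hζ h.ord (irr_isCharacter χ.2) j
  rw [hm hjN]
  have e2 : conj (ind (principalBlock M G) χ) = ind (principalBlock M G) χ := by
    by_cases hχ : χ ∈ principalBlock M G
    · rw [ind_of hχ]; simp
    · rw [ind_not hχ]; simp
  rw [e2]
  simp

end

end Block

end CfsgLib.DihBlk20
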