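import Cfsg.Agent.LibDihBlk20b
import Cfsg.Agent.LibCharInt2

set_option autoImplicit false
set_option linter.all false
set_option maxHeartbeats 1000000

/-! # Groups with dihedral Sylow 2-subgroups: the principal block, II (helper20) -/

namespace CfsgLib.DihBlk20

open Cfsg Subgroup CfsgLib.Dih8 CfsgLib.BlockIdem CfsgLib.BlockOrth CfsgLib.BlockSec2
open CfsgLib.Klein (one one_apply)
open scoped ComplexConjugate

universe u

variable {G : Type u} [Group G] [Fintype G] {P : Sylow 2 G} {n : ℕ} {σ s : G} {M : Ideal AlgInt} {ζ : ℂ}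

theorem pair_sum {K : ℕ} (f : ℕ → ℂ) : ∑ j ∈ Finset.range (2 * (K + 1)), f j =
    f 0 + (∑ i ∈ Finset.range K, (f (i + 1) + f (2 * (K + 1) - (i + 1)))) + f (K + 1) := by
  rw [two_mul, Finset.sum_range_add, Finset.sum_range_succ', Finset.sum_range_succ' (fun x => f (K + 1 + x))]
  rw [Finset.sum_add_distrib]
  have : ∑ i ∈ Finset.range K, f (K + 1 + (i + 1)) = ∑ i ∈ Finset.range K, f (K + 1 + (K + 1) - (i + 1)) := by
    rw [← Finset.sum_range_reflect]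
    apply Finset.sum_congr rfl
    intro i hi
    rw [Finset.mem_range] at hi
    congr 1; omega
  rw [this]; simp; ring

theorem WW_zero {χ : G → ℂ} {N : ℕ} : WW N ζ σ χ 0 = 0 := by simp [WW]

theorem WW_one {N : ℕ} (hN : 0 < N) (hζ : IsPrimitiveRoot ζ N) {j : ℕ} (hj : 0 < j) (hjN : j < N) :
    WW N ζ σ (one G : G → ℂ) j = -1 := by
  unfold WW
  simp only [one_apply, one_mul]
  rw [Finset.sum_sub_distrib, Finset.sum_const, Finset.card_range, nsmul_eq_mul, mul_one]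
  have h1 : ∑ l ∈ Finset.range N, ζ ^ (-((j : ℤ) * (l : ℤ))) = 0 := by
    have h2 := gs hN hζ (-(j : ℤ))
    rw [if_neg] at h2
    · rw [← h2]; apply Finset.sum_congr rfl; intro j _; congr 1; ring
    · intro h3
      have h4 : -(j : ℤ) = 0 := Int.eq_zero_of_abs_lt_dvd h3 (by rw [abs_lt]; constructor <;> omega)
      omega
  rw [h1, zero_sub, mul_neg, inv_mul_cancel₀]
  exact_mod_cast hN.ne'

theorem zeta_half {K : ℕ} (hζ : IsPrimitiveRoot ζ (2 * (K + 1))) : ζ ^ (K + 1) = -1 := by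
  have h1 : (ζ ^ (K + 1)) ^ 2 = 1 := by rw [← pow_mul, mul_comm, hζ.pow_eq_one]
  have h2 : ζ ^ (K + 1) ≠ 1 := by
    intro h3
    have := Nat.le_of_dvd (by omega) (hζ.dvd_of_pow_eq_one _ h3)
    omega
  rcases mul_eq_zero.mp (show (ζ ^ (K + 1) - 1) * (ζ ^ (K + 1) + 1) = 0 by linear_combination h1) with h3 | h3
  · exact absurd (sub_eq_zero.mp h3) h2
  · exact eq_neg_of_add_eq_zero_left h3

open Classical in
/-- the configuration -/
structure Conf (M : Ideal AlgInt) (n : ℕ) (σ : G) (ζ : ℂ) (a b c : IrrCharacter G)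
    (y : Fin (2 ^ (n - 2) - 1) → IrrCharacter G) (ε εb εc : ℤ) : Prop where
  hε : ε = 1 ∨ ε = -1
  hεb : εb = 1 ∨ εb = -1
  hεc : εc = 1 ∨ εc = -1
  ao : a ≠ one G
  bo : b ≠ one G
  co : c ≠ one G
  ab : a ≠ b
  ac : a ≠ c
  bc : b ≠ c
  yinj : Function.Injective y
  yo : ∀ j, y j ≠ one G ∧ y j ≠ a ∧ y j ≠ b ∧ y j ≠ c
  aB : a ∈ principalBlock M G
  bB : b ∈ principalBlock M G
  cB : c ∈ principalBlock M G
  yB : ∀ j, y j ∈ principalBlock M G
  W1 : ∀ j : Fin (2 ^ (n - 2) - 1), ∀ χ ∈ principalBlock M G, WW (2 ^ (n - 1)) ζ σ (χ : G → ℂ) ((j : ℕ) + 1) =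
    if χ = one G then -1 else if χ = a then (ε : ℂ) else if χ = y j then -(ε : ℂ) else 0
  W2 : ∀ χ ∈ principalBlock M G, WW (2 ^ (n - 1)) ζ σ (χ : G → ℂ) (2 ^ (n - 2)) =
    if χ = one G then -1 else if χ = a then (ε : ℂ) else if χ = b then (εb : ℂ) else if χ = c then (εc : ℂ) else 0

theorem one_mem (hM : IsPModular 2 M) : one G ∈ principalBlock M G :=
  CfsgLib.BlockIdem.mem_blockOf_self (CfsgLib.BlockR.isPrime_of_modular hM) (one G)

theorem K_cases (hn : 3 ≤ n) : 2 ^ (n - 2) - 1 = 1 ∨ 3 ≤ 2 ^ (n - 2) - 1 := by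
  rcases Nat.eq_or_lt_of_le hn with h | h
  · left; rw [← h]; norm_num
  · right
    have : 2 ^ 2 ≤ 2 ^ (n - 2) := Nat.pow_le_pow_right (by norm_num) (by omega)
    omega

theorem exists_conf (h : Hyp P n σ s) (hM : IsPModular 2 M) (hζ : IsPrimitiveRoot ζ (2 ^ (n - 1))) :
    ∃ (a b c : IrrCharacter G) (y : Fin (2 ^ (n - 2) - 1) → IrrCharacter G) (ε εb εc : ℤ),
      Conf M n σ ζ a b c y ε εb εc := by
  classical
  have hN : 0 < 2 ^ (n - 1) := by positivity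
  have hN2 := h.N2
  have hn := h.hn
  have h2pos : 2 ≤ 2 ^ (n - 2) := by rw [h.M2]; have : 0 < 2 ^ (n - 3) := by positivity
                                     omega
  have hex : ∀ (χ : IrrCharacter G) (j : ℕ), ∃ m : ℤ, j < 2 ^ (n - 1) → WW (2 ^ (n - 1)) ζ σ (χ : G → ℂ) j = m :=
    fun χ j => WW_int hN hζ h.ord (CfsgLib.CharBasic.irr_isCharacter χ.2) j
  choose wz hwz using hex
  obtain ⟨iz, hiz⟩ : ∃ iz : IrrCharacter G → ℤ, ∀ χ, iz χ = if χ ∈ principalBlock M G then 1 else 0 := ⟨_, fun _ => rfl⟩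
  have hizc : ∀ χ, (iz χ : ℂ) = ind (principalBlock M G) χ := by
    intro χ
    rw [hiz]
    split_ifs with h1
    · rw [ind_of h1]; simp
    · rw [ind_not h1]; simp
  have hiz2 : ∀ χ, iz χ * iz χ = iz χ := by
    intro χ; rw [hiz]; split_ifs <;> simp
  have hgram : ∀ j k : ℕ, 0 < j → j < 2 ^ (n - 1) → 0 < k → k < 2 ^ (n - 1) →
      ∑ χ : IrrCharacter G, (iz χ * wz χ j) * (iz χ * wz χ k) = 2 + (if j = k then 1 else 0) + (if j + k = 2 ^ (n - 1) then 1 else 0) := by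
    intro j k hj hjN hk hkN
    have h1 := gramW h hζ hM hj hjN hk hkN
    rw [Finset.sum_congr rfl (g := fun χ : IrrCharacter G => (((iz χ * wz χ j) * (iz χ * wz χ k) : ℤ) : ℂ)) (by
      intro χ _
      rw [← hizc, hwz χ j hjN, hwz χ k hkN, ← Int.cast_mul, ← Int.cast_mul]
      congr 1
      have := hiz2 χ
      linear_combination (-(wz χ j * wz χ k)) * this)] at h1
    rw [← Int.cast_sum] at h1
    have h2 : (2 : ℂ) + (if j = k then 1 else 0) + (if j + k = 2 ^ (n - 1) then 1 else 0) =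
        (((2 : ℤ) + (if j = k then 1 else 0) + (if j + k = 2 ^ (n - 1) then 1 else 0) : ℤ) : ℂ) := by
      split_ifs <;> norm_num
    rw [h2] at h1
    exact_mod_cast h1
  have horth : ∀ j : ℕ, j < 2 ^ (n - 1) → ∑ χ : IrrCharacter G, (charDegree (χ : G → ℂ) : ℤ) * (iz χ * wz χ j) = 0 := by
    intro j hjN
    have h1 := orthW h hζ hM hjN (ρ := 1) (by rw [orderOf_one]; norm_num)
    rw [Finset.sum_congr rfl (g := fun χ : IrrCharacter G => (((charDegree (χ : G → ℂ) : ℤ) * (iz χ * wz χ j) : ℤ) : ℂ)) (by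
      intro χ _
      rw [← hizc, hwz χ j hjN, CfsgLib.CharInt.irr_one_eq_charDegree χ.2]
      push_cast; ring)] at h1
    rw [← Int.cast_sum] at h1
    exact_mod_cast h1
  have hone : ∀ j : ℕ, 0 < j → j < 2 ^ (n - 1) → iz (one G) * wz (one G) j = -1 := by
    intro j hj hjN
    have h1 := hwz (one G) j hjN
    rw [WW_one hN hζ hj hjN] at h1
    rw [hiz, if_pos (one_mem hM), one_mul]
    exact_mod_cast h1.symm
  have hdeg1 : (charDegree (one G : G → ℂ) : ℤ) = 1 := by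
    have h1 := CfsgLib.CharInt.irr_one_eq_charDegree (one G).2
    have h2 : ((one G : IrrCharacter G) : G → ℂ) 1 = 1 := rfl
    rw [h2] at h1
    exact_mod_cast h1.symm
  obtain ⟨a, b, c, y, ε, εb, εc, hε, hεb, hεc, ao, bo, co, ab, ac, bc, yinj, yo, W1, W2⟩ :=
    CfsgLib.DihComb20.comb (one G) (K := 2 ^ (n - 2) - 1) (K_cases hn) (fun i χ => iz χ * wz χ ((i : ℕ) + 1))
      (fun χ => iz χ * wz χ (2 ^ (n - 2))) (fun χ => (charDegree (χ : G → ℂ) : ℤ))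
      (fun χ => by exact_mod_cast CfsgLib.CharInt.irr_charDegree_pos χ.2) hdeg1
      (fun j => hone _ (by omega) (by omega)) (hone _ (by omega) (by omega))
      (fun j => by
        have := hgram ((j : ℕ) + 1) ((j : ℕ) + 1) (by omega) (by omega) (by omega) (by omega)
        rw [if_pos rfl, if_neg (by omega)] at this
        simp only [pow_two]
        rw [this]; norm_num)
      (fun j k hjk => by
        have := hgram ((j : ℕ) + 1) ((k : ℕ) + 1) (by omega) (by omega) (by omega) (by omega)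
        rw [if_neg (by intro h1; apply hjk; ext; omega), if_neg (by omega)] at this
        rw [this]; norm_num)
      (by
        have := hgram (2 ^ (n - 2)) (2 ^ (n - 2)) (by omega) (by omega) (by omega) (by omega)
        rw [if_pos rfl, if_pos (by omega)] at this
        simp only [pow_two]
        rw [this]; norm_num)
      (fun j => by
        have := hgram ((j : ℕ) + 1) (2 ^ (n - 2)) (by omega) (by omega) (by omega) (by omega)
        rw [if_neg (by omega), if_neg (by omega)] at this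
        rw [this]; norm_num)
      (fun j => horth _ (by omega)) (horth _ (by omega))
  have hmem : ∀ (χ : IrrCharacter G) (m : ℤ), iz χ * m ≠ 0 → χ ∈ principalBlock M G := by
    intro χ m h1
    by_contra h2
    apply h1
    rw [hiz, if_neg h2, zero_mul]
  have hε0 : ε ≠ 0 := by rcases hε with h1 | h1 <;> rw [h1] <;> norm_num
  have hεb0 : εb ≠ 0 := by rcases hεb with h1 | h1 <;> rw [h1] <;> norm_num
  have hεc0 : εc ≠ 0 := by rcases hεc with h1 | h1 <;> rw [h1] <;> norm_num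
  refine ⟨a, b, c, y, ε, εb, εc, hε, hεb, hεc, ao, bo, co, ab, ac, bc, yinj, yo, ?_, ?_, ?_, ?_, ?_, ?_⟩
  · apply hmem a (wz a (2 ^ (n - 2)))
    rw [W2 a, if_neg ao, if_pos rfl]; exact hε0
  · apply hmem b (wz b (2 ^ (n - 2)))
    rw [W2 b, if_neg bo, if_neg ab.symm, if_pos rfl]; exact hεb0
  · apply hmem c (wz c (2 ^ (n - 2)))
    rw [W2 c, if_neg co, if_neg ac.symm, if_neg bc.symm, if_pos rfl]; exact hεc0
  · intro j
    apply hmem (y j) (wz (y j) ((j : ℕ) + 1))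
    rw [W1 j (y j), if_neg (yo j).1, if_neg (yo j).2.1, if_pos rfl]; exact neg_ne_zero.mpr hε0
  · intro j χ hχ
    have h1 := W1 j χ
    rw [hiz, if_pos hχ, one_mul] at h1
    rw [hwz χ _ (by omega), h1]
    split_ifs <;> push_cast <;> rfl
  · intro χ hχ
    have h1 := W2 χ
    rw [hiz, if_pos hχ, one_mul] at h1
    rw [hwz χ _ (by omega), h1]
    split_ifs <;> push_cast <;> rfl

/-! ### values -/

theorem val_eq (h : Hyp P n σ s) (hζ : IsPrimitiveRoot ζ (2 ^ (n - 1))) {χ : G → ℂ} (hχ : IsCharacter G χ) {l : ℕ}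
    (hl : 0 < l) (hlN : l < 2 ^ (n - 1)) :
    χ (σ ^ l) = (∑ i : Fin (2 ^ (n - 2) - 1), WW (2 ^ (n - 1)) ζ σ χ ((i : ℕ) + 1) *
      (ζ ^ (((i : ℕ) + 1) * l) + (ζ ^ (((i : ℕ) + 1) * l))⁻¹)) + WW (2 ^ (n - 1)) ζ σ χ (2 ^ (n - 2)) * (-1) ^ l := by
  have hN : 0 < 2 ^ (n - 1) := by positivity
  have h0 : ζ ≠ 0 := hζ.ne_zero hN.ne'
  have hN2 := h.N2
  obtain ⟨K, hK⟩ : ∃ K, K = 2 ^ (n - 2) - 1 := ⟨_, rfl⟩
  have hK1 : 2 ^ (n - 2) = K + 1 := by have : 0 < 2 ^ (n - 2) := by positivity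
                                       omega
  have hNK : 2 ^ (n - 1) = 2 * (K + 1) := by rw [hN2, hK1]
  have h1 := WW_inv hN hζ h.ord hχ hl hlN
  rw [h1]
  have h2 := pair_sum (K := K) (fun j : ℕ => WW (2 ^ (n - 1)) ζ σ χ j * ζ ^ ((j : ℤ) * (l : ℤ)))
  rw [← hNK] at h2
  rw [h2, WW_zero, zero_mul, zero_add, ← hK, hK1]
  congr 1
  · rw [← Fin.sum_univ_eq_sum_range (fun i : ℕ => WW (2 ^ (n - 1)) ζ σ χ (i + 1) * ζ ^ (((i + 1 : ℕ) : ℤ) * (l : ℤ)) +
      WW (2 ^ (n - 1)) ζ σ χ (2 ^ (n - 1) - (i + 1)) * ζ ^ (((2 ^ (n - 1) - (i + 1) : ℕ) : ℤ) * (l : ℤ))) K]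
    apply Finset.sum_congr rfl
    intro i _
    have hi := i.2
    have e0 : ζ ^ ((((i : ℕ) + 1 : ℕ) : ℤ) * (l : ℤ)) = ζ ^ (((i : ℕ) + 1) * l) := by
      rw [← Nat.cast_mul, zpow_natCast]
    have e2 : ζ ^ (((2 ^ (n - 1) - ((i : ℕ) + 1) : ℕ) : ℤ) * (l : ℤ)) = (ζ ^ (((i : ℕ) + 1) * l))⁻¹ := by
      rw [← zpow_natCast ζ (((i : ℕ) + 1) * l), ← zpow_neg]
      have hz1 : ζ ^ ((2 ^ (n - 1) : ℕ) : ℤ) = 1 := by rw [zpow_natCast, hζ.pow_eq_one]
      have e1 : (((2 ^ (n - 1) - ((i : ℕ) + 1) : ℕ) : ℤ) * (l : ℤ)) = ((2 ^ (n - 1) : ℕ) : ℤ) * l + -((((i : ℕ) + 1) * l : ℕ) : ℤ) := by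
        rw [Nat.cast_sub (by omega)]; push_cast; ring
      rw [e1, zpow_add₀ h0, zpow_mul ζ ((2 ^ (n - 1) : ℕ) : ℤ), hz1, one_zpow, one_mul]
    rw [e0, e2, WW_symm h hζ hχ (by omega) (by omega), ← mul_add]
  · congr 1
    rw [← zeta_half (ζ := ζ) (K := K) (by rw [← hNK]; exact hζ), ← Nat.cast_mul, zpow_natCast, pow_mul]

/-- the full sum -/
theorem full_sum (h : Hyp P n σ s) (hζ : IsPrimitiveRoot ζ (2 ^ (n - 1))) {l : ℕ}
    (hl : 0 < l) (hlN : l < 2 ^ (n - 1)) :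
    (∑ i : Fin (2 ^ (n - 2) - 1), (ζ ^ (((i : ℕ) + 1) * l) + (ζ ^ (((i : ℕ) + 1) * l))⁻¹)) + (-1) ^ l = -1 := by
  have hN : 0 < 2 ^ (n - 1) := by positivity
  have hN2 := h.N2
  have h1 := val_eq h hζ (CfsgLib.CharBasic.irr_isCharacter (one G).2) hl hlN
  have h2pos : 0 < 2 ^ (n - 2) := by positivity
  rw [WW_one hN hζ h2pos (by omega)] at h1
  rw [Finset.sum_congr rfl (g := fun i : Fin (2 ^ (n - 2) - 1) => -(ζ ^ (((i : ℕ) + 1) * l) + (ζ ^ (((i : ℕ) + 1) * l))⁻¹)) (by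
    intro i _
    have hi := i.2
    rw [WW_one hN hζ (by omega) (by omega)]; ring)] at h1
  rw [one_apply, Finset.sum_neg_distrib] at h1
  linear_combination h1

section Conf

variable {a b c : IrrCharacter G} {y : Fin (2 ^ (n - 2) - 1) → IrrCharacter G} {ε εb εc : ℤ}

theorem Conf.val_a (C : Conf M n σ ζ a b c y ε εb εc) (h : Hyp P n σ s) (hζ : IsPrimitiveRoot ζ (2 ^ (n - 1))) {l : ℕ}
    (hl : 0 < l) (hlN : l < 2 ^ (n - 1)) : (a : G → ℂ) (σ ^ l) = -(ε : ℂ) := by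
  rw [val_eq h hζ (CfsgLib.CharBasic.irr_isCharacter a.2) hl hlN, C.W2 a C.aB, if_neg C.ao, if_pos rfl]
  rw [Finset.sum_congr rfl (g := fun i : Fin (2 ^ (n - 2) - 1) => (ε : ℂ) * (ζ ^ (((i : ℕ) + 1) * l) + (ζ ^ (((i : ℕ) + 1) * l))⁻¹)) (by
    intro i _
    rw [C.W1 i a C.aB, if_neg C.ao, if_pos rfl])]
  rw [← Finset.mul_sum]
  linear_combination (ε : ℂ) * full_sum h hζ hl hlN

theorem Conf.val_b (C : Conf M n σ ζ a b c y ε εb εc) (h : Hyp P n σ s) (hζ : IsPrimitiveRoot ζ (2 ^ (n - 1))) {l : ℕ}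
    (hl : 0 < l) (hlN : l < 2 ^ (n - 1)) : (b : G → ℂ) (σ ^ l) = (εb : ℂ) * (-1) ^ l := by
  rw [val_eq h hζ (CfsgLib.CharBasic.irr_isCharacter b.2) hl hlN, C.W2 b C.bB, if_neg C.bo, if_neg C.ab.symm, if_pos rfl]
  rw [Finset.sum_eq_zero (fun i _ => by
    rw [C.W1 i b C.bB, if_neg C.bo, if_neg C.ab.symm, if_neg (C.yo i).2.2.1.symm, zero_mul]), zero_add]

theorem Conf.val_c (C : Conf M n σ ζ a b c y ε εb εc) (h : Hyp P n σ s) (hζ : IsPrimitiveRoot ζ (2 ^ (n - 1))) {l : ℕ}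
    (hl : 0 < l) (hlN : l < 2 ^ (n - 1)) : (c : G → ℂ) (σ ^ l) = (εc : ℂ) * (-1) ^ l := by
  rw [val_eq h hζ (CfsgLib.CharBasic.irr_isCharacter c.2) hl hlN, C.W2 c C.cB, if_neg C.co, if_neg C.ac.symm, if_neg C.bc.symm, if_pos rfl]
  rw [Finset.sum_eq_zero (fun i _ => by
    rw [C.W1 i c C.cB, if_neg C.co, if_neg C.ac.symm, if_neg (C.yo i).2.2.2.symm, zero_mul]), zero_add]

theorem Conf.val_y (C : Conf M n σ ζ a b c y ε εb εc) (h : Hyp P n σ s) (hζ : IsPrimitiveRoot ζ (2 ^ (n - 1))) {l : ℕ}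
    (hl : 0 < l) (hlN : l < 2 ^ (n - 1)) (j : Fin (2 ^ (n - 2) - 1)) :
    (y j : G → ℂ) (σ ^ l) = -(ε : ℂ) * (ζ ^ (((j : ℕ) + 1) * l) + (ζ ^ (((j : ℕ) + 1) * l))⁻¹) := by
  rw [val_eq h hζ (CfsgLib.CharBasic.irr_isCharacter (y j).2) hl hlN, C.W2 (y j) (C.yB j), if_neg (C.yo j).1, if_neg (C.yo j).2.1,
    if_neg (C.yo j).2.2.1, if_neg (C.yo j).2.2.2, zero_mul, add_zero]
  rw [Finset.sum_eq_single j]
  · rw [C.W1 j (y j) (C.yB j), if_neg (C.yo j).1, if_neg (C.yo j).2.1, if_pos rfl]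
  · intro i _ hij
    rw [C.W1 i (y j) (C.yB j), if_neg (C.yo j).1, if_neg (C.yo j).2.1, if_neg (fun h1 => hij (C.yinj h1).symm), zero_mul]
  · intro h1; exact absurd (Finset.mem_univ j) h1

theorem Conf.val_other (C : Conf M n σ ζ a b c y ε εb εc) (h : Hyp P n σ s) (hζ : IsPrimitiveRoot ζ (2 ^ (n - 1))) {l : ℕ}
    (hl : 0 < l) (hlN : l < 2 ^ (n - 1)) {χ : IrrCharacter G} (hχ : χ ∈ principalBlock M G) (ho : χ ≠ one G) (ha : χ ≠ a)
    (hb : χ ≠ b) (hc : χ ≠ c) (hy : ∀ j, χ ≠ y j) : (χ : G → ℂ) (σ ^ l) = 0 := by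
  rw [val_eq h hζ (CfsgLib.CharBasic.irr_isCharacter χ.2) hl hlN, C.W2 χ hχ, if_neg ho, if_neg ha, if_neg hb, if_neg hc, zero_mul,
    add_zero]
  apply Finset.sum_eq_zero
  intro i _
  rw [C.W1 i χ hχ, if_neg ho, if_neg ha, if_neg (hy i), zero_mul]

theorem ind_sum {F : IrrCharacter G → ℂ} (hF : ∀ χ ∈ principalBlock M G, F χ = 0) :
    ∑ χ : IrrCharacter G, ind (principalBlock M G) χ * F χ = 0 := by
  apply Finset.sum_eq_zero
  intro χ _
  by_cases h1 : χ ∈ principalBlock M G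
  · rw [hF χ h1, mul_zero]
  · rw [ind_not h1, zero_mul]

/-- the relations on odd elements -/
theorem Conf.odd1 (C : Conf M n σ ζ a b c y ε εb εc) (h : Hyp P n σ s) (hM : IsPModular 2 M) (hζ : IsPrimitiveRoot ζ (2 ^ (n - 1)))
    {ρ : G} (hρ : ¬ 2 ∣ orderOf ρ) (j : Fin (2 ^ (n - 2) - 1)) :
    1 - (ε : ℂ) * (a : G → ℂ) ρ = -(ε : ℂ) * (y j : G → ℂ) ρ := by
  classical
  have hN2 := h.N2
  have hj := j.2
  have h1 := orthW h hζ hM (j := (j : ℕ) + 1) (by omega) hρ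
  have h2 : ∑ χ : IrrCharacter G, ind (principalBlock M G) χ * (WW (2 ^ (n - 1)) ζ σ (χ : G → ℂ) ((j : ℕ) + 1) * (χ : G → ℂ) ρ) =
      ∑ χ ∈ ({one G, a, y j} : Finset (IrrCharacter G)), ind (principalBlock M G) χ * (WW (2 ^ (n - 1)) ζ σ (χ : G → ℂ) ((j : ℕ) + 1) * (χ : G → ℂ) ρ) := by
    symm
    apply Finset.sum_subset (Finset.subset_univ _)
    intro χ _ hχ
    simp only [Finset.mem_insert, Finset.mem_singleton, not_or] at hχ
    by_cases h3 : χ ∈ principalBlock M G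
    · rw [C.W1 j χ h3, if_neg hχ.1, if_neg hχ.2.1, if_neg hχ.2.2, zero_mul, mul_zero]
    · rw [ind_not h3, zero_mul]
  rw [h2, Finset.sum_insert (by simp only [Finset.mem_insert, Finset.mem_singleton, not_or]; exact ⟨C.ao.symm, (C.yo j).1.symm⟩),
    Finset.sum_insert (by simp only [Finset.mem_singleton]; exact (C.yo j).2.1.symm), Finset.sum_singleton,
    ind_of (one_mem hM), ind_of C.aB, ind_of (C.yB j), C.W1 j _ (one_mem hM), C.W1 j _ C.aB, C.W1 j _ (C.yB j),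
    if_pos rfl, if_neg C.ao, if_pos rfl, if_neg (C.yo j).1, if_neg (C.yo j).2.1, if_pos rfl, one_apply] at h1
  linear_combination -h1

theorem Conf.odd2 (C : Conf M n σ ζ a b c y ε εb εc) (h : Hyp P n σ s) (hM : IsPModular 2 M) (hζ : IsPrimitiveRoot ζ (2 ^ (n - 1)))
    {ρ : G} (hρ : ¬ 2 ∣ orderOf ρ) :
    1 - (ε : ℂ) * (a : G → ℂ) ρ = (εb : ℂ) * (b : G → ℂ) ρ + (εc : ℂ) * (c : G → ℂ) ρ := by
  classical
  have hN2 := h.N2
  have h2pos : 0 < 2 ^ (n - 2) := by positivity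
  have h1 := orthW h hζ hM (j := 2 ^ (n - 2)) (by omega) hρ
  have h2 : ∑ χ : IrrCharacter G, ind (principalBlock M G) χ * (WW (2 ^ (n - 1)) ζ σ (χ : G → ℂ) (2 ^ (n - 2)) * (χ : G → ℂ) ρ) =
      ∑ χ ∈ ({one G, a, b, c} : Finset (IrrCharacter G)), ind (principalBlock M G) χ * (WW (2 ^ (n - 1)) ζ σ (χ : G → ℂ) (2 ^ (n - 2)) * (χ : G → ℂ) ρ) := by
    symm
    apply Finset.sum_subset (Finset.subset_univ _)
    intro χ _ hχ
    simp only [Finset.mem_insert, Finset.mem_singleton, not_or] at hχ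
    by_cases h3 : χ ∈ principalBlock M G
    · rw [C.W2 χ h3, if_neg hχ.1, if_neg hχ.2.1, if_neg hχ.2.2.1, if_neg hχ.2.2.2, zero_mul, mul_zero]
    · rw [ind_not h3, zero_mul]
  rw [h2, Finset.sum_insert (by simp only [Finset.mem_insert, Finset.mem_singleton, not_or]; exact ⟨C.ao.symm, C.bo.symm, C.co.symm⟩),
    Finset.sum_insert (by simp only [Finset.mem_insert, Finset.mem_singleton, not_or]; exact ⟨C.ab, C.ac⟩),
    Finset.sum_insert (by simp only [Finset.mem_singleton]; exact C.bc), Finset.sum_singleton,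
    ind_of (one_mem hM), ind_of C.aB, ind_of C.bB, ind_of C.cB, C.W2 _ (one_mem hM), C.W2 _ C.aB, C.W2 _ C.bB, C.W2 _ C.cB,
    if_pos rfl, if_neg C.ao, if_pos rfl, if_neg C.bo, if_neg C.ab.symm, if_pos rfl, if_neg C.co, if_neg C.ac.symm, if_neg C.bc.symm, if_pos rfl,
    one_apply] at h1
  linear_combination -h1

end Conf

end CfsgLib.DihBlk20
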