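import Cfsg.Agent.LibDihBlk20c
import Cfsg.Agent.LibBlockReg
import Cfsg.Agent.LibBlockCov2

set_option autoImplicit false
set_option linter.all false
set_option maxHeartbeats 1000000

/-! # Groups with dihedral Sylow 2-subgroups: completeness of the principal block (helper20) -/

namespace CfsgLib.DihBlk20

open Cfsg Subgroup CfsgLib.Dih8 CfsgLib.BlockIdem CfsgLib.BlockOrth CfsgLib.BlockSec2
open CfsgLib.Klein (one one_apply)
open scoped ComplexConjugate

universe u

variable {G : Type u} [Group G] [Fintype G] {P : Sylow 2 G} {n : ℕ} {σ s : G} {M : Ideal AlgInt} {ζ : ℂ}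

/-- values of characters at involutions -/
theorem inv_val {χ : G → ℂ} (hχ : IsCharacter G χ) {t : G} (ht : t * t = 1) :
    ∃ m : ℤ, χ t = m ∧ ∃ k : ℤ, χ 1 = m + 2 * k := by
  by_cases ht1 : t = 1
  · obtain ⟨m, hm⟩ : ∃ m : ℕ, χ 1 = m := by
      obtain ⟨d, ρ, rfl⟩ := hχ
      exact ⟨d, by rw [Representation.char_one]; simp⟩
    exact ⟨m, by rw [ht1, hm]; push_cast; rfl, 0, by rw [hm]; push_cast; ring⟩
  · have ho : orderOf t = 2 := orderOf_eq_prime (by rw [pow_two]; exact ht) ht1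
    obtain ⟨m, hm⟩ := exists_m (N := 2) (by norm_num) (IsPrimitiveRoot.neg_one (R := ℂ) 0 (by norm_num)) ho hχ
    have h0 := hm 0
    have h1 := hm 1
    rw [Finset.sum_range_succ, Finset.sum_range_succ, Finset.sum_range_zero] at h0 h1
    rw [pow_zero] at h0
    rw [pow_one] at h1
    refine ⟨m 0 - m 1, ?_, m 1, ?_⟩
    · rw [h1]; push_cast; norm_num; ring
    · rw [h0]; push_cast; norm_num; ring

theorem rot_nat (h : Hyp P n σ s) {x : G} (hx : x ∈ zpowers σ) (hx1 : x ≠ 1) : ∃ l : ℕ, 0 < l ∧ l < 2 ^ (n - 1) ∧ x = σ ^ l := by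
  classical
  rw [mem_zpowers_iff_mem_range_orderOf, Finset.mem_image] at hx
  obtain ⟨l, hl, rfl⟩ := hx
  rw [Finset.mem_range, h.ord] at hl
  refine ⟨l, Nat.pos_of_ne_zero (fun h0 => hx1 (by rw [h0, pow_zero])), hl, rfl⟩

section Conf

variable {a b c : IrrCharacter G} {y : Fin (2 ^ (n - 2) - 1) → IrrCharacter G} {ε εb εc : ℤ}

theorem Conf.vanish_ref (C : Conf M n σ ζ a b c y ε εb εc) (h : Hyp P n σ s) (hM : IsPModular 2 M) (hζ : IsPrimitiveRoot ζ (2 ^ (n - 1)))
    {χ : IrrCharacter G} (hχ : χ ∈ principalBlock M G) (ho : χ ≠ one G) (ha : χ ≠ a)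
    (hb : χ ≠ b) (hc : χ ≠ c) (hy : ∀ j, χ ≠ y j) {t : G} (ht : t * t = 1) (ht1 : t ≠ 1) : (χ : G → ℂ) t = 0 := by
  classical
  have h2pos : 0 < 2 ^ (n - 2) := by positivity
  have hN2 := h.N2
  have hJ0 := C.val_other h hζ h2pos (by omega) hχ ho ha hb hc hy
  by_cases hJ : IsConj (σ ^ (2 ^ (n - 2))) t
  · obtain ⟨g, hg⟩ := isConj_iff.mp hJ
    rw [← hg, CfsgLib.CharBasic.irr_classFun χ.2, hJ0]
  · have hfac := h.fact_ref ht ht1 hJ
    have hu : ∃ k : ℕ, orderOf t = 2 ^ k := ⟨1, by rw [pow_one]; exact orderOf_eq_prime (by rw [pow_two]; exact ht) ht1⟩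
    have hsum := sum_norm h hM hu ht1
    have hex : ∀ ψ : IrrCharacter G, ∃ m : ℤ, (ψ : G → ℂ) t = m ∧ ∃ k : ℤ, (ψ : G → ℂ) 1 = m + 2 * k :=
      fun ψ => inv_val (CfsgLib.CharBasic.irr_isCharacter ψ.2) ht
    choose m hm hm2 using hex
    obtain ⟨iz, hiz⟩ : ∃ iz : IrrCharacter G → ℤ, ∀ χ, iz χ = if χ ∈ principalBlock M G then 1 else 0 := ⟨_, fun _ => rfl⟩
    have hizc : ∀ χ, (iz χ : ℂ) = ind (principalBlock M G) χ := by
      intro χ
      rw [hiz]
      split_ifs with h1
      · rw [ind_of h1]; simp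
      · rw [ind_not h1]; simp
    have hsumZ : ∑ ψ : IrrCharacter G, iz ψ * (m ψ) ^ 2 ≤ 4 := by
      rw [Finset.sum_congr rfl (g := fun ψ : IrrCharacter G => ((iz ψ * (m ψ) ^ 2 : ℤ) : ℂ)) (by
        intro ψ _
        rw [hm ψ, ← hizc, map_intCast]
        push_cast
        ring), ← Int.cast_sum] at hsum
      have h1 : ∑ ψ : IrrCharacter G, iz ψ * (m ψ) ^ 2 = ((2 ^ (Nat.card (centralizer ({t} : Set G))).factorization 2 : ℕ) : ℤ) := by
        exact_mod_cast hsum
      rw [h1]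
      have h2 : 2 ^ (Nat.card (centralizer ({t} : Set G))).factorization 2 ≤ 2 ^ 2 := Nat.pow_le_pow_right (by norm_num) hfac
      exact_mod_cast h2
    have hnn : ∀ ψ, 0 ≤ iz ψ * (m ψ) ^ 2 := by
      intro ψ
      rw [hiz]
      split_ifs <;> positivity
    have hsub : ∑ ψ ∈ ({one G, a, b, c, χ} : Finset (IrrCharacter G)), iz ψ * (m ψ) ^ 2 ≤ 4 :=
      (Finset.sum_le_sum_of_subset_of_nonneg (Finset.subset_univ _) (fun ψ _ _ => hnn ψ)).trans hsumZ
    rw [Finset.sum_insert (by simp only [Finset.mem_insert, Finset.mem_singleton, not_or]; exact ⟨C.ao.symm, C.bo.symm, C.co.symm, ho.symm⟩),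
      Finset.sum_insert (by simp only [Finset.mem_insert, Finset.mem_singleton, not_or]; exact ⟨C.ab, C.ac, ha.symm⟩),
      Finset.sum_insert (by simp only [Finset.mem_insert, Finset.mem_singleton, not_or]; exact ⟨C.bc, hb.symm⟩),
      Finset.sum_insert (by simp only [Finset.mem_singleton]; exact hc.symm), Finset.sum_singleton,
      hiz, hiz, hiz, hiz, hiz, if_pos (one_mem hM), if_pos C.aB, if_pos C.bB, if_pos C.cB, if_pos hχ] at hsub
    have hodd : ∀ (ψ : IrrCharacter G) (δ : ℤ), (δ = 1 ∨ δ = -1) → (ψ : G → ℂ) (σ ^ (2 ^ (n - 2))) = δ → 1 ≤ (m ψ) ^ 2 := by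
      intro ψ δ hδ hψ
      obtain ⟨m', hm', k', hk'⟩ := inv_val (CfsgLib.CharBasic.irr_isCharacter ψ.2) h.J_sq
      rw [hψ] at hm'
      have h1 : δ = m' := by exact_mod_cast hm'
      obtain ⟨k, hk⟩ := hm2 ψ
      rw [hk] at hk'
      have h2 : m ψ + 2 * k = m' + 2 * k' := by exact_mod_cast hk'
      have h3 : m ψ ≠ 0 := by
        intro h4
        rcases hδ with h5 | h5 <;> omega
      have := sq_pos_of_ne_zero h3 (R := ℤ)
      omega
    have h1 := hodd (one G) 1 (Or.inl rfl) (by rw [one_apply]; simp)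
    have h2 := hodd a (-ε) (by rcases C.hε with h1 | h1 <;> rw [h1] <;> norm_num) (by rw [C.val_a h hζ h2pos (by omega)]; push_cast; rfl)
    have hM2 := h.M2
    have hpar : ((-1 : ℂ)) ^ (2 ^ (n - 2)) = 1 := by rw [hM2, pow_mul]; simp
    have h3 := hodd b εb C.hεb (by rw [C.val_b h hζ h2pos (by omega), hpar, mul_one])
    have h4 := hodd c εc C.hεc (by rw [C.val_c h hζ h2pos (by omega), hpar, mul_one])
    have h5 : (m χ) ^ 2 = 0 := by
      have := sq_nonneg (m χ)
      omega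
    have h6 : m χ = 0 := by
      exact pow_eq_zero_iff (by norm_num) |>.mp h5
    rw [hm χ, h6]; simp

/-- constancy on sections -/
theorem const_section (h : Hyp P n σ s) (hM : IsPModular 2 M) {χ : IrrCharacter G} (hχ : χ ∈ principalBlock M G) {u v : G}
    (hu : ∃ k : ℕ, orderOf u = 2 ^ k) (hu1 : u ≠ 1) (huv : Commute u v) (hv : ¬ 2 ∣ orderOf v) :
    (χ : G → ℂ) (u * v) = (χ : G → ℂ) u := by
  have hvc : v ∈ centralizer ({u} : Set G) := by
    rw [mem_centralizer_singleton_iff]; exact huv.symm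
  letI : Fintype (centralizer ({u} : Set G)) := Fintype.ofFinite _
  letI : Fintype (pPrimeCore 2 (centralizer ({u} : Set G))) := Fintype.ofFinite _
  have h1 : (⟨v, hvc⟩ : centralizer ({u} : Set G)) ∈ pPrimeCore 2 (centralizer ({u} : Set G)) := by
    apply CfsgLib.BlockCov2.mem_of_reg_of_pindex _ (h.nilp hu hu1)
    rw [← Subgroup.orderOf_coe]
    exact hv
  exact principal_const hM hu h1 hχ

theorem Conf.complete (C : Conf M n σ ζ a b c y ε εb εc) (h : Hyp P n σ s) (hM : IsPModular 2 M) (hζ : IsPrimitiveRoot ζ (2 ^ (n - 1)))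
    {χ : IrrCharacter G} (hχ : χ ∈ principalBlock M G) : χ = one G ∨ χ = a ∨ χ = b ∨ χ = c ∨ ∃ j, χ = y j := by
  by_contra hcon
  push Not at hcon
  obtain ⟨ho, ha, hb, hc, hy⟩ := hcon
  have hvan : ∀ u : G, (∃ k : ℕ, orderOf u = 2 ^ k) → u ≠ 1 → (χ : G → ℂ) u = 0 := by
    intro u hu hu1
    obtain ⟨g, hg⟩ := h.conj_into hu
    have hne : g * u * g⁻¹ ≠ 1 := by
      intro h1
      apply hu1
      have : g⁻¹ * (g * u * g⁻¹) * g = u := by group
      rw [← this, h1]; group
    have h1 : (χ : G → ℂ) (g * u * g⁻¹) = 0 := by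
      by_cases hr : g * u * g⁻¹ ∈ zpowers σ
      · obtain ⟨l, hl, hlN, hle⟩ := rot_nat h hr hne
        rw [hle]
        exact C.val_other h hζ hl hlN hχ ho ha hb hc hy
      · apply C.vanish_ref h hM hζ hχ ho ha hb hc hy _ hne
        by_contra h2
        exact hr (h.rot_of_sq hg h2)
    rw [CfsgLib.CharBasic.irr_classFun χ.2] at h1
    exact h1
  have hvan2 : ∀ x : G, 2 ∣ orderOf x → (χ : G → ℂ) x = 0 := by
    intro x hx
    obtain ⟨u, v, huv, hcm, hu, hv⟩ := isPPart_exists 2 x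
    have hu1 : u ≠ 1 := by
      rintro rfl
      rw [one_mul] at huv
      rw [huv] at hv
      exact hv hx
    rw [← huv, const_section h hM hχ hu hu1 hcm hv]
    exact hvan u hu hu1
  have hdeg := CfsgLib.CharInt.irr_one_eq_charDegree χ.2
  have hdv := CfsgLib.BlockReg.degree_of_vanish (CfsgLib.CharBasic.irr_isCharacter χ.2) hdeg hvan2
  have h8 : (charDegree (χ : G → ℂ)).factorization 2 = (Nat.card G).factorization 2 := by
    apply le_antisymm
    · exact (Nat.factorization_le_iff_dvd (CfsgLib.CharInt.irr_charDegree_pos χ.2).ne'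
        Nat.card_pos.ne').2 (CfsgLib.CharInt2.charDegree_dvd_card χ.2) 2
    · exact (Nat.Prime.pow_dvd_iff_le_factorization Nat.prime_two
        (CfsgLib.CharInt.irr_charDegree_pos χ.2).ne').1 hdv
  have h9 := CfsgLib.BlockReg.defect_zero_block hM (χ := χ) h8
  have h10 : one G ∈ blockOf M (χ : G → ℂ) := CfsgLib.BlockIdem.sameBlock_symm hχ
  rw [h9] at h10
  exact ho h10.symm

theorem Conf.block_eq (C : Conf M n σ ζ a b c y ε εb εc) (h : Hyp P n σ s) (hM : IsPModular 2 M) (hζ : IsPrimitiveRoot ζ (2 ^ (n - 1))) :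
    principalBlock M G = {χ : IrrCharacter G | χ = one G ∨ χ = a ∨ χ = b ∨ χ = c ∨ ∃ j, χ = y j} := by
  ext χ
  constructor
  · exact fun hχ => C.complete h hM hζ hχ
  · rintro (rfl | rfl | rfl | rfl | ⟨j, rfl⟩)
    · exact one_mem hM
    · exact C.aB
    · exact C.bB
    · exact C.cB
    · exact C.yB j

/-- sums over the principal block -/
theorem Conf.sum_block (C : Conf M n σ ζ a b c y ε εb εc) (h : Hyp P n σ s) (hM : IsPModular 2 M) (hζ : IsPrimitiveRoot ζ (2 ^ (n - 1)))
    (F : IrrCharacter G → ℂ) : ∑ χ : IrrCharacter G, ind (principalBlock M G) χ * F χ = F (one G) + F a + F b + F c + ∑ j, F (y j) := by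
  classical
  have h1 : ∑ χ : IrrCharacter G, ind (principalBlock M G) χ * F χ =
      ∑ χ ∈ ({one G, a, b, c} : Finset (IrrCharacter G)) ∪ Finset.univ.image y, F χ := by
    rw [← Finset.sum_subset (Finset.subset_univ (({one G, a, b, c} : Finset (IrrCharacter G)) ∪ Finset.univ.image y))]
    · apply Finset.sum_congr rfl
      intro χ hχ
      rw [ind_of, one_mul]
      rw [C.block_eq h hM hζ]
      simp only [Finset.mem_union, Finset.mem_insert, Finset.mem_singleton, Finset.mem_image, Finset.mem_univ, true_and] at hχ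
      rcases hχ with (h1 | h1 | h1 | h1) | ⟨j, h1⟩
      · exact Or.inl h1
      · exact Or.inr (Or.inl h1)
      · exact Or.inr (Or.inr (Or.inl h1))
      · exact Or.inr (Or.inr (Or.inr (Or.inl h1)))
      · exact Or.inr (Or.inr (Or.inr (Or.inr ⟨j, h1.symm⟩)))
    · intro χ _ hχ
      rw [ind_not, zero_mul]
      intro h2
      apply hχ
      simp only [Finset.mem_union, Finset.mem_insert, Finset.mem_singleton, Finset.mem_image, Finset.mem_univ, true_and]
      rcases C.complete h hM hζ h2 with h1 | h1 | h1 | h1 | ⟨j, h1⟩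
      · exact Or.inl (Or.inl h1)
      · exact Or.inl (Or.inr (Or.inl h1))
      · exact Or.inl (Or.inr (Or.inr (Or.inl h1)))
      · exact Or.inl (Or.inr (Or.inr (Or.inr h1)))
      · exact Or.inr ⟨j, h1.symm⟩
  rw [h1, Finset.sum_union, Finset.sum_image (fun i _ j _ hij => C.yinj hij)]
  · rw [Finset.sum_insert (by simp only [Finset.mem_insert, Finset.mem_singleton, not_or]; exact ⟨C.ao.symm, C.bo.symm, C.co.symm⟩),
      Finset.sum_insert (by simp only [Finset.mem_insert, Finset.mem_singleton, not_or]; exact ⟨C.ab, C.ac⟩),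
      Finset.sum_insert (by simp only [Finset.mem_singleton]; exact C.bc), Finset.sum_singleton]
    ring
  · rw [Finset.disjoint_left]
    intro χ hχ hχ2
    simp only [Finset.mem_insert, Finset.mem_singleton, Finset.mem_image, Finset.mem_univ, true_and] at hχ hχ2
    obtain ⟨j, rfl⟩ := hχ2
    obtain ⟨h1, h2, h3, h4⟩ := C.yo j
    rcases hχ with h5 | h5 | h5 | h5
    · exact h1 h5
    · exact h2 h5
    · exact h3 h5
    · exact h4 h5

theorem Conf.card_block (C : Conf M n σ ζ a b c y ε εb εc) (h : Hyp P n σ s) (hM : IsPModular 2 M) (hζ : IsPrimitiveRoot ζ (2 ^ (n - 1))) :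
    Nat.card (principalBlock M G) = 3 + 2 ^ (n - 2) := by
  classical
  have h2pos : 0 < 2 ^ (n - 2) := by positivity
  have h1 := C.sum_block h hM hζ (fun _ => 1)
  have h2 : ∑ χ : IrrCharacter G, ind (principalBlock M G) χ * (1 : ℂ) = (Nat.card (principalBlock M G) : ℂ) := by
    rw [Nat.card_eq_fintype_card, Fintype.card_subtype, Finset.card_filter]
    push_cast
    apply Finset.sum_congr rfl
    intro χ _
    by_cases h3 : χ ∈ principalBlock M G
    · rw [ind_of h3, if_pos h3, one_mul]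
    · rw [ind_not h3, if_neg h3, zero_mul]
  rw [h2, Finset.sum_const, Finset.card_univ, Fintype.card_fin, nsmul_eq_mul, mul_one] at h1
  have h3 : Nat.card (principalBlock M G) = 1 + 1 + 1 + 1 + (2 ^ (n - 2) - 1) := by exact_mod_cast h1
  omega

end Conf

end CfsgLib.DihBlk20
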