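import Cfsg.Agent.LibDihBlk20d
import Cfsg.Agent.LibClassAlg

set_option autoImplicit false
set_option linter.all false
set_option maxHeartbeats 1000000

/-! # Groups with dihedral Sylow 2-subgroups: the centralizer of the central involution (helper20) -/

namespace CfsgLib.DihBlk20

open Cfsg Subgroup CfsgLib.Dih8 CfsgLib.BlockIdem CfsgLib.BlockOrth CfsgLib.BlockSec2
open CfsgLib.Klein (one one_apply)
open scoped ComplexConjugate

universe u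

variable {G : Type u} [Group G] [Finite G] {P : Sylow 2 G} {n : ℕ} {σ s : G}

theorem Hyp.change (h : Hyp P n σ s) {t : G} (ht : t ∈ (P : Subgroup G)) (htt : t * t = 1) (hinv : t * σ * t⁻¹ = σ⁻¹) :
    Hyp P n σ t := by
  have hnot : t ∉ zpowers σ := by
    intro hm
    obtain ⟨i, rfl⟩ := mem_zpowers_iff.mp hm
    have h1 : σ ^ i * σ * (σ ^ i)⁻¹ = σ := by
      rw [← zpow_neg, ← zpow_add_one, ← zpow_add]
      have : i + 1 + -i = 1 := by ring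
      rw [this, zpow_one]
    rw [h1] at hinv
    have h2 : σ ^ 2 = 1 := by rw [pow_two]; exact eq_inv_iff_mul_eq_one.mp hinv
    have h3 := orderOf_le_of_pow_eq_one (by norm_num) h2
    rw [h.ord] at h3
    have := h.N4
    omega
  obtain ⟨k, hk⟩ := (h.d.all t ht).resolve_left hnot
  refine ⟨h.hn, ⟨h.d.hr, ht, h.d.or, htt, hinv, hnot, ?_⟩, h.iso⟩
  intro x hx
  rcases h.d.all x hx with h1 | ⟨i, hi⟩
  · exact Or.inl h1
  · right
    refine ⟨i - k, ?_⟩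
    rw [hi, hk, ← mul_assoc, ← zpow_add]
    congr 2; ring

/-- the odd core of the centralizer of the central involution -/
def UU (n : ℕ) (σ : G) : Subgroup G :=
  (pPrimeCore 2 (centralizer ({σ ^ (2 ^ (n - 2))} : Set G))).map (centralizer ({σ ^ (2 ^ (n - 2))} : Set G)).subtype

variable (h : Hyp P n σ s)

include h

theorem Hyp.mem_UU {u : G} : u ∈ UU n σ ↔ u ∈ centralizer ({σ ^ (2 ^ (n - 2))} : Set G) ∧ ¬ 2 ∣ orderOf u := by
  letI : Fintype (centralizer ({σ ^ (2 ^ (n - 2))} : Set G)) := Fintype.ofFinite _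
  letI : Fintype (pPrimeCore 2 (centralizer ({σ ^ (2 ^ (n - 2))} : Set G))) := Fintype.ofFinite _
  unfold UU
  rw [mem_map]
  constructor
  · rintro ⟨c, hc, rfl⟩
    refine ⟨c.2, ?_⟩
    rw [coe_subtype, Subgroup.orderOf_coe]
    intro hd
    have h4 := hd.trans (Subgroup.orderOf_dvd_natCard _ hc)
    have h5 := CfsgLib.Cores.pPrimeCore_coprime (G := centralizer ({σ ^ (2 ^ (n - 2))} : Set G)) 2
    rw [Nat.coprime_comm, Nat.Prime.coprime_iff_not_dvd Nat.prime_two] at h5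
    exact h5 h4
  · rintro ⟨h1, h2⟩
    refine ⟨⟨u, h1⟩, ?_, rfl⟩
    apply CfsgLib.BlockCov2.mem_of_reg_of_pindex _ (h.nilp ⟨1, by rw [pow_one]; exact h.J_ord⟩ h.J_ne)
    rw [← Subgroup.orderOf_coe]; exact h2

theorem Hyp.P_le : (P : Subgroup G) ≤ centralizer ({σ ^ (2 ^ (n - 2))} : Set G) := by
  intro x hx
  rw [mem_centralizer_singleton_iff]
  exact h.J_comm hx

theorem Hyp.UU_conj {c u : G} (hc : c ∈ centralizer ({σ ^ (2 ^ (n - 2))} : Set G)) (hu : u ∈ UU n σ) : c * u * c⁻¹ ∈ UU n σ := by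
  rw [h.mem_UU] at hu ⊢
  refine ⟨mul_mem (mul_mem hc hu.1) (inv_mem hc), ?_⟩
  rw [CfsgLib.Invol.orderOf_conj]
  exact hu.2

theorem Hyp.UU_conj' {c u : G} (hc : c ∈ centralizer ({σ ^ (2 ^ (n - 2))} : Set G)) (hu : u ∈ UU n σ) : c⁻¹ * u * c ∈ UU n σ := by
  have := h.UU_conj (inv_mem hc) hu
  rwa [inv_inv] at this

theorem Hyp.P_ppow {p : G} (hp : p ∈ (P : Subgroup G)) : ∃ k : ℕ, orderOf p = 2 ^ k := by
  have h1 : orderOf p ∣ 2 ^ n := by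
    rw [← h.card_P]
    exact Subgroup.orderOf_dvd_natCard _ hp
  obtain ⟨k, -, hk⟩ := (Nat.dvd_prime_pow Nat.prime_two).mp h1
  exact ⟨k, hk⟩

theorem Hyp.P_inter {p : G} (hp : p ∈ (P : Subgroup G)) (hu : p ∈ UU n σ) : p = 1 := by
  obtain ⟨k, hk⟩ := h.P_ppow hp
  have h1 := (h.mem_UU.mp hu).2
  rw [hk] at h1
  rcases Nat.eq_zero_or_pos k with h2 | h2
  · rw [h2, pow_zero, orderOf_eq_one_iff] at hk; exact hk
  · exact absurd (dvd_pow_self 2 h2.ne') h1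

theorem Hyp.P_unique {p q : G} (hp : p ∈ (P : Subgroup G)) (hq : q ∈ (P : Subgroup G)) (hu : p⁻¹ * q ∈ UU n σ) : p = q := by
  have := h.P_inter (mul_mem (inv_mem hp) hq) hu
  exact inv_mul_eq_one.mp this

theorem Hyp.exists_pu {c : G} (hc : c ∈ centralizer ({σ ^ (2 ^ (n - 2))} : Set G)) :
    ∃ p ∈ (P : Subgroup G), p⁻¹ * c ∈ UU n σ := by
  haveI : Fact (Nat.Prime 2) := ⟨Nat.prime_two⟩
  obtain ⟨C, hC⟩ : ∃ C, C = centralizer ({σ ^ (2 ^ (n - 2))} : Set G) := ⟨_, rfl⟩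
  obtain ⟨k, hk⟩ := h.nilp ⟨1, by rw [pow_one]; exact h.J_ord⟩ h.J_ne
  have hPC := h.P_le
  rw [← hC] at hc hk hPC
  obtain ⟨Q, hQ⟩ : ∃ Q : Sylow 2 C, Q = P.subtype hPC := ⟨_, rfl⟩
  have hQm : ∀ w : C, w ∈ Q ↔ (w : G) ∈ P := by
    intro w; rw [hQ]; exact Iff.rfl
  have htop : (Q : Subgroup C) ⊔ pPrimeCore 2 C = ⊤ := by
    rw [← Subgroup.index_eq_one]
    have h1 := Subgroup.index_dvd_of_le (le_sup_left : (Q : Subgroup C) ≤ (Q : Subgroup C) ⊔ pPrimeCore 2 C)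
    have h2 := Subgroup.index_dvd_of_le (le_sup_right : pPrimeCore 2 C ≤ (Q : Subgroup C) ⊔ pPrimeCore 2 C)
    rw [hk] at h2
    obtain ⟨j, -, hj⟩ := (Nat.dvd_prime_pow Nat.prime_two).mp h2
    rw [hj] at h1 ⊢
    rcases Nat.eq_zero_or_pos j with h3 | h3
    · rw [h3, pow_zero]
    · exact absurd ((dvd_pow_self 2 h3.ne').trans h1) Q.not_dvd_index
  have hmem : (⟨c, hc⟩ : C) ∈ (Q : Subgroup C) ⊔ pPrimeCore 2 C := by rw [htop]; exact mem_top _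
  haveI : (pPrimeCore 2 C).Normal := inferInstance
  rw [Subgroup.mem_sup_of_normal_right] at hmem
  obtain ⟨p, hp, u, hu, hpu⟩ := hmem
  refine ⟨p, (hQm p).mp hp, ?_⟩
  have h1 : (p : G)⁻¹ * c = (u : G) := by
    have := congrArg Subtype.val hpu
    rw [Subgroup.coe_mul] at this
    rw [inv_mul_eq_iff_eq_mul]
    exact this.symm
  rw [h1]
  unfold UU
  rw [← hC]
  exact ⟨u, hu, rfl⟩

/-- 2-elements in the coset `w U` are conjugate to `w` -/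
theorem Hyp.two_conj {w u : G} (hw : w ∈ (P : Subgroup G)) (hu : ∃ k : ℕ, orderOf u = 2 ^ k) (hwu : w⁻¹ * u ∈ UU n σ) :
    ∃ o ∈ UU n σ, o * u * o⁻¹ = w := by
  haveI : Fact (Nat.Prime 2) := ⟨Nat.prime_two⟩
  obtain ⟨C, hC⟩ : ∃ C, C = centralizer ({σ ^ (2 ^ (n - 2))} : Set G) := ⟨_, rfl⟩
  have hPC := h.P_le
  have hUC : UU n σ ≤ C := by intro x hx; rw [hC]; exact (h.mem_UU.mp hx).1
  rw [← hC] at hPC
  have huC : u ∈ C := by
    have : u = w * (w⁻¹ * u) := by group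
    rw [this]; exact mul_mem (hPC hw) (hUC hwu)
  obtain ⟨Q, hQ⟩ : ∃ Q : Sylow 2 C, Q = P.subtype hPC := ⟨_, rfl⟩
  have hQm : ∀ w : C, w ∈ Q ↔ (w : G) ∈ P := by
    intro w; rw [hQ]; exact Iff.rfl
  obtain ⟨k, hk⟩ := hu
  have hup : IsPGroup 2 (zpowers (⟨u, huC⟩ : C)) := IsPGroup.of_card (n := k) (by rw [Nat.card_zpowers, ← hk, ← Subgroup.orderOf_coe])
  obtain ⟨S', hS'⟩ := hup.exists_le_sylow
  obtain ⟨g, hg⟩ := MulAction.exists_smul_eq C S' Q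
  have hgP : (g : G) * u * (g : G)⁻¹ ∈ (P : Subgroup G) := by
    have h1 : g * ⟨u, huC⟩ * g⁻¹ ∈ Q := by
      rw [← hg]
      show g * ⟨u, huC⟩ * g⁻¹ ∈ ((g • S' : Sylow 2 C) : Subgroup C)
      rw [Sylow.coe_subgroup_smul]
      exact ⟨_, hS' (mem_zpowers _), rfl⟩
    exact (hQm _).mp h1
  obtain ⟨p, hp, hpo⟩ := h.exists_pu (c := (g : G)) (by rw [← hC]; exact g.2)
  refine ⟨p⁻¹ * g, hpo, ?_⟩
  have h1 : p⁻¹ * (g : G) * u * (p⁻¹ * (g : G))⁻¹ = p⁻¹ * ((g : G) * u * (g : G)⁻¹) * p := by group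
  have h2 : p⁻¹ * (g : G) * u * (p⁻¹ * (g : G))⁻¹ ∈ (P : Subgroup G) := by
    rw [h1]; exact mul_mem (mul_mem (inv_mem hp) hgP) hp
  symm
  apply h.P_unique hw h2
  have h3 : w⁻¹ * (p⁻¹ * (g : G) * u * (p⁻¹ * (g : G))⁻¹) =
      (w⁻¹ * ((p⁻¹ * (g : G)) * (u * (p⁻¹ * (g : G))⁻¹ * u⁻¹)) * w) * (w⁻¹ * u) := by group
  rw [h3]
  apply mul_mem _ hwu
  apply h.UU_conj' (h.P_le hw)
  apply mul_mem hpo
  exact h.UU_conj (by rw [← hC]; exact huC) (inv_mem hpo)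

/-- involutions in the coset `p U` -/
theorem Hyp.card_C : Nat.card (centralizer ({σ ^ (2 ^ (n - 2))} : Set G)) = 2 ^ n * Nat.card (UU n σ) := by
  haveI : Fact (Nat.Prime 2) := ⟨Nat.prime_two⟩
  have h1 := Subgroup.card_mul_index (pPrimeCore 2 (centralizer ({σ ^ (2 ^ (n - 2))} : Set G)))
  rw [CfsgLib.BlockSec2.index_pPrimeCore (h.nilp ⟨1, by rw [pow_one]; exact h.J_ord⟩ h.J_ne), h.fact_J] at h1
  rw [← h1, mul_comm]
  congr 1
  unfold UU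
  exact (Nat.card_congr (Subgroup.equivMapOfInjective _ _ (Subgroup.subtype_injective _)).toEquiv)

end CfsgLib.DihBlk20
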