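import Cfsg.Agent.LibDihLoc20

set_option autoImplicit false
set_option linter.all false
set_option maxHeartbeats 1000000

/-! # Groups with dihedral Sylow 2-subgroups: counting in the centralizer of the central involution (helper20) -/

namespace CfsgLib.DihBlk20

open Cfsg Subgroup CfsgLib.Dih8 CfsgLib.BlockIdem CfsgLib.BlockOrth CfsgLib.BlockSec2
open CfsgLib.Klein (one one_apply)
open scoped ComplexConjugate

universe u

variable {G : Type u} [Group G] [Fintype G] {P : Sylow 2 G} {n : ℕ} {σ s : G}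

/-- fixed points on the odd core -/
noncomputable def kap (n : ℕ) (σ w : G) : ℕ := Nat.card (UU n σ ⊓ centralizer ({w} : Set G) : Subgroup G)

theorem kap_pos (w : G) : 0 < kap n σ w := Nat.card_pos

open Classical in
/-- involutions of a coset -/
noncomputable def Iv (n : ℕ) (σ p : G) : Finset G := Finset.univ.filter (fun x : G => x * x = 1 ∧ p⁻¹ * x ∈ UU n σ)

theorem mem_Iv {p x : G} : x ∈ Iv n σ p ↔ x * x = 1 ∧ p⁻¹ * x ∈ UU n σ := by
  classical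
  unfold Iv
  rw [Finset.mem_filter]; simp

open Classical in
theorem trans_card {w x t₀ : G} (h0 : t₀ ∈ UU n σ) (hx : t₀ * w * t₀⁻¹ = x) :
    (Finset.univ.filter (fun t : G => t ∈ UU n σ ∧ t * w * t⁻¹ = x)).card = kap n σ w := by
  unfold kap
  rw [← Fintype.card_subtype, ← Nat.card_eq_fintype_card]
  refine Nat.card_congr ⟨fun t => ⟨t₀⁻¹ * t.1, ?_⟩, fun c => ⟨t₀ * c.1, ?_⟩, fun t => ?_, fun c => ?_⟩
  · refine mem_inf.mpr ⟨mul_mem (inv_mem h0) t.2.1, mem_centralizer_singleton_iff.mpr ?_⟩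
    have := t.2.2
    calc t₀⁻¹ * t.1 * w = t₀⁻¹ * (t.1 * w * t.1⁻¹) * t.1 := by group
      _ = t₀⁻¹ * (t₀ * w * t₀⁻¹) * t.1 := by rw [this, hx]
      _ = _ := by group
  · obtain ⟨c, hc⟩ := c
    obtain ⟨hc1, hc2⟩ := mem_inf.mp hc
    rw [mem_centralizer_singleton_iff] at hc2
    refine ⟨mul_mem h0 hc1, ?_⟩
    show t₀ * c * w * (t₀ * c)⁻¹ = x
    calc t₀ * c * w * (t₀ * c)⁻¹ = t₀ * (c * w) * c⁻¹ * t₀⁻¹ := by group
      _ = t₀ * (w * c) * c⁻¹ * t₀⁻¹ := by rw [hc2]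
      _ = t₀ * w * t₀⁻¹ := by group
      _ = x := hx
  · apply Subtype.ext; simp
  · apply Subtype.ext; simp

variable (h : Hyp P n σ s)

include h

/-- the number of involutions in a coset -/
theorem Hyp.Iv_kap {p : G} (hp : p ∈ (P : Subgroup G)) (hp2 : p * p = 1) (hp1 : p ≠ 1) : (Iv n σ p).card * kap n σ p = Nat.card (UU n σ) := by
  classical
  obtain ⟨V, hV⟩ : ∃ V, V = Finset.univ.filter (fun v : G => v ∈ UU n σ) := ⟨_, rfl⟩
  have hVc : V.card = Nat.card (UU n σ) := by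
    rw [hV, ← Fintype.card_subtype, ← Nat.card_eq_fintype_card]
  have hpi : p⁻¹ = p := inv_eq_of_mul_eq_one_left hp2
  have hmaps : ∀ v ∈ V, v * p * v⁻¹ ∈ Iv n σ p := by
    intro v hv
    rw [hV, Finset.mem_filter] at hv
    rw [mem_Iv]
    constructor
    · have : v * p * v⁻¹ * (v * p * v⁻¹) = v * (p * p) * v⁻¹ := by group
      rw [this, hp2]; group
    · have : p⁻¹ * (v * p * v⁻¹) = (p⁻¹ * v * p) * v⁻¹ := by group
      rw [this]
      exact mul_mem (h.UU_conj' (h.P_le hp) hv.2) (inv_mem hv.2)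
  rw [← hVc, Finset.card_eq_sum_card_fiberwise (t := Iv n σ p) (f := fun v => v * p * v⁻¹) (fun v hv => hmaps v hv)]
  rw [Finset.sum_congr rfl (g := fun _ => kap n σ p), Finset.sum_const, smul_eq_mul]
  intro x hx
  rw [mem_Iv] at hx
  have hx1 : x ≠ 1 := by
    rintro rfl
    have hx2 := hx.2
    rw [mul_one] at hx2
    have := h.P_inter (inv_mem hp) hx2
    exact hp1 (inv_eq_one.mp this)
  obtain ⟨o, ho, hox⟩ := h.two_conj hp ⟨1, by rw [pow_one]; exact orderOf_eq_prime (by rw [pow_two]; exact hx.1) hx1⟩ hx.2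
  have h1 : o⁻¹ * p * (o⁻¹)⁻¹ = x := by rw [← hox]; group
  rw [← trans_card (inv_mem ho) h1, hV, Finset.filter_filter]

theorem Hyp.Iv_conj {c p : G} (hc : c ∈ centralizer ({σ ^ (2 ^ (n - 2))} : Set G)) : (Iv n σ (c * p * c⁻¹)).card = (Iv n σ p).card := by
  symm
  apply Finset.card_bij (fun x _ => c * x * c⁻¹)
  · intro x hx
    rw [mem_Iv] at hx ⊢
    constructor
    · have : c * x * c⁻¹ * (c * x * c⁻¹) = c * (x * x) * c⁻¹ := by group
      rw [this, hx.1]; group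
    · have : (c * p * c⁻¹)⁻¹ * (c * x * c⁻¹) = c * (p⁻¹ * x) * c⁻¹ := by group
      rw [this]
      exact h.UU_conj hc hx.2
  · intro x _ y _ hxy
    simpa using hxy
  · intro y hy
    refine ⟨c⁻¹ * y * c, ?_, by group⟩
    rw [mem_Iv] at hy ⊢
    constructor
    · have : c⁻¹ * y * c * (c⁻¹ * y * c) = c⁻¹ * (y * y) * c := by group
      rw [this, hy.1]; group
    · have : p⁻¹ * (c⁻¹ * y * c) = c⁻¹ * ((c * p * c⁻¹)⁻¹ * y) * c := by group
      rw [this]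
      exact h.UU_conj' hc hy.2

/-- elements of the coset `w U` -/
theorem Hyp.coset_ppart {w g : G} (hw : w ∈ (P : Subgroup G)) (hg : w⁻¹ * g ∈ UU n σ) :
    ∃ u v : G, u * v = g ∧ Commute u v ∧ (∃ k : ℕ, orderOf u = 2 ^ k) ∧ ¬ 2 ∣ orderOf v ∧ v ∈ UU n σ ∧ w⁻¹ * u ∈ UU n σ ∧
      (∃ o ∈ UU n σ, o * u * o⁻¹ = w) ∧ IsPPart 2 g u := by
  haveI : Fact (Nat.Prime 2) := ⟨Nat.prime_two⟩
  obtain ⟨u, hu⟩ := isPPart_exists 2 g
  obtain ⟨k, hk⟩ := ppart_eq_zpow hu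
  obtain ⟨v, huv, hcm, hu2, hv⟩ := id hu
  have hgC : g ∈ centralizer ({σ ^ (2 ^ (n - 2))} : Set G) := by
    have : g = w * (w⁻¹ * g) := by group
    rw [this]; exact mul_mem (h.P_le hw) (h.mem_UU.mp hg).1
  have huC : u ∈ centralizer ({σ ^ (2 ^ (n - 2))} : Set G) := by rw [hk]; exact zpow_mem hgC k
  have hvC : v ∈ centralizer ({σ ^ (2 ^ (n - 2))} : Set G) := by
    have : v = u⁻¹ * g := by rw [← huv]; group
    rw [this]; exact mul_mem (inv_mem huC) hgC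
  have hvU : v ∈ UU n σ := h.mem_UU.mpr ⟨hvC, hv⟩
  have hwu : w⁻¹ * u ∈ UU n σ := by
    have : w⁻¹ * u = (w⁻¹ * g) * v⁻¹ := by rw [← huv]; group
    rw [this]; exact mul_mem hg (inv_mem hvU)
  exact ⟨u, v, huv, hcm, hu2, hv, hvU, hwu, h.two_conj hw hu2 hwu, hu⟩

/-- pairs of involutions with product in the coset centralize the central involution -/
theorem Hyp.pair_mem {w x y : G} (hw : w ∈ (P : Subgroup G)) (hwJ : σ ^ (2 ^ (n - 2)) ∈ zpowers w) (hx : x * x = 1) (hy : y * y = 1)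
    (hxy : w⁻¹ * (x * y) ∈ UU n σ) : x ∈ centralizer ({σ ^ (2 ^ (n - 2))} : Set G) := by
  obtain ⟨u, v, huv, hcm, hu2, hv, hvU, hwu, ⟨o, ho, hou⟩, hpp⟩ := h.coset_ppart hw hxy
  obtain ⟨k, hk⟩ := ppart_eq_zpow hpp
  obtain ⟨m, hm⟩ := mem_zpowers_iff.mp hwJ
  obtain ⟨J, hJd⟩ : ∃ J, J = σ ^ (2 ^ (n - 2)) := ⟨_, rfl⟩
  have hJ2 := h.J_sq
  have hoJ : o * J = J * o := by
    rw [hJd]; exact mem_centralizer_singleton_iff.mp (h.mem_UU.mp ho).1
  rw [← hJd] at hm hJ2 ⊢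
  have huJ : u ^ m = J := by
    have h1 : o * u ^ m * o⁻¹ = J := by rw [← conj_zpow, hou, hm]
    calc u ^ m = o⁻¹ * (o * u ^ m * o⁻¹) * o := by group
      _ = o⁻¹ * (J * o) := by rw [h1, mul_assoc]
      _ = J := by rw [← hoJ]; group
  have hxi : x⁻¹ = x := inv_eq_of_mul_eq_one_left hx
  have hyi : y⁻¹ = y := inv_eq_of_mul_eq_one_left hy
  have h2 : x * (x * y) * x⁻¹ = (x * y)⁻¹ := by
    rw [mul_inv_rev, hxi, hyi, ← mul_assoc, hx, one_mul]
  have h3 : x * J * x⁻¹ = J⁻¹ := by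
    rw [← huJ, hk, ← zpow_mul, ← conj_zpow, h2, inv_zpow]
  rw [inv_eq_of_mul_eq_one_left hJ2] at h3
  rw [mem_centralizer_singleton_iff]
  exact mul_inv_eq_iff_eq_mul.mp h3

theorem Hyp.sq_one_of {x p : G} (hp : p ∈ (P : Subgroup G)) (hx : x * x = 1) (hpx : p⁻¹ * x ∈ UU n σ) : p * p = 1 := by
  apply h.P_inter (mul_mem hp hp)
  have hxC : x ∈ centralizer ({σ ^ (2 ^ (n - 2))} : Set G) := by
    have : x = p * (p⁻¹ * x) := by group
    rw [this]; exact mul_mem (h.P_le hp) (h.mem_UU.mp hpx).1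
  have h1 : (p * p)⁻¹ = (p⁻¹ * (p⁻¹ * x) * p) * (p⁻¹ * x⁻¹) := by group
  have h2 : (p * p)⁻¹ ∈ UU n σ := by
    have h3 : p⁻¹ * x⁻¹ ∈ UU n σ := by rw [inv_eq_of_mul_eq_one_left hx]; exact hpx
    rw [h1]
    exact mul_mem (h.UU_conj' (h.P_le hp) hpx) h3
  have := inv_mem h2
  rwa [inv_inv] at this

theorem Hyp.Iv_ne_one {x p : G} (hp : p ∈ (P : Subgroup G)) (hp1 : p ≠ 1) (hpx : p⁻¹ * x ∈ UU n σ) : x ≠ 1 := by
  rintro rfl
  rw [mul_one] at hpx
  exact hp1 (inv_eq_one.mp (h.P_inter (inv_mem hp) hpx))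

theorem Hyp.ref_pow {i : ℕ} : σ ^ i * s ∈ (P : Subgroup G) ∧ σ ^ i * s ∉ zpowers σ ∧ σ ^ i * s * (σ ^ i * s) = 1 := by
  refine ⟨mul_mem (pow_mem h.d.hr i) h.d.hs, ?_, ?_⟩
  · intro h1
    apply h.d.not_mem
    have : s = (σ ^ i)⁻¹ * (σ ^ i * s) := by group
    rw [this]
    exact mul_mem (inv_mem (pow_mem (mem_zpowers σ) i)) h1
  · have := h.d.ref_sq (i : ℤ)
    rwa [zpow_natCast] at this

open Classical in
/-- the number of pairs of involutions with product in `w U` -/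
theorem Hyp.pair_count {w : G} (hw : w ∈ zpowers σ) (hw1 : w ≠ 1) (hwJ : σ ^ (2 ^ (n - 2)) ∈ zpowers w)
    (hone : ∀ x : G, IsConj (σ ^ (2 ^ (n - 2))) x ↔ x * x = 1 ∧ x ≠ 1) :
    (Finset.univ.filter (fun p : G × G => IsConj (σ ^ (2 ^ (n - 2))) p.1 ∧ IsConj (σ ^ (2 ^ (n - 2))) p.2 ∧ w⁻¹ * (p.1 * p.2) ∈ UU n σ)).card =
      ∑ i ∈ Finset.range (2 ^ (n - 1)), (Iv n σ (σ ^ i * s)).card * (Iv n σ (σ ^ i * s * w)).card := by
  have hwP : w ∈ (P : Subgroup G) := by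
    obtain ⟨i, rfl⟩ := mem_zpowers_iff.mp hw
    exact zpow_mem h.d.hr i
  have hset : Finset.univ.filter (fun p : G × G => IsConj (σ ^ (2 ^ (n - 2))) p.1 ∧ IsConj (σ ^ (2 ^ (n - 2))) p.2 ∧ w⁻¹ * (p.1 * p.2) ∈ UU n σ) =
      (Finset.range (2 ^ (n - 1))).biUnion (fun i => Iv n σ (σ ^ i * s) ×ˢ Iv n σ (σ ^ i * s * w)) := by
    ext ⟨x, y⟩
    simp only [Finset.mem_filter, Finset.mem_univ, true_and, Finset.mem_biUnion, Finset.mem_product]
    constructor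
    · rintro ⟨h1, h2, h3⟩
      rw [hone] at h1 h2
      have hxC := h.pair_mem hwP hwJ h1.1 h2.1 h3
      obtain ⟨p, hp, hpx⟩ := h.exists_pu hxC
      have hp2 := h.sq_one_of hp h1.1 hpx
      have hpi : p⁻¹ = p := inv_eq_of_mul_eq_one_left hp2
      have hp1 : p ≠ 1 := by
        rintro rfl
        rw [inv_one, one_mul] at hpx
        have := (h.mem_UU.mp hpx).2
        rw [orderOf_eq_prime (by rw [pow_two]; exact h1.1) h1.2] at this
        exact this (dvd_refl 2)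
      have hpw : p * w ∈ (P : Subgroup G) := mul_mem hp hwP
      have hqy : (p * w)⁻¹ * y ∈ UU n σ := by
        have e1 : (p * w)⁻¹ * y = w⁻¹ * (p⁻¹ * (p⁻¹ * x)⁻¹ * p) * w * (w⁻¹ * (p * p)⁻¹ * w) * (w⁻¹ * (x * y)) := by
          group
        rw [e1, hp2]
        apply mul_mem _ h3
        rw [inv_one, mul_one, inv_mul_cancel, mul_one]
        exact h.UU_conj' (h.P_le hwP) (h.UU_conj' (h.P_le hp) (inv_mem hpx))
      have hpw2 := h.sq_one_of hpw h2.1 hqy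
      have hpw1 : p * w ≠ 1 := by
        intro h4
        rw [h4, inv_one, one_mul] at hqy
        have := (h.mem_UU.mp hqy).2
        rw [orderOf_eq_prime (by rw [pow_two]; exact h2.1) h2.2] at this
        exact this (dvd_refl 2)
      have hpn : p ∉ zpowers σ := by
        intro h4
        have h5 := h.eq_J h4 hp2 hp1
        have h6 := h.eq_J (mul_mem h4 hw) hpw2 hpw1
        rw [h5] at h6
        exact hw1 (by simpa using h6)
      obtain ⟨i, hi⟩ := (h.d.all p hp).resolve_left hpn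
      have h7 : σ ^ i ∈ zpowers σ := zpow_mem (mem_zpowers σ) i
      rw [mem_zpowers_iff_mem_range_orderOf, Finset.mem_image] at h7
      obtain ⟨l, hl, hle⟩ := h7
      rw [h.ord] at hl
      rw [← hle] at hi
      refine ⟨l, hl, ?_, ?_⟩
      · rw [mem_Iv, ← hi]; exact ⟨h1.1, hpx⟩
      · rw [mem_Iv, ← hi]; exact ⟨h2.1, hqy⟩
    · rintro ⟨i, hi, h1, h2⟩
      obtain ⟨hp, hpn, hp2⟩ := h.ref_pow (i := i)
      obtain ⟨p, hpd⟩ : ∃ p, p = σ ^ i * s := ⟨_, rfl⟩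
      rw [← hpd] at hp hpn hp2 h1 h2
      rw [mem_Iv] at h1 h2
      have hp1 : p ≠ 1 := by rintro rfl; exact hpn (OneMemClass.one_mem _)
      have hpw1 : p * w ≠ 1 := by
        intro h4
        apply hpn
        rw [eq_inv_of_mul_eq_one_left h4]
        exact inv_mem hw
      rw [hone, hone]
      refine ⟨⟨h1.1, h.Iv_ne_one hp hp1 h1.2⟩, ⟨h2.1, h.Iv_ne_one (mul_mem hp hwP) hpw1 h2.2⟩, ?_⟩
      have e1 : w⁻¹ * (x * y) = w⁻¹ * (p * (p⁻¹ * x) * p⁻¹) * w * (w⁻¹ * (p * p) * w) * ((p * w)⁻¹ * y) := by group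
      rw [e1, hp2]
      apply mul_mem _ h2.2
      rw [mul_one, inv_mul_cancel, mul_one]
      exact h.UU_conj' (h.P_le hwP) (h.UU_conj (h.P_le hp) h1.2)
  rw [hset, Finset.card_biUnion]
  · apply Finset.sum_congr rfl
    intro i _
    rw [Finset.card_product]
  · intro i hi j hj hij
    rw [Function.onFun, Finset.disjoint_left]
    rintro ⟨x, y⟩ h1 h2
    rw [Finset.mem_product, mem_Iv] at h1 h2
    apply hij
    have h3 : (σ ^ i * s)⁻¹ * (σ ^ j * s) ∈ UU n σ := by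
      have : (σ ^ i * s)⁻¹ * (σ ^ j * s) = ((σ ^ i * s)⁻¹ * x) * ((σ ^ j * s)⁻¹ * x)⁻¹ := by group
      rw [this]
      exact mul_mem h1.1.2 (inv_mem h2.1.2)
    have h4 := h.P_unique h.ref_pow.1 h.ref_pow.1 h3
    exact pow_inj h (Finset.mem_range.mp hi) (Finset.mem_range.mp hj) (mul_right_cancel h4)

end CfsgLib.DihBlk20
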