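import Cfsg.Agent.LibDihLoc20b
import Cfsg.Agent.LibBlockSec3

set_option autoImplicit false
set_option linter.all false
set_option maxHeartbeats 1000000

/-! # Groups with dihedral Sylow 2-subgroups: counting in the centralizer of the central involution, II (helper20) -/

namespace CfsgLib.DihBlk20

open Cfsg Subgroup CfsgLib.Dih8 CfsgLib.BlockIdem CfsgLib.BlockOrth CfsgLib.BlockSec2
open CfsgLib.Klein (one one_apply)
open scoped ComplexConjugate

universe u

variable {G : Type u} [Group G] [Fintype G] {P : Sylow 2 G} {n : ℕ} {σ s : G} {M : Ideal AlgInt} {ζ : ℂ}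

theorem half_sum (A B : ℕ) (K : ℕ) : ∑ i ∈ Finset.range (2 * K), (if Even i then A else B) = K * (A + B) := by
  induction K with
  | zero => simp
  | succ K ih =>
    have : 2 * (K + 1) = 2 * K + 1 + 1 := by ring
    rw [this, Finset.sum_range_succ, Finset.sum_range_succ, ih, if_pos (by simp), if_neg (by simp)]
    ring

section
variable (h : Hyp P n σ s)

include h

theorem Hyp.rot_C {i : ℤ} : σ ^ i ∈ centralizer ({σ ^ (2 ^ (n - 2))} : Set G) :=
  h.P_le (zpow_mem h.d.hr i)

theorem Hyp.Iv_par (i : ℤ) : (Iv n σ (σ ^ i * s)).card = if Even i then (Iv n σ s).card else (Iv n σ (σ * s)).card := by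
  have hsi : ∀ j : ℤ, s * (σ ^ j)⁻¹ = σ ^ j * s := by
    intro j
    have h1 := h.d.conj_s (-j)
    rw [neg_neg] at h1
    rw [← zpow_neg]
    exact mul_inv_eq_iff_eq_mul.mp h1
  split_ifs with hi
  · obtain ⟨k, rfl⟩ := hi
    have : σ ^ (k + k) * s = σ ^ k * s * (σ ^ k)⁻¹ := by
      rw [mul_assoc, hsi, ← mul_assoc, ← zpow_add]
    rw [this, h.Iv_conj h.rot_C]
  · rw [Int.not_even_iff_odd] at hi
    obtain ⟨k, rfl⟩ := hi
    have : σ ^ (2 * k + 1) * s = σ ^ k * (σ * s) * (σ ^ k)⁻¹ := by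
      rw [mul_assoc, mul_assoc, hsi, ← mul_assoc, ← mul_assoc, ← zpow_add_one, ← zpow_add]
      congr 2; ring
    rw [this, h.Iv_conj h.rot_C]

theorem Hyp.ref_mul (i : ℕ) (j : ℤ) : σ ^ i * s * σ ^ j = σ ^ ((i : ℤ) - j) * s := by
  have h1 := h.d.conj_s j
  have h2 : s * σ ^ j = σ ^ (-j) * s := mul_inv_eq_iff_eq_mul.mp h1
  rw [mul_assoc, h2, ← mul_assoc, ← zpow_natCast, ← zpow_add, sub_eq_add_neg]

theorem Hyp.sum_sigma : ∑ i ∈ Finset.range (2 ^ (n - 1)), (Iv n σ (σ ^ i * s)).card * (Iv n σ (σ ^ i * s * σ)).card =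
    2 ^ (n - 1) * ((Iv n σ s).card * (Iv n σ (σ * s)).card) := by
  rw [Finset.sum_congr rfl (g := fun _ => (Iv n σ s).card * (Iv n σ (σ * s)).card), Finset.sum_const, smul_eq_mul, Finset.card_range]
  intro i _
  have h1 := h.ref_mul i 1
  rw [zpow_one] at h1
  have h2 := h.Iv_par (i : ℤ)
  rw [zpow_natCast] at h2
  rw [h1, h2, h.Iv_par]
  by_cases hi : Even (i : ℤ)
  · rw [if_pos hi, if_neg (by rw [Int.even_sub_one]; exact not_not.mpr hi)]
  · rw [if_neg hi, if_pos (by rw [Int.even_sub_one]; exact hi), mul_comm]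

theorem Hyp.sum_J : ∑ i ∈ Finset.range (2 ^ (n - 1)), (Iv n σ (σ ^ i * s)).card * (Iv n σ (σ ^ i * s * σ ^ (2 ^ (n - 2)))).card =
    2 ^ (n - 2) * ((Iv n σ s).card ^ 2 + (Iv n σ (σ * s)).card ^ 2) := by
  have hM2 := h.M2
  rw [h.N2, ← half_sum]
  apply Finset.sum_congr rfl
  intro i _
  have h1 := h.ref_mul i ((2 ^ (n - 2) : ℕ) : ℤ)
  rw [zpow_natCast] at h1
  have h2 := h.Iv_par (i : ℤ)
  rw [zpow_natCast] at h2
  rw [h1, h2, h.Iv_par]
  have h3 : Even ((i : ℤ) - ((2 ^ (n - 2) : ℕ) : ℤ)) ↔ Even i := by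
    rw [hM2, Int.even_sub]
    simp
  have h4 : Even (i : ℤ) ↔ Even i := Int.even_coe_nat i
  simp only [h3, h4]
  split_ifs <;> ring

/-- centralizers of Klein four groups containing the central involution -/
theorem Hyp.cent_ref {t : G} (ht : t ∈ (P : Subgroup G)) (htn : t ∉ zpowers σ) (ht2 : t * t = 1) :
    Nat.card (centralizer ({σ ^ (2 ^ (n - 2)), t} : Set G)) = 4 * kap n σ t := by
  classical
  obtain ⟨J, hJd⟩ : ∃ J, J = σ ^ (2 ^ (n - 2)) := ⟨_, rfl⟩
  have hJ2 := h.J_sq
  have hJ1 := h.J_ne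
  have hJP : J ∈ (P : Subgroup G) := by rw [hJd]; exact pow_mem h.d.hr _
  have hJσ : J ∈ zpowers σ := by rw [hJd]; exact pow_mem (mem_zpowers σ) _
  rw [← hJd] at hJ2 hJ1 ⊢
  have htJ : t * J = J * t := by rw [hJd]; exact h.J_comm ht
  have ht1 : t ≠ 1 := by rintro rfl; exact htn (OneMemClass.one_mem _)
  have hti : t⁻¹ = t := inv_eq_of_mul_eq_one_left ht2
  have hJi : J⁻¹ = J := inv_eq_of_mul_eq_one_left hJ2
  have hmemC : ∀ x : G, x ∈ centralizer ({J, t} : Set G) ↔ x * J = J * x ∧ x * t = t * x := by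
    intro x
    rw [mem_centralizer_iff]
    constructor
    · intro hx
      exact ⟨(hx J (by simp)).symm, (hx t (by simp)).symm⟩
    · rintro ⟨h1, h2⟩ y hy
      rcases hy with rfl | hy
      · exact h1.symm
      · rw [Set.mem_singleton_iff] at hy; rw [hy]; exact h2.symm
  have htJ1 : J * t ≠ 1 := fun hh => htn (by rw [eq_inv_of_mul_eq_one_right hh]; exact inv_mem hJσ)
  have htJt : J * t ≠ t := fun hh => hJ1 (by simpa using hh)
  have htJJ : J * t ≠ J := fun hh => ht1 (by simpa using hh)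
  have htJ' : t ≠ J := fun hh => htn (by rw [hh]; exact hJσ)
  obtain ⟨W, hW⟩ : ∃ W : Finset G, W = {1, J, t, J * t} := ⟨_, rfl⟩
  have hWc : W.card = 4 := by
    rw [hW, Finset.card_insert_of_notMem, Finset.card_insert_of_notMem, Finset.card_insert_of_notMem, Finset.card_singleton]
    · simp only [Finset.mem_singleton]; exact htJt.symm
    · simp only [Finset.mem_insert, Finset.mem_singleton, not_or]; exact ⟨htJ'.symm, htJJ.symm⟩
    · simp only [Finset.mem_insert, Finset.mem_singleton, not_or]; exact ⟨hJ1.symm, ht1.symm, htJ1.symm⟩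
  have hWm : ∀ p : G, p ∈ W ↔ p ∈ (P : Subgroup G) ∧ p * t = t * p := by
    intro p
    rw [hW]
    simp only [Finset.mem_insert, Finset.mem_singleton]
    constructor
    · rintro (rfl | rfl | rfl | rfl)
      · exact ⟨OneMemClass.one_mem _, by rw [one_mul, mul_one]⟩
      · exact ⟨hJP, htJ.symm⟩
      · exact ⟨ht, rfl⟩
      · exact ⟨mul_mem hJP ht, by rw [mul_assoc, ← mul_assoc t, htJ, mul_assoc]⟩
    · rintro ⟨hp, hpt⟩
      by_cases hpn : p ∈ zpowers σ
      · have h1 := h.conj_ref ht htn hpn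
        have h2 : p * p = 1 := by
          rw [← hpt, mul_inv_cancel_right] at h1
          nth_rewrite 1 [h1]
          exact inv_mul_cancel p
        by_cases hp1 : p = 1
        · exact Or.inl hp1
        · exact Or.inr (Or.inl (by rw [hJd]; exact h.eq_J hpn h2 hp1))
      · -- `p t` is a rotation
        have hpt' : p * t ∈ zpowers σ := by
          obtain ⟨i, hi⟩ := (h.d.all p hp).resolve_left hpn
          obtain ⟨j, hj⟩ := (h.d.all t ht).resolve_left htn
          have h1 : p * t = σ ^ (i - j) := by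
            rw [hi, hj]
            have h2 := h.d.conj_s j
            have h3 : s * σ ^ j = σ ^ (-j) * s := mul_inv_eq_iff_eq_mul.mp h2
            calc σ ^ i * s * (σ ^ j * s) = σ ^ i * (s * σ ^ j) * s := by group
              _ = σ ^ i * (σ ^ (-j) * s) * s := by rw [h3]
              _ = σ ^ i * σ ^ (-j) * (s * s) := by group
              _ = σ ^ (i - j) := by rw [h.d.ss, mul_one, ← zpow_add, sub_eq_add_neg]
          rw [h1]; exact zpow_mem (mem_zpowers σ) _
        have h4 : p * t * t = t * (p * t) := by rw [← mul_assoc, hpt]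
        have h1 := h.conj_ref ht htn hpt'
        have h2 : (p * t) * (p * t) = 1 := by
          rw [← h4, mul_inv_cancel_right] at h1
          nth_rewrite 1 [h1]
          exact inv_mul_cancel _
        by_cases hp1 : p * t = 1
        · exact Or.inr (Or.inr (Or.inl (by rw [eq_inv_of_mul_eq_one_left hp1, hti])))
        · have h5 := h.eq_J hpt' h2 hp1
          rw [← hJd] at h5
          refine Or.inr (Or.inr (Or.inr ?_))
          rw [← h5, mul_assoc, ht2, mul_one]
  -- the decomposition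
  have hset : Finset.univ.filter (fun x : G => x ∈ centralizer ({J, t} : Set G)) =
      W.biUnion (fun p => Finset.univ.filter (fun x : G => p⁻¹ * x ∈ UU n σ ⊓ centralizer ({t} : Set G))) := by
    ext x
    simp only [Finset.mem_filter, Finset.mem_univ, true_and, Finset.mem_biUnion]
    rw [hmemC]
    constructor
    · rintro ⟨h1, h2⟩
      have hxC : x ∈ centralizer ({σ ^ (2 ^ (n - 2))} : Set G) := by rw [← hJd, mem_centralizer_singleton_iff]; exact h1
      obtain ⟨p, hp, hpx⟩ := h.exists_pu hxC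
      have hpt : p = t * p * t⁻¹ := by
        apply h.P_unique hp (mul_mem (mul_mem ht hp) (inv_mem ht))
        have e1 : p⁻¹ * (t * p * t⁻¹) = (p⁻¹ * x) * (t * (p⁻¹ * x) * t⁻¹)⁻¹ := by
          have e2 : x = t * x * t⁻¹ := by rw [← h2, mul_inv_cancel_right]
          calc p⁻¹ * (t * p * t⁻¹) = p⁻¹ * (t * x * t⁻¹) * (t * x⁻¹ * p * t⁻¹) := by group
            _ = p⁻¹ * x * (t * x⁻¹ * p * t⁻¹) := by rw [← e2]
            _ = _ := by group
        rw [e1]
        exact mul_mem hpx (inv_mem (h.UU_conj (h.P_le ht) hpx))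
      have hpt' : p * t = t * p := by
        calc p * t = t * p * t⁻¹ * t := by rw [← hpt]
          _ = t * p := by group
      refine ⟨p, (hWm p).mpr ⟨hp, hpt'⟩, mem_inf.mpr ⟨hpx, mem_centralizer_singleton_iff.mpr ?_⟩⟩
      calc p⁻¹ * x * t = p⁻¹ * (x * t) := by group
        _ = p⁻¹ * (t * x) := by rw [h2]
        _ = p⁻¹ * (t * p) * (p⁻¹ * x) := by group
        _ = p⁻¹ * (p * t) * (p⁻¹ * x) := by rw [hpt']
        _ = t * (p⁻¹ * x) := by group
    · rintro ⟨p, hp, hpx⟩
      obtain ⟨hpP, hpt⟩ := (hWm p).mp hp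
      obtain ⟨h1, h2⟩ := mem_inf.mp hpx
      rw [mem_centralizer_singleton_iff] at h2
      have h3 : (p⁻¹ * x) * J = J * (p⁻¹ * x) := by
        rw [hJd]; exact mem_centralizer_singleton_iff.mp (h.mem_UU.mp h1).1
      have h4 : p * J = J * p := by rw [hJd]; exact h.J_comm hpP
      constructor
      · calc x * J = p * ((p⁻¹ * x) * J) := by group
          _ = p * (J * (p⁻¹ * x)) := by rw [h3]
          _ = (p * J) * (p⁻¹ * x) := by group
          _ = J * p * (p⁻¹ * x) := by rw [h4]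
          _ = J * x := by group
      · calc x * t = p * ((p⁻¹ * x) * t) := by group
          _ = p * (t * (p⁻¹ * x)) := by rw [h2]
          _ = (p * t) * (p⁻¹ * x) := by group
          _ = t * p * (p⁻¹ * x) := by rw [hpt]
          _ = t * x := by group
  have hcard := congrArg Finset.card hset
  rw [Finset.card_biUnion] at hcard
  · rw [← Fintype.card_subtype, ← Nat.card_eq_fintype_card] at hcard
    have h5 : Nat.card (centralizer ({J, t} : Set G)) = Nat.card {x : G // x ∈ centralizer ({J, t} : Set G)} := rfl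
    rw [h5, hcard, Finset.sum_congr rfl (g := fun _ => kap n σ t), Finset.sum_const, smul_eq_mul, hWc]
    intro p _
    rw [← Fintype.card_subtype, ← Nat.card_eq_fintype_card]
    unfold kap
    refine Nat.card_congr ⟨fun x => ⟨p⁻¹ * x.1, x.2⟩, fun x => ⟨p * x.1, by rw [inv_mul_cancel_left]; exact x.2⟩, fun x => ?_, fun x => ?_⟩
    · apply Subtype.ext; simp
    · apply Subtype.ext; simp
  · intro p hp q hq hpq
    rw [Function.onFun, Finset.disjoint_left]
    intro x h1 h2
    rw [Finset.mem_filter] at h1 h2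
    apply hpq
    apply h.P_unique ((hWm p).mp hp).1 ((hWm q).mp hq).1
    have : p⁻¹ * q = (p⁻¹ * x) * (q⁻¹ * x)⁻¹ := by group
    rw [this]
    exact mul_mem (mem_inf.mp h1.2).1 (inv_mem (mem_inf.mp h2.2).1)

open Classical in
/-- sums over the coset `w U` -/
theorem Hyp.sum_coset {w : G} (hw : w ∈ (P : Subgroup G)) (hwJ : σ ^ (2 ^ (n - 2)) ∈ zpowers w) {f : G → ℂ} (hf : IsClassFunction G f)
    [Fintype (centralizer ({w} : Set G))] :
    (kap n σ w : ℂ) * ∑ g : G, (if w⁻¹ * g ∈ UU n σ then f g else 0) =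
      (Nat.card (UU n σ) : ℂ) * ∑ c : centralizer ({w} : Set G), (if 2 ∣ orderOf c then 0 else f (w * (c : G))) := by
  haveI : Fact (Nat.Prime 2) := ⟨Nat.prime_two⟩
  have h1 : ∑ t : G, (if t ∈ UU n σ then ∑ g : G, (if IsPPart 2 g (t * w * t⁻¹) then f g else 0) else 0) =
      (Nat.card (UU n σ) : ℂ) * ∑ c : centralizer ({w} : Set G), (if 2 ∣ orderOf c then 0 else f (w * (c : G))) := by
    rw [Finset.sum_congr rfl (g := fun t : G => if t ∈ UU n σ then ∑ c : centralizer ({w} : Set G), (if 2 ∣ orderOf c then 0 else f (w * (c : G))) else 0) (by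
      intro t _
      rw [CfsgLib.BlockSec3.sum_section_conj (h.P_ppow hw) hf t])]
    rw [← Finset.sum_filter, Finset.sum_const, nsmul_eq_mul]
    congr 2
    rw [← Fintype.card_subtype, ← Nat.card_eq_fintype_card]
  rw [← h1]
  have h2 : ∀ t : G, (if t ∈ UU n σ then ∑ g : G, (if IsPPart 2 g (t * w * t⁻¹) then f g else 0) else 0) =
      ∑ g : G, (if t ∈ UU n σ ∧ IsPPart 2 g (t * w * t⁻¹) then f g else 0) := by
    intro t
    by_cases ht : t ∈ UU n σ
    · simp only [ht, true_and, if_true]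
    · simp only [ht, false_and, if_false, Finset.sum_const_zero]
  rw [Finset.sum_congr rfl (fun t _ => h2 t), Finset.sum_comm, Finset.mul_sum]
  apply Finset.sum_congr rfl
  intro g _
  rw [← Finset.sum_filter, Finset.sum_const, nsmul_eq_mul]
  by_cases hg : w⁻¹ * g ∈ UU n σ
  · rw [if_pos hg]
    obtain ⟨u, v, huv, hcm, hu2, hv, hvU, hwu, ⟨o, ho, hou⟩, hpp⟩ := h.coset_ppart hw hg
    congr 2
    have h3 : o⁻¹ * w * (o⁻¹)⁻¹ = u := by rw [← hou]; group
    rw [← trans_card (inv_mem ho) h3]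
    congr 1
    ext t
    simp only [Finset.mem_filter, Finset.mem_univ, true_and]
    constructor
    · rintro ⟨h4, h5⟩
      exact ⟨h4, by rw [h5]; exact hpp⟩
    · rintro ⟨h4, h5⟩
      exact ⟨h4, isPPart_unique h5 hpp⟩
  · rw [if_neg hg, mul_zero, Finset.filter_eq_empty_iff.mpr, Finset.card_empty, Nat.cast_zero, zero_mul]
    intro t _
    rintro ⟨ht, v, hv, hcm, -, hodd⟩
    apply hg
    -- `v` centralizes `t w t⁻¹`, hence `J`
    have hvU : v ∈ UU n σ := by
      rw [h.mem_UU]
      refine ⟨?_, hodd⟩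
      obtain ⟨m, hm⟩ := mem_zpowers_iff.mp hwJ
      have h3 : (t * w * t⁻¹) ^ m = σ ^ (2 ^ (n - 2)) := by
        rw [conj_zpow, hm]
        have h4 := mem_centralizer_singleton_iff.mp (h.mem_UU.mp ht).1
        rw [h4, mul_inv_cancel_right]
      rw [mem_centralizer_singleton_iff, ← h3]
      exact (hcm.symm.zpow_right m)
    have h4 : w⁻¹ * g = (w⁻¹ * t * w) * t⁻¹ * v := by rw [← hv]; group
    rw [h4]
    exact mul_mem (mul_mem (h.UU_conj' (h.P_le hw) ht) (inv_mem ht)) hvU

end

end CfsgLib.DihBlk20
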