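import Cfsg.Agent.LibDihLoc20c
import Cfsg.Agent.LibBlockOrth2

set_option autoImplicit false
set_option linter.all false
set_option maxHeartbeats 1000000

/-! # Groups with dihedral Sylow 2-subgroups: the order formula (helper20) -/

namespace CfsgLib.DihBlk20

open Cfsg Subgroup CfsgLib.Dih8 CfsgLib.BlockIdem CfsgLib.BlockOrth CfsgLib.BlockSec2
open CfsgLib.Klein (one one_apply)
open scoped ComplexConjugate

universe u

variable {G : Type u} [Group G] [Fintype G] {P : Sylow 2 G} {n : ℕ} {σ s : G} {M : Ideal AlgInt} {ζ : ℂ}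

theorem conj_classFun {χ : G → ℂ} (hχ : IsClassFunction G χ) : IsClassFunction G (fun g => conj (χ g)) := by
  intro g x
  show conj (χ _) = conj (χ _)
  rw [hχ]

/-- section sums of characters outside the principal block -/
theorem sum_not_block (hM : IsPModular 2 M) {w : G} (hw : ∃ k : ℕ, orderOf w = 2 ^ k) {χ : IrrCharacter G} (hχ : χ ∉ principalBlock M G)
    [Fintype (centralizer ({w} : Set G))] :
    ∑ c : centralizer ({w} : Set G), (if 2 ∣ orderOf c then 0 else conj ((χ : G → ℂ) (w * (c : G)))) = 0 := by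
  classical
  have h1 : ¬ SameBlock M (one G : G → ℂ) (χ : G → ℂ) := hχ
  choose pp hpp using isPPart_exists (G := G) 2
  have h2 := psec_orth hM h1 w (Finset.univ.filter (fun x : G => ∃ x', IsPPart 2 x x' ∧ IsConj w x')) (by
    intro x; simp only [Finset.mem_filter, Finset.mem_univ, true_and])
  have h3 := CfsgLib.BlockSec3.sum_section (x := w) hw (conj_classFun (CfsgLib.CharBasic.irr_classFun χ.2)) pp hpp
  have h4 : ∑ g : G, CfsgLib.CharInt.cInd w (pp g) * conj ((χ : G → ℂ) g) = 0 := by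
    rw [← h2, Finset.sum_filter]
    apply Finset.sum_congr rfl
    intro g _
    by_cases hg : IsConj w (pp g)
    · rw [CfsgLib.CharInt.cInd_of hg, if_pos ⟨_, hpp g, hg⟩, one_apply]
    · rw [CfsgLib.CharInt.cInd_not hg, zero_mul, if_neg]
      rintro ⟨x', hx', hc⟩
      rw [isPPart_unique hx' (hpp g)] at hc
      exact hg hc
  rw [h4, mul_zero] at h3
  have hG : (Nat.card G : ℂ) ≠ 0 := by exact_mod_cast Nat.card_pos.ne'
  exact (mul_eq_zero.mp h3.symm).resolve_left hG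

section
variable (h : Hyp P n σ s)

include h

open Classical in
theorem Hyp.coset_sum (hM : IsPModular 2 M) {w : G} (hw : w ∈ (P : Subgroup G)) (hw1 : w ≠ 1) (hwJ : σ ^ (2 ^ (n - 2)) ∈ zpowers w) (χ : IrrCharacter G) :
    ∑ g : G, (if w⁻¹ * g ∈ UU n σ then conj ((χ : G → ℂ) g) else 0) =
      ind (principalBlock M G) χ * ((Nat.card (UU n σ) : ℂ) * conj ((χ : G → ℂ) w)) := by
  letI : Fintype (centralizer ({w} : Set G)) := Fintype.ofFinite _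
  by_cases hχ : χ ∈ principalBlock M G
  · rw [ind_of hχ, one_mul]
    rw [Finset.sum_congr rfl (g := fun g : G => if w⁻¹ * g ∈ UU n σ then conj ((χ : G → ℂ) w) else 0) (by
      intro g _
      by_cases hg : w⁻¹ * g ∈ UU n σ
      · rw [if_pos hg, if_pos hg]
        obtain ⟨u, v, huv, hcm, hu2, hv, hvU, hwu, ⟨o, ho, hou⟩, hpp⟩ := h.coset_ppart hw hg
        have hu1 : u ≠ 1 := by
          rintro rfl
          apply hw1
          rw [← hou]; group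
        rw [← huv, const_section h hM hχ hu2 hu1 hcm hv, ← hou, CfsgLib.CharBasic.irr_classFun χ.2]
      · rw [if_neg hg, if_neg hg])]
    rw [← Finset.sum_filter, Finset.sum_const, nsmul_eq_mul]
    congr 2
    rw [← Fintype.card_subtype, ← Nat.card_eq_fintype_card]
    refine Nat.card_congr ⟨fun x => ⟨w⁻¹ * x.1, x.2⟩, fun x => ⟨w * x.1, by rw [inv_mul_cancel_left]; exact x.2⟩, fun x => ?_, fun x => ?_⟩
    · apply Subtype.ext; simp
    · apply Subtype.ext; simp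
  · rw [ind_not hχ, zero_mul]
    have h1 := h.sum_coset hw hwJ (conj_classFun (CfsgLib.CharBasic.irr_classFun χ.2))
    rw [sum_not_block hM (h.P_ppow hw) hχ, mul_zero] at h1
    have hk : (kap n σ w : ℂ) ≠ 0 := by exact_mod_cast (kap_pos (n := n) (σ := σ) w).ne'
    exact (mul_eq_zero.mp h1).resolve_left hk

open Classical in
theorem Hyp.block_count (hM : IsPModular 2 M) {w : G} (hw : w ∈ (P : Subgroup G)) (hw1 : w ≠ 1) (hwJ : σ ^ (2 ^ (n - 2)) ∈ zpowers w) :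
    ((Finset.univ.filter (fun p : G × G => IsConj (σ ^ (2 ^ (n - 2))) p.1 ∧ IsConj (σ ^ (2 ^ (n - 2))) p.2 ∧ w⁻¹ * (p.1 * p.2) ∈ UU n σ)).card : ℂ) *
      (Nat.card G : ℂ) = (Nat.card (UU n σ) : ℂ) * ∑ χ : IrrCharacter G, ind (principalBlock M G) χ *
        (centralChar (χ : G → ℂ) (σ ^ (2 ^ (n - 2))) * centralChar (χ : G → ℂ) (σ ^ (2 ^ (n - 2))) * (χ : G → ℂ) 1 * conj ((χ : G → ℂ) w)) := by
  obtain ⟨J, hJ⟩ : ∃ J, J = σ ^ (2 ^ (n - 2)) := ⟨_, rfl⟩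
  have h1 : ((Finset.univ.filter (fun p : G × G => IsConj J p.1 ∧ IsConj J p.2 ∧ w⁻¹ * (p.1 * p.2) ∈ UU n σ)).card : ℂ) =
      ∑ g : G, (if w⁻¹ * g ∈ UU n σ then (Nat.card {p : G × G // IsConj J p.1 ∧ IsConj J p.2 ∧ p.1 * p.2 = g} : ℂ) else 0) := by
    rw [Finset.card_eq_sum_card_fiberwise (t := Finset.univ) (f := fun p : G × G => p.1 * p.2) (fun _ _ => Finset.mem_coe.mpr (Finset.mem_univ _))]
    push_cast
    apply Finset.sum_congr rfl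
    intro g _
    rw [Finset.filter_filter]
    by_cases hg : w⁻¹ * g ∈ UU n σ
    · rw [if_pos hg]
      congr 1
      rw [Nat.card_eq_fintype_card, Fintype.card_subtype]
      congr 1
      ext p
      simp only [Finset.mem_filter, Finset.mem_univ, true_and]
      constructor
      · rintro ⟨⟨h2, h3, -⟩, h5⟩; exact ⟨h2, h3, h5⟩
      · rintro ⟨h2, h3, h5⟩; exact ⟨⟨h2, h3, by rw [h5]; exact hg⟩, h5⟩
    · rw [if_neg hg, Finset.filter_eq_empty_iff.mpr, Finset.card_empty, Nat.cast_zero]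
      intro p _
      rintro ⟨⟨-, -, h4⟩, h5⟩
      rw [h5] at h4
      exact hg h4
  rw [← hJ, h1]
  have h2 : ∀ g : G, (if w⁻¹ * g ∈ UU n σ then (Nat.card {p : G × G // IsConj J p.1 ∧ IsConj J p.2 ∧ p.1 * p.2 = g} : ℂ) else 0) =
      (Nat.card G : ℂ)⁻¹ * ∑ χ : IrrCharacter G, centralChar (χ : G → ℂ) J * centralChar (χ : G → ℂ) J * (χ : G → ℂ) 1 *
        (if w⁻¹ * g ∈ UU n σ then conj ((χ : G → ℂ) g) else 0) := by
    intro g
    by_cases hg : w⁻¹ * g ∈ UU n σ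
    · simp only [if_pos hg]
      rw [CfsgLib.ClassAlg.card_pairs J J g]
    · simp only [if_neg hg, mul_zero, Finset.sum_const_zero]
  rw [Finset.sum_congr rfl (fun g _ => h2 g), ← Finset.mul_sum, Finset.sum_comm]
  have hG : (Nat.card G : ℂ) ≠ 0 := by exact_mod_cast Nat.card_pos.ne'
  rw [mul_comm, ← mul_assoc, mul_inv_cancel₀ hG, one_mul, Finset.mul_sum]
  apply Finset.sum_congr rfl
  intro χ _
  rw [← Finset.mul_sum, h.coset_sum hM hw hw1 (by rw [← hJ] at hwJ ⊢; exact hwJ)]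
  ring

theorem Hyp.one_class (hc : IsConj (σ ^ (2 ^ (n - 2))) s ∧ IsConj (σ ^ (2 ^ (n - 2))) (σ * s)) (x : G) :
    IsConj (σ ^ (2 ^ (n - 2))) x ↔ x * x = 1 ∧ x ≠ 1 := by
  have hsi : ∀ j : ℤ, s * (σ ^ j)⁻¹ = σ ^ j * s := by
    intro j
    have h1 := h.d.conj_s (-j)
    rw [neg_neg] at h1
    rw [← zpow_neg]
    exact mul_inv_eq_iff_eq_mul.mp h1
  constructor
  · intro hx
    obtain ⟨g, rfl⟩ := isConj_iff.mp hx
    have hJ2 := h.J_sq
    have hJ1 := h.J_ne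
    obtain ⟨J, hJ⟩ : ∃ J, J = σ ^ (2 ^ (n - 2)) := ⟨_, rfl⟩
    rw [← hJ] at hJ1 hJ2 ⊢
    constructor
    · have : g * J * g⁻¹ * (g * J * g⁻¹) = g * (J * J) * g⁻¹ := by group
      rw [this, hJ2]; group
    · intro h1
      apply hJ1
      have : J = g⁻¹ * (g * J * g⁻¹) * g := by group
      rw [this, h1]; group
  · rintro ⟨hx, hx1⟩
    obtain ⟨g, hg⟩ := h.conj_into ⟨1, by rw [pow_one]; exact orderOf_eq_prime (by rw [pow_two]; exact hx) hx1⟩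
    have hgx : IsConj (g * x * g⁻¹) x := (isConj_iff.mpr ⟨g, rfl⟩ : IsConj x (g * x * g⁻¹)).symm
    refine IsConj.trans ?_ hgx
    have h2 : g * x * g⁻¹ * (g * x * g⁻¹) = 1 := by
      have : g * x * g⁻¹ * (g * x * g⁻¹) = g * (x * x) * g⁻¹ := by group
      rw [this, hx]; group
    have h3 : g * x * g⁻¹ ≠ 1 := by
      intro h1
      apply hx1
      have : x = g⁻¹ * (g * x * g⁻¹) * g := by group
      rw [this, h1]; group
    rcases h.d.all _ hg with h4 | ⟨i, hi⟩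
    · rw [h.eq_J h4 h2 h3]
    · rw [hi]
      rcases Int.even_or_odd i with ⟨k, hk⟩ | ⟨k, hk⟩
      · have : σ ^ i * s = σ ^ k * s * (σ ^ k)⁻¹ := by
          rw [hk, mul_assoc, hsi, ← mul_assoc, ← zpow_add]
        rw [this]
        exact hc.1.trans (isConj_iff.mpr ⟨σ ^ k, rfl⟩)
      · have : σ ^ i * s = σ ^ k * (σ * s) * (σ ^ k)⁻¹ := by
          rw [hk, mul_assoc, mul_assoc, hsi, ← mul_assoc, ← mul_assoc, ← zpow_add_one, ← zpow_add]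
          congr 2; ring
        rw [this]
        exact hc.2.trans (isConj_iff.mpr ⟨σ ^ k, rfl⟩)

/-- the class counting formula -/
theorem Hyp.count_formula (hM : IsPModular 2 M) (hc : IsConj (σ ^ (2 ^ (n - 2))) s ∧ IsConj (σ ^ (2 ^ (n - 2))) (σ * s)) :
    (Nat.card G : ℂ) * ∑ χ : IrrCharacter G, ind (principalBlock M G) χ *
      ((χ : G → ℂ) (σ ^ (2 ^ (n - 2))) ^ 2 * ((χ : G → ℂ) (σ ^ (2 ^ (n - 2))) + (χ : G → ℂ) σ) / (χ : G → ℂ) 1) =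
      4 * (Nat.card (centralizer ({σ ^ (2 ^ (n - 2))} : Set G)) : ℂ) ^ 3 *
        (1 / (Nat.card (centralizer ({σ ^ (2 ^ (n - 2)), s} : Set G)) : ℂ) + 1 / (Nat.card (centralizer ({σ ^ (2 ^ (n - 2)), σ * s} : Set G)) : ℂ)) ^ 2 := by
  classical
  have hn := h.hn
  have h2pos : 0 < 2 ^ (n - 2) := by positivity
  have hN2 := h.N2
  have hσ1 : σ ≠ 1 := by
    have := pow_ne_one h (l := 1) (by norm_num) (by omega)
    rwa [pow_one] at this
  have hJs : σ ^ (2 ^ (n - 2)) ∈ zpowers σ := pow_mem (mem_zpowers σ) _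
  have hJP : σ ^ (2 ^ (n - 2)) ∈ (P : Subgroup G) := pow_mem h.d.hr _
  have b1 := h.block_count hM hJP h.J_ne (mem_zpowers _)
  have b2 := h.block_count hM h.d.hr hσ1 hJs
  have hone := h.one_class hc
  rw [h.pair_count hJs h.J_ne (mem_zpowers _) hone, h.sum_J] at b1
  rw [h.pair_count (mem_zpowers σ) hσ1 hJs hone, h.sum_sigma] at b2
  have hreal : ∀ (χ : IrrCharacter G) (l : ℕ), conj ((χ : G → ℂ) (σ ^ l)) = (χ : G → ℂ) (σ ^ l) := by
    intro χ l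
    rw [← CfsgLib.CharBasic.char_inv_eq_conj (CfsgLib.CharBasic.irr_isCharacter χ.2)]
    exact char_inv_eq h (CfsgLib.CharBasic.irr_classFun χ.2) l
  have hreal1 : ∀ (χ : IrrCharacter G), conj ((χ : G → ℂ) σ) = (χ : G → ℂ) σ := by
    intro χ
    have := hreal χ 1
    rwa [pow_one] at this
  obtain ⟨J, hJ⟩ : ∃ J, J = σ ^ (2 ^ (n - 2)) := ⟨_, rfl⟩
  have hsum : ∑ χ : IrrCharacter G, ind (principalBlock M G) χ *
        (centralChar (χ : G → ℂ) J * centralChar (χ : G → ℂ) J * (χ : G → ℂ) 1 * conj ((χ : G → ℂ) J)) +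
      ∑ χ : IrrCharacter G, ind (principalBlock M G) χ *
        (centralChar (χ : G → ℂ) J * centralChar (χ : G → ℂ) J * (χ : G → ℂ) 1 * conj ((χ : G → ℂ) σ)) =
      ((centralizer ({J} : Set G)).index : ℂ) ^ 2 * ∑ χ : IrrCharacter G, ind (principalBlock M G) χ *
      ((χ : G → ℂ) J ^ 2 * ((χ : G → ℂ) J + (χ : G → ℂ) σ) / (χ : G → ℂ) 1) := by
    rw [← Finset.sum_add_distrib, Finset.mul_sum]
    refine Finset.sum_congr rfl fun χ _ => ?_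
    have hχ : (χ : G → ℂ) 1 ≠ 0 := CfsgLib.CharInt.irr_one_ne_zero χ.2
    have e1 : conj ((χ : G → ℂ) J) = (χ : G → ℂ) J := by rw [hJ]; exact hreal χ _
    rw [e1, hreal1 χ]
    unfold centralChar
    field_simp
  have hka := h.Iv_kap h.d.hs h.d.ss (by rintro h1; exact h.d.not_mem (by rw [h1]; exact OneMemClass.one_mem _))
  have hrp := h.ref_pow (i := 1)
  rw [pow_one] at hrp
  have hkb := h.Iv_kap hrp.1 hrp.2.2 (by rintro h1; exact hrp.2.1 (by rw [h1]; exact OneMemClass.one_mem _))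
  have hca := h.cent_ref h.d.hs h.d.not_mem h.d.ss
  have hcb := h.cent_ref hrp.1 hrp.2.1 hrp.2.2
  have hcC := h.card_C
  have hidx : (Nat.card (centralizer ({J} : Set G)) : ℂ) * ((centralizer ({J} : Set G)).index : ℂ) = Nat.card G := by
    rw [← Nat.cast_mul, Subgroup.card_mul_index]
  rw [← hJ] at b1 b2 hca hcb hcC ⊢
  rw [hca, hcb]
  have b3 : ((2 ^ (n - 2) * ((Iv n σ s).card ^ 2 + (Iv n σ (σ * s)).card ^ 2) : ℕ) : ℂ) * (Nat.card G : ℂ) +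
      ((2 ^ (n - 1) * ((Iv n σ s).card * (Iv n σ (σ * s)).card) : ℕ) : ℂ) * (Nat.card G : ℂ) =
      (Nat.card (UU n σ) : ℂ) * (((centralizer ({J} : Set G)).index : ℂ) ^ 2 * ∑ χ : IrrCharacter G, ind (principalBlock M G) χ *
      ((χ : G → ℂ) J ^ 2 * ((χ : G → ℂ) J + (χ : G → ℂ) σ) / (χ : G → ℂ) 1)) := by
    rw [b1, b2, ← mul_add, hsum]
  have hGpos : (Nat.card G : ℂ) ≠ 0 := by exact_mod_cast Nat.card_pos.ne'
  have hU0 : (Nat.card (UU n σ) : ℂ) ≠ 0 := by exact_mod_cast Nat.card_pos.ne'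
  have hk0 : (kap n σ s : ℂ) ≠ 0 := by exact_mod_cast (kap_pos (n := n) (σ := σ) s).ne'
  have hk1 : (kap n σ (σ * s) : ℂ) ≠ 0 := by exact_mod_cast (kap_pos (n := n) (σ := σ) (σ * s)).ne'
  have hkac : ((Iv n σ s).card : ℂ) = (Nat.card (UU n σ) : ℂ) / (kap n σ s : ℂ) := by
    rw [eq_div_iff hk0]; exact_mod_cast hka
  have hkbc : ((Iv n σ (σ * s)).card : ℂ) = (Nat.card (UU n σ) : ℂ) / (kap n σ (σ * s) : ℂ) := by
    rw [eq_div_iff hk1]; exact_mod_cast hkb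
  obtain ⟨S, hS⟩ : ∃ S : ℂ, S = ∑ χ : IrrCharacter G, ind (principalBlock M G) χ *
      ((χ : G → ℂ) J ^ 2 * ((χ : G → ℂ) J + (χ : G → ℂ) σ) / (χ : G → ℂ) 1) := ⟨_, rfl⟩
  rw [← hS] at b3 ⊢
  rw [hcC]
  rw [hcC] at hidx
  push_cast at b3 hidx ⊢
  rw [hkac, hkbc] at b3
  obtain ⟨m, hm⟩ : ∃ m, n = m + 2 := ⟨n - 2, by omega⟩
  have e1 : (2 : ℂ) ^ (n - 2) = 2 ^ m := by rw [hm]; rfl
  have e2 : (2 : ℂ) ^ (n - 1) = 2 * 2 ^ m := by
    have : n - 1 = m + 1 := by omega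
    rw [this, pow_succ]; ring
  have e3 : (2 : ℂ) ^ n = 4 * 2 ^ m := by rw [hm, pow_add]; ring
  rw [e1, e2] at b3
  rw [e3] at hidx ⊢
  have hm0 : (2 : ℂ) ^ m ≠ 0 := pow_ne_zero _ two_ne_zero
  obtain ⟨t, ht⟩ : ∃ t : ℂ, t = 2 ^ m := ⟨_, rfl⟩
  obtain ⟨g, hg⟩ : ∃ g : ℂ, g = (Nat.card G : ℂ) := ⟨_, rfl⟩
  obtain ⟨U, hU⟩ : ∃ U : ℂ, U = (Nat.card (UU n σ) : ℂ) := ⟨_, rfl⟩
  obtain ⟨ka, hka'⟩ : ∃ ka : ℂ, ka = (kap n σ s : ℂ) := ⟨_, rfl⟩
  obtain ⟨kb, hkb'⟩ : ∃ kb : ℂ, kb = (kap n σ (σ * s) : ℂ) := ⟨_, rfl⟩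
  obtain ⟨I, hI⟩ : ∃ I : ℂ, I = ((centralizer ({J} : Set G)).index : ℂ) := ⟨_, rfl⟩
  rw [← ht] at b3 hidx hm0 ⊢
  rw [← hg] at b3 hidx hGpos ⊢
  rw [← hU] at b3 hidx hU0 ⊢
  rw [← hka'] at b3 hk0 ⊢
  rw [← hkb'] at b3 hk1 ⊢
  rw [← hI] at b3 hidx
  -- b3 : t((U/ka)²+(U/kb)²) g + 2t (U/ka)(U/kb) g = U (I² S), hidx : 4 t U I = g
  have hI0 : I ≠ 0 := by
    rintro rfl
    rw [mul_zero] at hidx
    exact hGpos hidx.symm
  have h6 : U * I ^ 2 * S = t * g * (U / ka + U / kb) ^ 2 := by linear_combination -b3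
  have h7 : I * S = 4 * t ^ 2 * (U / ka + U / kb) ^ 2 := by
    have h8 : U * I * (I * S) = U * I * (4 * t ^ 2 * (U / ka + U / kb) ^ 2) := by
      rw [← hidx] at h6
      linear_combination h6
    exact mul_left_cancel₀ (mul_ne_zero hU0 hI0) h8
  calc g * S = 4 * t * U * (I * S) := by rw [← hidx]; ring
    _ = 4 * t * U * (4 * t ^ 2 * (U / ka + U / kb) ^ 2) := by rw [h7]
    _ = 4 * (4 * t * U) ^ 3 * (1 / (4 * ka) + 1 / (4 * kb)) ^ 2 := by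
      field_simp

end

section Conf

variable {a b c : IrrCharacter G} {y : Fin (2 ^ (n - 2) - 1) → IrrCharacter G} {ε εb εc : ℤ}

theorem Conf.value (C : Conf M n σ ζ a b c y ε εb εc) (h : Hyp P n σ s) (hM : IsPModular 2 M) (hζ : IsPrimitiveRoot ζ (2 ^ (n - 1))) :
    (a : G → ℂ) 1 - ε ≠ 0 ∧ (a : G → ℂ) 1 * ((a : G → ℂ) 1 - ε) * ∑ χ : IrrCharacter G, ind (principalBlock M G) χ *
      ((χ : G → ℂ) (σ ^ (2 ^ (n - 2))) ^ 2 * ((χ : G → ℂ) (σ ^ (2 ^ (n - 2))) + (χ : G → ℂ) σ) / (χ : G → ℂ) 1) =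
      2 * ((a : G → ℂ) 1 + ε) ^ 2 := by
  have hN2 := h.N2
  have hM2 := h.M2
  have h2pos : 0 < 2 ^ (n - 2) := by positivity
  have hpar : ((-1 : ℂ)) ^ (2 ^ (n - 2)) = 1 := by rw [hM2, pow_mul]; simp
  have hε2 : (ε : ℂ) * ε = 1 := by rcases C.hε with h1 | h1 <;> rw [h1] <;> norm_num
  have hεb2 : (εb : ℂ) * εb = 1 := by rcases C.hεb with h1 | h1 <;> rw [h1] <;> norm_num
  have hεc2 : (εc : ℂ) * εc = 1 := by rcases C.hεc with h1 | h1 <;> rw [h1] <;> norm_num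
  have ha0 : (a : G → ℂ) 1 ≠ 0 := CfsgLib.CharInt.irr_one_ne_zero a.2
  have hb0 : (b : G → ℂ) 1 ≠ 0 := CfsgLib.CharInt.irr_one_ne_zero b.2
  have hc0 : (c : G → ℂ) 1 ≠ 0 := CfsgLib.CharInt.irr_one_ne_zero c.2
  have hy : ∀ j, (y j : G → ℂ) 1 = (a : G → ℂ) 1 - ε := by
    intro j
    have h1 := C.odd1 h hM hζ (ρ := 1) (by rw [orderOf_one]; norm_num) j
    linear_combination (ε : ℂ) * h1 + ((a : G → ℂ) 1 - (y j : G → ℂ) 1) * hε2
  have hKpos : 0 < 2 ^ (n - 2) - 1 := by rcases K_cases h.hn with h1 | h1 <;> omega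
  have hd0 : (a : G → ℂ) 1 - ε ≠ 0 := by
    rw [← hy ⟨0, hKpos⟩]
    exact CfsgLib.CharInt.irr_one_ne_zero (y _).2
  refine ⟨hd0, ?_⟩
  rw [C.sum_block h hM hζ]
  have vσ : ∀ χ : IrrCharacter G, (χ : G → ℂ) σ = (χ : G → ℂ) (σ ^ 1) := fun χ => by rw [pow_one]
  have f1 := full_sum h hζ (l := 1) (by norm_num) (by omega)
  have f2 := full_sum h hζ (l := 2 ^ (n - 2)) h2pos (by omega)
  rw [hpar] at f2
  rw [pow_one] at f1
  have hysum : ∑ j, (y j : G → ℂ) (σ ^ (2 ^ (n - 2))) ^ 2 * ((y j : G → ℂ) (σ ^ (2 ^ (n - 2))) + (y j : G → ℂ) σ) / (y j : G → ℂ) 1 =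
      8 * ε / ((a : G → ℂ) 1 - ε) := by
    have hterm : ∀ j, (y j : G → ℂ) (σ ^ (2 ^ (n - 2))) ^ 2 * ((y j : G → ℂ) (σ ^ (2 ^ (n - 2))) + (y j : G → ℂ) σ) / (y j : G → ℂ) 1 =
        (-4 * ε / ((a : G → ℂ) 1 - ε)) * ((ζ ^ (((j : ℕ) + 1) * 2 ^ (n - 2)) + (ζ ^ (((j : ℕ) + 1) * 2 ^ (n - 2)))⁻¹) +
          (ζ ^ (((j : ℕ) + 1) * 1) + (ζ ^ (((j : ℕ) + 1) * 1))⁻¹)) := by
      intro j
      rw [vσ, C.val_y h hζ h2pos (by omega) j, C.val_y h hζ (l := 1) (by norm_num) (by omega) j, hy j]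
      obtain ⟨K, hK⟩ : ∃ K, 2 ^ (n - 2) = K + 1 := ⟨2 ^ (n - 2) - 1, by omega⟩
      have hz : ζ ^ (2 ^ (n - 2)) = -1 := by
        rw [hK]; exact zeta_half (by rw [← hK, ← hN2]; exact hζ)
      have hz2 : ζ ^ (((j : ℕ) + 1) * 2 ^ (n - 2)) = (-1) ^ ((j : ℕ) + 1) := by
        rw [mul_comm, pow_mul, hz]
      rw [hz2]
      obtain ⟨r, hr⟩ : ∃ r : ℂ, r = (-1) ^ ((j : ℕ) + 1) := ⟨_, rfl⟩
      have hr2 : r * r = 1 := by rw [hr, ← mul_pow]; norm_num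
      have hri : r⁻¹ = r := inv_eq_of_mul_eq_one_left hr2
      rw [← hr, hri, div_mul_eq_mul_div, div_left_inj' hd0]
      linear_combination (-4 * (ε : ℂ) * (r + r + (ζ ^ (((j : ℕ) + 1) * 1) + (ζ ^ (((j : ℕ) + 1) * 1))⁻¹)) * (r * r)) * hε2 +
        (-4 * (ε : ℂ) * (r + r + (ζ ^ (((j : ℕ) + 1) * 1) + (ζ ^ (((j : ℕ) + 1) * 1))⁻¹))) * hr2
    rw [Finset.sum_congr rfl (fun j _ => hterm j), ← Finset.mul_sum, Finset.sum_add_distrib]
    have e1 : ∑ j : Fin (2 ^ (n - 2) - 1), (ζ ^ (((j : ℕ) + 1) * 2 ^ (n - 2)) + (ζ ^ (((j : ℕ) + 1) * 2 ^ (n - 2)))⁻¹) = -2 := by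
      linear_combination f2
    have e2 : ∑ j : Fin (2 ^ (n - 2) - 1), (ζ ^ (((j : ℕ) + 1) * 1) + (ζ ^ (((j : ℕ) + 1) * 1))⁻¹) = 0 := by
      linear_combination f1
    rw [e1, e2]
    ring
  rw [hysum]
  have e1 : (one G : G → ℂ) (σ ^ (2 ^ (n - 2))) ^ 2 * ((one G : G → ℂ) (σ ^ (2 ^ (n - 2))) + (one G : G → ℂ) σ) / (one G : G → ℂ) 1 = 2 := by
    rw [one_apply, one_apply, one_apply]; norm_num
  have e2 : (a : G → ℂ) (σ ^ (2 ^ (n - 2))) ^ 2 * ((a : G → ℂ) (σ ^ (2 ^ (n - 2))) + (a : G → ℂ) σ) / (a : G → ℂ) 1 = -2 * ε / (a : G → ℂ) 1 := by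
    rw [vσ, C.val_a h hζ h2pos (by omega), C.val_a h hζ (l := 1) (by norm_num) (by omega), div_left_inj' ha0]
    linear_combination (-2 * (ε : ℂ)) * hε2
  have e3 : (b : G → ℂ) (σ ^ (2 ^ (n - 2))) ^ 2 * ((b : G → ℂ) (σ ^ (2 ^ (n - 2))) + (b : G → ℂ) σ) / (b : G → ℂ) 1 = 0 := by
    rw [vσ, C.val_b h hζ h2pos (by omega), C.val_b h hζ (l := 1) (by norm_num) (by omega), hpar]
    ring
  have e4 : (c : G → ℂ) (σ ^ (2 ^ (n - 2))) ^ 2 * ((c : G → ℂ) (σ ^ (2 ^ (n - 2))) + (c : G → ℂ) σ) / (c : G → ℂ) 1 = 0 := by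
    rw [vσ, C.val_c h hζ h2pos (by omega), C.val_c h hζ (l := 1) (by norm_num) (by omega), hpar]
    ring
  rw [e1, e2, e3, e4]
  field_simp
  linear_combination (2 : ℂ) * hε2 - 2 * hε2

end Conf

end CfsgLib.DihBlk20
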