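import Cfsg.Agent.LibStdH13
import Cfsg.Agent.LibH22Spin4

set_option autoImplicit false

/-! Discriminants of quadratic forms over finite fields (seat helper13). -/

namespace CfsgLib.Disc

open Module LinearMap Submodule Cfsg.Agent.H22 CfsgLib.Inv2 CfsgLib.OmA CfsgLib.Std

section gram
variable {F V : Type*} [Field F] [AddCommGroup V] [Module F V]

/-- Gram matrix of the polar form -/
def gram (Q : QuadraticForm F V) {ι : Type*} (b : ι → V) : Matrix ι ι F := Matrix.of fun i j => QuadraticMap.polar Q (b i) (b j)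

theorem gram_eq (Q : QuadraticForm F V) {ι : Type*} [Fintype ι] [DecidableEq ι] (b : Basis ι F V) :
    gram Q b = LinearMap.BilinForm.toMatrix b (QuadraticMap.polarBilin Q) := by
  ext i j
  rw [LinearMap.BilinForm.toMatrix_apply]; rfl

theorem gram_det_same (Q : QuadraticForm F V) {ι : Type*} [Fintype ι] [DecidableEq ι] (b c : Basis ι F V) :
    ∃ t : F, t ≠ 0 ∧ (gram Q b).det = t ^ 2 * (gram Q c).det := by
  have h := LinearMap.BilinForm.toMatrix_mul_basis_toMatrix (b := c) b (QuadraticMap.polarBilin Q)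
  refine ⟨(c.toMatrix b).det, ?_, ?_⟩
  · intro h0
    have h1 := congrArg Matrix.det (Basis.toMatrix_mul_toMatrix_flip c b)
    rw [Matrix.det_mul, h0, zero_mul, Matrix.det_one] at h1
    exact zero_ne_one h1
  · rw [gram_eq, gram_eq, ← h, Matrix.det_mul, Matrix.det_mul, Matrix.det_transpose]; ring

theorem gram_reindex (Q : QuadraticForm F V) {ι κ : Type*} [Fintype ι] [DecidableEq ι] [Fintype κ] [DecidableEq κ] (b : ι → V) (e : κ ≃ ι) :
    (gram Q (b ∘ e)).det = (gram Q b).det := by
  have : gram Q (b ∘ e) = (gram Q b).submatrix e e := rfl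
  rw [this, Matrix.det_submatrix_equiv_self]

theorem gram_det (Q : QuadraticForm F V) {ι κ : Type*} [Fintype ι] [DecidableEq ι] [Fintype κ] [DecidableEq κ] (b : Basis ι F V) (c : Basis κ F V) :
    ∃ t : F, t ≠ 0 ∧ (gram Q b).det = t ^ 2 * (gram Q c).det := by
  let e := b.indexEquiv c
  obtain ⟨t, ht, h⟩ := gram_det_same Q (b.reindex e) c
  refine ⟨t, ht, ?_⟩
  rw [← h]
  have : (gram Q (b.reindex e)) = gram Q (b ∘ e.symm) := by
    ext i j
    show QuadraticMap.polar Q (b.reindex e i) (b.reindex e j) = QuadraticMap.polar Q (b (e.symm i)) (b (e.symm j))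
    rw [Basis.reindex_apply, Basis.reindex_apply]
  rw [this, gram_reindex]

theorem isSquare_gram_iff (Q : QuadraticForm F V) {ι κ : Type*} [Fintype ι] [DecidableEq ι] [Fintype κ] [DecidableEq κ] (b : Basis ι F V) (c : Basis κ F V) :
    IsSquare (gram Q b).det ↔ IsSquare (gram Q c).det := by
  obtain ⟨t, ht, h⟩ := gram_det Q b c
  rw [h]
  constructor
  · rintro ⟨r, hr⟩
    exact ⟨r / t, by field_simp; linear_combination hr⟩
  · rintro ⟨r, hr⟩
    exact ⟨t * r, by rw [hr]; ring⟩

end gram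

section std
variable {F : Type*} [Field F]

theorem det_swap (k : ℕ) : (Matrix.fromBlocks 0 1 1 0 : Matrix (Fin k ⊕ Fin k) (Fin k ⊕ Fin k) F).det = (-1) ^ k := by
  have h1 : (Matrix.fromBlocks 0 1 1 0 : Matrix (Fin k ⊕ Fin k) (Fin k ⊕ Fin k) F) * Matrix.fromBlocks 1 0 1 1 = Matrix.fromBlocks 1 1 1 0 := by
    rw [Matrix.fromBlocks_multiply]; simp
  have h2 := congrArg Matrix.det h1
  rw [Matrix.det_mul, Matrix.det_fromBlocks_zero₁₂, Matrix.det_one, mul_one, mul_one, Matrix.det_fromBlocks_one₁₁] at h2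
  rw [h2]
  simp [Matrix.det_neg]

theorem gram_plus (m : ℕ) : (gram (qPlus m F) (Pi.basisFun F (Fin m ⊕ Fin m))).det = (-1) ^ m := by
  rw [← det_swap]
  congr 1
  ext i j
  show QuadraticMap.polar (qPlus m F) (Pi.basisFun F (Fin m ⊕ Fin m) i) (Pi.basisFun F (Fin m ⊕ Fin m) j) = _
  rw [Pi.basisFun_apply, Pi.basisFun_apply, polar_qPlus]
  rcases i with i | i <;> rcases j with j | j <;> simp [Pi.single_apply, Matrix.one_apply, eq_comm]

theorem gram_minus (k : ℕ) (a c : F) : (gram (qMinus k F a c) (Pi.basisFun F ((Fin k ⊕ Fin k) ⊕ Fin 2))).det = (-1) ^ k * (4 * c - a ^ 2) := by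
  have h1 : gram (qMinus k F a c) (Pi.basisFun F ((Fin k ⊕ Fin k) ⊕ Fin 2)) = Matrix.fromBlocks (Matrix.fromBlocks 0 1 1 0) 0 0 !![2, a; a, 2 * c] := by
    ext i j
    show QuadraticMap.polar (qMinus k F a c) (Pi.basisFun F ((Fin k ⊕ Fin k) ⊕ Fin 2) i) (Pi.basisFun F ((Fin k ⊕ Fin k) ⊕ Fin 2) j) = _
    rw [Pi.basisFun_apply, Pi.basisFun_apply, polar_qMinus]
    rcases i with (i | i) | i <;> rcases j with (j | j) | j
    · simp [Pi.single_apply]
    · simp [Pi.single_apply, Matrix.one_apply, eq_comm]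
    · simp [Pi.single_apply]
    · simp [Pi.single_apply, Matrix.one_apply, eq_comm]
    · simp [Pi.single_apply]
    · simp [Pi.single_apply]
    · simp [Pi.single_apply]
    · simp [Pi.single_apply]
    · fin_cases i <;> fin_cases j <;> simp [Pi.single_apply]
  rw [h1, Matrix.det_fromBlocks_zero₂₁, det_swap, Matrix.det_fin_two]
  simp; ring

theorem isSquare_neg_one_pow [Fintype F] (h2 : (2 : F) ≠ 0) (m : ℕ) : IsSquare ((-1 : F) ^ m) ↔ Even (m * (Fintype.card F - 1) / 2) := by
  have hodd : Odd (Fintype.card F) := odd_of_two_ne_zero h2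
  obtain ⟨r, hr⟩ := hodd
  have h3 : m * (Fintype.card F - 1) / 2 = m * r := by
    rw [hr]
    have : m * (2 * r + 1 - 1) = 2 * (m * r) := by
      rw [Nat.add_sub_cancel]; ring
    rw [this, Nat.mul_div_cancel_left _ (by norm_num)]
  rw [h3, Nat.even_mul]
  rcases Nat.even_or_odd m with hm | hm
  · rw [hm.neg_one_pow]
    simp [hm]
  · rw [hm.neg_one_pow, isSquare_neg_one_iff h2]
    constructor
    · intro h; right; exact ⟨r / 2, by omega⟩
    · rintro (h | ⟨s, hs⟩)
      · exact absurd h (Nat.not_even_iff_odd.2 hm)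
      · omega

end std

section classify
universe u
variable {F : Type*} [Field F] [Fintype F]

/-- orthogonal bases with all but the last norm equal to one -/
theorem exists_orth_std (h2 : (2 : F) ≠ 0) : ∀ (n : ℕ) {V : Type u} [AddCommGroup V] [Module F V] [FiniteDimensional F V] (Q : QuadraticForm F V),
    (QuadraticMap.polarBilin Q).Nondegenerate → finrank F V = n + 1 → ∃ b : Fin (n + 1) → V,
      (∀ i j, i ≠ j → QuadraticMap.polar Q (b i) (b j) = 0) ∧ (∀ i, i ≠ Fin.last n → Q (b i) = 1) ∧ Q (b (Fin.last n)) ≠ 0 := by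
  intro n
  induction n with
  | zero =>
    intro V _ _ _ Q hQ hV
    have hnt : Nontrivial V := Module.nontrivial_of_finrank_pos (R := F) (by omega)
    obtain ⟨x, hx⟩ := exists_nonsing hQ (exists_ne 0)
    exact ⟨fun _ => x, fun i j h => absurd (Fin.ext (by omega)) h, fun i h => absurd (Fin.ext (by omega)) h, hx⟩
  | succ n ih =>
    intro V _ _ _ Q hQ hV
    obtain ⟨v, hv⟩ := exists_norm_odd h2 hQ (by omega) 1
    have hv0 : v ≠ 0 := by rintro rfl; rw [QuadraticMap.map_zero] at hv; exact zero_ne_one hv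
    have hvv : QuadraticMap.polar Q v v ≠ 0 := by rw [pself, hv, mul_one]; exact h2
    have hnd : perp Q (span F {v}) ⊓ perp Q (perp Q (span F {v})) = ⊥ := by
      rw [perp_perp hQ, eq_bot_iff]
      rintro x ⟨hx1, hx2⟩
      obtain ⟨c, rfl⟩ := mem_span_singleton.1 hx2
      have h3 : QuadraticMap.polar Q v (c • v) = 0 := hx1 v (mem_span_singleton_self v)
      rw [QuadraticMap.polar_smul_right, smul_eq_mul] at h3
      have h4 : c = 0 := (mul_eq_zero.1 h3).resolve_right hvv
      rw [h4, zero_smul]; exact zero_mem _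
    have hfr := finrank_perp hQ (span F {v})
    rw [finrank_span_singleton hv0, hV] at hfr
    obtain ⟨b', h1, h3, h4⟩ := ih (qres Q (perp Q (span F {v}))) (nondeg_qres hnd) (by omega)
    have hvb : ∀ i, QuadraticMap.polar Q v (b' i : V) = 0 := fun i => (b' i).2 v (mem_span_singleton_self v)
    refine ⟨Fin.cons v (fun i => (b' i : V)), ?_, ?_, ?_⟩
    · intro i j
      refine Fin.cases ?_ (fun i => ?_) i <;> refine Fin.cases ?_ (fun j => ?_) j
      · intro h; exact absurd rfl h
      · intro _; exact hvb j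
      · intro _
        rw [QuadraticMap.polar_comm]; exact hvb i
      · intro h
        exact h1 i j (fun h' => h (by rw [h']))
    · intro i
      refine Fin.cases ?_ (fun i => ?_) i
      · intro _; exact hv
      · intro h
        exact h3 i (fun h' => h (by rw [h']; rfl))
    · exact h4

variable {V : Type*} [AddCommGroup V] [Module F V]

omit [Fintype F] in
theorem q_sum {ι : Type*} [Fintype ι] (Q : QuadraticForm F V) (b : ι → V) (hb : ∀ i j, i ≠ j → QuadraticMap.polar Q (b i) (b j) = 0) (c : ι → F) :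
    Q (∑ i, c i • b i) = ∑ i, c i ^ 2 * Q (b i) := by
  classical
  have key : ∀ s : Finset ι, Q (∑ i ∈ s, c i • b i) = ∑ i ∈ s, c i ^ 2 * Q (b i) := by
    intro s
    induction s using Finset.induction_on with
    | empty => simp
    | insert a s ha ih =>
      rw [Finset.sum_insert ha, Finset.sum_insert ha, qadd, ih, qsmul]
      have h1 : QuadraticMap.polar Q (c a • b a) (∑ i ∈ s, c i • b i) = 0 := by
        have h2 : QuadraticMap.polar Q (c a • b a) (∑ i ∈ s, c i • b i) = ∑ i ∈ s, QuadraticMap.polar Q (c a • b a) (c i • b i) := by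
          exact map_sum (QuadraticMap.polarBilin Q (c a • b a)) _ _
        rw [h2]
        apply Finset.sum_eq_zero
        intro i hi
        rw [QuadraticMap.polar_smul_left, QuadraticMap.polar_smul_right, hb a i (fun h => ha (by rw [h]; exact hi))]
        simp
      rw [h1]; ring
  exact key Finset.univ

omit [Fintype F] in
theorem orth_li {ι : Type*} [Fintype ι] (Q : QuadraticForm F V) (h2 : (2 : F) ≠ 0) (b : ι → V) (hb : ∀ i j, i ≠ j → QuadraticMap.polar Q (b i) (b j) = 0)
    (hb0 : ∀ i, Q (b i) ≠ 0) : LinearIndependent F b := by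
  classical
  rw [Fintype.linearIndependent_iff]
  intro c hc j
  have h1 := congrArg (QuadraticMap.polarBilin Q (b j)) hc
  rw [map_sum, map_zero, Finset.sum_eq_single j] at h1
  · rw [map_smul, smul_eq_mul] at h1
    have h3 : QuadraticMap.polarBilin Q (b j) (b j) = 2 * Q (b j) := pself Q (b j)
    rw [h3] at h1
    exact (mul_eq_zero.1 h1).resolve_right (mul_ne_zero h2 (hb0 j))
  · intro i _ hij
    rw [map_smul]
    have h3 : QuadraticMap.polarBilin Q (b j) (b i) = 0 := hb j i (Ne.symm hij)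
    rw [h3, smul_zero]
  · intro h; exact absurd (Finset.mem_univ _) h

omit [Fintype F] in
theorem gram_orth {ι : Type*} [Fintype ι] [DecidableEq ι] (Q : QuadraticForm F V) (b : ι → V) (hb : ∀ i j, i ≠ j → QuadraticMap.polar Q (b i) (b j) = 0) :
    (gram Q b).det = ∏ i, (2 * Q (b i)) := by
  have : gram Q b = Matrix.diagonal (fun i => 2 * Q (b i)) := by
    ext i j
    by_cases h : i = j
    · subst h
      rw [Matrix.diagonal_apply_eq]
      exact pself Q (b i)
    · rw [Matrix.diagonal_apply_ne _ h]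
      exact hb i j h
  rw [this, Matrix.det_diagonal]

/-- classification over odd finite fields -/
theorem isometric_iff (h2 : (2 : F) ≠ 0) {V V' : Type*} [AddCommGroup V] [Module F V] [FiniteDimensional F V] [AddCommGroup V'] [Module F V'] [FiniteDimensional F V']
    (Q₁ : QuadraticForm F V) (Q₂ : QuadraticForm F V') (h₁ : (QuadraticMap.polarBilin Q₁).Nondegenerate) (h₂ : (QuadraticMap.polarBilin Q₂).Nondegenerate)
    {ι κ : Type*} [Fintype ι] [DecidableEq ι] [Fintype κ] [DecidableEq κ] (c₁ : Basis ι F V) (c₂ : Basis κ F V')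
    (hd : finrank F V = finrank F V') :
    (∃ g : V ≃ₗ[F] V', ∀ v, Q₂ (g v) = Q₁ v) ↔ IsSquare ((gram Q₁ c₁).det * (gram Q₂ c₂).det) := by
  constructor
  · rintro ⟨g, hg⟩
    have h3 : gram Q₂ (c₁.map g) = gram Q₁ c₁ := by
      ext i j
      show QuadraticMap.polar Q₂ (c₁.map g i) (c₁.map g j) = QuadraticMap.polar Q₁ (c₁ i) (c₁ j)
      rw [Basis.map_apply, Basis.map_apply]
      unfold QuadraticMap.polar
      rw [← map_add, hg, hg, hg]
    obtain ⟨t, ht, h⟩ := gram_det Q₂ (c₁.map g) c₂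
    rw [h3] at h
    rw [h]
    exact ⟨t * (gram Q₂ c₂).det, by ring⟩
  · intro hsq
    rcases Nat.eq_zero_or_pos (finrank F V) with h0 | h0
    · have hs1 : Subsingleton V := Module.finrank_zero_iff.1 h0
      have hs2 : Subsingleton V' := Module.finrank_zero_iff.1 (by rw [← hd, h0])
      refine ⟨LinearEquiv.ofFinrankEq V V' hd, fun v => ?_⟩
      rw [Subsingleton.elim v 0, map_zero, QuadraticMap.map_zero, QuadraticMap.map_zero]
    · obtain ⟨n, hn⟩ : ∃ n, finrank F V = n + 1 := ⟨finrank F V - 1, by omega⟩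
      obtain ⟨b₁, ho1, hu1, hl1⟩ := exists_orth_std h2 n Q₁ h₁ hn
      obtain ⟨b₂, ho2, hu2, hl2⟩ := exists_orth_std h2 n Q₂ h₂ (by rw [← hd, hn])
      have hne1 : ∀ i, Q₁ (b₁ i) ≠ 0 := by
        intro i
        by_cases h : i = Fin.last n
        · rw [h]; exact hl1
        · rw [hu1 i h]; exact one_ne_zero
      have hne2 : ∀ i, Q₂ (b₂ i) ≠ 0 := by
        intro i
        by_cases h : i = Fin.last n
        · rw [h]; exact hl2
        · rw [hu2 i h]; exact one_ne_zero
      have hli1 := orth_li Q₁ h2 b₁ ho1 hne1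
      have hli2 := orth_li Q₂ h2 b₂ ho2 hne2
      let B₁ : Basis (Fin (n + 1)) F V := Basis.mk hli1 (by rw [hli1.span_eq_top_of_card_eq_finrank' (by rw [Fintype.card_fin, hn])])
      let B₂ : Basis (Fin (n + 1)) F V' := Basis.mk hli2 (by rw [hli2.span_eq_top_of_card_eq_finrank' (by rw [Fintype.card_fin, ← hd, hn])])
      have hB1 : ∀ i, B₁ i = b₁ i := fun i => Basis.mk_apply _ _ _
      have hB2 : ∀ i, B₂ i = b₂ i := fun i => Basis.mk_apply _ _ _
      have hg1 : (gram Q₁ B₁).det = ∏ i, (2 * Q₁ (b₁ i)) := by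
        rw [← gram_orth Q₁ b₁ ho1]; congr 1
        ext i j
        show QuadraticMap.polar Q₁ (B₁ i) (B₁ j) = QuadraticMap.polar Q₁ (b₁ i) (b₁ j)
        rw [hB1, hB1]
      have hg2 : (gram Q₂ B₂).det = ∏ i, (2 * Q₂ (b₂ i)) := by
        rw [← gram_orth Q₂ b₂ ho2]; congr 1
        ext i j
        show QuadraticMap.polar Q₂ (B₂ i) (B₂ j) = QuadraticMap.polar Q₂ (b₂ i) (b₂ j)
        rw [hB2, hB2]
      have hprod1 : ∏ i, (2 * Q₁ (b₁ i)) = 2 ^ (n + 1) * Q₁ (b₁ (Fin.last n)) := by
        rw [Fin.prod_univ_castSucc]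
        have : ∀ i : Fin n, 2 * Q₁ (b₁ i.castSucc) = 2 := by
          intro i; rw [hu1 _ (Fin.castSucc_lt_last i).ne, mul_one]
        rw [Finset.prod_congr rfl (fun i _ => this i), Finset.prod_const, Finset.card_univ, Fintype.card_fin]; ring
      have hprod2 : ∏ i, (2 * Q₂ (b₂ i)) = 2 ^ (n + 1) * Q₂ (b₂ (Fin.last n)) := by
        rw [Fin.prod_univ_castSucc]
        have : ∀ i : Fin n, 2 * Q₂ (b₂ i.castSucc) = 2 := by
          intro i; rw [hu2 _ (Fin.castSucc_lt_last i).ne, mul_one]
        rw [Finset.prod_congr rfl (fun i _ => this i), Finset.prod_const, Finset.card_univ, Fintype.card_fin]; ring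
      obtain ⟨t1, ht1, hh1⟩ := gram_det Q₁ c₁ B₁
      obtain ⟨t2, ht2, hh2⟩ := gram_det Q₂ c₂ B₂
      rw [hh1, hh2, hg1, hg2, hprod1, hprod2] at hsq
      obtain ⟨r, hr⟩ := hsq
      have h2n : (2 : F) ^ (n + 1) ≠ 0 := pow_ne_zero _ h2
      obtain ⟨s, hs⟩ : ∃ s, s ^ 2 * Q₂ (b₂ (Fin.last n)) = Q₁ (b₁ (Fin.last n)) := by
        refine ⟨r / (t1 * t2 * 2 ^ (n + 1) * Q₂ (b₂ (Fin.last n))), ?_⟩
        field_simp
        linear_combination -hr
      have hs0 : s ≠ 0 := by
        rintro rfl
        apply hl1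
        rw [← hs]; ring
      let w : Fin (n + 1) → F := fun i => if i = Fin.last n then s else 1
      have hw0 : ∀ i, w i ≠ 0 := by
        intro i
        show (if i = Fin.last n then s else 1) ≠ 0
        split_ifs
        · exact hs0
        · exact one_ne_zero
      let B₂' : Basis (Fin (n + 1)) F V' := B₂.unitsSMul (fun i => Units.mk0 (w i) (hw0 i))
      have hB2' : ∀ i, B₂' i = w i • b₂ i := by
        intro i
        rw [Basis.unitsSMul_apply, hB2]; rfl
      refine ⟨B₁.equiv B₂' (Equiv.refl _), fun v => ?_⟩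
      have hv : v = ∑ i, B₁.repr v i • b₁ i := by
        conv_lhs => rw [← B₁.sum_repr v]
        exact Finset.sum_congr rfl fun i _ => by rw [hB1]
      have hgv : (B₁.equiv B₂' (Equiv.refl _)) v = ∑ i, (B₁.repr v i * w i) • b₂ i := by
        conv_lhs => rw [← B₁.sum_repr v]
        rw [map_sum]
        refine Finset.sum_congr rfl fun i _ => ?_
        rw [map_smul, Basis.equiv_apply, Equiv.refl_apply, hB2', smul_smul]
      rw [hgv, q_sum Q₂ b₂ ho2]
      conv_rhs => rw [hv, q_sum Q₁ b₁ ho1]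
      refine Finset.sum_congr rfl fun i _ => ?_
      by_cases h : i = Fin.last n
      · have : w i = s := if_pos h
        rw [this, h, ← hs]; ring
      · have : w i = 1 := if_neg h
        rw [this, hu1 i h, hu2 i h]; ring

end classify

end CfsgLib.Disc
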