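import Cfsg.Agent.LibClifford2
import Cfsg.Agent.LibExtend7
import Cfsg.Agent.LibPSolv19
import Cfsg.Agent.LibH7Pron
import Cfsg.Agent.LibCharMore
import Cfsg.Agent.LibQuot19
import Cfsg.Agent.S4713
/-!
# Derived length of a Sylow subgroup and characters of degree divisible by p (helper19)
-/
set_option autoImplicit false
set_option linter.all false
open scoped ComplexConjugate commutatorElement Pointwise
open Cfsg
open CfsgLib.CharBasic CfsgLib.CharIndA CfsgLib.Clifford CfsgLib.Extend CfsgLib.Quot19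
namespace CfsgLib.Dl19
universe u

section Ext
variable {G : Type u} [Group G] [Finite G] {N : Subgroup G} {T : Subgroup G} (hNT : N ≤ T)

/-- the determinant gives an extension of an invariant linear character -/
theorem exists_ext {p : ℕ} (hp : p.Prime) (hNp : IsPGroup p N) (lam : N →* ℂˣ) {ψ : T → ℂ} (hψ : IsIrrCharacter T ψ)
    (hres : ∀ n : N, ψ ⟨n, hNT n.2⟩ = ψ 1 * (lam n : ℂ)) (hd : ¬ p ∣ charDegree ψ) :
    ∃ κ : T →* ℂˣ, ∀ n : N, κ ⟨n, hNT n.2⟩ = lam n := by
  classical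
  letI := Fintype.ofFinite T
  haveI : Fact p.Prime := ⟨hp⟩
  have hone := CfsgLib.CharInt.irr_one_eq_charDegree hψ
  have hne := irr_one_ne_zero hψ
  generalize hdd : charDegree ψ = d at hd hone
  obtain ⟨m, σ, hσ, rfl⟩ := hψ
  rw [Representation.char_one] at hone
  have hfr : Module.finrank ℂ (Fin m → ℂ) = d := by exact_mod_cast hone
  obtain ⟨a, ha⟩ := (IsPGroup.iff_card).1 hNp
  have hcop : Nat.Coprime d (Nat.card N) := by
    rw [ha]
    apply Nat.Coprime.pow_right
    rw [Nat.coprime_comm]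
    exact (Nat.Prime.coprime_iff_not_dvd hp).2 hd
  have hscal : ∀ n : N, σ ⟨n, hNT n.2⟩ = (lam n : ℂ) • (LinearMap.id : (Fin m → ℂ) →ₗ[ℂ] (Fin m → ℂ)) := by
    intro n
    have h1 := hres n
    rw [Representation.char_one] at h1
    have hln : ‖(lam n : ℂ)‖ = 1 := by
      apply norm_one_of_pow (n := Nat.card N) Nat.card_pos.ne'
      rw [← Units.val_pow_eq_pow_val, ← map_pow, pow_card_eq_one', map_one, Units.val_one]
    have h2 : ‖σ.character ⟨n, hNT n.2⟩‖ = (Module.finrank ℂ (Fin m → ℂ) : ℝ) := by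
      rw [h1, norm_mul, hln, mul_one, Complex.norm_natCast]
    obtain ⟨ω, hω⟩ := (norm_character_eq_iff σ _).1 h2
    have h3 : σ.character ⟨n, hNT n.2⟩ = ω * (Module.finrank ℂ (Fin m → ℂ) : ℂ) := by
      rw [Representation.character, hω, map_smul, LinearMap.trace_id, smul_eq_mul]
    rw [h1] at h3
    have h4 : (Module.finrank ℂ (Fin m → ℂ) : ℂ) ≠ 0 := by
      rwa [Representation.char_one] at hne
    have h5 : (lam n : ℂ) = ω := by
      apply mul_left_cancel₀ h4
      rw [h3, mul_comm]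
    rw [hω, h5]
  have hord : orderOf lam ∣ Nat.card N := by
    apply orderOf_dvd_of_pow_eq_one
    apply MonoidHom.ext
    intro n
    rw [MonoidHom.pow_apply, ← map_pow, pow_card_eq_one', map_one, MonoidHom.one_apply]
  obtain ⟨k, hk⟩ := exists_pow_eq_self_of_coprime (x := lam) (n := d) (hcop.coprime_dvd_right hord)
  refine ⟨(detHom σ) ^ k, fun n => ?_⟩
  apply Units.ext
  rw [MonoidHom.pow_apply, Units.val_pow_eq_pow_val, detHom_apply, hscal n, LinearMap.det_smul, LinearMap.det_id, mul_one, hfr, ← pow_mul]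
  have h6 : lam n ^ (d * k) = lam n := by
    have h7 := DFunLike.congr_fun hk n
    rw [MonoidHom.pow_apply, MonoidHom.pow_apply, ← pow_mul] at h7
    exact h7
  exact_mod_cast congrArg Units.val h6

end Ext

section Main
variable {G : Type u} [Group G] [Finite G]

theorem commutator_le {p : ℕ} [hp : Fact p.Prime] (hG : IsPSolvable p G) {N : Subgroup G} (hN : N.Normal) (hNp : IsPGroup p N)
    (hNc : ∀ a b : N, a * b = b * a) (hne : N ≠ ⊥)
    (hall : ∀ χ : IrrCharacter G, p ∣ charDegree (χ : G → ℂ) → ∀ n ∈ N, (χ : G → ℂ) n = (χ : G → ℂ) 1) (P : Sylow p G) :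
    ⁅(P : Subgroup G), (P : Subgroup G)⁆ ≤ N := by
  classical
  letI := Fintype.ofFinite G
  letI := Fintype.ofFinite N
  obtain ⟨v, hv, hv1⟩ : ∃ v ∈ N, v ≠ 1 := by
    by_contra hcon
    push Not at hcon
    exact hne ((Subgroup.eq_bot_iff_forall N).2 hcon)
  obtain ⟨lam, hlam⟩ := exists_hom_ne_one hNc (g := (⟨v, hv⟩ : N)) (fun h => hv1 (congrArg Subtype.val h))
  set θ : N → ℂ := fun n => (lam n : ℂ) with hθdef
  have hθ : IsIrrCharacter N θ := irr_of_degree_one (isCharacter_hom lam) (by simp [hθdef])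
  have hθ1 : θ ≠ fun _ => 1 := by
    intro h
    apply hlam
    apply Units.ext
    have := congrFun h ⟨v, hv⟩
    simpa [hθdef] using this
  have hone : IsIrrCharacter N (fun _ => (1 : ℂ)) := irr_of_degree_one isCharacter_one rfl
  -- characters above θ have p'-degree
  have hS : ∀ χ : G → ℂ, IsIrrCharacter G χ → classInner (fun h : N => χ h) θ ≠ 0 → ¬ p ∣ charDegree χ := by
    intro χ hχ h1 hd
    apply h1
    have h2 := hall ⟨χ, hχ⟩ hd
    have h3 : (fun h : N => χ h) = (χ 1) • (fun _ => (1 : ℂ)) := by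
      ext h
      rw [Pi.smul_apply, smul_eq_mul, mul_one]
      exact h2 h h.2
    rw [h3, CharBasic.inner_smul_left, irr_inner_ne hone hθ (Ne.symm hθ1), mul_zero]
  set T : Subgroup G := inertia hN θ with hTdef
  letI := Fintype.ofFinite T
  have hNT : N ≤ T := le_inertia hN (irr_classFun hθ)
  have hT : ∀ g, g ∈ T ↔ cj hN g θ = θ := fun g => Iff.rfl
  obtain ⟨χ₀, hχ₀, hχ₀θ⟩ := exists_above N hθ
  obtain ⟨ψ, hψ, hψθ, hψχ, -⟩ := clifford_corr_surj hN hNT hθ hT hχ₀ hχ₀θ
  have hdeg : ∀ ξ : T → ℂ, IsIrrCharacter T ξ → classInner (resT hNT ξ) θ ≠ 0 → ¬ p ∣ T.index * charDegree ξ := by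
    intro ξ hξ h1
    obtain ⟨h2, h3⟩ := clifford_corr hN hNT hθ hT hξ h1
    have h4 := hS _ h2 (by rw [h3]; exact h1)
    have h5 := CfsgLib.CharInt.irr_one_eq_charDegree h2
    rw [ind_one, CfsgLib.CharInt.irr_one_eq_charDegree hξ] at h5
    have h6 : T.index * charDegree ξ = charDegree (indFun T ξ) := by exact_mod_cast h5
    rw [h6]
    exact h4
  have hψd := hdeg ψ hψ hψθ
  have hTi : ¬ p ∣ T.index := fun h => hψd (h.mul_right _)
  have hψp : ¬ p ∣ charDegree ψ := fun h => hψd (h.mul_left _)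
  have hres := resT_of_invariant hN hNT hψ hθ (fun t ht => (hT t).1 ht) hψθ
  have hres1 : classInner (resT hNT ψ) θ = ψ 1 := by
    have h1 := congrFun hres 1
    rw [Pi.smul_apply, smul_eq_mul] at h1
    have h2 : θ 1 = 1 := by simp [hθdef]
    rw [h2, mul_one] at h1
    rw [← h1]
    rfl
  obtain ⟨κ, hκ⟩ := exists_ext hNT hp.out hNp lam hψ (fun n => by
    have h1 := congrFun hres n
    rw [hres1] at h1
    exact h1) hψp
  -- all characters of T/N have p'-degree
  haveI hNTn : (N.subgroupOf T).Normal := subgroupOf_normal hN T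
  have hTG : IsPSolvable p (T ⧸ N.subgroupOf T) :=
    CfsgLib.PSolv19.psolv_quotient hp.out (CfsgLib.PSolv19.psolv_subgroup hp.out hG T) _
  have hquot : ∀ β : IrrCharacter (T ⧸ N.subgroupOf T), ¬ p ∣ charDegree (β : T ⧸ N.subgroupOf T → ℂ) := by
    intro β hβ
    have h1 := irr_inflate (N.subgroupOf T) β.2
    have h2 := CfsgLib.CharInt.irr_one_eq_charDegree β.2
    obtain ⟨h3, -⟩ := det_mul_linear h1 κ (charDegree (β : T ⧸ N.subgroupOf T → ℂ)) h2
    have h4 : resT hNT (fun g : T => (κ g : ℂ) * (β : T ⧸ N.subgroupOf T → ℂ) g) = (charDegree (β : T ⧸ N.subgroupOf T → ℂ) : ℂ) • θ := by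
      ext n
      rw [Pi.smul_apply, smul_eq_mul]
      change ((κ ⟨n, hNT n.2⟩ : ℂˣ) : ℂ) * (β : T ⧸ N.subgroupOf T → ℂ) (((⟨n, hNT n.2⟩ : T)) : T ⧸ N.subgroupOf T) = _
      rw [hκ n, (QuotientGroup.eq_one_iff _).2 (show (⟨n, hNT n.2⟩ : T) ∈ N.subgroupOf T from n.2), h2, mul_comm]
    have h5 : classInner (resT hNT (fun g : T => (κ g : ℂ) * (β : T ⧸ N.subgroupOf T → ℂ) g)) θ ≠ 0 := by
      rw [h4, CharBasic.inner_smul_left, irr_inner_self hθ, mul_one]
      exact Nat.cast_ne_zero.2 (CfsgLib.CharInt.irr_charDegree_pos β.2).ne'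
    have h6 := hdeg _ h3 h5
    apply h6
    apply Dvd.dvd.mul_left
    have h7 := CfsgLib.CharInt.irr_one_eq_charDegree h3
    simp only [map_one, Units.val_one, one_mul] at h7
    have h8 : ((charDegree (fun g : T => (κ g : ℂ) * (β : T ⧸ N.subgroupOf T → ℂ) g) : ℕ) : ℂ) = (charDegree (β : T ⧸ N.subgroupOf T → ℂ) : ℂ) := by
      rw [← h7, ← h2]
      rfl
    have h9 : charDegree (fun g : T => (κ g : ℂ) * (β : T ⧸ N.subgroupOf T → ℂ) g) = charDegree (β : T ⧸ N.subgroupOf T → ℂ) := by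
      exact_mod_cast h8
    rw [h9]
    exact hβ
  obtain ⟨P₁, hP₁⟩ := (CfsgLib.H7Pron.exists_sylow_le_iff T).2 hTi
  have hcm : ∀ a ∈ P₁, ∀ b ∈ P₁, ⁅a, b⁆ ∈ N := by
    intro a ha b hb
    have hpg : IsPGroup p (((P₁ : Subgroup G).subgroupOf T).map (QuotientGroup.mk' (N.subgroupOf T))) := by
      apply IsPGroup.map
      exact IsPGroup.of_injective (P₁.isPGroup') (Subgroup.inclusion (show ((P₁ : Subgroup G).subgroupOf T).map T.subtype ≤ P₁ from by
        rw [Subgroup.subgroupOf_map_subtype]; exact inf_le_left) |>.comp (((P₁ : Subgroup G).subgroupOf T).equivMapOfInjective T.subtype T.subtype_injective).toMonoidHom)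
        (by
          intro x y hxy
          have := congrArg Subtype.val hxy
          exact Subtype.ext (Subtype.ext this))
    obtain ⟨Q, hQ⟩ := hpg.exists_le_sylow
    have hQc := ((Cfsg.Agent.S4713.result p hTG Q).2 hquot).2
    have ha' : ((⟨a, hP₁ ha⟩ : T) : T ⧸ N.subgroupOf T) ∈ Q := hQ ⟨⟨a, hP₁ ha⟩, ha, rfl⟩
    have hb' : ((⟨b, hP₁ hb⟩ : T) : T ⧸ N.subgroupOf T) ∈ Q := hQ ⟨⟨b, hP₁ hb⟩, hb, rfl⟩
    have hab := hQc.is_comm.comm (⟨_, ha'⟩ : Q) ⟨_, hb'⟩
    have hab' : ((⟨a, hP₁ ha⟩ : T) : T ⧸ N.subgroupOf T) * ((⟨b, hP₁ hb⟩ : T) : T ⧸ N.subgroupOf T) = ((⟨b, hP₁ hb⟩ : T) : T ⧸ N.subgroupOf T) * ((⟨a, hP₁ ha⟩ : T) : T ⧸ N.subgroupOf T) :=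
      congrArg Subtype.val hab
    have h1 : (((⁅(⟨a, hP₁ ha⟩ : T), (⟨b, hP₁ hb⟩ : T)⁆ : T)) : T ⧸ N.subgroupOf T) = 1 := by
      rw [commutatorElement_def, QuotientGroup.mk_mul, QuotientGroup.mk_mul, QuotientGroup.mk_mul, QuotientGroup.mk_inv, QuotientGroup.mk_inv, hab']
      group
    have h2 := (QuotientGroup.eq_one_iff (N := N.subgroupOf T) (⁅(⟨a, hP₁ ha⟩ : T), (⟨b, hP₁ hb⟩ : T)⁆ : T)).1 h1
    exact h2
  obtain ⟨g, hg⟩ := MulAction.exists_smul_eq G P P₁
  rw [Subgroup.commutator_le]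
  intro a ha b hb
  have hmem : ∀ x ∈ (P : Subgroup G), g * x * g⁻¹ ∈ P₁ := by
    intro x hx
    rw [← hg]
    change g * x * g⁻¹ ∈ ((g • P : Sylow p G) : Subgroup G)
    rw [Sylow.coe_subgroup_smul]
    exact ⟨x, hx, rfl⟩
  have h1 := hcm _ (hmem a ha) _ (hmem b hb)
  have h2 : ⁅g * a * g⁻¹, g * b * g⁻¹⁆ = g * ⁅a, b⁆ * g⁻¹ := by
    rw [commutatorElement_def, commutatorElement_def]
    group
  rw [h2] at h1
  have h3 := hN.conj_mem _ h1 g⁻¹
  simpa [mul_assoc] using h3

end Main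

section Final

/-- number of irreducible characters of degree divisible by p -/
noncomputable def nd (p : ℕ) (G : Type u) [Group G] : ℕ := Nat.card {χ : IrrCharacter G // p ∣ charDegree (χ : G → ℂ)}

variable {G : Type u} [Group G] [Finite G]

theorem charDegree_infl (N : Subgroup G) [N.Normal] (χ : IrrCharacter (G ⧸ N)) :
    charDegree (fun g : G => (χ : G ⧸ N → ℂ) g) = charDegree (χ : G ⧸ N → ℂ) := by
  have h1 := CfsgLib.CharInt.irr_one_eq_charDegree (irr_inflate N χ.2)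
  have h2 := CfsgLib.CharInt.irr_one_eq_charDegree χ.2
  have h3 : ((charDegree (fun g : G => (χ : G ⧸ N → ℂ) g) : ℕ) : ℂ) = (charDegree (χ : G ⧸ N → ℂ) : ℂ) := by
    rw [← h1, ← h2]
    rfl
  exact_mod_cast h3

noncomputable def inflMap (p : ℕ) (N : Subgroup G) [N.Normal] (χ : {χ : IrrCharacter (G ⧸ N) // p ∣ charDegree (χ : G ⧸ N → ℂ)}) :
    {χ : IrrCharacter G // p ∣ charDegree (χ : G → ℂ)} :=
  ⟨⟨fun g => (χ.1 : G ⧸ N → ℂ) g, irr_inflate N χ.1.2⟩, by
    have := χ.2
    rw [← charDegree_infl] at this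
    exact this⟩

theorem inflMap_inj (p : ℕ) (N : Subgroup G) [N.Normal] : Function.Injective (inflMap p N) := by
  intro χ ψ h
  have h1 : (fun g : G => (χ.1 : G ⧸ N → ℂ) g) = fun g : G => (ψ.1 : G ⧸ N → ℂ) g := congrArg (fun t => ((t.1 : IrrCharacter G) : G → ℂ)) h
  apply Subtype.ext
  apply Subtype.ext
  funext q
  obtain ⟨g, rfl⟩ := QuotientGroup.mk_surjective q
  exact congrFun h1 g

theorem nd_quot_le (p : ℕ) (N : Subgroup G) [N.Normal] : nd p (G ⧸ N) ≤ nd p G :=
  Nat.card_le_card_of_injective _ (inflMap_inj p N)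

theorem nd_quot_lt (p : ℕ) (N : Subgroup G) [N.Normal] (χ : IrrCharacter G) (hχ : p ∣ charDegree (χ : G → ℂ))
    (hN : ¬ ∀ n ∈ N, (χ : G → ℂ) n = (χ : G → ℂ) 1) : nd p (G ⧸ N) < nd p G := by
  classical
  letI := Fintype.ofFinite {χ : IrrCharacter (G ⧸ N) // p ∣ charDegree (χ : G ⧸ N → ℂ)}
  letI := Fintype.ofFinite {χ : IrrCharacter G // p ∣ charDegree (χ : G → ℂ)}
  rw [nd, nd, Nat.card_eq_fintype_card, Nat.card_eq_fintype_card]
  apply Fintype.card_lt_of_injective_of_notMem _ (inflMap_inj p N) (b := ⟨χ, hχ⟩)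
  rintro ⟨ψ, hψ⟩
  apply hN
  have h1 : (fun g : G => (ψ.1 : G ⧸ N → ℂ) g) = (χ : G → ℂ) := congrArg (fun t => ((t.1 : IrrCharacter G) : G → ℂ)) hψ
  rw [← h1]
  exact infl_ker N (ψ.1 : G ⧸ N → ℂ)

/-- the derived series of a Sylow subgroup and that of its image -/
theorem ds_le {p : ℕ} [Fact p.Prime] (N : Subgroup G) [N.Normal] (P : Sylow p G) (k : ℕ)
    (h : ∀ Q : Sylow p (G ⧸ N), derivedSeries ↥(Q : Subgroup (G ⧸ N)) k = ⊥) :
    ∀ x ∈ derivedSeries ↥(P : Subgroup G) k, (x : G) ∈ N := by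
  have hs := QuotientGroup.mk'_surjective N
  have h1 := h (P.mapSurjective hs)
  have hf : ∀ x : (P : Subgroup G), (QuotientGroup.mk' N) x ∈ ((P.mapSurjective hs : Sylow p (G ⧸ N)) : Subgroup (G ⧸ N)) := fun x => ⟨x, x.2, rfl⟩
  let f : (P : Subgroup G) →* ((P.mapSurjective hs : Sylow p (G ⧸ N)) : Subgroup (G ⧸ N)) :=
    ((QuotientGroup.mk' N).comp (P : Subgroup G).subtype).codRestrict _ hf
  intro x hx
  have h2 : f x ∈ derivedSeries ((P.mapSurjective hs : Sylow p (G ⧸ N)) : Subgroup (G ⧸ N)) k :=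
    map_derivedSeries_le_derivedSeries f k ⟨x, hx, rfl⟩
  rw [h1, Subgroup.mem_bot] at h2
  have h3 : ((x : G) : G ⧸ N) = 1 := congrArg Subtype.val h2
  exact (QuotientGroup.eq_one_iff _).1 h3

theorem ds_succ_bot {p : ℕ} [Fact p.Prime] {N : Subgroup G} (hNc : ∀ a ∈ N, ∀ b ∈ N, a * b = b * a) (P : Sylow p G) (k : ℕ)
    (h : ∀ x ∈ derivedSeries ↥(P : Subgroup G) k, (x : G) ∈ N) : derivedSeries ↥(P : Subgroup G) (k + 1) = ⊥ := by
  rw [derivedSeries_succ, Subgroup.commutator_eq_bot_iff_le_centralizer]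
  intro x hx
  rw [Subgroup.mem_centralizer_iff]
  intro y hy
  exact Subtype.ext (hNc _ (h y hy) _ (h x hx))

theorem main (p : ℕ) [hp : Fact p.Prime] : ∀ (n : ℕ) (G : Type u) [Group G] [Finite G], Nat.card G = n → IsPSolvable p G →
    ∀ P : Sylow p G, derivedSeries ↥(P : Subgroup G) (nd p G + 1) = ⊥ := by
  intro n
  induction n using Nat.strong_induction_on with
  | _ n ih =>
  intro G _ _ hn hG P
  rcases subsingleton_or_nontrivial G with hsub | hnt
  · rw [Subgroup.eq_bot_iff_forall]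
    intro x _
    exact Subtype.ext (Subsingleton.elim _ _)
  have hquot : ∀ N : Subgroup G, N.Normal → N ≠ ⊥ → Nat.card (G ⧸ N) < n := by
    intro N hN hne
    have h1 := Subgroup.card_eq_card_quotient_mul_card_subgroup N
    have h2 : 1 < Nat.card N := by
      rw [Subgroup.one_lt_card_iff_ne_bot]
      exact hne
    have h3 : 0 < Nat.card (G ⧸ N) := Nat.card_pos
    rw [← hn, h1]
    nlinarith
  by_cases hO : pPrimeCore p G = ⊥
  · have hpc : pCore p G ≠ ⊥ := by
      rcases CfsgLib.PSolv19.psolv_core_ne_bot (p := p) hG with h | h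
      · exact h
      · exact absurd hO h
    haveI hpcp : IsPGroup p (pCore p G) := CfsgLib.Cores.pCore_isPGroup p
    haveI : Nontrivial (pCore p G) := (Subgroup.nontrivial_iff_ne_bot _).2 hpc
    set N : Subgroup G := (Subgroup.center (pCore p G)).map (pCore p G).subtype with hNdef
    haveI hpcN : (pCore p G).Normal := inferInstance
    haveI hN : N.Normal := ConjAct.normal_of_characteristic_of_normal
    have hne : N ≠ ⊥ := by
      intro h
      have h1 : Subgroup.center (pCore p G) = ⊥ := by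
        rw [hNdef, Subgroup.map_eq_bot_iff_of_injective _ (Subgroup.subtype_injective _)] at h
        exact h
      have h2 := IsPGroup.center_nontrivial hpcp
      rw [h1] at h2
      exact (Subgroup.nontrivial_iff_ne_bot _).1 h2 rfl
    have hNc : ∀ a ∈ N, ∀ b ∈ N, a * b = b * a := by
      rintro _ ⟨a, ha, rfl⟩ _ ⟨b, hb, rfl⟩
      exact congrArg Subtype.val ((Subgroup.mem_center_iff.1 ha b).symm)
    have hNp : IsPGroup p N := by
      have h1 : N ≤ pCore p G := Subgroup.map_subtype_le _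
      exact IsPGroup.of_injective hpcp (Subgroup.inclusion h1) (Subgroup.inclusion_injective h1)
    by_cases hall : ∀ χ : IrrCharacter G, p ∣ charDegree (χ : G → ℂ) → ∀ n ∈ N, (χ : G → ℂ) n = (χ : G → ℂ) 1
    · have h1 := commutator_le hG hN hNp (fun a b => Subtype.ext (hNc a a.2 b b.2)) hne hall P
      have h2 : ∀ x ∈ derivedSeries ↥(P : Subgroup G) 1, (x : G) ∈ N := by
        intro x hx
        rw [derivedSeries_one] at hx
        apply h1
        rw [← Subgroup.map_subtype_commutator]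
        exact ⟨x, hx, rfl⟩
      rcases Nat.eq_zero_or_pos (nd p G) with h0 | h0
      · have h3 : ∀ χ : IrrCharacter G, ¬ p ∣ charDegree (χ : G → ℂ) := by
          intro χ hχ
          rw [nd, Nat.card_eq_zero] at h0
          rcases h0 with h | h
          · exact h.elim ⟨χ, hχ⟩
          · exact h.not_finite inferInstance
        have h4 := ((Cfsg.Agent.S4713.result p hG P).2 h3).2
        rw [h0, zero_add]
        apply ds_succ_bot (N := (P : Subgroup G)) _ P 0
        · intro x _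
          exact x.2
        · intro a ha b hb
          exact congrArg Subtype.val (h4.is_comm.comm (⟨a, ha⟩ : P) ⟨b, hb⟩)
      · have h3 := ds_succ_bot hNc P 1 h2
        rw [eq_bot_iff, ← h3]
        exact derivedSeries_antitone _ (by omega)
    · push Not at hall
      obtain ⟨χ, hχ, m, hm, hmχ⟩ := hall
      have h1 := nd_quot_lt p N χ hχ (fun h => hmχ (h m hm))
      have h2 := ih _ (hquot N hN hne) (G ⧸ N) rfl (CfsgLib.PSolv19.psolv_quotient hp.out hG N)
      have h3 := ds_succ_bot hNc P _ (ds_le N P _ h2)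
      rw [eq_bot_iff, ← h3]
      exact derivedSeries_antitone _ (by omega)
  · haveI hON : (pPrimeCore p G).Normal := inferInstance
    have h1 := nd_quot_le (G := G) p (pPrimeCore p G)
    have h2 := ih _ (hquot _ hON hO) (G ⧸ pPrimeCore p G) rfl (CfsgLib.PSolv19.psolv_quotient hp.out hG _)
    have h3 := ds_le (pPrimeCore p G) P _ h2
    have h4 : derivedSeries ↥(P : Subgroup G) (nd p (G ⧸ pPrimeCore p G) + 1) = ⊥ := by
      rw [Subgroup.eq_bot_iff_forall]
      intro x hx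
      have h5 := h3 x hx
      have h6 : (Nat.card (P : Subgroup G)).Coprime (Nat.card (pPrimeCore p G)) := by
        obtain ⟨a, ha⟩ := IsPGroup.iff_card.1 P.isPGroup'
        rw [ha]
        exact Nat.Coprime.pow_left _ (CfsgLib.Cores.pPrimeCore_coprime p).symm
      have h7 := Subgroup.inf_eq_bot_of_coprime h6
      have h8 : (x : G) ∈ (P : Subgroup G) ⊓ pPrimeCore p G := ⟨x.2, h5⟩
      rw [h7, Subgroup.mem_bot] at h8
      exact Subtype.ext h8
    rw [eq_bot_iff, ← h4]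
    exact derivedSeries_antitone _ (by omega)

end Final
end CfsgLib.Dl19
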