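import Mathlib
import Cfsg.Agent.EqBase
import Cfsg.Agent.LibOrbE28

set_option autoImplicit false

/-! Dodecads relative to a dodecad (helper28). -/

namespace CfsgLib.Dod28

open Cfsg CfsgLib.Golay CfsgLib.M24 CfsgLib.Syn28 CfsgLib.OrbAbs28 CfsgLib.OrbM28 CfsgLib.OrbG28
  CfsgLib.OrbE28 MulAction
open scoped Pointwise

theorem dd_inter : ∀ i : Fin 5, (fset 8442831 ∩ fset (cw (gt 12 4095 E_dd (S_dd i)))).card = ![0, 12, 8, 4, 6] i := by
  have h : ∀ i : Fin 5, pop (8442831 &&& cw (gt 12 4095 E_dd (S_dd i))) = ![0, 12, 8, 4, 6] i := by decide +kernel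
  intro i
  rw [← fset_and, card_fset, h i]

/-- the orbits of the stabiliser of a dodecad on the dodecads -/
theorem dec_dodecad {o : Finset GolayPt} (ho : o ∈ dodecads) :
    ∃ X : Fin 5 → Finset GolayPt, Dec ↥M24 o dodecads X ![1, 1, 495, 495, 1584] ∧
      ∀ i, (o ∩ X i).card = ![0, 12, 8, 4, 6] i := by
  rw [dodecads_eq_orbit d0_mem'] at ho
  obtain ⟨g, rfl⟩ := ho
  refine ⟨_, (dec_dd.smul dodecads_inv g), fun i => ?_⟩
  show (g • fset 8442831 ∩ g • fset (cw (gt 12 4095 E_dd (S_dd i)))).card = _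
  rw [← Finset.smul_finset_inter, Finset.card_smul_finset, dd_inter]

theorem val_inj5 : Function.Injective (![0, 12, 8, 4, 6] : Fin 5 → ℕ) := by decide

theorem dod_conj {o o' o'' : Finset GolayPt} (ho : o ∈ dodecads) (ho' : o' ∈ dodecads) (ho'' : o'' ∈ dodecads)
    (h : (o ∩ o').card = (o ∩ o'').card) : ∃ g : ↥M24, g • o = o ∧ g • o' = o'' := by
  obtain ⟨X, hX, hc⟩ := dec_dodecad ho
  obtain ⟨g, hg, hg'⟩ := hX.conj_of_inv (fun b => (o ∩ b).card) (fun g hg b _ => card_inter_smul hg b)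
    (by
      intro i j hij
      apply val_inj5
      rw [← hc i, ← hc j]; exact hij) ho' ho'' h
  exact ⟨g, hg, hg'⟩

theorem dod_count {o : Finset GolayPt} (ho : o ∈ dodecads) (i : Fin 5) :
    {o' : Finset GolayPt | o' ∈ dodecads ∧ (o ∩ o').card = ![0, 12, 8, 4, 6] i}.ncard = ![1, 1, 495, 495, 1584] i := by
  obtain ⟨X, hX, hc⟩ := dec_dodecad ho
  have := hX.orbit_eq_class (fun b => (o ∩ b).card) (fun g hg b _ => card_inter_smul hg b) dodecads_inv
    (by
      intro i j hij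
      apply val_inj5
      rw [← hc i, ← hc j]; exact hij) i
  rw [← this, hc i]

theorem dod_inter {d d' : Finset GolayPt} (hd : d ∈ dodecads) (hd' : d' ∈ dodecads) (hne : d' ≠ d) :
    (d ∩ d').card = 0 ∨ (d ∩ d').card = 4 ∨ (d ∩ d').card = 6 ∨ (d ∩ d').card = 8 := by
  obtain ⟨X, hX, hc⟩ := dec_dodecad hd
  obtain ⟨i, ⟨g, hg⟩⟩ := hX.cover d' hd'
  have hg' : (g : ↥M24) • X i = d' := hg
  have h1 : (d ∩ d').card = ![0, 12, 8, 4, 6] i := by
    rw [← hg', card_inter_smul g.2, hc i]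
  rw [h1]
  have h12 : i ≠ 1 := by
    rintro rfl
    apply hne
    have e1 : (d ∩ d').card = 12 := h1
    have e2 : d ∩ d' = d := Finset.eq_of_subset_of_card_le Finset.inter_subset_left (by rw [e1, hd.2])
    have e3 : d ∩ d' = d' := Finset.eq_of_subset_of_card_le Finset.inter_subset_right (by rw [e1, hd'.2])
    rw [← e3, e2]
  clear hg' hg h1
  revert i
  decide

end CfsgLib.Dod28
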