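import Mathlib
import Cfsg.Agent.LibTypH13

/-! Operators of prime order, prime to the characteristic (seat helper13). -/

namespace CfsgLib.SS2

open Module Polynomial CfsgLib.Typ

universe u v w

section fac
variable (F : Type*) [Field F] (r : ℕ)

/-- the monic irreducible factors of the cyclotomic polynomial -/
noncomputable def fac : Finset F[X] := by classical exact (UniqueFactorizationMonoid.normalizedFactors (cyclotomic r F)).toFinset

variable {F r}

theorem mem_fac {f : F[X]} : f ∈ fac F r ↔ Irreducible f ∧ f.Monic ∧ f ∣ cyclotomic r F := by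
  classical
  unfold fac
  rw [Multiset.mem_toFinset, Polynomial.mem_normalizedFactors_iff (cyclotomic_ne_zero r F)]

theorem dvd_cases (hr : r.Prime) {f : F[X]} (hf : f.Monic) (hfi : Irreducible f) (h : f ∣ X ^ r - 1) : f = X - C 1 ∨ f ∈ fac F r := by
  haveI : Fact r.Prime := ⟨hr⟩
  rw [← cyclotomic_prime_mul_X_sub_one F r] at h
  rcases hfi.prime.dvd_or_dvd h with h1 | h1
  · right; rw [mem_fac]; exact ⟨hfi, hf, h1⟩
  · left
    have h2 : (X - 1 : F[X]) = X - C 1 := by rw [map_one]
    rw [h2] at h1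
    exact eq_of_monic_of_associated hf (monic_X_sub_C 1) (hfi.associated_of_dvd (irreducible_X_sub_C 1) h1)

variable [Fintype F] {p : ℕ} [Fact p.Prime] [CharP F p] (hr : r.Prime) (hrp : r ≠ p)
include p hr hrp

theorem deg_fac {f : F[X]} (hf : f ∈ fac F r) : f.natDegree = orderOf (Fintype.card F : ZMod r) := by
  obtain ⟨n, -, hn⟩ := FiniteField.card F p
  rw [mem_fac] at hf
  have hcop : p.Coprime r := ((Nat.coprime_primes (Fact.out : p.Prime) hr).2 hrp.symm)
  rw [natDegree_of_dvd_cyclotomic_of_irreducible hn hcop hf.2.2 hf.1, ← orderOf_units, ZMod.coe_unitOfCoprime, hn]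

theorem card_fac : (fac F r).card * orderOf (Fintype.card F : ZMod r) = r - 1 := by
  classical
  obtain ⟨n, -, hn⟩ := FiniteField.card F p
  have hcop : p.Coprime r := ((Nat.coprime_primes (Fact.out : p.Prime) hr).2 hrp.symm)
  have h1 := normalizedFactors_cyclotomic_card hn hcop
  have h2 : orderOf (ZMod.unitOfCoprime _ (hcop.pow_left (n : ℕ))) = orderOf (Fintype.card F : ZMod r) := by
    rw [← orderOf_units, ZMod.coe_unitOfCoprime, hn]
  have h3 : (fac F r).card = Nat.totient r / orderOf (ZMod.unitOfCoprime _ (hcop.pow_left (n : ℕ))) := by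
    rw [← h1]; unfold fac; congr!
  haveI : Fact r.Prime := ⟨hr⟩
  rw [h3, h2, Nat.totient_prime hr]
  refine Nat.div_mul_cancel ?_
  rw [← h2, ← Nat.totient_prime hr, ← ZMod.card_units_eq_totient]
  exact orderOf_dvd_card

theorem ord_pos : 0 < orderOf (Fintype.card F : ZMod r) := by
  have h := card_fac (F := F) hr hrp
  rcases Nat.eq_zero_or_pos (orderOf (Fintype.card F : ZMod r)) with h0 | h0
  · rw [h0, mul_zero] at h
    have := hr.two_le
    omega
  · exact h0

theorem X_sub_one_not_mem : (X - C 1 : F[X]) ∉ fac F r := by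
  intro h
  rw [mem_fac] at h
  have h1 := dvd_iff_isRoot.1 h.2.2
  haveI : Fact r.Prime := ⟨hr⟩
  rw [IsRoot, eval_one_cyclotomic_prime, CharP.cast_eq_zero_iff F p] at h1
  exact hrp ((Nat.prime_dvd_prime_iff_eq (Fact.out : p.Prime) hr).1 h1).symm

end fac

section dec
variable {F : Type u} {V : Type v} [Field F] [AddCommGroup V] [Module F V] [Fintype F] {p r : ℕ} [Fact p.Prime] [CharP F p] (hr : r.Prime) (hrp : r ≠ p)

/-- shape of a decomposition -/
def Dec {ι : Type w} (T : End F V) (r : ℕ) (P : ι → F[X]) (φ : V ≃ₗ[F] (∀ i, AdjoinRoot (P i ^ 1))) : Prop :=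
  (∀ i, Irreducible (P i)) ∧ (∀ i, (P i).Monic) ∧ (∀ i, P i = X - C 1 ∨ P i ∈ fac F r) ∧ (∀ v i, φ (T v) i = AdjoinRoot.root (P i ^ 1) * φ v i)

include p hr hrp in
theorem exists_ss [FiniteDimensional F V] (T : End F V) (hT : T ^ r = 1) : ∃ (ι : Type u) (_ : Fintype ι) (P : ι → F[X]) (φ : V ≃ₗ[F] (∀ i, AdjoinRoot (P i ^ 1))), Dec T r P φ := by
  obtain ⟨ι, hι, P, e, hirr, hmon, he, φ, hφ⟩ := CfsgLib.Str.exists_decomp T
  have hdvd : ∀ i, P i ^ e i ∣ (X ^ r - 1 : F[X]) := by
    intro i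
    obtain ⟨v, hv⟩ := φ.surjective 1
    have h1 := aeval_comp φ hφ (X ^ r - 1) v i
    rw [map_sub, map_pow, aeval_X, map_one, hT, sub_self, LinearMap.zero_apply, map_zero, hv, Pi.one_apply, mul_one, Pi.zero_apply] at h1
    exact (AdjoinRoot.mk_eq_zero).1 h1.symm
  have he1 : e = fun _ => 1 := by
    funext i
    by_contra hne
    have h2 : 2 ≤ e i := by have := he i; omega
    have hsep : (X ^ r - 1 : F[X]).Separable := by
      rw [X_pow_sub_one_separable_iff, Ne, CharP.cast_eq_zero_iff F p]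
      intro h
      exact hrp ((Nat.prime_dvd_prime_iff_eq (Fact.out : p.Prime) hr).1 h).symm
    have := hsep.squarefree (P i) ((by rw [← pow_two]; exact (pow_dvd_pow _ h2).trans (hdvd i)))
    exact (hirr i).not_isUnit this
  subst he1
  exact ⟨ι, hι, P, φ, hirr, hmon, fun i => dvd_cases hr (hmon i) (hirr i) (by have := hdvd i; rwa [pow_one] at this), hφ⟩

open Classical in
theorem kd_dec {ι : Type w} [Fintype ι] {T : End F V} {P : ι → F[X]} {φ : V ≃ₗ[F] (∀ i, AdjoinRoot (P i ^ 1))} (h : Dec T r P φ) {f : F[X]} (hf : f.Monic) (hfi : Irreducible f) (k : ℕ) :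
    kd T f k = f.natDegree * min 1 k * Fintype.card {i // P i = f} := by
  rw [kd_eq (e := fun _ => 1) h.1 h.2.1 φ h.2.2.2 hf hfi, Fintype.card_subtype, Finset.card_filter, Finset.mul_sum]
  exact Finset.sum_congr rfl fun i _ => by split_ifs <;> simp

include hr hrp in
open Classical in
theorem finrank_dec {ι : Type w} [Fintype ι] {T : End F V} {P : ι → F[X]} {φ : V ≃ₗ[F] (∀ i, AdjoinRoot (P i ^ 1))} (h : Dec T r P φ) :
    finrank F V = Fintype.card {i // P i = X - C 1} + orderOf (Fintype.card F : ZMod r) * ∑ f : fac F r, Fintype.card {i // P i = f} := by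
  haveI : ∀ i, Module.Finite F (AdjoinRoot (P i ^ 1)) := fun i => (AdjoinRoot.powerBasis' ((h.2.1 i).pow _)).finite
  rw [φ.finrank_eq, Module.finrank_pi_fintype, Fintype.card_subtype, Finset.card_filter, Finset.mul_sum]
  simp_rw [Fintype.card_subtype, Finset.card_filter]
  simp_rw [Finset.mul_sum]
  rw [Finset.sum_comm, ← Finset.sum_add_distrib]
  refine Finset.sum_congr rfl fun i _ => ?_
  rw [finrank_adjoinRoot ((h.2.1 i).pow 1), pow_one]
  rcases h.2.2.1 i with h1 | h1
  · rw [if_pos h1, h1, natDegree_X_sub_C, Finset.sum_eq_zero, add_zero]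
    intro f _
    rw [if_neg, mul_zero]
    intro hf
    apply X_sub_one_not_mem (F := F) hr hrp
    rw [hf]; exact f.2
  · rw [if_neg (fun h2 : P i = X - C 1 => X_sub_one_not_mem (F := F) hr hrp (h2 ▸ h1)), zero_add, Finset.sum_eq_single (⟨P i, h1⟩ : fac F r)]
    · rw [if_pos rfl, mul_one, deg_fac hr hrp h1]
    · intro f _ hf
      rw [if_neg (fun h2 => hf (Subtype.ext h2.symm)), mul_zero]
    · intro hf; exact absurd (Finset.mem_univ _) hf

/-- multiplicities -/
noncomputable def mult (r : ℕ) (T : End F V) : fac F r → ℕ := fun f => kd T f 1 / (f : F[X]).natDegree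

open Classical in
theorem mult_dec {ι : Type w} [Fintype ι] {T : End F V} {P : ι → F[X]} {φ : V ≃ₗ[F] (∀ i, AdjoinRoot (P i ^ 1))} (h : Dec T r P φ) (f : fac F r) :
    mult r T f = Fintype.card {i // P i = f} := by
  have hf := mem_fac.1 f.2
  unfold mult
  rw [kd_dec h hf.2.1 hf.1, min_self, mul_one, Nat.mul_div_cancel_left _ hf.1.natDegree_pos]

omit [Fintype F] in
theorem mult_congr {V' : Type*} [AddCommGroup V'] [Module F V'] {T : End F V} {T' : End F V'} (ψ : V ≃ₗ[F] V') (hψ : ∀ v, ψ (T v) = T' (ψ v)) : mult r T = mult r T' := by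
  funext f
  unfold mult
  rw [kd_congr ψ hψ]

include p hr hrp

theorem mult_le [FiniteDimensional F V] {T : End F V} (hT : T ^ r = 1) : orderOf (Fintype.card F : ZMod r) * ∑ f, mult r T f ≤ finrank F V := by
  classical
  obtain ⟨ι, hι, P, φ, h⟩ := exists_ss hr hrp T hT
  rw [finrank_dec hr hrp h, Finset.sum_congr rfl fun f _ => mult_dec h f]
  exact Nat.le_add_left _ _

theorem eq_one_of_mult [FiniteDimensional F V] {T : End F V} (hT : T ^ r = 1) (h0 : mult r T = 0) : T = 1 := by
  classical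
  obtain ⟨ι, hι, P, φ, h⟩ := exists_ss hr hrp T hT
  have hP : ∀ i, P i = X - C 1 := by
    intro i
    rcases h.2.2.1 i with h1 | h1
    · exact h1
    · exfalso
      have h2 := mult_dec h ⟨P i, h1⟩
      rw [h0, Pi.zero_apply, eq_comm, Fintype.card_eq_zero_iff] at h2
      exact h2.elim ⟨i, rfl⟩
  apply LinearMap.ext
  intro v
  apply φ.injective
  funext i
  rw [h.2.2.2 v i]
  have h3 : AdjoinRoot.root (P i ^ 1) = 1 := by
    have h4 : AdjoinRoot.mk (P i ^ 1) (X - C 1) = 0 := by
      rw [AdjoinRoot.mk_eq_zero, pow_one, hP i]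
    rw [map_sub, AdjoinRoot.mk_X, map_one, map_one] at h4
    exact sub_eq_zero.1 h4
  rw [h3, one_mul, Module.End.one_apply]

theorem mult_one [FiniteDimensional F V] : mult r (1 : End F V) = 0 := by
  classical
  funext f
  obtain ⟨ι, hι, P, φ, h⟩ := exists_ss hr hrp (1 : End F V) (one_pow _)
  rw [mult_dec h, Pi.zero_apply, Fintype.card_eq_zero_iff]
  refine ⟨fun ⟨i, hi⟩ => ?_⟩
  obtain ⟨v, hv⟩ := φ.surjective 1
  have h1 := h.2.2.2 v i
  rw [Module.End.one_apply, hv, Pi.one_apply, mul_one] at h1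
  have h4 : AdjoinRoot.mk (P i ^ 1) (X - C 1) = 0 := by
    rw [map_sub, AdjoinRoot.mk_X, map_one, map_one, ← h1, sub_self]
  rw [AdjoinRoot.mk_eq_zero, pow_one] at h4
  have h5 := eq_of_monic_of_associated (h.2.1 i) (monic_X_sub_C 1) ((h.1 i).associated_of_dvd (irreducible_X_sub_C 1) h4)
  exact X_sub_one_not_mem (F := F) hr hrp (h5 ▸ hi ▸ f.2)

theorem conj_of_mult [FiniteDimensional F V] {V' : Type*} [AddCommGroup V'] [Module F V'] [FiniteDimensional F V'] {T : End F V} {T' : End F V'}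
    (hT : T ^ r = 1) (hT' : T' ^ r = 1) (hV : finrank F V = finrank F V') (hm : mult r T = mult r T') : ∃ ψ : V ≃ₗ[F] V', ∀ v, ψ (T v) = T' (ψ v) := by
  classical
  obtain ⟨ι, hι, P, φ, h⟩ := exists_ss hr hrp T hT
  obtain ⟨ι', hι', P', φ', h'⟩ := exists_ss hr hrp T' hT'
  have h1 : ∀ f : fac F r, Fintype.card {i // P i = f} = Fintype.card {i // P' i = f} := by
    intro f
    rw [← mult_dec h, ← mult_dec h', hm]
  have h2 := finrank_dec hr hrp h
  have h3 := finrank_dec hr hrp h'
  rw [Finset.sum_congr rfl fun f _ => h1 f] at h2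
  have h4 : Fintype.card {i // P i = X - C 1} = Fintype.card {i // P' i = X - C 1} := by omega
  refine conj_of_kd T T' fun f hf hfi k => ?_
  rw [kd_dec h hf hfi, kd_dec h' hf hfi]
  congr 1
  by_cases hf1 : f = X - C 1
  · subst hf1; exact h4
  · by_cases hf2 : f ∈ fac F r
    · exact h1 ⟨f, hf2⟩
    · haveI : IsEmpty {i // P i = f} := ⟨fun ⟨i, hi⟩ => by rcases h.2.2.1 i with h5 | h5 <;> [exact hf1 (hi.symm.trans h5); exact hf2 (hi ▸ h5)]⟩
      haveI : IsEmpty {i // P' i = f} := ⟨fun ⟨i, hi⟩ => by rcases h'.2.2.1 i with h5 | h5 <;> [exact hf1 (hi.symm.trans h5); exact hf2 (hi ▸ h5)]⟩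
      rw [Fintype.card_eq_zero, Fintype.card_eq_zero]

end dec

section exist
variable {F : Type u} [Field F] [Fintype F] {p r : ℕ} [Fact p.Prime] [CharP F p] (hr : r.Prime) (hrp : r ≠ p)

/-- multiplication by the root -/
noncomputable def rootMul {ι : Type w} (g : ι → F[X]) : End F (∀ i, AdjoinRoot (g i)) :=
  LinearMap.pi fun i => (LinearMap.mulLeft F (AdjoinRoot.root (g i))).comp (LinearMap.proj i)

omit [Fintype F] in
theorem rootMul_apply {ι : Type w} (g : ι → F[X]) (v : ∀ i, AdjoinRoot (g i)) (i : ι) : rootMul g v i = AdjoinRoot.root (g i) * v i := rfl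

omit [Fintype F] in
theorem rootMul_pow {ι : Type w} (g : ι → F[X]) {N : ℕ} (hg : ∀ i, g i ∣ X ^ N - 1) : rootMul g ^ N = 1 := by
  apply LinearMap.ext
  intro v
  funext i
  have h1 := aeval_comp (LinearEquiv.refl F (∀ i, AdjoinRoot (g i))) (T := rootMul g) (fun v i => rfl) (X ^ N - 1) v i
  rw [(AdjoinRoot.mk_eq_zero).2 (hg i), zero_mul, map_sub, map_pow, aeval_X, map_one] at h1
  have h2 : ((rootMul g ^ N) v - v) i = 0 := h1
  rw [Pi.sub_apply, sub_eq_zero] at h2
  rw [h2, Module.End.one_apply]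

include p hr hrp in
theorem exists_mult {n : ℕ} (a : fac F r → ℕ) (ha : orderOf (Fintype.card F : ZMod r) * ∑ f, a f ≤ n) :
    ∃ T : End F (Fin n → F), T ^ r = 1 ∧ mult r T = a := by
  classical
  let ι := (Σ f : fac F r, Fin (a f)) ⊕ Fin (n - orderOf (Fintype.card F : ZMod r) * ∑ f, a f)
  let P : ι → F[X] := Sum.elim (fun x => (x.1 : F[X])) (fun _ => X - C 1)
  have hP : ∀ i, P i = X - C 1 ∨ P i ∈ fac F r := by
    rintro (i | i)
    · right; exact i.1.2
    · left; rfl
  have hmon : ∀ i, (P i).Monic := by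
    rintro (i | i)
    · exact (mem_fac.1 i.1.2).2.1
    · exact monic_X_sub_C 1
  have hirr : ∀ i, Irreducible (P i) := by
    rintro (i | i)
    · exact (mem_fac.1 i.1.2).1
    · exact irreducible_X_sub_C 1
  have hdvd : ∀ i, P i ^ 1 ∣ X ^ r - 1 := by
    intro i
    haveI : Fact r.Prime := ⟨hr⟩
    rw [pow_one, ← cyclotomic_prime_mul_X_sub_one F r]
    rcases hP i with h | h
    · rw [h, map_one]; exact dvd_mul_left _ _
    · exact (mem_fac.1 h).2.2.trans (dvd_mul_right _ _)
  have hdec : Dec (rootMul (fun i => P i ^ 1)) r P (LinearEquiv.refl F _) := ⟨hirr, hmon, hP, fun v i => rfl⟩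
  have hcount : ∀ f : fac F r, Fintype.card {i // P i = f} = a f := by
    intro f
    have e : {i // P i = f} ≃ Fin (a f) :=
      { toFun := fun x => match x with
          | ⟨Sum.inl ⟨g, j⟩, h⟩ => Fin.cast (by have : g = f := Subtype.ext h; rw [this]) j
          | ⟨Sum.inr j, h⟩ => absurd (show (X - C 1 : F[X]) ∈ fac F r by have h' : (X - C 1 : F[X]) = f := h; rw [h']; exact f.2) (X_sub_one_not_mem (F := F) hr hrp)
        invFun := fun j => ⟨Sum.inl ⟨f, j⟩, rfl⟩
        left_inv := by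
          rintro ⟨⟨g, j⟩ | j, h⟩
          · have hg : g = f := Subtype.ext h
            subst hg
            rfl
          · exact absurd (show (X - C 1 : F[X]) ∈ fac F r by have h' : (X - C 1 : F[X]) = f := h; rw [h']; exact f.2) (X_sub_one_not_mem (F := F) hr hrp)
        right_inv := fun j => rfl }
    rw [Fintype.card_congr e, Fintype.card_fin]
  have hmult : mult r (rootMul (fun i => P i ^ 1)) = a := by
    funext f
    rw [mult_dec hdec, hcount]
  haveI : ∀ i, Module.Finite F (AdjoinRoot (P i ^ 1)) := fun i => (AdjoinRoot.powerBasis' ((hmon i).pow _)).finite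
  have hfr : finrank F (∀ i, AdjoinRoot (P i ^ 1)) = n := by
    rw [finrank_dec hr hrp hdec, Finset.sum_congr rfl fun f _ => hcount f]
    have : Fintype.card {i // P i = X - C 1} = n - orderOf (Fintype.card F : ZMod r) * ∑ f, a f := by
      have e : {i // P i = X - C 1} ≃ Fin (n - orderOf (Fintype.card F : ZMod r) * ∑ f, a f) :=
        { toFun := fun x => match x with
            | ⟨Sum.inl ⟨g, j⟩, h⟩ => absurd (show (X - C 1 : F[X]) ∈ fac F r by have h' : (g : F[X]) = X - C 1 := h; rw [← h']; exact g.2) (X_sub_one_not_mem (F := F) hr hrp)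
            | ⟨Sum.inr j, h⟩ => j
          invFun := fun j => ⟨Sum.inr j, rfl⟩
          left_inv := by
            rintro ⟨⟨g, j⟩ | j, h⟩
            · exact absurd (show (X - C 1 : F[X]) ∈ fac F r by have h' : (g : F[X]) = X - C 1 := h; rw [← h']; exact g.2) (X_sub_one_not_mem (F := F) hr hrp)
            · rfl
          right_inv := fun j => rfl }
      rw [Fintype.card_congr e, Fintype.card_fin]
    rw [this]
    exact Nat.sub_add_cancel ha
  let ψ : (∀ i, AdjoinRoot (P i ^ 1)) ≃ₗ[F] (Fin n → F) := LinearEquiv.ofFinrankEq _ _ (by rw [hfr]; simp)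
  let S := rootMul (fun i => P i ^ 1)
  let T : End F (Fin n → F) := (ψ : _ →ₗ[F] (Fin n → F)) ∘ₗ S ∘ₗ (ψ.symm : (Fin n → F) →ₗ[F] _)
  have hT : ∀ v, ψ (S v) = T (ψ v) := by
    intro v
    show _ = ψ (S (ψ.symm (ψ v)))
    rw [LinearEquiv.symm_apply_apply]
  have hTk : ∀ (k : ℕ) v, ψ ((S ^ k) v) = (T ^ k) (ψ v) := by
    intro k
    induction k with
    | zero => intro v; rfl
    | succ k ih => intro v; rw [pow_succ', Module.End.mul_apply, hT, ih, pow_succ', Module.End.mul_apply]
  refine ⟨T, ?_, ?_⟩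
  · apply LinearMap.ext
    intro v
    obtain ⟨v, rfl⟩ := ψ.surjective v
    rw [← hTk]
    have h1 : S ^ r = 1 := rootMul_pow _ hdvd
    rw [h1]; rfl
  · rw [← hmult]
    exact (mult_congr ψ hT).symm

end exist

end CfsgLib.SS2
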