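import Mathlib
import Cfsg.Agent.LibSS2H13
import Cfsg.Agent.LibCntH13

/-! The duality on the irreducible factors of a cyclotomic polynomial (seat helper13). -/

namespace CfsgLib.Dual

open Module Polynomial CfsgLib.Typ CfsgLib.SS2

section ops
variable {F V : Type*} [Field F] [AddCommGroup V] [Module F V]

theorem symm_pow_mul (T : V ≃ₗ[F] V) (n : ℕ) : ((T : V →ₗ[F] V) : End F V) ^ n * ((T.symm : V →ₗ[F] V) : End F V) ^ n = 1 := by
  have h1 : ((T : V →ₗ[F] V) : End F V) * ((T.symm : V →ₗ[F] V) : End F V) = 1 := by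
    apply LinearMap.ext; intro v; exact T.apply_symm_apply v
  have h2 : ((T.symm : V →ₗ[F] V) : End F V) * ((T : V →ₗ[F] V) : End F V) = 1 := by
    apply LinearMap.ext; intro v; exact T.symm_apply_apply v
  rw [← Commute.mul_pow (h1.trans h2.symm), h1, one_pow]

theorem aeval_reflect (T : V ≃ₗ[F] V) (N : ℕ) (f : F[X]) (hf : f.natDegree ≤ N) :
    ((T : V →ₗ[F] V) : End F V) ^ N * aeval ((T.symm : V →ₗ[F] V) : End F V) f = aeval ((T : V →ₗ[F] V) : End F V) (reflect N f) := by
  refine induction_with_natDegree_le (fun f => ((T : V →ₗ[F] V) : End F V) ^ N * aeval ((T.symm : V →ₗ[F] V) : End F V) f = aeval ((T : V →ₗ[F] V) : End F V) (reflect N f)) N ?_ ?_ ?_ f hf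
  · simp
  · intro n r _ hn
    rw [reflect_C_mul_X_pow, revAt_le hn, map_mul, map_mul, map_pow, map_pow, aeval_X, aeval_X, aeval_C, aeval_C]
    obtain ⟨k, rfl⟩ := Nat.exists_eq_add_of_le hn
    rw [Nat.add_sub_cancel_left, ← mul_assoc, ← Algebra.commutes, mul_assoc, add_comm n k, pow_add, mul_assoc (((T : V →ₗ[F] V) : End F V) ^ k), symm_pow_mul, mul_one]
  · intro f g _ _ h1 h2
    rw [map_add, mul_add, h1, h2, reflect_add, map_add]

theorem ker_symm (T : V ≃ₗ[F] V) (f : F[X]) :
    LinearMap.ker (aeval ((T.symm : V →ₗ[F] V) : End F V) f) = LinearMap.ker (aeval ((T : V →ₗ[F] V) : End F V) (reverse f)) := by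
  have h := aeval_reflect T f.natDegree f le_rfl
  have h' : reverse f = reflect f.natDegree f := rfl
  rw [h', ← h]
  ext v
  rw [LinearMap.mem_ker, LinearMap.mem_ker, Module.End.mul_apply]
  constructor
  · intro hv; rw [hv, map_zero]
  · intro hv
    have h2 := symm_pow_mul T.symm f.natDegree
    rw [LinearEquiv.symm_symm] at h2
    have h3 : ((((T.symm : V →ₗ[F] V) : End F V) ^ f.natDegree * ((T : V →ₗ[F] V) : End F V) ^ f.natDegree)) (aeval ((T.symm : V →ₗ[F] V) : End F V) f v) = 0 := by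
      rw [Module.End.mul_apply, hv, map_zero]
    rw [h2, Module.End.one_apply] at h3
    exact h3

theorem ker_C_mul (T : End F V) {c : F} (hc : c ≠ 0) (f : F[X]) : LinearMap.ker (aeval T (C c * f)) = LinearMap.ker (aeval T f) := by
  ext v
  rw [LinearMap.mem_ker, LinearMap.mem_ker, map_mul, aeval_C, Module.End.mul_apply, Module.algebraMap_end_apply, smul_eq_zero]
  constructor
  · rintro (h | h)
    · exact absurd h hc
    · exact h
  · intro h; exact Or.inr h

end ops

section rev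
variable {F : Type*} [Field F]

theorem reverse_reverse {f : F[X]} (h0 : f.coeff 0 ≠ 0) : reverse (reverse f) = f := by
  have hd : (reverse f).natDegree = f.natDegree := by
    rw [reverse_natDegree, natTrailingDegree_eq_zero_of_constantCoeff_ne_zero h0, Nat.sub_zero]
  ext n
  rw [coeff_reverse, coeff_reverse, hd, revAt_invol]

theorem reverse_map {σ : F →+* F} (f : F[X]) : reverse (f.map σ) = (reverse f).map σ := by
  ext n
  rw [coeff_reverse, coeff_map, coeff_map, coeff_reverse, natDegree_map]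

theorem reverse_C_mul (c : F) (f : F[X]) : reverse (C c * f) = C c * reverse f := by
  rw [reverse_mul_of_domain, reverse_C]

end rev

theorem prim_pow_eq {L : Type*} [CommRing L] {ζ : L} {r : ℕ} (h : IsPrimitiveRoot ζ r) (hr : 0 < r) {a b : ℕ} (hab : ζ ^ a = ζ ^ b) : (a : ZMod r) = b := by
  have e : ∀ a, ζ ^ (a % r) = ζ ^ a := fun a => by
    conv_rhs => rw [← Nat.div_add_mod a r, pow_add, pow_mul, h.pow_eq_one, one_pow, one_mul]
  rw [← e a, ← e b] at hab
  exact (ZMod.natCast_eq_natCast_iff' _ _ _).2 (h.pow_inj (Nat.mod_lt _ hr) (Nat.mod_lt _ hr) hab)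

section dual
variable {F : Type*} [Field F] [Fintype F] {p r : ℕ} [Fact p.Prime] [CharP F p] (hr : r.Prime) (hrp : r ≠ p)

/-- the dual factor -/
noncomputable def du (r Q : ℕ) (f : F[X]) : F[X] := minpoly F ((AdjoinRoot.root f) ^ ((r - 1) * Q))

include p hr hrp

theorem root_prim {f : F[X]} (hf : f ∈ fac F r) [Fact (Irreducible f)] : IsPrimitiveRoot (AdjoinRoot.root f) r := by
  haveI : CharP (AdjoinRoot f) p := charP_of_injective_algebraMap (algebraMap F (AdjoinRoot f)).injective p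
  haveI : NeZero ((r : ℕ) : AdjoinRoot f) := ⟨by
    rw [Ne, CharP.cast_eq_zero_iff (AdjoinRoot f) p]
    intro h
    exact hrp ((Nat.prime_dvd_prime_iff_eq (Fact.out : p.Prime) hr).1 h).symm⟩
  rw [← isRoot_cyclotomic_iff, IsRoot, ← map_cyclotomic r (algebraMap F (AdjoinRoot f)), eval_map_algebraMap]
  obtain ⟨g, hg⟩ := (mem_fac.1 hf).2.2
  rw [hg, map_mul, AdjoinRoot.aeval_eq, AdjoinRoot.mk_self, zero_mul]

theorem minpoly_mem_fac {L : Type*} [Field L] [Algebra F L] [FiniteDimensional F L] {μ : L} (hμ : IsPrimitiveRoot μ r) : minpoly F μ ∈ fac F r := by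
  haveI : CharP L p := charP_of_injective_algebraMap (algebraMap F L).injective p
  haveI : NeZero ((r : ℕ) : L) := ⟨by
    rw [Ne, CharP.cast_eq_zero_iff L p]
    intro h
    exact hrp ((Nat.prime_dvd_prime_iff_eq (Fact.out : p.Prime) hr).1 h).symm⟩
  have hint : IsIntegral F μ := IsIntegral.of_finite F μ
  rw [mem_fac]
  refine ⟨minpoly.irreducible hint, minpoly.monic hint, minpoly.dvd F μ ?_⟩
  rw [← isRoot_cyclotomic_iff, IsRoot, ← map_cyclotomic r (algebraMap F L), eval_map_algebraMap] at hμ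
  exact hμ

variable {Q k : ℕ} (hQ : Q = p ^ k)
include hQ

theorem cop : ((r - 1) * Q).Coprime r := by
  subst hQ
  refine Nat.Coprime.mul_left ?_ ?_
  · have h2 := hr.two_le
    have : Nat.Coprime (r - 1) (r - 1 + 1) := by simp
    rwa [Nat.sub_add_cancel (by omega)] at this
  · exact Nat.Coprime.pow_left _ ((Nat.coprime_primes (Fact.out : p.Prime) hr).2 hrp.symm)

theorem du_mem {f : F[X]} (hf : f ∈ fac F r) : du r Q f ∈ fac F r := by
  haveI : Fact (Irreducible f) := ⟨(mem_fac.1 hf).1⟩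
  haveI : FiniteDimensional F (AdjoinRoot f) := (AdjoinRoot.powerBasis' (mem_fac.1 hf).2.1).finite
  exact minpoly_mem_fac hr hrp ((root_prim hr hrp hf).pow_of_coprime _ (cop hr hrp hQ))

/-- the dual factor divides the twisted reverse -/
theorem du_dvd {σ : F →+* F} (hσ : ∀ x, σ x = x ^ Q) {f : F[X]} (hf : f ∈ fac F r) : du r Q f ∣ (reverse f).map σ := by
  haveI : Fact (Irreducible f) := ⟨(mem_fac.1 hf).1⟩
  haveI : FiniteDimensional F (AdjoinRoot f) := (AdjoinRoot.powerBasis' (mem_fac.1 hf).2.1).finite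
  haveI : CharP (AdjoinRoot f) p := charP_of_injective_algebraMap (algebraMap F (AdjoinRoot f)).injective p
  have hprim := root_prim hr hrp hf
  set lam := AdjoinRoot.root f with hlam
  have h1 : lam * lam ^ (r - 1) = 1 := by
    rw [← pow_succ', Nat.sub_add_cancel hr.one_le, hprim.pow_eq_one]
  letI : Invertible lam := ⟨lam ^ (r - 1), by rw [mul_comm, h1], h1⟩
  have h2 : ⅟lam = lam ^ (r - 1) := rfl
  have h3 : aeval (lam ^ (r - 1)) (reverse f) = 0 := by
    have h4 := eval₂_reverse_mul_pow (algebraMap F (AdjoinRoot f)) lam f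
    have h5 : eval₂ (algebraMap F (AdjoinRoot f)) lam f = 0 := by
      have := AdjoinRoot.aeval_eq (f := f) f
      rw [AdjoinRoot.mk_self] at this
      exact this
    rw [h5, h2] at h4
    exact (mul_eq_zero.1 h4).resolve_right (pow_ne_zero _ (left_ne_zero_of_mul_eq_one h1))
  apply minpoly.dvd
  subst hQ
  have h6 := map_aeval_eq_aeval_map (φ := σ) (ψ := iterateFrobenius (AdjoinRoot f) p k) (by
    apply RingHom.ext
    intro x
    rw [RingHom.comp_apply, RingHom.comp_apply, hσ, iterateFrobenius_def, map_pow]) (reverse f) (lam ^ (r - 1))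
  rw [h3, map_zero, iterateFrobenius_def, ← pow_mul] at h6
  exact h6.symm

theorem du_eq {σ : F →+* F} (hσ : ∀ x, σ x = x ^ Q) {f : F[X]} (hf : f ∈ fac F r) : ∃ c : F, c ≠ 0 ∧ (reverse f).map σ = C c * du r Q f := by
  have hm := mem_fac.1 (du_mem hr hrp hQ hf)
  have h0 : (reverse f).map σ ≠ 0 := by
    rw [Ne, Polynomial.map_eq_zero, reverse_eq_zero]
    exact (mem_fac.1 hf).1.ne_zero
  refine ⟨((reverse f).map σ).leadingCoeff, leadingCoeff_ne_zero.2 h0, ?_⟩
  refine eq_leadingCoeff_mul_of_monic_of_dvd_of_natDegree_le hm.2.1 (du_dvd hr hrp hQ hσ hf) ?_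
  rw [deg_fac hr hrp (du_mem hr hrp hQ hf), ← deg_fac hr hrp hf, natDegree_map]
  exact reverse_natDegree_le f

omit hQ in
theorem coeff_zero_ne {f : F[X]} (hf : f ∈ fac F r) : f.coeff 0 ≠ 0 := by
  intro h
  have h1 : X ∣ f := X_dvd_iff.2 h
  have h2 := h1.trans (mem_fac.1 hf).2.2
  have h3 : X ∣ (X ^ r - 1 : F[X]) := by
    haveI : Fact r.Prime := ⟨hr⟩
    rw [← cyclotomic_prime_mul_X_sub_one F r]
    exact h2.trans (dvd_mul_right _ _)
  rw [X_dvd_iff, coeff_sub, coeff_X_pow, if_neg hr.ne_zero.symm, coeff_one_zero] at h3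
  norm_num at h3

theorem du_du {σ : F →+* F} (hσ : ∀ x, σ x = x ^ Q) (hσσ : ∀ x, σ (σ x) = x) {f : F[X]} (hf : f ∈ fac F r) : du r Q (du r Q f) = f := by
  obtain ⟨c, hc, h1⟩ := du_eq hr hrp hQ hσ hf
  obtain ⟨c', hc', h2⟩ := du_eq hr hrp hQ hσ (du_mem hr hrp hQ hf)
  have h3 : (reverse ((reverse f).map σ)).map σ = f := by
    rw [reverse_map, Polynomial.map_map, reverse_reverse (coeff_zero_ne hr hrp hf)]
    have : σ.comp σ = RingHom.id F := RingHom.ext hσσ
    rw [this, Polynomial.map_id]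
  rw [h1, reverse_C_mul, Polynomial.map_mul, map_C, h2, ← mul_assoc, ← C_mul] at h3
  have hm := mem_fac.1 (du_mem hr hrp hQ (du_mem hr hrp hQ hf))
  have hm' := mem_fac.1 hf
  refine eq_of_monic_of_associated hm.2.1 hm'.2.1 ?_
  refine ((hm.1.associated_of_dvd hm'.1 ?_))
  exact ⟨_, by rw [mul_comm]; exact h3.symm⟩

/-- self-duality from a congruence -/
theorem du_self {f : F[X]} (hf : f ∈ fac F r) {j : ℕ} (hj : -(Q : ZMod r) = (Fintype.card F : ZMod r) ^ j) : du r Q f = f := by
  haveI : Fact (Irreducible f) := ⟨(mem_fac.1 hf).1⟩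
  haveI : FiniteDimensional F (AdjoinRoot f) := (AdjoinRoot.powerBasis' (mem_fac.1 hf).2.1).finite
  have hprim := root_prim hr hrp hf
  have hm := mem_fac.1 (du_mem hr hrp hQ hf)
  have hm' := mem_fac.1 hf
  refine eq_of_monic_of_associated hm.2.1 hm'.2.1 (hm.1.associated_of_dvd hm'.1 ?_)
  apply minpoly.dvd
  have h1 : (AdjoinRoot.root f) ^ ((r - 1) * Q) = (AdjoinRoot.root f) ^ (Fintype.card F ^ j) := by
    rw [← Nat.div_add_mod ((r - 1) * Q) r, ← Nat.div_add_mod (Fintype.card F ^ j) r, pow_add, pow_add, pow_mul, pow_mul, hprim.pow_eq_one, one_pow, one_pow, one_mul, one_mul]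
    congr 1
    have h2 : (((r - 1) * Q : ℕ) : ZMod r) = ((Fintype.card F ^ j : ℕ) : ZMod r) := by
      rw [Nat.cast_mul, Nat.cast_sub hr.one_le, Nat.cast_pow, ← hj, ZMod.natCast_self]; ring
    exact (ZMod.natCast_eq_natCast_iff' _ _ _).1 h2
  have h3 : ∀ j : ℕ, aeval ((AdjoinRoot.root f) ^ (Fintype.card F ^ j)) f = 0 := by
    intro j
    induction j with
    | zero =>
      rw [pow_zero, pow_one, AdjoinRoot.aeval_eq, AdjoinRoot.mk_self]
    | succ j ih =>
      have h4 := Polynomial.aeval_algHom_apply (FiniteField.frobeniusAlgHom F (AdjoinRoot f)) ((AdjoinRoot.root f) ^ (Fintype.card F ^ j)) f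
      rw [ih, map_zero, FiniteField.coe_frobeniusAlgHom] at h4
      rw [pow_succ, pow_mul]
      exact h4
  rw [h1]
  exact h3 j

theorem exists_of_du_self {f : F[X]} (hf : f ∈ fac F r) (h : du r Q f = f) : ∃ j, -(Q : ZMod r) = (Fintype.card F : ZMod r) ^ j := by
  classical
  haveI : Fact (Irreducible f) := ⟨(mem_fac.1 hf).1⟩
  haveI : FiniteDimensional F (AdjoinRoot f) := (AdjoinRoot.powerBasis' (mem_fac.1 hf).2.1).finite
  have hprim := root_prim hr hrp hf
  have h3 : ∀ j : ℕ, aeval ((AdjoinRoot.root f) ^ (Fintype.card F ^ j)) f = 0 := by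
    intro j
    induction j with
    | zero =>
      rw [pow_zero, pow_one, AdjoinRoot.aeval_eq, AdjoinRoot.mk_self]
    | succ j ih =>
      have h4 := Polynomial.aeval_algHom_apply (FiniteField.frobeniusAlgHom F (AdjoinRoot f)) ((AdjoinRoot.root f) ^ (Fintype.card F ^ j)) f
      rw [ih, map_zero, FiniteField.coe_frobeniusAlgHom] at h4
      rw [pow_succ, pow_mul]
      exact h4
  set i := orderOf (Fintype.card F : ZMod r) with hi
  have hdeg : f.natDegree = i := deg_fac hr hrp hf
  let φ : ℕ → AdjoinRoot f := fun j => (AdjoinRoot.root f) ^ (Fintype.card F ^ j)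
  have hinj : Set.InjOn φ (Finset.range i : Set ℕ) := by
    intro a ha b hb hab
    rw [Finset.coe_range] at ha hb
    have h5 := prim_pow_eq hprim hr.pos hab
    rw [Nat.cast_pow, Nat.cast_pow] at h5
    exact pow_injOn_Iio_orderOf ha hb h5
  have hf0 : f.map (algebraMap F (AdjoinRoot f)) ≠ 0 := by
    rw [Ne, Polynomial.map_eq_zero]; exact (mem_fac.1 hf).1.ne_zero
  have hroot : ∀ x, x ∈ (f.map (algebraMap F (AdjoinRoot f))).roots.toFinset ↔ aeval x f = 0 := by
    intro x
    rw [Multiset.mem_toFinset, mem_roots hf0, IsRoot, eval_map_algebraMap]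
  have hsub : (Finset.range i).image φ ⊆ (f.map (algebraMap F (AdjoinRoot f))).roots.toFinset := by
    intro x hx
    rw [Finset.mem_image] at hx
    obtain ⟨j, -, rfl⟩ := hx
    rw [hroot]
    exact h3 j
  have hcard : (f.map (algebraMap F (AdjoinRoot f))).roots.toFinset.card ≤ ((Finset.range i).image φ).card := by
    rw [Finset.card_image_of_injOn hinj, Finset.card_range, ← hdeg, ← natDegree_map (algebraMap F (AdjoinRoot f))]
    exact (Multiset.toFinset_card_le _).trans (card_roots' _)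
  have heq := Finset.eq_of_subset_of_card_le hsub hcard
  have hμ : aeval ((AdjoinRoot.root f) ^ ((r - 1) * Q)) f = 0 := by
    have := minpoly.aeval F ((AdjoinRoot.root f) ^ ((r - 1) * Q))
    have h6 : minpoly F ((AdjoinRoot.root f) ^ ((r - 1) * Q)) = f := h
    rwa [h6] at this
  rw [← hroot, ← heq, Finset.mem_image] at hμ
  obtain ⟨j, -, hj⟩ := hμ
  refine ⟨j, ?_⟩
  have h7 := prim_pow_eq hprim hr.pos hj
  rw [Nat.cast_pow, Nat.cast_mul, Nat.cast_sub hr.one_le, ZMod.natCast_self] at h7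
  rw [h7]; push_cast; ring

end dual

end CfsgLib.Dual
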