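import Mathlib
import Cfsg.Prelude.Def_JordanBlocks
import Cfsg.Agent.LibTypH13

/-! Jordan types of unipotent operators (seat helper13). -/

namespace CfsgLib.Jor

open Module Polynomial CfsgLib.Typ

universe u v w

section parts

/-- sum of truncated parts -/
def sm (S : Multiset ℕ) (k : ℕ) : ℕ := (S.map (fun a => min a k)).sum

theorem sm_step (S : Multiset ℕ) {j : ℕ} (hj : 1 ≤ j) : sm S (j - 1) + sm S (j + 1) + S.count j = 2 * sm S j := by
  unfold sm
  induction S using Multiset.induction_on with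
  | empty => simp
  | cons a S ih =>
    rw [Multiset.map_cons, Multiset.map_cons, Multiset.map_cons, Multiset.sum_cons, Multiset.sum_cons, Multiset.sum_cons, Multiset.count_cons]
    by_cases h : j = a
    · rw [if_pos h]; omega
    · rw [if_neg h]; omega

theorem sm_inj {S S' : Multiset ℕ} (hS : ∀ a ∈ S, 0 < a) (hS' : ∀ a ∈ S', 0 < a) (h : ∀ k, sm S k = sm S' k) : S = S' := by
  ext j
  rcases Nat.eq_zero_or_pos j with hj | hj
  · subst hj
    rw [Multiset.count_eq_zero_of_notMem (fun h0 => lt_irrefl 0 (hS 0 h0)), Multiset.count_eq_zero_of_notMem (fun h0 => lt_irrefl 0 (hS' 0 h0))]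
  · have h1 := sm_step S hj
    have h2 := sm_step S' hj
    rw [h, h, h] at h1
    omega

end parts

section ops
variable {F : Type u} {V : Type v} [Field F] [AddCommGroup V] [Module F V]

/-- kernel dimensions of the powers of `T - 1` -/
noncomputable def nk (T : End F V) (k : ℕ) : ℕ := finrank F (LinearMap.ker ((T - 1) ^ k))

theorem aeval_X_sub (T : End F V) (k : ℕ) : aeval T ((X - C 1 : F[X]) ^ k) = (T - 1) ^ k := by
  rw [map_pow, map_sub, aeval_X, aeval_C, map_one]

theorem nk_eq_kd (T : End F V) (k : ℕ) : nk T k = kd T (X - C 1) k := by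
  unfold nk kd
  rw [aeval_X_sub]

theorem nk_congr {V' : Type*} [AddCommGroup V'] [Module F V'] {T : End F V} {T' : End F V'} (ψ : V ≃ₗ[F] V') (hψ : ∀ v, ψ (T v) = T' (ψ v)) (k : ℕ) :
    nk T k = nk T' k := by
  rw [nk_eq_kd, nk_eq_kd, kd_congr ψ hψ]

/-- decompositions of unipotent operators -/
theorem exists_dec [FiniteDimensional F V] {T : End F V} {M : ℕ} (hT : (T - 1) ^ M = 0) : ∃ (ι : Type u) (_ : Fintype ι) (e : ι → ℕ), (∀ i, 0 < e i) ∧ (∀ i, e i ≤ M) ∧
    ∃ φ : V ≃ₗ[F] (∀ i, AdjoinRoot ((X - C 1 : F[X]) ^ e i)), ∀ v i, φ (T v) i = AdjoinRoot.root ((X - C 1 : F[X]) ^ e i) * φ v i := by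
  obtain ⟨ι, hι, P, e, hirr, hmon, he, φ, hφ⟩ := CfsgLib.Str.exists_decomp T
  have hdvd : ∀ i, P i ^ e i ∣ (X - C 1 : F[X]) ^ M := by
    intro i
    obtain ⟨v, hv⟩ := φ.surjective 1
    have h1 := aeval_comp φ hφ ((X - C 1) ^ M) v i
    rw [aeval_X_sub, hT, LinearMap.zero_apply, map_zero, hv, Pi.one_apply, mul_one, Pi.zero_apply] at h1
    exact (AdjoinRoot.mk_eq_zero).1 h1.symm
  have hP : P = fun _ => X - C 1 := by
    funext i
    have h1 : P i ∣ (X - C 1 : F[X]) ^ M := (dvd_pow_self _ (he i).ne').trans (hdvd i)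
    exact eq_of_monic_of_associated (hmon i) (monic_X_sub_C 1) ((hirr i).associated_of_dvd (irreducible_X_sub_C 1) ((hirr i).prime.dvd_of_dvd_pow h1))
  subst hP
  refine ⟨ι, hι, e, he, fun i => ?_, φ, hφ⟩
  exact (pow_dvd_pow_iff (X_sub_C_ne_zero 1) (irreducible_X_sub_C (1 : F)).not_isUnit).1 (hdvd i)

theorem nk_dec {ι : Type w} [Fintype ι] {e : ι → ℕ} {T : End F V} (φ : V ≃ₗ[F] (∀ i, AdjoinRoot ((X - C 1 : F[X]) ^ e i)))
    (hφ : ∀ v i, φ (T v) i = AdjoinRoot.root ((X - C 1 : F[X]) ^ e i) * φ v i) (k : ℕ) : nk T k = ∑ i, min (e i) k := by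
  classical
  rw [nk_eq_kd, kd_eq (p := fun _ => X - C 1) (fun _ => irreducible_X_sub_C (1 : F)) (fun _ => monic_X_sub_C (1 : F)) φ hφ (monic_X_sub_C (1 : F)) (irreducible_X_sub_C (1 : F))]
  refine Finset.sum_congr rfl fun i _ => ?_
  rw [if_pos rfl, natDegree_X_sub_C, one_mul]

theorem finrank_dec {ι : Type w} [Fintype ι] {e : ι → ℕ} (φ : V ≃ₗ[F] (∀ i, AdjoinRoot ((X - C 1 : F[X]) ^ e i))) : finrank F V = ∑ i, e i := by
  haveI : ∀ i, Module.Finite F (AdjoinRoot ((X - C 1 : F[X]) ^ e i)) := fun i => (AdjoinRoot.powerBasis' ((monic_X_sub_C (1 : F)).pow _)).finite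
  rw [φ.finrank_eq, Module.finrank_pi_fintype]
  refine Finset.sum_congr rfl fun i _ => ?_
  rw [finrank_adjoinRoot ((monic_X_sub_C (1 : F)).pow _), (monic_X_sub_C (1 : F)).natDegree_pow, natDegree_X_sub_C, mul_one]

theorem exists_parts [FiniteDimensional F V] {T : End F V} {M : ℕ} (hT : (T - 1) ^ M = 0) :
    ∃ S : Multiset ℕ, (∀ a ∈ S, 0 < a ∧ a ≤ M) ∧ S.sum = finrank F V ∧ ∀ k, nk T k = sm S k := by
  obtain ⟨ι, hι, e, he, heM, φ, hφ⟩ := exists_dec hT
  refine ⟨Finset.univ.val.map e, ?_, ?_, ?_⟩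
  · intro a ha
    rw [Multiset.mem_map] at ha
    obtain ⟨i, -, rfl⟩ := ha
    exact ⟨he i, heM i⟩
  · rw [finrank_dec φ]; rfl
  · intro k
    rw [nk_dec φ hφ]
    unfold sm
    rw [Multiset.map_map]; rfl

theorem conj_of_nk [FiniteDimensional F V] {V' : Type*} [AddCommGroup V'] [Module F V'] [FiniteDimensional F V'] {T : End F V} {T' : End F V'} {M M' : ℕ}
    (hT : (T - 1) ^ M = 0) (hT' : (T' - 1) ^ M' = 0) (h : ∀ k, nk T k = nk T' k) : ∃ ψ : V ≃ₗ[F] V', ∀ v, ψ (T v) = T' (ψ v) := by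
  classical
  obtain ⟨ι, hι, e, he, heM, φ, hφ⟩ := exists_dec hT
  obtain ⟨ι', hι', e', he', heM', φ', hφ'⟩ := exists_dec hT'
  refine conj_of_kd T T' fun f hf hfi k => ?_
  by_cases hf1 : f = X - C 1
  · subst hf1
    rw [← nk_eq_kd, ← nk_eq_kd, h]
  · rw [kd_eq (p := fun _ => X - C 1) (fun _ => irreducible_X_sub_C (1 : F)) (fun _ => monic_X_sub_C (1 : F)) φ hφ hf hfi,
      kd_eq (p := fun _ => X - C 1) (fun _ => irreducible_X_sub_C (1 : F)) (fun _ => monic_X_sub_C (1 : F)) φ' hφ' hf hfi,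
      Finset.sum_eq_zero fun i _ => if_neg (fun h => hf1 h.symm), Finset.sum_eq_zero fun i _ => if_neg (fun h => hf1 h.symm)]

end ops

section model
variable {F : Type u} [Field F]

theorem finrank_coord {ι : Type*} [Fintype ι] (P : ι → Prop) [DecidablePred P] (W : Submodule F (ι → F)) (hW : ∀ v, v ∈ W ↔ ∀ i, ¬ P i → v i = 0) :
    finrank F W = Fintype.card {i // P i} := by
  let L : W →ₗ[F] ({i // P i} → F) := { toFun := fun v i => (v : ι → F) i.1, map_add' := fun _ _ => rfl, map_smul' := fun _ _ => rfl }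
  have hL : Function.Bijective L := by
    constructor
    · rw [injective_iff_map_eq_zero]
      rintro ⟨v, hv⟩ h
      apply Subtype.ext
      funext i
      by_cases hi : P i
      · exact congrFun h ⟨i, hi⟩
      · exact (hW v).1 hv i hi
    · intro w
      refine ⟨⟨fun i => if h : P i then w ⟨i, h⟩ else 0, ?_⟩, ?_⟩
      · rw [hW]
        intro i hi
        rw [dif_neg hi]
      · funext i
        show (if h : P i.1 then w ⟨i.1, h⟩ else 0) = w i
        rw [dif_pos i.2]
  rw [(LinearEquiv.ofBijective L hL).finrank_eq, Module.finrank_fintype_fun_eq_card]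

variable {t : ℕ} (d : Fin t → ℕ)

/-- the Jordan operator -/
def JN : End F ((Σ k : Fin t, Fin (d k)) → F) where
  toFun v x := if 0 < (x.2 : ℕ) then v ⟨x.1, ⟨x.2 - 1, by have := x.2.2; omega⟩⟩ else 0
  map_add' u v := by
    funext x
    by_cases h : 0 < (x.2 : ℕ) <;> simp [h]
  map_smul' c v := by
    funext x
    by_cases h : 0 < (x.2 : ℕ) <;> simp [h]

theorem JN_pow (m : ℕ) (v : (Σ k : Fin t, Fin (d k)) → F) (x : Σ k : Fin t, Fin (d k)) :
    ((JN d) ^ m) v x = if m ≤ (x.2 : ℕ) then v ⟨x.1, ⟨x.2 - m, by have := x.2.2; omega⟩⟩ else 0 := by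
  induction m generalizing x with
  | zero => rw [if_pos (Nat.zero_le _)]; rfl
  | succ m ih =>
    rw [pow_succ', Module.End.mul_apply]
    show (if 0 < (x.2 : ℕ) then ((JN d) ^ m) v ⟨x.1, ⟨x.2 - 1, by have := x.2.2; omega⟩⟩ else 0) = _
    by_cases h : 0 < (x.2 : ℕ)
    · rw [if_pos h, ih]
      by_cases h2 : m + 1 ≤ (x.2 : ℕ)
      · rw [if_pos h2, if_pos (show m ≤ ((⟨x.2 - 1, by have := x.2.2; omega⟩ : Fin (d x.1)) : ℕ) by simp only; omega)]
        congr 3
        simp only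
        omega
      · rw [if_neg h2, if_neg (show ¬ m ≤ ((⟨x.2 - 1, by have := x.2.2; omega⟩ : Fin (d x.1)) : ℕ) by simp only; omega)]
    · rw [if_neg h, if_neg (by omega)]

theorem finrank_ker_JN (m : ℕ) : finrank F (LinearMap.ker ((JN d : End F _) ^ m)) = ∑ k, min (d k) m := by
  classical
  rw [finrank_coord (fun x : Σ k : Fin t, Fin (d k) => d x.1 ≤ x.2 + m)]
  · have e : {x : Σ k : Fin t, Fin (d k) // d x.1 ≤ x.2 + m} ≃ Σ k : Fin t, {j : Fin (d k) // d k ≤ j + m} :=
      { toFun := fun x => ⟨x.1.1, ⟨x.1.2, x.2⟩⟩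
        invFun := fun x => ⟨⟨x.1, x.2.1⟩, x.2.2⟩
        left_inv := fun _ => rfl
        right_inv := fun _ => rfl }
    rw [Fintype.card_congr e, Fintype.card_sigma]
    refine Finset.sum_congr rfl fun k _ => ?_
    have e2 : {j : Fin (d k) // d k ≤ j + m} ≃ Fin (min (d k) m) :=
      { toFun := fun j => ⟨d k - 1 - j.1, by have := j.1.2; have := j.2; omega⟩
        invFun := fun j => ⟨⟨d k - 1 - j, by have := j.2; omega⟩, by have := j.2; simp only; omega⟩
        left_inv := fun j => by apply Subtype.ext; apply Fin.ext; have := j.1.2; simp only; omega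
        right_inv := fun j => by apply Fin.ext; have := j.2; simp only; omega }
    rw [Fintype.card_congr e2, Fintype.card_fin]
  · intro v
    rw [LinearMap.mem_ker]
    constructor
    · rintro h ⟨k, j⟩ hx
      simp only at hx
      have h1 := congrFun h ⟨k, ⟨j + m, by omega⟩⟩
      rw [JN_pow, if_pos (show m ≤ ((⟨j + m, by omega⟩ : Fin (d k)) : ℕ) by simp)] at h1
      have h2 : (⟨k, ⟨((⟨j + m, by omega⟩ : Fin (d k)) : ℕ) - m, by simp only; omega⟩⟩ : Σ k : Fin t, Fin (d k)) = ⟨k, j⟩ := by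
        congr 1
        apply Fin.ext
        simp
      rw [← h2]; exact h1
    · intro h
      funext x
      rw [JN_pow]
      split_ifs with h1
      · exact h _ (by have := x.2.2; simp only; omega)
      · rfl

theorem JN_nil (M : ℕ) (hM : ∀ k, d k ≤ M) : (JN d : End F _) ^ M = 0 := by
  apply LinearMap.ext
  intro v
  funext x
  rw [JN_pow, if_neg (by have := x.2.2; have := hM x.1; omega)]; rfl

theorem toLin_jordan : Matrix.toLin' (Cfsg.jordanTypeMatrix d F) = 1 + JN d := by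
  classical
  apply LinearMap.ext
  intro v
  funext ⟨k, i⟩
  rw [Matrix.toLin'_apply]
  show ∑ y, Cfsg.jordanTypeMatrix d F ⟨k, i⟩ y * v y = v ⟨k, i⟩ + (if 0 < (i : ℕ) then v ⟨k, ⟨i - 1, _⟩⟩ else 0)
  rw [Fintype.sum_sigma, Finset.sum_eq_single k]
  · unfold Cfsg.jordanTypeMatrix
    simp only [Matrix.blockDiagonal'_apply_eq]
    have h1 : ∀ j : Fin (d k), Cfsg.jordanBlock (d k) F i j * v ⟨k, j⟩ = (if i = j then v ⟨k, j⟩ else 0) + (if (i : ℕ) = (j : ℕ) + 1 then v ⟨k, j⟩ else 0) := by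
      intro j
      unfold Cfsg.jordanBlock
      rw [Matrix.of_apply]
      by_cases h : i = j
      · subst h
        rw [if_pos rfl, if_pos rfl, one_mul, if_neg (by omega), add_zero]
      · have h' : (i : ℕ) ≠ j := fun hh => h (Fin.ext hh)
        rw [if_neg h, if_neg h', zero_add]
        by_cases h2 : (i : ℕ) = (j : ℕ) + 1
        · rw [if_pos h2, if_pos h2, one_mul]
        · rw [if_neg h2, if_neg h2, zero_mul]
    rw [Finset.sum_congr rfl fun j _ => h1 j, Finset.sum_add_distrib, Finset.sum_ite_eq, if_pos (Finset.mem_univ _)]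
    congr 1
    by_cases h : 0 < (i : ℕ)
    · rw [if_pos h, Finset.sum_eq_single (⟨(i : ℕ) - 1, by have := i.2; omega⟩ : Fin (d k))]
      · rw [if_pos (by simp only; omega)]
      · intro j _ hj
        rw [if_neg]
        intro h2
        exact hj (Fin.ext (by simp only; omega))
      · intro h2; exact absurd (Finset.mem_univ _) h2
    · rw [if_neg h]
      exact Finset.sum_eq_zero fun j _ => if_neg (by omega)
  · intro k' _ hk'
    refine Finset.sum_eq_zero fun j _ => ?_
    unfold Cfsg.jordanTypeMatrix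
    rw [Matrix.blockDiagonal'_apply_ne _ _ _ hk'.symm, zero_mul]
  · intro h; exact absurd (Finset.mem_univ _) h

theorem nk_jordan (m : ℕ) : nk (Matrix.toLin' (Cfsg.jordanTypeMatrix d F)) m = ∑ k, min (d k) m := by
  unfold nk
  rw [toLin_jordan, add_sub_cancel_left, finrank_ker_JN]

theorem jordan_nil (M : ℕ) (hM : ∀ k, d k ≤ M) : (Matrix.toLin' (Cfsg.jordanTypeMatrix d F) - 1) ^ M = 0 := by
  rw [toLin_jordan, add_sub_cancel_left, JN_nil d M hM]

/-- transport of an operator -/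
theorem exists_transport {V V' : Type*} [AddCommGroup V] [Module F V] [AddCommGroup V'] [Module F V'] (T : End F V) (ψ : V ≃ₗ[F] V') {M : ℕ} (hM : (T - 1) ^ M = 0) :
    ∃ T' : End F V', (T' - 1) ^ M = 0 ∧ (∀ v, ψ (T v) = T' (ψ v)) ∧ ∀ k, nk T' k = nk T k := by
  let T' : End F V' := (ψ : V →ₗ[F] V') ∘ₗ T ∘ₗ (ψ.symm : V' →ₗ[F] V)
  have hT : ∀ v, ψ (T v) = T' (ψ v) := by
    intro v
    show _ = ψ (T (ψ.symm (ψ v)))
    rw [LinearEquiv.symm_apply_apply]
  have hTk : ∀ (k : ℕ) v, ψ (((T - 1) ^ k) v) = ((T' - 1) ^ k) (ψ v) := by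
    intro k
    induction k with
    | zero => intro v; rfl
    | succ k ih =>
      intro v
      rw [pow_succ', Module.End.mul_apply, pow_succ', Module.End.mul_apply, LinearMap.sub_apply, LinearMap.sub_apply, map_sub, hT, ih, Module.End.one_apply, Module.End.one_apply, ih]
  refine ⟨T', ?_, hT, fun k => (nk_congr ψ hT k).symm⟩
  apply LinearMap.ext
  intro v
  obtain ⟨v, rfl⟩ := ψ.surjective v
  rw [← hTk, hM]; simp

theorem exists_type (S : Multiset ℕ) {n M : ℕ} (hn : S.sum = n) (hM : ∀ a ∈ S, a ≤ M) : ∃ T : End F (Fin n → F), (T - 1) ^ M = 0 ∧ ∀ k, nk T k = sm S k := by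
  classical
  let d : Fin S.toList.length → ℕ := S.toList.get
  have hd : ∀ f : ℕ → ℕ, ∑ k, f (d k) = (S.map f).sum := by
    intro f
    have h1 : (List.ofFn (fun k => f (d k))).sum = ∑ k, f (d k) := List.sum_ofFn
    have h2 : List.ofFn (fun k => f (d k)) = S.toList.map f := by
      rw [show (fun k => f (d k)) = f ∘ S.toList.get from rfl, ← List.map_ofFn, List.ofFn_get]
    rw [← h1, h2]
    conv_rhs => rw [← Multiset.coe_toList S]
    rw [Multiset.map_coe, Multiset.sum_coe]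
  have hfr : finrank F ((Σ k, Fin (d k)) → F) = finrank F (Fin n → F) := by
    rw [Module.finrank_fintype_fun_eq_card, Module.finrank_fintype_fun_eq_card, Fintype.card_sigma, Fintype.card_fin]
    simp only [Fintype.card_fin]
    rw [hd (fun x => x), Multiset.map_id', hn]
  obtain ⟨T', h1, -, h2⟩ := exists_transport (Matrix.toLin' (Cfsg.jordanTypeMatrix d F)) (LinearEquiv.ofFinrankEq _ _ hfr) (jordan_nil d M (fun k => hM _ (by
    rw [← Multiset.mem_toList]; exact List.get_mem _ _)))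
  refine ⟨T', h1, fun k => ?_⟩
  rw [h2, nk_jordan, hd (fun a => min a k)]; rfl

end model

end CfsgLib.Jor
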