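import Mathlib
import Cfsg.Agent.LibJorH13
import Cfsg.Agent.LibInvCH13
import Cfsg.Agent.LibClsH13

/-! Classes of elements of order `p` in subgroups of `GL_n` in characteristic `p` (seat helper13). -/

namespace CfsgLib.Jor

open Module Polynomial CfsgLib.Typ

universe u v w

section mat
variable {F : Type u} [Field F] {n : ℕ}

theorem lin_pow (g : GL (Fin n) F) (k : ℕ) : (Matrix.toLin' (g : Matrix (Fin n) (Fin n) F)) ^ k = Matrix.toLin' ((g ^ k : GL (Fin n) F) : Matrix (Fin n) (Fin n) F) := by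
  rw [Units.val_pow_eq_pow_val, Matrix.toLin'_pow]

theorem lin_eq_one (g : GL (Fin n) F) : Matrix.toLin' (g : Matrix (Fin n) (Fin n) F) = 1 ↔ g = 1 := by
  constructor
  · intro h
    apply Units.ext
    apply Matrix.toLin'.injective
    rw [h, Units.val_one, Matrix.toLin'_one]; rfl
  · rintro rfl
    rw [Units.val_one, Matrix.toLin'_one]; rfl

theorem exists_gl {r : ℕ} (hr : r ≠ 0) {T : End F (Fin n → F)} (hT : T ^ r = 1) : ∃ g : GL (Fin n) F, Matrix.toLin' (g : Matrix (Fin n) (Fin n) F) = T := by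
  have h1 : IsUnit T := IsUnit.of_pow_eq_one hT hr
  have h2 : IsUnit (LinearMap.toMatrix' T) := by
    have := h1.map (LinearMap.toMatrixAlgEquiv' : End F (Fin n → F) ≃ₐ[F] Matrix (Fin n) (Fin n) F)
    exact this
  obtain ⟨g, hg⟩ := h2
  exact ⟨g, by rw [hg, Matrix.toLin'_toMatrix']⟩

theorem lin_conj {g h : GL (Fin n) F} (hc : IsConj g h) : ∃ ψ : (Fin n → F) ≃ₗ[F] (Fin n → F),
    ∀ v, ψ (Matrix.toLin' (g : Matrix (Fin n) (Fin n) F) v) = Matrix.toLin' (h : Matrix (Fin n) (Fin n) F) (ψ v) := by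
  rw [isConj_iff] at hc
  obtain ⟨c, hc⟩ := hc
  let ψ : (Fin n → F) ≃ₗ[F] (Fin n → F) := LinearEquiv.ofLinear (Matrix.toLin' (c : Matrix (Fin n) (Fin n) F)) (Matrix.toLin' ((c⁻¹ : GL (Fin n) F) : Matrix (Fin n) (Fin n) F))
    (by rw [← Matrix.toLin'_mul, ← Units.val_mul, mul_inv_cancel, Units.val_one, Matrix.toLin'_one]) (by rw [← Matrix.toLin'_mul, ← Units.val_mul, inv_mul_cancel, Units.val_one, Matrix.toLin'_one])
  refine ⟨ψ, fun v => ?_⟩
  show Matrix.toLin' (c : Matrix (Fin n) (Fin n) F) (Matrix.toLin' (g : Matrix (Fin n) (Fin n) F) v) = Matrix.toLin' (h : Matrix (Fin n) (Fin n) F) (Matrix.toLin' (c : Matrix (Fin n) (Fin n) F) v)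
  rw [← LinearMap.comp_apply, ← LinearMap.comp_apply, ← Matrix.toLin'_mul, ← Matrix.toLin'_mul, ← Units.val_mul, ← Units.val_mul, ← hc, inv_mul_cancel_right]

theorem sub_pow_p {V : Type*} [AddCommGroup V] [Module F V] {p : ℕ} [Fact p.Prime] [CharP F p] (T : End F V) : (T - 1) ^ p = T ^ p - 1 := by
  have h : ((X - C 1 : F[X]) ^ p) = X ^ p - 1 := by
    rw [sub_pow_char, map_one, one_pow]
  rw [← aeval_X_sub, h, map_sub, map_pow, aeval_X, map_one]

theorem pow_eq_one_iff_nil {V : Type*} [AddCommGroup V] [Module F V] {p : ℕ} [Fact p.Prime] [CharP F p] (T : End F V) : T ^ p = 1 ↔ (T - 1) ^ p = 0 := by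
  rw [sub_pow_p, sub_eq_zero]

theorem nk_one {V : Type*} [AddCommGroup V] [Module F V] [FiniteDimensional F V] (k : ℕ) : nk (1 : End F V) k = finrank F V * min 1 k := by
  unfold nk
  rcases Nat.eq_zero_or_pos k with hk | hk
  · subst hk
    rw [pow_zero]
    have h1 : LinearMap.ker (1 : End F V) = ⊥ := by rw [LinearMap.ker_eq_bot']; intro v hv; exact hv
    rw [h1, finrank_bot]; simp
  · rw [sub_self, zero_pow hk.ne', LinearMap.ker_zero, finrank_top, min_eq_left (by omega), mul_one]

theorem eq_one_of_nk {V : Type*} [AddCommGroup V] [Module F V] [FiniteDimensional F V] {T : End F V} (h : nk T 1 = finrank F V) : T = 1 := by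
  unfold nk at h
  rw [pow_one] at h
  have h1 := Submodule.eq_top_of_finrank_eq h
  rw [LinearMap.ker_eq_top, sub_eq_zero] at h1
  exact h1

theorem sm_replicate (n k : ℕ) : sm (Multiset.replicate n 1) k = n * min 1 k := by
  unfold sm
  rw [Multiset.map_replicate, Multiset.sum_replicate, smul_eq_mul]

/-- the trivial partition -/
def ones (n : ℕ) : Nat.Partition n := ⟨Multiset.replicate n 1, fun {i} hi => by rw [Multiset.eq_of_mem_replicate hi]; exact one_pos, by simp⟩

theorem card_order_p {p : ℕ} [Fact p.Prime] [CharP F p] {G : Type*} [Group G] (ρ : G →* GL (Fin n) F) (hρ : Function.Injective ρ)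
    (h1 : ∀ g h, orderOf g = p → orderOf h = p → IsConj (ρ g) (ρ h) → IsConj g h) (h2 : ∀ A : GL (Fin n) F, orderOf A = p → ∃ g, IsConj A (ρ g)) :
    Nat.card {C : ConjClasses G // ∃ g : G, ConjClasses.mk g = C ∧ orderOf g = p} = (Finset.univ.filter (fun μ : Nat.Partition n => ∀ a ∈ μ.parts, a ≤ p)).card - 1 := by
  classical
  have hp1 : 1 ≤ p := (Fact.out : p.Prime).one_le
  have hne1 : p ≠ 1 := (Fact.out : p.Prime).one_lt.ne'
  have hone : ones n ∈ Finset.univ.filter (fun μ : Nat.Partition n => ∀ a ∈ μ.parts, a ≤ p) := by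
    rw [Finset.mem_filter]
    exact ⟨Finset.mem_univ _, fun a ha => by rw [Multiset.eq_of_mem_replicate ha]; exact hp1⟩
  have hnil : ∀ g : GL (Fin n) F, orderOf g = p → (Matrix.toLin' (g : Matrix (Fin n) (Fin n) F) - 1) ^ p = 0 := by
    intro g hg
    rw [← pow_eq_one_iff_nil, lin_pow, lin_eq_one, ← hg, pow_orderOf_eq_one]
  have key := CfsgLib.InvC.card_types (G := G) (fun g => orderOf g = p) (fun g => nk (Matrix.toLin' (ρ g : Matrix (Fin n) (Fin n) F)))
    (((Finset.univ.filter (fun μ : Nat.Partition n => ∀ a ∈ μ.parts, a ≤ p)).erase (ones n)).image (fun μ => sm μ.parts)) ?_ ?_ ?_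
  · rw [key, Finset.card_image_of_injective, Finset.card_erase_of_mem hone]
    intro μ ν h
    apply Nat.Partition.ext
    exact sm_inj (fun a ha => μ.parts_pos ha) (fun a ha => ν.parts_pos ha) (congrFun h)
  · intro g hg
    obtain ⟨S, hS1, hS2, hS3⟩ := exists_parts (hnil (ρ g) (by rw [orderOf_injective ρ hρ]; exact hg))
    rw [Module.finrank_fin_fun] at hS2
    rw [Finset.mem_image]
    refine ⟨⟨S, fun {i} hi => (hS1 i hi).1, hS2⟩, ?_, ?_⟩
    · rw [Finset.mem_erase, Finset.mem_filter]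
      refine ⟨fun h => ?_, Finset.mem_univ _, fun a ha => (hS1 a ha).2⟩
      have h3 : S = Multiset.replicate n 1 := congrArg Nat.Partition.parts h
      have h4 := hS3 1
      rw [h3, sm_replicate, min_self, mul_one] at h4
      have h5 := eq_one_of_nk (T := Matrix.toLin' (ρ g : Matrix (Fin n) (Fin n) F)) (by rw [h4, Module.finrank_fin_fun])
      rw [lin_eq_one] at h5
      have h6 : g = 1 := hρ (by rw [h5, map_one])
      rw [h6, orderOf_one] at hg
      exact hne1 hg.symm
    · funext k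
      exact (hS3 k).symm
  · intro x hx
    rw [Finset.mem_image] at hx
    obtain ⟨μ, hμ, rfl⟩ := hx
    rw [Finset.mem_erase, Finset.mem_filter] at hμ
    obtain ⟨T, hT, hTk⟩ := exists_type (F := F) μ.parts μ.parts_sum hμ.2.2
    rw [← pow_eq_one_iff_nil] at hT
    obtain ⟨A, hA⟩ := exists_gl (Fact.out : p.Prime).ne_zero hT
    have hAo : orderOf A = p := by
      apply orderOf_eq_prime
      · rw [← lin_eq_one, ← lin_pow, hA, hT]
      · intro h3
        rw [← lin_eq_one, hA] at h3
        apply hμ.1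
        apply Nat.Partition.ext
        refine sm_inj (fun a ha => μ.parts_pos ha) (fun a ha => (ones n).parts_pos ha) (fun k => ?_)
        rw [← hTk, h3, nk_one, Module.finrank_fin_fun]
        exact (sm_replicate n k).symm
    obtain ⟨g, hg⟩ := h2 A hAo
    refine ⟨g, ?_, ?_⟩
    · show orderOf g = p
      rw [← orderOf_injective ρ hρ]
      obtain ⟨c, hc⟩ := isConj_iff.1 hg
      have h4 : orderOf (MulAut.conj c A) = orderOf A := MulEquiv.orderOf_eq (MulAut.conj c) A
      rw [MulAut.conj_apply, hc] at h4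
      rw [h4, hAo]
    · funext k
      show nk _ k = sm μ.parts k
      obtain ⟨ψ, hψ⟩ := lin_conj hg
      rw [← hTk, ← hA]
      exact (nk_congr ψ hψ k).symm
  · intro g h hg hh
    constructor
    · intro hc
      obtain ⟨ψ, hψ⟩ := lin_conj (ρ.map_isConj hc)
      funext k
      exact nk_congr ψ hψ k
    · intro hn
      apply h1 g h hg hh
      obtain ⟨ψ, hψ⟩ := conj_of_nk (hnil (ρ g) (by rw [orderOf_injective ρ hρ]; exact hg)) (hnil (ρ h) (by rw [orderOf_injective ρ hρ]; exact hh)) (congrFun hn)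
      exact CfsgLib.Cls.isConj_of_lin ψ (fun v => hψ v)

end mat

end CfsgLib.Jor
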