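import Mathlib
import Cfsg.Agent.LibJor2H13

/-! Jordan types of transposes, inverses and field twists (seat helper13). -/

namespace CfsgLib.Jor

open Module Matrix

section
variable {K : Type*} [Field K] {n : ℕ}

theorem finrank_ker_map [Fintype K] (σ : K →+* K) (M : Matrix (Fin n) (Fin n) K) :
    finrank K (LinearMap.ker (Matrix.toLin' (M.map σ))) = finrank K (LinearMap.ker (Matrix.toLin' M)) := by
  have hσ : Function.Bijective σ := ⟨σ.injective, Finite.surjective_of_injective σ.injective⟩
  have hmul : ∀ v : Fin n → K, (M.map σ) *ᵥ (fun i => σ (v i)) = fun i => σ ((M *ᵥ v) i) := by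
    intro v
    funext i
    simp only [Matrix.mulVec, dotProduct, Matrix.map_apply, map_sum, map_mul]
  have e : LinearMap.ker (Matrix.toLin' M) ≃ LinearMap.ker (Matrix.toLin' (M.map σ)) := by
    refine Equiv.ofBijective (fun v => ⟨fun i => σ (v.1 i), ?_⟩) ⟨?_, ?_⟩
    · have h := v.2
      rw [LinearMap.mem_ker, Matrix.toLin'_apply] at h ⊢
      rw [hmul, h]
      funext i; exact map_zero σ
    · intro v w h
      apply Subtype.ext
      funext i
      exact σ.injective (congrFun (congrArg Subtype.val h) i)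
    · rintro ⟨w, hw⟩
      choose v hv using fun i => hσ.2 (w i)
      have hv' : (fun i => σ (v i)) = w := funext hv
      refine ⟨⟨v, ?_⟩, Subtype.ext hv'⟩
      rw [LinearMap.mem_ker, Matrix.toLin'_apply] at hw ⊢
      rw [← hv', hmul] at hw
      funext i
      apply σ.injective
      rw [Pi.zero_apply, map_zero]
      exact congrFun hw i
  have h1 := Nat.card_congr e
  rw [Module.natCard_eq_pow_finrank (K := K) (V := LinearMap.ker (Matrix.toLin' M)), Module.natCard_eq_pow_finrank (K := K) (V := LinearMap.ker (Matrix.toLin' (M.map σ))), Nat.card_eq_fintype_card] at h1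
  exact (Nat.pow_right_injective (Fintype.one_lt_card (α := K)) h1).symm

theorem nk_mat (M : Matrix (Fin n) (Fin n) K) (k : ℕ) : nk (Matrix.toLin' M) k = finrank K (LinearMap.ker (Matrix.toLin' ((M - 1) ^ k))) := by
  unfold nk
  rw [Matrix.toLin'_pow, map_sub, Matrix.toLin'_one]; rfl

theorem finrank_ker_add_rank (M : Matrix (Fin n) (Fin n) K) : M.rank + finrank K (LinearMap.ker (Matrix.toLin' M)) = n := by
  have h := LinearMap.finrank_range_add_finrank_ker (Matrix.toLin' M)
  rw [Module.finrank_fin_fun] at h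
  exact h

theorem nk_transpose (M : Matrix (Fin n) (Fin n) K) (k : ℕ) : nk (Matrix.toLin' Mᵀ) k = nk (Matrix.toLin' M) k := by
  have h1 := finrank_ker_add_rank ((M - 1) ^ k)
  have h2 := finrank_ker_add_rank ((M - 1) ^ k)ᵀ
  rw [Matrix.rank_transpose] at h2
  rw [Matrix.transpose_pow, Matrix.transpose_sub, Matrix.transpose_one] at h2
  rw [nk_mat, nk_mat]
  omega

theorem nk_map [Fintype K] (σ : K →+* K) (M : Matrix (Fin n) (Fin n) K) (k : ℕ) : nk (Matrix.toLin' (M.map σ)) k = nk (Matrix.toLin' M) k := by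
  have h : (M.map σ - 1) ^ k = ((M - 1) ^ k).map σ := by
    have h1 : σ.mapMatrix ((M - 1) ^ k) = (σ.mapMatrix M - 1) ^ k := by rw [map_pow, map_sub, map_one]
    exact h1.symm
  rw [nk_mat, nk_mat, h, finrank_ker_map]

theorem nk_inv {V : Type*} [AddCommGroup V] [Module K V] (T : V ≃ₗ[K] V) (k : ℕ) : nk (T.symm : V →ₗ[K] V) k = nk (T : V →ₗ[K] V) k := by
  unfold nk
  have hc : Commute (T.symm : End K V) ((T : End K V) - 1) := by
    refine Commute.sub_right ?_ (Commute.one_right _)
    show (T.symm : End K V) * (T : End K V) = (T : End K V) * (T.symm : End K V)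
    ext v; simp
  have h1 : ((T.symm : End K V) - 1) = - ((T.symm : End K V) * ((T : End K V) - 1)) := by
    rw [mul_sub, mul_one]
    have : (T.symm : End K V) * (T : End K V) = 1 := by ext v; simp
    rw [this]; abel
  have h2 : ∀ v, (((T.symm : End K V) - 1) ^ k) v = 0 ↔ (((T : End K V) - 1) ^ k) v = 0 := by
    intro v
    rw [h1, neg_pow, hc.mul_pow]
    have hinj : ∀ w, ((T.symm : End K V) ^ k) w = 0 → w = 0 := by
      intro w hw
      have h3 : ((T : End K V) ^ k) (((T.symm : End K V) ^ k) w) = w := by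
        have h4 : (T : End K V) ^ k * (T.symm : End K V) ^ k = 1 := by
          rw [← Commute.mul_pow (show (T : End K V) * (T.symm : End K V) = (T.symm : End K V) * (T : End K V) by ext v; simp)]
          have : (T : End K V) * (T.symm : End K V) = 1 := by ext v; simp
          rw [this, one_pow]
        rw [← Module.End.mul_apply, h4, Module.End.one_apply]
      rw [hw, map_zero] at h3
      exact h3.symm
    have hsgn : ∀ w : V, ((-1 : End K V) ^ k) w = 0 → w = 0 := by
      intro w hw
      rcases neg_one_pow_eq_or (End K V) k with h | h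
      · rw [h] at hw; exact hw
      · rw [h, LinearMap.neg_apply, neg_eq_zero] at hw; exact hw
    constructor
    · intro h
      exact hinj _ (hsgn _ h)
    · intro h
      show ((-1 : End K V) ^ k) (((T.symm : End K V) ^ k) ((((T : End K V) - 1) ^ k) v)) = 0
      rw [h, map_zero, map_zero]
  have h3 : LinearMap.ker (((T.symm : V →ₗ[K] V) - 1) ^ k) = LinearMap.ker (((T : V →ₗ[K] V) - 1) ^ k) := by
    ext v
    rw [LinearMap.mem_ker, LinearMap.mem_ker]
    exact h2 v
  rw [h3]

theorem nk_inv_mat {M N : Matrix (Fin n) (Fin n) K} (h : M * N = 1) (k : ℕ) : nk (Matrix.toLin' M) k = nk (Matrix.toLin' N) k := by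
  have h' : N * M = 1 := mul_eq_one_comm.1 h
  let T : (Fin n → K) ≃ₗ[K] (Fin n → K) := LinearEquiv.ofLinear (Matrix.toLin' N) (Matrix.toLin' M)
    (by rw [← Matrix.toLin'_mul, h', Matrix.toLin'_one]) (by rw [← Matrix.toLin'_mul, h, Matrix.toLin'_one])
  exact nk_inv T k

/-- nilpotency from the kernel dimensions -/
theorem nil_of_nk {V : Type*} [AddCommGroup V] [Module K V] [FiniteDimensional K V] {T : End K V} {M : ℕ} (h : nk T M = finrank K V) : (T - 1) ^ M = 0 := by
  unfold nk at h
  exact LinearMap.ker_eq_top.1 (Submodule.eq_top_of_finrank_eq h)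

theorem nk_of_nil {V : Type*} [AddCommGroup V] [Module K V] [FiniteDimensional K V] {T : End K V} {M : ℕ} (h : (T - 1) ^ M = 0) : nk T M = finrank K V := by
  unfold nk
  rw [h, LinearMap.ker_zero, finrank_top]

/-- matrices with the same unipotent Jordan type are similar -/
theorem isConj_mat {A B : Matrix (Fin n) (Fin n) K} {M : ℕ} (hA : (Matrix.toLin' A - 1) ^ M = 0) (h : ∀ k, nk (Matrix.toLin' A) k = nk (Matrix.toLin' B) k) : IsConj A B := by
  have hB : (Matrix.toLin' B - 1) ^ M = 0 := nil_of_nk (by rw [← h]; exact nk_of_nil hA)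
  obtain ⟨ψ, hψ⟩ := conj_of_nk hA hB h
  obtain ⟨G, -, hG⟩ := CfsgLib.Cls.exists_GL_conj ψ (fun v => hψ v)
  exact ⟨G, hG⟩

end

end CfsgLib.Jor
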