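import Cfsg.Statements.S2580
import Cfsg.Agent.LibStrH13
import Cfsg.Agent.LibClsH13

set_option autoImplicit false
open Cfsg

namespace Cfsg.Agent.S2580

open Module CfsgLib.Str CfsgLib.Cls
open Matrix (mulVec)
open scoped Matrix

theorem conj_transpose {F ι : Type*} [Field F] [Fintype ι] [DecidableEq ι] (A : Matrix ι ι F) : IsConj A A.transpose := by
  classical
  obtain ⟨B, hnd, -, hB⟩ := exists_symm_form (Matrix.toLin' A)
  let P : Matrix ι ι F := LinearMap.BilinForm.toMatrix' B
  have hP : ∀ u v, B u v = u ⬝ᵥ (P *ᵥ v) := by
    intro u v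
    have := Matrix.toBilin'_apply' P u v
    rw [← this, Matrix.toBilin'_toMatrix']
  have hPu : IsUnit P := by
    rw [Matrix.isUnit_iff_isUnit_det]
    apply IsUnit.mk0
    rw [← Matrix.nondegenerate_iff_det_ne_zero, ← Matrix.nondegenerate_toBilin'_iff, Matrix.toBilin'_toMatrix']
    exact hnd
  have hcomm : P * A = A.transpose * P := by
    apply mat_ext
    intro v
    rw [← Matrix.mulVec_mulVec, ← Matrix.mulVec_mulVec]
    apply dotProduct_eq
    intro u
    rw [dotProduct_comm, dotProduct_comm _ u]
    have h := hB u v
    rw [hP, hP, Matrix.toLin'_apply, Matrix.toLin'_apply] at h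
    rw [← h, Matrix.dotProduct_mulVec u, Matrix.vecMul_transpose]
  exact ⟨hPu.unit, hcomm⟩

/-- Over a finite field, a square matrix is similar to its transpose: for every n × n matrix A there is an invertible matrix P with P A P⁻¹ = Aᵀ (stated as conjugacy in the monoid of matrices, whose units are the invertible matrices). -/
theorem result {F : Type*} [Field F] [Finite F] {n : ℕ} (A : Matrix (Fin n) (Fin n) F) : IsConj A A.transpose := by
  exact conj_transpose A

end Cfsg.Agent.S2580
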