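import Mathlib
import Cfsg.Agent.LibDualH13
import Cfsg.Agent.LibJor3H13
import Cfsg.Agent.S2580

/-! Involutions without fixed points, and multiplicities of dual matrices (seat helper13). -/

namespace CfsgLib.Dual

open Module Polynomial CfsgLib.Typ CfsgLib.SS2 Matrix

theorem exists_half {A : Type*} [Fintype A] [DecidableEq A] (ι : A → A) (h2 : ∀ x, ι (ι x) = x) (hne : ∀ x, ι x ≠ x) :
    ∃ H : Finset A, (∀ x, ι x ∈ H ↔ x ∉ H) ∧ ∀ a : A → ℕ, (∀ x, a (ι x) = a x) → ∑ x, a x = 2 * ∑ x : H, a x := by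
  let e := Fintype.equivFin A
  let H : Finset A := Finset.univ.filter (fun x => e x < e (ι x))
  have hH : ∀ x, x ∈ H ↔ e x < e (ι x) := fun x => by simp [H]
  have hH2 : ∀ x, ι x ∈ H ↔ x ∉ H := by
    intro x
    rw [hH, hH, h2]
    have h3 : e x ≠ e (ι x) := fun h => hne x (e.injective h).symm
    constructor
    · intro h h'; exact absurd (h.trans h') (lt_irrefl _)
    · intro h
      rcases lt_or_gt_of_ne h3 with h4 | h4
      · exact absurd h4 h
      · exact h4
  refine ⟨H, hH2, fun a ha => ?_⟩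
  have h5 : ∑ x ∈ Finset.univ \ H, a x = ∑ x ∈ H, a x := by
    refine Finset.sum_bij (fun x _ => ι x) ?_ ?_ ?_ ?_
    · intro x hx
      rw [Finset.mem_sdiff] at hx
      exact (hH2 x).2 hx.2
    · intro x _ y _ hxy
      rw [← h2 x, ← h2 y, hxy]
    · intro y hy
      refine ⟨ι y, ?_, h2 y⟩
      rw [Finset.mem_sdiff]
      refine ⟨Finset.mem_univ _, fun h => ?_⟩
      exact ((hH2 y).1 h) hy
    · intro x _
      exact (ha x).symm
  rw [← Finset.sum_sdiff (Finset.subset_univ H), h5, Finset.sum_coe_sort H a]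
  ring

section mat
variable {K : Type*} [Field K] {n : ℕ}

theorem aeval_toLin (A : Matrix (Fin n) (Fin n) K) (f : K[X]) : aeval (Matrix.toLin' A) f = Matrix.toLin' (aeval A f) := by
  have h := Polynomial.aeval_algHom_apply (Matrix.toLinAlgEquiv' : Matrix (Fin n) (Fin n) K ≃ₐ[K] End K (Fin n → K)) A f
  exact h

/-- kernel dimension of a polynomial in a matrix -/
noncomputable def k1 (A : Matrix (Fin n) (Fin n) K) (f : K[X]) : ℕ := finrank K (LinearMap.ker (aeval (Matrix.toLin' A) f))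

theorem k1_eq_kd (A : Matrix (Fin n) (Fin n) K) (f : K[X]) : k1 A f = kd (Matrix.toLin' A) f 1 := by
  unfold k1 kd
  rw [pow_one]

theorem k1_inv {M N : Matrix (Fin n) (Fin n) K} (h : M * N = 1) (f : K[X]) : k1 M f = k1 N (reverse f) := by
  have h' : N * M = 1 := mul_eq_one_comm.1 h
  let T : (Fin n → K) ≃ₗ[K] (Fin n → K) := LinearEquiv.ofLinear (Matrix.toLin' N) (Matrix.toLin' M)
    (by rw [← Matrix.toLin'_mul, h', Matrix.toLin'_one]) (by rw [← Matrix.toLin'_mul, h, Matrix.toLin'_one])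
  unfold k1
  have := ker_symm T f
  have e1 : ((T.symm : (Fin n → K) →ₗ[K] (Fin n → K)) : End K (Fin n → K)) = Matrix.toLin' M := rfl
  have e2 : ((T : (Fin n → K) →ₗ[K] (Fin n → K)) : End K (Fin n → K)) = Matrix.toLin' N := rfl
  rw [e1, e2] at this
  rw [this]

theorem k1_conj {A B : Matrix (Fin n) (Fin n) K} (h : IsConj A B) (f : K[X]) : k1 A f = k1 B f := by
  obtain ⟨c, hc⟩ := h
  have hc' : (c : Matrix (Fin n) (Fin n) K) * A = B * (c : Matrix (Fin n) (Fin n) K) := hc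
  let ψ : (Fin n → K) ≃ₗ[K] (Fin n → K) := LinearEquiv.ofLinear (Matrix.toLin' (c : Matrix (Fin n) (Fin n) K)) (Matrix.toLin' ((c⁻¹ : (Matrix (Fin n) (Fin n) K)ˣ) : Matrix (Fin n) (Fin n) K))
    (by rw [← Matrix.toLin'_mul, ← Units.val_mul, mul_inv_cancel, Units.val_one, Matrix.toLin'_one]) (by rw [← Matrix.toLin'_mul, ← Units.val_mul, inv_mul_cancel, Units.val_one, Matrix.toLin'_one])
  rw [k1_eq_kd, k1_eq_kd]
  refine kd_congr ψ (fun v => ?_) f 1
  show Matrix.toLin' (c : Matrix (Fin n) (Fin n) K) (Matrix.toLin' A v) = Matrix.toLin' B (Matrix.toLin' (c : Matrix (Fin n) (Fin n) K) v)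
  rw [← LinearMap.comp_apply, ← LinearMap.comp_apply, ← Matrix.toLin'_mul, ← Matrix.toLin'_mul, hc']

theorem k1_transpose [Finite K] (A : Matrix (Fin n) (Fin n) K) (f : K[X]) : k1 Aᵀ f = k1 A f := (k1_conj (Cfsg.Agent.S2580.result A) f).symm

theorem k1_map [Fintype K] (σ : K →+* K) (A : Matrix (Fin n) (Fin n) K) (f : K[X]) : k1 (A.map σ) (f.map σ) = k1 A f := by
  unfold k1
  rw [aeval_toLin, aeval_toLin]
  have h := map_aeval_eq_aeval_map (φ := σ) (ψ := (σ.mapMatrix : Matrix (Fin n) (Fin n) K →+* Matrix (Fin n) (Fin n) K)) (by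
    apply RingHom.ext
    intro x
    rw [RingHom.comp_apply, RingHom.comp_apply]
    ext i j
    by_cases hij : i = j
    · subst hij
      simp [Matrix.algebraMap_matrix_apply]
    · simp [Matrix.algebraMap_matrix_apply, hij]) f A
  have h' : (aeval A f).map σ = aeval (A.map σ) (f.map σ) := h
  rw [← h', CfsgLib.Jor.finrank_ker_map]

variable [Fintype K] {p r : ℕ} [Fact p.Prime] [CharP K p] (hr : r.Prime) (hrp : r ≠ p) {Q k : ℕ} (hQ : Q = p ^ k)
include p hr hrp hQ

/-- multiplicities of the dual matrix -/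
theorem mult_dual {σ : K →+* K} (hσ : ∀ x, σ x = x ^ Q) (hσσ : ∀ x, σ (σ x) = x) {A M : Matrix (Fin n) (Fin n) K} (hM : M * (A.map σ)ᵀ = 1) (f : fac K r) :
    mult r (Matrix.toLin' M) f = mult r (Matrix.toLin' A) ⟨du r Q f, du_mem hr hrp hQ f.2⟩ := by
  unfold mult
  rw [← k1_eq_kd, ← k1_eq_kd, k1_inv hM, k1_transpose]
  have h1 : reverse (f : K[X]) = ((reverse (f : K[X])).map σ).map σ := by
    rw [Polynomial.map_map]
    have : σ.comp σ = RingHom.id K := RingHom.ext hσσ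
    rw [this, Polynomial.map_id]
  rw [h1, k1_map]
  obtain ⟨c, hc, h2⟩ := du_eq hr hrp hQ hσ f.2
  have h3 : k1 A ((reverse (f : K[X])).map σ) = k1 A (du r Q f) := by
    unfold k1
    rw [h2, ker_C_mul _ hc]
  rw [h3, deg_fac hr hrp f.2, deg_fac hr hrp (du_mem hr hrp hQ f.2)]

end mat

end CfsgLib.Dual
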