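import Mathlib
import Cfsg.Agent.LibSolvNilp

/-! Elementary abelian 2-subgroups of 2-groups: fixed points and chains (seat helper15). -/

set_option autoImplicit false

namespace CfsgLib.Elem2

variable {G : Type*} [Group G]

/-- elementwise: abelian of exponent 2 -/
def EA (W : Subgroup G) : Prop := (∀ a ∈ W, ∀ b ∈ W, a * b = b * a) ∧ ∀ a ∈ W, a * a = 1

theorem EA.mono {V W : Subgroup G} (h : EA W) (hV : V ≤ W) : EA V :=
  ⟨fun a ha b hb => h.1 a (hV ha) b (hV hb), fun a ha => h.2 a (hV ha)⟩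

/-- the product of two commuting subgroups -/
def prod (V C : Subgroup G) (h : ∀ v ∈ V, ∀ c ∈ C, v * c = c * v) : Subgroup G where
  carrier := {x | ∃ v ∈ V, ∃ c ∈ C, x = v * c}
  one_mem' := ⟨1, one_mem V, 1, one_mem C, by simp⟩
  mul_mem' := by
    rintro _ _ ⟨v, hv, c, hc, rfl⟩ ⟨v', hv', c', hc', rfl⟩
    refine ⟨v * v', mul_mem hv hv', c * c', mul_mem hc hc', ?_⟩
    rw [mul_assoc, ← mul_assoc c, ← h v' hv' c hc]; simp [mul_assoc]
  inv_mem' := by
    rintro _ ⟨v, hv, c, hc, rfl⟩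
    refine ⟨v⁻¹, inv_mem hv, c⁻¹, inv_mem hc, ?_⟩
    rw [mul_inv_rev, h _ (inv_mem hv) _ (inv_mem hc)]

theorem mem_prod {V C : Subgroup G} {h : ∀ v ∈ V, ∀ c ∈ C, v * c = c * v} {x : G} :
    x ∈ prod V C h ↔ ∃ v ∈ V, ∃ c ∈ C, x = v * c := Iff.rfl

theorem le_prod_left {V C : Subgroup G} {h : ∀ v ∈ V, ∀ c ∈ C, v * c = c * v} : V ≤ prod V C h :=
  fun v hv => ⟨v, hv, 1, one_mem C, by simp⟩

theorem le_prod_right {V C : Subgroup G} {h : ∀ v ∈ V, ∀ c ∈ C, v * c = c * v} : C ≤ prod V C h :=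
  fun c hc => ⟨1, one_mem V, c, hc, by simp⟩

theorem EA.prod {V C : Subgroup G} (hV : EA V) (hC : EA C) (h : ∀ v ∈ V, ∀ c ∈ C, v * c = c * v) : EA (prod V C h) := by
  constructor
  · rintro _ ⟨v, hv, c, hc, rfl⟩ _ ⟨v', hv', c', hc', rfl⟩
    have h1 : v * c * (v' * c') = (v * v') * (c * c') := by
      rw [mul_assoc, ← mul_assoc c, ← h v' hv' c hc]; simp [mul_assoc]
    have h2 : v' * c' * (v * c) = (v' * v) * (c' * c) := by
      rw [mul_assoc, ← mul_assoc c', ← h v hv c' hc']; simp [mul_assoc]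
    rw [h1, h2, hV.1 v hv v' hv', hC.1 c hc c' hc']
  · rintro _ ⟨v, hv, c, hc, rfl⟩
    have h1 : v * c * (v * c) = (v * v) * (c * c) := by
      rw [mul_assoc, ← mul_assoc c, ← h v hv c hc]; simp [mul_assoc]
    rw [h1, hV.2 v hv, hC.2 c hc, one_mul]

theorem EA.zpowers {x : G} (hx : x * x = 1) : EA (Subgroup.zpowers x) := by
  constructor
  · rintro _ ⟨i, rfl⟩ _ ⟨j, rfl⟩
    exact zpow_mul_comm x i j
  · rintro _ ⟨i, rfl⟩
    simp only
    rw [← zpow_add, ← two_mul, zpow_mul, zpow_two, hx, one_zpow]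

theorem mem_zpowers_of_sq {x y : G} (hx : x * x = 1) (hy : y ∈ Subgroup.zpowers x) : y = 1 ∨ y = x := by
  obtain ⟨i, rfl⟩ := hy
  rcases Int.even_or_odd' i with ⟨k, rfl | rfl⟩
  · left; simp only [zpow_mul, zpow_two, hx, one_zpow]
  · right; simp only [zpow_add, zpow_mul, zpow_two, hx, one_zpow, zpow_one, one_mul]

/-- fixed points of an involution on an elementary abelian 2-group -/
theorem card_le_sq [Finite G] (F : Subgroup G) (hF : EA F) (x : G) (hx : x * x = 1) (hxF : ∀ f ∈ F, x * f * x⁻¹ ∈ F) :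
    Nat.card F ≤ Nat.card (F ⊓ Subgroup.centralizer ({x} : Set G) : Subgroup G) ^ 2 := by
  have hxi : x⁻¹ = x := inv_eq_of_mul_eq_one_left hx
  let φ : F →* G :=
    { toFun := fun f => f * (x * f * x⁻¹)
      map_one' := by simp
      map_mul' := by
        intro a b
        have h1 := hF.1 b b.2 _ (hxF a a.2)
        calc (a : G) * b * (x * (a * b) * x⁻¹) = a * (b * (x * a * x⁻¹)) * (x * b * x⁻¹) := by simp [mul_assoc]
          _ = a * (x * a * x⁻¹) * (b * (x * b * x⁻¹)) := by rw [h1]; simp [mul_assoc] }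
  have h1 := Subgroup.card_mul_index φ.ker
  rw [Subgroup.index_ker] at h1
  have hk : Nat.card φ.ker ≤ Nat.card (F ⊓ Subgroup.centralizer ({x} : Set G) : Subgroup G) := by
    apply Nat.card_le_card_of_injective (fun f : φ.ker => (⟨(f : F), Subgroup.mem_inf.mpr ⟨(f : F).2, ?_⟩⟩ : (F ⊓ Subgroup.centralizer ({x} : Set G) : Subgroup G)))
    · intro a b hab
      have h2 : ((a : F) : G) = ((b : F) : G) := congrArg (fun z : (F ⊓ Subgroup.centralizer ({x} : Set G) : Subgroup G) => (z : G)) hab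
      exact Subtype.ext (Subtype.ext h2)
    · rw [Subgroup.mem_centralizer_iff]
      rintro y rfl
      have h2 : ((f : F) : G) * (y * (f : F) * y⁻¹) = 1 := f.2
      have h3 := hF.2 _ (f : F).2
      have h4 : y * ((f : F) : G) * y⁻¹ = (f : F) := by
        rw [← mul_right_inj ((f : F) : G), h2, h3]
      exact mul_inv_eq_iff_eq_mul.mp h4
  have hr : Nat.card φ.range ≤ Nat.card (F ⊓ Subgroup.centralizer ({x} : Set G) : Subgroup G) := by
    apply Nat.card_le_card_of_injective (Subgroup.inclusion (?_ : φ.range ≤ F ⊓ Subgroup.centralizer ({x} : Set G)))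
    · exact Subgroup.inclusion_injective _
    · rintro _ ⟨f, rfl⟩
      refine Subgroup.mem_inf.mpr ⟨mul_mem f.2 (hxF f f.2), ?_⟩
      rw [Subgroup.mem_centralizer_iff]
      rintro y rfl
      have h2 := hF.1 f f.2 _ (hxF f f.2)
      change y * ((f : G) * (y * f * y⁻¹)) = (f : G) * (y * f * y⁻¹) * y
      calc y * ((f : G) * (y * f * y⁻¹)) = y * f * y⁻¹ * ((y * y) * f * y⁻¹) := by simp [mul_assoc]
        _ = y * f * y⁻¹ * f * y⁻¹ := by rw [hx, one_mul]; simp [mul_assoc]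
        _ = f * (y * f * y⁻¹) * y⁻¹ := by rw [← h2]
        _ = _ := by rw [hxi]
  calc Nat.card F = Nat.card φ.ker * Nat.card φ.range := h1.symm
    _ ≤ _ := by rw [pow_two]; exact Nat.mul_le_mul hk hr

theorem card_ge [Finite G] (hG : IsPGroup 2 G) (W : Subgroup G) {m : ℕ} (h : 2 ^ m < Nat.card W) : 2 ^ (m + 1) ≤ Nat.card W := by
  have : Fact (Nat.Prime 2) := ⟨Nat.prime_two⟩
  obtain ⟨k, hk⟩ := IsPGroup.iff_card.mp (hG.to_subgroup W)
  rw [hk] at h ⊢
  exact Nat.pow_le_pow_right (by norm_num) ((Nat.pow_lt_pow_iff_right (by norm_num)).mp h)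

theorem exists_mid [Finite G] (hG : IsPGroup 2 G) (W V : Subgroup G) (hVW : V ≤ W) {n m : ℕ} (hV : Nat.card V = 2 ^ n) (hnm : n ≤ m)
    (hW : 2 ^ m ≤ Nat.card W) : ∃ A : Subgroup G, V ≤ A ∧ A ≤ W ∧ Nat.card A = 2 ^ m := by
  have : Fact (Nat.Prime 2) := ⟨Nat.prime_two⟩
  obtain ⟨k, hk⟩ := IsPGroup.iff_card.mp (hG.to_subgroup W)
  have hmk : m ≤ k := by
    rw [hk] at hW
    exact (Nat.pow_le_pow_iff_right (by norm_num)).mp hW
  have hVc : Nat.card (V.subgroupOf W) = 2 ^ n := by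
    rw [← hV]; exact Nat.card_congr (Subgroup.subgroupOfEquivOfLe hVW).toEquiv
  obtain ⟨K, hK1, hK2⟩ := Sylow.exists_subgroup_card_pow_prime_le 2 (G := W) (n := n) (m := m) (by rw [hk]; exact pow_dvd_pow 2 hmk) _ hVc hnm
  refine ⟨K.map W.subtype, ?_, Subgroup.map_subtype_le K, ?_⟩
  · intro v hv
    exact ⟨⟨v, hVW hv⟩, hK2 (by rw [Subgroup.mem_subgroupOf]; exact hv), rfl⟩
  · rw [← hK1]
    exact Nat.card_congr (Subgroup.equivMapOfInjective K _ W.subtype_injective).toEquiv.symm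

theorem exists_le_card [Finite G] (hG : IsPGroup 2 G) (W : Subgroup G) {m : ℕ} (hW : 2 ^ m ≤ Nat.card W) :
    ∃ A : Subgroup G, A ≤ W ∧ Nat.card A = 2 ^ m := by
  obtain ⟨A, _, h2, h3⟩ := exists_mid hG W ⊥ bot_le (n := 0) (m := m) (by simp) (Nat.zero_le _) hW
  exact ⟨A, h2, h3⟩

/-- doubling: a strictly larger 2-group has at least twice the order -/
theorem card_double [Finite G] (V W : Subgroup G) (h : V ≤ W) (hne : V ≠ W) : 2 * Nat.card V ≤ Nat.card W := by
  obtain ⟨k, hk⟩ := Subgroup.card_dvd_of_le h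
  have hpos : 0 < Nat.card W := Nat.card_pos
  have hk1 : k ≠ 1 := by
    rintro rfl
    rw [mul_one] at hk
    exact hne (Subgroup.eq_of_le_of_card_ge h hk.le)
  have hk0 : k ≠ 0 := by rintro rfl; omega
  rw [hk, mul_comm]
  exact Nat.mul_le_mul_left _ (by omega)

theorem card_double_prod [Finite G] {V C : Subgroup G} (h : ∀ v ∈ V, ∀ c ∈ C, v * c = c * v) {c : G} (hc : c ∈ C) (hcV : c ∉ V) :
    2 * Nat.card V ≤ Nat.card (prod V C h) := by
  apply card_double _ _ le_prod_left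
  intro heq
  apply hcV
  rw [heq]
  exact le_prod_right hc

/-- a normal subgroup of a 2-group contains a central involution -/
theorem exists_central [Finite G] (hG : IsPGroup 2 G) (E : Subgroup G) [E.Normal] (hE : EA E) (h1 : E ≠ ⊥) :
    ∃ e ∈ E, e ≠ 1 ∧ e * e = 1 ∧ ∀ g : G, e * g = g * e := by
  have : Fact (Nat.Prime 2) := ⟨Nat.prime_two⟩
  have hnil := hG.isNilpotent
  have h2 := CfsgLib.SolvNilp.inf_center_ne_bot E h1
  obtain ⟨⟨e, he⟩, hne'⟩ := Subgroup.ne_bot_iff_exists_ne_one.mp h2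
  have hne : e ≠ 1 := fun h => hne' (Subtype.ext h)
  obtain ⟨heE, heZ⟩ := Subgroup.mem_inf.mp he
  exact ⟨e, heE, hne, hE.2 e heE, fun g => (Subgroup.mem_center_iff.mp heZ g).symm⟩

/-- a subgroup of order 4 and exponent 2 -/
theorem four_fix [Finite G] (F V : Subgroup G) (hF : EA F) (hV : EA V) (hV4 : Nat.card V = 4) (hVF : ∀ v ∈ V, ∀ f ∈ F, v * f * v⁻¹ ∈ F) :
    Nat.card F ≤ Nat.card (F ⊓ Subgroup.centralizer (V : Set G) : Subgroup G) ^ 4 := by
  classical
  have hft : Fintype V := Fintype.ofFinite V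
  have hc : Fintype.card V = 4 := by rw [← Nat.card_eq_fintype_card, hV4]
  obtain ⟨x, hx⟩ : ∃ x : V, x ≠ 1 := by
    have : Nontrivial V := Fintype.one_lt_card_iff_nontrivial.mp (by omega)
    exact exists_ne 1
  obtain ⟨y, hy⟩ : ∃ y : V, y ∉ ({1, x} : Finset V) := by
    by_contra hcon
    push Not at hcon
    have h1 : (Finset.univ : Finset V) ⊆ {1, x} := fun z _ => hcon z
    have h2 := Finset.card_le_card h1
    rw [Finset.card_univ, hc] at h2
    have h3 := Finset.card_le_two (a := (1 : V)) (b := x)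
    omega
  simp only [Finset.mem_insert, Finset.mem_singleton, not_or] at hy
  have hall : ∀ v : V, v ∈ ({1, x, y, x * y} : Finset V) := by
    have h1 : ({1, x, y, x * y} : Finset V).card = 4 := by
      rw [Finset.card_insert_of_notMem, Finset.card_insert_of_notMem, Finset.card_insert_of_notMem, Finset.card_singleton]
      · rw [Finset.mem_singleton]; intro h; exact hx (mul_eq_right.mp h.symm)
      · simp only [Finset.mem_insert, Finset.mem_singleton, not_or]
        exact ⟨fun h => hy.2 h.symm, fun h => hy.1 (mul_eq_left.mp h.symm)⟩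
      · simp only [Finset.mem_insert, Finset.mem_singleton, not_or]
        refine ⟨fun h => hx h.symm, fun h => hy.1 h.symm, fun h => hy.2 ?_⟩
        have h2 : x * x = 1 := Subtype.ext (hV.2 x x.2)
        have h3 : x * (x * y) = x * 1 := by rw [← h]
        rw [← mul_assoc, h2, one_mul, mul_one] at h3
        exact h3
    have h2 : ({1, x, y, x * y} : Finset V) = Finset.univ := Finset.eq_univ_of_card _ (by rw [h1, hc])
    intro v; rw [h2]; exact Finset.mem_univ v
  have h1 := card_le_sq F hF x (hV.2 x x.2) (fun f hf => hVF x x.2 f hf)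
  have h2 := card_le_sq (F ⊓ Subgroup.centralizer ({(x : G)} : Set G)) (hF.mono inf_le_left) y (hV.2 y y.2) (by
    intro f hf
    obtain ⟨hf1, hf2⟩ := Subgroup.mem_inf.mp hf
    refine Subgroup.mem_inf.mpr ⟨hVF y y.2 f hf1, ?_⟩
    rw [Subgroup.mem_centralizer_iff] at hf2 ⊢
    rintro z hz
    have h3 := hf2 z hz
    rw [Set.mem_singleton_iff] at hz
    subst hz
    have h4 : (x : G) * y = y * x := hV.1 x x.2 y y.2
    have h5 : (x : G) * (y : G)⁻¹ = (y : G)⁻¹ * x := hV.1 x x.2 _ (inv_mem y.2)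
    calc (x : G) * (y * f * (y : G)⁻¹) = (x * y) * f * (y : G)⁻¹ := by simp [mul_assoc]
      _ = y * (x * f) * (y : G)⁻¹ := by rw [h4]; simp [mul_assoc]
      _ = y * f * (x * (y : G)⁻¹) := by rw [h3]; simp [mul_assoc]
      _ = _ := by rw [h5]; simp [mul_assoc])
  have h3 : Nat.card ((F ⊓ Subgroup.centralizer ({(x : G)} : Set G)) ⊓ Subgroup.centralizer ({(y : G)} : Set G) : Subgroup G) ≤
      Nat.card (F ⊓ Subgroup.centralizer (V : Set G) : Subgroup G) := by
    apply Nat.card_le_card_of_injective (Subgroup.inclusion (?_ : (F ⊓ Subgroup.centralizer ({(x : G)} : Set G)) ⊓ Subgroup.centralizer ({(y : G)} : Set G) ≤ F ⊓ Subgroup.centralizer (V : Set G)))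
    · exact Subgroup.inclusion_injective _
    · intro f hf
      obtain ⟨hf1, hf2⟩ := Subgroup.mem_inf.mp hf
      obtain ⟨hf3, hf4⟩ := Subgroup.mem_inf.mp hf1
      refine Subgroup.mem_inf.mpr ⟨hf3, ?_⟩
      have hxf : (x : G) * f = f * x := Subgroup.mem_centralizer_iff.mp hf4 _ rfl
      have hyf : (y : G) * f = f * y := Subgroup.mem_centralizer_iff.mp hf2 _ rfl
      rw [Subgroup.mem_centralizer_iff]
      intro v hv
      have h4 := hall ⟨v, hv⟩
      simp only [Finset.mem_insert, Finset.mem_singleton] at h4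
      rcases h4 with h4 | h4 | h4 | h4
      · have : v = 1 := congrArg Subtype.val h4
        rw [this]; simp
      · have : v = x := congrArg Subtype.val h4
        rw [this]; exact hxf
      · have : v = y := congrArg Subtype.val h4
        rw [this]; exact hyf
      · have : v = x * y := congrArg Subtype.val h4
        rw [this, mul_assoc, hyf, ← mul_assoc, hxf, mul_assoc]
  calc Nat.card F ≤ _ := h1
    _ ≤ (Nat.card ((F ⊓ Subgroup.centralizer ({(x : G)} : Set G)) ⊓ Subgroup.centralizer ({(y : G)} : Set G) : Subgroup G) ^ 2) ^ 2 := Nat.pow_le_pow_left h2 2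
    _ ≤ (Nat.card (F ⊓ Subgroup.centralizer (V : Set G) : Subgroup G) ^ 2) ^ 2 := Nat.pow_le_pow_left (Nat.pow_le_pow_left h3 2) 2
    _ = _ := by rw [← pow_mul]

end CfsgLib.Elem2
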