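import Cfsg.Agent.LibEps27e

set_option autoImplicit false

/-! Field and graph-field automorphisms of the plus-type groups. -/

namespace CfsgLib.Eps27

open Cfsg.Agent.H22 CfsgLib.Semi27 CfsgLib.Lift27 CfsgLib.RhoO27 CfsgLib.AutO27 CfsgLib.Spinor27 CfsgLib.Even27 CfsgLib.Min27 CfsgLib.H9027 CfsgLib.QForm27 CfsgLib.Desc27 Module Matrix

universe u

section split
variable {F : Type u} [Field F] {m : ℕ} {a b : F}

/-- the matrix splitting the binary form -/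
def spK (m : ℕ) (θ θ' : F) : Matrix (Fin (m + 1) ⊕ Fin (m + 1)) ((Fin m ⊕ Fin m) ⊕ Fin 2) F :=
  fun i j => match i, j with
    | .inl i, .inl (.inl j) => if i = j.castSucc then 1 else 0
    | .inr i, .inl (.inr j) => if i = j.castSucc then 1 else 0
    | .inl i, .inr j => if i = Fin.last m then (if j = 0 then 1 else -θ) else 0
    | .inr i, .inr j => if i = Fin.last m then (if j = 0 then 1 else -θ') else 0
    | .inl _, .inl (.inr _) => 0
    | .inr _, .inl (.inl _) => 0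

theorem spK_inl (θ θ' : F) (v : (Fin m ⊕ Fin m) ⊕ Fin 2 → F) (i : Fin m) : (spK m θ θ' *ᵥ v) (.inl i.castSucc) = v (.inl (.inl i)) := by
  rw [Matrix.mulVec, dotProduct, Fintype.sum_sum_type, Fintype.sum_sum_type]
  simp [spK, (Fin.castSucc_lt_last i).ne]

theorem spK_inr (θ θ' : F) (v : (Fin m ⊕ Fin m) ⊕ Fin 2 → F) (i : Fin m) : (spK m θ θ' *ᵥ v) (.inr i.castSucc) = v (.inl (.inr i)) := by
  rw [Matrix.mulVec, dotProduct, Fintype.sum_sum_type, Fintype.sum_sum_type]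
  simp [spK, (Fin.castSucc_lt_last i).ne]

theorem spK_inl_last (θ θ' : F) (v : (Fin m ⊕ Fin m) ⊕ Fin 2 → F) : (spK m θ θ' *ᵥ v) (.inl (Fin.last m)) = v (.inr 0) - θ * v (.inr 1) := by
  rw [Matrix.mulVec, dotProduct, Fintype.sum_sum_type, Fintype.sum_sum_type]
  simp [spK, (Fin.castSucc_lt_last _).ne', Fin.sum_univ_two]
  ring

theorem spK_inr_last (θ θ' : F) (v : (Fin m ⊕ Fin m) ⊕ Fin 2 → F) : (spK m θ θ' *ᵥ v) (.inr (Fin.last m)) = v (.inr 0) - θ' * v (.inr 1) := by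
  rw [Matrix.mulVec, dotProduct, Fintype.sum_sum_type, Fintype.sum_sum_type]
  simp [spK, (Fin.castSucc_lt_last _).ne', Fin.sum_univ_two]
  ring

theorem spK_Q {θ : F} (hθ : θ ^ 2 + a * θ + b = 0) (v : (Fin m ⊕ Fin m) ⊕ Fin 2 → F) :
    qPlus (m + 1) F (spK m θ (-a - θ) *ᵥ v) = qMinus m F a b v := by
  rw [coe_qPlus, coe_qMinus]
  unfold Cfsg.quadFormPlus Cfsg.quadFormMinus
  rw [Fin.sum_univ_castSucc, spK_inl_last, spK_inr_last]
  simp only [spK_inl, spK_inr]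
  linear_combination (v (.inr 1)) ^ 2 * (-hθ)

/-- a transport from the split binary form -/
theorem exists_spTr {θ : F} (hθ : θ ^ 2 + a * θ + b = 0) (hd : a ^ 2 - 4 * b ≠ 0) :
    ∃ t : Tr (qPlus (m + 1) F) (qMinus m F a b), t.K = spK m θ (-a - θ) := by
  have hinj : Function.Injective (Matrix.toLin' (spK m θ (-a - θ))) := by
    apply inj_of_nondeg (Q := qPlus (m + 1) F) (Q' := qMinus m F a b) _ (nondeg_qMinus' m a b hd) one_ne_zero
    intro x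
    rw [Matrix.toLin'_apply, spK_Q hθ, one_mul]
  let φ := (Matrix.toLin' (spK m θ (-a - θ))).linearEquivOfInjective hinj (by simp; omega)
  have hφ : (φ : ((Fin m ⊕ Fin m) ⊕ Fin 2 → F) →ₗ[F] (Fin (m + 1) ⊕ Fin (m + 1) → F)) = Matrix.toLin' (spK m θ (-a - θ)) := by
    ext x; rfl
  refine ⟨⟨spK m θ (-a - θ), LinearMap.toMatrix' (φ.symm : (Fin (m + 1) ⊕ Fin (m + 1) → F) →ₗ[F] ((Fin m ⊕ Fin m) ⊕ Fin 2 → F)), ?_, ?_, 1, ?_⟩, rfl⟩
  · have h1 : spK m θ (-a - θ) = LinearMap.toMatrix' (φ : ((Fin m ⊕ Fin m) ⊕ Fin 2 → F) →ₗ[F] (Fin (m + 1) ⊕ Fin (m + 1) → F)) := by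
      rw [hφ, LinearMap.toMatrix'_toLin']
    conv_lhs => rw [h1]
    rw [← LinearMap.toMatrix'_comp, LinearEquiv.comp_symm, LinearMap.toMatrix'_id]
  · have h1 : spK m θ (-a - θ) = LinearMap.toMatrix' (φ : ((Fin m ⊕ Fin m) ⊕ Fin 2 → F) →ₗ[F] (Fin (m + 1) ⊕ Fin (m + 1) → F)) := by
      rw [hφ, LinearMap.toMatrix'_toLin']
    conv_lhs => rw [h1]
    rw [← LinearMap.toMatrix'_comp, LinearEquiv.symm_comp, LinearMap.toMatrix'_id]
  · intro v
    rw [spK_Q hθ, Units.val_one, one_mul]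

end split

section swap
variable {F : Type u} [Field F] [Fintype F] {m : ℕ} {a b : F} {σ : F ≃+* F}

/-- the vector of the swap -/
def swV (m : ℕ) (F : Type u) [Field F] : Fin (m + 1) ⊕ Fin (m + 1) → F := Pi.single (.inl (Fin.last m)) 1 - Pi.single (.inr (Fin.last m)) 1

theorem swV_Q : qPlus (m + 1) F (swV m F) = -1 := by
  rw [coe_qPlus]
  unfold Cfsg.quadFormPlus swV
  rw [Fin.sum_univ_castSucc]
  simp [Pi.single_apply, (Fin.castSucc_lt_last _).ne]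

theorem swV_ne : qPlus (m + 1) F (swV m F) ≠ 0 := by
  rw [swV_Q]; exact neg_ne_zero.2 one_ne_zero

theorem sw_apply (x : Fin (m + 1) ⊕ Fin (m + 1) → F) :
    (((rfM _ (swV m F) swV_ne : Cfsg.isometryGroup F ⇑(qPlus (m + 1) F)) : GL (Fin (m + 1) ⊕ Fin (m + 1)) F) :
      Matrix (Fin (m + 1) ⊕ Fin (m + 1)) (Fin (m + 1) ⊕ Fin (m + 1)) F) *ᵥ x = x + (x (.inr (Fin.last m)) - x (.inl (Fin.last m))) • swV m F := by
  rw [rfM_mulVec, swV_Q, polar_qPlus]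
  have h1 : ∑ i, (swV m F (.inl i) * x (.inr i) + swV m F (.inr i) * x (.inl i)) = x (.inr (Fin.last m)) - x (.inl (Fin.last m)) := by
    rw [Fin.sum_univ_castSucc]
    unfold swV
    simp [Pi.single_apply, (Fin.castSucc_lt_last _).ne]
    ring
  have h2 : ∀ (A : F), (∑ i, (swV m F (.inl i) * x (.inr i) + swV m F (.inr i) * x (.inl i))) = A → ((-1 : F)⁻¹ * A) • swV m F = -(A • swV m F) := by
    intro A _
    rw [← neg_smul]
    congr 1
    rw [inv_neg, inv_one]; ring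
  rw [h1, h2 _ h1, sub_neg_eq_add]

/-- the swap is adapted to the split transport -/
theorem sw_adp {θ : F} (ha : σ a = a) (hσθ : σ θ = -a - θ) (t : Tr (qPlus (m + 1) F) (qMinus m F a b)) (ht : t.K = spK m θ (-a - θ)) :
    Adp t σ ((rfM _ (swV m F) swV_ne : Cfsg.isometryGroup F ⇑(qPlus (m + 1) F)) : GL (Fin (m + 1) ⊕ Fin (m + 1)) F) := by
  refine ⟨1, ?_⟩
  rw [Units.val_one, one_smul, ht]
  have h1 : (spK m θ (-a - θ)).map σ = spK m (-a - θ) θ := by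
    have e1 : -a - θ + a = -θ := by ring
    ext i j
    rcases i with i | i <;> rcases j with (j | j) | j <;> simp [spK, apply_ite σ, ha, hσθ, e1]
  rw [h1]
  apply Matrix.toLin'.injective
  apply LinearMap.ext
  intro v
  rw [Matrix.toLin'_apply, Matrix.toLin'_apply, ← mulVec_mulVec, sw_apply]
  funext i
  rw [Pi.add_apply, Pi.smul_apply, smul_eq_mul]
  rcases i with i | i
  · refine Fin.lastCases ?_ (fun i => ?_) i
    · rw [spK_inl_last, spK_inr_last, spK_inl_last]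
      simp [swV]
    · rw [spK_inl, spK_inl]
      simp [swV, Pi.single_apply, (Fin.castSucc_lt_last _).ne]
  · refine Fin.lastCases ?_ (fun i => ?_) i
    · rw [spK_inl_last, spK_inr_last, spK_inr_last]
      simp [swV]
    · rw [spK_inr, spK_inr]
      simp [swV, Pi.single_apply, (Fin.castSucc_lt_last _).ne]

end swap

section plus
variable {F : Type u} [Field F] [Fintype F] {m : ℕ} {σ : F ≃+* F}

theorem plus_σ (v : Fin m ⊕ Fin m → F) : qPlus m F (σ ∘ v) = σ (qPlus m F v) := qPlus_j (σ : F →+* F) v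

theorem aniso_ext {a b : F} (ha : σ a = a) (hb : σ b = b) (hab₀ : ∀ z₁ z₂ : F, σ z₁ = z₁ → σ z₂ = z₂ → z₁ ^ 2 + a * z₁ * z₂ + b * z₂ ^ 2 = 0 → z₁ = 0 ∧ z₂ = 0)
    {θ : F} (hθ : θ ^ 2 + a * θ + b = 0) : σ θ = -a - θ := by
  have h1 : (σ θ) ^ 2 + a * σ θ + b = 0 := by
    have := congrArg σ hθ
    rwa [map_add, map_add, map_pow, map_mul, ha, hb, map_zero] at this
  have h2 : (σ θ - θ) * (σ θ - (-a - θ)) = 0 := by linear_combination h1 - hθ
  rcases mul_eq_zero.1 h2 with h3 | h3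
  · exfalso
    exact one_ne_zero (hab₀ θ 1 (sub_eq_zero.1 h3) (map_one _) (by linear_combination hθ)).2
  · exact sub_eq_zero.1 h3

/-- odd degree extensions preserve anisotropy -/
theorem aniso_odd {a b : F} (ha : σ a = a) (hb : σ b = b) (hab₀ : ∀ z₁ z₂ : F, σ z₁ = z₁ → σ z₂ = z₂ → z₁ ^ 2 + a * z₁ * z₂ + b * z₂ ^ 2 = 0 → z₁ = 0 ∧ z₂ = 0)
    {r : ℕ} (ho : orderOf σ = r) (hr : Odd r) : ∀ z₁ z₂ : F, z₁ ^ 2 + a * z₁ * z₂ + b * z₂ ^ 2 = 0 → z₁ = 0 ∧ z₂ = 0 := by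
  intro z₁ z₂ hz
  by_cases hz2 : z₂ = 0
  · subst hz2
    refine ⟨?_, rfl⟩
    have : z₁ ^ 2 = 0 := by linear_combination hz
    exact (pow_eq_zero_iff (by norm_num)).1 this
  · exfalso
    obtain ⟨θ, hθ'⟩ : ∃ θ, θ = z₁ / z₂ := ⟨_, rfl⟩
    have hθ : θ ^ 2 + a * θ + b = 0 := by
      rw [hθ']
      field_simp
      linear_combination hz
    have h1 := aniso_ext ha hb hab₀ hθ
    have h2 : σ (σ θ) = θ := by rw [h1, map_sub, map_neg, ha, h1]; ring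
    have h3 : ∀ k : ℕ, (σ ^ (2 * k)) θ = θ := by
      intro k
      induction k with
      | zero => simp
      | succ k ih =>
        rw [Nat.mul_succ, pow_add]
        show (σ ^ (2 * k)) ((σ ^ 2) θ) = θ
        have : (σ ^ 2) θ = θ := by rw [pow_two]; exact h2
        rw [this, ih]
    obtain ⟨k, hk⟩ := hr
    have h4 : (σ ^ r) θ = θ := by rw [← ho, pow_orderOf_eq_one]; rfl
    have h5 : σ θ = θ := by
      rw [hk, add_comm, pow_add, pow_one] at h4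
      have h6 : σ ((σ ^ (2 * k)) θ) = θ := h4
      rwa [h3] at h6
    exact one_ne_zero (hab₀ θ 1 h5 (map_one _) (by linear_combination hθ)).2

/-- `θ` exists in the quadratic case -/
theorem exists_root {a b : F} (ha : σ a = a) (hb : σ b = b) (hab₀ : ∀ z₁ z₂ : F, σ z₁ = z₁ → σ z₂ = z₂ → z₁ ^ 2 + a * z₁ * z₂ + b * z₂ ^ 2 = 0 → z₁ = 0 ∧ z₂ = 0)
    (ho : orderOf σ = 2) : ∃ θ : F, θ ^ 2 + a * θ + b = 0 := by
  have h1 := CfsgLib.H9027.card_fixF σ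
  rw [ho] at h1
  haveI := Fintype.ofFinite (CfsgLib.H9027.fixF σ)
  have h2 : Module.finrank (CfsgLib.H9027.fixF σ) F = 2 := by
    have h3 := Module.natCard_eq_pow_finrank (K := CfsgLib.H9027.fixF σ) (V := F)
    rw [h1] at h3
    exact (Nat.pow_right_injective (Finite.one_lt_card) h3).symm
  obtain ⟨θ, hθ⟩ := CfsgLib.Even27.root_of_quad (F := CfsgLib.H9027.fixF σ) (K := F) h2 (a := ⟨a, ha⟩) (b := ⟨b, hb⟩) (by
    intro z₁ z₂ hz
    have h4 := hab₀ z₁ z₂ z₁.2 z₂.2 (congrArg Subtype.val hz)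
    exact ⟨Subtype.ext h4.1, Subtype.ext h4.2⟩)
  exact ⟨θ, hθ⟩

/-- discriminant over the fixed field -/
theorem disc_ne {a b : F} (ha : σ a = a) (hb : σ b = b) (hab₀ : ∀ z₁ z₂ : F, σ z₁ = z₁ → σ z₂ = z₂ → z₁ ^ 2 + a * z₁ * z₂ + b * z₂ ^ 2 = 0 → z₁ = 0 ∧ z₂ = 0) :
    a ^ 2 - 4 * b ≠ 0 := by
  haveI := Fintype.ofFinite (CfsgLib.H9027.fixF σ)
  have h1 := disc_ne_zero (F := fixF σ) ⟨a, ha⟩ ⟨b, hb⟩ (by
    intro z₁ z₂ hz
    have h4 := hab₀ z₁ z₂ z₁.2 z₂.2 (congrArg Subtype.val hz)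
    exact ⟨Subtype.ext h4.1, Subtype.ext h4.2⟩)
  exact fun h2 => h1 (Subtype.ext h2)

/-- models of prime order semisimilarities -/
theorem plus_adp (hm : 3 ≤ m) {r : ℕ} (hr : r.Prime) (ho : orderOf σ = r) {g : GL (Fin (m + 1) ⊕ Fin (m + 1)) F}
    (hg : (⟨g, σ⟩ : GamL (Fin (m + 1) ⊕ Fin (m + 1)) F) ∈ SP (qPlus (m + 1) F)) (hgr : R (qPlus (m + 1) F) ⟨_, hg⟩ ^ r = 1) :
    (∃ t : Tr (qPlus (m + 1) F) (qPlus (m + 1) F), Adp t σ g) ∨
    (r = 2 ∧ ∀ a b : F, σ a = a → σ b = b → (∀ z₁ z₂ : F, σ z₁ = z₁ → σ z₂ = z₂ → z₁ ^ 2 + a * z₁ * z₂ + b * z₂ ^ 2 = 0 → z₁ = 0 ∧ z₂ = 0) →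
      ∃ t : Tr (qPlus (m + 1) F) (qMinus m F a b), Adp t σ g) := by
  obtain ⟨e, f, u, hG⟩ := gd_qPlus (F := F) (m := m + 1) (by omega)
  obtain ⟨l, k, c, D₀, hk, hc, hD₀, hD⟩ := lang_form hG plus_σ hr.pos ho hg hgr
  haveI := Fintype.ofFinite (fixF σ)
  rcases even_coord (m := m) hD₀ (by simp; omega) with ⟨φ, hφ⟩ | hcl
  · left
    exact build_tr (σ := σ) (Q' := qPlus (m + 1) F) (Q₀' := qPlus (m + 1) (fixF σ)) (fun x => qPlus_j (fixF σ).subtype x) hk hc hD φ one_ne_zero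
      (fun x => by rw [hφ, one_mul])
  · right
    have key : ∀ a b : F, σ a = a → σ b = b → (∀ z₁ z₂ : F, σ z₁ = z₁ → σ z₂ = z₂ → z₁ ^ 2 + a * z₁ * z₂ + b * z₂ ^ 2 = 0 → z₁ = 0 ∧ z₂ = 0) →
      ∃ t : Tr (qPlus (m + 1) F) (qMinus m F a b), Adp t σ g := by
      intro a b ha hb hab
      obtain ⟨d, φ, hd, hφ⟩ := hcl ⟨a, ha⟩ ⟨b, hb⟩ (by
        intro z₁ z₂ hz
        have h4 := hab z₁ z₂ z₁.2 z₂.2 (congrArg Subtype.val hz)
        exact ⟨Subtype.ext h4.1, Subtype.ext h4.2⟩)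
      exact build_tr (σ := σ) (Q' := qMinus m F a b) (Q₀' := qMinus m (fixF σ) ⟨a, ha⟩ ⟨b, hb⟩) (fun x => qMinus_j (fixF σ).subtype ⟨a, ha⟩ ⟨b, hb⟩ x) hk hc hD φ hd hφ
    refine ⟨?_, key⟩
    rcases hr.eq_two_or_odd' with h | h
    · exact h
    · exfalso
      obtain ⟨a, b, hab⟩ := exists_aniso (fixF σ)
      have hab' : ∀ z₁ z₂ : F, σ z₁ = z₁ → σ z₂ = z₂ → z₁ ^ 2 + (a : F) * z₁ * z₂ + (b : F) * z₂ ^ 2 = 0 → z₁ = 0 ∧ z₂ = 0 := by
        intro z₁ z₂ h1 h2 hz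
        have h3 := hab ⟨z₁, h1⟩ ⟨z₂, h2⟩ (Subtype.ext hz)
        exact ⟨congrArg Subtype.val h3.1, congrArg Subtype.val h3.2⟩
      obtain ⟨t, -⟩ := key a b a.2 b.2 hab'
      exact no_tr (aniso_odd a.2 b.2 hab' ho h) t.symm

/-- the parity of a semisimilarity -/
noncomputable def EP (h : Ea (qPlus m F) m) : SP (qPlus m F) →* ℤˣ where
  toFun x := h.ep ⟨x.1.left, (R_split x (std_mem plus_σ)).choose⟩
  map_one' := map_one h.ep
  map_mul' := by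
    intro x y
    have h1 : gm x.1.right y.1.left ∈ GOs (qPlus m F) := gm_GOs (std_mem plus_σ) (R_split y (std_mem plus_σ)).choose
    rw [← h.ep_gm (std_mem plus_σ) ⟨y.1.left, (R_split y (std_mem plus_σ)).choose⟩ h1, ← map_mul]
    rfl

theorem EP_eq (h : Ea (qPlus m F) m) {g : GL (Fin m ⊕ Fin m) F} {σ : F ≃+* F} (hg : (⟨g, σ⟩ : GamL (Fin m ⊕ Fin m) F) ∈ SP (qPlus m F)) (hg' : g ∈ GOs (qPlus m F)) :
    EP h ⟨_, hg⟩ = h.ep ⟨g, hg'⟩ := rfl

theorem sp_left (x : SP (qPlus m F)) : x.1.left ∈ GOs (qPlus m F) := (R_split x (std_mem plus_σ)).choose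

end plus

end CfsgLib.Eps27
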