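import Cfsg.Agent.LibEps27f

set_option autoImplicit false

/-! Conjugacy of field and graph-field automorphisms of the plus-type groups. -/

namespace CfsgLib.Eps27

open Cfsg.Agent.H22 CfsgLib.Semi27 CfsgLib.Lift27 CfsgLib.RhoO27 CfsgLib.AutO27 CfsgLib.Spinor27 CfsgLib.Even27 CfsgLib.Min27 CfsgLib.H9027 CfsgLib.QForm27 CfsgLib.Desc27 Module Matrix

universe u

section plus
variable {F : Type u} [Field F] [Fintype F] {m : ℕ} {σ : F ≃+* F}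

theorem ep_of_plus (h : Ea (qPlus (m + 1) F) (m + 1)) {g : GOs (qPlus (m + 1) F)} (t : Tr (qPlus (m + 1) F) (qPlus (m + 1) F)) (ht : Adp t σ (g : GL (Fin (m + 1) ⊕ Fin (m + 1)) F)) :
    h.ep g = 1 := by
  rw [adp_ep h plus_σ t (Tr.rfl' _) (g₂ := 1) ht (adp_rfl _ σ), map_one]

theorem ep_of_minus (h : Ea (qPlus (m + 1) F) (m + 1)) (ho : orderOf σ = 2) {a b : F} (ha : σ a = a) (hb : σ b = b)
    (hab : ∀ z₁ z₂ : F, σ z₁ = z₁ → σ z₂ = z₂ → z₁ ^ 2 + a * z₁ * z₂ + b * z₂ ^ 2 = 0 → z₁ = 0 ∧ z₂ = 0)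
    {g : GOs (qPlus (m + 1) F)} (t : Tr (qPlus (m + 1) F) (qMinus m F a b)) (ht : Adp t σ (g : GL (Fin (m + 1) ⊕ Fin (m + 1)) F)) :
    h.ep g = -1 := by
  obtain ⟨θ, hθ⟩ := exists_root ha hb hab ho
  obtain ⟨t', ht'⟩ := exists_spTr (m := m) hθ (disc_ne ha hb hab)
  have h1 := sw_adp ha (aniso_ext ha hb hab hθ) t' ht'
  have h2 := adp_ep h plus_σ t t' (g₁ := g) (g₂ := rfG (swV m F) swV_ne) ht h1
  rw [h2, h.ep_rfG]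

theorem w_plus : σ ∘ (swV m F) = swV m F := by
  funext i
  unfold swV
  simp only [Function.comp_apply, Pi.sub_apply, map_sub]
  congr 1
  · exact congrFun (comp_single σ (Sum.inl (Fin.last m) : Fin (m + 1) ⊕ Fin (m + 1))) i
  · exact congrFun (comp_single σ (Sum.inr (Fin.last m) : Fin (m + 1) ⊕ Fin (m + 1))) i

/-- equal parity implies conjugate under the inner-diagonal group -/
theorem plus_conj (hm : 3 ≤ m) (h : Ea (qPlus (m + 1) F) (m + 1)) {r : ℕ} (hr : r.Prime) (ho : orderOf σ = r) {g₁ g₂ : GL (Fin (m + 1) ⊕ Fin (m + 1)) F}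
    (hg₁ : (⟨g₁, σ⟩ : GamL (Fin (m + 1) ⊕ Fin (m + 1)) F) ∈ SP (qPlus (m + 1) F)) (hg₂ : (⟨g₂, σ⟩ : GamL (Fin (m + 1) ⊕ Fin (m + 1)) F) ∈ SP (qPlus (m + 1) F))
    (hr₁ : CfsgLib.RhoO27.R (qPlus (m + 1) F) ⟨_, hg₁⟩ ^ r = 1) (hr₂ : CfsgLib.RhoO27.R (qPlus (m + 1) F) ⟨_, hg₂⟩ ^ r = 1) (hE : EP h ⟨_, hg₁⟩ = EP h ⟨_, hg₂⟩) :
    Cfsg.IsConjUnder (rho h.Gam h.Gam_le).range (CfsgLib.RhoO27.R (qPlus (m + 1) F) ⟨_, hg₁⟩) (CfsgLib.RhoO27.R (qPlus (m + 1) F) ⟨_, hg₂⟩) := by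
  obtain ⟨e, f, u, hG⟩ := gd_qPlus (F := F) (m := m + 1) (by omega)
  have e1 : EP h ⟨_, hg₁⟩ = h.ep ⟨g₁, sp_left ⟨_, hg₁⟩⟩ := rfl
  have e2 : EP h ⟨_, hg₂⟩ = h.ep ⟨g₂, sp_left ⟨_, hg₂⟩⟩ := rfl
  rw [e1, e2] at hE
  rcases plus_adp hm hr ho hg₁ hr₁ with ⟨t₁, ht₁⟩ | ⟨hr2, h₁⟩
  · rcases plus_adp hm hr ho hg₂ hr₂ with ⟨t₂, ht₂⟩ | ⟨hr2, h₂⟩
    · exact adp_conj hG h h w_plus swV_ne plus_σ t₁ t₂ ht₁ ht₂ hg₁ hg₂
    · exfalso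
      subst hr2
      obtain ⟨a, b, hab⟩ := exists_aniso (fixF σ)
      have hab' : ∀ z₁ z₂ : F, σ z₁ = z₁ → σ z₂ = z₂ → z₁ ^ 2 + (a : F) * z₁ * z₂ + (b : F) * z₂ ^ 2 = 0 → z₁ = 0 ∧ z₂ = 0 := by
        intro z₁ z₂ h1 h2 hz
        have h3 := hab ⟨z₁, h1⟩ ⟨z₂, h2⟩ (Subtype.ext hz)
        exact ⟨congrArg Subtype.val h3.1, congrArg Subtype.val h3.2⟩
      obtain ⟨t₂, ht₂⟩ := h₂ a b a.2 b.2 hab'
      rw [ep_of_plus h (g := ⟨g₁, sp_left ⟨_, hg₁⟩⟩) t₁ ht₁, ep_of_minus h ho a.2 b.2 hab' (g := ⟨g₂, sp_left ⟨_, hg₂⟩⟩) t₂ ht₂] at hE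
      exact absurd hE (by decide)
  · subst hr2
    obtain ⟨a, b, hab⟩ := exists_aniso (fixF σ)
    have hab' : ∀ z₁ z₂ : F, σ z₁ = z₁ → σ z₂ = z₂ → z₁ ^ 2 + (a : F) * z₁ * z₂ + (b : F) * z₂ ^ 2 = 0 → z₁ = 0 ∧ z₂ = 0 := by
      intro z₁ z₂ h1 h2 hz
      have h3 := hab ⟨z₁, h1⟩ ⟨z₂, h2⟩ (Subtype.ext hz)
      exact ⟨congrArg Subtype.val h3.1, congrArg Subtype.val h3.2⟩
    obtain ⟨t₁, ht₁⟩ := h₁ a b a.2 b.2 hab'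
    rcases plus_adp hm hr ho hg₂ hr₂ with ⟨t₂, ht₂⟩ | ⟨-, h₂⟩
    · exfalso
      rw [ep_of_plus h (g := ⟨g₂, sp_left ⟨_, hg₂⟩⟩) t₂ ht₂, ep_of_minus h ho a.2 b.2 hab' (g := ⟨g₁, sp_left ⟨_, hg₁⟩⟩) t₁ ht₁] at hE
      exact absurd hE (by decide)
    · obtain ⟨t₂, ht₂⟩ := h₂ a b a.2 b.2 hab'
      have hw : σ ∘ (Pi.single (.inr 0) 1 : (Fin m ⊕ Fin m) ⊕ Fin 2 → F) = Pi.single (.inr 0) 1 := comp_single σ _
      exact adp_conj hG h (ea_qMinus (m := m) (by omega) (disc_ne a.2 b.2 hab')) hw (fr_qMinus m (a : F) (b : F)).qu (minus_σ a.2 b.2) t₁ t₂ ht₁ ht₂ hg₁ hg₂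

set_option maxHeartbeats 1000000 in
/-- the classes of field and graph-field automorphisms -/
theorem plus_class (hm : 4 ≤ m) (h : Ea (qPlus (m + 1) F) (m + 1)) (x : MulAut (Cfsg.POmega F ⇑(qPlus (m + 1) F)))
    (hx : (∃ (α φ : MulAut (Cfsg.POmega F ⇑(qPlus (m + 1) F))) (σ : F ≃+* F),
        σ ≠ RingEquiv.refl F ∧ Cfsg.IsFieldAutPOmegaOf ⇑(qPlus (m + 1) F) σ φ ∧ α * x * α⁻¹ = φ) ∨
      (∃ (α γ φ : MulAut (Cfsg.POmega F ⇑(qPlus (m + 1) F))) (σ : F ≃+* F) (v : Fin (m + 1) ⊕ Fin (m + 1) → F) (r : GL (Fin (m + 1) ⊕ Fin (m + 1)) F),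
        σ ≠ RingEquiv.refl F ∧ qPlus (m + 1) F v ≠ 0 ∧ (∀ i, σ (v i) = v i) ∧
        (r : Matrix (Fin (m + 1) ⊕ Fin (m + 1)) (Fin (m + 1) ⊕ Fin (m + 1)) F) = Cfsg.reflectionMatrix ⇑(qPlus (m + 1) F) v ∧
        Cfsg.IsInducedBySemilinearPOmega ⇑(qPlus (m + 1) F) r (RingEquiv.refl F) γ ∧
        Cfsg.IsFieldAutPOmegaOf ⇑(qPlus (m + 1) F) σ φ ∧ α * x * α⁻¹ = γ * φ)) {r : ℕ} (hr : r.Prime) (hxr : orderOf x = r) :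
    ∃ X : SP (qPlus (m + 1) F), x = CfsgLib.RhoO27.R (qPlus (m + 1) F) X ∧ orderOf X.1.right = r ∧
      ((∃ (α γ φ : MulAut (Cfsg.POmega F ⇑(qPlus (m + 1) F))) (σ : F ≃+* F) (v : Fin (m + 1) ⊕ Fin (m + 1) → F) (r : GL (Fin (m + 1) ⊕ Fin (m + 1)) F),
        σ ≠ RingEquiv.refl F ∧ qPlus (m + 1) F v ≠ 0 ∧ (∀ i, σ (v i) = v i) ∧
        (r : Matrix (Fin (m + 1) ⊕ Fin (m + 1)) (Fin (m + 1) ⊕ Fin (m + 1)) F) = Cfsg.reflectionMatrix ⇑(qPlus (m + 1) F) v ∧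
        Cfsg.IsInducedBySemilinearPOmega ⇑(qPlus (m + 1) F) r (RingEquiv.refl F) γ ∧
        Cfsg.IsFieldAutPOmegaOf ⇑(qPlus (m + 1) F) σ φ ∧ α * x * α⁻¹ = γ * φ) → EP h X = -1) := by
  obtain ⟨e, f, u, hG⟩ := good_qPlus (F := F) (m := m + 1) (by omega)
  obtain ⟨X, rfl⟩ := R_surj hG x
  -- semilinear form of the conjugate
  have hgf : ∀ (α γ φ : MulAut (Cfsg.POmega F ⇑(qPlus (m + 1) F))) (σ : F ≃+* F) (v : Fin (m + 1) ⊕ Fin (m + 1) → F) (r : GL (Fin (m + 1) ⊕ Fin (m + 1)) F),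
        qPlus (m + 1) F v ≠ 0 →
        (r : Matrix (Fin (m + 1) ⊕ Fin (m + 1)) (Fin (m + 1) ⊕ Fin (m + 1)) F) = Cfsg.reflectionMatrix ⇑(qPlus (m + 1) F) v →
        Cfsg.IsInducedBySemilinearPOmega ⇑(qPlus (m + 1) F) r (RingEquiv.refl F) γ →
        Cfsg.IsFieldAutPOmegaOf ⇑(qPlus (m + 1) F) σ φ → α * CfsgLib.RhoO27.R (qPlus (m + 1) F) X * α⁻¹ = γ * φ →
        ∃ A Y : SP (qPlus (m + 1) F), A * X * A⁻¹ * Y⁻¹ ∈ (CfsgLib.RhoO27.R (qPlus (m + 1) F)).ker ∧ Y.1.right = σ ∧ EP h Y = -1 := by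
    intro α γ φ σ v r hv hr' hγ hφ hα
    obtain ⟨A, rfl⟩ := R_surj hG α
    have hrr : r = ((rfM _ v hv : Cfsg.isometryGroup F ⇑(qPlus (m + 1) F)) : GL (Fin (m + 1) ⊕ Fin (m + 1)) F) := by
      apply Units.ext
      rw [hr']
      apply Matrix.toLin'.injective
      apply LinearMap.ext
      intro x
      rw [Matrix.toLin'_apply, Matrix.toLin'_apply, rfM_mulVec]
      exact reflectionMatrix_mulVec _ v x
    have hrG : r ∈ GOs (qPlus (m + 1) F) := by rw [hrr]; exact iso_le (rfM _ v hv).2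
    have h1 := (isInd_iff (x := SemidirectProduct.inl r) (inl_mem_iff.2 hrG) γ).1 hγ
    have h2 := (isStd_iff (std_mem plus_σ) φ).1 hφ
    have hα' : CfsgLib.RhoO27.R (qPlus (m + 1) F) (A * X * A⁻¹) = CfsgLib.RhoO27.R (qPlus (m + 1) F) (⟨SemidirectProduct.inl r, inl_mem_iff.2 hrG⟩ * ⟨⟨1, σ⟩, std_mem plus_σ⟩) := by
      rw [map_mul, map_mul, map_inv, map_mul, ← h1, ← h2]
      exact hα
    refine ⟨A, ⟨SemidirectProduct.inl r, inl_mem_iff.2 hrG⟩ * ⟨⟨1, σ⟩, std_mem plus_σ⟩, ?_, ?_, ?_⟩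
    · rw [MonoidHom.mem_ker, map_mul, map_inv, hα', mul_inv_cancel]
    · show 1 * σ = σ
      rw [one_mul]
    · rw [map_mul]
      have e1 : EP h ⟨SemidirectProduct.inl r, inl_mem_iff.2 hrG⟩ = h.ep ⟨r, hrG⟩ := rfl
      have e2 : EP h ⟨⟨1, σ⟩, std_mem plus_σ⟩ = h.ep 1 := rfl
      have e3 : (⟨r, hrG⟩ : GOs (qPlus (m + 1) F)) = rfG v hv := Subtype.ext hrr
      rw [e1, e2, e3, h.ep_rfG, map_one]; rfl
  have hker : ∀ z ∈ (CfsgLib.RhoO27.R (qPlus (m + 1) F)).ker, z.1.right = 1 ∧ EP h z = 1 := by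
    intro z hz
    rw [MonoidHom.mem_ker, R_ker' hG.gd] at hz
    obtain ⟨h1, a, ha⟩ := hz
    refine ⟨h1, ?_⟩
    have e1 : EP h z = h.ep ⟨z.1.left, sp_left z⟩ := rfl
    have e2 : (⟨z.1.left, sp_left z⟩ : GOs (qPlus (m + 1) F)) = ⟨scal a, scal_mem a⟩ := Subtype.ext ha
    rw [e1, e2, h.ep_scal]
  have hright : ∀ A Y : SP (qPlus (m + 1) F), A * X * A⁻¹ * Y⁻¹ ∈ (CfsgLib.RhoO27.R (qPlus (m + 1) F)).ker → A.1.right * X.1.right * A.1.right⁻¹ = Y.1.right := by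
    intro A Y hz
    have := (hker _ hz).1
    have h2 : (A * X * A⁻¹ * Y⁻¹ : SP (qPlus (m + 1) F)).1.right = A.1.right * X.1.right * A.1.right⁻¹ * Y.1.right⁻¹ := rfl
    rw [h2] at this
    exact mul_inv_eq_one.1 this
  have hne : X.1.right ≠ 1 := by
    intro h1
    rcases hx with ⟨α, φ, σ, hσ, hφ, hα⟩ | ⟨α, γ, φ, σ, v, r, hσ, hv, -, hr', hγ, hφ, hα⟩
    · obtain ⟨A, rfl⟩ := R_surj hG α
      have h2 := (isStd_iff (std_mem plus_σ) φ).1 hφ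
      have hα' : CfsgLib.RhoO27.R (qPlus (m + 1) F) (A * X * A⁻¹) = CfsgLib.RhoO27.R (qPlus (m + 1) F) ⟨⟨1, σ⟩, std_mem plus_σ⟩ := by
        rw [map_mul, map_mul, map_inv, ← h2]
        exact hα
      have h3 := hright A ⟨⟨1, σ⟩, std_mem plus_σ⟩ (by rw [MonoidHom.mem_ker, map_mul, map_inv, hα', mul_inv_cancel])
      rw [h1, mul_one, mul_inv_cancel] at h3
      exact hσ h3.symm
    · obtain ⟨A, Y, h3, h4, -⟩ := hgf α γ φ σ v r hv hr' hγ hφ hα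
      have h5 := hright A Y h3
      rw [h1, mul_one, mul_inv_cancel, h4] at h5
      exact hσ h5.symm
  refine ⟨X, rfl, ?_, ?_⟩
  · haveI : Fact r.Prime := ⟨hr⟩
    refine orderOf_eq_prime ?_ hne
    have h1 : CfsgLib.RhoO27.R (qPlus (m + 1) F) (X ^ r) = 1 := by rw [map_pow, ← hxr, pow_orderOf_eq_one]
    have h2 := (hker _ (MonoidHom.mem_ker.2 h1)).1
    have h3 : (X ^ r : SP (qPlus (m + 1) F)).1.right = X.1.right ^ r := by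
      exact map_pow (SemidirectProduct.rightHom : GamL (Fin (m + 1) ⊕ Fin (m + 1)) F →* (F ≃+* F)) X.1 r
    rw [← h3, h2]
  · rintro ⟨α, γ, φ, σ, v, r, hσ, hv, -, hr', hγ, hφ, hα⟩
    obtain ⟨A, Y, h3, h4, h5⟩ := hgf α γ φ σ v r hv hr' hγ hφ hα
    have h6 := (hker _ h3).2
    rw [map_mul, map_mul, map_mul, map_inv, map_inv, h5, mul_inv_cancel_comm] at h6
    exact mul_inv_eq_one.1 h6

end plus

end CfsgLib.Eps27
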