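import Cfsg.Agent.LibEps27g

set_option autoImplicit false

/-! Splitting numbers of graph-field involutions. -/

namespace CfsgLib.Eps27

open Cfsg.Agent.H22 CfsgLib.Semi27 CfsgLib.Lift27 CfsgLib.RhoO27 CfsgLib.AutO27 CfsgLib.Spinor27 CfsgLib.Even27 CfsgLib.Min27 CfsgLib.H9027 CfsgLib.QForm27 CfsgLib.Desc27 Module Matrix

universe u

section idx
variable {A Γ : Type*} [Group A] [Group Γ]

theorem splitCount_rho (ρ : Γ →* A) (T : Subgroup A) (x : A) (N C : Subgroup Γ) [N.Normal] (hN : ∀ g, g ∈ N ↔ ρ g ∈ T) (hTρ : T ≤ ρ.range)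
    (hC : ∀ c, c ∈ C ↔ ρ c * x = x * ρ c) : Cfsg.splitClassCount ρ.range T x = (N ⊔ C).index := by
  classical
  have hy : ∀ y : {y : A // Cfsg.IsConjUnder ρ.range x y}, ∃ g : Γ, y.1 = ρ g * x * (ρ g)⁻¹ := by
    rintro ⟨y, _, ⟨g, rfl⟩, h⟩
    exact ⟨g, h⟩
  choose g hg using hy
  have key : ∀ (y z : A) (a b : Γ), y = ρ a * x * (ρ a)⁻¹ → z = ρ b * x * (ρ b)⁻¹ →
      (Cfsg.IsConjUnder T y z ↔ a⁻¹ * b ∈ N ⊔ C) := by
    intro y z a b hya hzb
    constructor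
    · rintro ⟨t, ht, h⟩
      obtain ⟨τ, rfl⟩ := hTρ ht
      have h1 : ρ τ * (ρ a * x * (ρ a)⁻¹) * (ρ τ)⁻¹ = ρ b * x * (ρ b)⁻¹ := by rw [← hya, ← hzb, h]
      have h2 : (τ * a)⁻¹ * b ∈ C := by
        rw [hC]
        have h2 : ρ b * x = ρ τ * (ρ a * x * (ρ a)⁻¹) * (ρ τ)⁻¹ * ρ b := by rw [h1]; group
        rw [map_mul, map_inv, map_mul]
        calc (ρ τ * ρ a)⁻¹ * ρ b * x = (ρ τ * ρ a)⁻¹ * (ρ b * x) := by group
          _ = x * ((ρ τ * ρ a)⁻¹ * ρ b) := by rw [h2]; group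
      have h3 : a⁻¹ * τ * a ∈ N := by
        have := (inferInstance : N.Normal).conj_mem τ ((hN τ).2 ht) a⁻¹
        rwa [inv_inv] at this
      have h4 : a⁻¹ * b = a⁻¹ * τ * a * ((τ * a)⁻¹ * b) := by group
      rw [h4]
      exact Subgroup.mul_mem_sup h3 h2
    · intro h
      obtain ⟨n, hn, c, hc, hnc⟩ := Subgroup.mem_sup_of_normal_left.1 h
      have hb : b = a * n * a⁻¹ * (a * c) := by
        have : b = a * (n * c) := by rw [hnc]; group
        rw [this]; group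
      have hn' : ρ (a * n * a⁻¹) ∈ T := (hN _).1 ((inferInstance : N.Normal).conj_mem n hn a)
      refine ⟨_, hn', ?_⟩
      have hc' : ρ c * x * (ρ c)⁻¹ = x := by rw [(hC c).1 hc, mul_inv_cancel_right]
      rw [hzb, hya, hb, map_mul ρ (a * n * a⁻¹), map_mul ρ a c]
      calc ρ (a * n * a⁻¹) * (ρ a * ρ c) * x * (ρ (a * n * a⁻¹) * (ρ a * ρ c))⁻¹ = ρ (a * n * a⁻¹) * ρ a * (ρ c * x * (ρ c)⁻¹) * (ρ a)⁻¹ * (ρ (a * n * a⁻¹))⁻¹ := by group
        _ = _ := by rw [hc']; group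
  let f : {y : A // Cfsg.IsConjUnder ρ.range x y} → Γ ⧸ (N ⊔ C) := fun y => QuotientGroup.mk (g y)
  have hf : ∀ y z, Cfsg.IsConjUnder T y.1 z.1 ↔ f y = f z := by
    intro y z
    rw [key _ _ _ _ (hg y) (hg z)]
    exact QuotientGroup.eq.symm
  let F : Quot (fun y z : {y : A // Cfsg.IsConjUnder ρ.range x y} => Cfsg.IsConjUnder T y.1 z.1) → Γ ⧸ (N ⊔ C) :=
    Quot.lift f (fun y z h => (hf y z).1 h)
  have hbij : Function.Bijective F := by
    constructor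
    · intro a b
      induction a using Quot.ind with
      | mk a =>
        induction b using Quot.ind with
        | mk b =>
          intro h
          exact Quot.sound ((hf a b).2 h)
    · intro z
      induction z using QuotientGroup.induction_on with
      | H c =>
        let y : {y : A // Cfsg.IsConjUnder ρ.range x y} := ⟨ρ c * x * (ρ c)⁻¹, ρ c, ⟨c, rfl⟩, rfl⟩
        refine ⟨Quot.mk _ y, ?_⟩
        show (QuotientGroup.mk (g y) : Γ ⧸ (N ⊔ C)) = QuotientGroup.mk c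
        rw [QuotientGroup.eq, ← key _ _ _ _ (hg y) (show y.1 = _ from rfl)]
        exact ⟨1, T.one_mem, by group⟩
  exact Nat.card_congr (Equiv.ofBijective F hbij)

/-- index of an extension by one class -/
theorem index_ext (N C : Subgroup Γ) [N.Normal] (hN : N.index = 4) (c₀ : Γ) (hc₀ : c₀ ∈ C) (h : ∀ c ∈ C, c ∈ N ∨ c * c₀ ∈ N) :
    (c₀ ∈ N → (N ⊔ C).index = 4) ∧ (c₀ ∉ N → (N ⊔ C).index = 2) := by
  constructor
  · intro h0
    have : N ⊔ C = N := by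
      apply sup_eq_left.2
      intro c hc
      rcases h c hc with h1 | h1
      · exact h1
      · have := N.mul_mem h1 (N.inv_mem h0)
        rwa [mul_inv_cancel_right] at this
    rw [this, hN]
  · intro h0
    have h1 : N.relIndex (N ⊔ C) = 2 := by
      rw [Subgroup.relIndex_eq_two_iff]
      refine ⟨c₀, (le_sup_right : C ≤ N ⊔ C) hc₀, fun b hb => ?_⟩
      obtain ⟨n, hn, c, hc, rfl⟩ := Subgroup.mem_sup_of_normal_left.1 hb
      rcases h c hc with h2 | h2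
      · right
        refine ⟨N.mul_mem hn h2, fun h3 => h0 ?_⟩
        have := N.mul_mem (N.inv_mem (N.mul_mem hn h2)) h3
        rwa [inv_mul_cancel_left] at this
      · left
        refine ⟨by rw [mul_assoc]; exact N.mul_mem hn h2, fun h3 => h0 ?_⟩
        have h4 : n * c * c₀ ∈ N := by rw [mul_assoc]; exact N.mul_mem hn h2
        have := N.mul_mem (N.inv_mem h3) h4
        rwa [inv_mul_cancel_left] at this
    have h2 := Subgroup.relIndex_mul_index (le_sup_left : N ≤ N ⊔ C)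
    rw [h1, hN] at h2
    omega

end idx

section ki
variable {F : Type u} [Field F] [Fintype F] {ι ι' : Type} [Fintype ι] [DecidableEq ι] [Fintype ι'] [DecidableEq ι']
variable {Q : QuadraticForm F (ι → F)} {Q' : QuadraticForm F (ι' → F)} {n : ℕ} {e f : Fin 3 → (ι → F)} {u : ι → F}

theorem Tr.KI_gl (t : Tr Q Q') (g : GOs Q') : (⟨t.gl g, t.gl_GOs g.2⟩ : GOs Q) ∈ KI Q ↔ g ∈ KI Q' := by
  show rho (GOs Q) le_rfl _ ∈ Cfsg.Inn _ ↔ rho (GOs Q') le_rfl _ ∈ Cfsg.Inn _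
  rw [← congr_inn t.PO]
  have h1 : rho (GOs Q) le_rfl ⟨t.gl g, t.gl_GOs g.2⟩ = MulAut.congr t.PO (rho (GOs Q') le_rfl g) := by
    rw [rho_def, rho_def, ← t.R_gam]
    exact congrArg _ (Subtype.ext (t.gam_inl _).symm)
  rw [h1]

theorem Tr.negIn (t : Tr Q Q') : NegIn Q → NegIn Q' := by
  rintro ⟨g, hg, hg1⟩
  refine ⟨t.symm.iso g, (t.symm.iso_omega g).2 hg, ?_⟩
  show t.L * ((g : GL ι F) : Matrix ι ι F) * t.K = -1
  rw [hg1, Matrix.mul_neg, Matrix.mul_one, Matrix.neg_mul, t.LK]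

theorem scal_KI (hG : Gd Q e f u) (a : Fˣ) : (⟨scal a, scal_mem a⟩ : GOs Q) ∈ KI Q := by
  rw [mem_KI hG]
  exact ⟨a, 1, by
    show scal a = scal a * ((1 : Cfsg.isometryGroup F ⇑Q) : GL ι F)
    rw [Subgroup.coe_one, mul_one]⟩

end ki

theorem lift_GOs {F₀ F : Type*} [Field F₀] [Field F] {ι : Type} [Fintype ι] [DecidableEq ι] {Q₀ : QuadraticForm F₀ (ι → F₀)} {Q : QuadraticForm F (ι → F)}
    {j : F₀ →+* F} (hj : ∀ x, Q (j ∘ x) = j (Q₀ x)) {g : GL ι F₀} (hg : g ∈ GOs Q₀) : Matrix.GeneralLinearGroup.map j g ∈ GOs Q := by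
  obtain ⟨c, hc⟩ := hg
  exact ⟨Units.map (j : F₀ →* F) c, lift_mult j hj hc⟩

section rat
variable {F : Type u} [Field F] [Fintype F] {ι : Type} [Fintype ι] [DecidableEq ι]
variable {Q : QuadraticForm F (ι → F)} {n : ℕ} {e f : Fin 3 → (ι → F)} {u : ι → F} {σ : F ≃+* F} {Q₀ : QuadraticForm (fixF σ) (ι → fixF σ)}

/-- base change of similarities -/
noncomputable def JH (hj : ∀ x, Q ((fixF σ).subtype ∘ x) = (fixF σ).subtype (Q₀ x)) : GOs Q₀ →* GOs Q where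
  toFun g := ⟨Matrix.GeneralLinearGroup.map (fixF σ).subtype (g : GL ι (fixF σ)), lift_GOs hj g.2⟩
  map_one' := Subtype.ext (map_one _)
  map_mul' g h := Subtype.ext (map_mul _ _ _)

theorem JH_coe (hj : ∀ x, Q ((fixF σ).subtype ∘ x) = (fixF σ).subtype (Q₀ x)) (g : GOs Q₀) :
    ((JH hj g : GOs Q) : GL ι F) = Matrix.GeneralLinearGroup.map (fixF σ).subtype (g : GL ι (fixF σ)) := rfl

theorem mu_JH (hj : ∀ x, Q ((fixF σ).subtype ∘ x) = (fixF σ).subtype (Q₀ x)) (hx : ∃ x, Q x ≠ 0) (hx₀ : ∃ x, Q₀ x ≠ 0) (g : GOs Q₀) :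
    mu hx (JH hj g) = Units.map ((fixF σ).subtype : fixF σ →* F) (mu hx₀ g) := mu_eq _ (lift_mult _ hj (mu_spec hx₀ g))

theorem eps_JH [Fintype (fixF σ)] (h : Ev Q n) (h₀ : Ev Q₀ n) (hj : ∀ x, Q ((fixF σ).subtype ∘ x) = (fixF σ).subtype (Q₀ x)) (g : GOs Q₀) :
    h.eps (JH hj g) = h₀.eps g := by
  apply units_iff
  rw [Ev.eps_eq_one, Ev.eps_eq_one, mu_JH hj h.hx h₀.hx, JH_coe, det_map_gl, ← map_pow (Units.map ((fixF σ).subtype : fixF σ →* F))]
  exact (Units.map_injective (fixF σ).subtype.injective).eq_iff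

/-- rational similarities with square multiplier are inner -/
theorem rat_sq [Fintype (fixF σ)] (h : Ev Q n) (h₀ : Ev Q₀ n) (hG : Gd Q e f u) (hneg : NegIn Q) (hj : ∀ x, Q ((fixF σ).subtype ∘ x) = (fixF σ).subtype (Q₀ x))
    (ho : orderOf σ = 2) (g : GOs Q₀) (hg : h₀.eps g = 1) (hsq : IsSquare ((mu h₀.hx g : (fixF σ)ˣ) : fixF σ)) : JH hj g ∈ KI Q := by
  obtain ⟨s, hs⟩ := hsq
  have hs0 : s ≠ 0 := by
    rintro rfl
    rw [mul_zero] at hs
    exact (mu h₀.hx g).ne_zero hs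
  obtain ⟨s', hs'⟩ : ∃ s' : (fixF σ)ˣ, (s' : fixF σ) = s := ⟨Units.mk0 s hs0, rfl⟩
  have hmu : mu h₀.hx g = s' * s' := Units.ext (by rw [Units.val_mul, hs', hs])
  obtain ⟨t, ht⟩ := iso_of_sim (g := (g : GL ι (fixF σ))) (d := scal s') (c := s' * s') (by
    intro v
    rw [mu_spec h₀.hx g, hmu]) (by
    intro v
    rw [scal_mulVec, qsmul, Units.val_mul])
  have hdt : (t : GL ι (fixF σ)).det = 1 := by
    have h1 := (h₀.eps_eq_one g).1 hg
    have h3 := congrArg Matrix.GeneralLinearGroup.det ht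
    rw [map_mul, h1, hmu, det_scal, h₀.card, ← pow_two, ← pow_mul] at h3
    exact mul_eq_right.1 h3.symm
  rw [h.mem_KI_iff hG hneg (a := Units.map ((fixF σ).subtype : fixF σ →* F) s') (s := liftI (fixF σ).subtype hj t)]
  · exact spin_lift_trivial (fixF σ).subtype hj h.h2 h.nd h.fr h₀.nd (exists_ne_one_of_odd h₀.h2) (fun a => squares_of_order_two h.h2 ho a) t
  · rw [liftI_coe, det_map_gl, hdt, map_one]
  · rw [JH_coe, ht, map_mul, liftI_coe, scal_comm]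
    congr 1
    apply Units.ext
    show (Matrix.scalar ι (s' : fixF σ)).map (fixF σ).subtype = Matrix.scalar ι ((fixF σ).subtype (s' : fixF σ))
    rw [Matrix.scalar_apply, Matrix.scalar_apply, Matrix.diagonal_map (map_zero _)]

theorem nonsq_mul {K : Type*} [Field K] [Fintype K] (h2 : (2 : K) ≠ 0) {a b : K} (ha : ¬ IsSquare a) (hb : ¬ IsSquare b) : IsSquare (a * b) := by
  have ha0 : a ≠ 0 := by rintro rfl; exact ha IsSquare.zero
  have hb0 : b ≠ 0 := by rintro rfl; exact hb IsSquare.zero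
  rw [← chi_eq_one, chi_mul h2 ha0 hb0, chi_eq_neg.2 ha, chi_eq_neg.2 hb]; rfl

theorem eps_scal (h : Ev Q n) (a : Fˣ) : h.eps ⟨scal a, scal_mem a⟩ = 1 := by
  rw [Ev.eps_eq_one]
  have h3 : mu h.hx ⟨scal a, scal_mem a⟩ = a ^ 2 := mu_eq _ (fun v => by
    show Q (((scal a : GL ι F) : Matrix ι ι F) *ᵥ v) = _
    rw [scal_mulVec, qsmul, pow_two, Units.val_mul])
  rw [h3]
  show (scal a : GL ι F).det = _
  rw [det_scal, h.card, pow_mul]

/-- classes of elements commuting with the field automorphism of order two -/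
theorem rat_class [Fintype (fixF σ)] (h : Ev Q n) (h₀ : Ev Q₀ n) (hG : Gd Q e f u) (hneg : NegIn Q) (hj : ∀ x, Q ((fixF σ).subtype ∘ x) = (fixF σ).subtype (Q₀ x))
    (ho : orderOf σ = 2) (D : GOs Q₀) (hD : h₀.eps D = 1) (hDn : ¬ IsSquare ((mu h₀.hx D : (fixF σ)ˣ) : fixF σ)) (c : GOs Q) (hc : h.eps c = 1)
    (hcc : ∃ (a : Fˣ) (g : GL ι F), gm σ g = g ∧ (c : GL ι F) = scal a * g) : c ∈ KI Q ∨ c * JH hj D ∈ KI Q := by
  obtain ⟨a, g, hg, hcg⟩ := hcc
  obtain ⟨g₀, rfl⟩ := fixed_gl hg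
  haveI : Nonempty ι := by
    have := h.card
    have h1 := h.n1
    exact Fintype.card_pos_iff.1 (by omega)
  have hgG : Matrix.GeneralLinearGroup.map (fixF σ).subtype g₀ ∈ GOs Q := by
    have : Matrix.GeneralLinearGroup.map (fixF σ).subtype g₀ = (scal a)⁻¹ * (c : GL ι F) := by rw [hcg, inv_mul_cancel_left]
    rw [this]
    exact mul_mem (inv_mem (scal_mem a)) c.2
  have hg₀ : g₀ ∈ GOs Q₀ := (comap_GOs _ hj h₀.hx g₀).1 hgG
  obtain ⟨G₀, hG₀⟩ : ∃ G₀ : GOs Q₀, (G₀ : GL ι (fixF σ)) = g₀ := ⟨⟨g₀, hg₀⟩, rfl⟩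
  have hceq : c = ⟨scal a, scal_mem a⟩ * JH hj G₀ := by
    apply Subtype.ext
    rw [hcg, Subgroup.coe_mul, JH_coe, hG₀]
  have hge : h₀.eps G₀ = 1 := by
    have h1 := congrArg h.eps hceq
    rw [map_mul, eps_scal, one_mul, hc, eps_JH h h₀] at h1
    exact h1.symm
  by_cases hsq : IsSquare ((mu h₀.hx G₀ : (fixF σ)ˣ) : fixF σ)
  · left
    rw [hceq]
    exact mul_mem (scal_KI hG a) (rat_sq h h₀ hG hneg hj ho G₀ hge hsq)
  · right
    have h5 := rat_sq h h₀ hG hneg hj ho (G₀ * D) (by rw [map_mul, hge, hD, one_mul]) (by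
      rw [map_mul, Units.val_mul]
      exact nonsq_mul h₀.h2 hsq hDn)
    rw [hceq, mul_assoc, ← map_mul]
    exact mul_mem (scal_KI hG a) h5

end rat

end CfsgLib.Eps27
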