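import Cfsg.Agent.LibEps27h

set_option autoImplicit false

/-! The class of the nonsquare similarity in the split case. -/

namespace CfsgLib.Eps27

open Cfsg.Agent.H22 CfsgLib.Semi27 CfsgLib.Lift27 CfsgLib.RhoO27 CfsgLib.AutO27 CfsgLib.Spinor27 CfsgLib.Even27 CfsgLib.Min27 CfsgLib.H9027 CfsgLib.QForm27 CfsgLib.Desc27 Module Matrix

universe u

section norm
variable {F : Type u} [Field F] [Fintype F] {σ : F ≃+* F}

/-- norms of squares -/
theorem norm_sq (ho : orderOf σ = 2) {x : F} (hx : IsSquare x) {y : fixF σ} (hy : (y : F) = x * σ x) : IsSquare y := by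
  obtain ⟨t, rfl⟩ := hx
  have hσ2 : ∀ z : F, σ (σ z) = z := by
    intro z
    have : (σ ^ 2) z = z := by rw [← ho, pow_orderOf_eq_one]; rfl
    rw [pow_two] at this
    exact this
  refine ⟨⟨t * σ t, ?_⟩, Subtype.ext ?_⟩
  · rw [mem_fixF, map_mul, hσ2, mul_comm]
  · rw [hy, map_mul]
    show t * t * (σ t * σ t) = (t * σ t) * (t * σ t)
    ring

/-- the square root of a nonsquare -/
theorem root_chi [Fintype (fixF σ)] (h2 : (2 : F) ≠ 0) (ho : orderOf σ = 2) {c : fixF σ} (hc : ¬ IsSquare c) {w y : F} (hw : w * σ w = c) (hy : y * y = c) :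
    chi w = -1 ∧ (chi y = -1 ↔ IsSquare (-1 : fixF σ)) := by
  have hc0 : (c : F) ≠ 0 := by
    intro h0
    have : c = 0 := Subtype.ext h0
    rw [this] at hc
    exact hc IsSquare.zero
  have hwn : ¬ IsSquare w := fun h => hc (norm_sq ho h hw.symm)
  have hy0 : y ≠ 0 := by rintro rfl; rw [mul_zero] at hy; exact hc0 hy.symm
  have hσy : σ y = -y := by
    have h1 : σ y * σ y = y * y := by rw [← map_mul, hy]; exact c.2
    rcases mul_self_eq_mul_self_iff.1 h1 with h3 | h3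
    · exfalso
      apply hc
      exact ⟨⟨y, h3⟩, Subtype.ext hy.symm⟩
    · exact h3
  refine ⟨chi_eq_neg.2 hwn, ?_⟩
  rw [chi_eq_neg]
  constructor
  · intro hyn
    have h3 := nonsq_mul h2 hyn hwn
    have h4 : (((-1 : fixF σ) * (c * c) : fixF σ) : F) = (y * w) * σ (y * w) := by
      rw [map_mul, hσy]
      push_cast
      linear_combination (y * y) * hw + (c : F) * hy
    have h5 := norm_sq ho h3 h4
    have hc0' : c ≠ 0 := fun h => hc0 (by rw [h]; rfl)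
    rw [mul_comm] at h5
    exact (isSquare_mul_iff (mul_ne_zero hc0' hc0') ⟨c, rfl⟩).1 h5
  · intro h1 hys
    obtain ⟨s, hs⟩ := norm_sq ho hys (y := -c) (by rw [hσy]; push_cast; linear_combination hy)
    obtain ⟨i, hi⟩ := h1
    apply hc
    exact ⟨i * s, by linear_combination (-1 : fixF σ) * hs + s * s * hi⟩

end norm

section crit
variable {F : Type u} [Field F] [Fintype F] {m : ℕ} {σ : F ≃+* F}

local notation "MM" => Matrix ((Fin m ⊕ Fin m) ⊕ Fin 2) ((Fin m ⊕ Fin m) ⊕ Fin 2) F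

/-- the diagonal element -/
noncomputable def dgA (m : ℕ) (y z : Fˣ) : GL (Fin (m + 1)) F :=
  ⟨Matrix.diagonal fun i => if i = Fin.last m then (z : F) else y, Matrix.diagonal fun i => if i = Fin.last m then ((z⁻¹ : Fˣ) : F) else ((y⁻¹ : Fˣ) : F),
    by
      rw [Matrix.diagonal_mul_diagonal, ← Matrix.diagonal_one]
      congr 1
      funext i
      split_ifs <;> simp,
    by
      rw [Matrix.diagonal_mul_diagonal, ← Matrix.diagonal_one]
      congr 1
      funext i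
      split_ifs <;> simp⟩

theorem dgA_det (m : ℕ) (y z : Fˣ) : ((dgA m y z : GL (Fin (m + 1)) F) : Matrix (Fin (m + 1)) (Fin (m + 1)) F).det = (y : F) ^ m * z := by
  show (Matrix.diagonal fun i => if i = Fin.last m then (z : F) else y).det = _
  rw [Matrix.det_diagonal, Fin.prod_univ_castSucc]
  simp [(Fin.castSucc_lt_last _).ne]

theorem levi_dgA (m : ℕ) (y z : Fˣ) (x : Fin (m + 1) ⊕ Fin (m + 1) → F) :
    (levi (dgA m y z)).1 x = Sum.elim (fun i => (if i = Fin.last m then (z : F) else y) * x (Sum.inl i))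
      (fun i => (if i = Fin.last m then ((z⁻¹ : Fˣ) : F) else ((y⁻¹ : Fˣ) : F)) * x (Sum.inr i)) := by
  rw [levi_apply, Matrix.fromBlocks_mulVec]
  simp only [Matrix.zero_mulVec, add_zero, zero_add]
  congr 1
  · funext i
    show (Matrix.diagonal _ *ᵥ _) i = _
    rw [Matrix.mulVec_diagonal]; rfl
  · funext i
    show ((Matrix.diagonal _)ᵀ *ᵥ _) i = _
    rw [Matrix.diagonal_transpose, Matrix.mulVec_diagonal]; rfl

/-- the class of the rational similarity with nonsquare multiplier -/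
theorem dM_class [Fintype (fixF σ)] (h2 : (2 : F) ≠ 0) (ho : orderOf σ = 2) {a b : fixF σ}
    (hab : ∀ z₁ z₂ : F, σ z₁ = z₁ → σ z₂ = z₂ → z₁ ^ 2 + (a : F) * z₁ * z₂ + (b : F) * z₂ ^ 2 = 0 → z₁ = 0 ∧ z₂ = 0)
    {e f : Fin 3 → (Fin (m + 1) ⊕ Fin (m + 1) → F)} {u : Fin (m + 1) ⊕ Fin (m + 1) → F} (hG : Gd (qPlus (m + 1) F) e f u) (hneg : NegIn (qPlus (m + 1) F))
    (hj : ∀ x, qMinus m F a b ((fixF σ).subtype ∘ x) = (fixF σ).subtype (qMinus m (fixF σ) a b x))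
    {c : (fixF σ)ˣ} (hc : ¬ IsSquare (c : fixF σ)) (w0 w1 : fixF σ) (hw : w0 ^ 2 + a * w0 * w1 + b * w1 ^ 2 = (c : fixF σ)) :
    JH hj (⟨dM m c w0 w1 hw, c, dM_Q c w0 w1 hw⟩ : GOs (qMinus m (fixF σ) a b)) ∈ KI (qMinus m F a b) ↔ (Odd (m + 1) ∧ Fintype.card (fixF σ) % 4 ≠ 3) := by
  obtain ⟨θ, hθ⟩ := exists_root a.2 b.2 hab ho
  have hσθ := aniso_ext a.2 b.2 hab hθ
  obtain ⟨t, ht⟩ := exists_spTr (m := m) hθ (disc_ne a.2 b.2 hab)
  have hc0 : ((c : fixF σ) : F) ≠ 0 := fun h => c.ne_zero (Subtype.ext h)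
  obtain ⟨cF, hcF⟩ : ∃ cF : Fˣ, (cF : F) = ((c : fixF σ) : F) := ⟨Units.mk0 _ hc0, rfl⟩
  have hwF : (w0 : F) ^ 2 + a * w0 * w1 + b * (w1 : F) ^ 2 = (cF : F) := by
    have := congrArg Subtype.val hw
    push_cast at this
    rw [hcF]
    exact this
  obtain ⟨w, hwd⟩ : ∃ w : F, w = w0 - θ * w1 := ⟨_, rfl⟩
  have hσw : σ w = w0 - (-a - θ) * w1 := by
    rw [hwd, map_sub, map_mul, hσθ]
    have e0 : σ (w0 : F) = w0 := w0.2
    have e1 : σ (w1 : F) = w1 := w1.2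
    rw [e0, e1]
  have hww : w * σ w = ((c : fixF σ) : F) := by
    rw [hσw, hwd, ← hcF, ← hwF]
    linear_combination (-(w1 : F) ^ 2) * hθ
  have hw0 : w ≠ 0 := by
    rintro h0
    rw [h0, zero_mul] at hww
    exact hc0 hww.symm
  obtain ⟨y, hy⟩ := squares_of_order_two h2 ho (c : fixF σ)
  have hy0 : y ≠ 0 := by
    rintro rfl
    rw [mul_zero] at hy
    exact hc0 hy
  obtain ⟨k1, k2⟩ := root_chi h2 ho hc hww hy.symm
  obtain ⟨y', hy'⟩ : ∃ y' : Fˣ, (y' : F) = y := ⟨Units.mk0 y hy0, rfl⟩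
  obtain ⟨w', hw'⟩ : ∃ w' : Fˣ, (w' : F) = w := ⟨Units.mk0 w hw0, rfl⟩
  have hE : Ev (qPlus (m + 1) F) (m + 1) := ev_qPlus h2 (by omega)
  obtain ⟨s, hs⟩ : ∃ s : Cfsg.isometryGroup F ⇑(qPlus (m + 1) F), s = (oIso (qPlus (m + 1) F)).symm (levi (dgA m y' (w' * y'⁻¹))) := ⟨_, rfl⟩
  have hso : oIso (qPlus (m + 1) F) s = levi (dgA m y' (w' * y'⁻¹)) := by rw [hs, MulEquiv.apply_symm_apply]
  have hsp : hE.sp s = chi ((y : F) ^ m * (w * y⁻¹)) := by
    show spin hE.h2 hE.nd hE.fr (oIso (qPlus (m + 1) F) s) = _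
    rw [hso]
    have h1 := spin_levi hE.h2 hE.n1 (dgA m y' (w' * y'⁻¹))
    rw [dgA_det, Units.val_mul, Units.val_inv_eq_inv_val, hy', hw'] at h1
    exact h1
  have hdet : (s : GL (Fin (m + 1) ⊕ Fin (m + 1)) F).det = 1 := by
    rw [det_eq_one_iff hE.h2 hE.nd, hso]
    exact parFun_levi _
  have hchi : hE.sp s = chi y ^ (m + 1) * chi w := by
    rw [hsp]
    have h3 : (y : F) ^ m * (w * y⁻¹) = (y ^ (m + 1) * w) * (y⁻¹ * y⁻¹) := by field_simp; ring
    have hpow : ∀ k : ℕ, chi (y ^ k) = chi y ^ k := by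
      intro k
      induction k with
      | zero => rw [pow_zero, pow_zero, chi_one]
      | succ k ih => rw [pow_succ, chi_mul h2 (pow_ne_zero _ hy0) hy0, ih, pow_succ]
    rw [h3, chi_mul h2 (mul_ne_zero (pow_ne_zero _ hy0) hw0) (mul_ne_zero (inv_ne_zero hy0) (inv_ne_zero hy0)), chi_sq, mul_one,
      chi_mul h2 (pow_ne_zero _ hy0) hw0, hpow]
  have hiff : hE.sp s = 1 ↔ (Odd (m + 1) ∧ Fintype.card (fixF σ) % 4 ≠ 3) := by
    rw [hchi, k1]
    rw [← FiniteField.isSquare_neg_one_iff, ← k2]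
    constructor
    · intro h3
      have h4 : chi y ^ (m + 1) = -1 := by
        rw [mul_neg, mul_one] at h3
        rw [← h3, neg_neg]
      rcases Int.units_eq_one_or (chi y) with h5 | h5
      · rw [h5, one_pow] at h4
        exact absurd h4 (by decide)
      · refine ⟨?_, h5⟩
        rw [h5] at h4
        rcases Nat.even_or_odd (m + 1) with h6 | h6
        · rw [h6.neg_one_pow] at h4
          exact absurd h4 (by decide)
        · exact h6
    · rintro ⟨h3, h4⟩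
      rw [h4, h3.neg_one_pow]; rfl
  rw [← hiff, ← t.KI_gl]
  apply hE.mem_KI_iff hG hneg (a := y') hdet
  -- matrix identity
  apply gl_ext
  intro x
  obtain ⟨v, rfl⟩ : ∃ v, t.K *ᵥ v = x := ⟨t.L *ᵥ x, by rw [mulVec_mulVec, t.KL, one_mulVec]⟩
  have e1 : ((s : GL (Fin (m + 1) ⊕ Fin (m + 1)) F) : Matrix (Fin (m + 1) ⊕ Fin (m + 1)) (Fin (m + 1) ⊕ Fin (m + 1)) F) *ᵥ (t.K *ᵥ v) =
    (oIso (qPlus (m + 1) F) s).1 (t.K *ᵥ v) := rfl
  rw [scal_mul_mulVec, e1, hso, levi_dgA, t.gl_mulVec, JH_coe]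
  have hM : ((Matrix.GeneralLinearGroup.map (fixF σ).subtype (dM m c w0 w1 hw) : GL ((Fin m ⊕ Fin m) ⊕ Fin 2) F) : MM) =
      ((dM m cF (w0 : F) (w1 : F) hwF : GL ((Fin m ⊕ Fin m) ⊕ Fin 2) F) : MM) := by
    show (((dM m c w0 w1 hw : GL ((Fin m ⊕ Fin m) ⊕ Fin 2) (fixF σ))) : Matrix ((Fin m ⊕ Fin m) ⊕ Fin 2) ((Fin m ⊕ Fin m) ⊕ Fin 2) (fixF σ)).map (fixF σ).subtype = _
    rw [dM_coe, dM_coe, fromBlocks_map, Matrix.map_zero _ (map_zero _), Matrix.map_zero _ (map_zero _)]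
    congr 1
    · show (Matrix.diagonal (Sum.elim (fun _ => (c : fixF σ)) (fun _ => 1))).map (fixF σ).subtype = Matrix.diagonal _
      rw [Matrix.diagonal_map (map_zero _)]
      congr 1
      funext i
      rcases i with i | i
      · exact hcF.symm
      · exact map_one _
    · unfold mM
      ext i j
      fin_cases i <;> fin_cases j <;> simp
  have hM' : (((⟨dM m c w0 w1 hw, c, dM_Q c w0 w1 hw⟩ : GOs (qMinus m (fixF σ) a b)) : GL ((Fin m ⊕ Fin m) ⊕ Fin 2) (fixF σ))) = dM m c w0 w1 hw := rfl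
  rw [hM', hM, ht]
  have hyy : y * y = (cF : F) := by rw [hcF]; exact hy.symm
  funext i
  rw [Pi.smul_apply, smul_eq_mul, hy']
  rcases i with i | i
  · refine Fin.lastCases ?_ (fun i => ?_) i
    · rw [spK_inl_last, dM_0, dM_1, Sum.elim_inl, if_pos rfl, spK_inl_last, Units.val_mul, Units.val_inv_eq_inv_val, hy', hw', hwd]
      field_simp
      linear_combination (-(w1 : F) * v (.inr 1)) * hθ
    · rw [spK_inl, dM_inl, Sum.elim_inl, if_neg (Fin.castSucc_lt_last i).ne, spK_inl, ← mul_assoc, hyy]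
  · refine Fin.lastCases ?_ (fun i => ?_) i
    · rw [spK_inr_last, dM_0, dM_1, Sum.elim_inr, if_pos rfl, spK_inr_last, _root_.mul_inv_rev, inv_inv, Units.val_mul, Units.val_inv_eq_inv_val, hy', hw']
      have h7 : y * (y * w⁻¹) = w0 - (-a - θ) * w1 := by
        rw [← mul_assoc, hyy, hcF, ← hww, hσw]
        field_simp
      rw [← mul_assoc, h7]
      linear_combination (-(w1 : F) * v (.inr 1)) * hθ
    · rw [spK_inr, dM_inr, Sum.elim_inr, if_neg (Fin.castSucc_lt_last i).ne, spK_inr, Units.val_inv_eq_inv_val, hy', ← mul_assoc, mul_inv_cancel₀ hy0, one_mul]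

end crit

end CfsgLib.Eps27
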