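import Cfsg.Agent.LibEps27i
import Cfsg.Agent.LibAutPSL27m

set_option autoImplicit false

/-! The splitting of the class of a graph-field involution. -/

namespace CfsgLib.Eps27

open Cfsg.Agent.H22 CfsgLib.Semi27 CfsgLib.Lift27 CfsgLib.RhoO27 CfsgLib.AutO27 CfsgLib.Spinor27 CfsgLib.Even27 CfsgLib.Min27 CfsgLib.H9027 CfsgLib.QForm27 CfsgLib.Desc27 Module Matrix

universe u

section gen
variable {F : Type u} [Field F] [Fintype F] {ι : Type} [Fintype ι] [DecidableEq ι] {Q : QuadraticForm F (ι → F)} {n : ℕ} {σ : F ≃+* F}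
  {e f : Fin 3 → (ι → F)} {u : ι → F}

theorem inn_le_rho (h : Ea Q n) : Cfsg.Inn (Cfsg.POmega F ⇑Q) ≤ (rho h.Gam h.Gam_le).range := by
  rintro _ ⟨y, rfl⟩
  obtain ⟨s, rfl⟩ := QuotientGroup.mk_surjective y
  refine ⟨⟨s.1, h.mem_Gam.2 ⟨iso_le s.1.2, ?_⟩⟩, (conj_mk s).symm⟩
  rw [h.ep_iso, par_omega]

/-- characteristic two: inner-diagonal automorphisms are inner -/
theorem two_count (h : Ea Q n) (hG : Gd Q e f u) (h2 : (2 : F) = 0) (x : MulAut (Cfsg.POmega F ⇑Q)) :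
    Cfsg.splitClassCount (rho h.Gam h.Gam_le).range (Cfsg.Inn (Cfsg.POmega F ⇑Q)) x = 1 := by
  apply splitCount_one
  · exact inn_le_rho h
  · rintro _ ⟨g, rfl⟩
    obtain ⟨hg1, hg2⟩ := h.mem_Gam.1 g.2
    refine ⟨_, ?_, 1, by rw [mul_one, one_mul], (mul_one _).symm⟩
    haveI := charP_two h2
    obtain ⟨s, t, ht⟩ := two_split' h2 ⟨g.1, hg1⟩
    rw [h.ep_two h2 ht, ← two_omega h.nd h.hF h.hx] at hg2
    rw [rho_def, mem_inn' hG]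
    exact ⟨rfl, s, ⟨t, hg2⟩, ht⟩

/-- counting in terms of the classes -/
theorem ev_count (h : Ea Q n) (hG : Gd Q e f u) (h2 : (2 : F) ≠ 0) (hneg : NegIn Q) (hσ : (⟨1, σ⟩ : GamL ι F) ∈ SP Q) (c₀ : GOs Q) (hc₀ : (h.ev h2).eps c₀ = 1)
    (hcm : gm σ (c₀ : GL ι F) = c₀)
    (hcl : ∀ c : GOs Q, (h.ev h2).eps c = 1 → (∃ (a : Fˣ) (g : GL ι F), gm σ g = g ∧ (c : GL ι F) = scal a * g) → c ∈ KI Q ∨ c * c₀ ∈ KI Q) :
    (c₀ ∈ KI Q → Cfsg.splitClassCount (rho h.Gam h.Gam_le).range (Cfsg.Inn (Cfsg.POmega F ⇑Q)) (ph hσ) = 4) ∧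
    (c₀ ∉ KI Q → Cfsg.splitClassCount (rho h.Gam h.Gam_le).range (Cfsg.Inn (Cfsg.POmega F ⇑Q)) (ph hσ) = 2) := by
  obtain ⟨ρ, hρ⟩ : ∃ ρ : (h.ev h2).eps.ker →* MulAut (Cfsg.POmega F ⇑Q), ρ = (rho (GOs Q) le_rfl).comp (h.ev h2).eps.ker.subtype := ⟨_, rfl⟩
  have hρ' : ∀ g : (h.ev h2).eps.ker, ρ g = rho (GOs Q) le_rfl g.1 := fun g => by rw [hρ]; rfl
  haveI : Nonempty ι := by
    have h1 := (h.ev h2).card
    have h3 := (h.ev h2).n1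
    exact Fintype.card_pos_iff.1 (by omega)
  have hrange : (rho h.Gam h.Gam_le).range = ρ.range := by
    ext x
    constructor
    · rintro ⟨g, rfl⟩
      obtain ⟨hg1, hg2⟩ := h.mem_Gam.1 g.2
      rw [h.ep_odd h2] at hg2
      exact ⟨⟨⟨g.1, hg1⟩, hg2⟩, by rw [hρ']; rfl⟩
    · rintro ⟨g, rfl⟩
      refine ⟨⟨g.1.1, h.mem_Gam.2 ⟨g.1.2, ?_⟩⟩, by rw [hρ']; rfl⟩
      rw [h.ep_odd h2]
      exact g.2
  rw [hrange]
  obtain ⟨N, hN⟩ : ∃ N : Subgroup (h.ev h2).eps.ker, N = (KI Q).subgroupOf (h.ev h2).eps.ker := ⟨_, rfl⟩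
  obtain ⟨C, hC⟩ : ∃ C : Subgroup (h.ev h2).eps.ker, C = (Subgroup.centralizer {ph hσ}).comap ρ := ⟨_, rfl⟩
  haveI : N.Normal := by rw [hN]; infer_instance
  have hNm : ∀ g, g ∈ N ↔ ρ g ∈ Cfsg.Inn (Cfsg.POmega F ⇑Q) := by
    intro g
    rw [hN, Subgroup.mem_subgroupOf, hρ']; rfl
  have hCm : ∀ c, c ∈ C ↔ ρ c * ph hσ = ph hσ * ρ c := by
    intro c
    rw [hC, Subgroup.mem_comap, Subgroup.mem_centralizer_iff]
    constructor
    · intro h3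
      exact (h3 _ rfl).symm
    · rintro h3 _ rfl
      exact h3.symm
  have hcom : ∀ c, c ∈ C ↔ ∃ (a : Fˣ) (g : GL ι F), gm σ g = g ∧ ((c : GOs Q) : GL ι F) = scal a * g := by
    intro c
    rw [hCm, hρ']
    exact CfsgLib.Semi27.comm_iff (ρ := rho (GOs Q) le_rfl) (φ := ph hσ) (fun g hg => gm_GOs hσ hg)
      (fun g => ph_mul_rho _ _ hσ (fun g hg => gm_GOs hσ hg) g) (rho_ker' _ _ hG) (c : GOs Q)
  have hidx : N.index = 4 := by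
    rw [hN]
    exact ((h.ev h2).KI_relIndex_eps hG).1 hneg
  have h3 := index_ext N C hidx ⟨c₀, MonoidHom.mem_ker.2 hc₀⟩ ((hcom _).2 ⟨1, c₀, hcm, eq_scal_one _⟩) (by
    intro c hc
    have h4 := hcl c.1 c.2 ((hcom c).1 hc)
    rw [hN, Subgroup.mem_subgroupOf, Subgroup.mem_subgroupOf]
    exact h4)
  have h5 : (⟨c₀, MonoidHom.mem_ker.2 hc₀⟩ : (h.ev h2).eps.ker) ∈ N ↔ c₀ ∈ KI Q := by rw [hN, Subgroup.mem_subgroupOf]
  rw [splitCount_rho ρ (Cfsg.Inn (Cfsg.POmega F ⇑Q)) (ph hσ) N C hNm (by rw [← hrange]; exact inn_le_rho h) hCm, ← h5]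
  exact h3

end gen

section gf
variable {F : Type u} [Field F] [Fintype F] {m : ℕ} {σ : F ≃+* F}

set_option maxHeartbeats 1000000 in
/-- the splitting of the class of a graph-field involution -/
theorem gf_count [Fintype (fixF σ)] (hm : 3 ≤ m) (h2 : (2 : F) ≠ 0) (ho : orderOf σ = 2) {a b : fixF σ}
    (hab : ∀ z₁ z₂ : fixF σ, z₁ ^ 2 + a * z₁ * z₂ + b * z₂ ^ 2 = 0 → z₁ = 0 ∧ z₂ = 0)
    (h : Ea (qMinus m F a b) (m + 1)) (hσ : (⟨1, σ⟩ : GamL ((Fin m ⊕ Fin m) ⊕ Fin 2) F) ∈ SP (qMinus m F a b)) :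
    Cfsg.splitClassCount (rho h.Gam h.Gam_le).range (Cfsg.Inn (Cfsg.POmega F ⇑(qMinus m F a b))) (ph hσ) =
      if Odd (m + 1) ∧ Fintype.card (fixF σ) % 4 ≠ 3 then 4 else 2 := by
  have h20 : (2 : fixF σ) ≠ 0 := fun h3 => h2 (congrArg Subtype.val h3)
  have hab' : ∀ z₁ z₂ : F, σ z₁ = z₁ → σ z₂ = z₂ → z₁ ^ 2 + (a : F) * z₁ * z₂ + (b : F) * z₂ ^ 2 = 0 → z₁ = 0 ∧ z₂ = 0 := by
    intro z₁ z₂ h1 h2 hz
    have h3 := hab ⟨z₁, h1⟩ ⟨z₂, h2⟩ (Subtype.ext hz)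
    exact ⟨congrArg Subtype.val h3.1, congrArg Subtype.val h3.2⟩
  obtain ⟨e, f, u, hG⟩ := gd_qMinus (m := m) hm (disc_ne a.2 b.2 hab')
  obtain ⟨e', f', u', hG'⟩ := gd_qPlus (F := F) (m := m + 1) (by omega)
  have hE₀ : Ev (qMinus m (fixF σ) a b) (m + 1) := ev_qMinus h20 hab
  have hE := h.ev h2
  have hodd₀ : Odd (Fintype.card (fixF σ)) := by
    rw [Nat.odd_iff]
    apply FiniteField.odd_card_of_char_ne_two
    intro h3
    apply h20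
    have : CharP (fixF σ) 2 := by rw [← h3]; exact ringChar.charP (fixF σ)
    exact_mod_cast CharP.cast_eq_zero (fixF σ) 2
  have hcard : Fintype.card F = Fintype.card (fixF σ) ^ 2 := by
    have := card_fixF σ
    rw [ho, Nat.card_eq_fintype_card, Nat.card_eq_fintype_card] at this
    exact this
  have hodd : Odd (Fintype.card F) := by rw [hcard]; exact hodd₀.pow
  have hmod : Fintype.card F % 4 = 1 := by
    rw [hcard]
    obtain ⟨k, hk⟩ := hodd₀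
    rw [hk]
    have : (2 * k + 1) ^ 2 = 4 * (k ^ 2 + k) + 1 := by ring
    rw [this]; omega
  have hnegP : NegIn (qPlus (m + 1) F) := (negIn_plus hodd (by omega)).2 (by omega)
  obtain ⟨θ, hθ⟩ := exists_root a.2 b.2 hab' ho
  obtain ⟨t, -⟩ := exists_spTr (m := m) hθ (disc_ne a.2 b.2 hab')
  have hneg : NegIn (qMinus m F a b) := t.negIn hnegP
  have hj : ∀ x, qMinus m F a b ((fixF σ).subtype ∘ x) = (fixF σ).subtype (qMinus m (fixF σ) a b x) := fun x => qMinus_j (fixF σ).subtype a b x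
  obtain ⟨c, hc⟩ := hE₀.exists_nonsq
  obtain ⟨w0, w1, hw⟩ := exists_w h20 hab (c : fixF σ)
  obtain ⟨D, hD⟩ : ∃ D : GOs (qMinus m (fixF σ) a b), D = ⟨dM m c w0 w1 hw, c, dM_Q c w0 w1 hw⟩ := ⟨_, rfl⟩
  have hDmu : mu hE₀.hx D = c := mu_eq _ (by rw [hD]; exact dM_Q c w0 w1 hw)
  have hDe : hE₀.eps D = 1 := by
    rw [hE₀.eps_eq_one, hDmu, hD]
    exact dM_det m c w0 w1 hw
  have hcls := dM_class h2 ho hab' hG' hnegP hj hc w0 w1 hw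
  rw [← hD] at hcls
  have hJe : hE.eps (JH hj D) = 1 := by rw [eps_JH hE hE₀, hDe]
  have hJf : gm σ (JH hj D : GL ((Fin m ⊕ Fin m) ⊕ Fin 2) F) = JH hj D := by
    rw [JH_coe]
    apply Units.ext
    ext i k
    exact (((D : GL ((Fin m ⊕ Fin m) ⊕ Fin 2) (fixF σ)) : Matrix ((Fin m ⊕ Fin m) ⊕ Fin 2) ((Fin m ⊕ Fin m) ⊕ Fin 2) (fixF σ)) i k).2
  obtain ⟨r1, r2⟩ := ev_count h hG h2 hneg hσ (JH hj D) hJe hJf (fun c' hc' hcc => rat_class hE hE₀ hG hneg hj ho D hDe (by rw [hDmu]; exact hc) c' hc' hcc)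
  split_ifs with h5
  · exact r1 (hcls.2 h5)
  · exact r2 (fun h6 => h5 (hcls.1 h6))

end gf

end CfsgLib.Eps27
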