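import Cfsg.Agent.LibEx27H13
import Cfsg.Agent.LibCjSLH13

/-! Non-abelian subgroups of order 27 of three-dimensional linear groups, continued. -/

set_option autoImplicit false

namespace CfsgLib.Ex27

open Module Cfsg.Geo
open scoped Matrix MatrixGroups

variable {F : Type*} [Field F]

/-- scalar element -/
def sc (z : F) (hz : z ≠ 0) : GL (Fin 3) F :=
  ⟨z • 1, z⁻¹ • 1, by rw [Matrix.smul_mul, one_mul, smul_smul, mul_inv_cancel₀ hz, one_smul],
    by rw [Matrix.smul_mul, one_mul, smul_smul, inv_mul_cancel₀ hz, one_smul]⟩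

theorem sc_comm (z : F) (hz : z ≠ 0) (k : GL (Fin 3) F) : sc z hz * k = k * sc z hz := by
  apply Units.ext
  show (z • (1 : Matrix (Fin 3) (Fin 3) F)) * k.1 = k.1 * (z • 1)
  rw [Matrix.smul_mul, Matrix.mul_smul, one_mul, mul_one]

theorem sc_val (z : F) (hz : z ≠ 0) (k : GL (Fin 3) F) : (sc z hz * k).1 = z • k.1 := by
  show (z • (1 : Matrix (Fin 3) (Fin 3) F)) * k.1 = z • k.1
  rw [Matrix.smul_mul, one_mul]

theorem norm_mem (R : Subgroup (GL (Fin 3) F)) [Finite R] (P a b n s : GL (Fin 3) F) (hgen : R ≤ Subgroup.closure {P * a * P⁻¹, P * b * P⁻¹})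
    (hs : ∀ k, s * k = k * s) (ha : P * (n * a * n⁻¹) * P⁻¹ ∈ R) (hb : P * (n * b * n⁻¹) * P⁻¹ ∈ R) :
    s * (P * n * P⁻¹) ∈ subgroupNormalizer R := by
  apply CfsgLib.CjSL.mem_normalizer_of
  have h1 : ∀ k : GL (Fin 3) F, (s * (P * n * P⁻¹)) * k * (s * (P * n * P⁻¹))⁻¹ = P * (n * (P⁻¹ * k * P) * n⁻¹) * P⁻¹ := by
    intro k
    have h2 : (s * (P * n * P⁻¹)) * k * (s * (P * n * P⁻¹))⁻¹ = s * (P * (n * (P⁻¹ * k * P) * n⁻¹) * P⁻¹) * s⁻¹ := by group
    rw [h2, hs]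
    group
  have h2 : R ≤ R.comap (MulAut.conj (s * (P * n * P⁻¹))).toMonoidHom := by
    refine hgen.trans ?_
    rw [Subgroup.closure_le]
    rintro x (rfl | rfl)
    · show (s * (P * n * P⁻¹)) * (P * a * P⁻¹) * (s * (P * n * P⁻¹))⁻¹ ∈ R
      rw [h1, show P⁻¹ * (P * a * P⁻¹) * P = a by group]
      exact ha
    · show (s * (P * n * P⁻¹)) * (P * b * P⁻¹) * (s * (P * n * P⁻¹))⁻¹ ∈ R
      rw [h1, show P⁻¹ * (P * b * P⁻¹) * P = b by group]
      exact hb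
  intro k hk
  exact h2 hk

theorem t_mem (R : Subgroup (GL (Fin 3) F)) [Finite R] (P : GL (Fin 3) F) (c : F) (hc3 : c ^ 3 = 1) (hA : P * a0 c hc3 * P⁻¹ ∈ R) (hB : P * b0 * P⁻¹ ∈ R)
    (hgen : R ≤ Subgroup.closure {P * a0 c hc3 * P⁻¹, P * b0 * P⁻¹}) (s : GL (Fin 3) F) (hs : ∀ k, s * k = k * s) :
    s * (P * t0 * P⁻¹) ∈ subgroupNormalizer R := by
  apply norm_mem R P (a0 c hc3) b0 t0 s hgen hs
  · rw [t_a, mul_inv_cancel_right]
    have := R.inv_mem hA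
    rwa [show (P * a0 c hc3 * P⁻¹)⁻¹ = P * (a0 c hc3)⁻¹ * P⁻¹ by group] at this
  · rw [t_b, mul_inv_cancel_right]
    have := R.inv_mem hB
    rwa [show (P * b0 * P⁻¹)⁻¹ = P * b0⁻¹ * P⁻¹ by group] at this

theorem d_mem (R : Subgroup (GL (Fin 3) F)) [Finite R] (P : GL (Fin 3) F) (c : F) (hc : c ^ 2 + c + 1 = 0) (hc3 : c ^ 3 = 1) (hA : P * a0 c hc3 * P⁻¹ ∈ R) (hB : P * b0 * P⁻¹ ∈ R)
    (hgen : R ≤ Subgroup.closure {P * a0 c hc3 * P⁻¹, P * b0 * P⁻¹}) (s : GL (Fin 3) F) (hs : ∀ k, s * k = k * s) (u : F) (hu : u ^ 2 + u + 1 = 0) (hu3 : u ^ 3 = 1) :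
    s * (P * d0 u hu3 * P⁻¹) ∈ subgroupNormalizer R := by
  have hcases : u = c ∨ u = c ^ 2 := by
    have h1 : (u - c) * (u - c ^ 2) = 0 := by linear_combination hu - u * hc + hc3
    rcases mul_eq_zero.mp h1 with h2 | h2
    · exact Or.inl (sub_eq_zero.mp h2)
    · exact Or.inr (sub_eq_zero.mp h2)
  apply norm_mem R P (a0 c hc3) b0 (d0 u hu3) s hgen hs
  · rw [d_a, mul_inv_cancel_right]
    exact hA
  · rw [d_b, mul_inv_cancel_right]
    rcases hcases with h | h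
    · subst h
      have := R.mul_mem hB hA
      rwa [show (P * b0 * P⁻¹) * (P * a0 u hc3 * P⁻¹) = P * (b0 * a0 u hc3) * P⁻¹ by group] at this
    · subst h
      rw [a_sq c hc3]
      have := R.mul_mem hB (R.pow_mem hA 2)
      rwa [show (P * b0 * P⁻¹) * (P * a0 c hc3 * P⁻¹) ^ 2 = P * (b0 * a0 c hc3 ^ 2) * P⁻¹ by rw [pow_two, pow_two]; group] at this

theorem comm_scalar {c : F} (hc1 : c ≠ 1) (hc3 : c ^ 3 = 1) (M : Matrix (Fin 3) (Fin 3) F) (h1 : M * Matrix.diagonal ![1, c, c ^ 2] = Matrix.diagonal ![1, c, c ^ 2] * M)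
    (h2 : M * !![0, 0, 1; 1, 0, 0; 0, 1, 0] = !![0, 0, 1; 1, 0, 0; 0, 1, 0] * M) : ∃ e : F, M = e • (1 : Matrix (Fin 3) (Fin 3) F) := by
  have hc0 : c ≠ 0 := by
    rintro rfl
    rw [zero_pow (by norm_num)] at hc3
    exact zero_ne_one hc3
  have hc21 : c ^ 2 ≠ 1 := by
    intro h
    apply hc1
    have : c * c ^ 2 = 1 := by rw [← hc3]; ring
    rwa [h, mul_one] at this
  have hc2c : c ^ 2 ≠ c := by
    intro h
    apply hc1
    have h4 : c * c = c * 1 := by rw [mul_one, ← pow_two]; exact h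
    exact mul_left_cancel₀ hc0 h4
  have key : ∀ i j, M i j * (![1, c, c ^ 2] : Fin 3 → F) j = (![1, c, c ^ 2] : Fin 3 → F) i * M i j := by
    intro i j
    have := congrFun (congrFun h1 i) j
    rwa [Matrix.mul_diagonal, Matrix.diagonal_mul] at this
  have kz : ∀ i j, (![1, c, c ^ 2] : Fin 3 → F) j ≠ (![1, c, c ^ 2] : Fin 3 → F) i → M i j = 0 := by
    intro i j hne
    have h4 := key i j
    have h5 : ((![1, c, c ^ 2] : Fin 3 → F) j - (![1, c, c ^ 2] : Fin 3 → F) i) * M i j = 0 := by linear_combination h4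
    exact (mul_eq_zero.mp h5).resolve_left (sub_ne_zero.mpr hne)
  have m01 : M 0 1 = 0 := kz 0 1 hc1
  have m02 : M 0 2 = 0 := kz 0 2 hc21
  have m10 : M 1 0 = 0 := kz 1 0 (Ne.symm hc1)
  have m12 : M 1 2 = 0 := kz 1 2 hc2c
  have m20 : M 2 0 = 0 := kz 2 0 (Ne.symm hc21)
  have m21 : M 2 1 = 0 := kz 2 1 (Ne.symm hc2c)
  have e1 := congrFun (congrFun h2 1) 0
  have e2 := congrFun (congrFun h2 2) 1
  simp [Matrix.mul_apply, Fin.sum_univ_three] at e1 e2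
  refine ⟨M 0 0, ?_⟩
  ext i j
  fin_cases i <;> fin_cases j <;> simp [m01, m02, m10, m12, m20, m21, e1, e2]

/-- elements of order at least five normalising the group are scalar -/
theorem big_r (R : Subgroup (GL (Fin 3) F)) [Finite R] (hR : Nat.card R = 27) (P : GL (Fin 3) F) (c : F) (hc1 : c ≠ 1) (hc3 : c ^ 3 = 1) (hA : P * a0 c hc3 * P⁻¹ ∈ R) (hB : P * b0 * P⁻¹ ∈ R)
    (hC : ∃ C ∈ R, C.1 = c • (1 : Matrix (Fin 3) (Fin 3) F)) {r : ℕ} [Fact r.Prime] (hr : 5 ≤ r) (y : GL (Fin 3) F) (hy : y ∈ subgroupNormalizer R) (hyr : y ^ r = 1) :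
    ∃ e : F, y.1 = e • (1 : Matrix (Fin 3) (Fin 3) F) := by
  classical
  have hfix := CfsgLib.CjSL.card_fix R y hy hyr
  rw [hR] at hfix
  obtain ⟨C, hCR, hC⟩ := hC
  set D := (Subgroup.centralizer {y}).subgroupOf R with hD
  have hDd : Nat.card D ∣ 3 ^ 3 := by
    have := Subgroup.card_subgroup_dvd_card D
    rwa [hR] at this
  have hDc : (⟨C, hCR⟩ : R) ∈ D := by
    rw [hD, Subgroup.mem_subgroupOf, Subgroup.mem_centralizer_singleton_iff]
    apply Units.ext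
    show C.1 * y.1 = y.1 * C.1
    rw [hC, Matrix.smul_mul, Matrix.mul_smul, one_mul, mul_one]
  have hDne : Nat.card D ≠ 1 := by
    intro h5
    rw [Subgroup.card_eq_one] at h5
    rw [h5, Subgroup.mem_bot] at hDc
    apply hc1
    have h6 : C.1 = 1 := congrArg Units.val (congrArg Subtype.val hDc)
    rw [hC] at h6
    have := congrFun (congrFun h6 0) 0
    simpa using this
  have hDtop : D = ⊤ := by
    apply Subgroup.eq_top_of_card_eq
    rw [hR]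
    rw [Nat.dvd_prime_pow Nat.prime_three] at hDd
    obtain ⟨k, hk, hk2⟩ := hDd
    rw [hk2] at hfix hDne ⊢
    have hmod := (Nat.modEq_iff_dvd' (show 3 ^ k ≤ 27 by
      calc 3 ^ k ≤ 3 ^ 3 := Nat.pow_le_pow_right (by norm_num) hk
        _ = 27 := by norm_num)).mp hfix.symm
    have hrp : r.Prime := Fact.out
    have hno : ¬ r ∣ 72 := by
      intro h7
      rw [show 72 = 2 ^ 3 * 3 ^ 2 by norm_num, hrp.dvd_mul] at h7
      rcases h7 with h7 | h7
      · have := Nat.le_of_dvd (by norm_num) (hrp.dvd_of_dvd_pow h7); omega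
      · have := Nat.le_of_dvd (by norm_num) (hrp.dvd_of_dvd_pow h7); omega
    interval_cases k
    · simp at hDne
    · exact absurd (hmod.trans (show 27 - 3 ^ 1 ∣ 72 by norm_num)) hno
    · exact absurd (hmod.trans (show 27 - 3 ^ 2 ∣ 72 by norm_num)) hno
    · rfl
  have hcomm : ∀ k ∈ R, y * k = k * y := by
    intro k hk
    have h5 : (⟨k, hk⟩ : R) ∈ D := by rw [hDtop]; exact Subgroup.mem_top _
    rw [hD, Subgroup.mem_subgroupOf, Subgroup.mem_centralizer_singleton_iff] at h5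
    exact h5.symm
  have hcomm' : ∀ k, P * k * P⁻¹ ∈ R → (P⁻¹ * y * P) * k = k * (P⁻¹ * y * P) := by
    intro k hk
    have h6 := hcomm _ hk
    calc (P⁻¹ * y * P) * k = P⁻¹ * (y * (P * k * P⁻¹)) * P := by group
      _ = k * (P⁻¹ * y * P) := by rw [h6]; group
  obtain ⟨e, he⟩ := comm_scalar hc1 hc3 (P⁻¹ * y * P).1 (congrArg Units.val (hcomm' _ hA)) (congrArg Units.val (hcomm' _ hB))
  refine ⟨e, ?_⟩
  have h7 : y = P * (P⁻¹ * y * P) * P⁻¹ := by group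
  have h8 : P.1 * (P⁻¹).1 = 1 := by rw [← Units.val_mul, mul_inv_cancel]; rfl
  calc y.1 = P.1 * (P⁻¹ * y * P).1 * (P⁻¹).1 := congrArg Units.val h7
    _ = e • (1 : Matrix (Fin 3) (Fin 3) F) := by rw [he, Matrix.mul_smul, mul_one, Matrix.smul_mul, h8]

end CfsgLib.Ex27
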