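import Mathlib
import Cfsg.Agent.EqBase
import Cfsg.Agent.LibExtraH28
import Cfsg.Agent.LibCharMore
import Cfsg.Agent.LibCharIndA
/-!
# Characters of extraspecial groups (helper15)
-/
set_option autoImplicit false
set_option linter.all false
open Cfsg CfsgLib.CharBasic CfsgLib.CharIndA CfsgLib.ExtraH28 Subgroup
open scoped ComplexConjugate
namespace CfsgLib.ExChar15
universe u
variable {p : ℕ} [hp : Fact p.Prime] {P : Type u} [Group P] [Finite P]

/-- off-centre vanishing -/
theorem vanish (hE : Cfsg.IsExtraspecial p P) {χ : P → ℂ} (hcl : IsClassFunction P χ) {z : P}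
    (hz : z ∈ center P) {c : ℂ} (hc : c ≠ 1) (h : ∀ g, χ (z * g) = c * χ g) {x : P} (hx : x ∉ center P) :
    χ x = 0 := by
  obtain ⟨y, hy⟩ := exists_comm_eq hE hx (inv_mem hz)
  have h1 : y * x * y⁻¹ = z * x := by
    have h0 : (x * y * x⁻¹ * y⁻¹)⁻¹ = z := by rw [hy, inv_inv]
    rw [← h0]; group
  have h2 := hcl x y
  rw [h1, h] at h2
  have h3 : (c - 1) * χ x = 0 := by rw [sub_mul, h2, one_mul, sub_self]
  exact (mul_eq_zero.1 h3).resolve_left (sub_ne_zero.2 hc)

theorem norm_eq [Fintype P] (hE : Cfsg.IsExtraspecial p P) {χ : P → ℂ} {d : ℝ} (h0 : ∀ x, x ∉ center P → χ x = 0)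
    (h1 : ∀ z ∈ center P, ‖χ z‖ = d) : classInner χ χ = (((Nat.card P : ℝ)⁻¹ * (p * d ^ 2) : ℝ) : ℂ) := by
  classical
  rw [inner_self_eq]
  congr 2
  have h2 : ∀ g : P, ‖χ g‖ ^ 2 = if g ∈ center P then d ^ 2 else 0 := by
    intro g
    split_ifs with hg
    · rw [h1 g hg]
    · rw [h0 g hg]; simp
  rw [Finset.sum_congr rfl fun g _ => h2 g, ← Finset.sum_filter, Finset.sum_const, nsmul_eq_mul]
  congr 2
  have h3 := hE.2
  rw [Nat.card_eq_fintype_card, Fintype.card_subtype] at h3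
  exact_mod_cast h3

/-- An irreducible character trivial on the centre (= derived subgroup) is linear. -/
theorem linear_of_trivial (hE : Cfsg.IsExtraspecial p P) {χ : P → ℂ} (hχ : IsIrrCharacter P χ)
    (h : ∀ z ∈ center P, χ z = χ 1) : χ 1 = 1 := by
  obtain ⟨χ', h1, h2⟩ := CfsgLib.CharMore.deflate_irr (QuotientGroup.mk' (center P)) (QuotientGroup.mk'_surjective _) hχ
    (fun g hg => h g (by rwa [QuotientGroup.ker_mk'] at hg))
  have hab : ∀ a b : P ⧸ center P, a * b = b * a := by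
    intro a b
    induction a using QuotientGroup.induction_on
    induction b using QuotientGroup.induction_on
    rename_i a b
    rw [← QuotientGroup.mk_mul, ← QuotientGroup.mk_mul, QuotientGroup.eq]
    have := comm_mem_center hE b⁻¹ a⁻¹
    convert this using 1
    group
  have h3 := irr_degree_one_of_comm hab h1
  rw [h2]
  simpa using h3

/-- the degree of an irreducible character nontrivial on the centre -/
theorem degree (hE : Cfsg.IsExtraspecial p P) {n : ℕ} (hcard : Nat.card P = p ^ (2 * n + 1)) {χ : P → ℂ}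
    (hχ : IsIrrCharacter P χ) (h : ∃ z ∈ center P, χ z ≠ χ 1) :
    χ 1 = (p : ℂ) ^ n ∧ ∀ x, x ∉ center P → χ x = 0 := by
  haveI := Fintype.ofFinite P
  obtain ⟨z, hz, hne⟩ := h
  have h1 : χ 1 ≠ 0 := irr_one_ne_zero hχ
  have hoff : ∀ x, x ∉ center P → χ x = 0 := by
    intro x hx
    refine vanish hE (irr_classFun hχ) hz (c := χ z / χ 1) ?_ (fun g => char_mul_of_scalar (irr_isCharacter hχ) h1
      (irr_center hχ hz) g) hx
    rw [Ne, div_eq_one_iff_eq h1]; exact hne
  refine ⟨?_, hoff⟩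
  have h2 := norm_eq hE hoff (d := (χ 1).re) (fun z hz => irr_center hχ hz)
  rw [irr_inner_self hχ] at h2
  obtain ⟨m, hm0, hm⟩ := irr_one_nat hχ
  rw [hm, Complex.natCast_re] at h2
  have h3 : (1 : ℝ) = (Nat.card P : ℝ)⁻¹ * (p * (m : ℝ) ^ 2) := by exact_mod_cast h2
  have hP0 : (Nat.card P : ℝ) ≠ 0 := by exact_mod_cast Nat.card_pos.ne'
  have h4 : (Nat.card P : ℝ) = p * (m : ℝ) ^ 2 := by
    field_simp at h3
    exact h3
  have h5 : p ^ (2 * n + 1) = p * m ^ 2 := by rw [← hcard]; exact_mod_cast h4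
  have h6 : (p ^ n) ^ 2 = m ^ 2 := by
    apply Nat.eq_of_mul_eq_mul_left hp.out.pos
    rw [← h5]; ring
  have h7 : p ^ n = m := Nat.pow_left_injective (n := 2) (by norm_num) h6
  rw [hm, ← h7]; push_cast; rfl

theorem n_pos (hE : Cfsg.IsExtraspecial p P) {n : ℕ} (hcard : Nat.card P = p ^ (2 * n + 1)) : 1 ≤ n := by
  by_contra h
  have hn : n = 0 := by omega
  rw [hn, mul_zero, zero_add, pow_one, ← hE.2] at hcard
  obtain ⟨x, y, hxy⟩ := exists_not_comm hE
  have htop : center P = ⊤ := Subgroup.eq_top_of_card_eq _ hcard.symm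
  apply hxy
  have hx : y ∈ center P := htop ▸ mem_top y
  exact Subgroup.mem_center_iff.1 hx x

end CfsgLib.ExChar15
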