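import Cfsg.Agent.EqBase
import Cfsg.Agent.LibPQ4

set_option autoImplicit false

/-! The extended 2-layer. -/

namespace CfsgLib.ExtLayer

open Subgroup Cfsg CfsgLib.Comp CfsgLib.Comp2 CfsgLib.Comp3 CfsgLib.PComp CfsgLib.PQ CfsgLib.PQ2
  CfsgLib.PQ3 CfsgLib.PQ4
open scoped commutatorElement Pointwise

universe u
variable {X : Type u} [Group X]

/-- `L_{2'}(X) O_{2',2}(X)` -/
def em (X : Type*) [Group X] : Subgroup X := pLayer 2 X ⊔ pPrimePCore 2 X

instance em_normal [Finite X] : (em X).Normal := by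
  unfold em
  haveI : (pPrimePCore 2 X).Normal := by unfold pPrimePCore; infer_instance
  infer_instance

/-- `O(C_X(T))` -/
def oc (T : Subgroup X) : Subgroup X :=
  (pPrimeCore 2 ↥(centralizer (T : Set X))).map (centralizer (T : Set X)).subtype

theorem ext_eq (X : Type*) [Group X] : extendedTwoLayer X = pLayer 2 X ⊔ pPrimeCore 2 X ⊔
    ⨆ T : Sylow 2 (em X), oc ((T : Subgroup (em X)).map (em X).subtype) := rfl

theorem conj_centralizer (g : X) (T : Subgroup X) :
    MulAut.conj g • centralizer (T : Set X) =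
      centralizer ((MulAut.conj g • T : Subgroup X) : Set X) := by
  ext x
  rw [mem_pointwise_smul_iff_inv_smul_mem, mem_centralizer_iff, mem_centralizer_iff]
  have e : (MulAut.conj g)⁻¹ • x = g⁻¹ * x * g := by
    rw [← map_inv]; simp [MulAut.smul_def]
  rw [e]
  constructor
  · rintro h _ ⟨t, ht, rfl⟩
    have h1 := h t ht
    change g * t * g⁻¹ * x = x * (g * t * g⁻¹)
    calc g * t * g⁻¹ * x = g * (t * (g⁻¹ * x * g)) * g⁻¹ := by group
      _ = g * ((g⁻¹ * x * g) * t) * g⁻¹ := by rw [h1]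
      _ = x * (g * t * g⁻¹) := by group
  · intro h t ht
    have h1 := h (g * t * g⁻¹) ⟨t, ht, rfl⟩
    calc t * (g⁻¹ * x * g) = g⁻¹ * ((g * t * g⁻¹) * x) * g := by group
      _ = g⁻¹ * (x * (g * t * g⁻¹)) * g := by rw [h1]
      _ = g⁻¹ * x * g * t := by group

/-- the core of a subgroup, conjugated -/
theorem smul_core (p : ℕ) (g : X) (H : Subgroup X) :
    MulAut.conj g • ((pPrimeCore p H).map H.subtype) =
      (pPrimeCore p ↥(MulAut.conj g • H)).map (MulAut.conj g • H).subtype := by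
  have e := Subgroup.equivSMul (MulAut.conj g) H
  rw [← CfsgLib.Cores.map_pPrimeCore_equiv p (Subgroup.equivSMul (MulAut.conj g) H), smul_eq_map,
    map_map, map_map]
  rfl

theorem smul_oc (g : X) (T : Subgroup X) : MulAut.conj g • oc T = oc (MulAut.conj g • T) := by
  unfold oc
  rw [smul_core, conj_centralizer]

/-- conjugate Sylow subgroups of `em X` -/
theorem exists_sylow_smul [Finite X] (T : Sylow 2 (em X)) (g : X) : ∃ T' : Sylow 2 (em X),
    (T' : Subgroup (em X)).map (em X).subtype =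
      MulAut.conj g • ((T : Subgroup (em X)).map (em X).subtype) := by
  haveI : Fact (Nat.Prime 2) := ⟨Nat.prime_two⟩
  apply CfsgLib.Coprime.exists_sylow_of_card _ T
  · rw [CfsgLib.Coprime.card_conj_smul, card_map_of_injective (subtype_injective _)]
  · have h1 := (Subgroup.pointwise_smul_le_pointwise_smul_iff (a := MulAut.conj g)).mpr
        (map_subtype_le (T : Subgroup (em X)))
    rwa [Normal.conj_smul_eq_self g (em X)] at h1

theorem smul_iSup_subgroup {ι : Sort*} (g : X) (f : ι → Subgroup X) :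
    MulAut.conj g • (⨆ i, f i) = ⨆ i, MulAut.conj g • f i := by
  rw [smul_eq_map, Subgroup.map_iSup]
  rfl

theorem ext_normal [Finite X] : (extendedTwoLayer X).Normal := by
  rw [ext_eq]
  constructor
  intro n hn g
  have h1 : MulAut.conj g • (pLayer 2 X ⊔ pPrimeCore 2 X ⊔
      ⨆ T : Sylow 2 (em X), oc ((T : Subgroup (em X)).map (em X).subtype)) ≤
      pLayer 2 X ⊔ pPrimeCore 2 X ⊔
      ⨆ T : Sylow 2 (em X), oc ((T : Subgroup (em X)).map (em X).subtype) := by
    rw [Subgroup.smul_sup, Subgroup.smul_sup, Normal.conj_smul_eq_self,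
      Normal.conj_smul_eq_self, smul_iSup_subgroup]
    apply sup_le_sup_left
    apply iSup_le
    intro T
    obtain ⟨T', hT'⟩ := exists_sylow_smul T g
    rw [smul_oc, ← hT']
    exact le_iSup (fun T : Sylow 2 (em X) => oc ((T : Subgroup (em X)).map (em X).subtype)) T'
  exact h1 ⟨n, hn, rfl⟩

/-- `em X = (L_{2'}(X) O(X)) T` -/
theorem em_le [Finite X] (T : Sylow 2 (em X)) :
    em X ≤ pLayer 2 X ⊔ pPrimeCore 2 X ⊔ (T : Subgroup (em X)).map (em X).subtype := by
  haveI : Fact (Nat.Prime 2) := ⟨Nat.prime_two⟩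
  obtain ⟨q, hq⟩ : ∃ q, q = QuotientGroup.mk' (pPrimeCore 2 X) := ⟨_, rfl⟩
  have hqk : q.ker = pPrimeCore 2 X := by rw [hq, QuotientGroup.ker_mk']
  have hqs : Function.Surjective q := hq ▸ QuotientGroup.mk'_surjective _
  obtain ⟨N, hN⟩ : ∃ N, N = pLayer 2 X ⊔ pPrimeCore 2 X := ⟨_, rfl⟩
  haveI hNn : N.Normal := hN ▸ inferInstance
  -- index of N in em is a power of two
  have hNem : N ≤ em X := by
    rw [hN]
    refine sup_le le_sup_left (le_trans ?_ le_sup_right)
    intro x hx
    rw [pPrimePCore, mem_comap, QuotientGroup.mk'_apply, (QuotientGroup.eq_one_iff x).2 hx]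
    exact one_mem _
  have hidx : ∃ k, N.relIndex (em X) = 2 ^ k := by
    have h1 : N.relIndex (em X) = N.relIndex (pPrimePCore 2 X) := by
      have h2 : em X = pPrimePCore 2 X ⊔ N := by
        apply le_antisymm
        · apply sup_le (le_trans _ le_sup_right) le_sup_left
          rw [hN]; exact le_sup_left
        · exact sup_le le_sup_right hNem
      rw [h2, relIndex_sup_right]
    have h2 : (pPrimeCore 2 X).relIndex (pPrimePCore 2 X) = Nat.card (pCore 2 (X ⧸ pPrimeCore 2 X)) := by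
      have h3 : (pPrimePCore 2 X).map q = pCore 2 (X ⧸ pPrimeCore 2 X) := by
        rw [hq]; exact map_comap_eq_self_of_surjective (QuotientGroup.mk'_surjective _) _
      rw [← h3, ← relIndex_ker, hqk]
    have h3 : N.relIndex (pPrimePCore 2 X) ∣ (pPrimeCore 2 X).relIndex (pPrimePCore 2 X) :=
      relIndex_dvd_of_le_left _ (hN ▸ le_sup_right)
    obtain ⟨k, hk⟩ := IsPGroup.iff_card.1 (CfsgLib.Cores.pCore_isPGroup (G := X ⧸ pPrimeCore 2 X) 2)
    rw [h2, hk, ← h1] at h3
    obtain ⟨j, _, hj⟩ := (Nat.dvd_prime_pow Nat.prime_two).1 h3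
    exact ⟨j, hj⟩
  obtain ⟨T', hT'⟩ : ∃ T', T' = (T : Subgroup (em X)).map (em X).subtype := ⟨_, rfl⟩
  have hT'em : T' ≤ em X := hT' ▸ map_subtype_le _
  rw [← hN, ← hT']
  have h4 : (N ⊔ T').relIndex (em X) = 1 := by
    obtain ⟨k, hk⟩ := hidx
    have h5 : (N ⊔ T').relIndex (em X) ∣ 2 ^ k := by
      rw [← hk]; exact relIndex_dvd_of_le_left _ le_sup_left
    have h6 : (N ⊔ T').relIndex (em X) ∣ (T : Subgroup (em X)).index := by
      have h7 : T'.relIndex (em X) = (T : Subgroup (em X)).index := by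
        rw [relIndex, hT']
        congr 1
        exact comap_map_eq_self_of_injective (subtype_injective _) _
      rw [← h7]
      exact relIndex_dvd_of_le_left _ le_sup_right
    apply Nat.eq_one_of_dvd_coprimes _ h6 h5
    exact Nat.Coprime.pow_right k
      (((Nat.Prime.coprime_iff_not_dvd Nat.prime_two).2 T.not_dvd_index).symm)
  exact relIndex_eq_one.1 h4

theorem ext_eq_of_sylow [Finite X] (T : Sylow 2 (em X)) :
    extendedTwoLayer X = pLayer 2 X ⊔ pPrimeCore 2 X ⊔
      oc ((T : Subgroup (em X)).map (em X).subtype) := by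
  haveI : Fact (Nat.Prime 2) := ⟨Nat.prime_two⟩
  rw [ext_eq]
  apply le_antisymm
  · apply sup_le le_sup_left
    apply iSup_le
    intro S
    obtain ⟨m, hm, hmS⟩ := CfsgLib.Coprime.sylow_map_conj T S
    have h1 := em_le T hm
    obtain ⟨N, hN⟩ : ∃ N, N = pLayer 2 X ⊔ pPrimeCore 2 X := ⟨_, rfl⟩
    haveI hNn : N.Normal := hN ▸ inferInstance
    rw [← hN] at h1 ⊢
    obtain ⟨a, ha, t, ht, hat⟩ := mem_sup_of_normal_left.1 h1
    rw [← hmS, ← hat, map_mul, mul_smul,
      CfsgLib.Coprime.conj_smul_eq_of_mem_normalizer (le_normalizer ht), ← smul_oc]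
    rintro _ ⟨y, hy, rfl⟩
    change a * y * a⁻¹ ∈ _
    exact mul_mem (mul_mem (mem_sup_left ha) (mem_sup_right hy)) (inv_mem (mem_sup_left ha))
  · apply sup_le_sup_left
    exact le_iSup (fun T : Sylow 2 (em X) => oc ((T : Subgroup (em X)).map (em X).subtype)) T

/-- A Sylow subgroup of `X` meets the normal subgroup `em X` in a Sylow subgroup of it. -/
theorem exists_sylow_em [Finite X] (S : Sylow 2 X) : ∃ T : Sylow 2 (em X),
    (T : Subgroup (em X)).map (em X).subtype = (S : Subgroup X) ⊓ em X := by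
  haveI : Fact (Nat.Prime 2) := ⟨Nat.prime_two⟩
  have h1 : ¬ 2 ∣ ((S : Subgroup X).subgroupOf (em X)).index := by
    intro h
    have h2 : (S : Subgroup X).relIndex (em X) ∣ (S : Subgroup X).relIndex ⊤ :=
      relIndex_dvd_of_normalizes le_top le_top (by rw [normalizer_eq_top]; exact le_top)
    rw [relIndex_top_right] at h2
    exact S.not_dvd_index (h.trans h2)
  have h2 : IsPGroup 2 ((S : Subgroup X).subgroupOf (em X)) :=
    S.2.comap_of_injective _ (subtype_injective _)
  refine ⟨h2.toSylow h1, ?_⟩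
  rw [IsPGroup.toSylow_coe, subgroupOf_map_subtype]

theorem oc_card_odd [Finite X] (T : Subgroup X) : (Nat.card (oc T)).Coprime 2 := by
  haveI : Fact (Nat.Prime 2) := ⟨Nat.prime_two⟩
  unfold oc
  rw [card_map_of_injective (subtype_injective _)]
  exact CfsgLib.Cores.pPrimeCore_coprime 2

theorem ext_odd_complement [Finite X] : ∃ F : Subgroup X, Odd (Nat.card F) ∧
    (∃ S : Sylow 2 X, (S : Subgroup X) ≤ normalizer (F : Set X)) ∧
      extendedTwoLayer X = pLayer 2 X ⊔ F := by
  haveI : Fact (Nat.Prime 2) := ⟨Nat.prime_two⟩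
  obtain ⟨S⟩ := (inferInstance : Nonempty (Sylow 2 X))
  obtain ⟨T, hT⟩ := exists_sylow_em S
  refine ⟨pPrimeCore 2 X ⊔ oc ((T : Subgroup (em X)).map (em X).subtype), ?_, ⟨S, ?_⟩, ?_⟩
  · have h1 := CfsgLib.Cores.card_sup_dvd_of_normal_left (pPrimeCore 2 X)
      (oc ((T : Subgroup (em X)).map (em X).subtype))
    have h2 : (Nat.card (pPrimeCore 2 X ⊔ oc ((T : Subgroup (em X)).map (em X).subtype) :
        Subgroup X)).Coprime 2 := by
      apply Nat.Coprime.coprime_dvd_left h1
      exact Nat.Coprime.mul_left (CfsgLib.Cores.pPrimeCore_coprime 2) (oc_card_odd _)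
    rw [← Nat.not_even_iff_odd, even_iff_two_dvd]
    intro h
    exact (Nat.Prime.coprime_iff_not_dvd Nat.prime_two).1 h2.symm h
  · intro s hs
    apply CfsgLib.Coprime.mem_normalizer_of_conj_smul_eq
    rw [Subgroup.smul_sup, Normal.conj_smul_eq_self, smul_oc, hT, Subgroup.smul_inf,
      Normal.conj_smul_eq_self s (em X),
      CfsgLib.Coprime.conj_smul_eq_of_mem_normalizer (le_normalizer hs)]
  · rw [ext_eq_of_sylow T, sup_assoc]

theorem em_le_normalizer [Finite X] {K : Subgroup X} (hK : IsPComponent 2 K) :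
    em X ≤ normalizer (K : Set X) := by
  haveI : Fact (Nat.Prime 2) := ⟨Nat.prime_two⟩
  apply sup_le (pLayer_le_normalizer hK)
  apply le_normalizer_pcomp hK
  have h3 : (pPrimePCore 2 X).map (QuotientGroup.mk' (pPrimeCore 2 X)) =
      pCore 2 (X ⧸ pPrimeCore 2 X) :=
    map_comap_eq_self_of_surjective (QuotientGroup.mk'_surjective _) _
  rw [h3]
  apply commute_le_normalizer
  rw [eq_bot_iff, ← component_commute_fitting hK.2.1, commutator_comm]
  exact commutator_mono le_rfl (CfsgLib.Cores.pCore_le_fittingSubgroup 2)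

/-- The centralizer of a Sylow 2-subgroup of `em X` normalizes each 2-component. -/
theorem centralizer_le_normalizer_pcomp [Finite X] {K : Subgroup X} (hK : IsPComponent 2 K)
    (T : Sylow 2 (em X)) {c : X}
    (hc : c ∈ centralizer (((T : Subgroup (em X)).map (em X).subtype : Subgroup X) : Set X)) :
    c ∈ normalizer (K : Set X) := by
  haveI : Fact (Nat.Prime 2) := ⟨Nat.prime_two⟩
  by_contra hcK
  have hne : K.map (MulAut.conj c).toMonoidHom ≠ K := by
    rwa [Ne, CfsgLib.PSub.map_conj_eq_iff_mem_normalizer]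
  have hKc := pcomp_map_conj c hK
  have hne2 : K.map (QuotientGroup.mk' (pPrimeCore 2 X)) ≠
      (K.map (MulAut.conj c).toMonoidHom).map (QuotientGroup.mk' (pPrimeCore 2 X)) := fun h =>
    hne (pcomp_unique hK hKc h).symm
  have hcomm := components_commute hK.2.1 hKc.2.1 hne2
  obtain ⟨T', hT'⟩ : ∃ T', T' = (T : Subgroup (em X)).map (em X).subtype := ⟨_, rfl⟩
  have hT'em : T' ≤ em X := hT' ▸ map_subtype_le _
  rw [← hT'] at hc
  have hKem : K ≤ em X := (pcomp_le_pLayer hK).trans le_sup_left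
  have h1 : T'.relIndex K ∣ T'.relIndex (em X) :=
    relIndex_dvd_of_normalizes hKem hT'em (hT'em.trans (em_le_normalizer hK))
  have h2 : (T'.relIndex (em X)).Coprime 2 := by
    have h7 : T'.relIndex (em X) = (T : Subgroup (em X)).index := by
      rw [relIndex, hT']
      congr 1
      exact comap_map_eq_self_of_injective (subtype_injective _) _
    rw [h7]
    exact ((Nat.Prime.coprime_iff_not_dvd Nat.prime_two).2 T.not_dvd_index).symm
  apply component_not_coprime (pPrimeCore_quotient_eq_bot 2) hK.2.1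
  obtain ⟨q, hq⟩ : ∃ q, q = QuotientGroup.mk' (pPrimeCore 2 X) := ⟨_, rfl⟩
  rw [← hq] at hcomm ⊢
  apply Nat.Coprime.coprime_dvd_left _ h2
  refine dvd_trans ?_ h1
  refine dvd_trans ?_ (index_map_dvd_of_surj (q.subgroupMap K) (q.subgroupMap_surjective K)
    (T'.subgroupOf K))
  apply index_dvd_of_le
  rintro _ ⟨x, hx, rfl⟩
  rw [mem_center_iff]
  intro y
  apply Subtype.ext
  -- x ∈ T' ∩ K is also in K^c
  have hxT : (x : X) ∈ T' := mem_subgroupOf.1 hx
  have hxc : (x : X) ∈ K.map (MulAut.conj c).toMonoidHom := by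
    refine ⟨x, x.2, ?_⟩
    change c * (x : X) * c⁻¹ = x
    rw [← mem_centralizer_iff.1 hc x hxT, mul_inv_cancel_right]
  exact commute_of_commutator_eq_bot hcomm y.2 ⟨x, hxc, rfl⟩

theorem pcomp_normal_ext [Finite X] {K : Subgroup X} (hK : IsPComponent 2 K) :
    K ≤ extendedTwoLayer X ∧ (K.subgroupOf (extendedTwoLayer X)).Normal := by
  haveI : Fact (Nat.Prime 2) := ⟨Nat.prime_two⟩
  have hle : K ≤ extendedTwoLayer X := by
    rw [ext_eq]
    exact (pcomp_le_pLayer hK).trans (le_sup_left.trans le_sup_left)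
  refine ⟨hle, ?_⟩
  rw [normal_subgroupOf_iff_le_normalizer hle, ext_eq]
  refine sup_le (sup_le (pLayer_le_normalizer hK) (pPrimeCore_le_normalizer_pcomp hK)) ?_
  apply iSup_le
  intro T c hc
  apply centralizer_le_normalizer_pcomp hK T
  exact map_subtype_le _ hc

end CfsgLib.ExtLayer
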