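import Mathlib

set_option autoImplicit false
set_option linter.all false

/-! Feit–Higman, part 1: linear algebra of the two generators -/

namespace CfsgLib.FH

open Matrix

/-- Two symmetric matrices satisfying the quadratic relations, in an eigenbasis of `Y`. -/
structure Dat (ι : Type*) [Fintype ι] [DecidableEq ι] where
  T1 : Matrix ι ι ℝ
  T2 : Matrix ι ι ℝ
  u : ℝ
  v : ℝ
  lam : ι → ℝ
  s1 : T1ᵀ = T1
  s2 : T2ᵀ = T2
  hu : 1 < u
  hv : 1 < v
  q1 : T1 * T1 = u • (1 : Matrix ι ι ℝ) + (u - 1) • T1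
  q2 : T2 * T2 = v • (1 : Matrix ι ι ℝ) + (v - 1) • T2
  hY : T1 * T2 + T2 * T1 - (u - 1) • T2 - (v - 1) • T1 + ((u - 1) * (v - 1)) • (1 : Matrix ι ι ℝ)
    = diagonal lam

namespace Dat

variable {ι : Type*} [Fintype ι] [DecidableEq ι] (d : Dat ι)

theorem q1' (Z : Matrix ι ι ℝ) : Z * d.T1 * d.T1 = d.u • Z + (d.u - 1) • (Z * d.T1) := by
  rw [mul_assoc, d.q1]; simp [mul_add]

theorem q2' (Z : Matrix ι ι ℝ) : Z * d.T2 * d.T2 = d.v • Z + (d.v - 1) • (Z * d.T2) := by
  rw [mul_assoc, d.q2]; simp [mul_add]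

/-- the functional calculus -/
def D (h : ℝ → ℝ) : Matrix ι ι ℝ := diagonal (fun i => h (d.lam i))

theorem D_mul (g h : ℝ → ℝ) : d.D g * d.D h = d.D (fun y => g y * h y) := by
  simp [D]

theorem D_one : d.D (fun _ => 1) = 1 := by simp [D]

theorem D_id : d.D (fun y => y) = diagonal d.lam := rfl

theorem tr_D (h : ℝ → ℝ) : trace (d.D h) = ∑ i, h (d.lam i) := by simp [D, trace]

/-- central element -/
theorem Y_comm1 : d.T1 * diagonal d.lam = diagonal d.lam * d.T1 := by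
  rw [← d.hY]
  simp only [mul_add, add_mul, mul_sub, sub_mul, smul_mul_assoc, mul_smul_comm, mul_one, one_mul,
    ← mul_assoc, d.q1, d.q1', smul_add, smul_sub]
  module

theorem Y_comm2 : d.T2 * diagonal d.lam = diagonal d.lam * d.T2 := by
  rw [← d.hY]
  simp only [mul_add, add_mul, mul_sub, sub_mul, smul_mul_assoc, mul_smul_comm, mul_one, one_mul,
    ← mul_assoc, d.q2, d.q2', smul_add, smul_sub]
  module

theorem comm_of {Z : Matrix ι ι ℝ} (hZ : Z * diagonal d.lam = diagonal d.lam * Z) (h : ℝ → ℝ) :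
    Z * d.D h = d.D h * Z := by
  ext i j
  have h1 := congrFun (congrFun hZ i) j
  rw [mul_diagonal, diagonal_mul] at h1
  rw [D, mul_diagonal, diagonal_mul]
  by_cases h2 : d.lam i = d.lam j
  · rw [h2, mul_comm]
  · have : Z i j = 0 := by
      have h3 : (d.lam i - d.lam j) * Z i j = 0 := by linear_combination -h1
      rcases mul_eq_zero.1 h3 with h4 | h4
      · exact absurd (sub_eq_zero.1 h4) h2
      · exact h4
    rw [this]; ring

theorem D_comm1 (h : ℝ → ℝ) : d.T1 * d.D h = d.D h * d.T1 := d.comm_of d.Y_comm1 h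
theorem D_comm2 (h : ℝ → ℝ) : d.T2 * d.D h = d.D h * d.T2 := d.comm_of d.Y_comm2 h

def X : Matrix ι ι ℝ := d.T1 * d.T2

theorem D_commX (h : ℝ → ℝ) : d.X * d.D h = d.D h * d.X := by
  rw [X, mul_assoc, D_comm2, ← mul_assoc, D_comm1, mul_assoc]

theorem X_sq : d.X * d.X = diagonal d.lam * d.X - (d.u * d.v) • (1 : Matrix ι ι ℝ) := by
  rw [← d.hY, X]
  simp only [mul_add, add_mul, mul_sub, sub_mul, smul_mul_assoc, mul_smul_comm, mul_one, one_mul,
    ← mul_assoc, d.q1, d.q1', d.q2, d.q2', smul_add, smul_sub]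
  module

def K : Matrix ι ι ℝ := d.T1 * d.T2 - d.T2 * d.T1

theorem K_tr : d.Kᵀ = - d.K := by
  simp only [K, transpose_sub, transpose_mul, d.s1, d.s2, neg_sub]

theorem K_anti1 : d.T1 * d.K + d.K * d.T1 = (d.u - 1) • d.K := by
  rw [K]
  simp only [mul_add, add_mul, mul_sub, sub_mul, smul_mul_assoc, mul_smul_comm, mul_one, one_mul,
    ← mul_assoc, d.q1, d.q1', d.q2, d.q2', smul_add, smul_sub]
  module

theorem K_anti2 : d.T2 * d.K + d.K * d.T2 = (d.v - 1) • d.K := by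
  rw [K]
  simp only [mul_add, add_mul, mul_sub, sub_mul, smul_mul_assoc, mul_smul_comm, mul_one, one_mul,
    ← mul_assoc, d.q1, d.q1', d.q2, d.q2', smul_add, smul_sub]
  module

/-- the two special values -/
def al : ℝ := d.u * d.v + 1
def be : ℝ := d.u + d.v

theorem K_sq : d.K * d.K = d.D (fun y => (y - d.al) * (y + d.be)) := by
  have h1 : d.D (fun y => (y - d.al) * (y + d.be)) =
      (diagonal d.lam - d.al • 1) * (diagonal d.lam + d.be • 1) := by
    have e1 : (diagonal d.lam - d.al • 1 : Matrix ι ι ℝ) = diagonal (fun i => d.lam i - d.al) := by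
      rw [smul_one_eq_diagonal, diagonal_sub]
    have e2 : (diagonal d.lam + d.be • 1 : Matrix ι ι ℝ) = diagonal (fun i => d.lam i + d.be) := by
      rw [smul_one_eq_diagonal, diagonal_add]
    rw [e1, e2, diagonal_mul_diagonal, D]
  rw [h1, ← d.hY, K, al, be]
  simp only [mul_add, add_mul, mul_sub, sub_mul, smul_mul_assoc, mul_smul_comm, mul_one, one_mul,
    ← mul_assoc, d.q1, d.q1', d.q2, d.q2', smul_add, smul_sub]
  module

theorem D_commK (h : ℝ → ℝ) : d.K * d.D h = d.D h * d.K := by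
  rw [K, sub_mul, mul_sub, mul_assoc, D_comm2, ← mul_assoc, D_comm1, mul_assoc d.T2, D_comm1,
    ← mul_assoc d.T2, D_comm2, mul_assoc, mul_assoc]

theorem K_row (i : ι) : (d.lam i - d.al) * (d.lam i + d.be) = - ∑ j, d.K i j ^ 2 := by
  have h := congrFun (congrFun d.K_sq i) i
  rw [D, diagonal_apply_eq, mul_apply] at h
  rw [← h, ← Finset.sum_neg_distrib]
  refine Finset.sum_congr rfl fun j _ => ?_
  have := congrFun (congrFun d.K_tr i) j
  rw [transpose_apply, neg_apply] at this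
  rw [this]; ring

theorem K_eq_zero {i : ι} (h : d.lam i = d.al ∨ d.lam i = - d.be) (j : ι) : d.K i j = 0 := by
  have h1 : ∑ j, d.K i j ^ 2 = 0 := by
    have := d.K_row i
    rcases h with h | h
    · rw [h] at this; linarith
    · rw [h] at this; linarith
  have h2 := (Finset.sum_eq_zero_iff_of_nonneg (fun j _ => sq_nonneg (d.K i j))).1 h1 j (Finset.mem_univ _)
  exact pow_eq_zero_iff (two_ne_zero) |>.1 h2

theorem K_D {h : ℝ → ℝ} (hh : ∀ y, y ≠ d.al → y ≠ - d.be → h y = 0) : d.D h * d.K = 0 := by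
  ext i j
  rw [D, diagonal_mul, Matrix.zero_apply]
  by_cases h1 : d.lam i = d.al
  · rw [d.K_eq_zero (Or.inl h1), mul_zero]
  by_cases h2 : d.lam i = - d.be
  · rw [d.K_eq_zero (Or.inr h2), mul_zero]
  rw [hh _ h1 h2, zero_mul]

theorem factor {h : ℝ → ℝ} (h1 : h d.al = 0) (h2 : h (- d.be) = 0) :
    ∃ g : ℝ → ℝ, d.D h = d.K * d.K * d.D g ∧ ∀ y, h y = (y - d.al) * (y + d.be) * g y := by
  have key : ∀ y, h y = (y - d.al) * (y + d.be) * (h y / ((y - d.al) * (y + d.be))) := by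
    intro y
    by_cases h3 : (y - d.al) * (y + d.be) = 0
    · rcases mul_eq_zero.1 h3 with h4 | h4
      · rw [sub_eq_zero.1 h4, h1]; simp
      · rw [eq_neg_of_add_eq_zero_left h4, h2]; simp
    · rw [mul_div_cancel₀]; exact h3
  refine ⟨fun y => h y / ((y - d.al) * (y + d.be)), ?_, key⟩
  rw [K_sq, D_mul]
  congr 1
  ext y
  exact key y

theorem tr_T1 {h : ℝ → ℝ} (h1 : h d.al = 0) (h2 : h (- d.be) = 0) :
    trace (d.T1 * d.D h) = (d.u - 1) / 2 * trace (d.D h) := by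
  obtain ⟨g, hg, -⟩ := d.factor h1 h2
  rw [hg]
  have e1 : trace (d.T1 * (d.K * d.K * d.D g)) = trace (d.K * (d.T1 * (d.K * d.D g))) := by
    rw [trace_mul_comm d.K]
    rw [mul_assoc, mul_assoc, mul_assoc, D_commK]
  have e2 : d.K * (d.T1 * (d.K * d.D g)) = (d.u - 1) • (d.K * d.K * d.D g)
      - d.T1 * (d.K * d.K * d.D g) := by
    have h3 : d.K * d.T1 = (d.u - 1) • d.K - d.T1 * d.K := by rw [← K_anti1]; abel
    rw [← mul_assoc, h3, sub_mul, smul_mul_assoc, ← mul_assoc, mul_assoc d.T1, ← mul_assoc d.K]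
  rw [e2, trace_sub, trace_smul, smul_eq_mul] at e1
  linarith

theorem tr_T2 {h : ℝ → ℝ} (h1 : h d.al = 0) (h2 : h (- d.be) = 0) :
    trace (d.T2 * d.D h) = (d.v - 1) / 2 * trace (d.D h) := by
  obtain ⟨g, hg, -⟩ := d.factor h1 h2
  rw [hg]
  have e1 : trace (d.T2 * (d.K * d.K * d.D g)) = trace (d.K * (d.T2 * (d.K * d.D g))) := by
    rw [trace_mul_comm d.K]
    rw [mul_assoc, mul_assoc, mul_assoc, D_commK]
  have e2 : d.K * (d.T2 * (d.K * d.D g)) = (d.v - 1) • (d.K * d.K * d.D g)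
      - d.T2 * (d.K * d.K * d.D g) := by
    have h3 : d.K * d.T2 = (d.v - 1) • d.K - d.T2 * d.K := by rw [← K_anti2]; abel
    rw [← mul_assoc, h3, sub_mul, smul_mul_assoc, ← mul_assoc, mul_assoc d.T2, ← mul_assoc d.K]
  rw [e2, trace_sub, trace_smul, smul_eq_mul] at e1
  linarith

theorem tr_X {h : ℝ → ℝ} (h1 : h d.al = 0) (h2 : h (- d.be) = 0) :
    2 * trace (d.X * d.D h) = ∑ i, d.lam i * h (d.lam i) := by
  have e1 : trace (d.T2 * d.T1 * d.D h) = trace (d.X * d.D h) := by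
    rw [X, mul_assoc, D_comm1, ← mul_assoc, trace_mul_comm, ← mul_assoc]
  have e2 : trace ((diagonal d.lam) * d.D h) = ∑ i, d.lam i * h (d.lam i) := by
    rw [← D_id, D_mul, tr_D]
  rw [← e2, ← d.hY]
  simp only [add_mul, sub_mul, smul_mul_assoc, one_mul, trace_add, trace_sub, trace_smul,
    smul_eq_mul, d.tr_T1 h1 h2, d.tr_T2 h1 h2]
  rw [e1, ← X]
  ring

/-- the power sums -/
noncomputable def L (r2 : ℝ) : ℕ → ℝ → ℝ
  | 0, _ => 2
  | 1, y => y
  | (k + 2), y => y * L r2 (k + 1) y - r2 * L r2 k y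

theorem tr_Xpow (k : ℕ) : ∀ {h : ℝ → ℝ}, h d.al = 0 → h (- d.be) = 0 →
    2 * trace (d.X ^ k * d.D h) = ∑ i, L (d.u * d.v) k (d.lam i) * h (d.lam i) := by
  induction k using Nat.strong_induction_on with
  | _ k ih =>
    intro h h1 h2
    match k with
    | 0 =>
      rw [pow_zero, one_mul, tr_D, Finset.mul_sum]; rfl
    | 1 =>
      rw [pow_one, d.tr_X h1 h2]; rfl
    | (k + 2) =>
      have a1 := ih (k + 1) (by omega) (h := fun y => y * h y) (by simp [h1]) (by simp [h2])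
      have a2 := ih k (by omega) h1 h2
      have e1 : d.X ^ (k + 2) * d.D h = d.X ^ (k + 1) * d.D (fun y => y * h y)
          - (d.u * d.v) • (d.X ^ k * d.D h) := by
        have h3 : d.X ^ (k + 2) = d.X ^ k * (d.X * d.X) := by rw [pow_add, pow_two]
        rw [h3, X_sq, mul_sub, sub_mul, mul_smul_comm, mul_one, smul_mul_assoc, ← D_id, ← D_commX,
          ← mul_assoc, mul_assoc _ (d.D fun y => y), D_mul, ← pow_succ]
      rw [e1, trace_sub, trace_smul, smul_eq_mul, mul_sub, a1,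
        show 2 * (d.u * d.v * (d.X ^ k * d.D h).trace) = d.u * d.v * (2 * (d.X ^ k * d.D h).trace) by ring,
        a2, Finset.mul_sum, ← Finset.sum_sub_distrib]
      refine Finset.sum_congr rfl fun i _ => ?_
      show _ = L (d.u * d.v) (k + 2) (d.lam i) * h (d.lam i)
      rw [L]; ring

noncomputable def P1 : Matrix ι ι ℝ := (1 / (d.u + 1)) • (d.T1 + 1)
noncomputable def P2 : Matrix ι ι ℝ := (1 / (d.v + 1)) • (d.T2 + 1)

theorem hu1 : d.u + 1 ≠ 0 := by have := d.hu; linarith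
theorem hv1 : d.v + 1 ≠ 0 := by have := d.hv; linarith

theorem P1_tr : d.P1ᵀ = d.P1 := by rw [P1, transpose_smul, transpose_add, d.s1, transpose_one]
theorem P2_tr : d.P2ᵀ = d.P2 := by rw [P2, transpose_smul, transpose_add, d.s2, transpose_one]

theorem P1_T1 : d.P1 * d.T1 = d.u • d.P1 := by
  rw [P1, smul_mul_assoc, add_mul, d.q1, one_mul, smul_smul, mul_comm d.u, mul_smul]
  congr 1
  module

theorem P2_T2 : d.P2 * d.T2 = d.v • d.P2 := by
  rw [P2, smul_mul_assoc, add_mul, d.q2, one_mul, smul_smul, mul_comm d.v, mul_smul]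
  congr 1
  module

theorem T1_eq : d.T1 = (d.u + 1) • d.P1 - 1 := by
  rw [P1, smul_smul, mul_one_div_cancel d.hu1, one_smul]; abel

theorem T2_eq : d.T2 = (d.v + 1) • d.P2 - 1 := by
  rw [P2, smul_smul, mul_one_div_cancel d.hv1, one_smul]; abel

theorem P1_sq : d.P1 * d.P1 = d.P1 := by
  have h := d.P1_T1
  rw [T1_eq, mul_sub, mul_smul_comm, mul_one, sub_eq_iff_eq_add] at h
  have h2 : (d.u + 1) • (d.P1 * d.P1) = (d.u + 1) • d.P1 := by rw [h]; module
  exact smul_right_injective _ d.hu1 h2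

theorem P2_sq : d.P2 * d.P2 = d.P2 := by
  have h := d.P2_T2
  rw [T2_eq, mul_sub, mul_smul_comm, mul_one, sub_eq_iff_eq_add] at h
  have h2 : (d.v + 1) • (d.P2 * d.P2) = (d.v + 1) • d.P2 := by rw [h]; module
  exact smul_right_injective _ d.hv1 h2

theorem Y_eq : diagonal d.lam = d.al • (1 : Matrix ι ι ℝ)
    - ((d.u + 1) * (d.v + 1)) • ((d.P1 - d.P2) * (d.P1 - d.P2)) := by
  have h := d.hY
  rw [d.T1_eq, d.T2_eq] at h
  rw [← h, al]
  simp only [mul_add, add_mul, mul_sub, sub_mul, smul_mul_assoc, mul_smul_comm, mul_one, one_mul,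
    ← mul_assoc, d.P1_sq, d.P2_sq, smul_add, smul_sub]
  module

theorem Y_eq' : diagonal d.lam = ((d.u + 1) * (d.v + 1)) • ((d.P1 + d.P2 - 1) * (d.P1 + d.P2 - 1))
    - d.be • (1 : Matrix ι ι ℝ) := by
  have h := d.hY
  rw [d.T1_eq, d.T2_eq] at h
  rw [← h, be]
  simp only [mul_add, add_mul, mul_sub, sub_mul, smul_mul_assoc, mul_smul_comm, mul_one, one_mul,
    ← mul_assoc, d.P1_sq, d.P2_sq, smul_add, smul_sub]
  module

theorem row_zero {M : Matrix ι ι ℝ} (hM : Mᵀ = M) {i : ι} (h : (M * M) i i = 0) (j : ι) : M i j = 0 := by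
  rw [mul_apply] at h
  have e : ∀ j, M i j * M j i = M i j ^ 2 := by
    intro j
    have := congrFun (congrFun hM i) j
    rw [transpose_apply] at this
    rw [this]; ring
  simp only [e] at h
  have h2 := (Finset.sum_eq_zero_iff_of_nonneg (fun j _ => sq_nonneg (M i j))).1 h j (Finset.mem_univ _)
  exact pow_eq_zero_iff (two_ne_zero) |>.1 h2

theorem uv_pos : 0 < (d.u + 1) * (d.v + 1) := by
  have := d.hu; have := d.hv; positivity

noncomputable def ea : Matrix ι ι ℝ := d.D (fun y => if y = d.al then 1 else 0)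
noncomputable def eb : Matrix ι ι ℝ := d.D (fun y => if y = - d.be then 1 else 0)

theorem ea_P : d.ea * d.P1 = d.ea * d.P2 := by
  ext i j
  rw [ea, D, diagonal_mul, diagonal_mul]
  by_cases h : d.lam i = d.al
  · have h1 := congrFun (congrFun d.Y_eq i) i
    rw [diagonal_apply_eq, h, Matrix.sub_apply, Matrix.smul_apply, Matrix.smul_apply, one_apply_eq,
      smul_eq_mul, mul_one, eq_comm, sub_eq_self, smul_eq_mul] at h1
    have h2 := (mul_eq_zero.1 h1).resolve_left d.uv_pos.ne'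
    have h3 := row_zero (by rw [transpose_sub, P1_tr, P2_tr]) h2 j
    rw [Matrix.sub_apply, sub_eq_zero] at h3
    rw [h3]
  · simp [h]

theorem eb_P : d.eb * d.P2 = d.eb * (1 - d.P1) := by
  ext i j
  rw [eb, D, diagonal_mul, diagonal_mul]
  by_cases h : d.lam i = - d.be
  · have h1 := congrFun (congrFun d.Y_eq' i) i
    rw [diagonal_apply_eq, h, Matrix.sub_apply, Matrix.smul_apply, Matrix.smul_apply, one_apply_eq,
      smul_eq_mul, smul_eq_mul, mul_one, eq_comm, sub_eq_neg_self] at h1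
    have h2 := (mul_eq_zero.1 h1).resolve_left d.uv_pos.ne'
    have h3 := row_zero (by rw [transpose_sub, transpose_add, P1_tr, P2_tr, transpose_one]) h2 j
    rw [Matrix.sub_apply, Matrix.add_apply, sub_eq_zero] at h3
    rw [Matrix.sub_apply, ← h3]; ring
  · simp [h]

noncomputable def p : ℝ := trace (d.ea * d.P1)
noncomputable def dd : ℝ := trace (d.ea * (1 - d.P1))
noncomputable def a : ℝ := trace (d.eb * d.P1)
noncomputable def b : ℝ := trace (d.eb * (1 - d.P1))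

theorem R1_T1 : (1 - d.P1) * d.T1 = - (1 - d.P1) := by
  rw [sub_mul, one_mul, P1_T1]
  nth_rw 1 [T1_eq]
  module

theorem R2_T2 : (1 - d.P2) * d.T2 = - (1 - d.P2) := by
  rw [sub_mul, one_mul, P2_T2]
  nth_rw 1 [T2_eq]
  module

theorem ea_P1X : d.ea * d.P1 * d.X = (d.u * d.v) • (d.ea * d.P1) := by
  rw [X, ← mul_assoc, mul_assoc d.ea, P1_T1, mul_smul_comm, smul_mul_assoc, ea_P, mul_assoc, P2_T2,
    mul_smul_comm, smul_smul]

theorem ea_R1X : d.ea * (1 - d.P1) * d.X = d.ea * (1 - d.P1) := by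
  have h : d.ea * (1 - d.P1) = d.ea * (1 - d.P2) := by rw [mul_sub, ea_P, mul_sub]
  rw [X, ← mul_assoc, mul_assoc d.ea, R1_T1, mul_neg, neg_mul, h, mul_assoc, R2_T2, mul_neg, neg_neg]

theorem eb_P1X : d.eb * d.P1 * d.X = (- d.u) • (d.eb * d.P1) := by
  have h : d.eb * d.P1 = d.eb * (1 - d.P2) := by rw [mul_sub, eb_P, mul_sub]; simp
  rw [X, ← mul_assoc, mul_assoc d.eb, P1_T1, mul_smul_comm, smul_mul_assoc, h, mul_assoc, R2_T2,
    mul_neg, smul_neg, neg_smul]

theorem eb_R1X : d.eb * (1 - d.P1) * d.X = (- d.v) • (d.eb * (1 - d.P1)) := by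
  rw [X, ← mul_assoc, mul_assoc d.eb, R1_T1, mul_neg, neg_mul, ← eb_P, mul_assoc, P2_T2,
    mul_smul_comm, neg_smul]

theorem ea_Xpow (k : ℕ) : d.ea * d.X ^ k = (d.u * d.v) ^ k • (d.ea * d.P1) + d.ea * (1 - d.P1) := by
  induction k with
  | zero => rw [pow_zero, pow_zero, one_smul, ← mul_add, add_sub_cancel]
  | succ k ih =>
    rw [pow_succ, ← mul_assoc, ih, add_mul, smul_mul_assoc, ea_P1X, ea_R1X, smul_smul, pow_succ]

theorem eb_Xpow (k : ℕ) : d.eb * d.X ^ k = (- d.u) ^ k • (d.eb * d.P1) + (- d.v) ^ k • (d.eb * (1 - d.P1)) := by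
  induction k with
  | zero => rw [pow_zero, pow_zero, pow_zero, one_smul, one_smul, ← mul_add, add_sub_cancel]
  | succ k ih =>
    rw [pow_succ, ← mul_assoc, ih, add_mul, smul_mul_assoc, smul_mul_assoc, eb_P1X, eb_R1X, smul_smul,
      smul_smul, pow_succ, pow_succ]

noncomputable def gen (y : ℝ) : ℝ := if y = d.al ∨ y = - d.be then 0 else 1

theorem gen_al : d.gen d.al = 0 := by simp [gen]
theorem gen_be : d.gen (- d.be) = 0 := by simp [gen]

theorem al_ne_be : d.al ≠ - d.be := by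
  have := d.hu; have := d.hv
  have h : 0 < d.al := by rw [al]; positivity
  have h' : 0 < d.be := by rw [be]; positivity
  intro h2; linarith

theorem split : (1 : Matrix ι ι ℝ) = d.D d.gen + d.ea + d.eb := by
  rw [ea, eb, D, D, D, diagonal_add, diagonal_add, ← diagonal_one]
  congr 1
  ext i
  by_cases h1 : d.lam i = d.al
  · simp [gen, h1, d.al_ne_be]
  by_cases h2 : d.lam i = - d.be
  · simp [gen, h2, d.al_ne_be.symm]
  simp [gen, h1, h2]

theorem tr_pow (k : ℕ) : trace (d.X ^ k) = (∑ i, L (d.u * d.v) k (d.lam i) * d.gen (d.lam i)) / 2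
    + ((d.u * d.v) ^ k * d.p + d.dd + (- d.u) ^ k * d.a + (- d.v) ^ k * d.b) := by
  have h1 : trace (d.X ^ k) = trace (d.X ^ k * d.D d.gen) + trace (d.ea * d.X ^ k)
      + trace (d.eb * d.X ^ k) := by
    conv_lhs => rw [← mul_one (d.X ^ k), d.split, mul_add, mul_add, trace_add, trace_add,
      trace_mul_comm _ d.ea, trace_mul_comm _ d.eb]
  have h2 := d.tr_Xpow k d.gen_al d.gen_be
  rw [h1, ea_Xpow, eb_Xpow, trace_add, trace_add, trace_smul, trace_smul, trace_smul, ← h2]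
  simp only [smul_eq_mul]
  rw [p, dd, a, b]
  ring

theorem tr_1 : trace (1 : Matrix ι ι ℝ) = ∑ i, d.gen (d.lam i) + (d.p + d.dd + d.a + d.b) := by
  have h := d.tr_pow 0
  rw [pow_zero] at h
  rw [h]
  simp only [L, pow_zero, one_mul, ← Finset.mul_sum]
  ring

theorem tr_T1' : trace d.T1 = (d.u - 1) / 2 * ∑ i, d.gen (d.lam i)
    + (d.u * d.p - d.dd + d.u * d.a - d.b) := by
  have h1 : trace d.T1 = trace (d.T1 * d.D d.gen) + trace (d.ea * d.T1) + trace (d.eb * d.T1) := by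
    conv_lhs => rw [← mul_one (d.T1), d.split, mul_add, mul_add, trace_add, trace_add,
      trace_mul_comm _ d.ea, trace_mul_comm _ d.eb]
  have e1 : d.T1 = d.u • d.P1 - (1 - d.P1) := by nth_rw 1 [T1_eq]; module
  rw [h1, d.tr_T1 d.gen_al d.gen_be, tr_D]
  nth_rw 1 [e1]
  nth_rw 1 [e1]
  rw [mul_sub d.ea, mul_sub d.eb, mul_smul_comm, mul_smul_comm, trace_sub, trace_sub, trace_smul, trace_smul,
    p, dd, a, b]
  simp only [smul_eq_mul]
  ring

theorem tr_T2' : trace d.T2 = (d.v - 1) / 2 * ∑ i, d.gen (d.lam i)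
    + (d.v * d.p - d.dd + d.v * d.b - d.a) := by
  have h1 : trace d.T2 = trace (d.T2 * d.D d.gen) + trace (d.ea * d.T2) + trace (d.eb * d.T2) := by
    conv_lhs => rw [← mul_one (d.T2), d.split, mul_add, mul_add, trace_add, trace_add,
      trace_mul_comm _ d.ea, trace_mul_comm _ d.eb]
  have e1 : d.T2 = d.v • d.P2 - (1 - d.P2) := by nth_rw 1 [T2_eq]; module
  have e2 : d.ea * (1 - d.P2) = d.ea * (1 - d.P1) := by rw [mul_sub, ← ea_P, mul_sub]
  have e3 : d.eb * (1 - d.P2) = d.eb * d.P1 := by rw [mul_sub, eb_P, mul_sub]; simp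
  rw [h1, d.tr_T2 d.gen_al d.gen_be, tr_D]
  nth_rw 1 [e1]
  nth_rw 1 [e1]
  rw [mul_sub d.ea, mul_sub d.eb, mul_smul_comm, mul_smul_comm, trace_sub, trace_sub, trace_smul, trace_smul,
    e2, e3, ← ea_P, eb_P, p, dd, a, b]
  simp only [smul_eq_mul]
  ring

end Dat

end CfsgLib.FH
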