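import Mathlib
import Cfsg.Agent.LibFH1

set_option autoImplicit false
set_option linter.all false

/-! Feit–Higman, part 2: the multiplicities -/

namespace CfsgLib.FH

open Matrix

structure Dat2 (ι : Type*) [Fintype ι] [DecidableEq ι] extends Dat ι where
  m : ℕ
  r : ℝ
  A : Matrix ι ι ℝ
  hr : 1 < r
  rr : r * r = u * v
  hm : 3 ≤ m
  hne : Nonempty ι
  As : Aᵀ = A
  AA : A * A = (T1 * T2) ^ m
  AY : A * diagonal lam = diagonal lam * A
  cen : (T1 * T2) ^ m * T1 = T1 * (T1 * T2) ^ m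
  t1 : trace T1 = 0
  t2 : trace T2 = 0
  tk : ∀ k, 1 ≤ k → k < m → trace ((T1 * T2) ^ k) = 0
  tm : trace ((T1 * T2) ^ m) = Fintype.card ι * r ^ m
  odd : Odd m → u = v

namespace Dat2

variable {ι : Type*} [Fintype ι] [DecidableEq ι] (d : Dat2 ι)

/-- second kind -/
noncomputable def W (r2 : ℝ) : ℕ → ℝ → ℝ
  | 0, _ => 0
  | 1, _ => 1
  | (k + 2), y => y * W r2 (k + 1) y - r2 * W r2 k y

theorem X_pow (k : ℕ) : d.X ^ (k + 1) = d.D (W (d.u * d.v) (k + 1)) * d.X
    - (d.u * d.v) • d.D (W (d.u * d.v) k) := by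
  induction k with
  | zero =>
    have e1 : d.D (W (d.u * d.v) (0 + 1)) = 1 := by
      rw [Dat.D, ← diagonal_one]; rfl
    have e2 : d.D (W (d.u * d.v) 0) = 0 := by
      rw [Dat.D, ← diagonal_zero]; rfl
    rw [e1, e2, zero_add, pow_one, one_mul, smul_zero, sub_zero]
  | succ k ih =>
    rw [pow_succ, ih, sub_mul, mul_assoc, Dat.X_sq, smul_mul_assoc, mul_sub, mul_smul_comm, mul_one]
    rw [← mul_assoc, ← Dat.D_id, Dat.D_mul]
    have e3 : d.D (W (d.u * d.v) (k + 1 + 1)) = d.D (fun y => W (d.u * d.v) (k + 1) y * y)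
        - (d.u * d.v) • d.D (W (d.u * d.v) k) := by
      rw [Dat.D, Dat.D, Dat.D, ← diagonal_smul, diagonal_sub]
      congr 1
      ext i
      simp only [W, Pi.smul_apply, smul_eq_mul]
      ring
    rw [e3, sub_mul, smul_mul_assoc]
    module

theorem W_K : d.D (W (d.u * d.v) d.m) * d.K = 0 := by
  obtain ⟨k, hk⟩ : ∃ k, d.m = k + 1 := ⟨d.m - 1, by have := d.hm; omega⟩
  have h := d.cen
  have hX := d.X_pow k
  rw [← hk, Dat.X] at hX
  rw [hX] at h
  set E := d.D (W (d.u * d.v) d.m) with hE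
  set F := d.D (W (d.u * d.v) k) with hF
  have c1 : d.T1 * E = E * d.T1 := d.D_comm1 _
  have c2 : d.T1 * F = F * d.T1 := d.D_comm1 _
  rw [sub_mul, mul_sub, smul_mul_assoc, mul_smul_comm, c2, sub_left_inj] at h
  have h3 : E * (d.T1 * d.K) = 0 := by
    rw [Dat.K, mul_sub, mul_sub, sub_eq_zero]
    have e1 : E * (d.T1 * (d.T2 * d.T1)) = E * (d.T1 * d.T2) * d.T1 := by simp only [mul_assoc]
    rw [e1, h, ← mul_assoc d.T1 E, c1, mul_assoc]
  have h4 : (d.T1 - (d.u - 1) • 1) * d.T1 = d.u • (1 : Matrix ι ι ℝ) := by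
    rw [sub_mul, d.q1, smul_mul_assoc, one_mul]; abel
  have h5 : (d.T1 - (d.u - 1) • 1) * E = E * (d.T1 - (d.u - 1) • 1) := by
    rw [sub_mul, mul_sub, c1]; simp
  have h6 : d.u • (E * d.K) = 0 := by
    have : (d.T1 - (d.u - 1) • 1) * (E * (d.T1 * d.K)) = d.u • (E * d.K) := by
      rw [← mul_assoc, h5, mul_assoc, ← mul_assoc _ d.T1, h4, smul_mul_assoc, one_mul, mul_smul_comm]
    rw [← this, h3, mul_zero]
  rcases smul_eq_zero.1 h6 with h7 | h7
  · have := d.hu; linarith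
  · exact h7

theorem W_zero {i : ι} (h1 : d.lam i ≠ d.al) (h2 : d.lam i ≠ - d.be) :
    W (d.u * d.v) d.m (d.lam i) = 0 := by
  have h : d.D (W (d.u * d.v) d.m) * (d.K * d.K) = 0 := by rw [← mul_assoc, W_K, zero_mul]
  rw [Dat.K_sq, Dat.D_mul] at h
  have h3 := congrFun (congrFun h i) i
  rw [Dat.D, diagonal_apply_eq, Matrix.zero_apply] at h3
  rcases mul_eq_zero.1 h3 with h4 | h4
  · exact h4
  rcases mul_eq_zero.1 h4 with h5 | h5
  · exact absurd (sub_eq_zero.1 h5) h1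
  · exact absurd (eq_neg_of_add_eq_zero_left h5) h2

theorem W_pos {r y : ℝ} (hr : 0 < r) (hy : 2 * r ≤ y) (k : ℕ) :
    0 < W (r * r) (k + 1) y ∧ r * W (r * r) k y ≤ W (r * r) (k + 1) y := by
  induction k with
  | zero => simp [W]
  | succ k ih =>
    obtain ⟨h1, h2⟩ := ih
    have h3 : r * W (r * r) (k + 1) y ≤ W (r * r) (k + 1 + 1) y := by
      rw [W]
      nlinarith [mul_le_mul_of_nonneg_right hy h1.le, mul_le_mul_of_nonneg_left h2 hr.le]
    exact ⟨lt_of_lt_of_le (mul_pos hr h1) h3, h3⟩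

theorem W_neg (r2 y : ℝ) (k : ℕ) : W r2 k (-y) = (-1) ^ (k + 1) * W r2 k y := by
  induction k using Nat.strong_induction_on with
  | _ k ih =>
    match k with
    | 0 => simp [W]
    | 1 => simp [W]
    | (k + 2) =>
      rw [W, W, ih (k + 1) (by omega), ih k (by omega)]
      ring

theorem W_ne {r y : ℝ} (hr : 0 < r) (hy : 2 * r ≤ y ∨ y ≤ - (2 * r)) (k : ℕ) :
    W (r * r) (k + 1) y ≠ 0 := by
  rcases hy with hy | hy
  · exact (W_pos hr hy k).1.ne'
  · have h := (W_pos hr (y := -y) (by linarith) k).1.ne'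
    rw [W_neg] at h
    intro h2
    rw [h2, mul_zero] at h
    exact h rfl

theorem W_sin (r θ : ℝ) (k : ℕ) : W (r * r) k (2 * r * Real.cos θ) * (r * Real.sin θ) =
    r ^ k * Real.sin (k * θ) := by
  induction k using Nat.strong_induction_on with
  | _ k ih =>
    match k with
    | 0 => simp [W]
    | 1 => simp [W]
    | (k + 2) =>
      rw [W, sub_mul, mul_assoc, mul_assoc (r * r), ih (k + 1) (by omega), ih k (by omega)]
      have e1 : ((k + 2 : ℕ) : ℝ) * θ = ((k + 1 : ℕ) : ℝ) * θ + θ := by push_cast; ring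
      have e2 : (k : ℝ) * θ = ((k + 1 : ℕ) : ℝ) * θ - θ := by push_cast; ring
      rw [e1, e2, Real.sin_add, Real.sin_sub]
      ring

theorem L_cos (r θ : ℝ) (k : ℕ) : Dat.L (r * r) k (2 * r * Real.cos θ) =
    2 * r ^ k * Real.cos (k * θ) := by
  induction k using Nat.strong_induction_on with
  | _ k ih =>
    match k with
    | 0 => simp [Dat.L]
    | 1 => simp [Dat.L]
    | (k + 2) =>
      rw [Dat.L, ih (k + 1) (by omega), ih k (by omega)]
      have e1 : ((k + 2 : ℕ) : ℝ) * θ = ((k + 1 : ℕ) : ℝ) * θ + θ := by push_cast; ring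
      have e2 : (k : ℝ) * θ = ((k + 1 : ℕ) : ℝ) * θ - θ := by push_cast; ring
      rw [e1, e2, Real.cos_add, Real.cos_sub]
      ring

theorem r_pos : 0 < d.r := by have := d.hr; linarith

theorem uv_nonneg : 0 ≤ (d.u - d.v) ^ 2 := sq_nonneg _

theorem be_ge : 2 * d.r ≤ d.be := by
  have h1 : (2 * d.r) ^ 2 ≤ d.be ^ 2 := by
    rw [Dat.be]
    have := d.rr
    nlinarith [sq_nonneg (d.u - d.v)]
  have h2 : 0 ≤ d.be := by rw [Dat.be]; have := d.hu; have := d.hv; linarith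
  exact (pow_le_pow_iff_left₀ (by have := d.r_pos; positivity) h2 (by norm_num)).1 h1

theorem al_gt : 2 * d.r < d.al := by
  have := d.hr
  have h := d.rr
  rw [Dat.al, ← h]
  nlinarith [sq_nonneg (d.r - 1), mul_pos (sub_pos.2 this) (sub_pos.2 this)]

/-- the number of eigenvalues equal to `y` -/
noncomputable def c (y : ℝ) : ℕ := (Finset.univ.filter (fun i => d.lam i = y)).card

theorem pos_pow (y : ℝ) (h1 : y ≠ d.al) (h2 : y ≠ - d.be) : 0 ≤ Dat.L (d.u * d.v) d.m y * d.c y := by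
  classical
  set h : ℝ → ℝ := fun z => if z = y then 1 else 0 with hh
  have e1 := d.tr_Xpow d.m (h := h) (by simp [hh, h1.symm]) (by simp [hh, h2.symm])
  have e2 : ∑ i, Dat.L (d.u * d.v) d.m (d.lam i) * h (d.lam i) = Dat.L (d.u * d.v) d.m y * d.c y := by
    rw [c, Finset.card_eq_sum_ones, Finset.sum_filter]
    push_cast
    rw [Finset.mul_sum]
    refine Finset.sum_congr rfl fun i _ => ?_
    by_cases h3 : d.lam i = y
    · simp [hh, h3]
    · simp [hh, h3]
  rw [← e2, ← e1]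
  have e3 : d.X ^ d.m * d.D h = (d.A * d.D h) * (d.A * d.D h)ᵀ := by
    have hD : (d.D h)ᵀ = d.D h := by rw [Dat.D, diagonal_transpose]
    have hDD : d.D h * d.D h = d.D h := by
      rw [Dat.D_mul]; congr 1; ext z; by_cases h3 : z = y <;> simp [hh, h3]
    have hA := d.comm_of d.AY h
    rw [transpose_mul, hD, d.As, Dat.X, ← d.AA]
    rw [mul_assoc, mul_assoc, ← mul_assoc (d.D h), hDD, hA]
  rw [e3]
  have e4 : 0 ≤ trace ((d.A * d.D h) * (d.A * d.D h)ᵀ) := by
    rw [trace]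
    refine Finset.sum_nonneg fun i _ => ?_
    rw [diag_apply, mul_apply]
    refine Finset.sum_nonneg fun j _ => ?_
    rw [transpose_apply]
    exact mul_self_nonneg _
  linarith

theorem c_pos {i : ι} : 0 < d.c (d.lam i) := by
  rw [c, Finset.card_pos]
  exact ⟨i, by simp⟩

/-- generic eigenvalues -/
theorem generic {i : ι} (h1 : d.lam i ≠ d.al) (h2 : d.lam i ≠ - d.be) :
    ∃ θ : ℝ, 0 < θ ∧ θ < Real.pi ∧ d.lam i = 2 * d.r * Real.cos θ ∧ Real.cos (d.m * θ) = 1 := by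
  have hW := d.W_zero h1 h2
  obtain ⟨k, hk⟩ : ∃ k, d.m = k + 1 := ⟨d.m - 1, by have := d.hm; omega⟩
  rw [← d.rr] at hW
  have hrp := d.r_pos
  have hlt : d.lam i < 2 * d.r := by
    by_contra hcon
    push Not at hcon
    rw [hk] at hW
    exact W_ne hrp (Or.inl hcon) k hW
  have hgt : - (2 * d.r) < d.lam i := by
    by_contra hcon
    push Not at hcon
    rw [hk] at hW
    exact W_ne hrp (Or.inr hcon) k hW
  have hx1 : -1 < d.lam i / (2 * d.r) := by rw [lt_div_iff₀ (by positivity)]; linarith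
  have hx2 : d.lam i / (2 * d.r) < 1 := by rw [div_lt_one (by positivity)]; linarith
  set θ := Real.arccos (d.lam i / (2 * d.r)) with hθ
  have hc : Real.cos θ = d.lam i / (2 * d.r) := Real.cos_arccos hx1.le hx2.le
  have hlam : d.lam i = 2 * d.r * Real.cos θ := by rw [hc]; field_simp
  have hθ0 : 0 < θ := Real.arccos_pos.2 hx2
  have hθπ : θ < Real.pi := by
    rcases lt_or_eq_of_le (Real.arccos_le_pi (d.lam i / (2 * d.r))) with h | h
    · exact h
    · exfalso
      have : Real.cos θ = -1 := by rw [hθ, h, Real.cos_pi]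
      rw [hc] at this; linarith
  refine ⟨θ, hθ0, hθπ, hlam, ?_⟩
  have hs : 0 < Real.sin θ := Real.sin_pos_of_pos_of_lt_pi hθ0 hθπ
  have h3 := W_sin d.r θ d.m
  rw [← hlam, hW, zero_mul, eq_comm] at h3
  have h4 : Real.sin (d.m * θ) = 0 := (mul_eq_zero.1 h3).resolve_left (pow_pos hrp _).ne'
  have h5 := d.pos_pow (d.lam i) h1 h2
  rw [← d.rr, hlam, L_cos, ← hlam] at h5
  have h6 : (0 : ℝ) < d.c (d.lam i) := by exact_mod_cast d.c_pos
  have h7 : 0 ≤ Real.cos (d.m * θ) := by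
    by_contra hcon
    push Not at hcon
    have : 2 * d.r ^ d.m * Real.cos (d.m * θ) * d.c (d.lam i) < 0 := by
      have : 0 < 2 * d.r ^ d.m := by positivity
      nlinarith [mul_pos this h6]
    linarith
  have h8 := Real.sin_sq_add_cos_sq (d.m * θ)
  rw [h4] at h8
  nlinarith

end Dat2

end CfsgLib.FH
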