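import Mathlib
import Cfsg.Agent.LibFH2

set_option autoImplicit false
set_option linter.all false

/-! Feit–Higman, part 3: the multiplicity formula -/

namespace CfsgLib.FH

open Matrix

namespace Dat2

variable {ι : Type*} [Fintype ι] [DecidableEq ι] (d : Dat2 ι)

theorem gen_cases (i : ι) : (d.gen (d.lam i) = 0) ∨ (d.lam i ≠ d.al ∧ d.lam i ≠ - d.be) := by
  by_cases h : d.lam i = d.al ∨ d.lam i = - d.be
  · left; simp [Dat.gen, h]
  · right; push Not at h; exact h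

theorem Lm (i : ι) : Dat.L (d.u * d.v) d.m (d.lam i) * d.gen (d.lam i) =
    2 * d.r ^ d.m * d.gen (d.lam i) := by
  rcases d.gen_cases i with h | ⟨h1, h2⟩
  · rw [h]; simp
  · obtain ⟨θ, h3, h4, h5, h6⟩ := d.generic h1 h2
    have : Dat.L (d.u * d.v) d.m (d.lam i) = 2 * d.r ^ d.m := by
      rw [← d.rr, h5, L_cos, h6, mul_one]
    rw [this]

theorem sin_zero {θ : ℝ} (h : Real.cos (d.m * θ) = 1) : Real.sin (d.m * θ) = 0 := by
  have h8 := Real.sin_sq_add_cos_sq (d.m * θ)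
  rw [h] at h8
  nlinarith

theorem Lm1 (i : ι) : Dat.L (d.u * d.v) (d.m - 1) (d.lam i) * d.gen (d.lam i) =
    d.r ^ (d.m - 2) * (Dat.L (d.u * d.v) 1 (d.lam i) * d.gen (d.lam i)) := by
  rcases d.gen_cases i with h | ⟨h1, h2⟩
  · rw [h]; simp
  · obtain ⟨θ, h3, h4, h5, h6⟩ := d.generic h1 h2
    have h7 := d.sin_zero h6
    have hm := d.hm
    have e1 : ((d.m - 1 : ℕ) : ℝ) * θ = d.m * θ - θ := by
      rw [Nat.cast_sub (by omega)]; push_cast; ring
    have e2 : d.r ^ (d.m - 1) = d.r ^ (d.m - 2) * d.r := by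
      rw [← pow_succ]; congr 1; omega
    have : Dat.L (d.u * d.v) (d.m - 1) (d.lam i) = d.r ^ (d.m - 2) * Dat.L (d.u * d.v) 1 (d.lam i) := by
      rw [← d.rr, h5, L_cos, L_cos, e1, Real.cos_sub, h6, h7, e2]
      push_cast
      ring
    rw [this]; ring

theorem eqN : (Fintype.card ι : ℝ) = ∑ i, d.gen (d.lam i) + (d.p + d.dd + d.a + d.b) := by
  have h := d.tr_1
  rw [trace_one] at h
  exact h

theorem E0 : (d.u * d.v) ^ d.m * d.p + d.dd + (- d.u) ^ d.m * d.a + (- d.v) ^ d.m * d.b =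
    d.r ^ d.m * (d.p + d.dd + d.a + d.b) := by
  have h1 := d.tr_pow d.m
  have h2 : ∑ i, Dat.L (d.u * d.v) d.m (d.lam i) * d.gen (d.lam i) =
      2 * d.r ^ d.m * ∑ i, d.gen (d.lam i) := by
    rw [Finset.mul_sum]; exact Finset.sum_congr rfl fun i _ => d.Lm i
  rw [h2, Dat.X, d.tm, d.eqN] at h1
  linear_combination -h1

theorem E1 : (d.u * d.v) ^ (d.m - 1) * d.p + d.dd + (- d.u) ^ (d.m - 1) * d.a + (- d.v) ^ (d.m - 1) * d.b =
    d.r ^ (d.m - 2) * (d.u * d.v * d.p + d.dd - d.u * d.a - d.v * d.b) := by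
  have h1 := d.tr_pow (d.m - 1)
  have h2 : ∑ i, Dat.L (d.u * d.v) (d.m - 1) (d.lam i) * d.gen (d.lam i) =
      d.r ^ (d.m - 2) * ∑ i, Dat.L (d.u * d.v) 1 (d.lam i) * d.gen (d.lam i) := by
    rw [Finset.mul_sum]; exact Finset.sum_congr rfl fun i _ => d.Lm1 i
  have h3 := d.tr_pow 1
  have hm := d.hm
  rw [h2, Dat.X, d.tk _ (by omega) (by omega)] at h1
  rw [Dat.X, d.tk 1 (by omega) (by omega)] at h3
  simp only [pow_one] at h3
  linear_combination -h1 + d.r ^ (d.m - 2) * h3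

theorem eT1 : (d.u - 1) / 2 * ∑ i, d.gen (d.lam i) + (d.u * d.p - d.dd + d.u * d.a - d.b) = 0 := by
  rw [← d.tr_T1', d.t1]

theorem eT2 : (d.v - 1) / 2 * ∑ i, d.gen (d.lam i) + (d.v * d.p - d.dd + d.v * d.b - d.a) = 0 := by
  rw [← d.tr_T2', d.t2]

theorem ab_eq (h : d.u = d.v) : d.a = d.b := by
  have h1 := d.eT1
  have h2 := d.eT2
  rw [← h] at h2
  have h3 : (d.u + 1) * (d.a - d.b) = 0 := by linear_combination h1 - h2
  exact sub_eq_zero.1 ((mul_eq_zero.1 h3).resolve_left d.hu1)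

omit [Fintype ι] [DecidableEq ι] d in
theorem alg_even {u v U V p dd a b : ℝ} (hu : 1 < u) (hv : 1 < v) (hU : 1 < U) (hV : 1 < V)
    (h1 : v < u → V < U) (h2 : u < v → U < V) (h3 : u = v → U = V ∧ a = b)
    (f0 : (u * v * U * V - 1) * (u * v * U * V * p - dd) + (u * U - v * V) * (u * U * a - v * V * b) = 0)
    (f1 : (U * V - 1) * (u * v * U * V * p - dd) - (U - V) * (u * U * a - v * V * b) = 0) :
    u * v * U * V * p - dd = 0 ∧ u * U * a - v * V * b = 0 := by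
  have hUV1 : 1 < U * V := one_lt_mul_of_lt_of_le hU hV.le
  have huv1 : 1 < u * v := one_lt_mul_of_lt_of_le hu hv.le
  have hx0 : 0 < u * v * U * V - 1 := by
    have : 1 < (u * v) * (U * V) := one_lt_mul_of_lt_of_le huv1 hUV1.le
    rw [← mul_assoc] at this
    linarith
  have hx1 : 0 < U * V - 1 := by linarith
  generalize hA : u * v * U * V * p - dd = A at *
  generalize hB : u * U * a - v * V * b = B at *
  rcases lt_trichotomy u v with hlt | heq | hgt
  · have g1 := h2 hlt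
    have g2 : u * U < v * V := mul_lt_mul hlt g1.le (by linarith) (by linarith)
    have f2 : ((u * v * U * V - 1) * (V - U) + (U * V - 1) * (v * V - u * U)) * A = 0 := by
      linear_combination (V - U) * f0 + (v * V - u * U) * f1
    have f3 : 0 < (u * v * U * V - 1) * (V - U) + (U * V - 1) * (v * V - u * U) := by
      have := mul_pos hx0 (sub_pos.2 g1)
      have := mul_pos hx1 (sub_pos.2 g2)
      linarith
    have f4 := (mul_eq_zero.1 f2).resolve_left f3.ne'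
    rw [f4, mul_zero, zero_add] at f0
    exact ⟨f4, (mul_eq_zero.1 f0).resolve_left (by linarith)⟩
  · obtain ⟨g1, g2⟩ := h3 heq
    subst heq; subst g1; subst g2
    rw [sub_self, zero_mul, add_zero] at f0
    refine ⟨(mul_eq_zero.1 f0).resolve_left hx0.ne', ?_⟩
    rw [← hB]; ring
  · have g1 := h1 hgt
    have g2 : v * V < u * U := mul_lt_mul hgt g1.le (by linarith) (by linarith)
    have f2 : ((u * v * U * V - 1) * (U - V) + (U * V - 1) * (u * U - v * V)) * A = 0 := by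
      linear_combination (U - V) * f0 + (u * U - v * V) * f1
    have f3 : 0 < (u * v * U * V - 1) * (U - V) + (U * V - 1) * (u * U - v * V) := by
      have := mul_pos hx0 (sub_pos.2 g1)
      have := mul_pos hx1 (sub_pos.2 g2)
      linarith
    have f4 := (mul_eq_zero.1 f2).resolve_left f3.ne'
    rw [f4, mul_zero, zero_add] at f0
    exact ⟨f4, (mul_eq_zero.1 f0).resolve_left (by linarith)⟩

omit [Fintype ι] [DecidableEq ι] d in
theorem alg_odd {u U p dd a : ℝ} (hu : 1 < u) (hU : 1 < U)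
    (f0 : (u ^ 2 * U - 1) * (u ^ 2 * U * p - dd) - 4 * (u ^ 2 * U) * a = 0)
    (f1 : (U - 1) * (u ^ 2 * U * p - dd) + 4 * (u * U) * a = 0) :
    u ^ 2 * U * p - dd = 0 ∧ a = 0 := by
  generalize hA : u ^ 2 * U * p - dd = A at *
  have f2 : ((u ^ 2 * U - 1) + u * (U - 1)) * A = 0 := by
    linear_combination f0 + u * f1
  have h1 : 1 < u ^ 2 * U := one_lt_mul_of_lt_of_le (one_lt_pow₀ hu (by norm_num)) hU.le
  have hpos : 0 < (u ^ 2 * U - 1) + u * (U - 1) := by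
    have := mul_pos (show (0 : ℝ) < u by linarith) (sub_pos.2 hU)
    linarith
  have f3 := (mul_eq_zero.1 f2).resolve_left hpos.ne'
  rw [f3, mul_zero, zero_add] at f1
  have h2 : 4 * (u * U) ≠ 0 := by
    have : 0 < u * U := mul_pos (by linarith) (by linarith)
    linarith
  exact ⟨f3, (mul_eq_zero.1 f1).resolve_left h2⟩

theorem solve_even {h : ℕ} (hh : d.m = 2 * h) : d.dd = d.p * d.r ^ d.m ∧ (- d.u) ^ d.m * d.a = d.r ^ d.m * d.b ∧
    (- d.v) ^ d.m * d.b = d.r ^ d.m * d.a := by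
  have hu := d.hu
  have hv := d.hv
  have hm := d.hm
  have e0 := d.E0
  have e1 := d.E1
  have hrm : d.r ^ d.m = d.u ^ h * d.v ^ h := by rw [hh, pow_mul, pow_two, d.rr, mul_pow]
  obtain ⟨k, rfl⟩ : ∃ k, h = k + 1 := ⟨h - 1, by omega⟩
  rw [pow_succ, pow_succ] at hrm
  have hrm2 : d.r ^ (d.m - 2) = d.u ^ k * d.v ^ k := by
    rw [show d.m - 2 = 2 * k by omega, pow_mul, pow_two, d.rr, mul_pow]
  have hm1 : d.m - 1 = 2 * k + 1 := by omega
  have hk : 1 ≤ k := by omega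
  have n1 : (- d.u) ^ d.m = d.u ^ d.m := by rw [hh, Even.neg_pow (even_two_mul _)]
  have n2 : (- d.v) ^ d.m = d.v ^ d.m := by rw [hh, Even.neg_pow (even_two_mul _)]
  have n3 : (- d.u) ^ (d.m - 1) = - d.u ^ (d.m - 1) := by rw [hm1, Odd.neg_pow ⟨k, rfl⟩]
  have n4 : (- d.v) ^ (d.m - 1) = - d.v ^ (d.m - 1) := by rw [hm1, Odd.neg_pow ⟨k, rfl⟩]
  have hU : 1 < d.u ^ k := one_lt_pow₀ hu (by omega)
  have hV : 1 < d.v ^ k := one_lt_pow₀ hv (by omega)
  have hUV1 : d.v < d.u → d.v ^ k < d.u ^ k := fun h => pow_lt_pow_left₀ h (by linarith) (by omega)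
  have hUV2 : d.u < d.v → d.u ^ k < d.v ^ k := fun h => pow_lt_pow_left₀ h (by linarith) (by omega)
  have hUV3 : d.u = d.v → d.u ^ k = d.v ^ k ∧ d.a = d.b := fun h => ⟨by rw [h], d.ab_eq h⟩
  have p1 : (d.u * d.v) ^ d.m = (d.u * d.u ^ k) ^ 2 * (d.v * d.v ^ k) ^ 2 := by
    rw [hh]; ring
  have p2 : (d.u * d.v) ^ (d.m - 1) = d.u * d.v * ((d.u ^ k) ^ 2 * (d.v ^ k) ^ 2) := by
    rw [hm1]; ring
  have p3 : d.u ^ d.m = (d.u * d.u ^ k) ^ 2 := by rw [hh]; ring
  have p4 : d.v ^ d.m = (d.v * d.v ^ k) ^ 2 := by rw [hh]; ring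
  have p5 : d.u ^ (d.m - 1) = d.u * (d.u ^ k) ^ 2 := by rw [hm1]; ring
  have p6 : d.v ^ (d.m - 1) = d.v * (d.v ^ k) ^ 2 := by rw [hm1]; ring
  rw [n1, n2, hrm, p1, p3, p4] at e0
  rw [n3, n4, hrm2, p2, p5, p6] at e1
  rw [n1, n2, hrm, p3, p4]
  generalize d.u ^ k = U at *
  generalize d.v ^ k = V at *
  generalize d.a = a at *
  generalize d.b = b at *
  generalize d.p = p at *
  generalize d.dd = dd at *
  generalize d.u = u at *
  generalize d.v = v at *
  obtain ⟨k1, k2⟩ := alg_even hu hv hU hV hUV1 hUV2 hUV3 (p := p) (dd := dd) (a := a) (b := b)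
    (by linear_combination e0) (by linear_combination e1)
  refine ⟨by linear_combination -k1, by linear_combination (u * U) * k2, by linear_combination -(v * V) * k2⟩

theorem solve_odd {h : ℕ} (hh : d.m = 2 * h + 1) : d.dd = d.p * d.r ^ d.m ∧
    (- d.u) ^ d.m * d.a = d.r ^ d.m * d.b ∧ (- d.v) ^ d.m * d.b = d.r ^ d.m * d.a := by
  have hu := d.hu
  have hv := d.hv
  have hm := d.hm
  have e0 := d.E0
  have e1 := d.E1
  have huv := d.odd ⟨h, hh⟩
  have hab := d.ab_eq huv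
  have hru : d.r = d.u := by
    have h1 := d.rr
    rw [← huv] at h1
    have h2 := d.r_pos
    rcases mul_self_eq_mul_self_iff.1 h1 with h3 | h3
    · exact h3
    · linarith
  have n1 : (- d.u) ^ d.m = - d.u ^ d.m := by rw [hh, Odd.neg_pow ⟨h, rfl⟩]
  have n3 : (- d.u) ^ (d.m - 1) = d.u ^ (d.m - 1) := by
    rw [show d.m - 1 = 2 * h by omega, Even.neg_pow (even_two_mul _)]
  rw [hru, ← huv, n1] at e0 ⊢
  rw [hru, ← huv, n3] at e1
  obtain ⟨k, hk⟩ : ∃ k, d.m = k + 2 := ⟨d.m - 2, by omega⟩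
  have hU : 1 < d.u ^ k := one_lt_pow₀ hu (by omega)
  rw [hk] at e0 ⊢
  rw [hk, show k + 2 - 1 = k + 1 by omega, show k + 2 - 2 = k by omega] at e1
  rw [mul_pow] at e0 e1
  rw [pow_add d.u k 2] at e0 ⊢
  rw [pow_succ d.u k] at e1
  rw [← hab] at e0 e1 ⊢
  generalize d.u ^ k = U at *
  generalize d.a = a at *
  generalize d.p = p at *
  generalize d.dd = dd at *
  generalize d.u = u at *
  obtain ⟨k1, k2⟩ := alg_odd hu hU (p := p) (dd := dd) (a := a)
    (by linear_combination e0) (by linear_combination e1)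
  rw [k2]
  refine ⟨by linear_combination -k1, by ring, by ring⟩

theorem solve : d.dd = d.p * d.r ^ d.m ∧ (- d.u) ^ d.m * d.a = d.r ^ d.m * d.b ∧
    (- d.v) ^ d.m * d.b = d.r ^ d.m * d.a := by
  rcases Nat.even_or_odd' d.m with ⟨h, hh | hh⟩
  · exact d.solve_even hh
  · exact d.solve_odd hh

theorem eR : (d.u + 1) * (d.v + 1) * (d.p * (d.r ^ d.m - 1)) = Fintype.card ι * (d.u * d.v - 1) ∧
    (d.u + 1) * (d.v + 1) * (d.b - d.a) = Fintype.card ι * (d.u - d.v) := by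
  obtain ⟨h1, -, -⟩ := d.solve
  have h2 := d.eqN
  have h3 := d.eT1
  have h4 := d.eT2
  rw [h1] at h2 h3 h4
  have k1 : (d.u - 1) * Fintype.card ι = (d.u + 1) * (d.p * (d.r ^ d.m - 1) + (d.b - d.a)) := by
    rw [h2]; linear_combination 2 * h3
  have k2 : (d.v - 1) * Fintype.card ι = (d.v + 1) * (d.p * (d.r ^ d.m - 1) - (d.b - d.a)) := by
    rw [h2]; linear_combination 2 * h4
  constructor
  · linear_combination (-(d.v + 1) / 2) * k1 - ((d.u + 1) / 2) * k2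
  · linear_combination (-(d.v + 1) / 2) * k1 + ((d.u + 1) / 2) * k2

theorem geo {m : ℕ} {z : ℂ} (hz : z ^ m = 1) : ∑ k ∈ Finset.range m, z ^ k = if z = 1 then (m : ℂ) else 0 := by
  split_ifs with h
  · subst h; simp
  · rw [geom_sum_eq h, hz, sub_self, zero_div]

theorem L_omega {r : ℝ} {y : ℝ} {w : ℂ} (hw : w ≠ 0) (hy : (y : ℂ) = r * (w + w⁻¹)) (k : ℕ) :
    ((Dat.L (r * r) k y : ℝ) : ℂ) = (r : ℂ) ^ k * (w ^ k + w⁻¹ ^ k) := by
  induction k using Nat.strong_induction_on with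
  | _ k ih =>
    match k with
    | 0 => simp [Dat.L]; norm_num
    | 1 => simp [Dat.L, hy]
    | (k + 2) =>
      rw [Dat.L]
      push_cast
      rw [ih (k + 1) (by omega), ih k (by omega), hy]
      have e : w * w⁻¹ = 1 := mul_inv_cancel₀ hw
      linear_combination ((r : ℂ) ^ (k + 2)) * (w ^ k + w⁻¹ ^ k) * e

theorem generic' {i : ι} (h1 : d.lam i ≠ d.al) (h2 : d.lam i ≠ - d.be) :
    ∃ w : ℂ, w ≠ 0 ∧ w ^ d.m = 1 ∧ (d.lam i : ℂ) = d.r * (w + w⁻¹) := by
  obtain ⟨θ, h3, h4, h5, h6⟩ := d.generic h1 h2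
  refine ⟨Complex.exp (θ * Complex.I), Complex.exp_ne_zero _, ?_, ?_⟩
  · rw [← Complex.exp_nat_mul]
    have : (d.m : ℂ) * (θ * Complex.I) = ((d.m * θ : ℝ) : ℂ) * Complex.I := by push_cast; ring
    rw [this, Complex.exp_mul_I, ← Complex.ofReal_cos, ← Complex.ofReal_sin, h6, d.sin_zero h6]
    simp
  · rw [h5, ← Complex.exp_neg, Complex.exp_mul_I, ← neg_mul, Complex.exp_mul_I]
    push_cast
    rw [Complex.cos_neg, Complex.sin_neg]
    ring

theorem alg_final {u v y N c R K : ℝ} (h1 : (u + 1) * (v + 1) ≠ 0)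
    (h : N * ((u * v + 1 - y) * (u + v + y)) = c * ((u * v + 1 - y) * (u + v + y)) +
      R * (u * v - 1) * (u + v + y) + K * (u - v) * (u * v + 1 - y))
    (hR : (u + 1) * (v + 1) * R = N * (u * v - 1)) (hK : (u + 1) * (v + 1) * K = N * (u - v)) :
    c * ((u * v + 1 - y) * (u + v + y)) = N * (4 * (u * v) - y ^ 2) := by
  apply mul_left_cancel₀ h1
  linear_combination (-(u + 1) * (v + 1)) * h - ((u * v - 1) * (u + v + y)) * hR
    - ((u - v) * (u * v + 1 - y)) * hK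

theorem frac1 {r w : ℂ} (hw : w ≠ 0) (h1 : r * w ≠ 1) (h2 : r ≠ w) (hr : r ≠ 0) :
    (1 / (r * w⁻¹ - 1) - 1 / ((r * w)⁻¹ - 1)) * (r * r + 1 - r * (w + w⁻¹)) = r * r - 1 := by
  have e1 : r * w⁻¹ - 1 ≠ 0 := by
    intro h; apply h2; field_simp at h; linear_combination h
  have e2 : (r * w)⁻¹ - 1 ≠ 0 := by
    intro h
    apply h1
    rw [sub_eq_zero] at h
    rw [← inv_inv (r * w), h, inv_one]
  have e3 : r - w ≠ 0 := sub_ne_zero.2 h2
  have e4 : 1 - r * w ≠ 0 := sub_ne_zero.2 (Ne.symm h1)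
  have f1 : r * w⁻¹ - 1 = (r - w) / w := by field_simp
  have f2 : (r * w)⁻¹ - 1 = (1 - r * w) / (r * w) := by field_simp
  rw [f1, f2]
  field_simp
  ring

end Dat2

end CfsgLib.FH
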