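import Mathlib
import Cfsg.Agent.LibFH3

set_option autoImplicit false
set_option linter.all false

/-! Feit–Higman, part 4: the multiplicity formula -/

namespace CfsgLib.FH

open Matrix

namespace Dat2

variable {ι : Type*} [Fintype ι] [DecidableEq ι] (d : Dat2 ι)

theorem frac2 {r w u v : ℂ} (hw : w ≠ 0) (h1 : u + r * w ≠ 0) (h2 : v + r * w ≠ 0) (hr : r ≠ 0)
    (hrr : r * r = u * v) :
    (1 / (-u * (r * w)⁻¹ - 1) - 1 / (-v * (r * w)⁻¹ - 1)) * (u + v + r * (w + w⁻¹)) = u - v := by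
  have f1 : -u * (r * w)⁻¹ - 1 = - (u + r * w) / (r * w) := by field_simp; ring
  have f2 : -v * (r * w)⁻¹ - 1 = - (v + r * w) / (r * w) := by field_simp; ring
  rw [f1, f2]
  field_simp
  linear_combination (u - v) * hrr

theorem norm_w {w : ℂ} (hw : w ^ d.m = 1) : ‖w‖ = 1 := by
  have h : ‖w‖ ^ d.m = 1 := by rw [← norm_pow, hw, norm_one]
  exact (pow_eq_one_iff_of_nonneg (norm_nonneg _) (by have := d.hm; omega)).1 h

theorem y_bound {w : ℂ} (hw : w ^ d.m = 1) (hw2 : w ≠ w⁻¹) {y : ℝ} (hy : (y : ℂ) = d.r * (w + w⁻¹)) :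
    y ^ 2 < 4 * (d.u * d.v) := by
  have hn := d.norm_w hw
  have hw0 : w ≠ 0 := by intro h; rw [h, norm_zero] at hn; exact zero_ne_one hn
  have h1 : w⁻¹ = (starRingEnd ℂ) w := by
    rw [Complex.inv_def, Complex.normSq_eq_norm_sq, hn]; simp
  have h2 : y = 2 * d.r * w.re := by
    have := congrArg Complex.re hy
    rw [h1] at this
    simp at this
    rw [this]; ring
  have h3 : w.re ^ 2 + w.im ^ 2 = 1 := by
    have := Complex.normSq_apply w
    rw [Complex.normSq_eq_norm_sq, hn] at this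
    linarith
  have h4 : w.im ≠ 0 := by
    intro h5
    apply hw2
    rw [h1]
    apply Complex.ext
    · simp
    · simp [h5]
  have h5 : 0 < w.im ^ 2 := by positivity
  have h6 := d.r_pos
  rw [h2, ← d.rr]
  nlinarith [mul_pos h6 h6, mul_pos (mul_pos h6 h6) h5]

theorem PQ_pos {y : ℝ} (hy : y ^ 2 < 4 * (d.u * d.v)) : 0 < d.u * d.v + 1 - y ∧ 0 < d.u + d.v + y := by
  have h1 := d.be_ge
  have h2 := d.al_gt
  rw [Dat.be] at h1
  rw [Dat.al] at h2
  have h3 := d.r_pos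
  rw [← d.rr] at hy h2 ⊢
  have h4 : |y| < 2 * d.r := by
    apply abs_lt_of_sq_lt_sq _ (by positivity)
    linarith [hy]
  rw [abs_lt] at h4
  constructor <;> linarith [h4.1, h4.2]

theorem gsum {w : ℂ} (hw : w ^ d.m = 1) (hw2 : w ≠ w⁻¹) {y : ℝ} (hy : (y : ℂ) = d.r * (w + w⁻¹)) (i : ι) :
    ∑ k ∈ Finset.range d.m, ((d.r * w)⁻¹ : ℂ) ^ k * ((Dat.L (d.u * d.v) k (d.lam i) * d.gen (d.lam i) : ℝ) : ℂ)
      = if d.lam i = y then (d.m : ℂ) else 0 := by
  have hn := d.norm_w hw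
  have hw0 : w ≠ 0 := by intro h; rw [h, norm_zero] at hn; exact zero_ne_one hn
  have hyb := d.y_bound hw hw2 hy
  obtain ⟨hP, hQ⟩ := d.PQ_pos hyb
  rcases d.gen_cases i with h | ⟨h1, h2⟩
  · have hne : d.lam i ≠ y := by
      intro h3
      rw [Dat.gen] at h
      split_ifs at h with h4
      · rcases h4 with h4 | h4
        · rw [h3, Dat.al] at h4; linarith
        · rw [h3, Dat.be] at h4; linarith
      · norm_num at h
    rw [if_neg hne, h]
    simp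
  · have hg : d.gen (d.lam i) = 1 := by simp [Dat.gen, h1, h2]
    obtain ⟨w', hw'0, hw'm, hl⟩ := d.generic' h1 h2
    have hrp := d.r_pos
    have hr0 : (d.r : ℂ) ≠ 0 := by exact_mod_cast hrp.ne'
    have e1 : ∀ k, ((d.r * w)⁻¹ : ℂ) ^ k * ((Dat.L (d.u * d.v) k (d.lam i) * d.gen (d.lam i) : ℝ) : ℂ) =
        (w' * w⁻¹) ^ k + (w'⁻¹ * w⁻¹) ^ k := by
      intro k
      rw [hg, mul_one, ← d.rr, L_omega hw'0 hl, mul_inv, mul_pow, mul_pow, mul_pow]
      have : ((d.r : ℂ)⁻¹) ^ k * (d.r : ℂ) ^ k = 1 := by rw [← mul_pow, inv_mul_cancel₀ hr0, one_pow]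
      linear_combination (w⁻¹ ^ k * (w' ^ k + w'⁻¹ ^ k)) * this
    rw [Finset.sum_congr rfl fun k _ => e1 k, Finset.sum_add_distrib]
    rw [geo (by rw [mul_pow, inv_pow, hw, hw'm]; simp), geo (by rw [mul_pow, inv_pow, inv_pow, hw, hw'm]; simp)]
    have k1 : w' * w⁻¹ = 1 ↔ w' = w := by
      constructor
      · intro h; field_simp at h; exact h
      · rintro rfl; exact mul_inv_cancel₀ hw0
    have k2 : w'⁻¹ * w⁻¹ = 1 ↔ w' = w⁻¹ := by
      constructor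
      · intro h; field_simp at h; field_simp; linear_combination -h
      · rintro rfl; rw [inv_inv, mul_inv_cancel₀ hw0]
    have k3 : d.lam i = y ↔ w' = w ∨ w' = w⁻¹ := by
      constructor
      · intro h
        have h3 : (d.r : ℂ) * (w' + w'⁻¹) = d.r * (w + w⁻¹) := by rw [← hl, ← hy, h]
        have h4 := mul_left_cancel₀ hr0 h3
        have h5 : (w' - w) * (w' - w⁻¹) = 0 := by
          field_simp at h4 ⊢
          linear_combination h4
        rcases mul_eq_zero.1 h5 with h6 | h6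
        · left; exact sub_eq_zero.1 h6
        · right; exact sub_eq_zero.1 h6
      · intro h
        have : (d.lam i : ℂ) = y := by
          rcases h with h | h
          · rw [hl, hy, h]
          · rw [hl, hy, h, inv_inv, add_comm]
        exact_mod_cast this
    by_cases h3 : w' = w
    · have h4 : ¬ (w' = w⁻¹) := by rw [h3]; exact hw2
      rw [if_pos (k1.2 h3), if_neg (fun h => h4 (k2.1 h)), if_pos (k3.2 (Or.inl h3)), add_zero]
    · by_cases h4 : w' = w⁻¹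
      · rw [if_neg (fun h => h3 (k1.1 h)), if_pos (k2.2 h4), if_pos (k3.2 (Or.inr h4)), zero_add]
      · rw [if_neg (fun h => h3 (k1.1 h)), if_neg (fun h => h4 (k2.1 h)), if_neg, add_zero]
        intro h; rcases k3.1 h with h | h
        · exact h3 h
        · exact h4 h

theorem csum (y : ℝ) : ∑ i, (if d.lam i = y then (d.m : ℂ) else 0) = d.m * d.c y := by
  rw [← Finset.sum_filter, Finset.sum_const, c, nsmul_eq_mul, mul_comm]

theorem total {w : ℂ} (hw : w ^ d.m = 1) (hw2 : w ≠ w⁻¹) {y : ℝ} (hy : (y : ℂ) = d.r * (w + w⁻¹)) :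
    (Fintype.card ι : ℂ) = d.m * d.c y / 2 +
      (d.p * ∑ k ∈ Finset.range d.m, ((d.r : ℂ) * w⁻¹) ^ k
      + d.dd * ∑ k ∈ Finset.range d.m, ((d.r * w)⁻¹ : ℂ) ^ k
      + d.a * ∑ k ∈ Finset.range d.m, (-d.u * (d.r * w)⁻¹ : ℂ) ^ k
      + d.b * ∑ k ∈ Finset.range d.m, (-d.v * (d.r * w)⁻¹ : ℂ) ^ k) := by
  have hn := d.norm_w hw
  have hm := d.hm
  have hw0 : w ≠ 0 := by intro h; rw [h, norm_zero] at hn; exact zero_ne_one hn
  have hr0 : (d.r : ℂ) ≠ 0 := by exact_mod_cast d.r_pos.ne'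
  have h1 : ∑ k ∈ Finset.range d.m, ((d.r * w)⁻¹ : ℂ) ^ k * ((trace (d.X ^ k) : ℝ) : ℂ) = Fintype.card ι := by
    rw [Finset.sum_eq_single 0]
    · rw [pow_zero, pow_zero, trace_one]; simp
    · intro k hk hk0
      rw [Dat.X, d.tk k (by omega) (Finset.mem_range.1 hk)]
      simp
    · intro h; exact absurd (Finset.mem_range.2 (by omega)) h
  rw [← h1]
  have h2 : ∀ k, ((d.r * w)⁻¹ : ℂ) ^ k * ((trace (d.X ^ k) : ℝ) : ℂ) =
      (∑ i, ((d.r * w)⁻¹ : ℂ) ^ k * ((Dat.L (d.u * d.v) k (d.lam i) * d.gen (d.lam i) : ℝ) : ℂ)) / 2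
      + (d.p * ((d.r : ℂ) * w⁻¹) ^ k + d.dd * ((d.r * w)⁻¹ : ℂ) ^ k
        + d.a * (-d.u * (d.r * w)⁻¹ : ℂ) ^ k + d.b * (-d.v * (d.r * w)⁻¹ : ℂ) ^ k) := by
    intro k
    rw [d.tr_pow k, ← Finset.mul_sum]
    push_cast
    have e1 : ((d.r : ℂ) * w⁻¹) ^ k = ((d.u : ℂ) * d.v) ^ k * ((d.r * w)⁻¹ : ℂ) ^ k := by
      rw [← mul_pow]
      congr 1
      have : (d.u : ℂ) * d.v = d.r * d.r := by exact_mod_cast d.rr.symm
      rw [this]
      field_simp
    have e2 : (-d.u * (d.r * w)⁻¹ : ℂ) ^ k = (-d.u : ℂ) ^ k * ((d.r * w)⁻¹ : ℂ) ^ k := mul_pow _ _ _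
    have e3 : (-d.v * (d.r * w)⁻¹ : ℂ) ^ k = (-d.v : ℂ) ^ k * ((d.r * w)⁻¹ : ℂ) ^ k := mul_pow _ _ _
    rw [e1, e2, e3]
    ring
  rw [Finset.sum_congr rfl fun k _ => h2 k, Finset.sum_add_distrib, ← Finset.sum_div, Finset.sum_comm,
    Finset.sum_congr rfl fun i _ => d.gsum hw hw2 hy i, csum]
  simp only [Finset.sum_add_distrib, ← Finset.mul_sum]

theorem formula {w : ℂ} (hw : w ^ d.m = 1) (hw2 : w ≠ w⁻¹) {y : ℝ} (hy : (y : ℂ) = d.r * (w + w⁻¹)) :
    (d.m * d.c y / 2 : ℝ) * ((d.u * d.v + 1 - y) * (d.u + d.v + y)) =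
      Fintype.card ι * (4 * (d.u * d.v) - y ^ 2) := by
  have hn := d.norm_w hw
  have hm := d.hm
  have hw0 : w ≠ 0 := by intro h; rw [h, norm_zero] at hn; exact zero_ne_one hn
  have hrp := d.r_pos
  have hr1 := d.hr
  have hu := d.hu
  have hv := d.hv
  have hr0 : (d.r : ℂ) ≠ 0 := by exact_mod_cast d.r_pos.ne'
  have hwreal : ∀ x : ℝ, w ≠ x := by
    rintro x rfl
    apply hw2
    have : |x| = 1 := by simpa using hn
    rcases abs_eq (zero_le_one) |>.1 this with h | h <;> rw [h] <;> norm_num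
  have n1 : (d.r : ℂ) ≠ w := fun h => hwreal _ h.symm
  have n2 : (d.r : ℂ) * w ≠ 1 := by
    intro h
    have := congrArg norm h
    rw [norm_mul, hn, mul_one, norm_one, Complex.norm_real, Real.norm_of_nonneg hrp.le] at this
    linarith
  have n3 : (d.u : ℂ) + d.r * w ≠ 0 := by
    intro h
    apply hwreal (-d.u / d.r)
    push_cast
    field_simp
    linear_combination h
  have n4 : (d.v : ℂ) + d.r * w ≠ 0 := by
    intro h
    apply hwreal (-d.v / d.r)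
    push_cast
    field_simp
    linear_combination h
  have m1 : (d.r : ℂ) * w⁻¹ ≠ 1 := by
    intro h; apply n1; field_simp at h; exact h
  have m2 : ((d.r : ℂ) * w)⁻¹ ≠ 1 := by
    intro h; apply n2; rw [← inv_inv ((d.r : ℂ) * w), h, inv_one]
  have m3 : -(d.u : ℂ) * (d.r * w)⁻¹ ≠ 1 := by
    intro h; apply n3
    field_simp at h
    linear_combination -h
  have m4 : -(d.v : ℂ) * (d.r * w)⁻¹ ≠ 1 := by
    intro h; apply n4
    field_simp at h
    linear_combination -h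
  have ht := d.total hw hw2 hy
  obtain ⟨s1, s2, s3⟩ := d.solve
  have t1 : (d.dd : ℂ) = d.p * (d.r : ℂ) ^ d.m := by exact_mod_cast s1
  have t2 : (-d.u : ℂ) ^ d.m * d.a = (d.r : ℂ) ^ d.m * d.b := by exact_mod_cast s2
  have t3 : (-d.v : ℂ) ^ d.m * d.b = (d.r : ℂ) ^ d.m * d.a := by exact_mod_cast s3
  have hrm : (d.r : ℂ) ^ d.m ≠ 0 := pow_ne_zero _ hr0
  rw [geom_sum_eq m1, geom_sum_eq m2, geom_sum_eq m3, geom_sum_eq m4] at ht
  have g1 : ((d.r : ℂ) * w⁻¹) ^ d.m = (d.r : ℂ) ^ d.m := by rw [mul_pow, inv_pow, hw, inv_one, mul_one]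
  have g2 : (((d.r : ℂ) * w)⁻¹) ^ d.m = ((d.r : ℂ) ^ d.m)⁻¹ := by rw [inv_pow, mul_pow, hw, mul_one]
  have g3 : (d.dd : ℂ) * (((d.r : ℂ) ^ d.m)⁻¹ - 1) = - (d.p * ((d.r : ℂ) ^ d.m - 1)) := by
    rw [t1]; field_simp; ring
  have g4 : (d.a : ℂ) * ((-(d.u : ℂ) * (d.r * w)⁻¹) ^ d.m - 1) = d.b - d.a := by
    rw [mul_pow, g2, mul_sub, mul_one, ← mul_assoc, mul_comm (d.a : ℂ), t2]; field_simp
  have g5 : (d.b : ℂ) * ((-(d.v : ℂ) * (d.r * w)⁻¹) ^ d.m - 1) = - (d.b - d.a) := by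
    rw [mul_pow, g2, mul_sub, mul_one, ← mul_assoc, mul_comm (d.b : ℂ), t3]; field_simp; ring
  have ht2 : (Fintype.card ι : ℂ) = d.m * d.c y / 2 +
      ((d.p * ((d.r : ℂ) ^ d.m - 1)) * (1 / (d.r * w⁻¹ - 1) - 1 / ((d.r * w)⁻¹ - 1)) +
      (d.b - d.a) * (1 / (-(d.u : ℂ) * (d.r * w)⁻¹ - 1) - 1 / (-(d.v : ℂ) * (d.r * w)⁻¹ - 1))) := by
    rw [ht, g1, mul_div_assoc', mul_div_assoc', mul_div_assoc', mul_div_assoc', g4, g5, g2, g3]
    ring
  have f1 := frac1 hw0 n2 n1 hr0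
  have f2 := frac2 hw0 n3 n4 hr0 (by exact_mod_cast d.rr)
  rw [← hy] at f1 f2
  have hrrc : (d.r : ℂ) * d.r = d.u * d.v := by exact_mod_cast d.rr
  rw [hrrc] at f1
  have key : (Fintype.card ι : ℂ) * ((d.u * d.v + 1 - y) * (d.u + d.v + y)) =
      (d.m * d.c y / 2) * ((d.u * d.v + 1 - y) * (d.u + d.v + y)) +
      (d.p * ((d.r : ℂ) ^ d.m - 1)) * (d.u * d.v - 1) * (d.u + d.v + y) +
      (d.b - d.a) * (d.u - d.v) * (d.u * d.v + 1 - y) := by
    rw [← f1, ← f2]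
    linear_combination ((d.u * d.v + 1 - y) * (d.u + d.v + y)) * ht2
  obtain ⟨r1, r2⟩ := d.eR
  have h1 : (d.u + 1) * (d.v + 1) ≠ 0 := d.uv_pos.ne'
  refine alg_final h1 ?_ r1 r2
  apply Complex.ofReal_injective
  push_cast
  linear_combination key

end Dat2

end CfsgLib.FH
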