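import Mathlib
import Cfsg.Agent.LibFH4

set_option autoImplicit false
set_option linter.all false

/-! Feit–Higman, part 5: rationality -/

namespace CfsgLib.FH

open Matrix Polynomial

/-- algebraically conjugate (or equal) real numbers -/
def Cj (y y' : ℝ) : Prop := ∀ g : ℚ[X], aeval y g = 0 ↔ aeval y' g = 0

theorem Cj.neg {y y' : ℝ} (h : Cj y y') : Cj (-y) (-y') := by
  intro g
  have h1 := h (g.comp (-X))
  rw [aeval_comp, aeval_comp] at h1
  simpa using h1

theorem Cj.minpoly_eq {y y' : ℝ} (h : Cj y y') (hy : IsIntegral ℚ y) : minpoly ℚ y' = minpoly ℚ y := by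
  have h1 : aeval y' (minpoly ℚ y) = 0 := (h _).1 (minpoly.aeval _ _)
  exact (minpoly.eq_of_irreducible_of_monic (minpoly.irreducible hy) h1 (minpoly.monic hy)).symm

theorem mult_eq {χ : ℚ[X]} (hχ : χ ≠ 0) {p : ℚ[X]} (hp : Irreducible p) (hpm : p.Monic) :
    ∃ e : ℕ, ∀ z : ℝ, minpoly ℚ z = p → (χ.map (algebraMap ℚ ℝ)).rootMultiplicity z = e := by
  have hfin : FiniteMultiplicity p χ := by
    apply Polynomial.finiteMultiplicity_of_degree_pos_of_monic _ hpm hχ
    exact hp.degree_pos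
  obtain ⟨g, hg, hpg⟩ := hfin.exists_eq_pow_mul_and_not_dvd
  refine ⟨multiplicity p χ, fun z hz => ?_⟩
  have hg0 : g ≠ 0 := by rintro rfl; exact hpg (dvd_zero _)
  have hinj : Function.Injective (algebraMap ℚ ℝ) := (algebraMap ℚ ℝ).injective
  have hp0 : p.map (algebraMap ℚ ℝ) ≠ 0 := (Polynomial.map_ne_zero_iff hinj).2 hpm.ne_zero
  have hg0' : g.map (algebraMap ℚ ℝ) ≠ 0 := (Polynomial.map_ne_zero_iff hinj).2 hg0
  have hz1 : (p.map (algebraMap ℚ ℝ)).IsRoot z := by
    rw [IsRoot, eval_map_algebraMap, ← hz, minpoly.aeval]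
  have hz2 : ¬ (g.map (algebraMap ℚ ℝ)).IsRoot z := by
    intro h
    rw [IsRoot, eval_map_algebraMap] at h
    exact hpg (hz ▸ minpoly.dvd ℚ z h)
  have h1 : (p.map (algebraMap ℚ ℝ)).rootMultiplicity z = 1 := by
    apply le_antisymm
    · exact Polynomial.rootMultiplicity_le_one_of_separable
        ((Polynomial.separable_map _).2 hp.separable) z
    · exact (Polynomial.rootMultiplicity_pos hp0).2 hz1
  have h2 : (g.map (algebraMap ℚ ℝ)).rootMultiplicity z = 0 := rootMultiplicity_eq_zero hz2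
  conv_lhs => rw [hg]
  rw [Polynomial.map_mul, Polynomial.map_pow,
    rootMultiplicity_mul (mul_ne_zero (pow_ne_zero _ hp0) hg0'), h2, add_zero,
    ← Polynomial.count_roots, Polynomial.roots_pow, Multiset.count_nsmul, Polynomial.count_roots, h1, mul_one]

namespace Dat2

variable {ι : Type*} [Fintype ι] [DecidableEq ι] (d : Dat2 ι)

theorem c_eq_mult (y : ℝ) : d.c y = (∏ i, (X - C (d.lam i))).rootMultiplicity y := by
  rw [← Polynomial.count_roots]
  have : (∏ i, (X - C (d.lam i))) = ((Finset.univ.val.map d.lam).map (fun a => X - C a)).prod := by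
    rw [Multiset.map_map]; rfl
  rw [this, Polynomial.roots_multiset_prod_X_sub_C, Multiset.count_map, c, Finset.card_def]
  congr 1
  rw [Finset.filter_val]
  congr 1
  ext i
  exact eq_comm

variable {χ : ℚ[X]} (hχ : χ.map (algebraMap ℚ ℝ) = ∏ i, (X - C (d.lam i)))

include hχ

theorem chi_ne : χ ≠ 0 := by
  rintro rfl
  rw [Polynomial.map_zero] at hχ
  exact (Finset.prod_ne_zero_iff.2 fun i _ => X_sub_C_ne_zero (d.lam i)) hχ.symm

theorem lam_int (i : ι) : IsIntegral ℚ (d.lam i) := by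
  refine IsAlgebraic.isIntegral ⟨χ, d.chi_ne hχ, ?_⟩
  rw [← eval_map_algebraMap, hχ, eval_prod]
  exact Finset.prod_eq_zero (Finset.mem_univ i) (by simp)

theorem c_conj {i : ι} {y' : ℝ} (h : Cj (d.lam i) y') : d.c y' = d.c (d.lam i) := by
  have hi := d.lam_int hχ i
  obtain ⟨e, he⟩ := mult_eq (d.chi_ne hχ) (minpoly.irreducible hi) (minpoly.monic hi)
  rw [c_eq_mult, c_eq_mult, ← hχ, he _ (h.minpoly_eq hi), he _ rfl]

theorem exists_conj {i : ι} (hirr : ∀ q : ℚ, d.lam i ≠ q) : ∃ j, d.lam j ≠ d.lam i ∧ Cj (d.lam i) (d.lam j) := by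
  have hi := d.lam_int hχ i
  set p := minpoly ℚ (d.lam i) with hp
  have hirred := minpoly.irreducible hi
  have hpm := minpoly.monic hi
  have hinj : Function.Injective (algebraMap ℚ ℝ) := (algebraMap ℚ ℝ).injective
  have hdeg : 2 ≤ p.natDegree := by
    have h1 : 0 < p.natDegree := minpoly.natDegree_pos hi
    have h2 : p.natDegree ≠ 1 := by
      intro h
      rw [hp, minpoly.natDegree_eq_one_iff] at h
      obtain ⟨q, hq⟩ := h
      exact hirr q hq.symm
    omega
  have hdvd : p ∣ χ := by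
    apply minpoly.dvd
    rw [← eval_map_algebraMap, hχ, eval_prod]
    exact Finset.prod_eq_zero (Finset.mem_univ i) (by simp)
  have hdvd' : p.map (algebraMap ℚ ℝ) ∣ ∏ i, (X - C (d.lam i)) := by
    rw [← hχ]; exact Polynomial.map_dvd _ hdvd
  have hne : (∏ i, (X - C (d.lam i))) ≠ 0 := Finset.prod_ne_zero_iff.2 fun i _ => X_sub_C_ne_zero (d.lam i)
  have hspl : (p.map (algebraMap ℚ ℝ)).Splits := by
    apply Polynomial.Splits.of_dvd _ hne hdvd'
    apply Polynomial.Splits.prod
    intro i _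
    exact Polynomial.Splits.X_sub_C _
  have hcard : (p.map (algebraMap ℚ ℝ)).roots.card = p.natDegree := by
    rw [← hspl.natDegree_eq_card_roots, Polynomial.natDegree_map]
  have hnodup : (p.map (algebraMap ℚ ℝ)).roots.Nodup :=
    Polynomial.nodup_roots ((Polynomial.separable_map _).2 hirred.separable)
  have h3 : 1 < (p.map (algebraMap ℚ ℝ)).roots.toFinset.card := by
    rw [Multiset.toFinset_card_of_nodup hnodup, hcard]; omega
  obtain ⟨z, hz, hzne⟩ := Finset.exists_mem_ne h3 (d.lam i)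
  rw [Multiset.mem_toFinset] at hz
  have hz1 := Polynomial.isRoot_of_mem_roots hz
  have hz2 : (∏ i, (X - C (d.lam i))).IsRoot z := hz1.dvd hdvd'
  rw [IsRoot, eval_prod, Finset.prod_eq_zero_iff] at hz2
  obtain ⟨j, -, hj⟩ := hz2
  simp only [eval_sub, eval_X, eval_C, sub_eq_zero] at hj
  subst hj
  refine ⟨j, hzne, fun g => ?_⟩
  have h4 : minpoly ℚ (d.lam j) = p := by
    symm
    apply minpoly.eq_of_irreducible_of_monic hirred _ hpm
    rwa [IsRoot, eval_map_algebraMap] at hz1
  rw [← minpoly.dvd_iff, ← minpoly.dvd_iff, h4]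

variable {un vn : ℕ} (hun : d.u = un) (hvn : d.v = vn)

omit hχ in
include d in
theorem N_pos : (0 : ℝ) < Fintype.card ι := by
  have := d.hne
  exact_mod_cast Fintype.card_pos

omit hχ in
theorem exists_i {w : ℂ} (hw : w ^ d.m = 1) (hw2 : w ≠ w⁻¹) {y : ℝ} (hy : (y : ℂ) = d.r * (w + w⁻¹)) :
    ∃ i, d.lam i = y := by
  have h1 := d.formula hw hw2 hy
  have h2 := d.y_bound hw hw2 hy
  by_contra hcon
  push Not at hcon
  have h3 : d.c y = 0 := by
    rw [c, Finset.card_eq_zero, Finset.filter_eq_empty_iff]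
    intro i _; exact hcon i
  rw [h3] at h1
  have := mul_pos d.N_pos (sub_pos.2 h2)
  push_cast at h1
  rw [mul_zero, zero_div, zero_mul] at h1
  linarith

omit [Fintype ι] [DecidableEq ι] d hχ in
theorem alg_star {u v y y' N K : ℝ} (hN : 0 < N) (hne : y ≠ y')
    (h1 : K * ((u * v + 1 - y) * (u + v + y)) = N * (4 * (u * v) - y ^ 2))
    (h2 : K * ((u * v + 1 - y') * (u + v + y')) = N * (4 * (u * v) - y' ^ 2)) :
    (u - 1) * (v - 1) * (4 * (u * v) + y * y') + ((u * v + 1) * (u + v) - 4 * (u * v)) * (y + y') = 0 := by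
  have h3 : N * ((y - y') * ((u - 1) * (v - 1) * (4 * (u * v) + y * y') +
      ((u * v + 1) * (u + v) - 4 * (u * v)) * (y + y'))) = 0 := by
    linear_combination ((u * v + 1 - y') * (u + v + y')) * h1 - ((u * v + 1 - y) * (u + v + y)) * h2
  have h4 := (mul_eq_zero.1 h3).resolve_left hN.ne'
  exact (mul_eq_zero.1 h4).resolve_left (sub_ne_zero.2 hne)

include hun hvn

theorem not_special {i j : ι} (hirr : ∀ q : ℚ, d.lam i ≠ q) (hc : Cj (d.lam i) (d.lam j)) :
    d.lam j ≠ d.al ∧ d.lam j ≠ - d.be := by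
  constructor
  · intro h
    have h1 := (hc (X - C ((un * vn + 1 : ℕ) : ℚ))).2 (by
      rw [h, Dat.al, hun, hvn]; simp)
    simp only [map_sub, aeval_X, aeval_C, sub_eq_zero] at h1
    exact hirr _ h1
  · intro h
    have h1 := (hc (X + C ((un + vn : ℕ) : ℚ))).2 (by
      rw [h, Dat.be, hun, hvn]; simp)
    simp only [map_add, aeval_X, aeval_C] at h1
    apply hirr (-((un + vn : ℕ) : ℚ))
    rw [eq_neg_of_add_eq_zero_left h1]
    push_cast
    simp

theorem rational {w : ℂ} (hw : w ^ d.m = 1) (hw2 : w ≠ w⁻¹) {y : ℝ} (hy : (y : ℂ) = d.r * (w + w⁻¹)) :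
    ∃ q : ℚ, y = q := by
  by_contra hcon
  push Not at hcon
  have hu := d.hu
  have hv := d.hv
  obtain ⟨i, hi⟩ := d.exists_i hw hw2 hy
  have hirr : ∀ q : ℚ, d.lam i ≠ q := by rw [hi]; exact hcon
  obtain ⟨j, hj, hc⟩ := d.exists_conj hχ hirr
  obtain ⟨hj1, hj2⟩ := d.not_special hχ hun hvn hirr hc
  obtain ⟨w', hw'0, hw', hly⟩ := d.generic' hj1 hj2
  have hw0 : w ≠ 0 := by
    rintro rfl
    have := d.hm
    rw [zero_pow (by omega)] at hw
    exact zero_ne_one hw
  have hw'2 : w' ≠ w'⁻¹ := by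
    intro h
    obtain ⟨θ, h3, h4, h5, h6⟩ := d.generic hj1 hj2
    have hc2 : ((Real.cos θ : ℝ) : ℂ) = w' := by
      have e1 : (d.lam j : ℂ) = 2 * d.r * (Real.cos θ : ℝ) := by rw [h5]; push_cast; ring
      rw [hly, ← h] at e1
      have hr0 : (d.r : ℂ) ≠ 0 := by exact_mod_cast d.r_pos.ne'
      apply mul_left_cancel₀ (mul_ne_zero two_ne_zero hr0)
      linear_combination -e1
    have e2 : w' * w' = 1 := by nth_rw 2 [h]; exact mul_inv_cancel₀ hw'0
    rw [← hc2] at e2
    have e3 : Real.cos θ * Real.cos θ = 1 := by exact_mod_cast e2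
    have e4 := Real.sin_pos_of_pos_of_lt_pi h3 h4
    have e5 := Real.sin_sq_add_cos_sq θ
    nlinarith
  have hb1 := d.y_bound hw hw2 hy
  have hb2 := d.y_bound hw' hw'2 hly
  have hf1 := d.formula hw hw2 hy
  have hf2 := d.formula hw' hw'2 hly
  have hcc := d.c_conj hχ hc
  rw [hi] at hcc
  rw [hcc] at hf2
  have hne : y ≠ d.lam j := by rw [← hi]; exact hj.symm
  have hs1 := alg_star d.N_pos hne hf1 hf2
  have hprod : 0 < 4 * (d.u * d.v) + y * d.lam j := by
    have huv : 0 < d.u * d.v := by positivity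
    nlinarith [sq_nonneg (y + d.lam j), sq_nonneg (y - d.lam j)]
  rcases Nat.even_or_odd d.m with he | ho
  · have g1 : (-w) ^ d.m = 1 := by rw [he.neg_pow, hw]
    have g2 : (-w) ≠ (-w)⁻¹ := by rw [inv_neg]; exact fun h => hw2 (neg_injective h)
    have g3 : ((-y : ℝ) : ℂ) = d.r * (-w + (-w)⁻¹) := by rw [inv_neg]; push_cast; rw [hy]; ring
    have g1' : (-w') ^ d.m = 1 := by rw [he.neg_pow, hw']
    have g2' : (-w') ≠ (-w')⁻¹ := by rw [inv_neg]; exact fun h => hw'2 (neg_injective h)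
    have g3' : ((-d.lam j : ℝ) : ℂ) = d.r * (-w' + (-w')⁻¹) := by rw [inv_neg]; push_cast; rw [hly]; ring
    have hf3 := d.formula g1 g2 g3
    have hf4 := d.formula g1' g2' g3'
    obtain ⟨k, hk⟩ := d.exists_i g1 g2 g3
    have hc3 : Cj (d.lam k) (- d.lam j) := by rw [hk, ← hi]; exact hc.neg
    have hcc2 := d.c_conj hχ hc3
    rw [hk] at hcc2
    rw [hcc2] at hf4
    have hs2 := alg_star d.N_pos (fun h => hne (neg_injective h)) hf3 hf4
    have h5 : (d.u - 1) * (d.v - 1) * (4 * (d.u * d.v) + y * d.lam j) = 0 := by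
      linear_combination (hs1 + hs2) / 2
    have h6 : 0 < (d.u - 1) * (d.v - 1) * (4 * (d.u * d.v) + y * d.lam j) :=
      mul_pos (mul_pos (by linarith) (by linarith)) hprod
    linarith
  · have huv := d.odd ho
    rw [← huv] at hs1
    have h5 : (d.u - 1) ^ 2 * ((2 * d.u + y) * (2 * d.u + d.lam j)) = 0 := by
      linear_combination hs1
    obtain ⟨-, q1⟩ := d.PQ_pos hb1
    obtain ⟨-, q2⟩ := d.PQ_pos hb2
    rw [← huv] at q1 q2
    have h6 : 0 < (d.u - 1) ^ 2 * ((2 * d.u + y) * (2 * d.u + d.lam j)) := by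
      apply mul_pos (pow_pos (by linarith) 2)
      exact mul_pos (by linarith) (by linarith)
    linarith

omit hχ hun hvn in
theorem w_exp (k : ℕ) (hk : 0 < k) (hk2 : 2 * k < d.m) :
    ∃ w : ℂ, w ^ d.m = 1 ∧ w ≠ w⁻¹ ∧
      ((2 * d.r * Real.cos (2 * Real.pi * k / d.m) : ℝ) : ℂ) = d.r * (w + w⁻¹) := by
  have hm : (0 : ℝ) < d.m := by have := d.hm; exact_mod_cast (by omega : 0 < d.m)
  set θ : ℝ := 2 * Real.pi * k / d.m with hθ
  have hθ0 : 0 < θ := by
    have : (0 : ℝ) < k := by exact_mod_cast hk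
    have := Real.pi_pos
    positivity
  have hθ1 : θ < Real.pi := by
    rw [hθ, div_lt_iff₀ hm]
    have : (2 : ℝ) * k < d.m := by exact_mod_cast hk2
    nlinarith [Real.pi_pos]
  have hs := Real.sin_pos_of_pos_of_lt_pi hθ0 hθ1
  refine ⟨Complex.exp (θ * Complex.I), ?_, ?_, ?_⟩
  · rw [← Complex.exp_nat_mul]
    have : (d.m : ℂ) * (θ * Complex.I) = k * (2 * Real.pi * Complex.I) := by
      rw [hθ]; push_cast
      have : (d.m : ℂ) ≠ 0 := by exact_mod_cast hm.ne'
      field_simp
    rw [this, Complex.exp_nat_mul_two_pi_mul_I]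
  · intro h
    rw [← Complex.exp_neg, ← neg_mul, Complex.exp_mul_I, Complex.exp_mul_I] at h
    have h2 := congrArg Complex.im h
    rw [← Complex.ofReal_neg, ← Complex.ofReal_cos, ← Complex.ofReal_sin, ← Complex.ofReal_cos,
      ← Complex.ofReal_sin, Real.sin_neg, Real.cos_neg] at h2
    simp only [Complex.add_im, Complex.ofReal_im, Complex.mul_im, Complex.ofReal_re, Complex.I_im,
      Complex.I_re, mul_one, mul_zero, zero_add, add_zero] at h2
    linarith
  · rw [← Complex.exp_neg, ← neg_mul, Complex.exp_mul_I, Complex.exp_mul_I]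
    push_cast
    rw [Complex.cos_neg, Complex.sin_neg]
    ring

theorem main : d.m = 3 ∨ d.m = 4 ∨ d.m = 6 ∨ d.m = 8 := by
  have hm := d.hm
  have hmpos : (0 : ℝ) < d.m := by exact_mod_cast (by omega : 0 < d.m)
  have hrat : ∀ k : ℕ, 0 < k → 2 * k < d.m → ∃ q : ℚ, 2 * d.r * Real.cos (2 * Real.pi * k / d.m) = q := by
    intro k hk hk2
    obtain ⟨w, h1, h2, h3⟩ := d.w_exp k hk hk2
    exact d.rational hχ hun hvn h1 h2 h3
  obtain ⟨q, hq⟩ := hrat 1 (by omega) (by omega)
  rcases Nat.even_or_odd' d.m with ⟨n, hn | hn⟩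
  · have hcos : ∃ q' : ℚ, Real.cos (((2 / n : ℚ) : ℝ) * Real.pi) = q' := by
      have hu0 : (0 : ℝ) < d.u := by linarith [d.hu]
      have hv0 : (0 : ℝ) < d.v := by linarith [d.hv]
      refine ⟨q ^ 2 / (2 * (un * vn)) - 1, ?_⟩
      have e1 : ((2 / n : ℚ) : ℝ) * Real.pi = 2 * (2 * Real.pi * (1 : ℕ) / d.m) := by
        rw [hn]; push_cast
        have : (n : ℝ) ≠ 0 := by
          have : n ≠ 0 := by omega
          exact_mod_cast this
        field_simp
      rw [e1, Real.cos_two_mul]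
      push_cast
      rw [← hun, ← hvn, ← hq, mul_pow, mul_pow, pow_two d.r, d.rr]
      push_cast
      field_simp
    have hden : (2 / n : ℚ).den ≤ 3 := by
      by_contra hcon
      push Not at hcon
      obtain ⟨q', hq'⟩ := hcos
      exact (irrational_cos_rat_mul_pi hcon) ⟨q', hq'.symm⟩
    have hn4 : n = 2 ∨ n = 3 ∨ n = 4 ∨ n = 6 := by
      rcases Nat.even_or_odd' n with ⟨k, hk | hk⟩
      · have e : (2 / n : ℚ) = 1 / (k : ℚ) := by
          rw [hk]; push_cast
          have : (k : ℚ) ≠ 0 := by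
            have : k ≠ 0 := by omega
            exact_mod_cast this
          field_simp
        rw [e, one_div, Rat.inv_natCast_den_of_pos (by omega)] at hden
        omega
      · have e : (2 / n : ℚ).den = n := by
          have h1 : (2 / n : ℚ) = (2 : ℤ) / ((n : ℤ) : ℚ) := by push_cast; rfl
          have h2 := Rat.den_div_eq_of_coprime (a := 2) (b := (n : ℤ)) (by omega) (by
            rw [hk]; simp)
          rw [h1]
          exact_mod_cast h2
        rw [e] at hden
        omega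
    rcases hn4 with h | h | h | h
    · omega
    · omega
    · omega
    · -- m = 12
      exfalso
      have hm12 : d.m = 12 := by omega
      obtain ⟨q2, hq2⟩ := hrat 2 (by omega) (by omega)
      rw [hm12] at hq hq2
      have c1 : Real.cos (2 * Real.pi * (1 : ℕ) / (12 : ℕ)) = Real.sqrt 3 / 2 := by
        rw [← Real.cos_pi_div_six]; congr 1; push_cast; ring
      have c2 : Real.cos (2 * Real.pi * (2 : ℕ) / (12 : ℕ)) = 1 / 2 := by
        rw [← Real.cos_pi_div_three]; congr 1; push_cast; ring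
      rw [c1] at hq
      rw [c2] at hq2
      have hr0 := d.r_pos
      have h3 : Irrational (Real.sqrt 3) := by
        have := Nat.Prime.irrational_sqrt (p := 3) (by norm_num)
        exact_mod_cast this
      apply h3
      refine ⟨q / q2, ?_⟩
      push_cast
      rw [← hq, ← hq2]
      field_simp
  · have hn0 : d.r = d.u := by
      have huv := d.odd ⟨n, hn⟩
      have h1 := d.rr
      rw [← huv] at h1
      have h2 := d.r_pos
      have h3 := d.hu
      rcases mul_self_eq_mul_self_iff.1 h1 with h3 | h3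
      · exact h3
      · linarith
    have hcos : ∃ q' : ℚ, Real.cos (((2 / d.m : ℚ) : ℝ) * Real.pi) = q' := by
      have hu0 : (0 : ℝ) < d.u := by linarith [d.hu]
      refine ⟨q / (2 * un), ?_⟩
      have e1 : ((2 / d.m : ℚ) : ℝ) * Real.pi = (2 * Real.pi * (1 : ℕ) / d.m) := by
        push_cast; ring
      rw [e1]
      push_cast
      rw [← hun, ← hq, hn0]
      push_cast
      field_simp
    have hden : (2 / d.m : ℚ).den ≤ 3 := by
      by_contra hcon
      push Not at hcon
      obtain ⟨q', hq'⟩ := hcos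
      exact (irrational_cos_rat_mul_pi hcon) ⟨q', hq'.symm⟩
    have e : (2 / d.m : ℚ).den = d.m := by
      have h1 : (2 / d.m : ℚ) = (2 : ℤ) / ((d.m : ℤ) : ℚ) := by push_cast; rfl
      have h2 := Rat.den_div_eq_of_coprime (a := 2) (b := (d.m : ℤ)) (by omega) (by
        rw [hn]; simp)
      rw [h1]
      exact_mod_cast h2
    omega

end Dat2

end CfsgLib.FH
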