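import Mathlib
import Cfsg.Agent.LibBN
import Cfsg.Agent.LibDihedral

set_option autoImplicit false
set_option linter.all false

/-! Feit–Higman, part 6: words in the Weyl group -/

namespace CfsgLib.FH

open Cfsg CfsgLib.BN

/-- alternating words -/
def alt {M : Type*} [Monoid M] : ℕ → M → M → M
  | 0, _, _ => 1
  | (k + 1), a, b => a * alt k b a

theorem alt_map {M M' : Type*} [Monoid M] [Monoid M'] (f : M →* M') (k : ℕ) (a b : M) :
    f (alt k a b) = alt k (f a) (f b) := by
  induction k generalizing a b with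
  | zero => exact f.map_one
  | succ k ih => rw [alt, alt, map_mul, ih]

theorem alt_add {M : Type*} [Monoid M] (i j : ℕ) (a b : M) :
    alt (i + j) a b = alt i a b * alt j a b ∨ alt (i + j) a b = alt i a b * alt j b a := by
  induction i generalizing a b with
  | zero => left; rw [Nat.zero_add, alt, one_mul]
  | succ i ih =>
    rw [Nat.add_right_comm, alt, alt]
    rcases ih b a with h | h
    · right; rw [h, mul_assoc]
    · left; rw [h, mul_assoc]

theorem alt_even {M : Type*} [Monoid M] (k : ℕ) (a b : M) : alt (2 * k) a b = (a * b) ^ k := by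
  induction k with
  | zero => simp [alt]
  | succ k ih =>
    rw [show 2 * (k + 1) = 2 * k + 1 + 1 by ring, alt, alt, ih, pow_succ', mul_assoc]

theorem alt_odd {M : Type*} [Monoid M] (k : ℕ) (a b : M) : alt (2 * k + 1) a b = a * (b * a) ^ k := by
  rw [alt, alt_even]

theorem alt_inv {W : Type*} [Group W] {s t : W} (hs : s * s = 1) (ht : t * t = 1) (k : ℕ) :
    alt k s t * (alt k t s)⁻¹ = (s * t) ^ k := by
  induction k generalizing s t with
  | zero => simp [alt]
  | succ k ih =>
    have ht' : t⁻¹ = t := inv_eq_of_mul_eq_one_left ht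
    have h := ih ht hs
    rw [alt, alt, mul_inv_rev, ht', mul_assoc, ← mul_assoc (alt k t s), h]
    have : ∀ j : ℕ, s * ((t * s) ^ j * t) = (s * t) ^ (j + 1) := by
      intro j
      induction j with
      | zero => simp
      | succ j ihj =>
        rw [pow_succ' (s * t), ← ihj, pow_succ' (t * s)]
        simp only [mul_assoc]
    exact this k

theorem alt_invol {W : Type*} [Group W] {s t : W} (hs : s * s = 1) (ht : t * t = 1) {m : ℕ}
    (hm : (s * t) ^ m = 1) : (alt m s t)⁻¹ = alt m s t := by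
  have hs' : s⁻¹ = s := inv_eq_of_mul_eq_one_left hs
  have ht' : t⁻¹ = t := inv_eq_of_mul_eq_one_left ht
  rcases Nat.even_or_odd' m with ⟨k, hk | hk⟩
  · rw [hk, alt_even]
    apply inv_eq_of_mul_eq_one_left
    rw [← pow_add, ← two_mul, ← hk, hm]
  · rw [hk, alt_odd, mul_inv_rev, ← inv_pow, mul_inv_rev, hs', ht']
    rw [mul_pow_mul]

section BN

variable {G : Type*} [Group G] (P : BNPair G)

theorem alt_N {s t : G} (hs : s ∈ P.S) (ht : t ∈ P.S) (k : ℕ) : alt k s t ∈ P.N := by
  induction k generalizing s t with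
  | zero => exact P.N.one_mem
  | succ k ih => exact P.N.mul_mem (S_N P hs) (ih ht hs)

theorem alt_len_le {s t : G} (hs : s ∈ P.S) (ht : t ∈ P.S) (k : ℕ) : len P (alt k s t) ≤ k := by
  induction k generalizing s t with
  | zero => exact (len_one P).le
  | succ k ih =>
    rw [alt]
    exact (len_mul_le P hs (alt_N P ht hs k)).trans (Nat.add_le_add_right (ih ht hs) 1)

theorem exists_alt {s t : G} (hs : s ∈ P.S) (ht : t ∈ P.S) (hS : ∀ x ∈ P.S, x = s ∨ x = t) (j : ℕ) :
    ∀ n ∈ P.N, len P n = j → (alt j s t)⁻¹ * n ∈ P.B ∨ (alt j t s)⁻¹ * n ∈ P.B := by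
  induction j with
  | zero =>
    intro n hn h
    left
    rw [alt, inv_one, one_mul]
    exact (len_eq_zero P hn).1 h
  | succ j ih =>
    intro n hn h
    obtain ⟨x, hx, m, hm, hl, rfl⟩ := exists_left P hn h
    -- if m ≡ alt j x y (starting with x) contradiction unless j = 0
    have key : ∀ y, y ∈ P.S → (alt j x y)⁻¹ * m ∈ P.B → j = 0 := by
      intro y hy hB
      by_contra hj
      obtain ⟨i, rfl⟩ : ∃ i, j = i + 1 := ⟨j - 1, by omega⟩
      rw [alt] at hB
      have h1 := eqv_mul_left P x hB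
      have h2 := eqv_trans P (eqv_sq_mul P hx (alt_N P hy hx i)) h1
      have h3 := len_congr P h2
      have h4 := alt_len_le P hy hx i
      omega
    rcases ih m hm hl with h1 | h1
    · rcases hS x hx with rfl | rfl
      · have := key t ht h1
        subst this
        left
        rw [alt]
        exact eqv_mul_left P x h1
      · right
        rw [alt]
        exact eqv_mul_left P x h1
    · rcases hS x hx with rfl | rfl
      · left
        rw [alt]
        exact eqv_mul_left P x h1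
      · have := key s hs h1
        subst this
        right
        rw [alt]
        exact eqv_mul_left P x h1

theorem alt_len {s t : G} (hs : s ∈ P.S) (ht : t ∈ P.S) (hS : ∀ x ∈ P.S, x = s ∨ x = t) {m : ℕ}
    (hm : ∀ k, 1 ≤ k → k < m → ¬ (alt k s t)⁻¹ * alt k t s ∈ P.B) (k : ℕ) (hk : k ≤ m) :
    len P (alt k s t) = k ∧ len P (alt k t s) = k := by
  induction k using Nat.strong_induction_on with
  | _ k ih =>
    match k with
    | 0 => exact ⟨len_one P, len_one P⟩
    | 1 =>
      simp only [alt, mul_one]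
      exact ⟨len_S P hs, len_S P ht⟩
    | (k + 2) =>
      obtain ⟨a1, a2⟩ := ih (k + 1) (by omega) (by omega)
      obtain ⟨b1, b2⟩ := ih k (by omega) (by omega)
      have key : ∀ {x y : G}, x ∈ P.S → y ∈ P.S → (∀ z ∈ P.S, z = x ∨ z = y) →
          (∀ k, 1 ≤ k → k < m → ¬ (alt k x y)⁻¹ * alt k y x ∈ P.B) →
          len P (alt (k + 1) y x) = k + 1 → len P (alt (k + 2) x y) = k + 2 := by
        intro x y hx hy hxy hne hlen
        rw [alt]
        rcases len_mul_cases P hx (alt_N P hy hx (k + 1)) with h | h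
        · rw [h, hlen]
        exfalso
        rw [hlen] at h
        have hlx : len P (x * alt (k + 1) y x) = k := by omega
        rcases exists_alt P hx hy hxy k _ (P.N.mul_mem (S_N P hx) (alt_N P hy hx _)) hlx with h1 | h1
        · -- x * alt (k+1) y x ≡ alt k x y
          rcases Nat.eq_zero_or_pos k with h0 | h0
          · subst h0
            rw [alt, inv_one, one_mul, alt, alt, mul_one] at h1
            apply hne 1 le_rfl (by omega)
            simp only [alt, mul_one]
            have h2 : x⁻¹ * y = (x * x)⁻¹ * (x * y) := by group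
            rw [h2]
            exact P.B.mul_mem (P.B.inv_mem (P.sq_mem x hx)) h1
          · obtain ⟨i, rfl⟩ : ∃ i, k = i + 1 := ⟨k - 1, by omega⟩
            have h2 := eqv_mul_left P x h1
            rw [show alt (i + 1) x y = x * alt i y x from rfl] at h2
            have h3 := eqv_trans P (eqv_sq_mul P hx (alt_N P hy hx i)) h2
            have h4 := eqv_trans P h3 (eqv_symm P (eqv_sq_mul P hx (alt_N P hy hx (i + 1 + 1))))
            have h5 := len_congr P h4
            have h6 := alt_len_le P hy hx i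
            omega
        · -- x * alt (k+1) y x ≡ alt k y x
          have h2 := eqv_mul_left P x h1
          have h4 := eqv_trans P h2 (eqv_symm P (eqv_sq_mul P hx (alt_N P hy hx (k + 1))))
          exact hne (k + 1) (by omega) (by omega) h4
      refine ⟨key hs ht hS hm a2, key ht hs (fun z hz => (hS z hz).symm) ?_ a1⟩
      intro k hk1 hk2 h
      exact hm k hk1 hk2 (eqv_symm P h)

instance HN_normal : ((P.B ⊓ P.N).subgroupOf P.N).Normal := by
  constructor
  intro t ht n
  rw [Subgroup.mem_subgroupOf] at ht ⊢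
  refine ⟨?_, ?_⟩
  · exact P.conj_mem n n.2 t ht
  · exact (n * t * n⁻¹).2

theorem setup [Finite G] (h2 : P.rank = 2) : ∃ s t : G, ∃ m : ℕ, s ∈ P.S ∧ t ∈ P.S ∧
    (∀ x ∈ P.S, x = s ∨ x = t) ∧ 2 ≤ m ∧
    ((P.B ⊓ P.N).subgroupOf P.N).index = 2 * m ∧
    (∀ k, 1 ≤ k → k < m → ¬ (alt k s t)⁻¹ * alt k t s ∈ P.B) ∧
    (alt m s t)⁻¹ * alt m t s ∈ P.B ∧ (alt m s t) * alt m s t ∈ P.B := by
  rw [BNPair.rank, Nat.card_eq_two_iff] at h2
  obtain ⟨⟨s, hs⟩, ⟨t, ht⟩, hst, huniv⟩ := h2
  have hS : ∀ x ∈ P.S, x = s ∨ x = t := by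
    intro x hx
    have : (⟨x, hx⟩ : P.S) ∈ ({⟨s, hs⟩, ⟨t, ht⟩} : Set P.S) := by rw [huniv]; trivial
    simpa using this
  have hst' : s ≠ t := fun h => hst (Subtype.ext h)
  let π : P.N →* (P.N ⧸ (P.B ⊓ P.N).subgroupOf P.N) := QuotientGroup.mk' _
  have hπ : ∀ {x y : P.N}, π x = π y ↔ (x : G)⁻¹ * y ∈ P.B := by
    intro x y
    show (QuotientGroup.mk x : P.N ⧸ (P.B ⊓ P.N).subgroupOf P.N) = QuotientGroup.mk y ↔ _
    rw [QuotientGroup.eq, Subgroup.mem_subgroupOf]
    constructor
    · intro h; exact h.1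
    · intro h; exact ⟨h, (x⁻¹ * y).2⟩
  let s' : P.N := ⟨s, S_N P hs⟩
  let t' : P.N := ⟨t, S_N P ht⟩
  have hs2 : π s' * π s' = 1 := by
    rw [← map_mul, ← map_one π, hπ]
    have := P.B.inv_mem (P.sq_mem s hs)
    simpa using this
  have ht2 : π t' * π t' = 1 := by
    rw [← map_mul, ← map_one π, hπ]
    have := P.B.inv_mem (P.sq_mem t ht)
    simpa using this
  have hs1 : π s' ≠ 1 := by
    intro h
    rw [← map_one π, hπ] at h
    apply s_notMem_B P hs
    have := P.B.inv_mem h
    simpa using this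
  have ht1 : π t' ≠ 1 := by
    intro h
    rw [← map_one π, hπ] at h
    apply s_notMem_B P ht
    have := P.B.inv_mem h
    simpa using this
  have hst1 : π s' ≠ π t' := by
    intro h
    rw [hπ] at h
    exact hst' (P.inj s hs t ht h)
  have ho1 : orderOf (π s') = 2 := orderOf_eq_prime (by rw [pow_two]; exact hs2) hs1
  have ho2 : orderOf (π t') = 2 := orderOf_eq_prime (by rw [pow_two]; exact ht2) ht1
  have hcl : Subgroup.closure ({π s', π t'} : Set (P.N ⧸ (P.B ⊓ P.N).subgroupOf P.N)) = ⊤ := by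
    rw [eq_top_iff]
    intro x _
    obtain ⟨n, rfl⟩ := QuotientGroup.mk'_surjective _ x
    obtain ⟨l, hl, hB⟩ := exists_word P n.2
    have h1 : π n = π ⟨l.prod, IsW.prod_N P hl⟩ := (hπ.2 hB).symm
    show π n ∈ _
    rw [h1]
    clear h1 hB
    induction l with
    | nil =>
      have : (⟨([] : List G).prod, IsW.prod_N P hl⟩ : P.N) = 1 := rfl
      rw [this, map_one]; exact Subgroup.one_mem _
    | cons a l ih =>
      rw [IsW_cons] at hl
      have e : (⟨(a :: l).prod, IsW.prod_N P ((IsW_cons P).2 hl)⟩ : P.N) =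
          ⟨a, S_N P hl.1⟩ * ⟨l.prod, IsW.prod_N P hl.2⟩ := by
        apply Subtype.ext; simp
      have e2 : π ⟨(a :: l).prod, IsW.prod_N P ((IsW_cons P).2 hl)⟩ =
          π ⟨a, S_N P hl.1⟩ * π ⟨l.prod, IsW.prod_N P hl.2⟩ := by rw [e, map_mul]
      rw [e2]
      refine Subgroup.mul_mem _ ?_ (ih hl.2)
      apply Subgroup.subset_closure
      rcases hS a hl.1 with rfl | rfl
      · left; rfl
      · right; rfl
  have hfin : Finite (P.N ⧸ (P.B ⊓ P.N).subgroupOf P.N) := inferInstance
  obtain ⟨e⟩ := CfsgLib.Dihedral.involutions_closure ho1 ho2 hst1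
  set m := orderOf (π s' * π t') with hm
  have hcard : ((P.B ⊓ P.N).subgroupOf P.N).index = 2 * m := by
    have h1 := Nat.card_congr e.toEquiv
    rw [hcl, DihedralGroup.nat_card] at h1
    rw [← h1, Subgroup.index, Subgroup.card_top]
  have hm0 : 0 < m := orderOf_pos _
  have hm1 : m ≠ 1 := by
    intro h
    rw [hm, orderOf_eq_one_iff] at h
    apply hst1
    rw [eq_comm, ← inv_inj, inv_eq_of_mul_eq_one_left ht2]
    exact (inv_eq_of_mul_eq_one_right h).symm
  have halt : ∀ k (x y : G) (hx : x ∈ P.S) (hy : y ∈ P.S), alt k (π ⟨x, S_N P hx⟩) (π ⟨y, S_N P hy⟩) =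
      π ⟨alt k x y, alt_N P hx hy k⟩ := by
    intro k x y hx hy
    rw [← alt_map]
    congr 1
    apply Subtype.ext
    have := alt_map P.N.subtype k ⟨x, S_N P hx⟩ ⟨y, S_N P hy⟩
    exact this
  have hiff : ∀ k, (alt k s t)⁻¹ * alt k t s ∈ P.B ↔ m ∣ k := by
    intro k
    have h1 := alt_inv hs2 ht2 k
    have h2 : π ⟨alt k s t, alt_N P hs ht k⟩ = π ⟨alt k t s, alt_N P ht hs k⟩ ↔
        (alt k s t)⁻¹ * alt k t s ∈ P.B := hπ
    rw [← h2, hm, orderOf_dvd_iff_pow_eq_one, ← h1, mul_inv_eq_one]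
    rw [halt k s t hs ht, halt k t s ht hs]
  refine ⟨s, t, m, hs, ht, hS, by omega, hcard, ?_, (hiff m).2 dvd_rfl, ?_⟩
  · intro k h1 h2 h3
    have := Nat.le_of_dvd h1 ((hiff k).1 h3)
    omega
  · have h1 := alt_invol hs2 ht2 (pow_orderOf_eq_one (π s' * π t'))
    rw [← hm, halt m s t hs ht, inv_eq_iff_mul_eq_one, ← map_mul, ← map_one π, hπ] at h1
    have h2 := P.B.inv_mem h1
    simpa using h2

end BN

end CfsgLib.FH
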