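import Mathlib
import Cfsg.Agent.LibFH6

set_option autoImplicit false
set_option linter.all false

/-! Feit–Higman, part 7: the Hecke matrices -/

namespace CfsgLib.FH

open Cfsg CfsgLib.BN Matrix

variable {G : Type*} [Group G] (P : BNPair G)

/-- the relation on `G/B` attached to a double coset -/
def Rel (n : G) (x y : G ⧸ P.B) : Prop := (x.out)⁻¹ * y.out ∈ C P n

theorem Rel_mk (n g h : G) : Rel P n (QuotientGroup.mk g) (QuotientGroup.mk h) ↔ g⁻¹ * h ∈ C P n := by
  obtain ⟨b, hb⟩ := QuotientGroup.mk_out_eq_mul P.B g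
  obtain ⟨c, hc⟩ := QuotientGroup.mk_out_eq_mul P.B h
  rw [Rel, hb, hc, _root_.mul_inv_rev, mul_assoc, C_mul_left P (P.B.inv_mem b.2), ← mul_assoc,
    C_mul_right P c.2]

theorem Rel_inv (n : G) (x y : G ⧸ P.B) : Rel P n y x ↔ Rel P n⁻¹ x y := by
  rw [Rel, Rel, ← inv_mem_C P, _root_.mul_inv_rev, inv_inv]

theorem Rel_congr {n n' : G} (h : n⁻¹ * n' ∈ P.B) (x y : G ⧸ P.B) : Rel P n x y ↔ Rel P n' x y := by
  rw [Rel, Rel, C_eq_of_eqv P h]

theorem Rel_one (x y : G ⧸ P.B) : Rel P 1 x y ↔ x = y := by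
  induction x using QuotientGroup.induction_on
  induction y using QuotientGroup.induction_on
  rw [Rel_mk, C_one, QuotientGroup.eq]

theorem Rel_smul (n g : G) (x y : G ⧸ P.B) : Rel P n (g • x) (g • y) ↔ Rel P n x y := by
  induction x using QuotientGroup.induction_on
  induction y using QuotientGroup.induction_on
  rw [MulAction.Quotient.smul_mk, MulAction.Quotient.smul_mk, Rel_mk, Rel_mk]
  simp [mul_assoc]

theorem s_inv_eqv {s : G} (hs : s ∈ P.S) : s⁻¹⁻¹ * s ∈ P.B := by
  rw [inv_inv]; exact P.sq_mem s hs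

theorem Rel_symm {s : G} (hs : s ∈ P.S) (x y : G ⧸ P.B) : Rel P s y x ↔ Rel P s x y := by
  rw [Rel_inv, Rel_congr P (s_inv_eqv P hs)]

theorem C_mul {s n g h : G} (hs : s ∈ P.S) (hn : n ∈ P.N) (hg : g ∈ C P s) (hh : h ∈ C P n) :
    g * h ∈ C P (s * n) ∨ g * h ∈ C P n := by
  obtain ⟨b, hb, b', hb', rfl⟩ := hg
  have h1 := T3 P hs hn ((C_mul_left P hb').2 hh)
  have e : b * s * b' * h = b * (s * (b' * h)) := by group
  rw [e, C_mul_left P hb, C_mul_left P hb]
  exact h1

theorem C_mul' {s n g h : G} (hs : s ∈ P.S) (hn : n ∈ P.N) (hl : len P n ≤ len P (s * n))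
    (hg : g ∈ C P s) (hh : h ∈ C P n) : g * h ∈ C P (s * n) := by
  obtain ⟨b, hb, b', hb', rfl⟩ := hg
  have h1 := mul_C' P hs hn hl ((C_mul_left P hb').2 hh)
  have e : b * s * b' * h = b * (s * (b' * h)) := by group
  rw [e, C_mul_left P hb]
  exact h1

theorem not_both {n n' g : G} (hn : n ∈ P.N) (hn' : n' ∈ P.N) (hl : len P n ≠ len P n')
    (h : g ∈ C P n) (h' : g ∈ C P n') : False :=
  hl (len_congr P (uniq' P hn hn' h h'))

theorem Rel_comp {s n : G} (hs : s ∈ P.S) (hn : n ∈ P.N) (hl : len P (s * n) = len P n + 1)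
    {x y z : G ⧸ P.B} (h1 : Rel P s x y) (h2 : Rel P n y z) : Rel P (s * n) x z := by
  have h := C_mul' P hs hn (by omega) h1 h2
  rw [Rel]
  convert h using 1
  group

theorem Rel_uniq {s n : G} (hs : s ∈ P.S) (hn : n ∈ P.N) (hl : len P (s * n) = len P n + 1)
    {x y y' z : G ⧸ P.B} (h1 : Rel P s x y) (h2 : Rel P n y z) (h1' : Rel P s x y') (h2' : Rel P n y' z) :
    y = y' := by
  have h3 : Rel P s y x := (Rel_symm P hs x y).2 h1
  have h4 := C_mul P hs (S_N P hs) h3 h1'
  have e : y.out⁻¹ * x.out * (x.out⁻¹ * y'.out) = y.out⁻¹ * y'.out := by group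
  rw [e] at h4
  rcases h4 with h4 | h4
  · rw [C_of_mem_B P (P.sq_mem s hs)] at h4
    rw [← Rel_one P, Rel, C_one]; exact h4
  · exfalso
    have h5 : Rel P (s * n) y z := Rel_comp P hs hn hl h4 h2'
    exact not_both P (P.N.mul_mem (S_N P hs) hn) hn (by omega) h5 h2

theorem Rel_exists {s n : G} (hs : s ∈ P.S) (hn : n ∈ P.N) {x z : G ⧸ P.B} (h : Rel P (s * n) x z) :
    ∃ y, Rel P s x y ∧ Rel P n y z := by
  induction x using QuotientGroup.induction_on with
  | H g =>
  induction z using QuotientGroup.induction_on with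
  | H k =>
  rw [Rel_mk] at h
  obtain ⟨b, hb, b', hb', he⟩ := h
  refine ⟨QuotientGroup.mk (g * b * s), ?_, ?_⟩
  · rw [Rel_mk]
    have e : g⁻¹ * (g * b * s) = b * s := by group
    rw [e, C_mul_left P hb]; exact self_mem_C P s
  · rw [Rel_mk]
    have e : (g * b * s)⁻¹ * k = n * b' := by
      have : k = g * (b * (s * n) * b') := by rw [← he]; group
      rw [this]; group
    rw [e, C_mul_right P hb']; exact self_mem_C P n

open Classical in
/-- Hecke matrices -/
noncomputable def T (R : Type*) [CommRing R] (n : G) : Matrix (G ⧸ P.B) (G ⧸ P.B) R :=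
  fun x y => if Rel P n x y then 1 else 0

variable [Finite G]

noncomputable instance : Fintype (G ⧸ P.B) := Fintype.ofFinite _
noncomputable instance : DecidableEq (G ⧸ P.B) := Classical.decEq _

variable (R : Type*) [CommRing R]

open Classical in
theorem T_mul_apply (n n' : G) (x z : G ⧸ P.B) : (T P R n * T P R n') x z =
    ((Finset.univ.filter fun y => Rel P n x y ∧ Rel P n' y z).card : R) := by
  rw [mul_apply, Finset.card_filter]
  push_cast
  refine Finset.sum_congr rfl fun y _ => ?_
  rw [T, T]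
  by_cases h1 : Rel P n x y <;> by_cases h2 : Rel P n' y z <;> simp [h1, h2]

theorem T_one : T P R 1 = 1 := by
  ext x y
  rw [T, one_apply]
  by_cases h : x = y
  · rw [if_pos ((Rel_one P x y).2 h), if_pos h]
  · rw [if_neg (fun h' => h ((Rel_one P x y).1 h')), if_neg h]

theorem T_congr {n n' : G} (h : n⁻¹ * n' ∈ P.B) : T P R n = T P R n' := by
  ext x y
  rw [T, T]
  by_cases h1 : Rel P n x y
  · rw [if_pos h1, if_pos ((Rel_congr P h x y).1 h1)]
  · rw [if_neg h1, if_neg (fun h' => h1 ((Rel_congr P h x y).2 h'))]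

theorem T_transpose (n : G) : (T P R n)ᵀ = T P R n⁻¹ := by
  ext x y
  rw [transpose_apply, T, T]
  by_cases h1 : Rel P n y x
  · rw [if_pos h1, if_pos ((Rel_inv P n x y).1 h1)]
  · rw [if_neg h1, if_neg (fun h' => h1 ((Rel_inv P n x y).2 h'))]

theorem T_symm {s : G} (hs : s ∈ P.S) : (T P R s)ᵀ = T P R s := by
  rw [T_transpose, T_congr P R (s_inv_eqv P hs)]

theorem T_mul {s n : G} (hs : s ∈ P.S) (hn : n ∈ P.N) (hl : len P (s * n) = len P n + 1) :
    T P R s * T P R n = T P R (s * n) := by
  classical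
  ext x z
  rw [T_mul_apply, T]
  by_cases h : Rel P (s * n) x z
  · rw [if_pos h]
    obtain ⟨y, h1, h2⟩ := Rel_exists P hs hn h
    have : (Finset.univ.filter fun y => Rel P s x y ∧ Rel P n y z) = {y} := by
      ext y'
      simp only [Finset.mem_filter, Finset.mem_univ, true_and, Finset.mem_singleton]
      constructor
      · rintro ⟨h3, h4⟩; exact Rel_uniq P hs hn hl h3 h4 h1 h2
      · rintro rfl; exact ⟨h1, h2⟩
    rw [this, Finset.card_singleton, Nat.cast_one]
  · rw [if_neg h]
    have : (Finset.univ.filter fun y => Rel P s x y ∧ Rel P n y z) = ∅ := by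
      rw [Finset.filter_eq_empty_iff]
      rintro y _ ⟨h1, h2⟩
      exact h (Rel_comp P hs hn hl h1 h2)
    rw [this, Finset.card_empty, Nat.cast_zero]

open Classical in
/-- valencies -/
noncomputable def q (n : G) : ℕ := (Finset.univ.filter fun y : G ⧸ P.B => Rel P n (QuotientGroup.mk 1) y).card

open Classical in
theorem q_eq (n : G) (x : G ⧸ P.B) : (Finset.univ.filter fun y : G ⧸ P.B => Rel P n x y).card = q P n := by
  induction x using QuotientGroup.induction_on with
  | H g =>
  rw [q]
  refine Finset.card_bij (fun y _ => g⁻¹ • y) ?_ ?_ ?_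
  · intro y hy
    simp only [Finset.mem_filter, Finset.mem_univ, true_and] at hy ⊢
    rw [← Rel_smul P n g, smul_inv_smul, MulAction.Quotient.smul_mk, smul_eq_mul, mul_one]
    exact hy
  · intro y _ y' _ h
    exact smul_left_cancel _ h
  · intro y hy
    simp only [Finset.mem_filter, Finset.mem_univ, true_and] at hy
    refine ⟨g • y, ?_, inv_smul_smul g y⟩
    simp only [Finset.mem_filter, Finset.mem_univ, true_and]
    rw [← Rel_smul P n g, MulAction.Quotient.smul_mk, smul_eq_mul, mul_one] at hy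
    exact hy

theorem T_sq {s : G} (hs : s ∈ P.S) : T P R s * T P R s =
    (q P s : R) • (1 : Matrix (G ⧸ P.B) (G ⧸ P.B) R) + ((q P s : R) - 1) • T P R s := by
  classical
  ext x z
  rw [T_mul_apply, Matrix.add_apply, Matrix.smul_apply, Matrix.smul_apply, T, one_apply]
  by_cases hxz : x = z
  · subst hxz
    have h1 : ¬ Rel P s x x := by
      intro h
      rw [Rel, inv_mul_cancel] at h
      have := mem_C_symm P h
      rw [C_one] at this
      exact s_notMem_B P hs this
    rw [if_pos rfl, if_neg h1]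
    have : (Finset.univ.filter fun y => Rel P s x y ∧ Rel P s y x) =
        Finset.univ.filter fun y => Rel P s x y := by
      ext y
      simp only [Finset.mem_filter, Finset.mem_univ, true_and]
      exact ⟨fun h => h.1, fun h => ⟨h, (Rel_symm P hs x y).2 h⟩⟩
    rw [this, q_eq]
    simp
  · rw [if_neg hxz]
    have key : ∀ y, Rel P s x y → Rel P s y z → Rel P s x z := by
      intro y h1 h2
      have h := C_mul P hs (S_N P hs) h1 h2
      have e : x.out⁻¹ * y.out * (y.out⁻¹ * z.out) = x.out⁻¹ * z.out := by group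
      rw [e] at h
      rcases h with h | h
      · exfalso
        rw [C_of_mem_B P (P.sq_mem s hs)] at h
        apply hxz
        rw [← Rel_one P, Rel, C_one]; exact h
      · exact h
    by_cases h : Rel P s x z
    · rw [if_pos h]
      have : (Finset.univ.filter fun y => Rel P s x y ∧ Rel P s y z) =
          (Finset.univ.filter fun y => Rel P s x y).erase z := by
        ext y
        simp only [Finset.mem_filter, Finset.mem_univ, true_and, Finset.mem_erase]
        constructor
        · rintro ⟨h1, h2⟩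
          refine ⟨?_, h1⟩
          rintro rfl
          rw [Rel, inv_mul_cancel] at h2
          have := mem_C_symm P h2
          rw [C_one] at this
          exact s_notMem_B P hs this
        · rintro ⟨h1, h2⟩
          refine ⟨h2, ?_⟩
          have h3 := C_mul P hs (S_N P hs) ((Rel_symm P hs x y).2 h2) h
          have e : y.out⁻¹ * x.out * (x.out⁻¹ * z.out) = y.out⁻¹ * z.out := by group
          rw [e] at h3
          rcases h3 with h3 | h3
          · exfalso
            rw [C_of_mem_B P (P.sq_mem s hs)] at h3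
            apply h1
            rw [← Rel_one P, Rel, C_one]; exact h3
          · exact h3
      rw [this, Finset.card_erase_of_mem (by simp [h]), q_eq]
      have hq : 1 ≤ q P s := by
        rw [← q_eq P s x, Nat.one_le_iff_ne_zero, ← Nat.pos_iff_ne_zero, Finset.card_pos]
        exact ⟨z, by simp [h]⟩
      rw [Nat.cast_sub hq]
      simp
    · rw [if_neg h]
      have : (Finset.univ.filter fun y => Rel P s x y ∧ Rel P s y z) = ∅ := by
        rw [Finset.filter_eq_empty_iff]
        rintro y _ ⟨h1, h2⟩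
        exact h (key y h1 h2)
      rw [this]
      simp

theorem q_ge {s : G} (hs : s ∈ P.S) : 2 ≤ q P s := by
  classical
  obtain ⟨b, hb, hC⟩ := exists_sbs P hs
  have h1 : Rel P s (QuotientGroup.mk 1) (QuotientGroup.mk s) := by
    rw [Rel_mk, inv_one, one_mul]; exact self_mem_C P s
  have h2 : Rel P s (QuotientGroup.mk 1) (QuotientGroup.mk (s * s * b * s)) := by
    rw [Rel_mk, inv_one, one_mul, C_mul_left P (P.B.mul_mem (P.sq_mem s hs) hb)]; exact self_mem_C P s
  have h3 : (QuotientGroup.mk s : G ⧸ P.B) ≠ QuotientGroup.mk (s * s * b * s) := by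
    intro h
    rw [QuotientGroup.eq] at h
    have e : s⁻¹ * (s * s * b * s) = s * b * s := by group
    rw [e] at h
    have h4 := mem_C_symm P hC
    rw [C_of_mem_B P h] at h4
    exact s_notMem_B P hs h4
  rw [q]
  have h5 : ({QuotientGroup.mk s, QuotientGroup.mk (s * s * b * s)} : Finset (G ⧸ P.B)) ⊆
      Finset.univ.filter fun y : G ⧸ P.B => Rel P s (QuotientGroup.mk 1) y := by
    intro y hy
    simp only [Finset.mem_insert, Finset.mem_singleton] at hy
    simp only [Finset.mem_filter, Finset.mem_univ, true_and]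
    rcases hy with rfl | rfl
    · exact h1
    · exact h2
  have h6 := Finset.card_le_card h5
  rwa [Finset.card_pair h3] at h6

theorem T_mulVec (n : G) : T P R n *ᵥ (fun _ => 1) = fun _ => (q P n : R) := by
  classical
  ext x
  rw [mulVec, dotProduct]
  simp only [mul_one, T]
  rw [← q_eq P n x, Finset.card_filter]
  push_cast
  rfl

theorem trace_T {n : G} (hn : n ∉ P.B) : trace (T P R n) = 0 := by
  rw [trace]
  apply Finset.sum_eq_zero
  intro x _
  rw [diag_apply, T, if_neg]
  intro h
  rw [Rel, inv_mul_cancel] at h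
  have := mem_C_symm P h
  rw [C_one] at this
  exact hn this

theorem trace_T_mul {n n' : G} (hn : n ∈ P.N) (hn' : n' ∈ P.N) (h : len P n ≠ len P n') :
    trace (T P R n * T P R n') = 0 := by
  classical
  rw [trace]
  apply Finset.sum_eq_zero
  intro x _
  rw [diag_apply, T_mul_apply]
  have : (Finset.univ.filter fun y => Rel P n x y ∧ Rel P n' y x) = ∅ := by
    rw [Finset.filter_eq_empty_iff]
    rintro y _ ⟨h1, h2⟩
    rw [Rel_inv] at h2
    exact not_both P hn (P.N.inv_mem hn') (by rw [len_inv P hn']; exact h) h1 h2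
  rw [this]
  simp

theorem trace_T_inv (n : G) : trace (T P R n * T P R n⁻¹) = Fintype.card (G ⧸ P.B) * (q P n : R) := by
  classical
  rw [trace]
  have : ∀ x, diag (T P R n * T P R n⁻¹) x = (q P n : R) := by
    intro x
    rw [diag_apply, T_mul_apply, ← q_eq P n x]
    congr 2
    ext y
    simp only [Finset.mem_filter, Finset.mem_univ, true_and]
    rw [← Rel_inv]
    exact ⟨fun h => h.1, fun h => ⟨h, h⟩⟩
  rw [Finset.sum_congr rfl fun x _ => this x, Finset.sum_const, nsmul_eq_mul, Finset.card_univ]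

variable {P}

theorem T_alt {s t : G} (hs : s ∈ P.S) (ht : t ∈ P.S) {m : ℕ}
    (hl : ∀ k ≤ m, len P (alt k s t) = k ∧ len P (alt k t s) = k) (k : ℕ) (hk : k ≤ m) :
    T P R (alt k s t) = alt k (T P R s) (T P R t) ∧ T P R (alt k t s) = alt k (T P R t) (T P R s) := by
  induction k with
  | zero => exact ⟨T_one P R, T_one P R⟩
  | succ k ih =>
    obtain ⟨h1, h2⟩ := ih (by omega)
    obtain ⟨a1, a2⟩ := hl k (by omega)
    obtain ⟨b1, b2⟩ := hl (k + 1) hk
    constructor
    · rw [alt, alt, ← h2, T_mul P R hs (alt_N P ht hs k)]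
      rw [a2]; exact b1
    · rw [alt, alt, ← h1, T_mul P R ht (alt_N P hs ht k)]
      rw [a1]; exact b2

theorem q_alt {s t : G} (hs : s ∈ P.S) (ht : t ∈ P.S) {m : ℕ}
    (hl : ∀ k ≤ m, len P (alt k s t) = k ∧ len P (alt k t s) = k) (k : ℕ) (hk : k ≤ m) :
    q P (alt k s t) = alt k (q P s) (q P t) ∧ q P (alt k t s) = alt k (q P t) (q P s) := by
  have hT := T_alt ℤ hs ht hl k hk
  have key : ∀ (k : ℕ) (a b : G), (alt k (T P ℤ a) (T P ℤ b)) *ᵥ (fun _ => (1 : ℤ)) =
      fun _ => ((alt k (q P a) (q P b) : ℕ) : ℤ) := by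
    intro k
    induction k with
    | zero => intro a b; simp [alt]
    | succ k ih =>
      intro a b
      rw [alt, ← mulVec_mulVec, ih, alt]
      have : (fun _ => ((alt k (q P b) (q P a) : ℕ) : ℤ) : (G ⧸ P.B) → ℤ) =
          ((alt k (q P b) (q P a) : ℕ) : ℤ) • (fun _ => (1 : ℤ)) := by
        ext; simp
      rw [this, mulVec_smul, T_mulVec]
      ext
      simp [mul_comm]
  have hne : Nonempty (G ⧸ P.B) := ⟨QuotientGroup.mk 1⟩
  constructor
  · have h1 := T_mulVec P ℤ (alt k s t)
    rw [hT.1, key] at h1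
    have := congrFun h1 (QuotientGroup.mk 1)
    exact_mod_cast this.symm
  · have h1 := T_mulVec P ℤ (alt k t s)
    rw [hT.2, key] at h1
    have := congrFun h1 (QuotientGroup.mk 1)
    exact_mod_cast this.symm

end CfsgLib.FH
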