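import Mathlib
import Cfsg.Agent.LibFH5
import Cfsg.Agent.LibFH7

set_option autoImplicit false
set_option linter.all false

/-! Feit–Higman, part 8 -/

namespace CfsgLib.FH

open Cfsg CfsgLib.BN Matrix

section

variable {ι : Type*} [Fintype ι] [DecidableEq ι]

/-- `Y` built from `T1`, `T2` -/
def mkY {R : Type*} [CommRing R] (T1 T2 : Matrix ι ι R) (u v : R) : Matrix ι ι R :=
  T1 * T2 + T2 * T1 - (u - 1) • T2 - (v - 1) • T1 + ((u - 1) * (v - 1)) • (1 : Matrix ι ι R)

theorem exists_dat (T1 T2 A : Matrix ι ι ℝ) (u v r : ℝ) (m : ℕ) (s1 : T1ᵀ = T1) (s2 : T2ᵀ = T2)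
    (hu : 1 < u) (hv : 1 < v)
    (q1 : T1 * T1 = u • (1 : Matrix ι ι ℝ) + (u - 1) • T1)
    (q2 : T2 * T2 = v • (1 : Matrix ι ι ℝ) + (v - 1) • T2)
    (hr : 1 < r) (rr : r * r = u * v) (hm : 3 ≤ m) (hne : Nonempty ι) (As : Aᵀ = A)
    (AA : A * A = (T1 * T2) ^ m) (hA : A = alt m T1 T2)
    (cen : (T1 * T2) ^ m * T1 = T1 * (T1 * T2) ^ m) (t1 : trace T1 = 0) (t2 : trace T2 = 0)
    (tk : ∀ k, 1 ≤ k → k < m → trace ((T1 * T2) ^ k) = 0)
    (tm : trace ((T1 * T2) ^ m) = Fintype.card ι * r ^ m) (odd : Odd m → u = v) :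
    ∃ d : Dat2 ι, d.u = u ∧ d.v = v ∧ d.m = m ∧
      (mkY T1 T2 u v).charpoly = ∏ i, (Polynomial.X - Polynomial.C (d.lam i)) := by
  have hYt : (mkY T1 T2 u v)ᵀ = mkY T1 T2 u v := by
    rw [mkY]
    simp only [transpose_add, transpose_sub, transpose_mul, transpose_smul, transpose_one, s1, s2]
    abel
  have hY : (mkY T1 T2 u v).IsHermitian := by
    rw [IsHermitian, conjTranspose_eq_transpose_of_trivial]; exact hYt
  let φ := Unitary.conjStarAlgAut ℝ (Matrix ι ι ℝ) (star hY.eigenvectorUnitary)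
  have hφY : φ (mkY T1 T2 u v) = diagonal hY.eigenvalues := hY.conjStarAlgAut_star_eigenvectorUnitary
  have hφt : ∀ Z : Matrix ι ι ℝ, (φ Z)ᵀ = φ Zᵀ := by
    intro Z
    have := map_star φ Z
    rw [star_eq_conjTranspose, star_eq_conjTranspose, conjTranspose_eq_transpose_of_trivial,
      conjTranspose_eq_transpose_of_trivial] at this
    exact this.symm
  have hφtr : ∀ Z : Matrix ι ι ℝ, trace (φ Z) = trace Z := by
    intro Z
    show trace (Unitary.conjStarAlgAut ℝ (Matrix ι ι ℝ) (star hY.eigenvectorUnitary) Z) = _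
    rw [Unitary.conjStarAlgAut_star_apply, trace_mul_comm, ← mul_assoc]
    simp
  have comm : ∀ (k : ℕ) (a b Z : Matrix ι ι ℝ), a * Z = Z * a → b * Z = Z * b →
      alt k a b * Z = Z * alt k a b := by
    intro k
    induction k with
    | zero => intro a b Z _ _; simp [alt]
    | succ k ih =>
      intro a b Z ha hb
      rw [alt, mul_assoc, ih b a Z hb ha, ← mul_assoc, ha, mul_assoc]
  let d0 : Dat ι :=
    { T1 := φ T1, T2 := φ T2, u := u, v := v, lam := hY.eigenvalues
      s1 := by rw [hφt, s1]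
      s2 := by rw [hφt, s2]
      hu := hu, hv := hv
      q1 := by rw [← map_mul, q1, map_add, map_smul, map_smul, map_one]
      q2 := by rw [← map_mul, q2, map_add, map_smul, map_smul, map_one]
      hY := by
        rw [← hφY, mkY]
        simp only [map_add, map_sub, map_mul, map_smul, map_one] }
  refine ⟨{ d0 with
    m := m, r := r, A := φ A, hr := hr, rr := rr, hm := hm, hne := hne
    As := by rw [hφt, As]
    AA := by
      show φ A * φ A = (φ T1 * φ T2) ^ m
      rw [← map_mul, AA, map_pow, map_mul]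
    AY := by
      have e0 : ∀ (k : ℕ) (a b : Matrix ι ι ℝ), φ (alt k a b) = alt k (φ a) (φ b) := by
        intro k
        induction k with
        | zero => intro a b; exact map_one φ
        | succ k ih => intro a b; rw [alt, alt, map_mul, ih]
      have e : φ A = alt m (φ T1) (φ T2) := by rw [hA]; exact e0 m T1 T2
      rw [e]
      exact comm m _ _ _ d0.Y_comm1 d0.Y_comm2
    cen := by
      show (φ T1 * φ T2) ^ m * φ T1 = φ T1 * (φ T1 * φ T2) ^ m
      rw [← map_mul, ← map_pow, ← map_mul, cen, map_mul]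
    t1 := by show trace (φ T1) = 0; rw [hφtr, t1]
    t2 := by show trace (φ T2) = 0; rw [hφtr, t2]
    tk := by
      intro k h1 h2
      show trace ((φ T1 * φ T2) ^ k) = 0
      rw [← map_mul, ← map_pow, hφtr, tk k h1 h2]
    tm := by
      show trace ((φ T1 * φ T2) ^ m) = _
      rw [← map_mul, ← map_pow, hφtr, tm]
    odd := odd }, rfl, rfl, rfl, ?_⟩
  rw [hY.charpoly_eq]
  rfl

end

variable {G : Type*} [Group G] {P : BNPair G} [Finite G]

theorem T_map (n : G) : (T P ℚ n).map (algebraMap ℚ ℝ) = T P ℝ n := by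
  ext x y
  rw [Matrix.map_apply, T, T]
  split_ifs <;> simp

theorem feit_higman (h2 : P.rank = 2) :
    ((P.B ⊓ P.N).subgroupOf P.N).index ∈ ({4, 6, 8, 12, 16} : Set ℕ) := by
  obtain ⟨s, t, m, hs, ht, hS, hm2, hidx, hne, heq, hinv⟩ := setup P h2
  rw [hidx]
  rcases Nat.lt_or_ge 2 m with hm | hm
  swap
  · have : m = 2 := by omega
    subst this
    simp
  have hl : ∀ k ≤ m, len P (alt k s t) = k ∧ len P (alt k t s) = k :=
    fun k hk => alt_len P hs ht hS hne k hk
  have hT := fun k hk => T_alt (P := P) ℝ hs ht hl k hk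
  have hq := fun k hk => q_alt (P := P) hs ht hl k hk
  set w := alt m s t with hw
  have hwN : w ∈ P.N := alt_N P hs ht m
  set A := T P ℝ w with hA
  have hA1 : A = alt m (T P ℝ s) (T P ℝ t) := (hT m le_rfl).1
  have hA2 : A = alt m (T P ℝ t) (T P ℝ s) := by
    rw [← (hT m le_rfl).2, hA]; exact T_congr P ℝ heq
  have hwinv : w⁻¹⁻¹ * w ∈ P.B := by rw [inv_inv]; exact hinv
  have hAs : Aᵀ = A := by rw [hA, T_transpose]; exact T_congr P ℝ hwinv
  have hAA : A * A = (T P ℝ s * T P ℝ t) ^ m := by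
    rw [← alt_even, two_mul]
    rcases alt_add m m (T P ℝ s) (T P ℝ t) with h | h
    · rw [h, ← hA1]
    · rw [h, ← hA1, ← hA2]
  have hAA' : A * A = (T P ℝ t * T P ℝ s) ^ m := by
    rw [← alt_even, two_mul]
    rcases alt_add m m (T P ℝ t) (T P ℝ s) with h | h
    · rw [h, ← hA2]
    · rw [h, ← hA1, ← hA2]
  have hcen : (T P ℝ s * T P ℝ t) ^ m * T P ℝ s = T P ℝ s * (T P ℝ s * T P ℝ t) ^ m := by
    rw [← hAA]
    nth_rw 1 [hAA]
    rw [hAA', mul_pow_mul]
  have hsB : s ∉ P.B := s_notMem_B P hs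
  have htB : t ∉ P.B := s_notMem_B P ht
  have htk : ∀ k, 1 ≤ k → k < m → trace ((T P ℝ s * T P ℝ t) ^ k) = 0 := by
    intro k h1 h2
    rw [← alt_even]
    rcases Nat.lt_or_ge m (2 * k) with h3 | h3
    · obtain ⟨j, hj⟩ : ∃ j, 2 * k = m + j := ⟨2 * k - m, by omega⟩
      rw [hj]
      rcases alt_add m j (T P ℝ s) (T P ℝ t) with h | h
      · rw [h, ← hA1, ← (hT j (by omega)).1]
        apply trace_T_mul P ℝ hwN (alt_N P hs ht j)
        rw [(hl m le_rfl).1, (hl j (by omega)).1]; omega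
      · rw [h, ← hA1, ← (hT j (by omega)).2]
        apply trace_T_mul P ℝ hwN (alt_N P ht hs j)
        rw [(hl m le_rfl).1, (hl j (by omega)).2]; omega
    · rw [← (hT (2 * k) h3).1]
      apply trace_T
      intro h
      rw [← len_eq_zero P (alt_N P hs ht _), (hl _ h3).1] at h
      omega
  have hqu := q_ge P hs
  have hqv := q_ge P ht
  have hu : (1 : ℝ) < q P s := by exact_mod_cast (by omega : 1 < q P s)
  have hv : (1 : ℝ) < q P t := by exact_mod_cast (by omega : 1 < q P t)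
  have hqw : alt m (q P s) (q P t) = alt m (q P t) (q P s) := by
    rw [← (hq m le_rfl).1, ← (hq m le_rfl).2]
    have e : T P ℤ (alt m s t) = T P ℤ (alt m t s) := T_congr P ℤ heq
    have h1 := T_mulVec P ℤ (alt m s t)
    rw [e, T_mulVec] at h1
    exact_mod_cast (congrFun h1 (QuotientGroup.mk 1)).symm
  have hodd : Odd m → q P s = q P t := by
    rintro ⟨k, hk⟩
    rw [hk, alt_odd, alt_odd, mul_comm (q P t) (q P s)] at hqw
    exact Nat.eq_of_mul_eq_mul_right (pow_pos (by positivity) k) hqw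
  set r : ℝ := Real.sqrt ((q P s : ℝ) * q P t) with hr
  have hrr : r * r = (q P s : ℝ) * q P t := Real.mul_self_sqrt (by positivity)
  have hr1 : 1 < r := by
    rw [hr, Real.lt_sqrt zero_le_one]
    nlinarith
  have hqr : (q P w : ℝ) = r ^ m := by
    rw [hw, (hq m le_rfl).1]
    rcases Nat.even_or_odd' m with ⟨k, hk | hk⟩
    · rw [hk, alt_even, pow_mul, pow_two r, hrr]
      push_cast; rfl
    · have := hodd ⟨k, hk⟩
      rw [← this] at hrr ⊢
      have hrq : r = q P s := by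
        rcases mul_self_eq_mul_self_iff.1 hrr with h3 | h3
        · exact h3
        · linarith
      rw [hk, alt_odd, hrq]
      push_cast
      rw [pow_succ, pow_mul, pow_two, mul_comm]
  have htm : trace ((T P ℝ s * T P ℝ t) ^ m) = Fintype.card (G ⧸ P.B) * r ^ m := by
    rw [← hAA]
    nth_rw 2 [← hAs]
    rw [hA, T_transpose, trace_T_inv, hqr]
  obtain ⟨d, hd1, hd2, hd3, hd4⟩ := exists_dat (T P ℝ s) (T P ℝ t) A (q P s) (q P t) r m (T_symm P ℝ hs)
    (T_symm P ℝ ht) hu hv (T_sq P ℝ hs) (T_sq P ℝ ht) hr1 hrr (by omega) ⟨QuotientGroup.mk 1⟩ hAs hAA hA1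
    hcen (trace_T P ℝ hsB) (trace_T P ℝ htB) htk htm (fun h => by rw [hodd h])
  have hχ : (mkY (T P ℚ s) (T P ℚ t) (q P s : ℚ) (q P t : ℚ)).charpoly.map (algebraMap ℚ ℝ) =
      ∏ i, (Polynomial.X - Polynomial.C (d.lam i)) := by
    rw [← hd4, ← Matrix.charpoly_map]
    congr 1
    rw [mkY, mkY, ← T_map s, ← T_map t]
    ext x y
    simp [Matrix.mul_apply, Matrix.one_apply, apply_ite]
    split_ifs with h
    · intro h'; exact absurd h h'
    · intro h'; exact absurd h' h
  have hmain := d.main hχ hd1 hd2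
  rw [hd3] at hmain
  rcases hmain with h | h | h | h <;> rw [h] <;> simp

end CfsgLib.FH
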