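import Mathlib
import Cfsg.Agent.EqBase
import Cfsg.Agent.LibCnt28
import Cfsg.Agent.LibElt28
import Cfsg.Agent.LibRestr28
import Cfsg.Agent.LibOrbH28
import Cfsg.Agent.LibOrbI28

set_option autoImplicit false

/-! Transitivity on families of octads and dodecads with prescribed intersections (helper28). -/

namespace CfsgLib.Fam28

open Cfsg CfsgLib.Golay CfsgLib.M24 CfsgLib.Syn28 CfsgLib.OrbAbs28 CfsgLib.OrbM28 CfsgLib.OrbG28 CfsgLib.Cnt28
  CfsgLib.Elt28 CfsgLib.OrbH28 CfsgLib.OrbI28 MulAction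
open scoped Pointwise

/-- three finite sets -/
abbrev T3 := Finset GolayPt × Finset GolayPt × Finset GolayPt

/-- three intersection numbers -/
def c3 (a : T3) (x : Finset GolayPt) : ℕ × ℕ × ℕ := ((a.1 ∩ x).card, (a.2.1 ∩ x).card, (a.2.2 ∩ x).card)

theorem c3_smul (g : ↥M24) (a : T3) (x : Finset GolayPt) : c3 (g • a) (g • x) = c3 a x := by
  obtain ⟨a1, a2, a3⟩ := a
  show ((g • a1 ∩ g • x).card, (g • a2 ∩ g • x).card, (g • a3 ∩ g • x).card) = _
  rw [← Finset.smul_finset_inter, ← Finset.smul_finset_inter, ← Finset.smul_finset_inter,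
    Finset.card_smul_finset, Finset.card_smul_finset, Finset.card_smul_finset]
  rfl

theorem c3_fset (m1 m2 m3 k : ℕ) : c3 (fset m1, fset m2, fset m3) (fset k) =
    (pop (Nat.land m1 k), pop (Nat.land m2 k), pop (Nat.land m3 k)) := by
  have h : ∀ m, (fset m ∩ fset k).card = pop (Nat.land m k) := by
    intro m
    rw [← fset_and, card_fset]; rfl
  show ((fset m1 ∩ fset k).card, (fset m2 ∩ fset k).card, (fset m3 ∩ fset k).card) = _
  rw [h, h, h]

theorem fam_of_pieces {a : T3} {B : Set (Finset GolayPt)} {r : ℕ} {X : Fin r → Finset GolayPt} {n : Fin r → ℕ}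
    (h : Pieces ↥M24 a B X n) (fam : ℕ × ℕ × ℕ → Prop)
    (hsep : ∀ i j, fam (c3 a (X i)) → c3 a (X i) = c3 a (X j) → i = j) {x y : Finset GolayPt} (hx : x ∈ B) (hy : y ∈ B)
    (hf : fam (c3 a x)) (hxy : c3 a x = c3 a y) : ∃ g : ↥M24, g • a = a ∧ g • x = y := by
  obtain ⟨_, _, V, hV, _, hcov, _⟩ := h
  obtain ⟨i, hi⟩ := Set.mem_iUnion.1 (hcov hx)
  obtain ⟨j, hj⟩ := Set.mem_iUnion.1 (hcov hy)
  obtain ⟨g, hg⟩ := hV i hi
  obtain ⟨k, hk⟩ := hV j hj
  have hg' : (g : ↥M24) • X i = x := hg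
  have hk' : (k : ↥M24) • X j = y := hk
  have hga : (g : ↥M24) • a = a := g.2
  have hka : (k : ↥M24) • a = a := k.2
  have key : ∀ (g : ↥M24), g • a = a → ∀ z, c3 a (g • z) = c3 a z := by
    intro g hg z
    have := c3_smul g a z
    rwa [hg] at this
  have e1 : c3 a x = c3 a (X i) := by rw [← hg']; exact key _ hga _
  have e2 : c3 a y = c3 a (X j) := by rw [← hk']; exact key _ hka _
  have hij : i = j := hsep i j (by rw [← e1]; exact hf) (by rw [← e1, ← e2, hxy])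
  subst hij
  refine ⟨k * (g : ↥M24)⁻¹, ?_, ?_⟩
  · rw [mul_smul, inv_smul_eq_iff.2 hga.symm, hka]
  · rw [mul_smul, inv_smul_eq_iff.2 hg'.symm, hk']

theorem fam_transport {a a' : T3} {h : ↥M24} (ha : h • a' = a) {B : Set (Finset GolayPt)}
    (hBinv : ∀ g : ↥M24, ∀ b ∈ B, g • b ∈ B) {fam : ℕ × ℕ × ℕ → Prop}
    (H : ∀ x ∈ B, ∀ y ∈ B, fam (c3 a x) → c3 a x = c3 a y → ∃ g : ↥M24, g • a = a ∧ g • x = y) :
    ∀ x ∈ B, ∀ y ∈ B, fam (c3 a' x) → c3 a' x = c3 a' y → ∃ g : ↥M24, g • a' = a' ∧ g • x = y := by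
  intro x hx y hy hf hxy
  rw [← c3_smul h, ha] at hf
  rw [← c3_smul h a' x, ← c3_smul h a' y, ha] at hxy
  obtain ⟨g, hg, hgx⟩ := H _ (hBinv h x hx) _ (hBinv h y hy) hf hxy
  refine ⟨h⁻¹ * g * h, ?_, ?_⟩
  · rw [mul_smul, mul_smul, ha, hg, ← ha, inv_smul_smul]
  · rw [mul_smul, mul_smul, hgx, inv_smul_smul]

theorem cnt_transport {a a' : T3} {h : ↥M24} (ha : h • a' = a) {B : Set (Finset GolayPt)}
    (hBinv : ∀ g : ↥M24, ∀ b ∈ B, g • b ∈ B) (v : ℕ × ℕ × ℕ → Prop) :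
    {x | x ∈ B ∧ v (c3 a' x)}.ncard = {x | x ∈ B ∧ v (c3 a x)}.ncard := by
  have : {x | x ∈ B ∧ v (c3 a x)} = (fun x => h • x) '' {x | x ∈ B ∧ v (c3 a' x)} := by
    ext x
    rw [Set.mem_image]
    constructor
    · rintro ⟨h1, h2⟩
      refine ⟨h⁻¹ • x, ⟨hBinv _ _ h1, ?_⟩, smul_inv_smul h x⟩
      rw [← c3_smul h, ha, smul_inv_smul]; exact h2
    · rintro ⟨y, ⟨h1, h2⟩, rfl⟩
      refine ⟨hBinv _ _ h1, ?_⟩
      rw [← ha]
      show v (c3 (h • a') (h • y))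
      rw [c3_smul]; exact h2
  rw [this, Set.ncard_image_of_injective _ (MulAction.injective h)]

/-- counting codewords of weight `w` by intersections -/
theorem cnt_base (w m1 m2 m3 : ℕ) (v : ℕ × ℕ × ℕ → Prop) (vb : ℕ × ℕ × ℕ → Bool) (hv : ∀ t, vb t = true ↔ v t) :
    {x : Finset GolayPt | (x ∈ supports (golayCode : Set (GolayPt → ZMod 2)) ∧ x.card = w) ∧
      v (c3 (fset m1, fset m2, fset m3) x)}.ncard =
      cntB (fun k => and (Nat.beq (pop (cw k)) w) (vb (pop (Nat.land m1 (cw k)), pop (Nat.land m2 (cw k)), pop (Nat.land m3 (cw k))))) 12 0 := by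
  apply ncard_of_keys (fun k => fset (cw k))
  · intro k hk hg
    rw [Bool.and_eq_true, beq_iff, hv] at hg
    refine ⟨⟨cw_mem_supports k, by rw [card_fset]; exact hg.1⟩, ?_⟩
    rw [c3_fset]; exact hg.2
  · rintro x ⟨hx, hx2⟩
    obtain ⟨k, hk, rfl⟩ := mem_supports.1 hx.1
    refine ⟨k, hk, ?_, rfl⟩
    rw [Bool.and_eq_true, beq_iff, hv]
    have h8 := hx.2
    rw [card_fset] at h8
    rw [c3_fset] at hx2
    exact ⟨h8, hx2⟩
  · intro k hk k' hk' _ _ hkk
    exact cw_injective hk hk' (fset_injective (cw_lt k) (cw_lt k') hkk)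

/-! ### base configurations -/

theorem single_card (p : GolayPt) (x : Finset GolayPt) : ({p} ∩ x : Finset GolayPt).card = if p ∈ x then 1 else 0 := by
  by_cases h : p ∈ x
  · rw [if_pos h, Finset.singleton_inter_of_mem h, Finset.card_singleton]
  · rw [if_neg h, Finset.singleton_inter_of_notMem h, Finset.card_empty]

theorem pick (s : Finset GolayPt) {n : ℕ} (h : n < s.card) (t : Finset GolayPt) (ht : t.card ≤ n) : ∃ c ∈ s, c ∉ t := by
  by_contra hcon
  push Not at hcon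
  have := Finset.card_le_card (show s ⊆ t from hcon)
  omega

theorem octad_base2 {o : Finset GolayPt} (ho : o ∈ octads) {p q : GolayPt} (hp : p ∈ o) (hq : q ∈ o) (hpq : p ≠ q) :
    ∃ h ∈ M24, h p = pt 23 ∧ h q = pt 0 ∧ h • o = fset 8536111 := by
  have h8 : o.card = 8 := ho.2
  obtain ⟨c, hc, hc2⟩ := pick o (n := 2) (by omega) {p, q} Finset.card_le_two
  obtain ⟨d, hd, hd2⟩ := pick o (n := 3) (by omega) {p, q, c} Finset.card_le_three
  obtain ⟨e, he, he2⟩ := pick o (n := 4) (by omega) {p, q, c, d} Finset.card_le_four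
  simp only [Finset.mem_insert, Finset.mem_singleton, not_or] at hc2 hd2 he2
  have hn : [p, q, c, d, e].Nodup := by
    simp only [List.nodup_cons, List.mem_cons, List.not_mem_nil, not_or, or_false, not_false_eq_true,
      List.nodup_nil, and_true]
    exact ⟨⟨hpq, Ne.symm hc2.1, Ne.symm hd2.1, Ne.symm he2.1⟩, ⟨Ne.symm hc2.2, Ne.symm hd2.2.1, Ne.symm he2.2.1⟩,
      ⟨Ne.symm hd2.2.2, Ne.symm he2.2.2.1⟩, Ne.symm he2.2.2.2⟩
  obtain ⟨h, hh, e1, e2, e3, e4, e5⟩ := base5 hn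
  refine ⟨h, hh, e1, e2, ?_⟩
  have h5 : (fset 8388623).card = 5 := by rw [card_fset]; decide +kernel
  apply CfsgLib.Steiner.eq_of_card_inter octads_steiner (smul_mem_octads hh ho) base_octad
  have hsub : fset 8388623 ⊆ h • o ∩ fset 8536111 := by
    intro x hx
    have key : x ∈ fset 8388623 → (x = pt 23 ∨ x = pt 0 ∨ x = pt 1 ∨ x = pt 2 ∨ x = pt 3) ∧ x ∈ fset 8536111 := by
      revert x; decide +kernel
    obtain ⟨h6, h7⟩ := key hx
    rw [Finset.mem_inter]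
    refine ⟨?_, h7⟩
    rw [Finset.mem_smul_finset]
    rcases h6 with rfl | rfl | rfl | rfl | rfl
    · exact ⟨p, hp, e1⟩
    · exact ⟨q, hq, e2⟩
    · exact ⟨c, hc, e3⟩
    · exact ⟨d, hd, e4⟩
    · exact ⟨e, he, e5⟩
  have := Finset.card_le_card hsub
  omega

theorem octad_base1 {o : Finset GolayPt} (ho : o ∈ octads) {p q : GolayPt} (hp : p ∈ o) (hq : q ∉ o) :
    ∃ h ∈ M24, h p = pt 23 ∧ h q = pt 4 ∧ h • o = fset 8536111 := by
  have h8 : o.card = 8 := ho.2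
  obtain ⟨c, hc, hc2⟩ := pick o (n := 1) (by omega) {p} (by simp)
  rw [Finset.mem_singleton] at hc2
  obtain ⟨h, hh, e1, _, e2⟩ := octad_base2 ho hp hc (Ne.symm hc2)
  have hq' : h q ∉ fset 8536111 := by
    rw [← e2]
    intro h1
    rw [Finset.mem_smul_finset] at h1
    obtain ⟨y, hy, hyq⟩ := h1
    exact hq (by rwa [← h.injective hyq])
  have h4 : pt 4 ∉ fset 8536111 := by decide +kernel
  obtain ⟨k, hk, hk2, hk3⟩ := CfsgLib.Restr28.ptw_trans base_octad hq' h4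
  refine ⟨k * h, mul_mem hk hh, ?_, ?_, ?_⟩
  · rw [Equiv.Perm.mul_apply, e1]
    exact hk2 _ (by decide +kernel)
  · rw [Equiv.Perm.mul_apply]; exact hk3
  · rw [mul_smul, e2]
    exact (CfsgLib.Restr28.stab_of_fixing hk2)

theorem dodecad_base {d : Finset GolayPt} (hd : d ∈ dodecads) {p : GolayPt} (hp : p ∈ d) :
    ∃ h ∈ M24, h p = pt 23 ∧ h • d = fset 8442831 := by
  obtain ⟨y, hy⟩ := exists_emb (s := d.erase p) (n := 4) (by
    rw [Finset.card_erase_of_mem hp, show d.card = 12 from hd.2]; norm_num)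
  have hyp : ∀ i, y i ≠ p := fun i => (Finset.mem_erase.1 (hy i)).1
  have hyd : ∀ i, y i ∈ d := fun i => (Finset.mem_erase.1 (hy i)).2
  let x : Fin 5 → GolayPt := Fin.cons p y
  have hx : Function.Injective x := by
    rw [Fin.cons_injective_iff]
    refine ⟨?_, y.injective⟩
    rintro ⟨i, hi⟩
    exact hyp i hi
  obtain ⟨g, hg, h1, h2⟩ := move_dodecad hd ⟨x, hx⟩ (by
    intro i
    refine Fin.cases ?_ (fun j => ?_) i
    · exact hp
    · exact hyd j)
  exact ⟨g, hg, h1 0, h2⟩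

end CfsgLib.Fam28
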