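import Mathlib
import Cfsg.Agent.EqBase
import Cfsg.Agent.LibFam28

set_option autoImplicit false

/-! Transitivity on families of octads and dodecads: results (helper28). -/

namespace CfsgLib.FamB28

open Cfsg CfsgLib.Golay CfsgLib.M24 CfsgLib.Syn28 CfsgLib.OrbAbs28 CfsgLib.OrbM28 CfsgLib.OrbG28 CfsgLib.Cnt28
  CfsgLib.Elt28 CfsgLib.OrbH28 CfsgLib.OrbI28 CfsgLib.Fam28 MulAction
open scoped Pointwise

theorem fset23 : fset 8388608 = {pt 23} := by ext p; revert p; decide +kernel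
theorem fset0 : fset 1 = {pt 0} := by ext p; revert p; decide +kernel
theorem fset4 : fset 16 = {pt 4} := by ext p; revert p; decide +kernel

theorem smul_single (h : ↥M24) (p : GolayPt) : h • ({p} : Finset GolayPt) = {(h : Equiv.Perm GolayPt) p} :=
  Finset.smul_finset_singleton p

theorem trans_qa : ∀ x ∈ octads, ∀ y ∈ octads, (c3 (fset 8536111, fset 8388608, fset 1) x).2 = (1, 1) →
    c3 (fset 8536111, fset 8388608, fset 1) x = c3 (fset 8536111, fset 8388608, fset 1) y →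
    ∃ g : ↥M24, g • ((fset 8536111, fset 8388608, fset 1) : T3) = (fset 8536111, fset 8388608, fset 1) ∧ g • x = y := by
  intro x hx y hy hf hxy
  refine fam_of_pieces pcs_qa (fun t => t.2 = (1, 1)) ?_ hx hy hf hxy
  intro i j
  rw [c3_fset, c3_fset]
  revert i j
  decide +kernel

theorem trans_qb : ∀ x ∈ octads, ∀ y ∈ octads, (c3 (fset 8536111, fset 8388608, fset 16) x).2 = (1, 0) →
    c3 (fset 8536111, fset 8388608, fset 16) x = c3 (fset 8536111, fset 8388608, fset 16) y →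
    ∃ g : ↥M24, g • ((fset 8536111, fset 8388608, fset 16) : T3) = (fset 8536111, fset 8388608, fset 16) ∧ g • x = y := by
  intro x hx y hy hf hxy
  refine fam_of_pieces pcs_qb (fun t => t.2 = (1, 0)) ?_ hx hy hf hxy
  intro i j
  rw [c3_fset, c3_fset]
  revert i j
  decide +kernel

theorem trans_qc : ∀ x ∈ octads, ∀ y ∈ octads, (c3 (fset 8536111, fset 8388608, fset 16777215) x).2.1 = 1 →
    c3 (fset 8536111, fset 8388608, fset 16777215) x = c3 (fset 8536111, fset 8388608, fset 16777215) y →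
    ∃ g : ↥M24, g • ((fset 8536111, fset 8388608, fset 16777215) : T3) = (fset 8536111, fset 8388608, fset 16777215) ∧ g • x = y := by
  intro x hx y hy hf hxy
  refine fam_of_pieces pcs_qc (fun t => t.2.1 = 1) ?_ hx hy hf hxy
  intro i j
  rw [c3_fset, c3_fset]
  revert i j
  decide +kernel

theorem trans_qd : ∀ x ∈ octads, ∀ y ∈ octads, (c3 (fset 8536111, fset 16, fset 16777215) x).2.1 = 0 →
    c3 (fset 8536111, fset 16, fset 16777215) x = c3 (fset 8536111, fset 16, fset 16777215) y →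
    ∃ g : ↥M24, g • ((fset 8536111, fset 16, fset 16777215) : T3) = (fset 8536111, fset 16, fset 16777215) ∧ g • x = y := by
  intro x hx y hy hf hxy
  refine fam_of_pieces pcs_qd (fun t => t.2.1 = 0) ?_ hx hy hf hxy
  intro i j
  rw [c3_fset, c3_fset]
  revert i j
  decide +kernel

theorem trans_qe : ∀ x ∈ dodecads, ∀ y ∈ dodecads, (c3 (fset 8442831, fset 8388608, fset 16777215) x).2.1 = 1 →
    c3 (fset 8442831, fset 8388608, fset 16777215) x = c3 (fset 8442831, fset 8388608, fset 16777215) y →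
    ∃ g : ↥M24, g • ((fset 8442831, fset 8388608, fset 16777215) : T3) = (fset 8442831, fset 8388608, fset 16777215) ∧ g • x = y := by
  intro x hx y hy hf hxy
  refine fam_of_pieces pcs_qe (fun t => t.2.1 = 1) ?_ hx hy hf hxy
  intro i j
  rw [c3_fset, c3_fset]
  revert i j
  decide +kernel

theorem full_card (x : Finset GolayPt) : ((Finset.univ : Finset GolayPt) ∩ x).card = x.card := by rw [Finset.univ_inter]

/-- the tuple action unfolded -/
theorem fix_iff {g : ↥M24} {A B C : Finset GolayPt} (h : g • ((A, B, C) : T3) = (A, B, C)) :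
    g • A = A ∧ g • B = B ∧ g • C = C := by
  have h' : ((g • A, g • B, g • C) : T3) = (A, B, C) := h
  rw [Prod.mk.injEq, Prod.mk.injEq] at h'
  exact h'

theorem fix_single {g : ↥M24} {p : GolayPt} (h : g • ({p} : Finset GolayPt) = {p}) : (g : Equiv.Perm GolayPt) p = p := by
  rw [smul_single, Finset.singleton_inj] at h; exact h

theorem base_qa {o : Finset GolayPt} (ho : o ∈ octads) {p q : GolayPt} (hp : p ∈ o) (hq : q ∈ o) (hpq : p ≠ q) :
    ∃ h : ↥M24, h • ((o, {p}, {q}) : T3) = (fset 8536111, fset 8388608, fset 1) := by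
  obtain ⟨h, hh, e1, e2, e3⟩ := octad_base2 ho hp hq hpq
  refine ⟨⟨h, hh⟩, ?_⟩
  show ((⟨h, hh⟩ : ↥M24) • o, (⟨h, hh⟩ : ↥M24) • ({p} : Finset GolayPt), (⟨h, hh⟩ : ↥M24) • ({q} : Finset GolayPt)) = _
  rw [smul_single, smul_single, fset23, fset0, e1, e2]
  exact Prod.ext e3 rfl

theorem base_qb {o : Finset GolayPt} (ho : o ∈ octads) {p q : GolayPt} (hp : p ∈ o) (hq : q ∉ o) :
    ∃ h : ↥M24, h • ((o, {p}, {q}) : T3) = (fset 8536111, fset 8388608, fset 16) := by
  obtain ⟨h, hh, e1, e2, e3⟩ := octad_base1 ho hp hq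
  refine ⟨⟨h, hh⟩, ?_⟩
  show ((⟨h, hh⟩ : ↥M24) • o, (⟨h, hh⟩ : ↥M24) • ({p} : Finset GolayPt), (⟨h, hh⟩ : ↥M24) • ({q} : Finset GolayPt)) = _
  rw [smul_single, smul_single, fset23, fset4, e1, e2]
  exact Prod.ext e3 rfl

theorem smul_univ' (h : ↥M24) : h • (Finset.univ : Finset GolayPt) = Finset.univ := Finset.smul_finset_univ

theorem base_qc {o : Finset GolayPt} (ho : o ∈ octads) {p : GolayPt} (hp : p ∈ o) :
    ∃ h : ↥M24, h • ((o, {p}, Finset.univ) : T3) = (fset 8536111, fset 8388608, fset 16777215) := by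
  obtain ⟨q, hq, hqp⟩ := pick o (n := 1) (by rw [show o.card = 8 from ho.2]; norm_num) {p} (by simp)
  obtain ⟨h, hh, e1, e2, e3⟩ := octad_base2 ho hp hq (fun h => hqp (by rw [h]; simp))
  refine ⟨⟨h, hh⟩, ?_⟩
  show ((⟨h, hh⟩ : ↥M24) • o, (⟨h, hh⟩ : ↥M24) • ({p} : Finset GolayPt), (⟨h, hh⟩ : ↥M24) • (Finset.univ : Finset GolayPt)) = _
  rw [smul_single, smul_univ', fset_full, fset23, e1]
  exact Prod.ext e3 rfl

theorem base_qd {o : Finset GolayPt} (ho : o ∈ octads) {q : GolayPt} (hq : q ∉ o) :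
    ∃ h : ↥M24, h • ((o, {q}, Finset.univ) : T3) = (fset 8536111, fset 16, fset 16777215) := by
  obtain ⟨p, hp, _⟩ := pick o (n := 1) (by rw [show o.card = 8 from ho.2]; norm_num) ∅ (by simp)
  obtain ⟨h, hh, e1, e2, e3⟩ := octad_base1 ho hp hq
  refine ⟨⟨h, hh⟩, ?_⟩
  show ((⟨h, hh⟩ : ↥M24) • o, (⟨h, hh⟩ : ↥M24) • ({q} : Finset GolayPt), (⟨h, hh⟩ : ↥M24) • (Finset.univ : Finset GolayPt)) = _
  rw [smul_single, smul_univ', fset_full, fset4, e2]
  exact Prod.ext e3 rfl

theorem base_qe {d : Finset GolayPt} (hd : d ∈ dodecads) {p : GolayPt} (hp : p ∈ d) :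
    ∃ h : ↥M24, h • ((d, {p}, Finset.univ) : T3) = (fset 8442831, fset 8388608, fset 16777215) := by
  obtain ⟨h, hh, e1, e3⟩ := dodecad_base hd hp
  refine ⟨⟨h, hh⟩, ?_⟩
  show ((⟨h, hh⟩ : ↥M24) • d, (⟨h, hh⟩ : ↥M24) • ({p} : Finset GolayPt), (⟨h, hh⟩ : ↥M24) • (Finset.univ : Finset GolayPt)) = _
  rw [smul_single, smul_univ', fset_full, fset23, e1]
  exact Prod.ext e3 rfl

theorem one_iff {p : GolayPt} {x : Finset GolayPt} : ({p} ∩ x : Finset GolayPt).card = 1 ↔ p ∈ x := by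
  rw [single_card]; split <;> simp_all

theorem zero_iff {p : GolayPt} {x : Finset GolayPt} : ({p} ∩ x : Finset GolayPt).card = 0 ↔ p ∉ x := by
  rw [single_card]; split <;> simp_all

end CfsgLib.FamB28
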