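import Mathlib

/-! The number of conjugacy classes of alternating and symmetric groups. -/

open Equiv Equiv.Perm

namespace CfsgLib.FgAnCls

theorem card_step (n : ℕ) : Fintype.card (Nat.Partition (n + 1)) ≤ 2 * Fintype.card (Nat.Partition n) := by
  classical
  rw [← Fintype.card_congr (Equiv.sumCompl (fun l : Nat.Partition (n + 1) => 1 ∈ l.parts)),
    Fintype.card_sum, two_mul]
  apply Nat.add_le_add
  · refine Fintype.card_le_of_injective (fun l => (⟨l.1.parts.erase 1, ?_, ?_⟩ : Nat.Partition n)) ?_
    · intro i hi
      exact l.1.parts_pos (Multiset.mem_of_mem_erase hi)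
    · have h1 := Multiset.sum_erase l.2
      have h2 := l.1.parts_sum
      omega
    · intro a b hab
      have h1 : a.1.parts.erase 1 = b.1.parts.erase 1 := congrArg Nat.Partition.parts hab
      apply Subtype.ext
      apply Nat.Partition.ext
      rw [← Multiset.cons_erase a.2, ← Multiset.cons_erase b.2, h1]
  · have hex : ∀ l : Nat.Partition (n + 1), ∃ x, x ∈ l.parts := by
      intro l
      by_contra hcon
      push Not at hcon
      have h1 := Multiset.eq_zero_of_forall_notMem hcon
      have h2 := l.parts_sum
      rw [h1] at h2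
      simp at h2
    let m : Nat.Partition (n + 1) → ℕ := fun l => Nat.find (hex l)
    have hm : ∀ l, m l ∈ l.parts := fun l => Nat.find_spec (hex l)
    have hmin : ∀ l, ∀ x ∈ l.parts, m l ≤ x := fun l x hx => Nat.find_min' (hex l) hx
    have hm2 : ∀ l : {l : Nat.Partition (n + 1) // ¬ 1 ∈ l.parts}, 2 ≤ m l.1 := by
      intro l
      have h1 := l.1.parts_pos (hm l.1)
      have h2 : m l.1 ≠ 1 := by
        intro h
        have h3 := hm l.1
        rw [h] at h3
        exact l.2 h3
      omega
    refine Fintype.card_le_of_injective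
      (fun l => (⟨(m l.1 - 1) ::ₘ l.1.parts.erase (m l.1), ?_, ?_⟩ : Nat.Partition n)) ?_
    · intro i hi
      have := hm2 l
      rcases Multiset.mem_cons.1 hi with rfl | hi
      · omega
      · exact l.1.parts_pos (Multiset.mem_of_mem_erase hi)
    · have h1 := Multiset.sum_erase (hm l.1)
      have h2 := l.1.parts_sum
      have := hm2 l
      rw [Multiset.sum_cons]
      omega
    · intro a b hab
      have h1 : (m a.1 - 1) ::ₘ a.1.parts.erase (m a.1) = (m b.1 - 1) ::ₘ b.1.parts.erase (m b.1) :=
        congrArg Nat.Partition.parts hab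
      have ha := hm2 a
      have hb := hm2 b
      have key : ∀ a b : {l : Nat.Partition (n + 1) // ¬ 1 ∈ l.parts},
          (m a.1 - 1) ::ₘ a.1.parts.erase (m a.1) = (m b.1 - 1) ::ₘ b.1.parts.erase (m b.1) →
          m b.1 - 1 ≤ m a.1 - 1 := by
        intro a b h1
        have hb := hm2 b
        have h2 : m a.1 - 1 ∈ (m b.1 - 1) ::ₘ b.1.parts.erase (m b.1) := by
          rw [← h1]; exact Multiset.mem_cons_self _ _
        rcases Multiset.mem_cons.1 h2 with h3 | h3
        · exact h3.ge
        · have := hmin b.1 _ (Multiset.mem_of_mem_erase h3)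
          omega
      have h2 := key a b h1
      have h3 := key b a h1.symm
      have h4 : m a.1 = m b.1 := by omega
      rw [h4] at h1
      have h5 := (Multiset.cons_inj_right _).1 h1
      apply Subtype.ext
      apply Nat.Partition.ext
      rw [← Multiset.cons_erase (hm a.1), ← Multiset.cons_erase (hm b.1), h4, h5]

theorem card_tuples : Fintype.card {t : Fin 6 × Fin 3 × Fin 2 × Fin 2 × Fin 2 //
    (t.1 : ℕ) + 2 * t.2.1 + 3 * t.2.2.1 + 4 * t.2.2.2.1 + 5 * t.2.2.2.2 = 5} ≤ 8 := by decide +kernel

theorem card_five : Fintype.card (Nat.Partition 5) ≤ 8 := by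
  refine le_trans ?_ card_tuples
  have key : ∀ l : Nat.Partition 5, l.parts.count 1 + 2 * l.parts.count 2 + 3 * l.parts.count 3 +
      4 * l.parts.count 4 + 5 * l.parts.count 5 = 5 := by
    intro l
    have h1 := Finset.sum_multiset_count l.parts
    rw [l.parts_sum] at h1
    have h2 : l.parts.toFinset ⊆ Finset.range 6 := by
      intro i hi
      rw [Multiset.mem_toFinset] at hi
      have := l.parts_sum
      have h3 := Multiset.single_le_sum (by simp) i hi
      rw [Finset.mem_range]
      omega
    rw [Finset.sum_subset h2 (by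
      intro i _ hi
      rw [Multiset.mem_toFinset] at hi
      rw [Multiset.count_eq_zero_of_notMem hi, zero_smul])] at h1
    simp only [Finset.sum_range_succ, Finset.sum_range_zero, smul_eq_mul] at h1
    omega
  have hpos : ∀ l : Nat.Partition 5, l.parts.count 0 = 0 := by
    intro l
    apply Multiset.count_eq_zero_of_notMem
    intro h
    exact absurd (l.parts_pos h) (lt_irrefl _)
  have hbig : ∀ l : Nat.Partition 5, ∀ i, 6 ≤ i → l.parts.count i = 0 := by
    intro l i hi
    apply Multiset.count_eq_zero_of_notMem
    intro h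
    have := l.parts_sum
    have h3 := Multiset.single_le_sum (by simp) i h
    omega
  refine Fintype.card_le_of_injective (fun l => ⟨(⟨l.parts.count 1, by have := key l; omega⟩,
    ⟨l.parts.count 2, by have := key l; omega⟩, ⟨l.parts.count 3, by have := key l; omega⟩,
    ⟨l.parts.count 4, by have := key l; omega⟩, ⟨l.parts.count 5, by have := key l; omega⟩), key l⟩) ?_
  intro a b hab
  have h1 := congrArg (fun t => (t.1.1 : ℕ)) hab
  have h2 := congrArg (fun t => (t.1.2.1 : ℕ)) hab
  have h3 := congrArg (fun t => (t.1.2.2.1 : ℕ)) hab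
  have h4 := congrArg (fun t => (t.1.2.2.2.1 : ℕ)) hab
  have h5 := congrArg (fun t => (t.1.2.2.2.2 : ℕ)) hab
  dsimp at h1 h2 h3 h4 h5
  apply Nat.Partition.ext
  ext i
  rcases Nat.lt_or_ge i 6 with hi | hi
  · interval_cases i
    · rw [hpos, hpos]
    · exact h1
    · exact h2
    · exact h3
    · exact h4
    · exact h5
  · rw [hbig a i hi, hbig b i hi]

theorem card_bound (n : ℕ) (hn : 5 ≤ n) : Fintype.card (Nat.Partition n) ≤ 2 ^ (n - 2) := by
  induction n, hn using Nat.le_induction with
  | base => exact card_five
  | succ n hn ih =>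
    have h1 := card_step n
    have h2 : n + 1 - 2 = (n - 2) + 1 := by omega
    rw [h2, pow_succ]
    omega

variable {α : Type*} [Fintype α] [DecidableEq α]

theorem exists_partition (l : (Fintype.card α).Partition) : ∃ g : Perm α, g.partition = l := by
  have h1 : l.parts.filter (fun n => 2 ≤ n) + l.parts.filter (fun n => ¬ 2 ≤ n) = l.parts :=
    Multiset.filter_add_not _ _
  have h2 : l.parts.filter (fun n => ¬ 2 ≤ n) =
      Multiset.replicate (Multiset.card (l.parts.filter (fun n => ¬ 2 ≤ n))) 1 := by
    rw [Multiset.eq_replicate_card]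
    intro b hb
    obtain ⟨hb1, hb2⟩ := Multiset.mem_filter.1 hb
    have := l.parts_pos hb1
    omega
  have h3 : (l.parts.filter (fun n => 2 ≤ n)).sum + Multiset.card (l.parts.filter (fun n => ¬ 2 ≤ n)) =
      Fintype.card α := by
    have h4 := congrArg Multiset.sum h1
    rw [Multiset.sum_add, l.parts_sum] at h4
    have h5 := congrArg Multiset.sum h2
    rw [Multiset.sum_replicate, smul_eq_mul, mul_one] at h5
    omega
  obtain ⟨g, hg⟩ := (exists_with_cycleType_iff α (m := l.parts.filter (fun n => 2 ≤ n))).2
    ⟨by omega, fun a ha => (Multiset.mem_filter.1 ha).2⟩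
  refine ⟨g, ?_⟩
  apply Nat.Partition.ext
  rw [parts_partition, ← sum_cycleType, hg]
  conv_rhs => rw [← h1, h2]
  congr 2
  omega

theorem card_classes : Nat.card (ConjClasses (Perm α)) = Fintype.card ((Fintype.card α).Partition) := by
  rw [← Nat.card_eq_fintype_card]
  apply Nat.card_congr
  refine Equiv.ofBijective (Quotient.lift (fun g : Perm α => g.partition)
    (fun a b h => partition_eq_of_isConj.1 h)) ⟨?_, ?_⟩
  · intro a b
    induction a using Quotient.inductionOn with
    | h a =>
    induction b using Quotient.inductionOn with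
    | h b =>
    intro h
    exact Quotient.sound (partition_eq_of_isConj.2 h)
  · intro l
    obtain ⟨g, hg⟩ := exists_partition l
    exact ⟨Quotient.mk _ g, hg⟩

/-- split type: odd distinct parts -/
def Split (l : Multiset ℕ) : Prop := (∀ i ∈ l, Odd i) ∧ l.Nodup

theorem split_of_centralizer {g : Perm α} (h : Subgroup.centralizer {g} ≤ alternatingGroup α) :
    Split g.partition.parts := by
  obtain ⟨h1, h2, h3⟩ := Equiv.Perm.centralizer_le_alternating_iff.1 h
  rw [sum_cycleType] at h2
  rw [parts_partition]
  constructor
  · intro i hi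
    rcases Multiset.mem_add.1 hi with hi | hi
    · exact h1 i hi
    · rw [Multiset.eq_of_mem_replicate hi]; exact odd_one
  · rw [Multiset.nodup_add]
    refine ⟨Multiset.nodup_iff_count_le_one.2 h3, ?_, ?_⟩
    · rw [Multiset.nodup_iff_count_le_one]
      intro a
      rw [Multiset.count_replicate]
      split_ifs <;> omega
    · rw [Multiset.disjoint_left]
      intro a ha hb
      have := two_le_of_mem_cycleType ha
      rw [Multiset.eq_of_mem_replicate hb] at this
      omega

theorem exists_odd {g : Perm α} (h : ¬ Split g.partition.parts) :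
    ∃ k : Perm α, k ∉ alternatingGroup α ∧ k * g = g * k := by
  by_contra hcon
  push Not at hcon
  apply h
  apply split_of_centralizer
  intro k hk
  by_contra hk2
  exact hcon k hk2 (Subgroup.mem_centralizer_iff.1 hk g rfl).symm

/-- parity of the number of parts -/
theorem sign_eq (g : Perm α) : sign g = (-1) ^ (Fintype.card α + Multiset.card g.partition.parts) := by
  rw [sign_of_cycleType, parts_partition, Multiset.card_add, Multiset.card_replicate, sum_cycleType]
  have h1 : g.support.card ≤ Fintype.card α := Finset.card_le_univ _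
  obtain ⟨k, hk⟩ := Nat.exists_eq_add_of_le h1
  rw [show Fintype.card α - g.support.card = k by omega, hk]
  rw [show g.support.card + k + (Multiset.card g.cycleType + k) =
    (g.support.card + Multiset.card g.cycleType) + 2 * k by ring, pow_add _ _ (2 * k), pow_mul]
  simp

theorem mul_mem_alt {a b : Perm α} (ha : a ∉ alternatingGroup α) (hb : b ∉ alternatingGroup α) :
    a * b ∈ alternatingGroup α := by
  rw [mem_alternatingGroup] at *
  rw [map_mul, (Int.units_eq_one_or _).resolve_left ha, (Int.units_eq_one_or _).resolve_left hb]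
  rfl

theorem inv_not_mem {a : Perm α} (ha : a ∉ alternatingGroup α) : a⁻¹ ∉ alternatingGroup α :=
  fun h => ha (by simpa using inv_mem h)

/-- the partition of a class of the alternating group -/
def part : ConjClasses (alternatingGroup α) → (Fintype.card α).Partition :=
  Quotient.lift (fun g => (g : Perm α).partition) (fun a b h => by
    apply partition_eq_of_isConj.1
    obtain ⟨c, hc⟩ := isConj_iff.1 h
    exact isConj_iff.2 ⟨c, congrArg Subtype.val hc⟩)

theorem part_single {c c' : ConjClasses (alternatingGroup α)} (h : part c = part c')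
    (hs : ¬ Split (part c).parts) : c = c' := by
  induction c using Quotient.inductionOn with
  | h g =>
  induction c' using Quotient.inductionOn with
  | h g' =>
  change (g : Perm α).partition = (g' : Perm α).partition at h
  change ¬ Split (g : Perm α).partition.parts at hs
  obtain ⟨τ, hτ⟩ := isConj_iff.1 (partition_eq_of_isConj.2 h)
  apply Quotient.sound
  apply isConj_iff.2
  by_cases hτA : τ ∈ alternatingGroup α
  · exact ⟨⟨τ, hτA⟩, Subtype.ext hτ⟩
  · obtain ⟨k, hk, hkg⟩ := exists_odd hs
    refine ⟨⟨τ * k, mul_mem_alt hτA hk⟩, Subtype.ext ?_⟩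
    change τ * k * g * (τ * k)⁻¹ = g'
    rw [← hτ, mul_assoc τ k, hkg]
    group

theorem part_two {c c' d : ConjClasses (alternatingGroup α)} (h : part c = part d)
    (h' : part c' = part d) (hc : c ≠ d) (hc' : c' ≠ d) : c = c' := by
  induction c using Quotient.inductionOn with
  | h g =>
  induction c' using Quotient.inductionOn with
  | h g' =>
  induction d using Quotient.inductionOn with
  | h e =>
  change (g : Perm α).partition = (e : Perm α).partition at h
  change (g' : Perm α).partition = (e : Perm α).partition at h'
  obtain ⟨τ, hτ⟩ := isConj_iff.1 (partition_eq_of_isConj.2 h)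
  obtain ⟨σ, hσ⟩ := isConj_iff.1 (partition_eq_of_isConj.2 h')
  have h1 : τ ∉ alternatingGroup α := by
    intro hA
    exact hc (Quotient.sound (isConj_iff.2 ⟨⟨τ, hA⟩, Subtype.ext hτ⟩))
  have h2 : σ ∉ alternatingGroup α := by
    intro hA
    exact hc' (Quotient.sound (isConj_iff.2 ⟨⟨σ, hA⟩, Subtype.ext hσ⟩))
  apply Quotient.sound
  apply isConj_iff.2
  refine ⟨⟨σ⁻¹ * τ, mul_mem_alt (inv_not_mem h2) h1⟩, Subtype.ext ?_⟩
  change σ⁻¹ * τ * g * (σ⁻¹ * τ)⁻¹ = g'
  have h3 : σ⁻¹ * τ * g * (σ⁻¹ * τ)⁻¹ = σ⁻¹ * (τ * g * τ⁻¹) * σ := by group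
  rw [h3, hτ, ← hσ]
  group

theorem part_even (c : ConjClasses (alternatingGroup α)) :
    Even (Fintype.card α + Multiset.card (part c).parts) := by
  induction c using Quotient.inductionOn with
  | h g =>
  have h1 : sign (g : Perm α) = 1 := mem_alternatingGroup.1 g.2
  rw [sign_eq] at h1
  by_contra h2
  rw [Nat.not_even_iff_odd] at h2
  change Odd (Fintype.card α + Multiset.card (g : Perm α).partition.parts) at h2
  rw [h2.neg_one_pow] at h1
  exact absurd h1 (by decide)

theorem exists_psi (hn : 5 ≤ Fintype.card α) (l : (Fintype.card α).Partition) (hl : Split l.parts) :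
    ∃ (l' : (Fintype.card α).Partition) (m : ℕ), m ∈ l.parts ∧ 3 ≤ m ∧
      l'.parts = 1 ::ₘ (m - 1) ::ₘ l.parts.erase m := by
  obtain ⟨m, hm, hm3⟩ : ∃ m ∈ l.parts, 3 ≤ m := by
    by_contra hcon
    push Not at hcon
    have h1 : ∀ i ∈ l.parts, i = 1 := by
      intro i hi
      have h2 := hcon i hi
      obtain ⟨k, hk⟩ := hl.1 i hi
      omega
    have h2 := Multiset.eq_replicate_card.2 h1
    have h3 : Multiset.card l.parts ≤ 1 := by
      have h4 := Multiset.nodup_iff_count_le_one.1 hl.2 1
      rw [h2, Multiset.count_replicate_self] at h4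
      exact h4
    have h4 := l.parts_sum
    rw [h2, Multiset.sum_replicate, smul_eq_mul, mul_one] at h4
    omega
  refine ⟨⟨1 ::ₘ (m - 1) ::ₘ l.parts.erase m, ?_, ?_⟩, m, hm, hm3, rfl⟩
  · intro i hi
    rcases Multiset.mem_cons.1 hi with rfl | hi
    · omega
    rcases Multiset.mem_cons.1 hi with rfl | hi
    · omega
    · exact l.parts_pos (Multiset.mem_of_mem_erase hi)
  · have h1 := Multiset.sum_erase hm
    have h2 := l.parts_sum
    rw [Multiset.sum_cons, Multiset.sum_cons]
    omega

theorem card_lt (hn : 5 ≤ Fintype.card α) : Nat.card (ConjClasses (alternatingGroup α)) <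
    Nat.card (ConjClasses (Perm α)) := by
  classical
  rw [card_classes]
  choose! psi m hm hm3 hpsi using exists_psi (α := α) hn
  -- choice of one class for each partition
  let pick : (Fintype.card α).Partition → ConjClasses (alternatingGroup α) := fun l =>
    if h : ∃ c : ConjClasses (alternatingGroup α), part c = l then h.choose else ConjClasses.mk 1
  have hpick : ∀ c : ConjClasses (alternatingGroup α), part (pick (part c)) = part c := by
    intro c
    have h : ∃ c' : ConjClasses (alternatingGroup α), part c' = part c := ⟨c, rfl⟩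
    simp only [pick, dif_pos h]
    exact h.choose_spec
  let f : ConjClasses (alternatingGroup α) → (Fintype.card α).Partition := fun c =>
    if Split (part c).parts ∧ c ≠ pick (part c) then psi (part c) else part c
  have hodd : ∀ l : (Fintype.card α).Partition, Split l.parts →
      Even (Fintype.card α + Multiset.card l.parts) →
      ¬ Even (Fintype.card α + Multiset.card (psi l).parts) := by
    intro l hl h1
    have h2 := congrArg Multiset.card (hpsi l hl)
    rw [Multiset.card_cons, Multiset.card_cons, Multiset.card_erase_of_mem (hm l hl)] at h2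
    have h3 : 0 < Multiset.card l.parts := Multiset.card_pos_iff_exists_mem.2 ⟨_, hm l hl⟩
    have h4 : Fintype.card α + Multiset.card (psi l).parts = Fintype.card α + Multiset.card l.parts + 1 := by
      rw [h2, Nat.pred_eq_sub_one]
      omega
    rw [h4, Nat.even_add_one]
    exact not_not.2 h1
  have hinj : ∀ l l' : (Fintype.card α).Partition, Split l.parts → Split l'.parts → psi l = psi l' → l = l' := by
    intro l l' hl hl' h
    have h1 : 1 ::ₘ (m l - 1) ::ₘ l.parts.erase (m l) = 1 ::ₘ (m l' - 1) ::ₘ l'.parts.erase (m l') := by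
      rw [← hpsi l hl, ← hpsi l' hl', h]
    have h2 : m l - 1 = m l' - 1 := by
      have h3 : m l - 1 ∈ 1 ::ₘ (m l' - 1) ::ₘ l'.parts.erase (m l') := by
        rw [← h1]
        exact Multiset.mem_cons_of_mem (Multiset.mem_cons_self _ _)
      have h4 := hm3 l hl
      obtain ⟨k, hk⟩ := hl.1 _ (hm l hl)
      rcases Multiset.mem_cons.1 h3 with h5 | h5
      · omega
      rcases Multiset.mem_cons.1 h5 with h5 | h5
      · exact h5
      · obtain ⟨k', hk'⟩ := hl'.1 _ (Multiset.mem_of_mem_erase h5)
        omega
    have h3 : m l = m l' := by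
      have := hm3 l hl
      have := hm3 l' hl'
      omega
    rw [h3] at h1
    have h4 := (Multiset.cons_inj_right _).1 ((Multiset.cons_inj_right _).1 h1)
    apply Nat.Partition.ext
    have h5 := hm l hl
    rw [h3] at h5
    rw [← Multiset.cons_erase h5, ← Multiset.cons_erase (hm l' hl'), h4]
  have hf : Function.Injective f := by
    intro c c' hcc
    simp only [f] at hcc
    split_ifs at hcc with h1 h2 h2
    · have h3 := hinj _ _ h1.1 h2.1 hcc
      have h4 := hpick c
      refine part_two (d := pick (part c)) h4.symm (by rw [h4, h3]) h1.2 ?_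
      rw [h3]; exact h2.2
    · exfalso
      apply hodd _ h1.1 (part_even c)
      rw [hcc]
      exact part_even c'
    · exfalso
      apply hodd _ h2.1 (part_even c')
      rw [← hcc]
      exact part_even c
    · by_cases h3 : Split (part c).parts
      · have h4 : c = pick (part c) := by
          by_contra h5; exact h1 ⟨h3, h5⟩
        have h5 : c' = pick (part c') := by
          by_contra h5; exact h2 ⟨by rw [← hcc]; exact h3, h5⟩
        rw [h4, h5, hcc]
      · exact part_single hcc h3
  -- the transposition
  obtain ⟨a, b, hab⟩ : ∃ a b : α, a ≠ b := by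
    haveI : Nontrivial α := Fintype.one_lt_card_iff_nontrivial.1 (by omega)
    exact exists_pair_ne α
  set t := (swap a b).partition with ht
  have htp : t.parts = {2} + Multiset.replicate (Fintype.card α - 2) 1 := by
    rw [ht, parts_partition, (isSwap_iff_cycleType.1 (swap_isSwap_iff.2 hab)), card_support_swap hab]
  have htc : Multiset.card t.parts + 1 = Fintype.card α := by
    rw [htp, Multiset.card_add, Multiset.card_replicate, Multiset.card_singleton]
    omega
  have hft : ∀ c, f c ≠ t := by
    intro c hc
    simp only [f] at hc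
    split_ifs at hc with h1
    · have h2 : Multiset.count 1 (psi (part c)).parts = Multiset.count 1 t.parts := by rw [hc]
      have h3 := hm3 _ h1.1
      rw [hpsi _ h1.1, htp, Multiset.count_cons_self, Multiset.count_cons_of_ne (by omega),
        Multiset.count_add, Multiset.count_replicate_self] at h2
      have h4 := (Multiset.count_le_of_le 1 (Multiset.erase_le (m (part c)) (part c).parts)).trans
        (Multiset.nodup_iff_count_le_one.1 h1.1.2 1)
      omega
    · have h2 := part_even c
      rw [hc] at h2
      obtain ⟨k, hk⟩ := h2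
      omega
  haveI : Fintype (ConjClasses (alternatingGroup α)) := Fintype.ofFinite _
  rw [Nat.card_eq_fintype_card]
  apply Fintype.card_lt_of_injective_of_notMem f hf (b := t)
  rintro ⟨c, hc⟩
  exact hft c hc

end CfsgLib.FgAnCls
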