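import Cfsg.Agent.EqBase
import Cfsg.Agent.LibSolvFrat
import Cfsg.Agent.LibSolvCrit

/-! `p`-groups with a unique subgroup of order `p ^ s` are cyclic. -/

set_option autoImplicit false
set_option linter.unusedSectionVars false
set_option linter.style.haveILetI false

namespace CfsgLib.FgCyc

universe u v

open Subgroup
open scoped commutatorElement

variable {G : Type u} [Group G] [Finite G] {p : ℕ}

theorem relIndex_card {H K : Subgroup G} (h : H ≤ K) : Nat.card H * H.relIndex K = Nat.card K := by
  have := relIndex_mul_relIndex ⊥ H K bot_le h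
  rwa [relIndex_bot_left, relIndex_bot_left] at this

theorem exists_coatom_of_ne_top {H : Subgroup G} (h : H ≠ ⊤) : ∃ M : Subgroup G, IsCoatom M ∧ H ≤ M := by
  rcases eq_top_or_exists_le_coatom H with h1 | h1
  · exact absurd h1 h
  · exact h1

/-- in a cyclic group (subgroup) there are at most `n` elements `x` with `x ^ n = 1` -/
theorem card_pow_le {H : Subgroup G} (hH : IsCyclic H) {n : ℕ} (hn : 0 < n) (K : Subgroup G)
    (hK : K ≤ H) (hKn : ∀ x ∈ K, x ^ n = 1) : Nat.card K ≤ n := by
  classical
  haveI := Fintype.ofFinite H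
  refine le_trans ?_ (IsCyclic.card_pow_eq_one_le (α := H) hn)
  have h1 : Nat.card K = ((K.subgroupOf H : Set H).toFinset).card := by
    rw [Set.toFinset_card, ← Nat.card_eq_fintype_card]
    exact (Nat.card_congr (subgroupOfEquivOfLe hK).toEquiv).symm
  rw [h1]
  apply Finset.card_le_card
  intro x hx
  rw [Set.mem_toFinset] at hx
  simp only [Finset.mem_filter, Finset.mem_univ, true_and]
  exact Subtype.ext (hKn x (mem_subgroupOf.mp hx))

section
variable [hp : Fact p.Prime] {m s : ℕ}

/-- unique subgroup of order `p ^ s` -/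
structure Uniq (p s : ℕ) (G : Type u) [Group G] (H : Subgroup G) : Prop where
  card : Nat.card H = p ^ s
  uniq : ∀ K : Subgroup G, Nat.card K = p ^ s → K = H

theorem Uniq.le {H : Subgroup G} (h : Uniq p s G H) {M : Subgroup G} {j : ℕ} (hM : Nat.card M = p ^ j)
    (hj : s ≤ j) : H ≤ M := by
  obtain ⟨K, hK⟩ := Sylow.exists_subgroup_card_pow_prime (G := M) p (n := s)
    (by rw [hM]; exact pow_dvd_pow p hj)
  rw [← h.uniq (K.map M.subtype) (by rw [card_map_of_injective M.subtype_injective, hK])]
  exact map_subtype_le K

theorem Uniq.ge {H : Subgroup G} (h : Uniq p s G H) (hG : Nat.card G = p ^ m) (hs : s ≤ m)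
    {M : Subgroup G} {j : ℕ} (hM : Nat.card M = p ^ j) (hj : j ≤ s) : M ≤ H := by
  obtain ⟨K, hK1, hK2⟩ := Sylow.exists_subgroup_card_pow_prime_le (G := G) p (n := j) (m := s)
    (by rw [hG]; exact pow_dvd_pow p hs) M hM hj
  rw [← h.uniq K hK1]
  exact hK2

theorem Uniq.le_zpowers {H : Subgroup G} (h : Uniq p s G H) (hG : Nat.card G = p ^ m) (hs : s ≤ m)
    {x : G} (hx : x ∉ H) : H ≤ zpowers x := by
  obtain ⟨j, -, hj⟩ := (Nat.dvd_prime_pow hp.out).mp (hG ▸ card_subgroup_dvd_card (zpowers x))
  rcases le_total j s with h1 | h1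
  · exact absurd (h.ge hG hs hj h1 (mem_zpowers x)) hx
  · exact h.le hj h1

theorem Uniq.isCyclic {H : Subgroup G} (h : Uniq p s G H) (hG : Nat.card G = p ^ m) (hs : s < m) :
    IsCyclic H := by
  have h1 : H ≠ ⊤ := by
    rintro rfl
    have := h.card
    rw [card_top, hG] at this
    exact absurd (Nat.pow_right_injective hp.out.two_le this) (by omega)
  obtain ⟨x, -, hx⟩ := SetLike.exists_of_lt (lt_top_iff_ne_top.mpr h1)
  have h2 := h.le_zpowers hG hs.le hx
  haveI : IsCyclic (H.subgroupOf (zpowers x)) := inferInstance
  exact isCyclic_of_surjective (subgroupOfEquivOfLe h2) (subgroupOfEquivOfLe h2).surjective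

theorem card_coatom (hG : Nat.card G = p ^ (m + 1)) {M : Subgroup G} (hM : IsCoatom M) :
    Nat.card M = p ^ m := by
  have h1 := CfsgLib.SolvFrat.index_of_isCoatom hp.out (IsPGroup.of_card hG) hM
  have h2 := card_mul_index M
  rw [h1, hG, pow_succ] at h2
  exact Nat.eq_of_mul_eq_mul_right hp.out.pos h2

theorem cyclic_main (n : ℕ) : ∀ (G : Type u) [Group G] [Finite G] (m s : ℕ) (H : Subgroup G), m ≤ n →
    Nat.card G = p ^ m → 1 ≤ s → s < m → (p ≠ 2 ∨ 2 ≤ s) → Uniq p s G H → IsCyclic G := by
  induction n with
  | zero => intro G _ _ m s H h1 h2 h3 h4; omega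
  | succ n ih =>
    intro G _ _ m s H hmn hG hs hsm h2 hU
    obtain ⟨m, rfl⟩ : ∃ m', m = m' + 1 := ⟨m - 1, by omega⟩
    have hGp : IsPGroup p G := IsPGroup.of_card hG
    haveI := hGp.isNilpotent
    by_contra hnc
    have hztop : ∀ x : G, zpowers x ≠ ⊤ := by
      intro x hx
      exact hnc ⟨x, fun y => by have h0 := mem_top (G := G) y; rw [← hx] at h0; exact h0⟩
    rcases Nat.lt_or_ge s m with hlt | hge
    · -- all maximal subgroups are cyclic
      have hcyc : ∀ M : Subgroup G, IsCoatom M → IsCyclic M := by
        intro M hM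
        have hMc := card_coatom hG hM
        have hHM : H ≤ M := hU.le hMc hlt.le
        refine ih M m s (H.subgroupOf M) (by omega) hMc hs hlt h2 ⟨?_, ?_⟩
        · rw [Nat.card_congr (subgroupOfEquivOfLe hHM).toEquiv, hU.card]
        · intro K hK
          have h3 := hU.uniq (K.map M.subtype) (by rw [card_map_of_injective M.subtype_injective, hK])
          rw [← h3, subgroupOf, comap_map_eq_self_of_injective M.subtype_injective]
      obtain ⟨A, hA, -⟩ := exists_coatom_of_ne_top (hztop 1)
      obtain ⟨y, -, hy⟩ := SetLike.exists_of_lt (lt_top_iff_ne_top.mpr hA.1)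
      obtain ⟨B, hB, hyB⟩ := exists_coatom_of_ne_top (hztop y)
      have hyB' : y ∈ B := hyB (mem_zpowers y)
      have hAc := hcyc A hA
      have hBc := hcyc B hB
      have hAn : A.Normal := CfsgLib.SolvFrat.normal_of_isCoatom hA
      have hBn : B.Normal := CfsgLib.SolvFrat.normal_of_isCoatom hB
      have hAi := CfsgLib.SolvFrat.index_of_isCoatom hp.out hGp hA
      have hBi := CfsgLib.SolvFrat.index_of_isCoatom hp.out hGp hB
      have hsup : A ⊔ B = ⊤ := by
        apply hA.2
        refine lt_of_le_of_ne le_sup_left ?_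
        intro h3
        exact hy (h3.symm ▸ (le_sup_right : B ≤ A ⊔ B) hyB')
      -- the centre contains D
      have hDz : A ⊓ B ≤ center G := by
        intro d hd
        have h3 : (⊤ : Subgroup G) ≤ centralizer ({d} : Set G) := by
          rw [← hsup]
          refine sup_le ?_ ?_
          · intro a ha
            rw [mem_centralizer_singleton_iff]
            letI := hAc.commGroup
            exact congrArg Subtype.val (mul_comm (⟨a, ha⟩ : A) ⟨d, hd.1⟩)
          · intro a ha
            rw [mem_centralizer_singleton_iff]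
            letI := hBc.commGroup
            exact congrArg Subtype.val (mul_comm (⟨a, ha⟩ : B) ⟨d, hd.2⟩)
        rw [mem_center_iff]
        intro g
        exact mem_centralizer_singleton_iff.mp (h3 (mem_top g))
      have hpow : ∀ x : G, x ^ p ∈ A ⊓ B := fun x =>
        mem_inf.mpr ⟨CfsgLib.SolvFrat.pow_mem_of_index_prime hp.out hAi x, CfsgLib.SolvFrat.pow_mem_of_index_prime hp.out hBi x⟩
      have hcomm : commutator G ≤ A ⊓ B :=
        le_inf (CfsgLib.SolvFrat.commutator_le_of_index_prime hp.out hAi)
          (CfsgLib.SolvFrat.commutator_le_of_index_prime hp.out hBi)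
      -- the order of D
      have hDcard : ∃ j, Nat.card (A ⊓ B : Subgroup G) = p ^ j ∧ j < m := by
        obtain ⟨j, -, hj⟩ := (Nat.dvd_prime_pow hp.out).mp (hG ▸ card_subgroup_dvd_card (A ⊓ B))
        refine ⟨j, hj, ?_⟩
        by_contra hge
        push Not at hge
        have h3 : A ⊓ B = A := by
          apply eq_of_le_of_card_ge inf_le_left
          rw [card_coatom hG hA, hj]
          exact Nat.pow_le_pow_right hp.out.pos hge
        have h4 : A ≤ B := inf_eq_left.mp h3
        have h5 : B = ⊤ := by rw [← hsup]; exact (sup_eq_right.mpr h4).symm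
        exact hB.1 h5
      obtain ⟨j, hj, hjm⟩ := hDcard
      -- the exponent
      obtain ⟨e, he1, hes, hediv, hec⟩ : ∃ e, 1 ≤ e ∧ e ≤ s ∧ p ∣ (p ^ e).choose 2 ∧
          ((e = 1 ∧ p ≠ 2) ∨ (e = 2 ∧ p = 2)) := by
        by_cases hp2 : p = 2
        · refine ⟨2, by norm_num, ?_, ?_, Or.inr ⟨rfl, hp2⟩⟩
          · rcases h2 with h2 | h2
            · exact absurd hp2 h2
            · exact h2
          · subst hp2; decide
        · refine ⟨1, le_rfl, hs, ?_, Or.inl ⟨rfl, hp2⟩⟩
          rw [pow_one]
          exact hp.out.dvd_choose_self (by norm_num) (lt_of_le_of_ne hp.out.two_le (Ne.symm hp2))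
      have hmul : ∀ x y : G, (x * y) ^ (p ^ e) = x ^ (p ^ e) * y ^ (p ^ e) := by
        intro x y
        set c := (x * y)⁻¹ * (y * x) with hc
        have hcc : c ∈ A ⊓ B := by
          apply hcomm
          have h3 : c = ⁅y⁻¹, x⁻¹⁆ := by
            rw [hc, commutatorElement_def]; group
          rw [h3]
          exact commutator_mem_commutator (mem_top _) (mem_top _)
        have hcz := mem_center_iff.mp (hDz hcc)
        have hyx : y * x = x * y * c := by rw [hc]; group
        have h4 := CfsgLib.SolvCrit.mul_pow_of_commutator_central x y c hyx (hcz x).symm (hcz y).symm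
        -- c ^ p = 1
        have hcp : c ^ p = 1 := by
          have h5 : ∀ k : ℕ, y ^ k * x = x * y ^ k * c ^ k := by
            intro k
            induction k with
            | zero => simp
            | succ k ihk =>
              have h6 : Commute (c ^ k) y := Commute.pow_left (hcz y).symm k
              calc y ^ (k + 1) * x = y ^ k * (y * x) := by rw [pow_succ, mul_assoc]
                _ = (y ^ k * x) * y * c := by rw [hyx]; simp only [mul_assoc]
                _ = x * y ^ k * (c ^ k * y) * c := by rw [ihk]; simp only [mul_assoc]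
                _ = x * y ^ k * (y * c ^ k) * c := by rw [h6.eq]
                _ = x * y ^ (k + 1) * c ^ (k + 1) := by rw [pow_succ y, pow_succ c]; simp only [mul_assoc]
          have h7 := h5 p
          have h8 := mem_center_iff.mp (hDz (hpow y)) x
          rw [← h8] at h7
          exact (mul_eq_left.mp h7.symm)
        obtain ⟨r, hr⟩ := hediv
        rw [h4, hr, pow_mul, hcp, one_pow, mul_one]
      let φ : G →* G := { toFun := fun g => g ^ (p ^ e), map_one' := one_pow _, map_mul' := hmul }
      have hφ : ∀ g, φ g = g ^ (p ^ e) := fun _ => rfl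
      have hker : Nat.card φ.ker ≤ p ^ e := by
        apply card_pow_le (hU.isCyclic hG hsm) (pow_pos hp.out.pos e)
        · intro x hx
          rw [MonoidHom.mem_ker, hφ] at hx
          obtain ⟨i, hi1, hi2⟩ := (Nat.dvd_prime_pow hp.out).mp (orderOf_dvd_of_pow_eq_one hx)
          exact hU.ge hG hsm.le (M := zpowers x) (j := i) (by rw [Nat.card_zpowers, hi2]) (hi1.trans hes)
            (mem_zpowers x)
        · intro x hx
          exact (MonoidHom.mem_ker.mp hx)
      have hcardG : Nat.card φ.ker * Nat.card φ.range = p ^ (m + 1) := by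
        rw [← index_ker φ, card_mul_index, hG]
      have hrange : Nat.card φ.range * p ^ (e + 1) ≤ p ^ (m + 1) := by
        rcases hec with ⟨he, -⟩ | ⟨he, hp2⟩
        · -- the range is in D
          subst he
          have h3 : φ.range ≤ A ⊓ B := by
            rintro _ ⟨x, rfl⟩
            rw [hφ, pow_one]
            exact hpow x
          have h4 : Nat.card φ.range ≤ p ^ j := by rw [← hj]; exact card_le_of_le h3
          calc Nat.card φ.range * p ^ (1 + 1) ≤ p ^ j * p ^ 2 := Nat.mul_le_mul_right _ h4
            _ = p ^ (j + 2) := by rw [← pow_add]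
            _ ≤ p ^ (m + 1) := Nat.pow_le_pow_right hp.out.pos (by omega)
        · subst he
          -- squares of D
          letI : CommGroup (A ⊓ B : Subgroup G) :=
            { (inferInstance : Group (A ⊓ B : Subgroup G)) with
              mul_comm := fun a b => Subtype.ext (mem_center_iff.mp (hDz b.2) a) }
          let ψ : (A ⊓ B : Subgroup G) →* (A ⊓ B : Subgroup G) := powMonoidHom p
          have h3 : φ.range ≤ ψ.range.map (A ⊓ B).subtype := by
            rintro _ ⟨x, rfl⟩
            refine ⟨ψ ⟨x ^ p, hpow x⟩, ⟨_, rfl⟩, ?_⟩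
            rw [hφ, pow_two p, pow_mul]
            rfl
          have h4 : Nat.card φ.range ≤ Nat.card ψ.range := by
            refine (card_le_of_le h3).trans ?_
            rw [card_map_of_injective (subtype_injective _)]
          have h5 : Nat.card ψ.ker * Nat.card ψ.range = p ^ j := by
            rw [← index_ker ψ, card_mul_index, hj]
          have hjpos : 1 ≤ j := by
            by_contra hj0
            have hj0' : j = 0 := by omega
            rw [hj0', pow_zero] at hj
            have h6 : H ≤ A ⊓ B := le_inf (hU.le (card_coatom hG hA) hlt.le) (hU.le (card_coatom hG hB) hlt.le)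
            have h7 := card_le_of_le h6
            rw [hj, hU.card] at h7
            exact absurd h7 (not_le.mpr (Nat.one_lt_pow (by omega) hp.out.one_lt))
          have h6 : p ≤ Nat.card ψ.ker := by
            obtain ⟨x, hx⟩ := exists_prime_orderOf_dvd_card' (G := (A ⊓ B : Subgroup G)) p
              (by rw [hj]; exact dvd_pow_self p (by omega))
            rw [← hx, ← Nat.card_zpowers]
            apply card_le_of_le
            rw [zpowers_le, MonoidHom.mem_ker]
            change x ^ p = 1
            rw [← hx, pow_orderOf_eq_one]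
          have h7 : p * Nat.card ψ.range ≤ p ^ j := by
            rw [← h5]; exact Nat.mul_le_mul_right _ h6
          calc Nat.card φ.range * p ^ (2 + 1) ≤ Nat.card ψ.range * p ^ 3 := Nat.mul_le_mul_right _ h4
            _ = (p * Nat.card ψ.range) * p ^ 2 := by ring
            _ ≤ p ^ j * p ^ 2 := Nat.mul_le_mul_right _ h7
            _ = p ^ (j + 2) := by rw [← pow_add]
            _ ≤ p ^ (m + 1) := Nat.pow_le_pow_right hp.out.pos (by omega)
      have hfin : p ^ (m + 1) * p ≤ p ^ (m + 1) := by
        calc p ^ (m + 1) * p = Nat.card φ.ker * Nat.card φ.range * p := by rw [hcardG]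
          _ ≤ p ^ e * Nat.card φ.range * p := Nat.mul_le_mul_right _ (Nat.mul_le_mul_right _ hker)
          _ = Nat.card φ.range * p ^ (e + 1) := by ring
          _ ≤ _ := hrange
      have h8 := hp.out.one_lt
      have h9 : 0 < p ^ (m + 1) := pow_pos hp.out.pos _
      nlinarith
    · -- m = s : H is the unique maximal subgroup
      have hms : m = s := by omega
      subst hms
      have hHtop : H ≠ ⊤ := by
        rintro rfl
        have := hU.card
        rw [card_top, hG] at this
        exact absurd (Nat.pow_right_injective hp.out.two_le this) (by omega)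
      obtain ⟨x, -, hx⟩ := SetLike.exists_of_lt (lt_top_iff_ne_top.mpr hHtop)
      obtain ⟨M, hM, hxM⟩ := exists_coatom_of_ne_top (hztop x)
      have h3 := hU.uniq M (card_coatom hG hM)
      exact hx (h3 ▸ hxM (mem_zpowers x))

end

end CfsgLib.FgCyc
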