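import Mathlib
import Cfsg.Agent.EqBase
import Cfsg.Agent.LibSolvCoprime3
import Cfsg.Agent.LibCoprime

/-! coprime action of an elementary abelian group of order `q ^ 3`: bounding the derived subgroup -/

set_option autoImplicit false
set_option linter.unusedSectionVars false
open scoped commutatorElement

namespace CfsgLib.FgDer

universe u v

/-- elementary abelian subgroup of order `q ^ 3` -/
structure EA3 {Γ : Type u} [Group Γ] (A : Subgroup Γ) (q : ℕ) : Prop where
  hq : q.Prime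
  card : Nat.card A = q ^ 3
  comm : ∀ a ∈ A, ∀ b ∈ A, a * b = b * a
  exp : ∀ a ∈ A, a ^ q = 1

abbrev cen {Γ : Type u} [Group Γ] (B : Subgroup Γ) : Subgroup Γ := Subgroup.centralizer (B : Set Γ)

/-- abelian groups generated by a finite family of subgroups -/
theorem card_le_prod {Y : Type u} [Group Y] [Finite Y] (hcomm : ∀ a b : Y, a * b = b * a) {ι : Type v} [Fintype ι]
    (S : ι → Subgroup Y) (h : ⨆ i, S i = ⊤) : Nat.card Y ≤ ∏ i, Nat.card (S i) := by
  classical
  have hn : ∀ H : Subgroup Y, H.Normal := fun H => ⟨fun x hx g => by rw [hcomm g x, mul_inv_cancel_right]; exact hx⟩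
  have key : ∀ s : Finset ι, Nat.card (⨆ i ∈ s, S i : Subgroup Y) ≤ ∏ i ∈ s, Nat.card (S i) := by
    intro s
    induction s using Finset.induction_on with
    | empty => simp
    | insert i s hi ih =>
      rw [Finset.prod_insert hi, Finset.iSup_insert]
      have h1 := CfsgLib.Coprime.card_sup_mul_card_inf (N := (⨆ i ∈ s, S i : Subgroup Y)) (H := S i) (by
        have := hn (⨆ i ∈ s, S i : Subgroup Y)
        rw [Subgroup.normalizer_eq_top]; exact le_top)
      have h2 : 0 < Nat.card ↥(S i ⊓ (⨆ i ∈ s, S i : Subgroup Y)) := Nat.card_pos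
      calc Nat.card ↥(S i ⊔ (⨆ i ∈ s, S i : Subgroup Y)) ≤ Nat.card ↥(S i ⊔ (⨆ i ∈ s, S i : Subgroup Y)) * Nat.card ↥(S i ⊓ (⨆ i ∈ s, S i : Subgroup Y)) :=
            Nat.le_mul_of_pos_right _ h2
        _ = Nat.card (S i) * Nat.card ↥(⨆ i ∈ s, S i : Subgroup Y) := h1
        _ ≤ _ := Nat.mul_le_mul_left _ ih
  have h1 := key Finset.univ
  simp only [Finset.mem_univ, iSup_pos] at h1
  rw [h, Subgroup.card_top] at h1
  exact h1

theorem card_commutatorSet_le (G : Type u) [Group G] [Finite G] :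
    Nat.card (commutatorSet G) ≤ (Subgroup.center G).index ^ 2 := by
  let f : (G ⧸ Subgroup.center G) × (G ⧸ Subgroup.center G) → commutatorSet G := fun p =>
    ⟨⁅p.1.out, p.2.out⁆, ⟨_, _, rfl⟩⟩
  have hf : Function.Surjective f := by
    rintro ⟨_, ⟨x, y, rfl⟩⟩
    refine ⟨(QuotientGroup.mk x, QuotientGroup.mk y), ?_⟩
    apply Subtype.ext
    change ⁅(QuotientGroup.mk x : G ⧸ Subgroup.center G).out, (QuotientGroup.mk y : G ⧸ Subgroup.center G).out⁆ = ⁅x, y⁆
    obtain ⟨⟨z, hz⟩, hz2⟩ := QuotientGroup.mk_out_eq_mul (Subgroup.center G) x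
    obtain ⟨⟨w, hw⟩, hw2⟩ := QuotientGroup.mk_out_eq_mul (Subgroup.center G) y
    rw [hz2, hw2]
    have hz' := Subgroup.mem_center_iff.mp hz
    have hw' := Subgroup.mem_center_iff.mp hw
    simp only [commutatorElement_def, mul_inv_rev]
    calc x * z * (y * w) * (z⁻¹ * x⁻¹) * (w⁻¹ * y⁻¹) = x * (z * (y * w)) * z⁻¹ * x⁻¹ * w⁻¹ * y⁻¹ := by group
      _ = x * ((y * w) * z) * z⁻¹ * x⁻¹ * w⁻¹ * y⁻¹ := by rw [← hz' (y * w)]
      _ = x * y * (w * x⁻¹) * w⁻¹ * y⁻¹ := by group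
      _ = x * y * (x⁻¹ * w) * w⁻¹ * y⁻¹ := by rw [← hw' x⁻¹]
      _ = _ := by group
  have h1 := Nat.card_le_card_of_surjective f hf
  rw [Nat.card_prod] at h1
  rw [pow_two]
  exact h1

theorem schur_bound (G : Type u) [Group G] [Finite G] {M : ℕ} (hM : (Subgroup.center G).index ≤ M) :
    Nat.card (commutator G) ≤ M ^ (M * M ^ 2 + 1) := by
  have h1 := Subgroup.card_commutator_dvd_index_center_pow G
  have h0 : 0 < (Subgroup.center G).index := Nat.pos_of_ne_zero Subgroup.index_ne_zero_of_finite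
  have hM0 : 0 < M := h0.trans_le hM
  refine (Nat.le_of_dvd (pow_pos h0 _) h1).trans ?_
  refine (Nat.pow_le_pow_left hM _).trans ?_
  refine Nat.pow_le_pow_right hM0 ?_
  have h2 := card_commutatorSet_le G
  have h3 : (Subgroup.center G).index ^ 2 ≤ M ^ 2 := Nat.pow_le_pow_left hM 2
  exact Nat.add_le_add_right (Nat.mul_le_mul hM (h2.trans h3)) 1

variable {Γ : Type u} [Group Γ] [Finite Γ] {A : Subgroup Γ} {q : ℕ}

section
variable (h : EA3 A q)
include h

theorem EA3.orderOf {a : Γ} (ha : a ∈ A) (ha1 : a ≠ 1) : orderOf a = q := by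
  have : Fact q.Prime := ⟨h.hq⟩
  exact orderOf_eq_prime (h.exp a ha) ha1

theorem EA3.le_norm {L : Subgroup Γ} (hL : L ≤ A) : A ≤ Subgroup.normalizer (L : Set Γ) := by
  intro a ha
  rw [Subgroup.mem_normalizer_iff]
  have key : ∀ a ∈ A, ∀ x ∈ L, a * x * a⁻¹ ∈ L := by
    intro a ha x hx
    rw [h.comm a ha x (hL hx), mul_inv_cancel_right]; exact hx
  intro x
  constructor
  · exact key a ha x
  · intro hx
    have := key a⁻¹ (A.inv_mem ha) _ hx
    have e : a⁻¹ * (a * x * a⁻¹) * a⁻¹⁻¹ = x := by group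
    rwa [e] at this

theorem EA3.card_pair {a b : Γ} (ha : a ∈ A) (hb : b ∈ A) (ha1 : a ≠ 1) (hb1 : b ∉ Subgroup.zpowers a) :
    Nat.card (Subgroup.zpowers a ⊔ Subgroup.zpowers b : Subgroup Γ) = q ^ 2 := by
  have hb2 : b ≠ 1 := by rintro rfl; exact hb1 (one_mem _)
  have h1 := CfsgLib.Coprime.card_sup_mul_card_inf (N := Subgroup.zpowers b) (H := Subgroup.zpowers a)
    ((Subgroup.zpowers_le.mpr ha).trans (h.le_norm (Subgroup.zpowers_le.mpr hb)))
  have h2 : Subgroup.zpowers a ⊓ Subgroup.zpowers b = ⊥ := by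
    have : Fact q.Prime := ⟨h.hq⟩
    have hc : Nat.card (Subgroup.zpowers a ⊓ Subgroup.zpowers b : Subgroup Γ) ∣ q := by
      rw [← h.orderOf hb hb2, ← Nat.card_zpowers b]
      exact Subgroup.card_dvd_of_le inf_le_right
    rcases (Nat.dvd_prime h.hq).mp hc with h3 | h3
    · exact Subgroup.card_eq_one.mp h3
    · exfalso
      apply hb1
      have h4 : Subgroup.zpowers a ⊓ Subgroup.zpowers b = Subgroup.zpowers b :=
        Subgroup.eq_of_le_of_card_ge inf_le_right (by rw [h3, Nat.card_zpowers, h.orderOf hb hb2])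
      have h5 : b ∈ Subgroup.zpowers a ⊓ Subgroup.zpowers b := by rw [h4]; exact Subgroup.mem_zpowers b
      exact (Subgroup.mem_inf.mp h5).1
  rw [h2, Subgroup.card_bot, mul_one, Nat.card_zpowers, Nat.card_zpowers, h.orderOf ha ha1, h.orderOf hb hb2] at h1
  rw [h1, pow_two]

theorem EA3.exists_avoid {a : Γ} (ha : a ∈ A) (ha1 : a ≠ 1) : ∃ A1 ≤ A, Nat.card A1 = q ^ 2 ∧ a ∉ A1 := by
  have hq1 := h.hq.one_lt
  have hex : ∀ L : Subgroup Γ, Nat.card L < q ^ 3 → ∃ b ∈ A, b ∉ L := by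
    intro L hL
    by_contra hne
    push Not at hne
    have h1 : A ≤ L := hne
    have h2 := Subgroup.card_le_of_le h1
    rw [h.card] at h2
    omega
  obtain ⟨b, hb, hba⟩ := hex (Subgroup.zpowers a) (by
    rw [Nat.card_zpowers, h.orderOf ha ha1]
    calc q = q ^ 1 := (pow_one q).symm
      _ < q ^ 3 := Nat.pow_lt_pow_right hq1 (by norm_num))
  have hb1 : b ≠ 1 := by rintro rfl; exact hba (one_mem _)
  obtain ⟨c, hc, hcab⟩ := hex (Subgroup.zpowers a ⊔ Subgroup.zpowers b) (by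
    rw [h.card_pair ha hb ha1 hba]
    exact Nat.pow_lt_pow_right hq1 (by norm_num))
  have hcb : c ∉ Subgroup.zpowers b := fun hh => hcab ((le_sup_right : Subgroup.zpowers b ≤ Subgroup.zpowers a ⊔ Subgroup.zpowers b) hh)
  refine ⟨Subgroup.zpowers b ⊔ Subgroup.zpowers c, sup_le (Subgroup.zpowers_le.mpr hb) (Subgroup.zpowers_le.mpr hc),
    h.card_pair hb hc hb1 hcb, ?_⟩
  intro hmem
  apply hcab
  have h1 : Subgroup.zpowers a ⊔ Subgroup.zpowers b ≤ Subgroup.zpowers b ⊔ Subgroup.zpowers c :=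
    sup_le (Subgroup.zpowers_le.mpr hmem) le_sup_left
  have h2 : Subgroup.zpowers a ⊔ Subgroup.zpowers b = Subgroup.zpowers b ⊔ Subgroup.zpowers c :=
    Subgroup.eq_of_le_of_card_ge h1 (by rw [h.card_pair ha hb ha1 hba, h.card_pair hb hc hb1 hcb])
  rw [h2]
  exact (le_sup_right : Subgroup.zpowers c ≤ _) (Subgroup.mem_zpowers c)

theorem EA3.exists_ne : ∃ a ∈ A, a ≠ 1 := by
  by_contra hne
  push Not at hne
  have h1 : A = ⊥ := by rw [eq_bot_iff]; exact fun x hx => Subgroup.mem_bot.mpr (hne x hx)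
  have h2 := h.card
  rw [h1, Subgroup.card_bot] at h2
  have := Nat.one_lt_pow (n := 3) (by norm_num) h.hq.one_lt
  omega

theorem EA3.inter {B B' : Subgroup Γ} (hB : B ≤ A) (hB' : B' ≤ A) (hc : Nat.card B = q ^ 2) (hc' : Nat.card B' = q ^ 2) :
    ∃ a ∈ B ⊓ B', a ≠ 1 := by
  by_contra hne
  push Not at hne
  have h1 : B ⊓ B' = ⊥ := by rw [eq_bot_iff]; exact fun x hx => Subgroup.mem_bot.mpr (hne x hx)
  have h2 := CfsgLib.Coprime.card_sup_mul_card_inf (N := B') (H := B) (hB.trans (h.le_norm hB'))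
  rw [h1, Subgroup.card_bot, mul_one, hc, hc', ← pow_add] at h2
  have h3 := Subgroup.card_le_of_le (sup_le hB hB')
  rw [h2, h.card] at h3
  have := Nat.pow_lt_pow_right h.hq.one_lt (show 3 < 2 + 2 by norm_num)
  omega

theorem EA3.le_of_hyp {L R : Subgroup Γ} (hL : A ≤ Subgroup.normalizer (L : Set Γ)) (hco : q.Coprime (Nat.card L)) {a : Γ}
    (ha : a ∈ A) (ha1 : a ≠ 1)
    (hR : ∀ B ≤ A, Nat.card B = q ^ 2 → a ∈ B → L ⊓ cen B ≤ R) : L ⊓ Subgroup.centralizer {a} ≤ R := by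
  obtain ⟨A1, hA1, hA1c, haA1⟩ := h.exists_avoid ha ha1
  refine CfsgLib.SolvCoprime.le_of_centralizers_le h.hq A1 (L ⊓ Subgroup.centralizer {a}) R hA1c (fun b hb => h.exp b (hA1 hb)) ?_ ?_ ?_
  · have key : ∀ b ∈ A, ∀ x ∈ L ⊓ Subgroup.centralizer {a}, b * x * b⁻¹ ∈ L ⊓ Subgroup.centralizer {a} := by
      intro b hb x hx
      rw [Subgroup.mem_inf] at hx ⊢
      refine ⟨(Subgroup.mem_normalizer_iff.mp (hL hb) x).mp hx.1, ?_⟩
      have h1 := Subgroup.mem_centralizer_singleton_iff.mp hx.2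
      rw [Subgroup.mem_centralizer_singleton_iff]
      have h2 := h.comm a ha b hb
      have h3 : b⁻¹ * a = a * b⁻¹ := by
        have := h.comm a ha b⁻¹ (A.inv_mem hb)
        exact this.symm
      calc b * x * b⁻¹ * a = b * x * (b⁻¹ * a) := by group
        _ = b * (x * a) * b⁻¹ := by rw [h3]; group
        _ = b * (a * x) * b⁻¹ := by rw [h1]
        _ = (b * a) * x * b⁻¹ := by group
        _ = (a * b) * x * b⁻¹ := by rw [h2]
        _ = _ := by group
    intro b hb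
    rw [Subgroup.mem_normalizer_iff]
    intro x
    constructor
    · exact key b (hA1 hb) x
    · intro hx
      have := key b⁻¹ (A.inv_mem (hA1 hb)) _ hx
      have e : b⁻¹ * (b * x * b⁻¹) * b⁻¹⁻¹ = x := by group
      rwa [e] at this
  · exact hco.coprime_dvd_right (Subgroup.card_dvd_of_le inf_le_left)
  · intro b hb hb1
    have hbz : b ∉ Subgroup.zpowers a := by
      intro hh
      apply haA1
      have h1 : Subgroup.zpowers b = Subgroup.zpowers a :=
        Subgroup.eq_of_le_of_card_ge (Subgroup.zpowers_le.mpr hh) (by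
          rw [Nat.card_zpowers, Nat.card_zpowers, h.orderOf ha ha1, h.orderOf (hA1 hb) hb1])
      have h2 : a ∈ Subgroup.zpowers b := by rw [h1]; exact Subgroup.mem_zpowers a
      exact (Subgroup.zpowers_le.mpr hb) h2
    refine le_trans ?_ (hR (Subgroup.zpowers a ⊔ Subgroup.zpowers b) (sup_le (Subgroup.zpowers_le.mpr ha)
      (Subgroup.zpowers_le.mpr (hA1 hb))) (h.card_pair ha (hA1 hb) ha1 hbz)
      ((le_sup_left : Subgroup.zpowers a ≤ _) (Subgroup.mem_zpowers a)))
    intro x hx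
    rw [Subgroup.mem_inf, Subgroup.mem_inf] at hx
    rw [Subgroup.mem_inf]
    refine ⟨hx.1.1, ?_⟩
    have h1 : Subgroup.zpowers a ⊔ Subgroup.zpowers b ≤ Subgroup.centralizer {x} := by
      rw [sup_le_iff, Subgroup.zpowers_le, Subgroup.zpowers_le, Subgroup.mem_centralizer_singleton_iff,
        Subgroup.mem_centralizer_singleton_iff]
      exact ⟨(Subgroup.mem_centralizer_singleton_iff.mp hx.1.2).symm, (Subgroup.mem_centralizer_singleton_iff.mp hx.2).symm⟩
    rw [Subgroup.mem_centralizer_iff]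
    intro y hy
    exact Subgroup.mem_centralizer_singleton_iff.mp (h1 hy)

theorem EA3.le_of_hyp' {L R : Subgroup Γ} (hL : A ≤ Subgroup.normalizer (L : Set Γ)) (hco : q.Coprime (Nat.card L))
    (hR : ∀ B ≤ A, Nat.card B = q ^ 2 → L ⊓ cen B ≤ R) : L ≤ R := by
  obtain ⟨a, ha, ha1⟩ := h.exists_ne
  obtain ⟨A1, hA1, hA1c, haA1⟩ := h.exists_avoid ha ha1
  refine CfsgLib.SolvCoprime.le_of_centralizers_le h.hq A1 L R hA1c (fun b hb => h.exp b (hA1 hb)) (hA1.trans hL) hco ?_
  intro b hb hb1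
  exact h.le_of_hyp hL hco (hA1 hb) hb1 (fun B hB hc _ => hR B hB hc)

end


/-- hyperplanes -/
abbrev Hyp (A : Subgroup Γ) (q : ℕ) : Type u := {B : Subgroup Γ // B ≤ A ∧ Nat.card B = q ^ 2}

theorem card_hyp (h : EA3 A q) : Nat.card (Hyp A q) ≤ 2 ^ (q ^ 3) := by
  classical
  have := Fintype.ofFinite A
  have h1 : Nat.card (Hyp A q) ≤ Nat.card (Set A) := by
    refine Nat.card_le_card_of_injective (fun B : Hyp A q => ((B.1.subgroupOf A : Subgroup A) : Set A)) ?_
    intro B B' hBB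
    have h2 : B.1.subgroupOf A = B'.1.subgroupOf A := SetLike.coe_injective hBB
    have h3 := congrArg (Subgroup.map A.subtype) h2
    rw [Subgroup.map_subgroupOf_eq_of_le B.2.1, Subgroup.map_subgroupOf_eq_of_le B'.2.1] at h3
    exact Subtype.ext h3
  have h2 : Nat.card (Set A) = 2 ^ (q ^ 3) := by
    rw [Nat.card_eq_fintype_card, Fintype.card_set, ← Nat.card_eq_fintype_card, h.card]
  rw [h2] at h1
  exact h1

theorem conj_mem_of_le {P L : Subgroup Γ} (hP : P ≤ Subgroup.normalizer (L : Set Γ)) {x y : Γ} (hx : x ∈ P) (hy : y ∈ L) :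
    x * y * x⁻¹ ∈ L := (Subgroup.mem_normalizer_iff.mp (hP hx) y).mp hy

theorem le_norm_of_conj {P L : Subgroup Γ} (hP : ∀ x ∈ P, ∀ y ∈ L, x * y * x⁻¹ ∈ L) : P ≤ Subgroup.normalizer (L : Set Γ) := by
  intro b hb
  rw [Subgroup.mem_normalizer_iff]
  intro x
  constructor
  · exact hP b hb x
  · intro hx
    have := hP b⁻¹ (P.inv_mem hb) _ hx
    have e : b⁻¹ * (b * x * b⁻¹) * b⁻¹⁻¹ = x := by group
    rwa [e] at this

theorem norm_comm {P L : Subgroup Γ} (hP : P ≤ Subgroup.normalizer (L : Set Γ)) : P ≤ Subgroup.normalizer ((⁅L, L⁆ : Subgroup Γ) : Set Γ) := by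
  apply le_norm_of_conj
  intro x hx y hy
  have h1 : (⁅L, L⁆ : Subgroup Γ).map (MulAut.conj x).toMonoidHom = ⁅L, L⁆ := by
    rw [Subgroup.map_commutator]
    have : L.map (MulAut.conj x).toMonoidHom = L := Subgroup.mem_normalizer_iff_map_conj_eq.mp (hP hx)
    rw [this]
  rw [← h1]
  exact ⟨y, hy, rfl⟩

theorem norm_sup {P L M : Subgroup Γ} (hL : P ≤ Subgroup.normalizer (L : Set Γ)) (hM : P ≤ Subgroup.normalizer (M : Set Γ)) :
    P ≤ Subgroup.normalizer ((L ⊔ M : Subgroup Γ) : Set Γ) := by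
  apply le_norm_of_conj
  intro x hx y hy
  have h1 : (L ⊔ M : Subgroup Γ).map (MulAut.conj x).toMonoidHom = L ⊔ M := by
    rw [Subgroup.map_sup]
    have e1 : L.map (MulAut.conj x).toMonoidHom = L := Subgroup.mem_normalizer_iff_map_conj_eq.mp (hL hx)
    have e2 : M.map (MulAut.conj x).toMonoidHom = M := Subgroup.mem_normalizer_iff_map_conj_eq.mp (hM hx)
    rw [e1, e2]
  rw [← h1]
  exact ⟨y, hy, rfl⟩

theorem norm_inf {P L M : Subgroup Γ} (hL : P ≤ Subgroup.normalizer (L : Set Γ)) (hM : P ≤ Subgroup.normalizer (M : Set Γ)) :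
    P ≤ Subgroup.normalizer ((L ⊓ M : Subgroup Γ) : Set Γ) := by
  apply le_norm_of_conj
  intro x hx y hy
  rw [Subgroup.mem_inf] at hy ⊢
  exact ⟨conj_mem_of_le hL hx hy.1, conj_mem_of_le hM hx hy.2⟩

/-- the abelian step -/
theorem relIndex_abelian (h : EA3 A q) [Fintype (Hyp A q)] {P N : Subgroup Γ} (hPN : P ≤ Subgroup.normalizer (N : Set Γ))
    (hAP : A ≤ Subgroup.normalizer (P : Set Γ)) (hco : q.Coprime (Nat.card P)) (hder : ⁅P, P⁆ ≤ N) :
    N.relIndex P ≤ ∏ B : Hyp A q, N.relIndex (P ⊓ cen B.1) := by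
  have hn : (N.subgroupOf P).Normal := Subgroup.normal_subgroupOf_of_le_normalizer hPN
  let f := QuotientGroup.mk' (N.subgroupOf P)
  have hcomm : ∀ a b : P ⧸ N.subgroupOf P, a * b = b * a := by
    intro a b
    obtain ⟨x, rfl⟩ := QuotientGroup.mk'_surjective _ a
    obtain ⟨y, rfl⟩ := QuotientGroup.mk'_surjective _ b
    rw [← map_mul, ← map_mul]
    change (QuotientGroup.mk (x * y) : P ⧸ N.subgroupOf P) = QuotientGroup.mk (y * x)
    rw [QuotientGroup.eq, Subgroup.mem_subgroupOf]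
    apply hder
    have e : (((x * y)⁻¹ * (y * x) : P) : Γ) = ⁅(y : Γ)⁻¹, (x : Γ)⁻¹⁆ := by
      simp only [commutatorElement_def, Subgroup.coe_mul, Subgroup.coe_inv, mul_inv_rev, inv_inv]
      group
    rw [e]
    exact Subgroup.commutator_mem_commutator (P.inv_mem y.2) (P.inv_mem x.2)
  have hS : ⨆ B : Hyp A q, ((P ⊓ cen B.1).subgroupOf P).map f = ⊤ := by
    rw [eq_top_iff]
    let R : Subgroup Γ := ((⨆ B : Hyp A q, ((P ⊓ cen B.1).subgroupOf P).map f).comap f).map P.subtype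
    have h1 : P ≤ R := by
      refine h.le_of_hyp' hAP hco ?_
      intro B hB hBc x hx
      refine ⟨⟨x, (Subgroup.mem_inf.mp hx).1⟩, ?_, rfl⟩
      have h0 : f ⟨x, (Subgroup.mem_inf.mp hx).1⟩ ∈ ((P ⊓ cen B).subgroupOf P).map f := ⟨_, hx, rfl⟩
      exact (le_iSup (fun B : Hyp A q => ((P ⊓ cen B.1).subgroupOf P).map f) ⟨B, hB, hBc⟩) h0
    intro y _
    obtain ⟨x, rfl⟩ := QuotientGroup.mk'_surjective _ y
    obtain ⟨z, hz, hzx⟩ := h1 x.2
    have : z = x := Subtype.ext hzx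
    rw [← this]
    exact hz
  have h2 := card_le_prod hcomm _ hS
  refine h2.trans (le_of_eq ?_)
  apply Finset.prod_congr rfl
  intro B _
  rw [← Subgroup.relIndex_ker, QuotientGroup.ker_mk', Subgroup.relIndex_subgroupOf inf_le_left]

theorem relIndex_pos' (P0 P : Subgroup Γ) : 0 < P0.relIndex P :=
  Nat.pos_of_ne_zero (Subgroup.index_ne_zero_of_finite (H := P0.subgroupOf P))

/-- the solvable case -/
theorem relIndex_solvable (h : EA3 A q) [Fintype (Hyp A q)] (n : ℕ) : ∀ (P P0 : Subgroup Γ), P0 ≤ P → P ≤ Subgroup.normalizer (P0 : Set Γ) →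
    A ≤ Subgroup.normalizer (P : Set Γ) → A ≤ Subgroup.normalizer (P0 : Set Γ) → q.Coprime (Nat.card P) → Group.IsSolvable P →
    P0.relIndex P = n → P0.relIndex P ≤ ∏ B : Hyp A q, P0.relIndex (P ⊓ cen B.1) := by
  induction n using Nat.strong_induction_on with
  | _ n ih =>
  intro P P0 hle hPP0 hAP hAP0 hco hsolv hn
  by_cases h1 : P ≤ P0
  · rw [Subgroup.relIndex_eq_one.mpr h1]
    exact Finset.one_le_prod' (fun B _ => relIndex_pos' _ _)
  obtain ⟨N, hN⟩ : ∃ N, N = ⁅P, P⁆ ⊔ P0 := ⟨_, rfl⟩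
  have hPP : ⁅P, P⁆ ≤ P := Subgroup.commutator_le_self P
  have hNP : N ≤ P := by rw [hN]; exact sup_le hPP hle
  have hP0N : P0 ≤ N := by rw [hN]; exact le_sup_right
  have hNn : P ≤ Subgroup.normalizer (N : Set Γ) := by
    rw [hN]; exact norm_sup (norm_comm Subgroup.le_normalizer) hPP0
  have hAN : A ≤ Subgroup.normalizer (N : Set Γ) := by
    rw [hN]; exact norm_sup (norm_comm hAP) hAP0
  have hne : ¬ P ≤ N := by
    intro hPN
    have hn0 : (P0.subgroupOf P).Normal := Subgroup.normal_subgroupOf_of_le_normalizer hPP0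
    have hnt : Nontrivial (P ⧸ P0.subgroupOf P) := by
      rw [← not_subsingleton_iff_nontrivial]
      intro hs
      have h2 := QuotientGroup.subgroup_eq_top_of_subsingleton (P0.subgroupOf P) hs
      exact h1 (Subgroup.subgroupOf_eq_top.mp h2)
    have hs2 : Group.IsSolvable (P ⧸ P0.subgroupOf P) := Group.isSolvable_of_surjective (QuotientGroup.mk'_surjective (P0.subgroupOf P))
    have h3 := Group.IsSolvable.commutator_lt_top_of_nontrivial (P ⧸ P0.subgroupOf P)
    apply h3.ne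
    rw [eq_top_iff]
    intro y _
    obtain ⟨x, rfl⟩ := QuotientGroup.mk'_surjective _ y
    have h4 : (x : Γ) ∈ ⁅P, P⁆ ⊔ P0 := by rw [← hN]; exact hPN x.2
    let f := QuotientGroup.mk' (P0.subgroupOf P)
    have h5 : ⁅P, P⁆ ⊔ P0 ≤ ((commutator (P ⧸ P0.subgroupOf P)).comap f).map P.subtype := by
      apply sup_le
      · rw [Subgroup.commutator_le]
        intro g1 hg1 g2 hg2
        refine ⟨⁅(⟨g1, hg1⟩ : P), (⟨g2, hg2⟩ : P)⁆, ?_, rfl⟩
        change f ⁅(⟨g1, hg1⟩ : P), (⟨g2, hg2⟩ : P)⁆ ∈ commutator (P ⧸ P0.subgroupOf P)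
        rw [map_commutatorElement]
        exact Subgroup.commutator_mem_commutator (Subgroup.mem_top _) (Subgroup.mem_top _)
      · intro z hz
        refine ⟨⟨z, hle hz⟩, ?_, rfl⟩
        change f ⟨z, hle hz⟩ ∈ commutator (P ⧸ P0.subgroupOf P)
        have : f ⟨z, hle hz⟩ = 1 := (QuotientGroup.eq_one_iff _).mpr hz
        rw [this]; exact one_mem _
    obtain ⟨z, hz, hzx⟩ := h5 h4
    have : z = x := Subtype.ext hzx
    rw [← this]
    exact hz
  have h2 := relIndex_abelian h hNn hAP hco (by rw [hN]; exact le_sup_left)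
  have h3 := Subgroup.relIndex_mul_relIndex P0 N P hP0N hNP
  have h4 : 1 < N.relIndex P := by
    have h5 := relIndex_pos' N P
    have h6 : N.relIndex P ≠ 1 := fun h7 => hne (Subgroup.relIndex_eq_one.mp h7)
    omega
  have h5 : P0.relIndex N < n := by
    rw [← hn, ← h3]
    have := relIndex_pos' P0 N
    nlinarith
  have h6 := ih _ h5 N P0 hP0N (hNP.trans hPP0) hAN hAP0 (hco.coprime_dvd_right (Subgroup.card_dvd_of_le hNP))
    (by
      exact Group.isSolvable_of_isSolvable_injective (f := Subgroup.inclusion hNP) (Subgroup.inclusion_injective hNP)) rfl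
  rw [← h3]
  refine (Nat.mul_le_mul h6 h2).trans ?_
  rw [← Finset.prod_mul_distrib]
  apply le_of_eq
  apply Finset.prod_congr rfl
  intro B _
  have h7 := Subgroup.relIndex_mul_relIndex (P0 ⊓ cen B.1) (N ⊓ cen B.1) (P ⊓ cen B.1) (inf_le_inf_right _ hP0N) (inf_le_inf_right _ hNP)
  have e : ∀ X Y : Subgroup Γ, X ≤ Y → (X ⊓ cen B.1).relIndex (Y ⊓ cen B.1) = X.relIndex (Y ⊓ cen B.1) := by
    intro X Y hXY
    have : X ⊓ cen B.1 = X ⊓ (Y ⊓ cen B.1) := by
      rw [← inf_assoc, inf_eq_left.mpr hXY]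
    rw [this, Subgroup.inf_relIndex_right]
  rw [e P0 N hP0N, e N P hNP, e P0 P hle] at h7
  exact h7


theorem relIndex_dvd {C K L : Subgroup Γ} (hKL : K ≤ L) (hL : L ≤ Subgroup.normalizer (C : Set Γ)) : C.relIndex K ∣ C.relIndex L := by
  have hn : (C.subgroupOf L).Normal := Subgroup.normal_subgroupOf_of_le_normalizer hL
  rw [← Subgroup.relIndex_subgroupOf hKL]
  exact Subgroup.relIndex_dvd_index_of_normal _ _

/-- the general case -/
theorem relIndex_general (h : EA3 A q) [Fintype (Hyp A q)] {G C : Subgroup Γ} (hC : C ≤ G) (hGC : G ≤ Subgroup.normalizer (C : Set Γ))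
    (hAG : A ≤ Subgroup.normalizer (G : Set Γ)) (hAC : A ≤ Subgroup.normalizer (C : Set Γ)) (hco : q.Coprime (Nat.card G)) :
    C.relIndex G ∣ ∏ B : Hyp A q, C.relIndex (G ⊓ cen B.1) := by
  have hprod : ∏ B : Hyp A q, C.relIndex (G ⊓ cen B.1) ≠ 0 := Finset.prod_ne_zero_iff.mpr (fun B _ => (relIndex_pos' _ _).ne')
  rw [← Nat.factorization_prime_le_iff_dvd (relIndex_pos' _ _).ne' hprod]
  intro p hp
  have hfp : Fact p.Prime := ⟨hp⟩
  have hAs : Group.IsSolvable A := by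
    have hfq : Fact q.Prime := ⟨h.hq⟩
    have : IsPGroup q A := IsPGroup.of_card h.card
    have := this.isNilpotent
    infer_instance
  obtain ⟨S, hS⟩ := CfsgLib.Coprime.exists_invariant_sylow hAG (by rw [h.card]; exact Nat.Coprime.pow_left 3 hco) (Or.inl hAs) p
  obtain ⟨P, hP⟩ : ∃ P, P = (S : Subgroup G).map G.subtype := ⟨_, rfl⟩
  rw [← hP] at hS
  have hPG : P ≤ G := by rw [hP]; exact Subgroup.map_subtype_le _
  have hPp : IsPGroup p P := by rw [hP]; exact S.isPGroup'.map _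
  have hPcard : Nat.card P = p ^ (Nat.card G).factorization p := by
    rw [hP, Subgroup.card_map_of_injective G.subtype_injective, Sylow.card_eq_multiplicity]
  have hPs : Group.IsSolvable P := by
    have := hPp.isNilpotent
    infer_instance
  have hPC : P ≤ Subgroup.normalizer ((P ⊓ C : Subgroup Γ) : Set Γ) := norm_inf Subgroup.le_normalizer (hPG.trans hGC)
  have h1 := relIndex_solvable h _ P (P ⊓ C) inf_le_left hPC hS (norm_inf hS hAC)
    (hco.coprime_dvd_right (Subgroup.card_dvd_of_le hPG)) hPs rfl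
  have h2 : (P ⊓ C).relIndex P = C.relIndex P := by rw [inf_comm, Subgroup.inf_relIndex_right]
  have h3 : ∀ B : Hyp A q, (P ⊓ C).relIndex (P ⊓ cen B.1) = C.relIndex (P ⊓ cen B.1) := by
    intro B
    have e1 : (P ⊓ C) ⊓ (P ⊓ cen B.1) = C ⊓ (P ⊓ cen B.1) := by
      rw [inf_comm P C, inf_assoc, ← inf_assoc P P, inf_idem]
    rw [← Subgroup.inf_relIndex_right (P ⊓ C), e1, Subgroup.inf_relIndex_right]
  rw [h2, Finset.prod_congr rfl (fun B _ => h3 B)] at h1
  -- the `p`-part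
  have h4 : p ^ (C.relIndex G).factorization p ∣ C.relIndex P := by
    have e1 : Nat.card (P ⊓ C : Subgroup Γ) * C.relIndex P = Nat.card P := by
      rw [← h2]; exact CfsgLib.Coprime.card_mul_relIndex inf_le_left
    have e2 : Nat.card C * C.relIndex G = Nat.card G := CfsgLib.Coprime.card_mul_relIndex hC
    obtain ⟨i, hi⟩ := IsPGroup.iff_card.mp (hPp.to_le (inf_le_left : P ⊓ C ≤ P))
    have e3 : i ≤ (Nat.card C).factorization p := by
      rw [← hp.pow_dvd_iff_le_factorization Nat.card_pos.ne', ← hi]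
      exact Subgroup.card_dvd_of_le inf_le_right
    have e4 : (Nat.card G).factorization p = (Nat.card C).factorization p + (C.relIndex G).factorization p := by
      rw [← e2, Nat.factorization_mul Nat.card_pos.ne' (relIndex_pos' _ _).ne', Finsupp.add_apply]
    have e5 : p ^ i * (p ^ ((Nat.card C).factorization p - i) * p ^ (C.relIndex G).factorization p) = p ^ i * C.relIndex P := by
      rw [← hi, e1, hPcard, hi, ← pow_add, ← pow_add]
      congr 1
      omega
    have e6 := Nat.eq_of_mul_eq_mul_left (pow_pos hp.pos i) e5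
    rw [← e6]
    exact dvd_mul_left _ _
  have h5 : ∃ j, ∏ B : Hyp A q, C.relIndex (P ⊓ cen B.1) = p ^ j := by
    have h6 : ∀ B : Hyp A q, ∃ j, C.relIndex (P ⊓ cen B.1) = p ^ j := by
      intro B
      obtain ⟨i, hi⟩ := IsPGroup.iff_card.mp (hPp.to_le (inf_le_left : P ⊓ cen B.1 ≤ P))
      have h7 : C.relIndex (P ⊓ cen B.1) ∣ p ^ i := by
        rw [← hi]; exact Subgroup.relIndex_dvd_card _ _
      obtain ⟨j, -, hj⟩ := (Nat.dvd_prime_pow hp).mp h7
      exact ⟨j, hj⟩
    choose j hj using h6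
    exact ⟨∑ B, j B, by rw [Finset.prod_congr rfl (fun B _ => hj B), Finset.prod_pow_eq_pow_sum]⟩
  obtain ⟨j, hj⟩ := h5
  rw [← hp.pow_dvd_iff_le_factorization hprod]
  have h8 : p ^ (C.relIndex G).factorization p ∣ p ^ j := by
    rw [Nat.pow_dvd_pow_iff_le_right hp.one_lt, ← Nat.pow_le_pow_iff_right hp.one_lt, ← hj]
    exact (Nat.le_of_dvd (relIndex_pos' _ _) h4).trans h1
  refine h8.trans ?_
  rw [← hj]
  exact Finset.prod_dvd_prod_of_dvd _ _ (fun B _ => relIndex_dvd (inf_le_inf_right _ hPG) (inf_le_left.trans hGC))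

end CfsgLib.FgDer
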