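import Mathlib
import Cfsg.Agent.EqBase
import Cfsg.Agent.LibFgDer

/-! coprime action of an elementary abelian group of order `q ^ 3`: bounding the derived subgroup -/

set_option autoImplicit false
set_option linter.unusedSectionVars false
open scoped commutatorElement

namespace CfsgLib.FgDer

universe u v

variable {Γ : Type u} [Group Γ] [Finite Γ] {A : Subgroup Γ} {q : ℕ}

abbrev Cc (G : Subgroup Γ) (a : Γ) : Subgroup Γ := G ⊓ Subgroup.centralizer {a}
abbrev Dd (G : Subgroup Γ) (a : Γ) : Subgroup Γ := ⁅Cc G a, Cc G a⁆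

theorem Dd_le (G : Subgroup Γ) (a : Γ) : Dd G a ≤ Cc G a := Subgroup.commutator_le_self _

theorem cen_le_Cc {G B : Subgroup Γ} {a : Γ} (ha : a ∈ B) : G ⊓ cen B ≤ Cc G a :=
  inf_le_inf_left _ (Subgroup.centralizer_le (Set.singleton_subset_iff.mpr ha))

section
variable (h : EA3 A q) {G : Subgroup Γ} (hAG : A ≤ Subgroup.normalizer (G : Set Γ)) (hco : q.Coprime (Nat.card G))
include h hAG hco

omit hco in
theorem norm_Cc {a : Γ} (ha : a ∈ A) : A ≤ Subgroup.normalizer ((Cc G a : Subgroup Γ) : Set Γ) := by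
  refine norm_inf hAG ?_
  apply le_norm_of_conj
  intro b hb x hx
  have h1 := Subgroup.mem_centralizer_singleton_iff.mp hx
  rw [Subgroup.mem_centralizer_singleton_iff]
  have h2 := h.comm a ha b hb
  have h3 : b⁻¹ * a = a * b⁻¹ := (h.comm a ha b⁻¹ (A.inv_mem hb)).symm
  calc b * x * b⁻¹ * a = b * x * (b⁻¹ * a) := by group
    _ = b * (x * a) * b⁻¹ := by rw [h3]; group
    _ = b * (a * x) * b⁻¹ := by rw [h1]
    _ = (b * a) * x * b⁻¹ := by group
    _ = (a * b) * x * b⁻¹ := by rw [h2]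
    _ = _ := by group

/-- (1b) -/
theorem Dd_le_of {a : Γ} (ha : a ∈ A) (ha1 : a ≠ 1) {R : Subgroup Γ}
    (hR : ∀ B ≤ A, Nat.card B = q ^ 2 → a ∈ B → Dd G a ⊓ cen B ≤ R) : Dd G a ≤ R := by
  have h1 := h.le_of_hyp (L := Dd G a) (R := R) (norm_comm (norm_Cc h hAG ha))
    (hco.coprime_dvd_right (Subgroup.card_dvd_of_le ((Dd_le G a).trans inf_le_left))) ha ha1 hR
  have h2 : Dd G a ⊓ Subgroup.centralizer {a} = Dd G a := inf_eq_left.mpr ((Dd_le G a).trans inf_le_right)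
  rwa [h2] at h1

/-- (1) the derived subgroup is generated by the derived subgroups of the centralizers -/
theorem commutator_eq : ⁅G, G⁆ = ⨆ a : {a : Γ // a ∈ A ∧ a ≠ 1}, Dd G a.1 := by
  obtain ⟨E, hE⟩ : ∃ E, E = ⨆ a : {a : Γ // a ∈ A ∧ a ≠ 1}, Dd G a.1 := ⟨_, rfl⟩
  have hDE : ∀ a ∈ A, a ≠ 1 → Dd G a ≤ E := fun a ha ha1 => by
    rw [hE]
    exact le_iSup (fun a : {a : Γ // a ∈ A ∧ a ≠ 1} => Dd G a.1) ⟨a, ha, ha1⟩
  rw [← hE]
  have hBB : ∀ B ≤ A, Nat.card B = q ^ 2 → ∀ B' ≤ A, Nat.card B' = q ^ 2 → ⁅G ⊓ cen B, G ⊓ cen B'⁆ ≤ E := by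
    intro B hB hBc B' hB' hBc'
    obtain ⟨a, ha, ha1⟩ := h.inter hB hB' hBc hBc'
    rw [Subgroup.mem_inf] at ha
    exact (Subgroup.commutator_mono (cen_le_Cc ha.1) (cen_le_Cc ha.2)).trans (hDE a (hB ha.1) ha1)
  have hEG : E ≤ G := by
    rw [hE, iSup_le_iff]
    exact fun a => (Dd_le G a.1).trans inf_le_left
  have hnorm : G ≤ Subgroup.normalizer (E : Set Γ) := by
    refine h.le_of_hyp' hAG hco ?_
    intro B' hB' hBc'
    apply le_norm_of_conj
    intro z hz y hy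
    have h1 : E ≤ E.comap (MulAut.conj z).toMonoidHom := by
      rw [hE, iSup_le_iff]
      rintro ⟨a, ha, ha1⟩
      rw [← hE]
      refine Dd_le_of h hAG hco ha ha1 ?_
      intro B hB hBc haB x hx
      rw [Subgroup.mem_inf] at hx
      change z * x * z⁻¹ ∈ E
      have h2 : ⁅z, x⁆ ∈ E := hBB B' hB' hBc' B hB hBc (Subgroup.commutator_mem_commutator hz
        (Subgroup.mem_inf.mpr ⟨(((Dd_le G a).trans inf_le_left) hx.1), hx.2⟩))
      have h3 := E.mul_mem h2 (hDE a ha ha1 hx.1)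
      have e : ⁅z, x⁆ * x = z * x * z⁻¹ := by rw [commutatorElement_def, inv_mul_cancel_right]
      rwa [e] at h3
    exact h1 hy
  apply le_antisymm
  · have hn : (E.subgroupOf G).Normal := Subgroup.normal_subgroupOf_of_le_normalizer hnorm
    let f := QuotientGroup.mk' (E.subgroupOf G)
    have hf : ∀ x y : G, ⁅(x : Γ), (y : Γ)⁆ ∈ E → f x * f y = f y * f x := by
      intro x y hxy
      rw [← map_mul, ← map_mul]
      change (QuotientGroup.mk (x * y) : G ⧸ E.subgroupOf G) = QuotientGroup.mk (y * x)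
      rw [eq_comm, QuotientGroup.eq, Subgroup.mem_subgroupOf]
      have e : (((y * x)⁻¹ * (x * y) : G) : Γ) = ((y : Γ) * x)⁻¹ * ⁅(x : Γ), (y : Γ)⁆ * (y * x) := by
        simp only [commutatorElement_def, Subgroup.coe_mul, Subgroup.coe_inv, mul_inv_rev]
        group
      rw [e]
      have h1 := conj_mem_of_le hnorm (G.inv_mem (G.mul_mem y.2 x.2)) hxy
      rwa [inv_inv] at h1
    have h1 : ∀ B' ≤ A, Nat.card B' = q ^ 2 → ∀ z : G, (z : Γ) ∈ cen B' → ∀ x : G, f x * f z = f z * f x := by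
      intro B' hB' hBc' z hz x
      have h2 : G ≤ ((Subgroup.centralizer {f z}).comap f).map G.subtype := by
        refine h.le_of_hyp' hAG hco ?_
        intro B hB hBc w hw
        rw [Subgroup.mem_inf] at hw
        refine ⟨⟨w, hw.1⟩, ?_, rfl⟩
        change f ⟨w, hw.1⟩ ∈ Subgroup.centralizer {f z}
        rw [Subgroup.mem_centralizer_singleton_iff]
        exact hf _ _ (hBB B hB hBc B' hB' hBc' (Subgroup.commutator_mem_commutator (Subgroup.mem_inf.mpr hw) (Subgroup.mem_inf.mpr ⟨z.2, hz⟩)))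
      obtain ⟨x', hx', hxx⟩ := h2 x.2
      have h3 : x' = x := Subtype.ext hxx
      rw [← h3]
      exact Subgroup.mem_centralizer_singleton_iff.mp hx'
    have h2 : ∀ x y : G, f x * f y = f y * f x := by
      intro x y
      have h3 : G ≤ ((Subgroup.centralizer {f x}).comap f).map G.subtype := by
        refine h.le_of_hyp' hAG hco ?_
        intro B hB hBc w hw
        rw [Subgroup.mem_inf] at hw
        refine ⟨⟨w, hw.1⟩, ?_, rfl⟩
        change f ⟨w, hw.1⟩ ∈ Subgroup.centralizer {f x}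
        rw [Subgroup.mem_centralizer_singleton_iff]
        exact (h1 B hB hBc ⟨w, hw.1⟩ hw.2 x).symm
      obtain ⟨y', hy', hyy⟩ := h3 y.2
      have h4 : y' = y := Subtype.ext hyy
      rw [← h4]
      exact (Subgroup.mem_centralizer_singleton_iff.mp hy').symm
    rw [Subgroup.commutator_le]
    intro x hx y hy
    have h3 : f ⁅(⟨x, hx⟩ : G), (⟨y, hy⟩ : G)⁆ = 1 := by
      rw [map_commutatorElement, commutatorElement_eq_one_iff_mul_comm]
      exact h2 _ _
    have h4 : ⁅(⟨x, hx⟩ : G), (⟨y, hy⟩ : G)⁆ ∈ E.subgroupOf G := (QuotientGroup.eq_one_iff _).mp h3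
    exact h4
  · rw [hE, iSup_le_iff]
    exact fun a => Subgroup.commutator_mono inf_le_left inf_le_left


/-- the bound -/
theorem main {m : ℕ} (hm : ∀ a ∈ A, a ≠ 1 → Nat.card (Dd G a) ≤ m) :
    Nat.card (⁅G, G⁆ : Subgroup Γ) ≤ m ^ (q ^ 3) *
      ((m ^ (q ^ 3 * m)) ^ (2 ^ (q ^ 3))) ^ (((m ^ (q ^ 3 * m)) ^ (2 ^ (q ^ 3))) * ((m ^ (q ^ 3 * m)) ^ (2 ^ (q ^ 3))) ^ 2 + 1) := by
  classical
  have := Fintype.ofFinite (Hyp A q)
  have := Fintype.ofFinite {a : Γ // a ∈ A ∧ a ≠ 1}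
  obtain ⟨a0, ha0, ha01⟩ := h.exists_ne
  have hm1 : 1 ≤ m := Nat.card_pos.trans_le (hm a0 ha0 ha01)
  have hcardA : Nat.card {a : Γ // a ∈ A ∧ a ≠ 1} ≤ q ^ 3 := by
    rw [← h.card]
    exact Nat.card_le_card_of_injective (fun a : {a : Γ // a ∈ A ∧ a ≠ 1} => (⟨a.1, a.2.1⟩ : A)) (fun a b hab => Subtype.ext (Subtype.mk.inj hab))
  -- the generating set
  let S : Type u := Σ a : {a : Γ // a ∈ A ∧ a ≠ 1}, {s : Γ // s ∈ Dd G a.1 ∧ ∃ B ≤ A, Nat.card B = q ^ 2 ∧ s ∈ cen B}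
  have := Fintype.ofFinite S
  have hS : Nat.card S ≤ q ^ 3 * m := by
    change Nat.card (Σ a : {a : Γ // a ∈ A ∧ a ≠ 1}, {s : Γ // s ∈ Dd G a.1 ∧ ∃ B ≤ A, Nat.card B = q ^ 2 ∧ s ∈ cen B}) ≤ _
    rw [Nat.card_sigma]
    have h1 : ∀ a : {a : Γ // a ∈ A ∧ a ≠ 1}, Nat.card {s : Γ // s ∈ Dd G a.1 ∧ ∃ B ≤ A, Nat.card B = q ^ 2 ∧ s ∈ cen B} ≤ m := by
      intro a
      refine le_trans ?_ (hm a.1 a.2.1 a.2.2)
      exact Nat.card_le_card_of_injective (fun s : {s : Γ // s ∈ Dd G a.1 ∧ ∃ B ≤ A, Nat.card B = q ^ 2 ∧ s ∈ cen B} =>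
        (⟨s.1, s.2.1⟩ : Dd G a.1)) (fun s t hst => Subtype.ext (Subtype.mk.inj hst))
    refine (Finset.sum_le_sum (fun a _ => h1 a)).trans ?_
    rw [Finset.sum_const, Finset.card_univ, smul_eq_mul, ← Nat.card_eq_fintype_card]
    exact Nat.mul_le_mul_right _ hcardA
  obtain ⟨D, hD⟩ : ∃ D, D = (⁅G, G⁆ : Subgroup Γ) := ⟨_, rfl⟩
  have hDG : D ≤ G := by rw [hD]; exact Subgroup.commutator_le_self G
  have hcomm := commutator_eq h hAG hco
  rw [← hD] at hcomm
  rw [← hD]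
  -- the centralizer
  obtain ⟨C, hC⟩ : ∃ C, C = G ⊓ cen D := ⟨_, rfl⟩
  have hCG : C ≤ G := by rw [hC]; exact inf_le_left
  have hcenD : ∀ P : Subgroup Γ, P ≤ Subgroup.normalizer (D : Set Γ) → P ≤ Subgroup.normalizer ((cen D : Subgroup Γ) : Set Γ) := by
    intro P hP
    apply le_norm_of_conj
    intro x hx y hy
    rw [Subgroup.mem_centralizer_iff] at hy ⊢
    intro d hd
    have h1 := conj_mem_of_le hP (P.inv_mem hx) hd
    rw [inv_inv] at h1
    have h2 := hy _ h1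
    calc d * (x * y * x⁻¹) = x * ((x⁻¹ * d * x) * y) * x⁻¹ := by group
      _ = x * (y * (x⁻¹ * d * x)) * x⁻¹ := by rw [h2]
      _ = _ := by group
  have hGC : G ≤ Subgroup.normalizer (C : Set Γ) := by
    rw [hC]
    exact norm_inf Subgroup.le_normalizer (hcenD G (by rw [hD]; exact norm_comm Subgroup.le_normalizer))
  have hAC : A ≤ Subgroup.normalizer (C : Set Γ) := by
    rw [hC]
    exact norm_inf hAG (hcenD A (by rw [hD]; exact norm_comm hAG))
  have hsub : (⨅ s : S, Subgroup.centralizer {s.2.1}) ⊓ G ≤ C := by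
    rw [hC]
    intro x hx
    rw [Subgroup.mem_inf, Subgroup.mem_iInf] at hx
    rw [Subgroup.mem_inf]
    refine ⟨hx.2, ?_⟩
    have h1 : D ≤ Subgroup.centralizer {x} := by
      rw [hcomm, iSup_le_iff]
      rintro ⟨a, ha, ha1⟩
      refine Dd_le_of h hAG hco ha ha1 ?_
      intro B hB hBc haB s hs
      rw [Subgroup.mem_inf] at hs
      have h2 := hx.1 ⟨⟨a, ha, ha1⟩, ⟨s, hs.1, B, hB, hBc, hs.2⟩⟩
      rw [Subgroup.mem_centralizer_singleton_iff] at h2 ⊢
      exact h2.symm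
    rw [Subgroup.mem_centralizer_iff]
    intro d hd
    exact Subgroup.mem_centralizer_singleton_iff.mp (h1 hd)
  have hidx : ∀ B : Hyp A q, C.relIndex (G ⊓ cen B.1) ≤ m ^ (q ^ 3 * m) := by
    intro B
    have h1 : C.relIndex (G ⊓ cen B.1) ≤ (⨅ s : S, Subgroup.centralizer {s.2.1}).relIndex (G ⊓ cen B.1) := by
      have h2 : (⨅ s : S, Subgroup.centralizer {s.2.1}).relIndex (G ⊓ cen B.1) =
          ((⨅ s : S, Subgroup.centralizer {s.2.1}) ⊓ (G ⊓ cen B.1)).relIndex (G ⊓ cen B.1) := by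
        rw [Subgroup.inf_relIndex_right]
      rw [h2]
      refine Subgroup.relIndex_le_of_le_left ?_ (relIndex_pos' _ _).ne'
      refine le_trans ?_ hsub
      exact inf_le_inf_left _ inf_le_left
    refine h1.trans ((Subgroup.relIndex_iInf_le _).trans ?_)
    have h2 : ∀ s : S, (Subgroup.centralizer {s.2.1}).relIndex (G ⊓ cen B.1) ≤ m := by
      rintro ⟨⟨a, ha, ha1⟩, ⟨s, hs, B', hB', hBc', hsB'⟩⟩
      change (Subgroup.centralizer {s}).relIndex (G ⊓ cen B.1) ≤ m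
      obtain ⟨a', ha', ha1'⟩ := h.inter B.2.1 hB' B.2.2 hBc'
      rw [Subgroup.mem_inf] at ha'
      have hsG : s ∈ G := ((Dd_le G a).trans inf_le_left) hs
      have hsC : s ∈ Cc G a' := cen_le_Cc ha'.2 (Subgroup.mem_inf.mpr ⟨hsG, hsB'⟩)
      refine le_trans ?_ (hm a' (B.2.1 ha'.1) ha1')
      let f : (↥(G ⊓ cen B.1) ⧸ (Subgroup.centralizer {s}).subgroupOf (G ⊓ cen B.1)) → Dd G a' := fun z =>
        Quotient.liftOn' z (fun z => (⟨⁅(z : Γ), s⁆, Subgroup.commutator_mem_commutator (cen_le_Cc ha'.1 z.2) hsC⟩ : Dd G a')) (by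
          intro z w hzw
          rw [QuotientGroup.leftRel_apply, Subgroup.mem_subgroupOf, Subgroup.mem_centralizer_singleton_iff] at hzw
          apply Subtype.ext
          change ⁅(z : Γ), s⁆ = ⁅(w : Γ), s⁆
          have h3 : ((z : Γ)⁻¹ * w) * s = s * ((z : Γ)⁻¹ * w) := hzw
          rw [commutatorElement_def, commutatorElement_def, mul_left_inj]
          calc (z : Γ) * s * (z : Γ)⁻¹ = z * (s * ((z : Γ)⁻¹ * w)) * (w : Γ)⁻¹ := by group
            _ = z * (((z : Γ)⁻¹ * w) * s) * (w : Γ)⁻¹ := by rw [h3]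
            _ = _ := by group)
      refine Nat.card_le_card_of_injective f ?_
      intro z w hzw
      induction z using QuotientGroup.induction_on with | _ z =>
      induction w using QuotientGroup.induction_on with | _ w =>
      have h3 : ⁅(z : Γ), s⁆ = ⁅(w : Γ), s⁆ := congrArg Subtype.val hzw
      rw [commutatorElement_def, commutatorElement_def, mul_left_inj] at h3
      rw [QuotientGroup.eq, Subgroup.mem_subgroupOf, Subgroup.mem_centralizer_singleton_iff]
      change ((z : Γ)⁻¹ * w) * s = s * ((z : Γ)⁻¹ * w)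
      calc (z : Γ)⁻¹ * w * s = (z : Γ)⁻¹ * ((w : Γ) * s * (w : Γ)⁻¹) * w := by group
        _ = (z : Γ)⁻¹ * ((z : Γ) * s * (z : Γ)⁻¹) * w := by rw [h3]
        _ = _ := by group
    refine (Finset.prod_le_prod' (fun s _ => h2 s)).trans ?_
    rw [Finset.prod_const, Finset.card_univ, ← Nat.card_eq_fintype_card]
    exact Nat.pow_le_pow_right hm1 hS
  obtain ⟨M0, hM0⟩ : ∃ M0, M0 = m ^ (q ^ 3 * m) := ⟨_, rfl⟩
  have hM01 : 1 ≤ M0 := by rw [hM0]; exact Nat.one_le_pow _ _ hm1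
  rw [← hM0] at hidx ⊢
  obtain ⟨M, hM⟩ : ∃ M, M = M0 ^ (2 ^ (q ^ 3)) := ⟨_, rfl⟩
  rw [← hM]
  have hCM : C.relIndex G ≤ M := by
    have h1 := relIndex_general h hCG hGC hAG hAC hco
    refine (Nat.le_of_dvd (Finset.prod_pos (fun B _ => relIndex_pos' _ _)) h1).trans ?_
    refine (Finset.prod_le_prod' (fun B _ => hidx B)).trans ?_
    rw [Finset.prod_const, Finset.card_univ, ← Nat.card_eq_fintype_card, hM]
    exact Nat.pow_le_pow_right hM01 (card_hyp h)
  -- the center of the derived subgroup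
  have hcenter : (Subgroup.center D).index ≤ M := by
    have h1 : C.subgroupOf D ≤ Subgroup.center D := by
      intro x hx
      rw [Subgroup.mem_subgroupOf, hC, Subgroup.mem_inf, Subgroup.mem_centralizer_iff] at hx
      rw [Subgroup.mem_center_iff]
      intro y
      exact Subtype.ext (hx.2 y.1 y.2)
    have h2 : (Subgroup.center D).index ≤ (C.subgroupOf D).index := Subgroup.index_antitone h1
    have h3 : (C.subgroupOf D).index ∣ C.relIndex G := relIndex_dvd hDG hGC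
    exact h2.trans ((Nat.le_of_dvd (relIndex_pos' _ _) h3).trans hCM)
  have hschur := schur_bound D hcenter
  have hab : Nat.card (D ⧸ commutator D) ≤ m ^ (q ^ 3) := by
    have h1 : ⨆ a : {a : Γ // a ∈ A ∧ a ≠ 1}, ((Dd G a.1).subgroupOf D).map (QuotientGroup.mk' (commutator D)) = ⊤ := by
      rw [eq_top_iff]
      have h2 : D ≤ ((⨆ a : {a : Γ // a ∈ A ∧ a ≠ 1}, ((Dd G a.1).subgroupOf D).map (QuotientGroup.mk' (commutator D))).comap
          (QuotientGroup.mk' (commutator D))).map D.subtype := by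
        nth_rewrite 1 [hcomm]
        rw [iSup_le_iff]
        intro a x hx
        have hxD : x ∈ D := by
          rw [hcomm]
          exact (le_iSup (fun a : {a : Γ // a ∈ A ∧ a ≠ 1} => Dd G a.1) a) hx
        refine ⟨⟨x, hxD⟩, ?_, rfl⟩
        have h3 : QuotientGroup.mk' (commutator D) ⟨x, hxD⟩ ∈ ((Dd G a.1).subgroupOf D).map (QuotientGroup.mk' (commutator D)) := ⟨_, hx, rfl⟩
        exact (le_iSup (fun a : {a : Γ // a ∈ A ∧ a ≠ 1} => ((Dd G a.1).subgroupOf D).map (QuotientGroup.mk' (commutator D))) a) h3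
      intro y _
      obtain ⟨x, rfl⟩ := QuotientGroup.mk'_surjective _ y
      obtain ⟨z, hz, hzx⟩ := h2 x.2
      have h4 : z = x := Subtype.ext hzx
      rw [← h4]
      exact hz
    have h2 := card_le_prod (Y := D ⧸ commutator D) (fun a b => mul_comm (G := Abelianization D) a b) _ h1
    refine h2.trans ?_
    have h3 : ∀ a : {a : Γ // a ∈ A ∧ a ≠ 1}, Nat.card (((Dd G a.1).subgroupOf D).map (QuotientGroup.mk' (commutator D))) ≤ m := by
      intro a
      refine le_trans ?_ (hm a.1 a.2.1 a.2.2)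
      refine (Nat.le_of_dvd Nat.card_pos (Subgroup.card_map_dvd _ _)).trans ?_
      exact Nat.card_le_card_of_injective (fun x : (Dd G a.1).subgroupOf D => (⟨x.1.1, x.2⟩ : Dd G a.1))
        (fun x y hxy => Subtype.ext (Subtype.ext (Subtype.mk.inj hxy)))
    refine (Finset.prod_le_prod' (fun a _ => h3 a)).trans ?_
    rw [Finset.prod_const, Finset.card_univ, ← Nat.card_eq_fintype_card]
    exact Nat.pow_le_pow_right hm1 hcardA
  rw [Subgroup.card_eq_card_quotient_mul_card_subgroup (commutator D)]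
  exact Nat.mul_le_mul hab hschur

end

end CfsgLib.FgDer
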