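import Mathlib
import Cfsg.Agent.EqBase
import Cfsg.Agent.LibFgFpf2
import Cfsg.Agent.LibFgElt

/-! solvable groups whose order is divisible by three primes have elements of order `st` -/

set_option autoImplicit false

namespace CfsgLib.FgEppo
open CfsgLib.FPF1 CfsgLib.FgFpf

universe u

theorem hall_primes {H : Type u} [Group H] [Finite H] [Group.IsSolvable H] (π : Set ℕ) :
    ∃ K : Subgroup H, (∀ r : ℕ, r.Prime → r ∣ Nat.card K → r ∈ π) ∧
      ∀ r : ℕ, r.Prime → r ∈ π → r ∣ Nat.card H → r ∣ Nat.card K := by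
  obtain ⟨m, n, hmn, hc, h1, h2⟩ := CfsgLib.FgElt.exists_pi_factor π (Nat.card H) Nat.card_pos
  obtain ⟨K, hK⟩ := CfsgLib.SolvHall.hall_exists _ H rfl m n hmn hc
  refine ⟨K, fun r hr hrd => h1 r hr (hK ▸ hrd), fun r hr hrπ hrH => ?_⟩
  rw [hmn] at hrH
  rcases (Nat.Prime.dvd_mul hr).mp hrH with h | h
  · rw [hK]; exact h
  · exact absurd hrπ (h2 r hr h)

/-- fixed point freeness from the absence of elements of mixed order -/
theorem fpf_of_primes {G : Type u} [Group G] [Finite G] {s : ℕ} (hs : s.Prime) {L N : Subgroup G}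
    (hN : IsPGroup s N) (hsL : ¬ s ∣ Nat.card L)
    (hno : ∀ t : ℕ, t.Prime → t ∣ Nat.card L → ∀ g : G, orderOf g ≠ t * s) : FPF L N := by
  intro a ha ha1
  rw [eq_bot_iff]
  rintro v ⟨hv, hvc⟩
  rw [Subgroup.mem_bot]
  by_contra hv1
  obtain ⟨t, ht, hta⟩ := Nat.exists_prime_and_dvd (n := orderOf a) (fun h => ha1 (orderOf_eq_one_iff.mp h))
  have htL : t ∣ Nat.card L := hta.trans (Subgroup.orderOf_dvd_natCard L ha)
  have hts : t ≠ s := by rintro rfl; exact hsL htL
  obtain ⟨g, hg⟩ := mul_order ht hs hts (a := a) (b := v)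
    (Subgroup.mem_centralizer_singleton_iff.mp hvc).symm hta (dvd_orderOf_of_mem hs hN hv hv1)
  exact hno t ht htL g hg

theorem pgroup_not_dvd {G : Type u} [Group G] [Finite G] {s t : ℕ} (hs : s.Prime) (ht : t.Prime) (hst : t ≠ s)
    {N : Subgroup G} (hN : IsPGroup s N) : ¬ t ∣ Nat.card N := by
  have : Fact s.Prime := ⟨hs⟩
  obtain ⟨k, hk⟩ := IsPGroup.iff_card.mp hN
  rw [hk]
  intro h
  exact hst ((Nat.prime_dvd_prime_iff_eq ht hs).mp (ht.dvd_of_dvd_pow h))

/-- core case: the order is divisible only by the primes of `π`, `π` has at least three elements -/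
theorem three_core {G : Type u} [Group G] [Finite G] [Group.IsSolvable G] (π : Finset ℕ) (hπ : 2 < π.card)
    (hπp : ∀ r ∈ π, r.Prime) (hsub : ∀ r : ℕ, r.Prime → r ∣ Nat.card G → r ∈ π)
    (hdiv : ∀ r ∈ π, r ∣ Nat.card G)
    (hno : ∀ s ∈ π, ∀ t ∈ π, s ≠ t → ∀ g : G, orderOf g ≠ s * t) : False := by
  classical
  obtain ⟨p0, hp0⟩ : π.Nonempty := Finset.card_pos.mp (by omega)
  have hnt : Nontrivial G := by
    have : Fact p0.Prime := ⟨hπp p0 hp0⟩
    obtain ⟨g, hg⟩ := exists_prime_orderOf_dvd_card' p0 (hdiv p0 hp0)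
    exact ⟨g, 1, fun h => by rw [h, orderOf_one] at hg; exact (hπp p0 hp0).one_lt.ne hg⟩
  obtain ⟨N, s, hs, hN, -, hNc, hNe, hNp⟩ :=
    CfsgLib.SolvMin.exists_minNormal_pgroup_of_solvable (⊤ : Subgroup G) top_ne_bot
  have hNn := hN.1
  have hsG : s ∣ Nat.card G := by
    obtain ⟨m, h1⟩ := (Subgroup.ne_bot_iff_exists_ne_one).mp hN.2.1
    exact (dvd_orderOf_of_mem hs hNp m.2 (fun h => h1 (Subtype.ext h))).trans (orderOf_dvd_natCard _)
  have hsπ := hsub s hs hsG
  obtain ⟨L, hL1, hL2⟩ := hall_primes (H := G) ((π.erase s : Finset ℕ) : Set ℕ)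
  have hsL : ¬ s ∣ Nat.card L := fun h => by
    have := hL1 s hs h
    simp at this
  have hfpf : FPF L N := fpf_of_primes hs hNp hsL (fun t ht htL g => by
    have := hL1 t ht htL
    simp only [Finset.coe_erase, Set.mem_sdiff, SetLike.mem_coe, Set.mem_singleton_iff] at this
    exact hno t this.1 s hsπ this.2 g)
  have hnorm : ∀ A : Subgroup G, A ≤ Subgroup.normalizer (N : Set G) := fun A => by
    rw [Subgroup.normalizer_eq_top]; exact le_top
  -- minimal normal subgroup of `L`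
  have hcard2 : 1 < (π.erase s).card := by rw [Finset.card_erase_of_mem hsπ]; omega
  obtain ⟨t0, ht0, u0, hu0, htu0⟩ := Finset.one_lt_card.mp hcard2
  have hdL : ∀ r ∈ π.erase s, r ∣ Nat.card L := fun r hr =>
    hL2 r (hπp r (Finset.mem_of_mem_erase hr)) hr (hdiv r (Finset.mem_of_mem_erase hr))
  have hntL : Nontrivial L := by
    have hp := hπp t0 (Finset.mem_of_mem_erase ht0)
    have : Fact t0.Prime := ⟨hp⟩
    obtain ⟨g, hg⟩ := exists_prime_orderOf_dvd_card' t0 (hdL t0 ht0)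
    exact ⟨g, 1, fun h => by rw [h, orderOf_one] at hg; exact hp.one_lt.ne hg⟩
  obtain ⟨M, t, ht, hM, -, hMc, hMe, hMp⟩ :=
    CfsgLib.SolvMin.exists_minNormal_pgroup_of_solvable (⊤ : Subgroup L) top_ne_bot
  have hMn := hM.1
  have htL : t ∣ Nat.card L := by
    obtain ⟨m, h1⟩ := (Subgroup.ne_bot_iff_exists_ne_one).mp hM.2.1
    exact (dvd_orderOf_of_mem ht hMp m.2 (fun h => h1 (Subtype.ext h))).trans (orderOf_dvd_natCard _)
  have htπ : t ∈ π.erase s := by exact_mod_cast hL1 t ht htL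
  have hMcard : Nat.card M = t := by
    have hcyc : IsCyclic (M.map L.subtype) := by
      refine (hfpf.mono (Subgroup.map_subtype_le M)).isCyclic_of_comm (hnorm _) hN.2.1 ?_
      refine ⟨⟨?_⟩⟩
      rintro ⟨_, a, ha, rfl⟩ ⟨_, b, hb, rfl⟩
      apply Subtype.ext
      have := congrArg Subtype.val (hMc.is_comm.comm (⟨a, ha⟩ : M) ⟨b, hb⟩)
      exact congrArg (L.subtype) this
    have hcyc' : IsCyclic M := isCyclic_of_surjective _ (M.equivMapOfInjective L.subtype L.subtype_injective).symm.surjective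
    obtain ⟨g, hg⟩ := IsCyclic.exists_ofOrder_eq_natCard (α := M)
    have h1 : g ^ t = 1 := Subtype.ext (by rw [Subgroup.coe_pow]; exact hMe g g.2)
    have h2 := orderOf_dvd_of_pow_eq_one h1
    rw [hg] at h2
    rcases (Nat.dvd_prime ht).mp h2 with h3 | h3
    · exact absurd (Subgroup.card_eq_one.mp h3) hM.2.1
    · exact h3
  -- a third prime
  obtain ⟨u, hu, hut⟩ : ∃ u ∈ π.erase s, u ≠ t := by
    by_cases h : t0 = t
    · exact ⟨u0, hu0, fun h' => htu0 (h.trans h'.symm)⟩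
    · exact ⟨t0, ht0, h⟩
  have hup := hπp u (Finset.mem_of_mem_erase hu)
  have : Fact u.Prime := ⟨hup⟩
  obtain ⟨y, hy⟩ := exists_prime_orderOf_dvd_card' (G := L) u (hdL u hu)
  have hinf : M ⊓ Subgroup.zpowers y = ⊥ := by
    apply Subgroup.inf_eq_bot_of_coprime
    rw [hMcard, Nat.card_zpowers, hy]
    exact (Nat.coprime_primes ht hup).mpr hut.symm
  have hA : Nat.card (M ⊔ Subgroup.zpowers y : Subgroup L) = t * u := by
    have := CfsgLib.SolvBasic.card_sup_of_normal M (Subgroup.zpowers y)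
    rw [hinf, Subgroup.card_bot, mul_one, hMcard, Nat.card_zpowers, hy] at this
    exact this
  have hA' : Nat.card ((M ⊔ Subgroup.zpowers y).map L.subtype) = t * u := by
    rw [Subgroup.card_map_of_injective L.subtype_injective, hA]
  have hcyc := (hfpf.mono (Subgroup.map_subtype_le (M ⊔ Subgroup.zpowers y))).isCyclic_of_card_eq_mul (hnorm _) hN.2.1 ht hup hA'
  obtain ⟨g, hg⟩ := IsCyclic.exists_ofOrder_eq_natCard (α := (M ⊔ Subgroup.zpowers y).map L.subtype)
  rw [hA', ← Subgroup.orderOf_coe] at hg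
  exact hno t (Finset.mem_of_mem_erase htπ) u (Finset.mem_of_mem_erase hu) hut.symm _ hg

/-- a solvable group whose order is divisible by the (at least three) primes of `π` contains an element of
order `s t`, `s ≠ t` in `π`. -/
theorem three_primes {G : Type u} [Group G] [Finite G] [Group.IsSolvable G] (π : Finset ℕ) (hπ : 2 < π.card)
    (hπp : ∀ r ∈ π, r.Prime) (hdiv : ∀ r ∈ π, r ∣ Nat.card G) :
    ∃ s ∈ π, ∃ t ∈ π, s ≠ t ∧ ∃ g : G, orderOf g = s * t := by
  by_contra hne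
  push Not at hne
  obtain ⟨K, hK1, hK2⟩ := hall_primes (H := G) (π : Set ℕ)
  refine three_core (G := K) π hπ hπp (fun r hr hrd => hK1 r hr hrd) (fun r hr => hK2 r (hπp r hr) hr (hdiv r hr)) ?_
  intro s hs t ht hst g hg
  exact hne s hs t ht hst g (by rw [Subgroup.orderOf_coe]; exact hg)

end CfsgLib.FgEppo
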