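import Cfsg.Agent.LibCharMore
import Cfsg.Agent.LibExtend3
import Cfsg.Agent.LibExChar15
import Cfsg.Agent.LibBrLeon

set_option autoImplicit false
set_option linter.all false

/-! Cyclic groups acting on extraspecial groups. -/

open Cfsg CfsgLib.CharBasic CfsgLib.CharIndA CfsgLib.Clifford CfsgLib.CharMore
open scoped ComplexConjugate

namespace CfsgLib.FgEx

universe u

/-- arithmetic of multiplicities -/
theorem arith {ι : Type*} [Fintype ι] (a : ι → ℤ) (h s : ℤ) (hh : 0 < h) (hcard : (Fintype.card ι : ℤ) = h)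
    (hs : ∑ i, a i = s) (hq : h * ∑ i, (a i) ^ 2 = s ^ 2 + h - 1) : h ∣ s - 1 ∨ h ∣ s + 1 := by
  obtain ⟨c, hc⟩ : ∃ c, c = s / h := ⟨_, rfl⟩
  obtain ⟨t, ht⟩ : ∃ t, t = s % h := ⟨_, rfl⟩
  have hst : s = h * c + t := by rw [hc, ht]; exact (Int.mul_ediv_add_emod s h).symm
  have ht0 : 0 ≤ t := by rw [ht]; exact Int.emod_nonneg _ hh.ne'
  have hth : t < h := by rw [ht]; exact Int.emod_lt_of_pos _ hh
  have h1 : ∑ i, (a i - c) ^ 2 = ∑ i, (a i) ^ 2 - 2 * c * s + h * c ^ 2 := by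
    have : ∀ i, (a i - c) ^ 2 = (a i) ^ 2 - 2 * c * a i + c ^ 2 := fun i => by ring
    simp only [this]
    rw [Finset.sum_add_distrib, Finset.sum_sub_distrib, ← Finset.mul_sum, hs, Finset.sum_const, Finset.card_univ,
      nsmul_eq_mul, hcard]
  have h2 : ∑ i, (a i - c) = t := by
    rw [Finset.sum_sub_distrib, hs, Finset.sum_const, Finset.card_univ, nsmul_eq_mul, hcard, hst]
    ring
  have h3 : ∑ i, (a i - c) ≤ ∑ i, (a i - c) ^ 2 := by
    apply Finset.sum_le_sum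
    intro i _
    have : ∀ z : ℤ, z ≤ z ^ 2 := by
      intro z
      rcases le_or_gt z 0 with h | h
      · nlinarith [sq_nonneg z]
      · nlinarith
    exact this _
  have h4 : h * ∑ i, (a i - c) ^ 2 = t ^ 2 + h - 1 := by
    rw [h1]
    have : h * (∑ i, (a i) ^ 2 - 2 * c * s + h * c ^ 2) = h * ∑ i, (a i) ^ 2 - 2 * h * c * s + h ^ 2 * c ^ 2 := by ring
    rw [this, hq, hst]; ring
  have h5 : h * t ≤ t ^ 2 + h - 1 := by
    rw [← h4]
    apply mul_le_mul_of_nonneg_left _ hh.le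
    rw [h2] at h3
    exact h3
  have h6 : (t - 1) * (h - t - 1) ≤ 0 := by nlinarith
  rcases (by omega : t = 0 ∨ t = 1 ∨ 2 ≤ t) with h7 | h7 | h7
  · rw [h7] at h4
    have h8 : h ∣ 1 := by
      refine ⟨1 - ∑ i, (a i - c) ^ 2, ?_⟩
      rw [mul_sub, h4]; ring
    left
    exact h8.trans (one_dvd _)
  · left
    refine ⟨c, ?_⟩
    rw [hst, h7]; ring
  · right
    have h8 : h - t - 1 = 0 := by
      by_contra hne
      have h9 : 0 < h - t - 1 := by omega
      nlinarith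
    refine ⟨c + 1, ?_⟩
    rw [hst]
    have : t = h - 1 := by omega
    rw [this]; ring

theorem card_irr_abel {H : Type u} [Group H] [Fintype H] (hab : ∀ a b : H, a * b = b * a) :
    Fintype.card (IrrCharacter H) = Nat.card H := by
  have h1 := sum_sq_degree (G := H)
  have h2 : ∀ χ : IrrCharacter H, ((χ : H → ℂ) 1) ^ 2 = 1 := by
    intro χ
    rw [irr_degree_one_of_comm hab χ.2, one_pow]
  simp only [h2, Finset.sum_const, Finset.card_univ, nsmul_eq_mul, mul_one] at h1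
  exact_mod_cast h1

/-- characters of abelian groups with small total norm -/
theorem abel_char {H : Type u} [Group H] [Fintype H] (hab : ∀ a b : H, a * b = b * a) {φ : H → ℂ} (hφ : IsCharacter H φ)
    {N : ℕ} (hN : φ 1 = N) (hsum : ∑ x : H, ‖φ x‖ ^ 2 = (N : ℝ) ^ 2 + Nat.card H - 1) :
    Nat.card H ∣ N + 1 ∨ (Nat.card H : ℤ) ∣ (N : ℤ) - 1 := by
  classical
  have hcl := char_classFun hφ
  choose a ha using fun χ : IrrCharacter H => char_mult hφ (irr_isCharacter χ.2)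
  have hH0 : (0 : ℝ) < Nat.card H := by exact_mod_cast Nat.card_pos
  have h1 : ∑ χ : IrrCharacter H, (a χ : ℤ) = (N : ℤ) := by
    have h2 := classFun_expand_apply hcl 1
    rw [hN] at h2
    have h3 : ∀ χ : IrrCharacter H, classInner φ χ * (χ : H → ℂ) 1 = (a χ : ℂ) := by
      intro χ
      rw [ha χ, irr_degree_one_of_comm hab χ.2, mul_one]
    simp only [h3] at h2
    have h4 : (N : ℂ) = ((∑ χ : IrrCharacter H, (a χ : ℤ) : ℤ) : ℂ) := by rw [h2]; push_cast; rfl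
    exact_mod_cast h4.symm
  have h2 : (Nat.card H : ℤ) * ∑ χ : IrrCharacter H, (a χ : ℤ) ^ 2 = (N : ℤ) ^ 2 + Nat.card H - 1 := by
    have h3 := parseval hcl hcl
    rw [inner_self_eq, hsum] at h3
    have h4 : ∀ χ : IrrCharacter H, classInner φ χ * conj (classInner φ χ) = (a χ : ℂ) ^ 2 := by
      intro χ
      rw [ha χ, Complex.conj_natCast]; ring
    simp only [h4] at h3
    have h5 : (((Nat.card H : ℝ)⁻¹ * ((N : ℝ) ^ 2 + Nat.card H - 1) : ℝ) : ℂ) = ((∑ χ : IrrCharacter H, (a χ : ℝ) ^ 2 : ℝ) : ℂ) := by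
      rw [h3]; push_cast; rfl
    have h6 : (Nat.card H : ℝ)⁻¹ * ((N : ℝ) ^ 2 + Nat.card H - 1) = ∑ χ : IrrCharacter H, (a χ : ℝ) ^ 2 := by
      exact_mod_cast h5
    have h7 : (Nat.card H : ℝ) * ∑ χ : IrrCharacter H, (a χ : ℝ) ^ 2 = (N : ℝ) ^ 2 + Nat.card H - 1 := by
      rw [← h6, ← mul_assoc, mul_inv_cancel₀ hH0.ne', one_mul]
    exact_mod_cast h7
  rcases arith (fun χ : IrrCharacter H => (a χ : ℤ)) (Nat.card H) N (by exact_mod_cast Nat.card_pos)
    (by rw [card_irr_abel hab]) h1 h2 with h | h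
  · right; exact h
  · left; exact_mod_cast h

/-- twisting by commutators: every element of the coset `P x` is conjugate to a central translate of `x` -/
theorem conj_coset {Γ : Type u} [Group Γ] [Finite Γ] (P : Subgroup Γ) (hPn : P.Normal) {x : Γ}
    (hx1 : ∃ m : ℕ, 0 < m ∧ x ^ m = 1 ∧ Nat.Coprime m (Nat.card P))
    (hcent : ∀ z ∈ P, (∀ k ∈ P, k * z = z * k) → x * z = z * x)
    (hfix : ∀ g ∈ P, x * g = g * x → ∀ k ∈ P, k * g = g * k) (g : Γ) (hg : g ∈ P) :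
    ∃ u ∈ P, ∃ z ∈ P, (∀ k ∈ P, k * z = z * k) ∧ g * x = u * (z * x) * u⁻¹ := by
  -- the centre of `P` as a subgroup
  obtain ⟨Z, hZ⟩ : ∃ Z : Subgroup Γ, Z = P ⊓ Subgroup.centralizer (P : Set Γ) := ⟨_, rfl⟩
  have hZmem : ∀ z, z ∈ Z ↔ z ∈ P ∧ ∀ k ∈ P, k * z = z * k := by
    intro z
    rw [hZ, Subgroup.mem_inf, Subgroup.mem_centralizer_iff]
    rfl
  haveI hZn : Z.Normal := by
    constructor
    intro z hz γ
    rw [hZmem] at hz ⊢
    refine ⟨hPn.conj_mem z hz.1 γ, fun k hk => ?_⟩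
    have h1 := hz.2 (γ⁻¹ * k * γ) (by
      have := hPn.conj_mem k hk γ⁻¹
      rwa [inv_inv] at this)
    have h2 : k * (γ * z * γ⁻¹) = γ * ((γ⁻¹ * k * γ) * z) * γ⁻¹ := by group
    rw [h2, h1]; group
  have hker : ∀ u ∈ P, u * x * u⁻¹ * x⁻¹ ∈ Z → u ∈ Z := by
    intro u hu hc
    obtain ⟨c, hcdef⟩ : ∃ c, c = u * x * u⁻¹ * x⁻¹ := ⟨_, rfl⟩
    rw [← hcdef] at hc
    have hc2 := (hZmem c).mp hc
    have hxc : x * c = c * x := hcent c hc2.1 hc2.2
    have huc : u * c = c * u := hc2.2 u hu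
    have h1 : u * x * u⁻¹ = c * x := by rw [hcdef, inv_mul_cancel_right]
    obtain ⟨m, hm, hxm, hcop⟩ := hx1
    have h2 : c ^ m = 1 := by
      have h3 : (u * x * u⁻¹) ^ m = 1 := by rw [conj_pow, hxm, mul_one, mul_inv_cancel]
      rw [h1, (show Commute c x from hxc.symm).mul_pow, hxm, mul_one] at h3
      exact h3
    have h3 : c ^ Nat.card P = 1 := by
      have := pow_card_eq_one' (x := (⟨c, hc2.1⟩ : P))
      exact congrArg Subtype.val this
    have h4 : c = 1 := by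
      have h10 := orderOf_dvd_of_pow_eq_one h2
      have h11 := orderOf_dvd_of_pow_eq_one h3
      have h12 := Nat.dvd_gcd h10 h11
      rw [hcop, Nat.dvd_one, orderOf_eq_one_iff] at h12
      exact h12
    rw [h4, one_mul, mul_inv_eq_iff_eq_mul] at h1
    rw [hZmem]
    exact ⟨hu, hfix u hu h1.symm⟩
  -- the map on the quotient
  let Pb := P.map (QuotientGroup.mk' Z)
  let f : Pb → Pb := fun y => ⟨y.1 * QuotientGroup.mk' Z x * y.1⁻¹ * (QuotientGroup.mk' Z x)⁻¹, by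
    have hn : Pb.Normal := hPn.map _ (QuotientGroup.mk'_surjective Z)
    have h1 : y.1 * QuotientGroup.mk' Z x * y.1⁻¹ * (QuotientGroup.mk' Z x)⁻¹ = y.1 * (QuotientGroup.mk' Z x * y.1⁻¹ * (QuotientGroup.mk' Z x)⁻¹) := by group
    rw [h1]
    exact Pb.mul_mem y.2 (hn.conj_mem _ (Pb.inv_mem y.2) _)⟩
  have hinj : Function.Injective f := by
    rintro ⟨_, u, hu, rfl⟩ ⟨_, v, hv, rfl⟩ h
    have h1 : QuotientGroup.mk' Z u * QuotientGroup.mk' Z x * (QuotientGroup.mk' Z u)⁻¹ * (QuotientGroup.mk' Z x)⁻¹ =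
      QuotientGroup.mk' Z v * QuotientGroup.mk' Z x * (QuotientGroup.mk' Z v)⁻¹ * (QuotientGroup.mk' Z x)⁻¹ := congrArg Subtype.val h
    have h2 : QuotientGroup.mk' Z ((v⁻¹ * u) * x * (v⁻¹ * u)⁻¹ * x⁻¹) = 1 := by
      simp only [map_mul, map_inv]
      have h3 : QuotientGroup.mk' Z u * QuotientGroup.mk' Z x * (QuotientGroup.mk' Z u)⁻¹ = QuotientGroup.mk' Z v * QuotientGroup.mk' Z x * (QuotientGroup.mk' Z v)⁻¹ :=
        mul_right_cancel h1
      have h4 : (QuotientGroup.mk' Z v)⁻¹ * QuotientGroup.mk' Z u * QuotientGroup.mk' Z x * ((QuotientGroup.mk' Z v)⁻¹ * QuotientGroup.mk' Z u)⁻¹ * (QuotientGroup.mk' Z x)⁻¹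
        = (QuotientGroup.mk' Z v)⁻¹ * (QuotientGroup.mk' Z u * QuotientGroup.mk' Z x * (QuotientGroup.mk' Z u)⁻¹) * QuotientGroup.mk' Z v * (QuotientGroup.mk' Z x)⁻¹ := by group
      rw [h4, h3]; group
    have h3 := hker (v⁻¹ * u) (P.mul_mem (P.inv_mem hv) hu) ((QuotientGroup.eq_one_iff _).mp h2)
    apply Subtype.ext
    show QuotientGroup.mk' Z u = QuotientGroup.mk' Z v
    have h4 : QuotientGroup.mk' Z (v⁻¹ * u) = 1 := (QuotientGroup.eq_one_iff _).mpr h3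
    rw [map_mul, map_inv, inv_mul_eq_one] at h4
    exact h4.symm
  have hsurj : Function.Surjective f := Finite.surjective_of_injective hinj
  obtain ⟨⟨_, u, hu, rfl⟩, hfu⟩ := hsurj ⟨QuotientGroup.mk' Z g, g, hg, rfl⟩
  have h1 : QuotientGroup.mk' Z u * QuotientGroup.mk' Z x * (QuotientGroup.mk' Z u)⁻¹ * (QuotientGroup.mk' Z x)⁻¹ = QuotientGroup.mk' Z g := congrArg Subtype.val hfu
  have h2 : QuotientGroup.mk' Z (g * (u * x * u⁻¹ * x⁻¹)⁻¹) = 1 := by
    rw [map_mul, map_inv, ← h1]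
    simp only [map_mul, map_inv]
    group
  have h3 : g * (u * x * u⁻¹ * x⁻¹)⁻¹ ∈ Z := (QuotientGroup.eq_one_iff _).mp h2
  have h4 := (hZmem _).mp h3
  obtain ⟨z, hz⟩ : ∃ z, z = g * (u * x * u⁻¹ * x⁻¹)⁻¹ := ⟨_, rfl⟩
  rw [← hz] at h4
  refine ⟨u, hu, z, h4.1, h4.2, ?_⟩
  have h5 := h4.2 u hu
  have h6 : g = z * (u * x * u⁻¹ * x⁻¹) := by rw [hz, inv_mul_cancel_right]
  have h7 : u * (z * x) * u⁻¹ = (u * z) * x * u⁻¹ := by group
  rw [h7, h5, h6]; group

/-- the coset sums -/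
theorem core {Γ : Type u} [Group Γ] [Fintype Γ] (P H : Subgroup Γ) [Fintype P] [Fintype H] [hPn : P.Normal] {N : ℕ}
    {θ : P → ℂ} (hθ : IsIrrCharacter P θ) (hθ1 : θ 1 = N) (hvan : ∀ x : P, x ∉ Subgroup.center P → θ x = 0)
    (hcyc : IsCyclic H) (hcop : (Nat.card H).Coprime (Nat.card P))
    (hfix : ∀ x ∈ H, x ≠ 1 → ∀ g ∈ P, x * g = g * x → ∀ k ∈ P, k * g = g * k)
    (hcent : ∀ x ∈ H, ∀ z ∈ P, (∀ k ∈ P, k * z = z * k) → x * z = z * x) (htop : P ⊔ H = ⊤) :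
    Nat.card H ∣ N + 1 ∨ (Nat.card H : ℤ) ∣ (N : ℤ) - 1 := by
  classical
  have habH : ∀ a b : H, a * b = b * a := by
    letI := hcyc.commGroup
    exact fun a b => mul_comm a b
  have hcentral : ∀ z ∈ P, (∀ k ∈ P, k * z = z * k) → ∀ γ : Γ, γ * z = z * γ := by
    intro z hz hk γ
    have hγ : γ ∈ P ⊔ H := by rw [htop]; trivial
    rw [Subgroup.mem_sup_of_normal_left] at hγ
    obtain ⟨g, hg, x, hx, rfl⟩ := hγ
    rw [mul_assoc, hcent x hx z hz hk, ← mul_assoc, hk g hg, mul_assoc]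
  have hcen : ∀ n : P, n ∈ Subgroup.center P → ∀ γ : Γ, γ * n = n * γ := by
    intro n hn
    apply hcentral n n.2
    intro k hk
    have := Subgroup.mem_center_iff.mp hn ⟨k, hk⟩
    exact congrArg Subtype.val this
  have hinv : CfsgLib.Extend.Inv P θ := by
    intro γ n
    by_cases hn : n ∈ Subgroup.center P
    · congr 1
      apply Subtype.ext
      show γ * n * γ⁻¹ = n
      rw [hcen n hn γ, mul_inv_cancel_right]
    · rw [hvan n hn]
      apply hvan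
      intro h
      apply hn
      have h1 := hcen _ h γ⁻¹
      have h2 : (n : Γ) = γ⁻¹ * (γ * n * γ⁻¹) * γ := by group
      have h3 : (n : Γ) = γ * n * γ⁻¹ := by
        have h4 : γ⁻¹ * (γ * n * γ⁻¹) = (γ * n * γ⁻¹) * γ⁻¹ := h1
        rw [h4, inv_mul_cancel_right] at h2
        exact h2
      have h5 : n = ⟨γ * n * γ⁻¹, hPn.conj_mem (n : Γ) n.2 γ⟩ := Subtype.ext h3
      rw [h5]
      exact h
  have hcycQ : IsCyclic (Γ ⧸ P) := by
    haveI := hcyc
    apply isCyclic_of_surjective ((QuotientGroup.mk' P).comp H.subtype)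
    intro q
    obtain ⟨γ, rfl⟩ := QuotientGroup.mk'_surjective P q
    have hγ : γ ∈ P ⊔ H := by rw [htop]; trivial
    rw [Subgroup.mem_sup_of_normal_left] at hγ
    obtain ⟨g, hg, x, hx, rfl⟩ := hγ
    refine ⟨⟨x, hx⟩, ?_⟩
    show QuotientGroup.mk' P x = QuotientGroup.mk' P (g * x)
    rw [map_mul]
    have : QuotientGroup.mk' P g = 1 := (QuotientGroup.eq_one_iff g).mpr hg
    rw [this, one_mul]
  obtain ⟨χ, hχ, hext⟩ := CfsgLib.Extend.ext_cyclic hcycQ hθ hinv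
  have hdisj : Disjoint P H := Subgroup.disjoint_of_coprime_natCard hcop.symm
  have hcompl : Subgroup.IsComplement' P H := by
    apply Subgroup.isComplement'_of_disjoint_and_mul_eq_univ hdisj
    rw [← Subgroup.normal_mul, htop]
    rfl
  have hcard : Nat.card P * Nat.card H = Nat.card Γ := hcompl.card_mul_card
  -- norm of translates
  have hnormz : ∀ z ∈ P, (∀ k ∈ P, k * z = z * k) → ∀ γ : Γ, ‖χ (z * γ)‖ = ‖χ γ‖ := by
    intro z hz hk γ
    have hzc := hcentral z hz hk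
    obtain ⟨l, hl⟩ := CfsgLib.BrLeon.central_hom (Subgroup.center Γ).subtype
      (fun z c => (Subgroup.mem_center_iff.mp z.2 c).symm) hχ
    have h1 := hl ⟨z, Subgroup.mem_center_iff.mpr hzc⟩ γ
    have h2 : χ (z * γ) = (l ⟨z, Subgroup.mem_center_iff.mpr hzc⟩ : ℂ) * χ γ := h1
    rw [h2, norm_mul, norm_one_of_pow (n := Nat.card (Subgroup.center Γ)) Nat.card_pos.ne' (by
      rw [← Units.val_pow_eq_pow_val, ← map_pow, pow_card_eq_one', map_one, Units.val_one]), one_mul]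
  have hcoset : ∀ x ∈ H, x ≠ 1 → ∀ g ∈ P, ‖χ (g * x)‖ = ‖χ x‖ := by
    intro x hx hx1 g hg
    obtain ⟨u, hu, z, hz, hzk, he⟩ := conj_coset P hPn (x := x)
      ⟨Nat.card H, Nat.card_pos, by
        have := pow_card_eq_one' (x := (⟨x, hx⟩ : H))
        exact congrArg Subtype.val this, hcop⟩ (hcent x hx) (hfix x hx hx1) g hg
    rw [he, irr_classFun hχ (z * x) u, hnormz z hz hzk]
  have hP0 : (0 : ℝ) < Nat.card P := by exact_mod_cast Nat.card_pos
  have hΓ0 : (0 : ℝ) < Nat.card Γ := by exact_mod_cast Nat.card_pos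
  have hsumΓ : ∑ γ : Γ, ‖χ γ‖ ^ 2 = Nat.card Γ := by
    have h1 := inner_self_eq χ
    rw [irr_inner_self hχ] at h1
    have h2 : (1 : ℝ) = (Nat.card Γ : ℝ)⁻¹ * ∑ g : Γ, ‖χ g‖ ^ 2 := by exact_mod_cast h1
    field_simp at h2
    linarith
  have hsumP : ∑ g : P, ‖χ g‖ ^ 2 = Nat.card P := by
    have h1 := inner_self_eq θ
    rw [irr_inner_self hθ] at h1
    have h2 : (1 : ℝ) = (Nat.card P : ℝ)⁻¹ * ∑ g : P, ‖θ g‖ ^ 2 := by exact_mod_cast h1
    field_simp at h2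
    have h3 : ∑ g : P, ‖χ g‖ ^ 2 = ∑ g : P, ‖θ g‖ ^ 2 := Finset.sum_congr rfl fun g _ => by rw [hext g]
    rw [h3]
    linarith
  have hsplit : ∑ γ : Γ, ‖χ γ‖ ^ 2 = ∑ x : H, ∑ g : P, ‖χ ((g : Γ) * x)‖ ^ 2 := by
    have hb : Function.Bijective (fun q : P × H => (q.1 : Γ) * q.2) := hcompl
    rw [← Function.Bijective.sum_comp hb (fun γ : Γ => ‖χ γ‖ ^ 2), Fintype.sum_prod_type_right]
  have hinner : ∀ x : H, ∑ g : P, ‖χ ((g : Γ) * x)‖ ^ 2 = if x = 1 then (Nat.card P : ℝ) else (Nat.card P : ℝ) * ‖χ x‖ ^ 2 := by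
    intro x
    split_ifs with hx
    · subst hx
      rw [← hsumP]
      refine Finset.sum_congr rfl fun g _ => ?_
      rw [Subgroup.coe_one, mul_one]
    · have hx' : (x : Γ) ≠ 1 := fun h => hx (Subtype.ext h)
      rw [Finset.sum_congr rfl (fun g _ => by rw [hcoset x x.2 hx' g g.2]), Finset.sum_const, Finset.card_univ,
        nsmul_eq_mul, Nat.card_eq_fintype_card]
  have hfin : ∑ x : H, ‖χ x‖ ^ 2 = (N : ℝ) ^ 2 + Nat.card H - 1 := by
    rw [hsplit] at hsumΓ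
    simp only [hinner] at hsumΓ
    rw [← Finset.add_sum_erase Finset.univ _ (Finset.mem_univ (1 : H)), if_pos rfl,
      Finset.sum_congr rfl (fun x hx => if_neg (Finset.ne_of_mem_erase hx)), ← Finset.mul_sum] at hsumΓ
    rw [← Finset.add_sum_erase Finset.univ _ (Finset.mem_univ (1 : H))]
    have h1 : χ ((1 : H) : Γ) = N := by
      have := hext 1
      rw [hθ1] at this
      exact this
    rw [h1, Complex.norm_natCast]
    have h2 : (Nat.card Γ : ℝ) = Nat.card P * Nat.card H := by rw [← hcard]; push_cast; rfl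
    rw [h2] at hsumΓ
    have h3 : (Nat.card P : ℝ) * (1 + ∑ x ∈ Finset.univ.erase (1 : H), ‖χ x‖ ^ 2) = Nat.card P * Nat.card H := by
      rw [← hsumΓ]; ring
    have h4 := mul_left_cancel₀ hP0.ne' h3
    linarith
  have hφ : IsCharacter H (fun x : H => χ x) := isCharacter_restrict (irr_isCharacter hχ) H
  exact abel_char habH hφ (N := N) (by
    have := hext 1
    rw [hθ1] at this
    exact this) hfin

end CfsgLib.FgEx
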