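import Mathlib
import Cfsg.Agent.EqBase
import Cfsg.Agent.LibFgOrd2
import Cfsg.Agent.LibFgCnt
import Cfsg.Agent.LibFgBas
import Cfsg.Agent.LibFgBas2

/-! order types: counting elements of given order; the odd part. -/

set_option autoImplicit false

namespace CfsgLib.FgFOT
open CfsgLib.FgCnt

universe u v

theorem exists_equiv {F : Type u} {G : Type v} [Group F] [Finite F] [Group G] [Finite G]
    (hT : ∀ m : ℕ, Nat.card {g : F // orderOf g = m} = Nat.card {h : G // orderOf h = m}) :
    ∃ e : F ≃ G, ∀ g, orderOf (e g) = orderOf g := by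
  have h1 : ∀ m : ℕ, Nonempty ({g : F // orderOf g = m} ≃ {h : G // orderOf h = m}) := fun m =>
    ⟨(Finite.equivFinOfCardEq (hT m)).trans (Finite.equivFinOfCardEq rfl).symm⟩
  let e1 : ∀ m : ℕ, ({g : F // orderOf g = m} ≃ {h : G // orderOf h = m}) := fun m => (h1 m).some
  refine ⟨(Equiv.sigmaFiberEquiv (fun g : F => orderOf g)).symm.trans
    ((Equiv.sigmaCongrRight e1).trans (Equiv.sigmaFiberEquiv (fun g : G => orderOf g))), fun g => ?_⟩
  exact (e1 (orderOf g) ⟨g, rfl⟩).2

theorem card_eq_of_equiv {F : Type u} {G : Type v} [Group F] [Group G] (e : F ≃ G) (he : ∀ g, orderOf (e g) = orderOf g)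
    (P : ℕ → Prop) : Nat.card {g : F // P (orderOf g)} = Nat.card {g : G // P (orderOf g)} :=
  Nat.card_congr (e.subtypeEquiv fun g => by rw [he])

theorem card_mk {X : Type u} [Group X] [Finite X] (T : Subgroup X) [T.Normal] (P : X ⧸ T → Prop) :
    Nat.card {x : X // P (QuotientGroup.mk x)} = Nat.card {z : X ⧸ T // P z} * Nat.card T := by
  refine card_eq_mul_of_fiber (fun x : {x : X // P (QuotientGroup.mk x)} => (⟨QuotientGroup.mk x.1, x.2⟩ : {z : X ⧸ T // P z})) _ ?_
  rintro ⟨z, hz⟩
  obtain ⟨x, rfl⟩ := QuotientGroup.mk_surjective z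
  apply Nat.card_congr
  refine ⟨fun a => ⟨x⁻¹ * a.1.1, ?_⟩, fun t => ⟨⟨x * t.1, ?_⟩, ?_⟩, fun a => ?_, fun t => ?_⟩
  · have h := congrArg Subtype.val a.2
    exact QuotientGroup.eq.mp h.symm
  · have h : (QuotientGroup.mk (x * t.1) : X ⧸ T) = QuotientGroup.mk x := by
      rw [QuotientGroup.mk_mul_of_mem _ t.2]
    rw [h]; exact hz
  · apply Subtype.ext
    exact QuotientGroup.mk_mul_of_mem _ t.2
  · apply Subtype.ext; apply Subtype.ext; simp
  · apply Subtype.ext; simp

theorem orderOf_mk_eq {X : Type u} [Group X] [Finite X] {m : ℕ} (T : Subgroup X) [T.Normal] (hc : Nat.Coprime m (Nat.card T))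
    {g : X} (hg : orderOf g = m) : orderOf (QuotientGroup.mk g : X ⧸ T) = m := by
  apply Nat.dvd_antisymm
  · rw [← hg]; exact orderOf_map_dvd (QuotientGroup.mk' T) g
  · have h1 : g ^ orderOf (QuotientGroup.mk g : X ⧸ T) ∈ T := by
      rw [← QuotientGroup.eq_one_iff, QuotientGroup.mk_pow, pow_orderOf_eq_one]
    have h2 : (g ^ orderOf (QuotientGroup.mk g : X ⧸ T)) ^ Nat.card T = 1 := by
      have := pow_card_eq_one' (x := (⟨_, h1⟩ : T))
      exact congrArg Subtype.val this
    rw [← pow_mul, ← orderOf_dvd_iff_pow_eq_one, hg] at h2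
    exact hc.dvd_of_dvd_mul_right h2

theorem dvd_orderOf_iff {X : Type u} [Group X] [Finite X] {q n : ℕ} (hq : q.Prime) (T : Subgroup X) [T.Normal] (hT : T.index = q ^ n)
    (hc : ¬ q ∣ Nat.card T) (x : X) : q ^ n ∣ orderOf x ↔ orderOf (QuotientGroup.mk x : X ⧸ T) = q ^ n := by
  have hcop : Nat.Coprime (q ^ n) (Nat.card T) := Nat.Coprime.pow_left _ ((Nat.Prime.coprime_iff_not_dvd hq).mpr hc)
  constructor
  · intro h
    have h1 : orderOf (x ^ (orderOf x / q ^ n)) = q ^ n := orderOf_pow_orderOf_div (orderOf_pos x).ne' h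
    have h2 := orderOf_mk_eq T hcop h1
    apply Nat.dvd_antisymm
    · rw [← hT]; exact orderOf_dvd_natCard _
    · have h3 : orderOf (QuotientGroup.mk (x ^ (orderOf x / q ^ n)) : X ⧸ T) ∣ orderOf (QuotientGroup.mk x : X ⧸ T) := by
        rw [QuotientGroup.mk_pow]
        exact orderOf_pow_dvd _
      rwa [h2] at h3
  · intro h
    rw [← h]
    exact orderOf_map_dvd (QuotientGroup.mk' T) x

theorem card_big {X : Type u} [Group X] [Finite X] {q n : ℕ} (hq : q.Prime) (hn : n ≠ 0) (T : Subgroup X) [T.Normal]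
    (hT : T.index = q ^ n) (hc : ¬ q ∣ Nat.card T) {g : X} (hg : orderOf g = q ^ n) :
    Nat.card {x : X // q ^ n ∣ orderOf x} * q = Nat.card X * (q - 1) := by
  have hcop : Nat.Coprime (q ^ n) (Nat.card T) := Nat.Coprime.pow_left _ ((Nat.Prime.coprime_iff_not_dvd hq).mpr hc)
  have h1 : Nat.card {x : X // q ^ n ∣ orderOf x} = Nat.card {x : X // orderOf (QuotientGroup.mk x : X ⧸ T) = q ^ n} :=
    Nat.card_congr (Equiv.subtypeEquivRight fun x => dvd_orderOf_iff hq T hT hc x)
  rw [h1, card_mk T (fun z => orderOf z = q ^ n)]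
  have h2 := orderOf_mk_eq T hcop hg
  have hcyc : IsCyclic (X ⧸ T) := isCyclic_of_orderOf_eq_card _ (h2.trans hT.symm)
  have h3 : Nat.card {z : X ⧸ T // orderOf z = q ^ n} = Nat.totient (q ^ n) := by
    have hcyc' : IsCyclic (⊤ : Subgroup (X ⧸ T)) := (isCyclic_of_surjective (Subgroup.topEquiv (G := X ⧸ T)).symm
      (Subgroup.topEquiv (G := X ⧸ T)).symm.surjective)
    have := card_gen (⊤ : Subgroup (X ⧸ T)) hcyc'
    rw [Subgroup.card_top] at this
    have e : Nat.card (X ⧸ T) = q ^ n := hT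
    rw [e] at this
    rw [← this]
    apply Nat.card_congr
    apply Equiv.subtypeEquivRight
    intro z
    rw [← Subgroup.card_eq_iff_eq_top, Nat.card_zpowers, e]
  rw [h3]
  obtain ⟨m, rfl⟩ := Nat.exists_eq_succ_of_ne_zero hn
  rw [Nat.totient_prime_pow_succ hq, ← Subgroup.card_mul_index T, hT, pow_succ]
  ring


/-- the Sylow subgroup generated by the `q`-part -/
noncomputable def syl {G : Type u} [Group G] [Finite G] {q n : ℕ} [Fact q.Prime] (hv : (Nat.card G).factorization q = n)
    (x : {x : G // q ^ n ∣ orderOf x}) : Sylow q G :=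
  Sylow.ofCard (Subgroup.zpowers (x.1 ^ (orderOf x.1 / q ^ n))) (by
    rw [Nat.card_zpowers, orderOf_pow_orderOf_div (orderOf_pos x.1).ne' x.2, hv])

theorem coe_syl {G : Type u} [Group G] [Finite G] {q n : ℕ} [Fact q.Prime] (hv : (Nat.card G).factorization q = n)
    (x : {x : G // q ^ n ∣ orderOf x}) : ((syl hv x : Sylow q G) : Subgroup G) = Subgroup.zpowers (x.1 ^ (orderOf x.1 / q ^ n)) := rfl

theorem card_fiber {G : Type u} [Group G] [Finite G] {q n : ℕ} [hq : Fact q.Prime] (hn : n ≠ 0)
    (hv : (Nat.card G).factorization q = n) {g : G} (hg : orderOf g = q ^ n) (Q : Sylow q G) :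
    Nat.card {x : {x : G // q ^ n ∣ orderOf x} // syl hv x = Q} * q =
      Nat.card (Subgroup.centralizer ((Q : Subgroup G) : Set G)) * (q - 1) := by
  classical
  have hQcard : Nat.card Q = q ^ n := by rw [Sylow.card_eq_multiplicity, hv]
  -- Q is cyclic
  obtain ⟨a, ha⟩ := CfsgLib.FgBas.exists_conj_mem Q (x := g) ⟨n, hg⟩
  have ho : orderOf (a * g * a⁻¹) = q ^ n := by rw [CfsgLib.FgBas.orderOf_conj, hg]
  have hcyc : IsCyclic Q := by
    refine isCyclic_of_orderOf_eq_card (⟨a * g * a⁻¹, ha⟩ : Q) ?_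
    rw [Subgroup.orderOf_mk, ho, hQcard]
  have hcomm : ∀ x ∈ (Q : Subgroup G), ∀ y ∈ (Q : Subgroup G), x * y = y * x := by
    intro x hx y hy
    have := hcyc.isMulCommutative.is_comm.comm (⟨x, hx⟩ : Q) ⟨y, hy⟩
    exact congrArg Subtype.val this
  have hle : (Q : Subgroup G) ≤ Subgroup.centralizer ((Q : Subgroup G) : Set G) := fun x hx =>
    Subgroup.mem_centralizer_iff.mpr fun y hy => hcomm y hy x hx
  set C := Subgroup.centralizer ((Q : Subgroup G) : Set G) with hC
  let P : Sylow q C := Q.subtype hle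
  have hP : Subgroup.normalizer ((P : Subgroup C) : Set C) ≤ Subgroup.centralizer ((P : Subgroup C) : Set C) := by
    intro c _
    rw [Subgroup.mem_centralizer_iff]
    intro y hy
    apply Subtype.ext
    exact Subgroup.mem_centralizer_iff.mp c.2 y.1 hy
  have h1 := MonoidHom.ker_transferSylow_isComplement' P hP
  have h2 := MonoidHom.not_dvd_card_ker_transferSylow P hP
  have hPcard : Nat.card P = q ^ n := by
    rw [← hQcard]
    exact Nat.card_congr (Subgroup.subgroupOfEquivOfLe hle).toEquiv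
  have h3 := card_big hq.out hn _ (h1.symm.index_eq_card.trans hPcard) h2 (g := (⟨a * g * a⁻¹, hle ha⟩ : C)) (by
    rw [Subgroup.orderOf_mk, ho])
  rw [← h3]
  congr 1
  have key : ∀ x : G, (hx : q ^ n ∣ orderOf x) → (syl hv ⟨x, hx⟩ = Q ↔ x ∈ C) := by
    intro x hx
    constructor
    · intro h
      rw [hC, Subgroup.mem_centralizer_iff]
      intro y hy
      rw [← h, coe_syl] at hy
      obtain ⟨k, hk⟩ := Subgroup.mem_zpowers_iff.mp hy
      rw [← hk]
      exact (((Commute.refl x).pow_left _).zpow_left k)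
    · intro h
      have h4 : x ^ (orderOf x / q ^ n) ∈ Subgroup.normalizer ((Q : Subgroup G) : Set G) :=
        Subgroup.centralizer_le_normalizer _ (pow_mem h _)
      have h5 := CfsgLib.FgBas.mem_of_mem_normalizer Q (x := x ^ (orderOf x / q ^ n))
        ⟨n, orderOf_pow_orderOf_div (orderOf_pos x).ne' hx⟩ h4
      apply Sylow.ext
      apply Subgroup.eq_of_le_of_card_ge
      · rw [coe_syl, Subgroup.zpowers_le]
        exact h5
      · rw [hQcard, Sylow.card_eq_multiplicity, hv]
  apply Nat.card_congr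
  refine ⟨fun x => ⟨⟨x.1.1, (key x.1.1 x.1.2).mp x.2⟩, by rw [Subgroup.orderOf_mk]; exact x.1.2⟩,
    fun x => ⟨⟨x.1.1, by have := x.2; rwa [← Subgroup.orderOf_coe] at this⟩, (key _ _).mpr x.1.2⟩, fun x => rfl, fun x => rfl⟩

theorem card_big_sylow {G : Type u} [Group G] [Finite G] {q n : ℕ} [hq : Fact q.Prime] (hn : n ≠ 0)
    (hv : (Nat.card G).factorization q = n) {g : G} (hg : orderOf g = q ^ n) (Q : Sylow q G) :
    Nat.card {x : G // q ^ n ∣ orderOf x} * q * Nat.card (Subgroup.normalizer ((Q : Subgroup G) : Set G)) =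
      Nat.card G * (q - 1) * Nat.card (Subgroup.centralizer ((Q : Subgroup G) : Set G)) := by
  have h1 := card_eq_mul_of_fiber (syl (G := G) (q := q) hv)
    (Nat.card {x : {x : G // q ^ n ∣ orderOf x} // syl hv x = Q}) (by
    intro Q'
    have h1 := card_fiber hn hv hg Q
    have h2 := card_fiber hn hv hg Q'
    have h3 : Nat.card (Subgroup.centralizer ((Q' : Subgroup G) : Set G)) = Nat.card (Subgroup.centralizer ((Q : Subgroup G) : Set G)) := by
      obtain ⟨a, rfl⟩ := MulAction.exists_smul_eq G Q Q'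
      have e : Subgroup.centralizer (((a • Q : Sylow q G) : Subgroup G) : Set G) =
          (Subgroup.centralizer ((Q : Subgroup G) : Set G)).map (MulAut.conj a).toMonoidHom := by
        ext x
        rw [Subgroup.mem_map_equiv, Subgroup.mem_centralizer_iff, Subgroup.mem_centralizer_iff, MulAut.conj_symm_apply]
        constructor
        · intro h y hy
          have h4 : a * y * a⁻¹ ∈ (((a • Q : Sylow q G) : Subgroup G) : Set G) := by
            change a * y * a⁻¹ ∈ (a • Q : Sylow q G)
            rw [Sylow.smul_def]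
            exact ⟨y, hy, by simp [MulAut.smul_def, MulAut.conj_apply]⟩
          have h5 := h _ h4
          calc y * (a⁻¹ * x * a) = a⁻¹ * (a * y * a⁻¹ * x) * a := by group
            _ = a⁻¹ * (x * (a * y * a⁻¹)) * a := by rw [h5]
            _ = _ := by group
        · intro h y hy
          change y ∈ (a • Q : Sylow q G) at hy
          rw [Sylow.smul_def] at hy
          obtain ⟨z, hz, rfl⟩ := hy
          have h5 := h z hz
          change (MulAut.conj a • z) * x = x * (MulAut.conj a • z)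
          rw [MulAut.smul_def, MulAut.conj_apply]
          calc a * z * a⁻¹ * x = a * (z * (a⁻¹ * x * a)) * a⁻¹ := by group
            _ = a * ((a⁻¹ * x * a) * z) * a⁻¹ := by rw [h5]
            _ = _ := by group
      rw [e]
      exact (Nat.card_congr (Subgroup.equivMapOfInjective _ _ (MulAut.conj a).injective).toEquiv).symm
    rw [h3, ← h1] at h2
    exact Nat.eq_of_mul_eq_mul_right hq.out.pos h2)
  have h2 := card_fiber hn hv hg Q
  rw [h1, Sylow.card_eq_index_normalizer Q]
  calc (Subgroup.normalizer ((Q : Subgroup G) : Set G)).index * Nat.card {x : {x : G // q ^ n ∣ orderOf x} // syl hv x = Q} * q *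
      Nat.card (Subgroup.normalizer ((Q : Subgroup G) : Set G)) = (Nat.card (Subgroup.normalizer ((Q : Subgroup G) : Set G)) *
        (Subgroup.normalizer ((Q : Subgroup G) : Set G)).index) * (Nat.card {x : {x : G // q ^ n ∣ orderOf x} // syl hv x = Q} * q) := by ring
    _ = _ := by rw [Subgroup.card_mul_index, h2]; ring

/-- the set of solutions of `x ^ k = 1` is closed under multiplication -/
def Cl (G : Type u) [Group G] (k : ℕ) : Prop := ∀ x y : G, x ^ k = 1 → y ^ k = 1 → (x * y) ^ k = 1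

theorem claimA (N : ℕ) : ∀ (F : Type u) (G : Type v) [Group F] [Finite F] [Group G] [Finite G] (e : F ≃ G)
    (_ : ∀ g, orderOf (e g) = orderOf g) (K : Subgroup F) [K.Normal] (_ : Nat.card F = N)
    (_ : Nat.Coprime (Nat.card K) K.index)
    (_ : ∀ q : ℕ, q.Prime → q ∣ K.index → ∃ g : F, orderOf g = q ^ (Nat.card F).factorization q),
    Cl G (Nat.card K) := by
  induction N using Nat.strong_induction_on with
  | _ N ih =>
  intro F G _ _ _ _ e he K _ hN hcop hcyc
  have hcardG : Nat.card G = N := by rw [← hN]; exact (Nat.card_congr e).symm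
  by_cases hK : K.index = 1
  · intro x y _ _
    have h1 : Nat.card K = Nat.card G := by
      rw [hcardG, ← hN, ← Subgroup.card_mul_index K, hK, mul_one]
    rw [h1]
    exact pow_card_eq_one'
  -- smallest prime divisor of the index
  obtain ⟨q, hqdef⟩ : ∃ q, q = K.index.minFac := ⟨_, rfl⟩
  have hq : q.Prime := by rw [hqdef]; exact Nat.minFac_prime hK
  have hqd : q ∣ K.index := by rw [hqdef]; exact Nat.minFac_dvd _
  have : Fact q.Prime := ⟨hq⟩
  obtain ⟨n, hn⟩ : ∃ n, n = (Nat.card F).factorization q := ⟨_, rfl⟩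
  have hindF : K.index ∣ Nat.card F := Subgroup.index_dvd_card K
  have hn0 : n ≠ 0 := by
    rw [hn]
    exact (hq.factorization_pos_of_dvd Nat.card_pos.ne' (hqd.trans hindF)).ne'
  obtain ⟨g, hg⟩ := hcyc q hq hqd
  rw [← hn] at hg
  have hqK : ¬ q ∣ Nat.card K := fun h => hq.one_lt.ne' (Nat.eq_one_of_dvd_coprimes hcop h hqd)
  have hfac : K.index.factorization q = n := by
    rw [hn, ← Subgroup.card_mul_index K, Nat.factorization_mul Nat.card_pos.ne' (Subgroup.index_ne_zero_of_finite)]
    rw [Finsupp.add_apply, Nat.factorization_eq_zero_of_not_dvd hqK, zero_add]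
  -- the quotient
  have hmin : (Nat.card (F ⧸ K)).minFac = q := hqdef.symm
  obtain ⟨P⟩ := (inferInstance : Nonempty (Sylow q (F ⧸ K)))
  have hgb : orderOf (QuotientGroup.mk g : F ⧸ K) = q ^ n := orderOf_mk_eq K
    (Nat.Coprime.pow_left _ ((Nat.Prime.coprime_iff_not_dvd hq).mpr hqK)) hg
  have hPcyc : IsCyclic P := by
    obtain ⟨a, ha⟩ := CfsgLib.FgBas.exists_conj_mem P (x := (QuotientGroup.mk g : F ⧸ K)) ⟨n, hgb⟩
    refine isCyclic_of_orderOf_eq_card (⟨_, ha⟩ : P) ?_
    rw [Subgroup.orderOf_mk, CfsgLib.FgBas.orderOf_conj, hgb, Sylow.card_eq_multiplicity]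
    exact congrArg (q ^ ·) hfac.symm
  have hcompl := IsCyclic.isComplement' hmin hPcyc
  have hnd := MonoidHom.not_dvd_card_ker_transferSylow P (hPcyc.normalizer_le_centralizer hmin)
  obtain ⟨Tb, hTb⟩ : ∃ Tb, Tb = (MonoidHom.transferSylow P (hPcyc.normalizer_le_centralizer hmin)).ker := ⟨_, rfl⟩
  have hTbn : Tb.Normal := by rw [hTb]; infer_instance
  rw [← hTb] at hnd
  have hTbi : Tb.index = q ^ n := by
    rw [hTb, hcompl.symm.index_eq_card, Sylow.card_eq_multiplicity]
    exact congrArg (q ^ ·) hfac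
  let T : Subgroup F := Tb.comap (QuotientGroup.mk' K)
  have hTn : T.Normal := hTbn.comap _
  have hTi : T.index = q ^ n := by
    rw [← hTbi]
    exact Subgroup.index_comap_of_surjective _ (QuotientGroup.mk'_surjective K)
  have hTcard : Nat.card T * q ^ n = N := by rw [← hTi, Subgroup.card_mul_index, hN]
  have hKT : K ≤ T := by
    intro x hx
    change QuotientGroup.mk' K x ∈ Tb
    have : QuotientGroup.mk' K x = 1 := (QuotientGroup.eq_one_iff x).mpr hx
    rw [this]; exact one_mem _
  have hTq : ¬ q ∣ Nat.card T := by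
    intro h
    have h1 : q ^ (n + 1) ∣ Nat.card F := by
      rw [hN, ← hTcard, pow_succ, mul_comm]
      exact Nat.mul_dvd_mul_right h _
    have := (hq.pow_dvd_iff_le_factorization Nat.card_pos.ne').mp h1
    omega
  have hF := card_big hq hn0 T hTi hTq hg
  -- the group G
  have hvG : (Nat.card G).factorization q = n := by rw [hcardG, ← hN, hn]
  obtain ⟨Q⟩ := (inferInstance : Nonempty (Sylow q G))
  have hgG : orderOf (e g) = q ^ n := by rw [he, hg]
  have hG := card_big_sylow hn0 hvG hgG Q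
  have hE := card_eq_of_equiv e he (fun m => q ^ n ∣ m)
  rw [← hE, hF, hN, hcardG] at hG
  have hNpos : 0 < N * (q - 1) := Nat.mul_pos (by rw [← hN]; exact Nat.card_pos) (by have := hq.one_lt; omega)
  have hNC := Nat.eq_of_mul_eq_mul_left hNpos hG
  have hle : Subgroup.centralizer ((Q : Subgroup G) : Set G) ≤ Subgroup.normalizer ((Q : Subgroup G) : Set G) :=
    Subgroup.centralizer_le_normalizer _
  have hNC2 : Subgroup.normalizer ((Q : Subgroup G) : Set G) ≤ Subgroup.centralizer ((Q : Subgroup G) : Set G) :=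
    (Subgroup.eq_of_le_of_card_ge hle (le_of_eq hNC)).ge
  have hcG := MonoidHom.ker_transferSylow_isComplement' Q hNC2
  have hqG := MonoidHom.not_dvd_card_ker_transferSylow Q hNC2
  obtain ⟨S, hS⟩ : ∃ S, S = (MonoidHom.transferSylow Q hNC2).ker := ⟨_, rfl⟩
  have hSn : S.Normal := by rw [hS]; infer_instance
  rw [← hS] at hqG hcG
  have hSi : S.index = q ^ n := by
    rw [hcG.symm.index_eq_card, Sylow.card_eq_multiplicity, hvG]
  have memT : ∀ x : F, x ∈ T ↔ ¬ q ∣ orderOf x := by
    intro x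
    constructor
    · intro hx h
      apply hTq
      refine h.trans ?_
      rw [← Subgroup.orderOf_mk x hx]; exact orderOf_dvd_natCard _
    · intro h
      refine CfsgLib.FgBas.mem_of_pow_mem (m := q ^ n) ?_ (Nat.Coprime.pow_right _ ((Nat.Prime.coprime_iff_not_dvd hq).mpr h).symm)
      rw [← hTi]
      exact Subgroup.pow_index_mem T x
  have memS : ∀ x : G, x ∈ S ↔ ¬ q ∣ orderOf x := by
    intro x
    constructor
    · intro hx h
      apply hqG
      refine h.trans ?_
      rw [← Subgroup.orderOf_mk x hx]; exact orderOf_dvd_natCard _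
    · intro h
      refine CfsgLib.FgBas.mem_of_pow_mem (m := q ^ n) ?_ (Nat.Coprime.pow_right _ ((Nat.Prime.coprime_iff_not_dvd hq).mpr h).symm)
      rw [← hSi]
      exact Subgroup.pow_index_mem S x
  let e' : T ≃ S := e.subtypeEquiv (fun x => by rw [memT, memS, he])
  have he' : ∀ x : T, orderOf (e' x) = orderOf x := by
    intro x
    rw [← Subgroup.orderOf_coe, ← Subgroup.orderOf_coe x]
    exact he x.1
  have hKcard : Nat.card (K.subgroupOf T) = Nat.card K := Nat.card_congr (Subgroup.subgroupOfEquivOfLe hKT).toEquiv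
  have hidx : (K.subgroupOf T).index * T.index = K.index := Subgroup.relIndex_mul_index hKT
  have hfacT : ∀ r : ℕ, r.Prime → r ≠ q → (Nat.card T).factorization r = (Nat.card F).factorization r := by
    intro r hr hrq
    rw [hN, ← hTcard, Nat.factorization_mul Nat.card_pos.ne' (pow_pos hq.pos n).ne', Finsupp.add_apply,
      Nat.Prime.factorization_pow hq, Finsupp.single_apply, if_neg (Ne.symm hrq), add_zero]
  have hlt : Nat.card T < N := by
    rw [← hTcard]
    have h1 : 1 < q ^ n := Nat.one_lt_pow hn0 hq.one_lt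
    have h2 : 0 < Nat.card T := Nat.card_pos
    nlinarith
  have := ih (Nat.card T) hlt T S e' he' (K.subgroupOf T) rfl (by
    rw [hKcard]
    exact Nat.Coprime.coprime_dvd_right ⟨T.index, hidx.symm⟩ hcop) (by
    intro r hr hrd
    have hrq : r ≠ q := by
      rintro rfl
      exact hTq (hrd.trans (Subgroup.index_dvd_card _))
    obtain ⟨y, hy⟩ := hcyc r hr (by rw [← hidx]; exact hrd.mul_right _)
    have hyT : y ∈ T := by
      rw [memT, hy]
      intro h
      exact hrq ((Nat.prime_dvd_prime_iff_eq hq hr).mp (hq.dvd_of_dvd_pow h)).symm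
    refine ⟨⟨y, hyT⟩, ?_⟩
    rw [Subgroup.orderOf_mk, hy, hfacT r hr hrq])
  rw [hKcard] at this
  intro x y hx hy
  have aux : ∀ x : G, x ^ Nat.card K = 1 → x ∈ S := by
    intro x hx
    rw [memS]
    intro h
    exact hqK (h.trans (orderOf_dvd_of_pow_eq_one hx))
  have h1 := this ⟨x, aux x hx⟩ ⟨y, aux y hy⟩ (Subtype.ext hx) (Subtype.ext hy)
  exact congrArg Subtype.val h1

end CfsgLib.FgFOT
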