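import Mathlib
import Cfsg.Agent.EqBase
import Cfsg.Agent.LibFgFOT
import Cfsg.Agent.LibFgFpf
import Cfsg.Agent.LibFgFpf2
import Cfsg.Agent.LibFPF1
import Cfsg.Agent.S0035
import Cfsg.Agent.S0039

/-! order types of Frobenius groups: the even part -/

set_option autoImplicit false
set_option linter.unusedSectionVars false

namespace CfsgLib.FgFOT
open CfsgLib.FgCnt
open scoped Pointwise

universe u v

structure Frob {F : Type u} [Group F] (K H : Subgroup F) : Prop where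
  normal : K.Normal
  compl : Subgroup.IsComplement' K H
  fc : Cfsg.IsFrobeniusComplement H
  fpf : ∀ h ∈ H, ∀ v ∈ K, h * v = v * h → h = 1 ∨ v = 1

theorem Frob.of_compl {F : Type u} [Group F] [Finite F] {H : Subgroup F} (hH : Cfsg.IsFrobeniusComplement H) :
    ∃ K : Subgroup F, (K : Set F) = Cfsg.frobeniusKernel H ∧ Frob K H := by
  obtain ⟨N, hN, hn, hc⟩ := Cfsg.Agent.S0035.result H hH
  refine ⟨N, hN, hn, hc, hH, ?_⟩
  have hN1 : N ≠ ⊥ := by
    rintro rfl
    apply hH.2.1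
    have := hc.sup_eq_top
    rwa [bot_sup_eq] at this
  have h := (Cfsg.Agent.S0039.result N H hc hN1 hH.1).mp hH
  intro a ha v hv hav
  by_cases ha1 : a = 1
  · exact Or.inl ha1
  · right
    have : v ∈ N ⊓ Subgroup.centralizer {a} := ⟨hv, Subgroup.mem_centralizer_singleton_iff.mpr hav.symm⟩
    rw [h a ha ha1] at this
    exact this

namespace Frob
variable {F : Type u} [Group F] [Finite F] {K H : Subgroup F} (hf : Frob K H)
include hf

theorem K_ne : K ≠ ⊥ := by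
  rintro rfl
  apply hf.fc.2.1
  have := hf.compl.sup_eq_top
  rwa [bot_sup_eq] at this

theorem H_ne : H ≠ ⊥ := hf.fc.1

theorem FPF : CfsgLib.FPF1.FPF H K := by
  intro a ha ha1
  rw [eq_bot_iff]
  rintro v ⟨hv, hva⟩
  rcases hf.fpf a ha v hv (Subgroup.mem_centralizer_singleton_iff.mp hva).symm with h | h
  · exact absurd h ha1
  · exact h

theorem le_norm : H ≤ Subgroup.normalizer (K : Set F) := by
  have := hf.normal
  rw [Subgroup.normalizer_eq_top]; exact le_top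

theorem card : Nat.card K * Nat.card H = Nat.card F := hf.compl.card_mul_card

theorem index : K.index = Nat.card H := hf.compl.symm.index_eq_card

theorem cop : Nat.Coprime (Nat.card K) (Nat.card H) := (CfsgLib.FPF1.FPF.coprime hf.FPF hf.le_norm).symm

theorem mem_iff (x : F) : x ∈ K ↔ x ^ Nat.card K = 1 := by
  have := hf.normal
  constructor
  · intro hx
    have := pow_card_eq_one' (x := (⟨x, hx⟩ : K))
    exact congrArg Subtype.val this
  · intro hx
    refine CfsgLib.FgBas.mem_of_pow_mem (m := K.index) (Subgroup.pow_index_mem K x) ?_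
    rw [hf.index]
    exact hf.cop.coprime_dvd_left (orderOf_dvd_of_pow_eq_one hx)

theorem card_pow : Nat.card {x : F // x ^ Nat.card K = 1} = Nat.card K :=
  Nat.card_congr (Equiv.subtypeEquivRight fun x => (hf.mem_iff x).symm)

theorem fact_eq {r : ℕ} (hr : r.Prime) (hrh : r ∣ Nat.card H) : (Nat.card H).factorization r = (Nat.card F).factorization r := by
  have h1 : ¬ r ∣ Nat.card K := fun h => hr.one_lt.ne' (Nat.eq_one_of_dvd_coprimes hf.cop h hrh)
  rw [← hf.card, Nat.factorization_mul Nat.card_pos.ne' Nat.card_pos.ne', Finsupp.add_apply,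
    Nat.factorization_eq_zero_of_not_dvd h1, zero_add]

theorem exists_conj {r : ℕ} (hr : r.Prime) (hrh : r ∣ Nat.card H) {x : F} (hx : ∃ j, orderOf x = r ^ j) :
    ∃ a : F, a * x * a⁻¹ ∈ H := by
  have : Fact r.Prime := ⟨hr⟩
  obtain ⟨P⟩ := (inferInstance : Nonempty (Sylow r H))
  let Q : Sylow r F := Sylow.ofCard ((P : Subgroup H).map H.subtype) (by
    rw [Subgroup.card_map_of_injective H.subtype_injective, Sylow.card_eq_multiplicity, hf.fact_eq hr hrh])
  obtain ⟨a, ha⟩ := CfsgLib.FgBas.exists_conj_mem Q hx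
  exact ⟨a, Subgroup.map_subtype_le _ ha⟩

theorem no_mixed {p r : ℕ} (hp : p.Prime) (hr : r.Prime) (hpk : p ∣ Nat.card K) (hrh : r ∣ Nat.card H) (g : F) :
    orderOf g ≠ p * r := by
  intro hg
  have h1 : orderOf (g ^ r) = p := by
    rw [orderOf_pow_of_dvd hr.ne_zero (by rw [hg]; exact dvd_mul_left _ _), hg, Nat.mul_div_cancel _ hr.pos]
  have h2 : orderOf (g ^ p) = r := by
    rw [orderOf_pow_of_dvd hp.ne_zero (by rw [hg]; exact dvd_mul_right _ _), hg, Nat.mul_div_cancel_left _ hp.pos]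
  obtain ⟨a, ha⟩ := hf.exists_conj hr hrh (x := g ^ p) ⟨1, by rw [h2, pow_one]⟩
  have h3 : g ^ r ∈ K := by
    rw [hf.mem_iff, ← orderOf_dvd_iff_pow_eq_one, h1]; exact hpk
  have h4 : a * g ^ r * a⁻¹ ∈ K := hf.normal.conj_mem _ h3 a
  have hc : Commute (g ^ p) (g ^ r) := (Commute.refl g).pow_pow p r
  rcases hf.fpf _ ha _ h4 (by
    calc a * g ^ p * a⁻¹ * (a * g ^ r * a⁻¹) = a * (g ^ p * g ^ r) * a⁻¹ := by group
      _ = a * (g ^ r * g ^ p) * a⁻¹ := by rw [hc.eq]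
      _ = _ := by group) with h | h
  · have h5 := CfsgLib.FgBas.orderOf_conj a (g ^ p)
    rw [h, orderOf_one, h2] at h5
    exact hr.one_lt.ne h5
  · have h5 := CfsgLib.FgBas.orderOf_conj a (g ^ r)
    rw [h, orderOf_one, h1] at h5
    exact hp.one_lt.ne h5

theorem K_odd (h2 : 2 ∣ Nat.card H) : ¬ 2 ∣ Nat.card K := fun h =>
  Nat.prime_two.one_lt.ne' (Nat.eq_one_of_dvd_coprimes hf.cop h h2)

theorem inv_unique {t t' : F} (ht : t ∈ H) (ht' : t' ∈ H) (h2 : orderOf t = 2) (h2' : orderOf t' = 2) : t = t' := by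
  have := hf.normal
  have key : ∀ t ∈ H, orderOf t = 2 → ∀ v ∈ K, t * v * t⁻¹ = v⁻¹ := by
    intro t ht h2 v hv
    refine CfsgLib.FgFpf.inv_of_sq (N := K) (by rw [← h2]; exact pow_orderOf_eq_one t) ?_ hv
    intro v hv h
    rcases hf.fpf t ht v hv h with h3 | h3
    · rw [h3, orderOf_one] at h2; norm_num at h2
    · exact h3
  obtain ⟨v, hv, hv1⟩ := (Subgroup.ne_bot_iff_exists_ne_one).mp hf.K_ne |>.elim fun v hv =>
    (⟨v.1, v.2, fun h => hv (Subtype.ext h)⟩ : ∃ v ∈ K, v ≠ 1)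
  have e1 := key t ht h2 v hv
  have e2 := key t' ht' h2' v hv
  have hinv : t⁻¹ = t := by rw [inv_eq_iff_mul_eq_one, ← pow_two, ← h2]; exact pow_orderOf_eq_one t
  rcases hf.fpf (t⁻¹ * t') (H.mul_mem (H.inv_mem ht) ht') v hv (by
    have e3 : t * v * t⁻¹ = t' * v * t'⁻¹ := by rw [e1, e2]
    calc t⁻¹ * t' * v = t⁻¹ * (t' * v * t'⁻¹) * t' := by group
      _ = t⁻¹ * (t * v * t⁻¹) * t' := by rw [e3]
      _ = _ := by group) with h | h
  · exact (inv_mul_eq_one.mp h)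
  · exact absurd h hv1

theorem comm_iff {t : F} (ht : t ∈ H) (h2 : orderOf t = 2) (g : F) : Commute g t ↔ g ∈ H := by
  constructor
  · intro hg
    by_contra hgH
    have h1 := hf.fc.2.2 g hgH
    have h3 : t ∈ H ⊓ (MulAut.conj g • H) := by
      refine ⟨ht, ?_⟩
      refine ⟨t, ht, ?_⟩
      change g * t * g⁻¹ = t
      rw [hg.eq, mul_inv_cancel_right]
    rw [h1, Subgroup.mem_bot] at h3
    rw [h3, orderOf_one] at h2
    norm_num at h2
  · intro hg
    have h1 := hf.inv_unique (H.mul_mem (H.mul_mem hg ht) (H.inv_mem hg)) ht (by rw [CfsgLib.FgBas.orderOf_conj, h2]) h2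
    exact mul_inv_eq_iff_eq_mul.mp h1

end Frob


section inv
variable {X : Type u} [Group X] [Finite X]

noncomputable def ca (t : X) : ℕ := Nat.card {y : X // Commute y t ∧ Odd (orderOf y)}
noncomputable def cb (t : X) : ℕ := Nat.card {x : X // 2 ∣ orderOf x ∧ x ^ (orderOf x / 2) = t}

theorem ca_conj (g t : X) : ca (g * t * g⁻¹) = ca t := by
  symm
  refine Nat.card_congr ((MulAut.conj g).toEquiv.subtypeEquiv fun y => ?_)
  change _ ↔ Commute (g * y * g⁻¹) (g * t * g⁻¹) ∧ Odd (orderOf (g * y * g⁻¹))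
  rw [CfsgLib.FgBas.orderOf_conj]
  refine and_congr_left fun _ => ?_
  constructor
  · intro h
    calc g * y * g⁻¹ * (g * t * g⁻¹) = g * (y * t) * g⁻¹ := by group
      _ = g * (t * y) * g⁻¹ := by rw [h.eq]
      _ = _ := by group
  · intro h
    calc y * t = g⁻¹ * (g * y * g⁻¹ * (g * t * g⁻¹)) * g := by group
      _ = g⁻¹ * (g * t * g⁻¹ * (g * y * g⁻¹)) * g := by rw [h.eq]
      _ = _ := by group

theorem cb_conj (g t : X) : cb (g * t * g⁻¹) = cb t := by
  symm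
  refine Nat.card_congr ((MulAut.conj g).toEquiv.subtypeEquiv fun y => ?_)
  change _ ↔ 2 ∣ orderOf (g * y * g⁻¹) ∧ (g * y * g⁻¹) ^ (orderOf (g * y * g⁻¹) / 2) = g * t * g⁻¹
  rw [CfsgLib.FgBas.orderOf_conj, conj_pow]
  refine and_congr_right fun _ => ?_
  rw [mul_left_inj, mul_right_inj]

theorem card_even (hconj : ∀ t t' : X, orderOf t = 2 → orderOf t' = 2 → ∃ g, g * t * g⁻¹ = t') {t : X} (ht : orderOf t = 2) :
    Nat.card {x : X // 2 ∣ orderOf x} = Nat.card {u : X // orderOf u = 2} * cb t := by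
  refine card_eq_mul_of_fiber (fun x : {x : X // 2 ∣ orderOf x} =>
    (⟨x.1 ^ (orderOf x.1 / 2), orderOf_pow_orderOf_div (orderOf_pos x.1).ne' x.2⟩ : {u : X // orderOf u = 2})) _ ?_
  rintro ⟨u, hu⟩
  obtain ⟨g, rfl⟩ := hconj t u ht hu
  rw [← cb_conj g t]
  apply Nat.card_congr
  refine ⟨fun x => ⟨x.1.1, x.1.2, congrArg Subtype.val x.2⟩, fun x => ⟨⟨x.1, x.2.1⟩, Subtype.ext x.2.2⟩, fun x => rfl, fun x => rfl⟩

theorem card_two_mod_four (hconj : ∀ t t' : X, orderOf t = 2 → orderOf t' = 2 → ∃ g, g * t * g⁻¹ = t') {t : X} (ht : orderOf t = 2) :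
    Nat.card {x : X // orderOf x % 4 = 2} = Nat.card {u : X // orderOf u = 2} * ca t := by
  have hd : ∀ x : {x : X // orderOf x % 4 = 2}, 2 ∣ orderOf x.1 := fun x => by have := x.2; omega
  refine card_eq_mul_of_fiber (fun x : {x : X // orderOf x % 4 = 2} =>
    (⟨x.1 ^ (orderOf x.1 / 2), orderOf_pow_orderOf_div (orderOf_pos x.1).ne' (hd x)⟩ : {u : X // orderOf u = 2})) _ ?_
  rintro ⟨u, hu⟩
  obtain ⟨g, rfl⟩ := hconj t u ht hu
  rw [← ca_conj g t]
  obtain ⟨s, hs⟩ : ∃ s, s = g * t * g⁻¹ := ⟨_, rfl⟩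
  rw [← hs] at hu
  have hss : s * s = 1 := by rw [← pow_two, ← hu]; exact pow_orderOf_eq_one s
  have h1 : ∀ x : X, orderOf x % 4 = 2 → x ^ (orderOf x / 2) = s → Commute (s * x) s ∧ Odd (orderOf (s * x)) := by
    intro x hx hxs
    have hc : Commute s x := by rw [← hxs]; exact Commute.pow_self x _
    refine ⟨(Commute.refl s).mul_left hc.symm, ?_⟩
    have hodd : Odd (orderOf x / 2) := by rw [Nat.odd_iff]; omega
    refine Odd.of_dvd_nat hodd (orderOf_dvd_of_pow_eq_one ?_)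
    rw [hc.mul_pow, hxs]
    obtain ⟨j, hj⟩ := hodd
    rw [hj, pow_succ, pow_mul, pow_two, hss, one_pow, one_mul, hss]
  have h2 : ∀ y : X, Commute y s → Odd (orderOf y) → orderOf (s * y) = 2 * orderOf y ∧ (s * y) ^ (orderOf y) = s := by
    intro y hy ho
    constructor
    · rw [hy.symm.orderOf_mul_eq_mul_orderOf_of_coprime, hu]
      rw [hu]; exact (Nat.coprime_two_left).mpr ho
    · rw [hy.symm.mul_pow, pow_orderOf_eq_one, mul_one]
      obtain ⟨j, hj⟩ := ho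
      rw [hj, pow_succ, pow_mul, pow_two, hss, one_pow, one_mul]
  rw [show ca (g * t * g⁻¹) = ca s by rw [hs]]
  apply Nat.card_congr
  refine ⟨fun x => ⟨s * x.1.1, ?_⟩, fun y => ⟨⟨s * y.1, ?_⟩, ?_⟩, fun x => ?_, fun y => ?_⟩
  · have h3 : x.1.1 ^ (orderOf x.1.1 / 2) = g * t * g⁻¹ := congrArg Subtype.val x.2
    exact h1 x.1.1 x.1.2 (h3.trans hs.symm)
  · rw [(h2 y.1 y.2.1 y.2.2).1]
    obtain ⟨j, hj⟩ := y.2.2
    omega
  · apply Subtype.ext
    change (s * y.1) ^ (orderOf (s * y.1) / 2) = g * t * g⁻¹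
    rw [← hs, (h2 y.1 y.2.1 y.2.2).1, Nat.mul_div_cancel_left _ (by norm_num)]
    exact (h2 y.1 y.2.1 y.2.2).2
  · apply Subtype.ext; apply Subtype.ext
    change s * (s * x.1.1) = x.1.1
    rw [← mul_assoc, hss, one_mul]
  · apply Subtype.ext
    change s * (s * y.1) = y.1
    rw [← mul_assoc, hss, one_mul]

/-- elements of order `2 s` -/
theorem card_two_mul {s : ℕ} (hs : s.Prime) (hs2 : s ≠ 2) :
    Nat.card {z : X // orderOf z = 2 * s} =
      Nat.card (Σ x : {x : X // orderOf x = s}, {u : X // orderOf u = 2 ∧ Commute u x.1}) := by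
  obtain ⟨a, b, h1, h2⟩ := CfsgLib.FgOrd.decomp X ((Nat.coprime_primes Nat.prime_two hs).mpr (Ne.symm hs2)) Nat.prime_two.pos hs.pos
  apply Nat.card_congr
  refine ⟨fun z => ⟨⟨z.1 ^ b, (h1 z.1 z.2).2.1⟩, ⟨z.1 ^ a, (h1 z.1 z.2).1, (Commute.refl z.1).pow_pow a b⟩⟩,
    fun q => ⟨q.2.1 * q.1.1, (h2 _ _ q.2.2.1 q.1.2 q.2.2.2).1⟩, fun z => ?_, fun q => ?_⟩
  · exact Subtype.ext (h1 z.1 z.2).2.2
  · obtain ⟨⟨x, hx⟩, ⟨u, hu, hux⟩⟩ := q
    have h3 := h2 u x hu hx hux
    refine Sigma.ext (Subtype.ext h3.2.2) ?_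
    have e1 : (u * x) ^ b = x := h3.2.2
    have e2 : (u * x) ^ a = u := h3.2.1
    refine (Subtype.heq_iff_coe_eq ?_).mpr e2
    intro w
    change _ ∧ Commute w ((u * x) ^ b) ↔ _ ∧ Commute w x
    rw [e1]

end inv

end CfsgLib.FgFOT
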