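import Mathlib
import Cfsg.Agent.EqBase
import Cfsg.Agent.LibFgFOT2

/-! order types of Frobenius groups: the even case -/

set_option autoImplicit false
set_option linter.unusedSectionVars false

namespace CfsgLib.FgFOT
open CfsgLib.FgCnt
open scoped Pointwise

universe u v

theorem even_split {X : Type u} [Group X] [Finite X] (t : X) :
    Nat.card {g : X // Commute g t} = ca t + Nat.card {g : X // Commute g t ∧ 2 ∣ orderOf g} := by
  classical
  have h1 : Nat.card {g : X // Commute g t} = Nat.card ({g : {g : X // Commute g t} // Odd (orderOf g.1)} ⊕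
      {g : {g : X // Commute g t} // ¬ Odd (orderOf g.1)}) :=
    Nat.card_congr (Equiv.sumCompl _).symm
  rw [h1, Nat.card_sum]
  congr 1
  · apply Nat.card_congr
    exact ⟨fun g => ⟨g.1.1, g.1.2, g.2⟩, fun g => ⟨⟨g.1, g.2.1⟩, g.2.2⟩, fun _ => rfl, fun _ => rfl⟩
  · apply Nat.card_congr
    exact ⟨fun g => ⟨g.1.1, g.1.2, even_iff_two_dvd.mp (Nat.not_odd_iff_even.mp g.2)⟩,
      fun g => ⟨⟨g.1, g.2.1⟩, Nat.not_odd_iff_even.mpr (even_iff_two_dvd.mpr g.2.2)⟩, fun _ => rfl, fun _ => rfl⟩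

namespace Frob
variable {F : Type u} [Group F] [Finite F] {K H : Subgroup F} (hf : Frob K H)
include hf

theorem conj_inv (h2 : 2 ∣ Nat.card H) : ∀ t t' : F, orderOf t = 2 → orderOf t' = 2 → ∃ g, g * t * g⁻¹ = t' := by
  intro t t' ht ht'
  obtain ⟨a, ha⟩ := hf.exists_conj Nat.prime_two h2 (x := t) ⟨1, by rw [ht, pow_one]⟩
  obtain ⟨b, hb⟩ := hf.exists_conj Nat.prime_two h2 (x := t') ⟨1, by rw [ht', pow_one]⟩
  have h := hf.inv_unique ha hb (by rw [CfsgLib.FgBas.orderOf_conj, ht]) (by rw [CfsgLib.FgBas.orderOf_conj, ht'])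
  refine ⟨b⁻¹ * a, ?_⟩
  calc b⁻¹ * a * t * (b⁻¹ * a)⁻¹ = b⁻¹ * (a * t * a⁻¹) * b := by group
    _ = b⁻¹ * (b * t' * b⁻¹) * b := by rw [h]
    _ = t' := by group

theorem exists_inv (h2 : 2 ∣ Nat.card H) : ∃ t ∈ H, orderOf t = 2 := by
  obtain ⟨t, ht⟩ := exists_prime_orderOf_dvd_card' (G := H) 2 h2
  exact ⟨t.1, t.2, by rw [Subgroup.orderOf_coe, ht]⟩

theorem card_conj {X : Type u} [Group X] [Finite X] (hconj : ∀ t t' : X, orderOf t = 2 → orderOf t' = 2 → ∃ g, g * t * g⁻¹ = t')
    {t : X} (ht : orderOf t = 2) :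
    Nat.card {u : X // orderOf u = 2} * Nat.card {g : X // Commute g t} = Nat.card X := by
  symm
  have h1 : Nat.card X = Nat.card {u : X // orderOf u = 2} * Nat.card {g : X // Commute g t} := by
    refine card_eq_mul_of_fiber (fun g : X => (⟨g * t * g⁻¹, by rw [CfsgLib.FgBas.orderOf_conj, ht]⟩ : {u : X // orderOf u = 2})) _ ?_
    rintro ⟨u, hu⟩
    obtain ⟨a, rfl⟩ := hconj t u ht hu
    apply Nat.card_congr
    refine ⟨fun g => ⟨a⁻¹ * g.1, ?_⟩, fun g => ⟨a * g.1, ?_⟩, fun g => ?_, fun g => ?_⟩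
    · have h := congrArg Subtype.val g.2
      change g.1 * t * g.1⁻¹ = a * t * a⁻¹ at h
      calc a⁻¹ * g.1 * t = a⁻¹ * (g.1 * t * g.1⁻¹) * g.1 := by group
        _ = a⁻¹ * (a * t * a⁻¹) * g.1 := by rw [h]
        _ = _ := by group
    · apply Subtype.ext
      change a * g.1 * t * (a * g.1)⁻¹ = a * t * a⁻¹
      have h := g.2.eq
      calc a * g.1 * t * (a * g.1)⁻¹ = a * (g.1 * t) * g.1⁻¹ * a⁻¹ := by group
        _ = a * (t * g.1) * g.1⁻¹ * a⁻¹ := by rw [h]
        _ = _ := by group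
    · apply Subtype.ext; simp
    · apply Subtype.ext; simp
  exact h1

theorem card_comm {t : F} (ht : t ∈ H) (h2 : orderOf t = 2) : Nat.card {g : F // Commute g t} = Nat.card H :=
  Nat.card_congr (Equiv.subtypeEquivRight fun g => hf.comm_iff ht h2 g)

theorem card_inv (h2 : 2 ∣ Nat.card H) : Nat.card {u : F // orderOf u = 2} = Nat.card K := by
  obtain ⟨t, ht, ht2⟩ := hf.exists_inv h2
  have h1 := card_conj hf (hf.conj_inv h2) ht2
  rw [hf.card_comm ht ht2, ← hf.card] at h1
  exact Nat.eq_of_mul_eq_mul_right Nat.card_pos h1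

theorem ca_add_cb {t : F} (ht : t ∈ H) (h2 : orderOf t = 2) : ca t + cb t = Nat.card H := by
  rw [← hf.card_comm ht h2, even_split t]
  congr 1
  apply Nat.card_congr
  apply Equiv.subtypeEquivRight
  intro g
  constructor
  · rintro ⟨h3, h4⟩
    refine ⟨?_, h3⟩
    have : Commute g (g ^ (orderOf g / 2)) := Commute.self_pow g _
    rwa [h4] at this
  · rintro ⟨h3, h4⟩
    refine ⟨h4, ?_⟩
    exact hf.inv_unique (H.pow_mem ((hf.comm_iff ht h2 g).mp h3) _) ht (orderOf_pow_orderOf_div (orderOf_pos g).ne' h4) h2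

theorem one_inv {s : ℕ} (hs : s.Prime) (hsh : s ∣ Nat.card H) (h2 : 2 ∣ Nat.card H) {x : F} (hx : orderOf x = s) :
    Nat.card {u : F // orderOf u = 2 ∧ Commute u x} = 1 := by
  obtain ⟨a, ha⟩ := hf.exists_conj hs hsh (x := x) ⟨1, by rw [hx, pow_one]⟩
  obtain ⟨t, ht, ht2⟩ := hf.exists_inv h2
  have hx1 : a * x * a⁻¹ ≠ 1 := by
    intro h
    have h5 := CfsgLib.FgBas.orderOf_conj a x
    rw [h, orderOf_one, hx] at h5
    exact hs.one_lt.ne h5
  have key : ∀ u : F, orderOf u = 2 → Commute u x → a * u * a⁻¹ = t := by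
    intro u hu hux
    have hmem : a * u * a⁻¹ ∈ H := by
      by_contra hn
      have h1 := hf.fc.2.2 _ hn
      have h3 : a * x * a⁻¹ ∈ H ⊓ (MulAut.conj (a * u * a⁻¹) • H) := by
        refine ⟨ha, ⟨a * x * a⁻¹, ha, ?_⟩⟩
        change a * u * a⁻¹ * (a * x * a⁻¹) * (a * u * a⁻¹)⁻¹ = a * x * a⁻¹
        calc a * u * a⁻¹ * (a * x * a⁻¹) * (a * u * a⁻¹)⁻¹ = a * (u * x) * u⁻¹ * a⁻¹ := by group
          _ = a * (x * u) * u⁻¹ * a⁻¹ := by rw [hux.eq]
          _ = _ := by group
      rw [h1, Subgroup.mem_bot] at h3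
      exact hx1 h3
    exact hf.inv_unique hmem ht (by rw [CfsgLib.FgBas.orderOf_conj, hu]) ht2
  rw [Nat.card_eq_one_iff_unique]
  constructor
  · constructor
    rintro ⟨u, hu, hux⟩ ⟨w, hw, hwx⟩
    apply Subtype.ext
    have h1 := (key u hu hux).trans (key w hw hwx).symm
    exact mul_left_cancel (mul_right_cancel h1)
  · refine ⟨⟨a⁻¹ * t * a, ?_, ?_⟩⟩
    · have := CfsgLib.FgBas.orderOf_conj a⁻¹ t
      rw [inv_inv] at this
      rw [this, ht2]
    · have h1 := ((hf.comm_iff ht ht2 _).mpr ha).eq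
      calc a⁻¹ * t * a * x = a⁻¹ * (t * (a * x * a⁻¹)) * a := by group
        _ = a⁻¹ * ((a * x * a⁻¹) * t) * a := by rw [h1]
        _ = _ := by group

theorem card_two_mul_eq {s : ℕ} (hs : s.Prime) (hs2 : s ≠ 2) (hsh : s ∣ Nat.card H) (h2 : 2 ∣ Nat.card H) :
    Nat.card {z : F // orderOf z = 2 * s} = Nat.card {x : F // orderOf x = s} := by
  classical
  have := Fintype.ofFinite {x : F // orderOf x = s}
  rw [card_two_mul hs hs2, Nat.card_sigma, Finset.sum_congr rfl (fun x _ => hf.one_inv hs hsh h2 x.2)]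
  rw [Finset.sum_const, Finset.card_univ, smul_eq_mul, mul_one, Nat.card_eq_fintype_card]

end Frob

/-- the even case -/
theorem claimB {F : Type u} {G : Type v} [Group F] [Finite F] [Group G] [Finite G] (e : F ≃ G)
    (he : ∀ g, orderOf (e g) = orderOf g) {K H : Subgroup F} (hf : Frob K H) (h2 : 2 ∣ Nat.card H) :
    Cl G (Nat.card K) := by
  classical
  obtain ⟨k, hk⟩ : ∃ k, k = Nat.card K := ⟨_, rfl⟩
  obtain ⟨h, hh⟩ : ∃ h, h = Nat.card H := ⟨_, rfl⟩
  have hcop : Nat.Coprime k h := by rw [hk, hh]; exact hf.cop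
  have hcardF : Nat.card F = k * h := by rw [hk, hh, hf.card]
  have hcardG : Nat.card G = k * h := by rw [← hcardF]; exact (Nat.card_congr e).symm
  have hkpos : 0 < k := by rw [hk]; exact Nat.card_pos
  have hhpos : 0 < h := by rw [hh]; exact Nat.card_pos
  have hnm : ∀ p r : ℕ, p.Prime → r.Prime → p ∣ k → r ∣ h → ∀ g : G, orderOf g ≠ p * r := by
    intro p r hp hr hpk hrh g hg
    refine hf.no_mixed hp hr (by rw [← hk]; exact hpk) (by rw [← hh]; exact hrh) (e.symm g) ?_
    rw [← he, Equiv.apply_symm_apply, hg]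
  have hinvG : Nat.card {u : G // orderOf u = 2} = k := by
    rw [hk, ← hf.card_inv h2]
    exact (card_eq_of_equiv e he (fun m => m = 2)).symm
  have h2h : 2 ∣ h := by rw [hh]; exact h2
  -- centralizers of involutions
  have hdvdC : ∀ t : G, orderOf t = 2 → Nat.card (Subgroup.centralizer {t}) ∣ h := by
    intro t ht
    have h1 : Nat.card (Subgroup.centralizer {t}) ∣ k * h := by rw [← hcardG]; exact Subgroup.card_subgroup_dvd_card _
    refine Nat.Coprime.dvd_of_dvd_mul_left ?_ h1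
    rw [Nat.coprime_iff_gcd_eq_one]
    by_contra hne
    obtain ⟨p, hp, hd⟩ := Nat.exists_prime_and_dvd hne
    have hp1 := hd.trans (Nat.gcd_dvd_left _ _)
    have hp2 := hd.trans (Nat.gcd_dvd_right _ _)
    have : Fact p.Prime := ⟨hp⟩
    obtain ⟨y, hy⟩ := exists_prime_orderOf_dvd_card' p hp1
    have hyo : orderOf (y : G) = p := by rw [Subgroup.orderOf_coe, hy]
    have hpn2 : p ≠ 2 := by
      rintro rfl
      exact Nat.prime_two.one_lt.ne' (Nat.eq_one_of_dvd_coprimes hcop hp2 h2h)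
    obtain ⟨g, hg⟩ := CfsgLib.FgFpf.mul_order hp Nat.prime_two hpn2 (a := (y : G)) (b := t)
      (Subgroup.mem_centralizer_singleton_iff.mp y.2) (by rw [hyo]) (by rw [ht])
    exact hnm p 2 hp Nat.prime_two hp2 h2h g hg
  have hcC : ∀ t : G, Nat.card {g : G // Commute g t} = Nat.card (Subgroup.centralizer {t}) := by
    intro t
    apply Nat.card_congr
    apply Equiv.subtypeEquivRight
    intro g
    rw [Subgroup.mem_centralizer_singleton_iff]
    exact Iff.rfl
  have horb : ∀ t : G, orderOf t = 2 → (∀ t' : G, orderOf t' = 2 → ∃ g, g * t * g⁻¹ = t') ∧ Nat.card {g : G // Commute g t} = h := by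
    intro t ht
    let f : G ⧸ (Subgroup.centralizer {t}) → {u : G // orderOf u = 2} := fun q =>
      Quotient.liftOn' q (fun g => ⟨g * t * g⁻¹, by rw [CfsgLib.FgBas.orderOf_conj, ht]⟩) (by
        intro a b hab
        rw [QuotientGroup.leftRel_apply, Subgroup.mem_centralizer_singleton_iff] at hab
        apply Subtype.ext
        change a * t * a⁻¹ = b * t * b⁻¹
        calc a * t * a⁻¹ = a * (t * (a⁻¹ * b)) * b⁻¹ := by group
          _ = a * ((a⁻¹ * b) * t) * b⁻¹ := by rw [hab]
          _ = _ := by group)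
    have hf1 : Function.Injective f := by
      intro a b
      induction a using QuotientGroup.induction_on with | _ a =>
      induction b using QuotientGroup.induction_on with | _ b =>
      intro hab
      have hab' : a * t * a⁻¹ = b * t * b⁻¹ := congrArg Subtype.val hab
      rw [QuotientGroup.eq, Subgroup.mem_centralizer_singleton_iff]
      calc a⁻¹ * b * t = a⁻¹ * (b * t * b⁻¹) * b := by group
        _ = a⁻¹ * (a * t * a⁻¹) * b := by rw [hab']
        _ = _ := by group
    have h1 : Nat.card (G ⧸ (Subgroup.centralizer {t})) ≤ k := by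
      rw [← hinvG]; exact Nat.card_le_card_of_injective f hf1
    have h3 : Nat.card (Subgroup.centralizer {t}) ≤ h := Nat.le_of_dvd hhpos (hdvdC t ht)
    have h4 : Nat.card (Subgroup.centralizer {t}) * Nat.card (G ⧸ (Subgroup.centralizer {t})) = k * h := by
      rw [← hcardG]; exact Subgroup.card_mul_index _
    have h5 : Nat.card (Subgroup.centralizer {t}) = h := by
      apply le_antisymm h3
      by_contra hlt
      push Not at hlt
      have : Nat.card (Subgroup.centralizer {t}) * Nat.card (G ⧸ (Subgroup.centralizer {t})) < h * k := by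
        calc _ ≤ Nat.card (Subgroup.centralizer {t}) * k := Nat.mul_le_mul_left _ h1
          _ < h * k := Nat.mul_lt_mul_of_pos_right hlt hkpos
      rw [h4, mul_comm] at this
      exact lt_irrefl _ this
    refine ⟨?_, by rw [hcC, h5]⟩
    have h6 : Nat.card (G ⧸ (Subgroup.centralizer {t})) = Nat.card {u : G // orderOf u = 2} := by
      rw [h5, mul_comm] at h4
      rw [hinvG]
      exact Nat.eq_of_mul_eq_mul_right hhpos h4
    have hf2 : Function.Surjective f := (hf1.bijective_of_nat_card_le (le_of_eq h6.symm)).2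
    intro t' ht'
    obtain ⟨q, hq⟩ := hf2 ⟨t', ht'⟩
    induction q using QuotientGroup.induction_on with | _ g =>
    exact ⟨g, congrArg Subtype.val hq⟩
  have hconjG : ∀ t t' : G, orderOf t = 2 → orderOf t' = 2 → ∃ g, g * t * g⁻¹ = t' := fun t t' ht ht' => (horb t ht).1 t' ht'
  -- uniqueness of the involution
  have huniq : ∀ t u : G, orderOf t = 2 → orderOf u = 2 → Commute u t → u = t := by
    intro t u ht hu hut
    obtain ⟨t0, ht0, ht02⟩ := hf.exists_inv h2
    have e1 := card_even (hf.conj_inv h2) ht02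
    have e2 := card_two_mod_four (hf.conj_inv h2) ht02
    have e3 := card_even hconjG ht
    have e4 := card_two_mod_four hconjG ht
    rw [card_eq_of_equiv e he (fun m => 2 ∣ m), e3, hf.card_inv h2, hinvG, ← hk] at e1
    rw [card_eq_of_equiv e he (fun m => m % 4 = 2), e4, hf.card_inv h2, hinvG, ← hk] at e2
    have e5 := Nat.eq_of_mul_eq_mul_left hkpos e1
    have e6 := Nat.eq_of_mul_eq_mul_left hkpos e2
    have e7 := hf.ca_add_cb ht0 ht02
    rw [← e5, ← e6, ← hh, ← (horb t ht).2, even_split t] at e7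
    have e8 := Nat.add_left_cancel e7
    let i : {x : G // 2 ∣ orderOf x ∧ x ^ (orderOf x / 2) = t} → {g : G // Commute g t ∧ 2 ∣ orderOf g} := fun x =>
      ⟨x.1, by have : Commute x.1 (x.1 ^ (orderOf x.1 / 2)) := Commute.self_pow _ _
               rwa [x.2.2] at this, x.2.1⟩
    have hi : Function.Injective i := fun a b hab => by
      have : (i a).1 = (i b).1 := congrArg Subtype.val hab
      exact Subtype.ext this
    have hi2 : Function.Surjective i := (hi.bijective_of_nat_card_le (le_of_eq e8.symm)).2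
    obtain ⟨x, hx⟩ := hi2 ⟨u, hut, by rw [hu]⟩
    have hx1 : x.1 = u := congrArg Subtype.val hx
    have hx2 := x.2.2
    rw [hx1, hu] at hx2
    simpa using hx2
  have hsq : ∀ t : G, orderOf t = 2 → t * t = 1 := by
    intro t ht
    rw [← pow_two, ← ht]; exact pow_orderOf_eq_one t
  -- products of two involutions
  have hinvert : ∀ t t' : G, orderOf t = 2 → orderOf t' = 2 → t * (t * t') * t⁻¹ = (t * t')⁻¹ := by
    intro t t' ht ht'
    have e1 : t⁻¹ = t := inv_eq_of_mul_eq_one_left (hsq t ht)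
    have e2 : t'⁻¹ = t' := inv_eq_of_mul_eq_one_left (hsq t' ht')
    rw [mul_inv_rev, e1, e2, ← mul_assoc, hsq t ht, one_mul]
  have hinvpow : ∀ t y : G, t * y * t⁻¹ = y⁻¹ → ∀ j : ℕ, t * y ^ j * t⁻¹ = (y ^ j)⁻¹ := by
    intro t y hty j
    rw [← conj_pow, hty, inv_pow]
  have hodd : ∀ t t' : G, orderOf t = 2 → orderOf t' = 2 → t ≠ t' → ¬ 2 ∣ orderOf (t * t') := by
    intro t t' ht ht' hne hd
    obtain ⟨z, hz⟩ : ∃ z, z = (t * t') ^ (orderOf (t * t') / 2) := ⟨_, rfl⟩
    have hzo : orderOf z = 2 := by rw [hz]; exact orderOf_pow_orderOf_div (orderOf_pos _).ne' hd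
    have hz1 : t * z * t⁻¹ = z⁻¹ := by rw [hz]; exact hinvpow t _ (hinvert t t' ht ht') _
    have hz2 : z⁻¹ = z := inv_eq_of_mul_eq_one_left (hsq z hzo)
    rw [hz2] at hz1
    have hzt : z = t := huniq t z ht hzo (mul_inv_eq_iff_eq_mul.mp hz1).symm
    have hc : Commute t (t * t') := by
      have h1 : Commute z (t * t') := by rw [hz]; exact Commute.pow_self _ _
      rwa [hzt] at h1
    have hc2 : Commute t t' := by
      have h1 : Commute t (t⁻¹ * (t * t')) := ((Commute.refl t).inv_right).mul_right hc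
      rwa [inv_mul_cancel_left] at h1
    exact hne (huniq t' t ht' ht hc2)
  -- elements of prime order s | h
  have hone : ∀ s : ℕ, s.Prime → s ≠ 2 → s ∣ h → ∀ x : G, orderOf x = s → Nat.card {u : G // orderOf u = 2 ∧ Commute u x} = 1 := by
    intro s hs hs2 hsh x hx
    have := Fintype.ofFinite {x : G // orderOf x = s}
    have e1 := hf.card_two_mul_eq hs hs2 (by rw [← hh]; exact hsh) h2
    rw [card_eq_of_equiv e he (fun m => m = 2 * s), card_eq_of_equiv e he (fun m => m = s), card_two_mul hs hs2, Nat.card_sigma] at e1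
    have hge : ∀ x : {x : G // orderOf x = s}, 1 ≤ Nat.card {u : G // orderOf u = 2 ∧ Commute u x.1} := by
      rintro ⟨x, hx⟩
      have : Fact s.Prime := ⟨hs⟩
      -- x is conjugate into a centralizer of an involution
      have hdG : 2 ∣ Nat.card G := by rw [hcardG]; exact h2h.mul_left _
      obtain ⟨t, ht⟩ := exists_prime_orderOf_dvd_card' (G := G) 2 hdG
      have hCt : Nat.card (Subgroup.centralizer {t}) = h := by rw [← hcC]; exact (horb t ht).2
      obtain ⟨P⟩ := (inferInstance : Nonempty (Sylow s (Subgroup.centralizer {t})))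
      have hsk : ¬ s ∣ k := fun hsk => hs.one_lt.ne' (Nat.eq_one_of_dvd_coprimes hcop hsk hsh)
      let Q : Sylow s G := Sylow.ofCard ((P : Subgroup _).map (Subgroup.centralizer {t}).subtype) (by
        rw [Subgroup.card_map_of_injective (Subgroup.subtype_injective _), Sylow.card_eq_multiplicity, hCt, hcardG,
          Nat.factorization_mul hkpos.ne' hhpos.ne', Finsupp.add_apply, Nat.factorization_eq_zero_of_not_dvd hsk, zero_add])
      obtain ⟨a, ha⟩ := CfsgLib.FgBas.exists_conj_mem Q (x := x) ⟨1, by rw [hx, pow_one]⟩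
      have ha2 : a * x * a⁻¹ ∈ Subgroup.centralizer {t} := Subgroup.map_subtype_le _ ha
      rw [Subgroup.mem_centralizer_singleton_iff] at ha2
      rw [Nat.one_le_iff_ne_zero, Ne, Nat.card_eq_zero, not_or]
      refine ⟨?_, not_infinite_iff_finite.mpr inferInstance⟩
      rw [not_isEmpty_iff]
      refine ⟨⟨a⁻¹ * t * a, ?_, ?_⟩⟩
      · have := CfsgLib.FgBas.orderOf_conj a⁻¹ t
        rw [inv_inv] at this
        rw [this, ht]
      · calc a⁻¹ * t * a * x = a⁻¹ * (t * (a * x * a⁻¹)) * a := by group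
          _ = a⁻¹ * ((a * x * a⁻¹) * t) * a := by rw [ha2]
          _ = _ := by group
    have e2 : ∑ x : {x : G // orderOf x = s}, Nat.card {u : G // orderOf u = 2 ∧ Commute u x.1} = ∑ _x : {x : G // orderOf x = s}, 1 := by
      rw [e1, Finset.sum_const, Finset.card_univ, smul_eq_mul, mul_one, Nat.card_eq_fintype_card]
    have e3 := (Finset.sum_eq_sum_iff_of_le (fun x _ => hge x)).mp e2.symm
    exact (e3 ⟨x, hx⟩ (Finset.mem_univ _)).symm
  -- no involution inverts an element of order s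
  have hnoinv : ∀ s : ℕ, s.Prime → s ≠ 2 → s ∣ h → ∀ t x : G, orderOf t = 2 → orderOf x = s → t * x * t⁻¹ ≠ x⁻¹ := by
    intro s hs hs2 hsh t x ht hx htx
    have h1 := hone s hs hs2 hsh x hx
    rw [Nat.card_eq_one_iff_unique] at h1
    obtain ⟨⟨h1⟩, ⟨u, hu, hux⟩⟩ := h1
    have h3 : Commute (t * u * t⁻¹) x := by
      have h4 : t * u * t⁻¹ * x⁻¹ = x⁻¹ * (t * u * t⁻¹) := by
        calc t * u * t⁻¹ * x⁻¹ = t * u * t⁻¹ * (t * x * t⁻¹) := by rw [htx]
          _ = t * (u * x) * t⁻¹ := by group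
          _ = t * (x * u) * t⁻¹ := by rw [hux.eq]
          _ = (t * x * t⁻¹) * (t * u * t⁻¹) := by group
          _ = _ := by rw [htx]
      have h5 : Commute (t * u * t⁻¹) x⁻¹ := h4
      have := h5.inv_right
      rwa [inv_inv] at this
    have h4 := congrArg Subtype.val (h1 ⟨t * u * t⁻¹, by rw [CfsgLib.FgBas.orderOf_conj, hu], h3⟩ ⟨u, hu, hux⟩)
    have h5 : Commute t u := mul_inv_eq_iff_eq_mul.mp h4
    have h6 := huniq u t hu ht h5
    rw [← h6] at hux
    have h7 : x = x⁻¹ := by rw [← htx, hux.eq, mul_inv_cancel_right]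
    have h8 : x ^ 2 = 1 := by rw [pow_two]; exact eq_inv_iff_mul_eq_one.mp h7
    have h9 : s ∣ 2 := by rw [← hx]; exact orderOf_dvd_of_pow_eq_one h8
    exact hs2 ((Nat.prime_dvd_prime_iff_eq hs Nat.prime_two).mp h9)
  have hprod : ∀ t t' : G, orderOf t = 2 → orderOf t' = 2 → (t * t') ^ k = 1 := by
    intro t t' ht ht'
    by_cases hne : t = t'
    · rw [← hne, hsq t ht, one_pow]
    rw [← orderOf_dvd_iff_pow_eq_one]
    have h1 : orderOf (t * t') ∣ k * h := by rw [← hcardG]; exact orderOf_dvd_natCard _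
    refine Nat.Coprime.dvd_of_dvd_mul_right ?_ h1
    rw [Nat.coprime_iff_gcd_eq_one]
    by_contra hne1
    obtain ⟨s, hs, hd⟩ := Nat.exists_prime_and_dvd hne1
    have hs1 := hd.trans (Nat.gcd_dvd_left _ _)
    have hs2 := hd.trans (Nat.gcd_dvd_right _ _)
    have hs3 : s ≠ 2 := by
      rintro rfl
      exact hodd t t' ht ht' hne hs1
    exact hnoinv s hs hs3 hs2 t ((t * t') ^ (orderOf (t * t') / s)) ht
      (orderOf_pow_orderOf_div (orderOf_pos _).ne' hs1) (hinvpow t _ (hinvert t t' ht ht') _)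
  have hbij : ∀ t x : G, orderOf t = 2 → x ^ k = 1 → orderOf (t * x) = 2 := by
    intro t x ht hx
    let f : {u : G // orderOf u = 2} → {x : G // x ^ k = 1} := fun u => ⟨t * u.1, hprod t u.1 ht u.2⟩
    have hf1 : Function.Injective f := fun a b hab => Subtype.ext (mul_left_cancel (congrArg Subtype.val hab))
    have hc : Nat.card {x : G // x ^ k = 1} = k := by
      have h1 := hf.card_pow
      have h3 := card_eq_of_equiv e he (fun m => m ∣ k)
      have h4 : ∀ (X : Type u) [Group X], Nat.card {x : X // x ^ k = 1} = Nat.card {x : X // orderOf x ∣ k} := fun X _ =>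
        Nat.card_congr (Equiv.subtypeEquivRight fun x => orderOf_dvd_iff_pow_eq_one.symm)
      have h5 : ∀ (X : Type v) [Group X], Nat.card {x : X // x ^ k = 1} = Nat.card {x : X // orderOf x ∣ k} := fun X _ =>
        Nat.card_congr (Equiv.subtypeEquivRight fun x => orderOf_dvd_iff_pow_eq_one.symm)
      rw [← hk, h4, h3, ← h5] at h1
      exact h1
    have hf2 : Function.Surjective f := (hf1.bijective_of_nat_card_le (by rw [hc, hinvG])).2
    obtain ⟨u, hu⟩ := hf2 ⟨x, hx⟩
    have hu1 : t * u.1 = x := congrArg Subtype.val hu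
    rw [← hu1, ← mul_assoc, hsq t ht, one_mul]
    exact u.2
  rw [← hk]
  intro x y hx hy
  have hdG : 2 ∣ Nat.card G := by rw [hcardG]; exact h2h.mul_left _
  obtain ⟨t, ht⟩ := exists_prime_orderOf_dvd_card' (G := G) 2 hdG
  have h1 := hbij t x ht hx
  have h3 := hbij (t * x) y h1 hy
  have h4 := hprod t (t * x * y) ht h3
  rwa [← mul_assoc, ← mul_assoc, hsq t ht, one_mul] at h4

end CfsgLib.FgFOT
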