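import Mathlib
import Cfsg.Prelude.Def_Classical
import Cfsg.Agent.LibQuadF2
import Cfsg.Agent.LibQuadF2b

/-! Quadratic forms over the field of two elements: the standard forms (seat helper10). -/

set_option autoImplicit false
set_option linter.all false

namespace CfsgLib.KQ1

open CfsgLib.QuadF2

/-- the bilinear form polar to `nf` -/
def Bn (m : ℕ) : LinearMap.BilinForm (ZMod 2) (Fin m → ZMod 2 × ZMod 2) :=
  LinearMap.mk₂ (ZMod 2) (fun w w' => ∑ i, ((w i).1 * (w' i).2 + (w i).2 * (w' i).1))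
    (by intro a b c; rw [← Finset.sum_add_distrib]; refine Finset.sum_congr rfl fun i _ => ?_
        simp only [Pi.add_apply, Prod.fst_add, Prod.snd_add]; ring)
    (by intro r a b; rw [smul_eq_mul, Finset.mul_sum]; refine Finset.sum_congr rfl fun i _ => ?_
        simp only [Pi.smul_apply, Prod.smul_fst, Prod.smul_snd, smul_eq_mul]; ring)
    (by intro a b c; rw [← Finset.sum_add_distrib]; refine Finset.sum_congr rfl fun i _ => ?_
        simp only [Pi.add_apply, Prod.fst_add, Prod.snd_add]; ring)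
    (by intro r a b; rw [smul_eq_mul, Finset.mul_sum]; refine Finset.sum_congr rfl fun i _ => ?_
        simp only [Pi.smul_apply, Prod.smul_fst, Prod.smul_snd, smul_eq_mul]; ring)

theorem Bn_apply (m : ℕ) (w w' : Fin m → ZMod 2 × ZMod 2) : Bn m w w' = ∑ i, ((w i).1 * (w' i).2 + (w i).2 * (w' i).1) := rfl

theorem isQ_nf (m : ℕ) (t : ZMod 2) : IsQ (Bn m) (nf m t) := by
  refine ⟨?_, ?_, ?_⟩
  · intro v
    rw [Bn_apply]
    refine Finset.sum_eq_zero fun i _ => ?_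
    rw [mul_comm (v i).2]; exact CfsgLib.QuadF2.add_self _
  · intro v hv
    obtain ⟨i, hi⟩ : ∃ i, v i ≠ 0 := by
      by_contra h; push Not at h; exact hv (funext h)
    by_cases h1 : (v i).1 = 0
    · have h2 : (v i).2 ≠ 0 := fun h2 => hi (Prod.ext h1 h2)
      refine ⟨Pi.single i (1, 0), ?_⟩
      rw [Bn_apply, Finset.sum_eq_single i]
      · simpa [Pi.single_eq_same] using h2
      · intro j _ hj; simp [Pi.single_eq_of_ne hj]
      · intro h; exact absurd (Finset.mem_univ i) h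
    · refine ⟨Pi.single i (0, 1), ?_⟩
      rw [Bn_apply, Finset.sum_eq_single i]
      · simpa [Pi.single_eq_same] using h1
      · intro j _ hj; simp [Pi.single_eq_of_ne hj]
      · intro h; exact absurd (Finset.mem_univ i) h
  · intro v w
    unfold nf
    rw [Bn_apply, ← Finset.sum_add_distrib, ← Finset.sum_add_distrib]
    refine Finset.sum_congr rfl fun i _ => ?_
    simp only [Pi.add_apply, Prod.fst_add, Prod.snd_add]
    by_cases h : i.val + 1 = m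
    · simp only [if_pos h]; ring
    · simp only [if_neg h]; ring

/-- coordinates of the plus form -/
def φP (m : ℕ) : (Fin m ⊕ Fin m → ZMod 2) ≃ₗ[ZMod 2] (Fin m → ZMod 2 × ZMod 2) where
  toFun v i := (v (.inl i), v (.inr i))
  invFun w := Sum.elim (fun i => (w i).1) (fun i => (w i).2)
  map_add' _ _ := rfl
  map_smul' _ _ := rfl
  left_inv v := by ext (i | i) <;> rfl
  right_inv w := by funext i; rfl

theorem plus_eq (m : ℕ) (v : Fin m ⊕ Fin m → ZMod 2) : Cfsg.quadFormPlus m (ZMod 2) v = nf m 0 (φP m v) := by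
  unfold Cfsg.quadFormPlus nf
  refine Finset.sum_congr rfl fun i _ => ?_
  rw [zero_mul, add_zero]; rfl

/-- coordinates of the minus form -/
def φM (k : ℕ) : ((Fin k ⊕ Fin k) ⊕ Fin 2 → ZMod 2) ≃ₗ[ZMod 2] (Fin (k + 1) → ZMod 2 × ZMod 2) where
  toFun v := Fin.snoc (fun i => (v (.inl (.inl i)), v (.inl (.inr i)))) (v (.inr 0), v (.inr 1))
  invFun w := Sum.elim (Sum.elim (fun i => (w i.castSucc).1) (fun i => (w i.castSucc).2)) ![(w (Fin.last k)).1, (w (Fin.last k)).2]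
  map_add' v w := by
    funext i
    refine Fin.lastCases ?_ (fun i => ?_) i
    · simp only [Pi.add_apply, Fin.snoc_last]; rfl
    · simp only [Pi.add_apply, Fin.snoc_castSucc]; rfl
  map_smul' c w := by
    funext i
    refine Fin.lastCases ?_ (fun i => ?_) i
    · simp only [Pi.smul_apply, Fin.snoc_last]; rfl
    · simp only [Pi.smul_apply, Fin.snoc_castSucc]; rfl
  left_inv v := by
    funext i
    rcases i with (i | i) | i
    · simp
    · simp
    · fin_cases i <;> simp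
  right_inv w := by
    funext i
    refine Fin.lastCases ?_ (fun i => ?_) i
    · simp only [Fin.snoc_last]; rfl
    · simp only [Fin.snoc_castSucc]; rfl

theorem minus_eq (k : ℕ) (v : (Fin k ⊕ Fin k) ⊕ Fin 2 → ZMod 2) : Cfsg.quadFormMinus k (ZMod 2) 1 1 v = nf (k + 1) 1 (φM k v) := by
  unfold Cfsg.quadFormMinus nf
  rw [Fin.sum_univ_castSucc]
  congr 1
  · refine Finset.sum_congr rfl fun i _ => ?_
    have : ((i.castSucc : Fin (k + 1)) : ℕ) + 1 ≠ k + 1 := by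
      simp only [Fin.val_castSucc]; have := i.2; omega
    rw [if_neg this]
    simp [φM]
  · have : ((Fin.last k : Fin (k + 1)) : ℕ) + 1 = k + 1 := rfl
    rw [if_pos this]
    simp only [φM, LinearEquiv.coe_mk, LinearMap.coe_mk, AddHom.coe_mk, Fin.snoc_last]
    generalize v (.inr 0) = a
    generalize v (.inr 1) = b
    revert a b; decide

/-- transport of `IsQ` along an equivalence -/
theorem isQ_comp {V W : Type*} [AddCommGroup V] [Module (ZMod 2) V] [AddCommGroup W] [Module (ZMod 2) W]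
    {B : LinearMap.BilinForm (ZMod 2) W} {Q : W → ZMod 2} (h : IsQ B Q) (e : V ≃ₗ[ZMod 2] W) :
    IsQ (B.compl₁₂ (e : V →ₗ[ZMod 2] W) (e : V →ₗ[ZMod 2] W)) (fun v => Q (e v)) := by
  refine ⟨fun v => h.alt (e v), fun v hv => ?_, fun v w => ?_⟩
  · obtain ⟨w, hw⟩ := h.nd (e v) (fun h0 => hv (e.map_eq_zero_iff.1 h0))
    exact ⟨e.symm w, by simpa using hw⟩
  · simp only [map_add]; exact h.add _ _

theorem isQ_plus (m : ℕ) : IsQ ((Bn m).compl₁₂ (φP m : _ →ₗ[ZMod 2] _) (φP m : _ →ₗ[ZMod 2] _)) (Cfsg.quadFormPlus m (ZMod 2)) := by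
  have := isQ_comp (isQ_nf m 0) (φP m)
  have h2 : (fun v => nf m 0 (φP m v)) = Cfsg.quadFormPlus m (ZMod 2) := by funext v; exact (plus_eq m v).symm
  rwa [h2] at this

theorem isQ_minus (k : ℕ) : IsQ ((Bn (k+1)).compl₁₂ (φM k : _ →ₗ[ZMod 2] _) (φM k : _ →ₗ[ZMod 2] _)) (Cfsg.quadFormMinus k (ZMod 2) 1 1) := by
  have := isQ_comp (isQ_nf (k+1) 1) (φM k)
  have h2 : (fun v => nf (k+1) 1 (φM k v)) = Cfsg.quadFormMinus k (ZMod 2) 1 1 := by funext v; exact (minus_eq k v).symm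
  rwa [h2] at this

theorem χ_inj : ∀ a b : ZMod 2, χ a = χ b → a = b := by decide

section sums
variable {V : Type*} [AddCommGroup V] [Module (ZMod 2) V] [Fintype V]
  {B : LinearMap.BilinForm (ZMod 2) V} {Q : V → ZMod 2}

/-- `Q` is of plus type iff its character sum is positive -/
theorem plus_iff (h : IsQ B Q) {m : ℕ} (hm : 1 ≤ m) (hd : Module.finrank (ZMod 2) V = 2 * m) :
    (∃ g : V ≃ₗ[ZMod 2] (Fin m ⊕ Fin m → ZMod 2), ∀ v, Q v = Cfsg.quadFormPlus m (ZMod 2) (g v)) ↔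
      ∑ v : V, χ (Q v) = 2 ^ m := by
  constructor
  · rintro ⟨g, hg⟩
    have := sum_eq_of_nf hm (t := 0) (g.trans (φP m)) (fun v => by rw [hg, plus_eq]; rfl) (V := V) (Q := Q)
    rw [this, χ_zero, one_mul]
  · intro hs
    obtain ⟨t, φ, hφ⟩ := exists_nf m V B Q h hd
    have := sum_eq_of_nf hm φ hφ
    have ht : t = 0 := by
      by_contra h0
      rw [eq_one_of_ne h0, χ_one, hs] at this
      have h2 : (0 : ℤ) < 2 ^ m := by positivity
      linarith
    subst ht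
    refine ⟨φ.trans (φP m).symm, fun v => ?_⟩
    rw [hφ, plus_eq]
    simp

theorem minus_iff (h : IsQ B Q) {k : ℕ} (hd : Module.finrank (ZMod 2) V = 2 * (k + 1)) :
    (∃ g : V ≃ₗ[ZMod 2] ((Fin k ⊕ Fin k) ⊕ Fin 2 → ZMod 2), ∀ v, Q v = Cfsg.quadFormMinus k (ZMod 2) 1 1 (g v)) ↔
      ∑ v : V, χ (Q v) = - 2 ^ (k + 1) := by
  constructor
  · rintro ⟨g, hg⟩
    have := sum_eq_of_nf (m := k + 1) (by omega) (t := 1) (g.trans (φM k)) (fun v => by rw [hg, minus_eq]; rfl) (V := V) (Q := Q)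
    rw [this, χ_one]; ring
  · intro hs
    obtain ⟨t, φ, hφ⟩ := exists_nf (k+1) V B Q h hd
    have := sum_eq_of_nf (m := k + 1) (by omega) φ hφ
    have ht : t = 1 := by
      apply eq_one_of_ne
      rintro rfl
      rw [χ_zero, hs] at this
      have h2 : (0 : ℤ) < 2 ^ (k+1) := by positivity
      linarith
    subst ht
    refine ⟨φ.trans (φM k).symm, fun v => ?_⟩
    rw [hφ, minus_eq]
    simp

theorem sum_cases (h : IsQ B Q) {m : ℕ} (hm : 1 ≤ m) (hd : Module.finrank (ZMod 2) V = 2 * m) :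
    ∑ v : V, χ (Q v) = 2 ^ m ∨ ∑ v : V, χ (Q v) = - 2 ^ m := by
  obtain ⟨t, φ, hφ⟩ := exists_nf m V B Q h hd
  have := sum_eq_of_nf hm φ hφ
  by_cases ht : t = 0
  · left; rw [this, ht, χ_zero, one_mul]
  · right; rw [this, eq_one_of_ne ht, χ_one]; ring

/-- two forms of the same sum are equivalent -/
theorem equiv_iff (h : IsQ B Q) {Q' : V → ZMod 2} (h' : IsQ B Q') {m : ℕ} (hm : 1 ≤ m) (hd : Module.finrank (ZMod 2) V = 2 * m) :
    (∃ g : V ≃ₗ[ZMod 2] V, ∀ v, Q' v = Q (g v)) ↔ ∑ v : V, χ (Q' v) = ∑ v : V, χ (Q v) := by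
  constructor
  · rintro ⟨g, hg⟩
    simp only [hg]
    exact g.toEquiv.sum_comp (fun v => χ (Q v))
  · intro hs
    obtain ⟨t, φ, hφ⟩ := exists_nf m V B Q h hd
    obtain ⟨t', φ', hφ'⟩ := exists_nf m V B Q' h' hd
    have h1 := sum_eq_of_nf hm φ hφ
    have h2 := sum_eq_of_nf hm φ' hφ'
    rw [hs, h1] at h2
    have h3 : χ t = χ t' := by
      have : (2 : ℤ) ^ m ≠ 0 := by positivity
      exact mul_right_cancel₀ this h2
    have h4 : t = t' := χ_inj _ _ h3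
    subst h4
    exact ⟨φ'.trans φ.symm, fun v => by rw [hφ', hφ]; simp⟩

/-- twisting by a functional -/
theorem sum_twist (h : IsQ B Q) (w : V) : ∑ v : V, χ (Q v + B v w) = χ (Q w) * ∑ v : V, χ (Q v) := by
  have h1 : ∀ v, χ (Q v + B v w) = χ (Q w) * χ (Q (v + w)) := by
    intro v
    rw [h.add, ← χ_add]
    congr 1
    have := CfsgLib.QuadF2.add_self (Q w)
    linear_combination (-1 : ZMod 2) * this
  simp only [h1]
  rw [← Finset.mul_sum]
  congr 1
  exact Equiv.sum_comp (Equiv.addRight w) (fun v => χ (Q v))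

theorem isQ_twist (h : IsQ B Q) (w : V) : IsQ B (fun v => Q v + B v w) := by
  refine ⟨h.alt, h.nd, fun v u => ?_⟩
  rw [h.add, map_add, LinearMap.add_apply]; ring

end sums

theorem finrank_plus (m : ℕ) : Module.finrank (ZMod 2) (Fin m ⊕ Fin m → ZMod 2) = 2 * m := by
  rw [Module.finrank_pi]; simp; ring

theorem finrank_minus (k : ℕ) : Module.finrank (ZMod 2) ((Fin k ⊕ Fin k) ⊕ Fin 2 → ZMod 2) = 2 * (k + 1) := by
  rw [Module.finrank_pi]; simp; ring

theorem finrank_of_card {V : Type*} [AddCommGroup V] [Module (ZMod 2) V] [Finite V] {n : ℕ} (h : Nat.card V = 2 ^ n) :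
    Module.finrank (ZMod 2) V = n := by
  have h1 : Nat.card V = Nat.card (ZMod 2) ^ Module.finrank (ZMod 2) V := Module.natCard_eq_pow_finrank
  rw [h, Nat.card_zmod] at h1
  exact (Nat.pow_right_injective le_rfl h1).symm

theorem minus_index (k : ℕ) :
    (∃ U : Submodule (ZMod 2) ((Fin k ⊕ Fin k) ⊕ Fin 2 → ZMod 2), (∀ u ∈ U, Cfsg.quadFormMinus k (ZMod 2) 1 1 u = 0) ∧ Module.finrank (ZMod 2) ↥U = k) ∧
    (∀ U : Submodule (ZMod 2) ((Fin k ⊕ Fin k) ⊕ Fin 2 → ZMod 2), (∀ u ∈ U, Cfsg.quadFormMinus k (ZMod 2) 1 1 u = 0) → Module.finrank (ZMod 2) ↥U ≤ k) := by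
  refine ⟨?_, ?_⟩
  · refine ⟨(U₀ (k+1) 1).map ((φM k).symm : _ →ₗ[ZMod 2] _), ?_, ?_⟩
    · rintro _ ⟨w, hw, rfl⟩
      rw [minus_eq]
      simp only [LinearEquiv.coe_coe, LinearEquiv.apply_symm_apply]
      exact nf_U₀ (k+1) 1 w hw
    · rw [LinearEquiv.finrank_map_eq]
      exact finrank_of_card (card_U₀_one k)
  · intro U hU
    by_contra hcon
    have := type_zero_of_singular (isQ_minus k) (m := k + 1) (by omega) (φM k) (minus_eq k) U hU (by omega)
    exact one_ne_zero this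

theorem s2562 (m : ℕ) (hm : 1 ≤ m) :
    (∃ U : Submodule (ZMod 2) (Fin m ⊕ Fin m → ZMod 2), (∀ u ∈ U, Cfsg.quadFormPlus m (ZMod 2) u = 0) ∧ Module.finrank (ZMod 2) ↥U = m) ∧
    (∀ U : Submodule (ZMod 2) (Fin m ⊕ Fin m → ZMod 2), (∀ u ∈ U, Cfsg.quadFormPlus m (ZMod 2) u = 0) → Module.finrank (ZMod 2) ↥U ≤ m) ∧
    (∃ U : Submodule (ZMod 2) ((Fin (m - 1) ⊕ Fin (m - 1)) ⊕ Fin 2 → ZMod 2), (∀ u ∈ U, Cfsg.quadFormMinus (m - 1) (ZMod 2) 1 1 u = 0) ∧ Module.finrank (ZMod 2) ↥U = m - 1) ∧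
    (∀ U : Submodule (ZMod 2) ((Fin (m - 1) ⊕ Fin (m - 1)) ⊕ Fin 2 → ZMod 2), (∀ u ∈ U, Cfsg.quadFormMinus (m - 1) (ZMod 2) 1 1 u = 0) → Module.finrank (ZMod 2) ↥U ≤ m - 1) := by
  refine ⟨?_, ?_, ?_, ?_⟩
  · refine ⟨(U₀ m 0).map ((φP m).symm : _ →ₗ[ZMod 2] _), ?_, ?_⟩
    · rintro _ ⟨w, hw, rfl⟩
      rw [plus_eq]
      simp only [LinearEquiv.coe_coe, LinearEquiv.apply_symm_apply]
      exact nf_U₀ m 0 w hw
    · rw [LinearEquiv.finrank_map_eq]
      exact finrank_of_card (card_U₀_zero m)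
  · intro U hU
    have := two_mul_finrank_le (isQ_plus m) U hU
    rw [finrank_plus] at this
    omega
  · obtain ⟨k, rfl⟩ : ∃ k, m = k + 1 := ⟨m - 1, by omega⟩
    exact (minus_index k).1
  · obtain ⟨k, rfl⟩ : ∃ k, m = k + 1 := ⟨m - 1, by omega⟩
    exact (minus_index k).2

/-- functions polarizing to the form -/
theorem isQ_of_polar {V : Type*} [AddCommGroup V] [Module (ZMod 2) V] {B : LinearMap.BilinForm (ZMod 2) V} {Q : V → ZMod 2}
    (h : IsQ B Q) {q : V → ZMod 2} (hq : ∀ u v, q (u + v) = q u + q v + (Q (u + v) - Q u - Q v)) : IsQ B q := by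
  refine ⟨h.alt, h.nd, fun u v => ?_⟩
  rw [hq, h.add]; ring

theorem polar_eq {V : Type*} [AddCommGroup V] [Module (ZMod 2) V] {B : LinearMap.BilinForm (ZMod 2) V} {Q : V → ZMod 2}
    (h : IsQ B Q) (u v : V) : Q (u + v) - Q u - Q v = B u v := by rw [h.add]; ring

theorem exists_twist {V : Type*} [AddCommGroup V] [Module (ZMod 2) V] [Finite V] {B : LinearMap.BilinForm (ZMod 2) V} {Q q : V → ZMod 2}
    (h : IsQ B Q) (hq : IsQ B q) : ∃ w, ∀ v, q v = Q v + B v w := by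
  -- the difference is linear
  let l : V →ₗ[ZMod 2] ZMod 2 :=
    { toFun := fun v => q v - Q v
      map_add' := fun u v => by rw [h.add, hq.add]; ring
      map_smul' := fun c v => by
        rw [h.smul, hq.smul]; simp only [RingHom.id_apply, smul_eq_mul]; ring }
  have hinj : Function.Injective (B.flip) := by
    rw [← LinearMap.ker_eq_bot, eq_bot_iff]
    intro v hv
    by_contra hne
    obtain ⟨w, hw⟩ := h.nd v hne
    apply hw
    rw [h.symm]
    have : B.flip v w = 0 := by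
      have h0 : B.flip v = 0 := hv
      rw [h0]; rfl
    exact this
  have hsur : Function.Surjective (B.flip) := by
    haveI : Finite (V →ₗ[ZMod 2] ZMod 2) := Finite.of_injective (fun l => (l : V → ZMod 2)) DFunLike.coe_injective
    haveI : FiniteDimensional (ZMod 2) V := Module.Finite.of_finite
    have hfr : Module.finrank (ZMod 2) V = Module.finrank (ZMod 2) (V →ₗ[ZMod 2] ZMod 2) := (Subspace.dual_finrank_eq).symm
    exact (LinearMap.injective_iff_surjective_of_finrank_eq_finrank hfr).1 hinj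
  obtain ⟨w, hw⟩ := hsur l
  refine ⟨w, fun v => ?_⟩
  have : B v w = q v - Q v := by
    have := congrArg (fun l : V →ₗ[ZMod 2] ZMod 2 => l v) hw
    exact this
  rw [this]; ring

theorem twist_unique {V : Type*} [AddCommGroup V] [Module (ZMod 2) V] {B : LinearMap.BilinForm (ZMod 2) V} {Q : V → ZMod 2}
    (h : IsQ B Q) {w w' : V} (hw : ∀ v, Q v + B v w = Q v + B v w') : w = w' := by
  by_contra hne
  obtain ⟨v, hv⟩ := h.nd (w - w') (sub_ne_zero.2 hne)
  apply hv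
  rw [h.symm, map_sub, add_left_cancel (hw v), sub_self]

/-- the forms polarizing to `B` correspond to vectors -/
noncomputable def twistEquiv {V : Type*} [AddCommGroup V] [Module (ZMod 2) V] [Finite V] {B : LinearMap.BilinForm (ZMod 2) V} {Q : V → ZMod 2}
    (h : IsQ B Q) : V ≃ {q : V → ZMod 2 // IsQ B q} :=
  Equiv.ofBijective (fun w => ⟨fun v => Q v + B v w, by
    refine ⟨h.alt, h.nd, fun v u => ?_⟩
    rw [h.add, map_add, LinearMap.add_apply]; ring⟩) ⟨fun w w' hw => twist_unique h (fun v => congrFun (congrArg Subtype.val hw) v),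
    fun ⟨q, hq⟩ => by
      obtain ⟨w, hw⟩ := exists_twist h hq
      exact ⟨w, Subtype.ext (funext fun v => (hw v).symm)⟩⟩

theorem s2564 (m : ℕ) (hm : 1 ≤ m) (q : (Fin m ⊕ Fin m → ZMod 2) → ZMod 2) (hq : (∀ u v : (Fin m ⊕ Fin m → ZMod 2), q (u + v) = q u + q v + (Cfsg.quadFormPlus m (ZMod 2) (u + v) - Cfsg.quadFormPlus m (ZMod 2) u - Cfsg.quadFormPlus m (ZMod 2) v))) (w : (Fin m ⊕ Fin m → ZMod 2)) :
    (∀ u v : (Fin m ⊕ Fin m → ZMod 2), (q (u + v) + (Cfsg.quadFormPlus m (ZMod 2) (u + v + w) - Cfsg.quadFormPlus m (ZMod 2) (u + v) - Cfsg.quadFormPlus m (ZMod 2) w)) =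
        (q u + (Cfsg.quadFormPlus m (ZMod 2) (u + w) - Cfsg.quadFormPlus m (ZMod 2) u - Cfsg.quadFormPlus m (ZMod 2) w)) + (q v + (Cfsg.quadFormPlus m (ZMod 2) (v + w) - Cfsg.quadFormPlus m (ZMod 2) v - Cfsg.quadFormPlus m (ZMod 2) w)) +
        (Cfsg.quadFormPlus m (ZMod 2) (u + v) - Cfsg.quadFormPlus m (ZMod 2) u - Cfsg.quadFormPlus m (ZMod 2) v)) ∧
    ((∃ g : (Fin m ⊕ Fin m → ZMod 2) ≃ₗ[ZMod 2] (Fin m ⊕ Fin m → ZMod 2), ∀ v, q v + (Cfsg.quadFormPlus m (ZMod 2) (v + w) - Cfsg.quadFormPlus m (ZMod 2) v - Cfsg.quadFormPlus m (ZMod 2) w) = q (g v)) ↔ q w = 0) := by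
  have hP := isQ_plus m
  have hQ := isQ_of_polar hP hq
  simp only [polar_eq hP]
  refine ⟨(isQ_twist hQ w).add, ?_⟩
  rw [equiv_iff hQ (isQ_twist hQ w) hm (finrank_plus m), sum_twist hQ]
  have hne : ∑ v, χ (q v) ≠ 0 := by
    rcases sum_cases hQ hm (finrank_plus m) with h | h <;> rw [h] <;> simp
  constructor
  · intro h
    by_contra h0
    rw [eq_one_of_ne h0, χ_one] at h
    apply hne
    linarith
  · intro h
    rw [h, χ_zero, one_mul]

theorem s2561 (m : ℕ) (hm : 1 ≤ m) :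
    Nat.card {q : (Fin m ⊕ Fin m → ZMod 2) → ZMod 2 // (∀ u v : (Fin m ⊕ Fin m → ZMod 2), q (u + v) = q u + q v + (Cfsg.quadFormPlus m (ZMod 2) (u + v) - Cfsg.quadFormPlus m (ZMod 2) u - Cfsg.quadFormPlus m (ZMod 2) v))} = 2 ^ (2 * m) ∧
    (∀ q : (Fin m ⊕ Fin m → ZMod 2) → ZMod 2, (∀ u v : (Fin m ⊕ Fin m → ZMod 2), q (u + v) = q u + q v + (Cfsg.quadFormPlus m (ZMod 2) (u + v) - Cfsg.quadFormPlus m (ZMod 2) u - Cfsg.quadFormPlus m (ZMod 2) v)) →
      (∃ g : (Fin m ⊕ Fin m → ZMod 2) ≃ₗ[ZMod 2] (Fin m ⊕ Fin m → ZMod 2), ∀ v, q v = Cfsg.quadFormPlus m (ZMod 2) (g v)) ∨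
      (∃ g : (Fin m ⊕ Fin m → ZMod 2) ≃ₗ[ZMod 2] ((Fin (m - 1) ⊕ Fin (m - 1)) ⊕ Fin 2 → ZMod 2), ∀ v, q v = Cfsg.quadFormMinus (m - 1) (ZMod 2) 1 1 (g v))) ∧
    Nat.card {q : (Fin m ⊕ Fin m → ZMod 2) → ZMod 2 // (∀ u v : (Fin m ⊕ Fin m → ZMod 2), q (u + v) = q u + q v + (Cfsg.quadFormPlus m (ZMod 2) (u + v) - Cfsg.quadFormPlus m (ZMod 2) u - Cfsg.quadFormPlus m (ZMod 2) v)) ∧ ∃ g : (Fin m ⊕ Fin m → ZMod 2) ≃ₗ[ZMod 2] (Fin m ⊕ Fin m → ZMod 2), ∀ v, q v = Cfsg.quadFormPlus m (ZMod 2) (g v)} = 2 ^ (2 * m - 1) + 2 ^ (m - 1) ∧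
    Nat.card {q : (Fin m ⊕ Fin m → ZMod 2) → ZMod 2 // (∀ u v : (Fin m ⊕ Fin m → ZMod 2), q (u + v) = q u + q v + (Cfsg.quadFormPlus m (ZMod 2) (u + v) - Cfsg.quadFormPlus m (ZMod 2) u - Cfsg.quadFormPlus m (ZMod 2) v)) ∧ ∃ g : (Fin m ⊕ Fin m → ZMod 2) ≃ₗ[ZMod 2] ((Fin (m - 1) ⊕ Fin (m - 1)) ⊕ Fin 2 → ZMod 2), ∀ v, q v = Cfsg.quadFormMinus (m - 1) (ZMod 2) 1 1 (g v)} = 2 ^ (2 * m - 1) - 2 ^ (m - 1) := by
  classical
  have hP := isQ_plus m
  obtain ⟨B, hPB⟩ : ∃ B, IsQ B (Cfsg.quadFormPlus m (ZMod 2)) := ⟨_, hP⟩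
  clear hP
  rename' hPB => hP
  set P := Cfsg.quadFormPlus m (ZMod 2) with hPdef
  obtain ⟨k, rfl⟩ : ∃ k, m = k + 1 := ⟨m - 1, by omega⟩
  have hiff : ∀ q : (Fin (k+1) ⊕ Fin (k+1) → ZMod 2) → ZMod 2, (∀ u v, q (u + v) = q u + q v + (P (u + v) - P u - P v)) ↔ IsQ B q := by
    intro q
    constructor
    · exact fun h => isQ_of_polar hP h
    · intro h u v
      rw [polar_eq hP, h.add]
  have hfr := finrank_plus (k+1)
  have hsumP : ∑ v, χ (P v) = 2 ^ (k+1) := (plus_iff hP hm hfr).1 ⟨LinearEquiv.refl _ _, fun v => rfl⟩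
  -- the count of plus type forms
  have hcard : Nat.card (Fin (k+1) ⊕ Fin (k+1) → ZMod 2) = 2 ^ (2 * (k+1)) := by
    rw [Nat.card_fun, Nat.card_zmod]; simp; ring
  have hz : (2 * (Nat.card {w : Fin (k+1) ⊕ Fin (k+1) → ZMod 2 // P w = 0} : ℤ)) = 2 ^ (2 * (k+1)) + 2 ^ (k+1) := by
    have h1 := two_mul_card_zeros P
    rw [hsumP] at h1
    rw [Nat.card_eq_fintype_card, Fintype.card_subtype, h1]
    rw [Nat.card_eq_fintype_card] at hcard
    rw [hcard]; push_cast; ring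
  have hz' : Nat.card {w : Fin (k+1) ⊕ Fin (k+1) → ZMod 2 // P w = 0} = 2 ^ (2 * (k+1) - 1) + 2 ^ k := by
    have h1 : (2 : ℤ) ^ (2 * (k+1)) = 2 * 2 ^ (2 * (k+1) - 1) := by
      rw [← pow_succ']; congr 1
    have h2 : (2 : ℤ) ^ (k+1) = 2 * 2 ^ k := by rw [← pow_succ']
    rw [h1, h2] at hz
    have : (Nat.card {w : Fin (k+1) ⊕ Fin (k+1) → ZMod 2 // P w = 0} : ℤ) = 2 ^ (2 * (k+1) - 1) + 2 ^ k := by linarith
    exact_mod_cast this
  have hsplit : Nat.card {w : Fin (k+1) ⊕ Fin (k+1) → ZMod 2 // P w = 0} + Nat.card {w : Fin (k+1) ⊕ Fin (k+1) → ZMod 2 // P w ≠ 0} = 2 ^ (2 * (k+1)) := by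
    rw [← hcard, Nat.card_eq_fintype_card, Nat.card_eq_fintype_card, Nat.card_eq_fintype_card]
    exact Fintype.card_subtype_compl (fun w => P w = 0) ▸ (by
      have := Fintype.card_subtype_le (fun w : Fin (k+1) ⊕ Fin (k+1) → ZMod 2 => P w = 0)
      omega)
  have e := twistEquiv hP
  have hplus : ∀ q, IsQ B q → ((∃ g : (Fin (k+1) ⊕ Fin (k+1) → ZMod 2) ≃ₗ[ZMod 2] (Fin (k+1) ⊕ Fin (k+1) → ZMod 2), ∀ v, q v = P (g v)) ↔ ∑ v, χ (q v) = 2 ^ (k+1)) :=
    fun q hq => plus_iff hq hm hfr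
  have hminus : ∀ q, IsQ B q → ((∃ g : (Fin (k+1) ⊕ Fin (k+1) → ZMod 2) ≃ₗ[ZMod 2] ((Fin k ⊕ Fin k) ⊕ Fin 2 → ZMod 2), ∀ v, q v = Cfsg.quadFormMinus k (ZMod 2) 1 1 (g v)) ↔ ∑ v, χ (q v) = - 2 ^ (k+1)) :=
    fun q hq => minus_iff hq hfr
  refine ⟨?_, ?_, ?_, ?_⟩
  · rw [← hcard]
    exact (Nat.card_congr ((twistEquiv hP).trans (Equiv.subtypeEquivRight fun q => (hiff q).symm))).symm
  · intro q hq
    have hq' := (hiff q).1 hq
    rcases sum_cases hq' hm hfr with h | h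
    · exact Or.inl ((hplus q hq').2 h)
    · exact Or.inr ((hminus q hq').2 h)
  · change _ = 2 ^ (2 * (k + 1) - 1) + 2 ^ k
    rw [← hz']
    symm
    refine Nat.card_congr (Equiv.ofBijective (fun w => ⟨fun v => P v + B v w.1, ?_, ?_⟩) ⟨?_, ?_⟩)
    · exact (hiff _).2 (isQ_twist hP w.1)
    · rw [hplus _ (isQ_twist hP w.1), sum_twist hP, w.2, χ_zero, one_mul, hsumP]
    · intro w w' h
      exact Subtype.ext (twist_unique hP (fun v => congrFun (congrArg Subtype.val h) v))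
    · rintro ⟨q, hq1, hq2⟩
      have hq' := (hiff q).1 hq1
      obtain ⟨w, hw⟩ := exists_twist hP hq'
      have hqw : q = fun v => P v + B v w := funext hw
      rw [hplus q hq', hqw, sum_twist hP, hsumP] at hq2
      refine ⟨⟨w, ?_⟩, Subtype.ext hqw.symm⟩
      by_contra h0
      rw [eq_one_of_ne h0, χ_one] at hq2
      have : (0 : ℤ) < 2 ^ (k+1) := by positivity
      linarith
  · have : 2 ^ (2 * (k+1) - 1) - 2 ^ k = Nat.card {w : Fin (k+1) ⊕ Fin (k+1) → ZMod 2 // P w ≠ 0} := by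
      have h1 : (2 : ℕ) ^ (2 * (k+1)) = 2 * 2 ^ (2 * (k+1) - 1) := by
        rw [← pow_succ']; congr 1
      omega
    change _ = 2 ^ (2 * (k + 1) - 1) - 2 ^ k
    rw [this]
    symm
    refine Nat.card_congr (Equiv.ofBijective (fun w => ⟨fun v => P v + B v w.1, ?_, ?_⟩) ⟨?_, ?_⟩)
    · exact (hiff _).2 (isQ_twist hP w.1)
    · refine (hminus _ (isQ_twist hP w.1)).2 ?_
      rw [sum_twist hP, eq_one_of_ne w.2, χ_one, hsumP]; ring
    · intro w w' h
      exact Subtype.ext (twist_unique hP (fun v => congrFun (congrArg Subtype.val h) v))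
    · rintro ⟨q, hq1, hq2⟩
      have hq' := (hiff q).1 hq1
      obtain ⟨w, hw⟩ := exists_twist hP hq'
      have hqw : q = fun v => P v + B v w := funext hw
      replace hq2 := (hminus q hq').1 hq2
      rw [hqw, sum_twist hP, hsumP] at hq2
      refine ⟨⟨w, ?_⟩, Subtype.ext hqw.symm⟩
      intro h0
      rw [h0, χ_zero] at hq2
      have : (0 : ℤ) < 2 ^ (k+1) := by positivity
      linarith

end CfsgLib.KQ1
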