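import Mathlib
import Cfsg.Agent.LibKQ1
import Cfsg.Agent.LibH22OMat

/-! Symmetric groups in orthogonal groups over the field of two elements (seat helper10). -/

set_option autoImplicit false
set_option linter.all false

namespace CfsgLib.KQ2

open CfsgLib.QuadF2 CfsgLib.KQ1

/-- a homomorphism into the isometry group from an action preserving an equivalent form -/
theorem exists_hom {G V : Type*} [Group G] [AddCommGroup V] {F : Type*} [Field F] [Module F V] {ι : Type} [Fintype ι] [DecidableEq ι]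
    (ρ : G →* (V ≃ₗ[F] V)) (Q : V → F) (hρ : ∀ g v, Q (ρ g v) = Q v) (ψ : V ≃ₗ[F] (ι → F)) (Q' : (ι → F) → F)
    (hψ : ∀ v, Q v = Q' (ψ v)) :
    ∃ φ : G →* ↥(Cfsg.isometryGroup F Q'), ∀ g x, ((φ g : Matrix.GeneralLinearGroup ι F) : Matrix ι ι F).mulVec x = ψ (ρ g (ψ.symm x)) := by
  let f : G →* Matrix.GeneralLinearGroup ι F :=
    { toFun := fun g => Cfsg.Agent.H22.glLin.symm ((ψ.symm.trans (ρ g)).trans ψ)
      map_one' := by
        rw [map_one]
        have : (ψ.symm.trans (1 : V ≃ₗ[F] V)).trans ψ = 1 := by ext x; simp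
        rw [this, map_one]
      map_mul' := fun g h => by
        rw [← map_mul]
        congr 1
        ext x
        simp [LinearEquiv.mul_apply] }
  have hf : ∀ g x, ((f g : Matrix.GeneralLinearGroup ι F) : Matrix ι ι F).mulVec x = ψ (ρ g (ψ.symm x)) := by
    intro g x
    exact Cfsg.Agent.H22.glLin_symm_mulVec _ x
  refine ⟨f.codRestrict _ (fun g => ?_), hf⟩
  intro u x
  change Q' (((f g : Matrix.GeneralLinearGroup ι F) : Matrix ι ι F).mulVec u) = Q' u
  rw [hf, ← hψ, hρ, hψ, LinearEquiv.apply_symm_apply]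

theorem hom_injective {G V : Type*} [Group G] [AddCommGroup V] {F : Type*} [Field F] [Module F V] {ι : Type} [Fintype ι] [DecidableEq ι]
    {ρ : G →* (V ≃ₗ[F] V)} {ψ : V ≃ₗ[F] (ι → F)} {Q' : (ι → F) → F} {φ : G →* ↥(Cfsg.isometryGroup F Q')}
    (hφ : ∀ g x, ((φ g : Matrix.GeneralLinearGroup ι F) : Matrix ι ι F).mulVec x = ψ (ρ g (ψ.symm x)))
    (hinj : Function.Injective ρ) : Function.Injective φ := by
  intro g h hgh
  apply hinj
  ext v
  have h1 := hφ g (ψ v)
  have h2 := hφ h (ψ v)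
  rw [hgh, h2] at h1
  simpa using h1.symm

section perm
variable (n : ℕ)

/-- Hamming weight -/
def wt (x : Fin n → ZMod 2) : ℕ := ∑ i, (x i).val

variable {n}

/-- size of the intersection -/
def ov (x y : Fin n → ZMod 2) : ℕ := ∑ i, (x i).val * (y i).val

theorem wt_add (x y : Fin n → ZMod 2) : wt n (x + y) + 2 * ov x y = wt n x + wt n y := by
  unfold wt ov
  rw [Finset.mul_sum, ← Finset.sum_add_distrib, ← Finset.sum_add_distrib]
  refine Finset.sum_congr rfl fun i _ => ?_
  rw [Pi.add_apply]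
  generalize x i = a
  generalize y i = b
  revert a b; decide

variable (n) in
/-- the even weight code -/
def E : Submodule (ZMod 2) (Fin n → ZMod 2) := LinearMap.ker (∑ i, LinearMap.proj i : (Fin n → ZMod 2) →ₗ[ZMod 2] ZMod 2)

theorem mem_E {x : Fin n → ZMod 2} : x ∈ E n ↔ ∑ i, x i = 0 := by
  unfold E
  rw [LinearMap.mem_ker]
  simp

theorem cast_wt (x : Fin n → ZMod 2) : ((wt n x : ℕ) : ZMod 2) = ∑ i, x i := by
  unfold wt
  push_cast
  refine Finset.sum_congr rfl fun i _ => ?_
  rw [ZMod.natCast_val, ZMod.cast_id]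

theorem mem_E_iff {x : Fin n → ZMod 2} : x ∈ E n ↔ Even (wt n x) := by
  rw [mem_E, ← cast_wt, ZMod.natCast_eq_zero_iff_even]

/-- half the weight -/
def q₀ (x : Fin n → ZMod 2) : ZMod 2 := ((wt n x / 2 : ℕ) : ZMod 2)

theorem q₀_add {x y : Fin n → ZMod 2} (hx : x ∈ E n) (hy : y ∈ E n) : q₀ (x + y) = q₀ x + q₀ y + ∑ i, x i * y i := by
  have hxy : x + y ∈ E n := (E n).add_mem hx hy
  rw [mem_E_iff] at hx hy hxy
  obtain ⟨a, ha⟩ := hx
  obtain ⟨b, hb⟩ := hy
  obtain ⟨c, hc⟩ := hxy
  have h := wt_add x y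
  unfold q₀
  have e1 : wt n x / 2 = a := by omega
  have e2 : wt n y / 2 = b := by omega
  have e3 : wt n (x + y) / 2 = c := by omega
  rw [e1, e2, e3]
  have e4 : c + ov x y = a + b := by omega
  have e5 : ((ov x y : ℕ) : ZMod 2) = ∑ i, x i * y i := by
    unfold ov
    push_cast
    refine Finset.sum_congr rfl fun i _ => ?_
    rw [ZMod.natCast_val, ZMod.cast_id, ZMod.natCast_val, ZMod.cast_id]
  have e6 : (c : ZMod 2) + (ov x y : ℕ) = a + b := by exact_mod_cast congrArg (fun t : ℕ => (t : ZMod 2)) e4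
  rw [← e5, ← e6, add_assoc, CfsgLib.QuadF2.add_self, add_zero]

theorem q₀_perm (σ : Equiv.Perm (Fin n)) (x : Fin n → ZMod 2) : q₀ (x ∘ σ) = q₀ x := by
  unfold q₀ wt
  congr 2
  exact Equiv.sum_comp σ (fun i => (x i).val)

theorem q₀_zero : q₀ (0 : Fin n → ZMod 2) = 0 := by
  unfold q₀ wt; simp

end perm

noncomputable instance (m : ℕ) : Fintype (E m) := Fintype.ofFinite _

section main
variable (k : ℕ)

local notation "n" => 4 * k + 4

/-- the all-one vector -/
def one : E (4 * k + 4) := ⟨fun _ => 1, by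
  rw [mem_E]; simp
  have : ((4 * k + 4 : ℕ) : ZMod 2) = 0 := by
    rw [ZMod.natCast_eq_zero_iff_even]; exact ⟨2 * k + 2, by ring⟩
  exact_mod_cast this⟩

theorem wt_one : wt (4 * k + 4) (one k : Fin (4 * k + 4) → ZMod 2) = 4 * k + 4 := by
  unfold wt one
  simp [ZMod.val_one]

theorem q₀_one : q₀ (one k : Fin (4 * k + 4) → ZMod 2) = 0 := by
  unfold q₀
  rw [wt_one]
  have : (4 * k + 4) / 2 = 2 * k + 2 := by omega
  rw [this, ZMod.natCast_eq_zero_iff_even]
  exact ⟨k + 1, by ring⟩

/-- the module -/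
abbrev V : Type := E (4 * k + 4) ⧸ (Submodule.span (ZMod 2) {one k})

theorem q₀_add_one (x : E (4 * k + 4)) : q₀ ((x + one k : E (4 * k + 4)) : Fin (4 * k + 4) → ZMod 2) = q₀ (x : Fin (4 * k + 4) → ZMod 2) := by
  have h1 : ((x + one k : E (4 * k + 4)) : Fin (4 * k + 4) → ZMod 2) = (x : Fin (4 * k + 4) → ZMod 2) + (one k : Fin (4 * k + 4) → ZMod 2) := rfl
  rw [h1, q₀_add x.2 (one k).2, q₀_one, add_zero]
  have h2 : ∑ i, (x : Fin (4 * k + 4) → ZMod 2) i * (one k : Fin (4 * k + 4) → ZMod 2) i = 0 := by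
    have := mem_E.1 x.2
    rw [← this]
    refine Finset.sum_congr rfl fun i _ => ?_
    change _ * (1 : ZMod 2) = _
    rw [mul_one]
  rw [h2, add_zero]

theorem mem_span_one {x : E (4 * k + 4)} (hx : x ∈ Submodule.span (ZMod 2) {one k}) : x = 0 ∨ x = one k := by
  rw [Submodule.mem_span_singleton] at hx
  obtain ⟨a, rfl⟩ := hx
  by_cases ha : a = 0
  · left; rw [ha, zero_smul]
  · right; rw [eq_one_of_ne ha, one_smul]

/-- the quadratic form on the quotient -/
def Q : V k → ZMod 2 := Quotient.lift (s := Submodule.quotientRel (Submodule.span (ZMod 2) {one k})) (fun x : E (4 * k + 4) => q₀ (x : Fin (4 * k + 4) → ZMod 2)) (by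
  intro x y hxy
  have h1 : x - y ∈ Submodule.span (ZMod 2) {one k} := (Submodule.quotientRel_def _).1 hxy
  rcases mem_span_one k h1 with h | h
  · rw [sub_eq_zero] at h; rw [h]
  · have : x = y + one k := by rw [← h]; abel
    rw [this]
    exact q₀_add_one k y)

theorem Q_mk (x : E (4 * k + 4)) : Q k (Submodule.Quotient.mk x) = q₀ (x : Fin (4 * k + 4) → ZMod 2) := rfl

theorem Q_pol (x y : E (4 * k + 4)) : Q k (Submodule.Quotient.mk x + Submodule.Quotient.mk y) - Q k (Submodule.Quotient.mk x) - Q k (Submodule.Quotient.mk y) =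
    ∑ i, (x : Fin (4 * k + 4) → ZMod 2) i * (y : Fin (4 * k + 4) → ZMod 2) i := by
  rw [← Submodule.Quotient.mk_add, Q_mk, Q_mk, Q_mk]
  have := q₀_add x.2 y.2
  have h1 : ((x + y : E (4 * k + 4)) : Fin (4 * k + 4) → ZMod 2) = (x : Fin (4 * k + 4) → ZMod 2) + (y : Fin (4 * k + 4) → ZMod 2) := rfl
  rw [h1, this]; ring

/-- polar form -/
def BV : LinearMap.BilinForm (ZMod 2) (V k) :=
  LinearMap.mk₂ (ZMod 2) (fun v w => Q k (v + w) - Q k v - Q k w)
    (by
      intro a b c
      obtain ⟨a, rfl⟩ := Submodule.Quotient.mk_surjective _ a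
      obtain ⟨b, rfl⟩ := Submodule.Quotient.mk_surjective _ b
      obtain ⟨c, rfl⟩ := Submodule.Quotient.mk_surjective _ c
      rw [Q_pol, Q_pol, ← Submodule.Quotient.mk_add, Q_pol, ← Finset.sum_add_distrib]
      refine Finset.sum_congr rfl fun i _ => ?_
      rw [← add_mul]; rfl)
    (by
      intro r a b
      obtain ⟨a, rfl⟩ := Submodule.Quotient.mk_surjective _ a
      obtain ⟨b, rfl⟩ := Submodule.Quotient.mk_surjective _ b
      rw [Q_pol, ← Submodule.Quotient.mk_smul, Q_pol, smul_eq_mul, Finset.mul_sum]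
      refine Finset.sum_congr rfl fun i _ => ?_
      rw [← mul_assoc]; rfl)
    (by
      intro a b c
      obtain ⟨a, rfl⟩ := Submodule.Quotient.mk_surjective _ a
      obtain ⟨b, rfl⟩ := Submodule.Quotient.mk_surjective _ b
      obtain ⟨c, rfl⟩ := Submodule.Quotient.mk_surjective _ c
      rw [Q_pol, Q_pol, ← Submodule.Quotient.mk_add, Q_pol, ← Finset.sum_add_distrib]
      refine Finset.sum_congr rfl fun i _ => ?_
      rw [← mul_add]; rfl)
    (by
      intro r a b
      obtain ⟨a, rfl⟩ := Submodule.Quotient.mk_surjective _ a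
      obtain ⟨b, rfl⟩ := Submodule.Quotient.mk_surjective _ b
      rw [Q_pol, ← Submodule.Quotient.mk_smul, Q_pol, smul_eq_mul, Finset.mul_sum]
      refine Finset.sum_congr rfl fun i _ => ?_
      rw [← mul_assoc, mul_comm r, mul_assoc]; rfl)

theorem BV_mk (x y : E (4 * k + 4)) : BV k (Submodule.Quotient.mk x) (Submodule.Quotient.mk y) =
    ∑ i, (x : Fin (4 * k + 4) → ZMod 2) i * (y : Fin (4 * k + 4) → ZMod 2) i := Q_pol k x y

/-- the vector `e_i + e_j` -/
def pr {m : ℕ} (i j : Fin m) : E m := ⟨Pi.single i 1 + Pi.single j 1, by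
  rw [mem_E]
  simp only [Pi.add_apply]
  rw [Finset.sum_add_distrib, Finset.sum_pi_single', Finset.sum_pi_single']
  simp only [Finset.mem_univ, if_true]
  decide⟩

theorem isQ : IsQ (BV k) (Q k) := by
  refine ⟨?_, ?_, ?_⟩
  · intro v
    obtain ⟨x, rfl⟩ := Submodule.Quotient.mk_surjective _ v
    rw [BV_mk]
    simp only [CfsgLib.QuadF2.mul_self]
    exact mem_E.1 x.2
  · intro v hv
    obtain ⟨x, rfl⟩ := Submodule.Quotient.mk_surjective _ v
    by_contra hcon
    push Not at hcon
    apply hv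
    rw [Submodule.Quotient.mk_eq_zero]
    have h1 : ∀ i j, (x : Fin (4 * k + 4) → ZMod 2) i = (x : Fin (4 * k + 4) → ZMod 2) j := by
      intro i j
      have h2 := hcon (Submodule.Quotient.mk (pr i j))
      rw [BV_mk] at h2
      have h3 : ∑ l, (x : Fin (4 * k + 4) → ZMod 2) l * ((pr i j : E (4 * k + 4)) : Fin (4 * k + 4) → ZMod 2) l = (x : Fin (4 * k + 4) → ZMod 2) i + (x : Fin (4 * k + 4) → ZMod 2) j := by
        have : ∀ l, (x : Fin (4 * k + 4) → ZMod 2) l * ((pr i j : E (4 * k + 4)) : Fin (4 * k + 4) → ZMod 2) l =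
          (Pi.single i ((x : Fin (4 * k + 4) → ZMod 2) i) : Fin (4 * k + 4) → ZMod 2) l + (Pi.single j ((x : Fin (4 * k + 4) → ZMod 2) j) : Fin (4 * k + 4) → ZMod 2) l := by
          intro l
          simp only [pr, Pi.add_apply, mul_add]
          congr 1
          · by_cases h : l = i
            · subst h; simp
            · simp [Pi.single_eq_of_ne h]
          · by_cases h : l = j
            · subst h; simp
            · simp [Pi.single_eq_of_ne h]
        simp only [this]
        rw [Finset.sum_add_distrib, Finset.sum_pi_single', Finset.sum_pi_single']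
        simp
      rw [h3] at h2
      have h4 : ∀ a b : ZMod 2, a + b = 0 → a = b := by decide
      exact h4 _ _ h2
    rw [Submodule.mem_span_singleton]
    refine ⟨(x : Fin (4 * k + 4) → ZMod 2) 0, ?_⟩
    apply Subtype.ext
    funext i
    change (x : Fin (4 * k + 4) → ZMod 2) 0 * (1 : ZMod 2) = _
    rw [mul_one]; exact h1 _ _
  · intro v w
    change _ = _ + _ + (Q k (v + w) - Q k v - Q k w)
    ring

theorem finrank_V : Module.finrank (ZMod 2) (V k) = 2 * (2 * k + 1) := by
  have h1 : Module.finrank (ZMod 2) (E (4 * k + 4)) + 1 = 4 * k + 4 := by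
    have h2 := LinearMap.finrank_range_add_finrank_ker (∑ i, LinearMap.proj i : (Fin (4 * k + 4) → ZMod 2) →ₗ[ZMod 2] ZMod 2)
    have h3 : LinearMap.range (∑ i, LinearMap.proj i : (Fin (4 * k + 4) → ZMod 2) →ₗ[ZMod 2] ZMod 2) = ⊤ := by
      rw [LinearMap.range_eq_top]
      intro a
      refine ⟨Pi.single 0 a, ?_⟩
      simp
    rw [h3, finrank_top, Module.finrank_self, Module.finrank_fin_fun] at h2
    change Module.finrank (ZMod 2) (LinearMap.ker (∑ i, LinearMap.proj i : (Fin (4 * k + 4) → ZMod 2) →ₗ[ZMod 2] ZMod 2)) + 1 = _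
    omega
  have h4 := Submodule.finrank_quotient_add_finrank (Submodule.span (ZMod 2) {one k})
  have h5 : Module.finrank (ZMod 2) (Submodule.span (ZMod 2) {one k}) = 1 := by
    rw [finrank_span_singleton]
    intro h
    have := congrArg (fun x : E (4 * k + 4) => (x : Fin (4 * k + 4) → ZMod 2) 0) h
    exact one_ne_zero this
  rw [h5] at h4
  change Module.finrank (ZMod 2) (E (4 * k + 4) ⧸ Submodule.span (ZMod 2) {one k}) = _
  omega

/-- the sum over all vectors of the powers of `I` -/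
theorem sum_I_pow (m : ℕ) : ∑ x : Fin m → ZMod 2, Complex.I ^ (wt m x) = (1 + Complex.I) ^ m := by
  have h1 : ∀ x : Fin m → ZMod 2, Complex.I ^ (wt m x) = ∏ i, Complex.I ^ (x i).val := by
    intro x; unfold wt; rw [Finset.prod_pow_eq_pow_sum]
  simp only [h1]
  have h2 := Finset.prod_univ_sum (R := ℂ) (fun _ : Fin m => (Finset.univ : Finset (ZMod 2))) (fun i x => Complex.I ^ x.val)
  rw [Fintype.piFinset_univ] at h2
  rw [← h2]
  have h3 : ∑ x : ZMod 2, Complex.I ^ x.val = 1 + Complex.I := by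
    have : (Finset.univ : Finset (ZMod 2)) = {0, 1} := by decide
    rw [this, Finset.sum_pair (by decide)]
    rw [ZMod.val_zero, ZMod.val_one, pow_zero, pow_one]
  simp only [h3]
  rw [Finset.prod_const, Finset.card_univ, Fintype.card_fin]

theorem one_add_I_pow : (1 + Complex.I) ^ (4 * k + 4) = (-4) ^ (k + 1) := by
  have : (1 + Complex.I) ^ 4 = -4 := by
    have h1 : (1 + Complex.I) ^ 2 = 2 * Complex.I := by
      rw [sq]; ring_nf; rw [Complex.I_sq]; ring
    calc (1 + Complex.I) ^ 4 = ((1 + Complex.I) ^ 2) ^ 2 := by ring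
      _ = -4 := by rw [h1, mul_pow, Complex.I_sq]; norm_num
  rw [show 4 * k + 4 = 4 * (k + 1) by ring, pow_mul, this]

theorem sum_E : ∑ x : E (4 * k + 4), χ (q₀ (x : Fin (4 * k + 4) → ZMod 2)) = (-4) ^ (k + 1) := by
  classical
  have h1 : ∀ x : Fin (4 * k + 4) → ZMod 2, (Complex.I ^ (wt (4 * k + 4) x)).re = if x ∈ E (4 * k + 4) then ((χ (q₀ x) : ℤ) : ℝ) else 0 := by
    intro x
    by_cases hx : x ∈ E (4 * k + 4)
    · rw [if_pos hx]
      obtain ⟨a, ha⟩ := mem_E_iff.1 hx
      unfold q₀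
      have e : wt (4 * k + 4) x / 2 = a := by omega
      rw [e, ha, ← two_mul, pow_mul, Complex.I_sq]
      rcases Nat.even_or_odd a with h | h
      · rw [h.neg_one_pow, (ZMod.natCast_eq_zero_iff_even).2 h, χ_zero]; simp
      · rw [h.neg_one_pow, (ZMod.natCast_eq_one_iff_odd).2 h, χ_one]; simp
    · rw [if_neg hx]
      rw [mem_E_iff, Nat.not_even_iff_odd] at hx
      obtain ⟨a, ha⟩ := hx
      rw [ha, pow_succ, pow_mul, Complex.I_sq]
      rcases Nat.even_or_odd a with h | h
      · rw [h.neg_one_pow]; simp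
      · rw [h.neg_one_pow]; simp
  have h2 := congrArg Complex.re ((sum_I_pow (4 * k + 4)).trans (one_add_I_pow k))
  rw [Complex.re_sum] at h2
  simp only [h1] at h2
  rw [← Finset.sum_filter] at h2
  have h3 : ((-4 : ℂ) ^ (k + 1)).re = (-4 : ℝ) ^ (k + 1) := by
    have : ((-4 : ℂ) ^ (k + 1)) = (((-4 : ℝ) ^ (k + 1) : ℝ) : ℂ) := by push_cast; ring
    rw [this, Complex.ofReal_re]
  rw [h3] at h2
  have h4 : ∑ x ∈ Finset.univ.filter (fun x => x ∈ E (4 * k + 4)), ((χ (q₀ x) : ℤ) : ℝ) = ∑ x : E (4 * k + 4), ((χ (q₀ (x : Fin (4 * k + 4) → ZMod 2)) : ℤ) : ℝ) := by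
    exact Finset.sum_subtype _ (fun x => by simp) _
  rw [h4] at h2
  exact_mod_cast h2

noncomputable instance : Fintype (V k) := Fintype.ofFinite _

theorem one_ne : (one k) ≠ 0 := by
  intro h
  have := congrArg (fun x : E (4 * k + 4) => (x : Fin (4 * k + 4) → ZMod 2) 0) h
  exact one_ne_zero this

theorem sum_V : 2 * ∑ v : V k, χ (Q k v) = (-4) ^ (k + 1) := by
  classical
  rw [← sum_E]
  rw [← Finset.sum_fiberwise (s := (Finset.univ : Finset (E (4 * k + 4)))) (g := fun x => (Submodule.Quotient.mk x : V k)), Finset.mul_sum]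
  refine Finset.sum_congr rfl fun v _ => ?_
  obtain ⟨x, rfl⟩ := Submodule.Quotient.mk_surjective _ v
  have h1 : (Finset.univ.filter (fun y : E (4 * k + 4) => (Submodule.Quotient.mk y : V k) = Submodule.Quotient.mk x)) = {x, x + one k} := by
    ext y
    rw [Finset.mem_filter, Finset.mem_insert, Finset.mem_singleton]
    constructor
    · rintro ⟨-, h⟩
      rw [Submodule.Quotient.eq] at h
      rcases mem_span_one k h with h | h
      · left; exact sub_eq_zero.1 h
      · right; rw [← h]; abel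
    · rintro (rfl | rfl)
      · exact ⟨Finset.mem_univ _, rfl⟩
      · refine ⟨Finset.mem_univ _, ?_⟩
        rw [Submodule.Quotient.eq, add_sub_cancel_left]
        exact Submodule.mem_span_singleton_self _
  rw [h1, Finset.sum_pair]
  · rw [q₀_add_one, Q_mk]; ring
  · intro h
    exact one_ne k (by simpa using h.symm)

theorem sum_V_odd (hk : Odd k) : ∑ v : V k, χ (Q k v) = 2 ^ (2 * k + 1) := by
  have h := sum_V k
  have h2 : (-4 : ℤ) ^ (k + 1) = 2 * 2 ^ (2 * k + 1) := by
    have h3 : Even (k + 1) := hk.add_one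
    rw [h3.neg_pow, show (4 : ℤ) = 2 ^ 2 by norm_num, ← pow_mul, ← pow_succ']
    congr 1
  rw [h2] at h
  linarith

theorem sum_V_even (hk : Even k) : ∑ v : V k, χ (Q k v) = - 2 ^ (2 * k + 1) := by
  have h := sum_V k
  have h2 : (-4 : ℤ) ^ (k + 1) = - (2 * 2 ^ (2 * k + 1)) := by
    have h3 : Odd (k + 1) := hk.add_one
    rw [h3.neg_pow, show (4 : ℤ) = 2 ^ 2 by norm_num, ← pow_mul, ← pow_succ']
    congr 2
  rw [h2] at h
  linarith

/-- action of permutations on the even weight code -/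
def permE {m : ℕ} (σ : Equiv.Perm (Fin m)) : E m ≃ₗ[ZMod 2] E m where
  toFun x := ⟨(x : Fin m → ZMod 2) ∘ σ.symm, by
    rw [mem_E]
    have := Equiv.sum_comp σ.symm (fun i => (x : Fin m → ZMod 2) i)
    exact this.trans (mem_E.1 x.2)⟩
  invFun x := ⟨(x : Fin m → ZMod 2) ∘ σ, by
    rw [mem_E]
    have := Equiv.sum_comp σ (fun i => (x : Fin m → ZMod 2) i)
    exact this.trans (mem_E.1 x.2)⟩
  map_add' _ _ := rfl
  map_smul' _ _ := rfl
  left_inv x := by
    apply Subtype.ext; funext i; simp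
  right_inv x := by
    apply Subtype.ext; funext i; simp

theorem permE_one (σ : Equiv.Perm (Fin (4 * k + 4))) : permE σ (one k) = one k := rfl

theorem permE_span (σ : Equiv.Perm (Fin (4 * k + 4))) :
    (Submodule.span (ZMod 2) {one k}).map (permE σ : E (4 * k + 4) →ₗ[ZMod 2] E (4 * k + 4)) = Submodule.span (ZMod 2) {one k} := by
  rw [Submodule.map_span, Set.image_singleton]
  rfl

/-- action of permutations on the quotient -/
noncomputable def rho : Equiv.Perm (Fin (4 * k + 4)) →* (V k ≃ₗ[ZMod 2] V k) where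
  toFun σ := Submodule.Quotient.equiv _ _ (permE σ) (permE_span k σ)
  map_one' := by
    ext v
    obtain ⟨x, rfl⟩ := Submodule.Quotient.mk_surjective _ v
    rfl
  map_mul' σ τ := by
    ext v
    obtain ⟨x, rfl⟩ := Submodule.Quotient.mk_surjective _ v
    rfl

theorem rho_mk (σ : Equiv.Perm (Fin (4 * k + 4))) (x : E (4 * k + 4)) : rho k σ (Submodule.Quotient.mk x) = Submodule.Quotient.mk (permE σ x) := rfl

theorem Q_rho (σ : Equiv.Perm (Fin (4 * k + 4))) (v : V k) : Q k (rho k σ v) = Q k v := by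
  obtain ⟨x, rfl⟩ := Submodule.Quotient.mk_surjective _ v
  rw [rho_mk, Q_mk, Q_mk]
  exact q₀_perm σ.symm (x : Fin (4 * k + 4) → ZMod 2)

theorem rho_injective (hk : 1 ≤ k) : Function.Injective (rho k) := by
  rw [injective_iff_map_eq_one]
  intro σ hσ
  -- σ fixes every pair
  have h1 : ∀ i j : Fin (4 * k + 4), i ≠ j → ∀ l, l ≠ i → l ≠ j → σ.symm l ≠ i := by
    intro i j hij l hli hlj hl
    have h2 : rho k σ (Submodule.Quotient.mk (pr i j)) = Submodule.Quotient.mk (pr i j) := by rw [hσ]; rfl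
    rw [rho_mk, Submodule.Quotient.eq] at h2
    have hval : ∀ t, ((permE σ (pr i j) - pr i j : E (4 * k + 4)) : Fin (4 * k + 4) → ZMod 2) t =
      (((pr i j : E (4 * k + 4)) : Fin (4 * k + 4) → ZMod 2) (σ.symm t)) - (((pr i j : E (4 * k + 4)) : Fin (4 * k + 4) → ZMod 2) t) := fun t => rfl
    have hpr : ∀ t, (((pr i j : E (4 * k + 4)) : Fin (4 * k + 4) → ZMod 2) t) = (if t = i ∨ t = j then 1 else 0) := by
      intro t
      simp only [pr, Pi.add_apply, Pi.single_apply]
      by_cases h3 : t = i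
      · have h4 : t ≠ j := fun h => hij (h3.symm.trans h)
        simp [h3, hij]
      · simp [h3]
    rcases mem_span_one k h2 with h | h
    · have h5 := hval l
      rw [h, hpr, hpr, hl, if_pos (Or.inl rfl), if_neg (by tauto)] at h5
      change (0 : ZMod 2) = 1 - 0 at h5
      exact absurd h5 (by decide)
    · -- all coordinates are 1: at most four coordinates can be nonzero
      have h6 : ∀ t, t = i ∨ t = j ∨ t = σ i ∨ t = σ j := by
        intro t
        by_contra hcon
        push Not at hcon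
        have h7 := hval t
        rw [h, hpr, hpr, if_neg, if_neg (by tauto)] at h7
        · change (1 : ZMod 2) = 0 - 0 at h7
          exact absurd h7 (by decide)
        · rintro (h8 | h8)
          · exact hcon.2.2.1 (by rw [← h8]; simp)
          · exact hcon.2.2.2 (by rw [← h8]; simp)
      have h9 : (Finset.univ : Finset (Fin (4 * k + 4))) ⊆ {i, j, σ i, σ j} := by
        intro t _
        simp only [Finset.mem_insert, Finset.mem_singleton]
        exact h6 t
      have h10 := Finset.card_le_card h9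
      rw [Finset.card_univ, Fintype.card_fin] at h10
      have h11 : ({i, j, σ i, σ j} : Finset (Fin (4 * k + 4))).card ≤ 4 := Finset.card_le_four
      omega
  ext i
  by_contra hne
  have hne' : σ i ≠ i := fun h => hne (by rw [h]; rfl)
  -- choose j different from i and σ i
  obtain ⟨j, hj1, hj2⟩ : ∃ j : Fin (4 * k + 4), j ≠ i ∧ j ≠ σ i := by
    by_contra hcon
    push Not at hcon
    have h9 : (Finset.univ : Finset (Fin (4 * k + 4))) ⊆ {i, σ i} := by
      intro t _
      simp only [Finset.mem_insert, Finset.mem_singleton]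
      by_cases h : t = i
      · exact Or.inl h
      · exact Or.inr (hcon t h)
    have h10 := Finset.card_le_card h9
    rw [Finset.card_univ, Fintype.card_fin] at h10
    have h11 : ({i, σ i} : Finset (Fin (4 * k + 4))).card ≤ 2 := Finset.card_le_two
    omega
  exact h1 i j hj1.symm (σ i) hne' hj2.symm (by simp)

end main

theorem s2563 (k : ℕ) (hk : 1 ≤ k) :
    (Odd k → ∃ φ : Equiv.Perm (Fin (4 * k + 4)) →* ↥(Cfsg.isometryGroup (ZMod 2) (Cfsg.quadFormPlus (2 * k + 1) (ZMod 2))), Function.Injective φ) ∧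
    (Even k → ∃ φ : Equiv.Perm (Fin (4 * k + 4)) →* ↥(Cfsg.isometryGroup (ZMod 2) (Cfsg.quadFormMinus (2 * k) (ZMod 2) 1 1)), Function.Injective φ) := by
  constructor
  · intro hodd
    obtain ⟨ψ, hψ⟩ := (plus_iff (isQ k) (m := 2 * k + 1) (by omega) (finrank_V k)).2 (sum_V_odd k hodd)
    obtain ⟨φ, hφ⟩ := exists_hom (rho k) (Q k) (Q_rho k) ψ _ hψ
    exact ⟨φ, hom_injective hφ (rho_injective k hk)⟩
  · intro heven
    obtain ⟨ψ, hψ⟩ := (minus_iff (isQ k) (k := 2 * k) (finrank_V k)).2 (sum_V_even k heven)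
    obtain ⟨φ, hφ⟩ := exists_hom (rho k) (Q k) (Q_rho k) ψ _ hψ
    exact ⟨φ, hom_injective hφ (rho_injective k hk)⟩

end CfsgLib.KQ2
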