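import Cfsg.Statements.S0250
import Cfsg.Agent.LibH22PSL2

set_option autoImplicit false
open Cfsg

namespace Cfsg.Agent.S0250

/-- SL_2(2) is isomorphic to S_3. -/
theorem result {F : Type*} [Field F] [Fintype F] (hF : Fintype.card F = 2) : Nonempty (Matrix.SpecialLinearGroup (Fin 2) F ≃* Equiv.Perm (Fin 3)) := by
  classical
  have hc : Nat.card (Matrix.SpecialLinearGroup (Fin 2) F) = 6 := by
    rw [Cfsg.Agent.H22.card_SL2, hF]
  have h1 := Cfsg.Agent.H22.card_PSL2 (F := F)
  rw [hF] at h1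
  norm_num at h1
  have hcen : Nat.card (Subgroup.center (Matrix.SpecialLinearGroup (Fin 2) F)) = 1 := by
    rw [Cfsg.Agent.H22.card_center_SL (F := F) 2 (by norm_num), hF]
    norm_num
  have hbot : Subgroup.center (Matrix.SpecialLinearGroup (Fin 2) F) = ⊥ := Subgroup.card_eq_one.1 hcen
  have hq : Function.Injective (QuotientGroup.mk' (Subgroup.center (Matrix.SpecialLinearGroup (Fin 2) F))) := by
    rw [← MonoidHom.ker_eq_bot_iff, QuotientGroup.ker_mk', hbot]
  exact Cfsg.Agent.H22.iso_perm ((Cfsg.Agent.H22.pslPerm (F := F) (n := 3) (by rw [hF])).comp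
    (QuotientGroup.mk' (Subgroup.center (Matrix.SpecialLinearGroup (Fin 2) F))))
    ((Cfsg.Agent.H22.pslPerm_injective _).comp hq) (by rw [hc]; rfl)

end Cfsg.Agent.S0250
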