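import Mathlib
import Cfsg.Agent.LibKQ2
import Cfsg.Agent.LibH22OOrd3
import Cfsg.Agent.S0250
import Cfsg.Agent.LibLE3

/-! O_6^+(2) and O_4^+(2) (seat helper10). -/

set_option autoImplicit false
set_option linter.all false

namespace CfsgLib.KQ3

open CfsgLib.QuadF2 CfsgLib.KQ1 CfsgLib.KQ2

theorem card_isom (k : ℕ) : Nat.card ↥(Cfsg.isometryGroup (ZMod 2) (Cfsg.quadFormPlus (k + 1) (ZMod 2))) =
    2 * 2 ^ ((k + 1) * k) * (2 ^ (k + 1) - 1) * ∏ i ∈ Finset.range k, (2 ^ (2 * (i + 1)) - 1) := by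
  have h := Cfsg.Agent.H22.card_O_plus (F := ZMod 2) k
  rw [ZMod.card] at h
  rw [← h, ← Cfsg.Agent.H22.coe_qPlus]
  exact Nat.card_congr (Cfsg.Agent.H22.oIso (Cfsg.Agent.H22.qPlus (k + 1) (ZMod 2))).toEquiv

theorem s2565 :
    (Cfsg.Omega (ZMod 2) (Cfsg.quadFormPlus 3 (ZMod 2))).index = 2 ∧
    Nonempty (↥(Cfsg.Omega (ZMod 2) (Cfsg.quadFormPlus 3 (ZMod 2))) ≃* alternatingGroup (Fin 8)) := by
  have hc : Nat.card ↥(Cfsg.isometryGroup (ZMod 2) (Cfsg.quadFormPlus 3 (ZMod 2))) = 40320 := by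
    rw [card_isom 2]
    simp [Finset.prod_range_succ]
  obtain ⟨φ, hφ⟩ := (s2563 1 le_rfl).1 (by decide)
  have hc8 : Nat.card (Equiv.Perm (Fin (4 * 1 + 4))) = 40320 := by
    rw [Nat.card_perm, Nat.card_fin]; rfl
  have hbij : Function.Bijective φ := by
    rw [Nat.bijective_iff_injective_and_card]
    exact ⟨hφ, by rw [hc8]; exact hc.symm⟩
  let e : Equiv.Perm (Fin 8) ≃* ↥(Cfsg.isometryGroup (ZMod 2) (Cfsg.quadFormPlus 3 (ZMod 2))) := MulEquiv.ofBijective φ hbij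
  have hcomm : (commutator (Equiv.Perm (Fin 8))).map e.toMonoidHom = Cfsg.Omega (ZMod 2) (Cfsg.quadFormPlus 3 (ZMod 2)) := by
    unfold Cfsg.Omega
    rw [map_commutator_eq]
    have : e.toMonoidHom.range = ⊤ := MonoidHom.range_eq_top.2 e.surjective
    rw [this]; rfl
  have halt : commutator (Equiv.Perm (Fin 8)) = alternatingGroup (Fin 8) := alternatingGroup.commutator_perm_eq (by simp)
  constructor
  · rw [← hcomm, halt]
    rw [Subgroup.index_map_of_bijective (f := e.toMonoidHom) e.bijective]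
    exact alternatingGroup.index_eq_two
  · rw [← hcomm, halt]
    exact ⟨(e.subgroupMap (alternatingGroup (Fin 8))).symm⟩

/-- coordinates as 2x2 matrices -/
def ψ : Matrix (Fin 2) (Fin 2) (ZMod 2) ≃ₗ[ZMod 2] (Fin 2 ⊕ Fin 2 → ZMod 2) where
  toFun M := Sum.elim ![M 0 0, M 0 1] ![M 1 1, M 1 0]
  invFun v := !![v (.inl 0), v (.inl 1); v (.inr 1), v (.inr 0)]
  map_add' M N := by
    funext i
    rcases i with i | i <;> fin_cases i <;> rfl
  map_smul' c M := by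
    funext i
    rcases i with i | i <;> fin_cases i <;> rfl
  left_inv M := by
    ext i j; fin_cases i <;> fin_cases j <;> rfl
  right_inv v := by
    funext i
    rcases i with i | i <;> fin_cases i <;> rfl

theorem det_eq (M : Matrix (Fin 2) (Fin 2) (ZMod 2)) : M.det = Cfsg.quadFormPlus 2 (ZMod 2) (ψ M) := by
  rw [Matrix.det_fin_two]
  unfold Cfsg.quadFormPlus ψ
  rw [Fin.sum_univ_two]
  simp only [LinearEquiv.coe_mk, LinearMap.coe_mk, AddHom.coe_mk, Sum.elim_inl, Sum.elim_inr, Matrix.cons_val_zero, Matrix.cons_val_one]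
  generalize M 0 0 * M 1 1 = a
  generalize M 0 1 * M 1 0 = b
  revert a b; decide

/-- left multiplication -/
noncomputable def lm : Matrix.SpecialLinearGroup (Fin 2) (ZMod 2) →* (Matrix (Fin 2) (Fin 2) (ZMod 2) ≃ₗ[ZMod 2] Matrix (Fin 2) (Fin 2) (ZMod 2)) where
  toFun g :=
    { toFun := fun M => (g : Matrix (Fin 2) (Fin 2) (ZMod 2)) * M
      invFun := fun M => ((g⁻¹ : Matrix.SpecialLinearGroup (Fin 2) (ZMod 2)) : Matrix (Fin 2) (Fin 2) (ZMod 2)) * M
      map_add' := fun M N => mul_add _ _ _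
      map_smul' := fun c M => by simp
      left_inv := fun M => by
        change ((g⁻¹ : Matrix.SpecialLinearGroup (Fin 2) (ZMod 2)) : Matrix (Fin 2) (Fin 2) (ZMod 2)) * ((g : Matrix (Fin 2) (Fin 2) (ZMod 2)) * M) = M
        rw [← mul_assoc, ← Matrix.SpecialLinearGroup.coe_mul, inv_mul_cancel, Matrix.SpecialLinearGroup.coe_one, one_mul]
      right_inv := fun M => by
        change (g : Matrix (Fin 2) (Fin 2) (ZMod 2)) * (((g⁻¹ : Matrix.SpecialLinearGroup (Fin 2) (ZMod 2)) : Matrix (Fin 2) (Fin 2) (ZMod 2)) * M) = M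
        rw [← mul_assoc, ← Matrix.SpecialLinearGroup.coe_mul, mul_inv_cancel, Matrix.SpecialLinearGroup.coe_one, one_mul] }
  map_one' := by ext M : 1; change ((1 : Matrix.SpecialLinearGroup (Fin 2) (ZMod 2)) : Matrix (Fin 2) (Fin 2) (ZMod 2)) * M = M; simp
  map_mul' g h := by
    ext M : 1
    change ((g * h : Matrix.SpecialLinearGroup (Fin 2) (ZMod 2)) : Matrix (Fin 2) (Fin 2) (ZMod 2)) * M = (g : Matrix (Fin 2) (Fin 2) (ZMod 2)) * ((h : Matrix (Fin 2) (Fin 2) (ZMod 2)) * M)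
    rw [Matrix.SpecialLinearGroup.coe_mul, mul_assoc]

theorem lm_apply (g : Matrix.SpecialLinearGroup (Fin 2) (ZMod 2)) (M : Matrix (Fin 2) (Fin 2) (ZMod 2)) : lm g M = (g : Matrix (Fin 2) (Fin 2) (ZMod 2)) * M := rfl

/-- right multiplication by the transpose -/
noncomputable def rm : Matrix.SpecialLinearGroup (Fin 2) (ZMod 2) →* (Matrix (Fin 2) (Fin 2) (ZMod 2) ≃ₗ[ZMod 2] Matrix (Fin 2) (Fin 2) (ZMod 2)) where
  toFun g := ((Matrix.transposeLinearEquiv (Fin 2) (Fin 2) (ZMod 2) (ZMod 2)).trans (lm g)).trans (Matrix.transposeLinearEquiv (Fin 2) (Fin 2) (ZMod 2) (ZMod 2))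
  map_one' := by rw [map_one]; ext M : 1; simp
  map_mul' g h := by rw [map_mul]; ext M : 1; simp [LinearEquiv.mul_apply]

theorem rm_apply (g : Matrix.SpecialLinearGroup (Fin 2) (ZMod 2)) (M : Matrix (Fin 2) (Fin 2) (ZMod 2)) :
    rm g M = M * (g : Matrix (Fin 2) (Fin 2) (ZMod 2)).transpose := by
  change ((g : Matrix (Fin 2) (Fin 2) (ZMod 2)) * M.transpose).transpose = _
  rw [Matrix.transpose_mul, Matrix.transpose_transpose]

theorem lm_injective : Function.Injective lm := by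
  intro g h hgh
  have := congrArg (fun e : (Matrix (Fin 2) (Fin 2) (ZMod 2) ≃ₗ[ZMod 2] Matrix (Fin 2) (Fin 2) (ZMod 2)) => e 1) hgh
  simp only [lm_apply, mul_one] at this
  exact Subtype.ext this

theorem rm_injective : Function.Injective rm := by
  intro g h hgh
  have := congrArg (fun e : (Matrix (Fin 2) (Fin 2) (ZMod 2) ≃ₗ[ZMod 2] Matrix (Fin 2) (Fin 2) (ZMod 2)) => e 1) hgh
  simp only [rm_apply, one_mul] at this
  exact Subtype.ext (Matrix.transpose_injective this)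

theorem scalar_of_comm : ∀ a b : Matrix (Fin 2) (Fin 2) (ZMod 2), a.det = 1 → (∀ M, a * M = M * b.transpose) → a = 1 := by
  decide

theorem s2566 :
    Nat.card ↥(Cfsg.isometryGroup (ZMod 2) (Cfsg.quadFormPlus 2 (ZMod 2))) = 72 ∧
    ∃ (A B : Subgroup ↥(Cfsg.isometryGroup (ZMod 2) (Cfsg.quadFormPlus 2 (ZMod 2)))),
      Nonempty (↥A ≃* Equiv.Perm (Fin 3)) ∧ Nonempty (↥B ≃* Equiv.Perm (Fin 3)) ∧ A ⊓ B = ⊥ ∧ (∀ a ∈ A, ∀ b ∈ B, a * b = b * a) ∧
      (A ⊔ B).index = 2 ∧ ∃ g : ↥(Cfsg.isometryGroup (ZMod 2) (Cfsg.quadFormPlus 2 (ZMod 2))), A.map (MulAut.conj g).toMonoidHom = B := by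
  have hc : Nat.card ↥(Cfsg.isometryGroup (ZMod 2) (Cfsg.quadFormPlus 2 (ZMod 2))) = 72 := by
    rw [card_isom 1]; simp
  refine ⟨hc, ?_⟩
  obtain ⟨e3⟩ := Cfsg.Agent.S0250.result (F := ZMod 2) (by rw [ZMod.card])
  obtain ⟨φL, hL⟩ := exists_hom lm (fun M => M.det) (fun g M => by rw [lm_apply, Matrix.det_mul]; simp) ψ _ det_eq
  obtain ⟨φR, hR⟩ := exists_hom rm (fun M => M.det) (fun g M => by rw [rm_apply, Matrix.det_mul, Matrix.det_transpose]; simp) ψ _ det_eq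
  have hLi := hom_injective hL lm_injective
  have hRi := hom_injective hR rm_injective
  -- extensionality
  have hext : ∀ x y : ↥(Cfsg.isometryGroup (ZMod 2) (Cfsg.quadFormPlus 2 (ZMod 2))),
      (∀ v, ((x : Matrix.GeneralLinearGroup (Fin 2 ⊕ Fin 2) (ZMod 2)) : Matrix (Fin 2 ⊕ Fin 2) (Fin 2 ⊕ Fin 2) (ZMod 2)).mulVec v = ((y : Matrix.GeneralLinearGroup (Fin 2 ⊕ Fin 2) (ZMod 2)) : Matrix (Fin 2 ⊕ Fin 2) (Fin 2 ⊕ Fin 2) (ZMod 2)).mulVec v) → x = y := by
    intro x y h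
    exact Subtype.ext (Units.ext (Cfsg.Agent.H22.mat_ext h))
  have hmul : ∀ (x y : ↥(Cfsg.isometryGroup (ZMod 2) (Cfsg.quadFormPlus 2 (ZMod 2)))) v,
      ((x * y : ↥(Cfsg.isometryGroup (ZMod 2) (Cfsg.quadFormPlus 2 (ZMod 2)))) : Matrix.GeneralLinearGroup (Fin 2 ⊕ Fin 2) (ZMod 2)).1.mulVec v =
        ((x : Matrix.GeneralLinearGroup (Fin 2 ⊕ Fin 2) (ZMod 2)) : Matrix (Fin 2 ⊕ Fin 2) (Fin 2 ⊕ Fin 2) (ZMod 2)).mulVec (((y : Matrix.GeneralLinearGroup (Fin 2 ⊕ Fin 2) (ZMod 2)) : Matrix (Fin 2 ⊕ Fin 2) (Fin 2 ⊕ Fin 2) (ZMod 2)).mulVec v) := by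
    intro x y v
    rw [Matrix.mulVec_mulVec]; rfl
  have hcomm : ∀ a b, φL a * φR b = φR b * φL a := by
    intro a b
    apply hext
    intro v
    rw [hmul, hmul, hL, hR, hR, hL, lm_apply, rm_apply, LinearEquiv.symm_apply_apply, LinearEquiv.symm_apply_apply, rm_apply, lm_apply, mul_assoc]
  have hAB : φL.range ⊓ φR.range = ⊥ := by
    rw [eq_bot_iff]
    rintro x ⟨⟨a, ha⟩, ⟨b, hb⟩⟩
    rw [Subgroup.mem_bot, ← ha]
    have h1 : ∀ M : Matrix (Fin 2) (Fin 2) (ZMod 2), (a : Matrix (Fin 2) (Fin 2) (ZMod 2)) * M = M * (b : Matrix (Fin 2) (Fin 2) (ZMod 2)).transpose := by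
      intro M
      have h2 := hL a (ψ M)
      have h3 := hR b (ψ M)
      rw [ha, ← hb, h3, lm_apply, rm_apply, LinearEquiv.symm_apply_apply] at h2
      exact (ψ.injective h2).symm
    have h4 := scalar_of_comm a b a.2 h1
    have h5 : a = 1 := Subtype.ext h4
    rw [h5, map_one]
  have hSL : Nat.card (Matrix.SpecialLinearGroup (Fin 2) (ZMod 2)) = 6 := by
    rw [Nat.card_congr e3.toEquiv, Nat.card_perm, Nat.card_fin]; rfl
  have hcA : Nat.card φL.range = 6 := by rw [← Nat.card_congr (MonoidHom.ofInjective hLi).toEquiv, hSL]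
  have hcB : Nat.card φR.range = 6 := by rw [← Nat.card_congr (MonoidHom.ofInjective hRi).toEquiv, hSL]
  have hcommAB : ∀ a ∈ φL.range, ∀ b ∈ φR.range, a * b = b * a := by
    rintro _ ⟨a, rfl⟩ _ ⟨b, rfl⟩
    exact hcomm a b
  haveI : Finite ↥(Cfsg.isometryGroup (ZMod 2) (Cfsg.quadFormPlus 2 (ZMod 2))) := inferInstance
  have hsup : Nat.card (φL.range ⊔ φR.range : Subgroup _) = 36 := by
    have h1 : Nat.card (φL.range ⊔ φR.range : Subgroup _) * Nat.card (φL.range ⊓ φR.range : Subgroup _) = Nat.card φL.range * Nat.card φR.range := by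
      apply CfsgLib.LE.card_sup_mul_card_inf
      refine le_trans ?_ (Subgroup.centralizer_le_normalizer _)
      intro a ha
      rw [Subgroup.mem_centralizer_iff]
      intro b hb
      exact (hcommAB a ha b hb).symm
    rw [hAB, hcA, hcB] at h1
    simpa using h1
  refine ⟨φL.range, φR.range, ⟨(MonoidHom.ofInjective hLi).symm.trans e3⟩, ⟨(MonoidHom.ofInjective hRi).symm.trans e3⟩, hAB, hcommAB, ?_, ?_⟩
  · have h1 := (φL.range ⊔ φR.range).card_mul_index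
    rw [hsup, hc] at h1
    omega
  · -- the transpose
    have ht : ∃ g : ↥(Cfsg.isometryGroup (ZMod 2) (Cfsg.quadFormPlus 2 (ZMod 2))), ∀ v,
        ((g : Matrix.GeneralLinearGroup (Fin 2 ⊕ Fin 2) (ZMod 2)) : Matrix (Fin 2 ⊕ Fin 2) (Fin 2 ⊕ Fin 2) (ZMod 2)).mulVec v = ψ ((ψ.symm v).transpose) := by
      refine ⟨⟨Cfsg.Agent.H22.glLin.symm ((ψ.symm.trans (Matrix.transposeLinearEquiv (Fin 2) (Fin 2) (ZMod 2) (ZMod 2))).trans ψ), ?_⟩, ?_⟩
      · intro u x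
        change Cfsg.quadFormPlus 2 (ZMod 2) (Matrix.mulVec _ u) = _
        have := Cfsg.Agent.H22.glLin_symm_mulVec ((ψ.symm.trans (Matrix.transposeLinearEquiv (Fin 2) (Fin 2) (ZMod 2) (ZMod 2))).trans ψ) u
        refine (congrArg _ this).trans ?_
        change Cfsg.quadFormPlus 2 (ZMod 2) (ψ ((ψ.symm u).transpose)) = Cfsg.quadFormPlus 2 (ZMod 2) u
        rw [← det_eq, Matrix.det_transpose, det_eq, LinearEquiv.apply_symm_apply]
      · intro v
        exact Cfsg.Agent.H22.glLin_symm_mulVec _ v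
    obtain ⟨g, hg⟩ := ht
    refine ⟨g, ?_⟩
    have hconj : ∀ a, g * φL a * g⁻¹ = φR a := by
      intro a
      rw [mul_inv_eq_iff_eq_mul]
      apply hext
      intro v
      rw [hmul, hmul, hg, hL, hR, hg]
      simp only [LinearEquiv.symm_apply_apply]
      rw [lm_apply, rm_apply, Matrix.transpose_mul]
    ext x
    constructor
    · rintro ⟨_, ⟨a, rfl⟩, rfl⟩
      exact ⟨a, (hconj a).symm⟩
    · rintro ⟨a, rfl⟩
      exact ⟨φL a, ⟨a, rfl⟩, hconj a⟩

end CfsgLib.KQ3
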