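import Cfsg.Statements.S0302
import Cfsg.Agent.LibH22Exc6
import Cfsg.Agent.LibH22POrd2

set_option autoImplicit false
open Cfsg

namespace Cfsg.Agent.S0302
open Cfsg.Agent.H22
lemma noncomm {F : Type*} [Field F] : ∃ g k : Matrix.SpecialLinearGroup (Fin 4) F, rho6 g * rho6 k ≠ rho6 k * rho6 g := by
  refine ⟨Matrix.SpecialLinearGroup.transvection (i := 0) (j := 1) (by decide) 1, Matrix.SpecialLinearGroup.transvection (i := 1) (j := 2) (by decide) 1, ?_⟩
  intro h
  have h1 := congrArg (fun z : OGrp (qPlus 3 F) => z.1 (Pi.single (.inr 0) 1) (.inl 2)) h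
  have e1 : ∀ g k : Matrix.SpecialLinearGroup (Fin 4) F, (rho6 g * rho6 k).1 (Pi.single (.inr 0) 1) = act6 ((g * k : Matrix.SpecialLinearGroup (Fin 4) F) : Matrix (Fin 4) (Fin 4) F) (Pi.single (.inr 0) 1) := by
    intro g k
    rw [← map_mul, rho6_apply]
  simp only [e1, Matrix.SpecialLinearGroup.coe_mul, Matrix.SpecialLinearGroup.transvection_coe] at h1
  simp [act6, coM, altM, Matrix.mul_apply, Matrix.transvection, Matrix.single, Fin.sum_univ_four] at h1

lemma gcd_aux (q : ℕ) (hq : 1 ≤ q) : Nat.gcd 4 (q ^ 3 - 1) = Nat.gcd 4 (q - 1) := by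
  have h1 : q ^ 3 - 1 = (q - 1) * (q ^ 2 + q + 1) := by
    obtain ⟨r, rfl⟩ : ∃ r, q = r + 1 := ⟨q - 1, by omega⟩
    simp only [Nat.add_sub_cancel]
    apply Nat.sub_eq_of_eq_add
    ring
  rw [h1]
  apply Nat.Coprime.gcd_mul_right_cancel_right
  have : Nat.Coprime (2 ^ 2) (q ^ 2 + q + 1) := by
    apply Nat.Coprime.pow_left
    rw [Nat.coprime_two_left]
    have : Even (q ^ 2 + q) := by
      have := Nat.even_mul_succ_self q
      have e : q ^ 2 + q = q * (q + 1) := by ring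
      rw [e]; exact this
    exact this.add_one
  exact this.symm

/-- PΩ^+_6(q) is isomorphic to PSL_4(q). -/
theorem result {F : Type*} [Field F] [Fintype F] : Nonempty (Cfsg.POmega F (Cfsg.quadFormPlus 3 F) ≃* Matrix.ProjectiveSpecialLinearGroup (Fin 4) F) := by
  classical
  have hs := pomegaIso (qPlus 3 F)
  rw [coe_qPlus] at hs
  have hcard : Nat.card (commutator (OGrp (qPlus 3 F)) ⧸ Subgroup.center (commutator (OGrp (qPlus 3 F)))) = Nat.card (Matrix.SpecialLinearGroup (Fin 4) F ⧸ Subgroup.center (Matrix.SpecialLinearGroup (Fin 4) F)) := by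
    rw [← Nat.card_congr hs.toEquiv]
    have h1 := card_pomega_plus (F := F) 3 le_rfl
    have h2 := Cfsg.Agent.H22.card_SL (F := F) rfl 4 (by norm_num)
    have h3 := Cfsg.Agent.H22.card_center_SL (F := F) 4 (by norm_num)
    rw [Subgroup.card_eq_card_quotient_mul_card_subgroup (Subgroup.center (Matrix.SpecialLinearGroup (Fin 4) F)), h3] at h2
    rw [gcd_aux _ Fintype.card_pos] at h1
    have hq : 2 ≤ Fintype.card F := Fintype.one_lt_card
    obtain ⟨q, hqe⟩ : ∃ q, q = Fintype.card F := ⟨_, rfl⟩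
    rw [← hqe] at h1 h2 hq
    have hg : 0 < Nat.gcd 4 (q - 1) := Nat.gcd_pos_of_pos_left _ (by norm_num)
    have hq1 : 0 < q - 1 := by omega
    apply Nat.eq_of_mul_eq_mul_left (Nat.mul_pos hq1 hg)
    have h4 : (q - 1) * Nat.gcd 4 (q - 1) * Nat.card (Matrix.SpecialLinearGroup (Fin 4) F ⧸ Subgroup.center (Matrix.SpecialLinearGroup (Fin 4) F)) = ∏ i : Fin 4, (q ^ 4 - q ^ (i : ℕ)) := by
      rw [← h2]; ring
    rw [h4, mul_assoc, h1]
    simp only [Fin.prod_univ_four, Finset.prod_range_succ, Finset.prod_range_zero, Fin.isValue, Fin.val_zero, Fin.val_one, Fin.val_two]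
    have a0 : q ^ 4 - q ^ 1 = q * (q ^ 3 - 1) := by rw [Nat.mul_sub]; ring_nf
    have a1 : q ^ 4 - q ^ 2 = q ^ 2 * (q ^ 2 - 1) := by rw [Nat.mul_sub]; ring_nf
    have a2 : q ^ 4 - q ^ 3 = q ^ 3 * (q - 1) := by rw [Nat.mul_sub]; ring_nf
    have a3 : ((3 : Fin 4) : ℕ) = 3 := rfl
    rw [a3, a0, a1, a2]
    norm_num
    ring
  obtain ⟨e⟩ := iso_of_quasisimple (PSLn_simple (by simp)) (SLn_perfect (by simp)) rho6 noncomm hcard
  exact ⟨hs.trans e⟩

end Cfsg.Agent.S0302
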