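import Mathlib
import Cfsg.Agent.LibKQ3
import Cfsg.Agent.S0302
import Cfsg.Agent.LibH22Lin

/-! GL_4(2) = A_8 (seat helper10). -/

set_option autoImplicit false
set_option linter.all false

namespace CfsgLib.KA8

open Matrix

/-- SL over isomorphic fields -/
def slCongr {F K : Type*} [CommRing F] [CommRing K] (n : ℕ) (e : F ≃+* K) :
    Matrix.SpecialLinearGroup (Fin n) F ≃* Matrix.SpecialLinearGroup (Fin n) K where
  toFun := Matrix.SpecialLinearGroup.map (e : F →+* K)
  invFun := Matrix.SpecialLinearGroup.map (e.symm : K →+* F)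
  left_inv g := by
    ext i j
    simp
  right_inv g := by
    ext i j
    simp
  map_mul' := map_mul _

/-- PSL over isomorphic fields -/
noncomputable def pslCongr {F K : Type*} [CommRing F] [CommRing K] (n : ℕ) (e : F ≃+* K) :
    Matrix.ProjectiveSpecialLinearGroup (Fin n) F ≃* Matrix.ProjectiveSpecialLinearGroup (Fin n) K :=
  Cfsg.Agent.H22.quotCenterCongr (slCongr n e)

theorem center_alternating_eight : Subgroup.center (alternatingGroup (Fin 8)) = ⊥ := by
  haveI : IsSimpleGroup (alternatingGroup (Fin 8)) := alternatingGroup.isSimpleGroup (by simp)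
  rcases (inferInstance : (Subgroup.center (alternatingGroup (Fin 8))).Normal).eq_bot_or_eq_top with h | h
  · exact h
  · exfalso
    have hcard : Nat.card (alternatingGroup (Fin 8)) = 20160 := by
      rw [nat_card_alternatingGroup]
      simp; rfl
    have hcomm : ∀ a b : alternatingGroup (Fin 8), a * b = b * a := fun a b => by
      have : a ∈ Subgroup.center (alternatingGroup (Fin 8)) := by rw [h]; exact Subgroup.mem_top a
      exact (Subgroup.mem_center_iff.1 this b).symm
    have h1 : commutator (alternatingGroup (Fin 8)) = ⊤ := commutator_alternatingGroup_eq_top (by simp)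
    have h2 : commutator (alternatingGroup (Fin 8)) = ⊥ := by
      rw [commutator_def, Subgroup.commutator_eq_bot_iff_le_centralizer]
      intro a _
      rw [Subgroup.mem_centralizer_iff]
      exact fun b _ => hcomm b a
    rw [h1] at h2
    have : Nat.card (⊤ : Subgroup (alternatingGroup (Fin 8))) = 1 := by rw [h2]; simp
    rw [Subgroup.card_top, hcard] at this
    omega

theorem s0256 {F : Type*} [Field F] [Fintype F] (hF : Fintype.card F = 2) :
    Nonempty (Matrix.ProjectiveSpecialLinearGroup (Fin 4) F ≃* alternatingGroup (Fin 8)) := by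
  let e : ZMod 2 ≃+* F := ZMod.ringEquivOfPrime F Nat.prime_two hF
  obtain ⟨e1⟩ := Cfsg.Agent.S0302.result (F := ZMod 2)
  obtain ⟨e2⟩ := CfsgLib.KQ3.s2565.2
  let e3 : Cfsg.POmega (ZMod 2) (Cfsg.quadFormPlus 3 (ZMod 2)) ≃* (alternatingGroup (Fin 8) ⧸ Subgroup.center (alternatingGroup (Fin 8))) :=
    Cfsg.Agent.H22.quotCenterCongr e2
  let e4 : (alternatingGroup (Fin 8) ⧸ Subgroup.center (alternatingGroup (Fin 8))) ≃* (alternatingGroup (Fin 8) ⧸ (⊥ : Subgroup (alternatingGroup (Fin 8)))) :=
    QuotientGroup.quotientMulEquivOfEq center_alternating_eight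
  exact ⟨(pslCongr 4 e.symm).trans (e1.symm.trans (e3.trans (e4.trans QuotientGroup.quotientBot)))⟩

/-- `GL_4(2) = A_8` -/
theorem gl4 {F : Type*} [Field F] [Fintype F] (hF : Fintype.card F = 2) :
    Nonempty (GL (Fin 4) F ≃* alternatingGroup (Fin 8)) := by
  classical
  obtain ⟨e⟩ := s0256 hF
  have hunit : ∀ a : Fˣ, a = 1 := by
    have hc : Fintype.card Fˣ = 1 := by rw [Fintype.card_units, hF]
    intro a
    exact Fintype.card_le_one_iff.1 hc.le a 1
  have hcen : Subgroup.center (Matrix.SpecialLinearGroup (Fin 4) F) = ⊥ := by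
    have : Nat.card (Subgroup.center (Matrix.SpecialLinearGroup (Fin 4) F)) = 1 := by
      rw [Cfsg.Agent.H22.card_center_SL 4 (by norm_num), hF]; rfl
    exact Subgroup.card_eq_one.1 this
  let f : Matrix.SpecialLinearGroup (Fin 4) F →* GL (Fin 4) F := Matrix.SpecialLinearGroup.toGL
  have hf : Function.Bijective f := by
    constructor
    · exact Matrix.SpecialLinearGroup.toGL_injective
    · intro g
      refine ⟨⟨(g : Matrix (Fin 4) (Fin 4) F), ?_⟩, ?_⟩
      · have := congrArg Units.val (hunit (Matrix.GeneralLinearGroup.det g))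
        rw [Matrix.GeneralLinearGroup.val_det_apply] at this
        exact this
      · apply Units.ext; rfl
  let e4 : (Matrix.SpecialLinearGroup (Fin 4) F ⧸ Subgroup.center (Matrix.SpecialLinearGroup (Fin 4) F)) ≃* (Matrix.SpecialLinearGroup (Fin 4) F ⧸ (⊥ : Subgroup (Matrix.SpecialLinearGroup (Fin 4) F))) :=
    QuotientGroup.quotientMulEquivOfEq hcen
  exact ⟨(MulEquiv.ofBijective f hf).symm.trans ((e4.trans QuotientGroup.quotientBot).symm.trans e)⟩

end CfsgLib.KA8
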