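import Mathlib
import Cfsg.Agent.LibBGCop
import Cfsg.Agent.LibAgl28
import Cfsg.Agent.LibExtraH28
import Cfsg.Agent.LibKA8

set_option autoImplicit false
open Subgroup

namespace CfsgLib.FgPhi

universe u

/-- The action of `X` on `Q / Φ(Q)`. -/
noncomputable def act {X : Type u} [Group X] (Q : Subgroup X) [Q.Normal] : X →* MulAut (Q ⧸ frattini Q) where
  toFun x := QuotientGroup.congr (frattini Q) (frattini Q) (MulAut.conjNormal x)
    (by
      have h : (frattini Q).Characteristic := inferInstance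
      exact (Subgroup.characteristic_iff_map_eq.1 h) _)
  map_one' := by
    ext q
    obtain ⟨q, rfl⟩ := QuotientGroup.mk_surjective q
    simp
  map_mul' x y := by
    ext q
    obtain ⟨q, rfl⟩ := QuotientGroup.mk_surjective q
    show (QuotientGroup.mk (MulAut.conjNormal (x * y) q) : Q ⧸ frattini Q) =
      QuotientGroup.mk (MulAut.conjNormal x (MulAut.conjNormal y q))
    rw [map_mul]; rfl

theorem act_mk {X : Type u} [Group X] (Q : Subgroup X) [Q.Normal] (x : X) (q : Q) :
    act Q x (QuotientGroup.mk q) = QuotientGroup.mk (MulAut.conjNormal x q) := rfl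

theorem ker_act {X : Type u} [Group X] [Finite X] {p : ℕ} [hp : Fact p.Prime] (Q : Subgroup X) [Q.Normal]
    (hQ : IsPGroup p Q) (hC : centralizer (Q : Set X) ≤ Q) : IsPGroup p (act Q).ker := by
  have key : ∀ k : X, act Q k = 1 → Nat.Coprime (orderOf k) p → k = 1 := by
    intro k hk hcop
    obtain ⟨n, hn⟩ := IsPGroup.iff_card.1 hQ
    have hcop' : (Nat.card (zpowers k)).Coprime (Nat.card Q) := by
      rw [Nat.card_zpowers, hn]; exact Nat.Coprime.pow_right _ hcop
    have hAK : zpowers k ≤ normalizer (Q : Set X) := by rw [normalizer_eq_top]; exact le_top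
    have hs : Group.IsSolvable Q := by
      have := hQ.isNilpotent
      infer_instance
    have h1 := CfsgLib.Coprime.commutator_sup_centralizer hAK hcop' (Or.inr hs)
    have h2 : ⁅Q, zpowers k⁆ ≤ (frattini Q).map Q.subtype := by
      rw [commutator_le]
      intro q hq x hx
      obtain ⟨i, rfl⟩ := hx
      have h3 : act Q (k ^ i) = 1 := by rw [map_zpow, hk, one_zpow]
      have h4 := congrArg (fun f : MulAut (Q ⧸ frattini Q) => f (QuotientGroup.mk (⟨q, hq⟩⁻¹ : Q))) h3
      simp only [act_mk, MulAut.one_apply] at h4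
      have h5 := QuotientGroup.eq.1 h4.symm
      refine ⟨_, h5, ?_⟩
      simp only [MulAut.conjNormal_apply, coe_subtype, coe_mul, coe_inv]
      rw [commutatorElement_def]
      group
    have h3 : (Q ⊓ centralizer (zpowers k : Set X)).subgroupOf Q ⊔ frattini Q = ⊤ := by
      rw [eq_top_iff]
      intro x _
      have hx : (x : X) ∈ ⁅Q, zpowers k⁆ ⊔ (Q ⊓ centralizer (zpowers k : Set X)) := by rw [h1]; exact x.2
      have h4 := sup_le_sup_right h2 (Q ⊓ centralizer (zpowers k : Set X)) hx
      have h5 : (frattini Q).map Q.subtype ⊔ (Q ⊓ centralizer (zpowers k : Set X)) ≤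
          ((Q ⊓ centralizer (zpowers k : Set X)).subgroupOf Q ⊔ frattini Q).map Q.subtype := by
        rw [Subgroup.map_sup, sup_comm]
        refine sup_le_sup_right ?_ _
        rw [subgroupOf_map_subtype, inf_right_comm, inf_idem]
      obtain ⟨y, hy, hyx⟩ := h5 h4
      rwa [Subtype.ext hyx] at hy
    have h4 := frattini_nongenerating h3
    have h5 : k ∈ centralizer (Q : Set X) := by
      intro q hq
      have : (⟨q, hq⟩ : Q) ∈ (Q ⊓ centralizer (zpowers k : Set X)).subgroupOf Q := by rw [h4]; trivial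
      exact ((mem_subgroupOf.1 this).2 k (mem_zpowers k)).symm
    have h6 := hC h5
    obtain ⟨j, hj⟩ := hQ ⟨k, h6⟩
    have h7 : k ^ p ^ j = 1 := congrArg Subtype.val hj
    have h8 := orderOf_dvd_of_pow_eq_one h7
    rw [← orderOf_eq_one_iff]
    exact Nat.eq_one_of_dvd_coprimes (hcop.pow_right j) dvd_rfl h8
  rintro ⟨k, hk⟩
  rw [MonoidHom.mem_ker] at hk
  obtain ⟨m, n, hpn, hmn⟩ := Nat.exists_eq_pow_mul_and_not_dvd (orderOf_pos k).ne' p hp.out.ne_one
  refine ⟨m, Subtype.ext ?_⟩
  apply key (k ^ p ^ m)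
  · rw [map_pow, hk, one_pow]
  · have : orderOf (k ^ p ^ m) = n := by
      rw [orderOf_pow_of_dvd (pow_ne_zero _ hp.out.ne_zero) (hmn ▸ Dvd.intro _ rfl), hmn,
        Nat.mul_div_cancel_left _ (pow_pos hp.out.pos m)]
    rw [this]
    exact ((Nat.Prime.coprime_iff_not_dvd hp.out).2 hpn).symm

theorem sq_zmod2 : ∀ c : Multiplicative (ZMod 2), c ^ 2 = 1 := by decide

/-- enlarge an elementary abelian group of order at most `16` -/
theorem to_alt8 {A : Type u} [Group A] [Finite A] (hcomm : ∀ a b : A, a * b = b * a) (hexp : ∀ a : A, a ^ 2 = 1)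
    (hcard : Nat.card A ≤ 2 ^ 4) : ∃ φ : MulAut A →* alternatingGroup (Fin 8), Function.Injective φ := by
  let _ : CommGroup A := { ‹Group A› with mul_comm := hcomm }
  have : Fact (Nat.Prime 2) := ⟨Nat.prime_two⟩
  have hpA : IsPGroup 2 A := fun a => ⟨1, by rw [pow_one]; exact hexp a⟩
  obtain ⟨n, hn⟩ := IsPGroup.iff_card.1 hpA
  have hn4 : n ≤ 4 := by
    rw [hn] at hcard
    exact (Nat.pow_le_pow_iff_right (by norm_num)).1 hcard
  obtain ⟨φ, hφ⟩ := CfsgLib.Agl28.exists_GL_hom (A := A × (Fin (4 - n) → Multiplicative (ZMod 2))) 2 4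
    (by
      rintro ⟨a, b⟩
      refine Prod.ext (hexp a) ?_
      funext i
      exact sq_zmod2 (b i))
    (by
      rw [Nat.card_prod, hn]
      have : Nat.card (Fin (4 - n) → Multiplicative (ZMod 2)) = 2 ^ (4 - n) := by
        rw [Nat.card_fun]
        simp
      rw [this, ← pow_add]
      congr 1; omega)
  obtain ⟨e⟩ := CfsgLib.KA8.gl4 (F := ZMod 2) (ZMod.card 2)
  let g : MulAut A →* MulAut (A × (Fin (4 - n) → Multiplicative (ZMod 2))) :=
    { toFun := fun σ => MulEquiv.prodCongr σ (MulEquiv.refl _)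
      map_one' := rfl
      map_mul' := fun _ _ => rfl }
  refine ⟨e.toMonoidHom.comp (φ.comp g), ?_⟩
  refine e.injective.comp (hφ.comp ?_)
  intro σ τ h
  ext a
  have := congrArg (fun f : MulAut (A × (Fin (4 - n) → Multiplicative (ZMod 2))) => (f (a, 1)).1) h
  exact this

end CfsgLib.FgPhi
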