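import Cfsg.Agent.EqBase
import Cfsg.Agent.LibTransAb
import Cfsg.Agent.LibCoprime2

/-! Burnside's transfer theorem for abelian Sylow subgroups of bounded rank. -/

set_option autoImplicit false
set_option linter.unusedSectionVars false
set_option linter.style.haveILetI false

namespace CfsgLib.FgRank

universe u v

open Subgroup CfsgLib.SolvCoprime

section
variable {G : Type u} [Group G] [Finite G] {p : ℕ} [hp : Fact p.Prime]

/-- elements of order dividing `p` of an abelian subgroup -/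
def omg (P : Subgroup G) (hP : IsMulCommutative P) (p : ℕ) : Subgroup G where
  carrier := {x | x ∈ P ∧ x ^ p = 1}
  mul_mem' := by
    rintro a b ⟨ha, ha'⟩ ⟨hb, hb'⟩
    refine ⟨P.mul_mem ha hb, ?_⟩
    have hc : Commute a b := congrArg Subtype.val (hP.is_comm.comm (⟨a, ha⟩ : P) ⟨b, hb⟩)
    rw [hc.mul_pow, ha', hb', one_mul]
  one_mem' := ⟨P.one_mem, one_pow _⟩
  inv_mem' := by
    rintro a ⟨ha, ha'⟩
    exact ⟨P.inv_mem ha, by rw [inv_pow, ha', inv_one]⟩

theorem mem_omg {P : Subgroup G} {hP : IsMulCommutative P} {x : G} :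
    x ∈ omg P hP p ↔ x ∈ P ∧ x ^ p = 1 := Iff.rfl

theorem card_omg_dvd (P : Subgroup G) (hP : IsMulCommutative P) :
    Nat.card (omg P hP p) ∣ p ^ Group.rank P := by
  letI : CommGroup P := { (inferInstance : Group P) with mul_comm := hP.is_comm.comm }
  let f : P →* P := powMonoidHom p
  have h1 : Nat.card (omg P hP p) = Nat.card f.ker := by
    refine Nat.card_congr ⟨fun x => ⟨⟨x.1, x.2.1⟩, ?_⟩, fun x => ⟨x.1.1, x.1.2, ?_⟩, ?_, ?_⟩
    · rw [MonoidHom.mem_ker]
      exact Subtype.ext x.2.2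
    · have := MonoidHom.mem_ker.mp x.2
      exact congrArg Subtype.val this
    · intro x; rfl
    · intro x; rfl
  have h2 : Nat.card f.ker = Nat.card (P ⧸ f.range) := by
    have e1 : Nat.card f.ker * Nat.card f.range = Nat.card P := by
      rw [← index_ker f, card_mul_index]
    have e2 : Nat.card f.range * Nat.card (P ⧸ f.range) = Nat.card P := card_mul_index f.range
    rw [← e2, mul_comm] at e1
    exact Nat.eq_of_mul_eq_mul_left Nat.card_pos e1
  have h3 : Nat.card (P ⧸ f.range) ∣ p ^ Group.rank (P ⧸ f.range) := by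
    apply card_dvd_exponent_pow_rank'
    intro g
    obtain ⟨x, rfl⟩ := QuotientGroup.mk_surjective g
    rw [← QuotientGroup.mk_pow, QuotientGroup.eq_one_iff]
    exact ⟨x, rfl⟩
  rw [h1, h2]
  exact h3.trans (pow_dvd_pow p (Group.rank_le_of_surjective (QuotientGroup.mk' f.range)
    (QuotientGroup.mk'_surjective f.range)))

/-- a coprime `q`-group acting on an abelian `p`-group of rank at most `d`. -/
theorem centralizes_of_rank {q : ℕ} [hq : Fact q.Prime] (hqp : q ≠ p) (P Q : Subgroup G)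
    (hPp : IsPGroup p P) (hP : IsMulCommutative P) (hQ : IsPGroup q Q)
    (hQP : Q ≤ normalizer (P : Set G)) (hco : ∀ j, 1 ≤ j → j ≤ Group.rank P → ¬ q ∣ p ^ j - 1) :
    Q ≤ centralizer (P : Set G) := by
  have hcop : (Nat.card Q).Coprime (Nat.card P) := by
    obtain ⟨a, ha⟩ := IsPGroup.iff_card.mp hQ
    obtain ⟨b, hb⟩ := IsPGroup.iff_card.mp hPp
    rw [ha, hb]
    exact Nat.Coprime.pow _ _ ((Nat.coprime_primes hq.out hp.out).mpr hqp)
  obtain ⟨Ω, hΩ⟩ : ∃ Ω, Ω = omg P hP p := ⟨_, rfl⟩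
  have hΩP : Ω ≤ P := by rw [hΩ]; exact fun x hx => hx.1
  have hQΩ : Q ≤ normalizer (Ω : Set G) := by
    intro g hg
    have key : ∀ g ∈ Q, ∀ x ∈ Ω, g * x * g⁻¹ ∈ Ω := by
      intro g hg x hx
      rw [hΩ] at hx ⊢
      refine ⟨(mem_normalizer_iff.mp (hQP hg) x).mp hx.1, ?_⟩
      rw [conj_pow, hx.2, mul_one, mul_inv_cancel]
    rw [mem_normalizer_iff]
    intro x
    refine ⟨key g hg x, fun hx => ?_⟩
    have := key g⁻¹ (Q.inv_mem hg) _ hx
    simpa [mul_assoc] using this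
  have h1 := CfsgLib.TransAb.card_modEq_centralizer Q Ω hQ hQΩ
  obtain ⟨C, hC⟩ : ∃ C, C = Ω ⊓ centralizer (Q : Set G) := ⟨_, rfl⟩
  rw [← hC] at h1
  have hCΩ : C ≤ Ω := hC ▸ inf_le_left
  have hdvd := card_omg_dvd (p := p) P hP
  rw [← hΩ] at hdvd
  obtain ⟨n, hn, hn2⟩ := (Nat.dvd_prime_pow hp.out).mp hdvd
  obtain ⟨m, hm, hm2⟩ := (Nat.dvd_prime_pow hp.out).mp (hn2 ▸ card_dvd_of_le hCΩ)
  have hmeq : m = n := by
    by_contra hne
    have hlt : m < n := lt_of_le_of_ne hm hne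
    refine hco (n - m) (by omega) (by omega) ?_
    rw [hn2, hm2] at h1
    have h2 : q ∣ p ^ n - p ^ m :=
      (Nat.modEq_iff_dvd' (Nat.pow_le_pow_right hp.out.pos hm)).mp h1.symm
    have h3 : p ^ n - p ^ m = p ^ m * (p ^ (n - m) - 1) := by
      rw [Nat.mul_sub, mul_one, ← pow_add, Nat.add_sub_cancel' hm]
    rw [h3] at h2
    rcases (Nat.Prime.dvd_mul hq.out).mp h2 with h4 | h4
    · exact absurd ((Nat.prime_dvd_prime_iff_eq hq.out hp.out).mp (hq.out.dvd_of_dvd_pow h4)) hqp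
    · exact h4
  have hCeq : C = Ω := by
    apply eq_of_le_of_card_ge hCΩ
    rw [hm2, hn2, hmeq]
  have hΩC : Ω ≤ centralizer (Q : Set G) := by
    rw [← hCeq, hC]; exact inf_le_right
  -- [P, Q] = 1
  obtain ⟨h5, h6⟩ := CfsgLib.Coprime2.abelian_decomp (V := P) (A := Q) hQP hcop
  have h7 : ⁅P, Q⁆ = ⊥ := by
    by_contra hne
    have hle : ⁅P, Q⁆ ≤ P := by
      conv_rhs => rw [← h6]
      exact le_sup_right
    obtain ⟨k, hk⟩ := IsPGroup.iff_card.mp (hPp.to_le hle)
    have hk0 : k ≠ 0 := by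
      rintro rfl
      rw [pow_zero] at hk
      exact hne (card_eq_one.mp hk)
    obtain ⟨x, hx⟩ := exists_prime_orderOf_dvd_card' (G := (⁅P, Q⁆ : Subgroup G)) p
      (by rw [hk]; exact dvd_pow_self p hk0)
    have hxΩ : (x : G) ∈ Ω := by
      rw [hΩ]
      refine ⟨hle x.2, ?_⟩
      have := pow_orderOf_eq_one x
      rw [hx] at this
      exact congrArg Subtype.val this
    have hx1 : (x : G) ∈ (P ⊓ centralizer (Q : Set G)) ⊓ ⁅P, Q⁆ :=
      mem_inf.mpr ⟨mem_inf.mpr ⟨hle x.2, hΩC hxΩ⟩, x.2⟩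
    rw [h5, mem_bot] at hx1
    have hx2 : x = 1 := Subtype.ext hx1
    rw [hx2, orderOf_one] at hx
    exact hp.out.one_lt.ne hx
  rw [commutator_comm, commutator_eq_bot_iff_le_centralizer] at h7
  exact h7

theorem npc_of_rank (P : Sylow p G) (hP : IsMulCommutative (P : Subgroup G))
    (hco : ∀ q : ℕ, q.Prime → q ≠ p → q ∣ Nat.card G → ∀ j, 1 ≤ j → j ≤ Group.rank (P : Subgroup G) → ¬ q ∣ p ^ j - 1) :
    Cfsg.HasNormalPComplement p G := by
  have h : normalizer ((P : Subgroup G) : Set G) ≤ centralizer ((P : Subgroup G) : Set G) := by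
    apply CfsgLib.TransAb.le_of_forall_sylow
    intro q hq
    have : Fact q.Prime := ⟨hq⟩
    by_cases hqp : q = p
    · subst hqp
      refine ⟨P, CfsgLib.TransFus.isSylowIn_of_sylow P le_normalizer, ?_⟩
      intro x hx
      rw [mem_centralizer_iff]
      intro y hy
      exact congrArg Subtype.val (hP.is_comm.comm (⟨y, hy⟩ : (P : Subgroup G)) ⟨x, hx⟩)
    · obtain ⟨Q, hQ⟩ := IsSylowIn.exists_isSylowIn (p := q) (normalizer ((P : Subgroup G) : Set G))
      refine ⟨Q, hQ, ?_⟩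
      by_cases hQ1 : Q = ⊥
      · rw [hQ1]; exact bot_le
      have hqG : q ∣ Nat.card G := by
        obtain ⟨k, hk⟩ := IsPGroup.iff_card.mp hQ.isPGroup
        have hk0 : k ≠ 0 := by
          rintro rfl
          rw [pow_zero] at hk
          exact hQ1 (card_eq_one.mp hk)
        exact (dvd_pow_self q hk0).trans (hk ▸ card_subgroup_dvd_card Q)
      exact centralizes_of_rank hqp (P : Subgroup G) Q P.isPGroup' hP hQ.isPGroup hQ.le
        (hco q hq hqp hqG)
  exact ⟨P, _, inferInstance, MonoidHom.ker_transferSylow_isComplement' P h⟩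

end

end CfsgLib.FgRank
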