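import Mathlib
import Cfsg.Agent.LibSolvMin
import Cfsg.Agent.LibFgCQ

set_option autoImplicit false
set_option linter.all false

/-! Solvable groups generated by `p`-elements: indices of proper subgroups. -/

open Subgroup

namespace CfsgLib.FgSD

universe u

/-- divisible by a prime power congruent to `-1`, `0` or `1` -/
def Bad (p n : ℕ) : Prop :=
  ∃ q : ℕ, IsPrimePow q ∧ q ∣ n ∧ ((q : ℤ) ≡ -1 [ZMOD p] ∨ (q : ℤ) ≡ 0 [ZMOD p] ∨ (q : ℤ) ≡ 1 [ZMOD p])

theorem Bad.mono {p m n : ℕ} (h : m ∣ n) (hb : Bad p m) : Bad p n := by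
  obtain ⟨q, h1, h2, h3⟩ := hb
  exact ⟨q, h1, h2.trans h, h3⟩

theorem bad_of_dvd {p n : ℕ} (hp : p.Prime) (h : p ∣ n) : Bad p n := by
  refine ⟨p, hp.isPrimePow, h, Or.inr (Or.inl ?_)⟩
  exact (Int.modEq_zero_iff_dvd).mpr dvd_rfl

/-- two distinct powers of `r` congruent modulo `p` -/
theorem bad_of_pow {p r a b : ℕ} (hp : p.Prime) (hr : r.Prime) (hne : r ≠ p) (hab : b < a)
    (h : r ^ a ≡ r ^ b [MOD p]) : Bad p (r ^ a) := by
  refine ⟨r ^ (a - b), hr.isPrimePow.pow (by omega), pow_dvd_pow r (by omega), Or.inr (Or.inr ?_)⟩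
  have hcop : Nat.gcd p (r ^ b) = 1 := by
    apply Nat.Coprime.pow_right
    exact (Nat.coprime_primes hp hr).mpr (Ne.symm hne)
  have h1 : r ^ b * r ^ (a - b) ≡ r ^ b * 1 [MOD p] := by
    rw [← pow_add, mul_one, show b + (a - b) = a by omega]
    exact h
  have h2 := Nat.ModEq.cancel_left_of_coprime hcop h1
  have := (Int.natCast_modEq_iff (n := p)).mpr h2
  simpa using this

/-- two distinct powers of `r` whose squares are congruent modulo `p` -/
theorem bad_of_sq {p r a b : ℕ} (hp : p.Prime) (hr : r.Prime) (hne : r ≠ p) (hab : b < a)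
    (h : (r ^ a) ^ 2 ≡ (r ^ b) ^ 2 [MOD p]) : Bad p (r ^ a) := by
  refine ⟨r ^ (a - b), hr.isPrimePow.pow (by omega), pow_dvd_pow r (by omega), ?_⟩
  have hcop : Nat.gcd p ((r ^ b) ^ 2) = 1 := by
    apply Nat.Coprime.pow_right
    apply Nat.Coprime.pow_right
    exact (Nat.coprime_primes hp hr).mpr (Ne.symm hne)
  have h1 : (r ^ b) ^ 2 * (r ^ (a - b)) ^ 2 ≡ (r ^ b) ^ 2 * 1 [MOD p] := by
    rw [← mul_pow, ← pow_add, mul_one, show b + (a - b) = a by omega]
    exact h
  have h2 := Nat.ModEq.cancel_left_of_coprime hcop h1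
  have h3 : ((r ^ (a - b) : ℕ) : ℤ) ^ 2 ≡ 1 [ZMOD p] := by
    have := (Int.natCast_modEq_iff (n := p)).mpr h2
    push_cast at this ⊢
    exact this
  have h4 : (p : ℤ) ∣ (((r ^ (a - b) : ℕ) : ℤ) - 1) * (((r ^ (a - b) : ℕ) : ℤ) + 1) := by
    have := h3.symm.dvd
    rw [show ((r ^ (a - b) : ℕ) : ℤ) ^ 2 - 1 = (((r ^ (a - b) : ℕ) : ℤ) - 1) * (((r ^ (a - b) : ℕ) : ℤ) + 1) by ring] at this
    exact this
  rcases (Nat.prime_iff_prime_int.mp hp).dvd_or_dvd h4 with h5 | h5
  · right; right
    exact (Int.modEq_of_dvd h5).symm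
  · left
    refine (Int.modEq_of_dvd ?_).symm
    rw [sub_neg_eq_add]; exact h5

/-- a `p`-element acting on a normal subgroup -/
theorem fix_mod {G : Type u} [Group G] [Finite G] (N : Subgroup G) [hN : N.Normal] (p : ℕ) [Fact p.Prime] {x : G} {k : ℕ}
    (hx : x ^ p ^ k = 1) :
    Nat.card N ≡ Nat.card (N ⊓ Subgroup.centralizer {x} : Subgroup G) [MOD p] := by
  classical
  haveI := Fintype.ofFinite N
  let f : Function.End N := fun n => MulAut.conjNormal x n
  have hf : ∀ m : ℕ, f ^ m = (fun n => MulAut.conjNormal (x ^ m) n : Function.End N) := by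
    intro m
    induction m with
    | zero =>
      funext n
      simp [Function.End.one_def]
    | succ m ih =>
      rw [pow_succ', ih]
      funext n
      show MulAut.conjNormal x (MulAut.conjNormal (x ^ m) n) = _
      rw [pow_succ', map_mul]
      rfl
  have hf1 : f ^ p ^ k = 1 := by
    rw [hf, hx]
    funext n
    simp [Function.End.one_def]
  have h1 := Equiv.Perm.card_fixedPoints_modEq hf1
  rw [← Nat.card_eq_fintype_card, ← Nat.card_eq_fintype_card] at h1
  have h2 : Nat.card (f.fixedPoints) = Nat.card (N ⊓ Subgroup.centralizer {x} : Subgroup G) := by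
    refine Nat.card_congr ⟨fun n => ⟨(n.1 : G), n.1.2, ?_⟩, fun n => ⟨⟨n.1, n.2.1⟩, ?_⟩, fun n => rfl, fun n => rfl⟩
    · have h3 : f n.1 = n.1 := n.2
      have h4 : x * (n.1 : G) * x⁻¹ = n.1 := by
        have := congrArg Subtype.val h3
        exact this
      rw [mul_inv_eq_iff_eq_mul] at h4
      exact Subgroup.mem_centralizer_singleton_iff.mpr h4.symm
    · have h3 := n.2.2
      have h4 := Subgroup.mem_centralizer_singleton_iff.mp h3
      apply Subtype.ext
      show x * n.1 * x⁻¹ = n.1
      rw [mul_inv_eq_iff_eq_mul]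
      exact h4.symm
  rwa [h2] at h1

/-- in a solvable group generated by `p`-elements, indices of proper subgroups are bad -/
theorem index_bad (p : ℕ) [hp : Fact p.Prime] : ∀ (n : ℕ) (G : Type u) [Group G] [Finite G] [Group.IsSolvable G],
    Nat.card G = n → Subgroup.closure {g : G | ∃ k : ℕ, g ^ p ^ k = 1} = ⊤ → ∀ M : Subgroup G, M ≠ ⊤ → Bad p M.index := by
  intro n
  induction n using Nat.strong_induction_on with
  | _ n ih =>
  intro G _ _ _ hcard hgen M hM
  have htop : (⊤ : Subgroup G) ≠ ⊥ := by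
    intro h
    apply hM
    rw [eq_top_iff, h]
    exact bot_le
  obtain ⟨N, r, hr, hmin, -, hcomm, hexp, hpg⟩ := CfsgLib.SolvMin.exists_minNormal_pgroup_of_solvable (⊤ : Subgroup G) htop
  haveI := hmin.1
  by_cases hNM : N ⊔ M = ⊤
  · -- complement
    have hinf : (N ⊓ M).Normal := by
      constructor
      intro a ha g
      have hg : g ∈ (N ⊔ M : Subgroup G) := by rw [hNM]; trivial
      rw [Subgroup.mem_sup_of_normal_left] at hg
      obtain ⟨u, hu, m, hm, rfl⟩ := hg
      have h1 : m * a * m⁻¹ ∈ N ⊓ M := ⟨hmin.1.conj_mem a ha.1 m, M.mul_mem (M.mul_mem hm ha.2) (M.inv_mem hm)⟩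
      have h2 : u * (m * a * m⁻¹) * u⁻¹ = m * a * m⁻¹ := by
        have h3 : u * (m * a * m⁻¹) = (m * a * m⁻¹) * u := by
          have := IsMulCommutative.is_comm.comm (⟨u, hu⟩ : N) ⟨_, h1.1⟩
          exact congrArg Subtype.val this
        rw [h3, mul_inv_cancel_right]
      have h4 : u * m * a * (u * m)⁻¹ = u * (m * a * m⁻¹) * u⁻¹ := by group
      rw [h4, h2]
      exact h1
    have hbot : N ⊓ M = ⊥ := by
      rcases hmin.2.2 (N ⊓ M) hinf inf_le_left with h | h
      · exact h
      · exfalso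
        apply hM
        have h1 : N ≤ M := by rw [← h]; exact inf_le_right
        rw [← hNM, sup_eq_right.mpr h1]
    have hcompl : Subgroup.IsComplement' N M := by
      apply Subgroup.isComplement'_of_disjoint_and_mul_eq_univ (disjoint_iff.mpr hbot)
      rw [← Subgroup.normal_mul, hNM]
      rfl
    have hidx : M.index = Nat.card N := hcompl.index_eq_card
    haveI : Fact r.Prime := ⟨hr⟩
    obtain ⟨a, ha⟩ := (IsPGroup.iff_card).mp hpg
    have ha0 : 0 < a := by
      rcases Nat.eq_zero_or_pos a with h | h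
      · exfalso
        rw [h, pow_zero] at ha
        exact hmin.2.1 (Subgroup.card_eq_one.mp ha)
      · exact h
    rw [hidx, ha]
    by_cases hrp : r = p
    · subst hrp
      exact bad_of_dvd hr (dvd_pow_self r ha0.ne')
    by_cases hcent : ∀ g : G, (∃ k : ℕ, g ^ p ^ k = 1) → g ∈ Subgroup.centralizer (N : Set G)
    · exfalso
      have h1 : Subgroup.centralizer (N : Set G) = ⊤ := by
        rw [eq_top_iff, ← hgen, Subgroup.closure_le]
        exact hcent
      have hMn : M.Normal := by
        constructor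
        intro b hb g
        have hg : g ∈ (N ⊔ M : Subgroup G) := by rw [hNM]; trivial
        rw [Subgroup.mem_sup_of_normal_left] at hg
        obtain ⟨u, hu, m, hm, rfl⟩ := hg
        have h2 : m * b * m⁻¹ ∈ M := M.mul_mem (M.mul_mem hm hb) (M.inv_mem hm)
        have h3 : m * b * m⁻¹ ∈ Subgroup.centralizer (N : Set G) := by rw [h1]; trivial
        have h4 := Subgroup.mem_centralizer_iff.mp h3 u hu
        have h5 : u * m * b * (u * m)⁻¹ = u * (m * b * m⁻¹) * u⁻¹ := by group
        rw [h5, h4, mul_inv_cancel_right]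
        exact h2
      apply hM
      rw [eq_top_iff, ← hgen, Subgroup.closure_le]
      rintro g ⟨k, hk⟩
      have h6 : (QuotientGroup.mk' M g) ^ p ^ k = 1 := by rw [← map_pow, hk, map_one]
      have h7 : (QuotientGroup.mk' M g) ^ (r ^ a) = 1 := by
        have := pow_card_eq_one' (x := QuotientGroup.mk' M g)
        rw [← Subgroup.index_eq_card, hidx, ha] at this
        exact this
      have h8 : Nat.gcd (p ^ k) (r ^ a) = 1 :=
        Nat.Coprime.pow _ _ ((Nat.coprime_primes hp.out hr).mpr (Ne.symm hrp))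
      have h9 : QuotientGroup.mk' M g = 1 := by
        have h10 := orderOf_dvd_of_pow_eq_one h6
        have h11 := orderOf_dvd_of_pow_eq_one h7
        have h12 := Nat.dvd_gcd h10 h11
        rw [h8, Nat.dvd_one, orderOf_eq_one_iff] at h12
        exact h12
      exact (QuotientGroup.eq_one_iff g).mp h9
    · push Not at hcent
      obtain ⟨x, ⟨k, hk⟩, hxN⟩ := hcent
      have h1 := fix_mod N p hk
      have hlt : N ⊓ Subgroup.centralizer {x} < N := by
        refine lt_of_le_of_ne inf_le_left (fun h => hxN ?_)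
        rw [Subgroup.mem_centralizer_iff]
        intro n hn
        rw [SetLike.mem_coe, ← h] at hn
        exact (Subgroup.mem_centralizer_singleton_iff.mp hn.2)
      have hpg2 : IsPGroup r (N ⊓ Subgroup.centralizer {x} : Subgroup G) := hpg.to_le inf_le_left
      obtain ⟨b, hb⟩ := (IsPGroup.iff_card).mp hpg2
      have hab : b < a := by
        have h2 : Nat.card (N ⊓ Subgroup.centralizer {x} : Subgroup G) < Nat.card N := by
          have h3 := Subgroup.card_le_of_le hlt.le
          rcases h3.lt_or_eq with h4 | h4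
          · exact h4
          · exact absurd (Subgroup.eq_of_le_of_card_ge hlt.le h4.ge) hlt.ne
        rw [ha, hb] at h2
        exact (Nat.pow_lt_pow_iff_right hr.one_lt).mp h2
      rw [ha, hb] at h1
      exact bad_of_pow hp.out hr hrp hab h1
  · -- quotient
    have hsurj := QuotientGroup.mk'_surjective N
    have hlt : Nat.card (G ⧸ N) < n := by
      rw [← hcard]
      have h1 := Subgroup.card_eq_card_quotient_mul_card_subgroup N
      have h2 : 1 < Nat.card N := by
        rw [Finite.one_lt_card_iff_nontrivial]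
        exact (Subgroup.nontrivial_iff_ne_bot N).mpr hmin.2.1
      have h3 : 0 < Nat.card (G ⧸ N) := Nat.card_pos
      rw [h1]
      exact (lt_mul_iff_one_lt_right h3).mpr h2
    have hgen' : Subgroup.closure {g : G ⧸ N | ∃ k : ℕ, g ^ p ^ k = 1} = ⊤ := by
      rw [eq_top_iff]
      have h1 : (⊤ : Subgroup (G ⧸ N)) = (⊤ : Subgroup G).map (QuotientGroup.mk' N) := by
        rw [← MonoidHom.range_eq_map, MonoidHom.range_eq_top.mpr hsurj]
      rw [h1, ← hgen, MonoidHom.map_closure]
      apply Subgroup.closure_mono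
      rintro _ ⟨g, ⟨k, hk⟩, rfl⟩
      exact ⟨k, by rw [← map_pow, hk, map_one]⟩
    have hne : M.map (QuotientGroup.mk' N) ≠ ⊤ := by
      intro h
      apply hNM
      have h2 := congrArg (Subgroup.comap (QuotientGroup.mk' N)) h
      rw [Subgroup.comap_map_eq, QuotientGroup.ker_mk', Subgroup.comap_top, sup_comm] at h2
      exact h2
    exact (ih _ hlt (G ⧸ N) rfl hgen' _ hne).mono (Subgroup.index_map_dvd M hsurj)

end CfsgLib.FgSD
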