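import Cfsg.Agent.LibFgSD
import Cfsg.Agent.LibCharMore
import Cfsg.Agent.LibBrLeon

set_option autoImplicit false
set_option linter.all false

/-! Degrees of characters of solvable groups and normality of Sylow subgroups. -/

open Cfsg CfsgLib.CharBasic CfsgLib.CharIndA CfsgLib.Clifford CfsgLib.CharMore
open scoped ComplexConjugate commutatorElement

namespace CfsgLib.FgSD

universe u

/-- fully ramified sections -/
theorem lemS {G : Type u} [Group G] [Fintype G] {χ : G → ℂ} (hχ : IsIrrCharacter G χ)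
    (hf : ∀ g, χ g = χ 1 → g = 1) (W D : Subgroup G) [Fintype D] (hW : W ≤ Subgroup.center G) (hWD : W ≤ D)
    (hc : ∀ u ∈ D, u ∉ W → ∃ v ∈ D, v * u * v⁻¹ * u⁻¹ ∈ W ∧ v * u ≠ u * v)
    {θ : D → ℂ} (hθ : IsIrrCharacter D θ) (hm : classInner (fun h : D => χ h) θ ≠ 0) :
    (charDegree θ) ^ 2 * Nat.card W = Nat.card D := by
  classical
  haveI := Fintype.ofFinite W
  obtain ⟨l, hl⟩ := CfsgLib.BrLeon.central_hom W.subtype
    (fun z c => (Subgroup.mem_center_iff.mp (hW z.2) c).symm) hχ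
  obtain ⟨l', hl'⟩ := CfsgLib.BrLeon.central_hom (Subgroup.inclusion hWD)
    (fun z c => Subtype.ext (Subgroup.mem_center_iff.mp (hW z.2) c).symm) hθ
  have hne : χ 1 ≠ 0 := irr_one_ne_zero hχ
  have hfaith : ∀ w : W, l' w = 1 → w = 1 := by
    intro w hw
    have hS : (∑ d : D, χ d * conj (θ d)) ≠ 0 := by
      intro h
      apply hm
      unfold classInner
      rw [h, mul_zero]
    have h1 : (∑ d : D, χ d * conj (θ d)) = (l w : ℂ) * ∑ d : D, χ d * conj (θ d) := by
      conv_lhs => rw [← Equiv.sum_comp (Equiv.mulLeft (Subgroup.inclusion hWD w)) (fun d : D => χ d * conj (θ d))]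
      rw [Finset.mul_sum]
      refine Finset.sum_congr rfl fun d _ => ?_
      have h2 := hl w d
      have h3 := hl' w d
      rw [hw, Units.val_one, one_mul] at h3
      show χ ((w : G) * d) * conj (θ (Subgroup.inclusion hWD w * d)) = _
      rw [h3]
      have h4 : χ ((w : G) * d) = (l w : ℂ) * χ d := h2
      rw [h4]; ring
    have h5 : (l w : ℂ) = 1 := by
      have : ((l w : ℂ) - 1) * (∑ d : D, χ d * conj (θ d)) = 0 := by
        rw [sub_mul, one_mul, ← h1, sub_self]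
      rcases mul_eq_zero.mp this with h | h
      · exact sub_eq_zero.mp h
      · exact absurd h hS
    have h6 := hl w 1
    rw [h5, one_mul, mul_one] at h6
    exact Subtype.ext (hf _ h6)
  have hvan : ∀ d : D, (d : G) ∉ W → θ d = 0 := by
    intro u hu
    obtain ⟨v, hv, h1, h2⟩ := hc u u.2 hu
    have h3 : θ ((⟨v, hv⟩ : D) * u * (⟨v, hv⟩ : D)⁻¹) = θ u := irr_classFun hθ u ⟨v, hv⟩
    have h4 := hl' ⟨_, h1⟩ u
    have h5 : (Subgroup.inclusion hWD ⟨_, h1⟩ * u : D) = (⟨v, hv⟩ : D) * u * (⟨v, hv⟩ : D)⁻¹ := by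
      apply Subtype.ext
      show v * u * v⁻¹ * (u : G)⁻¹ * u = v * u * v⁻¹
      rw [inv_mul_cancel_right]
    rw [h5, h3] at h4
    by_contra h0
    have h6 : (l' ⟨_, h1⟩ : ℂ) = 1 := by
      have h7 : ((l' ⟨_, h1⟩ : ℂ) - 1) * θ u = 0 := by rw [sub_mul, one_mul, ← h4, sub_self]
      rcases mul_eq_zero.mp h7 with h | h
      · exact sub_eq_zero.mp h
      · exact absurd h h0
    have h8 := hfaith _ (Units.ext h6)
    apply h2
    have h9 : v * u * v⁻¹ * (u : G)⁻¹ = 1 := congrArg Subtype.val h8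
    rw [mul_inv_eq_one, mul_inv_eq_iff_eq_mul] at h9
    exact h9
  have hself := irr_inner_self hθ
  unfold classInner at hself
  have hD0 : (Nat.card D : ℂ) ≠ 0 := by exact_mod_cast Nat.card_pos.ne'
  have h1 : (∑ d : D, θ d * conj (θ d)) = (Nat.card D : ℂ) := by
    have := congrArg (fun z => (Nat.card D : ℂ) * z) hself
    simp only [mul_one] at this
    rw [← mul_assoc, mul_inv_cancel₀ hD0, one_mul] at this
    exact this
  obtain ⟨n, hn, hn1⟩ := irr_one_nat hθ
  have hdeg : charDegree θ = n := by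
    have := CfsgLib.CharInt.irr_one_eq_charDegree hθ
    rw [hn1] at this
    exact_mod_cast this.symm
  have h2 : (∑ d : D, θ d * conj (θ d)) = ∑ d : D, if (d : G) ∈ W then ((n : ℂ) ^ 2) else 0 := by
    refine Finset.sum_congr rfl fun d _ => ?_
    split_ifs with hd
    · have h3 := hl' ⟨d, hd⟩ 1
      have h4 : (Subgroup.inclusion hWD ⟨d, hd⟩ * 1 : D) = d := by
        rw [mul_one]; rfl
      rw [h4, hn1] at h3
      have h5 : ‖(l' ⟨d, hd⟩ : ℂ)‖ = 1 := by
        apply norm_one_of_pow (n := Nat.card W) Nat.card_pos.ne'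
        rw [← Units.val_pow_eq_pow_val, ← map_pow, pow_card_eq_one', map_one, Units.val_one]
      rw [h3, map_mul, Complex.conj_natCast]
      have h6 : (l' ⟨d, hd⟩ : ℂ) * conj (l' ⟨d, hd⟩ : ℂ) = 1 := by
        rw [Complex.mul_conj, Complex.normSq_eq_norm_sq, h5]; simp
      calc (l' ⟨d, hd⟩ : ℂ) * n * (conj (l' ⟨d, hd⟩ : ℂ) * n) = ((l' ⟨d, hd⟩ : ℂ) * conj (l' ⟨d, hd⟩ : ℂ)) * (n : ℂ) ^ 2 := by ring
        _ = _ := by rw [h6, one_mul]
    · rw [hvan d hd, zero_mul]
  rw [h1, ← Finset.sum_filter, Finset.sum_const, nsmul_eq_mul] at h2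
  have h3 : (Finset.univ.filter (fun d : D => (d : G) ∈ W)).card = Nat.card W := by
    rw [← Fintype.card_subtype, ← Nat.card_eq_fintype_card]
    exact Nat.card_congr ⟨fun d => ⟨d.1, d.2⟩, fun w => ⟨⟨w, hWD w.2⟩, w.2⟩, fun d => rfl, fun w => rfl⟩
  rw [h3] at h2
  have h4 : Nat.card D = Nat.card W * n ^ 2 := by exact_mod_cast h2
  rw [hdeg, h4, mul_comm]

/-- degree factorization -/
theorem deg_fac {G : Type u} [Group G] [Fintype G] {χ : G → ℂ} (hχ : IsIrrCharacter G χ) {N : Subgroup G} [Fintype N]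
    (hN : N.Normal) {θ : N → ℂ} (hθ : IsIrrCharacter N θ) (hm : classInner (fun h : N => χ h) θ ≠ 0) :
    ∃ m : ℕ, charDegree χ = m * (inertia hN θ).index * charDegree θ := by
  have h1 := clifford_degree hN hχ hθ hm
  obtain ⟨m, hm'⟩ := char_mult (isCharacter_restrict (irr_isCharacter hχ) N) (irr_isCharacter hθ)
  refine ⟨m, ?_⟩
  have h2 : classInner (fun h : N => χ h) θ = m := hm'
  rw [h2, CfsgLib.CharInt.irr_one_eq_charDegree hχ, CfsgLib.CharInt.irr_one_eq_charDegree hθ] at h1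
  exact_mod_cast h1

end CfsgLib.FgSD
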