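import Cfsg.Agent.LibFgSD2
import Cfsg.Agent.LibCoprime

set_option autoImplicit false
set_option linter.all false

/-! Degrees of characters of solvable groups and normality of Sylow subgroups: the main step. -/

open Cfsg CfsgLib.CharBasic CfsgLib.CharIndA CfsgLib.Clifford CfsgLib.CharMore
open scoped ComplexConjugate commutatorElement

namespace CfsgLib.FgSD

universe u

theorem abel_central {G : Type u} [Group G] [Fintype G] {χ : G → ℂ} (hχ : IsIrrCharacter G χ)
    (hf : ∀ g, χ g = χ 1 → g = 1)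
    (hinv : ∀ (N : Subgroup G) [Fintype N] (hN : N.Normal) (θ : N → ℂ), IsIrrCharacter N θ →
      classInner (fun h : N => χ h) θ ≠ 0 → inertia hN θ = ⊤)
    (A : Subgroup G) (hA : A.Normal) (hab : ∀ a ∈ A, ∀ b ∈ A, a * b = b * a) : A ≤ Subgroup.center G := by
  classical
  haveI := Fintype.ofFinite A
  obtain ⟨θ, hθ, hm⟩ := exists_below A hχ
  have h1 : θ 1 = 1 := irr_degree_one_of_comm (fun a b => Subtype.ext (hab a a.2 b b.2)) hθ
  have h2 := hinv A hA θ hθ hm
  have h3 : ∀ g, cj hA g θ = θ := by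
    intro g
    have : g ∈ inertia hA θ := by rw [h2]; trivial
    exact this
  have h4 := restrict_of_invariant hA hχ hθ h3 hm
  intro a ha
  apply scalar_comm hχ hf
  have h5 := congrFun h4 ⟨a, ha⟩
  have h6 := congrFun h4 1
  simp only [Pi.smul_apply, smul_eq_mul] at h5 h6
  rw [h1, mul_one] at h6
  have h7 : χ 1 = classInner (fun h : A => χ h) θ := h6
  obtain ⟨f, hf1⟩ := exists_hom_of_linear (irr_isCharacter hθ) h1
  have h8 : ‖θ ⟨a, ha⟩‖ = 1 := by
    have h9 : θ ⟨a, ha⟩ = (f ⟨a, ha⟩ : ℂ) := hf1 ⟨a, ha⟩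
    rw [h9]
    apply norm_one_of_pow (n := Nat.card A) Nat.card_pos.ne'
    rw [← Units.val_pow_eq_pow_val, ← map_pow, pow_card_eq_one', map_one, Units.val_one]
  rw [h5, norm_mul, h8, mul_one, ← h7, CfsgLib.CharInt.irr_one_eq_charDegree hχ, Complex.norm_natCast, Complex.natCast_re]

/-- the main step -/
theorem main_step (p : ℕ) [hp : Fact p.Prime] {G : Type u} [Group G] [Fintype G] [Group.IsSolvable G] {χ : G → ℂ}
    (hχ : IsIrrCharacter G χ) (hf : ∀ g, χ g = χ 1 → g = 1)
    (hgen : Subgroup.closure {g : G | ∃ k : ℕ, g ^ p ^ k = 1} = ⊤) (hnb : ¬ Bad p (charDegree χ)) :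
    ∀ a b : G, a * b = b * a := by
  classical
  have hinv : ∀ (N : Subgroup G) [Fintype N] (hN : N.Normal) (θ : N → ℂ), IsIrrCharacter N θ →
      classInner (fun h : N => χ h) θ ≠ 0 → inertia hN θ = ⊤ := by
    intro N _ hN θ hθ hm
    by_contra hne
    obtain ⟨m, hm'⟩ := deg_fac hχ hN hθ hm
    apply hnb
    apply (index_bad p _ G rfl hgen _ hne).mono
    rw [hm']
    exact ⟨m * charDegree θ, by ring⟩
  have habel := fun A hA hab => abel_central hχ hf hinv A hA hab
  by_contra hna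
  -- a minimal noncentral normal subgroup
  obtain ⟨U, ⟨hUn, hUc⟩, hUmin⟩ : ∃ U : Subgroup G, (U.Normal ∧ ¬ U ≤ Subgroup.center G) ∧
      ∀ V : Subgroup G, V < U → ¬ (V.Normal ∧ ¬ V ≤ Subgroup.center G) := by
    have hwf : WellFounded (fun a b : Subgroup G => a < b) := wellFounded_lt
    obtain ⟨U, hU, hmin⟩ := hwf.has_min {V : Subgroup G | V.Normal ∧ ¬ V ≤ Subgroup.center G} ⟨⊤, inferInstance, by
      intro h
      apply hna
      intro a b
      exact (Subgroup.mem_center_iff.mp (h (Subgroup.mem_top b)) a)⟩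
    exact ⟨U, hU, fun V hV hV2 => hmin V hV2 hV⟩
  haveI := hUn
  obtain ⟨W, hWdef⟩ : ∃ W : Subgroup G, W = U ⊓ Subgroup.center G := ⟨_, rfl⟩
  have hWc : W ≤ Subgroup.center G := by rw [hWdef]; exact inf_le_right
  have hWU : W ≤ U := by rw [hWdef]; exact inf_le_left
  haveI hWn : W.Normal := by
    constructor
    intro w hw g
    have h1 := Subgroup.mem_center_iff.mp (hWc hw) g
    rw [h1, mul_inv_cancel_right]
    exact hw
  have hsurj := QuotientGroup.mk'_surjective W
  have hmin : CfsgLib.SolvMin.IsMinNormal (U.map (QuotientGroup.mk' W)) := by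
    refine ⟨hUn.map _ hsurj, ?_, ?_⟩
    · intro h
      apply hUc
      intro u hu
      have h1 : QuotientGroup.mk' W u ∈ U.map (QuotientGroup.mk' W) := ⟨u, hu, rfl⟩
      rw [h, Subgroup.mem_bot] at h1
      exact hWc ((QuotientGroup.eq_one_iff u).mp h1)
    · intro M' hM' hle
      have h1 : M'.comap (QuotientGroup.mk' W) ≤ U := by
        have := Subgroup.comap_mono (f := QuotientGroup.mk' W) hle
        rw [Subgroup.comap_map_eq, QuotientGroup.ker_mk', sup_eq_left.mpr hWU] at this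
        exact this
      have h2 : (M'.comap (QuotientGroup.mk' W)).Normal := hM'.comap _
      rcases h1.lt_or_eq with h3 | h3
      · left
        have h4 := hUmin _ h3
        push Not at h4
        have h5 := h4 h2
        rw [eq_bot_iff]
        intro y hy
        obtain ⟨g, rfl⟩ := hsurj y
        have h6 : g ∈ M'.comap (QuotientGroup.mk' W) := hy
        have h7 : g ∈ W := by rw [hWdef]; exact ⟨h1 h6, h5 h6⟩
        rw [Subgroup.mem_bot]
        exact (QuotientGroup.eq_one_iff g).mpr h7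
      · right
        rw [← h3, Subgroup.map_comap_eq_self_of_surjective hsurj]
  haveI hcommU := hmin.isMulCommutative
  obtain ⟨r, hr, hexp⟩ := hmin.exists_prime
  have hpg := CfsgLib.SolvMin.isPGroup_of_forall_pow_eq_one hexp
  haveI : Fact r.Prime := ⟨hr⟩
  obtain ⟨kk, hkk⟩ := (IsPGroup.iff_card).mp hpg
  have hcomW : ∀ u ∈ U, ∀ v ∈ U, v * u * v⁻¹ * u⁻¹ ∈ W := by
    intro u hu v hv
    rw [← QuotientGroup.eq_one_iff]
    have h1 : (⟨QuotientGroup.mk' W v, ⟨v, hv, rfl⟩⟩ : U.map (QuotientGroup.mk' W)) * ⟨QuotientGroup.mk' W u, ⟨u, hu, rfl⟩⟩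
      = ⟨QuotientGroup.mk' W u, ⟨u, hu, rfl⟩⟩ * ⟨QuotientGroup.mk' W v, ⟨v, hv, rfl⟩⟩ := IsMulCommutative.is_comm.comm _ _
    have h2 : QuotientGroup.mk' W v * QuotientGroup.mk' W u = QuotientGroup.mk' W u * QuotientGroup.mk' W v :=
      congrArg Subtype.val h1
    show QuotientGroup.mk' W (v * u * v⁻¹ * u⁻¹) = 1
    rw [map_mul, map_mul, map_mul, h2, map_inv, map_inv, mul_inv_cancel_right, mul_inv_cancel]
  have hpowW : ∀ u ∈ U, u ^ r ∈ W := by
    intro u hu
    rw [← QuotientGroup.eq_one_iff]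
    show QuotientGroup.mk' W (u ^ r) = 1
    rw [map_pow]
    exact hexp _ ⟨u, hu, rfl⟩
  have hZU : ∀ u ∈ U, (∀ v ∈ U, v * u = u * v) → u ∈ W := by
    intro u hu hcomm
    have h1 : (U ⊓ Subgroup.centralizer (U : Set G)).Normal := by
      constructor
      intro a ha g
      refine ⟨hUn.conj_mem a ha.1 g, Subgroup.mem_centralizer_iff.mpr (fun v hv => ?_)⟩
      have h2 := Subgroup.mem_centralizer_iff.mp ha.2 (g⁻¹ * v * g) (by
        have := hUn.conj_mem v hv g⁻¹
        rwa [inv_inv] at this)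
      have h3 : v * (g * a * g⁻¹) = g * ((g⁻¹ * v * g) * a) * g⁻¹ := by group
      rw [h3, h2]; group
    have h2 := habel _ h1 (by
      intro a ha b hb
      exact Subgroup.mem_centralizer_iff.mp hb.2 a ha.1)
    rw [hWdef]
    exact ⟨hu, h2 ⟨hu, Subgroup.mem_centralizer_iff.mpr hcomm⟩⟩
  haveI := Fintype.ofFinite U
  obtain ⟨θ, hθ, hθm⟩ := exists_below U hχ
  have hS1 := lemS hχ hf W U hWc hWU (by
    intro u hu huW
    by_contra hcon
    push Not at hcon
    exact huW (hZU u hu (fun v hv => hcon v hv (hcomW u hu v hv)))) hθ hθm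
  have hcU := CfsgLib.FgCQ.card_map_mk_of_le hWU
  have hWpos : 0 < Nat.card W := Nat.card_pos
  have hsq : (charDegree θ) ^ 2 = r ^ kk := by
    rw [← hkk]
    apply Nat.eq_of_mul_eq_mul_left hWpos
    rw [hcU, ← hS1, mul_comm]
  have hdvdθ : charDegree θ ∣ charDegree χ := by
    obtain ⟨m, hm'⟩ := deg_fac hχ hUn hθ hθm
    rw [hm']
    exact ⟨m * (inertia hUn θ).index, by ring⟩
  obtain ⟨a, -, ha⟩ := (Nat.dvd_prime_pow hr).mp (show charDegree θ ∣ r ^ kk by rw [← hsq]; exact dvd_pow_self _ two_ne_zero)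
  have hUbar : 1 < Nat.card (U.map (QuotientGroup.mk' W)) := by
    rw [Finite.one_lt_card_iff_nontrivial]
    exact (Subgroup.nontrivial_iff_ne_bot _).mpr hmin.2.1
  have ha0 : 0 < a := by
    rcases Nat.eq_zero_or_pos a with h | h
    · exfalso
      rw [h, pow_zero] at ha
      rw [ha, one_pow] at hsq
      rw [hkk, ← hsq] at hUbar
      exact lt_irrefl _ hUbar
    · exact h
  have hrp : r ≠ p := by
    intro h
    apply hnb
    apply bad_of_dvd hp.out
    rw [← h]
    refine dvd_trans ?_ hdvdθ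
    rw [ha]
    exact dvd_pow_self r ha0.ne'
  -- a `p`-element acting nontrivially
  obtain ⟨x, k, hxk, hxU⟩ : ∃ x : G, ∃ k : ℕ, x ^ p ^ k = 1 ∧ x ∉ Subgroup.centralizer (U : Set G) := by
    by_contra hcon
    push Not at hcon
    have h1 : Subgroup.centralizer (U : Set G) = ⊤ := by
      rw [eq_top_iff, ← hgen, Subgroup.closure_le]
      rintro g ⟨k, hk⟩
      exact hcon g k hk
    apply hUc
    intro u hu
    rw [Subgroup.mem_center_iff]
    intro g
    have : g ∈ Subgroup.centralizer (U : Set G) := by rw [h1]; trivial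
    exact (Subgroup.mem_centralizer_iff.mp this u hu).symm
  have hkey : ∀ v ∈ U, x * v * x⁻¹ * v⁻¹ ∈ W → x * v = v * x := by
    intro v hv hc
    obtain ⟨c, hcdef⟩ : ∃ c, c = x * v * x⁻¹ * v⁻¹ := ⟨_, rfl⟩
    rw [← hcdef] at hc
    have hcc : ∀ g, g * c = c * g := Subgroup.mem_center_iff.mp (hWc hc)
    have h1 : x * v * x⁻¹ = c * v := by rw [hcdef, inv_mul_cancel_right]
    have h2 : ∀ i : ℕ, x ^ i * v * (x ^ i)⁻¹ = c ^ i * v := by
      intro i
      induction i with
      | zero => simp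
      | succ i ih =>
        have h3 : x ^ (i + 1) * v * (x ^ (i + 1))⁻¹ = x * (x ^ i * v * (x ^ i)⁻¹) * x⁻¹ := by
          rw [pow_succ']; group
        have h4 : x * c ^ i = c ^ i * x := ((show Commute x c from hcc x).pow_right i).eq
        rw [h3, ih, ← mul_assoc, h4, mul_assoc (c ^ i), mul_assoc (c ^ i), h1, pow_succ, mul_assoc]
    have h3 := h2 (p ^ k)
    rw [hxk] at h3
    have h4 : c ^ p ^ k = 1 := by
      have : c ^ p ^ k * v = 1 * v := by rw [← h3]; group
      exact mul_right_cancel this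
    have h5 : c ^ r = 1 := by
      have h6 : (x * v * x⁻¹) ^ r = v ^ r := by
        rw [conj_pow]
        have := Subgroup.mem_center_iff.mp (hWc (hpowW v hv)) x
        rw [this, mul_inv_cancel_right]
      rw [h1, (show Commute c v from (hcc v).symm).mul_pow] at h6
      have : c ^ r * v ^ r = 1 * v ^ r := by rw [h6, one_mul]
      exact mul_right_cancel this
    have h6 : c = 1 := by
      have h10 := orderOf_dvd_of_pow_eq_one h4
      have h11 := orderOf_dvd_of_pow_eq_one h5
      have h12 := Nat.dvd_gcd h10 h11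
      have h8 : Nat.gcd (p ^ k) r = 1 :=
        Nat.Coprime.pow_left _ ((Nat.coprime_primes hp.out hr).mpr (Ne.symm hrp))
      rw [h8, Nat.dvd_one, orderOf_eq_one_iff] at h12
      exact h12
    rw [h6, one_mul, mul_inv_eq_iff_eq_mul] at h1
    exact h1
  obtain ⟨D, hDdef⟩ : ∃ D : Subgroup G, D = U ⊓ Subgroup.centralizer {x} := ⟨_, rfl⟩
  have hDU : D ≤ U := by rw [hDdef]; exact inf_le_left
  have hDmem : ∀ v, v ∈ D ↔ v ∈ U ∧ x * v = v * x := by
    intro v
    rw [hDdef, Subgroup.mem_inf, Subgroup.mem_centralizer_singleton_iff]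
    exact ⟨fun h => ⟨h.1, h.2.symm⟩, fun h => ⟨h.1, h.2.symm⟩⟩
  have hWD : W ≤ D := by
    intro w hw
    rw [hDmem]
    exact ⟨hWU hw, Subgroup.mem_center_iff.mp (hWc hw) x⟩
  have hbar : ∀ v ∈ U, QuotientGroup.mk' W x * QuotientGroup.mk' W v = QuotientGroup.mk' W v * QuotientGroup.mk' W x → v ∈ D := by
    intro v hv h
    rw [hDmem]
    refine ⟨hv, hkey v hv ?_⟩
    rw [← QuotientGroup.eq_one_iff]
    show QuotientGroup.mk' W (x * v * x⁻¹ * v⁻¹) = 1
    rw [map_mul, map_mul, map_mul, h, map_inv, map_inv, mul_inv_cancel_right, mul_inv_cancel]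
  -- Z(D) = W
  have hZD : ∀ u ∈ D, u ∉ W → ∃ v ∈ D, v * u * v⁻¹ * u⁻¹ ∈ W ∧ v * u ≠ u * v := by
    intro u hu huW
    by_contra hcon
    push Not at hcon
    have huD : ∀ v ∈ D, v * u = u * v := fun v hv => hcon v hv (hcomW u (hDU hu) v (hDU hv))
    apply huW
    apply hZU u (hDU hu)
    have hxu : x * u = u * x := ((hDmem u).mp hu).2
    obtain ⟨K0, hK0⟩ : ∃ K0 : Subgroup G, K0 = U ⊓ Subgroup.centralizer {u} := ⟨_, rfl⟩
    have hK0mem : ∀ v, v ∈ K0 ↔ v ∈ U ∧ v * u = u * v := by
      intro v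
      rw [hK0, Subgroup.mem_inf, Subgroup.mem_centralizer_singleton_iff]
    have hnorm : Subgroup.zpowers (QuotientGroup.mk' W x) ≤ Subgroup.normalizer ((U.map (QuotientGroup.mk' W) : Subgroup (G ⧸ W)) : Set (G ⧸ W)) := by
      haveI := hmin.1
      rw [Subgroup.normalizer_eq_top]
      exact le_top
    have hcop : (Nat.card (Subgroup.zpowers (QuotientGroup.mk' W x))).Coprime (Nat.card (U.map (QuotientGroup.mk' W))) := by
      rw [Nat.card_zpowers, hkk]
      have h1 : orderOf (QuotientGroup.mk' W x) ∣ p ^ k := by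
        apply orderOf_dvd_of_pow_eq_one
        rw [← map_pow, hxk, map_one]
      exact Nat.Coprime.coprime_dvd_left h1 (Nat.Coprime.pow _ _ ((Nat.coprime_primes hp.out hr).mpr (Ne.symm hrp)))
    have hdec := CfsgLib.Coprime.commutator_sup_centralizer hnorm hcop (Or.inr inferInstance)
    have hle : U.map (QuotientGroup.mk' W) ≤ K0.map (QuotientGroup.mk' W) := by
      rw [← hdec]
      apply sup_le
      · rw [Subgroup.commutator_le]
        rintro _ ⟨v, hv, rfl⟩ _ hy
        obtain ⟨i, rfl⟩ := Subgroup.mem_zpowers_iff.mp hy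
        refine ⟨⁅v, x ^ i⁆, ?_, by rw [map_commutatorElement, map_zpow]⟩
        rw [SetLike.mem_coe, hK0mem]
        have hyu : x ^ i * u = u * x ^ i := ((show Commute x u from hxu).zpow_left i).eq
        generalize x ^ i = y at hyu ⊢
        have hvU : v ∈ U := hv
        constructor
        · rw [commutatorElement_def]
          have h1 : v * y * v⁻¹ * y⁻¹ = v * (y * v⁻¹ * y⁻¹) := by group
          rw [h1]
          exact U.mul_mem hvU (hUn.conj_mem _ (U.inv_mem hvU) y)
        · -- v u = c u v with c central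
          obtain ⟨c, hc⟩ : ∃ c, c = v * u * v⁻¹ * u⁻¹ := ⟨_, rfl⟩
          have hcW := hcomW u (hDU hu) v hvU
          rw [← hc] at hcW
          have hcc : ∀ g, g * c = c * g := Subgroup.mem_center_iff.mp (hWc hcW)
          have h1 : v * u * v⁻¹ = c * u := by rw [hc, inv_mul_cancel_right]
          have h2 : v⁻¹ * u * v = c⁻¹ * u := by
            have h3 : u = v⁻¹ * (c * u) * v := by rw [← h1]; group
            have h4 : v⁻¹ * (c * u) * v = c * (v⁻¹ * u * v) := by
              rw [← mul_assoc, hcc v⁻¹]; group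
            rw [h4] at h3
            rw [eq_inv_mul_iff_mul_eq]
            exact h3.symm
          have h5 : y * u * y⁻¹ = u := by rw [hyu, mul_inv_cancel_right]
          have h5' : y⁻¹ * u * y = u := by
            have : y⁻¹ * (y * u * y⁻¹) * y = u := by group
            rwa [h5] at this
          have hci : ∀ g, g * c⁻¹ = c⁻¹ * g := by
            intro g
            exact ((show Commute g c from hcc g).inv_right).eq
          -- conj of u by [v,y]
          have h6 : ⁅v, y⁆ * u * ⁅v, y⁆⁻¹ = u := by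
            rw [commutatorElement_def]
            have h7 : v * y * v⁻¹ * y⁻¹ * u * (v * y * v⁻¹ * y⁻¹)⁻¹ = v * (y * (v⁻¹ * (y⁻¹ * u * y) * v) * y⁻¹) * v⁻¹ := by group
            rw [h7, h5', h2]
            have h8 : y * (c⁻¹ * u) * y⁻¹ = c⁻¹ * u := by
              rw [← mul_assoc, hci y, mul_assoc c⁻¹, mul_assoc c⁻¹, h5]
            rw [h8]
            have h9 : v * (c⁻¹ * u) * v⁻¹ = c⁻¹ * (v * u * v⁻¹) := by
              rw [← mul_assoc, hci v]; group
            rw [h9, h1]; group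
          rw [mul_inv_eq_iff_eq_mul] at h6
          exact h6
      · rintro _ ⟨⟨v, hv, rfl⟩, hcv⟩
        have h1 := Subgroup.mem_centralizer_iff.mp hcv (QuotientGroup.mk' W x) (Subgroup.mem_zpowers _)
        have h2 := hbar v hv h1
        refine ⟨v, ?_, rfl⟩
        rw [SetLike.mem_coe, hK0mem]
        exact ⟨hv, huD v h2⟩
    intro v hv
    obtain ⟨v', hv', hvv⟩ := hle ⟨v, hv, rfl⟩
    have h1 : v'⁻¹ * v ∈ W := by
      rw [← QuotientGroup.eq_one_iff]
      show QuotientGroup.mk' W (v'⁻¹ * v) = 1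
      rw [map_mul, map_inv, hvv, inv_mul_cancel]
    have h2 := Subgroup.mem_center_iff.mp (hWc h1) u
    have h3 : v = v' * (v'⁻¹ * v) := by group
    have h4 := ((hK0mem v').mp hv').2
    rw [h3, mul_assoc, ← h2, ← mul_assoc, h4, mul_assoc]
  haveI := Fintype.ofFinite D
  obtain ⟨θ', hθ', hθm'⟩ := exists_below D hχ
  have hS2 := lemS hχ hf W D hWc hWD hZD hθ' hθm'
  have hcD := CfsgLib.FgCQ.card_map_mk_of_le hWD
  have hsqD : (charDegree θ') ^ 2 = Nat.card (D.map (QuotientGroup.mk' W)) := by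
    apply Nat.eq_of_mul_eq_mul_left hWpos
    rw [hcD, ← hS2, mul_comm]
  have hDbar : U.map (QuotientGroup.mk' W) ⊓ Subgroup.centralizer {QuotientGroup.mk' W x} = D.map (QuotientGroup.mk' W) := by
    ext y
    constructor
    · rintro ⟨⟨v, hv, rfl⟩, hcv⟩
      have h1 := Subgroup.mem_centralizer_singleton_iff.mp hcv
      exact ⟨v, hbar v hv h1.symm, rfl⟩
    · rintro ⟨v, hv, rfl⟩
      have h1 := (hDmem v).mp hv
      refine ⟨⟨v, h1.1, rfl⟩, Subgroup.mem_centralizer_singleton_iff.mpr ?_⟩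
      rw [← map_mul, ← map_mul, h1.2]
  haveI := hmin.1
  have hfix := fix_mod (U.map (QuotientGroup.mk' W)) p (x := QuotientGroup.mk' W x) (k := k) (by rw [← map_pow, hxk, map_one])
  rw [hDbar, ← hsqD, hkk, ← hsq] at hfix
  have hle : D.map (QuotientGroup.mk' W) ≤ U.map (QuotientGroup.mk' W) := Subgroup.map_mono hDU
  have hdd : (charDegree θ') ^ 2 ∣ r ^ kk := by
    rw [hsqD, ← hkk]
    exact Subgroup.card_dvd_of_le hle
  obtain ⟨b, -, hb⟩ := (Nat.dvd_prime_pow hr).mp (show charDegree θ' ∣ r ^ kk from (dvd_pow_self _ two_ne_zero).trans hdd)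
  have hDne : D ≠ U := by
    intro h
    apply hxU
    rw [Subgroup.mem_centralizer_iff]
    intro v hv
    rw [SetLike.mem_coe, ← h] at hv
    exact ((hDmem v).mp hv).2.symm
  have hDlt : Nat.card D < Nat.card U := by
    have h3 := Subgroup.card_le_of_le hDU
    rcases h3.lt_or_eq with h4 | h4
    · exact h4
    · exact absurd (Subgroup.eq_of_le_of_card_ge hDU h4.ge) hDne
  have hab : b < a := by
    rw [← hS1, ← hS2, ha, hb] at hDlt
    have h1 : (r ^ b) ^ 2 < (r ^ a) ^ 2 := lt_of_mul_lt_mul_right hDlt (Nat.zero_le _)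
    have h2 : r ^ b < r ^ a := lt_of_pow_lt_pow_left₀ 2 (Nat.zero_le _) h1
    exact (Nat.pow_lt_pow_iff_right hr.one_lt).mp h2
  rw [ha, hb] at hfix
  apply hnb
  have hbad := bad_of_sq hp.out hr hrp hab hfix
  exact hbad.mono (by rw [← ha]; exact hdvdθ)

end CfsgLib.FgSD
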