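import Cfsg.Agent.LibFgSD3

set_option autoImplicit false
set_option linter.all false

/-! Degrees of characters of solvable groups and normality of Sylow subgroups: induction. -/

open Cfsg CfsgLib.CharBasic CfsgLib.CharIndA CfsgLib.Clifford CfsgLib.CharMore
open scoped ComplexConjugate commutatorElement

namespace CfsgLib.FgSD

universe u

theorem pow_of_le {G : Type u} [Group G] [Finite G] {p : ℕ} (hp : p.Prime) {z : G} {k K : ℕ} (hz : z ^ p ^ k = 1)
    (hK : Nat.card G ≤ K) : z ^ p ^ K = 1 := by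
  obtain ⟨j, -, hj⟩ := (Nat.dvd_prime_pow hp).mp (orderOf_dvd_of_pow_eq_one hz)
  have h1 : orderOf z ≤ Nat.card G := Nat.le_of_dvd Nat.card_pos (orderOf_dvd_natCard z)
  have h2 : j < p ^ j := Nat.lt_pow_self hp.one_lt
  rw [← orderOf_dvd_iff_pow_eq_one, hj]
  apply pow_dvd_pow
  omega

theorem main_T (p : ℕ) [hp : Fact p.Prime] : ∀ (n : ℕ) (G : Type u) [Group G] [Finite G] [Group.IsSolvable G],
    Nat.card G = n → ∀ χ : G → ℂ, IsIrrCharacter G χ → ¬ Bad p (charDegree χ) →
    ∀ x y : G, (∃ k : ℕ, x ^ p ^ k = 1) → (∃ k : ℕ, y ^ p ^ k = 1) → ∀ K : ℕ, n ≤ K → χ ((x * y) ^ p ^ K) = χ 1 := by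
  intro n
  induction n using Nat.strong_induction_on with
  | _ n ih =>
  intro G _ _ _ hcard χ hχ hnb x y hx hy K hK
  haveI := Fintype.ofFinite G
  by_cases hf : ∀ g, χ g = χ 1 → g = 1
  · by_cases hgen : Subgroup.closure {g : G | ∃ k : ℕ, g ^ p ^ k = 1} = ⊤
    · have hcomm := main_step p hχ hf hgen hnb
      obtain ⟨k, hk⟩ := hx
      obtain ⟨l, hl⟩ := hy
      have h1 : (x * y) ^ p ^ (k + l) = 1 := by
        rw [(show Commute x y from hcomm x y).mul_pow, pow_add, pow_mul, hk, one_pow, one_mul, mul_comm (p ^ k), pow_mul, hl, one_pow]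
      rw [pow_of_le hp.out h1 (by rw [hcard]; exact hK)]
    · obtain ⟨O, hO⟩ : ∃ O, O = Subgroup.closure {g : G | ∃ k : ℕ, g ^ p ^ k = 1} := ⟨_, rfl⟩
      have hmem : ∀ g : G, (∃ k : ℕ, g ^ p ^ k = 1) → g ∈ O := by
        intro g hg
        rw [hO]
        exact Subgroup.subset_closure hg
      have hconj : ∀ g z : G, (∃ k : ℕ, z ^ p ^ k = 1) → ∃ k : ℕ, (g * z * g⁻¹) ^ p ^ k = 1 := by
        rintro g z ⟨k, hk⟩
        exact ⟨k, by rw [conj_pow, hk, mul_one, mul_inv_cancel]⟩
      have hOn : O.Normal := by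
        constructor
        intro a ha g
        have h1 : O.map (MulAut.conj g).toMonoidHom ≤ O := by
          rw [hO, MonoidHom.map_closure]
          apply Subgroup.closure_mono
          rintro _ ⟨z, hz, rfl⟩
          exact hconj g z hz
        exact h1 ⟨a, ha, rfl⟩
      haveI := Fintype.ofFinite O
      have hlt : Nat.card O < n := by
        rw [← hcard]
        have h1 := Subgroup.card_le_card_group O
        rcases h1.lt_or_eq with h2 | h2
        · exact h2
        · exfalso
          apply hgen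
          rw [← hO]
          exact Subgroup.eq_top_of_card_eq O h2
      obtain ⟨θ, hθ, hm⟩ := exists_below O hχ
      obtain ⟨m, hm'⟩ := deg_fac hχ hOn hθ hm
      have hnb' : ¬ Bad p (charDegree θ) := by
        intro h
        apply hnb
        apply h.mono
        rw [hm']
        exact ⟨m * (inertia hOn θ).index, by ring⟩
      obtain ⟨z, hz⟩ : ∃ z : O, (z : G) = x * y := ⟨⟨x * y, O.mul_mem (hmem x hx) (hmem y hy)⟩, rfl⟩
      have hcj : ∀ g : G, cj hOn g θ (z ^ p ^ K) = θ 1 := by
        intro g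
        rw [cj_apply]
        have h1 := ih _ hlt O rfl θ hθ hnb' ⟨g * x * g⁻¹, hmem _ (hconj g x hx)⟩ ⟨g * y * g⁻¹, hmem _ (hconj g y hy)⟩
          (by
            obtain ⟨k, hk⟩ := hconj g x hx
            exact ⟨k, Subtype.ext hk⟩)
          (by
            obtain ⟨k, hk⟩ := hconj g y hy
            exact ⟨k, Subtype.ext hk⟩) K (by omega)
        rw [← h1]
        congr 1
        apply Subtype.ext
        show g * ((z ^ p ^ K : O) : G) * g⁻¹ = _
        rw [Subgroup.coe_pow, hz, Subgroup.coe_pow]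
        show g * (x * y) ^ p ^ K * g⁻¹ = (g * x * g⁻¹ * (g * y * g⁻¹)) ^ p ^ K
        rw [← conj_pow]
        congr 1
        group
      have h2 := clifford_sum hOn hχ hθ hm
      have h3 := congrFun h2 (z ^ p ^ K)
      have h4 := congrFun h2 1
      simp only [Pi.smul_apply, Finset.sum_apply, cj_one_apply] at h3 h4
      simp only [hcj] at h3
      rw [← h4] at h3
      have h5 : χ ((z ^ p ^ K : O) : G) = χ ((1 : O) : G) := h3
      rw [Subgroup.coe_pow, hz] at h5
      exact h5
  · -- quotient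
    obtain ⟨K0, hK0, χ', hmem, hirr, hval, hfaith⟩ := exists_faithful_quotient hχ
    have hne : K0 ≠ ⊥ := by
      intro h
      apply hf
      intro g hg
      have := (hmem g).mpr hg
      rw [h, Subgroup.mem_bot] at this
      exact this
    have hlt : Nat.card (G ⧸ K0) < n := by
      rw [← hcard]
      have h1 := Subgroup.card_eq_card_quotient_mul_card_subgroup K0
      have h2 : 1 < Nat.card K0 := by
        rw [Finite.one_lt_card_iff_nontrivial]
        exact (Subgroup.nontrivial_iff_ne_bot K0).mpr hne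
      have h3 : 0 < Nat.card (G ⧸ K0) := Nat.card_pos
      rw [h1]
      exact (lt_mul_iff_one_lt_right h3).mpr h2
    have hdeg : charDegree χ' = charDegree χ := by
      have h1 := CfsgLib.CharInt.irr_one_eq_charDegree hχ
      have h2 := CfsgLib.CharInt.irr_one_eq_charDegree hirr
      have h3 := hval 1
      rw [h1, QuotientGroup.mk_one, h2] at h3
      exact_mod_cast h3.symm
    have h1 := ih _ hlt (G ⧸ K0) rfl χ' hirr (by rw [hdeg]; exact hnb) (x : G ⧸ K0) (y : G ⧸ K0)
      (by
        obtain ⟨k, hk⟩ := hx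
        exact ⟨k, by rw [← QuotientGroup.mk_pow, hk, QuotientGroup.mk_one]⟩)
      (by
        obtain ⟨k, hk⟩ := hy
        exact ⟨k, by rw [← QuotientGroup.mk_pow, hk, QuotientGroup.mk_one]⟩) K (by omega)
    rw [hval, hval 1, QuotientGroup.mk_pow, QuotientGroup.mk_mul, QuotientGroup.mk_one]
    exact h1

end CfsgLib.FgSD
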