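import Mathlib

/-!
# `p`-elements of `SL₂(F)` normalizing `p'`-subgroups: trace computations
-/

set_option autoImplicit false
set_option linter.unusedSectionVars false
set_option linter.unusedVariables false

namespace CfsgLib.FgSLp

open Matrix

variable {F : Type*} [Field F]

local notation "M2" => Matrix (Fin 2) (Fin 2)

theorem ch2 (M : M2 F) : M * M = M.trace • M - M.det • (1 : M2 F) := by
  ext i j
  fin_cases i <;> fin_cases j <;>
    simp [Matrix.mul_apply, Fin.sum_univ_two, Matrix.trace_fin_two, Matrix.det_fin_two] <;> ring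

theorem sq_zero_of_nilp {M : M2 F} {n : ℕ} (h : M ^ n = 0) : M * M = 0 ∧ M.trace = 0 ∧ M.det = 0 := by
  have hn : IsNilpotent M := ⟨n, h⟩
  have h1 : M.trace = 0 := (Matrix.isNilpotent_trace_of_isNilpotent hn).eq_zero
  have h2 : M.det = 0 := by
    have h3 : M.det ^ n = 0 := by
      rw [← Matrix.det_pow, h]
      rcases Nat.eq_zero_or_pos n with h0 | h0
      · subst h0
        exfalso
        rw [pow_zero] at h
        exact one_ne_zero h
      · exact Matrix.det_zero
    exact pow_eq_zero_iff (n := n) (by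
      rintro rfl
      rw [pow_zero] at h
      exact one_ne_zero h) |>.mp h3
  refine ⟨?_, h1, h2⟩
  rw [ch2, h1, h2]; simp

/-- a `p`-element minus one squares to zero -/
theorem sub_one_sq {p : ℕ} [Fact p.Prime] [CharP F p] {A : M2 F} {k : ℕ} (h : A ^ p ^ k = 1) :
    (A - 1) * (A - 1) = 0 ∧ (A - 1).trace = 0 ∧ (A - 1).det = 0 := by
  apply sq_zero_of_nilp (n := p ^ k)
  have : CharP (M2 F) p := inferInstance
  rw [sub_pow_char_pow_of_commute p k (Commute.one_right A), h, one_pow, sub_self]

/-- the key identity -/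
theorem disc_zero {g M : M2 F} (hM : M * M = 0) (ht : M.trace = 0) (hM0 : M ≠ 0) (hc : g * M = M * g) :
    g.trace ^ 2 = 4 * g.det := by
  rw [Matrix.trace_fin_two] at ht
  rw [Matrix.trace_fin_two, Matrix.det_fin_two]
  have e11 : M 0 0 * M 0 0 + M 0 1 * M 1 0 = 0 := by
    have := congrFun (congrFun hM 0) 0
    simpa [Matrix.mul_apply, Fin.sum_univ_two] using this
  have c00 := congrFun (congrFun hc 0) 0
  have c01 := congrFun (congrFun hc 0) 1
  have c10 := congrFun (congrFun hc 1) 0
  simp only [Matrix.mul_apply, Fin.sum_univ_two] at c00 c01 c10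
  have hd : M 1 1 = - M 0 0 := by linear_combination ht
  rw [hd] at c01
  by_cases hx : M 0 0 = 0
  · rw [hx] at c01 c10 e11
    rw [hd, hx] at c10
    have hyz : M 0 1 * M 1 0 = 0 := by linear_combination e11
    by_cases hy : M 0 1 = 0
    · have hz : M 1 0 ≠ 0 := by
        intro hz
        apply hM0
        ext i j
        fin_cases i <;> fin_cases j
        · exact hx
        · exact hy
        · exact hz
        · show M 1 1 = 0
          rw [hd, hx, neg_zero]
      rw [hy] at c00
      have h1 : g 0 1 = 0 := by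
        have : g 0 1 * M 1 0 = 0 := by linear_combination c00
        exact (mul_eq_zero.mp this).resolve_right hz
      have h2 : g 1 1 = g 0 0 := by
        have : (g 1 1 - g 0 0) * M 1 0 = 0 := by linear_combination c10
        exact sub_eq_zero.mp ((mul_eq_zero.mp this).resolve_right hz)
      rw [h1, h2]; ring
    · have hz : M 1 0 = 0 := (mul_eq_zero.mp hyz).resolve_left hy
      rw [hz] at c00
      have h1 : g 1 0 = 0 := by
        have : g 1 0 * M 0 1 = 0 := by linear_combination -c00
        exact (mul_eq_zero.mp this).resolve_right hy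
      have h2 : g 1 1 = g 0 0 := by
        have : (g 1 1 - g 0 0) * M 0 1 = 0 := by linear_combination -c01
        exact sub_eq_zero.mp ((mul_eq_zero.mp this).resolve_right hy)
      rw [h1, h2]; ring
  · have key : (M 0 0) ^ 2 * ((g 0 0 + g 1 1) ^ 2 - 4 * (g 0 0 * g 1 1 - g 0 1 * g 1 0)) = 0 := by
      have f1 : M 0 1 * (g 0 0 - g 1 1) = 2 * M 0 0 * g 0 1 := by linear_combination c01
      have f2 : M 1 0 * (g 0 0 - g 1 1) = 2 * M 0 0 * g 1 0 := by
        rw [hd] at c10
        linear_combination -c10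
      have f3 : 4 * (M 0 0) ^ 2 * (g 0 1 * g 1 0) = M 0 1 * M 1 0 * (g 0 0 - g 1 1) ^ 2 := by
        linear_combination (-1 : F) * (M 1 0 * (g 0 0 - g 1 1)) * f1 - 2 * M 0 0 * g 0 1 * f2
      linear_combination f3 + (g 0 0 - g 1 1) ^ 2 * e11
    have h1 := (mul_eq_zero.mp key).resolve_left (pow_ne_zero 2 hx)
    linear_combination h1

local notation "SL2" => Matrix.SpecialLinearGroup (Fin 2)

theorem trace_of_dvd {p : ℕ} [hp : Fact p.Prime] [CharP F p] (g : SL2 F) (h0 : orderOf g ≠ 0)
    (hg : p ∣ orderOf g) : (g : M2 F).trace = 2 ∨ (g : M2 F).trace = -2 := by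
  obtain ⟨m, hm⟩ := hg
  have hm0 : m ≠ 0 := by rintro rfl; exact h0 (by rw [hm, mul_zero])
  have hu : orderOf (g ^ m) = p := by
    rw [orderOf_pow_of_dvd hm0 ⟨p, by rw [hm, mul_comm]⟩, hm]
    exact Nat.mul_div_cancel _ (Nat.pos_of_ne_zero hm0)
  have hu1 : g ^ m ≠ 1 := by
    intro e
    rw [e, orderOf_one] at hu
    exact hp.out.one_lt.ne hu
  have h1 : ((g ^ m : SL2 F) : M2 F) ^ p ^ 1 = 1 := by
    rw [pow_one, ← Matrix.SpecialLinearGroup.coe_pow, ← hu, pow_orderOf_eq_one]
    rfl
  obtain ⟨h2, h3, h4⟩ := sub_one_sq (p := p) h1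
  have h5 := disc_zero (g := (g : M2 F)) h2 h3 (by
    intro e
    apply hu1
    apply Subtype.ext
    exact sub_eq_zero.mp e) (by
    have : g * g ^ m = g ^ m * g := (Commute.refl g).pow_right m
    have h6 := congrArg (fun x : SL2 F => (x : M2 F)) this
    simp only [Matrix.SpecialLinearGroup.coe_mul] at h6
    rw [mul_sub, sub_mul, mul_one, one_mul, h6])
  rw [g.2] at h5
  have h6 : ((g : M2 F).trace - 2) * ((g : M2 F).trace + 2) = 0 := by linear_combination h5
  rcases mul_eq_zero.mp h6 with h | h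
  · left; linear_combination h
  · right; linear_combination h

theorem eq_one_of_trace {p : ℕ} [hp : Fact p.Prime] [CharP F p] (c : SL2 F) (ht : (c : M2 F).trace = 2)
    {m : ℕ} (hm : c ^ m = 1) (hpm : m.Coprime p) : c = 1 := by
  have h1 : ((c : M2 F) - 1) * ((c : M2 F) - 1) = 0 := by
    have := ch2 (c : M2 F)
    rw [ht, c.2] at this
    rw [mul_sub, sub_mul, mul_one, one_mul, this]
    ext i j
    simp
    ring
  have h2 : (c : M2 F) ^ p = 1 := by
    have h3 : ((c : M2 F) - 1) ^ p = 0 := by
      have : ((c : M2 F) - 1) ^ 2 = 0 := by rw [pow_two]; exact h1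
      exact pow_eq_zero_of_le hp.out.two_le this
    rw [sub_pow_char_of_commute p (Commute.one_right _), one_pow] at h3
    exact sub_eq_zero.mp h3
  have h3 : c ^ p = 1 := by
    apply Subtype.ext
    rw [Matrix.SpecialLinearGroup.coe_pow]
    exact h2
  have h4 : orderOf c ∣ m := orderOf_dvd_of_pow_eq_one hm
  have h5 : orderOf c ∣ p := orderOf_dvd_of_pow_eq_one h3
  exact orderOf_eq_one_iff.mp (Nat.eq_one_of_dvd_coprimes hpm h4 h5)

/-- powers of `1 + N`, `N² = 0` -/
theorem pow_one_add {N : M2 F} (hN : N * N = 0) (k : ℕ) : (1 + N) ^ k = 1 + (k : F) • N := by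
  induction k with
  | zero => simp
  | succ k ih =>
    have h1 : ((k : F) • N) * N = 0 := by rw [smul_mul_assoc, hN, smul_zero]
    rw [pow_succ, ih, mul_add, mul_one, add_mul, one_mul, h1, add_zero]
    push_cast
    rw [add_smul, one_smul]
    abel

/-- trace of a commutator with `1 + N` -/
theorem trace_comm {N r s : M2 F} (hN : N * N = 0) (ht : N.trace = 0) (hr : r.det = 1)
    (hs : s = !![r 1 1, - r 0 1; - r 1 0, r 0 0]) :
    (r * (1 + N) * s * (1 - N)).trace = 2 + (N * r).trace ^ 2 := by
  rw [Matrix.trace_fin_two] at ht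
  rw [Matrix.det_fin_two] at hr
  have e11 : N 0 0 * N 0 0 + N 0 1 * N 1 0 = 0 := by
    have := congrFun (congrFun hN 0) 0
    simpa [Matrix.mul_apply, Fin.sum_univ_two] using this
  have hd : N 1 1 = - N 0 0 := by linear_combination ht
  subst hs
  simp only [Matrix.trace_fin_two, Matrix.mul_apply, Fin.sum_univ_two, Matrix.add_apply, Matrix.sub_apply,
    Matrix.one_apply_eq, Matrix.one_apply_ne (show (0 : Fin 2) ≠ 1 by decide),
    Matrix.one_apply_ne (show (1 : Fin 2) ≠ 0 by decide), Matrix.of_apply, Matrix.cons_val', Matrix.cons_val_zero,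
    Matrix.cons_val_one, Matrix.cons_val_fin_one, hd]
  linear_combination 2 * hr + (2 * (r 0 0 * r 1 1 - r 0 1 * r 1 0) - (r 0 0 + r 1 1) ^ 2) * e11

end CfsgLib.FgSLp
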