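import Mathlib
import Cfsg.Agent.LibFgSLp

/-!
# `p`-elements of `SL₂(F)` normalizing `p'`-subgroups
-/

set_option autoImplicit false
set_option linter.unusedSectionVars false
set_option linter.unusedVariables false

namespace CfsgLib.FgSLp

open Matrix

local notation "M2" => Matrix (Fin 2) (Fin 2)
local notation "SL2" => Matrix.SpecialLinearGroup (Fin 2)

theorem pow_conj {G : Type*} [Group G] {R : Subgroup G} {b : G} (hb : b ∈ Subgroup.normalizer (R : Set G)) {r : G}
    (hr : r ∈ R) (m : ℕ) : ∃ r' ∈ R, (b * r) ^ m = b ^ m * r' := by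
  induction m with
  | zero => exact ⟨1, R.one_mem, by simp⟩
  | succ m ih =>
    obtain ⟨r', hr', h⟩ := ih
    refine ⟨b⁻¹ * r' * b * r, R.mul_mem ?_ hr, ?_⟩
    · have h1 := (Subgroup.mem_normalizer_iff.mp (Subgroup.inv_mem _ hb) r').mp hr'
      simpa using h1
    · rw [pow_succ, h, pow_succ]; group

/-- products `a^k r` have order divisible by `p` -/
theorem dvd_order {G : Type*} [Group G] [Finite G] {p : ℕ} [hp : Fact p.Prime] {R : Subgroup G} (hR : (Nat.card R).Coprime p)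
    {a : G} (ha : a ∈ Subgroup.normalizer (R : Set G)) (hap : orderOf a = p) {r : G} (hr : r ∈ R) {k : ℕ} (hk : ¬ p ∣ k) :
    p ∣ orderOf (a ^ k * r) := by
  by_contra hcon
  obtain ⟨r', hr', h⟩ := pow_conj (Subgroup.pow_mem _ ha k) hr (orderOf (a ^ k * r))
  rw [pow_orderOf_eq_one, ← pow_mul] at h
  have h1 : a ^ (k * orderOf (a ^ k * r)) = r'⁻¹ := eq_inv_of_mul_eq_one_left h.symm
  have h2 : a ^ (k * orderOf (a ^ k * r)) ∈ R := by rw [h1]; exact R.inv_mem hr'
  have h3 : orderOf (a ^ (k * orderOf (a ^ k * r))) ∣ Nat.card R := Subgroup.orderOf_dvd_natCard R h2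
  have h4 : orderOf (a ^ (k * orderOf (a ^ k * r))) ∣ p := by
    rw [← hap]; exact orderOf_pow_dvd _
  have h5 := Nat.eq_one_of_dvd_coprimes hR h3 h4
  rw [orderOf_eq_one_iff] at h5
  have h6 := orderOf_dvd_of_pow_eq_one h5
  rw [hap] at h6
  rcases (Nat.Prime.dvd_mul hp.out).mp h6 with h7 | h7
  · exact hk h7
  · exact hcon h7

section

variable {F : Type*} [Field F] [Finite F] {p : ℕ} [hp : Fact p.Prime] [CharP F p]
  {a : SL2 F} (ha : IsPGroup p ↥(Subgroup.zpowers a)) {R : Subgroup (SL2 F)} (hR : (Nat.card R).Coprime p)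
  (haR : a ∈ Subgroup.normalizer (R : Set (SL2 F)))

include ha in
theorem N_props : ((a : M2 F) - 1) * ((a : M2 F) - 1) = 0 ∧ ((a : M2 F) - 1).trace = 0 ∧ ((a : M2 F) - 1).det = 0 := by
  obtain ⟨k, hk⟩ := ha ⟨a, Subgroup.mem_zpowers a⟩
  have h1 : a ^ p ^ k = 1 := congrArg Subtype.val hk
  apply sub_one_sq (p := p) (k := k)
  rw [← Matrix.SpecialLinearGroup.coe_pow, h1]; rfl

include ha in
theorem order_a (h1 : a ≠ 1) : orderOf a = p := by
  obtain ⟨h2, -, -⟩ := N_props ha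
  apply orderOf_eq_prime _ h1
  apply Subtype.ext
  rw [Matrix.SpecialLinearGroup.coe_pow]
  have h3 := pow_one_add h2 p
  rw [CharP.cast_eq_zero, zero_smul, add_zero, add_sub_cancel] at h3
  exact h3

include ha in
theorem coe_pow_a (k : ℕ) : ((a ^ k : SL2 F) : M2 F) = 1 + (k : F) • ((a : M2 F) - 1) := by
  obtain ⟨h2, -, -⟩ := N_props ha
  have h3 := pow_one_add h2 k
  rw [add_sub_cancel] at h3
  rw [Matrix.SpecialLinearGroup.coe_pow, h3]

include ha in
theorem coe_inv_a : ((a⁻¹ : SL2 F) : M2 F) = 1 - ((a : M2 F) - 1) := by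
  obtain ⟨h2, -, -⟩ := N_props ha
  have h3 : (a : M2 F) * (1 - ((a : M2 F) - 1)) = 1 := by
    have : (a : M2 F) = 1 + ((a : M2 F) - 1) := by abel
    generalize (a : M2 F) - 1 = N at this h2
    rw [this]
    have h4 : (1 + N) * (1 - N) = 1 - N * N := by noncomm_ring
    rw [h4, h2, sub_zero]
  have h4 : ((a⁻¹ : SL2 F) : M2 F) * (a : M2 F) = 1 := by
    rw [← Matrix.SpecialLinearGroup.coe_mul, inv_mul_cancel]; rfl
  calc ((a⁻¹ : SL2 F) : M2 F) = ((a⁻¹ : SL2 F) : M2 F) * ((a : M2 F) * (1 - ((a : M2 F) - 1))) := by rw [h3, mul_one]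
    _ = 1 - ((a : M2 F) - 1) := by rw [← mul_assoc, h4, one_mul]

include ha in
theorem trace_pow_mul (r : SL2 F) (k : ℕ) :
    ((a ^ k * r : SL2 F) : M2 F).trace = (r : M2 F).trace + k * (((a : M2 F) - 1) * (r : M2 F)).trace := by
  rw [Matrix.SpecialLinearGroup.coe_mul, coe_pow_a ha, add_mul, one_mul, Matrix.trace_add, smul_mul_assoc,
    Matrix.trace_smul, smul_eq_mul]

include ha hR haR in
theorem trace_mem (ha1 : a ≠ 1) {r : SL2 F} (hr : r ∈ R) {k : ℕ} (hk : ¬ p ∣ k) :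
    (r : M2 F).trace + k * (((a : M2 F) - 1) * (r : M2 F)).trace = 2 ∨
      (r : M2 F).trace + k * (((a : M2 F) - 1) * (r : M2 F)).trace = -2 := by
  rw [← trace_pow_mul ha]
  apply trace_of_dvd (p := p)
  · exact (orderOf_pos _).ne'
  · exact dvd_order hR haR (order_a ha ha1) hr hk

include ha hR haR in
theorem comm_of_zero {r : SL2 F} (hr : r ∈ R) (h0 : (((a : M2 F) - 1) * (r : M2 F)).trace = 0) : r * a = a * r := by
  obtain ⟨h2, h3, -⟩ := N_props ha
  have h4 := trace_comm (N := (a : M2 F) - 1) (r := (r : M2 F)) (s := ((r⁻¹ : SL2 F) : M2 F)) h2 h3 r.2 (by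
    rw [Matrix.SpecialLinearGroup.coe_inv, Matrix.adjugate_fin_two])
  rw [h0, add_sub_cancel, ← coe_inv_a ha] at h4
  have h5 : r * a * r⁻¹ * a⁻¹ = 1 := by
    apply eq_one_of_trace (p := p) (m := Nat.card R)
    · rw [Matrix.SpecialLinearGroup.coe_mul, Matrix.SpecialLinearGroup.coe_mul, Matrix.SpecialLinearGroup.coe_mul, h4]
      ring
    · have h6 : r * a * r⁻¹ * a⁻¹ ∈ R := by
        have h7 := (Subgroup.mem_normalizer_iff.mp haR r⁻¹).mp (R.inv_mem hr)
        have h8 : r * a * r⁻¹ * a⁻¹ = r * (a * r⁻¹ * a⁻¹) := by group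
        rw [h8]; exact R.mul_mem hr h7
      have h7 : (⟨_, h6⟩ : R) ^ Nat.card R = 1 := pow_card_eq_one'
      exact congrArg Subtype.val h7
    · exact hR
  have h6 : r * a * r⁻¹ = a := by rw [mul_inv_eq_one] at h5; exact h5
  exact mul_inv_eq_iff_eq_mul.mp h6

include ha hR haR in
theorem p_eq_three (hp2 : p ≠ 2) (ha1 : a ≠ 1) {r : SL2 F} (hr : r ∈ R)
    (h0 : (((a : M2 F) - 1) * (r : M2 F)).trace ≠ 0) : p = 3 := by
  by_contra h3
  have hp5 : 5 ≤ p := by
    have := hp.out.two_le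
    by_contra hcon
    interval_cases p
    · exact hp2 rfl
    · exact h3 rfl
    · exact absurd hp.out (by decide)
  have hn2 : ¬ p ∣ 2 := fun h => by have := Nat.le_of_dvd (by norm_num) h; omega
  have hn3 : ¬ p ∣ 3 := fun h => by have := Nat.le_of_dvd (by norm_num) h; omega
  have hn1 : ¬ p ∣ 1 := fun h => by have := Nat.le_of_dvd (by norm_num) h; omega
  have t1 := trace_mem ha hR haR ha1 hr hn1
  have t2 := trace_mem ha hR haR ha1 hr hn2
  have t3 := trace_mem ha hR haR ha1 hr hn3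
  generalize (((a : M2 F) - 1) * (r : M2 F)).trace = ν at h0 t1 t2 t3
  generalize (r : M2 F).trace = τ at t1 t2 t3
  have hnz2 : (2 : F) ≠ 0 := by
    intro h
    have : ((2 : ℕ) : F) = 0 := by exact_mod_cast h
    exact hn2 ((CharP.cast_eq_zero_iff F p 2).mp this)
  have hnz4 : (4 : F) ≠ 0 := by
    have : (4 : F) = 2 * 2 := by norm_num
    rw [this]; exact mul_ne_zero hnz2 hnz2
  have hnz8 : (8 : F) ≠ 0 := by
    have : (8 : F) = 2 * (2 * 2) := by norm_num
    rw [this]; exact mul_ne_zero hnz2 (mul_ne_zero hnz2 hnz2)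
  push_cast at t1 t2 t3
  rcases t1 with t1 | t1 <;> rcases t2 with t2 | t2 <;> rcases t3 with t3 | t3
  · exact h0 (by linear_combination t2 - t1)
  · exact h0 (by linear_combination t2 - t1)
  · exact hnz8 (by linear_combination (-1 : F) * t1 + 2 * t2 - t3)
  · exact hnz4 (by linear_combination (-1 : F) * t1 + 2 * t2 - t3)
  · exact hnz4 (by linear_combination t1 - 2 * t2 + t3)
  · exact hnz8 (by linear_combination t1 - 2 * t2 + t3)
  · exact h0 (by linear_combination t2 - t1)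
  · exact h0 (by linear_combination t2 - t1)

end

end CfsgLib.FgSLp
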