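import Mathlib
import Cfsg.Agent.LibFgSLp2
import Cfsg.Agent.LibSL23b

/-!
# A `3`-element of `SL₂(F)`, `F` of characteristic `3`, normalizing a `3'`-subgroup
-/

set_option autoImplicit false
set_option linter.unusedSectionVars false
set_option linter.unusedVariables false

namespace CfsgLib.FgSLp

open Matrix

local notation "M2" => Matrix (Fin 2) (Fin 2)
local notation "SL2" => Matrix.SpecialLinearGroup (Fin 2)

theorem two_eq : (2 : ZMod 3) = -1 := by decide

theorem gen_sl23 : ∀ m : SL2 (ZMod 3), ∃ (k : Fin 3) (e : Fin 4) (l : Fin 3),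
    m = CfsgLib.SL23.mT ^ (k : ℕ) * CfsgLib.SL23.mI ^ (e : ℕ) * CfsgLib.SL23.mT ^ (l : ℕ) := by
  decide +kernel

/-- conjugation by an invertible matrix, on matrices with entries in the prime field -/
noncomputable def phi {F : Type*} [Field F] (f : ZMod 3 →+* F) (T : M2 F) (hT : IsUnit T.det) : SL2 (ZMod 3) →* SL2 F where
  toFun m := ⟨T * ((m : M2 (ZMod 3)).map f) * T⁻¹, by
    have h1 : ((m : M2 (ZMod 3)).map f).det = 1 := by
      have h2 := RingHom.map_det f (m : M2 (ZMod 3))
      rw [m.2, map_one] at h2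
      exact h2.symm
    rw [Matrix.det_mul, Matrix.det_mul, h1, mul_one, ← Matrix.det_mul, Matrix.mul_nonsing_inv T hT, Matrix.det_one]⟩
  map_one' := by
    apply Subtype.ext
    show T * (((1 : SL2 (ZMod 3)) : M2 (ZMod 3)).map f) * T⁻¹ = 1
    have : (((1 : SL2 (ZMod 3)) : M2 (ZMod 3)).map f) = 1 := by
      rw [Matrix.SpecialLinearGroup.coe_one, Matrix.map_one f (map_zero f) (map_one f)]
    rw [this, mul_one, Matrix.mul_nonsing_inv T hT]
  map_mul' := by
    intro m n
    apply Subtype.ext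
    show T * (((m * n : SL2 (ZMod 3)) : M2 (ZMod 3)).map f) * T⁻¹ =
      (T * ((m : M2 (ZMod 3)).map f) * T⁻¹) * (T * ((n : M2 (ZMod 3)).map f) * T⁻¹)
    rw [Matrix.SpecialLinearGroup.coe_mul, Matrix.map_mul]
    have h1 : T⁻¹ * T = 1 := Matrix.nonsing_inv_mul T hT
    calc T * ((m : M2 (ZMod 3)).map f * (n : M2 (ZMod 3)).map f) * T⁻¹
        = T * (m : M2 (ZMod 3)).map f * 1 * (n : M2 (ZMod 3)).map f * T⁻¹ := by
          rw [mul_one]; simp only [mul_assoc]
      _ = _ := by rw [← h1]; simp only [mul_assoc]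

theorem phi_coe {F : Type*} [Field F] (f : ZMod 3 →+* F) (T : M2 F) (hT : IsUnit T.det) (m : SL2 (ZMod 3)) :
    (phi f T hT m : M2 F) = T * ((m : M2 (ZMod 3)).map f) * T⁻¹ := rfl

theorem phi_inj {F : Type*} [Field F] (f : ZMod 3 →+* F) (T : M2 F) (hT : IsUnit T.det) : Function.Injective (phi f T hT) := by
  intro m n h
  have h1 : T * ((m : M2 (ZMod 3)).map f) * T⁻¹ = T * ((n : M2 (ZMod 3)).map f) * T⁻¹ := congrArg Subtype.val h
  have h2 : (m : M2 (ZMod 3)).map f = (n : M2 (ZMod 3)).map f := by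
    have h3 : T⁻¹ * T = 1 := Matrix.nonsing_inv_mul T hT
    calc (m : M2 (ZMod 3)).map f = (T⁻¹ * T) * (m : M2 (ZMod 3)).map f * (T⁻¹ * T) := by rw [h3, one_mul, mul_one]
      _ = T⁻¹ * (T * ((m : M2 (ZMod 3)).map f) * T⁻¹) * T := by simp only [mul_assoc]
      _ = T⁻¹ * (T * ((n : M2 (ZMod 3)).map f) * T⁻¹) * T := by rw [h1]
      _ = (T⁻¹ * T) * (n : M2 (ZMod 3)).map f * (T⁻¹ * T) := by simp only [mul_assoc]
      _ = _ := by rw [h3, one_mul, mul_one]
  apply Subtype.ext
  exact Matrix.map_injective f.injective h2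

/-- choice of coordinates -/
theorem exists_T {F : Type*} [Field F] {N i : M2 F} (hN : N * N = 0) (hNt : N.trace = 0) (hNd : N.det = 0)
    (hit : i.trace = 0) (hid : i.det = 1) (hc : (N * i).trace = 1) :
    ∃ T : M2 F, IsUnit T.det ∧ N * T = T * !![0, 1; 0, 0] ∧ i * T = T * !![0, -1; 1, 0] := by
  obtain ⟨v, hv0, hv⟩ := Matrix.exists_mulVec_eq_zero_iff.mpr hNd
  have hv1 : N 0 0 * v 0 + N 0 1 * v 1 = 0 := by
    have := congrFun hv 0
    simpa [Matrix.mulVec, dotProduct, Fin.sum_univ_two] using this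
  have hv2 : N 1 0 * v 0 + N 1 1 * v 1 = 0 := by
    have := congrFun hv 1
    simpa [Matrix.mulVec, dotProduct, Fin.sum_univ_two] using this
  rw [Matrix.trace_fin_two] at hNt hit
  have hd : N 1 1 = - N 0 0 := by linear_combination hNt
  have hi : i 1 1 = - i 0 0 := by linear_combination hit
  rw [Matrix.det_fin_two, hi] at hid
  rw [hd] at hv2
  simp only [Matrix.trace_fin_two, Matrix.mul_apply, Fin.sum_univ_two, hd, hi] at hc
  -- N (i v) = v
  have g1 : N 0 0 * (i 0 0 * v 0 + i 0 1 * v 1) + N 0 1 * (i 1 0 * v 0 - i 0 0 * v 1) = v 0 := by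
    linear_combination (-(i 0 0)) * hv1 - i 0 1 * hv2 + v 0 * hc
  have g2 : N 1 0 * (i 0 0 * v 0 + i 0 1 * v 1) - N 0 0 * (i 1 0 * v 0 - i 0 0 * v 1) = v 1 := by
    linear_combination (i 0 0) * hv2 - i 1 0 * hv1 + v 1 * hc
  refine ⟨!![v 0, i 0 0 * v 0 + i 0 1 * v 1; v 1, i 1 0 * v 0 - i 0 0 * v 1], ?_, ?_, ?_⟩
  · rw [isUnit_iff_ne_zero, Matrix.det_fin_two_of]
    intro hdet
    apply hv0
    have w0 : v 0 * v 0 = 0 := by
      linear_combination (-(v 0)) * g1 + (i 0 0 * v 0 + i 0 1 * v 1) * hv1 + N 0 1 * hdet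
    have w1 : v 1 * v 1 = 0 := by
      linear_combination (-(v 1)) * g2 + (i 1 0 * v 0 - i 0 0 * v 1) * hv2 - N 1 0 * hdet
    funext j
    fin_cases j
    · exact mul_self_eq_zero.mp w0
    · exact mul_self_eq_zero.mp w1
  · ext a b
    fin_cases a <;> fin_cases b <;> simp [Matrix.mul_apply, Fin.sum_univ_two, hd]
    · linear_combination hv1
    · linear_combination g1
    · linear_combination hv2
    · linear_combination g2
  · ext a b
    fin_cases a <;> fin_cases b <;> simp [Matrix.mul_apply, Fin.sum_univ_two, hi]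
    · linear_combination (-(v 0)) * hid
    · ring
    · linear_combination (-(v 1)) * hid

theorem mem_range_sub {F : Type*} [Field F] (f : ZMod 3 →+* F) {m : M2 F} (h : ∀ a b, m a b ∈ f.range) (hd : m.det = 1) :
    ∃ n : SL2 (ZMod 3), (n : M2 (ZMod 3)).map f = m := by
  choose g hg using h
  refine ⟨⟨Matrix.of g, ?_⟩, ?_⟩
  · apply f.injective
    have h1 := RingHom.map_det f (Matrix.of g)
    have h2 : f.mapMatrix (Matrix.of g) = m := by
      ext a b
      exact hg a b
    rw [h1, h2, hd, map_one]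
  · ext a b
    exact hg a b

/-- characteristic 3: everything is conjugate into `SL₂(3)` -/
theorem main3 {F : Type*} [Field F] [Finite F] [CharP F 3] {a : SL2 F} (ha : IsPGroup 3 ↥(Subgroup.zpowers a))
    {R : Subgroup (SL2 F)} (hR : (Nat.card R).Coprime 3) (haR : a ∈ Subgroup.normalizer (R : Set (SL2 F)))
    (ha1 : a ≠ 1) {r0 : SL2 F} (hr0 : r0 ∈ R) (h0 : (((a : M2 F) - 1) * (r0 : M2 F)).trace ≠ 0) :
    Nonempty (↥R ≃* QuaternionGroup 2) ∧
      Nonempty (↥(R ⊔ Subgroup.zpowers a) ≃* Matrix.SpecialLinearGroup (Fin 2) (ZMod 3)) := by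
  have : Fact (Nat.Prime 3) := ⟨by norm_num⟩
  have h3 : (3 : F) = 0 := by
    have := CharP.cast_eq_zero F 3
    exact_mod_cast this
  let f : ZMod 3 →+* F := ZMod.castHom (dvd_refl 3) F
  have hone : (1 : F) ∈ f.range := f.range.one_mem
  have hn1 : ¬ 3 ∣ 1 := by norm_num
  have hn2 : ¬ 3 ∣ 2 := by norm_num
  have htr : ∀ r ∈ R, ∀ k : ℕ, ¬ 3 ∣ k → (r : M2 F).trace + k * (((a : M2 F) - 1) * (r : M2 F)).trace = 2 ∨
      (r : M2 F).trace + k * (((a : M2 F) - 1) * (r : M2 F)).trace = -2 := fun r hr k hk =>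
    trace_mem (p := 3) ha hR haR ha1 hr hk
  -- traces lie in the prime field
  have htau : ∀ r ∈ R, (((a : M2 F) - 1) * (r : M2 F)).trace = 0 ∨
      ((r : M2 F).trace = 0 ∧ ((((a : M2 F) - 1) * (r : M2 F)).trace = 1 ∨ (((a : M2 F) - 1) * (r : M2 F)).trace = -1)) := by
    intro r hr
    have t1 := htr r hr 1 hn1
    have t2 := htr r hr 2 hn2
    generalize (((a : M2 F) - 1) * (r : M2 F)).trace = ν at t1 t2 ⊢
    generalize (r : M2 F).trace = τ at t1 t2 ⊢
    push_cast at t1 t2
    rcases t1 with t1 | t1 <;> rcases t2 with t2 | t2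
    · left; linear_combination t2 - t1
    · right
      refine ⟨by linear_combination 2 * t1 - t2 + 2 * h3, Or.inr ?_⟩
      linear_combination t2 - t1 - h3
    · right
      refine ⟨by linear_combination 2 * t1 - t2 - 2 * h3, Or.inl ?_⟩
      linear_combination t2 - t1 + h3
    · left; linear_combination t2 - t1
  have hν : ∀ r ∈ R, (((a : M2 F) - 1) * (r : M2 F)).trace ∈ f.range := by
    intro r hr
    rcases htau r hr with h | ⟨-, h | h⟩
    · rw [h]; exact f.range.zero_mem
    · rw [h]; exact hone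
    · rw [h]; exact f.range.neg_mem hone
  have hτ : ∀ r ∈ R, (r : M2 F).trace ∈ f.range := by
    intro r hr
    rcases htau r hr with h | ⟨h, -⟩
    · have t1 := htr r hr 1 hn1
      rw [h, mul_zero, add_zero] at t1
      have h2 : (2 : F) ∈ f.range := by
        have : (2 : F) = 1 + 1 := by norm_num
        rw [this]; exact f.range.add_mem hone hone
      rcases t1 with t1 | t1
      · rw [t1]; exact h2
      · rw [t1]; exact f.range.neg_mem h2
    · rw [h]; exact f.range.zero_mem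
  -- the element i
  obtain ⟨i, hi, hi0, hi1⟩ : ∃ i ∈ R, (i : M2 F).trace = 0 ∧ (((a : M2 F) - 1) * (i : M2 F)).trace = 1 := by
    rcases htau r0 hr0 with h | ⟨h, h' | h'⟩
    · exact absurd h h0
    · exact ⟨r0, hr0, h, h'⟩
    · refine ⟨r0⁻¹, R.inv_mem hr0, ?_, ?_⟩
      · rw [Matrix.SpecialLinearGroup.coe_inv, Matrix.adjugate_fin_two, Matrix.trace_fin_two_of]
        rw [Matrix.trace_fin_two] at h
        linear_combination h
      · have h4 : ((r0⁻¹ : SL2 F) : M2 F) = - (r0 : M2 F) := by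
          rw [Matrix.SpecialLinearGroup.coe_inv, Matrix.adjugate_fin_two]
          rw [Matrix.trace_fin_two] at h
          ext s t
          fin_cases s <;> fin_cases t <;> simp
          · linear_combination h
          · linear_combination h
        rw [h4, mul_neg, Matrix.trace_neg, h', neg_neg]
  obtain ⟨n1, n2, n3⟩ := N_props (p := 3) ha
  obtain ⟨T, hT, hNT, hiT⟩ := exists_T n1 n2 n3 hi0 i.2 hi1
  have hTT : T * T⁻¹ = 1 := Matrix.mul_nonsing_inv T hT
  have hTT' : T⁻¹ * T = 1 := Matrix.nonsing_inv_mul T hT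
  -- conjugated matrices
  have hconj : ∀ A B : M2 F, A * T = T * B → A = T * B * T⁻¹ := by
    intro A B h
    rw [← h, mul_assoc, hTT, mul_one]
  have hNe := hconj _ _ hNT
  have hie := hconj _ _ hiT
  have hae : (a : M2 F) = T * !![1, 1; 0, 1] * T⁻¹ := by
    have h1 : (a : M2 F) = 1 + ((a : M2 F) - 1) := by abel
    have h2 : (!![1, 1; 0, 1] : M2 F) = 1 + !![0, 1; 0, 0] := by
      ext s t; fin_cases s <;> fin_cases t <;> simp
    rw [h1, hNe, h2, mul_add, add_mul, mul_one, hTT]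
  have hainv : ((a⁻¹ : SL2 F) : M2 F) = T * !![1, -1; 0, 1] * T⁻¹ := by
    have h2 : (!![1, -1; 0, 1] : M2 F) = 1 - !![0, 1; 0, 0] := by
      ext s t; fin_cases s <;> fin_cases t <;> simp
    rw [coe_inv_a (p := 3) ha, hNe, h2, mul_sub, sub_mul, mul_one, hTT]
  have hcm : ∀ A B : M2 F, (T * A * T⁻¹) * (T * B * T⁻¹) = T * (A * B) * T⁻¹ := by
    intro A B
    calc (T * A * T⁻¹) * (T * B * T⁻¹) = T * A * (T⁻¹ * T) * B * T⁻¹ := by simp only [mul_assoc]
      _ = _ := by rw [hTT', mul_one]; simp only [mul_assoc]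
  have htrc : ∀ A : M2 F, (T * A * T⁻¹).trace = A.trace := by
    intro A
    rw [Matrix.trace_mul_comm, ← mul_assoc, hTT', one_mul]
  -- the second generator of the quaternion group
  have hj : a * i * a⁻¹ ∈ R := (Subgroup.mem_normalizer_iff.mp haR i).mp hi
  have hje : ((a * i * a⁻¹ : SL2 F) : M2 F) = T * !![1, -2; 1, -1] * T⁻¹ := by
    rw [Matrix.SpecialLinearGroup.coe_mul, Matrix.SpecialLinearGroup.coe_mul, hainv, hie, hae, hcm, hcm]
    congr 2
    ext s t; fin_cases s <;> fin_cases t <;> simp [Matrix.mul_apply, Fin.sum_univ_two] <;> norm_num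
  -- every element of R is in the image
  have hRphi : ∀ r ∈ R, ∃ m : SL2 (ZMod 3), phi f T hT m = r := by
    intro r hr
    obtain ⟨r', hr'⟩ : ∃ r' : M2 F, r' = T⁻¹ * (r : M2 F) * T := ⟨_, rfl⟩
    have hre : (r : M2 F) = T * r' * T⁻¹ := by
      rw [hr']
      calc (r : M2 F) = (T * T⁻¹) * r * (T * T⁻¹) := by rw [hTT, one_mul, mul_one]
        _ = _ := by simp only [mul_assoc]
    have t1 := hτ r hr
    have t2 := hν r hr
    have t3 := hτ (i * r) (R.mul_mem hi hr)
    have t4 := hτ (a * i * a⁻¹ * r) (R.mul_mem hj hr)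
    rw [hre, htrc, Matrix.trace_fin_two] at t1
    rw [hre, hNe, hcm, htrc, Matrix.trace_fin_two] at t2
    rw [Matrix.SpecialLinearGroup.coe_mul, hre, hie, hcm, htrc, Matrix.trace_fin_two] at t3
    rw [Matrix.SpecialLinearGroup.coe_mul, hre, hje, hcm, htrc, Matrix.trace_fin_two] at t4
    simp [Matrix.mul_apply, Fin.sum_univ_two] at t2 t3 t4
    have t2' : r' 1 0 ∈ f.range := t2
    have t3' : -r' 1 0 + r' 0 1 ∈ f.range := t3
    have t4' : r' 0 0 + -(2 * r' 1 0) + (r' 0 1 + -r' 1 1) ∈ f.range := t4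
    have u01 : r' 0 1 ∈ f.range := by
      have : r' 0 1 = (-r' 1 0 + r' 0 1) + r' 1 0 := by ring
      rw [this]; exact f.range.add_mem t3' t2'
    have u2 : r' 0 0 - r' 1 1 ∈ f.range := by
      have : r' 0 0 - r' 1 1 = (r' 0 0 + -(2 * r' 1 0) + (r' 0 1 + -r' 1 1)) + (r' 1 0 + r' 1 0) - r' 0 1 := by ring
      rw [this]
      exact f.range.sub_mem (f.range.add_mem t4' (f.range.add_mem t2' t2')) u01
    have u00 : r' 0 0 ∈ f.range := by
      have : r' 0 0 = -((r' 0 0 + r' 1 1) + (r' 0 0 - r' 1 1)) := by linear_combination (r' 0 0) * h3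
      rw [this]
      exact f.range.neg_mem (f.range.add_mem t1 u2)
    have u11 : r' 1 1 ∈ f.range := by
      have : r' 1 1 = (r' 0 0 + r' 1 1) - r' 0 0 := by ring
      rw [this]; exact f.range.sub_mem t1 u00
    have hdet : r'.det = 1 := by
      rw [hr', Matrix.det_mul, Matrix.det_mul, r.2, mul_one, ← Matrix.det_mul, hTT', Matrix.det_one]
    obtain ⟨n, hn⟩ := mem_range_sub f (m := r') (by
      intro s t
      fin_cases s <;> fin_cases t
      · exact u00
      · exact u01
      · exact t2'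
      · exact u11) hdet
    refine ⟨n, ?_⟩
    apply Subtype.ext
    rw [phi_coe, hn, ← hre]
  -- a and i are images
  have hphia : phi f T hT CfsgLib.SL23.mT = a := by
    apply Subtype.ext
    rw [phi_coe, hae]
    congr 2
    ext s t; fin_cases s <;> fin_cases t <;> simp [CfsgLib.SL23.mT]
  have hphii : phi f T hT CfsgLib.SL23.mI = i := by
    apply Subtype.ext
    rw [phi_coe, hie]
    congr 2
    have h2 : f 2 = -1 := by
      rw [two_eq, map_neg, map_one]
    ext s t; fin_cases s <;> fin_cases t <;> simp [CfsgLib.SL23.mI, h2]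
  have hX : (phi f T hT).range = R ⊔ Subgroup.zpowers a := by
    apply le_antisymm
    · rintro _ ⟨m, rfl⟩
      obtain ⟨k, e, l, rfl⟩ := gen_sl23 m
      have haX : a ∈ R ⊔ Subgroup.zpowers a := Subgroup.mem_sup_right (Subgroup.mem_zpowers a)
      have hiX : i ∈ R ⊔ Subgroup.zpowers a := Subgroup.mem_sup_left hi
      rw [map_mul, map_mul, map_pow, map_pow, map_pow, hphia, hphii]
      exact Subgroup.mul_mem _ (Subgroup.mul_mem _ (Subgroup.pow_mem _ haX _) (Subgroup.pow_mem _ hiX _)) (Subgroup.pow_mem _ haX _)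
    · apply sup_le
      · intro r hr
        obtain ⟨m, hm⟩ := hRphi r hr
        exact ⟨m, hm⟩
      · rw [Subgroup.zpowers_le]
        exact ⟨_, hphia⟩
  -- R is the set of elements of order dividing four
  have hR4 : ∀ r ∈ R, r ^ 4 = 1 := by
    intro r hr
    have hsq : (r : M2 F) * (r : M2 F) = 1 ∨ (r : M2 F) * (r : M2 F) = -1 := by
      have hch := ch2 (r : M2 F)
      rw [r.2, one_smul] at hch
      rcases htau r hr with h | ⟨h, -⟩
      · left
        have t1 := htr r hr 1 hn1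
        rw [h, mul_zero, add_zero] at t1
        have h5 : ((r * r : SL2 F) : M2 F).trace = 2 := by
          rw [Matrix.SpecialLinearGroup.coe_mul, hch, Matrix.trace_sub, Matrix.trace_smul, Matrix.trace_one, smul_eq_mul]
          rcases t1 with t1 | t1 <;> rw [t1] <;> norm_num
        have h6 : r * r = 1 := by
          apply eq_one_of_trace (p := 3) (m := Nat.card R) _ h5 _ hR
          have h7 : (⟨r * r, R.mul_mem hr hr⟩ : R) ^ Nat.card R = 1 := pow_card_eq_one'
          exact congrArg Subtype.val h7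
        rw [← Matrix.SpecialLinearGroup.coe_mul, h6]; rfl
      · right
        rw [hch, h, zero_smul, zero_sub]
    apply Subtype.ext
    rw [Matrix.SpecialLinearGroup.coe_pow, show (4 : ℕ) = 2 + 2 from rfl, pow_add, pow_two]
    rcases hsq with h | h
    · rw [h, mul_one]; rfl
    · rw [h, neg_mul_neg, mul_one]; rfl
  have h4R : ∀ x ∈ R ⊔ Subgroup.zpowers a, x ^ 4 = 1 → x ∈ R := by
    intro x hx hx4
    have hle : Subgroup.zpowers a ≤ Subgroup.normalizer (R : Set (SL2 F)) := by
      rw [Subgroup.zpowers_le]; exact haR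
    have h5 : x ∈ ((R ⊔ Subgroup.zpowers a : Subgroup (SL2 F)) : Set (SL2 F)) := hx
    rw [Subgroup.coe_mul_of_right_le_normalizer_left R (Subgroup.zpowers a) hle] at h5
    obtain ⟨r, hr, b, hb, rfl⟩ := h5
    obtain ⟨n, rfl⟩ := (mem_powers_iff_mem_zpowers.mpr hb)
    have h6 : r * a ^ n = a ^ n * ((a ^ n)⁻¹ * r * a ^ n) := by group
    have h7 : (a ^ n)⁻¹ * r * a ^ n ∈ R := by
      have h8 : (a ^ n)⁻¹ ∈ Subgroup.normalizer (R : Set (SL2 F)) := Subgroup.inv_mem _ (Subgroup.pow_mem _ haR n)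
      have h9 := (Subgroup.mem_normalizer_iff.mp h8 r).mp hr
      rwa [inv_inv] at h9
    by_cases hn : 3 ∣ n
    · obtain ⟨m, rfl⟩ := hn
      have h8 : a ^ (3 * m) = 1 := by
        rw [pow_mul]
        have h9 : a ^ 3 = 1 := by
          rw [← order_a (p := 3) ha ha1]; exact pow_orderOf_eq_one a
        rw [h9, one_pow]
      show r * a ^ (3 * m) ∈ R
      rw [h8, mul_one]; exact hr
    · exfalso
      have h8 := dvd_order (p := 3) hR haR (order_a (p := 3) ha ha1) h7 hn
      have h9 : (a ^ n * ((a ^ n)⁻¹ * r * a ^ n)) ^ 4 = 1 := by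
        rw [← h6]; exact hx4
      have h10 := h8.trans (orderOf_dvd_of_pow_eq_one h9)
      omega
  constructor
  · let qh : QuaternionGroup 2 →* SL2 (ZMod 3) := MonoidHom.mk' CfsgLib.SL23.qf CfsgLib.SL23.qf_mul
    have hinj : Function.Injective ((phi f T hT).comp qh) :=
      (phi_inj f T hT).comp (fun x y h => CfsgLib.SL23.qf_inj x y h)
    have hrange : ((phi f T hT).comp qh).range = R := by
      apply le_antisymm
      · rintro _ ⟨x, rfl⟩
        apply h4R
        · rw [← hX]; exact ⟨_, rfl⟩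
        · rw [← map_pow]
          have h5 : (CfsgLib.SL23.qf x) ^ 4 = 1 := by
            have := CfsgLib.SL23.qf_mem x
            rw [show (4 : ℕ) = 1 + 1 + 1 + 1 from rfl, pow_add, pow_add, pow_add, pow_one]
            exact this
          have h6 : x ^ 4 = 1 := by
            apply CfsgLib.SL23.qf_inj
            have h7 : qh (x ^ 4) = (qh x) ^ 4 := map_pow qh x 4
            have h8 : qh 1 = 1 := map_one qh
            exact (h7.trans h5).trans h8.symm
          rw [h6, map_one]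
      · intro r hr
        obtain ⟨m, hm⟩ := hRphi r hr
        have h5 : m ^ 4 = 1 := by
          apply phi_inj f T hT
          rw [map_pow, hm, hR4 r hr, map_one]
        obtain ⟨y, hy⟩ := CfsgLib.SL23.qf_surj m (by
          rw [show (4 : ℕ) = 1 + 1 + 1 + 1 from rfl, pow_add, pow_add, pow_add, pow_one] at h5
          exact h5)
        refine ⟨y, ?_⟩
        show phi f T hT (CfsgLib.SL23.qf y) = r
        rw [hy, hm]
    exact ⟨((MonoidHom.ofInjective hinj).trans (MulEquiv.subgroupCongr hrange)).symm⟩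
  · exact ⟨((MonoidHom.ofInjective (phi_inj f T hT)).trans (MulEquiv.subgroupCongr hX)).symm⟩

theorem main {F : Type*} [Field F] [Finite F] {p : ℕ} [hpf : Fact p.Prime] [CharP F p] (hp : p ≠ 2)
    (a : SL2 F) (ha : IsPGroup p ↥(Subgroup.zpowers a)) (R : Subgroup (SL2 F)) (hR : (Nat.card R).Coprime p)
    (haR : a ∈ Subgroup.normalizer (R : Set (SL2 F))) (hnt : ⁅R, Subgroup.zpowers a⁆ ≠ ⊥) :
    p = 3 ∧ Nonempty (↥R ≃* QuaternionGroup 2) ∧
      Nonempty (↥(R ⊔ Subgroup.zpowers a) ≃* Matrix.SpecialLinearGroup (Fin 2) (ZMod 3)) := by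
  have ha1 : a ≠ 1 := by
    rintro rfl
    apply hnt
    rw [Subgroup.zpowers_one_eq_bot, Subgroup.commutator_bot_right]
  obtain ⟨r0, hr0, h0⟩ : ∃ r0 ∈ R, (((a : M2 F) - 1) * (r0 : M2 F)).trace ≠ 0 := by
    by_contra hcon
    push Not at hcon
    apply hnt
    rw [Subgroup.commutator_eq_bot_iff_le_centralizer]
    intro r hr
    rw [Subgroup.mem_centralizer_iff]
    intro b hb
    obtain ⟨k, rfl⟩ := Subgroup.mem_zpowers_iff.mp hb
    have h1 : Commute a r := (comm_of_zero (p := p) ha hR haR hr (hcon r hr)).symm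
    exact h1.zpow_left k
  have h3 : p = 3 := p_eq_three (p := p) ha hR haR hp ha1 hr0 h0
  subst h3
  exact ⟨rfl, main3 ha hR haR ha1 hr0 h0⟩

end CfsgLib.FgSLp
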