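import Mathlib

set_option autoImplicit false
set_option linter.style.haveILetI false

/-! Additive endomorphisms of a finite field of characteristic 2 are combinations of field automorphisms -/

namespace CfsgLib.FieldSpan

variable {F : Type*} [Field F]

section
variable [Algebra (ZMod 2) F]

/-- ring automorphisms as algebra homomorphisms over the prime field -/
def toAlg (σ : F ≃+* F) : F →ₐ[ZMod 2] F :=
  { (σ : F →+* F) with
    commutes' := fun r => RingHom.congr_fun (Subsingleton.elim ((σ : F →+* F).comp (algebraMap (ZMod 2) F)) (algebraMap (ZMod 2) F)) r }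

theorem toAlg_apply (σ : F ≃+* F) (x : F) : toAlg σ x = σ x := rfl

theorem toAlg_inj : Function.Injective (toAlg : (F ≃+* F) → _) := by
  intro σ τ h
  ext x
  rw [← toAlg_apply, h, toAlg_apply]

theorem toAlg_surj [Finite F] : Function.Surjective (toAlg : (F ≃+* F) → (F →ₐ[ZMod 2] F)) := by
  intro f
  have hf : Function.Bijective f := by
    rw [Finite.injective_iff_bijective.symm] 
    exact f.toRingHom.injective
  exact ⟨RingEquiv.ofBijective f hf, by ext x; rfl⟩

theorem indep : LinearIndependent F (fun σ : F ≃+* F => (toAlg σ).toLinearMap) :=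
  (linearIndependent_toLinearMap (ZMod 2) F F).comp toAlg toAlg_inj

theorem exists_basis [Finite F] : ∃ b : Module.Basis (F ≃+* F) F (F →ₗ[ZMod 2] F), ∀ (σ : F ≃+* F) (x : F), b σ x = σ x := by
  classical
  haveI : Finite (F →ₐ[ZMod 2] F) := inferInstance
  haveI : Finite (F ≃+* F) := Finite.of_injective _ toAlg_inj
  haveI := Fintype.ofFinite (F ≃+* F)
  have hc : Fintype.card (F ≃+* F) = Module.finrank F (F →ₗ[ZMod 2] F) := by
    rw [Module.finrank_linearMap_self, ← Nat.card_eq_fintype_card, Nat.card_eq_of_bijective _ ⟨toAlg_inj, toAlg_surj⟩]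
    exact FiniteField.natCard_algHom_of_finrank_dvd (dvd_refl _)
  refine ⟨basisOfLinearIndependentOfCardEqFinrank indep hc, ?_⟩
  intro σ x
  rw [coe_basisOfLinearIndependentOfCardEqFinrank]
  rfl

end

theorem indep_fun : LinearIndependent F (fun σ : F ≃+* F => ((σ : F →+* F) : F → F)) := by
  have := (linearIndependent_monoidHom F F).comp (fun σ : F ≃+* F => ((σ : F →+* F) : F →* F)) (by
    intro σ τ h
    ext x
    exact DFunLike.congr_fun h x)
  exact this

theorem add_span [Finite F] [CharP F 2] (f : F →+ F) :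
    ∃ (s : Finset (F ≃+* F)) (c : (F ≃+* F) → F), ∀ x : F, f x = ∑ σ ∈ s, c σ * σ x := by
  classical
  letI : Algebra (ZMod 2) F := ZMod.algebra F 2
  obtain ⟨b, hb⟩ := exists_basis (F := F)
  haveI : Finite (F ≃+* F) := Finite.of_injective _ toAlg_inj
  haveI := Fintype.ofFinite (F ≃+* F)
  let g : F →ₗ[ZMod 2] F := AddMonoidHom.toZModLinearMap 2 f
  refine ⟨Finset.univ, fun σ => b.repr g σ, fun x => ?_⟩
  have h := b.sum_repr g
  have h2 := congrArg (fun l : F →ₗ[ZMod 2] F => l x) h
  simp only [LinearMap.sum_apply, LinearMap.smul_apply, hb, smul_eq_mul] at h2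
  rw [h2]
  rfl

theorem biadd_span [Finite F] [CharP F 2] (B : F →+ F →+ F) :
    ∃ (s : Finset ((F ≃+* F) × (F ≃+* F))) (c : (F ≃+* F) × (F ≃+* F) → F),
        ∀ x y : F, B x y = ∑ p ∈ s, c p * (p.1 x * p.2 y) := by
  classical
  letI : Algebra (ZMod 2) F := ZMod.algebra F 2
  obtain ⟨b, hb⟩ := exists_basis (F := F)
  haveI : Finite (F ≃+* F) := Finite.of_injective _ toAlg_inj
  haveI := Fintype.ofFinite (F ≃+* F)
  let g : (F →+ F) → (F →ₗ[ZMod 2] F) := fun f => AddMonoidHom.toZModLinearMap 2 f
  have hexp : ∀ (f : F →+ F) (x : F), f x = ∑ σ, b.repr (g f) σ * σ x := by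
    intro f x
    have h := b.sum_repr (g f)
    have h2 := congrArg (fun l : F →ₗ[ZMod 2] F => l x) h
    simp only [LinearMap.sum_apply, LinearMap.smul_apply, hb, smul_eq_mul] at h2
    rw [h2]
    rfl
  have hgadd : ∀ f f' : F →+ F, g (f + f') = g f + g f' := by
    intro f f'; ext x; rfl
  let C : (F ≃+* F) → (F →+ F) := fun τ => AddMonoidHom.mk' (fun x => b.repr (g (B x)) τ) (by
    intro x y
    rw [map_add, hgadd, map_add, Finsupp.add_apply])
  refine ⟨Finset.univ, fun p => b.repr (g (C p.2)) p.1, fun x y => ?_⟩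
  rw [hexp (B x) y, Fintype.sum_prod_type, Finset.sum_comm]
  apply Finset.sum_congr rfl
  intro τ _
  have h3 : b.repr (g (B x)) τ = C τ x := rfl
  rw [h3, hexp (C τ) x, Finset.sum_mul]
  apply Finset.sum_congr rfl
  intro σ _
  ring

theorem quad_span [Finite F] [CharP F 2] (q : F → F)
    (hq : ∀ x y z : F, q (x + y + z) + q (x + y) + q (x + z) + q (y + z) + q x + q y + q z = 0) :
    ∃ (s : Finset ((F ≃+* F) × (F ≃+* F))) (c : (F ≃+* F) × (F ≃+* F) → F),
      ∀ x : F, q x = ∑ p ∈ s, c p * (p.1 x * p.2 x) := by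
  classical
  letI : Algebra (ZMod 2) F := ZMod.algebra F 2
  have h2 : ∀ x : F, x + x = 0 := CharTwo.add_self_eq_zero
  have hq0 : q 0 = 0 := by
    have := hq 0 0 0
    simp only [add_zero] at this
    have e : q 0 + q 0 + q 0 + q 0 + q 0 + q 0 + q 0 = q 0 + (q 0 + q 0) + (q 0 + q 0) + (q 0 + q 0) := by ring
    rw [e, h2, add_zero, add_zero, add_zero] at this
    exact this
  -- the polar form
  let β : F → F → F := fun x y => q (x + y) + q x + q y
  have hβ1 : ∀ x y z, β (x + y) z = β x z + β y z := by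
    intro x y z
    show q (x + y + z) + q (x + y) + q z = (q (x + z) + q x + q z) + (q (y + z) + q y + q z)
    have h := hq x y z
    have e : (q (x + y + z) + q (x + y) + q z) + ((q (x + z) + q x + q z) + (q (y + z) + q y + q z)) = 0 := by
      calc (q (x + y + z) + q (x + y) + q z) + ((q (x + z) + q x + q z) + (q (y + z) + q y + q z)) =
          (q (x + y + z) + q (x + y) + q (x + z) + q (y + z) + q x + q y + q z) + (q z + q z) := by ring
        _ = 0 := by rw [h, h2, add_zero]
    exact CharTwo.add_eq_zero.1 e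
  have hβs : ∀ x y, β x y = β y x := by
    intro x y
    show q (x + y) + q x + q y = q (y + x) + q y + q x
    rw [add_comm x y]; ring
  have hβ2 : ∀ x y z, β x (y + z) = β x y + β x z := by
    intro x y z
    rw [hβs, hβ1, hβs y, hβs z]
  let BB : F →+ F →+ F := AddMonoidHom.mk' (fun x => AddMonoidHom.mk' (fun y => β x y) (fun y z => hβ2 x y z)) (by
    intro x y
    ext z
    exact hβ1 x y z)
  let L : F →ₗ[ZMod 2] (F →ₗ[ZMod 2] F) := AddMonoidHom.toZModLinearMap 2
    (AddMonoidHom.mk' (fun x => AddMonoidHom.toZModLinearMap 2 (BB x)) (by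
      intro x y
      ext z
      exact hβ1 x y z))
  have hL : ∀ x y, L x y = β x y := fun x y => rfl
  let Q : QuadraticMap (ZMod 2) F F :=
    { toFun := q
      toFun_smul := by
        intro a x
        have ha : a = 0 ∨ a = 1 := by revert a; decide
        rcases ha with rfl | rfl
        · simp [hq0]
        · simp
      exists_companion' := ⟨L, by
        intro x y
        rw [hL]
        show q (x + y) = q x + q y + (q (x + y) + q x + q y)
        have e : q x + q y + (q (x + y) + q x + q y) = q (x + y) + (q x + q x) + (q y + q y) := by ring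
        rw [e, h2, h2, add_zero, add_zero]⟩ }
  obtain ⟨B', hB'⟩ := LinearMap.BilinMap.toQuadraticMap_surjective (R := ZMod 2) (M := F) (N := F) Q
  let B2 : F →+ F →+ F := AddMonoidHom.mk' (fun x => (B' x).toAddMonoidHom) (by
    intro x y
    ext z
    show B' (x + y) z = B' x z + B' y z
    rw [map_add]; rfl)
  obtain ⟨s, c, hc⟩ := biadd_span B2
  refine ⟨s, c, fun x => ?_⟩
  rw [← hc x x]
  have : Q x = B' x x := by rw [← hB']; rfl
  exact this

end CfsgLib.FieldSpan
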