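import Mathlib

/-! Fisher's inequality for families of sets invariant under a triply transitive group
(seat helper15). -/

set_option autoImplicit false

namespace CfsgLib.Fisher

open MulAction

open scoped Pointwise

/-- A triply transitive group of degree `n` has no invariant family of `n` subsets of size `k`
with `2 ≤ k ≤ n - 2`. -/
theorem no_invariant_family {G : Type*} [Group G] {α : Type*} [Fintype α] [DecidableEq α]
    [MulAction G α] (h3 : ∀ a b c a' b' c' : α, a ≠ b → a ≠ c → b ≠ c → a' ≠ b' → a' ≠ c' → b' ≠ c' →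
      ∃ g : G, g • a = a' ∧ g • b = b' ∧ g • c = c')
    (F : Finset (Finset α)) (hF : ∀ (g : G), ∀ B ∈ F, g • B ∈ F) (hcard : F.card = Fintype.card α)
    {k : ℕ} (hk : ∀ B ∈ F, B.card = k) (hk2 : 2 ≤ k) (hkn : k + 2 ≤ Fintype.card α) : False := by
  classical
  have hthird : ∀ a b : α, ∃ c : α, c ≠ a ∧ c ≠ b := by
    intro a b
    by_contra hcon
    push Not at hcon
    have : (Finset.univ : Finset α) ⊆ {a, b} := by
      intro c _
      simp only [Finset.mem_insert, Finset.mem_singleton]
      by_cases hc : c = a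
      · exact Or.inl hc
      · exact Or.inr (hcon c hc)
    have h4 := Finset.card_le_card this
    rw [Finset.card_univ] at h4
    have h5 := Finset.card_le_two (a := a) (b := b)
    omega
  have h2 : ∀ a b a' b' : α, a ≠ b → a' ≠ b' → ∃ g : G, g • a = a' ∧ g • b = b' := by
    intro a b a' b' hab hab'
    obtain ⟨c, hc1, hc2⟩ := hthird a b
    obtain ⟨c', hc1', hc2'⟩ := hthird a' b'
    obtain ⟨g, h5, h6, -⟩ := h3 a b c a' b' c' hab hc1.symm hc2.symm hab' hc1'.symm hc2'.symm
    exact ⟨g, h5, h6⟩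
  have hnt : Nontrivial α := Fintype.one_lt_card_iff_nontrivial.mp (by omega)
  have h1 : ∀ a a' : α, ∃ g : G, g • a = a' := by
    intro a a'
    obtain ⟨b, hb⟩ := exists_ne a
    obtain ⟨b', hb'⟩ := exists_ne a'
    obtain ⟨g, h5, -⟩ := h2 a b a' b' hb.symm hb'.symm
    exact ⟨g, h5⟩
  let N : α → α → α → ℕ := fun a x y => (F.filter (fun B => a ∈ B ∧ x ∈ B ∧ y ∈ B)).card
  have hN : ∀ (g : G) a x y, N (g • a) (g • x) (g • y) = N a x y := by
    intro g a x y
    symm
    apply Finset.card_bij (fun B _ => g • B)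
    · intro B hB
      rw [Finset.mem_filter] at hB ⊢
      exact ⟨hF g B hB.1, Finset.smul_mem_smul_finset hB.2.1, Finset.smul_mem_smul_finset hB.2.2.1, Finset.smul_mem_smul_finset hB.2.2.2⟩
    · intro B _ B' _ h
      exact MulAction.injective g h
    · intro B hB
      rw [Finset.mem_filter] at hB
      refine ⟨g⁻¹ • B, ?_, smul_inv_smul _ _⟩
      rw [Finset.mem_filter]
      refine ⟨hF _ B hB.1, ?_, ?_, ?_⟩
      · rw [Finset.mem_inv_smul_finset_iff]; exact hB.2.1
      · rw [Finset.mem_inv_smul_finset_iff]; exact hB.2.2.1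
      · rw [Finset.mem_inv_smul_finset_iff]; exact hB.2.2.2
  obtain ⟨a⟩ : Nonempty α := inferInstance
  -- number of blocks through a point
  have hr : N a a a = k := by
    have h5 : ∑ x : α, N x x x = Fintype.card α * N a a a := by
      rw [← Finset.card_univ, ← smul_eq_mul, ← Finset.sum_const]
      apply Finset.sum_congr rfl
      intro x _
      obtain ⟨g, rfl⟩ := h1 a x
      exact hN g a a a
    have h6 : ∑ x : α, N x x x = Fintype.card α * k := by
      have h7 : ∀ x : α, N x x x = ∑ B ∈ F, if x ∈ B then 1 else 0 := by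
        intro x
        simp only [N, and_self]
        rw [Finset.card_filter]
      rw [Finset.sum_congr rfl (fun x _ => h7 x), Finset.sum_comm, ← hcard, ← smul_eq_mul, ← Finset.sum_const]
      apply Finset.sum_congr rfl
      intro B hB
      rw [← hk B hB]
      simp
    rw [h5] at h6
    exact Nat.eq_of_mul_eq_mul_left (by omega) h6
  let T : Finset (Finset α) := F.filter (fun B => a ∈ B)
  have hT : T.card = k := by
    rw [← hr]
    simp only [N, and_self, T]
  obtain ⟨x₀, hx₀⟩ := exists_ne a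
  obtain ⟨y₀, hy₀, hyx₀⟩ := hthird a x₀
  have hlam2 : ∀ x, x ≠ a → N a x x = N a x₀ x₀ := by
    intro x hx
    obtain ⟨g, hg1, hg2⟩ := h2 a x₀ a x hx₀.symm hx.symm
    rw [← hN g a x₀ x₀, hg1, hg2]
  have hlam3 : ∀ x y, x ≠ a → y ≠ a → x ≠ y → N a x y = N a x₀ y₀ := by
    intro x y hx hy hxy
    obtain ⟨g, hg1, hg2, hg3⟩ := h3 a x₀ y₀ a x y hx₀.symm hy₀.symm hyx₀.symm hx.symm hy.symm hxy
    rw [← hN g a x₀ y₀, hg1, hg2, hg3]
  have hlt : N a x₀ y₀ < N a x₀ x₀ := by
    obtain ⟨B, hB⟩ : F.Nonempty := by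
      rw [← Finset.card_pos, hcard]; omega
    have hBk := hk B hB
    obtain ⟨u, hu, v, hv, huv⟩ := Finset.one_lt_card.mp (by omega : 1 < B.card)
    obtain ⟨w, hw⟩ : ∃ w, w ∉ B := by
      by_contra hcon
      push Not at hcon
      have : B = Finset.univ := Finset.eq_univ_of_forall hcon
      rw [this, Finset.card_univ] at hBk
      omega
    have hwu : u ≠ w := by rintro rfl; exact hw hu
    have hwv : v ≠ w := by rintro rfl; exact hw hv
    obtain ⟨g, hg1, hg2, hg3⟩ := h3 u v w a x₀ y₀ huv hwu hwv hx₀.symm hy₀.symm hyx₀.symm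
    apply Finset.card_lt_card
    rw [Finset.ssubset_iff_of_subset]
    · refine ⟨g • B, ?_, ?_⟩
      · rw [Finset.mem_filter]
        refine ⟨hF g B hB, ?_, ?_, ?_⟩
        · rw [← hg1]; exact Finset.smul_mem_smul_finset hu
        · rw [← hg2]; exact Finset.smul_mem_smul_finset hv
        · rw [← hg2]; exact Finset.smul_mem_smul_finset hv
      · rw [Finset.mem_filter]
        rintro ⟨-, -, -, h7⟩
        rw [← hg3, Finset.smul_mem_smul_finset_iff] at h7
        exact hw h7
    · intro C hC
      rw [Finset.mem_filter] at hC ⊢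
      exact ⟨hC.1, hC.2.1, hC.2.2.1, hC.2.2.1⟩
  -- the linear algebra
  let L : (α → ℚ) →ₗ[ℚ] (T → ℚ) × ℚ :=
    { toFun := fun w => (fun B => ∑ x ∈ (B : Finset α), w x, w a)
      map_add' := fun v w => by
        refine Prod.ext ?_ ?_
        · ext B; simp [Finset.sum_add_distrib]
        · simp
      map_smul' := fun c w => by
        refine Prod.ext ?_ ?_
        · ext B; simp [Finset.mul_sum]
        · simp }
  have hker : LinearMap.ker L ≠ ⊥ := by
    apply LinearMap.ker_ne_bot_of_finrank_lt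
    rw [Module.finrank_prod, Module.finrank_fintype_fun_eq_card, Module.finrank_fintype_fun_eq_card, Module.finrank_self, Fintype.card_coe, hT]
    omega
  obtain ⟨w, hw, hw0⟩ := (Submodule.ne_bot_iff _).mp hker
  have hwL : L w = 0 := hw
  have hwa : w a = 0 := congrArg Prod.snd hwL
  have hwB : ∀ B ∈ T, ∑ x ∈ B, w x = 0 := by
    intro B hB
    exact congrFun (congrArg Prod.fst hwL) ⟨B, hB⟩
  have hsum : ∑ B ∈ T, (∑ x ∈ B, w x) ^ 2 = 0 := by
    apply Finset.sum_eq_zero
    intro B hB
    rw [hwB B hB]; norm_num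
  have hsum2 : ∑ B ∈ T, (∑ x ∈ B, w x) ^ 2 = ∑ x, ∑ y, w x * w y * (N a x y : ℚ) := by
    have h5 : ∀ B : Finset α, (∑ x ∈ B, w x) ^ 2 = ∑ x, ∑ y, w x * w y * (if x ∈ B ∧ y ∈ B then 1 else 0) := by
      intro B
      rw [pow_two, Finset.sum_mul_sum]
      rw [← Finset.sum_subset (Finset.subset_univ B) (by
        intro x _ hx
        apply Finset.sum_eq_zero
        intro y _
        rw [if_neg (by tauto), mul_zero])]
      apply Finset.sum_congr rfl
      intro x hx
      rw [← Finset.sum_subset (Finset.subset_univ B) (by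
        intro y _ hy
        rw [if_neg (by tauto), mul_zero])]
      apply Finset.sum_congr rfl
      intro y hy
      rw [if_pos ⟨hx, hy⟩, mul_one]
    rw [Finset.sum_congr rfl (fun B _ => h5 B), Finset.sum_comm]
    apply Finset.sum_congr rfl
    intro x _
    rw [Finset.sum_comm]
    apply Finset.sum_congr rfl
    intro y _
    rw [← Finset.mul_sum]
    congr 1
    simp only [N, T, Finset.sum_filter]
    rw [Finset.card_filter]
    push_cast
    apply Finset.sum_congr rfl
    intro B _
    by_cases h6 : a ∈ B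
    · simp [h6]
    · simp [h6]
  have hsum3 : ∑ x, ∑ y, w x * w y * (N a x y : ℚ) = (N a x₀ y₀ : ℚ) * (∑ x, w x) ^ 2 + ((N a x₀ x₀ : ℚ) - N a x₀ y₀) * ∑ x, w x ^ 2 := by
    have h5 : ∀ x y, w x * w y * (N a x y : ℚ) = (N a x₀ y₀ : ℚ) * (w x * w y) + if x = y then ((N a x₀ x₀ : ℚ) - N a x₀ y₀) * w x ^ 2 else 0 := by
      intro x y
      by_cases hxa : x = a
      · rw [hxa, hwa]; simp
      by_cases hya : y = a
      · rw [hya, hwa]
        by_cases hxy : x = a
        · exact absurd hxy hxa
        · simp [hxy]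
      by_cases hxy : x = y
      · subst hxy
        rw [if_pos rfl, hlam2 x hxa]
        ring
      · rw [if_neg hxy, hlam3 x y hxa hya hxy]
        ring
    rw [Finset.sum_congr rfl (fun x _ => Finset.sum_congr rfl (fun y _ => h5 x y))]
    simp only [Finset.sum_add_distrib, ← Finset.mul_sum, Finset.sum_ite_eq, Finset.mem_univ, if_true]
    rw [pow_two, Finset.sum_mul_sum]
    simp only [Finset.mul_sum]
  rw [hsum2, hsum3] at hsum
  have hpos1 : (0 : ℚ) ≤ (N a x₀ y₀ : ℚ) * (∑ x, w x) ^ 2 := by positivity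
  have hpos2 : (0 : ℚ) < ((N a x₀ x₀ : ℚ) - N a x₀ y₀) := by
    have : (N a x₀ y₀ : ℚ) < N a x₀ x₀ := by exact_mod_cast hlt
    linarith
  have hpos3 : (0 : ℚ) < ∑ x, w x ^ 2 := by
    obtain ⟨x, hx⟩ : ∃ x, w x ≠ 0 := by
      by_contra hcon
      push Not at hcon
      exact hw0 (by ext x; exact hcon x)
    apply Finset.sum_pos'
    · intro y _; positivity
    · exact ⟨x, Finset.mem_univ _, by positivity⟩
  have := mul_pos hpos2 hpos3
  linarith

end CfsgLib.Fisher
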