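import Mathlib

/-! Hilbert 90 for unitary scalars (seat helper13). -/

namespace CfsgLib.Fld

open Module

variable {K : Type*} [Field K] [Fintype K]

/-- Hilbert 90 for a single automorphism of prime order -/
theorem hilbert90 {r : ℕ} (hr : r.Prime) (σ : K ≃+* K) (hσ : orderOf σ = r) (c : K) (hc0 : c ≠ 0) (hc : ∏ i ∈ Finset.range r, (σ ^ i) c = 1) :
    ∃ e : K, e ≠ 0 ∧ c = e / σ e := by
  classical
  -- partial norms
  let a : ℕ → K := fun i => ∏ j ∈ Finset.range i, (σ ^ j) c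
  have ha0 : ∀ i, a i ≠ 0 := fun i => Finset.prod_ne_zero_iff.2 fun j _ => by
    rw [Ne, map_eq_zero_iff _ (σ ^ j).injective]; exact hc0
  have hli := (linearIndependent_monoidHom K K).comp (fun i : Fin r => (((σ ^ (i : ℕ) : K ≃+* K) : K →* K))) (by
    intro i j hij
    have h1 : (σ ^ (i : ℕ) : K ≃+* K) = σ ^ (j : ℕ) := by
      ext x
      exact congrArg (fun f : K →* K => f x) hij
    have h2 := pow_injOn_Iio_orderOf (x := σ) (by rw [hσ]; exact i.2) (by rw [hσ]; exact j.2) h1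
    exact Fin.ext h2)
  obtain ⟨u, hu⟩ : ∃ u : K, ∑ i : Fin r, a i * (σ ^ (i : ℕ)) u ≠ 0 := by
    by_contra hcon
    push Not at hcon
    have h3 := Fintype.linearIndependent_iff.1 hli (fun i => a i) (by
      funext u
      rw [Finset.sum_apply]
      exact hcon u) ⟨0, hr.pos⟩
    exact ha0 _ h3
  refine ⟨∑ i : Fin r, a i * (σ ^ (i : ℕ)) u, hu, ?_⟩
  have hσe : c * σ (∑ i : Fin r, a i * (σ ^ (i : ℕ)) u) = ∑ i : Fin r, a i * (σ ^ (i : ℕ)) u := by
    have e1 : ∀ i : ℕ, c * σ (a i * (σ ^ i) u) = a (i + 1) * (σ ^ (i + 1)) u := by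
      intro i
      have h1 : c * σ (a i) = a (i + 1) := by
        show c * σ (∏ j ∈ Finset.range i, (σ ^ j) c) = ∏ j ∈ Finset.range (i + 1), (σ ^ j) c
        rw [Finset.prod_range_succ', map_prod, pow_zero, mul_comm]
        congr 1
        refine Finset.prod_congr rfl fun j _ => ?_
        rw [pow_succ']; rfl
      have h2 : σ ((σ ^ i) u) = (σ ^ (i + 1)) u := by rw [pow_succ']; rfl
      rw [map_mul, ← mul_assoc, h1, h2]
    have h0 : a 0 * (σ ^ 0) u = a r * (σ ^ r) u := by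
      have h1 : a r = 1 := hc
      have h2 : a 0 = 1 := Finset.prod_range_zero _
      rw [h1, h2, pow_zero, ← hσ, pow_orderOf_eq_one]
    rw [map_sum, Finset.mul_sum]
    simp only [e1]
    rw [Fin.sum_univ_eq_sum_range (fun i => a (i + 1) * (σ ^ (i + 1)) u), Fin.sum_univ_eq_sum_range (fun i => a i * (σ ^ i) u)]
    have h1 := Finset.sum_range_succ' (fun i => a i * (σ ^ i) u) r
    have h2 := Finset.sum_range_succ (fun i => a i * (σ ^ i) u) r
    rw [h1, h0] at h2
    exact add_right_cancel h2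
  have hσ0 : σ (∑ i : Fin r, a i * (σ ^ (i : ℕ)) u) ≠ 0 := by
    rw [Ne, map_eq_zero_iff _ σ.injective]; exact hu
  rw [eq_div_iff hσ0]
  exact hσe

/-- the fixed field -/
theorem card_fixed {q₀ r : ℕ} (hr : r.Prime) (hK : Fintype.card K = (q₀ ^ r) ^ 2) (σ : K ≃+* K) (hσ : orderOf σ = r) :
    ∃ K0 : Subfield K, (∀ x, x ∈ K0 ↔ σ x = x) ∧ Nat.card K0 = q₀ ^ 2 := by
  classical
  let G : Subgroup (K ≃+* K) := Subgroup.zpowers σ
  have hGc : Nat.card G = r := by rw [Nat.card_zpowers, hσ]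
  have hGf : Finite G := Nat.finite_of_card_ne_zero (by rw [hGc]; exact hr.ne_zero)
  letI : Fintype G := Fintype.ofFinite G
  let K0 : Subfield K := FixedPoints.subfield G K
  have h1 : finrank K0 K = r := by
    have := FixedPoints.finrank_eq_card G K
    rw [← hGc, Nat.card_eq_fintype_card]
    exact this
  have h2 : Nat.card K = Nat.card K0 ^ r := by
    rw [Module.natCard_eq_pow_finrank (K := K0), h1]
  refine ⟨K0, ?_, ?_⟩
  · intro x
    constructor
    · intro hx
      exact hx ⟨σ, Subgroup.mem_zpowers σ⟩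
    · intro hx
      rintro ⟨g, hg⟩
      obtain ⟨n, rfl⟩ := Subgroup.mem_zpowers_iff.1 hg
      show (σ ^ n) x = x
      have h3 : σ ∈ MulAction.stabilizer (K ≃+* K) x := hx
      exact (MulAction.stabilizer (K ≃+* K) x).zpow_mem h3 n
  · rw [Nat.card_eq_fintype_card (α := K), hK, ← pow_mul, mul_comm r 2, pow_mul] at h2
    exact (Nat.pow_left_injective hr.ne_zero h2).symm

end CfsgLib.Fld
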