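import Cfsg.Statements.S2587
import Cfsg.Agent.LibNormH13
import Cfsg.Agent.LibInv2uH13
import Cfsg.Agent.LibH22HermS

set_option autoImplicit false
open Cfsg

namespace Cfsg.Agent.S2587

open Cfsg.Agent.H22 CfsgLib.Norm
open Matrix (mulVec)
open scoped Matrix

section
variable {K : Type*} [Field K] [Fintype K] {q n : ℕ}

theorem mem_GU {σ : K →+* K} (hσ : ∀ x, σ x = x ^ q) (g : GL (Fin n) K) :
    g ∈ Cfsg.GU n K q ↔ ((g : Matrix (Fin n) (Fin n) K).map σ).transpose * (g : Matrix (Fin n) (Fin n) K) = 1 := by
  rw [mem_GU_iff' hσ]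
  constructor
  · intro h
    have := congrArg Matrix.transpose h
    rw [Matrix.transpose_mul, Matrix.transpose_transpose, Matrix.transpose_one] at this
    exact this
  · intro h
    have := congrArg Matrix.transpose h
    rw [Matrix.transpose_mul, Matrix.transpose_transpose, Matrix.transpose_one] at this
    exact this

theorem gu_conj (hK : Fintype.card K = q ^ 2) (A B : ↥(Cfsg.GU n K q)) (h : IsConj (A : GL (Fin n) K) (B : GL (Fin n) K)) : IsConj A B := by
  classical
  obtain ⟨σ, hσ, hσ2, hσi⟩ := exists_sigma hK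
  obtain ⟨a0, ha0⟩ : ∃ a : K, a - σ a ≠ 0 := by
    by_contra hcon
    push Not at hcon
    apply hσi
    ext x
    exact (sub_eq_zero.mp (hcon x)).symm
  let st : Matrix (Fin n) (Fin n) K → Matrix (Fin n) (Fin n) K := fun X => (X.map σ).transpose
  rw [isConj_iff] at h
  obtain ⟨g, hg⟩ := h
  have hmap : ∀ X Y : Matrix (Fin n) (Fin n) K, (X * Y).map σ = X.map σ * Y.map σ := fun X Y => Matrix.map_mul
  have hA := (mem_GU hσ A.1).mp A.2
  have hB := (mem_GU hσ B.1).mp B.2
  have hgA : (g : Matrix (Fin n) (Fin n) K) * (A.1 : Matrix (Fin n) (Fin n) K) = (B.1 : Matrix (Fin n) (Fin n) K) * (g : Matrix (Fin n) (Fin n) K) := by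
    rw [mul_inv_eq_iff_eq_mul] at hg
    exact congrArg Units.val hg
  obtain ⟨u, hu1, hu2, hu3⟩ := exists_unitary_conj st (fun x y => by
      show ((x + y).map σ).transpose = (x.map σ).transpose + (y.map σ).transpose
      rw [Matrix.map_add σ (map_add σ), Matrix.transpose_add]) (fun x y => by
      show ((x * y).map σ).transpose = (y.map σ).transpose * (x.map σ).transpose
      rw [hmap, Matrix.transpose_mul]) (by
      show ((1 : Matrix (Fin n) (Fin n) K).map σ).transpose = 1
      rw [Matrix.map_one σ (map_zero σ) (map_one σ), Matrix.transpose_one]) (fun x => by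
      show ((x.map σ).transpose.map σ).transpose = x
      ext i j
      exact hσ2 _) (A.1 : Matrix (Fin n) (Fin n) K) (B.1 : Matrix (Fin n) (Fin n) K) (g : Matrix (Fin n) (Fin n) K) (Matrix.scalar (Fin n) a0)
      g.isUnit hgA hA hB (mul_eq_one_comm.mp hA) (mul_eq_one_comm.mp hB) (by
        have h1 : st (Matrix.scalar (Fin n) a0) = Matrix.scalar (Fin n) (σ a0) := by
          show ((Matrix.scalar (Fin n) a0).map σ).transpose = _
          rw [Matrix.scalar_apply, Matrix.scalar_apply, Matrix.diagonal_map (map_zero σ), Matrix.diagonal_transpose]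
        rw [h1, ← map_sub]
        exact (IsUnit.mk0 _ ha0).map (Matrix.scalar (Fin n)))
      (Matrix.scalar_commute a0 (fun r => Commute.all _ _) _) (Matrix.scalar_commute a0 (fun r => Commute.all _ _) _)
      (Matrix.scalar_commute a0 (fun r => Commute.all _ _) _)
  let U : GL (Fin n) K := ⟨u, st u, hu2, hu1⟩
  have hU : U ∈ Cfsg.GU n K q := (mem_GU hσ U).mpr hu1
  rw [isConj_iff]
  refine ⟨⟨U, hU⟩, ?_⟩
  rw [mul_inv_eq_iff_eq_mul]
  apply Subtype.ext
  apply Units.ext
  exact hu3
end

/-- Conjugacy in the finite general unitary group is controlled by the general linear group: two elements of GU_n(q) (the invertible matrices over the field with q² elements preserving the Hermitian form Σ u_i v_i^q) are conjugate in GU_n(q) if and only if they are conjugate in GL_n(q²). -/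
theorem result {K : Type*} [Field K] [Fintype K] {q n : ℕ} (hK : Fintype.card K = q ^ 2) (A B : ↥(Cfsg.GU n K q)) : IsConj A B ↔ IsConj (A : GL (Fin n) K) (B : GL (Fin n) K) := by
  constructor
  · rw [isConj_iff, isConj_iff]
    rintro ⟨c, hc⟩
    exact ⟨c, congrArg Subtype.val hc⟩
  · exact gu_conj hK A B

end Cfsg.Agent.S2587
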