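import Mathlib
import Cfsg.Agent.LibFldH13
import Cfsg.Agent.LibH22HermO2
import Cfsg.Agent.S2587

/-! Field automorphisms and unitary matrices (seat helper13). -/

namespace CfsgLib.Fld

open Module Cfsg.Agent.H22 Cfsg.Agent.S2587
open scoped Matrix

variable {K : Type*} [Field K] [Fintype K] {q₀ q r n : ℕ}

theorem pow_iter {x : K} {q₀ : ℕ} (h : x ^ (q₀ ^ 2) = x) (k : ℕ) : x ^ (q₀ ^ (2 * k + 1)) = x ^ q₀ := by
  induction k with
  | zero => simp
  | succ k ih =>
    have e1 : q₀ ^ (2 * (k + 1) + 1) = q₀ ^ 2 * q₀ ^ (2 * k + 1) := by ring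
    rw [e1, pow_mul, h, ih]

/-- Hilbert 90 inside the unitary scalars -/
theorem unitary90 (hr : r.Prime) (hr2 : r ≠ 2) (hq : q = q₀ ^ r) (hK : Fintype.card K = q ^ 2) (σ : K ≃+* K) (hσ : orderOf σ = r) (c : K)
    (hcq : c ^ (q + 1) = 1) (hc : ∏ i ∈ Finset.range r, (σ ^ i) c = 1) : ∃ d : K, d ^ (q + 1) = 1 ∧ c = d / σ d := by
  classical
  have hc0 : c ≠ 0 := by rintro rfl; rw [zero_pow (by omega)] at hcq; exact zero_ne_one hcq
  obtain ⟨e, he0, he⟩ := hilbert90 hr σ hσ c hc0 hc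
  obtain ⟨K0, hK0, hcard⟩ := card_fixed hr (hq ▸ hK) σ hσ
  have hodd := hr.eq_two_or_odd'.resolve_left hr2
  obtain ⟨k, hk⟩ := hodd
  letI : Fintype K0 := Fintype.ofFinite K0
  have hcard' : Fintype.card K0 = q₀ ^ 2 := by rw [← Nat.card_eq_fintype_card]; exact hcard
  have hfix : ∀ x ∈ K0, x ^ q = x ^ q₀ := by
    intro x hx
    have h1 : x ^ (q₀ ^ 2) = x := by
      have := FiniteField.pow_card (⟨x, hx⟩ : K0)
      rw [hcard'] at this
      exact congrArg Subtype.val this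
    rw [hq, hk]
    exact pow_iter h1 k
  have hσe0 : σ e ≠ 0 := by rw [Ne, map_eq_zero_iff _ σ.injective]; exact he0
  have ht : e ^ (q + 1) ∈ K0 := by
    rw [hK0, map_pow]
    have h1 : σ e = e / c := by rw [he]; field_simp
    rw [h1, div_pow, hcq, div_one]
  have htq : (e ^ (q + 1)) ^ q = e ^ (q + 1) := by
    have h1 : e ^ (q ^ 2) = e := by rw [← hK]; exact FiniteField.pow_card e
    rw [← pow_mul, show (q + 1) * q = q ^ 2 + q by ring, pow_add, h1, pow_succ']
  have htq0 : (e ^ (q + 1)) ^ q₀ = e ^ (q + 1) := by rw [← hfix _ ht, htq]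
  obtain ⟨f, hf⟩ : ∃ f : K0, f ^ (q₀ + 1) = (⟨e ^ (q + 1), ht⟩ : K0)⁻¹ := by
    have h1 := card_norm_fiber hcard' ((⟨e ^ (q + 1), ht⟩ : K0)⁻¹) (by
      apply inv_ne_zero
      intro h
      exact pow_ne_zero _ he0 (congrArg Subtype.val h)) (by
      rw [inv_pow]
      congr 1
      exact Subtype.ext htq0)
    have h2 : Nat.card {x : K0 // x ^ (q₀ + 1) = (⟨e ^ (q + 1), ht⟩ : K0)⁻¹} ≠ 0 := by rw [h1]; omega
    obtain ⟨⟨f, hf⟩⟩ := (Nat.card_ne_zero.1 h2).1
    exact ⟨f, hf⟩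
  have hf' : (f : K) ^ (q₀ + 1) = (e ^ (q + 1))⁻¹ := congrArg Subtype.val hf
  have hσf : σ (f : K) = f := (hK0 _).1 f.2
  have hf0 : (f : K) ≠ 0 := by
    intro h
    rw [h, zero_pow (by omega)] at hf'
    exact inv_ne_zero (pow_ne_zero _ he0) hf'.symm
  refine ⟨e * f, ?_, ?_⟩
  · rw [mul_pow, pow_succ (f : K) q, hfix _ f.2, ← pow_succ, hf', mul_inv_cancel₀ (pow_ne_zero _ he0)]
  · rw [map_mul, hσf, he, mul_div_mul_right _ _ hf0]

/-- fixed points of the field automorphism on the unitary group -/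
theorem card_fix (hr : r.Prime) (hr2 : r ≠ 2) (hq : q = q₀ ^ r) (hK : Fintype.card K = q ^ 2) (σ : K ≃+* K) (hσ : orderOf σ = r) :
    Nat.card {g : ↥(Cfsg.GU n K q) // ((g : GL (Fin n) K) : Matrix (Fin n) (Fin n) K).map σ = ((g : GL (Fin n) K) : Matrix (Fin n) (Fin n) K)} =
      q₀ ^ (n * (n - 1) / 2) * ∏ i ∈ Finset.range n, (if Even i then q₀ ^ (i + 1) + 1 else q₀ ^ (i + 1) - 1) := by
  classical
  obtain ⟨K0, hK0, hcard⟩ := card_fixed hr (hq ▸ hK) σ hσ
  have hodd := hr.eq_two_or_odd'.resolve_left hr2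
  obtain ⟨k, hk⟩ := hodd
  letI : Fintype K0 := Fintype.ofFinite K0
  have hcard' : Fintype.card K0 = q₀ ^ 2 := by rw [← Nat.card_eq_fintype_card]; exact hcard
  have hfix : ∀ x : K0, (x : K) ^ q = (x : K) ^ q₀ := by
    intro x
    have h1 : (x : K) ^ (q₀ ^ 2) = x := by
      have := FiniteField.pow_card x
      rw [hcard'] at this
      exact congrArg Subtype.val this
    rw [hq, hk]
    exact pow_iter h1 k
  obtain ⟨τ, hτ, hτ2, hτi⟩ := exists_sigma hK
  obtain ⟨τ0, hτ0, -, -⟩ := exists_sigma hcard'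
  have hττ : ∀ x : K0, τ (K0.subtype x) = K0.subtype (τ0 x) := by
    intro x
    rw [hτ, hτ0]
    exact hfix x
  rw [← card_GU (F := K0) (n := n) hcard']
  have hmap : ∀ A : Matrix (Fin n) (Fin n) K0, (A.map τ0).transpose * A = 1 ↔ ((A.map K0.subtype).map τ).transpose * (A.map K0.subtype) = 1 := by
    intro A
    have h1 : ((A.map K0.subtype).map τ).transpose * (A.map K0.subtype) = ((A.map τ0).transpose * A).map K0.subtype := by
      rw [Matrix.map_mul]
      congr 1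
      ext i j
      exact hττ _
    rw [h1]
    constructor
    · intro h; rw [h]; exact Matrix.map_one _ (map_zero _) (map_one _)
    · intro h
      have h2 : ((A.map τ0).transpose * A).map K0.subtype = (1 : Matrix (Fin n) (Fin n) K0).map K0.subtype := by
        rw [h]; exact (Matrix.map_one _ (map_zero _) (map_one _)).symm
      exact Matrix.map_injective K0.subtype_injective h2
  symm
  refine Nat.card_congr (Equiv.ofBijective (fun A => ⟨⟨Matrix.GeneralLinearGroup.map K0.subtype A.1, ?_⟩, ?_⟩) ⟨?_, ?_⟩)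
  · rw [mem_GU hτ]
    exact (hmap _).1 ((mem_GU hτ0 _).1 A.2)
  · ext i j
    exact (hK0 _).1 ((A.1 : Matrix (Fin n) (Fin n) K0) i j).2
  · intro A B h
    have h1 := congrArg (fun x => ((x.1.1 : GL (Fin n) K) : Matrix (Fin n) (Fin n) K)) h
    exact Subtype.ext (Units.ext (Matrix.map_injective K0.subtype_injective h1))
  · rintro ⟨g, hg⟩
    have hent : ∀ i j, ((g : GL (Fin n) K) : Matrix (Fin n) (Fin n) K) i j ∈ K0 := by
      intro i j
      rw [hK0]
      exact congrFun (congrFun hg i) j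
    let A : Matrix (Fin n) (Fin n) K0 := Matrix.of fun i j => ⟨_, hent i j⟩
    have hA : A.map K0.subtype = ((g : GL (Fin n) K) : Matrix (Fin n) (Fin n) K) := rfl
    have hdet : A.det ≠ 0 := by
      intro h
      have h1 : (A.map K0.subtype).det = 0 := by
        rw [← RingHom.mapMatrix_apply, ← RingHom.map_det, h, map_zero]
      rw [hA] at h1
      exact (Matrix.isUnits_det_units _).ne_zero h1
    let Ag : GL (Fin n) K0 := Matrix.GeneralLinearGroup.mkOfDetNeZero A hdet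
    have hAg : Ag ∈ Cfsg.GU n K0 q₀ := by
      rw [mem_GU hτ0]
      refine (hmap A).2 ?_
      rw [hA]
      exact (mem_GU hτ _).1 g.2
    refine ⟨⟨Ag, hAg⟩, ?_⟩
    apply Subtype.ext
    apply Subtype.ext
    apply Units.ext
    exact hA

/-- scalars in the unitary group -/
noncomputable def scal (hσ : ∃ τ : K →+* K, ∀ x, τ x = x ^ q) : (powMonoidHom (q + 1) : Kˣ →* Kˣ).ker →* ↥(Cfsg.GU n K q) where
  toFun d := ⟨Units.map (Matrix.scalar (Fin n) : K →+* Matrix (Fin n) (Fin n) K).toMonoidHom d.1, by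
    obtain ⟨τ, hτ⟩ := hσ
    rw [mem_GU hτ]
    have hd : ((d.1 : Kˣ) : K) ^ (q + 1) = 1 := by
      have := d.2
      rw [MonoidHom.mem_ker, powMonoidHom_apply] at this
      have h2 := congrArg Units.val this
      rwa [Units.val_pow_eq_pow_val, Units.val_one] at h2
    have h1 : ((Units.map (Matrix.scalar (Fin n) : K →+* Matrix (Fin n) (Fin n) K).toMonoidHom d.1 : GL (Fin n) K) : Matrix (Fin n) (Fin n) K) = Matrix.diagonal (fun _ => ((d.1 : Kˣ) : K)) := rfl
    rw [h1, Matrix.diagonal_map (map_zero τ), Matrix.diagonal_transpose, Matrix.diagonal_mul_diagonal]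
    rw [← Matrix.diagonal_one]
    congr 1
    funext i
    rw [hτ, ← pow_succ, hd]⟩
  map_one' := Subtype.ext (map_one _)
  map_mul' a b := Subtype.ext (map_mul _ _ _)

theorem scal_coe (hσ : ∃ τ : K →+* K, ∀ x, τ x = x ^ q) (d : (powMonoidHom (q + 1) : Kˣ →* Kˣ).ker) :
    (((scal (n := n) hσ d : ↥(Cfsg.GU n K q)) : GL (Fin n) K) : Matrix (Fin n) (Fin n) K) = Matrix.diagonal (fun _ => ((d.1 : Kˣ) : K)) := rfl

end CfsgLib.Fld
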