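import Mathlib
import Cfsg.Agent.EqBase
import Cfsg.Prelude.Def_Blocks
import Cfsg.Agent.LibFongPS
import Cfsg.Agent.LibBlockRey
import Cfsg.Agent.LibExtend7
import Cfsg.Agent.LibGallagher

/-!
# Heights in blocks of `p`-solvable groups: S4439 (helper17)
-/

set_option autoImplicit false
set_option linter.unusedSectionVars false
set_option linter.style.haveILetI false
set_option linter.unusedSimpArgs false

namespace CfsgLib.FongHt

open CfsgLib.CharInt hiding irr_isCharacter irr_classFun irr_one_ne_zero schur_scalar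
open Cfsg CfsgLib.CharInt2 CfsgLib.CharBasic CfsgLib.BlockR CfsgLib.BlockCore
  CfsgLib.BlockIdem CfsgLib.BlockIdeal CfsgLib.BlockConj CfsgLib.BlockBrauer CfsgLib.BlockInd
  CfsgLib.BlockFMT CfsgLib.BlockFMT2 CfsgLib.PLocalInd CfsgLib.BlockOrth CfsgLib.BlockDefect
  CfsgLib.BlockReg CfsgLib.BlockReg2 CfsgLib.BlockCount CfsgLib.BlockCount2 CfsgLib.BlockQP
  CfsgLib.BlockCov CfsgLib.BlockCov2 CfsgLib.BlockCov3 CfsgLib.BlockCov4 CfsgLib.BlockLoc
  CfsgLib.BlockM CfsgLib.CharNorm CfsgLib.Clifford CfsgLib.BlockFR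
  CfsgLib.BlockK1 CfsgLib.BlockSec3 CfsgLib.BlockFong CfsgLib.BlockFong2 CfsgLib.BlockSq
  CfsgLib.Green CfsgLib.FongPS CfsgLib.BlockRey
open scoped ComplexConjugate Pointwise

universe u v

variable {M : Ideal AlgInt} {p : ℕ} [hpf : Fact p.Prime] {G : Type u} [Group G] [Fintype G]

/-- characters over an invariant character with coprime abelian quotient have the same degree -/
theorem degree_over_abelian (N : Subgroup G) [hN : N.Normal] [Fintype N]
    (hab : ∀ a b : G ⧸ N, a * b = b * a) {θ : IrrCharacter N} (hinv : ∀ g : G, cjI N g θ = θ)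
    (hcop : Nat.Coprime N.index (Nat.card N)) {ψ : IrrCharacter G}
    (h : classInner (fun n : N => (ψ : G → ℂ) n) (θ : N → ℂ) ≠ 0) :
    charDegree (ψ : G → ℂ) = charDegree (θ : N → ℂ) := by
  classical
  have hinv' : CfsgLib.Extend.Inv N (θ : N → ℂ) := by
    intro g n
    exact congrFun (congrArg Subtype.val (hinv g)) n
  obtain ⟨χ, ⟨hχ, hχN, -⟩, -⟩ := CfsgLib.Extend.ext_coprime θ.2 hinv' (charDegree (θ : N → ℂ))
    (irr_one_eq_charDegree θ.2) (Nat.Coprime.mul_right
      (Nat.Coprime.coprime_dvd_right (CfsgLib.Extend.detOrder_dvd_card θ.2) hcop)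
      (Nat.Coprime.coprime_dvd_right (charDegree_dvd_card θ.2) hcop))
  have hres : (fun n : N => χ n) = (θ : N → ℂ) := funext hχN
  obtain ⟨h1, h2⟩ := CfsgLib.Gallagher.gallagher_exists N hχ (by rw [hres]; exact θ.2) ψ.2
    (by rw [hres]; exact h)
  set η := CfsgLib.Gallagher.avg N (fun g => (ψ : G → ℂ) g * conj (χ g)) with hη
  have hηN : ∀ n ∈ N, η n = η 1 := by
    intro n hn
    have h3 := CfsgLib.Gallagher.avg_mul_left N (fun g => (ψ : G → ℂ) g * conj (χ g)) ⟨n, hn⟩ 1
    rw [mul_one] at h3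
    exact h3
  obtain ⟨ξ, hξ⟩ := exists_defl N ⟨η, h1⟩ hηN
  have h4 : (ξ : G ⧸ N → ℂ) 1 = 1 := irr_degree_one_of_comm hab ξ.2
  have h5 : η 1 = 1 := by
    have h6 := infl_one N ξ
    rw [hξ, h4] at h6
    exact h6
  have h6 : (ψ : G → ℂ) 1 = (θ : N → ℂ) 1 := by
    have h7 := congrFun h2 1
    rw [← h7]
    change η 1 * χ 1 = _
    rw [h5, one_mul]
    exact hχN 1
  rw [irr_one_eq_charDegree ψ.2, irr_one_eq_charDegree θ.2] at h6
  exact_mod_cast h6

theorem inv_case (hsolv : IsPSolvable p G) (N : Subgroup G) [hN : N.Normal] [Fintype N]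
    (hNdef : N = pPrimeCore p G) (θ : IrrCharacter N) (hinv : ∀ g : G, cjI N g θ = θ)
    {χ : IrrCharacter G} (h : classInner (fun n : N => (χ : G → ℂ) n) (θ : N → ℂ) ≠ 0)
    (P : Sylow p G) : (charDegree (χ : G → ℂ)).factorization p ≤
      ((Subgroup.center P).index).factorization p := by
  classical
  have hpp : p.Prime := Fact.out
  have hNco : (Nat.card N).Coprime p := by rw [hNdef]; exact CfsgLib.Cores.pPrimeCore_coprime p
  have hN' : ¬ p ∣ Nat.card N := fun h =>
    hpp.one_lt.ne' (Nat.dvd_one.mp (hNco ▸ Nat.dvd_gcd h dvd_rfl))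
  obtain ⟨K, P₁, hKn, hNK, hPK, hPp, hKNP, hNP, hCK, hnorm, ⟨k, hk⟩, hPs⟩ := setup hsolv N hNdef
  haveI := hKn
  -- a Sylow subgroup above `P₁`
  obtain ⟨P', hP'⟩ := hPp.exists_le_sylow
  have hcenter : ((Subgroup.center P).index).factorization p =
      ((Subgroup.center P').index).factorization p := by
    let e : P ≃* P' := P.equiv P'
    have h1 : (Subgroup.center P).map (e : P →* P') = Subgroup.center P' := by
      ext x
      constructor
      · rintro ⟨y, hy, rfl⟩
        rw [Subgroup.mem_center_iff]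
        intro g
        obtain ⟨g', rfl⟩ := e.surjective g
        change e g' * e y = e y * e g'
        rw [← map_mul, ← map_mul, (Subgroup.mem_center_iff.mp hy g')]
      · intro hx
        refine ⟨e.symm x, ?_, by simp⟩
        change e.symm x ∈ Subgroup.center P
        rw [Subgroup.mem_center_iff]
        intro g
        apply e.injective
        rw [map_mul, map_mul, e.apply_symm_apply]
        exact Subgroup.mem_center_iff.mp hx (e g)
    rw [← h1, Subgroup.index_map_equiv]
  rw [hcenter]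
  -- the normal subgroup `M₁`
  set Kb := K.map (QuotientGroup.mk' N) with hKb
  haveI hKbn : Kb.Normal := hKn.map _ (QuotientGroup.mk'_surjective N)
  set M₁ : Subgroup G := K ⊓ (Subgroup.centralizer (Kb : Set (G ⧸ N))).comap
    (QuotientGroup.mk' N) with hM₁
  haveI hCn : (Subgroup.centralizer (Kb : Set (G ⧸ N))).Normal := inferInstance
  haveI hM₁n : M₁.Normal := by
    haveI := hCn.comap (QuotientGroup.mk' N)
    exact Subgroup.normal_inf_normal _ _
  have hmk : ∀ n ∈ N, (QuotientGroup.mk' N) n = 1 := fun n hn => (QuotientGroup.eq_one_iff n).mpr hn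
  have hNM : N ≤ M₁ := by
    intro n hn
    refine ⟨hNK hn, ?_⟩
    change (QuotientGroup.mk' N) n ∈ Subgroup.centralizer (Kb : Set (G ⧸ N))
    rw [hmk n hn]
    exact Subgroup.one_mem _
  have hZM : (Subgroup.center P').map (P' : Subgroup G).subtype ≤ M₁ := by
    rintro _ ⟨z, hz, rfl⟩
    have hzc : ∀ u ∈ P₁, u * (z : G) = z * u := by
      intro u hu
      have := Subgroup.mem_center_iff.mp hz ⟨u, hP' hu⟩
      exact congrArg Subtype.val this
    refine ⟨hCK (Subgroup.mem_centralizer_iff.mpr hzc), ?_⟩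
    change (QuotientGroup.mk' N) (z : G) ∈ Subgroup.centralizer (Kb : Set (G ⧸ N))
    rw [Subgroup.mem_centralizer_iff]
    rintro _ ⟨g, hg, rfl⟩
    have hgK : g ∈ N ⊔ P₁ := by rw [← hKNP]; exact hg
    rw [Subgroup.mem_sup_of_normal_left] at hgK
    obtain ⟨n, hn, u, hu, rfl⟩ := hgK
    change (QuotientGroup.mk' N) (n * u) * (QuotientGroup.mk' N) (z : G) =
      (QuotientGroup.mk' N) (z : G) * (QuotientGroup.mk' N) (n * u)
    rw [map_mul, hmk n hn, one_mul, ← map_mul, ← map_mul, hzc u hu]
  letI : Fintype M₁ := Fintype.ofFinite _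
  letI : Fintype (N.subgroupOf M₁) := Fintype.ofFinite _
  haveI hN1n : (N.subgroupOf M₁).Normal := hN.subgroupOf M₁
  -- an intermediate character
  have hex : ∃ ψ : IrrCharacter M₁,
      classInner (fun t : M₁ => (χ : G → ℂ) t) (ψ : M₁ → ℂ) ≠ 0 ∧
      classInner (resT hNM (ψ : M₁ → ℂ)) (θ : N → ℂ) ≠ 0 := by
    by_contra hcon
    push Not at hcon
    apply h
    rw [res_stages N hNM χ θ]
    apply Finset.sum_eq_zero
    intro ψ _
    by_cases h1 : classInner (fun t : M₁ => (χ : G → ℂ) t) (ψ : M₁ → ℂ) = 0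
    · rw [h1, zero_mul]
    · rw [hcon ψ h1, mul_zero]
  obtain ⟨ψ, hψ1, hψ2⟩ := hex
  -- degrees
  have hψ : charDegree (ψ : M₁ → ℂ) = charDegree (θ : N → ℂ) := by
    rw [← ci_toSub hNM, toSub_resT] at hψ2
    have h1 := degree_over_abelian (N.subgroupOf M₁) (θ := ⟨toSub M₁ (θ : N → ℂ),
      (toSub_irr hNM).mpr θ.2⟩) (ψ := ψ) (by
        intro a b
        obtain ⟨a, rfl⟩ := QuotientGroup.mk'_surjective _ a
        obtain ⟨b, rfl⟩ := QuotientGroup.mk'_surjective _ b
        rw [← map_mul, ← map_mul]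
        change (QuotientGroup.mk (a * b) : M₁ ⧸ N.subgroupOf M₁) = QuotientGroup.mk (b * a)
        rw [QuotientGroup.eq, Subgroup.mem_subgroupOf]
        have h2 := Subgroup.mem_centralizer_iff.mp (show (QuotientGroup.mk' N) (b : G) ∈
          Subgroup.centralizer (Kb : Set (G ⧸ N)) from b.2.2) ((QuotientGroup.mk' N) (a : G))
          ⟨a, a.2.1, rfl⟩
        rw [← map_mul, ← map_mul] at h2
        exact QuotientGroup.eq.mp h2) (by
        intro g
        apply Subtype.ext
        change cj (subgroupOf_normal hN M₁) g (toSub M₁ (θ : N → ℂ)) = toSub M₁ (θ : N → ℂ)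
        rw [cj_toSub hN]
        congr 1
        exact congrArg Subtype.val (hinv (g : G))) (by
        have h3 : (N.subgroupOf M₁).index ∣ p ^ k := by
          rw [← hk]
          exact Dvd.intro _ (Subgroup.relIndex_mul_relIndex N M₁ K hNM inf_le_left)
        have h4 : Nat.card (N.subgroupOf M₁) = Nat.card N :=
          Nat.card_congr (Subgroup.subgroupOfEquivOfLe hNM).toEquiv
        rw [h4]
        exact Nat.Coprime.coprime_dvd_left h3 (Nat.Coprime.pow_left _ hNco.symm)) hψ2
    rw [h1]
    have h2 : ((charDegree (toSub M₁ (θ : N → ℂ)) : ℕ) : ℂ) = (charDegree (θ : N → ℂ) : ℂ) := by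
      rw [← irr_one_eq_charDegree θ.2, ← irr_one_eq_charDegree ((toSub_irr hNM).mpr θ.2)]
      rfl
    exact_mod_cast h2
  obtain ⟨e, he, hedvd⟩ := CfsgLib.Extend.ratio_dvd_index ψ.2 χ.2 hψ1
  have h3 : charDegree (χ : G → ℂ) = e * charDegree (θ : N → ℂ) := by
    rw [irr_one_eq_charDegree ψ.2, irr_one_eq_charDegree χ.2, hψ] at he
    exact_mod_cast he
  have hM0 : M₁.index ≠ 0 := Subgroup.index_ne_zero_of_finite
  have he0 : e ≠ 0 := fun h => hM0 (Nat.eq_zero_of_zero_dvd (h ▸ hedvd))
  have hθp : (charDegree (θ : N → ℂ)).factorization p = 0 :=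
    Nat.factorization_eq_zero_of_not_dvd (fun h => hN' (h.trans (charDegree_dvd_card θ.2)))
  rw [h3, Nat.factorization_mul he0 (irr_charDegree_pos θ.2).ne', Finsupp.add_apply, hθp, add_zero]
  have h4 : e.factorization p ≤ M₁.index.factorization p :=
    (Nat.factorization_le_iff_dvd he0 hM0).mpr hedvd p
  refine h4.trans ?_
  -- compare indices
  have h5 := card_factorization (p := p) M₁
  have h6 : (Nat.card G).factorization p = (Nat.card P').factorization p := by
    have h7 : Nat.card P' = p ^ (Nat.card G).factorization p := P'.card_eq_multiplicity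
    rw [h7, hpp.factorization_pow, Finsupp.single_eq_same]
  have h7 : (Nat.card P').factorization p = (Nat.card (Subgroup.center P')).factorization p +
      (Subgroup.center P').index.factorization p := by
    rw [← Subgroup.card_mul_index (Subgroup.center P'), Nat.factorization_mul Nat.card_pos.ne'
      Subgroup.index_ne_zero_of_finite, Finsupp.add_apply]
  have h8 : (Nat.card (Subgroup.center P')).factorization p ≤ (Nat.card M₁).factorization p := by
    have h9 : Nat.card (Subgroup.center P') ∣ Nat.card M₁ := by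
      have := Subgroup.card_dvd_of_le hZM
      rwa [Subgroup.card_map_of_injective (Subgroup.subtype_injective _)] at this
    exact (Nat.factorization_le_iff_dvd Nat.card_pos.ne' Nat.card_pos.ne').mpr h9 p
  omega

theorem center_index_equiv {A B : Type*} [Group A] [Group B] (e : A ≃* B) :
    (Subgroup.center A).index = (Subgroup.center B).index := by
  have h1 : (Subgroup.center A).map (e : A →* B) = Subgroup.center B := by
    ext x
    constructor
    · rintro ⟨y, hy, rfl⟩
      rw [Subgroup.mem_center_iff]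
      intro g
      obtain ⟨g', rfl⟩ := e.surjective g
      change e g' * e y = e y * e g'
      rw [← map_mul, ← map_mul, (Subgroup.mem_center_iff.mp hy g')]
    · intro hx
      refine ⟨e.symm x, ?_, by simp⟩
      change e.symm x ∈ Subgroup.center A
      rw [Subgroup.mem_center_iff]
      intro g
      apply e.injective
      rw [map_mul, map_mul, e.apply_symm_apply]
      exact Subgroup.mem_center_iff.mp hx (e g)
  rw [← h1, Subgroup.index_map_equiv]

/-- S4439 -/
theorem height_le (hM : IsPModular p M) (n : ℕ) : ∀ (G : Type u) [Group G] [Fintype G],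
    Nat.card G ≤ n → IsPSolvable p G → ∀ (B : Set (IrrCharacter G)), IsPBlock M B →
    ∀ P : Subgroup G, IsDefectGroup p M B P → ∀ χ ∈ B,
      blockHeight p B (χ : G → ℂ) ≤ ((Subgroup.center P).index).factorization p := by
  classical
  have hp := isPrime_of_modular hM
  have hpp : p.Prime := Fact.out
  induction n with
  | zero =>
    intro G _ _ h0
    exact absurd h0 (not_le.mpr Nat.card_pos)
  | succ n ih =>
  intro G _ _ hcard hsolv B hB P hP χ hχ
  set N : Subgroup G := pPrimeCore p G with hNdef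
  haveI hN : N.Normal := inferInstance
  letI : Fintype N := Fintype.ofFinite _
  have hNco : (Nat.card N).Coprime p := CfsgLib.Cores.pPrimeCore_coprime p
  have hN' : ¬ p ∣ Nat.card N := fun h =>
    hpp.one_lt.ne' (Nat.dvd_one.mp (hNco ▸ Nat.dvd_gcd h dvd_rfl))
  obtain ⟨θ', hθ', hover⟩ := exists_below N χ.2
  set θ : IrrCharacter N := ⟨θ', hθ'⟩ with hθ
  have hθb := singleton_block hM hN' θ
  set T := inert N θ with hT
  have hTm : ∀ g : G, g ∈ T ↔ ∀ φ ∈ ({θ} : Set (IrrCharacter N)), cjI N g φ ∈ ({θ} : Set _) := by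
    intro g
    simp only [Set.mem_singleton_iff, forall_eq]
    rfl
  by_cases hTop : T = ⊤
  · -- invariant case
    have hinv : ∀ g : G, cjI N g θ = θ := by
      intro g
      have : g ∈ T := by rw [hTop]; trivial
      exact this
    obtain ⟨B', hB', hmem, hsyl, hsyl'⟩ := fong hM hsolv N hNdef θ hinv
    have hBB : B = B' := block_eq_of_mem hp hB hB' hχ ((hmem χ).mpr hover)
    rw [← hBB] at hsyl'
    obtain ⟨P', hP'⟩ := hsyl' P hP
    have h1 := inv_case hsolv N hNdef θ hinv hover P'
    subst hP'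
    exact le_trans (Nat.sub_le _ _) h1
  · -- Fong--Reynolds
    have hNT : N ≤ T := le_inert N θ
    letI : Fintype T := Fintype.ofFinite _
    have hlt : Nat.card T < Nat.card G := by
      have h1 : Nat.card T ≤ Nat.card G := Nat.le_of_dvd Nat.card_pos (Subgroup.card_subgroup_dvd_card T)
      refine lt_of_le_of_ne h1 (fun h => hTop ?_)
      exact Subgroup.eq_top_of_card_eq T h
    obtain ⟨-, -, h3⟩ := s4435 N hNT hM hθb hTm
    obtain ⟨B', hB', hcov, hind⟩ := h3 B hB ⟨χ, hχ, θ, rfl, hover⟩
    obtain ⟨hdef, hht⟩ := s4436 N hNT hM hθb hTm hB' hcov hind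
    obtain ⟨-, hmem⟩ : True ∧ ∀ χ : IrrCharacter G, χ ∈ B ↔ ∃ ψ ∈ B',
        (χ : G → ℂ) = indFun T (ψ : T → ℂ) := by
      refine ⟨trivial, ?_⟩
      obtain ⟨hA, -, -⟩ := s4435 N hNT hM hθb hTm
      obtain ⟨B₁, hB₁, -, -, h5⟩ := hA B' hB' hcov
      rw [← induced_unique hp hB₁ hind]
      exact h5
    obtain ⟨ψ, hψ, hχψ⟩ := (hmem χ).mp hχ
    obtain ⟨χ', hχ', hχ'ψ, hh⟩ := hht ψ hψ
    have hχχ : χ' = χ := Subtype.ext (hχ'ψ.trans hχψ.symm)
    subst hχχ
    rw [hh]
    obtain ⟨x, hx⟩ := exists_defectClass hp hB'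
    let S : Sylow p (Subgroup.centralizer ({x} : Set T)) := default
    set D := (S : Subgroup (Subgroup.centralizer ({x} : Set T))).map
      (Subgroup.centralizer ({x} : Set T)).subtype with hD
    have hDd : IsDefectGroup p M B' D := ⟨x, hx, S, rfl⟩
    have h6 := ih T (by omega) (CfsgLib.PSolv19.psolv_subgroup hpp hsolv T) B' hB' D hDd ψ hψ
    have h7 := hdef D hDd
    -- conjugate defect groups have isomorphic centres
    obtain ⟨y, hy⟩ := defectGroups_conj hM hB h7 hP
    have h8 : (Subgroup.center D).index = (Subgroup.center P).index := by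
      rw [center_index_equiv (Subgroup.equivMapOfInjective D T.subtype T.subtype_injective)]
      have h9 : Function.Injective (MulAut.conj y).toMonoidHom := (MulAut.conj y).injective
      rw [center_index_equiv (Subgroup.equivMapOfInjective (D.map T.subtype)
        (MulAut.conj y).toMonoidHom h9), ← hy]
    rw [← h8]
    exact h6

end CfsgLib.FongHt
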