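import Cfsg.Agent.EqBase
import Mathlib
import Cfsg.Agent.LibFrame

set_option autoImplicit false
set_option linter.style.haveILetI false

namespace CfsgLib.Ward2

open CfsgLib.SolvBasic CfsgLib.SolvMin CfsgLib.SolvCoprime CfsgLib.SolvFitting CfsgLib.Fpf CfsgLib.Ward CfsgLib.Frame
open scoped commutatorElement Pointwise

universe u

/-- A solvable subgroup normalised by a group of prime order without fixed points is nilpotent. -/
theorem nilpotent_of_fpf {X : Type u} [Group X] [Finite X] {p : ℕ} [hp : Fact p.Prime] {K B : Subgroup X}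
    (hBK : B ≤ Subgroup.normalizer (K : Set X)) (hK : Group.IsSolvable K) (hB : Nat.card B = p)
    (hfix : K ⊓ Subgroup.centralizer (B : Set X) = ⊥) : Group.IsNilpotent K := by
  have hle1 : K ≤ K ⊔ B := le_sup_left
  have hle2 : B ≤ K ⊔ B := le_sup_right
  haveI : (K.subgroupOf (K ⊔ B)).Normal := by
    rw [Subgroup.normal_subgroupOf_iff_le_normalizer hle1]
    exact sup_le Subgroup.le_normalizer hBK
  haveI := hK
  have h1 := nilpotent_of_fpf_aux (Nat.card (K.subgroupOf (K ⊔ B))) (K ⊔ B : Subgroup X) p (K.subgroupOf (K ⊔ B))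
    (B.subgroupOf (K ⊔ B)) rfl (isSolvable_subgroupOf hle1) (by rw [card_subgroupOf hle2, hB]) (by
      rw [eq_bot_iff]
      rintro x hx
      obtain ⟨hx1, hx2⟩ := Subgroup.mem_inf.1 hx
      have h3 : (x : X) ∈ K ⊓ Subgroup.centralizer (B : Set X) := by
        refine Subgroup.mem_inf.2 ⟨hx1, Subgroup.mem_centralizer_iff.2 ?_⟩
        intro b hb
        exact congrArg Subtype.val (Subgroup.mem_centralizer_iff.1 hx2 ⟨b, hle2 hb⟩ hb)
      rw [hfix, Subgroup.mem_bot] at h3
      exact Subtype.ext h3)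
  haveI := h1
  exact Group.nilpotent_of_mulEquiv (Subgroup.subgroupOfEquivOfLe hle1)

/-- elements of coprime prime power order commute in a nilpotent group (subgroup form) -/
theorem commute_of_nilpotent {X : Type u} [Group X] [Finite X] {N : Subgroup X} (hN : Group.IsNilpotent N) {q r : ℕ}
    [hq : Fact q.Prime] [hr : Fact r.Prime] (hqr : q ≠ r) {x y : X} (hx : x ∈ N) (hy : y ∈ N) (hxq : ∃ k, x ^ q ^ k = 1)
    (hyr : ∃ k, y ^ r ^ k = 1) : x * y = y * x := by
  have hnorm := (isNilpotent_of_sylow_normal N).1 hN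
  -- zpowers are in Sylow subgroups
  have hxp : IsPGroup q (Subgroup.zpowers (⟨x, hx⟩ : N)) := by
    obtain ⟨k, hk⟩ := hxq
    have h1 : orderOf (⟨x, hx⟩ : N) ∣ q ^ k := by
      rw [← Subgroup.orderOf_coe]; exact orderOf_dvd_of_pow_eq_one hk
    obtain ⟨j, _, hj⟩ := (Nat.dvd_prime_pow hq.out).1 h1
    exact IsPGroup.of_card (by rw [Nat.card_zpowers]; exact hj)
  have hyp : IsPGroup r (Subgroup.zpowers (⟨y, hy⟩ : N)) := by
    obtain ⟨k, hk⟩ := hyr
    have h1 : orderOf (⟨y, hy⟩ : N) ∣ r ^ k := by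
      rw [← Subgroup.orderOf_coe]; exact orderOf_dvd_of_pow_eq_one hk
    obtain ⟨j, _, hj⟩ := (Nat.dvd_prime_pow hr.out).1 h1
    exact IsPGroup.of_card (by rw [Nat.card_zpowers]; exact hj)
  obtain ⟨P, hP⟩ := hxp.exists_le_sylow
  obtain ⟨R, hR⟩ := hyp.exists_le_sylow
  haveI := hnorm q hq P
  haveI := hnorm r hr R
  have hdisj : Disjoint (P : Subgroup N) (R : Subgroup N) := IsPGroup.disjoint_of_ne q r hqr _ _ P.2 R.2
  have hc := Subgroup.commute_of_normal_of_disjoint (P : Subgroup N) (R : Subgroup N) inferInstance inferInstance hdisj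
    ⟨x, hx⟩ ⟨y, hy⟩ (hP (Subgroup.mem_zpowers _)) (hR (Subgroup.mem_zpowers _))
  exact congrArg Subtype.val hc


theorem le_pCore_of_le_fitting {H : Type u} [Group H] [Finite H] {t : ℕ} [ht : Fact t.Prime] {T : Subgroup H}
    (hT : IsPGroup t T) (hTF : T ≤ Cfsg.fittingSubgroup H) : T ≤ Cfsg.pCore t H := by
  haveI hFn : Group.IsNilpotent (Cfsg.fittingSubgroup H) := fitting_isNilpotent
  haveI : (Cfsg.fittingSubgroup H).Normal := fitting_normal
  have h1 : IsPGroup t (T.subgroupOf (Cfsg.fittingSubgroup H)) := hT.comap_subtype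
  obtain ⟨P, hP⟩ := h1.exists_le_sylow
  haveI hPn : (P : Subgroup (Cfsg.fittingSubgroup H)).Normal := (isNilpotent_of_sylow_normal _).1 hFn t ht P
  haveI : (P : Subgroup (Cfsg.fittingSubgroup H)).Characteristic := P.characteristic_of_normal hPn
  have h2 : ((P : Subgroup (Cfsg.fittingSubgroup H)).map (Cfsg.fittingSubgroup H).subtype).Normal := inferInstance
  have h3 := le_pCore t h2 (P.2.map _)
  refine le_trans ?_ h3
  intro x hx
  exact ⟨⟨x, hTF hx⟩, hP hx, rfl⟩

/-- A solvable group in which the Sylow `s`-subgroups centralise `O_q` for all `q ≠ s` is nilpotent. -/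
theorem nilpotent_of_cores {H : Type u} [Group H] [Finite H] [Group.IsSolvable H]
    (h : ∀ (q s : ℕ) (_ : Fact q.Prime) (_ : Fact s.Prime), q ≠ s → ∀ S : Sylow s H,
      (S : Subgroup H) ≤ Subgroup.centralizer (Cfsg.pCore q H : Set H)) : Group.IsNilpotent H := by
  rw [isNilpotent_of_sylow_normal]
  intro s hs S
  let M : Subgroup H := ⨆ (q : Nat.Primes) (_ : (q : ℕ) ≠ s), Cfsg.pCore (q : ℕ) H
  have hMn : M.Normal := by
    have h1 : ∀ q : Nat.Primes, (Cfsg.pCore (q : ℕ) H).Normal := fun q => by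
      haveI : Fact (q : ℕ).Prime := ⟨q.2⟩
      exact pCore_normal (q : ℕ)
    infer_instance
  let D : Subgroup H := Subgroup.centralizer (M : Set H)
  have hDn : D.Normal := inferInstance
  have hSD : (S : Subgroup H) ≤ D := by
    rw [Subgroup.le_centralizer_iff]
    refine iSup_le fun q => iSup_le fun hq => ?_
    haveI : Fact (q : ℕ).Prime := ⟨q.2⟩
    rw [Subgroup.le_centralizer_iff]
    exact h q s inferInstance hs hq S
  -- D normalises S
  have hDS : D ≤ Subgroup.normalizer ((S : Subgroup H) : Set H) ⊓ D := by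
    apply le_of_forall_sylow inf_le_right
    intro t ht
    by_cases hts : t = s
    · subst hts
      refine ⟨S, ?_, le_inf Subgroup.le_normalizer hSD⟩
      refine ⟨hSD, S.2, ?_⟩
      intro hd
      have h1 : (S : Subgroup H).relIndex D ∣ (S : Subgroup H).index := Subgroup.relIndex_dvd_index_of_le hSD
      exact S.not_dvd_index (hd.trans h1)
    · obtain ⟨T, hT⟩ := IsSylowIn.exists_isSylowIn (p := t) D
      refine ⟨T, hT, le_inf ?_ hT.le⟩
      -- T centralises all cores
      have hTq : ∀ (q : ℕ) (_ : Fact q.Prime), T ≤ Subgroup.centralizer (Cfsg.pCore q H : Set H) := by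
        intro q hq
        by_cases hqt : q = t
        · subst hqt
          have h1 : Cfsg.pCore q H ≤ M := by
            have := le_iSup₂ (f := fun (q : Nat.Primes) (_ : (q : ℕ) ≠ s) => Cfsg.pCore (q : ℕ) H) ⟨q, hq.out⟩ hts
            exact this
          exact hT.le.trans (Subgroup.centralizer_le h1)
        · obtain ⟨P, hP⟩ := hT.isPGroup.exists_le_sylow
          exact hP.trans (h q t hq ht hqt P)
      have hTF : T ≤ Cfsg.fittingSubgroup H := by
        refine le_trans ?_ centralizer_fitting_le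
        rw [Subgroup.le_centralizer_iff, fitting_eq_iSup]
        refine iSup_le fun q => ?_
        rw [Subgroup.le_centralizer_iff]
        exact hTq q ⟨q.2⟩
      have hTt := le_pCore_of_le_fitting hT.isPGroup hTF
      have h2 : T ≤ Subgroup.centralizer ((S : Subgroup H) : Set H) := by
        rw [Subgroup.le_centralizer_iff]
        exact (h t s ht hs hts S).trans (Subgroup.centralizer_le hTt)
      exact h2.trans (Subgroup.centralizer_le_normalizer _)
  have hSsyl : IsSylowIn s (S : Subgroup H) D := by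
    refine ⟨hSD, S.2, ?_⟩
    intro hd
    have h1 : (S : Subgroup H).relIndex D ∣ (S : Subgroup H).index := Subgroup.relIndex_dvd_index_of_le hSD
    exact S.not_dvd_index (hd.trans h1)
  rw [← Subgroup.normalizer_eq_top_iff, eq_top_iff]
  intro x _
  rw [mem_normalizer_iff_conj_smul]
  have hx := hSsyl.conj_of_normalizes (g := x) (by rw [Subgroup.normalizer_eq_top]; trivial)
  obtain ⟨k, hk, hkS⟩ := IsSylowIn.exists_conj hSsyl hx
  rw [← hkS, ← mem_normalizer_iff_conj_smul]
  exact (hDS hk).1

end CfsgLib.Ward2
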