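import Cfsg.Agent.EqBase
import Mathlib
import Cfsg.Agent.LibWard2

set_option autoImplicit false
set_option linter.style.haveILetI false

namespace CfsgLib.Ward3

open CfsgLib.SolvBasic CfsgLib.SolvMin CfsgLib.SolvCoprime CfsgLib.SolvFitting CfsgLib.Fpf CfsgLib.Ward CfsgLib.Frame
open CfsgLib.Ward2
open scoped commutatorElement Pointwise

universe u

section conf

variable {X : Type u} [Group X] [Finite X] {r : ℕ} {V H A : Subgroup X}

theorem Conf.HV (C : Conf r V H A) (K : Subgroup X) : K ≤ Subgroup.normalizer (V : Set X) := by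
  haveI := C.Vnormal
  rw [Subgroup.normalizer_eq_top]; exact le_top

/-- a subgroup of `V` normalised by `H` and `A` is trivial or `V`. -/
theorem Conf.min (C : Conf r V H A) {M : Subgroup X} (hM : M ≤ V) (hH : H ≤ Subgroup.normalizer (M : Set X))
    (hA : A ≤ Subgroup.normalizer (M : Set X)) : M = ⊥ ∨ M = V := by
  apply C.Vmin M _ hM
  rw [← Subgroup.normalizer_eq_top_iff, eq_top_iff, ← C.top]
  refine sup_le (sup_le ?_ hH) hA
  intro v hv
  apply mem_normalizer_of_forall
  intro m hm
  have h1 := C.Vab v hv m (hM hm)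
  rw [h1]; simpa using hm

/-- `r`-subgroups of `H` normal in `HA` are trivial -/
theorem Conf.pcore_eq_bot (C : Conf r V H A) (hr : r.Prime) {O : Subgroup X} (hO : IsPGroup r O) (hOH : O ≤ H)
    (hHO : H ≤ Subgroup.normalizer (O : Set X)) (hAO : A ≤ Subgroup.normalizer (O : Set X)) : O = ⊥ := by
  haveI : Fact r.Prime := ⟨hr⟩
  have h1 := commutator_lt_of_pgroup C.Vp hO (Conf.HV C O) C.Vne
  have h2 : ⁅V, O⁆ = ⊥ := by
    rcases Conf.min C h1.le (fun x hx => mem_normalizer_commutator (Conf.HV C H hx) (hHO hx))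
      (fun x hx => mem_normalizer_commutator (Conf.HV C A hx) (hAO hx)) with h3 | h3
    · exact h3
    · exact absurd h3 h1.ne
  rw [Subgroup.commutator_eq_bot_iff_le_centralizer] at h2
  rw [eq_bot_iff, ← C.faith]
  exact le_inf hOH (Subgroup.le_centralizer_iff.1 h2)

/-- Ward: the faithful group is nilpotent. -/
theorem ward_conf (C : Conf r V H A) (hr : r.Prime) {p : ℕ} [hp : Fact p.Prime] (hA : Nat.card A = p ^ 2)
    (hexp : ∀ a ∈ A, a ^ p = 1) (hAc : ∀ a ∈ A, ∀ b ∈ A, a * b = b * a) : Group.IsNilpotent H := by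
  haveI : Fact r.Prime := ⟨hr⟩
  haveI := C.Hsol
  haveI := C.Vnormal
  have hcoH : (Nat.card A).Coprime (Nat.card H) :=
    Nat.Coprime.coprime_dvd_right (Subgroup.card_dvd_of_le le_sup_right) C.cop
  have hpVH : p.Coprime (Nat.card (V ⊔ H : Subgroup X)) := by
    have := C.cop
    rw [hA] at this
    exact Nat.Coprime.coprime_dvd_left (dvd_pow_self p (by norm_num)) this
  have hpH : p.Coprime (Nat.card H) := Nat.Coprime.coprime_dvd_right (Subgroup.card_dvd_of_le le_sup_right) hpVH
  have hVHsol : Group.IsSolvable (V ⊔ H : Subgroup X) := by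
    -- extension
    have h1 : (V.subgroupOf (V ⊔ H)).Normal := inferInstance
    haveI hVs : Group.IsSolvable V := by
      haveI : Group.IsNilpotent V := C.Vp.isNilpotent
      infer_instance
    haveI : Group.IsSolvable (V.subgroupOf (V ⊔ H)) := isSolvable_subgroupOf le_sup_left
    let f : H →* (V ⊔ H : Subgroup X) ⧸ (V.subgroupOf (V ⊔ H)) :=
      (QuotientGroup.mk' _).comp (Subgroup.inclusion le_sup_right)
    have hf : Function.Surjective f := by
      intro y
      obtain ⟨⟨y, hy⟩, rfl⟩ := QuotientGroup.mk'_surjective _ y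
      have hy' := hy
      rw [mem_sup_iff_of_le_normalizer (Conf.HV C H)] at hy'
      obtain ⟨v, hv, h, hh, rfl⟩ := hy'
      refine ⟨⟨h, hh⟩, ?_⟩
      change (QuotientGroup.mk' _) _ = (QuotientGroup.mk' _) _
      rw [QuotientGroup.mk'_apply, QuotientGroup.mk'_apply, QuotientGroup.eq, Subgroup.mem_subgroupOf]
      change h⁻¹ * (v * h) ∈ V
      have := C.Vnormal.conj_mem v hv h⁻¹
      simpa [mul_assoc] using this
    haveI : Group.IsSolvable ((V ⊔ H : Subgroup X) ⧸ (V.subgroupOf (V ⊔ H))) := Group.isSolvable_of_surjective hf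
    exact Group.isSolvable_of_ker_le_range (V.subgroupOf (V ⊔ H)).subtype (QuotientGroup.mk' (V.subgroupOf (V ⊔ H)))
      (by rw [QuotientGroup.ker_mk', Subgroup.range_subtype])
  -- independent elements
  have hindep : ∀ b ∈ A, b ≠ 1 → ∃ c ∈ A, c ∉ Subgroup.zpowers b := by
    intro b hb hb1
    by_contra hcon
    push Not at hcon
    have h1 : A ≤ Subgroup.zpowers b := hcon
    have h2 := Subgroup.card_dvd_of_le h1
    rw [hA, Nat.card_zpowers, orderOf_eq_prime (hexp b hb) hb1] at h2
    have h3 := Nat.le_of_dvd hp.out.pos h2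
    have h4 := hp.out.one_lt
    nlinarith
  have hAVH : A ≤ Subgroup.normalizer ((V ⊔ H : Subgroup X) : Set X) := by
    intro a ha
    apply mem_normalizer_of_forall
    intro y hy
    rw [mem_sup_iff_of_le_normalizer (Conf.HV C H)] at hy
    obtain ⟨v, hv, h, hh, rfl⟩ := hy
    have : a * (v * h) * a⁻¹ = (a * v * a⁻¹) * (a * h * a⁻¹) := by group
    rw [this]
    exact mul_mem (Subgroup.mem_sup_left (C.Vnormal.conj_mem v hv a)) (Subgroup.mem_sup_right (normal_conj (C.AH ha) hh))
  -- centralisers are nilpotent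
  have hnil : ∀ b ∈ A, b ≠ 1 → Group.IsNilpotent ((V ⊔ H) ⊓ Subgroup.centralizer {b} : Subgroup X) := by
    intro b hb hb1
    obtain ⟨c, hc, hcb⟩ := hindep b hb hb1
    have hc1 : c ≠ 1 := by rintro rfl; exact hcb (one_mem _)
    have hle : ((V ⊔ H) ⊓ Subgroup.centralizer {b} : Subgroup X) ≤ V ⊔ H := inf_le_left
    apply nilpotent_of_fpf (p := p) (B := Subgroup.zpowers c) _ (isSolvable_of_le hle)
    · rw [Nat.card_zpowers, orderOf_eq_prime (hexp c hc) hc1]
    · rw [eq_bot_iff, ← C.fix]
      intro x hx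
      obtain ⟨hx1, hx2⟩ := Subgroup.mem_inf.1 hx
      obtain ⟨hx3, hx4⟩ := Subgroup.mem_inf.1 hx1
      refine Subgroup.mem_inf.2 ⟨hx3, ?_⟩
      have h3 : A ≤ Subgroup.centralizer {x} := by
        apply le_of_two hp.out hA hexp hb hb1 hc hcb
        · rw [Subgroup.mem_centralizer_singleton_iff]
          exact (Subgroup.mem_centralizer_singleton_iff.1 hx4).symm
        · rw [Subgroup.mem_centralizer_singleton_iff]
          exact Subgroup.mem_centralizer_iff.1 hx2 c (Subgroup.mem_zpowers c)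
      rw [Subgroup.mem_centralizer_iff]
      intro a ha
      exact Subgroup.mem_centralizer_singleton_iff.1 (h3 ha)
    · rw [Subgroup.zpowers_le]
      apply mem_normalizer_of_forall
      intro x hx
      obtain ⟨hx1, hx2⟩ := Subgroup.mem_inf.1 hx
      refine Subgroup.mem_inf.2 ⟨normal_conj (hAVH hc) hx1, ?_⟩
      rw [Subgroup.mem_centralizer_singleton_iff] at hx2 ⊢
      have h4 := hAc c hc b hb
      have h5 : c⁻¹ * b = b * c⁻¹ := by
        calc c⁻¹ * b = c⁻¹ * (b * c) * c⁻¹ := by group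
          _ = c⁻¹ * (c * b) * c⁻¹ := by rw [h4]
          _ = _ := by group
      calc c * x * c⁻¹ * b = c * x * (c⁻¹ * b) := by group
        _ = c * (x * b) * c⁻¹ := by rw [h5]; group
        _ = (c * b) * x * c⁻¹ := by rw [hx2]; group
        _ = b * (c * x * c⁻¹) := by rw [h4]; group
  apply nilpotent_of_cores
  intro q s hq hs hqs S
  set O : Subgroup X := (Cfsg.pCore q H).map H.subtype with hO
  haveI hcn : (Cfsg.pCore q H).Normal := pCore_normal q
  haveI hchar : (Cfsg.pCore q H).Characteristic := by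
    rw [Subgroup.characteristic_iff_map_le]
    intro φ
    exact le_pCore q (Subgroup.Normal.map hcn _ φ.surjective) ((pCore_isPGroup q).map _)
  have hOq : IsPGroup q O := (pCore_isPGroup q).map _
  have hOH : O ≤ H := Subgroup.map_subtype_le _
  have hNO : ∀ x, x ∈ Subgroup.normalizer (H : Set X) → x ∈ Subgroup.normalizer (O : Set X) := by
    intro x hx
    exact normalizer_le_normalizer_of_char (Cfsg.pCore q H) hx
  have hHO : H ≤ Subgroup.normalizer (O : Set X) := fun x hx => hNO x (Subgroup.le_normalizer hx)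
  have hAO : A ≤ Subgroup.normalizer (O : Set X) := fun x hx => hNO x (C.AH hx)
  -- invariant Sylow
  obtain ⟨S0, hS0, hAS0⟩ := exists_invariant_sylow A H C.AH hcoH (Or.inr C.Hsol) s
  have hmain : ∀ x ∈ S0, ∀ g ∈ O, x * g = g * x := by
    by_cases hqr : q = r
    · subst hqr
      have := Conf.pcore_eq_bot C hr hOq hOH hHO hAO
      intro x _ g hg
      rw [this, Subgroup.mem_bot] at hg
      rw [hg]; simp
    · have hOO : O ≤ Subgroup.normalizer ((O ⊓ Subgroup.centralizer (V : Set X) : Subgroup X) : Set X) := by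
        intro x hx
        apply mem_normalizer_of_forall
        intro k hk
        exact Subgroup.mem_inf.2 ⟨normal_conj (Subgroup.le_normalizer hx) hk.1, centralizer_conj (Conf.HV C O hx) hk.2⟩
      have hpS0 : p.Coprime (Nat.card S0) := Nat.Coprime.coprime_dvd_right (Subgroup.card_dvd_of_le hS0.le) hpH
      have h1 : S0 ≤ trivSub O (O ⊓ Subgroup.centralizer (V : Set X)) inf_le_left hOO := by
        apply le_of_centralizers_le hp.out A S0 _ hA hexp hAS0 hpS0
        intro b hb hb1
        set Sb : Subgroup X := S0 ⊓ Subgroup.centralizer {b} with hSb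
        have hSbS0 : Sb ≤ S0 := inf_le_left
        have hpO : p.Coprime (Nat.card O) := Nat.Coprime.coprime_dvd_right (Subgroup.card_dvd_of_le hOH) hpH
        have hASb : A ≤ Subgroup.normalizer (Sb : Set X) := by
          intro c hc
          apply mem_normalizer_of_forall
          intro x hx
          obtain ⟨hx1, hx2⟩ := Subgroup.mem_inf.1 hx
          refine Subgroup.mem_inf.2 ⟨normal_conj (hAS0 hc) hx1, ?_⟩
          rw [Subgroup.mem_centralizer_singleton_iff] at hx2 ⊢
          have h4 := hAc c hc b hb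
          have h5 : c⁻¹ * b = b * c⁻¹ := by
            calc c⁻¹ * b = c⁻¹ * (b * c) * c⁻¹ := by group
              _ = c⁻¹ * (c * b) * c⁻¹ := by rw [h4]
              _ = _ := by group
          calc c * x * c⁻¹ * b = c * x * (c⁻¹ * b) := by group
            _ = c * (x * b) * c⁻¹ := by rw [h5]; group
            _ = (c * b) * x * c⁻¹ := by rw [hx2]; group
            _ = b * (c * x * c⁻¹) := by rw [h4]; group
        have hcom : ∀ (t₁ t₂ : ℕ) (_ : Fact t₁.Prime) (_ : Fact t₂.Prime), t₁ ≠ t₂ → ∀ (K₁ K₂ : Subgroup X), IsPGroup t₁ K₁ →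
            IsPGroup t₂ K₂ → K₁ ≤ V ⊔ H → K₂ ≤ V ⊔ H → ∀ b ∈ A, b ≠ 1 → ∀ x ∈ K₁, ∀ y ∈ K₂, x * b = b * x → y * b = b * y → x * y = y * x := by
          intro t₁ t₂ ht₁ ht₂ ht K₁ K₂ hK₁ hK₂ hK₁' hK₂' b hb hb1 x hx y hy hxb hyb
          apply commute_of_nilpotent (hnil b hb hb1) ht
          · exact Subgroup.mem_inf.2 ⟨hK₁' hx, Subgroup.mem_centralizer_singleton_iff.2 hxb⟩
          · exact Subgroup.mem_inf.2 ⟨hK₂' hy, Subgroup.mem_centralizer_singleton_iff.2 hyb⟩
          · obtain ⟨k, hk⟩ := hK₁ ⟨x, hx⟩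
            exact ⟨k, congrArg Subtype.val hk⟩
          · obtain ⟨k, hk⟩ := hK₂ ⟨y, hy⟩
            exact ⟨k, congrArg Subtype.val hk⟩
        have h2 := ward_core (p := p) (q := q) A O Sb hA hexp hAc hOq hAO hASb (fun x hx => hHO (hS0.le (hSbS0 hx)))
          hpO.symm (Nat.Coprime.coprime_dvd_right (Subgroup.card_dvd_of_le hSbS0) hpS0).symm
          (by
            rw [eq_bot_iff, ← C.fix]
            exact inf_le_inf_right _ (hOH.trans le_sup_right))
          (by
            rw [eq_bot_iff, ← C.fix]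
            exact inf_le_inf_right _ ((hSbS0.trans hS0.le).trans le_sup_right))
          b hb hb1 (fun x hx => Subgroup.mem_centralizer_singleton_iff.1 hx.2)
          (fun x hx g hg hgb => hcom s q hs hq hqs.symm Sb O (hS0.isPGroup.to_le hSbS0) hOq
            ((hSbS0.trans hS0.le).trans le_sup_right) (hOH.trans le_sup_right) b hb hb1 x hx g hg
            (Subgroup.mem_centralizer_singleton_iff.1 hx.2) hgb)
          (Nat.card V) V rfl C.Vab (Conf.HV C A) (Conf.HV C O) (Conf.HV C Sb)
          (by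
            obtain ⟨i, hi⟩ := IsPGroup.iff_card.1 hOq
            obtain ⟨j, hj⟩ := IsPGroup.iff_card.1 C.Vp
            rw [hi, hj]
            exact Nat.Coprime.pow _ _ ((Nat.coprime_primes hq.out hr).2 hqr))
          (fun a ha ha1 v hv hva g hg hga => hcom r q inferInstance hq (Ne.symm hqr) V O C.Vp hOq le_sup_left
            (hOH.trans le_sup_right) a ha ha1 v hv g hg hva hga)
        intro x hx
        refine mem_trivSub.2 ⟨hHO (hS0.le (hSbS0 hx)), fun g hg => ?_⟩
        refine Subgroup.mem_inf.2 ⟨mul_mem (normal_conj (hHO (hS0.le (hSbS0 hx))) hg) (inv_mem hg), ?_⟩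
        have h3 := h2 (Subgroup.commutator_mem_commutator hg hx)
        have h4 := inv_mem h3
        rw [commutatorElement_inv, commutatorElement_def] at h4
        exact h4
      intro x hx g hg
      have h2 := (mem_trivSub.1 (h1 hx)).2 g hg
      have h3 : x * g * x⁻¹ * g⁻¹ ∈ H ⊓ Subgroup.centralizer (V : Set X) := Subgroup.mem_inf.2 ⟨hOH h2.1, h2.2⟩
      rw [C.faith, Subgroup.mem_bot] at h3
      exact mul_inv_eq_iff_eq_mul.1 (mul_inv_eq_one.1 h3)
  -- all Sylow subgroups
  obtain ⟨S1, hS1⟩ := hS0.exists_sylow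
  obtain ⟨x, hx⟩ := MulAction.exists_smul_eq H S1 S
  intro y hy
  rw [← hx, Sylow.coe_subgroup_smul, mem_conj_smul] at hy
  rw [Subgroup.mem_centralizer_iff]
  intro g hg
  have h1 : ((x⁻¹ * y * x : H) : X) ∈ S0 := by
    rw [← hS1]; exact ⟨_, hy, rfl⟩
  have h2 : ((x⁻¹ * g * x : H) : X) ∈ O := by
    refine ⟨x⁻¹ * g * x, ?_, rfl⟩
    have := hcn.conj_mem g hg x⁻¹
    simpa using this
  have h3 := hmain _ h1 _ h2
  have h4 : (x⁻¹ * y * x) * (x⁻¹ * g * x) = (x⁻¹ * g * x) * (x⁻¹ * y * x) := Subtype.ext h3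
  calc g * y = x * ((x⁻¹ * g * x) * (x⁻¹ * y * x)) * x⁻¹ := by group
    _ = x * ((x⁻¹ * y * x) * (x⁻¹ * g * x)) * x⁻¹ := by rw [h4]
    _ = y * g := by group

end conf

end CfsgLib.Ward3
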