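import Cfsg.Agent.EqBase
import Mathlib
import Cfsg.Agent.LibWard3

set_option autoImplicit false
set_option linter.style.haveILetI false

/-!
Fixed point free automorphisms of order four of solvable groups: preparations.
-/

namespace CfsgLib.Four

open CfsgLib.SolvBasic CfsgLib.SolvMin CfsgLib.SolvCoprime CfsgLib.SolvFitting CfsgLib.Fpf CfsgLib.Ward
open scoped commutatorElement Pointwise

universe u

variable {X : Type u} [Group X] [Finite X]

theorem invert_of_fpf {D : Subgroup X} {s : X} (hs : s ∈ Subgroup.normalizer (D : Set X))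
    (h2 : ∀ d ∈ D, s * s * d = d * (s * s)) (hf : ∀ d ∈ D, s * d = d * s → d = 1) :
    ∀ d ∈ D, s * d * s⁻¹ = d⁻¹ := by
  let f : D → D := fun d => ⟨(d : X)⁻¹ * (s * d * s⁻¹), mul_mem (inv_mem d.2) (normal_conj hs d.2)⟩
  have hfi : Function.Injective f := by
    intro d e h
    have h1 : (d : X)⁻¹ * (s * d * s⁻¹) = (e : X)⁻¹ * (s * e * s⁻¹) := congrArg Subtype.val h
    have h3 : s * ((e : X) * (d : X)⁻¹) = ((e : X) * (d : X)⁻¹) * s := by
      have h4 : (e : X) * ((d : X)⁻¹ * (s * d * s⁻¹)) = s * e * s⁻¹ := by rw [h1]; group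
      calc s * ((e : X) * (d : X)⁻¹) = (s * e * s⁻¹) * s * (d : X)⁻¹ := by group
        _ = ((e : X) * ((d : X)⁻¹ * (s * d * s⁻¹))) * s * (d : X)⁻¹ := by rw [h4]
        _ = _ := by group
    have h4 := hf _ (mul_mem e.2 (inv_mem d.2)) h3
    exact Subtype.ext (mul_inv_eq_one.1 h4).symm
  have hfs : Function.Surjective f := Finite.surjective_of_injective hfi
  intro d hd
  obtain ⟨e, he⟩ := hfs ⟨d, hd⟩
  have h1 : (e : X)⁻¹ * (s * e * s⁻¹) = d := congrArg Subtype.val he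
  rw [← h1]
  have h3 := h2 e e.2
  have h4 : s * (s * e * s⁻¹) * s⁻¹ = e := by
    calc s * (s * e * s⁻¹) * s⁻¹ = (s * s * e) * s⁻¹ * s⁻¹ := by group
      _ = (e * (s * s)) * s⁻¹ * s⁻¹ := by rw [h3]
      _ = e := by group
  calc s * ((e : X)⁻¹ * (s * e * s⁻¹)) * s⁻¹ = (s * (e : X) * s⁻¹)⁻¹ * (s * (s * e * s⁻¹) * s⁻¹) := by group
    _ = (s * (e : X) * s⁻¹)⁻¹ * e := by rw [h4]
    _ = _ := by group

omit [Finite X] in
theorem comm_of_invert {D : Subgroup X} {s : X} (h : ∀ d ∈ D, s * d * s⁻¹ = d⁻¹) : ∀ d ∈ D, ∀ e ∈ D, d * e = e * d := by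
  intro d hd e he
  have h1 := h _ (mul_mem hd he)
  have h2 : s * (d * e) * s⁻¹ = (s * d * s⁻¹) * (s * e * s⁻¹) := by group
  rw [h2, h d hd, h e he] at h1
  have h3 := congrArg Inv.inv h1
  simpa using h3.symm

theorem mem_of_sq {K : Subgroup X} {x : X} (hodd : Odd (orderOf x)) (h : x ^ 2 ∈ K) : x ∈ K := by
  obtain ⟨m, hm⟩ := hodd
  have h1 : x = (x ^ 2) ^ (m + 1) := by
    rw [← pow_mul, show 2 * (m + 1) = orderOf x + 1 by omega, pow_succ, pow_orderOf_eq_one, one_mul]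
  rw [h1]; exact K.pow_mem h _

theorem odd_orderOf {K : Subgroup X} (hK : Odd (Nat.card K)) {x : X} (hx : x ∈ K) : Odd (orderOf x) := by
  have h1 : orderOf x ∣ Nat.card K := by
    rw [show x = ((⟨x, hx⟩ : K) : X) from rfl, Subgroup.orderOf_coe]
    exact orderOf_dvd_natCard _
  exact Odd.of_dvd_nat hK h1

theorem decomp {K : Subgroup X} {τ : X} (hτK : τ ∈ Subgroup.normalizer (K : Set X))
    (h2 : ∀ k ∈ K, τ * τ * k = k * (τ * τ)) (hodd : Odd (Nat.card K)) {k : X} (hk : k ∈ K) :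
    ∃ i ∈ K, ∃ c ∈ K, k = i * c ∧ τ * i * τ⁻¹ = i⁻¹ ∧ τ * c = c * τ := by
  have hx : k * (τ * k * τ⁻¹)⁻¹ ∈ K := mul_mem hk (inv_mem (normal_conj hτK hk))
  obtain ⟨x, hxe⟩ : ∃ x, x = k * (τ * k * τ⁻¹)⁻¹ := ⟨_, rfl⟩
  rw [← hxe] at hx
  have hkk := h2 k hk
  have hτx : τ * x * τ⁻¹ = x⁻¹ := by
    rw [hxe]
    calc τ * (k * (τ * k * τ⁻¹)⁻¹) * τ⁻¹ = (τ * k * τ⁻¹) * (τ * τ * k * τ⁻¹ * τ⁻¹)⁻¹ := by group
      _ = (τ * k * τ⁻¹) * (k * (τ * τ) * τ⁻¹ * τ⁻¹)⁻¹ := by rw [hkk]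
      _ = _ := by group
  obtain ⟨m, hm⟩ := odd_orderOf hodd hx
  have hi2 : x ^ (m + 1) * x ^ (m + 1) = x := by
    rw [← pow_add, show m + 1 + (m + 1) = orderOf x + 1 by omega, pow_succ, pow_orderOf_eq_one, one_mul]
  have hτi : τ * x ^ (m + 1) * τ⁻¹ = (x ^ (m + 1))⁻¹ := by
    rw [← conj_pow, hτx, inv_pow]
  refine ⟨x ^ (m + 1), K.pow_mem hx _, (x ^ (m + 1))⁻¹ * k, mul_mem (inv_mem (K.pow_mem hx _)) hk, by group, hτi, ?_⟩
  have h3 : τ * k * τ⁻¹ = x⁻¹ * k := by rw [hxe]; group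
  have h4 : τ * ((x ^ (m + 1))⁻¹ * k) * τ⁻¹ = (x ^ (m + 1))⁻¹ * k := by
    calc τ * ((x ^ (m + 1))⁻¹ * k) * τ⁻¹ = (τ * x ^ (m + 1) * τ⁻¹)⁻¹ * (τ * k * τ⁻¹) := by group
      _ = x ^ (m + 1) * (x⁻¹ * k) := by rw [hτi, h3, inv_inv]
      _ = x ^ (m + 1) * ((x ^ (m + 1) * x ^ (m + 1))⁻¹ * k) := by rw [hi2]
      _ = _ := by group
  exact mul_inv_eq_iff_eq_mul.1 h4

theorem exists_mem_cenSub' {Q V : Subgroup X} (hQ : Group.IsNilpotent Q)
    {hQV : Q ≤ Subgroup.normalizer (V : Set X)}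
    (h : ¬ Q ≤ Subgroup.centralizer (V : Set X)) : ¬ cenSub Q V hQV ≤ Subgroup.centralizer (V : Set X) := by
  haveI := hQ
  haveI : ((Subgroup.centralizer (V : Set X)).subgroupOf Q).Normal := by
    constructor
    intro n hn g
    rw [Subgroup.mem_subgroupOf] at hn ⊢
    exact centralizer_conj (hQV g.2) hn
  have hne : ¬ (⊤ : Subgroup Q) ≤ (Subgroup.centralizer (V : Set X)).subgroupOf Q := by
    intro hle
    apply h
    intro x hx
    exact hle (Subgroup.mem_top (⟨x, hx⟩ : Q))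
  obtain ⟨z, _, hz1, hz2⟩ := CfsgLib.SolvNilp.exists_central_mod ((Subgroup.centralizer (V : Set X)).subgroupOf Q) ⊤ hne
  intro hle
  apply hz1
  rw [Subgroup.mem_subgroupOf]
  apply hle
  exact ⟨z.2, fun g hg => hz2 ⟨g, hg⟩⟩

/-- if `τ` inverts the abelian `V` then `[g, τ]` centralises `V` -/
theorem comm_cent_of_invert {V : Subgroup X} {τ g : X} (hτ : ∀ v ∈ V, τ * v * τ⁻¹ = v⁻¹)
    (hg : g ∈ Subgroup.normalizer (V : Set X)) : g * τ * g⁻¹ * τ⁻¹ ∈ Subgroup.centralizer (V : Set X) := by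
  rw [Subgroup.mem_centralizer_iff]
  intro v hv
  have h1 : τ⁻¹ * v * τ = v⁻¹ := by
    have h := hτ (v⁻¹) (inv_mem hv)
    rw [inv_inv] at h
    calc τ⁻¹ * v * τ = τ⁻¹ * (τ * v⁻¹ * τ⁻¹) * τ := by rw [h]
      _ = v⁻¹ := by group
  have h2 : g⁻¹ * v⁻¹ * g ∈ V := normal_conj' hg (inv_mem hv)
  have h3 := hτ _ h2
  symm
  calc g * τ * g⁻¹ * τ⁻¹ * v = g * τ * g⁻¹ * (τ⁻¹ * v * τ) * τ⁻¹ := by group
    _ = g * τ * g⁻¹ * v⁻¹ * τ⁻¹ := by rw [h1]
    _ = g * (τ * (g⁻¹ * v⁻¹ * g) * τ⁻¹) * τ * g⁻¹ * τ⁻¹ := by group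
    _ = g * (g⁻¹ * v⁻¹ * g)⁻¹ * τ * g⁻¹ * τ⁻¹ := by rw [h3]
    _ = v * (g * τ * g⁻¹ * τ⁻¹) := by group

omit [Finite X] in
theorem eq_or_of_mem_zpowers {τ b : X} (hτ2 : τ * τ = 1) (hb : b ∈ Subgroup.zpowers τ) : b = 1 ∨ b = τ := by
  obtain ⟨k, rfl⟩ := Subgroup.mem_zpowers_iff.1 hb
  rcases Int.even_or_odd' k with ⟨m, hm | hm⟩
  · left
    rw [hm, zpow_mul, show (2 : ℤ) = ((2 : ℕ) : ℤ) from rfl, zpow_natCast, pow_two, hτ2, one_zpow]
  · right
    rw [hm, zpow_add, zpow_mul, show (2 : ℤ) = ((2 : ℕ) : ℤ) from rfl, zpow_natCast, pow_two, hτ2, one_zpow, one_mul, zpow_one]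

/-- Claim A -/
theorem claimA (Q : Subgroup X) (hQn : Group.IsNilpotent Q) (hQodd : Odd (Nat.card Q)) (τ : X) (hτ2 : τ * τ = 1)
    (hτQ : τ ∈ Subgroup.normalizer (Q : Set X))
    (hQab : ∀ g ∈ Q, τ * g = g * τ → ∀ h ∈ Q, τ * h = h * τ → g * h = h * g) (n : ℕ) :
    ∀ V : Subgroup X, Nat.card V = n → (∀ v ∈ V, ∀ w ∈ V, v * w = w * v) → Q ≤ Subgroup.normalizer (V : Set X) →
      τ ∈ Subgroup.normalizer (V : Set X) → (Nat.card Q).Coprime (Nat.card V) →
      (∀ g ∈ Q, τ * g = g * τ → ∀ v ∈ V, τ * v = v * τ → v * g = g * v) →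
      ∀ g ∈ Q, ∀ h ∈ Q, g * h * g⁻¹ * h⁻¹ ∈ Subgroup.centralizer (V : Set X) := by
  induction n using Nat.strong_induction_on with
  | _ n ih =>
  intro V hVn hV hQV hτV hco hcomm
  haveI hVab : IsMulCommutative V := ⟨⟨fun a b => Subtype.ext (hV a a.2 b b.2)⟩⟩
  haveI := hQn
  haveI hQsol : Group.IsSolvable Q := inferInstance
  by_cases hQC : Q ≤ Subgroup.centralizer (V : Set X)
  · intro g hg h hh
    exact hQC (mul_mem (mul_mem (mul_mem hg hh) (inv_mem hg)) (inv_mem hh))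
  have hconj : ∀ k : X, τ * τ * k = k * (τ * τ) := fun k => by rw [hτ2, one_mul, mul_one]
  -- conjugation respects congruence modulo C(V)
  have hCn : ∀ x ∈ Q, ∀ d ∈ Subgroup.centralizer (V : Set X), x * d * x⁻¹ ∈ Subgroup.centralizer (V : Set X) :=
    fun x hx d hd => centralizer_conj (hQV hx) hd
  -- the splitting argument
  have split : ∀ T : Subgroup X, T ≤ cenSub Q V hQV → τ ∈ Subgroup.normalizer (T : Set X) →
      ¬ T ≤ Subgroup.centralizer (V : Set X) → (V ⊓ Subgroup.centralizer (T : Set X) ≠ ⊥) →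
      ∀ g ∈ Q, ∀ h ∈ Q, g * h * g⁻¹ * h⁻¹ ∈ Subgroup.centralizer (V : Set X) := by
    intro T hT hτT hTC hne g hg h hh
    have hTQ : T ≤ Q := hT.trans cenSub_le
    have hTV : T ≤ Subgroup.normalizer (V : Set X) := hTQ.trans hQV
    have hcoT : (Nat.card T).Coprime (Nat.card V) := Nat.Coprime.coprime_dvd_left (Subgroup.card_dvd_of_le hTQ) hco
    have hsup : ⁅V, T⁆ ⊔ (V ⊓ Subgroup.centralizer (T : Set X)) = V :=
      commutator_sup_centralizer T V hTV hcoT (Or.inl (isSolvable_of_le (K := Q) hTQ))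
    have hle1 : ⁅V, T⁆ ≤ V := comm_le_V hTV
    have hinf := centralizer_inf_commutator T V hTV hcoT
    have hlt1 : Nat.card (⁅V, T⁆ : Subgroup X) < n := by
      rw [← hVn]
      apply card_lt_of_lt
      refine lt_of_le_of_ne hle1 ?_
      intro he
      rw [he] at hinf
      apply hne
      rw [← hinf]
      exact (inf_eq_left.2 inf_le_left).symm
    have hlt2 : Nat.card (V ⊓ Subgroup.centralizer (T : Set X) : Subgroup X) < n := by
      rw [← hVn]
      apply card_lt_of_lt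
      refine lt_of_le_of_ne inf_le_left ?_
      intro he
      apply hTC
      rw [Subgroup.le_centralizer_iff, ← he]
      exact inf_le_right
    have hQ2' : Q ≤ Subgroup.normalizer ((V ⊓ Subgroup.centralizer (T : Set X) : Subgroup X) : Set X) := by
      intro x hx
      apply mem_normalizer_of_forall
      intro v hv
      refine Subgroup.mem_inf.2 ⟨normal_conj (hQV hx) hv.1, Subgroup.mem_centralizer_iff.2 ?_⟩
      intro t ht
      obtain ⟨d, hd, hgd⟩ := conj_T hT (inv_mem hx) ht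
      have hdc : v * d = d * v := Subgroup.mem_centralizer_iff.1 hd v hv.1
      have htc : t * v = v * t := Subgroup.mem_centralizer_iff.1 hv.2 t ht
      have e1 : t * x = x * (t * d) := by rw [← hgd]; group
      calc t * (x * v * x⁻¹) = t * x * v * x⁻¹ := by group
        _ = x * t * (d * v) * x⁻¹ := by rw [e1]; group
        _ = x * (t * v) * d * x⁻¹ := by rw [← hdc]; group
        _ = x * v * (t * d) * x⁻¹ := by rw [htc]; group
        _ = x * v * x⁻¹ * (x * (t * d)) * x⁻¹ := by group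
        _ = x * v * x⁻¹ * t := by rw [← e1]; group
    have hτ2' : τ ∈ Subgroup.normalizer ((V ⊓ Subgroup.centralizer (T : Set X) : Subgroup X) : Set X) := by
      apply mem_normalizer_of_forall
      intro v hv
      exact Subgroup.mem_inf.2 ⟨normal_conj hτV hv.1, centralizer_conj hτT hv.2⟩
    have hc1 := ih _ hlt1 ⁅V, T⁆ rfl (fun v hv w hw => hV v (hle1 hv) w (hle1 hw)) (conj_comm_mem hT)
      (mem_normalizer_commutator hτV hτT)
      (Nat.Coprime.coprime_dvd_right (Subgroup.card_dvd_of_le hle1) hco)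
      (fun g hg h v hv => hcomm g hg h v (hle1 hv)) g hg h hh
    have hc2 := ih _ hlt2 (V ⊓ Subgroup.centralizer (T : Set X)) rfl (fun v hv w hw => hV v hv.1 w hw.1) hQ2' hτ2'
      (Nat.Coprime.coprime_dvd_right (Subgroup.card_dvd_of_le inf_le_left) hco)
      (fun g hg h v hv => hcomm g hg h v hv.1) g hg h hh
    have h3 : V ≤ Subgroup.centralizer ({g * h * g⁻¹ * h⁻¹} : Set X) := by
      rw [← hsup]
      refine sup_le ?_ ?_
      · intro v hv
        rw [Subgroup.mem_centralizer_singleton_iff]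
        exact Subgroup.mem_centralizer_iff.1 hc1 v hv
      · intro v hv
        rw [Subgroup.mem_centralizer_singleton_iff]
        exact Subgroup.mem_centralizer_iff.1 hc2 v hv
    rw [Subgroup.mem_centralizer_iff]
    intro v hv
    exact Subgroup.mem_centralizer_singleton_iff.1 (h3 hv)
  have hZC := exists_mem_cenSub' hQn (hQV := hQV) hQC
  have hτZ : τ ∈ Subgroup.normalizer ((cenSub Q V hQV : Subgroup X) : Set X) := cenSub_normalizer hτQ hτV
  have hZodd : Odd (Nat.card (cenSub Q V hQV)) := Odd.of_dvd_nat hQodd (Subgroup.card_dvd_of_le cenSub_le)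
  by_cases hcase : ∃ z ∈ cenSub Q V hQV, z ∉ Subgroup.centralizer (V : Set X) ∧ τ * z * τ⁻¹ = z⁻¹
  · obtain ⟨z, hz, hzC, hτz⟩ := hcase
    have hT : Subgroup.zpowers z ≤ cenSub Q V hQV := Subgroup.zpowers_le.2 hz
    have hinv : ∀ t ∈ Subgroup.zpowers z, τ * t * τ⁻¹ = t⁻¹ := by
      intro t ht
      obtain ⟨k, rfl⟩ := Subgroup.mem_zpowers_iff.1 ht
      rw [← conj_zpow, hτz, inv_zpow]
    have hτT : τ ∈ Subgroup.normalizer ((Subgroup.zpowers z : Subgroup X) : Set X) := by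
      apply mem_normalizer_of_forall
      intro t ht
      rw [hinv t ht]; exact inv_mem ht
    have hTC : ¬ Subgroup.zpowers z ≤ Subgroup.centralizer (V : Set X) := fun h => hzC (h (Subgroup.mem_zpowers z))
    by_cases hne : V ⊓ Subgroup.centralizer ((Subgroup.zpowers z : Subgroup X) : Set X) = ⊥
    swap
    · exact split _ hT hτT hTC hne
    have hTQ : Subgroup.zpowers z ≤ Q := hT.trans cenSub_le
    have hTV : Subgroup.zpowers z ≤ Subgroup.normalizer (V : Set X) := hTQ.trans hQV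
    have hcoT : (Nat.card (Subgroup.zpowers z)).Coprime (Nat.card V) := Nat.Coprime.coprime_dvd_left (Subgroup.card_dvd_of_le hTQ) hco
    have hsup : ⁅V, Subgroup.zpowers z⁆ = V := by
      have h1 := commutator_sup_centralizer (Subgroup.zpowers z) V hTV hcoT (Or.inl (isSolvable_of_le (K := Q) hTQ))
      rw [hne, sup_bot_eq] at h1
      exact h1
    -- C_Q(τ) centralises V
    have hstep : ∀ v ∈ V, ∀ g ∈ Q ⊓ Subgroup.centralizer {τ}, v * g = g * v := by
      have h1 := step2 (L := Q ⊓ Subgroup.centralizer {τ}) (b := τ) hV hT hco hτV hτT (by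
        intro b hb hb1 t ht hbt
        have htodd : Odd (orderOf t) := odd_orderOf hQodd (hTQ ht)
        rcases eq_or_of_mem_zpowers hτ2 hb with h | h
        · exact absurd h hb1
        · subst h
          have h2 := hinv t ht
          have h3 : b * t * b⁻¹ = t := by rw [hbt]; group
          rw [h3] at h2
          have h4 : t ^ 2 ∈ (⊥ : Subgroup X) := by
            rw [Subgroup.mem_bot, pow_two]
            nth_rewrite 1 [h2]
            rw [inv_mul_cancel]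
          exact Subgroup.mem_bot.1 (mem_of_sq htodd h4)) inf_le_left (by
        intro v hv hvb g hg
        exact hcomm g hg.1 (Subgroup.mem_centralizer_singleton_iff.1 hg.2).symm v hv hvb.symm)
      rw [hsup] at h1
      exact h1
    -- τ inverts Q modulo C(V)
    have hinvQ : ∀ g ∈ Q, τ * g * τ⁻¹ * g ∈ Subgroup.centralizer (V : Set X) := by
      intro g hg
      obtain ⟨i, hi, c, hc, hgic, hi2, hc2⟩ := decomp hτQ (fun k _ => hconj k) hQodd hg
      have hcC : c ∈ Subgroup.centralizer (V : Set X) := by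
        rw [Subgroup.mem_centralizer_iff]
        intro v hv
        exact hstep v hv c (Subgroup.mem_inf.2 ⟨hc, Subgroup.mem_centralizer_singleton_iff.2 hc2.symm⟩)
      have : τ * g * τ⁻¹ * g = (i⁻¹ * c * i) * c := by
        rw [hgic]
        calc τ * (i * c) * τ⁻¹ * (i * c) = (τ * i * τ⁻¹) * (τ * c) * τ⁻¹ * i * c := by group
          _ = i⁻¹ * (c * τ) * τ⁻¹ * i * c := by rw [hi2, hc2]
          _ = _ := by group
      rw [this]
      refine mul_mem ?_ hcC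
      have := hCn (i⁻¹) (inv_mem hi) c hcC
      rwa [inv_inv] at this
    intro g hg h hh
    -- τ(gh)τ⁻¹ (gh) , τ g τ⁻¹ g, τ h τ⁻¹ h
    have e1 := hinvQ g hg
    have e2 := hinvQ h hh
    have e3 := hinvQ (g * h) (mul_mem hg hh)
    -- τ g h τ⁻¹ g h = (τgτ⁻¹ g) g⁻¹ (τ h τ⁻¹ h) h⁻¹ g h
    have e4 : g⁻¹ * h⁻¹ * g * h ∈ Subgroup.centralizer (V : Set X) := by
      have e5 : g⁻¹ * h⁻¹ * g * h = (g⁻¹ * (τ * h * τ⁻¹ * h) * g)⁻¹ * ((τ * g * τ⁻¹ * g)⁻¹ * (τ * (g * h) * τ⁻¹ * (g * h))) := by group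
      rw [e5]
      have e6 := hCn (g⁻¹) (inv_mem hg) _ e2
      rw [inv_inv] at e6
      exact mul_mem (inv_mem e6) (mul_mem (inv_mem e1) e3)
    have e7 := hCn (h * g) (mul_mem hh hg) _ e4
    have e8 : g * h * g⁻¹ * h⁻¹ = h * g * (g⁻¹ * h⁻¹ * g * h) * (h * g)⁻¹ := by group
    rw [e8]; exact e7
  · push Not at hcase
    -- some element of C_Z(τ) does not centralise V
    obtain ⟨c, hcZ, hcC, hcτ⟩ : ∃ c ∈ cenSub Q V hQV, c ∉ Subgroup.centralizer (V : Set X) ∧ τ * c = c * τ := by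
      by_contra hno
      push Not at hno
      apply hZC
      intro z hz
      obtain ⟨i, hi, c, hc, hgic, hi2, hc2⟩ := decomp hτZ (fun k _ => hconj k) hZodd hz
      rw [hgic]
      refine mul_mem ?_ ?_
      · by_contra h; exact hcase i hi h hi2
      · by_contra h; exact hno c hc h hc2
    have hT : Subgroup.zpowers c ≤ cenSub Q V hQV := Subgroup.zpowers_le.2 hcZ
    have hτT : τ ∈ Subgroup.normalizer ((Subgroup.zpowers c : Subgroup X) : Set X) := by
      apply mem_normalizer_of_forall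
      intro t ht
      have h1 : τ * t = t * τ := comm_of_mem_zpowers ht hcτ
      rw [h1, mul_inv_cancel_right]; exact ht
    have hTC : ¬ Subgroup.zpowers c ≤ Subgroup.centralizer (V : Set X) := fun h => hcC (h (Subgroup.mem_zpowers c))
    by_cases hne : V ⊓ Subgroup.centralizer ((Subgroup.zpowers c : Subgroup X) : Set X) = ⊥
    swap
    · exact split _ hT hτT hTC hne
    -- τ inverts V
    have hinvV : ∀ v ∈ V, τ * v * τ⁻¹ = v⁻¹ := by
      apply invert_of_fpf hτV (fun d _ => hconj d)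
      intro v hv hvτ
      have h1 : v ∈ V ⊓ Subgroup.centralizer ((Subgroup.zpowers c : Subgroup X) : Set X) := by
        refine Subgroup.mem_inf.2 ⟨hv, Subgroup.mem_centralizer_iff.2 ?_⟩
        intro t ht
        have h2 := hcomm c (hT (Subgroup.mem_zpowers c)).1 hcτ v hv hvτ
        exact (comm_of_mem_zpowers ht h2).symm
      rw [hne] at h1
      exact h1
    have hQdec : ∀ g ∈ Q, ∃ k ∈ Subgroup.centralizer (V : Set X), ∃ c ∈ Q, g = k * c ∧ k ∈ Q ∧ τ * c = c * τ := by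
      intro g hg
      obtain ⟨i, hi, c, hc, hgic, hi2, hc2⟩ := decomp hτQ (fun k _ => hconj k) hQodd hg
      refine ⟨i, ?_, c, hc, hgic, hi, hc2⟩
      have h1 := comm_cent_of_invert hinvV (hQV hi)
      have h2 : i * τ * i⁻¹ * τ⁻¹ = i ^ 2 := by
        calc i * τ * i⁻¹ * τ⁻¹ = i * (τ * i * τ⁻¹)⁻¹ := by group
          _ = i ^ 2 := by rw [hi2, inv_inv, pow_two]
      rw [h2] at h1
      exact mem_of_sq (odd_orderOf hQodd hi) h1
    intro g hg h hh
    obtain ⟨k, hkC, c, hc, rfl, hkQ, hcτ⟩ := hQdec g hg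
    obtain ⟨k', hkC', c', hc', rfl, hkQ', hcτ'⟩ := hQdec h hh
    have hcc := hQab c hc hcτ c' hc' hcτ'
    -- k c k' c' c⁻¹ k⁻¹ c'⁻¹ k'⁻¹
    have e1 : k * c * (k' * c') * (k * c)⁻¹ * (k' * c')⁻¹ = k * (c * k' * c⁻¹) * (c' * k⁻¹ * c'⁻¹) * k'⁻¹ := by
      calc k * c * (k' * c') * (k * c)⁻¹ * (k' * c')⁻¹ = k * c * k' * c' * c⁻¹ * k⁻¹ * c'⁻¹ * k'⁻¹ := by group
        _ = k * c * k' * (c⁻¹ * (c * c')) * c⁻¹ * k⁻¹ * c'⁻¹ * k'⁻¹ := by group
        _ = k * c * k' * (c⁻¹ * (c' * c)) * c⁻¹ * k⁻¹ * c'⁻¹ * k'⁻¹ := by rw [hcc]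
        _ = k * (c * k' * c⁻¹) * (c' * k⁻¹ * c'⁻¹) * k'⁻¹ := by group
    rw [e1]
    exact mul_mem (mul_mem (mul_mem hkC (hCn c hc _ hkC')) (hCn c' hc' _ (inv_mem hkC))) (inv_mem hkC')

end CfsgLib.Four
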