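import Cfsg.Agent.EqBase
import Mathlib
import Cfsg.Agent.LibFour

set_option autoImplicit false
set_option linter.style.haveILetI false

/-!
Fixed point free automorphisms of order four of solvable groups: the faithful configuration.
-/

namespace CfsgLib.Four2

open CfsgLib.SolvBasic CfsgLib.SolvMin CfsgLib.SolvCoprime CfsgLib.SolvFitting CfsgLib.Fpf CfsgLib.Ward
open CfsgLib.Frame CfsgLib.Ward2 CfsgLib.Ward3 CfsgLib.Four
open scoped commutatorElement Pointwise

universe u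

variable {X : Type u} [Group X] [Finite X]

/-- an element lies in a subgroup if its powers of prime power order do -/
theorem mem_of_primepow {H : Subgroup X} {x : X}
    (h : ∀ (q : ℕ) (_ : Fact q.Prime), ∀ y ∈ Subgroup.zpowers x, (∃ k, y ^ q ^ k = 1) → y ∈ H) : x ∈ H := by
  have h1 : Subgroup.zpowers x ≤ H ⊓ Subgroup.zpowers x := by
    apply le_of_forall_sylow inf_le_right
    intro q hq
    obtain ⟨P, hP⟩ := IsSylowIn.exists_isSylowIn (p := q) (Subgroup.zpowers x)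
    refine ⟨P, hP, le_inf ?_ hP.le⟩
    intro y hy
    apply h q hq y (hP.le hy)
    obtain ⟨k, hk⟩ := hP.isPGroup ⟨y, hy⟩
    exact ⟨k, by simpa using congrArg Subtype.val hk⟩
  exact (h1 (Subgroup.mem_zpowers x)).1

/-- the `q`-part of an abelian subgroup -/
def qpart (q : ℕ) (F : Subgroup X) (hF : ∀ x ∈ F, ∀ y ∈ F, x * y = y * x) : Subgroup X where
  carrier := {f | f ∈ F ∧ ∃ k, f ^ q ^ k = 1}
  mul_mem' := by
    rintro f g ⟨hf, k, hk⟩ ⟨hg, l, hl⟩
    refine ⟨mul_mem hf hg, k + l, ?_⟩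
    have hc : Commute f g := hF f hf g hg
    rw [hc.mul_pow, pow_add, pow_mul, hk, one_pow, one_mul, mul_comm, pow_mul, hl, one_pow]
  one_mem' := ⟨one_mem _, 0, by simp⟩
  inv_mem' := by
    rintro f ⟨hf, k, hk⟩
    exact ⟨inv_mem hf, k, by rw [inv_pow, hk, inv_one]⟩

theorem mem_qpart {q : ℕ} {F : Subgroup X} {hF : ∀ x ∈ F, ∀ y ∈ F, x * y = y * x} {f : X} :
    f ∈ qpart q F hF ↔ f ∈ F ∧ ∃ k, f ^ q ^ k = 1 := Iff.rfl

theorem qpart_isPGroup (q : ℕ) {F : Subgroup X} (hF : ∀ x ∈ F, ∀ y ∈ F, x * y = y * x) : IsPGroup q (qpart q F hF) := by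
  rintro ⟨f, hf, k, hk⟩
  exact ⟨k, Subtype.ext (by simpa using hk)⟩

theorem qpart_normalizer {q : ℕ} {F : Subgroup X} {hF : ∀ x ∈ F, ∀ y ∈ F, x * y = y * x} {x : X}
    (hx : x ∈ Subgroup.normalizer (F : Set X)) : x ∈ Subgroup.normalizer ((qpart q F hF : Subgroup X) : Set X) := by
  apply mem_normalizer_of_forall
  rintro f ⟨hf, k, hk⟩
  refine ⟨normal_conj hx hf, k, ?_⟩
  rw [conj_pow, hk]; group

/-- Claim B : the phi argument -/
theorem phi_step {V H : Subgroup X} (hVab : ∀ v ∈ V, ∀ w ∈ V, v * w = w * v) (hVn : V.Normal)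
    (hfaith : H ⊓ Subgroup.centralizer (V : Set X) = ⊥) (hHodd : Odd (Nat.card H)) {τ : X} (hτ2 : τ * τ = 1)
    (hcomm : ∀ c ∈ H, τ * c = c * τ → ∀ v ∈ V, τ * v = v * τ → v * c = c * v)
    {Q : Subgroup X} (hQab : ∀ x ∈ Q, ∀ y ∈ Q, x * y = y * x) (hQH : Q ≤ H) (hQco : (Nat.card Q).Coprime (Nat.card V))
    (hinv : ∀ f ∈ Q, τ * f * τ⁻¹ = f⁻¹) {c : X} (hc : c ∈ H) (hcτ : τ * c = c * τ) 
    (hcQ : c ∈ Subgroup.normalizer (Q : Set X)) (hcoc : (orderOf c).Coprime (Nat.card Q)) :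
    ∀ f ∈ Q, c * f = f * c := by
  haveI := hVn
  have hVall : ∀ x : X, x ∈ Subgroup.normalizer (V : Set X) := fun x => by rw [Subgroup.normalizer_eq_top]; trivial
  haveI hVc : IsMulCommutative V := ⟨⟨fun a b => Subtype.ext (hVab a a.2 b b.2)⟩⟩
  haveI hQc : IsMulCommutative Q := ⟨⟨fun a b => Subtype.ext (hQab a a.2 b b.2)⟩⟩
  have hzQ : Subgroup.zpowers c ≤ Subgroup.normalizer (Q : Set X) := Subgroup.zpowers_le.2 hcQ
  have hcoz : (Nat.card (Subgroup.zpowers c)).Coprime (Nat.card Q) := by rw [Nat.card_zpowers]; exact hcoc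
  have hMQ : ⁅Q, Subgroup.zpowers c⁆ ≤ Q := comm_le_V hzQ
  have hMc := centralizer_inf_commutator (Subgroup.zpowers c) Q hzQ hcoz
  obtain ⟨M, hMe⟩ : ∃ M, M = ⁅Q, Subgroup.zpowers c⁆ := ⟨_, rfl⟩
  rw [← hMe] at hMQ hMc
  have hMV : M ≤ Subgroup.normalizer (V : Set X) := fun x _ => hVall x
  have hcoM : (Nat.card M).Coprime (Nat.card V) := Nat.Coprime.coprime_dvd_left (Subgroup.card_dvd_of_le hMQ) hQco
  have hcM : c ∈ Subgroup.normalizer (M : Set X) := by
    rw [hMe]
    exact mem_normalizer_commutator hcQ (Subgroup.le_normalizer (Subgroup.mem_zpowers c))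
  have hτM : τ ∈ Subgroup.normalizer (M : Set X) := by
    apply mem_normalizer_of_forall
    intro m hm
    rw [hinv m (hMQ hm)]; exact inv_mem hm
  have hV'V : ⁅V, M⁆ ≤ V := comm_le_V hMV
  have hfc : ∀ m ∈ M, c * m = m * c → m = 1 := by
    intro m hm hcm
    have h1 : m ∈ (Q ⊓ Subgroup.centralizer ((Subgroup.zpowers c : Subgroup X) : Set X)) ⊓ M := by
      refine Subgroup.mem_inf.2 ⟨Subgroup.mem_inf.2 ⟨hMQ hm, Subgroup.mem_centralizer_iff.2 ?_⟩, hm⟩
      intro t ht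
      exact (comm_of_mem_zpowers ht hcm.symm).symm
    rw [hMc] at h1
    exact h1
  have hfτ : ∀ m ∈ M, τ * m = m * τ → m = 1 := by
    intro m hm hτm
    have h1 := hinv m (hMQ hm)
    have h3 : τ * m * τ⁻¹ = m := by rw [hτm]; group
    rw [h3] at h1
    have h4 : m ^ 2 ∈ (⊥ : Subgroup X) := by
      rw [Subgroup.mem_bot, pow_two]
      nth_rewrite 1 [h1]
      rw [inv_mul_cancel]
    exact Subgroup.mem_bot.1 (mem_of_sq (odd_orderOf hHodd (hQH (hMQ hm))) h4)
  have hfcτ : ∀ m ∈ M, (c * τ) * m = m * (c * τ) → m = 1 := by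
    intro m hm hcm
    apply hfτ m hm
    obtain ⟨k, hk⟩ := odd_orderOf hHodd hc
    have h1 : (c * τ) ^ (2 * k + 1) = τ := by
      have hcomm' : Commute c τ := hcτ.symm
      rw [hcomm'.mul_pow, ← hk, pow_orderOf_eq_one, one_mul, hk, pow_succ, pow_mul, pow_two, hτ2, one_pow, one_mul]
    have h2 : Commute ((c * τ) ^ (2 * k + 1)) m := (show Commute (c * τ) m from hcm).pow_left _
    rw [h1] at h2
    exact h2
  have key := CfsgLib.Phi.eq_bot_of_phi (V := ⁅V, M⁆) (M := M) (fun v hv w hw => hVab v (hV'V hv) w (hV'V hw))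
    (fun x hx => mem_normalizer_commutator (hVall x) (Subgroup.le_normalizer hx))
    (Nat.Coprime.coprime_dvd_right (Subgroup.card_dvd_of_le hV'V) hcoM)
    (by
      have h1 := centralizer_inf_commutator M V hMV hcoM
      rw [eq_bot_iff, ← h1]
      intro x hx
      exact Subgroup.mem_inf.2 ⟨Subgroup.mem_inf.2 ⟨hV'V hx.1, hx.2⟩, hx.1⟩)
    c τ (mem_normalizer_commutator (hVall c) hcM) (mem_normalizer_commutator (hVall τ) hτM) hcM hτM hfc hfτ hfcτ
    (by
      intro v hv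
      have hτv : τ * v * τ⁻¹ ∈ V := normal_conj (hVall τ) (hV'V hv)
      have hw : v * (τ * v * τ⁻¹) ∈ V := mul_mem (hV'V hv) hτv
      refine (hcomm c hc hcτ _ hw ?_).symm
      have h1 : τ⁻¹ = τ := inv_eq_of_mul_eq_one_left hτ2
      have h2 := hVab v (hV'V hv) _ hτv
      calc τ * (v * (τ * v * τ⁻¹)) = τ * ((τ * v * τ⁻¹) * v) := by rw [h2]
        _ = (τ * τ) * v * τ⁻¹ * v := by group
        _ = v * τ * v := by rw [hτ2, one_mul, h1]
        _ = v * (τ * v * τ⁻¹) * τ := by group)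
  have hMbot : M = ⊥ := by
    rw [eq_bot_iff, ← hfaith]
    refine le_inf (hMQ.trans hQH) ?_
    rw [Subgroup.commutator_eq_bot_iff_le_centralizer] at key
    exact Subgroup.le_centralizer_iff.1 key
  rw [hMe, Subgroup.commutator_eq_bot_iff_le_centralizer] at hMbot
  intro f hf
  exact Subgroup.mem_centralizer_iff.1 (hMbot hf) c (Subgroup.mem_zpowers c)

/-- nilpotent `τ`-invariant subgroups of order prime to `|V|` are abelian -/
theorem abelian_of_claimA {V H : Subgroup X} (hVab : ∀ v ∈ V, ∀ w ∈ V, v * w = w * v) (hVn : V.Normal)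
    (hfaith : H ⊓ Subgroup.centralizer (V : Set X) = ⊥) (hHodd : Odd (Nat.card H)) {τ : X} (hτ2 : τ * τ = 1)
    (hcomm : ∀ c ∈ H, τ * c = c * τ → ∀ v ∈ V, τ * v = v * τ → v * c = c * v)
    (hHab : ∀ x ∈ H, τ * x = x * τ → ∀ y ∈ H, τ * y = y * τ → x * y = y * x)
    {Q : Subgroup X} (hQn : Group.IsNilpotent Q) (hQH : Q ≤ H) (hQco : (Nat.card Q).Coprime (Nat.card V))
    (hτQ : τ ∈ Subgroup.normalizer (Q : Set X)) : ∀ x ∈ Q, ∀ y ∈ Q, x * y = y * x := by
  haveI := hVn
  have hVall : ∀ x : X, x ∈ Subgroup.normalizer (V : Set X) := fun x => by rw [Subgroup.normalizer_eq_top]; trivial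
  intro x hx y hy
  have h1 := claimA Q hQn (Odd.of_dvd_nat hHodd (Subgroup.card_dvd_of_le hQH)) τ hτ2 hτQ
    (fun g hg h1 h hh h2 => hHab g (hQH hg) h1 h (hQH hh) h2) _ V rfl hVab (fun x _ => hVall x) (hVall τ) hQco
    (fun g hg h v hv h2 => hcomm g (hQH hg) h v hv h2) x hx y hy
  have h2 : x * y * x⁻¹ * y⁻¹ ∈ H ⊓ Subgroup.centralizer (V : Set X) :=
    Subgroup.mem_inf.2 ⟨mul_mem (mul_mem (mul_mem (hQH hx) (hQH hy)) (inv_mem (hQH hx))) (inv_mem (hQH hy)), h1⟩
  rw [hfaith, Subgroup.mem_bot] at h2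
  calc x * y = (x * y * x⁻¹ * y⁻¹) * y * x := by group
    _ = y * x := by rw [h2, one_mul]

/-- Claim B -/
theorem claimB {V H : Subgroup X} {r : ℕ} (hVab : ∀ v ∈ V, ∀ w ∈ V, v * w = w * v) (hVn : V.Normal) (hr : r.Prime)
    (hVr : IsPGroup r V)
    (hfaith : H ⊓ Subgroup.centralizer (V : Set X) = ⊥) (hHodd : Odd (Nat.card H)) {τ : X} (hτ2 : τ * τ = 1)
    (hcomm : ∀ c ∈ H, τ * c = c * τ → ∀ v ∈ V, τ * v = v * τ → v * c = c * v)
    (hHab : ∀ x ∈ H, τ * x = x * τ → ∀ y ∈ H, τ * y = y * τ → x * y = y * x)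
    {F : Subgroup X} (hFab : ∀ x ∈ F, ∀ y ∈ F, x * y = y * x) (hFH : F ≤ H) (hFco : (Nat.card F).Coprime r)
    (hinv : ∀ f ∈ F, τ * f * τ⁻¹ = f⁻¹) {c : X} (hc : c ∈ H) (hcτ : τ * c = c * τ)
    (hcF : c ∈ Subgroup.normalizer (F : Set X)) : ∀ f ∈ F, c * f = f * c := by
  -- reduce c to prime power order
  have hcent : c ∈ Subgroup.centralizer (F : Set X) := by
    apply mem_of_primepow
    intro p hp c' hc' hpow
    have hc'H : c' ∈ H := (Subgroup.zpowers_le.2 hc) hc'
    have hc'τ : τ * c' = c' * τ := comm_of_mem_zpowers hc' hcτ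
    have hc'F : c' ∈ Subgroup.normalizer (F : Set X) := (Subgroup.zpowers_le.2 hcF) hc'
    rw [Subgroup.mem_centralizer_iff]
    intro f hf
    have hfc : f ∈ Subgroup.centralizer {c'} := by
      apply mem_of_primepow
      intro q hq f' hf' hqpow
      rw [Subgroup.mem_centralizer_singleton_iff]
      have hf'F : f' ∈ F := (Subgroup.zpowers_le.2 hf) hf'
      have hf'Q : f' ∈ qpart q F hFab := ⟨hf'F, hqpow⟩
      have hQF : qpart q F hFab ≤ F := fun x hx => hx.1
      have hQab : ∀ x ∈ qpart q F hFab, ∀ y ∈ qpart q F hFab, x * y = y * x := fun x hx y hy => hFab x hx.1 y hy.1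
      by_cases hqr : q = r
      · subst hqr
        obtain ⟨k, hk⟩ := hqpow
        have h1 : orderOf f' ∣ q ^ k := orderOf_dvd_of_pow_eq_one hk
        have h2 : orderOf f' ∣ Nat.card F := by
          rw [show f' = ((⟨f', hf'F⟩ : F) : X) from rfl, Subgroup.orderOf_coe]
          exact orderOf_dvd_natCard _
        have h3 : orderOf f' = 1 := Nat.eq_one_of_dvd_coprimes (Nat.Coprime.pow_right k hFco) h2 h1
        rw [orderOf_eq_one_iff] at h3
        rw [h3]; simp
      have hQV : (Nat.card (qpart q F hFab)).Coprime (Nat.card V) := by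
        haveI : Fact r.Prime := ⟨hr⟩
        exact IsPGroup.coprime_card_of_ne q r hqr _ _ (qpart_isPGroup q hFab) hVr
      by_cases hpq : p = q
      · subst hpq
        -- the p-group generated by c' and the p-part
        have hz : IsPGroup p (Subgroup.zpowers c') := by
          obtain ⟨k, hk⟩ := hpow
          have h1 : orderOf c' ∣ p ^ k := orderOf_dvd_of_pow_eq_one hk
          obtain ⟨j, _, hj⟩ := (Nat.dvd_prime_pow hp.out).1 h1
          exact IsPGroup.of_card (by rw [Nat.card_zpowers]; exact hj)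
        have hzn : Subgroup.zpowers c' ≤ Subgroup.normalizer ((qpart p F hFab : Subgroup X) : Set X) :=
          Subgroup.zpowers_le.2 (qpart_normalizer hc'F)
        have hSp : IsPGroup p (qpart p F hFab ⊔ Subgroup.zpowers c' : Subgroup X) :=
          IsPGroup.to_sup_of_normal_left' (qpart_isPGroup p hFab) hz hzn
        have hτS : τ ∈ Subgroup.normalizer ((qpart p F hFab ⊔ Subgroup.zpowers c' : Subgroup X) : Set X) := by
          apply mem_normalizer_of_forall
          intro x hx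
          rw [mem_sup_iff_of_le_normalizer hzn] at hx
          obtain ⟨n, hn, y, hy, rfl⟩ := hx
          have h1 : τ * (n * y) * τ⁻¹ = (τ * n * τ⁻¹) * (τ * y * τ⁻¹) := by group
          rw [h1, hinv n hn.1]
          have h2 : τ * y * τ⁻¹ = y := by
            rw [comm_of_mem_zpowers hy hc'τ]; group
          rw [h2]
          exact mul_mem (Subgroup.mem_sup_left (inv_mem hn)) (Subgroup.mem_sup_right hy)
        have h3 := abelian_of_claimA hVab hVn hfaith hHodd hτ2 hcomm hHab (Q := qpart p F hFab ⊔ Subgroup.zpowers c')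
          hSp.isNilpotent (sup_le (hQF.trans hFH) (Subgroup.zpowers_le.2 hc'H))
          (by haveI : Fact r.Prime := ⟨hr⟩
              exact IsPGroup.coprime_card_of_ne p r hqr _ _ hSp hVr) hτS
        exact h3 f' (Subgroup.mem_sup_left hf'Q) c' (Subgroup.mem_sup_right (Subgroup.mem_zpowers c'))
      · refine (phi_step hVab hVn hfaith hHodd hτ2 hcomm hQab (hQF.trans hFH) hQV (fun f hf => hinv f hf.1)
          hc'H hc'τ (qpart_normalizer hc'F) ?_ f' hf'Q).symm
        obtain ⟨k, hk⟩ := hpow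
        obtain ⟨j, hj⟩ := IsPGroup.iff_card.1 (qpart_isPGroup q hFab)
        rw [hj]
        apply Nat.Coprime.pow_right
        have h1 : orderOf c' ∣ p ^ k := orderOf_dvd_of_pow_eq_one hk
        exact Nat.Coprime.coprime_dvd_left h1 (Nat.Coprime.pow_left _ ((Nat.coprime_primes hp.out hq.out).2 hpq))
    exact Subgroup.mem_centralizer_singleton_iff.1 hfc
  intro f hf
  exact (Subgroup.mem_centralizer_iff.1 hcent f hf).symm

end CfsgLib.Four2
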