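import Cfsg.Agent.EqBase
import Mathlib
import Cfsg.Agent.LibFour2

set_option autoImplicit false
set_option linter.style.haveILetI false

/-!
Fixed point free automorphisms of order four: the faithful group is abelian.
-/

namespace CfsgLib.Four3

open CfsgLib.SolvBasic CfsgLib.SolvMin CfsgLib.SolvCoprime CfsgLib.SolvFitting CfsgLib.Fpf CfsgLib.Ward
open CfsgLib.Frame CfsgLib.Ward2 CfsgLib.Ward3 CfsgLib.Four CfsgLib.Four2
open scoped commutatorElement Pointwise

universe u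

variable {X : Type u} [Group X] [Finite X] {r : ℕ} {V H : Subgroup X} {s : X}

theorem four_conf (C : Conf r V H (Subgroup.zpowers s)) (hr : r.Prime) (hs4 : s ^ 4 = 1) :
    ∀ x ∈ H, ∀ y ∈ H, x * y = y * x := by
  haveI : Fact r.Prime := ⟨hr⟩
  haveI := C.Hsol
  haveI := C.Vnormal
  have hVn := C.Vnormal
  have hVab := C.Vab
  haveI hVc : IsMulCommutative V := ⟨⟨fun a b => Subtype.ext (hVab a a.2 b b.2)⟩⟩
  have hVall : ∀ x : X, x ∈ Subgroup.normalizer (V : Set X) := fun x => by rw [Subgroup.normalizer_eq_top]; trivial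
  have hsH : s ∈ Subgroup.normalizer (H : Set X) := C.AH (Subgroup.mem_zpowers s)
  obtain ⟨τ, hτ⟩ : ∃ τ, τ = s * s := ⟨_, rfl⟩
  have hτ2 : τ * τ = 1 := by rw [hτ, ← hs4, pow_succ, pow_succ, pow_two]; simp only [mul_assoc]
  have hsτ : s * τ = τ * s := by rw [hτ, mul_assoc]
  have hτH : τ ∈ Subgroup.normalizer (H : Set X) := by rw [hτ]; exact mul_mem hsH hsH
  -- odd order
  have hordne : orderOf s ≠ 1 := by
    intro h1
    rw [orderOf_eq_one_iff] at h1
    apply C.Vne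
    rw [eq_bot_iff, ← C.fix]
    refine le_inf le_sup_left ?_
    rw [h1, Subgroup.zpowers_one_eq_bot]
    intro x _
    rw [Subgroup.mem_centralizer_iff]
    intro y hy
    rw [Subgroup.coe_bot, Set.mem_singleton_iff] at hy
    rw [hy]; simp
  have h2ord : 2 ∣ orderOf s := by
    have h1 : orderOf s ∣ 2 ^ 2 := orderOf_dvd_of_pow_eq_one hs4
    obtain ⟨k, _, hk⟩ := (Nat.dvd_prime_pow Nat.prime_two).1 h1
    rcases k with _ | k
    · exact absurd hk hordne
    · rw [hk, pow_succ]; exact dvd_mul_left _ _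
  have hodd : Odd (Nat.card (V ⊔ H : Subgroup X)) := by
    have h1 := C.cop
    rw [Nat.card_zpowers] at h1
    have h2 := Nat.Coprime.coprime_dvd_left h2ord h1
    rwa [Nat.coprime_two_left] at h2
  have hHodd : Odd (Nat.card H) := Odd.of_dvd_nat hodd (Subgroup.card_dvd_of_le le_sup_right)
  have hVodd : Odd (Nat.card V) := Odd.of_dvd_nat hodd (Subgroup.card_dvd_of_le le_sup_left)
  have hsVH : s ∈ Subgroup.normalizer ((V ⊔ H : Subgroup X) : Set X) := by
    apply mem_normalizer_of_forall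
    intro y hy
    rw [mem_sup_iff_of_le_normalizer (Conf.HV C H)] at hy
    obtain ⟨v, hv, h, hh, rfl⟩ := hy
    have : s * (v * h) * s⁻¹ = (s * v * s⁻¹) * (s * h * s⁻¹) := by group
    rw [this]
    exact mul_mem (Subgroup.mem_sup_left (C.Vnormal.conj_mem v hv s)) (Subgroup.mem_sup_right (normal_conj hsH hh))
  -- C_{VH}(τ) is abelian
  have hab : ∀ x ∈ V ⊔ H, τ * x = x * τ → ∀ y ∈ V ⊔ H, τ * y = y * τ → x * y = y * x := by
    have hD : ∀ d ∈ (V ⊔ H) ⊓ Subgroup.centralizer {τ}, s * d * s⁻¹ = d⁻¹ := by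
      apply invert_of_fpf
      · apply mem_normalizer_of_forall
        intro x hx
        obtain ⟨hx1, hx2⟩ := Subgroup.mem_inf.1 hx
        refine Subgroup.mem_inf.2 ⟨normal_conj hsVH hx1, ?_⟩
        rw [Subgroup.mem_centralizer_singleton_iff] at hx2 ⊢
        have h5 : s⁻¹ * τ = τ * s⁻¹ := by rw [hτ]; group
        calc s * x * s⁻¹ * τ = s * x * (s⁻¹ * τ) := by group
          _ = s * (x * τ) * s⁻¹ := by rw [h5]; group
          _ = (s * τ) * x * s⁻¹ := by rw [hx2]; group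
          _ = τ * (s * x * s⁻¹) := by rw [hsτ]; group
      · intro d hd
        rw [← hτ]
        exact (Subgroup.mem_centralizer_singleton_iff.1 hd.2).symm
      · intro d hd hsd
        have h1 : d ∈ (V ⊔ H) ⊓ Subgroup.centralizer ((Subgroup.zpowers s : Subgroup X) : Set X) := by
          refine Subgroup.mem_inf.2 ⟨hd.1, Subgroup.mem_centralizer_iff.2 ?_⟩
          intro t ht
          exact (comm_of_mem_zpowers ht hsd.symm).symm
        rw [C.fix] at h1
        exact h1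
    have h1 := comm_of_invert hD
    intro x hx hxτ y hy hyτ
    exact h1 x (Subgroup.mem_inf.2 ⟨hx, Subgroup.mem_centralizer_singleton_iff.2 hxτ.symm⟩) y
      (Subgroup.mem_inf.2 ⟨hy, Subgroup.mem_centralizer_singleton_iff.2 hyτ.symm⟩)
  have hcomm : ∀ c ∈ H, τ * c = c * τ → ∀ v ∈ V, τ * v = v * τ → v * c = c * v := fun c hc h1 v hv h2 =>
    hab v (Subgroup.mem_sup_left hv) h2 c (Subgroup.mem_sup_right hc) h1
  have hHab : ∀ x ∈ H, τ * x = x * τ → ∀ y ∈ H, τ * y = y * τ → x * y = y * x := fun x hx h1 y hy h2 =>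
    hab x (Subgroup.mem_sup_right hx) h1 y (Subgroup.mem_sup_right hy) h2
  -- the Fitting subgroup
  haveI := fitting_characteristic (G := H)
  obtain ⟨F, hFe⟩ : ∃ F, F = (Cfsg.fittingSubgroup H).map H.subtype := ⟨_, rfl⟩
  have hFH : F ≤ H := by rw [hFe]; exact Subgroup.map_subtype_le _
  have hFn : Group.IsNilpotent F := by
    rw [hFe]
    haveI := fitting_isNilpotent (G := H)
    exact Group.nilpotent_of_mulEquiv (Subgroup.equivMapOfInjective (Cfsg.fittingSubgroup H) H.subtype (Subgroup.subtype_injective H))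
  have hFnorm : Subgroup.normalizer (H : Set X) ≤ Subgroup.normalizer (F : Set X) := by
    rw [hFe]; exact normalizer_le_normalizer_of_char (Cfsg.fittingSubgroup H)
  have hFC : H ⊓ Subgroup.centralizer (F : Set X) ≤ F := by
    intro x hx
    obtain ⟨hx1, hx2⟩ := Subgroup.mem_inf.1 hx
    rw [hFe]
    refine ⟨⟨x, hx1⟩, centralizer_fitting_le ?_, rfl⟩
    rw [Subgroup.mem_centralizer_iff]
    intro y hy
    apply Subtype.ext
    exact Subgroup.mem_centralizer_iff.1 hx2 y (by rw [hFe]; exact ⟨y, hy, rfl⟩)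
  have hFr : (Nat.card F).Coprime r := by
    rw [Nat.coprime_comm, hr.coprime_iff_not_dvd]
    intro hd
    obtain ⟨⟨x, hxF⟩, hx⟩ := exists_prime_orderOf_dvd_card' (G := F) r hd
    rw [← Subgroup.orderOf_coe] at hx
    change orderOf x = r at hx
    rw [hFe] at hxF
    obtain ⟨⟨x', hx'H⟩, hx'F, hxe⟩ := hxF
    have hxe' : x' = x := hxe
    subst hxe'
    have hle : Subgroup.zpowers (⟨x', hx'H⟩ : H) ≤ Cfsg.pCore r H := by
      apply le_pCore_of_le_fitting
      · apply IsPGroup.of_card (n := 1)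
        rw [Nat.card_zpowers, ← Subgroup.orderOf_coe, pow_one]
        exact hx
      · exact Subgroup.zpowers_le.2 hx'F
    haveI hpchar : (Cfsg.pCore r H).Characteristic := by
      rw [Subgroup.characteristic_iff_map_le]
      intro ϕ
      apply le_pCore
      · exact (pCore_normal r).map _ ϕ.surjective
      · exact (pCore_isPGroup r).map _
    have hbot : (Cfsg.pCore r H).map H.subtype = ⊥ := by
      apply Conf.pcore_eq_bot C hr ((pCore_isPGroup r).map _) (Subgroup.map_subtype_le _)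
      · exact Subgroup.le_normalizer.trans (normalizer_le_normalizer_of_char (Cfsg.pCore r H))
      · exact C.AH.trans (normalizer_le_normalizer_of_char (Cfsg.pCore r H))
    have h1 : x' ∈ (Cfsg.pCore r H).map H.subtype := ⟨⟨x', hx'H⟩, hle (Subgroup.mem_zpowers _), rfl⟩
    rw [hbot, Subgroup.mem_bot] at h1
    rw [h1, orderOf_one] at hx
    exact hr.one_lt.ne hx
  have hFV : (Nat.card F).Coprime (Nat.card V) := by
    obtain ⟨n, hn⟩ := IsPGroup.iff_card.1 C.Vp
    rw [hn]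
    exact Nat.Coprime.pow_right _ hFr
  have hFab : ∀ x ∈ F, ∀ y ∈ F, x * y = y * x :=
    abelian_of_claimA hVab hVn C.faith hHodd hτ2 hcomm hHab hFn hFH hFV (hFnorm hτH)
  by_cases hHbot : H = ⊥
  · intro x hx y hy
    rw [hHbot, Subgroup.mem_bot] at hx hy
    rw [hx, hy]
  -- C_V(F) = 1
  have hCVF : V ⊓ Subgroup.centralizer (F : Set X) = ⊥ := by
    rcases Conf.min C (M := V ⊓ Subgroup.centralizer (F : Set X)) inf_le_left
      (fun x hx => mem_normalizer_of_forall fun k hk => Subgroup.mem_inf.2 ⟨normal_conj (hVall x) hk.1,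
        centralizer_conj (hFnorm (Subgroup.le_normalizer hx)) hk.2⟩)
      (fun x hx => mem_normalizer_of_forall fun k hk => Subgroup.mem_inf.2 ⟨normal_conj (hVall x) hk.1,
        centralizer_conj (hFnorm (C.AH hx)) hk.2⟩) with h1 | h1
    · exact h1
    · exfalso
      have h2 : F = ⊥ := by
        rw [eq_bot_iff, ← C.faith]
        refine le_inf hFH ?_
        rw [Subgroup.le_centralizer_iff, ← h1]
        exact inf_le_right
      apply hHbot
      rw [eq_bot_iff]
      refine le_trans ?_ (hFC.trans h2.le)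
      refine le_inf le_rfl ?_
      rw [h2]
      intro x _
      rw [Subgroup.mem_centralizer_iff]
      intro y hy
      rw [Subgroup.coe_bot, Set.mem_singleton_iff] at hy
      rw [hy]; simp
  -- F₀ and F₁
  obtain ⟨F0, hF0⟩ : ∃ F0 : Subgroup X, F0 = F ⊓ Subgroup.centralizer {τ} := ⟨_, rfl⟩
  have hF0F : F0 ≤ F := by rw [hF0]; exact inf_le_left
  have hF0mem : ∀ x, x ∈ F0 ↔ x ∈ F ∧ τ * x = x * τ := by
    intro x
    rw [hF0, Subgroup.mem_inf, Subgroup.mem_centralizer_singleton_iff]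
    constructor
    · exact fun h => ⟨h.1, h.2.symm⟩
    · exact fun h => ⟨h.1, h.2.symm⟩
  have hconj : ∀ k : X, τ * τ * k = k * (τ * τ) := fun k => by rw [hτ2, one_mul, mul_one]
  have hFodd : Odd (Nat.card F) := Odd.of_dvd_nat hHodd (Subgroup.card_dvd_of_le hFH)
  let F1 : Subgroup X :=
    { carrier := {f | f ∈ F ∧ τ * f * τ⁻¹ = f⁻¹}
      mul_mem' := by
        rintro f g ⟨hf, hf1⟩ ⟨hg, hg1⟩
        refine ⟨mul_mem hf hg, ?_⟩
        have h1 : τ * (f * g) * τ⁻¹ = (τ * f * τ⁻¹) * (τ * g * τ⁻¹) := by group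
        rw [h1, hf1, hg1, hFab f hf g hg, mul_inv_rev]
      one_mem' := ⟨one_mem _, by simp⟩
      inv_mem' := by
        rintro f ⟨hf, hf1⟩
        refine ⟨inv_mem hf, ?_⟩
        have h1 : τ * f⁻¹ * τ⁻¹ = (τ * f * τ⁻¹)⁻¹ := by group
        rw [h1, hf1] }
  have hF1F : F1 ≤ F := fun x hx => hx.1
  have hF1inv : ∀ f ∈ F1, τ * f * τ⁻¹ = f⁻¹ := fun f hf => hf.2
  have hFdec : ∀ f ∈ F, ∃ f1 ∈ F1, ∃ f0 ∈ F0, f = f1 * f0 := by
    intro f hf
    obtain ⟨i, hi, c, hc, h1, h2, h3⟩ := decomp (hFnorm hτH) (fun k _ => hconj k) hFodd hf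
    exact ⟨i, ⟨hi, h2⟩, c, (hF0mem c).2 ⟨hc, h3⟩, h1⟩
  -- Claim B : C_H(τ) = F₀
  have hCF0 : ∀ c ∈ H, τ * c = c * τ → c ∈ F0 := by
    intro c hc hcτ
    rw [hF0mem]
    refine ⟨hFC ?_, hcτ⟩
    refine Subgroup.mem_inf.2 ⟨hc, Subgroup.mem_centralizer_iff.2 ?_⟩
    have hcF : c ∈ Subgroup.normalizer (F : Set X) := hFnorm (Subgroup.le_normalizer hc)
    have hcF1 : c ∈ Subgroup.normalizer (F1 : Set X) := by
      apply mem_normalizer_of_forall
      rintro f ⟨hf, hf1⟩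
      refine ⟨normal_conj hcF hf, ?_⟩
      have hcτ' : τ * c⁻¹ = c⁻¹ * τ := by
        calc τ * c⁻¹ = c⁻¹ * (c * τ) * c⁻¹ := by group
          _ = c⁻¹ * (τ * c) * c⁻¹ := by rw [hcτ]
          _ = _ := by group
      calc τ * (c * f * c⁻¹) * τ⁻¹ = (τ * c) * f * (τ * c⁻¹⁻¹)⁻¹ := by group
        _ = c * τ * f * (τ * c)⁻¹ := by rw [inv_inv, hcτ]
        _ = c * (τ * f * τ⁻¹) * c⁻¹ := by rw [hcτ]; group
        _ = (c * f * c⁻¹)⁻¹ := by rw [hf1]; group
    have h1 := claimB hVab hVn hr C.Vp C.faith hHodd hτ2 hcomm hHab (F := F1) (fun x hx y hy => hFab x hx.1 y hy.1)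
      (hF1F.trans hFH) (Nat.Coprime.coprime_dvd_left (Subgroup.card_dvd_of_le hF1F) hFr) hF1inv hc hcτ hcF1
    intro f hf
    obtain ⟨f1, hf1, f0, hf0, rfl⟩ := hFdec f hf
    have h2 := h1 f1 hf1
    have h3 := hHab c hc hcτ f0 (hFH (hF0F hf0)) ((hF0mem f0).1 hf0).2
    rw [mul_assoc, ← h3, ← mul_assoc, ← h2, mul_assoc]
  have hHdec : ∀ h ∈ H, ∃ i ∈ H, ∃ c ∈ F0, h = i * c ∧ τ * i * τ⁻¹ = i⁻¹ := by
    intro h hh
    obtain ⟨i, hi, c, hc, h1, h2, h3⟩ := decomp hτH (fun k _ => hconj k) hHodd hh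
    exact ⟨i, hi, c, hCF0 c hc h3, h1, h2⟩
  -- U = [V, F₀]
  have hF0V : F0 ≤ Subgroup.normalizer (V : Set X) := fun x _ => hVall x
  have hcoF0 : (Nat.card F0).Coprime (Nat.card V) := Nat.Coprime.coprime_dvd_left (Subgroup.card_dvd_of_le hF0F) hFV
  have hFF0 : F ≤ Subgroup.normalizer (F0 : Set X) := by
    intro x hx
    apply mem_normalizer_of_forall
    intro k hk
    rw [hFab x hx k (hF0F hk), mul_inv_cancel_right]; exact hk
  have hsF0 : s ∈ Subgroup.normalizer (F0 : Set X) := by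
    apply mem_normalizer_of_forall
    intro k hk
    rw [hF0mem] at hk ⊢
    refine ⟨normal_conj (hFnorm hsH) hk.1, ?_⟩
    calc τ * (s * k * s⁻¹) = (τ * s) * k * s⁻¹ := by group
      _ = s * (τ * k) * s⁻¹ := by rw [← hsτ]; group
      _ = s * k * (s⁻¹ * (s * τ) * s⁻¹) := by rw [hk.2]; group
      _ = s * k * (s⁻¹ * (τ * s) * s⁻¹) := by rw [hsτ]
      _ = s * k * s⁻¹ * τ := by group
  obtain ⟨U, hUe⟩ : ∃ U : Subgroup X, U = ⁅V, F0⁆ := ⟨_, rfl⟩
  have hUV : U ≤ V := by rw [hUe]; exact comm_le_V hF0V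
  have hUinf : U ⊓ Subgroup.centralizer (F0 : Set X) = ⊥ := by
    have h1 := centralizer_inf_commutator F0 V hF0V hcoF0
    rw [eq_bot_iff, ← h1, hUe]
    intro x hx
    exact Subgroup.mem_inf.2 ⟨Subgroup.mem_inf.2 ⟨comm_le_V hF0V hx.1, hx.2⟩, hx.1⟩
  have hFU : F ≤ Subgroup.normalizer (U : Set X) := by
    rw [hUe]
    exact fun x hx => mem_normalizer_commutator (hVall x) (hFF0 hx)
  have hsU : s ∈ Subgroup.normalizer (U : Set X) := by
    rw [hUe]
    exact mem_normalizer_commutator (hVall s) hsF0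
  have hτU : τ ∈ Subgroup.normalizer (U : Set X) := by rw [hτ]; exact mul_mem hsU hsU
  have hUinv : ∀ u ∈ U, τ * u * τ⁻¹ = u⁻¹ := by
    apply invert_of_fpf hτU (fun d _ => hconj d)
    intro u hu huτ
    have h1 : u ∈ U ⊓ Subgroup.centralizer (F0 : Set X) := by
      refine Subgroup.mem_inf.2 ⟨hu, Subgroup.mem_centralizer_iff.2 ?_⟩
      intro f hf
      exact (hcomm f (hFH (hF0F hf)) ((hF0mem f).1 hf).2 u (hUV hu) huτ).symm
    rw [hUinf] at h1
    exact h1
  -- elements inverted by τ normalise U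
  have hI : ∀ h ∈ H, τ * h * τ⁻¹ = h⁻¹ → h ∈ Subgroup.normalizer (U : Set X) := by
    intro h hh hhτ
    have hhF : h ∈ Subgroup.normalizer (F : Set X) := hFnorm (Subgroup.le_normalizer hh)
    obtain ⟨W, hWe⟩ : ∃ W : Subgroup X, W = (MulAut.conj h • U) := ⟨_, rfl⟩
    have hWmem : ∀ w, w ∈ W ↔ h⁻¹ * w * h ∈ U := by
      intro w; rw [hWe, mem_conj_smul]
    have hWV : W ≤ V := by
      intro w hw
      rw [hWmem] at hw
      have := normal_conj (hVall h) (hUV hw)
      have e : h * (h⁻¹ * w * h) * h⁻¹ = w := by group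
      rwa [e] at this
    obtain ⟨g, hg⟩ : ∃ g, g = h * τ * h⁻¹ := ⟨_, rfl⟩
    have hg2 : g = h * h * τ := by
      have h1 : τ * h⁻¹ = h * τ := by
        have h2 : τ * h⁻¹ * τ⁻¹ = h := by
          have h3 : τ * h⁻¹ * τ⁻¹ = (τ * h * τ⁻¹)⁻¹ := by group
          rw [h3, hhτ, inv_inv]
        calc τ * h⁻¹ = τ * h⁻¹ * τ⁻¹ * τ := by group
          _ = h * τ := by rw [h2]
      rw [hg, mul_assoc, h1, mul_assoc]
    have hgW : ∀ w ∈ W, g * w * g⁻¹ = w⁻¹ := by
      intro w hw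
      have h1 := hUinv _ ((hWmem w).1 hw)
      calc g * w * g⁻¹ = h * (τ * (h⁻¹ * w * h) * τ⁻¹) * h⁻¹ := by rw [hg]; group
        _ = h * (h⁻¹ * w * h)⁻¹ * h⁻¹ := by rw [h1]
        _ = w⁻¹ := by group
    have hFW : F ≤ Subgroup.normalizer (W : Set X) := by
      intro x hx
      apply mem_normalizer_of_forall
      intro w hw
      rw [hWmem] at hw ⊢
      have h1 := normal_conj (hFU (normal_conj' hhF hx)) hw
      have e : h⁻¹ * (x * w * x⁻¹) * h = h⁻¹ * x * h * (h⁻¹ * w * h) * (h⁻¹ * x * h)⁻¹ := by group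
      rw [e]; exact h1
    obtain ⟨W1, hW1e⟩ : ∃ W1 : Subgroup X, W1 = W ⊓ Subgroup.centralizer (F0 : Set X) := ⟨_, rfl⟩
    have hW1W : W1 ≤ W := by rw [hW1e]; exact inf_le_left
    have hFW1 : F ≤ Subgroup.normalizer (W1 : Set X) := by
      intro x hx
      rw [hW1e]
      exact mem_normalizer_of_forall fun k hk => Subgroup.mem_inf.2 ⟨normal_conj (hFW hx) hk.1,
        centralizer_conj (hFF0 hx) hk.2⟩
    have hgW1 : g ∈ Subgroup.normalizer (W1 : Set X) := by
      apply mem_normalizer_of_forall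
      intro w hw
      rw [hgW w (hW1W hw)]; exact inv_mem hw
    obtain ⟨K, hKe⟩ : ∃ K : Subgroup X, K = F ⊓ Subgroup.centralizer (W1 : Set X) := ⟨_, rfl⟩
    have hKF : K ≤ F := by rw [hKe]; exact inf_le_left
    have hF0K : F0 ≤ K := by
      rw [hKe]
      refine le_inf hF0F ?_
      rw [Subgroup.le_centralizer_iff, hW1e]
      exact inf_le_right
    have hgF : g ∈ Subgroup.normalizer (F : Set X) := by
      rw [hg2]; exact mul_mem (mul_mem hhF hhF) (hFnorm hτH)
    have hgK : g ∈ Subgroup.normalizer (K : Set X) := by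
      rw [hKe]
      exact mem_normalizer_of_forall fun k hk => Subgroup.mem_inf.2 ⟨normal_conj hgF hk.1,
        centralizer_conj hgW1 hk.2⟩
    have hτK : τ ∈ Subgroup.normalizer (K : Set X) := by
      apply mem_normalizer_of_forall
      intro k hk
      obtain ⟨f1, hf1, f0, hf0, rfl⟩ := hFdec k (hKF hk)
      have hf1K : f1 ∈ K := by
        have := mul_mem hk (inv_mem (hF0K hf0))
        rwa [mul_inv_cancel_right] at this
      have e : τ * (f1 * f0) * τ⁻¹ = (τ * f1 * τ⁻¹) * ((τ * f0) * τ⁻¹) := by group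
      rw [e, hf1.2, ((hF0mem f0).1 hf0).2, mul_inv_cancel_right]
      exact mul_mem (inv_mem hf1K) (hF0K hf0)
    have hh2K : h * h ∈ Subgroup.normalizer (K : Set X) := by
      have e : h * h = g * τ⁻¹ := by rw [hg2]; group
      rw [e]; exact mul_mem hgK (inv_mem hτK)
    -- g acts trivially on F / K
    have hgtriv : ∀ f ∈ F, g * f * g⁻¹ * f⁻¹ ∈ K := by
      intro f hf
      rw [hKe]
      refine Subgroup.mem_inf.2 ⟨mul_mem (normal_conj hgF hf) (inv_mem hf), ?_⟩
      rw [Subgroup.mem_centralizer_iff]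
      intro w hw
      -- conj by g f g⁻¹ f⁻¹ fixes w
      have hginv : ∀ w ∈ W, g⁻¹ * w * g = w⁻¹ := by
        intro w hw
        have h1 := hgW (w⁻¹) (inv_mem hw)
        rw [inv_inv] at h1
        calc g⁻¹ * w * g = g⁻¹ * (g * w⁻¹ * g⁻¹) * g := by rw [h1]
          _ = w⁻¹ := by group
      have hw1 : f⁻¹ * w * f ∈ W := by
        have := normal_conj' (hFW hf) (hW1W hw); exact this
      have h2 := hginv _ hw1
      have h3 := hgW (w⁻¹) (inv_mem (hW1W hw))
      rw [inv_inv] at h3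
      symm
      calc g * f * g⁻¹ * f⁻¹ * w = g * f * (g⁻¹ * (f⁻¹ * w * f) * g) * f⁻¹ * g⁻¹ * (g * f * g⁻¹ * f⁻¹) := by group
        _ = g * f * (f⁻¹ * w * f)⁻¹ * f⁻¹ * g⁻¹ * (g * f * g⁻¹ * f⁻¹) := by rw [h2]
        _ = (g * w⁻¹ * g⁻¹) * (g * f * g⁻¹ * f⁻¹) := by group
        _ = w * (g * f * g⁻¹ * f⁻¹) := by rw [h3]
    have hFK : F ≤ Subgroup.normalizer (K : Set X) := by
      intro x hx
      apply mem_normalizer_of_forall
      intro k hk
      rw [hFab x hx k (hKF hk), mul_inv_cancel_right]; exact hk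
    -- h² inverts F / K
    have hh2inv : ∀ f ∈ F, (h * h) * f * (h * h)⁻¹ * f ∈ K := by
      intro f hf
      obtain ⟨f1, hf1, f0, hf0, rfl⟩ := hFdec f hf
      -- g f1⁻¹ g⁻¹ f1 ∈ K, g f1⁻¹ g⁻¹ = h² f1 h⁻²
      have h1 := hgtriv (f1⁻¹) (inv_mem hf1.1)
      rw [inv_inv] at h1
      have h2 : g * f1⁻¹ * g⁻¹ = (h * h) * f1 * (h * h)⁻¹ := by
        have h3 : τ * f1⁻¹ * τ⁻¹ = f1 := by
          have h4 : τ * f1⁻¹ * τ⁻¹ = (τ * f1 * τ⁻¹)⁻¹ := by group
          rw [h4, hf1.2, inv_inv]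
        calc g * f1⁻¹ * g⁻¹ = (h * h) * (τ * f1⁻¹ * τ⁻¹) * (h * h)⁻¹ := by rw [hg2]; group
          _ = _ := by rw [h3]
      rw [h2] at h1
      have h5 : (h * h) * f0 * (h * h)⁻¹ ∈ K := normal_conj hh2K (hF0K hf0)
      have hc := hFab f1 hf1.1 f0 (hF0F hf0)
      have hc2 : (h * h) * f0 * (h * h)⁻¹ * f1 = f1 * ((h * h) * f0 * (h * h)⁻¹) := (hFab f1 hf1.1 _ (hKF h5)).symm
      have e : (h * h) * (f1 * f0) * (h * h)⁻¹ * (f1 * f0) = ((h * h) * f1 * (h * h)⁻¹ * f1) * ((h * h) * f0 * (h * h)⁻¹) * f0 := by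
        calc (h * h) * (f1 * f0) * (h * h)⁻¹ * (f1 * f0) = ((h * h) * f1 * (h * h)⁻¹) * ((h * h) * f0 * (h * h)⁻¹ * f1) * f0 := by group
          _ = ((h * h) * f1 * (h * h)⁻¹) * (f1 * ((h * h) * f0 * (h * h)⁻¹)) * f0 := by rw [hc2]
          _ = _ := by group
      rw [e]
      exact mul_mem (mul_mem h1 h5) (hF0K hf0)
    -- h⁴ acts trivially on F / K
    have hh4 : (h * h) * (h * h) ∈ trivSub F K hKF hFK := by
      rw [mem_trivSub]
      refine ⟨mul_mem (mul_mem hhF hhF) (mul_mem hhF hhF), ?_⟩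
      intro f hf
      have h1 := hh2inv f hf
      have h2 := normal_conj hh2K h1
      have h3 := hh2inv f hf
      have e : (h * h) * (h * h) * f * ((h * h) * (h * h))⁻¹ * f⁻¹ =
          ((h * h) * ((h * h) * f * (h * h)⁻¹ * f) * (h * h)⁻¹) * (f * ((h * h) * f * (h * h)⁻¹))⁻¹ := by group
      rw [e]
      refine mul_mem h2 (inv_mem ?_)
      rw [hFab f hf _ (normal_conj (mul_mem hhF hhF) hf)]
      exact h3
    have hh1 : h * h ∈ trivSub F K hKF hFK := by
      have hodd' : Odd (orderOf (h * h)) := odd_orderOf hHodd (mul_mem hh hh)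
      apply mem_of_sq hodd'
      rw [pow_two]; exact hh4
    have hFleK : F ≤ K := by
      intro f hf
      have h1 := hh2inv f hf
      have h2 := (mem_trivSub.1 hh1).2 f hf
      apply mem_of_sq (odd_orderOf hFodd hf)
      have e : f ^ 2 = ((h * h) * f * (h * h)⁻¹ * f⁻¹)⁻¹ * ((h * h) * f * (h * h)⁻¹ * f) := by
        have hc := hFab f hf _ (hKF h2)
        rw [pow_two]; group
      rw [e]
      exact mul_mem (inv_mem h2) h1
    have hW1bot : W1 = ⊥ := by
      rw [eq_bot_iff, ← hCVF]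
      refine le_inf (hW1W.trans hWV) ?_
      rw [Subgroup.le_centralizer_iff]
      refine hFleK.trans ?_
      rw [hKe]; exact inf_le_right
    -- W = [W, F₀] ≤ U
    have hWU : W ≤ U := by
      have hcoW : (Nat.card F0).Coprime (Nat.card W) := Nat.Coprime.coprime_dvd_right (Subgroup.card_dvd_of_le hWV) hcoF0
      haveI := C.Hsol
      have h1 := commutator_sup_centralizer F0 W (hF0F.trans hFW) hcoW (Or.inl (isSolvable_of_le (hF0F.trans hFH)))
      rw [← hW1e, hW1bot, sup_bot_eq] at h1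
      rw [← h1, hUe]
      exact Subgroup.commutator_mono hWV le_rfl
    have hWUeq : W = U := by
      apply Subgroup.eq_of_le_of_card_ge hWU
      rw [hWe, card_conj_smul]
    rw [mem_normalizer_iff_conj_smul, ← hWe]
    exact hWUeq
  have hHU : H ≤ Subgroup.normalizer (U : Set X) := by
    intro h hh
    obtain ⟨i, hi, c, hc, rfl, hi2⟩ := hHdec h hh
    exact mul_mem (hI i hi hi2) (hFU (hF0F hc))
  rcases Conf.min C hUV hHU (Subgroup.zpowers_le.2 hsU) with hU | hU
  · -- F₀ = 1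
    have hF0bot : F0 = ⊥ := by
      rw [eq_bot_iff, ← C.faith]
      refine le_inf (hF0F.trans hFH) ?_
      rw [hUe, Subgroup.commutator_eq_bot_iff_le_centralizer] at hU
      exact Subgroup.le_centralizer_iff.1 hU
    apply comm_of_invert (s := τ)
    intro h hh
    obtain ⟨i, hi, c, hc, rfl, hi2⟩ := hHdec h hh
    rw [hF0bot, Subgroup.mem_bot] at hc
    rw [hc, mul_one]; exact hi2
  · -- τ inverts V
    have hHF0 : ∀ h ∈ H, h ∈ F0 := by
      intro h hh
      obtain ⟨i, hi, c, hc, rfl, hi2⟩ := hHdec h hh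
      have h1 := comm_cent_of_invert (V := V) (τ := τ) (g := i) (by rw [← hU]; exact hUinv) (hVall i)
      have h2 : i * τ * i⁻¹ * τ⁻¹ = i ^ 2 := by
        calc i * τ * i⁻¹ * τ⁻¹ = i * (τ * i * τ⁻¹)⁻¹ := by group
          _ = i ^ 2 := by rw [hi2, inv_inv, pow_two]
      rw [h2] at h1
      have h3 : i ^ 2 ∈ H ⊓ Subgroup.centralizer (V : Set X) := Subgroup.mem_inf.2 ⟨H.pow_mem hi 2, h1⟩
      rw [C.faith] at h3
      have h4 : i = 1 := Subgroup.mem_bot.1 (mem_of_sq (odd_orderOf hHodd hi) h3)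
      rw [h4, one_mul]; exact hc
    intro x hx y hy
    exact hFab x (hF0F (hHF0 x hx)) y (hF0F (hHF0 y hy))

end CfsgLib.Four3
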