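import Cfsg.Agent.EqBase
import Mathlib
import Cfsg.Agent.LibFrame

set_option autoImplicit false
set_option linter.style.haveILetI false

/-!
One step of the induction in the reduction to faithful irreducible configurations.
-/

namespace CfsgLib.Frame2

open CfsgLib.SolvBasic CfsgLib.SolvMin CfsgLib.SolvCoprime CfsgLib.SolvFitting CfsgLib.Fpf CfsgLib.Ward CfsgLib.Frame
open scoped commutatorElement Pointwise

universe u

theorem frame_step {X : Type u} [Group X] [Finite X] (G A : Subgroup X) [hG : G.Normal] (hGs : Group.IsSolvable G)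
    (hne : G ≠ ⊥) (htop : G ⊔ A = ⊤) {p : ℕ} (hp : p.Prime) (hA : IsPGroup p A)
    (hfix : G ⊓ Subgroup.centralizer (A : Set X) = ⊥) :
    ∃ (V : Subgroup X) (_ : V.Normal), V ≤ G ∧ V ≠ ⊥ ∧ A ⊓ V = ⊥ ∧
      G.map (QuotientGroup.mk' V) ⊓ Subgroup.centralizer (A.map (QuotientGroup.mk' V) : Set (X ⧸ V)) = ⊥ ∧
      ∃ r : ℕ, r.Prime ∧ ∃ (X' : Type u) (_ : Group X') (_ : Finite X') (V' : Subgroup X') (ψ : X →* X'),
        Conf r V' (G.map ψ) (A.map ψ) ∧ ψ.ker ≤ Subgroup.centralizer (V : Set X) ∧ A ⊓ ψ.ker = ⊥ := by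
  haveI : Fact p.Prime := ⟨hp⟩
  have hAG : A ≤ Subgroup.normalizer (G : Set X) := by rw [Subgroup.normalizer_eq_top]; exact le_top
  have hco := coprime_of_fpf hA hAG hfix
  obtain ⟨V, r, hr, hVmin, hVG, hVc, hexp, hVr⟩ := exists_minNormal_pgroup_of_solvable' G hne
  haveI hVn : V.Normal := hVmin.1
  have hcoV : (Nat.card A).Coprime (Nat.card V) := Nat.Coprime.coprime_dvd_right (Subgroup.card_dvd_of_le hVG) hco
  refine ⟨V, hVn, hVG, hVmin.2.1, inf_bot_of_coprime hcoV, ?_, r, hr, ?_⟩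
  · haveI : Group.IsNilpotent V := by
      haveI : Fact r.Prime := ⟨hr⟩
      exact hVr.isNilpotent
    have hs : Group.IsSolvable A ∨ Group.IsSolvable V := Or.inr inferInstance
    have := map_inf_centralizer_map (A := A) (K := G) hVG hcoV hs
    rw [hfix, Subgroup.map_bot] at this
    exact le_bot_iff.1 this
  · have hVab : ∀ v ∈ V, ∀ w ∈ V, v * w = w * v := by
      intro v hv w hw
      exact congrArg Subtype.val (hVc.is_comm.comm ⟨v, hv⟩ ⟨w, hw⟩)
    obtain ⟨X', i1, i2, V', ψ, hC, hker, hAker⟩ := exists_conf r G V A hVG hVab hVr hVmin.2.1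
      hVmin.2.2 hGs htop hfix hco
    refine ⟨X', i1, i2, V', ψ, hC, ?_, hAker⟩
    rw [hker]; exact inf_le_right

end CfsgLib.Frame2
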