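import Cfsg.Agent.EqBase
import Mathlib
import Cfsg.Agent.LibFrameC

/-!
The frame theorem for Gram matrices.
-/

set_option autoImplicit false

namespace CfsgLib.Frame

open Cfsg CfsgLib.Golay CfsgLib.M24 CfsgLib.Leech Matrix

abbrev W : Type := Fin 24 → ℤ

/-- the form of a matrix -/
def BM (B : Matrix (Fin 24) (Fin 24) ℤ) : W →+ W →+ ℤ :=
  AddMonoidHom.mk' (fun x => AddMonoidHom.mk' (fun y => x ⬝ᵥ (B *ᵥ y)) (by
    intro a b; rw [mulVec_add, dotProduct_add])) (by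
    intro a b
    apply AddMonoidHom.ext
    intro y
    exact add_dotProduct a b (B *ᵥ y))

theorem BM_apply (B : Matrix (Fin 24) (Fin 24) ℤ) (x y : W) : BM B x y = x ⬝ᵥ (B *ᵥ y) := rfl

theorem ev_BM (B : Matrix (Fin 24) (Fin 24) ℤ) (hsymm : B.IsSymm)
    (hpos : ∀ x : Fin 24 → ℤ, x ≠ 0 → 0 < x ⬝ᵥ (B *ᵥ x)) (heven : ∀ x : Fin 24 → ℤ, (2 : ℤ) ∣ x ⬝ᵥ (B *ᵥ x))
    (h2 : ∀ x : Fin 24 → ℤ, x ⬝ᵥ (B *ᵥ x) ≠ 2) : Ev (BM B) where
  symm x y := by
    rw [BM_apply, BM_apply, dotProduct_mulVec, ← mulVec_transpose, hsymm.eq, dotProduct_comm]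
  pos := hpos
  even := heven
  no2 := h2

/-- reduction modulo two -/
def red : W →+ (Fin 24 → ZMod 2) where
  toFun x := fun i => (x i : ZMod 2)
  map_zero' := by funext i; simp
  map_add' x y := by funext i; simp

theorem red_surj : Function.Surjective red := by
  intro w
  refine ⟨fun i => ((w i).val : ℤ), ?_⟩
  funext i
  change ((((w i).val : ℕ) : ℤ) : ZMod 2) = w i
  simp

theorem two_dvd_iff {x y : W} : (∀ i, (2 : ℤ) ∣ (x - y) i) ↔ ∃ z, x - y = z + z := by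
  constructor
  · intro h
    choose z hz using h
    refine ⟨z, ?_⟩
    funext i
    rw [hz, Pi.add_apply]; ring
  · rintro ⟨z, hz⟩ i
    rw [hz, Pi.add_apply]; exact ⟨z i, by ring⟩

theorem ker_red : red.ker = dblSub W := by
  ext x
  rw [AddMonoidHom.mem_ker, mem_dblSub]
  constructor
  · intro h
    have h1 : ∀ i, (2 : ℤ) ∣ x i := by
      intro i
      exact (ZMod.intCast_zmod_eq_zero_iff_dvd _ 2).1 (congrFun h i)
    choose z hz using h1
    refine ⟨z, ?_⟩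
    funext i
    rw [hz, Pi.add_apply]; ring
  · rintro ⟨z, rfl⟩
    funext i
    change (((z + z) i : ℤ) : ZMod 2) = 0
    rw [Pi.add_apply, ← two_mul]
    push_cast
    have : (2 : ZMod 2) = 0 := by decide
    rw [this, zero_mul]

theorem idx_W : (dblSub W).index = 2 ^ 24 := by
  rw [← ker_red, AddSubgroup.index_ker, AddMonoidHom.range_eq_top.2 red_surj, AddSubgroup.card_top,
    Nat.card_fun, Nat.card_zmod, Nat.card_eq_fintype_card, Fintype.card_fin]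

/-- a bijection between the index sets -/
noncomputable def pts : GolayPt ≃ Fin 24 := Fintype.equivOfCardEq (by rw [card_pt, Fintype.card_fin])

theorem hyp_BM (B : Matrix (Fin 24) (Fin 24) ℤ) (hsymm : B.IsSymm)
    (hpos : ∀ x : Fin 24 → ℤ, x ≠ 0 → 0 < x ⬝ᵥ (B *ᵥ x)) (heven : ∀ x : Fin 24 → ℤ, (2 : ℤ) ∣ x ⬝ᵥ (B *ᵥ x))
    (h2 : ∀ x : Fin 24 → ℤ, x ⬝ᵥ (B *ᵥ x) ≠ 2)
    (h4 : {x : Fin 24 → ℤ | x ⬝ᵥ (B *ᵥ x) = 4}.ncard = 196560)
    (h6 : {x : Fin 24 → ℤ | x ⬝ᵥ (B *ᵥ x) = 6}.ncard = 16773120)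
    (h8 : {x : Fin 24 → ℤ | x ⬝ᵥ (B *ᵥ x) = 8}.ncard = 398034000) : Hyp (BM B) where
  toEv := ev_BM B hsymm hpos heven h2
  emb := ⟨AddMonoidHom.mk' (fun x i => x (pts i)) (by intro a b; rfl), by
    intro a b h
    funext j
    have := congrFun h (pts.symm j)
    change a (pts (pts.symm j)) = b (pts (pts.symm j)) at this
    rwa [pts.apply_symm_apply] at this⟩
  idx := idx_W
  c4 := h4
  c6 := h6
  c8 := h8

end CfsgLib.Frame
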