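import Cfsg.Agent.EqBase
import Cfsg.Agent.LibFrobP19
import Cfsg.Agent.LibInv19
import Cfsg.Agent.LibQuot19

/-!
# Principal blocks of groups with an abelian Sylow subgroup with Frobenius normalizer quotient of order three
-/

set_option autoImplicit false
set_option linter.all false

universe u v w

open Cfsg
open scoped ComplexConjugate

namespace CfsgLib.FrobP19

open CfsgLib.CharBasic CfsgLib.BlockR CfsgLib.Infl19 CfsgLib.PBker19 CfsgLib.Quot19

/-! ### pairs of involutions and blocks -/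

section Pairs
variable {G : Type u} [Group G] [Finite G] {p : ℕ} [hp : Fact p.Prime] {M : Ideal AlgInt}

open CfsgLib.ClassAlg CfsgLib.PB19 in
theorem section_pairs (hM : IsPModular p M) {B : Set (IrrCharacter G)} (hB : IsPBlock M B) {y : G}
    (hy : ∃ k : ℕ, orderOf y = p ^ k) (t : G)
    (h : ∀ z z' : G, IsPPart p z z' → IsConj z' y → ∀ s s' : G, IsConj t s → IsConj t s' → s * s' ≠ z) :
    ∑ᶠ χ ∈ B, ((χ : G → ℂ) t ^ 2 / (χ : G → ℂ) 1) * conj ((χ : G → ℂ) y) = 0 := by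
  classical
  haveI : Fintype G := Fintype.ofFinite G
  let c : G → ℂ := fun z => (Nat.card {q : G × G // IsConj t q.1 ∧ IsConj t q.2 ∧ q.1 * q.2 = z} : ℂ)
  have hproj := proj_section hM hB c (isPPart_self hy) (by
    intro z z' hz hzu
    simp only [c]
    rw [Nat.cast_eq_zero, Nat.card_eq_zero]
    left
    refine ⟨?_⟩
    rintro ⟨⟨s, s'⟩, hs, hs', hss⟩
    exact h z z' hz hzu s s' hs hs' hss)
  have hKc : ((Subgroup.centralizer ({t} : Set G)).index : ℂ) ≠ 0 := by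
    exact_mod_cast Subgroup.index_ne_zero_of_finite
  have hGc : (Nat.card G : ℂ) ≠ 0 := by exact_mod_cast Nat.card_pos.ne'
  have hval : ∀ χ : IrrCharacter G, ∑ z : G, c z * (χ : G → ℂ) z =
      ((Subgroup.centralizer ({t} : Set G)).index : ℂ) ^ 2 * ((χ : G → ℂ) t ^ 2 / (χ : G → ℂ) 1) := by
    intro χ
    have e1 : ∀ z, c z = (Nat.card G : ℂ)⁻¹ * ∑ ψ : IrrCharacter G, centralChar (ψ : G → ℂ) t * centralChar (ψ : G → ℂ) t * (ψ : G → ℂ) 1 * conj ((ψ : G → ℂ) z) :=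
      fun z => card_pairs t t z
    have e2 : ∑ z : G, c z * (χ : G → ℂ) z = ∑ ψ : IrrCharacter G, centralChar (ψ : G → ℂ) t * centralChar (ψ : G → ℂ) t * (ψ : G → ℂ) 1 * classInner (χ : G → ℂ) (ψ : G → ℂ) := by
      simp only [e1, classInner, Finset.mul_sum, Finset.sum_mul]
      rw [Finset.sum_comm]
      exact Finset.sum_congr rfl fun ψ _ => Finset.sum_congr rfl fun z _ => by ring
    rw [e2, Finset.sum_eq_single χ]
    · rw [irr_inner_self χ.2]
      unfold centralChar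
      have := irr_one_ne_zero χ.2
      field_simp
    · intro ψ _ hne
      rw [irr_inner_ne χ.2 ψ.2 (fun h => hne (Subtype.ext h.symm)), mul_zero]
    · intro h; exact absurd (Finset.mem_univ _) h
  have hfin : ((Subgroup.centralizer ({t} : Set G)).index : ℂ) ^ 2 * ∑ᶠ χ ∈ B, ((χ : G → ℂ) t ^ 2 / (χ : G → ℂ) 1) * conj ((χ : G → ℂ) y) = 0 := by
    rw [← hproj, finsum_mem_eq_finite_toFinset_sum _ (Set.toFinite B), finsum_mem_eq_finite_toFinset_sum _ (Set.toFinite B), Finset.mul_sum]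
    exact Finset.sum_congr rfl fun χ _ => by rw [hval χ]; ring
  rcases mul_eq_zero.1 hfin with h | h
  · exact absurd (pow_eq_zero_iff (by norm_num) |>.1 h) hKc
  · exact h

/-- characters are integral at involutions -/
theorem int_of_invol (χ : IrrCharacter G) {t : G} (ht : t * t = 1) : ∃ n : ℤ, (χ : G → ℂ) t = n := by
  classical
  have hab : ∀ a b : Subgroup.zpowers t, a * b = b * a := by
    rintro ⟨_, i, rfl⟩ ⟨_, j, rfl⟩
    exact Subtype.ext ((Commute.refl t).zpow_zpow i j)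
  haveI := finite_lin hab
  letI := Fintype.ofFinite (Subgroup.zpowers t →* ℂˣ)
  letI := Fintype.ofFinite (Subgroup.zpowers t)
  have h1 := lin_expand hab (fun w : Subgroup.zpowers t => (χ : G → ℂ) w) ⟨t, Subgroup.mem_zpowers t⟩
  simp_rw [mult_spec] at h1
  have h2 : ∀ ψ : Subgroup.zpowers t →* ℂˣ, ∃ n : ℤ, ((ψ ⟨t, Subgroup.mem_zpowers t⟩ : ℂˣ) : ℂ) = n := by
    intro ψ
    have h3 : ψ ⟨t, Subgroup.mem_zpowers t⟩ * ψ ⟨t, Subgroup.mem_zpowers t⟩ = 1 := by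
      rw [← map_mul, show (⟨t, Subgroup.mem_zpowers t⟩ : Subgroup.zpowers t) * ⟨t, Subgroup.mem_zpowers t⟩ = 1 from Subtype.ext ht, map_one]
    have h4 : ((ψ ⟨t, Subgroup.mem_zpowers t⟩ : ℂˣ) : ℂ) * ((ψ ⟨t, Subgroup.mem_zpowers t⟩ : ℂˣ) : ℂ) = 1 := by
      rw [← Units.val_mul, h3, Units.val_one]
    rcases mul_self_eq_one_iff.1 h4 with h | h
    · exact ⟨1, by rw [h]; norm_num⟩
    · exact ⟨-1, by rw [h]; norm_num⟩
  choose n hn using h2
  refine ⟨∑ ψ : Subgroup.zpowers t →* ℂˣ, mult (Subgroup.zpowers t) χ ψ * n ψ, ?_⟩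
  push_cast
  refine h1.trans (Finset.sum_congr rfl fun ψ _ => ?_)
  rw [hn]

end Pairs

/-! ### arithmetic -/

theorem one_neg_arith {a b c : ℕ} {x y z : ℝ} (ha : 0 < a) (hb : 0 < b)
    (h1 : (c : ℝ) = 1 + a + b) (h2 : z = 1 + x + y) (h3 : z ^ 2 / c = 1 + x ^ 2 / a + y ^ 2 / b) : x = a := by
  have ha' : (0 : ℝ) < a := by exact_mod_cast ha
  have hb' : (0 : ℝ) < b := by exact_mod_cast hb
  have hc' : (0 : ℝ) < c := by rw [h1]; positivity
  have h4 : z ^ 2 = c * (1 + x ^ 2 / a + y ^ 2 / b) := by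
    rw [← h3]; field_simp
  have h5 : (a - x) ^ 2 / a + (b - y) ^ 2 / b + (b * x - a * y) ^ 2 / (a * b) = 0 := by
    have h6 : (a - x) ^ 2 / a + (b - y) ^ 2 / b + (b * x - a * y) ^ 2 / (a * b) =
        (1 + a + b) * (1 + x ^ 2 / a + y ^ 2 / b) - (1 + x + y) ^ 2 := by
      field_simp
      ring
    rw [h6, ← h1, ← h4, h2]
    ring
  have h7 : 0 ≤ (a - x) ^ 2 / (a : ℝ) := by positivity
  have h8 : 0 ≤ (b - y) ^ 2 / (b : ℝ) := by positivity
  have h9 : 0 ≤ (b * x - a * y) ^ 2 / ((a : ℝ) * b) := by positivity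
  have h10 : (a - x) ^ 2 / (a : ℝ) = 0 := by linarith
  rcases div_eq_zero_iff.1 h10 with h | h
  · have := pow_eq_zero_iff (two_ne_zero) |>.1 h
    linarith
  · exact absurd h ha'.ne'

theorem two_neg_arith {a b c : ℕ} {x y z : ℤ} (ha : 0 < a) (hb : 0 < b) (hc : 0 < c)
    (h1 : (1 : ℤ) + c = a + b) (h2 : 1 + z = x + y)
    (h3 : (1 : ℝ) + (z : ℝ) ^ 2 / c = (x : ℝ) ^ 2 / a + (y : ℝ) ^ 2 / b) (hz : z ≠ c) : IsSquare (a * b * c) := by
  have ha' : (0 : ℝ) < a := by exact_mod_cast ha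
  have hb' : (0 : ℝ) < b := by exact_mod_cast hb
  have hc' : (0 : ℝ) < c := by exact_mod_cast hc
  have h1' : (1 : ℝ) + c = a + b := by exact_mod_cast h1
  have h2' : (1 : ℝ) + z = x + y := by exact_mod_cast h2
  have h4 : (a : ℝ) * b * c * ((c : ℝ) - z) ^ 2 = (c * (b * x - a * y)) ^ 2 := by
    have h5 : (1 + (c : ℝ)) * (1 + (z : ℝ) ^ 2 / c) - (1 + (z : ℝ)) ^ 2 = (c - z) ^ 2 / c := by
      field_simp; ring
    have h6 : ((a : ℝ) + b) * ((x : ℝ) ^ 2 / a + (y : ℝ) ^ 2 / b) - ((x : ℝ) + y) ^ 2 = (b * x - a * y) ^ 2 / (a * b) := by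
      field_simp; ring
    rw [h1', h3, h2', h6] at h5
    rw [div_eq_div_iff (by positivity) (by positivity)] at h5
    linear_combination -(c : ℝ) * h5
  have h5 : (a : ℤ) * b * c * ((c : ℤ) - z) ^ 2 = (c * (b * x - a * y)) ^ 2 := by exact_mod_cast h4
  have hA : (c : ℤ) - z ≠ 0 := sub_ne_zero.2 (Ne.symm hz)
  have h6 : ((c : ℤ) - z) ^ 2 ∣ ((c : ℤ) * (b * x - a * y)) ^ 2 := Dvd.intro_left _ h5
  rw [Int.pow_dvd_pow_iff two_ne_zero] at h6
  obtain ⟨k, hk⟩ := h6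
  rw [hk] at h5
  have h7 : (a : ℤ) * b * c = k ^ 2 := by
    have h8 : ((c : ℤ) - z) ^ 2 ≠ 0 := pow_ne_zero 2 hA
    apply mul_right_cancel₀ h8
    rw [h5]; ring
  refine ⟨k.natAbs, ?_⟩
  have h8 : ((a * b * c : ℕ) : ℤ) = ((k.natAbs * k.natAbs : ℕ) : ℤ) := by
    push_cast
    rw [h7, ← sq, sq_abs]
  exact_mod_cast h8

theorem final_arith {a b c : ℕ} {x y z : ℤ} {e f g : ℤ} (he : e = 1 ∨ e = -1) (hf : f = 1 ∨ f = -1) (hg : g = 1 ∨ g = -1)
    (ha : 0 < a) (hb : 0 < b) (hc : 0 < c)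
    (h1 : (1 : ℤ) + e * a + f * b + g * c = 0) (h2 : 1 + e * x + f * y + g * z = 0)
    (h3 : (1 : ℝ) + e * ((x : ℝ) ^ 2 / a) + f * ((y : ℝ) ^ 2 / b) + g * ((z : ℝ) ^ 2 / c) = 0)
    (hx : x ≠ a) (hy : y ≠ b) (hz : z ≠ c) :
    ((if e = -1 then 1 else 0) + (if f = -1 then 1 else 0) + (if g = -1 then 1 else 0) = 2) ∧ IsSquare (a * b * c) := by
  have h1' : (1 : ℝ) + e * a + f * b + g * c = 0 := by exact_mod_cast h1
  have h2' : (1 : ℝ) + e * x + f * y + g * z = 0 := by exact_mod_cast h2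
  rcases he with rfl | rfl <;> rcases hf with rfl | rfl <;> rcases hg with rfl | rfl
  · exfalso; omega
  · exfalso
    apply hx
    push_cast at h1' h2' h3
    exact_mod_cast one_neg_arith ha hb (by linarith : (c : ℝ) = 1 + a + b) (by linarith : (z : ℝ) = 1 + x + y) (by linarith)
  · exfalso
    apply hx
    push_cast at h1' h2' h3
    exact_mod_cast one_neg_arith ha hc (by linarith : (b : ℝ) = 1 + a + c) (by linarith : (y : ℝ) = 1 + x + z) (by linarith)
  · refine ⟨by norm_num, ?_⟩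
    push_cast at h1' h2' h3
    have := two_neg_arith hb hc ha (by linarith : (1 : ℤ) + a = b + c) (by linarith : 1 + x = y + z) (by linarith) hx
    rwa [show a * b * c = b * c * a by ring]
  · exfalso
    apply hy
    push_cast at h1' h2' h3
    exact_mod_cast one_neg_arith hb hc (by linarith : (a : ℝ) = 1 + b + c) (by linarith : (x : ℝ) = 1 + y + z) (by linarith)
  · refine ⟨by norm_num, ?_⟩
    push_cast at h1' h2' h3
    have := two_neg_arith ha hc hb (by linarith : (1 : ℤ) + b = a + c) (by linarith : 1 + y = x + z) (by linarith) hy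
    rwa [show a * b * c = a * c * b by ring]
  · refine ⟨by norm_num, ?_⟩
    push_cast at h1' h2' h3
    exact two_neg_arith ha hb hc (by linarith : (1 : ℤ) + c = a + b) (by linarith : 1 + z = x + y) (by linarith) hz
  · exfalso; omega

/-! ### index three: normalisation -/

section Norm
variable {G : Type u} [Group G] [Finite G] {p : ℕ} [hp : Fact p.Prime] {M : Ideal AlgInt}

theorem Raw.swap {P : Subgroup G} {ζ : (P →* ℂˣ) → IrrCharacter G} {c : IrrCharacter G → ℤ} {δ d : ℤ}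
    (hR : Raw M P ζ c δ d) {ψ0 φ0 : P →* ℂˣ} (h0 : ψ0 ≠ 1) (h1 : φ0 ≠ 1)
    (hne : ¬ Rel P ψ0 φ0) (hall : ∀ ψ : P →* ℂˣ, ψ ≠ 1 → Rel P ψ0 ψ ∨ Rel P φ0 ψ) :
    ∃ (ζ' : (P →* ℂˣ) → IrrCharacter G) (c' : IrrCharacter G → ℤ), Raw M P ζ' c' (-δ) (d - δ) := by
  classical
  have hz : ζ ψ0 ≠ ζ φ0 := fun h => hne ((hR.hζ _ _ h0 h1).1 h)
  refine ⟨fun ψ => if Rel P ψ0 ψ then ζ φ0 else ζ ψ0, fun χ => c χ - δ * (if χ = ζ ψ0 ∨ χ = ζ φ0 then 1 else 0),
    ⟨?_, ?_, ?_, ?_, ?_⟩⟩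
  · rcases hR.hδ with h | h
    · right; rw [h]
    · left; rw [h]; rfl
  · intro ψ φ hψ hφ
    by_cases ha : Rel P ψ0 ψ <;> by_cases hb : Rel P ψ0 φ
    · simp only [ha, hb, if_true, true_iff]
      exact rel_trans P (rel_symm P ha) hb
    · simp only [ha, hb, if_true, if_false]
      refine ⟨fun h => absurd h.symm hz, fun h => absurd (rel_trans P ha h) hb⟩
    · simp only [ha, hb, if_true, if_false]
      refine ⟨fun h => absurd h hz, fun h => absurd (rel_trans P hb (rel_symm P h)) ha⟩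
    · simp only [ha, hb, if_false, true_iff]
      exact rel_trans P (rel_symm P ((hall ψ hψ).resolve_left ha)) ((hall φ hφ).resolve_left hb)
  · intro ψ hψ
    split_ifs
    · exact hR.hB _ h1
    · exact hR.hB _ h0
  · intro ψ hψ χ hχ
    rw [hR.hv ψ hψ χ hχ]
    by_cases ha : Rel P ψ0 ψ
    · simp only [ha, if_true]
      rw [← (hR.hζ _ _ h0 hψ).2 ha]
      by_cases h2 : χ = ζ ψ0
      · have h3 : χ ≠ ζ φ0 := h2 ▸ hz
        simp only [h2, hz, if_true, if_false, true_or]; ring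
      · by_cases h3 : χ = ζ φ0
        · simp only [h3, hz.symm, if_true, if_false, or_true]; ring
        · simp only [h2, h3, if_false, or_false]; ring
    · simp only [ha, if_false]
      rw [← (hR.hζ _ _ h1 hψ).2 ((hall ψ hψ).resolve_left ha)]
      by_cases h2 : χ = ζ ψ0
      · have h3 : χ ≠ ζ φ0 := h2 ▸ hz
        simp only [h2, hz, if_true, if_false, true_or]; ring
      · by_cases h3 : χ = ζ φ0
        · simp only [h3, hz.symm, if_true, if_false, or_true]; ring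
        · simp only [h2, h3, if_false, or_false]; ring
  · intro ψ hψ
    by_cases ha : Rel P ψ0 ψ
    · simp only [ha, if_true, or_true]
      rw [hR.hd _ h1]; ring
    · simp only [ha, if_false, true_or, if_true]
      rw [hR.hd _ h0]; ring

theorem card_le_sum {α : Type*} [Finite α] (X : Set α) (c : α → ℤ) (hc : ∀ x ∈ X, c x ≠ 0) :
    (Nat.card X : ℤ) ≤ ∑ᶠ x ∈ X, c x ^ 2 := by
  rw [finsum_mem_eq_finite_toFinset_sum _ (Set.toFinite _), Nat.card_coe_set_eq,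
    Set.ncard_eq_toFinset_card _ (Set.toFinite _)]
  rw [Finset.cast_card]
  refine Finset.sum_le_sum fun χ hχ => ?_
  rw [Set.Finite.mem_toFinset] at hχ
  have h1 := hc χ hχ
  have h2 : 0 < c χ ^ 2 := by positivity
  omega

theorem sq_le_sum {α : Type*} [Finite α] (X : Set α) (c : α → ℤ) {x : α} (hx : x ∈ X) :
    c x ^ 2 ≤ ∑ᶠ x ∈ X, c x ^ 2 := by
  rw [finsum_mem_eq_finite_toFinset_sum _ (Set.toFinite _)]
  exact Finset.single_le_sum (f := fun x => c x ^ 2) (fun _ _ => sq_nonneg _) ((Set.Finite.mem_toFinset _).2 hx)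

theorem normalise (hM : IsPModular p M) (P : Sylow p G) (hF : FrobHyp (P : Subgroup G))
    (hm : (Subgroup.centralizer ((P : Subgroup G) : Set G)).relIndex (Subgroup.normalizer ((P : Subgroup G) : Set G)) = 3)
    (hm2 : 3 + 1 < Nat.card P) :
    ∃ (ζ : ((P : Subgroup G) →* ℂˣ) → IrrCharacter G) (c : IrrCharacter G → ℤ) (δ : ℤ),
      Raw M (P : Subgroup G) ζ c δ 0 ∧ (∀ χ ∈ setX M ζ, c χ = 1 ∨ c χ = -1) ∧ Nat.card (setX M ζ) = 3 := by
  classical
  have hP1 : Nat.card P ≠ 1 := by omega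
  have hψ := exists_ne_one hF.1 hP1
  -- it suffices to find raw data with d = 0
  suffices hs : ∃ (ζ : ((P : Subgroup G) →* ℂˣ) → IrrCharacter G) (c : IrrCharacter G → ℤ) (δ : ℤ),
      Raw M (P : Subgroup G) ζ c δ 0 by
    obtain ⟨ζ, c, δ, hR⟩ := hs
    refine ⟨ζ, c, δ, hR, ?_⟩
    have hnorm := hR.norm hM hF hm hψ
    have hne := fun χ (hχ : χ ∈ setX M ζ) => hR.c_ne_zero hM hF hP1 hχ
    have hδ := hR.delta_sq
    have h3 : ∑ᶠ χ ∈ setX M ζ, c χ ^ 2 = 3 := by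
      push_cast at hnorm
      linear_combination hnorm - hδ
    have h4 : ∀ χ ∈ setX M ζ, c χ = 1 ∨ c χ = -1 := by
      intro χ hχ
      have h5 := sq_le_sum (setX M ζ) c hχ
      rw [h3] at h5
      have h6 := hne χ hχ
      have h7 : c χ < 2 := by nlinarith
      have h8 : -2 < c χ := by nlinarith
      omega
    refine ⟨h4, ?_⟩
    have h5 : ∑ᶠ χ ∈ setX M ζ, c χ ^ 2 = (Nat.card (setX M ζ) : ℤ) := by
      rw [finsum_mem_eq_finite_toFinset_sum _ (Set.toFinite _), Nat.card_coe_set_eq,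
        Set.ncard_eq_toFinset_card _ (Set.toFinite _), Finset.cast_card]
      refine Finset.sum_congr rfl fun χ hχ => ?_
      rw [Set.Finite.mem_toFinset] at hχ
      rcases h4 χ hχ with h | h <;> rw [h] <;> rfl
    rw [h3] at h5
    exact_mod_cast h5.symm
  obtain ⟨ζ, c, δ, d, hR⟩ := core hM P hF (by norm_num : 0 < 3) hm hm2
  have hnorm := hR.norm hM hF hm hψ
  have hne := fun χ (hχ : χ ∈ setX M ζ) => hR.c_ne_zero hM hF hP1 hχ
  have hδ := hR.delta_sq
  have hcardY : Nat.card (setY ζ) * 3 = Nat.card P - 1 := card_setY hR hF hm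
  have he := hR.one_mem hM hF hm hm2
  have hce := hR.c_one hM hF hm hm2 hψ
  have hsum1 : 1 ≤ ∑ᶠ χ ∈ setX M ζ, c χ ^ 2 := by
    have := sq_le_sum (setX M ζ) c he
    rw [hce] at this
    simpa using this
  have hcard1 := card_le_sum (setX M ζ) c hne
  have hr2 : (2 : ℤ) ≤ (Nat.card (setY ζ) : ℤ) := by
    have : 2 ≤ Nat.card (setY ζ) := by omega
    exact_mod_cast this
  by_cases hd : d = 0
  · subst hd; exact ⟨ζ, c, δ, hR⟩
  -- now d = δ
  have hdd : d = δ := by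
    push_cast at hnorm
    have h5 : 0 < d ^ 2 := by positivity
    have h6 : d ^ 2 ≤ 3 := by nlinarith [sq_nonneg (d - δ)]
    have h7 : d < 2 := by nlinarith
    have h8 : -2 < d := by nlinarith
    have h9 : d = 1 ∨ d = -1 := by omega
    rcases h9 with rfl | rfl <;> rcases hR.hδ with rfl | rfl
    · rfl
    · exfalso; nlinarith
    · exfalso; nlinarith
    · rfl
  subst hdd
  have hnorm' : (Nat.card (setY ζ) : ℤ) - 1 + ∑ᶠ χ ∈ setX M ζ, c χ ^ 2 = 4 := by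
    push_cast at hnorm
    have : d ^ 2 = 1 := by rw [sq, hδ]
    rw [this] at hnorm
    linarith
  have hr4 : Nat.card (setY ζ) = 2 ∨ Nat.card (setY ζ) = 3 ∨ Nat.card (setY ζ) = 4 := by omega
  rcases hr4 with h | h | h
  · -- swapping
    obtain ⟨ψ0, hψ0⟩ := hψ
    obtain ⟨φ0, hφ0, hnr⟩ := exists_other hF hm hm2 hψ0
    obtain ⟨ζ', c', hR'⟩ := hR.swap hψ0 hφ0 hnr (by
      intro ψ hψ
      by_contra hcon
      push Not at hcon
      have h1 : ζ ψ ≠ ζ ψ0 := fun h2 => hcon.1 ((hR.hζ _ _ hψ0 hψ).1 h2.symm)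
      have h2 : ζ ψ ≠ ζ φ0 := fun h2 => hcon.2 ((hR.hζ _ _ hφ0 hψ).1 h2.symm)
      have h3 : ζ ψ0 ≠ ζ φ0 := fun h2 => hnr ((hR.hζ _ _ hψ0 hφ0).1 h2)
      have h4 : ({ζ ψ, ζ ψ0, ζ φ0} : Set (IrrCharacter G)) ⊆ setY ζ := by
        rintro x (rfl | rfl | rfl)
        · exact ⟨ψ, hψ, rfl⟩
        · exact ⟨ψ0, hψ0, rfl⟩
        · exact ⟨φ0, hφ0, rfl⟩
      have h5 := Set.ncard_le_ncard h4 (Set.toFinite _)
      rw [Set.ncard_eq_three.2 ⟨_, _, _, h1, h2, h3, rfl⟩, ← Nat.card_coe_set_eq, h] at h5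
      omega)
    rw [sub_self] at hR'
    exact ⟨ζ', c', _, hR'⟩
  · exfalso
    rw [h] at hcardY
    obtain ⟨k, hk⟩ := IsPGroup.iff_card.1 P.isPGroup'
    have h10 : Nat.card P = 10 := by omega
    rw [h10] at hk
    have h2 : 2 ∣ p := Nat.Prime.dvd_of_dvd_pow Nat.prime_two (hk ▸ (by norm_num : 2 ∣ 10))
    have h5 : 5 ∣ p := Nat.Prime.dvd_of_dvd_pow Nat.prime_five (hk ▸ (by norm_num : 5 ∣ 10))
    rw [Nat.prime_dvd_prime_iff_eq Nat.prime_two hp.out] at h2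
    rw [Nat.prime_dvd_prime_iff_eq Nat.prime_five hp.out] at h5
    omega
  · exfalso
    rw [h] at hnorm'
    have h1 : ∑ᶠ χ ∈ setX M ζ, c χ ^ 2 = 1 := by push_cast at hnorm'; linarith
    rw [h1] at hcard1
    have hX : setX M ζ = {(⟨fun _ => 1, one_irr⟩ : IrrCharacter G)} := by
      have h2 : Nat.card (setX M ζ) ≤ 1 := by exact_mod_cast hcard1
      rw [Nat.card_coe_set_eq] at h2
      apply Set.eq_singleton_iff_unique_mem.2 ⟨he, fun x hx => ?_⟩
      exact (Set.ncard_le_one (Set.toFinite _)).1 h2 x hx _ he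
    obtain ⟨ψ0, hψ0⟩ := hψ
    have h2 := hR.relation hM P.isPGroup' (η := ζ ψ0) ⟨ψ0, hψ0, rfl⟩ (g := 1)
      (by rw [orderOf_one, Nat.dvd_one]; exact hp.out.ne_one)
    rw [hX, finsum_mem_singleton, hce, h, CfsgLib.CharInt.irr_one_eq_charDegree (ζ ψ0).2] at h2
    have h3 : ((4 : ℤ) * d - d) * (charDegree (ζ ψ0 : G → ℂ) : ℤ) + 1 = 0 := by
      have h4 : (((4 : ℤ) * d - d : ℤ) : ℂ) * (charDegree (ζ ψ0 : G → ℂ) : ℂ) + 1 = 0 := by
        rw [← h2]; push_cast; ring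
      exact_mod_cast h4
    have h4 : (3 : ℤ) ∣ 1 := ⟨-(d * (charDegree (ζ ψ0 : G → ℂ) : ℤ)), by linear_combination h3⟩
    omega

end Norm

/-! ### a generator of the quotient of order three -/

section Three
variable {G : Type u} [Group G] [Finite G]

instance centralizer_normal_in_normalizer (P : Subgroup G) :
    ((Subgroup.centralizer (P : Set G)).subgroupOf (Subgroup.normalizer (P : Set G))).Normal := by
  rw [← Subgroup.normalizerMonoidHom_ker]; infer_instance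

theorem exists_gen {P : Subgroup G}
    (hm : (Subgroup.centralizer (P : Set G)).relIndex (Subgroup.normalizer (P : Set G)) = 3) :
    ∃ n : G, n ∈ Subgroup.normalizer (P : Set G) ∧ n ∉ Subgroup.centralizer (P : Set G) ∧
      (∀ x ∈ Subgroup.normalizer (P : Set G), x ^ 3 ∈ Subgroup.centralizer (P : Set G)) ∧
      ∀ x ∈ Subgroup.normalizer (P : Set G), ∃ k : ℕ, ∃ c ∈ Subgroup.centralizer (P : Set G), x = n ^ k * c := by
  classical
  set N := Subgroup.normalizer (P : Set G) with hN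
  set C := Subgroup.centralizer (P : Set G) with hC
  haveI hn : (C.subgroupOf N).Normal := centralizer_normal_in_normalizer P
  have hcard : Nat.card (N ⧸ C.subgroupOf N) = 3 := hm
  haveI : Fact (Nat.Prime 3) := ⟨Nat.prime_three⟩
  obtain ⟨q, hq⟩ : ∃ q : N ⧸ C.subgroupOf N, q ≠ 1 := by
    by_contra hcon
    push Not at hcon
    haveI : Subsingleton (N ⧸ C.subgroupOf N) := ⟨fun a b => by rw [hcon a, hcon b]⟩
    rw [Nat.card_unique] at hcard
    omega
  obtain ⟨n, rfl⟩ := QuotientGroup.mk_surjective q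
  refine ⟨n, n.2, ?_, ?_, ?_⟩
  · intro h
    exact hq ((QuotientGroup.eq_one_iff n).2 h)
  · intro x hx
    have h1 := Subgroup.pow_index_mem (C.subgroupOf N) (⟨x, hx⟩ : N)
    rw [show (C.subgroupOf N).index = 3 from hm] at h1
    exact h1
  · intro x hx
    obtain ⟨k, hk⟩ := mem_powers_of_prime_card hcard hq (g' := ((⟨x, hx⟩ : N) : N ⧸ C.subgroupOf N))
    simp only at hk
    rw [← QuotientGroup.mk_pow] at hk
    rw [QuotientGroup.eq] at hk
    refine ⟨k, _, hk, ?_⟩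
    change x = (n : G) ^ k * (((n : G) ^ k)⁻¹ * x)
    rw [mul_inv_cancel_left]

theorem not_inverted {P : Subgroup G} (hF : FrobHyp P)
    (hm : (Subgroup.centralizer (P : Set G)).relIndex (Subgroup.normalizer (P : Set G)) = 3) {y : G} (hy : y ∈ P)
    (hyy : y * y ≠ 1) {n : G} (hn : n ∈ Subgroup.normalizer (P : Set G)) (h : n * y * n⁻¹ = y⁻¹) : False := by
  obtain ⟨-, -, -, h3, -⟩ := exists_gen hm
  have hy1 : y ≠ 1 := by rintro rfl; exact hyy (mul_one 1)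
  have h2 : n * n ∈ Subgroup.centralizer (P : Set G) := by
    rw [← hF.2 y hy hy1]
    refine Subgroup.mem_inf.2 ⟨?_, Subgroup.mul_mem _ hn hn⟩
    rw [Subgroup.mem_centralizer_singleton_iff]
    have h4 : n * n * y * (n * n)⁻¹ = y := by
      calc n * n * y * (n * n)⁻¹ = n * (n * y * n⁻¹) * n⁻¹ := by group
        _ = n * y⁻¹ * n⁻¹ := by rw [h]
        _ = (n * y * n⁻¹)⁻¹ := by group
        _ = y := by rw [h, inv_inv]
    rw [mul_inv_eq_iff_eq_mul] at h4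
    exact h4
  have h5 : n ∈ Subgroup.centralizer (P : Set G) := by
    have h6 := Subgroup.mul_mem _ (h3 n hn) (Subgroup.inv_mem _ h2)
    have h7 : n ^ 3 * (n * n)⁻¹ = n := by
      rw [pow_succ, pow_two, mul_assoc, mul_assoc]
      group
    rwa [h7] at h6
  rw [Subgroup.mem_centralizer_iff] at h5
  have h6 := h5 y hy
  rw [← h6, mul_inv_cancel_right] at h
  apply hyy
  nth_rewrite 1 [h]
  exact inv_mul_cancel y

/-- the orbit of a linear character -/
theorem orbit_three {P : Subgroup G} (hF : FrobHyp P)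
    (hm : (Subgroup.centralizer (P : Set G)).relIndex (Subgroup.normalizer (P : Set G)) = 3) {ψ : P →* ℂˣ} (hψ : ψ ≠ 1) :
    ∃ ψ' ψ'' : P →* ℂˣ, ψ * ψ' * ψ'' = 1 ∧ ψ ≠ ψ' ∧ ψ ≠ ψ'' ∧ ψ' ≠ ψ'' ∧ {φ | Rel P ψ φ} = {ψ, ψ', ψ''} := by
  classical
  letI := linAct P
  obtain ⟨n, hn, hnC, h3, -⟩ := exists_gen hm
  set ν : Subgroup.normalizer (P : Set G) := ⟨n, hn⟩ with hν
  have hst := stab_eq hF hψ
  have hfix : ∀ x : Subgroup.normalizer (P : Set G), x • ψ = ψ → (x : G) ∈ Subgroup.centralizer (P : Set G) := by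
    intro x hx
    have : x ∈ MulAction.stabilizer (Subgroup.normalizer (P : Set G)) ψ := hx
    rw [hst, Subgroup.mem_subgroupOf] at this
    exact this
  have hfix' : ∀ x : Subgroup.normalizer (P : Set G), (x : G) ∈ Subgroup.centralizer (P : Set G) → x • ψ = ψ := by
    intro x hx
    have : x ∈ MulAction.stabilizer (Subgroup.normalizer (P : Set G)) ψ := by
      rw [hst, Subgroup.mem_subgroupOf]; exact hx
    exact this
  have h1 : ν • ψ ≠ ψ := fun h => hnC (hfix ν h)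
  have h2 : ν • ν • ψ ≠ ψ := by
    intro h
    rw [← mul_smul] at h
    have h4 := hfix _ h
    have h5 := Subgroup.mul_mem _ (h3 n hn) (Subgroup.inv_mem _ h4)
    apply hnC
    have h7 : n ^ 3 * (((ν * ν : Subgroup.normalizer (P : Set G)) : G))⁻¹ = n := by
      rw [Subgroup.coe_mul, pow_succ, pow_two, mul_assoc, mul_assoc]
      simp only [hν]
      group
    rwa [h7] at h5
  have h33 : ν • ν • ν • ψ = ψ := by
    rw [← mul_smul, ← mul_smul]
    apply hfix'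
    have := h3 n hn
    rwa [show n ^ 3 = (((ν * ν * ν : Subgroup.normalizer (P : Set G))) : G) from by
      rw [pow_succ, pow_two]; rfl] at this
  have hsm : ∀ α β : P →* ℂˣ, ν • (α * β) = (ν • α) * (ν • β) := by
    intro α β
    ext w
    rw [linAct_apply, MonoidHom.mul_apply, MonoidHom.mul_apply, linAct_apply, linAct_apply]
  refine ⟨ν • ψ, ν • ν • ψ, ?_, h1.symm, h2.symm, ?_, ?_⟩
  · by_contra hne
    have h4 : ν • (ψ * ν • ψ * ν • ν • ψ) = ψ * ν • ψ * ν • ν • ψ := by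
      rw [hsm, hsm, h33]
      ext w
      simp only [MonoidHom.mul_apply, Units.val_mul]
      ring
    have h5 : ν ∈ MulAction.stabilizer (Subgroup.normalizer (P : Set G)) (ψ * ν • ψ * ν • ν • ψ) := h4
    rw [stab_eq hF hne, Subgroup.mem_subgroupOf] at h5
    exact hnC h5
  · intro h
    exact h1 (MulAction.injective ν h).symm
  · have hsub : ({ψ, ν • ψ, ν • ν • ψ} : Set (P →* ℂˣ)) ⊆ {φ | Rel P ψ φ} := by
      rintro x (rfl | rfl | rfl)
      · exact rel_refl _ _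
      · exact (rel_iff P ψ _).2 ⟨ν, rfl⟩
      · exact (rel_iff P ψ _).2 ⟨ν * ν, mul_smul _ _ _⟩
    haveI := finite_lin hF.1
    refine (Set.eq_of_subset_of_ncard_le hsub ?_ (Set.toFinite _)).symm
    rw [Set.ncard_eq_three.2 ⟨ψ, ν • ψ, ν • ν • ψ, h1.symm, h2.symm, fun h => h1 (MulAction.injective ν h).symm, rfl⟩]
    have := card_orbit hF hψ
    rw [hm] at this
    rw [← Nat.card_coe_set_eq]
    exact this.le

/-- the squares of the orbit sums at involutions -/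
theorem orbit_sum_sq {P : Subgroup G} (hF : FrobHyp P)
    (hm : (Subgroup.centralizer (P : Set G)).relIndex (Subgroup.normalizer (P : Set G)) = 3) {ψ : P →* ℂˣ} (hψ : ψ ≠ 1)
    {t : P} (ht : t * t = 1) :
    (∑ᶠ ψ' ∈ {ψ' : P →* ℂˣ | Rel P ψ ψ'}, (ψ' t : ℂ)) ^ 2 = 3 + 2 * ∑ᶠ ψ' ∈ {ψ' : P →* ℂˣ | Rel P ψ ψ'}, (ψ' t : ℂ) := by
  classical
  obtain ⟨ψ', ψ'', hprod, h1, h2, h3, hset⟩ := orbit_three hF hm hψ
  have hsum : ∑ᶠ φ ∈ {φ : P →* ℂˣ | Rel P ψ φ}, (φ t : ℂ) = (ψ t : ℂ) + (ψ' t : ℂ) + (ψ'' t : ℂ) := by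
    rw [hset]
    rw [finsum_mem_insert _ (by simp [h1, h2]) (Set.toFinite _), finsum_mem_insert _ (by simp [h3]) (Set.toFinite _),
      finsum_mem_singleton]
    ring
  rw [hsum]
  have hsq : ∀ φ : P →* ℂˣ, (φ t : ℂ) * (φ t : ℂ) = 1 := by
    intro φ
    rw [← Units.val_mul, ← map_mul, ht, map_one, Units.val_one]
  have hp : (ψ t : ℂ) * (ψ' t : ℂ) * (ψ'' t : ℂ) = 1 := by
    rw [← Units.val_mul, ← Units.val_mul, ← MonoidHom.mul_apply, ← MonoidHom.mul_apply, hprod]; rfl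
  have e1 := hsq ψ
  have e2 := hsq ψ'
  have e3 := hsq ψ''
  have f1 : (ψ t : ℂ) * (ψ' t : ℂ) = (ψ'' t : ℂ) := by
    linear_combination (ψ'' t : ℂ) * hp - (ψ t : ℂ) * (ψ' t : ℂ) * e3
  have f2 : (ψ t : ℂ) * (ψ'' t : ℂ) = (ψ' t : ℂ) := by
    linear_combination (ψ' t : ℂ) * hp - (ψ t : ℂ) * (ψ'' t : ℂ) * e2
  have f3 : (ψ' t : ℂ) * (ψ'' t : ℂ) = (ψ t : ℂ) := by
    linear_combination (ψ t : ℂ) * hp - (ψ' t : ℂ) * (ψ'' t : ℂ) * e1
  linear_combination e1 + e2 + e3 + 2 * f1 + 2 * f2 + 2 * f3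

end Three

/-! ### sections containing no product of two conjugates of an involution -/

section Sec
variable {G : Type u} [Group G] [Finite G] {p : ℕ} [hp : Fact p.Prime]

theorem burnside (P : Sylow p G) (hF : FrobHyp (P : Subgroup G)) {x y g : G} (hx : x ∈ (P : Subgroup G))
    (hy : y ∈ (P : Subgroup G)) (h : g * x * g⁻¹ = y) :
    ∃ n ∈ Subgroup.normalizer ((P : Subgroup G) : Set G), n * x * n⁻¹ = y := by
  haveI : IsMulCommutative (P : Subgroup G) := ⟨⟨hF.1⟩⟩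
  obtain ⟨n, hn, h1⟩ := P.conj_eq_normalizer_conj_of_mem x g⁻¹ hx (by rw [inv_inv, h]; exact hy)
  refine ⟨n⁻¹, Subgroup.inv_mem _ hn, ?_⟩
  rw [inv_inv] at h1
  rw [inv_inv, ← h1, h]

theorem section_of_sq_ne (P : Sylow p G) (hF : FrobHyp (P : Subgroup G))
    (hm : (Subgroup.centralizer ((P : Subgroup G) : Set G)).relIndex (Subgroup.normalizer ((P : Subgroup G) : Set G)) = 3)
    {y t : G} (hy : y ∈ (P : Subgroup G)) (hyy : y * y ≠ 1) (ht : orderOf t = 2) :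
    ∀ z z' : G, IsPPart p z z' → IsConj z' y → ∀ s s' : G, IsConj t s → IsConj t s' → s * s' ≠ z := by
  intro z z' hz hzu s s' hs hs' hss
  have hs2 := (CfsgLib.Inv19.orderOf_of_isConj hs).trans ht
  have hs2' := (CfsgLib.Inv19.orderOf_of_isConj hs').trans ht
  have hinvz : s * z * s⁻¹ = z⁻¹ := by
    rw [← hss]; exact CfsgLib.Invol.left_inverts hs2 hs2'
  obtain ⟨b, hb⟩ : ∃ b : ℤ, z ^ b = z' := by
    obtain ⟨b, hb, -⟩ := CfsgLib.BlockOrth.exists_zpow_pparts hz hz (k := 1) (by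
      have := hp.out.one_lt
      intro h
      have := Int.le_of_dvd one_pos h
      omega)
    exact ⟨b, by simpa using hb⟩
  have hinvz' : s * z' * s⁻¹ = z'⁻¹ := by
    rw [← hb]; exact CfsgLib.Invol.inverts_zpow hinvz b
  obtain ⟨g, hg⟩ := isConj_iff.1 hzu
  have h1 : (g * s * g⁻¹) * y * (g * s * g⁻¹)⁻¹ = y⁻¹ := by
    rw [← hg]
    calc (g * s * g⁻¹) * (g * z' * g⁻¹) * (g * s * g⁻¹)⁻¹ = g * (s * z' * s⁻¹) * g⁻¹ := by group
      _ = (g * z' * g⁻¹)⁻¹ := by rw [hinvz']; group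
  obtain ⟨n, hn, h2⟩ := burnside P hF hy (Subgroup.inv_mem _ hy) h1
  exact not_inverted hF hm hy hyy hn h2

/-- the conjugates of `t` in `P` -/
theorem conj_in (P : Sylow p G) (hF : FrobHyp (P : Subgroup G)) {n : G}
    (hn : n ∈ Subgroup.normalizer ((P : Subgroup G) : Set G))
    (h3 : ∀ x ∈ Subgroup.normalizer ((P : Subgroup G) : Set G), x ^ 3 ∈ Subgroup.centralizer ((P : Subgroup G) : Set G))
    (hgen : ∀ x ∈ Subgroup.normalizer ((P : Subgroup G) : Set G), ∃ k : ℕ, ∃ c ∈ Subgroup.centralizer ((P : Subgroup G) : Set G), x = n ^ k * c)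
    {t u : G} (ht : t ∈ (P : Subgroup G)) (hu : u ∈ (P : Subgroup G)) (h : IsConj t u) :
    u = t ∨ u = n * t * n⁻¹ ∨ u = n * (n * t * n⁻¹) * n⁻¹ := by
  obtain ⟨g, hg⟩ := isConj_iff.1 h
  obtain ⟨x, hx, hxt⟩ := burnside P hF ht hu hg
  obtain ⟨k, c, hc, rfl⟩ := hgen x hx
  have hcent : ∀ c ∈ Subgroup.centralizer ((P : Subgroup G) : Set G), c * t * c⁻¹ = t := by
    intro c hc
    rw [Subgroup.mem_centralizer_iff] at hc
    rw [← hc t ht, mul_inv_cancel_right]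
  have h4 : u = n ^ k * t * (n ^ k)⁻¹ := by
    rw [← hxt]
    calc n ^ k * c * t * (n ^ k * c)⁻¹ = n ^ k * (c * t * c⁻¹) * (n ^ k)⁻¹ := by group
      _ = _ := by rw [hcent c hc]
  have h5 : ∀ j : ℕ, n ^ (3 * j) ∈ Subgroup.centralizer ((P : Subgroup G) : Set G) := by
    intro j; rw [pow_mul]; exact Subgroup.pow_mem _ (h3 n hn) j
  have h6 : u = n ^ (k % 3) * t * (n ^ (k % 3))⁻¹ := by
    rw [h4]
    conv_lhs => rw [← Nat.mod_add_div k 3, pow_add]
    calc n ^ (k % 3) * n ^ (3 * (k / 3)) * t * (n ^ (k % 3) * n ^ (3 * (k / 3)))⁻¹ =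
        n ^ (k % 3) * (n ^ (3 * (k / 3)) * t * (n ^ (3 * (k / 3)))⁻¹) * (n ^ (k % 3))⁻¹ := by group
      _ = _ := by rw [hcent _ (h5 _)]
  have h7 : k % 3 < 3 := Nat.mod_lt _ (by norm_num)
  have h8 : k % 3 = 0 ∨ k % 3 = 1 ∨ k % 3 = 2 := by omega
  rcases h8 with h8 | h8 | h8
  · left; rw [h6, h8]; simp
  · right; left; rw [h6, h8, pow_one]
  · right; right; rw [h6, h8, pow_two]; group

theorem prod_three {P : Subgroup G} (hF : FrobHyp P) {n : G}
    (hn : n ∈ Subgroup.normalizer (P : Set G)) (hnC : n ∉ Subgroup.centralizer (P : Set G))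
    (h3 : ∀ x ∈ Subgroup.normalizer (P : Set G), x ^ 3 ∈ Subgroup.centralizer (P : Set G))
    {t : G} (ht : t ∈ P) : t * (n * t * n⁻¹) * (n * (n * t * n⁻¹) * n⁻¹) = 1 := by
  have h1 : n * t * n⁻¹ ∈ P := (Subgroup.mem_normalizer_iff.1 hn t).1 ht
  have h2 : n * (n * t * n⁻¹) * n⁻¹ ∈ P := (Subgroup.mem_normalizer_iff.1 hn _).1 h1
  set t' := n * t * n⁻¹ with ht'
  set t'' := n * t' * n⁻¹ with ht''
  have h4 : n * t'' * n⁻¹ = t := by
    have h5 : n * t'' * n⁻¹ = n ^ 3 * t * (n ^ 3)⁻¹ := by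
      rw [ht'', ht', pow_succ, pow_two]; group
    rw [h5]
    have h6 := h3 n hn
    rw [Subgroup.mem_centralizer_iff] at h6
    rw [← h6 t ht, mul_inv_cancel_right]
  by_contra hne
  have hw : t * t' * t'' ∈ P := Subgroup.mul_mem _ (Subgroup.mul_mem _ ht h1) h2
  have h5 : n * (t * t' * t'') * n⁻¹ = t * t' * t'' := by
    calc n * (t * t' * t'') * n⁻¹ = (n * t * n⁻¹) * (n * t' * n⁻¹) * (n * t'' * n⁻¹) := by group
      _ = t' * t'' * t := by rw [h4]
      _ = t * t' * t'' := by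
        have h6 := congrArg Subtype.val (hF.1 (⟨t' * t'', Subgroup.mul_mem _ h1 h2⟩ : P) ⟨t, ht⟩)
        simp only [Subgroup.coe_mul] at h6
        rw [h6, ← mul_assoc]
  have h6 : n ∈ Subgroup.centralizer ({t * t' * t''} : Set G) := by
    rw [Subgroup.mem_centralizer_singleton_iff]
    rw [mul_inv_eq_iff_eq_mul] at h5
    exact h5
  apply hnC
  rw [← hF.2 _ hw hne]
  exact Subgroup.mem_inf.2 ⟨h6, hn⟩

/-- in a group with a normal complement, elements of `P` congruent modulo the complement are equal -/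
theorem section_elem [h2 : Fact (Nat.Prime 2)] (P : Sylow 2 G) (hF : FrobHyp (P : Subgroup G))
    (hel : ∀ y ∈ (P : Subgroup G), y * y = 1) {n : G}
    (hn : n ∈ Subgroup.normalizer ((P : Subgroup G) : Set G)) (hnC : n ∉ Subgroup.centralizer ((P : Subgroup G) : Set G))
    (h3 : ∀ x ∈ Subgroup.normalizer ((P : Subgroup G) : Set G), x ^ 3 ∈ Subgroup.centralizer ((P : Subgroup G) : Set G))
    (hgen : ∀ x ∈ Subgroup.normalizer ((P : Subgroup G) : Set G), ∃ k : ℕ, ∃ c ∈ Subgroup.centralizer ((P : Subgroup G) : Set G), x = n ^ k * c)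
    {t y : G} (ht : t ∈ (P : Subgroup G)) (ht2 : orderOf t = 2) (hy : y ∈ (P : Subgroup G)) (hy1 : y ≠ 1)
    (hyt : y ≠ t) (hyt' : y ≠ n * t * n⁻¹) (hyt'' : y ≠ n * (n * t * n⁻¹) * n⁻¹) :
    ∀ z z' : G, IsPPart 2 z z' → IsConj z' y → ∀ s s' : G, IsConj t s → IsConj t s' → s * s' ≠ z := by
  classical
  intro z z' hz hzu s s' hs hs' hss
  have hab : IsMulCommutative (P : Subgroup G) := ⟨⟨hF.1⟩⟩
  obtain ⟨g, hg⟩ := isConj_iff.1 hzu
  -- conjugate everything by g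
  obtain ⟨c, hc, hcomm, -, hcr⟩ := hz
  set s1 := g * s * g⁻¹ with hs1
  set s2 := g * s' * g⁻¹ with hs2
  set c1 := g * c * g⁻¹ with hc1
  have hts1 : IsConj t s1 := hs.trans (isConj_iff.2 ⟨g, rfl⟩)
  have hts2 : IsConj t s2 := hs'.trans (isConj_iff.2 ⟨g, rfl⟩)
  have hprod : s1 * s2 = y * c1 := by
    rw [← hg, hs1, hs2, hc1]
    calc g * s * g⁻¹ * (g * s' * g⁻¹) = g * (s * s') * g⁻¹ := by group
      _ = g * (z' * c) * g⁻¹ := by rw [hss, hc]
      _ = _ := by group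
  have hcomm1 : y * c1 = c1 * y := by
    rw [← hg, hc1]
    calc g * z' * g⁻¹ * (g * c * g⁻¹) = g * (z' * c) * g⁻¹ := by group
      _ = g * (c * z') * g⁻¹ := by rw [hcomm.eq]
      _ = _ := by group
  have hcr1 : ¬ 2 ∣ orderOf c1 := by rwa [hc1, CfsgLib.Invol.orderOf_conj]
  have hord1 := (CfsgLib.Inv19.orderOf_of_isConj hts1).trans ht2
  have hord2 := (CfsgLib.Inv19.orderOf_of_isConj hts2).trans ht2
  have hppart : IsPPart 2 (y * c1) y := by
    refine ⟨c1, rfl, hcomm1, ?_, hcr1⟩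
    obtain ⟨k, hk⟩ := IsPGroup.iff_orderOf.1 P.isPGroup' (⟨y, hy⟩ : (P : Subgroup G))
    exact ⟨k, by rw [← hk, Subgroup.orderOf_mk]⟩
  have hinv : s1 * (y * c1) * s1⁻¹ = (y * c1)⁻¹ := by
    rw [← hprod]; exact CfsgLib.Invol.left_inverts hord1 hord2
  obtain ⟨b, hb⟩ : ∃ b : ℤ, (y * c1) ^ b = y := by
    obtain ⟨b, hb, -⟩ := CfsgLib.BlockOrth.exists_zpow_pparts hppart hppart (k := 1) (by decide)
    exact ⟨b, by simpa using hb⟩
  have hinvy : s1 * y * s1⁻¹ = y⁻¹ := by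
    have := CfsgLib.Invol.inverts_zpow hinv b
    rwa [hb] at this
  have hyinv : y⁻¹ = y := inv_eq_of_mul_eq_one_left (hel y hy)
  rw [hyinv] at hinvy
  have hs1H : s1 ∈ Subgroup.centralizer ({y} : Set G) := by
    rw [Subgroup.mem_centralizer_singleton_iff]
    rw [mul_inv_eq_iff_eq_mul] at hinvy
    exact hinvy
  have hcH : c1 ∈ Subgroup.centralizer ({y} : Set G) := by
    rw [Subgroup.mem_centralizer_singleton_iff]; exact hcomm1.symm
  have hyH : y ∈ Subgroup.centralizer ({y} : Set G) := by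
    rw [Subgroup.mem_centralizer_singleton_iff]
  have hs2H : s2 ∈ Subgroup.centralizer ({y} : Set G) := by
    have : s2 = s1⁻¹ * (y * c1) := by rw [← hprod]; group
    rw [this]
    exact Subgroup.mul_mem _ (Subgroup.inv_mem _ hs1H) (Subgroup.mul_mem _ hyH hcH)
  obtain ⟨K, hKn, hK, hKcard, hQ⟩ := centralizer_nilp P hab hy (hF.2 y hy hy1).le
  have hPC : (P : Subgroup G) ≤ Subgroup.centralizer ({y} : Set G) := by
    intro x hx
    rw [Subgroup.mem_centralizer_singleton_iff]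
    exact congrArg Subtype.val (hF.1 (⟨x, hx⟩ : (P : Subgroup G)) ⟨y, hy⟩)
  -- the map P → H / K
  let φ : (P : Subgroup G) →* (Subgroup.centralizer ({y} : Set G) ⧸ K) :=
    (QuotientGroup.mk' K).comp (Subgroup.inclusion hPC)
  have hφinj : Function.Injective φ := by
    rw [injective_iff_map_eq_one]
    intro x hx
    have h4 : (Subgroup.inclusion hPC x) ∈ K := (QuotientGroup.eq_one_iff _).1 hx
    have h5 : orderOf (Subgroup.inclusion hPC x) ∣ Nat.card K := by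
      have := orderOf_dvd_natCard (⟨_, h4⟩ : K)
      rwa [Subgroup.orderOf_mk] at this
    obtain ⟨k, hk⟩ := IsPGroup.iff_orderOf.1 P.isPGroup' x
    have h6 : orderOf (Subgroup.inclusion hPC x) = orderOf x :=
      orderOf_injective _ (Subgroup.inclusion_injective hPC) x
    rw [h6, hk] at h5
    rcases Nat.eq_zero_or_pos k with h | h
    · rwa [h, pow_zero, orderOf_eq_one_iff] at hk
    · exact absurd ((dvd_pow_self 2 h.ne').trans h5) hK
  have hφbij : Function.Bijective φ := by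
    haveI : Finite (Subgroup.centralizer ({y} : Set G) ⧸ K) := inferInstance
    exact (Nat.bijective_iff_injective_and_card φ).2 ⟨hφinj, hKcard.symm⟩
  have hQcomm : ∀ a b : (Subgroup.centralizer ({y} : Set G) ⧸ K), a * b = b * a := by
    intro a b
    obtain ⟨a, rfl⟩ := hφbij.2 a
    obtain ⟨b, rfl⟩ := hφbij.2 b
    rw [← map_mul, hF.1 a b, map_mul]
  -- each involution of H conjugate to t is congruent to a conjugate in P
  have hred : ∀ s : G, IsConj t s → ∀ hsH : s ∈ Subgroup.centralizer ({y} : Set G),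
      ∃ u : (P : Subgroup G), IsConj t (u : G) ∧ φ u = QuotientGroup.mk' K ⟨s, hsH⟩ := by
    intro s hs hsH
    have hords := (CfsgLib.Inv19.orderOf_of_isConj hs).trans ht2
    let PH : Sylow 2 (Subgroup.centralizer ({y} : Set G)) := P.subtype hPC
    have h4 : IsPGroup 2 (Subgroup.zpowers (⟨s, hsH⟩ : Subgroup.centralizer ({y} : Set G))) := by
      apply IsPGroup.of_card (n := 1)
      rw [Nat.card_zpowers, Subgroup.orderOf_mk, hords, pow_one]
    obtain ⟨Q, hQ⟩ := h4.exists_le_sylow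
    obtain ⟨h, hh⟩ := MulAction.exists_smul_eq (Subgroup.centralizer ({y} : Set G)) Q PH
    set σ : Subgroup.centralizer ({y} : Set G) := ⟨s, hsH⟩ with hσ
    have h6 : σ ∈ (Q : Subgroup (Subgroup.centralizer ({y} : Set G))) := hQ (Subgroup.mem_zpowers _)
    have h5 : h * σ * h⁻¹ ∈ (PH : Subgroup (Subgroup.centralizer ({y} : Set G))) := by
      rw [← hh, Sylow.coe_subgroup_smul]
      have h7 := Subgroup.smul_mem_pointwise_smul σ (MulAut.conj h) (Q : Subgroup (Subgroup.centralizer ({y} : Set G))) h6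
      rw [MulAut.smul_def, MulAut.conj_apply] at h7
      exact h7
    have h9 : ((h * σ * h⁻¹ : Subgroup.centralizer ({y} : Set G)) : G) ∈ (P : Subgroup G) := h5
    refine ⟨⟨_, h9⟩, ?_, ?_⟩
    · exact hs.trans (isConj_iff.2 ⟨(h : G), rfl⟩)
    · have h8 : φ ⟨_, h9⟩ = QuotientGroup.mk' K (h * σ * h⁻¹) := rfl
      rw [h8, map_mul, map_mul, hQcomm (QuotientGroup.mk' K h), mul_assoc, ← map_mul, mul_inv_cancel, map_one, mul_one]
  obtain ⟨u, hu, hu'⟩ := hred s1 hts1 hs1H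
  obtain ⟨v, hv, hv'⟩ := hred s2 hts2 hs2H
  have hcK : (⟨c1, hcH⟩ : Subgroup.centralizer ({y} : Set G)) ∈ K := by
    rw [← QuotientGroup.eq_one_iff]
    obtain ⟨k, hk⟩ := IsPGroup.iff_orderOf.1 hQ ((⟨c1, hcH⟩ : Subgroup.centralizer ({y} : Set G)) : _ ⧸ K)
    have h4 : orderOf (((⟨c1, hcH⟩ : Subgroup.centralizer ({y} : Set G))) : _ ⧸ K) ∣ orderOf (⟨c1, hcH⟩ : Subgroup.centralizer ({y} : Set G)) :=
      orderOf_map_dvd (QuotientGroup.mk' K) _
    rcases Nat.eq_zero_or_pos k with h | h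
    · rw [h, pow_zero, orderOf_eq_one_iff] at hk; exact hk
    · rw [Subgroup.orderOf_mk] at h4
      exact absurd ((dvd_pow_self 2 h.ne').trans (hk ▸ h4)) hcr1
  have huv : u * v = ⟨y, hy⟩ := by
    apply hφinj
    rw [map_mul, hu', hv', ← map_mul]
    have h4 : (⟨s1, hs1H⟩ : Subgroup.centralizer ({y} : Set G)) * ⟨s2, hs2H⟩ = ⟨y, hyH⟩ * ⟨c1, hcH⟩ := Subtype.ext hprod
    rw [h4, map_mul]
    have h5 : QuotientGroup.mk' K (⟨c1, hcH⟩ : Subgroup.centralizer ({y} : Set G)) = 1 := (QuotientGroup.eq_one_iff _).2 hcK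
    rw [h5, mul_one]
    rfl
  have huv' : (u : G) * v = y := congrArg Subtype.val huv
  have hpr := prod_three hF hn hnC h3 ht
  have ht'P : n * t * n⁻¹ ∈ (P : Subgroup G) := (Subgroup.mem_normalizer_iff.1 hn t).1 ht
  have ht''P : n * (n * t * n⁻¹) * n⁻¹ ∈ (P : Subgroup G) := (Subgroup.mem_normalizer_iff.1 hn _).1 ht'P
  have hu1 := conj_in P hF hn h3 hgen ht u.2 hu
  have hv1 := conj_in P hF hn h3 hgen ht v.2 hv
  set t' := n * t * n⁻¹ with ht'
  set t'' := n * t' * n⁻¹ with ht''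
  have e0 := hel t ht
  have e1 := hel t' ht'P
  have e2 := hel t'' ht''P
  have hcm : ∀ a ∈ (P : Subgroup G), ∀ b ∈ (P : Subgroup G), a * b = b * a := fun a ha b hb =>
    congrArg Subtype.val (hF.1 (⟨a, ha⟩ : (P : Subgroup G)) ⟨b, hb⟩)
  have f1 : t * t' = t'' := by
    calc t * t' = t * t' * (t'' * t'') := by rw [e2, mul_one]
      _ = (t * t' * t'') * t'' := by group
      _ = t'' := by rw [hpr, one_mul]
  have f2 : t * t'' = t' := by
    calc t * t'' = t * (t * t') := by rw [f1]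
      _ = t * t * t' := by group
      _ = t' := by rw [e0, one_mul]
  have f3 : t' * t'' = t := by
    calc t' * t'' = t' * (t' * t) := by rw [hcm t' ht'P t ht, f1]
      _ = t' * t' * t := by group
      _ = t := by rw [e1, one_mul]
  rcases hu1 with h | h | h <;> rcases hv1 with h' | h' | h' <;> rw [h, h'] at huv'
  · exact hy1 (huv'.symm.trans e0)
  · exact hyt'' (huv'.symm.trans f1)
  · exact hyt' (huv'.symm.trans f2)
  · exact hyt'' (huv'.symm.trans ((hcm _ ht'P _ ht).trans f1))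
  · exact hy1 (huv'.symm.trans e1)
  · exact hyt (huv'.symm.trans f3)
  · exact hyt' (huv'.symm.trans ((hcm _ ht''P _ ht).trans f2))
  · exact hyt (huv'.symm.trans ((hcm _ ht''P _ ht'P).trans f3))
  · exact hy1 (huv'.symm.trans e2)

end Sec

/-! ### the involution part -/

section Final
variable {G : Type u} [Group G] [Finite G] {p : ℕ} [hp : Fact p.Prime] {M : Ideal AlgInt}

theorem two_arith {q f2 f3 f4 : ℕ} {c2 c3 δ u2 u3 : ℤ} (hq : 16 ≤ q) (h2 : c2 = 1 ∨ c2 = -1) (h3 : c3 = 1 ∨ c3 = -1)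
    (hδ : δ = 1 ∨ δ = -1) (hf2 : (f2 : ℤ) = c2 + q * u2) (hf3 : (f3 : ℤ) = c3 + q * u3) (hp2 : 0 < f2) (hp3 : 0 < f3)
    (hp4 : 0 < f4) (hn2 : c2 = 1 → f2 ≠ 1) (hn3 : c3 = 1 → f3 ≠ 1)
    (hrel : (1 : ℤ) + c2 * f2 + c3 * f3 - δ * f4 = 0)
    (h : (1 : ℝ) + c2 / f2 + c3 / f3 - 9 * δ / f4 = 0) : False := by
  have hlow : ∀ (f : ℕ) (c u : ℤ), (c = 1 ∨ c = -1) → (f : ℤ) = c + q * u → 0 < f → (c = 1 → f ≠ 1) → 15 ≤ f := by
    intro f c u hc hf hpos hne
    have hq' : (16 : ℤ) ≤ q := by exact_mod_cast hq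
    have hpos' : (0 : ℤ) < f := by exact_mod_cast hpos
    have hu : 1 ≤ u := by
      by_contra hcon
      have h4 : u ≤ 0 := by omega
      have h5 : (q : ℤ) * u ≤ 0 := mul_nonpos_of_nonneg_of_nonpos (by omega) h4
      rcases hc with rfl | rfl
      · have h6 : f = 1 := by omega
        exact hne rfl h6
      · omega
    have h5 : (16 : ℤ) ≤ q * u := by nlinarith
    have : (15 : ℤ) ≤ f := by rcases hc with rfl | rfl <;> omega
    exact_mod_cast this
  have hl2 := hlow f2 c2 u2 h2 hf2 hp2 hn2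
  have hl3 := hlow f3 c3 u3 h3 hf3 hp3 hn3
  have hp2' : (0 : ℝ) < f2 := by exact_mod_cast hp2
  have hp3' : (0 : ℝ) < f3 := by exact_mod_cast hp3
  have hp4' : (0 : ℝ) < f4 := by exact_mod_cast hp4
  have hid : (f4 : ℤ) * (f2 * f3 + c2 * f3 + c3 * f2) = 9 * δ * (f2 * f3) := by
    have h4 : (f4 : ℝ) * (f2 * f3 + c2 * f3 + c3 * f2) = 9 * δ * (f2 * f3) := by
      field_simp at h
      linarith
    exact_mod_cast h4
  have hl2' : (15 : ℤ) ≤ f2 := by exact_mod_cast hl2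
  have hl3' : (15 : ℤ) ≤ f3 := by exact_mod_cast hl3
  have hp4z : (0 : ℤ) < f4 := by exact_mod_cast hp4
  have hq' : (16 : ℤ) ≤ q := by exact_mod_cast hq
  have hA1 : (f2 : ℤ) * f3 - f2 - f3 ≤ f2 * f3 + c2 * f3 + c3 * f2 := by
    rcases h2 with rfl | rfl <;> rcases h3 with rfl | rfl <;> linarith
  have hA2 : (f2 : ℤ) * f3 + c2 * f3 + c3 * f2 ≤ f2 * f3 + f2 + f3 := by
    rcases h2 with rfl | rfl <;> rcases h3 with rfl | rfl <;> linarith
  have hm1 : 15 * (f3 : ℤ) ≤ f2 * f3 := by nlinarith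
  have hm2 : 15 * (f2 : ℤ) ≤ f2 * f3 := by nlinarith
  have hApos : 0 < (f2 : ℤ) * f3 + c2 * f3 + c3 * f2 := by linarith
  have hδ1 : δ = 1 := by
    rcases hδ with h | h
    · exact h
    · exfalso
      rw [h] at hid
      have h5 := mul_pos hp4z hApos
      nlinarith
  subst hδ1
  have hf4 : (f4 : ℤ) = 3 + q * (c2 * u2 + c3 * u3) := by
    have e2 : c2 * c2 = 1 := by rcases h2 with rfl | rfl <;> rfl
    have e3 : c3 * c3 = 1 := by rcases h3 with rfl | rfl <;> rfl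
    linear_combination -hrel + c2 * hf2 + c3 * hf3 + e2 + e3
  set w := c2 * u2 + c3 * u3 with hw
  have hw0 : 0 ≤ w := by
    by_contra hcon
    have h5 : w ≤ -1 := by omega
    nlinarith
  rcases Nat.lt_or_ge 0 w.toNat with hpos | hzero
  · have hw1 : 1 ≤ w := by omega
    have h5 : (19 : ℤ) ≤ f4 := by nlinarith
    have h6 : 19 * ((f2 : ℤ) * f3 - f2 - f3) ≤ f4 * (f2 * f3 + c2 * f3 + c3 * f2) := by
      have h7 : (0 : ℤ) ≤ f2 * f3 - f2 - f3 := by linarith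
      nlinarith
    rw [hid] at h6
    linarith
  · have hw1 : w = 0 := by omega
    rw [hw1] at hf4
    have h5 : (f4 : ℤ) = 3 := by linarith
    rw [h5] at hid
    linarith

theorem two_power {P : Sylow 2 G} (h1 : 3 + 1 < Nat.card P) (h3 : 3 ∣ Nat.card P - 1) : 16 ≤ Nat.card P := by
  haveI : Fact (Nat.Prime 2) := ⟨Nat.prime_two⟩
  obtain ⟨k, hk⟩ := IsPGroup.iff_card.1 P.isPGroup'
  rw [hk] at h1 h3 ⊢
  have h4 : 4 ≤ k := by
    by_contra hcon
    push Not at hcon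
    interval_cases k <;> omega
  calc 16 = 2 ^ 4 := by norm_num
    _ ≤ 2 ^ k := Nat.pow_le_pow_right (by norm_num) h4

open Classical in
theorem inv_part (hM : IsPModular p M) (P : Sylow p G) (hF : FrobHyp (P : Subgroup G))
    (hm : (Subgroup.centralizer ((P : Subgroup G) : Set G)).relIndex (Subgroup.normalizer ((P : Subgroup G) : Set G)) = 3)
    (hm2 : 3 + 1 < Nat.card P) {ζ : ((P : Subgroup G) →* ℂˣ) → IrrCharacter G} {c : IrrCharacter G → ℤ} {δ : ℤ}
    (hR : Raw M (P : Subgroup G) ζ c δ 0) (hX1 : ∀ χ ∈ setX M ζ, c χ = 1 ∨ c χ = -1) (hX3 : Nat.card (setX M ζ) = 3)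
    {t : G} (ht : orderOf t = 2) (hnp : ∀ K : Subgroup G, K.Normal → t ∈ K → K = ⊤) :
    ∃ χ2 χ3 : IrrCharacter G, χ2 ≠ χ3 ∧ χ2 ≠ (⟨fun _ => 1, one_irr⟩ : IrrCharacter G) ∧
      χ3 ≠ (⟨fun _ => 1, one_irr⟩ : IrrCharacter G) ∧
      setX M ζ = {(⟨fun _ => 1, one_irr⟩ : IrrCharacter G), χ2, χ3} ∧
      ∀ η ∈ setY ζ, ((if c χ2 = -1 then 1 else 0) + (if c χ3 = -1 then 1 else 0) + (if -δ = -1 then 1 else 0) = 2) ∧
        IsSquare (charDegree (χ2 : G → ℂ) * charDegree (χ3 : G → ℂ) * charDegree (η : G → ℂ)) := by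
  letI := Fintype.ofFinite G
  set e : IrrCharacter G := ⟨fun _ => 1, one_irr⟩ with he
  have hP1 : Nat.card P ≠ 1 := by omega
  have hψ := exists_ne_one hF.1 hP1
  have hemem := hR.one_mem hM hF hm hm2
  have hce := hR.c_one hM hF hm hm2 hψ
  rw [← he] at hemem hce
  obtain ⟨χ2, χ3, h23, hset⟩ : ∃ χ2 χ3, χ2 ≠ χ3 ∧ setX M ζ \ {e} = {χ2, χ3} := by
    apply Set.ncard_eq_two.1
    rw [Set.ncard_sdiff_singleton_of_mem hemem, ← Nat.card_coe_set_eq, hX3]
  have h2mem : χ2 ∈ setX M ζ \ {e} := by rw [hset]; exact Or.inl rfl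
  have h3mem : χ3 ∈ setX M ζ \ {e} := by rw [hset]; exact Or.inr rfl
  have h2e : χ2 ≠ e := h2mem.2
  have h3e : χ3 ≠ e := h3mem.2
  have hX : setX M ζ = {e, χ2, χ3} := by
    rw [← hset, Set.insert_sdiff_singleton, Set.insert_eq_of_mem hemem]
  refine ⟨χ2, χ3, h23, h2e, h3e, hX, ?_⟩
  intro η hη
  have hηe : η ≠ e := by
    rintro rfl
    exact Set.disjoint_left.1 disj hemem hη
  -- sums
  have sumX : ∀ F : IrrCharacter G → ℂ, ∑ᶠ χ ∈ setX M ζ, F χ = F e + (F χ2 + F χ3) := by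
    intro F
    rw [hX, finsum_mem_insert _ (by simp [h2e.symm, h3e.symm]) (Set.toFinite _),
      finsum_mem_insert _ (by simp [h23]) (Set.toFinite _), finsum_mem_singleton]
  have sumB : ∀ F : IrrCharacter G → ℂ, ∑ᶠ χ ∈ principalBlock M G, F χ = (F e + (F χ2 + F χ3)) + ∑ᶠ χ ∈ setY ζ, F χ := by
    intro F
    rw [hR.union, finsum_mem_union disj (Set.toFinite _) (Set.toFinite _), sumX]
  have h1reg : ¬ p ∣ orderOf (1 : G) := by rw [orderOf_one, Nat.dvd_one]; exact hp.out.ne_one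
  have hev : ∀ g, (e : G → ℂ) g = 1 := fun g => rfl
  have rel : ∀ g : G, ¬ p ∣ orderOf g → -(δ : ℂ) * (η : G → ℂ) g + (1 + ((c χ2 : ℂ) * (χ2 : G → ℂ) g + (c χ3 : ℂ) * (χ3 : G → ℂ) g)) = 0 := by
    intro g hg
    have h4 := hR.relation hM P.isPGroup' hη hg
    rw [sumX, hce, hev] at h4
    rw [← h4]; push_cast; ring
  have hdegY : ∀ η' ∈ setY ζ, (η' : G → ℂ) 1 = (η : G → ℂ) 1 := fun η' hη' => hR.reg_eq hM P.isPGroup' hη' hη h1reg
  have hη1 : (η : G → ℂ) 1 ≠ 0 := irr_one_ne_zero η.2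
  -- values on P
  have hXval : ∀ χ ∈ setX M ζ, ∀ y ∈ (P : Subgroup G), y ≠ 1 → (χ : G → ℂ) y = (c χ : ℂ) := by
    intro χ hχ y hy hy1
    exact hR.value_X hF.1 hχ (y := ⟨y, hy⟩) (fun h => hy1 (congrArg Subtype.val h))
  have hpord : ∀ y ∈ (P : Subgroup G), ∃ k : ℕ, orderOf y = p ^ k := by
    intro y hy
    obtain ⟨k, hk⟩ := IsPGroup.iff_orderOf.1 P.isPGroup' (⟨y, hy⟩ : (P : Subgroup G))
    exact ⟨k, by rw [← hk, Subgroup.orderOf_mk]⟩
  have hpdvd : ∀ y ∈ (P : Subgroup G), y ≠ 1 → p ∣ orderOf y := by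
    intro y hy hy1
    obtain ⟨k, hk⟩ := hpord y hy
    rw [hk]
    apply dvd_pow_self
    rintro rfl
    rw [pow_zero, orderOf_eq_one_iff] at hk
    exact hy1 hk
  have sumYc : ∀ y ∈ (P : Subgroup G), y ≠ 1 → ∑ᶠ χ ∈ setY ζ, conj ((χ : G → ℂ) y) = -(δ : ℂ) := by
    intro y hy hy1
    have h4 := CfsgLib.BlockOrth.weak_block_orth hM (principal_isBlock (G := G) M) h1reg (hpdvd y hy hy1)
    rw [sumB, hXval χ2 h2mem.1 y hy hy1, hXval χ3 h3mem.1 y hy hy1, hev, map_one, map_intCast, map_intCast] at h4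
    have h5 : ∑ᶠ χ ∈ setY ζ, (χ : G → ℂ) 1 * conj ((χ : G → ℂ) y) = (η : G → ℂ) 1 * ∑ᶠ χ ∈ setY ζ, conj ((χ : G → ℂ) y) := by
      rw [mul_finsum_mem]
      exact finsum_mem_congr rfl fun χ hχ => by rw [hdegY χ hχ]
    rw [h5] at h4
    have h6 := rel 1 h1reg
    have h7 : (η : G → ℂ) 1 * (∑ᶠ χ ∈ setY ζ, conj ((χ : G → ℂ) y) + δ) = 0 := by
      linear_combination h4 - h6
    have h8 := (mul_eq_zero.1 h7).resolve_left hη1
    linear_combination h8
  -- kernels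
  have hker : ∀ χ : IrrCharacter G, χ ≠ e → (χ : G → ℂ) t ≠ (χ : G → ℂ) 1 := by
    intro χ hχe hχt
    obtain ⟨K, hKn, hK⟩ := exists_kernel (irr_isCharacter χ.2)
    have htop := hnp K hKn ((hK t).2 hχt)
    apply hχe
    apply Subtype.ext
    apply CfsgLib.Quot19.irr_eq_one_of_ker_top χ.2
    intro g
    rw [← hK g, htop]; trivial
  have hdeg : ∀ χ : IrrCharacter G, (χ : G → ℂ) 1 = (charDegree (χ : G → ℂ) : ℂ) := fun χ => CfsgLib.CharInt.irr_one_eq_charDegree χ.2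
  have hdpos : ∀ χ : IrrCharacter G, 0 < charDegree (χ : G → ℂ) := fun χ => CfsgLib.CharInt.irr_charDegree_pos χ.2
  have hrel1 : (1 : ℤ) + c χ2 * charDegree (χ2 : G → ℂ) + c χ3 * charDegree (χ3 : G → ℂ) - δ * charDegree (η : G → ℂ) = 0 := by
    have h4 := rel 1 h1reg
    rw [hdeg, hdeg, hdeg] at h4
    have h5 : ((1 : ℤ) + c χ2 * charDegree (χ2 : G → ℂ) + c χ3 * charDegree (χ3 : G → ℂ) - δ * charDegree (η : G → ℂ) : ℂ) = 0 := by
      linear_combination h4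
    exact_mod_cast h5
  have hδ' : (-δ) = 1 ∨ (-δ) = -1 := by rcases hR.hδ with h | h <;> rw [h] <;> norm_num
  by_cases hp2 : p = 2
  · -- contradiction
    exfalso
    subst hp2
    obtain ⟨n, hn, hnC, hn3, hgen⟩ := exists_gen hm
    -- move t into P
    obtain ⟨g, hg⟩ : ∃ g : G, g * t * g⁻¹ ∈ (P : Subgroup G) := by
      have h4 : IsPGroup 2 (Subgroup.zpowers t) := by
        apply IsPGroup.of_card (n := 1)
        rw [Nat.card_zpowers, ht, pow_one]
      obtain ⟨Q, hQ⟩ := h4.exists_le_sylow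
      obtain ⟨h, hh⟩ := MulAction.exists_smul_eq G Q P
      refine ⟨h, ?_⟩
      rw [← hh, Sylow.coe_subgroup_smul]
      have h7 := Subgroup.smul_mem_pointwise_smul t (MulAut.conj h) (Q : Subgroup G) (hQ (Subgroup.mem_zpowers _))
      rw [MulAut.smul_def, MulAut.conj_apply] at h7
      exact h7
    set t1 := g * t * g⁻¹ with ht1
    have ht1o : orderOf t1 = 2 := by rw [ht1, CfsgLib.Invol.orderOf_conj, ht]
    have ht1ne : t1 ≠ 1 := CfsgLib.Invol.ne_one ht1o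
    have ht1sq := CfsgLib.Invol.mul_self ht1o
    have ht1conj : ∀ χ : IrrCharacter G, (χ : G → ℂ) t1 = (χ : G → ℂ) t := fun χ =>
      (CfsgLib.CharInt.irr_isConj χ.2 (isConj_iff.2 ⟨g, rfl⟩)).symm
    -- choose y
    obtain ⟨y, hy, hy1, hynt, hsec⟩ : ∃ y ∈ (P : Subgroup G), y ≠ 1 ∧ ¬ IsConj t1 y ∧
        ∀ z z' : G, IsPPart 2 z z' → IsConj z' y → ∀ s s' : G, IsConj t1 s → IsConj t1 s' → s * s' ≠ z := by
      by_cases hel : ∀ y ∈ (P : Subgroup G), y * y = 1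
      · obtain ⟨y, hyS⟩ : ∃ y : (P : Subgroup G), y ∉ ({1, ⟨t1, hg⟩,
            ⟨n * t1 * n⁻¹, (Subgroup.mem_normalizer_iff.1 hn t1).1 hg⟩,
            ⟨n * (n * t1 * n⁻¹) * n⁻¹, (Subgroup.mem_normalizer_iff.1 hn _).1 ((Subgroup.mem_normalizer_iff.1 hn t1).1 hg)⟩} : Finset (P : Subgroup G)) := by
          by_contra hcon
          push Not at hcon
          letI := Fintype.ofFinite (P : Subgroup G)
          have h4 := Finset.card_le_card (fun x _ => hcon x : (Finset.univ : Finset (P : Subgroup G)) ⊆ _)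
          rw [Finset.card_univ, ← Nat.card_eq_fintype_card] at h4
          have h5 := h4.trans Finset.card_le_four
          omega
        simp only [Finset.mem_insert, Finset.mem_singleton, not_or] at hyS
        obtain ⟨hy1, hy2, hy3, hy4⟩ := hyS
        have hy1' : (y : G) ≠ 1 := fun h => hy1 (Subtype.ext h)
        have hy2' : (y : G) ≠ t1 := fun h => hy2 (Subtype.ext h)
        have hy3' : (y : G) ≠ n * t1 * n⁻¹ := fun h => hy3 (Subtype.ext h)
        have hy4' : (y : G) ≠ n * (n * t1 * n⁻¹) * n⁻¹ := fun h => hy4 (Subtype.ext h)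
        refine ⟨y, y.2, hy1', ?_, section_elem P hF hel hn hnC hn3 hgen hg ht1o y.2 hy1' hy2' hy3' hy4'⟩
        intro hc
        rcases conj_in P hF hn hn3 hgen hg y.2 hc with h | h | h
        · exact hy2' h
        · exact hy3' h
        · exact hy4' h
      · push Not at hel
        obtain ⟨y, hy, hyy⟩ := hel
        have hy1 : y ≠ 1 := by rintro rfl; exact hyy (mul_one 1)
        refine ⟨y, hy, hy1, ?_, section_of_sq_ne P hF hm hy hyy ht1o⟩
        intro hc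
        have h4 := (CfsgLib.Inv19.orderOf_of_isConj hc).trans ht1o
        exact hyy (CfsgLib.Invol.mul_self h4)
    have hc1 := section_pairs hM (principal_isBlock (G := G) M) (hpord y hy) t1 hsec
    have hb1 := CfsgLib.BlockOrth.block_orth_conj hM (principal_isBlock (G := G) M)
      (CfsgLib.PB19.isPPart_self (hpord t1 hg)) (CfsgLib.PB19.isPPart_self (hpord y hy)) hynt
    -- squares
    have hYsq : ∀ χ ∈ setY ζ, (χ : G → ℂ) t1 ^ 2 = 3 + 2 * δ * (χ : G → ℂ) t1 := by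
      rintro χ ⟨ψ, hψ1, rfl⟩
      have h4 := hR.value_Y hF.1 hψ1 (y := ⟨t1, hg⟩) (fun h => ht1ne (congrArg Subtype.val h))
      have h5 := orbit_sum_sq hF hm hψ1 (t := ⟨t1, hg⟩) (Subtype.ext ht1sq)
      rw [Int.cast_zero, zero_add] at h4
      simp only at h4
      rw [h4, mul_pow, h5]
      have h6 : (δ : ℂ) ^ 2 = 1 := by
        rcases hR.hδ with h | h <;> rw [h] <;> norm_num
      linear_combination (3 + 2 * ∑ᶠ ψ' ∈ {ψ' : (P : Subgroup G) →* ℂˣ | Rel (P : Subgroup G) ψ ψ'}, ((ψ' ⟨t1, hg⟩ : ℂˣ) : ℂ)) * h6 - 2 * (∑ᶠ ψ' ∈ {ψ' : (P : Subgroup G) →* ℂˣ | Rel (P : Subgroup G) ψ ψ'}, ((ψ' ⟨t1, hg⟩ : ℂˣ) : ℂ)) * h6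
    have hsq2 : (c χ2 : ℂ) ^ 2 = 1 := by rcases hX1 χ2 h2mem.1 with h | h <;> rw [h] <;> norm_num
    have hsq3 : (c χ3 : ℂ) ^ 2 = 1 := by rcases hX1 χ3 h3mem.1 with h | h <;> rw [h] <;> norm_num
    have s1 := sumYc y hy hy1
    rw [sumB, hXval χ2 h2mem.1 y hy hy1, hXval χ3 h3mem.1 y hy hy1, hXval χ2 h2mem.1 t1 hg ht1ne,
      hXval χ3 h3mem.1 t1 hg ht1ne, hev, map_one, map_intCast, map_intCast] at hb1
    have s2 : ∑ᶠ χ ∈ setY ζ, (χ : G → ℂ) t1 * conj ((χ : G → ℂ) y) = -3 := by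
      linear_combination hb1 - hsq2 - hsq3
    rw [sumB, hXval χ2 h2mem.1 y hy hy1, hXval χ3 h3mem.1 y hy hy1, hXval χ2 h2mem.1 t1 hg ht1ne,
      hXval χ3 h3mem.1 t1 hg ht1ne, hev, map_one, map_intCast, map_intCast, hsq2, hsq3] at hc1
    have s3 : ∑ᶠ χ ∈ setY ζ, ((χ : G → ℂ) t1 ^ 2 / (χ : G → ℂ) 1) * conj ((χ : G → ℂ) y) = -9 * δ / (η : G → ℂ) 1 := by
      have h4 : ∑ᶠ χ ∈ setY ζ, ((χ : G → ℂ) t1 ^ 2 / (χ : G → ℂ) 1) * conj ((χ : G → ℂ) y) =
          ∑ᶠ χ ∈ setY ζ, ((3 / (η : G → ℂ) 1) * conj ((χ : G → ℂ) y) + (2 * δ / (η : G → ℂ) 1) * ((χ : G → ℂ) t1 * conj ((χ : G → ℂ) y))) := by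
        refine finsum_mem_congr rfl fun χ hχ => ?_
        rw [hYsq χ hχ, hdegY χ hχ]
        field_simp
      rw [h4, finsum_mem_add_distrib (Set.toFinite _), ← mul_finsum_mem, ← mul_finsum_mem, s1, s2]
      field_simp
      ring
    rw [s3, hdeg χ2, hdeg χ3, hdeg η] at hc1
    -- congruences
    have hcong : ∀ χ ∈ setX M ζ, ∃ u : ℤ, (charDegree (χ : G → ℂ) : ℤ) = c χ + Nat.card (P : Subgroup G) * u := by
      intro χ hχ
      letI := Fintype.ofFinite (P : Subgroup G)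
      have h4 := mult_spec (P : Subgroup G) χ 1
      unfold classInner at h4
      have hPne : (Nat.card (P : Subgroup G) : ℂ) ≠ 0 := by exact_mod_cast Nat.card_pos.ne'
      have h5 : ∑ g : (P : Subgroup G), (χ : G → ℂ) g * conj ((((1 : (P : Subgroup G) →* ℂˣ) g : ℂˣ)) : ℂ) =
          (charDegree (χ : G → ℂ) : ℂ) + ((Nat.card (P : Subgroup G) : ℂ) - 1) * c χ := by
        have h6 : ∀ g : (P : Subgroup G), (χ : G → ℂ) g * conj ((((1 : (P : Subgroup G) →* ℂˣ) g : ℂˣ)) : ℂ) =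
            (c χ : ℂ) + if g = 1 then (charDegree (χ : G → ℂ) : ℂ) - c χ else 0 := by
          intro g
          rw [MonoidHom.one_apply, Units.val_one, map_one, mul_one]
          split_ifs with hg1
          · rw [hg1, Subgroup.coe_one, hdeg]; ring
          · rw [hXval χ hχ g g.2 (fun h => hg1 (Subtype.ext h)), add_zero]
        simp_rw [h6]
        rw [Finset.sum_add_distrib, Finset.sum_const, Finset.card_univ, nsmul_eq_mul, Finset.sum_ite_eq' Finset.univ (1 : (P : Subgroup G)),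
          if_pos (Finset.mem_univ _), Nat.card_eq_fintype_card]
        ring
      rw [h5] at h4
      refine ⟨mult (P : Subgroup G) χ 1 - c χ, ?_⟩
      have h7 : (charDegree (χ : G → ℂ) : ℂ) = (c χ : ℂ) + Nat.card (P : Subgroup G) * ((mult (P : Subgroup G) χ 1 : ℂ) - c χ) := by
        rw [← h4]
        field_simp
        ring
      exact_mod_cast h7
    obtain ⟨u2, hu2⟩ := hcong χ2 h2mem.1
    obtain ⟨u3, hu3⟩ := hcong χ3 h3mem.1
    have hcardY : Nat.card (setY ζ) * 3 = Nat.card P - 1 := card_setY hR hF hm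
    have h16 := two_power hm2 ⟨Nat.card (setY ζ), by rw [← hcardY, mul_comm]⟩
    have hn1 : ∀ χ ∈ setX M ζ, χ ≠ e → c χ = 1 → charDegree (χ : G → ℂ) ≠ 1 := by
      intro χ hχ hχe hc1 hd1
      apply hker χ hχe
      rw [← ht1conj, hXval χ hχ t1 hg ht1ne, hc1, hdeg, hd1]
      norm_num
    refine two_arith h16 (hX1 χ2 h2mem.1) (hX1 χ3 h3mem.1) hR.hδ hu2 hu3 (hdpos χ2) (hdpos χ3) (hdpos η)
      (hn1 χ2 h2mem.1 h2e) (hn1 χ3 h3mem.1 h3e) hrel1 ?_
    have h4 : ((1 : ℝ) + c χ2 / charDegree (χ2 : G → ℂ) + c χ3 / charDegree (χ3 : G → ℂ) - 9 * δ / charDegree (η : G → ℂ) : ℂ) = 0 := by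
      push_cast
      linear_combination hc1
    exact_mod_cast h4
  · -- p odd
    have htreg : ¬ p ∣ orderOf t := by
      rw [ht]
      intro h
      exact hp2 ((Nat.prime_dvd_prime_iff_eq hp.out Nat.prime_two).1 h)
    obtain ⟨y, hy, hy1⟩ : ∃ y ∈ (P : Subgroup G), y ≠ 1 := by
      by_contra hcon
      push Not at hcon
      haveI : Subsingleton (P : Subgroup G) := ⟨fun a b => Subtype.ext (by rw [hcon a a.2, hcon b b.2])⟩
      exact hP1 Nat.card_unique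
    have hyy : y * y ≠ 1 := by
      intro h
      have h4 : orderOf y ∣ 2 := orderOf_dvd_of_pow_eq_one (by rw [pow_two, h])
      have h5 := (hpdvd y hy hy1).trans h4
      exact hp2 ((Nat.prime_dvd_prime_iff_eq hp.out Nat.prime_two).1 h5)
    have hc1 := section_pairs hM (principal_isBlock (G := G) M) (hpord y hy) t (section_of_sq_ne P hF hm hy hyy ht)
    have htt := CfsgLib.Invol.mul_self ht
    obtain ⟨x2, hx2⟩ := int_of_invol χ2 htt
    obtain ⟨x3, hx3⟩ := int_of_invol χ3 htt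
    obtain ⟨x4, hx4⟩ := int_of_invol η htt
    rw [sumB, hXval χ2 h2mem.1 y hy hy1, hXval χ3 h3mem.1 y hy hy1, hev, map_one, map_intCast, map_intCast] at hc1
    have s3 : ∑ᶠ χ ∈ setY ζ, ((χ : G → ℂ) t ^ 2 / (χ : G → ℂ) 1) * conj ((χ : G → ℂ) y) = -δ * ((η : G → ℂ) t ^ 2 / (η : G → ℂ) 1) := by
      have h4 : ∑ᶠ χ ∈ setY ζ, ((χ : G → ℂ) t ^ 2 / (χ : G → ℂ) 1) * conj ((χ : G → ℂ) y) =
          ∑ᶠ χ ∈ setY ζ, (((η : G → ℂ) t ^ 2 / (η : G → ℂ) 1) * conj ((χ : G → ℂ) y)) := by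
        refine finsum_mem_congr rfl fun χ hχ => ?_
        rw [hdegY χ hχ, hR.reg_eq hM P.isPGroup' hχ hη htreg]
      rw [h4, ← mul_finsum_mem, sumYc y hy hy1]
      ring
    rw [s3, hdeg χ2, hdeg χ3, hdeg η, hx2, hx3, hx4] at hc1
    have hr2 := rel t htreg
    rw [hx2, hx3, hx4] at hr2
    have hfin := final_arith (e := c χ2) (f := c χ3) (g := -δ) (a := charDegree (χ2 : G → ℂ)) (b := charDegree (χ3 : G → ℂ))
      (c := charDegree (η : G → ℂ)) (x := x2) (y := x3) (z := x4) (hX1 χ2 h2mem.1) (hX1 χ3 h3mem.1) hδ'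
      (hdpos χ2) (hdpos χ3) (hdpos η) (by linarith)
      (by
        have h4 : ((1 + c χ2 * x2 + c χ3 * x3 + -δ * x4 : ℤ) : ℂ) = 0 := by
          push_cast
          linear_combination hr2
        exact_mod_cast h4)
      (by
        have h4 : (((1 : ℝ) + c χ2 * ((x2 : ℝ) ^ 2 / charDegree (χ2 : G → ℂ)) + c χ3 * ((x3 : ℝ) ^ 2 / charDegree (χ3 : G → ℂ)) + ((-δ : ℤ) : ℝ) * ((x4 : ℝ) ^ 2 / charDegree (η : G → ℂ)) : ℝ) : ℂ) = 0 := by
          push_cast
          linear_combination hc1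
        exact_mod_cast h4)
      (fun h => hker χ2 h2e (by rw [hx2, hdeg, h]; norm_cast))
      (fun h => hker χ3 h3e (by rw [hx3, hdeg, h]; norm_cast))
      (fun h => hker η hηe (by rw [hx4, hdeg, h]; norm_cast))
    exact hfin

end Final

end CfsgLib.FrobP19
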