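import Mathlib
import Cfsg.Agent.EqBase
import Cfsg.Agent.LibCnt28
import Cfsg.Agent.LibSix28

set_option autoImplicit false

/-! Covering radius of the code and pointwise transitivity (helper28). -/

namespace CfsgLib.Sub28

open Cfsg CfsgLib.M24 CfsgLib.Golay CfsgLib.Syn28 CfsgLib.OrbG28 CfsgLib.Cnt28 CfsgLib.Six28 CfsgLib.OrbM28
open scoped Pointwise

/-- indicator word -/
def ind (s : Finset GolayPt) : GolayPt → ZMod 2 := fun p => if p ∈ s then 1 else 0

theorem word_eq_ind (n : ℕ) : word n = ind (fset n) := by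
  funext p
  rw [word, ind]
  by_cases h : n.testBit (idx p) = true
  · rw [if_pos h, if_pos (mem_fset.2 h)]
  · rw [if_neg h, if_neg (fun h' => h (mem_fset.1 h'))]

theorem ind_supp (w : GolayPt → ZMod 2) : ind (support₂ w) = w := by
  funext p
  rw [ind]
  have h2 : ∀ a : ZMod 2, a = 0 ∨ a = 1 := by decide
  rcases h2 (w p) with h | h
  · rw [if_neg (by simp [support₂, h]), h]
  · rw [if_pos (by simp [support₂, h]), h]

theorem supp_ind (s : Finset GolayPt) : support₂ (ind s) = s := by
  ext p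
  simp [support₂, ind]

theorem ind_inj {s t : Finset GolayPt} (h : ind s = ind t) : s = t := by
  rw [← supp_ind s, h, supp_ind]

theorem ind_symmDiff (s t : Finset GolayPt) : ind (symmDiff s t) = ind s + ind t := by
  funext p
  simp only [ind, Pi.add_apply, Finset.mem_symmDiff]
  by_cases h : p ∈ s <;> by_cases h' : p ∈ t <;> simp [h, h'] <;> decide

theorem act_ind (g : Equiv.Perm GolayPt) (s : Finset GolayPt) : (fun p => ind s (g.symm p)) = ind (g • s) := by
  funext p
  simp only [ind]
  have : g.symm p ∈ s ↔ p ∈ g • s := by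
    rw [← Finset.inv_smul_mem_iff]; rfl
  by_cases h : p ∈ g • s
  · rw [if_pos h, if_pos (this.2 h)]
  · rw [if_neg h, if_neg (fun h' => h (this.1 h'))]

theorem ind_mem_code {s : Finset GolayPt} : ind s ∈ golayCode ↔ s ∈ supports (golayCode : Set (GolayPt → ZMod 2)) := by
  constructor
  · intro h
    exact ⟨_, h, supp_ind s⟩
  · rintro ⟨w, hw, rfl⟩
    rw [ind_supp]; exact hw

theorem sum_ind (s : Finset GolayPt) : ∑ p, ind s p = (s.card : ZMod 2) := by
  simp only [ind]
  rw [Finset.sum_boole]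
  simp

/-- a syndrome of a pair or of a tetrad -/
theorem even_syn {s : ℕ} (hs : s < 4096) (he : pop (s <<< 12) % 2 = 0) :
    (∃ p q : GolayPt, sy (symmDiff {p} {q}) = s) ∨ ∃ t : Finset GolayPt, t.card = 4 ∧ sy t = s := by
  by_cases h : isSx s = true
  · right
    obtain ⟨t, ht⟩ := sextet_nonempty (mem_of_isSx hs h)
    exact ⟨t, mem_sextetOf.1 ht⟩
  · left
    rw [isSx, Bool.and_eq_true, beq_iff, Bool.not_eq_true', not_and] at h
    have h1 : (Nat.land (pop (Nat.shiftLeft s 12)) 1) = 0 := by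
      show (pop (s <<< 12)) &&& 1 = 0
      rw [Nat.and_one_is_mod]; exact he
    have h2 := h h1
    rw [Bool.not_eq_false, List.any_eq_true] at h2
    obtain ⟨a, ha, hb⟩ := h2
    have hb2 := tb_MM (s ^^^ a) (Nat.xor_lt_two_pow (n := 12) hs (SYN_lt a ha)) hb
    obtain ⟨p, hp⟩ := mem_SYN ha
    obtain ⟨q, hq⟩ := mem_SYN hb2
    refine ⟨p, q, ?_⟩
    rw [sy_symmDiff, hp, hq, Nat.xor_comm, Nat.xor_assoc, Nat.xor_self, Nat.xor_zero]

theorem parity_xor (m n : ℕ) : pop (m ^^^ n) % 2 = (pop m + pop n) % 2 := by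
  have h := CfsgLib.M24.card_symmDiff (fset m) (fset n)
  rw [← fset_xor, card_fset, card_fset, card_fset] at h
  omega

/-- covering radius 4 -/
theorem covering (s : Finset GolayPt) : ∃ f : Finset GolayPt, f.card ≤ 4 ∧
    symmDiff s f ∈ supports (golayCode : Set (GolayPt → ZMod 2)) := by
  have hs := sy_lt s
  have key : ∀ f : Finset GolayPt, sy f = sy s → symmDiff s f ∈ supports (golayCode : Set (GolayPt → ZMod 2)) := by
    intro f hf
    rw [← sy_eq_zero_iff, sy_symmDiff, hf, Nat.xor_self]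
  have hsd : ∀ p q : GolayPt, (symmDiff ({p} : Finset GolayPt) {q}).card ≤ 2 := by
    intro p q
    have := CfsgLib.M24.card_symmDiff {p} {q}
    rw [Finset.card_singleton, Finset.card_singleton] at this
    omega
  rcases Nat.mod_two_eq_zero_or_one (pop (sy s <<< 12)) with h | h
  · rcases even_syn hs h with ⟨p, q, h1⟩ | ⟨t, ht, h1⟩
    · exact ⟨_, (hsd p q).trans (by norm_num), key _ h1⟩
    · exact ⟨t, ht.le, key _ h1⟩
  · have h0 : sy {(none : GolayPt)} < 4096 := sy_lt _
    have he : pop ((sy s ^^^ sy {(none : GolayPt)}) <<< 12) % 2 = 0 := by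
      rw [Nat.shiftLeft_xor_distrib, parity_xor]
      have : pop (sy {(none : GolayPt)} <<< 12) % 2 = 1 := by decide +kernel
      omega
    rcases even_syn (Nat.xor_lt_two_pow (n := 12) hs h0) he with ⟨p, q, h1⟩ | ⟨t, ht, h1⟩
    · refine ⟨symmDiff (symmDiff {p} {q}) {none}, ?_, key _ ?_⟩
      · have := CfsgLib.M24.card_symmDiff (symmDiff {p} {q}) {(none : GolayPt)}
        rw [Finset.card_singleton] at this
        have := hsd p q
        omega
      · rw [sy_symmDiff, h1, Nat.xor_assoc, Nat.xor_self, Nat.xor_zero]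
    · obtain ⟨u, hu, hut, hnu⟩ := exists_tetrad ht none
      refine ⟨symmDiff u {none}, ?_, key _ ?_⟩
      · have h3 := CfsgLib.M24.card_symmDiff u {(none : GolayPt)}
        have h4 : (u ∩ {(none : GolayPt)}).card = 1 := by
          rw [Finset.inter_singleton_of_mem hnu, Finset.card_singleton]
        rw [Finset.card_singleton, h4, hu] at h3
        omega
      · rw [sy_symmDiff, hut, h1, Nat.xor_assoc, Nat.xor_self, Nat.xor_zero]

/-- elements fixing at most four points and moving another one to a prescribed place -/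
theorem fix_move {f : Finset GolayPt} (hf : f.card ≤ 4) {x y : GolayPt} (hx : x ∉ f) (hy : y ∉ f) :
    ∃ g ∈ M24, (∀ p ∈ f, g p = p) ∧ g x = y := by
  obtain ⟨g, hg, h⟩ := agree5 (Equiv.swap x y) (F := insert x f) (by
    rw [Finset.card_insert_of_notMem hx]; omega)
  refine ⟨g, hg, fun p hp => ?_, ?_⟩
  · rw [h p (Finset.mem_insert_of_mem hp), Equiv.swap_apply_of_ne_of_ne]
    · rintro rfl; exact hx hp
    · rintro rfl; exact hy hp
  · rw [h x (Finset.mem_insert_self _ _), Equiv.swap_apply_left]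

end CfsgLib.Sub28
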