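import Mathlib
import Cfsg.Agent.EqBase
import Cfsg.Agent.LibSub28
import Cfsg.Agent.LibSteiner

set_option autoImplicit false

/-! Functionals on the Golay code (helper28). -/

namespace CfsgLib.Fun28

open Cfsg CfsgLib.M24 CfsgLib.Golay CfsgLib.Syn28 CfsgLib.OrbG28 CfsgLib.Sub28
open scoped Pointwise

theorem card_inter_symmDiff (c s f : Finset GolayPt) :
    ((c ∩ symmDiff s f).card : ZMod 2) = ((c ∩ s).card : ZMod 2) + ((c ∩ f).card : ZMod 2) := by
  have h1 : c ∩ symmDiff s f = symmDiff (c ∩ s) (c ∩ f) := by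
    ext x; simp only [Finset.mem_inter, Finset.mem_symmDiff]; tauto
  have h2 := CfsgLib.M24.card_symmDiff (c ∩ s) (c ∩ f)
  rw [← h1] at h2
  have h3 := congrArg (fun n : ℕ => (n : ZMod 2)) h2
  simp only [Nat.cast_add, Nat.cast_mul] at h3
  have h4 : ((2 : ℕ) : ZMod 2) = 0 := by decide
  rw [h4, zero_mul, add_zero] at h3
  exact h3

theorem mod_four {c : Finset GolayPt} (hc : c ∈ supports (golayCode : Set (GolayPt → ZMod 2))) : c.card % 4 = 0 := by
  rcases card_of_mem_supports hc with h | h | h | h | h
  · rw [h]; rfl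
  all_goals omega

theorem symmDiff_mem {c d : Finset GolayPt} (hc : c ∈ supports (golayCode : Set (GolayPt → ZMod 2)))
    (hd : d ∈ supports (golayCode : Set (GolayPt → ZMod 2))) :
    symmDiff c d ∈ supports (golayCode : Set (GolayPt → ZMod 2)) := by
  rw [← ind_mem_code, ind_symmDiff]
  exact golayCode.add_mem (ind_mem_code.2 hc) (ind_mem_code.2 hd)

theorem orth {c d : Finset GolayPt} (hc : c ∈ supports (golayCode : Set (GolayPt → ZMod 2)))
    (hd : d ∈ supports (golayCode : Set (GolayPt → ZMod 2))) : ((c ∩ d).card : ZMod 2) = 0 := by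
  have h1 := CfsgLib.M24.card_symmDiff c d
  have h2 := mod_four hc
  have h3 := mod_four hd
  have h4 := mod_four (symmDiff_mem hc hd)
  rw [ZMod.natCast_eq_zero_iff]
  omega

/-- functionals of the code are given by words of weight at most 4 -/
theorem rep_functional (ψ : ↥golayCode →ₗ[ZMod 2] ZMod 2) : ∃ f : Finset GolayPt, f.card ≤ 4 ∧
    ∀ c : ↥golayCode, ψ c = ((support₂ (c : GolayPt → ZMod 2) ∩ f).card : ZMod 2) := by
  classical
  obtain ⟨Ψ, hΨ⟩ := LinearMap.exists_extend ψ
  let s : Finset GolayPt := Finset.univ.filter fun p => Ψ (Pi.single p 1) = 1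
  have h01 : ∀ a : ZMod 2, a = 0 ∨ a = 1 := by decide
  have h1 : ∀ v : GolayPt → ZMod 2, Ψ v = ((support₂ v ∩ s).card : ZMod 2) := by
    intro v
    have e : v = ∑ p, v p • (Pi.single p 1 : GolayPt → ZMod 2) := by
      funext q
      rw [Finset.sum_apply, Finset.sum_eq_single q]
      · simp
      · intro p _ hpq; simp [Ne.symm hpq]
      · intro h; exact absurd (Finset.mem_univ q) h
    conv_lhs => rw [e]
    rw [map_sum]
    have h2 : ∀ p, Ψ (v p • (Pi.single p 1 : GolayPt → ZMod 2)) = if p ∈ support₂ v ∩ s then 1 else 0 := by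
      intro p
      have m1 : p ∈ support₂ v ↔ v p ≠ 0 := by simp [support₂]
      have m2 : p ∈ s ↔ Ψ (Pi.single p 1) = 1 := by simp [s]
      have m3 : p ∈ support₂ v ∩ s ↔ (v p ≠ 0 ∧ Ψ (Pi.single p 1) = 1) := by rw [Finset.mem_inter, m1, m2]
      rw [map_smul, smul_eq_mul, if_congr m3 rfl rfl]
      rcases h01 (v p) with hv | hv <;> rcases h01 (Ψ (Pi.single p 1)) with hp | hp <;> simp [hv, hp]
    rw [Finset.sum_congr rfl (fun p _ => h2 p), Finset.sum_boole]
    congr 2
    ext p; simp
  obtain ⟨f, hf, hsf⟩ := covering s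
  refine ⟨f, hf, fun c => ?_⟩
  have h3 : ψ c = Ψ c := by rw [← hΨ]; rfl
  rw [h3, h1]
  have h4 := card_inter_symmDiff (support₂ (c : GolayPt → ZMod 2)) s f
  rw [orth ⟨_, c.2, rfl⟩ hsf] at h4
  have h5 : ∀ a b : ZMod 2, 0 = a + b → a = b := by decide
  exact h5 _ _ h4

open CfsgLib.Steiner in
/-- octads meeting a duad or a tetrad oddly -/
theorem odd_count {f : Finset GolayPt} (hf : f.card = 2 ∨ f.card = 4) :
    {o : Finset GolayPt | o ∈ octads ∧ ((o ∩ f).card : ZMod 2) = 1}.ncard = if f.card = 2 then 352 else 384 := by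
  classical
  have hle : f.card ≤ 4 := by omega
  have key : ∀ j ≤ 4, j ≤ f.card → ∀ L : ℕ, L * Nat.choose (8 - j) (5 - j) = Nat.choose (24 - j) (5 - j) →
      0 < Nat.choose (8 - j) (5 - j) →
      ∑ i ∈ Finset.range 5, meet octads f i * Nat.choose i j = Nat.choose f.card j * L := by
    intro j hj hjf L hL hpos
    rw [← sum_meet octads f (fun i => Nat.choose i j) 4 hle, sum_choose_inter]
    rw [← Finset.card_powersetCard j f, ← smul_eq_mul, ← Finset.sum_const]
    apply Finset.sum_congr rfl
    intro s hs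
    rw [Finset.mem_powersetCard] at hs
    have := lam_mul octads_steiner s (by omega)
    rw [card_pt, hs.2, ← hL] at this
    exact Nat.eq_of_mul_eq_mul_right hpos this
  have hset : {o : Finset GolayPt | o ∈ octads ∧ ((o ∩ f).card : ZMod 2) = 1}.ncard = meet octads f 1 + meet octads f 3 := by
    have h1 : {o : Finset GolayPt | o ∈ octads ∧ ((o ∩ f).card : ZMod 2) = 1} =
        (((blocks octads).filter fun c => (f ∩ c).card = 1) ∪ ((blocks octads).filter fun c => (f ∩ c).card = 3) :
          Finset (Finset GolayPt)) := by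
      ext o
      rw [Finset.coe_union, Set.mem_union, Finset.mem_coe, Finset.mem_coe, Finset.mem_filter, Finset.mem_filter,
        mem_blocks, Set.mem_setOf_eq, Finset.inter_comm]
      have h2 : (f ∩ o).card ≤ 4 := (Finset.card_le_card Finset.inter_subset_left).trans hle
      have h3 : ((f ∩ o).card : ZMod 2) = 1 ↔ (f ∩ o).card % 2 = 1 := by
        rw [show (1 : ZMod 2) = ((1 : ℕ) : ZMod 2) by simp, ZMod.natCast_eq_natCast_iff]
        exact Iff.rfl
      rw [h3]
      constructor
      · rintro ⟨h4, h5⟩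
        have : (f ∩ o).card = 1 ∨ (f ∩ o).card = 3 := by omega
        rcases this with h | h
        · exact Or.inl ⟨h4, h⟩
        · exact Or.inr ⟨h4, h⟩
      · rintro (⟨h4, h5⟩ | ⟨h4, h5⟩)
        · exact ⟨h4, by rw [h5]⟩
        · exact ⟨h4, by rw [h5]⟩
    rw [h1, Set.ncard_coe_finset, Finset.card_union_of_disjoint]
    · rfl
    · rw [Finset.disjoint_left]
      intro o ho ho'
      rw [Finset.mem_filter] at ho ho'
      omega
  rw [hset]
  rcases hf with hf | hf
  · have h2 := key 2 (by norm_num) (by omega) 77 (by decide +kernel) (by decide +kernel)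
    have h1 := key 1 (by norm_num) (by omega) 253 (by decide +kernel) (by decide +kernel)
    have h4 : meet octads f 3 = 0 := by
      rw [meet, Finset.card_eq_zero, Finset.filter_eq_empty_iff]
      intro o _ h
      have := Finset.card_le_card (Finset.inter_subset_left (s₁ := f) (s₂ := o))
      omega
    have h5 : meet octads f 4 = 0 := by
      rw [meet, Finset.card_eq_zero, Finset.filter_eq_empty_iff]
      intro o _ h
      have := Finset.card_le_card (Finset.inter_subset_left (s₁ := f) (s₂ := o))
      omega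
    simp only [Finset.sum_range_succ, Finset.sum_range_zero, hf, h4, h5] at h1 h2
    norm_num [Nat.choose] at h1 h2
    rw [if_pos hf, h4]
    omega
  · have h4 := key 4 (by norm_num) (by omega) 5 (by decide +kernel) (by decide +kernel)
    have h3 := key 3 (by norm_num) (by omega) 21 (by decide +kernel) (by decide +kernel)
    have h2 := key 2 (by norm_num) (by omega) 77 (by decide +kernel) (by decide +kernel)
    have h1 := key 1 (by norm_num) (by omega) 253 (by decide +kernel) (by decide +kernel)
    simp only [Finset.sum_range_succ, Finset.sum_range_zero, hf] at h1 h2 h3 h4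
    norm_num [Nat.choose] at h1 h2 h3 h4
    rw [if_neg (by omega)]
    omega

end CfsgLib.Fun28
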