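import Cfsg.Agent.LibFus21AltB
import Cfsg.Agent.LibFus21Simple2

set_option autoImplicit false

/-! Simplicity criterion for groups with a subgroup `E.Alt(Ω)` of odd index. -/

namespace CfsgLib.Fus21

open Cfsg Cfsg.FusionSystem Equiv CfsgLib.Fus21.Alt

variable {G : Type*} [Group G] [Finite G]

theorem simple_of_affine (H E : Subgroup G) (Ω : Type) [Fintype Ω] [DecidableEq Ω] (h6 : 6 ≤ Fintype.card Ω)
    (ρ : H →* alternatingGroup Ω) (hρ : Function.Surjective ρ) (hEH : E ≤ H) (hker : ∀ h : H, ρ h = 1 ↔ (h : G) ∈ E)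
    (hE2 : IsPGroup 2 E) (hE1 : E ≠ ⊥) (hidx : ¬ 2 ∣ H.index) (hC : ∀ x ∈ H, (∀ e ∈ E, x * e = e * x) → x ∈ E)
    (htrans : ∀ e ∈ E, ∀ f ∈ E, e ≠ 1 → f ≠ 1 → ∃ h ∈ H, h * e * h⁻¹ = f)
    (hlift : ∀ s : alternatingGroup Ω, s ≠ 1 → s * s = 1 → ∃ x : H, ρ x = s ∧ ∃ g : G, g * (x : G) * g⁻¹ ∈ E)
    (hN : ∀ S : Subgroup G, S ≤ H → E ≤ S → ∀ g ∈ Subgroup.normalizer (S : Set G), g ∈ H) (S : Sylow 2 G) :
    (groupFusionSystem (S : Subgroup G)).IsSimple 2 := by
  obtain ⟨P⟩ : Nonempty (Sylow 2 H) := inferInstance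
  set U : Subgroup G := (P : Subgroup H).map H.subtype with hU
  have hUH : U ≤ H := by rintro _ ⟨x, -, rfl⟩; exact x.2
  have hmemU : ∀ x : H, (x : G) ∈ U ↔ x ∈ P := by
    intro x
    constructor
    · rintro ⟨y, hy, hyx⟩
      have : y = x := Subtype.ext hyx
      rw [← this]; exact hy
    · intro hx; exact ⟨x, hx, rfl⟩
  have hnE : (E.subgroupOf H).Normal := by
    have : E.subgroupOf H = ρ.ker := by
      ext x
      rw [Subgroup.mem_subgroupOf, MonoidHom.mem_ker, hker]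
    rw [this]; infer_instance
  have hconjE : ∀ h ∈ H, ∀ e ∈ E, h * e * h⁻¹ ∈ E := by
    intro h hh e he
    exact hnE.conj_mem ⟨e, hEH he⟩ he ⟨h, hh⟩
  have hEU : E ≤ U := by
    have h1 : IsPGroup 2 ((P : Subgroup H) ⊔ E.subgroupOf H : Subgroup H) :=
      P.isPGroup'.to_sup_of_normal_right (hE2.comap_of_injective H.subtype H.subtype_injective)
    have h2 := P.is_maximal' h1 le_sup_left
    intro e he
    rw [hmemU ⟨e, hEH he⟩]
    show _ ∈ (P : Subgroup H)
    rw [← h2]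
    exact Subgroup.mem_sup_right he
  have hUp : IsPGroup 2 U := P.isPGroup'.map _
  -- the image in the alternating group
  set T : Sylow 2 (alternatingGroup Ω) := P.mapSurjective hρ with hT
  have hmemT : ∀ x : H, ρ x ∈ T ↔ x ∈ P := by
    intro x
    constructor
    · intro hx
      have hx' : ρ x ∈ (T : Subgroup _) := hx
      rw [hT, Sylow.coe_mapSurjective] at hx'
      obtain ⟨y, hy, hyx⟩ := hx'
      have h1 : ρ (x * y⁻¹) = 1 := by rw [map_mul, map_inv, hyx, mul_inv_cancel]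
      have h2 : ((x * y⁻¹ : H) : G) ∈ U := hEU ((hker _).1 h1)
      rw [hmemU] at h2
      have h3 : x = (x * y⁻¹) * y := by group
      rw [h3]
      exact (P : Subgroup H).mul_mem h2 hy
    · intro hx
      show ρ x ∈ (T : Subgroup _)
      rw [hT, Sylow.coe_mapSurjective]
      exact ⟨x, hx, rfl⟩
  have hNU : ∀ g ∈ Subgroup.normalizer (U : Set G), g ∈ U := by
    intro g hg
    have hgH := hN U hUH hEU g hg
    have h1 : ρ ⟨g, hgH⟩ ∈ Subgroup.normalizer ((T : Subgroup (alternatingGroup Ω)) : Set (alternatingGroup Ω)) := by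
      rw [Subgroup.mem_normalizer_iff]
      intro t
      obtain ⟨x, rfl⟩ := hρ t
      rw [← map_inv, ← map_mul, ← map_mul]
      have h2 := (Subgroup.mem_normalizer_iff.1 hg) (x : G)
      have h3 := hmemU x
      have h4 := hmemU (⟨g, hgH⟩ * x * ⟨g, hgH⟩⁻¹)
      have h5 := hmemT x
      have h6 := hmemT (⟨g, hgH⟩ * x * ⟨g, hgH⟩⁻¹)
      exact h5.trans (h3.symm.trans (h2.trans (h4.trans h6.symm)))
    rw [CfsgLib.SylAlt2.alt_normalizer Ω h6 T] at h1
    exact (hmemU ⟨g, hgH⟩).2 ((hmemT _).1 h1)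
  have hdata : SimpleData 2 U := by
    refine ⟨hUp, ?_, ?_, ?_, ?_⟩
    · intro h
      apply hE1
      rw [eq_bot_iff, ← h]; exact hEU
    · intro g hg
      exact ⟨1, by norm_num, by rw [pow_one]; exact hNU g hg⟩
    · intro Q hQU hQ1 hQ
      -- Q ∩ E ≠ 1
      have hQn : ∀ u ∈ U, ∀ t ∈ Q, u * t * u⁻¹ ∈ Q := fun u hu t ht =>
        hQ u t ht (U.mul_mem (U.mul_mem hu (hQU ht)) (U.inv_mem hu))
      have hQE : ∃ x ∈ Q, x ∈ E ∧ x ≠ 1 := by
        by_contra hcon
        push Not at hcon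
        apply hQ1
        rw [eq_bot_iff]
        intro x hx
        have hxE : x ∈ E := by
          refine hC x (hUH (hQU hx)) fun e he => ?_
          have h1 : e * x * e⁻¹ * x⁻¹ ∈ Q := Q.mul_mem (hQn e (hEU he) x hx) (Q.inv_mem hx)
          have h2 : e * x * e⁻¹ * x⁻¹ ∈ E := by
            have h3 := hconjE x (hUH (hQU hx)) e⁻¹ (E.inv_mem he)
            have h4 : e * x * e⁻¹ * x⁻¹ = e * (x * e⁻¹ * x⁻¹) := by group
            rw [h4]; exact E.mul_mem he h3
          have h5 := hcon _ h1 h2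
          have h6 : e * x = x * e := by
            have h7 : e * x * e⁻¹ = x := mul_inv_eq_one.1 h5
            exact mul_inv_eq_iff_eq_mul.1 h7
          exact h6.symm
        rw [Subgroup.mem_bot]
        exact hcon x hx hxE
      obtain ⟨x, hxQ, hxE, hx1⟩ := hQE
      have hEQ : E ≤ Q := by
        intro f hf
        by_cases hf1 : f = 1
        · rw [hf1]; exact Q.one_mem
        obtain ⟨h, hh, hhf⟩ := htrans x hxE f hf hx1 hf1
        rw [← hhf]
        exact hQ h x hxQ (by rw [hhf]; exact hEU hf)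
      -- involutions
      have hinv : ∀ y : H, y ∈ P → ρ y * ρ y = 1 → (y : G) ∈ Q := by
        intro y hy hy2
        by_cases hy1 : ρ y = 1
        · exact hEQ ((hker y).1 hy1)
        obtain ⟨z, hz, g, hg⟩ := hlift (ρ y) hy1 hy2
        have h1 : ((y * z⁻¹ : H) : G) ∈ E := by
          rw [← hker, map_mul, map_inv, hz, mul_inv_cancel]
        have hzU : (z : G) ∈ U := by
          have h2 : (z : G) = ((y * z⁻¹ : H) : G)⁻¹ * y := by
            rw [Subgroup.coe_mul, Subgroup.coe_inv]; group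
          rw [h2]
          exact U.mul_mem (U.inv_mem (hEU h1)) ((hmemU y).2 hy)
        have hzQ : (z : G) ∈ Q := by
          have h3 := hQ g⁻¹ _ (hEQ hg) (by
            have : g⁻¹ * (g * z * g⁻¹) * g⁻¹⁻¹ = (z : G) := by group
            rw [this]; exact hzU)
          have : g⁻¹ * (g * z * g⁻¹) * g⁻¹⁻¹ = (z : G) := by group
          rwa [this] at h3
        have h4 : (y : G) = ((y * z⁻¹ : H) : G) * z := by
          rw [Subgroup.coe_mul, Subgroup.coe_inv]; group
        rw [h4]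
        exact Q.mul_mem (hEQ h1) hzQ
      have h2 : Subgroup.closure {x | x ∈ T ∧ x * x = 1} ≤ (Q.subgroupOf H).map ρ := by
        rw [Subgroup.closure_le]
        rintro s ⟨hs, hs1⟩
        obtain ⟨y, rfl⟩ := hρ s
        exact ⟨y, hinv y ((hmemT y).1 hs) hs1, rfl⟩
      intro u hu
      have hu' : (⟨u, hUH hu⟩ : H) ∈ P := (hmemU ⟨u, hUH hu⟩).1 hu
      obtain ⟨y, hy, hyu⟩ := h2 (alt_gen Ω T ((hmemT _).2 hu'))
      have h3 : ((⟨u, hUH hu⟩ * y⁻¹ : H) : G) ∈ E := by
        rw [← hker, map_mul, map_inv, hyu, mul_inv_cancel]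
      have h4 : u = ((⟨u, hUH hu⟩ * y⁻¹ : H) : G) * y := by
        rw [Subgroup.coe_mul, Subgroup.coe_inv]; group
      rw [h4]
      exact Q.mul_mem (hEQ h3) hy
    · intro g hg
      have hgU := hNU g hg
      refine Subgroup.subset_closure ⟨hg, Or.inr ⟨U, le_rfl, Subgroup.le_normalizer,
        fun x hx _ => hx, Subgroup.subset_closure ⟨hg, ?_⟩⟩⟩
      obtain ⟨k, hk⟩ := hUp ⟨g, hgU⟩
      obtain ⟨j, -, hj⟩ := (Nat.dvd_prime_pow Nat.prime_two).1 (orderOf_dvd_of_pow_eq_one (congrArg Subtype.val hk : g ^ 2 ^ k = 1))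
      exact ⟨j, hj⟩
  exact hdata.simple S

end CfsgLib.Fus21
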