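import Mathlib
import Cfsg.Agent.LibRankFour

set_option autoImplicit false

/-! Abelian Sylow subgroups of alternating groups. -/

namespace CfsgLib.Fus21

/-- `p`-groups of permutations of fewer than `p²` points are abelian -/
theorem comm_of_small {G : Type*} [Group G] [Finite G] {p n : ℕ} [hp : Fact p.Prime] (hG : IsPGroup p G) (hn : n < p ^ 2)
    (f : G →* Equiv.Perm (Fin n)) (hf : Function.Injective f) (g h : G) : g * h = h * g := by
  letI : MulAction G (Fin n) := MulAction.compHom _ f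
  have hsm : ∀ (g : G) (x : Fin n), g • x = f g x := fun g x => rfl
  have key : ∀ x : Fin n, f (g * h) x = f (h * g) x := by
    intro x
    have hcard : Nat.card (MulAction.orbit G x) = (MulAction.stabilizer G x).index := by
      rw [Subgroup.index_eq_card]
      exact Nat.card_congr (MulAction.orbitEquivQuotientStabilizer G x)
    obtain ⟨k, hk⟩ := hG.index (MulAction.stabilizer G x)
    have hle : Nat.card (MulAction.orbit G x) ≤ n := by
      have := Finite.card_subtype_le (fun y => y ∈ MulAction.orbit G x)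
      rwa [Nat.card_fin] at this
    have hk1 : k < 2 := by
      rw [hcard, hk] at hle
      exact (Nat.pow_lt_pow_iff_right hp.out.one_lt).1 (lt_of_le_of_lt hle hn)
    have hidx : (MulAction.stabilizer G x).index ≤ p := by
      rw [hk]
      calc p ^ k ≤ p ^ 1 := Nat.pow_le_pow_right hp.out.pos (by omega)
        _ = p := pow_one p
    haveI := CfsgLib.RankFour.normal_of_index_le (p := p) hG (H := MulAction.stabilizer G x) (by
      rw [← (MulAction.stabilizer G x).card_mul_index]
      exact Nat.mul_le_mul_left _ hidx)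
    have hcyc : IsCyclic (G ⧸ MulAction.stabilizer G x) := by
      have : k = 0 ∨ k = 1 := by omega
      rw [Subgroup.index_eq_card] at hk
      rcases this with rfl | rfl
      · have h1 : Subsingleton (G ⧸ MulAction.stabilizer G x) :=
          (Nat.card_eq_one_iff_unique.mp (by rw [pow_zero] at hk; exact hk)).1
        infer_instance
      · exact isCyclic_of_prime_card (p := p) (by rw [pow_one] at hk; exact hk)
    have hcm : ((g * h : G) : G ⧸ MulAction.stabilizer G x) = ((h * g : G) : G ⧸ MulAction.stabilizer G x) := by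
      letI := IsCyclic.commGroup (α := G ⧸ MulAction.stabilizer G x)
      exact mul_comm (g : G ⧸ MulAction.stabilizer G x) (h : G ⧸ MulAction.stabilizer G x)
    rw [QuotientGroup.eq, MulAction.mem_stabilizer_iff] at hcm
    have h1 : (g * h) • x = (h * g) • x := by
      conv_lhs => rw [← hcm]
      rw [smul_smul, mul_inv_cancel_left]
    exact h1
  exact hf (Equiv.ext key)

/-- a non-abelian `p`-subgroup makes Sylow subgroups non-abelian -/
theorem not_comm_of {G : Type*} [Group G] [Finite G] {p : ℕ} [hp : Fact p.Prime] (S : Sylow p G) {K : Subgroup G} (hK : IsPGroup p K)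
    {x y : G} (hx : x ∈ K) (hy : y ∈ K) (hxy : x * y ≠ y * x) : ¬ IsMulCommutative S := by
  intro hS
  obtain ⟨Q, hQ⟩ := hK.exists_le_sylow
  apply hxy
  let e := Sylow.equiv Q S
  have h1 : e ⟨x, hQ hx⟩ * e ⟨y, hQ hy⟩ = e ⟨y, hQ hy⟩ * e ⟨x, hQ hx⟩ := hS.is_comm.comm _ _
  rw [← map_mul, ← map_mul] at h1
  exact congrArg Subtype.val (e.injective h1)

theorem sign_viaEmbedding {α β : Type*} [Fintype α] [Fintype β] [DecidableEq α] [DecidableEq β] (ι : α ↪ β) (g : Equiv.Perm α) :
    Equiv.Perm.sign (Equiv.Perm.viaEmbeddingHom ι g) = Equiv.Perm.sign g := by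
  classical
  rw [Equiv.Perm.viaEmbeddingHom_apply, Equiv.Perm.viaEmbedding]
  convert Equiv.Perm.sign_extendDomain g (Equiv.ofInjective ι.1 ι.2)

/-- transfer a nonabelian even `p`-group to the alternating group -/
theorem alt_not_comm {n p : ℕ} [hp : Fact p.Prime] (S : Sylow p (alternatingGroup (Fin n))) {α : Type*} [Fintype α] [DecidableEq α]
    (ι : α ↪ Fin n) {K : Subgroup (Equiv.Perm α)} (hK : IsPGroup p K) (hs : ∀ g ∈ K, Equiv.Perm.sign g = 1) {x y : Equiv.Perm α}
    (hx : x ∈ K) (hy : y ∈ K) (hxy : x * y ≠ y * x) : ¬ IsMulCommutative S := by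
  have hmem : ∀ g ∈ K, Equiv.Perm.viaEmbeddingHom ι g ∈ alternatingGroup (Fin n) := by
    intro g hg
    rw [Equiv.Perm.mem_alternatingGroup, sign_viaEmbedding, hs g hg]
  let f : K →* alternatingGroup (Fin n) := ((Equiv.Perm.viaEmbeddingHom ι).comp K.subtype).codRestrict _ fun g => hmem g g.2
  have hf : Function.Injective f := by
    intro a b hab
    apply Subtype.ext
    exact Equiv.Perm.viaEmbeddingHom_injective ι (congrArg Subtype.val hab)
  refine not_comm_of S (K := f.range) (hK.of_surjective f.rangeRestrict f.rangeRestrict_surjective)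
    (x := f ⟨x, hx⟩) (y := f ⟨y, hy⟩) ⟨_, rfl⟩ ⟨_, rfl⟩ ?_
  intro h
  rw [← map_mul, ← map_mul] at h
  exact hxy (congrArg Subtype.val (hf h))

/-- the wreath product `C_p ≀ C_p` -/
def wrK (p : ℕ) : Subgroup (Equiv.Perm (ZMod p × ZMod p)) where
  carrier := {g | ∃ (c : ZMod p) (f : ZMod p → ZMod p), ∀ i j, g (i, j) = (i + c, j + f i)}
  one_mem' := ⟨0, 0, fun i j => by simp⟩
  mul_mem' := by
    rintro g h ⟨c, f, hg⟩ ⟨d, k, hh⟩
    refine ⟨d + c, fun i => k i + f (i + d), fun i j => ?_⟩
    show g (h (i, j)) = _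
    rw [hh, hg]
    simp only [add_assoc]
  inv_mem' := by
    rintro g ⟨c, f, hg⟩
    refine ⟨-c, fun i => - f (i - c), fun i j => ?_⟩
    rw [Equiv.Perm.inv_eq_iff_eq, hg]
    ext <;> simp [sub_eq_add_neg]

theorem wrK_pgroup (p : ℕ) [hp : Fact p.Prime] : IsPGroup p (wrK p) := by
  rintro ⟨g, c, f, hg⟩
  have h1 : ∀ m : ℕ, ∃ k : ZMod p → ZMod p, ∀ i j, (g ^ m) (i, j) = (i + m * c, j + k i) := by
    intro m
    induction m with
    | zero => exact ⟨0, fun i j => by simp⟩
    | succ m ih =>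
      obtain ⟨k, hk⟩ := ih
      refine ⟨fun i => k i + f (i + m * c), fun i j => ?_⟩
      rw [pow_succ']
      show g ((g ^ m) (i, j)) = _
      rw [hk, hg]
      ext
      · push_cast; ring
      · show j + k i + _ = j + (k i + _)
        rw [add_assoc]
  obtain ⟨k, hk⟩ := h1 p
  have h2 : ∀ m : ℕ, ∀ i j, ((g ^ p) ^ m) (i, j) = (i, j + m * k i) := by
    intro m
    induction m with
    | zero => intro i j; simp
    | succ m ih =>
      intro i j
      rw [pow_succ']
      show (g ^ p) (((g ^ p) ^ m) (i, j)) = _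
      rw [ih, hk]
      ext
      · simp
      · push_cast; ring
  refine ⟨2, Subtype.ext ?_⟩
  show g ^ p ^ 2 = 1
  rw [pow_two, pow_mul]
  apply Equiv.ext
  rintro ⟨i, j⟩
  rw [h2]
  simp

theorem wrK_noncomm (p : ℕ) [hp : Fact p.Prime] : ∃ x ∈ wrK p, ∃ y ∈ wrK p, x * y ≠ y * x := by
  let x : Equiv.Perm (ZMod p × ZMod p) :=
    { toFun := fun v => (v.1 + 1, v.2)
      invFun := fun v => (v.1 - 1, v.2)
      left_inv := fun v => by simp
      right_inv := fun v => by simp }
  let δ : ZMod p → ZMod p := fun i => if i = 0 then 1 else 0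
  let y : Equiv.Perm (ZMod p × ZMod p) :=
    { toFun := fun v => (v.1, v.2 + δ v.1)
      invFun := fun v => (v.1, v.2 - δ v.1)
      left_inv := fun v => by simp
      right_inv := fun v => by simp }
  refine ⟨x, ⟨1, 0, fun i j => by simp [x]⟩, y, ⟨0, δ, fun i j => by simp [y]⟩, fun h => ?_⟩
  have h1 := congrArg (fun g : Equiv.Perm (ZMod p × ZMod p) => (g (0, 0)).2) h
  have h2 : (0 : ZMod p) + δ 0 = (0 : ZMod p) + δ (0 + 1) := h1
  have h3 : δ 0 = 1 := if_pos rfl
  have h4 : δ (0 + 1) = 0 := by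
    show (if (0 + 1 : ZMod p) = 0 then (1 : ZMod p) else 0) = 0
    rw [if_neg]
    rw [zero_add]
    exact one_ne_zero
  rw [h3, h4, zero_add, add_zero] at h2
  exact (one_ne_zero (α := ZMod p)) h2

theorem six_group : ∃ K : Subgroup (Equiv.Perm (Fin 6)), IsPGroup 2 K ∧ (∀ g ∈ K, Equiv.Perm.sign g = 1) ∧
    ∃ x ∈ K, ∃ y ∈ K, x * y ≠ y * x := by
  obtain ⟨x, y, hx4, hy2, hxy, hsx, hsy, hne⟩ : ∃ x y : Equiv.Perm (Fin 6), x ^ 4 = 1 ∧ y ^ 2 = 1 ∧ y * x * y⁻¹ = x⁻¹ ∧
      Equiv.Perm.sign x = 1 ∧ Equiv.Perm.sign y = 1 ∧ x * y ≠ y * x := by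
    refine ⟨c[0, 1, 2, 3] * c[4, 5], c[0, 2] * c[4, 5], ?_, ?_, ?_, ?_, ?_, ?_⟩ <;> decide
  refine ⟨Subgroup.zpowers y ⊔ Subgroup.zpowers x, ?_, ?_, x, Subgroup.mem_sup_right (Subgroup.mem_zpowers x), y,
    Subgroup.mem_sup_left (Subgroup.mem_zpowers y), hne⟩
  · refine IsPGroup.to_sup_of_normal_right' ?_ ?_ ?_
    · rintro ⟨_, n, rfl⟩
      refine ⟨1, Subtype.ext ?_⟩
      show (y ^ n) ^ 2 ^ 1 = 1
      rw [pow_one, ← zpow_natCast, ← zpow_mul, mul_comm, zpow_mul, zpow_natCast, hy2, one_zpow]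
    · rintro ⟨_, n, rfl⟩
      refine ⟨2, Subtype.ext ?_⟩
      show (x ^ n) ^ 2 ^ 2 = 1
      rw [← zpow_natCast, ← zpow_mul, mul_comm, zpow_mul, zpow_natCast, show 2 ^ 2 = 4 from rfl, hx4, one_zpow]
    · rw [Subgroup.zpowers_le]
      have hmap : (Subgroup.zpowers x).map (MulAut.conj y).toMonoidHom = Subgroup.zpowers x := by
        rw [MonoidHom.map_zpowers]
        show Subgroup.zpowers (y * x * y⁻¹) = _
        rw [hxy, Subgroup.zpowers_inv]
      rw [Subgroup.mem_normalizer_iff]
      intro z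
      constructor
      · intro hz
        rw [← hmap]
        exact ⟨z, hz, rfl⟩
      · intro hz
        rw [← hmap] at hz
        obtain ⟨w, hw, hwz⟩ := hz
        have : w = z := (MulAut.conj y).injective hwz
        rwa [← this]
  · have hle : Subgroup.zpowers y ⊔ Subgroup.zpowers x ≤ (Equiv.Perm.sign (α := Fin 6)).ker := by
      refine sup_le ?_ ?_
      · rw [Subgroup.zpowers_le]; exact hsy
      · rw [Subgroup.zpowers_le]; exact hsx
    exact fun g hg => hle hg

theorem alt_sylow (n p : ℕ) (hn : 6 ≤ n) [hp : Fact p.Prime] (S : Sylow p (alternatingGroup (Fin n))) :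
    IsMulCommutative S ↔ n < p ^ 2 := by
  constructor
  · intro hS
    by_contra hlt
    push Not at hlt
    rcases hp.out.eq_two_or_odd' with h2 | hodd
    · subst h2
      obtain ⟨K, hK, hs, x, hx, y, hy, hxy⟩ := six_group
      exact alt_not_comm S (Fin.castLEEmb hn) hK hs hx hy hxy hS
    · haveI : NeZero p := ⟨hp.out.ne_zero⟩
      obtain ⟨x, hx, y, hy, hxy⟩ := wrK_noncomm p
      have hcard : Fintype.card (ZMod p × ZMod p) ≤ Fintype.card (Fin n) := by
        rw [Fintype.card_prod, ZMod.card, Fintype.card_fin, ← pow_two]; exact hlt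
      obtain ⟨ι⟩ := Function.Embedding.nonempty_of_card_le hcard
      refine alt_not_comm S ι (wrK_pgroup p) (fun g hg => ?_) hx hy hxy hS
      obtain ⟨k, hk⟩ := wrK_pgroup p ⟨g, hg⟩
      have hk' : g ^ p ^ k = 1 := congrArg Subtype.val hk
      have h1 : (Equiv.Perm.sign g) ^ p ^ k = 1 := by rw [← map_pow, hk', map_one]
      rcases Int.units_eq_one_or (Equiv.Perm.sign g) with h | h
      · exact h
      · exfalso
        rw [h, Odd.neg_one_pow (hodd.pow)] at h1
        exact absurd h1 (by decide)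
  · intro hlt
    refine ⟨⟨fun a b => ?_⟩⟩
    exact comm_of_small S.2 hlt ((alternatingGroup (Fin n)).subtype.comp (S : Subgroup (alternatingGroup (Fin n))).subtype)
      (by
        intro a b hab
        exact Subtype.ext (Subtype.ext hab)) a b

end CfsgLib.Fus21
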