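import Cfsg.Agent.LibSylAlt2

set_option autoImplicit false

/-! Sylow 2-subgroups of symmetric and alternating groups are generated by involutions. -/

namespace CfsgLib.Fus21.Alt

open Equiv Equiv.Perm CfsgLib.SylAlt CfsgLib.SylAlt2

variable {α β : Type}

theorem sec_mul (σ τ : Perm α) : (sec (σ * τ) : Perm ((α × Bool) ⊕ β)) = sec σ * sec τ := by
  ext x
  rcases x with ⟨a, b⟩ | c <;> rfl

theorem sec_one : (sec (1 : Perm α) : Perm ((α × Bool) ⊕ β)) = 1 := by
  ext x
  rcases x with ⟨a, b⟩ | c <;> rfl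

/-- the section as a homomorphism -/
def secHom (α β : Type) : Perm α →* Perm ((α × Bool) ⊕ β) where
  toFun := sec
  map_one' := sec_one
  map_mul' := sec_mul

theorem sign_sec [Fintype α] [DecidableEq α] [Fintype β] [DecidableEq β] (τ : Perm α) :
    Perm.sign (sec τ : Perm ((α × Bool) ⊕ β)) = 1 := by
  have h1 : (sec τ : Perm ((α × Bool) ⊕ β)) = Perm.sumCongr (prodCongrLeft fun _ : Bool => τ) 1 := by
    ext x
    rcases x with ⟨a, b⟩ | c <;> rfl
  rw [h1, Perm.sign_sumCongr, Perm.sign_one, mul_one, Perm.sign_prodCongrLeft]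
  simp [Int.units_mul_self]

theorem blk_of_mem [Fintype α] [DecidableEq α] [Fintype β] [DecidableEq β] [Subsingleton β]
    {P : Sylow 2 (Perm ((α × Bool) ⊕ β))} (hE : E α β ≤ P) {σ : Perm ((α × Bool) ⊕ β)} (hσ : σ ∈ P) :
    ∃ τ : Perm α, Blk σ τ :=
  blk_of_normalizes P P.isPGroup' hE σ (fun h => normalizes_self (P : Subgroup _) hσ h)

theorem sec_mem {P : Subgroup (Perm ((α × Bool) ⊕ β))} (hE : E α β ≤ P) {τ : Perm α} (hτ : τ ∈ bar P) :
    (sec τ : Perm ((α × Bool) ⊕ β)) ∈ P := by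
  obtain ⟨σ, hσ, hb⟩ := hτ
  have h1 : σ⁻¹ * sec τ ∈ E α β := by
    rw [mem_E]
    have := hb.inv.mul (blk_sec (β := β) τ)
    rwa [inv_mul_cancel] at this
  have : (sec τ : Perm ((α × Bool) ⊕ β)) = σ * (σ⁻¹ * sec τ) := by group
  rw [this]
  exact P.mul_mem hσ (hE h1)

/-- Sylow 2-subgroups of symmetric groups are generated by involutions -/
theorem sym_gen : ∀ (n : ℕ) (Ω : Type) [Fintype Ω] [DecidableEq Ω], Fintype.card Ω = n →
    ∀ (P : Sylow 2 (Perm Ω)), (P : Subgroup (Perm Ω)) ≤ Subgroup.closure {x : Perm Ω | x ∈ P ∧ x * x = 1} := by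
  intro n
  induction n using Nat.strong_induction_on with
  | _ n ih =>
    intro Ω _ _ hcard P
    by_cases hn : n ≤ 1
    · have : Subsingleton Ω := Fintype.card_le_one_iff_subsingleton.mp (by omega)
      intro x _
      rw [Subsingleton.elim x 1]; exact Subgroup.one_mem _
    have hc : Fintype.card ((Fin (n / 2) × Bool) ⊕ Fin (n % 2)) = n := by
      simp only [Fintype.card_sum, Fintype.card_prod, Fintype.card_fin, Fintype.card_bool]
      omega
    have e : Ω ≃ (Fin (n / 2) × Bool) ⊕ Fin (n % 2) := Fintype.equivOfCardEq (by rw [hcard, hc])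
    have hsub : Subsingleton (Fin (n % 2)) := Fintype.card_le_one_iff_subsingleton.mp (by
      rw [Fintype.card_fin]; omega)
    obtain ⟨e', P0, hE, hP0⟩ := exists_relabel e P
    obtain ⟨Q, hQ⟩ := exists_sylow_bar P0 hE
    have hQg := ih (n / 2) (by omega) (Fin (n / 2)) (Fintype.card_fin _) Q
    -- closure for P0
    have key : ∀ σ ∈ P0, σ ∈ Subgroup.closure {x | x ∈ P0 ∧ x * x = 1} := by
      intro σ hσ
      obtain ⟨τ, hτ⟩ := blk_of_mem hE hσ
      have hτQ : τ ∈ (Q : Subgroup _) := by rw [hQ]; exact ⟨σ, hσ, hτ⟩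
      have h1 : σ * (sec τ)⁻¹ ∈ E (Fin (n / 2)) (Fin (n % 2)) := by
        rw [mem_E]
        have := hτ.mul (blk_sec (β := Fin (n % 2)) τ).inv
        rwa [mul_inv_cancel] at this
      have h2 : (sec τ : Perm ((Fin (n / 2) × Bool) ⊕ Fin (n % 2))) ∈ Subgroup.closure {x | x ∈ P0 ∧ x * x = 1} := by
        have h3 : Subgroup.closure {x : Perm (Fin (n / 2)) | x ∈ Q ∧ x * x = 1} ≤
            (Subgroup.closure {x | x ∈ P0 ∧ x * x = 1}).comap (secHom (Fin (n / 2)) (Fin (n % 2))) := by
          rw [Subgroup.closure_le]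
          rintro x ⟨hx, hx1⟩
          refine Subgroup.subset_closure ⟨?_, ?_⟩
          · have hx' : x ∈ bar (P0 : Subgroup (Perm ((Fin (n / 2) × Bool) ⊕ Fin (n % 2)))) := by rw [← hQ]; exact hx
            exact sec_mem (P := (P0 : Subgroup (Perm ((Fin (n / 2) × Bool) ⊕ Fin (n % 2))))) hE hx'
          · show sec x * sec x = 1
            rw [← sec_mul, hx1, sec_one]
        exact h3 (hQg hτQ)
      have h4 : σ = (σ * (sec τ)⁻¹) * sec τ := by group
      rw [h4]
      refine Subgroup.mul_mem _ (Subgroup.subset_closure ⟨hE h1, ?_⟩) h2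
      have := (mem_E.1 h1).sq_eq_one
      rwa [pow_two] at this
    intro x hx
    have h1 := key _ ((hP0 x).2 hx)
    have h2 : Subgroup.closure {x | x ∈ P0 ∧ x * x = 1} ≤
        (Subgroup.closure {x : Perm Ω | x ∈ P ∧ x * x = 1}).comap (e'.symm.permCongrHom).toMonoidHom := by
      rw [Subgroup.closure_le]
      rintro y ⟨hy, hy1⟩
      refine Subgroup.subset_closure ⟨?_, ?_⟩
      · rw [← hP0]
        have : e'.permCongr (e'.symm.permCongr y) = y := by
          ext z; simp
        show e'.permCongr (e'.symm.permCongr y) ∈ P0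
        rw [this]; exact hy
      · show e'.symm.permCongrHom y * e'.symm.permCongrHom y = 1
        rw [← map_mul, hy1, map_one]
    have h3 := h2 h1
    have h4 : e'.symm.permCongr (e'.permCongr x) = x := by ext z; simp
    have h5 : e'.symm.permCongr (e'.permCongr x) ∈ Subgroup.closure {x : Perm Ω | x ∈ P ∧ x * x = 1} := h3
    rwa [h4] at h5

/-- Sylow 2-subgroups of alternating groups are generated by involutions -/
theorem alt_gen (Ω : Type) [Fintype Ω] [DecidableEq Ω] (T : Sylow 2 (alternatingGroup Ω)) :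
    (T : Subgroup (alternatingGroup Ω)) ≤ Subgroup.closure {x | x ∈ T ∧ x * x = 1} := by
  set T' : Subgroup (Perm Ω) := (T : Subgroup (alternatingGroup Ω)).map (alternatingGroup Ω).subtype with hT'
  have hT'p : IsPGroup 2 T' := T.isPGroup'.map _
  obtain ⟨P, hP⟩ := hT'p.exists_le_sylow
  have hTP : ∀ h : alternatingGroup Ω, h ∈ T ↔ (h : Perm Ω) ∈ P := by
    intro h
    constructor
    · intro hh
      exact hP (Subgroup.mem_map_of_mem _ hh)
    · intro hh
      have h1 : IsPGroup 2 ((P : Subgroup (Perm Ω)).subgroupOf (alternatingGroup Ω)) :=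
        P.isPGroup'.comap_subtype
      have h2 : (T : Subgroup (alternatingGroup Ω)) ≤ (P : Subgroup (Perm Ω)).subgroupOf (alternatingGroup Ω) := by
        intro x hx
        rw [Subgroup.mem_subgroupOf]
        exact hP (Subgroup.mem_map_of_mem _ hx)
      have h3 := T.is_maximal' h1 h2
      change h ∈ (T : Subgroup (alternatingGroup Ω))
      rw [← h3, Subgroup.mem_subgroupOf]
      exact hh
  set n := Fintype.card Ω with hn
  have hc : Fintype.card ((Fin (n / 2) × Bool) ⊕ Fin (n % 2)) = n := by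
    simp only [Fintype.card_sum, Fintype.card_prod, Fintype.card_fin, Fintype.card_bool]
    omega
  have e : Ω ≃ (Fin (n / 2) × Bool) ⊕ Fin (n % 2) := Fintype.equivOfCardEq (by rw [hc])
  have hsub : Subsingleton (Fin (n % 2)) := Fintype.card_le_one_iff_subsingleton.mp (by
    rw [Fintype.card_fin]; omega)
  obtain ⟨e', P0, hE, hP0⟩ := exists_relabel e P
  obtain ⟨Q, hQ⟩ := exists_sylow_bar P0 hE
  have hQg := sym_gen (n / 2) (Fin (n / 2)) (Fintype.card_fin _) Q
  have key : ∀ σ ∈ P0, Perm.sign σ = 1 → σ ∈ Subgroup.closure {x | x ∈ P0 ∧ Perm.sign x = 1 ∧ x * x = 1} := by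
    intro σ hσ hs
    obtain ⟨τ, hτ⟩ := blk_of_mem hE hσ
    have hτQ : τ ∈ (Q : Subgroup _) := by rw [hQ]; exact ⟨σ, hσ, hτ⟩
    have h1 : σ * (sec τ)⁻¹ ∈ E (Fin (n / 2)) (Fin (n % 2)) := by
      rw [mem_E]
      have := hτ.mul (blk_sec (β := Fin (n % 2)) τ).inv
      rwa [mul_inv_cancel] at this
    have h2 : (sec τ : Perm ((Fin (n / 2) × Bool) ⊕ Fin (n % 2))) ∈
        Subgroup.closure {x | x ∈ P0 ∧ Perm.sign x = 1 ∧ x * x = 1} := by
      have h3 : Subgroup.closure {x : Perm (Fin (n / 2)) | x ∈ Q ∧ x * x = 1} ≤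
          (Subgroup.closure {x | x ∈ P0 ∧ Perm.sign x = 1 ∧ x * x = 1}).comap (secHom (Fin (n / 2)) (Fin (n % 2))) := by
        rw [Subgroup.closure_le]
        rintro x ⟨hx, hx1⟩
        refine Subgroup.subset_closure ⟨?_, ?_, ?_⟩
        · have hx' : x ∈ bar (P0 : Subgroup (Perm ((Fin (n / 2) × Bool) ⊕ Fin (n % 2)))) := by rw [← hQ]; exact hx
          exact sec_mem (P := (P0 : Subgroup (Perm ((Fin (n / 2) × Bool) ⊕ Fin (n % 2))))) hE hx'
        · exact sign_sec x
        · show sec x * sec x = 1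
          rw [← sec_mul, hx1, sec_one]
      exact h3 (hQg hτQ)
    have h4 : σ = (σ * (sec τ)⁻¹) * sec τ := by group
    rw [h4]
    refine Subgroup.mul_mem _ (Subgroup.subset_closure ⟨hE h1, ?_, ?_⟩) h2
    · rw [Perm.sign_mul, Perm.sign_inv, sign_sec, hs, mul_one]
    · have := (mem_E.1 h1).sq_eq_one
      rwa [pow_two] at this
  intro x hx
  have h1 := key _ ((hP0 x).2 ((hTP x).1 hx)) (by rw [Perm.sign_permCongr]; exact x.2)
  have h2 : Subgroup.closure {x | x ∈ P0 ∧ Perm.sign x = 1 ∧ x * x = 1} ≤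
      ((Subgroup.closure {x : alternatingGroup Ω | x ∈ T ∧ x * x = 1}).map (alternatingGroup Ω).subtype).comap
        (e'.symm.permCongrHom).toMonoidHom := by
    rw [Subgroup.closure_le]
    rintro y ⟨hy, hys, hy1⟩
    have h5 : Perm.sign (e'.symm.permCongr y) = 1 := by rw [Perm.sign_permCongr]; exact hys
    refine ⟨⟨e'.symm.permCongr y, h5⟩, Subgroup.subset_closure ⟨?_, ?_⟩, rfl⟩
    · rw [hTP, ← hP0]
      have : e'.permCongr (e'.symm.permCongr y) = y := by
        ext z; simp
      show e'.permCongr (e'.symm.permCongr y) ∈ P0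
      rw [this]; exact hy
    · apply Subtype.ext
      show e'.symm.permCongrHom y * e'.symm.permCongrHom y = 1
      rw [← map_mul, hy1, map_one]
  obtain ⟨z, hz, hzx⟩ := h2 h1
  have h4 : e'.symm.permCongr (e'.permCongr (x : Perm Ω)) = x := by ext z; simp
  have h5 : (z : Perm Ω) = e'.symm.permCongr (e'.permCongr (x : Perm Ω)) := hzx
  have h6 : z = x := Subtype.ext (h5.trans h4)
  rw [← h6]; exact hz

end CfsgLib.Fus21.Alt
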