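import Cfsg.Agent.LibFus21Simple2
import Cfsg.Agent.LibFus21Cen
import Cfsg.Agent.LibM24f
import Cfsg.Prelude.Def_Spor_Mathieu

set_option autoImplicit false

/-! The 2-fusion systems of `M12` and `M11`. -/

namespace CfsgLib.Fus21

open Cfsg Cfsg.FusionSystem

/-- simplicity from an explicit self-normalising Sylow `p`-subgroup of a subgroup `K` of an ambient group -/
theorem simple_of_explicit {P : Type*} [Group P] [Finite P] {p : ℕ} [Fact p.Prime] {K U : Subgroup P} (hUK : U ≤ K)
    (hp : IsPGroup p U) (hne : U ≠ ⊥)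
    (hN : ∀ g ∈ K, (∀ x ∈ U, g * x * g⁻¹ ∈ U) → g ∈ U)
    (hsc : ∀ T : Subgroup P, T ≤ U → T ≠ ⊥ → (∀ g ∈ K, ∀ x ∈ T, g * x * g⁻¹ ∈ U → g * x * g⁻¹ ∈ T) → U ≤ T)
    (S : Sylow p K) : (groupFusionSystem (S : Subgroup K)).IsSimple p := by
  have hpU : IsPGroup p (U.subgroupOf K) := hp.of_equiv (Subgroup.subgroupOfEquivOfLe hUK).symm
  have hNU : ∀ g ∈ Subgroup.normalizer ((U.subgroupOf K : Subgroup K) : Set K), g ∈ U.subgroupOf K := by
    intro g hg
    rw [Subgroup.mem_subgroupOf]
    refine hN g g.2 fun x hx => ?_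
    have h1 := (Subgroup.mem_normalizer_iff.1 hg ⟨x, hUK hx⟩).1 (Subgroup.mem_subgroupOf.2 hx)
    exact Subgroup.mem_subgroupOf.1 h1
  have hdata : SimpleData p (U.subgroupOf K) := by
    refine ⟨hpU, ?_, ?_, ?_, ?_⟩
    · intro h
      apply hne
      rw [Subgroup.subgroupOf_eq_bot, disjoint_iff, inf_eq_left.2 hUK] at h
      exact h
    · intro g hg
      refine ⟨1, (Fact.out : p.Prime).one_lt.ne' ∘ Nat.dvd_one.1, ?_⟩
      rw [pow_one]; exact hNU g hg
    · intro T hTU hT hscl
      have h1 := hsc (T.map K.subtype) (by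
        rintro _ ⟨x, hx, rfl⟩
        exact Subgroup.mem_subgroupOf.1 (hTU hx)) (by
        intro h
        apply hT
        rwa [Subgroup.map_eq_bot_iff_of_injective _ K.subtype_injective] at h) (by
        rintro g hg _ ⟨x, hx, rfl⟩ hU
        refine ⟨⟨g, hg⟩ * x * ⟨g, hg⟩⁻¹, hscl ⟨g, hg⟩ x hx (Subgroup.mem_subgroupOf.2 hU), rfl⟩)
      intro x hx
      obtain ⟨y, hy, hyx⟩ := h1 (Subgroup.mem_subgroupOf.1 hx)
      have : y = x := Subtype.ext hyx
      exact this ▸ hy
    · intro g hg
      apply Subgroup.subset_closure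
      refine ⟨hg, Or.inr ⟨U.subgroupOf K, le_refl _, Subgroup.le_normalizer, fun x hx _ => hx, ?_⟩⟩
      apply Subgroup.subset_closure
      refine ⟨hg, ?_⟩
      have hgU := hNU g hg
      obtain ⟨k, hk⟩ := IsPGroup.iff_orderOf.1 hpU ⟨g, hgU⟩
      refine ⟨k, ?_⟩
      rw [← hk]
      exact (Subgroup.orderOf_mk g hgU).symm
  exact hdata.simple S

end CfsgLib.Fus21

namespace CfsgLib.Fus21.M12

open Cfsg CfsgLib.M24 CfsgLib.Golay Equiv CfsgLib.Fus21
open scoped Pointwise

def comp (P Q : List ℕ) : List ℕ := Q.map fun i => P.getD i 0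

theorem getD_comp (P Q : List ℕ) {i : ℕ} (hi : i < Q.length) : (comp P Q).getD i 0 = P.getD (Q.getD i 0) 0 := by
  have h : i < (comp P Q).length := by rw [comp, List.length_map]; exact hi
  rw [List.getD_eq_getElem _ _ h, List.getD_eq_getElem Q _ hi]
  simp only [comp, List.getElem_map]

theorem mkPerm_mul {P Q R : List ℕ} (hP : valid P = true) (hQ : valid Q = true) (hR : valid R = true)
    (h : comp P Q = R) : mkPerm P * mkPerm Q = mkPerm R := by
  ext1 p
  apply idx_injective
  rw [Perm.mul_apply, idx_mkPerm hP, idx_mkPerm hQ, idx_mkPerm hR, ← h]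
  have h1 : idx p < Q.length := by rw [(valid_spec hQ).1]; exact idx_lt p
  rw [getD_comp _ _ h1]

theorem mkPerm_inj {P Q : List ℕ} (hP : valid P = true) (hQ : valid Q = true) (h : mkPerm P = mkPerm Q) : P = Q := by
  have h1 := (valid_spec hP).1
  have h2 := (valid_spec hQ).1
  apply List.ext_getElem (h1.trans h2.symm)
  intro i hi hi'
  have h3 : idx (mkPerm P (pt i)) = idx (mkPerm Q (pt i)) := by rw [h]
  rw [idx_mkPerm hP, idx_mkPerm hQ, idx_pt i (by omega), List.getD_eq_getElem _ _ hi, List.getD_eq_getElem _ _ hi'] at h3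
  exact h3

def idL : List ℕ := [0, 1, 2, 3, 4, 5, 6, 7, 8, 9, 10, 11, 12, 13, 14, 15, 16, 17, 18, 19, 20, 21, 22, 23]

theorem valid_idL : valid idL = true := by decide +kernel

theorem mkPerm_idL : mkPerm idL = 1 := by
  have h : ∀ p : GolayPt, pt (idL.getD (idx p) 0) = p := by decide +kernel
  ext1 p
  rw [mkPerm_apply (pfun_bijective valid_idL), pfun, h]; rfl

/-- the Boolean test for the multiplication data -/
def closedCheck (gens L : List (List ℕ)) : Bool :=
  and (L.all valid) (and (gens.all valid) (L.all fun P => gens.all fun Q => L.any fun R => decide (comp P Q = R)))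

def wordsCheck (gens L : List (List ℕ)) (W : List (ℕ × ℕ)) : Bool :=
  (List.range L.length).all fun i => or (Nat.beq i 0) (and (Nat.blt (W.getD i (0, 0)).1 i)
    (and (Nat.blt (W.getD i (0, 0)).2 gens.length) (decide (comp (L.getD (W.getD i (0, 0)).1 []) (gens.getD (W.getD i (0, 0)).2 []) = L.getD i []))))

/-- the group generated by the permutations in the list -/
def Ugp (gens : List (List ℕ)) : Subgroup (Perm GolayPt) := Subgroup.closure {g | ∃ Q ∈ gens, g = mkPerm Q}

theorem mem_Ugp {gens : List (List ℕ)} {Q : List ℕ} (h : Q ∈ gens) : mkPerm Q ∈ Ugp gens :=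
  Subgroup.subset_closure ⟨Q, h, rfl⟩

theorem mem_of_closed {gens L : List (List ℕ)} (h : closedCheck gens L = true) (hid : idL ∈ L) :
    ∀ g ∈ Ugp gens, ∃ P ∈ L, g = mkPerm P := by
  rw [closedCheck, Bool.and_eq_true, Bool.and_eq_true, List.all_eq_true, List.all_eq_true, List.all_eq_true] at h
  obtain ⟨h1, h2, h3⟩ := h
  have key : ∀ q, (∃ Q ∈ gens, q = mkPerm Q) → ∀ g, (∃ P ∈ L, g = mkPerm P) → ∃ P ∈ L, g * q = mkPerm P := by
    rintro _ ⟨Q, hQ, rfl⟩ _ ⟨P, hP, rfl⟩
    have h4 := h3 P hP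
    rw [List.all_eq_true] at h4
    have h5 := h4 Q hQ
    rw [List.any_eq_true] at h5
    obtain ⟨R, hR, h6⟩ := h5
    exact ⟨R, hR, mkPerm_mul (h1 P hP) (h2 Q hQ) (h1 R hR) (of_decide_eq_true h6)⟩
  have key2 : ∀ q, (∃ Q ∈ gens, q = mkPerm Q) → ∀ n : ℕ, ∀ g, (∃ P ∈ L, g = mkPerm P) → ∃ P ∈ L, g * q ^ n = mkPerm P := by
    intro q hq n
    induction n with
    | zero => intro g hg; rw [pow_zero, mul_one]; exact hg
    | succ n ih =>
      intro g hg
      rw [pow_succ, ← mul_assoc]
      exact key q hq _ (ih g hg)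
  intro g hg
  refine Subgroup.closure_induction_right (p := fun x _ => ∃ P ∈ L, x = mkPerm P) ⟨idL, hid, mkPerm_idL.symm⟩ ?_ ?_ hg
  · intro x _ y hy hx
    exact key y hy x hx
  · intro x _ y hy hx
    have h4 : y⁻¹ = y ^ (orderOf y - 1) := by
      have h5 : 0 < orderOf y := orderOf_pos y
      apply inv_eq_of_mul_eq_one_right
      rw [← pow_succ', Nat.sub_add_cancel h5, pow_orderOf_eq_one]
    rw [h4]
    exact key2 y hy _ x hx

theorem mem_of_words {gens L : List (List ℕ)} {W : List (ℕ × ℕ)} (h : closedCheck gens L = true)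
    (hW : wordsCheck gens L W = true) (h0 : L.getD 0 [] = idL) : ∀ P ∈ L, mkPerm P ∈ Ugp gens := by
  rw [closedCheck, Bool.and_eq_true, Bool.and_eq_true, List.all_eq_true, List.all_eq_true] at h
  obtain ⟨h1, h2, -⟩ := h
  rw [wordsCheck, List.all_eq_true] at hW
  have key : ∀ i < L.length, mkPerm (L.getD i []) ∈ Ugp gens := by
    intro i
    induction i using Nat.strong_induction_on with
    | _ i ih =>
      intro hi
      have h3 := hW i (List.mem_range.2 hi)
      rw [Bool.or_eq_true] at h3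
      rcases h3 with h3 | h3
      · have : i = 0 := beq_iff.1 h3
        subst this
        rw [h0, mkPerm_idL]; exact Subgroup.one_mem _
      · rw [Bool.and_eq_true, Bool.and_eq_true, Nat.blt_eq, Nat.blt_eq] at h3
        obtain ⟨h4, h5, h6⟩ := h3
        have h7 : (L.getD (W.getD i (0, 0)).1 []) ∈ L := by
          rw [List.getD_eq_getElem _ _ (by omega)]; exact List.getElem_mem _
        have h8 : (gens.getD (W.getD i (0, 0)).2 []) ∈ gens := by
          rw [List.getD_eq_getElem _ _ (by omega)]; exact List.getElem_mem _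
        have h9 : L.getD i [] ∈ L := by
          rw [List.getD_eq_getElem _ _ (by omega)]; exact List.getElem_mem _
        rw [← mkPerm_mul (h1 _ h7) (h2 _ h8) (h1 _ h9) (of_decide_eq_true h6)]
        exact Subgroup.mul_mem _ (ih _ h4 (by omega)) (mem_Ugp h8)
  intro P hP
  obtain ⟨i, hi, rfl⟩ := List.getElem_of_mem hP
  have := key i hi
  rwa [List.getD_eq_getElem _ _ hi] at this

theorem card_Ugp {gens L : List (List ℕ)} {W : List (ℕ × ℕ)} (h : closedCheck gens L = true)
    (hW : wordsCheck gens L W = true) (h0 : L.getD 0 [] = idL) (hid : idL ∈ L) (hnd : L.Nodup) :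
    Nat.card (Ugp gens) = L.length := by
  have h1 : L.all valid = true := by
    rw [closedCheck, Bool.and_eq_true] at h; exact h.1
  rw [List.all_eq_true] at h1
  have h2 : (L.map mkPerm).Nodup := by
    refine (List.nodup_map_iff_inj_on hnd).2 fun P hP Q hQ hPQ => mkPerm_inj (h1 P hP) (h1 Q hQ) hPQ
  have h3 : ((Ugp gens : Subgroup (Perm GolayPt)) : Set (Perm GolayPt)) = ((⟨L.map mkPerm, h2⟩ : Finset (Perm GolayPt)) : Set (Perm GolayPt)) := by
    ext g
    rw [Finset.mem_coe, SetLike.mem_coe]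
    show _ ↔ g ∈ L.map mkPerm
    rw [List.mem_map]
    constructor
    · intro hg
      obtain ⟨P, hP, rfl⟩ := mem_of_closed h hid g hg
      exact ⟨P, hP, rfl⟩
    · rintro ⟨P, hP, rfl⟩
      exact mem_of_words h hW h0 P hP
  rw [← SetLike.coe_sort_coe, h3, Nat.card_coe_set_eq, Set.ncard_coe_finset]
  show (L.map mkPerm).length = _
  rw [List.length_map]

/-- the centre test -/
def centreCheck (gens L : List (List ℕ)) (z : List ℕ) : Bool :=
  L.all fun P => or (gens.any fun Q => decide (comp P Q ≠ comp Q P)) (or (decide (P = idL)) (decide (P = z)))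

theorem centre_of {gens L : List (List ℕ)} {z : List ℕ} (h : closedCheck gens L = true) (hid : idL ∈ L)
    (hz : centreCheck gens L z = true) (x : Perm GolayPt) (hx : x ∈ Ugp gens) (hx1 : x ≠ 1)
    (hc : ∀ u ∈ Ugp gens, u * x = x * u) : x = mkPerm z := by
  obtain ⟨P, hP, rfl⟩ := mem_of_closed h hid x hx
  rw [closedCheck, Bool.and_eq_true, Bool.and_eq_true, List.all_eq_true, List.all_eq_true, List.all_eq_true] at h
  obtain ⟨h1, h2, h3⟩ := h
  rw [centreCheck, List.all_eq_true] at hz
  have h4 := hz P hP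
  rw [Bool.or_eq_true, Bool.or_eq_true] at h4
  rcases h4 with h4 | h4 | h4
  · exfalso
    rw [List.any_eq_true] at h4
    obtain ⟨Q, hQ, h5⟩ := h4
    apply of_decide_eq_true h5
    have h6 := hc _ (mem_Ugp hQ)
    have hPQ : ∀ i < 24, (P.getD (Q.getD i 0) 0) = (Q.getD (P.getD i 0) 0) := by
      intro i hi
      have h7 := congrArg (fun σ : Perm GolayPt => idx (σ (pt i))) h6
      simp only [Perm.mul_apply] at h7
      rw [idx_mkPerm (h2 Q hQ), idx_mkPerm (h1 P hP), idx_mkPerm (h1 P hP), idx_mkPerm (h2 Q hQ), idx_pt i hi] at h7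
      exact h7.symm
    have l1 := (valid_spec (h1 P hP)).1
    have l2 := (valid_spec (h2 Q hQ)).1
    apply List.ext_getElem
    · rw [comp, comp, List.length_map, List.length_map, l1, l2]
    · intro i hi hi'
      rw [comp, List.length_map] at hi hi'
      have := hPQ i (by omega)
      rw [List.getD_eq_getElem Q _ hi, List.getD_eq_getElem P _ hi'] at this
      simp only [comp, List.getElem_map]
      exact this
  · exfalso
    apply hx1
    rw [of_decide_eq_true h4, mkPerm_idL]
  · rw [of_decide_eq_true h4]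

theorem conj_eq {g x y : List ℕ} (hg : valid g = true) (hx : valid x = true) (hy : valid y = true)
    (h : comp g x = comp y g) : mkPerm g * mkPerm x * (mkPerm g)⁻¹ = mkPerm y := by
  rw [mul_inv_eq_iff_eq_mul]
  ext1 p
  apply idx_injective
  rw [Perm.mul_apply, Perm.mul_apply, idx_mkPerm hg, idx_mkPerm hx, idx_mkPerm hy, idx_mkPerm hg]
  have l1 := (valid_spec hx).1
  have l2 := (valid_spec hg).1
  have h1 : idx p < x.length := by rw [l1]; exact idx_lt p
  have h2 : idx p < g.length := by rw [l2]; exact idx_lt p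
  rw [← getD_comp g x h1, h, getD_comp y g h2]

theorem conj_notin {gens L : List (List ℕ)} (h : closedCheck gens L = true) (hid : idL ∈ L) {g x : List ℕ}
    (hg : valid g = true) (hx : valid x = true) (hn : (L.all fun P => decide (comp g x ≠ comp P g)) = true) :
    mkPerm g * mkPerm x * (mkPerm g)⁻¹ ∉ Ugp gens := by
  intro hm
  obtain ⟨P, hP, h1⟩ := mem_of_closed h hid _ hm
  rw [List.all_eq_true] at hn
  have h2 := of_decide_eq_true (hn P hP)
  apply h2
  rw [closedCheck, Bool.and_eq_true, List.all_eq_true] at h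
  have hPv := h.1 P hP
  rw [mul_inv_eq_iff_eq_mul] at h1
  have l1 := (valid_spec hx).1
  have l2 := (valid_spec hg).1
  apply List.ext_getElem
  · rw [comp, comp, List.length_map, List.length_map, l1, l2]
  · intro i hi hi'
    rw [comp, List.length_map] at hi hi'
    have h7 := congrArg (fun σ : Perm GolayPt => idx (σ (pt i))) h1
    simp only [Perm.mul_apply] at h7
    rw [idx_mkPerm hg, idx_mkPerm hx, idx_mkPerm hPv, idx_mkPerm hg, idx_pt i (by omega)] at h7
    rw [List.getD_eq_getElem x _ hi, List.getD_eq_getElem g _ hi'] at h7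
    simp only [comp, List.getElem_map]
    exact h7

end CfsgLib.Fus21.M12
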