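import Cfsg.Agent.LibFus21M12a

set_option autoImplicit false

namespace CfsgLib.Fus21.M12

open Cfsg CfsgLib.M24 CfsgLib.Golay Equiv CfsgLib.Fus21
open scoped Pointwise

/-! ### membership -/

theorem D_eq : Spor.squareDodecad = fset 340831 := by
  rw [Spor.squareDodecad, ← support_word]
  congr 1
  funext p
  revert p
  decide +kernel

theorem D_mem : Spor.squareDodecad ∈ dodecads := by
  rw [D_eq]
  refine ⟨?_, ?_⟩
  · exact isCW_mem_supports (by decide +kernel)
  · rw [card_fset]; decide +kernel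

def in12 (P : List ℕ) : Bool := and (isM24 P) (Nat.beq (pmask P 340831) 340831)

theorem in12_spec {P : List ℕ} (h : in12 P = true) : mkPerm P ∈ Spor.M12 := by
  rw [in12, Bool.and_eq_true] at h
  refine ⟨isM24_spec h.1, ?_⟩
  show mkPerm P • Spor.squareDodecad = Spor.squareDodecad
  rw [D_eq, smul_fset (valid_of_isM24 h.1), beq_iff.1 h.2]

def in11 (P : List ℕ) : Bool := and (in12 P) (Nat.beq (P.getD 0 0) 0)

theorem pt0 : (some 0 : GolayPt) = pt 0 := by decide +kernel

theorem in12_valid {P : List ℕ} (h : in12 P = true) : valid P = true := by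
  rw [in12, Bool.and_eq_true] at h; exact valid_of_isM24 h.1

theorem in11_valid {P : List ℕ} (h : in11 P = true) : valid P = true := by
  rw [in11, Bool.and_eq_true] at h; exact in12_valid h.1

theorem in11_spec {P : List ℕ} (h : in11 P = true) : mkPerm P ∈ Spor.M11 := by
  have h' := h
  rw [in11, Bool.and_eq_true] at h
  refine ⟨in12_spec h.1, ?_⟩
  show mkPerm P (some 0) = some 0
  rw [pt0]
  apply idx_injective
  rw [idx_mkPerm (in11_valid h'), idx_pt 0 (by norm_num)]
  exact beq_iff.1 h.2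

/-! ### stabilisers -/

theorem card_stab4 {d X : Finset GolayPt} (hd : d ∈ dodecads) (hX : X ⊆ d) (hc : X.card = 4) :
    Nat.card ↥(M24 ⊓ StS d ⊓ StS X) = 192 := by
  have h1 := card_inf_stabilizer (M24 ⊓ StS d) X
  have h2 : MulAction.orbit ↥(M24 ⊓ StS d) X = ((d.powersetCard 4 : Finset (Finset GolayPt)) : Set (Finset GolayPt)) := by
    ext Y
    rw [MulAction.mem_orbit_iff, Finset.mem_coe, Finset.mem_powersetCard]
    constructor
    · rintro ⟨g, rfl⟩
      refine ⟨?_, ?_⟩
      · intro x hx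
        obtain ⟨y, hy, rfl⟩ := Finset.mem_smul_finset.1 hx
        exact (mem_of_smul_eq g.2.2 y).2 (hX hy)
      · show (((g : Perm GolayPt) • X : Finset GolayPt)).card = 4
        rw [Finset.card_smul_finset, hc]
    · rintro ⟨hY, hYc⟩
      have key : ∀ X : Finset GolayPt, X.card = 4 → ∃ a b c e : GolayPt, a ≠ b ∧ a ≠ c ∧ a ≠ e ∧ b ≠ c ∧ b ≠ e ∧ c ≠ e ∧
          X = {a, b, c, e} := by
        intro X hX
        obtain ⟨a, t, hat, rfl, ht⟩ := Finset.card_eq_succ.1 hX
        obtain ⟨b, c, e, h1, h2, h3, rfl⟩ := Finset.card_eq_three.1 ht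
        simp only [Finset.mem_insert, Finset.mem_singleton, not_or] at hat
        exact ⟨a, b, c, e, hat.1, hat.2.1, hat.2.2, h1, h2, h3, rfl⟩
      obtain ⟨a, b, c, e, n1, n2, n3, n4, n5, n6, rfl⟩ := key X hc
      obtain ⟨a', b', c', e', m1, m2, m3, m4, m5, m6, rfl⟩ := key Y hYc
      obtain ⟨g, hg, e1, e2, e3, e4⟩ := (five_dodecad hd).four (by rw [hd.2]; norm_num)
        (hX (by simp)) (hX (by simp)) (hX (by simp)) (hX (by simp))
        (hY (by simp)) (hY (by simp)) (hY (by simp)) (hY (by simp)) n1 n2 n3 n4 n5 n6 m1 m2 m3 m4 m5 m6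
      refine ⟨⟨g, hg⟩, ?_⟩
      show (g • ({a, b, c, e} : Finset GolayPt)) = _
      rw [← e1, ← e2, ← e3, ← e4]
      rw [Finset.smul_finset_insert, Finset.smul_finset_insert, Finset.smul_finset_insert, Finset.smul_finset_singleton]
      rfl
  rw [h2, Set.ncard_coe_finset, Finset.card_powersetCard, hd.2, card_M12 hd] at h1
  have h3 : Nat.choose 12 4 = 495 := by decide
  rw [h3] at h1
  change Nat.card ↥(M24 ⊓ StS d ⊓ MulAction.stabilizer (Equiv.Perm GolayPt) X) = 192
  omega

theorem card_stab3 {d X : Finset GolayPt} {q : GolayPt} (hd : d ∈ dodecads) (hq : q ∈ d) (hX : X ⊆ d) (hqX : q ∉ X)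
    (hc : X.card = 3) : Nat.card ↥(M24 ⊓ StS d ⊓ St q ⊓ StS X) = 48 := by
  have h1 := card_inf_stabilizer (M24 ⊓ StS d ⊓ St q) X
  have h2 : MulAction.orbit ↥(M24 ⊓ StS d ⊓ St q) X =
      (((d.erase q).powersetCard 3 : Finset (Finset GolayPt)) : Set (Finset GolayPt)) := by
    ext Y
    rw [MulAction.mem_orbit_iff, Finset.mem_coe, Finset.mem_powersetCard]
    constructor
    · rintro ⟨g, rfl⟩
      refine ⟨?_, ?_⟩
      · intro x hx
        obtain ⟨y, hy, rfl⟩ := Finset.mem_smul_finset.1 hx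
        rw [Finset.mem_erase]
        refine ⟨?_, (mem_of_smul_eq g.2.1.2 y).2 (hX hy)⟩
        intro h
        apply hqX
        have h5 : (g : Perm GolayPt) q = q := g.2.2
        have h6 : y = q := (g : Perm GolayPt).injective (by rw [h5]; exact h)
        rw [← h6]; exact hy
      · show (((g : Perm GolayPt) • X : Finset GolayPt)).card = 3
        rw [Finset.card_smul_finset, hc]
    · rintro ⟨hY, hYc⟩
      obtain ⟨b, c, e, n4, n5, n6, rfl⟩ := Finset.card_eq_three.1 hc
      obtain ⟨b', c', e', m4, m5, m6, rfl⟩ := Finset.card_eq_three.1 hYc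
      simp only [Finset.mem_insert, Finset.mem_singleton, not_or] at hqX
      have hb := Finset.mem_erase.1 (hY (show b' ∈ _ by simp))
      have hc' := Finset.mem_erase.1 (hY (show c' ∈ _ by simp))
      have he := Finset.mem_erase.1 (hY (show e' ∈ _ by simp))
      obtain ⟨g, hg, e1, e2, e3, e4⟩ := (five_dodecad hd).four (by rw [hd.2]; norm_num)
        hq (hX (by simp)) (hX (by simp)) (hX (by simp))
        hq hb.2 hc'.2 he.2 hqX.1 hqX.2.1 hqX.2.2 n4 n5 n6 (Ne.symm hb.1) (Ne.symm hc'.1) (Ne.symm he.1) m4 m5 m6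
      refine ⟨⟨g, ⟨hg, e1⟩⟩, ?_⟩
      show (g • ({b, c, e} : Finset GolayPt)) = _
      rw [← e2, ← e3, ← e4]
      rw [Finset.smul_finset_insert, Finset.smul_finset_insert, Finset.smul_finset_singleton]
      rfl
  rw [h2, Set.ncard_coe_finset, Finset.card_powersetCard, Finset.card_erase_of_mem hq, hd.2, card_M11 hd hq] at h1
  have h3 : Nat.choose (12 - 1) 3 = 165 := by decide
  rw [h3] at h1
  change Nat.card ↥(M24 ⊓ StS d ⊓ St q ⊓ MulAction.stabilizer (Equiv.Perm GolayPt) X) = 48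
  omega

/-- a subgroup of index 3, with an element of the big group not normalising it -/
theorem self_norm {P : Type*} [Group P] [Finite P] {U H K : Subgroup P} (hUH : U ≤ H)
    (hc : Nat.card H = 3 * Nat.card U) (hN : ∀ g ∈ K, (∀ x ∈ U, g * x * g⁻¹ ∈ U) → g ∈ H)
    {h u : P} (hh : h ∈ H) (hu : u ∈ U) (hhu : h * u * h⁻¹ ∉ U) :
    ∀ g ∈ K, (∀ x ∈ U, g * x * g⁻¹ ∈ U) → g ∈ U := by
  intro g hg hgU
  have hgH := hN g hg hgU
  have hgN : g ∈ Subgroup.normalizer (U : Set P) ⊓ H := by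
    exact ⟨Subgroup.mem_normalizer_fintype hgU, hgH⟩
  have h1 : U ≤ Subgroup.normalizer (U : Set P) ⊓ H := le_inf Subgroup.le_normalizer hUH
  obtain ⟨m, hm⟩ := Subgroup.card_dvd_of_le h1
  obtain ⟨n, hn⟩ := Subgroup.card_dvd_of_le (inf_le_right : Subgroup.normalizer (U : Set P) ⊓ H ≤ H)
  have hpos : 0 < Nat.card U := Nat.card_pos
  rw [hc, hm] at hn
  have h3 : 3 = m * n := by
    have : Nat.card U * 3 = Nat.card U * (m * n) := by rw [← mul_assoc, ← hn, mul_comm]
    exact Nat.eq_of_mul_eq_mul_left hpos this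
  have h4 : m = 1 ∨ m = 3 := (Nat.dvd_prime Nat.prime_three).1 ⟨n, h3⟩
  rcases h4 with rfl | rfl
  · rw [mul_one] at hm
    have h5 : U = Subgroup.normalizer (U : Set P) ⊓ H := Subgroup.eq_of_le_of_card_ge h1 hm.le
    rw [h5]; exact hgN
  · exfalso
    have h5 : Subgroup.normalizer (U : Set P) ⊓ H = H :=
      Subgroup.eq_of_le_of_card_ge inf_le_right (by rw [hc, hm, mul_comm])
    have h6 : h ∈ Subgroup.normalizer (U : Set P) ⊓ H := by rw [h5]; exact hh
    exact hhu ((Subgroup.mem_normalizer_iff.1 h6.1 u).1 hu)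

end CfsgLib.Fus21.M12
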