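import Cfsg.Agent.LibFus21M12b

set_option autoImplicit false

namespace CfsgLib.Fus21.M12

open Cfsg CfsgLib.M24 CfsgLib.Golay Equiv CfsgLib.Fus21
open scoped Pointwise

def z_12 : List ℕ := [0, 2, 1, 9, 16, 15, 6, 21, 18, 3, 14, 11, 12, 13, 10, 5, 4, 20, 8, 19, 17, 7, 22, 23]

def t1_12 : List ℕ := [0, 1, 2, 9, 8, 15, 6, 7, 4, 3, 17, 22, 13, 12, 20, 5, 18, 10, 16, 19, 14, 21, 11, 23]

def t2_12 : List ℕ := [0, 3, 9, 1, 4, 21, 6, 15, 18, 2, 14, 11, 13, 12, 10, 7, 16, 17, 8, 23, 20, 5, 22, 19]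

def t3_12 : List ℕ := [12, 1, 2, 9, 16, 5, 13, 21, 8, 3, 14, 23, 0, 6, 10, 15, 4, 17, 18, 22, 20, 7, 19, 11]

def x_12 : List ℕ := [12, 9, 3, 2, 18, 21, 13, 15, 16, 1, 17, 19, 0, 6, 20, 7, 8, 10, 4, 11, 14, 5, 23, 22]

def y_12 : List ℕ := [6, 4, 16, 8, 1, 14, 0, 17, 3, 18, 15, 23, 13, 12, 5, 10, 2, 7, 9, 22, 21, 20, 19, 11]

def g1_12 : List ℕ := [0, 18, 16, 8, 13, 17, 6, 14, 3, 4, 5, 23, 1, 2, 15, 10, 12, 11, 9, 21, 22, 20, 19, 7]

def g2_12 : List ℕ := [6, 12, 13, 2, 8, 14, 16, 7, 3, 9, 23, 22, 4, 0, 19, 10, 18, 21, 1, 11, 5, 15, 17, 20]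

def g3_12 : List ℕ := [18, 0, 2, 16, 8, 5, 1, 22, 12, 6, 20, 17, 9, 4, 23, 19, 13, 21, 3, 7, 11, 14, 10, 15]

def g4_12 : List ℕ := [2, 6, 13, 16, 3, 19, 18, 7, 12, 4, 14, 5, 1, 8, 10, 22, 9, 23, 0, 17, 11, 21, 20, 15]

def h_12 : List ℕ := [0, 1, 2, 18, 16, 15, 12, 17, 9, 8, 10, 11, 6, 13, 14, 5, 4, 7, 3, 19, 21, 20, 23, 22]

def hu_12 : List ℕ := [0, 1, 2, 9, 8, 15, 6, 7, 4, 3, 17, 22, 13, 12, 20, 5, 18, 10, 16, 19, 14, 21, 11, 23]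

def L_12 : List (List ℕ) := [[0, 1, 2, 3, 4, 5, 6, 7, 8, 9, 10, 11, 12, 13, 14, 15, 16, 17, 18, 19, 20, 21, 22, 23],
  [0, 1, 2, 9, 8, 15, 6, 7, 4, 3, 17, 22, 13, 12, 20, 5, 18, 10, 16, 19, 14, 21, 11, 23],
  [0, 3, 9, 1, 4, 21, 6, 15, 18, 2, 14, 11, 13, 12, 10, 7, 16, 17, 8, 23, 20, 5, 22, 19],
  [12, 1, 2, 9, 16, 5, 13, 21, 8, 3, 14, 23, 0, 6, 10, 15, 4, 17, 18, 22, 20, 7, 19, 11],
  [6, 4, 16, 8, 1, 14, 0, 17, 3, 18, 15, 23, 13, 12, 5, 10, 2, 7, 9, 22, 21, 20, 19, 11],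
  [0, 9, 3, 1, 8, 21, 6, 5, 16, 2, 20, 22, 12, 13, 17, 7, 18, 10, 4, 23, 14, 15, 11, 19],
  [13, 1, 2, 3, 18, 15, 12, 21, 4, 9, 20, 23, 0, 6, 17, 5, 8, 10, 16, 11, 14, 7, 19, 22],
  [6, 8, 18, 4, 1, 20, 0, 10, 9, 16, 5, 23, 12, 13, 15, 17, 2, 7, 3, 11, 21, 14, 19, 22],
  [0, 3, 9, 2, 18, 7, 6, 15, 4, 1, 17, 22, 12, 13, 20, 21, 8, 14, 16, 23, 10, 5, 11, 19],
  [13, 3, 9, 2, 16, 21, 12, 5, 18, 1, 10, 19, 0, 6, 14, 7, 4, 17, 8, 22, 20, 15, 23, 11],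
  [6, 4, 16, 18, 3, 10, 0, 17, 1, 8, 7, 19, 12, 13, 21, 14, 9, 15, 2, 22, 5, 20, 23, 11],
  [12, 1, 2, 3, 8, 15, 13, 21, 16, 9, 17, 19, 6, 0, 20, 5, 18, 14, 4, 22, 10, 7, 23, 11],
  [12, 9, 3, 1, 16, 7, 13, 15, 18, 2, 10, 23, 6, 0, 14, 21, 4, 17, 8, 11, 20, 5, 19, 22],
  [13, 16, 4, 8, 1, 10, 12, 17, 9, 18, 15, 11, 6, 0, 5, 14, 2, 21, 3, 19, 7, 20, 22, 23],
  [13, 4, 16, 18, 2, 14, 12, 20, 3, 8, 5, 11, 6, 0, 15, 10, 1, 7, 9, 19, 21, 17, 22, 23],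
  [0, 9, 3, 2, 16, 7, 6, 5, 8, 1, 10, 11, 13, 12, 14, 21, 4, 20, 18, 23, 17, 15, 22, 19],
  [12, 9, 3, 2, 18, 21, 13, 15, 16, 1, 17, 19, 0, 6, 20, 7, 8, 10, 4, 11, 14, 5, 23, 22],
  [6, 8, 18, 16, 9, 17, 0, 10, 1, 4, 7, 19, 13, 12, 21, 20, 3, 5, 2, 11, 15, 14, 23, 22],
  [13, 1, 2, 9, 4, 5, 12, 21, 18, 3, 10, 19, 6, 0, 14, 15, 16, 20, 8, 11, 17, 7, 23, 22],
  [13, 3, 9, 1, 18, 7, 12, 5, 16, 2, 17, 23, 6, 0, 20, 21, 8, 10, 4, 22, 14, 15, 19, 11],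
  [12, 18, 8, 4, 1, 17, 13, 10, 3, 16, 5, 22, 6, 0, 15, 20, 2, 21, 9, 19, 7, 14, 11, 23],
  [12, 8, 18, 16, 2, 20, 13, 14, 9, 4, 15, 22, 6, 0, 5, 17, 1, 7, 3, 19, 21, 10, 11, 23],
  [0, 2, 1, 3, 18, 5, 6, 21, 16, 9, 20, 22, 13, 12, 17, 15, 8, 14, 4, 19, 10, 7, 11, 23],
  [12, 3, 9, 1, 8, 7, 13, 5, 4, 2, 20, 19, 0, 6, 17, 21, 18, 14, 16, 11, 10, 15, 23, 22],
  [6, 18, 8, 4, 3, 20, 0, 14, 2, 16, 21, 19, 13, 12, 7, 17, 9, 15, 1, 11, 5, 10, 23, 22],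
  [13, 2, 1, 3, 16, 15, 12, 7, 8, 9, 14, 19, 6, 0, 10, 5, 4, 17, 18, 11, 20, 21, 23, 22],
  [12, 16, 4, 18, 3, 14, 13, 17, 2, 8, 7, 11, 6, 0, 21, 10, 9, 5, 1, 23, 15, 20, 22, 19],
  [12, 4, 16, 8, 9, 10, 13, 20, 1, 18, 21, 11, 6, 0, 7, 14, 3, 15, 2, 23, 5, 17, 22, 19],
  [6, 1, 2, 9, 18, 15, 0, 7, 16, 3, 20, 11, 12, 13, 17, 5, 8, 14, 4, 23, 10, 21, 22, 19],
  [13, 8, 18, 16, 1, 20, 12, 14, 3, 4, 5, 11, 0, 6, 15, 17, 2, 21, 9, 23, 7, 10, 22, 19],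
  [6, 9, 3, 2, 4, 7, 0, 5, 18, 1, 14, 22, 12, 13, 10, 21, 16, 17, 8, 19, 20, 15, 11, 23],
  [13, 16, 4, 18, 9, 14, 12, 17, 1, 8, 21, 22, 0, 6, 7, 10, 3, 15, 2, 19, 5, 20, 11, 23],
  [6, 16, 4, 18, 2, 10, 0, 20, 9, 8, 5, 23, 13, 12, 15, 14, 1, 21, 3, 22, 7, 17, 19, 11],
  [13, 4, 16, 8, 3, 10, 12, 20, 2, 18, 7, 22, 0, 6, 21, 14, 9, 5, 1, 19, 15, 17, 11, 23],
  [13, 18, 8, 4, 2, 17, 12, 10, 9, 16, 15, 11, 0, 6, 5, 20, 1, 7, 3, 23, 21, 14, 22, 19],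
  [12, 2, 1, 3, 4, 15, 13, 7, 18, 9, 10, 23, 0, 6, 14, 5, 16, 20, 8, 22, 17, 21, 19, 11],
  [0, 2, 1, 9, 16, 15, 6, 21, 18, 3, 14, 11, 12, 13, 10, 5, 4, 20, 8, 19, 17, 7, 22, 23],
  [13, 9, 3, 1, 4, 7, 12, 15, 8, 2, 14, 19, 0, 6, 10, 21, 16, 20, 18, 22, 17, 5, 23, 11],
  [6, 16, 4, 8, 9, 14, 0, 20, 2, 18, 21, 19, 12, 13, 7, 10, 3, 5, 1, 22, 15, 17, 23, 11],
  [12, 2, 1, 9, 18, 5, 13, 7, 4, 3, 20, 19, 6, 0, 17, 15, 8, 10, 16, 22, 14, 21, 23, 11],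
  [13, 18, 8, 16, 9, 20, 12, 10, 2, 4, 7, 22, 6, 0, 21, 17, 3, 15, 1, 23, 5, 14, 11, 19],
  [13, 8, 18, 4, 3, 17, 12, 14, 1, 16, 21, 22, 6, 0, 7, 20, 9, 5, 2, 23, 15, 10, 11, 19],
  [6, 1, 2, 3, 16, 5, 0, 7, 18, 9, 14, 22, 13, 12, 10, 15, 4, 20, 8, 23, 17, 21, 11, 19],
  [12, 4, 16, 18, 1, 14, 13, 20, 9, 8, 15, 22, 0, 6, 5, 10, 2, 21, 3, 23, 7, 17, 11, 19],
  [6, 3, 9, 2, 8, 7, 0, 15, 16, 1, 20, 11, 13, 12, 17, 21, 18, 10, 4, 19, 14, 5, 22, 23],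
  [12, 18, 8, 16, 3, 20, 13, 10, 1, 4, 21, 11, 0, 6, 7, 17, 9, 5, 2, 19, 15, 14, 22, 23],
  [6, 18, 8, 16, 2, 17, 0, 14, 3, 4, 15, 23, 12, 13, 5, 20, 1, 21, 9, 11, 7, 10, 19, 22],
  [12, 8, 18, 4, 9, 17, 13, 14, 2, 16, 7, 11, 0, 6, 21, 20, 3, 15, 1, 19, 5, 10, 22, 23],
  [12, 16, 4, 8, 2, 10, 13, 17, 3, 18, 5, 22, 0, 6, 15, 14, 1, 7, 9, 23, 21, 20, 11, 19],
  [13, 2, 1, 9, 8, 5, 12, 7, 16, 3, 17, 23, 0, 6, 20, 15, 18, 14, 4, 11, 10, 21, 19, 22],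
  [12, 3, 9, 2, 4, 21, 13, 5, 8, 1, 14, 23, 6, 0, 10, 7, 16, 20, 18, 11, 17, 15, 19, 22],
  [6, 2, 1, 9, 4, 15, 0, 21, 8, 3, 10, 22, 13, 12, 14, 5, 16, 17, 18, 23, 20, 7, 11, 19],
  [6, 9, 3, 1, 18, 21, 0, 5, 4, 2, 17, 11, 13, 12, 20, 7, 8, 14, 16, 19, 10, 15, 22, 23],
  [0, 18, 8, 16, 1, 17, 6, 14, 9, 4, 5, 19, 13, 12, 15, 20, 2, 7, 3, 22, 21, 10, 23, 11],
  [0, 8, 18, 4, 2, 20, 6, 10, 3, 16, 15, 19, 13, 12, 5, 17, 1, 21, 9, 22, 7, 14, 23, 11],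
  [0, 4, 16, 18, 9, 10, 6, 17, 2, 8, 21, 23, 13, 12, 7, 14, 3, 5, 1, 11, 15, 20, 19, 22],
  [0, 16, 4, 8, 3, 14, 6, 20, 1, 18, 7, 23, 13, 12, 21, 10, 9, 15, 2, 11, 5, 17, 19, 22],
  [13, 9, 3, 2, 8, 21, 12, 15, 4, 1, 20, 23, 6, 0, 17, 7, 18, 14, 16, 22, 10, 5, 19, 11],
  [6, 2, 1, 3, 8, 5, 0, 21, 4, 9, 17, 11, 12, 13, 20, 15, 18, 10, 16, 23, 14, 7, 22, 19],
  [6, 3, 9, 1, 16, 21, 0, 15, 8, 2, 10, 22, 12, 13, 14, 7, 4, 20, 18, 19, 17, 5, 11, 23],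
  [0, 16, 4, 18, 1, 10, 6, 20, 3, 8, 15, 19, 12, 13, 5, 14, 2, 7, 9, 11, 21, 17, 23, 22],
  [0, 4, 16, 8, 2, 14, 6, 17, 9, 18, 5, 19, 12, 13, 15, 10, 1, 21, 3, 11, 7, 20, 23, 22],
  [0, 8, 18, 16, 3, 17, 6, 10, 2, 4, 21, 23, 12, 13, 7, 20, 9, 15, 1, 22, 5, 14, 19, 11],
  [0, 18, 8, 4, 9, 20, 6, 14, 1, 16, 7, 23, 12, 13, 21, 17, 3, 5, 2, 22, 15, 10, 19, 11]]

def W_12 : List (ℕ × ℕ) := [(0, 0), (0, 0), (0, 1), (0, 2), (0, 3), (1, 1), (1, 2), (1, 3), (2, 0), (2, 2), (2, 3), (3, 0), (3, 1), (3, 3), (4, 2), (5, 0), (5, 2), (5, 3), (6, 0), (6, 1), (6, 3), (7, 2), (8, 1), (8, 2), (8, 3), (9, 1), (9, 3), (10, 2), (11, 2), (11, 3), (12, 2), (12, 3), (13, 2), (14, 0), (14, 1), (14, 3), (15, 1), (15, 2), (15, 3), (16, 1), (16, 3), (17, 2), (18, 2), (18, 3), (19, 2), (19, 3), (20, 2), (21, 0), (21, 1), (21, 3), (23, 0), (25, 2), (28, 1), (28, 3), (29, 2), (30, 3), (31, 2), (37,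 0), (39, 2), (42, 1), (42, 3), (43, 2), (44, 3), (45, 2)]

def z_11 : List ℕ := [0, 2, 1, 9, 16, 15, 6, 21, 18, 3, 14, 11, 12, 13, 10, 5, 4, 20, 8, 19, 17, 7, 22, 23]

def t1_11 : List ℕ := [0, 1, 2, 9, 8, 15, 6, 7, 4, 3, 17, 22, 13, 12, 20, 5, 18, 10, 16, 19, 14, 21, 11, 23]

def t2_11 : List ℕ := [0, 3, 9, 1, 4, 21, 6, 15, 18, 2, 14, 11, 13, 12, 10, 7, 16, 17, 8, 23, 20, 5, 22, 19]

def x_11 : List ℕ := [0, 9, 3, 1, 8, 21, 6, 5, 16, 2, 20, 22, 12, 13, 17, 7, 18, 10, 4, 23, 14, 15, 11, 19]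

def y_11 : List ℕ := [0, 4, 16, 8, 2, 14, 6, 17, 9, 18, 5, 19, 12, 13, 15, 10, 1, 21, 3, 11, 7, 20, 23, 22]

def g1_11 : List ℕ := [0, 18, 16, 3, 4, 17, 1, 11, 12, 9, 14, 7, 2, 6, 20, 10, 8, 5, 13, 21, 15, 22, 23, 19]

def g2_11 : List ℕ := [0, 1, 3, 8, 13, 21, 4, 23, 9, 18, 10, 22, 6, 16, 14, 5, 12, 7, 2, 20, 15, 19, 17, 11]

def g3_11 : List ℕ := [0, 18, 8, 9, 4, 17, 13, 7, 2, 3, 14, 11, 12, 6, 10, 20, 16, 5, 1, 22, 15, 21, 19, 23]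

def h_11 : List ℕ := [0, 1, 2, 18, 16, 15, 12, 17, 9, 8, 10, 11, 6, 13, 14, 5, 4, 7, 3, 19, 21, 20, 23, 22]

def hu_11 : List ℕ := [0, 1, 2, 9, 8, 15, 6, 7, 4, 3, 17, 22, 13, 12, 20, 5, 18, 10, 16, 19, 14, 21, 11, 23]

def L_11 : List (List ℕ) := [[0, 1, 2, 3, 4, 5, 6, 7, 8, 9, 10, 11, 12, 13, 14, 15, 16, 17, 18, 19, 20, 21, 22, 23],
  [0, 1, 2, 9, 8, 15, 6, 7, 4, 3, 17, 22, 13, 12, 20, 5, 18, 10, 16, 19, 14, 21, 11, 23],
  [0, 4, 16, 8, 2, 14, 6, 17, 9, 18, 5, 19, 12, 13, 15, 10, 1, 21, 3, 11, 7, 20, 23, 22],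
  [0, 8, 18, 4, 2, 20, 6, 10, 3, 16, 15, 19, 13, 12, 5, 17, 1, 21, 9, 22, 7, 14, 23, 11],
  [0, 4, 16, 18, 9, 10, 6, 17, 2, 8, 21, 23, 13, 12, 7, 14, 3, 5, 1, 11, 15, 20, 19, 22],
  [0, 2, 1, 9, 16, 15, 6, 21, 18, 3, 14, 11, 12, 13, 10, 5, 4, 20, 8, 19, 17, 7, 22, 23],
  [0, 8, 18, 16, 3, 17, 6, 10, 2, 4, 21, 23, 12, 13, 7, 20, 9, 15, 1, 22, 5, 14, 19, 11],
  [0, 2, 1, 3, 18, 5, 6, 21, 16, 9, 20, 22, 13, 12, 17, 15, 8, 14, 4, 19, 10, 7, 11, 23],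
  [0, 9, 3, 2, 16, 7, 6, 5, 8, 1, 10, 11, 13, 12, 14, 21, 4, 20, 18, 23, 17, 15, 22, 19],
  [0, 16, 4, 18, 1, 10, 6, 20, 3, 8, 15, 19, 12, 13, 5, 14, 2, 7, 9, 11, 21, 17, 23, 22],
  [0, 3, 9, 2, 18, 7, 6, 15, 4, 1, 17, 22, 12, 13, 20, 21, 8, 14, 16, 23, 10, 5, 11, 19],
  [0, 18, 8, 16, 1, 17, 6, 14, 9, 4, 5, 19, 13, 12, 15, 20, 2, 7, 3, 22, 21, 10, 23, 11],
  [0, 9, 3, 1, 8, 21, 6, 5, 16, 2, 20, 22, 12, 13, 17, 7, 18, 10, 4, 23, 14, 15, 11, 19],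
  [0, 16, 4, 8, 3, 14, 6, 20, 1, 18, 7, 23, 13, 12, 21, 10, 9, 15, 2, 11, 5, 17, 19, 22],
  [0, 3, 9, 1, 4, 21, 6, 15, 18, 2, 14, 11, 13, 12, 10, 7, 16, 17, 8, 23, 20, 5, 22, 19],
  [0, 18, 8, 4, 9, 20, 6, 14, 1, 16, 7, 23, 12, 13, 21, 17, 3, 5, 2, 22, 15, 10, 19, 11]]

def W_11 : List (ℕ × ℕ) := [(0, 0), (0, 0), (0, 1), (1, 1), (2, 0), (2, 1), (3, 0), (3, 1), (4, 1), (5, 1), (6, 1), (7, 1), (8, 0), (8, 1), (10, 0), (10, 1)]

/-! ### the general argument -/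

/-- the points of the dodecad fixed by the involution `z` -/
theorem normalizes {K : Subgroup (Perm GolayPt)} {gens L : List (List ℕ)} {z : List ℕ} (h : closedCheck gens L = true)
    (hid : idL ∈ L) (hz : centreCheck gens L z = true) (hzU : mkPerm z ∈ Ugp gens) (hz1 : mkPerm z ≠ 1)
    (hzc : ∀ u ∈ Ugp gens, u * mkPerm z = mkPerm z * u) (hUK : Ugp gens ≤ K)
    {g : Perm GolayPt} (hg : g ∈ K) (hgU : ∀ x ∈ Ugp gens, g * x * g⁻¹ ∈ Ugp gens) : g * mkPerm z = mkPerm z * g := by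
  have h1 : g * mkPerm z * g⁻¹ = mkPerm z := by
    refine centre_of h hid hz _ (hgU _ hzU) ?_ ?_
    · intro h2
      apply hz1
      have : mkPerm z = g⁻¹ * (g * mkPerm z * g⁻¹) * g := by group
      rw [this, h2]; group
    · intro u hu
      have hgN : g⁻¹ * u * g ∈ Ugp gens := by
        have h2 : g ∈ Subgroup.normalizer (Ugp gens : Set (Perm GolayPt)) := Subgroup.mem_normalizer_fintype hgU
        have h3 := Subgroup.inv_mem _ h2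
        have h4 := (Subgroup.mem_normalizer_iff.1 h3 u).1 hu
        rwa [inv_inv] at h4
      have h3 := hzc _ hgN
      calc u * (g * mkPerm z * g⁻¹) = g * ((g⁻¹ * u * g) * mkPerm z) * g⁻¹ := by group
        _ = g * mkPerm z * g⁻¹ * u := by rw [h3]; group
  exact mul_inv_eq_iff_eq_mul.1 h1

theorem isPGroup_Ugp {gens L : List (List ℕ)} {n : ℕ} (hc : Nat.card (Ugp gens) = L.length) (hn : L.length = 2 ^ n) :
    IsPGroup 2 (Ugp gens) := IsPGroup.of_card (hc.trans hn)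

theorem central_in {K : Subgroup (Perm GolayPt)} {gens L : List (List ℕ)} {z : List ℕ} (h : closedCheck gens L = true)
    (hid : idL ∈ L) (hz : centreCheck gens L z = true) (hp : IsPGroup 2 (Ugp gens)) (hUK : Ugp gens ≤ K)
    {T : Subgroup (Perm GolayPt)} (hT : T ≤ Ugp gens) (hT1 : T ≠ ⊥)
    (hs : ∀ g ∈ K, ∀ x ∈ T, g * x * g⁻¹ ∈ Ugp gens → g * x * g⁻¹ ∈ T) : mkPerm z ∈ T := by
  obtain ⟨x, hx, hx1, hxc⟩ := exists_central_mem hp hT (fun u hu t ht => hs u (hUK hu) t ht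
    (Subgroup.mul_mem _ (Subgroup.mul_mem _ hu (hT ht)) (Subgroup.inv_mem _ hu))) hT1
  rw [← centre_of h hid hz x (hT hx) hx1 hxc]; exact hx

theorem fixes_set {d : ℕ} {z : List ℕ} {X : ℕ} (hv : valid z = true) (hX : ∀ p : GolayPt, p ∈ fset X ↔ p ∈ fset d ∧ z.getD (idx p) 0 = idx p)
    {g : Perm GolayPt} (hgd : g • fset d = fset d) (hg : g * mkPerm z = mkPerm z * g) : g • fset X = fset X := by
  have hX' : ∀ p : GolayPt, p ∈ fset X ↔ p ∈ fset d ∧ mkPerm z p = p := by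
    intro p
    rw [hX p]
    refine and_congr_right fun _ => ?_
    rw [← idx_mkPerm hv]
    exact ⟨fun h => idx_injective h, fun h => by rw [h]⟩
  apply Finset.eq_of_subset_of_card_le
  · intro y hy
    obtain ⟨x, hx, rfl⟩ := Finset.mem_smul_finset.1 hy
    rw [hX'] at hx
    show g x ∈ _
    rw [hX']
    refine ⟨(mem_of_smul_eq hgd x).2 hx.1, ?_⟩
    have := congrArg (fun σ : Perm GolayPt => σ x) hg
    simp only [Perm.mul_apply] at this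
    rw [← this, hx.2]
  · rw [Finset.card_smul_finset]

/-! ### `M12` -/

def gens_12 : List (List ℕ) := [t1_12, t2_12, t3_12, y_12]

theorem closed_12 : closedCheck gens_12 L_12 = true := by decide +kernel
theorem words_12 : wordsCheck gens_12 L_12 W_12 = true := by decide +kernel
theorem nodup_12 : L_12.Nodup := by decide +kernel
theorem id_12 : idL ∈ L_12 := by decide +kernel
theorem id0_12 : L_12.getD 0 [] = idL := by decide +kernel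
theorem centre_12 : centreCheck gens_12 L_12 z_12 = true := by decide +kernel
theorem card_12 : Nat.card (Ugp gens_12) = 64 :=
  (card_Ugp closed_12 words_12 id0_12 id_12 nodup_12).trans (by decide +kernel)

theorem U12_le : Ugp gens_12 ≤ Spor.M12 := by
  rw [Ugp, Subgroup.closure_le]
  rintro _ ⟨Q, hQ, rfl⟩
  have h : ∀ Q ∈ gens_12, in12 Q = true := by decide +kernel
  exact in12_spec (h Q hQ)

theorem zc_12 : ∀ u ∈ Ugp gens_12, u * mkPerm z_12 = mkPerm z_12 * u := by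
  intro u hu
  obtain ⟨P, hP, rfl⟩ := mem_of_closed closed_12 id_12 u hu
  have h : ∀ P ∈ L_12, valid P = true ∧ valid (comp P z_12) = true ∧ comp z_12 P = comp P z_12 := by decide +kernel
  have hz : valid z_12 = true := by decide +kernel
  obtain ⟨h1, h2, h3⟩ := h P hP
  rw [mkPerm_mul h1 hz h2 rfl, mkPerm_mul hz h1 h2 h3]

theorem M12_inf : Spor.M12 = M24 ⊓ StS (fset 340831) := by rw [Spor.M12, D_eq]; rfl

theorem m12_simple (S : Sylow 2 Spor.M12) : (groupFusionSystem (S : Subgroup Spor.M12)).IsSimple 2 := by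
  have hd : fset 340831 ∈ dodecads := by rw [← D_eq]; exact D_mem
  have hp : IsPGroup 2 (Ugp gens_12) := IsPGroup.of_card (n := 6) card_12
  have vz : valid z_12 = true := by decide +kernel
  have hzU : mkPerm z_12 ∈ Ugp gens_12 := mem_of_words closed_12 words_12 id0_12 _ (by decide +kernel)
  have hz1 : mkPerm z_12 ≠ 1 := by
    rw [← mkPerm_idL]
    intro h
    exact absurd (mkPerm_inj vz valid_idL h) (by decide)
  have hX : fset 12353 ⊆ fset 340831 := by decide +kernel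
  have hXc : (fset 12353).card = 4 := by rw [card_fset]; decide +kernel
  have hX' : ∀ p : GolayPt, p ∈ fset 12353 ↔ p ∈ fset 340831 ∧ z_12.getD (idx p) 0 = idx p := by decide +kernel
  have hN1 : ∀ g ∈ Spor.M12, (∀ x ∈ Ugp gens_12, g * x * g⁻¹ ∈ Ugp gens_12) → g ∈ M24 ⊓ StS (fset 340831) ⊓ StS (fset 12353) := by
    intro g hg hgU
    rw [M12_inf] at hg
    refine ⟨hg, ?_⟩
    exact fixes_set vz hX' hg.2 (normalizes (K := Spor.M12) closed_12 id_12 centre_12 hzU hz1 zc_12 U12_le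
      (by rw [M12_inf]; exact hg) hgU)
  refine simple_of_explicit U12_le hp ?_ ?_ ?_ S
  · intro h
    rw [h] at hzU
    exact hz1 (Subgroup.mem_bot.1 hzU)
  · refine self_norm (H := M24 ⊓ StS (fset 340831) ⊓ StS (fset 12353)) ?_ ?_ hN1 (h := mkPerm h_12) (u := mkPerm hu_12) ?_ ?_ ?_
    · intro x hx
      refine hN1 x (U12_le hx) fun y hy => ?_
      exact Subgroup.mul_mem _ (Subgroup.mul_mem _ hx hy) (Subgroup.inv_mem _ hx)
    · rw [card_stab4 hd hX hXc, card_12]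
    · have h1 : in12 h_12 = true := by decide +kernel
      have h2 := in12_spec h1
      rw [M12_inf] at h2
      refine ⟨h2, ?_⟩
      show mkPerm h_12 • fset 12353 = fset 12353
      rw [smul_fset (in12_valid h1)]
      have : pmask h_12 12353 = 12353 := by decide +kernel
      rw [this]
    · exact mem_Ugp (by decide +kernel)
    · exact conj_notin closed_12 id_12 (by decide +kernel) (by decide +kernel) (by decide +kernel)
  · intro T hT hT1 hs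
    have hz := central_in closed_12 id_12 centre_12 hp U12_le hT hT1 hs
    have v1 : in12 g1_12 = true := by decide +kernel
    have v2 : in12 g2_12 = true := by decide +kernel
    have v3 : in12 g3_12 = true := by decide +kernel
    have v4 : in12 g4_12 = true := by decide +kernel
    have w1 : valid t1_12 = true := by decide +kernel
    have w2 : valid t2_12 = true := by decide +kernel
    have w3 : valid t3_12 = true := by decide +kernel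
    have wx : valid x_12 = true := by decide +kernel
    have wy : valid y_12 = true := by decide +kernel
    have e1 := conj_eq (in12_valid v1) vz w1 (by decide +kernel : comp g1_12 z_12 = comp t1_12 g1_12)
    have e2 := conj_eq (in12_valid v2) vz w2 (by decide +kernel : comp g2_12 z_12 = comp t2_12 g2_12)
    have e3 := conj_eq (in12_valid v4) vz w3 (by decide +kernel : comp g4_12 z_12 = comp t3_12 g4_12)
    have e4 := conj_eq (in12_valid v3) wx wy (by decide +kernel : comp g3_12 x_12 = comp y_12 g3_12)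
    have m1 : mkPerm t1_12 ∈ T := by
      rw [← e1]; exact hs _ (in12_spec v1) _ hz (by rw [e1]; exact mem_Ugp (by decide +kernel))
    have m2 : mkPerm t2_12 ∈ T := by
      rw [← e2]; exact hs _ (in12_spec v2) _ hz (by rw [e2]; exact mem_Ugp (by decide +kernel))
    have m3 : mkPerm t3_12 ∈ T := by
      rw [← e3]; exact hs _ (in12_spec v4) _ hz (by rw [e3]; exact mem_Ugp (by decide +kernel))
    have mx : mkPerm x_12 ∈ T := by
      have w12 : valid (comp t1_12 t2_12) = true := by decide +kernel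
      rw [← mkPerm_mul w12 w3 wx (by decide +kernel), ← mkPerm_mul w1 w2 w12 rfl]
      exact T.mul_mem (T.mul_mem m1 m2) m3
    have my : mkPerm y_12 ∈ T := by
      rw [← e4]; exact hs _ (in12_spec v3) _ mx (by rw [e4]; exact mem_Ugp (by decide +kernel))
    rw [Ugp, Subgroup.closure_le]
    rintro _ ⟨Q, hQ, rfl⟩
    simp only [gens_12, List.mem_cons, List.not_mem_nil, or_false] at hQ
    rcases hQ with rfl | rfl | rfl | rfl
    exacts [m1, m2, m3, my]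

/-! ### `M11` -/

def gens_11 : List (List ℕ) := [t1_11, y_11]

theorem closed_11 : closedCheck gens_11 L_11 = true := by decide +kernel
theorem words_11 : wordsCheck gens_11 L_11 W_11 = true := by decide +kernel
theorem nodup_11 : L_11.Nodup := by decide +kernel
theorem id_11 : idL ∈ L_11 := by decide +kernel
theorem id0_11 : L_11.getD 0 [] = idL := by decide +kernel
theorem centre_11 : centreCheck gens_11 L_11 z_11 = true := by decide +kernel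
theorem card_11 : Nat.card (Ugp gens_11) = 16 :=
  (card_Ugp closed_11 words_11 id0_11 id_11 nodup_11).trans (by decide +kernel)

theorem U11_le : Ugp gens_11 ≤ Spor.M11 := by
  rw [Ugp, Subgroup.closure_le]
  rintro _ ⟨Q, hQ, rfl⟩
  have h : ∀ Q ∈ gens_11, in11 Q = true := by decide +kernel
  exact in11_spec (h Q hQ)

theorem zc_11 : ∀ u ∈ Ugp gens_11, u * mkPerm z_11 = mkPerm z_11 * u := by
  intro u hu
  obtain ⟨P, hP, rfl⟩ := mem_of_closed closed_11 id_11 u hu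
  have h : ∀ P ∈ L_11, valid P = true ∧ valid (comp P z_11) = true ∧ comp z_11 P = comp P z_11 := by decide +kernel
  have hz : valid z_11 = true := by decide +kernel
  obtain ⟨h1, h2, h3⟩ := h P hP
  rw [mkPerm_mul h1 hz h2 rfl, mkPerm_mul hz h1 h2 h3]

theorem M11_inf : Spor.M11 = M24 ⊓ StS (fset 340831) ⊓ St (pt 0) := by rw [Spor.M11, M12_inf, pt0]; rfl

theorem m11_simple (S : Sylow 2 Spor.M11) : (groupFusionSystem (S : Subgroup Spor.M11)).IsSimple 2 := by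
  have hd : fset 340831 ∈ dodecads := by rw [← D_eq]; exact D_mem
  have hp : IsPGroup 2 (Ugp gens_11) := IsPGroup.of_card (n := 4) card_11
  have vz : valid z_11 = true := by decide +kernel
  have hzU : mkPerm z_11 ∈ Ugp gens_11 := mem_of_words closed_11 words_11 id0_11 _ (by decide +kernel)
  have hz1 : mkPerm z_11 ≠ 1 := by
    rw [← mkPerm_idL]
    intro h
    exact absurd (mkPerm_inj vz valid_idL h) (by decide)
  have h0 : pt 0 ∈ fset 340831 := by decide +kernel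
  have hX : fset 12352 ⊆ fset 340831 := by decide +kernel
  have h0X : pt 0 ∉ fset 12352 := by decide +kernel
  have hXc : (fset 12352).card = 3 := by rw [card_fset]; decide +kernel
  have hX' : ∀ p : GolayPt, p ∈ fset 12353 ↔ p ∈ fset 340831 ∧ z_11.getD (idx p) 0 = idx p := by decide +kernel
  have hX3 : ∀ p : GolayPt, p ∈ fset 12352 ↔ p ∈ fset 12353 ∧ p ≠ pt 0 := by decide +kernel
  have hN1 : ∀ g ∈ Spor.M11, (∀ x ∈ Ugp gens_11, g * x * g⁻¹ ∈ Ugp gens_11) →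
      g ∈ M24 ⊓ StS (fset 340831) ⊓ St (pt 0) ⊓ StS (fset 12352) := by
    intro g hg hgU
    rw [M11_inf] at hg
    refine ⟨hg, ?_⟩
    have h1 := fixes_set vz hX' hg.1.2 (normalizes (K := Spor.M11) closed_11 id_11 centre_11 hzU hz1 zc_11 U11_le
      (by rw [M11_inf]; exact hg) hgU)
    show g • fset 12352 = fset 12352
    apply Finset.eq_of_subset_of_card_le
    · intro y hy
      obtain ⟨x, hx, rfl⟩ := Finset.mem_smul_finset.1 hy
      rw [hX3] at hx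
      show g x ∈ _
      rw [hX3]
      refine ⟨(mem_of_smul_eq h1 x).2 hx.1, fun h => hx.2 ?_⟩
      have h5 : g (pt 0) = pt 0 := hg.2
      exact g.injective (by rw [h5]; exact h)
    · rw [Finset.card_smul_finset]
  refine simple_of_explicit U11_le hp ?_ ?_ ?_ S
  · intro h
    rw [h] at hzU
    exact hz1 (Subgroup.mem_bot.1 hzU)
  · refine self_norm (H := M24 ⊓ StS (fset 340831) ⊓ St (pt 0) ⊓ StS (fset 12352)) ?_ ?_ hN1 (h := mkPerm h_11)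
      (u := mkPerm hu_11) ?_ ?_ ?_
    · intro x hx
      refine hN1 x (U11_le hx) fun y hy => ?_
      exact Subgroup.mul_mem _ (Subgroup.mul_mem _ hx hy) (Subgroup.inv_mem _ hx)
    · rw [card_stab3 hd h0 hX h0X hXc, card_11]
    · have h1 : in11 h_11 = true := by decide +kernel
      have h2 := in11_spec h1
      rw [M11_inf] at h2
      refine ⟨h2, ?_⟩
      show mkPerm h_11 • fset 12352 = fset 12352
      rw [smul_fset (in11_valid h1)]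
      have : pmask h_11 12352 = 12352 := by decide +kernel
      rw [this]
    · exact mem_Ugp (by decide +kernel)
    · exact conj_notin closed_11 id_11 (by decide +kernel) (by decide +kernel) (by decide +kernel)
  · intro T hT hT1 hs
    have hz := central_in closed_11 id_11 centre_11 hp U11_le hT hT1 hs
    have v1 : in11 g1_11 = true := by decide +kernel
    have v2 : in11 g2_11 = true := by decide +kernel
    have v3 : in11 g3_11 = true := by decide +kernel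
    have w1 : valid t1_11 = true := by decide +kernel
    have w2 : valid t2_11 = true := by decide +kernel
    have wx : valid x_11 = true := by decide +kernel
    have wy : valid y_11 = true := by decide +kernel
    have e1 := conj_eq (in11_valid v1) vz w1 (by decide +kernel : comp g1_11 z_11 = comp t1_11 g1_11)
    have e2 := conj_eq (in11_valid v2) vz w2 (by decide +kernel : comp g2_11 z_11 = comp t2_11 g2_11)
    have e4 := conj_eq (in11_valid v3) wx wy (by decide +kernel : comp g3_11 x_11 = comp y_11 g3_11)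
    have m1 : mkPerm t1_11 ∈ T := by
      rw [← e1]; exact hs _ (in11_spec v1) _ hz (by rw [e1]; exact mem_Ugp (by decide +kernel))
    have m2 : mkPerm t2_11 ∈ T := by
      rw [← e2]; exact hs _ (in11_spec v2) _ hz (by
        rw [e2]; exact mem_of_words closed_11 words_11 id0_11 _ (by decide +kernel))
    have mx : mkPerm x_11 ∈ T := by
      rw [← mkPerm_mul w1 w2 wx (by decide +kernel)]
      exact T.mul_mem m1 m2
    have my : mkPerm y_11 ∈ T := by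
      rw [← e4]; exact hs _ (in11_spec v3) _ mx (by rw [e4]; exact mem_Ugp (by decide +kernel))
    rw [Ugp, Subgroup.closure_le]
    rintro _ ⟨Q, hQ, rfl⟩
    simp only [gens_11, List.mem_cons, List.not_mem_nil, or_false] at hQ
    rcases hQ with rfl | rfl
    exacts [m1, my]

end CfsgLib.Fus21.M12
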