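import Cfsg.Agent.LibFus21Aff
import Cfsg.Agent.LibM24f

set_option autoImplicit false

/-! The 2-fusion systems of `M24`, `M23`, `M22`. -/

namespace CfsgLib.Fus21.M24

open Cfsg CfsgLib.M24 CfsgLib.Golay Equiv
open scoped Pointwise

/-- the base octad -/
def O : Finset GolayPt := fset 8536111

theorem O_mem : O ∈ octads := base_octad

theorem card_O : O.card = 8 := by rw [O, card_fset]; decide +kernel

abbrev OT := {x : GolayPt // x ∈ O}

theorem card_OT : Fintype.card OT = 8 := by rw [Fintype.card_coe]; exact card_O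

def hbL : List (List ℕ) := [[0, 1, 2, 3, 4, 5, 6, 7, 8, 9, 10, 11, 12, 13, 14, 15, 16, 17, 18, 19, 20, 21, 22, 23],
  [0, 1, 2, 14, 4, 17, 7, 6, 12, 15, 20, 18, 8, 13, 3, 9, 16, 5, 11, 21, 10, 19, 22, 23],
  [0, 1, 2, 17, 4, 3, 8, 11, 20, 7, 21, 9, 15, 16, 14, 19, 22, 5, 10, 12, 6, 18, 13, 23],
  [0, 1, 2, 14, 4, 3, 9, 20, 19, 12, 8, 21, 6, 22, 5, 11, 13, 17, 7, 10, 18, 15, 16, 23],
  [0, 1, 2, 17, 4, 5, 10, 15, 7, 18, 11, 6, 21, 22, 3, 8, 13, 14, 19, 9, 12, 20, 16, 23],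
  [0, 1, 2, 14, 4, 5, 11, 8, 15, 19, 6, 10, 20, 16, 17, 7, 22, 3, 9, 18, 21, 12, 13, 23],
  [0, 1, 2, 5, 4, 14, 12, 18, 10, 6, 19, 15, 9, 16, 3, 21, 22, 17, 20, 8, 7, 11, 13, 23],
  [0, 1, 3, 17, 4, 5, 13, 8, 15, 16, 18, 12, 22, 19, 14, 7, 20, 2, 21, 6, 9, 10, 11, 23],
  [0, 1, 2, 3, 4, 14, 15, 10, 21, 8, 12, 19, 7, 22, 17, 18, 13, 5, 6, 20, 11, 9, 16, 23],
  [0, 1, 3, 14, 4, 17, 16, 9, 6, 22, 15, 10, 13, 11, 5, 12, 19, 2, 8, 18, 21, 7, 20, 23],
  [0, 1, 2, 3, 4, 17, 18, 12, 9, 21, 7, 20, 10, 16, 5, 6, 22, 14, 15, 11, 19, 8, 13, 23],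
  [0, 1, 2, 17, 4, 14, 19, 21, 18, 20, 15, 12, 11, 13, 5, 10, 16, 3, 8, 6, 9, 7, 22, 23],
  [0, 1, 2, 5, 4, 17, 20, 9, 6, 11, 18, 7, 19, 22, 14, 12, 13, 3, 21, 15, 8, 10, 16, 23],
  [0, 1, 2, 5, 4, 3, 21, 19, 11, 10, 9, 8, 18, 13, 17, 20, 16, 14, 12, 7, 15, 6, 22, 23],
  [0, 1, 3, 5, 4, 14, 22, 21, 18, 13, 6, 7, 16, 20, 17, 10, 11, 2, 9, 15, 8, 12, 19, 23]]

def t2 : List ℕ := [0, 1, 2, 5, 16, 3, 6, 7, 18, 15, 20, 12, 11, 22, 17, 9, 4, 14, 8, 19, 10, 21, 13, 23]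

def g2 : List ℕ := [0, 2, 3, 12, 18, 20, 14, 17, 4, 13, 15, 8, 9, 19, 16, 7, 10, 6, 21, 1, 11, 5, 22, 23]

def t4 : List ℕ := [23, 2, 1, 5, 4, 3, 19, 21, 8, 15, 20, 11, 12, 13, 17, 9, 16, 14, 18, 6, 10, 7, 22, 0]

def g4 : List ℕ := [13, 6, 7, 12, 0, 11, 22, 21, 2, 18, 9, 14, 3, 17, 20, 8, 23, 15, 1, 4, 10, 19, 5, 16]


/-! ### the action of the octad stabiliser on the octad -/

abbrev H8 : Subgroup (Perm GolayPt) := M24 ⊓ StS O

theorem H8_mem {h : Perm GolayPt} (hh : h ∈ H8) (x : GolayPt) : h x ∈ O ↔ x ∈ O := mem_of_smul_eq hh.2 x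

/-- the action on the octad -/
def ρ8 : H8 →* Perm OT where
  toFun h := (h : Perm GolayPt).subtypePerm fun x => H8_mem h.2 x
  map_one' := by ext x; rfl
  map_mul' a b := by ext x; rfl

theorem ρ8_apply (h : H8) (x : OT) : ((ρ8 h x : OT) : GolayPt) = (h : Perm GolayPt) x := rfl

theorem card_H8 : Nat.card H8 = 322560 := by
  rw [← card_of_map (map_stabS O), card_stab_octad O_mem]

theorem card_ker_ρ8 : Nat.card ρ8.ker = 16 := by
  have h1 := (octad_pointwise O_mem).1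
  have h2 : (ρ8.ker).map H8.subtype = M24 ⊓ fixingSubgroup (Perm GolayPt) (O : Set GolayPt) := by
    ext g
    rw [Subgroup.mem_map, Subgroup.mem_inf, mem_fixingSubgroup_iff]
    constructor
    · rintro ⟨h, hh, rfl⟩
      refine ⟨h.2.1, fun y hy => ?_⟩
      have h3 := congrArg (fun σ : Perm OT => ((σ ⟨y, hy⟩ : OT) : GolayPt)) ((MonoidHom.mem_ker).1 hh)
      exact h3
    · rintro ⟨hg, hgy⟩
      have h3 : g • O = O := by
        ext x
        rw [Finset.mem_smul_finset]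
        constructor
        · rintro ⟨y, hy, rfl⟩
          have := hgy y hy
          rw [this]; exact hy
        · intro hx
          exact ⟨x, hx, hgy x hx⟩
      refine ⟨⟨g, hg, h3⟩, ?_, rfl⟩
      rw [MonoidHom.mem_ker]
      exact Equiv.ext fun x => Subtype.ext (hgy x x.2)
  rw [← h1, ← h2]
  exact Nat.card_congr (Subgroup.equivMapOfInjective _ _ (Subgroup.subtype_injective _)).toEquiv

theorem range_ρ8 : ρ8.range = alternatingGroup OT := by
  apply Equiv.Perm.eq_alternatingGroup_of_index_eq_two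
  have h1 : Nat.card ρ8.range * Nat.card ρ8.ker = Nat.card H8 := by
    rw [Nat.card_congr (QuotientGroup.quotientKerEquivRange ρ8).symm.toEquiv]
    exact (Subgroup.card_eq_card_quotient_mul_card_subgroup ρ8.ker).symm
  rw [card_H8, card_ker_ρ8] at h1
  have h2 := Subgroup.index_mul_card ρ8.range
  have h3 : Nat.card (Perm OT) = 40320 := by
    rw [Nat.card_eq_fintype_card, Fintype.card_perm, card_OT]; rfl
  rw [h3] at h2
  have h4 : Nat.card ρ8.range = 20160 := Nat.eq_of_mul_eq_mul_right (by norm_num : 0 < 16) (h1.trans (by norm_num))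
  rw [h4] at h2
  exact Nat.eq_of_mul_eq_mul_right (by norm_num : 0 < 20160) (h2.trans (by norm_num))

/-! ### the pointwise stabiliser -/

/-- the pointwise stabiliser of the octad -/
def E8 : Subgroup (Perm GolayPt) := M24 ⊓ fixingSubgroup (Perm GolayPt) (O : Set GolayPt)

theorem mem_E8 {g : Perm GolayPt} : g ∈ E8 ↔ g ∈ M24 ∧ ∀ x ∈ O, g x = x := by
  rw [E8, Subgroup.mem_inf, mem_fixingSubgroup_iff]
  exact Iff.rfl

theorem E8_sq {g : Perm GolayPt} (hg : g ∈ E8) : g * g = 1 := (octad_pointwise O_mem).2 g hg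

theorem E8_comm {g h : Perm GolayPt} (hg : g ∈ E8) (hh : h ∈ E8) : g * h = h * g := by
  have h1 := E8_sq hg
  have h2 := E8_sq hh
  have h3 := E8_sq (E8.mul_mem hg hh)
  calc g * h = g * (g * h * (g * h)) * h := by rw [h3, mul_one]
    _ = (g * g) * h * g * (h * h) := by group
    _ = h * g := by rw [h1, h2, one_mul, mul_one]

theorem fixL6_le_E8 : fixL [23, 0, 1, 2, 3, 5] ≤ E8 := by
  intro g hg
  rw [mem_E8]
  exact ⟨hg.1, (fixL6_octad hg).1⟩

theorem compl_mask : ∀ p : GolayPt, p ∉ O → p ∈ fset 8241104 := by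
  unfold O; decide +kernel

theorem pt4_notin : pt 4 ∉ O := by unfold O; decide +kernel

theorem E8_to (p : GolayPt) (hp : p ∉ O) : ∃ g ∈ E8, g (pt 4) = p := by
  obtain ⟨g, hg, h⟩ := lev6 p (compl_mask p hp)
  exact ⟨g, fixL6_le_E8 hg, h⟩

theorem E8_trans {a b : GolayPt} (ha : a ∉ O) (hb : b ∉ O) : ∃ g ∈ E8, g a = b := by
  obtain ⟨g, hg, h1⟩ := E8_to a ha
  obtain ⟨k, hk, h2⟩ := E8_to b hb
  refine ⟨k * g⁻¹, E8.mul_mem hk (E8.inv_mem hg), ?_⟩
  rw [Perm.mul_apply, ← h1]; simp [h2]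

theorem eq_one_of_fix {g : Perm GolayPt} (hg : g ∈ E8) {a : GolayPt} (ha : a ∉ O) (h : g a = a) : g = 1 := by
  apply eq_one_of_nine (mem_E8.1 hg).1
  have h1 : insert a O ⊆ Finset.univ.filter fun p => g p = p := by
    intro x hx
    rw [Finset.mem_insert] at hx
    rw [Finset.mem_filter]
    refine ⟨Finset.mem_univ _, ?_⟩
    rcases hx with rfl | hx
    · exact h
    · exact (mem_E8.1 hg).2 x hx
  have h2 := Finset.card_le_card h1
  rw [Finset.card_insert_of_notMem ha, card_O] at h2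
  exact h2

theorem centralizer_E8 {x : Perm GolayPt} (hx : x ∈ M24) (hxO : ∀ y, x y ∈ O ↔ y ∈ O) (hc : ∀ e ∈ E8, x * e = e * x) :
    x ∈ E8 := by
  have h4 : x (pt 4) ∉ O := fun h => pt4_notin ((hxO _).1 h)
  obtain ⟨e, he, h1⟩ := E8_to _ h4
  have h2 : e⁻¹ * x = 1 := by
    apply eq_one_of_nine (M24.mul_mem (M24.inv_mem (mem_E8.1 he).1) hx)
    have h5 : Finset.univ \ O ⊆ Finset.univ.filter fun p => (e⁻¹ * x) p = p := by
      intro p hp
      rw [Finset.mem_filter]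
      refine ⟨Finset.mem_univ _, ?_⟩
      have hp' : p ∉ O := (Finset.mem_sdiff.1 hp).2
      obtain ⟨f, hf, hfp⟩ := E8_to p hp'
      have h6 : (e⁻¹ * x) * f = f * (e⁻¹ * x) := by
        have h7 := hc f hf
        have h8 := E8_comm (E8.inv_mem he) hf
        calc (e⁻¹ * x) * f = e⁻¹ * (x * f) := by group
          _ = (e⁻¹ * f) * x := by rw [h7]; group
          _ = f * (e⁻¹ * x) := by rw [h8]; group
      have h9 := congrArg (fun σ : Perm GolayPt => σ (pt 4)) h6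
      simp only [Perm.mul_apply] at h9
      rw [← hfp, Perm.mul_apply, h9, ← h1]; simp
    have h6 := Finset.card_le_card h5
    rw [Finset.card_sdiff_of_subset (Finset.subset_univ _), card_O, Finset.card_univ, card_pt] at h6
    omega
  have h3 : x = e := by
    have := inv_mul_eq_one.1 h2
    exact this.symm
  rw [h3]; exact he

end CfsgLib.Fus21.M24
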