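import Cfsg.Agent.LibFus21M24

set_option autoImplicit false

/-! The 2-fusion systems of `M24`, `M23`, `M22`, part 2: the uniform argument. -/

namespace CfsgLib.Fus21.M24

open Cfsg CfsgLib.M24 CfsgLib.Golay Equiv
open scoped Pointwise

/-! ### explicit elements -/

theorem hb_check : (hbL.all fun P => and (isM24 P) (and (Nat.beq (P.getD 23 0) 23) (and (Nat.beq (P.getD 0 0) 0)
    (and (Nat.beq (P.getD 4 0) 4) (Nat.beq (pmask P 8536111) 8536111))))) = true := by decide +kernel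

theorem hb_all : ∀ p : GolayPt, p ∉ O → p ≠ pt 4 → ∃ P ∈ hbL, P.getD 6 0 = idx p := by
  unfold O; decide +kernel

theorem t2_check : (and (isM24 t2) (and (Nat.beq (t2.getD 23 0) 23) (and (Nat.beq (t2.getD 0 0) 0)
    (Nat.beq (pmask t2 8536111) 8536111)))) = true := by decide +kernel

theorem g2_check : (and (isM24 g2) (and (Nat.beq (g2.getD 23 0) 23) (Nat.beq (g2.getD 0 0) 0))) = true := by
  decide +kernel

theorem t4_check : (and (isM24 t4) (Nat.beq (pmask t4 8536111) 8536111)) = true := by decide +kernel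

theorem g4_check : isM24 g4 = true := by decide +kernel

theorem mkPerm_pt {P : List ℕ} (h : isM24 P = true) {i j : ℕ} (hi : i < 24) (hij : P.getD i 0 = j) :
    mkPerm P (pt i) = pt j := by
  apply idx_injective
  rw [idx_mkPerm (valid_of_isM24 h), idx_pt i hi, hij]
  have h1 : idx (mkPerm P (pt i)) = j := by rw [idx_mkPerm (valid_of_isM24 h), idx_pt i hi, hij]
  have h2 := idx_lt (mkPerm P (pt i))
  rw [h1] at h2
  rw [idx_pt j h2]

/-- the elements of the list `hbL` -/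
theorem hb_spec (p : GolayPt) (hp : p ∉ O) (hp4 : p ≠ pt 4) : ∃ h ∈ M24, h (pt 23) = pt 23 ∧ h (pt 0) = pt 0 ∧
    h (pt 4) = pt 4 ∧ h • O = O ∧ h (pt 6) = p := by
  obtain ⟨P, hP, h6⟩ := hb_all p hp hp4
  have h1 := (List.all_eq_true.1 hb_check) P hP
  simp only [Bool.and_eq_true, beq_iff] at h1
  obtain ⟨hM, h23, h0, h4, hO⟩ := h1
  refine ⟨mkPerm P, isM24_spec hM, mkPerm_pt hM (by norm_num) h23, mkPerm_pt hM (by norm_num) h0,
    mkPerm_pt hM (by norm_num) h4, ?_, ?_⟩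
  · rw [O, smul_fset (valid_of_isM24 hM), hO]
  · rw [mkPerm_pt hM (by norm_num) h6, pt_idx]

/-- transitivity on the nontrivial elements of the pointwise stabiliser, by elements fixing `pt 23` and `pt 0` -/
theorem E8_conj {e f : Perm GolayPt} (he : e ∈ E8) (hf : f ∈ E8) (he1 : e ≠ 1) (hf1 : f ≠ 1) :
    ∃ h ∈ M24, h (pt 23) = pt 23 ∧ h (pt 0) = pt 0 ∧ h • O = O ∧ h * e * h⁻¹ = f := by
  have hmove : ∀ e ∈ E8, e ≠ 1 → e (pt 4) ∉ O ∧ e (pt 4) ≠ pt 4 := by
    intro e he he1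
    refine ⟨fun h => pt4_notin ?_, fun h => he1 (eq_one_of_fix he pt4_notin h)⟩
    have h1 := (mem_E8.1 he).2 _ h
    have h2 : pt 4 = e (pt 4) := (e.injective h1).symm
    rw [h2]; exact h
  obtain ⟨h1, hM1, h23, h00, h44, hO1, h6⟩ := hb_spec _ (hmove e he he1).1 (hmove e he he1).2
  obtain ⟨k1, kM1, k23, k00, k44, kO1, k6⟩ := hb_spec _ (hmove f hf hf1).1 (hmove f hf hf1).2
  have hinv : ∀ {x : GolayPt}, h1 x = x → h1⁻¹ x = x := by
    intro x hx
    rw [Perm.inv_eq_iff_eq, hx]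
  refine ⟨k1 * h1⁻¹, M24.mul_mem kM1 (M24.inv_mem hM1), ?_, ?_, ?_, ?_⟩
  · rw [Perm.mul_apply, hinv h23, k23]
  · rw [Perm.mul_apply, hinv h00, k00]
  · rw [mul_smul, inv_smul_eq_iff.2 hO1.symm, kO1]
  · set g := k1 * h1⁻¹ with hg
    have hgM : g ∈ M24 := M24.mul_mem kM1 (M24.inv_mem hM1)
    have hgO : g • O = O := by rw [hg, mul_smul, inv_smul_eq_iff.2 hO1.symm, kO1]
    have hgE : g * e * g⁻¹ ∈ E8 := by
      rw [mem_E8]
      refine ⟨M24.mul_mem (M24.mul_mem hgM (mem_E8.1 he).1) (M24.inv_mem hgM), fun x hx => ?_⟩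
      have h2 : g⁻¹ x ∈ O := by
        rw [← mem_of_smul_eq hgO]; simpa using hx
      rw [Perm.mul_apply, Perm.mul_apply, (mem_E8.1 he).2 _ h2]; simp
    have hg4 : g⁻¹ (pt 4) = pt 4 := by
      rw [Perm.inv_eq_iff_eq, hg, Perm.mul_apply, hinv h44, k44]
    have hge : (g * e * g⁻¹) (pt 4) = f (pt 4) := by
      rw [Perm.mul_apply, Perm.mul_apply, hg4, hg, Perm.mul_apply]
      have h7 : h1⁻¹ (e (pt 4)) = pt 6 := by rw [Perm.inv_eq_iff_eq, h6]
      rw [h7, k6]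
    have h8 : f⁻¹ * (g * e * g⁻¹) = 1 := by
      refine eq_one_of_fix (E8.mul_mem (E8.inv_mem hf) hgE) pt4_notin ?_
      rw [Perm.mul_apply, hge]; simp
    exact (inv_mul_eq_one.1 h8).symm

end CfsgLib.Fus21.M24
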