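import Cfsg.Agent.LibFus21M24b

set_option autoImplicit false

/-! The 2-fusion systems of `M24`, `M23`, `M22`, part 3. -/

namespace CfsgLib.Fus21.M24

open Cfsg CfsgLib.M24 CfsgLib.Golay Equiv
open scoped Pointwise

/-! ### even involutions -/

theorem alt_conj {Ω : Type*} [Fintype Ω] [DecidableEq Ω] {s t : Perm Ω} (h : s.cycleType = t.cycleType) (ht : t * t = 1)
    (ht1 : t ≠ 1) : ∃ c : Perm Ω, Perm.sign c = 1 ∧ c * t * c⁻¹ = s := by
  obtain ⟨c, hc⟩ := _root_.isConj_iff.1 (Perm.isConj_iff_cycleType_eq.2 h.symm)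
  by_cases hs : Perm.sign c = 1
  · exact ⟨c, hs, hc⟩
  obtain ⟨a, ha⟩ : ∃ a, t a ≠ a := by
    by_contra hcon
    push Not at hcon
    exact ht1 (Equiv.ext hcon)
  have htt : t (t a) = a := by rw [← Perm.mul_apply, ht, Perm.one_apply]
  have h1 : t * swap a (t a) * t⁻¹ = swap a (t a) := by
    rw [← Equiv.swap_apply_apply, htt, swap_comm]
  refine ⟨c * swap a (t a), ?_, ?_⟩
  · rw [Perm.sign_mul, Perm.sign_swap ha.symm]
    rcases Int.units_eq_one_or (Perm.sign c) with h2 | h2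
    · exact absurd h2 hs
    · rw [h2]; decide
  · have h3 : swap a (t a) * t * (swap a (t a))⁻¹ = t := by
      have h4 : t * swap a (t a) = swap a (t a) * t := by
        rw [← mul_inv_eq_iff_eq_mul]; exact h1
      rw [← h4]; group
    calc c * swap a (t a) * t * (c * swap a (t a))⁻¹ = c * (swap a (t a) * t * (swap a (t a))⁻¹) * c⁻¹ := by group
      _ = s := by rw [h3, hc]

theorem invol_type {Ω : Type*} [Fintype Ω] [DecidableEq Ω] (h8 : Fintype.card Ω ≤ 8) {s : Perm Ω} (hs : Perm.sign s = 1)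
    (hs2 : s * s = 1) (hs1 : s ≠ 1) : s.cycleType = Multiset.replicate 2 2 ∧ s.support.card = 4 ∨
      s.cycleType = Multiset.replicate 4 2 ∧ s.support = Finset.univ := by
  have ho : orderOf s = 2 := orderOf_eq_prime (by rw [pow_two]; exact hs2) hs1
  obtain ⟨n, hn⟩ := Perm.cycleType_prime_order (σ := s) (by rw [ho]; exact Nat.prime_two)
  rw [ho] at hn
  have h1 := Perm.sum_cycleType s
  rw [hn, Multiset.sum_replicate, smul_eq_mul] at h1
  have h2 : s.support.card ≤ Fintype.card Ω := Finset.card_le_univ _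
  have h3 := Perm.sign_of_cycleType s
  rw [hs, hn, Multiset.sum_replicate, Multiset.card_replicate, smul_eq_mul] at h3
  have h4 : n = 0 ∨ n = 1 ∨ n = 2 ∨ n = 3 := by omega
  rcases h4 with rfl | rfl | rfl | rfl
  · exact absurd h3 (by decide)
  · left; exact ⟨hn, h1.symm⟩
  · exact absurd h3 (by decide)
  · right
    refine ⟨hn, Finset.eq_univ_of_card _ ?_⟩
    omega

/-! ### the uniform setting -/

/-- the points of the octad outside `Y` -/
abbrev ΩY (Y : Finset GolayPt) := {y : OT // (y : GolayPt) ∉ Y}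

variable {Y : Finset GolayPt} {K : Subgroup (Perm GolayPt)}

/-- inclusion -/
def toH8 (hK : ∀ g, g ∈ K ↔ g ∈ M24 ∧ ∀ y ∈ Y, g y = y) : ((StS O).subgroupOf K) →* H8 where
  toFun h := ⟨((h : K) : Perm GolayPt), ((hK _).1 (h : K).2).1, h.2⟩
  map_one' := rfl
  map_mul' _ _ := rfl

theorem fix_iff (hK : ∀ g, g ∈ K ↔ g ∈ M24 ∧ ∀ y ∈ Y, g y = y) {g : Perm GolayPt} (hg : g ∈ K) (x : GolayPt) :
    g x ∉ Y ↔ x ∉ Y := by
  rw [not_iff_not]
  constructor
  · intro h
    have h1 := ((hK g).1 hg).2 _ h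
    rw [← g.injective h1]; exact h
  · intro h
    rw [((hK g).1 hg).2 _ h]; exact h

/-- the map to the alternating group -/
def ρ (hK : ∀ g, g ∈ K ↔ g ∈ M24 ∧ ∀ y ∈ Y, g y = y) : ((StS O).subgroupOf K) →* alternatingGroup (ΩY Y) where
  toFun h := ⟨(ρ8 (toH8 hK h)).subtypePerm (p := fun y : OT => (y : GolayPt) ∉ Y)
      (fun x => (fix_iff hK (h : K).2 (x : GolayPt) :
        ((ρ8 (toH8 hK h) x : OT) : GolayPt) ∉ Y ↔ (x : GolayPt) ∉ Y)), by
    have h1 : ρ8 (toH8 hK h) ∈ ρ8.range := ⟨_, rfl⟩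
    rw [range_ρ8] at h1
    rw [Perm.mem_alternatingGroup]
    refine (Perm.sign_subtypePerm _ _ fun x hx hxY => ?_).trans h1
    apply hx
    apply Subtype.ext
    exact ((hK _).1 (h : K).2).2 _ hxY⟩
  map_one' := by
    apply Subtype.ext
    exact Equiv.ext fun x => rfl
  map_mul' a b := by
    apply Subtype.ext
    exact Equiv.ext fun x => rfl

theorem ρ_apply (hK : ∀ g, g ∈ K ↔ g ∈ M24 ∧ ∀ y ∈ Y, g y = y) (h : (StS O).subgroupOf K) (x : ΩY Y) :
    ((((ρ hK h : alternatingGroup (ΩY Y)) : Perm (ΩY Y)) x : OT) : GolayPt) = ((h : K) : Perm GolayPt) (x : OT) := rfl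

theorem ρ_surjective (hK : ∀ g, g ∈ K ↔ g ∈ M24 ∧ ∀ y ∈ Y, g y = y) (hYO : Y ⊆ O) : Function.Surjective (ρ hK) := by
  rintro ⟨s, hs⟩
  have h1 : Perm.ofSubtype s ∈ ρ8.range := by
    rw [range_ρ8, Perm.mem_alternatingGroup, Perm.sign_ofSubtype]
    exact hs
  obtain ⟨h, hh⟩ := h1
  have hfix : ∀ y ∈ Y, (h : Perm GolayPt) y = y := by
    intro y hy
    have h2 : Perm.ofSubtype s ⟨y, hYO hy⟩ = ⟨y, hYO hy⟩ :=
      Perm.ofSubtype_apply_of_not_mem s (by simpa using hy)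
    rw [← hh] at h2
    exact congrArg Subtype.val h2
  have hhK : (h : Perm GolayPt) ∈ K := (hK _).2 ⟨h.2.1, hfix⟩
  refine ⟨⟨⟨h, hhK⟩, h.2.2⟩, ?_⟩
  apply Subtype.ext
  refine Equiv.ext fun x => ?_
  apply Subtype.ext
  have h3 : Perm.ofSubtype s (x : OT) = s x := Perm.ofSubtype_apply_coe s x
  rw [← hh] at h3
  exact h3

/-- the kernel -/
theorem ρ_eq_one (hK : ∀ g, g ∈ K ↔ g ∈ M24 ∧ ∀ y ∈ Y, g y = y) (h : (StS O).subgroupOf K) :
    ρ hK h = 1 ↔ (h : K) ∈ E8.subgroupOf K := by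
  rw [Subgroup.mem_subgroupOf, mem_E8]
  constructor
  · intro h1
    refine ⟨((hK _).1 (h : K).2).1, fun x hx => ?_⟩
    by_cases hxY : x ∈ Y
    · exact ((hK _).1 (h : K).2).2 x hxY
    · have h2 := ρ_apply hK h ⟨⟨x, hx⟩, hxY⟩
      rw [h1] at h2
      exact h2.symm
  · rintro ⟨-, h1⟩
    apply Subtype.ext
    refine Equiv.ext fun x => Subtype.ext (Subtype.ext ?_)
    rw [ρ_apply]
    exact h1 _ (x : OT).2

theorem E8_le (hK : ∀ g, g ∈ K ↔ g ∈ M24 ∧ ∀ y ∈ Y, g y = y) (hYO : Y ⊆ O) : E8 ≤ K := by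
  intro g hg
  rw [hK]
  exact ⟨(mem_E8.1 hg).1, fun y hy => (mem_E8.1 hg).2 y (hYO hy)⟩

theorem smul_O_of {g : Perm GolayPt} (h : ∀ x, g x ∈ O ↔ x ∈ O) : g • O = O := by
  ext x
  rw [Finset.mem_smul_finset]
  constructor
  · rintro ⟨y, hy, rfl⟩
    exact (h y).2 hy
  · intro hx
    refine ⟨g⁻¹ x, ?_, by simp [Perm.smul_def]⟩
    rw [← h]; simpa using hx

theorem conj2_check : ((List.range 24).all fun i => or (not (Nat.testBit 8536111 (g2.getD i 0)))
    (Nat.beq (t2.getD i 0) i)) = true := by decide +kernel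

theorem conj4_check : ((List.range 24).all fun i => or (not (Nat.testBit 8536111 (g4.getD i 0)))
    (Nat.beq (t4.getD i 0) i)) = true := by decide +kernel

theorem fix4_check : ((List.range 24).all fun i => or (not (Nat.testBit 8536111 i))
    (not (Nat.beq (t4.getD i 0) i))) = true := by decide +kernel

theorem t2_facts : ∃ t ∈ M24, t (pt 23) = pt 23 ∧ t (pt 0) = pt 0 ∧ t • O = O ∧ t (pt 1) = pt 1 ∧ t (pt 3) = pt 5 ∧
    t * t = 1 ∧ ∃ g ∈ M24, g (pt 23) = pt 23 ∧ g (pt 0) = pt 0 ∧ g * t * g⁻¹ ∈ E8 := by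
  have h1 := t2_check
  have h2 := g2_check
  simp only [Bool.and_eq_true, beq_iff] at h1 h2
  obtain ⟨hM, h23, h0, hO⟩ := h1
  obtain ⟨gM, g23, g00⟩ := h2
  have hv := valid_of_isM24 hM
  have gv := valid_of_isM24 gM
  have htt : mkPerm t2 * mkPerm t2 = 1 := by
    refine Equiv.ext fun p => ?_
    apply idx_injective
    rw [Perm.mul_apply, idx_mkPerm hv, idx_mkPerm hv, Perm.one_apply]
    revert p; decide +kernel
  refine ⟨mkPerm t2, isM24_spec hM, mkPerm_pt hM (by norm_num) h23, mkPerm_pt hM (by norm_num) h0, ?_,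
    mkPerm_pt hM (by norm_num) (by decide +kernel), mkPerm_pt hM (by norm_num) (by decide +kernel), htt,
    mkPerm g2, isM24_spec gM, mkPerm_pt gM (by norm_num) g23, mkPerm_pt gM (by norm_num) g00, ?_⟩
  · rw [O, smul_fset hv, hO]
  · rw [mem_E8]
    refine ⟨M24.mul_mem (M24.mul_mem (isM24_spec gM) (isM24_spec hM)) (M24.inv_mem (isM24_spec gM)), fun x hx => ?_⟩
    -- x = g y
    obtain ⟨y, hy⟩ : ∃ y, mkPerm g2 y = x := (mkPerm g2).surjective x
    subst hy
    rw [Perm.mul_apply, Perm.mul_apply]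
    have h5 : (mkPerm g2)⁻¹ (mkPerm g2 y) = y := by simp
    rw [h5]
    have h8 : mkPerm t2 y = y := by
      apply idx_injective
      rw [idx_mkPerm hv]
      have h6 : idx (mkPerm g2 y) = g2.getD (idx y) 0 := idx_mkPerm gv y
      rw [O, mem_fset, h6] at hx
      have h7 := List.all_eq_true.1 conj2_check (idx y) (List.mem_range.2 (idx_lt y))
      rw [hx, Bool.not_true, Bool.false_or] at h7
      exact beq_iff.1 h7
    rw [h8]

theorem t4_facts : ∃ t ∈ M24, t • O = O ∧ (∀ x ∈ O, t x ≠ x) ∧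
    t * t = 1 ∧ ∃ g ∈ M24, g * t * g⁻¹ ∈ E8 := by
  have h1 := t4_check
  have gM := g4_check
  simp only [Bool.and_eq_true, beq_iff] at h1
  obtain ⟨hM, hO⟩ := h1
  have hv := valid_of_isM24 hM
  have gv := valid_of_isM24 gM
  have htt : mkPerm t4 * mkPerm t4 = 1 := by
    refine Equiv.ext fun p => ?_
    apply idx_injective
    rw [Perm.mul_apply, idx_mkPerm hv, idx_mkPerm hv, Perm.one_apply]
    revert p; decide +kernel
  refine ⟨mkPerm t4, isM24_spec hM, ?_, ?_, htt, mkPerm g4, isM24_spec gM, ?_⟩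
  · rw [O, smul_fset hv, hO]
  · intro x hx h
    have h2 := congrArg idx h
    rw [idx_mkPerm hv] at h2
    rw [O, mem_fset] at hx
    have h7 := List.all_eq_true.1 fix4_check (idx x) (List.mem_range.2 (idx_lt x))
    rw [hx, Bool.not_true, Bool.false_or, h2] at h7
    simp at h7
  · rw [mem_E8]
    refine ⟨M24.mul_mem (M24.mul_mem (isM24_spec gM) (isM24_spec hM)) (M24.inv_mem (isM24_spec gM)), fun x hx => ?_⟩
    obtain ⟨y, hy⟩ : ∃ y, mkPerm g4 y = x := (mkPerm g4).surjective x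
    subst hy
    rw [Perm.mul_apply, Perm.mul_apply]
    have h5 : (mkPerm g4)⁻¹ (mkPerm g4 y) = y := by simp
    rw [h5]
    have h8 : mkPerm t4 y = y := by
      apply idx_injective
      rw [idx_mkPerm hv]
      have h6 : idx (mkPerm g4 y) = g4.getD (idx y) 0 := idx_mkPerm gv y
      rw [O, mem_fset, h6] at hx
      have h7 := List.all_eq_true.1 conj4_check (idx y) (List.mem_range.2 (idx_lt y))
      rw [hx, Bool.not_true, Bool.false_or] at h7
      exact beq_iff.1 h7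
    rw [h8]

theorem card_ΩY (hYO : Y ⊆ O) : Fintype.card (ΩY Y) = 8 - Y.card := by
  have h1 : Fintype.card {y : OT // ¬ ((y : GolayPt) ∈ Y)} = Fintype.card OT - Fintype.card {y : OT // (y : GolayPt) ∈ Y} :=
    Fintype.card_subtype_compl _
  have h2 : Fintype.card {y : OT // (y : GolayPt) ∈ Y} = Y.card := by
    rw [← Fintype.card_coe Y]
    refine Fintype.card_congr ⟨fun y => ⟨y, y.2⟩, fun y => ⟨⟨y, hYO y.2⟩, y.2⟩, fun y => rfl, fun y => rfl⟩
  rw [h1, card_OT, h2]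

theorem m2x_simple (hK : ∀ g, g ∈ K ↔ g ∈ M24 ∧ ∀ y ∈ Y, g y = y) (hY : Y ⊆ {pt 23, pt 0})
    (hidx : ¬ 2 ∣ ((StS O).subgroupOf K).index) (S : Sylow 2 K) : (groupFusionSystem (S : Subgroup K)).IsSimple 2 := by
  have hYO : Y ⊆ O := by
    refine hY.trans ?_
    unfold O; decide +kernel
  have hYc : Y.card ≤ 2 := (Finset.card_le_card hY).trans (by decide +kernel)
  have hΩ := card_ΩY hYO
  have hfixY : ∀ g : Perm GolayPt, g (pt 23) = pt 23 → g (pt 0) = pt 0 → ∀ y ∈ Y, g y = y := by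
    intro g h1 h2 y hy
    have := hY hy
    rw [Finset.mem_insert, Finset.mem_singleton] at this
    rcases this with rfl | rfl
    · exact h1
    · exact h2
  have hconjE : ∀ g ∈ M24, g • O = O → ∀ e ∈ E8, g * e * g⁻¹ ∈ E8 := by
    intro g hgM hgO e he
    rw [mem_E8]
    refine ⟨M24.mul_mem (M24.mul_mem hgM (mem_E8.1 he).1) (M24.inv_mem hgM), fun x hx => ?_⟩
    have h2 : g⁻¹ x ∈ O := by
      rw [← mem_of_smul_eq hgO]; simpa using hx
    rw [Perm.mul_apply, Perm.mul_apply, (mem_E8.1 he).2 _ h2]; simp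
  refine simple_of_affine ((StS O).subgroupOf K) (E8.subgroupOf K) (ΩY Y) (by omega) (ρ hK) (ρ_surjective hK hYO) ?_
    (ρ_eq_one hK) ?_ ?_ hidx ?_ ?_ ?_ ?_ S
  · -- E ≤ H
    intro g hg
    rw [Subgroup.mem_subgroupOf] at hg ⊢
    exact smul_O_of fun x => by
      constructor
      · intro h
        have := (mem_E8.1 hg).2 _ h
        rw [← (g : Perm GolayPt).injective this]; exact h
      · intro h; rw [(mem_E8.1 hg).2 _ h]; exact h
  · -- 2-group
    rintro ⟨g, hg⟩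
    refine ⟨1, Subtype.ext (Subtype.ext ?_)⟩
    show (g : Perm GolayPt) ^ 2 ^ 1 = 1
    rw [pow_one, pow_two]
    exact E8_sq hg
  · -- nontrivial
    intro h
    obtain ⟨g, hg, h1⟩ := E8_to (pt 6) (by unfold O; decide +kernel)
    have h2 : (⟨g, E8_le hK hYO hg⟩ : K) ∈ E8.subgroupOf K := hg
    rw [h, Subgroup.mem_bot] at h2
    have h3 : g = 1 := congrArg Subtype.val h2
    rw [h3, Perm.one_apply] at h1
    exact absurd h1 (by decide +kernel)
  · -- centraliser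
    intro x hx hc
    rw [Subgroup.mem_subgroupOf] at hx ⊢
    refine centralizer_E8 ((hK _).1 x.2).1 (fun y => mem_of_smul_eq hx y) fun e he => ?_
    exact congrArg Subtype.val (hc ⟨e, E8_le hK hYO he⟩ he)
  · -- transitivity
    intro e he f hf he1 hf1
    obtain ⟨h, hM, h23, h0, hO, hef⟩ := E8_conj (e := e) (f := f) he hf (fun h => he1 (Subtype.ext h))
      (fun h => hf1 (Subtype.ext h))
    exact ⟨⟨h, (hK _).2 ⟨hM, hfixY h h23 h0⟩⟩, hO, Subtype.ext hef⟩
  · -- lifting of involutions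
    have hlift : ∀ (t : Perm GolayPt) (htK : t ∈ K) (htO : t • O = O), t * t = 1 → (∃ g ∈ K, g * t * g⁻¹ ∈ E8) →
        (ρ hK ⟨⟨t, htK⟩, htO⟩ ≠ 1) → ∀ s : alternatingGroup (ΩY Y),
          (s : Perm (ΩY Y)).cycleType = (ρ hK ⟨⟨t, htK⟩, htO⟩ : Perm (ΩY Y)).cycleType →
          ∃ x : (StS O).subgroupOf K, ρ hK x = s ∧ ∃ g : K, g * (x : K) * g⁻¹ ∈ E8.subgroupOf K := by
      rintro t htK htO htt ⟨g, hgK, hg⟩ ht1 s hs
      obtain ⟨c, hc, hcs⟩ := alt_conj hs (by
        have h1 : ρ hK ⟨⟨t, htK⟩, htO⟩ * ρ hK ⟨⟨t, htK⟩, htO⟩ = 1 := by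
          rw [← map_mul]
          have h2 : (⟨⟨t, htK⟩, htO⟩ : (StS O).subgroupOf K) * ⟨⟨t, htK⟩, htO⟩ = 1 := Subtype.ext (Subtype.ext htt)
          rw [h2, map_one]
        exact congrArg Subtype.val h1) (fun h => ht1 (Subtype.ext h))
      obtain ⟨k, hk⟩ := ρ_surjective hK hYO ⟨c, hc⟩
      refine ⟨k * ⟨⟨t, htK⟩, htO⟩ * k⁻¹, ?_, ⟨g, hgK⟩ * (k : K)⁻¹, ?_⟩
      · rw [map_mul, map_mul, map_inv, hk]
        exact Subtype.ext hcs
      · have h3 : (⟨g, hgK⟩ * (k : K)⁻¹) * ((k * ⟨⟨t, htK⟩, htO⟩ * k⁻¹ : (StS O).subgroupOf K) : K) *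
            (⟨g, hgK⟩ * (k : K)⁻¹)⁻¹ = ⟨g, hgK⟩ * ⟨t, htK⟩ * (⟨g, hgK⟩)⁻¹ := by
          rw [Subgroup.coe_mul, Subgroup.coe_mul, Subgroup.coe_inv]
          group
        rw [h3]
        exact hg
    intro s hs1 hs2
    obtain ⟨t, tM, t23, t0, tO, t1, t3, tt, g, gM, g23, g0, gE⟩ := t2_facts
    have htK : t ∈ K := (hK _).2 ⟨tM, hfixY t t23 t0⟩
    have hgK : g ∈ K := (hK _).2 ⟨gM, hfixY g g23 g0⟩
    have h1Y : pt 1 ∉ Y := fun h => absurd (hY h) (by decide +kernel)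
    have h3Y : pt 3 ∉ Y := fun h => absurd (hY h) (by decide +kernel)
    have h1O : pt 1 ∈ O := by unfold O; decide +kernel
    have h3O : pt 3 ∈ O := by unfold O; decide +kernel
    have hρ1 : ρ hK ⟨⟨t, htK⟩, tO⟩ ≠ 1 := by
      intro h
      have h4 := ρ_apply hK ⟨⟨t, htK⟩, tO⟩ ⟨⟨pt 3, h3O⟩, h3Y⟩
      rw [h] at h4
      have h5 : pt 3 = t (pt 3) := h4
      rw [t3] at h5
      exact absurd h5 (by decide +kernel)
    have hρ2 : (ρ hK ⟨⟨t, htK⟩, tO⟩ : Perm (ΩY Y)) * (ρ hK ⟨⟨t, htK⟩, tO⟩ : Perm (ΩY Y)) = 1 := by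
      have h1 : ρ hK ⟨⟨t, htK⟩, tO⟩ * ρ hK ⟨⟨t, htK⟩, tO⟩ = 1 := by
        rw [← map_mul]
        have h2 : (⟨⟨t, htK⟩, tO⟩ : (StS O).subgroupOf K) * ⟨⟨t, htK⟩, tO⟩ = 1 := Subtype.ext (Subtype.ext tt)
        rw [h2, map_one]
      exact congrArg Subtype.val h1
    have htype := invol_type (by omega) (ρ hK ⟨⟨t, htK⟩, tO⟩).2 hρ2 (fun h => hρ1 (Subtype.ext h))
    have htype' : (ρ hK ⟨⟨t, htK⟩, tO⟩ : Perm (ΩY Y)).cycleType = Multiset.replicate 2 2 := by
      rcases htype with h | h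
      · exact h.1
      · exfalso
        have h4 : (⟨⟨pt 1, h1O⟩, h1Y⟩ : ΩY Y) ∈ (ρ hK ⟨⟨t, htK⟩, tO⟩ : Perm (ΩY Y)).support := by
          rw [h.2]; exact Finset.mem_univ _
        rw [Perm.mem_support] at h4
        apply h4
        exact Subtype.ext (Subtype.ext t1)
    rcases invol_type (by omega) s.2 (congrArg Subtype.val hs2) (fun h => hs1 (Subtype.ext h)) with h | h
    · exact hlift t htK tO tt ⟨g, hgK, gE⟩ hρ1 s (h.1.trans htype'.symm)
    · -- fixed-point-free: only for Y empty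
      have h5 : (s : Perm (ΩY Y)).support.card = 8 := by
        rw [← Perm.sum_cycleType, h.1]; decide
      have hYe : Y = ∅ := by
        rw [h.2, Finset.card_univ] at h5
        rw [← Finset.card_eq_zero]
        have := Finset.card_le_card hYO
        rw [card_O] at this
        omega
      obtain ⟨t, tM, tO, tfix, tt, g, gM, gE⟩ := t4_facts
      have htK : t ∈ K := (hK _).2 ⟨tM, by rw [hYe]; simp⟩
      have hgK : g ∈ K := (hK _).2 ⟨gM, by rw [hYe]; simp⟩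
      have hρf : ∀ x : ΩY Y, (ρ hK ⟨⟨t, htK⟩, tO⟩ : Perm (ΩY Y)) x ≠ x := by
        intro x hx
        have h6 := ρ_apply hK ⟨⟨t, htK⟩, tO⟩ x
        rw [hx] at h6
        exact tfix _ (x : OT).2 h6.symm
      have hρ1 : ρ hK ⟨⟨t, htK⟩, tO⟩ ≠ 1 := by
        intro h6
        refine hρf ⟨⟨pt 3, h3O⟩, h3Y⟩ ?_
        rw [h6]; rfl
      have hρ2 : (ρ hK ⟨⟨t, htK⟩, tO⟩ : Perm (ΩY Y)) * (ρ hK ⟨⟨t, htK⟩, tO⟩ : Perm (ΩY Y)) = 1 := by
        have h1 : ρ hK ⟨⟨t, htK⟩, tO⟩ * ρ hK ⟨⟨t, htK⟩, tO⟩ = 1 := by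
          rw [← map_mul]
          have h2 : (⟨⟨t, htK⟩, tO⟩ : (StS O).subgroupOf K) * ⟨⟨t, htK⟩, tO⟩ = 1 := Subtype.ext (Subtype.ext tt)
          rw [h2, map_one]
        exact congrArg Subtype.val h1
      have htype := invol_type (by omega) (ρ hK ⟨⟨t, htK⟩, tO⟩).2 hρ2 (fun h => hρ1 (Subtype.ext h))
      have htype' : (ρ hK ⟨⟨t, htK⟩, tO⟩ : Perm (ΩY Y)).cycleType = Multiset.replicate 4 2 := by
        rcases htype with h6 | h6
        · exfalso
          have h7 : (ρ hK ⟨⟨t, htK⟩, tO⟩ : Perm (ΩY Y)).support = Finset.univ := by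
            ext x
            simp only [Perm.mem_support, Finset.mem_univ, iff_true]
            exact hρf x
          have h8 := h6.2
          rw [h7, Finset.card_univ, hΩ] at h8
          have hY0 : Y.card = 0 := by rw [hYe]; rfl
          omega
        · exact h6.1
      exact hlift t htK tO tt ⟨g, hgK, gE⟩ hρ1 s (h.1.trans htype'.symm)
  · -- normaliser
    intro Q hQH hEQ g hg
    have key : ∀ g ∈ Subgroup.normalizer (Q : Set K), ∀ x : GolayPt, x ∉ O → (g : Perm GolayPt) x ∉ O := by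
      intro g hg x hx hgx
      -- the complement is mapped into `O`
      have h1 : ∀ c : GolayPt, c ∉ O → (g : Perm GolayPt) c ∈ O := by
        intro c hc
        obtain ⟨e, he, hec⟩ := E8_trans hx hc
        have h2 : (⟨e, E8_le hK hYO he⟩ : K) ∈ Q := hEQ he
        have h3 := hQH ((Subgroup.mem_normalizer_iff.1 hg _).1 h2)
        rw [Subgroup.mem_subgroupOf] at h3
        have h4 := (mem_of_smul_eq h3 ((g : Perm GolayPt) x)).2 hgx
        have h5 : ((g * ⟨e, E8_le hK hYO he⟩ * g⁻¹ : K) : Perm GolayPt) ((g : Perm GolayPt) x) = (g : Perm GolayPt) c := by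
          rw [Subgroup.coe_mul, Subgroup.coe_mul, Subgroup.coe_inv, Perm.mul_apply, Perm.mul_apply]
          simp [hec]
        rw [h5] at h4; exact h4
      have h2 : ((Finset.univ \ O).map (g : Perm GolayPt).toEmbedding).card ≤ O.card := by
        apply Finset.card_le_card
        intro y hy
        rw [Finset.mem_map] at hy
        obtain ⟨c, hc, rfl⟩ := hy
        exact h1 c (Finset.mem_sdiff.1 hc).2
      rw [Finset.card_map, Finset.card_sdiff_of_subset (Finset.subset_univ _), card_O, Finset.card_univ, card_pt] at h2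
      omega
    rw [Subgroup.mem_subgroupOf]
    refine smul_O_of fun x => ?_
    constructor
    · intro h
      by_contra hx
      exact key g hg x hx h
    · intro h
      by_contra hx
      have := key g⁻¹ (Subgroup.inv_mem _ hg) _ hx
      apply this
      rw [Subgroup.coe_inv]; simpa using h

end CfsgLib.Fus21.M24
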