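import Cfsg.Agent.LibFus21M24c
import Cfsg.Prelude.Def_Spor_Mathieu

set_option autoImplicit false

/-! The 2-fusion systems of `M24`, `M23`, `M22`, part 4. -/

namespace CfsgLib.Fus21.M24

open Cfsg CfsgLib.M24 CfsgLib.Golay Equiv
open scoped Pointwise

variable {Y : Finset GolayPt} {K : Subgroup (Perm GolayPt)}

theorem card_E8 : Nat.card E8 = 16 := (octad_pointwise O_mem).1

theorem card_H (hK : ∀ g, g ∈ K ↔ g ∈ M24 ∧ ∀ y ∈ Y, g y = y) (hYO : Y ⊆ O) (h6 : Y.card ≤ 6) :
    2 * Nat.card ((StS O).subgroupOf K) = 16 * (8 - Y.card).factorial := by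
  have h1 : Nat.card (ρ hK).ker = 16 := by
    have h2 : ((ρ hK).ker).map ((K.subtype).comp ((StS O).subgroupOf K).subtype) = E8 := by
      ext g
      rw [Subgroup.mem_map]
      constructor
      · rintro ⟨h, hh, rfl⟩
        exact (ρ_eq_one hK h).1 hh
      · intro hg
        have h3 : g • O = O := smul_O_of fun x => by
          constructor
          · intro h
            have := (mem_E8.1 hg).2 _ h
            rw [← g.injective this]; exact h
          · intro h; rw [(mem_E8.1 hg).2 _ h]; exact h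
        exact ⟨⟨⟨g, E8_le hK hYO hg⟩, h3⟩, (ρ_eq_one hK _).2 hg, rfl⟩
    rw [← card_E8, ← h2]
    refine Nat.card_congr (Subgroup.equivMapOfInjective _ _ ?_).toEquiv
    exact (Subgroup.subtype_injective _).comp (Subgroup.subtype_injective _)
  have h2 : Nat.card ((StS O).subgroupOf K) = Nat.card (alternatingGroup (ΩY Y)) * 16 := by
    rw [← h1, Subgroup.card_eq_card_quotient_mul_card_subgroup (ρ hK).ker,
      Nat.card_congr (QuotientGroup.quotientKerEquivOfSurjective (ρ hK) (ρ_surjective hK hYO)).toEquiv]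
  have hΩ := card_ΩY hYO
  haveI : Nontrivial (ΩY Y) := by
    rw [← Fintype.one_lt_card_iff_nontrivial, hΩ]; omega
  have h3 : 2 * Nat.card (alternatingGroup (ΩY Y)) = (8 - Y.card).factorial := by
    rw [two_mul_nat_card_alternatingGroup, Nat.card_eq_fintype_card, Fintype.card_perm, hΩ]
  rw [h2, ← h3]; ring

theorem m24_simple (S : Sylow 2 M24) : (groupFusionSystem (S : Subgroup M24)).IsSimple 2 := by
  have hK : ∀ g : Perm GolayPt, g ∈ M24 ↔ g ∈ M24 ∧ ∀ y ∈ (∅ : Finset GolayPt), g y = y := by
    intro g; simp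
  refine m2x_simple (K := M24) hK (Finset.empty_subset _) ?_ S
  have h1 := card_H (K := M24) hK (Finset.empty_subset _) (by decide)
  have h2 := Subgroup.card_mul_index ((StS O).subgroupOf M24)
  rw [card_M24] at h2
  have h3 : Nat.card ((StS O).subgroupOf M24) = 322560 := by
    have : (16 : ℕ) * (8 - (∅ : Finset GolayPt).card).factorial = 2 * 322560 := by
      rw [Finset.card_empty]; norm_num [Nat.factorial]
    rw [this] at h1
    exact Nat.eq_of_mul_eq_mul_left (by norm_num) h1
  rw [h3] at h2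
  have h4 : ((StS O).subgroupOf M24).index = 759 :=
    Nat.eq_of_mul_eq_mul_left (by norm_num : 0 < 322560) (h2.trans (by norm_num))
  rw [h4]; norm_num

theorem m23_simple (S : Sylow 2 Spor.M23) : (groupFusionSystem (S : Subgroup Spor.M23)).IsSimple 2 := by
  have hK : ∀ g : Perm GolayPt, g ∈ Spor.M23 ↔ g ∈ M24 ∧ ∀ y ∈ ({pt 23} : Finset GolayPt), g y = y := by
    intro g
    rw [Spor.M23, Subgroup.mem_inf]
    simp only [Finset.mem_singleton, forall_eq]
    exact Iff.rfl
  have hY : ({pt 23} : Finset GolayPt) ⊆ O := by unfold O; decide +kernel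
  refine m2x_simple (K := Spor.M23) hK (by simp) ?_ S
  have h1 := card_H (K := Spor.M23) hK hY (by simp)
  have h2 := Subgroup.card_mul_index ((StS O).subgroupOf Spor.M23)
  have h5 : Nat.card Spor.M23 = 10200960 := card_M23 (pt 23)
  rw [h5] at h2
  have h3 : Nat.card ((StS O).subgroupOf Spor.M23) = 40320 := by
    have : (16 : ℕ) * (8 - ({pt 23} : Finset GolayPt).card).factorial = 2 * 40320 := by
      rw [Finset.card_singleton]; norm_num [Nat.factorial]
    rw [this] at h1
    exact Nat.eq_of_mul_eq_mul_left (by norm_num) h1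
  rw [h3] at h2
  have h4 : ((StS O).subgroupOf Spor.M23).index = 253 :=
    Nat.eq_of_mul_eq_mul_left (by norm_num : 0 < 40320) (h2.trans (by norm_num))
  rw [h4]; norm_num

theorem m22_simple (S : Sylow 2 Spor.M22) : (groupFusionSystem (S : Subgroup Spor.M22)).IsSimple 2 := by
  have hK : ∀ g : Perm GolayPt, g ∈ Spor.M22 ↔ g ∈ M24 ∧ ∀ y ∈ ({pt 23, pt 0} : Finset GolayPt), g y = y := by
    intro g
    rw [Spor.M22, Subgroup.mem_inf, Spor.M23, Subgroup.mem_inf]
    simp only [Finset.mem_insert, Finset.mem_singleton, forall_eq_or_imp, forall_eq]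
    rw [and_assoc]
    exact Iff.rfl
  have hY : ({pt 23, pt 0} : Finset GolayPt) ⊆ O := by unfold O; decide +kernel
  have hc : ({pt 23, pt 0} : Finset GolayPt).card = 2 := by decide +kernel
  refine m2x_simple (K := Spor.M22) hK (Finset.Subset.refl _) ?_ S
  have h1 := card_H (K := Spor.M22) hK hY (by rw [hc]; norm_num)
  have h2 := Subgroup.card_mul_index ((StS O).subgroupOf Spor.M22)
  have h5 : Nat.card Spor.M22 = 443520 := card_M22 (pt 23) (pt 0) (by decide +kernel)
  rw [h5] at h2
  have h3 : Nat.card ((StS O).subgroupOf Spor.M22) = 5760 := by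
    have : (16 : ℕ) * (8 - ({pt 23, pt 0} : Finset GolayPt).card).factorial = 2 * 5760 := by
      rw [hc]; norm_num [Nat.factorial]
    rw [this] at h1
    exact Nat.eq_of_mul_eq_mul_left (by norm_num) h1
  rw [h3] at h2
  have h4 : ((StS O).subgroupOf Spor.M22).index = 77 :=
    Nat.eq_of_mul_eq_mul_left (by norm_num : 0 < 5760) (h2.trans (by norm_num))
  rw [h4]; norm_num

end CfsgLib.Fus21.M24
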