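import Cfsg.Agent.LibFus21PSL
import Mathlib.LinearAlgebra.Matrix.Block
import Mathlib.Algebra.CharP.Lemmas

set_option autoImplicit false

/-! The fusion system of `PSL_n(K)` in defining characteristic, part 2. -/

namespace CfsgLib.Fus21.PSL

open Cfsg Matrix

variable {K : Type*} [Field K] {n : ℕ}

theorem Nil.pow_apply {b : Fin n → ℕ} {N : Matrix (Fin n) (Fin n) K} (hN : Nil b N) (m : ℕ) :
    ∀ i j, b j < b i + m → (N ^ m) i j = 0 := by
  induction m with
  | zero =>
    intro i j h
    rw [pow_zero, Matrix.one_apply_ne]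
    rintro rfl
    omega
  | succ m ih =>
    intro i j h
    rw [pow_succ, Matrix.mul_apply]
    refine Finset.sum_eq_zero fun k _ => ?_
    by_cases h1 : b k < b i + m
    · rw [ih i k h1, zero_mul]
    · rw [hN k j (by omega), mul_zero]

theorem Nil.pow_eq_zero {b : Fin n → ℕ} {N : Matrix (Fin n) (Fin n) K} (hN : Nil b N) {m : ℕ}
    (hm : Finset.univ.sup b < m) : N ^ m = 0 := by
  ext i j
  rw [hN.pow_apply m i j, Matrix.zero_apply]
  have : b j ≤ Finset.univ.sup b := Finset.le_sup (Finset.mem_univ j)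
  omega

variable [Fintype K] {p : ℕ} [Fact p.Prime] [CharP K p] [NeZero n]

theorem Rb_isPGroup (b : Fin n → ℕ) : IsPGroup p (Rb K b) := by
  rintro ⟨g, hg⟩
  have h1 := (mem_Rb.1 hg).pow_eq_zero (Nat.lt_succ_self _)
  set m := (Finset.univ.sup b).succ
  refine ⟨m, Subtype.ext ?_⟩
  apply Subtype.ext
  show ((g ^ p ^ m : SpecialLinearGroup (Fin n) K) : Matrix (Fin n) (Fin n) K) = 1
  have h2 : ((g ^ p ^ m : SpecialLinearGroup (Fin n) K) : Matrix (Fin n) (Fin n) K) =
      (((g : Matrix (Fin n) (Fin n) K) - 1) + 1) ^ p ^ m := by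
    rw [sub_add_cancel]; rfl
  haveI : CharP (Matrix (Fin n) (Fin n) K) p := inferInstance
  rw [h2, add_pow_char_pow_of_commute _ _ (Commute.one_right _), one_pow]
  have h3 : m ≤ p ^ m := (Nat.lt_pow_self (Fact.out : p.Prime).one_lt).le
  have h4 : ((g : Matrix (Fin n) (Fin n) K) - 1) ^ p ^ m = 0 := by
    rw [← Nat.sub_add_cancel h3, pow_add, h1, mul_zero]
  rw [h4, zero_add]

omit [NeZero n]

/-- the standard flag -/
def Wk (K : Type*) [Field K] (n k : ℕ) : Set (Fin n → K) := {v | ∀ j : Fin n, k ≤ j.val → v j = 0}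

omit [Fintype K] in
theorem mulVec_Wk {k : ℕ} {N : Matrix (Fin n) (Fin n) K} (hN : Nil Fin.val N) {v : Fin n → K} (hv : v ∈ Wk K n (k + 1)) :
    N *ᵥ v ∈ Wk K n k := by
  intro i hi
  rw [Matrix.mulVec, dotProduct]
  refine Finset.sum_eq_zero fun j _ => ?_
  by_cases h1 : i.val < j.val
  · rw [hv j (by omega), mul_zero]
  · rw [hN i j h1, zero_mul]

theorem mem_Wk_succ {k : ℕ} {v : Fin n → K} : v ∈ Wk K n (k + 1) ↔ ∀ u ∈ Rb K (Fin.val : Fin n → ℕ),
    ((u : Matrix (Fin n) (Fin n) K) - 1) *ᵥ v ∈ Wk K n k := by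
  constructor
  · intro hv u hu
    exact mulVec_Wk (mem_Rb.1 hu) hv
  · intro h j hj
    have hj0 : 0 < j.val := by omega
    set i : Fin n := ⟨j.val - 1, by omega⟩ with hi
    have hij : i ≠ j := by
      intro h; have := congrArg Fin.val h; simp [hi] at this; omega
    have h1 := h (tv i j hij 1) (tv_mem_Rb hij (by simp [hi]; omega) 1) i (by simp [hi]; omega)
    rw [coe_tv, add_sub_cancel_left, single_mulVec_eq] at h1
    simpa using h1

theorem normalizer_upper {g : SpecialLinearGroup (Fin n) K}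
    (hg : g ∈ Subgroup.normalizer ((Rb K (Fin.val : Fin n → ℕ) : Subgroup _) : Set (SpecialLinearGroup (Fin n) K))) :
    Alg Fin.val (g : Matrix (Fin n) (Fin n) K) := by
  have key : ∀ k : ℕ, ∀ v ∈ Wk K n k, (g : Matrix (Fin n) (Fin n) K) *ᵥ v ∈ Wk K n k := by
    intro k
    induction k with
    | zero =>
      intro v hv
      have : v = 0 := funext fun j => hv j (Nat.zero_le _)
      rw [this, Matrix.mulVec_zero]
      intro j _; rfl
    | succ k ih =>
      intro v hv
      rw [mem_Wk_succ]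
      intro u hu
      have h1 : g⁻¹ * u * g ∈ Rb K (Fin.val : Fin n → ℕ) := by
        have := (Subgroup.mem_normalizer_iff.1 (Subgroup.inv_mem _ hg) u).1 hu
        rwa [inv_inv] at this
      have h2 := ih _ (mem_Wk_succ.1 hv _ h1)
      have h3 : ((u : Matrix (Fin n) (Fin n) K) - 1) *ᵥ (g : Matrix (Fin n) (Fin n) K) *ᵥ v =
          (g : Matrix (Fin n) (Fin n) K) *ᵥ ((((g⁻¹ * u * g : SpecialLinearGroup (Fin n) K) : Matrix (Fin n) (Fin n) K) - 1) *ᵥ v) := by
        rw [Matrix.mulVec_mulVec, Matrix.mulVec_mulVec]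
        congr 1
        rw [cmul, cmul, mul_sub, mul_one, sub_mul, one_mul, ← mul_assoc, ← mul_assoc, cmul_inv, one_mul]
      rw [h3]; exact h2
  intro i j hij
  have h1 := key (j.val + 1) (Pi.single j 1) (by
    intro l hl
    rw [Pi.single_apply, if_neg]
    rintro rfl; omega) i (by omega)
  rw [Matrix.mulVec_single_one] at h1
  exact h1

omit [Fintype K] in
theorem alg_diag_mul {g h : Matrix (Fin n) (Fin n) K} (hg : Alg Fin.val g) (hh : Alg Fin.val h) (i : Fin n) :
    (g * h) i i = g i i * h i i := by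
  rw [Matrix.mul_apply, Finset.sum_eq_single i]
  · intro j _ hj
    rcases lt_or_gt_of_ne hj with h1 | h1
    · rw [hg i j (by simpa using h1), zero_mul]
    · rw [hh j i (by simpa using h1), mul_zero]
  · intro h; exact absurd (Finset.mem_univ i) h

theorem alg_pow {g : SpecialLinearGroup (Fin n) K} (hg : Alg Fin.val (g : Matrix (Fin n) (Fin n) K)) (m : ℕ) :
    Alg Fin.val ((g ^ m : SpecialLinearGroup (Fin n) K) : Matrix (Fin n) (Fin n) K) ∧
      ∀ i, (g ^ m : SpecialLinearGroup (Fin n) K) i i = (g i i) ^ m := by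
  induction m with
  | zero =>
    rw [pow_zero]
    refine ⟨by rw [cone]; exact alg_one _, fun i => ?_⟩
    rw [cone, pow_zero, Matrix.one_apply_eq]
  | succ m ih =>
    rw [pow_succ]
    refine ⟨by rw [cmul]; exact ih.1.mul hg, fun i => ?_⟩
    rw [cmul, alg_diag_mul ih.1 hg, ih.2, pow_succ]

theorem alg_inv {g : SpecialLinearGroup (Fin n) K} (hg : Alg Fin.val (g : Matrix (Fin n) (Fin n) K)) :
    Alg Fin.val ((g⁻¹ : SpecialLinearGroup (Fin n) K) : Matrix (Fin n) (Fin n) K) := by
  have h2 : g⁻¹ = g ^ (orderOf g - 1) := by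
    rw [inv_eq_iff_mul_eq_one, ← pow_succ']
    rw [Nat.sub_add_cancel (orderOf_pos g)]
    exact pow_orderOf_eq_one g
  rw [h2]; exact (alg_pow hg _).1

omit [Fintype K] in
theorem alg_det {g : SpecialLinearGroup (Fin n) K} (hg : Alg Fin.val (g : Matrix (Fin n) (Fin n) K)) :
    ∏ i, g i i = 1 := by
  have h1 : (g : Matrix (Fin n) (Fin n) K).BlockTriangular id := by
    intro i j hij
    exact hg i j (by simpa using hij)
  rw [← det_of_upperTriangular h1]
  exact g.2

omit [Fintype K] in
theorem alg_ne_zero {g : SpecialLinearGroup (Fin n) K} (hg : Alg Fin.val (g : Matrix (Fin n) (Fin n) K)) (i : Fin n) :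
    g i i ≠ 0 := by
  intro h
  have this : ∏ i, (fun i => g i i) i = 1 := alg_det hg
  rw [Finset.prod_eq_zero (f := fun i => g i i) (Finset.mem_univ i) h] at this
  exact zero_ne_one this

theorem upper_pow_mem {g : SpecialLinearGroup (Fin n) K} (hg : Alg Fin.val (g : Matrix (Fin n) (Fin n) K)) :
    g ^ (Fintype.card K - 1) ∈ Rb K (Fin.val : Fin n → ℕ) := by
  rw [mem_Rb']
  intro i j hij
  rcases eq_or_ne i j with rfl | hne
  · rw [(alg_pow hg _).2, Matrix.one_apply_eq]
    exact FiniteField.pow_card_sub_one_eq_one _ (alg_ne_zero hg i)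
  · rw [(alg_pow hg _).1 i j (by
      intro h; apply hij
      exact lt_of_le_of_ne h (fun h' => hne (Fin.ext h'))), Matrix.one_apply_ne hne]

/-- elements commuting with all upper transvections -/
theorem central_entry {x : SpecialLinearGroup (Fin n) K}
    (hc : ∀ i j : Fin n, ∀ h : i.val < j.val, ∀ c : K, x * tv i j (by rintro rfl; exact lt_irrefl _ h) c =
      tv i j (by rintro rfl; exact lt_irrefl _ h) c * x) {i j : Fin n} (hij : i.val < j.val) :
    (∀ k, k ≠ i → x k i = 0) ∧ (∀ l, l ≠ j → x j l = 0) := by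
  have hne : i ≠ j := by rintro rfl; exact lt_irrefl _ hij
  have h1 := congrArg (fun g : SpecialLinearGroup (Fin n) K => (g : Matrix (Fin n) (Fin n) K)) (hc i j hij 1)
  simp only [cmul, coe_tv, mul_add, add_mul, mul_one, one_mul, add_right_inj] at h1
  constructor
  · intro k hk
    have h2 := congrFun (congrFun h1 k) j
    rw [mul_single_apply_same, single_mul_apply_of_ne _ _ _ _ _ hk, mul_one] at h2
    exact h2
  · intro l hl
    have h2 := congrFun (congrFun h1 i) l
    rw [single_mul_apply_same, mul_single_apply_of_ne _ _ _ _ _ hl, one_mul] at h2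
    exact h2.symm

end CfsgLib.Fus21.PSL
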