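import Cfsg.Agent.LibFus21PSL2
import Cfsg.Agent.LibFus21Cen

set_option autoImplicit false

/-! The fusion system of `PSL_n(K)` in defining characteristic, part 3. -/

namespace CfsgLib.Fus21.PSL

open Cfsg Matrix

variable {K : Type*} [Field K] {n : ℕ} [Fintype K] 

/-- the subgroup generated by upper transvections -/
theorem unip_generated {H : Subgroup (SpecialLinearGroup (Fin n) K)}
    (hH : ∀ (i j : Fin n) (h : i ≠ j), i.val < j.val → ∀ c : K, tv i j h c ∈ H) :
    Rb K (Fin.val : Fin n → ℕ) ≤ H := by
  -- a column
  have hcol : ∀ (k : Fin n) (a : Fin n → K) (A : Finset (Fin n)), (∀ i ∈ A, i.val < k.val) →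
      ∃ h ∈ H, (h : Matrix (Fin n) (Fin n) K) = 1 + ∑ i ∈ A, single i k (a i) := by
    intro k a A
    induction A using Finset.induction_on with
    | empty => intro _; exact ⟨1, H.one_mem, by simp [cone]⟩
    | insert j A hj ih =>
      intro hA
      obtain ⟨h, hh, he⟩ := ih fun i hi => hA i (Finset.mem_insert_of_mem hi)
      have hjk := hA j (Finset.mem_insert_self _ _)
      have hne : j ≠ k := by rintro rfl; exact lt_irrefl _ hjk
      refine ⟨tv j k hne (a j) * h, H.mul_mem (hH _ _ hne hjk _) hh, ?_⟩
      rw [cmul, he, coe_tv, Finset.sum_insert hj, add_mul, one_mul, mul_add, mul_one, Finset.mul_sum,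
        Finset.sum_eq_zero (s := A) (f := fun i => single j k (a j) * single i k (a i))]
      · abel
      · intro i hi
        have : k ≠ i := by
          rintro rfl
          exact lt_irrefl _ (hA k (Finset.mem_insert_of_mem hi))
        exact single_mul_single_of_ne _ _ _ _ this _
  have key : ∀ k : ℕ, ∀ u ∈ Rb K (Fin.val : Fin n → ℕ), (∀ i j : Fin n, i ≠ j → k ≤ j.val → u i j = 0) → u ∈ H := by
    intro k
    induction k with
    | zero =>
      intro u hu h
      have : u = 1 := by
        apply Subtype.ext
        show (u : Matrix (Fin n) (Fin n) K) = 1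
        ext i j
        rcases eq_or_ne i j with rfl | hne
        · exact mem_Rb'.1 hu i i (lt_irrefl _)
        · rw [Matrix.one_apply_ne hne]; exact h i j hne (Nat.zero_le _)
      rw [this]; exact H.one_mem
    | succ k ih =>
      intro u hu h
      by_cases hk : k < n
      · set K0 : Fin n := ⟨k, hk⟩ with hK0
        obtain ⟨c, hc, hce⟩ := hcol K0 (fun i => - u i K0) (Finset.univ.filter fun i => i.val < K0.val) (by
          intro i hi; exact (Finset.mem_filter.1 hi).2)
        have hcU : c ∈ Rb K (Fin.val : Fin n → ℕ) := by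
          rw [mem_Rb, hce, add_sub_cancel_left]
          intro i j hij
          rw [Matrix.sum_apply]
          refine Finset.sum_eq_zero fun l hl => ?_
          rw [single_apply, if_neg]
          rintro ⟨rfl, rfl⟩
          exact hij (Finset.mem_filter.1 hl).2
        have h1 : c * u ∈ H := by
          refine ih _ (Subgroup.mul_mem _ hcU hu) ?_
          intro i j hij hkj
          have h2 : (c * u : SpecialLinearGroup (Fin n) K) i j = u i j +
              (if i.val < k then -u i K0 * u K0 j else 0) := by
            rw [cmul, hce, add_mul, one_mul, Matrix.add_apply, Finset.sum_mul, Matrix.sum_apply]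
            congr 1
            split_ifs with hik
            · rw [Finset.sum_eq_single i]
              · rw [single_mul_apply_same]
              · intro l _ hl
                rw [single_mul_apply_of_ne _ _ _ _ _ hl.symm]
              · intro hi
                exact absurd (Finset.mem_filter.2 ⟨Finset.mem_univ i, hik⟩) hi
            · refine Finset.sum_eq_zero fun l hl => ?_
              have hl' := (Finset.mem_filter.1 hl).2
              rw [single_mul_apply_of_ne]
              rintro rfl
              exact hik hl'
          rw [h2]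
          have hKj : j ≠ K0 → u K0 j = 0 := by
            intro hne
            rcases Nat.lt_or_ge k j.val with h3 | h3
            · exact h K0 j hne.symm h3
            · exact absurd (Fin.ext (by simp [hK0]; omega)) hne
          rcases eq_or_ne j K0 with rfl | hne
          · have h4 : u K0 K0 = 1 := by
              rw [mem_Rb'.1 hu K0 K0 (lt_irrefl _), Matrix.one_apply_eq]
            rw [h4, mul_one]
            split_ifs with hik
            · rw [add_neg_cancel]
            · rw [add_zero, mem_Rb'.1 hu i K0 (by simpa [hK0] using hik), Matrix.one_apply_ne hij]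
          · rw [hKj hne, mul_zero, ite_self, add_zero]
            refine h i j hij ?_
            rcases Nat.lt_or_ge k j.val with h3 | h3
            · exact h3
            · exact absurd (Fin.ext (by simp [hK0]; omega)) hne
        have h5 : u = c⁻¹ * (c * u) := by group
        rw [h5]
        exact H.mul_mem (H.inv_mem hc) h1
      · exact ih u hu fun i j hij hkj => absurd j.2 (by omega)
  intro u hu
  exact key n u hu fun i j _ h => absurd j.2 (by omega)

/-- diagonal elements -/
theorem diag_generated {H : Subgroup (SpecialLinearGroup (Fin n) K)}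
    (hH : ∀ (i j : Fin n) (h : i ≠ j), i.val + 1 = j.val → ∀ c : Kˣ, hd i j h c ∈ H)
    {d : SpecialLinearGroup (Fin n) K} (hd : ∀ i j, i ≠ j → d i j = 0) : d ∈ H := by
  have key : ∀ m k : ℕ, k + m = n → ∀ d : SpecialLinearGroup (Fin n) K, (∀ i j, i ≠ j → d i j = 0) →
      (∀ i : Fin n, i.val < k → d i i = 1) → d ∈ H := by
    intro m
    induction m with
    | zero =>
      intro k hk d hd h1
      have : d = 1 := by
        apply Subtype.ext
        show (d : Matrix (Fin n) (Fin n) K) = 1
        ext i j
        rcases eq_or_ne i j with rfl | hne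
        · rw [h1 i (by omega), Matrix.one_apply_eq]
        · rw [Matrix.one_apply_ne hne]; exact hd i j hne
      rw [this]; exact H.one_mem
    | succ m ih =>
      intro k hk d hd h1
      have hA : Alg Fin.val (d : Matrix (Fin n) (Fin n) K) := fun i j hij => hd i j (by rintro rfl; exact hij le_rfl)
      have hkn : k < n := by omega
      rcases Nat.eq_zero_or_pos m with rfl | hm
      · -- last entry
        refine ih (k + 1) (by omega) d hd fun i hi => ?_
        rcases Nat.lt_or_ge i.val k with h2 | h2
        · exact h1 i h2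
        · have h3 := alg_det hA
          rw [Finset.prod_eq_single i] at h3
          · exact h3
          · intro j _ hj
            refine h1 j ?_
            have : j.val ≠ i.val := fun h => hj (Fin.ext h)
            have := j.2
            omega
          · intro h; exact absurd (Finset.mem_univ i) h
      · set a : Fin n := ⟨k, hkn⟩ with ha
        set b : Fin n := ⟨k + 1, by omega⟩ with hb
        have hab : a ≠ b := by
          intro h; have := congrArg Fin.val h; simp [ha, hb] at this
        have hne := alg_ne_zero hA a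
        set c : Kˣ := Units.mk0 _ hne with hc
        have e1 : ∀ i j, (d * PSL.hd a b hab c⁻¹ : SpecialLinearGroup (Fin n) K) i j =
            d i j * (if j = a then ((c⁻¹ : Kˣ) : K) else if j = b then ((c⁻¹⁻¹ : Kˣ) : K) else 1) := by
          intro i j
          rw [cmul, coe_hd, Matrix.mul_diagonal]
        have h2 : d * PSL.hd a b hab c⁻¹ ∈ H := by
          refine ih (k + 1) (by omega) _ (fun i j hij => by rw [e1, hd i j hij, zero_mul]) fun i hi => ?_
          rw [e1]
          rcases Nat.lt_or_ge i.val k with h2 | h2
          · have h3 : i ≠ a := by rintro rfl; simp [ha] at h2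
            have h4 : i ≠ b := by rintro rfl; simp [hb] at h2
            rw [if_neg h3, if_neg h4, mul_one]; exact h1 i h2
          · have h3 : i = a := Fin.ext (by simp [ha]; omega)
            subst h3
            rw [if_pos rfl]
            show (c : K) * ((c⁻¹ : Kˣ) : K) = 1
            exact Units.mul_inv c
        have h3 : d = (d * PSL.hd a b hab c⁻¹) * (PSL.hd a b hab c⁻¹)⁻¹ := by group
        rw [h3]
        exact H.mul_mem h2 (H.inv_mem (hH a b hab (by simp [ha, hb]) _))
  exact key n 0 (by omega) d hd fun i hi => absurd hi (by omega)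

theorem strongly_closed_aux (hn : 3 ≤ n) {p : ℕ} [Fact p.Prime] [CharP K p] {T : Subgroup (SpecialLinearGroup (Fin n) K)}
    (hTU : T ≤ Rb K (Fin.val : Fin n → ℕ)) (hT1 : T ≠ ⊥) (hT : ∀ g : SpecialLinearGroup (Fin n) K, ∀ x ∈ T,
      g * x * g⁻¹ ∈ Rb K (Fin.val : Fin n → ℕ) → g * x * g⁻¹ ∈ T) : Rb K (Fin.val : Fin n → ℕ) ≤ T := by
  haveI : NeZero n := ⟨by omega⟩
  have hU := Rb_isPGroup (K := K) (p := p) (Fin.val : Fin n → ℕ)
  obtain ⟨x, hx, hx1, hxc⟩ := exists_central_mem hU hTU (fun u hu t ht => hT u t ht
    (Subgroup.mul_mem _ (Subgroup.mul_mem _ hu (hTU ht)) (Subgroup.inv_mem _ hu))) hT1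
  set a0 : Fin n := ⟨0, by omega⟩ with ha0
  set a1 : Fin n := ⟨1, by omega⟩ with ha1
  set aL : Fin n := ⟨n - 1, by omega⟩ with haL
  have h0L : a0 ≠ aL := by intro h; have := congrArg Fin.val h; simp [ha0, haL] at this; omega
  have h01 : a0 ≠ a1 := by intro h; have := congrArg Fin.val h; simp [ha0, ha1] at this
  have h1L : a1 ≠ aL := by intro h; have := congrArg Fin.val h; simp [ha1, haL] at this; omega
  have hce : ∀ {i j : Fin n} (hij : i.val < j.val), (∀ k, k ≠ i → x k i = 0) ∧ (∀ l, l ≠ j → x j l = 0) := by
    intro i j hij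
    exact central_entry (fun i j h c => (hxc _ (tv_mem_Rb _ h c)).symm) hij
  have hxe : x = tv a0 aL h0L (x a0 aL) := by
    apply Subtype.ext
    show (x : Matrix (Fin n) (Fin n) K) = 1 + single a0 aL (x a0 aL)
    ext k i
    rw [Matrix.add_apply, single_apply]
    rcases eq_or_ne k i with rfl | hki
    · rw [mem_Rb'.1 (hTU hx) k k (lt_irrefl _), Matrix.one_apply_eq, if_neg, add_zero]
      rintro ⟨h1, h2⟩; exact h0L (h1.trans h2.symm)
    · rw [Matrix.one_apply_ne hki, zero_add]
      split_ifs with h
      · rw [← h.1, ← h.2]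
      · rcases Nat.lt_or_ge i.val aL.val with h1 | h1
        · exact (hce h1).1 k hki
        · have h2 : i = aL := Fin.ext (by have := i.2; simp [haL] at h1 ⊢; omega)
          have h3 : a0.val < k.val := by
            rcases Nat.eq_zero_or_pos k.val with h4 | h4
            · exact absurd ⟨(Fin.ext (by simp [ha0, h4]) : a0 = k), h2.symm⟩ h
            · simpa [ha0] using h4
          exact (hce h3).2 i hki.symm
  set c := x a0 aL with hc
  have hc0 : c ≠ 0 := by
    intro h
    apply hx1
    rw [hxe, h, tv_zero]
  -- all of the highest root group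
  have hv01 : a0.val < a1.val := by simp [ha0, ha1]
  have hv0L : a0.val < aL.val := by simp [ha0, haL]; omega
  have hv1L : a1.val < aL.val := by simp [ha1, haL]; omega
  have hT01 : tv a0 a1 h01 (-c) ∈ T := by
    rw [← tv_colswap h0L h01 h1L.symm c]
    refine hT _ _ (by rw [← hxe]; exact hx) ?_
    rw [tv_colswap]
    exact tv_mem_Rb h01 hv01 _
  have hT0L : ∀ y : K, tv a0 aL h0L y ∈ T := by
    intro y
    have h2 := tv_comm h01 h0L h1L (-c) (y * c⁻¹)
    have h3 := hT (tv a1 aL h1L (y * c⁻¹)) _ hT01 (Subgroup.mul_mem _ (Subgroup.mul_mem _ (tv_mem_Rb h1L hv1L _)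
      (tv_mem_Rb h01 hv01 _)) (Subgroup.inv_mem _ (tv_mem_Rb h1L hv1L _)))
    rw [h2] at h3
    have h4 := T.mul_mem (T.inv_mem hT01) h3
    rw [inv_mul_cancel_left] at h4
    have h5 : -(-c * (y * c⁻¹)) = y := by
      field_simp
    rwa [h5] at h4
  have hT0 : ∀ j : Fin n, ∀ h : a0 ≠ j, ∀ y : K, tv a0 j h y ∈ T := by
    intro j h y
    rcases eq_or_ne j aL with rfl | hj
    · exact hT0L y
    have h2 := tv_colswap h0L h hj.symm (-y)
    rw [neg_neg] at h2
    rw [← h2]
    refine hT _ _ (hT0L _) ?_
    rw [h2]
    refine tv_mem_Rb h ?_ _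
    have : j.val ≠ a0.val := fun h' => h (Fin.ext h'.symm)
    simp only [ha0] at this ⊢
    omega
  refine unip_generated fun i j h hij y => ?_
  have hj0 : a0 ≠ j := by
    rintro rfl
    simp [ha0] at hij
  rcases eq_or_ne i a0 with rfl | hi
  · exact hT0 j hj0 y
  have h2 := tv_rowswap hj0 h hi y
  rw [← h2]
  refine hT _ _ (hT0 j hj0 _) ?_
  rw [h2]
  exact tv_mem_Rb h hij _

end CfsgLib.Fus21.PSL
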