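import Cfsg.Agent.LibFus21PSL3

set_option autoImplicit false

/-! The fusion system of `PSL_n(K)` in defining characteristic, part 4. -/

namespace CfsgLib.Fus21.PSL

open Cfsg Matrix

variable {K : Type*} [Field K] {n : ℕ} [Fintype K]

theorem tv_pGen {p : ℕ} [hp : Fact p.Prime] [CharP K p] {b : Fin n → ℕ} {i j : Fin n} (h : i ≠ j) (hb : b i ≤ b j) (c : K) :
    tv i j h c ∈ pGen p (Rb K b) := by
  refine Subgroup.subset_closure ⟨tv_normalizer h hb c, ?_⟩
  have h1 : tv i j h c ^ p ^ 1 = 1 := by
    rw [pow_one, tv_pow, CharP.cast_eq_zero, zero_mul, tv_zero]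
  obtain ⟨k, -, hk⟩ := (Nat.dvd_prime_pow hp.out).1 (orderOf_dvd_of_pow_eq_one h1)
  exact ⟨k, hk⟩

theorem hd_pGen {p : ℕ} [hp : Fact p.Prime] [CharP K p] {b : Fin n → ℕ} {i j : Fin n} (h : i ≠ j) (hb : b i = b j) (c : Kˣ) :
    hd i j h c ∈ pGen p (Rb K b) := by
  have h1 : ∀ x : K, tv i j h x ∈ pGen p (Rb K b) := fun x => tv_pGen h hb.le x
  have h2 : ∀ x : K, tv j i h.symm x ∈ pGen p (Rb K b) := fun x => tv_pGen h.symm hb.ge x
  exact Subgroup.mul_mem _ (Subgroup.mul_mem _ (Subgroup.mul_mem _ (h1 _) (h2 _)) (h1 _))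
    (Subgroup.mul_mem _ (Subgroup.mul_mem _ (h1 _) (h2 _)) (h1 _))

theorem simpleData (hn : 3 ≤ n) (p : ℕ) [hp : Fact p.Prime] [CharP K p] :
    SimpleData p (Rb K (Fin.val : Fin n → ℕ)) := by
  haveI : NeZero n := ⟨by omega⟩
  set U := Rb K (Fin.val : Fin n → ℕ) with hU
  have hUn : ∀ {g : SpecialLinearGroup (Fin n) K}, Alg Fin.val (g : Matrix (Fin n) (Fin n) K) →
      g ∈ Subgroup.normalizer (U : Set (SpecialLinearGroup (Fin n) K)) := fun hg => normalizer_Rb hg (alg_inv hg)
  refine ⟨Rb_isPGroup _, ?_, ?_, fun T h1 h2 h3 => strongly_closed_aux hn (p := p) h1 h2 h3, ?_⟩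
  · intro h
    have h01 : (⟨0, by omega⟩ : Fin n) ≠ ⟨1, by omega⟩ := by
      intro h; have := congrArg Fin.val h; simp at this
    have h1 : tv _ _ h01 (1 : K) ∈ U := tv_mem_Rb h01 (by simp) 1
    rw [h, Subgroup.mem_bot] at h1
    have h2 := congrArg (fun g : SpecialLinearGroup (Fin n) K => (g : Matrix (Fin n) (Fin n) K) ⟨0, by omega⟩ ⟨1, by omega⟩) h1
    simp only [coe_tv, cone, Matrix.add_apply, single_apply_same, Matrix.one_apply_ne h01, zero_add] at h2
    exact one_ne_zero h2
  · intro g hg
    refine ⟨Fintype.card K - 1, ?_, upper_pow_mem (normalizer_upper hg)⟩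
    obtain ⟨k, -, hk⟩ := FiniteField.card K p
    rw [hk]
    intro hdvd
    have h1 : p ∣ p ^ (k : ℕ) := dvd_pow_self p k.ne_zero
    have h2 : 1 ≤ p ^ (k : ℕ) := Nat.one_le_pow _ _ hp.out.pos
    have h3 : p ∣ 1 := by
      have := Nat.dvd_sub h1 hdvd
      rwa [Nat.sub_sub_self h2] at this
    exact hp.out.one_lt.ne' (Nat.dvd_one.1 h3)
  · intro g hg
    have hA := normalizer_upper hg
    set C := Subgroup.closure {g : SpecialLinearGroup (Fin n) K | g ∈ Subgroup.normalizer (U : Set _) ∧
      ((∀ x ∈ U, g * x = x * g) ∨ ∃ R ≤ U, U ≤ Subgroup.normalizer (R : Set _) ∧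
      (∀ x ∈ U, (∀ y ∈ R, x * y = y * x) → x ∈ R) ∧ g ∈ pGen p R)} with hC
    have hUC : U ≤ C := by
      intro u hu
      refine Subgroup.subset_closure ⟨Subgroup.le_normalizer hu, Or.inr ⟨U, le_rfl, Subgroup.le_normalizer,
        fun x hx _ => hx, Subgroup.subset_closure ⟨Subgroup.le_normalizer hu, ?_⟩⟩⟩
      obtain ⟨k, hk⟩ := Rb_isPGroup (K := K) (p := p) (Fin.val : Fin n → ℕ) ⟨u, hu⟩
      obtain ⟨j, -, hj⟩ := (Nat.dvd_prime_pow hp.out).1 (orderOf_dvd_of_pow_eq_one (congrArg Subtype.val hk : u ^ p ^ k = 1))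
      exact ⟨j, hj⟩
    have hdC : ∀ (i j : Fin n) (h : i ≠ j), i.val + 1 = j.val → ∀ c : Kˣ, hd i j h c ∈ C := by
      intro i j hij hij1 c
      set b : Fin n → ℕ := fun l => if l.val ≤ i.val then l.val else l.val - 1 with hb
      have hbi : b i = i.val := by simp [hb]
      have hbj : b j = i.val := by simp only [hb]; rw [if_neg (by omega)]; omega
      have hb1 : ∀ l m : Fin n, l.val < m.val → b l ≤ b m := by
        intro l m hlm
        simp only [hb]
        split_ifs <;> omega
      have hb2 : ∀ l m : Fin n, b l < b m → l.val < m.val := by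
        intro l m hlm
        simp only [hb] at hlm
        split_ifs at hlm <;> omega
      have hdA : Alg Fin.val (hd i j hij c : Matrix (Fin n) (Fin n) K) := by
        intro l m hlm
        rw [coe_hd, diagonal_apply_ne]
        rintro rfl; exact hlm le_rfl
      refine Subgroup.subset_closure ⟨hUn hdA, Or.inr ⟨Rb K b, ?_, ?_, ?_, hd_pGen hij (hbi.trans hbj.symm) c⟩⟩
      · intro x hx
        rw [hU, mem_Rb']
        intro l m hlm
        exact mem_Rb'.1 hx l m fun h => hlm (hb2 l m h)
      · intro x hx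
        exact normalizer_Rb (Rb_alg hb1 hx) (Rb_alg hb1 (U.inv_mem hx))
      · intro x hx hxc
        have hxij : x i j = 0 := by
          rcases Nat.eq_zero_or_pos i.val with h0 | h0
          · set l : Fin n := ⟨2, by omega⟩ with hl
            have hjl : j ≠ l := by intro h; have := congrArg Fin.val h; simp [hl] at this; omega
            have h1 := hxc (tv j l hjl 1) (tv_mem_Rb hjl (by
              rw [hbj]; simp only [hb, hl]; rw [if_neg (by omega)]; omega) 1)
            have h2 := congrArg (fun g : SpecialLinearGroup (Fin n) K => (g : Matrix (Fin n) (Fin n) K)) h1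
            simp only [cmul, coe_tv, mul_add, add_mul, mul_one, one_mul, add_right_inj] at h2
            have h3 := congrFun (congrFun h2 i) l
            rw [mul_single_apply_same, single_mul_apply_of_ne _ _ _ _ _ hij, mul_one] at h3
            exact h3
          · set l : Fin n := ⟨i.val - 1, by omega⟩ with hl
            have hli : l ≠ i := by intro h; have := congrArg Fin.val h; simp [hl] at this; omega
            have h1 := hxc (tv l i hli 1) (tv_mem_Rb hli (by
              rw [hbi]; simp only [hb, hl]; rw [if_pos (by omega)]; omega) 1)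
            have h2 := congrArg (fun g : SpecialLinearGroup (Fin n) K => (g : Matrix (Fin n) (Fin n) K)) h1
            simp only [cmul, coe_tv, mul_add, add_mul, mul_one, one_mul, add_right_inj] at h2
            have h3 := congrFun (congrFun h2 l) j
            rw [single_mul_apply_same, mul_single_apply_of_ne _ _ _ _ _ hij.symm, one_mul] at h3
            exact h3.symm
        rw [mem_Rb']
        intro l m hlm
        by_cases h1 : l.val < m.val
        · have h2 : l = i ∧ m = j := by
            simp only [hb] at hlm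
            constructor
            · apply Fin.ext; split_ifs at hlm <;> omega
            · apply Fin.ext; split_ifs at hlm <;> omega
          rw [h2.1, h2.2, hxij, Matrix.one_apply_ne hij]
        · exact mem_Rb'.1 hx l m h1
    -- decompose `g`
    have hgi := alg_ne_zero hA
    set D : SpecialLinearGroup (Fin n) K := ⟨diagonal fun i => (g i i)⁻¹, by
      rw [det_diagonal, Finset.prod_inv_distrib, alg_det hA, inv_one]⟩ with hD
    have hDe : (D : Matrix (Fin n) (Fin n) K) = diagonal fun i => (g i i)⁻¹ := rfl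
    have hDC : D ∈ C := diag_generated hdC fun i j hij => by rw [hDe, diagonal_apply_ne _ hij]
    have hgD : g * D ∈ U := by
      rw [hU, mem_Rb']
      intro i j hij
      rw [cmul, hDe, Matrix.mul_diagonal]
      rcases eq_or_ne i j with rfl | hne
      · rw [Matrix.one_apply_eq]; exact mul_inv_cancel₀ (hgi i)
      · rw [hA i j (by
          intro h; apply hij
          exact lt_of_le_of_ne h (fun h' => hne (Fin.ext h'))), zero_mul, Matrix.one_apply_ne hne]
    have : g = (g * D) * D⁻¹ := by group
    rw [this]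
    exact C.mul_mem (hUC hgD) (C.inv_mem hDC)

end CfsgLib.Fus21.PSL
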