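import Cfsg.Agent.LibZStar3
import Cfsg.Agent.LibFus21Ctl3
import Cfsg.Agent.LibFus21Sat
import Cfsg.Agent.LibFus21Grp

set_option autoImplicit false

/-! The centre of the 2-fusion system of a group. -/

namespace CfsgLib.Fus21

open Cfsg Cfsg.FusionSystem CfsgLib.ZStar CfsgLib.Isolated
open scoped Pointwise

universe u

theorem card_rel {G : Type*} [Group G] {H K : Subgroup G} (h : H ≤ K) : Nat.card H * H.relIndex K = Nat.card K := by
  have h1 := Subgroup.card_mul_index (H.subgroupOf K)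
  rwa [Nat.card_congr (Subgroup.subgroupOfEquivOfLe h).toEquiv] at h1

theorem relIndex_sup_dvd {G : Type*} [Group G] [Finite G] (H K : Subgroup G) [K.Normal] : H.relIndex (H ⊔ K) ∣ Nat.card K := by
  have h1 : Nat.card H * H.relIndex (H ⊔ K) = Nat.card (H ⊔ K : Subgroup G) := card_rel le_sup_left
  have h2 : Nat.card K * K.relIndex (H ⊔ K) = Nat.card (H ⊔ K : Subgroup G) := card_rel le_sup_right
  have h3 : Nat.card (K ⊓ H : Subgroup G) * (K ⊓ H).relIndex H = Nat.card H := card_rel inf_le_right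
  rw [Subgroup.inf_relIndex_right] at h3
  rw [Subgroup.relIndex_sup_right] at h2
  have h4 : 0 < K.relIndex H := Nat.pos_of_ne_zero (Subgroup.index_ne_zero_of_finite (H := K.subgroupOf H))
  refine ⟨Nat.card (K ⊓ H : Subgroup G), ?_⟩
  apply Nat.eq_of_mul_eq_mul_right h4
  rw [h2, ← h1, ← h3]
  ring

section grp

variable {G : Type*} [Group G]

/-- `x` is fixed by all fusion in `S` -/
def FC (S : Subgroup G) (x : G) : Prop := x ∈ S ∧ ∀ g : G, g * x * g⁻¹ ∈ S → g * x * g⁻¹ = x

theorem FC_comm {S : Subgroup G} {x : G} (h : FC S x) {s : G} (hs : s ∈ S) : s * x = x * s :=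
  mul_inv_eq_iff_eq_mul.1 (h.2 s (S.mul_mem (S.mul_mem hs h.1) (S.inv_mem hs)))

theorem FC_pow [Finite G] {p : ℕ} [Fact p.Prime] (S : Sylow p G) {x : G} (h : FC (S : Subgroup G) x) (k : ℕ) :
    FC (S : Subgroup G) (x ^ k) := by
  refine ⟨Subgroup.pow_mem _ h.1 k, fun g hg => ?_⟩
  set y := g * x ^ k * g⁻¹ with hy
  set C := Subgroup.centralizer ({y} : Set G) with hC
  have hmC : ∀ z, z ∈ C ↔ z * y = y * z := fun z => Subgroup.mem_centralizer_singleton_iff
  have hxC : x ∈ C := (hmC x).2 (FC_comm h hg).symm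
  have hgxC : g * x * g⁻¹ ∈ C := by
    rw [hmC, hy]
    have : x * x ^ k = x ^ k * x := by rw [← pow_succ', ← pow_succ]
    calc g * x * g⁻¹ * (g * x ^ k * g⁻¹) = g * (x * x ^ k) * g⁻¹ := by group
      _ = g * (x ^ k * x) * g⁻¹ := by rw [this]
      _ = _ := by group
  have hxp : IsPGroup p (Subgroup.zpowers x) := S.2.to_le (by rw [Subgroup.zpowers_le]; exact h.1)
  have hgxp : IsPGroup p (Subgroup.zpowers (g * x * g⁻¹)) := by
    have : Subgroup.zpowers (g * x * g⁻¹) = (Subgroup.zpowers x).map (MulAut.conj g).toMonoidHom := by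
      rw [MonoidHom.map_zpowers]; rfl
    rw [this]; exact hxp.map _
  obtain ⟨S1, hS1⟩ := (hxp.comap_of_injective C.subtype C.subtype_injective).exists_le_sylow
  have hx1 : (⟨x, hxC⟩ : C) ∈ (S1 : Subgroup C) := hS1 (Subgroup.mem_zpowers x)
  -- conjugate `g x g⁻¹` into `S1`
  obtain ⟨c, hc⟩ := exists_conj_le_sylow S1 (hgxp.comap_of_injective C.subtype C.subtype_injective)
  have hc1 : c * ⟨g * x * g⁻¹, hgxC⟩ * c⁻¹ ∈ (S1 : Subgroup C) :=
    hc ⟨⟨g * x * g⁻¹, hgxC⟩, Subgroup.mem_zpowers (g * x * g⁻¹), rfl⟩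
  -- conjugate `S1` into `S`
  obtain ⟨h', hh'⟩ := exists_conj_le_sylow S (S1.2.map C.subtype)
  have hS : ∀ z : C, z ∈ (S1 : Subgroup C) → h' * (z : G) * h'⁻¹ ∈ (S : Subgroup G) := fun z hz =>
    hh' ⟨_, ⟨z, hz, rfl⟩, rfl⟩
  have h1 := h.2 h' (hS _ hx1)
  have h2 := hS _ hc1
  have h3 : h' * ((c * ⟨g * x * g⁻¹, hgxC⟩ * c⁻¹ : C) : G) * h'⁻¹ = (h' * c * g) * x * (h' * c * g)⁻¹ := by
    show h' * ((c : G) * (g * x * g⁻¹) * (c : G)⁻¹) * h'⁻¹ = _
    group
  rw [h3] at h2
  have h4 := h.2 _ h2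
  have h5 : (h' * c * g) * x ^ k * (h' * c * g)⁻¹ = x ^ k := by rw [← conj_pow, h4]
  have h6 : h' * x ^ k * h'⁻¹ = x ^ k := by rw [← conj_pow, h1]
  have h7 : (c : G) * y = y * c := (hmC _).1 c.2
  have h8 : h' * y * h'⁻¹ = x ^ k := by
    rw [← h5]
    calc h' * y * h'⁻¹ = h' * (y * c) * (c : G)⁻¹ * h'⁻¹ := by group
      _ = h' * (c * y) * (c : G)⁻¹ * h'⁻¹ := by rw [h7]
      _ = _ := by rw [hy]; group
  rw [← h6] at h8
  exact mul_left_cancel (mul_right_cancel h8)

theorem mem_center_FC [Finite G] {p : ℕ} [Fact p.Prime] (S : Sylow p G) {x : G} :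
    x ∈ (groupFusionSystem (S : Subgroup G)).center ↔ FC (S : Subgroup G) x := by
  constructor
  · intro hx
    have hxS : x ∈ (S : Subgroup G) := (center_le_Z _ hx).1
    refine ⟨hxS, fun g hg => ?_⟩
    have hle : Subgroup.zpowers x ≤ (S : Subgroup G) := by rw [Subgroup.zpowers_le]; exact hxS
    have hφ : conjHom (Subgroup.zpowers x) g ∈ (groupFusionSystem (S : Subgroup G)).Hom (Subgroup.zpowers x) := by
      rw [mem_groupFS]
      refine ⟨hle, ?_, g, fun y => rfl⟩
      rintro ⟨_, n, rfl⟩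
      show g * x ^ n * g⁻¹ ∈ _
      rw [← conj_zpow]; exact Subgroup.zpow_mem _ hg n
    exact central_fixed (isCentral_center _) hφ (Subgroup.mem_zpowers x) hx
  · intro h
    have hle : Subgroup.zpowers x ≤ (S : Subgroup G) := by rw [Subgroup.zpowers_le]; exact h.1
    refine le_center_of_fix S.2 (group_saturated S) hle ?_ (Subgroup.mem_zpowers x)
    intro P φ hφ y hy hyx
    obtain ⟨n, rfl⟩ := (mem_powers_iff_mem_zpowers.2 hyx : y ∈ Submonoid.powers x)
    obtain ⟨hP, hφS, g, hg⟩ := hφ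
    rw [hg]
    exact (FC_pow S h n).2 g (by
      have := hφS ⟨_, hy⟩
      rwa [hg] at this)

end grp

theorem FC_zstar : ∀ (n : ℕ) (G : Type u) [Group G] [Finite G] (S : Sylow 2 G) (x : G), Nat.card G = n →
    FC (S : Subgroup G) x → ∀ g : G, x * g * x⁻¹ * g⁻¹ ∈ oddCore G := by
  haveI : Fact (Nat.Prime 2) := ⟨Nat.prime_two⟩
  intro n
  induction n using Nat.strong_induction_on with
  | _ n ih =>
  intro G _ _ S x hn hx
  -- the general quotient step
  have hquot : ∀ (N : Subgroup G) (hN : N.Normal), N ≠ ⊥ →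
      (∀ g : G, ∀ m ∈ N, g * x * g⁻¹ * m ∈ (S : Subgroup G) → ∃ m' ∈ N, m' * g * x * g⁻¹ * m'⁻¹ ∈ (S : Subgroup G)) →
      ∀ g : G, ((x * g * x⁻¹ * g⁻¹ : G) : G ⧸ N) ∈ oddCore (G ⧸ N) := by
    intro N hN hNne hNS g
    have hπs := QuotientGroup.mk'_surjective N
    have hlt : Nat.card (G ⧸ N) < n := by
      have h1 := Subgroup.card_eq_card_quotient_mul_card_subgroup N
      have h2 : 1 < Nat.card N := by
        rw [Subgroup.one_lt_card_iff_ne_bot]; exact hNne
      have h3 : 0 < Nat.card (G ⧸ N) := Nat.card_pos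
      rw [← hn, h1]
      nlinarith
    refine ih _ hlt (G ⧸ N) (S.mapSurjective hπs) (x : G ⧸ N) rfl ?_ (g : G ⧸ N)
    have hmem : ∀ q : G ⧸ N, q ∈ (S.mapSurjective hπs : Subgroup (G ⧸ N)) ↔ ∃ s ∈ (S : Subgroup G), (s : G ⧸ N) = q := by
      intro q
      rw [Sylow.coe_mapSurjective]
      exact Iff.rfl
    refine ⟨(hmem _).2 ⟨x, hx.1, rfl⟩, fun q hq => ?_⟩
    obtain ⟨k, rfl⟩ := QuotientGroup.mk_surjective q
    obtain ⟨s, hs, hsq⟩ := (hmem _).1 hq
    have hsq' : ((k * x * k⁻¹ : G) : G ⧸ N) = (s : G ⧸ N) := hsq.symm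
    rw [QuotientGroup.eq] at hsq'
    obtain ⟨m', hm', hm'S⟩ := hNS k _ hsq' (by
      have : k * x * k⁻¹ * ((k * x * k⁻¹)⁻¹ * s) = s := by group
      rw [this]; exact hs)
    have h1 := hx.2 (m' * k) (by
      have : m' * k * x * (m' * k)⁻¹ = m' * k * x * k⁻¹ * m'⁻¹ := by group
      rw [this]; exact hm'S)
    show ((k * x * k⁻¹ : G) : G ⧸ N) = (x : G ⧸ N)
    have h2 : ((m' * k * x * (m' * k)⁻¹ : G) : G ⧸ N) = (x : G ⧸ N) := by rw [h1]
    have h3 : (m' : G ⧸ N) = 1 := (QuotientGroup.eq_one_iff m').2 hm'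
    rw [← h2]
    show (k : G ⧸ N) * x * (k : G ⧸ N)⁻¹ = (m' : G ⧸ N) * k * x * ((m' : G ⧸ N) * k)⁻¹
    rw [h3, one_mul]
  by_cases hcore : oddCore G = ⊥
  · by_cases hx1 : x = 1
    · intro g
      rw [hx1]
      have : (1 : G) * g * 1⁻¹ * g⁻¹ = 1 := by group
      rw [this]; exact Subgroup.one_mem _
    · -- the involution in `⟨x⟩`
      obtain ⟨k, hk⟩ := S.2 ⟨x, hx.1⟩
      have hk' : x ^ 2 ^ k = 1 := congrArg Subtype.val hk
      have hex : ∃ t ∈ Subgroup.zpowers x, orderOf t = 2 ∧ ∃ j : ℕ, t = x ^ j := by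
        have hord : 2 ∣ orderOf x := by
          have h1 : orderOf x ∣ 2 ^ k := orderOf_dvd_of_pow_eq_one hk'
          obtain ⟨j, hj, hje⟩ := (Nat.dvd_prime_pow Nat.prime_two).1 h1
          rcases Nat.eq_zero_or_pos j with h0 | h0
          · rw [h0, pow_zero, orderOf_eq_one_iff] at hje
            exact absurd hje hx1
          · rw [hje]; exact dvd_pow_self 2 h0.ne'
        have hpos : 0 < orderOf x := orderOf_pos x
        refine ⟨x ^ (orderOf x / 2), Subgroup.pow_mem _ (Subgroup.mem_zpowers x) _, ?_, _, rfl⟩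
        have hne0 : orderOf x / 2 ≠ 0 := by
          obtain ⟨m, hm⟩ := hord
          omega
        rw [orderOf_pow_of_dvd hne0 (Nat.div_dvd_of_dvd hord)]
        exact Nat.div_div_self hord hpos.ne'
      obtain ⟨t, -, ht2, j, rfl⟩ := hex
      have htF := FC_pow S hx j
      have hiso : IsIsolatedInvolution (x ^ j) := (isolated_iff_sylow S ht2 htF.1).2 fun g hg => htF.2 g hg
      have hz := zstar hiso
      have htc : x ^ j ∈ Subgroup.center G := by
        rw [Subgroup.mem_center_iff]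
        intro g
        have h1 := hz g
        rw [hcore, Subgroup.mem_bot, mul_inv_eq_one, mul_inv_eq_iff_eq_mul] at h1
        exact h1.symm
      set t := x ^ j with ht
      have hle : Subgroup.zpowers t ≤ Subgroup.center G := by rwa [Subgroup.zpowers_le]
      have hnorm : (Subgroup.zpowers t).Normal := ⟨fun y hy g => by
        rw [Subgroup.mem_center_iff.1 (hle hy) g, mul_inv_cancel_right]; exact hy⟩
      have hne : Subgroup.zpowers t ≠ ⊥ := by
        intro h
        rw [Subgroup.zpowers_eq_bot] at h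
        rw [h, orderOf_one] at ht2
        exact absurd ht2 (by norm_num)
      have htS : ∀ y ∈ Subgroup.zpowers t, y ∈ (S : Subgroup G) := by
        have : Subgroup.zpowers t ≤ (S : Subgroup G) := by rw [Subgroup.zpowers_le]; exact htF.1
        exact this
      have h1 := hquot _ hnorm hne (by
        intro g m hm hgm
        refine ⟨1, Subgroup.one_mem _, ?_⟩
        have h2 := Subgroup.mul_mem _ hgm (Subgroup.inv_mem _ (htS m hm))
        have h3 : 1 * g * x * g⁻¹ * 1⁻¹ = g * x * g⁻¹ * m * m⁻¹ := by group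
        rw [h3]; exact h2)
      intro g
      have h2 := h1 g⁻¹
      haveI := hnorm
      rw [oddCore_quotient_central ht2 htc hcore, Subgroup.mem_bot, QuotientGroup.eq_one_iff] at h2
      -- `x g⁻¹ x⁻¹ g ∈ S`, so `g⁻¹ x⁻¹ g ∈ S`
      have h3 : g⁻¹ * x * g⁻¹⁻¹ ∈ (S : Subgroup G) := by
        have h4 := Subgroup.mul_mem _ (Subgroup.inv_mem _ (htS _ h2)) hx.1
        have h5 : (x * g⁻¹ * x⁻¹ * g⁻¹⁻¹)⁻¹ * x = g⁻¹ * x * g⁻¹⁻¹ := by group
        rwa [h5] at h4
      have h6 := hx.2 g⁻¹ h3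
      have h7 : x * g * x⁻¹ * g⁻¹ = 1 := by
        have h8 : x * g = g * x := by
          have h9 : g⁻¹ * x * g = x := by rwa [inv_inv] at h6
          calc x * g = g * (g⁻¹ * x * g) := by group
            _ = g * x := by rw [h9]
        rw [h8]; group
      rw [h7]; exact Subgroup.one_mem _
  · have hodd : Odd (Nat.card (oddCore G)) := oddCore_odd
    have h1 := hquot (oddCore G) inferInstance hcore (by
      intro g m hm hgm
      -- Sylow in `S N`
      set s := g * x * g⁻¹ * m with hs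
      set H : Subgroup G := Subgroup.zpowers (g * x * g⁻¹) ⊔ oddCore G with hH
      have hNH : oddCore G ≤ H := le_sup_right
      have hgH : g * x * g⁻¹ ∈ H := Subgroup.mem_sup_left (Subgroup.mem_zpowers _)
      have hsH : s ∈ H := H.mul_mem hgH (hNH hm)
      have hxp : IsPGroup 2 (Subgroup.zpowers x) := S.2.to_le (by rw [Subgroup.zpowers_le]; exact hx.1)
      have hgxp : IsPGroup 2 (Subgroup.zpowers (g * x * g⁻¹)) := by
        have : Subgroup.zpowers (g * x * g⁻¹) = (Subgroup.zpowers x).map (MulAut.conj g).toMonoidHom := by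
          rw [MonoidHom.map_zpowers]; rfl
        rw [this]; exact hxp.map _
      have hsp : IsPGroup 2 (Subgroup.zpowers s) := S.2.to_le (by rw [Subgroup.zpowers_le]; exact hgm)
      -- `H = ⟨s⟩ N`
      have hH2 : H = Subgroup.zpowers s ⊔ oddCore G := by
        apply le_antisymm
        · refine sup_le ?_ le_sup_right
          rw [Subgroup.zpowers_le]
          have h2 : g * x * g⁻¹ = s * m⁻¹ := by rw [hs]; group
          rw [h2]
          exact Subgroup.mul_mem_sup (Subgroup.mem_zpowers s) (Subgroup.inv_mem _ hm)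
        · refine sup_le ?_ le_sup_right
          rw [Subgroup.zpowers_le]; exact hsH
      have hidx : ¬ 2 ∣ (Subgroup.zpowers s).relIndex H := by
        intro h2
        have h3 : (Subgroup.zpowers s).relIndex H ∣ Nat.card (oddCore G) := by
          rw [hH2]
          exact relIndex_sup_dvd _ _
        have h4 := h2.trans h3
        exact (Nat.not_even_iff_odd.2 hodd) (even_iff_two_dvd.2 h4)
      obtain ⟨h, hh, hle⟩ := exists_conj_le (p := 2) (R := Subgroup.zpowers s) (H := H) hsp hidx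
        (K := Subgroup.zpowers (g * x * g⁻¹)) (by rw [Subgroup.zpowers_le]; exact hgH) hgxp
      -- write `h = m' c` with `c ∈ ⟨g x g⁻¹⟩`
      have hset : ((Subgroup.zpowers (g * x * g⁻¹) ⊔ oddCore G : Subgroup G) : Set G) =
          (oddCore G : Set G) * (Subgroup.zpowers (g * x * g⁻¹) : Set G) := by
        rw [sup_comm]
        exact (Subgroup.normal_mul _ _)
      rw [hH, ← SetLike.mem_coe, hset] at hh
      obtain ⟨m', hm', c, hc, hmc⟩ := hh
      have hmc' : m' * c = h := hmc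
      refine ⟨m', hm', ?_⟩
      have h2 := hle ⟨_, Subgroup.mem_zpowers _, rfl⟩
      have h3 : h * (g * x * g⁻¹) * h⁻¹ ∈ Subgroup.zpowers s := h2
      obtain ⟨i, hi⟩ := hc
      have h4 : c * (g * x * g⁻¹) * c⁻¹ = g * x * g⁻¹ := by
        have hi' : (g * x * g⁻¹) ^ i = c := hi
        have h7 : Commute c (g * x * g⁻¹) := by
          rw [← hi']; exact (Commute.refl _).zpow_left i
        rw [h7.eq, mul_inv_cancel_right]
      have h5 : m' * g * x * g⁻¹ * m'⁻¹ = h * (g * x * g⁻¹) * h⁻¹ := by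
        rw [← hmc']
        calc m' * g * x * g⁻¹ * m'⁻¹ = m' * (g * x * g⁻¹) * m'⁻¹ := by group
          _ = m' * (c * (g * x * g⁻¹) * c⁻¹) * m'⁻¹ := by rw [h4]
          _ = _ := by group
      rw [h5]
      have h6 : Subgroup.zpowers s ≤ (S : Subgroup G) := by rw [Subgroup.zpowers_le]; exact hgm
      exact h6 h3)
    intro g
    have h2 := h1 g
    have h3 : oddCore (G ⧸ oddCore G) = ⊥ := CfsgLib.Cores.pPrimeCore_quotient_pPrimeCore 2
    rw [h3, Subgroup.mem_bot, QuotientGroup.eq_one_iff] at h2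
    exact h2

end CfsgLib.Fus21
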