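import Cfsg.Agent.EqBase
import Cfsg.Agent.LibG2L
/-!
# SL_2(q): values (helper26)
-/
set_option autoImplicit false
set_option linter.unusedSectionVars false

open scoped ComplexConjugate
open Cfsg

namespace CfsgLib.G2M

open CfsgLib.CharBasic CfsgLib.CharIndA CfsgLib.G2A CfsgLib.G2B CfsgLib.G2C CfsgLib.G2D CfsgLib.G2E CfsgLib.G2F CfsgLib.G2G CfsgLib.G2H CfsgLib.G2I CfsgLib.G2J CfsgLib.G2K CfsgLib.G2L

universe v

variable {F : Type v} [Field F] [Fintype F] [DecidableEq F]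

theorem irr_mul_linear {G : Type*} [Group G] [Fintype G] {χ : G → ℂ} (hχ : IsIrrCharacter G χ) (l : G →* ℂˣ) :
    IsIrrCharacter G (fun g => χ g * l g) := by
  rw [irr_iff_norm_one]
  refine ⟨isCharacter_mul (irr_isCharacter hχ) (isCharacter_hom l), ?_⟩
  rw [← irr_inner_self hχ]
  unfold classInner
  congr 1
  refine Finset.sum_congr rfl fun g _ => ?_
  have h1 : (l g : ℂ) * conj (l g : ℂ) = 1 := by
    rw [Complex.mul_conj, Complex.normSq_eq_norm_sq, norm_hom]; simp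
  rw [map_mul]
  linear_combination (χ g * conj (χ g)) * h1

/-- a linear character with fixed vectors for the root group is trivial -/
theorem linear_trivial {ψ : S F → ℂ} (hψ : IsCharacter (S F) ψ) (h1 : ψ 1 = 1) (hs : ∑ c : F, ψ ((frSL F).u c) ≠ 0)
    (g : S F) : ψ g = 1 := by
  rw [← h1]
  apply sl_trivial hψ
  intro c₀
  obtain ⟨f, hf⟩ := exists_hom_of_linear hψ h1
  have h2 : ψ ((frSL F).u c₀) * ∑ c : F, ψ ((frSL F).u c) = ∑ c : F, ψ ((frSL F).u c) := by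
    rw [Finset.mul_sum]
    refine Fintype.sum_equiv (Equiv.addLeft c₀) _ _ fun c => ?_
    rw [← linear_mul hψ h1, ← (frSL F).u_add]; rfl
  have h3 : ψ ((frSL F).u c₀) = 1 := by
    apply mul_right_cancel₀ hs
    rw [h2, one_mul]
  rw [h3, h1]

/-- the Steinberg character is the permutation character minus one -/
theorem steinberg {χ : S F → ℂ} (hχ : IsIrrCharacter (S F) χ) (hdeg : χ 1 = (Fintype.card F : ℂ))
    (hsum : ∑ c : F, χ ((frSL F).u c) = (Fintype.card F : ℂ)) :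
    ∃ (f : (frSL F).B →* ℂˣ) (L : F → F → ℂ), (∀ b, (frSL F).lam L b = (f b : ℂ)) ∧ (∀ b, (f b : ℂ) = 1) ∧
      ∀ g, χ g = indFun (frSL F).B ((frSL F).lam L) g - 1 := by
  have hF : (Fintype.card F : ℂ) ≠ 0 := by exact_mod_cast Fintype.card_ne_zero
  obtain ⟨f, L, hf, hL, h | ⟨hfw, -, ψ, hψ, hne, hψs, hI⟩⟩ := K_cases (frSL F) hχ (by rw [hsum]; exact hF)
  · exfalso
    have h3 := h.2.2
    rw [hsum] at h3
    have h4 : (Fintype.card F : ℂ) = 0 := by linear_combination -h3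
    exact hF h4
  · have hψ1 : ψ 1 = 1 := by
      have h3 := congrFun hI 1
      rw [ind_one_value (frSL F) hL, Pi.add_apply, hdeg] at h3
      linear_combination -h3
    have hψt := linear_trivial (irr_isCharacter hψ) hψ1 (by rw [hψs]; exact hF)
    have hinner : classInner ψ (indFun (frSL F).B ((frSL F).lam L)) ≠ 0 := by
      rw [hI, CfsgLib.CharBasic.inner_add_right, irr_inner_ne hψ hχ hne, irr_inner_self hψ]
      norm_num
    refine ⟨f, L, hL, fun b => ?_, fun g => ?_⟩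
    · rw [← linear_restrict (frSL F) hL hψ hψ1 hinner b, hψt]
    · rw [hI, Pi.add_apply, hψt]; ring

section half

variable {ν : F} (hν : ¬ IsSquare ν) {ψ : AddChar F ℂ} (hψ : ψ ≠ 1) {K a b : IrrCharacter (S F) → ℕ}
    (h0 : ∀ χ : IrrCharacter (S F), ∑ c : F, (χ : S F → ℂ) ((frSL F).u c) = (Fintype.card F : ℂ) * K χ)
    (h1 : ∀ χ : IrrCharacter (S F), 2 * (χ : S F → ℂ) 1 = 2 * K χ + ((Fintype.card F : ℂ) - 1) * (a χ + b χ))
    (h2 : ∀ χ : IrrCharacter (S F), (χ : S F → ℂ) ((frSL F).u 1) + (χ : S F → ℂ) ((frSL F).u ν) = 2 * K χ - (a χ + b χ))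
    (h3 : ∀ χ : IrrCharacter (S F), (χ : S F → ℂ) ((frSL F).u 1) - (χ : S F → ℂ) ((frSL F).u ν) = (a χ - b χ) * gs ψ)

include hν hψ h0 h1 h2 h3

/-- the two halves of the reducible principal series -/
theorem halves (hodd : Odd (Fintype.card F)) (hcard : Nat.card {χ // K χ = 1 ∧ a χ + b χ = 1} = 2)
    (χ : IrrCharacter (S F)) (hK : K χ = 1) (hab : a χ + b χ = 1) :
    ∃ (f : (frSL F).B →* ℂˣ) (L : F → F → ℂ), (∀ b, (frSL F).lam L b = (f b : ℂ)) ∧
    ∃ ψ' : IrrCharacter (S F), ψ' ≠ χ ∧ K ψ' = 1 ∧ a ψ' + b ψ' = 1 ∧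
      indFun (frSL F).B ((frSL F).lam L) = (χ : S F → ℂ) + (ψ' : S F → ℂ) ∧
      ∀ ν' : Fˣ, (ν' : F) = ν → ∀ g, (ψ' : S F → ℂ) g = (χ : S F → ℂ) (sgm ν' g) := by
  have hF : (Fintype.card F : ℂ) ≠ 0 := by exact_mod_cast Fintype.card_ne_zero
  have hq : 3 ≤ Fintype.card F := by
    have h2 : 2 ≤ Fintype.card F := Fintype.one_lt_card
    obtain ⟨k, hk⟩ := hodd
    omega
  have hq1 : (Fintype.card F : ℂ) - 1 ≠ 0 := by
    have : ((Fintype.card F - 1 : ℕ) : ℂ) ≠ 0 := by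
      rw [Nat.cast_ne_zero]; omega
    rwa [Nat.cast_sub (by omega), Nat.cast_one] at this
  have hsum : ∑ c : F, (χ : S F → ℂ) ((frSL F).u c) = (Fintype.card F : ℂ) := by rw [h0, hK]; simp
  obtain ⟨f, L, hf, hL, h | ⟨hfw, -, ψ', hψ', hne, hψs, hI⟩⟩ := K_cases (frSL F) χ.2 (by rw [hsum]; exact hF)
  · exfalso
    have h3 := h.2.2
    rw [hsum] at h3
    have h4 : (Fintype.card F : ℂ) = 0 := by linear_combination -h3
    exact hF h4
  · have e0 : ∑ c : F, ψ' ((frSL F).u c) = (Fintype.card F : ℂ) * K ⟨ψ', hψ'⟩ := h0 ⟨ψ', hψ'⟩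
    have e1 : 2 * ψ' 1 = 2 * K ⟨ψ', hψ'⟩ + ((Fintype.card F : ℂ) - 1) * (((a ⟨ψ', hψ'⟩ + b ⟨ψ', hψ'⟩ : ℕ)) : ℂ) := by
      rw [Nat.cast_add]; exact h1 ⟨ψ', hψ'⟩
    have f1 : 2 * (χ : S F → ℂ) 1 = 2 * K χ + ((Fintype.card F : ℂ) - 1) * (((a χ + b χ : ℕ)) : ℂ) := by
      rw [Nat.cast_add]; exact h1 χ
    rw [hK, hab] at f1
    have k1 : K ⟨ψ', hψ'⟩ = 1 := by
      have : (K ⟨ψ', hψ'⟩ : ℂ) = 1 := by
        apply mul_left_cancel₀ hF
        rw [← e0, hψs, mul_one]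
      exact_mod_cast this
    have s1 : a ⟨ψ', hψ'⟩ + b ⟨ψ', hψ'⟩ = 1 := by
      have h3 := congrFun hI 1
      rw [ind_one_value (frSL F) hL, Pi.add_apply] at h3
      rw [k1] at e1
      have : ((Fintype.card F : ℂ) - 1) * (((a ⟨ψ', hψ'⟩ + b ⟨ψ', hψ'⟩ : ℕ)) : ℂ) = ((Fintype.card F : ℂ) - 1) * ((1 : ℕ) : ℂ) := by
        push_cast at e1 f1 ⊢
        linear_combination -e1 - f1 - 2 * h3
      exact Nat.cast_injective (mul_left_cancel₀ hq1 this)
    refine ⟨f, L, hL, ⟨ψ', hψ'⟩, fun h => hne (congrArg Subtype.val h), k1, s1, hI, ?_⟩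
    intro ν' hν'
    exact partner hν hψ h1 h2 h3 (two_ne_of_odd hodd) ν' hν' 1 hcard χ ⟨ψ', hψ'⟩ ⟨hK, hab⟩ ⟨k1, s1⟩
      (fun h => hne (congrArg Subtype.val h).symm)

theorem half_zero (hodd : Odd (Fintype.card F)) (hcard : Nat.card {χ // K χ = 1 ∧ a χ + b χ = 1} = 2)
    (χ : IrrCharacter (S F)) (hK : K χ = 1) (hab : a χ + b χ = 1) {g : S F} (hg : Ell (g : Matrix (Fin 2) (Fin 2) F)) :
    (χ : S F → ℂ) g = 0 := by
  have hν0 : ν ≠ 0 := fun h => hν (h ▸ IsSquare.zero)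
  obtain ⟨f, L, hL, ψ', -, -, -, hI, hσ⟩ := halves hν hψ h0 h1 h2 h3 hodd hcard χ hK hab
  have h4 := hσ (Units.mk0 ν hν0) rfl g
  rw [isClassFunction_iff_mem.mp (irr_classFun χ.2) _ _ (sgm_conj hodd _ hg)] at h4
  have h5 := congrFun hI g
  rw [ind_ell (frSL F) L hg, Pi.add_apply, h4] at h5
  have : 2 * (χ : S F → ℂ) g = 2 * 0 := by linear_combination -h5
  exact mul_left_cancel₀ two_ne_zero this

end half

/-- diagonal elements are conjugate to their translates by the root group -/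
theorem diag_conj (hodd : Odd (Fintype.card F)) {g : S F} (h01 : (g : Matrix (Fin 2) (Fin 2) F) 0 1 = 0) (h10 : (g : Matrix (Fin 2) (Fin 2) F) 1 0 = 0)
    (h : (g : Matrix (Fin 2) (Fin 2) F) 0 0 ^ 2 ≠ 1) (c : F) : IsConj (g * (frSL F).u c) g := by
  have hd := g.2
  rw [Matrix.det_fin_two, h01, zero_mul, sub_zero] at hd
  have hne : (g : Matrix (Fin 2) (Fin 2) F) 0 0 ≠ (g : Matrix (Fin 2) (Fin 2) F) 1 1 := by
    intro h2
    rw [← h2] at hd
    exact h (by rw [sq, hd])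
  have hm : ((g * (frSL F).u c : S F) : Matrix (Fin 2) (Fin 2) F) = !![(g : Matrix (Fin 2) (Fin 2) F) 0 0, (g : Matrix (Fin 2) (Fin 2) F) 0 0 * c; 0, (g : Matrix (Fin 2) (Fin 2) F) 1 1] := by
    have h2 : (((frSL F).u c : S F) : Matrix (Fin 2) (Fin 2) F) = !![1, c; 0, 1] := (frSL F).mat_u c
    rw [Matrix.SpecialLinearGroup.coe_mul, h2]
    apply ext2 <;> simp [Matrix.mul_apply, Fin.sum_univ_two, h01, h10]
  apply sl_conj
  · intro h3
    rw [hm] at h3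
    exact hne h3.2.2
  · intro h3; exact hne h3.2.2
  · rw [hm, Matrix.trace_fin_two_of, Matrix.trace_fin_two]
  · intro δ _
    apply form_odd hodd
    rw [hm, Matrix.trace_fin_two_of]
    intro h3
    apply hne
    have : ((g : Matrix (Fin 2) (Fin 2) F) 0 0 - (g : Matrix (Fin 2) (Fin 2) F) 1 1) ^ 2 = 0 := by linear_combination h3 - 4 * hd
    exact sub_eq_zero.mp (pow_eq_zero_iff two_ne_zero |>.mp this)

end CfsgLib.G2M
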