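import Cfsg.Agent.LibEps27j

set_option autoImplicit false

/-! Graph involutions of even-dimensional orthogonal groups: determinants. -/

namespace CfsgLib.GI27

open CfsgLib.AutO27 hiding R
open Cfsg.Agent.H22 CfsgLib.Semi27 CfsgLib.Lift27 CfsgLib.RhoO27 CfsgLib.Spinor27 CfsgLib.Even27 CfsgLib.Min27 CfsgLib.H9027 CfsgLib.QForm27 CfsgLib.Desc27 CfsgLib.Eps27 Module Matrix

universe u

section poly
open Polynomial
variable {F : Type u} [Field F] {ι : Type} [Fintype ι] [DecidableEq ι]

theorem charmatrix_mul_neg {N : Matrix ι ι F} {l : F} (hN : N * N = l • (1 : Matrix ι ι F)) :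
    N.charmatrix * (-N).charmatrix = (X ^ 2 - C l : F[X]) • (1 : Matrix ι ι F[X]) := by
  have h1 : (-N).charmatrix = Matrix.scalar ι (X : F[X]) + (C : F →+* F[X]).mapMatrix N := by
    unfold Matrix.charmatrix
    rw [map_neg, sub_neg_eq_add]
  have hc : Matrix.scalar ι (X : F[X]) * (C : F →+* F[X]).mapMatrix N = (C : F →+* F[X]).mapMatrix N * Matrix.scalar ι (X : F[X]) :=
    (Matrix.scalar_commute (X : F[X]) (fun r => mul_comm _ _) _).eq
  have hs : Matrix.scalar ι (X : F[X]) * Matrix.scalar ι (X : F[X]) = (X ^ 2 : F[X]) • (1 : Matrix ι ι F[X]) := by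
    rw [← map_mul, ← pow_two, Matrix.scalar_apply, Matrix.smul_one_eq_diagonal]
  have hm : (C : F →+* F[X]).mapMatrix N * (C : F →+* F[X]).mapMatrix N = (C l : F[X]) • (1 : Matrix ι ι F[X]) := by
    rw [← map_mul, hN]
    ext i j : 1
    show C ((l • (1 : Matrix ι ι F)) i j) = (C l • (1 : Matrix ι ι F[X])) i j
    rw [Matrix.smul_apply, Matrix.smul_apply, Matrix.one_apply, Matrix.one_apply, smul_eq_mul, smul_eq_mul, map_mul]
    split_ifs <;> simp
  rw [h1]
  unfold Matrix.charmatrix
  rw [sub_mul, mul_add, mul_add, hc, hs, hm, sub_smul]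
  abel

theorem charpoly_mul_neg {N : Matrix ι ι F} {l : F} (hN : N * N = l • (1 : Matrix ι ι F)) :
    N.charpoly * (-N).charpoly = (X ^ 2 - C l : F[X]) ^ Fintype.card ι := by
  unfold Matrix.charpoly
  rw [← Matrix.det_mul, charmatrix_mul_neg hN, Matrix.det_smul, Matrix.det_one, mul_one]

theorem monic_sq (l : F) : (X ^ 2 - C l : F[X]).Monic := monic_X_pow_sub_C l two_ne_zero

theorem det_of_charpoly {N : Matrix ι ι F} {l : F} {n : ℕ} (hcard : Fintype.card ι = 2 * n) (h : N.charpoly = (X ^ 2 - C l : F[X]) ^ n) : N.det = (-l) ^ n := by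
  rw [Matrix.det_eq_sign_charpoly_coeff, hcard, h, pow_mul, neg_one_sq, one_pow, one_mul, coeff_zero_eq_eval_zero]
  simp

/-- a square root of a scalar conjugate to its negative -/
theorem det_of_conj (h2 : (2 : F) ≠ 0) {N : Matrix ι ι F} {l : F} {n : ℕ} (hcard : Fintype.card ι = 2 * n) (hN : N * N = l • (1 : Matrix ι ι F))
    (hc : (-N).charpoly = N.charpoly) : N.det = (-l) ^ n := by
  apply det_of_charpoly hcard
  have h1 := charpoly_mul_neg hN
  rw [hc, hcard, pow_mul, ← pow_mul, mul_comm 2 n, pow_mul] at h1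
  have h3 : N.charpoly * N.charpoly = (X ^ 2 - C l : F[X]) ^ n * (X ^ 2 - C l : F[X]) ^ n := by rw [h1, pow_two]
  rcases mul_self_eq_mul_self_iff.1 h3 with h4 | h4
  · exact h4
  · exfalso
    have h5 := congrArg Polynomial.leadingCoeff h4
    rw [Polynomial.leadingCoeff_neg, (Matrix.charpoly_monic N).leadingCoeff, ((monic_sq l).pow n).leadingCoeff] at h5
    apply h2
    linear_combination h5

/-- a square root of a nonsquare scalar -/
theorem det_of_nonsq {N : Matrix ι ι F} {l : F} {n : ℕ} (hcard : Fintype.card ι = 2 * n) (hN : N * N = l • (1 : Matrix ι ι F))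
    (hl : ¬ IsSquare l) : N.det = (-l) ^ n := by
  apply det_of_charpoly hcard
  have hirr : Irreducible (X ^ 2 - C l : F[X]) := by
    rw [(monic_sq l).irreducible_iff_roots_eq_zero_of_degree_le_three (by rw [natDegree_X_pow_sub_C]) (by rw [natDegree_X_pow_sub_C]; norm_num)]
    apply Multiset.eq_zero_of_forall_notMem
    intro a ha
    apply hl
    have h1 := (mem_roots (monic_sq l).ne_zero).1 ha
    rw [IsRoot, eval_sub, eval_pow, eval_X, eval_C] at h1
    exact ⟨a, by linear_combination -h1⟩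
  obtain ⟨k, -, hk⟩ := (dvd_prime_pow hirr.prime _).1 (Dvd.intro _ (charpoly_mul_neg hN))
  have h1 := eq_of_monic_of_associated (Matrix.charpoly_monic N) ((monic_sq l).pow k) hk
  have h2 := congrArg natDegree h1
  rw [Matrix.charpoly_natDegree_eq_dim, natDegree_pow, natDegree_X_pow_sub_C, hcard] at h2
  have h3 : k = n := by omega
  rw [h1, h3]

/-- determinants in a pencil of projections -/
theorem pencil {P₁ P₂ : Matrix ι ι F} (h1 : P₁ + P₂ = 1) (h12 : P₁ * P₂ = 0) (h21 : P₂ * P₁ = 0) :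
    ∃ b : ℕ, ∀ c : F, (P₁ + c • P₂).det = c ^ b := by
  have h11 : P₁ * P₁ = P₁ := by
    have := congrArg (fun M => P₁ * M) h1
    simp only [Matrix.mul_add, h12, add_zero, Matrix.mul_one] at this
    exact this
  have h22 : P₂ * P₂ = P₂ := by
    have := congrArg (fun M => P₂ * M) h1
    simp only [Matrix.mul_add, h21, zero_add, Matrix.mul_one] at this
    exact this
  obtain ⟨A, hA⟩ : ∃ A : Matrix ι ι F[X], A = (C : F →+* F[X]).mapMatrix P₁ := ⟨_, rfl⟩
  obtain ⟨B, hB⟩ : ∃ B : Matrix ι ι F[X], B = (C : F →+* F[X]).mapMatrix P₂ := ⟨_, rfl⟩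
  have e1 : A + B = 1 := by rw [hA, hB, ← map_add, h1, map_one]
  have e12 : A * B = 0 := by rw [hA, hB, ← map_mul, h12, map_zero]
  have e21 : B * A = 0 := by rw [hA, hB, ← map_mul, h21, map_zero]
  have e11 : A * A = A := by rw [hA, ← map_mul, h11]
  have e22 : B * B = B := by rw [hB, ← map_mul, h22]
  have hprod : (A + (X : F[X]) • B) * ((X : F[X]) • A + B) = (X : F[X]) • (1 : Matrix ι ι F[X]) := by
    rw [Matrix.add_mul, Matrix.mul_add, Matrix.mul_add, Matrix.mul_smul, Matrix.smul_mul, Matrix.smul_mul, Matrix.mul_smul, e11, e12, e21, e22, smul_zero, smul_zero, add_zero, zero_add, ← smul_add, e1]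
  have hdet : (A + (X : F[X]) • B).det * ((X : F[X]) • A + B).det = X ^ Fintype.card ι := by
    rw [← Matrix.det_mul, hprod, Matrix.det_smul, Matrix.det_one, mul_one]
  obtain ⟨b, -, u, hu⟩ := (dvd_prime_pow (prime_X : Prime (X : F[X])) _).1 (Dvd.intro _ hdet)
  have hev : ∀ c : F, (P₁ + c • P₂).det = ((A + (X : F[X]) • B).det).eval c := by
    intro c
    have h3 := RingHom.map_det (evalRingHom c) (A + (X : F[X]) • B)
    show _ = (evalRingHom c) _
    rw [h3]
    congr 1
    ext i j
    rw [hA, hB]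
    simp [Matrix.map_apply]
    ring
  obtain ⟨u0, hu0⟩ : ∃ u0 : F, ((u : F[X]ˣ) : F[X]) = C u0 := ⟨_, (Polynomial.eq_C_of_degree_eq_zero (Polynomial.degree_coe_units u))⟩
  have hfu : ∀ c : F, ((A + (X : F[X]) • B).det).eval c * u0 = c ^ b := by
    intro c
    have := congrArg (Polynomial.eval c) hu
    rw [hu0, eval_mul, eval_C, eval_pow, eval_X] at this
    exact this
  have hu1 : u0 = 1 := by
    have := hfu 1
    rw [← hev, one_smul, h1, Matrix.det_one, one_mul, one_pow] at this
    exact this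
  refine ⟨b, fun c => ?_⟩
  have := hfu c
  rw [hu1, mul_one] at this
  rw [hev, this]

end poly

section gram
variable {F : Type u} [Field F] {ι : Type} [Fintype ι] [DecidableEq ι] (Q : QuadraticForm F (ι → F))

/-- the Gram matrix -/
noncomputable def gram : Matrix ι ι F := LinearMap.BilinForm.toMatrix' (QuadraticMap.polarBilin Q)

variable {Q}

theorem gram_det (hQ : (QuadraticMap.polarBilin Q).Nondegenerate) : (gram Q).det ≠ 0 := by
  have h1 : (gram Q).Nondegenerate := (LinearMap.BilinForm.nondegenerate_toMatrix'_iff).2 hQ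
  exact h1.det_ne_zero

theorem gram_apply (i j : ι) : gram Q i j = QuadraticMap.polar Q (Pi.single i 1) (Pi.single j 1) := by
  unfold gram
  rw [LinearMap.BilinForm.toMatrix'_apply]; rfl

theorem gram_symm : (gram Q)ᵀ = gram Q := by
  ext i j
  rw [Matrix.transpose_apply, gram_apply, gram_apply, QuadraticMap.polar_comm]

theorem gram_sim {g : Matrix ι ι F} {c : F} (hg : ∀ v, Q (g *ᵥ v) = c * Q v) : gᵀ * gram Q * g = c • gram Q := by
  have hp : ∀ x y, QuadraticMap.polar Q (g *ᵥ x) (g *ᵥ y) = c * QuadraticMap.polar Q x y := by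
    intro x y
    unfold QuadraticMap.polar
    rw [← mulVec_add, hg, hg, hg]; ring
  have h1 := LinearMap.BilinForm.toMatrix'_comp (QuadraticMap.polarBilin Q) (Matrix.toLin' g) (Matrix.toLin' g)
  rw [LinearMap.toMatrix'_toLin'] at h1
  unfold gram
  rw [← h1]
  have h2 : LinearMap.BilinForm.comp (QuadraticMap.polarBilin Q) (Matrix.toLin' g) (Matrix.toLin' g) = c • QuadraticMap.polarBilin Q := by
    ext x y
    exact hp _ _
  rw [h2, map_smul]

/-- the skew-adjoint case -/
theorem det_skew (h2 : (2 : F) ≠ 0) (hQ : (QuadraticMap.polarBilin Q).Nondegenerate) {n : ℕ} (hcard : Fintype.card ι = 2 * n) {g : Matrix ι ι F} {c : F} (hc : c ≠ 0)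
    (hg : ∀ v, Q (g *ᵥ v) = c * Q v) (hgg : g * g = (-c) • (1 : Matrix ι ι F)) : g.det = c ^ n := by
  have h1 := gram_sim hg
  have h3 : gᵀ * gram Q = -(gram Q * g) := by
    have h4 := congrArg (fun M => M * g) h1
    simp only [Matrix.smul_mul] at h4
    rw [Matrix.mul_assoc, hgg, Matrix.mul_smul, Matrix.mul_one, neg_smul, ← smul_neg] at h4
    have h5 := smul_right_injective (Matrix ι ι F) hc h4
    rw [← h5, neg_neg]
  obtain ⟨A, hA⟩ : ∃ A : (Matrix ι ι F)ˣ, (A : Matrix ι ι F) = gram Q := by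
    have := (Matrix.isUnit_iff_isUnit_det (gram Q)).2 (isUnit_iff_ne_zero.2 (gram_det hQ))
    exact this
  have h6 : gᵀ = A.val * (-g) * A.val⁻¹ := by
    have h7 : A.val * A.val⁻¹ = 1 := by
      rw [hA]
      exact Matrix.mul_nonsing_inv _ (isUnit_iff_ne_zero.2 (gram_det hQ))
    rw [Matrix.mul_neg, hA, ← h3, ← hA, Matrix.mul_assoc, h7, Matrix.mul_one]
  have h8 : (-g).charpoly = g.charpoly := by
    rw [← Matrix.charpoly_transpose g, h6, Matrix.charpoly_units_conj]
  have := det_of_conj h2 hcard hgg h8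
  rwa [neg_neg] at this

end gram

end CfsgLib.GI27
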