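import Cfsg.Agent.LibGI27a

set_option autoImplicit false

/-! Graph involutions: the two types. -/

namespace CfsgLib.GI27

open CfsgLib.AutO27 hiding R
open Cfsg.Agent.H22 CfsgLib.Semi27 CfsgLib.Lift27 CfsgLib.RhoO27 CfsgLib.Spinor27 CfsgLib.Even27 CfsgLib.Min27 CfsgLib.H9027 CfsgLib.QForm27 CfsgLib.Desc27 CfsgLib.Eps27 Module Matrix

universe u

section cls
variable {F : Type u} [Field F] [Fintype F] {ι : Type} [Fintype ι] [DecidableEq ι] {Q : QuadraticForm F (ι → F)} {n : ℕ}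
variable {e f : Fin 3 → (ι → F)} {u : ι → F}

theorem det_neg (h : Ev Q n) {g : GOs Q} (hg : h.eps g = -1) : (g : GL ι F).det = -(mu h.hx g) ^ n := by
  have h1 := h.det_sq g
  have h3 : (g : GL ι F).det ≠ (mu h.hx g) ^ n := by
    intro h4
    rw [(h.eps_eq_one g).2 h4] at hg
    exact absurd hg (by decide)
  obtain ⟨a, ha⟩ : ∃ a : Fˣ, a = (g : GL ι F).det * ((mu h.hx g) ^ n)⁻¹ := ⟨_, rfl⟩
  have h5 : (g : GL ι F).det = a * (mu h.hx g) ^ n := by rw [ha, inv_mul_cancel_right]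
  rw [← ha] at h1
  have h6 : (a : F) * a = 1 * 1 := by
    have := congrArg Units.val h1
    rw [Units.val_pow_eq_pow_val, Units.val_one, pow_two] at this
    rw [this, one_mul]
  rcases mul_self_eq_mul_self_iff.1 h6 with h7 | h7
  · exfalso
    apply h3
    have h9 : a = 1 := Units.ext h7
    rw [h5, h9, one_mul]
  · have h8 : a = -1 := Units.ext (by rw [h7]; rfl)
    rw [h5, h8, neg_one_mul]

/-- the two types of graph involutions -/
theorem inv_cases (h : Ev Q n) {g : GOs Q} (hg : h.eps g = -1) {l : Fˣ} (hl : (g : GL ι F) * (g : GL ι F) = scal l) :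
    (∃ (m : Fˣ) (s : Cfsg.isometryGroup F ⇑Q), (g : GL ι F) = scal m * (s : GL ι F) ∧ (s : GL ι F) * (s : GL ι F) = 1 ∧ (s : GL ι F).det = -1) ∨
      (mu h.hx g = l ∧ ¬ IsSquare (l : F) ∧ Odd n) := by
  obtain ⟨x0, hx0⟩ := h.hx
  have hspec := mu_spec h.hx g
  have hgg : ((g : GL ι F) : Matrix ι ι F) * ((g : GL ι F) : Matrix ι ι F) = (l : F) • (1 : Matrix ι ι F) := by
    rw [← Units.val_mul, hl]
    show Matrix.scalar ι (l : F) = _
    rw [Matrix.scalar_apply, Matrix.smul_one_eq_diagonal]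
  have hcc : (mu h.hx g : F) * mu h.hx g = l * l := by
    have h1 : Q (((g : GL ι F) : Matrix ι ι F) *ᵥ (((g : GL ι F) : Matrix ι ι F) *ᵥ x0)) = (l * l : F) * Q x0 := by
      rw [mulVec_mulVec, hgg, smul_mulVec, one_mulVec, qsmul]
    rw [hspec, hspec, ← mul_assoc] at h1
    exact mul_right_cancel₀ hx0 h1
  have hdet := det_neg h hg
  have hdetF : ((g : GL ι F) : Matrix ι ι F).det = -(mu h.hx g : F) ^ n := by
    have := congrArg Units.val hdet
    rw [Units.val_neg, Units.val_pow_eq_pow_val] at this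
    exact this
  have hcn : (mu h.hx g : F) ^ n ≠ 0 := pow_ne_zero _ (Units.ne_zero _)
  have h2n : ∀ a : F, a = -a → a = 0 := by
    intro a ha
    have : (2 : F) * a = 0 := by linear_combination ha
    exact (mul_eq_zero.1 this).resolve_left h.h2
  rcases mul_self_eq_mul_self_iff.1 hcc with h3 | h3
  · have h3' : mu h.hx g = l := Units.ext h3
    by_cases hsq : IsSquare (l : F)
    · left
      obtain ⟨m, hm⟩ := hsq
      have hm0 : m ≠ 0 := by
        rintro rfl
        rw [mul_zero] at hm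
        exact l.ne_zero hm
      obtain ⟨m', hm'⟩ : ∃ m' : Fˣ, (m' : F) = m := ⟨Units.mk0 m hm0, rfl⟩
      have hmm : m' * m' = l := Units.ext (by rw [Units.val_mul, hm', hm])
      have hiso : (scal m')⁻¹ * (g : GL ι F) ∈ Cfsg.isometryGroup F ⇑Q := by
        rw [mem_isometryGroup]
        intro v
        rw [← map_inv, scal_mul_mulVec, qsmul, hspec, h3, hm, Units.val_inv_eq_inv_val, hm']
        field_simp
      refine ⟨m', ⟨_, hiso⟩, (mul_inv_cancel_left _ _).symm, ?_, ?_⟩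
      · show (scal m')⁻¹ * (g : GL ι F) * ((scal m')⁻¹ * (g : GL ι F)) = 1
        have e1 : (scal m')⁻¹ * (g : GL ι F) * ((scal m')⁻¹ * (g : GL ι F)) = (scal m')⁻¹ * ((g : GL ι F) * (scal m')⁻¹) * (g : GL ι F) := by group
        have e2 : (g : GL ι F) * (scal m')⁻¹ = (scal m')⁻¹ * (g : GL ι F) := by rw [← map_inv, scal_comm]
        have e3 : (scal (m' * m') : GL ι F) = scal m' * scal m' := by rw [← map_mul]
        rw [e1, e2]
        calc (scal m')⁻¹ * ((scal m')⁻¹ * (g : GL ι F)) * (g : GL ι F) = (scal m' * scal m')⁻¹ * ((g : GL ι F) * (g : GL ι F)) := by group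
          _ = 1 := by rw [hl, ← e3, hmm, inv_mul_cancel]
      · show ((scal m')⁻¹ * (g : GL ι F)).det = -1
        rw [map_mul, map_inv, det_scal, hdet, h.card, pow_mul, pow_two, hmm, h3', mul_neg, inv_mul_cancel]
    · right
      refine ⟨h3', hsq, ?_⟩
      have h4 := det_of_nonsq h.card hgg hsq
      rw [hdetF, h3] at h4
      by_contra hodd
      rw [Nat.not_odd_iff_even] at hodd
      rw [hodd.neg_pow] at h4
      exact pow_ne_zero n l.ne_zero (h2n _ h4.symm)
  · exfalso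
    have h4 : (l : F) = -(mu h.hx g : F) := by rw [h3, neg_neg]
    rw [h4] at hgg
    have h5 := det_skew h.h2 h.nd h.card (Units.ne_zero _) hspec hgg
    rw [hdetF] at h5
    exact hcn (h2n _ h5.symm)

/-- elements interchanging the eigenspaces -/
theorem swap_odd (h : Ev Q n) {s : Matrix ι ι F} (hss : s * s = 1) (hdet : s.det = -1) (x : GL ι F) (hx : (x : Matrix ι ι F) * s = -s * (x : Matrix ι ι F)) : Odd n := by
  have h1 : (-s).charpoly = s.charpoly := by
    have h2 : -s = x.val * s * x.val⁻¹ := by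
      have h7 : x.val * x.val⁻¹ = 1 := Matrix.mul_nonsing_inv _ (Matrix.isUnits_det_units x)
      rw [hx, Matrix.mul_assoc, h7, Matrix.mul_one]
    rw [h2, Matrix.charpoly_units_conj]
  have h3 := det_of_conj h.h2 h.card (l := 1) (by rw [hss, one_smul]) h1
  by_contra hodd
  rw [Nat.not_odd_iff_even] at hodd
  rw [hdet, hodd.neg_one_pow] at h3
  apply h.h2
  linear_combination -h3

/-- similarities commuting with an odd involution -/
theorem comm_square (h : Ev Q n) {s : Matrix ι ι F} (hs : ∀ v, Q (s *ᵥ v) = Q v) (hss : s * s = 1) (hdet : s.det = -1) (x : GOs Q)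
    (hx : ((x : GL ι F) : Matrix ι ι F) * s = s * ((x : GL ι F) : Matrix ι ι F)) : IsSquare ((mu h.hx x : Fˣ) : F) := by
  have h2 := h.h2
  obtain ⟨P₁, hP₁⟩ : ∃ P₁ : Matrix ι ι F, P₁ = (2 : F)⁻¹ • (1 + s) := ⟨_, rfl⟩
  obtain ⟨P₂, hP₂⟩ : ∃ P₂ : Matrix ι ι F, P₂ = (2 : F)⁻¹ • (1 - s) := ⟨_, rfl⟩
  have e1 : P₁ + P₂ = 1 := by
    rw [hP₁, hP₂, ← smul_add]
    have : (1 + s + (1 - s) : Matrix ι ι F) = (2 : F) • 1 := by rw [two_smul]; abel
    rw [this, smul_smul, inv_mul_cancel₀ h2, one_smul]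
  have e12 : P₁ * P₂ = 0 := by
    rw [hP₁, hP₂, Matrix.smul_mul, Matrix.mul_smul, Matrix.add_mul, Matrix.mul_sub, Matrix.mul_sub, hss]
    have : (1 * 1 - 1 * s + (s * 1 - 1) : Matrix ι ι F) = 0 := by simp
    rw [this, smul_zero, smul_zero]
  have e21 : P₂ * P₁ = 0 := by
    rw [hP₁, hP₂, Matrix.smul_mul, Matrix.mul_smul, Matrix.sub_mul, Matrix.mul_add, Matrix.mul_add, hss]
    have : (1 * 1 + 1 * s - (s * 1 + 1) : Matrix ι ι F) = 0 := by simp; abel
    rw [this, smul_zero, smul_zero]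
  have esub : P₁ + (-1 : F) • P₂ = s := by
    rw [hP₁, hP₂, neg_one_smul, ← sub_eq_add_neg, ← smul_sub]
    have : (1 + s - (1 - s) : Matrix ι ι F) = (2 : F) • s := by rw [two_smul]; abel
    rw [this, smul_smul, inv_mul_cancel₀ h2, one_smul]
  obtain ⟨b, hb⟩ := pencil e1 e12 e21
  have hbodd : Odd b := by
    have h3 := hb (-1)
    rw [esub, hdet] at h3
    by_contra hodd
    rw [Nat.not_odd_iff_even] at hodd
    rw [hodd.neg_one_pow] at h3
    apply h2
    linear_combination -h3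
  have hsA : sᵀ * gram Q = gram Q * s := by
    have h3 := gram_sim (Q := Q) (g := s) (c := 1) (fun v => by rw [hs, one_mul])
    rw [one_smul] at h3
    have h4 := congrArg (fun M => M * s) h3
    simp only [Matrix.mul_assoc, hss, Matrix.mul_one] at h4
    exact h4
  have hA1 : P₁ᵀ * gram Q = gram Q * P₁ := by
    rw [hP₁, Matrix.transpose_smul, Matrix.transpose_add, Matrix.transpose_one, Matrix.smul_mul, Matrix.mul_smul, Matrix.add_mul, Matrix.mul_add, hsA,
      Matrix.one_mul, Matrix.mul_one]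
  have hA2 : P₂ᵀ * gram Q = gram Q * P₂ := by
    rw [hP₂, Matrix.transpose_smul, Matrix.transpose_sub, Matrix.transpose_one, Matrix.smul_mul, Matrix.mul_smul, Matrix.sub_mul, Matrix.mul_sub, hsA,
      Matrix.one_mul, Matrix.mul_one]
  obtain ⟨X, hX⟩ : ∃ X : Matrix ι ι F, X = ((x : GL ι F) : Matrix ι ι F) := ⟨_, rfl⟩
  rw [← hX] at hx
  obtain ⟨c, hc⟩ : ∃ c : F, c = ((mu h.hx x : Fˣ) : F) := ⟨_, rfl⟩
  have hc0 : c ≠ 0 := by rw [hc]; exact Units.ne_zero _
  have hXA : Xᵀ * gram Q * X = c • gram Q := gram_sim (fun v => by rw [hX, hc]; exact mu_spec h.hx x v)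
  have hX1 : X * P₁ = P₁ * X := by
    rw [hP₁, Matrix.smul_mul, Matrix.mul_smul, Matrix.add_mul, Matrix.mul_add, hx, Matrix.one_mul, Matrix.mul_one]
  have e11 : P₁ * P₁ = P₁ := by
    have := congrArg (fun M => P₁ * M) e1
    simp only [Matrix.mul_add, e12, add_zero, Matrix.mul_one] at this
    exact this
  have e22 : P₂ * P₂ = P₂ := by
    have := congrArg (fun M => P₂ * M) e1
    simp only [Matrix.mul_add, e21, zero_add, Matrix.mul_one] at this
    exact this
  obtain ⟨Y, hY⟩ : ∃ Y : Matrix ι ι F, Y = P₁ + X * P₂ := ⟨_, rfl⟩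
  have key : Yᵀ * gram Q * Y = gram Q * (P₁ + c • P₂) := by
    have t1 : P₁ᵀ * gram Q * P₁ = gram Q * P₁ := by rw [hA1, Matrix.mul_assoc, e11]
    have t2 : P₁ᵀ * gram Q * (X * P₂) = 0 := by
      rw [hA1, Matrix.mul_assoc, ← Matrix.mul_assoc P₁ X P₂, ← hX1, Matrix.mul_assoc X P₁ P₂, e12, Matrix.mul_zero, Matrix.mul_zero]
    have t3 : (X * P₂)ᵀ * gram Q * P₁ = 0 := by
      rw [Matrix.mul_assoc, ← hA1, ← Matrix.mul_assoc, ← Matrix.transpose_mul, ← Matrix.mul_assoc, ← hX1, Matrix.mul_assoc, e12, Matrix.mul_zero, Matrix.transpose_zero, Matrix.zero_mul]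
    have t4 : (X * P₂)ᵀ * gram Q * (X * P₂) = c • (gram Q * P₂) := by
      have : (X * P₂)ᵀ * gram Q * (X * P₂) = P₂ᵀ * (Xᵀ * gram Q * X) * P₂ := by
        rw [Matrix.transpose_mul]
        simp only [Matrix.mul_assoc]
      rw [this, hXA, Matrix.mul_smul, Matrix.smul_mul, hA2, Matrix.mul_assoc, e22]
    rw [hY, Matrix.transpose_add, Matrix.add_mul, Matrix.add_mul, Matrix.mul_add, Matrix.mul_add, t1, t2, t3, t4, Matrix.mul_add, Matrix.mul_smul]
    abel
  have hdY := congrArg Matrix.det key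
  rw [Matrix.det_mul, Matrix.det_mul, Matrix.det_mul, Matrix.det_transpose, hb c] at hdY
  have h5 : Y.det * Y.det = c ^ b := by
    apply mul_left_cancel₀ (gram_det h.nd)
    linear_combination hdY
  rw [← hc]
  obtain ⟨k, hk⟩ := hbodd
  refine ⟨Y.det / c ^ k, ?_⟩
  rw [hk] at h5
  rw [div_mul_div_comm, h5]
  field_simp
  ring

end cls

section vec
variable {F : Type u} [Field F] [Fintype F] {V : Type u} [AddCommGroup V] [Module F V] [FiniteDimensional F V] {Q : QuadraticForm F V}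

/-- universality on nondegenerate subspaces -/
theorem exists_norm_sub (h2 : (2 : F) ≠ 0) (W : Submodule F V) (hW : ∀ w ∈ W, (∀ w' ∈ W, QuadraticMap.polar Q w w' = 0) → w = 0) (h : 2 ≤ finrank F W) (c : F) :
    ∃ w ∈ W, Q w = c := by
  have hn : (QuadraticMap.polarBilin (Q.comp W.subtype)).Nondegenerate := by
    apply nondeg_of_left
    intro w hw
    apply Subtype.ext
    apply hW w.1 w.2
    intro w' hw'
    have := hw ⟨w', hw'⟩
    unfold QuadraticMap.polar at this ⊢
    exact this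
  obtain ⟨w, hw⟩ := exists_norm_odd h2 hn h c
  exact ⟨w, w.2, hw⟩

end vec

end CfsgLib.GI27
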