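import Cfsg.Agent.LibGI27b

set_option autoImplicit false

/-! Graph involutions: elements of the centralizer outside the inner automorphisms. -/

namespace CfsgLib.GI27

open CfsgLib.AutO27 hiding R
open Cfsg.Agent.H22 CfsgLib.Semi27 CfsgLib.Lift27 CfsgLib.RhoO27 CfsgLib.Spinor27 CfsgLib.Even27 CfsgLib.Min27 CfsgLib.H9027 CfsgLib.QForm27 CfsgLib.Desc27 CfsgLib.Eps27 Module Matrix

universe u

section ex
variable {F : Type u} [Field F] [Fintype F] {ι : Type} [Fintype ι] [DecidableEq ι] {Q : QuadraticForm F (ι → F)} {n : ℕ}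
variable {e f : Fin 3 → (ι → F)} {u : ι → F}

/-- the eigenspace -/
def eig (s : Matrix ι ι F) (c : F) : Submodule F (ι → F) := LinearMap.ker (Matrix.toLin' s - c • LinearMap.id)

theorem mem_eig {s : Matrix ι ι F} {c : F} {x : ι → F} : x ∈ eig s c ↔ s *ᵥ x = c • x := by
  unfold eig
  rw [LinearMap.mem_ker, LinearMap.sub_apply, sub_eq_zero]; rfl

theorem eig_sum (h2 : (2 : F) ≠ 0) {s : Matrix ι ι F} (hss : s * s = 1) : Fintype.card ι ≤ finrank F (eig s 1) + finrank F (eig s (-1)) := by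
  have h1 : eig s 1 ⊔ eig s (-1) = ⊤ := by
    rw [eq_top_iff]
    intro x _
    have hx : x = (2 : F)⁻¹ • (x + s *ᵥ x) + (2 : F)⁻¹ • (x - s *ᵥ x) := by
      rw [← smul_add, add_add_sub_cancel, ← two_smul F x, smul_smul, inv_mul_cancel₀ h2, one_smul]
    rw [hx]
    apply Submodule.add_mem_sup
    · rw [mem_eig, mulVec_smul, mulVec_add, mulVec_mulVec, hss, one_mulVec, one_smul, add_comm]
    · rw [mem_eig, mulVec_smul, mulVec_sub, mulVec_mulVec, hss, one_mulVec, neg_one_smul, ← smul_neg, neg_sub]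
  have h3 := Submodule.finrank_sup_add_finrank_inf_eq (eig s 1) (eig s (-1))
  rw [h1, finrank_top, Module.finrank_pi] at h3
  omega

theorem polar_iso {s : Matrix ι ι F} (hs : ∀ v, Q (s *ᵥ v) = Q v) (x y : ι → F) : QuadraticMap.polar Q (s *ᵥ x) (s *ᵥ y) = QuadraticMap.polar Q x y := by
  unfold QuadraticMap.polar
  rw [← mulVec_add, hs, hs, hs]

theorem eig_nd (h2 : (2 : F) ≠ 0) (hQ : (QuadraticMap.polarBilin Q).Nondegenerate) {s : Matrix ι ι F} (hs : ∀ v, Q (s *ᵥ v) = Q v) (hss : s * s = 1) {c : F} (hc : c * c = 1)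
    (w : ι → F) (hw : w ∈ eig s c) (hw' : ∀ w' ∈ eig s c, QuadraticMap.polar Q w w' = 0) : w = 0 := by
  rw [mem_eig] at hw
  apply hQ.1
  intro y
  show QuadraticMap.polar Q w y = 0
  have h1 : QuadraticMap.polar Q w (s *ᵥ y) = c * QuadraticMap.polar Q w y := by
    have := polar_iso hs w (s *ᵥ y)
    rw [mulVec_mulVec, hss, one_mulVec, hw, QuadraticMap.polar_smul_left, smul_eq_mul] at this
    exact this.symm
  have h3 := hw' (y + c • (s *ᵥ y)) (by
    rw [mem_eig, mulVec_add, mulVec_smul, mulVec_mulVec, hss, one_mulVec, smul_add, smul_smul, hc, one_smul, add_comm])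
  rw [QuadraticMap.polar_add_right, QuadraticMap.polar_smul_right, smul_eq_mul, h1, ← mul_assoc, hc, one_mul] at h3
  have h4 : (2 : F) * QuadraticMap.polar Q w y = 0 := by linear_combination h3
  exact (mul_eq_zero.1 h4).resolve_left h2

theorem caseA (h : Ev Q n) (hn : 2 ≤ n) {s : Matrix ι ι F} (hs : ∀ v, Q (s *ᵥ v) = Q v) (hss : s * s = 1) :
    ∃ (v w : ι → F) (c : F), c * c = 1 ∧ s *ᵥ v = c • v ∧ s *ᵥ w = c • w ∧ Q v ≠ 0 ∧ Q w ≠ 0 ∧ chi (Q v) * chi (Q w) = -1 := by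
  have h1 := eig_sum h.h2 hss
  rw [h.card] at h1
  have key : ∀ c : F, c * c = 1 → 2 ≤ finrank F (eig s c) →
      ∃ (v w : ι → F) (c : F), c * c = 1 ∧ s *ᵥ v = c • v ∧ s *ᵥ w = c • w ∧ Q v ≠ 0 ∧ Q w ≠ 0 ∧ chi (Q v) * chi (Q w) = -1 := by
    intro c hc hf
    obtain ⟨ν, hν⟩ := h.exists_nonsq
    obtain ⟨v, hv, hv1⟩ := exists_norm_sub h.h2 (eig s c) (eig_nd h.h2 h.nd hs hss hc) hf 1
    obtain ⟨w, hw, hw1⟩ := exists_norm_sub h.h2 (eig s c) (eig_nd h.h2 h.nd hs hss hc) hf ν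
    refine ⟨v, w, c, hc, mem_eig.1 hv, mem_eig.1 hw, by rw [hv1]; exact one_ne_zero, by rw [hw1]; exact ν.ne_zero, ?_⟩
    rw [hv1, hw1, chi_one, one_mul, chi_eq_neg]; exact hν
  by_cases h3 : 2 ≤ finrank F (eig s 1)
  · exact key 1 (one_mul 1) h3
  · exact key (-1) (by ring) (by omega)

/-- reflections in eigenvectors -/
theorem comm_rf (s : Cfsg.isometryGroup F ⇑Q) {c : F} (hc : c * c = 1) {v : ι → F} (hv : ((s : GL ι F) : Matrix ι ι F) *ᵥ v = c • v) (hQv : Q v ≠ 0) :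
    (s : GL ι F) * ((rfM Q v hQv : Cfsg.isometryGroup F ⇑Q) : GL ι F) = ((rfM Q v hQv : Cfsg.isometryGroup F ⇑Q) : GL ι F) * (s : GL ι F) := by
  apply gl_ext
  intro x
  have h1 : QuadraticMap.polar Q v (((s : GL ι F) : Matrix ι ι F) *ᵥ x) = c * QuadraticMap.polar Q v x := by
    have := polar_iso ((mem_isometryGroup Q).1 s.2) v x
    rw [hv, QuadraticMap.polar_smul_left, smul_eq_mul] at this
    rw [← this, ← mul_assoc, hc, one_mul]
  rw [Units.val_mul, Units.val_mul, ← mulVec_mulVec, ← mulVec_mulVec, rfM_mulVec, rfM_mulVec, mulVec_sub, mulVec_smul, hv, h1, smul_smul]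
  congr 2
  ring

theorem exists_z_A (h : Ev Q n) (hG : Gd Q e f u) (hn : 2 ≤ n) (hneg : NegIn Q) {g : GOs Q} {m : Fˣ} {s : Cfsg.isometryGroup F ⇑Q} (hgs : (g : GL ι F) = scal m * (s : GL ι F))
    (hss : (s : GL ι F) * (s : GL ι F) = 1) : ∃ z : GOs Q, h.eps z = 1 ∧ h.cl z = 1 ∧ z ∉ KI Q ∧ z * g = g * z := by
  obtain ⟨v, w, c, hc, hv, hw, hQv, hQw, hvw⟩ := caseA h hn (s := ((s : GL ι F) : Matrix ι ι F)) ((mem_isometryGroup Q).1 s.2) (by
    rw [← Units.val_mul, hss]; rfl)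
  refine ⟨rfG v hQv * rfG w hQw, ?_, ?_, h.z_notMem hG hneg hQv hQw hvw, ?_⟩
  · rw [map_mul, h.eps_rfG, h.eps_rfG]; decide
  · rw [map_mul, h.cl_rfG, h.cl_rfG]; decide
  · apply Subtype.ext
    have h1 := comm_rf s hc hv hQv
    have h3 := comm_rf s hc hw hQw
    show (rfM Q v hQv : GL ι F) * (rfM Q w hQw : GL ι F) * (g : GL ι F) = (g : GL ι F) * ((rfM Q v hQv : GL ι F) * (rfM Q w hQw : GL ι F))
    rw [hgs]
    calc (rfM Q v hQv : GL ι F) * (rfM Q w hQw : GL ι F) * (scal m * (s : GL ι F)) = ((rfM Q v hQv : GL ι F) * (rfM Q w hQw : GL ι F) * scal m) * (s : GL ι F) := by group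
      _ = scal m * ((rfM Q v hQv : GL ι F) * ((rfM Q w hQw : GL ι F) * (s : GL ι F))) := by rw [← scal_comm]; group
      _ = scal m * ((rfM Q v hQv : GL ι F) * (s : GL ι F) * (rfM Q w hQw : GL ι F)) := by rw [← h3]; group
      _ = _ := by rw [← h1]; group

end ex

section nonsq
variable {F : Type u} [Field F] [Fintype F] {V : Type u} [AddCommGroup V] [Module F V] [FiniteDimensional F V] {Q : QuadraticForm F V}

local notation "B" => QuadraticMap.polar Q

theorem nd_iff {W : Type*} [AddCommGroup W] [Module F W] {T : QuadraticForm F W} (h : ¬ (QuadraticMap.polarBilin T).Nondegenerate) :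
    ∃ x, x ≠ 0 ∧ ∀ y, QuadraticMap.polar T x y = 0 := by
  by_contra hcon
  push Not at hcon
  apply h
  apply nondeg_of_left
  intro x hx
  by_contra h0
  obtain ⟨y, hy⟩ := hcon x h0
  exact hy (hx y)

/-- a singular vector `e` with `B(e, g e) = 0` -/
theorem exists_e (h2 : (2 : F) ≠ 0) {e f : Fin 3 → V} {u : V} (hfr : Fr Q e f u) (g : V →ₗ[F] V) : ∃ x : V, x ≠ 0 ∧ Q x = 0 ∧ B x (g x) = 0 := by
  obtain ⟨φ, hφ⟩ : ∃ φ : (Fin 3 → F) →ₗ[F] V, ∀ x, φ x = ∑ i, x i • e i := ⟨Fintype.linearCombination F e, fun x => Fintype.linearCombination_apply F e x⟩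
  obtain ⟨T, hT⟩ : ∃ T : QuadraticForm F (Fin 3 → F), ∀ x, T x = B (φ x) (g (φ x)) :=
    ⟨LinearMap.BilinMap.toQuadraticMap ((QuadraticMap.polarBilin Q).compl₁₂ φ (g.comp φ)), fun x => rfl⟩
  obtain ⟨x, hx, hTx⟩ : ∃ x, x ≠ 0 ∧ T x = 0 := by
    by_cases hn : (QuadraticMap.polarBilin T).Nondegenerate
    · exact exists_singular hn (by simp)
    · obtain ⟨x, hx, hxy⟩ := nd_iff hn
      refine ⟨x, hx, ?_⟩
      have h1 := hxy x
      unfold QuadraticMap.polar at h1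
      have h3 : T (x + x) = 4 * T x := by
        rw [← two_smul F x, QuadraticMap.map_smul]
        simp only [smul_eq_mul]
        ring
      rw [h3] at h1
      have h4 : (2 : F) * T x = 0 := by linear_combination h1
      exact (mul_eq_zero.1 h4).resolve_left h2
  have hB : ∀ i, B (φ x) (f i) = x i := by
    intro i
    have h1 : B (φ x) (f i) = QuadraticMap.polarBilin Q (φ x) (f i) := rfl
    rw [h1, hφ, map_sum, LinearMap.sum_apply, Finset.sum_eq_single i]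
    · rw [map_smul, LinearMap.smul_apply]
      show x i • B (e i) (f i) = x i
      rw [hfr.ef, smul_eq_mul, mul_one]
    · intro j _ hj
      rw [map_smul, LinearMap.smul_apply]
      show x j • B (e j) (f i) = 0
      rw [hfr.ef' j i hj, smul_zero]
    · intro h; exact absurd (Finset.mem_univ i) h
  refine ⟨φ x, ?_, ?_, ?_⟩
  · intro h0
    apply hx
    funext i
    rw [← hB i, h0, QuadraticMap.polar_zero_left]; rfl
  · have h1 : B (φ x) (φ x) = 0 := by
      have h3 : B (φ x) (φ x) = QuadraticMap.polarBilin Q (φ x) (φ x) := rfl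
      have h4 : QuadraticMap.polarBilin Q (φ x) (φ x) = ∑ j, x j * B (φ x) (e j) := by
        conv_lhs => rw [show QuadraticMap.polarBilin Q (φ x) (φ x) = QuadraticMap.polarBilin Q (φ x) (∑ i, x i • e i) by rw [← hφ]]
        rw [map_sum]
        apply Finset.sum_congr rfl
        intro j _
        rw [map_smul]; rfl
      rw [h3, h4]
      apply Finset.sum_eq_zero
      intro j _
      have h5 : B (φ x) (e j) = 0 := by
        have h6 : B (φ x) (e j) = QuadraticMap.polarBilin Q (φ x) (e j) := rfl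
        rw [h6, hφ, map_sum, LinearMap.sum_apply]
        apply Finset.sum_eq_zero
        intro i _
        rw [map_smul, LinearMap.smul_apply]
        show x i • B (e i) (e j) = 0
        rw [hfr.ee, smul_zero]
      rw [h5, mul_zero]
    have h3 : B (φ x) (φ x) = 2 * Q (φ x) := by
      unfold QuadraticMap.polar
      rw [← two_smul F (φ x), QuadraticMap.map_smul]
      simp only [smul_eq_mul]
      ring
    rw [h3] at h1
    exact (mul_eq_zero.1 h1).resolve_left h2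
  · rw [← hT, hTx]

/-- the vector for case B -/
theorem exists_vB (h2 : (2 : F) ≠ 0) (hQ : (QuadraticMap.polarBilin Q).Nondegenerate) (g : V →ₗ[F] V) {l : F} (hl : ¬ IsSquare l) (hg : ∀ v, Q (g v) = l * Q v)
    (hgg : ∀ v, g (g v) = l • v) {e : V} (he : e ≠ 0) (hQe : Q e = 0) (hBe : B e (g e) = 0) : ∃ v, Q v = 1 ∧ B v (g v) = 0 := by
  have hl0 : l ≠ 0 := by rintro rfl; exact hl IsSquare.zero
  have hBg : ∀ x y, B (g x) (g y) = l * B x y := by
    intro x y
    unfold QuadraticMap.polar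
    rw [← map_add, hg, hg, hg]; ring
  have hadj : ∀ x y, B (g x) y = B x (g y) := by
    intro x y
    have h1 := hBg (g x) y
    rw [hgg, QuadraticMap.polar_smul_left, smul_eq_mul] at h1
    exact (mul_left_cancel₀ hl0 h1).symm
  obtain ⟨f₀, hf₀⟩ : ∃ f₀, B e f₀ ≠ 0 := by
    by_contra hcon
    push Not at hcon
    exact he (hQ.1 e hcon)
  obtain ⟨α, hα⟩ : ∃ α, α = B e f₀ := ⟨_, rfl⟩
  obtain ⟨β, hβ⟩ : ∃ β, β = B e (g f₀) := ⟨_, rfl⟩
  rw [← hα] at hf₀
  obtain ⟨D, hD⟩ : ∃ D, D = l * α ^ 2 - β ^ 2 := ⟨_, rfl⟩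
  have hD0 : D ≠ 0 := by
    intro h0
    apply hl
    refine ⟨β / α, ?_⟩
    rw [div_mul_div_comm, eq_div_iff (mul_ne_zero hf₀ hf₀)]
    linear_combination (-1 : F) * hD + h0
  obtain ⟨f₁, hf₁⟩ : ∃ f₁, f₁ = (-β / D) • f₀ + (α / D) • g f₀ := ⟨_, rfl⟩
  have hgf₁ : g f₁ = (-β / D) • g f₀ + (α / D * l) • f₀ := by rw [hf₁, map_add, map_smul, map_smul, hgg, smul_smul]
  have e1 : B e f₁ = 0 := by
    rw [hf₁, QuadraticMap.polar_add_right, QuadraticMap.polar_smul_right, QuadraticMap.polar_smul_right, ← hα, ← hβ, smul_eq_mul, smul_eq_mul]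
    field_simp
    ring
  have e2 : B (g e) f₁ = 1 := by
    rw [hadj, hgf₁, QuadraticMap.polar_add_right, QuadraticMap.polar_smul_right, QuadraticMap.polar_smul_right, ← hα, ← hβ, smul_eq_mul, smul_eq_mul]
    field_simp
    linear_combination (-1 : F) * hD
  obtain ⟨t, ht⟩ : ∃ t, t = B f₁ (g f₁) / 2 := ⟨_, rfl⟩
  obtain ⟨s, hs⟩ : ∃ s, s = 1 - Q f₁ := ⟨_, rfl⟩
  obtain ⟨w, hw⟩ : ∃ w, w = (-t) • e + s • g e := ⟨_, rfl⟩
  have hQge : Q (g e) = 0 := by rw [hg, hQe, mul_zero]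
  have hQw : Q w = 0 := by
    have h1 : Q w = Q ((-t) • e) + Q (s • g e) + B ((-t) • e) (s • g e) := by
      rw [hw]; unfold QuadraticMap.polar; ring
    rw [h1, QuadraticMap.map_smul, QuadraticMap.map_smul, hQe, hQge, QuadraticMap.polar_smul_left, QuadraticMap.polar_smul_right, hBe, smul_zero, smul_zero, smul_zero, add_zero, smul_zero, add_zero]
  have hBfw : B f₁ w = s := by
    rw [hw, QuadraticMap.polar_add_right, QuadraticMap.polar_smul_right, QuadraticMap.polar_smul_right, QuadraticMap.polar_comm Q f₁ e, QuadraticMap.polar_comm Q f₁ (g e), e1, e2,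
      smul_eq_mul, smul_eq_mul]
    ring
  have hgw : g w = (-t) • g e + (s * l) • e := by rw [hw, map_add, map_smul, map_smul, hgg, smul_smul]
  have hBfgw : B f₁ (g w) = -t := by
    rw [hgw, QuadraticMap.polar_add_right, QuadraticMap.polar_smul_right, QuadraticMap.polar_smul_right, QuadraticMap.polar_comm Q f₁ e, QuadraticMap.polar_comm Q f₁ (g e), e1, e2,
      smul_eq_mul, smul_eq_mul]
    ring
  have hBee : B e e = 0 := by
    unfold QuadraticMap.polar
    rw [← two_smul F e, QuadraticMap.map_smul, hQe, smul_zero, sub_zero, sub_zero]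
  have hBww : B w (g w) = 0 := by
    rw [hgw, hw, QuadraticMap.polar_add_right, QuadraticMap.polar_add_left, QuadraticMap.polar_add_left]
    simp only [QuadraticMap.polar_smul_left, QuadraticMap.polar_smul_right]
    rw [hBe, hBg e e, hBee, QuadraticMap.polar_comm Q (g e) e, hBe]
    simp
  refine ⟨f₁ + w, ?_, ?_⟩
  · have h1 : Q (f₁ + w) = Q f₁ + Q w + B f₁ w := by unfold QuadraticMap.polar; ring
    rw [h1, hQw, hBfw, hs]; ring
  · rw [map_add, QuadraticMap.polar_add_right, QuadraticMap.polar_add_left, QuadraticMap.polar_add_left, hBww, hBfgw, ← hadj w f₁, QuadraticMap.polar_comm Q (g w) f₁, hBfgw]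
    have h3 : B f₁ (g f₁) = 2 * t := by rw [ht]; field_simp
    rw [h3]; ring

end nonsq

section ex2
variable {F : Type u} [Field F] [Fintype F] {ι : Type} [Fintype ι] [DecidableEq ι] {Q : QuadraticForm F (ι → F)} {n : ℕ}
variable {e f : Fin 3 → (ι → F)} {u : ι → F}

theorem exists_z_B (h : Ev Q n) (hG : Gd Q e f u) (hneg : NegIn Q) {g : GOs Q} {l : Fˣ} (hl : (g : GL ι F) * (g : GL ι F) = scal l) (hmu : mu h.hx g = l)
    (hns : ¬ IsSquare (l : F)) : ∃ z : GOs Q, h.eps z = 1 ∧ h.cl z = 1 ∧ z ∉ KI Q ∧ z * g = g * z := by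
  obtain ⟨L, hL⟩ : ∃ L : (ι → F) →ₗ[F] (ι → F), ∀ x, L x = ((g : GL ι F) : Matrix ι ι F) *ᵥ x := ⟨Matrix.toLin' ((g : GL ι F) : Matrix ι ι F), fun x => rfl⟩
  have hgg : ∀ x : ι → F, ((g : GL ι F) : Matrix ι ι F) *ᵥ (((g : GL ι F) : Matrix ι ι F) *ᵥ x) = (l : F) • x := by
    intro x
    rw [mulVec_mulVec, ← Units.val_mul, hl, scal_mulVec]
  have hQg : ∀ v, Q (((g : GL ι F) : Matrix ι ι F) *ᵥ v) = l * Q v := by
    intro v
    rw [mu_spec h.hx, hmu]
  obtain ⟨x, hx, hQx, hBx⟩ := exists_e h.h2 hG.fr L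
  obtain ⟨v, hv1, hv2⟩ := exists_vB h.h2 h.nd L hns (fun v => by rw [hL, hQg]) (fun v => by rw [hL, hL, hgg]) hx hQx hBx
  rw [hL] at hv2
  have hQv : Q v ≠ 0 := by rw [hv1]; exact one_ne_zero
  have hQgv : Q (((g : GL ι F) : Matrix ι ι F) *ᵥ v) ≠ 0 := by rw [hQg, hv1, mul_one]; exact l.ne_zero
  have hBg := polar_sim (g := (g : GL ι F)) hQg
  have hadj : ∀ x y, QuadraticMap.polar Q (((g : GL ι F) : Matrix ι ι F) *ᵥ x) y = QuadraticMap.polar Q x (((g : GL ι F) : Matrix ι ι F) *ᵥ y) := by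
    intro x y
    have h1 := hBg (((g : GL ι F) : Matrix ι ι F) *ᵥ x) y
    rw [hgg, QuadraticMap.polar_smul_left, smul_eq_mul] at h1
    exact (mul_left_cancel₀ l.ne_zero h1).symm
  have c1 : (g : GL ι F) * ((rfM Q v hQv : Cfsg.isometryGroup F ⇑Q) : GL ι F) = ((rfM Q _ hQgv : Cfsg.isometryGroup F ⇑Q) : GL ι F) * (g : GL ι F) := by
    rw [← conj_rfM hQg v hQv hQgv, inv_mul_cancel_right]
  have c2 : (g : GL ι F) * ((rfM Q _ hQgv : Cfsg.isometryGroup F ⇑Q) : GL ι F) = ((rfM Q v hQv : Cfsg.isometryGroup F ⇑Q) : GL ι F) * (g : GL ι F) := by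
    apply gl_ext
    intro y
    rw [Units.val_mul, Units.val_mul, ← mulVec_mulVec, ← mulVec_mulVec, rfM_mulVec, rfM_mulVec, mulVec_sub, mulVec_smul, hgg, hQg, hadj, smul_smul]
    congr 2
    field_simp
  have c3 : ((rfM Q _ hQgv : Cfsg.isometryGroup F ⇑Q) : GL ι F) * ((rfM Q v hQv : Cfsg.isometryGroup F ⇑Q) : GL ι F) =
      ((rfM Q v hQv : Cfsg.isometryGroup F ⇑Q) : GL ι F) * ((rfM Q _ hQgv : Cfsg.isometryGroup F ⇑Q) : GL ι F) := by
    apply gl_ext
    intro y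
    rw [Units.val_mul, Units.val_mul, ← mulVec_mulVec, ← mulVec_mulVec, rfM_mulVec, rfM_mulVec, rfM_mulVec, rfM_mulVec]
    rw [sub_eq_add_neg y, ← neg_smul, sub_eq_add_neg y, ← neg_smul, QuadraticMap.polar_add_right, QuadraticMap.polar_add_right, QuadraticMap.polar_smul_right, QuadraticMap.polar_smul_right,
      QuadraticMap.polar_comm Q (((g : GL ι F) : Matrix ι ι F) *ᵥ v) v, hv2, smul_zero, smul_zero, add_zero, add_zero, neg_smul, neg_smul]
    abel
  refine ⟨rfG v hQv * rfG _ hQgv, ?_, ?_, h.z_notMem hG hneg hQv hQgv ?_, ?_⟩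
  · rw [map_mul, h.eps_rfG, h.eps_rfG]; decide
  · rw [map_mul, h.cl_rfG, h.cl_rfG]; decide
  · rw [hQg, hv1, mul_one, chi_one, one_mul, chi_eq_neg]; exact hns
  · apply Subtype.ext
    show (rfM Q v hQv : GL ι F) * (rfM Q _ hQgv : GL ι F) * (g : GL ι F) = (g : GL ι F) * ((rfM Q v hQv : GL ι F) * (rfM Q _ hQgv : GL ι F))
    rw [mul_assoc, ← c1, ← mul_assoc, ← c2, mul_assoc, c3]

theorem exists_z (h : Ev Q n) (hG : Gd Q e f u) (hn : 2 ≤ n) (hneg : NegIn Q) {g : GOs Q} (hg : h.eps g = -1) {l : Fˣ} (hl : (g : GL ι F) * (g : GL ι F) = scal l) :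
    ∃ z : GOs Q, h.eps z = 1 ∧ h.cl z = 1 ∧ z ∉ KI Q ∧ z * g = g * z := by
  rcases inv_cases h hg hl with ⟨m, s, h1, h3, -⟩ | ⟨h1, h3, -⟩
  · exact exists_z_A h hG hn hneg h1 h3
  · exact exists_z_B h hG hneg hl h1 h3

/-- commutators with similarities of nonsquare multiplier -/
theorem comm_notMem (h : Ev Q n) (hG : Gd Q e f u) (hneg : NegIn Q) {g d : GOs Q} (hg : h.eps g = -1) (hd : h.eps d = 1) (hcd : h.cl d = -1) :
    g * d * g⁻¹ * d⁻¹ ∉ KI Q := by
  obtain ⟨x, hx⟩ := h.hx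
  have hQd := mu_spec h.hx d
  have hdx : Q (((d : GL ι F) : Matrix ι ι F) *ᵥ x) ≠ 0 := by
    rw [hQd]; exact mul_ne_zero (Units.ne_zero _) hx
  obtain ⟨r, hr⟩ : ∃ r : GOs Q, r = rfG x hx := ⟨_, rfl⟩
  have hre : h.eps r = -1 := by rw [hr, h.eps_rfG]
  have h1 : r * d * r⁻¹ * d⁻¹ ∉ KI Q := by
    have h3 : r * d * r⁻¹ * d⁻¹ = r * (rfG _ hdx)⁻¹ := by
      have h4 : d * r * d⁻¹ = rfG _ hdx := by
        apply Subtype.ext
        rw [hr]
        exact conj_rfM hQd x hx hdx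
      rw [← h4]; group
    have h5 : (rfG _ hdx : GOs Q)⁻¹ = rfG _ hdx := by
      rw [inv_eq_iff_mul_eq_one]
      apply Subtype.ext
      apply gl_ext
      intro y
      show ((rfM Q _ hdx : GL ι F) * (rfM Q _ hdx : GL ι F) : GL ι F).val *ᵥ y = (1 : Matrix ι ι F) *ᵥ y
      have hpp : QuadraticMap.polar Q (((d : GL ι F) : Matrix ι ι F) *ᵥ x) (((d : GL ι F) : Matrix ι ι F) *ᵥ x) = 2 * Q (((d : GL ι F) : Matrix ι ι F) *ᵥ x) := by
        unfold QuadraticMap.polar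
        rw [← two_smul F (((d : GL ι F) : Matrix ι ι F) *ᵥ x), QuadraticMap.map_smul, smul_eq_mul]
        ring
      rw [Units.val_mul, ← mulVec_mulVec, rfM_mulVec, rfM_mulVec, one_mulVec, sub_eq_add_neg y, ← neg_smul, QuadraticMap.polar_add_right, QuadraticMap.polar_smul_right, hpp,
        sub_eq_add_neg, ← neg_smul, add_assoc, ← add_smul]
      convert add_zero y using 2
      convert zero_smul F _ using 2
      rw [smul_eq_mul]
      field_simp
      ring
    rw [h3, h5, hr]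
    apply h.z_notMem hG hneg
    rw [hQd, chi_mul h.h2 (Units.ne_zero _) hx, mul_left_comm, Int.units_mul_self, mul_one]
    exact hcd
  intro hmem
  apply h1
  obtain ⟨k, hk⟩ : ∃ k, k = r⁻¹ * g := ⟨_, rfl⟩
  have hgk : g = r * k := by rw [hk, mul_inv_cancel_left]
  have hke : h.eps k = 1 := by rw [hk, map_mul, map_inv, hre, hg]; decide
  have hab : k * d * k⁻¹ * d⁻¹ ∈ KI Q := by
    obtain ⟨N, hN⟩ : ∃ N : Subgroup h.eps.ker, N = (KI Q).subgroupOf h.eps.ker := ⟨_, rfl⟩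
    haveI : N.Normal := by rw [hN]; infer_instance
    have hidx : N.index = 4 := by
      rw [hN]
      exact (h.KI_relIndex_eps hG).1 hneg
    have hcomm : ∀ a b : h.eps.ker ⧸ N, a * b = b * a := by
      apply IsPGroup.commutative_of_card_eq_prime_sq (p := 2)
      rw [← Subgroup.index_eq_card, hidx]; rfl
    have h3 := hcomm (QuotientGroup.mk ⟨k, hke⟩) (QuotientGroup.mk ⟨d, hd⟩)
    rw [← QuotientGroup.mk_mul, ← QuotientGroup.mk_mul, eq_comm, QuotientGroup.eq] at h3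
    rw [hN, Subgroup.mem_subgroupOf] at h3
    have h4 : (d * k)⁻¹ * (k * d) ∈ KI Q := h3
    have h5 : k * d * k⁻¹ * d⁻¹ = (d * k) * ((d * k)⁻¹ * (k * d)) * (d * k)⁻¹ := by group
    rw [h5]
    exact (inferInstance : (KI Q).Normal).conj_mem _ h4 _
  have h6 : r * d * r⁻¹ * d⁻¹ = (r * (k * d * k⁻¹ * d⁻¹) * r⁻¹)⁻¹ * (g * d * g⁻¹ * d⁻¹) := by rw [hgk]; group
  rw [h6]
  exact mul_mem (inv_mem ((inferInstance : (KI Q).Normal).conj_mem _ hab _)) hmem

end ex2

end CfsgLib.GI27
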