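import Cfsg.Agent.LibGI27c

set_option autoImplicit false

/-! Graph involutions: splitting numbers. -/

namespace CfsgLib.GI27

open CfsgLib.AutO27 hiding R
open Cfsg.Agent.H22 CfsgLib.Semi27 CfsgLib.Lift27 CfsgLib.RhoO27 CfsgLib.Spinor27 CfsgLib.Even27 CfsgLib.Min27 CfsgLib.H9027 CfsgLib.QForm27 CfsgLib.Desc27 CfsgLib.Eps27 Module Matrix

universe u

section cnt
variable {F : Type u} [Field F] [Fintype F] {ι : Type} [Fintype ι] [DecidableEq ι] {Q : QuadraticForm F (ι → F)} {n : ℕ}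
variable {e f : Fin 3 → (ι → F)} {u : ι → F}

theorem cl_comm_A (h : Ev Q n) (hn : Even n) {g : GOs Q} {m : Fˣ} {s : Cfsg.isometryGroup F ⇑Q} (hgs : (g : GL ι F) = scal m * (s : GL ι F))
    (hss : (s : GL ι F) * (s : GL ι F) = 1) (hdet : (s : GL ι F).det = -1) {c : GOs Q} {a : Fˣ} (hc : (c : GL ι F) * (g : GL ι F) = scal a * ((g : GL ι F) * (c : GL ι F))) :
    h.cl c = 1 := by
  have h1 : (c : GL ι F) * (s : GL ι F) = scal a * ((s : GL ι F) * (c : GL ι F)) := by
    rw [hgs] at hc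
    have h3 : (c : GL ι F) * (scal m * (s : GL ι F)) = scal m * ((c : GL ι F) * (s : GL ι F)) := by
      rw [← mul_assoc, ← scal_comm, mul_assoc]
    have h4 : scal a * (scal m * (s : GL ι F) * (c : GL ι F)) = scal m * (scal a * ((s : GL ι F) * (c : GL ι F))) := by
      rw [mul_assoc, ← mul_assoc, scal_comm a (scal m), mul_assoc]
    rw [h3, h4] at hc
    exact mul_left_cancel hc
  have haa : a * a = 1 := by
    have h3 : (c : GL ι F) * ((s : GL ι F) * (s : GL ι F)) = scal (a * a) * ((s : GL ι F) * (s : GL ι F)) * (c : GL ι F) := by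
      have e1 : (scal (a * a) : GL ι F) = scal a * scal a := by rw [← map_mul]
      calc (c : GL ι F) * ((s : GL ι F) * (s : GL ι F)) = ((c : GL ι F) * (s : GL ι F)) * (s : GL ι F) := by group
        _ = (scal a * ((s : GL ι F) * (c : GL ι F))) * (s : GL ι F) := by rw [h1]
        _ = scal a * (s : GL ι F) * ((c : GL ι F) * (s : GL ι F)) := by group
        _ = scal a * (s : GL ι F) * (scal a * ((s : GL ι F) * (c : GL ι F))) := by rw [h1]
        _ = scal a * ((s : GL ι F) * scal a) * (s : GL ι F) * (c : GL ι F) := by group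
        _ = _ := by rw [← scal_comm, e1]; group
    rw [hss, mul_one, mul_one] at h3
    have h4 : (scal (a * a) : GL ι F) = 1 := mul_eq_right.1 h3.symm
    obtain ⟨x, hx⟩ := h.hx
    have h5 : ∀ y : ι → F, ((a * a : Fˣ) : F) • y = y := by
      intro y
      rw [← scal_mulVec, h4, Units.val_one, one_mulVec]
    have h6 : ∃ i, x i ≠ 0 := by
      by_contra hcon
      push Not at hcon
      apply hx
      have : x = 0 := funext hcon
      rw [this, map_zero]
    obtain ⟨i, hi⟩ := h6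
    have h7 := congrFun (h5 x) i
    rw [Pi.smul_apply, smul_eq_mul] at h7
    exact Units.ext (mul_right_cancel₀ hi (by rw [h7, Units.val_one, one_mul]))
  have hss' : ((s : GL ι F) : Matrix ι ι F) * ((s : GL ι F) : Matrix ι ι F) = 1 := by rw [← Units.val_mul, hss]; rfl
  have hdet' : ((s : GL ι F) : Matrix ι ι F).det = -1 := by
    have := congrArg Units.val hdet
    rw [Units.val_neg, Units.val_one] at this
    exact this
  have h3 : (a : F) * a = 1 * 1 := by rw [← Units.val_mul, haa, Units.val_one, one_mul]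
  have hcs : ((c : GL ι F) : Matrix ι ι F) * ((s : GL ι F) : Matrix ι ι F) = (a : F) • (((s : GL ι F) : Matrix ι ι F) * ((c : GL ι F) : Matrix ι ι F)) := by
    have h4 := congrArg Units.val h1
    rw [Units.val_mul, Units.val_mul, Units.val_mul] at h4
    rw [h4]
    show Matrix.scalar ι (a : F) * _ = _
    rw [Matrix.scalar_apply, ← Matrix.smul_one_eq_diagonal, Matrix.smul_mul, Matrix.one_mul]
  rcases mul_self_eq_mul_self_iff.1 h3 with h4 | h4
  · rw [h.cl_apply, chi_eq_one]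
    apply comm_square h ((mem_isometryGroup Q).1 s.2) hss' hdet' c
    rw [hcs, h4, one_smul]
  · exfalso
    rw [h4, neg_one_smul, ← Matrix.neg_mul] at hcs
    exact (Nat.not_even_iff_odd.2 (swap_odd h hss' hdet' _ hcs)) hn

set_option maxHeartbeats 1000000 in
/-- splitting numbers of graph involutions -/
theorem gi_count (h : Ea Q n) (hG : Gd Q e f u) (h2 : (2 : F) ≠ 0) (g : GOs Q) (hg : (h.ev h2).eps g = -1) (l : Fˣ) (hl : (g : GL ι F) * (g : GL ι F) = scal l) :
    (Cfsg.splitClassCount (rho h.Gam h.Gam_le).range (Cfsg.Inn (Cfsg.POmega F ⇑Q)) (rho (GOs Q) le_rfl g) = 1 ∨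
      Cfsg.splitClassCount (rho h.Gam h.Gam_le).range (Cfsg.Inn (Cfsg.POmega F ⇑Q)) (rho (GOs Q) le_rfl g) = 2) ∧
    (NegIn Q ∨ Even n → Cfsg.splitClassCount (rho h.Gam h.Gam_le).range (Cfsg.Inn (Cfsg.POmega F ⇑Q)) (rho (GOs Q) le_rfl g) = 2) := by
  obtain ⟨ρ, hρ⟩ : ∃ ρ : (h.ev h2).eps.ker →* MulAut (Cfsg.POmega F ⇑Q), ρ = (rho (GOs Q) le_rfl).comp (h.ev h2).eps.ker.subtype := ⟨_, rfl⟩
  have hρ' : ∀ g : (h.ev h2).eps.ker, ρ g = rho (GOs Q) le_rfl g.1 := fun g => by rw [hρ]; rfl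
  have hrange : (rho h.Gam h.Gam_le).range = ρ.range := by
    ext x
    constructor
    · rintro ⟨g, rfl⟩
      obtain ⟨hg1, hg2⟩ := h.mem_Gam.1 g.2
      rw [h.ep_odd h2] at hg2
      exact ⟨⟨⟨g.1, hg1⟩, hg2⟩, by rw [hρ']; rfl⟩
    · rintro ⟨g, rfl⟩
      refine ⟨⟨g.1.1, h.mem_Gam.2 ⟨g.1.2, ?_⟩⟩, by rw [hρ']; rfl⟩
      rw [h.ep_odd h2]
      exact g.2
  rw [hrange]
  obtain ⟨N, hN⟩ : ∃ N : Subgroup (h.ev h2).eps.ker, N = (KI Q).subgroupOf (h.ev h2).eps.ker := ⟨_, rfl⟩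
  obtain ⟨C, hC⟩ : ∃ C : Subgroup (h.ev h2).eps.ker, C = (Subgroup.centralizer {rho (GOs Q) le_rfl g}).comap ρ := ⟨_, rfl⟩
  haveI : N.Normal := by rw [hN]; infer_instance
  have hNm : ∀ g, g ∈ N ↔ ρ g ∈ Cfsg.Inn (Cfsg.POmega F ⇑Q) := by
    intro g
    rw [hN, Subgroup.mem_subgroupOf, hρ']; rfl
  have hCm : ∀ c, c ∈ C ↔ ρ c * rho (GOs Q) le_rfl g = rho (GOs Q) le_rfl g * ρ c := by
    intro c
    rw [hC, Subgroup.mem_comap, Subgroup.mem_centralizer_iff]
    constructor
    · intro h3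
      exact (h3 _ rfl).symm
    · rintro h3 _ rfl
      exact h3.symm
  have hcom : ∀ c, c ∈ C ↔ ∃ a : Fˣ, ((c : GOs Q) : GL ι F) * (g : GL ι F) = scal a * ((g : GL ι F) * ((c : GOs Q) : GL ι F)) := by
    intro c
    rw [hCm, hρ', ← map_mul, ← map_mul, ← mul_inv_eq_one, ← map_inv, ← map_mul, rho_ker' _ _ hG]
    apply exists_congr
    intro a
    rw [Subgroup.coe_mul, Subgroup.coe_inv, Subgroup.coe_mul, Subgroup.coe_mul, mul_inv_eq_iff_eq_mul]
  rw [splitCount_rho ρ (Cfsg.Inn (Cfsg.POmega F ⇑Q)) _ N C hNm (by rw [← hrange]; exact inn_le_rho h) hCm]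
  have hchi : (h.ev h2).ch.ker.relIndex (h.ev h2).eps.ker = 2 := by
    have h1 := Subgroup.relIndex_mul_index (ker_le_eps (h.ev h2))
    rw [(h.ev h2).eps_ker_index, (h.ev h2).ch_ker_index] at h1
    omega
  by_cases hneg : NegIn Q
  · have hidx : N.index = 4 := by
      rw [hN]
      exact ((h.ev h2).KI_relIndex_eps hG).1 hneg
    obtain ⟨M, hM⟩ : ∃ M : Subgroup (h.ev h2).eps.ker, M = (h.ev h2).ch.ker.subgroupOf (h.ev h2).eps.ker := ⟨_, rfl⟩
    have hMi : M.index = 2 := by rw [hM]; exact hchi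
    have hNM : N ≤ M := by
      rw [hN, hM]
      intro x hx
      exact KI_le (h.ev h2) hG hx
    have hCM : C ≤ M := by
      intro c hc
      obtain ⟨a, ha⟩ := (hcom c).1 hc
      rw [hM, Subgroup.mem_subgroupOf, MonoidHom.mem_ker]
      refine Prod.ext c.2 ?_
      show (h.ev h2).cl c.1 = 1
      by_contra hne
      apply comm_notMem (h.ev h2) hG hneg hg c.2 (units_ne hne)
      have h3 : g * (c : GOs Q) * g⁻¹ * ((c : GOs Q))⁻¹ = (⟨scal a, scal_mem a⟩ : GOs Q)⁻¹ := by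
        rw [eq_inv_iff_mul_eq_one]
        apply Subtype.ext
        have h4 : (g * (c : GOs Q) * g⁻¹ * ((c : GOs Q))⁻¹ * (⟨scal a, scal_mem a⟩ : GOs Q) : GOs Q) = (⟨scal a, scal_mem a⟩ : GOs Q) * (g * (c : GOs Q)) * ((c : GOs Q) * g)⁻¹ := by
          have h5 : (g * (c : GOs Q) * g⁻¹ * ((c : GOs Q))⁻¹) * (⟨scal a, scal_mem a⟩ : GOs Q) = (⟨scal a, scal_mem a⟩ : GOs Q) * (g * (c : GOs Q) * g⁻¹ * ((c : GOs Q))⁻¹) := by
            apply Subtype.ext
            exact (scal_comm a _).symm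
          rw [h5]; group
        rw [h4]
        show scal a * ((g : GL ι F) * ((c : GOs Q) : GL ι F)) * (((c : GOs Q) : GL ι F) * (g : GL ι F))⁻¹ = 1
        rw [← ha, mul_inv_cancel]
      rw [h3]
      exact inv_mem (scal_KI hG a)
    obtain ⟨z, hz1, -, hz3, hz4⟩ := exists_z (h.ev h2) hG (by have := h.n3; omega) hneg hg hl
    have hzC : (⟨z, hz1⟩ : (h.ev h2).eps.ker) ∈ C := by
      rw [hcom]
      refine ⟨1, ?_⟩
      rw [← eq_scal_one]
      exact congrArg Subtype.val hz4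
    have hsup : (N ⊔ C).index = 2 := by
      have h1 : M.index ∣ (N ⊔ C).index := Subgroup.index_dvd_of_le (sup_le hNM hCM)
      have h3 := Subgroup.relIndex_mul_index (le_sup_left : N ≤ N ⊔ C)
      rw [hidx] at h3
      rw [hMi] at h1
      have h4 : N.relIndex (N ⊔ C) ≠ 1 := by
        intro h5
        rw [Subgroup.relIndex_eq_one] at h5
        have h6 : (⟨z, hz1⟩ : (h.ev h2).eps.ker) ∈ N := h5 ((le_sup_right : C ≤ N ⊔ C) hzC)
        rw [hN, Subgroup.mem_subgroupOf] at h6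
        exact hz3 h6
      obtain ⟨k, hk⟩ := h1
      rw [hk] at h3 ⊢
      have h7 : N.relIndex (N ⊔ C) * k = 2 := by
        have : 2 * (N.relIndex (N ⊔ C) * k) = 2 * 2 := by rw [mul_left_comm, h3]
        omega
      have h8 : k ∣ 2 := ⟨_, by rw [mul_comm]; exact h7.symm⟩
      rcases (Nat.dvd_prime Nat.prime_two).1 h8 with h9 | h9
      · rw [h9]
      · exfalso
        rw [h9] at h7
        omega
    rw [hsup]
    exact ⟨Or.inr rfl, fun _ => rfl⟩
  · have hidx : N.index = 2 := by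
      rw [hN]
      exact ((h.ev h2).KI_relIndex_eps hG).2 hneg
    constructor
    · have h1 : (N ⊔ C).index ∣ N.index := Subgroup.index_dvd_of_le le_sup_left
      rw [hidx] at h1
      exact (Nat.dvd_prime Nat.prime_two).1 h1
    · rintro (h1 | hn)
      · exact absurd h1 hneg
      · have hCN : C ≤ N := by
          intro c hc
          obtain ⟨a, ha⟩ := (hcom c).1 hc
          rw [hN, Subgroup.mem_subgroupOf]
          have h3 := ((h.ev h2).KI_relIndex hG).2 hneg
          rw [Subgroup.relIndex_eq_one] at h3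
          apply h3
          rw [MonoidHom.mem_ker]
          refine Prod.ext c.2 ?_
          show (h.ev h2).cl c.1 = 1
          rcases inv_cases (h.ev h2) hg hl with ⟨m, s, h4, h5, h6⟩ | ⟨-, -, h4⟩
          · exact cl_comm_A (h.ev h2) hn h4 h5 h6 ha
          · exact absurd hn (Nat.not_even_iff_odd.2 h4)
        rw [sup_eq_left.2 hCN, hidx]

end cnt

end CfsgLib.GI27
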