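import Cfsg.Agent.LibEps27j

set_option autoImplicit false

/-! Semisimilarities of the minus form for an arbitrary automorphism of the field. -/

namespace CfsgLib.GI27

open CfsgLib.AutO27 hiding R
open Cfsg.Agent.H22 CfsgLib.Semi27 CfsgLib.Lift27 CfsgLib.RhoO27 CfsgLib.Spinor27 CfsgLib.Even27 CfsgLib.Min27 CfsgLib.H9027 CfsgLib.QForm27 CfsgLib.Desc27 CfsgLib.Eps27 Module Matrix

universe u

section gen
variable {F : Type*} [Field F] {ι : Type} [Fintype ι] [DecidableEq ι] {σ : F ≃+* F}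

theorem hform_gen2 [Nonempty ι] {Q : QuadraticForm F (ι → F)} (hQ : (QuadraticMap.polarBilin Q).Nondegenerate)
    {g : GL ι F} {μ : Fˣ} (hg : ∀ v : ι → F, Q ((g : Matrix ι ι F) *ᵥ (σ ∘ v)) = μ * σ (Q v)) {l : Fˣ} {k : GL ι F} (hk : g * gm σ k = scal l * k) :
    ∃ (a : F) (D₀ : QuadraticForm (fixF σ) (ι → fixF σ)), a ≠ 0 ∧ (QuadraticMap.polarBilin D₀).Nondegenerate ∧
      (μ : F) * σ a = (l : F) * (l : F) * a ∧ ∀ x, Q ((k : Matrix ι ι F) *ᵥ jv σ x) = a * (D₀ x : F) := by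
  let C : QuadraticForm F (ι → F) := Q.comp (Matrix.toLin' (k : Matrix ι ι F))
  have hC : ∀ x, C x = Q ((k : Matrix ι ι F) *ᵥ x) := fun _ => rfl
  have hkinv : ∀ y : ι → F, (k : Matrix ι ι F) *ᵥ (((k⁻¹ : GL ι F) : Matrix ι ι F) *ᵥ y) = y := by
    intro y
    rw [mulVec_mulVec, Units.mul_inv, one_mulVec]
  have hkinv' : ∀ y : ι → F, ((k⁻¹ : GL ι F) : Matrix ι ι F) *ᵥ ((k : Matrix ι ι F) *ᵥ y) = y := by
    intro y
    rw [mulVec_mulVec, Units.inv_mul, one_mulVec]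
  have hCn : (QuadraticMap.polarBilin C).Nondegenerate := by
    apply nondeg_of_left
    intro x hx
    rw [← hkinv' x]
    have h1 : (k : Matrix ι ι F) *ᵥ x = 0 := by
      apply hQ.1
      intro y
      rw [← hkinv y]
      show QuadraticMap.polar Q _ _ = 0
      have h2 := hx (((k⁻¹ : GL ι F) : Matrix ι ι F) *ᵥ y)
      unfold QuadraticMap.polar at h2 ⊢
      rw [hC, hC, hC, mulVec_add] at h2
      exact h2
    rw [h1, mulVec_zero]
  have hσC : ∀ x, (μ : F) * σ (C x) = (l : F) * (l : F) * C (σ ∘ x) := by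
    intro x
    rw [hC, hC, ← hg, ← gm_mulVec, ← coe_gm, mulVec_mulVec, ← Units.val_mul, hk, scal_mul_mulVec, qsmul]
  obtain ⟨v0, hv0⟩ : ∃ v0 : ι → fixF σ, C (jv σ v0) ≠ 0 := by
    by_contra hcon
    push Not at hcon
    have h1 : C = 0 := qf_ext_rational (σ := σ) fun x => by rw [hcon]; rfl
    obtain ⟨i⟩ := (inferInstance : Nonempty ι)
    have h2 : (Pi.single i 1 : ι → F) = 0 := by
      apply hCn.1
      intro y
      show QuadraticMap.polar C _ _ = 0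
      rw [h1]
      unfold QuadraticMap.polar
      simp
    have := congrFun h2 i
    simp at this
  obtain ⟨a, ha⟩ : ∃ a, a = C (jv σ v0) := ⟨_, rfl⟩
  rw [← ha] at hv0
  have haσ : (μ : F) * σ a = (l : F) * (l : F) * a := by
    have := hσC (jv σ v0)
    rw [jv_fixed, ← ha] at this
    exact this
  have hσa0 : σ a ≠ 0 := fun h => hv0 ((map_eq_zero_iff σ σ.injective).1 h)
  obtain ⟨D₀, hD₀⟩ := descend_qf (σ := σ) (a⁻¹ • C) (by
    intro v
    show a⁻¹ * C (σ ∘ v) = σ (a⁻¹ * C v)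
    rw [map_mul, map_inv₀]
    have h1 := hσC v
    have hl : (l : F) ≠ 0 := l.ne_zero
    have hμ0 : (μ : F) ≠ 0 := μ.ne_zero
    field_simp
    apply mul_left_cancel₀ (mul_ne_zero hμ0 (mul_ne_zero hl hl))
    linear_combination (-(l * l * a : F)) * h1 + (l * l * C (σ ∘ v) : F) * haσ)
  refine ⟨a, D₀, hv0, ?_, haσ, fun x => ?_⟩
  · apply descend_nondeg hD₀
    apply nondeg_of_left
    intro x hx
    apply hCn.1
    intro y
    have h1 := hx y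
    have h2 : QuadraticMap.polar (⇑(a⁻¹ • C)) x y = a⁻¹ * QuadraticMap.polar C x y := by
      unfold QuadraticMap.polar
      simp only [QuadraticMap.smul_apply, smul_eq_mul]; ring
    rw [h2] at h1
    exact (mul_eq_zero.1 h1).resolve_left (inv_ne_zero hv0)
  · rw [hD₀, ← hC]
    show _ = a * (a⁻¹ * C (jv σ x))
    rw [mul_inv_cancel_left₀ hv0]

end gen

section lang
variable {F : Type u} [Field F] [Fintype F] {ι : Type} [Fintype ι] [DecidableEq ι] {Q : QuadraticForm F (ι → F)} {σ : F ≃+* F}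

/-- Lang's theorem: the descended form -/
theorem lang_form2 [Nonempty ι] {e f : Fin 3 → (ι → F)} {u : ι → F} (hG : Gd Q e f u) {r : ℕ} (hr : 0 < r) (ho : orderOf σ = r)
    {g : GL ι F} (hg : (⟨g, σ⟩ : GamL ι F) ∈ SP Q) (hgr : CfsgLib.RhoO27.R Q ⟨_, hg⟩ ^ r = 1) :
    ∃ (l : Fˣ) (k : GL ι F) (a : F) (D₀ : QuadraticForm (fixF σ) (ι → fixF σ)), g * gm σ k = scal l * k ∧ a ≠ 0 ∧ (QuadraticMap.polarBilin D₀).Nondegenerate ∧
      ∀ x, Q ((k : Matrix ι ι F) *ᵥ jv σ x) = a * (D₀ x : F) := by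
  rw [← map_pow, R_ker' hG] at hgr
  obtain ⟨-, u, hu⟩ := hgr
  have h1 : ((⟨⟨g, σ⟩, hg⟩ : SP Q) ^ r : SP Q).1 = ⟨nrm σ g r, σ ^ r⟩ := by
    rw [← gam_pow]; rfl
  rw [h1] at hu
  obtain ⟨l, k, hk⟩ := lang_matrix hr ho (g := g) (u := u) hu
  obtain ⟨μ, hμ⟩ := hg
  obtain ⟨a, D₀, ha, hD₀, -, hk0⟩ := hform_gen2 hG.nd (g := g) (σ := σ) hμ hk
  exact ⟨l, k, a, D₀, hk, ha, hD₀, hk0⟩

end lang

section minus
variable {F : Type u} [Field F] [Fintype F] {m : ℕ} {σ : F ≃+* F} {a b : F}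

/-- semisimilarities of prime order of the minus form -/
theorem minus_gen (hm : 3 ≤ m) (hab : ∀ z₁ z₂ : F, z₁ ^ 2 + a * z₁ * z₂ + b * z₂ ^ 2 = 0 → z₁ = 0 ∧ z₂ = 0)
    {r : ℕ} (hr : r.Prime) (ho : orderOf σ = r) {g : GL ((Fin m ⊕ Fin m) ⊕ Fin 2) F} (hg : (⟨g, σ⟩ : GamL ((Fin m ⊕ Fin m) ⊕ Fin 2) F) ∈ SP (qMinus m F a b))
    (hgr : CfsgLib.RhoO27.R (qMinus m F a b) ⟨_, hg⟩ ^ r = 1) :
    r ≠ 2 ∧ ∃ a' b' : F, σ a' = a' ∧ σ b' = b' ∧ (∀ z₁ z₂ : F, z₁ ^ 2 + a' * z₁ * z₂ + b' * z₂ ^ 2 = 0 → z₁ = 0 ∧ z₂ = 0) ∧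
      ∃ t : Tr (qMinus m F a b) (qMinus m F a' b'), Adp t σ g := by
  obtain ⟨e, f, u, hG⟩ := gd_qMinus (m := m) hm (disc_ne_zero a b hab)
  obtain ⟨l, k, c, D₀, hk, hc, hD₀, hD⟩ := lang_form2 hG hr.pos ho hg hgr
  haveI := Fintype.ofFinite (fixF σ)
  rcases even_coord (m := m) hD₀ (by simp; omega) with ⟨φ, hφ⟩ | hcl
  · exfalso
    obtain ⟨t, -⟩ := build_tr (σ := σ) (Q' := qPlus (m + 1) F) (Q₀' := qPlus (m + 1) (fixF σ)) (fun x => qPlus_j (fixF σ).subtype x) hk hc hD φ one_ne_zero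
      (fun x => by rw [hφ, one_mul])
    exact no_tr hab t
  · obtain ⟨a', b', hab'⟩ := exists_aniso (fixF σ)
    have hab2 : ∀ z₁ z₂ : F, σ z₁ = z₁ → σ z₂ = z₂ → z₁ ^ 2 + (a' : F) * z₁ * z₂ + (b' : F) * z₂ ^ 2 = 0 → z₁ = 0 ∧ z₂ = 0 := by
      intro z₁ z₂ h1 h2 hz
      have h3 := hab' ⟨z₁, h1⟩ ⟨z₂, h2⟩ (Subtype.ext hz)
      exact ⟨congrArg Subtype.val h3.1, congrArg Subtype.val h3.2⟩
    obtain ⟨d, φ, hd, hφ⟩ := hcl a' b' hab'
    obtain ⟨t, ht⟩ := build_tr (σ := σ) (Q' := qMinus m F a' b') (Q₀' := qMinus m (fixF σ) a' b') (fun x => qMinus_j (fixF σ).subtype a' b' x) hk hc hD φ hd hφ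
    have hroot : ∀ θ : F, ¬ (θ ^ 2 + (a' : F) * θ + (b' : F) = 0) := by
      intro θ hθ
      obtain ⟨t', -⟩ := exists_spTr (m := m) hθ (disc_ne a'.2 b'.2 hab2)
      -- compose the two transports
      refine no_tr hab ⟨t.K * t'.L, t'.K * t.L, ?_, ?_, t.d * t'.d⁻¹, ?_⟩
      · calc t.K * t'.L * (t'.K * t.L) = t.K * (t'.L * t'.K) * t.L := by simp only [Matrix.mul_assoc]
          _ = 1 := by rw [t'.LK, Matrix.mul_one, t.KL]
      · calc t'.K * t.L * (t.K * t'.L) = t'.K * (t.L * t.K) * t'.L := by simp only [Matrix.mul_assoc]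
          _ = 1 := by rw [t.LK, Matrix.mul_one, t'.KL]
      · intro v
        rw [← mulVec_mulVec, t.hK, t'.hL, Units.val_mul, mul_assoc]
    refine ⟨?_, a', b', a'.2, b'.2, ?_, t, ht⟩
    · rintro rfl
      obtain ⟨θ, hθ⟩ := exists_root a'.2 b'.2 hab2 ho
      exact hroot θ hθ
    · intro z₁ z₂ hz
      have h2 : z₂ = 0 := by
        by_contra h0
        apply hroot (z₁ / z₂)
        field_simp
        linear_combination hz
      subst h2
      refine ⟨?_, rfl⟩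
      have h3 : z₁ ^ 2 = 0 := by linear_combination hz
      exact pow_eq_zero_iff (two_ne_zero) |>.1 h3

end minus

end CfsgLib.GI27
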