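import Mathlib

/-! Finite subgroups of `GL₂(p)` given by lists of words, and regularity on nonzero vectors
(seat helper15). -/

set_option autoImplicit false

namespace CfsgLib.GL2List

open Matrix

abbrev Q := ℕ × ℕ × ℕ × ℕ

def mul (p : ℕ) (x y : Q) : Q :=
  ((x.1 * y.1 + x.2.1 * y.2.2.1) % p, (x.1 * y.2.1 + x.2.1 * y.2.2.2) % p,
   (x.2.2.1 * y.1 + x.2.2.2 * y.2.2.1) % p, (x.2.2.1 * y.2.1 + x.2.2.2 * y.2.2.2) % p)

def toM (p : ℕ) (x : Q) : Matrix (Fin 2) (Fin 2) (ZMod p) :=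
  !![(x.1 : ZMod p), (x.2.1 : ZMod p); (x.2.2.1 : ZMod p), (x.2.2.2 : ZMod p)]

theorem toM_mul (p : ℕ) (x y : Q) : toM p (mul p x y) = toM p x * toM p y := by
  ext i j
  fin_cases i <;> fin_cases j <;> simp [toM, mul, Matrix.mul_apply, Fin.sum_univ_two]

theorem toM_one (p : ℕ) : toM p (1, 0, 0, 1) = 1 := by
  ext i j
  fin_cases i <;> fin_cases j <;> simp [toM]

def isRed (p : ℕ) (x : Q) : Bool := decide (x.1 < p) && decide (x.2.1 < p) && decide (x.2.2.1 < p) && decide (x.2.2.2 < p)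

theorem toM_inj {p : ℕ} {x y : Q} (hx : isRed p x = true) (hy : isRed p y = true) (h : toM p x = toM p y) : x = y := by
  simp only [isRed, Bool.and_eq_true, decide_eq_true_eq] at hx hy
  obtain ⟨x1, x2, x3, x4⟩ := x
  obtain ⟨y1, y2, y3, y4⟩ := y
  have h1 := congrFun (congrFun h 0) 0
  have h2 := congrFun (congrFun h 0) 1
  have h3 := congrFun (congrFun h 1) 0
  have h4 := congrFun (congrFun h 1) 1
  simp only [toM, Matrix.of_apply, Matrix.cons_val', Matrix.cons_val_zero, Matrix.cons_val_one, Matrix.cons_val_fin_one] at h1 h2 h3 h4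
  rw [ZMod.natCast_eq_natCast_iff', Nat.mod_eq_of_lt, Nat.mod_eq_of_lt] at h1 h2 h3 h4
  · simp_all
  all_goals simp_all

/-- evaluate a word in the generators -/
def eval (p : ℕ) (gens : List Q) (w : List ℕ) : Q :=
  w.foldl (fun x i => mul p x (gens.getD i (1, 0, 0, 1))) (1, 0, 0, 1)

variable {p : ℕ} [Fact p.Prime]

theorem eval_mem (gens : List Q) (S : Subgroup (GL (Fin 2) (ZMod p)))
    (hg : ∀ x ∈ gens, ∃ g ∈ S, (g : Matrix (Fin 2) (Fin 2) (ZMod p)) = toM p x) (w : List ℕ) :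
    ∃ g ∈ S, (g : Matrix (Fin 2) (Fin 2) (ZMod p)) = toM p (eval p gens w) := by
  induction w using List.reverseRecOn with
  | nil => exact ⟨1, one_mem _, by rw [show eval p gens [] = (1, 0, 0, 1) from rfl, toM_one]; rfl⟩
  | append_singleton w i ih =>
    obtain ⟨g, hg', hgm⟩ := ih
    have h1 : eval p gens (w ++ [i]) = mul p (eval p gens w) (gens.getD i (1, 0, 0, 1)) := by
      simp [eval, List.foldl_append]
    have h2 : ∃ k ∈ S, (k : Matrix (Fin 2) (Fin 2) (ZMod p)) = toM p (gens.getD i (1, 0, 0, 1)) := by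
      by_cases hi : i < gens.length
      · rw [List.getD_eq_getElem _ _ hi]
        exact hg _ (List.getElem_mem hi)
      · rw [List.getD_eq_default _ _ (by omega), toM_one]
        exact ⟨1, one_mem _, rfl⟩
    obtain ⟨k, hk, hkm⟩ := h2
    refine ⟨g * k, mul_mem hg' hk, ?_⟩
    rw [h1, toM_mul, ← hgm, ← hkm]
    rfl

/-- elements of the closure are in the list -/
theorem closure_sub (S : Set (GL (Fin 2) (ZMod p))) (gens L : List Q)
    (hS : ∀ s ∈ S, ∃ x ∈ gens, (s : Matrix (Fin 2) (Fin 2) (ZMod p)) = toM p x)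
    (h1 : (1, 0, 0, 1) ∈ L) (hred : ∀ x ∈ L, isRed p x = true) (hmul : ∀ x ∈ L, ∀ y ∈ gens, mul p x y ∈ L) :
    ∀ g ∈ Subgroup.closure S, ∃ x ∈ L, (g : Matrix (Fin 2) (Fin 2) (ZMod p)) = toM p x := by
  -- the set of group elements in the list
  let T : Set (GL (Fin 2) (ZMod p)) := {g | ∃ x ∈ L, (g : Matrix (Fin 2) (Fin 2) (ZMod p)) = toM p x}
  have hTs : ∀ s ∈ S, ∀ g ∈ T, g * s ∈ T := by
    rintro s hs g ⟨x, hx, hgx⟩
    obtain ⟨y, hy, hsy⟩ := hS s hs
    refine ⟨mul p x y, hmul x hx y hy, ?_⟩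
    rw [toM_mul, ← hgx, ← hsy]
    rfl
  have hTf : T.Finite := Set.toFinite _
  have hTs' : ∀ s ∈ S, ∀ g ∈ T, g * s⁻¹ ∈ T := by
    intro s hs g hg
    have hmap : Set.MapsTo (fun x => x * s) T T := fun x hx => hTs s hs x hx
    obtain ⟨x, hx, hxg⟩ : ∃ x ∈ T, x * s = g := by
      have hft : Finite T := hTf
      have hinj' : Function.Injective (fun x : T => (⟨(x : GL (Fin 2) (ZMod p)) * s, hmap x.2⟩ : T)) := by
        intro x y hxy
        exact Subtype.ext (mul_right_cancel (congrArg Subtype.val hxy))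
      obtain ⟨x, hx⟩ := (Finite.injective_iff_surjective.mp hinj') ⟨g, hg⟩
      exact ⟨x, x.2, congrArg Subtype.val hx⟩
    have : g * s⁻¹ = x := by rw [← hxg]; simp
    rw [this]; exact hx
  intro g hg
  have : ∀ g ∈ Subgroup.closure S, g ∈ T := by
    intro g hg
    induction hg using Subgroup.closure_induction_right with
    | one => exact ⟨_, h1, by rw [toM_one]; rfl⟩
    | mul_right x _ y hy ih => exact hTs y hy x ih
    | mul_inv_cancel x _ y hy ih => exact hTs' y hy x ih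
  exact this g hg

theorem card_closure (S : Set (GL (Fin 2) (ZMod p))) (gens : List Q) (W : List (List ℕ))
    (hS : ∀ s ∈ S, ∃ x ∈ gens, (s : Matrix (Fin 2) (Fin 2) (ZMod p)) = toM p x)
    (hS' : ∀ x ∈ gens, ∃ s ∈ S, (s : Matrix (Fin 2) (Fin 2) (ZMod p)) = toM p x)
    (h1 : (1, 0, 0, 1) ∈ W.map (eval p gens)) (hred : ∀ x ∈ W.map (eval p gens), isRed p x = true)
    (hmul : ∀ x ∈ W.map (eval p gens), ∀ y ∈ gens, mul p x y ∈ W.map (eval p gens)) (hnd : (W.map (eval p gens)).Nodup) :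
    Nat.card (Subgroup.closure S) = W.length := by
  classical
  set L := W.map (eval p gens) with hL
  have hsub := closure_sub S gens L hS h1 hred hmul
  have hmem : ∀ x ∈ L, ∃ g ∈ Subgroup.closure S, (g : Matrix (Fin 2) (Fin 2) (ZMod p)) = toM p x := by
    intro x hx
    obtain ⟨w, _, rfl⟩ := List.mem_map.mp hx
    apply eval_mem
    intro x hx
    obtain ⟨s, hs, hsx⟩ := hS' x hx
    exact ⟨s, Subgroup.subset_closure hs, hsx⟩
  choose f hf hfm using (fun g : Subgroup.closure S => hsub g g.2)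
  have hbij : Function.Bijective (fun g : Subgroup.closure S => (⟨f g, List.mem_toFinset.mpr (hf g)⟩ : L.toFinset)) := by
    constructor
    · intro g h hgh
      have h2 : f g = f h := congrArg Subtype.val hgh
      apply Subtype.ext
      apply Units.ext
      rw [hfm g, hfm h, h2]
    · rintro ⟨x, hx⟩
      have hx' := List.mem_toFinset.mp hx
      obtain ⟨g, hg, hgx⟩ := hmem x hx'
      refine ⟨⟨g, hg⟩, ?_⟩
      apply Subtype.ext
      exact toM_inj (hred _ (hf _)) (hred _ hx') ((hfm ⟨g, hg⟩).symm.trans hgx)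
  rw [Nat.card_congr (Equiv.ofBijective _ hbij), Nat.card_eq_fintype_card, Fintype.card_coe, List.toFinset_card_of_nodup hnd, hL, List.length_map]

omit [Fact p.Prime] in
theorem fixed_det {M : Matrix (Fin 2) (Fin 2) (ZMod p)} [Fact p.Prime] {v : Fin 2 → ZMod p} (hv : v ≠ 0) (h : M.mulVec v = v) :
    M 0 0 * M 1 1 + 1 = M 0 1 * M 1 0 + M 0 0 + M 1 1 := by
  have h1 : (M - 1).mulVec v = 0 := by rw [Matrix.sub_mulVec, h, Matrix.one_mulVec, sub_self]
  have h2 : (M - 1).det = 0 := Matrix.exists_mulVec_eq_zero_iff.mp ⟨v, hv, h1⟩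
  rw [Matrix.det_fin_two] at h2
  simp only [Matrix.sub_apply, Matrix.one_apply_eq, Matrix.one_apply_ne (show (0 : Fin 2) ≠ 1 by decide), Matrix.one_apply_ne (show (1 : Fin 2) ≠ 0 by decide)] at h2
  linear_combination h2

/-- free action plus the right order gives regularity -/
theorem regular_of_free (H : Subgroup (GL (Fin 2) (ZMod p)))
    (hfree : ∀ h ∈ H, ∀ v : Fin 2 → ZMod p, v ≠ 0 → (h : Matrix (Fin 2) (Fin 2) (ZMod p)).mulVec v = v → h = 1)
    (hcard : Nat.card H = p ^ 2 - 1) (v w : Fin 2 → ZMod p) (hv : v ≠ 0) (hw : w ≠ 0) :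
    ∃! h : H, ((h : GL (Fin 2) (ZMod p)) : Matrix (Fin 2) (Fin 2) (ZMod p)).mulVec v = w := by
  classical
  have hne : ∀ h : H, ((h : GL (Fin 2) (ZMod p)) : Matrix (Fin 2) (Fin 2) (ZMod p)).mulVec v ≠ 0 := by
    intro h h0
    apply hv
    have h1 := congrArg (fun u => (((h : GL (Fin 2) (ZMod p))⁻¹ : GL (Fin 2) (ZMod p)) : Matrix (Fin 2) (Fin 2) (ZMod p)).mulVec u) h0
    simp only [Matrix.mulVec_mulVec, Matrix.mulVec_zero] at h1
    rw [← Units.val_mul, inv_mul_cancel, Units.val_one, Matrix.one_mulVec] at h1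
    exact h1
  have hinj : ∀ h k : H, ((h : GL (Fin 2) (ZMod p)) : Matrix (Fin 2) (Fin 2) (ZMod p)).mulVec v = ((k : GL (Fin 2) (ZMod p)) : Matrix (Fin 2) (Fin 2) (ZMod p)).mulVec v → h = k := by
    intro h k hhk
    have h1 := congrArg (fun u => (((k : GL (Fin 2) (ZMod p))⁻¹ : GL (Fin 2) (ZMod p)) : Matrix (Fin 2) (Fin 2) (ZMod p)).mulVec u) hhk
    simp only [Matrix.mulVec_mulVec] at h1
    rw [← Units.val_mul, ← Units.val_mul, inv_mul_cancel, Units.val_one, Matrix.one_mulVec] at h1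
    have h2 := hfree _ (mul_mem (inv_mem k.2) h.2) v hv h1
    apply Subtype.ext
    exact (inv_mul_eq_one.mp h2).symm
  let F : H → {u : Fin 2 → ZMod p // u ≠ 0} := fun h => ⟨_, hne h⟩
  have hFinj : Function.Injective F := fun h k hhk => hinj h k (congrArg Subtype.val hhk)
  have hfin : Finite H := by
    have : Finite (GL (Fin 2) (ZMod p)) := inferInstance
    infer_instance
  have hft : Fintype H := Fintype.ofFinite H
  have hbij : Function.Bijective F := by
    rw [Fintype.bijective_iff_injective_and_card]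
    refine ⟨hFinj, ?_⟩
    rw [← Nat.card_eq_fintype_card, hcard, Fintype.card_subtype_compl, Fintype.card_subtype_eq, Fintype.card_fun, ZMod.card, Fintype.card_fin]
  obtain ⟨h, hh⟩ := hbij.2 ⟨w, hw⟩
  refine ⟨h, congrArg Subtype.val hh, fun k hk => ?_⟩
  exact hinj k h (hk.trans (congrArg Subtype.val hh).symm)

end CfsgLib.GL2List
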