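import Cfsg.Agent.LibAutPSL27i
import Cfsg.Agent.LibSemi27

set_option autoImplicit false

/-! Graph involutions of `PSL_n`: centralizers and conjugacy in terms of bilinear forms. -/

namespace CfsgLib.GP27

open Matrix
open CfsgLib.AutPSL27 (cj fl it itGL lft lft_mk it_mul_cj it_mul_it coe_cj coe_it cj_center unique_one sl_ext inndiag_eq isInnerDiagonal_iff isInvTr_iff not_it)
open CfsgLib.Semi27 (scal scal_comm scal_one scal_mul scal_mulVec scal_mul_mulVec)

universe u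

section kl
variable {F : Type u} [Field F] {ι ι' : Type} [Fintype ι] [DecidableEq ι] [Fintype ι'] [DecidableEq ι']

theorem coe_scal (c : Fˣ) : ((scal c : GL ι F) : Matrix ι ι F) = (c : F) • (1 : Matrix ι ι F) := by
  show Matrix.scalar ι (c : F) = _
  rw [Matrix.scalar_apply, Matrix.smul_one_eq_diagonal]

theorem coe_scal_mul (c : Fˣ) (g : GL ι F) : ((scal c * g : GL ι F) : Matrix ι ι F) = (c : F) • (g : Matrix ι ι F) := by
  rw [Units.val_mul, coe_scal, Matrix.smul_mul, Matrix.one_mul]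

/-- transport of invertible matrices -/
def kl (K : Matrix ι ι' F) (L : Matrix ι' ι F) (hKL : K * L = 1) (hLK : L * K = 1) : GL ι' F ≃* GL ι F where
  toFun g := ⟨K * (g : Matrix ι' ι' F) * L, K * ((g⁻¹ : GL ι' F) : Matrix ι' ι' F) * L, by
      calc K * (g : Matrix ι' ι' F) * L * (K * ((g⁻¹ : GL ι' F) : Matrix ι' ι' F) * L) =
          K * (g : Matrix ι' ι' F) * (L * K) * ((g⁻¹ : GL ι' F) : Matrix ι' ι' F) * L := by simp only [Matrix.mul_assoc]
        _ = K * ((g : Matrix ι' ι' F) * ((g⁻¹ : GL ι' F) : Matrix ι' ι' F)) * L := by rw [hLK, Matrix.mul_one]; simp only [Matrix.mul_assoc]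
        _ = 1 := by rw [Units.mul_inv, Matrix.mul_one, hKL], by
      calc K * ((g⁻¹ : GL ι' F) : Matrix ι' ι' F) * L * (K * (g : Matrix ι' ι' F) * L) =
          K * ((g⁻¹ : GL ι' F) : Matrix ι' ι' F) * (L * K) * (g : Matrix ι' ι' F) * L := by simp only [Matrix.mul_assoc]
        _ = K * (((g⁻¹ : GL ι' F) : Matrix ι' ι' F) * (g : Matrix ι' ι' F)) * L := by rw [hLK, Matrix.mul_one]; simp only [Matrix.mul_assoc]
        _ = 1 := by rw [Units.inv_mul, Matrix.mul_one, hKL]⟩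
  invFun g := ⟨L * (g : Matrix ι ι F) * K, L * ((g⁻¹ : GL ι F) : Matrix ι ι F) * K, by
      calc L * (g : Matrix ι ι F) * K * (L * ((g⁻¹ : GL ι F) : Matrix ι ι F) * K) =
          L * (g : Matrix ι ι F) * (K * L) * ((g⁻¹ : GL ι F) : Matrix ι ι F) * K := by simp only [Matrix.mul_assoc]
        _ = L * ((g : Matrix ι ι F) * ((g⁻¹ : GL ι F) : Matrix ι ι F)) * K := by rw [hKL, Matrix.mul_one]; simp only [Matrix.mul_assoc]
        _ = 1 := by rw [Units.mul_inv, Matrix.mul_one, hLK], by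
      calc L * ((g⁻¹ : GL ι F) : Matrix ι ι F) * K * (L * (g : Matrix ι ι F) * K) =
          L * ((g⁻¹ : GL ι F) : Matrix ι ι F) * (K * L) * (g : Matrix ι ι F) * K := by simp only [Matrix.mul_assoc]
        _ = L * (((g⁻¹ : GL ι F) : Matrix ι ι F) * (g : Matrix ι ι F)) * K := by rw [hKL, Matrix.mul_one]; simp only [Matrix.mul_assoc]
        _ = 1 := by rw [Units.inv_mul, Matrix.mul_one, hLK]⟩
  left_inv g := by
    apply Units.ext
    show L * (K * (g : Matrix ι' ι' F) * L) * K = g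
    calc L * (K * (g : Matrix ι' ι' F) * L) * K = (L * K) * (g : Matrix ι' ι' F) * (L * K) := by simp only [Matrix.mul_assoc]
      _ = g := by rw [hLK, Matrix.one_mul, Matrix.mul_one]
  right_inv g := by
    apply Units.ext
    show K * (L * (g : Matrix ι ι F) * K) * L = g
    calc K * (L * (g : Matrix ι ι F) * K) * L = (K * L) * (g : Matrix ι ι F) * (K * L) := by simp only [Matrix.mul_assoc]
      _ = g := by rw [hKL, Matrix.one_mul, Matrix.mul_one]
  map_mul' x y := by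
    apply Units.ext
    show K * ((x : Matrix ι' ι' F) * (y : Matrix ι' ι' F)) * L = (K * (x : Matrix ι' ι' F) * L) * (K * (y : Matrix ι' ι' F) * L)
    calc K * ((x : Matrix ι' ι' F) * (y : Matrix ι' ι' F)) * L = K * (x : Matrix ι' ι' F) * (1 : Matrix ι' ι' F) * ((y : Matrix ι' ι' F) * L) := by
          rw [Matrix.mul_one]; simp only [Matrix.mul_assoc]
      _ = _ := by rw [← hLK]; simp only [Matrix.mul_assoc]

theorem kl_coe (K : Matrix ι ι' F) (L : Matrix ι' ι F) (hKL : K * L = 1) (hLK : L * K = 1) (g : GL ι' F) :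
    ((kl K L hKL hLK g : GL ι F) : Matrix ι ι F) = K * (g : Matrix ι' ι' F) * L := rfl

theorem kl_scal (K : Matrix ι ι' F) (L : Matrix ι' ι F) (hKL : K * L = 1) (hLK : L * K = 1) (c : Fˣ) : kl K L hKL hLK (scal c) = scal c := by
  apply Units.ext
  rw [kl_coe, coe_scal, coe_scal, Matrix.mul_smul, Matrix.smul_mul, Matrix.mul_one, hKL]

theorem mem_scalars {g : GL ι F} : g ∈ Cfsg.Geo.scalars ι F ↔ ∃ c : Fˣ, g = scal c := by
  rw [Cfsg.Geo.mem_scalars_iff]
  apply exists_congr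
  intro c
  rw [← coe_scal]
  exact ⟨fun h => Units.ext h, fun h => congrArg Units.val h⟩

/-- transport of projective groups -/
theorem projQuot_equiv (K : Matrix ι ι' F) (L : Matrix ι' ι F) (hKL : K * L = 1) (hLK : L * K = 1) (Γ : Subgroup (GL ι F)) (Γ' : Subgroup (GL ι' F))
    (h : ∀ g : GL ι' F, kl K L hKL hLK g ∈ Γ ↔ g ∈ Γ') : Nonempty (Cfsg.projQuot Γ' ≃* Cfsg.projQuot Γ) := by
  obtain ⟨e, he⟩ : ∃ e : Γ' ≃* Γ, ∀ g : Γ', ((e g : Γ) : GL ι F) = kl K L hKL hLK g := by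
    have hmap : Γ'.map (kl K L hKL hLK).toMonoidHom = Γ := by
      ext g
      constructor
      · rintro ⟨g', hg', rfl⟩
        exact (h g').2 hg'
      · intro hg
        obtain ⟨g', rfl⟩ := (kl K L hKL hLK).surjective g
        exact ⟨g', (h g').1 hg, rfl⟩
    refine ⟨((kl K L hKL hLK).subgroupMap Γ').trans (MulEquiv.subgroupCongr hmap), fun g => rfl⟩
  refine ⟨QuotientGroup.congr _ _ e ?_⟩
  ext g
  constructor
  · rintro ⟨g', hg', rfl⟩
    have hg'' : ((g' : Γ') : GL ι' F) ∈ Cfsg.Geo.scalars ι' F := hg'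
    obtain ⟨c, hc⟩ := mem_scalars.1 hg''
    show ((e g' : Γ) : GL ι F) ∈ Cfsg.Geo.scalars ι F
    rw [he, hc, kl_scal]
    exact mem_scalars.2 ⟨c, rfl⟩
  · intro hg
    obtain ⟨g', rfl⟩ := e.surjective g
    refine ⟨g', ?_, rfl⟩
    have hg'' : ((e g' : Γ) : GL ι F) ∈ Cfsg.Geo.scalars ι F := hg
    obtain ⟨c, hc⟩ := mem_scalars.1 hg''
    rw [he, ← kl_scal K L hKL hLK] at hc
    show ((g' : Γ') : GL ι' F) ∈ Cfsg.Geo.scalars ι' F
    exact mem_scalars.2 ⟨c, (kl K L hKL hLK).injective hc⟩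

/-- similitudes of a bilinear form -/
def Sim (M : Matrix ι ι F) : Subgroup (GL ι F) := Cfsg.Geo.similarityGroup (fun u v => u ⬝ᵥ (M *ᵥ v))

theorem bil_ext {M N : Matrix ι ι F} (h : ∀ u v : ι → F, u ⬝ᵥ (M *ᵥ v) = u ⬝ᵥ (N *ᵥ v)) : M = N := by
  ext i j
  have := h (Pi.single i 1) (Pi.single j 1)
  simpa using this

theorem bil_mul (M : Matrix ι ι F) (g : Matrix ι ι' F) (h : Matrix ι ι' F) (u v : ι' → F) : (g *ᵥ u) ⬝ᵥ (M *ᵥ (h *ᵥ v)) = u ⬝ᵥ ((gᵀ * M * h) *ᵥ v) := by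
  rw [← mulVec_mulVec, ← mulVec_mulVec, dotProduct_mulVec u, vecMul_transpose]

theorem mem_Sim {M : Matrix ι ι F} {g : GL ι F} : g ∈ Sim M ↔ ∃ c : Fˣ, (g : Matrix ι ι F)ᵀ * M * (g : Matrix ι ι F) = (c : F) • M := by
  show (∃ c : Fˣ, ∀ u v, ((g : Matrix ι ι F) *ᵥ u) ⬝ᵥ (M *ᵥ ((g : Matrix ι ι F) *ᵥ v)) = (c : F) * (u ⬝ᵥ (M *ᵥ v))) ↔ _
  apply exists_congr
  intro c
  constructor
  · intro h
    apply bil_ext
    intro u v
    rw [← bil_mul, h, smul_mulVec, dotProduct_smul, smul_eq_mul]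
  · intro h u v
    rw [bil_mul, h, smul_mulVec, dotProduct_smul, smul_eq_mul]

theorem sim_transport {M : Matrix ι ι F} {M' : Matrix ι' ι' F} (K : Matrix ι ι' F) (L : Matrix ι' ι F) (hKL : K * L = 1) (hLK : L * K = 1) (d : Fˣ)
    (h : Kᵀ * M * K = (d : F) • M') (g : GL ι' F) : kl K L hKL hLK g ∈ Sim M ↔ g ∈ Sim M' := by
  rw [mem_Sim, mem_Sim]
  apply exists_congr
  intro c
  rw [kl_coe]
  have hKLt : Lᵀ * Kᵀ = 1 := by rw [← Matrix.transpose_mul, hKL, Matrix.transpose_one]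
  have hLKt : Kᵀ * Lᵀ = 1 := by rw [← Matrix.transpose_mul, hLK, Matrix.transpose_one]
  constructor
  · intro h1
    have h2 := congrArg (fun N => Kᵀ * N * K) h1
    simp only [Matrix.transpose_mul] at h2
    have h3 : Kᵀ * (Lᵀ * ((g : Matrix ι' ι' F)ᵀ * Kᵀ) * M * (K * (g : Matrix ι' ι' F) * L)) * K = (g : Matrix ι' ι' F)ᵀ * (Kᵀ * M * K) * (g : Matrix ι' ι' F) := by
      calc _ = (Kᵀ * Lᵀ) * (g : Matrix ι' ι' F)ᵀ * (Kᵀ * M * K) * (g : Matrix ι' ι' F) * (L * K) := by simp only [Matrix.mul_assoc]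
        _ = _ := by rw [hLKt, hLK, Matrix.one_mul, Matrix.mul_one]
    rw [h3, h, Matrix.mul_smul, Matrix.smul_mul, Matrix.mul_smul, Matrix.smul_mul, h, smul_comm] at h2
    exact smul_right_injective _ d.ne_zero h2
  · intro h1
    have h2 : (d : F) • M' = Kᵀ * M * K := h.symm
    have h3 : M = (d : F) • (Lᵀ * M' * L) := by
      rw [← Matrix.smul_mul, ← Matrix.mul_smul, h2]
      calc M = (Lᵀ * Kᵀ) * M * (K * L) := by rw [hKLt, hKL, Matrix.one_mul, Matrix.mul_one]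
        _ = _ := by simp only [Matrix.mul_assoc]
    have h4 : (K * (g : Matrix ι' ι' F) * L)ᵀ * M * (K * (g : Matrix ι' ι' F) * L) = (d : F) • (Lᵀ * ((g : Matrix ι' ι' F)ᵀ * M' * (g : Matrix ι' ι' F)) * L) := by
      rw [Matrix.transpose_mul, Matrix.transpose_mul]
      calc _ = Lᵀ * (g : Matrix ι' ι' F)ᵀ * (Kᵀ * M * K) * (g : Matrix ι' ι' F) * L := by simp only [Matrix.mul_assoc]
        _ = _ := by rw [h, Matrix.mul_smul, Matrix.smul_mul, Matrix.smul_mul]; simp only [Matrix.mul_assoc]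
    rw [h4, h1, Matrix.mul_smul, Matrix.smul_mul, smul_comm, ← h3]

theorem sim_smul {M : Matrix ι ι F} (d : Fˣ) : Sim ((d : F) • M) = Sim M := by
  ext g
  rw [mem_Sim, mem_Sim]
  apply exists_congr
  intro c
  rw [Matrix.mul_smul, Matrix.smul_mul, smul_comm]
  exact ⟨fun h => smul_right_injective _ d.ne_zero h, fun h => by rw [h]⟩

theorem sim_equiv {M : Matrix ι ι F} {M' : Matrix ι' ι' F} (K : Matrix ι ι' F) (L : Matrix ι' ι F) (hKL : K * L = 1) (hLK : L * K = 1) (d : Fˣ)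
    (h : Kᵀ * M * K = (d : F) • M') : Nonempty (Cfsg.projQuot (Sim M') ≃* Cfsg.projQuot (Sim M)) :=
  projQuot_equiv K L hKL hLK _ _ (sim_transport K L hKL hLK d h)

theorem GSp_eq (m : ℕ) : Cfsg.GSp m F = Sim (Matrix.J (Fin m) F) := rfl

end kl

section abs

theorem image_equiv {G A : Type*} [Group G] [Group A] {ρ : G →* A} {S : Subgroup G} {T : Subgroup A} {N : Subgroup G} [(N.subgroupOf S).Normal] (hT : T = S.map ρ)
    (hN : ∀ g ∈ S, ρ g = 1 ↔ g ∈ N) : Nonempty (T ≃* S ⧸ N.subgroupOf S) := by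
  subst hT
  have hk : ((ρ.subgroupMap S)).ker = N.subgroupOf S := by
    ext g
    rw [MonoidHom.mem_ker, Subgroup.mem_subgroupOf, ← hN g g.2, Subtype.ext_iff]
    rfl
  exact ⟨((QuotientGroup.quotientKerEquivOfSurjective (ρ.subgroupMap S) (ρ.subgroupMap_surjective S)).symm).trans (QuotientGroup.quotientMulEquivOfEq hk)⟩

end abs

section psl
variable {F : Type u} [Field F] {n : ℕ}

/-- transpose -/
def tp (g : GL (Fin n) F) : GL (Fin n) F :=
  ⟨(g : Matrix (Fin n) (Fin n) F)ᵀ, ((g⁻¹ : GL (Fin n) F) : Matrix (Fin n) (Fin n) F)ᵀ, by rw [← transpose_mul, Units.inv_mul, transpose_one],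
    by rw [← transpose_mul, Units.mul_inv, transpose_one]⟩

theorem tp_coe (g : GL (Fin n) F) : ((tp g : GL (Fin n) F) : Matrix (Fin n) (Fin n) F) = (g : Matrix (Fin n) (Fin n) F)ᵀ := rfl

theorem tp_mul (g h : GL (Fin n) F) : tp (g * h) = tp h * tp g := Units.ext (by
  rw [tp_coe, Units.val_mul, Units.val_mul, transpose_mul]; rfl)

theorem tp_tp (g : GL (Fin n) F) : tp (tp g) = g := Units.ext (transpose_transpose _)

theorem tp_one : tp (1 : GL (Fin n) F) = 1 := Units.ext (by rw [tp_coe, Units.val_one, transpose_one])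

theorem tp_inv (g : GL (Fin n) F) : tp g⁻¹ = (tp g)⁻¹ := by
  rw [eq_inv_iff_mul_eq_one, ← tp_mul, mul_inv_cancel, tp_one]

theorem tp_scal (c : Fˣ) : tp (scal c : GL (Fin n) F) = scal c := Units.ext (by
  rw [tp_coe, coe_scal, transpose_smul, transpose_one])

theorem itGL_eq (g : GL (Fin n) F) : itGL g = tp g⁻¹ := Units.ext rfl

/-- the graph automorphism attached to a matrix -/
noncomputable def gam (a : GL (Fin n) F) : MulAut (Matrix.ProjectiveSpecialLinearGroup (Fin n) F) := lft (cj a * it)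

theorem lft_it_mul_cj (g : GL (Fin n) F) : (lft it : MulAut (Matrix.ProjectiveSpecialLinearGroup (Fin n) F)) * lft (cj g) = lft (cj (tp g)⁻¹) * lft it := by
  rw [← map_mul, it_mul_cj, map_mul, itGL_eq, tp_inv]

theorem lft_it_it : (lft it : MulAut (Matrix.ProjectiveSpecialLinearGroup (Fin n) F)) * lft it = 1 := by
  rw [← map_mul, it_mul_it, map_one]

theorem gam_eq (a : GL (Fin n) F) : gam a = lft (cj a) * lft it := map_mul _ _ _

theorem conj_gam (g a : GL (Fin n) F) : lft (cj g) * gam a * (lft (cj g))⁻¹ = gam (g * a * tp g) := by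
  rw [gam_eq, gam_eq, mul_inv_eq_iff_eq_mul]
  calc lft (cj g) * (lft (cj a) * lft it) = lft (cj (g * a)) * lft it := by rw [map_mul, map_mul]; group
    _ = lft (cj (g * a * tp g * (tp g)⁻¹)) * lft it := by rw [mul_inv_cancel_right]
    _ = lft (cj (g * a * tp g)) * (lft (cj (tp g)⁻¹) * lft it) := by rw [map_mul cj (g * a * tp g) (tp g)⁻¹, map_mul lft (cj (g * a * tp g))]; group
    _ = _ := by rw [← lft_it_mul_cj]; group

theorem gam_mul (a b : GL (Fin n) F) : gam a * gam b = lft (cj (a * (tp b)⁻¹)) := by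
  rw [gam_eq, gam_eq]
  calc lft (cj a) * lft it * (lft (cj b) * lft it) = lft (cj a) * (lft it * lft (cj b)) * lft it := by group
    _ = lft (cj (a * (tp b)⁻¹)) * (lft it * lft it) := by rw [lft_it_mul_cj, map_mul, map_mul]; group
    _ = _ := by rw [lft_it_it, mul_one]

theorem ker_iff [Finite F] (hn : 2 ≤ n) (g : GL (Fin n) F) : (lft (cj g) : MulAut (Matrix.ProjectiveSpecialLinearGroup (Fin n) F)) = 1 ↔ ∃ c : Fˣ, g = scal c := by
  haveI := Fintype.ofFinite F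
  obtain ⟨p, hp⟩ := CharP.exists F
  haveI : Fact p.Prime := ⟨CharP.char_is_prime F p⟩
  constructor
  · intro h
    have h1 : (lft (cj g * fl (RingEquiv.refl F)) : MulAut (Matrix.ProjectiveSpecialLinearGroup (Fin n) F)) = 1 := by
      have h2 : (fl (RingEquiv.refl F) : MulAut (Matrix.SpecialLinearGroup (Fin n) F)) = 1 := map_one _
      rw [h2, mul_one, h]
    have h3 := (unique_one p hn h1).1
    rw [Matrix.GeneralLinearGroup.center_eq_range_scalar] at h3
    obtain ⟨c, hc⟩ := h3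
    exact ⟨c, hc.symm⟩
  · rintro ⟨c, rfl⟩
    have h3 : (scal c : GL (Fin n) F) ∈ Subgroup.center (GL (Fin n) F) := by
      rw [Subgroup.mem_center_iff]
      intro g
      exact (scal_comm c g).symm
    rw [cj_center h3, map_one]

theorem gam_eq_iff [Finite F] (hn : 2 ≤ n) (a b : GL (Fin n) F) : gam a = gam b ↔ ∃ c : Fˣ, a = scal c * b := by
  rw [gam_eq, gam_eq, mul_left_inj, ← mul_inv_eq_one, ← map_inv, ← map_inv, ← map_mul, ← map_mul, ker_iff hn]
  apply exists_congr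
  intro c
  rw [mul_inv_eq_iff_eq_mul]

theorem gam_sq_iff [Finite F] (hn : 2 ≤ n) (a : GL (Fin n) F) : gam a * gam a = 1 ↔ ∃ c : Fˣ, a = scal c * tp a := by
  rw [gam_mul, ker_iff hn]
  apply exists_congr
  intro c
  rw [mul_inv_eq_iff_eq_mul]

/-- graph automorphisms whose square is trivial come from symmetric or skew matrices -/
theorem sq_cases [Finite F] (hn : 2 ≤ n) {a : GL (Fin n) F} (h : gam a * gam a = 1) :
    (a : Matrix (Fin n) (Fin n) F)ᵀ = a ∨ (a : Matrix (Fin n) (Fin n) F)ᵀ = -(a : Matrix (Fin n) (Fin n) F) := by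
  obtain ⟨c, hc⟩ := (gam_sq_iff hn a).1 h
  have h1 : (a : Matrix (Fin n) (Fin n) F) = (c : F) • (a : Matrix (Fin n) (Fin n) F)ᵀ := by
    have := congrArg Units.val hc
    rw [coe_scal_mul] at this
    exact this
  have h2 : (a : Matrix (Fin n) (Fin n) F)ᵀ = (c : F) • (a : Matrix (Fin n) (Fin n) F) := by
    conv_lhs => rw [h1]
    rw [transpose_smul, transpose_transpose]
  have h3 : (c * c : F) = 1 := by
    have h4 : (a : Matrix (Fin n) (Fin n) F) = (c * c : F) • (a : Matrix (Fin n) (Fin n) F) := by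
      conv_lhs => rw [h1, h2]
      rw [smul_smul]
    haveI : Nonempty (Fin n) := ⟨⟨0, by omega⟩⟩
    obtain ⟨i, j, hij⟩ := CfsgLib.Semi27.exists_entry_ne a
    have h5 := congrFun (congrFun h4 i) j
    rw [Matrix.smul_apply, smul_eq_mul] at h5
    exact (mul_right_cancel₀ hij (by rw [one_mul, ← h5])).symm
  have h4 : (c : F) * c = 1 * 1 := by rw [h3, one_mul]
  rcases mul_self_eq_mul_self_iff.1 h4 with h5 | h5
  · left; rw [h2, h5, one_smul]
  · right; rw [h2, h5, neg_one_smul]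

theorem sq_of_symm {a : GL (Fin n) F} (h : (a : Matrix (Fin n) (Fin n) F)ᵀ = a) : gam a * gam a = 1 := by
  have h1 : tp a = a := Units.ext h
  rw [gam_mul, h1, mul_inv_cancel, map_one, map_one]

theorem sq_of_skew [Finite F] (hn : 2 ≤ n) {a : GL (Fin n) F} (h : (a : Matrix (Fin n) (Fin n) F)ᵀ = -(a : Matrix (Fin n) (Fin n) F)) : gam a * gam a = 1 := by
  rw [gam_sq_iff hn]
  refine ⟨-1, Units.ext ?_⟩
  rw [coe_scal_mul, tp_coe, h, Units.val_neg, Units.val_one, neg_one_smul, neg_neg]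

theorem isGraph_iff (γ : MulAut (Matrix.ProjectiveSpecialLinearGroup (Fin n) F)) : Cfsg.IsGraphAutClassPSL γ ↔ 3 ≤ n ∧ ∃ a : GL (Fin n) F, γ = gam a := by
  constructor
  · rintro ⟨h3, δ, γ', h1, h2, rfl⟩
    obtain ⟨g, rfl⟩ := (isInnerDiagonal_iff δ).1 h1
    rw [(isInvTr_iff γ').1 h2]
    exact ⟨h3, g, (gam_eq g).symm⟩
  · rintro ⟨h3, a, rfl⟩
    exact ⟨h3, lft (cj a), lft it, (isInnerDiagonal_iff _).2 ⟨a, rfl⟩, (isInvTr_iff _).2 rfl, gam_eq a⟩

theorem gam_ne_one [Finite F] (hn : 3 ≤ n) (a : GL (Fin n) F) : gam a ≠ 1 := by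
  haveI := Fintype.ofFinite F
  obtain ⟨p, hp⟩ := CharP.exists F
  haveI : Fact p.Prime := ⟨CharP.char_is_prime F p⟩
  intro h
  apply not_it p hn a (RingEquiv.refl F)
  have h2 : (fl (RingEquiv.refl F) : MulAut (Matrix.SpecialLinearGroup (Fin n) F)) = 1 := map_one _
  rw [h2, mul_one]
  exact h

theorem gam_order [Finite F] (hn : 3 ≤ n) {a : GL (Fin n) F} (h : gam a * gam a = 1) : orderOf (gam a) = 2 :=
  orderOf_eq_prime (by rw [pow_two, h]) (gam_ne_one hn a)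

theorem mem_inndiag (β : MulAut (Matrix.ProjectiveSpecialLinearGroup (Fin n) F)) : β ∈ Cfsg.inndiagPSL n F ↔ ∃ g : GL (Fin n) F, β = lft (cj g) := by
  rw [inndiag_eq]
  constructor
  · rintro ⟨g, rfl⟩
    exact ⟨g, rfl⟩
  · rintro ⟨g, rfl⟩
    exact ⟨g, rfl⟩

theorem conj_iff [Finite F] (hn : 2 ≤ n) (a b : GL (Fin n) F) : Cfsg.IsConjUnder (Cfsg.inndiagPSL n F) (gam a) (gam b) ↔
    ∃ (g : GL (Fin n) F) (c : Fˣ), (b : Matrix (Fin n) (Fin n) F) = (c : F) • ((g : Matrix (Fin n) (Fin n) F) * a * (g : Matrix (Fin n) (Fin n) F)ᵀ) := by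
  constructor
  · rintro ⟨h, hh, h1⟩
    obtain ⟨g, rfl⟩ := (mem_inndiag h).1 hh
    rw [conj_gam, gam_eq_iff hn] at h1
    obtain ⟨c, hc⟩ := h1
    refine ⟨g, c, ?_⟩
    rw [hc, coe_scal_mul]; rfl
  · rintro ⟨g, c, h1⟩
    refine ⟨lft (cj g), (mem_inndiag _).2 ⟨g, rfl⟩, ?_⟩
    rw [conj_gam, gam_eq_iff hn]
    refine ⟨c, Units.ext ?_⟩
    rw [h1, coe_scal_mul]; rfl

theorem sim_gl_iff (g a : GL (Fin n) F) (c : Fˣ) : g * a * tp g = scal c * a ↔ tp g * a⁻¹ * g = scal c * a⁻¹ := by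
  constructor
  · intro h
    have h1 : tp g = a⁻¹ * g⁻¹ * (scal c * a) := by rw [← h]; group
    rw [h1]
    calc a⁻¹ * g⁻¹ * (scal c * a) * a⁻¹ * g = a⁻¹ * (g⁻¹ * scal c) * g := by group
      _ = a⁻¹ * scal c := by rw [← scal_comm]; group
      _ = _ := by rw [← scal_comm]
  · intro h
    have h1 : tp g = scal c * a⁻¹ * g⁻¹ * a := by rw [← h]; group
    rw [h1]
    calc g * a * (scal c * a⁻¹ * g⁻¹ * a) = (g * a * scal c) * (a⁻¹ * g⁻¹ * a) := by group
      _ = scal c * (g * a) * (a⁻¹ * g⁻¹ * a) := by rw [← scal_comm]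
      _ = _ := by group

theorem comm_iff [Finite F] (hn : 2 ≤ n) (g a : GL (Fin n) F) : lft (cj g) * gam a = gam a * lft (cj g) ↔ g ∈ Sim ((a⁻¹ : GL (Fin n) F) : Matrix (Fin n) (Fin n) F) := by
  rw [← mul_inv_eq_iff_eq_mul, conj_gam, gam_eq_iff hn, mem_Sim]
  apply exists_congr
  intro c
  rw [sim_gl_iff, ← coe_scal_mul]
  exact ⟨fun h => congrArg Units.val h, fun h => Units.ext h⟩

/-- centralizers of graph involutions -/
theorem cen_equiv [Finite F] (hn : 2 ≤ n) (a : GL (Fin n) F) :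
    Nonempty (↥(Cfsg.inndiagPSL n F ⊓ Subgroup.centralizer {gam a}) ≃* Cfsg.projQuot (Sim ((a⁻¹ : GL (Fin n) F) : Matrix (Fin n) (Fin n) F))) := by
  apply image_equiv (ρ := (lft.comp cj : GL (Fin n) F →* MulAut (Matrix.ProjectiveSpecialLinearGroup (Fin n) F)))
  · ext β
    rw [Subgroup.mem_inf, mem_inndiag, Subgroup.mem_centralizer_iff]
    constructor
    · rintro ⟨⟨g, rfl⟩, h2⟩
      exact ⟨g, (comm_iff hn g a).1 (h2 _ rfl).symm, rfl⟩
    · rintro ⟨g, hg, rfl⟩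
      refine ⟨⟨g, rfl⟩, ?_⟩
      rintro _ rfl
      exact ((comm_iff hn g a).2 hg).symm
  · intro g _
    rw [mem_scalars]
    exact ker_iff hn g

end psl

end CfsgLib.GP27
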