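import Cfsg.Agent.LibGP27a
import Cfsg.Agent.LibGI27a
import Cfsg.Agent.LibForms27

set_option autoImplicit false

/-! Graph involutions of `PSL_n`: symmetric matrices in odd characteristic, alternating matrices. -/

namespace CfsgLib.GP27

open Matrix Module
open CfsgLib.AutPSL27 (cj fl it itGL lft lft_mk it_mul_cj it_mul_it coe_cj coe_it cj_center unique_one sl_ext inndiag_eq isInnerDiagonal_iff isInvTr_iff not_it)
open CfsgLib.Semi27 (scal scal_comm scal_one scal_mul scal_mulVec scal_mul_mulVec)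
open CfsgLib.Eps27 CfsgLib.RhoO27 CfsgLib.GI27
open Cfsg.Agent.H22 (qPlus qOdd qMinus)

universe u

section perm
variable {F : Type u} [Field F] {ι ι' : Type} [Fintype ι] [DecidableEq ι] [Fintype ι'] [DecidableEq ι']

def pK (e : ι' ≃ ι) : Matrix ι' ι F := (1 : Matrix ι ι F).submatrix e id
def pL (e : ι' ≃ ι) : Matrix ι ι' F := (1 : Matrix ι ι F).submatrix id e

theorem pKL (e : ι' ≃ ι) : (pK e : Matrix ι' ι F) * (pL e : Matrix ι ι' F) = 1 := by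
  unfold pK pL
  rw [← Matrix.submatrix_mul _ _ _ _ _ Function.bijective_id, Matrix.one_mul, Matrix.submatrix_one_equiv]

theorem pLK (e : ι' ≃ ι) : (pL e : Matrix ι ι' F) * (pK e : Matrix ι' ι F) = 1 := by
  unfold pK pL
  rw [Matrix.submatrix_mul_equiv, Matrix.one_mul, Matrix.submatrix_id_id]

theorem pK_mulVec (e : ι' ≃ ι) (v : ι → F) : (pK e : Matrix ι' ι F) *ᵥ v = v ∘ e := by
  ext i
  have h : ((1 : Matrix ι ι F) *ᵥ v) (e i) = v (e i) := by rw [one_mulVec]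
  exact h

theorem comp_dot (e : ι' ≃ ι) (v w : ι → F) : (v ∘ e) ⬝ᵥ (w ∘ e) = v ⬝ᵥ w := by
  unfold dotProduct
  exact Equiv.sum_comp e (fun i => v i * w i)

end perm

section quad
variable {F : Type u} [Field F] {n : ℕ}

/-- the quadratic form of a matrix -/
noncomputable def QM (M : Matrix (Fin n) (Fin n) F) : QuadraticForm F (Fin n → F) := LinearMap.BilinMap.toQuadraticMap (Matrix.toLinearMap₂' F M)

theorem QM_apply (M : Matrix (Fin n) (Fin n) F) (x : Fin n → F) : QM M x = x ⬝ᵥ (M *ᵥ x) := by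
  unfold QM
  rw [LinearMap.BilinMap.toQuadraticMap_apply, Matrix.toLinearMap₂'_apply']

theorem bil_symm {M : Matrix (Fin n) (Fin n) F} (hM : Mᵀ = M) (x y : Fin n → F) : x ⬝ᵥ (M *ᵥ y) = y ⬝ᵥ (M *ᵥ x) := by
  rw [dotProduct_mulVec, dotProduct_comm, ← mulVec_transpose, hM]

theorem QM_polar {M : Matrix (Fin n) (Fin n) F} (hM : Mᵀ = M) (x y : Fin n → F) : QuadraticMap.polar (QM M) x y = 2 * (x ⬝ᵥ (M *ᵥ y)) := by
  unfold QuadraticMap.polar
  rw [QM_apply, QM_apply, QM_apply, mulVec_add, add_dotProduct, dotProduct_add, dotProduct_add, bil_symm hM y x]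
  ring

theorem QM_inj (h2 : (2 : F) ≠ 0) {M N : Matrix (Fin n) (Fin n) F} (hM : Mᵀ = M) (hN : Nᵀ = N) (h : ∀ x, QM M x = QM N x) : M = N := by
  apply bil_ext
  intro u v
  have h1 : QM M = QM N := QuadraticMap.ext h
  have h3 := QM_polar hM u v
  rw [h1, QM_polar hN] at h3
  exact (mul_left_cancel₀ h2 h3).symm

theorem QM_nd (h2 : (2 : F) ≠ 0) (b : GL (Fin n) F) (hb : (b : Matrix (Fin n) (Fin n) F)ᵀ = b) : (QuadraticMap.polarBilin (QM (b : Matrix (Fin n) (Fin n) F))).Nondegenerate := by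
  apply Cfsg.Agent.H22.nondeg_of_left
  intro x hx
  have h1 : (b : Matrix (Fin n) (Fin n) F) *ᵥ x = 0 := by
    ext i
    have h3 := hx (Pi.single i 1)
    have h3' : QuadraticMap.polar (QM (b : Matrix (Fin n) (Fin n) F)) x (Pi.single i 1) = 0 := h3
    rw [QM_polar hb, bil_symm hb] at h3'
    have h4 := (mul_eq_zero.1 h3').resolve_left h2
    simpa using h4
  have h3 : ((b⁻¹ : GL (Fin n) F) : Matrix (Fin n) (Fin n) F) *ᵥ ((b : Matrix (Fin n) (Fin n) F) *ᵥ x) = 0 := by rw [h1, mulVec_zero]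
  rw [mulVec_mulVec, Units.inv_mul, one_mulVec] at h3
  exact h3

theorem sim_eq_GOs (h2 : (2 : F) ≠ 0) {M : Matrix (Fin n) (Fin n) F} (hM : Mᵀ = M) : Sim M = GOs (QM M) := by
  ext g
  rw [mem_Sim]
  show _ ↔ ∃ c : Fˣ, ∀ v, QM M ((g : Matrix (Fin n) (Fin n) F) *ᵥ v) = (c : F) * QM M v
  apply exists_congr
  intro c
  constructor
  · intro h v
    rw [QM_apply, QM_apply, bil_mul, h, smul_mulVec, dotProduct_smul, smul_eq_mul]
  · intro h
    apply QM_inj h2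
    · rw [transpose_mul, transpose_mul, transpose_transpose, hM, Matrix.mul_assoc]
    · rw [transpose_smul, hM]
    · intro x
      rw [QM_apply, ← bil_mul, ← QM_apply, h, QM_apply, QM_apply, smul_mulVec, dotProduct_smul, smul_eq_mul]

variable {ι : Type} [Fintype ι] [DecidableEq ι]

theorem inv_symm {a : GL (Fin n) F} (h : (a : Matrix (Fin n) (Fin n) F)ᵀ = a) : ((a⁻¹ : GL (Fin n) F) : Matrix (Fin n) (Fin n) F)ᵀ = ((a⁻¹ : GL (Fin n) F) : Matrix (Fin n) (Fin n) F) := by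
  have h1 : tp a = a := Units.ext h
  have h3 := tp_inv a
  rw [h1] at h3
  exact congrArg Units.val h3

theorem inv_skew {a : GL (Fin n) F} (h : (a : Matrix (Fin n) (Fin n) F)ᵀ = -(a : Matrix (Fin n) (Fin n) F)) :
    ((a⁻¹ : GL (Fin n) F) : Matrix (Fin n) (Fin n) F)ᵀ = -((a⁻¹ : GL (Fin n) F) : Matrix (Fin n) (Fin n) F) := by
  have h1 : tp a = -a := Units.ext h
  have h3 := tp_inv a
  rw [h1] at h3
  have h4 : (-a)⁻¹ = -a⁻¹ := by
    rw [inv_eq_iff_mul_eq_one]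
    apply Units.ext
    rw [Units.val_mul, Units.val_neg, Units.val_neg, neg_mul_neg, Units.mul_inv, Units.val_one]
  rw [h4] at h3
  exact congrArg Units.val h3

/-- centralizers of symmetric type -/
theorem cen_quad [Finite F] (h2 : (2 : F) ≠ 0) (hn : 2 ≤ n) {a : GL (Fin n) F} (ha : (a : Matrix (Fin n) (Fin n) F)ᵀ = a) {Q' : QuadraticForm F (ι → F)}
    (t : Tr (QM ((a⁻¹ : GL (Fin n) F) : Matrix (Fin n) (Fin n) F)) Q') :
    Nonempty (↥(Cfsg.inndiagPSL n F ⊓ Subgroup.centralizer {gam a}) ≃* Cfsg.PGO F ⇑Q') := by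
  obtain ⟨e1⟩ := cen_equiv hn a
  obtain ⟨e2⟩ := projQuot_equiv t.K t.L t.KL t.LK (Sim ((a⁻¹ : GL (Fin n) F) : Matrix (Fin n) (Fin n) F)) (GOs Q') (by
    intro g
    rw [sim_eq_GOs h2 (inv_symm ha)]
    constructor
    · intro h
      have h3 := t.symm.gl_GOs h
      have h4 : t.symm.gl (kl t.K t.L t.KL t.LK g) = g := t.gl_symm g
      rw [h4] at h3
      exact h3
    · intro h
      exact t.gl_GOs h)
  exact ⟨e1.trans e2.symm⟩

theorem tr_gl {M N : Matrix (Fin n) (Fin n) F} (h2 : (2 : F) ≠ 0) (hM : Mᵀ = M) (hN : Nᵀ = N) {Q' : QuadraticForm F (ι → F)} (t : Tr (QM M) Q') (t' : Tr (QM N) Q') :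
    ∃ (P : GL (Fin n) F) (c : Fˣ), (P : Matrix (Fin n) (Fin n) F)ᵀ * M * (P : Matrix (Fin n) (Fin n) F) = (c : F) • N := by
  refine ⟨⟨t.K * t'.L, t'.K * t.L, ?_, ?_⟩, t.d * t'.d⁻¹, ?_⟩
  · calc t.K * t'.L * (t'.K * t.L) = t.K * (t'.L * t'.K) * t.L := by simp only [Matrix.mul_assoc]
      _ = 1 := by rw [t'.LK, Matrix.mul_one, t.KL]
  · calc t'.K * t.L * (t.K * t'.L) = t'.K * (t.L * t.K) * t'.L := by simp only [Matrix.mul_assoc]
      _ = 1 := by rw [t.LK, Matrix.mul_one, t'.KL]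
  · show (t.K * t'.L)ᵀ * M * (t.K * t'.L) = _
    apply QM_inj h2
    · generalize t.K * t'.L = X
      rw [transpose_mul, transpose_mul, transpose_transpose, hM, Matrix.mul_assoc]
    · rw [transpose_smul, hN]
    · intro x
      rw [QM_apply, ← bil_mul, ← QM_apply]
      rw [← mulVec_mulVec, t.hK, t'.hL, QM_apply ((_ : F) • N), smul_mulVec, dotProduct_smul, smul_eq_mul, ← QM_apply, Units.val_mul, mul_assoc]

/-- matrices with equivalent inverses give conjugate automorphisms -/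
theorem conj_of_sim [Finite F] (hn : 2 ≤ n) {a b : GL (Fin n) F} {P : GL (Fin n) F} {c : Fˣ}
    (h : (P : Matrix (Fin n) (Fin n) F)ᵀ * ((a⁻¹ : GL (Fin n) F) : Matrix (Fin n) (Fin n) F) * (P : Matrix (Fin n) (Fin n) F) = (c : F) • ((b⁻¹ : GL (Fin n) F) : Matrix (Fin n) (Fin n) F)) :
    Cfsg.IsConjUnder (Cfsg.inndiagPSL n F) (gam a) (gam b) := by
  rw [conj_iff hn]
  refine ⟨P⁻¹, c, ?_⟩
  have h1 : tp P * a⁻¹ * P = scal c * b⁻¹ := Units.ext (by rw [coe_scal_mul, ← h]; rfl)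
  have h3 : b = scal c * (P⁻¹ * a * tp P⁻¹) := by
    have h4 : b⁻¹ = (scal c)⁻¹ * (tp P * a⁻¹ * P) := by rw [h1]; group
    have h5 : b = (b⁻¹)⁻¹ := (inv_inv b).symm
    rw [h5, h4, _root_.mul_inv_rev, inv_inv, tp_inv, ← scal_comm]
    group
  have h4 := congrArg Units.val h3
  rw [coe_scal_mul] at h4
  exact h4

theorem conj_quad [Finite F] (h2 : (2 : F) ≠ 0) (hn : 2 ≤ n) {a b : GL (Fin n) F} (ha : (a : Matrix (Fin n) (Fin n) F)ᵀ = a) (hb : (b : Matrix (Fin n) (Fin n) F)ᵀ = b)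
    {Q' : QuadraticForm F (ι → F)} (t : Tr (QM ((a⁻¹ : GL (Fin n) F) : Matrix (Fin n) (Fin n) F)) Q') (t' : Tr (QM ((b⁻¹ : GL (Fin n) F) : Matrix (Fin n) (Fin n) F)) Q') :
    Cfsg.IsConjUnder (Cfsg.inndiagPSL n F) (gam a) (gam b) := by
  obtain ⟨P, c, h⟩ := tr_gl h2 (inv_symm ha) (inv_symm hb) t t'
  exact conj_of_sim hn h

/-- conjugate automorphisms have equivalent forms -/
theorem sim_of_conj [Finite F] (hn : 2 ≤ n) {a b : GL (Fin n) F} (h : Cfsg.IsConjUnder (Cfsg.inndiagPSL n F) (gam a) (gam b)) :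
    ∃ (P : GL (Fin n) F) (c : Fˣ), (P : Matrix (Fin n) (Fin n) F)ᵀ * ((b⁻¹ : GL (Fin n) F) : Matrix (Fin n) (Fin n) F) * (P : Matrix (Fin n) (Fin n) F) =
      (c : F) • ((a⁻¹ : GL (Fin n) F) : Matrix (Fin n) (Fin n) F) := by
  obtain ⟨g, c, h⟩ := (conj_iff hn a b).1 h
  refine ⟨g, c⁻¹, ?_⟩
  have h1 : b = scal c * (g * a * tp g) := Units.ext (by rw [coe_scal_mul]; exact h)
  have h3 : tp g * b⁻¹ * g = scal c⁻¹ * a⁻¹ := by
    have h4 : (scal c⁻¹ : GL (Fin n) F) = (scal c)⁻¹ := map_inv _ _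
    rw [h1, _root_.mul_inv_rev, h4]
    calc tp g * ((g * a * tp g)⁻¹ * (scal c)⁻¹) * g = a⁻¹ * (g⁻¹ * (scal c)⁻¹) * g := by group
      _ = (a⁻¹ * (scal c)⁻¹) := by rw [← h4, ← scal_comm]; group
      _ = _ := by rw [← h4, ← scal_comm]
  have h4 := congrArg Units.val h3
  rw [coe_scal_mul] at h4
  exact h4

theorem tr_of_sim {M N : Matrix (Fin n) (Fin n) F} {P : GL (Fin n) F} {c : Fˣ} (h : (P : Matrix (Fin n) (Fin n) F)ᵀ * M * (P : Matrix (Fin n) (Fin n) F) = (c : F) • N) :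
    Nonempty (Tr (QM M) (QM N)) := by
  refine ⟨⟨(P : Matrix (Fin n) (Fin n) F), ((P⁻¹ : GL (Fin n) F) : Matrix (Fin n) (Fin n) F), by rw [Units.mul_inv], by rw [Units.inv_mul], c, fun v => ?_⟩⟩
  rw [QM_apply, bil_mul, h, smul_mulVec, dotProduct_smul, smul_eq_mul, QM_apply]

/-- existence -/
theorem exists_quad (h2 : (2 : F) ≠ 0) {Q' : QuadraticForm F (ι → F)} (hQ : (QuadraticMap.polarBilin Q').Nondegenerate) (hc : Fintype.card ι = n) :
    ∃ a : GL (Fin n) F, (a : Matrix (Fin n) (Fin n) F)ᵀ = a ∧ Nonempty (Tr (QM ((a⁻¹ : GL (Fin n) F) : Matrix (Fin n) (Fin n) F)) Q') := by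
  obtain ⟨e⟩ : Nonempty (Fin n ≃ ι) := ⟨(Fintype.equivFinOfCardEq hc).symm⟩
  have hdet : ((2 : F)⁻¹ • CfsgLib.GI27.gram Q').det ≠ 0 := by
    rw [Matrix.det_smul]
    exact mul_ne_zero (pow_ne_zero _ (inv_ne_zero h2)) (gram_det hQ)
  obtain ⟨M, hM⟩ : ∃ M : Matrix (Fin n) (Fin n) F, M = ((2 : F)⁻¹ • CfsgLib.GI27.gram Q').submatrix e e := ⟨_, rfl⟩
  have hdM : IsUnit M.det := by
    rw [hM, Matrix.det_submatrix_equiv_self, isUnit_iff_ne_zero]
    exact hdet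
  obtain ⟨b, hb⟩ : ∃ b : GL (Fin n) F, (b : Matrix (Fin n) (Fin n) F) = M := (Matrix.isUnit_iff_isUnit_det M).2 hdM
  have hMt : Mᵀ = M := by
    rw [hM, transpose_submatrix, transpose_smul, gram_symm]
  refine ⟨b⁻¹, inv_symm (by rw [hb]; exact hMt), ?_⟩
  rw [inv_inv, hb]
  refine ⟨⟨pK e, pL e, pKL e, pLK e, 1, fun v => ?_⟩⟩
  rw [QM_apply, pK_mulVec, hM, Units.val_one, one_mul]
  have h1 : ((2 : F)⁻¹ • CfsgLib.GI27.gram Q').submatrix e e *ᵥ (v ∘ e) = (((2 : F)⁻¹ • CfsgLib.GI27.gram Q') *ᵥ v) ∘ e := by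
    have := Matrix.submatrix_mulVec_equiv ((2 : F)⁻¹ • CfsgLib.GI27.gram Q') (v ∘ e) e e
    rw [this]
    congr 2
    ext i
    simp
  rw [h1, comp_dot, smul_mulVec, dotProduct_smul]
  have h3 : v ⬝ᵥ (CfsgLib.GI27.gram Q' *ᵥ v) = QuadraticMap.polar Q' v v := by
    have h5 : QuadraticMap.polar Q' v v = QuadraticMap.polarBilin Q' v v := rfl
    rw [h5]
    unfold CfsgLib.GI27.gram
    conv_rhs => rw [← Matrix.toBilin'_toMatrix' (QuadraticMap.polarBilin Q'), Matrix.toBilin'_apply']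
  have h4 : QuadraticMap.polar Q' v v = 2 * Q' v := by
    unfold QuadraticMap.polar
    rw [← two_smul F v, QuadraticMap.map_smul, smul_eq_mul]; ring
  rw [h3, h4, smul_eq_mul, inv_mul_cancel_left₀ h2]

end quad

section trx
variable {F : Type u} [Field F] {ι ι' ι'' : Type} [Fintype ι] [DecidableEq ι] [Fintype ι'] [DecidableEq ι'] [Fintype ι''] [DecidableEq ι'']

theorem tr_of_lin {Q : QuadraticForm F (ι → F)} {Q' : QuadraticForm F (ι' → F)} (φ : (ι' → F) ≃ₗ[F] (ι → F)) {d : F} (hd : d ≠ 0) (h : ∀ x, Q (φ x) = d * Q' x) :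
    Nonempty (Tr Q Q') := by
  refine ⟨⟨LinearMap.toMatrix' (φ : (ι' → F) →ₗ[F] (ι → F)), LinearMap.toMatrix' (φ.symm : (ι → F) →ₗ[F] (ι' → F)), ?_, ?_, Units.mk0 d hd, fun v => ?_⟩⟩
  · rw [← LinearMap.toMatrix'_comp, LinearEquiv.comp_symm, LinearMap.toMatrix'_id]
  · rw [← LinearMap.toMatrix'_comp, LinearEquiv.symm_comp, LinearMap.toMatrix'_id]
  · rw [LinearMap.toMatrix'_mulVec]
    exact h v

theorem trT {Q : QuadraticForm F (ι → F)} {Q' : QuadraticForm F (ι' → F)} {Q'' : QuadraticForm F (ι'' → F)} (t : Tr Q Q') (t' : Tr Q' Q'') : Nonempty (Tr Q Q'') := by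
  refine ⟨⟨t.K * t'.K, t'.L * t.L, ?_, ?_, t.d * t'.d, fun v => ?_⟩⟩
  · calc t.K * t'.K * (t'.L * t.L) = t.K * (t'.K * t'.L) * t.L := by simp only [Matrix.mul_assoc]
      _ = 1 := by rw [t'.KL, Matrix.mul_one, t.KL]
  · calc t'.L * t.L * (t.K * t'.K) = t'.L * (t.L * t.K) * t'.K := by simp only [Matrix.mul_assoc]
      _ = 1 := by rw [t.LK, Matrix.mul_one, t'.LK]
  · rw [← mulVec_mulVec, t.hK, t'.hK, Units.val_mul, mul_assoc]

end trx

section alt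
variable {F : Type u} [Field F] {n : ℕ}

/-- alternating matrices have a symplectic basis -/
theorem exists_symp (b : GL (Fin n) F) (hb : ∀ x : Fin n → F, x ⬝ᵥ ((b : Matrix (Fin n) (Fin n) F) *ᵥ x) = 0) :
    ∃ (m : ℕ) (K : Matrix (Fin n) (Fin m ⊕ Fin m) F) (L : Matrix (Fin m ⊕ Fin m) (Fin n) F), n = 2 * m ∧ K * L = 1 ∧ L * K = 1 ∧
      Kᵀ * (b : Matrix (Fin n) (Fin n) F) * K = ((-1 : Fˣ) : F) • Matrix.J (Fin m) F := by
  have hB : ∀ x y, Matrix.toBilin' (b : Matrix (Fin n) (Fin n) F) x y = x ⬝ᵥ ((b : Matrix (Fin n) (Fin n) F) *ᵥ y) := fun x y => Matrix.toBilin'_apply' _ x y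
  obtain ⟨m, bs, hfr, h1, h2, h3, h4⟩ := CfsgLib.Forms27.exists_symplectic_basis (Matrix.toBilin' (b : Matrix (Fin n) (Fin n) F)) (fun x => by rw [hB, hb]) (by
    intro v hv
    by_contra hcon
    push Not at hcon
    apply hv
    have h5 : v ᵥ* (b : Matrix (Fin n) (Fin n) F) = 0 := by
      ext i
      have h6 := hcon (Pi.single i 1)
      rw [hB, dotProduct_mulVec] at h6
      simpa using h6
    have h6 : (v ᵥ* (b : Matrix (Fin n) (Fin n) F)) ᵥ* ((b⁻¹ : GL (Fin n) F) : Matrix (Fin n) (Fin n) F) = 0 := by rw [h5, zero_vecMul]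
    rw [vecMul_vecMul, Units.mul_inv, vecMul_one] at h6
    exact h6)
  rw [Module.finrank_pi, Fintype.card_fin] at hfr
  obtain ⟨K, hK⟩ : ∃ K : Matrix (Fin n) (Fin m ⊕ Fin m) F, K = LinearMap.toMatrix' (bs.equivFun.symm : (Fin m ⊕ Fin m → F) →ₗ[F] (Fin n → F)) := ⟨_, rfl⟩
  obtain ⟨L, hL⟩ : ∃ L : Matrix (Fin m ⊕ Fin m) (Fin n) F, L = LinearMap.toMatrix' (bs.equivFun : (Fin n → F) →ₗ[F] (Fin m ⊕ Fin m → F)) := ⟨_, rfl⟩
  have hKv : ∀ x, K *ᵥ x = bs.equivFun.symm x := by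
    intro x
    rw [hK, LinearMap.toMatrix'_mulVec]; rfl
  refine ⟨m, K, L, hfr, ?_, ?_, ?_⟩
  · rw [hK, hL, ← LinearMap.toMatrix'_comp, LinearEquiv.symm_comp, LinearMap.toMatrix'_id]
  · rw [hK, hL, ← LinearMap.toMatrix'_comp, LinearEquiv.comp_symm, LinearMap.toMatrix'_id]
  · have hent : ∀ i j, (Kᵀ * (b : Matrix (Fin n) (Fin n) F) * K) i j = Matrix.toBilin' (b : Matrix (Fin n) (Fin n) F) (bs i) (bs j) := by
      intro i j
      have h5 : (Pi.single i 1 : Fin m ⊕ Fin m → F) ⬝ᵥ ((Kᵀ * (b : Matrix (Fin n) (Fin n) F) * K) *ᵥ Pi.single j 1) = (Kᵀ * (b : Matrix (Fin n) (Fin n) F) * K) i j := by simp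
      rw [← h5, ← bil_mul, hB, hKv, hKv]
      congr 1
      · simp
      · simp
    ext i j
    rw [hent, Matrix.smul_apply, Units.val_neg, Units.val_one]
    rcases i with i | i <;> rcases j with j | j <;> simp [Matrix.J, h1, h2, h3, h4, Matrix.one_apply]
    split_ifs <;> simp

theorem cen_alt [Finite F] (hn : 2 ≤ n) {a : GL (Fin n) F} (ha : ∀ x : Fin n → F, x ⬝ᵥ (((a⁻¹ : GL (Fin n) F) : Matrix (Fin n) (Fin n) F) *ᵥ x) = 0) {m : ℕ} (hm : n = 2 * m) :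
    Nonempty (↥(Cfsg.inndiagPSL n F ⊓ Subgroup.centralizer {gam a}) ≃* Cfsg.PGSp m F) := by
  obtain ⟨m', K, L, h1, h2, h3, h4⟩ := exists_symp a⁻¹ ha
  obtain rfl : m' = m := by omega
  obtain ⟨e1⟩ := cen_equiv hn a
  obtain ⟨e2⟩ := sim_equiv K L h2 h3 (-1) h4
  exact ⟨e1.trans e2.symm⟩

theorem conj_of_common [Finite F] (hn : 2 ≤ n) {a b : GL (Fin n) F} {ι : Type} [Fintype ι] [DecidableEq ι] {M : Matrix ι ι F} {K K' : Matrix (Fin n) ι F} {L L' : Matrix ι (Fin n) F}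
    {d d' : Fˣ} (hKL : K * L = 1) (hLK : L * K = 1) (hKL' : K' * L' = 1) (hLK' : L' * K' = 1)
    (h : Kᵀ * ((a⁻¹ : GL (Fin n) F) : Matrix (Fin n) (Fin n) F) * K = (d : F) • M) (h' : K'ᵀ * ((b⁻¹ : GL (Fin n) F) : Matrix (Fin n) (Fin n) F) * K' = (d' : F) • M) :
    Cfsg.IsConjUnder (Cfsg.inndiagPSL n F) (gam a) (gam b) := by
  obtain ⟨P, hP⟩ : ∃ P : GL (Fin n) F, (P : Matrix (Fin n) (Fin n) F) = K * L' := ⟨⟨K * L', K' * L, by
    calc K * L' * (K' * L) = K * (L' * K') * L := by simp only [Matrix.mul_assoc]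
      _ = 1 := by rw [hLK', Matrix.mul_one, hKL], by
    calc K' * L * (K * L') = K' * (L * K) * L' := by simp only [Matrix.mul_assoc]
      _ = 1 := by rw [hLK, Matrix.mul_one, hKL']⟩, rfl⟩
  apply conj_of_sim hn (P := P) (c := d * d'⁻¹)
  have h1 : ((b⁻¹ : GL (Fin n) F) : Matrix (Fin n) (Fin n) F) = L'ᵀ * ((d' : F) • M) * L' := by
    rw [← h']
    have e1 : L'ᵀ * K'ᵀ = 1 := by rw [← transpose_mul, hKL', transpose_one]
    calc ((b⁻¹ : GL (Fin n) F) : Matrix (Fin n) (Fin n) F) = (L'ᵀ * K'ᵀ) * ((b⁻¹ : GL (Fin n) F) : Matrix (Fin n) (Fin n) F) * (K' * L') := by rw [e1, hKL', Matrix.one_mul, Matrix.mul_one]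
      _ = _ := by simp only [Matrix.mul_assoc]
  rw [hP, h1, transpose_mul, Matrix.mul_smul, Matrix.smul_mul, smul_smul]
  have h3 : ((d * d'⁻¹ : Fˣ) : F) * (d' : F) = (d : F) := by rw [← Units.val_mul, inv_mul_cancel_right]
  rw [h3]
  calc L'ᵀ * Kᵀ * ((a⁻¹ : GL (Fin n) F) : Matrix (Fin n) (Fin n) F) * (K * L') = L'ᵀ * (Kᵀ * ((a⁻¹ : GL (Fin n) F) : Matrix (Fin n) (Fin n) F) * K) * L' := by simp only [Matrix.mul_assoc]
    _ = _ := by rw [h, Matrix.mul_smul, Matrix.smul_mul]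

theorem conj_alt [Finite F] (hn : 2 ≤ n) {a b : GL (Fin n) F} (ha : ∀ x : Fin n → F, x ⬝ᵥ (((a⁻¹ : GL (Fin n) F) : Matrix (Fin n) (Fin n) F) *ᵥ x) = 0)
    (hb : ∀ x : Fin n → F, x ⬝ᵥ (((b⁻¹ : GL (Fin n) F) : Matrix (Fin n) (Fin n) F) *ᵥ x) = 0) :
    Cfsg.IsConjUnder (Cfsg.inndiagPSL n F) (gam a) (gam b) := by
  obtain ⟨m, K, L, h1, h2, h3, h4⟩ := exists_symp a⁻¹ ha
  obtain ⟨m', K', L', h1', h2', h3', h4'⟩ := exists_symp b⁻¹ hb
  obtain rfl : m' = m := by omega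
  exact conj_of_common hn h2 h3 h2' h3' h4 h4'

theorem alt_of_skew (h2 : (2 : F) ≠ 0) {M : Matrix (Fin n) (Fin n) F} (hM : Mᵀ = -M) (x : Fin n → F) : x ⬝ᵥ (M *ᵥ x) = 0 := by
  have h1 : x ⬝ᵥ (M *ᵥ x) = -(x ⬝ᵥ (M *ᵥ x)) := by
    conv_lhs => rw [dotProduct_mulVec, dotProduct_comm, ← mulVec_transpose, hM, neg_mulVec, dotProduct_neg]
  have h3 : (2 : F) * (x ⬝ᵥ (M *ᵥ x)) = 0 := by linear_combination h1
  exact (mul_eq_zero.1 h3).resolve_left h2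

/-- existence of alternating type -/
theorem exists_alt {m : ℕ} (hm : n = 2 * m) :
    ∃ a : GL (Fin n) F, (a : Matrix (Fin n) (Fin n) F)ᵀ = -(a : Matrix (Fin n) (Fin n) F) ∧ ∀ x : Fin n → F, x ⬝ᵥ (((a⁻¹ : GL (Fin n) F) : Matrix (Fin n) (Fin n) F) *ᵥ x) = 0 := by
  obtain ⟨e⟩ : Nonempty (Fin n ≃ Fin m ⊕ Fin m) := ⟨(Fintype.equivFinOfCardEq (by simp; omega)).symm⟩
  obtain ⟨M, hM⟩ : ∃ M : Matrix (Fin n) (Fin n) F, M = (Matrix.J (Fin m) F).submatrix e e := ⟨_, rfl⟩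
  have hdM : IsUnit M.det := by
    rw [hM, Matrix.det_submatrix_equiv_self]
    exact Matrix.isUnit_det_J (Fin m) F
  obtain ⟨b, hb⟩ : ∃ b : GL (Fin n) F, (b : Matrix (Fin n) (Fin n) F) = M := (Matrix.isUnit_iff_isUnit_det M).2 hdM
  have hMt : Mᵀ = -M := by
    rw [hM, transpose_submatrix, Matrix.J_transpose]; rfl
  refine ⟨b⁻¹, inv_skew (by rw [hb]; exact hMt), ?_⟩
  intro x
  rw [inv_inv, hb, hM]
  obtain ⟨y, rfl⟩ : ∃ y : Fin m ⊕ Fin m → F, x = y ∘ e := ⟨x ∘ e.symm, by ext i; simp⟩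
  have h1 : (Matrix.J (Fin m) F).submatrix e e *ᵥ (y ∘ e) = ((Matrix.J (Fin m) F) *ᵥ y) ∘ e := by
    have := Matrix.submatrix_mulVec_equiv (Matrix.J (Fin m) F) (y ∘ e) e e
    rw [this]
    congr 2
    ext i
    simp
  rw [h1, comp_dot]
  unfold Matrix.J
  rw [Matrix.fromBlocks_mulVec]
  unfold dotProduct
  rw [Fintype.sum_sum_type]
  simp only [Sum.elim_inl, Sum.elim_inr, zero_mulVec, zero_add, add_zero, one_mulVec, neg_mulVec, Pi.neg_apply, Function.comp_apply]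
  rw [← Finset.sum_add_distrib]
  apply Finset.sum_eq_zero
  intro i _
  ring

end alt

section cls
variable {F : Type u} [Field F] [Fintype F] {n : ℕ}

/-- the three types in even dimension, odd characteristic -/
theorem cls_even (h2 : (2 : F) ≠ 0) {k : ℕ} (hn : n = 2 * (k + 1)) {a : GL (Fin n) F} (h : gam a * gam a = 1) :
    (∀ x : Fin n → F, x ⬝ᵥ (((a⁻¹ : GL (Fin n) F) : Matrix (Fin n) (Fin n) F) *ᵥ x) = 0) ∨
    ((a : Matrix (Fin n) (Fin n) F)ᵀ = a ∧ (Nonempty (Tr (QM ((a⁻¹ : GL (Fin n) F) : Matrix (Fin n) (Fin n) F)) (qPlus (k + 1) F)) ∨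
      ∀ c d : F, (∀ z₁ z₂ : F, z₁ ^ 2 + c * z₁ * z₂ + d * z₂ ^ 2 = 0 → z₁ = 0 ∧ z₂ = 0) → Nonempty (Tr (QM ((a⁻¹ : GL (Fin n) F) : Matrix (Fin n) (Fin n) F)) (qMinus k F c d)))) := by
  rcases sq_cases (by omega) h with h1 | h1
  · right
    refine ⟨h1, ?_⟩
    rcases even_coord (m := k) (QM_nd h2 a⁻¹ (inv_symm h1)) (by rw [Module.finrank_pi, Fintype.card_fin]; omega) with ⟨φ, hφ⟩ | hcl
    · left
      exact tr_of_lin φ one_ne_zero (fun x => by rw [hφ, one_mul])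
    · right
      intro c d hcd
      obtain ⟨r, φ, hr, hφ⟩ := hcl c d hcd
      exact tr_of_lin φ hr hφ
  · left
    exact alt_of_skew h2 (inv_skew h1)

end cls

end CfsgLib.GP27
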