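import Cfsg.Agent.LibGP27b
import Cfsg.Agent.LibEps27j

set_option autoImplicit false

/-! The type of the form `Σ xᵢ²`. -/

namespace CfsgLib.GP27

open Matrix Module
open CfsgLib.Semi27 (scal scal_comm scal_one scal_mul scal_mulVec scal_mul_mulVec)
open CfsgLib.Eps27 CfsgLib.RhoO27 CfsgLib.Even27 CfsgLib.Lift27 CfsgLib.Spinor27
open Cfsg.Agent.H22 (qPlus qOdd qMinus)

universe u

section
variable {F : Type u} [Field F] [Fintype F] {n : ℕ}

theorem QM_one (x : Fin n → F) : QM (1 : Matrix (Fin n) (Fin n) F) x = x ⬝ᵥ x := by rw [QM_apply, one_mulVec]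

theorem QM_one_single (i : Fin n) : QM (1 : Matrix (Fin n) (Fin n) F) (Pi.single i 1) = 1 := by rw [QM_one]; simp

theorem QM_one_ne (i : Fin n) : QM (1 : Matrix (Fin n) (Fin n) F) (Pi.single i 1) ≠ 0 := by rw [QM_one_single]; exact one_ne_zero

/-- products of coordinate reflections -/
theorem list_prod (l : List (Fin n)) (hl : l.Nodup) (x : Fin n → F) :
    ((((l.map (fun i => rfM (QM (1 : Matrix (Fin n) (Fin n) F)) (Pi.single i 1) (QM_one_ne i))).prod : Cfsg.isometryGroup F ⇑(QM (1 : Matrix (Fin n) (Fin n) F))) : GL (Fin n) F) :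
      Matrix (Fin n) (Fin n) F) *ᵥ x = fun i => if i ∈ l then -x i else x i := by
  induction l with
  | nil =>
    rw [List.map_nil, List.prod_nil, Subgroup.coe_one, Units.val_one, one_mulVec]
    ext i
    simp
  | cons j l ih =>
    rw [List.nodup_cons] at hl
    rw [List.map_cons, List.prod_cons, Subgroup.coe_mul, Units.val_mul, ← mulVec_mulVec, ih hl.2, rfM_mulVec]
    have hp : ∀ y : Fin n → F, QuadraticMap.polar (QM (1 : Matrix (Fin n) (Fin n) F)) (Pi.single j 1) y = 2 * y j := by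
      intro y
      rw [QM_polar transpose_one, one_mulVec]
      simp
    rw [hp, QM_one_single]
    ext i
    simp only [Pi.sub_apply, Pi.smul_apply, smul_eq_mul, List.mem_cons]
    by_cases hij : i = j
    · subst hij
      simp [hl.1]
      ring
    · simp [hij]

theorem negIn_one (h2 : (2 : F) ≠ 0) {m : ℕ} (hm : 1 ≤ m) (hn : n = 2 * m) : NegIn (QM (1 : Matrix (Fin n) (Fin n) F)) := by
  have hnd : (QuadraticMap.polarBilin (QM (1 : Matrix (Fin n) (Fin n) F))).Nondegenerate := QM_nd h2 1 (by rw [Units.val_one, transpose_one])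
  have hfr : 2 ≤ finrank F (Fin n → F) := by rw [Module.finrank_pi, Fintype.card_fin]; omega
  obtain ⟨g, hg⟩ : ∃ g : Cfsg.isometryGroup F ⇑(QM (1 : Matrix (Fin n) (Fin n) F)), g = ((List.finRange n).map (fun i => rfM (QM (1 : Matrix (Fin n) (Fin n) F)) (Pi.single i 1) (QM_one_ne i))).prod := ⟨_, rfl⟩
  have hgm : ((g : GL (Fin n) F) : Matrix (Fin n) (Fin n) F) = -1 := by
    apply Cfsg.Agent.H22.mat_ext
    intro x
    rw [hg, list_prod _ (List.nodup_finRange n), neg_mulVec, one_mulVec]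
    ext i
    simp
  refine ⟨g, ?_, hgm⟩
  rw [mem_omega_M h2 hnd hfr]
  constructor
  · apply Units.ext
    show ((g : GL (Fin n) F) : Matrix (Fin n) (Fin n) F).det = 1
    rw [hgm, Matrix.det_neg, det_one, Fintype.card_fin, hn, pow_mul]
    simp
  · rw [hg, map_list_prod, List.map_map]
    apply List.prod_eq_one
    intro z hz
    obtain ⟨i, -, rfl⟩ := List.mem_map.1 hz
    show spinM h2 hnd hfr (rfM (QM (1 : Matrix (Fin n) (Fin n) F)) (Pi.single i 1) (QM_one_ne i)) = 1
    rw [spinM_rfM, QM_one_single, chi_one]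

/-- the type of the sum of squares -/
theorem type_one (hodd : Odd (Fintype.card F)) {k : ℕ} (hn : n = 2 * (k + 1)) :
    (¬ (Odd (k + 1) ∧ Fintype.card F % 4 = 3) → Nonempty (Tr (QM (1 : Matrix (Fin n) (Fin n) F)) (qPlus (k + 1) F))) ∧
    ((Odd (k + 1) ∧ Fintype.card F % 4 = 3) → ∀ a b : F, (∀ z₁ z₂ : F, z₁ ^ 2 + a * z₁ * z₂ + b * z₂ ^ 2 = 0 → z₁ = 0 ∧ z₂ = 0) → Nonempty (Tr (QM (1 : Matrix (Fin n) (Fin n) F)) (qMinus k F a b))) := by
  have h2 : (2 : F) ≠ 0 := Cfsg.Agent.H22.two_ne_zero_of_odd hodd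
  have hneg := negIn_one (F := F) (n := n) h2 (by omega) hn
  have hcl := cls_even h2 hn (a := (1 : GL (Fin n) F)) (sq_of_symm (by rw [Units.val_one, transpose_one]))
  rw [inv_one, Units.val_one] at hcl
  rcases hcl with h | ⟨-, h | h⟩
  · exfalso
    have := h (Pi.single ⟨0, by omega⟩ 1)
    rw [← QM_apply, QM_one_single] at this
    exact one_ne_zero this
  · refine ⟨fun _ => h, fun hE => ?_⟩
    obtain ⟨t⟩ := h
    exact absurd hE ((negIn_plus hodd (by omega)).1 (t.negIn hneg))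
  · refine ⟨fun hE => ?_, fun _ => h⟩
    exfalso
    obtain ⟨a, b, hab⟩ := Cfsg.Agent.H22.exists_aniso F
    obtain ⟨t⟩ := h a b hab
    have h3 := (negIn_minus hodd hab).1 (t.negIn hneg)
    apply hE
    refine ⟨?_, h3.2⟩
    rw [← Nat.not_even_iff_odd, Nat.even_add_one, not_not]
    exact h3.1

end

end CfsgLib.GP27
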