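import Cfsg.Agent.LibGP27c
import Cfsg.Agent.LibAutPSp27g
import Cfsg.Agent.LibH22OOrd3
import Cfsg.Agent.LibH22SpOrder

set_option autoImplicit false

/-! Splitting of the classes of graph involutions of `PSL_n`. -/

namespace CfsgLib.GP27

open Matrix Module
open CfsgLib.AutPSL27 (cj fl it itGL lft lft_mk it_mul_cj it_mul_it coe_cj coe_it cj_center unique_one sl_ext inndiag_eq isInnerDiagonal_iff isInvTr_iff not_it conj_mk)
open CfsgLib.Semi27 (scal scal_comm scal_one scal_mul scal_mulVec scal_mul_mulVec)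
open CfsgLib.Eps27 CfsgLib.RhoO27 CfsgLib.Even27 CfsgLib.Lift27 CfsgLib.Spinor27
open Cfsg.Agent.H22 (qPlus qOdd qMinus)

universe u

section pw
variable {G : Type*} [CommGroup G]

/-- subgroup of `n`-th powers -/
def Pw (G : Type*) [CommGroup G] (n : ℕ) : Subgroup G := (powMonoidHom n : G →* G).range

theorem mem_Pw {n : ℕ} {x : G} : x ∈ Pw G n ↔ ∃ y : G, y ^ n = x := Iff.rfl

theorem Pw_index [IsCyclic G] [Finite G] (n : ℕ) : (Pw G n).index = (Nat.card G).gcd n := IsCyclic.index_powMonoidHom_range (G := G) n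

theorem Pw_mul (m k : ℕ) : Pw G (m * k) ≤ Pw G m := by
  rintro _ ⟨y, rfl⟩
  exact ⟨y ^ k, by show (y ^ k) ^ m = y ^ (m * k); rw [← pow_mul, mul_comm]⟩

/-- index of the square root of the subgroup of `n`-th powers -/
theorem sqrt_index [IsCyclic G] [Finite G] {m : ℕ} (h2 : 2 ∣ Nat.card G) {H : Subgroup G} (hH : ∀ x, x ∈ H ↔ x ^ 2 ∈ Pw G (2 * m)) :
    H.index * 2 = (Nat.card G).gcd (2 * m) := by
  have h1 : H = (Pw G (2 * m)).comap (powMonoidHom 2 : G →* G) := by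
    ext x
    rw [hH]; rfl
  have h3 : (Pw G (2 * m)).relIndex (Pw G 2) * (Pw G 2).index = (Pw G (2 * m)).index := Subgroup.relIndex_mul_index (Pw_mul 2 m)
  rw [Pw_index, Pw_index, Nat.gcd_eq_right h2] at h3
  rw [h1, Subgroup.index_comap]
  exact h3

end pw

section det
variable {F : Type u} [Field F] {ι ι' : Type} [Fintype ι] [DecidableEq ι] [Fintype ι'] [DecidableEq ι']

theorem det_kl (K : Matrix ι ι' F) (L : Matrix ι' ι F) (hKL : K * L = 1) (hLK : L * K = 1) (g : GL ι' F) : (kl K L hKL hLK g).det = g.det := by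
  apply Units.ext
  show (K * (g : Matrix ι' ι' F) * L).det = (g : Matrix ι' ι' F).det
  exact Matrix.det_conj_of_mul_eq_one hKL hLK

theorem det_scal' (c : Fˣ) : (scal c : GL ι F).det = c ^ Fintype.card ι := by
  apply Units.ext
  show ((scal c : GL ι F) : Matrix ι ι F).det = _
  rw [coe_scal, Matrix.det_smul, det_one, mul_one, Units.val_pow_eq_pow_val]

theorem det_sq_sim {M : Matrix ι ι F} (hM : M.det ≠ 0) {g : GL ι F} {c : Fˣ} (h : (g : Matrix ι ι F)ᵀ * M * (g : Matrix ι ι F) = (c : F) • M) : g.det ^ 2 = c ^ Fintype.card ι := by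
  apply Units.ext
  rw [Units.val_pow_eq_pow_val, Units.val_pow_eq_pow_val]
  show (g : Matrix ι ι F).det ^ 2 = _
  have h1 := congrArg Matrix.det h
  rw [Matrix.det_mul, Matrix.det_mul, Matrix.det_transpose, Matrix.det_smul] at h1
  apply mul_right_cancel₀ hM
  linear_combination h1

end det

section cnt
variable {F : Type u} [Field F] [Fintype F] {n : ℕ}

theorem mem_inn_iff (hn : 2 ≤ n) (g : GL (Fin n) F) : lft (cj g) ∈ Cfsg.Inn (Matrix.ProjectiveSpecialLinearGroup (Fin n) F) ↔ g.det ∈ Pw Fˣ n := by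
  constructor
  · rintro ⟨x, hx⟩
    induction x using QuotientGroup.induction_on with
    | H s =>
      have h1 : lft (cj (Matrix.SpecialLinearGroup.toGL s)) = lft (cj g) := by rw [← CfsgLib.AutPSL27.conj_mk]; exact hx
      have h3 : lft (cj (g * (Matrix.SpecialLinearGroup.toGL s)⁻¹)) = 1 := by
        rw [map_mul, map_mul, map_inv, map_inv, h1, mul_inv_cancel]
      obtain ⟨c, hc⟩ := (ker_iff hn _).1 h3
      have h4 : g = scal c * Matrix.SpecialLinearGroup.toGL s := by rw [← hc, inv_mul_cancel_right]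
      have h5 : (Matrix.SpecialLinearGroup.toGL s : GL (Fin n) F).det = 1 := Units.ext s.2
      refine ⟨c, ?_⟩
      show c ^ n = _
      rw [h4, map_mul, h5, mul_one, det_scal', Fintype.card_fin]
  · rintro ⟨c, hc⟩
    have hc' : c ^ n = g.det := hc
    have h1 : ((scal c)⁻¹ * g).det = 1 := by
      rw [map_mul, map_inv, det_scal', Fintype.card_fin, hc', inv_mul_cancel]
    have h2 : (((scal c)⁻¹ * g : GL (Fin n) F) : Matrix (Fin n) (Fin n) F).det = 1 := by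
      have := congrArg Units.val h1
      exact this
    obtain ⟨s, h3⟩ : ∃ s : Matrix.SpecialLinearGroup (Fin n) F, Matrix.SpecialLinearGroup.toGL s = (scal c)⁻¹ * g := ⟨⟨_, h2⟩, Units.ext rfl⟩
    refine ⟨QuotientGroup.mk s, ?_⟩
    rw [CfsgLib.AutPSL27.conj_mk]
    have h4 : (lft (cj (scal c)) : MulAut (Matrix.ProjectiveSpecialLinearGroup (Fin n) F)) = 1 := (ker_iff hn _).2 ⟨c, rfl⟩
    rw [h3, map_mul, map_mul, map_inv, map_inv, h4, inv_one, one_mul]

theorem count_eq (hn : 2 ≤ n) (a : GL (Fin n) F) :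
    Cfsg.splitClassCount (Cfsg.inndiagPSL n F) (Cfsg.Inn (Matrix.ProjectiveSpecialLinearGroup (Fin n) F)) (gam a) =
      (Pw Fˣ n ⊔ (Sim ((a⁻¹ : GL (Fin n) F) : Matrix (Fin n) (Fin n) F)).map Matrix.GeneralLinearGroup.det).index := by
  haveI : Nonempty (Fin n) := ⟨⟨0, by omega⟩⟩
  obtain ⟨ρ, hρ⟩ : ∃ ρ : GL (Fin n) F →* MulAut (Matrix.ProjectiveSpecialLinearGroup (Fin n) F), ρ = lft.comp cj := ⟨_, rfl⟩
  have hρ' : ∀ g, ρ g = lft (cj g) := fun g => by rw [hρ]; rfl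
  have hr : Cfsg.inndiagPSL n F = ρ.range := by rw [inndiag_eq, hρ]
  obtain ⟨N, hN⟩ : ∃ N : Subgroup (GL (Fin n) F), N = (Pw Fˣ n).comap Matrix.GeneralLinearGroup.det := ⟨_, rfl⟩
  haveI : N.Normal := by rw [hN]; infer_instance
  have hNm : ∀ g, g ∈ N ↔ ρ g ∈ Cfsg.Inn (Matrix.ProjectiveSpecialLinearGroup (Fin n) F) := by
    intro g
    rw [hρ', mem_inn_iff hn, hN]; rfl
  have hT : Cfsg.Inn (Matrix.ProjectiveSpecialLinearGroup (Fin n) F) ≤ ρ.range := by
    rintro _ ⟨x, rfl⟩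
    induction x using QuotientGroup.induction_on with
    | H s =>
      refine ⟨Matrix.SpecialLinearGroup.toGL s, ?_⟩
      rw [hρ', ← CfsgLib.AutPSL27.conj_mk]
  rw [hr, splitCount_rho ρ _ (gam a) N (Sim ((a⁻¹ : GL (Fin n) F) : Matrix (Fin n) (Fin n) F)) hNm hT (fun c => by rw [hρ', comm_iff hn])]
  have hs : Function.Surjective (Matrix.GeneralLinearGroup.det : GL (Fin n) F →* Fˣ) := Matrix.GeneralLinearGroup.det_surjective
  rw [← Subgroup.index_map_eq (N ⊔ Sim ((a⁻¹ : GL (Fin n) F) : Matrix (Fin n) (Fin n) F)) hs]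
  · rw [Subgroup.map_sup, hN, Subgroup.map_comap_eq, MonoidHom.range_eq_top.2 hs, top_inf_eq]
  · intro g hg
    apply (le_sup_left : N ≤ _)
    rw [hN, Subgroup.mem_comap, MonoidHom.mem_ker.1 hg]
    exact one_mem _

theorem inv_det_ne (a : GL (Fin n) F) : ((a⁻¹ : GL (Fin n) F) : Matrix (Fin n) (Fin n) F).det ≠ 0 := Units.ne_zero (Matrix.GeneralLinearGroup.det a⁻¹)

theorem card_units' : Nat.card Fˣ = Nat.card F - 1 := by
  rw [Nat.card_units]

/-- the count when all determinants are powers -/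
theorem count_three (hn : 2 ≤ n) (a : GL (Fin n) F) (h : Odd n ∨ (2 : F) = 0) :
    Cfsg.splitClassCount (Cfsg.inndiagPSL n F) (Cfsg.Inn (Matrix.ProjectiveSpecialLinearGroup (Fin n) F)) (gam a) = Nat.gcd n (Nat.card F - 1) := by
  rw [count_eq hn, sup_eq_left.2, Pw_index, card_units', Nat.gcd_comm]
  rintro _ ⟨g, hg, rfl⟩
  obtain ⟨c, hc⟩ := mem_Sim.1 hg
  have h1 := det_sq_sim (inv_det_ne a) hc
  rw [Fintype.card_fin] at h1
  obtain ⟨e, he⟩ : ∃ e : Fˣ, e ^ 2 = c := by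
    rcases h with ⟨k, hk⟩ | h
    · refine ⟨g.det * (c ^ k)⁻¹, ?_⟩
      rw [mul_pow, h1, hk, inv_pow, ← pow_mul, pow_succ, mul_comm k 2, mul_right_comm, mul_inv_cancel, one_mul]
    · haveI := CfsgLib.Eps27.charP_two h
      have hb : Function.Bijective (frobenius F 2) := bijective_frobenius F 2
      obtain ⟨x, hx⟩ := hb.2 (c : F)
      have hx' : x ^ 2 = c := hx
      have hx0 : x ≠ 0 := by
        rintro rfl
        rw [zero_pow (by norm_num)] at hx'
        exact c.ne_zero hx'.symm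
      exact ⟨Units.mk0 x hx0, Units.ext (by rw [Units.val_pow_eq_pow_val, Units.val_mk0, hx'])⟩
  have h3 : (g.det * (e ^ n)⁻¹) ^ 2 = 1 := by
    rw [mul_pow, h1, ← he, inv_pow, ← pow_mul, ← pow_mul, mul_comm n 2, mul_inv_cancel]
  have h4 : ((g.det * (e ^ n)⁻¹ : Fˣ) : F) * ((g.det * (e ^ n)⁻¹ : Fˣ) : F) = 1 * 1 := by
    rw [← Units.val_mul, ← pow_two, h3, Units.val_one, one_mul]
  rcases mul_self_eq_mul_self_iff.1 h4 with h5 | h5
  · refine ⟨e, ?_⟩
    show e ^ n = _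
    have h6 : g.det * (e ^ n)⁻¹ = 1 := Units.ext h5
    exact (mul_inv_eq_one.1 h6).symm
  · rcases h with hodd | h2
    · refine ⟨-e, ?_⟩
      show (-e) ^ n = _
      have h6 : g.det * (e ^ n)⁻¹ = -1 := Units.ext (by rw [h5, Units.val_neg, Units.val_one])
      rw [hodd.neg_pow]
      have h7 : g.det = -1 * e ^ n := by rw [← h6, inv_mul_cancel_right]
      rw [h7, neg_one_mul]
    · refine ⟨e, ?_⟩
      show e ^ n = _
      have h6 : g.det * (e ^ n)⁻¹ = 1 := Units.ext (by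
        rw [h5, Units.val_one]
        linear_combination -h2)
      exact (mul_inv_eq_one.1 h6).symm

theorem gsp_split {m : ℕ} (hm : 1 ≤ m) {g : GL (Fin m ⊕ Fin m) F} (hg : g ∈ Cfsg.GSp m F) :
    ∃ (c : Fˣ) (s : Matrix.symplecticGroup (Fin m) F), g = CfsgLib.AutPSp27.dS c * (CfsgLib.AutPSp27.toGSp s : GL (Fin m ⊕ Fin m) F) := by
  obtain ⟨c, hc⟩ := CfsgLib.AutPSp27.mem_GSp.1 hg
  have hd := CfsgLib.AutPSp27.dS_spec (m := m) c
  obtain ⟨A, hA⟩ : ∃ A : GL (Fin m ⊕ Fin m) F, A = (CfsgLib.AutPSp27.dS c)⁻¹ * g := ⟨_, rfl⟩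
  have hgA : g = CfsgLib.AutPSp27.dS c * A := by rw [hA, mul_inv_cancel_left]
  have hAs : (A : Matrix (Fin m ⊕ Fin m) (Fin m ⊕ Fin m) F) ∈ Matrix.symplecticGroup (Fin m) F := by
    rw [CfsgLib.AutPSp27.mem_Sp_iff]
    intro u v
    have h1 := hc u v
    rw [hgA, Units.val_mul, ← mulVec_mulVec, ← mulVec_mulVec, hd] at h1
    exact mul_left_cancel₀ c.ne_zero h1
  refine ⟨c, ⟨_, hAs⟩, ?_⟩
  rw [hgA]
  congr 1
  exact Units.ext rfl

theorem det_dS {m : ℕ} (c : Fˣ) : (CfsgLib.AutPSp27.dS c : GL (Fin m ⊕ Fin m) F).det = c ^ m := by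
  apply Units.ext
  show (diagonal (Sum.elim (fun _ => (c : F)) (fun _ => 1)) : Matrix (Fin m ⊕ Fin m) (Fin m ⊕ Fin m) F).det = _
  rw [det_diagonal, Fintype.prod_sum_type]
  simp

theorem det_toGSp {m : ℕ} (s : Matrix.symplecticGroup (Fin m) F) : (CfsgLib.AutPSp27.toGSp s : GL (Fin m ⊕ Fin m) F).det = 1 := Units.ext (SymplecticGroup.det_eq_one s.2)

/-- the count for alternating type -/
theorem count_one (hn : 2 ≤ n) {m : ℕ} (hm : n = 2 * m) {a : GL (Fin n) F} (ha : ∀ x : Fin n → F, x ⬝ᵥ (((a⁻¹ : GL (Fin n) F) : Matrix (Fin n) (Fin n) F) *ᵥ x) = 0) :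
    Cfsg.splitClassCount (Cfsg.inndiagPSL n F) (Cfsg.Inn (Matrix.ProjectiveSpecialLinearGroup (Fin n) F)) (gam a) = Nat.gcd m (Nat.card F - 1) := by
  have hm1 : 1 ≤ m := by omega
  obtain ⟨m', K, L, h1, h2, h3, h4⟩ := exists_symp a⁻¹ ha
  obtain rfl : m' = m := by omega
  have hD : (Sim ((a⁻¹ : GL (Fin n) F) : Matrix (Fin n) (Fin n) F)).map Matrix.GeneralLinearGroup.det = Pw Fˣ m' := by
    ext x
    constructor
    · rintro ⟨g, hg, rfl⟩
      obtain ⟨g', rfl⟩ := (kl K L h2 h3).surjective g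
      have hg' := (sim_transport K L h2 h3 (-1) h4 g').1 hg
      obtain ⟨c, s, hs⟩ := gsp_split hm1 hg'
      rw [det_kl, hs, map_mul, det_dS, det_toGSp, mul_one]
      exact ⟨c, rfl⟩
    · rintro ⟨c, rfl⟩
      refine ⟨kl K L h2 h3 (CfsgLib.AutPSp27.dS c), (sim_transport K L h2 h3 (-1) h4 _).2 (CfsgLib.AutPSp27.dS_mem c), ?_⟩
      rw [det_kl, det_dS]; rfl
  have hP : Pw Fˣ n ≤ Pw Fˣ m' := by
    rw [hm, mul_comm]
    exact Pw_mul m' 2
  rw [count_eq hn, hD, sup_eq_right.2 hP, Pw_index, card_units', Nat.gcd_comm]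

/-- the count for symmetric type in even dimension -/
theorem count_two (h2 : (2 : F) ≠ 0) (hn : 2 ≤ n) {m : ℕ} (hm : n = 2 * m) {a : GL (Fin n) F} (ha : (a : Matrix (Fin n) (Fin n) F)ᵀ = a)
    {ι : Type} [Fintype ι] [DecidableEq ι] {Q' : QuadraticForm F (ι → F)} (h : Ev Q' m) (t : Tr (QM ((a⁻¹ : GL (Fin n) F) : Matrix (Fin n) (Fin n) F)) Q') :
    Cfsg.splitClassCount (Cfsg.inndiagPSL n F) (Cfsg.Inn (Matrix.ProjectiveSpecialLinearGroup (Fin n) F)) (gam a) = Nat.gcd n (Nat.card F - 1) / 2 := by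
  have hpar : 2 ∣ Nat.card Fˣ := by
    have h3 : orderOf (-1 : Fˣ) = 2 := orderOf_eq_prime (by rw [neg_one_sq]) (neg_one_ne h2)
    rw [← h3]
    exact orderOf_dvd_natCard _
  have key : (Pw Fˣ n ⊔ (Sim ((a⁻¹ : GL (Fin n) F) : Matrix (Fin n) (Fin n) F)).map Matrix.GeneralLinearGroup.det).index * 2 = (Nat.card Fˣ).gcd (2 * m) := by
    apply sqrt_index hpar
    intro x
    rw [← hm]
    constructor
    · intro hx
      obtain ⟨y, hy, z, hz, rfl⟩ := Subgroup.mem_sup.1 hx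
      rw [mul_pow]
      apply mul_mem
      · exact pow_mem hy 2
      · obtain ⟨g, hg, rfl⟩ := hz
        obtain ⟨c, hc⟩ := mem_Sim.1 hg
        have h1 := det_sq_sim (inv_det_ne a) hc
        rw [Fintype.card_fin] at h1
        exact ⟨c, h1.symm⟩
    · rintro ⟨y, hy⟩
      apply (le_sup_right : _ ≤ Pw Fˣ n ⊔ _)
      have hyn : y ^ n = x ^ 2 := hy
      obtain ⟨g, hg, hgd⟩ := h.sim y
      have hmem : ∀ g' : GL ι F, g' ∈ GOs Q' → t.gl g' ∈ Sim ((a⁻¹ : GL (Fin n) F) : Matrix (Fin n) (Fin n) F) := by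
        intro g' hg'
        rw [sim_eq_GOs h2 (inv_symm ha)]
        exact t.gl_GOs hg'
      have h3 : (y ^ m : Fˣ) * (y ^ m) = x * x := by rw [← pow_add, ← two_mul, ← hm, hyn, pow_two]
      have h4 : ((y ^ m : Fˣ) : F) * ((y ^ m : Fˣ) : F) = (x : F) * x := by rw [← Units.val_mul, h3, Units.val_mul]
      rcases mul_self_eq_mul_self_iff.1 h4 with h5 | h5
      · refine ⟨t.gl g, hmem g ⟨y, hg⟩, ?_⟩
        rw [t.det_gl, hgd]
        exact Units.ext h5
      · obtain ⟨v, hv⟩ := h.hx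
        refine ⟨t.gl ((rfM Q' v hv : GL ι F) * g), hmem _ (mul_mem (iso_le (rfM Q' v hv).2) ⟨y, hg⟩), ?_⟩
        rw [t.det_gl, map_mul, hgd, det_rfM, neg_one_mul]
        apply Units.ext
        rw [Units.val_neg, h5, neg_neg]
  rw [count_eq hn]
  rw [card_units', ← hm, Nat.gcd_comm] at key
  omega

end cnt

end CfsgLib.GP27
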