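import Cfsg.Agent.LibGP27d

set_option autoImplicit false

/-! Orders of `PGSp` and `PGO`. -/

namespace CfsgLib.GP27

open Matrix Module
open CfsgLib.Semi27 (scal scal_comm scal_one scal_mul scal_mulVec scal_mul_mulVec)
open CfsgLib.Eps27 CfsgLib.RhoO27 CfsgLib.Even27 CfsgLib.Lift27 CfsgLib.Spinor27
open Cfsg.Agent.H22 (qPlus qOdd qMinus)

universe u

section ord
variable {F : Type u} [Field F] [Fintype F] {ι : Type} [Fintype ι] [DecidableEq ι]

theorem scal_inj [Nonempty ι] {c d : Fˣ} (h : (scal c : GL ι F) = scal d) : c = d := by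
  obtain ⟨i⟩ := (inferInstance : Nonempty ι)
  have h1 := congrArg Units.val h
  rw [coe_scal, coe_scal] at h1
  have h2 := congrFun (congrFun h1 i) i
  simp at h2
  exact Units.ext h2

theorem card_scalars [Nonempty ι] : Nat.card (Cfsg.Geo.scalars ι F) = Nat.card Fˣ := by
  have h : Function.Injective (Matrix.GeneralLinearGroup.scalar ι : Fˣ →* GL ι F) := fun c d h => scal_inj h
  have h2 : Cfsg.Geo.scalars ι F = (Matrix.GeneralLinearGroup.scalar ι : Fˣ →* GL ι F).range := by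
    ext g
    rw [mem_scalars]
    constructor
    · rintro ⟨c, rfl⟩
      exact ⟨c, rfl⟩
    · rintro ⟨c, rfl⟩
      exact ⟨c, rfl⟩
  rw [h2]
  exact (Nat.card_congr (MonoidHom.ofInjective h).toEquiv).symm

theorem card_projQuot [Nonempty ι] (Γ : Subgroup (GL ι F)) {S : Type*} [Group S] (j : S →* GL ι F) (hj : Function.Injective j) (μ : Γ →* Fˣ) (hμ : Function.Surjective μ)
    (hker : ∀ g : Γ, μ g = 1 ↔ (g : GL ι F) ∈ j.range) (hI : j.range ≤ Γ) (hs : ∀ c : Fˣ, scal c ∈ Γ) : Nat.card (Cfsg.projQuot Γ) = Nat.card S := by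
  have h1 : Nat.card j.range = Nat.card S := (Nat.card_congr (MonoidHom.ofInjective hj).toEquiv).symm
  have h2 : μ.ker = j.range.subgroupOf Γ := by
    ext g
    rw [MonoidHom.mem_ker, hker, Subgroup.mem_subgroupOf]
  have h3 : Nat.card μ.ker = Nat.card S := by
    rw [h2, ← h1]
    exact Nat.card_congr (Subgroup.subgroupOfEquivOfLe hI).toEquiv
  have h4 : μ.ker.index = Nat.card Fˣ := by
    rw [Subgroup.index_ker, MonoidHom.range_eq_top.2 hμ]
    exact Nat.card_congr (Subgroup.topEquiv).toEquiv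
  have h5 := Subgroup.card_mul_index μ.ker
  have h6 := Subgroup.card_mul_index ((Cfsg.Geo.scalars ι F).subgroupOf Γ)
  have hle : Cfsg.Geo.scalars ι F ≤ Γ := by
    intro g hg
    obtain ⟨c, rfl⟩ := mem_scalars.1 hg
    exact hs c
  have h7 : Nat.card ((Cfsg.Geo.scalars ι F).subgroupOf Γ) = Nat.card Fˣ := by
    rw [← card_scalars (ι := ι)]
    exact Nat.card_congr (Subgroup.subgroupOfEquivOfLe hle).toEquiv
  rw [h3, h4] at h5
  rw [h7, ← h5, mul_comm] at h6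
  have h8 : 0 < Nat.card Fˣ := Nat.card_pos
  exact Nat.eq_of_mul_eq_mul_right h8 h6

theorem card_PGSp {m : ℕ} (hm : 1 ≤ m) : Nat.card (Cfsg.PGSp m F) = Nat.card (Matrix.symplecticGroup (Fin m) F) := by
  haveI : Nonempty (Fin m ⊕ Fin m) := ⟨Sum.inl ⟨0, by omega⟩⟩
  obtain ⟨j, hj⟩ : ∃ j : Matrix.symplecticGroup (Fin m) F →* GL (Fin m ⊕ Fin m) F, ∀ s, (j s : Matrix (Fin m ⊕ Fin m) (Fin m ⊕ Fin m) F) = s :=
    ⟨{ toFun := fun s => (CfsgLib.AutPSp27.toGSp s : GL (Fin m ⊕ Fin m) F), map_one' := Units.ext rfl, map_mul' := fun s t => Units.ext rfl }, fun s => rfl⟩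
  apply card_projQuot (Cfsg.GSp m F) j (fun s t h => Subtype.ext (by rw [← hj, ← hj, h])) (CfsgLib.AutPSp27.mult hm)
  · intro c
    exact ⟨⟨_, CfsgLib.AutPSp27.dS_mem c⟩, CfsgLib.AutPSp27.mult_dS hm c⟩
  · intro g
    constructor
    · intro h
      have h1 : ((g : GL (Fin m ⊕ Fin m) F) : Matrix (Fin m ⊕ Fin m) (Fin m ⊕ Fin m) F) ∈ Matrix.symplecticGroup (Fin m) F := by
        rw [CfsgLib.AutPSp27.mem_Sp_iff]
        intro u v
        rw [CfsgLib.AutPSp27.mult_spec hm g, h, Units.val_one, one_mul]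
      exact ⟨⟨_, h1⟩, Units.ext (hj _)⟩
    · rintro ⟨s, hs⟩
      apply CfsgLib.AutPSp27.mult_eq hm
      intro u v
      rw [← hs, hj, Units.val_one, one_mul]
      exact CfsgLib.AutPSp27.mem_Sp_iff.1 s.2 u v
  · rintro _ ⟨s, rfl⟩
    rw [CfsgLib.AutPSp27.mem_GSp]
    refine ⟨1, fun u v => ?_⟩
    rw [hj, Units.val_one, one_mul]
    exact CfsgLib.AutPSp27.mem_Sp_iff.1 s.2 u v
  · intro c
    exact CfsgLib.AutPSp27.scal_mem c

theorem card_PGO {Q : QuadraticForm F (ι → F)} {n : ℕ} (h : Ev Q n) : Nat.card (Cfsg.PGO F ⇑Q) = Nat.card (Cfsg.isometryGroup F ⇑Q) := by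
  haveI : Nonempty ι := by
    have h1 := h.card
    have h3 := h.n1
    exact Fintype.card_pos_iff.1 (by omega)
  apply card_projQuot (GOs Q) (Cfsg.isometryGroup F ⇑Q).subtype (Subtype.val_injective) (mu h.hx)
  · intro c
    obtain ⟨g, hg, -⟩ := h.sim c
    exact ⟨⟨g, c, hg⟩, mu_eq _ hg⟩
  · intro g
    rw [Subgroup.range_subtype, Cfsg.Agent.H22.mem_isometryGroup]
    constructor
    · intro h1 v
      rw [mu_spec h.hx, h1, Units.val_one, one_mul]
    · intro h1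
      apply mu_eq
      intro v
      rw [h1, Units.val_one, one_mul]
  · rw [Subgroup.range_subtype]
    exact iso_le
  · intro c
    exact scal_mem c

end ord

section ne
variable {F : Type u} [Field F] [Fintype F]

theorem ne_aux {q p m A B : ℕ} (hp : p.Prime) (hq : p ∣ q) (hq0 : 0 < q) (hm : 1 ≤ m) (h : q ^ (m ^ 2) * A = 2 * q ^ (m * (m - 1)) * B) (h2 : p ≠ 2) (hB : ¬ p ∣ B) : False := by
  have h1 : m ^ 2 = m * (m - 1) + m := by
    obtain ⟨k, rfl⟩ : ∃ k, m = k + 1 := ⟨m - 1, by omega⟩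
    rw [Nat.add_sub_cancel]; ring
  rw [h1, pow_add] at h
  have h3 : q ^ (m * (m - 1)) * (q ^ m * A) = q ^ (m * (m - 1)) * (2 * B) := by
    calc q ^ (m * (m - 1)) * (q ^ m * A) = q ^ (m * (m - 1)) * q ^ m * A := by ring
      _ = _ := by rw [h]; ring
  have h4 : q ^ m * A = 2 * B := Nat.eq_of_mul_eq_mul_left (pow_pos hq0 _) h3
  have h5 : p ∣ 2 * B := by
    rw [← h4]
    exact dvd_mul_of_dvd_left (dvd_pow hq (by omega)) A
  rcases hp.dvd_mul.1 h5 with h6 | h6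
  · exact h2 ((Nat.prime_dvd_prime_iff_eq hp Nat.prime_two).1 h6)
  · exact hB h6

theorem not_dvd_prod {q p k : ℕ} (hp : p.Prime) (hq : p ∣ q) (hq0 : 0 < q) : ¬ p ∣ ∏ i ∈ Finset.range k, (q ^ (2 * (i + 1)) - 1) := by
  intro h
  obtain ⟨i, -, hi⟩ := (Prime.dvd_finset_prod_iff hp.prime _).1 h
  have h1 : p ∣ q ^ (2 * (i + 1)) := dvd_pow hq (by omega)
  have h2 : 1 ≤ q ^ (2 * (i + 1)) := Nat.one_le_pow _ _ hq0
  have h3 : p ∣ 1 := by
    have := (Nat.dvd_sub h1 hi)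
    rwa [Nat.sub_sub_self h2] at this
  exact hp.one_lt.ne' (Nat.dvd_one.1 h3)

theorem not_dvd_pm {q p m : ℕ} (hp : p.Prime) (hq : p ∣ q) (hq0 : 0 < q) (hm : 1 ≤ m) : ¬ p ∣ q ^ m - 1 ∧ ¬ p ∣ q ^ m + 1 := by
  have h1 : p ∣ q ^ m := dvd_pow hq (by omega)
  have h2 : 1 ≤ q ^ m := Nat.one_le_pow _ _ hq0
  constructor
  · intro hi
    have h3 : p ∣ 1 := by
      have := (Nat.dvd_sub h1 hi)
      rwa [Nat.sub_sub_self h2] at this
    exact hp.one_lt.ne' (Nat.dvd_one.1 h3)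
  · intro hi
    exact hp.one_lt.ne' (Nat.dvd_one.1 ((Nat.dvd_add_right h1).1 hi))

theorem pgo_plus_ne (h2 : (2 : F) ≠ 0) {m : ℕ} (hm : 1 ≤ m) : ¬ Nonempty (Cfsg.PGO F ⇑(qPlus m F) ≃* Cfsg.PGSp m F) := by
  rintro ⟨e⟩
  obtain ⟨k, rfl⟩ : ∃ k, m = k + 1 := ⟨m - 1, by omega⟩
  have h := Nat.card_congr e.toEquiv
  obtain ⟨p, hp⟩ := CharP.exists F
  have hpp : p.Prime := CharP.char_is_prime F p
  obtain ⟨f, hpp', hf⟩ := FiniteField.card F p
  have hdvd : p ∣ Fintype.card F := by rw [hf]; exact dvd_pow_self p f.ne_zero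
  have hp2 : p ≠ 2 := by
    rintro rfl
    apply h2
    have := CharP.cast_eq_zero F 2
    exact_mod_cast this
  rw [card_PGO (ev_qPlus h2 hm), card_PGSp hm, Cfsg.Agent.H22.card_sp, Nat.card_congr (Cfsg.Agent.H22.oIso (Cfsg.Agent.H22.qPlus (k + 1) F)).toEquiv,
    Cfsg.Agent.H22.card_O_plus k] at h
  apply ne_aux hpp hdvd Fintype.card_pos hm (A := ∏ i ∈ Finset.range (k + 1), (Fintype.card F ^ (2 * (i + 1)) - 1))
    (B := (Fintype.card F ^ (k + 1) - 1) * ∏ i ∈ Finset.range k, (Fintype.card F ^ (2 * (i + 1)) - 1)) _ hp2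
  · rw [hpp.dvd_mul, not_or]
    exact ⟨(not_dvd_pm hpp hdvd Fintype.card_pos (by omega)).1, not_dvd_prod hpp hdvd Fintype.card_pos⟩
  · rw [← h, Nat.add_sub_cancel]
    ring

theorem pgo_minus_ne (h2 : (2 : F) ≠ 0) {k : ℕ} {a b : F} (hab : ∀ z₁ z₂ : F, z₁ ^ 2 + a * z₁ * z₂ + b * z₂ ^ 2 = 0 → z₁ = 0 ∧ z₂ = 0) :
    ¬ Nonempty (Cfsg.PGO F ⇑(qMinus k F a b) ≃* Cfsg.PGSp (k + 1) F) := by
  rintro ⟨e⟩
  have h := Nat.card_congr e.toEquiv
  obtain ⟨p, hp⟩ := CharP.exists F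
  have hpp : p.Prime := CharP.char_is_prime F p
  obtain ⟨f, hpp', hf⟩ := FiniteField.card F p
  have hdvd : p ∣ Fintype.card F := by rw [hf]; exact dvd_pow_self p f.ne_zero
  have hp2 : p ≠ 2 := by
    rintro rfl
    apply h2
    have := CharP.cast_eq_zero F 2
    exact_mod_cast this
  rw [card_PGO (ev_qMinus h2 hab), card_PGSp (by omega), Cfsg.Agent.H22.card_sp, Nat.card_congr (Cfsg.Agent.H22.oIso (Cfsg.Agent.H22.qMinus k F a b)).toEquiv,
    Cfsg.Agent.H22.card_O_minus k a b hab] at h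
  apply ne_aux hpp hdvd Fintype.card_pos (m := k + 1) (by omega) (A := ∏ i ∈ Finset.range (k + 1), (Fintype.card F ^ (2 * (i + 1)) - 1))
    (B := (Fintype.card F ^ (k + 1) + 1) * ∏ i ∈ Finset.range k, (Fintype.card F ^ (2 * (i + 1)) - 1)) _ hp2
  · rw [hpp.dvd_mul, not_or]
    exact ⟨(not_dvd_pm hpp hdvd Fintype.card_pos (by omega)).2, not_dvd_prod hpp hdvd Fintype.card_pos⟩
  · rw [← h, Nat.add_sub_cancel]
    ring

end ne

end CfsgLib.GP27
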