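import Cfsg.Agent.LibGP27b
import Cfsg.Agent.LibH22Sp2

set_option autoImplicit false

/-! Characteristic two: symmetric matrices, their isometries. -/

namespace CfsgLib.GP27

open Matrix
open CfsgLib.Semi27 (scal scal_comm scal_one scal_mul scal_mulVec scal_mul_mulVec)

universe u

section iso
variable {F : Type u} [Field F] {ι ι' : Type} [Fintype ι] [DecidableEq ι] [Fintype ι'] [DecidableEq ι']

/-- isometries of a bilinear form -/
def Iso (M : Matrix ι ι F) : Subgroup (GL ι F) where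
  carrier := {g | (g : Matrix ι ι F)ᵀ * M * (g : Matrix ι ι F) = M}
  one_mem' := by
    show ((1 : GL ι F) : Matrix ι ι F)ᵀ * M * ((1 : GL ι F) : Matrix ι ι F) = M
    rw [Units.val_one, transpose_one, Matrix.one_mul, Matrix.mul_one]
  mul_mem' {g h} hg hh := by
    have hg' : (g : Matrix ι ι F)ᵀ * M * (g : Matrix ι ι F) = M := hg
    have hh' : (h : Matrix ι ι F)ᵀ * M * (h : Matrix ι ι F) = M := hh
    show ((g * h : GL ι F) : Matrix ι ι F)ᵀ * M * ((g * h : GL ι F) : Matrix ι ι F) = M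
    rw [Units.val_mul, transpose_mul]
    calc (h : Matrix ι ι F)ᵀ * (g : Matrix ι ι F)ᵀ * M * ((g : Matrix ι ι F) * (h : Matrix ι ι F)) =
        (h : Matrix ι ι F)ᵀ * ((g : Matrix ι ι F)ᵀ * M * (g : Matrix ι ι F)) * (h : Matrix ι ι F) := by simp only [Matrix.mul_assoc]
      _ = M := by rw [hg', hh']
  inv_mem' {g} hg := by
    have hg' : (g : Matrix ι ι F)ᵀ * M * (g : Matrix ι ι F) = M := hg
    show ((g⁻¹ : GL ι F) : Matrix ι ι F)ᵀ * M * ((g⁻¹ : GL ι F) : Matrix ι ι F) = M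
    conv_lhs => rw [← hg']
    have h1 : ((g⁻¹ : GL ι F) : Matrix ι ι F)ᵀ * (g : Matrix ι ι F)ᵀ = 1 := by rw [← transpose_mul, Units.mul_inv, transpose_one]
    calc ((g⁻¹ : GL ι F) : Matrix ι ι F)ᵀ * ((g : Matrix ι ι F)ᵀ * M * (g : Matrix ι ι F)) * ((g⁻¹ : GL ι F) : Matrix ι ι F) =
        (((g⁻¹ : GL ι F) : Matrix ι ι F)ᵀ * (g : Matrix ι ι F)ᵀ) * M * ((g : Matrix ι ι F) * ((g⁻¹ : GL ι F) : Matrix ι ι F)) := by simp only [Matrix.mul_assoc]
      _ = M := by rw [h1, Units.mul_inv, Matrix.one_mul, Matrix.mul_one]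

theorem mem_Iso {M : Matrix ι ι F} {g : GL ι F} : g ∈ Iso M ↔ (g : Matrix ι ι F)ᵀ * M * (g : Matrix ι ι F) = M := Iff.rfl

theorem Iso_le (M : Matrix ι ι F) : Iso M ≤ Sim M := by
  intro g hg
  rw [mem_Sim]
  exact ⟨1, by rw [Units.val_one, one_smul]; exact hg⟩

theorem scal_congr (M : Matrix ι ι F) (c : Fˣ) (g : GL ι F) : ((scal c * g : GL ι F) : Matrix ι ι F)ᵀ * M * ((scal c * g : GL ι F) : Matrix ι ι F) =
    ((c * c : Fˣ) : F) • ((g : Matrix ι ι F)ᵀ * M * (g : Matrix ι ι F)) := by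
  rw [coe_scal_mul, transpose_smul, Matrix.smul_mul, Matrix.smul_mul, Matrix.mul_smul, smul_smul, Units.val_mul]

theorem exists_sqrt_unit [Finite F] (h2 : (2 : F) = 0) (c : Fˣ) : ∃ d : Fˣ, d * d = c := by
  haveI := Fintype.ofFinite F
  haveI : CharP F 2 := CharTwo.of_one_ne_zero_of_two_eq_zero one_ne_zero h2
  obtain ⟨d, hd⟩ := (frobeniusEquiv F 2).surjective (c : F)
  rw [frobeniusEquiv_apply, frobenius_def, pow_two] at hd
  have hd0 : d ≠ 0 := by
    rintro rfl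
    rw [mul_zero] at hd
    exact c.ne_zero hd.symm
  exact ⟨Units.mk0 d hd0, Units.ext hd⟩

/-- characteristic two: similitudes are scalars times isometries -/
theorem sim_split [Finite F] (h2 : (2 : F) = 0) {M : Matrix ι ι F} {g : GL ι F} (hg : g ∈ Sim M) : ∃ c : Fˣ, ∃ i ∈ Iso M, g = scal c * i := by
  obtain ⟨c, hc⟩ := mem_Sim.1 hg
  obtain ⟨d, rfl⟩ := exists_sqrt_unit h2 c
  have hs : (scal d * scal d⁻¹ : GL ι F) = 1 := by rw [← scal_mul, mul_inv_cancel, scal_one]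
  refine ⟨d, scal d⁻¹ * g, ?_, ?_⟩
  · rw [mem_Iso, scal_congr, hc, smul_smul, ← Units.val_mul]
    have : d⁻¹ * d⁻¹ * (d * d) = 1 := by group
    rw [this, Units.val_one, one_smul]
  · rw [← mul_assoc, hs, one_mul]

theorem Iso_scal (h2 : (2 : F) = 0) {M : Matrix ι ι F} (hM : M ≠ 0) {c : Fˣ} (hc : (scal c : GL ι F) ∈ Iso M) : c = 1 := by
  have h1 := mem_Iso.1 hc
  have h3 := scal_congr M c 1
  rw [mul_one, h1, Units.val_one, transpose_one, Matrix.one_mul, Matrix.mul_one] at h3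
  obtain ⟨i, j, hij⟩ : ∃ i j, M i j ≠ 0 := by
    by_contra hcon
    push Not at hcon
    exact hM (by ext i j; exact hcon i j)
  have h4 := congrFun (congrFun h3 i) j
  rw [Matrix.smul_apply, smul_eq_mul] at h4
  have h5 : ((c * c : Fˣ) : F) = 1 := (mul_right_cancel₀ hij (by rw [one_mul]; exact h4)).symm
  rw [Units.val_mul] at h5
  have h6 : ((c : F) - 1) * ((c : F) - 1) = 0 := by linear_combination h5 - (c - 1) * h2
  exact Units.ext (sub_eq_zero.1 (mul_self_eq_zero.1 h6))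

/-- projective quotient when scalars split off -/
theorem projQuot_two {Γ I : Subgroup (GL ι F)} (hle : I ≤ Γ) (h : ∀ g ∈ Γ, ∃ c : Fˣ, ∃ i ∈ I, g = scal c * i) (hI : ∀ c : Fˣ, (scal c : GL ι F) ∈ I → c = 1) :
    Nonempty (Cfsg.projQuot Γ ≃* I) := by
  obtain ⟨f, hf⟩ : ∃ f : I →* Cfsg.projQuot Γ, ∀ i : I, f i = QuotientGroup.mk (⟨i, hle i.2⟩ : Γ) := ⟨(QuotientGroup.mk' _).comp (Subgroup.inclusion hle), fun i => rfl⟩
  refine ⟨(MulEquiv.ofBijective f ⟨?_, ?_⟩).symm⟩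
  · rw [injective_iff_map_eq_one]
    intro i hi
    rw [hf, QuotientGroup.eq_one_iff] at hi
    have h1 : (i : GL ι F) ∈ Cfsg.Geo.scalars ι F := hi
    obtain ⟨c, hc⟩ := mem_scalars.1 h1
    have h3 := hI c (by rw [← hc]; exact i.2)
    rw [h3, scal_one] at hc
    exact Subtype.ext hc
  · intro x
    obtain ⟨g, rfl⟩ := QuotientGroup.mk_surjective x
    obtain ⟨c, i, hi, hg⟩ := h g g.2
    refine ⟨⟨i, hi⟩, ?_⟩
    rw [hf, QuotientGroup.eq]
    show (((⟨i, hle hi⟩ : Γ)⁻¹ * g : Γ) : GL ι F) ∈ Cfsg.Geo.scalars ι F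
    rw [mem_scalars]
    refine ⟨c, ?_⟩
    show i⁻¹ * (g : GL ι F) = scal c
    rw [hg, scal_comm, inv_mul_cancel_left]

/-- in characteristic two the projective similitude group is the isometry group -/
theorem projQuot_Sim [Finite F] (h2 : (2 : F) = 0) {M : Matrix ι ι F} (hM : M ≠ 0) : Nonempty (Cfsg.projQuot (Sim M) ≃* Iso M) :=
  projQuot_two (Iso_le M) (fun _ hg => sim_split h2 hg) (fun _ hc => Iso_scal h2 hM hc)

end iso

section symm
variable {F : Type u} [Field F] {ι : Type} [Fintype ι] [DecidableEq ι]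

/-- in characteristic two a symmetric form has a diagonal vector -/
theorem exists_diag [Finite F] (h2 : (2 : F) = 0) {M : Matrix ι ι F} (hM : Mᵀ = M) : ∃ s : ι → F, ∀ x : ι → F, x ⬝ᵥ (M *ᵥ x) = (x ⬝ᵥ s) ^ 2 := by
  haveI := Fintype.ofFinite F
  haveI : CharP F 2 := CharTwo.of_one_ne_zero_of_two_eq_zero one_ne_zero h2
  have hsym : ∀ x y : ι → F, y ⬝ᵥ (M *ᵥ x) = x ⬝ᵥ (M *ᵥ y) := by
    intro x y
    rw [dotProduct_mulVec, dotProduct_comm, ← mulVec_transpose, hM]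
  have hadd : ∀ x y : ι → F, (x + y) ⬝ᵥ (M *ᵥ (x + y)) = x ⬝ᵥ (M *ᵥ x) + y ⬝ᵥ (M *ᵥ y) := by
    intro x y
    rw [mulVec_add, dotProduct_add, add_dotProduct, add_dotProduct, hsym x y]
    linear_combination (x ⬝ᵥ (M *ᵥ y)) * h2
  have hsmul : ∀ (c : F) (x : ι → F), (c • x) ⬝ᵥ (M *ᵥ (c • x)) = c ^ 2 * (x ⬝ᵥ (M *ᵥ x)) := by
    intro c x
    rw [mulVec_smul, dotProduct_smul, smul_dotProduct, smul_eq_mul, smul_eq_mul]; ring
  obtain ⟨φ, hφ⟩ : ∃ φ : (ι → F) →ₗ[F] F, ∀ x, (φ x) ^ 2 = x ⬝ᵥ (M *ᵥ x) := by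
    have hr : ∀ a : F, ((frobeniusEquiv F 2).symm a) ^ 2 = a := by
      intro a
      have := (frobeniusEquiv F 2).apply_symm_apply a
      rw [frobeniusEquiv_apply, frobenius_def] at this
      exact this
    refine ⟨{ toFun := fun x => (frobeniusEquiv F 2).symm (x ⬝ᵥ (M *ᵥ x)), map_add' := ?_, map_smul' := ?_ }, fun x => hr _⟩
    · intro x y
      rw [hadd, map_add]
    · intro c x
      rw [hsmul, map_mul]
      congr 1
      rw [RingEquiv.symm_apply_eq, frobeniusEquiv_apply, frobenius_def]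
      rfl
  refine ⟨fun i => φ (Pi.single i 1), fun x => ?_⟩
  rw [← hφ]
  congr 1
  conv_lhs => rw [pi_eq_sum_univ' x]
  rw [map_sum]
  unfold dotProduct
  apply Finset.sum_congr rfl
  intro i _
  rw [map_smul, smul_eq_mul]

end symm

end CfsgLib.GP27
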