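import Cfsg.Agent.LibGP27f

set_option autoImplicit false

/-! Characteristic two: the three types of symmetric matrices. -/

namespace CfsgLib.GP27

open Matrix
open CfsgLib.Semi27 (scal scal_comm scal_one scal_mul scal_mulVec scal_mul_mulVec)
open Cfsg.Agent.H22

universe u

section y
variable {F : Type u} [Field F] {n : ℕ}

theorem hsym' {M : Matrix (Fin n) (Fin n) F} (hM : Mᵀ = M) (x y : Fin n → F) : y ⬝ᵥ (M *ᵥ x) = x ⬝ᵥ (M *ᵥ y) := by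
  rw [dotProduct_mulVec, dotProduct_comm, ← mulVec_transpose, hM]

theorem congr_entry {ι : Type} [Fintype ι] [DecidableEq ι] (M : Matrix (Fin n) (Fin n) F) (K : Matrix (Fin n) ι F) (i j : ι) :
    (Kᵀ * M * K) i j = (K *ᵥ Pi.single i 1) ⬝ᵥ (M *ᵥ (K *ᵥ Pi.single j 1)) := by
  rw [bil_mul]
  simp

/-- type Y1 -/
theorem exists_Y1 (h2 : (2 : F) = 0) {M : GL (Fin n) F} (hM : (M : Matrix (Fin n) (Fin n) F)ᵀ = M) {e : Fin n → F}
    (he : ∀ x : Fin n → F, x ⬝ᵥ ((M : Matrix (Fin n) (Fin n) F) *ᵥ x) = (x ⬝ᵥ ((M : Matrix (Fin n) (Fin n) F) *ᵥ e)) ^ 2)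
    (h1 : e ⬝ᵥ ((M : Matrix (Fin n) (Fin n) F) *ᵥ e) = 1) :
    ∃ (m : ℕ) (K : Matrix (Fin n) (Unit ⊕ (Fin m ⊕ Fin m)) F) (L : Matrix (Unit ⊕ (Fin m ⊕ Fin m)) (Fin n) F), n = 2 * m + 1 ∧ K * L = 1 ∧ L * K = 1 ∧
      Kᵀ * (M : Matrix (Fin n) (Fin n) F) * K = ((1 : Fˣ) : F) • Matrix.fromBlocks (1 : Matrix Unit Unit F) 0 0 (Matrix.J (Fin m) F) := by
  obtain ⟨φ, hφ⟩ : ∃ φ : (Fin n → F) →ₗ[F] F, ∀ x, φ x = x ⬝ᵥ ((M : Matrix (Fin n) (Fin n) F) *ᵥ e) :=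
    ⟨{ toFun := fun x => x ⬝ᵥ ((M : Matrix (Fin n) (Fin n) F) *ᵥ e), map_add' := fun x y => add_dotProduct _ _ _, map_smul' := fun c x => smul_dotProduct _ _ _ }, fun x => rfl⟩
  obtain ⟨B, hB⟩ : ∃ B : LinearMap.BilinForm F (Fin n → F), ∀ x y, B x y = x ⬝ᵥ ((M : Matrix (Fin n) (Fin n) F) *ᵥ y) :=
    ⟨Matrix.toBilin' (M : Matrix (Fin n) (Fin n) F), fun x y => Matrix.toBilin'_apply' _ x y⟩
  have hφe : φ e = 1 := by rw [hφ, h1]
  have hBs : ∀ x y, B x y = B y x := fun x y => by rw [hB, hB, hsym' hM]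
  have hnd : ∀ v : LinearMap.ker φ, v ≠ 0 → ∃ w : LinearMap.ker φ, B v w ≠ 0 := by
    intro v hv
    by_contra hcon
    push Not at hcon
    apply hv
    apply Subtype.ext
    have hvk : φ (v : Fin n → F) = 0 := v.2
    have h5 : ∀ y, B v y = 0 := by
      intro y
      have h6 : y - φ y • e ∈ LinearMap.ker φ := by
        rw [LinearMap.mem_ker, map_sub, map_smul, hφe, smul_eq_mul, mul_one, sub_self]
      have h7 := hcon ⟨_, h6⟩
      have h8 : B v (y - φ y • e) = 0 := h7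
      rw [map_sub, map_smul, smul_eq_mul, hB (v : Fin n → F) e, ← hφ, hvk, mul_zero, sub_zero] at h8
      exact h8
    have h6 : (v : Fin n → F) ᵥ* (M : Matrix (Fin n) (Fin n) F) = 0 := by
      ext i
      have h7 := h5 (Pi.single i 1)
      rw [hB, dotProduct_mulVec] at h7
      simpa using h7
    have h7 : ((v : Fin n → F) ᵥ* (M : Matrix (Fin n) (Fin n) F)) ᵥ* ((M⁻¹ : GL (Fin n) F) : Matrix (Fin n) (Fin n) F) = 0 := by rw [h6, zero_vecMul]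
    rw [vecMul_vecMul, Units.mul_inv, vecMul_one] at h7
    exact h7
  obtain ⟨m, bs, hfr, hb1, hb2, hb3, hb4⟩ := CfsgLib.Forms27.exists_symplectic_basis (V := LinearMap.ker φ) (B.restrict (LinearMap.ker φ)) (by
    intro x
    show B x x = 0
    have hx : φ (x : Fin n → F) = 0 := x.2
    rw [hB, he, ← hφ, hx]; ring) (fun v hv => hnd v hv)
  have hrk : Module.finrank F (LinearMap.ker φ) + 1 = n := by
    have h3 := LinearMap.finrank_range_add_finrank_ker φ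
    have h4 : LinearMap.range φ = ⊤ := by
      rw [LinearMap.range_eq_top]
      intro c
      exact ⟨c • e, by rw [map_smul, hφe, smul_eq_mul, mul_one]⟩
    rw [h4, finrank_top, Module.finrank_self, Module.finrank_pi, Fintype.card_fin] at h3
    omega
  obtain ⟨ψ, hψ⟩ : ∃ ψ : (Unit ⊕ (Fin m ⊕ Fin m) → F) →ₗ[F] (Fin n → F), ψ (Pi.single (Sum.inl ()) 1) = e ∧
      ∀ i, ψ (Pi.single (Sum.inr i) 1) = bs i := by
    refine ⟨(Pi.basisFun F (Unit ⊕ (Fin m ⊕ Fin m))).constr F (Sum.elim (fun _ => e) (fun i => (bs i : Fin n → F))), ?_, ?_⟩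
    · have := (Pi.basisFun F (Unit ⊕ (Fin m ⊕ Fin m))).constr_basis F (Sum.elim (fun _ => e) (fun i => (bs i : Fin n → F))) (Sum.inl ())
      rw [Pi.basisFun_apply] at this
      exact this
    · intro i
      have := (Pi.basisFun F (Unit ⊕ (Fin m ⊕ Fin m))).constr_basis F (Sum.elim (fun _ => e) (fun i => (bs i : Fin n → F))) (Sum.inr i)
      rw [Pi.basisFun_apply] at this
      exact this
  obtain ⟨K, hK⟩ : ∃ K : Matrix (Fin n) (Unit ⊕ (Fin m ⊕ Fin m)) F, ∀ x, K *ᵥ x = ψ x := ⟨LinearMap.toMatrix' ψ, fun x => LinearMap.toMatrix'_mulVec ψ x⟩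
  have hG : Kᵀ * (M : Matrix (Fin n) (Fin n) F) * K = Matrix.fromBlocks (1 : Matrix Unit Unit F) 0 0 (Matrix.J (Fin m) F) := by
    ext i j
    rw [congr_entry, hK, hK, ← hB]
    have hke : ∀ i, B e (bs i) = 0 := by
      intro i
      have hx : φ (bs i : Fin n → F) = 0 := (bs i).2
      rw [hBs, hB, ← hφ, hx]
    have hm1 : ∀ x : F, -x = x := by
      intro x
      linear_combination -x * h2
    rcases i with i | i <;> rcases j with j | j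
    · rw [hψ.1, hB, h1]; rfl
    · rw [hψ.1, hψ.2, hke]; rfl
    · rw [hψ.1, hψ.2, hBs, hke]; rfl
    · rw [hψ.2, hψ.2, fromBlocks_apply₂₂]
      have hres : B (bs i) (bs j) = B.restrict (LinearMap.ker φ) (bs i) (bs j) := rfl
      rw [hres]
      rcases i with i | i <;> rcases j with j | j
      · rw [hb1]; rfl
      · rw [hb3]
        show _ = (-(1 : Matrix (Fin m) (Fin m) F)) i j
        rw [Matrix.neg_apply, hm1, Matrix.one_apply]
      · rw [hb4]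
        show _ = (1 : Matrix (Fin m) (Fin m) F) i j
        rw [Matrix.one_apply]
        split_ifs
        · rw [hm1]
        · rfl
      · rw [hb2]; rfl
  have hinv : IsUnit (Matrix.fromBlocks (1 : Matrix Unit Unit F) 0 0 (Matrix.J (Fin m) F)) := by
    rw [Matrix.isUnit_iff_isUnit_det, Matrix.det_fromBlocks_zero₂₁, Matrix.det_one, one_mul]
    exact Matrix.isUnit_det_J (Fin m) F
  obtain ⟨N, hN⟩ := hinv
  have hLK : ((N⁻¹ : GL (Unit ⊕ (Fin m ⊕ Fin m)) F) : Matrix (Unit ⊕ (Fin m ⊕ Fin m)) (Unit ⊕ (Fin m ⊕ Fin m)) F) * (Kᵀ * (M : Matrix (Fin n) (Fin n) F)) * K = 1 := by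
    rw [Matrix.mul_assoc, hG, ← hN, Units.inv_mul]
  have hcard : Unit ⊕ (Fin m ⊕ Fin m) ≃ Fin n := Fintype.equivFinOfCardEq (by simp; omega)
  refine ⟨m, K, ((N⁻¹ : GL (Unit ⊕ (Fin m ⊕ Fin m)) F) : Matrix (Unit ⊕ (Fin m ⊕ Fin m)) (Unit ⊕ (Fin m ⊕ Fin m)) F) * (Kᵀ * (M : Matrix (Fin n) (Fin n) F)), by omega, (Matrix.mul_eq_one_comm_of_equiv hcard).1 hLK, hLK, ?_⟩
  rw [hG, Units.val_one, one_smul]

/-- the standard non-alternating symmetric matrix in even dimension -/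
def N0 (m : ℕ) (F : Type u) [Field F] (u : Fin m ⊕ Fin m → F) : Matrix (Fin m ⊕ Fin m) (Fin m ⊕ Fin m) F :=
  Matrix.J (Fin m) F + Matrix.vecMulVec (Matrix.J (Fin m) F *ᵥ u) (Matrix.J (Fin m) F *ᵥ u)

theorem congr_vmv {ι ι' : Type} [Fintype ι] [DecidableEq ι] [Fintype ι'] [DecidableEq ι'] (K : Matrix ι ι' F) (x : ι → F) :
    Kᵀ * Matrix.vecMulVec x x * K = Matrix.vecMulVec (Kᵀ *ᵥ x) (Kᵀ *ᵥ x) := by
  rw [Matrix.mul_vecMulVec, Matrix.vecMulVec_mul, mulVec_transpose]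

/-- type Y0 -/
theorem exists_Y0 (h2 : (2 : F) = 0) {M : GL (Fin n) F} (hM : (M : Matrix (Fin n) (Fin n) F)ᵀ = M) {e : Fin n → F}
    (he : ∀ x : Fin n → F, x ⬝ᵥ ((M : Matrix (Fin n) (Fin n) F) *ᵥ x) = (x ⬝ᵥ ((M : Matrix (Fin n) (Fin n) F) *ᵥ e)) ^ 2)
    (h0 : e ⬝ᵥ ((M : Matrix (Fin n) (Fin n) F) *ᵥ e) = 0) (he0 : e ≠ 0) :
    ∃ (m : ℕ), n = 2 * m ∧ ∀ u : Fin m ⊕ Fin m → F, u ≠ 0 → ∃ (K : Matrix (Fin n) (Fin m ⊕ Fin m) F) (L : Matrix (Fin m ⊕ Fin m) (Fin n) F), K * L = 1 ∧ L * K = 1 ∧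
      Kᵀ * (M : Matrix (Fin n) (Fin n) F) * K = ((1 : Fˣ) : F) • N0 m F u := by
  have hm1 : ∀ x : F, -x = x := by
    intro x
    linear_combination -x * h2
  obtain ⟨s, hs⟩ : ∃ s : Fin n → F, s = (M : Matrix (Fin n) (Fin n) F) *ᵥ e := ⟨_, rfl⟩
  have hes : e ⬝ᵥ s = 0 := by rw [hs, h0]
  obtain ⟨M', hM'⟩ : ∃ M' : Matrix (Fin n) (Fin n) F, M' = (M : Matrix (Fin n) (Fin n) F) + Matrix.vecMulVec s s := ⟨_, rfl⟩
  have hM'v : ∀ x, M' *ᵥ x = (M : Matrix (Fin n) (Fin n) F) *ᵥ x + (s ⬝ᵥ x) • s := by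
    intro x
    rw [hM', Matrix.add_mulVec, Matrix.vecMulVec_mulVec]
    congr 1
    ext i
    simp [mul_comm]
  have hu : IsUnit M' := by
    rw [Matrix.isUnit_iff_isUnit_det, isUnit_iff_ne_zero]
    intro hdet
    obtain ⟨v, hv0, hv⟩ := Matrix.exists_mulVec_eq_zero_iff.2 hdet
    rw [hM'v] at hv
    have h3 : ((M⁻¹ : GL (Fin n) F) : Matrix (Fin n) (Fin n) F) *ᵥ ((M : Matrix (Fin n) (Fin n) F) *ᵥ v + (s ⬝ᵥ v) • s) = 0 := by rw [hv, mulVec_zero]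
    rw [mulVec_add, mulVec_mulVec, Units.inv_mul, one_mulVec, hs, mulVec_smul, mulVec_mulVec, Units.inv_mul, one_mulVec, ← hs] at h3
    have h4 : s ⬝ᵥ (v + (s ⬝ᵥ v) • e) = 0 := by rw [h3, dotProduct_zero]
    rw [dotProduct_add, dotProduct_smul, dotProduct_comm s e, hes, smul_zero, add_zero] at h4
    rw [h4, zero_smul, add_zero] at h3
    exact hv0 h3
  obtain ⟨b, hb⟩ := hu
  obtain ⟨m, K, L, hn, hKL, hLK, hK⟩ := exists_symp b (by
    intro x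
    rw [hb, hM'v, dotProduct_add, dotProduct_smul, he, ← hs, smul_eq_mul, dotProduct_comm s x]
    linear_combination (x ⬝ᵥ s) ^ 2 * h2)
  refine ⟨m, hn, fun u hu0 => ?_⟩
  rw [hb] at hK
  have hKJ : Kᵀ * M' * K = Matrix.J (Fin m) F := by
    rw [hK, Units.val_neg, Units.val_one]
    ext i j
    rw [Matrix.smul_apply, smul_eq_mul, neg_one_mul, hm1]
  have hMM : (M : Matrix (Fin n) (Fin n) F) = M' + Matrix.vecMulVec s s := by
    rw [hM']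
    ext i j
    rw [Matrix.add_apply, Matrix.add_apply]
    linear_combination -(Matrix.vecMulVec s s i j) * h2
  have hM'e : M' *ᵥ e = s := by
    rw [hM'v, ← hs, dotProduct_comm s e, hes, zero_smul, add_zero]
  have hKs : Kᵀ *ᵥ s = Matrix.J (Fin m) F *ᵥ (L *ᵥ e) := by
    rw [← hKJ, ← hM'e, mulVec_mulVec, mulVec_mulVec]
    congr 1
    rw [Matrix.mul_assoc (Kᵀ * M'), hKL, Matrix.mul_one]
  have hLe : L *ᵥ e ≠ 0 := by
    intro hcon
    apply he0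
    rw [← one_mulVec e, ← hKL, ← mulVec_mulVec, hcon, mulVec_zero]
  obtain ⟨g, hg⟩ := sp_transitive u (L *ᵥ e) hu0 hLe
  obtain ⟨G, hG⟩ : ∃ G : Matrix (Fin m ⊕ Fin m) (Fin m ⊕ Fin m) F, G = (g : Matrix (Fin m ⊕ Fin m) (Fin m ⊕ Fin m) F) := ⟨_, rfl⟩
  obtain ⟨G', hG'⟩ : ∃ G' : Matrix (Fin m ⊕ Fin m) (Fin m ⊕ Fin m) F, G' = ((g⁻¹ : Matrix.symplecticGroup (Fin m) F) : Matrix (Fin m ⊕ Fin m) (Fin m ⊕ Fin m) F) := ⟨_, rfl⟩
  have h1 : G * G' = 1 := by rw [hG, hG']; exact congrArg Subtype.val (mul_inv_cancel g)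
  have h1' : G' * G = 1 := by rw [hG, hG']; exact congrArg Subtype.val (inv_mul_cancel g)
  have hGJ : Gᵀ * Matrix.J (Fin m) F * G = Matrix.J (Fin m) F := by rw [hG]; exact SymplecticGroup.mem_iff'.1 g.2
  rw [← hG] at hg
  refine ⟨K * G, G' * L, ?_, ?_, ?_⟩
  · calc K * G * (G' * L) = K * (G * G') * L := by simp only [Matrix.mul_assoc]
      _ = 1 := by rw [h1, Matrix.mul_one, hKL]
  · calc G' * L * (K * G) = G' * (L * K) * G := by simp only [Matrix.mul_assoc]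
      _ = 1 := by rw [hLK, Matrix.mul_one, h1']
  · rw [hMM, Units.val_one, one_smul, Matrix.mul_add, Matrix.add_mul, congr_vmv]
    unfold N0
    congr 1
    · rw [transpose_mul]
      calc Gᵀ * Kᵀ * M' * (K * G) = Gᵀ * (Kᵀ * M' * K) * G := by simp only [Matrix.mul_assoc]
        _ = _ := by rw [hKJ, hGJ]
    · have h3 : (K * G)ᵀ *ᵥ s = Matrix.J (Fin m) F *ᵥ u := by
        rw [transpose_mul, ← mulVec_mulVec, hKs, ← hg, mulVec_mulVec, mulVec_mulVec]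
        conv_rhs => rw [← hGJ]
      rw [h3]

/-- the trichotomy for symmetric matrices in characteristic two -/
theorem trichotomy [Finite F] (h2 : (2 : F) = 0) {M : GL (Fin n) F} (hM : (M : Matrix (Fin n) (Fin n) F)ᵀ = M) :
    (∀ x : Fin n → F, x ⬝ᵥ ((M : Matrix (Fin n) (Fin n) F) *ᵥ x) = 0) ∨
    (∃ (m : ℕ) (K : Matrix (Fin n) (Unit ⊕ (Fin m ⊕ Fin m)) F) (L : Matrix (Unit ⊕ (Fin m ⊕ Fin m)) (Fin n) F), n = 2 * m + 1 ∧ K * L = 1 ∧ L * K = 1 ∧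
      Kᵀ * (M : Matrix (Fin n) (Fin n) F) * K = ((1 : Fˣ) : F) • Matrix.fromBlocks (1 : Matrix Unit Unit F) 0 0 (Matrix.J (Fin m) F)) ∨
    ∃ (m : ℕ), n = 2 * m ∧ ∀ u : Fin m ⊕ Fin m → F, u ≠ 0 → ∃ (K : Matrix (Fin n) (Fin m ⊕ Fin m) F) (L : Matrix (Fin m ⊕ Fin m) (Fin n) F), K * L = 1 ∧ L * K = 1 ∧
      Kᵀ * (M : Matrix (Fin n) (Fin n) F) * K = ((1 : Fˣ) : F) • N0 m F u := by
  obtain ⟨s, hs⟩ := exists_diag h2 hM
  obtain ⟨e, he⟩ : ∃ e, s = (M : Matrix (Fin n) (Fin n) F) *ᵥ e := ⟨((M⁻¹ : GL (Fin n) F) : Matrix (Fin n) (Fin n) F) *ᵥ s, by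
    rw [mulVec_mulVec, Units.mul_inv, one_mulVec]⟩
  subst he
  have h3 : e ⬝ᵥ ((M : Matrix (Fin n) (Fin n) F) *ᵥ e) = 0 ∨ e ⬝ᵥ ((M : Matrix (Fin n) (Fin n) F) *ᵥ e) = 1 := by
    have h4 := hs e
    have h5 : (e ⬝ᵥ ((M : Matrix (Fin n) (Fin n) F) *ᵥ e)) * (e ⬝ᵥ ((M : Matrix (Fin n) (Fin n) F) *ᵥ e) - 1) = 0 := by linear_combination -h4
    rcases mul_eq_zero.1 h5 with h6 | h6
    · exact Or.inl h6
    · exact Or.inr (sub_eq_zero.1 h6)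
  rcases h3 with h3 | h3
  · by_cases he0 : e = 0
    · left
      intro x
      rw [hs, he0, mulVec_zero, dotProduct_zero]; ring
    · exact Or.inr (Or.inr (exists_Y0 h2 hM hs h3 he0))
  · exact Or.inr (Or.inl (exists_Y1 h2 hM hs h3))

end y

end CfsgLib.GP27
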