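import Cfsg.Agent.LibGP27g

set_option autoImplicit false

/-! Characteristic two: isometry groups. -/

namespace CfsgLib.GP27

open Matrix
open CfsgLib.Semi27 (scal scal_comm scal_one scal_mul scal_mulVec scal_mul_mulVec)
open Cfsg.Agent.H22

universe u

section isos
variable {F : Type u} [Field F] {m : ℕ}

local notation "Sp" => Matrix.symplecticGroup (Fin m) F

/-- symplectic matrices as invertible matrices -/
def spGL (m : ℕ) (F : Type u) [Field F] : Matrix.symplecticGroup (Fin m) F →* GL (Fin m ⊕ Fin m) F where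
  toFun s := ⟨(s : Matrix (Fin m ⊕ Fin m) (Fin m ⊕ Fin m) F), ((s⁻¹ : Matrix.symplecticGroup (Fin m) F) : Matrix (Fin m ⊕ Fin m) (Fin m ⊕ Fin m) F),
    congrArg Subtype.val (mul_inv_cancel s), congrArg Subtype.val (inv_mul_cancel s)⟩
  map_one' := Units.ext rfl
  map_mul' _ _ := Units.ext rfl

theorem spGL_coe (s : Sp) : ((spGL m F s : GL (Fin m ⊕ Fin m) F) : Matrix (Fin m ⊕ Fin m) (Fin m ⊕ Fin m) F) = s := rfl

theorem spGL_inj : Function.Injective (spGL m F) := by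
  intro s t h
  exact Subtype.ext (congrArg Units.val h)

theorem iso_J : Nonempty (Iso (Matrix.J (Fin m) F) ≃* Sp) := by
  have hr : (spGL m F).range = Iso (Matrix.J (Fin m) F) := by
    ext g
    constructor
    · rintro ⟨s, rfl⟩
      exact SymplecticGroup.mem_iff'.1 s.2
    · intro hg
      exact ⟨⟨(g : Matrix (Fin m ⊕ Fin m) (Fin m ⊕ Fin m) F), SymplecticGroup.mem_iff'.2 hg⟩, Units.ext rfl⟩
  exact ⟨((MonoidHom.ofInjective spGL_inj).trans (MulEquiv.subgroupCongr hr)).symm⟩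

/-- `1 ⊕ D` -/
def oneGL (m : ℕ) (F : Type u) [Field F] : Matrix.symplecticGroup (Fin m) F →* GL (Unit ⊕ (Fin m ⊕ Fin m)) F where
  toFun s := ⟨Matrix.fromBlocks (1 : Matrix Unit Unit F) 0 0 (s : Matrix (Fin m ⊕ Fin m) (Fin m ⊕ Fin m) F),
    Matrix.fromBlocks (1 : Matrix Unit Unit F) 0 0 ((s⁻¹ : Matrix.symplecticGroup (Fin m) F) : Matrix (Fin m ⊕ Fin m) (Fin m ⊕ Fin m) F), by
      have h1 : (s : Matrix (Fin m ⊕ Fin m) (Fin m ⊕ Fin m) F) * ((s⁻¹ : Matrix.symplecticGroup (Fin m) F) : Matrix (Fin m ⊕ Fin m) (Fin m ⊕ Fin m) F) = 1 :=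
        congrArg Subtype.val (mul_inv_cancel s)
      rw [Matrix.fromBlocks_multiply, h1]
      simp, by
      have h1 : ((s⁻¹ : Matrix.symplecticGroup (Fin m) F) : Matrix (Fin m ⊕ Fin m) (Fin m ⊕ Fin m) F) * (s : Matrix (Fin m ⊕ Fin m) (Fin m ⊕ Fin m) F) = 1 :=
        congrArg Subtype.val (inv_mul_cancel s)
      rw [Matrix.fromBlocks_multiply, h1]
      simp⟩
  map_one' := Units.ext (by
    show Matrix.fromBlocks (1 : Matrix Unit Unit F) 0 0 (1 : Matrix (Fin m ⊕ Fin m) (Fin m ⊕ Fin m) F) = 1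
    simp)
  map_mul' s t := Units.ext (by
    show Matrix.fromBlocks (1 : Matrix Unit Unit F) 0 0 ((s : Matrix (Fin m ⊕ Fin m) (Fin m ⊕ Fin m) F) * (t : Matrix (Fin m ⊕ Fin m) (Fin m ⊕ Fin m) F)) =
      Matrix.fromBlocks (1 : Matrix Unit Unit F) 0 0 (s : Matrix (Fin m ⊕ Fin m) (Fin m ⊕ Fin m) F) *
      Matrix.fromBlocks (1 : Matrix Unit Unit F) 0 0 (t : Matrix (Fin m ⊕ Fin m) (Fin m ⊕ Fin m) F)
    rw [Matrix.fromBlocks_multiply]
    simp)

theorem oneGL_coe (s : Sp) : ((oneGL m F s : GL (Unit ⊕ (Fin m ⊕ Fin m)) F) : Matrix (Unit ⊕ (Fin m ⊕ Fin m)) (Unit ⊕ (Fin m ⊕ Fin m)) F) =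
    Matrix.fromBlocks (1 : Matrix Unit Unit F) 0 0 (s : Matrix (Fin m ⊕ Fin m) (Fin m ⊕ Fin m) F) := rfl

theorem oneGL_inj : Function.Injective (oneGL m F) := by
  intro s t h
  have h1 := congrArg Units.val h
  rw [oneGL_coe, oneGL_coe] at h1
  exact Subtype.ext (Matrix.fromBlocks_inj.1 h1).2.2.2

theorem J_alt (x : Fin m ⊕ Fin m → F) : x ⬝ᵥ (Matrix.J (Fin m) F *ᵥ x) = 0 := by
  unfold Matrix.J
  rw [Matrix.fromBlocks_mulVec]
  unfold dotProduct
  rw [Fintype.sum_sum_type]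
  simp only [Sum.elim_inl, Sum.elim_inr, zero_mulVec, zero_add, add_zero, one_mulVec, neg_mulVec, Pi.neg_apply, Function.comp_apply]
  rw [← Finset.sum_add_distrib]
  apply Finset.sum_eq_zero
  intro i _
  ring

theorem iso_one (h2 : (2 : F) = 0) : Nonempty (Iso (Matrix.fromBlocks (1 : Matrix Unit Unit F) 0 0 (Matrix.J (Fin m) F)) ≃* Sp) := by
  have hsq : ∀ x y : F, x * x = y * y → x = y := by
    intro x y h
    have : (x - y) * (x - y) = 0 := by linear_combination h + (y * y - x * y) * h2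
    exact sub_eq_zero.1 (mul_self_eq_zero.1 this)
  have hr : (oneGL m F).range = Iso (Matrix.fromBlocks (1 : Matrix Unit Unit F) 0 0 (Matrix.J (Fin m) F)) := by
    ext g
    constructor
    · rintro ⟨s, rfl⟩
      rw [mem_Iso, oneGL_coe, Matrix.fromBlocks_transpose, Matrix.fromBlocks_multiply, Matrix.fromBlocks_multiply]
      simp only [transpose_one, transpose_zero, Matrix.mul_one, Matrix.one_mul, Matrix.mul_zero, Matrix.zero_mul, add_zero, zero_add]
      rw [SymplecticGroup.mem_iff'.1 s.2]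
    · intro hg
      rw [mem_Iso] at hg
      obtain ⟨A, B, C, D, hABCD⟩ : ∃ A B C D, (g : Matrix (Unit ⊕ (Fin m ⊕ Fin m)) (Unit ⊕ (Fin m ⊕ Fin m)) F) = Matrix.fromBlocks A B C D :=
        ⟨_, _, _, _, (Matrix.fromBlocks_toBlocks _).symm⟩
      rw [hABCD, Matrix.fromBlocks_transpose, Matrix.fromBlocks_multiply, Matrix.fromBlocks_multiply] at hg
      simp only [Matrix.mul_one, Matrix.one_mul, Matrix.mul_zero, Matrix.zero_mul, add_zero, zero_add] at hg
      obtain ⟨h11, h12, h21, h22⟩ := Matrix.fromBlocks_inj.1 hg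
      -- rows
      have hcol : ∀ (X : Matrix (Fin m ⊕ Fin m) (Fin m ⊕ Fin m) F) (j : Fin m ⊕ Fin m), (Xᵀ * Matrix.J (Fin m) F * X) j j = 0 := by
        intro X j
        have h3 : (Xᵀ * Matrix.J (Fin m) F * X) j j = (X *ᵥ Pi.single j 1) ⬝ᵥ (Matrix.J (Fin m) F *ᵥ (X *ᵥ Pi.single j 1)) := by
          rw [bil_mul]; simp
        rw [h3, J_alt]
      have hcol' : (Cᵀ * Matrix.J (Fin m) F * C) () () = 0 := by
        have h3 : (Cᵀ * Matrix.J (Fin m) F * C) () () = (C *ᵥ Pi.single () 1) ⬝ᵥ (Matrix.J (Fin m) F *ᵥ (C *ᵥ Pi.single () 1)) := by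
          rw [bil_mul]; simp
        rw [h3, J_alt]
      have hB : B = 0 := by
        ext i j
        obtain rfl : i = () := rfl
        have h3 := congrFun (congrFun h22 j) j
        rw [Matrix.add_apply, hcol, add_zero] at h3
        have h4 : (Matrix.J (Fin m) F) j j = 0 := by
          rcases j with j | j <;> simp [Matrix.J]
        rw [h4, Matrix.mul_apply, Fintype.sum_unique, transpose_apply] at h3
        exact mul_self_eq_zero.1 h3
      have hA : A = 1 := by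
        ext i j
        obtain rfl : i = () := rfl
        obtain rfl : j = () := rfl
        have h3 := congrFun (congrFun h11 ()) ()
        rw [Matrix.add_apply, hcol', add_zero, Matrix.mul_apply, Fintype.sum_unique, transpose_apply, Matrix.one_apply_eq] at h3
        rw [Matrix.one_apply_eq]
        exact hsq _ _ (by rw [one_mul]; exact h3)
      rw [hB, Matrix.mul_zero, zero_add] at h22
      rw [hB, transpose_zero, Matrix.zero_mul, zero_add] at h21
      have hD : D ∈ Sp := SymplecticGroup.mem_iff'.2 h22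
      have hC : C = 0 := by
        have hDt : IsUnit (Dᵀ * Matrix.J (Fin m) F) := by
          rw [Matrix.isUnit_iff_isUnit_det, Matrix.det_mul, Matrix.det_transpose]
          exact (SymplecticGroup.symplectic_det hD).mul (Matrix.isUnit_det_J (Fin m) F)
        obtain ⟨U, hU⟩ := hDt
        rw [← hU] at h21
        have h5 : ((U⁻¹ : GL (Fin m ⊕ Fin m) F) : Matrix (Fin m ⊕ Fin m) (Fin m ⊕ Fin m) F) * ((U : Matrix (Fin m ⊕ Fin m) (Fin m ⊕ Fin m) F) * C) = 0 := by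
          rw [h21, Matrix.mul_zero]
        rw [← Matrix.mul_assoc, Units.inv_mul, Matrix.one_mul] at h5
        exact h5
      refine ⟨⟨D, hD⟩, Units.ext ?_⟩
      rw [oneGL_coe, hABCD, hA, hB, hC]
  exact ⟨((MonoidHom.ofInjective oneGL_inj).trans (MulEquiv.subgroupCongr hr)).symm⟩

/-- the transvection with vector `u` -/
theorem exists_tv (u : Fin m ⊕ Fin m → F) (hu : u ≠ 0) : ∃ t : Sp, Cfsg.IsTransvection (t : Matrix (Fin m ⊕ Fin m) (Fin m ⊕ Fin m) F) ∧
    (t : Matrix (Fin m ⊕ Fin m) (Fin m ⊕ Fin m) F) = 1 + Matrix.vecMulVec u (Matrix.J (Fin m) F *ᵥ u) := by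
  have hJt : (Matrix.J (Fin m) F)ᵀ = - Matrix.J (Fin m) F := Matrix.J_transpose (Fin m) F
  have hJu : Matrix.J (Fin m) F *ᵥ u ≠ 0 := by
    intro h
    apply hu
    have h3 : (Matrix.J (Fin m) F * Matrix.J (Fin m) F) *ᵥ u = 0 := by rw [← mulVec_mulVec, h, mulVec_zero]
    rw [Matrix.J_squared, neg_mulVec, one_mulVec, neg_eq_zero] at h3
    exact h3
  have halt := J_alt u
  have hmem : 1 + Matrix.vecMulVec u (Matrix.J (Fin m) F *ᵥ u) ∈ Sp := by
    rw [SymplecticGroup.mem_iff', transpose_add, transpose_one, Matrix.transpose_vecMulVec, Matrix.add_mul, Matrix.one_mul, Matrix.mul_add, Matrix.mul_one, Matrix.add_mul,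
      Matrix.vecMulVec_mul, Matrix.mul_vecMulVec, Matrix.vecMulVec_mul_vecMulVec]
    have h3 : u ᵥ* Matrix.J (Fin m) F = -(Matrix.J (Fin m) F *ᵥ u) := by
      rw [← mulVec_transpose, hJt, neg_mulVec]
    rw [h3, neg_dotProduct, dotProduct_comm, halt, neg_zero, zero_smul]
    ext i j
    simp [Matrix.vecMulVec_apply]
  refine ⟨⟨_, hmem⟩, ⟨?_, ?_⟩, rfl⟩
  · show (1 + Matrix.vecMulVec u (Matrix.J (Fin m) F *ᵥ u) - 1).rank = 1
    rw [add_sub_cancel_left]
    apply le_antisymm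
    · exact Matrix.rank_vecMulVec_le _ _
    · rw [Nat.one_le_iff_ne_zero]
      intro h
      have h3 : Matrix.vecMulVec u (Matrix.J (Fin m) F *ᵥ u) = 0 := by
        unfold Matrix.rank at h
        rw [Submodule.finrank_eq_zero, LinearMap.range_eq_bot] at h
        ext i j
        have h5 := congrFun (LinearMap.congr_fun h (Pi.single j 1)) i
        rw [Matrix.mulVecLin_apply] at h5
        simpa using h5
      rcases Matrix.vecMulVec_eq_zero.1 h3 with h4 | h4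
      · exact hu h4
      · exact hJu h4
  · show (1 + Matrix.vecMulVec u (Matrix.J (Fin m) F *ᵥ u) - 1) * (1 + Matrix.vecMulVec u (Matrix.J (Fin m) F *ᵥ u) - 1) = 0
    rw [add_sub_cancel_left, Matrix.vecMulVec_mul_vecMulVec, dotProduct_comm, halt, zero_smul, Matrix.vecMulVec_zero]

theorem vmv_eq_iff (h2 : (2 : F) = 0) {u v : Fin m ⊕ Fin m → F} : Matrix.vecMulVec v v = Matrix.vecMulVec u u ↔ v = u := by
  constructor
  · intro h
    ext i
    have h3 := congrFun (congrFun h i) i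
    rw [Matrix.vecMulVec_apply, Matrix.vecMulVec_apply] at h3
    have h4 : (v i - u i) * (v i - u i) = 0 := by linear_combination h3 + (u i * u i - v i * u i) * h2
    exact sub_eq_zero.1 (mul_self_eq_zero.1 h4)
  · rintro rfl; rfl

/-- isometries of the non-alternating form -/
theorem iso_N0 (h2 : (2 : F) = 0) {u : Fin m ⊕ Fin m → F} {t : Sp} (ht : (t : Matrix (Fin m ⊕ Fin m) (Fin m ⊕ Fin m) F) = 1 + Matrix.vecMulVec u (Matrix.J (Fin m) F *ᵥ u)) :
    Nonempty (Iso (N0 m F u) ≃* Subgroup.centralizer ({t} : Set Sp)) := by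
  have hsq : ∀ x y : F, x ^ 2 = y ^ 2 → x = y := by
    intro x y h
    have : (x - y) * (x - y) = 0 := by linear_combination h + (y * y - x * y) * h2
    exact sub_eq_zero.1 (mul_self_eq_zero.1 this)
  have hdiag : ∀ x : Fin m ⊕ Fin m → F, x ⬝ᵥ (N0 m F u *ᵥ x) = (x ⬝ᵥ (Matrix.J (Fin m) F *ᵥ u)) ^ 2 := by
    intro x
    unfold N0
    rw [add_mulVec, dotProduct_add, J_alt, zero_add, Matrix.vecMulVec_mulVec]
    have h3 : MulOpposite.op ((Matrix.J (Fin m) F *ᵥ u) ⬝ᵥ x) • (Matrix.J (Fin m) F *ᵥ u) = ((Matrix.J (Fin m) F *ᵥ u) ⬝ᵥ x) • (Matrix.J (Fin m) F *ᵥ u) := by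
      ext i; simp [mul_comm]
    rw [h3, dotProduct_smul, dotProduct_comm (Matrix.J (Fin m) F *ᵥ u) x, smul_eq_mul, pow_two]
  -- description of the isometries
  have hiso : ∀ g : GL (Fin m ⊕ Fin m) F, g ∈ Iso (N0 m F u) ↔ (g : Matrix (Fin m ⊕ Fin m) (Fin m ⊕ Fin m) F)ᵀ * Matrix.J (Fin m) F * (g : Matrix (Fin m ⊕ Fin m) (Fin m ⊕ Fin m) F) = Matrix.J (Fin m) F ∧
      (g : Matrix (Fin m ⊕ Fin m) (Fin m ⊕ Fin m) F)ᵀ *ᵥ (Matrix.J (Fin m) F *ᵥ u) = Matrix.J (Fin m) F *ᵥ u := by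
    intro g
    have hexp : (g : Matrix (Fin m ⊕ Fin m) (Fin m ⊕ Fin m) F)ᵀ * N0 m F u * (g : Matrix (Fin m ⊕ Fin m) (Fin m ⊕ Fin m) F) =
        (g : Matrix (Fin m ⊕ Fin m) (Fin m ⊕ Fin m) F)ᵀ * Matrix.J (Fin m) F * (g : Matrix (Fin m ⊕ Fin m) (Fin m ⊕ Fin m) F) +
        Matrix.vecMulVec ((g : Matrix (Fin m ⊕ Fin m) (Fin m ⊕ Fin m) F)ᵀ *ᵥ (Matrix.J (Fin m) F *ᵥ u)) ((g : Matrix (Fin m ⊕ Fin m) (Fin m ⊕ Fin m) F)ᵀ *ᵥ (Matrix.J (Fin m) F *ᵥ u)) := by
      unfold N0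
      rw [Matrix.mul_add, Matrix.add_mul, congr_vmv]
    rw [mem_Iso]
    constructor
    · intro hg
      have h3 : (g : Matrix (Fin m ⊕ Fin m) (Fin m ⊕ Fin m) F)ᵀ *ᵥ (Matrix.J (Fin m) F *ᵥ u) = Matrix.J (Fin m) F *ᵥ u := by
        have h4 : ∀ x : Fin m ⊕ Fin m → F, x ⬝ᵥ ((g : Matrix (Fin m ⊕ Fin m) (Fin m ⊕ Fin m) F)ᵀ *ᵥ (Matrix.J (Fin m) F *ᵥ u)) = x ⬝ᵥ (Matrix.J (Fin m) F *ᵥ u) := by
          intro x
          apply hsq
          rw [← hdiag x, ← hg, ← bil_mul, hdiag]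
          congr 1
          rw [dotProduct_mulVec, vecMul_transpose]
        ext i
        have h5 := h4 (Pi.single i 1)
        simpa using h5
      refine ⟨?_, h3⟩
      rw [hexp, h3] at hg
      unfold N0 at hg
      exact add_right_cancel hg
    · rintro ⟨h3, h4⟩
      rw [hexp, h3, h4]
      rfl
  have hr : ∀ s : Sp, spGL m F s ∈ Iso (N0 m F u) ↔ s ∈ Subgroup.centralizer ({t} : Set Sp) := by
    intro s
    obtain ⟨S, hS⟩ : ∃ S : Matrix (Fin m ⊕ Fin m) (Fin m ⊕ Fin m) F, S = (s : Matrix (Fin m ⊕ Fin m) (Fin m ⊕ Fin m) F) := ⟨_, rfl⟩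
    obtain ⟨S', hS'⟩ : ∃ S' : Matrix (Fin m ⊕ Fin m) (Fin m ⊕ Fin m) F, S' = ((s⁻¹ : Sp) : Matrix (Fin m ⊕ Fin m) (Fin m ⊕ Fin m) F) := ⟨_, rfl⟩
    have h1 : S * S' = 1 := by rw [hS, hS']; exact congrArg Subtype.val (mul_inv_cancel s)
    have h1' : S' * S = 1 := by rw [hS, hS']; exact congrArg Subtype.val (inv_mul_cancel s)
    have hJ : Sᵀ * Matrix.J (Fin m) F * S = Matrix.J (Fin m) F := by rw [hS]; exact SymplecticGroup.mem_iff'.1 s.2
    have hSJ : Sᵀ * Matrix.J (Fin m) F = Matrix.J (Fin m) F * S' := by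
      calc Sᵀ * Matrix.J (Fin m) F = Sᵀ * Matrix.J (Fin m) F * (S * S') := by rw [h1, Matrix.mul_one]
        _ = (Sᵀ * Matrix.J (Fin m) F * S) * S' := by simp only [Matrix.mul_assoc]
        _ = _ := by rw [hJ]
    have hJinj : ∀ x y : Fin m ⊕ Fin m → F, Matrix.J (Fin m) F *ᵥ x = Matrix.J (Fin m) F *ᵥ y → x = y := by
      intro x y h
      have h3 : (Matrix.J (Fin m) F * Matrix.J (Fin m) F) *ᵥ x = (Matrix.J (Fin m) F * Matrix.J (Fin m) F) *ᵥ y := by rw [← mulVec_mulVec, h, mulVec_mulVec]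
      rw [Matrix.J_squared, neg_mulVec, one_mulVec, neg_mulVec, one_mulVec, neg_inj] at h3
      exact h3
    rw [hiso, spGL_coe, ← hS]
    have hL : (Sᵀ * Matrix.J (Fin m) F * S = Matrix.J (Fin m) F ∧ Sᵀ *ᵥ (Matrix.J (Fin m) F *ᵥ u) = Matrix.J (Fin m) F *ᵥ u) ↔ S *ᵥ u = u := by
      constructor
      · rintro ⟨-, h3⟩
        rw [mulVec_mulVec, hSJ, ← mulVec_mulVec] at h3
        have h4 := hJinj _ _ h3
        conv_lhs => rw [← h4, mulVec_mulVec, h1, one_mulVec]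
      · intro h3
        refine ⟨hJ, ?_⟩
        rw [mulVec_mulVec, hSJ, ← mulVec_mulVec]
        congr 1
        conv_lhs => rw [← h3, mulVec_mulVec, h1', one_mulVec]
    rw [hL, Subgroup.mem_centralizer_singleton_iff]
    obtain ⟨T, hT⟩ : ∃ T : Matrix (Fin m ⊕ Fin m) (Fin m ⊕ Fin m) F, T = (t : Matrix (Fin m ⊕ Fin m) (Fin m ⊕ Fin m) F) := ⟨_, rfl⟩
    have hcomm : s * t = t * s ↔ S * T = T * S := by
      rw [Subtype.ext_iff, hS, hT]
      exact Iff.rfl
    rw [hcomm, hT, ht]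
    have h5 : S * (1 + Matrix.vecMulVec u (Matrix.J (Fin m) F *ᵥ u)) = (1 + Matrix.vecMulVec u (Matrix.J (Fin m) F *ᵥ u)) * S ↔
        Matrix.vecMulVec (S *ᵥ u) (S *ᵥ u) = Matrix.vecMulVec u u := by
      rw [Matrix.mul_add, Matrix.add_mul, Matrix.mul_one, Matrix.one_mul, add_right_inj, Matrix.mul_vecMulVec, Matrix.vecMulVec_mul]
      have h6 : (Matrix.J (Fin m) F *ᵥ u) ᵥ* S = Matrix.J (Fin m) F *ᵥ (S' *ᵥ u) := by
        rw [← mulVec_transpose, mulVec_mulVec, hSJ, mulVec_mulVec]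
      rw [h6]
      have h7 : ∀ x y : Fin m ⊕ Fin m → F, Matrix.vecMulVec x (Matrix.J (Fin m) F *ᵥ y) = Matrix.vecMulVec x y * (Matrix.J (Fin m) F)ᵀ := by
        intro x y
        rw [Matrix.vecMulVec_mul, vecMul_transpose]
      have h8 : ∀ x y : Fin m ⊕ Fin m → F, Matrix.vecMulVec x (S *ᵥ y) = Matrix.vecMulVec x y * Sᵀ := by
        intro x y
        rw [Matrix.vecMulVec_mul, vecMul_transpose]
      have hJJ : (Matrix.J (Fin m) F)ᵀ * (Matrix.J (Fin m) F) = 1 := by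
        rw [Matrix.J_transpose, Matrix.neg_mul, Matrix.J_squared, neg_neg]
      have hSS : S'ᵀ * Sᵀ = 1 := by rw [← transpose_mul, h1, transpose_one]
      have hSS' : Sᵀ * S'ᵀ = 1 := by rw [← transpose_mul, h1', transpose_one]
      constructor
      · intro h9
        rw [h7, h7] at h9
        have h10 := congrArg (fun X => X * Matrix.J (Fin m) F) h9
        simp only [Matrix.mul_assoc] at h10
        rw [hJJ, Matrix.mul_one, Matrix.mul_one] at h10
        rw [h8, h10, Matrix.vecMulVec_mul, ← mulVec_transpose, transpose_transpose, mulVec_mulVec, h1, one_mulVec]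
      · intro h9
        rw [h7, h7]
        congr 1
        rw [h8] at h9
        have h10 := congrArg (fun X => X * S'ᵀ) h9
        simp only [Matrix.mul_assoc] at h10
        rw [hSS', Matrix.mul_one] at h10
        rw [h10, Matrix.vecMulVec_mul, vecMul_transpose]
    rw [h5, vmv_eq_iff h2]
  have hmap : (Subgroup.centralizer ({t} : Set Sp)).map (spGL m F) = Iso (N0 m F u) := by
    ext g
    constructor
    · rintro ⟨s, hs, rfl⟩
      exact (hr s).2 hs
    · intro hg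
      have hm : (g : Matrix (Fin m ⊕ Fin m) (Fin m ⊕ Fin m) F) ∈ Sp := SymplecticGroup.mem_iff'.2 ((hiso g).1 hg).1
      have hgs : spGL m F ⟨_, hm⟩ = g := Units.ext rfl
      exact ⟨⟨_, hm⟩, (hr _).1 (by rw [hgs]; exact hg), hgs⟩
  exact ⟨(((Subgroup.centralizer ({t} : Set Sp)).equivMapOfInjective (spGL m F) spGL_inj).trans (MulEquiv.subgroupCongr hmap)).symm⟩

end isos

end CfsgLib.GP27
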