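import Cfsg.Agent.LibH22AU10
import Cfsg.Agent.LibGP27b

set_option autoImplicit false

/-! Graph involutions of `PSU_n` compared with graph involutions of `PSL_n` over the subfield. -/

namespace CfsgLib.GQ27

open Matrix
open CfsgLib.Semi27 (scal scal_comm scal_one scal_mul gm gm_scal)
open CfsgLib.GP27 (tp tp_coe tp_mul tp_tp tp_one tp_inv tp_scal gam)
open Cfsg.Agent.H22

universe u v

section sm
variable {F : Type u} [Field F] {ι : Type} [Fintype ι] [DecidableEq ι]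

/-- scalar multiple of an invertible matrix -/
noncomputable def sm (c : Fˣ) (g : GL ι F) : GL ι F := scal c * g

theorem sm_mul (c : Fˣ) (g h : GL ι F) : sm c g * h = sm c (g * h) := mul_assoc _ _ _

theorem mul_sm (c : Fˣ) (g h : GL ι F) : g * sm c h = sm c (g * h) := by
  unfold sm
  rw [← mul_assoc, ← scal_comm, mul_assoc]

theorem sm_sm (c d : Fˣ) (g : GL ι F) : sm c (sm d g) = sm (c * d) g := by
  unfold sm
  rw [scal_mul, mul_assoc]

theorem sm_one (g : GL ι F) : sm 1 g = g := by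
  unfold sm
  rw [scal_one, one_mul]

theorem sm_inv (c : Fˣ) (g : GL ι F) : (sm c g)⁻¹ = sm c⁻¹ g⁻¹ := by
  rw [inv_eq_iff_mul_eq_one, sm_mul, mul_sm, sm_sm, mul_inv_cancel, mul_inv_cancel, sm_one]

theorem sm_inj [Nonempty ι] {c d : Fˣ} {g : GL ι F} (h : sm c g = sm d g) : c = d := CfsgLib.Semi27.scal_inj g h

theorem sm_left {c : Fˣ} {g h : GL ι F} (e : sm c g = sm c h) : g = h := by
  have := congrArg (fun x => sm c⁻¹ x) e
  simpa only [sm_sm, inv_mul_cancel, sm_one] using this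

theorem sm_eq_iff {c : Fˣ} {g h : GL ι F} : sm c g = h ↔ g = sm c⁻¹ h := by
  constructor
  · rintro rfl
    rw [sm_sm, inv_mul_cancel, sm_one]
  · rintro rfl
    rw [sm_sm, mul_inv_cancel, sm_one]

theorem sm_coe (c : Fˣ) (g : GL ι F) : ((sm c g : GL ι F) : Matrix ι ι F) = (c : F) • (g : Matrix ι ι F) := CfsgLib.GP27.coe_scal_mul c g

end sm

section tpsm
variable {F : Type u} [Field F] {n : ℕ}

theorem tp_sm (c : Fˣ) (g : GL (Fin n) F) : tp (sm c g) = sm c (tp g) := by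
  unfold sm
  rw [tp_mul, tp_scal, scal_comm]

end tpsm

/-- the field data -/
structure GQ (F : Type u) [Field F] [Fintype F] (F₀ : Type v) [Field F₀] [Fintype F₀] (q : ℕ) (τ : F ≃+* F) (j : F₀ →+* F) : Prop where
  hF : Fintype.card F = q ^ 2
  hF₀ : Fintype.card F₀ = q
  hτ : ∀ x, τ x = x ^ q
  hj : ∀ x, τ (j x) = j x
  hs : ∀ y, τ y = y → ∃ x, j x = y
  tt : ∀ x, τ (τ x) = x
  ne : τ ≠ RingEquiv.refl F

theorem exists_GQ {F : Type u} [Field F] [Fintype F] {F₀ : Type v} [Field F₀] [Fintype F₀] {q : ℕ} (hF : Fintype.card F = q ^ 2) (hF₀ : Fintype.card F₀ = q) :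
    ∃ (τ : F ≃+* F) (j : F₀ →+* F), GQ F F₀ q τ j := by
  obtain ⟨τ, hτ, hf⟩ := CfsgLib.Un29.hermForm_unitary (F := F) 1 hF
  have ho : orderOf τ = 2 := orderOf_eq_prime (by
    rw [sq]
    ext x
    exact hf.involutive x) hf.ne_refl
  have hcard : Nat.card F₀ = Nat.card (CfsgLib.H9027.fixF τ) := by
    have h1 := CfsgLib.H9027.card_fixF τ
    rw [ho, Nat.card_eq_fintype_card, hF] at h1
    rw [Nat.card_eq_fintype_card, hF₀]
    exact Nat.pow_left_injective (n := 2) (by norm_num) h1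
  obtain ⟨e⟩ := CfsgLib.AutPSL27.field_equiv hcard
  refine ⟨τ, (CfsgLib.H9027.fixF τ).subtype.comp (e : F₀ →+* _), hF, hF₀, hτ, fun x => (e x).2, fun y hy => ?_, hf.involutive, hf.ne_refl⟩
  exact ⟨e.symm ⟨y, hy⟩, congrArg Subtype.val (e.apply_symm_apply ⟨y, hy⟩)⟩

section main
variable {F : Type u} [Field F] [Fintype F] {F₀ : Type v} [Field F₀] [Fintype F₀] {q n : ℕ} {τ : F ≃+* F} {j : F₀ →+* F}

/-- the automorphism on units -/
abbrev tu (τ : F ≃+* F) : Fˣ →* Fˣ := Units.map ((τ : F →+* F) : F →* F)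

/-- the embedding on units -/
abbrev uj (j : F₀ →+* F) : F₀ˣ →* Fˣ := Units.map (j : F₀ →* F)

/-- the embedding on matrices -/
noncomputable abbrev mj (j : F₀ →+* F) : GL (Fin n) F₀ →* GL (Fin n) F := Matrix.GeneralLinearGroup.map j

theorem gm_sm (c : Fˣ) (g : GL (Fin n) F) : gm τ (sm c g) = sm (tu τ c) (gm τ g) := by
  unfold sm
  rw [map_mul, gm_scal]

theorem mj_sm (c : F₀ˣ) (g : GL (Fin n) F₀) : mj j (sm c g) = sm (uj j c) (mj j g) := by
  unfold sm
  rw [map_mul]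
  congr 1
  exact Matrix.GeneralLinearGroup.map_scalar _ _

theorem gm_tp (g : GL (Fin n) F) : gm τ (tp g) = tp (gm τ g) := Units.ext rfl

theorem mj_tp (g : GL (Fin n) F₀) : mj j (tp g) = tp (mj j g) := Units.ext rfl

theorem mj_inj {g h : GL (Fin n) F₀} (e : mj j g = mj j h) : g = h := by
  apply Units.ext
  ext a b
  have h1 := congrArg (fun g : GL (Fin n) F => (g : Matrix (Fin n) (Fin n) F) a b) e
  exact j.injective h1

variable (H : GQ F F₀ q τ j)
include H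

theorem GQ.ho : orderOf τ = 2 := orderOf_eq_prime (by
  rw [sq]
  ext x
  exact H.tt x) H.ne

theorem GQ.bb (g : GL (Fin n) F) : gm τ (gm τ g) = g := by
  apply Units.ext
  ext a b
  exact H.tt _

theorem GQ.uu (c : Fˣ) : tu τ (tu τ c) = c := Units.ext (H.tt _)

theorem GQ.bj (g : GL (Fin n) F₀) : gm τ (mj j g) = mj j g := by
  apply Units.ext
  ext a b
  exact H.hj _

theorem GQ.uj' (c : F₀ˣ) : tu τ (uj j c) = uj j c := Units.ext (H.hj _)

theorem GQ.exu {c : Fˣ} (hc : tu τ c = c) : ∃ c₀ : F₀ˣ, uj j c₀ = c := by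
  obtain ⟨x, hx⟩ := H.hs c (congrArg Units.val hc)
  have hx0 : x ≠ 0 := by
    rintro rfl
    rw [map_zero] at hx
    exact c.ne_zero hx.symm
  exact ⟨Units.mk0 x hx0, Units.ext hx⟩

theorem GQ.exm {g : GL (Fin n) F} (hg : gm τ g = g) : ∃ g₀ : GL (Fin n) F₀, mj j g₀ = g := by
  have h1 : ∀ a b, ∃ x, j x = (g : Matrix (Fin n) (Fin n) F) a b := fun a b => H.hs _ (by
    have h1 := congrArg (fun g : GL (Fin n) F => (g : Matrix (Fin n) (Fin n) F) a b) hg
    exact h1)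
  choose M hM using h1
  have hM' : (Matrix.of M).map j = (g : Matrix (Fin n) (Fin n) F) := by
    ext a b
    exact hM a b
  have hd : IsUnit (Matrix.of M).det := by
    rw [isUnit_iff_ne_zero]
    intro h0
    have h2 : j (Matrix.of M).det = (g : Matrix (Fin n) (Fin n) F).det := by
      rw [← hM', RingHom.map_det]; rfl
    rw [h0, map_zero] at h2
    have h3 := (Matrix.isUnit_iff_isUnit_det _).1 g.isUnit
    rw [← h2] at h3
    exact not_isUnit_zero h3
  obtain ⟨g₀, hg₀⟩ := (Matrix.isUnit_iff_isUnit_det _).2 hd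
  refine ⟨g₀, Units.ext ?_⟩
  show (g₀ : Matrix (Fin n) (Fin n) F₀).map j = _
  rw [hg₀, hM']

theorem GQ.desc [NeZero n] {A B : GL (Fin n) F₀} {c : Fˣ} (h : mj j A = sm c (mj j B)) : ∃ c₀ : F₀ˣ, uj j c₀ = c ∧ A = sm c₀ B := by
  haveI : Nonempty (Fin n) := ⟨0⟩
  have h1 := congrArg (gm τ) h
  rw [gm_sm, H.bj, H.bj, h] at h1
  obtain ⟨c₀, rfl⟩ := H.exu (sm_inj h1.symm)
  exact ⟨c₀, rfl, mj_inj (j := j) (by rw [h, mj_sm])⟩

theorem GQ.exists_norm (d : F₀ˣ) : ∃ s : Fˣ, s * tu τ s = uj j d := by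
  obtain ⟨x, hx⟩ := exists_norm_eq H.hF (j d) ((uj j d).ne_zero) (by rw [← H.hτ, H.hj])
  have hx0 : x ≠ 0 := by
    rintro rfl
    rw [zero_pow (by omega)] at hx
    exact (uj j d).ne_zero hx.symm
  refine ⟨Units.mk0 x hx0, Units.ext ?_⟩
  show x * τ x = j d
  rw [H.hτ, ← hx]; ring

/-- the relation between unitary and rational matrices -/
def _root_.CfsgLib.GQ27.RR (τ : F ≃+* F) (j : F₀ →+* F) (a : GL (Fin n) F) (α : GL (Fin n) F₀) (b : GL (Fin n) F) (l e : Fˣ) : Prop :=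
  a * gm τ b = sm l b ∧ tp b * gm τ b = sm e (mj j α⁻¹)

end main

end CfsgLib.GQ27
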