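import Cfsg.Agent.LibGQ27a

set_option autoImplicit false

/-! Graph involutions of `PSU_n`: the correspondence. -/

namespace CfsgLib.GQ27

open Matrix
open CfsgLib.Semi27 (scal scal_comm scal_one scal_mul gm gm_scal)
open CfsgLib.GP27 (tp tp_coe tp_mul tp_tp tp_one tp_inv tp_scal gam)
open Cfsg.Agent.H22

universe u v

section main
variable {F : Type u} [Field F] [Fintype F] {F₀ : Type v} [Field F₀] [Fintype F₀] {q n : ℕ} {τ : F ≃+* F} {j : F₀ →+* F}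
  {a a' b b' : GL (Fin n) F} {α α' : GL (Fin n) F₀} {l l' e e' : Fˣ}

theorem RR.r2 (R : RR τ j a α b l e) : gm τ b = sm e ((tp b)⁻¹ * (mj j α)⁻¹) := by
  obtain ⟨-, h2⟩ := R
  rw [map_inv] at h2
  rw [← mul_sm, ← h2, inv_mul_cancel_left]

theorem RR.r1 (R : RR τ j a α b l e) : a = sm (l * e⁻¹) (b * mj j α * tp b) := by
  have h1 := R.1
  have h2 := R.r2
  have h3 : a = sm l (b * (gm τ b)⁻¹) := by
    rw [← sm_mul, ← h1, mul_inv_cancel_right]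
  rw [h3, h2, sm_inv, mul_sm, sm_sm]
  congr 1
  group

theorem key_fwd [NeZero n] (H : GQ F F₀ q τ j) (R : RR τ j a α b l e) (R' : RR τ j a' α' b' l' e') {k : GL (Fin n) F} (hk : tp k * gm τ k = 1) {c : Fˣ}
    (h : a' = sm c (k * a * tp k)) : ∃ (P : GL (Fin n) F₀) (c₀ : F₀ˣ) (s : Fˣ), α' = sm c₀ (P * α * tp P) ∧ b' * mj j P = sm s (k * b) := by
  haveI : Nonempty (Fin n) := ⟨0⟩
  obtain ⟨κ, hκ⟩ : ∃ κ, κ = b'⁻¹ * k * b := ⟨_, rfl⟩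
  have htκ : tp κ = tp b * tp k * (tp b')⁻¹ := by
    rw [hκ, tp_mul, tp_mul, tp_inv, mul_assoc]
  obtain ⟨c₁, hc1⟩ : ∃ c₁ : Fˣ, mj j α' = sm c₁ (κ * mj j α * tp κ) := by
    refine ⟨(l' * e'⁻¹)⁻¹ * (c * (l * e⁻¹)), ?_⟩
    have h1 := R'.r1
    have h2 : mj j α' = sm (l' * e'⁻¹)⁻¹ (b'⁻¹ * a' * (tp b')⁻¹) := by
      rw [h1, mul_sm, sm_mul, sm_sm, inv_mul_cancel, sm_one]
      group
    rw [h2, h, R.r1]
    simp only [mul_sm, sm_mul, sm_sm]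
    rw [htκ, hκ]
    congr 1
    group
  have hkb : gm τ k = (tp k)⁻¹ := (inv_eq_of_mul_eq_one_right hk).symm
  have e2 : gm τ κ = scal (e'⁻¹ * e * c₁) * κ := by
    show _ = sm _ κ
    have h1 : gm τ κ = (gm τ b')⁻¹ * gm τ k * gm τ b := by rw [hκ, map_mul, map_mul, map_inv]
    rw [h1, R'.r2, R.r2, hkb, hc1, htκ]
    simp only [mul_sm, sm_mul, sm_sm, sm_inv, _root_.mul_inv_rev, inv_inv]
    have h3 : κ * mj j α * (tp b * tp k * (tp b')⁻¹) * tp b' * (tp k)⁻¹ * ((tp b)⁻¹ * (mj j α)⁻¹) = κ := by group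
    rw [h3]
    congr 1
    simp only [mul_comm, mul_left_comm, mul_assoc]
  obtain ⟨y, h₀, hh, hy⟩ := CfsgLib.Semi27.fixed_multiple e2
  obtain ⟨P, rfl⟩ := H.exm hh
  have hy' : κ = sm y (mj j P) := hy
  have h4 : mj j α' = sm (c₁ * (y * y)) (mj j (P * α * tp P)) := by
    rw [hc1, hy', tp_sm, map_mul, map_mul, mj_tp]
    simp only [mul_sm, sm_mul, sm_sm]
  obtain ⟨c₀, -, h5⟩ := H.desc h4
  refine ⟨P, c₀, y⁻¹, h5, ?_⟩
  have h6 : mj j P = sm y⁻¹ κ := by rw [hy', sm_sm, inv_mul_cancel, sm_one]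
  rw [h6, mul_sm, hκ]
  congr 1
  group

theorem RR.type [NeZero n] (H : GQ F F₀ q τ j) (R : RR τ j a α b l e) : ∃ d : F₀ˣ, uj j d = (tu τ e)⁻¹ * e ∧ tp α = sm d⁻¹ α := by
  have h1 := R.2
  have h2 : tp (gm τ (tp b * gm τ b)) = tp b * gm τ b := by
    rw [map_mul, H.bb, gm_tp, tp_mul, tp_tp]
  rw [h1, gm_sm, tp_sm, H.bj, ← mj_tp] at h2
  have h3 : mj j (tp α⁻¹) = sm ((tu τ e)⁻¹ * e) (mj j α⁻¹) := by
    rw [← sm_sm, ← h2, sm_sm, inv_mul_cancel, sm_one]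
  obtain ⟨d, hd, h4⟩ := H.desc h3
  refine ⟨d, hd, ?_⟩
  have h5 : tp α = (tp α⁻¹)⁻¹ := by rw [tp_inv, inv_inv]
  rw [h5, h4, sm_inv, inv_inv]

theorem key_bwd [NeZero n] (H : GQ F F₀ q τ j) (R : RR τ j a α b l e) (R' : RR τ j a' α' b' l' e') {P : GL (Fin n) F₀} {c₀ : F₀ˣ}
    (h : α' = sm c₀ (P * α * tp P)) : ∃ (k : GL (Fin n) F) (s c : Fˣ), tp k * gm τ k = 1 ∧ b' * mj j P = sm s (k * b) ∧ a' = sm c (k * a * tp k) := by
  haveI : Nonempty (Fin n) := ⟨0⟩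
  obtain ⟨d, hd, hα⟩ := R.type H
  obtain ⟨d', hd', hα'⟩ := R'.type H
  have hdd : d = d' := by
    have h1 : tp α' = sm d⁻¹ α' := by
      conv_lhs => rw [h, tp_sm, tp_mul, tp_mul, tp_tp, hα]
      rw [sm_mul, mul_sm, sm_sm, mul_comm, ← sm_sm, ← mul_assoc, ← h]
    rw [hα'] at h1
    exact (inv_injective (sm_inj h1)).symm
  obtain ⟨d₁, hd1⟩ := H.exu (c := e * e'⁻¹) (by
    rw [map_mul, map_inv]
    have h1 : (tu τ e)⁻¹ * e = (tu τ e')⁻¹ * e' := by rw [← hd, ← hd', hdd]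
    have h2 : tu τ e * (tu τ e')⁻¹ = e * e'⁻¹ := by
      have h3 : (tu τ e')⁻¹ = (tu τ e)⁻¹ * e * e'⁻¹ := by rw [h1, mul_inv_cancel_right]
      rw [h3, mul_assoc, mul_inv_cancel_left]
    exact h2)
  obtain ⟨y, hy⟩ := H.exists_norm (c₀ * d₁)
  have hy' : y * tu τ y = uj j c₀ * (e * e'⁻¹) := by rw [hy, map_mul, hd1]
  have hαj : mj j α' = sm (uj j c₀) (mj j P * mj j α * tp (mj j P)) := by
    rw [h, mj_sm, map_mul, map_mul, mj_tp]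
  refine ⟨sm y (b' * mj j P * b⁻¹), y⁻¹, l' * e'⁻¹ * uj j c₀ * (y * y)⁻¹ * (l * e⁻¹)⁻¹, ?_, ?_, ?_⟩
  · rw [tp_sm, gm_sm, map_mul, map_mul, map_inv, R'.r2, R.r2, H.bj, hαj, tp_mul, tp_mul, tp_inv]
    simp only [mul_sm, sm_mul, sm_sm, sm_inv, _root_.mul_inv_rev, inv_inv]
    have h3 : (tp b)⁻¹ * (tp (mj j P) * tp b') * ((tp b')⁻¹ * ((tp (mj j P))⁻¹ * ((mj j α)⁻¹ * (mj j P)⁻¹)) * mj j P * (mj j α * tp b)) = 1 := by group
    rw [h3]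
    have h4 : y * (tu τ y * (e⁻¹ * (e' * (uj j c₀)⁻¹))) = 1 := by
      rw [← mul_assoc, hy']
      calc uj j c₀ * (e * e'⁻¹) * (e⁻¹ * (e' * (uj j c₀)⁻¹)) = uj j c₀ * (uj j c₀)⁻¹ * (e * e⁻¹) * (e' * e'⁻¹) := by
            simp only [mul_comm, mul_left_comm, mul_assoc]
        _ = 1 := by rw [mul_inv_cancel, mul_inv_cancel, mul_inv_cancel, mul_one, mul_one]
    have h5 : ∀ c : Fˣ, c = 1 → (sm c (1 : GL (Fin n) F)) = 1 := by rintro c rfl; exact sm_one _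
    apply h5
    rw [← h4]
    simp only [mul_comm, mul_left_comm, mul_assoc]
  · rw [sm_mul, sm_sm, inv_mul_cancel, sm_one, inv_mul_cancel_right]
  · rw [R'.r1, R.r1, hαj, tp_sm, tp_mul, tp_mul, tp_inv]
    simp only [mul_sm, sm_mul, sm_sm]
    have h3 : b' * mj j P * b⁻¹ * (b * mj j α * tp b) * ((tp b)⁻¹ * (tp (mj j P) * tp b')) = b' * (mj j P * mj j α * tp (mj j P)) * tp b' := by group
    rw [h3]
    congr 1
    have h4 : l' * e'⁻¹ * uj j c₀ * (y * y)⁻¹ * (l * e⁻¹)⁻¹ * (y * (y * (l * e⁻¹))) = l' * e'⁻¹ * uj j c₀ * ((y * y)⁻¹ * (y * y)) * ((l * e⁻¹)⁻¹ * (l * e⁻¹)) := by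
      simp only [mul_comm, mul_left_comm, mul_assoc]
    have h5 : l' * e'⁻¹ * uj j c₀ * (y * y)⁻¹ * (l * e⁻¹)⁻¹ * (y * (y * (l * e⁻¹))) = l' * e'⁻¹ * uj j c₀ := by
      rw [h4, inv_mul_cancel, inv_mul_cancel, mul_one, mul_one]
    refine h5.symm.trans ?_
    simp only [mul_comm, mul_left_comm, mul_assoc]

theorem exists_RR [NeZero n] (H : GQ F F₀ q τ j) (ha : tp a * gm τ a = 1) {c : Fˣ} (hc : a = sm c (tp a)) :
    ∃ (α : GL (Fin n) F₀) (b : GL (Fin n) F) (l e : Fˣ) (c₀ : F₀ˣ), RR τ j a α b l e ∧ α = sm c₀ (tp α) := by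
  haveI : Nonempty (Fin n) := ⟨0⟩
  have hab : gm τ a = (tp a)⁻¹ := (inv_eq_of_mul_eq_one_right ha).symm
  have hnrm : CfsgLib.Semi27.nrm τ a 2 = scal c := by
    show a * gm τ (a * gm τ 1) = scal c
    rw [map_one, mul_one, hab]
    have h1 : a * (tp a)⁻¹ = sm c (tp a) * (tp a)⁻¹ := by rw [← hc]
    rw [h1, sm_mul, mul_inv_cancel]
    unfold sm
    rw [mul_one]
  obtain ⟨l, b, hb⟩ := CfsgLib.Semi27.lang_matrix (by norm_num) H.ho hnrm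
  have hb' : a * gm τ b = sm l b := hb
  obtain ⟨S, hS⟩ : ∃ S, S = tp b * gm τ b := ⟨_, rfl⟩
  have hSb : gm τ S = tp S := by
    rw [hS, map_mul, H.bb, tp_mul, tp_tp, gm_tp]
  have hSc : gm τ S = scal c * S := by
    show _ = sm c S
    have h1 : a = sm l (b * (gm τ b)⁻¹) := by rw [← sm_mul, ← hb', mul_inv_cancel_right]
    have h2 : tp a = sm l ((tp (gm τ b))⁻¹ * tp b) := by rw [h1, tp_sm, tp_mul, tp_inv]
    have h3 : tp (gm τ b) * a * gm τ b = sm c (tp (gm τ b) * tp a * gm τ b) := by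
      conv_lhs => rw [hc]
      rw [mul_sm, sm_mul]
    rw [h2, h1] at h3
    simp only [mul_sm, sm_mul, sm_sm] at h3
    rw [mul_comm c l, ← sm_sm] at h3
    have h4 := sm_left h3
    rw [hS, map_mul, H.bb, gm_tp]
    have h5 : tp (gm τ b) * (b * (gm τ b)⁻¹) * gm τ b = tp (gm τ b) * b := by group
    have h6 : tp (gm τ b) * ((tp (gm τ b))⁻¹ * tp b) * gm τ b = tp b * gm τ b := by group
    rw [h5, h6] at h4
    exact h4
  obtain ⟨y, h, hh, hy⟩ := CfsgLib.Semi27.fixed_multiple hSc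
  obtain ⟨N, rfl⟩ := H.exm hh
  have hy' : S = sm y (mj j N) := hy
  have h1 : mj j (tp N) = sm c (mj j N) := by
    have h2 : tp S = sm c S := by rw [← hSb]; exact hSc
    rw [hy', tp_sm, ← mj_tp, sm_sm, mul_comm c y, ← sm_sm] at h2
    exact sm_left h2
  obtain ⟨c₀, -, hN⟩ := H.desc h1
  refine ⟨N⁻¹, b, l, y, c₀, ⟨hb', by rw [inv_inv, ← hS]; exact hy'⟩, ?_⟩
  rw [tp_inv, hN, sm_inv, sm_sm, mul_inv_cancel, sm_one]

theorem exists_RR' [NeZero n] (H : GQ F F₀ q τ j) {c₀ : F₀ˣ} (hα : α = sm c₀ (tp α)) :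
    ∃ (a b : GL (Fin n) F) (l e c : Fˣ), tp a * gm τ a = 1 ∧ a = sm c (tp a) ∧ RR τ j a α b l e := by
  haveI : Nonempty (Fin n) := ⟨0⟩
  have hcc : c₀ * c₀ = 1 := by
    have h1 : tp α = sm c₀ α := by
      conv_lhs => rw [hα]
      rw [tp_sm, tp_tp]
    rw [h1, sm_sm] at hα
    have h3 : sm 1 α = sm (c₀ * c₀) α := by rw [sm_one]; exact hα
    exact (sm_inj h3).symm
  have hcj : uj j c₀ * uj j c₀ = 1 := by rw [← map_mul, hcc, map_one]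
  obtain ⟨e, he⟩ := CfsgLib.Semi27.h90_unit (r := 2) (by norm_num) H.ho (uj j c₀) (by
    rw [Finset.prod_range_succ, Finset.prod_range_one, pow_zero, pow_one]
    show ((uj j c₀ : Fˣ) : F) * τ (j c₀) = 1
    rw [H.hj]
    exact congrArg Units.val hcj)
  have he' : uj j c₀ * tu τ e = e := Units.ext he
  have htα : tp α⁻¹ = sm c₀ α⁻¹ := by
    rw [tp_inv]
    conv_rhs => rw [hα]
    rw [sm_inv, sm_sm, mul_inv_cancel, sm_one]
  obtain ⟨g, hg⟩ : ∃ g, g = sm e (mj j α⁻¹) := ⟨_, rfl⟩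
  have hgt : tp (gm τ g) = g := by
    rw [hg, gm_sm, H.bj, tp_sm, ← mj_tp, htα, mj_sm, sm_sm, mul_comm, he']
  obtain ⟨h, hh⟩ := CfsgLib.AutPSL27.herm_matrix H.ne H.tt g (congrArg Units.val hgt)
  have hh' : g = h * tp (gm τ h) := Units.ext hh
  obtain ⟨l, hl⟩ := H.exists_norm c₀
  obtain ⟨b, hb⟩ : ∃ b, b = tp h := ⟨_, rfl⟩
  have hS : tp b * gm τ b = g := by rw [hb, tp_tp, gm_tp, ← hh']
  have hSb : tp (gm τ b) * b = sm (uj j c₀) g := by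
    have h1 : tp (gm τ b) * b = gm τ g := by rw [← hS, map_mul, H.bb, gm_tp]
    rw [h1, hg, gm_sm, H.bj, sm_sm]
    congr 1
    conv_rhs => rw [← he', ← mul_assoc, hcj, one_mul]
  have hta : tp (sm l (b * (gm τ b)⁻¹)) = sm l ((tp (gm τ b))⁻¹ * tp b) := by rw [tp_sm, tp_mul, tp_inv]
  refine ⟨sm l (b * (gm τ b)⁻¹), b, l, e, uj j c₀, ?_, ?_, ?_, ?_⟩
  · rw [hta, gm_sm, map_mul, map_inv, H.bb]
    simp only [mul_sm, sm_mul, sm_sm]
    have h1 : (tp (gm τ b))⁻¹ * tp b * (gm τ b * b⁻¹) = (tp (gm τ b))⁻¹ * g * b⁻¹ := by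
      rw [← hS]
      simp only [mul_assoc]
    have h2 : g = sm (uj j c₀)⁻¹ (tp (gm τ b) * b) := by rw [hSb, sm_sm, inv_mul_cancel, sm_one]
    rw [h1, h2]
    simp only [mul_sm, sm_mul, sm_sm]
    have h3 : (tp (gm τ b))⁻¹ * (tp (gm τ b) * b) * b⁻¹ = 1 := by group
    rw [h3, mul_comm (tu τ l) l, hl, mul_inv_cancel, sm_one]
  · rw [hta, sm_sm, mul_comm, ← sm_sm]
    congr 1
    have h1 : tp (gm τ b) * (b * (gm τ b)⁻¹) * gm τ b = tp (gm τ b) * (sm (uj j c₀) ((tp (gm τ b))⁻¹ * tp b)) * gm τ b := by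
      have h3 : tp (gm τ b) * (b * (gm τ b)⁻¹) * gm τ b = tp (gm τ b) * b := by group
      rw [h3, hSb, mul_sm, sm_mul, mul_inv_cancel_left, hS]
    exact mul_left_cancel (mul_right_cancel h1)
  · rw [sm_mul, inv_mul_cancel_right]
  · rw [hS, hg]

end main

end CfsgLib.GQ27
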