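import Cfsg.Agent.LibGQ27b

set_option autoImplicit false

/-! Graph involutions of `PSU_n`: automorphisms. -/

namespace CfsgLib.GQ27

open Matrix
open CfsgLib.Semi27 (scal scal_comm scal_one scal_mul gm gm_scal)
open CfsgLib.GP27 (tp tp_coe tp_mul tp_tp tp_one tp_inv tp_scal gam)
open Cfsg.Agent.H22

universe u v

/-- two homomorphisms with the same kernel have isomorphic ranges -/
theorem range_equiv {D A B : Type*} [Group D] [Group A] [Group B] (f : D →* A) (g : D →* B) (h : f.ker = g.ker) : Nonempty (f.range ≃* g.range) :=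
  ⟨((QuotientGroup.quotientKerEquivRange f).symm.trans (QuotientGroup.quotientMulEquivOfEq h)).trans (QuotientGroup.quotientKerEquivRange g)⟩

section main
variable {F : Type u} [Field F] [Fintype F] {F₀ : Type v} [Field F₀] [Fintype F₀] {q n : ℕ} {τ : F ≃+* F} {j : F₀ →+* F}

/-- the graph automorphism attached to a unitary matrix -/
noncomputable def gU (τ : F ≃+* F) (a : Cfsg.GU n F q) : MulAut (Cfsg.PSU n F q) := rhoU n F q a * phiU n F q τ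

/-- entrywise automorphism on the unitary group -/
noncomputable def gt (τ : F ≃+* F) (a : Cfsg.GU n F q) : Cfsg.GU n F q := ⟨gm τ a.1, gm_memU a.2⟩

theorem gt_coe (a : Cfsg.GU n F q) : ((gt τ a : Cfsg.GU n F q) : GL (Fin n) F) = gm τ a.1 := rfl

theorem phi_rho (a : Cfsg.GU n F q) : phiU n F q τ * rhoU n F q a = rhoU n F q (gt τ a) * phiU n F q τ := phiU_mul_rhoU τ a

variable (H : GQ F F₀ q τ j)
include H

theorem GQ.mem_GU {g : GL (Fin n) F} : g ∈ Cfsg.GU n F q ↔ tp g * gm τ g = 1 := by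
  rw [CfsgLib.AutPSL27.GU_eq H.hτ, CfsgLib.AutPSL27.mem_uni_iff]
  constructor
  · intro h
    exact Units.ext h
  · intro h
    exact congrArg Units.val h

theorem GQ.tpU (a : Cfsg.GU n F q) : (gm τ a.1)⁻¹ = tp a.1 := inv_eq_of_mul_eq_one_left (H.mem_GU.1 a.2)

theorem GQ.phi2 : phiU n F q τ * phiU n F q τ = 1 := by
  rw [← map_mul]
  have : τ * τ = 1 := by
    ext x
    exact H.tt x
  rw [this, map_one]

theorem GQ.gU_mul (a b : Cfsg.GU n F q) : gU τ a * gU τ b = rhoU n F q (a * gt τ b) := by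
  unfold gU
  calc rhoU n F q a * phiU n F q τ * (rhoU n F q b * phiU n F q τ) = rhoU n F q a * (phiU n F q τ * rhoU n F q b) * phiU n F q τ := by group
    _ = rhoU n F q (a * gt τ b) * (phiU n F q τ * phiU n F q τ) := by rw [phi_rho, map_mul]; group
    _ = _ := by rw [H.phi2, mul_one]

theorem GQ.rho_eq_iff (hn : 3 ≤ n) (a b : Cfsg.GU n F q) : rhoU n F q a = rhoU n F q b ↔ ∃ c : Fˣ, a.1 = sm c b.1 := by
  rw [← mul_inv_eq_one, ← map_inv, ← map_mul, rhoU_ker H.hF hn]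
  apply exists_congr
  intro c
  show a.1 * b.1⁻¹ = scal c ↔ _
  rw [mul_inv_eq_iff_eq_mul]
  exact Iff.rfl

theorem GQ.gU_eq_iff (hn : 3 ≤ n) (a b : Cfsg.GU n F q) : gU τ a = gU τ b ↔ ∃ c : Fˣ, a.1 = sm c b.1 := by
  unfold gU
  rw [mul_left_inj]
  exact H.rho_eq_iff hn a b

theorem GQ.gU_sq_iff (hn : 3 ≤ n) (a : Cfsg.GU n F q) : gU τ a * gU τ a = 1 ↔ ∃ c : Fˣ, a.1 = sm c (tp a.1) := by
  rw [H.gU_mul, rhoU_ker H.hF hn]
  apply exists_congr
  intro c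
  show a.1 * gm τ a.1 = scal c ↔ _
  rw [← H.tpU a, ← eq_mul_inv_iff_mul_eq]
  exact Iff.rfl

theorem GQ.conj_gU (k a : Cfsg.GU n F q) : rhoU n F q k * gU τ a * (rhoU n F q k)⁻¹ = gU τ (k * a * (gt τ k)⁻¹) := by
  unfold gU
  rw [mul_inv_eq_iff_eq_mul]
  calc rhoU n F q k * (rhoU n F q a * phiU n F q τ) = rhoU n F q (k * a) * phiU n F q τ := by rw [map_mul]; group
    _ = rhoU n F q (k * a * (gt τ k)⁻¹ * gt τ k) * phiU n F q τ := by rw [inv_mul_cancel_right]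
    _ = rhoU n F q (k * a * (gt τ k)⁻¹) * (rhoU n F q (gt τ k) * phiU n F q τ) := by rw [map_mul (rhoU n F q) (k * a * (gt τ k)⁻¹)]; group
    _ = _ := by rw [← phi_rho]; group

theorem GQ.conjU_iff (hn : 3 ≤ n) (a b : Cfsg.GU n F q) : Cfsg.IsConjUnder (Cfsg.inndiagPSU n F q) (gU τ a) (gU τ b) ↔
    ∃ (k : Cfsg.GU n F q) (c : Fˣ), b.1 = sm c (k.1 * a.1 * tp k.1) := by
  rw [inndiagPSU_eq]
  constructor
  · rintro ⟨-, ⟨k, rfl⟩, h⟩
    rw [H.conj_gU, H.gU_eq_iff hn] at h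
    obtain ⟨c, hc⟩ := h
    refine ⟨k, c, ?_⟩
    rw [hc, ← H.tpU k]
    rfl
  · rintro ⟨k, c, h⟩
    refine ⟨_, ⟨k, rfl⟩, ?_⟩
    rw [H.conj_gU, H.gU_eq_iff hn]
    refine ⟨c, ?_⟩
    rw [h, ← H.tpU k]
    rfl

theorem GQ.graph_iff (γ : MulAut (Cfsg.PSU n F q)) : (Cfsg.IsGraphAutClassPSU γ ∧ orderOf γ = 2) ↔ 3 ≤ n ∧ ∃ a : Cfsg.GU n F q, γ = gU τ a ∧ gU τ a * gU τ a = 1 := by
  constructor
  · rintro ⟨⟨hn, δ, φ, σ, hσ, hδ, hφ, rfl⟩, hord⟩
    refine ⟨hn, ?_⟩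
    obtain ⟨g, rfl⟩ := (isInnDiagU_iff δ).1 hδ
    rw [isFieldU_iff] at hφ
    subst hφ
    have h2 : (rhoU n F q g * phiU n F q σ) * (rhoU n F q g * phiU n F q σ) = 1 := by rw [← pow_two, ← hord, pow_orderOf_eq_one]
    have h3 : rhoU n F q (g * gt σ g) * phiU n F q (σ * σ) = 1 := by
      rw [← h2, map_mul, map_mul]
      calc rhoU n F q g * rhoU n F q (gt σ g) * (phiU n F q σ * phiU n F q σ) = rhoU n F q g * (rhoU n F q (gt σ g) * phiU n F q σ) * phiU n F q σ := by group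
        _ = _ := by rw [← phi_rho]; group
    obtain ⟨h4, -⟩ := unique_oneU H.hF hn h3
    have hσ1 : σ ≠ 1 := by
      rintro rfl
      rw [orderOf_one] at hσ
      exact absurd hσ (by decide)
    have hστ : σ = τ := CfsgLib.AutPSL27.gal_two_unique hσ1 (by rw [sq, h4]) H.ne (by rw [← H.ho, pow_orderOf_eq_one])
    subst hστ
    exact ⟨g, rfl, h2⟩
  · rintro ⟨hn, a, rfl, h⟩
    refine ⟨⟨hn, rhoU n F q a, phiU n F q τ, τ, ?_, (isInnDiagU_iff _).2 ⟨a, rfl⟩, (isFieldU_iff _ _).2 rfl, rfl⟩, ?_⟩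
    · rw [H.ho]; decide
    · apply orderOf_eq_prime (by rw [sq, h])
      intro h1
      exact H.ne (unique_oneU H.hF hn h1).1

/-- the correspondence between classes -/
theorem GQ.conj_corr (hn : 3 ≤ n) {a a' : Cfsg.GU n F q} {α α' : GL (Fin n) F₀} {b b' : GL (Fin n) F} {l e l' e' : Fˣ} (R : RR τ j a.1 α b l e) (R' : RR τ j a'.1 α' b' l' e') :
    Cfsg.IsConjUnder (Cfsg.inndiagPSU n F q) (gU τ a) (gU τ a') ↔ Cfsg.IsConjUnder (Cfsg.inndiagPSL n F₀) (gam α) (gam α') := by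
  haveI : NeZero n := ⟨by omega⟩
  rw [H.conjU_iff hn, CfsgLib.GP27.conj_iff (by omega)]
  constructor
  · rintro ⟨k, c, h⟩
    obtain ⟨P, c₀, s, h1, -⟩ := key_fwd H R R' (H.mem_GU.1 k.2) h
    refine ⟨P, c₀, ?_⟩
    have h3 := congrArg Units.val h1
    rw [sm_coe] at h3
    exact h3
  · rintro ⟨P, c₀, h⟩
    obtain ⟨k, s, c, h1, -, h3⟩ := key_bwd H R R' (P := P) (c₀ := c₀) (Units.ext (by rw [sm_coe]; exact h))
    exact ⟨⟨k, H.mem_GU.2 h1⟩, c, h3⟩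

/-- the correspondence between centralizers -/
theorem GQ.cen_corr (hn : 3 ≤ n) {a : Cfsg.GU n F q} {α : GL (Fin n) F₀} {b : GL (Fin n) F} {l e : Fˣ} (R : RR τ j a.1 α b l e) :
    Nonempty (↥(Cfsg.inndiagPSU n F q ⊓ Subgroup.centralizer {gU τ a}) ≃* ↥(Cfsg.inndiagPSL n F₀ ⊓ Subgroup.centralizer {gam α})) := by
  haveI : NeZero n := ⟨by omega⟩
  let D : Subgroup (GL (Fin n) F₀ × Cfsg.GU n F q) :=
    { carrier := {x | (∃ c : F₀ˣ, α = sm c (x.1 * α * tp x.1)) ∧ ∃ s : Fˣ, b * mj j x.1 = sm s (x.2.1 * b)}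
      one_mem' := ⟨⟨1, by rw [Prod.fst_one, sm_one, one_mul, tp_one, mul_one]⟩, ⟨1, by
        rw [Prod.fst_one, map_one, mul_one, sm_one]
        show b = ((1 : Cfsg.GU n F q) : GL (Fin n) F) * b
        rw [Subgroup.coe_one, one_mul]⟩⟩
      mul_mem' := by
        rintro ⟨x, k⟩ ⟨y, k'⟩ ⟨⟨c, hc⟩, s, hs⟩ ⟨⟨c', hc'⟩, s', hs'⟩
        refine ⟨⟨c * c', ?_⟩, s * s', ?_⟩
        · show α = sm (c * c') (x * y * α * tp (x * y))
          rw [tp_mul]
          have h1 : x * y * α * (tp y * tp x) = x * (y * α * tp y) * tp x := by group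
          have h2 : y * α * tp y = sm c'⁻¹ α := by
            have h3 : α = sm c' (y * α * tp y) := hc'
            conv_rhs => rw [h3]
            rw [sm_sm, inv_mul_cancel, sm_one]
          rw [h1, h2, mul_sm, sm_mul, sm_sm, mul_inv_cancel_right]
          exact hc
        · show b * mj j (x * y) = sm (s * s') ((k * k' : Cfsg.GU n F q).1 * b)
          have hs1 : b * mj j x = sm s (k.1 * b) := hs
          have hs2 : b * mj j y = sm s' (k'.1 * b) := hs'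
          rw [map_mul, ← mul_assoc, hs1, sm_mul, mul_assoc, hs2, mul_sm, sm_sm, ← mul_assoc]
          rfl
      inv_mem' := by
        rintro ⟨x, k⟩ ⟨⟨c, hc⟩, s, hs⟩
        have hc1 : α = sm c (x * α * tp x) := hc
        have hs1 : b * mj j x = sm s (k.1 * b) := hs
        refine ⟨⟨c⁻¹, ?_⟩, s⁻¹, ?_⟩
        · show α = sm c⁻¹ (x⁻¹ * α * tp x⁻¹)
          conv_rhs => rw [hc1]
          rw [tp_inv, mul_sm, sm_mul, sm_sm, inv_mul_cancel, sm_one]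
          group
        · show b * mj j x⁻¹ = sm s⁻¹ ((k⁻¹ : Cfsg.GU n F q).1 * b)
          rw [map_inv, mul_inv_eq_iff_eq_mul, sm_mul, mul_assoc, hs1]
          show b = sm s⁻¹ (k.1⁻¹ * sm s (k.1 * b))
          rw [mul_sm, sm_sm, inv_mul_cancel, sm_one, inv_mul_cancel_left] }
  have hD : ∀ x : GL (Fin n) F₀ × Cfsg.GU n F q, x ∈ D ↔ (∃ c : F₀ˣ, α = sm c (x.1 * α * tp x.1)) ∧ ∃ s : Fˣ, b * mj j x.1 = sm s (x.2.1 * b) := fun x => Iff.rfl
  obtain ⟨f, hf⟩ : ∃ f : D →* MulAut (Cfsg.PSU n F q), ∀ x : D, f x = rhoU n F q x.1.2 := ⟨(rhoU n F q).comp ((MonoidHom.snd _ _).comp D.subtype), fun x => rfl⟩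
  obtain ⟨g, hg⟩ : ∃ g : D →* MulAut (Matrix.ProjectiveSpecialLinearGroup (Fin n) F₀), ∀ x : D, g x = CfsgLib.AutPSL27.lft (CfsgLib.AutPSL27.cj x.1.1) :=
    ⟨(CfsgLib.AutPSL27.lft.comp CfsgLib.AutPSL27.cj).comp ((MonoidHom.fst _ _).comp D.subtype), fun x => rfl⟩
  have hker : f.ker = g.ker := by
    ext x
    obtain ⟨-, s, hs⟩ := (hD x.1).1 x.2
    rw [MonoidHom.mem_ker, MonoidHom.mem_ker, hf, hg, rhoU_ker H.hF hn, CfsgLib.GP27.ker_iff (by omega)]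
    constructor
    · rintro ⟨u, hu⟩
      have h1 : mj j x.1.1 = sm (s * u) (mj j 1) := by
        rw [map_one]
        have h2 : b * mj j x.1.1 = b * sm (s * u) 1 := by
          rw [hs, hu, mul_sm, mul_one, ← sm_sm]
          rfl
        exact mul_left_cancel h2
      obtain ⟨c₀, -, h2⟩ := H.desc h1
      refine ⟨c₀, ?_⟩
      rw [h2]
      exact mul_one _
    · rintro ⟨c, hc⟩
      refine ⟨s⁻¹ * uj j c, ?_⟩
      have h1 : x.1.1 = sm c 1 := by rw [hc]; exact (mul_one _).symm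
      rw [h1, mj_sm, map_one, mul_sm, mul_one] at hs
      have h2 : x.1.2.1 * b = sm (s⁻¹ * uj j c) 1 * b := by
        rw [sm_mul, one_mul, ← sm_sm, hs, sm_sm, inv_mul_cancel, sm_one]
      have h3 := mul_right_cancel h2
      rw [h3]
      exact mul_one _
  obtain ⟨e0⟩ := range_equiv f g hker
  have hfr : f.range = Cfsg.inndiagPSU n F q ⊓ Subgroup.centralizer {gU τ a} := by
    rw [inndiagPSU_eq]
    ext β
    rw [Subgroup.mem_inf, Subgroup.mem_centralizer_singleton_iff]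
    constructor
    · rintro ⟨x, rfl⟩
      rw [hf]
      obtain ⟨⟨c, hc⟩, s, hs⟩ := (hD x.1).1 x.2
      refine ⟨⟨_, rfl⟩, ?_⟩
      rw [← mul_inv_eq_iff_eq_mul, H.conj_gU, H.gU_eq_iff hn]
      obtain ⟨k, s', c', h1, h2, h3⟩ := key_bwd H R R hc
      have h4 : k = sm (s'⁻¹ * s) x.1.2.1 := by
        have h5 : k * b = sm (s'⁻¹ * s) x.1.2.1 * b := by
          rw [sm_mul, ← sm_sm, ← hs, h2, sm_sm, inv_mul_cancel, sm_one]
        exact mul_right_cancel h5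
      refine ⟨((s'⁻¹ * s) * (s'⁻¹ * s) * c')⁻¹, ?_⟩
      show x.1.2.1 * a.1 * (gm τ x.1.2.1)⁻¹ = _
      rw [H.tpU, ← sm_eq_iff]
      conv_rhs => rw [h3, h4]
      rw [tp_sm]
      simp only [sm_mul, mul_sm, sm_sm]
      congr 1
      simp only [mul_comm, mul_left_comm]
    · rintro ⟨⟨k, rfl⟩, h⟩
      rw [← mul_inv_eq_iff_eq_mul, H.conj_gU, H.gU_eq_iff hn] at h
      obtain ⟨c, hc⟩ := h
      have hc' : k.1 * a.1 * tp k.1 = sm c a.1 := by
        rw [← hc, ← H.tpU]; rfl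
      obtain ⟨P, c₀, s, h1, h2⟩ := key_fwd H R R (H.mem_GU.1 k.2) (c := c⁻¹) (by rw [hc', sm_sm, inv_mul_cancel, sm_one])
      exact ⟨⟨(P, k), (hD _).2 ⟨⟨c₀, h1⟩, s, h2⟩⟩, hf _⟩
  have hgr : g.range = Cfsg.inndiagPSL n F₀ ⊓ Subgroup.centralizer {gam α} := by
    ext β
    rw [Subgroup.mem_inf, CfsgLib.GP27.mem_inndiag, Subgroup.mem_centralizer_singleton_iff]
    constructor
    · rintro ⟨x, rfl⟩
      rw [hg]
      obtain ⟨⟨c, hc⟩, s, hs⟩ := (hD x.1).1 x.2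
      refine ⟨⟨_, rfl⟩, ?_⟩
      rw [← mul_inv_eq_iff_eq_mul, CfsgLib.GP27.conj_gam, CfsgLib.GP27.gam_eq_iff (by omega)]
      refine ⟨c⁻¹, ?_⟩
      show x.1.1 * α * tp x.1.1 = sm c⁻¹ α
      rw [← sm_eq_iff]
      exact hc.symm
    · rintro ⟨⟨P, rfl⟩, h⟩
      rw [← mul_inv_eq_iff_eq_mul, CfsgLib.GP27.conj_gam, CfsgLib.GP27.gam_eq_iff (by omega)] at h
      obtain ⟨c, hc⟩ := h
      have hc' : P * α * tp P = sm c α := hc
      have hc'' : α = sm c⁻¹ (P * α * tp P) := by rw [hc', sm_sm, inv_mul_cancel, sm_one]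
      obtain ⟨k, s, c', h1, h2, h3⟩ := key_bwd H R R hc''
      exact ⟨⟨(P, ⟨k, H.mem_GU.2 h1⟩), (hD _).2 ⟨⟨_, hc''⟩, s, h2⟩⟩, hg _⟩
  exact ⟨((MulEquiv.subgroupCongr hfr).symm.trans e0).trans (MulEquiv.subgroupCongr hgr)⟩

end main

end CfsgLib.GQ27
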