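import Cfsg.Agent.LibGQ27c

set_option autoImplicit false

/-! Graph involutions of `PSU_n`: transfer. -/

namespace CfsgLib.GQ27

open Matrix
open CfsgLib.Semi27 (scal scal_comm scal_one scal_mul gm gm_scal)
open CfsgLib.GP27 (tp tp_coe tp_mul tp_tp tp_one tp_inv tp_scal gam)
open Cfsg.Agent.H22

universe u v

section main
variable {F : Type u} [Field F] [Fintype F] {F₀ : Type v} [Field F₀] [Fintype F₀] {q n : ℕ} {τ : F ≃+* F} {j : F₀ →+* F}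

/-- corresponding graph involutions -/
def Cor (τ : F ≃+* F) (j : F₀ →+* F) (γ : MulAut (Cfsg.PSU n F q)) (β : MulAut (Matrix.ProjectiveSpecialLinearGroup (Fin n) F₀)) : Prop :=
  ∃ (a : Cfsg.GU n F q) (α : GL (Fin n) F₀) (b : GL (Fin n) F) (l e : Fˣ), γ = gU τ a ∧ β = gam α ∧ RR τ j a.1 α b l e

variable {γ γ' : MulAut (Cfsg.PSU n F q)} {β β' : MulAut (Matrix.ProjectiveSpecialLinearGroup (Fin n) F₀)}

theorem Cor.conj (H : GQ F F₀ q τ j) (hn : 3 ≤ n) (h : Cor τ j γ β) (h' : Cor τ j γ' β') :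
    Cfsg.IsConjUnder (Cfsg.inndiagPSU n F q) γ γ' ↔ Cfsg.IsConjUnder (Cfsg.inndiagPSL n F₀) β β' := by
  obtain ⟨a, α, b, l, e, rfl, rfl, R⟩ := h
  obtain ⟨a', α', b', l', e', rfl, rfl, R'⟩ := h'
  exact H.conj_corr hn R R'

theorem Cor.cen (H : GQ F F₀ q τ j) (hn : 3 ≤ n) (h : Cor τ j γ β) :
    Nonempty (↥(Cfsg.inndiagPSU n F q ⊓ Subgroup.centralizer {γ}) ≃* ↥(Cfsg.inndiagPSL n F₀ ⊓ Subgroup.centralizer {β})) := by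
  obtain ⟨a, α, b, l, e, rfl, rfl, R⟩ := h
  exact H.cen_corr hn R

theorem GQ.cor_of_U (H : GQ F F₀ q τ j) (h1 : Cfsg.IsGraphAutClassPSU γ) (h2 : orderOf γ = 2) :
    ∃ β : MulAut (Matrix.ProjectiveSpecialLinearGroup (Fin n) F₀), Cfsg.IsGraphAutClassPSL β ∧ orderOf β = 2 ∧ Cor τ j γ β := by
  obtain ⟨hn, a, rfl, ha⟩ := (H.graph_iff γ).1 ⟨h1, h2⟩
  haveI : NeZero n := ⟨by omega⟩
  obtain ⟨c, hc⟩ := (H.gU_sq_iff hn a).1 ha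
  obtain ⟨α, b, l, e, c₀, R, hα⟩ := exists_RR H (H.mem_GU.1 a.2) hc
  exact ⟨gam α, (CfsgLib.GP27.isGraph_iff _).2 ⟨hn, α, rfl⟩, CfsgLib.GP27.gam_order hn ((CfsgLib.GP27.gam_sq_iff (by omega) α).2 ⟨c₀, hα⟩), a, α, b, l, e, rfl, rfl, R⟩

theorem GQ.cor_of_L (H : GQ F F₀ q τ j) (h1 : Cfsg.IsGraphAutClassPSL β) (h2 : orderOf β = 2) :
    ∃ γ : MulAut (Cfsg.PSU n F q), Cfsg.IsGraphAutClassPSU γ ∧ orderOf γ = 2 ∧ Cor τ j γ β := by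
  obtain ⟨hn, α, rfl⟩ := (CfsgLib.GP27.isGraph_iff β).1 h1
  haveI : NeZero n := ⟨by omega⟩
  obtain ⟨c₀, hα⟩ := (CfsgLib.GP27.gam_sq_iff (by omega) α).1 (by rw [← pow_two, ← h2, pow_orderOf_eq_one])
  obtain ⟨a, b, l, e, c, ha, hc, R⟩ := exists_RR' H hα
  obtain ⟨h3, h4⟩ := (H.graph_iff (gU τ (⟨a, H.mem_GU.2 ha⟩ : Cfsg.GU n F q))).2 ⟨hn, _, rfl, (H.gU_sq_iff hn _).2 ⟨c, hc⟩⟩
  exact ⟨gU τ ⟨a, H.mem_GU.2 ha⟩, h3, h4, ⟨a, H.mem_GU.2 ha⟩, α, b, l, e, rfl, rfl, R⟩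

theorem GQ.cor_phi : Cor (q := q) (n := n) τ j (phiU n F q τ) (gam 1) := by
  refine ⟨1, 1, 1, 1, 1, ?_, rfl, ?_, ?_⟩
  · unfold gU
    rw [map_one, one_mul]
  · rw [map_one, mul_one, sm_one]; rfl
  · rw [map_one, mul_one, sm_one, inv_one, map_one, tp_one]

end main

end CfsgLib.GQ27
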