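import Cfsg.Agent.LibGQ27d
import Cfsg.Agent.LibGP27d

set_option autoImplicit false

/-! Graph involutions of `PSU_n`: counting classes. -/

namespace CfsgLib.GQ27

open Matrix
open CfsgLib.Semi27 (scal scal_comm scal_one scal_mul gm gm_scal)
open CfsgLib.GP27 (tp tp_coe tp_mul tp_tp tp_one tp_inv tp_scal gam Pw Sim mem_Sim QM QM_apply QM_inj inv_symm kl kl_coe det_kl det_scal')
open CfsgLib.Eps27 CfsgLib.RhoO27 CfsgLib.Even27 CfsgLib.Lift27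
open Cfsg.Agent.H22

universe u v

section rat
variable {F : Type u} [Field F] {n : ℕ}

theorem sim_coe {α P : GL (Fin n) F} {c : Fˣ} : P * α * tp P = sm c α ↔ (P : Matrix (Fin n) (Fin n) F)ᵀ * ((α⁻¹ : GL (Fin n) F) : Matrix (Fin n) (Fin n) F) * (P : Matrix (Fin n) (Fin n) F) =
    (c : F) • ((α⁻¹ : GL (Fin n) F) : Matrix (Fin n) (Fin n) F) := by
  have h := CfsgLib.GP27.sim_gl_iff P α c
  have h1 : (P * α * tp P = sm c α) ↔ (tp P * α⁻¹ * P = sm c α⁻¹) := h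
  rw [h1, ← sm_coe]
  exact ⟨fun h => congrArg Units.val h, fun h => Units.ext h⟩

theorem gsp_det [Fintype F] {m : ℕ} {g : GL (Fin m ⊕ Fin m) F} {c : Fˣ} (hg : (g : Matrix (Fin m ⊕ Fin m) (Fin m ⊕ Fin m) F)ᵀ * Matrix.J (Fin m) F * (g : Matrix (Fin m ⊕ Fin m) (Fin m ⊕ Fin m) F) = (c : F) • Matrix.J (Fin m) F) :
    g.det = c ^ m := by
  have hd : (CfsgLib.AutPSp27.dS c : GL (Fin m ⊕ Fin m) F) ∈ Cfsg.GSp m F := CfsgLib.AutPSp27.dS_mem c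
  have hds : ((CfsgLib.AutPSp27.dS c : GL (Fin m ⊕ Fin m) F) : Matrix (Fin m ⊕ Fin m) (Fin m ⊕ Fin m) F)ᵀ * Matrix.J (Fin m) F * (CfsgLib.AutPSp27.dS c : GL (Fin m ⊕ Fin m) F) = (c : F) • Matrix.J (Fin m) F := by
    apply CfsgLib.GP27.bil_ext
    intro u v
    rw [← CfsgLib.GP27.bil_mul, smul_mulVec, dotProduct_smul, smul_eq_mul]
    have h1 := CfsgLib.AutPSp27.dS_spec c u v
    rw [spB_apply, spB_apply] at h1
    exact h1
  obtain ⟨A, hA⟩ : ∃ A : GL (Fin m ⊕ Fin m) F, A = (CfsgLib.AutPSp27.dS c)⁻¹ * g := ⟨_, rfl⟩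
  have hgA : g = CfsgLib.AutPSp27.dS c * A := by rw [hA, mul_inv_cancel_left]
  have hAs : (A : Matrix (Fin m ⊕ Fin m) (Fin m ⊕ Fin m) F) ∈ Matrix.symplecticGroup (Fin m) F := by
    rw [SymplecticGroup.mem_iff']
    rw [hgA, Units.val_mul, transpose_mul] at hg
    have h1 : (A : Matrix (Fin m ⊕ Fin m) (Fin m ⊕ Fin m) F)ᵀ * ((CfsgLib.AutPSp27.dS c : GL (Fin m ⊕ Fin m) F) : Matrix (Fin m ⊕ Fin m) (Fin m ⊕ Fin m) F)ᵀ * Matrix.J (Fin m) F *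
        (((CfsgLib.AutPSp27.dS c : GL (Fin m ⊕ Fin m) F) : Matrix (Fin m ⊕ Fin m) (Fin m ⊕ Fin m) F) * (A : Matrix (Fin m ⊕ Fin m) (Fin m ⊕ Fin m) F)) =
        (A : Matrix (Fin m ⊕ Fin m) (Fin m ⊕ Fin m) F)ᵀ * (((CfsgLib.AutPSp27.dS c : GL (Fin m ⊕ Fin m) F) : Matrix (Fin m ⊕ Fin m) (Fin m ⊕ Fin m) F)ᵀ * Matrix.J (Fin m) F *
        ((CfsgLib.AutPSp27.dS c : GL (Fin m ⊕ Fin m) F) : Matrix (Fin m ⊕ Fin m) (Fin m ⊕ Fin m) F)) * (A : Matrix (Fin m ⊕ Fin m) (Fin m ⊕ Fin m) F) := by simp only [Matrix.mul_assoc]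
    rw [h1, hds, Matrix.mul_smul, Matrix.smul_mul] at hg
    exact smul_right_injective _ c.ne_zero hg
  have hA1 : A.det = 1 := Units.ext (SymplecticGroup.det_eq_one hAs)
  rw [hgA, map_mul, CfsgLib.GP27.det_dS, hA1, mul_one]

/-- determinants of similitudes, alternating type -/
theorem alt_det [Fintype F] {m : ℕ} (hm : n = 2 * m) {α : GL (Fin n) F} (hα : ∀ x : Fin n → F, x ⬝ᵥ (((α⁻¹ : GL (Fin n) F) : Matrix (Fin n) (Fin n) F) *ᵥ x) = 0) :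
    (∀ (P : GL (Fin n) F) (c : Fˣ), P * α * tp P = sm c α → P.det = c ^ m) ∧ ∀ c : Fˣ, ∃ P : GL (Fin n) F, P * α * tp P = sm c α := by
  obtain ⟨m', K, L, h1, hKL, hLK, h4⟩ := CfsgLib.GP27.exists_symp α⁻¹ hα
  obtain rfl : m' = m := by omega
  obtain ⟨M, hM⟩ : ∃ M : Matrix (Fin n) (Fin n) F, M = ((α⁻¹ : GL (Fin n) F) : Matrix (Fin n) (Fin n) F) := ⟨_, rfl⟩
  rw [← hM] at h4
  have hKLt : Lᵀ * Kᵀ = 1 := by rw [← transpose_mul, hKL, transpose_one]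
  have hLKt : Kᵀ * Lᵀ = 1 := by rw [← transpose_mul, hLK, transpose_one]
  have hMJ : M = ((-1 : Fˣ) : F) • (Lᵀ * Matrix.J (Fin m') F * L) := by
    rw [← Matrix.smul_mul, ← Matrix.mul_smul, ← h4]
    calc M = (Lᵀ * Kᵀ) * M * (K * L) := by rw [hKLt, hKL, Matrix.one_mul, Matrix.mul_one]
      _ = _ := by simp only [Matrix.mul_assoc]
  have key : ∀ (g : GL (Fin m' ⊕ Fin m') F) (c : Fˣ), (kl K L hKL hLK g) * α * tp (kl K L hKL hLK g) = sm c α ↔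
      (g : Matrix (Fin m' ⊕ Fin m') (Fin m' ⊕ Fin m') F)ᵀ * Matrix.J (Fin m') F * (g : Matrix (Fin m' ⊕ Fin m') (Fin m' ⊕ Fin m') F) = (c : F) • Matrix.J (Fin m') F := by
    intro g c
    rw [sim_coe, ← hM, kl_coe]
    have h5 : Kᵀ * ((K * (g : Matrix (Fin m' ⊕ Fin m') (Fin m' ⊕ Fin m') F) * L)ᵀ * M * (K * (g : Matrix (Fin m' ⊕ Fin m') (Fin m' ⊕ Fin m') F) * L)) * K =
        ((-1 : Fˣ) : F) • ((g : Matrix (Fin m' ⊕ Fin m') (Fin m' ⊕ Fin m') F)ᵀ * Matrix.J (Fin m') F * (g : Matrix (Fin m' ⊕ Fin m') (Fin m' ⊕ Fin m') F)) := by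
      rw [transpose_mul, transpose_mul]
      calc _ = (Kᵀ * Lᵀ) * (g : Matrix (Fin m' ⊕ Fin m') (Fin m' ⊕ Fin m') F)ᵀ * (Kᵀ * M * K) * (g : Matrix (Fin m' ⊕ Fin m') (Fin m' ⊕ Fin m') F) * (L * K) := by simp only [Matrix.mul_assoc]
        _ = _ := by rw [hLKt, hLK, Matrix.one_mul, Matrix.mul_one, h4, Matrix.mul_smul, Matrix.smul_mul]
    constructor
    · intro h6
      rw [h6, Matrix.mul_smul, Matrix.smul_mul, h4, smul_comm] at h5
      exact (smul_right_injective _ (-1 : Fˣ).ne_zero h5).symm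
    · intro h6
      rw [h6] at h5
      have h7 : ∀ X Y : Matrix (Fin n) (Fin n) F, Kᵀ * X * K = Kᵀ * Y * K → X = Y := by
        intro X Y hXY
        have h8 := congrArg (fun Z => Lᵀ * Z * L) hXY
        have h9 : ∀ Z : Matrix (Fin n) (Fin n) F, Lᵀ * (Kᵀ * Z * K) * L = Z := by
          intro Z
          calc Lᵀ * (Kᵀ * Z * K) * L = (Lᵀ * Kᵀ) * Z * (K * L) := by simp only [Matrix.mul_assoc]
            _ = Z := by rw [hKLt, hKL, Matrix.one_mul, Matrix.mul_one]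
        simp only [h9] at h8
        exact h8
      apply h7
      rw [h5, Matrix.mul_smul, Matrix.smul_mul, h4, smul_comm]
  constructor
  · intro P c hP
    obtain ⟨g, rfl⟩ := (kl K L hKL hLK).surjective P
    rw [det_kl]
    exact gsp_det ((key g c).1 hP)
  · intro c
    refine ⟨kl K L hKL hLK (CfsgLib.AutPSp27.dS c), (key _ c).2 ?_⟩
    apply CfsgLib.GP27.bil_ext
    intro u v
    rw [← CfsgLib.GP27.bil_mul, smul_mulVec, dotProduct_smul, smul_eq_mul]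
    have h1 := CfsgLib.AutPSp27.dS_spec c u v
    rw [spB_apply, spB_apply] at h1
    exact h1

/-- similitudes for the symmetric type in even dimension -/
theorem sym_sim [Fintype F] (h2 : (2 : F) ≠ 0) {m : ℕ} {α : GL (Fin n) F} (hα : (α : Matrix (Fin n) (Fin n) F)ᵀ = α)
    {ι : Type} [Fintype ι] [DecidableEq ι] {Q' : QuadraticForm F (ι → F)} (h : Ev Q' m) (t : Tr (QM ((α⁻¹ : GL (Fin n) F) : Matrix (Fin n) (Fin n) F)) Q') :
    (∀ c : Fˣ, ∃ P : GL (Fin n) F, P * α * tp P = sm c α ∧ P.det = c ^ m) ∧ ∃ P : GL (Fin n) F, P * α * tp P = sm 1 α ∧ P.det = -1 := by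
  have key : ∀ (g : GL ι F) (c : Fˣ), (∀ v, Q' ((g : Matrix ι ι F) *ᵥ v) = c * Q' v) → t.gl g * α * tp (t.gl g) = sm c α := by
    intro g c hg
    rw [sim_coe]
    apply QM_inj h2
    · rw [transpose_mul, transpose_mul, transpose_transpose, inv_symm hα, Matrix.mul_assoc]
    · rw [transpose_smul, inv_symm hα]
    · intro x
      rw [QM_apply, ← CfsgLib.GP27.bil_mul, ← QM_apply, t.gl_sim hg, QM_apply ((c : F) • _), smul_mulVec, dotProduct_smul, smul_eq_mul, ← QM_apply]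
  constructor
  · intro c
    obtain ⟨g, hg, hd⟩ := h.sim c
    exact ⟨t.gl g, key g c hg, by rw [t.det_gl, hd]⟩
  · obtain ⟨v, hv⟩ := h.hx
    refine ⟨t.gl (rfM Q' v hv : GL ι F), key _ 1 (fun w => ?_), ?_⟩
    · rw [Units.val_one, one_mul]
      exact (rfM Q' v hv).2 w w
    · rw [t.det_gl, det_rfM]

end rat

section main
variable {F : Type u} [Field F] [Fintype F] {F₀ : Type v} [Field F₀] [Fintype F₀] {q n : ℕ} {τ : F ≃+* F} {j : F₀ →+* F}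
  {a b : GL (Fin n) F} {α : GL (Fin n) F₀} {l e : Fˣ}

theorem det_sm (c : Fˣ) (g : GL (Fin n) F) : (sm c g).det = c ^ n * g.det := by
  unfold sm
  rw [map_mul, det_scal', Fintype.card_fin]

theorem det_tp (g : GL (Fin n) F) : (tp g).det = g.det := Units.ext (Matrix.det_transpose _)

theorem det_mj (g : GL (Fin n) F₀) : (mj j g).det = uj j g.det := by
  apply Units.ext
  show ((g : Matrix (Fin n) (Fin n) F₀).map j).det = j (g : Matrix (Fin n) (Fin n) F₀).det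
  rw [RingHom.map_det]; rfl

theorem norm_calc (H : GQ F F₀ q τ j) (R : RR τ j a α b l e) {P : GL (Fin n) F₀} {c : F₀ˣ} (hP : P * α * tp P = sm c α) (s : Fˣ) :
    tp (sm s⁻¹ (b * mj j P * b⁻¹)) * gm τ (sm s⁻¹ (b * mj j P * b⁻¹)) = sm ((s * tu τ s)⁻¹ * uj j c) 1 := by
  have h1 : tp P * α⁻¹ * P = sm c α⁻¹ := (CfsgLib.GP27.sim_gl_iff P α c).1 hP
  have h2 : tp (mj j P) * (mj j α)⁻¹ * mj j P = sm (uj j c) (mj j α)⁻¹ := by
    rw [← mj_tp, ← map_inv, ← map_mul, ← map_mul, h1, mj_sm]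
  rw [tp_sm, gm_sm]
  simp only [map_mul, map_inv]
  rw [R.r2, H.bj, tp_mul, tp_mul, tp_inv]
  simp only [mul_sm, sm_mul, sm_sm, sm_inv, _root_.mul_inv_rev, inv_inv]
  have h3 : (tp b)⁻¹ * (tp (mj j P) * tp b) * ((tp b)⁻¹ * (mj j α)⁻¹ * mj j P * (mj j α * tp b)) = (tp b)⁻¹ * (tp (mj j P) * (mj j α)⁻¹ * mj j P) * (mj j α * tp b) := by group
  rw [h3, h2, mul_sm, sm_mul, sm_sm]
  have h4 : (tp b)⁻¹ * (mj j α)⁻¹ * (mj j α * tp b) = 1 := by group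
  rw [h4]
  congr 1
  have h5 : s⁻¹ * ((tu τ s)⁻¹ * (e⁻¹ * e)) * uj j c = (tu τ s)⁻¹ * s⁻¹ * uj j c := by
    rw [inv_mul_cancel, mul_one, mul_comm s⁻¹]
  rw [← h5]
  simp only [mul_comm, mul_left_comm, mul_assoc]

theorem mk_k (H : GQ F F₀ q τ j) (R : RR τ j a α b l e) {P : GL (Fin n) F₀} {c : F₀ˣ} (hP : P * α * tp P = sm c α) {s : Fˣ} (hs : s * tu τ s = uj j c) :
    ∃ k : GL (Fin n) F, tp k * gm τ k = 1 ∧ (∃ c', k * a * tp k = sm c' a) ∧ k.det = (s⁻¹) ^ n * uj j P.det := by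
  refine ⟨sm s⁻¹ (b * mj j P * b⁻¹), ?_, ?_, ?_⟩
  · rw [norm_calc H R hP, hs, inv_mul_cancel, sm_one]
  · refine ⟨s⁻¹ * s⁻¹ * uj j c, ?_⟩
    rw [R.r1, tp_sm, tp_mul, tp_mul, tp_inv]
    simp only [mul_sm, sm_mul, sm_sm]
    have h3 : b * mj j P * b⁻¹ * (b * mj j α * tp b) * ((tp b)⁻¹ * (tp (mj j P) * tp b)) = b * (mj j P * mj j α * tp (mj j P)) * tp b := by group
    rw [h3, ← mj_tp, ← map_mul, ← map_mul, hP, mj_sm, mul_sm, sm_mul, sm_sm]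
    congr 1
    simp only [mul_comm, mul_left_comm, mul_assoc]
  · rw [det_sm, map_mul, map_mul, det_mj, map_inv, mul_comm b.det, mul_inv_cancel_right]

theorem of_k [NeZero n] (H : GQ F F₀ q τ j) (R : RR τ j a α b l e) {k : GL (Fin n) F} (hk : tp k * gm τ k = 1) {c' : Fˣ} (h : k * a * tp k = sm c' a) :
    ∃ (P : GL (Fin n) F₀) (c : F₀ˣ) (s : Fˣ), P * α * tp P = sm c α ∧ s * tu τ s = uj j c ∧ k.det = (s⁻¹) ^ n * uj j P.det := by
  haveI : Nonempty (Fin n) := ⟨0⟩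
  obtain ⟨P, c₀, s, h1, h2⟩ := key_fwd H R R hk (c := c'⁻¹) (by rw [h, sm_sm, inv_mul_cancel, sm_one])
  have hP : P * α * tp P = sm c₀⁻¹ α := by
    conv_rhs => rw [h1]
    rw [sm_sm, inv_mul_cancel, sm_one]
  have hkk : k = sm s⁻¹ (b * mj j P * b⁻¹) := by
    rw [h2, sm_mul, sm_sm, inv_mul_cancel, sm_one, mul_inv_cancel_right]
  refine ⟨P, c₀⁻¹, s, hP, ?_, ?_⟩
  · have h3 := norm_calc H R hP s
    rw [← hkk, hk] at h3
    have h4 : sm 1 (1 : GL (Fin n) F) = sm ((s * tu τ s)⁻¹ * uj j c₀⁻¹) 1 := by rw [sm_one]; exact h3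
    have h5 := sm_inj h4
    exact (inv_mul_eq_one.1 h5.symm)
  · rw [hkk, det_sm, map_mul, map_mul, det_mj, map_inv, mul_comm b.det, mul_inv_cancel_right]

end main

end CfsgLib.GQ27
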