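import Cfsg.Agent.LibGQ27e

set_option autoImplicit false

/-! Graph involutions of `PSU_n`: counting classes, final. -/

namespace CfsgLib.GQ27

open Matrix
open CfsgLib.Semi27 (scal scal_comm scal_one scal_mul gm gm_scal)
open CfsgLib.GP27 (tp tp_coe tp_mul tp_tp tp_one tp_inv tp_scal gam Pw mem_Pw Pw_index Pw_mul sqrt_index QM)
open CfsgLib.Eps27 CfsgLib.RhoO27 CfsgLib.Even27 CfsgLib.Lift27
open Cfsg.Agent.H22

universe u v

section main
variable {F : Type u} [Field F] [Fintype F] {F₀ : Type v} [Field F₀] [Fintype F₀] {q n : ℕ} {τ : F ≃+* F} {j : F₀ →+* F}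

theorem GQ.mem_N1' (H : GQ F F₀ q τ j) {u : Fˣ} : u ∈ N1 F q ↔ u * tu τ u = 1 := by
  rw [mem_N1]
  have : tu τ u = u ^ q := Units.ext (by
    rw [Units.val_pow_eq_pow_val]
    exact H.hτ _)
  rw [this, ← pow_succ']

theorem GQ.comm_iffU (H : GQ F F₀ q τ j) (hn : 3 ≤ n) (k a : Cfsg.GU n F q) : rhoU n F q k * gU τ a = gU τ a * rhoU n F q k ↔ ∃ c : Fˣ, k.1 * a.1 * tp k.1 = sm c a.1 := by
  rw [← mul_inv_eq_iff_eq_mul, H.conj_gU, H.gU_eq_iff hn]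
  apply exists_congr
  intro c
  rw [← H.tpU k]
  exact Iff.rfl

theorem GQ.count_eqU (H : GQ F F₀ q τ j) (hn : 3 ≤ n) (a : Cfsg.GU n F q) (C : Subgroup (N1 F q))
    (hC : ∀ z, z ∈ C ↔ ∃ k : Cfsg.GU n F q, (∃ c : Fˣ, k.1 * a.1 * tp k.1 = sm c a.1) ∧ ∃ t ∈ Pw (N1 F q) n, z = dU H.hF k * t) :
    Cfsg.splitClassCount (Cfsg.inndiagPSU n F q) (Cfsg.Inn (Cfsg.PSU n F q)) (gU τ a) = C.index := by
  rw [inndiagPSU_eq, CfsgLib.Split27.splitCount_eq (rhoU n F q) _ _ (dU H.hF) (dU_surj H.hF (by omega)) (powMonoidHom n : N1 F q →* N1 F q).range (mem_innU_iff H.hF hn) innU_le C]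
  intro z
  rw [hC]
  apply exists_congr
  intro k
  rw [H.comm_iffU hn]
  exact Iff.rfl

/-- the multiplier of a unitary matrix has norm one -/
theorem GQ.mult_N1 (H : GQ F F₀ q τ j) (hn : 3 ≤ n) {k a : Cfsg.GU n F q} {c : Fˣ} (h : k.1 * a.1 * tp k.1 = sm c a.1) : c ∈ N1 F q := by
  rw [mem_N1, ← scal_memU_iff (n := n) (by omega)]
  have h1 : scal c = k.1 * a.1 * ((gt τ k)⁻¹ : Cfsg.GU n F q).1 * (a⁻¹ : Cfsg.GU n F q).1 := by
    have h2 : ((gt τ k)⁻¹ : Cfsg.GU n F q).1 = tp k.1 := by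
      rw [← H.tpU k]; rfl
    rw [h2, h]
    show scal c = scal c * a.1 * a.1⁻¹
    rw [mul_inv_cancel_right]
  rw [h1]
  exact (k * a * (gt τ k)⁻¹ * a⁻¹).2

theorem GQ.det_sqU (H : GQ F F₀ q τ j) (hn : 3 ≤ n) {k a : Cfsg.GU n F q} {c : Fˣ} (h : k.1 * a.1 * tp k.1 = sm c a.1) :
    dU H.hF k ^ 2 = (⟨c, H.mult_N1 hn h⟩ : N1 F q) ^ n := by
  apply Subtype.ext
  rw [SubmonoidClass.coe_pow, SubmonoidClass.coe_pow, dU_coe]
  show k.1.det ^ 2 = c ^ n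
  have h1 := congrArg (fun g : GL (Fin n) F => g.det) h
  simp only [map_mul] at h1
  rw [det_tp, det_sm] at h1
  have h2 : k.1.det ^ 2 * a.1.det = c ^ n * a.1.det := by
    rw [← h1, pow_two]
    simp only [mul_comm, mul_left_comm]
  exact mul_right_cancel h2

theorem GQ.neg_one_mem (H : GQ F F₀ q τ j) : (-1 : Fˣ) ∈ N1 F q := by
  rw [H.mem_N1']
  apply Units.ext
  show (-1 : F) * τ (-1) = 1
  rw [map_neg, map_one]; ring

theorem GQ.sq_one (H : GQ F F₀ q τ j) {x : N1 F q} (hx : x ^ 2 = 1) : x = 1 ∨ x = ⟨-1, H.neg_one_mem⟩ := by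
  have h1 : x.1 ^ 2 = 1 := congrArg Subtype.val hx
  have h2 : ((x.1 : Fˣ) : F) * (x.1 : F) = 1 * 1 := by rw [← Units.val_mul, ← pow_two, h1, Units.val_one, one_mul]
  rcases mul_self_eq_mul_self_iff.1 h2 with h3 | h3
  · exact Or.inl (Subtype.ext (Units.ext h3))
  · exact Or.inr (Subtype.ext (Units.ext (by rw [h3, Units.val_neg, Units.val_one])))

theorem GQ.two_dvd (H : GQ F F₀ q τ j) (h2 : (2 : F) ≠ 0) : 2 ∣ Nat.card (N1 F q) := by
  have h3 : orderOf (⟨-1, H.neg_one_mem⟩ : N1 F q) = 2 := orderOf_eq_prime (Subtype.ext (by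
    show (-1 : Fˣ) ^ 2 = 1
    rw [neg_one_sq])) (by
    intro h
    have h4 : (-1 : Fˣ) = 1 := congrArg Subtype.val h
    have h5 : (-1 : F) = 1 := congrArg Units.val h4
    apply h2
    linear_combination -h5)
  rw [← h3]
  exact orderOf_dvd_natCard _

/-- odd dimension or even characteristic -/
theorem GQ.count3 (H : GQ F F₀ q τ j) (hn : 3 ≤ n) (a : Cfsg.GU n F q) (h : Odd n ∨ (2 : F) = 0) :
    Cfsg.splitClassCount (Cfsg.inndiagPSU n F q) (Cfsg.Inn (Cfsg.PSU n F q)) (gU τ a) = Nat.gcd n (q + 1) := by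
  haveI : IsCyclic (N1 F q) := inferInstance
  rw [H.count_eqU hn a (Pw (N1 F q) n), Pw_index, card_N1 H.hF, Nat.gcd_comm]
  intro z
  constructor
  · intro hz
    refine ⟨1, ⟨1, ?_⟩, z, hz, ?_⟩
    · show 1 * a.1 * tp 1 = sm 1 a.1
      rw [tp_one, one_mul, mul_one, sm_one]
    · rw [map_one, one_mul]
  · rintro ⟨k, ⟨c, hc⟩, t, ht, rfl⟩
    refine mul_mem ?_ ht
    have h1 := H.det_sqU hn hc
    obtain ⟨c', hc'⟩ : ∃ c' : N1 F q, c' = ⟨c, H.mult_N1 hn hc⟩ := ⟨_, rfl⟩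
    rw [← hc'] at h1
    obtain ⟨D, hD⟩ : ∃ D : N1 F q, D = dU H.hF k := ⟨_, rfl⟩
    rw [← hD] at h1 ⊢
    obtain ⟨e, he⟩ : ∃ e : N1 F q, e ^ 2 = c' := by
      rcases h with ⟨r, hr⟩ | h
      · refine ⟨D * (c' ^ r)⁻¹, ?_⟩
        rw [mul_pow, h1, hr, inv_pow, ← pow_mul, pow_succ, mul_comm r 2, mul_right_comm, mul_inv_cancel, one_mul]
      · have hodd : Nat.Coprime 2 (Nat.card (N1 F q)) := by
          rw [card_N1 H.hF, Nat.coprime_two_left, ← Nat.not_even_iff_odd, Nat.even_add_one, not_not, even_iff_two_dvd]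
          have h2 : (2 : F₀) = 0 := by
            apply j.injective
            rw [map_ofNat, map_zero, h]
          haveI := CfsgLib.Eps27.charP_two h2
          obtain ⟨r, -, hr⟩ := FiniteField.card F₀ 2
          rw [← H.hF₀, hr]
          exact dvd_pow_self 2 r.pos.ne'
        obtain ⟨e, he⟩ := (powCoprime hodd.symm).surjective c'
        exact ⟨e, he⟩
    have h3 : (D * (e ^ n)⁻¹) ^ 2 = 1 := by
      rw [mul_pow, h1, ← he, inv_pow, ← pow_mul, ← pow_mul, mul_comm n 2, mul_inv_cancel]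
    rcases H.sq_one h3 with h4 | h4
    · exact ⟨e, (mul_inv_eq_one.1 h4).symm⟩
    · rcases h with hodd | h2
      · refine ⟨⟨-1, H.neg_one_mem⟩ * e, ?_⟩
        show (⟨-1, H.neg_one_mem⟩ * e) ^ n = D
        rw [mul_pow]
        have h5 : (⟨-1, H.neg_one_mem⟩ : N1 F q) ^ n = ⟨-1, H.neg_one_mem⟩ := Subtype.ext (by
          rw [SubmonoidClass.coe_pow]
          exact hodd.neg_one_pow)
        rw [h5, ← h4, inv_mul_cancel_right]
      · refine ⟨e, ?_⟩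
        have h5 : (⟨-1, H.neg_one_mem⟩ : N1 F q) = 1 := Subtype.ext (Units.ext (by
          show (-1 : F) = 1
          linear_combination -h2))
        rw [h5] at h4
        exact (mul_inv_eq_one.1 h4).symm

/-- every element of norm one is `s̄ / s` -/
theorem GQ.exists_s (H : GQ F F₀ q τ j) {y : Fˣ} (hy : y ∈ N1 F q) : ∃ (s : Fˣ) (c : F₀ˣ), tu τ s * s⁻¹ = y ∧ s * tu τ s = uj j c := by
  obtain ⟨s, hs⟩ := CfsgLib.Semi27.h90_unit (r := 2) (by norm_num) H.ho y⁻¹ (by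
    rw [Finset.prod_range_succ, Finset.prod_range_one, pow_zero, pow_one]
    have h1 := H.mem_N1'.1 (inv_mem hy)
    exact congrArg Units.val h1)
  have hs' : y⁻¹ * tu τ s = s := Units.ext hs
  obtain ⟨c, hc⟩ := H.exu (c := s * tu τ s) (by rw [map_mul, H.uu, mul_comm])
  refine ⟨s, c, ?_, hc.symm⟩
  rw [mul_inv_eq_iff_eq_mul]
  conv_rhs => rw [← hs', mul_inv_cancel_left]

theorem det_form (H : GQ F F₀ q τ j) {m : ℕ} {s : Fˣ} {c : F₀ˣ} (hs : s * tu τ s = uj j c) : (s⁻¹) ^ (2 * m) * uj j (c ^ m) = (tu τ s * s⁻¹) ^ m := by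
  rw [map_pow, ← hs, pow_mul, ← mul_pow]
  congr 1
  rw [pow_two]
  calc s⁻¹ * s⁻¹ * (s * tu τ s) = s⁻¹ * (s⁻¹ * s) * tu τ s := by simp only [mul_assoc]
    _ = _ := by rw [inv_mul_cancel, mul_one, mul_comm]

/-- alternating type -/
theorem GQ.count1 (H : GQ F F₀ q τ j) (hn : 3 ≤ n) {m : ℕ} (hm : n = 2 * m) {a : Cfsg.GU n F q} {α : GL (Fin n) F₀} {b : GL (Fin n) F} {l e : Fˣ} (R : RR τ j a.1 α b l e)
    (hα : ∀ x : Fin n → F₀, x ⬝ᵥ (((α⁻¹ : GL (Fin n) F₀) : Matrix (Fin n) (Fin n) F₀) *ᵥ x) = 0) :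
    Cfsg.splitClassCount (Cfsg.inndiagPSU n F q) (Cfsg.Inn (Cfsg.PSU n F q)) (gU τ a) = Nat.gcd m (q + 1) := by
  haveI : NeZero n := ⟨by omega⟩
  haveI : IsCyclic (N1 F q) := inferInstance
  obtain ⟨hd, hex⟩ := alt_det hm hα
  have hP : Pw (N1 F q) n ≤ Pw (N1 F q) m := by
    rw [hm, mul_comm]
    exact Pw_mul m 2
  rw [H.count_eqU hn a (Pw (N1 F q) m), Pw_index, card_N1 H.hF, Nat.gcd_comm]
  intro z
  constructor
  · rintro ⟨y, rfl⟩
    obtain ⟨s, c, hy, hs⟩ := H.exists_s y.2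
    obtain ⟨P, hP'⟩ := hex c
    obtain ⟨k, hk1, hk2, hk3⟩ := mk_k H R hP' hs
    refine ⟨⟨k, H.mem_GU.2 hk1⟩, hk2, 1, one_mem _, ?_⟩
    rw [mul_one]
    apply Subtype.ext
    rw [dU_coe]
    show y.1 ^ m = k.det
    rw [hk3, hd P c hP', ← hy]
    conv_rhs => rw [hm]
    rw [det_form H hs]
  · rintro ⟨k, ⟨c', hc'⟩, t, ht, rfl⟩
    refine mul_mem ?_ (hP ht)
    obtain ⟨P, c, s, h1, h2, h3⟩ := of_k H R (H.mem_GU.1 k.2) hc'
    have h4 : tu τ s * s⁻¹ ∈ N1 F q := by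
      rw [H.mem_N1', map_mul, H.uu, map_inv]
      calc tu τ s * s⁻¹ * (s * (tu τ s)⁻¹) = tu τ s * (s⁻¹ * s) * (tu τ s)⁻¹ := by simp only [mul_assoc]
        _ = 1 := by rw [inv_mul_cancel, mul_one, mul_inv_cancel]
    refine ⟨⟨_, h4⟩, ?_⟩
    apply Subtype.ext
    rw [dU_coe, h3, hd P c h1]
    show (tu τ s * s⁻¹) ^ m = _
    conv_rhs => rw [hm]
    rw [det_form H h2]

/-- symmetric type -/
theorem GQ.count2 (H : GQ F F₀ q τ j) (h2 : (2 : F₀) ≠ 0) (hn : 3 ≤ n) {m : ℕ} (hm : n = 2 * m) {a : Cfsg.GU n F q} {α : GL (Fin n) F₀} {b : GL (Fin n) F} {l e : Fˣ} (R : RR τ j a.1 α b l e)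
    (hα : (α : Matrix (Fin n) (Fin n) F₀)ᵀ = α)
    {ι : Type} [Fintype ι] [DecidableEq ι] {Q' : QuadraticForm F₀ (ι → F₀)} (h : Ev Q' m) (t : Tr (QM ((α⁻¹ : GL (Fin n) F₀) : Matrix (Fin n) (Fin n) F₀)) Q') :
    Cfsg.splitClassCount (Cfsg.inndiagPSU n F q) (Cfsg.Inn (Cfsg.PSU n F q)) (gU τ a) = Nat.gcd n (q + 1) / 2 := by
  haveI : NeZero n := ⟨by omega⟩
  haveI : IsCyclic (N1 F q) := inferInstance
  obtain ⟨hex, P1, hP1, hP1d⟩ := sym_sim h2 hα h t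
  have h2' : (2 : F) ≠ 0 := by
    intro h
    apply h2
    apply j.injective
    rw [map_ofNat, map_zero, h]
  obtain ⟨C, hC⟩ : ∃ C : Subgroup (N1 F q), ∀ x, x ∈ C ↔ x ^ 2 ∈ Pw (N1 F q) (2 * m) :=
    ⟨(Pw (N1 F q) (2 * m)).comap (powMonoidHom 2), fun x => Iff.rfl⟩
  have key := sqrt_index (H.two_dvd h2') hC
  rw [H.count_eqU hn a C]
  · rw [card_N1 H.hF, ← hm, Nat.gcd_comm] at key
    omega
  · intro z
    rw [hC, ← hm]
    constructor
    · rintro ⟨y, hy⟩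
      have hy' : y ^ n = z ^ 2 := hy
      obtain ⟨s, c, hys, hs⟩ := H.exists_s y.2
      have h5 : (z * (y ^ m)⁻¹) ^ 2 = 1 := by
        rw [mul_pow, inv_pow, ← pow_mul, mul_comm m 2, ← hm, hy', mul_inv_cancel]
      obtain ⟨P, hP, hPd⟩ := hex c
      rcases H.sq_one h5 with h6 | h6
      · obtain ⟨k, hk1, hk2, hk3⟩ := mk_k H R hP hs
        refine ⟨⟨k, H.mem_GU.2 hk1⟩, hk2, 1, one_mem _, ?_⟩
        rw [mul_one, mul_inv_eq_one.1 h6]
        apply Subtype.ext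
        rw [dU_coe]
        show y.1 ^ m = k.det
        rw [hk3, hPd, ← hys]
        conv_rhs => rw [hm]
        rw [det_form H hs]
      · have hPP : (P * P1) * α * tp (P * P1) = sm c α := by
          rw [tp_mul]
          have h7 : P * P1 * α * (tp P1 * tp P) = P * (P1 * α * tp P1) * tp P := by group
          rw [h7, hP1, sm_one, hP]
        obtain ⟨k, hk1, hk2, hk3⟩ := mk_k H R hPP hs
        refine ⟨⟨k, H.mem_GU.2 hk1⟩, hk2, 1, one_mem _, ?_⟩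
        rw [mul_one, (mul_inv_eq_iff_eq_mul.1 h6)]
        apply Subtype.ext
        rw [dU_coe]
        show -1 * y.1 ^ m = k.det
        rw [hk3, map_mul, hPd, hP1d, map_mul, ← mul_assoc, ← hys]
        have h8 : (s⁻¹) ^ n * uj j (c ^ m) = (tu τ s * s⁻¹) ^ m := by
          conv_lhs => rw [hm]
          exact det_form H hs
        rw [h8, mul_comm]
        congr 1
        apply Units.ext
        show (-1 : F) = j (-1)
        rw [map_neg, map_one]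
    · rintro ⟨k, ⟨c, hc⟩, t', ⟨y, rfl⟩, rfl⟩
      rw [mul_pow, H.det_sqU hn hc]
      refine mul_mem ⟨_, rfl⟩ ?_
      refine ⟨y ^ 2, ?_⟩
      show (y ^ 2) ^ n = (y ^ n) ^ 2
      rw [← pow_mul, ← pow_mul, mul_comm]

end main

end CfsgLib.GQ27
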