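import Cfsg.Agent.LibOmAH13
import Cfsg.Agent.LibH22OOrd3

set_option autoImplicit false

/-! Standard bases of quadratic spaces over finite fields (seat helper13). -/

namespace CfsgLib.Std

open Module LinearMap Submodule Cfsg.Agent.H22 CfsgLib.Inv2 CfsgLib.OmA

section fam
universe u w
variable {F : Type u} [Field F]

theorem exists_QFam [Fintype F] : ∀ (k : ℕ) {V : Type w} [AddCommGroup V] [Module F V] [FiniteDimensional F V] (Q : QuadraticForm F V),
    (QuadraticMap.polarBilin Q).Nondegenerate → 2 * k < finrank F V → ∃ s, QFam Q k s := by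
  intro k
  induction k with
  | zero =>
    intro V _ _ _ Q _ _
    exact ⟨fun i => i.elim0, fun i => i.elim0, fun i => i.elim0⟩
  | succ k ih =>
    intro V _ _ _ Q hQ h
    obtain ⟨v, hv0, hv⟩ := exists_singular hQ (by omega)
    obtain ⟨f, hf⟩ := exists_HP_of_singular hQ v hv0 hv
    have hfr := hf.finrank_eq
    obtain ⟨s', hs'⟩ := ih (qres Q (perp2 Q v f)) (hf.nondeg hQ) (by omega)
    exact ⟨_, ((qfamEquiv Q k).symm ⟨⟨(v, f), hf⟩, ⟨s', hs'⟩⟩).2⟩

variable {V : Type w} [AddCommGroup V] [Module F V] [FiniteDimensional F V] {Q : QuadraticForm F V}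

omit [FiniteDimensional F V] in
/-- the complement of a hyperbolic family -/
def comp (Q : QuadraticForm F V) {k : ℕ} (s : Fin k → V × V) : Submodule F V := perp Q (span F (Set.range (QFam.vec s)))

omit [FiniteDimensional F V] in
theorem mem_comp {k : ℕ} {s : Fin k → V × V} {z : V} : z ∈ comp Q s ↔ ∀ i, QuadraticMap.polar Q (s i).1 z = 0 ∧ QuadraticMap.polar Q (s i).2 z = 0 := by
  constructor
  · intro h i
    exact ⟨h _ (subset_span ⟨.inl i, rfl⟩), h _ (subset_span ⟨.inr i, rfl⟩)⟩
  · intro h w hw
    show QuadraticMap.polarBilin Q w z = 0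
    induction hw using Submodule.span_induction with
    | mem x hx =>
      obtain ⟨(i | i), rfl⟩ := hx
      · exact (h i).1
      · exact (h i).2
    | zero => simp
    | add a b _ _ ha hb => rw [map_add, LinearMap.add_apply, ha, hb, add_zero]
    | smul a b _ hb => rw [map_smul, LinearMap.smul_apply, hb, smul_zero]

/-- hyperbolic family plus an independent family in the complement is independent -/
theorem li_sum {k : ℕ} {s : Fin k → V × V} (hs : QFam Q k s) {κ : Type*} [Fintype κ] {t : κ → V} (ht : LinearIndependent F t)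
    (htc : ∀ i, t i ∈ comp Q s) : LinearIndependent F (Sum.elim (QFam.vec s) t) := by
  apply LinearIndependent.sum_type hs.indep ht
  rw [Submodule.disjoint_def]
  intro x hx hx2
  have h1 : span F (Set.range t) ≤ comp Q s := by
    rw [span_le]
    rintro _ ⟨i, rfl⟩
    exact htc i
  have hxc := mem_comp.1 (h1 hx2)
  obtain ⟨c, hc⟩ := (Submodule.mem_span_range_iff_exists_fun F).1 hx
  have h2 : ∀ b, c b = 0 := by
    intro b
    have h3 := biorth_coeff (QuadraticMap.polarBilin Q) (QFam.vec s) (QFam.dual s) hs.biorth c b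
    rw [← h3, hc]
    show QuadraticMap.polar Q x (QFam.dual s b) = 0
    rw [QuadraticMap.polar_comm]
    rcases b with b | b
    · exact (hxc b).2
    · exact (hxc b).1
  rw [← hc]
  simp [h2]

theorem finrank_span_vec {k : ℕ} {s : Fin k → V × V} (hs : QFam Q k s) : finrank F ↥(span F (Set.range (QFam.vec s))) = 2 * k := by
  rw [finrank_span_eq_card hs.indep]
  simp only [Fintype.card_sum, Fintype.card_fin]; omega

theorem finrank_comp (hQ : (QuadraticMap.polarBilin Q).Nondegenerate) {k : ℕ} {s : Fin k → V × V} (hs : QFam Q k s) :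
    finrank F ↥(comp Q s) = finrank F V - 2 * k := by
  unfold comp
  rw [finrank_perp hQ, finrank_span_vec hs]

theorem comp_nd [Fintype F] (hQ : (QuadraticMap.polarBilin Q).Nondegenerate) {k : ℕ} {s : Fin k → V × V} (hs : QFam Q k s) :
    comp Q s ⊓ perp Q (comp Q s) = ⊥ := by
  unfold comp
  rw [perp_perp hQ, eq_bot_iff]
  rintro x ⟨hx1, hx⟩
  have hxc := mem_comp.1 hx1
  obtain ⟨c, hc⟩ := (Submodule.mem_span_range_iff_exists_fun F).1 hx
  have h2 : ∀ b, c b = 0 := by
    intro b
    have h3 := biorth_coeff (QuadraticMap.polarBilin Q) (QFam.vec s) (QFam.dual s) hs.biorth c b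
    rw [← h3, hc]
    show QuadraticMap.polar Q x (QFam.dual s b) = 0
    rw [QuadraticMap.polar_comm]
    rcases b with b | b
    · exact (hxc b).2
    · exact (hxc b).1
  rw [← hc]
  simp [h2]

omit [FiniteDimensional F V] in
theorem QFam_cons {k : ℕ} {s : Fin k → V × V} (hs : QFam Q k s) {e f : V} (hef : HP Q e f) (he : e ∈ comp Q s) (hf : f ∈ comp Q s) :
    QFam Q (k + 1) (Fin.cons (e, f) s) := by
  have he' := mem_comp.1 he
  have hf' := mem_comp.1 hf
  refine ⟨fun i => ?_, fun i j => ?_⟩
  · refine Fin.cases ?_ (fun i => ?_) i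
    · exact ⟨hef.1, hef.2.1⟩
    · exact hs.1 i
  · refine Fin.cases ?_ (fun i => ?_) i <;> refine Fin.cases ?_ (fun j => ?_) j
    · exact ⟨hef.ee, hef.ff, by simpa using hef.2.2⟩
    · refine ⟨?_, ?_, ?_⟩
      · show QuadraticMap.polar Q e (s j).1 = 0
        rw [QuadraticMap.polar_comm]; exact (he' j).1
      · show QuadraticMap.polar Q f (s j).2 = 0
        rw [QuadraticMap.polar_comm]; exact (hf' j).2
      · rw [if_neg (Fin.succ_ne_zero j).symm]
        show QuadraticMap.polar Q e (s j).2 = 0
        rw [QuadraticMap.polar_comm]; exact (he' j).2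
    · refine ⟨?_, ?_, ?_⟩
      · exact (he' i).1
      · exact (hf' i).2
      · rw [if_neg (Fin.succ_ne_zero i)]
        exact (hf' i).1
    · have := hs.2 i j
      refine ⟨this.1, this.2.1, ?_⟩
      have h3 : (if i.succ = j.succ then (1 : F) else 0) = if i = j then 1 else 0 := by simp
      rw [h3]
      exact this.2.2

/-- a basis from a hyperbolic family and an independent family in the complement -/
theorem exists_basis {k : ℕ} {s : Fin k → V × V} (hs : QFam Q k s) {κ : Type*} [Fintype κ] {t : κ → V} (ht : LinearIndependent F t)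
    (htc : ∀ i, t i ∈ comp Q s) (hc : finrank F V = 2 * k + Fintype.card κ) :
    ∃ b : Basis ((Fin k ⊕ Fin k) ⊕ κ) F V, (∀ i, b (.inl (.inl i)) = (s i).1) ∧ (∀ i, b (.inl (.inr i)) = (s i).2) ∧ ∀ i, b (.inr i) = t i := by
  have hli := li_sum hs ht htc
  let b : Basis ((Fin k ⊕ Fin k) ⊕ κ) F V := Basis.mk hli (by
    rw [hli.span_eq_top_of_card_eq_finrank' (by simp only [Fintype.card_sum, Fintype.card_fin]; omega)])
  refine ⟨b, fun i => ?_, fun i => ?_, fun i => ?_⟩ <;> rw [Basis.mk_apply] <;> rfl

omit [FiniteDimensional F V] in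
theorem HP_of_qres {C : Submodule F V} {e f : C} (h : HP (qres Q C) e f) : HP Q (e : V) (f : V) := h

/-- anisotropic planes have a standard basis -/
theorem plane_basis [Fintype F] (hQ : (QuadraticMap.polarBilin Q).Nondegenerate) (h2 : finrank F V = 2) (han : ∀ v : V, Q v = 0 → v = 0) :
    ∃ x y : V, Q x = 1 ∧ QuadraticMap.polar Q x y = 1 ∧ LinearIndependent F ![x, y] := by
  obtain ⟨x, hx⟩ : ∃ x, Q x = 1 := by
    by_cases hc : (2 : F) = 0
    · have : CharP F 2 := CharTwo.of_one_ne_zero_of_two_eq_zero one_ne_zero hc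
      have hnt : Nontrivial V := Module.nontrivial_of_finrank_pos (R := F) (by omega)
      obtain ⟨a, ha⟩ := exists_ne (0 : V)
      have hqa : Q a ≠ 0 := fun h => ha (han a h)
      obtain ⟨c, hc⟩ : IsSquare (Q a)⁻¹ := FiniteField.isSquare_of_char_two (ringChar.eq F 2) _
      exact ⟨c • a, by rw [qsmul, ← hc, inv_mul_cancel₀ hqa]⟩
    · exact exists_norm_odd hc hQ (by omega) 1
  have hx0 : x ≠ 0 := by rintro rfl; rw [QuadraticMap.map_zero] at hx; exact zero_ne_one hx
  obtain ⟨z, hz⟩ : ∃ z, z ∉ span F {x} := by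
    by_contra hcon
    push Not at hcon
    have h3 : span F {x} = ⊤ := eq_top_iff.2 fun v _ => hcon v
    have h4 := finrank_span_singleton (K := F) hx0
    rw [h3, finrank_top, h2] at h4
    omega
  obtain ⟨α, β, hα, hαβ⟩ : ∃ α β : F, α ≠ 0 ∧ α * QuadraticMap.polar Q x z + β * (2 * 1) = 1 := by
    by_cases hc : (2 : F) = 0
    · have hp : QuadraticMap.polar Q x z ≠ 0 := by
        intro hp
        apply hx0
        apply hQ.1
        intro y
        show QuadraticMap.polar Q x y = 0
        have hli : LinearIndependent F ![x, z] := by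
          rw [LinearIndependent.pair_iff' hx0]
          intro a ha
          exact hz (mem_span_singleton.2 ⟨a, ha⟩)
        have hsp := hli.span_eq_top_of_card_eq_finrank' (by rw [h2]; simp)
        have hy : y ∈ span F (Set.range ![x, z]) := by rw [hsp]; trivial
        obtain ⟨c, hc'⟩ := (Submodule.mem_span_range_iff_exists_fun F).1 hy
        rw [← hc', Fin.sum_univ_two]
        simp only [Matrix.cons_val_zero, Matrix.cons_val_one]
        rw [QuadraticMap.polar_add_right, QuadraticMap.polar_smul_right, QuadraticMap.polar_smul_right, hp, pself, hc]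
        simp
      exact ⟨(QuadraticMap.polar Q x z)⁻¹, 0, inv_ne_zero hp, by rw [inv_mul_cancel₀ hp]; ring⟩
    · exact ⟨1, (1 - QuadraticMap.polar Q x z) / 2, one_ne_zero, by field_simp; ring⟩
  refine ⟨x, α • z + β • x, hx, ?_, ?_⟩
  · rw [QuadraticMap.polar_add_right, QuadraticMap.polar_smul_right, QuadraticMap.polar_smul_right, pself, hx]
    exact hαβ
  · rw [LinearIndependent.pair_iff' hx0]
    intro a ha
    apply hz
    have h3 : z = (α⁻¹ * (a - β)) • x := by
      rw [mul_smul, sub_smul, ha]
      rw [add_sub_cancel_right, smul_smul, inv_mul_cancel₀ hα, one_smul]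
    rw [h3]
    exact Submodule.smul_mem _ _ (mem_span_singleton_self x)

end fam

end CfsgLib.Std
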