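import Mathlib
import Cfsg.Agent.LibStdH13
import Cfsg.Agent.LibSemi2H13
import Cfsg.Agent.LibH22Exc4m

/-! Unitary groups inside symplectic and orthogonal groups over the subfield (seat helper13). -/

namespace CfsgLib.GUemb

open Module Cfsg.Agent.H22

section basic
variable {F K : Type*} [Field F] [Fintype F] [Field K] [Fintype K] [Algebra F K] (hK : Fintype.card K = Fintype.card F ^ 2)

include hK in
theorem finrank_two : finrank F K = 2 := by
  have h1 := Module.card_eq_pow_finrank (K := F) (V := K)
  rw [hK] at h1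
  exact (Nat.pow_right_injective (Fintype.one_lt_card (α := F)) h1).symm

include hK in
theorem tr_eq (z : K) : algebraMap F K (Algebra.trace F K z) = z + bar F z := by
  rw [FiniteField.algebraMap_trace_eq_sum_pow, finrank_two hK]
  simp [Finset.sum_range_succ, bar_apply]

include hK in
theorem exists_skew : ∃ δ : K, δ ≠ 0 ∧ bar F δ = -δ := by
  obtain ⟨z, hz⟩ : ∃ z : K, bar F z ≠ z := by
    by_contra hcon
    push Not at hcon
    have h1 : Fintype.card K ≤ Fintype.card F := by
      apply Fintype.card_le_of_surjective (algebraMap F K)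
      intro z
      exact (bar_eq_self_iff z).1 (hcon z)
    rw [hK] at h1
    have h2 : 1 < Fintype.card F := Fintype.one_lt_card
    nlinarith
  exact ⟨z - bar F z, sub_ne_zero_of_ne (Ne.symm hz), by rw [map_sub, bar_bar hK]; ring⟩

theorem exists_omega : ∃ ω : K, Algebra.trace F K ω = 1 := Algebra.trace_surjective F K 1

variable {ι : Type*} [Fintype ι]

omit [Fintype K] in
theorem bar_alg' (x : F) : bar F (algebraMap F K x) = algebraMap F K x := AlgHom.commutes _ _

/-- the hermitian form -/
noncomputable def herm (F : Type*) [Field F] [Fintype F] {K : Type*} [Field K] [Algebra F K] (u v : ι → K) : K := ∑ i, u i * bar F (v i)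

omit [Fintype K] in
theorem herm_add_left (u u' v : ι → K) : herm F (u + u') v = herm F u v + herm F u' v := by
  unfold herm
  rw [← Finset.sum_add_distrib]
  exact Finset.sum_congr rfl fun i _ => by rw [Pi.add_apply]; ring

omit [Fintype K] in
theorem herm_add_right (u v v' : ι → K) : herm F u (v + v') = herm F u v + herm F u v' := by
  unfold herm
  rw [← Finset.sum_add_distrib]
  exact Finset.sum_congr rfl fun i _ => by rw [Pi.add_apply, map_add]; ring

omit [Fintype K] in
theorem herm_smul_left (c : F) (u v : ι → K) : herm F (c • u) v = algebraMap F K c * herm F u v := by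
  unfold herm
  rw [Finset.mul_sum]
  exact Finset.sum_congr rfl fun i _ => by rw [Pi.smul_apply, Algebra.smul_def]; ring

omit [Fintype K] in
theorem herm_smul_right (c : F) (u v : ι → K) : herm F u (c • v) = algebraMap F K c * herm F u v := by
  unfold herm
  rw [Finset.mul_sum]
  exact Finset.sum_congr rfl fun i _ => by rw [Pi.smul_apply, Algebra.smul_def, map_mul, bar_alg']; ring

include hK in
theorem herm_bar (u v : ι → K) : bar F (herm F u v) = herm F v u := by
  unfold herm
  rw [map_sum]
  exact Finset.sum_congr rfl fun i _ => by rw [map_mul, bar_bar hK]; ring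

/-- the bilinear form `Tr(δ h)` -/
noncomputable def bform (F : Type*) [Field F] [Fintype F] {K : Type*} [Field K] [Algebra F K] {ι : Type*} [Fintype ι] (δ : K) : LinearMap.BilinForm F (ι → K) :=
  LinearMap.mk₂ F (fun u v => Algebra.trace F K (δ * herm F u v))
    (fun u u' v => by rw [herm_add_left, mul_add, map_add])
    (fun c u v => by rw [herm_smul_left, smul_eq_mul, ← smul_eq_mul (a := c), ← map_smul, Algebra.smul_def]; congr 1; ring)
    (fun u v v' => by rw [herm_add_right, mul_add, map_add])
    (fun c u v => by rw [herm_smul_right, smul_eq_mul, ← smul_eq_mul (a := c), ← map_smul, Algebra.smul_def]; congr 1; ring)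

omit [Fintype K] in
theorem bform_apply (δ : K) (u v : ι → K) : bform F δ u v = Algebra.trace F K (δ * herm F u v) := rfl

omit [Fintype K] in
theorem herm_single_right [DecidableEq ι] (u : ι → K) (i : ι) (c : K) : herm F u (Pi.single i c) = u i * bar F c := by
  unfold herm
  rw [Finset.sum_eq_single i]
  · rw [Pi.single_eq_same]
  · intro j _ hj; rw [Pi.single_eq_of_ne hj, map_zero, mul_zero]
  · intro h; exact absurd (Finset.mem_univ _) h

omit [Fintype K] in
theorem herm_single_left [DecidableEq ι] (v : ι → K) (i : ι) (c : K) : herm F (Pi.single i c) v = c * bar F (v i) := by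
  unfold herm
  rw [Finset.sum_eq_single i]
  · rw [Pi.single_eq_same]
  · intro j _ hj; rw [Pi.single_eq_of_ne hj, zero_mul]
  · intro h; exact absurd (Finset.mem_univ _) h

include hK in
theorem bform_left {δ : K} (hδ : δ ≠ 0) {u : ι → K} (h : ∀ v, bform F δ u v = 0) : u = 0 := by
  classical
  funext i
  by_contra hui
  have hui' : u i ≠ 0 := hui
  obtain ⟨ω, hω⟩ := exists_omega (F := F) (K := K)
  have h1 := h (Pi.single i (bar F (ω / (δ * u i))))
  rw [bform_apply, herm_single_right, bar_bar hK, ← mul_assoc, mul_div_cancel₀ _ (mul_ne_zero hδ hui'), hω] at h1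
  exact one_ne_zero h1

include hK in
theorem bform_right {δ : K} (hδ : δ ≠ 0) {v : ι → K} (h : ∀ u, bform F δ u v = 0) : v = 0 := by
  classical
  funext i
  by_contra hvi
  have hvi' : bar F (v i) ≠ 0 := by
    intro h0
    apply hvi
    apply bar_inj (F := F)
    rw [h0, Pi.zero_apply, map_zero]
  obtain ⟨ω, hω⟩ := exists_omega (F := F) (K := K)
  have h1 := h (Pi.single i (ω / (δ * bar F (v i))))
  rw [bform_apply, herm_single_left] at h1
  have h2 : δ * (ω / (δ * bar F (v i)) * bar F (v i)) = ω := by
    have hδv : δ * bar F (v i) ≠ 0 := mul_ne_zero hδ hvi'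
    field_simp
  rw [h2, hω] at h1
  exact one_ne_zero h1

include hK in
theorem bform_nondeg {δ : K} (hδ : δ ≠ 0) : (bform F δ : LinearMap.BilinForm F (ι → K)).Nondegenerate :=
  ⟨fun _ h => bform_left hK hδ h, fun _ h => bform_right hK hδ h⟩

include hK in
theorem bform_alt {δ : K} (hδ : bar F δ = -δ) : (bform F δ : LinearMap.BilinForm F (ι → K)).IsAlt := by
  intro u
  rw [bform_apply]
  apply (algebraMap F K).injective
  rw [tr_eq hK, map_mul, herm_bar hK, hδ, map_zero]
  ring

/-- the quadratic form `h(v, v)` -/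
noncomputable def qform (F : Type*) [Field F] [Fintype F] {K : Type*} [Field K] [Algebra F K] {ι : Type*} [Fintype ι] (ω : K) : QuadraticForm F (ι → K) :=
  (bform F ω).toQuadraticMap

include hK in
theorem qform_apply {ω : K} (hω : Algebra.trace F K ω = 1) (u : ι → K) : algebraMap F K (qform F ω u) = herm F u u := by
  have h1 : qform F ω u = bform F ω u u := rfl
  have h2 : ω + bar F ω = 1 := by rw [← tr_eq hK, hω, map_one]
  rw [h1, bform_apply, tr_eq hK, map_mul, herm_bar hK, ← add_mul, h2, one_mul]

include hK in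
theorem qform_polar {ω : K} (hω : Algebra.trace F K ω = 1) (u v : ι → K) : QuadraticMap.polar (qform F ω) u v = Algebra.trace F K (herm F u v) := by
  have h2 : ω + bar F ω = 1 := by rw [← tr_eq hK, hω, map_one]
  apply (algebraMap F K).injective
  unfold QuadraticMap.polar
  rw [map_sub, map_sub, qform_apply hK hω, qform_apply hK hω, qform_apply hK hω, herm_add_left, herm_add_right, herm_add_right, tr_eq hK, herm_bar hK]
  ring

include hK in
theorem qform_nondeg {ω : K} (hω : Algebra.trace F K ω = 1) : (QuadraticMap.polarBilin (qform F ω : QuadraticForm F (ι → K))).Nondegenerate := by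
  have h1 : (QuadraticMap.polarBilin (qform F ω : QuadraticForm F (ι → K)) : LinearMap.BilinForm F (ι → K)) = bform F 1 := by
    apply LinearMap.ext; intro u
    apply LinearMap.ext; intro v
    rw [QuadraticMap.polarBilin_apply_apply, qform_polar hK hω, bform_apply, one_mul]
  rw [h1]
  exact bform_nondeg hK one_ne_zero

/-- the action of the unitary group -/
noncomputable def act (F : Type*) [Field F] [Fintype F] {K : Type*} [Field K] [Algebra F K] (m : ℕ) : ↥(Cfsg.GU m K (Fintype.card F)) →* ((Fin m → K) ≃ₗ[F] (Fin m → K)) where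
  toFun g := (glLin (g : GL (Fin m) K)).restrictScalars F
  map_one' := by
    ext1 v
    show glLin (1 : GL (Fin m) K) v = v
    rw [map_one]; rfl
  map_mul' g h := by
    ext1 v
    show glLin ((g : GL (Fin m) K) * (h : GL (Fin m) K)) v = glLin (g : GL (Fin m) K) (glLin (h : GL (Fin m) K) v)
    rw [map_mul]; rfl

theorem act_injective (m : ℕ) : Function.Injective (act F (K := K) m) := by
  intro g h hgh
  apply Subtype.ext
  apply glLin.injective
  ext1 v
  exact congrArg (fun z : (Fin m → K) ≃ₗ[F] (Fin m → K) => z v) hgh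

theorem act_herm {m : ℕ} (g : ↥(Cfsg.GU m K (Fintype.card F))) (u v : Fin m → K) : herm F (act F m g u) (act F m g v) = herm F u v := g.2 u v

end basic

/-- first index of the block -/
def i0 {k : ℕ} (i : Fin k) : Fin k := ⟨2 * (i / 2), by have := i.2; omega⟩
/-- second index of the block -/
def i1 {k : ℕ} (hk : Even k) (i : Fin k) : Fin k := ⟨2 * (i / 2) + 1, by have := i.2; rw [Nat.even_iff] at hk; omega⟩

section fam
variable {F K : Type*} [Field F] [Fintype F] [Field K] [Fintype K] [Algebra F K] (hK : Fintype.card K = Fintype.card F ^ 2)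
variable {ι : Type*} [Fintype ι] [DecidableEq ι] {k : ℕ} (hk : Even k) (ε : Fin k ↪ ι)

/-- the block vector -/
def vec (hk : Even k) (ε : Fin k ↪ ι) (α β x : K) (i : Fin k) : ι → K := Pi.single (ε (i0 i)) (x * α) + Pi.single (ε (i1 hk i)) (x * β)

omit [Fintype K] in
theorem herm_vec (α β x α' β' y : K) (i j : Fin k) : herm F (vec hk ε α β x i) (vec hk ε α' β' y j) =
    if (i : ℕ) / 2 = j / 2 then x * bar F y * (α * bar F α' + β * bar F β') else 0 := by
  unfold vec
  rw [herm_add_left, herm_single_left, herm_single_left, Pi.add_apply, Pi.add_apply]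
  by_cases h : (i : ℕ) / 2 = j / 2
  · rw [if_pos h]
    have h0 : i0 i = i0 j := Fin.ext (by show 2 * ((i : ℕ) / 2) = 2 * ((j : ℕ) / 2); rw [h])
    have h1 : i1 hk i = i1 hk j := Fin.ext (by show 2 * ((i : ℕ) / 2) + 1 = 2 * ((j : ℕ) / 2) + 1; rw [h])
    have h2 : ε (i0 j) ≠ ε (i1 hk j) := by
      intro h'; have := congrArg Fin.val (ε.injective h'); simp only [i0, i1] at this; omega
    rw [h0, h1, Pi.single_eq_same, Pi.single_eq_of_ne h2, Pi.single_eq_of_ne h2.symm, Pi.single_eq_same, add_zero, zero_add, map_mul, map_mul]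
    ring
  · rw [if_neg h]
    have h1 : ε (i0 i) ≠ ε (i0 j) := by
      intro h'; have := congrArg Fin.val (ε.injective h'); simp only [i0] at this; omega
    have h2 : ε (i0 i) ≠ ε (i1 hk j) := by
      intro h'; have := congrArg Fin.val (ε.injective h'); simp only [i0, i1] at this; omega
    have h3 : ε (i1 hk i) ≠ ε (i0 j) := by
      intro h'; have := congrArg Fin.val (ε.injective h'); simp only [i0, i1] at this; omega
    have h4 : ε (i1 hk i) ≠ ε (i1 hk j) := by
      intro h'; have := congrArg Fin.val (ε.injective h'); simp only [i1] at this; omega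
    rw [Pi.single_eq_of_ne h1, Pi.single_eq_of_ne h2, Pi.single_eq_of_ne h3, Pi.single_eq_of_ne h4, add_zero, map_zero, mul_zero, mul_zero, add_zero]

include hK in
theorem exists_dual : ∃ E D : ℕ → K, ∀ i j : ℕ, Algebra.trace F K (E (i % 2) * bar F (D (j % 2))) = if i % 2 = j % 2 then 1 else 0 := by
  classical
  let B : LinearMap.BilinForm F (Fin 1 → K) := bform F 1
  have hB := bform_nondeg (ι := Fin 1) hK (one_ne_zero (α := K))
  have hfr : finrank F (Fin 1 → K) = 2 := by rw [Module.finrank_pi_fintype]; simp [finrank_two hK]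
  let b : Basis (Fin 2) F (Fin 1 → K) := Module.finBasisOfFinrankEq F _ hfr
  let d := LinearMap.BilinForm.dualBasis (bform F 1) hB b
  have hbd : ∀ i j, bform F 1 (d i) (b j) = if j = i then 1 else 0 := LinearMap.BilinForm.apply_dualBasis_left hB b
  have hmod : ∀ i : ℕ, i % 2 < 2 := fun i => Nat.mod_lt _ (by norm_num)
  refine ⟨fun i => d ⟨i % 2, hmod i⟩ 0, fun i => b ⟨i % 2, hmod i⟩ 0, fun i j => ?_⟩
  have h1 := hbd ⟨i % 2, hmod i⟩ ⟨j % 2, hmod j⟩
  rw [bform_apply, one_mul] at h1
  unfold herm at h1
  rw [Fin.sum_univ_one] at h1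
  simp only [Nat.mod_mod]
  rw [h1]
  by_cases h : i % 2 = j % 2
  · rw [if_pos h, if_pos (Fin.ext h.symm)]
  · rw [if_neg h, if_neg (fun h' => h (congrArg Fin.val h').symm)]

include hK hk in
/-- hyperbolic families from coordinates -/
theorem exists_fam {ω : K} (hω : Algebra.trace F K ω = 1) : ∃ s : Fin k → (ι → K) × (ι → K), QFam (qform F ω) k s ∧
    ∀ i l, l ∉ Set.range ε → (s i).1 l = 0 ∧ (s i).2 l = 0 := by
  have hneg1 : ∃ l : K, l * bar F l = -1 := by
    obtain ⟨l, hl⟩ := FiniteField.norm_surjective F K (-1)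
    refine ⟨l, ?_⟩
    have h1 := FiniteField.algebraMap_norm_eq_prod_pow F K l
    rw [hl, finrank_two hK] at h1
    simp only [Finset.prod_range_succ, Finset.prod_range_zero, one_mul, pow_zero, pow_one, Nat.card_eq_fintype_card, map_neg, map_one] at h1
    rw [bar_apply, h1]
  obtain ⟨l, hl⟩ := hneg1
  obtain ⟨c, hc⟩ : ∃ c : K, c + bar F c = -1 := by
    obtain ⟨c, hc⟩ := Algebra.trace_surjective F K (-1)
    exact ⟨c, by rw [← tr_eq hK, hc, map_neg, map_one]⟩
  obtain ⟨E, D, hED⟩ := exists_dual hK
  have key1 : (1 : K) * bar F 1 + l * bar F l = 0 := by rw [map_one, hl]; ring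
  have key2 : (1 : K) * bar F (1 + c) + l * bar F (c * l) = 1 := by
    rw [map_add, map_one, map_mul]
    linear_combination bar F c * hl
  have key3 : (1 + c) * bar F (1 + c) + (c * l) * bar F (c * l) = 0 := by
    rw [map_add, map_one, map_mul]
    linear_combination c * bar F c * hl + hc
  refine ⟨fun i => (vec hk ε 1 l (E (i % 2)) i, vec hk ε (1 + c) (c * l) (D (i % 2)) i), ⟨fun i => ⟨?_, ?_⟩, fun i j => ⟨?_, ?_, ?_⟩⟩, ?_⟩
  · apply (algebraMap F K).injective
    rw [qform_apply hK hω, herm_vec, if_pos rfl, key1, mul_zero, map_zero]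
  · apply (algebraMap F K).injective
    rw [qform_apply hK hω, herm_vec, if_pos rfl, key3, mul_zero, map_zero]
  · rw [qform_polar hK hω, herm_vec, key1, mul_zero, ite_self, map_zero]
  · rw [qform_polar hK hω, herm_vec, key3, mul_zero, ite_self, map_zero]
  · rw [qform_polar hK hω, herm_vec, key2, mul_one]
    by_cases h : (i : ℕ) / 2 = j / 2
    · rw [if_pos h, hED]
      by_cases h' : (i : ℕ) % 2 = j % 2
      · rw [if_pos h', if_pos (Fin.ext (by omega))]
      · rw [if_neg h', if_neg (by rintro rfl; exact h' rfl)]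
    · rw [if_neg h, map_zero, if_neg (by rintro rfl; exact h rfl)]
  · intro i l' hl'
    have h1 : l' ≠ ε (i0 i) := fun h => hl' ⟨_, h.symm⟩
    have h2 : l' ≠ ε (i1 hk i) := fun h => hl' ⟨_, h.symm⟩
    constructor
    · simp only [vec, Pi.add_apply]
      rw [Pi.single_eq_of_ne h1, Pi.single_eq_of_ne h2, add_zero]
    · simp only [vec, Pi.add_apply]
      rw [Pi.single_eq_of_ne h1, Pi.single_eq_of_ne h2, add_zero]

end fam

section iso
variable {F V : Type*} [Field F] [AddCommGroup V] [Module F V]

/-- quadratic forms agreeing on a basis -/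
theorem qf_ext {ι : Type*} [Fintype ι] (b : Basis ι F V) (Q₁ Q₂ : QuadraticForm F V) (h1 : ∀ i, Q₁ (b i) = Q₂ (b i))
    (h2 : ∀ i j, QuadraticMap.polar Q₁ (b i) (b j) = QuadraticMap.polar Q₂ (b i) (b j)) (v : V) : Q₁ v = Q₂ v := by
  classical
  have hp : ∀ x y, QuadraticMap.polar Q₁ x y = QuadraticMap.polar Q₂ x y := by
    have : (QuadraticMap.polarBilin Q₁) = (QuadraticMap.polarBilin Q₂) := by
      apply b.ext; intro i
      apply b.ext; intro j
      exact h2 i j
    intro x y
    exact congrArg (fun B => B x y) this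
  have hadd : ∀ x y, Q₁ x = Q₂ x → Q₁ y = Q₂ y → Q₁ (x + y) = Q₂ (x + y) := by
    intro x y hx hy
    rw [qadd, qadd, hx, hy, hp]
  rw [← b.sum_repr v]
  refine Finset.sum_induction _ (fun x => Q₁ x = Q₂ x) hadd (by rw [QuadraticMap.map_zero, QuadraticMap.map_zero]) ?_
  intro i _
  rw [qsmul, qsmul, h1]

end iso

end CfsgLib.GUemb
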