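import Mathlib
import Cfsg.Agent.LibGUembH13
import Cfsg.Agent.LibH22Fq2b

/-! Unitary groups inside symplectic and orthogonal groups over the subfield, part 2 (seat helper13). -/

namespace CfsgLib.GUemb

open Module Cfsg.Agent.H22 CfsgLib.Std

section iso
variable {F V : Type*} [Field F] [AddCommGroup V] [Module F V] [FiniteDimensional F V] {Q : QuadraticForm F V}

theorem iso_plus {m : ℕ} (hV : finrank F V = 2 * m) {s : Fin m → V × V} (hs : QFam Q m s) :
    ∃ ψ : V ≃ₗ[F] (Fin m ⊕ Fin m → F), ∀ v, qPlus m F (ψ v) = Q v := by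
  classical
  have hli := hs.indep
  let b : Basis (Fin m ⊕ Fin m) F V := Basis.mk hli (by
    rw [hli.span_eq_top_of_card_eq_finrank' (by simp only [Fintype.card_sum, Fintype.card_fin]; omega)])
  have hb1 : ∀ i, b (Sum.inl i) = (s i).1 := fun i => by rw [Basis.mk_apply]; rfl
  have hb2 : ∀ i, b (Sum.inr i) = (s i).2 := fun i => by rw [Basis.mk_apply]; rfl
  refine ⟨b.equivFun, fun v => ?_⟩
  have he : ∀ i, (b.equivFun : V →ₗ[F] (Fin m ⊕ Fin m → F)) (b i) = Pi.single i 1 := by
    intro i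
    show b.equivFun (b i) = _
    rw [Basis.equivFun_apply, Basis.repr_self]
    exact Finsupp.single_eq_pi_single i 1
  have h := qf_ext b ((qPlus m F).comp (b.equivFun : V →ₗ[F] (Fin m ⊕ Fin m → F))) Q ?_ ?_ v
  · exact h
  · intro i
    rw [QuadraticMap.comp_apply, he, coe_qPlus]
    unfold Cfsg.quadFormPlus
    rcases i with i | i
    · rw [hb1, (hs.1 i).1]
      exact Finset.sum_eq_zero fun j _ => by rw [Pi.single_eq_of_ne (show (Sum.inr j : Fin m ⊕ Fin m) ≠ Sum.inl i by simp), mul_zero]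
    · rw [hb2, (hs.1 i).2]
      exact Finset.sum_eq_zero fun j _ => by rw [Pi.single_eq_of_ne (show (Sum.inl j : Fin m ⊕ Fin m) ≠ Sum.inr i by simp), zero_mul]
  · intro i j
    have hp : ∀ x y, QuadraticMap.polar ((qPlus m F).comp (b.equivFun : V →ₗ[F] (Fin m ⊕ Fin m → F))) x y = QuadraticMap.polar (qPlus m F) (b.equivFun x) (b.equivFun y) := by
      intro x y
      unfold QuadraticMap.polar
      rw [QuadraticMap.comp_apply, QuadraticMap.comp_apply, QuadraticMap.comp_apply, map_add]; rfl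
    have he' : ∀ i, b.equivFun (b i) = Pi.single i 1 := he
    rw [hp, he', he', polar_qPlus]
    rcases i with i | i <;> rcases j with j | j
    · rw [hb1, hb1, (hs.2 i j).1]
      exact Finset.sum_eq_zero fun l _ => by simp
    · rw [hb1, hb2, (hs.2 i j).2.2]
      simp [Pi.single_apply, eq_comm]
    · rw [hb1, hb2, QuadraticMap.polar_comm, (hs.2 j i).2.2]
      simp [Pi.single_apply]
    · rw [hb2, hb2, (hs.2 i j).2.1]
      exact Finset.sum_eq_zero fun l _ => by simp

theorem iso_minus {k : ℕ} (hV : finrank F V = 2 * k + 2) {s : Fin k → V × V} (hs : QFam Q k s) {t : Fin 2 → V} (ht : LinearIndependent F t)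
    (htc : ∀ i, t i ∈ comp Q s) {a b : F} (h0 : Q (t 0) = 1) (h01 : QuadraticMap.polar Q (t 0) (t 1) = a) (h1 : Q (t 1) = b) :
    ∃ ψ : V ≃ₗ[F] ((Fin k ⊕ Fin k) ⊕ Fin 2 → F), ∀ v, qMinus k F a b (ψ v) = Q v := by
  classical
  obtain ⟨c, hc1, hc2, hc3⟩ := exists_basis hs ht htc (by simp only [Fintype.card_fin]; omega)
  refine ⟨c.equivFun, fun v => ?_⟩
  have he' : ∀ i, c.equivFun (c i) = Pi.single i 1 := by
    intro i
    rw [Basis.equivFun_apply, Basis.repr_self]
    exact Finsupp.single_eq_pi_single i 1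
  have hcc : ∀ i (l : Fin 2), QuadraticMap.polar ⇑Q (s i).1 (t l) = 0 ∧ QuadraticMap.polar ⇑Q (s i).2 (t l) = 0 :=
    fun i l => mem_comp.1 (htc l) i
  have h := qf_ext c ((qMinus k F a b).comp (c.equivFun : V →ₗ[F] ((Fin k ⊕ Fin k) ⊕ Fin 2 → F))) Q ?_ ?_ v
  · exact h
  · intro i
    rw [QuadraticMap.comp_apply]
    show qMinus k F a b (c.equivFun (c i)) = _
    rw [he', coe_qMinus]
    unfold Cfsg.quadFormMinus
    rcases i with (i | i) | i
    · rw [hc1, (hs.1 i).1]
      rw [Finset.sum_eq_zero fun j _ => by rw [Pi.single_eq_of_ne (show (Sum.inl (Sum.inr j) : (Fin k ⊕ Fin k) ⊕ Fin 2) ≠ Sum.inl (Sum.inl i) by simp), mul_zero]]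
      simp
    · rw [hc2, (hs.1 i).2]
      rw [Finset.sum_eq_zero fun j _ => by rw [Pi.single_eq_of_ne (show (Sum.inl (Sum.inl j) : (Fin k ⊕ Fin k) ⊕ Fin 2) ≠ Sum.inl (Sum.inr i) by simp), zero_mul]]
      simp
    · rw [hc3]
      rw [Finset.sum_eq_zero fun j _ => by rw [Pi.single_eq_of_ne (show (Sum.inl (Sum.inl j) : (Fin k ⊕ Fin k) ⊕ Fin 2) ≠ Sum.inr i by simp), zero_mul]]
      fin_cases i
      · simp [h0]
      · simp [h1]
  · intro i j
    have hp : ∀ x y, QuadraticMap.polar ((qMinus k F a b).comp (c.equivFun : V →ₗ[F] ((Fin k ⊕ Fin k) ⊕ Fin 2 → F))) x y = QuadraticMap.polar (qMinus k F a b) (c.equivFun x) (c.equivFun y) := by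
      intro x y
      unfold QuadraticMap.polar
      rw [QuadraticMap.comp_apply, QuadraticMap.comp_apply, QuadraticMap.comp_apply, map_add]; rfl
    rw [hp, he', he', polar_qMinus]
    rcases i with (i | i) | i <;> rcases j with (j | j) | j
    · rw [hc1, hc1, (hs.2 i j).1]; simp
    · rw [hc1, hc2, (hs.2 i j).2.2]; simp [Pi.single_apply, eq_comm]
    · rw [hc1, hc3, (hcc i j).1]; simp
    · rw [hc1, hc2, QuadraticMap.polar_comm, (hs.2 j i).2.2]; simp [Pi.single_apply]
    · rw [hc2, hc2, (hs.2 i j).2.1]; simp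
    · rw [hc2, hc3, (hcc i j).2]; simp
    · rw [hc1, hc3, QuadraticMap.polar_comm, (hcc j i).1]; simp
    · rw [hc2, hc3, QuadraticMap.polar_comm, (hcc j i).2]; simp
    · rw [hc3, hc3]
      fin_cases i <;> fin_cases j
      · simp only [Fin.zero_eta]
        rw [pself, h0]; simp
      · simp only [Fin.zero_eta, Fin.mk_one]
        rw [h01]; simp
      · simp only [Fin.zero_eta, Fin.mk_one]
        rw [QuadraticMap.polar_comm, h01]; simp
      · simp only [Fin.mk_one]
        rw [pself, h1]; simp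

end iso

theorem exists_emb {K F : Type*} [Field K] [Fintype K] [Field F] [Fintype F] (hK : Fintype.card K = Fintype.card F ^ 2) : Nonempty (F →+* K) := by
  obtain ⟨a, b, hab⟩ := exists_aniso F
  obtain ⟨ι, -, -⟩ := exists_ext hK a b hab
  exact ⟨ι⟩

theorem finrank_pi {F K : Type*} [Field F] [Fintype F] [Field K] [Fintype K] [Algebra F K] (hK : Fintype.card K = Fintype.card F ^ 2) (m : ℕ) : finrank F (Fin m → K) = 2 * m := by
  rw [Module.finrank_pi_fintype]
  simp [finrank_two hK, mul_comm]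

/-- transport of the action to an orthogonal group -/
theorem exists_hom {F K : Type*} [Field F] [Fintype F] [Field K] [Fintype K] [Algebra F K] (hK : Fintype.card K = Fintype.card F ^ 2) {m : ℕ}
    {ω : K} (hω : Algebra.trace F K ω = 1) {W : Type*} [AddCommGroup W] [Module F W] (Q : QuadraticForm F W) (ψ : (Fin m → K) ≃ₗ[F] W) (hψ : ∀ v, Q (ψ v) = qform F ω v) :
    ∃ φ : ↥(Cfsg.GU m K (Fintype.card F)) →* OGrp Q, Function.Injective φ := by
  have hQ : ∀ g v, qform F ω (act F (K := K) m g v) = qform F ω v := by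
    intro g v
    apply (algebraMap F K).injective
    rw [qform_apply hK hω, qform_apply hK hω, act_herm]
  refine ⟨{ toFun := fun g => ⟨ψ.symm.trans ((act F m g).trans ψ), fun v => ?_⟩
            map_one' := ?_
            map_mul' := ?_ }, ?_⟩
  · show Q (ψ (act F m g (ψ.symm v))) = Q v
    rw [hψ, hQ, ← hψ, LinearEquiv.apply_symm_apply]
  · apply Subtype.ext
    ext1 v
    show ψ (act F m 1 (ψ.symm v)) = v
    rw [map_one]
    show ψ (ψ.symm v) = v
    rw [LinearEquiv.apply_symm_apply]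
  · intro g h
    apply Subtype.ext
    ext1 v
    show ψ (act F m (g * h) (ψ.symm v)) = ψ (act F m g (ψ.symm (ψ (act F m h (ψ.symm v)))))
    rw [map_mul, LinearEquiv.symm_apply_apply]; rfl
  · intro g h hgh
    apply act_injective (F := F) m
    ext1 v
    have h1 := congrArg (fun z : OGrp Q => (z : W ≃ₗ[F] W) (ψ v)) hgh
    have h2 : ψ (act F m g (ψ.symm (ψ v))) = ψ (act F m h (ψ.symm (ψ v))) := h1
    rw [LinearEquiv.symm_apply_apply] at h2
    exact ψ.injective h2

end CfsgLib.GUemb
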