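import Mathlib
import Cfsg.Prelude
import Cfsg.Agent.LibCPH13
import Cfsg.Agent.LibCycH13
import Cfsg.Agent.S2569
import Cfsg.Agent.LibFlg6H13

/-! Singer cycles: a field subalgebra of degree `n` in the matrices of size `n` and its normaliser. -/

set_option autoImplicit false

namespace CfsgLib.GeoK

open Module Polynomial Cfsg.Geo
open scoped Matrix MatrixGroups

variable {F : Type*} [Field F] {n : ℕ} {K : Subalgebra F (Matrix (Fin n) (Fin n) F)}

theorem isField {r : ℕ} (hK : IsFieldSubalgebra r K) (hn : 1 ≤ n) : IsField K where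
  exists_pair_ne := ⟨0, 1, by
    intro h
    have h1 : (0 : Matrix (Fin n) (Fin n) F) = 1 := congrArg Subtype.val h
    have h2 := congrFun (congrFun h1 ⟨0, hn⟩) ⟨0, hn⟩
    simp at h2⟩
  mul_comm := fun a b => Subtype.ext (hK.comm a.1 a.2 b.1 b.2)
  mul_inv_cancel := by
    rintro a ha
    obtain ⟨y, hy, h⟩ := hK.inv a.1 a.2 (fun h => ha (Subtype.ext h))
    exact ⟨⟨y, hy⟩, Subtype.ext h⟩

theorem free {r : ℕ} (hK : IsFieldSubalgebra r K) {a : Matrix (Fin n) (Fin n) F} (ha : a ∈ K) {v : Fin n → F} (hv : v ≠ 0)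
    (h : a *ᵥ v = 0) : a = 0 := by
  by_contra ha0
  obtain ⟨y, hy, h1⟩ := hK.inv a ha ha0
  rw [hK.comm a ha y hy] at h1
  apply hv
  rw [← Matrix.one_mulVec v, ← h1, ← Matrix.mulVec_mulVec, h, Matrix.mulVec_zero]

/-- evaluation at a vector -/
noncomputable def ev (K : Subalgebra F (Matrix (Fin n) (Fin n) F)) (v : Fin n → F) : K →ₗ[F] (Fin n → F) where
  toFun a := a.1 *ᵥ v
  map_add' a b := Matrix.add_mulVec _ _ _
  map_smul' c a := Matrix.smul_mulVec _ _ _

theorem ev_apply (v : Fin n → F) (a : K) : ev K v a = a.1 *ᵥ v := rfl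

theorem finDim : FiniteDimensional F K := inferInstanceAs (FiniteDimensional F (Subalgebra.toSubmodule K))

theorem ev_bij (hK : IsFieldSubalgebra n K) {v : Fin n → F} (hv : v ≠ 0) : Function.Bijective (ev K v) := by
  haveI : FiniteDimensional F K := finDim
  have hinj : Function.Injective (ev K v) := by
    rw [← LinearMap.ker_eq_bot, LinearMap.ker_eq_bot']
    intro a ha
    exact Subtype.ext (free hK a.2 hv ha)
  have hf : finrank F K = finrank F (Fin n → F) := by rw [hK.finrank_eq, Module.finrank_fin_fun]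
  exact ⟨hinj, (LinearMap.injective_iff_surjective_of_finrank_eq_finrank hf).mp hinj⟩

theorem minpoly_deg (hn : 1 ≤ n) {r : ℕ} (hK : IsFieldSubalgebra r K) (k : K) : Irreducible (minpoly F k.1) ∧ (minpoly F k.1).natDegree ∣ r := by
  haveI : FiniteDimensional F K := finDim
  have hf := isField hK hn
  letI : Field K := hf.toField
  have h1 : minpoly F k.1 = minpoly F k := minpoly.algHom_eq K.val Subtype.val_injective k
  rw [h1]
  refine ⟨minpoly.irreducible (Algebra.IsIntegral.isIntegral k), ?_⟩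
  rw [← hK.finrank_eq]
  exact minpoly.degree_dvd (Algebra.IsIntegral.isIntegral k)

theorem exists_indep {V : Type*} [AddCommGroup V] [Module F V] [FiniteDimensional F V] (W : Submodule F V) (h : 2 ≤ finrank F W) :
    ∃ v ∈ W, ∃ w ∈ W, v ≠ 0 ∧ ∀ c : F, w ≠ c • v := by
  obtain ⟨v, hv⟩ : ∃ v : W, v ≠ 0 := by
    haveI : Nontrivial W := Module.nontrivial_of_finrank_pos (R := F) (by omega)
    exact exists_ne 0
  have h1 : ∃ w : W, w ∉ Submodule.span F {v} := by
    by_contra hcon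
    push Not at hcon
    have h2 : Submodule.span F {v} = ⊤ := eq_top_iff.2 fun w _ => hcon w
    have h3 := finrank_span_singleton (K := F) hv
    rw [h2, finrank_top] at h3
    omega
  obtain ⟨w, hw⟩ := h1
  refine ⟨v, v.2, w, w.2, fun h => hv (Subtype.ext h), fun c hc => hw ?_⟩
  rw [Submodule.mem_span_singleton]
  exact ⟨c, Subtype.ext hc.symm⟩

theorem fix_lemma (hn : n.Prime) (hK : IsFieldSubalgebra n K) (g : GL (Fin n) F) (hg : g ∈ subalgebraNormalizer K) (a : F) (ha : a ≠ 0)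
    (hr : Matrix.rank (g.1 - a • (1 : Matrix (Fin n) (Fin n) F)) + 2 ≤ n) : g.1 = a • (1 : Matrix (Fin n) (Fin n) F) := by
  obtain ⟨v, hv, w, hw, hv0, hvw⟩ := exists_indep (LinearMap.ker (Matrix.mulVecLin (g.1 - a • (1 : Matrix (Fin n) (Fin n) F)))) (by
    have h1 := LinearMap.finrank_range_add_finrank_ker (Matrix.mulVecLin (g.1 - a • (1 : Matrix (Fin n) (Fin n) F)))
    rw [Module.finrank_fin_fun] at h1
    have h2 : finrank F (LinearMap.range (Matrix.mulVecLin (g.1 - a • (1 : Matrix (Fin n) (Fin n) F)))) + 2 ≤ n := hr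
    omega)
  rw [LinearMap.mem_ker, Matrix.mulVecLin_apply, Matrix.sub_mulVec, Matrix.smul_mulVec, Matrix.one_mulVec, sub_eq_zero] at hv hw
  obtain ⟨k, hk⟩ := (ev_bij hK hv0).2 w
  rw [ev_apply] at hk
  have hk' := (hg k.1).mp k.2
  have hginv : (g⁻¹).1 * g.1 = 1 := by rw [← Units.val_mul, inv_mul_cancel]; rfl
  have h1 : (g⁻¹).1 *ᵥ v = a⁻¹ • v := by
    have h2 : (g⁻¹).1 *ᵥ (g.1 *ᵥ v) = v := by
      rw [Matrix.mulVec_mulVec, hginv, Matrix.one_mulVec]
    rw [hv, Matrix.mulVec_smul] at h2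
    rw [eq_inv_smul_iff₀ ha]
    exact h2
  have h2 : (g.1 * k.1 * (g⁻¹).1 - k.1) *ᵥ v = 0 := by
    rw [Matrix.sub_mulVec, ← Matrix.mulVec_mulVec, h1, Matrix.mulVec_smul, ← Matrix.mulVec_mulVec, hk, hw, inv_smul_smul₀ ha, sub_self]
  have h3 := free hK (Subalgebra.sub_mem _ hk' k.2) hv0 h2
  have h4 : Commute g.1 k.1 := by
    have h5 : g.1 * k.1 * (g⁻¹).1 * g.1 = k.1 * g.1 := by rw [sub_eq_zero.mp h3]
    rw [mul_assoc, hginv, mul_one] at h5
    exact h5
  obtain ⟨hirr, hdvd⟩ := minpoly_deg hn.one_lt.le hK k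
  have hdeg : (minpoly F k.1).natDegree = n := by
    rcases (Nat.dvd_prime hn).mp hdvd with h5 | h5
    · exfalso
      haveI : Nonempty (Fin n) := ⟨⟨0, hn.pos⟩⟩
      rw [minpoly.natDegree_eq_one_iff] at h5
      obtain ⟨c, hc⟩ := h5
      apply hvw c
      rw [← hk, ← hc, Algebra.algebraMap_eq_smul_one, Matrix.smul_mulVec, Matrix.one_mulVec]
    · exact h5
  -- transfer to endomorphisms
  have hT : aeval (Matrix.toLinAlgEquiv' (R := F) k.1) (minpoly F k.1) = 0 := by
    have h5 := Polynomial.aeval_algHom_apply (Matrix.toLinAlgEquiv' (R := F) (n := Fin n)).toAlgHom k.1 (minpoly F k.1)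
    rw [minpoly.aeval, map_zero] at h5
    exact h5
  have hcom : Commute (Matrix.toLinAlgEquiv' (R := F) g.1) (Matrix.toLinAlgEquiv' (R := F) k.1) := by
    have h5 := congrArg (Matrix.toLinAlgEquiv' (R := F) (n := Fin n)) h4.eq
    rw [map_mul, map_mul] at h5
    exact h5
  apply (Matrix.toLinAlgEquiv' (R := F) (n := Fin n)).injective
  apply LinearMap.ext
  intro u
  obtain ⟨l, hl⟩ := (CfsgLib.Cyc.eval_bijective (Matrix.toLinAlgEquiv' (R := F) k.1) hT hirr (by rw [hdeg, Module.finrank_fin_fun]) hv0).2 u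
  have h6 : Commute (Matrix.toLinAlgEquiv' (R := F) g.1) (CfsgLib.Cyc.act (Matrix.toLinAlgEquiv' (R := F) k.1) _ hT l) := CfsgLib.Cyc.comm_act _ _ hT l hcom
  have h7 : (Matrix.toLinAlgEquiv' (R := F) g.1) v = a • v := hv
  have h8 : (Matrix.toLinAlgEquiv' (R := F) (a • (1 : Matrix (Fin n) (Fin n) F))) u = a • u := by
    rw [map_smul, map_one]; rfl
  rw [h8, ← hl]
  show (Matrix.toLinAlgEquiv' (R := F) g.1) ((CfsgLib.Cyc.act (Matrix.toLinAlgEquiv' (R := F) k.1) _ hT l) v) = a • ((CfsgLib.Cyc.act (Matrix.toLinAlgEquiv' (R := F) k.1) _ hT l) v)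
  rw [← Module.End.mul_apply, h6.eq, Module.End.mul_apply, h7, map_smul]

theorem exists_frob [Fintype F] (hn : 1 ≤ n) (hK : IsFieldSubalgebra n K) :
    ∃ g : GL (Fin n) F, g ∈ subalgebraNormalizer K ∧ g.1.charpoly = X ^ n - 1 := by
  classical
  haveI : FiniteDimensional F K := finDim
  have hf := isField hK hn
  letI : Field K := hf.toField
  haveI : Finite K := Module.finite_of_finite F
  haveI : Nonempty (Fin n) := ⟨⟨0, hn⟩⟩
  obtain ⟨v, hv⟩ : ∃ v : Fin n → F, v ≠ 0 := exists_ne 0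
  let ψ : K ≃ₗ[F] (Fin n → F) := LinearEquiv.ofBijective (ev K v) (ev_bij hK hv)
  have hψ : ∀ a : K, ψ a = a.1 *ᵥ v := fun a => rfl
  let φ : K →ₐ[F] K := FiniteField.frobeniusAlgHom F K
  have hφb : Function.Bijective φ := by
    have h1 : Function.Injective φ := φ.toRingHom.injective
    exact ⟨h1, Finite.surjective_of_injective h1⟩
  have hmp : minpoly F φ.toLinearMap = X ^ finrank F K - 1 := FiniteField.minpoly_frobeniusAlgHom F K
  have hcp : φ.toLinearMap.charpoly = X ^ n - 1 := by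
    rw [hK.finrank_eq] at hmp
    have hm : (X ^ n - 1 : F[X]).Monic := by
      rw [← C_1]; exact monic_X_pow_sub_C 1 (by omega)
    apply Polynomial.eq_of_monic_of_dvd_of_natDegree_le hm (LinearMap.charpoly_monic _)
    · rw [← hmp]; exact LinearMap.minpoly_dvd_charpoly _
    · rw [LinearMap.charpoly_natDegree, hK.finrank_eq, ← C_1, natDegree_X_pow_sub_C]
  let e : K ≃ₗ[F] K := LinearEquiv.ofBijective φ.toLinearMap hφb
  let G : (Fin n → F) ≃ₗ[F] (Fin n → F) := ψ.symm.trans (e.trans ψ)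
  have hG : ∀ b, G (ψ b) = ψ (φ b) := by
    intro b
    show ψ (e (ψ.symm (ψ b))) = ψ (φ b)
    rw [LinearEquiv.symm_apply_apply]
    rfl
  let g : GL (Fin n) F := ⟨LinearMap.toMatrix' G.toLinearMap, LinearMap.toMatrix' G.symm.toLinearMap, by
    rw [← LinearMap.toMatrix'_comp]
    rw [LinearEquiv.comp_coe, LinearEquiv.symm_trans_self]; exact LinearMap.toMatrix'_id, by
    rw [← LinearMap.toMatrix'_comp]
    rw [LinearEquiv.comp_coe, LinearEquiv.self_trans_symm]; exact LinearMap.toMatrix'_id⟩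
  have hg : ∀ u, g.1 *ᵥ u = G u := fun u => LinearMap.toMatrix'_mulVec _ _
  have key : ∀ k : K, g.1 * k.1 = (φ k).1 * g.1 := by
    intro k
    apply Matrix.toLin'.injective
    apply LinearMap.ext
    intro u
    obtain ⟨b, rfl⟩ := ψ.surjective u
    rw [Matrix.toLin'_apply, Matrix.toLin'_apply, ← Matrix.mulVec_mulVec, ← Matrix.mulVec_mulVec]
    have h1 : k.1 *ᵥ ψ b = ψ (k * b) := by rw [hψ, hψ, Matrix.mulVec_mulVec]; rfl
    rw [h1, hg, hg, hG, hG, map_mul, hψ, hψ, Matrix.mulVec_mulVec]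
    rfl
  have hgi : g.1 * (g⁻¹).1 = 1 := by rw [← Units.val_mul, mul_inv_cancel]; rfl
  have hgi' : (g⁻¹).1 * g.1 = 1 := by rw [← Units.val_mul, inv_mul_cancel]; rfl
  have key2 : ∀ k : K, g.1 * k.1 * (g⁻¹).1 = (φ k).1 := by
    intro k
    rw [key, mul_assoc, hgi, mul_one]
  refine ⟨g, ?_, ?_⟩
  · intro k
    constructor
    · intro hk
      have := key2 ⟨k, hk⟩
      rw [show g.1 * k * (g⁻¹).1 = (φ ⟨k, hk⟩).1 from this]
      exact (φ ⟨k, hk⟩).2
    · intro hk
      obtain ⟨d, hd⟩ := hφb.2 ⟨_, hk⟩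
      have h1 : (φ d).1 = g.1 * k * (g⁻¹).1 := congrArg Subtype.val hd
      rw [← key2 d] at h1
      have h2 : k = d.1 := by
        have h3 : (g⁻¹).1 * (g.1 * k * (g⁻¹).1) * g.1 = (g⁻¹).1 * (g.1 * d.1 * (g⁻¹).1) * g.1 := by rw [h1]
        have h4 : ∀ m : Matrix (Fin n) (Fin n) F, (g⁻¹).1 * (g.1 * m * (g⁻¹).1) * g.1 = m := by
          intro m
          calc (g⁻¹).1 * (g.1 * m * (g⁻¹).1) * g.1 = ((g⁻¹).1 * g.1) * m * ((g⁻¹).1 * g.1) := by simp only [mul_assoc]
            _ = m := by rw [hgi', one_mul, mul_one]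
        rwa [h4, h4] at h3
      rw [h2]; exact d.2
  · have h1 : (LinearMap.toMatrix' G.toLinearMap).charpoly = G.toLinearMap.charpoly := by
      rw [← LinearMap.toMatrix_eq_toMatrix', LinearMap.charpoly_toMatrix]
    have h2 : G.toLinearMap = ψ.conj φ.toLinearMap := by
      apply LinearMap.ext
      intro u
      rfl
    show (LinearMap.toMatrix' G.toLinearMap).charpoly = X ^ n - 1
    rw [h1, h2, LinearEquiv.charpoly_conj, hcp]

theorem conj_lemma [Fintype F] {p : ℕ} [Fact p.Prime] [CharP F p] (hn : 1 ≤ n) (hnp : n.Coprime p) (hK : IsFieldSubalgebra n K)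
    (x : Matrix.SpecialLinearGroup (Fin n) F) (hx : x.1.charpoly = X ^ n - 1) :
    ∃ P : Matrix.SpecialLinearGroup (Fin n) F, P⁻¹ * x * P ∈ (subalgebraNormalizer K).comap
      (Matrix.SpecialLinearGroup.toGL : Matrix.SpecialLinearGroup (Fin n) F →* GL (Fin n) F) := by
  classical
  obtain ⟨g, hg, hgc⟩ := exists_frob hn hK
  have hpow : ∀ M : Matrix (Fin n) (Fin n) F, M.charpoly = X ^ n - 1 → M ^ n = 1 := by
    intro M hM
    have h1 := Matrix.aeval_self_charpoly M
    rw [hM, map_sub, map_pow, aeval_X, map_one, sub_eq_zero] at h1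
    exact h1
  have hxn := hpow _ hx
  have hgn := hpow _ hgc
  have h1 : (Matrix.toLinAlgEquiv' (R := F) x.1) ^ n = 1 := by rw [← map_pow, hxn, map_one]
  have h2 : (Matrix.toLinAlgEquiv' (R := F) g.1) ^ n = 1 := by rw [← map_pow, hgn, map_one]
  have hch : ∀ M : Matrix (Fin n) (Fin n) F, (Matrix.toLinAlgEquiv' (R := F) M).charpoly = M.charpoly := by
    intro M
    exact Matrix.charpoly_toLin' M
  obtain ⟨ψ, hψ⟩ := CfsgLib.CP.conj_of_charpoly (p := p) hnp h1 hnp h2 (by rw [hch, hch, hx, hgc])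
  let h : GL (Fin n) F := ⟨LinearMap.toMatrix' ψ.toLinearMap, LinearMap.toMatrix' ψ.symm.toLinearMap, by
    rw [← LinearMap.toMatrix'_comp]
    rw [LinearEquiv.comp_coe, LinearEquiv.symm_trans_self]; exact LinearMap.toMatrix'_id, by
    rw [← LinearMap.toMatrix'_comp]
    rw [LinearEquiv.comp_coe, LinearEquiv.self_trans_symm]; exact LinearMap.toMatrix'_id⟩
  have hh : h.1 * x.1 = g.1 * h.1 := by
    apply Matrix.toLin'.injective
    apply LinearMap.ext
    intro u
    have h3 : ∀ w, h.1 *ᵥ w = ψ w := fun w => LinearMap.toMatrix'_mulVec _ _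
    rw [Matrix.toLin'_apply, Matrix.toLin'_apply, ← Matrix.mulVec_mulVec, ← Matrix.mulVec_mulVec, h3, h3]
    exact hψ u
  have hh2 : h * Matrix.SpecialLinearGroup.toGL x * h⁻¹ = g := by
    rw [mul_inv_eq_iff_eq_mul]
    exact Units.ext hh
  have hxn' : (Matrix.SpecialLinearGroup.toGL x) ^ n = 1 := by
    apply Units.ext
    rw [Units.val_pow_eq_pow_val]
    exact hxn
  obtain ⟨h', hd, hc⟩ := Cfsg.Agent.S2569.result (p := p) (Matrix.SpecialLinearGroup.toGL x) h
    (Nat.Coprime.coprime_dvd_left (orderOf_dvd_of_pow_eq_one hxn') hnp)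
  rw [hh2] at hc
  let P : Matrix.SpecialLinearGroup (Fin n) F := ⟨h'.1, hd⟩
  have hP : Matrix.SpecialLinearGroup.toGL P = h' := Units.ext rfl
  refine ⟨P⁻¹, ?_⟩
  rw [Subgroup.mem_comap, map_mul, map_mul, inv_inv, map_inv, hP, hc]
  exact hg

theorem charpoly_eq [Fintype F] {p : ℕ} [hp : Fact p.Prime] [CharP F p] (hn : n.Prime) (hn2 : 3 ≤ n) (hnp : n ≠ p)
    (ho : orderOf ((Fintype.card F : ℕ) : ZMod n) = n - 1)
    (M : Matrix (Fin n) (Fin n) F) (hM : M ^ n = 1) (hM1 : M ≠ 1) : M.charpoly = X ^ n - 1 := by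
  classical
  haveI : Fact n.Prime := ⟨hn⟩
  have hnF : (n : F) ≠ 0 := CfsgLib.Flg.cast_ne (p := p) hn hnp
  obtain ⟨f, _, hcard⟩ := FiniteField.card F p
  have hcop : p.Coprime n := (Nat.coprime_primes hp.out hn).mpr (Ne.symm hnp)
  have hirr : Irreducible (cyclotomic n F) := by
    apply Polynomial.irreducible_of_dvd_cyclotomic_of_natDegree hcard hcop dvd_rfl
    rw [natDegree_cyclotomic, Nat.totient_prime hn, ← orderOf_units, ZMod.coe_unitOfCoprime, ← ho, hcard]
  have hmul : cyclotomic n F * (X - 1) = X ^ n - 1 := cyclotomic_prime_mul_X_sub_one F n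
  have hdvd1 : cyclotomic n F ∣ M.charpoly := by
    by_contra hcon
    obtain ⟨a, b, hab⟩ := (hirr.coprime_iff_not_dvd).mpr hcon
    have h1 : aeval M a * aeval M (cyclotomic n F) = 1 := by
      have h2 := congrArg (aeval M) hab
      rw [map_add, map_mul, map_mul, Matrix.aeval_self_charpoly, mul_zero, add_zero, map_one] at h2
      exact h2
    have h2 : aeval M (cyclotomic n F) * (M - 1) = 0 := by
      have h3 := congrArg (aeval M) hmul
      rw [map_mul, map_sub, map_sub, map_pow, aeval_X, map_one, hM, sub_self] at h3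
      exact h3
    apply hM1
    rw [← sub_eq_zero]
    calc M - 1 = (aeval M a * aeval M (cyclotomic n F)) * (M - 1) := by rw [h1, one_mul]
      _ = 0 := by rw [mul_assoc, h2, mul_zero]
  have hdvd2 : (X - 1 : F[X]) ∣ M.charpoly := by
    rw [← C_1, dvd_iff_isRoot]
    by_contra hcon
    let B : Module.End F (Fin n → F) := Matrix.toLinAlgEquiv' (R := F) M
    have hB : B ^ n = 1 := by
      show (Matrix.toLinAlgEquiv' (R := F) M) ^ n = 1
      rw [← map_pow, hM, map_one]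
    have hW : LinearMap.range (B - 1) = ⊤ := by
      rw [LinearMap.range_eq_top, ← LinearMap.injective_iff_surjective, ← LinearMap.ker_eq_bot, LinearMap.ker_eq_bot']
      intro v hv
      by_contra hv0
      apply hcon
      rw [IsRoot.def, Matrix.eval_charpoly]
      rw [← Matrix.exists_mulVec_eq_zero_iff]
      refine ⟨v, hv0, ?_⟩
      rw [LinearMap.sub_apply, Module.End.one_apply, sub_eq_zero] at hv
      have hv' : M *ᵥ v = v := hv
      rw [Matrix.sub_mulVec, hv', map_one, Matrix.one_mulVec, sub_self]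
    have h1 := CfsgLib.Flg.dvd_finrank hn hnF B hB ⊤ (fun x _ => Submodule.mem_top) (by rw [hW])
    rw [ho, finrank_top, Module.finrank_fin_fun] at h1
    have h2 : n - 1 ∣ 1 := (Nat.dvd_sub h1 (dvd_refl (n - 1))).trans (by rw [show n - (n - 1) = 1 by omega])
    have h3 := Nat.le_of_dvd one_pos h2
    omega
  have hcop2 : IsCoprime (cyclotomic n F) (X - 1 : F[X]) := by
    rw [hirr.coprime_iff_not_dvd]
    intro h
    have h1 := natDegree_le_of_dvd h (by rw [← C_1]; exact X_sub_C_ne_zero 1)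
    rw [natDegree_cyclotomic, Nat.totient_prime hn, ← C_1, natDegree_X_sub_C] at h1
    omega
  have hd := hcop2.mul_dvd hdvd1 hdvd2
  rw [hmul] at hd
  have hm : (X ^ n - 1 : F[X]).Monic := by
    rw [← C_1]; exact monic_X_pow_sub_C 1 (by omega)
  apply Polynomial.eq_of_monic_of_dvd_of_natDegree_le hm (Matrix.charpoly_monic _) hd
  rw [Matrix.charpoly_natDegree_eq_dim, Fintype.card_fin, ← C_1, natDegree_X_pow_sub_C]

/-- conjugates which meet the normaliser are trivial when they have a large eigenspace -/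
theorem conj_trivial (hn : n.Prime) (hK : IsFieldSubalgebra n K) (x P : Matrix.SpecialLinearGroup (Fin n) F)
    (hx : P⁻¹ * x * P ∈ (subalgebraNormalizer K).comap
      (Matrix.SpecialLinearGroup.toGL : Matrix.SpecialLinearGroup (Fin n) F →* GL (Fin n) F)) (a : F) (ha : a ≠ 0)
    (hr : Matrix.rank (x.1 - a • (1 : Matrix (Fin n) (Fin n) F)) + 2 ≤ n) : x.1 = a • (1 : Matrix (Fin n) (Fin n) F) := by
  rw [Subgroup.mem_comap] at hx
  have hPi : (P⁻¹).1 * P.1 = 1 := congrArg Subtype.val (inv_mul_cancel P)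
  have hPi' : P.1 * (P⁻¹).1 = 1 := congrArg Subtype.val (mul_inv_cancel P)
  have h1 := fix_lemma hn hK _ hx a ha (by
    have h2 : (P⁻¹ * x * P).1 - a • (1 : Matrix (Fin n) (Fin n) F) = (P⁻¹).1 * ((x.1 - a • (1 : Matrix (Fin n) (Fin n) F)) * P.1) := by
      rw [sub_mul, mul_sub, Matrix.smul_mul, Matrix.mul_smul, one_mul, hPi, ← mul_assoc]; rfl
    show Matrix.rank ((P⁻¹ * x * P).1 - a • (1 : Matrix (Fin n) (Fin n) F)) + 2 ≤ n
    rw [h2]
    have h3 := Matrix.rank_mul_le_right (P⁻¹).1 ((x.1 - a • (1 : Matrix (Fin n) (Fin n) F)) * P.1)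
    have h4 := Matrix.rank_mul_le_left (x.1 - a • (1 : Matrix (Fin n) (Fin n) F)) P.1
    omega)
  have h2 : (P⁻¹).1 * x.1 * P.1 = a • (1 : Matrix (Fin n) (Fin n) F) := h1
  have h3 : P.1 * ((P⁻¹).1 * x.1 * P.1) * (P⁻¹).1 = x.1 := by
    calc P.1 * ((P⁻¹).1 * x.1 * P.1) * (P⁻¹).1 = (P.1 * (P⁻¹).1) * x.1 * (P.1 * (P⁻¹).1) := by simp only [mul_assoc]
      _ = x.1 := by rw [hPi', one_mul, mul_one]
  rw [← h3, h2, Matrix.mul_smul, Matrix.smul_mul, mul_one, hPi']

theorem rank_blk (m b : ℕ) (A : Matrix.SpecialLinearGroup (Fin m) F) :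
    Matrix.rank ((CfsgLib.Flg.rei finSumFinEquiv (CfsgLib.Flg.blk m b (A, 1)) : Matrix.SpecialLinearGroup (Fin (m + b)) F).1 - (1 : F) • (1 : Matrix (Fin (m + b)) (Fin (m + b)) F)) ≤ m := by
  classical
  have h1 : (CfsgLib.Flg.rei finSumFinEquiv (CfsgLib.Flg.blk m b (A, 1)) : Matrix.SpecialLinearGroup (Fin (m + b)) F).1 - (1 : F) • (1 : Matrix (Fin (m + b)) (Fin (m + b)) F)
      = Matrix.reindexAlgEquiv F F finSumFinEquiv (Matrix.fromBlocks (A.1 - 1) 0 0 0) := by
    have e1 : (CfsgLib.Flg.rei finSumFinEquiv (CfsgLib.Flg.blk m b (A, 1)) : Matrix.SpecialLinearGroup (Fin (m + b)) F).1 = Matrix.reindexAlgEquiv F F finSumFinEquiv (Matrix.fromBlocks A.1 0 0 1) := rfl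
    have e2 : (Matrix.fromBlocks A.1 0 0 1 : Matrix (Fin m ⊕ Fin b) (Fin m ⊕ Fin b) F) - 1 = Matrix.fromBlocks (A.1 - 1) 0 0 0 := by
      ext i j
      rcases i with i | i <;> rcases j with j | j
      · simp [Matrix.one_apply, Sum.inl.injEq]
      · simp [Matrix.one_apply]
      · simp [Matrix.one_apply]
      · simp [Matrix.one_apply, Sum.inr.injEq]
    rw [e1, one_smul, ← map_one (Matrix.reindexAlgEquiv F F finSumFinEquiv), ← map_sub, e2]
  rw [h1, Matrix.reindexAlgEquiv_apply, Matrix.rank_reindex]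
  have h3 : (Matrix.fromBlocks (A.1 - 1) 0 0 0 : Matrix (Fin m ⊕ Fin b) (Fin m ⊕ Fin b) F) =
      Matrix.fromRows (A.1 - 1) (0 : Matrix (Fin b) (Fin m) F) * Matrix.fromCols (1 : Matrix (Fin m) (Fin m) F) (0 : Matrix (Fin m) (Fin b) F) := by
    rw [Matrix.fromRows_mul_fromCols]
    simp
  rw [h3]
  refine (Matrix.rank_mul_le_left _ _).trans ((Matrix.rank_le_card_width _).trans ?_)
  rw [Fintype.card_fin]

end CfsgLib.GeoK
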