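import Cfsg.Agent.LibGlaub4
/-!
# Invariant characters above invariant characters, solvable coprime operators (helper20)
-/
set_option autoImplicit false
set_option linter.all false
open scoped ComplexConjugate commutatorElement
open Cfsg
namespace CfsgLib.Glaub5
open CfsgLib CfsgLib.CharBasic CfsgLib.CharIndA CfsgLib.Clifford CfsgLib.Glaub CfsgLib.Glaub2 CfsgLib.Glaub4

universe u v w

section ModQ
variable {G : Type u} [Group G] [Fintype G] {T : Type v} [Group T] [Finite T] (φ : T →* MulAut G)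
  {q : ℕ} (hq : q.Prime) (hT : IsPGroup q T) (hG : ¬ q ∣ Nat.card G)
  (D : Subgroup G) [Fintype D] (hD : D = fix φ) (N : Subgroup G) [hN : N.Normal] [Fintype N] (hNT : ∀ a, ∀ n ∈ N, φ a n ∈ N)
  (H : Subgroup G) [Fintype H] (hH : H = N ⊓ D) [Fintype (H.subgroupOf N)]

include hD hH in
theorem fixN : H.subgroupOf N = fix (resHom φ N hNT) := by
  ext x
  rw [Subgroup.mem_subgroupOf, hH, Subgroup.mem_inf, hD]
  constructor
  · rintro ⟨-, h⟩ a
    exact Subtype.ext (h a)
  · intro h
    exact ⟨x.2, fun a => congrArg Subtype.val (h a)⟩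

theorem normal_in_D (hHN : H ≤ N) (hHD : H ≤ D) (hH : H = N ⊓ D) : (H.subgroupOf D).Normal := by
  have : H.subgroupOf D = N.subgroupOf D := by
    ext x
    rw [Subgroup.mem_subgroupOf, Subgroup.mem_subgroupOf, hH, Subgroup.mem_inf]
    exact ⟨fun h => h.1, fun h => ⟨h, x.2⟩⟩
  rw [this]
  infer_instance

include hq hT hG hD hH in
/-- compatibility of the Glauberman correspondences of `G` and of a normal subgroup -/
theorem mult_ne_zero (hHN : H ≤ N) (hHD : H ≤ D) {χ : G → ℂ} (hχ : IsIrrCharacter G χ) (hχi : Inv φ χ)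
    {ξ : D → ℂ} (hξ : IsIrrCharacter D ξ) (hst : Glaub.Star D q χ ξ)
    {θ : N → ℂ} (hθ : IsIrrCharacter N θ) (hθi : Inv (resHom φ N hNT) θ)
    {β : H → ℂ} (hβ : IsIrrCharacter H β) (hst' : Glaub.Star (H.subgroupOf N) q θ (toSub N β))
    (h : classInner (resT hHD ξ) β ≠ 0) : classInner (fun n : N => χ n) θ ≠ 0 := by
  classical
  intro h0
  haveI := Fintype.ofFinite (H.subgroupOf D)
  have hHn : (H.subgroupOf D).Normal := normal_in_D D N H hHN hHD hH
  -- (a)
  obtain ⟨m, hm, hexp, -⟩ := char_expand (isCharacter_restrict (irr_isCharacter hχ) D)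
  have hk : ∀ γ : IrrCharacter D, ∃ k : ℕ, classInner (resT hHD (γ : D → ℂ)) β = k := fun γ =>
    char_mult (resT_char hHD (irr_isCharacter γ.2)) (irr_isCharacter hβ)
  choose k hk using hk
  have hXa : classInner (fun x : H => χ x) β = ∑ γ : IrrCharacter D, (m γ : ℂ) * k γ := by
    have h3 : (fun x : H => χ x) = ∑ γ : IrrCharacter D, (m γ : ℂ) • resT hHD (γ : D → ℂ) := by
      ext n
      have := congrFun hexp ⟨n, hHD n.2⟩
      rw [Finset.sum_apply] at this ⊢
      exact this
    rw [h3, CharBasic.inner_sum_left]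
    exact Finset.sum_congr rfl fun γ _ => by rw [CharBasic.inner_smul_left, hk]
  have ha : pI q (classInner (fun x : H => χ x) β - (m ⟨ξ, hξ⟩ : ℂ) * k ⟨ξ, hξ⟩) := by
    rw [hXa, ← Finset.add_sum_erase _ _ (Finset.mem_univ (⟨ξ, hξ⟩ : IrrCharacter D)), add_sub_cancel_left]
    apply pI_sum hq
    intro γ hγ
    apply pI_mul hq _ (pR_nat hq _)
    apply pI_of_dvd hq
    by_contra hcon
    have h5 := star_right φ D hD hq hT hG hχ hχi γ.2 hξ ⟨m γ, hm γ, hcon⟩ hst
    exact (Finset.mem_erase.mp hγ).1 (Subtype.ext h5)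
  -- (b)
  obtain ⟨n, hn, hexpN, -⟩ := char_expand (isCharacter_restrict (irr_isCharacter hχ) N)
  have hl : ∀ ψ : IrrCharacter N, ∃ l : ℕ, classInner (resT hHN (ψ : N → ℂ)) β = l := fun ψ =>
    char_mult (resT_char hHN (irr_isCharacter ψ.2)) (irr_isCharacter hβ)
  choose l hl using hl
  have hXb : classInner (fun x : H => χ x) β = ∑ ψ : IrrCharacter N, (n ψ : ℂ) * l ψ := by
    have h3 : (fun x : H => χ x) = ∑ ψ : IrrCharacter N, (n ψ : ℂ) • resT hHN (ψ : N → ℂ) := by
      ext x
      have := congrFun hexpN ⟨x, hHN x.2⟩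
      rw [Finset.sum_apply] at this ⊢
      exact this
    rw [h3, CharBasic.inner_sum_left]
    exact Finset.sum_congr rfl fun γ _ => by rw [CharBasic.inner_smul_left, hl]
  letI := irrAct (resHom φ N hNT)
  have h5 := sum_fixed (A := T) (X := IrrCharacter N) hq hT
    (fun ψ => classInner (fun x : N => χ x) (ψ : N → ℂ) * classInner (resT hHN (ψ : N → ℂ)) β) (fun a ψ => by
      change classInner (fun x : N => χ x) ((ψ : N → ℂ) ∘ (resHom φ N hNT a⁻¹)) *
        classInner (fun h : H => (ψ : N → ℂ) (resHom φ N hNT a⁻¹ ⟨h, hHN h.2⟩)) β = _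
      have e1 : classInner (fun x : N => χ x) ((ψ : N → ℂ) ∘ (resHom φ N hNT a⁻¹)) = classInner (fun x : N => χ x) (ψ : N → ℂ) := by
        have : (fun x : N => χ x) = (fun x : N => χ x) ∘ (resHom φ N hNT a⁻¹) := by
          ext g; exact (hχi a⁻¹ g).symm
        conv_lhs => rw [this]
        exact ci_equiv _ _ _
      have e2 : (fun h : H => (ψ : N → ℂ) (resHom φ N hNT a⁻¹ ⟨h, hHN h.2⟩)) = resT hHN (ψ : N → ℂ) := by
        ext c
        refine congrArg (ψ : N → ℂ) (Subtype.ext ?_)
        have hc : (c : G) ∈ fix φ := by rw [← hD]; exact hHD c.2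
        exact hc a⁻¹
      rw [e1, e2]) (fun ψ => by
      rw [hn, hl]
      exact pR_mul hq (pR_nat hq _) (pR_nat hq _))
  have h6 : pI q (∑ ψ ∈ Finset.univ.filter (fun ψ : IrrCharacter N => ψ ∈ MulAction.fixedPoints T (IrrCharacter N)),
      classInner (fun x : N => χ x) (ψ : N → ℂ) * classInner (resT hHN (ψ : N → ℂ)) β) := by
    apply pI_sum hq
    intro ψ hψ
    rw [Finset.mem_filter] at hψ
    have hi := (irrAct_fixed (resHom φ N hNT) ψ).mp hψ.2
    by_cases e : (ψ : N → ℂ) = θ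
    · rw [e, h0, zero_mul]; exact pI_zero hq
    · rw [hn, hl]
      apply pI_mul' hq (pR_nat hq _)
      apply pI_of_dvd hq
      by_contra hcon
      apply e
      have hsub : ¬ q ∣ Nat.card N := fun h => hG (h.trans (Subgroup.card_subgroup_dvd_card N))
      refine star_left (resHom φ N hNT) (H.subgroupOf N) (fixN φ D hD N hNT H hH) hq hT hsub ψ.2 hθ hi hθi
        ((toSub_irr hHN).mpr hβ) ⟨l ψ, ?_, hcon⟩ hst'
      rw [← hl, ← ci_toSub hHN]; rfl
  have h7 := pI_add hq h5 h6
  rw [sub_add_cancel] at h7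
  have h8 : pI q (classInner (fun x : H => χ x) β) := by
    rw [hXb]
    convert h7 using 1
    exact Finset.sum_congr rfl fun ψ _ => by rw [hn, hl]
  have h9 := pI_sub hq h8 ha
  rw [sub_sub_cancel] at h9
  have h10 : q ∣ m ⟨ξ, hξ⟩ * k ⟨ξ, hξ⟩ := dvd_of_pI hq (by push_cast; exact h9)
  obtain ⟨m', hm', hmq⟩ := hst
  have h11 : m ⟨ξ, hξ⟩ = m' := by
    have := (hm ⟨ξ, hξ⟩).symm.trans hm'
    exact_mod_cast this
  rcases hq.dvd_mul.mp h10 with h12 | h12
  · exact hmq (h11 ▸ h12)
  · -- the multiplicity of β in ξ divides ξ(1)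
    have h13 : classInner (fun x : H.subgroupOf D => ξ x) (toSub D β) = (k ⟨ξ, hξ⟩ : ℂ) := by
      rw [← hk, ← ci_toSub hHD]; rfl
    have h14 := clifford_degree hHn hξ ((toSub_irr hHD).mpr hβ) (by
      rw [h13, ← hk]; exact h)
    rw [h13] at h14
    obtain ⟨a, c, ha1, ha2⟩ := irr_dvd hξ
    obtain ⟨b, c', hb1, hb2⟩ := irr_dvd ((toSub_irr hHD).mpr hβ : IsIrrCharacter (H.subgroupOf D) (toSub D β))
    rw [ha1, hb1] at h14
    have h15 : a = k ⟨ξ, hξ⟩ * (inertia hHn (toSub D β)).index * b := by exact_mod_cast h14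
    apply hG
    have h16 : q ∣ Nat.card D := by
      rw [ha2, h15]
      exact Dvd.dvd.mul_right (Dvd.dvd.mul_right (Dvd.dvd.mul_right h12 _) _) _
    exact h16.trans (Subgroup.card_subgroup_dvd_card D)

end ModQ

section Main

theorem above_aux (n : ℕ) : ∀ {A : Type v} {G : Type u} [Group A] [Finite A] [Group G] [Fintype G]
    (φ : A →* MulAut G) (N : Subgroup G) [N.Normal] [Fintype N] (hNA : ∀ a, ∀ n ∈ N, φ a n ∈ N)
    (hn : Nat.card A = n) (hcop : (Nat.card A).Coprime (Nat.card G)) (hsolv : Group.IsSolvable A)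
    {θ : N → ℂ} (hθ : IsIrrCharacter N θ) (hi : Inv (resHom φ N hNA) θ),
    ∃ χ : G → ℂ, IsIrrCharacter G χ ∧ classInner (fun m : N => χ m) θ ≠ 0 ∧ Inv φ χ := by
  induction n using Nat.strong_induction_on with
  | _ n ih =>
    intro A G _ _ _ _ φ N _ _ hNA hn hcop hsolv θ hθ hi
    classical
    by_cases hA : Subsingleton A
    · obtain ⟨χ, hχ, h0⟩ := exists_above N hθ
      refine ⟨χ, hχ, h0, fun a g => ?_⟩
      rw [Subsingleton.elim a 1, map_one]; rfl
    · haveI : Nontrivial A := not_subsingleton_iff_nontrivial.mp hA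
      obtain ⟨T, q, hq, hTmin, -, -, -, hTq⟩ := SolvMin.exists_minNormal_pgroup_of_solvable (⊤ : Subgroup A) top_ne_bot
      haveI hTn : T.Normal := hTmin.1
      have hTne : T ≠ ⊥ := hTmin.2.1
      have hG : ¬ q ∣ Nat.card G := prime_not_dvd_of_coprime hTne hq hTq hcop
      set D := fix (φ.comp T.subtype) with hD
      haveI : Fintype D := Fintype.ofFinite D
      set H : Subgroup G := N ⊓ D with hH
      haveI : Fintype H := Fintype.ofFinite H
      haveI : Fintype (H.subgroupOf N) := Fintype.ofFinite _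
      haveI : Fintype (H.subgroupOf D) := Fintype.ofFinite _
      have hHN : H ≤ N := inf_le_left
      have hHD : H ≤ D := inf_le_right
      haveI hHn : (H.subgroupOf D).Normal := normal_in_D D N H hHN hHD hH
      have hNT : ∀ a, ∀ n ∈ N, (φ.comp T.subtype) a n ∈ N := fun a n hn => hNA a n hn
      have hsub : ¬ q ∣ Nat.card N := fun h => hG (h.trans (Subgroup.card_subgroup_dvd_card N))
      have hfixN := fixN (φ.comp T.subtype) D hD N hNT H hH
      have hiT : Inv (resHom (φ.comp T.subtype) N hNT) θ := fun t x => hi t x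
      obtain ⟨β', hβ', hst'⟩ := star_exists (H.subgroupOf N) hq hsub hθ
      obtain ⟨β, rfl⟩ := GlaubG.exists_toSub hHN β'
      have hβ : IsIrrCharacter H β := (toSub_irr hHN).mp hβ'
      -- D and H are A-invariant
      have hDA : ∀ a, ∀ d ∈ D, φ a d ∈ D := fix_normal φ T
      have hHA : ∀ a, ∀ h ∈ H, φ a h ∈ H := fun a h hh => ⟨hNA a h hh.1, hDA a h hh.2⟩
      have hHA' : ∀ a, ∀ h ∈ H.subgroupOf N, resHom φ N hNA a h ∈ H.subgroupOf N := by
        intro a h hh
        rw [Subgroup.mem_subgroupOf] at hh ⊢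
        exact hHA a h hh
      -- β is A-invariant
      have hβinv : ∀ a, ∀ h h' : H, (h' : G) = φ a h → β h' = β h := by
        intro a h h' hh
        have h1 := star_comp (H.subgroupOf N) (resHom φ N hNA a) (resHom (resHom φ N hNA) (H.subgroupOf N) hHA' a)
          (fun d => rfl) q hst'
        have h2 : θ ∘ (resHom φ N hNA a) = θ := by ext x; exact hi a x
        rw [h2] at h1
        have h3 := star_right (resHom (φ.comp T.subtype) N hNT) (H.subgroupOf N) hfixN hq hTq hsub hθ hiT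
          (isIrrCharacter_comp_equiv hβ' (resHom (resHom φ N hNA) (H.subgroupOf N) hHA' a)) hβ' h1 hst'
        have h4 := congrFun h3 ⟨⟨h, hHN h.2⟩, Subgroup.mem_subgroupOf.mpr h.2⟩
        change β ⟨_, _⟩ = β ⟨_, _⟩ at h4
        have e1 : h' = ⟨φ a h, hHA a h h.2⟩ := Subtype.ext hh
        rw [e1]
        exact h4
      have hlt : Nat.card (A ⧸ T) < n := by
        rw [← hn, ← Subgroup.card_mul_index T]
        have h1 : 1 < Nat.card T := by
          rw [Finite.one_lt_card_iff_nontrivial]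
          exact (Subgroup.nontrivial_iff_ne_bot T).mpr hTne
        change T.index < _
        have h2 : 0 < T.index := Nat.pos_of_ne_zero Subgroup.index_ne_zero_of_finite
        nlinarith
      have hHDA : ∀ a, ∀ h ∈ H.subgroupOf D, quotHom φ T a h ∈ H.subgroupOf D := by
        intro a h hh
        obtain ⟨a, rfl⟩ := QuotientGroup.mk_surjective a
        rw [Subgroup.mem_subgroupOf] at hh ⊢
        exact hHA a h hh
      obtain ⟨ξ, hξ, hξ1, hξi⟩ := ih _ hlt (quotHom φ T) (H.subgroupOf D) hHDA rfl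
        (Nat.Coprime.coprime_dvd_left (Subgroup.card_quotient_dvd_card T)
          (Nat.Coprime.coprime_dvd_right (Subgroup.card_subgroup_dvd_card _) hcop))
        inferInstance (θ := toSub D β) ((toSub_irr hHD).mpr hβ) (by
          intro a x
          obtain ⟨a, rfl⟩ := QuotientGroup.mk_surjective a
          exact hβinv a ⟨((x : D) : G), Subgroup.mem_subgroupOf.mp x.2⟩ _ rfl)
      obtain ⟨χ, hχ, hχi, hst⟩ := star_surj (φ.comp T.subtype) D hD hq hTq hG hξ
      refine ⟨χ, hχ, ?_, ?_⟩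
      · refine mult_ne_zero (φ.comp T.subtype) hq hTq hG D hD N hNT H hH hHN hHD hχ hχi hξ hst hθ hiT hβ hst' ?_
        rw [← ci_toSub hHD]
        exact hξ1
      · exact (inv_iff_star φ T hq hTq hG hχ hχi hξ hst).mpr hξi

/-- invariant characters over invariant characters for solvable coprime operators -/
theorem exists_inv_above_solvable {A : Type v} {G : Type u} [Group A] [Finite A] [Group G] [Fintype G]
    (φ : A →* MulAut G) (N : Subgroup G) [N.Normal] [Fintype N] (hNA : ∀ a, ∀ n ∈ N, φ a n ∈ N)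
    (hcop : (Nat.card A).Coprime (Nat.card G)) (hsolv : Group.IsSolvable A)
    {θ : N → ℂ} (hθ : IsIrrCharacter N θ) (hi : Inv (resHom φ N hNA) θ) :
    ∃ χ : G → ℂ, IsIrrCharacter G χ ∧ classInner (fun m : N => χ m) θ ≠ 0 ∧ Inv φ χ :=
  above_aux _ φ N hNA rfl hcop hsolv hθ hi

end Main
end CfsgLib.Glaub5
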