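import Mathlib

/-! The Lie ring associated with the lower central series of a group. -/

namespace CfsgLib.GrLie

open Subgroup
open scoped commutatorElement

section comm
variable {G : Type*} [Group G]

theorem tsn {H₁ H₂ H₃ N : Subgroup G} [N.Normal] (h1 : ⁅⁅H₂, H₃⁆, H₁⁆ ≤ N)
    (h2 : ⁅⁅H₃, H₁⁆, H₂⁆ ≤ N) : ⁅⁅H₁, H₂⁆, H₃⁆ ≤ N := by
  have key : ∀ K : Subgroup G, K ≤ N ↔ K.map (QuotientGroup.mk' N) = ⊥ := by
    intro K
    rw [Subgroup.map_eq_bot_iff, QuotientGroup.ker_mk']
  rw [key] at h1 h2 ⊢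
  rw [Subgroup.map_commutator, Subgroup.map_commutator] at h1 h2 ⊢
  exact Subgroup.commutator_commutator_eq_bot_of_rotate h1 h2

/-- lower central series, as a plain sequence of subgroups. -/
abbrev lcs (G : Type*) [Group G] (i : ℕ) : Subgroup G := (⊤ : Subgroup G).lowerCentralSeries i

theorem lcs_anti {i j : ℕ} (h : i ≤ j) : lcs G j ≤ lcs G i :=
  Subgroup.lowerCentralSeries_antitone _ h

theorem comm_le (j : ℕ) : ∀ i, ⁅lcs G i, lcs G j⁆ ≤ lcs G (i + j + 1) := by
  induction j with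
  | zero => intro i; exact le_rfl
  | succ j ih =>
    intro i
    rw [Subgroup.commutator_comm]
    show ⁅⁅lcs G j, (⊤ : Subgroup G)⁆, lcs G i⁆ ≤ _
    apply tsn
    · rw [Subgroup.commutator_comm (⊤ : Subgroup G)]
      have := ih (i + 1)
      have e : i + 1 + j + 1 = i + (j + 1) + 1 := by ring
      rw [e] at this
      exact this
    · refine (Subgroup.commutator_mono (ih i) le_rfl).trans ?_
      exact le_rfl

theorem comm_mem {i j : ℕ} {g h : G} (hg : g ∈ lcs G i) (hh : h ∈ lcs G j) :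
    ⁅g, h⁆ ∈ lcs G (i + j + 1) := comm_le j i (Subgroup.commutator_mem_commutator hg hh)

end comm

variable (G : Type*) [Group G]

/-- generators -/
structure X where
  /-- degree -/
  deg : ℕ
  /-- element -/
  el : G
  /-- membership -/
  mem : el ∈ lcs G deg

/-- relations -/
def rel : Set (FreeAbelianGroup (X G)) :=
  {z | ∃ (i : ℕ) (g h : G) (hg : g ∈ lcs G i) (hh : h ∈ lcs G i),
    z = FreeAbelianGroup.of ⟨i, g, hg⟩ + FreeAbelianGroup.of ⟨i, h, hh⟩ -
      FreeAbelianGroup.of ⟨i, g * h, mul_mem hg hh⟩} ∪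
  {z | ∃ (i : ℕ) (g : G) (hg : g ∈ lcs G i), g ∈ lcs G (i + 1) ∧ z = FreeAbelianGroup.of ⟨i, g, hg⟩}

/-- relation subgroup -/
def N : AddSubgroup (FreeAbelianGroup (X G)) := AddSubgroup.closure (rel G)

/-- the associated Lie ring -/
def Lie : Type _ := FreeAbelianGroup (X G) ⧸ N G

instance instACG : AddCommGroup (Lie G) :=
  inferInstanceAs (AddCommGroup (FreeAbelianGroup (X G) ⧸ N G))

variable {G}

/-- the projection -/
def proj : FreeAbelianGroup (X G) →+ Lie G := QuotientAddGroup.mk' (N G)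

/-- homogeneous elements -/
def io (i : ℕ) (g : G) (hg : g ∈ lcs G i) : Lie G := proj (FreeAbelianGroup.of ⟨i, g, hg⟩)

theorem proj_surj : Function.Surjective (proj (G := G)) := QuotientAddGroup.mk'_surjective _

theorem proj_eq_zero {z : FreeAbelianGroup (X G)} (h : z ∈ rel G) : proj z = 0 :=
  (QuotientAddGroup.eq_zero_iff z).2 (AddSubgroup.subset_closure h)

theorem io_mul {i : ℕ} {g h : G} (hg : g ∈ lcs G i) (hh : h ∈ lcs G i) :
    io i (g * h) (mul_mem hg hh) = io i g hg + io i h hh := by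
  have := proj_eq_zero (G := G) (Or.inl ⟨i, g, h, hg, hh, rfl⟩)
  rw [map_sub, map_add, sub_eq_zero] at this
  exact this.symm

theorem io_eq_zero {i : ℕ} {g : G} (hg : g ∈ lcs G (i + 1)) :
    io i g (lcs_anti (Nat.le_succ i) hg) = 0 :=
  proj_eq_zero (G := G) (Or.inr ⟨i, g, _, hg, rfl⟩)

theorem io_one (i : ℕ) : io i (1 : G) (one_mem _) = 0 := io_eq_zero (one_mem _)

theorem io_inv {i : ℕ} {g : G} (hg : g ∈ lcs G i) : io i g⁻¹ (inv_mem hg) = - io i g hg := by
  have h1 := io_mul (inv_mem hg) hg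
  rw [eq_neg_iff_add_eq_zero, ← h1]
  have : ∀ (x : G) (hx : x ∈ lcs G i), x = 1 → io i x hx = 0 := by
    rintro x hx rfl; exact io_one i
  exact this _ _ (inv_mul_cancel g)

theorem io_congr {i j : ℕ} {g h : G} (hg : g ∈ lcs G i) (hh : h ∈ lcs G j) (hij : i = j)
    (hgh : g = h) : io i g hg = io j h hh := by
  subst hij; subst hgh; rfl

/-- `io` of `c * g` with `c` deeper. -/
theorem io_mul_left {i : ℕ} {c g : G} (hc : c ∈ lcs G (i + 1)) (hg : g ∈ lcs G i)
    (hcg : c * g ∈ lcs G i) : io i (c * g) hcg = io i g hg := by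
  have := io_mul (lcs_anti (Nat.le_succ i) hc) hg
  rw [this, io_eq_zero hc, zero_add]

theorem io_pow {i : ℕ} {g : G} (hg : g ∈ lcs G i) (m : ℕ) :
    io i (g ^ m) (pow_mem hg m) = m • io i g hg := by
  induction m with
  | zero => rw [zero_smul]; exact (io_congr _ _ rfl (pow_zero g)).trans (io_one i)
  | succ m ih =>
    rw [succ_nsmul, ← ih, ← io_mul]
    exact io_congr _ _ rfl (pow_succ g m)

/-- induction principle -/
theorem ind {P : Lie G → Prop} (h0 : P 0) (hi : ∀ i g hg, P (io i g hg))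
    (ha : ∀ x y, P x → P y → P (x + y)) (hn : ∀ x, P x → P (-x)) (x : Lie G) : P x := by
  obtain ⟨z, rfl⟩ := proj_surj x
  induction z using FreeAbelianGroup.induction_on with
  | zero => rw [map_zero]; exact h0
  | of x => exact hi _ _ _
  | neg x h => rw [map_neg]; exact hn _ h
  | add x y h1 h2 => rw [map_add]; exact ha _ _ h1 h2

/-- lifting -/
def lft {B : Type*} [AddCommGroup B] (f : X G → B)
    (h1 : ∀ (i : ℕ) (g h : G) (hg : g ∈ lcs G i) (hh : h ∈ lcs G i),
      f ⟨i, g * h, mul_mem hg hh⟩ = f ⟨i, g, hg⟩ + f ⟨i, h, hh⟩)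
    (h2 : ∀ (i : ℕ) (g : G) (hg : g ∈ lcs G i), g ∈ lcs G (i + 1) → f ⟨i, g, hg⟩ = 0) :
    Lie G →+ B :=
  QuotientAddGroup.lift (N G) (FreeAbelianGroup.lift f) (by
    rw [N, AddSubgroup.closure_le]
    rintro z (⟨i, g, h, hg, hh, rfl⟩ | ⟨i, g, hg, hg', rfl⟩)
    · show _ = _
      rw [map_sub, map_add, FreeAbelianGroup.lift_apply_of, FreeAbelianGroup.lift_apply_of,
        FreeAbelianGroup.lift_apply_of, h1 i g h hg hh, sub_self]
    · show _ = _
      rw [FreeAbelianGroup.lift_apply_of, h2 i g hg hg'])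

theorem lft_io {B : Type*} [AddCommGroup B] (f : X G → B) (h1) (h2) (i : ℕ) (g : G)
    (hg : g ∈ lcs G i) : lft f h1 h2 (io i g hg) = f ⟨i, g, hg⟩ := by
  show FreeAbelianGroup.lift f (FreeAbelianGroup.of _) = _
  rw [FreeAbelianGroup.lift_apply_of]

theorem hom_ext {B : Type*} [AddCommGroup B] {f f' : Lie G →+ B}
    (h : ∀ i g hg, f (io i g hg) = f' (io i g hg)) : f = f' := by
  ext x
  induction x using ind with
  | h0 => rw [map_zero, map_zero]
  | hi i g hg => exact h i g hg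
  | ha x y h1 h2 => rw [map_add, map_add, h1, h2]
  | hn x h1 => rw [map_neg, map_neg, h1]

/-! ### bracket -/

theorem br_right {i j : ℕ} {g h k : G} (hg : g ∈ lcs G i) (hh : h ∈ lcs G j) (hk : k ∈ lcs G j) :
    io (i + j + 1) ⁅g, h * k⁆ (comm_mem hg (mul_mem hh hk)) =
      io (i + j + 1) ⁅g, h⁆ (comm_mem hg hh) + io (i + j + 1) ⁅g, k⁆ (comm_mem hg hk) := by
  rw [← io_mul]
  have e : ⁅g, h * k⁆ = ⁅⁅g, h⁆, ⁅h, ⁅g, k⁆⁆⁆ * (⁅h, ⁅g, k⁆⁆ * (⁅g, h⁆ * ⁅g, k⁆)) := by
    simp only [commutatorElement_def]; group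
  have h1 : ⁅h, ⁅g, k⁆⁆ ∈ lcs G (i + j + 1 + 1) :=
    lcs_anti (by omega) (comm_mem hh (comm_mem hg hk))
  have h2 : ⁅⁅g, h⁆, ⁅h, ⁅g, k⁆⁆⁆ ∈ lcs G (i + j + 1 + 1) :=
    lcs_anti (by omega) (comm_mem (comm_mem hg hh) (comm_mem hh (comm_mem hg hk)))
  have h3 : ⁅g, h⁆ * ⁅g, k⁆ ∈ lcs G (i + j + 1) := mul_mem (comm_mem hg hh) (comm_mem hg hk)
  have h4 : ⁅h, ⁅g, k⁆⁆ * (⁅g, h⁆ * ⁅g, k⁆) ∈ lcs G (i + j + 1) :=
    mul_mem (lcs_anti (by omega) h1) h3
  rw [io_congr _ (mul_mem (lcs_anti (by omega) h2) h4) rfl e, io_mul_left h2 h4,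
    io_mul_left h1 h3]

theorem br_skew {i j : ℕ} {g h : G} (hg : g ∈ lcs G i) (hh : h ∈ lcs G j) :
    io (i + j + 1) ⁅g, h⁆ (comm_mem hg hh) = - io (j + i + 1) ⁅h, g⁆ (comm_mem hh hg) := by
  rw [← io_inv]
  exact io_congr _ _ (by omega) (commutatorElement_inv h g).symm

theorem br_left {i j : ℕ} {g h k : G} (hg : g ∈ lcs G i) (hh : h ∈ lcs G i) (hk : k ∈ lcs G j) :
    io (i + j + 1) ⁅g * h, k⁆ (comm_mem (mul_mem hg hh) hk) =
      io (i + j + 1) ⁅g, k⁆ (comm_mem hg hk) + io (i + j + 1) ⁅h, k⁆ (comm_mem hh hk) := by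
  rw [br_skew (mul_mem hg hh) hk, br_right hk hg hh, br_skew hg hk, br_skew hh hk, neg_add]

theorem br_zero_right {i j : ℕ} {g h : G} (hg : g ∈ lcs G i) (hh : h ∈ lcs G (j + 1)) :
    io (i + j + 1) ⁅g, h⁆ (comm_mem hg (lcs_anti (Nat.le_succ j) hh)) = 0 :=
  io_eq_zero (i := i + j + 1) (by
    have := comm_mem hg hh
    have e : i + (j + 1) + 1 = i + j + 1 + 1 := by omega
    rwa [e] at this)

theorem br_zero_left {i j : ℕ} {g h : G} (hg : g ∈ lcs G (i + 1)) (hh : h ∈ lcs G j) :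
    io (i + j + 1) ⁅g, h⁆ (comm_mem (lcs_anti (Nat.le_succ i) hg) hh) = 0 := by
  rw [br_skew (lcs_anti (Nat.le_succ i) hg) hh, br_zero_right hh hg, neg_zero]

/-- the bracket as a biadditive map -/
def brk : Lie G →+ Lie G →+ Lie G :=
  lft (fun x => lft (fun y => io (x.deg + y.deg + 1) ⁅x.el, y.el⁆ (comm_mem x.mem y.mem))
    (fun _ _ _ hg hh => br_right x.mem hg hh) (fun _ _ _ hg' => br_zero_right x.mem hg'))
    (by
      intro i g h hg hh
      apply hom_ext
      intro j k hk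
      rw [AddMonoidHom.add_apply, lft_io, lft_io, lft_io]
      exact br_left hg hh hk)
    (by
      intro i g hg hg'
      apply hom_ext
      intro j k hk
      rw [lft_io]
      exact br_zero_left hg' hk)

theorem brk_io (i j : ℕ) (g h : G) (hg : g ∈ lcs G i) (hh : h ∈ lcs G j) :
    brk (io i g hg) (io j h hh) = io (i + j + 1) ⁅g, h⁆ (comm_mem hg hh) := by
  rw [brk, lft_io, lft_io]

theorem brk_skew (x y : Lie G) : brk x y = - brk y x := by
  induction x using ind with
  | h0 => rw [map_zero, map_zero, neg_zero]; rfl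
  | hi i g hg =>
    induction y using ind with
    | h0 => rw [map_zero, map_zero, AddMonoidHom.zero_apply, neg_zero]
    | hi j h hh => rw [brk_io, brk_io]; exact br_skew hg hh
    | ha x y h1 h2 => rw [map_add, map_add, AddMonoidHom.add_apply, h1, h2, neg_add]
    | hn x h1 => rw [map_neg, map_neg, AddMonoidHom.neg_apply, h1]
  | ha x y h1 h2 => rw [map_add, map_add, AddMonoidHom.add_apply, h1, h2, neg_add]
  | hn x h1 => rw [map_neg, map_neg, AddMonoidHom.neg_apply, h1]

theorem brk_self (x : Lie G) : brk x x = 0 := by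
  induction x using ind with
  | h0 => rw [map_zero]
  | hi i g hg =>
    rw [brk_io]
    have : ∀ (n : ℕ) (x : G) (hx : x ∈ lcs G n), x = 1 → io n x hx = 0 := by
      rintro n x hx rfl; exact io_one n
    exact this _ _ _ (commutatorElement_self g)
  | ha x y h1 h2 =>
    rw [map_add, map_add, AddMonoidHom.add_apply, AddMonoidHom.add_apply, h1, h2, brk_skew x y]
    abel
  | hn x h1 => rw [map_neg, map_neg, AddMonoidHom.neg_apply, h1, neg_zero, neg_zero]

theorem brk_jacobi_io (i j k : ℕ) (x y z : G) (hx : x ∈ lcs G i) (hy : y ∈ lcs G j)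
    (hz : z ∈ lcs G k) :
    brk (brk (io i x hx) (io j y hy)) (io k z hz) + brk (brk (io j y hy) (io k z hz)) (io i x hx) +
      brk (brk (io k z hz) (io i x hx)) (io j y hy) = 0 := by
  -- conjugates do not change `io`
  have cj : ∀ (m : ℕ) (g w : G) (hw : w ∈ lcs G m) (h : g * w * g⁻¹ ∈ lcs G m),
      io m (g * w * g⁻¹) h = io m w hw := by
    intro m g w hw h
    have e : g * w * g⁻¹ = ⁅g, w⁆ * w := by simp only [commutatorElement_def]; group
    have h1 : ⁅g, w⁆ ∈ lcs G (m + 1) := by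
      have := comm_mem (i := 0) (j := m) (g := g) (Subgroup.mem_top g) hw
      rwa [Nat.zero_add] at this
    rw [io_congr h (mul_mem (lcs_anti (Nat.le_succ m) h1) hw) rfl e]
    exact io_mul_left h1 hw _
  have key : ∀ (i j k : ℕ) (x y z : G) (hx : x ∈ lcs G i) (hy : y ∈ lcs G j) (hz : z ∈ lcs G k),
      - brk (brk (io i x hx) (io j y hy)) (io k z hz) = io (i + j + 1 + k + 1)
        ⁅⁅x⁻¹, y⁆⁻¹, z⁻¹⁆ (comm_mem (inv_mem (comm_mem (inv_mem hx) hy)) (inv_mem hz)) := by
    intro i j k x y z hx hy hz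
    rw [← brk_io (i + j + 1) k _ _ (inv_mem (comm_mem (inv_mem hx) hy)) (inv_mem hz),
      io_inv (comm_mem (inv_mem hx) hy), io_inv hz, ← brk_io i j _ _ (inv_mem hx) hy, io_inv hx]
    simp only [map_neg, AddMonoidHom.neg_apply, neg_neg]
  rw [← neg_eq_zero, neg_add, neg_add, key i j k x y z hx hy hz, key j k i y z x hy hz hx,
    key k i j z x y hz hx hy]
  have m1 := comm_mem (inv_mem (comm_mem (inv_mem hx) hy)) (inv_mem hz)
  have m2 : ⁅⁅y⁻¹, z⁆⁻¹, x⁻¹⁆ ∈ lcs G (i + j + 1 + k + 1) := by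
    have := comm_mem (inv_mem (comm_mem (inv_mem hy) hz)) (inv_mem hx)
    have e : j + k + 1 + i + 1 = i + j + 1 + k + 1 := by omega
    rwa [e] at this
  have m3 : ⁅⁅z⁻¹, x⁆⁻¹, y⁻¹⁆ ∈ lcs G (i + j + 1 + k + 1) := by
    have := comm_mem (inv_mem (comm_mem (inv_mem hz) hx)) (inv_mem hy)
    have e : k + i + 1 + j + 1 = i + j + 1 + k + 1 := by omega
    rwa [e] at this
  rw [io_congr (comm_mem (inv_mem (comm_mem (inv_mem hy) hz)) (inv_mem hx)) m2 (by omega) rfl,
    io_congr (comm_mem (inv_mem (comm_mem (inv_mem hz) hx)) (inv_mem hy)) m3 (by omega) rfl]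
  have nn : (lcs G (i + j + 1 + k + 1)).Normal := inferInstance
  rw [← cj _ y⁻¹ _ m1 (nn.conj_mem _ m1 _), ← cj _ z⁻¹ _ m2 (nn.conj_mem _ m2 _),
    ← cj _ x⁻¹ _ m3 (nn.conj_mem _ m3 _), ← io_mul, ← io_mul]
  have : ∀ (n : ℕ) (x : G) (hx : x ∈ lcs G n), x = 1 → io n x hx = 0 := by
    rintro n x hx rfl; exact io_one n
  apply this
  simp only [commutatorElement_def]
  group

theorem brk_jacobi (x y z : Lie G) :
    brk (brk x y) z + brk (brk y z) x + brk (brk z x) y = 0 := by
  induction x using ind with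
  | h0 => simp
  | hi i g hg =>
    induction y using ind with
    | h0 => simp
    | hi j h hh =>
      induction z using ind with
      | h0 => simp
      | hi k l hl => exact brk_jacobi_io i j k g h l hg hh hl
      | ha x y h1 h2 =>
        simp only [map_add, AddMonoidHom.add_apply]
        rw [← add_zero (0 : Lie G)]
        nth_rewrite 1 [← h1]
        rw [← h2]
        abel
      | hn x h1 =>
        simp only [map_neg, AddMonoidHom.neg_apply]
        rw [← neg_zero, ← h1]; abel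
    | ha x y h1 h2 =>
      simp only [map_add, AddMonoidHom.add_apply]
      rw [← add_zero (0 : Lie G)]
      nth_rewrite 1 [← h1]
      rw [← h2]
      abel
    | hn x h1 =>
      simp only [map_neg, AddMonoidHom.neg_apply]
      rw [← neg_zero, ← h1]; abel
  | ha x y h1 h2 =>
    simp only [map_add, AddMonoidHom.add_apply]
    rw [← add_zero (0 : Lie G)]
    nth_rewrite 1 [← h1]
    rw [← h2]
    abel
  | hn x h1 =>
    simp only [map_neg, AddMonoidHom.neg_apply]
    rw [← neg_zero, ← h1]; abel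

instance instLieRing : LieRing (Lie G) where
  bracket x y := brk x y
  add_lie x y z := by
    show brk (x + y) z = brk x z + brk y z
    rw [map_add, AddMonoidHom.add_apply]
  lie_add x y z := by
    show brk x (y + z) = brk x y + brk x z
    rw [map_add]
  lie_self x := brk_self x
  leibniz_lie x y z := by
    show brk x (brk y z) = brk (brk x y) z + brk y (brk x z)
    have h := brk_jacobi x y z
    rw [brk_skew x (brk y z), brk_skew y (brk x z), brk_skew x z, map_neg, AddMonoidHom.neg_apply,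
      neg_neg]
    rw [← sub_eq_zero, ← neg_eq_zero, ← h]
    abel

theorem lie_io (i j : ℕ) (g h : G) (hg : g ∈ lcs G i) (hh : h ∈ lcs G j) :
    ⁅io i g hg, io j h hh⁆ = io (i + j + 1) ⁅g, h⁆ (comm_mem hg hh) := brk_io i j g h hg hh

/-! ### faithfulness -/

theorem mk_mem_center {n : ℕ} {g : G} (hg : g ∈ lcs G n) :
    (QuotientGroup.mk g : G ⧸ lcs G (n + 1)) ∈ Subgroup.center (G ⧸ lcs G (n + 1)) := by
  rw [Subgroup.mem_center_iff]
  intro x
  obtain ⟨y, rfl⟩ := QuotientGroup.mk_surjective x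
  rw [← QuotientGroup.mk_mul, ← QuotientGroup.mk_mul, QuotientGroup.eq]
  have h1 : ⁅g⁻¹, y⁻¹⁆ ∈ lcs G (n + 1) := by
    have := comm_mem (i := n) (j := 0) (inv_mem hg) (Subgroup.mem_top y⁻¹)
    exact this
  have e : (y * g)⁻¹ * (g * y) = ⁅g⁻¹, y⁻¹⁆ := by simp only [commutatorElement_def]; group
  rw [e]; exact h1

open Classical in
theorem io_zero_iff {n : ℕ} {g : G} (hg : g ∈ lcs G n) : io n g hg = 0 ↔ g ∈ lcs G (n + 1) := by
  refine ⟨fun h => ?_, fun h => io_eq_zero h⟩
  letI : CommGroup (Subgroup.center (G ⧸ lcs G (n + 1))) :=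
    { (inferInstance : Group (Subgroup.center (G ⧸ lcs G (n + 1)))) with
      mul_comm := fun a b => Subtype.ext (Subgroup.mem_center_iff.1 b.2 a.1) }
  let f : X G → Additive (Subgroup.center (G ⧸ lcs G (n + 1))) := fun x =>
    if hx : x.deg = n then Additive.ofMul ⟨QuotientGroup.mk x.el, mk_mem_center (hx ▸ x.mem)⟩ else 0
  have f1 : ∀ (i : ℕ) (g h : G) (hg : g ∈ lcs G i) (hh : h ∈ lcs G i),
      f ⟨i, g * h, mul_mem hg hh⟩ = f ⟨i, g, hg⟩ + f ⟨i, h, hh⟩ := by
    intro i g h hg hh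
    by_cases hi : i = n
    · subst hi
      simp only [f, dif_pos rfl]
      rfl
    · simp only [f, dif_neg hi, add_zero]
  have f2 : ∀ (i : ℕ) (g : G) (hg : g ∈ lcs G i), g ∈ lcs G (i + 1) → f ⟨i, g, hg⟩ = 0 := by
    intro i g hg hg'
    by_cases hi : i = n
    · subst hi
      simp only [f, dif_pos rfl]
      apply Additive.toMul.injective
      apply Subtype.ext
      exact (QuotientGroup.eq_one_iff g).2 hg'
    · simp only [f, dif_neg hi]
  have h1 := lft_io f f1 f2 n g hg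
  rw [h, map_zero] at h1
  simp only [f, dif_pos rfl] at h1
  have h2 := congrArg Additive.toMul h1
  have h3 := congrArg Subtype.val h2
  exact (QuotientGroup.eq_one_iff g).1 h3.symm

/-! ### functoriality -/

theorem map_mem {i : ℕ} (α : G →* G) {g : G} (hg : g ∈ lcs G i) : α g ∈ lcs G i := by
  have h1 : α g ∈ (lcs G i).map α := Subgroup.mem_map_of_mem _ hg
  rw [Subgroup.map_lowerCentralSeries] at h1
  have : ∀ (i : ℕ), ((⊤ : Subgroup G).map α).lowerCentralSeries i ≤ lcs G i := by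
    intro i
    induction i with
    | zero => exact le_top
    | succ i ih => exact Subgroup.commutator_mono ih le_top
  exact this i h1

/-- induced endomorphism -/
def mp (α : G →* G) : Lie G →+ Lie G :=
  lft (fun x => io x.deg (α x.el) (map_mem α x.mem))
    (by
      intro i g h hg hh
      rw [← io_mul]
      exact io_congr _ _ rfl (map_mul α g h))
    (by
      intro i g hg hg'
      exact io_eq_zero (map_mem α hg'))

theorem mp_io (α : G →* G) (i : ℕ) (g : G) (hg : g ∈ lcs G i) :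
    mp α (io i g hg) = io i (α g) (map_mem α hg) := by rw [mp, lft_io]

theorem mp_lie (α : G →* G) (x y : Lie G) : mp α ⁅x, y⁆ = ⁅mp α x, mp α y⁆ := by
  induction x using ind with
  | h0 => rw [zero_lie, map_zero, zero_lie]
  | hi i g hg =>
    induction y using ind with
    | h0 => rw [lie_zero, map_zero, lie_zero]
    | hi j h hh =>
      rw [lie_io, mp_io, mp_io, mp_io, lie_io]
      exact io_congr _ _ rfl (by simp [commutatorElement_def])
    | ha x y h1 h2 => rw [lie_add, map_add, h1, h2, map_add, lie_add]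
    | hn x h1 => rw [lie_neg, map_neg, h1, map_neg, lie_neg]
  | ha x y h1 h2 => rw [add_lie, map_add, h1, h2, map_add, add_lie]
  | hn x h1 => rw [neg_lie, map_neg, h1, map_neg, neg_lie]

theorem mp_comp (α β : G →* G) (x : Lie G) : mp (α.comp β) x = mp α (mp β x) := by
  have : mp (α.comp β) = (mp α).comp (mp β) := by
    apply hom_ext
    intro i g hg
    rw [AddMonoidHom.comp_apply, mp_io, mp_io, mp_io]
    rfl
  rw [this]; rfl

theorem mp_id (x : Lie G) : mp (MonoidHom.id G) x = x := by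
  have : mp (MonoidHom.id G) = AddMonoidHom.id (Lie G) := by
    apply hom_ext
    intro i g hg
    rw [mp_io]; rfl
  rw [this]; rfl

end CfsgLib.GrLie
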