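import Cfsg.Agent.LibGraph2

set_option autoImplicit false
set_option linter.unusedSectionVars false

/-! Graph automorphisms: statement form -/

namespace CfsgLib.Chev

open Cfsg.Lie Matrix

section
variable {D : ChevalleyDatum} {T : Tb} (g : Good3 D T) {F : Type*} [Field F]
include g

theorem Good3.graph_stmt {G : GD} {p : ℕ} (k : G.OK T p) (L : List ℕ) (hL : G.chkS T L = true) (φ : ℕ → F → F)
    (σ : ↥(D.group F) ≃* ↥(D.group F)) (hσ : ∀ (x : ↥(D.group F)) (r : ℕ) (t : F), r < T.n → (x : GL D.Idx F) = g.X r t →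
      (σ x : GL D.Idx F) = g.X (G.rho r) ((G.eps r : F) * φ r t)) (hφ : ∀ r < T.n, ∀ t, φ (T.n - 1 - r) t = φ r t)
    (x : ↥(D.group F)) (i : ℕ) (t : F) (hi : i < D.rank) :
      (((x : GL D.Idx F) : Matrix D.Idx D.Idx F) = D.x F (D.simple i) t →
        ((σ x : GL D.Idx F) : Matrix D.Idx D.Idx F) = D.x F (D.simple (L.getD i 0)) (φ (T.sim i) t)) ∧
      (((x : GL D.Idx F) : Matrix D.Idx D.Idx F) = D.x F (D.neg (D.simple i)) t →
        ((σ x : GL D.Idx F) : Matrix D.Idx D.Idx F) = D.x F (D.neg (D.simple (L.getD i 0))) (φ (T.sim i) t)) := by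
  have hev := g.even
  rw [g.hl] at hi
  have hsl := g.sim_lt hi
  obtain ⟨h1, h2, h3⟩ := GD.chkS_sound hL i hi
  have hsl' := g.sim_lt h3
  rw [g.simple i hi, g.simple _ h3, g.neg hsl, g.neg hsl']
  constructor
  · intro h
    have := hσ x _ t hsl (g.eq_X h)
    rw [this, h1, h2, Int.cast_one, one_mul]
    rfl
  · intro h
    have := hσ x (T.n - 1 - T.sim i) t (by omega) (g.eq_X h)
    rw [this, k.rneg hsl, h1, k.eneg hsl, h2, Int.cast_one, one_mul, hφ _ hsl]
    rfl

end

end CfsgLib.Chev
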