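import Cfsg.Agent.EqBase
import Mathlib
import Cfsg.Agent.LibUniq

/-!
Strongly regular graphs given by adjacency rows (bit masks).
-/

set_option autoImplicit false

namespace CfsgLib.GraphC

open Cfsg CfsgLib.Golay CfsgLib.Uniq

/-- number of set bits among the first `24 * k` -/
def popw : ℕ → ℕ → ℕ
  | 0, _ => 0
  | k + 1, x => Nat.add (pop x) (popw k (Nat.shiftRight x 24))

theorem popw_eq (k x : ℕ) : popw k x = bc (24 * k) x := by
  induction k generalizing x with
  | zero => simp [popw, bc]
  | succ k ih =>
    have h1 : popw (k + 1) x = pop x + popw k (x >>> 24) := rfl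
    rw [h1, ih, pop_eq, bc, bc, show 24 * (k + 1) = 24 + 24 * k by ring, Finset.sum_range_add]
    congr 1
    apply Finset.sum_congr rfl
    intro i _
    rw [Nat.testBit_shiftRight]

theorem bc_le {n m x : ℕ} (h : n ≤ m) (hx : x < 2 ^ n) : bc m x = bc n x := by
  rw [bc, bc]
  symm
  apply Finset.sum_subset
  · intro i; simp only [Finset.mem_range]; omega
  · intro i _ hi
    rw [Finset.mem_range, not_lt] at hi
    rw [Nat.testBit_lt_two_pow (lt_of_lt_of_le hx (Nat.pow_le_pow_right (by norm_num) hi))]
    rfl

theorem card_fs_eq {n w x : ℕ} (h : n ≤ 24 * w) (hx : x < 2 ^ n) : (fs n x).card = popw w x := by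
  rw [card_fs, popw_eq, bc_le h hx]

/-- check of the number of common neighbours of `i` with the others -/
def pairsIn (w l m ri i : ℕ) : ℕ → List ℕ → Bool
  | _, [] => true
  | j, rj :: t => and (or (Nat.beq i j) (Nat.beq (popw w (Nat.land ri rj))
      (cond (Nat.beq (Nat.land (Nat.shiftRight ri j) 1) 1) l m))) (pairsIn w l m ri i (Nat.succ j) t)

theorem pairsIn_spec {w l m ri i : ℕ} : ∀ {t : List ℕ} {j : ℕ}, pairsIn w l m ri i j t = true →
    ∀ d < t.length, i ≠ j + d → popw w (ri &&& t.getD d 0) = if ri.testBit (j + d) = true then l else m := by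
  intro t
  induction t with
  | nil => intro j _ d hd; exact absurd hd (by simp)
  | cons a t ih =>
    intro j h d hd hne
    rw [pairsIn, Bool.and_eq_true, Bool.or_eq_true, beq_iff, beq_iff, testBit_eq] at h
    cases d with
    | zero =>
      rcases h.1 with h1 | h1
      · exact absurd h1 hne
      · rw [List.getD_cons_zero]
        have h2 : Nat.land ri a = ri &&& a := rfl
        rw [h2] at h1
        rw [h1, Nat.add_zero]
        cases ri.testBit j <;> rfl
    | succ d =>
      rw [List.getD_cons_succ]
      have h3 := ih h.2 d (by simpa using hd) (by rw [Nat.succ_eq_add_one]; omega)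
      rw [h3, Nat.succ_eq_add_one, Nat.add_assoc, Nat.add_comm 1 d]

/-- the check for all the pairs -/
def pairsAll (w l m : ℕ) (rows : List ℕ) : ℕ → List ℕ → Bool
  | _, [] => true
  | i, ri :: t => and (pairsIn w l m ri i 0 rows) (pairsAll w l m rows (Nat.succ i) t)

theorem pairsAll_spec {w l m : ℕ} {rows : List ℕ} : ∀ {t : List ℕ} {i : ℕ}, pairsAll w l m rows i t = true →
    ∀ d < t.length, pairsIn w l m (t.getD d 0) (i + d) 0 rows = true := by
  intro t
  induction t with
  | nil => intro j _ d hd; exact absurd hd (by simp)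
  | cons a t ih =>
    intro i h d hd
    rw [pairsAll, Bool.and_eq_true] at h
    cases d with
    | zero => exact h.1
    | succ d =>
      rw [List.getD_cons_succ]
      have := ih h.2 d (by simpa using hd)
      rw [Nat.succ_eq_add_one] at this
      rw [show i + (d + 1) = i + 1 + d by ring]
      exact this

theorem srg_of_rows {V : Type*} [Fintype V] (G : SimpleGraph V) [DecidableRel G.Adj] {n w k l m : ℕ}
    (φ : V ≃ Fin n) (rows : List ℕ) (hlen : rows.length = n) (hlt : ∀ r ∈ rows, r < 2 ^ n)
    (hadj : ∀ x y, G.Adj x y ↔ (rows.getD (φ x) 0).testBit (φ y) = true) (hw : n ≤ 24 * w)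
    (hreg : ∀ r ∈ rows, popw w r = k) (hpairs : pairsAll w l m rows 0 rows = true) : G.IsSRGWith n k l m := by
  classical
  have hmem : ∀ x, rows.getD (φ x) 0 ∈ rows := by
    intro x
    have hx : (φ x : ℕ) < rows.length := by rw [hlen]; exact (φ x).2
    rw [List.getD_eq_getElem _ _ hx]
    exact List.getElem_mem hx
  have hcn : ∀ x y, Fintype.card (G.commonNeighbors x y) = popw w (rows.getD (φ x) 0 &&& rows.getD (φ y) 0) := by
    intro x y
    rw [← card_fs_eq hw (lt_of_le_of_lt Nat.and_le_left (hlt _ (hmem x))), ← Fintype.card_coe]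
    apply Fintype.card_congr
    refine φ.subtypeEquiv (fun z => ?_)
    rw [mem_fs, Nat.testBit_and, Bool.and_eq_true, SimpleGraph.mem_commonNeighbors, hadj, hadj]
  have hp : ∀ x y, x ≠ y → popw w (rows.getD (φ x) 0 &&& rows.getD (φ y) 0) =
      if (rows.getD (φ x) 0).testBit (φ y) = true then l else m := by
    intro x y hxy
    have hx : (φ x : ℕ) < rows.length := by rw [hlen]; exact (φ x).2
    have hy : (φ y : ℕ) < rows.length := by rw [hlen]; exact (φ y).2
    have h1 := pairsAll_spec hpairs (φ x) hx
    have h2 := pairsIn_spec h1 (φ y) hy (by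
      rw [zero_add, zero_add]
      intro h; exact hxy (φ.injective (Fin.ext h)))
    rw [zero_add] at h2
    exact h2
  constructor
  · rw [Fintype.card_congr φ, Fintype.card_fin]
  · intro x
    rw [← hreg _ (hmem x), ← card_fs_eq hw (hlt _ (hmem x)), ← G.card_neighborSet_eq_degree, ← Fintype.card_coe]
    apply Fintype.card_congr
    refine φ.subtypeEquiv (fun z => ?_)
    rw [mem_fs, SimpleGraph.mem_neighborSet, hadj]
  · intro x y hxy
    rw [hcn, hp x y hxy.ne, if_pos ((hadj x y).1 hxy)]
  · intro x y hxy hadj'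
    rw [hcn, hp x y hxy, if_neg (fun h => hadj' ((hadj x y).2 h))]

end CfsgLib.GraphC
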