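import Mathlib

/-! Dickson type counting for 2 by 2 matrices over a finite commutative ring (seat helper14). -/

set_option autoImplicit false

namespace CfsgLib.H14Dick

open Finset

/-- a "group of matrices containing all scalars", given by its entries -/
structure DG {R : Type*} [CommRing R] (z : R) (P : R → R → R → R → Prop) : Prop where
  det : ∀ {a b c d}, P a b c d → IsUnit (a * d - b * c)
  mul : ∀ {a b c d a' b' c' d'}, P a b c d → P a' b' c' d' →
    P (a * a' + b * c') (a * b' + b * d') (c * a' + d * c') (c * b' + d * d')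
  adj : ∀ {a b c d}, P a b c d → P d (-b) (-c) a
  scal : ∀ {u a b c d}, IsUnit u → P a b c d → P (u * a) (u * b) (u * c) (u * d)
  one : P 1 0 0 1
  i0 : P (-1) 0 0 1
  w : P 0 z 1 0
  c21 : ∀ {a b c d}, P a b c d → c = 0 ∨ IsUnit c
  hA : ∀ {b}, P 1 b 0 1 → b = 0 ∨ IsUnit b
  zA : P 1 z 0 1
  two : IsUnit (2 : R)
  zu : IsUnit z

namespace DG

variable {R : Type*} [CommRing R] {z : R} {P : R → R → R → R → Prop}

theorem congr' (_ : DG z P) {a b c d a' b' c' d' : R} (h : P a b c d) (h1 : a = a') (h2 : b = b')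
    (h3 : c = c') (h4 : d = d') : P a' b' c' d' := by
  subst h1 h2 h3 h4; exact h

theorem addA (h : DG z P) {a b : R} (ha : P 1 a 0 1) (hb : P 1 b 0 1) : P 1 (a + b) 0 1 :=
  h.congr' (h.mul ha hb) (by ring) (by ring) (by ring) (by ring)

theorem negA (h : DG z P) {a : R} (ha : P 1 a 0 1) : P 1 (-a) 0 1 :=
  h.congr' (h.adj ha) rfl rfl (by ring) rfl

theorem subA (h : DG z P) {a b : R} (ha : P 1 a 0 1) (hb : P 1 b 0 1) : P 1 (a - b) 0 1 := by
  rw [sub_eq_add_neg]; exact h.addA ha (h.negA hb)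

variable [Finite R]

/-- multiplication by a unit preserving `A` : inverse also preserves -/
theorem divA (h : DG z P) {f b : R} (hf : ∀ b, P 1 b 0 1 → P 1 (f * b) 0 1) (hu : IsUnit f)
    (hb : P 1 (f * b) 0 1) : P 1 b 0 1 := by
  have hinj : Function.Injective (fun x : {b // P 1 b 0 1} => (⟨f * x.1, hf x.1 x.2⟩ : {b // P 1 b 0 1})) := by
    intro x y hxy
    have : f * x.1 = f * y.1 := congrArg Subtype.val hxy
    exact Subtype.ext (hu.mul_left_cancel this)
  obtain ⟨y, hy⟩ := Finite.surjective_of_injective hinj ⟨f * b, hb⟩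
  have : f * y.1 = f * b := congrArg Subtype.val hy
  rw [← hu.mul_left_cancel this]; exact y.2

theorem halfA (h : DG z P) {b : R} (hb : P 1 (2 * b) 0 1) : P 1 b 0 1 :=
  h.divA (fun b hb => by rw [two_mul]; exact h.addA hb hb) h.two hb

/-- normal form of triangular elements, with bottom right entry 1 -/
theorem tri1 (h : DG z P) {r b : R} (hg : P r b 0 1) : P 1 b 0 1 ∧ P r 0 0 1 := by
  have hr : IsUnit r := by have := h.det hg; rwa [mul_one, mul_zero, sub_zero] at this
  have h1 : P r (-b) 0 1 := h.congr' (h.mul (h.mul h.i0 hg) h.i0) (by ring) (by ring) (by ring) (by ring)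
  have h2 : P r (2 * b * r) 0 r := h.congr' (h.mul hg (h.adj h1)) (by ring) (by ring) (by ring) (by ring)
  obtain ⟨u, hu⟩ := hr
  have h3 : P 1 (2 * b) 0 1 := h.congr' (h.scal (u := ((u⁻¹ : Rˣ) : R)) (Units.isUnit _) h2)
    (by rw [← hu]; simp) (by rw [← hu]; rw [mul_comm (2 * b), Units.inv_mul_cancel_left]) (by ring)
    (by rw [← hu]; simp)
  have h4 := h.halfA h3
  exact ⟨h4, h.congr' (h.mul (h.negA h4) hg) (by ring) (by ring) (by ring) (by ring)⟩

theorem tri (h : DG z P) {r b : R} {d : Rˣ} (hg : P r b 0 d) :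
    P 1 (b * ((d⁻¹ : Rˣ) : R)) 0 1 ∧ P (r * ((d⁻¹ : Rˣ) : R)) 0 0 1 := by
  apply h.tri1
  exact h.congr' (h.scal (u := ((d⁻¹ : Rˣ) : R)) (Units.isUnit _) hg) (mul_comm _ _) (mul_comm _ _) (by ring) (by simp)

theorem unit_of_H (h : DG z P) {r : R} (hr : P r 0 0 1) : IsUnit r := by
  have := h.det hr; rwa [mul_one, mul_zero, sub_zero] at this

/-- `A` is stable under `H₀` -/
theorem HA (h : DG z P) {r b : R} (hr : P r 0 0 1) (hb : P 1 b 0 1) : P 1 (r * b) 0 1 := by
  obtain ⟨u, hu⟩ := h.unit_of_H hr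
  have h2 : P r (r * r * b) 0 r := h.congr' (h.mul (h.mul hr hb) (h.adj hr)) (by ring) (by ring) (by ring) (by ring)
  exact h.congr' (h.scal (u := ((u⁻¹ : Rˣ) : R)) (Units.isUnit _) h2) (by rw [← hu]; simp)
    (by rw [← hu]; rw [mul_assoc, Units.inv_mul_cancel_left]) (by ring) (by rw [← hu]; simp)

/-- the key property : differences of elements of `H₀` act invertibly -/
theorem diffA (h : DG z P) {r r' y : R} (hr : P r 0 0 1) (hr' : P r' 0 0 1) (hne : r ≠ r')
    (hy : P 1 ((r - r') * y) 0 1) : P 1 y 0 1 := by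
  have hF : ∀ b, P 1 b 0 1 → P 1 ((r - r') * b) 0 1 := fun b hb => by
    rw [sub_mul]; exact h.subA (h.HA hr hb) (h.HA hr' hb)
  refine h.divA hF ?_ hy
  rcases h.hA (hF z h.zA) with h1 | h1
  · exfalso
    apply hne
    rw [← sub_eq_zero]
    exact h.zu.mul_right_cancel (by rw [h1, zero_mul])
  · exact isUnit_of_mul_isUnit_left h1

theorem H_inv (h : DG z P) {r : Rˣ} (hr : P (r : R) 0 0 1) : P ((r⁻¹ : Rˣ) : R) 0 0 1 :=
  h.congr' (h.scal (u := ((r⁻¹ : Rˣ) : R)) (Units.isUnit _) (h.adj hr)) (by ring) (by ring) (by ring) (by simp)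

theorem one_H (h : DG z P) : P 1 0 0 1 := h.one

end DG

section count

variable {R : Type*} [CommRing R] [Fintype R] {z : R} {P : R → R → R → R → Prop}

open Classical in
/-- units -/
noncomputable def sU (R : Type*) [CommRing R] [Fintype R] : Finset R := univ.filter fun u => IsUnit u
open Classical in
noncomputable def sA (P : R → R → R → R → Prop) : Finset R := univ.filter fun b => P 1 b 0 1
open Classical in
noncomputable def sH (P : R → R → R → R → Prop) : Finset R := univ.filter fun r => P r 0 0 1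
open Classical in
noncomputable def sY (P : R → R → R → R → Prop) : Finset R := univ.filter fun y => ∃ b d, P y b 1 d
open Classical in
noncomputable def sG (P : R → R → R → R → Prop) : Finset (R × R × R × R) :=
  univ.filter fun g => P g.1 g.2.1 g.2.2.1 g.2.2.2
open Classical in
noncomputable def sI (P : R → R → R → R → Prop) : Finset (R × R × R) :=
  univ.filter fun g => P g.1 g.2.1 g.2.2 (-g.1)

theorem mem_sU {u : R} : u ∈ sU R ↔ IsUnit u := by simp [sU]
theorem mem_sA {u : R} : u ∈ sA P ↔ P 1 u 0 1 := by simp [sA]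
theorem mem_sH {u : R} : u ∈ sH P ↔ P u 0 0 1 := by simp [sH]
theorem mem_sY {u : R} : u ∈ sY P ↔ ∃ b d, P u b 1 d := by simp [sY]
theorem mem_sG {g : R × R × R × R} : g ∈ sG P ↔ P g.1 g.2.1 g.2.2.1 g.2.2.2 := by simp [sG]
theorem mem_sI {g : R × R × R} : g ∈ sI P ↔ P g.1 g.2.1 g.2.2 (-g.1) := by simp [sI]

theorem card_G (h : DG z P) [Nontrivial R] :
    #(sU R) * #(sA P) * #(sH P) * (1 + #(sY P)) ≤ #(sG P) := by
  classical
  have hc : ∀ y : R, ∃ b d : R, y ∈ sY P → P y b 1 d := by
    intro y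
    by_cases hy : y ∈ sY P
    · obtain ⟨b, d, h1⟩ := mem_sY.1 hy; exact ⟨b, d, fun _ => h1⟩
    · exact ⟨0, 0, fun h => absurd h hy⟩
  choose B D hBD using hc
  -- triangular part
  let f0 : R × R × R → R × R × R × R := fun x => (x.1 * x.2.2, x.1 * x.2.1, 0, x.1)
  let f1 : (R × R × R) × R → R × R × R × R := fun x =>
    (x.2 * (x.1.1 * x.1.2.2), x.2 * (x.1.1 * x.1.2.1) + B x.2 * x.1.1, x.1.1 * x.1.2.2,
      x.1.1 * x.1.2.1 + D x.2 * x.1.1)
  have hf0 : ∀ u b r, u ∈ sU R → b ∈ sA P → r ∈ sH P → P (u * r) (u * b) 0 u := by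
    intro u b r hu hb hr
    rw [mem_sU] at hu; rw [mem_sA] at hb; rw [mem_sH] at hr
    exact h.congr' (h.scal hu (h.mul hb hr)) (by ring) (by ring) (by ring) (by ring)
  have i0 : Set.InjOn f0 (sU R ×ˢ sA P ×ˢ sH P : Finset _) := by
    rintro ⟨u, b, r⟩ hx ⟨u', b', r'⟩ hy hxy
    simp only [f0, Prod.mk.injEq] at hxy
    obtain ⟨h1, h2, -, rfl⟩ := hxy
    simp only [coe_product, Set.mem_prod, mem_coe, mem_sU] at hx
    have e1 := hx.1.mul_left_cancel h1
    have e2 := hx.1.mul_left_cancel h2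
    rw [e1, e2]
  have i1 : Set.InjOn f1 ((sU R ×ˢ sA P ×ˢ sH P) ×ˢ sY P : Finset _) := by
    rintro ⟨⟨u, b, r⟩, y⟩ hx ⟨⟨u', b', r'⟩, y'⟩ hx' hxy
    simp only [f1, Prod.mk.injEq] at hxy
    simp only [coe_product, Set.mem_prod, mem_coe, mem_sU, mem_sA, mem_sH] at hx hx'
    obtain ⟨h1, h2, h3, h4⟩ := hxy
    have hr : IsUnit (u * r) := hx.1.1.mul (h.unit_of_H hx.1.2.2)
    have ey : y = y' := by
      rw [← h3] at h1
      exact hr.mul_right_cancel h1
    subst ey
    have hy := hBD y hx.2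
    -- (ub, u) determined by the matrix
    have hdet := h.det hy
    have e1 : u = u' := by
      -- y * h4 - h2
      have e : (y * D y - B y * 1) * u = (y * D y - B y * 1) * u' := by linear_combination y * h4 - h2
      exact hdet.mul_left_cancel e
    subst e1
    have e2 : u * b = u * b' := by linear_combination h4
    have e3 := hx.1.1.mul_left_cancel e2
    have e4 := hx.1.1.mul_left_cancel h3
    rw [e3, e4]
  have c0 := Finset.card_image_of_injOn i0
  have c1 := Finset.card_image_of_injOn i1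
  have hd : Disjoint (image f0 (sU R ×ˢ sA P ×ˢ sH P)) (image f1 ((sU R ×ˢ sA P ×ˢ sH P) ×ˢ sY P)) := by
    rw [Finset.disjoint_left]
    rintro _ ha hb
    obtain ⟨⟨u, b, r⟩, -, rfl⟩ := mem_image.1 ha
    obtain ⟨⟨⟨u', b', r'⟩, y⟩, hx, hxy⟩ := mem_image.1 hb
    simp only [f0, f1, Prod.mk.injEq] at hxy
    simp only [mem_product, mem_sU, mem_sA, mem_sH] at hx
    have hr : IsUnit (u' * r') := hx.1.1.mul (h.unit_of_H hx.1.2.2)
    rw [hxy.2.2.1] at hr
    exact not_isUnit_zero hr
  have hsub : image f0 (sU R ×ˢ sA P ×ˢ sH P) ∪ image f1 ((sU R ×ˢ sA P ×ˢ sH P) ×ˢ sY P) ⊆ sG P := by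
    intro g hg
    rw [mem_sG]
    rcases mem_union.1 hg with hg | hg
    · obtain ⟨⟨u, b, r⟩, hx, rfl⟩ := mem_image.1 hg
      simp only [mem_product] at hx
      exact hf0 u b r hx.1 hx.2.1 hx.2.2
    · obtain ⟨⟨⟨u, b, r⟩, y⟩, hx, rfl⟩ := mem_image.1 hg
      simp only [mem_product] at hx
      have := h.mul (hBD y hx.2) (hf0 u b r hx.1.1 hx.1.2.1 hx.1.2.2)
      exact h.congr' this (by simp only [f1]; ring) (by simp only [f1]) (by simp only [f1]; ring)
        (by simp only [f1]; ring)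
  have := Finset.card_le_card hsub
  rw [card_union_of_disjoint hd, c0, c1] at this
  simp only [card_product] at this
  calc _ = _ := by ring
    _ ≤ _ := this

theorem card_Y (h : DG z P) {y : R} (hy : y ∈ sY P) (hyA : y ∉ sA P) :
    #(sA P) + #(sA P) * #(sH P) ≤ #(sY P) := by
  classical
  obtain ⟨b', d, hg⟩ := mem_sY.1 hy
  have hyA' : ¬ P 1 y 0 1 := fun e => hyA (mem_sA.2 e)
  let f : R × R → R := fun x => x.2 * y + x.1
  have i0 : Set.InjOn f (sA P ×ˢ sH P : Finset _) := by
    rintro ⟨b, r⟩ hx ⟨b₁, r₁⟩ hx' hxy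
    simp only [coe_product, Set.mem_prod, mem_coe, mem_sA, mem_sH] at hx hx'
    simp only [f] at hxy
    have e : (r - r₁) * y = b₁ - b := by linear_combination hxy
    have hr : r = r₁ := by
      by_contra hne
      exact hyA' (h.diffA hx.2 hx'.2 hne (by rw [e]; exact h.subA hx'.1 hx.1))
    subst hr
    rw [sub_self, zero_mul] at e
    rw [sub_eq_zero.1 e.symm]
  have hd : Disjoint (sA P) (image f (sA P ×ˢ sH P)) := by
    rw [Finset.disjoint_left]
    rintro _ ha hb
    obtain ⟨⟨b, r⟩, hx, rfl⟩ := mem_image.1 hb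
    simp only [mem_product, mem_sA, mem_sH] at hx
    rw [mem_sA] at ha
    apply hyA'
    have e : r * y = (r * y + b) - b := by ring
    have h1 : P 1 (r * y) 0 1 := by rw [e]; exact h.subA ha hx.1
    exact h.divA (fun b hb => h.HA hx.2 hb) (h.unit_of_H hx.2) h1
  have hsub : sA P ∪ image f (sA P ×ˢ sH P) ⊆ sY P := by
    intro g hg'
    rw [mem_sY]
    rcases mem_union.1 hg' with hg' | hg'
    · rw [mem_sA] at hg'
      exact ⟨z, 0, h.congr' (h.mul hg' h.w) (by ring) (by ring) (by ring) (by ring)⟩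
    · obtain ⟨⟨b, r⟩, hx, rfl⟩ := mem_image.1 hg'
      simp only [mem_product, mem_sA, mem_sH] at hx
      exact ⟨_, _, h.congr' (h.mul hx.1 (h.mul hx.2 hg)) (by ring) rfl (by ring) rfl⟩
  have := Finset.card_le_card hsub
  rwa [card_union_of_disjoint hd, Finset.card_image_of_injOn i0, card_product] at this

theorem sA_sub (h : DG z P) : sA P ⊆ sY P := by
  intro g hg
  rw [mem_sY]
  rw [mem_sA] at hg
  exact ⟨z, 0, h.congr' (h.mul hg h.w) (by ring) (by ring) (by ring) (by ring)⟩

theorem card_I (h : DG z P) [Nontrivial R] :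
    #(sI P) ≤ #(sU R) * (#(sA P) * #(sH P) + #(sY P)) := by
  classical
  obtain ⟨zu, hz⟩ := h.zu
  -- inverse on units
  let iv : R → R := fun c => Ring.inverse c
  have hiv : ∀ c, IsUnit c → c * iv c = 1 := fun c hc => Ring.mul_inverse_cancel c hc
  let f0 : R × R × R → R × R := fun g => (g.1, g.2.1 * iv g.1)
  let f1 : R × R × R → R × R × R := fun g => (g.2.2, g.1 * iv g.2.2, (g.2.1 + g.1 * iv g.2.2 * g.1) * iv (g.2.2 * z))
  let f2 : R × R × R → R × R := fun g => (g.2.2, g.1 * iv g.2.2)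
  let S0 := (sI P).filter fun g => g.2.2 = 0
  let S1 := (sI P).filter fun g => g.2.2 ≠ 0 ∧ g.1 * iv g.2.2 ∈ sA P
  let S2 := (sI P).filter fun g => g.2.2 ≠ 0 ∧ g.1 * iv g.2.2 ∉ sA P
  have hS : sI P ⊆ S0 ∪ (S1 ∪ S2) := by
    intro g hg
    simp only [S0, S1, S2, mem_union, mem_filter]
    tauto
  -- S0
  have k0 : #S0 ≤ #(sU R) * #(sA P) := by
    rw [← card_product]
    apply Finset.card_le_card_of_injOn f0
    · rintro ⟨a, b, c⟩ hg
      simp only [S0, coe_filter, Set.mem_setOf_eq, mem_sI] at hg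
      obtain ⟨hg, hc⟩ := hg
      subst hc
      have hdet := h.det hg
      have ha : IsUnit a := by
        have e : a * -a - b * 0 = -(a * a) := by ring
        rw [e, IsUnit.neg_iff] at hdet
        exact isUnit_of_mul_isUnit_left hdet
      obtain ⟨u, rfl⟩ := ha
      simp only [f0, coe_product, Set.mem_prod, mem_coe, mem_sU, mem_sA]
      refine ⟨Units.isUnit _, ?_⟩
      have := (h.tri (d := -u) (by simpa using hg)).1
      have e : iv (u : R) = ((u⁻¹ : Rˣ) : R) := Ring.inverse_unit u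
      rw [e]
      have h2 := h.negA this
      exact h.congr' h2 rfl (by simp) rfl rfl
    · rintro ⟨a, b, c⟩ hg ⟨a', b', c'⟩ hg' hxy
      simp only [S0, coe_filter, Set.mem_setOf_eq, mem_sI] at hg hg'
      simp only [f0, Prod.mk.injEq] at hxy
      obtain ⟨hg, rfl⟩ := hg
      obtain ⟨hg', rfl⟩ := hg'
      obtain ⟨rfl, h2⟩ := hxy
      have hdet := h.det hg
      have ha : IsUnit a := by
        have e : a * -a - b * 0 = -(a * a) := by ring
        rw [e, IsUnit.neg_iff] at hdet
        exact isUnit_of_mul_isUnit_left hdet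
      have : b = b' := by
        have h3 := congrArg (fun x => x * a) h2
        simp only [mul_assoc] at h3
        rw [mul_comm (iv a), hiv a ha, mul_one, mul_one] at h3
        exact h3
      rw [this]
  have k1 : #S1 ≤ #(sU R) * (#(sA P) * #(sH P)) := by
    rw [← card_product, ← card_product]
    apply Finset.card_le_card_of_injOn f1
    · rintro ⟨a, b, c⟩ hg
      simp only [S1, coe_filter, Set.mem_setOf_eq, mem_sI] at hg
      obtain ⟨hg, hc, hA⟩ := hg
      have hcu : IsUnit c := (h.c21 hg).resolve_left hc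
      simp only [f1, coe_product, Set.mem_prod, mem_coe, mem_sU, mem_sH]
      refine ⟨hcu, hA, ?_⟩
      rw [mem_sA] at hA
      set y := a * iv c with hy
      have hyc : y * c = a := by rw [hy, mul_assoc, mul_comm (iv c), hiv c hcu, mul_one]
      have h1 : P (b + y * a) 0 0 (c * z) :=
        h.congr' (h.mul (h.mul (h.mul (h.negA hA) hg) hA) h.w) (by linear_combination (-y) * hyc)
          (by linear_combination (-z) * hyc) (by linear_combination hyc) (by ring)
      obtain ⟨cu, rfl⟩ := hcu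
      have h2 := (h.tri (d := cu * zu) (by simpa [hz] using h1)).2
      have e : iv ((cu : R) * z) = (((cu * zu)⁻¹ : Rˣ) : R) := by
        rw [← hz, ← Units.val_mul]; exact Ring.inverse_unit _
      rw [e]; exact h2
    · rintro ⟨a, b, c⟩ hg ⟨a', b', c'⟩ hg' hxy
      simp only [S1, coe_filter, Set.mem_setOf_eq, mem_sI] at hg hg'
      simp only [f1, Prod.mk.injEq] at hxy
      obtain ⟨hg, hc, -⟩ := hg
      obtain ⟨hg', hc', -⟩ := hg'
      obtain ⟨rfl, h2, h3⟩ := hxy
      have hcu : IsUnit c := (h.c21 hg).resolve_left hc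
      have ea : a = a' := by
        have h4 := congrArg (fun x => x * c) h2
        simp only [mul_assoc] at h4
        rw [mul_comm (iv c), hiv c hcu, mul_one, mul_one] at h4
        exact h4
      subst ea
      have eb : b = b' := by
        have h4 := congrArg (fun x => x * (c * z)) h3
        simp only [mul_assoc] at h4
        rw [mul_comm (iv (c * z)), hiv _ (hcu.mul h.zu), mul_one, mul_one] at h4
        exact add_right_cancel h4
      rw [eb]
  have k2 : #S2 ≤ #(sU R) * #(sY P \ sA P) := by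
    rw [← card_product]
    apply Finset.card_le_card_of_injOn f2
    · rintro ⟨a, b, c⟩ hg
      simp only [S2, coe_filter, Set.mem_setOf_eq, mem_sI] at hg
      obtain ⟨hg, hc, hA⟩ := hg
      have hcu : IsUnit c := (h.c21 hg).resolve_left hc
      simp only [f2, coe_product, Set.mem_prod, mem_coe, mem_sU, mem_sdiff]
      refine ⟨hcu, ?_, hA⟩
      rw [mem_sY]
      obtain ⟨cu, rfl⟩ := hcu
      have e : iv (cu : R) = ((cu⁻¹ : Rˣ) : R) := Ring.inverse_unit _
      rw [e]
      exact ⟨_, _, h.congr' (h.scal (u := ((cu⁻¹ : Rˣ) : R)) (Units.isUnit _) hg) (mul_comm _ _) rfl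
        (by simp) rfl⟩
    · rintro ⟨a, b, c⟩ hg ⟨a', b', c'⟩ hg' hxy
      simp only [S2, coe_filter, Set.mem_setOf_eq, mem_sI] at hg hg'
      simp only [f2, Prod.mk.injEq] at hxy
      obtain ⟨hg, hc, hA⟩ := hg
      obtain ⟨hg', hc', -⟩ := hg'
      obtain ⟨rfl, h2⟩ := hxy
      have hcu : IsUnit c := (h.c21 hg).resolve_left hc
      have ea : a = a' := by
        have h4 := congrArg (fun x => x * c) h2
        simp only [mul_assoc] at h4
        rw [mul_comm (iv c), hiv c hcu, mul_one, mul_one] at h4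
        exact h4
      subst ea
      rw [mem_sA] at hA
      set y := a * iv c with hy
      have hyc : y * c = a := by rw [hy, mul_assoc, mul_comm (iv c), hiv c hcu, mul_one]
      have hdu : IsUnit (-(c * b') - a * a) := by
        have := h.det hg'
        have e : a * -a - b' * c = -(c * b') - a * a := by ring
        rwa [e] at this
      obtain ⟨du, hdu⟩ := hdu
      have h1 : P (-(c * b) - a * a) (a * (b - b')) 0 du :=
        h.congr' (h.mul (h.adj hg) hg') (by ring) (by ring) (by ring) (by rw [hdu]; ring)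
      obtain ⟨t1, t2⟩ := h.tri h1
      by_contra hne
      have hbb : b ≠ b' := fun e => hne (by rw [e])
      set di := ((du⁻¹ : Rˣ) : R) with hdi
      have hdd : (-(c * b') - a * a) * di = 1 := by rw [← hdu, hdi]; simp
      apply hA
      apply h.diffA t2 h.one_H
      · intro e
        apply hbb
        have e2 : (-(c * b) - a * a) * di = (-(c * b') - a * a) * di := by rw [e, hdd]
        have e3 : (-(c * b) - a * a) = (-(c * b') - a * a) := (Units.isUnit (du⁻¹)).mul_right_cancel e2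
        have e4 : c * b = c * b' := by linear_combination -e3
        exact hcu.mul_left_cancel e4
      · have e : ((-(c * b) - a * a) * di - 1) * y = -(a * (b - b') * di) := by
          rw [← hdd]
          linear_combination (-(b - b') * di) * hyc
        rw [e]; exact h.negA t1
  have kk := Finset.card_le_card hS
  have k3 := Finset.card_union_le S0 (S1 ∪ S2)
  have k4 := Finset.card_union_le S1 S2
  have k5 : #(sY P \ sA P) + #(sA P) = #(sY P) := Finset.card_sdiff_add_card_eq_card (sA_sub h)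
  calc #(sI P) ≤ #(sU R) * #(sA P) + (#(sU R) * (#(sA P) * #(sH P)) + #(sU R) * #(sY P \ sA P)) := by
        omega
    _ = #(sU R) * (#(sA P) * #(sH P) + (#(sY P \ sA P) + #(sA P))) := by ring
    _ = _ := by rw [k5]

theorem card_GI (h : DG z P) [Nontrivial R] :
    #(sU R) * #(sG P) ≤ 2 * (#(sU R) * #(sH P)) * #(sI P) := by
  classical
  have h2u := h.two
  obtain ⟨zu, hz⟩ := h.zu
  let iv : R → R := fun c => Ring.inverse c
  have hiv : ∀ c, IsUnit c → c * iv c = 1 := fun c hc => Ring.mul_inverse_cancel c hc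
  have hivu : ∀ c, IsUnit c → IsUnit (iv c) := fun c hc => IsUnit.of_mul_eq_one c (by rw [mul_comm, hiv c hc])
  let f : R × (R × R × R × R) → R × R × R := fun x =>
    (-(x.1 * (x.2.1 * x.2.2.2.2 + x.2.2.1 * x.2.2.2.1)), 2 * x.1 * x.2.1 * x.2.2.1,
      -(2 * x.1 * x.2.2.2.1 * x.2.2.2.2))
  have himg : image f (sU R ×ˢ sG P) ⊆ sI P := by
    intro g hg
    obtain ⟨⟨u, a, b, c, d⟩, hx, rfl⟩ := mem_image.1 hg
    simp only [mem_product, mem_sU, mem_sG] at hx
    rw [mem_sI]
    exact h.congr' (h.scal hx.1 (h.mul (h.mul hx.2 h.i0) (h.adj hx.2))) (by simp only [f]; ring)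
      (by simp only [f]; ring) (by simp only [f]; ring) (by simp only [f]; ring)
  have hfib : ∀ y ∈ image f (sU R ×ˢ sG P), #{x ∈ sU R ×ˢ sG P | f x = y} ≤ 2 * (#(sU R) * #(sH P)) := by
    intro y hy
    obtain ⟨⟨u₀, a₀, b₀, c₀, d₀⟩, hx₀, rfl⟩ := mem_image.1 hy
    simp only [mem_product, mem_sU, mem_sG] at hx₀
    obtain ⟨hu₀, hg₀⟩ := hx₀
    have hD₀ := h.det hg₀
    set D₀ := a₀ * d₀ - b₀ * c₀ with hD₀e
    -- n = adj g₀ * g
    let n : R × R × R × R → R × R × R × R := fun g =>
      (d₀ * g.1 - b₀ * g.2.2.1, d₀ * g.2.1 - b₀ * g.2.2.2, -(c₀ * g.1) + a₀ * g.2.2.1,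
        -(c₀ * g.2.1) + a₀ * g.2.2.2)
    -- the set of monomial elements
    let T : Finset (R × R × R × R) := (sG P).filter fun g => (g.2.1 = 0 ∧ g.2.2.1 = 0) ∨ (g.1 = 0 ∧ g.2.2.2 = 0)
    have hT : #T ≤ 2 * (#(sU R) * #(sH P)) := by
      let T1 := (sG P).filter fun g => g.2.1 = 0 ∧ g.2.2.1 = 0
      let T2 := (sG P).filter fun g => g.1 = 0 ∧ g.2.2.2 = 0
      have e1 : #T1 ≤ #(sU R) * #(sH P) := by
        rw [← card_product]
        apply Finset.card_le_card_of_injOn (fun g => (g.2.2.2, g.1 * iv g.2.2.2))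
        · rintro ⟨a, b, c, d⟩ hg
          simp only [T1, coe_filter, Set.mem_setOf_eq, mem_sG] at hg
          obtain ⟨hg, rfl, rfl⟩ := hg
          have hd : IsUnit d := by
            have := h.det hg
            rw [mul_zero, sub_zero] at this
            exact isUnit_of_mul_isUnit_right this
          simp only [coe_product, Set.mem_prod, mem_coe, mem_sU, mem_sH]
          refine ⟨hd, ?_⟩
          obtain ⟨du, rfl⟩ := hd
          have e : iv (du : R) = ((du⁻¹ : Rˣ) : R) := Ring.inverse_unit _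
          rw [e]; exact (h.tri hg).2
        · rintro ⟨a, b, c, d⟩ hg ⟨a', b', c', d'⟩ hg' hxy
          simp only [T1, coe_filter, Set.mem_setOf_eq, mem_sG] at hg hg'
          obtain ⟨hg, rfl, rfl⟩ := hg
          obtain ⟨hg', rfl, rfl⟩ := hg'
          simp only [Prod.mk.injEq] at hxy
          obtain ⟨rfl, h4⟩ := hxy
          have hd : IsUnit d := by
            have := h.det hg
            rw [mul_zero, sub_zero] at this
            exact isUnit_of_mul_isUnit_right this
          rw [(hivu d hd).mul_right_cancel h4]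
      have e2 : #T2 ≤ #(sU R) * #(sH P) := by
        rw [← card_product]
        apply Finset.card_le_card_of_injOn (fun g => (g.2.2.1 * z, g.2.1 * iv (g.2.2.1 * z)))
        · rintro ⟨a, b, c, d⟩ hg
          simp only [T2, coe_filter, Set.mem_setOf_eq, mem_sG] at hg
          obtain ⟨hg, rfl, rfl⟩ := hg
          have hc : IsUnit c := by
            have := h.det hg
            rw [mul_zero, zero_sub, IsUnit.neg_iff] at this
            exact isUnit_of_mul_isUnit_right this
          have hcz : IsUnit (c * z) := hc.mul h.zu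
          simp only [coe_product, Set.mem_prod, mem_coe, mem_sU, mem_sH]
          refine ⟨hcz, ?_⟩
          have h5 : P b 0 0 (c * z) := h.congr' (h.mul hg h.w) (by ring) (by ring) (by ring) (by ring)
          obtain ⟨du, hdu⟩ := hcz
          rw [← hdu] at h5 ⊢
          have e : iv (du : R) = ((du⁻¹ : Rˣ) : R) := Ring.inverse_unit _
          rw [e]; exact (h.tri h5).2
        · rintro ⟨a, b, c, d⟩ hg ⟨a', b', c', d'⟩ hg' hxy
          simp only [T2, coe_filter, Set.mem_setOf_eq, mem_sG] at hg hg'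
          obtain ⟨hg, rfl, rfl⟩ := hg
          obtain ⟨hg', rfl, rfl⟩ := hg'
          simp only [Prod.mk.injEq] at hxy
          obtain ⟨h3, h4⟩ := hxy
          have e3 := h.zu.mul_right_cancel h3
          subst e3
          have hc : IsUnit c := by
            have := h.det hg
            rw [mul_zero, zero_sub, IsUnit.neg_iff] at this
            exact isUnit_of_mul_isUnit_right this
          rw [(hivu _ (hc.mul h.zu)).mul_right_cancel h4]
      have e3 : T = T1 ∪ T2 := by
        ext g; simp only [T, T1, T2, mem_union, mem_filter]; tauto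
      rw [e3]
      have := Finset.card_union_le T1 T2
      omega
    refine le_trans ?_ hT
    have key : ∀ u a b c d, (u, (a, b, c, d)) ∈ (sU R ×ˢ sG P).filter (fun x => f x = f (u₀, a₀, b₀, c₀, d₀)) →
        IsUnit u ∧ P a b c d ∧
        (((n (a, b, c, d)).2.1 = 0 ∧ (n (a, b, c, d)).2.2.1 = 0 ∧ u * (a * d - b * c) = u₀ * D₀) ∨
          ((n (a, b, c, d)).1 = 0 ∧ (n (a, b, c, d)).2.2.2 = 0 ∧ u * (a * d - b * c) = -(u₀ * D₀))) := by
      intro u a b c d hx
      rw [mem_filter] at hx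
      obtain ⟨hx, hxy⟩ := hx
      simp only [mem_product, mem_sU, mem_sG] at hx
      obtain ⟨hu, hg⟩ := hx
      have hD := h.det hg
      simp only [f, Prod.mk.injEq] at hxy
      obtain ⟨q1, q2, q3⟩ := hxy
      refine ⟨hu, hg, ?_⟩
      have q2' : u * a * b = u₀ * a₀ * b₀ := h2u.mul_left_cancel (by linear_combination q2)
      have q3' : u * c * d = u₀ * c₀ * d₀ := h2u.mul_left_cancel (by linear_combination -q3)
      have q1' : u * (a * d + b * c) = u₀ * (a₀ * d₀ + b₀ * c₀) := by linear_combination -q1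
      set D := a * d - b * c with hDe
      set n₁ := d₀ * a - b₀ * c with hn1
      set n₂ := d₀ * b - b₀ * d with hn2
      set n₃ := -(c₀ * a) + a₀ * c with hn3
      set n₄ := -(c₀ * b) + a₀ * d with hn4
      -- u D n i0 = u₀ D₀ i0 n
      have r1 : u * D * n₁ = u₀ * D₀ * n₁ := by
        rw [hDe, hn1, hD₀e]
        linear_combination (d₀ * a + b₀ * c) * q1' - 2 * d₀ * c * q2' - 2 * b₀ * a * q3'
      have r2 : u * D * n₂ = -(u₀ * D₀ * n₂) := by
        rw [hDe, hn2, hD₀e]
        linear_combination (-d₀ * b - b₀ * d) * q1' + 2 * d₀ * d * q2' + 2 * b₀ * b * q3'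
      have r3 : u * D * n₃ = -(u₀ * D₀ * n₃) := by
        rw [hDe, hn3, hD₀e]
        linear_combination (-c₀ * a - a₀ * c) * q1' + 2 * c₀ * c * q2' + 2 * a₀ * a * q3'
      have r4 : u * D * n₄ = u₀ * D₀ * n₄ := by
        rw [hDe, hn4, hD₀e]
        linear_combination (c₀ * b + a₀ * d) * q1' - 2 * c₀ * d * q2' - 2 * a₀ * b * q3'
      have hnP : P n₁ n₂ n₃ n₄ := h.congr' (h.mul (h.adj hg₀) hg) (by rw [hn1]; ring) (by rw [hn2]; ring)
        (by rw [hn3]; ring) (by rw [hn4]; ring)
      have hUD : IsUnit (u * D) := hu.mul hD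
      have hUD₀ : IsUnit (u₀ * D₀) := hu₀.mul hD₀
      have hnd := h.det hnP
      rcases h.c21 hnP with hc | hc
      · left
        rw [hc, mul_zero, sub_zero] at hnd
        have hn1u := isUnit_of_mul_isUnit_left hnd
        have e := hn1u.mul_right_cancel r1
        refine ⟨?_, hc, e⟩
        have : (2 : R) * (u₀ * D₀) * n₂ = 0 := by linear_combination r2 - n₂ * e
        exact (h2u.mul hUD₀).mul_left_cancel (by rw [this, mul_zero])
      · right
        have e : u * D = -(u₀ * D₀) := hc.mul_right_cancel (by rw [r3]; ring)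
        refine ⟨?_, ?_, e⟩
        · have : (2 : R) * (u₀ * D₀) * n₁ = 0 := by linear_combination -r1 + n₁ * e
          exact (h2u.mul hUD₀).mul_left_cancel (by rw [this, mul_zero])
        · have : (2 : R) * (u₀ * D₀) * n₄ = 0 := by linear_combination -r4 + n₄ * e
          exact (h2u.mul hUD₀).mul_left_cancel (by rw [this, mul_zero])
    apply Finset.card_le_card_of_injOn (fun x => n x.2)
    · rintro ⟨u, a, b, c, d⟩ hx
      have hx' := hx
      rw [mem_coe] at hx'
      obtain ⟨hu, hg, hk⟩ := key u a b c d hx'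
      simp only [T, coe_filter, Set.mem_setOf_eq, mem_sG]
      refine ⟨?_, ?_⟩
      · exact h.congr' (h.mul (h.adj hg₀) hg) (by simp only [n]; ring) (by simp only [n]; ring)
          (by simp only [n]; ring) (by simp only [n]; ring)
      · rcases hk with hk | hk
        · exact Or.inl ⟨hk.1, hk.2.1⟩
        · exact Or.inr ⟨hk.1, hk.2.1⟩
    · rintro ⟨u, a, b, c, d⟩ hx ⟨u', a', b', c', d'⟩ hx' hxy
      rw [mem_coe] at hx hx'
      obtain ⟨hu, hg, hk⟩ := key u a b c d hx
      obtain ⟨hu', hg', hk'⟩ := key u' a' b' c' d' hx'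
      simp only [n, Prod.mk.injEq] at hxy
      obtain ⟨q1, q2, q3, q4⟩ := hxy
      have ea : a = a' := hD₀.mul_left_cancel (by rw [hD₀e]; linear_combination a₀ * q1 + b₀ * q3)
      have eb : b = b' := hD₀.mul_left_cancel (by rw [hD₀e]; linear_combination a₀ * q2 + b₀ * q4)
      have ec : c = c' := hD₀.mul_left_cancel (by rw [hD₀e]; linear_combination c₀ * q1 + d₀ * q3)
      have ed : d = d' := hD₀.mul_left_cancel (by rw [hD₀e]; linear_combination c₀ * q2 + d₀ * q4)
      subst ea eb ec ed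
      have hD := h.det hg
      have eu : u = u' := by
        have hnd : IsUnit ((n (a, b, c, d)).1 * (n (a, b, c, d)).2.2.2 -
            (n (a, b, c, d)).2.1 * (n (a, b, c, d)).2.2.1) := by
          have := hD₀.mul hD
          convert this using 1
          simp only [n, hD₀e]; ring
        rcases hk with hk | hk <;> rcases hk' with hk' | hk'
        · exact hD.mul_right_cancel (hk.2.2.trans hk'.2.2.symm)
        · exfalso
          rw [hk.1, hk'.1] at hnd
          simp at hnd
        · exfalso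
          rw [hk.1, hk'.1] at hnd
          simp at hnd
        · exact hD.mul_right_cancel (hk.2.2.trans hk'.2.2.symm)
      rw [eu]
  have := Finset.card_le_mul_card_image (sU R ×ˢ sG P) _ hfib
  rw [card_product] at this
  exact this.trans (Nat.mul_le_mul_left _ (Finset.card_le_card himg))

/-- all the points of the orbit of infinity are in `A ∪ {∞}` -/
theorem Y_sub_A (h : DG z P) [Nontrivial R] (h4 : 4 ≤ #(sA P)) : sY P ⊆ sA P := by
  intro y hy
  by_contra hyA
  have a1 := card_G h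
  have a2 := card_GI h
  have a3 := card_I h
  have a4 := card_Y h hy hyA
  have hU : 0 < #(sU R) := Finset.card_pos.2 ⟨1, mem_sU.2 isUnit_one⟩
  have hH : 0 < #(sH P) := Finset.card_pos.2 ⟨1, mem_sH.2 h.one⟩
  set ζ := #(sU R)
  set Q := #(sA P)
  set η := #(sH P)
  set N := #(sY P)
  set I := #(sI P)
  set Γ := #(sG P)
  have b1 : ζ * ζ * η * (Q * (1 + N)) ≤ ζ * ζ * η * (2 * (Q * η + N)) := by
    calc ζ * ζ * η * (Q * (1 + N)) = ζ * (ζ * Q * η * (1 + N)) := by ring
      _ ≤ ζ * Γ := Nat.mul_le_mul_left _ a1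
      _ ≤ 2 * (ζ * η) * I := a2
      _ ≤ 2 * (ζ * η) * (ζ * (Q * η + N)) := Nat.mul_le_mul_left _ a3
      _ = _ := by ring
  have b2 := Nat.le_of_mul_le_mul_left b1 (by positivity)
  nlinarith [Nat.mul_le_mul_left Q a4, Nat.mul_le_mul_right N h4, Nat.mul_le_mul_right (Q * η) h4]

/-- `z A ⊆ A` -/
theorem mul_mem_A (h : DG z P) [Nontrivial R] (h4 : 4 ≤ #(sA P)) {b : R} (hb : P 1 b 0 1) :
    P 1 (z * b) 0 1 := by
  have hY := Y_sub_A h h4
  obtain ⟨zu, hz⟩ := h.zu
  -- star
  have star : ∀ {b : Rˣ}, P 1 (b : R) 0 1 → P 1 (z * ((b⁻¹ : Rˣ) : R)) 0 1 := by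
    intro b hb
    have h1 : P z 0 b z := h.congr' (h.mul (h.mul h.w hb) h.w) (by ring) (by ring) (by ring) (by ring)
    have h2 := h.scal (u := ((b⁻¹ : Rˣ) : R)) (Units.isUnit _) h1
    have h3 : z * ((b⁻¹ : Rˣ) : R) ∈ sY P := by
      rw [mem_sY]
      exact ⟨_, _, h.congr' h2 (mul_comm _ _) rfl (by simp) rfl⟩
    exact mem_sA.1 (hY h3)
  rcases h.hA hb with rfl | hbu
  · rw [mul_zero]; exact h.one
  obtain ⟨bu, rfl⟩ := hbu
  -- c = z / b - z
  have s1 := star hb
  have s2 := h.subA s1 h.zA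
  rcases h.hA s2 with h0 | hu
  · -- z / b = z, b = 1
    have e : ((bu⁻¹ : Rˣ) : R) = 1 := h.zu.mul_left_cancel (by rw [mul_one]; exact sub_eq_zero.1 h0)
    have e2 : (bu : R) = 1 := by
      calc (bu : R) = bu * ((bu⁻¹ : Rˣ) : R) := by rw [e, mul_one]
        _ = 1 := by simp
    rw [e2, mul_one]; exact h.zA
  obtain ⟨cu, hcu⟩ := hu
  rw [← hcu] at s2
  have s3 := star s2
  have s4 := h.addA (star (b := zu) (by rw [hz]; exact h.zA)) s3
  -- s4 : z/z + z/c ∈ A
  have e1 : z * ((zu⁻¹ : Rˣ) : R) = 1 := by rw [← hz]; simp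
  rw [e1] at s4
  -- 1 + z/c = (c + z)/c = (z/b)/c
  have e2 : 1 + z * ((cu⁻¹ : Rˣ) : R) = ((zu * bu⁻¹ * cu⁻¹ : Rˣ) : R) := by
    rw [Units.val_mul, Units.val_mul, hz]
    have : (cu : R) * ((cu⁻¹ : Rˣ) : R) = 1 := by simp
    linear_combination (-1 : R) * this + ((cu⁻¹ : Rˣ) : R) * hcu
  rw [e2] at s4
  have s5 := star s4
  -- z * b c / z = b c
  have e3 : z * (((zu * bu⁻¹ * cu⁻¹ : Rˣ)⁻¹ : Rˣ) : R) = z - z * bu := by
    have : ((zu * bu⁻¹ * cu⁻¹ : Rˣ)⁻¹ : Rˣ) = cu * bu * zu⁻¹ := by
      rw [mul_inv_rev, mul_inv_rev, inv_inv, inv_inv]; rw [mul_assoc]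
    rw [this, Units.val_mul, Units.val_mul, hcu]
    have e4 : (bu : R) * ((bu⁻¹ : Rˣ) : R) = 1 := by simp
    linear_combination (z * (((bu⁻¹ : Rˣ) : R) - 1) * bu) * e1 + z * e4
  rw [e3] at s5
  have s6 := h.subA h.zA s5
  exact h.congr' s6 rfl (by ring) rfl rfl

end count

end CfsgLib.H14Dick
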