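import Cfsg.Agent.LibH14Inf
import Cfsg.Agent.LibH14Dick

/-! Generation of `SL₂` : the finite and the infinite case together (seat helper14). -/

set_option autoImplicit false

namespace CfsgLib.H14Crux

open CfsgLib.H14Inf CfsgLib.H14Dick Polynomial

variable {R : Type*} [CommRing R]

/-- normalized by `diag(-1,1)` and `[[0,z],[1,0]]` -/
structure HG (z : R) (Q : R → R → R → R → Prop) : Prop extends SG Q where
  ic : ∀ {a b c d}, Q a b c d → Q a (-b) (-c) d
  wc : ∀ {a b c d}, Q a b c d → ∃ b', z * b' = b ∧ Q d (z * c) b' a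

theorem HG.addA {z : R} {Q : R → R → R → R → Prop} (h : HG z Q) {a b : R} (ha : Q 1 a 0 1) (hb : Q 1 b 0 1) :
    Q 1 (a + b) 0 1 :=
  h.congr' (h.mul ha hb) (by ring) (by ring) (by ring) (by ring)

/-- the extended group -/
def PP (z : R) (Q : R → R → R → R → Prop) (a b c d : R) : Prop :=
  ∃ (u : Rˣ) (ε h₁ h₂ h₃ h₄ : R), (ε = 1 ∨ ε = -1) ∧ Q h₁ h₂ h₃ h₄ ∧
    ((a = u * ε * h₁ ∧ b = u * h₂ ∧ c = u * ε * h₃ ∧ d = u * h₄) ∨
     (a = u * ε * h₂ ∧ b = u * z * h₁ ∧ c = u * ε * h₄ ∧ d = u * z * h₃))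

theorem SG.negA {Q : R → R → R → R → Prop} (h : SG Q) {a : R} (ha : Q 1 a 0 1) : Q 1 (-a) 0 1 :=
  h.congr' (h.inv ha) rfl rfl (by ring) rfl

theorem PP_A [Finite R] {z : R} {Q : R → R → R → R → Prop} (hQ : HG z Q) (h2 : IsUnit (2 : R)) {b : R} :
    PP z Q 1 b 0 1 ↔ Q 1 b 0 1 := by
  have half : ∀ {b : R}, Q 1 (2 * b) 0 1 → Q 1 b 0 1 := by
    intro b hb
    have hinj : Function.Injective (fun x : {b // Q 1 b 0 1} =>
        (⟨2 * x.1, by rw [two_mul]; exact hQ.addA x.2 x.2⟩ : {b // Q 1 b 0 1})) := by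
      intro x y hxy
      have : 2 * x.1 = 2 * y.1 := congrArg Subtype.val hxy
      exact Subtype.ext (h2.mul_left_cancel this)
    obtain ⟨y, hy⟩ := Finite.surjective_of_injective hinj ⟨2 * b, hb⟩
    have : 2 * y.1 = 2 * b := congrArg Subtype.val hy
    rw [← h2.mul_left_cancel this]; exact y.2
  constructor
  · rintro ⟨u, ε, h₁, h₂, h₃, h₄, hε, hq, h⟩
    have hk := hQ.mul hq (hQ.inv (hQ.ic hq))
    have hdet := hQ.det hq
    have hεε : ε * ε = 1 := by rcases hε with rfl | rfl <;> ring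
    rcases h with ⟨e1, e2, e3, e4⟩ | ⟨e1, e2, e3, e4⟩
    · have h30 : h₃ = 0 := by
        have : (u : R) * ε * h₃ = 0 := e3.symm
        calc h₃ = (ε * ε) * (((u⁻¹ : Rˣ) : R) * u) * h₃ := by rw [hεε]; simp
          _ = ((u⁻¹ : Rˣ) : R) * ε * (u * ε * h₃) := by ring
          _ = 0 := by rw [this, mul_zero]
      subst h30
      rw [mul_zero, sub_zero] at hdet
      apply half
      refine hQ.congr' hk (by linear_combination hdet) ?_ (by ring) (by linear_combination hdet)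
      -- 2 h₁ h₂ = 2 b
      have : h₂ = b * h₄ := by
        have hu : (u : R) * h₄ = 1 := e4.symm
        calc h₂ = (u * h₄) * h₂ := by rw [hu, one_mul]
          _ = b * h₄ := by rw [e2]; ring
      rw [this]
      linear_combination 2 * b * hdet
    · have h40 : h₄ = 0 := by
        have : (u : R) * ε * h₄ = 0 := e3.symm
        calc h₄ = (ε * ε) * (((u⁻¹ : Rˣ) : R) * u) * h₄ := by rw [hεε]; simp
          _ = ((u⁻¹ : Rˣ) : R) * ε * (u * ε * h₄) := by ring
          _ = 0 := by rw [this, mul_zero]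
      subst h40
      rw [mul_zero, zero_sub] at hdet
      have hk2 := hQ.mul hk hk
      apply half
      apply half
      have : h₁ = b * h₃ := by
        have hu : (u : R) * z * h₃ = 1 := e4.symm
        calc h₁ = (u * z * h₃) * h₁ := by rw [hu, one_mul]
          _ = b * h₃ := by rw [e2]; ring
      refine hQ.congr' hk2 (by linear_combination (1 - h₂ * h₃) * hdet) ?_ (by ring)
        (by linear_combination (1 - h₂ * h₃) * hdet)
      rw [this]
      linear_combination (4 * b * (1 - h₂ * h₃)) * hdet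
  · intro h
    exact ⟨1, 1, 1, b, 0, 1, Or.inl rfl, h, Or.inl ⟨by simp, by simp, by simp, by simp⟩⟩

theorem DG_of [Finite R] {z : R} {Q : R → R → R → R → Prop} (hQ : HG z Q) (h2 : IsUnit (2 : R))
    (hz : IsUnit z) (hzA : Q 1 z 0 1) (c21 : ∀ {a b c d}, Q a b c d → c = 0 ∨ IsUnit c)
    (d22 : ∀ {a b c d}, Q a b c d → d = 0 ∨ IsUnit d) (hA : ∀ {b}, Q 1 b 0 1 → b = 0 ∨ IsUnit b) :
    DG z (PP z Q) := by
  have hεu : ∀ {ε : R}, (ε = 1 ∨ ε = -1) → ε * ε = 1 := by
    rintro ε (rfl | rfl) <;> ring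
  have hεI : ∀ {ε : R}, (ε = 1 ∨ ε = -1) → IsUnit ε := by
    rintro ε (rfl | rfl)
    · exact isUnit_one
    · exact isUnit_one.neg
  have hεc : ∀ {ε a b c d : R}, (ε = 1 ∨ ε = -1) → Q a b c d → Q a (ε * b) (ε * c) d := by
    rintro ε a b c d (rfl | rfl) h
    · exact hQ.congr' h rfl (one_mul _).symm (one_mul _).symm rfl
    · exact hQ.congr' (hQ.ic h) rfl (by ring) (by ring) rfl
  have hεm : ∀ {ε ε' : R}, (ε = 1 ∨ ε = -1) → (ε' = 1 ∨ ε' = -1) → (ε * ε' = 1 ∨ ε * ε' = -1) := by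
    rintro ε ε' (rfl | rfl) (rfl | rfl)
    · left; ring
    · right; ring
    · right; ring
    · left; ring
  obtain ⟨zu, hzu⟩ := hz
  refine ⟨?_, ?_, ?_, ?_, ?_, ?_, ?_, ?_, ?_, ?_, h2, ⟨zu, hzu⟩⟩
  · rintro a b c d ⟨u, ε, h₁, h₂, h₃, h₄, hε, hq, h⟩
    have hdet := hQ.det hq
    rcases h with ⟨rfl, rfl, rfl, rfl⟩ | ⟨rfl, rfl, rfl, rfl⟩
    · have : (u : R) * ε * h₁ * (u * h₄) - u * h₂ * (u * ε * h₃) = u * u * ε := by
        linear_combination ((u : R) * u * ε) * hdet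
      rw [this]
      exact ((Units.isUnit u).mul (Units.isUnit u)).mul (hεI hε)
    · have : (u : R) * ε * h₂ * (u * z * h₃) - u * z * h₁ * (u * ε * h₄) = -(u * u * ε * z) := by
        linear_combination (-(u : R) * u * ε * z) * hdet
      rw [this, ← hzu]
      exact (((Units.isUnit u).mul (Units.isUnit u)).mul (hεI hε)).mul (Units.isUnit zu) |>.neg
  · rintro a b c d a' b' c' d' ⟨u, ε, h₁, h₂, h₃, h₄, hε, hq, h⟩ ⟨v, δ, k₁, k₂, k₃, k₄, hδ, kq, k⟩
    rcases h with ⟨rfl, rfl, rfl, rfl⟩ | ⟨rfl, rfl, rfl, rfl⟩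
    · rcases k with ⟨rfl, rfl, rfl, rfl⟩ | ⟨rfl, rfl, rfl, rfl⟩
      · -- type 1,1 : h (i_ε k i_ε)
        have h3 := hQ.mul hq (hεc hε kq)
        have he := hεu hε
        refine ⟨u * v, ε * δ, _, _, _, _, hεm hε hδ, h3, Or.inl ⟨?_, ?_, ?_, ?_⟩⟩
        · rw [Units.val_mul]; linear_combination (-(u : R) * v * δ * h₂ * k₃) * he
        · rw [Units.val_mul]; ring
        · rw [Units.val_mul]; linear_combination (-(u : R) * v * δ * h₄ * k₃) * he
        · rw [Units.val_mul]; ring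
      · have h3 := hQ.mul hq (hεc hε kq)
        have he := hεu hε
        rcases hε with rfl | rfl
        · refine ⟨u * v, 1 * δ, _, _, _, _, hεm (Or.inl rfl) hδ, h3, Or.inr ⟨?_, ?_, ?_, ?_⟩⟩ <;>
            rw [Units.val_mul] <;> ring
        · refine ⟨-(u * v), -1 * δ, _, _, _, _, hεm (Or.inr rfl) hδ, h3, Or.inr ⟨?_, ?_, ?_, ?_⟩⟩ <;>
            rw [Units.val_neg, Units.val_mul] <;> ring
    · rcases k with ⟨rfl, rfl, rfl, rfl⟩ | ⟨rfl, rfl, rfl, rfl⟩
      · obtain ⟨b', hb', hk'⟩ := hQ.wc (hεc hε kq)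
        have h3 := hQ.mul hq hk'
        have he := hεu hε
        refine ⟨u * v, ε * δ, _, _, _, _, hεm hε hδ, h3, Or.inr ⟨?_, ?_, ?_, ?_⟩⟩
        · rw [Units.val_mul]; linear_combination (-(u : R) * v * δ * z * h₁ * k₃) * he
        · rw [Units.val_mul]; linear_combination (-(u : R) * v * h₂) * hb'
        · rw [Units.val_mul]; linear_combination (-(u : R) * v * δ * z * h₃ * k₃) * he
        · rw [Units.val_mul]; linear_combination (-(u : R) * v * h₄) * hb'
      · obtain ⟨b', hb', hk'⟩ := hQ.wc (hεc hε kq)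
        have h3 := hQ.mul hq hk'
        rcases hε with rfl | rfl
        · refine ⟨u * v * zu, 1 * δ, _, _, _, _, hεm (Or.inl rfl) hδ, h3, Or.inl ⟨?_, ?_, ?_, ?_⟩⟩ <;>
            rw [Units.val_mul, Units.val_mul, hzu]
          · linear_combination (-(u : R) * v * δ * h₂) * hb'
          · ring
          · linear_combination (-(u : R) * v * δ * h₄) * hb'
          · ring
        · refine ⟨-(u * v * zu), -1 * δ, _, _, _, _, hεm (Or.inr rfl) hδ, h3, Or.inl ⟨?_, ?_, ?_, ?_⟩⟩ <;>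
            rw [Units.val_neg, Units.val_mul, Units.val_mul, hzu]
          · linear_combination (-(u : R) * v * δ * h₂) * hb'
          · ring
          · linear_combination (-(u : R) * v * δ * h₄) * hb'
          · ring
  · rintro a b c d ⟨u, ε, h₁, h₂, h₃, h₄, hε, hq, h⟩
    rcases h with ⟨rfl, rfl, rfl, rfl⟩ | ⟨rfl, rfl, rfl, rfl⟩
    · have h3 := hεc hε (hQ.inv hq)
      rcases hε with rfl | rfl
      · refine ⟨u, 1, _, _, _, _, Or.inl rfl, h3, Or.inl ⟨?_, ?_, ?_, ?_⟩⟩ <;> ring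
      · refine ⟨-u, -1, _, _, _, _, Or.inr rfl, h3, Or.inl ⟨?_, ?_, ?_, ?_⟩⟩ <;>
          rw [Units.val_neg] <;> ring
    · obtain ⟨b', hb', hk'⟩ := hQ.wc (hεc hε (hQ.inv hq))
      rcases hε with rfl | rfl
      · refine ⟨-u, 1, _, _, _, _, Or.inl rfl, hk', Or.inr ⟨?_, ?_, ?_, ?_⟩⟩ <;> rw [Units.val_neg]
        · ring
        · ring
        · ring
        · linear_combination (u : R) * hb'
      · refine ⟨-u, -1, _, _, _, _, Or.inr rfl, hk', Or.inr ⟨?_, ?_, ?_, ?_⟩⟩ <;> rw [Units.val_neg]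
        · ring
        · ring
        · ring
        · linear_combination (u : R) * hb'
  · rintro v a b c d ⟨v, rfl⟩ ⟨u, ε, h₁, h₂, h₃, h₄, hε, hq, h⟩
    rcases h with ⟨rfl, rfl, rfl, rfl⟩ | ⟨rfl, rfl, rfl, rfl⟩
    · refine ⟨v * u, ε, _, _, _, _, hε, hq, Or.inl ⟨?_, ?_, ?_, ?_⟩⟩ <;> rw [Units.val_mul] <;> ring
    · refine ⟨v * u, ε, _, _, _, _, hε, hq, Or.inr ⟨?_, ?_, ?_, ?_⟩⟩ <;> rw [Units.val_mul] <;> ring
  · exact ⟨1, 1, _, _, _, _, Or.inl rfl, hQ.one, Or.inl ⟨by simp, by simp, by simp, by simp⟩⟩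
  · exact ⟨1, -1, _, _, _, _, Or.inr rfl, hQ.one, Or.inl ⟨by simp, by simp, by simp, by simp⟩⟩
  · exact ⟨1, 1, _, _, _, _, Or.inl rfl, hQ.one, Or.inr ⟨by simp, by simp, by simp, by simp⟩⟩
  · rintro a b c d ⟨u, ε, h₁, h₂, h₃, h₄, hε, hq, h⟩
    rcases h with ⟨rfl, rfl, rfl, rfl⟩ | ⟨rfl, rfl, rfl, rfl⟩
    · rcases c21 hq with h0 | h0
      · left; rw [h0, mul_zero]
      · right; exact ((Units.isUnit u).mul (hεI hε)).mul h0
    · rcases d22 hq with h0 | h0
      · left; rw [h0, mul_zero]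
      · right; exact ((Units.isUnit u).mul (hεI hε)).mul h0
  · intro b hb
    exact hA ((PP_A hQ h2).1 hb)
  · exact (PP_A hQ h2).2 hzA

/-- finite rings : the set `A` is stable under `z` -/
theorem fin_mul_mem [Finite R] [Nontrivial R] {z : R} {Q : R → R → R → R → Prop} (hQ : HG z Q) (h2 : IsUnit (2 : R))
    (hz : IsUnit z) (hzA : Q 1 z 0 1) (c21 : ∀ {a b c d}, Q a b c d → c = 0 ∨ IsUnit c)
    (d22 : ∀ {a b c d}, Q a b c d → d = 0 ∨ IsUnit d) (hA : ∀ {b}, Q 1 b 0 1 → b = 0 ∨ IsUnit b)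
    (h4 : 4 ≤ Nat.card {b // Q 1 b 0 1}) {b : R} (hb : Q 1 b 0 1) : Q 1 (z * b) 0 1 := by
  classical
  haveI := Fintype.ofFinite R
  have hD := DG_of hQ h2 hz hzA c21 d22 hA
  rw [← PP_A hQ h2] at hb ⊢
  apply mul_mem_A hD _ hb
  have : (sA (PP z Q)) = Finset.univ.filter fun b => Q 1 b 0 1 := by
    ext b; rw [mem_sA, PP_A hQ h2]; simp
  rw [this, ← Fintype.card_subtype, ← Nat.card_eq_fintype_card]
  exact h4

theorem four_le_card {k : Type*} [Field k] [Finite k] (h2 : (2 : k) ≠ 0) (h3 : Nat.card k ≠ 3) : 4 ≤ Nat.card k := by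
  haveI := Fintype.ofFinite k
  have h1 : 1 < Nat.card k := Finite.one_lt_card
  have h4 : Nat.card k ≠ 2 := by
    intro h
    apply h2
    have h5 := FiniteField.cast_card_eq_zero k
    rw [← Nat.card_eq_fintype_card, h] at h5
    exact_mod_cast h5
  omega

section alg
variable {k : Type*} [Field k] [Algebra k R]

/-- `B = {β | y(β) ∈ Q}` is stable under `z` -/
theorem B_mul_mem [FiniteDimensional k R] [Nontrivial R] (h2 : (2 : k) ≠ 0) (h3 : Nat.card k ≠ 3)
    {z : R} (hz : IsUnit z) (hgen : Algebra.adjoin k {z} = ⊤) {Q : R → R → R → R → Prop} (hQ : HG z Q)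
    (dc : ∀ {a b c d : R} {e : k}, e ≠ 0 → Q a b c d → Q a (e • b) (e⁻¹ • c) d)
    (hx : ∀ a : k, Q 1 (a • z) 0 1) (hy : ∀ a : k, Q 1 0 (algebraMap k R a) 1)
    (hfin : Finite k → (∀ {a b c d}, Q a b c d → c = 0 ∨ IsUnit c) ∧ (∀ {a b c d}, Q a b c d → d = 0 ∨ IsUnit d) ∧
      (∀ {b}, Q 1 b 0 1 → b = 0 ∨ IsUnit b)) {β : R} (hβ : Q 1 0 β 1) : Q 1 0 (z * β) 1 := by
  have hsmul : ∀ {e : k} {β : R}, Q 1 0 β 1 → Q 1 0 (e • β) 1 := by
    intro e β h
    by_cases he : e = 0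
    · subst he; rw [zero_smul]; exact hQ.one
    · have := dc (e := e⁻¹) (inv_ne_zero he) h
      rwa [smul_zero, inv_inv] at this
  have hadd : ∀ {β γ : R}, Q 1 0 β 1 → Q 1 0 γ 1 → Q 1 0 (β + γ) 1 := by
    intro β γ h h'
    exact hQ.congr' (hQ.mul h h') (by ring) (by ring) (by ring) (by ring)
  rcases finite_or_infinite k with hk | hk
  · haveI : Finite R := Module.finite_of_finite k
    obtain ⟨c21, d22, hA⟩ := hfin hk
    have h2R : IsUnit (2 : R) := by
      have := (IsUnit.mk0 (2 : k) h2).map (algebraMap k R)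
      rwa [map_ofNat] at this
    have hA' : Q 1 (z * β) 0 1 := by
      obtain ⟨b', hb', h⟩ := hQ.wc hβ
      have : b' = 0 := hz.mul_left_cancel (by rw [hb', mul_zero])
      rw [this] at h; exact h
    have h4 : 4 ≤ Nat.card {b // Q 1 b 0 1} := by
      refine (four_le_card h2 h3).trans ?_
      apply Nat.card_le_card_of_injective (fun a : k => (⟨a • z, hx a⟩ : {b // Q 1 b 0 1}))
      intro a b hab
      have h1 : a • z = b • z := congrArg Subtype.val hab
      rw [← sub_eq_zero, ← sub_smul] at h1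
      by_contra hne
      have h5 : IsUnit ((a - b) • z) := by
        rw [Algebra.smul_def]
        exact ((IsUnit.mk0 (a - b) (sub_ne_zero.2 hne)).map (algebraMap k R)).mul hz
      rw [h1] at h5
      exact not_isUnit_zero h5
    have h5 := fin_mul_mem hQ h2R hz (by have := hx 1; rwa [one_smul] at this) c21 d22 hA h4 hA'
    obtain ⟨b', hb', h⟩ := hQ.wc h5
    have : b' = z * β := hz.mul_left_cancel hb'
    rw [this, mul_zero] at h; exact h
  · obtain ⟨τ₁, τ₂, hτ₁, hτ₂, hne, hτ⟩ := crux hz hgen hQ.toSG hx hy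
    have key : ∀ τ, τ = τ₁ ∨ τ = τ₂ → Q 1 0 ((1 + τ • z) * (1 + τ • z) * β) 1 := by
      intro τ h
      obtain ⟨c, hc, a, b, hg⟩ := hτ τ h
      have h5 := hQ.mul (hQ.mul hg hβ) (hQ.inv hg)
      have hdet := hQ.det hg
      have h6 : Q 1 0 ((c • (1 + τ • z)) * (c • (1 + τ • z)) * β) 1 :=
        hQ.congr' h5 (by linear_combination hdet) (by ring) (by ring) (by linear_combination hdet)
      have h7 := hsmul (e := (c * c)⁻¹) h6
      have : (c * c)⁻¹ • ((c • (1 + τ • z)) * (c • (1 + τ • z)) * β) = (1 + τ • z) * (1 + τ • z) * β := by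
        rw [smul_mul_smul_comm, smul_mul_assoc, smul_smul, inv_mul_cancel₀ (mul_ne_zero hc hc), one_smul]
      rwa [this] at h7
    have k1 := key τ₁ (Or.inl rfl)
    have k2 := key τ₂ (Or.inr rfl)
    have h5 := hadd (hadd (hsmul (e := τ₂ * τ₂) k1) (hsmul (e := -(τ₁ * τ₁)) k2))
      (hsmul (e := τ₁ * τ₁ - τ₂ * τ₂) hβ)
    have hc : 2 * τ₁ * τ₂ * (τ₂ - τ₁) ≠ 0 := mul_ne_zero (mul_ne_zero (mul_ne_zero h2 hτ₁) hτ₂)
      (sub_ne_zero.2 hne.symm)
    have h6 := hsmul (e := (2 * τ₁ * τ₂ * (τ₂ - τ₁))⁻¹) h5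
    have e1 : (τ₂ * τ₂) • ((1 + τ₁ • z) * (1 + τ₁ • z) * β) + (-(τ₁ * τ₁)) • ((1 + τ₂ • z) * (1 + τ₂ • z) * β) +
        (τ₁ * τ₁ - τ₂ * τ₂) • β = (2 * τ₁ * τ₂ * (τ₂ - τ₁)) • (z * β) := by
      simp only [Algebra.smul_def, map_mul, map_sub, map_neg, map_ofNat]
      ring
    rw [e1, smul_smul, inv_mul_cancel₀ hc, one_smul] at h6
    exact h6

/-- fields : everything -/
theorem field_all {K : Type*} [Field K] [Algebra k K] [FiniteDimensional k K] (h2 : (2 : k) ≠ 0)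
    (h3 : Nat.card k ≠ 3) {z : K} (hz : z ≠ 0) (hgen : Algebra.adjoin k {z} = ⊤)
    {Q : K → K → K → K → Prop} (hQ : HG z Q)
    (dc : ∀ {a b c d : K} {e : k}, e ≠ 0 → Q a b c d → Q a (e • b) (e⁻¹ • c) d)
    (hx : ∀ a : k, Q 1 (a • z) 0 1) (hy : ∀ a : k, Q 1 0 (algebraMap k K a) 1) :
    ∀ a b c d : K, a * d - b * c = 1 → Q a b c d := by
  have h0 : ∀ x : K, x = 0 ∨ IsUnit x := fun x => by
    rcases eq_or_ne x 0 with h | h
    · exact Or.inl h
    · exact Or.inr (IsUnit.mk0 _ h)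
  have hB : ∀ β : K, Q 1 0 β 1 := by
    intro β
    have hβ : β ∈ Algebra.adjoin k {z} := by rw [hgen]; trivial
    have key : ∀ γ : K, Q 1 0 γ 1 → Q 1 0 (β * γ) 1 := by
      induction hβ using Algebra.adjoin_induction with
      | mem x hx' =>
        rw [Set.mem_singleton_iff] at hx'
        rw [hx']
        intro γ hγ
        exact B_mul_mem h2 h3 (IsUnit.mk0 _ hz) hgen hQ dc hx hy
          (fun _ => ⟨fun _ => h0 _, fun _ => h0 _, fun _ => h0 _⟩) hγ
      | algebraMap r =>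
        intro γ hγ
        rw [← Algebra.smul_def]
        by_cases he : r = 0
        · subst he; rw [zero_smul]; exact hQ.one
        · have := dc (e := r⁻¹) (inv_ne_zero he) hγ
          rwa [smul_zero, inv_inv] at this
      | add x y _ _ ihx ihy =>
        intro γ hγ
        exact hQ.congr' (hQ.mul (ihx γ hγ) (ihy γ hγ)) (by ring) (by ring) (by ring) (by ring)
      | mul x y _ _ ihx ihy =>
        intro γ hγ
        rw [mul_assoc]; exact ihx _ (ihy γ hγ)
    have := key 1 (by have := hy 1; rwa [map_one] at this)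
    rwa [mul_one] at this
  have hA : ∀ b : K, Q 1 b 0 1 := by
    intro b
    obtain ⟨b', hb', h⟩ := hQ.wc (hB (b / z))
    have : b' = 0 := by
      rcases mul_eq_zero.1 hb' with h | h
      · exact absurd h hz
      · exact h
    rw [this, mul_div_cancel₀ _ hz] at h; exact h
  have hc : ∀ a b c d : K, a * d - b * c = 1 → c ≠ 0 → Q a b c d := by
    intro a b c d hdet hc
    -- x((a-1)/c) y(c) x((d-1)/c)
    refine hQ.congr' (hQ.mul (hQ.mul (hA ((a - 1) / c)) (hB c)) (hA ((d - 1) / c))) ?_ ?_ ?_ ?_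
    · field_simp; ring
    · field_simp; linear_combination hdet
    · ring
    · field_simp; ring
  intro a b c d hdet
  by_cases h : c = 0
  · subst h
    -- multiply by y(1) on the left: [[a,b],[a, b+d]]
    have ha : a ≠ 0 := by
      rintro rfl
      simp at hdet
    have h1 := hc a b a (b + d) (by linear_combination hdet) ha
    exact hQ.congr' (hQ.mul (hB (-1)) h1) (by ring) (by ring) (by ring) (by ring)
  · exact hc a b c d hdet h

end alg

end CfsgLib.H14Crux
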