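import Mathlib

/-! Generation of SL2 over `k[z]` by root groups over an infinite field `k` : the orthogonal polynomial argument
(seat helper14). -/

set_option autoImplicit false

namespace CfsgLib.H14Inf

open Polynomial

section pl
variable {k : Type*} [Field k] {V : Type*} [AddCommGroup V] [Module k V]

/-- polynomial on lines -/
def PL (F : V → k) : Prop := ∀ v w : V, ∃ p : k[X], ∀ τ : k, F (v + τ • w) = p.eval τ

theorem finite_zeros {F : V → k} (hF : PL F) {v w : V} (h : ∃ τ : k, F (v + τ • w) ≠ 0) :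
    {τ : k | F (v + τ • w) = 0}.Finite := by
  classical
  obtain ⟨p, hp⟩ := hF v w
  have hp0 : p ≠ 0 := by
    rintro rfl
    obtain ⟨τ, hτ⟩ := h
    rw [hp] at hτ; simp at hτ
  refine (p.roots.toFinset.finite_toSet).subset ?_
  intro τ hτ
  rw [Set.mem_setOf_eq, hp] at hτ
  simp [hp0, hτ]

theorem common [Infinite k] {ι : Type*} (s : Finset ι) (F : ι → V → k) (hF : ∀ i ∈ s, PL (F i))
    (hne : ∀ i ∈ s, ∃ v, F i v ≠ 0) : ∃ v, ∀ i ∈ s, F i v ≠ 0 := by
  classical
  induction s using Finset.induction_on with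
  | empty => exact ⟨0, by simp⟩
  | insert i s hi ih =>
    obtain ⟨v, hv⟩ := ih (fun j hj => hF j (Finset.mem_insert_of_mem hj))
      (fun j hj => hne j (Finset.mem_insert_of_mem hj))
    obtain ⟨w, hw⟩ := hne i (Finset.mem_insert_self _ _)
    have hfin : (⋃ j ∈ insert i s, {τ : k | F j (v + τ • (w - v)) = 0}).Finite := by
      apply Set.Finite.biUnion (Finset.finite_toSet _)
      intro j hj
      apply finite_zeros (hF j hj)
      rw [Finset.mem_coe, Finset.mem_insert] at hj
      rcases hj with rfl | hj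
      · exact ⟨1, by simpa using hw⟩
      · exact ⟨0, by simpa using hv j hj⟩
    obtain ⟨τ, hτ⟩ := hfin.infinite_compl.nonempty
    refine ⟨v + τ • (w - v), fun j hj h0 => hτ ?_⟩
    simp only [Set.mem_iUnion]
    exact ⟨j, hj, h0⟩

end pl

variable {k : Type*} [Field k] {R : Type*} [CommRing R] [Algebra k R]

/-- Hankel matrix of the functional `ℓ` -/
def HM (z : R) (j : ℕ) (l : R →ₗ[k] k) : Matrix (Fin j) (Fin j) k := Matrix.of fun a b => l (z ^ (a + b : ℕ))

theorem HM_PL (z y : R) (j : ℕ) : PL (fun l : R →ₗ[k] k => (HM z j (l ∘ₗ LinearMap.mulLeft k y)).det) := by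
  intro v w
  refine ⟨(Matrix.of fun a b : Fin j => (C (v (y * z ^ (a + b : ℕ))) + X * C (w (y * z ^ (a + b : ℕ))) : k[X])).det,
    fun τ => ?_⟩
  rw [← coe_evalRingHom, RingHom.map_det]
  refine congrArg Matrix.det ?_
  ext a b
  simp [HM, mul_comm τ]

/-- `span(1, z, ..., z^{j-1})` -/
def W (k : Type*) [Field k] {R : Type*} [CommRing R] [Algebra k R] (z : R) (j : ℕ) : Submodule k R :=
  Submodule.span k {x | ∃ i < j, x = z ^ i}

theorem W_mono {z : R} {i j : ℕ} (h : i ≤ j) : W k z i ≤ W k z j := by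
  apply Submodule.span_mono
  rintro x ⟨a, ha, rfl⟩
  exact ⟨a, by omega, rfl⟩

theorem pow_mem_W {z : R} {i j : ℕ} (h : i < j) : z ^ i ∈ W k z j := Submodule.subset_span ⟨i, h, rfl⟩

theorem mul_mem_W {z x : R} {j : ℕ} (h : x ∈ W k z j) : z * x ∈ W k z (j + 1) := by
  unfold W at h
  induction h using Submodule.span_induction with
  | mem x hx =>
    obtain ⟨i, hi, rfl⟩ := hx
    rw [← pow_succ']; exact pow_mem_W (by omega)
  | zero => rw [mul_zero]; exact zero_mem _
  | add x y _ _ hx hy => rw [mul_add]; exact add_mem hx hy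
  | smul c x _ hx => rw [mul_smul_comm]; exact Submodule.smul_mem _ c hx

theorem mem_W {z x : R} {j : ℕ} (h : x ∈ W k z j) : ∃ v : Fin j → k, x = ∑ a, v a • z ^ (a : ℕ) := by
  unfold W at h
  induction h using Submodule.span_induction with
  | mem x hx =>
    obtain ⟨i, hi, rfl⟩ := hx
    refine ⟨Pi.single ⟨i, hi⟩ 1, ?_⟩
    rw [Finset.sum_eq_single ⟨i, hi⟩]
    · simp
    · intro b _ hb; rw [Pi.single_eq_of_ne hb, zero_smul]
    · simp
  | zero => exact ⟨0, by simp⟩
  | add x y _ _ hx hy =>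
    obtain ⟨v, rfl⟩ := hx
    obtain ⟨w, rfl⟩ := hy
    exact ⟨v + w, by rw [← Finset.sum_add_distrib]; simp [add_smul]⟩
  | smul c x _ hx =>
    obtain ⟨v, rfl⟩ := hx
    exact ⟨c • v, by rw [Finset.smul_sum]; simp [mul_smul]⟩

/-- nondegeneracy on `W j` -/
theorem nondeg {z y : R} {j : ℕ} {l : R →ₗ[k] k} (h : (HM z j (l ∘ₗ LinearMap.mulLeft k y)).det ≠ 0)
    {x : R} (hx : x ∈ W k z j) (h0 : ∀ i < j, l (y * x * z ^ i) = 0) : x = 0 := by
  obtain ⟨v, rfl⟩ := mem_W hx
  have : v = 0 := by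
    by_contra hv
    apply h
    rw [← Matrix.exists_mulVec_eq_zero_iff]
    refine ⟨v, hv, ?_⟩
    ext i
    have h1 := h0 i i.2
    rw [Matrix.mulVec, dotProduct]
    simp only [HM, Matrix.of_apply, Pi.zero_apply]
    rw [← h1, Finset.mul_sum, Finset.sum_mul, map_sum]
    apply Finset.sum_congr rfl
    intro a _
    rw [LinearMap.comp_apply, LinearMap.mulLeft_apply, mul_smul_comm, smul_mul_assoc, map_smul, smul_eq_mul,
      mul_comm, add_comm (i : ℕ), pow_add, mul_assoc]
  rw [this]; simp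

/-- functional with given values : the antitriangular matrix is invertible -/
theorem exists_good {z y : R} {n : ℕ} (hli : LinearIndependent k (fun i : Fin n => y * z ^ (i : ℕ)))
    {j : ℕ} (hj : j ≤ n) : ∃ l : R →ₗ[k] k, (HM z j (l ∘ₗ LinearMap.mulLeft k y)).det ≠ 0 := by
  rcases Nat.eq_zero_or_pos j with rfl | hj0
  · exact ⟨0, by simp⟩
  obtain ⟨l, hl⟩ : ∃ l : R →ₗ[k] k, ∀ i : Fin n, l (y * z ^ (i : ℕ)) = if (i : ℕ) = j - 1 then 1 else 0 := by
    let b := Module.Basis.span hli
    let f : Submodule.span k (Set.range fun i : Fin n => y * z ^ (i : ℕ)) →ₗ[k] k :=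
      b.constr k fun i => if (i : ℕ) = j - 1 then 1 else 0
    obtain ⟨g, hg⟩ := LinearMap.exists_extend f
    refine ⟨g, fun i => ?_⟩
    have h1 : (b i : R) = y * z ^ (i : ℕ) := by
      exact congrArg Subtype.val (Module.Basis.span_apply hli i)
    rw [← h1]
    have h2 : g (b i : R) = f (b i) := by rw [← hg]; rfl
    rw [h2]
    exact b.constr_basis k _ i
  refine ⟨l, ?_⟩
  rw [Ne, ← Matrix.exists_mulVec_eq_zero_iff]
  push Not
  rintro v hv hmul
  apply hv
  -- v (j-1-b) = 0 by strong induction on b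
  have key : ∀ b : ℕ, ∀ hb : b < j, v ⟨j - 1 - b, by omega⟩ = 0 := by
    intro b
    induction b using Nat.strong_induction_on with
    | _ b ih =>
      intro hb
      have h1 := congrFun hmul ⟨b, hb⟩
      rw [Matrix.mulVec, dotProduct, Pi.zero_apply, Finset.sum_eq_single ⟨j - 1 - b, by omega⟩] at h1
      · simp only [HM, Matrix.of_apply, LinearMap.comp_apply, LinearMap.mulLeft_apply] at h1
        have h2 := hl ⟨j - 1, by omega⟩
        simp only [if_true] at h2
        rw [show b + (j - 1 - b) = j - 1 by omega, h2, one_mul] at h1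
        exact h1
      · intro a _ ha
        rcases Nat.lt_or_ge (j - 1 - b) a with h3 | h3
        · have h4 := ih (j - 1 - a) (by omega) (by omega)
          have h5 : (⟨j - 1 - (j - 1 - (a : ℕ)), by omega⟩ : Fin j) = a := Fin.ext (by simp; omega)
          rw [h5] at h4
          rw [h4, mul_zero]
        · have h6 : (a : ℕ) ≠ j - 1 - b := fun e => ha (Fin.ext e)
          have h7 := hl ⟨b + a, by omega⟩
          simp only at h7
          rw [if_neg (by omega)] at h7
          simp only [HM, Matrix.of_apply, LinearMap.comp_apply, LinearMap.mulLeft_apply]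
          rw [h7, zero_mul]
      · simp
  ext i
  have h4 := key (j - 1 - i) (by omega)
  have h5 : (⟨j - 1 - (j - 1 - (i : ℕ)), by omega⟩ : Fin j) = i := Fin.ext (by simp; omega)
  rw [h5] at h4
  exact h4

/-- reachable vectors -/
inductive Rch (k : Type*) [Field k] {R : Type*} [CommRing R] [Algebra k R] (z : R) : R → R → Prop
  | base : Rch k z 1 0
  | xm (a : k) {p q : R} : Rch k z p q → Rch k z (p + a • (z * q)) q
  | ym (a : k) {p q : R} : Rch k z p q → Rch k z p (q + a • p)

theorem final {z : R} {n : ℕ} (hn : 0 < n)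
    (hli : LinearIndependent k (fun i : Fin n => z ^ (i : ℕ))) (htop : W k z n = ⊤) {l : R →ₗ[k] k}
    (h1 : ∀ j ≤ n, (HM z j (l ∘ₗ LinearMap.mulLeft k 1)).det ≠ 0)
    (h2 : ∀ j ≤ n, (HM z j (l ∘ₗ LinearMap.mulLeft k z)).det ≠ 0) :
    ∃ r, Rch k z 0 r ∧ ∀ i < n - 1, l (z * r * z ^ i) = 0 := by
  have hnot : ∀ j < n, ∀ x ∈ W k z j, ∀ c : k, c ≠ 0 → x + c • z ^ j ≠ 0 := by
    intro j hj x hx c hc h0
    obtain ⟨v, rfl⟩ := mem_W hx
    have h3 := Fintype.linearIndependent_iff.1 hli
      (fun i => if h : (i : ℕ) < j then v ⟨i, h⟩ else if (i : ℕ) = j then c else 0) (by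
        rw [← h0]
        have e : ∀ i : Fin n, (if h : (i : ℕ) < j then v ⟨i, h⟩ else if (i : ℕ) = j then c else 0) • z ^ (i : ℕ) =
            (if h : (i : ℕ) < j then v ⟨i, h⟩ • z ^ (i : ℕ) else 0) + (if (i : ℕ) = j then c • z ^ (i : ℕ) else 0) := by
          intro i
          split_ifs with h5 h6
          · omega
          · rw [add_zero]
          · rw [zero_add]
          · rw [zero_smul, add_zero]
        rw [Finset.sum_congr rfl fun i _ => e i, Finset.sum_add_distrib]
        congr 1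
        · rw [Finset.sum_dite]
          simp only [Finset.sum_const_zero, add_zero]
          refine Finset.sum_bij (fun i _ => ⟨(i : Fin n), (Finset.mem_filter.1 i.2).2⟩) ?_ ?_ ?_ ?_
          · intro a _; exact Finset.mem_univ _
          · rintro ⟨a, ha⟩ _ ⟨b, hb⟩ _ hab
            simp only [Fin.mk.injEq] at hab
            exact Subtype.ext (Fin.ext hab)
          · intro b _
            refine ⟨⟨⟨b, by omega⟩, by simp⟩, by simp, rfl⟩
          · intro a _; rfl
        · rw [Finset.sum_eq_single ⟨j, hj⟩]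
          · simp
          · intro b _ hb
            rw [if_neg (fun e => hb (Fin.ext e))]
          · simp) ⟨j, hj⟩
    simp at h3
    exact hc h3
  have key : ∀ j < n, ∃ p q, Rch k z p q ∧ (∃ c : k, c ≠ 0 ∧ ∃ x ∈ W k z j, p = x + c • z ^ j) ∧
      (∃ c : k, c ≠ 0 ∧ ∃ x ∈ W k z j, q = x + c • z ^ j) ∧ (∀ i < j, l (1 * p * z ^ i) = 0) ∧
      (∀ i < j, l (z * q * z ^ i) = 0) := by
    intro j
    induction j with
    | zero =>
      intro _
      refine ⟨1, 0 + (1 : k) • (1 : R), Rch.ym 1 Rch.base, ⟨1, one_ne_zero, 0, zero_mem _, by simp⟩,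
        ⟨1, one_ne_zero, 0, zero_mem _, by simp⟩, by simp, by simp⟩
    | succ j ih =>
      intro hj
      obtain ⟨p, q, hr, ⟨c₁, hc₁, x₁, hx₁, hp⟩, ⟨c₂, hc₂, x₂, hx₂, hq⟩, o1, o2⟩ := ih (by omega)
      have hpW : p ∈ W k z (j + 1) := by
        rw [hp]; exact add_mem (W_mono (by omega) hx₁) (Submodule.smul_mem _ _ (pow_mem_W (by omega)))
      have hqW : q ∈ W k z (j + 1) := by
        rw [hq]; exact add_mem (W_mono (by omega) hx₂) (Submodule.smul_mem _ _ (pow_mem_W (by omega)))
      have hp0 : p ≠ 0 := by rw [hp]; exact hnot j (by omega) x₁ hx₁ c₁ hc₁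
      have hq0 : q ≠ 0 := by rw [hq]; exact hnot j (by omega) x₂ hx₂ c₂ hc₂
      have n1 : l (1 * p * z ^ j) ≠ 0 := by
        intro h0
        apply hp0
        apply nondeg (h1 (j + 1) (by omega)) hpW
        intro i hi
        rcases Nat.lt_or_ge i j with h3 | h3
        · exact o1 i h3
        · have : i = j := by omega
          rw [this]; exact h0
      have n2 : l (z * q * z ^ j) ≠ 0 := by
        intro h0
        apply hq0
        apply nondeg (h2 (j + 1) (by omega)) hqW
        intro i hi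
        rcases Nat.lt_or_ge i j with h3 | h3
        · exact o2 i h3
        · have : i = j := by omega
          rw [this]; exact h0
      set e : k := -(l (1 * p * z ^ j)) / l (z * q * z ^ j) with he
      have he0 : e ≠ 0 := div_ne_zero (neg_ne_zero.2 n1) n2
      set p' := p + e • (z * q) with hp'
      have hp'x : p' = (x₁ + c₁ • z ^ j + e • (z * x₂)) + (e * c₂) • z ^ (j + 1) := by
        rw [hp', hp, hq, mul_add, smul_add, mul_smul_comm, smul_smul, pow_succ' z j]; abel
      have hx' : x₁ + c₁ • z ^ j + e • (z * x₂) ∈ W k z (j + 1) := by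
        refine add_mem ?_ (Submodule.smul_mem _ _ (mul_mem_W hx₂))
        rw [← hp]; exact hpW
      have o1' : ∀ i < j + 1, l (1 * p' * z ^ i) = 0 := by
        intro i hi
        have e1 : 1 * p' * z ^ i = 1 * p * z ^ i + e • (z * q * z ^ i) := by
          rw [hp', one_mul, one_mul, add_mul, smul_mul_assoc]
        rw [e1, map_add, map_smul, smul_eq_mul]
        rcases Nat.lt_or_ge i j with h3 | h3
        · rw [o1 i h3, o2 i h3, mul_zero, add_zero]
        · have : i = j := by omega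
          rw [this, he, div_mul_cancel₀ _ n2, add_neg_cancel]
      have hp'W : p' ∈ W k z (j + 2) := by
        rw [hp'x]
        exact add_mem (W_mono (by omega) hx') (Submodule.smul_mem _ _ (pow_mem_W (by omega)))
      have hp'0 : p' ≠ 0 := by
        rw [hp'x]; exact hnot (j + 1) (by omega) _ hx' _ (mul_ne_zero he0 hc₂)
      have n3 : l (1 * p' * z ^ (j + 1)) ≠ 0 := by
        intro h0
        apply hp'0
        apply nondeg (h1 (j + 2) (by omega)) hp'W
        intro i hi
        rcases Nat.lt_or_ge i (j + 1) with h3 | h3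
        · exact o1' i h3
        · have : i = j + 1 := by omega
          rw [this]; exact h0
      set f : k := -(l (z * q * z ^ j)) / l (1 * p' * z ^ (j + 1)) with hf
      have hf0 : f ≠ 0 := div_ne_zero (neg_ne_zero.2 n2) n3
      refine ⟨p', q + f • p', Rch.ym f (Rch.xm e hr), ⟨e * c₂, mul_ne_zero he0 hc₂, _, hx', hp'x⟩,
        ⟨f * (e * c₂), mul_ne_zero hf0 (mul_ne_zero he0 hc₂), q + f • (x₁ + c₁ • z ^ j + e • (z * x₂)),
          add_mem hqW (Submodule.smul_mem _ _ hx'), ?_⟩, o1', ?_⟩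
      · rw [hp'x, smul_add f _ ((e * c₂) • z ^ (j + 1)), smul_smul, ← add_assoc]
      · intro i hi
        have e1 : z * (q + f • p') * z ^ i = z * q * z ^ i + f • (1 * p' * z ^ (i + 1)) := by
          rw [pow_succ, mul_add, add_mul, mul_smul_comm, smul_mul_assoc]; congr 2; ring
        rw [e1, map_add, map_smul, smul_eq_mul]
        rcases Nat.lt_or_ge i j with h3 | h3
        · rw [o2 i h3, o1' (i + 1) (by omega), mul_zero, add_zero]
        · have : i = j := by omega
          rw [this, hf, div_mul_cancel₀ _ n3, add_neg_cancel]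
  obtain ⟨p, q, hr, ⟨c₁, hc₁, x₁, hx₁, hp⟩, ⟨c₂, hc₂, x₂, hx₂, hq⟩, o1, o2⟩ := key (n - 1) (by omega)
  have hqW : q ∈ W k z n := by rw [htop]; trivial
  have hq0 : q ≠ 0 := by rw [hq]; exact hnot _ (by omega) x₂ hx₂ c₂ hc₂
  have n2 : l (z * q * z ^ (n - 1)) ≠ 0 := by
    intro h0
    apply hq0
    apply nondeg (h2 n le_rfl) hqW
    intro i hi
    rcases Nat.lt_or_ge i (n - 1) with h3 | h3
    · exact o2 i h3
    · have : i = n - 1 := by omega
      rw [this]; exact h0
  set e : k := -(l (1 * p * z ^ (n - 1))) / l (z * q * z ^ (n - 1)) with he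
  have hp0 : p + e • (z * q) = 0 := by
    apply nondeg (h1 n le_rfl) (by rw [htop]; trivial)
    intro i hi
    have e1 : 1 * (p + e • (z * q)) * z ^ i = 1 * p * z ^ i + e • (z * q * z ^ i) := by
      rw [one_mul, one_mul, add_mul, smul_mul_assoc]
    rw [e1, map_add, map_smul, smul_eq_mul]
    rcases Nat.lt_or_ge i (n - 1) with h3 | h3
    · rw [o1 i h3, o2 i h3, mul_zero, add_zero]
    · have : i = n - 1 := by omega
      rw [this, he, div_mul_cancel₀ _ n2, add_neg_cancel]
  refine ⟨q, ?_, o2⟩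
  have := Rch.xm e hr
  rwa [hp0] at this

/-- the set of good functionals and its one-parameter families -/
theorem two_good [Infinite k] [Nontrivial R] [FiniteDimensional k R] {z : R} (hz : IsUnit z)
    (hgen : Algebra.adjoin k {z} = ⊤) :
    ∃ n, 0 < n ∧ LinearIndependent k (fun i : Fin n => z ^ (i : ℕ)) ∧ W k z n = ⊤ ∧
      ∃ l : R →ₗ[k] k, ∃ T : Set k, T.Finite ∧ 0 ∉ T ∧ ∀ τ ∉ T,
        (∀ j ≤ n, (HM z j (l ∘ₗ LinearMap.mulLeft k (1 * (1 + τ • z)))).det ≠ 0) ∧
        (∀ j ≤ n, (HM z j (l ∘ₗ LinearMap.mulLeft k (z * (1 + τ • z)))).det ≠ 0) := by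
  classical
  have hint : IsIntegral k z := IsIntegral.of_finite k z
  obtain ⟨n, hn⟩ : ∃ n, n = (minpoly k z).natDegree := ⟨_, rfl⟩
  have hn0 : 0 < n := by rw [hn]; exact minpoly.natDegree_pos hint
  have hli : LinearIndependent k (fun i : Fin n => z ^ (i : ℕ)) := by
    rw [hn]; exact linearIndependent_pow z
  have htop : W k z n = ⊤ := by
    rw [eq_top_iff]
    intro x _
    have hx : x ∈ Algebra.adjoin k {z} := by rw [hgen]; trivial
    rw [Algebra.adjoin_singleton_eq_range_aeval] at hx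
    obtain ⟨f, rfl⟩ := hx
    have h1 : aeval z f = aeval z (f %ₘ minpoly k z) := by
      rw [aeval_modByMonic_eq_self_of_root]
      exact minpoly.aeval k z
    change aeval z f ∈ _
    rw [h1, aeval_eq_sum_range]
    refine Submodule.sum_mem _ fun i hi => Submodule.smul_mem _ _ ?_
    by_cases h0 : f %ₘ minpoly k z = 0
    · rw [h0] at hi; simp at hi
      rw [hi]; exact pow_mem_W hn0
    · apply pow_mem_W
      rw [Finset.mem_range] at hi
      have := natDegree_modByMonic_lt f (minpoly.monic hint) (by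
        intro e; rw [e] at hn; simp at hn; omega)
      omega
  refine ⟨n, hn0, hli, htop, ?_⟩
  have hliz : LinearIndependent k (fun i : Fin n => z * z ^ (i : ℕ)) := by
    have hinj : LinearMap.ker (LinearMap.mulLeft k z) = ⊥ := by
      rw [LinearMap.ker_eq_bot]
      intro x y hxy
      exact hz.mul_left_cancel hxy
    exact hli.map' _ hinj
  have hli1 : LinearIndependent k (fun i : Fin n => 1 * z ^ (i : ℕ)) := by simpa using hli
  obtain ⟨l, hl⟩ := common (V := R →ₗ[k] k) (Finset.range (n + 1) ×ˢ ({1, z} : Finset R))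
    (fun i l => (HM z i.1 (l ∘ₗ LinearMap.mulLeft k i.2)).det) (fun i _ => HM_PL z i.2 i.1) (by
      rintro ⟨j, y⟩ hj
      simp only [Finset.mem_product, Finset.mem_range, Finset.mem_insert, Finset.mem_singleton] at hj
      obtain ⟨hj, rfl | rfl⟩ := hj
      · exact exists_good hli1 (by omega)
      · exact exists_good hliz (by omega))
  refine ⟨l, ⋃ i ∈ (Finset.range (n + 1) ×ˢ ({1, z} : Finset R)),
    {τ : k | (HM z i.1 ((l + τ • (l ∘ₗ LinearMap.mulLeft k z)) ∘ₗ LinearMap.mulLeft k i.2)).det = 0}, ?_, ?_, ?_⟩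
  · apply Set.Finite.biUnion (Finset.finite_toSet _)
    intro i hi
    exact finite_zeros (HM_PL z i.2 i.1) ⟨0, by simpa using hl i hi⟩
  · simp only [Set.mem_iUnion, not_exists]
    intro i hi h0
    rw [Set.mem_setOf_eq, zero_smul, add_zero] at h0
    exact hl i hi h0
  · intro τ hτ
    simp only [Set.mem_iUnion, not_exists] at hτ
    have e : ∀ y : R, (l + τ • (l ∘ₗ LinearMap.mulLeft k z)) ∘ₗ LinearMap.mulLeft k y =
        l ∘ₗ LinearMap.mulLeft k (y * (1 + τ • z)) := by
      intro y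
      apply LinearMap.ext
      intro x
      simp only [LinearMap.comp_apply, LinearMap.add_apply, LinearMap.smul_apply, LinearMap.mulLeft_apply]
      rw [← map_smul, ← map_add]
      congr 1
      rw [mul_add, mul_one, add_mul, mul_smul_comm, smul_mul_assoc]
      congr 2; ring
    constructor
    · intro j hj h0
      apply hτ (j, 1) (by simp; omega)
      rw [Set.mem_setOf_eq, e]; exact h0
    · intro j hj h0
      apply hτ (j, z) (by simp; omega)
      rw [Set.mem_setOf_eq, e]; exact h0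

theorem final' {z y : R} {n : ℕ} (hn : 0 < n)
    (hli : LinearIndependent k (fun i : Fin n => z ^ (i : ℕ))) (htop : W k z n = ⊤) {l : R →ₗ[k] k}
    (h1 : ∀ j ≤ n, (HM z j (l ∘ₗ LinearMap.mulLeft k (1 * y))).det ≠ 0)
    (h2 : ∀ j ≤ n, (HM z j (l ∘ₗ LinearMap.mulLeft k (z * y))).det ≠ 0) :
    ∃ r, Rch k z 0 r ∧ ∀ i < n - 1, l (y * (z * r) * z ^ i) = 0 := by
  have e : ∀ x : R, (l ∘ₗ LinearMap.mulLeft k y) ∘ₗ LinearMap.mulLeft k x =
      l ∘ₗ LinearMap.mulLeft k (x * y) := by
    intro x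
    apply LinearMap.ext
    intro w
    simp only [LinearMap.comp_apply, LinearMap.mulLeft_apply]
    congr 1; ring
  obtain ⟨r, h3, h4⟩ := final (l := l ∘ₗ LinearMap.mulLeft k y) hn hli htop
    (by intro j hj; rw [e]; exact h1 j hj) (by intro j hj; rw [e]; exact h2 j hj)
  refine ⟨r, h3, fun i hi => ?_⟩
  have := h4 i hi
  rw [LinearMap.comp_apply, LinearMap.mulLeft_apply, ← mul_assoc] at this
  exact this

/-- a subgroup of `SL₂(R)` given by the entries of its elements -/
structure SG {R : Type*} [CommRing R] (Q : R → R → R → R → Prop) : Prop where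
  det : ∀ {a b c d}, Q a b c d → a * d - b * c = 1
  mul : ∀ {a b c d a' b' c' d'}, Q a b c d → Q a' b' c' d' →
    Q (a * a' + b * c') (a * b' + b * d') (c * a' + d * c') (c * b' + d * d')
  inv : ∀ {a b c d}, Q a b c d → Q d (-b) (-c) a
  one : Q 1 0 0 1

theorem SG.congr' {Q : R → R → R → R → Prop} (_ : SG Q) {a b c d a' b' c' d' : R} (h : Q a b c d) (h1 : a = a') (h2 : b = b')
    (h3 : c = c') (h4 : d = d') : Q a' b' c' d' := by
  subst h1 h2 h3 h4; exact h

/-- matrices realizing reachable vectors -/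
theorem Rch.mat {z p q : R} (h : Rch k z p q) {Q : R → R → R → R → Prop} (hQ : SG Q)
    (hx : ∀ a : k, Q 1 (a • z) 0 1) (hy : ∀ a : k, Q 1 0 (algebraMap k R a) 1) :
    ∃ b d, Q p b q d := by
  induction h with
  | base => exact ⟨_, _, hQ.one⟩
  | xm a _ ih =>
    obtain ⟨b, d, hg⟩ := ih
    exact ⟨_, _, hQ.congr' (hQ.mul (hx a) hg) (by rw [one_mul, smul_mul_assoc]) rfl (by ring) rfl⟩
  | ym a _ ih =>
    obtain ⟨b, d, hg⟩ := ih
    exact ⟨_, _, hQ.congr' (hQ.mul (hy a) hg) (by ring) rfl (by rw [one_mul, Algebra.smul_def, add_comm]) rfl⟩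

/-- the main statement : elements `[[*,0],[*, c(1+τz)]]` for two different nonzero `τ` -/
theorem crux [Infinite k] [Nontrivial R] [FiniteDimensional k R] {z : R} (hz : IsUnit z)
    (hgen : Algebra.adjoin k {z} = ⊤) {Q : R → R → R → R → Prop} (hQ : SG Q)
    (hx : ∀ a : k, Q 1 (a • z) 0 1) (hy : ∀ a : k, Q 1 0 (algebraMap k R a) 1) :
    ∃ τ₁ τ₂ : k, τ₁ ≠ 0 ∧ τ₂ ≠ 0 ∧ τ₁ ≠ τ₂ ∧ ∀ τ, τ = τ₁ ∨ τ = τ₂ → ∃ c : k, c ≠ 0 ∧
      ∃ a b, Q a 0 b (c • (1 + τ • z)) := by
  obtain ⟨n, hn, hli, htop, l, T, hT, h0T, hτ⟩ := two_good hz hgen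
  obtain ⟨g0a, g0b⟩ := hτ 0 h0T
  obtain ⟨r₀, hr₀, ho₀⟩ := final' hn hli htop g0a g0b
  rw [zero_smul, add_zero] at ho₀
  obtain ⟨b₀, e₀, hA₀⟩ := hr₀.mat hQ hx hy
  have hfin : (T ∪ {0}).Finite := hT.union (Set.finite_singleton 0)
  obtain ⟨τ₁, hτ₁⟩ := hfin.infinite_compl.nonempty
  obtain ⟨τ₂, hτ₂⟩ := (hfin.union (Set.finite_singleton τ₁)).infinite_compl.nonempty
  simp only [Set.mem_compl_iff, Set.mem_union, Set.mem_singleton_iff, not_or] at hτ₁ hτ₂
  refine ⟨τ₁, τ₂, hτ₁.2, hτ₂.1.2, fun e => hτ₂.2 e.symm, ?_⟩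
  intro τ hτ'
  have hτT : τ ∉ T := by
    rcases hτ' with rfl | rfl
    · exact hτ₁.1
    · exact hτ₂.1.1
  obtain ⟨ga, gb⟩ := hτ τ hτT
  obtain ⟨r, hr, ho⟩ := final' hn hli htop ga gb
  obtain ⟨b, e, hA⟩ := hr.mat hQ hx hy
  -- functional
  have hndeg : ∀ x : R, (∀ i < n, l (x * z ^ i) = 0) → x = 0 := by
    intro x hx
    have h1 := g0a n le_rfl
    rw [zero_smul, add_zero, mul_one] at h1
    exact nondeg h1 (by rw [htop]; trivial) (by simpa using hx)
  have d0 := hQ.det hA₀
  have d1 := hQ.det hA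
  have hr0u : IsUnit r₀ := IsUnit.of_mul_eq_one (-b₀) (by linear_combination d0)
  -- proportionality
  have hX : l (z * r₀ * z ^ (n - 1)) ≠ 0 := by
    intro h0
    have : z * r₀ = 0 := by
      apply hndeg
      intro i hi
      rcases Nat.lt_or_ge i (n - 1) with h3 | h3
      · have := ho₀ i h3; rwa [one_mul] at this
      · have : i = n - 1 := by omega
        rw [this]; exact h0
    exact (hz.mul hr0u).ne_zero this
  set c : k := l ((1 + τ • z) * (z * r) * z ^ (n - 1)) / l (z * r₀ * z ^ (n - 1)) with hc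
  have hprop : (1 + τ • z) * (z * r) - c • (z * r₀) = 0 := by
    apply hndeg
    intro i hi
    rw [sub_mul, map_sub, smul_mul_assoc, map_smul, smul_eq_mul]
    rcases Nat.lt_or_ge i (n - 1) with h3 | h3
    · rw [ho i h3]
      have := ho₀ i h3
      rw [one_mul] at this
      rw [this, mul_zero, sub_zero]
    · have : i = n - 1 := by omega
      rw [this, hc, div_mul_cancel₀ _ hX, sub_self]
  have hprop' : (1 + τ • z) * r = c • r₀ := by
    apply hz.mul_left_cancel
    have := sub_eq_zero.1 hprop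
    rw [mul_smul_comm, ← this]; ring
  have hrb : r * -b = 1 := by linear_combination d1
  have hru : IsUnit r := IsUnit.of_mul_eq_one (-b) hrb
  have hc0 : c ≠ 0 := by
    intro h0
    rw [h0, zero_smul] at hprop'
    have h1 : (1 + τ • z) = 0 := hru.mul_right_cancel (by rw [hprop', zero_mul])
    apply ga n le_rfl
    rw [one_mul, h1]
    have h2 : l ∘ₗ LinearMap.mulLeft k (0 : R) = 0 := by ext; simp
    rw [h2]
    have h3 : HM z n (0 : R →ₗ[k] k) = 0 := by ext; simp [HM]
    rw [h3]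
    haveI : Nonempty (Fin n) := ⟨⟨0, hn⟩⟩
    exact Matrix.det_zero
  have hfinal := hQ.mul hA₀ (hQ.inv hA)
  refine ⟨c⁻¹, inv_ne_zero hc0, _, _, hQ.congr' hfinal rfl (by ring) rfl ?_⟩
  have e2 : r₀ = c⁻¹ • ((1 + τ • z) * r) := by rw [hprop', smul_smul, inv_mul_cancel₀ hc0, one_smul]
  rw [mul_zero, add_zero]
  nth_rewrite 1 [e2]
  rw [smul_mul_assoc, mul_assoc, hrb, mul_one]

end CfsgLib.H14Inf
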