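import Cfsg.Agent.LibH14RS

/-! Unipotent groups of linear maps and the Baer-Suzuki type theorem S5061 (seat helper14). -/

set_option autoImplicit false

namespace CfsgLib.H14Unip

open Cfsg CfsgLib.H14R1 Module
open scoped commutatorElement

variable {k : Type*} [Field k] {M : Type*} [AddCommGroup M] [Module k M]

local notation "GL" => LinearMap.GeneralLinearGroup k M

/-- `g m` -/
def ap (g : GL) (m : M) : M := (g : M →ₗ[k] M) m

theorem ap_mul (g h : GL) (m : M) : ap (g * h) m = ap g (ap h m) := rfl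
theorem ap_one (m : M) : ap (1 : GL) m = m := rfl
theorem ap_add (g : GL) (m n : M) : ap g (m + n) = ap g m + ap g n := map_add _ _ _
theorem ap_sub (g : GL) (m n : M) : ap g (m - n) = ap g m - ap g n := map_sub _ _ _
theorem ap_inv (g : GL) (m : M) : ap g⁻¹ (ap g m) = m := by rw [← ap_mul]; simp [ap_one]
theorem ap_inv' (g : GL) (m : M) : ap g (ap g⁻¹ m) = m := by rw [← ap_mul]; simp [ap_one]

theorem sub_one_ap (g : GL) (m : M) : ((g : M →ₗ[k] M) - 1) m = ap g m - m := rfl

/-- product of the `g - 1` along a list, applied to a vector -/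
def lp (l : List GL) (m : M) : M :=
  (l.map fun g : LinearMap.GeneralLinearGroup k M => (g : M →ₗ[k] M) - 1).prod m

theorem lp_nil (m : M) : lp ([] : List GL) m = m := rfl
theorem lp_cons (g : GL) (l : List GL) (m : M) : lp (g :: l) m = ap g (lp l m) - lp l m := by
  unfold lp; rw [List.map_cons, List.prod_cons]; rfl
theorem lp_append (l : List GL) (g : GL) (m : M) : lp (l ++ [g]) m = lp l (ap g m - m) := by
  unfold lp; rw [List.map_append, List.prod_append]; simp [ap]

theorem coe_list (l : List GL) : (do let a ← l; pure ((a : GL) : M →ₗ[k] M) : List (M →ₗ[k] M)) =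
    l.map fun g : LinearMap.GeneralLinearGroup k M => (g : M →ₗ[k] M) := by
  induction l with
  | nil => rfl
  | cons g l ih => rw [List.map_cons, ← ih]; rfl

theorem unip_iff_lp {H : Subgroup GL} : IsUnipotentOn H ↔
    ∃ n : ℕ, ∀ l : List GL, (∀ g ∈ l, g ∈ H) → l.length = n → ∀ m, lp l m = 0 := by
  unfold IsUnipotentOn lp
  refine exists_congr fun n => forall_congr' fun l => forall_congr' fun _ => forall_congr' fun _ => ?_
  rw [coe_list, List.map_map]
  exact ⟨fun h m => by have := congrArg (fun f : M →ₗ[k] M => f m) h; exact this,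
    fun h => LinearMap.ext h⟩

theorem unip_mono {H K : Subgroup GL} (h : H ≤ K) (hK : IsUnipotentOn K) : IsUnipotentOn H := by
  obtain ⟨n, hn⟩ := hK
  exact ⟨n, fun l hl => hn l fun g hg => h (hl g hg)⟩

theorem unip_conj {H : Subgroup GL} (x : GL) (h : IsUnipotentOn H) : IsUnipotentOn (conjBy H x) := by
  rw [unip_iff_lp] at h ⊢
  obtain ⟨n, hn⟩ := h
  refine ⟨n, fun l hl hlen m => ?_⟩
  have key : ∀ (l : List GL) (m : M), lp l m = ap x (lp (l.map fun g => x⁻¹ * g * x) (ap x⁻¹ m)) := by
    intro l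
    induction l with
    | nil => intro m; simp only [List.map_nil, lp_nil]; rw [ap_inv']
    | cons g l ih =>
      intro m
      rw [List.map_cons, lp_cons, lp_cons, ih, ap_sub, ap_mul, ap_mul, ap_inv']
  rw [key, hn _ _ (by rw [List.length_map]; exact hlen)]
  · unfold ap; exact map_zero _
  · intro g hg
    rw [List.mem_map] at hg
    obtain ⟨g', hg', rfl⟩ := hg
    exact mem_cj.1 (hl g' hg')

/-- invariant submodules -/
def Inv (H : Subgroup GL) (N : Submodule k M) : Prop := ∀ h ∈ H, ∀ m ∈ N, ap h m ∈ N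

theorem Inv.iff {H : Subgroup GL} {N : Submodule k M} (hN : Inv H N) {h : GL} (hh : h ∈ H) {m : M} :
    ap h m ∈ N ↔ m ∈ N :=
  ⟨fun hm => by have := hN h⁻¹ (inv_mem hh) _ hm; rwa [ap_inv] at this, hN h hh m⟩

/-- relative fixed vectors -/
theorem exists_rel_fixed {H : Subgroup GL} (h : IsUnipotentOn H) {N F : Submodule k M}
    (hF : Inv H F) (hne : ¬ F ≤ N) : ∃ m ∈ F, m ∉ N ∧ ∀ g ∈ H, ap g m - m ∈ N := by
  classical
  rw [unip_iff_lp] at h
  obtain ⟨n, hn⟩ := h
  obtain ⟨m₀, hm₀F, hm₀N⟩ := SetLike.not_le_iff_exists.1 hne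
  have hex : ∃ j : ℕ, ∀ l : List GL, (∀ g ∈ l, g ∈ H) → l.length = j → lp l m₀ ∈ N :=
    ⟨n, fun l hl hlen => by rw [hn l hl hlen]; exact zero_mem _⟩
  have hj := Nat.find_spec hex
  have hmin := fun i hi => Nat.find_min hex (m := i) hi
  set j := Nat.find hex
  rcases Nat.eq_zero_or_pos j with h0 | hpos
  · exfalso
    apply hm₀N
    have := hj [] (by simp) (by simp [h0])
    rwa [lp_nil] at this
  · have h1 := hmin (j - 1) (by omega)
    push Not at h1
    obtain ⟨l, hl, hlen, hlN⟩ := h1
    refine ⟨lp l m₀, ?_, hlN, ?_⟩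
    · clear hlen hlN
      induction l with
      | nil => rw [lp_nil]; exact hm₀F
      | cons g l ih =>
        rw [lp_cons]
        have := ih fun x hx => hl x (List.mem_cons_of_mem _ hx)
        exact sub_mem (hF g (hl g List.mem_cons_self) _ this) this
    · intro g hg
      rw [← lp_cons]
      apply hj
      · intro x hx
        rcases List.mem_cons.1 hx with rfl | hx
        · exact hg
        · exact hl x hx
      · rw [List.length_cons, hlen]; omega

/-- the canonical flag -/
def fl (H : Subgroup GL) : ℕ → Submodule k M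
  | 0 => ⊥
  | n + 1 =>
    { carrier := {m | ∀ g ∈ H, ap g m - m ∈ fl H n}
      zero_mem' := by intro g _; unfold ap; rw [map_zero, sub_zero]; exact zero_mem _
      add_mem' := by
        intro a b ha hb g hg
        have : ap g (a + b) - (a + b) = (ap g a - a) + (ap g b - b) := by rw [ap_add]; abel
        rw [this]; exact add_mem (ha g hg) (hb g hg)
      smul_mem' := by
        intro c a ha g hg
        have : ap g (c • a) - c • a = c • (ap g a - a) := by unfold ap; rw [map_smul, smul_sub]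
        rw [this]; exact Submodule.smul_mem _ c (ha g hg) }

theorem mem_fl_succ {H : Subgroup GL} {n : ℕ} {m : M} :
    m ∈ fl H (n + 1) ↔ ∀ g ∈ H, ap g m - m ∈ fl H n := Iff.rfl

theorem fl_mono_succ (H : Subgroup GL) : ∀ n, fl H n ≤ fl H (n + 1)
  | 0 => bot_le
  | n + 1 => fun _ hm g hg => fl_mono_succ H n (hm g hg)

theorem fl_mono (H : Subgroup GL) : Monotone (fl H) := monotone_nat_of_le_succ (fl_mono_succ H)

theorem fl_inv (H : Subgroup GL) (n : ℕ) : Inv H (fl H n) := by
  intro h hh m hm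
  cases n with
  | zero =>
    have : m = 0 := hm
    rw [this]; unfold ap; rw [map_zero]; exact zero_mem _
  | succ n =>
    have h1 : ap h m = (ap h m - m) + m := by abel
    rw [h1]
    exact add_mem (fl_mono_succ H n (hm h hh)) hm

theorem lp_mem_fl {H : Subgroup GL} : ∀ (l : List GL) (_ : ∀ g ∈ l, g ∈ H) (n : ℕ) (m : M),
    m ∈ fl H (l.length + n) → lp l m ∈ fl H n := by
  intro l
  induction l with
  | nil => intro _ n m hm; rw [lp_nil]; simpa using hm
  | cons g l ih =>
    intro hl n m hm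
    rw [lp_cons]
    have h1 := ih (fun x hx => hl x (List.mem_cons_of_mem _ hx)) (n + 1) m (by
      rw [List.length_cons] at hm
      convert hm using 2; omega)
    exact h1 g (hl g List.mem_cons_self)

theorem mem_fl_of_lp {H : Subgroup GL} : ∀ (n : ℕ) (m : M),
    (∀ l : List GL, (∀ g ∈ l, g ∈ H) → l.length = n → lp l m = 0) → m ∈ fl H n := by
  intro n
  induction n with
  | zero =>
    intro m h
    have := h [] (by simp) rfl
    rw [lp_nil] at this
    rw [this]; exact zero_mem _
  | succ n ih =>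
    intro m h g hg
    apply ih
    intro l hl hlen
    rw [← lp_append]
    apply h
    · intro x hx
      rcases List.mem_append.1 hx with hx | hx
      · exact hl x hx
      · rw [List.mem_singleton] at hx; rw [hx]; exact hg
    · simp [hlen]

theorem unip_iff_fl {H : Subgroup GL} : IsUnipotentOn H ↔ ∃ n, fl H n = ⊤ := by
  rw [unip_iff_lp]
  constructor
  · rintro ⟨n, hn⟩
    refine ⟨n, ?_⟩
    rw [eq_top_iff]
    intro m _
    exact mem_fl_of_lp n m fun l hl hlen => hn l hl hlen m
  · rintro ⟨n, hn⟩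
    refine ⟨n, fun l hl hlen m => ?_⟩
    have := lp_mem_fl l hl 0 m (by rw [add_zero, hlen, hn]; trivial)
    exact this

/-- unipotent groups are nilpotent -/
theorem unip_nilpotent {P : Subgroup GL} (h : IsUnipotentOn P) : Group.IsNilpotent P := by
  obtain ⟨n, hn⟩ := unip_iff_fl.1 h
  -- C i = elements shifting the flag by i
  let C : ℕ → Subgroup GL := fun i =>
    { carrier := {g | g ∈ P ∧ ∀ j, ∀ m ∈ fl P (j + i), ap g m - m ∈ fl P j}
      one_mem' := ⟨one_mem _, fun j m _ => by rw [ap_one, sub_self]; exact zero_mem _⟩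
      mul_mem' := by
        rintro a b ⟨ha, ha2⟩ ⟨hb, hb2⟩
        refine ⟨mul_mem ha hb, fun j m hm => ?_⟩
        have : ap (a * b) m - m = (ap a (ap b m) - ap b m) + (ap b m - m) := by rw [ap_mul]; abel
        rw [this]
        exact add_mem (ha2 j _ (fl_inv P _ b hb m hm)) (hb2 j m hm)
      inv_mem' := by
        rintro a ⟨ha, ha2⟩
        refine ⟨inv_mem ha, fun j m hm => ?_⟩
        have : ap a⁻¹ m - m = -(ap a (ap a⁻¹ m) - ap a⁻¹ m) := by rw [ap_inv']; abel
        rw [this]
        exact neg_mem (ha2 j _ (fl_inv P _ _ (inv_mem ha) m hm)) }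
  have hstep : ∀ i, ⁅C i, P⁆ ≤ C (i + 1) := by
    intro i
    rw [Subgroup.commutator_le]
    rintro g ⟨hg, hg2⟩ h hh
    have hmem : g * h * g⁻¹ * h⁻¹ ∈ P := mul_mem (mul_mem (mul_mem hg hh) (inv_mem hg)) (inv_mem hh)
    refine ⟨hmem, fun j m hm => ?_⟩
    obtain ⟨m', hm'⟩ : ∃ m', m' = ap g⁻¹ (ap h⁻¹ m) := ⟨_, rfl⟩
    have hm'2 : m' ∈ fl P (j + i + 1) := by
      rw [hm']; exact fl_inv P _ _ (inv_mem hg) _ (fl_inv P _ _ (inv_mem hh) _ hm)
    have e1 : m = ap h (ap g m') := by rw [hm', ap_inv', ap_inv']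
    have e2 : ap (⁅g, h⁆) m = ap g (ap h m') := by
      rw [commutatorElement_def, ap_mul, ap_mul, ap_mul, hm']
    show ap ⁅g, h⁆ m - m ∈ _
    have e4 : ap ⁅g, h⁆ m - m = ap g (ap h m') - ap h (ap g m') := by rw [e2, ← e1]
    rw [e4]
    have e3 : ap g (ap h m') - ap h (ap g m') =
        (ap g (ap h m' - m') - (ap h m' - m')) - (ap h (ap g m' - m') - (ap g m' - m')) := by
      rw [ap_sub, ap_sub]; abel
    rw [e3]
    refine sub_mem ?_ ?_
    · exact hg2 j _ (hm'2 h hh)
    · have h5 : ap g m' - m' ∈ fl P (j + 1) := hg2 (j + 1) m' (by convert hm'2 using 2; omega)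
      exact h5 h hh
  have hle : ∀ i, P.lowerCentralSeries i ≤ C (i + 1) := by
    intro i
    induction i with
    | zero =>
      intro g hg
      exact ⟨hg, fun j m hm => hm g hg⟩
    | succ i ih =>
      rw [Subgroup.lowerCentralSeries_succ]
      exact (Subgroup.commutator_mono ih le_rfl).trans (hstep (i + 1))
  apply Subgroup.isNilpotent_of_lowerCentralSeries_eq_bot (n := n)
  rw [eq_bot_iff]
  intro g hg
  have h1 := (hle n hg).2 0
  rw [Subgroup.mem_bot]
  apply Units.ext
  apply LinearMap.ext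
  intro m
  have : ap g m - m ∈ fl P 0 := h1 m (by
    have := fl_mono P (show n ≤ 0 + (n + 1) by omega)
    rw [hn] at this
    exact this trivial)
  have h2 : ap g m - m = 0 := this
  exact sub_eq_zero.1 h2

section fd
variable [FiniteDimensional k M]

theorem fl_dim {H : Subgroup GL} (h : IsUnipotentOn H) : fl H (finrank k M) = ⊤ := by
  have key : ∀ j, fl H j = ⊤ ∨ j ≤ finrank k (fl H j) := by
    intro j
    induction j with
    | zero => right; exact Nat.zero_le _
    | succ j ih =>
      rcases ih with h1 | h1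
      · left; rw [eq_top_iff, ← h1]; exact fl_mono_succ H j
      · by_cases ht : fl H j = ⊤
        · left; rw [eq_top_iff, ← ht]; exact fl_mono_succ H j
        · right
          obtain ⟨m, -, hm, hm2⟩ := exists_rel_fixed h (N := fl H j) (F := ⊤)
            (fun _ _ _ _ => trivial) (by rwa [top_le_iff])
          have hlt : fl H j < fl H (j + 1) := by
            refine lt_of_le_of_ne (fl_mono_succ H j) fun e => hm ?_
            rw [e]; exact hm2
          have := Submodule.finrank_lt_finrank_of_lt hlt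
          omega
  rcases key (finrank k M) with h1 | h1
  · exact h1
  · exact Submodule.eq_top_of_finrank_eq (le_antisymm (Submodule.finrank_le _) h1)

theorem unip_iff_dim {H : Subgroup GL} : IsUnipotentOn H ↔
    ∀ l : List GL, (∀ g ∈ l, g ∈ H) → l.length = finrank k M → ∀ m, lp l m = 0 := by
  constructor
  · intro h l hl hlen m
    have := lp_mem_fl l hl 0 m (by rw [add_zero, hlen, fl_dim h]; trivial)
    exact this
  · intro h
    rw [unip_iff_lp]; exact ⟨_, h⟩

/-- criterion -/
theorem unip_of_rel {H : Subgroup GL} (h : ∀ N : Submodule k M, Inv H N → N ≠ ⊤ →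
    ∃ m, m ∉ N ∧ ∀ g ∈ H, ap g m - m ∈ N) : IsUnipotentOn H := by
  rw [unip_iff_fl]
  have key : ∀ j, fl H j = ⊤ ∨ j ≤ finrank k (fl H j) := by
    intro j
    induction j with
    | zero => right; exact Nat.zero_le _
    | succ j ih =>
      by_cases ht : fl H j = ⊤
      · left; rw [eq_top_iff, ← ht]; exact fl_mono_succ H j
      · right
        obtain ⟨m, hm, hm2⟩ := h (fl H j) (fl_inv H j) ht
        have hlt : fl H j < fl H (j + 1) := by
          refine lt_of_le_of_ne (fl_mono_succ H j) fun e => hm ?_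
          rw [e]; exact hm2
        have := Submodule.finrank_lt_finrank_of_lt hlt
        rcases ih with h1 | h1
        · exact absurd h1 ht
        · omega
  refine ⟨finrank k M, ?_⟩
  rcases key (finrank k M) with h1 | h1
  · exact h1
  · exact Submodule.eq_top_of_finrank_eq (le_antisymm (Submodule.finrank_le _) h1)

/-- product of a unipotent group and a unipotent group normalizing it -/
theorem unip_sup {D U : Subgroup GL} (hD : IsUnipotentOn D) (hU : IsUnipotentOn U)
    (hn : ∀ u ∈ U, conjBy D u = D) : IsUnipotentOn (D ⊔ U) := by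
  apply unip_of_rel
  intro N hN hNt
  have hND : Inv D N := fun h hh => hN h (Subgroup.mem_sup_left hh)
  have hNU : Inv U N := fun h hh => hN h (Subgroup.mem_sup_right hh)
  let F : Submodule k M :=
    { carrier := {m | ∀ g ∈ D, ap g m - m ∈ N}
      zero_mem' := by intro g _; unfold ap; rw [map_zero, sub_zero]; exact zero_mem _
      add_mem' := by
        intro a b ha hb g hg
        have : ap g (a + b) - (a + b) = (ap g a - a) + (ap g b - b) := by rw [ap_add]; abel
        rw [this]; exact add_mem (ha g hg) (hb g hg)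
      smul_mem' := by
        intro c a ha g hg
        have : ap g (c • a) - c • a = c • (ap g a - a) := by unfold ap; rw [map_smul, smul_sub]
        rw [this]; exact Submodule.smul_mem _ c (ha g hg) }
  obtain ⟨m₁, -, hm₁, hm₁'⟩ := exists_rel_fixed hD (N := N) (F := ⊤)
            (fun _ _ _ _ => trivial) (by rwa [top_le_iff])
  have hFU : Inv U F := by
    intro u hu m hm d hd
    have hd' : u⁻¹ * d * u ∈ D := by rw [← mem_cj, hn u hu]; exact hd
    have : ap d (ap u m) - ap u m = ap u (ap (u⁻¹ * d * u) m - m) := by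
      rw [ap_sub, ap_mul, ap_mul, ap_inv']
    rw [this]
    exact hNU u hu _ (hm _ hd')
  obtain ⟨m, hmF, hmN, hm⟩ := exists_rel_fixed hU (N := N) (F := F) hFU
    (fun hle => hm₁ (hle hm₁'))
  refine ⟨m, hmN, ?_⟩
  intro g hg
  have hg' := hg
  rw [Subgroup.sup_eq_closure] at hg
  induction hg using Subgroup.closure_induction with
  | mem x hx =>
    rcases hx with hx | hx
    · exact hmF x hx
    · exact hm x hx
  | one => rw [ap_one, sub_self]; exact zero_mem _
  | mul x y hx hy ihx ihy =>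
    rw [← Subgroup.sup_eq_closure] at hx hy
    have : ap (x * y) m - m = ap x (ap y m - m) + (ap x m - m) := by rw [ap_mul, ap_sub]; abel
    rw [this]
    exact add_mem (hN x hx _ (ihy hy)) (ihx hx)
  | inv x hx ih =>
    rw [← Subgroup.sup_eq_closure] at hx
    have : ap x⁻¹ m - m = -(ap x⁻¹ (ap x m - m)) := by rw [ap_sub, ap_inv]; abel
    rw [this]
    exact neg_mem (hN _ (inv_mem hx) _ (ih hx))

/-- the augmentation algebra -/
def sp (D : Subgroup GL) : Submodule k (M →ₗ[k] M) :=
  Submodule.span k {f | ∃ g ∈ D, f = (g : M →ₗ[k] M) - 1}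

omit [FiniteDimensional k M] in
theorem sp_mono {D E : Subgroup GL} (h : D ≤ E) : sp D ≤ sp E := by
  apply Submodule.span_mono
  rintro f ⟨g, hg, rfl⟩
  exact ⟨g, h hg, rfl⟩

omit [FiniteDimensional k M] in
theorem sp_mul {D : Subgroup GL} {a b : M →ₗ[k] M} (ha : a ∈ sp D) (hb : b ∈ sp D) : a * b ∈ sp D := by
  unfold sp at ha
  induction ha using Submodule.span_induction with
  | mem x hx =>
    obtain ⟨g, hg, rfl⟩ := hx
    unfold sp at hb
    induction hb using Submodule.span_induction with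
    | mem y hy =>
      obtain ⟨h, hh, rfl⟩ := hy
      have : ((g : M →ₗ[k] M) - 1) * ((h : M →ₗ[k] M) - 1) =
          (((g * h : GL) : M →ₗ[k] M) - 1) - ((g : M →ₗ[k] M) - 1) - ((h : M →ₗ[k] M) - 1) := by
        rw [Units.val_mul]; noncomm_ring
      rw [this]
      refine sub_mem (sub_mem ?_ ?_) ?_
      · exact Submodule.subset_span ⟨_, mul_mem hg hh, rfl⟩
      · exact Submodule.subset_span ⟨_, hg, rfl⟩
      · exact Submodule.subset_span ⟨_, hh, rfl⟩
    | zero => rw [mul_zero]; exact zero_mem _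
    | add x y _ _ hx hy => rw [mul_add]; exact add_mem hx hy
    | smul c x _ hx => rw [mul_smul_comm]; exact Submodule.smul_mem _ c hx
  | zero => rw [zero_mul]; exact zero_mem _
  | add x y _ _ hx hy => rw [add_mul]; exact add_mem hx hy
  | smul c x _ hx => rw [smul_mul_assoc]; exact Submodule.smul_mem _ c hx

omit [FiniteDimensional k M] in
/-- products of `n` elements of `sp P` vanish -/
theorem sp_prod {P : Subgroup GL} : ∀ (n : ℕ) (_ : ∀ l : List GL, (∀ g ∈ l, g ∈ P) → l.length = n →
    ∀ m, lp l m = 0) (L : List (M →ₗ[k] M)), (∀ f ∈ L, f ∈ sp P) → L.length = n → L.prod = 0 := by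
  intro n hn L hL hlen
  -- generalize : suffix already a list of group elements
  have key : ∀ (L : List (M →ₗ[k] M)) (_ : ∀ f ∈ L, f ∈ sp P) (l : List GL) (_ : ∀ g ∈ l, g ∈ P),
      L.length + l.length = n → (∀ m, L.prod (lp l m) = 0) := by
    intro L
    induction L using List.reverseRecOn with
    | nil =>
      intro _ l hl hlen m
      rw [List.prod_nil]
      exact hn l hl (by simpa using hlen) m
    | append_singleton L f ih =>
      intro hL l hl hlen m
      have hf : f ∈ sp P := hL f (by simp)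
      have hL' : ∀ f ∈ L, f ∈ sp P := fun g hg => hL g (by simp [hg])
      have hlen' : L.length + 1 + l.length = n := by simpa using hlen
      rw [List.prod_append, List.prod_singleton, Module.End.mul_apply]
      unfold sp at hf
      clear hL hlen
      induction hf using Submodule.span_induction with
      | mem x hx =>
        obtain ⟨g, hg, rfl⟩ := hx
        have := ih hL' (g :: l) (by
          intro x hx
          rcases List.mem_cons.1 hx with rfl | hx
          · exact hg
          · exact hl x hx) (by simp only [List.length_cons]; omega) m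
        rw [lp_cons] at this
        exact this
      | zero => simp
      | add x y _ _ hx hy => rw [LinearMap.add_apply, map_add, hx, hy, add_zero]
      | smul c x _ hx => rw [LinearMap.smul_apply, map_smul, hx, smul_zero]
  exact LinearMap.ext fun m => key L hL [] (by simp) (by simpa using hlen) m

/-- a group generated by two groups whose elements are in `1 + sp P` -/
theorem unip_of_sp {P A : Subgroup GL} (hP : IsUnipotentOn P) (hA : ∀ a ∈ A, (a : M →ₗ[k] M) - 1 ∈ sp P) :
    IsUnipotentOn (P ⊔ A) := by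
  have h1 : ∀ g ∈ P ⊔ A, (g : M →ₗ[k] M) - 1 ∈ sp P := by
    intro g hg
    have hgen : ∀ g ∈ P ⊔ A, (g : M →ₗ[k] M) - 1 ∈ sp P ∧ ((g⁻¹ : GL) : M →ₗ[k] M) - 1 ∈ sp P := by
      intro g hg
      rw [Subgroup.sup_eq_closure] at hg
      have mulc : ∀ a b : GL, (a : M →ₗ[k] M) - 1 ∈ sp P → (b : M →ₗ[k] M) - 1 ∈ sp P →
          ((a * b : GL) : M →ₗ[k] M) - 1 ∈ sp P := by
        intro a b ha hb
        have : ((a * b : GL) : M →ₗ[k] M) - 1 = ((a : M →ₗ[k] M) - 1) * ((b : M →ₗ[k] M) - 1) +
            ((a : M →ₗ[k] M) - 1) + ((b : M →ₗ[k] M) - 1) := by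
          rw [Units.val_mul]; noncomm_ring
        rw [this]
        exact add_mem (add_mem (sp_mul ha hb) ha) hb
      induction hg using Subgroup.closure_induction with
      | mem x hx =>
        rcases hx with hx | hx
        · exact ⟨Submodule.subset_span ⟨x, hx, rfl⟩, Submodule.subset_span ⟨_, inv_mem hx, rfl⟩⟩
        · exact ⟨hA x hx, hA _ (inv_mem hx)⟩
      | one => simp [zero_mem]
      | mul x y _ _ ihx ihy =>
        refine ⟨mulc x y ihx.1 ihy.1, ?_⟩
        rw [mul_inv_rev]
        exact mulc _ _ ihy.2 ihx.2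
      | inv x _ ih => rw [inv_inv]; exact ⟨ih.2, ih.1⟩
    exact (hgen g hg).1
  obtain ⟨n, hn⟩ := unip_iff_lp.1 hP
  refine ⟨n, fun l hl hlen => ?_⟩
  rw [coe_list, List.map_map]
  apply sp_prod n hn
  · intro f hf
    rw [List.mem_map] at hf
    obtain ⟨g, hg, rfl⟩ := hf
    exact h1 g (hl g hg)
  · rw [List.length_map, hlen]

/-! ### Baer-Suzuki argument -/

omit [FiniteDimensional k M] in
theorem normalizer_grow {X : Type*} [Group X] {P N : Subgroup X} (hP : Group.IsNilpotent P) (hNP : N ≤ P)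
    (hne : N ≠ P) : ∃ x ∈ P, x ∉ N ∧ conjBy N x = N := by
  have hlt : N.subgroupOf P < ⊤ := by
    rw [lt_top_iff_ne_top]
    intro h
    apply hne
    apply le_antisymm hNP
    intro x hx
    have : (⟨x, hx⟩ : P) ∈ N.subgroupOf P := by rw [h]; trivial
    exact this
  have hlt2 := Group.normalizerCondition_of_isNilpotent (G := P) _ hlt
  obtain ⟨x, hx, hx2⟩ := SetLike.exists_of_lt hlt2
  refine ⟨x, x.2, hx2, ?_⟩
  rw [cj_self_iff, Subgroup.mem_normalizer_iff]
  intro n
  rw [Subgroup.mem_normalizer_iff] at hx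
  constructor
  · intro hn
    exact (hx ⟨n, hNP hn⟩).1 hn
  · intro hn
    have hnP : n ∈ P := by
      have : n = (x : X)⁻¹ * ((x : X) * n * (x : X)⁻¹) * x := by group
      rw [this]
      exact mul_mem (mul_mem (inv_mem x.2) (hNP hn)) x.2
    exact (hx ⟨n, hnP⟩).2 hn

theorem baer_suzuki {W : Set (Subgroup GL)}
    (hWW : ∀ A ∈ W, ∀ B ∈ W, IsUnipotentOn (A ⊔ B))
    (hWconj : ∀ A ∈ W, ∀ B ∈ W, ∀ g ∈ B, conjBy A g ∈ W) : IsUnipotentOn (⨆ A ∈ W, A) := by
  classical
  -- members inside a subgroup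
  let mem : Subgroup GL → Subgroup GL := fun P => ⨆ A ∈ {A | A ∈ W ∧ A ≤ P}, A
  have mem_le : ∀ P, mem P ≤ P := fun P => iSup₂_le fun A hA => hA.2
  have le_mem : ∀ P, ∀ A ∈ W, A ≤ P → A ≤ mem P := fun P A hA hAP =>
    le_iSup₂_of_le A ⟨hA, hAP⟩ le_rfl
  have hconjG : ∀ A ∈ W, ∀ g ∈ (⨆ A ∈ W, A : Subgroup GL), conjBy A g ∈ W ∧ conjBy A g⁻¹ ∈ W := by
    intro A hA g hg
    have e : (⨆ D ∈ W, D : Subgroup GL) = Subgroup.closure (⋃ D ∈ W, (D : Set GL)) := by
      rw [Subgroup.closure_iUnion]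
      congr 1; ext1 D
      rw [Subgroup.closure_iUnion]
      congr 1; ext1 h
      exact (Subgroup.closure_eq D).symm
    rw [e] at hg
    have key : ∀ A ∈ W, conjBy A g ∈ W ∧ conjBy A g⁻¹ ∈ W := by
      induction hg using Subgroup.closure_induction with
      | mem x hx =>
        simp only [Set.mem_iUnion, SetLike.mem_coe] at hx
        obtain ⟨D, hD, hx⟩ := hx
        exact fun A hA => ⟨hWconj A hA D hD x hx, hWconj A hA D hD _ (inv_mem hx)⟩
      | one => intro A hA; simpa using hA
      | mul x y _ _ ihx ihy =>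
        intro A hA
        refine ⟨?_, ?_⟩
        · rw [← cj_cj]; exact (ihx _ (ihy A hA).1).1
        · rw [mul_inv_rev, ← cj_cj]; exact (ihy _ (ihx A hA).2).2
      | inv x _ ih => intro A hA; rw [inv_inv]; exact ⟨(ih A hA).2, (ih A hA).1⟩
    exact key A hA
  -- W-subgroups which are unipotent
  let Z : Set (Subgroup GL) := {P | mem P = P ∧ IsUnipotentOn P}
  have hmax : ∀ P ∈ Z, ∃ Q, P ≤ Q ∧ Maximal (· ∈ Z) Q := by
    intro P hP
    apply zorn_le_nonempty₀ Z ?_ P hP
    intro c hc hchain y hy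
    refine ⟨sSup c, ⟨?_, ?_⟩, fun z hz => le_sSup hz⟩
    · apply le_antisymm (mem_le _)
      apply sSup_le
      intro Q hQ
      have := (hc hQ).1
      rw [← this]
      exact iSup₂_le fun A hA => le_mem _ A hA.1 (hA.2.trans (le_sSup hQ))
    · rw [unip_iff_dim]
      intro l hl hlen m
      have hdir : DirectedOn (· ≤ ·) c := hchain.directedOn
      have hl' : ∀ g ∈ l, ∃ Q ∈ c, g ∈ Q := by
        intro g hg
        exact (Subgroup.mem_sSup_of_directedOn ⟨y, hy⟩ hdir).1 (hl g hg)
      have : ∃ Q ∈ c, ∀ g ∈ l, g ∈ Q := by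
        clear hlen hl
        induction l with
        | nil => exact ⟨y, hy, by simp⟩
        | cons g l ih =>
          obtain ⟨Q, hQ, h1⟩ := ih fun x hx => hl' x (List.mem_cons_of_mem _ hx)
          obtain ⟨R, hR, h2⟩ := hl' g List.mem_cons_self
          obtain ⟨T, hT, h3, h4⟩ := hdir Q hQ R hR
          refine ⟨T, hT, ?_⟩
          intro x hx
          rcases List.mem_cons.1 hx with rfl | hx
          · exact h4 h2
          · exact h3 (h1 x hx)
      obtain ⟨Q, hQ, h1⟩ := this
      exact unip_iff_dim.1 (hc hQ).2 l h1 hlen m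
  have hWZ : ∀ A ∈ W, A ∈ Z := fun A hA =>
    ⟨le_antisymm (mem_le A) (le_mem A A hA le_rfl), by have := hWW A hA A hA; rwa [sup_idem] at this⟩
  -- a maximal P contains every member with sp inside
  have hsp : ∀ P, Maximal (· ∈ Z) P → ∀ A ∈ W, (∀ a ∈ A, (a : M →ₗ[k] M) - 1 ∈ sp P) → A ≤ P := by
    intro P hP A hA h
    have h1 : P ⊔ A ∈ Z := by
      refine ⟨le_antisymm (mem_le _) (sup_le ?_ (le_mem _ A hA le_sup_right)), unip_of_sp hP.1.2 h⟩
      conv_lhs => rw [← hP.1.1]
      exact iSup₂_le fun B hB => le_mem _ B hB.1 (hB.2.trans le_sup_left)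
    exact le_sup_right.trans (hP.2 h1 le_sup_left)
  -- members normalizing
  have hgrow : ∀ P D : Subgroup GL, P ∈ Z → D ≤ P → D ≠ P → mem D = D →
      ∃ A ∈ W, A ≤ P ∧ ¬ A ≤ D ∧ ∀ a ∈ A, conjBy D a = D := by
    intro P D hP hDP hne hD
    have hPG : P ≤ ⨆ A ∈ W, A := by
      rw [← hP.1]
      exact iSup₂_le fun A hA => le_iSup₂_of_le A hA.1 le_rfl
    by_cases hN : P ⊓ Subgroup.normalizer (D : Set GL) = P
    · have hex : ∃ A ∈ W, A ≤ P ∧ ¬ A ≤ D := by
        by_contra hc
        push Not at hc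
        apply hne
        apply le_antisymm hDP
        rw [← hP.1]
        exact iSup₂_le fun A hA => hc A hA.1 hA.2
      obtain ⟨A, hA, hAP, hAD⟩ := hex
      refine ⟨A, hA, hAP, hAD, fun a ha => ?_⟩
      rw [cj_self_iff]
      have : a ∈ P ⊓ Subgroup.normalizer (D : Set GL) := by rw [hN]; exact hAP ha
      exact this.2
    · obtain ⟨x, hxP, hxN, hx⟩ := normalizer_grow (unip_nilpotent hP.2) inf_le_left hN
      have hDN : D ≤ P ⊓ Subgroup.normalizer (D : Set GL) := le_inf hDP Subgroup.le_normalizer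
      have hxne : conjBy D x ≠ D := by
        intro h
        exact hxN ⟨hxP, cj_self_iff.1 h⟩
      have hx' : conjBy (P ⊓ Subgroup.normalizer (D : Set GL)) x⁻¹ =
          P ⊓ Subgroup.normalizer (D : Set GL) := (cj_inv_iff.1 hx).symm
      have hy : ∃ y ∈ P, conjBy (P ⊓ Subgroup.normalizer (D : Set GL)) y =
          P ⊓ Subgroup.normalizer (D : Set GL) ∧ ¬ conjBy D y ≤ D := by
        by_cases h1 : conjBy D x ≤ D
        · refine ⟨x⁻¹, inv_mem hxP, hx', fun h2 => hxne (le_antisymm h1 ?_)⟩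
          rw [← cj_le (g := x), cj_cj, mul_inv_cancel, cj_one] at h2
          exact h2
        · exact ⟨x, hxP, hx, h1⟩
      obtain ⟨y, hyP, hyN, hyD⟩ := hy
      have hex : ∃ A ∈ W, A ≤ D ∧ ¬ conjBy A y ≤ D := by
        by_contra hc
        push Not at hc
        apply hyD
        have : D ≤ conjBy D y⁻¹ := by
          conv_lhs => rw [← hD]
          refine iSup₂_le fun A hA => ?_
          have := hc A hA.1 hA.2
          rw [← cj_le (g := y⁻¹), cj_cj, inv_mul_cancel, cj_one] at this
          exact this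
        rw [← cj_le (g := y), cj_cj, mul_inv_cancel, cj_one] at this
        exact this
      obtain ⟨A, hA, hAD, hAy⟩ := hex
      have hle : conjBy A y ≤ P ⊓ Subgroup.normalizer (D : Set GL) := by
        rw [← hyN]; exact cj_le.2 (hAD.trans hDN)
      refine ⟨conjBy A y, (hconjG A hA y (hPG hyP)).1, hle.trans inf_le_left, hAy, fun a ha => ?_⟩
      rw [cj_self_iff]; exact (hle ha).2
  by_contra hcon
  -- two distinct maximal ones
  have htwo : ∃ P Q, Maximal (· ∈ Z) P ∧ Maximal (· ∈ Z) Q ∧ P ≠ Q := by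
    by_contra hc
    push Not at hc
    apply hcon
    by_cases hW : W.Nonempty
    · obtain ⟨A₀, hA₀⟩ := hW
      obtain ⟨P, -, hP⟩ := hmax A₀ (hWZ A₀ hA₀)
      refine unip_mono (iSup₂_le fun A hA => ?_) hP.1.2
      obtain ⟨Q, hAQ, hQ⟩ := hmax A (hWZ A hA)
      rw [hc P Q hP hQ]; exact hAQ
    · rw [Set.not_nonempty_iff_eq_empty] at hW
      rw [hW]
      refine ⟨1, fun l hl hlen => ?_⟩
      obtain ⟨g, rfl⟩ := List.length_eq_one_iff.1 hlen
      have := hl g (by simp)
      simp at this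
      rw [this]; simp
  -- choose a pair with maximal dimension
  let S : Set ℕ := {d | ∃ P Q, Maximal (· ∈ Z) P ∧ Maximal (· ∈ Z) Q ∧ P ≠ Q ∧
    d = finrank k (sp (mem (P ⊓ Q)))}
  have hSne : S.Nonempty := by
    obtain ⟨P, Q, h1, h2, h3⟩ := htwo
    exact ⟨_, P, Q, h1, h2, h3, rfl⟩
  have hSb : BddAbove S := by
    refine ⟨finrank k (M →ₗ[k] M), ?_⟩
    rintro d ⟨P, Q, -, -, -, rfl⟩
    exact Submodule.finrank_le _
  obtain ⟨P, Q, hP, hQ, hPQ, hd⟩ := Nat.sSup_mem hSne hSb
  set D := mem (P ⊓ Q) with hD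
  have hDD : mem D = D := by
    apply le_antisymm (mem_le D)
    refine iSup₂_le fun A hA => le_mem D A hA.1 (le_mem _ A hA.1 hA.2)
  have hDP : D ≤ P := (mem_le _).trans inf_le_left
  have hDQ : D ≤ Q := (mem_le _).trans inf_le_right
  have hDPne : D ≠ P := by
    intro e
    apply hPQ
    have : P ≤ Q := by rw [← e]; exact hDQ
    exact le_antisymm this (hP.2 hQ.1 this)
  have hDQne : D ≠ Q := by
    intro e
    apply hPQ
    have : Q ≤ P := by rw [← e]; exact hDP
    exact le_antisymm (hQ.2 hP.1 this) this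
  obtain ⟨A₁, hA₁, hA₁P, hA₁D, hA₁n⟩ := hgrow P D hP.1 hDP hDPne hDD
  obtain ⟨A₂, hA₂, hA₂Q, hA₂D, hA₂n⟩ := hgrow Q D hQ.1 hDQ hDQne hDD
  have hU : IsUnipotentOn (D ⊔ (A₁ ⊔ A₂)) := by
    refine unip_sup (unip_mono hDP hP.1.2) (hWW A₁ hA₁ A₂ hA₂) ?_
    intro u hu
    rw [cj_self_iff]
    exact (sup_le (fun a ha => cj_self_iff.1 (hA₁n a ha)) (fun a ha => cj_self_iff.1 (hA₂n a ha)) :
      A₁ ⊔ A₂ ≤ _) hu
  have hUZ : D ⊔ (A₁ ⊔ A₂) ∈ Z := by
    refine ⟨le_antisymm (mem_le _) (sup_le ?_ (sup_le ?_ ?_)), hU⟩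
    · conv_lhs => rw [← hDD]
      exact iSup₂_le fun B hB => le_mem _ B hB.1 (hB.2.trans le_sup_left)
    · exact le_mem _ A₁ hA₁ (le_sup_left.trans le_sup_right)
    · exact le_mem _ A₂ hA₂ (le_sup_right.trans le_sup_right)
  obtain ⟨R, hUR, hR⟩ := hmax _ hUZ
  -- final step, symmetric
  have fin : ∀ (P Q A : Subgroup GL), Maximal (· ∈ Z) P → Maximal (· ∈ Z) Q → A ∈ W → A ≤ P →
      ¬ A ≤ mem (P ⊓ Q) → finrank k (sp (mem (P ⊓ Q))) = sSup S → A ≤ R → mem (P ⊓ Q) ≤ R →
      mem (P ⊓ Q) ≤ P → P = R := by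
    intro P Q A hP hQ hA hAP hAD hd hAR hDR hDP
    by_contra hne
    have h1 : sp (mem (P ⊓ Q)) < sp (mem (P ⊓ R)) := by
      refine lt_of_le_of_ne (sp_mono ?_) ?_
      · refine iSup₂_le fun B hB => le_mem _ B hB.1 (le_inf (hB.2.trans inf_le_left) ?_)
        exact (le_mem _ B hB.1 hB.2).trans hDR
      · intro e
        apply hAD
        refine le_mem _ A hA (le_inf hAP ?_)
        apply hsp Q hQ A hA
        intro a ha
        apply sp_mono (mem_le _ |>.trans inf_le_right : mem (P ⊓ Q) ≤ Q)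
        rw [e]
        exact Submodule.subset_span ⟨a, le_mem _ A hA (le_inf hAP hAR) ha, rfl⟩
    have h2 := Submodule.finrank_lt_finrank_of_lt h1
    have h3 : finrank k (sp (mem (P ⊓ R))) ≤ sSup S := le_csSup hSb ⟨P, R, hP, hR, hne, rfl⟩
    omega
  have f1 := fin P Q A₁ hP hQ hA₁ hA₁P hA₁D hd.symm ((le_sup_left.trans le_sup_right).trans hUR)
    (le_sup_left.trans hUR) hDP
  have hQP : mem (Q ⊓ P) = D := by rw [hD, inf_comm]
  have f2 := fin Q P A₂ hQ hP hA₂ hA₂Q (by rw [hQP]; exact hA₂D) (by rw [hQP]; exact hd.symm)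
    ((le_sup_right.trans le_sup_right).trans hUR) (by rw [hQP]; exact le_sup_left.trans hUR)
    (by rw [hQP]; exact hDQ)
  exact hPQ (f1.trans f2.symm)

end fd

end CfsgLib.H14Unip
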