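import Cfsg.Agent.LibH14Pr
import Cfsg.Agent.LibH14Unip

/-! Quadratic pairs: the key theorem on pairs of minimal quadratic elements (seat helper14). -/

set_option autoImplicit false

namespace CfsgLib.H14KT

open Cfsg CfsgLib.H14R1 CfsgLib.H14QP CfsgLib.H14Pr CfsgLib.H14Crux CfsgLib.H14Inf Module Polynomial

variable {k : Type*} [Field k] {M : Type*} [AddCommGroup M] [Module k M]

/-- `k[X]`-module structure on `End M` by left multiplication with `f(z)` -/
@[reducible] noncomputable def pm (z : End k M) : Module k[X] (End k M) :=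
  Module.compHom (End k M) (aeval z : k[X] →ₐ[k] End k M).toRingHom

/-- evaluation at `z = st+ts` -/
noncomputable def ev (s t : End k M) (f : k[X]) : End k M := aeval (s * t + t * s) f

section basic
variable {s t : End k M}

theorem ev_mul (f g : k[X]) : ev s t (f * g) = ev s t f * ev s t g := map_mul _ _ _
theorem ev_add (f g : k[X]) : ev s t (f + g) = ev s t f + ev s t g := map_add _ _ _
theorem ev_sub (f g : k[X]) : ev s t (f - g) = ev s t f - ev s t g := map_sub _ _ _
theorem ev_neg (f : k[X]) : ev s t (-f) = -ev s t f := map_neg _ _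
theorem ev_zero : ev s t (0 : k[X]) = 0 := map_zero _
theorem ev_one : ev s t (1 : k[X]) = 1 := map_one _
theorem ev_X : ev s t (X : k[X]) = s * t + t * s := aeval_X _
theorem ev_C (c : k) (x : End k M) : ev s t (C c) * x = c • x := by
  unfold ev; rw [aeval_C, Algebra.smul_def]
theorem ev_two (x : End k M) : ev s t (2 : k[X]) * x = (2 : k) • x := by
  have : (2 : k[X]) = C (2 : k) := (map_ofNat C 2).symm
  rw [this, ev_C]

theorem ev_comm (f g : k[X]) : ev s t f * ev s t g = ev s t g * ev s t f := by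
  rw [← ev_mul, mul_comm, ev_mul]

theorem comm_ev {z x : End k M} (h : x * z = z * x) (f : k[X]) : x * aeval z f = aeval z f * x := by
  induction f using Polynomial.induction_on' with
  | add p q hp hq => rw [map_add, mul_add, add_mul, hp, hq]
  | monomial n a =>
    rw [aeval_monomial, Algebra.algebraMap_eq_smul_one, smul_mul_assoc, one_mul, mul_smul_comm, smul_mul_assoc]
    congr 1
    induction n with
    | zero => simp
    | succ n ih => rw [pow_succ, ← mul_assoc, ih, mul_assoc, h, mul_assoc]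

theorem s_ev (hs : s * s = 0) (f : k[X]) : s * ev s t f = ev s t f * s := by
  refine comm_ev ?_ f
  · rw [mul_add, add_mul, ← mul_assoc, hs, zero_mul, mul_assoc t s s, hs, mul_zero, mul_assoc]; abel

theorem t_ev (ht : t * t = 0) (f : k[X]) : t * ev s t f = ev s t f * t := by
  refine comm_ev ?_ f
  · rw [mul_add, add_mul, ← mul_assoc t t s, ht, zero_mul, mul_assoc s t t, ht, mul_zero, mul_assoc]; abel

theorem pr (hs : s * s = 0) (ht : t * t = 0) :
    letI := pm (s * t + t * s); Pr (P := k[X]) s t X := by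
  letI := pm (s * t + t * s)
  have sd : ∀ (f : k[X]) (x : End k M), f • x = ev s t f * x := fun _ _ => rfl
  refine ⟨?_, hs, ht, ?_, ?_, ?_⟩
  · intro f x y; rw [sd, sd, mul_assoc]
  · rw [sd, ev_X, mul_one]
  · intro f x; rw [sd, sd, ← mul_assoc, s_ev hs, mul_assoc]
  · intro f x; rw [sd, sd, ← mul_assoc, t_ev ht, mul_assoc]

noncomputable def EE (s t : End k M) (a b c d : k[X]) : End k M :=
  ev s t d * 1 + ev s t a * (s * t) + ev s t b * s + ev s t c * t
noncomputable def SS (s t : End k M) (p q : k[X]) : End k M :=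
  ev s t (p * p) * s + ev s t (p * q) * (t * s - s * t) - ev s t (q * q * X) * t
noncomputable def TT (s t : End k M) (b d : k[X]) : End k M :=
  ev s t (d * d) * t + ev s t (b * d) * (s * t - t * s) - ev s t (X * b * b) * s

theorem EE_x (hs : s * s = 0) (ht : t * t = 0) (e : k) (a b c d : k[X]) :
    (1 + e • s) * EE s t a b c d = EE s t (a + C e * c) (b + C e * d) c d := by
  letI := pm (s * t + t * s)
  rw [← ev_C (s := s) (t := t) e s]
  exact (pr hs ht).E_x (C e) a b c d

theorem EE_y (hs : s * s = 0) (ht : t * t = 0) (e : k) (a b c d : k[X]) :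
    (1 + e • t) * EE s t a b c d = EE s t (a - C e * b) b (c + C e * (d + X * a)) (d + C e * (X * b)) := by
  letI := pm (s * t + t * s)
  rw [← ev_C (s := s) (t := t) e t]
  exact (pr hs ht).E_y (C e) a b c d

theorem EE_s (hs : s * s = 0) (ht : t * t = 0) {a b c d : k[X]} (hdet : (d + X * a) * d - X * b * c = 1) :
    EE s t a b c d * s = SS s t (d + X * a) c * EE s t a b c d := by
  letI := pm (s * t + t * s)
  exact (pr hs ht).E_s hdet

theorem EE_t (hs : s * s = 0) (ht : t * t = 0) {a b c d : k[X]} (hdet : (d + X * a) * d - X * b * c = 1) :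
    EE s t a b c d * t = TT s t b d * EE s t a b c d := by
  letI := pm (s * t + t * s)
  exact (pr hs ht).E_t hdet

theorem sS_add (hs : s * s = 0) (ht : t * t = 0) (p q : k[X]) :
    s * SS s t p q + SS s t p q * s = -(ev s t (q * q * X * X) * 1) := by
  letI := pm (s * t + t * s)
  exact (pr hs ht).sS_add p q

theorem sS_sub (hs : s * s = 0) (ht : t * t = 0) (p q : k[X]) :
    s * SS s t p q - SS s t p q * s = ev s t (2 * (p * q * X)) * s - ev s t (q * q * X) * (s * t - t * s) := by
  letI := pm (s * t + t * s)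
  exact (pr hs ht).sS_sub p q

theorem sSs (hs : s * s = 0) (ht : t * t = 0) (p q : k[X]) :
    s * SS s t p q * s = -(ev s t (q * q * X * X) * s) := by
  letI := pm (s * t + t * s)
  exact (pr hs ht).sSs p q

theorem sT_add (hs : s * s = 0) (ht : t * t = 0) (b d : k[X]) :
    s * TT s t b d + TT s t b d * s = ev s t (d * d * X) * 1 := by
  letI := pm (s * t + t * s)
  exact (pr hs ht).sT_add b d

theorem sT_sub (hs : s * s = 0) (ht : t * t = 0) (b d : k[X]) :
    s * TT s t b d - TT s t b d * s = ev s t (d * d) * (s * t - t * s) - ev s t (2 * (b * d * X)) * s := by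
  letI := pm (s * t + t * s)
  exact (pr hs ht).sT_sub b d

theorem sTs (hs : s * s = 0) (ht : t * t = 0) (b d : k[X]) :
    s * TT s t b d * s = ev s t (d * d * X) * s := by
  letI := pm (s * t + t * s)
  exact (pr hs ht).sTs b d

theorem SS_tri (hs : s * s = 0) (ht : t * t = 0) {p q p' : k[X]} (hp : p = 1 + X * p')
    (hq : ev s t (q * X) = 0) : SS s t p q = ev s t (p * p) * s + ev s t (2 * q) * (t * s) := by
  letI := pm (s * t + t * s)
  refine (pr hs ht).S_tri hp fun x => ?_
  have : (q * X) • x = ev s t (q * X) * x := rfl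
  rw [this, hq, zero_mul]

theorem SS_one : SS s t 1 0 = s := by
  unfold SS; simp [ev_one, ev_zero]

end basic

/-! ### the group -/

/-- the group generated by `1 + ks`, `1 + kt`, together with its matrices -/
inductive GG (s t : End k M) : LinearMap.GeneralLinearGroup k M → k[X] → k[X] → k[X] → k[X] → Prop
  | one : GG s t 1 1 0 0 1
  | x (e : k) {g : LinearMap.GeneralLinearGroup k M} {a b c d : k[X]} : GG s t g a b c d →
      GG s t (tv (e • s) * g) (a + e • X * c) (b + e • X * d) c d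
  | y (e : k) {g : LinearMap.GeneralLinearGroup k M} {a b c d : k[X]} : GG s t g a b c d →
      GG s t (tv (e • t) * g) a b (c + algebraMap k k[X] e * a) (d + algebraMap k k[X] e * b)

section gg
variable {s t : End k M}

theorem GG.congr {g g' : LinearMap.GeneralLinearGroup k M} {a b c d a' b' c' d' : k[X]} (h : GG s t g a b c d)
    (h0 : g = g') (h1 : a = a') (h2 : b = b') (h3 : c = c') (h4 : d = d') : GG s t g' a' b' c' d' := by
  subst h0 h1 h2 h3 h4; exact h

theorem GG.gn {g : LinearMap.GeneralLinearGroup k M} {a b c d : k[X]} (h : GG s t g a b c d) :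
    Gn k (X : k[X]) a b c d := by
  induction h with
  | one => exact Gn.one
  | x e _ ih => exact Gn.x e ih
  | y e _ ih => exact Gn.y e ih

theorem exists_GG {a b c d : k[X]} (h : Gn k (X : k[X]) a b c d) : ∃ g, GG s t g a b c d := by
  induction h with
  | one => exact ⟨1, GG.one⟩
  | x e _ ih => obtain ⟨g, hg⟩ := ih; exact ⟨_, GG.x e hg⟩
  | y e _ ih => obtain ⟨g, hg⟩ := ih; exact ⟨_, GG.y e hg⟩

theorem GG.det {g : LinearMap.GeneralLinearGroup k M} {a b c d : k[X]} (h : GG s t g a b c d) :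
    a * d - b * c = 1 := h.gn.det

theorem GG.mul {g g' : LinearMap.GeneralLinearGroup k M} {a b c d a' b' c' d' : k[X]}
    (h : GG s t g a b c d) (h' : GG s t g' a' b' c' d') :
    GG s t (g * g') (a * a' + b * c') (a * b' + b * d') (c * a' + d * c') (c * b' + d * d') := by
  induction h with
  | one => exact h'.congr (one_mul _).symm (by ring) (by ring) (by ring) (by ring)
  | x e _ ih => exact (GG.x e ih).congr (mul_assoc _ _ _).symm (by ring) (by ring) rfl rfl
  | y e _ ih => exact (GG.y e ih).congr (mul_assoc _ _ _).symm rfl rfl (by ring) (by ring)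

theorem GG.gx (e : k) : GG s t (tv (e • s)) 1 (e • X) 0 1 :=
  (GG.x e GG.one).congr (mul_one _) (by ring) (by ring) rfl rfl
theorem GG.gy (e : k) : GG s t (tv (e • t)) 1 0 (algebraMap k k[X] e) 1 :=
  (GG.y e GG.one).congr (mul_one _) rfl rfl (by ring) (by ring)

theorem GG.inv (hs : s * s = 0) (ht : t * t = 0) {g : LinearMap.GeneralLinearGroup k M} {a b c d : k[X]}
    (h : GG s t g a b c d) : GG s t g⁻¹ d (-b) (-c) a := by
  induction h with
  | one => exact GG.one.congr inv_one.symm rfl (by ring) (by ring) rfl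
  | x e _ ih =>
    refine (ih.mul (GG.gx (-e))).congr ?_ (by ring) (by rw [neg_smul]; ring) (by ring) (by rw [neg_smul]; ring)
    rw [mul_inv_rev, tv_inv (sqs hs e), neg_smul]
  | y e _ ih =>
    refine (ih.mul (GG.gy (-e))).congr ?_ (by rw [map_neg]; ring) (by ring) (by rw [map_neg]; ring) (by ring)
    rw [mul_inv_rev, tv_inv (sqs ht e), neg_smul]

theorem GG.one_mod {g : LinearMap.GeneralLinearGroup k M} {a b c d : k[X]} (h : GG s t g a b c d) :
    (∃ p', a = 1 + X * p') ∧ (∃ p', b = X * p') ∧ (∃ p', d = 1 + X * p') := by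
  induction h with
  | one => exact ⟨⟨0, by ring⟩, ⟨0, by ring⟩, ⟨0, by ring⟩⟩
  | @x e g a b c d _ ih =>
    obtain ⟨⟨p, rfl⟩, ⟨q, rfl⟩, ⟨r, rfl⟩⟩ := ih
    refine ⟨⟨p + e • c, ?_⟩, ⟨q + e • (1 + X * r), ?_⟩, ⟨r, rfl⟩⟩
    · simp only [smul_eq_C_mul]; ring
    · simp only [smul_eq_C_mul]; ring
  | @y e g a b c d _ ih =>
    obtain ⟨⟨p, rfl⟩, ⟨q, rfl⟩, ⟨r, rfl⟩⟩ := ih
    exact ⟨⟨p, rfl⟩, ⟨q, rfl⟩, ⟨r + algebraMap k k[X] e * q, by ring⟩⟩

variable {G : Subgroup (LinearMap.GeneralLinearGroup k M)}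

theorem GG.mem (hs : s ∈ Q0 G) (ht : t ∈ Q0 G) {g : LinearMap.GeneralLinearGroup k M} {a b c d : k[X]}
    (h : GG s t g a b c d) : g ∈ G := by
  induction h with
  | one => exact one_mem _
  | x e _ ih => exact mul_mem (hs.2 e) ih
  | y e _ ih => exact mul_mem (ht.2 e) ih

theorem GG.val (hs : s * s = 0) (ht : t * t = 0) {g : LinearMap.GeneralLinearGroup k M} {a b c d : k[X]}
    (h : GG s t g a b c d) : ∃ a' b', a = d + X * a' ∧ b = X * b' ∧ (g : End k M) = EE s t a' b' c d := by
  induction h with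
  | one => exact ⟨0, 0, by ring, by ring, by simp [EE, ev_one, ev_zero]⟩
  | @x e g a b c d _ ih =>
    obtain ⟨a', b', rfl, rfl, hg⟩ := ih
    refine ⟨a' + C e * c, b' + C e * d, ?_, ?_, ?_⟩
    · rw [smul_eq_C_mul]; ring
    · rw [smul_eq_C_mul]; ring
    · rw [Units.val_mul, hg, tv_val (sqs hs e), EE_x hs ht]
  | @y e g a b c d _ ih =>
    obtain ⟨a', b', rfl, rfl, hg⟩ := ih
    refine ⟨a' - C e * b', b', ?_, rfl, ?_⟩
    · rw [algebraMap_eq]; ring
    · rw [Units.val_mul, hg, tv_val (sqs ht e), EE_y hs ht, algebraMap_eq]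

theorem GG.conj_s (hs : s * s = 0) (ht : t * t = 0) {g : LinearMap.GeneralLinearGroup k M} {a b c d : k[X]}
    (h : GG s t g a b c d) : cjE g s = SS s t a c := by
  obtain ⟨a', b', ha, hb, hg⟩ := h.val hs ht
  have hdet := h.det
  have h1 := EE_s hs ht (a := a') (b := b') (c := c) (d := d) (by rw [← ha, ← hb]; exact hdet)
  rw [← ha, ← hg] at h1
  unfold cjE
  rw [h1, mul_assoc, ← Units.val_mul, mul_inv_cancel, Units.val_one, mul_one]

theorem GG.conj_t (hs : s * s = 0) (ht : t * t = 0) {g : LinearMap.GeneralLinearGroup k M} {a b c d b' : k[X]}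
    (h : GG s t g a b c d) (hb' : b = X * b') : cjE g t = TT s t b' d := by
  obtain ⟨a', b'', ha, hb, hg⟩ := h.val hs ht
  have : b'' = b' := mul_left_cancel₀ X_ne_zero (by rw [← hb, hb'])
  subst this
  have hdet := h.det
  have h1 := EE_t hs ht (a := a') (b := b'') (c := c) (d := d) (by rw [← ha, ← hb]; exact hdet)
  rw [← hg] at h1
  unfold cjE
  rw [h1, mul_assoc, ← Units.val_mul, mul_inv_cancel, Units.val_one, mul_one]

end gg

/-! ### condition (A) -/

/-- `ker z² = ker z` -/
def CA (s t : End k M) : Prop := ∀ x : M, (s * t + t * s) ((s * t + t * s) x) = 0 → (s * t + t * s) x = 0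

section ca
variable {s t : End k M}

theorem CA.ev (hA : CA s t) {f : k[X]} (h : ev s t (X * (X * f)) = 0) : ev s t (X * f) = 0 := by
  ext x
  have h1 := LinearMap.congr_fun h x
  rw [ev_mul, ev_mul, ev_X] at h1
  rw [ev_mul, ev_X]
  exact hA _ h1

theorem ev_z (f : k[X]) : CfsgLib.H14KT.ev s t f * (s * t + t * s) = CfsgLib.H14KT.ev s t (X * f) := by
  rw [← ev_X (s := s) (t := t), ev_comm, ← ev_mul]

theorem annih (ht : t * t = 0) (hA : CA s t) {f : k[X]} (h : CfsgLib.H14KT.ev s t (X * f) * s = 0) :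
    CfsgLib.H14KT.ev s t (X * f) = 0 := by
  apply hA.ev
  rw [← ev_z, mul_add, ← mul_assoc, h, zero_mul, zero_add, ← mul_assoc, ← t_ev ht, mul_assoc, h, mul_zero]

end ca

section main
variable [FiniteDimensional k M] {G : Subgroup (LinearMap.GeneralLinearGroup k M)} {s t : End k M}

theorem two_smul_mem {v : End k M} (h2 : (2 : k) ≠ 0) {f : k[X]} (h : ev s t (2 * f) * v ∈ Q0 G) :
    ev s t f * v ∈ Q0 G := by
  rw [ev_mul, mul_assoc, ev_two] at h
  exact of_smul_mem_Q0 h2 h

/-- a nilpotent multiple of `s` in `Q0` is zero -/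
theorem nil_mul (hs : s ∈ Qd G) {w : End k M} (hw : s * w = w * s) (h : w * s ∈ Q0 G)
    (hn : w * w * s = 0) : w * s = 0 := by
  by_contra h0
  have hr := range_eq_of_le hs h h0 (by rw [← hw]; rintro _ ⟨x, rfl⟩; exact ⟨w x, rfl⟩)
  apply hs.2.1
  ext x
  obtain ⟨y, hy⟩ : s x ∈ LinearMap.range (w * s) := by rw [hr]; exact ⟨x, rfl⟩
  obtain ⟨y', hy'⟩ : s y ∈ LinearMap.range (w * s) := by rw [hr]; exact ⟨y, rfl⟩
  have h1 : w (s y) = s x := hy
  have h2 : w (s y') = s y := hy'
  rw [← h1, ← h2]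
  exact LinearMap.congr_fun hn y'

theorem nil_c (h2 : (2 : k) ≠ 0) (hs : s ∈ Qd G) (ht : t ∈ Qd G) (hA : CA s t)
    {g : LinearMap.GeneralLinearGroup k M} {a b c d : k[X]} (h : GG s t g a b c d)
    (hn : IsNilpotent (s * SS s t a c + SS s t a c * s)) : ev s t (X * c) = 0 := by
  have hs2 := hs.1.1
  have ht2 := ht.1.1
  have hS : SS s t a c ∈ Qd G := by
    rw [← h.conj_s hs2 ht2]; exact cj_mem_Qd hs (h.mem hs.1 ht.1)
  obtain ⟨m, hm⟩ := hn
  obtain ⟨n1, n2⟩ := nilp_pair h2 m hs hS hm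
  have e1 : ev s t (X * (X * (c * c))) * s = 0 := by
    rw [sSs hs2 ht2, neg_eq_zero] at n1
    rw [← n1]; congr 2; ring
  have e2 := hA.ev (annih ht2 hA e1)
  have e3 := comm_mem_Q0 hs.1 hS.1 n1 n2
  rw [sS_sub hs2 ht2] at e3
  have e4 : ev s t (c * c * X) = 0 := by rw [← e2]; congr 1; ring
  rw [e4, zero_mul, sub_zero] at e3
  have e5 := two_smul_mem h2 e3
  have e6 : ev s t (a * c * X) * s = 0 := by
    apply nil_mul hs (s_ev hs2 _) e5
    rw [← ev_mul]
    have : a * c * X * (a * c * X) = (a * a * X) * (X * (c * c)) := by ring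
    rw [this, ev_mul, e2, mul_zero, zero_mul]
  have e7 : ev s t (X * (a * c)) = 0 := by
    apply annih ht2 hA
    rw [← e6]; congr 2; ring
  have hdet := h.det
  have : X * c = d * (X * (a * c)) - b * (X * (c * c)) := by linear_combination (-(X * c)) * hdet
  rw [this, ev_sub, ev_mul d, ev_mul b, e7, e2, mul_zero, mul_zero, sub_zero]

/-- the main rank argument -/
theorem contra (hs : s ∈ Qd G) (ht : t ∈ Qd G) (hA : CA s t) {x₀ : M} (hx : (s * t + t * s) (s x₀) = 0)
    (hx0 : s x₀ ≠ 0)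
    {g : LinearMap.GeneralLinearGroup k M} {a b c d : k[X]} (h : GG s t g a b c d)
    (hc : ev s t (X * c) = 0) : ev s t (X * (a * a - 1)) = 0 := by
  have hs2 := hs.1.1
  have ht2 := ht.1.1
  obtain ⟨⟨p', hp'⟩, -, -⟩ := h.one_mod
  have hc' : ev s t (c * X) = 0 := by rw [mul_comm]; exact hc
  have hSeq := SS_tri hs2 ht2 hp' hc'
  have hS : SS s t a c ∈ Qd G := by
    rw [← h.conj_s hs2 ht2]; exact cj_mem_Qd hs (h.mem hs.1 ht.1)
  -- products vanish
  have e1 : s * SS s t a c = 0 := by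
    rw [hSeq, mul_add, ← mul_assoc, s_ev hs2, mul_assoc, hs2, mul_zero, zero_add, ← mul_assoc, s_ev hs2, mul_assoc]
    have : s * (t * s) = (s * t + t * s) * s := by rw [add_mul, mul_assoc, mul_assoc t, hs2, mul_zero, add_zero]
    rw [this, ← mul_assoc, ev_z]
    have : (X : k[X]) * (2 * c) = 2 * (X * c) := by ring
    rw [this, ev_mul, hc, mul_zero, zero_mul]
  have e2 : SS s t a c * s = 0 := by
    rw [hSeq, add_mul, mul_assoc, hs2, mul_zero, mul_assoc, mul_assoc, hs2, mul_zero, mul_zero, add_zero]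
  have hD : SS s t a c - s ∈ Q0 G := sub_mem_Q0 hS.1 hs.1 e2 e1
  have hDeq : SS s t a c - s = ev s t (a * a - 1) * s + ev s t (2 * c) * (t * s) := by
    rw [hSeq, ev_sub, sub_mul, ev_one, one_mul]; abel
  -- ranks
  have hrk : rk (SS s t a c - s) < rk s := by
    set z := s * t + t * s with hz
    have hzs : z * s = s * z := by
      have := s_ev (s := s) (t := t) hs2 X
      rw [ev_X] at this; exact this.symm
    have hzt : z * t = t * z := by
      have := t_ev (s := s) (t := t) ht2 X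
      rw [ev_X] at this; exact this.symm
    set U := LinearMap.range s with hU
    set W := U ⊓ LinearMap.ker z with hW
    have f1 := finrank_map_add z U
    have f2 := finrank_map_add t W
    have hle : LinearMap.range (SS s t a c - s) ≤ U.map z ⊔ W.map t := by
      rintro _ ⟨x, rfl⟩
      rw [hDeq, LinearMap.add_apply]
      apply Submodule.add_mem_sup
      · have : a * a - 1 = X * (2 * p' + X * (p' * p')) := by rw [hp']; ring
        rw [this, ev_mul, ev_X]
        refine ⟨s (ev s t (2 * p' + X * (p' * p')) x), ⟨_, rfl⟩, ?_⟩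
        have := LinearMap.congr_fun (s_ev (s := s) (t := t) hs2 (2 * p' + X * (p' * p'))) x
        rw [Module.End.mul_apply, Module.End.mul_apply] at this
        rw [this]; rfl
      · refine ⟨ev s t (2 * c) (s x), ⟨⟨ev s t (2 * c) x, ?_⟩, ?_⟩, ?_⟩
        · have := LinearMap.congr_fun (s_ev (s := s) (t := t) hs2 (2 * c)) x
          exact this
        · show z (ev s t (2 * c) (s x)) = 0
          have h3 : z * ev s t (2 * c) = 0 := by
            rw [hz, ← ev_X (s := s) (t := t), ← ev_mul]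
            have : (X : k[X]) * (2 * c) = 2 * (X * c) := by ring
            rw [this, ev_mul, hc, mul_zero]
          exact LinearMap.congr_fun h3 (s x)
        · have := LinearMap.congr_fun (t_ev (s := s) (t := t) ht2 (2 * c)) (s x)
          exact this
    have hW0 : s x₀ ∈ W := ⟨⟨x₀, rfl⟩, hx⟩
    -- W ⊓ ker t ≠ ⊥
    have hne : W ⊓ LinearMap.ker t ≠ ⊥ := by
      intro hbot
      by_cases ht0 : t (s x₀) = 0
      · have : s x₀ ∈ W ⊓ LinearMap.ker t := ⟨hW0, ht0⟩
        rw [hbot] at this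
        exact hx0 this
      · -- decomposition
        have hdis : (LinearMap.range z) ⊓ LinearMap.ker z = ⊥ := by
          rw [eq_bot_iff]
          rintro _ ⟨⟨y, rfl⟩, hy⟩
          exact hA y hy
        have f3 := finrank_map_add z (LinearMap.range z)
        rw [hdis, finrank_bot, add_zero] at f3
        have hsub : (LinearMap.range z).map z ≤ LinearMap.range z := by
          rintro _ ⟨y, -, rfl⟩; exact ⟨y, rfl⟩
        have heq := Submodule.eq_of_le_of_finrank_le hsub (by omega)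
        obtain ⟨_, ⟨y, rfl⟩, hy⟩ : z x₀ ∈ (LinearMap.range z).map z := by rw [heq]; exact ⟨x₀, rfl⟩
        -- z (z y) = z x₀
        set x₁ := x₀ - z y with hx₁
        have hx1 : z x₁ = 0 := by rw [hx₁, map_sub, hy, sub_self]
        have hzs' : ∀ v, z (s v) = s (z v) := fun v => LinearMap.congr_fun hzs v
        have hzt' : ∀ v, z (t v) = t (z v) := fun v => LinearMap.congr_fun hzt v
        have h4 : z (s y) = 0 := by
          apply hA
          show z (z (s y)) = 0
          rw [hzs', hzs', hy, ← hzs', hx]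
        have h5 : s x₀ = s x₁ := by
          rw [hx₁, map_sub, ← hzs', h4, sub_zero]
        have h6 : t (s x₀) = - s (t x₁) := by
          rw [h5]
          have : s (t x₁) + t (s x₁) = 0 := hx1
          exact eq_neg_of_add_eq_zero_right this
        have h7 : t (s x₀) ∈ W ⊓ LinearMap.ker t := by
          refine ⟨⟨?_, ?_⟩, ?_⟩
          · rw [h6, ← map_neg]; exact ⟨_, rfl⟩
          · show z (t (s x₀)) = 0
            rw [hzt', hx, map_zero]
          · exact LinearMap.congr_fun ht2 (s x₀)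
        rw [hbot] at h7
        exact ht0 h7
    have hpos : 0 < finrank k ↥(W ⊓ LinearMap.ker t) := by
      rw [Nat.pos_iff_ne_zero, Ne, Submodule.finrank_eq_zero]; exact hne
    have g1 := Submodule.finrank_mono hle
    have g2 := Submodule.finrank_add_le_finrank_add_finrank (U.map z) (W.map t)
    rw [← hW] at f1
    unfold rk
    rw [← hU]
    omega
  have hD0 := eq_zero_of_rk_lt hs hD hrk
  rw [hDeq] at hD0
  apply annih ht2 hA
  have h8 : ev s t X * (ev s t (a * a - 1) * s + ev s t (2 * c) * (t * s)) = 0 := by rw [hD0, mul_zero]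
  rw [mul_add, ← mul_assoc, ← ev_mul, ← mul_assoc, ← ev_mul] at h8
  have : (X : k[X]) * (2 * c) = 2 * (X * c) := by ring
  rw [this, ev_mul 2, hc, mul_zero, zero_mul, add_zero] at h8
  exact h8

end main

/-! ### the quotient ring `k[X]/I` -/

section quot
variable (s t : End k M)

/-- the annihilator ideal -/
def AI : Ideal k[X] where
  carrier := {f | ev s t (X * f) = 0}
  zero_mem' := by show ev s t (X * 0) = 0; rw [mul_zero, ev_zero]
  add_mem' := by
    intro a b ha hb
    show ev s t (X * (a + b)) = 0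
    rw [mul_add, ev_add]
    have h1 : ev s t (X * a) = 0 := ha
    have h2 : ev s t (X * b) = 0 := hb
    rw [h1, h2, add_zero]
  smul_mem' := by
    intro c a ha
    show ev s t (X * (c * a)) = 0
    have h1 : ev s t (X * a) = 0 := ha
    rw [mul_left_comm, ev_mul, h1, mul_zero]

variable {s t}

theorem mem_AI {f : k[X]} : f ∈ AI s t ↔ ev s t (X * f) = 0 := Iff.rfl

variable [FiniteDimensional k M]

instance : Module.Finite k (k[X] ⧸ AI s t) := by
  set m := minpoly k (s * t + t * s) with hmdef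
  have hint : IsIntegral k (s * t + t * s) := IsIntegral.of_finite k _
  have hm : m ≠ 0 := minpoly.ne_zero hint
  have hmem : m ∈ AI s t := by
    rw [mem_AI, ev_mul]
    have : ev s t m = 0 := minpoly.aeval k _
    rw [this, mul_zero]
  haveI h1 : Module.Finite k (k[X] ⧸ Ideal.span {m}) := (AdjoinRoot.powerBasis hm).finite
  have hle : Ideal.span {m} ≤ AI s t := by rw [Ideal.span_singleton_le_iff_mem]; exact hmem
  exact Module.Finite.of_surjective (Ideal.Quotient.factorₐ k hle).toLinearMap (Ideal.Quotient.factor_surjective hle)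

theorem AI_gen : Algebra.adjoin k {(Ideal.Quotient.mk (AI s t) X)} = ⊤ := by
  rw [eq_top_iff]
  intro x _
  obtain ⟨f, rfl⟩ := Ideal.Quotient.mk_surjective x
  have h1 : Ideal.Quotient.mk (AI s t) f = aeval (Ideal.Quotient.mk (AI s t) X) f := by
    have := (aeval_algHom_apply (Ideal.Quotient.mkₐ k (AI s t)) X f)
    rw [aeval_X_left_apply] at this
    exact this.symm
  rw [h1]
  exact aeval_mem_adjoin_singleton k _

theorem AI_nontrivial (hz : s * t + t * s ≠ 0) : Nontrivial (k[X] ⧸ AI s t) := by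
  apply Ideal.Quotient.nontrivial_iff.2
  intro h
  have : (1 : k[X]) ∈ AI s t := by rw [h]; trivial
  rw [mem_AI, mul_one, ev_X] at this
  exact hz this

/-- a non zero divisor in a finite dimensional commutative algebra is a unit -/
theorem unit_of_nzd {R : Type*} [CommRing R] [Algebra k R] [FiniteDimensional k R] {x : R}
    (h : ∀ y, x * y = 0 → y = 0) : IsUnit x := by
  have hinj : Function.Injective (LinearMap.mulLeft k x) := by
    rw [injective_iff_map_eq_zero]; exact h
  obtain ⟨y, hy⟩ := LinearMap.surjective_of_injective hinj 1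
  exact IsUnit.of_mul_eq_one y hy

theorem AI_unit (hA : CA s t) : IsUnit (Ideal.Quotient.mk (AI s t) X) := by
  apply unit_of_nzd (k := k)
  intro y hy
  obtain ⟨f, rfl⟩ := Ideal.Quotient.mk_surjective y
  rw [← map_mul, Ideal.Quotient.eq_zero_iff_mem, mem_AI] at hy
  rw [Ideal.Quotient.eq_zero_iff_mem, mem_AI]
  exact hA.ev hy

end quot

theorem exists_u {k : Type*} [Field k] (h2 : (2 : k) ≠ 0) (h3 : Nat.card k ≠ 3) :
    ∃ u : k, u ≠ 0 ∧ u * u ≠ 1 := by
  classical
  by_contra hcon
  push Not at hcon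
  have hall : ∀ u : k, u = 0 ∨ u = 1 ∨ u = -1 := by
    intro u
    by_cases hu : u = 0
    · exact Or.inl hu
    · right; exact mul_self_eq_one_iff.1 (hcon u hu)
  have hfin : Finite k := by
    apply Set.finite_univ_iff.1
    apply (Set.toFinite ({0, 1, -1} : Set k)).subset
    intro u _
    simpa using hall u
  haveI := Fintype.ofFinite k
  have h4 := four_le_card h2 h3
  have h5 : Nat.card k ≤ 3 := by
    rw [Nat.card_eq_fintype_card, ← Finset.card_univ]
    refine (Finset.card_le_card (t := {0, 1, -1}) ?_).trans Finset.card_le_three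
    intro u _
    simpa using hall u
  omega

/-- a finite `p`-group in characteristic `p` acts unipotently -/
theorem unip_of_pgroup [FiniteDimensional k M] [Finite k] {p : ℕ} [Fact p.Prime] [CharP k p]
    {H : Subgroup (LinearMap.GeneralLinearGroup k M)} (hH : IsPGroup p H) : IsUnipotentOn H := by
  haveI : Finite M := Module.finite_of_finite k
  apply CfsgLib.H14Unip.unip_of_rel
  intro N hN hNt
  -- action on M ⧸ N
  have hmap : ∀ h : H, N ≤ N.comap ((h : LinearMap.GeneralLinearGroup k M) : M →ₗ[k] M) := by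
    intro h m hm
    exact hN h h.2 m hm
  let act : MulAction H (M ⧸ N) :=
    { smul := fun h x => N.mapQ N ((h : LinearMap.GeneralLinearGroup k M) : M →ₗ[k] M) (hmap h) x
      one_smul := by
        intro x
        obtain ⟨m, rfl⟩ := N.mkQ_surjective x
        show N.mapQ N _ (hmap 1) (N.mkQ m) = N.mkQ m
        rw [Submodule.mkQ_apply, Submodule.mapQ_apply]; rfl
      mul_smul := by
        intro a b x
        obtain ⟨m, rfl⟩ := N.mkQ_surjective x
        show N.mapQ N _ (hmap (a * b)) (N.mkQ m) = N.mapQ N _ (hmap a) (N.mapQ N _ (hmap b) (N.mkQ m))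
        rw [Submodule.mkQ_apply, Submodule.mapQ_apply, Submodule.mapQ_apply, Submodule.mapQ_apply]; rfl }
  haveI : Finite (M ⧸ N) := Finite.of_surjective _ N.mkQ_surjective
  have hdvd : p ∣ Nat.card (M ⧸ N) := by
    haveI : Nontrivial (M ⧸ N) := Submodule.Quotient.nontrivial_iff.2 hNt
    -- an element of order p
    obtain ⟨x, hx⟩ := exists_ne (0 : M ⧸ N)
    have h1 : addOrderOf x = p := by
      apply addOrderOf_eq_prime
      · rw [← Nat.cast_smul_eq_nsmul k, CharP.cast_eq_zero, zero_smul]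
      · exact hx
    rw [← h1]
    exact addOrderOf_dvd_natCard x
  obtain ⟨b, hb, hb0⟩ := hH.exists_fixed_point_of_prime_dvd_card_of_fixed_point (M ⧸ N) hdvd (a := 0) (by
    intro h
    show N.mapQ N _ (hmap h) 0 = 0
    exact map_zero _)
  obtain ⟨m, rfl⟩ := N.mkQ_surjective b
  refine ⟨m, ?_, ?_⟩
  · intro hm
    apply hb0
    rw [Submodule.mkQ_apply, (Submodule.Quotient.mk_eq_zero N).2 hm]
  · intro g hg
    have h1 : N.mapQ N _ (hmap ⟨g, hg⟩) (N.mkQ m) = N.mkQ m := hb ⟨g, hg⟩
    rw [Submodule.mkQ_apply, Submodule.mapQ_apply, Submodule.Quotient.eq] at h1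
    exact h1

/-! ### existence of good elements -/

section ks
variable [FiniteDimensional k M] {G : Subgroup (LinearMap.GeneralLinearGroup k M)} {s t : End k M}

/-- stability under `z` implies everything -/
theorem all_of_mul {R : Type*} [CommRing R] [Algebra k R] {z : R} (hz : IsUnit z)
    (hgen : Algebra.adjoin k {z} = ⊤) (hmul : ∀ {β : R}, Gn k z 1 0 β 1 → Gn k z 1 0 (z * β) 1) :
    (∀ β : R, Gn k z 1 0 β 1) ∧ (∀ β : R, Gn k z 1 β 0 1) := by
  have hB : ∀ β : R, Gn k z 1 0 β 1 := by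
    intro β
    have hβ : β ∈ Algebra.adjoin k {z} := by rw [hgen]; trivial
    have key : ∀ γ : R, Gn k z 1 0 γ 1 → Gn k z 1 0 (β * γ) 1 := by
      induction hβ using Algebra.adjoin_induction with
      | mem x hx' =>
        rw [Set.mem_singleton_iff] at hx'
        rw [hx']
        intro γ hγ
        exact hmul hγ
      | algebraMap r =>
        intro γ hγ
        rw [← Algebra.smul_def]
        by_cases he : r = 0
        · subst he; rw [zero_smul]; exact Gn.one
        · have := hγ.dc (e := r⁻¹) (inv_ne_zero he)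
          rwa [smul_zero, inv_inv] at this
      | add x y _ _ ihx ihy =>
        intro γ hγ
        exact ((ihx γ hγ).mul (ihy γ hγ)).congr (by ring) (by ring) (by ring) (by ring)
      | mul x y _ _ ihx ihy =>
        intro γ hγ
        rw [mul_assoc]; exact ihx _ (ihy γ hγ)
    have := key 1 (by have := Gn.gy (z := z) (1 : k); rwa [map_one] at this)
    rwa [mul_one] at this
  refine ⟨hB, ?_⟩
  intro b
  obtain ⟨z', hz'⟩ := hz.exists_right_inv
  obtain ⟨b', hb', h⟩ := (hB (z' * b)).wc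
  have h0 : b' = 0 := hz.mul_left_cancel (by rw [hb', mul_zero])
  rw [h0, ← mul_assoc, hz', one_mul] at h
  exact h

theorem upper_elt {R : Type*} [CommRing R] [Algebra k R] {z : R}
    (hB : ∀ β : R, Gn k z 1 0 β 1) (hA : ∀ β : R, Gn k z 1 β 0 1) {u : k} (hu : u ≠ 0) :
    ∃ b d, Gn k z (algebraMap k R u) b 0 d := by
  have e1 : algebraMap k R u⁻¹ * algebraMap k R u = 1 := by rw [← map_mul, inv_mul_cancel₀ hu, map_one]
  refine ⟨_, _, (((hB (-algebraMap k R u⁻¹)).mul ((hA (algebraMap k R u - 1)).mul (hB 1)))).congr ?_ rfl ?_ rfl⟩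
  · ring
  · linear_combination -e1

/-- the good element, infinite case -/
theorem KS_inf [Infinite k] (h2 : (2 : k) ≠ 0) (hA : CA s t) (hz : s * t + t * s ≠ 0) :
    ∃ (g : LinearMap.GeneralLinearGroup k M) (a b c d : k[X]), GG s t g a b c d ∧ ev s t (X * c) = 0 ∧
      ev s t (X * (a * a - 1)) ≠ 0 := by
  have h3 : Nat.card k ≠ 3 := by rw [Nat.card_eq_zero_of_infinite]; omega
  haveI := AI_nontrivial hz
  have hu := AI_unit hA
  have hgen := AI_gen (s := s) (t := t)
  obtain ⟨hB, hA'⟩ := all_of_mul (k := k) hu hgen (fun {β} hβ => B_mul_mem h2 h3 hu hgen Gn.hg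
    (fun he h => h.dc he) (fun a => Gn.gx a) (fun a => Gn.gy a) (fun hf => (not_finite k).elim) hβ)
  obtain ⟨u, hu0, hu1⟩ := exists_u h2 h3
  obtain ⟨b, d, hg⟩ := upper_elt hB hA' hu0
  obtain ⟨a', b', c', d', hgn, ea, -, ec, -⟩ := hg.lift (Ideal.Quotient.mkₐ k (AI s t)) (z' := X) rfl
  obtain ⟨g, hGG⟩ := exists_GG (s := s) (t := t) hgn
  refine ⟨g, a', b', c', d', hGG, ?_, ?_⟩
  · exact Ideal.Quotient.eq_zero_iff_mem.1 ec
  · intro h0
    have h1 : a' * a' - 1 ∈ AI s t := h0
    rw [← Ideal.Quotient.eq_zero_iff_mem, map_sub, map_mul, map_one] at h1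
    have ea' : Ideal.Quotient.mk (AI s t) a' = algebraMap k _ u := ea
    rw [ea', ← map_mul, sub_eq_zero, ← map_one (algebraMap k (k[X] ⧸ AI s t))] at h1
    exact hu1 ((algebraMap k (k[X] ⧸ AI s t)).injective h1)

theorem coe_x_pow {K : Type*} [CommRing K] {x : Matrix.SpecialLinearGroup (Fin 2) K} {ζ : K}
    (hx : (x : Matrix (Fin 2) (Fin 2) K) = !![1, ζ; 0, 1]) (n : ℕ) :
    ((x ^ n : Matrix.SpecialLinearGroup (Fin 2) K) : Matrix (Fin 2) (Fin 2) K) = !![1, (n : K) * ζ; 0, 1] := by
  induction n with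
  | zero => simp [Matrix.one_fin_two]
  | succ n ih =>
    rw [pow_succ, Matrix.SpecialLinearGroup.coe_mul, ih, hx, Matrix.mul_fin_two]
    congr 1
    ext i j
    fin_cases i <;> fin_cases j <;> simp
    ring

/-- the good element, finite case -/
theorem KS_fin [Finite k] (h2 : (2 : k) ≠ 0) (h3 : Nat.card k ≠ 3) (hs : s ∈ Qd G) (ht : t ∈ Qd G)
    (hA : CA s t) (hz : s * t + t * s ≠ 0) :
    ∃ (g : LinearMap.GeneralLinearGroup k M) (a b c d : k[X]), GG s t g a b c d ∧ ev s t (X * c) = 0 ∧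
      ev s t (X * (a * a - 1)) ≠ 0 := by
  classical
  have hs2 := hs.1.1
  have ht2 := ht.1.1
  haveI : Finite M := Module.finite_of_finite k
  haveI := AI_nontrivial hz
  have hIt : AI s t ≠ ⊤ := Ideal.Quotient.nontrivial_iff.1 inferInstance
  obtain ⟨m, hmax, hIm⟩ := Ideal.exists_le_maximal _ hIt
  letI : Field (k[X] ⧸ m) := Ideal.Quotient.field m
  have hle : AI s t ≤ m := hIm
  haveI : Module.Finite k (k[X] ⧸ m) :=
    Module.Finite.of_surjective (Ideal.Quotient.factorₐ k hle).toLinearMap (Ideal.Quotient.factor_surjective hle)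
  haveI : Finite (k[X] ⧸ m) := Module.finite_of_finite k
  set ζ : k[X] ⧸ m := Ideal.Quotient.mk m X with hζ
  have hζ0 : ζ ≠ 0 := by
    have h1 := (AI_unit hA).map (Ideal.Quotient.factor hle)
    rw [Ideal.Quotient.factor_mk] at h1
    exact h1.ne_zero
  have hgen : Algebra.adjoin k {ζ} = ⊤ := by
    rw [eq_top_iff]
    intro x _
    obtain ⟨f, rfl⟩ := Ideal.Quotient.mk_surjective x
    have h1 : Ideal.Quotient.mk m f = aeval ζ f := by
      have := (aeval_algHom_apply (Ideal.Quotient.mkₐ k m) X f)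
      rw [aeval_X_left_apply] at this
      exact this.symm
    rw [h1]
    exact aeval_mem_adjoin_singleton k _
  have hall : ∀ a b c d : k[X] ⧸ m, a * d - b * c = 1 → Gn k ζ a b c d :=
    field_all h2 h3 hζ0 hgen Gn.hg (fun he h => h.dc he) (fun a => Gn.gx a) (fun a => Gn.gy a)
  obtain ⟨p, hp⟩ := CharP.exists k
  haveI : Fact p.Prime := ⟨CharP.char_is_prime k p⟩
  -- the group of pairs
  let mk := Ideal.Quotient.mk m
  let SL := Matrix.SpecialLinearGroup (Fin 2) (k[X] ⧸ m)
  have m00 : ∀ g h : SL, (g * h) 0 0 = g 0 0 * h 0 0 + g 0 1 * h 1 0 := fun g h => by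
    rw [Matrix.SpecialLinearGroup.coe_mul, Matrix.mul_apply, Fin.sum_univ_two]
  have m01 : ∀ g h : SL, (g * h) 0 1 = g 0 0 * h 0 1 + g 0 1 * h 1 1 := fun g h => by
    rw [Matrix.SpecialLinearGroup.coe_mul, Matrix.mul_apply, Fin.sum_univ_two]
  have m10 : ∀ g h : SL, (g * h) 1 0 = g 1 0 * h 0 0 + g 1 1 * h 1 0 := fun g h => by
    rw [Matrix.SpecialLinearGroup.coe_mul, Matrix.mul_apply, Fin.sum_univ_two]
  have m11 : ∀ g h : SL, (g * h) 1 1 = g 1 0 * h 0 1 + g 1 1 * h 1 1 := fun g h => by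
    rw [Matrix.SpecialLinearGroup.coe_mul, Matrix.mul_apply, Fin.sum_univ_two]
  have i00 : ∀ g : SL, (g⁻¹) 0 0 = g 1 1 := fun g => by
    rw [Matrix.SpecialLinearGroup.coe_inv, Matrix.adjugate_fin_two]; rfl
  have i01 : ∀ g : SL, (g⁻¹) 0 1 = -g 0 1 := fun g => by
    rw [Matrix.SpecialLinearGroup.coe_inv, Matrix.adjugate_fin_two]; rfl
  have i10 : ∀ g : SL, (g⁻¹) 1 0 = -g 1 0 := fun g => by
    rw [Matrix.SpecialLinearGroup.coe_inv, Matrix.adjugate_fin_two]; rfl
  have i11 : ∀ g : SL, (g⁻¹) 1 1 = g 0 0 := fun g => by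
    rw [Matrix.SpecialLinearGroup.coe_inv, Matrix.adjugate_fin_two]; rfl
  let B : Subgroup (LinearMap.GeneralLinearGroup k M × SL) :=
    { carrier := {x | x.2 1 0 = 0 ∧ ∃ a b c d : k[X], GG s t x.1 a b c d ∧ x.2 0 0 = mk a ∧ x.2 0 1 = mk b ∧
        x.2 1 0 = mk c ∧ x.2 1 1 = mk d}
      one_mem' := ⟨by simp, 1, 0, 0, 1, GG.one, by simp [mk], by simp [mk], by simp [mk], by simp [mk]⟩
      mul_mem' := by
        rintro ⟨g, A⟩ ⟨g', A'⟩ ⟨h0, a, b, c, d, h, e1, e2, e3, e4⟩ ⟨h0', a', b', c', d', h', e1', e2', e3', e4'⟩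
        simp only at h0 h0' e1 e2 e3 e4 e1' e2' e3' e4'
        refine ⟨?_, _, _, _, _, h.mul h', ?_, ?_, ?_, ?_⟩
        · show (A * A') 1 0 = 0
          rw [m10, h0, h0']; ring
        · show (A * A') 0 0 = _
          rw [m00, e1, e2, e1', e3', map_add, map_mul, map_mul]
        · show (A * A') 0 1 = _
          rw [m01, e1, e2, e2', e4', map_add, map_mul, map_mul]
        · show (A * A') 1 0 = _
          rw [m10, e3, e4, e1', e3', map_add, map_mul, map_mul]
        · show (A * A') 1 1 = _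
          rw [m11, e3, e4, e2', e4', map_add, map_mul, map_mul]
      inv_mem' := by
        rintro ⟨g, A⟩ ⟨h0, a, b, c, d, h, e1, e2, e3, e4⟩
        simp only at h0 e1 e2 e3 e4
        refine ⟨?_, _, _, _, _, h.inv hs2 ht2, ?_, ?_, ?_, ?_⟩
        · show (A⁻¹) 1 0 = 0
          rw [i10, h0, neg_zero]
        · show (A⁻¹) 0 0 = _
          rw [i00, e4]
        · show (A⁻¹) 0 1 = _
          rw [i01, e2, map_neg]
        · show (A⁻¹) 1 0 = _
          rw [i10, e3, map_neg]
        · show (A⁻¹) 1 1 = _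
          rw [i11, e1] }
  haveI : Finite SL := by
    haveI : Finite (Matrix (Fin 2) (Fin 2) (k[X] ⧸ m)) := inferInstanceAs (Finite (Fin 2 → Fin 2 → (k[X] ⧸ m)))
    exact Subtype.finite
  haveI : Finite (LinearMap.GeneralLinearGroup k M) := by
    haveI : Finite (M →ₗ[k] M) := Finite.of_injective (fun f : M →ₗ[k] M => (f : M → M)) DFunLike.coe_injective
    exact Finite.of_injective _ (Units.val_injective)
  -- the character
  let χ : B →* (k[X] ⧸ m) :=
    { toFun := fun x => x.1.2 0 0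
      map_one' := by simp
      map_mul' := by
        rintro ⟨⟨g, A⟩, h0, -⟩ ⟨⟨g', A'⟩, h0', -⟩
        show (A * A') 0 0 = A 0 0 * A' 0 0
        simp only at h0 h0'
        rw [m00, h0', mul_zero, add_zero] }
  let N := χ.ker
  -- the element τ
  let xz : SL := ⟨!![1, ζ; 0, 1], by simp [Matrix.det_fin_two_of]⟩
  let τ₀ : B := ⟨(tv s, xz), rfl, 1, X, 0, 1, by
    have := GG.gx (s := s) (t := t) (1 : k)
    rwa [one_smul, one_smul] at this, by simp [mk, xz], by simp [mk, xz, hζ], by simp [mk, xz], by simp [mk, xz]⟩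
  have hτN : τ₀ ∈ N := by
    show χ τ₀ = 1
    rfl
  let τ : N := ⟨τ₀, hτN⟩
  have hτp : τ ^ p = 1 := by
    apply Subtype.ext
    apply Subtype.ext
    show (tv s, xz) ^ p = (1, 1)
    rw [Prod.pow_mk]
    refine Prod.ext ?_ ?_
    · show tv s ^ p = 1
      rw [tv_pow hs2, CharP.cast_eq_zero, zero_smul, tv_zero]
    · show xz ^ p = 1
      haveI : CharP (k[X] ⧸ m) p := charP_of_injective_algebraMap (algebraMap k (k[X] ⧸ m)).injective p
      have h7 := coe_x_pow (x := xz) (ζ := ζ) rfl p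
      rw [CharP.cast_eq_zero, zero_mul] at h7
      apply Subtype.ext
      refine h7.trans ?_
      rw [← Matrix.one_fin_two]; rfl
  have hTp : IsPGroup p (Subgroup.zpowers τ) := by
    rw [IsPGroup.iff_card]
    rw [Nat.card_zpowers]
    have := orderOf_dvd_of_pow_eq_one hτp
    rcases (Nat.dvd_prime Fact.out).1 this with h | h
    · exact ⟨0, by rw [h, pow_zero]⟩
    · exact ⟨1, by rw [h, pow_one]⟩
  obtain ⟨P, hP⟩ := hTp.exists_le_sylow
  have hfr := Sylow.normalizer_sup_eq_top P
  -- the element of B with eigenvalue u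
  obtain ⟨u, hu0, hu1⟩ := exists_u h2 h3
  have e1 : algebraMap k (k[X] ⧸ m) u * algebraMap k (k[X] ⧸ m) u⁻¹ = 1 := by
    rw [← map_mul, mul_inv_cancel₀ hu0, map_one]
  obtain ⟨a₁, b₁, c₁, d₁, hgn, ea, eb, ec, ed⟩ := (hall (algebraMap k _ u) 0 0 (algebraMap k _ u⁻¹)
    (by rw [e1]; ring)).lift (Ideal.Quotient.mkₐ k m) (z' := X) rfl
  obtain ⟨g₁, hGG₁⟩ := exists_GG (s := s) (t := t) hgn
  let β₀ : B := ⟨(g₁, ⟨!![algebraMap k _ u, 0; 0, algebraMap k _ u⁻¹], by rw [Matrix.det_fin_two_of, e1]; ring⟩),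
    rfl, a₁, b₁, c₁, d₁, hGG₁, ea.symm, eb.symm, ec.symm, ed.symm⟩
  have hβ : β₀ ∈ Subgroup.normalizer ((P : Subgroup N).map N.subtype : Set B) ⊔ N := by
    rw [hfr]; trivial
  obtain ⟨ν, hν, l, hl, hνl⟩ := (Subgroup.mem_sup_of_normal_right).1 hβ
  -- χ ν = u
  have hχ : χ ν = algebraMap k _ u := by
    have h1 : χ β₀ = algebraMap k _ u := rfl
    have h2 : χ l = 1 := hl
    rw [← h1, ← hνl, map_mul, h2, mul_one]
  obtain ⟨⟨g, A⟩, h0, a, b, c, d, hGG, f1, f2, f3, f4⟩ := ν
  simp only at h0 f1 f2 f3 f4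
  -- conjugate of τ
  have hτP : τ₀ ∈ ((P : Subgroup N).map N.subtype : Set B) := ⟨τ, hP (Subgroup.mem_zpowers τ), rfl⟩
  have hcj := ((Subgroup.mem_normalizer_iff).1 hν τ₀).1 hτP
  -- the image of P in GL(M)
  let P1 : Subgroup (LinearMap.GeneralLinearGroup k M) :=
    (P : Subgroup N).map ((MonoidHom.fst _ _).comp (B.subtype.comp N.subtype))
  have hP1 : IsPGroup p P1 := P.2.map _
  have hu1' := unip_of_pgroup (k := k) hP1
  have mem1 : tv s ∈ P1 := ⟨τ, hP (Subgroup.mem_zpowers τ), rfl⟩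
  have mem2 : g * tv s * g⁻¹ ∈ P1 := by
    obtain ⟨y, hy, hy2⟩ := hcj
    refine ⟨y, hy, ?_⟩
    have := congrArg (fun x : B => x.1.1) hy2
    exact this
  have hcs := hGG.conj_s hs2 ht2
  have hS2 : SS s t a c * SS s t a c = 0 := by rw [← hcs, ← cjE_mul, hs2, cjE_zero]
  have mem2' : tv (SS s t a c) ∈ P1 := by
    have h5 := tv_conj hs2 g
    have h6 : tv (SS s t a c) = g * tv s * g⁻¹ := by rw [h5, ← hcs]; rfl
    rw [h6]; exact mem2
  obtain ⟨n, hn⟩ := CfsgLib.H14Unip.unip_iff_lp.1 hu1'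
  have q1 : s ∈ CfsgLib.H14Unip.sp P1 := Submodule.subset_span ⟨tv s, mem1, by rw [tv_val hs2]; abel⟩
  have q2 : SS s t a c ∈ CfsgLib.H14Unip.sp P1 :=
    Submodule.subset_span ⟨tv (SS s t a c), mem2', by rw [tv_val hS2]; abel⟩
  have q3 : s * SS s t a c + SS s t a c * s ∈ CfsgLib.H14Unip.sp P1 :=
    add_mem (CfsgLib.H14Unip.sp_mul q1 q2) (CfsgLib.H14Unip.sp_mul q2 q1)
  have hnil : IsNilpotent (s * SS s t a c + SS s t a c * s) := by
    refine ⟨n, ?_⟩
    have := CfsgLib.H14Unip.sp_prod n hn (List.replicate n (s * SS s t a c + SS s t a c * s))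
      (fun f hf => by rw [(List.mem_replicate.1 hf).2]; exact q3) (List.length_replicate)
    rwa [List.prod_replicate] at this
  refine ⟨g, a, b, c, d, hGG, nil_c h2 hs ht hA hGG hnil, ?_⟩
  intro h0'
  have h1 : a * a - 1 ∈ m := hIm h0'
  rw [← Ideal.Quotient.eq_zero_iff_mem, map_sub, map_mul, map_one] at h1
  have h6 : Ideal.Quotient.mk m a = algebraMap k _ u := by
    rw [← hχ]; exact f1.symm
  rw [h6, ← map_mul, sub_eq_zero, ← map_one (algebraMap k (k[X] ⧸ m))] at h1
  exact hu1 ((algebraMap k (k[X] ⧸ m)).injective h1)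

end ks

end CfsgLib.H14KT
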