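import Cfsg.Agent.LibH14KT

/-! Quadratic pairs: the key theorem, conclusion (seat helper14). -/

set_option autoImplicit false

namespace CfsgLib.H14KT

open Cfsg CfsgLib.H14R1 CfsgLib.H14QP CfsgLib.H14Pr CfsgLib.H14Crux CfsgLib.H14Inf Module Polynomial

variable {k : Type*} [Field k] {M : Type*} [AddCommGroup M] [Module k M] [FiniteDimensional k M]
  {G : Subgroup (LinearMap.GeneralLinearGroup k M)} {s t : End k M}

theorem inj_A (h2 : (2 : k) ≠ 0) (h3 : Nat.card k ≠ 3) (hs : s ∈ Qd G) (ht : t ∈ Qd G)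
    (hA : CA s t) (hz : s * t + t * s ≠ 0) (x : M) (hx : (s * t + t * s) (s x) = 0) : s x = 0 := by
  by_contra hx0
  have : ∃ (g : LinearMap.GeneralLinearGroup k M) (a b c d : k[X]), GG s t g a b c d ∧ ev s t (X * c) = 0 ∧
      ev s t (X * (a * a - 1)) ≠ 0 := by
    rcases finite_or_infinite k with hk | hk
    · exact KS_fin h2 h3 hs ht hA hz
    · exact KS_inf h2 hA hz
  obtain ⟨g, a, b, c, d, h, hc, hne⟩ := this
  exact hne (contra hs ht hA hx hx0 h hc)

theorem inj_n (h2 : (2 : k) ≠ 0) (h3 : Nat.card k ≠ 3) : ∀ (n : ℕ) {s t : End k M}, s ∈ Qd G → t ∈ Qd G →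
    ¬ IsNilpotent (s * t + t * s) →
    (∀ x, ((s * t + t * s) ^ (2 ^ (n + 1))) x = 0 → ((s * t + t * s) ^ (2 ^ n)) x = 0) →
    ∀ x, (s * t + t * s) (s x) = 0 → s x = 0 := by
  intro n
  induction n with
  | zero =>
    intro s t hs ht hn hA
    apply inj_A h2 h3 hs ht
    · intro x hx
      have := hA x (by rw [zero_add, pow_one, pow_two]; exact hx)
      rwa [pow_zero, pow_one] at this
    · intro h; apply hn; rw [h]; exact IsNilpotent.zero
  | succ n ih =>
    intro s t hs ht hn hA x hx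
    have hs2 := hs.1.1
    have ht2 := ht.1.1
    have h1 := GG.gy (s := s) (t := t) (1 : k)
    have h4 := h1.conj_s hs2 ht2
    set t' := SS s t 1 (algebraMap k k[X] 1) with ht'
    have ht'Q : t' ∈ Qd G := by rw [← h4]; exact cj_mem_Qd hs (h1.mem hs.1 ht.1)
    have hz' : s * t' + t' * s = -((s * t + t * s) ^ 2) := by
      rw [ht', sS_add hs2 ht2, map_one, mul_one, mul_one, one_mul, ev_mul, ev_X, pow_two]
    have hpow : ∀ m : ℕ, (s * t' + t' * s) ^ (2 ^ m) = (s * t + t * s) ^ (2 ^ (m + 1)) ∨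
        (s * t' + t' * s) ^ (2 ^ m) = -((s * t + t * s) ^ (2 ^ (m + 1))) := by
      intro m
      rw [hz', neg_pow, ← pow_mul, ← pow_succ']
      rcases neg_one_pow_eq_or (End k M) (2 ^ m) with h | h
      · left; rw [h, one_mul]
      · right; rw [h, neg_one_mul]
    have e1 : ∀ m x, ((s * t' + t' * s) ^ (2 ^ m)) x = 0 ↔ ((s * t + t * s) ^ (2 ^ (m + 1))) x = 0 := by
      intro m x
      rcases hpow m with h | h
      · rw [h]
      · rw [h, LinearMap.neg_apply, neg_eq_zero]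
    apply ih hs ht'Q ?_ ?_ x ?_
    · rintro ⟨m, hm⟩
      apply hn
      refine ⟨2 * m, ?_⟩
      rw [hz', neg_pow, ← pow_mul] at hm
      rcases neg_one_pow_eq_or (End k M) m with h | h
      · rwa [h, one_mul] at hm
      · rwa [h, neg_one_mul, neg_eq_zero] at hm
    · intro y hy
      rw [e1] at hy ⊢
      exact hA y hy
    · rw [hz', LinearMap.neg_apply, neg_eq_zero, pow_two, Module.End.mul_apply, hx, map_zero]

/-- (i) of the key theorem -/
theorem inj (h2 : (2 : k) ≠ 0) (h3 : Nat.card k ≠ 3) (hs : s ∈ Qd G) (ht : t ∈ Qd G)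
    (hn : ¬ IsNilpotent (s * t + t * s)) (x : M) (hx : (s * t + t * s) (s x) = 0) : s x = 0 := by
  refine inj_n h2 h3 (finrank k M) hs ht hn ?_ x hx
  intro y hy
  have h1 : finrank k M ≤ 2 ^ finrank k M := Nat.lt_two_pow_self.le
  have h4 : finrank k M ≤ 2 ^ (finrank k M + 1) := h1.trans (Nat.pow_le_pow_right (by omega) (by omega))
  have e1 := Module.End.ker_pow_eq_ker_pow_finrank_of_le (f := s * t + t * s) h1
  have e2 := Module.End.ker_pow_eq_ker_pow_finrank_of_le (f := s * t + t * s) h4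
  have : y ∈ LinearMap.ker ((s * t + t * s) ^ (2 ^ (finrank k M + 1))) := hy
  rw [e2, ← e1] at this
  exact this

omit [FiniteDimensional k M] in
theorem CA_of_inj (hs : s * s = 0) (ht : t * t = 0) (h : ∀ x, (s * t + t * s) (s x) = 0 → s x = 0) : CA s t := by
  intro x hx
  have hz : ∀ v, s ((s * t + t * s) v) = (s * t + t * s) (s v) := fun v => by
    have := LinearMap.congr_fun (s_ev (s := s) (t := t) hs X) v
    rw [ev_X] at this; exact this
  have h1 : s x = 0 := by
    apply h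
    rw [← hz]
    apply h
    rw [← hz]
    show s ((s * t + t * s) ((s * t + t * s) x)) = 0
    rw [hx, map_zero]
  have h4 : (s * t + t * s) x = s (t x) := by
    show s (t x) + t (s x) = _
    rw [h1, map_zero, add_zero]
  rw [h4] at hx ⊢
  exact h _ hx

/-- the standing situation -/
structure NN (G : Subgroup (LinearMap.GeneralLinearGroup k M)) (s t : End k M) : Prop where
  h2 : (2 : k) ≠ 0
  h3 : Nat.card k ≠ 3
  hs : s ∈ Qd G
  ht : t ∈ Qd G
  hn : ¬ IsNilpotent (s * t + t * s)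

theorem NN.symm (h : NN G s t) : NN G t s := ⟨h.h2, h.h3, h.ht, h.hs, by rw [add_comm]; exact h.hn⟩
theorem NN.hs2 (h : NN G s t) : s * s = 0 := h.hs.1.1
theorem NN.ht2 (h : NN G s t) : t * t = 0 := h.ht.1.1
theorem NN.inj (h : NN G s t) (x : M) (hx : (s * t + t * s) (s x) = 0) : s x = 0 :=
  CfsgLib.H14KT.inj h.h2 h.h3 h.hs h.ht h.hn x hx
theorem NN.inj' (h : NN G s t) (x : M) (hx : (s * t + t * s) (t x) = 0) : t x = 0 :=
  h.symm.inj x (by rw [add_comm]; exact hx)
theorem NN.ca (h : NN G s t) : CA s t := CA_of_inj h.hs2 h.ht2 h.inj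
theorem NN.z0 (h : NN G s t) : s * t + t * s ≠ 0 := fun e => h.hn (by rw [e]; exact IsNilpotent.zero)

theorem NN.ev_s (h : NN G s t) (f : k[X]) (x : M) : ev s t f (s x) = s (ev s t f x) :=
  (LinearMap.congr_fun (s_ev (s := s) (t := t) h.hs2 f) x).symm
theorem NN.ev_t (h : NN G s t) (f : k[X]) (x : M) : ev s t f (t x) = t (ev s t f x) :=
  (LinearMap.congr_fun (t_ev (s := s) (t := t) h.ht2 f) x).symm

theorem NN.mem_iff (h : NN G s t) {f : k[X]} : f ∈ AI s t ↔ ev s t f * s = 0 := by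
  rw [mem_AI]
  constructor
  · intro h1
    ext x
    show ev s t f (s x) = 0
    rw [h.ev_s]
    apply h.inj
    rw [← h.ev_s]
    have := LinearMap.congr_fun h1 (s x)
    rw [ev_mul, ev_X] at this
    exact this
  · intro h1
    apply annih h.ht2 h.ca
    rw [ev_mul, mul_assoc, h1, mul_zero]

theorem NN.mem_t (h : NN G s t) {f : k[X]} (hf : f ∈ AI s t) : ev s t f * t = 0 := by
  rw [mem_AI] at hf
  ext x
  show ev s t f (t x) = 0
  rw [h.ev_t]
  apply h.inj'
  rw [← h.ev_t]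
  have := LinearMap.congr_fun hf (t x)
  rw [ev_mul, ev_X] at this
  exact this

theorem NN.unit_of (h : NN G s t) {f : k[X]} (hf : ∀ x, ev s t f (s x) = 0 → s x = 0) :
    IsUnit (Ideal.Quotient.mk (AI s t) f) := by
  apply unit_of_nzd (k := k)
  intro y hy
  obtain ⟨e, rfl⟩ := Ideal.Quotient.mk_surjective y
  rw [← map_mul, Ideal.Quotient.eq_zero_iff_mem, h.mem_iff] at hy
  rw [Ideal.Quotient.eq_zero_iff_mem, h.mem_iff]
  ext x
  show ev s t e (s x) = 0
  rw [h.ev_s]
  apply hf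
  rw [← h.ev_s]
  have := LinearMap.congr_fun hy x
  rw [ev_mul] at this
  exact this

theorem NN.c21 (h : NN G s t) {a b c d : k[X] ⧸ AI s t} (hg : Gn k (Ideal.Quotient.mk (AI s t) X) a b c d) :
    c = 0 ∨ IsUnit c := by
  obtain ⟨a', b', c', d', hgn, rfl, rfl, rfl, rfl⟩ := hg.lift (Ideal.Quotient.mkₐ k (AI s t)) (z' := X) rfl
  obtain ⟨g, hGG⟩ := exists_GG (s := s) (t := t) hgn
  have hS : SS s t a' c' ∈ Qd G := by
    rw [← hGG.conj_s h.hs2 h.ht2]; exact cj_mem_Qd h.hs (hGG.mem h.hs.1 h.ht.1)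
  by_cases hn : IsNilpotent (s * SS s t a' c' + SS s t a' c' * s)
  · left
    exact Ideal.Quotient.eq_zero_iff_mem.2 (nil_c h.h2 h.hs h.ht h.ca hGG hn)
  · right
    have h4 := CfsgLib.H14KT.inj h.h2 h.h3 h.hs hS hn
    rw [sS_add h.hs2 h.ht2] at h4
    apply h.unit_of
    intro x hx
    apply h4
    rw [mul_one, LinearMap.neg_apply, neg_eq_zero]
    have : c' * c' * X * X = (c' * X * X) * c' := by ring
    rw [this, ev_mul]
    show ev s t (c' * X * X) (ev s t c' (s x)) = 0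
    rw [hx, map_zero]

theorem NN.d22 (h : NN G s t) {a b c d : k[X] ⧸ AI s t} (hg : Gn k (Ideal.Quotient.mk (AI s t) X) a b c d) :
    d = 0 ∨ IsUnit d := by
  obtain ⟨a', b', c', d', hgn, rfl, rfl, rfl, rfl⟩ := hg.lift (Ideal.Quotient.mkₐ k (AI s t)) (z' := X) rfl
  obtain ⟨g, hGG⟩ := exists_GG (s := s) (t := t) hgn
  obtain ⟨-, ⟨b'', hb''⟩, -⟩ := hGG.one_mod
  have hT : TT s t b'' d' ∈ Qd G := by
    rw [← hGG.conj_t h.hs2 h.ht2 hb'']; exact cj_mem_Qd h.ht (hGG.mem h.hs.1 h.ht.1)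
  by_cases hn : IsNilpotent (s * TT s t b'' d' + TT s t b'' d' * s)
  · left
    obtain ⟨m, hm⟩ := hn
    obtain ⟨n1, n2⟩ := nilp_pair h.h2 m h.hs hT hm
    have e1 : d' * d' ∈ AI s t := by
      rw [mem_AI]
      apply annih h.ht2 h.ca
      have := sTs h.hs2 h.ht2 b'' d'
      rw [n1] at this
      rw [mul_comm X, ← this]
    have e2 := h.mem_iff.1 e1
    have e3 := comm_mem_Q0 h.hs.1 hT.1 n1 n2
    rw [sT_sub h.hs2 h.ht2] at e3
    have e4 : ev s t (d' * d') * (s * t - t * s) = 0 := by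
      rw [mul_sub, ← mul_assoc, e2, zero_mul, ← mul_assoc, ← t_ev h.ht2, mul_assoc, e2, mul_zero, sub_zero]
    rw [e4, zero_sub] at e3
    have e5 := neg_mem_Q0 e3
    rw [neg_neg] at e5
    have e6 := two_smul_mem h.h2 e5
    have e7 : ev s t (b'' * d' * X) * s = 0 := by
      apply nil_mul h.hs (s_ev h.hs2 _) e6
      rw [← ev_mul]
      have : b'' * d' * X * (b'' * d' * X) = (b'' * b'' * X * X) * (d' * d') := by ring
      rw [this, ev_mul, mul_assoc, e2, mul_zero]
    apply Ideal.Quotient.eq_zero_iff_mem.2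
    rw [h.mem_iff]
    have hdet := hGG.det
    have : d' = a' * (d' * d') - c' * (b'' * d' * X) := by
      rw [hb''] at hdet; linear_combination (-d') * hdet
    rw [this, ev_sub, sub_mul, ev_mul a', ev_mul c', mul_assoc, e2, mul_assoc, e7, mul_zero, mul_zero, sub_zero]
  · right
    have h4 := CfsgLib.H14KT.inj h.h2 h.h3 h.hs hT hn
    rw [sT_add h.hs2 h.ht2] at h4
    apply h.unit_of
    intro x hx
    apply h4
    rw [mul_one]
    have : d' * d' * X = (d' * X) * d' := by ring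
    rw [this, ev_mul]
    show ev s t (d' * X) (ev s t d' (s x)) = 0
    rw [hx, map_zero]

theorem NN.sq (h : NN G s t) (f : k[X]) : (ev s t f * s) * (ev s t f * s) = 0 := by
  rw [mul_assoc, ← mul_assoc s, s_ev h.hs2, mul_assoc, h.hs2, mul_zero, mul_zero]

theorem NN.mem_G (h : NN G s t) {f : k[X]}
    (hg : Gn k (Ideal.Quotient.mk (AI s t) X) 1 (Ideal.Quotient.mk (AI s t) (X * f)) 0 1) :
    tv (ev s t f * s) ∈ G := by
  obtain ⟨a, b, c, d, hgn, ea, eb, ec, ed⟩ := hg.lift (Ideal.Quotient.mkₐ k (AI s t)) (z' := X) rfl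
  obtain ⟨g, hGG⟩ := exists_GG (s := s) (t := t) hgn
  obtain ⟨-, -, ⟨r, hr⟩⟩ := hGG.one_mod
  obtain ⟨a', b', ha, hb, hval⟩ := hGG.val h.hs2 h.ht2
  have hA := h.ca
  have ea' : a - 1 ∈ AI s t := by
    rw [← Ideal.Quotient.eq_zero_iff_mem, map_sub, map_one, sub_eq_zero]; exact ea
  have ed' : d - 1 ∈ AI s t := by
    rw [← Ideal.Quotient.eq_zero_iff_mem, map_sub, map_one, sub_eq_zero]; exact ed
  have eb' : b - X * f ∈ AI s t := by
    rw [← Ideal.Quotient.eq_zero_iff_mem, map_sub, sub_eq_zero]; exact eb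
  have ec' : c ∈ AI s t := Ideal.Quotient.eq_zero_iff_mem.1 ec
  have hX : ∀ {e : k[X]}, X * e ∈ AI s t → e ∈ AI s t := fun {e} he => hA.ev he
  have f1 : a' ∈ AI s t := by
    apply hX
    have : X * a' = (a - 1) - (d - 1) := by rw [ha]; ring
    rw [this]; exact sub_mem ea' ed'
  have f2 : b' - f ∈ AI s t := by
    apply hX
    have : X * (b' - f) = b - X * f := by rw [hb]; ring
    rw [this]; exact eb'
  have f3 : ev s t d = 1 := by
    have : r ∈ AI s t := by
      apply hX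
      have : X * r = d - 1 := by rw [hr]; ring
      rw [this]; exact ed'
    rw [hr, ev_add, ev_one, mem_AI.1 this, add_zero]
  have f4 : (g : End k M) = 1 + ev s t f * s := by
    rw [hval, EE, f3, mul_one, ← mul_assoc, h.mem_iff.1 f1, zero_mul, add_zero, h.mem_t ec', add_zero]
    have := h.mem_iff.1 f2
    rw [ev_sub, sub_mul, sub_eq_zero] at this
    rw [this]
  have : tv (ev s t f * s) = g := by
    apply Units.ext
    rw [tv_val (h.sq f), f4]
  rw [this]
  exact hGG.mem h.hs.1 h.ht.1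

theorem NN.mem_Q0' (h : NN G s t) {f : k[X]}
    (hg : Gn k (Ideal.Quotient.mk (AI s t) X) 1 (Ideal.Quotient.mk (AI s t) (X * f)) 0 1) :
    ev s t f * s ∈ Q0 G := by
  refine ⟨h.sq f, fun e => ?_⟩
  by_cases he : e = 0
  · rw [he, zero_smul, tv_zero]; exact one_mem _
  · have h1 := hg.dc he
    rw [smul_zero] at h1
    have h4 : e • (ev s t f * s) = ev s t (C e * f) * s := by
      rw [ev_mul, mul_assoc, ev_C]
    rw [h4]
    apply h.mem_G
    refine h1.congr rfl ?_ rfl rfl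
    rw [Algebra.smul_def]
    have : algebraMap k (k[X] ⧸ AI s t) e = Ideal.Quotient.mk (AI s t) (C e) := rfl
    rw [this, ← map_mul]
    congr 1; ring

theorem NN.range_inj (h : NN G s t) {f : k[X]} (hf : ev s t f * s ∈ Q0 G) (h0 : ev s t f * s ≠ 0) (x : M)
    (hx : ev s t f (s x) = 0) : s x = 0 := by
  have hr := range_eq_of_le h.hs hf h0 (by rw [← s_ev h.hs2]; rintro _ ⟨x, rfl⟩; exact ⟨ev s t f x, rfl⟩)
  -- surjective on range s, hence injective
  have h1 := finrank_map_add (ev s t f) (LinearMap.range s)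
  have h4 : (LinearMap.range s).map (ev s t f) = LinearMap.range s := by
    rw [← range_mul]; exact hr
  rw [h4] at h1
  have h5 : finrank k ↥(LinearMap.range s ⊓ LinearMap.ker (ev s t f)) = 0 := by omega
  rw [Submodule.finrank_eq_zero] at h5
  have : s x ∈ LinearMap.range s ⊓ LinearMap.ker (ev s t f) := ⟨⟨x, rfl⟩, hx⟩
  rw [h5] at this
  exact this

/-- the key theorem -/
theorem NN.key (h : NN G s t) (f : k[X]) : ev s t f * s ∈ Q0 G := by
  have hu := AI_unit h.ca
  haveI := AI_nontrivial h.z0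
  have hgen := AI_gen (s := s) (t := t)
  obtain ⟨hB, hA'⟩ := all_of_mul (k := k) hu hgen (fun {β} hβ => B_mul_mem h.h2 h.h3 hu hgen Gn.hg
    (fun he h => h.dc he) (fun a => Gn.gx a) (fun a => Gn.gy a) (fun _ => ⟨fun hg => h.c21 hg, fun hg => h.d22 hg, by
      intro b hb
      obtain ⟨z', hz'⟩ := hu.exists_right_inv
      obtain ⟨f, hf⟩ := Ideal.Quotient.mk_surjective (z' * b)
      have e : b = Ideal.Quotient.mk (AI s t) (X * f) := by
        rw [map_mul, hf, ← mul_assoc, hz', one_mul]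
      rw [e] at hb ⊢
      have h1 := h.mem_Q0' hb
      by_cases h0 : ev s t f * s = 0
      · left
        rw [map_mul, Ideal.Quotient.eq_zero_iff_mem.2 (h.mem_iff.2 h0), mul_zero]
      · right
        rw [map_mul]
        exact hu.mul (h.unit_of (h.range_inj h1 h0))⟩) hβ)
  exact h.mem_Q0' (hA' _)

end CfsgLib.H14KT
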