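import Cfsg.Agent.LibH14QP
import Cfsg.Agent.LibH14Crux

/-! Pairs of square zero elements : the algebra generated by them (seat helper14). -/

set_option autoImplicit false

namespace CfsgLib.H14Pr

section generic
variable {P B : Type*} [CommRing P] [Ring B] [Module P B]

structure Pr (s t : B) (X : P) : Prop where
  sm : ∀ (f : P) (x y : B), (f • x) * y = f • (x * y)
  s2 : s * s = 0
  t2 : t * t = 0
  hz : s * t + t * s = X • 1
  cs : ∀ (f : P) (x : B), s * (f • x) = f • (s * x)
  ct : ∀ (f : P) (x : B), t * (f • x) = f • (t * x)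

variable {s t : B} {X : P}

theorem Pr.symm (h : Pr s t X) : Pr t s X :=
  ⟨h.sm, h.t2, h.s2, by rw [add_comm]; exact h.hz, h.ct, h.cs⟩

theorem Pr.ts (h : Pr s t X) : t * s = X • 1 - s * t := by rw [← h.hz]; abel

theorem Pr.sts (h : Pr s t X) : s * (t * s) = X • s := by
  rw [h.ts, mul_sub, h.cs, mul_one, ← mul_assoc, h.s2, zero_mul, sub_zero]

theorem Pr.tst (h : Pr s t X) : t * (s * t) = X • t := h.symm.sts

theorem Pr.ss (h : Pr s t X) (x : B) : s * (s * x) = 0 := by rw [← mul_assoc, h.s2, zero_mul]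
theorem Pr.tt (h : Pr s t X) (x : B) : t * (t * x) = 0 := by rw [← mul_assoc, h.t2, zero_mul]

/-- general element -/
def E (s t : B) (a b c d : P) : B := d • 1 + a • (s * t) + b • s + c • t

/-- conjugates of `s` -/
def S (s t : B) (X : P) (p q : P) : B := (p * p) • s + (p * q) • (t * s - s * t) - (q * q * X) • t

/-- conjugates of `t` -/
def T (s t : B) (X : P) (b d : P) : B := (d * d) • t + (b * d) • (s * t - t * s) - (X * b * b) • s

theorem Pr.E_x (h : Pr s t X) (e a b c d : P) :
    (1 + e • s) * E s t a b c d = E s t (a + e * c) (b + e * d) c d := by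
  unfold E
  simp only [add_mul, mul_add, one_mul, mul_one, h.sm, h.cs, h.ct, h.ss, h.s2, smul_zero, mul_assoc, h.sts, h.tst]
  module

theorem Pr.E_y (h : Pr s t X) (e a b c d : P) :
    (1 + e • t) * E s t a b c d = E s t (a - e * b) b (c + e * (d + X * a)) (d + e * (X * b)) := by
  unfold E
  simp only [add_mul, mul_add, one_mul, mul_one, h.sm, h.cs, h.ct, h.tt, h.t2, smul_zero, mul_assoc, h.tst, h.ts]
  module

theorem E_one : E s t (0 : P) 0 0 1 = 1 := by unfold E; simp

theorem Pr.E_s (h : Pr s t X) {a b c d : P} (hdet : (d + X * a) * d - X * b * c = 1) :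
    E s t a b c d * s = S s t X (d + X * a) c * E s t a b c d := by
  unfold E S
  simp only [add_mul, mul_add, sub_mul, mul_sub, one_mul, mul_one, h.sm, h.cs, h.ct, h.ss, h.s2, h.tt, h.t2,
    smul_zero, mul_assoc, h.sts, h.tst, smul_sub, smul_add, sub_zero, add_zero, zero_add, zero_sub, mul_zero]
  match_scalars
  · linear_combination (-(d + X * a)) * hdet
  · linear_combination (-c) * hdet
  · ring
  · ring

theorem Pr.E_t (h : Pr s t X) {a b c d : P} (hdet : (d + X * a) * d - X * b * c = 1) :
    E s t a b c d * t = T s t X b d * E s t a b c d := by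
  unfold E T
  simp only [add_mul, mul_add, sub_mul, mul_sub, one_mul, mul_one, h.sm, h.cs, h.ct, h.ss, h.s2, h.tt, h.t2,
    smul_zero, mul_assoc, h.sts, h.tst, smul_sub, smul_add, sub_zero, add_zero, zero_add, zero_sub, mul_zero]
  match_scalars
  · linear_combination (-d) * hdet
  · linear_combination (-b) * hdet
  · ring
  · ring

theorem Pr.s_S (h : Pr s t X) (p q : P) : s * S s t X p q = (p * q * X) • s - (q * q * X) • (s * t) := by
  unfold S
  simp only [add_mul, mul_add, sub_mul, mul_sub, one_mul, mul_one, h.sm, h.cs, h.ct, h.ss, h.s2, h.tt, h.t2,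
    smul_zero, mul_assoc, h.sts, h.tst, smul_sub, smul_add, sub_zero, add_zero, zero_add, zero_sub, mul_zero]
  module

theorem Pr.S_s (h : Pr s t X) (p q : P) : S s t X p q * s = -((p * q * X) • s) - (q * q * X) • (t * s) := by
  unfold S
  simp only [add_mul, mul_add, sub_mul, mul_sub, one_mul, mul_one, h.sm, h.cs, h.ct, h.ss, h.s2, h.tt, h.t2,
    smul_zero, mul_assoc, h.sts, h.tst, smul_sub, smul_add, sub_zero, add_zero, zero_add, zero_sub, mul_zero]
  module

theorem Pr.sS_add (h : Pr s t X) (p q : P) : s * S s t X p q + S s t X p q * s = -((q * q * X * X) • 1) := by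
  rw [h.s_S, h.S_s, h.ts]; module

theorem Pr.sS_sub (h : Pr s t X) (p q : P) : s * S s t X p q - S s t X p q * s =
    (2 * (p * q * X)) • s - (q * q * X) • (s * t - t * s) := by
  rw [h.s_S, h.S_s]; module

theorem Pr.sSs (h : Pr s t X) (p q : P) : s * S s t X p q * s = -((q * q * X * X) • s) := by
  rw [h.s_S, sub_mul, h.sm, h.sm, h.s2, mul_assoc s t s, h.sts]; module

theorem Pr.s_T (h : Pr s t X) (b d : P) : s * T s t X b d = (d * d) • (s * t) - (b * d * X) • s := by
  unfold T
  simp only [add_mul, mul_add, sub_mul, mul_sub, one_mul, mul_one, h.sm, h.cs, h.ct, h.ss, h.s2, h.tt, h.t2,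
    smul_zero, mul_assoc, h.sts, h.tst, smul_sub, smul_add, sub_zero, add_zero, zero_add, zero_sub, mul_zero]
  module

theorem Pr.T_s (h : Pr s t X) (b d : P) : T s t X b d * s = (d * d) • (t * s) + (b * d * X) • s := by
  unfold T
  simp only [add_mul, mul_add, sub_mul, mul_sub, one_mul, mul_one, h.sm, h.cs, h.ct, h.ss, h.s2, h.tt, h.t2,
    smul_zero, mul_assoc, h.sts, h.tst, smul_sub, smul_add, sub_zero, add_zero, zero_add, zero_sub, mul_zero]
  module

theorem Pr.sT_add (h : Pr s t X) (b d : P) : s * T s t X b d + T s t X b d * s = (d * d * X) • 1 := by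
  rw [h.s_T, h.T_s, h.ts]; module

theorem Pr.sT_sub (h : Pr s t X) (b d : P) : s * T s t X b d - T s t X b d * s =
    (d * d) • (s * t - t * s) - (2 * (b * d * X)) • s := by
  rw [h.s_T, h.T_s]; module

theorem Pr.sTs (h : Pr s t X) (b d : P) : s * T s t X b d * s = (d * d * X) • s := by
  rw [h.s_T, sub_mul, h.sm, h.sm, h.s2, mul_assoc s t s, h.sts]; module

/-- when `q X = 0` -/
theorem Pr.S_tri (h : Pr s t X) {p q p' : P} (hp : p = 1 + X * p') (hq : ∀ x : B, (q * X) • x = 0) :
    S s t X p q = (p * p) • s + (2 * q) • (t * s) := by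
  unfold S
  have e1 : s * t = X • 1 - t * s := by rw [← h.hz]; abel
  have e2 : ∀ x : B, (p * q) • x = q • x := by
    intro x
    have : p * q = q + p' * (q * X) := by rw [hp]; ring
    rw [this, add_smul, mul_smul p', hq, smul_zero, add_zero]
  have e3 : ∀ x : B, (q * q * X) • x = 0 := by
    intro x
    rw [mul_assoc, mul_smul, hq, smul_zero]
  have e4 : q • (X • (1 : B)) = 0 := by rw [smul_smul, hq]
  rw [e1, e2, e3, smul_sub, smul_sub, e4]
  module

end generic

/-! ### generated group -/

section gn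
open CfsgLib.H14Inf CfsgLib.H14Crux

inductive Gn (k : Type*) [Field k] {R : Type*} [CommRing R] [Algebra k R] (z : R) : R → R → R → R → Prop
  | one : Gn k z 1 0 0 1
  | x (e : k) {a b c d : R} : Gn k z a b c d → Gn k z (a + e • z * c) (b + e • z * d) c d
  | y (e : k) {a b c d : R} : Gn k z a b c d → Gn k z a b (c + algebraMap k R e * a) (d + algebraMap k R e * b)

variable {k : Type*} [Field k] {R : Type*} [CommRing R] [Algebra k R] {z : R}

theorem Gn.congr {a b c d a' b' c' d' : R} (h : Gn k z a b c d) (h1 : a = a') (h2 : b = b')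
    (h3 : c = c') (h4 : d = d') : Gn k z a' b' c' d' := by
  subst h1 h2 h3 h4; exact h

theorem Gn.det {a b c d : R} (h : Gn k z a b c d) : a * d - b * c = 1 := by
  induction h with
  | one => ring
  | x e _ ih => linear_combination ih
  | y e _ ih => linear_combination ih

theorem Gn.mul {a b c d a' b' c' d' : R} (h : Gn k z a b c d) (h' : Gn k z a' b' c' d') :
    Gn k z (a * a' + b * c') (a * b' + b * d') (c * a' + d * c') (c * b' + d * d') := by
  induction h with
  | one => exact h'.congr (by ring) (by ring) (by ring) (by ring)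
  | x e _ ih => exact (Gn.x e ih).congr (by ring) (by ring) rfl rfl
  | y e _ ih => exact (Gn.y e ih).congr rfl rfl (by ring) (by ring)

theorem Gn.gx (e : k) : Gn k z 1 (e • z) 0 1 := (Gn.x e Gn.one).congr (by ring) (by ring) rfl rfl
theorem Gn.gy (e : k) : Gn k z 1 0 (algebraMap k R e) 1 := (Gn.y e Gn.one).congr rfl rfl (by ring) (by ring)

theorem Gn.inv {a b c d : R} (h : Gn k z a b c d) : Gn k z d (-b) (-c) a := by
  induction h with
  | one => exact Gn.one.congr rfl (by ring) (by ring) rfl
  | x e _ ih => exact (ih.mul (Gn.gx (-e))).congr (by ring) (by rw [neg_smul]; ring) (by ring) (by rw [neg_smul]; ring)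
  | y e _ ih => exact (ih.mul (Gn.gy (-e))).congr (by rw [map_neg]; ring) (by ring) (by rw [map_neg]; ring) (by ring)

theorem Gn.dc {a b c d : R} (h : Gn k z a b c d) {e : k} (he : e ≠ 0) : Gn k z a (e • b) (e⁻¹ • c) d := by
  have e1 : algebraMap k R e * algebraMap k R e⁻¹ = 1 := by rw [← map_mul, mul_inv_cancel₀ he, map_one]
  induction h with
  | one => exact Gn.one.congr rfl (by rw [smul_zero]) (by rw [smul_zero]) rfl
  | @x f _ _ c₁ _ _ ih =>
    refine (Gn.x (f * e) ih).congr ?_ ?_ rfl rfl
    · simp only [Algebra.smul_def, map_mul]; linear_combination (algebraMap k R f * z * c₁) * e1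
    · simp only [Algebra.smul_def, map_mul]; ring
  | @y f _ b₁ _ _ _ ih =>
    refine (Gn.y (f * e⁻¹) ih).congr rfl rfl ?_ ?_
    · simp only [Algebra.smul_def, map_mul]; ring
    · simp only [Algebra.smul_def, map_mul]; linear_combination (algebraMap k R f * b₁) * e1

theorem Gn.wc {a b c d : R} (h : Gn k z a b c d) : ∃ b', z * b' = b ∧ Gn k z d (z * c) b' a := by
  induction h with
  | one => exact ⟨0, by ring, Gn.one.congr rfl (by ring) rfl rfl⟩
  | x f _ ih =>
    obtain ⟨b', hb', h⟩ := ih
    refine ⟨b' + algebraMap k R f * _, ?_, (Gn.y f h).congr rfl rfl rfl ?_⟩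
    · rw [mul_add, hb', Algebra.smul_def]; ring
    · rw [Algebra.smul_def]; ring
  | y f _ ih =>
    obtain ⟨b', hb', h⟩ := ih
    refine ⟨b', hb', (Gn.x f h).congr ?_ ?_ rfl rfl⟩
    · rw [Algebra.smul_def, ← hb']; ring
    · rw [Algebra.smul_def]; ring

theorem Gn.hg : HG z (Gn k z) where
  det := Gn.det
  mul := Gn.mul
  inv := Gn.inv
  one := Gn.one
  ic := fun h => (h.dc (e := -1) (by simp)).congr rfl (by simp) (by simp) rfl
  wc := Gn.wc

/-- lifting along a surjection (a ring hom) -/
theorem Gn.lift {R' : Type*} [CommRing R'] [Algebra k R'] (φ : R' →ₐ[k] R) {z' : R'} (hz : φ z' = z)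
    {a b c d : R} (h : Gn k z a b c d) :
    ∃ a' b' c' d' : R', Gn k z' a' b' c' d' ∧ φ a' = a ∧ φ b' = b ∧ φ c' = c ∧ φ d' = d := by
  induction h with
  | one => exact ⟨1, 0, 0, 1, Gn.one, map_one _, map_zero _, map_zero _, map_one _⟩
  | x e _ ih =>
    obtain ⟨a', b', c', d', h, e1, e2, e3, e4⟩ := ih
    refine ⟨_, _, _, _, Gn.x e h, ?_, ?_, e3, e4⟩
    · rw [map_add, map_mul, map_smul, hz, e1, e3]
    · rw [map_add, map_mul, map_smul, hz, e2, e4]
  | y e _ ih =>
    obtain ⟨a', b', c', d', h, e1, e2, e3, e4⟩ := ih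
    refine ⟨_, _, _, _, Gn.y e h, e1, e2, ?_, ?_⟩
    · rw [map_add, map_mul, AlgHom.commutes, e1, e3]
    · rw [map_add, map_mul, AlgHom.commutes, e2, e4]

theorem Gn.map {R' : Type*} [CommRing R'] [Algebra k R'] (φ : R →ₐ[k] R') {z' : R'} (hz : φ z = z')
    {a b c d : R} (h : Gn k z a b c d) : Gn k z' (φ a) (φ b) (φ c) (φ d) := by
  induction h with
  | one => exact Gn.one.congr (map_one _).symm (map_zero _).symm (map_zero _).symm (map_one _).symm
  | x e _ ih => exact (Gn.x e ih).congr (by simp [hz]) (by simp [hz]) rfl rfl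
  | y e _ ih => exact (Gn.y e ih).congr rfl rfl (by simp) (by simp)

end gn

end CfsgLib.H14Pr
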