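import Cfsg.Agent.LibH14QR

/-! Quadratic pairs: partners and the commutator case (seat helper14). -/

set_option autoImplicit false

namespace CfsgLib.H14QC

open Cfsg CfsgLib.H14R1 CfsgLib.H14QP CfsgLib.H14KT CfsgLib.H14QR CfsgLib.H14Unip Module Polynomial

variable {k : Type*} [Field k] {M : Type*} [AddCommGroup M] [Module k M] [FiniteDimensional k M]
  {G : Subgroup (LinearMap.GeneralLinearGroup k M)} {s t u v : End k M}

/-! ### partners -/

theorem exists_partner (h2 : (2 : k) ≠ 0) (h3 : Nat.card k ≠ 3) (hirr : IsIrreducibleFor G) (hs : s ∈ Qd G) :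
    ∃ g ∈ G, NN G s (cjE g s) := by
  by_contra hcon
  push Not at hcon
  have hnil : ∀ g ∈ G, IsNilpotent (s * cjE g s + cjE g s * s) := by
    intro g hg
    by_contra hc
    exact hcon g hg ⟨h2, h3, hs, cj_mem_Qd hs hg, hc⟩
  let W : Set (Subgroup (LinearMap.GeneralLinearGroup k M)) := {A | ∃ g ∈ G, A = conjBy (EG s hs.1.1 G) g}
  have hWconj : ∀ A ∈ W, ∀ g ∈ G, conjBy A g ∈ W := by
    rintro _ ⟨h, hh, rfl⟩ g hg
    exact ⟨g * h, mul_mem hg hh, cj_cj _ _ _⟩
  have hWG : ∀ A ∈ W, A ≤ G := by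
    rintro _ ⟨h, hh, rfl⟩
    rw [EG_conj hh]; exact EG_le
  have hWW : ∀ A ∈ W, ∀ B ∈ W, IsUnipotentOn (A ⊔ B) := by
    rintro _ ⟨g, hg, rfl⟩ _ ⟨h, hh, rfl⟩
    have e : conjBy (EG s hs.1.1 G) g ⊔ conjBy (EG s hs.1.1 G) h =
        conjBy (EG s hs.1.1 G ⊔ conjBy (EG s hs.1.1 G) (g⁻¹ * h)) g := by
      rw [cj_sup, cj_cj]; congr 2; group
    rw [e, EG_conj (mul_mem (inv_mem hg) hh)]
    apply unip_conj
    exact nil_unip h2 h3 hs (cj_mem_Qd hs (mul_mem (inv_mem hg) hh)) (hnil _ (mul_mem (inv_mem hg) hh))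
  have hU := baer_suzuki hWW fun A hA B hB g hg => hWconj A hA g (hWG B hB hg)
  set N := ⨆ A ∈ W, A with hN
  have hnorm : ∀ g ∈ G, N ≤ conjBy N g := by
    intro g hg
    refine iSup₂_le fun A hA => ?_
    have h5 : conjBy A g⁻¹ ≤ N := le_iSup₂_of_le _ (hWconj A hA _ (inv_mem hg)) le_rfl
    rw [← cj_le (g := g), cj_cj, mul_inv_cancel, cj_one] at h5
    exact h5
  have hsN : tv s ∈ N := by
    have : EG s hs.1.1 G ≤ N := le_iSup₂_of_le _ ⟨1, one_mem _, (cj_one _).symm⟩ le_rfl
    exact this ⟨s, self_mem_ES hs.1, rfl⟩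
  obtain ⟨⟨m₀, hm₀⟩, hir⟩ := hirr
  rcases hir (fl N 1) (by
    intro g hg w hw n hn
    have h5 : g⁻¹ * n * g ∈ N := by
      have := hnorm g hg hn
      exact mem_cj.1 this
    have h6 : ap (g⁻¹ * n * g) w - w = 0 := hw _ h5
    show ap n (ap g w) - ap g w ∈ (⊥ : Submodule k M)
    have : ap n (ap g w) - ap g w = ap g (ap (g⁻¹ * n * g) w - w) := by
      rw [ap_sub, ap_mul, ap_mul, ap_inv']
    rw [this, h6]
    show (g : M →ₗ[k] M) 0 ∈ _
    rw [map_zero]; exact zero_mem _) with h | h
  · obtain ⟨m, -, hm, hm2⟩ := exists_rel_fixed hU (N := ⊥) (F := ⊤) (fun _ _ _ _ => trivial) (by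
      intro hle
      exact hm₀ (hle (show m₀ ∈ ⊤ from trivial)))
    have : m ∈ fl N 1 := hm2
    rw [h] at this
    exact hm this
  · apply hs.2.1
    ext x
    have : x ∈ fl N 1 := by rw [h]; trivial
    have h5 : ap (tv s) x - x = 0 := this _ hsN
    rwa [ap_tv hs.1.1] at h5

/-- every `s ∈ Qd` has an opposite -/
theorem exists_opp (h2 : (2 : k) ≠ 0) (h3 : Nat.card k ≠ 3) (hirr : IsIrreducibleFor G) (hs : s ∈ Qd G) :
    ∃ t ∈ Qd G, Opp s t := by
  obtain ⟨g, hg, h⟩ := exists_partner h2 h3 hirr hs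
  obtain ⟨t', ht', ht0, ho⟩ := nn_opp h
  exact ⟨t', (ES_ne_zero h.ht ht' ht0).1, ho⟩

/-! ### homogeneous pairs -/

structure Hm (s t u v : End k M) : Prop where
  hu : u = s * t - t * s
  s2 : s * s = 0
  t2 : t * t = 0
  sts : s * t * s = 0
  tst : t * s * t = 0
  o : Opp u v
  hms : u * v * s + s * v * u = s
  hmt : u * v * t + t * v * u = t
  r1 : LinearMap.range (s * t) = LinearMap.range s ⊓ LinearMap.ker t
  r2 : LinearMap.range (t * s) = LinearMap.range t ⊓ LinearMap.ker s
  dis : Disjoint (LinearMap.range (s * t)) (LinearMap.range (t * s))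

section hm

theorem Hm.us (h : Hm s t u v) : u * s = 0 := by
  rw [h.hu, sub_mul, h.sts, mul_assoc t, h.s2, mul_zero, sub_zero]
theorem Hm.su (h : Hm s t u v) : s * u = 0 := by
  rw [h.hu, mul_sub, ← mul_assoc, h.s2, zero_mul, ← mul_assoc, h.sts, sub_zero]
theorem Hm.ut (h : Hm s t u v) : u * t = 0 := by
  rw [h.hu, sub_mul, h.tst, mul_assoc s, h.t2, mul_zero, sub_zero]
theorem Hm.tu (h : Hm s t u v) : t * u = 0 := by
  rw [h.hu, mul_sub, ← mul_assoc, h.tst, ← mul_assoc, h.t2, zero_mul, sub_zero]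

theorem Opp.neg (h : Opp u v) : Opp (-u) (-v) :=
  ⟨by simp [h.s2], by simp [h.t2], by simp [h.sts], by simp [h.tst]⟩

theorem Hm.symm (h : Hm s t u v) : Hm t s (-u) (-v) where
  hu := by rw [h.hu]; abel
  s2 := h.t2
  t2 := h.s2
  sts := h.tst
  tst := h.sts
  o := Opp.neg h.o
  hms := by simpa using h.hmt
  hmt := by simpa using h.hms
  r1 := h.r2
  r2 := h.r1
  dis := h.dis.symm

theorem Hm.uvsvu (h : Hm s t u v) : u * v * s * v * u = 0 := by
  have h1 : u * v * (u * v * s + s * v * u) = u * v * s := congrArg (fun x => u * v * x) h.hms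
  have e : u * v * (u * v * s + s * v * u) = u * v * s + u * v * s * v * u := by
    rw [mul_add, ← mul_assoc, ← mul_assoc, h.o.sts, ← mul_assoc, ← mul_assoc]
  rw [e] at h1
  simpa using h1

theorem Hm.vsv (h : Hm s t u v) : v * s * v = 0 := by
  calc v * s * v = (v * u * v) * s * (v * u * v) := by rw [h.o.tst]
    _ = v * (u * v * s * v * u) * v := by simp only [mul_assoc]
    _ = 0 := by rw [h.uvsvu]; simp

/-- `range p ⊆ range u` etc: `uvp = p` -/
theorem Hm.uvp (h : Hm s t u v) : u * v * (s * t) = s * t := by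
  -- uvs = s - svu ; (uvs) t = st - sv(ut)
  have h1 := congrArg (fun x => x * t) h.hms
  simp only [add_mul] at h1
  rw [mul_assoc (s * v) u t, h.ut, mul_zero, add_zero] at h1
  rw [← mul_assoc]; exact h1

theorem Hm.uvq (h : Hm s t u v) : u * v * (t * s) = t * s := by
  have := h.symm.uvp
  simpa using this

theorem Hm.pvu (h : Hm s t u v) : s * t * (v * u) = s * t := by
  have h1 := congrArg (fun x => s * x) h.hmt
  simp only [mul_add] at h1
  have e : s * (u * v * t) = 0 := by rw [← mul_assoc, ← mul_assoc, h.su]; simp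
  rw [e, zero_add] at h1
  simp only [mul_assoc] at h1 ⊢; exact h1

theorem Hm.qvp (h : Hm s t u v) : t * s * v * (s * t) = 0 ∧ s * t * v * (s * t) = s * t := by
  have h1 := h.uvp
  have h4 : s * t * v * (s * t) - t * s * v * (s * t) = s * t := by
    rw [← sub_mul, ← sub_mul, ← h.hu]; exact h1
  have h5 : t * s * v * (s * t) = 0 := by
    ext x
    have e := LinearMap.congr_fun h4 x
    rw [LinearMap.sub_apply] at e
    have m1 : (t * s * v * (s * t)) x ∈ LinearMap.range (t * s) := ⟨(v * (s * t)) x, rfl⟩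
    have m2 : (t * s * v * (s * t)) x ∈ LinearMap.range (s * t) := by
      have : (t * s * v * (s * t)) x = (s * t * v * (s * t)) x - (s * t) x := by rw [← e]; abel
      rw [this]
      exact Submodule.sub_mem _ ⟨(v * (s * t)) x, rfl⟩ ⟨x, rfl⟩
    exact h.dis.le_bot ⟨m2, m1⟩
  exact ⟨h5, by rw [h5, sub_zero] at h4; exact h4⟩

theorem Hm.pvq (h : Hm s t u v) : s * t * v * (t * s) = 0 ∧ t * s * v * (t * s) = -(t * s) := by
  have := h.symm.qvp
  simp only [mul_neg, neg_mul, neg_eq_zero] at this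
  exact ⟨this.1, neg_eq_iff_eq_neg.1 this.2⟩

theorem Hm.pvs (h : Hm s t u v) : s * t * v * s = u * v * s ∧ t * s * v * s = 0 := by
  have key : s * t * v * (u * v * s) = u * v * s := by
    ext x
    have m : (u * v * s) x ∈ LinearMap.range (s * t) := by
      rw [h.r1]
      constructor
      · have : u * v * s = s - s * v * u := by rw [eq_sub_iff_add_eq]; exact h.hms
        rw [this, LinearMap.sub_apply]
        exact Submodule.sub_mem _ ⟨x, rfl⟩ ⟨(v * u) x, rfl⟩
      · show (t * (u * v * s)) x = 0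
        rw [← mul_assoc, ← mul_assoc, h.tu]; simp
    obtain ⟨y, hy⟩ := m
    show (s * t * v) ((u * v * s) x) = _
    rw [← hy]
    exact LinearMap.congr_fun h.qvp.2 y
  have e : s * t * v * (u * v * s) = s * t * v * s := by
    calc s * t * v * (u * v * s) = s * t * (v * u * v) * s := by simp only [mul_assoc]
      _ = _ := by rw [h.o.tst]
  rw [e] at key
  refine ⟨key, ?_⟩
  have h4 : u * v * s = s * t * v * s - t * s * v * s := by rw [← sub_mul, ← sub_mul, ← h.hu]
  rw [key] at h4
  have := sub_eq_zero.2 h4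
  have e5 : t * s * v * s = u * v * s - (u * v * s - t * s * v * s) := by abel
  rw [e5, this]

theorem Hm.svp (h : Hm s t u v) : s * v * (s * t) = 0 ∧ s * v * (t * s) = -(s * v * u) := by
  have h1 : s * v * (s * t) = 0 := by
    ext x
    have m : (s * v * (s * t)) x ∈ LinearMap.range (s * t) := by
      rw [h.r1]
      constructor
      · exact ⟨(v * (s * t)) x, rfl⟩
      · show (t * (s * v * (s * t))) x = 0
        have : t * (s * v * (s * t)) = t * s * v * (s * t) := by simp only [mul_assoc]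
        rw [this, h.qvp.1]; simp
    obtain ⟨y, hy⟩ := m
    have e1 : (u * v) ((s * v * (s * t)) x) = (s * v * (s * t)) x := by
      rw [← hy]; exact LinearMap.congr_fun h.uvp y
    rw [← e1]
    show (u * v * (s * v * (s * t))) x = 0
    have : u * v * (s * v * (s * t)) = u * (v * s * v) * (s * t) := by simp only [mul_assoc]
    rw [this, h.vsv]; simp
  refine ⟨h1, ?_⟩
  rw [h.hu, mul_sub, h1, zero_sub, neg_neg]

/-- `y = vt - tv` is (up to sign) opposite to `s` -/
theorem Hm.opp2 (h : Hm s t u v) : Opp s (t * v - v * t) := by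
  have a1 := h.vsv
  have a2 : v * t * v = 0 := by have := h.symm.vsv; simpa using this
  have b1 := h.pvs.1
  have b2 := h.svp.2
  have c1 : t * s * v * t = -(u * v * t) := by
    have := h.symm.pvs.1
    simp only [mul_neg, neg_mul, neg_neg] at this
    rw [← this]; simp
  have c2 : t * v * (s * t) = t * v * u := by
    have := h.symm.svp.2
    simp only [mul_neg, neg_mul, neg_neg] at this
    have := neg_injective this
    exact this
  refine ⟨h.s2, ?_, ?_, ?_⟩
  · calc (t * v - v * t) * (t * v - v * t) = t * (v * t * v) - t * (v * v) * t - v * (t * t) * v + (v * t * v) * t := by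
          noncomm_ring
      _ = 0 := by rw [a2, h.o.t2, h.t2]; simp
  · calc s * (t * v - v * t) * s = s * t * v * s - s * v * (t * s) := by noncomm_ring
      _ = s := by rw [b1, b2, sub_neg_eq_add]; exact h.hms
  · calc (t * v - v * t) * s * (t * v - v * t) =
          (t * v * (s * t)) * v - t * (v * s * v) * t - v * (t * s * t) * v + v * (t * s * v * t) := by noncomm_ring
      _ = t * v - v * t := by
        rw [c2, a1, h.tst, c1]
        have : t * v * u * v = t * v := by rw [mul_assoc t, mul_assoc t, h.o.tst]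
        rw [this]
        have : v * -(u * v * t) = -(v * t) := by
          rw [mul_neg, ← mul_assoc, ← mul_assoc, h.o.tst]
        rw [this]
        simp; abel

end hm

end CfsgLib.H14QC
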