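import Cfsg.Agent.LibH14QC

/-! Quadratic pairs: surjectivity of the commutator map (seat helper14). -/

set_option autoImplicit false

namespace CfsgLib.H14QC

open Cfsg CfsgLib.H14R1 CfsgLib.H14QP CfsgLib.H14KT CfsgLib.H14QR CfsgLib.H14Unip Module Polynomial

variable {k : Type*} [Field k] {M : Type*} [AddCommGroup M] [Module k M] [FiniteDimensional k M]
  {G : Subgroup (LinearMap.GeneralLinearGroup k M)} {s t u v a b : End k M}

/-! ### torus elements -/

structure Sm (u v a b : End k M) : Prop where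
  o : Opp u v
  o' : Opp a b
  ab : a * b = u * v
  ba : b * a = v * u
  au : a * u = 0
  ua : u * a = 0
  bv : b * v = 0
  vb : v * b = 0

theorem sm_of (o : Opp u v) (o' : Opp a b) (hr : LinearMap.range a = LinearMap.range u)
    (hk : LinearMap.ker a = LinearMap.ker u) (hr' : LinearMap.range b = LinearMap.range v)
    (hk' : LinearMap.ker b = LinearMap.ker v) : Sm u v a b := by
  have kz : ∀ {x y z : End k M}, LinearMap.ker x = LinearMap.ker y → y * z = 0 → x * z = 0 := by
    intro x y z h hz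
    ext m
    have : z m ∈ LinearMap.ker y := LinearMap.congr_fun hz m
    rw [← h] at this; exact this
  have rz : ∀ {x y z : End k M}, LinearMap.range x = LinearMap.range y → z * y = 0 → z * x = 0 := by
    intro x y z h hz
    ext m
    obtain ⟨w, hw⟩ : x m ∈ LinearMap.range y := by rw [← h]; exact ⟨m, rfl⟩
    show z (x m) = 0
    rw [← hw]; exact LinearMap.congr_fun hz w
  have e1 : a * (1 - b * a) = 0 := by rw [mul_sub, ← mul_assoc, o'.sts]; simp
  have e2 : (1 - a * b) * a = 0 := by rw [sub_mul, o'.sts]; simp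
  have e3 : b * (1 - a * b) = 0 := by rw [mul_sub, ← mul_assoc, o'.tst]; simp
  have e4 : (1 - b * a) * b = 0 := by rw [sub_mul, o'.tst]; simp
  -- range u = range a : (1 - a b) u = 0 ; ker v = ker b : v (1 - a b) = 0
  have f1 : (1 - a * b) * u = 0 := rz hr.symm e2
  have f2 : v * (1 - a * b) = 0 := kz hk'.symm e3
  have f3 : u * (1 - b * a) = 0 := kz hk.symm e1
  have f4 : (1 - b * a) * v = 0 := rz hr'.symm e4
  rw [sub_mul, one_mul, sub_eq_zero] at f1 f4
  rw [mul_sub, mul_one, sub_eq_zero] at f2 f3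
  -- u v = a b u v = a (b u v), b u v = b
  have g1 : b * (1 - u * v) = 0 := kz hk' (by rw [mul_sub, ← mul_assoc, o.tst]; simp)
  have g2 : a * (1 - v * u) = 0 := kz hk (by rw [mul_sub, ← mul_assoc, o.sts]; simp)
  rw [mul_sub, mul_one, sub_eq_zero] at g1 g2
  refine ⟨o, o', ?_, ?_, kz hk o.s2, rz hr o.s2, kz hk' o.t2, rz hr' o.t2⟩
  · calc a * b = a * (b * (u * v)) := by rw [← g1]
      _ = (a * b * u) * v := by simp only [mul_assoc]
      _ = u * v := by rw [← f1]
  · calc b * a = b * (a * (v * u)) := by rw [← g2]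
      _ = (b * a * v) * u := by simp only [mul_assoc]
      _ = v * u := by rw [← f4]

noncomputable def hh (u v a b : End k M) : LinearMap.GeneralLinearGroup k M := ww a b * ww v u

theorem ww_mem (hs : s ∈ Q0 G) (ht : t ∈ Q0 G) : ww s t ∈ G :=
  mul_mem (mul_mem (tv_mem hs) (inv_mem (tv_mem ht))) (tv_mem hs)

theorem hh_mem (hu : u ∈ Q0 G) (hv : v ∈ Q0 G) (ha : a ∈ Q0 G) (hb : b ∈ Q0 G) : hh u v a b ∈ G :=
  mul_mem (ww_mem ha hb) (ww_mem hv hu)

theorem pi_comm (s t : End k M) : pi s t = pi t s := by unfold pi; rw [add_comm]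

theorem ww_inv (o : Opp u v) : (ww u v)⁻¹ = ww v u := by
  rw [inv_eq_iff_mul_eq_one]
  apply Units.ext
  rw [Units.val_mul, o.ww_val, o.symm.ww_val, pi_comm v u]
  have a1 := o.pi_s
  have a2 := o.pi_t
  have a3 := o.s_pi
  have a4 := o.t_pi
  have a5 := o.pi_pi
  have a6 := o.s2
  have a7 := o.t2
  have a8 : u * v = pi u v - v * u := by unfold pi; abel
  simp only [mul_add, add_mul, mul_sub, sub_mul, mul_one, one_mul, a1, a2, a3, a4, a5, a6, a7, a8, Units.val_one]
  abel

theorem Sm.pi_eq (h : Sm u v a b) : pi a b = pi u v := by unfold pi; rw [h.ab, h.ba]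

theorem Sm.hh_val (h : Sm u v a b) : (hh u v a b : End k M) = 1 - pi u v + a * v + b * u := by
  unfold hh
  rw [Units.val_mul, h.o'.ww_val, h.o.symm.ww_val, pi_comm v u, h.pi_eq]
  have a1 := h.o.pi_s
  have a2 := h.o.pi_t
  have a5 := h.o.pi_pi
  have a3 := h.o'.s_pi
  have a4 := h.o'.t_pi
  rw [h.pi_eq] at a3 a4
  simp only [mul_add, add_mul, mul_sub, sub_mul, mul_one, one_mul, a1, a2, a3, a4, a5, h.au, h.bv]
  abel

theorem Sm.hh_inv (h : Sm u v a b) : ((hh u v a b)⁻¹ : LinearMap.GeneralLinearGroup k M).1 = 1 - pi u v + u * b + v * a := by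
  unfold hh
  rw [mul_inv_rev, ww_inv h.o', ww_inv h.o.symm, Units.val_mul, h.o'.symm.ww_val, h.o.ww_val, pi_comm b a, h.pi_eq]
  have a1 := h.o.s_pi
  have a2 := h.o.t_pi
  have a5 := h.o.pi_pi
  have a3 := h.o'.pi_s
  have a4 := h.o'.pi_t
  rw [h.pi_eq] at a3 a4
  simp only [mul_add, add_mul, mul_sub, sub_mul, mul_one, one_mul, a1, a2, a3, a4, a5, h.ua, h.vb]
  abel

theorem sm_smul (o : Opp u v) {c : k} (hc : c ≠ 0) : Sm u v (c • u) (c⁻¹ • v) where
  o := o
  o' := ⟨by simp [o.s2], by simp [o.t2], by simp [smul_mul_smul_comm, o.sts, hc], by simp [smul_mul_smul_comm, o.tst, hc]⟩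
  ab := by simp [smul_mul_smul_comm, hc]
  ba := by simp [smul_mul_smul_comm, hc]
  au := by simp [o.s2]
  ua := by simp [o.s2]
  bv := by simp [o.t2]
  vb := by simp [o.t2]

/-! ### interpolation -/

theorem interp (h2 : (2 : k) ≠ 0) (h3 : Nat.card k ≠ 3) {V : Type*} [AddCommGroup V] [Module k V]
    (N : Submodule k V) {x y z : V} (h : ∀ c : k, c ≠ 0 → x + c • y + (c * c) • z ∈ N) :
    x ∈ N ∧ y ∈ N ∧ z ∈ N := by
  obtain ⟨c, hc, hc1⟩ := exists_u h2 h3
  have a1 := h 1 one_ne_zero
  have a2 := h (-1) (by simp)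
  have a3 := h c hc
  have hy : y ∈ N := by
    have : (2 : k)⁻¹ • ((x + (1 : k) • y + ((1 : k) * 1) • z) - (x + (-1 : k) • y + ((-1 : k) * -1) • z)) ∈ N :=
      N.smul_mem _ (N.sub_mem a1 a2)
    have e : (2 : k)⁻¹ • ((x + (1 : k) • y + ((1 : k) * 1) • z) - (x + (-1 : k) • y + ((-1 : k) * -1) • z)) = y := by
      have : (x + (1 : k) • y + ((1 : k) * 1) • z) - (x + (-1 : k) • y + ((-1 : k) * -1) • z) = (2 : k) • y := by
        module
      rw [this, smul_smul, inv_mul_cancel₀ h2, one_smul]
    rwa [e] at this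
  have hxz : x + z ∈ N := by
    have := N.sub_mem a1 hy
    have e : (x + (1 : k) • y + ((1 : k) * 1) • z) - y = x + z := by module
    rwa [e] at this
  have hxz' : x + (c * c) • z ∈ N := by
    have := N.sub_mem a3 (N.smul_mem c hy)
    have e : (x + c • y + (c * c) • z) - c • y = x + (c * c) • z := by module
    rwa [e] at this
  have hz : z ∈ N := by
    have := N.smul_mem (c * c - 1)⁻¹ (N.sub_mem hxz' hxz)
    have e : (c * c - 1)⁻¹ • ((x + (c * c) • z) - (x + z)) = z := by
      have : (x + (c * c) • z) - (x + z) = (c * c - 1) • z := by module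
      rw [this, smul_smul, inv_mul_cancel₀ (sub_ne_zero.2 hc1), one_smul]
    rwa [e] at this
  refine ⟨?_, hy, hz⟩
  have := N.sub_mem hxz hz
  rwa [add_sub_cancel_right] at this

theorem nn_of_opp (h2 : (2 : k) ≠ 0) (h3 : Nat.card k ≠ 3) (hu : u ∈ Qd G) (hv : v ∈ Qd G) (o : Opp u v) : NN G u v := by
  refine ⟨h2, h3, hu, hv, ?_⟩
  rintro ⟨n, hn⟩
  apply hu.2.1
  have h1 : ∀ m : ℕ, (u * v + v * u) ^ m * u = u := by
    intro m
    induction m with
    | zero => rw [pow_zero, one_mul]
    | succ m ih => rw [pow_succ, mul_assoc, show (u * v + v * u) * u = u from o.pi_s, ih]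
  rw [← h1 n, hn, zero_mul]

/-! ### the homogeneous case -/

theorem ES_left {hu : u * u = 0} (o : Opp u v) (ha : a ∈ ES G u hu) : u * v * a = a := by
  ext x
  obtain ⟨y, hy⟩ := ha.2.1 ⟨x, rfl⟩
  show (u * v) (a x) = a x
  rw [← hy]; exact LinearMap.congr_fun o.sts y

theorem ES_right {hu : u * u = 0} (o : Opp u v) (ha : a ∈ ES G u hu) : a * v * u = a := by
  ext x
  have h1 : x - (v * u) x ∈ LinearMap.ker u := by
    rw [LinearMap.mem_ker, map_sub, sub_eq_zero]
    exact (LinearMap.congr_fun o.sts x).symm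
  have h2 : a (x - (v * u) x) = 0 := ha.2.2 h1
  rw [map_sub, sub_eq_zero] at h2
  exact h2.symm

theorem ES_kill_left {hu : u * u = 0} (ha : a ∈ ES G u hu) (h : s * u = 0) : s * a = 0 := by
  ext x
  obtain ⟨y, hy⟩ := ha.2.1 ⟨x, rfl⟩
  show s (a x) = 0
  rw [← hy]; exact LinearMap.congr_fun h y

theorem ES_kill_right {hu : u * u = 0} (ha : a ∈ ES G u hu) (h : u * s = 0) : a * s = 0 := by
  ext x
  exact ha.2.2 (LinearMap.congr_fun h x)

theorem y_eq (h : Hm s t u v) : cjE (ww u v) t = t * v - v * t := by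
  unfold cjE
  rw [ww_inv h.o, h.o.ww_val, h.o.symm.ww_val, pi_comm v u]
  have a1 := h.ut
  have a2 := h.tu
  have a3 : v * t * v = 0 := by have := h.symm.vsv; simpa using this
  have a4 : t = u * v * t + t * v * u := h.hmt.symm
  have e1 : (1 - pi u v + u - v) * t = t - u * v * t - v * t := by
    unfold pi; simp only [sub_mul, add_mul, one_mul, mul_assoc, a1, mul_zero]; abel
  have e2 : t - u * v * t = t * v * u := by rw [sub_eq_iff_eq_add, add_comm]; exact a4
  have o1 : u * v * u = u := h.o.sts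
  have o2 : v * u * v = v := h.o.tst
  rw [e1, e2]
  have e3 : t * v * u * (1 - pi u v + v - u) = t * v := by
    unfold pi
    calc t * v * u * (1 - (u * v + v * u) + v - u) = t * v * u - t * v * (u * u) * v - t * v * (u * v * u) + t * (v * u * v) - t * v * (u * u) := by
          noncomm_ring
      _ = t * v := by rw [o1, o2, h.o.s2]; simp
  have e4 : v * t * (1 - pi u v + v - u) = v * t := by
    unfold pi
    calc v * t * (1 - (u * v + v * u) + v - u) = v * t - v * (t * u) * v - (v * t * v) * u + v * t * v - v * (t * u) := by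
          noncomm_ring
      _ = v * t := by rw [a2, a3]; simp
  rw [sub_mul, e3, e4]

theorem Hm.qx (h : Hm s t u v) {x : M} (hx : u x = 0) : (t * s) x = 0 := by
  rw [h.hu, LinearMap.sub_apply, sub_eq_zero] at hx
  have : (t * s) x ∈ LinearMap.range (s * t) ⊓ LinearMap.range (t * s) := ⟨⟨x, hx⟩, ⟨x, rfl⟩⟩
  exact h.dis.le_bot this

/-- the main relation -/
theorem Hm.rel (h2 : (2 : k) ≠ 0) (h3 : Nat.card k ≠ 3) (hs : s ∈ Qd G) (ht : t ∈ Qd G) (hu : u ∈ Qd G)
    (hv : v ∈ Qd G) (h : Hm s t u v) (ha : a ∈ ES G u hu.1.1) :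
    a = s * t * v * a - a * v * (t * s) := by
  have huva := ES_left h.o ha
  have havu := ES_right h.o ha
  have sa : s * a = 0 := ES_kill_left ha h.su
  have ta : t * a = 0 := ES_kill_left ha h.tu
  have as : a * s = 0 := ES_kill_right ha h.us
  have at' : a * t = 0 := ES_kill_right ha h.ut
  set y := t * v - v * t with hy
  have oy : Opp s y := h.opp2
  have hyQ : y ∈ Qd G := by
    rw [hy, ← y_eq h]; exact cj_mem_Qd ht (ww_mem hu.1 hv.1)
  have sya : s * y * a = s * t * v * a := by
    rw [hy]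
    calc s * (t * v - v * t) * a = s * t * v * a - s * v * (t * a) := by noncomm_ring
      _ = _ := by rw [ta]; simp
  have ays : a * y * s = -(a * v * (t * s)) := by
    rw [hy]
    calc a * (t * v - v * t) * s = (a * t) * v * s - a * v * (t * s) := by noncomm_ring
      _ = _ := by rw [at']; simp
  have key : ∀ c : k, c ≠ 0 → ((a - s * t * v * a) + (a - s * t * v * a) * (v * (t * s))) +
      c • (s * t * v * a + s * t * v * a * (v * (t * s)) - (a - s * t * v * a) * (v * (t * s))) +
      (c * c) • (-(s * t * v * a * (v * (t * s)))) ∈ ES G u hu.1.1 := by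
    intro c hc
    have sm := sm_smul oy hc
    set g := hh s y (c • s) (c⁻¹ • y) with hg
    have hgG : g ∈ G := hh_mem hs.1 hyQ.1 (smul_mem_Q0 hs.1 c) (smul_mem_Q0 hyQ.1 c⁻¹)
    have e1 : (g : End k M) * a = (1 - s * t * v + c • (s * t * v)) * a := by
      rw [sm.hh_val]
      unfold pi
      have : (1 - (s * y + y * s) + c • s * y + c⁻¹ • y * s) * a =
          a - s * y * a - y * (s * a) + c • (s * y * a) + c⁻¹ • (y * (s * a)) := by
        simp only [sub_mul, add_mul, one_mul, smul_mul_assoc, mul_assoc]; abel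
      rw [this, sa, sya]
      simp only [mul_zero, sub_zero, smul_zero, add_zero, add_mul, sub_mul, one_mul, smul_mul_assoc]
    have e2 : a * ((g⁻¹ : LinearMap.GeneralLinearGroup k M) : End k M) = a + a * v * (t * s) - c • (a * v * (t * s)) := by
      have := sm.hh_inv
      rw [← hg] at this
      rw [this]
      unfold pi
      have : a * (1 - (s * y + y * s) + s * c⁻¹ • y + y * c • s) =
          a - (a * s) * y - a * y * s + c⁻¹ • ((a * s) * y) + c • (a * y * s) := by
        simp only [mul_sub, mul_add, mul_one, mul_smul_comm, mul_assoc]; abel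
      rw [this, as, ays]
      simp only [zero_mul, sub_zero, smul_zero, add_zero, sub_neg_eq_add, smul_neg]
      abel
    have e3 : cjE g a = (1 - s * t * v + c • (s * t * v)) * (a + a * v * (t * s) - c • (a * v * (t * s))) := by
      unfold cjE
      rw [e1, mul_assoc, e2]
    have e4 : cjE g a = ((a - s * t * v * a) + (a - s * t * v * a) * (v * (t * s))) +
      c • (s * t * v * a + s * t * v * a * (v * (t * s)) - (a - s * t * v * a) * (v * (t * s))) +
      (c * c) • (-(s * t * v * a * (v * (t * s)))) := by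
      rw [e3]
      simp only [mul_add, add_mul, mul_sub, sub_mul, one_mul, smul_mul_assoc, mul_smul_comm, mul_assoc]
      module
    rw [← e4]
    refine ⟨cj_mem_Q0 ha.1 hgG, ?_, ?_⟩
    · rintro _ ⟨x, rfl⟩
      rw [e3]
      obtain ⟨w, hw⟩ : (a + a * v * (t * s) - c • (a * v * (t * s))) x ∈ LinearMap.range u := by
        apply ha.2.1
        exact ⟨x + (v * (t * s)) x - c • (v * (t * s)) x, by
          simp only [map_sub, map_add, map_smul, LinearMap.sub_apply, LinearMap.add_apply, LinearMap.smul_apply,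
            Module.End.mul_apply]⟩
      show (1 - s * t * v + c • (s * t * v)) ((a + a * v * (t * s) - c • (a * v * (t * s))) x) ∈ _
      rw [← hw]
      have hp : ∀ z, (s * t) z ∈ LinearMap.range u := fun z => by
        rw [← h.uvp]; exact ⟨(v * (s * t)) z, rfl⟩
      have : (1 - s * t * v + c • (s * t * v)) (u w) = u w - (s * t) (v (u w)) + c • (s * t) (v (u w)) := rfl
      rw [this]
      exact Submodule.add_mem _ (Submodule.sub_mem _ ⟨w, rfl⟩ (hp _)) (Submodule.smul_mem _ _ (hp _))
    · intro x hx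
      rw [LinearMap.mem_ker, e3]
      have h5 := h.qx hx
      have h6 : a x = 0 := ha.2.2 hx
      show (1 - s * t * v + c • (s * t * v)) (a x + (a * v) ((t * s) x) - c • ((a * v) ((t * s) x))) = 0
      rw [h5, h6]; simp
  obtain ⟨k1, -, k3⟩ := interp h2 h3 _ key
  -- the last coefficient vanishes
  have z3 : s * t * v * a * (v * (t * s)) = 0 := by
    by_contra hne
    have hne' : -(s * t * v * a * (v * (t * s))) ≠ 0 := neg_ne_zero.2 hne
    have hr := range_eq_of_le hu k3.1 hne' k3.2.1
    apply hne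
    have q0 : t * s = 0 := by
      ext x
      have m1 : (t * s) x ∈ LinearMap.range u := by
        rw [← h.uvq]; exact ⟨(v * (t * s)) x, rfl⟩
      rw [← hr] at m1
      obtain ⟨w, hw⟩ := m1
      have m2 : (t * s) x ∈ LinearMap.range (s * t) := by
        rw [← hw]
        exact ⟨-((v * a * (v * (t * s))) w), by
          simp only [map_neg, LinearMap.neg_apply, Module.End.mul_apply]⟩
      exact h.dis.le_bot ⟨m2, ⟨x, rfl⟩⟩
    rw [q0]; simp
  have z1 : (a - s * t * v * a) + (a - s * t * v * a) * (v * (t * s)) = 0 := by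
    by_contra hne
    have hr := range_eq_of_le hu k1.1 hne k1.2.1
    -- everything in range of q
    have hq : ∀ w, (a - s * t * v * a) w ∈ LinearMap.range (t * s) := by
      intro w
      have e5 : a - s * t * v * a = -(t * s * v * a) := by
        nth_rewrite 1 [← huva]
        rw [h.hu]; noncomm_ring
      rw [e5]
      exact ⟨-((v * a) w), by simp only [map_neg, LinearMap.neg_apply, Module.End.mul_apply]⟩
    have p0 : s * t = 0 := by
      ext x
      have m1 : (s * t) x ∈ LinearMap.range u := by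
        rw [← h.uvp]; exact ⟨(v * (s * t)) x, rfl⟩
      rw [← hr] at m1
      obtain ⟨w, hw⟩ := m1
      have m2 : (s * t) x ∈ LinearMap.range (t * s) := by
        rw [← hw]
        exact Submodule.add_mem _ (hq _) (hq _)
      exact h.dis.le_bot ⟨⟨x, rfl⟩, m2⟩
    apply hne
    have e6 : t * s = -u := by rw [h.hu, p0]; simp
    rw [p0, e6]
    simp only [zero_mul, sub_zero, mul_neg]
    rw [← mul_assoc, havu]; simp
  have : (a - s * t * v * a) * (v * (t * s)) = a * v * (t * s) - s * t * v * a * (v * (t * s)) := by noncomm_ring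
  rw [this, z3, sub_zero] at z1
  have e7 : a - (s * t * v * a - a * v * (t * s)) = 0 := by rw [← z1]; abel
  exact sub_eq_zero.1 e7

/-- Claim H -/
theorem Hm.surj (h2 : (2 : k) ≠ 0) (h3 : Nat.card k ≠ 3) (hs : s ∈ Qd G) (ht : t ∈ Qd G) (hu : u ∈ Qd G)
    (hv : v ∈ Qd G) (h : Hm s t u v) (ha : a ∈ ES G u hu.1.1) :
    ∃ t' ∈ ES G t ht.1.1, s * t' - t' * s = a := by
  by_cases ha0 : a = 0
  · exact ⟨0, Submodule.zero_mem _, by rw [ha0]; simp⟩
  have hn := nn_of_opp h2 h3 hu hv h.o
  have hav : NN G a v := nn_all hn ha ha0 (self_mem_ES hv.1) hv.2.1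
  obtain ⟨b, hb, hb0, hab⟩ := nn_opp hav
  obtain ⟨-, ra, ka⟩ := ES_ne_zero hu ha ha0
  obtain ⟨-, rb, kb⟩ := ES_ne_zero hv hb hb0
  have sm := sm_of h.o hab ra ka rb kb
  have hrel := Hm.rel h2 h3 hs ht hu hv h ha
  have huva := ES_left h.o ha
  have havu := ES_right h.o ha
  have sa : s * a = 0 := ES_kill_left ha h.su
  have ta : t * a = 0 := ES_kill_left ha h.tu
  have as : a * s = 0 := ES_kill_right ha h.us
  have at' : a * t = 0 := ES_kill_right ha h.ut
  have vtv : v * t * v = 0 := by have := h.symm.vsv; simpa using this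
  have c1 : t * s * v * t = -(u * v * t) := by
    have := h.symm.pvs.1
    simp only [mul_neg, neg_mul, neg_neg] at this
    rw [← this]; simp
  have c2 : t * v * (s * t) = t * v * u := by
    have := h.symm.svp.2
    simp only [mul_neg, neg_mul, neg_neg] at this
    have := neg_injective this
    exact this
  have m1 : a * v * (t * s) = t * s * v * a := by
    have e : a = s * t * v * a - t * s * v * a := by
      nth_rewrite 1 [← huva]; rw [h.hu]; noncomm_ring
    have : s * t * v * a - a * v * (t * s) = s * t * v * a - t * s * v * a := by rw [← hrel, ← e]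
    exact sub_right_injective this
  have m2 : a * v * (s * t) = s * t * v * a := by
    have e : a = a * v * (s * t) - a * v * (t * s) := by
      nth_rewrite 1 [← havu]; rw [h.hu]; noncomm_ring
    have : s * t * v * a - a * v * (t * s) = a * v * (s * t) - a * v * (t * s) := by rw [← hrel, ← e]
    exact (sub_left_injective this).symm
  refine ⟨a * v * t + t * v * a, ⟨?_, ?_, ?_⟩, ?_⟩
  · have e : cjE (hh u v a b) t = a * v * t + t * v * a := by
      unfold cjE
      have hi := sm.hh_inv
      rw [hi, sm.hh_val]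
      have e1 : (1 - pi u v + a * v + b * u) * t = t * v * u + a * v * t := by
        unfold pi
        calc (1 - (u * v + v * u) + a * v + b * u) * t = (t - u * v * t) - v * (u * t) + a * v * t + b * (u * t) := by
              noncomm_ring
          _ = t * v * u + a * v * t := by
              rw [h.ut]
              have : t - u * v * t = t * v * u := by rw [sub_eq_iff_eq_add, add_comm]; exact h.hmt.symm
              rw [this]; simp
      rw [e1]
      unfold pi
      calc (t * v * u + a * v * t) * (1 - (u * v + v * u) + u * b + v * a) =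
            (t * v * u - t * v * (u * u) * v - t * v * (u * v * u) + t * v * (u * u) * b + t * v * (u * v * a)) +
            (a * v * t - a * v * (t * u) * v - a * (v * t * v) * u + a * v * (t * u) * b + a * (v * t * v) * a) := by
              noncomm_ring
        _ = a * v * t + t * v * a := by
              rw [h.o.s2, h.o.sts, huva, h.tu, vtv]; simp; abel
    rw [← e]
    exact cj_mem_Q0 ht.1 (hh_mem hu.1 hv.1 ha.1 hb.1)
  · have e : a * v * t = -(t * (s * v * a * v * t)) := by
      calc a * v * t = (a * v * u) * v * t := by rw [havu]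
        _ = a * v * (u * v * t) := by simp only [mul_assoc]
        _ = -(a * v * (t * s * v * t)) := by rw [c1]; simp
        _ = -((a * v * (t * s)) * v * t) := by simp only [mul_assoc]
        _ = -((t * s * v * a) * v * t) := by rw [m1]
        _ = _ := by simp only [mul_assoc]
    rw [e]
    rintro _ ⟨x, rfl⟩
    exact ⟨-((s * v * a * v * t) x) + (v * a) x, by
      simp only [map_neg, map_add, LinearMap.neg_apply, LinearMap.add_apply, Module.End.mul_apply]⟩
  · have e : t * v * a = t * v * a * v * s * t := by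
      calc t * v * a = t * v * (u * v * a) := by rw [huva]
        _ = (t * v * u) * v * a := by simp only [mul_assoc]
        _ = (t * v * (s * t)) * v * a := by rw [c2]
        _ = t * v * (s * t * v * a) := by simp only [mul_assoc]
        _ = t * v * (a * v * (s * t)) := by rw [m2]
        _ = _ := by simp only [mul_assoc]
    rw [e]
    intro x hx
    rw [LinearMap.mem_ker] at hx ⊢
    simp only [LinearMap.add_apply, Module.End.mul_apply, hx, map_zero, add_zero]
  · calc s * (a * v * t + t * v * a) - (a * v * t + t * v * a) * s =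
          (s * a) * v * t + s * t * v * a - a * v * (t * s) - t * v * (a * s) := by noncomm_ring
      _ = a := by rw [sa, as, zero_mul, zero_mul, zero_add, mul_zero, sub_zero]; exact hrel.symm

/-! ### the general case -/

/-- non commuting pair with `sts = tst = 0` -/
structure Nc (G : Subgroup (LinearMap.GeneralLinearGroup k M)) (s t u : End k M) : Prop where
  h2 : (2 : k) ≠ 0
  h3 : Nat.card k ≠ 3
  hs : s ∈ Qd G
  ht : t ∈ Qd G
  sts : s * t * s = 0
  tst : t * s * t = 0
  hu : u = s * t - t * s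
  u0 : u ≠ 0

theorem Nc.symm (h : Nc G s t u) : Nc G t s (-u) where
  h2 := h.h2
  h3 := h.h3
  hs := h.ht
  ht := h.hs
  sts := h.tst
  tst := h.sts
  hu := by rw [h.hu]; abel
  u0 := neg_ne_zero.2 h.u0

theorem Nc.cp (h : Nc G s t u) : CP s t := cp_of h.hs h.ht h.sts h.tst (by rw [← h.hu]; exact h.u0)
theorem Nc.uQ0 (h : Nc G s t u) : u ∈ Q0 G := by rw [h.hu]; exact comm_mem_Q0 h.hs.1 h.ht.1 h.sts h.tst
theorem Nc.uQ (h : Nc G s t u) : u ∈ Qd G := mem_Qd_of_rk h.hs h.uQ0 h.u0 (by rw [h.hu]; exact h.cp.rk.le)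
theorem Nc.us (h : Nc G s t u) : u * s = 0 := by
  rw [h.hu, sub_mul, h.sts, mul_assoc t, h.hs.1.1, mul_zero, sub_zero]
theorem Nc.su (h : Nc G s t u) : s * u = 0 := by
  rw [h.hu, mul_sub, ← mul_assoc, h.hs.1.1, zero_mul, ← mul_assoc, h.sts, sub_zero]
theorem Nc.ut (h : Nc G s t u) : u * t = 0 := by have := h.symm.us; simpa using this
theorem Nc.tu (h : Nc G s t u) : t * u = 0 := by have := h.symm.su; simpa using this

theorem Nc.sk (h : Nc G s t u) {x : M} (hx : u x = 0) : s x ∈ LinearMap.range u := by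
  have h1 : x ∈ LinearMap.ker (s * t - t * s) := by rw [← h.hu]; exact hx
  rw [ker_u h.cp h.sts h.tst, Submodule.mem_inf] at h1
  obtain ⟨w, hw, _, ⟨y, rfl⟩, rfl⟩ := Submodule.mem_sup.1 h1.1
  rw [LinearMap.mem_ker] at hw
  rw [map_add, hw, zero_add, h.hu, h.cp.ru]
  exact Submodule.mem_sup_left ⟨y, rfl⟩

theorem Nc.g0 (h : Nc G s t u) (o : Opp u v) : s = u * v * s + s * v * u - u * v * s * v * u := by
  have : (1 - u * v) * s * (1 - v * u) = 0 := by
    ext x
    have h1 : u ((1 - v * u) x) = 0 := by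
      have : (u * (1 - v * u)) x = 0 := by rw [mul_sub, ← mul_assoc, o.sts]; simp
      exact this
    obtain ⟨w, hw⟩ := h.sk h1
    show (1 - u * v) (s ((1 - v * u) x)) = 0
    rw [← hw]
    have : ((1 - u * v) * u) w = 0 := by rw [sub_mul, o.sts]; simp
    exact this
  have e : (1 - u * v) * s * (1 - v * u) = s - (u * v * s + s * v * u - u * v * s * v * u) := by noncomm_ring
  rw [e, sub_eq_zero] at this
  exact this

/-- the "weight two" part -/
def s2 (s u v : End k M) : End k M := u * v * s * v * u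

theorem Nc.cj_h (h : Nc G s t u) (o : Opp u v) {c : k} (hc : c ≠ 0) :
    cjE (hh u v (c • u) (c⁻¹ • v)) s = c • (s - s2 s u v) + (c * c) • s2 s u v := by
  have sm := sm_smul o hc
  unfold cjE
  rw [sm.hh_inv, sm.hh_val]
  have e1 : (1 - pi u v + c • u * v + c⁻¹ • v * u) * s = s - u * v * s + c • (u * v * s) := by
    unfold pi
    have : (1 - (u * v + v * u) + c • u * v + c⁻¹ • v * u) * s =
        s - u * v * s - v * (u * s) + c • (u * v * s) + c⁻¹ • (v * (u * s)) := by
      simp only [sub_mul, add_mul, one_mul, smul_mul_assoc, mul_assoc]; abel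
    rw [this, h.us]; simp
  have e2 : ∀ x : End k M, x * s * (1 - pi u v + u * c⁻¹ • v + v * c • u) =
      x * s - x * s * v * u + c • (x * s * v * u) := by
    intro x
    unfold pi
    have : x * s * (1 - (u * v + v * u) + u * c⁻¹ • v + v * c • u) =
        x * s - x * (s * u) * v - x * s * v * u + c⁻¹ • (x * (s * u) * v) + c • (x * s * v * u) := by
      simp only [mul_sub, mul_add, mul_one, mul_smul_comm, smul_mul_assoc, mul_assoc]; abel
    rw [this, h.su]; simp
  rw [e1]
  have e3 : s - u * v * s + c • (u * v * s) = (1 - u * v + c • (u * v)) * s := by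
    simp only [add_mul, sub_mul, one_mul, smul_mul_assoc]
  rw [e3, e2]
  have g0 := h.g0 o
  have e4 : s - u * v * s - s * v * u + u * v * s * v * u = 0 := by
    rw [← sub_eq_zero] at g0
    rw [← g0]; abel
  have e5 : (1 - u * v + c • (u * v)) * s - (1 - u * v + c • (u * v)) * s * v * u +
      c • ((1 - u * v + c • (u * v)) * s * v * u) =
      (1 - c) • (s - u * v * s - s * v * u + u * v * s * v * u) + c • (s - u * v * s * v * u) +
        (c * c) • (u * v * s * v * u) := by
    simp only [add_mul, sub_mul, one_mul, smul_mul_assoc, mul_assoc]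
    module
  rw [e5, e4, smul_zero, zero_add]
  rfl

theorem Nc.ss2 (h : Nc G s t u) : s * s2 s u v = 0 := by
  unfold s2
  calc s * (u * v * s * v * u) = (s * u) * v * s * v * u := by simp only [mul_assoc]
    _ = 0 := by rw [h.su]; simp
theorem Nc.s2s (h : Nc G s t u) : s2 s u v * s = 0 := by
  unfold s2; rw [mul_assoc, h.us, mul_zero]

theorem Nc.s2_mem (h : Nc G s t u) (hv : v ∈ Qd G) (o : Opp u v) : s2 s u v ∈ ES G u h.uQ.1.1 := by
  refine ⟨?_, ?_, ?_⟩
  · obtain ⟨c, hc, hc1⟩ := exists_u h.h2 h.h3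
    have hcc : c * c - c ≠ 0 := by
      intro e
      have : c * (c - 1) = 0 := by linear_combination e
      rcases mul_eq_zero.1 this with e | e
      · exact hc e
      · rw [sub_eq_zero] at e; apply hc1; rw [e, one_mul]
    have h1 : cjE (hh u v (c • u) (c⁻¹ • v)) s ∈ Q0 G :=
      cj_mem_Q0 h.hs.1 (hh_mem h.uQ.1 hv.1 (smul_mem_Q0 h.uQ.1 c) (smul_mem_Q0 hv.1 _))
    rw [h.cj_h o hc] at h1
    have h4 : (c • (s - s2 s u v) + (c * c) • s2 s u v) - c • s ∈ Q0 G := by
      apply sub_mem_Q0 h1 (smul_mem_Q0 h.hs.1 c)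
      · simp only [add_mul, sub_mul, smul_mul_assoc, mul_smul_comm, h.hs.1.1, h.s2s]; simp
      · simp only [mul_add, mul_sub, smul_mul_assoc, mul_smul_comm, h.hs.1.1, h.ss2]; simp
    have e : (c • (s - s2 s u v) + (c * c) • s2 s u v) - c • s = (c * c - c) • s2 s u v := by module
    rw [e] at h4
    exact of_smul_mem_Q0 hcc h4
  · rintro _ ⟨x, rfl⟩
    exact ⟨(v * s * v * u) x, rfl⟩
  · intro x hx
    rw [LinearMap.mem_ker] at hx ⊢
    show (u * v * s * v) (u x) = 0
    rw [hx, map_zero]

theorem Nc.s1Q (h : Nc G s t u) (hv : v ∈ Qd G) (o : Opp u v) : s - s2 s u v ∈ Qd G := by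
  have hm := h.s2_mem hv o
  apply mem_Qd_of_rk h.hs (sub_mem_Q0 h.hs.1 hm.1 h.ss2 h.s2s)
  · intro e
    rw [sub_eq_zero] at e
    apply h.u0
    have e1 : s * t = 0 := by
      rw [e]; unfold s2; rw [mul_assoc, h.ut, mul_zero]
    have e2 : t * s = 0 := by
      rw [e]; unfold s2
      calc t * (u * v * s * v * u) = (t * u) * v * s * v * u := by simp only [mul_assoc]
        _ = 0 := by rw [h.tu]; simp
    rw [h.hu, e1, e2, sub_zero]
  · -- rank
    have f1 := LinearMap.finrank_range_add_finrank_ker s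
    have f2 := LinearMap.finrank_range_add_finrank_ker (s - s2 s u v)
    have f3 := finrank_map_add (v * u) (LinearMap.ker s)
    have g0 := h.g0 o
    -- the projection of ker s
    have k1 : (LinearMap.ker s).map (v * u) ≤ LinearMap.ker (s - s2 s u v) := by
      rintro _ ⟨x, hx, rfl⟩
      have hx' : s x = 0 := hx
      have e1 : (s * v * u) x - (u * v * s * v * u) x = 0 := by
        have := LinearMap.congr_fun g0 x
        rw [hx'] at this
        have e3 : (u * v * s + s * v * u - u * v * s * v * u) x = (u * v) (s x) + (s * v * u) x - (u * v * s * v * u) x := rfl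
        rw [e3, hx', map_zero, zero_add] at this
        exact this.symm
      rw [LinearMap.mem_ker]
      have e2 : (s - s2 s u v) * (v * u) = s * v * u - u * v * s * v * u := by
        unfold s2
        calc (s - u * v * s * v * u) * (v * u) = s * v * u - u * v * s * (v * u * v) * u := by noncomm_ring
          _ = _ := by rw [o.tst]
      show ((s - s2 s u v) * (v * u)) x = 0
      rw [e2]; exact e1
    have k2 : LinearMap.ker s ⊓ LinearMap.ker (v * u) ≤ LinearMap.ker (s - s2 s u v) := by
      rintro x ⟨hx, hx2⟩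
      rw [LinearMap.mem_ker, LinearMap.sub_apply, LinearMap.mem_ker.1 hx]
      have : s2 s u v x = (u * v * s) ((v * u) x) := by unfold s2; simp only [Module.End.mul_apply]
      rw [this, LinearMap.mem_ker.1 hx2]; simp
    have k3 : Disjoint ((LinearMap.ker s).map (v * u)) (LinearMap.ker s ⊓ LinearMap.ker (v * u)) := by
      rw [Submodule.disjoint_def]
      rintro _ ⟨x, -, rfl⟩ ⟨-, hx0⟩
      have hx : (v * u) ((v * u) x) = 0 := hx0
      have : (v * u) ((v * u) x) = (v * u) x := by
        have e : v * u * (v * u) = v * u := by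
          rw [← mul_assoc]; rw [o.tst]
        exact LinearMap.congr_fun e x
      rw [this] at hx; exact hx
    have f4 := Submodule.finrank_sup_add_finrank_inf_eq ((LinearMap.ker s).map (v * u)) (LinearMap.ker s ⊓ LinearMap.ker (v * u))
    rw [disjoint_iff.1 k3, finrank_bot, add_zero] at f4
    have f5 := Submodule.finrank_mono (sup_le k1 k2)
    unfold rk
    omega

theorem s2_neg : s2 t (-u) (-v) = s2 t u v := by unfold s2; simp

theorem Nc.hm (h : Nc G s t u) (hv : v ∈ Qd G) (o : Opp u v) :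
    s - s2 s u v ∈ Qd G ∧ t - s2 t u v ∈ Qd G ∧ Hm (s - s2 s u v) (t - s2 t u v) u v := by
  have a1 := h.s1Q hv o
  have a2 := h.symm.s1Q (neg_mem_Qd hv) (Opp.neg o)
  rw [s2_neg] at a2
  refine ⟨a1, a2, ?_⟩
  have z1 : s2 s u v * t = 0 := by unfold s2; rw [mul_assoc, h.ut, mul_zero]
  have z2 : t * s2 s u v = 0 := by
    unfold s2
    calc t * (u * v * s * v * u) = (t * u) * v * s * v * u := by simp only [mul_assoc]
      _ = 0 := by rw [h.tu]; simp
  have z3 : s2 t u v * s = 0 := by unfold s2; rw [mul_assoc, h.us, mul_zero]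
  have z4 : s * s2 t u v = 0 := by
    unfold s2
    calc s * (u * v * t * v * u) = (s * u) * v * t * v * u := by simp only [mul_assoc]
      _ = 0 := by rw [h.su]; simp
  have z5 : s2 s u v * s2 t u v = 0 := by
    unfold s2
    calc (u * v * s * v * u) * (u * v * t * v * u) = u * v * s * v * (u * u) * v * t * v * u := by simp only [mul_assoc]
      _ = 0 := by rw [o.s2]; simp
  have z6 : s2 t u v * s2 s u v = 0 := by
    unfold s2
    calc (u * v * t * v * u) * (u * v * s * v * u) = u * v * t * v * (u * u) * v * s * v * u := by simp only [mul_assoc]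
      _ = 0 := by rw [o.s2]; simp
  have e1 : (s - s2 s u v) * (t - s2 t u v) = s * t := by
    simp only [sub_mul, mul_sub, z1, z4, z5]; simp
  have e2 : (t - s2 t u v) * (s - s2 s u v) = t * s := by
    simp only [sub_mul, mul_sub, z2, z3, z6]; simp
  have e3 : (s - s2 s u v) * (t - s2 t u v) * (s - s2 s u v) = 0 := by
    rw [e1, mul_sub, h.sts, mul_assoc, z2]; simp
  have e4 : (t - s2 t u v) * (s - s2 s u v) * (t - s2 t u v) = 0 := by
    rw [e2, mul_sub, h.tst, mul_assoc, z4]; simp
  have cp : CP (s - s2 s u v) (t - s2 t u v) := cp_of a1 a2 e3 e4 (by rw [e1, e2, ← h.hu]; exact h.u0)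
  have gen : ∀ {s t u v : End k M} (h : Nc G s t u) (o : Opp u v),
      u * v * (s - s2 s u v) + (s - s2 s u v) * v * u = s - s2 s u v := by
    intro s t u v h o
    have g0 := h.g0 o
    have q1 : u * v * s2 s u v = s2 s u v := by
      unfold s2
      calc u * v * (u * v * s * v * u) = (u * v * u) * v * s * v * u := by simp only [mul_assoc]
        _ = _ := by rw [o.sts]
    have q2 : s2 s u v * v * u = s2 s u v := by
      unfold s2
      calc u * v * s * v * u * v * u = u * v * s * v * (u * v * u) := by simp only [mul_assoc]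
        _ = _ := by rw [o.sts]
    rw [mul_sub, sub_mul, sub_mul, q1, q2]
    have : s = u * v * s + s * v * u - s2 s u v := g0
    have e : u * v * s - s2 s u v + (s * v * u - s2 s u v) = (u * v * s + s * v * u - s2 s u v) - s2 s u v := by abel
    rw [e, ← this]
  refine ⟨by rw [e1, e2]; exact h.hu, a1.1.1, a2.1.1, e3, e4, o, gen h o, ?_, cp.r1, cp.r2, cp.dis⟩
  have := gen h.symm (v := -v) (Opp.neg o)
  rw [s2_neg] at this
  simpa using this

/-- the commutator map is onto -/
theorem Nc.surj (hirr : IsIrreducibleFor G) (h : Nc G s t u) (ha : a ∈ ES G u h.uQ.1.1) :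
    ∃ t' ∈ ES G t h.ht.1.1, s * t' - t' * s = a := by
  obtain ⟨v, hv, o⟩ := exists_opp h.h2 h.h3 hirr h.uQ
  obtain ⟨a1, a2, hm⟩ := h.hm hv o
  have hs2 := h.s2_mem hv o
  have ht2 := h.symm.s2_mem (neg_mem_Qd hv) (Opp.neg o)
  rw [s2_neg] at ht2
  have ht2' : s2 t u v ∈ ES G u h.uQ.1.1 := by
    refine ⟨ht2.1, ?_, ?_⟩
    · rintro _ ⟨x, rfl⟩; exact ⟨(v * t * v * u) x, rfl⟩
    · intro x hx
      rw [LinearMap.mem_ker] at hx ⊢
      show (u * v * t * v) (u x) = 0
      rw [hx, map_zero]
  set s₁ := s - s2 s u v with hs₁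
  set t₁ := t - s2 t u v with ht₁
  obtain ⟨t'', ht'', e1⟩ := Hm.surj h.h2 h.h3 a1 a2 h.uQ hv hm (neg_mem hs2)
  obtain ⟨s''', hs''', e2⟩ := Hm.surj h.h2 h.h3 a2 a1 (neg_mem_Qd h.uQ) (neg_mem_Qd hv) hm.symm (neg_mem ht2)
  obtain ⟨t₀, ht₀, e3⟩ := Hm.surj h.h2 h.h3 a1 a2 h.uQ hv hm ha
  -- first conjugation
  have q : ∀ {x : End k M}, x ∈ ES G u h.uQ.1.1 → t'' * x = 0 ∧ x * t'' = 0 := fun {x} hx =>
    ⟨ES_kill_right ht'' (ES_kill_left hx hm.tu), ES_kill_left ht'' (ES_kill_right hx hm.ut)⟩
  have htt : t'' * t'' = 0 := ES_mul ht'' ht''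
  have gG : tv t'' ∈ G := tv_mem ht''.1
  have c1 : ∀ {x : End k M}, x ∈ ES G u h.uQ.1.1 → cjE (tv t'') x = x := by
    intro x hx
    rw [cjE_tv htt, (q hx).1, (q hx).2]; simp
  have c2 : cjE (tv t'') t₁ = t₁ := by
    rw [cjE_tv htt, ES_mul ht'' (self_mem_ES a2.1), ES_mul (self_mem_ES a2.1) ht'']; simp
  have c3 : cjE (tv t'') s₁ = s := by
    rw [cjE_tv htt]
    have e4 : t'' * s₁ = s₁ * t'' + s2 s u v := by rw [← sub_eq_iff_eq_add', ← neg_sub, e1, neg_neg]
    have e5 : t'' * s₁ * t'' = 0 := by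
      rw [e4, add_mul, mul_assoc, htt, mul_zero, zero_add, (q hs2).2]
    rw [e5, e4, hs₁]; abel
  -- second conjugation
  set s'' := cjE (tv t'') s''' with hs''def
  have hs'' : s'' ∈ ES G s h.hs.1.1 := by
    have := cj_mem_ES gG hs'''
    rw [mem_ES, c3] at this
    exact this
  have hss : s'' * s'' = 0 := ES_mul hs'' hs''
  have q' : ∀ {x : End k M}, x ∈ ES G u h.uQ.1.1 → s'' * x = 0 ∧ x * s'' = 0 := fun {x} hx =>
    ⟨ES_kill_right hs'' (ES_kill_left hx h.su), ES_kill_left hs'' (ES_kill_right hx h.us)⟩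
  have g'G : tv s'' ∈ G := tv_mem hs''.1
  have c1' : ∀ {x : End k M}, x ∈ ES G u h.uQ.1.1 → cjE (tv s'') x = x := by
    intro x hx
    rw [cjE_tv hss, (q' hx).1, (q' hx).2]; simp
  have c2' : cjE (tv s'') s = s := by
    rw [cjE_tv hss, ES_mul hs'' (self_mem_ES h.hs.1), ES_mul (self_mem_ES h.hs.1) hs'']; simp
  have c3' : cjE (tv s'') t₁ = t := by
    rw [cjE_tv hss]
    have e4 : t₁ * s'' - s'' * t₁ = -s2 t u v := by
      have e6 : cjE (tv t'') (t₁ * s''' - s''' * t₁) = -s2 t u v := by
        rw [e2, c1 (neg_mem ht2')]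
      rw [cjE_sub, cjE_mul, cjE_mul, c2] at e6
      exact e6
    have e5 : s'' * t₁ = t₁ * s'' + s2 t u v := by rw [← sub_eq_iff_eq_add', ← neg_sub, e4, neg_neg]
    have e7 : s'' * t₁ * s'' = 0 := by
      rw [e5, add_mul, mul_assoc, hss, mul_zero, zero_add, (q' ht2').2]
    rw [e7, e5, ht₁]; abel
  refine ⟨cjE (tv s'') (cjE (tv t'') t₀), ?_, ?_⟩
  · have h1 := cj_mem_ES gG ht₀
    have h2 : cjE (tv t'') t₀ ∈ ES G t₁ a2.1.1 := by
      rw [mem_ES, c2] at h1; exact h1
    have h4 := cj_mem_ES g'G h2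
    rw [mem_ES, c3'] at h4
    exact h4
  · have h1 : s * cjE (tv t'') t₀ - cjE (tv t'') t₀ * s = a := by
      have : cjE (tv t'') (s₁ * t₀ - t₀ * s₁) = a := by rw [e3, c1 ha]
      rw [cjE_sub, cjE_mul, cjE_mul, c3] at this
      exact this
    have h4 : cjE (tv s'') (s * cjE (tv t'') t₀ - cjE (tv t'') t₀ * s) = a := by rw [h1, c1' ha]
    rw [cjE_sub, cjE_mul, cjE_mul, c2'] at h4
    exact h4

end CfsgLib.H14QC
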