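import Cfsg.Agent.LibH14QC2

/-! Quadratic pairs: the commutator case for root subgroups (seat helper14). -/

set_option autoImplicit false

namespace CfsgLib.H14QC

open Cfsg CfsgLib.H14R1 CfsgLib.H14QP CfsgLib.H14KT CfsgLib.H14QR CfsgLib.H14Unip CfsgLib.H14RS Module Polynomial

variable {k : Type*} [Field k] {M : Type*} [AddCommGroup M] [Module k M] [FiniteDimensional k M]
  {G : Subgroup (LinearMap.GeneralLinearGroup k M)} {s t u v a b : End k M}

theorem Nc.nil (h : Nc G s t u) : IsNilpotent (s * t + t * s) := by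
  refine ⟨2, ?_⟩
  have a1 := h.hs.1.1
  have a2 := h.ht.1.1
  calc (s * t + t * s) ^ 2 = s * t * s * t + s * (t * t) * s + t * (s * s) * t + t * s * t * s := by
        rw [pow_two]; noncomm_ring
    _ = 0 := by rw [h.sts, h.tst, a1, a2]; simp

theorem Nc.all (h : Nc G s t u) {s' t' : End k M} (hs' : s' ∈ ES G s h.hs.1.1) (hs0 : s' ≠ 0)
    (ht' : t' ∈ ES G t h.ht.1.1) (ht0 : t' ≠ 0) :
    Nc G s' t' (s' * t' - t' * s') ∧ LinearMap.range (s' * t' - t' * s') = LinearMap.range u ∧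
      LinearMap.ker (s' * t' - t' * s') = LinearMap.ker u := by
  obtain ⟨a1, a2, a3⟩ := ES_ne_zero h.hs hs' hs0
  obtain ⟨b1, b2, b3⟩ := ES_ne_zero h.ht ht' ht0
  obtain ⟨c1, c2⟩ := nil_all h.h2 h.h3 h.hs h.ht h.nil hs' ht'
  have hne : s' * t' - t' * s' ≠ 0 := by
    intro e
    rw [sub_eq_zero] at e
    have := lemmaB2 h.h2 a1 b1 h.hs h.ht e a2.symm a3.symm b2.symm b3.symm
    exact h.u0 (by rw [h.hu, this, sub_self])
  have n : Nc G s' t' (s' * t' - t' * s') := ⟨h.h2, h.h3, a1, b1, c1, c2, rfl, hne⟩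
  refine ⟨n, ?_, ?_⟩
  · rw [n.cp.ru, n.cp.r1, n.cp.r2, h.hu, h.cp.ru, h.cp.r1, h.cp.r2, a2, a3, b2, b3]
  · rw [ker_u n.cp c1 c2, h.hu, ker_u h.cp h.sts h.tst, a2, a3, b2, b3]

/-- commutators of members lie in `ES u` -/
theorem Nc.comm_mem (h : Nc G s t u) {s' t' : End k M} (hs' : s' ∈ ES G s h.hs.1.1)
    (ht' : t' ∈ ES G t h.ht.1.1) : s' * t' - t' * s' ∈ ES G u h.uQ.1.1 := by
  by_cases hs0 : s' = 0
  · rw [hs0]; simp
  by_cases ht0 : t' = 0
  · rw [ht0]; simp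
  obtain ⟨n, h1, h2⟩ := h.all hs' hs0 ht' ht0
  exact ⟨n.uQ0, h1.le, h2.ge⟩

omit [FiniteDimensional k M] in
theorem group_comm (hs : s * s = 0) (ht : t * t = 0) (h1 : s * t * s = 0) (h2 : t * s * t = 0) :
    tv s * tv t * (tv s)⁻¹ * (tv t)⁻¹ = tv (s * t - t * s) := by
  have a1 : ∀ x : End k M, s * (s * x) = 0 := fun x => by rw [← mul_assoc, hs, zero_mul]
  have a2 : ∀ x : End k M, t * (t * x) = 0 := fun x => by rw [← mul_assoc, ht, zero_mul]
  have a3 : s * (t * s) = 0 := by rw [← mul_assoc, h1]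
  have a4 : t * (s * t) = 0 := by rw [← mul_assoc, h2]
  have a3' : ∀ x, s * (t * (s * x)) = 0 := fun x => by
    rw [← mul_assoc t, ← mul_assoc, a3, zero_mul]
  have a4' : ∀ x, t * (s * (t * x)) = 0 := fun x => by
    rw [← mul_assoc s, ← mul_assoc, a4, zero_mul]
  have hsq : (s * t - t * s) * (s * t - t * s) = 0 := by
    simp only [mul_sub, sub_mul, mul_assoc, a1, a2, a3, a4, a3', a4', hs, ht, mul_zero]; simp
  apply Units.ext
  rw [tv_inv hs, tv_inv ht]
  simp only [Units.val_mul]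
  rw [tv_val hsq, tv_val hs, tv_val ht, tv_val (by simp [hs]), tv_val (by simp [ht])]
  simp only [mul_add, add_mul, mul_one, one_mul, mul_neg, neg_mul, mul_assoc,
      a1, a2, a3, a4, a3', a4', hs, ht, mul_zero, zero_mul, neg_zero]
  abel

theorem Nc.closure_left (hirr : IsIrreducibleFor G) (h : Nc G s t u) {s' : End k M} (hs' : s' ∈ ES G s h.hs.1.1)
    (hs0 : s' ≠ 0) :
    Subgroup.closure ((fun f : LinearMap.GeneralLinearGroup k M => tv s' * f * (tv s')⁻¹ * f⁻¹) ''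
      (EG t h.ht.1.1 G : Set (LinearMap.GeneralLinearGroup k M))) = EG u h.uQ.1.1 G := by
  apply le_antisymm
  · rw [Subgroup.closure_le]
    rintro _ ⟨_, ⟨t', ht', rfl⟩, rfl⟩
    obtain ⟨c1, c2⟩ := nil_all h.h2 h.h3 h.hs h.ht h.nil hs' ht'
    refine ⟨s' * t' - t' * s', h.comm_mem hs' ht', ?_⟩
    exact group_comm hs'.1.1 ht'.1.1 c1 c2
  · rintro _ ⟨a, ha, rfl⟩
    obtain ⟨n, h1, h2⟩ := h.all hs' hs0 (self_mem_ES h.ht.1) h.ht.2.1
    obtain ⟨t', ht', e⟩ := n.surj hirr (a := a) (by rw [mem_ES, h1, h2]; exact ha)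
    apply Subgroup.subset_closure
    refine ⟨tv t', ⟨t', ht', rfl⟩, ?_⟩
    obtain ⟨c1, c2⟩ := nil_all h.h2 h.h3 h.hs h.ht h.nil hs' ht'
    rw [← e]
    exact group_comm hs'.1.1 ht'.1.1 c1 c2

theorem ES_neg {hu : u * u = 0} {hu' : -u * -u = 0} : ES G (-u) hu' = ES G u hu := by
  apply ES_congr
  · ext x; constructor
    · rintro ⟨y, rfl⟩; exact ⟨-y, by simp⟩
    · rintro ⟨y, rfl⟩; exact ⟨-y, by simp⟩
  · ext x; simp

theorem Nc.closure_right (hirr : IsIrreducibleFor G) (h : Nc G s t u) {t' : End k M} (ht' : t' ∈ ES G t h.ht.1.1)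
    (ht0 : t' ≠ 0) :
    Subgroup.closure ((fun e : LinearMap.GeneralLinearGroup k M => e * tv t' * e⁻¹ * (tv t')⁻¹) ''
      (EG s h.hs.1.1 G : Set (LinearMap.GeneralLinearGroup k M))) = EG u h.uQ.1.1 G := by
  apply le_antisymm
  · rw [Subgroup.closure_le]
    rintro _ ⟨_, ⟨s', hs', rfl⟩, rfl⟩
    obtain ⟨c1, c2⟩ := nil_all h.h2 h.h3 h.hs h.ht h.nil hs' ht'
    refine ⟨s' * t' - t' * s', h.comm_mem hs' ht', ?_⟩
    exact group_comm hs'.1.1 ht'.1.1 c1 c2
  · rintro _ ⟨a, ha, rfl⟩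
    obtain ⟨n, h1, h2⟩ := h.all (self_mem_ES h.hs.1) h.hs.2.1 ht' ht0
    have ha' : -a ∈ ES G (-(s * t' - t' * s)) n.symm.uQ.1.1 := by
      rw [ES_neg (hu := n.uQ.1.1)]
      have : a ∈ ES G (s * t' - t' * s) n.uQ.1.1 := by rw [mem_ES, h1, h2]; exact ha
      exact neg_mem this
    obtain ⟨s', hs', e⟩ := n.symm.surj hirr ha'
    apply Subgroup.subset_closure
    refine ⟨tv s', ⟨s', hs', rfl⟩, ?_⟩
    obtain ⟨c1, c2⟩ := nil_all h.h2 h.h3 h.hs h.ht h.nil hs' ht'
    have e' : s' * t' - t' * s' = a := by rw [← neg_sub, e, neg_neg]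
    rw [← e']
    exact group_comm hs'.1.1 ht'.1.1 c1 c2

theorem Nc.comm_eq (hirr : IsIrreducibleFor G) (h : Nc G s t u) :
    ⁅EG s h.hs.1.1 G, EG t h.ht.1.1 G⁆ = EG u h.uQ.1.1 G := by
  apply le_antisymm
  · rw [Subgroup.commutator_le]
    rintro _ ⟨s', hs', rfl⟩ _ ⟨t', ht', rfl⟩
    obtain ⟨c1, c2⟩ := nil_all h.h2 h.h3 h.hs h.ht h.nil hs' ht'
    exact ⟨s' * t' - t' * s', h.comm_mem hs' ht', group_comm hs'.1.1 ht'.1.1 c1 c2⟩
  · rw [← h.closure_left hirr (self_mem_ES h.hs.1) h.hs.2.1, Subgroup.closure_le]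
    rintro _ ⟨f, hf, rfl⟩
    exact Subgroup.commutator_mem_commutator ⟨s, self_mem_ES h.hs.1, rfl⟩ hf

theorem tv_commute {x y : End k M} (hx : x * x = 0) (hy : y * y = 0) (h : x * y = 0) (h' : y * x = 0) :
    tv x * tv y = tv y * tv x := by
  rw [tv_mul hx hy h h', tv_mul hy hx h' h, add_comm]

theorem Nc.central (h : Nc G s t u) : ∀ c ∈ EG u h.uQ.1.1 G, ∀ x ∈ EG s h.hs.1.1 G ⊔ EG t h.ht.1.1 G, c * x = x * c := by
  have : EG s h.hs.1.1 G ⊔ EG t h.ht.1.1 G ≤ Subgroup.centralizer (EG u h.uQ.1.1 G : Set _) := by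
    apply sup_le
    · rintro _ ⟨s', hs', rfl⟩
      rw [Subgroup.mem_centralizer_iff]
      rintro _ ⟨a, ha, rfl⟩
      exact tv_commute ha.1.1 hs'.1.1 (ES_kill_left hs' (ES_kill_right ha h.us)) (ES_kill_right hs' (ES_kill_left ha h.su))
    · rintro _ ⟨t', ht', rfl⟩
      rw [Subgroup.mem_centralizer_iff]
      rintro _ ⟨a, ha, rfl⟩
      exact tv_commute ha.1.1 ht'.1.1 (ES_kill_left ht' (ES_kill_right ha h.ut)) (ES_kill_right ht' (ES_kill_left ha h.tu))
  intro c hc x hx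
  exact (Subgroup.mem_centralizer_iff.1 (this hx)) c hc

theorem Nc.rcc (hirr : IsIrreducibleFor G) (h : Nc G s t u) :
    RootCommutatorCase (quadraticRootSubgroups G) (EG s h.hs.1.1 G) (EG t h.ht.1.1 G) := by
  have hc := h.comm_eq hirr
  refine ⟨?_, ?_, ?_, ?_⟩
  · rw [hc, qrs_iff]; exact ⟨u, h.uQ, rfl⟩
  · rw [hc]; exact h.central
  · rintro _ ⟨s', hs', rfl⟩ h1
    rw [hc]
    exact h.closure_left hirr hs' (fun e => h1 (by rw [e, tv_zero]))
  · rintro _ ⟨t', ht', rfl⟩ h1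
    rw [hc]
    exact h.closure_right hirr ht' (fun e => h1 (by rw [e, tv_zero]))

theorem fixed_one (hu : u ∈ Qd G) : fixedSubmodule (EG u hu.1.1 G) = LinearMap.ker u := by
  have := fixed_eq hu hu
  rwa [sup_idem, inf_idem] at this

theorem comm_one (hu : u ∈ Qd G) : commutatorSubmodule (EG u hu.1.1 G) = LinearMap.range u := by
  have := CfsgLib.H14QR.comm_eq hu hu
  rwa [sup_idem, sup_idem] at this

/-- the subgroup of elements acting "unipotently of depth" relative to `u` -/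
def UU (u : End k M) (h : u * u = 0) : Subgroup (LinearMap.GeneralLinearGroup k M) where
  carrier := {g | (∀ m, (g : End k M) m - m ∈ LinearMap.ker u) ∧
    (∀ m ∈ LinearMap.ker u, (g : End k M) m - m ∈ LinearMap.range u) ∧ (∀ m ∈ LinearMap.range u, (g : End k M) m = m)}
  one_mem' := ⟨fun m => by simp, fun m _ => by simp, fun m _ => by simp⟩
  mul_mem' := by
    rintro a b ⟨a1, a2, a3⟩ ⟨b1, b2, b3⟩
    have hle : LinearMap.range u ≤ LinearMap.ker u := by
      rintro _ ⟨x, rfl⟩; exact LinearMap.congr_fun h x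
    have e : ∀ m, ((a * b : LinearMap.GeneralLinearGroup k M) : End k M) m - m =
        ((a : End k M) ((b : End k M) m - m) - ((b : End k M) m - m)) + ((b : End k M) m - m) + ((a : End k M) m - m) := by
      intro m
      rw [Units.val_mul, Module.End.mul_apply, map_sub]; abel
    refine ⟨fun m => ?_, fun m hm => ?_, fun m hm => ?_⟩
    · rw [e]
      exact Submodule.add_mem _ (Submodule.add_mem _ (hle (a2 _ (b1 m))) (b1 m)) (a1 m)
    · rw [e]
      refine Submodule.add_mem _ (Submodule.add_mem _ ?_ (b2 m hm)) (a2 m hm)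
      rw [a3 _ (b2 m hm), sub_self]; exact Submodule.zero_mem _
    · rw [Units.val_mul, Module.End.mul_apply, b3 m hm, a3 m hm]
  inv_mem' := by
    rintro a ⟨a1, a2, a3⟩
    have inv' : ∀ x, ((a⁻¹ : LinearMap.GeneralLinearGroup k M) : End k M) ((a : End k M) x) = x := fun x =>
      LinearMap.congr_fun a.inv_mul x
    have inv'' : ∀ x, (a : End k M) (((a⁻¹ : LinearMap.GeneralLinearGroup k M) : End k M) x) = x := fun x =>
      LinearMap.congr_fun a.mul_inv x
    have r : ∀ m ∈ LinearMap.range u, ((a⁻¹ : LinearMap.GeneralLinearGroup k M) : End k M) m = m := by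
      intro m hm
      have := inv' m
      rwa [a3 m hm] at this
    have e : ∀ m ∈ LinearMap.ker u, ((a⁻¹ : LinearMap.GeneralLinearGroup k M) : End k M) m - m ∈ LinearMap.range u := by
      intro m hm
      have h1 := a2 m hm
      have h2 := r _ h1
      rw [map_sub, inv'] at h2
      have : ((a⁻¹ : LinearMap.GeneralLinearGroup k M) : End k M) m - m = -((a : End k M) m - m) := by
        rw [← h2]; abel
      rw [this]; exact Submodule.neg_mem _ h1
    have hle : LinearMap.range u ≤ LinearMap.ker u := by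
      rintro _ ⟨x, rfl⟩; exact LinearMap.congr_fun h x
    refine ⟨fun m => ?_, e, r⟩
    have h1 := a1 (((a⁻¹ : LinearMap.GeneralLinearGroup k M) : End k M) m)
    rw [inv''] at h1
    have := Submodule.neg_mem _ h1
    rwa [neg_sub] at this

theorem Nc.le_UU (h : Nc G s t u) : EG s h.hs.1.1 G ≤ UU u h.uQ.1.1 := by
  rintro _ ⟨s', hs', rfl⟩
  have e : ∀ m, (tv s' : End k M) m - m = s' m := fun m => by
    rw [tv_val hs'.1.1, LinearMap.add_apply, Module.End.one_apply]; abel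
  refine ⟨fun m => ?_, fun m hm => ?_, fun m hm => ?_⟩
  · rw [e]
    obtain ⟨w, hw⟩ := hs'.2.1 ⟨m, rfl⟩
    rw [← hw]; exact LinearMap.congr_fun h.us w
  · rw [e]
    by_cases hs0 : s' = 0
    · rw [hs0]; exact Submodule.zero_mem _
    obtain ⟨n, h1, h2⟩ := h.all hs' hs0 (self_mem_ES h.ht.1) h.ht.2.1
    rw [← h1]
    apply n.sk
    rw [← h2] at hm; exact hm
  · obtain ⟨w, rfl⟩ := hm
    rw [← sub_eq_zero, e]
    exact LinearMap.congr_fun (ES_kill_right hs' h.su) w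

theorem UU_neg {h : u * u = 0} {h' : -u * -u = 0} : UU (-u) h' = UU u h := by
  have r : LinearMap.range (-u) = LinearMap.range u := by
    ext x; constructor
    · rintro ⟨y, rfl⟩; exact ⟨-y, by simp⟩
    · rintro ⟨y, rfl⟩; exact ⟨-y, by simp⟩
  have r2 : LinearMap.ker (-u) = LinearMap.ker u := by ext x; simp
  ext g
  show (_ ∧ _ ∧ _) ↔ (_ ∧ _ ∧ _)
  rw [r, r2]

theorem Nc.core (hirr : IsIrreducibleFor G) (h : Nc G s t u) :
    ((EG s h.hs.1.1 G ⊔ EG t h.ht.1.1 G : Subgroup (LinearMap.GeneralLinearGroup k M)) : Set (LinearMap.GeneralLinearGroup k M)) ⊆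
      quadraticUnipotentCore G ⁅EG s h.hs.1.1 G, EG t h.ht.1.1 G⁆ := by
  have hc := h.comm_eq hirr
  have hle : EG s h.hs.1.1 G ⊔ EG t h.ht.1.1 G ≤ UU u h.uQ.1.1 := by
    apply sup_le h.le_UU
    have := h.symm.le_UU
    rwa [UU_neg (h := h.uQ.1.1)] at this
  intro g hg
  have hg' := hle hg
  obtain ⟨g1, g2, g3⟩ := hg'
  rw [hc]
  refine ⟨(sup_le EG_le EG_le : _ ≤ G) hg, ?_, ?_, ?_, ?_⟩
  · rw [Subgroup.mem_normalizer_iff]
    intro c
    have hcen := h.central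
    constructor
    · intro hcm
      rw [← hcen c hcm g hg, mul_inv_cancel_right]; exact hcm
    · intro hcm
      have h1 := hcen _ hcm g hg
      have : g * c * g⁻¹ * g = g * (g * c * g⁻¹) := h1
      rw [inv_mul_cancel_right] at this
      have h4 := mul_left_cancel this
      rw [h4]; exact hcm
  · intro m; rw [fixed_one h.uQ]; exact g1 m
  · intro m hm; rw [fixed_one h.uQ] at hm; rw [comm_one h.uQ]; exact g2 m hm
  · intro m hm; rw [comm_one h.uQ] at hm; exact g3 m hm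

/-- a pair with opposite elements is neither nilpotent of class two nor unipotent -/
theorem opp_class (o : Opp s t) (h : ∀ x ∈ ({tv s, tv t} : Set (LinearMap.GeneralLinearGroup k M)),
    (tv s * tv t * (tv s)⁻¹ * (tv t)⁻¹) * x = x * (tv s * tv t * (tv s)⁻¹ * (tv t)⁻¹)) : s = 0 := by
  have h1 := h (tv s) (by simp)
  have e := congrArg Units.val h1
  rw [Units.val_mul, Units.val_mul (tv s)] at e
  set g := tv s * tv t * (tv s)⁻¹ * (tv t)⁻¹ with hg
  rw [tv_val o.s2, mul_add, add_mul, mul_one, one_mul, add_right_inj] at e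
  -- g s = s g ; so s g s = 0
  have e1 : s * (g : End k M) * s = 0 := by rw [mul_assoc, e, ← mul_assoc, o.s2, zero_mul]
  have e2 : s * (g : End k M) * s = s := by
    rw [hg, tv_inv o.s2, tv_inv o.t2]
    simp only [Units.val_mul]
    rw [tv_val o.s2, tv_val o.t2, tv_val (by simp [o.s2]), tv_val (by simp [o.t2])]
    have h5 := o.sts'
    have h6 := o.tst'
    have h7 := o.stsx
    have h8 := o.tstx
    have h9 := o.ss
    have h10 := o.tt
    have h11 := o.s2
    have h12 := o.t2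
    simp only [mul_add, add_mul, mul_one, one_mul, mul_neg, neg_mul, mul_assoc, h5, h6, h7, h8, h9, h10, h11, h12,
      mul_zero, neg_zero, zero_mul]
    abel_nf
  rw [← e2, e1]

/-- trichotomy for members of `Σ` -/
theorem tri (h2 : (2 : k) ≠ 0) (h3 : Nat.card k ≠ 3) (hs : s ∈ Qd G) (ht : t ∈ Qd G) :
    (s * t = t * s ∧ ∀ x ∈ EG s hs.1.1 G, ∀ y ∈ EG t ht.1.1 G, x * y = y * x) ∨ NN G s t ∨ Nc G s t (s * t - t * s) := by
  by_cases hn : IsNilpotent (s * t + t * s)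
  · by_cases hc : s * t = t * s
    · left
      refine ⟨hc, ?_⟩
      rintro _ ⟨s', hs', rfl⟩ _ ⟨t', ht', rfl⟩
      by_cases hs0 : s' = 0
      · rw [hs0, tv_zero]; simp
      by_cases ht0 : t' = 0
      · rw [ht0, tv_zero]; simp
      obtain ⟨a1, a2, a3⟩ := ES_ne_zero hs hs' hs0
      obtain ⟨b1, b2, b3⟩ := ES_ne_zero ht ht' ht0
      have := lemmaB2 h2 hs ht a1 b1 hc a2 a3 b2 b3
      apply Units.ext
      rw [Units.val_mul, Units.val_mul, tv_val hs'.1.1, tv_val ht'.1.1]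
      rw [mul_add, add_mul, add_mul, mul_add, this]; noncomm_ring
    · right; right
      obtain ⟨c1, c2⟩ := nil_all h2 h3 hs ht hn (self_mem_ES hs.1) (self_mem_ES ht.1)
      exact ⟨h2, h3, hs, ht, c1, c2, rfl, sub_ne_zero.2 hc⟩
  · right; left
    exact ⟨h2, h3, hs, ht, hn⟩

theorem comm_bot_of {A B : Subgroup (LinearMap.GeneralLinearGroup k M)} (h : ∀ x ∈ A, ∀ y ∈ B, x * y = y * x) : ⁅A, B⁆ = ⊥ := by
  rw [comm_iff]; exact h

/-- the class two case is not a rank one pair -/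
theorem not_NN_of_class2 (h : NN G s t)
    (h2 : ⁅⁅EG s h.hs2 G ⊔ EG t h.ht2 G, EG s h.hs2 G ⊔ EG t h.ht2 G⁆, EG s h.hs2 G ⊔ EG t h.ht2 G⁆ = ⊥) : False := by
  obtain ⟨t', ht', ht0, o⟩ := nn_opp h
  rw [comm_iff] at h2
  apply h.hs.2.1
  apply opp_class o
  have m1 : tv s ∈ EG s h.hs2 G ⊔ EG t h.ht2 G := Subgroup.mem_sup_left ⟨s, self_mem_ES h.hs.1, rfl⟩
  have m2 : tv t' ∈ EG s h.hs2 G ⊔ EG t h.ht2 G := Subgroup.mem_sup_right ⟨t', ht', rfl⟩
  intro x hx
  apply h2 _ (Subgroup.commutator_mem_commutator m1 m2)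
  rcases hx with rfl | rfl
  · exact m1
  · exact m2

theorem not_NN_of_unip (h : NN G s t) (hu : IsUnipotentOn (EG s h.hs2 G ⊔ EG t h.ht2 G)) : False := by
  obtain ⟨t', ht', ht0, o⟩ := nn_opp h
  rw [unip_iff_fl] at hu
  obtain ⟨n, hn⟩ := hu
  have m1 : tv s ∈ EG s h.hs2 G ⊔ EG t h.ht2 G := Subgroup.mem_sup_left ⟨s, self_mem_ES h.hs.1, rfl⟩
  have m2 : tv t' ∈ EG s h.hs2 G ⊔ EG t h.ht2 G := Subgroup.mem_sup_right ⟨t', ht', rfl⟩
  have m3 : ww s t' ∈ EG s h.hs2 G ⊔ EG t h.ht2 G := mul_mem (mul_mem m1 (inv_mem m2)) m1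
  apply h.hs.2.1
  ext x
  have key : ∀ m, s x ∈ fl (EG s h.hs2 G ⊔ EG t h.ht2 G) m → s x = 0 := by
    intro m
    induction m with
    | zero => intro hm; exact hm
    | succ m ih =>
      intro hm
      apply ih
      have h1 := hm _ (mul_mem m3 m3)
      have e : ap (ww s t' * ww s t') (s x) - s x = (-2 : k) • s x := by
        unfold ap
        rw [o.ww_sq]
        have := LinearMap.congr_fun o.pi_s x
        rw [Module.End.mul_apply] at this
        rw [LinearMap.sub_apply, LinearMap.smul_apply, this, Module.End.one_apply, ← Nat.cast_smul_eq_nsmul k]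
        push_cast; module
      rw [e] at h1
      have h4 := Submodule.smul_mem _ (-2 : k)⁻¹ h1
      rwa [smul_smul, inv_mul_cancel₀ (neg_ne_zero.2 h.h2), one_smul] at h4
  exact key n (by rw [hn]; trivial)

end CfsgLib.H14QC
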