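import Cfsg.Agent.LibH14QC3

/-! Quadratic pairs: `SL₂(k)` inside rank one pairs; root subgroup sets (seat helper14). -/

set_option autoImplicit false

namespace CfsgLib.H14QD

open Cfsg CfsgLib.H14R1 CfsgLib.H14QP CfsgLib.H14KT CfsgLib.H14QR CfsgLib.H14Unip CfsgLib.H14RS CfsgLib.H14QC Module

/-! ### `SL₂` is generated by the unitriangular groups -/

section sl2
variable {k : Type*} [Field k]

/-- upper unitriangular matrix -/
def xx (e : k) : Matrix.SpecialLinearGroup (Fin 2) k := ⟨!![1, e; 0, 1], by simp⟩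
/-- lower unitriangular matrix -/
def yy (e : k) : Matrix.SpecialLinearGroup (Fin 2) k := ⟨!![1, 0; e, 1], by simp⟩

@[simp] theorem xx_val (e : k) : (xx e : Matrix (Fin 2) (Fin 2) k) = !![1, e; 0, 1] := rfl
@[simp] theorem yy_val (e : k) : (yy e : Matrix (Fin 2) (Fin 2) k) = !![1, 0; e, 1] := rfl

theorem ext4 {g h : Matrix.SpecialLinearGroup (Fin 2) k} (h1 : (g : Matrix (Fin 2) (Fin 2) k) 0 0 = (h : Matrix (Fin 2) (Fin 2) k) 0 0)
    (h2 : (g : Matrix (Fin 2) (Fin 2) k) 0 1 = (h : Matrix (Fin 2) (Fin 2) k) 0 1)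
    (h3 : (g : Matrix (Fin 2) (Fin 2) k) 1 0 = (h : Matrix (Fin 2) (Fin 2) k) 1 0)
    (h4 : (g : Matrix (Fin 2) (Fin 2) k) 1 1 = (h : Matrix (Fin 2) (Fin 2) k) 1 1) : g = h := by
  apply Matrix.SpecialLinearGroup.ext
  intro i j
  fin_cases i <;> fin_cases j
  · exact h1
  · exact h2
  · exact h3
  · exact h4

theorem xx_mul (a b : k) : xx a * xx b = xx (a + b) := by
  apply ext4 <;> simp [Matrix.mul_apply, Fin.sum_univ_two, add_comm]
theorem yy_mul (a b : k) : yy a * yy b = yy (a + b) := by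
  apply ext4 <;> simp [Matrix.mul_apply, Fin.sum_univ_two]
theorem xx_zero : xx (0 : k) = 1 := by apply ext4 <;> simp
theorem yy_zero : yy (0 : k) = 1 := by apply ext4 <;> simp

theorem upper_eq {g : Matrix.SpecialLinearGroup (Fin 2) k} : g ∈ upperUnipotentSL2 k ↔ ∃ e, g = xx e := by
  constructor
  · intro hg
    unfold upperUnipotentSL2 at hg
    induction hg using Subgroup.closure_induction with
    | mem x hx =>
      obtain ⟨h1, h2, h3⟩ := hx
      exact ⟨(x : Matrix (Fin 2) (Fin 2) k) 0 1, by apply ext4 <;> simp [h1, h2, h3]⟩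
    | one => exact ⟨0, xx_zero.symm⟩
    | mul x y _ _ ihx ihy =>
      obtain ⟨a, rfl⟩ := ihx
      obtain ⟨b, rfl⟩ := ihy
      exact ⟨a + b, xx_mul a b⟩
    | inv x _ ih =>
      obtain ⟨a, rfl⟩ := ih
      refine ⟨-a, ?_⟩
      rw [inv_eq_iff_mul_eq_one, xx_mul, add_neg_cancel, xx_zero]
  · rintro ⟨e, rfl⟩
    apply Subgroup.subset_closure
    refine ⟨?_, ?_, ?_⟩ <;> simp

theorem lower_eq {g : Matrix.SpecialLinearGroup (Fin 2) k} : g ∈ lowerUnipotentSL2 k ↔ ∃ e, g = yy e := by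
  constructor
  · intro hg
    unfold lowerUnipotentSL2 at hg
    induction hg using Subgroup.closure_induction with
    | mem x hx =>
      obtain ⟨h1, h2, h3⟩ := hx
      exact ⟨(x : Matrix (Fin 2) (Fin 2) k) 1 0, by apply ext4 <;> simp [h1, h2, h3]⟩
    | one => exact ⟨0, yy_zero.symm⟩
    | mul x y _ _ ihx ihy =>
      obtain ⟨a, rfl⟩ := ihx
      obtain ⟨b, rfl⟩ := ihy
      exact ⟨a + b, yy_mul a b⟩
    | inv x _ ih =>
      obtain ⟨a, rfl⟩ := ih
      refine ⟨-a, ?_⟩
      rw [inv_eq_iff_mul_eq_one, yy_mul, add_neg_cancel, yy_zero]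
  · rintro ⟨e, rfl⟩
    apply Subgroup.subset_closure
    refine ⟨?_, ?_, ?_⟩ <;> simp

theorem sl2_gen : upperUnipotentSL2 k ⊔ lowerUnipotentSL2 k = ⊤ := by
  have hx : ∀ e : k, xx e ∈ upperUnipotentSL2 k ⊔ lowerUnipotentSL2 k := fun e =>
    Subgroup.mem_sup_left (upper_eq.2 ⟨e, rfl⟩)
  have hy : ∀ e : k, yy e ∈ upperUnipotentSL2 k ⊔ lowerUnipotentSL2 k := fun e =>
    Subgroup.mem_sup_right (lower_eq.2 ⟨e, rfl⟩)
  have key : ∀ g : Matrix.SpecialLinearGroup (Fin 2) k, (g : Matrix (Fin 2) (Fin 2) k) 1 0 ≠ 0 →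
      g ∈ upperUnipotentSL2 k ⊔ lowerUnipotentSL2 k := by
    intro g hc
    have hdet := g.det_coe
    rw [Matrix.det_fin_two] at hdet
    set a := (g : Matrix (Fin 2) (Fin 2) k) 0 0 with ha
    set b := (g : Matrix (Fin 2) (Fin 2) k) 0 1 with hb
    set c := (g : Matrix (Fin 2) (Fin 2) k) 1 0 with hc'
    set d := (g : Matrix (Fin 2) (Fin 2) k) 1 1 with hd
    have e : g = xx ((a - 1) / c) * yy c * xx ((d - 1) / c) := by
      apply ext4
      · simp only [Matrix.SpecialLinearGroup.coe_mul, xx_val, yy_val, Matrix.mul_apply, Fin.sum_univ_two]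
        simp
        rw [← ha]; field_simp; ring
      · simp only [Matrix.SpecialLinearGroup.coe_mul, xx_val, yy_val, Matrix.mul_apply, Fin.sum_univ_two]
        simp
        rw [← hb]; field_simp; linear_combination (-1 : k) * hdet
      · simp only [Matrix.SpecialLinearGroup.coe_mul, xx_val, yy_val, Matrix.mul_apply, Fin.sum_univ_two]
        simp
        rfl
      · simp only [Matrix.SpecialLinearGroup.coe_mul, xx_val, yy_val, Matrix.mul_apply, Fin.sum_univ_two]
        simp
        rw [← hd]; field_simp; ring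
    rw [e]
    exact mul_mem (mul_mem (hx _) (hy _)) (hx _)
  rw [eq_top_iff]
  intro g _
  by_cases hc : (g : Matrix (Fin 2) (Fin 2) k) 1 0 = 0
  · have hdet := g.det_coe
    rw [Matrix.det_fin_two, hc] at hdet
    have h1 : ((g * yy 1 : Matrix.SpecialLinearGroup (Fin 2) k) : Matrix (Fin 2) (Fin 2) k) 1 0 ≠ 0 := by
      simp only [Matrix.SpecialLinearGroup.coe_mul, yy_val, Matrix.mul_apply, Fin.sum_univ_two]
      simp [hc]
      rintro h0
      rw [h0] at hdet; simp at hdet
    have := mul_mem (key _ h1) (inv_mem (hy 1))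
    rwa [mul_inv_cancel_right] at this
  · exact key g hc

end sl2

/-! ### the homomorphism -/

section hom
variable {k : Type*} [Field k] {M : Type*} [AddCommGroup M] [Module k M] [FiniteDimensional k M] {s t : End k M}

/-- the action of a `2 × 2` matrix -/
def act (s t : End k M) (m : Matrix (Fin 2) (Fin 2) k) : End k M :=
  (1 - pi s t) + m 0 0 • (s * t) + m 0 1 • s + m 1 0 • t + m 1 1 • (t * s)

theorem act_one : act s t 1 = 1 := by
  unfold act pi; simp; abel

theorem act_mul (o : Opp s t) (m n : Matrix (Fin 2) (Fin 2) k) : act s t (m * n) = act s t m * act s t n := by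
  unfold act
  have a1 := o.pi_s
  have a2 := o.pi_t
  have a3 := o.s_pi
  have a4 := o.t_pi
  have a5 := o.pi_pi
  have b1 := o.sts'
  have b2 := o.tst'
  have b3 := o.stsx
  have b4 := o.tstx
  have b5 := o.ss
  have b6 := o.tt
  have b7 := o.s2
  have b8 := o.t2
  have a1' : ∀ x, pi s t * (s * x) = s * x := fun x => by rw [← mul_assoc, a1]
  have a2' : ∀ x, pi s t * (t * x) = t * x := fun x => by rw [← mul_assoc, a2]
  rw [Matrix.mul_apply, Matrix.mul_apply, Matrix.mul_apply, Matrix.mul_apply]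
  simp only [Fin.sum_univ_two]
  simp only [mul_add, add_mul, mul_sub, sub_mul, mul_one, one_mul, smul_mul_assoc, mul_smul_comm, mul_assoc,
    a1, a2, a3, a4, a5, b1, b2, b3, b4, b5, b6, b7, b8, a1', a2', mul_zero, smul_zero]
  module

/-- `SL₂(k) → GL(M)` -/
noncomputable def phi (o : Opp s t) : Matrix.SpecialLinearGroup (Fin 2) k →* LinearMap.GeneralLinearGroup k M :=
  MonoidHom.toHomUnits
    { toFun := fun g => act s t g.1
      map_one' := by rw [Matrix.SpecialLinearGroup.coe_one]; exact act_one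
      map_mul' := fun g h => by rw [Matrix.SpecialLinearGroup.coe_mul]; exact act_mul o _ _ }

theorem phi_val (o : Opp s t) (g : Matrix.SpecialLinearGroup (Fin 2) k) : (phi o g : End k M) = act s t g.1 := rfl

theorem phi_x (o : Opp s t) (e : k) : phi o (xx e) = tv (e • s) := by
  apply Units.ext
  rw [phi_val, tv_val (by simp [o.s2])]
  unfold act pi xx; simp; abel

theorem phi_y (o : Opp s t) (e : k) : phi o (yy e) = tv (e • t) := by
  apply Units.ext
  rw [phi_val, tv_val (by simp [o.t2])]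
  unfold act pi yy; simp; abel

theorem phi_inj (o : Opp s t) (hs : s ≠ 0) (ht : t ≠ 0) : Function.Injective (phi o) := by
  rw [injective_iff_map_eq_one]
  intro g hg
  have h1 : act s t g.1 = 1 := by rw [← phi_val o, hg, Units.val_one]
  have b1 := o.sts'
  have b2 := o.tst'
  have b5 := o.ss
  have b6 := o.tt
  have b7 := o.s2
  have b8 := o.t2
  have e1 : s * act s t g.1 * s = g.1 1 0 • s := by
    unfold act
    rw [mul_assoc]
    simp only [add_mul, sub_mul, one_mul, smul_mul_assoc, mul_assoc, o.pi_s, b7, b1, b5, sub_self, mul_zero, smul_zero,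
      mul_add, mul_smul_comm, add_zero, zero_add]
  have e2 : t * act s t g.1 * t = g.1 0 1 • t := by
    unfold act
    rw [mul_assoc]
    simp only [add_mul, sub_mul, one_mul, smul_mul_assoc, mul_assoc, o.pi_t, b8, b2, b6, sub_self, mul_zero, smul_zero,
      mul_add, mul_smul_comm, add_zero, zero_add]
  rw [h1, mul_one] at e1 e2
  have hc : g.1 1 0 = 0 := by
    rw [b7] at e1
    rcases smul_eq_zero.1 e1.symm with h | h
    · exact h
    · exact absurd h hs
  have hb : g.1 0 1 = 0 := by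
    rw [b8] at e2
    rcases smul_eq_zero.1 e2.symm with h | h
    · exact h
    · exact absurd h ht
  have e3 : act s t g.1 * s = g.1 0 0 • s + g.1 1 0 • (t * s) := by
    unfold act
    simp only [add_mul, sub_mul, one_mul, smul_mul_assoc, mul_assoc, o.pi_s, b7, b1, sub_self, mul_zero, smul_zero,
      add_zero, zero_add]
  rw [h1, one_mul, hc, zero_smul, add_zero] at e3
  have ha : g.1 0 0 = 1 := by
    have : (1 - g.1 0 0) • s = 0 := by rw [sub_smul, one_smul, ← e3, sub_self]
    rcases smul_eq_zero.1 this with h | h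
    · exact (sub_eq_zero.1 h).symm
    · exact absurd h hs
  have hdet := g.2
  rw [Matrix.det_fin_two, ha, hb, one_mul, zero_mul, sub_zero] at hdet
  ext i j
  fin_cases i <;> fin_cases j <;> simp [ha, hb, hc, hdet]

/-- the two one-parameter groups -/
theorem psl2 (o : Opp s t) (hs : s ≠ 0) (ht : t ≠ 0) :
    IsPSL2PairOver k ((upperUnipotentSL2 k).map (phi o)) ((lowerUnipotentSL2 k).map (phi o)) := by
  refine ⟨phi o, ?_, ?_, rfl, rfl⟩
  · rw [← Subgroup.map_sup, sl2_gen, ← MonoidHom.range_eq_map]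
  · rw [(MonoidHom.ker_eq_bot_iff _).2 (phi_inj o hs ht)]; exact bot_le

end hom

section pair
variable {k : Type*} [Field k] {M : Type*} [AddCommGroup M] [Module k M] [FiniteDimensional k M]
  {G : Subgroup (LinearMap.GeneralLinearGroup k M)} {s t : End k M}

theorem nn_pair (h : NN G s t) : IsRankOnePair (EG s h.hs2 G) (EG t h.ht2 G) := (special_of h).1

theorem nn_of_pair (h2 : (2 : k) ≠ 0) (h3 : Nat.card k ≠ 3) (hirr : IsIrreducibleFor G) (hs : s ∈ Qd G) (ht : t ∈ Qd G)
    (hp : IsRankOnePair (EG s hs.1.1 G) (EG t ht.1.1 G)) : NN G s t := by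
  rcases tri h2 h3 hs ht with ⟨-, hc⟩ | h | h
  · exact (not_comm hp (comm_bot_of hc)).elim
  · exact h
  · exfalso
    apply not_nilpotent hp
    have hr := h.rcc hirr
    exact nil_of_class2 (nil2 EG_comm EG_comm le_rfl hr.2.1)

theorem three_lt (h2 : (2 : k) ≠ 0) (h3 : Nat.card k ≠ 3) : 3 < ENat.card k := by
  rcases finite_or_infinite k with hk | hk
  · have := CfsgLib.H14Crux.four_le_card h2 h3
    rw [ENat.card_eq_coe_natCard]
    exact_mod_cast this
  · rw [ENat.card_eq_top_of_infinite]; exact ENat.coe_lt_top 3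

theorem exists_psl2 (h : NN G s t) : ∃ A₀ B₀ : Subgroup (LinearMap.GeneralLinearGroup k M),
    A₀ ≤ EG s h.hs2 G ∧ B₀ ≤ EG t h.ht2 G ∧ IsPSL2PairOver k A₀ B₀ := by
  obtain ⟨t', ht', ht0, o⟩ := nn_opp h
  refine ⟨_, _, ?_, ?_, psl2 o h.hs.2.1 ht0⟩
  · rintro _ ⟨x, hx, rfl⟩
    obtain ⟨e, rfl⟩ := upper_eq.1 hx
    rw [phi_x]
    exact ⟨_, Submodule.smul_mem _ e (self_mem_ES h.hs.1), rfl⟩
  · rintro _ ⟨x, hx, rfl⟩
    obtain ⟨e, rfl⟩ := lower_eq.1 hx
    rw [phi_y]
    exact ⟨_, Submodule.smul_mem _ e ht', rfl⟩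

end pair

end CfsgLib.H14QD
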