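import Cfsg.Agent.LibH14R1

/-! Rank one groups: quadratic modules; transfer along injective homomorphisms (seat helper14). -/

set_option autoImplicit false

namespace CfsgLib.H14R1

open Cfsg

section transfer
variable {G K : Type*} [Group G] [Group K]

theorem map_cj (f : K →* G) (A : Subgroup K) (g : K) :
    (conjBy A g).map f = conjBy (A.map f) (f g) := by
  ext x
  rw [mem_cj]
  constructor
  · rintro ⟨y, hy, rfl⟩
    rw [SetLike.mem_coe, mem_cj] at hy
    exact ⟨_, hy, by simp⟩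
  · rintro ⟨y, hy, e⟩
    refine ⟨g * y * g⁻¹, cj_mem hy, ?_⟩
    rw [map_mul, map_mul, map_inv, e]; group

theorem rc_map {f : K →* G} (hf : Function.Injective f) {A B : Subgroup K} :
    RankOneCondition (A.map f) (B.map f) ↔ RankOneCondition A B := by
  have hone : ∀ x : K, f x = 1 ↔ x = 1 := fun x => by rw [← map_one f]; exact hf.eq_iff
  constructor
  · intro h a ha ha1
    obtain ⟨_, ⟨b, hb, rfl⟩, hb1, e⟩ := h (f a) ⟨a, ha, rfl⟩ (by rwa [Ne, hone])
    refine ⟨b, hb, by rwa [Ne, hone] at hb1, ?_⟩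
    rw [← map_inv, ← map_inv, ← map_cj, ← map_cj] at e
    exact Subgroup.map_injective hf e
  · rintro h _ ⟨a, ha, rfl⟩ ha1
    obtain ⟨b, hb, hb1, e⟩ := h a ha (by rwa [Ne, hone] at ha1)
    refine ⟨f b, ⟨b, hb, rfl⟩, by rwa [Ne, hone], ?_⟩
    rw [← map_inv, ← map_inv, ← map_cj, ← map_cj, e]

theorem nil_map_iff {f : K →* G} (hf : Function.Injective f) {A : Subgroup K} :
    Group.IsNilpotent (A.map f) ↔ Group.IsNilpotent A :=
  ⟨fun _ => Group.nilpotent_of_mulEquiv (A.equivMapOfInjective f hf).symm,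
   fun _ => Group.nilpotent_of_mulEquiv (A.equivMapOfInjective f hf)⟩

theorem comm_map_iff {f : K →* G} (hf : Function.Injective f) {A : Subgroup K} :
    IsMulCommutative (A.map f) ↔ IsMulCommutative A := by
  constructor
  · intro h
    refine ⟨⟨fun x y => Subtype.ext (hf ?_)⟩⟩
    have := congrArg Subtype.val (h.is_comm.comm ⟨f x, ⟨x, x.2, rfl⟩⟩ ⟨f y, ⟨y, y.2, rfl⟩⟩)
    simpa using this
  · intro h
    refine ⟨⟨?_⟩⟩
    rintro ⟨_, ⟨x, hx, rfl⟩⟩ ⟨_, ⟨y, hy, rfl⟩⟩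
    have := congrArg Subtype.val (h.is_comm.comm ⟨x, hx⟩ ⟨y, hy⟩)
    simp only [MulMemClass.mk_mul_mk] at this
    apply Subtype.ext
    show f x * f y = f y * f x
    rw [← map_mul, this, map_mul]

theorem pair_map_iff {f : K →* G} (hf : Function.Injective f) {A B : Subgroup K} :
    IsRankOnePair (A.map f) (B.map f) ↔ IsRankOnePair A B := by
  constructor
  · intro h
    exact ⟨fun e => h.ne (by rw [e]), (nil_map_iff hf).1 h.nilpotent_left,
      (nil_map_iff hf).1 h.nilpotent_right, (rc_map hf).1 h.cond_left, (rc_map hf).1 h.cond_right⟩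
  · intro h
    exact ⟨fun e => h.ne (Subgroup.map_injective hf e), (nil_map_iff hf).2 h.nilpotent_left,
      (nil_map_iff hf).2 h.nilpotent_right, (rc_map hf).2 h.cond_left, (rc_map hf).2 h.cond_right⟩

theorem special_map_iff {f : K →* G} (hf : Function.Injective f) {A B : Subgroup K} :
    IsSpecialRankOnePair (A.map f) (B.map f) ↔ IsSpecialRankOnePair A B := by
  have hone : ∀ x : K, f x = 1 ↔ x = 1 := fun x => by rw [← map_one f]; exact hf.eq_iff
  unfold IsSpecialRankOnePair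
  rw [pair_map_iff hf]
  refine and_congr_right fun hp => ?_
  constructor
  · intro h a ha ha1 b hb hb1 e
    have := h (f a) ⟨a, ha, rfl⟩ (by rwa [Ne, hone]) (f b) ⟨b, hb, rfl⟩ (by rwa [Ne, hone])
      (by rw [← map_inv, ← map_inv, ← map_cj, ← map_cj, e])
    apply hf
    simpa using this
  · rintro h _ ⟨a, ha, rfl⟩ ha1 _ ⟨b, hb, rfl⟩ hb1 e
    rw [← map_inv, ← map_inv, ← map_cj, ← map_cj] at e
    have := h a ha (by rwa [Ne, hone] at ha1) b hb (by rwa [Ne, hone] at hb1)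
      (Subgroup.map_injective hf e)
    rw [← map_inv, ← map_inv, ← map_mul, ← map_mul, ← map_mul, ← map_mul, this]

theorem subgroupOf_map {A H : Subgroup G} (h : A ≤ H) : (A.subgroupOf H).map H.subtype = A := by
  rw [Subgroup.subgroupOf_map_subtype, inf_eq_left.2 h]

theorem pair_subgroupOf {A B H : Subgroup G} (hA : A ≤ H) (hB : B ≤ H) :
    IsRankOnePair (A.subgroupOf H) (B.subgroupOf H) ↔ IsRankOnePair A B := by
  rw [← pair_map_iff H.subtype_injective, subgroupOf_map hA, subgroupOf_map hB]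

theorem special_subgroupOf {A B H : Subgroup G} (hA : A ≤ H) (hB : B ≤ H) :
    IsSpecialRankOnePair (A.subgroupOf H) (B.subgroupOf H) ↔ IsSpecialRankOnePair A B := by
  rw [← special_map_iff H.subtype_injective, subgroupOf_map hA, subgroupOf_map hB]

end transfer

section quadratic

variable {X : Type*} [Group X] {A B : Subgroup X} {N : Type*} [AddCommGroup N]
  [DistribMulAction X N]

/-- `[N, A]` -/
def br (A : Subgroup X) (N : Type*) [AddCommGroup N] [DistribMulAction X N] : AddSubgroup N :=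
  AddSubgroup.closure {m | ∃ a ∈ A, ∃ n : N, m = a • n - n}

/-- vectors fixed by everything -/
def fixAll (X : Type*) [Group X] (N : Type*) [AddCommGroup N] [DistribMulAction X N] :
    AddSubgroup N where
  carrier := {n | ∀ x : X, x • n = n}
  zero_mem' := fun x => smul_zero x
  add_mem' := by intro a b ha hb x; rw [smul_add, ha, hb]
  neg_mem' := by intro a ha x; rw [smul_neg, ha]

theorem mem_fixAll {n : N} : n ∈ fixAll X N ↔ ∀ x : X, x • n = n := Iff.rfl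

theorem sub_mem_br {a : X} (ha : a ∈ A) (n : N) : a • n - n ∈ br A N :=
  AddSubgroup.subset_closure ⟨a, ha, n, rfl⟩

theorem br_fixed (hq : ∀ a ∈ A, ∀ a' ∈ A, ∀ n : N, a' • (a • n - n) = a • n - n) {a : X}
    (ha : a ∈ A) {u : N} (hu : u ∈ br A N) : a • u = u := by
  induction hu using AddSubgroup.closure_induction with
  | mem m hm => obtain ⟨a', ha', n, rfl⟩ := hm; exact hq a' ha' a ha n
  | zero => exact smul_zero a
  | add x y _ _ hx hy => rw [smul_add, hx, hy]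
  | neg x _ hx => rw [smul_neg, hx]

theorem quad_cj (hq : ∀ a ∈ A, ∀ a' ∈ A, ∀ n : N, a' • (a • n - n) = a • n - n) (x : X) :
    ∀ b ∈ conjBy A x, ∀ b' ∈ conjBy A x, ∀ n : N, b' • (b • n - n) = b • n - n := by
  intro b hb b' hb' n
  rw [mem_cj] at hb hb'
  have h := hq _ hb _ hb' (x⁻¹ • n)
  have e1 : b • n - n = x • ((x⁻¹ * b * x) • (x⁻¹ • n) - x⁻¹ • n) := by
    rw [smul_sub, smul_smul, smul_smul, smul_inv_smul]
    congr 2; group
  have e2 : ∀ m : N, b' • (x • m) = x • ((x⁻¹ * b' * x) • m) := by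
    intro m; rw [smul_smul, smul_smul]; congr 1; group
  rw [e1, e2, h]

theorem fixed_of_two (ht : A ⊔ B = ⊤) {n : N} (hA : ∀ a ∈ A, a • n = n) (hB : ∀ b ∈ B, b • n = n) :
    n ∈ fixAll X N := by
  intro x
  have hx : x ∈ A ⊔ B := by rw [ht]; trivial
  rw [Subgroup.sup_eq_closure] at hx
  induction hx using Subgroup.closure_induction with
  | mem x hx => exact hx.elim (hA x) (hB x)
  | one => exact one_smul _ _
  | mul x y _ _ ihx ihy => rw [mul_smul, ihy, ihx]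
  | inv x _ ih => rw [inv_smul_eq_iff, ih]

/-- partner relation on `[N,B]` -/
theorem shift (ht : A ⊔ B = ⊤) (hqA : ∀ a ∈ A, ∀ a' ∈ A, ∀ n : N, a' • (a • n - n) = a • n - n)
    (hqB : ∀ a ∈ B, ∀ a' ∈ B, ∀ n : N, a' • (a • n - n) = a • n - n)
    {a b : X} (ha : a ∈ A) (hb : b ∈ B) (e : conjBy A b⁻¹ = conjBy B a⁻¹) {w : N}
    (hw : w ∈ br B N) :
    b⁻¹ • (a⁻¹ • w - w) - (a⁻¹ • w - w) - w ∈ fixAll X N := by
  have h1 : ∃ u ∈ br A N, a⁻¹ • w = b⁻¹ • u := by
    induction hw using AddSubgroup.closure_induction with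
    | mem m hm =>
      obtain ⟨β, hβ, n, rfl⟩ := hm
      have h2 : a⁻¹ * β * a ∈ conjBy A b⁻¹ := by rw [e]; simpa using cj_mem (g := a⁻¹) hβ
      rw [mem_cj, inv_inv] at h2
      refine ⟨_, sub_mem_br h2 (b • a⁻¹ • n), ?_⟩
      simp only [smul_sub, smul_smul]
      congr 2
      · group
      · group
    | zero => exact ⟨0, zero_mem _, by simp⟩
    | add x y _ _ hx hy =>
      obtain ⟨u, hu, e1⟩ := hx
      obtain ⟨v, hv, e2⟩ := hy
      exact ⟨u + v, add_mem hu hv, by rw [smul_add, smul_add, e1, e2]⟩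
    | neg x _ hx =>
      obtain ⟨u, hu, e1⟩ := hx
      exact ⟨-u, neg_mem hu, by rw [smul_neg, smul_neg, e1]⟩
  obtain ⟨u, hu, e1⟩ := h1
  have h2 : (a⁻¹ • w - w) - u ∈ fixAll X N := by
    apply fixed_of_two ht
    · intro x hx
      exact br_fixed hqA hx (sub_mem (sub_mem_br (inv_mem ha) w) hu)
    · intro x hx
      have : (a⁻¹ • w - w) - u = (b⁻¹ • u - u) - w := by rw [e1]; abel
      rw [this]
      exact br_fixed hqB hx (sub_mem (sub_mem_br (inv_mem hb) u) hw)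
  have h3 : b⁻¹ • (a⁻¹ • w - w) - (a⁻¹ • w - w) - w = ((a⁻¹ • w - w) - u) := by
    have h4 : b⁻¹ • ((a⁻¹ • w - w) - u) = (a⁻¹ • w - w) - u := h2 b⁻¹
    rw [smul_sub] at h4
    have h5 : b⁻¹ • (a⁻¹ • w - w) = (a⁻¹ • w - w) - u + b⁻¹ • u := by rw [← h4]; abel
    rw [h5, ← e1]; abel
  rw [h3]; exact h2

theorem special_of_quadratic (h : IsRankOneGroup X A B)
    (hq : ∀ a ∈ A, ∀ a' ∈ A, ∀ n : N, a' • (a • n - n) = a • n - n)
    (hX : ∃ x y : X, ∃ n : N, y • (x • n - n) ≠ x • n - n) : IsSpecialRankOnePair A B := by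
  obtain ⟨ht, hp⟩ := h
  refine ⟨hp, ?_⟩
  have hqB : ∀ a ∈ B, ∀ a' ∈ B, ∀ n : N, a' • (a • n - n) = a • n - n := by
    obtain ⟨x, -, rfl⟩ := exists_swap hp
    exact quad_cj hq x
  have ht' : B ⊔ A = ⊤ := by rw [sup_comm]; exact ht
  set Z := fixAll X N with hZ
  have hinv : ∀ (C : Subgroup X) (hC : ∀ a ∈ C, ∀ a' ∈ C, ∀ n : N, a' • (a • n - n) = a • n - n)
      (c : X) (_ : c ∈ C) (n : N), c⁻¹ • n - n = -(c • n - n) := by
    intro C hC c hc n
    have h1 := hC c⁻¹ (inv_mem hc) c hc n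
    rw [smul_sub, smul_inv_smul] at h1
    rw [← h1]; abel
  -- [N,X] = [N,A] + [N,B]
  have hN1 : ∀ x : X, ∀ n : N, x • n - n ∈ br A N ⊔ br B N := by
    intro x
    have hx : x ∈ A ⊔ B := by rw [ht]; trivial
    rw [Subgroup.sup_eq_closure] at hx
    induction hx using Subgroup.closure_induction with
    | mem x hx =>
      intro n
      rcases hx with hx | hx
      · exact AddSubgroup.mem_sup_left (sub_mem_br hx n)
      · exact AddSubgroup.mem_sup_right (sub_mem_br hx n)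
    | one => intro n; simp
    | mul x y _ _ ihx ihy =>
      intro n
      have : (x * y) • n - n = (x • (y • n) - y • n) + (y • n - n) := by rw [mul_smul]; abel
      rw [this]; exact add_mem (ihx _) (ihy _)
    | inv x _ ih =>
      intro n
      have : x⁻¹ • n - n = -(x • (x⁻¹ • n) - x⁻¹ • n) := by rw [smul_inv_smul]; abel
      rw [this]; exact neg_mem (ih _)
  have key : ∀ a' ∈ A, (∀ n ∈ br A N ⊔ br B N, a' • n - n ∈ Z) → a' = 1 := by
    intro a ha hn
    by_contra ha1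
    obtain ⟨b, hb, hb1, e⟩ := hp.cond_left a ha ha1
    have hW : ∀ w ∈ br B N, w ∈ Z := by
      intro w hw
      have h1 := shift ht hq hqB ha hb e hw
      have h2 : a⁻¹ • w - w ∈ Z := by
        rw [hinv A hq a ha w]; exact neg_mem (hn w (AddSubgroup.mem_sup_right hw))
      rw [h2 b⁻¹, sub_self, zero_sub] at h1
      simpa using neg_mem h1
    have hU : ∀ u ∈ br A N, u ∈ Z := by
      intro u hu
      have h1 := shift ht' hqB hq hb ha e.symm hu
      have h2 : b⁻¹ • u - u ∈ Z := hW _ (sub_mem_br (inv_mem hb) u)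
      rw [h2 a⁻¹, sub_self, zero_sub] at h1
      simpa using neg_mem h1
    obtain ⟨x, y, n, hne⟩ := hX
    exact hne ((sup_le hU hW : br A N ⊔ br B N ≤ Z) (hN1 x n) y)
  intro a ha ha1 b hb hb1 e
  -- work modulo Z
  have hZx : ∀ x : X, Z ≤ Z.comap (DistribMulAction.toAddMonoidHom N x) := by
    intro x n hn
    rw [AddSubgroup.mem_comap]
    show x • n ∈ Z
    rw [hn x]; exact hn
  let T : X → (N ⧸ Z) →+ (N ⧸ Z) := fun x =>
    QuotientAddGroup.map Z Z (DistribMulAction.toAddMonoidHom N x) (hZx x)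
  have hT : ∀ (x : X) (n : N), T x (n : N ⧸ Z) = ((x • n : N) : N ⧸ Z) := fun x n => rfl
  have hTm : ∀ (x y : X) (q : N ⧸ Z), T (x * y) q = T x (T y q) := by
    intro x y q
    obtain ⟨n, rfl⟩ := QuotientAddGroup.mk_surjective q
    rw [hT, hT, hT, mul_smul]
  have hmk : ∀ n m : N, n - m ∈ Z → (n : N ⧸ Z) = m := by
    intro n m h
    rw [eq_comm, QuotientAddGroup.eq, neg_add_eq_sub]; exact h
  have base : ∀ (C D : Subgroup X) (_ : C ⊔ D = ⊤)
      (hqC : ∀ a ∈ C, ∀ a' ∈ C, ∀ n : N, a' • (a • n - n) = a • n - n)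
      (hqD : ∀ a ∈ D, ∀ a' ∈ D, ∀ n : N, a' • (a • n - n) = a • n - n)
      (c d : X) (_ : c ∈ C) (_ : d ∈ D) (_ : conjBy C d⁻¹ = conjBy D c⁻¹) (u : N) (_ : u ∈ br C N),
      ∃ w : N, w ∈ br D N ∧ T d (u : N ⧸ Z) = (u : N ⧸ Z) + w ∧ T d⁻¹ (u : N ⧸ Z) = (u : N ⧸ Z) - w ∧
        T d (w : N ⧸ Z) = w ∧ T d⁻¹ (w : N ⧸ Z) = w ∧ T c (u : N ⧸ Z) = u ∧ T c⁻¹ (u : N ⧸ Z) = u ∧
        T c (w : N ⧸ Z) = w + u ∧ T c⁻¹ (w : N ⧸ Z) = w - u := by
    intro C D htt hqC hqD c d hc hd e u hu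
    obtain ⟨w, hw⟩ : ∃ w : N, w = d • u - u := ⟨_, rfl⟩
    have hwB : w ∈ br D N := by rw [hw]; exact sub_mem_br hd u
    have h2 : d⁻¹ • u - u = -w := by rw [hw]; exact hinv D hqD d hd u
    have h1 := shift (by rw [sup_comm]; exact htt) hqD hqC hd hc e.symm hu
    rw [h2, smul_neg] at h1
    have e5 : T c⁻¹ (w : N ⧸ Z) = w - u := by
      rw [hT, ← QuotientAddGroup.mk_sub]
      apply hmk
      have := neg_mem h1
      convert this using 1; abel
    refine ⟨w, hwB, ?_, ?_, ?_, ?_, ?_, ?_, ?_, e5⟩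
    · rw [hT, ← QuotientAddGroup.mk_add, hw]; congr 1; abel
    · have h2' := h2
      rw [sub_eq_iff_eq_add] at h2'
      rw [hT, ← QuotientAddGroup.mk_sub, h2']; congr 1; abel
    · rw [hT, br_fixed hqD hd hwB]
    · rw [hT, br_fixed hqD (inv_mem hd) hwB]
    · rw [hT, br_fixed hqC hc hu]
    · rw [hT, br_fixed hqC (inv_mem hc) hu]
    · have h4 := hinv C hqC c hc w
      have h3 : c • w = w + (w - c⁻¹ • w) := by
        have h5 : c • w - w = w - c⁻¹ • w := by rw [eq_comm, ← neg_sub, h4, neg_neg]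
        rw [← h5]; abel
      rw [hT, h3, QuotientAddGroup.mk_add, QuotientAddGroup.mk_sub, ← hT c⁻¹ w, e5]; abel
  have hU : ∀ u ∈ br A N, T (b⁻¹ * a * b) (u : N ⧸ Z) = T (a⁻¹ * b⁻¹ * a) (u : N ⧸ Z) := by
    intro u hu
    obtain ⟨w, -, f1, f2, f3, f4, f5, f6, f7, f8⟩ := base A B ht hq hqB a b ha hb e u hu
    simp only [hTm, map_add, map_sub, f1, f2, f3, f4, f5, f6, f7, f8]
    abel
  have hW : ∀ u ∈ br B N, T (b⁻¹ * a * b) (u : N ⧸ Z) = T (a⁻¹ * b⁻¹ * a) (u : N ⧸ Z) := by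
    intro u hu
    obtain ⟨w, -, f1, f2, f3, f4, f5, f6, f7, f8⟩ := base B A ht' hqB hq b a hb ha e.symm u hu
    simp only [hTm, map_add, map_sub, f1, f2, f3, f4, f5, f6, f7, f8]
    abel
  have hall : ∀ n ∈ br A N ⊔ br B N, T (b⁻¹ * a * b) (n : N ⧸ Z) = T (a⁻¹ * b⁻¹ * a) (n : N ⧸ Z) := by
    intro n hn
    obtain ⟨u, hu, w, hw, rfl⟩ := AddSubgroup.mem_sup.1 hn
    rw [QuotientAddGroup.mk_add, map_add, map_add, hU u hu, hW w hw]
  have hgm : b⁻¹ * a * b ∈ conjBy A b⁻¹ := by simpa using cj_mem (g := b⁻¹) ha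
  have hhm : a⁻¹ * b⁻¹ * a ∈ conjBy A b⁻¹ := by
    rw [e]; simpa using cj_mem (g := a⁻¹) (inv_mem hb)
  -- the quotient element in A
  have hc : b * ((b⁻¹ * a * b) * (a⁻¹ * b⁻¹ * a)⁻¹) * b⁻¹ ∈ A := by
    have := mul_mem hgm (inv_mem hhm)
    rw [mem_cj, inv_inv] at this
    exact this
  have hinvT : ∀ (x : X) (n m : N ⧸ Z), T x n = m → T x⁻¹ m = n := by
    intro x n m hnm
    rw [← hnm, ← hTm]
    obtain ⟨k, rfl⟩ := QuotientAddGroup.mk_surjective n
    rw [hT]; simp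
  have hN1x : ∀ (x : X) (n : N), n ∈ br A N ⊔ br B N → x • n ∈ br A N ⊔ br B N := by
    intro x n hn
    have : x • n = (x • n - n) + n := by abel
    rw [this]; exact add_mem (hN1 x n) hn
  have h1 := key _ hc (by
    intro n hn
    have h3 : ((b * ((b⁻¹ * a * b) * (a⁻¹ * b⁻¹ * a)⁻¹) * b⁻¹) • n : N) - n ∈ Z ↔
        T (b * ((b⁻¹ * a * b) * (a⁻¹ * b⁻¹ * a)⁻¹) * b⁻¹) (n : N ⧸ Z) = n := by
      rw [hT, eq_comm, QuotientAddGroup.eq, neg_add_eq_sub]
    rw [h3]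
    set m := (a⁻¹ * b⁻¹ * a)⁻¹ • b⁻¹ • n with hm
    have hmN : m ∈ br A N ⊔ br B N := hN1x _ _ (hN1x _ _ hn)
    have h4 := hall m hmN
    rw [hTm, hTm, hTm, hT b⁻¹, hT (a⁻¹ * b⁻¹ * a)⁻¹, ← hm, h4, hT, hm, smul_inv_smul, hT,
      smul_inv_smul])
  have h2 : (b⁻¹ * a * b) * (a⁻¹ * b⁻¹ * a)⁻¹ = 1 := by
    have h3 : (b⁻¹ * a * b) * (a⁻¹ * b⁻¹ * a)⁻¹ =
      b⁻¹ * (b * ((b⁻¹ * a * b) * (a⁻¹ * b⁻¹ * a)⁻¹) * b⁻¹) * b := by group
    rw [h3, h1]; group
  exact mul_inv_eq_one.1 h2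

end quadratic

end CfsgLib.H14R1
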