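import Cfsg.Agent.LibH14RS
import Cfsg.Agent.LibH14R1Q

/-! Abstract root subgroups: lines, 2-transitivity, connectivity (seat helper14). -/

set_option autoImplicit false

namespace CfsgLib.H14RS

open Cfsg CfsgLib.H14R1
open scoped commutatorElement

variable {G : Type*} [Group G] {S : Set (Subgroup G)} {A B C D : Subgroup G}

section
variable (hS : IsRootSubgroupSet S)
include hS

theorem el_comm_supr {z : G} (h1 : ∀ a ∈ A, z * a = a * z) (h2 : ∀ a ∈ B, z * a = a * z) :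
    ∀ x ∈ A ⊔ B, z * x = x * z := by
  intro x hx
  rw [Subgroup.sup_eq_closure] at hx
  induction hx using Subgroup.closure_induction with
  | mem x hx => exact hx.elim (h1 x) (h2 x)
  | one => simp
  | mul x y _ _ ihx ihy => rw [← mul_assoc, ihx, mul_assoc, ihy, mul_assoc]
  | inv x _ ih => rw [eq_inv_mul_iff_mul_eq, ← mul_assoc, ← ih, mul_inv_cancel_right]

/-- general version of the exceptional lemma -/
theorem exc (hA : A ∈ S) (hC : C ∈ S) (hp : IsRankOnePair A C) (hB : B ∈ S)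
    (hAB : ∀ a ∈ A, ∀ b ∈ B, a * b = b * a) (hr : RootCommutatorCase S B C) (hD : D ∈ S)
    {a b : G} (ha : a ∈ A) (ha1 : a ≠ 1) (hb : b ∈ B) (hab : a * b ∈ D) :
    IsRankOnePair D C := by
  have hab1 : a * b ≠ 1 := by
    intro e
    have h1 : a ∈ B := by
      rw [mul_eq_one_iff_eq_inv] at e
      rw [e]; exact inv_mem hb
    have := eq_of_inf hS hA hC hp hB ha h1 ha1
    rw [← this] at hr
    exact rcc_not_pair hS hA hC hr hp
  rcases hS.pair D hD C hC with h1 | h1 | h1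
  · exfalso
    have hb1 : b ≠ 1 := by
      rintro rfl
      rw [mul_one] at hab
      exact ha1 (not_normalize hp ha (cj_of_comm (comm_iff.1 h1 a hab)))
    refine translate hS hA hC hp (z := a * b) (a := a⁻¹) ?_ hab1 (inv_mem ha) (by simpa using ha1) hB ?_
    · apply el_comm_supr hS
      · intro x hx
        rw [mul_assoc, ← hAB x hx b hb, ← mul_assoc, el_comm (hS.commutative A hA) a ha x hx, mul_assoc]
      · exact comm_iff.1 h1 _ hab
    · rw [hAB a ha b hb, mul_inv_cancel_right]; exact hb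
  · exact h1
  · exfalso
    have hDB : ∀ d ∈ D, ∀ b ∈ B, d * b = b * d := by
      apply comm_iff.1
      apply comm_of_el_comm hS hB hD hab hab1
      intro c hc
      rw [mul_assoc, el_comm (hS.commutative B hB) b hb c hc, ← mul_assoc, hAB a ha c hc, mul_assoc]
    obtain ⟨γ, hγ, hγ1⟩ := exists_ne_one (hS.ne_bot C hC)
    have hch : Chain S D C B γ := ⟨hD, hC, hB, h1, hr, hDB, hγ, hγ1⟩
    have hn := hch.nilpotent hS
    apply not_nilpotent hp
    rw [← (sup_cj hp ha ha1).2]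
    refine nil_mono ?_ hn
    have hle : C ≤ D ⊔ C ⊔ B := le_sup_right.trans le_sup_left
    refine sup_le hle ?_
    have haL : a ∈ D ⊔ C ⊔ B := by
      have : a = (a * b) * b⁻¹ := by group
      rw [this]
      exact mul_mem (Subgroup.mem_sup_left (Subgroup.mem_sup_left hab))
        (inv_mem (Subgroup.mem_sup_right hb))
    rw [← cj_of_mem haL]
    exact cj_le.2 hle

theorem line_el_comm (h : B ∈ linePartners S A) : ∀ a ∈ A, ∀ b ∈ B, a * b = b * a :=
  comm_iff.1 h.1.2.2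

theorem line_comm (hA : A ∈ S) (h : B ∈ linePartners S A) : ∀ x ∈ A ⊔ B, ∀ y ∈ A ⊔ B, x * y = y * x := by
  have h1 := line_el_comm hS h
  have hAA := el_comm (hS.commutative A hA)
  have hBB := el_comm (hS.commutative B h.1.1)
  apply el_comm_sup
  · apply el_comm_symm
    exact el_comm_sup hAA (el_comm_symm h1)
  · apply el_comm_symm
    exact el_comm_sup h1 hBB

theorem line_cover (h : B ∈ linePartners S A) {x : G} (hx : x ∈ A ⊔ B) (hx1 : x ≠ 1) :
    ∃ D ∈ S, D ≤ A ⊔ B ∧ x ∈ D := by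
  obtain ⟨D, hD, h1⟩ := h.2.2.1 x hx hx1
  exact ⟨D, hD.1, hD.2, h1⟩

theorem line_eq (h : B ∈ linePartners S A) {C D : Subgroup G} (hC : C ∈ S) (hC' : C ≤ A ⊔ B)
    (hD : D ∈ S) (hD' : D ≤ A ⊔ B) {x : G} (hxC : x ∈ C) (hxD : x ∈ D) (hx1 : x ≠ 1) : C = D := by
  by_contra hne
  have := h.2.2.2 C ⟨hC, hC'⟩ D ⟨hD, hD'⟩ hne
  exact hx1 ((Subgroup.eq_bot_iff_forall _).1 this x ⟨hxC, hxD⟩)

theorem line_inf (hA : A ∈ S) (h : B ∈ linePartners S A) : A ⊓ B = ⊥ :=
  h.2.2.2 A ⟨hA, le_sup_left⟩ B ⟨h.1.1, le_sup_right⟩ (Ne.symm h.1.2.1)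

/-- S5031, contrapositive -/
theorem line_connected (hA : A ∈ S) (h : B ∈ linePartners S A) {C E : Subgroup G} (hC : C ∈ S)
    (hpC : IsRankOnePair A C) (hE : E ∈ S) (hpE : IsRankOnePair B E) :
    Relation.ReflTransGen (FAdj S) A B := by
  have hB : B ∈ S := h.1.1
  have hcom := line_el_comm hS h
  have edge : ∀ {X Y : Subgroup G}, X ∈ S → Y ∈ S → IsRankOnePair X Y →
      Relation.ReflTransGen (FAdj S) X Y := fun hX hY hp => Relation.ReflTransGen.single ⟨hX, hY, hp⟩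
  obtain ⟨a, ha, ha1⟩ := exists_ne_one (hS.ne_bot A hA)
  obtain ⟨b, hb, hb1⟩ := exists_ne_one (hS.ne_bot B hB)
  have nocomm : ∀ (A B C : Subgroup G), A ∈ S → B ∈ linePartners S A → C ∈ S → IsRankOnePair A C →
      ⁅B, C⁆ ≠ ⊥ := by
    intro A B C hA h hC hp hc
    obtain ⟨a, ha, ha1⟩ := exists_ne_one (hS.ne_bot A hA)
    obtain ⟨b, hb, hb1⟩ := exists_ne_one (hS.ne_bot B h.1.1)
    have hne : b * a ≠ 1 := by
      intro e
      have h1 : a ∈ A ⊓ B := Subgroup.mem_inf.2 ⟨ha, by rw [mul_eq_one_iff_inv_eq] at e; rw [← e]; exact inv_mem hb⟩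
      rw [line_inf hS hA h] at h1
      exact ha1 h1
    obtain ⟨D, hD, -, hx⟩ := line_cover hS h
      (mul_mem (Subgroup.mem_sup_right hb) (Subgroup.mem_sup_left ha)) hne
    refine translate hS hA hC hp (z := b) ?_ hb1 ha ha1 hD hx
    apply el_comm_supr hS
    · intro x hx; exact (line_el_comm hS h x hx b hb).symm
    · exact comm_iff.1 hc b hb
  rcases hS.pair B hB C hC with h1 | h1 | h1
  · exact absurd h1 (nocomm A B C hA h hC hpC)
  · exact (edge hA hC hpC).trans (edge hC hB (pair_symm h1))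
  have hl' := line_symm hS hA h
  rcases hS.pair A hA E hE with h2 | h2 | h2
  · exact absurd h2 (nocomm B A E hB hl' hE hpE)
  · exact (edge hA hE h2).trans (edge hE hB (pair_symm hpE))
  have hne : a * b ≠ 1 := by
    intro e
    have h1 : a ∈ A ⊓ B := Subgroup.mem_inf.2 ⟨ha, by rw [mul_eq_one_iff_eq_inv] at e; rw [e]; exact inv_mem hb⟩
    rw [line_inf hS hA h] at h1
    exact ha1 h1
  obtain ⟨D, hD, -, hx⟩ := line_cover hS h
    (mul_mem (Subgroup.mem_sup_left ha) (Subgroup.mem_sup_right hb)) hne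
  have h3 := exc hS hA hC hpC hB hcom h1 hD ha ha1 hb hx
  have h4 := exc hS hB hE hpE hA (el_comm_symm hcom) h2 hD hb hb1 ha
    (by rw [← hcom a ha b hb]; exact hx)
  exact (edge hA hC hpC).trans ((edge hC hD (pair_symm h3)).trans
    ((edge hD hE h4).trans (edge hE hB (pair_symm hpE))))

/-- existence of the exceptional member of a line -/
theorem exists_exc (hA : A ∈ S) (h : B ∈ linePartners S A) (hC : C ∈ S) (hp : IsRankOnePair A C) :
    RootCommutatorCase S B C ∨ ∃ B₀ ∈ S, B₀ ≤ A ⊔ B ∧ RootCommutatorCase S B₀ C ∧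
      ∃ b ∈ B, b ≠ 1 ∧ b ∈ A ⊔ B₀ := by
  have hB : B ∈ S := h.1.1
  have hcom := line_el_comm hS h
  -- no member of the line commutes with C
  have hnc : ∀ D ∈ S, D ≤ A ⊔ B → ⁅D, C⁆ ≠ ⊥ := by
    intro D hD hle hc
    obtain ⟨a, ha, ha1⟩ := exists_ne_one (hS.ne_bot A hA)
    obtain ⟨d, hd, hd1⟩ := exists_ne_one (hS.ne_bot D hD)
    by_cases hne : d * a = 1
    · have h1 : d ∈ A := by rw [mul_eq_one_iff_eq_inv] at hne; rw [hne]; exact inv_mem ha
      exact hd1 (not_normalize hp h1 (cj_of_comm (comm_iff.1 hc d hd)))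
    · obtain ⟨D', hD', -, hx⟩ := line_cover hS h (mul_mem (hle hd) (Subgroup.mem_sup_left ha)) hne
      refine translate hS hA hC hp (z := d) ?_ hd1 ha ha1 hD' hx
      apply el_comm_supr hS
      · intro x hx; exact line_comm hS hA h d (hle hd) x (Subgroup.mem_sup_left hx)
      · exact comm_iff.1 hc d hd
  rcases hS.pair B hB C hC with h1 | h1 | h1
  · exact absurd h1 (hnc B hB le_sup_right)
  · right
    obtain ⟨e, he, he1⟩ := exists_ne_one (hS.ne_bot C hC)
    obtain ⟨a, ha, ha1, ea⟩ := hp.cond_right e he he1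
    obtain ⟨b, hb, hb1, eb⟩ := h1.cond_right e he he1
    have hc1 : ∀ x ∈ conjBy C a⁻¹, ∀ y ∈ conjBy C b⁻¹, x * y = y * x := by
      rw [ea, eb]; exact el_comm_cj hcom e⁻¹
    have hc2 := el_comm_cj hc1 b
    rw [cj_cj, cj_cj, mul_inv_cancel, cj_one] at hc2
    have hx1 : b * a⁻¹ ≠ 1 := by
      intro e
      have h1 : a ∈ A ⊓ B := ⟨ha, by rw [mul_inv_eq_one] at e; rw [← e]; exact hb⟩
      rw [line_inf hS hA h] at h1
      exact ha1 h1
    obtain ⟨B₀, hB₀, hle, hx⟩ := line_cover hS h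
      (mul_mem (Subgroup.mem_sup_right hb) (Subgroup.mem_sup_left (inv_mem ha))) hx1
    refine ⟨B₀, hB₀, hle, ?_, b, hb, hb1, ?_⟩
    · rcases hS.pair B₀ hB₀ C hC with h2 | h2 | h2
      · exact absurd h2 (hnc B₀ hB₀ hle)
      · exfalso
        have := (sup_cj h2 hx hx1).1
        exact not_comm this (comm_iff.2 (el_comm_symm hc2))
      · exact h2
    · have : b = (b * a⁻¹) * a := by group
      rw [this]
      exact mul_mem (Subgroup.mem_sup_right hx) (Subgroup.mem_sup_left ha)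
  · exact Or.inl h1

/-- key structure lemma: `⁅A, ⁅B,C⁆⁆ = B` -/
theorem key (hA : A ∈ S) (hC : C ∈ S) (hp : IsRankOnePair A C) (hB : B ∈ S)
    (hAB : ∀ a ∈ A, ∀ b ∈ B, a * b = b * a) (hr : RootCommutatorCase S B C)
    (hcov : ∀ x ∈ A ⊔ B, x ≠ 1 → ∃ D ∈ S, x ∈ D) :
    RootCommutatorCase S A ⁅B, C⁆ ∧ ⁅A, ⁅B, C⁆⁆ = B := by
  set E := ⁅B, C⁆ with hE
  have hES : E ∈ S := hr.1
  have hAA := el_comm (hS.commutative A hA)
  have hEB : ∀ e ∈ E, ∀ b ∈ B, e * b = b * e := fun e he b hb => hr.2.1 e he b (Subgroup.mem_sup_left hb)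
  have hEC : ∀ e ∈ E, ∀ c ∈ C, e * c = c * e := fun e he b hb => hr.2.1 e he b (Subgroup.mem_sup_right hb)
  -- commutation with C of an element of B
  have hBnc : ∀ b ∈ B, b ≠ 1 → ¬ ∀ c ∈ C, b * c = c * b := by
    intro b hb hb1 hc
    exact rcc_not_comm hS hr (comm_of_el_comm hS hC hB hb hb1 hc)
  -- Step 1
  have s1 : ¬ IsRankOnePair A E := by
    intro hpE
    obtain ⟨b, hb, hb1⟩ := exists_ne_one (hS.ne_bot B hB)
    have hex : ∃ c ∈ C, ⁅b, c⁆ ≠ 1 := by
      by_contra hcc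
      push Not at hcc
      exact hBnc b hb hb1 fun c hc => commutatorElement_eq_one_iff_mul_comm.1 (hcc c hc)
    obtain ⟨c, hc, hne⟩ := hex
    have he : ⁅b, c⁆ ∈ E := Subgroup.commutator_mem_commutator hb hc
    -- c b c⁻¹ = ⁅b,c⁆⁻¹ b
    refine translate hS hES hA (pair_symm hpE) (z := b) (a := ⁅b, c⁆⁻¹) ?_ hb1 (inv_mem he)
      (inv_ne_one.2 hne) (hS.conj_mem B hB c) ?_
    · apply el_comm_supr hS
      · intro x hx; exact (hEB x hx b hb).symm
      · intro x hx; exact (hAB x hx b hb).symm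
    · rw [← hEB _ (inv_mem he) b hb]
      have : ⁅b, c⁆⁻¹ * b = c * b * c⁻¹ := by rw [commutatorElement_def]; group
      rw [this]; exact cj_mem hb
  -- the commuting element
  obtain ⟨c, hc, hc1⟩ := exists_ne_one (hS.ne_bot C hC)
  obtain ⟨a, ha, ha1, eac⟩ := hp.cond_right c hc hc1
  -- eac : conjBy C a⁻¹ = conjBy A c⁻¹
  have hcen : ∀ b ∈ B, ∀ x ∈ C, (b * ⁅a, ⁅b⁻¹, c⁻¹⁆⁆) * x = x * (b * ⁅a, ⁅b⁻¹, c⁻¹⁆⁆) := by
    intro b hb x hx
    have he : ⁅b⁻¹, c⁻¹⁆ ∈ E := Subgroup.commutator_mem_commutator (inv_mem hb) (inv_mem hc)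
    have h1 : ∀ y ∈ conjBy A c⁻¹, ∀ z ∈ conjBy B c⁻¹, y * z = z * y := el_comm_cj hAB c⁻¹
    rw [← eac] at h1
    have h2 := el_comm_cj h1 a
    rw [cj_cj, mul_inv_cancel, cj_one, cj_cj] at h2
    have h3 : (a * c⁻¹) * b * (a * c⁻¹)⁻¹ = b * (a * ⁅b⁻¹, c⁻¹⁆ * a⁻¹) := by
      have h4 : (a * c⁻¹) * b * (a * c⁻¹)⁻¹ = (a * b) * ⁅b⁻¹, c⁻¹⁆ * a⁻¹ := by
        rw [commutatorElement_def]; group
      rw [h4, hAB a ha b hb]; group
    have h5 := h2 x hx _ (cj_mem (g := a * c⁻¹) hb)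
    rw [h3] at h5
    have h6 : b * ⁅a, ⁅b⁻¹, c⁻¹⁆⁆ = (b * (a * ⁅b⁻¹, c⁻¹⁆ * a⁻¹)) * ⁅b⁻¹, c⁻¹⁆⁻¹ := by
      simp only [commutatorElement_def]; group
    rw [h6, mul_assoc, hEC _ (inv_mem he) x hx, ← mul_assoc, ← h5, mul_assoc]
  -- Step 2
  have s2 : ⁅A, E⁆ ≠ ⊥ := by
    intro hAE
    obtain ⟨b, hb, hb1⟩ := exists_ne_one (hS.ne_bot B hB)
    refine hBnc b hb hb1 fun x hx => ?_
    have he : ⁅b⁻¹, c⁻¹⁆ ∈ E := Subgroup.commutator_mem_commutator (inv_mem hb) (inv_mem hc)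
    have h1 := hcen b hb x hx
    have h2 : ⁅a, ⁅b⁻¹, c⁻¹⁆⁆ = 1 := commutatorElement_eq_one_iff_mul_comm.2 (comm_iff.1 hAE a ha _ he)
    simpa [h2] using h1
  have hrAE : RootCommutatorCase S A E := by
    rcases hS.pair A hA E hES with h1 | h1 | h1
    · exact absurd h1 s2
    · exact absurd h1 s1
    · exact h1
  refine ⟨hrAE, ?_⟩
  set B' := ⁅A, E⁆ with hB'
  have hB'S : B' ∈ S := hrAE.1
  have hAB' : ∀ a ∈ A, ∀ b ∈ B', a * b = b * a := rcc_AK hS hrAE
  have hBB' : ∀ b ∈ B, ∀ b' ∈ B', b * b' = b' * b := by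
    intro b hb
    have : B' ≤ Subgroup.centralizer {b} := by
      rw [hB', Subgroup.commutator_le]
      intro x hx y hy
      have hx' : x ∈ Subgroup.centralizer {b} :=
        Subgroup.mem_centralizer_singleton_iff.2 (hAB x hx b hb)
      have hy' : y ∈ Subgroup.centralizer {b} :=
        Subgroup.mem_centralizer_singleton_iff.2 (hEB y hy b hb)
      exact mul_mem (mul_mem (mul_mem hx' hy') (inv_mem hx')) (inv_mem hy')
    intro b' hb'
    exact (Subgroup.mem_centralizer_singleton_iff.1 (this hb')).symm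
  -- Step 3
  have s3 : B ≤ B' := by
    intro b hb
    by_cases hb1 : b = 1
    · rw [hb1]; exact one_mem _
    have he : ⁅b⁻¹, c⁻¹⁆ ∈ E := Subgroup.commutator_mem_commutator (inv_mem hb) (inv_mem hc)
    set b'' := ⁅a, ⁅b⁻¹, c⁻¹⁆⁆ with hb''
    have hb''m : b'' ∈ B' := Subgroup.commutator_mem_commutator ha he
    set z := b * b'' with hz
    have hzC : ∀ x ∈ C, z * x = x * z := hcen b hb
    have hzA : ∀ x ∈ A, z * x = x * z := by
      intro x hx
      rw [hz, mul_assoc, ← hAB' x hx b'' hb''m, ← mul_assoc, ← hAB x hx b hb, mul_assoc]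
    have hb''1 : b'' ≠ 1 := by
      intro h1
      apply hBnc b hb hb1
      intro x hx
      have := hzC x hx
      simpa [hz, h1] using this
    have hbz : b = b''⁻¹ * z := by rw [hz, hBB' b hb b'' hb''m, inv_mul_cancel_left]
    have hz1 : z = 1 := by
      by_contra hz1
      have hcjC : conjBy C b = conjBy C b''⁻¹ := by
        rw [hbz, ← cj_cj, cj_of_comm hzC]
      -- B' and C are in the commutator case
      have hrB' : RootCommutatorCase S B' C := by
        rcases hS.pair B' hB'S C hC with h1 | h1 | h1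
        · exfalso
          apply hBnc b hb hb1
          intro x hx
          have h2 := comm_iff.1 h1 b''⁻¹ (inv_mem hb''m) x hx
          rw [hbz, mul_assoc, hzC x hx, ← mul_assoc, h2, mul_assoc]
        · exfalso
          apply not_nilpotent h1
          rw [← (sup_cj h1 (inv_mem hb''m) (by simpa using hb''1)).2, ← hcjC]
          refine nil_mono ?_ (rcc_nilpotent hS hB hC hr)
          refine sup_le le_sup_right ?_
          rw [← cj_of_mem (Subgroup.mem_sup_left hb : b ∈ B ⊔ C)]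
          exact cj_le.2 le_sup_right
        · exact h1
      obtain ⟨a₁, ha₁, ha₁1⟩ := exists_ne_one (hS.ne_bot A hA)
      have hAneB : ∀ (F : Subgroup G), F ∈ S → RootCommutatorCase S F C → ∀ x ∈ F, a₁ * x ≠ 1 := by
        intro F hF hrF x hx e
        have h1 : a₁ ∈ F := by rw [mul_eq_one_iff_eq_inv] at e; rw [e]; exact inv_mem hx
        have := eq_of_inf hS hA hC hp hF ha₁ h1 ha₁1
        rw [← this] at hrF
        exact rcc_not_pair hS hA hC hrF hp
      have hd1 := hAneB B hB hr b hb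
      have hd'1 := hAneB B' hB'S hrB' b''⁻¹ (inv_mem hb''m)
      obtain ⟨D, hD, hdD⟩ := hcov (a₁ * b) (mul_mem (Subgroup.mem_sup_left ha₁)
        (Subgroup.mem_sup_right hb)) hd1
      have hD'ex : ∃ D' ∈ S, a₁ * b''⁻¹ ∈ D' := by
        rcases rcc_cover hS hrAE (x := a₁ * b''⁻¹) (mul_mem (Subgroup.mem_sup_left ha₁)
          (Subgroup.mem_sup_right (inv_mem hb''m))) with h1 | ⟨e, he, h1⟩
        · exact ⟨_, hB'S, h1⟩
        · exact ⟨_, hS.conj_mem A hA e, h1⟩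
      obtain ⟨D', hD', hdD'⟩ := hD'ex
      have hpD := exc hS hA hC hp hB hAB hr hD ha₁ ha₁1 hb hdD
      have hpD' := exc hS hA hC hp hB'S hAB' hrB' hD' ha₁ ha₁1 (inv_mem hb''m) hdD'
      have hdz : a₁ * b = (a₁ * b''⁻¹) * z := by rw [hbz]; group
      have hcj : conjBy C (a₁ * b) = conjBy C (a₁ * b''⁻¹) := by
        rw [hdz, ← cj_cj, cj_of_comm hzC]
      have e1 := (sup_cj hpD hdD hd1).2
      have e2 := (sup_cj hpD' hdD' hd'1).2
      rw [hcj, e2] at e1
      -- e1 : D' ⊔ C = D ⊔ C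
      have hu : unipotentSubgroups D' C = unipotentSubgroups D C := by
        rw [unip_swap hpD', unip_swap hpD]
        exact unip_of_pair (pair_symm hpD') (pair_symm hpD) (by rw [sup_comm, e1, sup_comm])
          left_mem_unip
      have hzd' : z * (a₁ * b''⁻¹) = (a₁ * b''⁻¹) * z := by
        have h7 : z * b''⁻¹ = b''⁻¹ * z := by
          rw [← hbz, hz, mul_inv_cancel_right]
        rw [← mul_assoc, hzA a₁ ha₁, mul_assoc, h7, mul_assoc]
      have hzY : ∀ x ∈ D' ⊔ C, z * x = x * z := by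
        rw [← e2]
        apply el_comm_supr hS hzC
        intro x hx
        rw [mem_cj] at hx
        have h8 := hzC _ hx
        have h9 : x = (a₁ * b''⁻¹) * ((a₁ * b''⁻¹)⁻¹ * x * (a₁ * b''⁻¹)) * (a₁ * b''⁻¹)⁻¹ := by group
        have h10 : z * (a₁ * b''⁻¹)⁻¹ = (a₁ * b''⁻¹)⁻¹ * z := by
          rw [eq_inv_mul_iff_mul_eq, ← mul_assoc, ← hzd', mul_inv_cancel_right]
        generalize hy : (a₁ * b''⁻¹)⁻¹ * x * (a₁ * b''⁻¹) = y at h8 h9
        rw [h9]
        calc z * (a₁ * b''⁻¹ * y * (a₁ * b''⁻¹)⁻¹) = (z * (a₁ * b''⁻¹)) * y * (a₁ * b''⁻¹)⁻¹ := by group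
          _ = (a₁ * b''⁻¹) * (z * y) * (a₁ * b''⁻¹)⁻¹ := by rw [hzd']; group
          _ = (a₁ * b''⁻¹) * y * (z * (a₁ * b''⁻¹)⁻¹) := by rw [h8]; group
          _ = _ := by rw [h10]; group
      have hDD' : D = D' := by
        refine unip_eq_of_mem hpD' (by rw [hu]; exact left_mem_unip) left_mem_unip hdD hd1 ?_
        rw [hdz, ← cj_cj, cj_of_comm (fun x hx => hzY x (Subgroup.mem_sup_left hx)), cj_of_mem hdD']
      have hzD : z ∈ D' := by
        have h11 : z = (a₁ * b''⁻¹)⁻¹ * (a₁ * b) := by rw [hdz]; group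
        rw [h11]
        rw [hDD'] at hdD
        exact mul_mem (inv_mem hdD') hdD
      exact hz1 (not_normalize hpD' hzD (cj_of_comm hzC))
    rw [hbz, hz1, mul_one]
    exact inv_mem hb''m
  rcases rcc_members hS hA hC hp hrAE hB (s3.trans le_sup_right) with h1 | ⟨e, he, h1⟩
  · exact h1.symm
  · exfalso
    have h2 : conjBy B e = B := cj_of_comm (hEB e he)
    rw [h1, cj_cj] at h2
    have h3 : A = B := by
      rw [h1]
      have h4 : conjBy B e⁻¹ = B := cj_of_comm (hEB e⁻¹ (inv_mem he))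
      rw [h1, cj_cj, inv_mul_cancel, cj_one] at h4
      exact h4
    rw [← h3] at hr
    exact rcc_not_pair hS hA hC hr hp

/-- structure of the line through `A` relative to a rank one partner `C` of `A` -/
theorem line_structure (hA : A ∈ S) (hC : C ∈ S) (hp : IsRankOnePair A C)
    (h : B ∈ linePartners S A) : ∃ B₀ ∈ S, RootCommutatorCase S B₀ C ∧ A ⊔ B₀ = A ⊔ B ∧
      RootCommutatorCase S A ⁅B₀, C⁆ ∧ ⁅A, ⁅B₀, C⁆⁆ = B₀ := by
  have hB : B ∈ S := h.1.1
  rcases exists_exc hS hA h hC hp with h1 | ⟨B₀, hB₀, hle, hr, b, hb, hb1, hbm⟩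
  · obtain ⟨h2, h3⟩ := key hS hA hC hp hB (line_el_comm hS h) h1 (by
      intro x hx hx1
      obtain ⟨D, hD, -, h4⟩ := line_cover hS h hx hx1
      exact ⟨D, hD, h4⟩)
    exact ⟨B, hB, h1, rfl, h2, h3⟩
  · have hAB₀ : ∀ a ∈ A, ∀ b ∈ B₀, a * b = b * a := fun a ha b hb =>
      line_comm hS hA h a (Subgroup.mem_sup_left ha) b (hle hb)
    have hle2 : A ⊔ B₀ ≤ A ⊔ B := sup_le le_sup_left hle
    obtain ⟨h2, h3⟩ := key hS hA hC hp hB₀ hAB₀ hr (by
      intro x hx hx1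
      obtain ⟨D, hD, -, h4⟩ := line_cover hS h (hle2 hx) hx1
      exact ⟨D, hD, h4⟩)
    refine ⟨B₀, hB₀, hr, ?_, h2, h3⟩
    apply le_antisymm hle2
    refine sup_le le_sup_left ?_
    rw [← h3] at hbm
    rcases rcc_cover hS h2 hbm with h4 | ⟨e, he, h4⟩
    · rw [h3] at h4
      rw [line_eq hS h hB le_sup_right hB₀ hle hb h4 hb1]
      exact le_sup_right
    · have h5 := eq_of_inf hS (hS.conj_mem A hA e) (hS.conj_mem C hC e) (pair_cj hp e) hB h4 hb hb1
      rw [← h5, ← h3, h3]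
      have := rcc_conj_le hS h2 he
      rwa [h3] at this

theorem line_mk (hA : A ∈ S) (hC : C ∈ S) (hp : IsRankOnePair A C) {E : Subgroup G}
    (hr : RootCommutatorCase S A E) : ⁅A, E⁆ ∈ linePartners S A :=
  line_symm hS hr.1 (rcc_line hS hA hC hp hr)

/-- S5038 -/
theorem line_two_trans (hF : ∀ A ∈ S, ∃ C ∈ S, IsRankOnePair A C) (hA : A ∈ S)
    (h : B ∈ linePartners S A) {C₁ C₂ D₁ D₂ : Subgroup G} (hC₁ : C₁ ∈ membersIn S (A ⊔ B))
    (hC₂ : C₂ ∈ membersIn S (A ⊔ B)) (hD₁ : D₁ ∈ membersIn S (A ⊔ B))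
    (hD₂ : D₂ ∈ membersIn S (A ⊔ B)) (hCne : C₁ ≠ C₂) (hDne : D₁ ≠ D₂) :
    ∃ x ∈ ⨆ E ∈ normalizingMembers S (A ⊔ B), E, conjBy C₁ x = D₁ ∧ conjBy C₂ x = D₂ := by
  set L : Subgroup G := ⨆ E ∈ normalizingMembers S (A ⊔ B), E with hL
  -- for each point with line through it : a fixed point and a transitive subgroup
  have main : ∀ P Q : Subgroup G, P ∈ S → Q ∈ linePartners S P → P ⊔ Q = A ⊔ B →
      ∃ P₀ ∈ membersIn S (A ⊔ B), P₀ ≠ P ∧ P₀ ∈ linePartners S P ∧ P ⊔ P₀ = A ⊔ B ∧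
        (∀ X ∈ membersIn S (A ⊔ B), ∀ Y ∈ membersIn S (A ⊔ B), X ≠ P₀ → Y ≠ P₀ →
          ∃ x ∈ L, conjBy P₀ x = P₀ ∧ conjBy X x = Y) ∧
        (∀ X ∈ membersIn S (A ⊔ B), ∃ Y ∈ membersIn S (A ⊔ B), Y ≠ P₀ ∧ Y ≠ X) := by
    intro P Q hP hPQ e
    obtain ⟨C, hC, hp⟩ := hF P hP
    obtain ⟨P₀, hP₀, hr, he, hr2, he2⟩ := line_structure hS hP hC hp hPQ
    have hmem : ∀ X ∈ membersIn S (A ⊔ B), X ≠ P₀ → ∃ y ∈ ⁅P₀, C⁆, X = conjBy P y := by
      rintro X ⟨hX, hX2⟩ hne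
      rw [← e, ← he, ← he2] at hX2
      rcases rcc_members hS hP hC hp hr2 hX (by rwa [he2] at hX2 ⊢) with h1 | h1
      · rw [he2] at h1; exact absurd h1 hne
      · exact h1
    have hcmem : ∀ y ∈ ⁅P₀, C⁆, conjBy P y ∈ membersIn S (A ⊔ B) := by
      intro y hy
      refine ⟨hS.conj_mem P hP y, ?_⟩
      have := rcc_conj_le hS hr2 hy
      rwa [he2, he, e] at this
    have hEL : ⁅P₀, C⁆ ≤ L := by
      have : ⁅P₀, C⁆ ∈ normalizingMembers S (A ⊔ B) := by
        refine ⟨hr.1, ?_⟩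
        intro y hy
        rw [← e, ← he, ← cj_self_iff, cj_sup]
        have h1 : conjBy P₀ y = P₀ := cj_of_comm fun x hx => hr.2.1 y hy x (Subgroup.mem_sup_left hx)
        rw [h1]
        have h2 : ∀ z ∈ ⁅P₀, C⁆, conjBy P z ≤ P ⊔ P₀ := by
          intro z hz
          have := rcc_conj_le hS hr2 hz
          rwa [he2] at this
        apply le_antisymm (sup_le (h2 y hy) le_sup_right)
        refine sup_le ?_ le_sup_right
        have h3 := h2 y⁻¹ (inv_mem hy)
        rw [← cj_le (g := y), cj_cj, mul_inv_cancel, cj_one, cj_sup, h1] at h3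
        exact h3
      exact le_iSup₂_of_le _ this le_rfl
    have hP₀fix : ∀ y ∈ ⁅P₀, C⁆, conjBy P₀ y = P₀ := fun y hy =>
      cj_of_comm fun x hx => hr.2.1 y hy x (Subgroup.mem_sup_left hx)
    have hPP₀ : P₀ ≠ P := by
      rintro rfl
      exact rcc_not_pair hS hP hC hr hp
    refine ⟨P₀, ⟨hP₀, by rw [← e, ← he]; exact le_sup_right⟩, hPP₀, ?_, by rw [he, e], ?_, ?_⟩
    · have := line_mk hS hP hC hp hr2
      rwa [he2] at this
    · intro X hX Y hY hXne hYne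
      obtain ⟨x, hx, rfl⟩ := hmem X hX hXne
      obtain ⟨y, hy, rfl⟩ := hmem Y hY hYne
      refine ⟨y * x⁻¹, hEL (mul_mem hy (inv_mem hx)), hP₀fix _ (mul_mem hy (inv_mem hx)), ?_⟩
      rw [cj_cj]; simp
    · intro X hX
      by_cases hXP : X = P
      · -- move P by a nontrivial element
        obtain ⟨y, hy, hy1⟩ := exists_ne_one (hS.ne_bot _ hr.1)
        refine ⟨conjBy P y, hcmem y hy, ?_, ?_⟩
        · intro h1
          apply hPP₀
          rw [cj_inv_iff, hP₀fix _ (inv_mem hy)] at h1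
          exact h1.symm
        · rw [hXP]
          intro h1
          obtain ⟨p, hp', hp1⟩ := exists_ne_one (hS.ne_bot P hP)
          have h2 : ⁅P, ⁅P₀, C⁆⁆ ≤ P := by
            rw [← hr2.2.2.2 y hy hy1, Subgroup.closure_le]
            rintro _ ⟨a', ha', rfl⟩
            have h3 : a' * y * a'⁻¹ * y⁻¹ = a' * (y * a'⁻¹ * y⁻¹) := by group
            simp only [h3]
            refine mul_mem ha' ?_
            have h4 := cj_mem (g := y) (inv_mem ha')
            rwa [h1] at h4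
          rw [he2] at h2
          obtain ⟨q, hq, hq1⟩ := exists_ne_one (hS.ne_bot _ hP₀)
          exact hPP₀ (eq_of_inf hS hP hC hp hP₀ (h2 hq) hq hq1).symm
      · exact ⟨P, ⟨hP, by rw [← e]; exact le_sup_left⟩, hPP₀.symm, fun h => hXP h.symm⟩
  obtain ⟨P₀, hP₀, hP₀A, hP₀l, hP₀e, ht₀, hth₀⟩ := main A B hA h rfl
  obtain ⟨P₁, hP₁, hP₁ne, -, -, ht₁, hth₁⟩ := main P₀ A hP₀.1 (line_symm hS hA hP₀l)
    (by rw [sup_comm]; exact hP₀e)
  -- every ordered pair can be moved to (P₀, P₁)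
  have hinvm : ∀ x ∈ L, ∀ X ∈ membersIn S (A ⊔ B), conjBy X x ∈ membersIn S (A ⊔ B) := by
    intro x hx X hX
    refine ⟨hS.conj_mem X hX.1 x, ?_⟩
    have h1 : L ≤ Subgroup.normalizer ((A ⊔ B : Subgroup G) : Set G) :=
      iSup₂_le fun E hE => hE.2
    rw [← cj_self_iff.2 (h1 hx)]
    exact cj_le.2 hX.2
  have red : ∀ X Y : Subgroup G, X ∈ membersIn S (A ⊔ B) → Y ∈ membersIn S (A ⊔ B) → X ≠ Y →
      ∃ x ∈ L, conjBy X x = P₀ ∧ conjBy Y x = P₁ := by
    intro X Y hX hY hXY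
    have step1 : ∃ x ∈ L, conjBy X x = P₀ := by
      by_cases h1 : X = P₁
      · -- first move P₁ to something else
        obtain ⟨Z, hZ, hZ0, hZ1⟩ := hth₀ P₁ hP₁
        obtain ⟨x, hx, -, hx2⟩ := ht₀ P₁ hP₁ Z hZ hP₁ne hZ0
        obtain ⟨y, hy, -, hy2⟩ := ht₁ Z hZ P₀ hP₀ hZ1 hP₁ne.symm
        refine ⟨y * x, mul_mem hy hx, ?_⟩
        rw [← cj_cj, h1, hx2, hy2]
      · obtain ⟨y, hy, -, hy2⟩ := ht₁ X hX P₀ hP₀ h1 hP₁ne.symm
        exact ⟨y, hy, hy2⟩
    obtain ⟨x, hx, hx2⟩ := step1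
    have hYx := hinvm x hx Y hY
    have hne : conjBy Y x ≠ P₀ := by
      intro h1
      rw [← hx2, cj_inj] at h1
      exact hXY h1.symm
    obtain ⟨y, hy, hy1, hy2⟩ := ht₀ _ hYx P₁ hP₁ hne hP₁ne
    exact ⟨y * x, mul_mem hy hx, by rw [← cj_cj, hx2, hy1], by rw [← cj_cj, hy2]⟩
  obtain ⟨x, hx, hx1, hx2⟩ := red C₁ C₂ hC₁ hC₂ hCne
  obtain ⟨y, hy, hy1, hy2⟩ := red D₁ D₂ hD₁ hD₂ hDne
  refine ⟨y⁻¹ * x, mul_mem (inv_mem hy) hx, ?_, ?_⟩
  · rw [← cj_cj, hx1, ← hy1, cj_cj]; simp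
  · rw [← cj_cj, hx2, ← hy2, cj_cj]; simp

/-! ### the graph of rank one pairs -/

omit hS in
theorem fadj_symm : Symmetric (FAdj S) := fun _ _ h => ⟨h.2.1, h.1, pair_symm h.2.2⟩

omit hS in
theorem rtg_symm {A B : Subgroup G} (h : Relation.ReflTransGen (FAdj S) A B) :
    Relation.ReflTransGen (FAdj S) B A := by
  induction h with
  | refl => exact Relation.ReflTransGen.refl
  | tail _ h ih => exact Relation.ReflTransGen.head (fadj_symm h) ih

theorem rtg_cj {A B : Subgroup G} (h : Relation.ReflTransGen (FAdj S) A B) (g : G) :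
    Relation.ReflTransGen (FAdj S) (conjBy A g) (conjBy B g) := by
  induction h with
  | refl => exact Relation.ReflTransGen.refl
  | tail _ h ih =>
    exact ih.tail ⟨hS.conj_mem _ h.1 g, hS.conj_mem _ h.2.1 g, pair_cj h.2.2 g⟩

omit hS in
theorem rtg_conj {A B : Subgroup G} (h : Relation.ReflTransGen (FAdj S) A B) :
    ∃ g : G, B = conjBy A g := by
  induction h with
  | refl => exact ⟨1, by simp⟩
  | tail _ h ih =>
    obtain ⟨g, hg⟩ := ih
    obtain ⟨x, -, hx⟩ := exists_swap h.2.2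
    exact ⟨x * g, by rw [hx, hg, cj_cj]⟩

omit hS in
theorem rtg_mem {A B : Subgroup G} (hA : A ∈ S) (h : Relation.ReflTransGen (FAdj S) A B) : B ∈ S := by
  induction h with
  | refl => exact hA
  | tail _ h _ => exact h.2.1

omit hS in
theorem rtg_partner {A B : Subgroup G} (h : Relation.ReflTransGen (FAdj S) A B) (hne : A ≠ B) :
    ∃ C ∈ S, IsRankOnePair A C := by
  rcases h.cases_head with h1 | ⟨C, h1, -⟩
  · exact absurd h1 hne
  · exact ⟨C, h1.2.1, h1.2.2⟩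

/-- in a set all of whose members have partners: components are invariant under conjugation by
elements of members -/
theorem comp_invariant (hF : ∀ A ∈ S, ∃ C ∈ S, IsRankOnePair A C) {A B D : Subgroup G}
    (hA : A ∈ S) (h : Relation.ReflTransGen (FAdj S) A B) (hD : D ∈ S) {d : G} (hd : d ∈ D) :
    Relation.ReflTransGen (FAdj S) A (conjBy B d) := by
  have hB := rtg_mem hA h
  have main : Relation.ReflTransGen (FAdj S) D B →
      Relation.ReflTransGen (FAdj S) A (conjBy B d) := by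
    intro h1
    have h2 := rtg_cj hS h1 d
    rw [cj_of_mem hd] at h2
    exact h.trans ((rtg_symm h1).trans h2)
  rcases hS.pair D hD B hB with h1 | h1 | h1
  · rw [cj_of_comm (comm_iff.1 h1 d hd)]; exact h
  · exact main (Relation.ReflTransGen.single ⟨hD, hB, h1⟩)
  · obtain ⟨E, hE, hpE⟩ := hF D hD
    obtain ⟨F, hF', hpF⟩ := hF B hB
    obtain ⟨K, hK, hpK⟩ := hF _ h1.1
    have l1 : D ∈ linePartners S ⁅D, B⁆ := rcc_line hS hD hE hpE h1
    have l2 : B ∈ linePartners S ⁅B, D⁆ := rcc_line hS hB hF' hpF (rcc_symm h1)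
    rw [Subgroup.commutator_comm] at l2
    have c1 := line_connected hS h1.1 l1 hK hpK hE hpE
    have c2 := line_connected hS h1.1 l2 hK hpK hF' hpF
    exact main ((rtg_symm c1).trans c2)

theorem comp_invariant' (hF : ∀ A ∈ S, ∃ C ∈ S, IsRankOnePair A C) {A : Subgroup G}
    (hA : A ∈ S) (g : G) : Relation.ReflTransGen (FAdj S) A (conjBy A g) := by
  have hg : g ∈ (⨆ D ∈ S, D : Subgroup G) := by rw [hS.generates]; trivial
  have e : (⨆ D ∈ S, D : Subgroup G) = Subgroup.closure (⋃ D ∈ S, (D : Set G)) := by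
    rw [Subgroup.closure_iUnion]
    congr 1; ext1 D
    rw [Subgroup.closure_iUnion]
    congr 1; ext1 h
    exact (Subgroup.closure_eq D).symm
  rw [e] at hg
  have key : ∀ B, Relation.ReflTransGen (FAdj S) A B ↔ Relation.ReflTransGen (FAdj S) A (conjBy B g) := by
    induction hg using Subgroup.closure_induction with
    | mem x hx =>
      simp only [Set.mem_iUnion, SetLike.mem_coe] at hx
      obtain ⟨D, hD, hx⟩ := hx
      intro B
      refine ⟨fun h => comp_invariant hS hF hA h hD hx, fun h => ?_⟩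
      have := comp_invariant hS hF hA h hD (inv_mem hx)
      rw [cj_cj] at this
      simpa using this
    | one => intro B; simp
    | mul x y _ _ ihx ihy => intro B; rw [ihy B, ihx, cj_cj]
    | inv x _ ih => intro B; rw [ih (conjBy B x⁻¹), cj_cj]; simp
  exact (key A).1 Relation.ReflTransGen.refl

end

end CfsgLib.H14RS
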