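import Cfsg.Agent.LibH14QD
import Cfsg.Agent.LibH14RS2

/-! Families of root subgroups inside a bigger group (seat helper14). -/

set_option autoImplicit false

namespace CfsgLib.H14QE

open Cfsg CfsgLib.H14R1 CfsgLib.H14RS

section gen
variable {G : Type*} [Group G] {S : Set (Subgroup G)} {A B H : Subgroup G}

/-- a family of root subgroups (not necessarily generating the group) -/
structure RSF (S : Set (Subgroup G)) : Prop where
  commutative : ∀ A ∈ S, IsMulCommutative A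
  ne_bot : ∀ A ∈ S, A ≠ ⊥
  conj_mem : ∀ A ∈ S, ∀ g ∈ (⨆ B ∈ S, B), conjBy A g ∈ S
  pair : ∀ A ∈ S, ∀ B ∈ S, ⁅A, B⁆ = ⊥ ∨ IsRankOnePair A B ∨ RootCommutatorCase S A B

theorem le_sup {S : Set (Subgroup G)} {A : Subgroup G} (h : A ∈ S) : A ≤ ⨆ B ∈ S, B := le_iSup₂_of_le A h le_rfl

theorem sub_inj {A B H : Subgroup G} (hA : A ≤ H) (hB : B ≤ H) (h : A.subgroupOf H = B.subgroupOf H) : A = B := by
  rw [← subgroupOf_map hA, h, subgroupOf_map hB]

theorem of_map_eq {H : Subgroup G} {A B : Subgroup H} (h : A.map H.subtype = B.map H.subtype) : A = B :=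
  Subgroup.map_injective H.subtype_injective h

theorem comm_subgroupOf (hA : A ≤ H) (hB : B ≤ H) : ⁅A.subgroupOf H, B.subgroupOf H⁆ = (⁅A, B⁆).subgroupOf H := by
  apply of_map_eq
  have hAB : ⁅A, B⁆ ≤ H := by
    rw [Subgroup.commutator_le]
    intro a ha b hb
    exact mul_mem (mul_mem (mul_mem (hA ha) (hB hb)) (inv_mem (hA ha))) (inv_mem (hB hb))
  rw [Subgroup.map_commutator, subgroupOf_map hA, subgroupOf_map hB, subgroupOf_map hAB]

theorem cj_subgroupOf (hA : A ≤ H) (g : H) : conjBy (A.subgroupOf H) g = (conjBy A (g : G)).subgroupOf H := by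
  apply of_map_eq
  have h1 : conjBy A (g : G) ≤ H := by
    intro x hx
    rw [mem_cj] at hx
    have := mul_mem (mul_mem g.2 (hA hx)) (inv_mem g.2)
    have e : (g : G) * ((g : G)⁻¹ * x * g) * (g : G)⁻¹ = x := by group
    rwa [e] at this
  rw [subgroupOf_map h1]
  have := map_cj H.subtype (A.subgroupOf H) g
  rw [this, subgroupOf_map hA]
  rfl

theorem rcc_subgroupOf (hA : A ≤ H) (hB : B ≤ H) (h : RootCommutatorCase S A B) :
    RootCommutatorCase ((fun A : Subgroup G => A.subgroupOf H) '' S) (A.subgroupOf H) (B.subgroupOf H) := by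
  obtain ⟨h1, h2, h3, h4⟩ := h
  have hAB : ⁅A, B⁆ ≤ H := by
    rw [Subgroup.commutator_le]
    intro a ha b hb
    exact mul_mem (mul_mem (mul_mem (hA ha) (hB hb)) (inv_mem (hA ha))) (inv_mem (hB hb))
  have e0 := comm_subgroupOf hA hB
  refine ⟨?_, ?_, ?_, ?_⟩
  · rw [e0]; exact ⟨_, h1, rfl⟩
  · intro c hc x hx
    rw [e0] at hc
    have hx' : (x : G) ∈ A ⊔ B := by
      have : (x : G) ∈ (A.subgroupOf H ⊔ B.subgroupOf H).map H.subtype := ⟨x, hx, rfl⟩
      rwa [Subgroup.map_sup, subgroupOf_map hA, subgroupOf_map hB] at this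
    exact Subtype.ext (h2 c hc x hx')
  · intro a ha ha1
    apply of_map_eq
    rw [e0, subgroupOf_map hAB, ← h3 a ha (fun e => ha1 (Subtype.ext e)), MonoidHom.map_closure]
    congr 1
    ext y
    constructor
    · rintro ⟨_, ⟨b, hb, rfl⟩, rfl⟩; exact ⟨b, hb, rfl⟩
    · rintro ⟨b, hb, rfl⟩; exact ⟨_, ⟨⟨b, hB hb⟩, hb, rfl⟩, rfl⟩
  · intro b hb hb1
    apply of_map_eq
    rw [e0, subgroupOf_map hAB, ← h4 b hb (fun e => hb1 (Subtype.ext e)), MonoidHom.map_closure]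
    congr 1
    ext y
    constructor
    · rintro ⟨_, ⟨a, ha, rfl⟩, rfl⟩; exact ⟨a, ha, rfl⟩
    · rintro ⟨a, ha, rfl⟩; exact ⟨_, ⟨⟨a, hA ha⟩, ha, rfl⟩, rfl⟩

theorem RSF.set (h : RSF S) : IsRootSubgroupSet ((fun A : Subgroup G => A.subgroupOf (⨆ B ∈ S, B)) '' S) where
  commutative := by
    rintro _ ⟨A, hA, rfl⟩
    rw [← comm_map_iff (⨆ B ∈ S, B : Subgroup G).subtype_injective, subgroupOf_map (le_sup hA)]
    exact h.commutative A hA
  ne_bot := by
    rintro _ ⟨A, hA, rfl⟩ e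
    apply h.ne_bot A hA
    rw [← subgroupOf_map (le_sup hA)]
    simp only at e
    rw [e, Subgroup.map_bot]
  generates := by
    apply of_map_eq
    rw [← MonoidHom.range_eq_map, Subgroup.range_subtype, Subgroup.map_iSup]
    apply le_antisymm
    · refine iSup_le fun A => ?_
      rw [Subgroup.map_iSup]
      refine iSup_le fun hA => ?_
      obtain ⟨B, hB, rfl⟩ := hA
      rw [subgroupOf_map (le_sup hB)]; exact le_sup hB
    · refine iSup₂_le fun A hA => ?_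
      refine le_iSup_of_le (A.subgroupOf (⨆ B ∈ S, B)) ?_
      rw [Subgroup.map_iSup]
      refine le_iSup_of_le ⟨A, hA, rfl⟩ ?_
      rw [subgroupOf_map (le_sup hA)]
  conj_mem := by
    rintro _ ⟨A, hA, rfl⟩ g
    simp only
    rw [cj_subgroupOf (le_sup hA)]
    exact ⟨_, h.conj_mem A hA g g.2, rfl⟩
  pair := by
    rintro _ ⟨A, hA, rfl⟩ _ ⟨B, hB, rfl⟩
    simp only
    rcases h.pair A hA B hB with h1 | h1 | h1
    · left; rw [comm_subgroupOf (le_sup hA) (le_sup hB), h1, Subgroup.bot_subgroupOf]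
    · right; left; exact (pair_subgroupOf (le_sup hA) (le_sup hB)).2 h1
    · right; right; exact rcc_subgroupOf (le_sup hA) (le_sup hB) h1

/-- paths in the subgroup give paths in the group -/
theorem rtg_lift {A B : Subgroup (⨆ B ∈ S, B : Subgroup G)}
    (h : Relation.ReflTransGen (FAdj ((fun A : Subgroup G => A.subgroupOf (⨆ B ∈ S, B)) '' S)) A B) :
    Relation.ReflTransGen (FAdj S) (A.map (⨆ B ∈ S, B : Subgroup G).subtype) (B.map (⨆ B ∈ S, B : Subgroup G).subtype) := by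
  induction h with
  | refl => exact Relation.ReflTransGen.refl
  | tail _ h ih =>
    refine ih.tail ?_
    obtain ⟨⟨C, hC, rfl⟩, ⟨D, hD, rfl⟩, hp⟩ := h
    rw [subgroupOf_map (le_sup hC), subgroupOf_map (le_sup hD)]
    exact ⟨hC, hD, (pair_subgroupOf (le_sup hC) (le_sup hD)).1 hp⟩

/-- in the commutator case the two members lie in one component -/
theorem RSF.path (h : RSF S) (hF : ∀ A ∈ S, ∃ C ∈ S, IsRankOnePair A C) (hA : A ∈ S) (hB : B ∈ S)
    (hc : RootCommutatorCase S A B) : Relation.ReflTransGen (FAdj S) A B ∧ Relation.ReflTransGen (FAdj S) A ⁅A, B⁆ := by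
  have hS := h.set
  have hF' : ∀ A' ∈ (fun A : Subgroup G => A.subgroupOf (⨆ B ∈ S, B)) '' S,
      ∃ C ∈ (fun A : Subgroup G => A.subgroupOf (⨆ B ∈ S, B)) '' S, IsRankOnePair A' C := by
    rintro _ ⟨A', hA', rfl⟩
    obtain ⟨C, hC, hp⟩ := hF A' hA'
    exact ⟨_, ⟨C, hC, rfl⟩, (pair_subgroupOf (le_sup hA') (le_sup hC)).2 hp⟩
  have h1 := rcc_subgroupOf (le_sup hA) (le_sup hB) hc
  obtain ⟨E, hE, hpE⟩ := hF' _ ⟨A, hA, rfl⟩
  obtain ⟨F, hF2, hpF⟩ := hF' _ ⟨B, hB, rfl⟩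
  obtain ⟨K, hK, hpK⟩ := hF' _ h1.1
  have l1 := rcc_line hS ⟨A, hA, rfl⟩ hE hpE h1
  have l2 := rcc_line hS ⟨B, hB, rfl⟩ hF2 hpF (rcc_symm h1)
  rw [Subgroup.commutator_comm] at l2
  have c1 := line_connected hS h1.1 l1 hK hpK hE hpE
  have c2 := line_connected hS h1.1 l2 hK hpK hF2 hpF
  have hAB : ⁅A, B⁆ ≤ ⨆ B ∈ S, B := le_sup hc.1
  have d1 := rtg_lift c1
  have d2 := rtg_lift c2
  have eA := subgroupOf_map (le_sup hA)
  have eB := subgroupOf_map (le_sup hB)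
  have eC : (⁅A.subgroupOf (⨆ B ∈ S, B), B.subgroupOf (⨆ B ∈ S, B)⁆).map (⨆ B ∈ S, B : Subgroup G).subtype = ⁅A, B⁆ := by
    rw [comm_subgroupOf (le_sup hA) (le_sup hB), subgroupOf_map hAB]
  rw [eC] at d1 d2
  rw [eA] at d1
  rw [eB] at d2
  exact ⟨(rtg_symm d1).trans d2, rtg_symm d1⟩

end gen

section quad
open CfsgLib.H14QP CfsgLib.H14KT CfsgLib.H14QR CfsgLib.H14Unip CfsgLib.H14QC CfsgLib.H14QD Module

variable {k : Type*} [Field k] {M : Type*} [AddCommGroup M] [Module k M] [FiniteDimensional k M]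
  {G : Subgroup (LinearMap.GeneralLinearGroup k M)} {s t : End k M}

theorem sigma_le {A : Subgroup (LinearMap.GeneralLinearGroup k M)} (hA : A ∈ quadraticRootSubgroups G) : A ≤ G := by
  obtain ⟨s, hs, rfl⟩ := qrs_iff.1 hA
  exact EG_le

theorem sigma_conj {A : Subgroup (LinearMap.GeneralLinearGroup k M)} (hA : A ∈ quadraticRootSubgroups G)
    {g : LinearMap.GeneralLinearGroup k M} (hg : g ∈ G) : conjBy A g ∈ quadraticRootSubgroups G := by
  obtain ⟨s, hs, rfl⟩ := qrs_iff.1 hA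
  rw [EG_conj hg]
  exact qrs_iff.2 ⟨cjE g s, cj_mem_Qd hs hg, rfl⟩

theorem sigma_partner (h2 : (2 : k) ≠ 0) (h3 : Nat.card k ≠ 3) (hirr : IsIrreducibleFor G)
    {A : Subgroup (LinearMap.GeneralLinearGroup k M)} (hA : A ∈ quadraticRootSubgroups G) :
    ∃ C ∈ quadraticRootSubgroups G, IsRankOnePair A C := by
  obtain ⟨s, hs, rfl⟩ := qrs_iff.1 hA
  obtain ⟨g, hg, h⟩ := exists_partner h2 h3 hirr hs
  exact ⟨_, qrs_iff.2 ⟨_, h.ht, rfl⟩, nn_pair h⟩

theorem sigma_pair (h2 : (2 : k) ≠ 0) (h3 : Nat.card k ≠ 3) (hirr : IsIrreducibleFor G)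
    {A B : Subgroup (LinearMap.GeneralLinearGroup k M)} (hA : A ∈ quadraticRootSubgroups G)
    (hB : B ∈ quadraticRootSubgroups G) :
    ⁅A, B⁆ = ⊥ ∨ IsRankOnePair A B ∨ RootCommutatorCase (quadraticRootSubgroups G) A B := by
  obtain ⟨s, hs, rfl⟩ := qrs_iff.1 hA
  obtain ⟨t, ht, rfl⟩ := qrs_iff.1 hB
  rcases tri h2 h3 hs ht with ⟨-, hc⟩ | h | h
  · left; exact comm_bot_of hc
  · right; left; exact nn_pair h
  · right; right; exact h.rcc hirr

theorem sup_le_G : (⨆ B ∈ quadraticRootSubgroups G, B) ≤ G := iSup₂_le fun _ h => sigma_le h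

theorem sigma_rsf (h2 : (2 : k) ≠ 0) (h3 : Nat.card k ≠ 3) (hirr : IsIrreducibleFor G) :
    RSF (quadraticRootSubgroups G) where
  commutative := by
    intro A hA
    obtain ⟨s, hs, rfl⟩ := qrs_iff.1 hA
    exact EG_comm
  ne_bot := by
    intro A hA
    obtain ⟨s, hs, rfl⟩ := qrs_iff.1 hA
    exact EG_ne_bot hs
  conj_mem := fun A hA g hg => sigma_conj hA (sup_le_G hg)
  pair := fun A hA B hB => sigma_pair h2 h3 hirr hA hB

theorem sigma_psl2 (h2 : (2 : k) ≠ 0) (h3 : Nat.card k ≠ 3) (hirr : IsIrreducibleFor G)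
    {A B : Subgroup (LinearMap.GeneralLinearGroup k M)} (hA : A ∈ quadraticRootSubgroups G)
    (hB : B ∈ quadraticRootSubgroups G) (hp : IsRankOnePair A B) :
    ∃ A₀ B₀ : Subgroup (LinearMap.GeneralLinearGroup k M), A₀ ≤ A ∧ B₀ ≤ B ∧ IsPSL2PairOver k A₀ B₀ := by
  obtain ⟨s, hs, rfl⟩ := qrs_iff.1 hA
  obtain ⟨t, ht, rfl⟩ := qrs_iff.1 hB
  exact exists_psl2 (nn_of_pair h2 h3 hirr hs ht hp)

end quad

end CfsgLib.H14QE
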