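import Cfsg.Agent.LibH14QE

/-! Quadratic pairs: splitting of quadratic elements which are not minimal (seat helper14). -/

set_option autoImplicit false

namespace CfsgLib.H14QF

open Cfsg CfsgLib.H14R1 CfsgLib.H14QP CfsgLib.H14Pr CfsgLib.H14Crux CfsgLib.H14KT CfsgLib.H14QR CfsgLib.H14QC Module Polynomial

variable {k : Type*} [Field k] {M : Type*} [AddCommGroup M] [Module k M] [FiniteDimensional k M]
  {G : Subgroup (LinearMap.GeneralLinearGroup k M)} {s t q : End k M}

/-! ### the nilpotent case -/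

theorem cj_plus (hq : q * q = 0) : cjE (tv q) s = s + (q * s - s * q) - q * s * q := cjE_tv hq s
theorem cj_minus (hq : q * q = 0) : cjE (tv (-q)) s = s - (q * s - s * q) - q * s * q := by
  rw [cjE_tv (by simp [hq])]; noncomm_ring

theorem rk_mul_le (x y : End k M) : rk (x * y) ≤ rk y := by
  unfold rk
  rw [range_mul]; exact Submodule.finrank_map_le _ _

theorem rk_mul_le' (x y : End k M) : rk (x * y) ≤ rk x := by
  unfold rk
  apply Submodule.finrank_mono
  rintro _ ⟨m, rfl⟩; exact ⟨y m, rfl⟩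

theorem sqs_zero (h2 : (2 : k) ≠ 0) (hs : s ∈ Qd G) (hq : q ∈ Q0 G) (hn : IsNilpotent (s * q + q * s)) :
    s * q * s = 0 := by
  have s2 := hs.1.1
  have q2 := hq.1
  have ss : ∀ x : End k M, s * (s * x) = 0 := fun x => by rw [← mul_assoc, s2, zero_mul]
  have qq : ∀ x : End k M, q * (q * x) = 0 := fun x => by rw [← mul_assoc, q2, zero_mul]
  have h1 : cjE (tv q) s ∈ Qd G := cj_mem_Qd hs (tv_mem hq)
  have h1' : cjE (tv (-q)) s ∈ Qd G := cj_mem_Qd hs (tv_mem (neg_mem_Q0 hq))
  rw [cj_plus q2] at h1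
  rw [cj_minus q2] at h1'
  have z1 : s * (s + (q * s - s * q) - q * s * q) + (s + (q * s - s * q) - q * s * q) * s = -((s * q + q * s) * (s * q + q * s)) := by
    simp only [mul_add, add_mul, mul_sub, sub_mul, mul_assoc, s2, q2, ss, qq, mul_zero]; abel
  have z2 : s * (s - (q * s - s * q) - q * s * q) + (s - (q * s - s * q) - q * s * q) * s = -((s * q + q * s) * (s * q + q * s)) := by
    simp only [mul_add, add_mul, mul_sub, sub_mul, mul_assoc, s2, q2, ss, qq, mul_zero]; abel
  have hnn : IsNilpotent (-((s * q + q * s) * (s * q + q * s))) := by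
    obtain ⟨n, hn⟩ := hn
    refine ⟨n, ?_⟩
    rw [neg_pow, ← pow_two, ← pow_mul, mul_comm 2 n, pow_mul, hn]
    rcases Nat.eq_zero_or_pos n with h0 | h0
    · subst h0
      rw [pow_zero] at hn
      rw [hn]; simp
    · simp
  obtain ⟨m, hm⟩ := hnn
  obtain ⟨n1, n2⟩ := nilp_pair h2 m hs h1 (by rw [z1]; exact hm)
  obtain ⟨n3, n4⟩ := nilp_pair h2 m hs h1' (by rw [z2]; exact hm)
  have u1 := comm_mem_Q0 hs.1 h1.1 n1 n2
  have u2 := comm_mem_Q0 hs.1 h1'.1 n3 n4
  -- s q s q s = 0
  have e0 : s * (q * (s * (q * s))) = 0 := by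
    simp only [mul_add, add_mul, mul_sub, sub_mul, mul_assoc, s2, q2, ss, qq, mul_zero] at n1
    simpa using n1
  have e0' : ∀ x : End k M, s * (q * (s * (q * (s * x)))) = 0 := fun x => by
    have : s * (q * (s * (q * (s * x)))) = (s * (q * (s * (q * s)))) * x := by simp only [mul_assoc]
    rw [this, e0, zero_mul]
  have e1 : s * (s + (q * s - s * q) - q * s * q) - (s + (q * s - s * q) - q * s * q) * s =
      2 • (s * (q * s)) - s * (q * (s * q)) + q * (s * (q * s)) := by
    simp only [mul_add, add_mul, mul_sub, sub_mul, mul_assoc, s2, q2, ss, qq, mul_zero]; abel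
  have e2 : s * (s - (q * s - s * q) - q * s * q) - (s - (q * s - s * q) - q * s * q) * s =
      -(2 • (s * (q * s))) - s * (q * (s * q)) + q * (s * (q * s)) := by
    simp only [mul_add, add_mul, mul_sub, sub_mul, mul_assoc, s2, q2, ss, qq, mul_zero]; abel
  rw [e1] at u1
  rw [e2] at u2
  have u3 := sub_mem_Q0 u1 u2 (by
    simp only [mul_add, add_mul, mul_sub, sub_mul, mul_assoc, s2, q2, ss, qq, mul_zero, e0, e0', smul_mul_assoc,
      mul_smul_comm, mul_neg, neg_mul, smul_zero]; simp) (by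
    simp only [mul_add, add_mul, mul_sub, sub_mul, mul_assoc, s2, q2, ss, qq, mul_zero, e0, e0', smul_mul_assoc,
      mul_smul_comm, mul_neg, neg_mul, smul_zero]; simp)
  have e3 : (2 • (s * (q * s)) - s * (q * (s * q)) + q * (s * (q * s))) -
      (-(2 • (s * (q * s))) - s * (q * (s * q)) + q * (s * (q * s))) = ((2 : k) * 2) • (s * (q * s)) := by
    rw [← Nat.cast_smul_eq_nsmul k 2]; push_cast; module
  rw [e3] at u3
  have u4 := of_smul_mem_Q0 (mul_ne_zero h2 h2) u3
  rw [mul_assoc]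
  by_contra h0
  have hr := range_eq_of_le hs u4 h0 (by rintro _ ⟨x, rfl⟩; exact ⟨(q * s) x, rfl⟩)
  apply hs.2.1
  obtain ⟨n, hn⟩ := hn
  have key : ∀ m : ℕ, ∀ y ∈ LinearMap.range s, ∃ y' ∈ LinearMap.range s, ((s * q + q * s) ^ m) y' = y := by
    intro m
    induction m with
    | zero => intro y hy; exact ⟨y, hy, by simp⟩
    | succ m ih =>
      intro y hy
      obtain ⟨y', hy', e⟩ := ih y hy
      rw [← hr] at hy'
      obtain ⟨w, rfl⟩ := hy'
      refine ⟨s w, ⟨w, rfl⟩, ?_⟩
      rw [pow_succ, Module.End.mul_apply, ← e]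
      congr 1
      show s (q (s w)) + q (s (s w)) = s (q (s w))
      have : s (s w) = 0 := LinearMap.congr_fun s2 w
      rw [this, map_zero, add_zero]
  ext x
  obtain ⟨y', -, e⟩ := key n (s x) ⟨x, rfl⟩
  rw [hn] at e
  rw [← e]; rfl

theorem qsq_mem (h2 : (2 : k) ≠ 0) (hs : s ∈ Qd G) (hq : q ∈ Q0 G) (h : s * q * s = 0) : q * s * q ∈ Q0 G := by
  have s2 := hs.1.1
  have q2 := hq.1
  have ss : ∀ x : End k M, s * (s * x) = 0 := fun x => by rw [← mul_assoc, s2, zero_mul]
  have qq : ∀ x : End k M, q * (q * x) = 0 := fun x => by rw [← mul_assoc, q2, zero_mul]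
  have e0 : s * (q * s) = 0 := by rw [← mul_assoc]; exact h
  have e0' : ∀ x : End k M, s * (q * (s * x)) = 0 := fun x => by
    have : s * (q * (s * x)) = (s * (q * s)) * x := by simp only [mul_assoc]
    rw [this, e0, zero_mul]
  have h1 : cjE (tv q) s ∈ Qd G := cj_mem_Qd hs (tv_mem hq)
  have h1' : cjE (tv (-q)) s ∈ Qd G := cj_mem_Qd hs (tv_mem (neg_mem_Q0 hq))
  rw [cj_plus q2] at h1
  rw [cj_minus q2] at h1'
  have a1 := sub_mem_Q0 h1.1 hs.1 (by
    simp only [mul_add, add_mul, mul_sub, sub_mul, mul_assoc, s2, q2, ss, qq, mul_zero, e0, e0']; simp) (by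
    simp only [mul_add, add_mul, mul_sub, sub_mul, mul_assoc, s2, q2, ss, qq, mul_zero, e0, e0']; simp)
  have a2 := sub_mem_Q0 h1'.1 hs.1 (by
    simp only [mul_add, add_mul, mul_sub, sub_mul, mul_assoc, s2, q2, ss, qq, mul_zero, e0, e0']; simp) (by
    simp only [mul_add, add_mul, mul_sub, sub_mul, mul_assoc, s2, q2, ss, qq, mul_zero, e0, e0']; simp)
  have a3 := add_mem_Q0 a1 a2 (by
    simp only [mul_add, add_mul, mul_sub, sub_mul, mul_assoc, s2, q2, ss, qq, mul_zero, e0, e0']; simp) (by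
    simp only [mul_add, add_mul, mul_sub, sub_mul, mul_assoc, s2, q2, ss, qq, mul_zero, e0, e0']; simp)
  have e : (s + (q * s - s * q) - q * s * q - s) + (s - (q * s - s * q) - q * s * q - s) = (-2 : k) • (q * s * q) := by
    module
  rw [e] at a3
  exact of_smul_mem_Q0 (neg_ne_zero.2 h2) a3

/-- conjugation trick -/
theorem sandwich {w x y : End k M} (hw : w * w = 0) (h : cjE (tv w) x * y * cjE (tv w) x = 0) :
    x * (y + (y * w - w * y) - w * y * w) * x = 0 := by
  have h1 : (1 - w) * (1 + w) = 1 := by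
    have : (1 - w) * (1 + w) = 1 - w * w := by noncomm_ring
    rw [this, hw, sub_zero]
  have e : cjE (tv w) x = (1 + w) * x * (1 - w) := by
    unfold cjE
    rw [tv_inv hw, tv_val hw, tv_val (by simp [hw])]; noncomm_ring
  rw [e] at h
  have h4 := congrArg (fun f => (1 - w) * f * (1 + w)) h
  simp only [mul_zero, zero_mul] at h4
  have h5 : (1 - w) * ((1 + w) * x * (1 - w) * y * ((1 + w) * x * (1 - w))) * (1 + w) =
      ((1 - w) * (1 + w)) * x * ((1 - w) * y * (1 + w)) * x * ((1 - w) * (1 + w)) := by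
    simp only [mul_assoc]
  rw [h5, h1, one_mul, mul_one] at h4
  have h6 : (1 - w) * y * (1 + w) = y + (y * w - w * y) - w * y * w := by noncomm_ring
  rw [h6] at h4
  exact h4

theorem commute_of (h2 : (2 : k) ≠ 0) (h3 : Nat.card k ≠ 3) (hirr : IsIrreducibleFor G) (hq : q ∈ Q0 G)
    (h : ∀ x ∈ Qd G, x * q * x = 0) {s : End k M} (hs : s ∈ Qd G) : q * s = s * q := by
  have q2 := hq.1
  have b1 : ∀ s ∈ Qd G, ∀ x ∈ Qd G, x * (q * s - s * q) * x = 0 := by
    intro s hs x hx
    have := sandwich hs.1.1 (h _ (cj_mem_Qd hx (tv_mem hs.1)))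
    rw [h s hs, sub_zero, mul_add, add_mul, h x hx, zero_add] at this
    exact this
  have b2 : ∀ s ∈ Qd G, ∀ x ∈ Qd G, x * (q * s * q) * x = 0 := by
    intro s hs x hx
    have := sandwich q2 (b1 s hs _ (cj_mem_Qd hx (tv_mem hq)))
    have e1 : q * (q * s - s * q) * q = 0 := by
      have : q * (q * s - s * q) * q = q * q * s * q - q * s * (q * q) := by noncomm_ring
      rw [this, q2]; simp
    have e2 : (q * s - s * q) * q - q * (q * s - s * q) = (2 : k) • (q * s * q) := by
      have : (q * s - s * q) * q - q * (q * s - s * q) = q * s * q + q * s * q - s * (q * q) - q * q * s := by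
        noncomm_ring
      rw [this, q2]; simp; module
    rw [e1, e2, sub_zero, mul_add, add_mul, b1 s hs x hx, zero_add, mul_smul_comm, smul_mul_assoc] at this
    rcases smul_eq_zero.1 this with h4 | h4
    · exact absurd h4 h2
    · exact h4
  have b3 : q * s * q = 0 := by
    by_contra h0
    have hw : q * s * q ∈ Qd G := mem_Qd_of_rk hs (qsq_mem h2 hs hq (h s hs)) h0
      ((rk_mul_le' _ _).trans (rk_mul_le _ _))
    obtain ⟨t, ht, o⟩ := exists_opp h2 h3 hirr hw
    apply ht.2.1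
    rw [← o.tst]; exact b2 s hs t ht
  by_contra hne
  have hu0 : q * s - s * q ≠ 0 := sub_ne_zero.2 hne
  have huQ := comm_mem_Q0 hq hs.1 b3 (h s hs)
  have hrk : rk (q * s - s * q) ≤ rk s := by
    have e1 := rank_sum (s := s) (t := q) b3
    have e2 : rk (q * s - s * q) ≤ rk (q * s) + rk (s * q) := by
      unfold rk
      have hle : LinearMap.range (q * s - s * q) ≤ LinearMap.range (q * s) ⊔ LinearMap.range (s * q) := by
        rintro _ ⟨x, rfl⟩
        rw [LinearMap.sub_apply, sub_eq_add_neg]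
        exact Submodule.add_mem_sup ⟨x, rfl⟩ (Submodule.neg_mem _ ⟨x, rfl⟩)
      exact (Submodule.finrank_mono hle).trans (Submodule.finrank_add_le_finrank_add_finrank _ _)
    omega
  obtain ⟨t, ht, o⟩ := exists_opp h2 h3 hirr (mem_Qd_of_rk hs huQ hu0 hrk)
  apply ht.2.1
  rw [← o.tst]; exact b1 s hs t ht

end CfsgLib.H14QF
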