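import Cfsg.Agent.LibH14QF

/-! Quadratic pairs: the non nilpotent case for `s ∈ 𝒬_d`, `q ∈ 𝒬` (seat helper14). -/

set_option autoImplicit false

namespace CfsgLib.H14QF

open Cfsg CfsgLib.H14R1 CfsgLib.H14QP CfsgLib.H14Pr CfsgLib.H14Crux CfsgLib.H14KT CfsgLib.H14QR CfsgLib.H14QC Module Polynomial

variable {k : Type*} [Field k] {M : Type*} [AddCommGroup M] [Module k M] [FiniteDimensional k M]
  {G : Subgroup (LinearMap.GeneralLinearGroup k M)} {s t q : End k M}

/-- standing hypotheses -/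
structure NQ (G : Subgroup (LinearMap.GeneralLinearGroup k M)) (s q : End k M) : Prop where
  h2 : (2 : k) ≠ 0
  h3 : Nat.card k ≠ 3
  hs : s ∈ Qd G
  hq : q ∈ Q0 G
  hn : ¬ IsNilpotent (s * q + q * s)

theorem NQ.s2 (h : NQ G s q) : s * s = 0 := h.hs.1.1
theorem NQ.q2 (h : NQ G s q) : q * q = 0 := h.hq.1

/-- the conjugate of `s` -/
theorem NQ.z (h : NQ G s q) : s * cjE (tv q) s + cjE (tv q) s * s = -((s * q + q * s) * (s * q + q * s)) := by
  have s2 := h.s2
  have q2 := h.q2
  have ss : ∀ x : End k M, s * (s * x) = 0 := fun x => by rw [← mul_assoc, s2, zero_mul]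
  have qq : ∀ x : End k M, q * (q * x) = 0 := fun x => by rw [← mul_assoc, q2, zero_mul]
  rw [cj_plus q2]
  simp only [mul_add, add_mul, mul_sub, sub_mul, mul_assoc, s2, q2, ss, qq, mul_zero]; abel

theorem NQ.nn (h : NQ G s q) : NN G s (cjE (tv q) s) := by
  refine ⟨h.h2, h.h3, h.hs, cj_mem_Qd h.hs (tv_mem h.hq), ?_⟩
  rw [h.z]
  rintro ⟨n, hn⟩
  apply h.hn
  refine ⟨2 * n, ?_⟩
  rw [neg_pow, ← pow_two, ← pow_mul] at hn
  rcases neg_one_pow_eq_or (End k M) n with e | e
  · rwa [e, one_mul] at hn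
  · rwa [e, neg_one_mul, neg_eq_zero] at hn

theorem NQ.inj (h : NQ G s q) {x : M} (hx : (s * q + q * s) (s x) = 0) : s x = 0 := by
  apply h.nn.inj
  rw [h.z, LinearMap.neg_apply, Module.End.mul_apply, hx, map_zero, neg_zero]

theorem NQ.ca (h : NQ G s q) : CA s q := CA_of_inj h.s2 h.q2 fun _ hx => h.inj hx

theorem NQ.z0 (h : NQ G s q) : s * q + q * s ≠ 0 := fun e => h.hn (by rw [e]; exact IsNilpotent.zero)

theorem NQ.ev_s (h : NQ G s q) (f : k[X]) (x : M) : ev s q f (s x) = s (ev s q f x) :=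
  (LinearMap.congr_fun (s_ev (s := s) (t := q) h.s2 f) x).symm

theorem NQ.mem_iff (h : NQ G s q) {f : k[X]} : f ∈ AI s q ↔ ev s q f * s = 0 := by
  rw [mem_AI]
  constructor
  · intro h1
    ext x
    show ev s q f (s x) = 0
    rw [h.ev_s]
    apply h.inj
    rw [← h.ev_s]
    have := LinearMap.congr_fun h1 (s x)
    rw [ev_mul, ev_X] at this
    exact this
  · intro h1
    apply annih h.q2 h.ca
    rw [ev_mul, mul_assoc, h1, mul_zero]

theorem NQ.unit_of (h : NQ G s q) {f : k[X]} (hf : ∀ x, ev s q f (s x) = 0 → s x = 0) :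
    IsUnit (Ideal.Quotient.mk (AI s q) f) := by
  apply unit_of_nzd (k := k)
  intro y hy
  obtain ⟨e, rfl⟩ := Ideal.Quotient.mk_surjective y
  rw [← map_mul, Ideal.Quotient.eq_zero_iff_mem, h.mem_iff] at hy
  rw [Ideal.Quotient.eq_zero_iff_mem, h.mem_iff]
  ext x
  show ev s q e (s x) = 0
  rw [h.ev_s]
  apply hf
  rw [← h.ev_s]
  have := LinearMap.congr_fun hy x
  rw [ev_mul] at this
  exact this

theorem NQ.ev_comp (h : NQ G s q) (p : k[X]) : ev s (cjE (tv q) s) p = ev s q (p.comp (-(X * X))) := by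
  unfold ev
  rw [aeval_comp, h.z]
  congr 1
  rw [map_neg, map_mul, aeval_X]

theorem NQ.even_mem (h : NQ G s q) (p : k[X]) : ev s q (p.comp (-(X * X))) * s ∈ Q0 G := by
  rw [← h.ev_comp]; exact h.nn.key p

theorem NQ.even_unit (h : NQ G s q) (p : k[X]) (h0 : Ideal.Quotient.mk (AI s q) (p.comp (-(X * X))) ≠ 0) :
    IsUnit (Ideal.Quotient.mk (AI s q) (p.comp (-(X * X)))) := by
  apply h.unit_of
  have h1 : ev s (cjE (tv q) s) p * s ≠ 0 := by
    rw [h.ev_comp]
    intro e
    exact h0 (Ideal.Quotient.eq_zero_iff_mem.2 (h.mem_iff.2 e))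
  have := h.nn.range_inj (h.nn.key p) h1
  rw [h.ev_comp] at this
  exact this

/-- the image of the even polynomials -/
noncomputable def psi (s q : End k M) : k[X] →ₐ[k] (k[X] ⧸ AI s q) :=
  (Ideal.Quotient.mkₐ k (AI s q)).comp (aeval (-(X * X) : k[X]))

omit [FiniteDimensional k M] in
theorem psi_apply (p : k[X]) : psi s q p = Ideal.Quotient.mk (AI s q) (p.comp (-(X * X))) := rfl

theorem NQ.F_unit (h : NQ G s q) {x : k[X] ⧸ AI s q} (hx : x ∈ (psi s q).range) (h0 : x ≠ 0) :
    ∃ y ∈ (psi s q).range, x * y = 1 := by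
  have hnz : ∀ z : (psi s q).range, (⟨x, hx⟩ : (psi s q).range) * z = 0 → z = 0 := by
    intro z hz
    have h1 : x * (z : k[X] ⧸ AI s q) = 0 := congrArg Subtype.val hz
    obtain ⟨p, hp⟩ := hx
    have hp' : Ideal.Quotient.mk (AI s q) (p.comp (-(X * X))) = x := hp
    have hu : IsUnit x := by rw [← hp']; exact h.even_unit p (by rw [hp']; exact h0)
    apply Subtype.ext
    exact hu.mul_left_cancel (by rw [h1]; simp)
  obtain ⟨z, hz⟩ := (unit_of_nzd (k := k) hnz).exists_right_inv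
  exact ⟨z, z.2, congrArg Subtype.val hz⟩

theorem decomp_F (x : k[X] ⧸ AI s q) : ∃ α ∈ (psi s q).range, ∃ β ∈ (psi s q).range,
    x = α + Ideal.Quotient.mk (AI s q) X * β := by
  obtain ⟨f, rfl⟩ := Ideal.Quotient.mk_surjective x
  have hz2 : Ideal.Quotient.mk (AI s q) X * Ideal.Quotient.mk (AI s q) X ∈ (psi s q).range := by
    have : Ideal.Quotient.mk (AI s q) X * Ideal.Quotient.mk (AI s q) X = psi s q (-X) := by
      rw [psi_apply]; simp
    rw [this]; exact ⟨_, rfl⟩
  induction f using Polynomial.induction_on' with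
  | add f g ihf ihg =>
    obtain ⟨a, ha, b, hb, e⟩ := ihf
    obtain ⟨a', ha', b', hb', e'⟩ := ihg
    exact ⟨a + a', add_mem ha ha', b + b', add_mem hb hb', by rw [map_add, e, e']; ring⟩
  | monomial n c =>
    have hc : Ideal.Quotient.mk (AI s q) (C c) ∈ (psi s q).range := ⟨C c, by show psi s q (C c) = _; rw [psi_apply]; simp⟩
    rcases Nat.even_or_odd' n with ⟨m, rfl | rfl⟩
    · refine ⟨Ideal.Quotient.mk (AI s q) (C c) * (Ideal.Quotient.mk (AI s q) X * Ideal.Quotient.mk (AI s q) X) ^ m,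
        mul_mem hc (pow_mem hz2 m), 0, zero_mem _, ?_⟩
      rw [← C_mul_X_pow_eq_monomial, map_mul, map_pow, pow_mul, pow_two]; ring
    · refine ⟨0, zero_mem _, Ideal.Quotient.mk (AI s q) (C c) * (Ideal.Quotient.mk (AI s q) X * Ideal.Quotient.mk (AI s q) X) ^ m,
        mul_mem hc (pow_mem hz2 m), ?_⟩
      rw [← C_mul_X_pow_eq_monomial, map_mul, map_pow, pow_succ, pow_mul, pow_two]; ring

/-- the element `2 + a z` is a unit or nilpotent -/
theorem NQ.dich (h : NQ G s q) {a : k[X] ⧸ AI s q} (ha : a ∈ (psi s q).range) :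
    IsUnit (2 + a * Ideal.Quotient.mk (AI s q) X) ∨ IsNilpotent (2 + a * Ideal.Quotient.mk (AI s q) X) := by
  obtain ⟨p', hp'⟩ := ha
  set p := p'.comp (-(X * X)) with hp
  have ea : Ideal.Quotient.mk (AI s q) p = a := hp'
  have hS := h.even_mem p'
  rw [← hp] at hS
  have s2 := h.s2
  have q2 := h.q2
  have hps : (ev s q p * s) * (ev s q p * s) = 0 := hS.1
  set g : LinearMap.GeneralLinearGroup k M := tv q * tv (ev s q p * s) * tv q with hg
  have gG : g ∈ G := mul_mem (mul_mem (tv_mem h.hq) (tv_mem hS)) (tv_mem h.hq)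
  have hval : (g : End k M) = EE s q 0 p (2 + p * X) (1 + p * X) := by
    rw [hg, Units.val_mul, Units.val_mul, tv_val q2, tv_val hps, EE]
    have e1 : q * (ev s q p * s) = ev s q p * (q * s) := by rw [← mul_assoc, t_ev q2, mul_assoc]
    have e2 : ev s q (p * X) = ev s q p * (s * q + q * s) := by rw [ev_mul, ev_X]
    have e6 : ev s q (2 + p * X) * q = (2 : k) • q + ev s q p * (q * s * q) := by
      have e3 : (2 : k[X]) = C 2 := by rw [map_ofNat]
      have e7 : (s * q + q * s) * q = q * s * q := by rw [add_mul, mul_assoc s, q2, mul_zero, zero_add]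
      rw [ev_add, add_mul, e3, ev_C, e2, mul_assoc, e7]
    rw [e6, ev_zero, zero_mul, add_zero, ev_add, ev_one, e2]
    have e8 : (1 + q) * (1 + ev s q p * s) * (1 + q) = 1 + q + q + ev s q p * s + ev s q p * (q * s) +
        ev s q p * (s * q) + ev s q p * (q * s * q) + q * q := by
      have : (1 + q) * (1 + ev s q p * s) * (1 + q) = 1 + q + q + ev s q p * s + q * (ev s q p * s) +
        ev s q p * (s * q) + q * (ev s q p * s) * q + q * q := by noncomm_ring
      rw [this, e1]; simp only [mul_assoc]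
    rw [e8, q2]
    simp only [mul_add, mul_one]
    module
  have hdet : ((1 + p * X) + X * 0) * (1 + p * X) - X * p * (2 + p * X) = 1 := by ring
  have hcj : cjE g s = SS s q (1 + p * X) (2 + p * X) := by
    have h1 := EE_s s2 q2 (a := 0) (b := p) (c := 2 + p * X) (d := 1 + p * X) hdet
    rw [mul_zero, add_zero, ← hval] at h1
    unfold cjE
    rw [h1, mul_assoc, ← Units.val_mul, mul_inv_cancel, Units.val_one, mul_one]
  have hSQ : SS s q (1 + p * X) (2 + p * X) ∈ Qd G := by rw [← hcj]; exact cj_mem_Qd h.hs gG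
  have ec : Ideal.Quotient.mk (AI s q) (2 + p * X) = 2 + a * Ideal.Quotient.mk (AI s q) X := by
    rw [map_add, map_mul, ea, map_ofNat]
  rw [← ec]
  by_cases hn : IsNilpotent (s * SS s q (1 + p * X) (2 + p * X) + SS s q (1 + p * X) (2 + p * X) * s)
  · right
    rw [sS_add s2 q2, mul_one] at hn
    obtain ⟨m, hm⟩ := hn
    rw [neg_pow] at hm
    have h1 : ev s q (((2 + p * X) * (2 + p * X) * X * X) ^ m) = 0 := by
      have e : ev s q ((2 + p * X) * (2 + p * X) * X * X) ^ m = ev s q (((2 + p * X) * (2 + p * X) * X * X) ^ m) := by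
        unfold ev; rw [map_pow]
      rw [← e]
      rcases neg_one_pow_eq_or (End k M) m with e' | e'
      · rwa [e', one_mul] at hm
      · rwa [e', neg_one_mul, neg_eq_zero] at hm
    have h4 : ((2 + p * X) * (2 + p * X) * X * X) ^ m ∈ AI s q := by
      rw [mem_AI, ev_mul, h1, mul_zero]
    rw [← Ideal.Quotient.eq_zero_iff_mem, map_pow, map_mul, map_mul, map_mul] at h4
    have hu := AI_unit h.ca
    have e7 : (Ideal.Quotient.mk (AI s q) (2 + p * X) * Ideal.Quotient.mk (AI s q) (2 + p * X) * Ideal.Quotient.mk (AI s q) X *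
        Ideal.Quotient.mk (AI s q) X) ^ m = (Ideal.Quotient.mk (AI s q) X) ^ (2 * m) * (Ideal.Quotient.mk (AI s q) (2 + p * X)) ^ (2 * m) := by
      ring
    rw [e7] at h4
    refine ⟨2 * m, (hu.pow (2 * m)).mul_left_cancel (by rw [h4, mul_zero])⟩
  · left
    have h4 := CfsgLib.H14KT.inj h.h2 h.h3 h.hs hSQ hn
    rw [sS_add s2 q2] at h4
    apply h.unit_of
    intro x hx
    apply h4
    rw [mul_one, LinearMap.neg_apply, neg_eq_zero]
    have : (2 + p * X) * (2 + p * X) * X * X = ((2 + p * X) * X * X) * (2 + p * X) := by ring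
    rw [this, ev_mul]
    show ev s q ((2 + p * X) * X * X) (ev s q (2 + p * X) (s x)) = 0
    rw [hx, map_zero]

/-- `R = k[X]/AI` is a field -/
theorem NQ.fld (h : NQ G s q) {x : k[X] ⧸ AI s q} (hx : x ≠ 0) : IsUnit x := by
  haveI := AI_nontrivial h.z0
  have hu := AI_unit h.ca
  set z := Ideal.Quotient.mk (AI s q) X with hz
  have h2R : IsUnit (2 : k[X] ⧸ AI s q) := by
    have := (IsUnit.mk0 (2 : k) h.h2).map (algebraMap k (k[X] ⧸ AI s q))
    rwa [map_ofNat] at this
  obtain ⟨α, hα, β, hβ, rfl⟩ := decomp_F x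
  have hz2 : z * z ∈ (psi s q).range := by
    have : z * z = psi s q (-X) := by rw [psi_apply]; simp [hz]
    rw [this]; exact ⟨_, rfl⟩
  by_cases hN : α * α - z * z * (β * β) = 0
  · by_cases hb : β = 0
    · subst hb
      rw [mul_zero, mul_zero, sub_zero] at hN
      rw [mul_zero, add_zero] at hx ⊢
      obtain ⟨y, -, hy⟩ := h.F_unit hα hx
      exact IsUnit.of_mul_eq_one y hy
    · obtain ⟨β', hβ', hbb⟩ := h.F_unit hβ hb
      have hf2 : (α * β') * (α * β') = z * z := by
        linear_combination (β' * β') * hN + z * z * (β * β' + 1) * hbb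
      have hf0 : α * β' ≠ 0 := by
        intro e
        rw [e, mul_zero] at hf2
        exact not_isUnit_zero (hf2 ▸ hu.mul hu)
      obtain ⟨f', hf', hff⟩ := h.F_unit (mul_mem hα hβ') hf0
      have hx' : α + z * β = β * (α * β' + z) := by linear_combination (-α) * hbb
      have hc2 : (2 + (-2 * f') * z) * (2 + (-2 * f') * z) = 4 * (2 + (-2 * f') * z) := by
        linear_combination (-4 * f' * f') * hf2 + 4 * (α * β' * f' + 1) * hff
      have hbu : IsUnit β := IsUnit.of_mul_eq_one β' hbb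
      rcases h.dich (a := -2 * f') (mul_mem (neg_mem (by
          have : (2 : k[X] ⧸ AI s q) = psi s q 2 := by rw [map_ofNat]
          rw [this]; exact ⟨_, rfl⟩)) hf') with hc | hc
      · exfalso
        apply hx
        have h4 : 2 + (-2 * f') * z = 4 := hc.mul_left_cancel (by rw [hc2, mul_comm])
        have h5 : f' * z = -1 := h2R.mul_left_cancel (by linear_combination (-1 : k[X] ⧸ AI s q) * h4)
        have h6 : z = -(α * β') := by linear_combination (α * β') * h5 - z * hff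
        rw [hx', h6]; ring
      · have h4 : 2 + (-2 * f') * z = 0 := by
          obtain ⟨n, hn⟩ := hc
          have key : ∀ m : ℕ, (2 + (-2 * f') * z) ^ (m + 1) = 4 ^ m * (2 + (-2 * f') * z) := by
            intro m
            induction m with
            | zero => simp
            | succ m ih => rw [pow_succ, ih, mul_assoc, hc2, pow_succ]; ring
          have h5 := key n
          rw [pow_succ, hn, zero_mul] at h5
          have h6 : IsUnit ((4 : k[X] ⧸ AI s q) ^ n) := by
            have : (4 : k[X] ⧸ AI s q) = 2 * 2 := by norm_num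
            rw [this]; exact (h2R.mul h2R).pow n
          exact h6.mul_left_cancel (by rw [← h5, mul_zero])
        have h5 : f' * z = 1 := h2R.mul_left_cancel (by linear_combination (-1 : k[X] ⧸ AI s q) * h4)
        have h6 : z = α * β' := by linear_combination (α * β') * h5 - z * hff
        rw [hx', h6]
        have : α * β' + α * β' = 2 * z := by rw [h6]; ring
        rw [this]
        exact hbu.mul (h2R.mul hu)
  · obtain ⟨y, -, hy⟩ := h.F_unit (sub_mem (mul_mem hα hα) (mul_mem hz2 (mul_mem hβ hβ))) hN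
    exact IsUnit.of_mul_eq_one ((α - z * β) * y) (by linear_combination hy)

theorem NQ.max (h : NQ G s q) : (AI s q).IsMaximal := by
  apply Ideal.Quotient.maximal_of_isField
  haveI := AI_nontrivial h.z0
  exact ⟨exists_pair_ne _, mul_comm, fun ha => (h.fld ha).exists_right_inv⟩

/-- splitting off a minimal element -/
theorem NQ.split (h : NQ G s q) : ∃ q₁ ∈ Qd G, ∃ q₀ ∈ Q0 G, q = q₁ + q₀ ∧ q₁ * q₀ = 0 ∧ q₀ * q₁ = 0 ∧ rk q₀ < rk q := by
  have s2 := h.s2
  have q2 := h.q2
  have hA := h.ca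
  haveI := h.max
  letI := Ideal.Quotient.field (AI s q)
  have hu := AI_unit hA
  obtain ⟨c, hc, hcc⟩ := exists_u h.h2 h.h3
  have hall := field_all (K := k[X] ⧸ AI s q) h.h2 h.h3 hu.ne_zero (AI_gen (s := s) (t := q)) Gn.hg
      (fun he h => h.dc he) (fun a => Gn.gx a) (fun a => Gn.gy a)
  have hm := hall (algebraMap k _ c) 0 0 (algebraMap k _ c⁻¹) (by
    rw [← map_mul, mul_inv_cancel₀ hc, map_one, zero_mul, sub_zero])
  obtain ⟨a, b, c', d, hgn, ea, eb, ec, ed⟩ := hm.lift (Ideal.Quotient.mkₐ k (AI s q)) (z' := X) rfl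
  obtain ⟨g, hGG⟩ := exists_GG (s := s) (t := q) hgn
  obtain ⟨-, ⟨b', hb'⟩, ⟨p', hp'⟩⟩ := hGG.one_mod
  have gG : g ∈ G := hGG.mem h.hs.1 h.hq
  have hT := hGG.conj_t s2 q2 hb'
  -- idempotent
  obtain ⟨y, hy⟩ := hu.exists_right_inv
  obtain ⟨e', rfl⟩ := Ideal.Quotient.mk_surjective y
  have hb'A : b' ∈ AI s q := by
    have h1 : X * b' ∈ AI s q := by
      rw [← hb']; exact Ideal.Quotient.eq_zero_iff_mem.1 eb
    exact hA.ev h1
  have e1 : X * e' - 1 ∈ AI s q := by
    rw [← Ideal.Quotient.eq_zero_iff_mem, map_sub, map_mul, hy, map_one, sub_self]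
  have hcc' : (c⁻¹ * c⁻¹ - 1 : k) ≠ 0 := by
    intro e
    apply hcc
    have : c⁻¹ * c⁻¹ = 1 := by linear_combination e
    field_simp at this
    linear_combination -this
  have hed : Ideal.Quotient.mk (AI s q) d = Ideal.Quotient.mk (AI s q) (C c⁻¹) := ed
  have e2 : ev s q (d * d) = 1 + (c⁻¹ * c⁻¹ - 1 : k) • ev s q (X * e') := by
    have hr : (2 * p' + X * p' * p') - C (c⁻¹ * c⁻¹ - 1) * e' ∈ AI s q := by
      apply hA.ev
      have h1 : X * ((2 * p' + X * p' * p') - C (c⁻¹ * c⁻¹ - 1) * e') =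
          (d * d - C c⁻¹ * C c⁻¹) - C (c⁻¹ * c⁻¹ - 1) * (X * e' - 1) := by
        rw [hp', C_sub, C_mul, C_1]; ring
      show ev s q (X * (X * ((2 * p' + X * p' * p') - C (c⁻¹ * c⁻¹ - 1) * e'))) = 0
      have h4 : X * ((2 * p' + X * p' * p') - C (c⁻¹ * c⁻¹ - 1) * e') ∈ AI s q := by
        rw [h1]
        refine sub_mem ?_ (Ideal.mul_mem_left _ _ e1)
        rw [← Ideal.Quotient.eq_zero_iff_mem, map_sub, map_mul, map_mul, hed, sub_self]
      exact h4
    have h1 : d * d = 1 + C (c⁻¹ * c⁻¹ - 1) * (X * e') + X * ((2 * p' + X * p' * p') - C (c⁻¹ * c⁻¹ - 1) * e') := by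
      rw [hp']; ring
    rw [h1, ev_add, ev_add, ev_one, mem_AI.1 hr, add_zero, ev_mul, ev_C]
  have e3 : cjE g q = q + (c⁻¹ * c⁻¹ - 1 : k) • (ev s q (X * e') * q) := by
    rw [hT, TT, e2]
    have z1 : ev s q (b' * d) * s = 0 := h.mem_iff.1 (Ideal.mul_mem_right _ _ hb'A)
    have z2 : ev s q (b' * d) * (s * q - q * s) = 0 := by
      rw [mul_sub, ← mul_assoc, z1, zero_mul, ← mul_assoc, ← t_ev q2, mul_assoc, z1, mul_zero, sub_zero]
    have z3 : ev s q (X * b' * b') * s = 0 := h.mem_iff.1 (Ideal.mul_mem_left _ _ hb'A)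
    rw [z2, z3, add_zero, sub_zero, add_mul, one_mul, smul_mul_assoc]
  set π := ev s q (X * e') with hπ
  have πq : q * π = π * q := t_ev q2 _
  have hππ : π * π = π := by
    have h1 : X * e' * (X * e') - X * e' = X * (e' * (X * e' - 1)) := by ring
    have h4 : ev s q (X * e' * (X * e') - X * e') = 0 := by
      rw [h1]; exact mem_AI.1 (Ideal.mul_mem_left _ _ e1)
    rw [ev_sub, ev_mul, sub_eq_zero] at h4
    exact h4
  have πs : π * s = s := by
    have h1 := h.mem_iff.1 e1
    rw [ev_sub, ev_one, sub_mul, one_mul, sub_eq_zero] at h1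
    exact h1
  have qπq : q * (π * q) = 0 := by rw [← mul_assoc, πq, mul_assoc, q2, mul_zero]
  have πqq : π * q * q = 0 := by rw [mul_assoc, q2, mul_zero]
  have hq1 : π * q ∈ Q0 G := by
    have h1 : cjE g q - q ∈ Q0 G := by
      apply sub_mem_Q0 (cj_mem_Q0 h.hq gG) h.hq
      · rw [e3, add_mul, q2, smul_mul_assoc, πqq, smul_zero, add_zero]
      · rw [e3, mul_add, q2, mul_smul_comm, qπq, smul_zero, add_zero]
    rw [e3, add_sub_cancel_left] at h1
    exact of_smul_mem_Q0 hcc' h1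
  have sqs0 : s * q * s ≠ 0 := by
    intro e
    apply h.hs.2.1
    ext x
    apply h.inj
    rw [LinearMap.add_apply]
    have e4 : (s * q) (s x) = 0 := LinearMap.congr_fun e x
    have e5 : (q * s) (s x) = 0 := by
      have : s (s x) = 0 := LinearMap.congr_fun s2 x
      rw [Module.End.mul_apply, this, map_zero]
    rw [e4, e5, add_zero]
  have hq1ne : π * q ≠ 0 := by
    intro e
    apply sqs0
    calc s * q * s = s * q * (π * s) := by rw [πs]
      _ = s * (q * π) * s := by simp only [mul_assoc]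
      _ = 0 := by rw [πq, e]; simp
  have hrk : rk (π * q) ≤ rk s := by
    have : π * q = ev s q e' * q * s * q := by
      rw [hπ, mul_comm X e', ev_mul, ev_X, mul_assoc, add_mul, mul_assoc s, q2, mul_zero, zero_add]
      simp only [mul_assoc]
    rw [this]
    exact (rk_mul_le' _ _).trans (rk_mul_le _ _)
  refine ⟨π * q, mem_Qd_of_rk h.hs hq1 hq1ne hrk, q - π * q, sub_mem_Q0 h.hq hq1 qπq πqq, by abel, ?_, ?_, ?_⟩
  · rw [mul_sub, πqq]
    have : π * q * (π * q) = 0 := by rw [mul_assoc, qπq, mul_zero]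
    rw [this, sub_zero]
  · rw [sub_mul, qπq]
    have : π * q * (π * q) = 0 := by rw [mul_assoc, qπq, mul_zero]
    rw [this, sub_zero]
  · unfold rk
    apply Submodule.finrank_lt_finrank_of_lt
    have hle : LinearMap.range (q - π * q) ≤ LinearMap.range q := by
      rintro _ ⟨x, rfl⟩
      rw [← πq]
      exact ⟨x - π x, by rw [map_sub]; rfl⟩
    refine lt_of_le_of_ne hle ?_
    intro e
    apply hq1ne
    ext x
    have hx : q x ∈ LinearMap.range (q - π * q) := by rw [e]; exact ⟨x, rfl⟩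
    obtain ⟨w, hw⟩ := hx
    show π (q x) = 0
    rw [← hw]
    have : π * (q - π * q) = 0 := by rw [mul_sub, ← mul_assoc, hππ, sub_self]
    exact LinearMap.congr_fun this w

/-- dichotomy for arbitrary quadratic elements -/
theorem split_or (h2 : (2 : k) ≠ 0) (h3 : Nat.card k ≠ 3) (hirr : IsIrreducibleFor G) (hq : q ∈ Q0 G) :
    (∀ s ∈ Qd G, q * s = s * q) ∨
      ∃ q₁ ∈ Qd G, ∃ q₀ ∈ Q0 G, q = q₁ + q₀ ∧ q₁ * q₀ = 0 ∧ q₀ * q₁ = 0 ∧ rk q₀ < rk q := by
  by_cases h : ∃ s ∈ Qd G, ¬ IsNilpotent (s * q + q * s)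
  · right
    obtain ⟨s, hs, hn⟩ := h
    exact NQ.split ⟨h2, h3, hs, hq, hn⟩
  · left
    push Not at h
    intro s hs
    exact commute_of h2 h3 hirr hq (fun x hx => sqs_zero h2 hx hq (h x hx)) hs

theorem tv_mem_sigma (hs : s ∈ Qd G) : tv s ∈ (⨆ A ∈ quadraticRootSubgroups G, A : Subgroup (LinearMap.GeneralLinearGroup k M)) :=
  (le_iSup₂_of_le (EG s hs.1.1 G) (qrs_iff.2 ⟨s, hs, rfl⟩) le_rfl : EG s hs.1.1 G ≤ _) ⟨s, self_mem_ES hs.1, rfl⟩

theorem centralizes (hq : q ∈ Q0 G) (h : ∀ s ∈ Qd G, q * s = s * q) :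
    tv q ∈ Subgroup.centralizer ((⨆ A ∈ quadraticRootSubgroups G, A : Subgroup (LinearMap.GeneralLinearGroup k M)) : Set (LinearMap.GeneralLinearGroup k M)) := by
  have hle : (⨆ A ∈ quadraticRootSubgroups G, A : Subgroup (LinearMap.GeneralLinearGroup k M)) ≤ Subgroup.centralizer {tv q} := by
    refine iSup₂_le fun A hA => ?_
    obtain ⟨s, hs, rfl⟩ := qrs_iff.1 hA
    rintro _ ⟨s', hs', rfl⟩
    rw [Subgroup.mem_centralizer_singleton_iff]
    by_cases h0 : s' = 0
    · rw [h0, tv_zero]; simp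
    have e := h s' (ES_ne_zero hs hs' h0).1
    apply Units.ext
    rw [Units.val_mul, Units.val_mul, tv_val hs'.1.1, tv_val hq.1]
    simp only [mul_add, add_mul, mul_one, one_mul, e]
    abel
  rw [Subgroup.mem_centralizer_iff]
  intro g hg
  have := hle hg
  rwa [Subgroup.mem_centralizer_singleton_iff] at this

theorem mem_prod (h2 : (2 : k) ≠ 0) (h3 : Nat.card k ≠ 3) (hirr : IsIrreducibleFor G) : ∀ (n : ℕ) {q : End k M}, q ∈ Q0 G → rk q ≤ n →
    tv q ∈ (⨆ A ∈ quadraticRootSubgroups G, A) ⊔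
      (G ⊓ Subgroup.centralizer ((⨆ A ∈ quadraticRootSubgroups G, A : Subgroup (LinearMap.GeneralLinearGroup k M)) : Set (LinearMap.GeneralLinearGroup k M))) := by
  intro n
  induction n with
  | zero =>
    intro q hq hr
    have : q = 0 := rk_eq_zero.1 (Nat.le_zero.1 hr)
    rw [this, tv_zero]; exact one_mem _
  | succ n ih =>
    intro q hq hr
    rcases split_or h2 h3 hirr hq with h | ⟨q₁, h1, q₀, h0, e, m1, m2, hlt⟩
    · exact Subgroup.mem_sup_right ⟨tv_mem hq, centralizes hq h⟩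
    · rw [e, ← tv_mul h1.1.1 h0.1 m1 m2]
      exact mul_mem (Subgroup.mem_sup_left (tv_mem_sigma h1)) (ih h0 (by omega))

end CfsgLib.H14QF
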