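import Cfsg.Agent.LibH14QF2

/-! Quadratic pairs: components of `Σ` and quasisimplicity (seat helper14). -/

set_option autoImplicit false

namespace CfsgLib.H14QG

open Cfsg CfsgLib.H14R1 CfsgLib.H14RS CfsgLib.H14QP CfsgLib.H14KT CfsgLib.H14QR CfsgLib.H14QC CfsgLib.H14QD CfsgLib.H14QE
  CfsgLib.H14QF CfsgLib.H14Unip Module

/-! ### a criterion for quasisimplicity -/

theorem qs_of {X : Type*} [Group X] {K : Subgroup X} (hp : ⁅K, K⁆ = K) (hK : K ≠ ⊥)
    (h : ∀ N : Subgroup X, N ≤ K → (∀ g ∈ K, conjBy N g = N) → (∀ x ∈ N, ∀ y ∈ K, x * y = y * x) ∨ N = K) :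
    IsQuasisimple K := by
  have hperf : Group.IsPerfect K := Subgroup.isPerfect_iff.2 hp
  haveI : Nontrivial K := (Subgroup.nontrivial_iff_ne_bot K).2 hK
  have hnt : Nontrivial (K ⧸ Subgroup.center K) := by
    rw [QuotientGroup.nontrivial_iff]
    intro e
    apply Group.IsPerfect.not_isMulCommutative (G := K)
    refine ⟨⟨fun x y => ?_⟩⟩
    have hx : x ∈ Subgroup.center K := by rw [e]; trivial
    exact (Subgroup.mem_center_iff.1 hx y).symm
  refine ⟨hperf, ?_⟩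
  haveI := hnt
  refine ⟨fun N hN => ?_⟩
  set N₁ := N.comap (QuotientGroup.mk' (Subgroup.center K)) with hN₁
  haveI : N₁.Normal := hN.comap _
  set N₂ := N₁.map K.subtype with hN₂
  have h1 : N₂ ≤ K := by rintro _ ⟨x, -, rfl⟩; exact x.2
  have h2 : ∀ g ∈ K, conjBy N₂ g = N₂ := by
    intro g hg
    have e := map_cj K.subtype N₁ ⟨g, hg⟩
    have e2 : conjBy N₁ (⟨g, hg⟩ : K) = N₁ := cj_of_normal _
    rw [e2] at e
    exact e.symm
  rcases h N₂ h1 h2 with h3 | h3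
  · left
    rw [eq_bot_iff]
    intro x hx
    obtain ⟨y, rfl⟩ := QuotientGroup.mk_surjective x
    rw [Subgroup.mem_bot, QuotientGroup.eq_one_iff, Subgroup.mem_center_iff]
    intro z
    apply Subtype.ext
    exact (h3 y ⟨y, hx, rfl⟩ z z.2).symm
  · right
    rw [eq_top_iff]
    intro x _
    obtain ⟨y, rfl⟩ := QuotientGroup.mk_surjective x
    have : (y : X) ∈ N₂ := by rw [h3]; exact y.2
    obtain ⟨y', hy', e⟩ := this
    have : y' = y := Subtype.ext e
    rw [← this]; exact hy'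

/-! ### components -/

section comp
variable {k : Type*} [Field k] {M : Type*} [AddCommGroup M] [Module k M] [FiniteDimensional k M]
  {G : Subgroup (LinearMap.GeneralLinearGroup k M)} {s t : End k M}
  {A B C D : Subgroup (LinearMap.GeneralLinearGroup k M)} {g : LinearMap.GeneralLinearGroup k M}

/-- standing hypotheses -/
structure QP (G : Subgroup (LinearMap.GeneralLinearGroup k M)) : Prop where
  h2 : (2 : k) ≠ 0
  h3 : Nat.card k ≠ 3
  hirr : IsIrreducibleFor G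

/-- connectedness in the graph of rank one pairs -/
abbrev Rt (G : Subgroup (LinearMap.GeneralLinearGroup k M)) (A B : Subgroup (LinearMap.GeneralLinearGroup k M)) : Prop :=
  Relation.ReflTransGen (FAdj (quadraticRootSubgroups G)) A B

theorem rt_cj (hg : g ∈ G) (h : Rt G A B) : Rt G (conjBy A g) (conjBy B g) := by
  induction h with
  | refl => exact Relation.ReflTransGen.refl
  | tail _ h ih => exact ih.tail ⟨sigma_conj h.1 hg, sigma_conj h.2.1 hg, pair_cj h.2.2 g⟩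

/-- the component of `A` -/
def cmp (G : Subgroup (LinearMap.GeneralLinearGroup k M)) (A : Subgroup (LinearMap.GeneralLinearGroup k M)) :
    Set (Subgroup (LinearMap.GeneralLinearGroup k M)) := {B | B ∈ quadraticRootSubgroups G ∧ Rt G A B}

/-- the group generated by the component -/
def Kc (G : Subgroup (LinearMap.GeneralLinearGroup k M)) (A : Subgroup (LinearMap.GeneralLinearGroup k M)) :
    Subgroup (LinearMap.GeneralLinearGroup k M) := ⨆ B ∈ cmp G A, B

theorem self_mem_cmp (hA : A ∈ quadraticRootSubgroups G) : A ∈ cmp G A := ⟨hA, Relation.ReflTransGen.refl⟩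

theorem cmp_eq (h : Rt G A B) : cmp G A = cmp G B := by
  ext C
  exact ⟨fun hC => ⟨hC.1, (rtg_symm h).trans hC.2⟩, fun hC => ⟨hC.1, h.trans hC.2⟩⟩

theorem le_Kc (h : B ∈ cmp G A) : B ≤ Kc G A := le_iSup₂_of_le B h le_rfl

theorem Kc_le : Kc G A ≤ G := iSup₂_le fun _ h => sigma_le h.1

theorem cmp_cj (hg : g ∈ G) (hB : B ∈ cmp G A) : conjBy B g ∈ cmp G (conjBy A g) :=
  ⟨sigma_conj hB.1 hg, rt_cj hg hB.2⟩

theorem cmp_cj_mem1 (hB : B ∈ cmp G A) (hD : D ∈ cmp G A) (hg : g ∈ D) : conjBy B g ∈ cmp G A := by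
  have hgG : g ∈ G := sigma_le hD.1 hg
  refine ⟨sigma_conj hB.1 hgG, ?_⟩
  have h1 : Rt G D B := (rtg_symm hD.2).trans hB.2
  have h2 := rt_cj hgG h1
  rw [cj_of_mem hg] at h2
  exact hD.2.trans h2

theorem cmp_cj_mem (hB : B ∈ cmp G A) (hg : g ∈ Kc G A) : conjBy B g ∈ cmp G A := by
  let N : Subgroup (LinearMap.GeneralLinearGroup k M) :=
    { carrier := {g | ∀ B, conjBy B g ∈ cmp G A ↔ B ∈ cmp G A}
      one_mem' := fun B => by rw [cj_one]
      mul_mem' := by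
        intro a b ha hb B
        rw [← cj_cj, ha, hb]
      inv_mem' := by
        intro a ha B
        have := ha (conjBy B a⁻¹)
        rw [cj_cj, mul_inv_cancel, cj_one] at this
        exact this.symm }
  have hle : Kc G A ≤ N := by
    refine iSup₂_le fun D hD d hd B => ⟨fun h => ?_, fun h => cmp_cj_mem1 h hD hd⟩
    have := cmp_cj_mem1 h hD (inv_mem hd)
    rwa [cj_cj, inv_mul_cancel, cj_one] at this
  exact (hle hg B).2 hB

theorem cmp_conj (hB : B ∈ cmp G A) (hC : C ∈ cmp G A) : ∃ x ∈ Kc G A, C = conjBy B x := by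
  have h : Rt G B C := (rtg_symm hB.2).trans hC.2
  have key : ∀ C, Rt G B C → C ∈ cmp G A ∧ ∃ x ∈ Kc G A, C = conjBy B x := by
    intro C h
    induction h with
    | refl => exact ⟨hB, 1, one_mem _, (cj_one _).symm⟩
    | @tail D E h1 h ih =>
      obtain ⟨hD, x, hx, e⟩ := ih
      obtain ⟨y, hy, e'⟩ := exists_swap h.2.2
      have hE : E ∈ cmp G A := ⟨h.2.1, hD.2.tail h⟩
      refine ⟨hE, y * x, mul_mem ?_ hx, by rw [e', e, cj_cj]⟩
      exact (sup_le (le_Kc hD) (le_Kc hE) : D ⊔ E ≤ _) hy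
  exact (key C h).2

theorem cmp_path (hQ : QP G) (hA : A ∈ quadraticRootSubgroups G) (hB : B ∈ quadraticRootSubgroups G)
    (hc : RootCommutatorCase (quadraticRootSubgroups G) A B) : Rt G A B ∧ Rt G A ⁅A, B⁆ :=
  (sigma_rsf hQ.h2 hQ.h3 hQ.hirr).path (fun _ h => sigma_partner hQ.h2 hQ.h3 hQ.hirr h) hA hB hc

theorem comm_of_not_rt (hQ : QP G) (hA : A ∈ quadraticRootSubgroups G) (hB : B ∈ quadraticRootSubgroups G)
    (h : ¬ Rt G A B) : ∀ x ∈ A, ∀ y ∈ B, x * y = y * x := by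
  rcases sigma_pair hQ.h2 hQ.h3 hQ.hirr hA hB with h1 | h1 | h1
  · exact comm_iff.1 h1
  · exact absurd (Relation.ReflTransGen.single ⟨hA, hB, h1⟩) h
  · exact absurd (cmp_path hQ hA hB h1).1 h

theorem comm_Kc (hQ : QP G) (hA : A ∈ quadraticRootSubgroups G) (h : ¬ Rt G A B) :
    ∀ x ∈ Kc G A, ∀ y ∈ Kc G B, x * y = y * x := by
  have h1 : ∀ C ∈ cmp G A, ∀ D ∈ cmp G B, ∀ x ∈ C, ∀ y ∈ D, x * y = y * x := by
    intro C hC D hD
    apply comm_of_not_rt hQ hC.1 hD.1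
    intro h'
    exact h ((hC.2.trans h').trans (rtg_symm hD.2))
  have h2 : ∀ C ∈ cmp G A, Kc G B ≤ Subgroup.centralizer (C : Set (LinearMap.GeneralLinearGroup k M)) := by
    intro C hC
    refine iSup₂_le fun D hD y hy => ?_
    rw [Subgroup.mem_centralizer_iff]
    intro x hx
    exact h1 C hC D hD x hx y hy
  have h3 : Kc G A ≤ Subgroup.centralizer (Kc G B : Set (LinearMap.GeneralLinearGroup k M)) := by
    refine iSup₂_le fun C hC x hx => ?_
    rw [Subgroup.mem_centralizer_iff]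
    intro y hy
    exact (Subgroup.mem_centralizer_iff.1 (h2 C hC hy) x hx).symm
  intro x hx y hy
  exact (Subgroup.mem_centralizer_iff.1 (h3 hx) y hy).symm

theorem cmp_pair (hQ : QP G) (hB : B ∈ cmp G A) (hC : C ∈ cmp G A) :
    ⁅B, C⁆ = ⊥ ∨ IsRankOnePair B C ∨ RootCommutatorCase (cmp G A) B C := by
  rcases sigma_pair hQ.h2 hQ.h3 hQ.hirr hB.1 hC.1 with h1 | h1 | h1
  · exact Or.inl h1
  · exact Or.inr (Or.inl h1)
  · right; right
    refine ⟨⟨h1.1, hB.2.trans (cmp_path hQ hB.1 hC.1 h1).2⟩, h1.2⟩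

theorem cmp_rsf (hQ : QP G) : RSF (cmp G A) where
  commutative := fun B hB => (sigma_rsf hQ.h2 hQ.h3 hQ.hirr).commutative B hB.1
  ne_bot := fun B hB => (sigma_rsf hQ.h2 hQ.h3 hQ.hirr).ne_bot B hB.1
  conj_mem := fun _ hB _ hg => cmp_cj_mem hB hg
  pair := fun _ hB _ hC => cmp_pair hQ hB hC

theorem cmp_class (hQ : QP G) (hA : A ∈ quadraticRootSubgroups G) :
    IsRootSubgroupClass ((fun B : Subgroup (LinearMap.GeneralLinearGroup k M) => B.subgroupOf (⨆ C ∈ cmp G A, C)) '' cmp G A) := by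
  refine ⟨(cmp_rsf hQ).set, ⟨_, ⟨A, self_mem_cmp hA, rfl⟩⟩, ?_⟩
  rintro _ ⟨B, hB, rfl⟩ _ ⟨C, hC, rfl⟩
  obtain ⟨x, hx, e⟩ := cmp_conj hB hC
  refine ⟨⟨x, hx⟩, ?_⟩
  simp only
  rw [cj_subgroupOf (CfsgLib.H14QE.le_sup hB), ← e]

/-! ### finiteness -/

theorem opp_of_pair (hQ : QP G) (hs : s ∈ Qd G) : ∃ t ∈ Qd G, Opp s t ∧ NN G s t := by
  obtain ⟨t, ht, o⟩ := exists_opp hQ.h2 hQ.h3 hQ.hirr hs
  exact ⟨t, ht, o, nn_of_opp hQ.h2 hQ.h3 hs ht o⟩

end comp

end CfsgLib.H14QG
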