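import Cfsg.Agent.LibH14QG

/-! Quadratic pairs: finiteness of the set of components, quasisimplicity (seat helper14). -/

set_option autoImplicit false

namespace CfsgLib.H14QG

open Cfsg CfsgLib.H14R1 CfsgLib.H14RS CfsgLib.H14QP CfsgLib.H14KT CfsgLib.H14QR CfsgLib.H14QC CfsgLib.H14QD CfsgLib.H14QE
  CfsgLib.H14QF CfsgLib.H14Unip Module

variable {k : Type*} [Field k] {M : Type*} [AddCommGroup M] [Module k M] [FiniteDimensional k M]
  {G : Subgroup (LinearMap.GeneralLinearGroup k M)} {s t : End k M}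
  {A B C D : Subgroup (LinearMap.GeneralLinearGroup k M)} {g : LinearMap.GeneralLinearGroup k M}

/-- the set of components -/
def comps (G : Subgroup (LinearMap.GeneralLinearGroup k M)) : Set (Set (Subgroup (LinearMap.GeneralLinearGroup k M))) :=
  {C | ∃ A ∈ quadraticRootSubgroups G, C = cmp G A}

theorem tv_comm_iff {x y : End k M} (hx : x * x = 0) (hy : y * y = 0) (h : tv x * tv y = tv y * tv x) : x * y = y * x := by
  have h1 := congrArg Units.val h
  rw [Units.val_mul, Units.val_mul, tv_val hx, tv_val hy] at h1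
  have e1 : (1 + x) * (1 + y) = x * y + (1 + x + y) := by noncomm_ring
  have e2 : (1 + y) * (1 + x) = y * x + (1 + x + y) := by noncomm_ring
  rw [e1, e2] at h1
  exact add_right_cancel h1

theorem finite_comps (hQ : QP G) : (comps G).Finite := by
  classical
  have hex : ∀ C : comps G, ∃ s t : End k M, ∃ (hs : s ∈ Qd G) (ht : t ∈ Qd G), Opp s t ∧
      (C : Set (Subgroup (LinearMap.GeneralLinearGroup k M))) = cmp G (EG s hs.1.1 G) ∧
      (C : Set (Subgroup (LinearMap.GeneralLinearGroup k M))) = cmp G (EG t ht.1.1 G) := by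
    rintro ⟨C, A, hA, rfl⟩
    obtain ⟨s, hs, rfl⟩ := qrs_iff.1 hA
    obtain ⟨t, ht, o, hn⟩ := opp_of_pair hQ hs
    refine ⟨s, t, hs, ht, o, rfl, ?_⟩
    exact cmp_eq (Relation.ReflTransGen.single ⟨hA, qrs_iff.2 ⟨t, ht, rfl⟩, nn_pair hn⟩)
  choose s t hs ht ho e1 e2 using hex
  have hcomm : ∀ C D : comps G, C ≠ D → s C * s D = s D * s C ∧ t C * s D = s D * t C := by
    intro C D hne
    have hns : ¬ Rt G (EG (s C) (hs C).1.1 G) (EG (s D) (hs D).1.1 G) := by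
      intro h
      apply hne
      apply Subtype.ext
      rw [e1 C, e1 D, cmp_eq h]
    have hnt : ¬ Rt G (EG (t C) (ht C).1.1 G) (EG (s D) (hs D).1.1 G) := by
      intro h
      apply hne
      apply Subtype.ext
      rw [e2 C, e1 D, cmp_eq h]
    refine ⟨tv_comm_iff (hs C).1.1 (hs D).1.1 ?_, tv_comm_iff (ht C).1.1 (hs D).1.1 ?_⟩
    · exact comm_of_not_rt hQ (qrs_iff.2 ⟨_, hs C, rfl⟩) (qrs_iff.2 ⟨_, hs D, rfl⟩) hns _ ⟨_, self_mem_ES (hs C).1, rfl⟩ _
        ⟨_, self_mem_ES (hs D).1, rfl⟩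
    · exact comm_of_not_rt hQ (qrs_iff.2 ⟨_, ht C, rfl⟩) (qrs_iff.2 ⟨_, hs D, rfl⟩) hnt _ ⟨_, self_mem_ES (ht C).1, rfl⟩ _
        ⟨_, self_mem_ES (hs D).1, rfl⟩
  have hli : LinearIndependent k s := by
    rw [linearIndependent_iff']
    intro S c hS j hj
    have h1 : t j * (∑ i ∈ S, c i • s i) - (∑ i ∈ S, c i • s i) * t j = 0 := by rw [hS]; simp
    rw [Finset.mul_sum, Finset.sum_mul, ← Finset.sum_sub_distrib, Finset.sum_eq_single j] at h1
    · rw [mul_smul_comm, smul_mul_assoc, ← smul_sub] at h1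
      rcases smul_eq_zero.1 h1 with h4 | h4
      · exact h4
      · exfalso
        rw [sub_eq_zero] at h4
        apply (hs j).2.1
        rw [← (ho j).sts, ← h4, mul_assoc, (ho j).s2, mul_zero]
    · intro i _ hne
      rw [mul_smul_comm, smul_mul_assoc, ← smul_sub, (hcomm j i hne.symm).2, sub_self, smul_zero]
    · intro h; exact absurd hj h
  have := hli.finite_of_isNoetherian
  exact Set.toFinite _

/-! ### perfectness -/

theorem cj_torus (o : Opp s t) {c : k} (hc : c ≠ 0) (x : k) :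
    cjE (hh s t (c • s) (c⁻¹ • t)) (x • s) = (c * c * x) • s := by
  have sm := sm_smul o hc
  unfold cjE
  rw [sm.hh_inv, sm.hh_val]
  have e1 : (1 - pi s t + c • s * t + c⁻¹ • t * s) * (x • s) = (c * x) • s := by
    have h1 : (1 - pi s t + c • s * t + c⁻¹ • t * s) * s = c • s := by
      have : (1 - pi s t + c • s * t + c⁻¹ • t * s) * s = (s - pi s t * s) + c • (s * t * s) + c⁻¹ • (t * (s * s)) := by
        simp only [sub_mul, add_mul, one_mul, smul_mul_assoc, mul_assoc]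
      rw [this, o.pi_s, o.sts, o.s2]; simp
    rw [mul_smul_comm, h1, smul_smul, mul_comm]
  rw [e1]
  have h1 : s * (1 - pi s t + s * c⁻¹ • t + t * c • s) = c • s := by
    have : s * (1 - pi s t + s * c⁻¹ • t + t * c • s) = (s - s * pi s t) + c⁻¹ • (s * s * t) + c • (s * t * s) := by
      simp only [mul_sub, mul_add, mul_one, mul_smul_comm, mul_assoc]
    rw [this, o.s_pi, o.sts, o.s2]; simp
  rw [smul_mul_assoc, h1, smul_smul]
  congr 1; ring

theorem le_commutator (h : NN G s t) {X : Subgroup (LinearMap.GeneralLinearGroup k M)} (hs : EG s h.hs2 G ≤ X)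
    (ht : EG t h.ht2 G ≤ X) : EG s h.hs2 G ≤ ⁅X, X⁆ := by
  rintro _ ⟨s', hs', rfl⟩
  by_cases h0 : s' = 0
  · rw [h0, tv_zero]; exact one_mem _
  have hn := nn_all h hs' h0 (self_mem_ES h.ht.1) h.ht.2.1
  obtain ⟨t', ht', ht0, o⟩ := nn_opp hn
  have ht'' : t' ∈ ES G t h.ht2 := ht'
  obtain ⟨c, hc, hcc⟩ := exists_u h.h2 h.h3
  have hc1 : c * c - 1 ≠ 0 := sub_ne_zero.2 hcc
  set y := (c * c - 1)⁻¹ • s' with hy
  have mem_s : ∀ x : k, tv (x • s') ∈ X := fun x => hs ⟨_, Submodule.smul_mem _ x hs', rfl⟩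
  have mem_t : ∀ x : k, tv (x • t') ∈ X := fun x => ht ⟨_, Submodule.smul_mem _ x ht'', rfl⟩
  have wmem : ∀ a b : k, ww (a • s') (b • t') ∈ X := fun a b =>
    mul_mem (mul_mem (mem_s a) (inv_mem (mem_t b))) (mem_s a)
  have wmem' : ∀ a b : k, ww (a • t') (b • s') ∈ X := fun a b =>
    mul_mem (mul_mem (mem_t a) (inv_mem (mem_s b))) (mem_t a)
  have hmem : hh s' t' (c • s') (c⁻¹ • t') ∈ X := by
    have e := wmem' 1 1
    rw [one_smul, one_smul] at e
    exact mul_mem (wmem c c⁻¹) e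
  have hys : y * y = 0 := sqs o.s2 _
  have h1 := tv_cj (g := hh s' t' (c • s') (c⁻¹ • t')) hys
  have h4 := cj_torus o hc (c * c - 1)⁻¹
  rw [← hy] at h4
  rw [h4] at h1
  have h5 : hh s' t' (c • s') (c⁻¹ • t') * tv y * (hh s' t' (c • s') (c⁻¹ • t'))⁻¹ * (tv y)⁻¹ = tv s' := by
    rw [h1, tv_inv hys, tv_mul (sqs o.s2 _) (by rw [neg_mul_neg, hys]) (by simp [hy, o.s2]) (by simp [hy, o.s2])]
    congr 1
    rw [hy, ← neg_smul, ← add_smul]
    have : c * c * (c * c - 1)⁻¹ + -(c * c - 1)⁻¹ = (c * c - 1) * (c * c - 1)⁻¹ := by ring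
    rw [this, mul_inv_cancel₀ hc1, one_smul]
  rw [← h5]
  exact Subgroup.commutator_mem_commutator hmem (mem_s _)

theorem exists_nn (hQ : QP G) (hA : A ∈ quadraticRootSubgroups G) : ∃ s t, ∃ (h : NN G s t), A = EG s h.hs2 G ∧
    EG t h.ht2 G ∈ cmp G A := by
  obtain ⟨s, hs, rfl⟩ := qrs_iff.1 hA
  obtain ⟨t, ht, o, hn⟩ := opp_of_pair hQ hs
  have hB : EG t ht.1.1 G ∈ quadraticRootSubgroups G := qrs_iff.2 ⟨t, ht, rfl⟩
  exact ⟨s, t, hn, rfl, hB, Relation.ReflTransGen.single ⟨hA, hB, nn_pair hn⟩⟩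

theorem Kc_perfect (hQ : QP G) : ⁅Kc G A, Kc G A⁆ = Kc G A := by
  apply le_antisymm
  · rw [Subgroup.commutator_le]
    intro x hx y hy
    exact mul_mem (mul_mem (mul_mem hx hy) (inv_mem hx)) (inv_mem hy)
  · refine iSup₂_le fun B hB => ?_
    obtain ⟨s, t, h, e, hB'⟩ := exists_nn hQ hB.1
    have h1 : EG s h.hs2 G ≤ Kc G A := by rw [← e]; exact le_Kc hB
    have h2 : EG t h.ht2 G ≤ Kc G A := le_Kc ⟨hB'.1, hB.2.trans hB'.2⟩
    rw [e]
    exact le_commutator h h1 h2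

/-! ### normal subgroups of a component group -/

section simple
variable {N : Subgroup (LinearMap.GeneralLinearGroup k M)} {n : LinearMap.GeneralLinearGroup k M}
open scoped commutatorElement

theorem norm_mem (hnorm : ∀ g ∈ Kc G A, conjBy N g = N) (hg : g ∈ Kc G A) (hn : n ∈ N) : g * n * g⁻¹ ∈ N := by
  have := cj_mem (g := g) hn
  rwa [hnorm g hg] at this

theorem simple_i (hQ : QP G) (hN : N ≤ Kc G A) (hnorm : ∀ g ∈ Kc G A, conjBy N g = N) (hB : B ∈ cmp G A)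
    (hn : n ∈ N) (hp : IsRankOnePair B (conjBy B n)) : N = Kc G A := by
  obtain ⟨s, hs, rfl⟩ := qrs_iff.1 hB.1
  have hnG : n ∈ G := Kc_le (hN hn)
  have hp' : IsRankOnePair (EG s hs.1.1 G) (EG (cjE n s) (cj_mem_Qd hs hnG).1.1 G) := by
    rw [EG_conj hnG] at hp; exact hp
  have hnn := nn_of_pair hQ.h2 hQ.h3 hQ.hirr hs (cj_mem_Qd hs hnG) hp'
  have hBle := le_commutator hnn (X := EG s hs.1.1 G ⊔ EG (cjE n s) (cj_mem_Qd hs hnG).1.1 G) le_sup_left le_sup_right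
  -- the commutator is inside N
  have hX : EG s hs.1.1 G ⊔ EG (cjE n s) (cj_mem_Qd hs hnG).1.1 G ≤ Subgroup.closure ((EG s hs.1.1 G : Set (LinearMap.GeneralLinearGroup k M)) ∪ N) := by
    apply sup_le
    · intro x hx; exact Subgroup.subset_closure (Or.inl hx)
    · intro x hx
      have hx' : x ∈ conjBy (EG s hs.1.1 G) n := by rw [EG_conj hnG]; exact hx
      rw [mem_cj] at hx'
      have m1 : n ∈ Subgroup.closure ((EG s hs.1.1 G : Set (LinearMap.GeneralLinearGroup k M)) ∪ N) :=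
        Subgroup.subset_closure (Or.inr hn)
      have m2 : n⁻¹ * x * n ∈ Subgroup.closure ((EG s hs.1.1 G : Set (LinearMap.GeneralLinearGroup k M)) ∪ N) :=
        Subgroup.subset_closure (Or.inl hx')
      have := mul_mem (mul_mem m1 m2) (inv_mem m1)
      have e : n * (n⁻¹ * x * n) * n⁻¹ = x := by group
      rwa [e] at this
  have hleK := le_Kc hB
  have hnr : ∀ x ∈ ((EG s hs.1.1 G : Set (LinearMap.GeneralLinearGroup k M)) ∪ N), conjBy N x = N := by
    rintro x (hx | hx)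
    · exact hnorm x (hleK hx)
    · exact cj_of_mem hx
  have hc : ⁅Subgroup.closure ((EG s hs.1.1 G : Set (LinearMap.GeneralLinearGroup k M)) ∪ N),
      Subgroup.closure ((EG s hs.1.1 G : Set (LinearMap.GeneralLinearGroup k M)) ∪ N)⁆ ≤ N := by
    apply comm_le_gen hnr hnr
    rintro x (hx | hx) y (hy | hy)
    · rw [commutatorElement_eq_one_iff_mul_comm.2 (el_comm EG_comm x hx y hy)]; exact one_mem _
    · rw [commutatorElement_def]
      exact mul_mem (norm_mem hnorm (hleK hx) hy) (inv_mem hy)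
    · rw [commutatorElement_def]
      have : x * y * x⁻¹ * y⁻¹ = x * (y * x⁻¹ * y⁻¹) := by group
      rw [this]
      exact mul_mem hx (norm_mem hnorm (hleK hy) (inv_mem hx))
    · exact mul_mem (mul_mem (mul_mem hx hy) (inv_mem hx)) (inv_mem hy)
  have hBN : EG s hs.1.1 G ≤ N := hBle.trans ((Subgroup.commutator_mono hX hX).trans hc)
  apply le_antisymm hN
  refine iSup₂_le fun C hC => ?_
  obtain ⟨x, hx, e⟩ := cmp_conj hB hC
  rw [e, ← hnorm x hx]
  exact cj_le.2 hBN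

/-- (α) -/
theorem simple_a (hQ : QP G) (hN : N ≤ Kc G A) (hnorm : ∀ g ∈ Kc G A, conjBy N g = N)
    (h : ∀ B ∈ cmp G A, ∀ n ∈ N, ¬ IsRankOnePair B (conjBy B n)) (hB : B ∈ cmp G A) (hC : C ∈ cmp G A)
    (hBC : ∀ b ∈ B, ∀ c ∈ C, b * c = c * b) (hn : n ∈ N) : ∀ b ∈ B, ∀ c ∈ conjBy C n, b * c = c * b := by
  have hD : conjBy C n ∈ cmp G A := cmp_cj_mem hC (hN hn)
  have mm : ∀ c ∈ C, n * c * n⁻¹ * c⁻¹ ∈ N := by
    intro c hc
    have : n * c * n⁻¹ * c⁻¹ = n * (c * n⁻¹ * c⁻¹) := by group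
    rw [this]
    exact mul_mem hn (norm_mem hnorm (le_Kc hC hc) (inv_mem hn))
  rcases cmp_pair hQ hB hD with h1 | h1 | h1
  · exact comm_iff.1 h1
  · exfalso
    obtain ⟨d, hd, hd1⟩ := exists_ne_one ((cmp_rsf hQ).ne_bot _ hD)
    have h4 := (sup_cj (pair_symm h1) hd hd1).1
    have hc := mem_cj.1 hd
    have e : conjBy B d = conjBy B (n * (n⁻¹ * d * n) * n⁻¹ * (n⁻¹ * d * n)⁻¹) := by
      have h5 : conjBy B (n⁻¹ * d * n) = B := cj_of_comm fun b hb => (hBC b hb _ hc).symm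
      conv_rhs => rw [← h5]
      rw [cj_cj]
      congr 1; group
    rw [e] at h4
    exact h B hB _ (mm _ hc) h4
  · exfalso
    have hle : ⁅B, conjBy C n⁆ ≤ N := by
      rw [Subgroup.commutator_le]
      intro b hb d hd
      have hc := mem_cj.1 hd
      set c := n⁻¹ * d * n with hcdef
      have hm := mm c hc
      set m := n * c * n⁻¹ * c⁻¹ with hmdef
      have ed : d = m * c := by rw [hmdef, hcdef]; group
      have e : ⁅b, d⁆ = (b * m * b⁻¹) * m⁻¹ := by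
        rw [commutatorElement_def, ed]
        have h5 : c * b⁻¹ = b⁻¹ * c := by
          have := hBC b hb c hc
          rw [eq_inv_mul_iff_mul_eq, ← mul_assoc, this, mul_inv_cancel_right]
        calc b * (m * c) * b⁻¹ * (m * c)⁻¹ = b * m * (c * b⁻¹) * c⁻¹ * m⁻¹ := by group
          _ = b * m * (b⁻¹ * c) * c⁻¹ * m⁻¹ := by rw [h5]
          _ = _ := by group
      rw [e]
      exact mul_mem (norm_mem hnorm (le_Kc hB hb) hm) (inv_mem hm)
    obtain ⟨E, hE, hp⟩ := sigma_partner hQ.h2 hQ.h3 hQ.hirr h1.1.1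
    have hEc : E ∈ cmp G A := ⟨hE, h1.1.2.tail ⟨h1.1.1, hE, hp⟩⟩
    obtain ⟨x, hx, e⟩ := exists_swap hp
    have hxK : x ∈ Kc G A := (sup_le (le_Kc h1.1) (le_Kc hEc) : _ ≤ Kc G A) hx
    have hEN : E ≤ N := by
      rw [e, ← hnorm x hxK]; exact cj_le.2 hle
    have hxN : x ∈ N := (sup_le hle hEN) hx
    rw [e] at hp
    exact h _ h1.1 x hxN hp

/-- (β) -/
theorem simple_b (hQ : QP G) (hN : N ≤ Kc G A) (hnorm : ∀ g ∈ Kc G A, conjBy N g = N)
    (h : ∀ B ∈ cmp G A, ∀ n ∈ N, ¬ IsRankOnePair B (conjBy B n)) (hB : B ∈ cmp G A) {m : LinearMap.GeneralLinearGroup k M}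
    (hn : n ∈ N) (hm : m ∈ N) : ∀ b ∈ conjBy B n, ∀ c ∈ conjBy B m, b * c = c * b := by
  have h1 := simple_a hQ hN hnorm h hB hB (el_comm ((cmp_rsf hQ).commutative B hB)) hn
  exact simple_a hQ hN hnorm h (cmp_cj_mem hB (hN hn)) hB (el_comm_symm h1) hm

theorem unip_of_comm (hQ : QP G) (hB : B ∈ quadraticRootSubgroups G) (hC : C ∈ quadraticRootSubgroups G)
    (hBC : ∀ b ∈ B, ∀ c ∈ C, b * c = c * b) : IsUnipotentOn (B ⊔ C) := by
  obtain ⟨s, hs, rfl⟩ := qrs_iff.1 hB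
  obtain ⟨t, ht, rfl⟩ := qrs_iff.1 hC
  have e := tv_comm_iff hs.1.1 ht.1.1 (hBC _ ⟨s, self_mem_ES hs.1, rfl⟩ _ ⟨t, self_mem_ES ht.1, rfl⟩)
  apply nil_unip hQ.h2 hQ.h3 hs ht
  refine ⟨2, ?_⟩
  rw [pow_two, ← e]
  have : (s * t + s * t) * (s * t + s * t) = s * (t * s) * t + s * (t * s) * t + s * (t * s) * t + s * (t * s) * t := by
    noncomm_ring
  rw [this, ← e, ← mul_assoc, hs.1.1]; simp

/-- (γ) -/
theorem simple_c (hQ : QP G) (hN : N ≤ Kc G A) (hnorm : ∀ g ∈ Kc G A, conjBy N g = N)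
    (h : ∀ B ∈ cmp G A, ∀ n ∈ N, ¬ IsRankOnePair B (conjBy B n)) (hB : B ∈ cmp G A) : IsUnipotentOn ⁅B, N⁆ := by
  have hU : IsUnipotentOn (⨆ C ∈ {C | ∃ n ∈ N, C = conjBy B n}, C) := by
    apply baer_suzuki
    · rintro _ ⟨n, hn, rfl⟩ _ ⟨m, hm, rfl⟩
      exact unip_of_comm hQ (sigma_conj hB.1 (Kc_le (hN hn))) (sigma_conj hB.1 (Kc_le (hN hm)))
        (simple_b hQ hN hnorm h hB hn hm)
    · rintro _ ⟨n, hn, rfl⟩ _ ⟨m, hm, rfl⟩ g hg
      refine ⟨n, hn, ?_⟩
      exact cj_of_comm fun b hb => simple_b hQ hN hnorm h hB hm hn g hg b hb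
  apply unip_mono ?_ hU
  rw [Subgroup.commutator_le]
  intro b hb n hn
  have m1 : b ∈ (⨆ C ∈ {C | ∃ n ∈ N, C = conjBy B n}, C) :=
    (le_iSup₂_of_le B ⟨1, one_mem _, (cj_one B).symm⟩ le_rfl : B ≤ _) hb
  have m2 : n * b⁻¹ * n⁻¹ ∈ (⨆ C ∈ {C | ∃ n ∈ N, C = conjBy B n}, C) :=
    (le_iSup₂_of_le (conjBy B n) ⟨n, hn, rfl⟩ le_rfl : conjBy B n ≤ _) (cj_mem (inv_mem hb))
  rw [commutatorElement_def]
  have : b * n * b⁻¹ * n⁻¹ = b * (n * b⁻¹ * n⁻¹) := by group
  rw [this]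
  exact mul_mem m1 m2

omit [FiniteDimensional k M] in
theorem comm_norm (hn : n ∈ N) : conjBy ⁅B, N⁆ n = ⁅B, N⁆ := by
  have key : ∀ n ∈ N, conjBy ⁅B, N⁆ n ≤ ⁅B, N⁆ := by
    intro n hn
    unfold conjBy
    rw [Subgroup.map_le_iff_le_comap, Subgroup.commutator_le]
    intro b hb m hm
    show n * ⁅b, m⁆ * n⁻¹ ∈ ⁅B, N⁆
    have e : n * ⁅b, m⁆ * n⁻¹ = ⁅b, n⁆⁻¹ * ⁅b, n * m⁆ := by simp only [commutatorElement_def]; group
    rw [e]
    exact mul_mem (inv_mem (Subgroup.commutator_mem_commutator hb hn))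
      (Subgroup.commutator_mem_commutator hb (mul_mem hn hm))
  exact cj_eq_of_le key n hn

theorem unip_trivial (hQ : QP G) (hU : IsUnipotentOn N) (hnorm : ∀ g ∈ G, N ≤ conjBy N g) : N = ⊥ := by
  obtain ⟨⟨m₀, hm₀⟩, hir⟩ := hQ.hirr
  rcases hir (fl N 1) (by
    intro g hg w hw n hn
    have h5 : g⁻¹ * n * g ∈ N := by
      have := hnorm g hg hn
      exact mem_cj.1 this
    have h6 : ap (g⁻¹ * n * g) w - w = 0 := hw _ h5
    show ap n (ap g w) - ap g w ∈ (⊥ : Submodule k M)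
    have : ap n (ap g w) - ap g w = ap g (ap (g⁻¹ * n * g) w - w) := by
      rw [ap_sub, ap_mul, ap_mul, ap_inv']
    rw [this, h6]
    show (g : M →ₗ[k] M) 0 ∈ _
    rw [map_zero]; exact zero_mem _) with h | h
  · obtain ⟨m, -, hm, hm2⟩ := exists_rel_fixed hU (N := ⊥) (F := ⊤) (fun _ _ _ _ => trivial) (by
      intro hle
      exact hm₀ (hle (show m₀ ∈ ⊤ from trivial)))
    have : m ∈ fl N 1 := hm2
    rw [h] at this
    exact absurd this hm
  · rw [eq_bot_iff]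
    intro n hn
    rw [Subgroup.mem_bot]
    apply Units.ext
    ext x
    have : x ∈ fl N 1 := by rw [h]; trivial
    have h5 : ap n x - x = 0 := this _ hn
    exact sub_eq_zero.1 h5

theorem simple_ii (hQ : QP G) (hA : A ∈ quadraticRootSubgroups G) (hN : N ≤ Kc G A) (hnorm : ∀ g ∈ Kc G A, conjBy N g = N)
    (h : ∀ B ∈ cmp G A, ∀ n ∈ N, ¬ IsRankOnePair B (conjBy B n)) : ∀ x ∈ N, ∀ y ∈ Kc G A, x * y = y * x := by
  set W : Set (Subgroup (LinearMap.GeneralLinearGroup k M)) := {V | ∃ B ∈ cmp G A, V = ⁅B, N⁆} with hW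
  set R := ⨆ V ∈ W, V with hR
  have hVN : ∀ B ∈ cmp G A, ⁅B, N⁆ ≤ N := by
    intro B hB
    rw [Subgroup.commutator_le]
    intro b hb n hn
    rw [commutatorElement_def]
    exact mul_mem (norm_mem hnorm (le_Kc hB hb) hn) (inv_mem hn)
  have hRU : IsUnipotentOn R := by
    apply baer_suzuki
    · rintro _ ⟨B, hB, rfl⟩ _ ⟨C, hC, rfl⟩
      exact unip_sup (simple_c hQ hN hnorm h hB) (simple_c hQ hN hnorm h hC)
        (fun u hu => comm_norm (hVN C hC hu))
    · rintro _ ⟨B, hB, rfl⟩ _ ⟨C, hC, rfl⟩ g hg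
      rw [comm_norm (hVN C hC hg)]; exact ⟨B, hB, rfl⟩
  have hRK : R ≤ Kc G A := iSup₂_le fun V hV => by
    obtain ⟨B, hB, rfl⟩ := hV
    exact (hVN B hB).trans hN
  have hRn : ∀ g ∈ Kc G A, conjBy R g = R := by
    apply cj_eq_of_le
    intro g hg
    unfold conjBy
    rw [Subgroup.map_le_iff_le_comap]
    refine iSup₂_le fun V hV => ?_
    obtain ⟨B, hB, rfl⟩ := hV
    rw [← Subgroup.map_le_iff_le_comap]
    have e : (⁅B, N⁆).map (MulAut.conj g).toMonoidHom = ⁅conjBy B g, N⁆ := by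
      have := cj_commutator B N g
      rw [hnorm g hg] at this
      exact this
    rw [e]
    exact le_iSup₂_of_le _ ⟨_, cmp_cj_mem hB hg, rfl⟩ le_rfl
  -- all conjugates
  have hRx : ∀ x ∈ G, IsUnipotentOn (R ⊔ conjBy R x) := by
    intro x hx
    apply unip_sup hRU (unip_conj x hRU)
    intro y hy
    have hyK : y ∈ Kc G (conjBy A x) := by
      have h1 : conjBy R x ≤ Kc G (conjBy A x) := by
        have h4 := (cj_le (g := x)).2 hRK
        refine h4.trans ?_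
        unfold Kc conjBy
        rw [Subgroup.map_le_iff_le_comap]
        refine iSup₂_le fun D hD => ?_
        rw [← Subgroup.map_le_iff_le_comap]
        exact le_iSup₂_of_le (conjBy D x) (cmp_cj hx hD) le_rfl
      exact h1 hy
    by_cases hr : Rt G A (conjBy A x)
    · apply hRn
      unfold Kc at hyK ⊢
      rw [cmp_eq hr]; exact hyK
    · exact cj_of_comm fun r hr' => (comm_Kc hQ hA hr r (hRK hr') y hyK).symm
  have hU2 : IsUnipotentOn (⨆ V ∈ {V | ∃ g ∈ G, V = conjBy R g}, V) := by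
    apply baer_suzuki
    · rintro _ ⟨g, hg, rfl⟩ _ ⟨g', hg', rfl⟩
      have e : conjBy R g ⊔ conjBy R g' = conjBy (R ⊔ conjBy R (g⁻¹ * g')) g := by
        rw [cj_sup, cj_cj]; congr 2; group
      rw [e]
      exact unip_conj g (hRx _ (mul_mem (inv_mem hg) hg'))
    · rintro _ ⟨g, hg, rfl⟩ _ ⟨g', hg', rfl⟩ x hx
      have hxG : x ∈ G := by
        have h1 := mem_cj.1 hx
        have h4 := mul_mem (mul_mem hg' (Kc_le (hRK h1))) (inv_mem hg')
        have e : g' * (g'⁻¹ * x * g') * g'⁻¹ = x := by group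
        rwa [e] at h4
      exact ⟨x * g, mul_mem hxG hg, cj_cj _ _ _⟩
  have hbot := unip_trivial hQ hU2 (by
    intro g hg
    refine iSup₂_le fun V hV => ?_
    obtain ⟨g', hg', rfl⟩ := hV
    rw [← cj_le (g := g⁻¹), cj_cj, cj_cj, inv_mul_cancel, cj_one]
    exact le_iSup₂_of_le _ ⟨g⁻¹ * g', mul_mem (inv_mem hg) hg', rfl⟩ le_rfl)
  have hRbot : R = ⊥ := by
    rw [eq_bot_iff, ← hbot]
    exact le_iSup₂_of_le R ⟨1, one_mem _, (cj_one R).symm⟩ le_rfl
  have hcent : Kc G A ≤ Subgroup.centralizer (N : Set (LinearMap.GeneralLinearGroup k M)) := by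
    refine iSup₂_le fun B hB b hb => ?_
    have h1 : ⁅B, N⁆ = ⊥ := by
      rw [eq_bot_iff, ← hRbot]
      exact le_iSup₂_of_le _ ⟨B, hB, rfl⟩ le_rfl
    rw [Subgroup.mem_centralizer_iff]
    intro n hn
    exact (comm_iff.1 h1 b hb n hn).symm
  intro x hx y hy
  exact Subgroup.mem_centralizer_iff.1 (hcent hy) x hx

/-- component groups are quasisimple -/
theorem Kc_qs (hQ : QP G) (hA : A ∈ quadraticRootSubgroups G) : IsQuasisimple (Kc G A) := by
  apply qs_of (Kc_perfect hQ)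
  · intro e
    have h1 := le_Kc (self_mem_cmp hA)
    rw [e, le_bot_iff] at h1
    exact (cmp_rsf hQ).ne_bot A (self_mem_cmp hA) h1
  · intro N hN hnorm
    by_cases h : ∃ B ∈ cmp G A, ∃ n ∈ N, IsRankOnePair B (conjBy B n)
    · obtain ⟨B, hB, n, hn, hp⟩ := h
      exact Or.inr (simple_i hQ hN hnorm hB hn hp)
    · left
      push Not at h
      exact simple_ii hQ hA hN hnorm h

end simple

end CfsgLib.H14QG
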