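import Cfsg.Agent.LibH14QG2
import Cfsg.Agent.LibComp

/-! Quadratic pairs: central product decomposition (seat helper14). -/

set_option autoImplicit false

namespace CfsgLib.H14QH

open Cfsg CfsgLib.H14R1 CfsgLib.H14RS CfsgLib.H14QP CfsgLib.H14KT CfsgLib.H14QR CfsgLib.H14QC CfsgLib.H14QD CfsgLib.H14QE
  CfsgLib.H14QF CfsgLib.H14QG CfsgLib.H14Unip Module

section a
variable {k : Type*} [Field k] {M : Type*} [AddCommGroup M] [Module k M] [FiniteDimensional k M]
  {G : Subgroup (LinearMap.GeneralLinearGroup k M)} {s t q : End k M}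
  {A B C D : Subgroup (LinearMap.GeneralLinearGroup k M)} {g : LinearMap.GeneralLinearGroup k M}

theorem all_prod (hQ : QP G) (hgen : Subgroup.closure (quadraticElements G) = G) :
    G ≤ (⨆ A ∈ quadraticRootSubgroups G, A) ⊔
      (G ⊓ Subgroup.centralizer ((⨆ A ∈ quadraticRootSubgroups G, A : Subgroup (LinearMap.GeneralLinearGroup k M)) : Set (LinearMap.GeneralLinearGroup k M))) := by
  conv_lhs => rw [← hgen]
  rw [Subgroup.closure_le]
  intro σ hσ
  obtain ⟨h1, h2⟩ := quad_iff.1 hσ
  rw [eq_tv h1.1]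
  exact mem_prod hQ.h2 hQ.h3 hQ.hirr _ h1 le_rfl

theorem Kc_le_sup : Kc G A ≤ ⨆ A ∈ quadraticRootSubgroups G, A :=
  iSup₂_le fun B hB => le_iSup₂_of_le B hB.1 le_rfl

theorem Kc_norm (hQ : QP G) (hgen : Subgroup.closure (quadraticElements G) = G)
    (hA : A ∈ quadraticRootSubgroups G) (hg : g ∈ G) : conjBy (Kc G A) g = Kc G A := by
  rw [cj_self_iff]
  refine (sup_le ?_ ?_ : _ ≤ Subgroup.normalizer (Kc G A : Set (LinearMap.GeneralLinearGroup k M))) (all_prod hQ hgen hg)
  · refine iSup₂_le fun B hB b hb => ?_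
    rw [← cj_self_iff]
    by_cases h : Rt G A B
    · exact cj_of_mem (le_Kc ⟨hB, h⟩ hb)
    · exact cj_of_comm fun a ha => (comm_Kc hQ hA h a ha b (le_Kc (self_mem_cmp hB) hb)).symm
  · rintro c ⟨-, hc⟩
    rw [← cj_self_iff]
    exact cj_of_comm fun a ha => (Subgroup.mem_centralizer_iff.1 hc a (Kc_le_sup ha)).symm

theorem end_comm {x : LinearMap.GeneralLinearGroup k M} (hq : q * q = 0) (h : x * tv q = tv q * x) :
    (x : End k M) * q = q * (x : End k M) := by
  have h1 := congrArg Units.val h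
  rw [Units.val_mul, Units.val_mul, tv_val hq, mul_add, add_mul, mul_one, one_mul] at h1
  exact add_left_cancel h1

theorem faithful (hQ : QP G) (hgen : Subgroup.closure (quadraticElements G) = G) (hs : s ∈ Qd G)
    (hc : ∀ x ∈ Kc G (EG s hs.1.1 G), (x : End k M) * q = q * (x : End k M)) (hsq : s * q = 0) : q = 0 := by
  have hA : EG s hs.1.1 G ∈ quadraticRootSubgroups G := qrs_iff.2 ⟨s, hs, rfl⟩
  rcases hQ.hirr.2 (fl (Kc G (EG s hs.1.1 G)) 1) (by
    intro g hg w hw n hn
    have h5 : g⁻¹ * n * g ∈ Kc G (EG s hs.1.1 G) := by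
      have := Kc_norm hQ hgen hA hg
      rw [← this] at hn
      exact mem_cj.1 hn
    have h6 : ap (g⁻¹ * n * g) w - w = 0 := hw _ h5
    show ap n (ap g w) - ap g w ∈ (⊥ : Submodule k M)
    have : ap n (ap g w) - ap g w = ap g (ap (g⁻¹ * n * g) w - w) := by
      rw [ap_sub, ap_mul, ap_mul, ap_inv']
    rw [this, h6]
    show (g : M →ₗ[k] M) 0 ∈ _
    rw [map_zero]; exact zero_mem _) with h | h
  · ext x
    have hx : q x ∈ fl (Kc G (EG s hs.1.1 G)) 1 := by
      let N : Subgroup (LinearMap.GeneralLinearGroup k M) :=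
        { carrier := {g | ap g (q x) = q x}
          one_mem' := rfl
          mul_mem' := by
            intro a b ha hb
            show ap (a * b) (q x) = q x
            rw [ap_mul, show ap b (q x) = q x from hb]; exact ha
          inv_mem' := by
            intro a ha
            show ap a⁻¹ (q x) = q x
            have : ap a (q x) = q x := ha
            rw [← this, ap_inv, this] }
      have hle : Kc G (EG s hs.1.1 G) ≤ N := by
        refine iSup₂_le fun B hB b hb => ?_
        obtain ⟨y, hy, rfl⟩ := cmp_conj (self_mem_cmp hA) hB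
        obtain ⟨s', hs', e⟩ := mem_cj.1 hb
        have hs'q : s' * q = 0 := by
          ext z
          exact hs'.2.2 (LinearMap.congr_fun hsq z)
        have eb : b = y * tv s' * y⁻¹ := by rw [← e]; group
        show ap b (q x) = q x
        have e1 : (b : End k M) * q = q := by
          rw [eb, Units.val_mul, Units.val_mul, mul_assoc, hc _ (inv_mem hy), tv_val hs'.1.1, mul_assoc, add_mul, one_mul,
            ← mul_assoc s', hs'q, zero_mul, add_zero, ← mul_assoc, hc _ hy, mul_assoc, ← Units.val_mul, mul_inv_cancel,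
            Units.val_one, mul_one]
        exact LinearMap.congr_fun e1 x
      intro g hg
      have : ap g (q x) = q x := hle hg
      rw [this, sub_self]; exact zero_mem _
    rw [h] at hx
    exact hx
  · exfalso
    apply hs.2.1
    ext x
    have hx : x ∈ fl (Kc G (EG s hs.1.1 G)) 1 := by rw [h]; trivial
    have h1 : ap (tv s) x - x = 0 := hx _ (le_Kc (self_mem_cmp hA) ⟨s, self_mem_ES hs.1, rfl⟩)
    rwa [ap_tv hs.1.1] at h1

theorem loc (hQ : QP G) (hgen : Subgroup.closure (quadraticElements G) = G) : ∀ (n : ℕ) {q : End k M}, q ∈ Q0 G → rk q ≤ n →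
    (∀ s ∈ Qd G, q * s = s * q) ∨ ∃ A ∈ quadraticRootSubgroups G, tv q ∈ Kc G A := by
  intro n
  induction n with
  | zero =>
    intro q hq hr
    have : q = 0 := rk_eq_zero.1 (Nat.le_zero.1 hr)
    left; rw [this]; simp
  | succ n ih =>
    intro q hq hr
    rcases split_or hQ.h2 hQ.h3 hQ.hirr hq with h | ⟨q₁, h1, q₀, h0, e, m1, m2, hlt⟩
    · exact Or.inl h
    · right
      have hA : EG q₁ h1.1.1 G ∈ quadraticRootSubgroups G := qrs_iff.2 ⟨q₁, h1, rfl⟩
      have hq1 : tv q₁ ∈ Kc G (EG q₁ h1.1.1 G) := le_Kc (self_mem_cmp hA) ⟨q₁, self_mem_ES h1.1, rfl⟩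
      refine ⟨_, hA, ?_⟩
      have fin : (∀ x ∈ Kc G (EG q₁ h1.1.1 G), x * tv q₀ = tv q₀ * x) → tv q ∈ Kc G (EG q₁ h1.1.1 G) := by
        intro hx
        have := faithful hQ hgen h1 (fun x hx' => end_comm h0.1 (hx x hx')) m1
        rw [e, this, add_zero]; exact hq1
      rcases ih h0 (by omega) with h | ⟨B, hB, h⟩
      · apply fin
        intro x hx
        exact Subgroup.mem_centralizer_iff.1 (centralizes h0 h) x (Kc_le_sup hx)
      · by_cases hr : Rt G (EG q₁ h1.1.1 G) B
        · rw [e, ← tv_mul h1.1.1 h0.1 m1 m2]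
          apply mul_mem hq1
          unfold Kc at h ⊢
          rw [cmp_eq hr]; exact h
        · apply fin
          intro x hx
          exact comm_Kc hQ hA hr x hx _ h

/-- the group generated by the quadratic elements centralizing `Σ` -/
def C1 (G : Subgroup (LinearMap.GeneralLinearGroup k M)) : Subgroup (LinearMap.GeneralLinearGroup k M) :=
  Subgroup.closure {g | ∃ q ∈ Q0 G, (∀ s ∈ Qd G, q * s = s * q) ∧ g = tv q}

theorem C1_le : C1 G ≤ G := by
  unfold C1
  rw [Subgroup.closure_le]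
  rintro _ ⟨q, hq, -, rfl⟩
  exact tv_mem hq

theorem C1_cent : C1 G ≤ Subgroup.centralizer ((⨆ A ∈ quadraticRootSubgroups G, A : Subgroup (LinearMap.GeneralLinearGroup k M)) :
    Set (LinearMap.GeneralLinearGroup k M)) := by
  unfold C1
  rw [Subgroup.closure_le]
  rintro _ ⟨q, hq, h, rfl⟩
  exact centralizes hq h

theorem C1_sup (hQ : QP G) (hgen : Subgroup.closure (quadraticElements G) = G) :
    (⨆ A ∈ quadraticRootSubgroups G, A) ⊔ C1 G = G := by
  apply le_antisymm (sup_le sup_le_G C1_le)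
  conv_lhs => rw [← hgen]
  rw [Subgroup.closure_le]
  intro σ hσ
  obtain ⟨h1, h2⟩ := quad_iff.1 hσ
  rw [eq_tv h1.1]
  rcases loc hQ hgen _ h1 le_rfl with h | ⟨A, hA, h⟩
  · exact Subgroup.mem_sup_right (Subgroup.subset_closure ⟨_, h1, h, rfl⟩)
  · exact Subgroup.mem_sup_left (Kc_le_sup h)

end a

end CfsgLib.H14QH
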