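import Cfsg.Agent.LibH14QH

/-! Quadratic pairs: central product decomposition, induction (seat helper14). -/

set_option autoImplicit false

namespace CfsgLib.H14QH

open Cfsg CfsgLib.H14R1 CfsgLib.H14RS CfsgLib.H14QP CfsgLib.H14KT CfsgLib.H14QR CfsgLib.H14QC CfsgLib.H14QD CfsgLib.H14QE
  CfsgLib.H14QF CfsgLib.H14QG CfsgLib.H14Unip Module

variable {k : Type*} [Field k] {M : Type*} [AddCommGroup M] [Module k M] [FiniteDimensional k M]
  {G : Subgroup (LinearMap.GeneralLinearGroup k M)} {s t q : End k M}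
  {A B C D : Subgroup (LinearMap.GeneralLinearGroup k M)} {g : LinearMap.GeneralLinearGroup k M}

structure Good (G : Subgroup (LinearMap.GeneralLinearGroup k M)) (S : Set (Subgroup (LinearMap.GeneralLinearGroup k M))) : Prop where
  fin : S.Finite
  le : ∀ H ∈ S, H ≤ G
  norm : ∀ H ∈ S, ∀ g ∈ G, conjBy H g = H
  comm : ∀ H ∈ S, ∀ H' ∈ S, H ≠ H' → ∀ x ∈ H, ∀ y ∈ H', x * y = y * x
  sup : (⨆ H ∈ S, H) = G
  qs : ∀ H ∈ S, IsQuasisimple ↥H
  gen : ∀ H ∈ S, Subgroup.closure (quadraticElements G ∩ (H : Set (LinearMap.GeneralLinearGroup k M))) = H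
  mem : ∀ σ ∈ quadraticElements G, ∃ H ∈ S, σ ∈ H

/-- restriction to an invariant subspace -/
noncomputable def res (C₁ : Subgroup (LinearMap.GeneralLinearGroup k M)) (M' : Submodule k M)
    (h : ∀ g ∈ C₁, ∀ m ∈ M', (g : End k M) m ∈ M') : C₁ →* LinearMap.GeneralLinearGroup k M' :=
  MonoidHom.toHomUnits
    { toFun := fun g => ((g : LinearMap.GeneralLinearGroup k M) : End k M).restrict (h g g.2)
      map_one' := by ext x; rfl
      map_mul' := fun a b => by ext x; rfl }

theorem res_apply {C₁ : Subgroup (LinearMap.GeneralLinearGroup k M)} {M' : Submodule k M}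
    {h : ∀ g ∈ C₁, ∀ m ∈ M', (g : End k M) m ∈ M'} (g : C₁) (x : M') :
    (((res C₁ M' h g : LinearMap.GeneralLinearGroup k M') : End k M') x : M) = ((g : LinearMap.GeneralLinearGroup k M) : End k M) x := rfl

/-- a minimal invariant subspace -/
theorem exists_min (C₁ : Subgroup (LinearMap.GeneralLinearGroup k M)) (hM : ∃ m : M, m ≠ 0) :
    ∃ M' : Submodule k M, M' ≠ ⊥ ∧ (∀ g ∈ C₁, ∀ m ∈ M', (g : End k M) m ∈ M') ∧
      ∀ W : Submodule k M, W ≤ M' → (∀ g ∈ C₁, ∀ m ∈ W, (g : End k M) m ∈ W) → W = ⊥ ∨ W = M' := by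
  classical
  have hex : ∃ n : ℕ, ∃ M' : Submodule k M, M' ≠ ⊥ ∧ (∀ g ∈ C₁, ∀ m ∈ M', (g : End k M) m ∈ M') ∧ finrank k M' = n :=
    ⟨_, ⊤, by
      obtain ⟨m, hm⟩ := hM
      intro e
      have : m ∈ (⊤ : Submodule k M) := trivial
      rw [e] at this
      exact hm this, fun _ _ _ _ => trivial, rfl⟩
  obtain ⟨M', h1, h2, h3⟩ := Nat.find_spec hex
  refine ⟨M', h1, h2, fun W hW hinv => ?_⟩
  by_cases h0 : W = ⊥
  · exact Or.inl h0
  · right
    apply Submodule.eq_of_le_of_finrank_le hW
    rw [h3]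
    exact Nat.find_min' hex ⟨W, h0, hinv, rfl⟩

/-- data for the inductive step -/
structure Rd (G : Subgroup (LinearMap.GeneralLinearGroup k M)) (M' : Submodule k M) : Prop where
  hQ : QP G
  hgen : Subgroup.closure (quadraticElements G) = G
  ne : M' ≠ ⊥
  inv : ∀ g ∈ C1 G, ∀ m ∈ M', (g : End k M) m ∈ M'
  min : ∀ W : Submodule k M, W ≤ M' → (∀ g ∈ C1 G, ∀ m ∈ W, (g : End k M) m ∈ W) → W = ⊥ ∨ W = M'

/-- subspaces containing all `g M'` are everything -/
theorem Rd.span {M' : Submodule k M} (h : Rd G M') {W : Submodule k M}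
    (hW : ∀ g ∈ (⨆ A ∈ quadraticRootSubgroups G, A : Subgroup (LinearMap.GeneralLinearGroup k M)), ∀ m ∈ M', (g : End k M) m ∈ W) :
    W = ⊤ := by
  set G₀ := (⨆ A ∈ quadraticRootSubgroups G, A : Subgroup (LinearMap.GeneralLinearGroup k M)) with hG₀
  let V : Submodule k M := Submodule.span k {x | ∃ g ∈ G₀, ∃ m ∈ M', x = (g : End k M) m}
  have hVW : V ≤ W := by
    rw [Submodule.span_le]
    rintro _ ⟨g, hg, m, hm, rfl⟩
    exact hW g hg m hm
  have hinv : ∀ g ∈ G, ∀ w ∈ V, (g : M →ₗ[k] M) w ∈ V := by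
    intro g hg
    let N : Subgroup (LinearMap.GeneralLinearGroup k M) :=
      { carrier := {g | ∀ w, (g : M →ₗ[k] M) w ∈ V ↔ w ∈ V}
        one_mem' := fun w => Iff.rfl
        mul_mem' := by
          intro a b ha hb w
          have : ((a * b : LinearMap.GeneralLinearGroup k M) : M →ₗ[k] M) w = (a : M →ₗ[k] M) ((b : M →ₗ[k] M) w) := rfl
          rw [this]
          exact (ha _).trans (hb _)
        inv_mem' := by
          intro a ha w
          have h1 := ha (((a⁻¹ : LinearMap.GeneralLinearGroup k M) : M →ₗ[k] M) w)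
          have h2 : (a : M →ₗ[k] M) (((a⁻¹ : LinearMap.GeneralLinearGroup k M) : M →ₗ[k] M) w) = w := LinearMap.congr_fun a.mul_inv w
          rw [h2] at h1
          exact h1.symm }
    have mk : ∀ K : Subgroup (LinearMap.GeneralLinearGroup k M), (∀ g ∈ K, ∀ w ∈ V, (g : M →ₗ[k] M) w ∈ V) → K ≤ N := by
      intro K hK g hg w
      refine ⟨fun hw => ?_, hK g hg w⟩
      have := hK g⁻¹ (inv_mem hg) _ hw
      have h2 : ((g⁻¹ : LinearMap.GeneralLinearGroup k M) : M →ₗ[k] M) ((g : M →ₗ[k] M) w) = w := LinearMap.congr_fun g.inv_mul w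
      rwa [h2] at this
    have h1 : G₀ ≤ N := by
      apply mk
      intro g hg w hw
      induction hw using Submodule.span_induction with
      | mem x hx =>
        obtain ⟨g', hg', m, hm, rfl⟩ := hx
        exact Submodule.subset_span ⟨g * g', mul_mem hg hg', m, hm, rfl⟩
      | zero => rw [map_zero]; exact zero_mem _
      | add x y _ _ hx hy => rw [map_add]; exact add_mem hx hy
      | smul c x _ hx => rw [map_smul]; exact Submodule.smul_mem _ _ hx
    have h2 : C1 G ≤ N := by
      apply mk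
      intro g hg w hw
      induction hw using Submodule.span_induction with
      | mem x hx =>
        obtain ⟨g', hg', m, hm, rfl⟩ := hx
        refine Submodule.subset_span ⟨g', hg', (g : End k M) m, h.inv g hg m hm, ?_⟩
        have e := Subgroup.mem_centralizer_iff.1 (C1_cent hg) g' hg'
        have := LinearMap.congr_fun (congrArg Units.val e) m
        exact this.symm
      | zero => rw [map_zero]; exact zero_mem _
      | add x y _ _ hx hy => rw [map_add]; exact add_mem hx hy
      | smul c x _ hx => rw [map_smul]; exact Submodule.smul_mem _ _ hx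
    intro w hw
    have h3 : g ∈ N := (sup_le h1 h2) (by rw [C1_sup h.hQ h.hgen]; exact hg)
    exact (h3 w).2 hw
  rcases h.hQ.hirr.2 V hinv with h1 | h1
  · exfalso
    apply h.ne
    rw [eq_bot_iff, ← h1]
    intro m hm
    exact Submodule.subset_span ⟨1, one_mem _, m, hm, rfl⟩
  · rw [eq_top_iff, ← h1]; exact hVW

/-- commuting with `G₀` and zero on `M'` -/
theorem Rd.zero {M' : Submodule k M} (h : Rd G M') {x : End k M}
    (hx : ∀ g ∈ (⨆ A ∈ quadraticRootSubgroups G, A : Subgroup (LinearMap.GeneralLinearGroup k M)), (g : End k M) * x = x * (g : End k M))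
    (h0 : ∀ m ∈ M', x m = 0) : x = 0 := by
  have : LinearMap.ker x = ⊤ := by
    apply h.span
    intro g hg m hm
    rw [LinearMap.mem_ker]
    have := LinearMap.congr_fun (hx g hg) m
    rw [Module.End.mul_apply, Module.End.mul_apply, h0 m hm, map_zero] at this
    exact this.symm
  exact LinearMap.ker_eq_top.1 this

theorem C1_end {c : LinearMap.GeneralLinearGroup k M} (hc : c ∈ C1 G) :
    ∀ g ∈ (⨆ A ∈ quadraticRootSubgroups G, A : Subgroup (LinearMap.GeneralLinearGroup k M)),
      (g : End k M) * (c : End k M) = (c : End k M) * (g : End k M) := by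
  intro g hg
  exact congrArg Units.val (Subgroup.mem_centralizer_iff.1 (C1_cent hc) g hg)

theorem Rd.res_inj {M' : Submodule k M} (h : Rd G M') : Function.Injective (res (C1 G) M' h.inv) := by
  rw [injective_iff_map_eq_one]
  intro c hc
  have h1 : ((c : LinearMap.GeneralLinearGroup k M) : End k M) - 1 = 0 := by
    apply h.zero
    · intro g hg
      rw [mul_sub, sub_mul, C1_end c.2 g hg, mul_one, one_mul]
    · intro m hm
      rw [LinearMap.sub_apply, sub_eq_zero]
      have := res_apply (h := h.inv) c ⟨m, hm⟩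
      rw [hc] at this
      exact this.symm
  apply Subtype.ext
  apply Units.ext
  exact sub_eq_zero.1 h1

/-! ### the restricted pair -/

/-- the image of `C1` -/
noncomputable def Cr {M' : Submodule k M} (h : Rd G M') : Subgroup (LinearMap.GeneralLinearGroup k M') :=
  (res (C1 G) M' h.inv).range

theorem Rd.irr {M' : Submodule k M} (h : Rd G M') : IsIrreducibleFor (Cr h) := by
  constructor
  · obtain ⟨m, hm, h0⟩ := (Submodule.ne_bot_iff _).1 h.ne
    exact ⟨⟨m, hm⟩, fun e => h0 (congrArg Subtype.val e)⟩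
  · intro W hW
    have hW' : ∀ g ∈ C1 G, ∀ m ∈ W.map M'.subtype, (g : End k M) m ∈ W.map M'.subtype := by
      rintro g hg _ ⟨w, hw, rfl⟩
      exact ⟨_, hW _ ⟨⟨g, hg⟩, rfl⟩ w hw, res_apply (h := h.inv) ⟨g, hg⟩ w⟩
    rcases h.min _ (Submodule.map_subtype_le _ _) hW' with h1 | h1
    · left
      exact Submodule.map_injective_of_injective M'.subtype_injective (by rw [h1, Submodule.map_bot])
    · right
      rw [eq_top_iff]
      intro x _
      have : (x : M) ∈ W.map M'.subtype := by rw [h1]; exact x.2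
      obtain ⟨y, hy, e⟩ := this
      have : y = x := Subtype.ext e
      rw [← this]; exact hy

theorem Rd.qp {M' : Submodule k M} (h : Rd G M') : QP (Cr h) := ⟨h.hQ.h2, h.hQ.h3, h.irr⟩

/-- restriction of a quadratic element -/
theorem Rd.res_q {M' : Submodule k M} (h : Rd G M') (hq : q ∈ Q0 G) (hc : ∀ s ∈ Qd G, q * s = s * q) (hq0 : q ≠ 0)
    (hm : tv q ∈ C1 G) : res (C1 G) M' h.inv ⟨tv q, hm⟩ ∈ quadraticElements (Cr h) := by
  rw [quad_iff]
  set y := res (C1 G) M' h.inv ⟨tv q, hm⟩ with hy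
  have e : ∀ x : M', ((((y : End k M') - 1) x : M') : M) = q x := by
    intro x
    rw [LinearMap.sub_apply, Submodule.coe_sub, hy, res_apply]
    show (tv q : End k M) x - x = q x
    rw [tv_val hq.1, LinearMap.add_apply, Module.End.one_apply, add_sub_cancel_left]
  have hsq : ((y : End k M') - 1) * ((y : End k M') - 1) = 0 := by
    ext x
    rw [Module.End.mul_apply, e, e]
    exact LinearMap.congr_fun hq.1 x
  refine ⟨⟨hsq, fun c => ?_⟩, ?_⟩
  · have hcm : tv (c • q) ∈ C1 G := by
      apply Subgroup.subset_closure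
      exact ⟨c • q, smul_mem_Q0 hq c, fun s hs => by rw [smul_mul_assoc, mul_smul_comm, hc s hs], rfl⟩
    refine ⟨⟨tv (c • q), hcm⟩, ?_⟩
    apply Units.ext
    ext x
    rw [res_apply, tv_val (sqs hq.1 c), tv_val (sqs hsq c), LinearMap.add_apply, LinearMap.add_apply, LinearMap.smul_apply,
      LinearMap.smul_apply, Submodule.coe_add, Submodule.coe_smul, e]
    rfl
  · intro h0
    have h1 : y = 1 := Units.ext (sub_eq_zero.1 h0)
    have h4 : (⟨tv q, hm⟩ : C1 G) = 1 := h.res_inj (by rw [← hy, h1, map_one])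
    exact hq0 ((tv_eq_one hq.1).1 (congrArg Subtype.val h4))

theorem Rd.cgen {M' : Submodule k M} (h : Rd G M') : Subgroup.closure (quadraticElements (Cr h)) = Cr h := by
  apply le_antisymm
  · rw [Subgroup.closure_le]
    intro σ hσ
    exact hσ.1
  · rintro _ ⟨⟨c, hc⟩, rfl⟩
    have key : ∀ c (hc : c ∈ C1 G), res (C1 G) M' h.inv ⟨c, hc⟩ ∈ Subgroup.closure (quadraticElements (Cr h)) := by
      intro c hc
      unfold C1 at hc
      induction hc using Subgroup.closure_induction with
      | mem x hx =>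
        obtain ⟨q, hq, hcc, rfl⟩ := hx
        by_cases h0 : q = 0
        · subst h0
          have : (⟨tv 0, Subgroup.subset_closure ⟨0, hq, hcc, rfl⟩⟩ : C1 G) = 1 := Subtype.ext tv_zero
          have e : res (C1 G) M' h.inv ⟨tv 0, Subgroup.subset_closure ⟨0, hq, hcc, rfl⟩⟩ = 1 := by rw [this, map_one]
          exact e ▸ one_mem _
        · exact Subgroup.subset_closure (h.res_q hq hcc h0 _)
      | one =>
        have e : res (C1 G) M' h.inv ⟨1, one_mem _⟩ = 1 := map_one _
        exact e ▸ one_mem _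
      | mul x y hx hy ihx ihy =>
        have e : res (C1 G) M' h.inv ⟨x * y, mul_mem hx hy⟩ = res (C1 G) M' h.inv ⟨x, hx⟩ * res (C1 G) M' h.inv ⟨y, hy⟩ :=
          map_mul (res (C1 G) M' h.inv) ⟨x, hx⟩ ⟨y, hy⟩
        exact e ▸ mul_mem ihx ihy
      | inv x hx ih =>
        have e : res (C1 G) M' h.inv ⟨x⁻¹, inv_mem hx⟩ = (res (C1 G) M' h.inv ⟨x, hx⟩)⁻¹ :=
          map_inv (res (C1 G) M' h.inv) ⟨x, hx⟩
        exact e ▸ inv_mem ih
    exact key c hc

theorem Rd.lt {M' : Submodule k M} (h : Rd G M') (hs : s ∈ Qd G) : finrank k M' < finrank k M := by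
  apply Submodule.finrank_lt
  intro ht
  have hinv : ∀ g ∈ C1 G, ∀ m ∈ LinearMap.ker s, (g : End k M) m ∈ LinearMap.ker s := by
    intro g hg m hm
    rw [LinearMap.mem_ker] at hm ⊢
    have h1 := Subgroup.mem_centralizer_iff.1 (C1_cent hg) (tv s) (tv_mem_sigma hs)
    have h4 := end_comm hs.1.1 h1.symm
    have := LinearMap.congr_fun h4 m
    rw [Module.End.mul_apply, Module.End.mul_apply, hm, map_zero] at this
    exact this.symm
  have hk : LinearMap.ker s ≤ M' := by rw [ht]; exact le_top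
  rcases h.min _ hk hinv with h1 | h1
  · apply hs.2.1
    ext x
    have : s x ∈ LinearMap.ker s := LinearMap.congr_fun hs.1.1 x
    rw [h1] at this; exact this
  · apply hs.2.1
    rw [← LinearMap.ker_eq_top, h1, ht]

/-- lifting quadratic elements -/
theorem Rd.lift_q {M' : Submodule k M} (h : Rd G M') {c : C1 G} (hc : res (C1 G) M' h.inv c ∈ quadraticElements (Cr h)) :
    (c : LinearMap.GeneralLinearGroup k M) ∈ quadraticElements G := by
  obtain ⟨h1, h2⟩ := quad_iff.1 hc
  set y := res (C1 G) M' h.inv c with hy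
  set x : End k M := ((c : LinearMap.GeneralLinearGroup k M) : End k M) - 1 with hx
  have hcomm : ∀ g ∈ (⨆ A ∈ quadraticRootSubgroups G, A : Subgroup (LinearMap.GeneralLinearGroup k M)),
      (g : End k M) * x = x * (g : End k M) := by
    intro g hg
    rw [hx, mul_sub, sub_mul, C1_end c.2 g hg, mul_one, one_mul]
  have e : ∀ m : M', ((((y : End k M') - 1) m : M') : M) = x m := by
    intro m
    rw [LinearMap.sub_apply, Submodule.coe_sub, hy, res_apply]; rfl
  have hsq : x * x = 0 := by
    apply h.zero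
    · intro g hg
      rw [← mul_assoc, hcomm g hg, mul_assoc, hcomm g hg, mul_assoc]
    · intro m hm
      have := congrArg Subtype.val (LinearMap.congr_fun h1.1 ⟨m, hm⟩)
      rw [Module.End.mul_apply, e, e] at this
      exact this
  rw [quad_iff]
  refine ⟨⟨hsq, fun a => ?_⟩, ?_⟩
  · obtain ⟨d, hd⟩ := h1.2 a
    have : ((d : LinearMap.GeneralLinearGroup k M) : End k M) - (1 + a • x) = 0 := by
      apply h.zero
      · intro g hg
        rw [mul_sub, sub_mul, C1_end d.2 g hg, mul_add, add_mul, mul_one, one_mul, mul_smul_comm, smul_mul_assoc, hcomm g hg]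
      · intro m hm
        have h5 := res_apply (h := h.inv) d ⟨m, hm⟩
        rw [hd, tv_val (sqs h1.1 a), LinearMap.add_apply, LinearMap.smul_apply, Submodule.coe_add, Submodule.coe_smul, e] at h5
        rw [LinearMap.sub_apply, ← h5]
        simp
    have e2 : tv (a • x) = d := by
      apply Units.ext
      rw [tv_val (sqs hsq a)]
      exact (sub_eq_zero.1 this).symm
    rw [e2]; exact C1_le d.2
  · intro h0
    have h0' : x = 0 := h0
    apply h2
    ext m
    rw [e, h0']; rfl

end CfsgLib.H14QH
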