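import Cfsg.Agent.LibH14QH2

/-! Quadratic pairs: central product decomposition, conclusion (seat helper14). -/

set_option autoImplicit false

namespace CfsgLib.H14QH

open Cfsg CfsgLib.H14R1 CfsgLib.H14RS CfsgLib.H14QP CfsgLib.H14KT CfsgLib.H14QR CfsgLib.H14QC CfsgLib.H14QD CfsgLib.H14QE
  CfsgLib.H14QF CfsgLib.H14QG CfsgLib.H14Unip Module

section a
variable {k : Type*} [Field k] {M : Type*} [AddCommGroup M] [Module k M] [FiniteDimensional k M]
  {G : Subgroup (LinearMap.GeneralLinearGroup k M)} {s t q : End k M}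
  {A B C D : Subgroup (LinearMap.GeneralLinearGroup k M)} {g : LinearMap.GeneralLinearGroup k M} {M' : Submodule k M}
  {H' : Subgroup (LinearMap.GeneralLinearGroup k M')}

noncomputable def lft (h : Rd G M') (H' : Subgroup (LinearMap.GeneralLinearGroup k M')) : Subgroup (LinearMap.GeneralLinearGroup k M) :=
  (H'.comap (res (C1 G) M' h.inv)).map (C1 G).subtype

theorem mem_lft {h : Rd G M'} {x : LinearMap.GeneralLinearGroup k M} :
    x ∈ lft h H' ↔ ∃ hx : x ∈ C1 G, res (C1 G) M' h.inv ⟨x, hx⟩ ∈ H' := by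
  constructor
  · rintro ⟨y, hy, rfl⟩; exact ⟨y.2, hy⟩
  · rintro ⟨hx, h1⟩; exact ⟨⟨x, hx⟩, h1, rfl⟩

theorem lft_le (h : Rd G M') : lft h H' ≤ C1 G := fun _ hx => (mem_lft.1 hx).1

noncomputable def lftEquiv (h : Rd G M') (hH : H' ≤ Cr h) : lft h H' ≃* H' :=
  ((H'.comap (res (C1 G) M' h.inv)).equivMapOfInjective (C1 G).subtype (C1 G).subtype_injective).symm.trans
    (((H'.comap (res (C1 G) M' h.inv)).equivMapOfInjective (res (C1 G) M' h.inv) h.res_inj).trans
      (MulEquiv.subgroupCongr (Subgroup.map_comap_eq_self hH)))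

theorem lft_norm (h : Rd G M') (hn : ∀ g ∈ Cr h, conjBy H' g = H') (hg : g ∈ G) : conjBy (lft h H') g = lft h H' := by
  rw [cj_self_iff]
  refine (sup_le ?_ ?_ : (⨆ A ∈ quadraticRootSubgroups G, A) ⊔ C1 G ≤ Subgroup.normalizer (lft h H' : Set (LinearMap.GeneralLinearGroup k M)))
    (by rw [C1_sup h.hQ h.hgen]; exact hg)
  · intro x hx
    rw [← cj_self_iff]
    exact cj_of_comm fun a ha => Subgroup.mem_centralizer_iff.1 (C1_cent (lft_le h ha)) x hx
  · intro c hc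
    rw [← cj_self_iff]
    ext x
    rw [mem_cj, mem_lft, mem_lft]
    constructor
    · rintro ⟨h1, h2⟩
      have hx : x ∈ C1 G := by
        have := mul_mem (mul_mem hc h1) (inv_mem hc)
        simpa [mul_assoc] using this
      refine ⟨hx, ?_⟩
      have h3 := hn _ ⟨⟨c, hc⟩, rfl⟩
      rw [← h3, mem_cj, ← map_inv, ← map_mul, ← map_mul]
      exact h2
    · rintro ⟨hx, h2⟩
      refine ⟨mul_mem (mul_mem (inv_mem hc) hx) hc, ?_⟩
      have h3 := hn _ ⟨⟨c, hc⟩, rfl⟩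
      rw [← h3, mem_cj, ← map_inv, ← map_mul, ← map_mul] at h2
      exact h2

/-- pull back containments -/
theorem le_of_res (h : Rd G M') {X : Subgroup (LinearMap.GeneralLinearGroup k M)} {Y : Subgroup (LinearMap.GeneralLinearGroup k M')}
    (hY : Y ≤ (X.subgroupOf (C1 G)).map (res (C1 G) M' h.inv)) : lft h Y ≤ X := by
  intro x hx
  obtain ⟨hx1, hx2⟩ := mem_lft.1 hx
  obtain ⟨c, hc, e⟩ := hY hx2
  have := h.res_inj e
  rw [this] at hc
  exact hc

theorem lft_Cr (h : Rd G M') : lft h (Cr h) = C1 G := by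
  apply le_antisymm (lft_le h)
  intro x hx
  exact mem_lft.2 ⟨hx, ⟨⟨x, hx⟩, rfl⟩⟩

theorem Kc_gen (hA : A ∈ quadraticRootSubgroups G) :
    Subgroup.closure (quadraticElements G ∩ (Kc G A : Set (LinearMap.GeneralLinearGroup k M))) = Kc G A := by
  apply le_antisymm
  · rw [Subgroup.closure_le]; exact fun x hx => hx.2
  · refine iSup₂_le fun B hB => ?_
    obtain ⟨s, hs, rfl⟩ := qrs_iff.1 hB.1
    rintro _ ⟨s', hs', rfl⟩
    by_cases h0 : s' = 0
    · rw [h0, tv_zero]; exact one_mem _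
    · apply Subgroup.subset_closure
      refine ⟨quad_iff.2 ?_, le_Kc hB ⟨s', hs', rfl⟩⟩
      rw [tv_val hs'.1.1, add_sub_cancel_left]
      exact ⟨hs'.1, h0⟩

theorem good_step (h : Rd G M') {S' : Set (Subgroup (LinearMap.GeneralLinearGroup k M'))} (hS : Good (Cr h) S') :
    ∃ S, Good G S := by
  classical
  refine ⟨{H | ∃ A ∈ quadraticRootSubgroups G, H = Kc G A} ∪ (lft h '' S'), ?_, ?_, ?_, ?_, ?_, ?_, ?_, ?_⟩
  · refine Set.Finite.union ?_ (hS.fin.image _)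
    refine ((finite_comps h.hQ).image (fun P => ⨆ B ∈ P, B)).subset ?_
    rintro _ ⟨A, hA, rfl⟩
    exact ⟨cmp G A, ⟨A, hA, rfl⟩, rfl⟩
  · rintro H (⟨A, hA, rfl⟩ | ⟨H', hH', rfl⟩)
    · exact Kc_le
    · exact (lft_le h).trans C1_le
  · rintro H (⟨A, hA, rfl⟩ | ⟨H', hH', rfl⟩) g hg
    · exact Kc_norm h.hQ h.hgen hA hg
    · exact lft_norm h (hS.norm H' hH') hg
  · have key : ∀ A ∈ quadraticRootSubgroups G, ∀ H' : Subgroup (LinearMap.GeneralLinearGroup k M'), ∀ x ∈ Kc G A, ∀ y ∈ lft h H',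
        x * y = y * x := by
      intro A hA H' x hx y hy
      exact Subgroup.mem_centralizer_iff.1 (C1_cent (lft_le h hy)) x (Kc_le_sup hx)
    rintro H (⟨A, hA, rfl⟩ | ⟨H', hH', rfl⟩) K (⟨B, hB, rfl⟩ | ⟨K', hK', rfl⟩) hne x hx y hy
    · apply comm_Kc h.hQ hA _ x hx y hy
      intro hr
      apply hne
      unfold Kc
      rw [cmp_eq hr]
    · exact key A hA K' x hx y hy
    · exact (key B hB H' y hy x hx).symm
    · have hne' : H' ≠ K' := fun e => hne (by rw [e])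
      obtain ⟨hx1, hx2⟩ := mem_lft.1 hx
      obtain ⟨hy1, hy2⟩ := mem_lft.1 hy
      have := hS.comm H' hH' K' hK' hne' _ hx2 _ hy2
      rw [← map_mul, ← map_mul] at this
      exact congrArg Subtype.val (h.res_inj this)
  · apply le_antisymm
    · refine iSup₂_le ?_
      rintro H (⟨A, hA, rfl⟩ | ⟨H', hH', rfl⟩)
      · exact Kc_le
      · exact (lft_le h).trans C1_le
    · conv_lhs => rw [← C1_sup h.hQ h.hgen]
      refine sup_le ?_ ?_
      · refine iSup₂_le fun A hA => ?_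
        exact (le_Kc (self_mem_cmp hA)).trans (le_iSup₂_of_le (Kc G A) (Or.inl ⟨A, hA, rfl⟩) le_rfl)
      · rw [← lft_Cr h]
        apply le_of_res
        rw [← hS.sup]
        refine iSup₂_le fun H' hH' => ?_
        intro y hy
        obtain ⟨c, rfl⟩ := hS.le H' hH' hy
        refine ⟨c, ?_, rfl⟩
        have hle : lft h H' ≤ ⨆ H ∈ {H | ∃ A ∈ quadraticRootSubgroups G, H = Kc G A} ∪ (lft h '' S'), H :=
          le_iSup₂_of_le (lft h H') (Or.inr ⟨H', hH', rfl⟩) le_rfl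
        exact hle (mem_lft.2 ⟨c.2, hy⟩)
  · rintro H (⟨A, hA, rfl⟩ | ⟨H', hH', rfl⟩)
    · exact Kc_qs h.hQ hA
    · exact CfsgLib.Comp.quasisimple_equiv (lftEquiv h (hS.le H' hH')).symm (hS.qs H' hH')
  · rintro H (⟨A, hA, rfl⟩ | ⟨H', hH', rfl⟩)
    · exact Kc_gen hA
    · apply le_antisymm
      · rw [Subgroup.closure_le]; exact fun x hx => hx.2
      · apply le_of_res
        conv_lhs => rw [← hS.gen H' hH']
        rw [Subgroup.closure_le]
        rintro y ⟨hy1, hy2⟩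
        obtain ⟨c, rfl⟩ := hS.le H' hH' hy2
        exact ⟨c, Subgroup.subset_closure ⟨h.lift_q hy1, mem_lft.2 ⟨c.2, hy2⟩⟩, rfl⟩
  · intro σ hσ
    obtain ⟨h1, h2⟩ := quad_iff.1 hσ
    rcases loc h.hQ h.hgen _ h1 le_rfl with h3 | ⟨A, hA, h3⟩
    · have hm : tv ((σ : End k M) - 1) ∈ C1 G := Subgroup.subset_closure ⟨_, h1, h3, rfl⟩
      have h4 := h.res_q h1 h3 h2 hm
      obtain ⟨H', hH', h5⟩ := hS.mem _ h4
      refine ⟨_, Or.inr ⟨H', hH', rfl⟩, ?_⟩
      rw [eq_tv h1.1]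
      exact mem_lft.2 ⟨hm, h5⟩
    · refine ⟨_, Or.inl ⟨A, hA, rfl⟩, ?_⟩
      rw [eq_tv h1.1]; exact h3

theorem good_base (hq : ¬ (Qd G).Nonempty) (hgen : Subgroup.closure (quadraticElements G) = G) : Good G ∅ := by
  classical
  have h0 : ∀ q ∈ Q0 G, q = 0 := by
    by_contra hne
    push Not at hne
    obtain ⟨q, hq1, hq2⟩ := hne
    have hex : ∃ n : ℕ, ∃ q ∈ Q0 G, q ≠ 0 ∧ rk q = n := ⟨_, q, hq1, hq2, rfl⟩
    obtain ⟨s, hs1, hs2, hs3⟩ := Nat.find_spec hex
    apply hq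
    refine ⟨s, hs1, hs2, fun t ht ht0 => ?_⟩
    rw [hs3]
    exact Nat.find_min' hex ⟨t, ht, ht0, rfl⟩
  have hem : quadraticElements G = ∅ := by
    rw [Set.eq_empty_iff_forall_notMem]
    intro σ hσ
    obtain ⟨h1, h2⟩ := quad_iff.1 hσ
    exact h2 (h0 _ h1)
  have hG : G = ⊥ := by rw [← hgen, hem, Subgroup.closure_empty]
  refine ⟨Set.finite_empty, by simp, by simp, by simp, ?_, by simp, by simp, ?_⟩
  · rw [hG]; simp
  · rw [hem]; simp

end a

theorem good_exists {k : Type*} [Field k] : ∀ (n : ℕ) (M : Type*) [AddCommGroup M] [Module k M] [FiniteDimensional k M]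
    (G : Subgroup (LinearMap.GeneralLinearGroup k M)), finrank k M ≤ n → QP G → Subgroup.closure (quadraticElements G) = G →
    ∃ S, Good G S := by
  intro n
  induction n with
  | zero =>
    intro M _ _ _ G hn hQ hgen
    exfalso
    have h1 : finrank k M = 0 := by omega
    obtain ⟨⟨m, hm⟩, -⟩ := hQ.hirr
    have := finrank_zero_iff.1 h1
    exact hm (Subsingleton.elim _ _)
  | succ n ih =>
    intro M _ _ _ G hn hQ hgen
    by_cases hq : (Qd G).Nonempty
    · obtain ⟨s, hs⟩ := hq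
      obtain ⟨M', h1, h2, h3⟩ := exists_min (C1 G) hQ.hirr.1
      have h : Rd G M' := ⟨hQ, hgen, h1, h2, h3⟩
      have hlt := h.lt hs
      obtain ⟨S', hS'⟩ := ih M' (Cr h) (by omega) h.qp h.cgen
      exact good_step h hS'
    · exact ⟨∅, good_base hq hgen⟩

end CfsgLib.H14QH
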