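import Cfsg.Agent.LibH14RS

/-! Quadratic pairs (Timmesfeld), linear algebra part (seat helper14). -/

set_option autoImplicit false

namespace CfsgLib.H14QP

open Cfsg CfsgLib.H14R1 Module

variable {k : Type*} [Field k] {M : Type*} [AddCommGroup M] [Module k M]

/-- the unit `1 + s` for `s² = 0` -/
noncomputable def tv (s : End k M) : LinearMap.GeneralLinearGroup k M := by
  classical
  exact if h : s * s = 0 then
    ⟨1 + s, 1 - s, by simp [mul_sub, add_mul, h], by simp [sub_mul, mul_add, h]⟩ else 1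

theorem tv_val {s : End k M} (h : s * s = 0) : (tv s : End k M) = 1 + s := by
  unfold tv; rw [dif_pos h]

theorem tv_inv {s : End k M} (h : s * s = 0) : ((tv s)⁻¹ : LinearMap.GeneralLinearGroup k M) = tv (-s) := by
  rw [inv_eq_iff_mul_eq_one]
  apply Units.ext
  rw [Units.val_mul, tv_val h, tv_val (by simp [h]), Units.val_one]
  simp [mul_add, add_mul, h]

theorem tv_zero : (tv (0 : End k M)) = 1 := by
  apply Units.ext; rw [tv_val (by simp)]; simp

theorem tv_eq_one {s : End k M} (h : s * s = 0) : tv s = 1 ↔ s = 0 := by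
  constructor
  · intro e
    have := congrArg Units.val e
    rw [tv_val h, Units.val_one] at this
    simpa using this
  · rintro rfl; exact tv_zero

theorem tv_mul {s t : End k M} (hs : s * s = 0) (ht : t * t = 0) (hst : s * t = 0) (hts : t * s = 0) :
    tv s * tv t = tv (s + t) := by
  apply Units.ext
  rw [Units.val_mul, tv_val hs, tv_val ht, tv_val (by simp [mul_add, add_mul, hs, ht, hst, hts])]
  simp [mul_add, add_mul, hst]; abel

theorem tv_pow {s : End k M} (hs : s * s = 0) (n : ℕ) : tv s ^ n = tv ((n : k) • s) := by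
  induction n with
  | zero => simp [tv_zero]
  | succ n ih =>
    rw [pow_succ, ih, tv_mul (by simp [hs]) hs (by simp [hs]) (by simp [hs])]
    congr 1
    push_cast; rw [add_smul, one_smul]

theorem tv_conj {s : End k M} (hs : s * s = 0) (g : LinearMap.GeneralLinearGroup k M) :
    g * tv s * g⁻¹ = tv ((g : End k M) * s * ((g⁻¹ : LinearMap.GeneralLinearGroup k M) : End k M)) := by
  have h1 : ((g⁻¹ : LinearMap.GeneralLinearGroup k M) : End k M) * (g : End k M) = 1 := g.inv_mul
  have h2 : (g : End k M) * ((g⁻¹ : LinearMap.GeneralLinearGroup k M) : End k M) = 1 := g.mul_inv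
  apply Units.ext
  rw [Units.val_mul, Units.val_mul, tv_val hs, tv_val]
  · rw [mul_add, add_mul, mul_one, h2]
  · calc (g : End k M) * s * ((g⁻¹ : LinearMap.GeneralLinearGroup k M) : End k M) *
        ((g : End k M) * s * ((g⁻¹ : LinearMap.GeneralLinearGroup k M) : End k M))
        = (g : End k M) * s * (((g⁻¹ : LinearMap.GeneralLinearGroup k M) : End k M) * (g : End k M)) *
          s * ((g⁻¹ : LinearMap.GeneralLinearGroup k M) : End k M) := by simp only [mul_assoc]
      _ = (g : End k M) * (s * s) * ((g⁻¹ : LinearMap.GeneralLinearGroup k M) : End k M) := by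
        rw [h1, mul_one]; simp only [mul_assoc]
      _ = 0 := by rw [hs]; simp

variable (G : Subgroup (LinearMap.GeneralLinearGroup k M))

/-- square zero elements all of whose multiples give elements of `G` -/
def Q0 : Set (End k M) := {s | s * s = 0 ∧ ∀ c : k, tv (c • s) ∈ G}

variable {G}

omit G in
theorem sqs {s : End k M} (h : s * s = 0) (c : k) : (c • s) * (c • s) = 0 := by
  simp [h]

theorem zero_mem_Q0 : (0 : End k M) ∈ Q0 G := ⟨by simp, fun c => by rw [smul_zero, tv_zero]; exact one_mem _⟩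

theorem smul_mem_Q0 {s : End k M} (h : s ∈ Q0 G) (c : k) : c • s ∈ Q0 G :=
  ⟨sqs h.1 c, fun e => by rw [smul_smul]; exact h.2 _⟩

theorem neg_mem_Q0 {s : End k M} (h : s ∈ Q0 G) : -s ∈ Q0 G := by
  have := smul_mem_Q0 h (-1); simpa using this

theorem of_smul_mem_Q0 {s : End k M} {c : k} (hc : c ≠ 0) (h : c • s ∈ Q0 G) : s ∈ Q0 G := by
  have := smul_mem_Q0 h c⁻¹
  rwa [smul_smul, inv_mul_cancel₀ hc, one_smul] at this

theorem add_mem_Q0 {s t : End k M} (hs : s ∈ Q0 G) (ht : t ∈ Q0 G) (hst : s * t = 0) (hts : t * s = 0) :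
    s + t ∈ Q0 G := by
  refine ⟨by simp [mul_add, add_mul, hs.1, ht.1, hst, hts], fun c => ?_⟩
  rw [smul_add, ← tv_mul (sqs hs.1 c) (sqs ht.1 c) (by simp [hst]) (by simp [hts])]
  exact mul_mem (hs.2 c) (ht.2 c)

theorem sub_mem_Q0 {s t : End k M} (hs : s ∈ Q0 G) (ht : t ∈ Q0 G) (hst : s * t = 0) (hts : t * s = 0) :
    s - t ∈ Q0 G := by
  rw [sub_eq_add_neg]
  exact add_mem_Q0 hs (neg_mem_Q0 ht) (by simp [hst]) (by simp [hts])

/-- conjugation as a map on endomorphisms -/
def cjE (g : LinearMap.GeneralLinearGroup k M) (s : End k M) : End k M :=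
  (g : End k M) * s * ((g⁻¹ : LinearMap.GeneralLinearGroup k M) : End k M)

theorem cjE_mul (g : LinearMap.GeneralLinearGroup k M) (s t : End k M) :
    cjE g (s * t) = cjE g s * cjE g t := by
  unfold cjE
  have h1 : ((g⁻¹ : LinearMap.GeneralLinearGroup k M) : End k M) * (g : End k M) = 1 := g.inv_mul
  calc (g : End k M) * (s * t) * ((g⁻¹ : LinearMap.GeneralLinearGroup k M) : End k M)
      = (g : End k M) * s * 1 * t * ((g⁻¹ : LinearMap.GeneralLinearGroup k M) : End k M) := by
        simp only [mul_assoc, mul_one, one_mul]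
    _ = _ := by rw [← h1]; simp only [mul_assoc]

theorem cjE_add (g : LinearMap.GeneralLinearGroup k M) (s t : End k M) :
    cjE g (s + t) = cjE g s + cjE g t := by
  unfold cjE; rw [mul_add, add_mul]

theorem cjE_smul (g : LinearMap.GeneralLinearGroup k M) (c : k) (s : End k M) :
    cjE g (c • s) = c • cjE g s := by
  unfold cjE; rw [mul_smul_comm, smul_mul_assoc]

theorem cjE_zero (g : LinearMap.GeneralLinearGroup k M) : cjE g (0 : End k M) = 0 := by
  unfold cjE; simp

theorem cjE_sub (g : LinearMap.GeneralLinearGroup k M) (s t : End k M) :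
    cjE g (s - t) = cjE g s - cjE g t := by
  unfold cjE; rw [mul_sub, sub_mul]

theorem cjE_cjE (g h : LinearMap.GeneralLinearGroup k M) (s : End k M) :
    cjE g (cjE h s) = cjE (g * h) s := by
  unfold cjE; rw [mul_inv_rev, Units.val_mul, Units.val_mul]; simp only [mul_assoc]

theorem cjE_one (s : End k M) : cjE (1 : LinearMap.GeneralLinearGroup k M) s = s := by
  unfold cjE; simp

theorem cjE_inv_cjE (g : LinearMap.GeneralLinearGroup k M) (s : End k M) : cjE g⁻¹ (cjE g s) = s := by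
  rw [cjE_cjE, inv_mul_cancel, cjE_one]

theorem cj_mem_Q0 {s : End k M} (h : s ∈ Q0 G) {g : LinearMap.GeneralLinearGroup k M} (hg : g ∈ G) :
    cjE g s ∈ Q0 G := by
  refine ⟨by rw [← cjE_mul, h.1, cjE_zero], fun c => ?_⟩
  rw [← cjE_smul]
  have := tv_conj (sqs h.1 c) g
  unfold cjE
  rw [← this]
  exact mul_mem (mul_mem hg (h.2 c)) (inv_mem hg)

theorem tv_mem {s : End k M} (h : s ∈ Q0 G) : tv s ∈ G := by
  have := h.2 1; rwa [one_smul] at this

theorem cjE_tv {s : End k M} (hs : s * s = 0) (t : End k M) :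
    cjE (tv s) t = t + (s * t - t * s) - s * t * s := by
  unfold cjE
  rw [tv_inv hs, tv_val hs, tv_val (by simp [hs])]
  noncomm_ring

/-! ### ranks -/

section fd
variable [FiniteDimensional k M]

noncomputable def rk (s : End k M) : ℕ := finrank k (LinearMap.range s)

theorem rk_eq_zero {s : End k M} : rk s = 0 ↔ s = 0 := by
  unfold rk
  rw [Submodule.finrank_eq_zero, LinearMap.range_eq_bot]

theorem rk_cjE (g : LinearMap.GeneralLinearGroup k M) (s : End k M) : rk (cjE g s) = rk s := by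
  have le : ∀ (g : LinearMap.GeneralLinearGroup k M) (s : End k M), rk (cjE g s) ≤ rk s := by
    intro g s
    unfold rk cjE
    have h1 : LinearMap.range ((g : End k M) * s * ((g⁻¹ : LinearMap.GeneralLinearGroup k M) : End k M)) ≤
        (LinearMap.range s).map (g : End k M) := by
      rintro _ ⟨x, rfl⟩
      exact ⟨s (((g⁻¹ : LinearMap.GeneralLinearGroup k M) : End k M) x), ⟨_, rfl⟩, rfl⟩
    exact (Submodule.finrank_mono h1).trans (Submodule.finrank_map_le _ _)
  apply le_antisymm (le g s)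
  have := le g⁻¹ (cjE g s)
  rwa [cjE_inv_cjE] at this

variable (G) in
/-- minimal rank square zero elements -/
def Qd : Set (End k M) := {s | s ∈ Q0 G ∧ s ≠ 0 ∧ ∀ t ∈ Q0 G, t ≠ 0 → rk s ≤ rk t}

theorem cj_mem_Qd {s : End k M} (h : s ∈ Qd G) {g : LinearMap.GeneralLinearGroup k M} (hg : g ∈ G) :
    cjE g s ∈ Qd G := by
  refine ⟨cj_mem_Q0 h.1 hg, ?_, fun t ht ht0 => by rw [rk_cjE]; exact h.2.2 t ht ht0⟩
  intro e
  apply h.2.1
  rw [← cjE_inv_cjE g s, e, cjE_zero]

theorem Qd_rk {s t : End k M} (hs : s ∈ Qd G) (ht : t ∈ Qd G) : rk s = rk t :=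
  le_antisymm (hs.2.2 t ht.1 ht.2.1) (ht.2.2 s hs.1 hs.2.1)

theorem mem_Qd_of_rk {s t : End k M} (hs : s ∈ Qd G) (ht : t ∈ Q0 G) (h0 : t ≠ 0)
    (h : rk t ≤ rk s) : t ∈ Qd G :=
  ⟨ht, h0, fun u hu hu0 => h.trans (hs.2.2 u hu hu0)⟩

theorem eq_zero_of_rk_lt {s t : End k M} (hs : s ∈ Qd G) (ht : t ∈ Q0 G) (h : rk t < rk s) : t = 0 := by
  by_contra h0
  exact absurd (hs.2.2 t ht h0) (not_le.2 h)

theorem rk_pos {s : End k M} (hs : s ∈ Qd G) : 0 < rk s := by
  rw [Nat.pos_iff_ne_zero, Ne, rk_eq_zero]; exact hs.2.1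

theorem range_eq_of_le {s t : End k M} (hs : s ∈ Qd G) (ht : t ∈ Q0 G) (h0 : t ≠ 0)
    (h : LinearMap.range t ≤ LinearMap.range s) : LinearMap.range t = LinearMap.range s :=
  Submodule.eq_of_le_of_finrank_le h (hs.2.2 t ht h0)

theorem ker_eq_of_le {s t : End k M} (hs : s ∈ Qd G) (ht : t ∈ Q0 G) (h0 : t ≠ 0)
    (h : LinearMap.ker s ≤ LinearMap.ker t) : LinearMap.ker s = LinearMap.ker t := by
  apply Submodule.eq_of_le_of_finrank_le h
  have h1 := LinearMap.finrank_range_add_finrank_ker s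
  have h2 := LinearMap.finrank_range_add_finrank_ker t
  have h3 := hs.2.2 t ht h0
  unfold rk at h3
  omega

theorem smul_mem_Qd {s : End k M} (hs : s ∈ Qd G) {c : k} (hc : c ≠ 0) : c • s ∈ Qd G := by
  refine mem_Qd_of_rk hs (smul_mem_Q0 hs.1 c) (by simp [hc, hs.2.1]) ?_
  apply Submodule.finrank_mono
  rintro _ ⟨x, rfl⟩
  exact ⟨c • x, by simp⟩

theorem neg_mem_Qd {s : End k M} (hs : s ∈ Qd G) : -s ∈ Qd G := by
  have := smul_mem_Qd hs (c := -1) (by simp)
  simpa using this

/-! ### pairs with `sts = tst = 0` -/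

theorem comm_mem_Q0 {s t : End k M} (hs : s ∈ Q0 G) (ht : t ∈ Q0 G) (h1 : s * t * s = 0)
    (h2 : t * s * t = 0) : s * t - t * s ∈ Q0 G := by
  have hs2 := hs.1
  have ht2 := ht.1
  have a1 : ∀ x : End k M, s * (s * x) = 0 := fun x => by rw [← mul_assoc, hs2, zero_mul]
  have a2 : ∀ x : End k M, t * (t * x) = 0 := fun x => by rw [← mul_assoc, ht2, zero_mul]
  have a3 : s * (t * s) = 0 := by rw [← mul_assoc, h1]
  have a4 : t * (s * t) = 0 := by rw [← mul_assoc, h2]
  have a3' : ∀ x, s * (t * (s * x)) = 0 := fun x => by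
    rw [← mul_assoc t, ← mul_assoc, a3, zero_mul]
  have a4' : ∀ x, t * (s * (t * x)) = 0 := fun x => by
    rw [← mul_assoc s, ← mul_assoc, a4, zero_mul]
  have hsq : (s * t - t * s) * (s * t - t * s) = 0 := by
    simp only [mul_sub, sub_mul, mul_assoc, a1, a2, a3, a4, a3', a4', hs2, ht2, mul_zero]; simp
  refine ⟨hsq, fun c => ?_⟩
  have key : tv (c • (s * t - t * s)) = tv (c • s) * tv t * (tv (c • s))⁻¹ * (tv t)⁻¹ := by
    apply Units.ext
    rw [tv_inv (sqs hs.1 c), tv_inv ht2]
    simp only [Units.val_mul]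
    rw [tv_val (by simp [hsq]), tv_val (sqs hs.1 c), tv_val ht2, tv_val (by simp [hs2]), tv_val (by simp [ht2])]
    simp only [mul_add, add_mul, mul_one, one_mul, mul_neg, neg_mul, mul_assoc, smul_mul_assoc,
      mul_smul_comm, a1, a2, a3, a4, a3', a4', hs2, ht2, mul_zero, zero_mul, smul_zero, neg_zero]
    module
  rw [key]
  exact mul_mem (mul_mem (mul_mem (hs.2 c) (tv_mem ht)) (inv_mem (hs.2 c))) (inv_mem (tv_mem ht))

/-- Lemma A -/
theorem nilp_pair (h2 : (2 : k) ≠ 0) : ∀ (m : ℕ) {s t : End k M}, s ∈ Qd G → t ∈ Qd G →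
    (s * t + t * s) ^ m = 0 → s * t * s = 0 ∧ t * s * t = 0 := by
  intro m
  induction m using Nat.strong_induction_on with
  | _ m ih =>
    intro s t hs ht hz
    have hs2 := hs.1.1
    have ht2 := ht.1.1
    have b1 : ∀ x : End k M, s * (s * x) = 0 := fun x => by rw [← mul_assoc, hs2, zero_mul]
    have b2 : ∀ x : End k M, t * (t * x) = 0 := fun x => by rw [← mul_assoc, ht2, zero_mul]
    rcases Nat.lt_or_ge m 2 with hm | hm
    · -- z = 0 (or 1 = 0)
      have hz1 : s * t + t * s = 0 := by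
        interval_cases m
        · rw [pow_zero] at hz
          calc s * t + t * s = (s * t + t * s) * 1 := (mul_one _).symm
            _ = 0 := by rw [hz, mul_zero]
        · simpa using hz
      have hst : s * t = -(t * s) := eq_neg_of_add_eq_zero_left hz1
      have hts : t * s = -(s * t) := eq_neg_of_add_eq_zero_right hz1
      constructor
      · rw [hst, neg_mul, mul_assoc, hs2]; simp
      · rw [hts, neg_mul, mul_assoc, ht2]; simp
    · -- half exponent
      have half : ∀ {s t : End k M}, s ∈ Qd G → t ∈ Qd G → (s * t + t * s) ^ m = 0 →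
          s * t * s * t * s = 0 ∧ (∀ c : k, c * c = 1 →
            (2 * c) • (s * t * s) - (s * t * s * t - t * s * t * s) ∈ Q0 G) := by
        intro s t hs ht hz
        have hs2 := hs.1.1
        have ht2 := ht.1.1
        have b1 : ∀ x : End k M, s * (s * x) = 0 := fun x => by rw [← mul_assoc, hs2, zero_mul]
        have b2 : ∀ x : End k M, t * (t * x) = 0 := fun x => by rw [← mul_assoc, ht2, zero_mul]
        have claim : ∀ c : k, c * c = 1 → s * (cjE (tv (c • t)) s) * s = 0 ∧
            (cjE (tv (c • t)) s) * s * (cjE (tv (c • t)) s) = 0 := by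
          intro c hc
          have hs' : cjE (tv (c • t)) s ∈ Qd G := cj_mem_Qd hs (ht.1.2 c)
          have e1 : cjE (tv (c • t)) s = s + c • (t * s - s * t) - t * s * t := by
            rw [cjE_tv (sqs ht.1.1 c)]
            simp only [smul_mul_assoc, mul_smul_comm, smul_smul, hc, one_smul, smul_sub]
          have e2 : s * cjE (tv (c • t)) s + cjE (tv (c • t)) s * s = -((s * t + t * s) ^ 2) := by
            rw [e1, pow_two]
            simp only [mul_add, add_mul, mul_sub, sub_mul, mul_assoc, smul_mul_assoc, mul_smul_comm,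
              b1, b2, hs2, ht2, mul_zero, smul_zero]
            module
          apply ih ((m + 1) / 2) (by omega) hs hs'
          rw [e2, neg_pow, ← pow_mul]
          have : m ≤ 2 * ((m + 1) / 2) := by omega
          rw [pow_eq_zero_of_le this hz, mul_zero]
        have hw : s * t * s * t * s = 0 := by
          have h1 := (claim 1 (by ring)).1
          rw [cjE_tv (sqs ht.1.1 1), one_smul] at h1
          simp only [mul_add, add_mul, mul_sub, sub_mul, mul_assoc, b1, b2, hs2, ht2, mul_zero] at h1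
          simp only [mul_assoc]
          simpa using h1
        refine ⟨hw, fun c hc => ?_⟩
        obtain ⟨c1, c2⟩ := claim c hc
        have h3 := comm_mem_Q0 hs.1 (cj_mem_Q0 hs.1 (ht.1.2 c)) c1 c2
        have e1 : cjE (tv (c • t)) s = s + c • (t * s - s * t) - t * s * t := by
          rw [cjE_tv (sqs ht.1.1 c)]
          simp only [smul_mul_assoc, mul_smul_comm, smul_smul, hc, one_smul, smul_sub]
        rw [e1] at h3
        convert h3 using 1
        simp only [mul_add, add_mul, mul_sub, sub_mul, mul_assoc, smul_mul_assoc, mul_smul_comm,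
          b1, b2, hs2, ht2, mul_zero, smul_zero]
        module
      have fin : ∀ {s t : End k M}, s ∈ Qd G → t ∈ Qd G → (s * t + t * s) ^ m = 0 →
          s * t * s * t * s = 0 → t * s * t * s * t = 0 → s * t * s = 0 := by
        intro s t hs ht hz w1 w2
        have hs2 := hs.1.1
        have ht2 := ht.1.1
        have b1 : ∀ x : End k M, s * (s * x) = 0 := fun x => by rw [← mul_assoc, hs2, zero_mul]
        have b2 : ∀ x : End k M, t * (t * x) = 0 := fun x => by rw [← mul_assoc, ht2, zero_mul]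
        have b3 : s * (t * (s * (t * s))) = 0 := by simpa only [mul_assoc] using w1
        have b4 : t * (s * (t * (s * t))) = 0 := by simpa only [mul_assoc] using w2
        have b3' : ∀ x, s * (t * (s * (t * (s * x)))) = 0 := fun x => by
          have : s * (t * (s * (t * (s * x)))) = (s * (t * (s * (t * s)))) * x := by
            simp only [mul_assoc]
          rw [this, b3, zero_mul]
        have b4' : ∀ x, t * (s * (t * (s * (t * x)))) = 0 := fun x => by
          have : t * (s * (t * (s * (t * x)))) = (t * (s * (t * (s * t)))) * x := by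
            simp only [mul_assoc]
          rw [this, b4, zero_mul]
        have v1 := (half hs ht hz).2 1 (by ring)
        have v2 := (half hs ht hz).2 (-1) (by ring)
        have v3 := sub_mem_Q0 v1 v2 (by
            simp only [mul_sub, sub_mul, mul_assoc, smul_mul_assoc, mul_smul_comm, b1, b2, b3, b4,
              b3', b4', hs2, ht2, mul_zero, smul_zero]; simp) (by
            simp only [mul_sub, sub_mul, mul_assoc, smul_mul_assoc, mul_smul_comm, b1, b2, b3, b4,
              b3', b4', hs2, ht2, mul_zero, smul_zero]; simp)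
        have e : (2 * 1 : k) • (s * t * s) - (s * t * s * t - t * s * t * s) -
            ((2 * -1 : k) • (s * t * s) - (s * t * s * t - t * s * t * s)) = (2 * 2 : k) • (s * t * s) := by
          rw [show (2 * 2 : k) = 2 * 1 - 2 * -1 by ring, sub_smul]; abel
        rw [e] at v3
        have v4 := of_smul_mem_Q0 (mul_ne_zero h2 h2) v3
        by_contra hne
        have hr : LinearMap.range (s * t * s) = LinearMap.range s := by
          apply range_eq_of_le hs v4 hne
          rintro _ ⟨x, rfl⟩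
          exact ⟨t (s x), rfl⟩
        apply hs.2.1
        have h5 : ∀ x : M, s x = 0 := by
          intro x
          obtain ⟨y, hy⟩ : s x ∈ LinearMap.range (s * t * s) := by rw [hr]; exact ⟨x, rfl⟩
          obtain ⟨w, hw⟩ : s y ∈ LinearMap.range (s * t * s) := by rw [hr]; exact ⟨y, rfl⟩
          have h6 : s (t (s y)) = s x := hy
          rw [← h6, ← hw]
          have := LinearMap.congr_fun w1 w
          exact this
        exact LinearMap.ext h5
      have hz' : (t * s + s * t) ^ m = 0 := by rw [add_comm]; exact hz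
      have w1 := (half hs ht hz).1
      have w2 := (half ht hs hz').1
      exact ⟨fin hs ht hz w1 w2, fin ht hs hz' w2 w1⟩

/-! ### structure of commutator-type pairs -/

theorem finrank_map_add (t : End k M) (U : Submodule k M) :
    finrank k (U.map t) + finrank k ↥(U ⊓ LinearMap.ker t) = finrank k U := by
  have h := LinearMap.finrank_range_add_finrank_ker (t.domRestrict U)
  have h1 : LinearMap.range (t.domRestrict U) = U.map t := by
    ext x; constructor
    · rintro ⟨⟨y, hy⟩, rfl⟩; exact ⟨y, hy, rfl⟩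
    · rintro ⟨y, hy, rfl⟩; exact ⟨⟨y, hy⟩, rfl⟩
  have h2 : finrank k (LinearMap.ker (t.domRestrict U)) = finrank k ↥(U ⊓ LinearMap.ker t) := by
    have e : (LinearMap.ker (t.domRestrict U)).map U.subtype = U ⊓ LinearMap.ker t := by
      ext x; constructor
      · rintro ⟨⟨y, hy⟩, hy2, rfl⟩; exact ⟨hy, hy2⟩
      · rintro ⟨hx, hx2⟩; exact ⟨⟨x, hx⟩, hx2, rfl⟩
    rw [← e, Submodule.finrank_map_subtype_eq]
  rw [← h1, ← h2]; exact h

theorem range_mul (s t : End k M) : LinearMap.range (s * t) = (LinearMap.range t).map s :=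
  LinearMap.range_comp t s

theorem range_le_inf {s t : End k M} (h2 : t * s * t = 0) :
    LinearMap.range (s * t) ≤ LinearMap.range s ⊓ LinearMap.ker t := by
  rintro _ ⟨x, rfl⟩
  exact ⟨⟨t x, rfl⟩, LinearMap.congr_fun h2 x⟩

theorem rank_sum {s t : End k M} (h2 : t * s * t = 0) : rk (s * t) + rk (t * s) ≤ rk s := by
  have h := finrank_map_add t (LinearMap.range s)
  rw [← range_mul] at h
  have h3 := Submodule.finrank_mono (range_le_inf h2)
  unfold rk; omega

structure CP (s t : End k M) : Prop where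
  r1 : LinearMap.range (s * t) = LinearMap.range s ⊓ LinearMap.ker t
  r2 : LinearMap.range (t * s) = LinearMap.range t ⊓ LinearMap.ker s
  dis : Disjoint (LinearMap.range (s * t)) (LinearMap.range (t * s))
  ru : LinearMap.range (s * t - t * s) = LinearMap.range (s * t) ⊔ LinearMap.range (t * s)
  rk : rk (s * t - t * s) = rk s
  sum : CfsgLib.H14QP.rk (s * t) + CfsgLib.H14QP.rk (t * s) = CfsgLib.H14QP.rk s

theorem cp_of {s t : End k M} (hs : s ∈ Qd G) (ht : t ∈ Qd G) (h1 : s * t * s = 0)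
    (h2 : t * s * t = 0) (hu : s * t - t * s ≠ 0) : CP s t := by
  have hu0 := comm_mem_Q0 hs.1 ht.1 h1 h2
  have hd := hs.2.2 _ hu0 hu
  have hst := Qd_rk hs ht
  have hle : LinearMap.range (s * t - t * s) ≤ LinearMap.range (s * t) ⊔ LinearMap.range (t * s) := by
    rintro _ ⟨x, rfl⟩
    rw [LinearMap.sub_apply, sub_eq_add_neg]
    exact Submodule.add_mem_sup ⟨x, rfl⟩ (Submodule.neg_mem _ ⟨x, rfl⟩)
  have e1 := Submodule.finrank_sup_add_finrank_inf_eq (LinearMap.range (s * t)) (LinearMap.range (t * s))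
  have e2 := rank_sum h2
  have e3 := Submodule.finrank_mono hle
  have e4 := finrank_map_add t (LinearMap.range s)
  have e5 := finrank_map_add s (LinearMap.range t)
  rw [← range_mul] at e4 e5
  have l1 := Submodule.finrank_mono (range_le_inf h2)
  have l2 := Submodule.finrank_mono (range_le_inf h1)
  unfold rk at *
  refine ⟨?_, ?_, ?_, ?_, ?_, ?_⟩
  · apply Submodule.eq_of_le_of_finrank_le (range_le_inf h2); omega
  · apply Submodule.eq_of_le_of_finrank_le (range_le_inf h1); omega
  · rw [disjoint_iff, ← Submodule.finrank_eq_zero (R := k)]; omega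
  · apply Submodule.eq_of_le_of_finrank_le hle; omega
  · unfold CfsgLib.H14QP.rk; omega
  · unfold CfsgLib.H14QP.rk; omega

theorem ker_u {s t : End k M} (h : CP s t) (h1 : s * t * s = 0) (h2 : t * s * t = 0) :
    LinearMap.ker (s * t - t * s) =
      (LinearMap.ker s ⊔ LinearMap.range t) ⊓ (LinearMap.ker t ⊔ LinearMap.range s) := by
  ext x
  rw [LinearMap.mem_ker, LinearMap.sub_apply, Submodule.mem_inf]
  constructor
  · intro hx
    have hx2 : (s * t) x = (t * s) x := sub_eq_zero.1 hx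
    have h3 : (s * t) x = 0 := by
      have := h.dis.le_bot (show (s * t) x ∈ _ from ⟨⟨x, rfl⟩, by rw [hx2]; exact ⟨x, rfl⟩⟩)
      exact this
    have h4 : (t * s) x = 0 := by rw [← hx2, h3]
    constructor
    · -- s x ∈ range s ⊓ ker t = range (s*t)
      have : s x ∈ LinearMap.range (s * t) := by rw [h.r1]; exact ⟨⟨x, rfl⟩, h4⟩
      obtain ⟨y, hy⟩ := this
      have e : x = (x - t y) + t y := by abel
      rw [e]
      refine Submodule.add_mem_sup ?_ ⟨y, rfl⟩
      rw [LinearMap.mem_ker, map_sub, ← hy]; simp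
    · have : t x ∈ LinearMap.range (t * s) := by rw [h.r2]; exact ⟨⟨x, rfl⟩, h3⟩
      obtain ⟨y, hy⟩ := this
      have e : x = (x - s y) + s y := by abel
      rw [e]
      refine Submodule.add_mem_sup ?_ ⟨y, rfl⟩
      rw [LinearMap.mem_ker, map_sub, ← hy]; simp
  · rintro ⟨hx1, hx2⟩
    have e1 : (t * s) x = 0 := by
      obtain ⟨w, hw, _, ⟨y, rfl⟩, rfl⟩ := Submodule.mem_sup.1 hx1
      rw [LinearMap.mem_ker] at hw
      rw [map_add]
      have := LinearMap.congr_fun h2 y
      simp only [Module.End.mul_apply, LinearMap.zero_apply] at this ⊢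
      rw [hw, this]; simp
    have e2 : (s * t) x = 0 := by
      obtain ⟨w, hw, _, ⟨y, rfl⟩, rfl⟩ := Submodule.mem_sup.1 hx2
      rw [LinearMap.mem_ker] at hw
      rw [map_add]
      have := LinearMap.congr_fun h1 y
      simp only [Module.End.mul_apply, LinearMap.zero_apply] at this ⊢
      rw [hw, this]; simp
    rw [e1, e2, sub_zero]

/-- Lemma B -/
theorem lemmaB (h2 : (2 : k) ≠ 0) {s t s' : End k M} (hs : s ∈ Qd G) (ht : t ∈ Qd G) (hs' : s' ∈ Qd G)
    (hst : s * t = t * s) (hr : LinearMap.range s' = LinearMap.range s)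
    (hk : LinearMap.ker s' = LinearMap.ker s) : s' * t = t * s' := by
  have c1 : s * t * s = 0 := by rw [hst, mul_assoc, hs.1.1, mul_zero]
  have c2 : t * s * t = 0 := by rw [← hst, mul_assoc, ht.1.1, mul_zero]
  have a1 : s' * t * s' = 0 := by
    ext x
    obtain ⟨y, hy⟩ : s' x ∈ LinearMap.range s := by rw [← hr]; exact ⟨x, rfl⟩
    have h3 : t (s' x) ∈ LinearMap.ker s' := by
      rw [hk, ← hy, LinearMap.mem_ker]
      exact LinearMap.congr_fun c1 y
    exact h3
  have hz : (s' * t + t * s') ^ 2 = 0 := by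
    have ht2 := ht.1.1
    have b2 : ∀ x : End k M, t * (t * x) = 0 := fun x => by rw [← mul_assoc, ht2, zero_mul]
    have hs2 := hs'.1.1
    have b1 : ∀ x : End k M, s' * (s' * x) = 0 := fun x => by rw [← mul_assoc, hs2, zero_mul]
    have a2 : s' * (t * s') = 0 := by rw [← mul_assoc, a1]
    have a3 : ∀ x, s' * (t * (s' * x)) = 0 := fun x => by
      rw [← mul_assoc t, ← mul_assoc, a2, zero_mul]
    rw [pow_two]
    simp only [mul_add, add_mul, mul_assoc, b1, b2, a2, a3, mul_zero, add_zero]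
  obtain ⟨d1, d2⟩ := nilp_pair h2 2 hs' ht hz
  by_contra hne
  have hu : s' * t - t * s' ≠ 0 := sub_ne_zero.2 hne
  have cp := cp_of hs' ht d1 d2 hu
  -- ranges
  have q1 : LinearMap.range (s * t) ≤ LinearMap.range (s' * t) := by
    rw [cp.r1, hr]; exact range_le_inf c2
  have q2 : LinearMap.range (t * s) ≤ LinearMap.range (t * s') := by
    rw [cp.r2, hk]; exact range_le_inf c1
  have f1 := finrank_map_add s (LinearMap.range t)
  have f2 := finrank_map_add s' (LinearMap.range t)
  rw [hk] at f2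
  rw [← range_mul] at f1 f2
  have g1 : LinearMap.range (t * s') = LinearMap.range (t * s) := by
    rw [range_mul, range_mul, hr]
  have g2 : LinearMap.range (s * t) = LinearMap.range (s' * t) := by
    apply Submodule.eq_of_le_of_finrank_le q1; omega
  have hd := cp.dis
  rw [g1, ← g2, hst, disjoint_self] at hd
  have h0 := cp.sum
  have z1 : rk (s' * t) = 0 := by
    unfold rk; rw [← g2, hst, hd]; simp
  have z2 : rk (t * s') = 0 := by
    unfold rk; rw [g1, hd]; simp
  have := rk_pos hs'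
  omega

/-- all pairs of the two families commute once one pair does -/
theorem lemmaB2 (h2 : (2 : k) ≠ 0) {s t s' t' : End k M} (hs : s ∈ Qd G) (ht : t ∈ Qd G)
    (hs' : s' ∈ Qd G) (ht' : t' ∈ Qd G)
    (hst : s * t = t * s) (hr : LinearMap.range s' = LinearMap.range s)
    (hk : LinearMap.ker s' = LinearMap.ker s) (hr' : LinearMap.range t' = LinearMap.range t)
    (hk' : LinearMap.ker t' = LinearMap.ker t) : s' * t' = t' * s' :=
  (lemmaB h2 ht hs' ht' (lemmaB h2 hs ht hs' hst hr hk).symm hr' hk').symm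

/-! ### the spaces E(s) -/

variable (G) in
/-- the `k`-space of square-zero elements with image in `[M,s]` and kernel containing `C_M(s)` -/
def ES (s₀ : End k M) (h : s₀ * s₀ = 0) : Submodule k (End k M) where
  carrier := {s | s ∈ Q0 G ∧ LinearMap.range s ≤ LinearMap.range s₀ ∧ LinearMap.ker s₀ ≤ LinearMap.ker s}
  zero_mem' := ⟨zero_mem_Q0, by simp, by simp⟩
  add_mem' := by
    rintro s t ⟨hs, hs1, hs2⟩ ⟨ht, ht1, ht2⟩
    have prod : ∀ {a b : End k M}, LinearMap.range b ≤ LinearMap.range s₀ →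
        LinearMap.ker s₀ ≤ LinearMap.ker a → a * b = 0 := by
      intro a b hb ha
      ext x
      obtain ⟨y, hy⟩ := hb ⟨x, rfl⟩
      apply ha
      rw [← hy]
      exact LinearMap.congr_fun h y
    refine ⟨add_mem_Q0 hs ht (prod ht1 hs2) (prod hs1 ht2), ?_, ?_⟩
    · rintro _ ⟨x, rfl⟩
      exact Submodule.add_mem _ (hs1 ⟨x, rfl⟩) (ht1 ⟨x, rfl⟩)
    · intro x hx
      have e1 := hs2 hx
      have e2 := ht2 hx
      rw [LinearMap.mem_ker] at e1 e2 ⊢
      rw [LinearMap.add_apply, e1, e2, add_zero]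
  smul_mem' := by
    rintro c s ⟨hs, hs1, hs2⟩
    refine ⟨smul_mem_Q0 hs c, ?_, ?_⟩
    · rintro _ ⟨x, rfl⟩
      exact Submodule.smul_mem _ c (hs1 ⟨x, rfl⟩)
    · intro x hx
      have e1 := hs2 hx
      rw [LinearMap.mem_ker] at e1 ⊢
      rw [LinearMap.smul_apply, e1, smul_zero]

theorem mem_ES {s₀ s : End k M} {h : s₀ * s₀ = 0} : s ∈ ES G s₀ h ↔
    s ∈ Q0 G ∧ LinearMap.range s ≤ LinearMap.range s₀ ∧ LinearMap.ker s₀ ≤ LinearMap.ker s := Iff.rfl

theorem self_mem_ES {s₀ : End k M} (h : s₀ ∈ Q0 G) : s₀ ∈ ES G s₀ h.1 := ⟨h, le_rfl, le_rfl⟩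

theorem ES_mul {s₀ : End k M} {h : s₀ * s₀ = 0} {a b : End k M} (ha : a ∈ ES G s₀ h)
    (hb : b ∈ ES G s₀ h) : a * b = 0 := by
  ext x
  obtain ⟨y, hy⟩ := hb.2.1 ⟨x, rfl⟩
  apply ha.2.2
  rw [← hy]
  exact LinearMap.congr_fun h y

theorem ES_ne_zero {s₀ : End k M} (h : s₀ ∈ Qd G) {a : End k M} (ha : a ∈ ES G s₀ h.1.1)
    (h0 : a ≠ 0) : a ∈ Qd G ∧ LinearMap.range a = LinearMap.range s₀ ∧
      LinearMap.ker a = LinearMap.ker s₀ := by
  have hr := range_eq_of_le h ha.1 h0 ha.2.1
  refine ⟨mem_Qd_of_rk h ha.1 h0 ?_, hr, (ker_eq_of_le h ha.1 h0 ha.2.2).symm⟩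
  unfold rk; rw [hr]

/-- the group `{1 + s | s ∈ ES}` -/
noncomputable def EG (s₀ : End k M) (h : s₀ * s₀ = 0) (G : Subgroup (LinearMap.GeneralLinearGroup k M)) :
    Subgroup (LinearMap.GeneralLinearGroup k M) where
  carrier := {g | ∃ s ∈ ES G s₀ h, g = tv s}
  one_mem' := ⟨0, zero_mem _, tv_zero.symm⟩
  mul_mem' := by
    rintro _ _ ⟨s, hs, rfl⟩ ⟨t, ht, rfl⟩
    exact ⟨s + t, add_mem hs ht, tv_mul hs.1.1 ht.1.1 (ES_mul hs ht) (ES_mul ht hs)⟩
  inv_mem' := by
    rintro _ ⟨s, hs, rfl⟩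
    exact ⟨-s, neg_mem hs, tv_inv hs.1.1⟩

theorem mem_EG {s₀ : End k M} {h : s₀ * s₀ = 0} {g : LinearMap.GeneralLinearGroup k M} :
    g ∈ EG s₀ h G ↔ ∃ s ∈ ES G s₀ h, g = tv s := Iff.rfl

theorem EG_le {s₀ : End k M} {h : s₀ * s₀ = 0} : EG s₀ h G ≤ G := by
  rintro _ ⟨s, hs, rfl⟩; exact tv_mem hs.1

theorem EG_comm {s₀ : End k M} {h : s₀ * s₀ = 0} : IsMulCommutative (EG s₀ h G) := by
  apply CfsgLib.H14RS.comm_of_el
  rintro _ ⟨s, hs, rfl⟩ _ ⟨t, ht, rfl⟩
  rw [tv_mul hs.1.1 ht.1.1 (ES_mul hs ht) (ES_mul ht hs),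
    tv_mul ht.1.1 hs.1.1 (ES_mul ht hs) (ES_mul hs ht), add_comm]

/-! ### translation to the prelude notions -/

theorem quad_iff {σ : LinearMap.GeneralLinearGroup k M} :
    σ ∈ quadraticElements G ↔ (σ : End k M) - 1 ∈ Q0 G ∧ (σ : End k M) - 1 ≠ 0 := by
  constructor
  · rintro ⟨hσ, ⟨h1, h2⟩, h3⟩
    refine ⟨⟨h1, fun c => h3 ⟨c, ?_⟩⟩, h2⟩
    rw [tv_val (by simp [h1])]
  · rintro ⟨⟨h1, h3⟩, h2⟩
    refine ⟨?_, ⟨h1, h2⟩, ?_⟩
    · have := h3 1
      rw [one_smul] at this
      convert this using 1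
      apply Units.ext
      rw [tv_val h1]; abel
    · rintro τ ⟨c, hc⟩
      have e : τ = tv (c • ((σ : End k M) - 1)) := Units.ext (by rw [tv_val (by simp [h1]), hc])
      rw [e]
      exact h3 c

theorem minquad_iff {σ : LinearMap.GeneralLinearGroup k M} :
    σ ∈ minimalQuadraticElements G ↔ (σ : End k M) - 1 ∈ Qd G := by
  have hr : ∀ τ : LinearMap.GeneralLinearGroup k M, commutatorRank τ = rk ((τ : End k M) - 1) :=
    fun _ => rfl
  constructor
  · rintro ⟨h1, h2⟩
    obtain ⟨h3, h4⟩ := quad_iff.1 h1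
    refine ⟨h3, h4, fun t ht ht0 => ?_⟩
    have h5 := h2 (tv t) (quad_iff.2 (by rw [tv_val ht.1]; simpa using ⟨ht, ht0⟩))
    rw [hr, hr, tv_val ht.1] at h5
    simpa using h5
  · rintro ⟨h1, h2, h3⟩
    refine ⟨quad_iff.2 ⟨h1, h2⟩, fun τ hτ => ?_⟩
    obtain ⟨h4, h5⟩ := quad_iff.1 hτ
    exact h3 _ h4 h5

theorem tv_sub_one {s : End k M} (h : s * s = 0) : ((tv s : LinearMap.GeneralLinearGroup k M) : End k M) - 1 = s := by
  rw [tv_val h]; abel

theorem eq_tv {σ : LinearMap.GeneralLinearGroup k M} (h : ((σ : End k M) - 1) * ((σ : End k M) - 1) = 0) :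
    σ = tv ((σ : End k M) - 1) := by
  apply Units.ext; rw [tv_val h]; abel

theorem sac_iff {σ τ : LinearMap.GeneralLinearGroup k M} (hσ : (σ : End k M) - 1 ∈ Qd G) :
    τ ∈ sameActionClass G σ ↔ (τ : End k M) - 1 ∈ ES G ((σ : End k M) - 1) hσ.1.1 ∧ (τ : End k M) - 1 ≠ 0 := by
  constructor
  · rintro ⟨h1, h2, h3⟩
    rw [minquad_iff] at h1
    exact ⟨⟨h1.1, h3.le, h2.ge⟩, h1.2.1⟩
  · rintro ⟨h1, h2⟩
    obtain ⟨h3, h4, h5⟩ := ES_ne_zero hσ h1 h2
    exact ⟨minquad_iff.2 h3, h5, h4⟩

theorem sas_eq {σ : LinearMap.GeneralLinearGroup k M} (hσ : (σ : End k M) - 1 ∈ Qd G) :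
    sameActionSubgroup G σ = EG ((σ : End k M) - 1) hσ.1.1 G := by
  apply le_antisymm
  · rw [sameActionSubgroup, Subgroup.closure_le]
    intro τ hτ
    rw [sac_iff hσ] at hτ
    exact ⟨_, hτ.1, eq_tv hτ.1.1.1⟩
  · rintro _ ⟨s, hs, rfl⟩
    by_cases h0 : s = 0
    · rw [h0, tv_zero]; exact one_mem _
    · apply Subgroup.subset_closure
      rw [sac_iff hσ, tv_sub_one hs.1.1]
      exact ⟨hs, h0⟩

theorem qrs_iff {A : Subgroup (LinearMap.GeneralLinearGroup k M)} :
    A ∈ quadraticRootSubgroups G ↔ ∃ (s : End k M) (h : s ∈ Qd G), A = EG s h.1.1 G := by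
  constructor
  · rintro ⟨σ, hσ, rfl⟩
    rw [minquad_iff] at hσ
    exact ⟨_, hσ, sas_eq hσ⟩
  · rintro ⟨s, h, rfl⟩
    have h1 : ((tv s : LinearMap.GeneralLinearGroup k M) : End k M) - 1 ∈ Qd G := by
      rw [tv_sub_one h.1.1]; exact h
    refine ⟨tv s, minquad_iff.2 h1, ?_⟩
    rw [sas_eq h1]
    congr 1
    exact (tv_sub_one h.1.1).symm

end fd

end CfsgLib.H14QP
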