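import Cfsg.Agent.LibH14KT2

/-! Quadratic pairs: rank one groups and unipotent pairs (seat helper14). -/

set_option autoImplicit false

namespace CfsgLib.H14QR

open Cfsg CfsgLib.H14R1 CfsgLib.H14QP CfsgLib.H14KT Module Polynomial

variable {k : Type*} [Field k] {M : Type*} [AddCommGroup M] [Module k M]

/-! ### opposite pairs -/

/-- opposite square zero elements -/
structure Opp (s t : End k M) : Prop where
  s2 : s * s = 0
  t2 : t * t = 0
  sts : s * t * s = s
  tst : t * s * t = t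

section opp
variable {s t : End k M}

theorem Opp.symm (h : Opp s t) : Opp t s := ⟨h.t2, h.s2, h.tst, h.sts⟩

theorem Opp.ss (h : Opp s t) (x : End k M) : s * (s * x) = 0 := by rw [← mul_assoc, h.s2, zero_mul]
theorem Opp.tt (h : Opp s t) (x : End k M) : t * (t * x) = 0 := by rw [← mul_assoc, h.t2, zero_mul]
theorem Opp.sts' (h : Opp s t) : s * (t * s) = s := by rw [← mul_assoc, h.sts]
theorem Opp.tst' (h : Opp s t) : t * (s * t) = t := by rw [← mul_assoc, h.tst]
theorem Opp.stsx (h : Opp s t) (x : End k M) : s * (t * (s * x)) = s * x := by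
  rw [← mul_assoc t, ← mul_assoc, h.sts']
theorem Opp.tstx (h : Opp s t) (x : End k M) : t * (s * (t * x)) = t * x := by
  rw [← mul_assoc s, ← mul_assoc, h.tst']

theorem Opp.special (h : Opp s t) : (tv t)⁻¹ * tv s * tv t = (tv s)⁻¹ * (tv t)⁻¹ * tv s := by
  apply Units.ext
  rw [tv_inv h.t2, tv_inv h.s2]
  simp only [Units.val_mul]
  rw [tv_val h.s2, tv_val h.t2, tv_val (by simp [h.t2]), tv_val (by simp [h.s2])]
  simp only [mul_add, add_mul, mul_one, one_mul, mul_neg, neg_mul, mul_assoc, h.ss, h.tt, h.s2, h.t2, h.sts',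
    h.tst', mul_zero, zero_mul, neg_zero, neg_neg]
  abel

theorem Opp.cj (h : Opp s t) : cjE (tv t)⁻¹ s = cjE (tv s)⁻¹ (-t) := by
  have h1 := h.special
  have e1 : (tv t)⁻¹ * tv s * tv t = tv (cjE (tv t)⁻¹ s) := by
    have := tv_conj h.s2 (tv t)⁻¹
    rw [inv_inv] at this
    rw [this]; unfold cjE; rw [inv_inv]
  have e2 : (tv s)⁻¹ * (tv t)⁻¹ * tv s = tv (cjE (tv s)⁻¹ (-t)) := by
    have := tv_conj (s := -t) (by simp [h.t2]) (tv s)⁻¹
    rw [inv_inv] at this
    rw [tv_inv h.t2, this]; unfold cjE; rw [inv_inv]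
  rw [e1, e2] at h1
  have h2 := congrArg Units.val h1
  rw [tv_val, tv_val] at h2
  · exact add_left_cancel h2
  · rw [← cjE_mul]; simp [h.t2, cjE_zero]
  · rw [← cjE_mul, h.s2, cjE_zero]

end opp

/-! ### EG -/

section eg
variable [FiniteDimensional k M] {G : Subgroup (LinearMap.GeneralLinearGroup k M)} {s t : End k M}

theorem ES_congr {s s' : End k M} {h : s * s = 0} {h' : s' * s' = 0} (hr : LinearMap.range s = LinearMap.range s')
    (hk : LinearMap.ker s = LinearMap.ker s') : ES G s h = ES G s' h' := by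
  ext x; rw [mem_ES, mem_ES, hr, hk]

theorem EG_congr {s s' : End k M} {h : s * s = 0} {h' : s' * s' = 0} (hr : LinearMap.range s = LinearMap.range s')
    (hk : LinearMap.ker s = LinearMap.ker s') : EG s h G = EG s' h' G := by
  ext x; rw [mem_EG, mem_EG, ES_congr hr hk]

theorem cj_sq {g : LinearMap.GeneralLinearGroup k M} (h : s * s = 0) : cjE g s * cjE g s = 0 := by
  rw [← cjE_mul, h, cjE_zero]

theorem cjE_apply (g : LinearMap.GeneralLinearGroup k M) (s : End k M) (x : M) :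
    cjE g s ((g : End k M) x) = (g : End k M) (s x) := by
  have h1 : ((g⁻¹ : LinearMap.GeneralLinearGroup k M) : End k M) * (g : End k M) = 1 := g.inv_mul
  have := LinearMap.congr_fun h1 x
  show (g : End k M) (s (((g⁻¹ : LinearMap.GeneralLinearGroup k M) : End k M) ((g : End k M) x))) = _
  have h2 : ((g⁻¹ : LinearMap.GeneralLinearGroup k M) : End k M) ((g : End k M) x) = x := this
  rw [h2]

theorem surj_g (g : LinearMap.GeneralLinearGroup k M) (x : M) : ∃ y, (g : End k M) y = x := by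
  have h1 : (g : End k M) * ((g⁻¹ : LinearMap.GeneralLinearGroup k M) : End k M) = 1 := g.mul_inv
  exact ⟨_, LinearMap.congr_fun h1 x⟩

theorem inj_g (g : LinearMap.GeneralLinearGroup k M) {x : M} (h : (g : End k M) x = 0) : x = 0 := by
  have h1 : ((g⁻¹ : LinearMap.GeneralLinearGroup k M) : End k M) * (g : End k M) = 1 := g.inv_mul
  have h2 := LinearMap.congr_fun h1 x
  have h3 : ((g⁻¹ : LinearMap.GeneralLinearGroup k M) : End k M) ((g : End k M) x) = x := h2
  rw [h, map_zero] at h3; exact h3.symm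

theorem cj_mem_ES {g : LinearMap.GeneralLinearGroup k M} (hg : g ∈ G) {h : s * s = 0} {x : End k M}
    (hx : x ∈ ES G s h) : cjE g x ∈ ES G (cjE g s) (cj_sq h) := by
  refine ⟨cj_mem_Q0 hx.1 hg, ?_, ?_⟩
  · rintro _ ⟨y, rfl⟩
    obtain ⟨y', rfl⟩ := surj_g g y
    rw [cjE_apply]
    obtain ⟨w, hw⟩ := hx.2.1 ⟨y', rfl⟩
    exact ⟨(g : End k M) w, by rw [cjE_apply, hw]⟩
  · intro y hy
    obtain ⟨y', rfl⟩ := surj_g g y
    rw [LinearMap.mem_ker, cjE_apply] at hy ⊢
    have h1 := inj_g g hy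
    have h2 : x y' = 0 := hx.2.2 h1
    rw [h2, map_zero]

theorem ES_cj {g : LinearMap.GeneralLinearGroup k M} (hg : g ∈ G) {h : s * s = 0} {x : End k M} :
    x ∈ ES G (cjE g s) (cj_sq h) ↔ cjE g⁻¹ x ∈ ES G s h := by
  constructor
  · intro hx
    have h1 := cj_mem_ES (inv_mem hg) hx
    rw [mem_ES] at h1 ⊢
    rwa [cjE_inv_cjE] at h1
  · intro hx
    have h1 := cj_mem_ES hg hx
    rw [cjE_cjE, mul_inv_cancel, cjE_one] at h1
    exact h1

theorem tv_cj {g : LinearMap.GeneralLinearGroup k M} (h : s * s = 0) : g * tv s * g⁻¹ = tv (cjE g s) := tv_conj h g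

theorem EG_conj {g : LinearMap.GeneralLinearGroup k M} (hg : g ∈ G) {h : s * s = 0} :
    conjBy (EG s h G) g = EG (cjE g s) (cj_sq h) G := by
  ext x
  rw [mem_cj]
  constructor
  · rintro ⟨y, hy, e⟩
    refine ⟨cjE g y, cj_mem_ES hg hy, ?_⟩
    rw [← tv_cj hy.1.1, ← e]; group
  · rintro ⟨y, hy, rfl⟩
    have h1 := (ES_cj (h := h) hg).1 hy
    refine ⟨_, h1, ?_⟩
    have := tv_cj (g := g⁻¹) hy.1.1
    rw [inv_inv] at this
    exact this

theorem EG_neg {h : s * s = 0} {h' : -s * -s = 0} : EG (-s) h' G = EG s h G := by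
  apply EG_congr
  · ext x; constructor
    · rintro ⟨y, rfl⟩; exact ⟨-y, by simp⟩
    · rintro ⟨y, rfl⟩; exact ⟨-y, by simp⟩
  · ext x; simp

theorem EG_of_mem (hs : s ∈ Qd G) {s' : End k M} (h : s' ∈ ES G s hs.1.1) (h0 : s' ≠ 0) :
    EG s' h.1.1 G = EG s hs.1.1 G := by
  obtain ⟨-, h1, h2⟩ := ES_ne_zero hs h h0
  exact EG_congr h1 h2

end eg

section main
variable [FiniteDimensional k M] {G : Subgroup (LinearMap.GeneralLinearGroup k M)} {s t : End k M}

theorem ev_symm (f : k[X]) : ev t s f = ev s t f := by unfold ev; rw [add_comm]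

/-- `U ∩ ker t = 0` and `range t ∩ ker s = 0` in the non nilpotent case -/
theorem NN.inj_t (h : NN G s t) {x : M} (hx : t (s x) = 0) : s x = 0 := by
  apply h.inj
  show s (t (s x)) + t (s (s x)) = 0
  have : s (s x) = 0 := LinearMap.congr_fun h.hs2 x
  rw [hx, this, map_zero, map_zero, add_zero]

theorem nn_all (h : NN G s t) {s' t' : End k M} (hs' : s' ∈ ES G s h.hs2) (hs0 : s' ≠ 0)
    (ht' : t' ∈ ES G t h.ht2) (ht0 : t' ≠ 0) : NN G s' t' := by
  obtain ⟨a1, a2, a3⟩ := ES_ne_zero h.hs hs' hs0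
  obtain ⟨b1, b2, b3⟩ := ES_ne_zero h.ht ht' ht0
  refine ⟨h.h2, h.h3, a1, b1, ?_⟩
  rintro ⟨m, hm⟩
  obtain ⟨n1, -⟩ := nilp_pair h.h2 m a1 b1 hm
  apply hs0
  ext x
  show s' x = 0
  obtain ⟨y, hy⟩ := hs'.2.1 ⟨x, rfl⟩
  -- t' (s' x) = t w with s (t w) = 0
  have h1 : t' (s' x) ∈ LinearMap.ker s := by
    rw [← a3]; exact LinearMap.congr_fun n1 x
  obtain ⟨w, hw⟩ := ht'.2.1 ⟨s' x, rfl⟩
  rw [← hw, LinearMap.mem_ker] at h1
  have h2 := CfsgLib.H14QR.NN.inj_t h.symm h1
  have h3 : s' x ∈ LinearMap.ker t' := by rw [LinearMap.mem_ker, ← hw, h2]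
  rw [b3, ← hy, LinearMap.mem_ker] at h3
  rw [← hy]
  exact CfsgLib.H14QR.NN.inj_t h h3

/-- in the nilpotent case all triple products vanish -/
theorem nil_all (h2 : (2 : k) ≠ 0) (h3 : Nat.card k ≠ 3) (hs : s ∈ Qd G) (ht : t ∈ Qd G)
    (hn : IsNilpotent (s * t + t * s)) {s' t' : End k M} (hs' : s' ∈ ES G s hs.1.1)
    (ht' : t' ∈ ES G t ht.1.1) : s' * t' * s' = 0 ∧ t' * s' * t' = 0 := by
  by_cases hs0 : s' = 0
  · simp [hs0]
  by_cases ht0 : t' = 0
  · simp [ht0]
  obtain ⟨a1, a2, a3⟩ := ES_ne_zero hs hs' hs0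
  obtain ⟨b1, b2, b3⟩ := ES_ne_zero ht ht' ht0
  have hn' : IsNilpotent (s' * t' + t' * s') := by
    by_contra hc
    have h : NN G s' t' := ⟨h2, h3, a1, b1, hc⟩
    have := nn_all h (s' := s) (t' := t) ⟨hs.1, a2.ge, a3.le⟩ hs.2.1 ⟨ht.1, b2.ge, b3.le⟩ ht.2.1
    exact this.hn hn
  obtain ⟨m, hm⟩ := hn'
  exact nilp_pair h2 m a1 b1 hm

/-- existence of opposite elements -/
theorem nn_opp (h : NN G s t) : ∃ t', t' ∈ ES G t h.ht2 ∧ t' ≠ 0 ∧ Opp s t' := by
  obtain ⟨y, hy⟩ := (AI_unit h.ca).exists_right_inv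
  obtain ⟨f, rfl⟩ := Ideal.Quotient.mk_surjective y
  have hf : X * f - 1 ∈ AI s t := by
    rw [← Ideal.Quotient.eq_zero_iff_mem, map_sub, map_one, map_mul, hy, sub_self]
  have e1 : ev s t (X * f) * s = s := by
    have := h.mem_iff.1 hf
    rw [ev_sub, sub_mul, ev_one, one_mul, sub_eq_zero] at this
    exact this
  have e2 : ev s t (X * f) * t = t := by
    have := h.mem_t hf
    rw [ev_sub, sub_mul, ev_one, one_mul, sub_eq_zero] at this
    exact this
  have hs2 := h.hs2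
  have ht2 := h.ht2
  have hQ : ev s t f * t ∈ Q0 G := by
    have := h.symm.key f
    rwa [ev_symm] at this
  have zs : s * t * s = ev s t X * s := by
    rw [ev_X, add_mul, mul_assoc t, hs2, mul_zero, add_zero]
  have zt : t * s * t = ev s t X * t := by
    rw [ev_X, add_mul, mul_assoc s t t, ht2, mul_zero, zero_add]
  have o1 : s * (ev s t f * t) * s = s := by
    calc s * (ev s t f * t) * s = ev s t f * (s * t * s) := by
          rw [← mul_assoc, s_ev hs2, mul_assoc, mul_assoc, mul_assoc]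
      _ = ev s t (X * f) * s := by rw [zs, ← mul_assoc, ← ev_mul, mul_comm f]
      _ = s := e1
  have o2 : ev s t f * t * s * (ev s t f * t) = ev s t f * t := by
    calc ev s t f * t * s * (ev s t f * t) = ev s t f * (ev s t f * (t * s * t)) := by
          have : t * s * (ev s t f * t) = ev s t f * (t * s * t) := by
            rw [mul_assoc, ← mul_assoc s, s_ev hs2, mul_assoc, ← mul_assoc t, t_ev ht2, mul_assoc, mul_assoc]
          rw [mul_assoc (ev s t f * t), mul_assoc (ev s t f), ← mul_assoc t s, this]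
      _ = ev s t f * (ev s t (X * f) * t) := by rw [zt, ← mul_assoc (ev s t f) (ev s t X), ← ev_mul, mul_comm f X]
      _ = ev s t f * t := by rw [e2]
  have hne : ev s t f * t ≠ 0 := by
    intro h0
    rw [h0] at o1
    apply h.hs.2.1
    rw [← o1]; simp
  refine ⟨ev s t f * t, ⟨hQ, ?_, ?_⟩, hne, hs2, hQ.1, o1, o2⟩
  · rw [← t_ev ht2]; rintro _ ⟨x, rfl⟩; exact ⟨_, rfl⟩
  · intro x hx
    rw [LinearMap.mem_ker] at hx ⊢
    show ev s t f (t x) = 0
    rw [hx, map_zero]

theorem rc_of (h : NN G s t) : RankOneCondition (EG s h.hs2 G) (EG t h.ht2 G) := by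
  rintro a ⟨s', hs', rfl⟩ ha
  have hs0 : s' ≠ 0 := by rintro rfl; exact ha tv_zero
  have h1 := nn_all h hs' hs0 (self_mem_ES h.ht.1) h.ht.2.1
  obtain ⟨t', ht', ht0, ho⟩ := nn_opp h1
  have ht'' : t' ∈ ES G t h.ht2 := ht'
  refine ⟨tv t', ⟨t', ht'', rfl⟩, ?_, ?_⟩
  · rw [Ne, tv_eq_one ho.t2]; exact ht0
  · rw [← EG_of_mem h.hs hs' hs0, ← EG_of_mem h.ht ht'' ht0,
      EG_conj (inv_mem (tv_mem ht''.1)), EG_conj (inv_mem (tv_mem hs'.1))]
    have e := ho.cj
    have e2 : cjE (tv s')⁻¹ (-t') = -cjE (tv s')⁻¹ t' := by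
      have := cjE_smul (tv s')⁻¹ (-1 : k) t'
      simpa using this
    rw [e2] at e
    have e3 : EG (cjE (tv t')⁻¹ s') (cj_sq hs'.1.1) G = EG (-cjE (tv s')⁻¹ t')
        (by rw [← e]; exact cj_sq hs'.1.1) G := by
      congr 1
    rw [e3, EG_neg]

theorem EG_ne_bot (hs : s ∈ Qd G) : EG s hs.1.1 G ≠ ⊥ := by
  intro h
  have : tv s ∈ EG s hs.1.1 G := ⟨s, self_mem_ES hs.1, rfl⟩
  rw [h, Subgroup.mem_bot, tv_eq_one hs.1.1] at this
  exact hs.2.1 this

theorem special_of (h : NN G s t) : IsSpecialRankOnePair (EG s h.hs2 G) (EG t h.ht2 G) := by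
  have hp : IsRankOnePair (EG s h.hs2 G) (EG t h.ht2 G) := by
    refine ⟨?_, ?_, ?_, rc_of h, rc_of h.symm⟩
    · intro e
      -- s ∈ ES t : then s * t = 0
      have h1 : tv s ∈ EG t h.ht2 G := by rw [← e]; exact ⟨s, self_mem_ES h.hs.1, rfl⟩
      obtain ⟨s', hs', e2⟩ := h1
      have e3 : s = s' := by
        have := congrArg Units.val e2
        rw [tv_val h.hs2, tv_val hs'.1.1] at this
        exact add_left_cancel this
      subst e3
      have p1 := ES_mul hs' (self_mem_ES h.ht.1)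
      have p2 := ES_mul (self_mem_ES h.ht.1) hs'
      apply h.hn
      rw [p1, p2, add_zero]; exact IsNilpotent.zero
    · exact CfsgLib.H14RS.nil_comm EG_comm
    · exact CfsgLib.H14RS.nil_comm EG_comm
  refine ⟨hp, ?_⟩
  rintro a ⟨s', hs', rfl⟩ ha b hb hb1 e
  have hs0 : s' ≠ 0 := by rintro rfl; exact ha tv_zero
  have h1 := nn_all h hs' hs0 (self_mem_ES h.ht.1) h.ht.2.1
  obtain ⟨t', ht', ht0, ho⟩ := nn_opp h1
  have ht'' : t' ∈ ES G t h.ht2 := ht'
  have e' : conjBy (EG s h.hs2 G) (tv t')⁻¹ = conjBy (EG t h.ht2 G) (tv s')⁻¹ := by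
    rw [← EG_of_mem h.hs hs' hs0, ← EG_of_mem h.ht ht'' ht0,
      EG_conj (inv_mem (tv_mem ht''.1)), EG_conj (inv_mem (tv_mem hs'.1))]
    have e := ho.cj
    have e2 : cjE (tv s')⁻¹ (-t') = -cjE (tv s')⁻¹ t' := by
      have := cjE_smul (tv s')⁻¹ (-1 : k) t'
      simpa using this
    rw [e2] at e
    have e3 : EG (cjE (tv t')⁻¹ s') (cj_sq hs'.1.1) G = EG (-cjE (tv s')⁻¹ t')
        (by rw [← e]; exact cj_sq hs'.1.1) G := by
      congr 1
    rw [e3, EG_neg]
  have hbt : b = tv t' := partner_unique hp hb ⟨t', ht'', rfl⟩ e e'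
  rw [hbt]
  exact ho.special

end main

/-! ### unipotent action, fixed space and commutator space -/

section unip
open CfsgLib.H14Unip
variable [FiniteDimensional k M] {G : Subgroup (LinearMap.GeneralLinearGroup k M)} {s t : End k M}

theorem unip_of_flag {S : Set (LinearMap.GeneralLinearGroup k M)} (N : ℕ → Submodule k M) (n : ℕ) (h0 : N 0 = ⊥)
    (hn : N n = ⊤) (h : ∀ g ∈ S, ∀ i, ∀ m ∈ N (i + 1), ap g m - m ∈ N i) :
    IsUnipotentOn (Subgroup.closure S) := by
  rw [unip_iff_fl]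
  have key : ∀ i, N i ≤ fl (Subgroup.closure S) i := by
    intro i
    induction i with
    | zero => rw [h0]; exact bot_le
    | succ i ih =>
      intro m hm g hg
      induction hg using Subgroup.closure_induction with
      | mem x hx => exact ih (h x hx i m hm)
      | one => rw [ap_one, sub_self]; exact zero_mem _
      | mul x y hx _ ihx ihy =>
        have : ap (x * y) m - m = ap x (ap y m - m) + (ap x m - m) := by rw [ap_mul, ap_sub]; abel
        rw [this]
        exact add_mem (fl_inv _ i x hx _ ihy) ihx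
      | inv x hx ih' =>
        have : ap x⁻¹ m - m = -(ap x⁻¹ (ap x m - m)) := by rw [ap_sub, ap_inv]; abel
        rw [this]
        exact neg_mem (fl_inv _ i _ (inv_mem hx) _ ih')
  refine ⟨n, ?_⟩
  rw [eq_top_iff, ← hn]; exact key n

theorem ap_tv {x : End k M} (hx : x * x = 0) (m : M) : ap (tv x) m - m = x m := by
  unfold ap; rw [tv_val hx, LinearMap.add_apply, Module.End.one_apply]; abel

theorem nil_unip (h2 : (2 : k) ≠ 0) (h3 : Nat.card k ≠ 3) (hs : s ∈ Qd G) (ht : t ∈ Qd G)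
    (hn : IsNilpotent (s * t + t * s)) : IsUnipotentOn (EG s hs.1.1 G ⊔ EG t ht.1.1 G) := by
  rw [Subgroup.sup_eq_closure]
  apply unip_of_flag (fun i => match i with
    | 0 => ⊥
    | 1 => (LinearMap.range s ⊓ LinearMap.ker t) ⊔ (LinearMap.range t ⊓ LinearMap.ker s)
    | 2 => LinearMap.range s ⊔ LinearMap.range t
    | _ => ⊤) 3 rfl rfl
  have gen : ∀ {s t : End k M} (hs : s ∈ Qd G) (ht : t ∈ Qd G), IsNilpotent (s * t + t * s) →
      ∀ s' ∈ ES G s hs.1.1, (∀ m ∈ (LinearMap.range s ⊓ LinearMap.ker t) ⊔ (LinearMap.range t ⊓ LinearMap.ker s), s' m = 0) ∧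
      (∀ m ∈ LinearMap.range s ⊔ LinearMap.range t, s' m ∈ LinearMap.range s ⊓ LinearMap.ker t) ∧
      (∀ m, s' m ∈ LinearMap.range s) := by
    intro s t hs ht hn s' hs'
    have e0 : ∀ x, s' (s x) = 0 := fun x => LinearMap.congr_fun (ES_mul hs' (self_mem_ES hs.1)) x
    refine ⟨?_, ?_, fun m => hs'.2.1 ⟨m, rfl⟩⟩
    · intro m hm
      obtain ⟨a, ⟨⟨x, rfl⟩, -⟩, b, ⟨-, hb⟩, rfl⟩ := Submodule.mem_sup.1 hm
      have : s' b = 0 := hs'.2.2 hb
      rw [map_add, e0, this, add_zero]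
    · intro m hm
      obtain ⟨_, ⟨x, rfl⟩, _, ⟨y, rfl⟩, rfl⟩ := Submodule.mem_sup.1 hm
      rw [map_add, e0, zero_add]
      refine ⟨hs'.2.1 ⟨_, rfl⟩, ?_⟩
      have := (nil_all h2 h3 hs ht hn hs' (self_mem_ES ht.1)).2
      exact LinearMap.congr_fun this y
  intro g hg i m hm
  rcases hg with ⟨s', hs', rfl⟩ | ⟨t', ht', rfl⟩
  · obtain ⟨g1, g2, g3⟩ := gen hs ht hn s' hs'
    rw [ap_tv hs'.1.1]
    rcases i with _ | _ | _ | i
    · exact g1 m hm
    · exact Submodule.mem_sup_left (g2 m hm)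
    · exact Submodule.mem_sup_left (g3 m)
    · trivial
  · obtain ⟨g1, g2, g3⟩ := gen ht hs (by rwa [add_comm]) t' ht'
    rw [ap_tv ht'.1.1]
    rcases i with _ | _ | _ | i
    · exact g1 m (by rw [sup_comm]; exact hm)
    · exact Submodule.mem_sup_right (g2 m (by rw [sup_comm]; exact hm))
    · exact Submodule.mem_sup_right (g3 m)
    · trivial

theorem fixed_eq (hs : s ∈ Qd G) (ht : t ∈ Qd G) :
    fixedSubmodule (EG s hs.1.1 G ⊔ EG t ht.1.1 G) = LinearMap.ker s ⊓ LinearMap.ker t := by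
  apply le_antisymm
  · intro m hm
    have hm' : ∀ g ∈ EG s hs.1.1 G ⊔ EG t ht.1.1 G, ((g : End k M) - 1) m = 0 := by
      intro g hg
      have := (Submodule.mem_iInf _).1 hm g
      exact (Submodule.mem_iInf _).1 this hg
    constructor
    · have := hm' (tv s) (Subgroup.mem_sup_left ⟨s, self_mem_ES hs.1, rfl⟩)
      rw [tv_sub_one hs.1.1] at this; exact this
    · have := hm' (tv t) (Subgroup.mem_sup_right ⟨t, self_mem_ES ht.1, rfl⟩)
      rw [tv_sub_one ht.1.1] at this; exact this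
  · rintro m ⟨h1, h2⟩
    have key : ∀ g ∈ EG s hs.1.1 G ⊔ EG t ht.1.1 G, ap g m = m := by
      intro g hg
      rw [Subgroup.sup_eq_closure] at hg
      induction hg using Subgroup.closure_induction with
      | mem x hx =>
        rcases hx with ⟨s', hs', rfl⟩ | ⟨t', ht', rfl⟩
        · have := ap_tv hs'.1.1 m
          rw [hs'.2.2 h1, sub_eq_zero] at this; exact this
        · have := ap_tv ht'.1.1 m
          rw [ht'.2.2 h2, sub_eq_zero] at this; exact this
      | one => exact ap_one m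
      | mul x y _ _ ihx ihy => rw [ap_mul, ihy, ihx]
      | inv x _ ih => conv_lhs => rw [← ih]
                      exact ap_inv x m
    refine (Submodule.mem_iInf _).2 fun g => (Submodule.mem_iInf _).2 fun hg => ?_
    rw [LinearMap.mem_ker, LinearMap.sub_apply, Module.End.one_apply, sub_eq_zero]
    exact key g hg

theorem comm_eq (hs : s ∈ Qd G) (ht : t ∈ Qd G) :
    commutatorSubmodule (EG s hs.1.1 G ⊔ EG t ht.1.1 G) = LinearMap.range s ⊔ LinearMap.range t := by
  apply le_antisymm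
  · refine iSup₂_le fun g hg => ?_
    rintro _ ⟨m, rfl⟩
    rw [Subgroup.sup_eq_closure] at hg
    show ap g m - m ∈ _
    induction hg using Subgroup.closure_induction generalizing m with
    | mem x hx =>
      rcases hx with ⟨s', hs', rfl⟩ | ⟨t', ht', rfl⟩
      · rw [ap_tv hs'.1.1]; exact Submodule.mem_sup_left (hs'.2.1 ⟨m, rfl⟩)
      · rw [ap_tv ht'.1.1]; exact Submodule.mem_sup_right (ht'.2.1 ⟨m, rfl⟩)
    | one => rw [ap_one, sub_self]; exact zero_mem _
    | mul x y _ _ ihx ihy =>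
      have : ap (x * y) m - m = (ap x (ap y m) - ap y m) + (ap y m - m) := by rw [ap_mul]; abel
      rw [this]; exact add_mem (ihx _) (ihy _)
    | inv x _ ih =>
      have : ap x⁻¹ m - m = -(ap x (ap x⁻¹ m) - ap x⁻¹ m) := by rw [ap_inv']; abel
      rw [this]; exact neg_mem (ih _)
  · apply sup_le
    · have : LinearMap.range s ≤ LinearMap.range (((tv s : LinearMap.GeneralLinearGroup k M) : End k M) - 1) := by
        rw [tv_sub_one hs.1.1]
      exact this.trans (le_iSup₂_of_le (tv s) (Subgroup.mem_sup_left ⟨s, self_mem_ES hs.1, rfl⟩) le_rfl)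
    · have : LinearMap.range t ≤ LinearMap.range (((tv t : LinearMap.GeneralLinearGroup k M) : End k M) - 1) := by
        rw [tv_sub_one ht.1.1]
      exact this.trans (le_iSup₂_of_le (tv t) (Subgroup.mem_sup_right ⟨t, self_mem_ES ht.1, rfl⟩) le_rfl)

/-- the projection -/
def pi (s t : End k M) : End k M := s * t + t * s

theorem Opp.pi_s (h : Opp s t) : pi s t * s = s := by
  unfold pi; rw [add_mul, h.sts, mul_assoc t, h.s2, mul_zero, add_zero]
theorem Opp.pi_t (h : Opp s t) : pi s t * t = t := by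
  unfold pi; rw [add_mul, h.tst, mul_assoc s t t, h.t2, mul_zero, zero_add]
theorem Opp.s_pi (h : Opp s t) : s * pi s t = s := by
  unfold pi; rw [mul_add, ← mul_assoc, h.s2, zero_mul, zero_add, ← mul_assoc, h.sts]
theorem Opp.t_pi (h : Opp s t) : t * pi s t = t := by
  unfold pi; rw [mul_add, ← mul_assoc, h.tst, ← mul_assoc, h.t2, zero_mul, add_zero]
theorem Opp.pi_pi (h : Opp s t) : pi s t * pi s t = pi s t := by
  nth_rewrite 2 [pi]
  rw [mul_add, ← mul_assoc, h.pi_s, ← mul_assoc, h.pi_t]; rfl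

/-- `w = (1+s)(1-t)(1+s)` -/
noncomputable def ww (s t : End k M) : LinearMap.GeneralLinearGroup k M := tv s * (tv t)⁻¹ * tv s

theorem Opp.ww_val (h : Opp s t) : (ww s t : End k M) = 1 - pi s t + s - t := by
  unfold ww
  rw [tv_inv h.t2, Units.val_mul, Units.val_mul, tv_val h.s2, tv_val (by simp [h.t2])]
  unfold pi
  simp only [mul_add, add_mul, mul_one, one_mul, mul_neg, neg_mul, h.s2, h.t2, mul_zero, zero_mul, h.sts]
  abel

theorem Opp.ww_sq (h : Opp s t) : ((ww s t * ww s t : LinearMap.GeneralLinearGroup k M) : End k M) = 1 - 2 • pi s t := by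
  rw [Units.val_mul, h.ww_val]
  have e1 : (1 - pi s t + s - t) * (1 - pi s t + s - t) = 1 - 2 • pi s t := by
    have a1 := h.pi_s
    have a2 := h.pi_t
    have a3 := h.s_pi
    have a4 := h.t_pi
    have a5 := h.pi_pi
    have a6 := h.s2
    have a7 := h.t2
    have a8 : s * t = pi s t - t * s := by unfold pi; abel
    simp only [mul_add, add_mul, mul_sub, sub_mul, mul_one, one_mul, a1, a2, a3, a4, a5, a6, a7, a8]
    abel
  exact e1

end unip

end CfsgLib.H14QR
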