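import Cfsg.Agent.LibH14QR

/-! Quadratic pairs: non unipotent pairs of scalar families generate `SL₂(k(λ))` (seat helper14). -/

set_option autoImplicit false

namespace CfsgLib.H14QS

open Cfsg CfsgLib.H14R1 CfsgLib.H14QP CfsgLib.H14Pr CfsgLib.H14Crux CfsgLib.H14KT CfsgLib.H14QR CfsgLib.H14Unip Module Polynomial

variable {k : Type*} [Field k] {M : Type*} [AddCommGroup M] [Module k M] [FiniteDimensional k M]
  {G : Subgroup (LinearMap.GeneralLinearGroup k M)} {s t : End k M}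

theorem AI_symm : AI t s = AI s t := by
  ext f
  rw [mem_AI, mem_AI, ev_symm]

theorem NN.max (h : NN G s t) : (AI s t).IsMaximal := by
  apply Ideal.Quotient.maximal_of_isField
  haveI := AI_nontrivial h.z0
  refine ⟨exists_pair_ne _, mul_comm, ?_⟩
  intro a ha
  obtain ⟨f, rfl⟩ := Ideal.Quotient.mk_surjective a
  have h0 : ev s t f * s ≠ 0 := fun h0 => ha (Ideal.Quotient.eq_zero_iff_mem.2 (h.mem_iff.2 h0))
  exact (h.unit_of (h.range_inj (h.key f) h0)).exists_right_inv

theorem one_of_mod (h : NN G s t) {g : LinearMap.GeneralLinearGroup k M} {a b c d : k[X]} (hGG : GG s t g a b c d)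
    (ea' : a - 1 ∈ AI s t) (eb' : b ∈ AI s t) (ec' : c ∈ AI s t) (ed' : d - 1 ∈ AI s t) : g = 1 := by
  obtain ⟨-, -, ⟨r, hr⟩⟩ := hGG.one_mod
  obtain ⟨a', b', ha, hb, hval⟩ := hGG.val h.hs2 h.ht2
  have hA := h.ca
  have hX : ∀ {e : k[X]}, X * e ∈ AI s t → e ∈ AI s t := fun {e} he => hA.ev he
  have f1 : a' ∈ AI s t := by
    apply hX
    have : X * a' = (a - 1) - (d - 1) := by rw [ha]; ring
    rw [this]; exact sub_mem ea' ed'
  have f2 : b' ∈ AI s t := by
    apply hX; rw [← hb]; exact eb'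
  have f3 : ev s t d = 1 := by
    have : r ∈ AI s t := by
      apply hX
      have : X * r = d - 1 := by rw [hr]; ring
      rw [this]; exact ed'
    rw [hr, ev_add, ev_one, mem_AI.1 this, add_zero]
  apply Units.ext
  rw [hval, EE, f3, mul_one, ← mul_assoc, h.mem_iff.1 f1, zero_mul, add_zero, h.mem_t ec', add_zero,
    h.mem_iff.1 f2, add_zero, Units.val_one]

theorem mod_of_one (h : NN G s t) {a b c d : k[X]} (hGG : GG s t 1 a b c d) :
    a - 1 ∈ AI s t ∧ b ∈ AI s t ∧ c ∈ AI s t ∧ d - 1 ∈ AI s t := by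
  obtain ⟨a', b', ha, hb, hval⟩ := hGG.val h.hs2 h.ht2
  have hs2 := h.hs2
  have ht2 := h.ht2
  have hA := h.ca
  have hX : ∀ {e : k[X]}, X * e ∈ AI s t → e ∈ AI s t := fun {e} he => hA.ev he
  have sc : ∀ (f : k[X]) (x : End k M), s * (ev s t f * x) = ev s t f * (s * x) := fun f x => by
    rw [← mul_assoc, s_ev hs2, mul_assoc]
  have tc : ∀ (f : k[X]) (x : End k M), t * (ev s t f * x) = ev s t f * (t * x) := fun f x => by
    rw [← mul_assoc, t_ev ht2, mul_assoc]
  have sts : s * (t * s) = ev s t X * s := by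
    rw [ev_X, add_mul, mul_assoc, mul_assoc, hs2, mul_zero, add_zero]
  have tst : t * (s * t) = ev s t X * t := by
    rw [ev_X, add_mul, mul_assoc, mul_assoc, ht2, mul_zero, zero_add]
  rw [Units.val_one] at hval
  -- multiply by s on the right
  have e1 : s = ev s t a * s + ev s t c * (t * s) := by
    have h1 : s = ev s t d * s + ev s t a' * (s * (t * s)) + ev s t c * (t * s) := by
      have := congrArg (fun x => x * s) hval
      simpa only [one_mul, EE, add_mul, mul_assoc, hs2, mul_zero, add_zero] using this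
    have h4 : ev s t a * s = ev s t d * s + ev s t a' * (s * (t * s)) := by
      rw [sts, ha, ev_add, add_mul, mul_comm X, ev_mul, mul_assoc]
    rw [h4]; exact h1
  have e2 : t = ev s t d * t + ev s t b' * (s * t) := by
    have := congrArg (fun x => x * t) hval
    simpa only [one_mul, EE, add_mul, mul_assoc, ht2, mul_zero, add_zero] using this
  have hc : c ∈ AI s t := by
    apply hX
    rw [h.mem_iff, mul_comm, ev_mul, mul_assoc, ← sts, ← sc, ]
    have := congrArg (fun x => s * x) e1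
    simp only [hs2, mul_add, sc, mul_zero, zero_add] at this
    rw [sc]; exact this.symm
  have hb' : b' ∈ AI s t := by
    rw [← AI_symm]
    apply (h.symm.ca).ev
    show ev t s (X * (X * b')) = 0
    have h1 : X * b' ∈ AI t s := by
      rw [h.symm.mem_iff, ev_symm, mul_comm, ev_mul, mul_assoc, ← tst]
      have := congrArg (fun x => t * x) e2
      simp only [ht2, mul_add, tc, mul_zero, zero_add] at this
      exact this.symm
    exact h1
  have hb1 : b ∈ AI s t := by rw [hb]; exact Ideal.mul_mem_left _ _ hb'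
  have ha1 : a - 1 ∈ AI s t := by
    rw [h.mem_iff, ev_sub, ev_one, sub_mul, one_mul]
    rw [sub_eq_zero]
    have h4 : ev s t c * (t * s) = 0 := by rw [← mul_assoc, h.mem_t hc, zero_mul]
    rw [h4, add_zero] at e1
    exact e1.symm
  refine ⟨ha1, hb1, hc, ?_⟩
  have hdet := hGG.det
  have : d - 1 = b * c - (a - 1) * d := by linear_combination hdet
  rw [this]
  exact sub_mem (Ideal.mul_mem_right _ _ hb1) (Ideal.mul_mem_right _ _ ha1)

/-- the relation "same matrix" -/
def Rl (s t : End k M) (g : LinearMap.GeneralLinearGroup k M)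
    (m : Matrix.SpecialLinearGroup (Fin 2) (k[X] ⧸ AI s t)) : Prop :=
  ∃ a b c d : k[X], GG s t g a b c d ∧ m 0 0 = Ideal.Quotient.mk (AI s t) a ∧ m 0 1 = Ideal.Quotient.mk (AI s t) b ∧
    m 1 0 = Ideal.Quotient.mk (AI s t) c ∧ m 1 1 = Ideal.Quotient.mk (AI s t) d

/-- the graph -/
def Gam (s t : End k M) (hs : s * s = 0) (ht : t * t = 0) :
    Subgroup (LinearMap.GeneralLinearGroup k M × Matrix.SpecialLinearGroup (Fin 2) (k[X] ⧸ AI s t)) where
  carrier := {p | Rl s t p.1 p.2}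
  one_mem' := ⟨1, 0, 0, 1, GG.one, by simp, by simp, by simp, by simp⟩
  mul_mem' := by
    rintro ⟨g, m⟩ ⟨g', m'⟩ ⟨a, b, c, d, h, h1, h2, h3, h4⟩ ⟨a', b', c', d', h', h1', h2', h3', h4'⟩
    simp only at h1 h2 h3 h4 h1' h2' h3' h4' h h'
    refine ⟨_, _, _, _, h.mul h', ?_, ?_, ?_, ?_⟩ <;>
    · simp only [Prod.mk_mul_mk, Matrix.SpecialLinearGroup.coe_mul, Matrix.mul_apply, Fin.sum_univ_two, map_add, map_mul]
      simp only [h1', h2', h3', h4', h1, h2, h3, h4]
  inv_mem' := by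
    rintro ⟨g, m⟩ ⟨a, b, c, d, h, h1, h2, h3, h4⟩
    simp only at h1 h2 h3 h4 h
    refine ⟨_, _, _, _, h.inv hs ht, ?_, ?_, ?_, ?_⟩ <;>
    · simp [Matrix.SpecialLinearGroup.SL2_inv_expl, h1, h2, h3, h4]

/-- the group generated by the two scalar families -/
def HH (s t : End k M) : Subgroup (LinearMap.GeneralLinearGroup k M) :=
  Subgroup.closure {g | ∃ c : k, g = tv (c • s) ∨ g = tv (c • t)}

theorem map_fst (hs : s * s = 0) (ht : t * t = 0) : (Gam s t hs ht).map (MonoidHom.fst _ _) = HH s t := by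
  apply le_antisymm
  · rintro _ ⟨⟨g, m⟩, ⟨a, b, c, d, h, -⟩, rfl⟩
    show g ∈ _
    simp only at h
    clear m
    induction h with
    | one => exact one_mem _
    | x e _ ih => exact mul_mem (Subgroup.subset_closure ⟨e, Or.inl rfl⟩) ih
    | y e _ ih => exact mul_mem (Subgroup.subset_closure ⟨e, Or.inr rfl⟩) ih
  · rw [HH, Subgroup.closure_le]
    rintro g ⟨c, rfl | rfl⟩
    · refine ⟨(tv (c • s), ⟨!![1, Ideal.Quotient.mk (AI s t) (c • X); 0, 1], by simp⟩), ⟨_, _, _, _, GG.gx c, ?_⟩, rfl⟩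
      simp
    · refine ⟨(tv (c • t), ⟨!![1, 0; Ideal.Quotient.mk (AI s t) (algebraMap k k[X] c), 1], by simp⟩),
        ⟨_, _, _, _, GG.gy c, ?_⟩, rfl⟩
      simp

theorem sl2_iso (h : NN G s t) : Nonempty (HH s t ≃* Matrix.SpecialLinearGroup (Fin 2) (k[X] ⧸ AI s t)) := by
  haveI := NN.max h
  letI := Ideal.Quotient.field (AI s t)
  have hs := h.hs2
  have ht := h.ht2
  let f1 : Gam s t hs ht →* LinearMap.GeneralLinearGroup k M := (MonoidHom.fst _ _).comp (Gam s t hs ht).subtype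
  let f2 : Gam s t hs ht →* Matrix.SpecialLinearGroup (Fin 2) (k[X] ⧸ AI s t) :=
    (MonoidHom.snd _ _).comp (Gam s t hs ht).subtype
  have i1 : Function.Injective f1 := by
    rw [injective_iff_map_eq_one]
    rintro ⟨⟨g, m⟩, ⟨a, b, c, d, hGG, h1, h2, h3, h4⟩⟩ hg
    have hg' : g = 1 := hg
    subst hg'
    simp only at h1 h2 h3 h4 hGG
    obtain ⟨k1, k2, k3, k4⟩ := mod_of_one h hGG
    apply Subtype.ext
    show ((1 : LinearMap.GeneralLinearGroup k M), m) = 1
    rw [Prod.mk_eq_one]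
    refine ⟨rfl, ?_⟩
    rw [← Ideal.Quotient.eq_zero_iff_mem, map_sub, map_one, sub_eq_zero] at k1 k4
    rw [← Ideal.Quotient.eq_zero_iff_mem] at k2 k3
    ext i j
    fin_cases i <;> fin_cases j <;> simp [h1, h2, h3, h4, k1, k2, k3, k4]
  have i2 : Function.Injective f2 := by
    rw [injective_iff_map_eq_one]
    rintro ⟨⟨g, m⟩, ⟨a, b, c, d, hGG, h1, h2, h3, h4⟩⟩ hm
    have hm' : m = 1 := hm
    subst hm'
    simp only at h1 h2 h3 h4 hGG
    apply Subtype.ext
    show (g, (1 : Matrix.SpecialLinearGroup (Fin 2) (k[X] ⧸ AI s t))) = 1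
    rw [Prod.mk_eq_one]
    refine ⟨one_of_mod h hGG ?_ ?_ ?_ ?_, rfl⟩
    · rw [← Ideal.Quotient.eq_zero_iff_mem, map_sub, map_one, sub_eq_zero, ← h1]; simp
    · rw [← Ideal.Quotient.eq_zero_iff_mem, ← h2]; simp
    · rw [← Ideal.Quotient.eq_zero_iff_mem, ← h3]; simp
    · rw [← Ideal.Quotient.eq_zero_iff_mem, map_sub, map_one, sub_eq_zero, ← h4]; simp
  have s2 : Function.Surjective f2 := by
    intro m
    have hall := field_all (K := k[X] ⧸ AI s t) h.h2 h.h3 (AI_unit h.ca).ne_zero (AI_gen (s := s) (t := t)) Gn.hg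
      (fun he h => h.dc he) (fun a => Gn.gx a) (fun a => Gn.gy a)
    have hm := hall (m 0 0) (m 0 1) (m 1 0) (m 1 1) (by
      have := m.2; rw [Matrix.det_fin_two] at this; exact this)
    obtain ⟨a, b, c, d, hgn, ea, eb, ec, ed⟩ := hm.lift (Ideal.Quotient.mkₐ k (AI s t)) (z' := X) rfl
    obtain ⟨g, hGG⟩ := exists_GG (s := s) (t := t) hgn
    exact ⟨⟨(g, m), ⟨a, b, c, d, hGG, ea.symm, eb.symm, ec.symm, ed.symm⟩⟩, rfl⟩
  have r1 : f1.range = HH s t := by
    rw [← map_fst hs ht]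
    show ((MonoidHom.fst _ _).comp (Gam s t hs ht).subtype).range = _
    rw [MonoidHom.range_comp, Subgroup.range_subtype]
  exact ⟨((MulEquiv.subgroupCongr r1).symm.trans (MonoidHom.ofInjective i1).symm).trans
    (MulEquiv.ofBijective f2 ⟨i2, s2⟩)⟩

end CfsgLib.H14QS
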