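import Cfsg.Agent.EqBase

/-! Rank one groups (Timmesfeld), basic facts (seat helper14).
Conventions as in `Def_RootSubgroups`: `conjBy A g = g A g⁻¹`. -/

set_option autoImplicit false

namespace CfsgLib.H14R1

open Cfsg

variable {G : Type*} [Group G]

/-! ### conjugates of subgroups -/

theorem mem_cj {A : Subgroup G} {g x : G} : x ∈ conjBy A g ↔ g⁻¹ * x * g ∈ A := by
  constructor
  · rintro ⟨a, ha, rfl⟩
    simpa [mul_assoc] using ha
  · intro h
    exact ⟨_, h, by simp [mul_assoc]⟩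

theorem cj_mem {A : Subgroup G} {g x : G} (h : x ∈ A) : g * x * g⁻¹ ∈ conjBy A g := by
  rw [mem_cj]; simpa [mul_assoc] using h

theorem cj_mem' {A : Subgroup G} {g x : G} (h : x ∈ A) : g⁻¹ * x * g ∈ conjBy A g⁻¹ := by
  rw [mem_cj]; simpa [mul_assoc] using h

@[simp] theorem cj_one (A : Subgroup G) : conjBy A 1 = A := by
  ext x; rw [mem_cj]; simp

theorem cj_cj (A : Subgroup G) (g h : G) : conjBy (conjBy A g) h = conjBy A (h * g) := by
  ext x; simp only [mem_cj, mul_inv_rev]; simp [mul_assoc]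

theorem cj_inv_iff {A B : Subgroup G} {g : G} : conjBy A g = B ↔ A = conjBy B g⁻¹ := by
  constructor
  · rintro rfl; rw [cj_cj]; simp
  · rintro rfl; rw [cj_cj]; simp

theorem cj_inj {A B : Subgroup G} {g : G} : conjBy A g = conjBy B g ↔ A = B := by
  constructor
  · intro h
    rw [cj_inv_iff, cj_cj] at h
    simpa using h
  · rintro rfl; rfl

theorem cj_le {A B : Subgroup G} {g : G} : conjBy A g ≤ conjBy B g ↔ A ≤ B := by
  constructor
  · intro h x hx
    have := h (cj_mem (g := g) hx)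
    rw [mem_cj] at this
    simpa [mul_assoc] using this
  · intro h x hx
    rw [mem_cj] at hx ⊢
    exact h hx

theorem cj_self_iff {A : Subgroup G} {g : G} : conjBy A g = A ↔ g ∈ Subgroup.normalizer (A : Set G) := by
  rw [Subgroup.mem_normalizer_iff]
  constructor
  · intro h x
    constructor
    · intro hx
      have := cj_mem (g := g) (A := A) hx
      rwa [h] at this
    · intro hx
      rw [← h] at hx
      rw [mem_cj] at hx
      simpa [mul_assoc] using hx
  · intro h
    ext x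
    rw [mem_cj]
    have := h (g⁻¹ * x * g)
    simp only [mul_assoc, mul_inv_cancel_left, mul_inv_cancel, mul_one] at this
    simpa [mul_assoc] using this

theorem cj_of_mem {A : Subgroup G} {g : G} (h : g ∈ A) : conjBy A g = A :=
  cj_self_iff.2 (Subgroup.le_normalizer h)

theorem cj_eq_cj_iff {A : Subgroup G} {g h : G} : conjBy A g = conjBy A h ↔
    h⁻¹ * g ∈ Subgroup.normalizer (A : Set G) := by
  rw [← cj_self_iff, ← cj_cj]
  constructor
  · intro e; rw [e, cj_cj]; simp
  · intro e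
    rw [cj_inv_iff] at e
    simpa using e

theorem cj_sup (A B : Subgroup G) (g : G) : conjBy (A ⊔ B) g = conjBy A g ⊔ conjBy B g :=
  Subgroup.map_sup _ _ _

theorem cj_inf (A B : Subgroup G) (g : G) : conjBy (A ⊓ B) g = conjBy A g ⊓ conjBy B g := by
  ext x; simp only [Subgroup.mem_inf, mem_cj]

theorem cj_bot (g : G) : conjBy (⊥ : Subgroup G) g = ⊥ := Subgroup.map_bot _

theorem cj_eq_bot {A : Subgroup G} {g : G} : conjBy A g = ⊥ ↔ A = ⊥ := by
  constructor
  · intro h; rwa [← cj_bot g, cj_inj] at h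
  · rintro rfl; exact cj_bot g

theorem cj_top (g : G) : conjBy (⊤ : Subgroup G) g = ⊤ := by
  ext x; rw [mem_cj]; simp

theorem cj_commutator (A B : Subgroup G) (g : G) : conjBy ⁅A, B⁆ g = ⁅conjBy A g, conjBy B g⁆ :=
  Subgroup.map_commutator _ _ _

theorem cj_normalizer (A : Subgroup G) (g : G) :
    conjBy (Subgroup.normalizer (A : Set G)) g = Subgroup.normalizer (conjBy A g : Set G) := by
  ext x
  rw [mem_cj, ← cj_self_iff, ← cj_self_iff, cj_cj, ← cj_cj, ← cj_cj, cj_inv_iff, inv_inv, cj_cj]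

theorem cj_of_normal {N : Subgroup G} [hN : N.Normal] (g : G) : conjBy N g = N := by
  rw [cj_self_iff, Subgroup.normalizer_eq_top]; trivial

theorem cj_nilpotent {A : Subgroup G} (g : G) (h : Group.IsNilpotent A) :
    Group.IsNilpotent (conjBy A g) := by
  have e : A ≃* conjBy A g := A.equivMapOfInjective _ (MulAut.conj g).injective
  exact Group.nilpotent_of_mulEquiv e

theorem cj_comm {A : Subgroup G} (g : G) (h : IsMulCommutative A) :
    IsMulCommutative (conjBy A g) := by
  constructor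
  constructor
  rintro ⟨x, hx⟩ ⟨y, hy⟩
  rw [mem_cj] at hx hy
  have := h.is_comm.comm ⟨_, hx⟩ ⟨_, hy⟩
  simp only [MulMemClass.mk_mul_mk, Subtype.mk.injEq] at this ⊢
  have h2 : g⁻¹ * (x * y) * g = g⁻¹ * (y * x) * g := by
    calc g⁻¹ * (x * y) * g = g⁻¹ * x * g * (g⁻¹ * y * g) := by group
      _ = g⁻¹ * y * g * (g⁻¹ * x * g) := this
      _ = _ := by group
  simpa using h2

theorem exists_ne_one {A : Subgroup G} (h : A ≠ ⊥) : ∃ a ∈ A, a ≠ 1 := by
  by_contra hc
  push Not at hc
  exact h ((Subgroup.eq_bot_iff_forall A).2 hc)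

theorem comm_iff {A B : Subgroup G} : ⁅A, B⁆ = ⊥ ↔ ∀ a ∈ A, ∀ b ∈ B, a * b = b * a := by
  rw [Subgroup.commutator_eq_bot_iff_le_centralizer]
  constructor
  · intro h a ha b hb
    exact (Subgroup.mem_centralizer_iff.1 (h ha) b hb).symm
  · intro h a ha
    rw [Subgroup.mem_centralizer_iff]
    intro b hb
    exact (h a ha b hb).symm

theorem comm_swap {A B : Subgroup G} : ⁅A, B⁆ = ⊥ ↔ ⁅B, A⁆ = ⊥ := by
  rw [Subgroup.commutator_comm]

theorem cj_of_comm {A : Subgroup G} {z : G} (h : ∀ a ∈ A, z * a = a * z) : conjBy A z = A := by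
  apply le_antisymm
  · intro x hx
    rw [mem_cj] at hx
    have := h _ hx
    have h2 : x = z * (z⁻¹ * x * z) * z⁻¹ := by group
    rw [h2, this]; simpa using hx
  · intro x hx
    rw [mem_cj]
    have := h _ hx
    rw [mul_assoc, ← this, inv_mul_cancel_left]; exact hx

theorem cj_of_center {A : Subgroup G} {z : G} (h : z ∈ Subgroup.center G) : conjBy A z = A :=
  cj_of_comm fun a _ => (Subgroup.mem_center_iff.1 h a).symm

/-! ### the pair -/

theorem rc_cj {A B : Subgroup G} (h : RankOneCondition A B) (g : G) :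
    RankOneCondition (conjBy A g) (conjBy B g) := by
  intro a ha ha1
  rw [mem_cj] at ha
  obtain ⟨b, hb, hb1, e⟩ := h _ ha (by
    intro h1
    apply ha1
    have : a = g * (g⁻¹ * a * g) * g⁻¹ := by group
    rw [this, h1]; group)
  refine ⟨g * b * g⁻¹, cj_mem hb, ?_, ?_⟩
  · intro h1
    apply hb1
    have : b = g⁻¹ * (g * b * g⁻¹) * g := by group
    rw [this, h1]; group
  · rw [cj_cj, cj_cj]
    have e2 : conjBy (conjBy A b⁻¹) g = conjBy (conjBy B (g⁻¹ * a * g)⁻¹) g := by rw [e]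
    rw [cj_cj, cj_cj] at e2
    have t1 : (g * b * g⁻¹)⁻¹ * g = g * b⁻¹ := by group
    have t2 : g * (g⁻¹ * a * g)⁻¹ = a⁻¹ * g := by group
    rw [t1, e2, t2]

theorem pair_cj {A B : Subgroup G} (h : IsRankOnePair A B) (g : G) :
    IsRankOnePair (conjBy A g) (conjBy B g) where
  ne := fun e => h.ne (cj_inj.1 e)
  nilpotent_left := cj_nilpotent g h.nilpotent_left
  nilpotent_right := cj_nilpotent g h.nilpotent_right
  cond_left := rc_cj h.cond_left g
  cond_right := rc_cj h.cond_right g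

theorem pair_cj_iff {A B : Subgroup G} (g : G) :
    IsRankOnePair (conjBy A g) (conjBy B g) ↔ IsRankOnePair A B := by
  constructor
  · intro h
    have := pair_cj h g⁻¹
    rw [cj_cj, cj_cj] at this
    simpa using this
  · intro h; exact pair_cj h g

theorem special_cj {A B : Subgroup G} (h : IsSpecialRankOnePair A B) (g : G) :
    IsSpecialRankOnePair (conjBy A g) (conjBy B g) := by
  refine ⟨pair_cj h.1 g, ?_⟩
  intro a ha ha1 b hb hb1 e
  rw [mem_cj] at ha hb
  have e2 : conjBy (conjBy (conjBy A g) b⁻¹) g⁻¹ = conjBy (conjBy (conjBy B g) a⁻¹) g⁻¹ := by rw [e]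
  rw [cj_cj, cj_cj, cj_cj, cj_cj] at e2
  have := h.2 _ ha (by
      intro h1; apply ha1
      have : a = g * (g⁻¹ * a * g) * g⁻¹ := by group
      rw [this, h1]; group) _ hb (by
      intro h1; apply hb1
      have : b = g * (g⁻¹ * b * g) * g⁻¹ := by group
      rw [this, h1]; group) (by
      have t1 : (g⁻¹ * b * g)⁻¹ = g⁻¹ * b⁻¹ * g := by group
      have t2 : (g⁻¹ * a * g)⁻¹ = g⁻¹ * a⁻¹ * g := by group
      rw [t1, t2]; simpa [mul_assoc] using e2)
  have h3 : g * ((g⁻¹ * b * g)⁻¹ * (g⁻¹ * a * g) * (g⁻¹ * b * g)) * g⁻¹ =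
      g * ((g⁻¹ * a * g)⁻¹ * (g⁻¹ * b * g)⁻¹ * (g⁻¹ * a * g)) * g⁻¹ := by rw [this]
  calc b⁻¹ * a * b = g * ((g⁻¹ * b * g)⁻¹ * (g⁻¹ * a * g) * (g⁻¹ * b * g)) * g⁻¹ := by group
    _ = _ := h3
    _ = _ := by group

variable {A B : Subgroup G}

theorem pair_symm (h : IsRankOnePair A B) : IsRankOnePair B A := RankOnePair_symm h

theorem not_normalize (h : IsRankOnePair A B) {a : G} (ha : a ∈ A) (hn : conjBy B a = B) : a = 1 := by
  by_contra h1
  obtain ⟨b, hb, hb1, e⟩ := h.cond_left a ha h1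
  apply h.ne
  rw [cj_inv_iff] at hn
  rw [← hn, cj_inv_iff, inv_inv, cj_of_mem hb] at e
  exact e

theorem inf_normalizer (h : IsRankOnePair A B) : A ⊓ Subgroup.normalizer (B : Set G) = ⊥ := by
  rw [eq_bot_iff]
  rintro a ⟨ha, hn⟩
  exact not_normalize h ha (cj_self_iff.2 hn)

theorem inf_eq_bot (h : IsRankOnePair A B) : A ⊓ B = ⊥ := by
  rw [eq_bot_iff, ← inf_normalizer h]
  exact inf_le_inf_left _ Subgroup.le_normalizer

theorem left_ne_bot (h : IsRankOnePair A B) : A ≠ ⊥ := by
  rintro rfl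
  apply h.ne
  symm
  rw [eq_bot_iff]
  intro b hb
  by_contra h1
  obtain ⟨a, ha, ha1, -⟩ := h.cond_right b hb h1
  exact ha1 ha

theorem right_ne_bot (h : IsRankOnePair A B) : B ≠ ⊥ := left_ne_bot (pair_symm h)

theorem partner_unique (h : IsRankOnePair A B) {a b b' : G} (hb : b ∈ B) (hb' : b' ∈ B)
    (e : conjBy A b⁻¹ = conjBy B a⁻¹) (e' : conjBy A b'⁻¹ = conjBy B a⁻¹) : b = b' := by
  rw [← e', cj_inv_iff, inv_inv, cj_cj] at e
  have := not_normalize (pair_symm h) (B.mul_mem hb (B.inv_mem hb')) e.symm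
  exact mul_inv_eq_one.1 this

/-- every conjugate description -/
theorem left_mem_unip : A ∈ unipotentSubgroups A B := ⟨1, one_mem _, by simp⟩

theorem exists_swap (h : IsRankOnePair A B) : ∃ x ∈ A ⊔ B, B = conjBy A x := by
  obtain ⟨a, ha, ha1⟩ := exists_ne_one (left_ne_bot h)
  obtain ⟨b, hb, hb1, e⟩ := h.cond_left a ha ha1
  refine ⟨a * b⁻¹, mul_mem (Subgroup.mem_sup_left ha) (inv_mem (Subgroup.mem_sup_right hb)), ?_⟩
  rw [← cj_cj, e, cj_cj]; simp

theorem right_mem_unip (h : IsRankOnePair A B) : B ∈ unipotentSubgroups A B := exists_swap h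

theorem unip_cj {C : Subgroup G} {x : G} (hx : x ∈ A ⊔ B) (hC : C ∈ unipotentSubgroups A B) :
    conjBy C x ∈ unipotentSubgroups A B := by
  obtain ⟨y, hy, rfl⟩ := hC
  exact ⟨x * y, mul_mem hx hy, cj_cj _ _ _⟩

theorem unip_le {C : Subgroup G} (hC : C ∈ unipotentSubgroups A B) : C ≤ A ⊔ B := by
  obtain ⟨y, hy, rfl⟩ := hC
  have : conjBy (A ⊔ B) y = A ⊔ B := cj_of_mem hy
  rw [← this]
  exact cj_le.2 le_sup_left

/-- description of all unipotent subgroups -/
theorem unip_iff (h : IsRankOnePair A B) {C : Subgroup G} :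
    C ∈ unipotentSubgroups A B ↔ C = A ∨ ∃ a ∈ A, C = conjBy B a := by
  constructor
  · rintro ⟨x, hx, rfl⟩
    let Δ : Set (Subgroup G) := {C | C = A ∨ ∃ a ∈ A, C = conjBy B a}
    have hA : ∀ a ∈ A, ∀ C ∈ Δ, conjBy C a ∈ Δ := by
      rintro a ha C (rfl | ⟨a', ha', rfl⟩)
      · left; exact cj_of_mem ha
      · right; exact ⟨a * a', mul_mem ha ha', cj_cj _ _ _⟩
    have hAB : ∀ b ∈ B, conjBy A b ∈ Δ := by
      intro b hb
      by_cases h1 : b = 1
      · left; rw [h1]; simp
      · obtain ⟨a, ha, -, e⟩ := h.cond_right b⁻¹ (inv_mem hb) (by simpa using h1)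
        right
        rw [inv_inv] at e
        exact ⟨a⁻¹, inv_mem ha, e.symm⟩
    have hB : ∀ b ∈ B, ∀ C ∈ Δ, conjBy C b ∈ Δ := by
      rintro b hb C (rfl | ⟨a', ha', rfl⟩)
      · exact hAB b hb
      · by_cases h1 : a' = 1
        · right
          refine ⟨1, one_mem _, ?_⟩
          rw [h1]; simp [cj_of_mem hb]
        · obtain ⟨b', hb', -, e⟩ := h.cond_left a'⁻¹ (inv_mem ha') (by simpa using h1)
          rw [inv_inv] at e
          rw [← e, cj_cj]
          exact hAB _ (mul_mem hb (inv_mem hb'))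
    have key : ∀ x ∈ A ⊔ B, ∀ C, C ∈ Δ ↔ conjBy C x ∈ Δ := by
      intro x hx
      rw [Subgroup.sup_eq_closure] at hx
      induction hx using Subgroup.closure_induction with
      | mem x hx =>
        intro C
        rcases hx with hx | hx
        · refine ⟨hA x hx C, fun h => ?_⟩
          have := hA x⁻¹ (inv_mem hx) _ h
          rw [cj_cj] at this
          simpa using this
        · refine ⟨hB x hx C, fun h => ?_⟩
          have := hB x⁻¹ (inv_mem hx) _ h
          rw [cj_cj] at this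
          simpa using this
      | one => intro C; simp
      | mul x y _ _ ihx ihy =>
        intro C
        rw [← cj_cj, ← ihx, ← ihy]
      | inv x _ ih =>
        intro C
        rw [ih (conjBy C x⁻¹), cj_cj]; simp
    exact (key x hx A).1 (Or.inl rfl)
  · rintro (rfl | ⟨a, ha, rfl⟩)
    · exact left_mem_unip
    · exact unip_cj (Subgroup.mem_sup_left ha) (right_mem_unip h)

theorem unip_conj_pair {x : G} (hx : x ∈ A ⊔ B) : conjBy (A ⊔ B) x = A ⊔ B := cj_of_mem hx

theorem unip_swap (h : IsRankOnePair A B) : unipotentSubgroups A B = unipotentSubgroups B A := by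
  obtain ⟨y, hy, e⟩ := exists_swap h
  ext C
  constructor
  · rintro ⟨x, hx, rfl⟩
    rw [eq_comm, cj_inv_iff] at e
    refine ⟨x * y⁻¹, ?_, by rw [← cj_cj, ← e]⟩
    rw [sup_comm]; exact mul_mem hx (inv_mem hy)
  · rintro ⟨x, hx, rfl⟩
    rw [sup_comm] at hx
    exact ⟨x * y, mul_mem hx hy, by rw [← cj_cj, ← e]⟩

theorem unip_iff' (h : IsRankOnePair A B) {C : Subgroup G} :
    C ∈ unipotentSubgroups A B ↔ C = B ∨ ∃ b ∈ B, C = conjBy A b := by
  rw [unip_swap h, unip_iff (pair_symm h)]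

/-- 2-transitivity: an ordered pair of distinct unipotent subgroups is conjugate to `(A,B)`. -/
theorem unip_trans (h : IsRankOnePair A B) {C D : Subgroup G} (hC : C ∈ unipotentSubgroups A B)
    (hD : D ∈ unipotentSubgroups A B) (hne : C ≠ D) :
    ∃ x ∈ A ⊔ B, conjBy A x = C ∧ conjBy B x = D := by
  obtain ⟨y, hy, rfl⟩ := hC
  have hD' : conjBy D y⁻¹ ∈ unipotentSubgroups A B := unip_cj (inv_mem hy) hD
  rw [unip_iff h] at hD'
  rcases hD' with e | ⟨a, ha, e⟩
  · exfalso
    apply hne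
    rw [cj_inv_iff, inv_inv] at e
    exact e.symm
  · refine ⟨y * a, mul_mem hy (Subgroup.mem_sup_left ha), ?_, ?_⟩
    · rw [← cj_cj, cj_of_mem ha]
    · rw [← cj_cj, ← e, cj_cj]; simp

theorem unip_pair (h : IsRankOnePair A B) {C D : Subgroup G} (hC : C ∈ unipotentSubgroups A B)
    (hD : D ∈ unipotentSubgroups A B) (hne : C ≠ D) : IsRankOnePair C D ∧ C ⊔ D = A ⊔ B := by
  obtain ⟨x, hx, rfl, rfl⟩ := unip_trans h hC hD hne
  exact ⟨pair_cj h x, by rw [← cj_sup, unip_conj_pair hx]⟩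

theorem unip_trans2 (h : IsRankOnePair A B) {C D C' D' : Subgroup G}
    (hC : C ∈ unipotentSubgroups A B) (hD : D ∈ unipotentSubgroups A B) (hne : C ≠ D)
    (hC' : C' ∈ unipotentSubgroups A B) (hD' : D' ∈ unipotentSubgroups A B) (hne' : C' ≠ D') :
    ∃ x ∈ A ⊔ B, conjBy C x = C' ∧ conjBy D x = D' := by
  obtain ⟨x, hx, rfl, rfl⟩ := unip_trans h hC hD hne
  obtain ⟨y, hy, rfl, rfl⟩ := unip_trans h hC' hD' hne'
  refine ⟨y * x⁻¹, mul_mem hy (inv_mem hx), ?_, ?_⟩ <;> rw [cj_cj] <;> simp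

theorem unip_eq_of_mem (h : IsRankOnePair A B) {C D : Subgroup G} (hC : C ∈ unipotentSubgroups A B)
    (hD : D ∈ unipotentSubgroups A B) {c : G} (hc : c ∈ C) (h1 : c ≠ 1)
    (hn : conjBy D c = D) : C = D := by
  by_contra hne
  exact h1 (not_normalize (unip_pair h hC hD hne).1 hc hn)

theorem unip_eq_of_inf (h : IsRankOnePair A B) {C D : Subgroup G} (hC : C ∈ unipotentSubgroups A B)
    (hD : D ∈ unipotentSubgroups A B) {c : G} (hc : c ∈ C) (hd : c ∈ D) (h1 : c ≠ 1) : C = D :=
  unip_eq_of_mem h hC hD hc h1 (cj_of_mem hd)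

theorem sup_cj (h : IsRankOnePair A B) {a : G} (ha : a ∈ A) (h1 : a ≠ 1) :
    IsRankOnePair B (conjBy B a) ∧ B ⊔ conjBy B a = A ⊔ B := by
  apply unip_pair h (right_mem_unip h) (unip_cj (Subgroup.mem_sup_left ha) (right_mem_unip h))
  intro e
  exact h1 (not_normalize h ha e.symm)

theorem unip_of_pair (h : IsRankOnePair A B) {C D : Subgroup G} (h' : IsRankOnePair C D)
    (e : A ⊔ B = C ⊔ D) (hC : C ∈ unipotentSubgroups A B) :
    unipotentSubgroups A B = unipotentSubgroups C D := by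
  obtain ⟨y, hy, rfl⟩ := hC
  ext E
  constructor
  · rintro ⟨x, hx, rfl⟩
    refine ⟨x * y⁻¹, by rw [← e]; exact mul_mem hx (inv_mem hy), ?_⟩
    rw [cj_cj]; simp
  · rintro ⟨x, hx, rfl⟩
    rw [← e] at hx
    exact ⟨x * y, mul_mem hx hy, cj_cj _ _ _⟩

/-- a rank one group is not nilpotent -/
theorem not_nilpotent (h : IsRankOnePair A B) : ¬ Group.IsNilpotent ↥(A ⊔ B) := by
  intro hn
  let X : Subgroup G := A ⊔ B
  let M : Subgroup X := (Subgroup.normalizer (A : Set G)).subgroupOf X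
  have hM : ∀ x : X, x ∈ M ↔ conjBy A (x : G) = A := by
    intro x
    rw [cj_self_iff]; exact Subgroup.mem_subgroupOf
  have hlt : M < ⊤ := by
    rw [lt_top_iff_ne_top]
    intro ht
    obtain ⟨b, hb, hb1⟩ := exists_ne_one (right_ne_bot h)
    have : (⟨b, Subgroup.mem_sup_right hb⟩ : X) ∈ M := by rw [ht]; trivial
    rw [hM] at this
    exact hb1 (not_normalize (pair_symm h) hb this)
  have hlt2 := Group.normalizerCondition_of_isNilpotent (G := X) M hlt
  obtain ⟨x, hx, hx2⟩ := SetLike.exists_of_lt hlt2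
  rw [hM] at hx2
  have hC : conjBy A (x : G) ∈ unipotentSubgroups A B := unip_cj x.2 left_mem_unip
  obtain ⟨a, ha, ha1⟩ := exists_ne_one (left_ne_bot h)
  have key : ∀ m : X, m ∈ M → conjBy (conjBy A (x : G)) (m : G) = conjBy A (x : G) := by
    intro m hm
    rw [Subgroup.mem_normalizer_iff'] at hx
    have h1 : m * x ∈ M.carrier ∨ True := Or.inr trivial
    have h2 : x⁻¹ * m * x ∈ M := by
      rw [hx]; simpa [mul_assoc] using hm
    rw [hM] at h2
    rw [cj_cj]
    have h3 : (m : G) * x = x * ((x⁻¹ * m * x : X) : G) := by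
      push_cast; group
    rw [h3, ← cj_cj, h2]
  have := key ⟨a, Subgroup.mem_sup_left ha⟩ (by rw [hM]; exact cj_of_mem ha)
  exact hx2 (unip_eq_of_mem h left_mem_unip hC ha ha1 this).symm

theorem not_comm (h : IsRankOnePair A B) : ⁅A, B⁆ ≠ ⊥ := by
  intro e
  obtain ⟨b, hb, hb1⟩ := exists_ne_one (right_ne_bot h)
  apply hb1
  apply not_normalize (pair_symm h) hb
  rw [cj_self_iff]
  rw [Subgroup.commutator_eq_bot_iff_le_centralizer] at e
  rw [Subgroup.mem_normalizer_iff]
  intro x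
  constructor
  · intro hx
    have := Subgroup.mem_centralizer_iff.1 (e hx) b hb
    rwa [this, mul_inv_cancel_right]
  · intro hx
    have := Subgroup.mem_centralizer_iff.1 (e hx) b hb
    have h2 : x = b * x * b⁻¹ := by
      have h3 : b * (b * x * b⁻¹) * b⁻¹ = b * x * b⁻¹ := by rw [this]; group
      have h4 : b⁻¹ * (b * (b * x * b⁻¹) * b⁻¹) * b = b⁻¹ * (b * x * b⁻¹) * b := by rw [h3]
      calc x = b⁻¹ * (b * x * b⁻¹) * b := by group
        _ = b⁻¹ * (b * (b * x * b⁻¹) * b⁻¹) * b := h4.symm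
        _ = _ := by group
    rw [h2]; exact hx

/-- normal subgroups of a rank one group -/
theorem dichotomy (h : IsRankOnePair A B) {N : Subgroup G} (hN : N ≤ A ⊔ B)
    (hn : ∀ x ∈ A ⊔ B, conjBy N x = N) :
    N ⊔ A = A ⊔ B ∨ ∀ n ∈ N, ∀ x ∈ A ⊔ B, n * x = x * n := by
  by_cases hk : ∀ n ∈ N, conjBy A n = A
  · right
    have hk2 : ∀ n ∈ N, ∀ C ∈ unipotentSubgroups A B, conjBy C n = C := by
      rintro n hn' C ⟨x, hx, rfl⟩
      have : x⁻¹ * n * x ∈ N := by
        rw [← mem_cj, hn x hx]; exact hn'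
      have h2 := hk _ this
      rw [cj_cj]
      have h3 : n * x = x * (x⁻¹ * n * x) := by group
      rw [h3, ← cj_cj, h2]
    have comm : ∀ n ∈ N, ∀ C D : Subgroup G, C ∈ unipotentSubgroups A B →
        D ∈ unipotentSubgroups A B → C ≠ D → ∀ c ∈ C, n * c = c * n := by
      intro n hn' C D hC hD hne c hc
      have h1 : n * c * n⁻¹ * c⁻¹ ∈ C := by
        apply mul_mem _ (inv_mem hc)
        have := cj_mem (g := n) hc
        rwa [hk2 n hn' C hC] at this
      have h2 : c * n⁻¹ * c⁻¹ ∈ N := by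
        have := cj_mem (g := c) (inv_mem hn')
        rwa [hn c (unip_le hC hc)] at this
      have h3 : conjBy D (n * c * n⁻¹ * c⁻¹) = D := by
        have : n * c * n⁻¹ * c⁻¹ = n * (c * n⁻¹ * c⁻¹) := by group
        rw [this]
        exact hk2 _ (mul_mem hn' h2) D hD
      have h4 := not_normalize (unip_pair h hC hD hne).1 h1 h3
      have : n * c = (n * c * n⁻¹ * c⁻¹) * (c * n) := by group
      rw [this, h4, one_mul]
    intro n hn' x hx
    rw [Subgroup.sup_eq_closure] at hx
    induction hx using Subgroup.closure_induction with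
    | mem x hx =>
      rcases hx with hx | hx
      · exact comm n hn' A B left_mem_unip (right_mem_unip h) h.ne x hx
      · exact comm n hn' B A (right_mem_unip h) left_mem_unip h.ne.symm x hx
    | one => simp
    | mul x y _ _ ihx ihy => rw [← mul_assoc, ihx, mul_assoc, ihy, mul_assoc]
    | inv x _ ih => rw [eq_inv_mul_iff_mul_eq, ← mul_assoc, ← ih, mul_inv_cancel_right]
  · left
    push Not at hk
    obtain ⟨n, hn', hne⟩ := hk
    apply le_antisymm
    · exact sup_le hN le_sup_left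
    · -- every unipotent subgroup is an `N`-conjugate of `A`
      have key : ∀ C ∈ unipotentSubgroups A B, C ≤ N ⊔ A := by
        intro C hC
        by_cases hCA : C = A
        · rw [hCA]; exact le_sup_right
        · obtain ⟨x, hx, e1, e2⟩ := unip_trans2 h left_mem_unip
            (unip_cj (hN hn') left_mem_unip) (Ne.symm hne) left_mem_unip hC (Ne.symm hCA)
          have : x * n * x⁻¹ ∈ N := by
            have := cj_mem (g := x) hn'
            rwa [hn x hx] at this
          have e3 : C = conjBy A (x * n * x⁻¹) := by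
            have h6 : x * n = x * n * x⁻¹ * x := by group
            calc C = conjBy A (x * n) := by rw [← e2, cj_cj]
              _ = conjBy A (x * n * x⁻¹ * x) := by rw [← h6]
              _ = _ := by rw [← cj_cj, e1]
          rw [e3]
          intro y hy
          rw [mem_cj] at hy
          have h5 : y = (x * n * x⁻¹) * ((x * n * x⁻¹)⁻¹ * y * (x * n * x⁻¹)) * (x * n * x⁻¹)⁻¹ := by group
          rw [h5]
          exact mul_mem (mul_mem (Subgroup.mem_sup_left this) (Subgroup.mem_sup_right hy))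
            (inv_mem (Subgroup.mem_sup_left this))
      exact sup_le (key A left_mem_unip) (key B (right_mem_unip h))

end CfsgLib.H14R1
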