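import Cfsg.Agent.LibH14RS2

/-! Special rank one groups with abelian unipotent subgroups of size more than three are perfect (seat helper14). -/

set_option autoImplicit false

namespace CfsgLib.H14RP

open Cfsg CfsgLib.H14R1 CfsgLib.H14RS

variable {G : Type*} [Group G] {A B : Subgroup G}

/-- `n` swaps `A` and `B` inside `A ⊔ B` -/
def Sw (A B : Subgroup G) (n : G) : Prop := n ∈ A ⊔ B ∧ conjBy A n = B ∧ conjBy B n = A

theorem Sw.inv {n : G} (h : Sw A B n) : Sw A B n⁻¹ := by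
  obtain ⟨h1, h2, h3⟩ := h
  refine ⟨inv_mem h1, ?_, ?_⟩
  · rw [cj_inv_iff, inv_inv, h3]
  · rw [cj_inv_iff, inv_inv, h2]

theorem Sw.symm {n : G} (h : Sw A B n) : Sw B A n := ⟨by rw [sup_comm]; exact h.1, h.2.2, h.2.1⟩

/-- the partner `c` of `a` : `c A c⁻¹ = a⁻¹ B a` and the braid relation -/
structure Br (A B : Subgroup G) (a c : G) : Prop where
  ha : a ∈ A
  hc : c ∈ B
  ha1 : a ≠ 1
  hc1 : c ≠ 1
  e : conjBy A c = conjBy B a⁻¹
  br : a * c * a = c * a * c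

theorem exists_br (h : IsSpecialRankOnePair A B) {a : G} (ha : a ∈ A) (ha1 : a ≠ 1) : ∃ c, Br A B a c := by
  obtain ⟨b, hb, hb1, e⟩ := h.1.cond_left a ha ha1
  have e2 := h.2 a ha ha1 b hb hb1 e
  refine ⟨b⁻¹, ha, inv_mem hb, ha1, inv_ne_one.2 hb1, e, ?_⟩
  have e3 : b⁻¹ * a = a⁻¹ * b⁻¹ * a * b⁻¹ := by rw [← e2]; group
  calc a * b⁻¹ * a = a * (b⁻¹ * a) := by group
    _ = a * (a⁻¹ * b⁻¹ * a * b⁻¹) := by rw [e3]
    _ = _ := by group

theorem exists_br' (h : IsSpecialRankOnePair A B) {c : G} (hc : c ∈ B) (hc1 : c ≠ 1) : ∃ a, Br A B a c := by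
  obtain ⟨a, ha, ha1, e⟩ := h.1.cond_right c⁻¹ (inv_mem hc) (inv_ne_one.2 hc1)
  obtain ⟨c', hc'⟩ := exists_br h ha ha1
  rw [inv_inv] at e
  have e2 : c' = c := by
    have e3 := hc'.e
    rw [e] at e3
    have h4 := partner_unique (a := a) h.1 (b := c'⁻¹) (b' := c⁻¹) (inv_mem hc'.hc) (inv_mem hc)
      (by rw [inv_inv, e3, e]) (by rw [inv_inv, e])
    exact inv_injective h4
  exact ⟨a, e2 ▸ hc'⟩

variable {a c n x : G}

theorem Br.conj_a (hb : Br A B a c) : (a * c * a) * a * (a * c * a)⁻¹ = c := by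
  have e := hb.br
  calc (a * c * a) * a * (a * c * a)⁻¹ = (a * c * a) * (c⁻¹ * a⁻¹) := by group
    _ = c * a * c * (c⁻¹ * a⁻¹) := by rw [e]
    _ = _ := by group

theorem Br.conj_c (hb : Br A B a c) : (a * c * a) * c * (a * c * a)⁻¹ = a := by
  have e := hb.br
  calc (a * c * a) * c * (a * c * a)⁻¹ = a * (c * a * c) * (a * c * a)⁻¹ := by group
    _ = a * (a * c * a) * (a * c * a)⁻¹ := by rw [e]
    _ = _ := by group

theorem Br.swap (h : IsRankOnePair A B) (hb : Br A B a c) : Sw A B (a * c * a) := by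
  have ha' : a ∈ A ⊔ B := Subgroup.mem_sup_left hb.ha
  have hc' : c ∈ A ⊔ B := Subgroup.mem_sup_right hb.hc
  have hw : a * c * a ∈ A ⊔ B := mul_mem (mul_mem ha' hc') ha'
  have h1 : conjBy A (a * c * a) = B := by
    rw [← cj_cj, cj_of_mem hb.ha, ← cj_cj, hb.e, cj_cj]; simp
  refine ⟨hw, h1, ?_⟩
  refine unip_eq_of_inf (c := a) h (unip_cj hw (right_mem_unip h)) left_mem_unip ?_ hb.ha hb.ha1
  have := cj_mem (g := a * c * a) hb.hc
  rwa [hb.conj_c] at this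

/-- `A₀ = A ∩ (A ⊔ B)'` -/
def A0 (A B : Subgroup G) : Subgroup G := A ⊓ ⁅A ⊔ B, A ⊔ B⁆

theorem A0_of {h x y : G} (hh : h ∈ A ⊔ B) (hx : x ∈ A) (hy : y ∈ A) (e : h * x * h⁻¹ = y) :
    y * x⁻¹ ∈ A0 A B := by
  refine ⟨A.mul_mem hy (A.inv_mem hx), ?_⟩
  rw [← e]
  have := Subgroup.commutator_mem_commutator hh (Subgroup.mem_sup_left hx : x ∈ A ⊔ B)
  rwa [commutatorElement_def] at this

/-- the action of a swap on the points `x B x⁻¹` -/
theorem Sw.pt (h : IsSpecialRankOnePair A B) (hA : ∀ x ∈ A, ∀ y ∈ A, x * y = y * x) (hn : Sw A B n) (hx : x ∈ A) (hx1 : x ≠ 1) :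
    ∃ y ∈ A, y ≠ 1 ∧ y * x ∈ A0 A B ∧ conjBy (conjBy B x) n = conjBy B y := by
  obtain ⟨hn1, hn2, hn3⟩ := hn
  have h1 : n * x * n⁻¹ ∈ B := by
    have := cj_mem (g := n) hx
    rwa [hn2] at this
  have h2 : n * x * n⁻¹ ≠ 1 := by
    intro h
    apply hx1
    have : x = n⁻¹ * (n * x * n⁻¹) * n := by group
    rw [this, h]; group
  obtain ⟨a, ha⟩ := exists_br' h h1 h2
  have hw := ha.swap h.1
  refine ⟨a⁻¹, inv_mem ha.ha, inv_ne_one.2 ha.ha1, ?_, ?_⟩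
  · set w := a * (n * x * n⁻¹) * a with hw'
    have e : (w⁻¹ * n) * x * (w⁻¹ * n)⁻¹ = a := by
      have := ha.conj_a
      rw [← hw'] at this
      have e3 : w⁻¹ * (n * x * n⁻¹) * w = a := by rw [← this]; group
      rw [← e3]; group
    have := A0_of (mul_mem (inv_mem hw.1) hn1) hx ha.ha e
    have h3 := inv_mem this
    have h4 : (a * x⁻¹)⁻¹ = x * a⁻¹ := by group
    rwa [h4, hA x hx _ (inv_mem ha.ha)] at h3
  · rw [cj_cj]
    have e : n * x = (n * x * n⁻¹) * n := by group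
    rw [e, ← cj_cj, hn3, ha.e]

theorem pt_inj (h : IsRankOnePair A B) {x y : G} (hx : x ∈ A) (hy : y ∈ A) (e : conjBy B x = conjBy B y) : x = y := by
  rw [cj_eq_cj_iff, ← cj_self_iff] at e
  have := not_normalize h (mul_mem (inv_mem hy) hx) e
  rw [inv_mul_eq_one] at this
  exact this.symm

theorem pt_ne (h : IsRankOnePair A B) {x : G} (hx : x ∈ A) : conjBy B x ≠ A := by
  intro e
  rw [cj_inv_iff, cj_of_mem (inv_mem hx)] at e
  exact h.ne e.symm

/-- the computation of `w(a)` on points -/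
theorem Br.word (hb : Br A B a c) (C : Subgroup G) :
    conjBy C (a * c * a) = conjBy (conjBy (conjBy (conjBy (conjBy C a) (a * c * a)⁻¹) a) (a * c * a)) a := by
  simp only [cj_cj]
  congr 1
  have e := hb.conj_a
  have : a * ((a * c * a) * (a * ((a * c * a)⁻¹ * a))) = a * ((a * c * a) * a * (a * c * a)⁻¹) * a := by group
  rw [this, e]

theorem le_A0 (h : IsSpecialRankOnePair A B) (hA : ∀ x ∈ A, ∀ y ∈ A, x * y = y * x) (h0 : A0 A B ≠ ⊥) : A ≤ ⁅A ⊔ B, A ⊔ B⁆ := by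
  intro a ha
  by_contra hcon
  have ha0 : a ∉ A0 A B := fun h' => hcon h'.2
  obtain ⟨t, ht, ht1⟩ := exists_ne_one h0
  have ha1 : a ≠ 1 := by rintro rfl; exact ha0 (one_mem _)
  obtain ⟨c, hb⟩ := exists_br h ha ha1
  have hw := hb.swap h.1
  obtain ⟨y', hy', -, hy'2, hy'3⟩ := hw.pt h hA ht.1 ht1
  have hy'0 : y' ∈ A0 A B := by
    have := mul_mem hy'2 (inv_mem ht)
    rwa [mul_inv_cancel_right] at this
  have hat : a * t ≠ 1 := by
    intro e
    apply ha0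
    rw [mul_eq_one_iff_eq_inv] at e
    rw [e]; exact inv_mem ht
  obtain ⟨y, hy, -, hy2, hy3⟩ := hw.inv.pt h hA (mul_mem ha ht.1) hat
  have hay : a * y ∈ A0 A B := by
    have := mul_mem hy2 (inv_mem ht)
    rw [← mul_assoc, mul_inv_cancel_right] at this
    rwa [hA y hy a ha] at this
  have e := hb.word (conjBy B t)
  rw [hy'3, cj_cj B t a, hy3, cj_cj B y a] at e
  by_cases h1 : a * y = 1
  · rw [h1, cj_one, hw.2.2, cj_of_mem ha] at e
    exact pt_ne h.1 hy' e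
  · obtain ⟨z, hz, -, hz2, hz3⟩ := hw.pt h hA (mul_mem ha hy) h1
    rw [hz3, cj_cj] at e
    have h2 := pt_inj h.1 hy' (mul_mem ha hz) e
    apply ha0
    have hz0 : z ∈ A0 A B := by
      have := mul_mem hz2 (inv_mem hay)
      rwa [mul_inv_cancel_right] at this
    have : a = y' * z⁻¹ := by rw [h2]; group
    rw [this]; exact mul_mem hy'0 (inv_mem hz0)

theorem sq_of_A0 (h : IsSpecialRankOnePair A B) (hA : ∀ x ∈ A, ∀ y ∈ A, x * y = y * x) (h0 : A0 A B = ⊥)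
    {a x : G} (ha : a ∈ A) (ha1 : a ≠ 1) (hx : x ∈ A) (hx1 : x ≠ 1) (hax : a * x ≠ 1) : a = x⁻¹ * x⁻¹ := by
  obtain ⟨c, hb⟩ := exists_br h ha ha1
  have hw := hb.swap h.1
  have key : ∀ n, Sw A B n → ∀ x ∈ A, x ≠ 1 → conjBy (conjBy B x) n = conjBy B x⁻¹ := by
    intro n hn x hx hx1
    obtain ⟨y, hy, -, hy2, hy3⟩ := hn.pt h hA hx hx1
    rw [h0, Subgroup.mem_bot, mul_eq_one_iff_eq_inv] at hy2
    rw [hy3, hy2]
  have e := hb.word (conjBy B x)
  rw [key _ hw x hx hx1, cj_cj B x a, key _ hw.inv _ (mul_mem ha hx) hax, cj_cj B _ a] at e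
  have e2 : a * (a * x)⁻¹ = x⁻¹ := by
    have := hA a ha x⁻¹ (inv_mem hx)
    rw [mul_inv_rev, ← mul_assoc, this]; group
  rw [e2, key _ hw _ (inv_mem hx) (inv_ne_one.2 hx1), inv_inv, cj_cj] at e
  have h2 := pt_inj h.1 (inv_mem hx) (mul_mem ha hx) e
  have h5 : a = (a * x) * x⁻¹ := by group
  rw [h5, ← h2]

theorem A0_ne_bot (h : IsSpecialRankOnePair A B) (hA : ∀ x ∈ A, ∀ y ∈ A, x * y = y * x) (h3 : 3 < ENat.card A) : A0 A B ≠ ⊥ := by
  intro h0
  obtain ⟨x, hx, hx1⟩ := exists_ne_one (left_ne_bot h.1)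
  have : (A : Set G) ⊆ {1, x⁻¹, x⁻¹ * x⁻¹} := by
    intro a ha
    by_cases ha1 : a = 1
    · exact Or.inl ha1
    by_cases hax : a * x = 1
    · right; left; exact mul_eq_one_iff_eq_inv.1 hax
    · right; right; exact sq_of_A0 h hA h0 ha ha1 hx hx1 hax
  have h4 : (A : Set G).encard ≤ 3 := by
    refine (Set.encard_le_encard this).trans ?_
    refine (Set.encard_insert_le _ _).trans ?_
    have := Set.encard_insert_le {x⁻¹ * x⁻¹} x⁻¹
    rw [Set.encard_singleton] at this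
    calc _ ≤ ((1 : ℕ∞) + 1) + 1 := by gcongr
      _ = 3 := by norm_num
  have h5 : ENat.card A = (A : Set G).encard := rfl
  rw [h5] at h3
  exact absurd h4 (not_le.2 h3)

/-- main theorem: perfectness -/
theorem left_le (h : IsSpecialRankOnePair A B) (hA : IsMulCommutative A) (h3 : 3 < ENat.card A) :
    A ≤ ⁅A ⊔ B, A ⊔ B⁆ :=
  le_A0 h (el_comm hA) (A0_ne_bot h (el_comm hA) h3)

theorem perfect (h : IsSpecialRankOnePair A B) (hA : IsMulCommutative A) (h3 : 3 < ENat.card A) :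
    ⁅A ⊔ B, A ⊔ B⁆ = A ⊔ B := by
  apply le_antisymm (Subgroup.commutator_le_self _)
  have h1 := left_le h hA h3
  refine sup_le h1 ?_
  obtain ⟨x, hx, e⟩ := exists_swap h.1
  have h2 : conjBy ⁅A ⊔ B, A ⊔ B⁆ x = ⁅A ⊔ B, A ⊔ B⁆ := by
    rw [cj_commutator, cj_of_mem hx]
  have h4 : conjBy A x ≤ conjBy ⁅A ⊔ B, A ⊔ B⁆ x := cj_le.2 h1
  rwa [h2, ← e] at h4

end CfsgLib.H14RP
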