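import Cfsg.Statements.S5034
import Cfsg.Agent.LibH14RS2


set_option autoImplicit false
open Cfsg

namespace Cfsg.Agent.S5034

open CfsgLib.H14R1 CfsgLib.H14RS
open scoped commutatorElement


/-- Let S be a non-degenerate class of abstract root subgroups of G, A ∈ S and B a rank one partner of A. Then some line partner C of A has ⁅B, C⁆ ∈ S, and the rank one pair A, B is special. -/
theorem result {G : Type*} [Group G] {S : Set (Subgroup G)} (hS : Cfsg.IsRootSubgroupClass S) (hnd : Cfsg.IsNondegenerateRootSet S)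
    {A B : Subgroup G} (hA : A ∈ S) (hB : B ∈ Cfsg.rankOnePartners S A) :
    (∃ C ∈ Cfsg.linePartners S A, C ∈ Cfsg.commutatorPartners S B) ∧ Cfsg.IsSpecialRankOnePair A B := by
  obtain ⟨hS, -, hcl⟩ := hS
  obtain ⟨hBS, hp⟩ := hB
  -- a line through A
  have hline : ∃ D, D ∈ Cfsg.linePartners S A := by
    obtain ⟨-, -, P, hP, Q, hQ, hr⟩ := hnd
    obtain ⟨g, hg⟩ := hcl A hA P hP
    obtain ⟨k, hk⟩ := hcl _ hr.1 A hA
    have hpP : IsRankOnePair P (Cfsg.conjBy B g) := by rw [hg]; exact pair_cj hp g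
    have l1 := line_mk hS hP (hS.conj_mem B hBS g) hpP hr
    have l2 := line_symm hS hP l1
    -- P ∈ linePartners S ⁅P,Q⁆, conjugate by k
    refine ⟨Cfsg.conjBy P k, ?_⟩
    have hcjc : Cfsg.conjBy ⁅P, Q⁆ k = A := hk.symm
    have hr' : RootCommutatorCase S (Cfsg.conjBy P k) (Cfsg.conjBy Q k) := by
      apply rcc_of_mem hS (hS.conj_mem P hP k) (hS.conj_mem Q hQ k)
      rw [← cj_commutator, hcjc]; exact hA
    have l3 := rcc_line hS (hS.conj_mem P hP k) (hS.conj_mem _ (hS.conj_mem B hBS g) k)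
      (pair_cj hpP k) hr'
    rwa [← cj_commutator, hcjc] at l3
  obtain ⟨D, hD⟩ := hline
  obtain ⟨C, hC, hr, he, hr2, he2⟩ := line_structure hS hA hBS hp hD
  have hCl : C ∈ Cfsg.linePartners S A := by
    have := line_mk hS hA hBS hp hr2
    rwa [he2] at this
  refine ⟨⟨C, hCl, hC, by rw [Subgroup.commutator_comm]; exact hr.1⟩, ?_⟩
  -- specialness
  set E : Subgroup G := ⁅C, B⁆ with hE
  set X : Subgroup G := A ⊔ B with hX
  have hAX : A ≤ X := le_sup_left
  have hBX : B ≤ X := le_sup_right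
  rw [← special_subgroupOf hAX hBX]
  have hCC := el_comm (hS.commutative C hC)
  have hEE := el_comm (hS.commutative E hr.1)
  have hCE : ∀ c ∈ C, ∀ e ∈ E, c * e = e * c := fun c hc e he =>
    (hr.2.1 e he c (Subgroup.mem_sup_left hc)).symm
  have hAC : ∀ a ∈ A, ∀ c ∈ C, a * c = c * a := line_el_comm hS hCl
  have hEB : ∀ e ∈ E, ∀ b ∈ B, e * b = b * e := fun e he b hb =>
    hr.2.1 e he b (Subgroup.mem_sup_right hb)
  have hNcomm : ∀ x ∈ C ⊔ E, ∀ y ∈ C ⊔ E, x * y = y * x := by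
    apply el_comm_sup
    · apply el_comm_symm
      exact el_comm_sup hCC (el_comm_symm hCE)
    · apply el_comm_symm
      exact el_comm_sup hCE hEE
  have hcjA : ∀ a ∈ A, Cfsg.conjBy (C ⊔ E) a = C ⊔ E := by
    apply cj_eq_of_le
    intro a ha
    rw [cj_sup]
    refine sup_le ?_ ?_
    · rw [cj_of_comm (hAC a ha)]; exact le_sup_left
    · intro x hx
      rw [mem_cj] at hx
      have : x = ⁅a, a⁻¹ * x * a⁆ * (a⁻¹ * x * a) := by rw [commutatorElement_def]; group
      rw [this]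
      refine mul_mem (Subgroup.mem_sup_left ?_) (Subgroup.mem_sup_right hx)
      rw [← he2]; exact Subgroup.commutator_mem_commutator ha hx
  have hcjB : ∀ b ∈ B, Cfsg.conjBy (C ⊔ E) b = C ⊔ E := by
    apply cj_eq_of_le
    intro b hb
    rw [cj_sup]
    refine sup_le (rcc_conj_le hS hr hb) ?_
    rw [cj_of_comm (fun e he => (hEB e he b hb).symm)]; exact le_sup_right
  have hcjX : ∀ x : X, ∀ n ∈ C ⊔ E, (x : G) * n * (x : G)⁻¹ ∈ C ⊔ E := by
    intro x n hn
    have h1 : X ≤ Subgroup.normalizer ((C ⊔ E : Subgroup G) : Set G) :=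
      sup_le (fun a ha => cj_self_iff.1 (hcjA a ha)) (fun b hb => cj_self_iff.1 (hcjB b hb))
    have h2 := cj_mem (g := (x : G)) hn
    rwa [cj_self_iff.2 (h1 x.2)] at h2
  letI iN : CommGroup ↥(C ⊔ E) :=
    { (inferInstance : Group ↥(C ⊔ E)) with
      mul_comm := fun x y => Subtype.ext (hNcomm x x.2 y y.2) }
  letI act : DistribMulAction X (Additive ↥(C ⊔ E)) :=
    { smul := fun x n => Additive.ofMul ⟨(x : G) * ((Additive.toMul n : ↥(C ⊔ E)) : G) * (x : G)⁻¹,
        hcjX x _ (Additive.toMul n).2⟩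
      one_smul := fun n => by
        apply Additive.toMul.injective
        apply Subtype.ext
        show ((1 : X) : G) * _ * ((1 : X) : G)⁻¹ = _
        simp
      mul_smul := fun x y n => by
        apply Additive.toMul.injective
        apply Subtype.ext
        show ((x * y : X) : G) * _ * ((x * y : X) : G)⁻¹ = (x : G) * ((y : G) * _ * (y : G)⁻¹) * (x : G)⁻¹
        push_cast; group
      smul_zero := fun x => by
        apply Additive.toMul.injective
        apply Subtype.ext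
        show (x : G) * (1 : G) * (x : G)⁻¹ = 1
        group
      smul_add := fun x n m => by
        apply Additive.toMul.injective
        apply Subtype.ext
        show (x : G) * (((Additive.toMul n : ↥(C ⊔ E)) : G) * ((Additive.toMul m : ↥(C ⊔ E)) : G)) * (x : G)⁻¹ =
          ((x : G) * ((Additive.toMul n : ↥(C ⊔ E)) : G) * (x : G)⁻¹) *
          ((x : G) * ((Additive.toMul m : ↥(C ⊔ E)) : G) * (x : G)⁻¹)
        group }
  have hval : ∀ (x : X) (n : ↥(C ⊔ E)), ((Additive.toMul (x • (Additive.ofMul n) - Additive.ofMul n) : ↥(C ⊔ E)) : G) =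
      (x : G) * (n : G) * (x : G)⁻¹ * (n : G)⁻¹ := by
    intro x n
    show (x : G) * (n : G) * (x : G)⁻¹ / (n : G) = _
    rw [div_eq_mul_inv]
  have hsm : ∀ (x : X) (n : Additive ↥(C ⊔ E)), ((Additive.toMul (x • n) : ↥(C ⊔ E)) : G) =
      (x : G) * ((Additive.toMul n : ↥(C ⊔ E)) : G) * (x : G)⁻¹ := fun _ _ => rfl
  have hrank : IsRankOneGroup X (A.subgroupOf X) (B.subgroupOf X) := by
    refine ⟨?_, (pair_subgroupOf hAX hBX).2 hp⟩
    rw [← Subgroup.subgroupOf_sup hAX hBX, hX, Subgroup.subgroupOf_self]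
  refine special_of_quadratic (N := Additive ↥(C ⊔ E)) hrank ?_ ?_
  · intro a ha a' ha' n
    apply Additive.toMul.injective
    apply Subtype.ext
    rw [hsm]
    obtain ⟨m, rfl⟩ := Additive.ofMul.surjective n
    rw [hval]
    rw [Subgroup.mem_subgroupOf] at ha ha'
    -- ⁅a, m⁆ ∈ C
    have h1 : (a : G) * (m : G) * (a : G)⁻¹ * (m : G)⁻¹ ∈ C := by
      obtain ⟨c, hc, e, he', hm⟩ := (mem_sup_comm hCE).1 m.2
      rw [← hm]
      have h2 : (a : G) * (c * e) * (a : G)⁻¹ * (c * e)⁻¹ = c * ⁅(a : G), e⁆ * c⁻¹ := by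
        have h3 := hAC a ha c hc
        calc (a : G) * (c * e) * (a : G)⁻¹ * (c * e)⁻¹ = ((a : G) * c) * e * (a : G)⁻¹ * e⁻¹ * c⁻¹ := by group
          _ = _ := by rw [h3, commutatorElement_def]; group
      rw [h2]
      have h4 : ⁅(a : G), e⁆ ∈ C := by rw [← he2]; exact Subgroup.commutator_mem_commutator ha he'
      exact mul_mem (mul_mem hc h4) (inv_mem hc)
    rw [hAC a' ha' _ h1, mul_inv_cancel_right]
  · -- X does not act quadratically
    obtain ⟨a, ha, ha1⟩ := exists_ne_one (hS.ne_bot A hA)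
    obtain ⟨b, hb, hb1⟩ := exists_ne_one (hS.ne_bot B hBS)
    obtain ⟨c, hc, hc1⟩ := exists_ne_one (hS.ne_bot C hC)
    obtain ⟨e, he', hec⟩ := rcc_surj hr2 ha ha1 (by rw [he2]; exact hc)
    have hnb : ∃ c' ∈ C, ∃ b' ∈ B, b' * c' ≠ c' * b' := by
      by_contra hcon
      push Not at hcon
      apply rcc_not_comm hS hr
      rw [comm_iff]
      intro x hx y hy
      exact (hcon x hx y hy).symm
    obtain ⟨c', hc', b', hb', hne⟩ := hnb
    obtain ⟨e', he'', hec'⟩ := rcc_surj hr2 ha ha1 (by rw [he2]; exact hc')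
    refine ⟨⟨a, hAX ha⟩, ⟨b', hBX hb'⟩, Additive.ofMul ⟨e', Subgroup.mem_sup_right he''⟩, ?_⟩
    intro h1
    apply hne
    have h2 := congrArg (fun q : Additive ↥(C ⊔ E) => ((Additive.toMul q : ↥(C ⊔ E)) : G)) h1
    rw [hsm, hval] at h2
    have h3 : a * e' * a⁻¹ * e'⁻¹ = c' := by rw [← hec', commutatorElement_def]
    simp only [h3] at h2
    rwa [mul_inv_eq_iff_eq_mul] at h2

end Cfsg.Agent.S5034
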