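import Cfsg.Agent.LibH14RP
import Cfsg.Agent.S5034

/-! Normal subgroups of groups generated by abstract root subgroups (seat helper14). -/

set_option autoImplicit false

namespace CfsgLib.H14RP

open Cfsg CfsgLib.H14R1 CfsgLib.H14RS

variable {G : Type*} [Group G] {S : Set (Subgroup G)} {A B : Subgroup G}

theorem top_of_le (hS : IsRootSubgroupSet S) (hconj : ∀ A ∈ S, ∀ B ∈ S, ∃ g : G, B = conjBy A g)
    {N : Subgroup G} [N.Normal] (hA : A ∈ S) (h : A ≤ N) : N = ⊤ := by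
  rw [eq_top_iff, ← hS.generates]
  refine iSup₂_le fun B hB => ?_
  obtain ⟨g, rfl⟩ := hconj A hA B hB
  have := (cj_le (g := g)).2 h
  have e : conjBy N g = N := cj_of_normal g
  rwa [e] at this

theorem map_cj_mem {N : Subgroup G} [N.Normal] {n : G} (hn : n ∈ N) (A : Subgroup G) :
    (conjBy A n).map (QuotientGroup.mk' N) = A.map (QuotientGroup.mk' N) := by
  rw [map_cj]
  have : (QuotientGroup.mk' N) n = 1 := (QuotientGroup.eq_one_iff n).2 hn
  rw [this, cj_one]

theorem comm_le_of_cj {N : Subgroup G} [N.Normal] {n : G} (hn : n ∈ N) {A C : Subgroup G}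
    (h : ∀ a ∈ A, ∀ c ∈ C, a * c = c * a) : ⁅C, conjBy A n⁆ ≤ N := by
  have h1 : (⁅C, conjBy A n⁆).map (QuotientGroup.mk' N) = ⊥ := by
    rw [Subgroup.map_commutator, map_cj_mem hn, ← Subgroup.map_commutator]
    rw [comm_iff.2 (fun c hc a ha => (h a ha c hc).symm), Subgroup.map_bot]
  rw [Subgroup.map_eq_bot_iff, QuotientGroup.ker_mk'] at h1
  exact h1

theorem comm_sup_le_of_cj {N : Subgroup G} [N.Normal] {n : G} (hn : n ∈ N) {A : Subgroup G}
    (h : ∀ a ∈ A, ∀ c ∈ A, a * c = c * a) : ⁅A ⊔ conjBy A n, A ⊔ conjBy A n⁆ ≤ N := by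
  have h1 : (⁅A ⊔ conjBy A n, A ⊔ conjBy A n⁆).map (QuotientGroup.mk' N) = ⊥ := by
    rw [Subgroup.map_commutator, Subgroup.map_sup, map_cj_mem hn, sup_idem, ← Subgroup.map_commutator]
    rw [comm_iff.2 h, Subgroup.map_bot]
  rw [Subgroup.map_eq_bot_iff, QuotientGroup.ker_mk'] at h1
  exact h1

theorem core (hS : IsRootSubgroupSet S) (hconj : ∀ A ∈ S, ∀ B ∈ S, ∃ g : G, B = conjBy A g)
    (hF : ∀ A ∈ S, ∃ C ∈ S, IsRankOnePair A C)
    (h2' : ∀ A ∈ S, ∀ C ∈ S, A ≠ C → centralizingMembers S A ≠ centralizingMembers S C)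
    {N : Subgroup G} [N.Normal] (hi : ∀ A ∈ S, ∀ n ∈ N, IsRankOnePair A (conjBy A n) → N = ⊤) :
    N = ⊤ ∨ N ≤ Subgroup.center G := by
  by_cases hN : N = ⊤
  · exact Or.inl hN
  right
  have hi' : ∀ A ∈ S, ∀ n ∈ N, ¬ IsRankOnePair A (conjBy A n) := fun A hA n hn h => hN (hi A hA n hn h)
  have key : ∀ A ∈ S, ∀ n ∈ N, centralizingMembers S A ⊆ centralizingMembers S (conjBy A n) := by
    rintro A hA n hn C ⟨hC, hCA⟩
    have hac : ∀ a ∈ A, ∀ c ∈ C, a * c = c * a := fun a ha c hc =>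
      (Subgroup.mem_centralizer_iff.1 (hCA hc) a ha)
    refine ⟨hC, ?_⟩
    rcases hS.pair C hC _ (hS.conj_mem A hA n) with h | h | h
    · intro c hc
      rw [Subgroup.mem_centralizer_iff]
      intro a ha
      exact ((comm_iff.1 h) c hc a ha).symm
    · exfalso
      obtain ⟨c, hc, hc1⟩ := exists_ne_one (hS.ne_bot C hC)
      -- D = A^n, D^c = D^m, m = c n c⁻¹ n⁻¹
      have h1 := (sup_cj h hc hc1).1
      apply hi' (conjBy A n) (hS.conj_mem A hA n) (c * n * c⁻¹ * n⁻¹)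
      · exact mul_mem (Subgroup.Normal.conj_mem inferInstance n hn c) (inv_mem hn)
      · have e : conjBy (conjBy A n) (c * n * c⁻¹ * n⁻¹) = conjBy (conjBy A n) c := by
          rw [cj_cj, cj_cj]
          have h2 : c * n * c⁻¹ * n⁻¹ * n = c * n * c⁻¹ := by group
          rw [h2, ← cj_cj]
          rw [cj_of_comm (z := c⁻¹) (A := A)]
          intro a ha
          exact (hac a ha _ (inv_mem hc)).symm
        rw [e]; exact h1
    · exfalso
      exact hN (top_of_le hS hconj h.1 (comm_le_of_cj hn hac))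
  have key2 : ∀ A ∈ S, ∀ n ∈ N, conjBy A n = A := by
    intro A hA n hn
    by_contra hne
    apply h2' _ (hS.conj_mem A hA n) _ hA hne
    apply Set.Subset.antisymm
    · have := key _ (hS.conj_mem A hA n) n⁻¹ (inv_mem hn)
      rwa [cj_cj, inv_mul_cancel, cj_one] at this
    · exact key A hA n hn
  intro n hn
  rw [Subgroup.mem_center_iff]
  have h3 : ∀ A ∈ S, ∀ a ∈ A, a * n = n * a := by
    intro A hA a ha
    obtain ⟨C, hC, hp⟩ := hF A hA
    have h4 : n * a * n⁻¹ * a⁻¹ ∈ A := by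
      have := cj_mem (g := n) ha
      rw [key2 A hA n hn] at this
      exact mul_mem this (inv_mem ha)
    have h5 : n * a * n⁻¹ * a⁻¹ ∈ N := by
      have := Subgroup.Normal.conj_mem (inferInstance : N.Normal) n⁻¹ (inv_mem hn) a
      have h6 : n * a * n⁻¹ * a⁻¹ = n * (a * n⁻¹ * a⁻¹) := by group
      rw [h6]; exact mul_mem hn this
    have h7 := not_normalize hp h4 (key2 C hC _ h5)
    have h8 : a * n = (n * a * n⁻¹ * a⁻¹)⁻¹ * (n * a) := by group
    rw [h8, h7]; group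
  have h4 : (⊤ : Subgroup G) ≤ Subgroup.centralizer {n} := by
    rw [← hS.generates]
    refine iSup₂_le fun A hA a ha => ?_
    rw [Subgroup.mem_centralizer_singleton_iff]
    exact h3 A hA a ha
  intro g
  have := h4 (Subgroup.mem_top g)
  rw [Subgroup.mem_centralizer_singleton_iff] at this
  exact this

end CfsgLib.H14RP
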