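import Cfsg.Agent.LibH14RP

/-! Generalization of LibH14RP to other subgroups of `A` (seat helper14). -/

set_option autoImplicit false

namespace CfsgLib.H14RP

open Cfsg CfsgLib.H14R1 CfsgLib.H14RS

variable {G : Type*} [Group G] {A B : Subgroup G} {a c n x : G}

/-- the action of a swap on the points `x B x⁻¹` -/
theorem sw_pt' {A₀ : Subgroup G} (h00 : A₀ ≤ A) (hst : ∀ n m, Sw A B n → Sw A B m → ∀ x ∈ A, (m⁻¹ * n) * x * (m⁻¹ * n)⁻¹ * x⁻¹ ∈ A₀) (h : IsSpecialRankOnePair A B) (hA : ∀ x ∈ A, ∀ y ∈ A, x * y = y * x) (hn : Sw A B n) (hx : x ∈ A) (hx1 : x ≠ 1) :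
    ∃ y ∈ A, y ≠ 1 ∧ y * x ∈ A₀ ∧ conjBy (conjBy B x) n = conjBy B y := by
  obtain ⟨hn1, hn2, hn3⟩ := hn
  have h1 : n * x * n⁻¹ ∈ B := by
    have := cj_mem (g := n) hx
    rwa [hn2] at this
  have h2 : n * x * n⁻¹ ≠ 1 := by
    intro h
    apply hx1
    have : x = n⁻¹ * (n * x * n⁻¹) * n := by group
    rw [this, h]; group
  obtain ⟨a, ha⟩ := exists_br' h h1 h2
  have hw := ha.swap h.1
  refine ⟨a⁻¹, inv_mem ha.ha, inv_ne_one.2 ha.ha1, ?_, ?_⟩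
  · set w := a * (n * x * n⁻¹) * a with hw'
    have e : (w⁻¹ * n) * x * (w⁻¹ * n)⁻¹ = a := by
      have := ha.conj_a
      rw [← hw'] at this
      have e3 : w⁻¹ * (n * x * n⁻¹) * w = a := by rw [← this]; group
      rw [← e3]; group
    have := hst n w ⟨hn1, hn2, hn3⟩ hw x hx
    rw [e] at this
    have h3 := inv_mem this
    have h4 : (a * x⁻¹)⁻¹ = x * a⁻¹ := by group
    rwa [h4, hA x hx _ (inv_mem ha.ha)] at h3
  · rw [cj_cj]
    have e : n * x = (n * x * n⁻¹) * n := by group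
    rw [e, ← cj_cj, hn3, ha.e]

theorem le_A0' {A₀ : Subgroup G} (h00 : A₀ ≤ A) (hst : ∀ n m, Sw A B n → Sw A B m → ∀ x ∈ A, (m⁻¹ * n) * x * (m⁻¹ * n)⁻¹ * x⁻¹ ∈ A₀) (h : IsSpecialRankOnePair A B) (hA : ∀ x ∈ A, ∀ y ∈ A, x * y = y * x) (h0 : A₀ ≠ ⊥) : A ≤ A₀ := by
  intro a ha
  by_contra hcon
  have ha0 : a ∉ A₀ := hcon
  obtain ⟨t, ht, ht1⟩ := exists_ne_one h0
  have ha1 : a ≠ 1 := by rintro rfl; exact ha0 (one_mem _)
  obtain ⟨c, hb⟩ := exists_br h ha ha1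
  have hw := hb.swap h.1
  obtain ⟨y', hy', -, hy'2, hy'3⟩ := sw_pt' h00 hst h hA hw (h00 ht) ht1
  have hy'0 : y' ∈ A₀ := by
    have := mul_mem hy'2 (inv_mem ht)
    rwa [mul_inv_cancel_right] at this
  have hat : a * t ≠ 1 := by
    intro e
    apply ha0
    rw [mul_eq_one_iff_eq_inv] at e
    rw [e]; exact inv_mem ht
  obtain ⟨y, hy, -, hy2, hy3⟩ := sw_pt' h00 hst h hA hw.inv (mul_mem ha (h00 ht)) hat
  have hay : a * y ∈ A₀ := by
    have := mul_mem hy2 (inv_mem ht)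
    rw [← mul_assoc, mul_inv_cancel_right] at this
    rwa [hA y hy a ha] at this
  have e := hb.word (conjBy B t)
  rw [hy'3, cj_cj B t a, hy3, cj_cj B y a] at e
  by_cases h1 : a * y = 1
  · rw [h1, cj_one, hw.2.2, cj_of_mem ha] at e
    exact pt_ne h.1 hy' e
  · obtain ⟨z, hz, -, hz2, hz3⟩ := sw_pt' h00 hst h hA hw (mul_mem ha hy) h1
    rw [hz3, cj_cj] at e
    have h2 := pt_inj h.1 hy' (mul_mem ha hz) e
    apply ha0
    have hz0 : z ∈ A₀ := by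
      have := mul_mem hz2 (inv_mem hay)
      rwa [mul_inv_cancel_right] at this
    have : a = y' * z⁻¹ := by rw [h2]; group
    rw [this]; exact mul_mem hy'0 (inv_mem hz0)

theorem sq_of_A0' {A₀ : Subgroup G} (h00 : A₀ ≤ A) (hst : ∀ n m, Sw A B n → Sw A B m → ∀ x ∈ A, (m⁻¹ * n) * x * (m⁻¹ * n)⁻¹ * x⁻¹ ∈ A₀) (h : IsSpecialRankOnePair A B) (hA : ∀ x ∈ A, ∀ y ∈ A, x * y = y * x) (h0 : A₀ = ⊥)
    {a x : G} (ha : a ∈ A) (ha1 : a ≠ 1) (hx : x ∈ A) (hx1 : x ≠ 1) (hax : a * x ≠ 1) : a = x⁻¹ * x⁻¹ := by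
  obtain ⟨c, hb⟩ := exists_br h ha ha1
  have hw := hb.swap h.1
  have key : ∀ n, Sw A B n → ∀ x ∈ A, x ≠ 1 → conjBy (conjBy B x) n = conjBy B x⁻¹ := by
    intro n hn x hx hx1
    obtain ⟨y, hy, -, hy2, hy3⟩ := sw_pt' h00 hst h hA hn hx hx1
    rw [h0, Subgroup.mem_bot, mul_eq_one_iff_eq_inv] at hy2
    rw [hy3, hy2]
  have e := hb.word (conjBy B x)
  rw [key _ hw x hx hx1, cj_cj B x a, key _ hw.inv _ (mul_mem ha hx) hax, cj_cj B _ a] at e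
  have e2 : a * (a * x)⁻¹ = x⁻¹ := by
    have := hA a ha x⁻¹ (inv_mem hx)
    rw [mul_inv_rev, ← mul_assoc, this]; group
  rw [e2, key _ hw _ (inv_mem hx) (inv_ne_one.2 hx1), inv_inv, cj_cj] at e
  have h2 := pt_inj h.1 (inv_mem hx) (mul_mem ha hx) e
  have h5 : a = (a * x) * x⁻¹ := by group
  rw [h5, ← h2]

theorem A0_ne_bot' {A₀ : Subgroup G} (h00 : A₀ ≤ A) (hst : ∀ n m, Sw A B n → Sw A B m → ∀ x ∈ A, (m⁻¹ * n) * x * (m⁻¹ * n)⁻¹ * x⁻¹ ∈ A₀) (h : IsSpecialRankOnePair A B) (hA : ∀ x ∈ A, ∀ y ∈ A, x * y = y * x) (h3 : 3 < ENat.card A) : A₀ ≠ ⊥ := by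
  intro h0
  obtain ⟨x, hx, hx1⟩ := exists_ne_one (left_ne_bot h.1)
  have : (A : Set G) ⊆ {1, x⁻¹, x⁻¹ * x⁻¹} := by
    intro a ha
    by_cases ha1 : a = 1
    · exact Or.inl ha1
    by_cases hax : a * x = 1
    · right; left; exact mul_eq_one_iff_eq_inv.1 hax
    · right; right; exact sq_of_A0' h00 hst h hA h0 ha ha1 hx hx1 hax
  have h4 : (A : Set G).encard ≤ 3 := by
    refine (Set.encard_le_encard this).trans ?_
    refine (Set.encard_insert_le _ _).trans ?_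
    have := Set.encard_insert_le {x⁻¹ * x⁻¹} x⁻¹
    rw [Set.encard_singleton] at this
    calc _ ≤ ((1 : ℕ∞) + 1) + 1 := by gcongr
      _ = 3 := by norm_num
  have h5 : ENat.card A = (A : Set G).encard := rfl
  rw [h5] at h3
  exact absurd h4 (not_le.2 h3)


theorem sw_diag {n m : G} (hn : Sw A B n) (hm : Sw A B m) : m⁻¹ * n ∈ rankOneDiagonal A B := by
  refine Subgroup.mem_inf.2 ⟨Subgroup.mem_inf.2 ⟨Subgroup.mul_mem _ (Subgroup.inv_mem _ hm.1) hn.1, ?_⟩, ?_⟩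
  · rw [← cj_self_iff, ← cj_cj, hn.2.1, cj_inv_iff, inv_inv, hm.2.1]
  · rw [← cj_self_iff, ← cj_cj, hn.2.2, cj_inv_iff, inv_inv, hm.2.2]

/-- `⁅A, H⁆ = A` -/
theorem comm_diag (h : IsSpecialRankOnePair A B) (hA : IsMulCommutative A) (h3 : 3 < ENat.card A) :
    ⁅A, rankOneDiagonal A B⁆ = A := by
  have h00 : ⁅A, rankOneDiagonal A B⁆ ≤ A := by
    rw [Subgroup.commutator_le]
    intro a ha g hg
    rw [commutatorElement_def]
    have h1 : conjBy A g = A := cj_self_iff.2 hg.1.2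
    have h2 : g * a⁻¹ * g⁻¹ ∈ A := by
      have := cj_mem (g := g) (inv_mem ha)
      rwa [h1] at this
    have e : a * g * a⁻¹ * g⁻¹ = a * (g * a⁻¹ * g⁻¹) := by group
    rw [e]; exact mul_mem ha h2
  have hst : ∀ n m, Sw A B n → Sw A B m → ∀ x ∈ A, (m⁻¹ * n) * x * (m⁻¹ * n)⁻¹ * x⁻¹ ∈ ⁅A, rankOneDiagonal A B⁆ := by
    intro n m hn hm x hx
    rw [Subgroup.commutator_comm]
    exact Subgroup.commutator_mem_commutator (sw_diag hn hm) hx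
  exact le_antisymm h00 (le_A0' h00 hst h (el_comm hA) (A0_ne_bot' h00 hst h (el_comm hA) h3))

end CfsgLib.H14RP
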