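import Cfsg.Agent.LibH14R1

/-! Sets of abstract root subgroups (Timmesfeld), basic facts (seat helper14). -/

set_option autoImplicit false

namespace CfsgLib.H14RS

open Cfsg CfsgLib.H14R1
open scoped commutatorElement

variable {G : Type*} [Group G]

theorem nil_mono {H K : Subgroup G} (h : H ≤ K) (hK : Group.IsNilpotent K) :
    Group.IsNilpotent H := by
  rw [Subgroup.isNilpotent_iff_lowerCentralSeries] at hK ⊢
  obtain ⟨n, hn⟩ := hK
  exact ⟨n, by rw [eq_bot_iff, ← hn]; exact Subgroup.lowerCentralSeries_mono n h⟩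

/-- a product of two abelian subgroups with central commutator is nilpotent -/
theorem comm_le_of {A B K : Subgroup G} (hA : IsMulCommutative A) (hB : IsMulCommutative B)
    (hAB : ⁅A, B⁆ ≤ K) (hK : ∀ c ∈ K, ∀ x ∈ A ⊔ B, c * x = x * c) :
    ⁅A ⊔ B, A ⊔ B⁆ ≤ K := by
  have hAA : ∀ x ∈ A, ∀ y ∈ A, x * y = y * x := fun x hx y hy => by
    simpa using hA.is_comm.comm ⟨x, hx⟩ ⟨y, hy⟩
  have hBB : ∀ x ∈ B, ∀ y ∈ B, x * y = y * x := fun x hx y hy => by
    simpa using hB.is_comm.comm ⟨x, hx⟩ ⟨y, hy⟩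
  have gen : ∀ x ∈ A ⊔ B, (∀ y ∈ A ⊔ B, ⁅x, y⁆ ∈ K) := by
    have hx1 : ∀ x y z : G, x ∈ A ⊔ B → ⁅y, z⁆ ∈ K → ⁅x, z⁆ ∈ K → ⁅x * y, z⁆ ∈ K := by
      intro x y z hx h1 h2
      have e : ⁅x * y, z⁆ = x * ⁅y, z⁆ * x⁻¹ * ⁅x, z⁆ := by
        simp only [commutatorElement_def]; group
      rw [e, ← hK _ h1 x hx, mul_inv_cancel_right]
      exact mul_mem h1 h2
    have hsw : ∀ x z : G, ⁅x, z⁆ ∈ K → ⁅z, x⁆ ∈ K := by
      intro x z h
      rw [← commutatorElement_inv]; exact inv_mem h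
    have hinv : ∀ x z : G, x ∈ A ⊔ B → ⁅x, z⁆ ∈ K → ⁅x⁻¹, z⁆ ∈ K := by
      intro x z hx h
      have e : ⁅x⁻¹, z⁆ = x⁻¹ * ⁅x, z⁆⁻¹ * x := by simp only [commutatorElement_def]; group
      rw [e]
      have h2 := hK _ (inv_mem h) x hx
      rw [mul_assoc, h2, inv_mul_cancel_left]
      exact inv_mem h
    have hone : ∀ z : G, ⁅(1 : G), z⁆ ∈ K := by intro z; simp
    have key : ∀ z, (∀ a ∈ A, ⁅a, z⁆ ∈ K) → (∀ b ∈ B, ⁅b, z⁆ ∈ K) → ∀ x ∈ A ⊔ B, ⁅x, z⁆ ∈ K := by
      intro z h1 h2 x hx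
      have hx' := hx
      rw [Subgroup.sup_eq_closure] at hx
      induction hx using Subgroup.closure_induction with
      | mem x hx => exact hx.elim (h1 x) (h2 x)
      | one => exact hone z
      | mul x y hx hy ihx ihy =>
        rw [← Subgroup.sup_eq_closure] at hx hy
        exact hx1 x y z hx (ihy hy) (ihx hx)
      | inv x hx ih =>
        rw [← Subgroup.sup_eq_closure] at hx
        exact hinv x z hx (ih hx)
    intro x hx y hy
    apply key y _ _ x hx
    · intro a ha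
      apply hsw
      apply key a _ _ y hy
      · intro a' ha'
        rw [commutatorElement_eq_one_iff_mul_comm.2 (hAA _ ha' _ ha)]; exact one_mem _
      · intro b hb
        apply hsw
        exact hAB (Subgroup.commutator_mem_commutator ha hb)
    · intro b hb
      apply hsw
      apply key b _ _ y hy
      · intro a' ha'
        exact hAB (Subgroup.commutator_mem_commutator ha' hb)
      · intro b' hb'
        rw [commutatorElement_eq_one_iff_mul_comm.2 (hBB _ hb' _ hb)]; exact one_mem _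
  rw [Subgroup.commutator_le]
  exact gen

theorem nil2 {A B K : Subgroup G} (hA : IsMulCommutative A) (hB : IsMulCommutative B)
    (hAB : ⁅A, B⁆ ≤ K) (hK : ∀ c ∈ K, ∀ x ∈ A ⊔ B, c * x = x * c) :
    ⁅⁅A ⊔ B, A ⊔ B⁆, A ⊔ B⁆ = ⊥ := by
  rw [comm_iff]
  intro c hc x hx
  exact hK c (comm_le_of hA hB hAB hK hc) x hx

theorem nil_of_class2 {X : Subgroup G} (h : ⁅⁅X, X⁆, X⁆ = ⊥) : Group.IsNilpotent X :=
  Subgroup.isNilpotent_of_lowerCentralSeries_eq_bot (n := 2) h

theorem nil_comm {A : Subgroup G} (hA : IsMulCommutative A) : Group.IsNilpotent A := by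
  apply Subgroup.isNilpotent_of_lowerCentralSeries_eq_bot (n := 1)
  rw [Subgroup.lowerCentralSeries_succ, Subgroup.lowerCentralSeries_zero, comm_iff]
  intro x hx y hy
  simpa using hA.is_comm.comm ⟨x, hx⟩ ⟨y, hy⟩

theorem el_comm {A : Subgroup G} (hA : IsMulCommutative A) : ∀ x ∈ A, ∀ y ∈ A, x * y = y * x :=
  fun x hx y hy => by simpa using hA.is_comm.comm ⟨x, hx⟩ ⟨y, hy⟩

theorem comm_of_el {A : Subgroup G} (h : ∀ x ∈ A, ∀ y ∈ A, x * y = y * x) : IsMulCommutative A :=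
  ⟨⟨fun x y => Subtype.ext (h _ x.2 _ y.2)⟩⟩

/-! ### the commutator case -/

variable {S : Set (Subgroup G)} {A B C D : Subgroup G}

theorem rcc_symm (h : RootCommutatorCase S A B) : RootCommutatorCase S B A := by
  obtain ⟨h1, h2, h3, h4⟩ := h
  have e : ⁅B, A⁆ = ⁅A, B⁆ := Subgroup.commutator_comm B A
  refine ⟨by rw [e]; exact h1, by rw [e, sup_comm]; exact h2, ?_, ?_⟩
  · intro b hb hb1
    rw [e, ← h4 b hb hb1]
    apply le_antisymm
    · rw [Subgroup.closure_le]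
      rintro _ ⟨a, ha, rfl⟩
      have : b * a * b⁻¹ * a⁻¹ = (a * b * a⁻¹ * b⁻¹)⁻¹ := by group
      simp only [this]
      exact inv_mem (Subgroup.subset_closure ⟨a, ha, rfl⟩)
    · rw [Subgroup.closure_le]
      rintro _ ⟨a, ha, rfl⟩
      have : a * b * a⁻¹ * b⁻¹ = (b * a * b⁻¹ * a⁻¹)⁻¹ := by group
      simp only [this]
      exact inv_mem (Subgroup.subset_closure ⟨a, ha, rfl⟩)
  · intro a ha ha1
    rw [e, ← h3 a ha ha1]
    apply le_antisymm
    · rw [Subgroup.closure_le]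
      rintro _ ⟨b, hb, rfl⟩
      have : b * a * b⁻¹ * a⁻¹ = (a * b * a⁻¹ * b⁻¹)⁻¹ := by group
      simp only [this]
      exact inv_mem (Subgroup.subset_closure ⟨b, hb, rfl⟩)
    · rw [Subgroup.closure_le]
      rintro _ ⟨b, hb, rfl⟩
      have : a * b * a⁻¹ * b⁻¹ = (b * a * b⁻¹ * a⁻¹)⁻¹ := by group
      simp only [this]
      exact inv_mem (Subgroup.subset_closure ⟨b, hb, rfl⟩)

/-- the elementwise commutator with a fixed element is additive in the commutator case -/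
theorem rcc_mul (h : RootCommutatorCase S A B) {a b b' : G} (ha : a ∈ A) (hb : b ∈ B)
    (hb' : b' ∈ B) : ⁅a, b * b'⁆ = ⁅a, b⁆ * ⁅a, b'⁆ := by
  have hc : ⁅a, b'⁆ ∈ ⁅A, B⁆ := Subgroup.commutator_mem_commutator ha hb'
  have e : ⁅a, b * b'⁆ = ⁅a, b⁆ * (b * ⁅a, b'⁆ * b⁻¹) := by
    simp only [commutatorElement_def]; group
  rw [e, ← h.2.1 _ hc b (Subgroup.mem_sup_right hb), mul_inv_cancel_right]

theorem rcc_hom (h : RootCommutatorCase S A B) {a : G} (ha : a ∈ A) :
    ∃ φ : B →* ↥⁅A, B⁆, ∀ b : B, (φ b : G) = ⁅a, (b : G)⁆ := by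
  refine ⟨{ toFun := fun b => ⟨⁅a, (b : G)⁆, Subgroup.commutator_mem_commutator ha b.2⟩
            map_one' := by ext; simp
            map_mul' := fun b b' => by ext; exact rcc_mul h ha b.2 b'.2 }, fun b => rfl⟩

theorem rcc_surj (h : RootCommutatorCase S A B) {a c : G} (ha : a ∈ A) (ha1 : a ≠ 1)
    (hc : c ∈ ⁅A, B⁆) : ∃ b ∈ B, ⁅a, b⁆ = c := by
  obtain ⟨φ, hφ⟩ := rcc_hom h ha
  have h3 := h.2.2.1 a ha ha1
  have : ⁅A, B⁆ ≤ φ.range.map (Subgroup.subtype _) := by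
    conv_lhs => rw [← h3]
    rw [Subgroup.closure_le]
    rintro _ ⟨b, hb, rfl⟩
    exact ⟨φ ⟨b, hb⟩, ⟨⟨b, hb⟩, rfl⟩, hφ _⟩
  obtain ⟨_, ⟨b, rfl⟩, e⟩ := this hc
  exact ⟨b, b.2, by rw [← hφ]; exact e⟩

theorem rcc_central (h : RootCommutatorCase S A B) {c x : G} (hc : c ∈ ⁅A, B⁆) (hx : x ∈ A ⊔ B) :
    c * x = x * c := h.2.1 c hc x hx

section
variable (hS : IsRootSubgroupSet S)
include hS

theorem rcc_nil2 (hA : A ∈ S) (hB : B ∈ S) (h : RootCommutatorCase S A B) :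
    ⁅⁅A ⊔ B, A ⊔ B⁆, A ⊔ B⁆ = ⊥ :=
  nil2 (hS.commutative A hA) (hS.commutative B hB) le_rfl h.2.1

theorem rcc_nilpotent (hA : A ∈ S) (hB : B ∈ S) (h : RootCommutatorCase S A B) :
    Group.IsNilpotent ↥(A ⊔ B) := nil_of_class2 (rcc_nil2 hS hA hB h)

theorem rcc_not_comm (h : RootCommutatorCase S A B) : ⁅A, B⁆ ≠ ⊥ := hS.ne_bot _ h.1

theorem rcc_not_pair (hA : A ∈ S) (hB : B ∈ S) (h : RootCommutatorCase S A B) :
    ¬ IsRankOnePair A B := fun h' => not_nilpotent h' (rcc_nilpotent hS hA hB h)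

theorem rcc_of_mem (hA : A ∈ S) (hB : B ∈ S) (h : ⁅A, B⁆ ∈ S) : RootCommutatorCase S A B := by
  rcases hS.pair A hA B hB with h1 | h1 | h1
  · exact absurd h1 (hS.ne_bot _ h)
  · exfalso
    have hle : ⁅A, B⁆ ≤ A ⊔ B := by
      rw [Subgroup.commutator_le]
      intro a ha b hb
      exact mul_mem (mul_mem (mul_mem (Subgroup.mem_sup_left ha) (Subgroup.mem_sup_right hb))
        (inv_mem (Subgroup.mem_sup_left ha))) (inv_mem (Subgroup.mem_sup_right hb))
    have hnorm : ∀ x ∈ A ⊔ B, conjBy ⁅A, B⁆ x = ⁅A, B⁆ := by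
      intro x hx
      rw [cj_self_iff]
      have : A ⊔ B ≤ Subgroup.normalizer ((⁅A, B⁆ : Subgroup G) : Set G) :=
        sup_le (Subgroup.normalizer_commutator_ge_left A B) (Subgroup.normalizer_commutator_ge_right A B)
      exact this hx
    have hCA : ∀ a ∈ A, conjBy ⁅A, B⁆ a = ⁅A, B⁆ := fun a ha => hnorm a (Subgroup.mem_sup_left ha)
    rcases dichotomy h1 hle hnorm with h2 | h2
    · -- X = [A,B] A
      have hCnp : ¬ IsRankOnePair A ⁅A, B⁆ := by
        intro h3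
        obtain ⟨a, ha, ha1⟩ := exists_ne_one (hS.ne_bot A hA)
        exact ha1 (not_normalize h3 ha (hCA a ha))
      apply not_nilpotent h1
      rw [← h2, sup_comm]
      rcases hS.pair A hA _ h with h3 | h3 | h3
      · apply nil_of_class2
        exact nil2 (K := ⊥) (hS.commutative A hA) (hS.commutative _ h) (by rw [h3])
          (by intro c hc x _; rw [Subgroup.mem_bot] at hc; rw [hc]; simp)
      · exact absurd h3 hCnp
      · exact rcc_nilpotent hS hA h h3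
    · exact not_nilpotent h1 (nil_of_class2 (nil2 (hS.commutative A hA) (hS.commutative B hB)
        le_rfl h2))
  · exact h1

theorem rcc_iff (hA : A ∈ S) (hB : B ∈ S) : RootCommutatorCase S A B ↔ ⁅A, B⁆ ∈ S :=
  ⟨fun h => h.1, rcc_of_mem hS hA hB⟩

theorem trich (hA : A ∈ S) (hB : B ∈ S) :
    ⁅A, B⁆ = ⊥ ∨ IsRankOnePair A B ∨ RootCommutatorCase S A B := hS.pair A hA B hB

/-- if the conjugate under an element of `D` generates with `C` a non-nilpotent group then
`D` and `C` form a rank one pair -/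
theorem pair_of_not_nil (hC : C ∈ S) (hD : D ∈ S) {d : G} (hd : d ∈ D)
    (h : ¬ Group.IsNilpotent ↥(C ⊔ conjBy C d)) : IsRankOnePair D C := by
  rcases hS.pair D hD C hC with h1 | h1 | h1
  · exfalso
    apply h
    rw [cj_of_comm (fun c hc => comm_iff.1 h1 d hd c hc), sup_idem]
    exact nil_comm (hS.commutative C hC)
  · exact h1
  · exfalso
    apply h
    refine nil_mono ?_ (rcc_nilpotent hS hD hC h1)
    refine sup_le le_sup_right ?_
    have : conjBy (D ⊔ C) d = D ⊔ C := cj_of_mem (Subgroup.mem_sup_left hd)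
    rw [← this]
    exact cj_le.2 le_sup_right

/-- in a set of abstract root subgroups: from the action of one nonidentity element -/
theorem comm_of_el_comm (hC : C ∈ S) (hD : D ∈ S) {d : G} (hd : d ∈ D) (hd1 : d ≠ 1)
    (h : ∀ c ∈ C, d * c = c * d) : ⁅D, C⁆ = ⊥ := by
  rcases hS.pair D hD C hC with h1 | h1 | h1
  · exact h1
  · exact absurd (not_normalize h1 hd (cj_of_comm h)) hd1
  · exfalso
    apply hS.ne_bot _ h1.1
    rw [← h1.2.2.1 d hd hd1, eq_bot_iff, Subgroup.closure_le]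
    rintro _ ⟨c, hc, rfl⟩
    simp only [h c hc]
    simp

theorem sup_eq_of_cj (hC : C ∈ S) (hD : D ∈ S) {d : G} (hd : d ∈ D) {A B : Subgroup G}
    (h : IsRankOnePair A B) (hAC : C ∈ unipotentSubgroups A B)
    (hmem : conjBy C d ∈ unipotentSubgroups A B) (hne : conjBy C d ≠ C) :
    IsRankOnePair D C ∧ D ⊔ C = A ⊔ B ∧ unipotentSubgroups A B = unipotentSubgroups D C := by
  obtain ⟨h1, h2⟩ := unip_pair h hAC hmem (Ne.symm hne)
  have h3 : IsRankOnePair D C := pair_of_not_nil hS hC hD hd (by rw [h2]; exact not_nilpotent h)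
  have h4 : D ⊔ C = A ⊔ B := by
    rw [← h2]
    symm
    refine (sup_cj h3 hd ?_).2
    rintro rfl
    simp at hne
  refine ⟨h3, h4, ?_⟩
  rw [unip_swap h3]
  exact unip_of_pair h (pair_symm h3) (by rw [← h4, sup_comm]) hAC

/-- S5025 -/
theorem translate (hA : A ∈ S) (hB : B ∈ S) (h : IsRankOnePair A B) {z a : G}
    (hz : ∀ x ∈ A ⊔ B, z * x = x * z) (hz1 : z ≠ 1) (ha : a ∈ A) (ha1 : a ≠ 1) (hD : D ∈ S)
    (hza : z * a ∈ D) : False := by
  have hzA : z ∉ A := by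
    intro hzA
    apply hz1
    apply not_normalize h hzA
    exact cj_of_comm fun b hb => hz b (Subgroup.mem_sup_right hb)
  have hza1 : z * a ≠ 1 := by
    intro e
    apply hzA
    rw [mul_eq_one_iff_eq_inv] at e
    rw [e]; exact inv_mem ha
  have hcomm : ∀ x ∈ A, z * a * x = x * (z * a) := by
    intro x hx
    rw [mul_assoc, el_comm (hS.commutative A hA) a ha x hx, ← mul_assoc,
      hz x (Subgroup.mem_sup_left hx), mul_assoc]
  have hcj : conjBy B (z * a) = conjBy B a := by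
    have : z * a = a * z := hz a (Subgroup.mem_sup_left ha)
    rw [this, ← cj_cj, cj_of_comm (fun b hb => hz b (Subgroup.mem_sup_right hb))]
  have hBu := right_mem_unip h
  have hne : conjBy B (z * a) ≠ B := by
    rw [hcj]
    intro e
    exact ha1 (not_normalize h ha e)
  obtain ⟨h1, h2, h3⟩ := sup_eq_of_cj hS hB hD hza h hBu
    (by rw [hcj]; exact unip_cj (Subgroup.mem_sup_left ha) hBu) hne
  have h4 : D = A := by
    refine unip_eq_of_mem h (by rw [h3]; exact left_mem_unip) left_mem_unip hza hza1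
      (cj_of_comm hcomm)
  rw [h4] at hza
  exact hzA (by simpa using mul_mem hza (inv_mem ha))

/-- S5028: a member having a rank one partner meets every other member trivially -/
theorem eq_of_inf (hA : A ∈ S) (hC : C ∈ S) (h : IsRankOnePair A C) (hB : B ∈ S) {a : G}
    (ha : a ∈ A) (haB : a ∈ B) (ha1 : a ≠ 1) : A = B := by
  have hne : conjBy C a ≠ C := fun e => ha1 (not_normalize h ha e)
  have hCu := right_mem_unip h
  obtain ⟨h1, h2, h3⟩ := sup_eq_of_cj hS hC hB haB h hCu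
    (unip_cj (Subgroup.mem_sup_left ha) hCu) hne
  exact unip_eq_of_inf h left_mem_unip (by rw [h3]; exact left_mem_unip) ha haB ha1

theorem partner_of_not_iso (hA : A ∈ S) (h : ¬ IsIsolatedIn (FAdj S) S A) :
    ∃ C ∈ S, IsRankOnePair A C := by
  by_contra hc
  push Not at hc
  apply h
  refine ⟨hA, fun B => ⟨?_, ?_⟩⟩
  · rintro ⟨_, hB, h'⟩; exact hc B hB h'
  · rintro ⟨hB, _, h'⟩; exact hc B hB (pair_symm h')

omit hS in
theorem not_iso_of_partner (hA : A ∈ S) (hC : C ∈ S) (h : IsRankOnePair A C) :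
    ¬ IsIsolatedIn (FAdj S) S A := fun h' => (h'.2 C).1 ⟨hA, hC, h⟩

/-- S5024 -/
theorem pair_le (hA : A ∈ S) (hC : C ∈ S) (hB : B ∈ S) (hD : D ∈ S)
    (h : IsRankOnePair A B) (h' : IsRankOnePair C D) (hle : A ⊔ B ≤ C ⊔ D) :
    A ⊔ B = C ⊔ D ∧ unipotentSubgroups A B = unipotentSubgroups C D := by
  have key : ∀ E F : Subgroup G, E ∈ S → F ∈ S → IsRankOnePair E F → E ⊔ F ≤ C ⊔ D →
      E ∈ unipotentSubgroups C D := by
    intro E F hE hF hEF hle
    obtain ⟨e, he, he1⟩ := exists_ne_one (hS.ne_bot E hE)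
    have hmS : ∀ K ∈ unipotentSubgroups C D, K ∈ S := by
      rintro K ⟨x, -, rfl⟩; exact hS.conj_mem C hC x
    by_cases hk : ∀ K ∈ unipotentSubgroups C D, conjBy K e = K
    · exfalso
      -- e acts trivially, so centralizes C ⊔ D
      have hcl : ∀ K ∈ unipotentSubgroups C D, ∀ k ∈ K, e * k = k * e := by
        intro K hK
        -- use normal closure argument: the kernel of the action is central
        let N : Subgroup G := (C ⊔ D) ⊓ ⨅ K : unipotentSubgroups C D, Subgroup.normalizer (K.1 : Set G)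
        have hN : ∀ x, x ∈ N ↔ x ∈ C ⊔ D ∧ ∀ K ∈ unipotentSubgroups C D, conjBy K x = K := by
          intro x
          simp only [N, Subgroup.mem_inf, Subgroup.mem_iInf, Subtype.forall, cj_self_iff]
        have heN : e ∈ N := (hN e).2 ⟨hle (Subgroup.mem_sup_left he), hk⟩
        rcases dichotomy h' (N := N) inf_le_left (by
          intro x hx
          rw [cj_self_iff, Subgroup.mem_normalizer_iff]
          have hh : ∀ x ∈ C ⊔ D, ∀ n ∈ N, x * n * x⁻¹ ∈ N := by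
            intro x hx n hn
            rw [hN] at hn ⊢
            refine ⟨mul_mem (mul_mem hx hn.1) (inv_mem hx), fun K hK => ?_⟩
            rw [← cj_cj, ← cj_cj, hn.2 _ (unip_cj (inv_mem hx) hK), cj_cj]; simp
          intro n
          refine ⟨fun hn => hh x hx n hn, fun hn => ?_⟩
          have := hh x⁻¹ (inv_mem hx) _ hn
          simpa [mul_assoc] using this) with h1 | h1
        · exfalso
          have hDu := right_mem_unip h'
          have : C ⊔ D ≤ Subgroup.normalizer (C : Set G) := by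
            rw [← h1]
            refine sup_le ?_ Subgroup.le_normalizer
            intro n hn
            rw [← cj_self_iff]
            exact ((hN n).1 hn).2 C left_mem_unip
          obtain ⟨d, hd, hd1⟩ := exists_ne_one (right_ne_bot h')
          exact hd1 (not_normalize (pair_symm h') hd (cj_self_iff.2 (this (Subgroup.mem_sup_right hd))))
        · intro k hk'
          exact h1 e heN k (unip_le hK hk')
      have hcomm : ∀ x ∈ C ⊔ D, e * x = x * e := by
        intro x hx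
        rw [Subgroup.sup_eq_closure] at hx
        induction hx using Subgroup.closure_induction with
        | mem x hx =>
          rcases hx with hx | hx
          · exact hcl C left_mem_unip x hx
          · exact hcl D (right_mem_unip h') x hx
        | one => simp
        | mul x y _ _ ihx ihy => rw [← mul_assoc, ihx, mul_assoc, ihy, mul_assoc]
        | inv x _ ih => rw [eq_inv_mul_iff_mul_eq, ← mul_assoc, ← ih, mul_inv_cancel_right]
      exact he1 (not_normalize hEF he (cj_of_comm fun f hf => hcomm f (hle (Subgroup.mem_sup_right hf))))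
    · push Not at hk
      obtain ⟨K, hK, hne⟩ := hk
      obtain ⟨h1, h2, h3⟩ := sup_eq_of_cj hS (hmS K hK) hE he h' hK
        (unip_cj (hle (Subgroup.mem_sup_left he)) hK) hne
      rw [h3]; exact left_mem_unip
  have hAu := key A B hA hB h hle
  have hBu := key B A hB hA (pair_symm h) (by rw [sup_comm]; exact hle)
  obtain ⟨_, h2⟩ := unip_pair h' hAu hBu h.ne
  exact ⟨h2, (unip_of_pair h' h h2.symm hAu).symm⟩

end

theorem mem_sup_comm {A K : Subgroup G} (h : ∀ a ∈ A, ∀ c ∈ K, a * c = c * a) {x : G} :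
    x ∈ A ⊔ K ↔ ∃ a ∈ A, ∃ c ∈ K, a * c = x := by
  constructor
  · intro hx
    rw [Subgroup.sup_eq_closure] at hx
    induction hx using Subgroup.closure_induction with
    | mem x hx =>
      rcases hx with hx | hx
      · exact ⟨x, hx, 1, one_mem _, by simp⟩
      · exact ⟨1, one_mem _, x, hx, by simp⟩
    | one => exact ⟨1, one_mem _, 1, one_mem _, by simp⟩
    | mul x y _ _ ihx ihy =>
      obtain ⟨a, ha, c, hc, rfl⟩ := ihx
      obtain ⟨a', ha', c', hc', rfl⟩ := ihy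
      refine ⟨a * a', mul_mem ha ha', c * c', mul_mem hc hc', ?_⟩
      calc a * a' * (c * c') = a * (a' * c) * c' := by group
        _ = a * (c * a') * c' := by rw [h a' ha' c hc]
        _ = _ := by group
    | inv x _ ih =>
      obtain ⟨a, ha, c, hc, rfl⟩ := ih
      refine ⟨a⁻¹, inv_mem ha, c⁻¹, inv_mem hc, ?_⟩
      rw [h a⁻¹ (inv_mem ha) c⁻¹ (inv_mem hc), mul_inv_rev]
  · rintro ⟨a, ha, c, hc, rfl⟩
    exact mul_mem (Subgroup.mem_sup_left ha) (Subgroup.mem_sup_right hc)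

section line
variable (hS : IsRootSubgroupSet S)
include hS

theorem rcc_AK (h : RootCommutatorCase S A B) : ∀ a ∈ A, ∀ c ∈ ⁅A, B⁆, a * c = c * a :=
  fun a ha c hc => (h.2.1 c hc a (Subgroup.mem_sup_left ha)).symm

theorem rcc_conj (h : RootCommutatorCase S A B) {a c : G} (ha : a ∈ A) (ha1 : a ≠ 1)
    (hc : c ∈ ⁅A, B⁆) : ∃ b ∈ B, b * a * b⁻¹ = a * c := by
  obtain ⟨b, hb, e⟩ := rcc_surj h ha ha1 (inv_mem hc)
  refine ⟨b, hb, ?_⟩
  have : b * a * b⁻¹ = ⁅a, b⁆⁻¹ * a := by rw [commutatorElement_def]; group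
  rw [this, e, inv_inv, rcc_AK hS h a ha c hc]

theorem rcc_conj_le (h : RootCommutatorCase S A B) {b : G} (hb : b ∈ B) :
    conjBy A b ≤ A ⊔ ⁅A, B⁆ := by
  intro x hx
  rw [mem_cj] at hx
  have : x = ⁅b⁻¹ * x * b, b⁆⁻¹ * (b⁻¹ * x * b) := by rw [commutatorElement_def]; group
  rw [this]
  exact mul_mem (Subgroup.mem_sup_right (inv_mem (Subgroup.commutator_mem_commutator hx hb)))
    (Subgroup.mem_sup_left hx)

theorem rcc_cover (h : RootCommutatorCase S A B) {x : G} (hx : x ∈ A ⊔ ⁅A, B⁆) :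
    x ∈ ⁅A, B⁆ ∨ ∃ b ∈ B, x ∈ conjBy A b := by
  rw [mem_sup_comm (rcc_AK hS h)] at hx
  obtain ⟨a, ha, c, hc, rfl⟩ := hx
  by_cases ha1 : a = 1
  · left; rw [ha1, one_mul]; exact hc
  · right
    obtain ⟨b, hb, e⟩ := rcc_conj hS h ha ha1 hc
    exact ⟨b, hb, by rw [← e]; exact cj_mem ha⟩

/-- injectivity of commutation for members with a rank one partner -/
theorem rcc_inj (hA : A ∈ S) {C₀ : Subgroup G} (hC₀ : C₀ ∈ S) (hp : IsRankOnePair A C₀)
    (h : RootCommutatorCase S A B) {a b : G} (ha : a ∈ A) (ha1 : a ≠ 1) (hb : b ∈ B)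
    (e : ⁅a, b⁆ = 1) : b = 1 := by
  by_contra hb1
  have e1 : b * a * b⁻¹ = a := by
    rw [commutatorElement_eq_one_iff_mul_comm] at e
    rw [← e, mul_inv_cancel_right]
  have hAb : A = conjBy A b := by
    refine eq_of_inf hS hA hC₀ hp (hS.conj_mem A hA b) ha ?_ ha1
    rw [← e1]; exact cj_mem ha
  have hle : ⁅A, B⁆ ≤ A := by
    rw [← h.2.2.2 b hb hb1, Subgroup.closure_le]
    rintro _ ⟨a', ha', rfl⟩
    have : b * a'⁻¹ * b⁻¹ ∈ A := by
      have h2 := cj_mem (g := b) (inv_mem ha')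
      rwa [← hAb] at h2
    have h3 : a' * b * a'⁻¹ * b⁻¹ = a' * (b * a'⁻¹ * b⁻¹) := by group
    simp only [h3]
    exact mul_mem ha' this
  obtain ⟨c, hc, hc1⟩ := exists_ne_one (hS.ne_bot _ h.1)
  have hAK := eq_of_inf hS hA hC₀ hp h.1 (hle hc) hc hc1
  apply rcc_not_comm hS h
  rw [comm_iff]
  intro x hx y hy
  rw [hAK] at hx
  exact h.2.1 x hx y (Subgroup.mem_sup_right hy)

theorem rcc_members (hA : A ∈ S) {E : Subgroup G} (hE : E ∈ S) (hp : IsRankOnePair A E)
    (h : RootCommutatorCase S A B) (hD : D ∈ S) (hle : D ≤ A ⊔ ⁅A, B⁆) :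
    D = ⁅A, B⁆ ∨ ∃ b ∈ B, D = conjBy A b := by
  by_cases hex : ∃ d ∈ D, d ≠ 1 ∧ ∃ b ∈ B, d ∈ conjBy A b
  · right
    obtain ⟨d, hd, hd1, b, hb, hdb⟩ := hex
    refine ⟨b, hb, ?_⟩
    exact (eq_of_inf hS (hS.conj_mem A hA b) (hS.conj_mem E hE b) (pair_cj hp b) hD hdb hd hd1).symm
  · left
    have hDK : D ≤ ⁅A, B⁆ := by
      intro d hd
      by_cases hd1 : d = 1
      · rw [hd1]; exact one_mem _
      rcases rcc_cover hS h (hle hd) with h1 | ⟨b, hb, h1⟩
      · exact h1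
      · exact absurd ⟨d, hd, hd1, b, hb, h1⟩ hex
    obtain ⟨d, hd, hd1⟩ := exists_ne_one (hS.ne_bot D hD)
    obtain ⟨a, ha, ha1⟩ := exists_ne_one (hS.ne_bot A hA)
    have hEk : ∀ k ∈ ⁅A, B⁆, k ≠ 1 → ¬ (∀ x ∈ E, k * x = x * k) := by
      intro k hk hk1 hcomm
      obtain ⟨b, hb, e⟩ := rcc_conj hS h ha ha1 hk
      refine translate hS hA hE hp (z := k) ?_ hk1 ha ha1 (hS.conj_mem A hA b) ?_
      · intro x hx
        rw [Subgroup.sup_eq_closure] at hx
        induction hx using Subgroup.closure_induction with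
        | mem x hx =>
          rcases hx with hx | hx
          · exact (rcc_AK hS h x hx k hk).symm
          · exact hcomm x hx
        | one => simp
        | mul x y _ _ ihx ihy => rw [← mul_assoc, ihx, mul_assoc, ihy, mul_assoc]
        | inv x _ ih => rw [eq_inv_mul_iff_mul_eq, ← mul_assoc, ← ih, mul_inv_cancel_right]
      · rw [← rcc_AK hS h a ha k hk, ← e]
        exact cj_mem ha
    rcases hS.pair D hD E hE with h1 | h1 | h1
    · exact absurd (fun x hx => comm_iff.1 h1 d hd x hx) (hEk d (hDK hd) hd1)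
    · exact eq_of_inf hS hD hE h1 h.1 hd (hDK hd) hd1
    · rcases hS.pair _ h.1 E hE with h2 | h2 | h2
      · exact absurd (fun x hx => comm_iff.1 h2 d (hDK hd) x hx) (hEk d (hDK hd) hd1)
      · exact (eq_of_inf hS h.1 hE h2 hD (hDK hd) hd hd1).symm
      · apply le_antisymm hDK
        have h1' := rcc_symm h1
        have h2' := rcc_symm h2
        obtain ⟨e, he, he1⟩ := exists_ne_one (hS.ne_bot E hE)
        have hEE : ⁅E, D⁆ = ⁅E, ⁅A, B⁆⁆ := by
          rw [← h1'.2.2.2 d hd hd1, ← h2'.2.2.2 d (hDK hd) hd1]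
        intro k hk
        have hk2 : ⁅e, k⁆ ∈ ⁅E, D⁆ := by
          rw [hEE]; exact Subgroup.commutator_mem_commutator he hk
        obtain ⟨d', hd', e'⟩ := rcc_surj h1' he he1 hk2
        have h3 : ⁅e, k * d'⁻¹⁆ = 1 := by
          rw [rcc_mul h2' he hk (inv_mem (hDK hd'))]
          have h4 : ⁅e, d'⁆ * ⁅e, d'⁻¹⁆ = 1 := by
            rw [← rcc_mul h2' he (hDK hd') (inv_mem (hDK hd')), mul_inv_cancel]; simp
          rw [← e']; exact h4
        have h5 := rcc_inj hS hE hA (pair_symm hp) h2' he he1 (mul_mem hk (inv_mem (hDK hd'))) h3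
        rw [mul_inv_eq_one.1 h5]; exact hd'

theorem rcc_membersIn (hA : A ∈ S) {E : Subgroup G} (hE : E ∈ S) (hp : IsRankOnePair A E)
    (h : RootCommutatorCase S A B) :
    membersIn S (A ⊔ ⁅A, B⁆) = (fun b : G => conjBy A b) '' (B : Set G) ∪ {⁅A, B⁆} := by
  ext D
  simp only [membersIn, Set.mem_setOf_eq, Set.mem_union, Set.mem_image, SetLike.mem_coe,
    Set.mem_singleton_iff]
  constructor
  · rintro ⟨hD, hle⟩
    rcases rcc_members hS hA hE hp h hD hle with h1 | ⟨b, hb, h1⟩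
    · exact Or.inr h1
    · exact Or.inl ⟨b, hb, h1.symm⟩
  · rintro (⟨b, hb, rfl⟩ | rfl)
    · exact ⟨hS.conj_mem A hA b, rcc_conj_le hS h hb⟩
    · exact ⟨h.1, le_sup_right⟩

theorem rcc_partition (hA : A ∈ S) {E : Subgroup G} (hE : E ∈ S) (hp : IsRankOnePair A E)
    (h : RootCommutatorCase S A B) :
    IsSubgroupPartition (A ⊔ ⁅A, B⁆) (membersIn S (A ⊔ ⁅A, B⁆)) := by
  refine ⟨fun C hC => hC.2, ?_, ?_⟩
  · intro x hx _
    rw [rcc_membersIn hS hA hE hp h]
    rcases rcc_cover hS h hx with h1 | ⟨b, hb, h1⟩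
    · exact ⟨_, Or.inr rfl, h1⟩
    · exact ⟨_, Or.inl ⟨b, hb, rfl⟩, h1⟩
  · intro C hC D hD hne
    by_contra hinf
    obtain ⟨x, hx, hx1⟩ := exists_ne_one hinf
    apply hne
    rcases rcc_members hS hA hE hp h hC.1 hC.2 with h1 | ⟨b, hb, h1⟩
    · rcases rcc_members hS hA hE hp h hD.1 hD.2 with h2 | ⟨b, hb, h2⟩
      · rw [h1, h2]
      · rw [h2] at hx ⊢
        exact (eq_of_inf hS (hS.conj_mem A hA b) (hS.conj_mem E hE b) (pair_cj hp b) hC.1
          hx.2 hx.1 hx1).symm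
    · rw [h1] at hx ⊢
      exact eq_of_inf hS (hS.conj_mem A hA b) (hS.conj_mem E hE b) (pair_cj hp b) hD.1
        hx.1 hx.2 hx1

theorem rcc_ne (h : RootCommutatorCase S A B) : A ≠ ⁅A, B⁆ := by
  intro hAK
  apply rcc_not_comm hS h
  rw [comm_iff]
  intro x hx y hy
  rw [hAK] at hx
  exact h.2.1 x hx y (Subgroup.mem_sup_right hy)

theorem rcc_line (hA : A ∈ S) {E : Subgroup G} (hE : E ∈ S) (hp : IsRankOnePair A E)
    (h : RootCommutatorCase S A B) : A ∈ linePartners S ⁅A, B⁆ := by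
  refine ⟨⟨hA, rcc_ne hS h, ?_⟩, ?_⟩
  · rw [comm_iff]
    intro c hc a ha
    exact (rcc_AK hS h a ha c hc).symm
  · rw [sup_comm]
    exact rcc_partition hS hA hE hp h

theorem line_symm (hA : A ∈ S) (h : B ∈ linePartners S A) : A ∈ linePartners S B := by
  obtain ⟨⟨hB, hne, hc⟩, hp⟩ := h
  exact ⟨⟨hA, hne.symm, comm_swap.1 hc⟩, by rw [sup_comm]; exact hp⟩

end line

/-! ### commutators of generated subgroups -/

theorem comm_le_gen {s t : Set G} {P : Subgroup G}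
    (hs : ∀ x ∈ s, conjBy P x = P) (ht : ∀ y ∈ t, conjBy P y = P)
    (h : ∀ x ∈ s, ∀ y ∈ t, ⁅x, y⁆ ∈ P) : ⁅Subgroup.closure s, Subgroup.closure t⁆ ≤ P := by
  have hs' : ∀ x ∈ Subgroup.closure s, conjBy P x = P := by
    intro x hx
    rw [cj_self_iff]
    refine (Subgroup.closure_le _).2 ?_ hx
    intro x hx
    exact cj_self_iff.1 (hs x hx)
  have ht' : ∀ x ∈ Subgroup.closure t, conjBy P x = P := by
    intro x hx
    rw [cj_self_iff]
    refine (Subgroup.closure_le _).2 ?_ hx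
    intro x hx
    exact cj_self_iff.1 (ht x hx)
  have step : ∀ (u : Set G) (y : G), (∀ x ∈ Subgroup.closure u, conjBy P x = P) →
      (∀ x ∈ u, ⁅x, y⁆ ∈ P) → ∀ x ∈ Subgroup.closure u, ⁅x, y⁆ ∈ P := by
    intro u y hu h1 x hx
    induction hx using Subgroup.closure_induction with
    | mem x hx => exact h1 x hx
    | one => simp
    | mul a b ha hb iha ihb =>
      have e : ⁅a * b, y⁆ = a * ⁅b, y⁆ * a⁻¹ * ⁅a, y⁆ := by
        simp only [commutatorElement_def]; group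
      rw [e]
      refine mul_mem ?_ iha
      have := cj_mem (g := a) ihb
      rwa [hu a ha] at this
    | inv a ha iha =>
      have e : ⁅a⁻¹, y⁆ = a⁻¹ * ⁅a, y⁆⁻¹ * (a⁻¹)⁻¹ := by simp only [commutatorElement_def]; group
      rw [e]
      have := cj_mem (g := a⁻¹) (inv_mem iha)
      rwa [hu _ (inv_mem ha)] at this
  rw [Subgroup.commutator_le]
  intro x hx y hy
  refine step s y hs' ?_ x hx
  intro x hx
  rw [← commutatorElement_inv]
  refine inv_mem (step t x ht' ?_ y hy)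
  intro y hy
  rw [← commutatorElement_inv]
  exact inv_mem (h x hx y hy)

theorem comm_le_sup {A B C : Subgroup G} {P : Subgroup G} (hA : ∀ x ∈ A, conjBy P x = P)
    (hB : ∀ x ∈ B, conjBy P x = P) (hC : ∀ x ∈ C, conjBy P x = P)
    (h1 : ⁅A, C⁆ ≤ P) (h2 : ⁅B, C⁆ ≤ P) : ⁅A ⊔ B, C⁆ ≤ P := by
  rw [Subgroup.sup_eq_closure, ← Subgroup.closure_eq C]
  apply comm_le_gen
  · rintro x (hx | hx)
    · exact hA x hx
    · exact hB x hx
  · intro x hx; exact hC x hx
  · rintro x (hx | hx) y hy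
    · exact h1 (Subgroup.commutator_mem_commutator hx hy)
    · exact h2 (Subgroup.commutator_mem_commutator hx hy)

theorem norm_of_le_central {P N : Subgroup G} (h : ∀ c ∈ P, ∀ x ∈ N, c * x = x * c) :
    ∀ x ∈ N, conjBy P x = P := fun x hx => cj_of_comm fun c hc => (h c hc x hx).symm

theorem norm_sup {P Q : Subgroup G} {x : G} (hP : conjBy P x = P) (hQ : conjBy Q x = Q) :
    conjBy (P ⊔ Q) x = P ⊔ Q := by rw [cj_sup, hP, hQ]

theorem cj_eq_of_le {P : Subgroup G} {B : Subgroup G} (h : ∀ x ∈ B, conjBy P x ≤ P) :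
    ∀ x ∈ B, conjBy P x = P := by
  intro x hx
  apply le_antisymm (h x hx)
  have := h x⁻¹ (inv_mem hx)
  rw [← cj_le (g := x), cj_cj] at this
  simpa using this

theorem el_comm_sup {A B C : Subgroup G} (h1 : ∀ a ∈ A, ∀ c ∈ C, a * c = c * a)
    (h2 : ∀ b ∈ B, ∀ c ∈ C, b * c = c * b) : ∀ x ∈ A ⊔ B, ∀ c ∈ C, x * c = c * x := by
  intro x hx c hc
  rw [Subgroup.sup_eq_closure] at hx
  induction hx using Subgroup.closure_induction with
  | mem x hx =>
    rcases hx with hx | hx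
    · exact h1 x hx c hc
    · exact h2 x hx c hc
  | one => simp
  | mul x y _ _ ihx ihy => rw [mul_assoc, ihy, ← mul_assoc, ihx, mul_assoc]
  | inv x _ ih => rw [inv_mul_eq_iff_eq_mul, ← mul_assoc, ih, mul_inv_cancel_right]

theorem el_comm_symm {A B : Subgroup G} (h : ∀ a ∈ A, ∀ c ∈ B, a * c = c * a) :
    ∀ b ∈ B, ∀ a ∈ A, b * a = a * b := fun b hb a ha => (h a ha b hb).symm

theorem el_comm_of_le {A B A' B' : Subgroup G} (h : ∀ a ∈ A, ∀ c ∈ B, a * c = c * a)
    (hA : A' ≤ A) (hB : B' ≤ B) : ∀ a ∈ A', ∀ c ∈ B', a * c = c * a :=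
  fun a ha b hb => h a (hA ha) b (hB hb)

theorem el_comm_cj {A B : Subgroup G} (h : ∀ a ∈ A, ∀ c ∈ B, a * c = c * a) (g : G) :
    ∀ a ∈ conjBy A g, ∀ c ∈ conjBy B g, a * c = c * a := by
  intro a ha c hc
  rw [mem_cj] at ha hc
  have := h _ ha _ hc
  calc a * c = g * ((g⁻¹ * a * g) * (g⁻¹ * c * g)) * g⁻¹ := by group
    _ = g * ((g⁻¹ * c * g) * (g⁻¹ * a * g)) * g⁻¹ := by rw [this]
    _ = _ := by group

section chain
variable (hS : IsRootSubgroupSet S)
include hS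

/-- data for S5030 -/
structure Chain (S : Set (Subgroup G)) (A B C : Subgroup G) (β : G) : Prop where
  hA : A ∈ S
  hB : B ∈ S
  hC : C ∈ S
  h1 : RootCommutatorCase S A B
  h2 : RootCommutatorCase S C B
  hAC : ∀ a ∈ A, ∀ c ∈ C, a * c = c * a
  hβ : β ∈ B
  hβ1 : β ≠ 1

omit hS in
theorem Chain.symm {β : G} (h : Chain S A B C β) : Chain S C B A β :=
  ⟨h.hC, h.hB, h.hA, h.h2, h.h1, el_comm_symm h.hAC, h.hβ, h.hβ1⟩

omit hS in
theorem Chain.inv {β : G} (h : Chain S A B C β) : Chain S A B C β⁻¹ :=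
  ⟨h.hA, h.hB, h.hC, h.h1, h.h2, h.hAC, inv_mem h.hβ, by simpa using h.hβ1⟩

theorem Chain.AA' {β : G} (h : Chain S A B C β) : ∀ a ∈ A, ∀ a' ∈ conjBy A β, a * a' = a' * a := by
  intro a ha a' ha'
  have := rcc_conj_le hS h.h1 h.hβ ha'
  have hh : ∀ x ∈ A ⊔ ⁅A, B⁆, ∀ a ∈ A, x * a = a * x :=
    el_comm_sup (el_comm (hS.commutative A h.hA)) (el_comm_symm (rcc_AK hS h.h1))
  exact (hh a' this a ha).symm

theorem Chain.XY {β : G} (h : Chain S A B C β) :
    ∀ x ∈ A ⊔ conjBy C β, ∀ y ∈ conjBy A β ⊔ C, x * y = y * x := by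
  apply el_comm_sup
  · apply el_comm_symm
    apply el_comm_sup
    · exact el_comm_symm (h.AA' hS)
    · exact el_comm_symm h.hAC
  · apply el_comm_symm
    apply el_comm_sup
    · exact el_comm_cj h.hAC β
    · exact h.symm.AA' hS

omit hS in
theorem Chain.exists_a {β : G} (hS : IsRootSubgroupSet S) (h : Chain S A B C β) :
    ∃ a ∈ A, a ≠ 1 ∧ β * a * β⁻¹ * a⁻¹ ≠ 1 ∧ β * a * β⁻¹ * a⁻¹ ∈ ⁅A, B⁆ := by
  by_contra hc
  push Not at hc
  apply rcc_not_comm hS h.h1
  rw [← h.h1.2.2.2 β h.hβ h.hβ1, eq_bot_iff, Subgroup.closure_le]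
  rintro _ ⟨a, ha, rfl⟩
  have hmem : ∀ a ∈ A, β * a * β⁻¹ * a⁻¹ ∈ ⁅A, B⁆ := by
    intro a ha
    rw [Subgroup.commutator_comm]
    exact Subgroup.commutator_mem_commutator h.hβ ha
  by_cases ha1 : a = 1
  · simp [ha1]
  by_contra hne
  refine hc a ha ha1 ?_ (hmem a ha)
  intro e
  apply hne
  have : a * β * a⁻¹ * β⁻¹ = (β * a * β⁻¹ * a⁻¹)⁻¹ := by group
  simp only [this, e, inv_one]
  rfl

theorem Chain.not_pair {β : G} (h : Chain S A B C β) : ¬ IsRankOnePair A (conjBy C β) := by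
  intro hp
  obtain ⟨a, ha, ha1, hk1, hk⟩ := h.exists_a hS
  refine translate hS h.hA (hS.conj_mem C h.hC β) hp (z := β * a * β⁻¹) (a := a⁻¹) ?_ ?_
    (inv_mem ha) (by simpa using ha1) h.h1.1 hk
  · intro x hx
    exact (h.XY hS x hx _ (Subgroup.mem_sup_left (cj_mem ha))).symm
  · intro e
    apply ha1
    have : a = β⁻¹ * (β * a * β⁻¹) * β := by group
    rw [this, e]; group

theorem Chain.comm_or {β : G} (h : Chain S A B C β) :
    ⁅A, conjBy C β⁆ = ⊥ ∨ RootCommutatorCase S A (conjBy C β) := by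
  rcases hS.pair A h.hA _ (hS.conj_mem C h.hC β) with h1 | h1 | h1
  · exact Or.inl h1
  · exact absurd h1 (h.not_pair hS)
  · exact Or.inr h1

theorem Chain.comm_K {β : G} (h : Chain S A B C β) (hc : ⁅A, conjBy C β⁆ = ⊥) :
    ∀ a ∈ A, ∀ k ∈ ⁅C, B⁆, a * k = k * a := by
  intro a ha k hk
  rw [← h.h2.2.2.2 β h.hβ h.hβ1] at hk
  have hle : Subgroup.closure ((fun c : G => c * β * c⁻¹ * β⁻¹) '' (C : Set G)) ≤
      Subgroup.centralizer {a} := by
    rw [Subgroup.closure_le]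
    rintro _ ⟨c, hc', rfl⟩
    rw [SetLike.mem_coe, Subgroup.mem_centralizer_singleton_iff]
    have e1 := h.hAC a ha c hc'
    have e2 := comm_iff.1 hc a ha _ (cj_mem (g := β) (inv_mem hc'))
    have : c * β * c⁻¹ * β⁻¹ = c * (β * c⁻¹ * β⁻¹) := by group
    show c * β * c⁻¹ * β⁻¹ * a = a * (c * β * c⁻¹ * β⁻¹)
    rw [this, mul_assoc, ← e2, ← mul_assoc, ← e1, mul_assoc]
  exact (Subgroup.mem_centralizer_singleton_iff.1 (hle hk)).symm

theorem Chain.comm_step {β : G} (h : Chain S A B C β) (hc : ⁅A, conjBy C β⁆ = ⊥) :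
    ⁅conjBy A β, C⁆ = ⊥ := by
  have h1 := h.comm_K hS hc
  have h2 : ∀ a ∈ A, ∀ c ∈ conjBy C β⁻¹, a * c = c * a := by
    intro a ha c hc'
    have h3 := rcc_conj_le hS h.h2 (inv_mem h.hβ) hc'
    exact (el_comm_sup (el_comm_symm h.hAC) (el_comm_symm h1) c h3 a ha).symm
  have h3 := el_comm_cj h2 β
  rw [cj_cj] at h3
  rw [comm_iff]
  simpa using h3

theorem Chain.comm_iff' {β : G} (h : Chain S A B C β) :
    ⁅A, conjBy C β⁆ = ⊥ ↔ ⁅conjBy A β, C⁆ = ⊥ := by
  constructor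
  · exact h.comm_step hS
  · intro hc
    rw [comm_swap] at hc
    have := h.symm.comm_step hS hc
    rw [comm_swap] at this
    exact this

theorem Chain.class2_X {β : G} (h : Chain S A B C β) :
    ⁅⁅A ⊔ conjBy C β, A ⊔ conjBy C β⁆, A ⊔ conjBy C β⁆ = ⊥ := by
  rcases h.comm_or hS with h1 | h1
  · exact nil2 (K := ⊥) (hS.commutative A h.hA) (cj_comm β (hS.commutative C h.hC)) (by rw [h1])
      (by intro c hc x _; rw [Subgroup.mem_bot] at hc; rw [hc]; simp)
  · exact rcc_nil2 hS h.hA (hS.conj_mem C h.hC β) h1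

theorem Chain.class2_Y {β : G} (h : Chain S A B C β) :
    ⁅⁅conjBy A β ⊔ C, conjBy A β ⊔ C⁆, conjBy A β ⊔ C⁆ = ⊥ := by
  have := h.symm.class2_X hS
  rwa [sup_comm] at this

omit hS in
theorem sup3_eq_closure (A B C : Subgroup G) :
    A ⊔ B ⊔ C = Subgroup.closure ((A : Set G) ∪ B ∪ C) := by
  rw [Subgroup.closure_union, Subgroup.closure_union, Subgroup.closure_eq, Subgroup.closure_eq,
    Subgroup.closure_eq]

omit hS in
theorem sup4_eq_closure (A B C D : Subgroup G) :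
    A ⊔ B ⊔ C ⊔ D = Subgroup.closure ((A : Set G) ∪ B ∪ C ∪ D) := by
  rw [Subgroup.closure_union, Subgroup.closure_union, Subgroup.closure_union, Subgroup.closure_eq,
    Subgroup.closure_eq, Subgroup.closure_eq, Subgroup.closure_eq]

theorem Chain.K_le {β : G} (h : Chain S A B C β) : ⁅A, B⁆ ≤ A ⊔ conjBy A β := by
  rw [← h.h1.2.2.2 β h.hβ h.hβ1, Subgroup.closure_le]
  rintro _ ⟨a, ha, rfl⟩
  show a * β * a⁻¹ * β⁻¹ ∈ A ⊔ conjBy A β
  have : a * β * a⁻¹ * β⁻¹ = a * (β * a⁻¹ * β⁻¹) := by group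
  rw [this]
  exact mul_mem (Subgroup.mem_sup_left ha) (Subgroup.mem_sup_right (cj_mem (inv_mem ha)))

theorem Chain.N_eq {β : G} (h : Chain S A B C β) :
    (A ⊔ conjBy C β) ⊔ (conjBy A β ⊔ C) = A ⊔ C ⊔ ⁅A, B⁆ ⊔ ⁅C, B⁆ := by
  apply le_antisymm
  · refine sup_le (sup_le ?_ ?_) (sup_le ?_ ?_)
    · exact le_sup_left.trans (le_sup_left.trans le_sup_left)
    · refine (rcc_conj_le hS h.h2 h.hβ).trans (sup_le ?_ le_sup_right)
      exact le_sup_right.trans (le_sup_left.trans le_sup_left)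
    · refine (rcc_conj_le hS h.h1 h.hβ).trans (sup_le ?_ ?_)
      · exact le_sup_left.trans (le_sup_left.trans le_sup_left)
      · exact le_sup_right.trans le_sup_left
    · exact le_sup_right.trans (le_sup_left.trans le_sup_left)
  · refine sup_le (sup_le (sup_le ?_ ?_) ?_) ?_
    · exact le_sup_left.trans le_sup_left
    · exact le_sup_right.trans le_sup_right
    · refine (h.K_le hS).trans (sup_le ?_ ?_)
      · exact le_sup_left.trans le_sup_left
      · exact le_sup_left.trans le_sup_right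
    · refine (h.symm.K_le hS).trans (sup_le ?_ ?_)
      · exact le_sup_right.trans le_sup_right
      · exact le_sup_right.trans le_sup_left

/-- the normal subgroup -/
theorem Chain.N_normB {β : G} (h : Chain S A B C β) {b : G} (hb : b ∈ B) :
    conjBy (A ⊔ C ⊔ ⁅A, B⁆ ⊔ ⁅C, B⁆) b = A ⊔ C ⊔ ⁅A, B⁆ ⊔ ⁅C, B⁆ := by
  refine cj_eq_of_le (B := B) ?_ b hb
  intro b hb
  have hK1 : conjBy ⁅A, B⁆ b = ⁅A, B⁆ :=
    cj_of_comm fun c hc => (h.h1.2.1 c hc b (Subgroup.mem_sup_right hb)).symm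
  have hK2 : conjBy ⁅C, B⁆ b = ⁅C, B⁆ :=
    cj_of_comm fun c hc => (h.h2.2.1 c hc b (Subgroup.mem_sup_right hb)).symm
  rw [cj_sup, cj_sup, cj_sup, hK1, hK2]
  refine sup_le (sup_le (sup_le ?_ ?_) ?_) ?_
  · refine (rcc_conj_le hS h.h1 hb).trans (sup_le ?_ ?_)
    · exact le_sup_left.trans (le_sup_left.trans le_sup_left)
    · exact le_sup_right.trans le_sup_left
  · refine (rcc_conj_le hS h.h2 hb).trans (sup_le ?_ le_sup_right)
    exact le_sup_right.trans (le_sup_left.trans le_sup_left)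
  · exact le_sup_right.trans le_sup_left
  · exact le_sup_right

theorem Chain.N_norm {β : G} (h : Chain S A B C β) {r : G} (hr : r ∈ A ⊔ B ⊔ C) :
    conjBy (A ⊔ C ⊔ ⁅A, B⁆ ⊔ ⁅C, B⁆) r = A ⊔ C ⊔ ⁅A, B⁆ ⊔ ⁅C, B⁆ := by
  rw [cj_self_iff]
  refine (sup_le (sup_le ?_ ?_) ?_ : A ⊔ B ⊔ C ≤ _) hr
  · exact (le_sup_left.trans (le_sup_left.trans le_sup_left)).trans Subgroup.le_normalizer
  · intro b hb; rw [← cj_self_iff]; exact h.N_normB hS hb
  · exact (le_sup_right.trans (le_sup_left.trans le_sup_left)).trans Subgroup.le_normalizer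

omit hS in
theorem comm_le_self (A B : Subgroup G) : ⁅A, B⁆ ≤ A ⊔ B := by
  rw [Subgroup.commutator_le]
  intro a ha b hb
  exact mul_mem (mul_mem (mul_mem (Subgroup.mem_sup_left ha) (Subgroup.mem_sup_right hb))
    (inv_mem (Subgroup.mem_sup_left ha))) (inv_mem (Subgroup.mem_sup_right hb))

theorem Chain.NB {β : G} (h : Chain S A B C β) :
    (A ⊔ C ⊔ ⁅A, B⁆ ⊔ ⁅C, B⁆) ⊔ B = A ⊔ B ⊔ C := by
  apply le_antisymm
  · refine sup_le (sup_le (sup_le (sup_le ?_ ?_) ?_) ?_) ?_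
    · exact le_sup_left.trans le_sup_left
    · exact le_sup_right
    · exact (comm_le_self A B).trans le_sup_left
    · exact (comm_le_self C B).trans (sup_le le_sup_right (le_sup_right.trans le_sup_left))
    · exact le_sup_right.trans le_sup_left
  · refine sup_le (sup_le ?_ le_sup_right) ?_
    · exact (le_sup_left.trans (le_sup_left.trans le_sup_left)).trans le_sup_left
    · exact (le_sup_right.trans (le_sup_left.trans le_sup_left)).trans le_sup_left

omit hS in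
theorem central_of_two {X Y : Subgroup G} (hXY : ∀ x ∈ X, ∀ y ∈ Y, x * y = y * x)
    (hX : ⁅⁅X, X⁆, X⁆ = ⊥) (hY : ⁅⁅Y, Y⁆, Y⁆ = ⊥) :
    ∀ c ∈ ⁅X ⊔ Y, X ⊔ Y⁆, ∀ x ∈ X ⊔ Y, c * x = x * c := by
  have hXX : ∀ c ∈ ⁅X, X⁆, ∀ x ∈ X ⊔ Y, c * x = x * c := by
    intro c hc x hx
    refine (el_comm_sup ?_ ?_ x hx c hc).symm
    · exact el_comm_symm (comm_iff.1 hX)
    · apply el_comm_symm
      refine el_comm_of_le hXY ?_ le_rfl
      exact (comm_le_self X X).trans (by rw [sup_idem])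
  have hYY : ∀ c ∈ ⁅Y, Y⁆, ∀ x ∈ X ⊔ Y, c * x = x * c := by
    intro c hc x hx
    refine (el_comm_sup ?_ ?_ x hx c hc).symm
    · refine el_comm_of_le hXY le_rfl ?_
      exact (comm_le_self Y Y).trans (by rw [sup_idem])
    · exact el_comm_symm (comm_iff.1 hY)
  have hP := el_comm_sup hXX hYY
  have hle : ⁅X ⊔ Y, X ⊔ Y⁆ ≤ ⁅X, X⁆ ⊔ ⁅Y, Y⁆ := by
    rw [Subgroup.sup_eq_closure X Y]
    apply comm_le_gen
    · rintro x hx
      refine norm_of_le_central hP x ?_
      rw [Subgroup.sup_eq_closure X Y]; exact Subgroup.subset_closure hx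
    · rintro x hx
      refine norm_of_le_central hP x ?_
      rw [Subgroup.sup_eq_closure X Y]; exact Subgroup.subset_closure hx
    · rintro x (hx | hx) y (hy | hy)
      · exact Subgroup.mem_sup_left (Subgroup.commutator_mem_commutator hx hy)
      · rw [commutatorElement_eq_one_iff_mul_comm.2 (hXY x hx y hy)]; exact one_mem _
      · rw [commutatorElement_eq_one_iff_mul_comm.2 (hXY y hy x hx).symm]; exact one_mem _
      · exact Subgroup.mem_sup_right (Subgroup.commutator_mem_commutator hx hy)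
  intro c hc
  exact hP c (hle hc)

omit hS in
theorem aux_comm {N : Subgroup G} (hN : ∀ c ∈ ⁅N, N⁆, ∀ x ∈ N, c * x = x * c) {x y b : G}
    (hx : x ∈ N) (hy : y ∈ N) (hby : b * y = y * b) (hk : ⁅b, x⁆ ∈ N) :
    ⁅⁅x, y⁆, b⁆ = ⁅⁅b, x⁆, y⁆⁻¹ := by
  have h1 : b * ⁅x, y⁆ * b⁻¹ = ⁅x, y⁆ * ⁅⁅b, x⁆, y⁆ := by
    have e1 : b * ⁅x, y⁆ * b⁻¹ = ⁅b * x * b⁻¹, b * y * b⁻¹⁆ := by
      simp only [commutatorElement_def]; group
    have e2 : b * y * b⁻¹ = y := by rw [hby, mul_inv_cancel_right]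
    have e3 : b * x * b⁻¹ = ⁅b, x⁆ * x := by rw [commutatorElement_def]; group
    have e4 : ∀ k : G, ⁅k * x, y⁆ = k * ⁅x, y⁆ * k⁻¹ * ⁅k, y⁆ := by
      intro k; simp only [commutatorElement_def]; group
    rw [e1, e2, e3, e4, ← hN _ (Subgroup.commutator_mem_commutator hx hy) _ hk, mul_inv_cancel_right]
  have h2 : ⁅⁅x, y⁆, b⁆ = ⁅x, y⁆ * (b * ⁅x, y⁆ * b⁻¹)⁻¹ := by
    simp only [commutatorElement_def]; group
  rw [h2, h1, mul_inv_rev, ← mul_assoc]
  have h3 : ⁅⁅b, x⁆, y⁆⁻¹ ∈ N := inv_mem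
    ((comm_le_self N N).trans (by rw [sup_idem]) (Subgroup.commutator_mem_commutator hk hy))
  rw [hN _ (Subgroup.commutator_mem_commutator hx hy) _ h3, mul_inv_cancel_right]

theorem Chain.nilpotent {β : G} (h : Chain S A B C β) : Group.IsNilpotent ↥(A ⊔ B ⊔ C) := by
  set N : Subgroup G := A ⊔ C ⊔ ⁅A, B⁆ ⊔ ⁅C, B⁆ with hNdef
  have hNc : ∀ c ∈ ⁅N, N⁆, ∀ x ∈ N, c * x = x * c := by
    rw [hNdef, ← h.N_eq hS]
    exact central_of_two (h.XY hS) (h.class2_X hS) (h.class2_Y hS)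
  have hAN : A ≤ N := le_sup_left.trans (le_sup_left.trans le_sup_left)
  have hCN : C ≤ N := le_sup_right.trans (le_sup_left.trans le_sup_left)
  have hK1N : ⁅A, B⁆ ≤ N := le_sup_right.trans le_sup_left
  have hK2N : ⁅C, B⁆ ≤ N := le_sup_right
  have hN'N : ⁅N, N⁆ ≤ N := (comm_le_self N N).trans (by rw [sup_idem])
  have hK1B : ∀ b ∈ B, ∀ k ∈ ⁅A, B⁆, b * k = k * b :=
    fun b hb k hk => (h.h1.2.1 k hk b (Subgroup.mem_sup_right hb)).symm
  have hK2B : ∀ b ∈ B, ∀ k ∈ ⁅C, B⁆, b * k = k * b :=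
    fun b hb k hk => (h.h2.2.1 k hk b (Subgroup.mem_sup_right hb)).symm
  have hN'B : ∀ b ∈ B, conjBy ⁅N, N⁆ b = ⁅N, N⁆ := by
    intro b hb
    rw [cj_commutator, h.N_normB hS hb]
  have hN'N2 : ∀ x ∈ N, conjBy ⁅N, N⁆ x = ⁅N, N⁆ := norm_of_le_central hNc
  -- P₁
  set P : Subgroup G := ⁅A, B⁆ ⊔ ⁅C, B⁆ ⊔ ⁅N, N⁆ with hP
  have hPN : P ≤ N := sup_le (sup_le hK1N hK2N) hN'N
  have hN'P : ⁅N, N⁆ ≤ P := le_sup_right
  have hPx : ∀ x ∈ N, conjBy P x = P := by
    apply cj_eq_of_le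
    intro x hx y hy
    rw [mem_cj] at hy
    have : y = ⁅x, x⁻¹ * y * x⁆ * (x⁻¹ * y * x) := by rw [commutatorElement_def]; group
    rw [this]
    exact mul_mem (hN'P (Subgroup.commutator_mem_commutator hx (hPN hy))) hy
  have hPB : ∀ b ∈ B, conjBy P b = P := by
    intro b hb
    rw [hP]
    refine norm_sup (norm_sup ?_ ?_) (hN'B b hb)
    · exact cj_of_comm (hK1B b hb)
    · exact cj_of_comm (hK2B b hb)
  have one : ∀ {x y : G} {Q : Subgroup G}, x * y = y * x → ⁅x, y⁆ ∈ Q := by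
    intro x y Q hxy
    rw [commutatorElement_eq_one_iff_mul_comm.2 hxy]; exact one_mem _
  have hAA := el_comm (hS.commutative A h.hA)
  have hBB := el_comm (hS.commutative B h.hB)
  have hCC := el_comm (hS.commutative C h.hC)
  have s1 : ⁅A ⊔ B ⊔ C, A ⊔ B ⊔ C⁆ ≤ P := by
    have hK1 : ⁅A, B⁆ ≤ P := le_sup_left.trans le_sup_left
    have hK2 : ⁅C, B⁆ ≤ P := le_sup_right.trans le_sup_left
    rw [sup3_eq_closure]
    have hn : ∀ x ∈ ((A : Set G) ∪ B ∪ C), conjBy P x = P := by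
      rintro x ((hx | hx) | hx)
      · exact hPx x (hAN hx)
      · exact hPB x hx
      · exact hPx x (hCN hx)
    apply comm_le_gen hn hn
    rintro x ((hx | hx) | hx) y ((hy | hy) | hy)
    · exact one (hAA x hx y hy)
    · exact hK1 (Subgroup.commutator_mem_commutator hx hy)
    · exact one (h.hAC x hx y hy)
    · rw [← commutatorElement_inv]
      exact inv_mem (hK1 (Subgroup.commutator_mem_commutator hy hx))
    · exact one (hBB x hx y hy)
    · rw [← commutatorElement_inv]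
      exact inv_mem (hK2 (Subgroup.commutator_mem_commutator hy hx))
    · exact one (h.hAC y hy x hx).symm
    · exact hK2 (Subgroup.commutator_mem_commutator hx hy)
    · exact one (hCC x hx y hy)
  have s2 : ⁅P, A ⊔ B ⊔ C⁆ ≤ ⁅N, N⁆ := by
    rw [hP, sup3_eq_closure, sup3_eq_closure]
    apply comm_le_gen
    · intro x hx
      apply hN'N2
      rcases hx with (hx | hx) | hx
      · exact hK1N hx
      · exact hK2N hx
      · exact hN'N hx
    · rintro x ((hx | hx) | hx)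
      · exact hN'N2 x (hAN hx)
      · exact hN'B x hx
      · exact hN'N2 x (hCN hx)
    · rintro x ((hx | hx) | hx) y ((hy | hy) | hy)
      · exact Subgroup.commutator_mem_commutator (hK1N hx) (hAN hy)
      · exact one (hK1B y hy x hx).symm
      · exact Subgroup.commutator_mem_commutator (hK1N hx) (hCN hy)
      · exact Subgroup.commutator_mem_commutator (hK2N hx) (hAN hy)
      · exact one (hK2B y hy x hx).symm
      · exact Subgroup.commutator_mem_commutator (hK2N hx) (hCN hy)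
      · exact Subgroup.commutator_mem_commutator (hN'N hx) (hAN hy)
      · have : ⁅x, y⁆ = x * (y * x⁻¹ * y⁻¹) := by rw [commutatorElement_def]; group
        rw [this]
        refine mul_mem hx ?_
        have h2 := cj_mem (g := y) (inv_mem hx)
        rwa [hN'B y hy] at h2
      · exact Subgroup.commutator_mem_commutator (hN'N hx) (hCN hy)
  set Z : Subgroup G := ⁅⁅A, B⁆, ⁅C, B⁆⁆ with hZ
  have hZN' : Z ≤ ⁅N, N⁆ := Subgroup.commutator_mono hK1N hK2N
  have hZB : ∀ b ∈ B, ∀ z ∈ Z, b * z = z * b := by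
    intro b hb z hz
    have : Z ≤ Subgroup.centralizer {b} := by
      rw [hZ, Subgroup.commutator_le]
      intro x hx y hy
      have hx' : x ∈ Subgroup.centralizer {b} :=
        Subgroup.mem_centralizer_singleton_iff.2 (hK1B b hb x hx).symm
      have hy' : y ∈ Subgroup.centralizer {b} :=
        Subgroup.mem_centralizer_singleton_iff.2 (hK2B b hb y hy).symm
      exact mul_mem (mul_mem (mul_mem hx' hy') (inv_mem hx')) (inv_mem hy')
    exact (Subgroup.mem_centralizer_singleton_iff.1 (this hz)).symm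
  have hZR : ∀ z ∈ Z, ∀ x ∈ A ⊔ B ⊔ C, z * x = x * z := by
    apply el_comm_symm
    apply el_comm_sup
    · apply el_comm_sup
      · exact fun a ha z hz => (hNc z (hZN' hz) a (hAN ha)).symm
      · exact hZB
    · exact fun a ha z hz => (hNc z (hZN' hz) a (hCN ha)).symm
  have hZn : ∀ x ∈ A ⊔ B ⊔ C, conjBy Z x = Z := norm_of_le_central hZR
  -- Q = elements of N' whose commutators with B lie in Z
  have s3 : ⁅⁅N, N⁆, A ⊔ B ⊔ C⁆ ≤ Z := by
    let Q : Subgroup G :=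
      { carrier := {n | n ∈ ⁅N, N⁆ ∧ ∀ b ∈ B, ⁅n, b⁆ ∈ Z}
        one_mem' := ⟨one_mem _, fun b _ => by simp⟩
        mul_mem' := by
          rintro x y ⟨hx, hx2⟩ ⟨hy, hy2⟩
          refine ⟨mul_mem hx hy, fun b hb => ?_⟩
          have e : ⁅x * y, b⁆ = x * ⁅y, b⁆ * x⁻¹ * ⁅x, b⁆ := by
            simp only [commutatorElement_def]; group
          have h5 := hNc x hx ⁅y, b⁆ (hN'N (hZN' (hy2 b hb)))
          rw [e, h5, mul_inv_cancel_right]
          exact mul_mem (hy2 b hb) (hx2 b hb)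
        inv_mem' := by
          rintro x ⟨hx, hx2⟩
          refine ⟨inv_mem hx, fun b hb => ?_⟩
          have e : ⁅x⁻¹, b⁆ = x⁻¹ * ⁅x, b⁆⁻¹ * x := by
            simp only [commutatorElement_def]; group
          have h5 := hNc x hx ⁅x, b⁆⁻¹ (inv_mem (hN'N (hZN' (hx2 b hb))))
          rw [e, mul_assoc, ← h5, inv_mul_cancel_left]
          exact inv_mem (hx2 b hb) }
    have hQN : Q ≤ ⁅N, N⁆ := fun x hx => hx.1
    have hQn : ∀ x ∈ N, conjBy Q x = Q :=
      norm_of_le_central fun c hc x hx => hNc c (hQN hc) x hx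
    have hinv : ∀ x y : G, ⁅x, y⁆ ∈ Q → ⁅y, x⁆ ∈ Q := by
      intro x y hxy; rw [← commutatorElement_inv]; exact inv_mem hxy
    have hAK2 : ∀ x ∈ A, ∀ y ∈ ⁅C, B⁆, ⁅x, y⁆ ∈ Q := by
      intro x hx y hy
      refine ⟨Subgroup.commutator_mem_commutator (hAN hx) (hK2N hy), fun b hb => ?_⟩
      have hk : ⁅b, x⁆ ∈ ⁅A, B⁆ := by
        rw [Subgroup.commutator_comm]; exact Subgroup.commutator_mem_commutator hb hx
      rw [aux_comm hNc (hAN hx) (hK2N hy) (hK2B b hb y hy) (hK1N hk)]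
      exact inv_mem (Subgroup.commutator_mem_commutator hk hy)
    have hCK1 : ∀ x ∈ C, ∀ y ∈ ⁅A, B⁆, ⁅x, y⁆ ∈ Q := by
      intro x hx y hy
      refine ⟨Subgroup.commutator_mem_commutator (hCN hx) (hK1N hy), fun b hb => ?_⟩
      have hk : ⁅b, x⁆ ∈ ⁅C, B⁆ := by
        rw [Subgroup.commutator_comm]; exact Subgroup.commutator_mem_commutator hb hx
      rw [aux_comm hNc (hCN hx) (hK1N hy) (hK1B b hb y hy) (hK2N hk), hZ,
        Subgroup.commutator_comm]
      exact inv_mem (Subgroup.commutator_mem_commutator hk hy)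
    have hKK : ∀ x ∈ ⁅A, B⁆, ∀ y ∈ ⁅C, B⁆, ⁅x, y⁆ ∈ Q := by
      intro x hx y hy
      refine ⟨Subgroup.commutator_mem_commutator (hK1N hx) (hK2N hy), fun b hb => ?_⟩
      have := hZB b hb _ (Subgroup.commutator_mem_commutator hx hy)
      exact one this.symm
    have hK1K1 := el_comm (hS.commutative _ h.h1.1)
    have hK2K2 := el_comm (hS.commutative _ h.h2.1)
    have hAK1 := rcc_AK hS h.h1
    have hCK2 := rcc_AK hS h.h2
    have hNQ : ⁅N, N⁆ ≤ Q := by
      have e : N = Subgroup.closure ((A : Set G) ∪ C ∪ (⁅A, B⁆ : Subgroup G) ∪ (⁅C, B⁆ : Subgroup G)) :=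
        sup4_eq_closure _ _ _ _
      have hn : ∀ x ∈ ((A : Set G) ∪ C ∪ (⁅A, B⁆ : Subgroup G) ∪ (⁅C, B⁆ : Subgroup G)),
          conjBy Q x = Q := by
        intro x hx
        apply hQn
        rw [e]; exact Subgroup.subset_closure hx
      have := comm_le_gen (P := Q) hn hn (by
        rintro x (((hx | hx) | hx) | hx) y (((hy | hy) | hy) | hy)
        · exact one (hAA x hx y hy)
        · exact one (h.hAC x hx y hy)
        · exact one (hAK1 x hx y hy)
        · exact hAK2 x hx y hy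
        · exact one (h.hAC y hy x hx).symm
        · exact one (hCC x hx y hy)
        · exact hCK1 x hx y hy
        · exact one (hCK2 x hx y hy)
        · exact one (hAK1 y hy x hx).symm
        · exact hinv _ _ (hCK1 y hy x hx)
        · exact one (hK1K1 x hx y hy)
        · exact hKK x hx y hy
        · exact hinv _ _ (hAK2 y hy x hx)
        · exact one (hCK2 y hy x hx).symm
        · exact hinv _ _ (hKK y hy x hx)
        · exact one (hK2K2 x hx y hy))
      rwa [← e] at this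
    rw [sup3_eq_closure, ← Subgroup.closure_eq ⁅N, N⁆]
    apply comm_le_gen
    · intro x hx
      exact norm_of_le_central (fun c hc x hx => hNc c (hZN' hc) x hx) x (hN'N hx)
    · intro x hx
      apply hZn
      rw [sup3_eq_closure]; exact Subgroup.subset_closure hx
    · rintro x hx y ((hy | hy) | hy)
      · exact one (hNc x hx y (hAN hy))
      · exact (hNQ hx).2 y hy
      · exact one (hNc x hx y (hCN hy))
  apply Subgroup.isNilpotent_of_lowerCentralSeries_eq_bot (n := 4)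
  rw [eq_bot_iff]
  simp only [Subgroup.lowerCentralSeries_succ, Subgroup.lowerCentralSeries_zero]
  calc ⁅⁅⁅⁅A ⊔ B ⊔ C, A ⊔ B ⊔ C⁆, A ⊔ B ⊔ C⁆, A ⊔ B ⊔ C⁆, A ⊔ B ⊔ C⁆
      ≤ ⁅⁅⁅P, A ⊔ B ⊔ C⁆, A ⊔ B ⊔ C⁆, A ⊔ B ⊔ C⁆ :=
        Subgroup.commutator_mono (Subgroup.commutator_mono (Subgroup.commutator_mono s1 le_rfl) le_rfl) le_rfl
    _ ≤ ⁅⁅⁅N, N⁆, A ⊔ B ⊔ C⁆, A ⊔ B ⊔ C⁆ :=
        Subgroup.commutator_mono (Subgroup.commutator_mono s2 le_rfl) le_rfl
    _ ≤ ⁅Z, A ⊔ B ⊔ C⁆ := Subgroup.commutator_mono s3 le_rfl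
    _ ≤ ⊥ := by rw [comm_iff.2 hZR]

end chain

end CfsgLib.H14RS
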