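import Cfsg.Statements.S5036
import Cfsg.Agent.LibH14RS2


set_option autoImplicit false
open Cfsg

namespace Cfsg.Agent.S5036

open CfsgLib.H14R1 CfsgLib.H14RS
open scoped commutatorElement


/-- Let S be a set of abstract root subgroups of G, A, B ∈ S with C = ⁅A, B⁆ ∈ S, and D ∈ S with ⁅D, C⁆ = A. Put X = ⟨B, D⟩ and N = AC. Then B, D form a rank one pair; the conjugates of A under X are the conjugates of C under X, namely the conjugates of A by elements of B together with C, equally the conjugates of C by elements of D together with A, and they partition N; and the centralizer of N in X is central in X. -/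
theorem result {G : Type*} [Group G] {S : Set (Subgroup G)} (hS : Cfsg.IsRootSubgroupSet S)
    {A B D : Subgroup G} (hA : A ∈ S) (hB : B ∈ S) (hC : ⁅A, B⁆ ∈ S) (hD : D ∈ S) (hDC : ⁅D, ⁅A, B⁆⁆ = A) :
    Cfsg.IsRankOnePair B D ∧
    {E | ∃ x ∈ B ⊔ D, E = Cfsg.conjBy A x} = {E | ∃ x ∈ B ⊔ D, E = Cfsg.conjBy ⁅A, B⁆ x} ∧
    {E | ∃ x ∈ B ⊔ D, E = Cfsg.conjBy A x} = (fun b : G => Cfsg.conjBy A b) '' (B : Set G) ∪ {⁅A, B⁆} ∧
    {E | ∃ x ∈ B ⊔ D, E = Cfsg.conjBy A x} = (fun d : G => Cfsg.conjBy ⁅A, B⁆ d) '' (D : Set G) ∪ {A} ∧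
    Cfsg.IsSubgroupPartition (A ⊔ ⁅A, B⁆) {E | ∃ x ∈ B ⊔ D, E = Cfsg.conjBy A x} ∧
    ∀ x ∈ (B ⊔ D) ⊓ Subgroup.centralizer ((A ⊔ ⁅A, B⁆ : Subgroup G) : Set G), ∀ y ∈ B ⊔ D, x * y = y * x := by
  set C : Subgroup G := ⁅A, B⁆ with hCdef
  have h1 : RootCommutatorCase S A B := rcc_of_mem hS hA hB hC
  have h2 : RootCommutatorCase S D C := rcc_of_mem hS hD hC (by rw [hDC]; exact hA)
  have hAC : ∀ a ∈ A, ∀ c ∈ C, a * c = c * a := rcc_AK hS h1
  have hCB : ∀ c ∈ C, ∀ b ∈ B, c * b = b * c := fun c hc b hb => h1.2.1 c hc b (Subgroup.mem_sup_right hb)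
  have hAD : ∀ a ∈ A, ∀ d ∈ D, a * d = d * a := fun a ha d hd =>
    h2.2.1 a (by rw [hDC]; exact ha) d (Subgroup.mem_sup_left hd)
  -- A ∩ C = 1
  have hAC1 : ∀ x ∈ A, x ∈ C → x = 1 := by
    intro x hxA hxC
    by_contra hx1
    exact rcc_not_comm hS h1 (comm_of_el_comm hS hB hA hxA hx1 (hCB x hxC))
  -- uniqueness of decomposition
  have huniq : ∀ a ∈ A, ∀ a' ∈ A, ∀ c ∈ C, ∀ c' ∈ C, a * c = a' * c' → a = a' ∧ c = c' := by
    intro a ha a' ha' c hc c' hc' e
    have h3 : a'⁻¹ * a = c' * c⁻¹ := by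
      rw [eq_mul_inv_iff_mul_eq, mul_assoc, e, inv_mul_cancel_left]
    have h4 := hAC1 _ (mul_mem (inv_mem ha') ha) (by rw [h3]; exact mul_mem hc' (inv_mem hc))
    have h5 : a = a' := (inv_mul_eq_one.1 h4).symm
    refine ⟨h5, ?_⟩
    rw [h5] at e
    exact mul_left_cancel e
  have hmN : ∀ x, x ∈ A ⊔ C ↔ ∃ a ∈ A, ∃ c ∈ C, a * c = x := fun x => mem_sup_comm hAC
  -- centralizers
  have cenB : ∀ x ∈ A ⊔ C, (∀ b ∈ B, x * b = b * x) → x ∈ C := by
    intro x hx hxb
    obtain ⟨a, ha, c, hc, rfl⟩ := (hmN x).1 hx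
    have h3 : a = 1 := by
      by_contra ha1
      refine rcc_not_comm hS h1 (comm_of_el_comm hS hB hA ha ha1 ?_)
      intro b hb
      have h4 := hxb b hb
      rw [mul_assoc, hCB c hc b hb, ← mul_assoc, ← mul_assoc] at h4
      exact mul_right_cancel h4
    rw [h3, one_mul]; exact hc
  have cenD : ∀ x ∈ A ⊔ C, (∀ d ∈ D, x * d = d * x) → x ∈ A := by
    intro x hx hxd
    obtain ⟨a, ha, c, hc, rfl⟩ := (hmN x).1 hx
    have h3 : c = 1 := by
      by_contra hc1
      have : ⁅C, D⁆ = ⊥ := comm_of_el_comm hS hD hC hc hc1 (by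
        intro d hd
        have h4 := hxd d hd
        rw [mul_assoc, ← mul_assoc d, ← hAD a ha d hd, mul_assoc] at h4
        exact mul_left_cancel h4)
      exact rcc_not_comm hS h2 (comm_swap.1 this)
    rw [h3, mul_one]; exact ha
  have hBN : ∀ b ∈ B, Cfsg.conjBy (A ⊔ C) b = A ⊔ C := by
    apply cj_eq_of_le
    intro b hb
    rw [cj_sup]
    refine sup_le (rcc_conj_le hS h1 hb) ?_
    rw [cj_of_comm (fun c hc => (hCB c hc b hb).symm)]; exact le_sup_right
  have hDN : ∀ d ∈ D, Cfsg.conjBy (A ⊔ C) d = A ⊔ C := by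
    apply cj_eq_of_le
    intro d hd
    rw [cj_sup]
    refine sup_le ?_ ?_
    · rw [cj_of_comm (fun a ha => (hAD a ha d hd).symm)]; exact le_sup_left
    · have h3 := rcc_conj_le hS (rcc_symm h2) hd
      rw [Subgroup.commutator_comm, hDC, sup_comm] at h3
      exact h3
  have hXN : ∀ x ∈ B ⊔ D, Cfsg.conjBy (A ⊔ C) x = A ⊔ C := by
    intro x hx
    rw [cj_self_iff]
    exact (sup_le (fun b hb => cj_self_iff.1 (hBN b hb)) (fun b hb => cj_self_iff.1 (hDN b hb)) :
      B ⊔ D ≤ _) hx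
  -- rank one
  have hp : IsRankOnePair B D := by
    rcases hS.pair B hB D hD with h3 | h3 | h3
    · exfalso
      apply rcc_not_comm hS h2
      rw [comm_iff]
      intro d hd
      have hle : C ≤ Subgroup.centralizer {d} := by
        rw [hCdef, Subgroup.commutator_le]
        intro x hx y hy
        have hx' : x ∈ Subgroup.centralizer {d} :=
          Subgroup.mem_centralizer_singleton_iff.2 (hAD x hx d hd)
        have hy' : y ∈ Subgroup.centralizer {d} :=
          Subgroup.mem_centralizer_singleton_iff.2 (comm_iff.1 h3 y hy d hd)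
        exact mul_mem (mul_mem (mul_mem hx' hy') (inv_mem hx')) (inv_mem hy')
      intro c hc
      exact (Subgroup.mem_centralizer_singleton_iff.1 (hle hc)).symm
    · exact h3
    · exfalso
      -- f = ⁅b,d⁆ commutes with B and D
      obtain ⟨b, hb, hb1⟩ := exists_ne_one (hS.ne_bot B hB)
      obtain ⟨d, hd, hd1⟩ := exists_ne_one (hS.ne_bot D hD)
      set f := ⁅b, d⁆ with hf
      have hfm : f ∈ ⁅B, D⁆ := Subgroup.commutator_mem_commutator hb hd
      have hfB : ∀ y ∈ B, f * y = y * f := fun y hy => h3.2.1 f hfm y (Subgroup.mem_sup_left hy)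
      have hfD : ∀ y ∈ D, f * y = y * f := fun y hy => h3.2.1 f hfm y (Subgroup.mem_sup_right hy)
      have hfX : f ∈ B ⊔ D := comm_le_self B D hfm
      have hfN : ∀ x ∈ A ⊔ C, f * x * f⁻¹ ∈ A ⊔ C := by
        intro x hx
        have := cj_mem (g := f) hx
        rwa [hXN f hfX] at this
      have hfA : ∀ a ∈ A, f * a * f⁻¹ ∈ A := by
        intro a ha
        apply cenD _ (hfN a (Subgroup.mem_sup_left ha))
        intro y hy
        have e1 := hAD a ha y hy
        have e2 := hfD y hy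
        have e3 := hfD y⁻¹ (inv_mem hy)
        have e4 : f⁻¹ * y = y * f⁻¹ := by
          rw [inv_mul_eq_iff_eq_mul, ← mul_assoc, e2, mul_inv_cancel_right]
        rw [mul_assoc, e4, ← mul_assoc, mul_assoc f, e1, ← mul_assoc, e2]; simp only [mul_assoc]
      have hfC : ∀ c ∈ C, f * c * f⁻¹ ∈ C := by
        intro c hc
        apply cenB _ (hfN c (Subgroup.mem_sup_right hc))
        intro y hy
        have e1 := hCB c hc y hy
        have e2 := hfB y hy
        have e4 : f⁻¹ * y = y * f⁻¹ := by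
          rw [inv_mul_eq_iff_eq_mul, ← mul_assoc, e2, mul_inv_cancel_right]
        rw [mul_assoc, e4, ← mul_assoc, mul_assoc f, e1, ← mul_assoc, e2]; simp only [mul_assoc]
      have key : ∀ c ∈ C, f * ⁅d, c⁆ * f⁻¹ = ⁅d, c⁆ ∧ f * c * f⁻¹ = ⁅b, ⁅d, c⁆⁆ * c := by
        intro c hc
        have hdc : ⁅d, c⁆ ∈ A := by rw [← hDC]; exact Subgroup.commutator_mem_commutator hd hc
        have hbdc : ⁅b, ⁅d, c⁆⁆ ∈ C := by
          rw [hCdef, Subgroup.commutator_comm]; exact Subgroup.commutator_mem_commutator hb hdc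
        apply huniq _ (hfA _ hdc) _ hdc _ (hfC c hc) _ (mul_mem hbdc hc)
        -- f (⁅d,c⁆ c) f⁻¹ = b d c d⁻¹ b⁻¹
        have e1 : ⁅d, c⁆ * c = d * c * d⁻¹ := by rw [commutatorElement_def]; group
        have e2 : c = b * c * b⁻¹ := by rw [← hCB c hc b hb, mul_inv_cancel_right]
        have e3 : f * ⁅d, c⁆ * f⁻¹ * (f * c * f⁻¹) = f * (d * c * d⁻¹) * f⁻¹ := by rw [← e1]; group
        rw [e3]
        have e4 : f * (d * c * d⁻¹) * f⁻¹ = f * (d * (b * c * b⁻¹) * d⁻¹) * f⁻¹ := by rw [← e2]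
        have e5 : f * (d * (b * c * b⁻¹) * d⁻¹) * f⁻¹ = b * (d * c * d⁻¹) * b⁻¹ := by
          rw [hf, commutatorElement_def]; group
        rw [e4, e5, ← e1]
        have e6 : b * (⁅d, c⁆ * c) * b⁻¹ = (b * ⁅d, c⁆ * b⁻¹) * (b * c * b⁻¹) := by group
        rw [e6, ← e2]
        have e7 : b * ⁅d, c⁆ * b⁻¹ = ⁅d, c⁆ * ⁅b, ⁅d, c⁆⁆ := by
          rw [hAC _ hdc _ hbdc, commutatorElement_def b]; group
        rw [e7]; group
      -- f centralizes A
      have hfA2 : ∀ a ∈ A, f * a = a * f := by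
        intro a ha
        obtain ⟨c, hc, e⟩ := rcc_surj h2 hd hd1 (by rw [hDC]; exact ha)
        have := (key c hc).1
        rw [e] at this
        exact mul_inv_eq_iff_eq_mul.1 this
      have hfC2 : ∀ c ∈ C, f * c = c * f := by
        have hle : C ≤ Subgroup.centralizer {f} := by
          rw [hCdef, Subgroup.commutator_le]
          intro x hx y hy
          have hx' : x ∈ Subgroup.centralizer {f} :=
            Subgroup.mem_centralizer_singleton_iff.2 (hfA2 x hx).symm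
          have hy' : y ∈ Subgroup.centralizer {f} :=
            Subgroup.mem_centralizer_singleton_iff.2 (hfB y hy).symm
          exact mul_mem (mul_mem (mul_mem hx' hy') (inv_mem hx')) (inv_mem hy')
        intro c hc
        exact (Subgroup.mem_centralizer_singleton_iff.1 (hle hc)).symm
      apply rcc_not_comm hS (rcc_symm h1)
      apply comm_of_el_comm hS hA hB hb hb1
      intro a ha
      obtain ⟨c, hc, e⟩ := rcc_surj h2 hd hd1 (by rw [hDC]; exact ha)
      have := (key c hc).2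
      rw [e, hfC2 c hc, mul_inv_cancel_right] at this
      have h4 : ⁅b, a⁆ = 1 := mul_right_cancel (b := c) (by rw [← this, one_mul])
      exact commutatorElement_eq_one_iff_mul_comm.1 h4
  -- orbits
  have hswap : ∀ b ∈ B, ∀ d ∈ D, Cfsg.conjBy B d⁻¹ = Cfsg.conjBy D b⁻¹ →
      Cfsg.conjBy A b⁻¹ = Cfsg.conjBy C d⁻¹ := by
    intro b hb d hd e
    ext x
    constructor
    · intro hx
      have hxN : x ∈ A ⊔ C := by
        rw [← hBN b⁻¹ (inv_mem hb), cj_sup]; exact Subgroup.mem_sup_left hx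
      have hxD : ∀ y ∈ Cfsg.conjBy D b⁻¹, x * y = y * x := fun y hy => el_comm_cj hAD b⁻¹ x hx y hy
      rw [← e] at hxD
      rw [mem_cj]
      apply cenB
      · rw [← mem_cj, hDN _ (inv_mem hd)]; exact hxN
      · intro y hy
        have := hxD _ (cj_mem (g := d⁻¹) hy)
        calc d⁻¹⁻¹ * x * d⁻¹ * y = d⁻¹⁻¹ * (x * (d⁻¹ * y * d⁻¹⁻¹)) * d⁻¹ := by group
          _ = _ := by rw [this]; group
    · intro hx
      have hxN : x ∈ A ⊔ C := by
        rw [← hDN _ (inv_mem hd), cj_sup]; exact Subgroup.mem_sup_right hx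
      have hxB : ∀ y ∈ Cfsg.conjBy B d⁻¹, x * y = y * x := fun y hy => el_comm_cj hCB d⁻¹ x hx y hy
      rw [e] at hxB
      rw [mem_cj]
      apply cenD
      · rw [← mem_cj, hBN _ (inv_mem hb)]; exact hxN
      · intro y hy
        have := hxB _ (cj_mem (g := b⁻¹) hy)
        calc b⁻¹⁻¹ * x * b⁻¹ * y = b⁻¹⁻¹ * (x * (b⁻¹ * y * b⁻¹⁻¹)) * b⁻¹ := by group
          _ = _ := by rw [this]; group
  have hs1 : ∀ b ∈ B, b ≠ 1 → ∃ d ∈ D, d ≠ 1 ∧ Cfsg.conjBy A b = Cfsg.conjBy C d := by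
    intro b hb hb1
    obtain ⟨d, hd, hd1, e⟩ := hp.cond_left b⁻¹ (inv_mem hb) (inv_ne_one.2 hb1)
    refine ⟨d⁻¹, inv_mem hd, inv_ne_one.2 hd1, ?_⟩
    have := hswap b⁻¹ (inv_mem hb) d hd e
    rwa [inv_inv] at this
  have hs2 : ∀ d ∈ D, d ≠ 1 → ∃ b ∈ B, b ≠ 1 ∧ Cfsg.conjBy C d = Cfsg.conjBy A b := by
    intro d hd hd1
    obtain ⟨b, hb, hb1, e⟩ := hp.cond_right d⁻¹ (inv_mem hd) (inv_ne_one.2 hd1)
    refine ⟨b⁻¹, inv_mem hb, inv_ne_one.2 hb1, ?_⟩
    have := hswap b hb d⁻¹ (inv_mem hd) e.symm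
    rw [inv_inv] at this
    exact this.symm
  have hCfix : ∀ b ∈ B, Cfsg.conjBy C b = C := fun b hb => cj_of_comm fun c hc => (hCB c hc b hb).symm
  have hAfix : ∀ d ∈ D, Cfsg.conjBy A d = A := fun d hd => cj_of_comm fun a ha => (hAD a ha d hd).symm
  have hΔ : (fun b : G => Cfsg.conjBy A b) '' (B : Set G) ∪ {C} =
      (fun d : G => Cfsg.conjBy C d) '' (D : Set G) ∪ {A} := by
    ext E
    simp only [Set.mem_union, Set.mem_image, SetLike.mem_coe, Set.mem_singleton_iff]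
    constructor
    · rintro (⟨b, hb, rfl⟩ | rfl)
      · by_cases hb1 : b = 1
        · right; rw [hb1, cj_one]
        · obtain ⟨d, hd, -, e⟩ := hs1 b hb hb1
          exact Or.inl ⟨d, hd, e.symm⟩
      · exact Or.inl ⟨1, one_mem _, cj_one _⟩
    · rintro (⟨b, hb, rfl⟩ | rfl)
      · by_cases hb1 : b = 1
        · right; rw [hb1, cj_one]
        · obtain ⟨d, hd, -, e⟩ := hs2 b hb hb1
          exact Or.inl ⟨d, hd, e.symm⟩
      · exact Or.inl ⟨1, one_mem _, cj_one _⟩
  have hCA : ∃ x ∈ B ⊔ D, C = Cfsg.conjBy A x := by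
    obtain ⟨b, hb, hb1⟩ := exists_ne_one (hS.ne_bot B hB)
    obtain ⟨d, hd, -, e⟩ := hs1 b hb hb1
    refine ⟨d⁻¹ * b, mul_mem (Subgroup.mem_sup_right (inv_mem hd)) (Subgroup.mem_sup_left hb), ?_⟩
    rw [← cj_cj, e, cj_cj]; simp
  have horb : {E | ∃ x ∈ B ⊔ D, E = Cfsg.conjBy A x} =
      (fun b : G => Cfsg.conjBy A b) '' (B : Set G) ∪ {C} := by
    have hBinv : ∀ b ∈ B, ∀ E ∈ (fun b : G => Cfsg.conjBy A b) '' (B : Set G) ∪ {C},
        Cfsg.conjBy E b ∈ (fun b : G => Cfsg.conjBy A b) '' (B : Set G) ∪ {C} := by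
      rintro b hb E (⟨b', hb', rfl⟩ | rfl)
      · exact Or.inl ⟨b * b', mul_mem hb hb', (cj_cj _ _ _).symm⟩
      · right; exact hCfix b hb
    have hDinv : ∀ b ∈ D, ∀ E ∈ (fun b : G => Cfsg.conjBy A b) '' (B : Set G) ∪ {C},
        Cfsg.conjBy E b ∈ (fun b : G => Cfsg.conjBy A b) '' (B : Set G) ∪ {C} := by
      rw [hΔ]
      rintro b hb E (⟨b', hb', rfl⟩ | rfl)
      · exact Or.inl ⟨b * b', mul_mem hb hb', (cj_cj _ _ _).symm⟩
      · right; exact hAfix b hb
    have hXinv : ∀ x ∈ B ⊔ D, ∀ E, E ∈ (fun b : G => Cfsg.conjBy A b) '' (B : Set G) ∪ {C} ↔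
        Cfsg.conjBy E x ∈ (fun b : G => Cfsg.conjBy A b) '' (B : Set G) ∪ {C} := by
      intro x hx
      rw [Subgroup.sup_eq_closure] at hx
      induction hx using Subgroup.closure_induction with
      | mem x hx =>
        intro E
        rcases hx with hx | hx
        · refine ⟨hBinv x hx E, fun h => ?_⟩
          have := hBinv x⁻¹ (inv_mem hx) _ h
          rwa [cj_cj, inv_mul_cancel, cj_one] at this
        · refine ⟨hDinv x hx E, fun h => ?_⟩
          have := hDinv x⁻¹ (inv_mem hx) _ h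
          rwa [cj_cj, inv_mul_cancel, cj_one] at this
      | one => intro E; rw [cj_one]
      | mul x y _ _ ihx ihy => intro E; rw [ihy, ihx, cj_cj]
      | inv x _ ih => intro E; rw [ih (Cfsg.conjBy E x⁻¹), cj_cj, mul_inv_cancel, cj_one]
    ext E
    constructor
    · rintro ⟨x, hx, rfl⟩
      exact (hXinv x hx A).1 (Or.inl ⟨1, one_mem _, cj_one _⟩)
    · rintro (⟨b, hb, rfl⟩ | rfl)
      · exact ⟨b, Subgroup.mem_sup_left hb, rfl⟩
      · exact hCA
  refine ⟨hp, ?_, horb, by rw [horb, hΔ], ?_, ?_⟩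
  · obtain ⟨y, hy, e⟩ := hCA
    ext E
    constructor
    · rintro ⟨x, hx, rfl⟩
      refine ⟨x * y⁻¹, mul_mem hx (inv_mem hy), ?_⟩
      rw [e, cj_cj, inv_mul_cancel_right]
    · rintro ⟨x, hx, rfl⟩
      exact ⟨x * y, mul_mem hx hy, by rw [e, cj_cj]⟩
  · rw [horb]
    refine ⟨?_, ?_, ?_⟩
    · rintro E (⟨b, hb, rfl⟩ | rfl)
      · exact rcc_conj_le hS h1 hb
      · exact le_sup_right
    · intro x hx _
      rcases rcc_cover hS h1 hx with h3 | ⟨b, hb, h3⟩
      · exact ⟨C, Or.inr rfl, h3⟩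
      · exact ⟨_, Or.inl ⟨b, hb, rfl⟩, h3⟩
    · have hAC2 : A ⊓ C = ⊥ := by
        rw [Subgroup.eq_bot_iff_forall]
        intro x hx; exact hAC1 x hx.1 hx.2
      have hbC : ∀ b ∈ B, Cfsg.conjBy A b ⊓ C = ⊥ := by
        intro b hb
        have : C = Cfsg.conjBy C b := (hCfix b hb).symm
        rw [this, ← cj_inf, hAC2, cj_bot]
      have hbb : ∀ b ∈ B, ∀ b' ∈ B, Cfsg.conjBy A b ≠ Cfsg.conjBy A b' →
          Cfsg.conjBy A b ⊓ Cfsg.conjBy A b' = ⊥ := by
        intro b hb b' hb' hne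
        have hb1 : b⁻¹ * b' ≠ 1 := by
          intro h; apply hne; rw [inv_mul_eq_one.1 h]
        obtain ⟨d, hd, -, e⟩ := hs1 _ (mul_mem (inv_mem hb) hb') hb1
        have e2 : Cfsg.conjBy A b' = Cfsg.conjBy (Cfsg.conjBy C d) b := by
          rw [← e, cj_cj, mul_inv_cancel_left]
        have e3 : A ⊓ Cfsg.conjBy C d = ⊥ := by
          have : A = Cfsg.conjBy A d := (hAfix d hd).symm
          rw [this, ← cj_inf, hAC2, cj_bot]
        rw [e2, ← cj_inf, e3, cj_bot]
      rintro E (⟨b, hb, rfl⟩ | rfl) F (⟨b', hb', rfl⟩ | rfl) hne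
      · exact hbb b hb b' hb' hne
      · exact hbC b hb
      · rw [inf_comm]; exact hbC b' hb'
      · exact absurd rfl hne
  · -- centralizer of N
    set K : Subgroup G := (B ⊔ D) ⊓ Subgroup.centralizer ((A ⊔ C : Subgroup G) : Set G) with hK
    have hKx : ∀ x ∈ B ⊔ D, Cfsg.conjBy K x = K := by
      intro x hx
      have h3 : Cfsg.conjBy (Subgroup.centralizer ((A ⊔ C : Subgroup G) : Set G)) x =
          Subgroup.centralizer ((A ⊔ C : Subgroup G) : Set G) := by
        ext y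
        rw [mem_cj, Subgroup.mem_centralizer_iff, Subgroup.mem_centralizer_iff]
        constructor
        · intro h n hn
          have hn' : x⁻¹ * n * x ∈ A ⊔ C := by
            rw [← mem_cj, hXN x hx]; exact hn
          have := h _ hn'
          calc n * y = x * ((x⁻¹ * n * x) * (x⁻¹ * y * x)) * x⁻¹ := by group
            _ = _ := by rw [this]; group
        · intro h n hn
          have hn' : x * n * x⁻¹ ∈ A ⊔ C := by
            have := cj_mem (g := x) (A := A ⊔ C) hn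
            rwa [hXN x hx] at this
          have := h _ hn'
          calc n * (x⁻¹ * y * x) = x⁻¹ * ((x * n * x⁻¹) * y) * x := by group
            _ = _ := by rw [this]; group
      rw [hK, cj_inf, h3, cj_of_mem hx]
    rcases dichotomy hp (N := K) inf_le_left hKx with h3 | h3
    · exfalso
      apply rcc_not_comm hS h2
      rw [comm_iff]
      have hKC : ∀ k ∈ K, ∀ c ∈ C, k * c = c * k := fun k hk c hc =>
        (Subgroup.mem_centralizer_iff.1 hk.2 c (Subgroup.mem_sup_right hc)).symm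
      intro d hd c hc
      have : d ∈ K ⊔ B := by rw [h3]; exact Subgroup.mem_sup_right hd
      exact el_comm_sup hKC (el_comm_symm hCB) d this c hc
    · exact h3

end Cfsg.Agent.S5036
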