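import Cfsg.Agent.LibH14RP2
import Cfsg.Agent.S5036

/-! Weak TI subsets of non-degenerate classes of abstract root subgroups (seat helper14). -/

set_option autoImplicit false

namespace CfsgLib.H14RT

open Cfsg CfsgLib.H14R1 CfsgLib.H14RS CfsgLib.H14RP

variable {G : Type*} [Group G] {S : Set (Subgroup G)} {A B C D E F : Subgroup G}

/-- standing data of a non-degenerate class -/
structure ND (S : Set (Subgroup G)) : Prop where
  hS : IsRootSubgroupSet S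
  hconj : ∀ A ∈ S, ∀ B ∈ S, ∃ g : G, B = conjBy A g
  hF : ∀ A ∈ S, ∃ C ∈ S, IsRankOnePair A C
  hL : ∀ A ∈ S, ∃ C, C ∈ linePartners S A

theorem ND.of (hS : IsRootSubgroupClass S) (hnd : IsNondegenerateRootSet S) : ND S := by
  have hF : ∀ A ∈ S, ∃ C ∈ S, IsRankOnePair A C := by
    intro A hA
    obtain ⟨-, ⟨P, hP, Q, hQ, hp⟩, -⟩ := hnd
    obtain ⟨g, rfl⟩ := hS.2.2 P hP A hA
    exact ⟨_, hS.1.conj_mem Q hQ g, pair_cj hp g⟩
  refine ⟨hS.1, hS.2.2, hF, ?_⟩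
  intro A hA
  obtain ⟨B, hB, hp⟩ := hF A hA
  obtain ⟨⟨C, hC, -⟩, -⟩ := Cfsg.Agent.S5034.result hS hnd hA ⟨hB, hp⟩
  exact ⟨C, hC⟩

theorem ex_comm_eq (h : ND S) (hA : A ∈ S) (hE : E ∈ S) (hr : RootCommutatorCase S A E) {K : Subgroup G} (hK : K ∈ S)
    (hle : K ≤ A ⊔ ⁅A, E⁆) (hne : K ≠ A) : ∃ D ∈ S, RootCommutatorCase S A D ∧ ⁅A, D⁆ = K := by
  obtain ⟨C, hC, hp⟩ := h.hF A hA
  have hl := line_mk h.hS hA hC hp hr
  obtain ⟨x, -, h1, h2⟩ := line_two_trans h.hS h.hF hA hl (C₁ := A) (C₂ := ⁅A, E⁆) (D₁ := A) (D₂ := K)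
    ⟨hA, le_sup_left⟩ ⟨hr.1, le_sup_right⟩ ⟨hA, le_sup_left⟩ ⟨hK, hle⟩ (rcc_ne h.hS hr) (Ne.symm hne)
  have e : ⁅A, conjBy E x⁆ = K := by
    rw [← h2, cj_commutator, h1]
  refine ⟨conjBy E x, h.hS.conj_mem E hE x, ?_, e⟩
  exact rcc_of_mem h.hS hA (h.hS.conj_mem E hE x) (by rw [e]; exact hK)

/-- structure of a line `AF` relative to a rank one partner `B` of `A` -/
theorem line_str (h : ND S) (hA : A ∈ S) (hB : B ∈ S) (hp : IsRankOnePair A B) (hF : F ∈ linePartners S A) :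
    ∃ C ∈ S, ∃ E ∈ S, C ∈ linePartners S A ∧ RootCommutatorCase S C B ∧ ⁅C, B⁆ = E ∧ A ⊔ C = A ⊔ F ∧
      RootCommutatorCase S A E ∧ ⁅A, E⁆ = C := by
  obtain ⟨C, hC, h1, h2, h3, h4⟩ := line_structure h.hS hA hB hp hF
  refine ⟨C, hC, ⁅C, B⁆, h1.1, ?_, h1, rfl, h2, h3, h4⟩
  have := line_mk h.hS hA hB hp h3
  rwa [h4] at this

/-- for a line partner `F` of `A` there is `D` with `⁅A, D⁆ = F` -/
theorem ex_comm (h : ND S) (hA : A ∈ S) (hF : F ∈ linePartners S A) :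
    ∃ D ∈ S, RootCommutatorCase S A D ∧ ⁅A, D⁆ = F := by
  obtain ⟨B, hB, hp⟩ := h.hF A hA
  obtain ⟨C, hC, E, hE, hCl, h1, h2, h3, h4, h5⟩ := line_str h hA hB hp hF
  refine ex_comm_eq h hA hE h4 hF.1.1 ?_ hF.1.2.1
  rw [h5, h3]; exact le_sup_right

theorem comm_line (h : ND S) (hA : A ∈ S) (hr : RootCommutatorCase S A E) : ⁅A, E⁆ ∈ linePartners S A := by
  obtain ⟨B, hB, hp⟩ := h.hF A hA
  exact line_mk h.hS hA hB hp hr

/-- a commutator pair `(A, B)` : some `D` commutes with `A` and is a rank one partner of `B` -/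
theorem ex_opp (h : ND S) (hA : A ∈ S) (hB : B ∈ S) (hr : RootCommutatorCase S A B) :
    ∃ D ∈ S, (∀ a ∈ A, ∀ d ∈ D, a * d = d * a) ∧ IsRankOnePair B D := by
  have h1 : A ∈ linePartners S ⁅A, B⁆ := line_symm h.hS hA (comm_line h hA hr)
  obtain ⟨D, hD, h2, h3⟩ := ex_comm h hr.1 h1
  refine ⟨D, hD, ?_, ?_⟩
  · intro a ha d hd
    refine h2.2.1 a ?_ d (Subgroup.mem_sup_right hd)
    rw [h3]; exact ha
  · exact (Cfsg.Agent.S5036.result h.hS hA hB hr.1 hD (by rw [Subgroup.commutator_comm]; exact h3)).1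

/-! ### weak TI subsets -/

/-- `g` stabilizes `Δ` -/
def Nm (Δ : Set (Subgroup G)) (g : G) : Prop := (fun A => conjBy A g) '' Δ = Δ

theorem Nm.mem {Δ : Set (Subgroup G)} {g : G} (h : Nm Δ g) (hA : A ∈ Δ) : conjBy A g ∈ Δ := by
  have : conjBy A g ∈ (fun A => conjBy A g) '' Δ := ⟨A, hA, rfl⟩
  rwa [h] at this

theorem Nm.one (Δ : Set (Subgroup G)) : Nm Δ 1 := by
  unfold Nm; simp

theorem Nm.mul {Δ : Set (Subgroup G)} {g k : G} (h : Nm Δ g) (h' : Nm Δ k) : Nm Δ (g * k) := by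
  unfold Nm at *
  have : (fun A => conjBy A (g * k)) = (fun A => conjBy A g) ∘ (fun A : Subgroup G => conjBy A k) := by
    funext A; exact (cj_cj A k g).symm
  rw [this, Set.image_comp, h', h]

theorem Nm.inv {Δ : Set (Subgroup G)} {g : G} (h : Nm Δ g) : Nm Δ g⁻¹ := by
  unfold Nm at *
  conv_lhs => rw [← h]
  rw [← Set.image_comp]
  have : (fun A => conjBy A g⁻¹) ∘ (fun A : Subgroup G => conjBy A g) = id := by
    funext A
    show conjBy (conjBy A g) g⁻¹ = A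
    rw [cj_cj, inv_mul_cancel, cj_one]
  rw [this, Set.image_id]

/-- stabilizer subgroup -/
def stab (Δ : Set (Subgroup G)) : Subgroup G where
  carrier := {g | Nm Δ g}
  one_mem' := Nm.one Δ
  mul_mem' := fun h h' => h.mul h'
  inv_mem' := fun h => h.inv

theorem eq_of_stab (h : ND S) {Δ : Set (Subgroup G)} (hΔ : Δ ⊆ S) (hA : A ∈ Δ) (hall : ∀ D ∈ S, D ≤ stab Δ) : Δ = S := by
  have ht : stab Δ = ⊤ := by
    rw [eq_top_iff, ← h.hS.generates]
    exact iSup₂_le hall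
  apply Set.Subset.antisymm hΔ
  intro B hB
  obtain ⟨g, rfl⟩ := h.hconj A (hΔ hA) B hB
  have : g ∈ stab Δ := by rw [ht]; trivial
  exact Nm.mem this hA

section wti
variable {Δ : Set (Subgroup G)}

theorem T1 (hΔ : IsWeakTISubset S Δ) (hA : A ∈ Δ) (hD : D ∈ S) (hc : ∀ a ∈ A, ∀ d ∈ D, a * d = d * a) :
    D ≤ stab Δ := by
  intro d hd
  by_cases hd1 : d = 1
  · rw [hd1]; exact one_mem _
  have hA' : conjBy A d = A := cj_of_comm fun a ha => (hc a ha d hd).symm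
  rcases hΔ.2.2.2 d ⟨hd1, D, hD, hd⟩ with h | h
  · exact h
  · exfalso
    refine Set.disjoint_left.1 h ⟨A, hA, rfl⟩ ?_
    show conjBy A d ∈ Δ
    rw [hA']; exact hA

/-- `A ∈ Δ` with a rank one partner in `Δ` -/
def PP (Δ : Set (Subgroup G)) (A : Subgroup G) : Prop := A ∈ Δ ∧ ∃ B ∈ Δ, IsRankOnePair A B

theorem PP.cj {d : G} (h : PP Δ A) (hd : d ∈ stab Δ) : PP Δ (conjBy A d) := by
  obtain ⟨h1, B, hB, hp⟩ := h
  exact ⟨Nm.mem hd h1, _, Nm.mem hd hB, pair_cj hp d⟩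

theorem T2 (h : ND S) (hΔ : IsWeakTISubset S Δ) (hA : PP Δ A) (hF : F ∈ linePartners S A) : PP Δ F := by
  obtain ⟨hAΔ, B, hB, hp⟩ := hA
  have hAS := hΔ.1 hAΔ
  obtain ⟨C, hC, E, hE, hCl, h1, h2, h3, h4, h5⟩ := line_str h hAS (hΔ.1 hB) hp hF
  have hEB : ∀ b ∈ B, ∀ e ∈ E, b * e = e * b := by
    intro b hb e he
    rw [← h2] at he
    exact (h1.2.1 e he b (Subgroup.mem_sup_right hb)).symm
  have hEs := T1 hΔ hB hE hEB
  have hFle : F ≤ A ⊔ ⁅A, E⁆ := by rw [h5, h3]; exact le_sup_right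
  rcases rcc_members h.hS hAS (hΔ.1 hB) hp h4 hF.1.1 hFle with h6 | ⟨e, he, h6⟩
  · -- F = C
    obtain ⟨e, he, he1⟩ := exists_ne_one (h.hS.ne_bot E hE)
    have hKΔ : conjBy A e ∈ Δ := Nm.mem (hEs he) hAΔ
    have hKle : conjBy A e ≤ A ⊔ ⁅A, E⁆ := rcc_conj_le h.hS h4 he
    have hKne : conjBy A e ≠ A := by
      intro e'
      have h6 : ⁅A, E⁆ ≤ A := by
        rw [← h4.2.2.2 e he he1, Subgroup.closure_le]
        rintro _ ⟨a, ha, rfl⟩
        have : a * e * a⁻¹ * e⁻¹ = a * (e * a⁻¹ * e⁻¹) := by group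
        show a * e * a⁻¹ * e⁻¹ ∈ A
        rw [this]
        refine mul_mem ha ?_
        have := cj_mem (g := e) (inv_mem ha)
        rwa [e'] at this
      obtain ⟨c, hc, hc1⟩ := exists_ne_one (h.hS.ne_bot _ h4.1)
      have h7 := line_inf h.hS hAS (comm_line h hAS h4)
      exact hc1 ((Subgroup.eq_bot_iff_forall _).1 h7 c ⟨h6 hc, hc⟩)
    have hKne2 : conjBy A e ≠ ⁅A, E⁆ := by
      intro e'
      apply rcc_ne h.hS h4
      have h6 : conjBy ⁅A, E⁆ e = ⁅A, E⁆ :=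
        cj_of_comm fun c hc => (h4.2.1 c hc e (Subgroup.mem_sup_right he)).symm
      rw [← h6] at e'
      exact cj_inj.1 e'
    obtain ⟨D, hD, h7, h8⟩ := ex_comm_eq h hAS hE h4 (hΔ.1 hKΔ) hKle hKne
    have hDs := T1 hΔ hKΔ hD (by
      intro a ha d hd
      rw [← h8] at ha
      exact h7.2.1 a ha d (Subgroup.mem_sup_right hd))
    have hCle : ⁅A, E⁆ ≤ A ⊔ ⁅A, D⁆ := by
      rw [h8, ← h4.2.2.2 e he he1, Subgroup.closure_le]
      rintro _ ⟨a, ha, rfl⟩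
      have : a * e * a⁻¹ * e⁻¹ = a * (e * a⁻¹ * e⁻¹) := by group
      show a * e * a⁻¹ * e⁻¹ ∈ A ⊔ conjBy A e
      rw [this]
      exact mul_mem (Subgroup.mem_sup_left ha) (Subgroup.mem_sup_right (cj_mem (inv_mem ha)))
    rcases rcc_members h.hS hAS (hΔ.1 hB) hp h7 h4.1 hCle with h9 | ⟨d, hd, h9⟩
    · exact absurd (h8.symm.trans h9.symm) hKne2
    · rw [h6, h9]
      exact PP.cj ⟨hAΔ, B, hB, hp⟩ (hDs hd)
  · rw [h6]
    exact PP.cj ⟨hAΔ, B, hB, hp⟩ (hEs he)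

theorem T3 (h : ND S) (hΔ : IsWeakTISubset S Δ) : ¬ PP Δ A := by
  intro hA
  apply hΔ.2.2.1
  have aux : ∀ A, PP Δ A → ∀ D ∈ S, ¬ IsRankOnePair A D → D ≤ stab Δ := by
    intro A hA D hD hnp
    have hAS := hΔ.1 hA.1
    rcases h.hS.pair A hAS D hD with h1 | h1 | h1
    · exact T1 hΔ hA.1 hD (comm_iff.1 h1)
    · exact absurd h1 hnp
    · have h2 := T2 h hΔ hA (comm_line h hAS h1)
      exact T1 hΔ h2.1 hD fun a ha d hd => h1.2.1 a ha d (Subgroup.mem_sup_right hd)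
  refine eq_of_stab h hΔ.1 hA.1 ?_
  intro D hD
  by_cases hp : IsRankOnePair A D
  · obtain ⟨F, hF⟩ := h.hL A (hΔ.1 hA.1)
    obtain ⟨C, hC, E, hE, hCl, h1, -⟩ := line_str h (hΔ.1 hA.1) hD hp hF
    exact aux C (T2 h hΔ hA hCl) D hD (rcc_not_pair h.hS hC hD h1)
  · exact aux A hA D hD hp

theorem T4 (h : ND S) (hΔ : IsWeakTISubset S Δ) (hA : A ∈ Δ) (hB : B ∈ Δ) : ∀ a ∈ A, ∀ b ∈ B, a * b = b * a := by
  rcases h.hS.pair A (hΔ.1 hA) B (hΔ.1 hB) with h1 | h1 | h1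
  · exact comm_iff.1 h1
  · exact absurd ⟨hA, B, hB, h1⟩ (T3 h hΔ)
  · exfalso
    obtain ⟨D, hD, h2, h3⟩ := ex_opp h (hΔ.1 hA) (hΔ.1 hB) h1
    obtain ⟨d, hd, hd1⟩ := exists_ne_one (h.hS.ne_bot D hD)
    have hs := T1 hΔ hA hD h2 hd
    exact T3 h hΔ ⟨hB, _, Nm.mem hs hB, (sup_cj (pair_symm h3) hd hd1).1⟩

theorem abelian (h : ND S) (hΔ : IsWeakTISubset S Δ) : IsAbelianFamily Δ :=
  fun _ hA _ hB => T4 h hΔ hA hB

end wti

/-! ### connectedness of the line graph -/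

theorem eadj_symm : ∀ {A B : Subgroup G}, IsRootSubgroupSet S → EAdj S S A B → EAdj S S B A :=
  fun hS h => ⟨h.2.1, h.1, line_symm hS h.1 h.2.2⟩

theorem line_cj (hS : IsRootSubgroupSet S) {g : G} (h : B ∈ linePartners S A) : conjBy B g ∈ linePartners S (conjBy A g) := by
  obtain ⟨⟨h1, h2, h3⟩, h4, h5, h6⟩ := h
  refine ⟨⟨hS.conj_mem B h1 g, fun e => h2 (cj_inj.1 e), ?_⟩, ?_, ?_, ?_⟩
  · rw [← cj_commutator, h3, cj_bot]
  · rintro C ⟨-, hC⟩; exact hC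
  · intro x hx hx1
    rw [← cj_sup, mem_cj] at hx
    obtain ⟨C, ⟨hC, hC'⟩, hxC⟩ := h5 _ hx (by
      intro e
      apply hx1
      have : x = g * (g⁻¹ * x * g) * g⁻¹ := by group
      rw [this, e]; group)
    refine ⟨conjBy C g, ⟨hS.conj_mem C hC g, ?_⟩, mem_cj.2 hxC⟩
    rw [← cj_sup]; exact cj_le.2 hC'
  · rintro C ⟨hC, hC'⟩ D ⟨hD, hD'⟩ hne
    have h7 := h6 (conjBy C g⁻¹) ⟨hS.conj_mem C hC _, ?_⟩ (conjBy D g⁻¹) ⟨hS.conj_mem D hD _, ?_⟩ (fun e => hne (cj_inj.1 e))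
    · rw [← cj_inf, cj_eq_bot] at h7; exact h7
    · rw [← cj_sup] at hC'
      have := (cj_le (g := g⁻¹)).2 hC'
      rwa [cj_cj, inv_mul_cancel, cj_one] at this
    · rw [← cj_sup] at hD'
      have := (cj_le (g := g⁻¹)).2 hD'
      rwa [cj_cj, inv_mul_cancel, cj_one] at this

theorem eadj_cj (hS : IsRootSubgroupSet S) {g : G} (h : EAdj S S A B) : EAdj S S (conjBy A g) (conjBy B g) :=
  ⟨hS.conj_mem A h.1 g, hS.conj_mem B h.2.1 g, line_cj hS h.2.2⟩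

theorem ertg_symm (hS : IsRootSubgroupSet S) (h : Relation.ReflTransGen (EAdj S S) A B) :
    Relation.ReflTransGen (EAdj S S) B A := by
  induction h with
  | refl => exact Relation.ReflTransGen.refl
  | tail _ h ih => exact Relation.ReflTransGen.head (eadj_symm hS h) ih

theorem ertg_cj (hS : IsRootSubgroupSet S) {g : G} (h : Relation.ReflTransGen (EAdj S S) A B) :
    Relation.ReflTransGen (EAdj S S) (conjBy A g) (conjBy B g) := by
  induction h with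
  | refl => exact Relation.ReflTransGen.refl
  | tail _ h ih => exact ih.tail (eadj_cj hS h)

theorem ertg_mem (hA : A ∈ S) (h : Relation.ReflTransGen (EAdj S S) A B) : B ∈ S := by
  induction h with
  | refl => exact hA
  | tail _ h _ => exact h.2.1

theorem e_connected (h : ND S) (hr : ∃ P ∈ S, ∃ Q ∈ S, RootCommutatorCase S P Q) : IsConnectedFamily (EAdj S S) S := by
  intro A hA B hB
  by_contra hcon
  obtain ⟨P, hP, Q, hQ, hr⟩ := hr
  obtain ⟨g, hg⟩ := h.hconj P hP A hA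
  -- `Δ` the component of `A`
  set Δ : Set (Subgroup G) := componentOf (EAdj S S) S A with hΔdef
  have hmem : ∀ C, C ∈ Δ ↔ Relation.ReflTransGen (EAdj S S) A C := fun C =>
    ⟨fun h => h.2, fun h => ⟨ertg_mem hA h, h⟩⟩
  have hr' : RootCommutatorCase S A (conjBy Q g) := by
    rw [hg]
    apply rcc_of_mem h.hS (h.hS.conj_mem P hP g) (h.hS.conj_mem Q hQ g)
    rw [← cj_commutator]; exact h.hS.conj_mem _ hr.1 g
  have hQ' := h.hS.conj_mem Q hQ g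
  set Q' := conjBy Q g
  have l1 := comm_line h hA hr'
  have l2 := comm_line h hQ' (rcc_symm hr')
  rw [Subgroup.commutator_comm] at l2
  have e1 : EAdj S S A ⁅A, Q'⁆ := ⟨hA, hr'.1, l1⟩
  have e2 : EAdj S S ⁅A, Q'⁆ Q' := eadj_symm h.hS ⟨hQ', hr'.1, l2⟩
  have m1 : A ∈ Δ := (hmem A).2 Relation.ReflTransGen.refl
  have m2 : ⁅A, Q'⁆ ∈ Δ := (hmem _).2 (Relation.ReflTransGen.single e1)
  have m3 : Q' ∈ Δ := (hmem _).2 ((Relation.ReflTransGen.single e1).tail e2)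
  have hW : IsWeakTISubset S Δ := by
    refine ⟨fun C hC => hC.1, ⟨A, m1, _, m2, rcc_ne h.hS hr'⟩, ?_, ?_⟩
    · intro e
      apply hcon
      have : B ∈ Δ := by rw [e]; exact hB
      exact this.2
    · intro d _
      by_cases hd : Relation.ReflTransGen (EAdj S S) A (conjBy A d)
      · left
        have key : ∀ k : G, Relation.ReflTransGen (EAdj S S) A (conjBy A k) → ∀ C ∈ Δ, conjBy C k ∈ Δ := by
          intro k hk C hC
          exact (hmem _).2 (hk.trans (ertg_cj h.hS ((hmem C).1 hC)))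
        apply Set.Subset.antisymm
        · rintro _ ⟨C, hC, rfl⟩
          exact key d hd C hC
        · intro C hC
          have hd' : Relation.ReflTransGen (EAdj S S) A (conjBy A d⁻¹) := by
            have := ertg_symm h.hS (ertg_cj h.hS (g := d⁻¹) hd)
            rwa [cj_cj, inv_mul_cancel, cj_one] at this
          refine ⟨conjBy C d⁻¹, key _ hd' C hC, ?_⟩
          show conjBy (conjBy C d⁻¹) d = C
          rw [cj_cj, mul_inv_cancel, cj_one]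
      · right
        rw [Set.disjoint_left]
        rintro _ ⟨C, hC, rfl⟩ hC'
        apply hd
        exact ((hmem _).1 hC').trans (ertg_symm h.hS (ertg_cj h.hS ((hmem C).1 hC)))
  apply rcc_not_comm h.hS hr'
  rw [comm_iff]
  exact T4 h hW m1 m3

end CfsgLib.H14RT
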