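import Cfsg.Agent.LibH14RP

/-! Special rank one groups with abelian unipotent subgroups: the power relation (seat helper14). -/

set_option autoImplicit false

namespace CfsgLib.H14RW

open Cfsg CfsgLib.H14R1 CfsgLib.H14RS CfsgLib.H14RP

variable {G : Type*} [Group G] {A B : Subgroup G} {a c x y : G}

/-- abelian special pair -/
structure SP (A B : Subgroup G) : Prop where
  h : IsSpecialRankOnePair A B
  hA : ∀ x ∈ A, ∀ y ∈ A, x * y = y * x
  hB : ∀ x ∈ B, ∀ y ∈ B, x * y = y * x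

theorem br_unique_c (h : IsRankOnePair A B) {c c' : G} (hb : Br A B a c) (hb' : Br A B a c') : c = c' := by
  have h4 := partner_unique (a := a) h (b := c⁻¹) (b' := c'⁻¹) (inv_mem hb.hc) (inv_mem hb'.hc)
    (by rw [inv_inv, hb.e]) (by rw [inv_inv, hb'.e])
  exact inv_injective h4

theorem br_unique_a (h : IsRankOnePair A B) {a a' : G} (hb : Br A B a c) (hb' : Br A B a' c) : a = a' := by
  have e := hb.e.symm.trans hb'.e
  have := pt_inj h (inv_mem hb.ha) (inv_mem hb'.ha) e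
  exact inv_injective this

/-- the action of `c` : `c A c⁻¹ = a⁻¹ B a` -/
theorem br_inv (h : IsRankOnePair A B) (hb : Br A B a c) : Br A B a⁻¹ c⁻¹ := by
  have hw := hb.swap h
  refine ⟨inv_mem hb.ha, inv_mem hb.hc, inv_ne_one.2 hb.ha1, inv_ne_one.2 hb.hc1, ?_, ?_⟩
  · -- c⁻¹ A c = a B a⁻¹
    rw [inv_inv, cj_inv_iff, inv_inv, cj_cj]
    -- A = (c a) B (c a)⁻¹
    have h1 : conjBy B (a * c * a) = A := hw.2.2
    rw [hb.br, ← cj_cj, cj_of_mem hb.hc] at h1
    exact h1.symm
  · have := congrArg (fun z => z⁻¹) hb.br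
    simp only [mul_inv_rev, ← mul_assoc] at this
    exact this

/-- conjugating a braid pair by a swap `n` -/
theorem br_cj_swap {n : G} (h : IsSpecialRankOnePair A B) (hb : Br A B a c) (hn : Sw A B n) :
    Br A B (n * c * n⁻¹) (n * a * n⁻¹) := by
  obtain ⟨hn1, hn2, hn3⟩ := hn
  have hc : n * c * n⁻¹ ∈ A := by
    have := cj_mem (g := n) hb.hc; rwa [hn3] at this
  have ha : n * a * n⁻¹ ∈ B := by
    have := cj_mem (g := n) hb.ha; rwa [hn2] at this
  have ne1 : ∀ z : G, z ≠ 1 → n * z * n⁻¹ ≠ 1 := by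
    intro z hz e
    apply hz
    have : z = n⁻¹ * (n * z * n⁻¹) * n := by group
    rw [this, e]; group
  refine ⟨hc, ha, ne1 c hb.hc1, ne1 a hb.ha1, ?_, ?_⟩
  · -- (n a n⁻¹) A = n a B ... ; want = (n c n⁻¹)⁻¹ B = n c⁻¹ A
    have e1 : n * a * n⁻¹ = n * (a * n⁻¹) := by group
    have e2 : (n * c * n⁻¹)⁻¹ = n * (c⁻¹ * n⁻¹) := by group
    have hn4 : conjBy A n⁻¹ = B := (cj_inv_iff.1 hn3).symm ▸ rfl
    have hn5 : conjBy B n⁻¹ = A := (cj_inv_iff.1 hn2).symm ▸ rfl
    rw [e1, e2, ← cj_cj, ← cj_cj, ← cj_cj, ← cj_cj, hn4, hn5]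
    congr 1
    have := (br_inv h.1 hb).e
    rw [inv_inv] at this
    exact this.symm
  · have e := hb.br
    calc n * c * n⁻¹ * (n * a * n⁻¹) * (n * c * n⁻¹) = n * (c * a * c) * n⁻¹ := by group
      _ = n * (a * c * a) * n⁻¹ := by rw [e]
      _ = _ := by group


theorem pow_rel (hs : SP A B) : ∀ n : ℕ, 1 ≤ n → ∀ a c d : G, Br A B a c → Br A B d (c ^ n) → d ^ n = a := by
  intro n hn
  induction n, hn using Nat.le_induction with
  | base =>
    intro a c d ha hd
    rw [pow_one] at hd ⊢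
    exact br_unique_a hs.h.1 hd ha
  | succ n hn ih =>
    intro a c d ha hd
    have hw := ha.swap hs.h.1
    set w := a * c * a with hwdef
    have hca : w * a * w⁻¹ = c := ha.conj_a
    have powconj : ∀ (x : G) (m : ℕ), w * x ^ m * w⁻¹ = (w * x * w⁻¹) ^ m := fun x m => (conj_pow (a := w) (b := x) (i := m)).symm
    by_cases h1 : c ^ n = 1
    · -- then `d = a` and `a ^ n = 1`
      have h2 : c ^ (n + 1) = c := by rw [pow_succ, h1, one_mul]
      rw [h2] at hd
      have h3 : d = a := br_unique_a hs.h.1 hd ha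
      have h4 : a ^ n = 1 := by
        have := powconj a n
        rw [hca, h1] at this
        have h5 : a ^ n = w⁻¹ * (w * a ^ n * w⁻¹) * w := by group
        rw [h5, this]; group
      rw [h3, pow_succ, h4, one_mul]
    obtain ⟨e, he⟩ := exists_br' hs.h (pow_mem ha.hc n) h1
    have h2 : e ^ n = a := ih a c e ha he
    -- f
    have hwe : w * e * w⁻¹ ∈ B := by
      have := cj_mem (g := w) he.ha
      rwa [hw.2.1] at this
    have hwe1 : w * e * w⁻¹ ≠ 1 := by
      intro h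
      apply he.ha1
      have : e = w⁻¹ * (w * e * w⁻¹) * w := by group
      rw [this, h]; group
    obtain ⟨f, hf⟩ := exists_br' hs.h hwe hwe1
    have h3 : (w * e * w⁻¹) ^ n = c := by rw [← powconj, h2, hca]
    -- the element `e^(n+1) ≠ 1`
    have h4 : a * e = e ^ (n + 1) := by rw [pow_succ, h2]
    have h5 : e ^ (n + 1) ≠ 1 := by
      intro h
      have h6 : a = e⁻¹ := by rw [← h4] at h; exact mul_eq_one_iff_eq_inv.1 h
      -- c · c^n = 1
      apply hd.hc1
      have h7 := br_inv hs.h.1 he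
      rw [← h6] at h7
      have h8 := br_unique_c hs.h.1 ha h7
      rw [pow_succ']
      nth_rewrite 1 [h8]
      group
    have h6 : (w * e * w⁻¹) ^ (n + 1) ≠ 1 := by
      rw [← powconj]
      intro h
      apply h5
      have : e ^ (n + 1) = w⁻¹ * (w * e ^ (n + 1) * w⁻¹) * w := by group
      rw [this, h]; group
    obtain ⟨k, hk⟩ := exists_br' hs.h (pow_mem hwe (n + 1)) h6
    -- c_k ^ n = c ^ (n+1)
    have h7 : ((w * e * w⁻¹) ^ (n + 1)) ^ n = c ^ (n + 1) := by
      rw [← pow_mul, mul_comm, pow_mul, h3]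
    have h8 : d ^ n = k := ih k _ d hk (by rw [h7]; exact hd)
    -- k = a d⁻¹
    have h9 : k = a * d⁻¹ := by
      apply pt_inj hs.h.1 hk.ha (mul_mem ha.ha (inv_mem hd.ha))
      -- both sides are `w` applied to `pt (e^(n+1))⁻¹`
      have e1 : conjBy (conjBy B (a * e)⁻¹) w = conjBy B k := by
        rw [h4, cj_cj]
        have e2 : w * (e ^ (n + 1))⁻¹ = ((w * e * w⁻¹) ^ (n + 1))⁻¹ * w := by
          rw [← powconj]; group
        rw [e2, ← cj_cj, hw.2.2]
        have := (br_inv hs.h.1 hk).e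
        rwa [inv_inv] at this
      have e3 : conjBy (conjBy B (a * e)⁻¹) w = conjBy B (a * d⁻¹) := by
        have hwe' := he.swap hs.h.1
        have e4 : w * ((a * e)⁻¹ * (e * c ^ n * e)) = a * (c ^ (n + 1) * e) := by
          have e5 : a * (a * e)⁻¹ * e = 1 := by
            rw [hs.hA a ha.ha e he.ha]; group
          calc w * ((a * e)⁻¹ * (e * c ^ n * e)) = a * c * (a * (a * e)⁻¹ * e) * (c ^ n * e) := by
                rw [hwdef]; group
            _ = a * (c * c ^ n) * e := by rw [e5]; group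
            _ = _ := by rw [← pow_succ']; group
        calc conjBy (conjBy B (a * e)⁻¹) w = conjBy (conjBy (conjBy A (e * c ^ n * e)) (a * e)⁻¹) w := by
              rw [hwe'.2.1]
          _ = conjBy A (w * ((a * e)⁻¹ * (e * c ^ n * e))) := by rw [cj_cj, cj_cj, mul_assoc]
          _ = conjBy A (a * (c ^ (n + 1) * e)) := by rw [e4]
          _ = _ := by rw [← cj_cj, ← cj_cj, cj_of_mem he.ha, hd.e, cj_cj]
      rw [← e1, e3]
    rw [pow_succ, h8, h9, inv_mul_cancel_right]

/-- `c (a ^ n) ^ n = c a` -/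
theorem pow_rel' (hs : SP A B) {n : ℕ} (hn : 1 ≤ n) (ha : Br A B a c) (h1 : a ^ n ≠ 1) {c' : G}
    (hc' : Br A B (a ^ n) c') : c' ^ n = c := by
  have hw := ha.swap hs.h.1
  set w := a * c * a with hwdef
  have hca : w * a * w⁻¹ = c := ha.conj_a
  have powconj : ∀ (x : G) (m : ℕ), w * x ^ m * w⁻¹ = (w * x * w⁻¹) ^ m := fun x m => (conj_pow (a := w) (b := x) (i := m)).symm
  have h2 : c ^ n ≠ 1 := by
    rw [← hca, ← powconj]
    intro h
    apply h1
    have : a ^ n = w⁻¹ * (w * a ^ n * w⁻¹) * w := by group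
    rw [this, h]; group
  obtain ⟨e, he⟩ := exists_br' hs.h (pow_mem ha.hc n) h2
  have h3 : e ^ n = a := pow_rel hs n hn a c e ha he
  have hwe : w * e * w⁻¹ ∈ B := by
    have := cj_mem (g := w) he.ha
    rwa [hw.2.1] at this
  have hwe1 : w * e * w⁻¹ ≠ 1 := by
    intro h
    apply he.ha1
    have : e = w⁻¹ * (w * e * w⁻¹) * w := by group
    rw [this, h]; group
  obtain ⟨f, hf⟩ := exists_br' hs.h hwe hwe1
  have h4 : (w * e * w⁻¹) ^ n = c := by rw [← powconj, h3, hca]
  have h5 : a ^ n = f := pow_rel hs n hn f _ a hf (by rw [h4]; exact ha)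
  rw [← h5] at hf
  rw [br_unique_c hs.h.1 hc' hf, h4]

theorem c_pow (hb : Br A B a c) (n : ℕ) : c ^ n = 1 ↔ a ^ n = 1 := by
  have hca := hb.conj_a
  set w := a * c * a with hwdef
  have h1 : c ^ n = w * a ^ n * w⁻¹ := by rw [← hca, conj_pow]
  rw [h1]
  constructor
  · intro h
    have : a ^ n = w⁻¹ * (w * a ^ n * w⁻¹) * w := by group
    rw [this, h]; group
  · intro h; rw [h]; group

/-- S5021 -/
theorem ele_or_div (hs : SP A B) :
    (∃ p : ℕ, p.Prime ∧ IsElementaryAbelian p A) ∨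
    ((∀ a ∈ A, a ≠ 1 → ¬ IsOfFinOrder a) ∧ ∀ a ∈ A, ∀ n : ℕ, 0 < n → ∃ c ∈ A, c ^ n = a) := by
  by_cases hfin : ∃ a ∈ A, a ≠ 1 ∧ IsOfFinOrder a
  · left
    obtain ⟨a, ha, ha1, hfin⟩ := hfin
    have ho : orderOf a ≠ 1 := fun h => ha1 (orderOf_eq_one_iff.1 h)
    obtain ⟨p, hp, hpd⟩ := Nat.exists_prime_and_dvd ho
    obtain ⟨k, hk⟩ := hpd
    have hpos := hfin.orderOf_pos
    have hk0 : 0 < k := by
      rcases Nat.eq_zero_or_pos k with h | h
      · rw [h, mul_zero] at hk; omega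
      · exact h
    set t := a ^ k with ht
    have htA : t ∈ A := pow_mem ha k
    have ht1 : t ≠ 1 := by
      intro h
      have := orderOf_dvd_of_pow_eq_one h
      have h2 := Nat.le_of_dvd hk0 this
      rw [hk] at h2
      have := hp.two_le
      nlinarith
    have htp : t ^ p = 1 := by rw [ht, ← pow_mul, mul_comm, ← hk, pow_orderOf_eq_one]
    refine ⟨p, hp, comm_of_el hs.hA, ?_⟩
    intro x hx
    by_contra hxp
    have hx1 : x ≠ 1 := by rintro rfl; simp at hxp
    have e1 : (x * t) ^ p = x ^ p := by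
      rw [(show Commute x t from hs.hA x hx t htA).mul_pow, htp, mul_one]
    have hxt1 : x * t ≠ 1 := by
      intro h
      rw [h, one_pow] at e1
      exact hxp e1.symm
    obtain ⟨c, hc⟩ := exists_br hs.h hx hx1
    obtain ⟨c', hc'⟩ := exists_br hs.h (mul_mem hx htA) hxt1
    obtain ⟨c'', hc''⟩ := exists_br hs.h (pow_mem hx p) hxp
    have h1 := pow_rel' hs hp.one_le hc hxp hc''
    have h2 := pow_rel' hs hp.one_le hc' (by rw [e1]; exact hxp) (by rw [e1]; exact hc'')
    rw [← h1, h2] at hc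
    have := br_unique_a hs.h.1 hc hc'
    exact ht1 (mul_eq_left.1 this.symm)
  · right
    push Not at hfin
    refine ⟨hfin, ?_⟩
    intro a ha n hn
    by_cases ha1 : a = 1
    · exact ⟨1, one_mem _, by rw [one_pow, ha1]⟩
    have h1 : a ^ n ≠ 1 := fun h => hfin a ha ha1 (isOfFinOrder_iff_pow_eq_one.2 ⟨n, hn, h⟩)
    obtain ⟨c, hc⟩ := exists_br hs.h ha ha1
    have h2 : c ^ n ≠ 1 := fun h => h1 ((c_pow hc n).1 h)
    obtain ⟨d, hd⟩ := exists_br' hs.h (pow_mem hc.hc n) h2
    exact ⟨d, hd.ha, pow_rel hs n hn a c d hc hd⟩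

end CfsgLib.H14RW
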