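import Cfsg.Agent.EqBase

/-! The Steinberg presentation of `SL₂` over a field (seat helper14):
a group with root subgroups `x`, `y` satisfying the rank one Steinberg relations and with multiplicative torus elements
`h t` is the image of a homomorphism from `SL₂(F)`; over prime fields multiplicativity is automatic. -/

set_option autoImplicit false

namespace CfsgLib.SL2Pres

variable {F : Type*} [Field F] {Γ : Type*} [Group Γ]

/-- `w t = x t * y (-t⁻¹) * x t` -/
def w (x y : F → Γ) (t : F) : Γ := x t * y (-t⁻¹) * x t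

/-- Steinberg relations of rank one -/
structure St (x y : F → Γ) : Prop where
  hx : ∀ s t, x (s + t) = x s * x t
  hy : ∀ s t, y (s + t) = y s * y t
  hw : ∀ t u, t ≠ 0 → w x y t * x u = y (-(t⁻¹ * t⁻¹ * u)) * w x y t

variable {x y : F → Γ}

namespace St
variable (S : St x y)
include S

theorem x0 : x 0 = 1 := by
  have := S.hx 0 0
  rw [add_zero] at this
  exact (mul_eq_left.1 this.symm)

theorem y0 : y 0 = 1 := by
  have := S.hy 0 0
  rw [add_zero] at this
  exact (mul_eq_left.1 this.symm)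

theorem xneg (t : F) : x (-t) = (x t)⁻¹ := by
  rw [eq_inv_iff_mul_eq_one, ← S.hx]; simp [S.x0]

theorem yneg (t : F) : y (-t) = (y t)⁻¹ := by
  rw [eq_inv_iff_mul_eq_one, ← S.hy]; simp [S.y0]

theorem wneg (t : F) : w x y (-t) = (w x y t)⁻¹ := by
  unfold w
  rw [inv_neg, neg_neg, S.xneg]
  have : y t⁻¹ = (y (-t⁻¹))⁻¹ := by rw [← S.yneg, neg_neg]
  rw [this]; group

/-- `w t * y u = x (-(t² u)) * w t` -/
theorem hw' (t u : F) (ht : t ≠ 0) : w x y t * y u = x (-(t * t * u)) * w x y t := by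
  have h := S.hw (-t) (-(t * t * u)) (neg_ne_zero.2 ht)
  rw [S.wneg] at h
  have e : -((-t)⁻¹ * (-t)⁻¹ * -(t * t * u)) = u := by field_simp
  rw [e] at h
  rw [inv_mul_eq_iff_eq_mul, ← mul_assoc, eq_mul_inv_iff_mul_eq] at h
  exact h.symm

/-- alternative form -/
theorem walt (t : F) (ht : t ≠ 0) : w x y t = y (-t⁻¹) * x t * y (-t⁻¹) := by
  have h1 := S.hw t t ht
  have h2 := S.hw' t (-t⁻¹) ht
  have e1 : -(t⁻¹ * t⁻¹ * t) = -t⁻¹ := by field_simp
  have e2 : -(t * t * -t⁻¹) = t := by field_simp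
  rw [e1] at h1
  rw [e2] at h2
  -- w = w * w * w⁻¹ = w x y x w⁻¹
  have h3 : w x y t * w x y t = (y (-t⁻¹) * x t * y (-t⁻¹)) * w x y t := by
    conv_lhs => rhs; unfold w
    calc w x y t * (x t * y (-t⁻¹) * x t) = (w x y t * x t) * y (-t⁻¹) * x t := by group
      _ = y (-t⁻¹) * (w x y t * y (-t⁻¹)) * x t := by rw [h1]; group
      _ = y (-t⁻¹) * x t * (w x y t * x t) := by rw [h2]; group
      _ = _ := by rw [h1]; group
  exact mul_right_cancel h3

theorem ww (t u : F) (ht : t ≠ 0) (hu : u ≠ 0) : w x y t * w x y u = w x y (t * t * u⁻¹) * w x y t := by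
  have h1 := S.hw t u ht
  have h2 := S.hw' t (-u⁻¹) ht
  have e2 : -(t * t * -u⁻¹) = t * t * u⁻¹ := by ring
  rw [e2] at h2
  have hne : t * t * u⁻¹ ≠ 0 := mul_ne_zero (mul_ne_zero ht ht) (inv_ne_zero hu)
  rw [S.walt _ hne]
  have e3 : -(t * t * u⁻¹)⁻¹ = -(t⁻¹ * t⁻¹ * u) := by
    rw [mul_inv, mul_inv, inv_inv]
  rw [e3]
  calc w x y t * w x y u = (w x y t * x u) * y (-u⁻¹) * x u := by
        conv_lhs => rhs; unfold w
        group
    _ = y (-(t⁻¹ * t⁻¹ * u)) * (w x y t * y (-u⁻¹)) * x u := by rw [h1]; group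
    _ = y (-(t⁻¹ * t⁻¹ * u)) * x (t * t * u⁻¹) * (w x y t * x u) := by rw [h2]; group
    _ = _ := by rw [h1]; group

/-- the relation `w a * w (-(a+b)) * w b = w (ab/(a+b))` -/
theorem www (a b : F) (ha : a ≠ 0) (hb : b ≠ 0) (hab : a + b ≠ 0) :
    w x y a * w x y (-(a + b)) * w x y b = w x y (a * b * (a + b)⁻¹) := by
  set c := a * b * (a + b)⁻¹ with hc
  have hc0 : c ≠ 0 := mul_ne_zero (mul_ne_zero ha hb) (inv_ne_zero hab)
  have hcinv : c⁻¹ = a⁻¹ + b⁻¹ := by rw [hc]; field_simp; ring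
  -- y(-c⁻¹) = y(-a⁻¹) y(-b⁻¹)
  have h1 : y (-c⁻¹) = y (-a⁻¹) * y (-b⁻¹) := by
    rw [hcinv, neg_add, S.hy]
  -- y(-t⁻¹) = x(-t) w t x(-t)
  have yw : ∀ t, y (-t⁻¹) = x (-t) * w x y t * x (-t) := by
    intro t
    unfold w; rw [S.xneg]; group
  rw [yw c, yw a, yw b] at h1
  -- x(-(a+b)) = y(..) w(-(a+b)) y(..)
  have h2 : x (-a) * x (-b) = y (-(a + b)⁻¹) * w x y (-(a + b)) * y (-(a + b)⁻¹) := by
    rw [← S.hx, ← neg_add, S.walt (-(a + b)) (neg_ne_zero.2 hab), inv_neg, neg_neg]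
    have : y (a + b)⁻¹ = (y (-(a + b)⁻¹))⁻¹ := by rw [← S.yneg, neg_neg]
    rw [this]; group
  have h3 : w x y a * y (-(a + b)⁻¹) = x (a * a * (a + b)⁻¹) * w x y a := by
    rw [S.hw' a _ ha]; congr 2; ring
  have h4 : y (-(a + b)⁻¹) * w x y b = w x y b * x (b * b * (a + b)⁻¹) := by
    have h5 := S.hw b (b * b * (a + b)⁻¹) hb
    have e : -(b⁻¹ * b⁻¹ * (b * b * (a + b)⁻¹)) = -(a + b)⁻¹ := by field_simp
    rw [e] at h5
    exact h5.symm
  have h5 : x (-a) * w x y a * x (-a) * (x (-b) * w x y b * x (-b)) =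
      x (-a) * x (a * a * (a + b)⁻¹) * (w x y a * w x y (-(a + b)) * w x y b) * (x (b * b * (a + b)⁻¹) * x (-b)) := by
    calc x (-a) * w x y a * x (-a) * (x (-b) * w x y b * x (-b)) =
        x (-a) * w x y a * (x (-a) * x (-b)) * w x y b * x (-b) := by group
      _ = x (-a) * (w x y a * y (-(a + b)⁻¹)) * w x y (-(a + b)) * (y (-(a + b)⁻¹) * w x y b) * x (-b) := by
        rw [h2]; group
      _ = _ := by rw [h3, h4]; group
  rw [h5] at h1
  have e6 : x (-a) * x (a * a * (a + b)⁻¹) = x (-c) := by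
    rw [← S.hx, hc]; congr 1; field_simp; ring
  have e7 : x (b * b * (a + b)⁻¹) * x (-b) = x (-c) := by
    rw [← S.hx, hc]; congr 1; field_simp; ring
  rw [e6, e7] at h1
  exact (mul_left_cancel (mul_right_cancel h1)).symm

end St

/-- `h t = w t * w (-1)` -/
def h (x y : F → Γ) (t : F) : Γ := w x y t * w x y (-1)

/-- commutes with all root elements -/
def Cen (x y : F → Γ) (z : Γ) : Prop := (∀ u, z * x u = x u * z) ∧ ∀ u, z * y u = y u * z

theorem Cen.mul {z z' : Γ} (hz : Cen x y z) (hz' : Cen x y z') : Cen x y (z * z') :=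
  ⟨fun u => by rw [mul_assoc, hz'.1, ← mul_assoc, hz.1, mul_assoc],
    fun u => by rw [mul_assoc, hz'.2, ← mul_assoc, hz.2, mul_assoc]⟩

theorem Cen.inv {z : Γ} (hz : Cen x y z) : Cen x y z⁻¹ :=
  ⟨fun u => by rw [inv_mul_eq_iff_eq_mul, ← mul_assoc, hz.1, mul_inv_cancel_right],
    fun u => by rw [inv_mul_eq_iff_eq_mul, ← mul_assoc, hz.2, mul_inv_cancel_right]⟩

theorem Cen.w {z : Γ} (hz : Cen x y z) (t : F) : z * w x y t = w x y t * z := by
  unfold SL2Pres.w
  calc z * (x t * y (-t⁻¹) * x t) = (z * x t) * y (-t⁻¹) * x t := by group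
    _ = x t * (z * y (-t⁻¹)) * x t := by rw [hz.1]; group
    _ = x t * y (-t⁻¹) * (z * x t) := by rw [hz.2]; group
    _ = _ := by rw [hz.1]; group

theorem Cen.h {z : Γ} (hz : Cen x y z) (t : F) : z * h x y t = h x y t * z := by
  unfold SL2Pres.h
  rw [← mul_assoc, hz.w, mul_assoc, hz.w, mul_assoc]

namespace St
variable (S : St x y)
include S

theorem w_eq (t : F) : w x y t = h x y t * w x y 1 := by
  unfold h; rw [S.wneg]; group

theorem h1 : h x y 1 = 1 := by
  unfold h; rw [S.wneg]; group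

theorem h_x (t u : F) (ht : t ≠ 0) : h x y t * x u = x (t * t * u) * h x y t := by
  unfold h
  have h1 := S.hw (-1) u (neg_ne_zero.2 one_ne_zero)
  have h2 := S.hw' t (-((-1)⁻¹ * (-1)⁻¹ * u)) ht
  rw [mul_assoc, h1, ← mul_assoc, h2, mul_assoc]
  congr 2
  field_simp

theorem h_y (t u : F) (ht : t ≠ 0) : h x y t * y u = y (t⁻¹ * t⁻¹ * u) * h x y t := by
  unfold h
  have h1 := S.hw' (-1) u (neg_ne_zero.2 one_ne_zero)
  have h2 := S.hw t (-(-1 * -1 * u)) ht
  rw [mul_assoc, h1, ← mul_assoc, h2, mul_assoc]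
  congr 2
  ring

theorem h_w (t u : F) (ht : t ≠ 0) (hu : u ≠ 0) : h x y t * w x y u = w x y (t * t * u) * h x y t := by
  unfold h
  have h1 := S.ww (-1) u (neg_ne_zero.2 one_ne_zero) hu
  have h2 := S.ww t (-1 * -1 * u⁻¹) ht (mul_ne_zero (by simp) (inv_ne_zero hu))
  rw [mul_assoc, h1, ← mul_assoc, h2, mul_assoc]
  congr 2
  simp

theorem h_h (t u : F) (ht : t ≠ 0) (hu : u ≠ 0) :
    h x y t * h x y u = h x y (t * t * u) * (h x y (t * t))⁻¹ * h x y t := by
  have e1 : h x y u = w x y u * (w x y 1)⁻¹ := by rw [h, S.wneg]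
  have e2 : h x y (t * t * u) = w x y (t * t * u) * (w x y 1)⁻¹ := by rw [h, S.wneg]
  have e3 : h x y (t * t) = w x y (t * t) * (w x y 1)⁻¹ := by rw [h, S.wneg]
  have h1 := S.h_w t u ht hu
  have h2 := S.h_w t 1 ht one_ne_zero
  rw [mul_one] at h2
  have h3 : h x y t * (w x y 1)⁻¹ = (w x y (t * t))⁻¹ * h x y t := by
    rw [mul_inv_eq_iff_eq_mul, mul_assoc, h2]; group
  rw [e2, e3, e1, ← mul_assoc, h1, mul_assoc, h3]; group

theorem f_cen (t u : F) (ht : t ≠ 0) (hu : u ≠ 0) : Cen x y (h x y t * h x y u * (h x y (t * u))⁻¹) := by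
  have htu := mul_ne_zero ht hu
  have inv_x : ∀ s, (h x y (t * u))⁻¹ * x s = x ((t * u)⁻¹ * (t * u)⁻¹ * s) * (h x y (t * u))⁻¹ := by
    intro s
    have := S.h_x (t * u) ((t * u)⁻¹ * (t * u)⁻¹ * s) htu
    rw [inv_mul_eq_iff_eq_mul, ← mul_assoc, this, mul_inv_cancel_right]
    congr 1; field_simp
  have inv_y : ∀ s, (h x y (t * u))⁻¹ * y s = y ((t * u) * (t * u) * s) * (h x y (t * u))⁻¹ := by
    intro s
    have := S.h_y (t * u) ((t * u) * (t * u) * s) htu
    rw [inv_mul_eq_iff_eq_mul, ← mul_assoc, this, mul_inv_cancel_right]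
    congr 1; field_simp
  constructor
  · intro s
    rw [mul_assoc, inv_x, ← mul_assoc, mul_assoc (h x y t), S.h_x u _ hu, ← mul_assoc, S.h_x t _ ht]
    have e : t * t * (u * u * ((t * u)⁻¹ * (t * u)⁻¹ * s)) = s := by field_simp
    rw [e]; group
  · intro s
    rw [mul_assoc, inv_y, ← mul_assoc, mul_assoc (h x y t), S.h_y u _ hu, ← mul_assoc, S.h_y t _ ht]
    have e : t⁻¹ * t⁻¹ * (u⁻¹ * u⁻¹ * (t * u * (t * u) * s)) = s := by field_simp
    rw [e]; group

/-- if `Fˣ` is cyclic the elements `h t` commute -/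
theorem h_comm_of_cyclic {v : F} (hv : v ≠ 0) (hgen : ∀ t : F, t ≠ 0 → ∃ i : ℕ, t = v ^ i) (t u : F) (ht : t ≠ 0) (hu : u ≠ 0) :
    h x y t * h x y u = h x y u * h x y t := by
  have key : ∀ i : ℕ, ∃ z, Cen x y z ∧ h x y (v ^ i) = z * (h x y v) ^ i := by
    intro i
    induction i with
    | zero => exact ⟨1, ⟨fun u => by simp, fun u => by simp⟩, by simp [S.h1]⟩
    | succ i ih =>
      obtain ⟨z, hz, e⟩ := ih
      have hc := S.f_cen (v ^ i) v (pow_ne_zero i hv) hv
      refine ⟨_, hc.inv.mul hz, ?_⟩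
      have e2 : h x y (v ^ (i + 1)) = (h x y (v ^ i) * h x y v * (h x y (v ^ i * v))⁻¹)⁻¹ * (h x y (v ^ i) * h x y v) := by
        rw [pow_succ]; group
      have e9 : h x y (v ^ i) * h x y v = z * (h x y v) ^ (i + 1) := by rw [e, pow_succ, mul_assoc]
      generalize (h x y (v ^ i) * h x y v * (h x y (v ^ i * v))⁻¹)⁻¹ = f at e2 ⊢
      rw [e2, e9, mul_assoc]
  obtain ⟨i, rfl⟩ := hgen t ht
  obtain ⟨j, rfl⟩ := hgen u hu
  obtain ⟨z, hz, e⟩ := key i
  obtain ⟨z', hz', e'⟩ := key j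
  have hz'' : ∀ k : ℕ, z' * h x y v ^ k = h x y v ^ k * z' := by
    intro k
    have : Commute z' (h x y v) := hz'.h v
    exact (this.pow_right k)
  have hz2 : ∀ k : ℕ, z * h x y v ^ k = h x y v ^ k * z := by
    intro k
    have : Commute z (h x y v) := hz.h v
    exact (this.pow_right k)
  have hzz : z * z' = z' * z := by
    -- z' = h (v^j) * (h v)^{-j}
    have e3 : z' = h x y (v ^ j) * (h x y v ^ j)⁻¹ := by rw [e']; group
    have c1 : Commute z (h x y (v ^ j)) := hz.h _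
    have c2 : Commute z (h x y v ^ j) := hz2 j
    rw [e3]
    exact (c1.mul_right c2.inv_right)
  rw [e, e']
  calc z * h x y v ^ i * (z' * h x y v ^ j) = z * (h x y v ^ i * z') * h x y v ^ j := by group
    _ = z * (z' * h x y v ^ i) * h x y v ^ j := by rw [hz'']
    _ = (z * z') * (h x y v ^ i * h x y v ^ j) := by group
    _ = (z' * z) * (h x y v ^ j * h x y v ^ i) := by rw [hzz, ← pow_add, ← pow_add, add_comm]
    _ = z' * (z * h x y v ^ j) * h x y v ^ i := by group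
    _ = _ := by rw [hz2]; group

/-- multiplicativity over prime fields -/
theorem h_mul_of_sum {v : F} (hv : v ≠ 0) (hgen : ∀ t : F, t ≠ 0 → ∃ i : ℕ, t = v ^ i)
    (hsum : (∀ t : F, IsSquare t) ∨ ∃ s t r : F, ¬ IsSquare s ∧ ¬ IsSquare t ∧ r ≠ 0 ∧ s + t = r * r)
    (hns : ∀ s t : F, ¬ IsSquare s → ¬ IsSquare t → IsSquare (s * t)) (t u : F) (ht : t ≠ 0) (hu : u ≠ 0) :
    h x y (t * u) = h x y t * h x y u := by
  have comm := fun t u ht hu => S.h_comm_of_cyclic hv hgen t u ht hu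
  -- squares
  have sq : ∀ t u : F, t ≠ 0 → u ≠ 0 → h x y (t * t * u) = h x y (t * t) * h x y u := by
    intro t u ht hu
    have h1 := S.h_h t u ht hu
    have h2 := comm t u ht hu
    have h3 : h x y (t * t * u) * (h x y (t * t))⁻¹ * h x y t = h x y u * h x y t := by rw [← h1, h2]
    have h4 := mul_right_cancel h3
    rw [mul_inv_eq_iff_eq_mul] at h4
    rw [h4, comm _ _ hu (mul_ne_zero ht ht)]
  have sq' : ∀ t u : F, t ≠ 0 → u ≠ 0 → IsSquare t → h x y (t * u) = h x y t * h x y u := by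
    rintro t u ht hu ⟨s, rfl⟩
    exact sq s u (by rintro rfl; simp at ht) hu
  by_cases hts : IsSquare t
  · exact sq' t u ht hu hts
  by_cases hus : IsSquare u
  · rw [mul_comm, sq' u t hu ht hus, comm _ _ hu ht]
  rcases hsum with hsum | ⟨s0, t0, r, hs0, ht0, hr, e⟩
  · exact absurd (hsum t) hts
  have hs00 : s0 ≠ 0 := by rintro rfl; exact hs0 ⟨0, by simp⟩
  have ht00 : t0 ≠ 0 := by rintro rfl; exact ht0 ⟨0, by simp⟩
  have hR : r * r ≠ 0 := mul_ne_zero hr hr
  -- base relation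
  have base : h x y s0 * h x y t0 = h x y (s0 * t0) := by
    have h1 := S.www s0 t0 hs00 ht00 (by rw [e]; exact hR)
    rw [e, S.wneg, S.w_eq s0, S.w_eq (r * r), S.w_eq t0, S.w_eq (s0 * t0 * (r * r)⁻¹)] at h1
    have h2 : h x y s0 * (h x y (r * r))⁻¹ * h x y t0 = h x y (s0 * t0 * (r * r)⁻¹) := by
      apply mul_right_cancel (b := w x y 1)
      rw [← h1]; group
    have h3 : h x y (s0 * t0) = h x y (r * r) * h x y (s0 * t0 * (r * r)⁻¹) := by
      rw [← sq r _ hr (mul_ne_zero (mul_ne_zero hs00 ht00) (inv_ne_zero hR))]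
      congr 1; field_simp
    rw [h3, ← h2, ← mul_assoc, ← mul_assoc, comm _ _ hR hs00]; group
  -- t = s0 a², u = t0 b²
  have cls : ∀ t s : F, t ≠ 0 → s ≠ 0 → ¬ IsSquare t → ¬ IsSquare s → ∃ a : F, a ≠ 0 ∧ t = a * a * s := by
    intro t s ht hs h1 h2
    obtain ⟨c, hc⟩ := hns t s h1 h2
    refine ⟨c * s⁻¹, ?_, ?_⟩
    · apply mul_ne_zero _ (inv_ne_zero hs)
      rintro rfl
      rw [mul_zero] at hc
      exact (mul_ne_zero ht hs) hc
    · field_simp
      rw [pow_two, ← hc]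
  obtain ⟨a, ha, e1⟩ := cls t s0 ht hs00 hts hs0
  obtain ⟨b, hb, e2⟩ := cls u t0 hu ht00 hus ht0
  have haa := mul_ne_zero ha ha
  have hbb := mul_ne_zero hb hb
  have e3 : t * u = (a * b) * (a * b) * (s0 * t0) := by rw [e1, e2]; ring
  have e4 : (a * b) * (a * b) = a * a * (b * b) := by ring
  rw [e3, sq _ _ (mul_ne_zero ha hb) (mul_ne_zero hs00 ht00), e4, sq a _ ha hbb, ← base, e1, e2, sq a _ ha hs00,
    sq b _ hb ht00]
  calc h x y (a * a) * h x y (b * b) * (h x y s0 * h x y t0) =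
      h x y (a * a) * (h x y (b * b) * h x y s0) * h x y t0 := by group
    _ = h x y (a * a) * (h x y s0 * h x y (b * b)) * h x y t0 := by rw [comm _ _ hbb hs00]
    _ = _ := by group

end St

/-! ### prime fields -/

section prime
variable {p : ℕ} [Fact p.Prime]

theorem zmod_gen : ∃ v : ZMod p, v ≠ 0 ∧ ∀ t : ZMod p, t ≠ 0 → ∃ i : ℕ, t = v ^ i := by
  obtain ⟨g, hg⟩ := IsCyclic.exists_monoid_generator (α := (ZMod p)ˣ)
  refine ⟨g, g.ne_zero, fun t ht => ?_⟩
  obtain ⟨i, hi⟩ := hg (Units.mk0 t ht)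
  refine ⟨i, ?_⟩
  have := congrArg (fun z : (ZMod p)ˣ => (z : ZMod p)) hi
  simpa using this.symm

theorem zmod_ns (s t : ZMod p) (hs : ¬ IsSquare s) (ht : ¬ IsSquare t) : IsSquare (s * t) := by
  have h2 : ringChar (ZMod p) ≠ 2 := by
    intro h
    exact hs (FiniteField.isSquare_of_char_two h s)
  have hs0 : s ≠ 0 := by rintro rfl; exact hs ⟨0, by simp⟩
  have ht0 : t ≠ 0 := by rintro rfl; exact ht ⟨0, by simp⟩
  rw [← quadraticChar_one_iff_isSquare (mul_ne_zero hs0 ht0), map_mul, quadraticChar_neg_one_iff_not_isSquare.2 hs,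
    quadraticChar_neg_one_iff_not_isSquare.2 ht]
  norm_num

theorem zmod_sum : (∀ t : ZMod p, IsSquare t) ∨ ∃ s t r : ZMod p, ¬ IsSquare s ∧ ¬ IsSquare t ∧ r ≠ 0 ∧ s + t = r * r := by
  by_cases hall : ∀ t : ZMod p, IsSquare t
  · exact Or.inl hall
  right
  push Not at hall
  obtain ⟨n, hn⟩ := hall
  by_contra hcon
  push Not at hcon
  have hn0 : n ≠ 0 := by rintro rfl; exact hn ⟨0, by simp⟩
  -- sums of nonsquares are nonsquares or zero
  have step : ∀ s t : ZMod p, ¬ IsSquare s → ¬ IsSquare t → s + t ≠ 0 → ¬ IsSquare (s + t) := by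
    rintro s t hs ht hne ⟨r, hr⟩
    exact hcon s t r hs ht (by rintro rfl; rw [mul_zero] at hr; exact hne hr) hr
  have key : ∀ k : ℕ, 1 ≤ k → k < p → ¬ IsSquare ((k : ZMod p) * n) := by
    intro k hk
    induction k, hk using Nat.le_induction with
    | base => intro _; simpa using hn
    | succ k hk ih =>
      intro hkp
      have h1 := step _ _ (ih (by omega)) hn
      have e : (k : ZMod p) * n + n = ((k + 1 : ℕ) : ZMod p) * n := by push_cast; ring
      rw [e] at h1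
      apply h1
      apply mul_ne_zero _ hn0
      rw [Ne, ZMod.natCast_eq_zero_iff]
      intro hd
      have := Nat.le_of_dvd (by omega) hd
      omega
  have h1 := key (n⁻¹).val ?_ (ZMod.val_lt _)
  · rw [ZMod.natCast_zmod_val, inv_mul_cancel₀ hn0] at h1
    exact h1 ⟨1, by simp⟩
  · rw [Nat.one_le_iff_ne_zero, Ne, ZMod.val_eq_zero]
    exact inv_ne_zero hn0

theorem St.h_mul {x y : ZMod p → Γ} (S : St x y) (t u : ZMod p) (ht : t ≠ 0) (hu : u ≠ 0) :
    h x y (t * u) = h x y t * h x y u := by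
  obtain ⟨v, hv, hgen⟩ := zmod_gen (p := p)
  exact S.h_mul_of_sum hv hgen zmod_sum zmod_ns t u ht hu

end prime

/-! ### the homomorphism -/

section hom
open Matrix
variable [DecidableEq F]

/-- the map `SL₂(F) → Γ` by the Bruhat decomposition -/
def phi (x y : F → Γ) (g : SpecialLinearGroup (Fin 2) F) : Γ :=
  if g.1 1 0 = 0 then x (g.1 0 0 * g.1 0 1) * h x y (g.1 0 0)
  else x (g.1 0 0 / g.1 1 0) * w x y (-1 / g.1 1 0) * x (g.1 1 1 / g.1 1 0)

/-- upper unipotent -/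
def X (t : F) : SpecialLinearGroup (Fin 2) F := ⟨!![1, t; 0, 1], by simp [det_fin_two]⟩
/-- lower unipotent -/
def Y (t : F) : SpecialLinearGroup (Fin 2) F := ⟨!![1, 0; t, 1], by simp [det_fin_two]⟩
/-- Weyl element -/
def W : SpecialLinearGroup (Fin 2) F := ⟨!![0, 1; -1, 0], by simp [det_fin_two]⟩

theorem Wmul (g : SpecialLinearGroup (Fin 2) F) :
    ((W : SpecialLinearGroup (Fin 2) F) * g).1 = (W : SpecialLinearGroup (Fin 2) F).1 * g.1 := rfl

variable (S : St x y)
include S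

theorem phi_X (t : F) (g : SpecialLinearGroup (Fin 2) F) : phi x y (X t * g) = x t * phi x y g := by
  have e10 : (X t * g).1 1 0 = g.1 1 0 := by rw [show (X t * g).1 = (X t).1 * g.1 from rfl]; simp [X, mul_apply, Fin.sum_univ_two]
  have e00 : (X t * g).1 0 0 = g.1 0 0 + t * g.1 1 0 := by rw [show (X t * g).1 = (X t).1 * g.1 from rfl]; simp [X, mul_apply, Fin.sum_univ_two]
  have e01 : (X t * g).1 0 1 = g.1 0 1 + t * g.1 1 1 := by rw [show (X t * g).1 = (X t).1 * g.1 from rfl]; simp [X, mul_apply, Fin.sum_univ_two]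
  have e11 : (X t * g).1 1 1 = g.1 1 1 := by rw [show (X t * g).1 = (X t).1 * g.1 from rfl]; simp [X, mul_apply, Fin.sum_univ_two]
  have hdet : g.1 0 0 * g.1 1 1 - g.1 0 1 * g.1 1 0 = 1 := by rw [← det_fin_two]; exact g.2
  unfold phi
  rw [e10, e00, e01, e11]
  by_cases hc : g.1 1 0 = 0
  · rw [if_pos hc, if_pos hc, hc, mul_zero, add_zero, ← mul_assoc, ← S.hx]
    rw [hc, mul_zero, sub_zero] at hdet
    congr 2
    linear_combination t * hdet
  · rw [if_neg hc, if_neg hc, ← mul_assoc, ← mul_assoc, ← S.hx]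
    congr 3
    field_simp; ring

theorem w1_h (hm : ∀ t u : F, t ≠ 0 → u ≠ 0 → h x y (t * u) = h x y t * h x y u) (t : F) (ht : t ≠ 0) :
    w x y 1 * h x y t = h x y t⁻¹ * w x y 1 := by
  unfold h
  have h1 := S.ww 1 t one_ne_zero ht
  rw [one_mul, one_mul] at h1
  rw [← mul_assoc, h1, mul_assoc, mul_assoc, S.wneg]; group

theorem w1_w1 (hm : ∀ t u : F, t ≠ 0 → u ≠ 0 → h x y (t * u) = h x y t * h x y u) :
    w x y 1 * w x y 1 = h x y (-1) := by
  have h1 : h x y (-1) * h x y (-1) = 1 := by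
    rw [← hm _ _ (by simp) (by simp)]; simp [S.h1]
  have h2 : (h x y (-1))⁻¹ = w x y 1 * w x y 1 := by
    unfold h; rw [S.wneg, _root_.mul_inv_rev, inv_inv]
  rw [← h2]
  exact (mul_eq_one_iff_eq_inv.1 h1).symm

theorem phi_W (hm : ∀ t u : F, t ≠ 0 → u ≠ 0 → h x y (t * u) = h x y t * h x y u)
    (g : SpecialLinearGroup (Fin 2) F) : phi x y (W * g) = w x y 1 * phi x y g := by
  have e10 : (W * g).1 1 0 = - g.1 0 0 := by rw [Wmul]; simp [W, mul_apply, Fin.sum_univ_two]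
  have e00 : (W * g).1 0 0 = g.1 1 0 := by rw [Wmul]; simp [W, mul_apply, Fin.sum_univ_two]
  have e01 : (W * g).1 0 1 = g.1 1 1 := by rw [Wmul]; simp [W, mul_apply, Fin.sum_univ_two]
  have e11 : (W * g).1 1 1 = - g.1 0 1 := by rw [Wmul]; simp [W, mul_apply, Fin.sum_univ_two]
  have hdet : g.1 0 0 * g.1 1 1 - g.1 0 1 * g.1 1 0 = 1 := by rw [← det_fin_two]; exact g.2
  unfold phi
  rw [e10, e00, e01, e11]
  set a := g.1 0 0 with ha
  set b := g.1 0 1 with hb
  set c := g.1 1 0 with hc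
  set d := g.1 1 1 with hd
  have ww1 := w1_w1 S hm
  by_cases hc0 : c = 0
  · rw [hc0, mul_zero, sub_zero] at hdet
    have ha0 : a ≠ 0 := by rintro h; rw [h, zero_mul] at hdet; exact zero_ne_one hdet
    rw [if_neg (neg_ne_zero.2 ha0), if_pos hc0, hc0, zero_div, S.x0, one_mul]
    -- w (1/a) x (b/a) = w1 x(ab) h a
    have e1 : -b / -a = b / a := by rw [neg_div_neg_eq]
    have e2 : -1 / -a = a⁻¹ := by rw [neg_div_neg_eq, one_div]
    rw [e1, e2]
    have h2 := S.h_x a (b / a) ha0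
    have e3 : a * a * (b / a) = a * b := by field_simp
    rw [e3] at h2
    rw [← h2, ← mul_assoc, w1_h S hm a ha0, ← S.w_eq]
  · by_cases ha0 : a = 0
    · rw [ha0, zero_mul, zero_sub] at hdet
      rw [if_pos (by rw [ha0, neg_zero]), if_neg hc0, ha0, zero_div, S.x0, one_mul, ← mul_assoc]
      have h1 : w x y 1 * w x y (-1 / c) = h x y c := by
        have hc1 : -1 / c ≠ 0 := div_ne_zero (by simp) hc0
        rw [S.w_eq (-1 / c), ← mul_assoc, w1_h S hm _ hc1, mul_assoc, ww1, ← hm _ _ (inv_ne_zero hc1) (by simp)]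
        congr 1
        field_simp
      rw [h1, S.h_x _ _ hc0]
      congr 2
      field_simp
    · rw [if_neg (neg_ne_zero.2 ha0), if_neg hc0]
      have hu : a / c ≠ 0 := div_ne_zero ha0 hc0
      have hr : -1 / c ≠ 0 := div_ne_zero (by simp) hc0
      -- x u = y(1/u) w u y(1/u)
      have h1 : x (a / c) = y (c / a) * w x y (a / c) * y (c / a) := by
        rw [S.walt _ hu]
        have e : -(a / c)⁻¹ = -(c / a) := by rw [inv_div]
        rw [e, S.yneg]; group
      have h2 : w x y 1 * y (c / a) = x (-(c / a)) * w x y 1 := by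
        rw [S.hw' _ _ one_ne_zero]; congr 2; ring
      have h3 : y (c / a) * w x y (-1 / c) = w x y (-1 / c) * x (-(1 / (a * c))) := by
        rw [S.hw _ _ hr]; congr 2; field_simp
      have h4 : w x y 1 * w x y (a / c) * w x y (-1 / c) = w x y (1 / a) := by
        rw [S.w_eq (a / c), S.w_eq (-1 / c), S.w_eq (1 / a)]
        have hh : h x y (1 / a) = h x y (a / c)⁻¹ * h x y (-1 / c) * h x y (-1) := by
          rw [← hm _ _ (inv_ne_zero hu) hr, ← hm _ _ (mul_ne_zero (inv_ne_zero hu) hr) (by simp)]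
          congr 1; field_simp
        have hinv : h x y (-1 / c) = h x y ((-1 / c)⁻¹)⁻¹ := by rw [inv_inv]
        calc w x y 1 * (h x y (a / c) * w x y 1) * (h x y (-1 / c) * w x y 1) =
            (w x y 1 * h x y (a / c)) * (w x y 1 * h x y (-1 / c)) * w x y 1 := by group
          _ = h x y (a / c)⁻¹ * (w x y 1 * h x y (-1 / c)⁻¹) * w x y 1 * w x y 1 := by
            rw [w1_h S hm _ hu, w1_h S hm _ hr]; group
          _ = h x y (a / c)⁻¹ * h x y (-1 / c) * (w x y 1 * w x y 1) * w x y 1 := by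
            rw [w1_h S hm _ (inv_ne_zero hr), inv_inv]; group
          _ = _ := by rw [ww1, hh]
      rw [h1]
      calc x (c / -a) * w x y (-1 / -a) * x (-b / -a) =
          x (-(c / a)) * w x y (1 / a) * x (b / a) := by
            rw [neg_div_neg_eq, neg_div_neg_eq, div_neg]
        _ = x (-(c / a)) * (w x y 1 * w x y (a / c) * w x y (-1 / c)) * (x (-(1 / (a * c))) * x (d / c)) := by
            rw [h4, ← S.hx]
            congr 2
            field_simp
            linear_combination (-1 : F) * hdet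
        _ = (x (-(c / a)) * w x y 1) * w x y (a / c) * (w x y (-1 / c) * x (-(1 / (a * c)))) * x (d / c) := by group
        _ = _ := by rw [← h2, ← h3]; group

omit S in
theorem coe_mul' (g k : SpecialLinearGroup (Fin 2) F) : (g * k).1 = g.1 * k.1 := rfl

omit S in
theorem X_add (s t : F) : X (s + t) = X s * X t := by
  apply Subtype.ext
  rw [coe_mul']
  ext i j
  fin_cases i <;> fin_cases j <;> simp [X, mul_apply, Fin.sum_univ_two, add_comm]

omit S in
theorem Y_eq (t : F) : (Y t : SpecialLinearGroup (Fin 2) F) * W = W * X (-t) := by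
  apply Subtype.ext
  rw [coe_mul', coe_mul']
  ext i j
  fin_cases i <;> fin_cases j <;> simp [X, Y, W, mul_apply, Fin.sum_univ_two]

omit S in
theorem bruhat1 (g : SpecialLinearGroup (Fin 2) F) (hc : g.1 1 0 ≠ 0) :
    g = X (g.1 0 0 / g.1 1 0) * (X (-1 / g.1 1 0) * Y (g.1 1 0) * X (-1 / g.1 1 0)) * X (g.1 1 1 / g.1 1 0) := by
  have hdet : g.1 0 0 * g.1 1 1 - g.1 0 1 * g.1 1 0 = 1 := by rw [← det_fin_two]; exact g.2
  apply Subtype.ext
  simp only [coe_mul']
  ext i j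
  fin_cases i <;> fin_cases j <;> simp [X, Y, mul_apply, Fin.sum_univ_two] <;> field_simp <;>
    first | ring1 | linear_combination hdet | linear_combination (-1 : F) * hdet

omit S in
theorem bruhat2 (g : SpecialLinearGroup (Fin 2) F) (hc : g.1 1 0 = 0) :
    g = X (g.1 0 0 * g.1 0 1) * ((X (g.1 0 0) * Y (-(g.1 0 0)⁻¹) * X (g.1 0 0)) * (X (-1) * Y 1 * X (-1))) := by
  have hdet : g.1 0 0 * g.1 1 1 - g.1 0 1 * g.1 1 0 = 1 := by rw [← det_fin_two]; exact g.2
  rw [hc, mul_zero, sub_zero] at hdet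
  have ha0 : g.1 0 0 ≠ 0 := by rintro h; rw [h, zero_mul] at hdet; exact zero_ne_one hdet
  have hd : g.1 1 1 = (g.1 0 0)⁻¹ := by field_simp; linear_combination hdet
  apply Subtype.ext
  simp only [coe_mul']
  ext i j
  fin_cases i <;> fin_cases j <;> simp [X, Y, mul_apply, Fin.sum_univ_two, hc, hd] <;> field_simp <;> ring

theorem phi_one : phi x y 1 = 1 := by
  have e1 : (1 : SpecialLinearGroup (Fin 2) F).1 1 0 = 0 := by
    show (1 : Matrix (Fin 2) (Fin 2) F) 1 0 = 0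
    simp
  have e2 : (1 : SpecialLinearGroup (Fin 2) F).1 0 1 = 0 := by
    show (1 : Matrix (Fin 2) (Fin 2) F) 0 1 = 0
    simp
  have e3 : (1 : SpecialLinearGroup (Fin 2) F).1 0 0 = 1 := by
    show (1 : Matrix (Fin 2) (Fin 2) F) 0 0 = 1
    simp
  unfold phi
  rw [if_pos e1, e2, e3, mul_zero, S.x0, S.h1, mul_one]

/-- the homomorphism -/
theorem exists_hom (hm : ∀ t u : F, t ≠ 0 → u ≠ 0 → h x y (t * u) = h x y t * h x y u) :
    ∃ φ : SpecialLinearGroup (Fin 2) F →* Γ, (∀ t, φ (X t) = x t) ∧ (∀ t, φ (Y t) = y t) ∧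
      ∀ g, φ g = phi x y g := by
  let P : Subgroup (SpecialLinearGroup (Fin 2) F) :=
    { carrier := {g | ∀ k, phi x y (g * k) = phi x y g * phi x y k}
      one_mem' := fun k => by rw [one_mul, phi_one S, one_mul]
      mul_mem' := fun {g g'} hg hg' k => by
        rw [mul_assoc, hg, hg', hg, mul_assoc]
      inv_mem' := fun {g} hg k => by
        have h1 := hg (g⁻¹ * k)
        have h2 := hg g⁻¹
        rw [mul_inv_cancel, phi_one S] at h2
        rw [mul_inv_cancel_left] at h1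
        rw [h1, ← mul_assoc]
        have h3 : phi x y g⁻¹ = (phi x y g)⁻¹ := by
          rw [eq_inv_iff_mul_eq_one]
          have := h2.symm
          exact (mul_eq_one_iff_eq_inv.1 (mul_eq_one_comm.1 this)) ▸ (by simp)
        rw [h3]; simp }
  have hX0 : ∀ t, phi x y (X t) = x t := by
    intro t
    have := phi_X S t 1
    rwa [mul_one, phi_one S, mul_one] at this
  have hW0 : phi x y (W : SpecialLinearGroup (Fin 2) F) = w x y 1 := by
    have := phi_W S hm 1
    rwa [mul_one, phi_one S, mul_one] at this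
  have hX : ∀ t, X t ∈ P := fun t k => by rw [phi_X S, hX0]
  have hW : (W : SpecialLinearGroup (Fin 2) F) ∈ P := fun k => by rw [phi_W S hm, hW0]
  have hY : ∀ t, Y t ∈ P := by
    intro t
    have : (Y t : SpecialLinearGroup (Fin 2) F) = W * X (-t) * W⁻¹ := by
      rw [eq_mul_inv_iff_mul_eq, Y_eq]
    rw [this]
    exact P.mul_mem (P.mul_mem hW (hX _)) (P.inv_mem hW)
  have hall : ∀ g, g ∈ P := by
    intro g
    by_cases hc : g.1 1 0 = 0
    · rw [bruhat2 g hc]
      exact P.mul_mem (hX _) (P.mul_mem (P.mul_mem (P.mul_mem (hX _) (hY _)) (hX _)) (P.mul_mem (P.mul_mem (hX _) (hY _)) (hX _)))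
    · rw [bruhat1 g hc]
      exact P.mul_mem (P.mul_mem (hX _) (P.mul_mem (P.mul_mem (hX _) (hY _)) (hX _))) (hX _)
  refine ⟨MonoidHom.mk' (phi x y) fun g k => hall g k, hX0, ?_, fun g => rfl⟩
  intro t
  have h1 : phi x y (Y t * W) = phi x y (W * X (-t)) := by rw [Y_eq]
  rw [hall _ _, hall _ _, hX0, hW0] at h1
  have h2 := S.hw 1 (-t) one_ne_zero
  rw [h2] at h1
  have h3 := mul_right_cancel h1
  show phi x y (Y t) = y t
  rw [h3]; congr 1; ring

end hom

end CfsgLib.SL2Pres
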