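import Cfsg.Agent.LibH14RW
import Cfsg.Agent.LibH14SL2Pres

/-! Special rank one groups over prime fields (seat helper14). -/

set_option autoImplicit false

namespace CfsgLib.H14RX

open Cfsg CfsgLib.H14R1 CfsgLib.H14RS CfsgLib.H14RP CfsgLib.H14RW CfsgLib.SL2Pres Matrix

variable {G : Type*} [Group G] {A B : Subgroup G} {a c : G} {p : ℕ} [Fact p.Prime]

/-- powers with exponents in `ZMod p` -/
def pw (g : G) (t : ZMod p) : G := g ^ t.val

theorem pw_natCast {g : G} (hg : g ^ p = 1) (n : ℕ) : pw g (n : ZMod p) = g ^ n := by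
  unfold pw
  rw [ZMod.val_natCast]
  conv_rhs => rw [← Nat.mod_add_div n p, pow_add, pow_mul, hg, one_pow, mul_one]

theorem pw_add {g : G} (hg : g ^ p = 1) (s t : ZMod p) : pw g (s + t) = pw g s * pw g t := by
  have : s + t = ((s.val + t.val : ℕ) : ZMod p) := by
    rw [Nat.cast_add, ZMod.natCast_zmod_val, ZMod.natCast_zmod_val]
  rw [this, pw_natCast hg, pow_add]; rfl

theorem pw_mul {g : G} (hg : g ^ p = 1) (s t : ZMod p) : pw (pw g s) t = pw g (s * t) := by
  have : s * t = ((s.val * t.val : ℕ) : ZMod p) := by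
    rw [Nat.cast_mul, ZMod.natCast_zmod_val, ZMod.natCast_zmod_val]
  rw [this, pw_natCast hg, pow_mul]; rfl

theorem pw_zero (g : G) : pw g (0 : ZMod p) = 1 := by
  unfold pw; rw [ZMod.val_zero, pow_zero]

theorem pw_one (g : G) : pw g (1 : ZMod p) = g := by
  unfold pw
  haveI : Fact (1 < p) := ⟨(Fact.out : p.Prime).one_lt⟩
  rw [ZMod.val_one, pow_one]

theorem pw_neg {g : G} (hg : g ^ p = 1) (t : ZMod p) : pw g (-t) = (pw g t)⁻¹ := by
  rw [eq_inv_iff_mul_eq_one, ← pw_add hg]; simp [pw_zero]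

theorem pw_pow {g : G} (hg : g ^ p = 1) (t : ZMod p) : (pw g t) ^ p = 1 := by
  unfold pw; rw [← pow_mul, mul_comm, pow_mul, hg, one_pow]

theorem pw_eq_one {g : G} (hg : g ^ p = 1) (h1 : g ≠ 1) {t : ZMod p} (h : pw g t = 1) : t = 0 := by
  have ho : orderOf g = p := orderOf_eq_prime hg h1
  unfold pw at h
  have := orderOf_dvd_of_pow_eq_one h
  rw [ho] at this
  have h2 := Nat.eq_zero_of_dvd_of_lt this (ZMod.val_lt t)
  exact (ZMod.val_eq_zero t).1 h2

theorem pw_inj {g : G} (hg : g ^ p = 1) (h1 : g ≠ 1) {s t : ZMod p} (h : pw g s = pw g t) : s = t := by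
  have : pw g (s - t) = 1 := by
    rw [sub_eq_add_neg, pw_add hg, pw_neg hg, h, mul_inv_cancel]
  exact sub_eq_zero.1 (pw_eq_one hg h1 this)

theorem pw_conj (w g : G) (t : ZMod p) : w * pw g t * w⁻¹ = pw (w * g * w⁻¹) t := by
  unfold pw; rw [conj_pow]

theorem br_pw (hs : SP A B) (hA : ∀ x ∈ A, x ^ p = 1) (hb : Br A B a c) {t : ZMod p} (ht : t ≠ 0) :
    Br A B (pw a t) (pw c t⁻¹) := by
  have hap := hA a hb.ha
  have h1 : pw a t ≠ 1 := fun h => ht (pw_eq_one hap hb.ha1 h)
  obtain ⟨c', hc'⟩ := exists_br hs.h (pow_mem hb.ha t.val) h1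
  have hv : 1 ≤ t.val := by
    rw [Nat.one_le_iff_ne_zero, Ne, ZMod.val_eq_zero]; exact ht
  have h2 := pow_rel' hs hv hb h1 hc'
  have h3 : c' ^ p = 1 := (c_pow hc' p).2 (hA _ hc'.ha)
  have h4 : pw c t⁻¹ = c' := by
    rw [← h2]
    have : pw (pw c' t) t⁻¹ = c' := by
      rw [pw_mul h3, mul_inv_cancel₀ ht, pw_one]
    exact this
  rw [h4]; exact hc'

/-- the Steinberg relations -/
theorem st (hs : SP A B) (hA : ∀ x ∈ A, x ^ p = 1) (hb : Br A B a c) :
    St (fun t : ZMod p => pw a t) (fun t : ZMod p => pw c (-t)) := by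
  have hap := hA a hb.ha
  have hcp : c ^ p = 1 := (c_pow hb p).2 hap
  refine ⟨fun s t => pw_add hap s t, fun s t => by rw [neg_add, pw_add hcp], ?_⟩
  intro t u ht
  have h1 := br_pw hs hA hb ht
  have h2 := h1.conj_a
  unfold w
  simp only [neg_neg]
  set W := pw a t * pw c t⁻¹ * pw a t with hW
  rw [← mul_inv_eq_iff_eq_mul]
  have h3 : pw a u = pw (pw a t) (t⁻¹ * u) := by
    rw [pw_mul hap]; congr 1; field_simp
  rw [h3, pw_conj, h2, pw_mul hcp, mul_assoc]

/-- the homomorphism `SL₂(p) → G` -/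
theorem exists_phi (hs : SP A B) (hA : ∀ x ∈ A, x ^ p = 1) (hb : Br A B a c) :
    ∃ φ : SpecialLinearGroup (Fin 2) (ZMod p) →* G, (∀ t, φ (X t) = pw a t) ∧ (∀ t, φ (Y t) = pw c (-t)) ∧
      φ.range = Subgroup.closure {a, c} ∧ φ.ker ≤ Subgroup.center (SpecialLinearGroup (Fin 2) (ZMod p)) := by
  have S := st hs hA hb
  obtain ⟨φ, h1, h2, h3⟩ := exists_hom S (fun t u ht hu => S.h_mul t u ht hu)
  have hap := hA a hb.ha
  have hcp : c ^ p = 1 := (c_pow hb p).2 hap
  have hsw : ∀ t : ZMod p, t ≠ 0 → Sw A B (w (fun t : ZMod p => pw a t) (fun t : ZMod p => pw c (-t)) t) := by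
    intro t ht
    have := (br_pw hs hA hb ht).swap hs.h.1
    unfold w
    simpa using this
  refine ⟨φ, h1, h2, ?_, ?_⟩
  · apply le_antisymm
    · rintro _ ⟨g, rfl⟩
      have hac : a ∈ Subgroup.closure {a, c} := Subgroup.subset_closure (by simp)
      have hcc : c ∈ Subgroup.closure {a, c} := Subgroup.subset_closure (by simp)
      have hx : ∀ t : ZMod p, φ (X t) ∈ Subgroup.closure {a, c} := fun t => by rw [h1]; exact pow_mem hac _
      have hy : ∀ t : ZMod p, φ (Y t) ∈ Subgroup.closure {a, c} := fun t => by rw [h2]; exact pow_mem hcc _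
      by_cases hc : g.1 1 0 = 0
      · rw [bruhat2 g hc]
        simp only [map_mul]
        exact mul_mem (hx _) (mul_mem (mul_mem (mul_mem (hx _) (hy _)) (hx _)) (mul_mem (mul_mem (hx _) (hy _)) (hx _)))
      · rw [bruhat1 g hc]
        simp only [map_mul]
        exact mul_mem (mul_mem (hx _) (mul_mem (mul_mem (hx _) (hy _)) (hx _))) (hx _)
    · rw [Subgroup.closure_le]
      rintro z (rfl | rfl)
      · exact ⟨X 1, by rw [h1, pw_one]⟩
      · exact ⟨Y (-1), by rw [h2, neg_neg, pw_one]⟩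
  · intro g hg
    rw [MonoidHom.mem_ker] at hg
    have hg' := hg
    rw [h3] at hg'
    unfold phi at hg'
    have hdet : g.1 0 0 * g.1 1 1 - g.1 0 1 * g.1 1 0 = 1 := by rw [← det_fin_two]; exact g.2
    by_cases hc : g.1 1 0 = 0
    · rw [if_pos hc] at hg'
      rw [hc, mul_zero, sub_zero] at hdet
      have ha0 : g.1 0 0 ≠ 0 := by rintro h; rw [h, zero_mul] at hdet; exact zero_ne_one hdet
      -- `h` normalizes `A` and `B`
      have hBn : conjBy B (h (fun t : ZMod p => pw a t) (fun t : ZMod p => pw c (-t)) (g.1 0 0)) = B := by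
        unfold h
        rw [← cj_cj, (hsw (-1) (by simp)).2.2, (hsw _ ha0).2.1]
      have hxa : pw a (g.1 0 0 * g.1 0 1) = 1 := by
        refine not_normalize hs.h.1 (a := pw a (g.1 0 0 * g.1 0 1)) (pow_mem hb.ha _) ?_
        have e : pw a (g.1 0 0 * g.1 0 1) = (h (fun t : ZMod p => pw a t) (fun t : ZMod p => pw c (-t)) (g.1 0 0))⁻¹ :=
          mul_eq_one_iff_eq_inv.1 hg'
        rw [e, cj_inv_iff, inv_inv, hBn]
      have h01 : g.1 0 1 = 0 := by
        have := pw_eq_one hap hb.ha1 hxa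
        rcases mul_eq_zero.1 this with h | h
        · exact absurd h ha0
        · exact h
      replace hg' : pw a (g.1 0 0 * g.1 0 1) * h (fun t : ZMod p => pw a t) (fun t : ZMod p => pw c (-t)) (g.1 0 0) = 1 := hg'
      rw [hxa, one_mul] at hg'
      have hsq : g.1 0 0 * g.1 0 0 = 1 := by
        have h4 := S.h_x (g.1 0 0) 1 ha0
        rw [hg', one_mul, mul_one, mul_one] at h4
        exact (pw_inj hap hb.ha1 h4).symm
      rw [Matrix.SpecialLinearGroup.mem_center_iff]
      refine ⟨g.1 0 0, by rw [Fintype.card_fin, pow_two]; exact hsq, ?_⟩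
      have h11 : g.1 1 1 = g.1 0 0 := by
        have h5 : g.1 0 0 * g.1 1 1 = g.1 0 0 * g.1 0 0 := by rw [hdet, hsq]
        exact mul_left_cancel₀ ha0 h5
      have h01' : g 0 1 = 0 := h01
      have h10' : g 1 0 = 0 := hc
      have h11' : g 1 1 = g 0 0 := h11
      ext i j
      fin_cases i <;> fin_cases j <;> simp [h01', h10', h11', Matrix.scalar_apply]
    · exfalso
      rw [if_neg hc] at hg'
      have hc' : (-1 : ZMod p) / g.1 1 0 ≠ 0 := div_ne_zero (by simp) hc
      have hw := hsw _ hc'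
      set wt := w (fun t : ZMod p => pw a t) (fun t : ZMod p => pw c (-t)) (-1 / g.1 1 0) with hwt
      have hwA : wt ∈ A := by
        have e : wt = (pw a (g.1 0 0 / g.1 1 0))⁻¹ * (pw a (g.1 1 1 / g.1 1 0))⁻¹ := by
          rw [eq_mul_inv_iff_mul_eq, eq_comm, inv_eq_iff_mul_eq_one, ← mul_assoc]; exact hg'
        rw [e]
        exact mul_mem (inv_mem (pow_mem hb.ha _)) (inv_mem (pow_mem hb.ha _))
      have h4 := hw.2.1
      rw [cj_of_mem hwA] at h4
      exact hs.h.1.ne h4

/-- S5022 -/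
theorem iso (hs : SP A B) (hA : ∀ x ∈ A, x ^ p = 1) (hb : Br A B a c) :
    Nonempty (↥(Subgroup.closure ({a, c} : Set G)) ≃* SpecialLinearGroup (Fin 2) (ZMod p)) ∨
    Nonempty (↥(Subgroup.closure ({a, c} : Set G)) ≃* ProjectiveSpecialLinearGroup (Fin 2) (ZMod p)) := by
  obtain ⟨φ, -, -, hr, hk⟩ := exists_phi hs hA hb
  have e1 : SpecialLinearGroup (Fin 2) (ZMod p) ⧸ φ.ker ≃* ↥(Subgroup.closure ({a, c} : Set G)) :=
    (QuotientGroup.quotientKerEquivRange φ).trans (MulEquiv.subgroupCongr hr)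
  by_cases h0 : φ.ker = ⊥
  · left
    refine ⟨e1.symm.trans ?_⟩
    exact (QuotientGroup.quotientMulEquivOfEq h0).trans QuotientGroup.quotientBot
  · right
    have h1 : φ.ker = Subgroup.center (SpecialLinearGroup (Fin 2) (ZMod p)) := by
      apply le_antisymm hk
      obtain ⟨z, hz, hz1⟩ := exists_ne_one h0
      -- center elements are ±1
      have cen : ∀ g ∈ Subgroup.center (SpecialLinearGroup (Fin 2) (ZMod p)), g = 1 ∨ g = -1 := by
        intro g hg
        rw [Matrix.SpecialLinearGroup.mem_center_iff] at hg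
        obtain ⟨r, hr, e⟩ := hg
        rw [Fintype.card_fin, pow_two] at hr
        rcases mul_self_eq_one_iff.1 hr with h | h
        · left
          apply Subtype.ext
          rw [h, map_one] at e
          exact e.symm
        · right
          apply Subtype.ext
          rw [h, map_neg, map_one] at e
          exact e.symm
      intro g hg
      rcases cen g hg with h | h
      · rw [h]; exact one_mem _
      · rcases cen z (hk hz) with h' | h'
        · exact absurd h' hz1
        · rw [h, ← h']; exact hz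
    exact ⟨e1.symm.trans (QuotientGroup.quotientMulEquivOfEq h1)⟩

end CfsgLib.H14RX
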