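import Mathlib
import Cfsg.Agent.LibAschSL1H13
import Cfsg.Agent.LibUn29d
import Cfsg.Agent.LibAschNumH13

/-! The special unitary group is not contained in geometric subgroups (seat helper14). -/

set_option autoImplicit false

namespace CfsgLib.H14SU1

open Module Cfsg Cfsg.Geo CfsgLib.MaxTv29 CfsgLib.Un29
open scoped Matrix MatrixGroups Kronecker

variable {ι : Type} [Fintype ι] [DecidableEq ι] {F : Type*} [Field F] [Fintype F] {σ : F ≃+* F}
  {f : (ι → F) → (ι → F) → F}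

omit [Fintype F] in
/-- all unitary transvections lie in `M` -/
def TM (hf : IsUnitaryForm σ f) (M : Subgroup (GL ι F)) : Prop :=
  ∀ v c, f v v = 0 → σ c = -c → ut hf v c ∈ M

omit [Fintype F] in
theorem tm_of_le (hf : IsUnitaryForm σ f) {M : Subgroup (GL ι F)} (h : iso f ⊓ specialLinear ι F ≤ M) : TM hf M :=
  fun v c hv hc => h ⟨ut_mem_iso hf hv hc, ut_mem_special hf v c⟩

theorem rich_top (hf : IsUnitaryForm σ f) (hn : 3 ≤ Fintype.card ι) : Rich f (⊤ : Submodule F (ι → F)) := by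
  have h := rich_perp hf ⊥ (by rw [finrank_bot]; omega)
  have e : perp hf ⊥ = ⊤ := by
    rw [eq_top_iff]
    intro x _ w hw
    rw [(Submodule.mem_bot F).1 hw]
    exact zero_left hf x
  rwa [e] at h

theorem exists_move (hf : IsUnitaryForm σ f) (hn : 3 ≤ Fintype.card ι) {W : Submodule F (ι → F)} (h0 : W ≠ ⊥) (h1 : W ≠ ⊤) :
    ∃ e, f e e = 0 ∧ e ∉ W ∧ ∃ w ∈ W, f w e ≠ 0 := by
  obtain ⟨e, -, he, h2, h3⟩ := Rich.avoid hf (rich_top hf hn) (A := W) (B := perp hf W) (by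
    intro h; exact h1 (top_le_iff.1 h)) (by
    intro h
    obtain ⟨w, hw, hw0⟩ := (Submodule.ne_bot_iff _).1 h0
    obtain ⟨-, x, hx⟩ := hf.nondegenerate w hw0
    exact hx (h Submodule.mem_top w hw))
  refine ⟨e, he, h2, ?_⟩
  by_contra hcon
  push Not at hcon
  exact h3 hcon

theorem exists_iso (hf : IsUnitaryForm σ f) (hn : 3 ≤ Fintype.card ι) : ∃ e : ι → F, f e e = 0 ∧ e ≠ 0 := by
  obtain ⟨e, -, he, h2⟩ := rich_top hf hn ⊥ (by
    intro h
    have h3 : (⊤ : Submodule F (ι → F)) = ⊥ := le_bot_iff.1 h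
    have h4 : finrank F (⊤ : Submodule F (ι → F)) = 0 := by rw [h3, finrank_bot]
    rw [finrank_top, Module.finrank_fintype_fun_eq_card] at h4
    omega)
  exact ⟨e, he, fun h => h2 (by rw [h]; exact zero_mem _)⟩

omit [Fintype F] in
theorem mem_stab {W : Submodule F (ι → F)} {g : GL ι F} : g ∈ subspaceStabilizer W ↔ ∀ v, v ∈ W ↔ (g : Matrix ι ι F) *ᵥ v ∈ W := Iff.rfl

theorem not_tm_red (hf : IsUnitaryForm σ f) (hn : 3 ≤ Fintype.card ι) {W : Submodule F (ι → F)} (h0 : W ≠ ⊥) (h1 : W ≠ ⊤) :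
    ¬ TM hf (subspaceStabilizer W) := by
  intro h
  obtain ⟨e, he, h2, w, hw, h3⟩ := exists_move hf hn h0 h1
  obtain ⟨δ, hδ, hδ'⟩ := exists_skew hf
  have h4 := (mem_stab.1 (h e δ he hδ') w).1 hw
  rw [ut_mulVec hf he] at h4
  have h5 : (δ * f w e) • e ∈ W := by
    have := W.sub_mem h4 hw
    rwa [add_sub_cancel_left] at this
  exact h2 ((Submodule.smul_mem_iff W (mul_ne_zero hδ h3)).1 h5)

theorem not_tm_dec (hf : IsUnitaryForm σ f) (hn : 3 ≤ Fintype.card ι) {t m : ℕ} {D : Fin t → Submodule F (ι → F)}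
    (hD : IsMDecomposition m D) (hm : 2 ≤ m) : ¬ TM hf (decompositionStabilizer D) := by
  intro h
  have ht := hD.two_le
  have hdis := hD.indep.pairwiseDisjoint
  have hne : ∀ i, D i ≠ ⊥ := by
    intro i e
    have := hD.finrank_eq i
    rw [e, finrank_bot] at this
    omega
  have i0 : Fin t := ⟨0, by omega⟩
  have hex : ∃ j : Fin t, j ≠ i0 := by
    haveI : Nontrivial (Fin t) := Fin.nontrivial_iff_two_le.2 ht
    exact exists_ne i0
  obtain ⟨j, hj⟩ := hex
  have htop : D i0 ≠ ⊤ := by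
    intro e
    have h1 : Disjoint (D j) (D i0) := hdis hj
    rw [e, disjoint_top] at h1
    exact hne j h1
  obtain ⟨e, he, h2, w, hw, h3⟩ := exists_move hf hn (hne i0) htop
  obtain ⟨δ, hδ, hδ'⟩ := exists_skew hf
  obtain ⟨π, hπ⟩ := h e δ he hδ'
  have hfix : π i0 = i0 := by
    by_contra hcon
    have hker : LinearMap.ker ((fd hf e).domRestrict (D i0)) ≠ ⊥ := by
      apply LinearMap.ker_ne_bot_of_finrank_lt
      rw [Module.finrank_self, hD.finrank_eq]; omega
    obtain ⟨x, hx, hx0⟩ := (Submodule.ne_bot_iff _).1 hker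
    have hxe : f x e = 0 := hx
    have h4 : (x : ι → F) ∈ D (π i0) := by
      rw [← hπ i0]
      refine ⟨x, x.2, ?_⟩
      rw [Matrix.toLin'_apply, ut_fix hf he δ hxe]
    have h5 : Disjoint (D (π i0)) (D i0) := hdis hcon
    have := Submodule.disjoint_def.1 h5 x h4 x.2
    exact hx0 (Subtype.ext this)
  have h4 : ((ut hf e δ : GL ι F) : Matrix ι ι F) *ᵥ w ∈ D i0 := by
    have := hπ i0
    rw [hfix] at this
    rw [← this]
    exact ⟨w, hw, Matrix.toLin'_apply _ _⟩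
  rw [ut_mulVec hf he] at h4
  have h5 : (δ * f w e) • e ∈ D i0 := by
    have := (D i0).sub_mem h4 hw
    rwa [add_sub_cancel_left] at this
  exact h2 ((Submodule.smul_mem_iff _ (mul_ne_zero hδ h3)).1 h5)

omit [Fintype F] in
/-- commuting with a transvection -/
theorem eig_of_comm (hf : IsUnitaryForm σ f) {e : ι → F} (he : f e e = 0) (he0 : e ≠ 0) {c : F} (hc : c ≠ 0) {x : Matrix ι ι F}
    (h : (ut hf e c : Matrix ι ι F) * x = x * (ut hf e c : Matrix ι ι F)) : ∃ a : F, x *ᵥ e = a • e := by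
  obtain ⟨⟨y, hy⟩, -⟩ := hf.nondegenerate e he0
  have h1 := congrArg (fun m => m *ᵥ y) h
  simp only [← Matrix.mulVec_mulVec] at h1
  rw [ut_mulVec hf he, ut_mulVec hf he, Matrix.mulVec_add, Matrix.mulVec_smul, add_right_inj] at h1
  refine ⟨(c * f y e)⁻¹ * (c * f (x *ᵥ y) e), ?_⟩
  rw [mul_smul, h1, smul_smul, inv_mul_cancel₀ (mul_ne_zero hc hy), one_smul]

theorem scalar_of_comm (hf : IsUnitaryForm σ f) (hn : 3 ≤ Fintype.card ι) {c : F} (hc : c ≠ 0) {x : Matrix ι ι F}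
    (h : ∀ e, f e e = 0 → (ut hf e c : Matrix ι ι F) * x = x * (ut hf e c : Matrix ι ι F)) :
    ∃ a : F, x = a • (1 : Matrix ι ι F) := by
  obtain ⟨e, he, he0⟩ := exists_iso hf hn
  obtain ⟨a, ha⟩ := eig_of_comm hf he he0 hc (h e he)
  let W : Submodule F (ι → F) := LinearMap.ker (Matrix.toLin' x - a • LinearMap.id)
  have hW : ∀ v, v ∈ W ↔ x *ᵥ v = a • v := by
    intro v
    rw [LinearMap.mem_ker, LinearMap.sub_apply, Matrix.toLin'_apply, LinearMap.smul_apply, LinearMap.id_apply, sub_eq_zero]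
  have h0 : W ≠ ⊥ := by
    intro e'
    have : e ∈ W := (hW e).2 ha
    rw [e'] at this
    exact he0 ((Submodule.mem_bot F).1 this)
  have h1 : W = ⊤ := by
    by_contra h1
    obtain ⟨e', he', h2, w, hw, h3⟩ := exists_move hf hn h0 h1
    have h4 := congrArg (fun m => m *ᵥ w) (h e' he')
    simp only [← Matrix.mulVec_mulVec] at h4
    rw [ut_mulVec hf he', ut_mulVec hf he', Matrix.mulVec_add, Matrix.mulVec_smul, add_right_inj, (hW w).1 hw, hf.smul_left] at h4
    apply h2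
    rw [hW]
    have h5 : c * f w e' ≠ 0 := mul_ne_zero hc h3
    have h6 : (c * f w e') • (x *ᵥ e') = (c * f w e') • (a • e') := by
      rw [← h4, smul_smul]; congr 1; ring
    exact smul_right_injective _ h5 h6
  refine ⟨a, ?_⟩
  apply Matrix.ext_of_mulVec_single
  intro i
  have : (Pi.single i 1 : ι → F) ∈ W := by rw [h1]; trivial
  rw [(hW _).1 this, Matrix.smul_mulVec, Matrix.one_mulVec]

theorem not_tm_fld (hf : IsUnitaryForm σ f) (hn : 3 ≤ Fintype.card ι) {r : ℕ} {K : Subalgebra F (Matrix ι ι F)} (hr : r.Prime)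
    (hK : IsFieldSubalgebra r K) : ¬ TM hf (subalgebraNormalizer K) := by
  intro h
  obtain ⟨δ, hδ, hδ'⟩ := exists_skew hf
  have key : ∀ x ∈ K, ∃ a : F, x = a • (1 : Matrix ι ι F) := by
    intro x hx
    apply scalar_of_comm hf hn hδ
    intro e he
    set T := ut hf e δ with hT
    have h1 : (T : Matrix ι ι F) * x * ((T⁻¹ : GL ι F) : Matrix ι ι F) ∈ K := (h e δ he hδ' x).1 hx
    set Δ : Matrix ι ι F := (T : Matrix ι ι F) * x * ((T⁻¹ : GL ι F) : Matrix ι ι F) - x with hΔ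
    have hΔK : Δ ∈ K := K.sub_mem h1 hx
    have h0 : Δ = 0 := by
      by_contra hne
      obtain ⟨y, hy, hxy⟩ := hK.inv Δ hΔK hne
      have hyx : y * Δ = 1 := by rw [← hK.comm Δ hΔK y hy]; exact hxy
      obtain ⟨v, hv0, hv1, hv2⟩ := CfsgLib.AschSL1.exists_ker2 hn (fd hf e) ((fd hf e).comp (Matrix.toLin' x))
      have hv2' : f (x *ᵥ v) e = 0 := hv2
      have h3 : Δ *ᵥ v = 0 := by
        rw [hΔ, Matrix.sub_mulVec, ← Matrix.mulVec_mulVec, ← Matrix.mulVec_mulVec, hT, ut_inv hf he,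
          ut_fix hf he _ hv1, ut_fix hf he _ hv2', sub_self]
      apply hv0
      rw [← Matrix.one_mulVec v, ← hyx, ← Matrix.mulVec_mulVec, h3, Matrix.mulVec_zero]
    have h2 : (T : Matrix ι ι F) * x * ((T⁻¹ : GL ι F) : Matrix ι ι F) = x := sub_eq_zero.1 h0
    calc (T : Matrix ι ι F) * x = (T : Matrix ι ι F) * x * (((T⁻¹ : GL ι F) : Matrix ι ι F) * (T : Matrix ι ι F)) := by
          rw [← Units.val_mul, inv_mul_cancel, Units.val_one, mul_one]
      _ = x * (T : Matrix ι ι F) := by rw [← mul_assoc, h2]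
  have hbot : K = ⊥ := by
    rw [eq_bot_iff]
    intro x hx
    obtain ⟨a, ha⟩ := key x hx
    rw [Algebra.mem_bot]
    exact ⟨a, by rw [ha, Algebra.algebraMap_eq_smul_one]⟩
  have h1 := hK.finrank_eq
  haveI : Nonempty ι := Fintype.card_pos_iff.1 (by omega)
  rw [hbot, Subalgebra.finrank_bot] at h1
  exact hr.one_lt.ne h1

end CfsgLib.H14SU1
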