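import Cfsg.Agent.LibH14SU9

/-! Special unitary groups in dimension four: properness (seat helper14). -/

set_option autoImplicit false

namespace CfsgLib.H14SU

open Module Cfsg Cfsg.Geo CfsgLib.MaxTv29 CfsgLib.Un29 CfsgLib.H14SU1
open scoped Matrix MatrixGroups Kronecker

section a
variable {ι : Type} [Fintype ι] [DecidableEq ι] {F : Type*} [Field F] [Fintype F] {σ : F ≃+* F}
  {f : (ι → F) → (ι → F) → F}

/-- the fixed field of an involution -/
def fixF (σ : F ≃+* F) : Subfield F where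
  carrier := {x | σ x = x}
  mul_mem' := by intro a b ha hb; show σ (a * b) = a * b; rw [map_mul, ha, hb]
  one_mem' := map_one σ
  add_mem' := by intro a b ha hb; show σ (a + b) = a + b; rw [map_add, ha, hb]
  zero_mem' := map_zero σ
  neg_mem' := by intro a ha; show σ (-a) = -a; rw [map_neg, ha]
  inv_mem' := by intro a ha; show σ a⁻¹ = a⁻¹; rw [map_inv₀, ha]

omit [Fintype F] in
theorem mem_fixF {x : F} : x ∈ fixF σ ↔ σ x = x := Iff.rfl

theorem card_fixF (hf : IsUnitaryForm σ f) {q : ℕ} (hF : Fintype.card F = q ^ 2) : Nat.card (fixF σ) = q := by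
  have h := CfsgLib.AschF.card_fix hf.ne_refl hf.involutive (fixF σ) (fun x => mem_fixF)
  rw [Nat.card_eq_fintype_card, hF] at h
  exact (Nat.pow_left_injective (by norm_num : 2 ≠ 0) h).symm

theorem exists_real (hf : IsUnitaryForm σ f) {q : ℕ} (hF : Fintype.card F = q ^ 2) (hq : 4 ≤ q) :
    ∃ a : F, σ a = a ∧ a ≠ 0 ∧ a ^ 2 ≠ 1 := by
  classical
  by_contra hcon
  push Not at hcon
  have h1 : ∀ a : fixF σ, (a : F) ∈ ({0, 1, -1} : Finset F) := by
    rintro ⟨a, ha⟩
    by_cases h0 : a = 0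
    · simp [h0]
    · have h5 : a * a = 1 := by rw [← pow_two]; exact hcon a ha h0
      rcases mul_self_eq_one_iff.1 h5 with h | h
      · simp [h]
      · simp [h]
  have h2 : Nat.card (fixF σ) ≤ 3 := by
    have hinj : Function.Injective (fun a : fixF σ => (⟨(a : F), h1 a⟩ : ({0, 1, -1} : Finset F))) := by
      intro a b hab
      simp only [Subtype.mk.injEq] at hab
      exact Subtype.ext hab
    have h3 := Nat.card_le_card_of_injective _ hinj
    rw [Nat.card_eq_fintype_card (α := ({0, 1, -1} : Finset F)), Fintype.card_coe] at h3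
    exact h3.trans Finset.card_le_three
  rw [card_fixF hf hF] at h2
  omega

end a

theorem trace_two {ι : Type} [Fintype ι] [DecidableEq ι] {F : Type*} [Field F] {σ : F ≃+* F}
    {f : (ι → F) → (ι → F) → F} (hf : IsUnitaryForm σ f) (e : ι → F) (x : GL ι F) :
    (Nu hf e * (x : Matrix ι ι F) * Nu hf e * ((x⁻¹ : GL ι F) : Matrix ι ι F)).trace =
      f ((x : Matrix ι ι F) *ᵥ e) e * f (((x⁻¹ : GL ι F) : Matrix ι ι F) *ᵥ e) e := by
  rw [Nu, Matrix.vecMulVec_mul, Matrix.vecMulVec_mul_vecMulVec, Matrix.vecMulVec_mul, Matrix.trace_vecMulVec]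
  rw [← Matrix.dotProduct_mulVec, dv_dot, fd_apply, Matrix.smul_vecMul, dotProduct_smul, dotProduct_comm, ← Matrix.dotProduct_mulVec,
    dv_dot, fd_apply, smul_eq_mul]

/-- the special unitary group in dimension four over the field with nine elements -/
theorem not_tm_st43 {F : Type*} [Field F] [Fintype F] (hF : Fintype.card F = 9) {σ : F ≃+* F}
    {f : (Fin 4 → F) → (Fin 4 → F) → F} (hf : IsUnitaryForm σ f) (hσ : ∀ x, σ x = x ^ 3)
    {R : Subgroup (GL (Fin 4) F)} (hp : IsPGroup 2 R) (hR : ActsAbsolutelyIrreducibly (matrixSet R)) (hiso : R ≤ iso f) :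
    ¬ TM hf (subgroupNormalizer R) := by
  intro h
  have hn : 3 ≤ Fintype.card (Fin 4) := by simp
  obtain ⟨δ, hδ, hδ'⟩ := exists_skew hf
  obtain ⟨x, hx, hxs, hxp, hxc⟩ := exists_second (by simp) Nat.prime_two hp hR
  have h3 : (3 : F) = 0 := by
    have h1 := Nat.cast_card_eq_zero F
    rw [hF] at h1
    have h2 : ((9 : ℕ) : F) = 3 * 3 := by norm_num
    rw [h2] at h1
    exact mul_self_eq_zero.1 h1
  have h2ne : (2 : F) ≠ 0 := by
    intro h2
    have : (1 : F) = 0 := by linear_combination h3 - h2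
    exact one_ne_zero this
  have hxi := hiso hx
  -- isotropic vectors with f(xe,e) = 0 are eigenvectors
  have key : ∀ e, f e e = 0 → e ≠ 0 → f ((x : Matrix (Fin 4) (Fin 4) F) *ᵥ e) e = 0 → ∃ a : F, (x : Matrix (Fin 4) (Fin 4) F) *ᵥ e = a • e := by
    intro e he he0 hxe
    rcases st_step hf hn hx hR hxc he (h e δ he hδ') with h1 | ⟨-, h1⟩
    · exact eig_of_comm hf he he0 hδ h1
    · exfalso
      rw [trace_two, hxe, zero_mul, mul_zero, Fintype.card_fin] at h1
      have : (1 : F) = 0 := by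
        have h4 : ((4 : ℕ) : F) = 3 + 1 := by norm_num
        rw [h4, h3, zero_add] at h1
        exact h1
      exact one_ne_zero this
  -- the square of x
  obtain ⟨s, hs⟩ := (mem_scalars_iff _).1 hxp
  have hxx : (x : Matrix (Fin 4) (Fin 4) F) * (x : Matrix (Fin 4) (Fin 4) F) = (s : F) • 1 := by
    rw [← hs, pow_two, Units.val_mul]
  have hsN : (s : F) * σ s = 1 := by
    obtain ⟨u, v, z, hu, hv, huv, -⟩ := exists_hyp hf hn
    have h1 : f ((x : Matrix (Fin 4) (Fin 4) F) *ᵥ ((x : Matrix (Fin 4) (Fin 4) F) *ᵥ u)) ((x : Matrix (Fin 4) (Fin 4) F) *ᵥ ((x : Matrix (Fin 4) (Fin 4) F) *ᵥ v)) = 1 := by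
      rw [(mem_iso x).1 hxi, (mem_iso x).1 hxi, huv]
    rw [Matrix.mulVec_mulVec, Matrix.mulVec_mulVec, hxx, Matrix.smul_mulVec, Matrix.smul_mulVec, Matrix.one_mulVec, Matrix.one_mulVec,
      hf.smul_left, smul_right hf, huv, mul_one] at h1
    exact h1
  obtain ⟨l, hl⟩ : IsSquare (s : F) := by
    rw [FiniteField.isSquare_iff (by
      intro h
      have := CharP.cast_eq_zero F (ringChar F)
      rw [h] at this
      exact h2ne (by exact_mod_cast this)) s.ne_zero, hF]
    rw [hσ] at hsN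
    rw [← hsN]; ring
  have hl0 : l ≠ 0 := by
    rintro rfl
    rw [mul_zero] at hl
    exact s.ne_zero hl
  have hNl : l * σ l = 1 ∨ l * σ l = -1 := by
    have h1 : (l * σ l) * (l * σ l) = 1 := by
      rw [hl, map_mul] at hsN
      linear_combination hsN
    exact mul_self_eq_one_iff.1 h1
  -- eigenspaces
  let Vp : Submodule F (Fin 4 → F) := LinearMap.ker (Matrix.toLin' (x : Matrix (Fin 4) (Fin 4) F) - l • LinearMap.id)
  let Vm : Submodule F (Fin 4 → F) := LinearMap.ker (Matrix.toLin' (x : Matrix (Fin 4) (Fin 4) F) + l • LinearMap.id)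
  have hVp : ∀ v, v ∈ Vp ↔ (x : Matrix (Fin 4) (Fin 4) F) *ᵥ v = l • v := by
    intro v
    rw [LinearMap.mem_ker, LinearMap.sub_apply, Matrix.toLin'_apply, LinearMap.smul_apply, LinearMap.id_apply, sub_eq_zero]
  have hVm : ∀ v, v ∈ Vm ↔ (x : Matrix (Fin 4) (Fin 4) F) *ᵥ v = -(l • v) := by
    intro v
    rw [LinearMap.mem_ker, LinearMap.add_apply, Matrix.toLin'_apply, LinearMap.smul_apply, LinearMap.id_apply, add_eq_zero_iff_eq_neg]
  have hdec : ∀ v : Fin 4 → F, ∃ a ∈ Vp, ∃ b ∈ Vm, v = a + b := by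
    intro v
    refine ⟨(2 * l)⁻¹ • ((x : Matrix (Fin 4) (Fin 4) F) *ᵥ v + l • v), ?_, (2 * l)⁻¹ • (l • v - (x : Matrix (Fin 4) (Fin 4) F) *ᵥ v), ?_, ?_⟩
    · rw [hVp, Matrix.mulVec_smul, Matrix.mulVec_add, Matrix.mulVec_mulVec, hxx, Matrix.smul_mulVec, Matrix.one_mulVec, Matrix.mulVec_smul,
        hl, smul_comm l (2 * l)⁻¹, smul_add l, smul_smul l l, add_comm]
    · rw [hVm, Matrix.mulVec_smul, Matrix.mulVec_sub, Matrix.mulVec_mulVec, hxx, Matrix.smul_mulVec, Matrix.one_mulVec, Matrix.mulVec_smul,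
        hl, smul_comm l (2 * l)⁻¹, smul_sub l, smul_smul l l, ← smul_neg, neg_sub]
    · rw [← smul_add]
      have : (x : Matrix (Fin 4) (Fin 4) F) *ᵥ v + l • v + (l • v - (x : Matrix (Fin 4) (Fin 4) F) *ᵥ v) = (2 * l) • v := by
        rw [two_mul, add_smul]; abel
      rw [this, smul_smul, inv_mul_cancel₀ (mul_ne_zero h2ne hl0), one_smul]
  have hdisj : Disjoint Vp Vm := by
    rw [Submodule.disjoint_def]
    intro v hv hv'
    rw [hVp] at hv
    rw [hVm, hv, eq_neg_iff_add_eq_zero, ← add_smul] at hv'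
    exact (smul_eq_zero.1 hv').resolve_left (by rw [← two_mul]; exact mul_ne_zero h2ne hl0)
  have hsup : Vp ⊔ Vm = ⊤ := by
    rw [eq_top_iff]
    intro v _
    obtain ⟨a, ha, b, hb, rfl⟩ := hdec v
    exact Submodule.add_mem_sup ha hb
  have hxsc : ¬ ∀ v, (x : Matrix (Fin 4) (Fin 4) F) *ᵥ v = l • v := by
    intro hall
    apply hxs
    rw [mem_scalars_iff]
    refine ⟨Units.mk0 l hl0, ?_⟩
    apply Matrix.ext_of_mulVec_single
    intro i
    rw [hall, Units.val_mk0, Matrix.smul_mulVec, Matrix.one_mulVec]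
  have hxsc' : ¬ ∀ v, (x : Matrix (Fin 4) (Fin 4) F) *ᵥ v = -(l • v) := by
    intro hall
    apply hxs
    rw [mem_scalars_iff]
    refine ⟨Units.mk0 (-l) (neg_ne_zero.2 hl0), ?_⟩
    apply Matrix.ext_of_mulVec_single
    intro i
    rw [hall, Units.val_mk0, Matrix.smul_mulVec, Matrix.one_mulVec, neg_smul]
  have hVp0 : Vp ≠ ⊥ := by
    intro e
    apply hxsc'
    intro v
    rw [← hVm]
    have : Vm = ⊤ := by rw [← hsup, e, bot_sup_eq]
    rw [this]; trivial
  have hVm0 : Vm ≠ ⊥ := by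
    intro e
    apply hxsc
    intro v
    rw [← hVp]
    have : Vp = ⊤ := by rw [← hsup, e, sup_bot_eq]
    rw [this]; trivial
  -- swapping the eigenspaces
  obtain ⟨z, hz, hzx⟩ : ∃ z ∈ R, z * x ≠ x * z := by
    by_contra hcon
    push Not at hcon
    exact hxs (scalar_of_absirr hR hcon)
  obtain ⟨t, ht, htz⟩ := hxc z hz
  obtain ⟨a, ha⟩ := (mem_scalars_iff t).1 ht
  have ha1 : (a : F) ≠ 1 := by
    intro h1
    apply hzx
    rw [htz]
    have : t = 1 := Units.ext (by rw [ha, h1, one_smul, Units.val_one])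
    rw [this, one_mul]
  have hmat : (z : Matrix (Fin 4) (Fin 4) F) * (x : Matrix (Fin 4) (Fin 4) F) = (a : F) • ((x : Matrix (Fin 4) (Fin 4) F) * (z : Matrix (Fin 4) (Fin 4) F)) := by
    rw [← Units.val_mul, htz, Units.val_mul, ha, Units.val_mul]; simp
  have hzinj : Function.Injective (Matrix.toLin' (z : Matrix (Fin 4) (Fin 4) F)) := by
    intro u v huv
    simp only [Matrix.toLin'_apply] at huv
    rw [← Matrix.one_mulVec u, ← Matrix.one_mulVec v, ← Units.val_one, ← inv_mul_cancel z, Units.val_mul, ← Matrix.mulVec_mulVec,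
      ← Matrix.mulVec_mulVec, huv]
  have hzv : ∀ v, (a : F) • ((x : Matrix (Fin 4) (Fin 4) F) *ᵥ ((z : Matrix (Fin 4) (Fin 4) F) *ᵥ v)) =
      (z : Matrix (Fin 4) (Fin 4) F) *ᵥ ((x : Matrix (Fin 4) (Fin 4) F) *ᵥ v) := by
    intro v
    have := congrArg (fun m => m *ᵥ v) hmat
    simp only [Matrix.smul_mulVec, ← Matrix.mulVec_mulVec] at this
    exact this.symm
  have ham : (a : F) = -1 := by
    obtain ⟨v, hv, hv0⟩ := (Submodule.ne_bot_iff _).1 hVp0
    have h1 := hzv v
    rw [(hVp v).1 hv, Matrix.mulVec_smul] at h1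
    set w := (z : Matrix (Fin 4) (Fin 4) F) *ᵥ v with hw
    have hw0 : w ≠ 0 := by
      intro h0
      apply hv0
      apply hzinj
      rw [map_zero, Matrix.toLin'_apply, ← hw, h0]
    have h2 : (x : Matrix (Fin 4) (Fin 4) F) *ᵥ ((x : Matrix (Fin 4) (Fin 4) F) *ᵥ w) = (s : F) • w := by
      rw [Matrix.mulVec_mulVec, hxx, Matrix.smul_mulVec, Matrix.one_mulVec]
    have h4 : (x : Matrix (Fin 4) (Fin 4) F) *ᵥ w = ((a : F)⁻¹ * l) • w := by
      rw [mul_smul, ← h1, smul_smul, inv_mul_cancel₀ a.ne_zero, one_smul]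
    rw [h4, Matrix.mulVec_smul, h4, smul_smul] at h2
    have h5 : ((a : F)⁻¹ * l) * ((a : F)⁻¹ * l) = s := smul_left_injective F hw0 h2
    rw [hl] at h5
    have h6 : (a : F)⁻¹ * (a : F)⁻¹ = 1 := by
      have h7 : ((a : F)⁻¹ * (a : F)⁻¹ - 1) * (l * l) = 0 := by linear_combination h5
      exact sub_eq_zero.1 ((mul_eq_zero.1 h7).resolve_right (mul_ne_zero hl0 hl0))
    rcases mul_self_eq_one_iff.1 h6 with h7 | h7
    · exact absurd (inv_eq_one.1 h7) ha1
    · rw [← inv_inv (a : F), h7]; norm_num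
  have hzp : Vp.map (Matrix.toLin' (z : Matrix (Fin 4) (Fin 4) F)) ≤ Vm := by
    rintro _ ⟨v, hv, rfl⟩
    rw [hVm, Matrix.toLin'_apply]
    have h1 := hzv v
    rw [(hVp v).1 hv, Matrix.mulVec_smul, ham, neg_smul, one_smul] at h1
    rw [← h1, neg_neg]
  have hzm : Vm.map (Matrix.toLin' (z : Matrix (Fin 4) (Fin 4) F)) ≤ Vp := by
    rintro _ ⟨v, hv, rfl⟩
    rw [hVp, Matrix.toLin'_apply]
    have h1 := hzv v
    rw [(hVm v).1 hv, Matrix.mulVec_neg, Matrix.mulVec_smul, ham, neg_smul, one_smul] at h1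
    exact neg_injective h1
  have hdim := Submodule.finrank_sup_add_finrank_inf_eq Vp Vm
  rw [hsup, disjoint_iff.1 hdisj, finrank_bot, finrank_top, Module.finrank_fintype_fun_eq_card, Fintype.card_fin] at hdim
  have hle1 := Submodule.finrank_mono hzp
  have hle2 := Submodule.finrank_mono hzm
  rw [← (Submodule.equivMapOfInjective _ hzinj Vp).finrank_eq] at hle1
  rw [← (Submodule.equivMapOfInjective _ hzinj Vm).finrank_eq] at hle2
  have hp2 : finrank F Vp = 2 := by omega
  have hm2 : finrank F Vm = 2 := by omega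
  -- final contradiction from a pair
  have fin : ∀ ep ∈ Vp, ∀ em ∈ Vm, ep ≠ 0 → em ≠ 0 → f ep ep = 0 → f em em = 0 → f ep em = 0 → False := by
    intro ep hep em hem hep0 hem0 h1 h2 h4
    have h5 := swap_eq hf h4
    have he : f (ep + em) (ep + em) = 0 := by
      rw [hf.add_left, add_right hf, add_right hf, h1, h2, h4, h5]; ring
    have he0 : ep + em ≠ 0 := by
      intro h0
      have h6 : ep ∈ Vm := by
        rw [eq_neg_of_add_eq_zero_left h0]; exact Vm.neg_mem hem
      exact hep0 (Submodule.disjoint_def.1 hdisj ep hep h6)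
    have hxe : (x : Matrix (Fin 4) (Fin 4) F) *ᵥ (ep + em) = l • ep - l • em := by
      rw [Matrix.mulVec_add, (hVp ep).1 hep, (hVm em).1 hem, sub_eq_add_neg]
    obtain ⟨c, hc⟩ := key (ep + em) he he0 (by
      rw [hxe, sub_left hf, hf.smul_left, hf.smul_left, add_right hf, add_right hf, h1, h2, h4, h5]; ring)
    rw [hxe, smul_add] at hc
    have h6 : (l - c) • ep = (l + c) • em := by
      rw [sub_smul, add_smul, sub_eq_iff_eq_add, ← sub_eq_zero]
      rw [← sub_eq_zero] at hc
      rw [← hc]; abel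
    have h7 : (l - c) • ep ∈ Vm := by rw [h6]; exact Vm.smul_mem _ hem
    have h8 := Submodule.disjoint_def.1 hdisj _ (Vp.smul_mem _ hep) h7
    have h9 : l - c = 0 := (smul_eq_zero.1 h8).resolve_right hep0
    rw [h9, zero_smul] at h6
    have h10 : l + c = 0 := (smul_eq_zero.1 h6.symm).resolve_right hem0
    apply mul_ne_zero h2ne hl0
    linear_combination h9 + h10
  rcases hNl with hN | hN
  · -- orthogonal non-degenerate eigenspaces
    have horth : ∀ u ∈ Vp, ∀ v ∈ Vm, f u v = 0 := by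
      intro u hu v hv
      have h1 := (mem_iso x).1 hxi u v
      rw [(hVp u).1 hu, (hVm v).1 hv, hf.smul_left, neg_right hf, smul_right hf] at h1
      have h2 : (2 : F) * f u v = 0 := by linear_combination -h1 - hN * f u v
      exact (mul_eq_zero.1 h2).resolve_left h2ne
    have hiso2 : ∀ U W : Submodule F (Fin 4 → F), (∀ u ∈ U, ∀ v ∈ W, f u v = 0) → U ⊔ W = ⊤ → finrank F U = 2 →
        ∃ e ∈ U, e ≠ 0 ∧ f e e = 0 := by
      intro U W hUW hsup' hU2
      have hUn : IsNondegenerateOn f U := by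
        intro w hw hw0
        have h1 : ∃ y ∈ U, f w y ≠ 0 := by
          by_contra hcon
          push Not at hcon
          obtain ⟨-, y, hy⟩ := hf.nondegenerate w hw0
          apply hy
          have hy' : y ∈ U ⊔ W := by rw [hsup']; trivial
          obtain ⟨a, ha, b, hb, rfl⟩ := Submodule.mem_sup.1 hy'
          rw [add_right hf, hcon a ha, hUW w hw b hb, add_zero]
        obtain ⟨y, hy, hwy⟩ := h1
        exact ⟨⟨y, hy, swap_ne hf hwy⟩, ⟨y, hy, hwy⟩⟩
      have hne : U ≠ ⊥ := by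
        intro e
        rw [e, finrank_bot] at hU2
        omega
      obtain ⟨u, hu, hu0⟩ := (Submodule.ne_bot_iff _).1 hne
      obtain ⟨⟨y, hy, hyu⟩, -⟩ := hUn u hu hu0
      obtain ⟨w, hw, hww⟩ := exists_nonisotropic hf U hy hu hyu
      have hker : LinearMap.ker ((fd hf w).domRestrict U) ≠ ⊥ := by
        apply LinearMap.ker_ne_bot_of_finrank_lt
        rw [Module.finrank_self, hU2]; omega
      obtain ⟨⟨b, hb⟩, hb1, hb0⟩ := (Submodule.ne_bot_iff _).1 hker
      have hbw : f b w = 0 := hb1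
      have hb0' : b ≠ 0 := fun e => hb0 (Subtype.ext e)
      by_cases hbb : f b b = 0
      · exact ⟨b, hb, hb0', hbb⟩
      · obtain ⟨c, hc⟩ := exists_norm hf (-(f w w) / f b b) (by rw [map_div₀, map_neg, norm_real hf, norm_real hf])
        refine ⟨w + c • b, U.add_mem hw (U.smul_mem _ hb), ?_, ?_⟩
        · intro h0
          have h1 : f (w + c • b) w = 0 := by rw [h0]; exact zero_left hf _
          rw [hf.add_left, hf.smul_left, hbw, mul_zero, add_zero] at h1
          exact hww h1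
        · have hwb := swap_eq hf hbw
          rw [hf.add_left, add_right hf, add_right hf, hf.smul_left, hf.smul_left, smul_right hf, smul_right hf, hbw, hwb]
          have : c * (σ c * f b b) = -(f w w) := by rw [← mul_assoc, hc, div_mul_cancel₀ _ hbb]
          linear_combination this
    obtain ⟨ep, hep, hep0, h1⟩ := hiso2 Vp Vm horth hsup hp2
    obtain ⟨em, hem, hem0, h2⟩ := hiso2 Vm Vp (fun u hu v hv => swap_eq hf (horth v hv u hu)) (by rw [sup_comm]; exact hsup) hm2
    exact fin ep hep em hem hep0 hem0 h1 h2 (horth ep hep em hem)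
  · have hts : ∀ u ∈ Vp, f u u = 0 := by
      intro u hu
      have h1 := (mem_iso x).1 hxi u u
      rw [(hVp u).1 hu, hf.smul_left, smul_right hf] at h1
      have h2 : (2 : F) * f u u = 0 := by linear_combination -h1 + hN * f u u
      exact (mul_eq_zero.1 h2).resolve_left h2ne
    have hts' : ∀ u ∈ Vm, f u u = 0 := by
      intro u hu
      have h1 := (mem_iso x).1 hxi u u
      rw [(hVm u).1 hu, neg_left hf, neg_right hf, hf.smul_left, smul_right hf] at h1
      have h2 : (2 : F) * f u u = 0 := by linear_combination -h1 + hN * f u u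
      exact (mul_eq_zero.1 h2).resolve_left h2ne
    obtain ⟨ep, hep, hep0⟩ := (Submodule.ne_bot_iff _).1 hVp0
    have hker : LinearMap.ker ((fd hf ep).domRestrict Vm) ≠ ⊥ := by
      apply LinearMap.ker_ne_bot_of_finrank_lt
      rw [Module.finrank_self, hm2]; omega
    obtain ⟨⟨b, hb⟩, hb1, hb0⟩ := (Submodule.ne_bot_iff _).1 hker
    exact fin ep hep b hb hep0 (fun e => hb0 (Subtype.ext e)) (hts ep hep) (hts' b hb) (swap_eq hf hb1)

end CfsgLib.H14SU
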