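import Cfsg.Agent.LibH14SU10

/-! The group `4 o 2^(1+4)` attached to an orthonormal frame over the field with nine elements (seat helper14). -/

set_option autoImplicit false

namespace CfsgLib.H14SU

open Module Cfsg Cfsg.Geo CfsgLib.MaxTv29 CfsgLib.Un29 CfsgLib.H14SU1
open scoped Matrix MatrixGroups Kronecker

section charr
variable {ι : Type} [Fintype ι] [DecidableEq ι] {F : Type*} [Field F] [Finite F]

theorem norm_of_conj_le {R : Subgroup (GL ι F)} {g : GL ι F} (h : ∀ w ∈ R, g * w * g⁻¹ ∈ R) : g ∈ Subgroup.normalizer (R : Set (GL ι F)) := by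
  have hpow : ∀ (k : ℕ), ∀ w ∈ R, g ^ k * w * (g ^ k)⁻¹ ∈ R := by
    intro k
    induction k with
    | zero => intro w hw; simpa using hw
    | succ k ih =>
      intro w hw
      have := h _ (ih w hw)
      have e : g * (g ^ k * w * (g ^ k)⁻¹) * g⁻¹ = g ^ (k + 1) * w * (g ^ (k + 1))⁻¹ := by
        rw [pow_succ']; group
      rwa [e] at this
  have hinv : g ^ (orderOf g - 1) = g⁻¹ := by
    have h1 := orderOf_pos g
    rw [eq_inv_iff_mul_eq_one, ← pow_succ, Nat.sub_add_cancel h1, pow_orderOf_eq_one]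
  rw [Subgroup.mem_normalizer_iff]
  intro w
  refine ⟨fun hw => h w hw, fun hw => ?_⟩
  have := hpow (orderOf g - 1) _ hw
  rw [hinv] at this
  have e : g⁻¹ * (g * w * g⁻¹) * g⁻¹⁻¹ = w := by group
  rwa [e] at this

theorem char_le_center (h2 : (2 : F) ≠ 0) {ζ : F} (hζ : ζ * ζ = -1) {R : Subgroup (GL ι F)}
    (hcomm : ∀ x ∈ R, ∀ y ∈ R, (x : Matrix ι ι F) * (y : Matrix ι ι F) = (y : Matrix ι ι F) * (x : Matrix ι ι F) ∨
      (x : Matrix ι ι F) * (y : Matrix ι ι F) = -((y : Matrix ι ι F) * (x : Matrix ι ι F)))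
    (hsq : ∀ x ∈ R, (x : Matrix ι ι F) * (x : Matrix ι ι F) = 1 ∨ (x : Matrix ι ι F) * (x : Matrix ι ι F) = -1)
    (hz : ∃ z ∈ R, (z : Matrix ι ι F) = ζ • (1 : Matrix ι ι F)) {A : Subgroup R} (hA : A.Characteristic) (hAc : IsMulCommutative A) :
    A ≤ Subgroup.center R := by
  obtain ⟨z, hzR, hz⟩ := hz
  intro x hx
  rw [Subgroup.mem_center_iff]
  by_contra hcon
  push Not at hcon
  obtain ⟨⟨y, hy⟩, hxy⟩ := hcon
  -- an anticommuting involution
  obtain ⟨y, hyR, hyx, hyy⟩ : ∃ y ∈ R, ((x : GL ι F) : Matrix ι ι F) * (y : Matrix ι ι F) = -((y : Matrix ι ι F) * ((x : GL ι F) : Matrix ι ι F)) ∧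
      (y : Matrix ι ι F) * (y : Matrix ι ι F) = 1 := by
    have h1 : ((x : GL ι F) : Matrix ι ι F) * (y : Matrix ι ι F) = -((y : Matrix ι ι F) * ((x : GL ι F) : Matrix ι ι F)) := by
      rcases hcomm x x.2 y hy with h | h
      · exfalso
        apply hxy
        apply Subtype.ext
        apply Units.ext
        exact h.symm
      · exact h
    rcases hsq y hy with h | h
    · exact ⟨y, hy, h1, h⟩
    · refine ⟨z * y, mul_mem hzR hy, ?_, ?_⟩
      · rw [Units.val_mul, hz]
        simp only [smul_mul_assoc, one_mul, mul_smul_comm, h1, smul_neg]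
      · rw [Units.val_mul, hz]
        simp only [smul_mul_assoc, one_mul, mul_smul_comm, smul_smul, h, hζ]
        simp
  set Y : Matrix ι ι F := (y : Matrix ι ι F) with hY
  set X : Matrix ι ι F := ((x : GL ι F) : Matrix ι ι F) with hX
  have hprod : (1 + ζ • Y) * ((2 : F)⁻¹ • (1 - ζ • Y)) = 1 := by
    have e : (1 + ζ • Y) * (1 - ζ • Y) = (2 : F) • 1 := by
      have e1 : (ζ • Y) * (ζ • Y) = -1 := by
        rw [smul_mul_assoc, mul_smul_comm, smul_smul, hyy, hζ, neg_smul, one_smul]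
      have e2 : ∀ T : Matrix ι ι F, (1 + T) * (1 - T) = 1 - T * T := by intro T; noncomm_ring
      rw [e2, e1, two_smul]; abel
    rw [mul_smul_comm, e, smul_smul, inv_mul_cancel₀ h2, one_smul]
  let g : GL ι F := ⟨1 + ζ • Y, (2 : F)⁻¹ • (1 - ζ • Y), hprod, mul_eq_one_comm.1 hprod⟩
  have hconj : ∀ w : GL ι F, (w : Matrix ι ι F) * Y = -(Y * (w : Matrix ι ι F)) →
      ((g * w * g⁻¹ : GL ι F) : Matrix ι ι F) = -(ζ • ((w : Matrix ι ι F) * Y)) := by
    intro w hw
    have e1 : ((g * w * g⁻¹ : GL ι F) : Matrix ι ι F) = (1 + ζ • Y) * (w : Matrix ι ι F) * ((2 : F)⁻¹ • (1 - ζ • Y)) := rfl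
    have e2 : (1 + ζ • Y) * (w : Matrix ι ι F) = (w : Matrix ι ι F) * (1 - ζ • Y) := by
      rw [add_mul, mul_sub, one_mul, mul_one, smul_mul_assoc, mul_smul_comm, hw, smul_neg, sub_neg_eq_add]
    have e3 : (1 - ζ • Y) * (1 - ζ • Y) = -((2 * ζ) • Y) := by
      have e1 : (ζ • Y) * (ζ • Y) = -1 := by
        rw [smul_mul_assoc, mul_smul_comm, smul_smul, hyy, hζ, neg_smul, one_smul]
      have e2 : ∀ T : Matrix ι ι F, (1 - T) * (1 - T) = 1 - T - T + T * T := by intro T; noncomm_ring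
      rw [e2, e1, mul_smul, two_smul]; abel
    rw [e1, e2, mul_smul_comm, mul_assoc, e3, mul_neg, mul_smul_comm, smul_neg, smul_smul, ← mul_assoc, inv_mul_cancel₀ h2, one_mul]
  have hg : g ∈ Subgroup.normalizer (R : Set (GL ι F)) := by
    apply norm_of_conj_le
    intro w hw
    rcases hcomm w hw y hyR with h | h
    · have : g * w * g⁻¹ = w := by
        rw [mul_inv_eq_iff_eq_mul]
        apply Units.ext
        show (1 + ζ • Y) * (w : Matrix ι ι F) = (w : Matrix ι ι F) * (1 + ζ • Y)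
        rw [add_mul, mul_add, one_mul, mul_one, smul_mul_assoc, mul_smul_comm, h]
      rw [this]; exact hw
    · have : g * w * g⁻¹ = z * z * z * (w * y) := by
        apply Units.ext
        rw [hconj w h, Units.val_mul, Units.val_mul, Units.val_mul, Units.val_mul, hz]
        simp only [smul_mul_assoc, one_mul, mul_smul_comm, smul_smul]
        have : ζ * (ζ * ζ) = -ζ := by rw [hζ]; ring
        rw [this, neg_smul]
      rw [this]
      exact mul_mem (mul_mem (mul_mem hzR hzR) hzR) (mul_mem hw hyR)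
  let α : MulAut R := R.normalizerMonoidHom ⟨g, hg⟩
  have hαx : α x ∈ A := by
    have h1 := hA.fixed α
    have h2 : x ∈ A.comap α.toMonoidHom := by rw [h1]; exact hx
    exact h2
  have hval : ((α x : R) : GL ι F) = g * (x : GL ι F) * g⁻¹ := rfl
  have h1 : (⟨x, hx⟩ : A) * ⟨α x, hαx⟩ = ⟨α x, hαx⟩ * ⟨x, hx⟩ := hAc.is_comm.comm _ _
  have h3 : (x : GL ι F) * (g * (x : GL ι F) * g⁻¹) = (g * (x : GL ι F) * g⁻¹) * (x : GL ι F) := by
    have := congrArg (fun a : A => ((a : R) : GL ι F)) h1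
    exact this
  have h4 := congrArg Units.val h3
  rw [Units.val_mul _ (x : GL ι F), Units.val_mul (x : GL ι F), hconj _ hyx] at h4
  simp only [mul_neg, neg_mul, mul_smul_comm, smul_mul_assoc, neg_inj] at h4
  have hζ0 : ζ ≠ 0 := by
    rintro rfl
    rw [zero_mul] at hζ
    exact one_ne_zero (neg_eq_zero.1 hζ.symm)
  have h5 : X * (X * Y) = X * Y * X := smul_right_injective _ hζ0 h4
  have h6 : X * Y * X = -(X * (X * Y)) := by
    rw [hyx]
    have : Y * X = -(X * Y) := by rw [hyx, neg_neg]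
    rw [neg_mul, mul_assoc Y, ← mul_assoc]
    rw [this]
    simp only [neg_mul, mul_assoc, neg_neg]
    rw [this]; simp
  rw [h6] at h5
  have h7 : (2 : F) • (X * (X * Y)) = 0 := by
    rw [two_smul]
    nth_rewrite 1 [h5]
    simp
  have h8 : X * (X * Y) = 0 := (smul_eq_zero.1 h7).resolve_left h2
  have h9 : (((x : GL ι F) * ((x : GL ι F) * y) : GL ι F) : Matrix ι ι F) = 0 := h8
  have h10 := (((x : GL ι F) * ((x : GL ι F) * y) : GL ι F)).mul_inv
  rw [h9, zero_mul] at h10
  by_cases hι : Nonempty ι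
  · exact zero_ne_one h10
  · haveI := not_nonempty_iff.1 hι
    apply hxy
    apply Subtype.ext
    apply Units.ext
    exact Subsingleton.elim _ _

/-- the centre of an absolutely irreducible group is cyclic -/
theorem center_cyclic [Nonempty ι] {R : Subgroup (GL ι F)} (hR : ActsAbsolutelyIrreducibly (matrixSet R)) : IsCyclic (Subgroup.center R) := by
  classical
  have hs : ∀ x : Subgroup.center R, ∃ c : Fˣ, ((x : R) : GL ι F).1 = (c : F) • (1 : Matrix ι ι F) := by
    intro x
    rw [← mem_scalars_iff]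
    apply scalar_of_absirr hR
    intro g hg
    have := Subgroup.mem_center_iff.1 x.2 ⟨g, hg⟩
    exact congrArg Subtype.val this
  have i0 : ι := Classical.arbitrary ι
  let φ : Subgroup.center R →* F :=
    { toFun := fun x => (((x : R) : GL ι F) : Matrix ι ι F) i0 i0
      map_one' := by
        show (((1 : GL ι F)) : Matrix ι ι F) i0 i0 = 1
        rw [Units.val_one, Matrix.one_apply_eq]
      map_mul' := by
        intro x y
        obtain ⟨c, hc⟩ := hs x
        show ((((x : R) : GL ι F) * ((y : R) : GL ι F) : GL ι F) : Matrix ι ι F) i0 i0 = _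
        rw [Units.val_mul, hc, Matrix.smul_mul, Matrix.one_mul, Matrix.smul_apply, Matrix.smul_apply, Matrix.one_apply_eq, smul_eq_mul, smul_eq_mul,
          mul_one] }
  apply isCyclic_of_subgroup_isDomain φ
  intro x y hxy
  obtain ⟨c, hc⟩ := hs x
  obtain ⟨d, hd⟩ := hs y
  have h1 : (((x : R) : GL ι F) : Matrix ι ι F) i0 i0 = (((y : R) : GL ι F) : Matrix ι ι F) i0 i0 := hxy
  rw [hc, hd, Matrix.smul_apply, Matrix.smul_apply, Matrix.one_apply_eq, smul_eq_mul, smul_eq_mul, mul_one, mul_one] at h1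
  apply Subtype.ext
  apply Subtype.ext
  apply Units.ext
  rw [hc, hd, h1]

end charr

end CfsgLib.H14SU
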