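import Cfsg.Agent.LibH14SU11

/-! The group `4 o 2^(1+4)` attached to an orthonormal frame over the field with nine elements, second part (seat helper14). -/

set_option autoImplicit false

namespace CfsgLib.H14SU

open Module Cfsg Cfsg.Geo CfsgLib.MaxTv29 CfsgLib.Un29 CfsgLib.H14SU1
open scoped Matrix MatrixGroups Kronecker

/-- the pairing on the Klein group with values in `{0, 2}` -/
def pr (a j : Fin 4) : ZMod 4 := ![![0,0,0,0],![0,2,0,2],![0,0,2,2],![0,2,2,0]] a j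

theorem pr_add_right : ∀ a i j : Fin 4, pr a (i ^^^ j) = pr a i + pr a j := by decide
theorem pr_add_left : ∀ a b j : Fin 4, pr (a ^^^ b) j = pr a j + pr b j := by decide
theorem pr_two : ∀ a j : Fin 4, 2 * pr a j = 0 := by decide
theorem pr_inj : ∀ a b : Fin 4, (∀ j, pr a j = pr b j) → a = b := by decide
theorem xor_assoc4 : ∀ a b c : Fin 4, (a ^^^ b) ^^^ c = a ^^^ (b ^^^ c) := by decide
theorem xor_comm4 : ∀ a b : Fin 4, a ^^^ b = b ^^^ a := by decide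
theorem xor_self4 : ∀ a : Fin 4, a ^^^ a = 0 := by decide
theorem xor_zero4 : ∀ a : Fin 4, a ^^^ 0 = a := by decide
theorem zero_xor4 : ∀ a : Fin 4, 0 ^^^ a = a := by decide
theorem pr_zero_right : ∀ a : Fin 4, pr a 0 = 0 := by decide
theorem pr_zero_left : ∀ a : Fin 4, pr 0 a = 0 := by decide
theorem pr_cases : ∀ a j b l : Fin 4, pr a j = pr b l ∨ pr a j = pr b l + 2 := by decide
theorem pr_decode : ∀ c0 c1 c2 c3 : ZMod 4, c0 + c1 + c2 + c3 = 0 → 2 * c1 = 2 * c0 → 2 * c2 = 2 * c0 → 2 * c3 = 2 * c0 →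
    ∃ a : Fin 4, c1 = c0 + pr a 1 ∧ c2 = c0 + pr a 2 ∧ c3 = c0 + pr a 3 := by
  intro c0 c1 c2 c3 h h1 h2 h3
  have key : ∀ c c' : ZMod 4, 2 * c = 2 * c' → c = c' ∨ c = c' + 2 := by decide
  have e1 : ∀ c : ZMod 4, c + c + c + (c + 2) ≠ 0 := by decide
  have e2 : ∀ c : ZMod 4, c + c + (c + 2) + c ≠ 0 := by decide
  have e3 : ∀ c : ZMod 4, c + (c + 2) + c + c ≠ 0 := by decide
  have e4 : ∀ c : ZMod 4, c + (c + 2) + (c + 2) + (c + 2) ≠ 0 := by decide
  rcases key _ _ h1 with rfl | rfl <;> rcases key _ _ h2 with rfl | rfl <;> rcases key _ _ h3 with rfl | rfl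
  · exact ⟨0, by decide +revert⟩
  · exact absurd h (e1 _)
  · exact absurd h (e2 _)
  · exact ⟨2, by decide +revert⟩
  · exact absurd h (e3 _)
  · exact ⟨1, by decide +revert⟩
  · exact ⟨3, by decide +revert⟩
  · exact absurd h (e4 _)

theorem perm_xor : ∀ π : Equiv.Perm (Fin 4), ∀ j b : Fin 4, π (j ^^^ b) = π j ^^^ (π b ^^^ π 0) := by decide

section frame
variable {F : Type*} [Field F]

/-- the powers of `ζ` indexed by integers modulo four -/
def wz (ζ : F) (k : ZMod 4) : F := ζ ^ k.val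

variable {ζ : F}

theorem z4 (hζ : ζ * ζ = -1) : ζ ^ 4 = 1 := by
  have : ζ ^ 4 = (ζ * ζ) * (ζ * ζ) := by ring
  rw [this, hζ]; ring

theorem wz_add (hζ : ζ * ζ = -1) (k l : ZMod 4) : wz ζ (k + l) = wz ζ k * wz ζ l := by
  rw [wz, wz, wz, ← pow_add, ZMod.val_add, ← pow_eq_pow_mod _ (z4 hζ)]

theorem wz_zero : wz ζ 0 = 1 := by rw [wz]; simp

theorem wz_one : wz ζ 1 = ζ := by
  rw [wz]
  have : (1 : ZMod 4).val = 1 := by decide
  rw [this, pow_one]

theorem wz_two (hζ : ζ * ζ = -1) : wz ζ 2 = -1 := by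
  rw [wz]
  have : (2 : ZMod 4).val = 2 := by decide
  rw [this, pow_two, hζ]

theorem wz_ne (hζ : ζ * ζ = -1) (k : ZMod 4) : wz ζ k ≠ 0 := by
  apply pow_ne_zero
  rintro rfl
  rw [zero_mul] at hζ
  exact one_ne_zero (neg_eq_zero.1 hζ.symm)

theorem wz_inj (h2 : (2 : F) ≠ 0) (hζ : ζ * ζ = -1) {k l : ZMod 4} (h : wz ζ k = wz ζ l) : k = l := by
  have h1 : wz ζ (k - l) = 1 := by
    have h3 := wz_add hζ (k - l) l
    rw [sub_add_cancel, h] at h3
    exact (mul_eq_right₀ (wz_ne hζ l)).1 h3.symm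
  have h4 : ∀ m : ZMod 4, wz ζ m = 1 → m = 0 := by
    intro m hm
    have h5 : ∀ m : ZMod 4, m = 0 ∨ m = 1 ∨ m = 2 ∨ m = 1 + 2 := by decide
    replace h5 := h5 m
    rcases h5 with rfl | rfl | rfl | rfl
    · rfl
    · rw [wz_one] at hm
      rw [hm] at hζ
      exfalso
      apply h2
      linear_combination hζ
    · rw [wz_two hζ] at hm
      exfalso
      apply h2
      linear_combination -hm
    · rw [wz_add hζ, wz_one, wz_two hζ] at hm
      exfalso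
      have h6 : ζ = -1 := by linear_combination -hm
      rw [h6] at hζ
      apply h2
      linear_combination hζ
  exact sub_eq_zero.1 (h4 _ h1)

variable (B : Basis (Fin 4) F (Fin 4 → F))

/-- the monomial matrices -/
noncomputable def Gm (ζ : F) (k : ZMod 4) (a b : Fin 4) : Matrix (Fin 4) (Fin 4) F :=
  LinearMap.toMatrix' (B.constr F (fun j => wz ζ (k + pr a j) • B (j ^^^ b)))

theorem Gm_mulVec (k : ZMod 4) (a b j : Fin 4) : Gm B ζ k a b *ᵥ B j = wz ζ (k + pr a j) • B (j ^^^ b) := by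
  rw [Gm, ← Matrix.toLin'_apply, Matrix.toLin'_toMatrix', Basis.constr_basis]

theorem mat_ext {M N : Matrix (Fin 4) (Fin 4) F} (h : ∀ j, M *ᵥ B j = N *ᵥ B j) : M = N := by
  apply Matrix.toLin'.injective
  apply B.ext
  intro j
  rw [Matrix.toLin'_apply, Matrix.toLin'_apply, h]

theorem Gm_mul (hζ : ζ * ζ = -1) (k a b k' a' b') :
    Gm B ζ k a b * Gm B ζ k' a' b' = Gm B ζ (k + k' + pr a b') (a ^^^ a') (b' ^^^ b) := by
  apply mat_ext B
  intro j
  rw [← Matrix.mulVec_mulVec, Gm_mulVec, Matrix.mulVec_smul, Gm_mulVec, Gm_mulVec, smul_smul, ← wz_add hζ, pr_add_right, pr_add_left,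
    xor_assoc4]
  congr 2
  ring

theorem Gm_one : Gm B ζ 0 0 0 = 1 := by
  apply mat_ext B
  intro j
  rw [Gm_mulVec, pr_zero_left, add_zero, wz_zero, one_smul, xor_zero4, Matrix.one_mulVec]

theorem Gm_scalar (k : ZMod 4) : Gm B ζ k 0 0 = wz ζ k • (1 : Matrix (Fin 4) (Fin 4) F) := by
  apply mat_ext B
  intro j
  rw [Gm_mulVec, pr_zero_left, add_zero, xor_zero4, Matrix.smul_mulVec, Matrix.one_mulVec]

theorem Gm_neg (hζ : ζ * ζ = -1) (k : ZMod 4) (a b) : Gm B ζ (k + 2) a b = - Gm B ζ k a b := by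
  apply mat_ext B
  intro j
  rw [Gm_mulVec, Matrix.neg_mulVec, Gm_mulVec, add_right_comm, wz_add hζ, wz_two hζ, mul_neg_one, neg_smul]

theorem Gm_inv (hζ : ζ * ζ = -1) (k : ZMod 4) (a b) : Gm B ζ k a b * Gm B ζ (-k - pr a b) a b = 1 := by
  rw [Gm_mul B hζ, xor_self4, xor_self4, ← Gm_one B (ζ := ζ)]
  congr 1
  ring

/-- the monomial matrices as units -/
noncomputable def Gu (hζ : ζ * ζ = -1) (k : ZMod 4) (a b : Fin 4) : GL (Fin 4) F :=
  ⟨Gm B ζ k a b, Gm B ζ (-k - pr a b) a b, Gm_inv B hζ k a b, mul_eq_one_comm.1 (Gm_inv B hζ k a b)⟩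

theorem Gm_inj (h2 : (2 : F) ≠ 0) (hζ : ζ * ζ = -1) {k k' : ZMod 4} {a a' b b' : Fin 4} (h : Gm B ζ k a b = Gm B ζ k' a' b') :
    k = k' ∧ a = a' ∧ b = b' := by
  have h1 : ∀ j, wz ζ (k + pr a j) • B (j ^^^ b) = wz ζ (k' + pr a' j) • B (j ^^^ b') := by
    intro j
    rw [← Gm_mulVec, ← Gm_mulVec, h]
  have hb : b = b' := by
    have h3 := h1 0
    rw [zero_xor4, zero_xor4] at h3
    by_contra hne
    have h4 := congrArg (fun x => B.repr x b) h3
    simp only [map_smul, Finsupp.smul_apply, Basis.repr_self, Finsupp.single_apply, if_true, smul_eq_mul, mul_one] at h4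
    rw [if_neg (Ne.symm hne), mul_zero] at h4
    exact wz_ne hζ _ h4
  subst hb
  have h5 : ∀ j, k + pr a j = k' + pr a' j := by
    intro j
    apply wz_inj h2 hζ
    have h6 := h1 j
    exact smul_left_injective F (B.ne_zero (j ^^^ b)) h6
  have hk : k = k' := by
    have := h5 0
    rwa [pr_zero_right, pr_zero_right, add_zero, add_zero] at this
  subst hk
  exact ⟨rfl, pr_inj a a' (fun j => add_left_cancel (h5 j)), rfl⟩

/-- the group `4 o 2^(1+4)` -/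
def RR (hζ : ζ * ζ = -1) : Subgroup (GL (Fin 4) F) where
  carrier := {g | ∃ k a b, (g : Matrix (Fin 4) (Fin 4) F) = Gm B ζ k a b}
  mul_mem' := by
    rintro g h ⟨k, a, b, hg⟩ ⟨k', a', b', hh⟩
    exact ⟨_, _, _, by rw [Units.val_mul, hg, hh, Gm_mul B hζ]⟩
  one_mem' := ⟨0, 0, 0, by rw [Units.val_one, Gm_one]⟩
  inv_mem' := by
    rintro g ⟨k, a, b, hg⟩
    refine ⟨-k - pr a b, a, b, ?_⟩
    have h1 : g = Gu B hζ k a b := Units.ext hg
    rw [h1]
    rfl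

theorem mem_RR (hζ : ζ * ζ = -1) {g : GL (Fin 4) F} : g ∈ RR B hζ ↔ ∃ k a b, (g : Matrix (Fin 4) (Fin 4) F) = Gm B ζ k a b := Iff.rfl

theorem Gu_mem (hζ : ζ * ζ = -1) (k a b) : Gu B hζ k a b ∈ RR B hζ := ⟨k, a, b, rfl⟩

theorem card_RR (h2 : (2 : F) ≠ 0) (hζ : ζ * ζ = -1) : Nat.card (RR B hζ) = 64 := by
  have h1 : Nat.card (RR B hζ) = Nat.card (ZMod 4 × Fin 4 × Fin 4) := by
    symm
    apply Nat.card_congr
    refine Equiv.ofBijective (fun t => ⟨Gu B hζ t.1 t.2.1 t.2.2, Gu_mem B hζ _ _ _⟩) ⟨?_, ?_⟩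
    · rintro ⟨k, a, b⟩ ⟨k', a', b'⟩ h
      have h3 := congrArg (fun x : RR B hζ => ((x : GL (Fin 4) F) : Matrix (Fin 4) (Fin 4) F)) h
      obtain ⟨h4, h5, h6⟩ := Gm_inj B h2 hζ h3
      exact Prod.ext h4 (Prod.ext h5 h6)
    · rintro ⟨g, k, a, b, hg⟩
      exact ⟨(k, a, b), Subtype.ext (Units.ext hg.symm)⟩
  rw [h1, Nat.card_eq_fintype_card]
  rfl

theorem comm_RR (hζ : ζ * ζ = -1) : ∀ x ∈ RR B hζ, ∀ y ∈ RR B hζ,
    (x : Matrix (Fin 4) (Fin 4) F) * (y : Matrix (Fin 4) (Fin 4) F) = (y : Matrix (Fin 4) (Fin 4) F) * (x : Matrix (Fin 4) (Fin 4) F) ∨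
      (x : Matrix (Fin 4) (Fin 4) F) * (y : Matrix (Fin 4) (Fin 4) F) = -((y : Matrix (Fin 4) (Fin 4) F) * (x : Matrix (Fin 4) (Fin 4) F)) := by
  rintro x ⟨k, a, b, hx⟩ y ⟨k', a', b', hy⟩
  rw [hx, hy, Gm_mul B hζ, Gm_mul B hζ, xor_comm4 a' a, xor_comm4 b' b]
  rcases pr_cases a b' a' b with h | h
  · left; rw [h, add_comm k' k]
  · right; rw [h, ← Gm_neg B hζ, add_comm k' k, ← add_assoc]

theorem sq_RR (hζ : ζ * ζ = -1) : ∀ x ∈ RR B hζ,
    (x : Matrix (Fin 4) (Fin 4) F) * (x : Matrix (Fin 4) (Fin 4) F) = 1 ∨ (x : Matrix (Fin 4) (Fin 4) F) * (x : Matrix (Fin 4) (Fin 4) F) = -1 := by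
  rintro x ⟨k, a, b, hx⟩
  rw [hx, Gm_mul B hζ, xor_self4, xor_self4]
  have h1 : k + k + pr a b = 0 ∨ k + k + pr a b = 0 + 2 := by
    have : ∀ (k : ZMod 4) (a b : Fin 4), k + k + pr a b = 0 ∨ k + k + pr a b = 0 + 2 := by decide
    exact this k a b
  rcases h1 with h | h
  · left; rw [h, Gm_one]
  · right; rw [h, Gm_neg B hζ, Gm_one]

theorem zeta_RR (hζ : ζ * ζ = -1) : ∃ z ∈ RR B hζ, (z : Matrix (Fin 4) (Fin 4) F) = ζ • (1 : Matrix (Fin 4) (Fin 4) F) :=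
  ⟨Gu B hζ 1 0 0, Gu_mem B hζ _ _ _, by
    show Gm B ζ 1 0 0 = _
    rw [Gm_scalar, wz_one]⟩

theorem absirr_RR (h2 : (2 : F) ≠ 0) (hζ : ζ * ζ = -1) : ActsAbsolutelyIrreducibly (matrixSet (RR B hζ)) := by
  have hmem : ∀ k a b, Gm B ζ k a b ∈ matrixSet (RR B hζ) := fun k a b => ⟨Gu B hζ k a b, Gu_mem B hζ k a b, rfl⟩
  -- signs
  have hsum : ∀ x : Fin 4 → F, ∀ j : Fin 4, (∑ a : Fin 4, wz ζ (pr a j) • (Gm B ζ 0 a 0 *ᵥ (∑ i, x i • B i))) = (4 * x j) • B j := by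
    intro x j
    have h1 : ∀ a : Fin 4, wz ζ (pr a j) • (Gm B ζ 0 a 0 *ᵥ (∑ i, x i • B i)) = ∑ i, (wz ζ (pr a j) * (x i * wz ζ (pr a i))) • B i := by
      intro a
      rw [Matrix.mulVec_sum, Finset.smul_sum]
      apply Finset.sum_congr rfl
      intro i _
      rw [Matrix.mulVec_smul, Gm_mulVec, zero_add, xor_zero4, smul_smul, smul_smul, mul_assoc]
    simp only [h1]
    rw [Finset.sum_comm]
    have h3 : ∀ i : Fin 4, ∑ a : Fin 4, (wz ζ (pr a j) * (x i * wz ζ (pr a i))) • B i = (if i = j then 4 * x j else 0) • B i := by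
      intro i
      rw [← Finset.sum_smul]
      congr 1
      have h4 : ∑ a : Fin 4, wz ζ (pr a j) * (x i * wz ζ (pr a i)) = x i * ∑ a : Fin 4, wz ζ (pr a (i ^^^ j)) := by
        rw [Finset.mul_sum]
        apply Finset.sum_congr rfl
        intro a _
        rw [pr_add_right, wz_add hζ]; ring
      rw [h4, Fin.sum_univ_four]
      have h5 : ∀ m : Fin 4, wz ζ (pr 0 m) + wz ζ (pr 1 m) + wz ζ (pr 2 m) + wz ζ (pr 3 m) = if m = 0 then 4 else 0 := by
        intro m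
        have e0 : ∀ m, pr 0 m = 0 := by decide
        fin_cases m
        · have : pr 0 0 = 0 ∧ pr 1 0 = 0 ∧ pr 2 0 = 0 ∧ pr 3 0 = 0 := by decide
          obtain ⟨a0, a1, a2, a3⟩ := this
          show wz ζ (pr 0 0) + wz ζ (pr 1 0) + wz ζ (pr 2 0) + wz ζ (pr 3 0) = _
          rw [a0, a1, a2, a3, wz_zero]
          show (1 : F) + 1 + 1 + 1 = if (0 : Fin 4) = 0 then 4 else 0
          rw [if_pos rfl]; norm_num
        · have : pr 0 1 = 0 ∧ pr 1 1 = 2 ∧ pr 2 1 = 0 ∧ pr 3 1 = 2 := by decide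
          obtain ⟨a0, a1, a2, a3⟩ := this
          show wz ζ (pr 0 1) + wz ζ (pr 1 1) + wz ζ (pr 2 1) + wz ζ (pr 3 1) = _
          rw [a0, a1, a2, a3, wz_zero, wz_two hζ, if_neg (by decide)]; ring
        · have : pr 0 2 = 0 ∧ pr 1 2 = 0 ∧ pr 2 2 = 2 ∧ pr 3 2 = 2 := by decide
          obtain ⟨a0, a1, a2, a3⟩ := this
          show wz ζ (pr 0 2) + wz ζ (pr 1 2) + wz ζ (pr 2 2) + wz ζ (pr 3 2) = _
          rw [a0, a1, a2, a3, wz_zero, wz_two hζ, if_neg (by decide)]; ring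
        · have : pr 0 3 = 0 ∧ pr 1 3 = 2 ∧ pr 2 3 = 2 ∧ pr 3 3 = 0 := by decide
          obtain ⟨a0, a1, a2, a3⟩ := this
          show wz ζ (pr 0 3) + wz ζ (pr 1 3) + wz ζ (pr 2 3) + wz ζ (pr 3 3) = _
          rw [a0, a1, a2, a3, wz_zero, wz_two hζ, if_neg (by decide)]; ring
      rw [h5]
      have h6 : ∀ i j : Fin 4, i ^^^ j = 0 ↔ i = j := by decide
      by_cases hij : i = j
      · rw [if_pos ((h6 i j).2 hij), if_pos hij, hij]; ring
      · rw [if_neg (fun h => hij ((h6 i j).1 h)), if_neg hij, mul_zero]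
    simp only [h3]
    rw [Finset.sum_eq_single j]
    · rw [if_pos rfl]
    · intro i _ hi
      rw [if_neg hi, zero_smul]
    · intro h; exact absurd (Finset.mem_univ _) h
  have h4 : (4 : F) ≠ 0 := by
    have : (4 : F) = 2 * 2 := by norm_num
    rw [this]; exact mul_ne_zero h2 h2
  refine ⟨?_, ?_⟩
  · intro W hW
    by_cases hb : W = ⊥
    · exact Or.inl hb
    right
    obtain ⟨x, hx, hx0⟩ := (Submodule.ne_bot_iff _).1 hb
    have hW' : ∀ k a b, ∀ y ∈ W, Gm B ζ k a b *ᵥ y ∈ W := by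
      intro k a b y hy
      apply hW _ (hmem k a b)
      exact ⟨y, hy, Matrix.toLin'_apply _ _⟩
    obtain ⟨j, hj⟩ : ∃ j, B.repr x j ≠ 0 := by
      by_contra hcon
      push Not at hcon
      apply hx0
      apply B.repr.injective
      rw [map_zero]
      exact Finsupp.ext hcon
    have h5 := hsum (fun i => B.repr x i) j
    rw [B.sum_repr] at h5
    have h6 : B j ∈ W := by
      have h7 : (4 * B.repr x j) • B j ∈ W := by
        rw [← h5]
        exact W.sum_mem (fun a _ => W.smul_mem _ (hW' _ _ _ _ hx))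
      exact (W.smul_mem_iff (mul_ne_zero h4 hj)).1 h7
    rw [eq_top_iff, ← B.span_eq, Submodule.span_le]
    rintro _ ⟨i, rfl⟩
    have h8 := hW' 0 0 (j ^^^ i) _ h6
    rw [Gm_mulVec, pr_zero_left, add_zero, wz_zero, one_smul, ← xor_assoc4, xor_self4, zero_xor4] at h8
    exact h8
  · intro M hM
    have hM' : ∀ k a b, ∀ v, M *ᵥ (Gm B ζ k a b *ᵥ v) = Gm B ζ k a b *ᵥ (M *ᵥ v) := by
      intro k a b v
      rw [Matrix.mulVec_mulVec, Matrix.mulVec_mulVec, hM _ (hmem k a b)]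
    have h5 := hsum (fun i => B.repr (M *ᵥ B 0) i) 0
    rw [B.sum_repr] at h5
    have h6 : ∀ a, Gm B ζ 0 a 0 *ᵥ (M *ᵥ B 0) = M *ᵥ B 0 := by
      intro a
      rw [← hM', Gm_mulVec, pr_zero_right, add_zero, wz_zero, one_smul, xor_zero4]
    simp only [h6, pr_zero_right, wz_zero, one_smul] at h5
    rw [Finset.sum_const, Finset.card_univ, Fintype.card_fin] at h5
    have h7 : M *ᵥ B 0 = (B.repr (M *ᵥ B 0) 0) • B 0 := by
      have h8 : (4 : F) • (M *ᵥ B 0) = (4 : F) • ((B.repr (M *ᵥ B 0) 0) • B 0) := by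
        rw [smul_smul, ← h5, ← Nat.cast_smul_eq_nsmul F]
        norm_num
      exact smul_right_injective _ h4 h8
    refine ⟨B.repr (M *ᵥ B 0) 0, ?_⟩
    apply mat_ext B
    intro j
    have h9 : B j = Gm B ζ 0 0 j *ᵥ B 0 := by
      rw [Gm_mulVec, pr_zero_left, add_zero, wz_zero, one_smul, zero_xor4]
    rw [Matrix.smul_mulVec, Matrix.one_mulVec]
    conv_lhs => rw [h9, hM', h7, Matrix.mulVec_smul, ← h9]

end frame

end CfsgLib.H14SU
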