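import Cfsg.Agent.LibH14SU12

/-! The group `4 o 2^(1+4)` attached to an orthonormal frame over the field with nine elements, third part (seat helper14). -/

set_option autoImplicit false

namespace CfsgLib.H14SU

open Module Cfsg Cfsg.Geo CfsgLib.MaxTv29 CfsgLib.Un29 CfsgLib.H14SU1
open scoped Matrix MatrixGroups Kronecker

theorem fin4_cases : ∀ i : Fin 4, i = 0 ∨ i = 1 ∨ i = 2 ∨ i = 3 := by decide

section frame2
variable {F : Type*} [Field F] [Finite F] {ζ : F} (B : Basis (Fin 4) F (Fin 4 → F))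

omit [Finite F] in
theorem card_center_RR (h2 : (2 : F) ≠ 0) (hζ : ζ * ζ = -1) : Nat.card (Subgroup.center (RR B hζ)) = 4 := by
  have hcen : ∀ k, (⟨Gu B hζ k 0 0, Gu_mem B hζ k 0 0⟩ : RR B hζ) ∈ Subgroup.center (RR B hζ) := by
    intro k
    rw [Subgroup.mem_center_iff]
    rintro ⟨g, hg⟩
    apply Subtype.ext
    apply Units.ext
    show (g : Matrix (Fin 4) (Fin 4) F) * Gm B ζ k 0 0 = Gm B ζ k 0 0 * (g : Matrix (Fin 4) (Fin 4) F)
    rw [Gm_scalar]; simp
  have h1 : Nat.card (ZMod 4) = Nat.card (Subgroup.center (RR B hζ)) := by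
    apply Nat.card_congr
    refine Equiv.ofBijective (fun k => ⟨_, hcen k⟩) ⟨?_, ?_⟩
    · intro k k' h
      have h3 := congrArg (fun x : Subgroup.center (RR B hζ) => (((x : RR B hζ) : GL (Fin 4) F) : Matrix (Fin 4) (Fin 4) F)) h
      exact (Gm_inj B h2 hζ h3).1
    · rintro ⟨⟨g, k, a, b, hg⟩, hc⟩
      rw [Subgroup.mem_center_iff] at hc
      have h4 : ∀ a' b' : Fin 4, pr a b' = pr a' b := by
        intro a' b'
        have h5 := hc ⟨Gu B hζ 0 a' b', Gu_mem B hζ 0 a' b'⟩
        have h6 : Gm B ζ 0 a' b' * (g : Matrix (Fin 4) (Fin 4) F) = (g : Matrix (Fin 4) (Fin 4) F) * Gm B ζ 0 a' b' :=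
          congrArg (fun x : RR B hζ => ((x : GL (Fin 4) F) : Matrix (Fin 4) (Fin 4) F)) h5
        rw [hg, Gm_mul B hζ, Gm_mul B hζ] at h6
        have h7 := (Gm_inj B h2 hζ h6).1
        rw [zero_add, add_zero] at h7
        exact (add_left_cancel h7).symm
      have ha : a = 0 := pr_inj a 0 (fun j => by rw [h4 0 j, pr_zero_left, pr_zero_left])
      have hb : b = 0 := by
        have : ∀ b : Fin 4, (∀ a, pr a b = 0) → b = 0 := by decide
        apply this
        intro a'
        rw [← h4 a' 0, pr_zero_right]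
      subst ha; subst hb
      exact ⟨k, Subtype.ext (Subtype.ext (Units.ext hg.symm))⟩
  rw [← h1, Nat.card_eq_fintype_card, ZMod.card]

theorem symp_RR (h2 : (2 : F) ≠ 0) (hζ : ζ * ζ = -1) : IsSymplecticTypeGroup 2 (RR B hζ) where
  prime := Nat.prime_two
  pGroup := IsPGroup.of_card (n := 6) (by rw [card_RR B h2 hζ]; norm_num)
  cyclic_of_characteristic := fun A hA hAc => by
    have h1 := char_le_center h2 hζ (comm_RR B hζ) (sq_RR B hζ) (zeta_RR B hζ) hA hAc
    haveI := center_cyclic (absirr_RR B h2 hζ)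
    exact isCyclic_of_injective (Subgroup.inclusion h1) (Subgroup.inclusion_injective h1)
  exponent_eq := by
    have e4 : 2 * Nat.gcd 2 2 = 4 := by norm_num
    rw [e4]
    apply Nat.dvd_antisymm
    · apply Monoid.exponent_dvd_of_forall_pow_eq_one
      rintro ⟨x, hx⟩
      apply Subtype.ext
      apply Units.ext
      show ((x ^ 4 : GL (Fin 4) F) : Matrix (Fin 4) (Fin 4) F) = 1
      have : x ^ 4 = (x * x) * (x * x) := by simp only [pow_succ, pow_zero, one_mul, mul_assoc]
      rw [this, Units.val_mul, Units.val_mul]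
      rcases sq_RR B hζ x hx with h | h <;> rw [h] <;> simp
    · obtain ⟨z, hz, hz1⟩ := zeta_RR B hζ
      have h3 : orderOf (⟨z, hz⟩ : RR B hζ) = 2 ^ (1 + 1) := by
        apply orderOf_eq_prime_pow
        · intro h
          have h4 := congrArg (fun x : RR B hζ => ((x : GL (Fin 4) F) : Matrix (Fin 4) (Fin 4) F)) h
          have h5 : ((z ^ (2 ^ 1) : GL (Fin 4) F) : Matrix (Fin 4) (Fin 4) F) = 1 := h4
          rw [pow_one, pow_two, Units.val_mul, hz1, smul_mul_smul_comm, hζ, one_mul] at h5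
          have h6 := congrFun (congrFun h5 0) 0
          rw [Matrix.smul_apply, Matrix.one_apply_eq, smul_eq_mul, mul_one] at h6
          apply h2
          linear_combination -h6
        · apply Subtype.ext
          apply Units.ext
          show ((z ^ (2 ^ (1 + 1)) : GL (Fin 4) F) : Matrix (Fin 4) (Fin 4) F) = 1
          have : z ^ (2 ^ (1 + 1)) = (z * z) * (z * z) := by
            show z ^ 4 = _
            simp only [pow_succ, pow_zero, one_mul, mul_assoc]
          rw [this, Units.val_mul, Units.val_mul, hz1, smul_mul_smul_comm, hζ, one_mul, smul_mul_smul_comm]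
          simp
      have h4 := Monoid.order_dvd_exponent (⟨z, hz⟩ : RR B hζ)
      rw [h3] at h4
      exact h4

variable {σ : F ≃+* F} {f : (Fin 4 → F) → (Fin 4 → F) → F}

/-- isometries are recognized on a basis -/
theorem iso_of_basis (hf : IsUnitaryForm σ f) {g : GL (Fin 4) F}
    (h : ∀ i j, f ((g : Matrix (Fin 4) (Fin 4) F) *ᵥ B i) ((g : Matrix (Fin 4) (Fin 4) F) *ᵥ B j) = f (B i) (B j)) : g ∈ iso f := by
  rw [mem_iso]
  have key : ∀ y, (∀ i, f ((g : Matrix (Fin 4) (Fin 4) F) *ᵥ B i) ((g : Matrix (Fin 4) (Fin 4) F) *ᵥ y) = f (B i) y) →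
      ∀ x, f ((g : Matrix (Fin 4) (Fin 4) F) *ᵥ x) ((g : Matrix (Fin 4) (Fin 4) F) *ᵥ y) = f x y := by
    intro y hy x
    have h1 : (fd hf ((g : Matrix (Fin 4) (Fin 4) F) *ᵥ y)).comp (Matrix.toLin' (g : Matrix (Fin 4) (Fin 4) F)) = fd hf y := by
      apply B.ext
      intro i
      rw [LinearMap.comp_apply, Matrix.toLin'_apply, fd_apply, fd_apply, hy]
    have h2 := congrArg (fun L => L x) h1
    rwa [LinearMap.comp_apply, Matrix.toLin'_apply, fd_apply, fd_apply] at h2
  intro x y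
  apply key
  intro i
  rw [hf.herm, key (B i) (fun j => h j i), ← hf.herm]

theorem RR_le_iso (hf : IsUnitaryForm σ f) (hζ : ζ * ζ = -1) (hN : ζ * σ ζ = 1)
    (hB : ∀ i j, f (B i) (B j) = if i = j then 1 else 0) : RR B hζ ≤ iso f := by
  rintro g ⟨k, a, b, hg⟩
  apply iso_of_basis B hf
  intro i j
  rw [hg, Gm_mulVec, Gm_mulVec, hf.smul_left, smul_right hf, hB, hB]
  have h1 : (i ^^^ b = j ^^^ b) ↔ i = j := by
    have : ∀ i j b : Fin 4, (i ^^^ b = j ^^^ b) ↔ i = j := by decide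
    exact this i j b
  by_cases hij : i = j
  · subst hij
    rw [if_pos rfl, if_pos rfl, mul_one, wz, map_pow, ← mul_pow, hN, one_pow]
  · rw [if_neg (fun h => hij (h1.1 h)), if_neg hij, mul_zero, mul_zero]

omit [Finite F] in
theorem prod_sign {g : GL (Fin 4) F} (hdet : (g : Matrix (Fin 4) (Fin 4) F).det = 1) {π : Equiv.Perm (Fin 4)} {c : Fin 4 → F}
    (h : ∀ j, (g : Matrix (Fin 4) (Fin 4) F) *ᵥ B j = c j • B (π j)) : (∏ j, c j) * (∏ j, c j) = 1 := by
  have h1 := Basis.det_comp B (Matrix.toLin' (g : Matrix (Fin 4) (Fin 4) F)) B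
  rw [LinearMap.det_toLin', hdet, one_mul, Basis.det_self] at h1
  have h2 : (⇑(Matrix.toLin' (g : Matrix (Fin 4) (Fin 4) F)) ∘ ⇑B) = fun j => c j • (B ∘ π) j := by
    funext j
    rw [Function.comp_apply, Matrix.toLin'_apply, h, Function.comp_apply]
  rw [h2, AlternatingMap.map_smul_univ, AlternatingMap.map_perm, Basis.det_self] at h1
  rcases Int.units_eq_one_or (Equiv.Perm.sign π) with h3 | h3
  · rw [h3, one_smul, smul_eq_mul, mul_one] at h1
    rw [h1, one_mul]
  · rw [h3] at h1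
    have h4 : ∏ j, c j = -1 := by
      have : (-1 : ℤˣ) • (1 : F) = -1 := by simp
      rw [this, smul_eq_mul, mul_neg_one] at h1
      rw [← h1, neg_neg]
    rw [h4]; ring

/-- the frame stabilizer normalizes the group -/
theorem frame_norm (h2 : (2 : F) ≠ 0) (hζ : ζ * ζ = -1) {g : GL (Fin 4) F} (hdet : (g : Matrix (Fin 4) (Fin 4) F).det = 1)
    {π : Equiv.Perm (Fin 4)} {d : Fin 4 → ZMod 4}
    (h : ∀ j, (g : Matrix (Fin 4) (Fin 4) F) *ᵥ B j = wz ζ (d j) • B (π j)) : g ∈ subgroupNormalizer (RR B hζ) := by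
  have hsum : 2 * (d 0 + d 1 + d 2 + d 3) = 0 := by
    have h1 := prod_sign B hdet (c := fun j => wz ζ (d j)) h
    rw [Fin.prod_univ_four] at h1
    simp only [← wz_add hζ] at h1
    rw [← wz_zero (ζ := ζ)] at h1
    have h3 := wz_inj h2 hζ h1
    rw [two_mul]; exact h3
  apply norm_of_conj_le
  rintro x ⟨k, a, b, hx⟩
  -- the exponents of the conjugate
  let c' : Fin 4 → ZMod 4 := fun i => -(d (π.symm i)) + (k + pr a (π.symm i)) + d (π.symm i ^^^ b)
  have hact : ∀ i, ((g * x * g⁻¹ : GL (Fin 4) F) : Matrix (Fin 4) (Fin 4) F) *ᵥ B i = wz ζ (c' i) • B (i ^^^ (π b ^^^ π 0)) := by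
    intro i
    have h3 : B i = (g : Matrix (Fin 4) (Fin 4) F) *ᵥ (wz ζ (-(d (π.symm i))) • B (π.symm i)) := by
      rw [Matrix.mulVec_smul, h, smul_smul, ← wz_add hζ, neg_add_cancel, wz_zero, one_smul, Equiv.apply_symm_apply]
    have h4 : ((g * x * g⁻¹ : GL (Fin 4) F) : Matrix (Fin 4) (Fin 4) F) * (g : Matrix (Fin 4) (Fin 4) F) =
        (g : Matrix (Fin 4) (Fin 4) F) * (x : Matrix (Fin 4) (Fin 4) F) := by
      rw [← Units.val_mul, ← Units.val_mul, inv_mul_cancel_right]
    conv_lhs => rw [h3, Matrix.mulVec_mulVec, h4, ← Matrix.mulVec_mulVec, Matrix.mulVec_smul, hx, Gm_mulVec, smul_smul, ← wz_add hζ,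
      Matrix.mulVec_smul, h, smul_smul, ← wz_add hζ]
    rw [perm_xor, Equiv.apply_symm_apply]
  have hc2 : ∀ i, 2 * c' i = 2 * c' 0 := by
    have h5 : ∀ i, 2 * c' i = 2 * k + 2 * (d (π.symm i) + d (π.symm i ^^^ b)) := by
      intro i
      have h6 : ∀ u v w z : ZMod 4, 2 * w = 0 → 2 * (-u + (v + w) + z) = 2 * v + 2 * (u + z) := by decide
      exact h6 _ _ _ _ (pr_two _ _)
    have h7 : ∀ j, 2 * (d j + d (j ^^^ b)) = 2 * (d 0 + d b) := by
      intro j
      have e1 : ∀ u : ZMod 4, 2 * (u + u) = 0 := by decide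
      have e2 : ∀ u v : ZMod 4, 2 * (u + v) = 2 * (v + u) := by decide
      have e3 : ∀ u v w z : ZMod 4, 2 * (u + v + w + z) = 0 → 2 * (w + z) = 2 * (u + v) := by decide
      have e4 : ∀ u v w z : ZMod 4, 2 * (u + v + w + z) = 0 → 2 * (v + z) = 2 * (u + w) := by decide
      have e5 : ∀ u v w z : ZMod 4, 2 * (u + v + w + z) = 0 → 2 * (v + w) = 2 * (u + z) := by decide
      have hb := fin4_cases b
      have hj := fin4_cases j
      rcases hb with rfl | rfl | rfl | rfl <;> rcases hj with rfl | rfl | rfl | rfl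
      · rfl
      · show 2 * (d 1 + d 1) = _; rw [e1, e1]
      · show 2 * (d 2 + d 2) = _; rw [e1, e1]
      · show 2 * (d 3 + d 3) = _; rw [e1, e1]
      · rfl
      · exact e2 _ _
      · exact e3 _ _ _ _ hsum
      · show 2 * (d 3 + d 2) = _; rw [e2]; exact e3 _ _ _ _ hsum
      · rfl
      · exact e4 _ _ _ _ hsum
      · exact e2 _ _
      · show 2 * (d 3 + d 1) = _; rw [e2]; exact e4 _ _ _ _ hsum
      · rfl
      · exact e5 _ _ _ _ hsum
      · show 2 * (d 2 + d 1) = _; rw [e2]; exact e5 _ _ _ _ hsum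
      · exact e2 _ _
    intro i
    rw [h5, h5, h7, h7 (π.symm 0)]
  have hcs : c' 0 + c' 1 + c' 2 + c' 3 = 0 := by
    have h8 : ∑ i, c' i = ∑ j, (-(d j) + (k + pr a j) + d (j ^^^ b)) := by
      exact Equiv.sum_comp π.symm (fun j => -(d j) + (k + pr a j) + d (j ^^^ b))
    have h9 : ∑ j : Fin 4, d (j ^^^ b) = ∑ j, d j := by
      have hbij : Function.Bijective (fun j : Fin 4 => j ^^^ b) := by
        have : ∀ b : Fin 4, Function.Bijective (fun j : Fin 4 => j ^^^ b) := by decide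
        exact this b
      exact Function.Bijective.sum_comp hbij d
    have h10 : ∑ j : Fin 4, (k + pr a j) = 0 := by
      rw [Fin.sum_univ_four]
      have : ∀ (k : ZMod 4) (a : Fin 4), k + pr a 0 + (k + pr a 1) + (k + pr a 2) + (k + pr a 3) = 0 := by decide
      exact this k a
    have h14 : ∑ j : Fin 4, (-(d j) + (k + pr a j) + d (j ^^^ b)) = 0 := by
      rw [Finset.sum_add_distrib, Finset.sum_add_distrib, h9, h10, add_zero, Finset.sum_neg_distrib, neg_add_cancel]
    rw [h14, Fin.sum_univ_four] at h8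
    exact h8
  obtain ⟨a', h11, h12, h13⟩ := pr_decode (c' 0) (c' 1) (c' 2) (c' 3) hcs (hc2 1) (hc2 2) (hc2 3)
  refine ⟨c' 0, a', π b ^^^ π 0, ?_⟩
  apply mat_ext B
  intro i
  rw [hact, Gm_mulVec]
  congr 2
  have hi := fin4_cases i
  rcases hi with rfl | rfl | rfl | rfl
  · rw [pr_zero_right, add_zero]
  · exact h11
  · exact h12
  · exact h13

end frame2

end CfsgLib.H14SU
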