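import Cfsg.Agent.LibH14SU13

/-! Special unitary groups in dimension four: properness and lines over the field with nine elements (seat helper14). -/

set_option autoImplicit false

namespace CfsgLib.H14SU

open Module Cfsg Cfsg.Geo CfsgLib.MaxTv29 CfsgLib.Un29 CfsgLib.H14SU1
open scoped Matrix MatrixGroups Kronecker

/-- properness in dimension four -/
theorem not_le4 {q : ℕ} {F : Type*} [Field F] [Fintype F] (hF : Fintype.card F = q ^ 2)
    {M : Subgroup (GL (Fin 4) F)} (hM : ClsU 4 q M) : ¬ GU 4 F q ⊓ specialLinear (Fin 4) F ≤ M := by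
  intro hle
  obtain ⟨σ, hσ, hf⟩ := hermForm_unitary (F := F) 4 hF
  have hcn : Fintype.card (Fin 4) = 4 := Fintype.card_fin 4
  have h3 : 3 ≤ Fintype.card (Fin 4) := by omega
  have htm : TM hf M := tm_of_le hf hle
  cases hM with
  | sing W h0 hs h => exact not_tm_red hf h3 h0 (lt_of_sing hf h0 hs) (h ▸ htm)
  | nond W h0 hs hd h =>
    refine not_tm_red hf h3 h0 ?_ (h ▸ htm)
    intro e
    rw [e, finrank_top, Module.finrank_fintype_fun_eq_card, hcn] at hd
    omega
  | dec t k D hD h =>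
    have h1 := CfsgLib.AschNum.dec_mul hD.decomp
    have h2 := hD.decomp.pos
    rcases (by omega : k = 1 ∨ 2 ≤ k) with hk | hk
    · subst hk
      refine not_tm_lines hf hD (exists_coeff4 σ ?_) (h ▸ htm)
      omega
    · exact not_tm_dec hf h3 hD.decomp hk (h ▸ htm)
  | pair k D hk hD hs h => exact not_tm_dec hf h3 hD (by omega) (h ▸ htm)
  | fld r K hr ho hK ha h => exact not_tm_fld hf h3 hr hK (h ▸ htm)
  | tp n₁ n₂ e P f₁ f₂ h1 h2 hf₁ hf₂ hS h => exact not_tm_tp hf h3 h1 (by omega) (h ▸ htm)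
  | subo F₀ r P hr ho hc hS h => exact not_tm_sub hf h3 hr hc (h ▸ htm)
  | sub2 F₀ P hq hc hS h => exact not_tm_sub hf h3 Nat.prime_two hc (h ▸ htm)
  | subs F₀ P ζ hev hc h0 h1 hS ha h => exact not_tm_sub hf h3 Nat.prime_two hc (h ▸ htm)
  | st r k R p e hst hal hsim hrp hm hz hdeg hGU h =>
    have hr2 : r = 2 := by
      have h1 : r ∣ 2 ^ 2 := by
        rw [show 2 ^ 2 = r ^ k by rw [← hdeg]; norm_num]
        exact dvd_pow_self r (by rintro rfl; simp at hdeg)
      exact (Nat.prime_dvd_prime_iff_eq hst.prime Nat.prime_two).1 (hst.prime.dvd_of_dvd_pow h1)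
    subst hr2
    have hGU' : R ≤ GU 4 F q := by
      rcases hGU with h1 | h1
      · exact h1
      · exact absurd h1 (by norm_num)
    rcases hz with ⟨ho, -⟩ | ⟨-, rfl, hz1, hz2⟩
    · exact absurd ho (by decide)
    rw [hz1] at hm
    obtain ⟨hp, hq, hmod⟩ := st_num2 hF hrp hm
    have hq3 : 3 ≤ q := by omega
    rcases (by omega : q = 3 ∨ 4 ≤ q) with h33 | h44
    · subst h33
      refine not_tm_st43 (by rw [hF]; norm_num) hf hσ hst.pGroup hal ?_ (h ▸ htm)
      intro g hg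
      rw [mem_iso]
      exact fun u v => hGU' hg u v
    · refine not_tm_st hf h3 hst.prime hst.pGroup hal (Or.inr ⟨?_, exists_real hf hF h44⟩) (h ▸ htm)
      rw [hcn]
      intro h0
      haveI := hm.2.1
      have h4 := (CharP.cast_eq_zero_iff F p 4).1 h0
      have h5 : p ∣ 2 ^ 2 := by norm_num; exact h4
      have h6 := (Nat.prime_dvd_prime_iff_eq hp Nat.prime_two).1 (hp.dvd_of_dvd_pow h5)
      exact hrp h6.symm
  | tw k t e P f₁ hk ht hex hf₁ hS h => exact not_tm_tw hf h3 hk ht (h ▸ htm)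

theorem max4 {q : ℕ} {F : Type*} [Field F] [Fintype F] (hF : Fintype.card F = q ^ 2)
    {H : Subgroup (GL (Fin 4) F)} (hH : IsMaximalIn (GU 4 F q ⊓ specialLinear (Fin 4) F) H) :
    (∃ M, ClsU 4 q M ∧ H = M ⊓ (GU 4 F q ⊓ specialLinear (Fin 4) F)) ∨ InUnitaryResidualClass H := by
  rcases unitU 4 q hF (by omega) H (hH.1.le.trans inf_le_left) with ⟨M, hM, hle⟩ | h
  · exact Or.inl ⟨M, hM, eq_of_max hH hle (not_le4 hF hM)⟩
  · exact Or.inr h

/-- planes over the field with four elements -/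
theorem planes_max4 {q : ℕ} {F : Type*} [Field F] [Fintype F] (hF : Fintype.card F = q ^ 2) {H : Subgroup (GL (Fin 4) F)}
    (hH : IsMaximalIn (GU 4 F q ⊓ specialLinear (Fin 4) F) H) {t : ℕ} {D : Fin t → Submodule F (Fin 4 → F)}
    (hD : IsNondegenerateMDecomposition (hermForm 4 F q) 2 D) (h : H = decompositionStabilizer D ⊓ (GU 4 F q ⊓ specialLinear (Fin 4) F)) :
    3 ≤ q ∨ (q = 2 ∧ ∃ D : Fin 4 → Submodule F (Fin 4 → F), IsNondegenerateMDecomposition (hermForm 4 F q) 1 D ∧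
      H = decompositionStabilizer D ⊓ (GU 4 F q ⊓ specialLinear (Fin 4) F)) := by
  have hq := two_le_q hF
  rcases (by omega : q = 2 ∨ 3 ≤ q) with h2 | h3
  · right
    refine ⟨h2, ?_⟩
    obtain ⟨σ, hσ, hf⟩ := hermForm_unitary (F := F) 4 hF
    have hF4 : Fintype.card F = 4 := by rw [hF, h2]; norm_num
    obtain ⟨D', hD', hle⟩ := refine_planes (by omega) hF4 (fun x => by rw [hσ, h2]) hf hD
    refine ⟨D', hD', eq_of_max hH ?_ (not_le4 hF (.dec 4 1 D' hD' rfl))⟩
    intro g hg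
    have hg' := hg
    rw [h] at hg'
    exact hle g hg'.2.1 hg'.1
  · exact Or.inl h3

/-- the group attached to a decomposition into lines over the field with nine elements -/
theorem exists_RR {F : Type*} [Field F] [Fintype F] (hF : Fintype.card F = 9) {σ : F ≃+* F} (hσ : ∀ x, σ x = x ^ 3)
    {f : (Fin 4 → F) → (Fin 4 → F) → F} (hf : IsUnitaryForm σ f) {D : Fin 4 → Submodule F (Fin 4 → F)}
    (hD : IsNondegenerateMDecomposition f 1 D) :
    ∃ R : Subgroup (GL (Fin 4) F), IsSymplecticTypeGroup 2 R ∧ ActsAbsolutelyIrreducibly (matrixSet R) ∧ R ≤ iso f ∧ Nat.card R = 64 ∧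
      Nat.card (Subgroup.center R) = 4 ∧ decompositionStabilizer D ⊓ (iso f ⊓ specialLinear (Fin 4) F) ≤ subgroupNormalizer R := by
  have h3 : (3 : F) = 0 := by
    have h1 := Nat.cast_card_eq_zero F
    rw [hF] at h1
    have h2 : ((9 : ℕ) : F) = 3 * 3 := by norm_num
    rw [h2] at h1
    exact mul_self_eq_zero.1 h1
  have h2 : (2 : F) ≠ 0 := by
    intro h2
    have : (1 : F) = 0 := by linear_combination h3 - h2
    exact one_ne_zero this
  obtain ⟨ζ, hζ⟩ : IsSquare (-1 : F) := FiniteField.isSquare_neg_one_iff.2 (by rw [hF]; norm_num)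
  have hζ := hζ.symm
  have hN : ζ * σ ζ = 1 := by
    rw [hσ]
    have : ζ * ζ ^ 3 = (ζ * ζ) * (ζ * ζ) := by ring
    rw [this, hζ]; ring
  -- orthonormal frame
  have hu : ∀ i, ∃ v ∈ D i, f v v = 1 := by
    intro i
    have hne : D i ≠ ⊥ := by
      intro e
      have := hD.decomp.finrank_eq i
      rw [e, finrank_bot] at this
      omega
    obtain ⟨u, hu, hu0⟩ := (Submodule.ne_bot_iff _).1 hne
    obtain ⟨⟨y, hy, hyu⟩, -⟩ := hD.nondegenerate i u hu hu0
    obtain ⟨w, hw, hww⟩ := exists_nonisotropic hf (D i) hu hy (swap_ne hf hyu)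
    obtain ⟨c, hc⟩ := exists_norm hf ((f w w)⁻¹) (by rw [map_inv₀, norm_real hf])
    refine ⟨c • w, (D i).smul_mem _ hw, ?_⟩
    rw [hf.smul_left, smul_right hf, ← mul_assoc, hc, inv_mul_cancel₀ hww]
  choose v hv hvv using hu
  have hvo : ∀ i j, i ≠ j → f (v i) (v j) = 0 := fun i j hij => hD.orthogonal i j hij _ (hv i) _ (hv j)
  have hli := linInd_orth hf (v := v) (fun i => by rw [hvv]; exact one_ne_zero) hvo
  let B : Basis (Fin 4) F (Fin 4 → F) := basisOfLinearIndependentOfCardEqFinrank hli (by simp)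
  have hBv : ∀ i, B i = v i := fun i => by rw [coe_basisOfLinearIndependentOfCardEqFinrank]
  have hB : ∀ i j, f (B i) (B j) = if i = j then 1 else 0 := by
    intro i j
    rw [hBv, hBv]
    by_cases hij : i = j
    · subst hij; rw [if_pos rfl, hvv]
    · rw [if_neg hij, hvo i j hij]
  have hDs : ∀ i, D i = Submodule.span F {v i} := by
    intro i
    symm
    apply Submodule.eq_of_le_of_finrank_eq
    · rw [Submodule.span_le, Set.singleton_subset_iff]; exact hv i
    · rw [hD.decomp.finrank_eq i]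
      apply finrank_span_singleton
      intro h
      have := hvv i
      rw [h, zero_left hf] at this
      exact zero_ne_one this
  refine ⟨RR B hζ, symp_RR B h2 hζ, absirr_RR B h2 hζ, RR_le_iso B hf hζ hN hB, card_RR B h2 hζ, card_center_RR B h2 hζ, ?_⟩
  rintro g ⟨⟨π, hπ⟩, hgi, hgs⟩
  have hdet : (g : Matrix (Fin 4) (Fin 4) F).det = 1 := by
    have := congrArg Units.val (MonoidHom.mem_ker.1 hgs)
    exact this
  have h4 : ∀ j, ∃ d : ZMod 4, (g : Matrix (Fin 4) (Fin 4) F) *ᵥ B j = wz ζ d • B (π j) := by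
    intro j
    have h5 : (g : Matrix (Fin 4) (Fin 4) F) *ᵥ v j ∈ D (π j) := by
      rw [← hπ j]
      exact ⟨v j, hv j, Matrix.toLin'_apply _ _⟩
    rw [hDs] at h5
    obtain ⟨c, hc⟩ := Submodule.mem_span_singleton.1 h5
    have h6 : c * σ c = 1 := by
      have h7 := (mem_iso g).1 hgi (v j) (v j)
      rw [← hc, hf.smul_left, smul_right hf, hvv, hvv, mul_one] at h7
      exact h7
    rw [hσ] at h6
    have h8 : (c * c) * (c * c) = 1 := by rw [← h6]; ring
    rw [hBv, hBv, ← hc]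
    rcases mul_self_eq_one_iff.1 h8 with h9 | h9
    · rcases mul_self_eq_one_iff.1 h9 with h10 | h10
      · exact ⟨0, by rw [wz_zero, h10]⟩
      · exact ⟨2, by rw [wz_two hζ, h10]⟩
    · rw [← hζ] at h9
      rcases mul_self_eq_mul_self_iff.1 h9 with h10 | h10
      · exact ⟨1, by rw [wz_one, h10]⟩
      · exact ⟨1 + 2, by rw [wz_add hζ, wz_one, wz_two hζ, h10, mul_neg_one]⟩
  choose d hd using h4
  exact frame_norm B h2 hζ hdet hd

/-- lines over the field with nine elements -/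
theorem lines_max43 {q : ℕ} {F : Type*} [Field F] [Fintype F] (hF : Fintype.card F = q ^ 2) {H : Subgroup (GL (Fin 4) F)}
    (hH : IsMaximalIn (GU 4 F q ⊓ specialLinear (Fin 4) F) H) {D : Fin 4 → Submodule F (Fin 4 → F)}
    (hD : IsNondegenerateMDecomposition (hermForm 4 F q) 1 D) (h : H = decompositionStabilizer D ⊓ (GU 4 F q ⊓ specialLinear (Fin 4) F)) :
    q ≠ 3 ∨ (q = 3 ∧ ∃ R : Subgroup (GL (Fin 4) F), IsSymplecticTypeGroup 2 R ∧ ActsAbsolutelyIrreducibly (matrixSet R) ∧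
      R ≤ similarityGroup (hermForm 4 F q) ∧ Nat.card R = 64 ∧ Nat.card (Subgroup.center R) = 4 ∧
      H = subgroupNormalizer R ⊓ (GU 4 F q ⊓ specialLinear (Fin 4) F)) := by
  by_cases hq : q = 3
  swap
  · exact Or.inl hq
  right
  refine ⟨hq, ?_⟩
  subst hq
  have hF9 : Fintype.card F = 9 := by rw [hF]; norm_num
  obtain ⟨σ, hσ, hf⟩ := hermForm_unitary (F := F) 4 hF
  obtain ⟨R, h1, h2, h3, h4, h5, h6⟩ := exists_RR hF9 hσ hf hD
  refine ⟨R, h1, h2, ?_, h4, h5, ?_⟩
  · intro g hg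
    exact ⟨1, fun u v => by rw [(mem_iso g).1 (h3 hg)]; simp⟩
  · apply eq_of_max hH
    · rw [h]
      intro g hg
      exact h6 ⟨hg.1, (mem_iso g).2 (fun u v => hg.2.1 u v), hg.2.2⟩
    · intro hle
      have htm : TM hf (subgroupNormalizer R) := tm_of_le hf hle
      exact not_tm_st43 hF9 hf hσ h1.pGroup h2 h3 htm

end CfsgLib.H14SU
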