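import Cfsg.Agent.LibH14SU14
import Cfsg.Agent.LibAschF28

/-! Special unitary groups: rational structures from bases, and pairs of totally isotropic subspaces (seat helper14). -/

set_option autoImplicit false

namespace CfsgLib.H14SU

open Module Cfsg Cfsg.Geo CfsgLib.MaxTv29 CfsgLib.Un29 CfsgLib.H14SU1
open scoped Matrix MatrixGroups Kronecker

section gen
variable {ι : Type} [Fintype ι] [DecidableEq ι] {F : Type*} [Field F]

theorem mulVec_basis {bs : Basis ι F (ι → F)} {P : GL ι F} (hP : ∀ i j, (P : Matrix ι ι F) j i = bs i j) (u : ι → F) :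
    (P : Matrix ι ι F) *ᵥ u = ∑ i, u i • bs i := by
  funext j
  rw [Finset.sum_apply, Matrix.mulVec, dotProduct]
  apply Finset.sum_congr rfl
  intro i _
  rw [hP, Pi.smul_apply, smul_eq_mul, mul_comm]

/-- membership in a subfield subgroup from the action on a basis -/
theorem mem_sub_of {F₀ : Subfield F} {bs : Basis ι F (ι → F)} {P : GL ι F} (hP : ∀ i j, (P : Matrix ι ι F) j i = bs i j) {g : GL ι F}
    {l : F} (hl : l ≠ 0) (h : ∀ j, ∃ c : ι → F, (∀ i, c i ∈ F₀) ∧ l • ((g : Matrix ι ι F) *ᵥ bs j) = ∑ i, c i • bs i) :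
    g ∈ subfieldSubgroup F₀ P := by
  let s : GL ι F := ⟨l • 1, l⁻¹ • 1, by rw [smul_mul_smul_comm, mul_inv_cancel₀ hl, one_smul, one_mul], by
    rw [smul_mul_smul_comm, inv_mul_cancel₀ hl, one_smul, one_mul]⟩
  have hsv : (s : Matrix ι ι F) = l • 1 := rfl
  have hs : s ∈ subfieldSubgroup F₀ P := by
    have hsc : s ∈ scalars ι F := (mem_scalars_iff s).2 ⟨Units.mk0 l hl, rfl⟩
    refine ⟨s, Subgroup.mem_sup_right hsc, ?_⟩
    change P * s * P⁻¹ = s
    rw [mul_inv_eq_iff_eq_mul]
    apply Units.ext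
    rw [Units.val_mul, Units.val_mul, hsv]
    simp
  have hcol : ∀ j, (P : Matrix ι ι F) *ᵥ Pi.single j 1 = bs j := by
    intro j
    rw [mulVec_basis hP, Finset.sum_eq_single j]
    · simp
    · intro i _ hij
      rw [Pi.single_eq_of_ne hij, zero_smul]
    · simp
  have h1 : s * g ∈ subfieldSubgroup F₀ P := by
    apply CfsgLib.AschF.mem_subfield
    intro i j
    obtain ⟨c, hc, hc'⟩ := h j
    have e1 : (((P⁻¹ : GL ι F) : Matrix ι ι F) * ((s * g : GL ι F) : Matrix ι ι F) * (P : Matrix ι ι F)) *ᵥ Pi.single j 1 = c := by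
      rw [← Matrix.mulVec_mulVec, hcol, ← Matrix.mulVec_mulVec, Units.val_mul, ← Matrix.mulVec_mulVec, hsv, Matrix.smul_mulVec,
        Matrix.one_mulVec, hc', ← mulVec_basis hP, Matrix.mulVec_mulVec, ← Units.val_mul, inv_mul_cancel, Units.val_one, Matrix.one_mulVec]
    have e2 := congrFun e1 i
    rw [Matrix.mulVec_single_one] at e2
    rw [show (((P⁻¹ : GL ι F) : Matrix ι ι F) * ((s * g : GL ι F) : Matrix ι ι F) * (P : Matrix ι ι F)) i j = c i from e2]
    exact hc i
  have h2 := mul_mem (inv_mem hs) h1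
  rwa [inv_mul_cancel_left] at h2

theorem sum_skew {a : ι → ι → F} (h0 : ∀ i, a i i = 0) (h1 : ∀ i j, a i j + a j i = 0) : ∑ i, ∑ j, a i j = 0 := by
  rw [← Finset.sum_product']
  refine Finset.sum_involution (fun x _ => (x.2, x.1)) ?_ ?_ ?_ ?_
  · intro x _; exact h1 _ _
  · rintro ⟨i, j⟩ _ hne he
    simp only [Prod.mk.injEq] at he
    apply hne
    show a i j = 0
    rw [he.1]
    exact h0 i
  · intro x _; simp
  · intro x _; rfl

variable {σ : F ≃+* F} {f : (ι → F) → (ι → F) → F}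

theorem form_bs (hf : IsUnitaryForm σ f) {bs : Basis ι F (ι → F)} {P : GL ι F} (hP : ∀ i j, (P : Matrix ι ι F) j i = bs i j) (u v : ι → F) :
    f ((P : Matrix ι ι F) *ᵥ u) ((P : Matrix ι ι F) *ᵥ v) = ∑ i, ∑ j, u i * σ (v j) * f (bs i) (bs j) := by
  rw [mulVec_basis hP, mulVec_basis hP, sum_left hf]
  apply Finset.sum_congr rfl
  intro i _
  rw [sum_right hf]
  apply Finset.sum_congr rfl
  intro j _
  rw [hf.smul_left, smul_right hf, mul_assoc]

theorem ratl_of (hf : IsUnitaryForm σ f) {F₀ : Subfield F} (hF₀ : ∀ x ∈ F₀, σ x = x) {ζ : F} {bs : Basis ι F (ι → F)} {P : GL ι F}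
    (hP : ∀ i j, (P : Matrix ι ι F) j i = bs i j) (h : ∀ i j, ζ * f (bs i) (bs j) ∈ F₀) : IsFormRationalStructure f F₀ ζ P := by
  intro u v hu hv
  rw [form_bs hf hP, Finset.mul_sum]
  refine F₀.sum_mem (fun i _ => ?_)
  rw [Finset.mul_sum]
  refine F₀.sum_mem (fun j _ => ?_)
  rw [hF₀ _ (hv j)]
  have : ζ * (u i * v j * f (bs i) (bs j)) = u i * v j * (ζ * f (bs i) (bs j)) := by ring
  rw [this]
  exact F₀.mul_mem (F₀.mul_mem (hu i) (hv j)) (h i j)

theorem alt_of (hf : IsUnitaryForm σ f) {F₀ : Subfield F} (hF₀ : ∀ x ∈ F₀, σ x = x) {bs : Basis ι F (ι → F)} {P : GL ι F}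
    (hP : ∀ i j, (P : Matrix ι ι F) j i = bs i j) (h0 : ∀ i, f (bs i) (bs i) = 0) (h : ∀ i j, f (bs i) (bs j) + f (bs j) (bs i) = 0) :
    ∀ u : ι → F, (∀ i, u i ∈ F₀) → f ((P : Matrix ι ι F) *ᵥ u) ((P : Matrix ι ι F) *ᵥ u) = 0 := by
  intro u hu
  rw [form_bs hf hP]
  apply sum_skew
  · intro i; rw [h0, mul_zero]
  · intro i j
    rw [hF₀ _ (hu i), hF₀ _ (hu j)]
    linear_combination (u i * u j) * h i j

end gen

/-- dual bases of two complementary totally isotropic subspaces -/
theorem dual_bases {ι : Type} [Fintype ι] [DecidableEq ι] {F : Type*} [Field F] {σ : F ≃+* F} {f : (ι → F) → (ι → F) → F}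
    (hf : IsUnitaryForm σ f) {m : ℕ} {U W : Submodule F (ι → F)} (hU : finrank F U = m) (hW : finrank F W = m)
    (hsup : U ⊔ W = ⊤) (hc : Fintype.card ι = m + m) (hUs : IsTotallySingularFor f U) (hWs : IsTotallySingularFor f W) :
    ∃ B : Basis (Fin m ⊕ Fin m) F (ι → F), (∀ i, B (Sum.inl i) ∈ U) ∧ (∀ i, B (Sum.inr i) ∈ W) ∧
      ∀ i j, f (B (Sum.inl i)) (B (Sum.inr j)) = if i = j then 1 else 0 := by
  classical
  let a : Basis (Fin m) F U := Module.finBasisOfFinrankEq F U hU
  let L : W →ₗ[F] (Fin m → F) := LinearMap.pi (fun i => (fd hf (a i : ι → F)).comp W.subtype)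
  have hL : ∀ y i, L y i = f (y : ι → F) (a i) := fun y i => rfl
  have hinj : Function.Injective L := by
    rw [injective_iff_map_eq_zero]
    intro y hy
    have h1 : ∀ x ∈ U, f (y : ι → F) x = 0 := by
      intro x hx
      have h2 : (⟨x, hx⟩ : U) = ∑ i, a.repr ⟨x, hx⟩ i • a i := (a.sum_repr _).symm
      have h3 : x = ∑ i, a.repr ⟨x, hx⟩ i • (a i : ι → F) := by
        have := congrArg (Submodule.subtype U) h2
        rw [map_sum] at this
        simpa using this
      rw [h3, sum_right hf]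
      apply Finset.sum_eq_zero
      intro i _
      rw [smul_right hf, ← hL, hy]
      simp
    by_contra hne
    have hy0 : (y : ι → F) ≠ 0 := fun e => hne (Subtype.ext e)
    obtain ⟨-, z, hz⟩ := hf.nondegenerate _ hy0
    have hz' : z ∈ U ⊔ W := by rw [hsup]; trivial
    obtain ⟨z1, hz1, z2, hz2, rfl⟩ := Submodule.mem_sup.1 hz'
    apply hz
    rw [add_right hf, h1 z1 hz1, hWs _ y.2 _ hz2, add_zero]
  have hbij : Function.Bijective L := by
    refine ⟨hinj, ?_⟩
    rw [← LinearMap.range_eq_top]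
    apply Submodule.eq_top_of_finrank_eq
    rw [LinearMap.finrank_range_of_inj hinj, hW, Module.finrank_fintype_fun_eq_card, Fintype.card_fin]
  have hb : ∀ j, ∃ y : W, L y = Pi.single j 1 := fun j => hbij.2 _
  choose b hb using hb
  have hab : ∀ i j, f (a i : ι → F) (b j) = if i = j then 1 else 0 := by
    intro i j
    rw [hf.herm, ← hL, hb]
    by_cases hij : i = j
    · subst hij; simp
    · rw [Pi.single_eq_of_ne hij, if_neg hij, map_zero]
  have hba : ∀ i j, f (b j : ι → F) (a i) = if i = j then 1 else 0 := by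
    intro i j
    rw [← hL, hb]
    by_cases hij : i = j
    · subst hij; simp
    · rw [Pi.single_eq_of_ne hij, if_neg hij]
  have hli : LinearIndependent F (Sum.elim (fun i => (a i : ι → F)) (fun j => (b j : ι → F))) := by
    rw [Fintype.linearIndependent_iff]
    intro c hc
    rw [Fintype.sum_sum_type] at hc
    simp only [Sum.elim_inl, Sum.elim_inr] at hc
    have h1 : ∀ v : ι → F, ∑ i, c (Sum.inl i) * f (a i : ι → F) v + ∑ j, c (Sum.inr j) * f (b j : ι → F) v = 0 := by
      intro v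
      have h2 := congrArg (fun x => f x v) hc
      rw [hf.add_left, sum_left hf, sum_left hf, zero_left hf] at h2
      simpa only [hf.smul_left] using h2
    rintro (i | j)
    · have h2 := h1 (b i)
      simp only [hab] at h2
      rw [Finset.sum_eq_single i, Finset.sum_eq_zero] at h2
      · simpa using h2
      · intro j _; rw [hWs _ (b j).2 _ (b i).2, mul_zero]
      · intro j _ hj; rw [if_neg hj, mul_zero]
      · simp
    · have h2 := h1 (a j)
      simp only [hba] at h2
      rw [Finset.sum_eq_zero, Finset.sum_eq_single j] at h2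
      · simpa using h2
      · intro i _ hi; rw [if_neg (Ne.symm hi), mul_zero]
      · simp
      · intro i _; rw [hUs _ (a i).2 _ (a j).2, mul_zero]
  have hspan : ⊤ ≤ Submodule.span F (Set.range (Sum.elim (fun i => (a i : ι → F)) (fun j => (b j : ι → F)))) := by
    rw [LinearIndependent.span_eq_top_of_card_eq_finrank' hli]
    rw [Fintype.card_sum, Fintype.card_fin, Module.finrank_fintype_fun_eq_card, hc]
  refine ⟨Basis.mk hli hspan, ?_, ?_, ?_⟩
  · intro i; rw [Basis.mk_apply]; exact (a i).2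
  · intro i; rw [Basis.mk_apply]; exact (b i).2
  · intro i j; rw [Basis.mk_apply, Basis.mk_apply]; exact hab i j

end CfsgLib.H14SU
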