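import Cfsg.Agent.LibH14SU15

/-! Special unitary groups in dimension four over small fields: pairs of totally isotropic planes (seat helper14). -/

set_option autoImplicit false

namespace CfsgLib.H14SU

open Module Cfsg Cfsg.Geo CfsgLib.MaxTv29 CfsgLib.Un29 CfsgLib.H14SU1
open scoped Matrix MatrixGroups Kronecker

section gen
variable {ι κ : Type} [Fintype ι] [DecidableEq ι] [Fintype κ] [DecidableEq κ] {F : Type*} [Field F]

theorem det_of_cols (B : Basis κ F (ι → F)) {g : Matrix ι ι F} {M : Matrix κ κ F} (h : ∀ c, g *ᵥ B c = ∑ r, M r c • B r) : g.det = M.det := by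
  rw [← LinearMap.det_toLin', ← LinearMap.det_toMatrix B]
  congr 1
  ext r c
  rw [LinearMap.toMatrix_apply, Matrix.toLin'_apply, h, map_sum, Finsupp.finset_sum_apply]
  simp [Finsupp.single_apply]

variable {σ : F ≃+* F} {f : (ι → F) → (ι → F) → F}

omit [Fintype κ] [DecidableEq κ] in
/-- isometries are recognized on a basis -/
theorem iso_of_bs (B : Basis κ F (ι → F)) (hf : IsUnitaryForm σ f) {g : GL ι F}
    (h : ∀ i j, f ((g : Matrix ι ι F) *ᵥ B i) ((g : Matrix ι ι F) *ᵥ B j) = f (B i) (B j)) : g ∈ iso f := by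
  rw [mem_iso]
  have key : ∀ y, (∀ i, f ((g : Matrix ι ι F) *ᵥ B i) ((g : Matrix ι ι F) *ᵥ y) = f (B i) y) →
      ∀ x, f ((g : Matrix ι ι F) *ᵥ x) ((g : Matrix ι ι F) *ᵥ y) = f x y := by
    intro y hy x
    have h1 : (fd hf ((g : Matrix ι ι F) *ᵥ y)).comp (Matrix.toLin' (g : Matrix ι ι F)) = fd hf y := by
      apply B.ext
      intro i
      rw [LinearMap.comp_apply, Matrix.toLin'_apply, fd_apply, fd_apply, hy]
    have h2 := congrArg (fun L => L x) h1
    rwa [LinearMap.comp_apply, Matrix.toLin'_apply, fd_apply, fd_apply] at h2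
  intro x y
  apply key
  intro i
  rw [hf.herm, key (B i) (fun j => h j i), ← hf.herm]

/-- expansion in dual bases -/
theorem dual_expand (hf : IsUnitaryForm σ f) {m : ℕ} (B : Basis (Fin m ⊕ Fin m) F (ι → F))
    (h1 : ∀ i j, f (B (Sum.inl i)) (B (Sum.inl j)) = 0) (h2 : ∀ i j, f (B (Sum.inr i)) (B (Sum.inr j)) = 0)
    (h3 : ∀ i j, f (B (Sum.inl i)) (B (Sum.inr j)) = if i = j then 1 else 0) (x : ι → F) :
    x = ∑ i, f x (B (Sum.inr i)) • B (Sum.inl i) + ∑ i, f x (B (Sum.inl i)) • B (Sum.inr i) := by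
  have h4 : ∀ i j, f (B (Sum.inr i)) (B (Sum.inl j)) = if i = j then 1 else 0 := by
    intro i j
    rw [hf.herm, h3]
    by_cases hij : i = j
    · subst hij; simp
    · rw [if_neg (Ne.symm hij), if_neg hij, map_zero]
  have e := B.sum_repr x
  rw [Fintype.sum_sum_type] at e
  have e1 : ∀ i, f x (B (Sum.inr i)) = B.repr x (Sum.inl i) := by
    intro i
    conv_lhs => rw [← e]
    rw [hf.add_left, sum_left hf, sum_left hf, Finset.sum_eq_single i, Finset.sum_eq_zero, hf.smul_left, h3, if_pos rfl, mul_one, add_zero]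
    · intro j _; rw [hf.smul_left, h2, mul_zero]
    · intro j _ hj; rw [hf.smul_left, h3, if_neg hj, mul_zero]
    · simp
  have e2 : ∀ i, f x (B (Sum.inl i)) = B.repr x (Sum.inr i) := by
    intro i
    conv_lhs => rw [← e]
    rw [hf.add_left, sum_left hf, sum_left hf, Finset.sum_eq_zero, Finset.sum_eq_single i, hf.smul_left, h4, if_pos rfl, mul_one, zero_add]
    · intro j _ hj; rw [hf.smul_left, h4, if_neg hj, mul_zero]
    · simp
    · intro j _; rw [hf.smul_left, h1, mul_zero]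
  simp only [e1, e2]
  exact e.symm

end gen

section four
variable {ι : Type} [Fintype ι] [DecidableEq ι] {F : Type*} [Field F] {σ : F ≃+* F} {f : (ι → F) → (ι → F) → F}

/-- vectors of the graph of the semilinear map -/
noncomputable def vv (σ : F ≃+* F) (B : Basis (Fin 2 ⊕ Fin 2) F (ι → F)) (x y : F) : ι → F :=
  x • B (Sum.inl 0) + y • B (Sum.inl 1) + σ y • B (Sum.inr 0) - σ x • B (Sum.inr 1)

structure Dual (f : (ι → F) → (ι → F) → F) (B : Basis (Fin 2 ⊕ Fin 2) F (ι → F)) : Prop where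
  h1 : ∀ i j, f (B (Sum.inl i)) (B (Sum.inl j)) = 0
  h2 : ∀ i j, f (B (Sum.inr i)) (B (Sum.inr j)) = 0
  h3 : ∀ i j, f (B (Sum.inl i)) (B (Sum.inr j)) = if i = j then 1 else 0

theorem Dual.h4 (hf : IsUnitaryForm σ f) {B : Basis (Fin 2 ⊕ Fin 2) F (ι → F)} (hB : Dual f B) :
    ∀ i j, f (B (Sum.inr i)) (B (Sum.inl j)) = if i = j then 1 else 0 := by
  intro i j
  rw [hf.herm, hB.h3]
  by_cases hij : i = j
  · subst hij; simp
  · rw [if_neg (Ne.symm hij), if_neg hij, map_zero]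

theorem vv_form (hf : IsUnitaryForm σ f) {B : Basis (Fin 2 ⊕ Fin 2) F (ι → F)} (hB : Dual f B) (x y x' y' : F) :
    f (vv σ B x y) (vv σ B x' y') = (x * y' - y * x') - σ (x * y' - y * x') := by
  have h4 := hB.h4 hf
  simp only [vv, hf.add_left, add_right hf, sub_left hf, sub_right hf, hf.smul_left, smul_right hf, hB.h1, hB.h2, hB.h3, h4,
    hf.involutive, map_sub, map_mul]
  have h01 : ¬ ((0 : Fin 2) = 1) := by decide
  have h10 : ¬ ((1 : Fin 2) = 0) := by decide
  simp only [if_true, if_neg h01, if_neg h10]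
  ring

/-- the four vectors -/
noncomputable def pv (σ : F ≃+* F) (B : Basis (Fin 2 ⊕ Fin 2) F (ι → F)) (ω : F) : Fin 4 → ι → F :=
  ![vv σ B 1 0, vv σ B ω 0, vv σ B 0 1, vv σ B 0 ω]

theorem vv_comb {B : Basis (Fin 2 ⊕ Fin 2) F (ι → F)} {ω : F} (s t s' t' : F) (hs : σ s = s) (ht : σ t = t) (hs' : σ s' = s') (ht' : σ t' = t') :
    vv σ B (s + t * ω) (s' + t' * ω) = s • vv σ B 1 0 + t • vv σ B ω 0 + s' • vv σ B 0 1 + t' • vv σ B 0 ω := by
  simp only [vv, map_add, map_mul, hs, ht, hs', ht', map_one, map_zero, zero_smul, one_smul]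
  module

theorem exists_coord (hσ : ∀ a, σ (σ a) = a) {ω : F} (hω : σ ω ≠ ω) (x : F) : ∃ s t : F, σ s = s ∧ σ t = t ∧ x = s + t * ω := by
  have h0 : ω - σ ω ≠ 0 := sub_ne_zero.2 (Ne.symm hω)
  have h1 : σ ω - ω ≠ 0 := sub_ne_zero.2 hω
  have ht : σ ((x - σ x) / (ω - σ ω)) = (x - σ x) / (ω - σ ω) := by
    rw [map_div₀, map_sub, map_sub, hσ, hσ, div_eq_div_iff h1 h0]; ring
  refine ⟨x - (x - σ x) / (ω - σ ω) * ω, (x - σ x) / (ω - σ ω), ?_, ht, by ring⟩
  rw [map_sub, map_mul, ht]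
  field_simp
  ring

theorem pv_li (hσ : ∀ a, σ (σ a) = a) {B : Basis (Fin 2 ⊕ Fin 2) F (ι → F)} {ω : F} (hω : σ ω ≠ ω) : LinearIndependent F (pv σ B ω) := by
  have hli := B.linearIndependent
  rw [Fintype.linearIndependent_iff] at hli ⊢
  intro c hc
  rw [Fin.sum_univ_four] at hc
  have h0 : c 0 • vv σ B 1 0 + c 1 • vv σ B ω 0 + c 2 • vv σ B 0 1 + c 3 • vv σ B 0 ω = 0 := hc
  have h1 := hli (Sum.elim ![c 0 + c 1 * ω, c 2 + c 3 * ω] ![c 2 + c 3 * σ ω, -(c 0 + c 1 * σ ω)]) (by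
    rw [Fintype.sum_sum_type, Fin.sum_univ_two, Fin.sum_univ_two]
    simp only [Sum.elim_inl, Sum.elim_inr, Matrix.cons_val_zero, Matrix.cons_val_one]
    rw [← h0]
    simp only [vv, map_one, map_zero, zero_smul, one_smul]
    module)
  have e1 : c 0 + c 1 * ω = 0 := h1 (Sum.inl 0)
  have e2 : c 2 + c 3 * ω = 0 := h1 (Sum.inl 1)
  have e3 : c 2 + c 3 * σ ω = 0 := h1 (Sum.inr 0)
  have e4 : -(c 0 + c 1 * σ ω) = 0 := h1 (Sum.inr 1)
  have hd : ω - σ ω ≠ 0 := sub_ne_zero.2 (Ne.symm hω)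
  have c1 : c 1 = 0 := by
    have : c 1 * (ω - σ ω) = 0 := by linear_combination e1 + e4
    exact (mul_eq_zero.1 this).resolve_right hd
  have c3 : c 3 = 0 := by
    have : c 3 * (ω - σ ω) = 0 := by linear_combination e2 - e3
    exact (mul_eq_zero.1 this).resolve_right hd
  have c0 : c 0 = 0 := by rw [c1] at e1; linear_combination e1
  have c2 : c 2 = 0 := by rw [c3] at e2; linear_combination e2
  intro i
  rcases fin4_cases i with rfl | rfl | rfl | rfl
  · exact c0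
  · exact c1
  · exact c2
  · exact c3

end four

end CfsgLib.H14SU
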