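import Cfsg.Agent.LibH14SU16

/-! Special unitary groups in dimension four over small fields: pairs of totally isotropic planes, second part (seat helper14). -/

set_option autoImplicit false

namespace CfsgLib.H14SU

open Module Cfsg Cfsg.Geo CfsgLib.MaxTv29 CfsgLib.Un29 CfsgLib.H14SU1
open scoped Matrix MatrixGroups Kronecker

section four
variable {F : Type*} [Field F] [Finite F] {σ : F ≃+* F} {f : (Fin 4 → F) → (Fin 4 → F) → F}

theorem mem_sub_vv (hσ : ∀ a, σ (σ a) = a) {B : Basis (Fin 2 ⊕ Fin 2) F (Fin 4 → F)} {ω : F} (hω : σ ω ≠ ω)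
    {bs : Basis (Fin 4) F (Fin 4 → F)} (hbs : ∀ i, bs i = pv σ B ω i) {F₀ : Subfield F} (hF₀ : ∀ x, x ∈ F₀ ↔ σ x = x)
    {P : GL (Fin 4) F} (hP : ∀ i j, (P : Matrix (Fin 4) (Fin 4) F) j i = bs i j) {g : GL (Fin 4) F} {l : F} (hl : l ≠ 0)
    (h : ∀ x y, ∃ x' y', l • ((g : Matrix (Fin 4) (Fin 4) F) *ᵥ vv σ B x y) = vv σ B x' y') : g ∈ subfieldSubgroup F₀ P := by
  apply mem_sub_of hP hl
  have key : ∀ x y, ∃ c : Fin 4 → F, (∀ i, c i ∈ F₀) ∧ l • ((g : Matrix (Fin 4) (Fin 4) F) *ᵥ vv σ B x y) = ∑ i, c i • bs i := by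
    intro x y
    obtain ⟨x', y', h1⟩ := h x y
    obtain ⟨s, t, hs, ht, hx⟩ := exists_coord hσ hω x'
    obtain ⟨s', t', hs', ht', hy⟩ := exists_coord hσ hω y'
    refine ⟨![s, t, s', t'], ?_, ?_⟩
    · intro i
      rcases fin4_cases i with rfl | rfl | rfl | rfl
      · exact (hF₀ _).2 hs
      · exact (hF₀ _).2 ht
      · exact (hF₀ _).2 hs'
      · exact (hF₀ _).2 ht'
    · rw [h1, hx, hy, vv_comb s t s' t' hs ht hs' ht', Fin.sum_univ_four]
      simp only [hbs]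
      rfl
  intro j
  rw [hbs]
  rcases fin4_cases j with rfl | rfl | rfl | rfl
  · exact key 1 0
  · exact key ω 0
  · exact key 0 1
  · exact key 0 ω

/-- elements fixing both planes -/
theorem fix_vv (hf : IsUnitaryForm σ f) {B : Basis (Fin 2 ⊕ Fin 2) F (Fin 4 → F)} (hB : Dual f B)
    (hreal : ∀ d : F, σ d = d → d ≠ 0 → d * d = 1) {g : GL (Fin 4) F} (hg : g ∈ iso f)
    (hdet : (g : Matrix (Fin 4) (Fin 4) F).det = 1)
    (hU : ∀ i j, f ((g : Matrix (Fin 4) (Fin 4) F) *ᵥ B (Sum.inl i)) (B (Sum.inl j)) = 0)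
    (hW : ∀ i j, f ((g : Matrix (Fin 4) (Fin 4) F) *ᵥ B (Sum.inr i)) (B (Sum.inr j)) = 0) :
    ∃ l : F, l ≠ 0 ∧ ∀ x y, ∃ x' y', l • ((g : Matrix (Fin 4) (Fin 4) F) *ᵥ vv σ B x y) = vv σ B x' y' := by
  obtain ⟨δ, hδ, hδ'⟩ := exists_skew hf
  -- coordinates
  set G : Matrix (Fin 4) (Fin 4) F := (g : Matrix (Fin 4) (Fin 4) F) with hG
  set A : Matrix (Fin 2) (Fin 2) F := Matrix.of fun k i => f (G *ᵥ B (Sum.inl i)) (B (Sum.inr k)) with hA
  set D : Matrix (Fin 2) (Fin 2) F := Matrix.of fun k i => f (G *ᵥ B (Sum.inr i)) (B (Sum.inl k)) with hD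
  have ha : ∀ i, G *ᵥ B (Sum.inl i) = A 0 i • B (Sum.inl 0) + A 1 i • B (Sum.inl 1) := by
    intro i
    conv_lhs => rw [dual_expand hf B hB.h1 hB.h2 hB.h3 (G *ᵥ B (Sum.inl i))]
    simp only [hU, zero_smul, Finset.sum_const_zero, add_zero]
    rw [Fin.sum_univ_two]
    rfl
  have hd : ∀ i, G *ᵥ B (Sum.inr i) = D 0 i • B (Sum.inr 0) + D 1 i • B (Sum.inr 1) := by
    intro i
    conv_lhs => rw [dual_expand hf B hB.h1 hB.h2 hB.h3 (G *ᵥ B (Sum.inr i))]
    simp only [hW, zero_smul, Finset.sum_const_zero, zero_add]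
    rw [Fin.sum_univ_two]
    rfl
  have h01 : ¬ ((0 : Fin 2) = 1) := by decide
  have h10 : ¬ ((1 : Fin 2) = 0) := by decide
  have hrel : ∀ i j, A 0 i * σ (D 0 j) + A 1 i * σ (D 1 j) = if i = j then 1 else 0 := by
    intro i j
    have h1 := (mem_iso g).1 hg (B (Sum.inl i)) (B (Sum.inr j))
    rw [hB.h3, ← hG, ha, hd] at h1
    simp only [hf.add_left, add_right hf, hf.smul_left, smul_right hf, hB.h3, if_true, if_neg h01, if_neg h10] at h1
    rw [← h1]; ring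
  have r00 : A 0 0 * σ (D 0 0) + A 1 0 * σ (D 1 0) = 1 := by rw [hrel 0 0, if_pos rfl]
  have r01 : A 0 0 * σ (D 0 1) + A 1 0 * σ (D 1 1) = 0 := by rw [hrel 0 1, if_neg h01]
  have r10 : A 0 1 * σ (D 0 0) + A 1 1 * σ (D 1 0) = 0 := by rw [hrel 1 0, if_neg h10]
  have r11 : A 0 1 * σ (D 0 1) + A 1 1 * σ (D 1 1) = 1 := by rw [hrel 1 1, if_pos rfl]
  -- the determinant
  have hdd : A.det * D.det = 1 := by
    rw [← Matrix.det_fromBlocks_zero₂₁ A 0 D, ← hdet]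
    symm
    apply det_of_cols B
    rintro (i | i)
    · rw [ha, Fintype.sum_sum_type, Fin.sum_univ_two, Fin.sum_univ_two]
      simp [Matrix.fromBlocks]
    · rw [hd, Fintype.sum_sum_type, Fin.sum_univ_two, Fin.sum_univ_two]
      simp [Matrix.fromBlocks]
  set d : F := A 0 0 * A 1 1 - A 0 1 * A 1 0 with hd0
  have hdA : A.det = d := by rw [Matrix.det_fin_two]
  have hD2 : d * σ (D.det) = 1 := by
    rw [Matrix.det_fin_two, map_sub, map_mul, map_mul, hd0]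
    have e : (A 0 0 * σ (D 0 0) + A 1 0 * σ (D 1 0)) * (A 0 1 * σ (D 0 1) + A 1 1 * σ (D 1 1)) -
      (A 0 0 * σ (D 0 1) + A 1 0 * σ (D 1 1)) * (A 0 1 * σ (D 0 0) + A 1 1 * σ (D 1 0)) = 1 := by
      rw [r00, r01, r10, r11]; ring
    linear_combination e
  have hd1 : d ≠ 0 := by
    intro h
    rw [hdA, h, zero_mul] at hdd
    exact zero_ne_one hdd
  have hDd : D.det = d⁻¹ := by
    rw [hdA] at hdd
    exact (eq_inv_of_mul_eq_one_right hdd)
  have hσd : σ d = d := by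
    rw [hDd, map_inv₀] at hD2
    have h5 : σ d ≠ 0 := fun h => hd1 ((map_eq_zero σ).1 h)
    field_simp at hD2
    exact hD2.symm
  have hdsq := hreal d hσd hd1
  have hdinv : d⁻¹ = d := by
    rw [inv_eq_iff_eq_inv, eq_comm]
    exact (eq_inv_of_mul_eq_one_left hdsq).symm
  -- solve for the entries of D
  have s00 : σ (D 0 0) = A 1 1 * d := by
    have : d * σ (D 0 0) = A 1 1 := by rw [hd0]; linear_combination A 1 1 * r00 - A 1 0 * r10
    linear_combination d * this - σ (D 0 0) * hdsq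
  have s10 : σ (D 1 0) = -(A 0 1 * d) := by
    have : d * σ (D 1 0) = -A 0 1 := by rw [hd0]; linear_combination (-A 0 1) * r00 + A 0 0 * r10
    linear_combination d * this - σ (D 1 0) * hdsq
  have s01 : σ (D 0 1) = -(A 1 0 * d) := by
    have : d * σ (D 0 1) = -A 1 0 := by rw [hd0]; linear_combination A 1 1 * r01 - A 1 0 * r11
    linear_combination d * this - σ (D 0 1) * hdsq
  have s11 : σ (D 1 1) = A 0 0 * d := by
    have : d * σ (D 1 1) = A 0 0 := by rw [hd0]; linear_combination (-A 0 1) * r01 + A 0 0 * r11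
    linear_combination d * this - σ (D 1 1) * hdsq
  have t00 : D 0 0 = σ (A 1 1) * d := by rw [← hf.involutive (D 0 0), s00, map_mul, hσd]
  have t10 : D 1 0 = -(σ (A 0 1) * d) := by rw [← hf.involutive (D 1 0), s10, map_neg, map_mul, hσd]
  have t01 : D 0 1 = -(σ (A 1 0) * d) := by rw [← hf.involutive (D 0 1), s01, map_neg, map_mul, hσd]
  have t11 : D 1 1 = σ (A 0 0) * d := by rw [← hf.involutive (D 1 1), s11, map_mul, hσd]
  obtain ⟨l, hl0, hl⟩ : ∃ l : F, l ≠ 0 ∧ σ l = l * d := by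
    rcases mul_self_eq_one_iff.1 hdsq with h | h
    · exact ⟨1, one_ne_zero, by rw [h, map_one, mul_one]⟩
    · exact ⟨δ, hδ, by rw [h, hδ', mul_neg_one]⟩
  refine ⟨l, hl0, fun x y => ⟨l * (A 0 0 * x + A 0 1 * y), l * (A 1 0 * x + A 1 1 * y), ?_⟩⟩
  have e1 : σ (l * (A 1 0 * x + A 1 1 * y)) = l * (σ y * D 0 0 - σ x * D 0 1) := by
    rw [map_mul, map_add, map_mul, map_mul, hl, t00, t01]; ring
  have e2 : σ (l * (A 0 0 * x + A 0 1 * y)) = -(l * (σ y * D 1 0 - σ x * D 1 1)) := by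
    rw [map_mul, map_add, map_mul, map_mul, hl, t10, t11]; ring
  rw [vv, vv, e1, e2, Matrix.mulVec_sub, Matrix.mulVec_add, Matrix.mulVec_add, Matrix.mulVec_smul, Matrix.mulVec_smul, Matrix.mulVec_smul,
    Matrix.mulVec_smul, ha, ha, hd, hd]
  module

end four

end CfsgLib.H14SU
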