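import Cfsg.Agent.LibH14SU17

/-! Special unitary groups in dimension four over small fields: pairs of totally isotropic planes, third part (seat helper14). -/

set_option autoImplicit false

namespace CfsgLib.H14SU

open Module Cfsg Cfsg.Geo CfsgLib.MaxTv29 CfsgLib.Un29 CfsgLib.H14SU1
open scoped Matrix MatrixGroups Kronecker

section four
variable {F : Type*} [Field F] {σ : F ≃+* F} {f : (Fin 4 → F) → (Fin 4 → F) → F}

/-- the element interchanging the two planes -/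
theorem exists_swap (hf : IsUnitaryForm σ f) {B : Basis (Fin 2 ⊕ Fin 2) F (Fin 4 → F)} (hB : Dual f B) :
    ∃ s : GL (Fin 4) F, s ∈ iso f ∧ (s : Matrix (Fin 4) (Fin 4) F).det = 1 ∧
      (∀ i, (s : Matrix (Fin 4) (Fin 4) F) *ᵥ B (Sum.inl i) = B (Sum.inr i)) ∧
      (∀ i, (s : Matrix (Fin 4) (Fin 4) F) *ᵥ B (Sum.inr i) = B (Sum.inl i)) := by
  let S : Matrix (Fin 4) (Fin 4) F := LinearMap.toMatrix' (B.constr F (fun j => B j.swap))
  have hS : ∀ j, S *ᵥ B j = B j.swap := by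
    intro j
    rw [← Matrix.toLin'_apply, Matrix.toLin'_toMatrix', Basis.constr_basis]
  have hSS : S * S = 1 := by
    apply Matrix.toLin'.injective
    apply B.ext
    intro j
    rw [Matrix.toLin'_apply, Matrix.toLin'_apply, ← Matrix.mulVec_mulVec, hS, hS, Sum.swap_swap, Matrix.one_mulVec]
  let s : GL (Fin 4) F := ⟨S, S, hSS, hSS⟩
  refine ⟨s, ?_, ?_, fun i => hS _, fun i => hS _⟩
  · apply iso_of_bs B hf
    intro i j
    show f (S *ᵥ B i) (S *ᵥ B j) = _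
    rw [hS, hS]
    have h4 := hB.h4 hf
    rcases i with i | i <;> rcases j with j | j
    · rw [Sum.swap_inl, Sum.swap_inl, hB.h1, hB.h2]
    · rw [Sum.swap_inl, Sum.swap_inr, hB.h3, h4]
    · rw [Sum.swap_inr, Sum.swap_inl, hB.h3, h4]
    · rw [Sum.swap_inr, Sum.swap_inr, hB.h1, hB.h2]
  · show S.det = 1
    have h1 : S.det = ((Equiv.sumComm (Fin 2) (Fin 2) : Equiv.Perm (Fin 2 ⊕ Fin 2)).toPEquiv.toMatrix : Matrix (Fin 2 ⊕ Fin 2) (Fin 2 ⊕ Fin 2) F).det := by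
      apply det_of_cols B
      intro c
      rw [hS, Finset.sum_eq_single c.swap]
      · rw [PEquiv.toMatrix_apply, Equiv.toPEquiv_apply, if_pos, one_smul]
        rw [Option.mem_some_iff, Equiv.sumComm_apply, Sum.swap_swap]
      · intro r _ hr
        rw [PEquiv.toMatrix_apply, Equiv.toPEquiv_apply, if_neg, zero_smul]
        rw [Option.mem_some_iff, Equiv.sumComm_apply]
        rintro rfl
        exact hr (Sum.swap_swap r).symm
      · simp
    rw [h1, Matrix.det_permutation]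
    have h2 : Equiv.Perm.sign (Equiv.sumComm (Fin 2) (Fin 2) : Equiv.Perm (Fin 2 ⊕ Fin 2)) = 1 := by decide
    rw [h2]; simp

theorem swap_vv (hσ : ∀ a, σ (σ a) = a) {B : Basis (Fin 2 ⊕ Fin 2) F (Fin 4 → F)} {s : Matrix (Fin 4) (Fin 4) F}
    (h1 : ∀ i, s *ᵥ B (Sum.inl i) = B (Sum.inr i)) (h2 : ∀ i, s *ᵥ B (Sum.inr i) = B (Sum.inl i)) {l : F} (hl : σ l = -l) (x y : F) :
    l • (s *ᵥ vv σ B x y) = vv σ B (l * σ y) (-(l * σ x)) := by
  rw [vv, vv, Matrix.mulVec_sub, Matrix.mulVec_add, Matrix.mulVec_add, Matrix.mulVec_smul, Matrix.mulVec_smul, Matrix.mulVec_smul,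
    Matrix.mulVec_smul, h1, h1, h2, h2, map_mul, map_neg, map_mul, hσ, hσ, hl]
  module

end four

/-- pairs of totally isotropic planes over small fields -/
theorem pair_sub {q : ℕ} {F : Type*} [Field F] [Fintype F] (hF : Fintype.card F = q ^ 2) (hq : q = 2 ∨ q = 3) {σ : F ≃+* F}
    (hσq : ∀ x, σ x = x ^ q) {f : (Fin 4 → F) → (Fin 4 → F) → F} (hf : IsUnitaryForm σ f) {D : Fin 2 → Submodule F (Fin 4 → F)}
    (hD : IsMDecomposition 2 D) (hs : ∀ i, IsTotallySingularFor f (D i)) :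
    ∃ (F₀ : Subfield F) (P : GL (Fin 4) F) (ζ : F), Fintype.card F = Nat.card F₀ ^ 2 ∧ ζ ≠ 0 ∧ ζ + ζ ^ q = 0 ∧
      IsFormRationalStructure f F₀ ζ P ∧
      (∀ u : Fin 4 → F, (∀ i, u i ∈ F₀) → f ((P : Matrix (Fin 4) (Fin 4) F) *ᵥ u) ((P : Matrix (Fin 4) (Fin 4) F) *ᵥ u) = 0) ∧
      decompositionStabilizer D ⊓ (iso f ⊓ specialLinear (Fin 4) F) ≤ subfieldSubgroup F₀ P := by
  have hsup : D 0 ⊔ D 1 = ⊤ := by
    rw [← hD.iSup_eq_top]
    apply le_antisymm
    · exact sup_le (le_iSup D 0) (le_iSup D 1)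
    · apply iSup_le
      intro i
      rcases (by revert i; decide : i = 0 ∨ i = 1) with rfl | rfl
      · exact le_sup_left
      · exact le_sup_right
  obtain ⟨B, hB0, hB1, hB⟩ := dual_bases hf (hD.finrank_eq 0) (hD.finrank_eq 1) hsup (by simp) (hs 0) (hs 1)
  have hdual : Dual f B := ⟨fun i j => hs 0 _ (hB0 i) _ (hB0 j), fun i j => hs 1 _ (hB1 i) _ (hB1 j), hB⟩
  obtain ⟨δ, hδ, hδ'⟩ := exists_skew hf
  obtain ⟨ω, hω⟩ : ∃ ω, σ ω ≠ ω := by
    by_contra hcon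
    push Not at hcon
    exact hf.ne_refl (RingEquiv.ext hcon)
  let bs : Basis (Fin 4) F (Fin 4 → F) := basisOfLinearIndependentOfCardEqFinrank (pv_li (B := B) hf.involutive hω) (by simp)
  have hbs : ∀ i, bs i = pv σ B ω i := fun i => by rw [coe_basisOfLinearIndependentOfCardEqFinrank]
  obtain ⟨P, hP⟩ := CfsgLib.Asch7.exists_P bs
  have hreal : ∀ d : F, σ d = d → d ≠ 0 → d * d = 1 := by
    intro d hd hd0
    rw [hσq] at hd
    rcases hq with rfl | rfl
    · have : d * (d - 1) = 0 := by linear_combination hd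
      have h1 := (mul_eq_zero.1 this).resolve_left hd0
      have h2 : d = 1 := sub_eq_zero.1 h1
      rw [h2, one_mul]
    · have : d * (d * d - 1) = 0 := by linear_combination hd
      exact sub_eq_zero.1 ((mul_eq_zero.1 this).resolve_left hd0)
  have hpv : ∀ i, ∃ x y, bs i = vv σ B x y := by
    intro i
    rw [hbs]
    rcases fin4_cases i with rfl | rfl | rfl | rfl
    · exact ⟨1, 0, rfl⟩
    · exact ⟨ω, 0, rfl⟩
    · exact ⟨0, 1, rfl⟩
    · exact ⟨0, ω, rfl⟩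
  refine ⟨fixF σ, P, δ, ?_, hδ, by rw [← hσq, hδ', add_neg_cancel], ?_, ?_, ?_⟩
  · rw [card_fixF hf hF, hF]
  · apply ratl_of hf (fun x hx => hx) hP
    intro i j
    obtain ⟨x, y, h1⟩ := hpv i
    obtain ⟨x', y', h2⟩ := hpv j
    rw [h1, h2, vv_form hf hdual, mem_fixF, map_mul, hδ', map_sub, hf.involutive]
    ring
  · apply alt_of hf (fun x hx => hx) hP
    · intro i
      obtain ⟨x, y, h1⟩ := hpv i
      rw [h1, vv_form hf hdual]
      have : x * y - y * x = 0 := by ring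
      rw [this, map_zero, sub_zero]
    · intro i j
      obtain ⟨x, y, h1⟩ := hpv i
      obtain ⟨x', y', h2⟩ := hpv j
      rw [h1, h2, vv_form hf hdual, vv_form hf hdual]
      have : x' * y - y' * x = -(x * y' - y * x') := by ring
      rw [this, map_neg]
      ring
  · -- the stabilizer
    have hfix : ∀ g : GL (Fin 4) F, g ∈ iso f → (g : Matrix (Fin 4) (Fin 4) F).det = 1 →
        (D 0).map (Matrix.toLin' (g : Matrix (Fin 4) (Fin 4) F)) ≤ D 0 → (D 1).map (Matrix.toLin' (g : Matrix (Fin 4) (Fin 4) F)) ≤ D 1 →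
        g ∈ subfieldSubgroup (fixF σ) P := by
      intro g hg hdet h0 h1
      obtain ⟨l, hl0, hl⟩ := fix_vv hf hdual hreal hg hdet
        (fun i j => hs 0 _ (h0 ⟨_, hB0 i, Matrix.toLin'_apply _ _⟩) _ (hB0 j))
        (fun i j => hs 1 _ (h1 ⟨_, hB1 i, Matrix.toLin'_apply _ _⟩) _ (hB1 j))
      exact mem_sub_vv hf.involutive hω hbs (fun x => mem_fixF) hP hl0 hl
    obtain ⟨s, hsi, hsd, hs1, hs2⟩ := exists_swap hf hdual
    have hsm : s ∈ subfieldSubgroup (fixF σ) P := by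
      apply mem_sub_vv hf.involutive hω hbs (fun x => mem_fixF) hP hδ
      intro x y
      exact ⟨_, _, swap_vv hf.involutive hs1 hs2 hδ' x y⟩
    have hs01 : ∀ x ∈ D 0, (s : Matrix (Fin 4) (Fin 4) F) *ᵥ x ∈ D 1 := by
      intro x hx
      rw [dual_expand hf B hdual.h1 hdual.h2 hdual.h3 x]
      have hz : ∀ i, f x (B (Sum.inl i)) = 0 := fun i => hs 0 _ hx _ (hB0 i)
      simp only [hz, zero_smul, Finset.sum_const_zero, add_zero]
      rw [Matrix.mulVec_sum]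
      refine (D 1).sum_mem (fun i _ => ?_)
      rw [Matrix.mulVec_smul, hs1]
      exact (D 1).smul_mem _ (hB1 i)
    have hs10 : ∀ x ∈ D 1, (s : Matrix (Fin 4) (Fin 4) F) *ᵥ x ∈ D 0 := by
      intro x hx
      rw [dual_expand hf B hdual.h1 hdual.h2 hdual.h3 x]
      have hz : ∀ i, f x (B (Sum.inr i)) = 0 := fun i => hs 1 _ hx _ (hB1 i)
      simp only [hz, zero_smul, Finset.sum_const_zero, zero_add]
      rw [Matrix.mulVec_sum]
      refine (D 0).sum_mem (fun i _ => ?_)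
      rw [Matrix.mulVec_smul, hs2]
      exact (D 0).smul_mem _ (hB0 i)
    rintro g ⟨⟨π, hπ⟩, hgi, hgs⟩
    have hdet : (g : Matrix (Fin 4) (Fin 4) F).det = 1 := congrArg Units.val (MonoidHom.mem_ker.1 hgs)
    have hπc : (π 0 = 0 ∧ π 1 = 1) ∨ (π 0 = 1 ∧ π 1 = 0) := by
      have : ∀ π : Equiv.Perm (Fin 2), (π 0 = 0 ∧ π 1 = 1) ∨ (π 0 = 1 ∧ π 1 = 0) := by decide
      exact this π
    rcases hπc with ⟨h0, h1⟩ | ⟨h0, h1⟩
    · exact hfix g hgi hdet (by rw [hπ, h0]) (by rw [hπ, h1])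
    · have h2 : s * g ∈ subfieldSubgroup (fixF σ) P := by
        apply hfix _ (mul_mem hsi hgi)
        · rw [Units.val_mul, Matrix.det_mul, hsd, hdet, one_mul]
        · rintro _ ⟨x, hx, rfl⟩
          rw [Matrix.toLin'_apply, Units.val_mul, ← Matrix.mulVec_mulVec]
          apply hs10
          rw [← h0, ← hπ 0]
          exact ⟨x, hx, Matrix.toLin'_apply _ _⟩
        · rintro _ ⟨x, hx, rfl⟩
          rw [Matrix.toLin'_apply, Units.val_mul, ← Matrix.mulVec_mulVec]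
          apply hs01
          rw [← h1, ← hπ 1]
          exact ⟨x, hx, Matrix.toLin'_apply _ _⟩
      have h3 := mul_mem (inv_mem hsm) h2
      rwa [inv_mul_cancel_left] at h3

/-- pairs of totally isotropic planes in maximal subgroups -/
theorem pair_max4 {q : ℕ} {F : Type*} [Field F] [Fintype F] (hF : Fintype.card F = q ^ 2) {H : Subgroup (GL (Fin 4) F)}
    (hH : IsMaximalIn (GU 4 F q ⊓ specialLinear (Fin 4) F) H) {D : Fin 2 → Submodule F (Fin 4 → F)}
    (hD : IsMDecomposition 2 D) (hs : ∀ i, IsTotallySingularFor (hermForm 4 F q) (D i))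
    (h : H = decompositionStabilizer D ⊓ (GU 4 F q ⊓ specialLinear (Fin 4) F)) :
    4 ≤ q ∨ (∃ (F₀ : Subfield F) (P : GL (Fin 4) F) (ζ : F), Fintype.card F = Nat.card F₀ ^ 2 ∧ ζ ≠ 0 ∧ ζ + ζ ^ q = 0 ∧
      IsFormRationalStructure (hermForm 4 F q) F₀ ζ P ∧
      (∀ u : Fin 4 → F, (∀ i, u i ∈ F₀) →
        hermForm 4 F q ((P : Matrix (Fin 4) (Fin 4) F) *ᵥ u) ((P : Matrix (Fin 4) (Fin 4) F) *ᵥ u) = 0) ∧
      H = subfieldSubgroup F₀ P ⊓ (GU 4 F q ⊓ specialLinear (Fin 4) F)) := by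
  have hq := two_le_q hF
  rcases (by omega : (q = 2 ∨ q = 3) ∨ 4 ≤ q) with h2 | h3
  · right
    obtain ⟨σ, hσ, hf⟩ := hermForm_unitary (F := F) 4 hF
    obtain ⟨F₀, P, ζ, h4, h5, h6, h7, h8, h9⟩ := pair_sub hF h2 hσ hf hD hs
    refine ⟨F₀, P, ζ, h4, h5, h6, h7, h8, eq_of_max hH ?_ (not_le4 hF (.subs F₀ P ζ (by decide) h4 h5 h6 h7 h8 rfl))⟩
    rw [h]
    intro g hg
    exact h9 ⟨hg.1, (mem_iso g).2 (fun u v => hg.2.1 u v), hg.2.2⟩
  · exact Or.inl h3

end CfsgLib.H14SU
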