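import Cfsg.Agent.LibH14SU1

/-! The special unitary group is not contained in geometric subgroups: tensor structures, subfields (seat helper14). -/

set_option autoImplicit false

namespace CfsgLib.H14SU1

open Module Cfsg Cfsg.Geo CfsgLib.MaxTv29 CfsgLib.Un29
open scoped Matrix MatrixGroups Kronecker

section R
variable {ι : Type} [Fintype ι] [DecidableEq ι] {F : Type*} [Field F]

/-- rank one perturbation of the identity -/
def R1 (g : Matrix ι ι F) : Prop := ∃ a b : ι → F, a ≠ 0 ∧ b ≠ 0 ∧ g = 1 + Matrix.vecMulVec a b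

theorem R1.conj {P g : GL ι F} (h : R1 ((P * g * P⁻¹ : GL ι F) : Matrix ι ι F)) : R1 (g : Matrix ι ι F) := by
  obtain ⟨a, b, ha, hb, h⟩ := h
  have h1 : (g : Matrix ι ι F) = ((P⁻¹ : GL ι F) : Matrix ι ι F) * ((P * g * P⁻¹ : GL ι F) : Matrix ι ι F) * (P : Matrix ι ι F) := by
    rw [← Units.val_mul, ← Units.val_mul]; congr 1; group
  refine ⟨((P⁻¹ : GL ι F) : Matrix ι ι F) *ᵥ a, b ᵥ* (P : Matrix ι ι F), ?_, ?_, ?_⟩
  · intro h0
    apply ha
    have h2 : (P : Matrix ι ι F) *ᵥ (((P⁻¹ : GL ι F) : Matrix ι ι F) *ᵥ a) = 0 := by rw [h0, Matrix.mulVec_zero]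
    rw [Matrix.mulVec_mulVec, ← Units.val_mul, mul_inv_cancel, Units.val_one, Matrix.one_mulVec] at h2
    exact h2
  · intro h0
    apply hb
    have h2 : (b ᵥ* (P : Matrix ι ι F)) ᵥ* ((P⁻¹ : GL ι F) : Matrix ι ι F) = 0 := by rw [h0, Matrix.zero_vecMul]
    rw [Matrix.vecMul_vecMul, ← Units.val_mul, mul_inv_cancel, Units.val_one, Matrix.vecMul_one] at h2
    exact h2
  · rw [h1, h, mul_add, add_mul, mul_one, ← Units.val_mul, inv_mul_cancel, Units.val_one, Matrix.mul_vecMulVec,
      Matrix.vecMulVec_mul]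

theorem R1.of_map {M : Subgroup (GL ι F)} {P g : GL ι F} (hg : g ∈ M.map (MulAut.conj P).toMonoidHom) (h : R1 (g : Matrix ι ι F)) :
    ∃ m ∈ M, R1 (m : Matrix ι ι F) := by
  obtain ⟨m, hm, rfl⟩ := hg
  exact ⟨m, hm, h.conj⟩

/-- a Kronecker product is not a rank one perturbation of the identity -/
theorem kron_aux {α β : Type} [Fintype α] [DecidableEq α] [Fintype β] [DecidableEq β] [Nontrivial α] [Nontrivial β]
    (A : α → α → F) (B : β → β → F) (a b : α × β → F)
    (h : ∀ i j k l, A i j * B k l = (if i = j ∧ k = l then 1 else 0) + a (i, k) * b (j, l)) : a = 0 ∨ b = 0 := by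
  -- a matrix δ_kl is not of rank one
  have hr : ∀ x y : β → F, (∀ k l, (if k = l then (1 : F) else 0) = x k * y l) → False := by
    intro x y hxy
    obtain ⟨k, l, hkl⟩ := exists_pair_ne β
    have h1 := hxy k k
    have h2 := hxy l l
    have h3 := hxy k l
    rw [if_pos rfl] at h1 h2
    rw [if_neg hkl] at h3
    rcases mul_eq_zero.1 h3.symm with h4 | h4
    · rw [h4, zero_mul] at h1; exact one_ne_zero h1
    · rw [h4, mul_zero] at h2; exact one_ne_zero h2
  have hoff : ∀ i j, i ≠ j → A i j = 0 := by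
    intro i j hij
    by_contra hne
    have h1 : ∀ k l, B k l = a (i, k) * (b (j, l) / A i j) := by
      intro k l
      have := h i j k l
      rw [if_neg (fun h => hij h.1), zero_add] at this
      field_simp
      rw [mul_comm, this]
    apply hr (fun k => a (i, k)) (fun l => A i i * (b (j, l) / A i j) - b (i, l))
    intro k l
    have h2 := h i i k l
    simp only [true_and] at h2
    rw [h1] at h2
    linear_combination -h2
  have hoff2 : ∀ i j, i ≠ j → ∀ k l, a (i, k) * b (j, l) = 0 := by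
    intro i j hij k l
    have := h i j k l
    rw [hoff i j hij, if_neg (fun h => hij h.1)] at this
    linear_combination -this
  by_contra hcon
  push Not at hcon
  obtain ⟨⟨i, k⟩, hik⟩ := Function.ne_iff.1 hcon.1
  obtain ⟨⟨j, l⟩, hjl⟩ := Function.ne_iff.1 hcon.2
  simp only [Pi.zero_apply, ne_eq] at hik hjl
  have hij : i = j := by
    by_contra hij
    rcases mul_eq_zero.1 (hoff2 i j hij k l) with h1 | h1
    · exact hik h1
    · exact hjl h1
  subst hij
  obtain ⟨j, hj⟩ := exists_ne i
  have hb : ∀ l, b (j, l) = 0 := fun l' => (mul_eq_zero.1 (hoff2 i j hj.symm k l')).resolve_left hik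
  have hB : ∀ k l, A j j * B k l = if k = l then 1 else 0 := by
    intro k l
    have := h j j k l
    rw [hb, mul_zero, add_zero] at this
    simpa using this
  have hAj : A j j ≠ 0 := by
    intro e
    have := hB k k
    rw [e, zero_mul, if_pos rfl] at this
    exact zero_ne_one this
  -- now A i i B = 1 + rank one, and B is scalar
  by_cases hs : A i i = A j j
  · have := h i i k l
    rw [hs, hB] at this
    simp only [true_and] at this
    have h2 : a (i, k) * b (i, l) = 0 := by linear_combination -this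
    rcases mul_eq_zero.1 h2 with h1 | h1
    · exact hik h1
    · exact hjl h1
  · apply hr (fun k => a (i, k)) (fun l => b (i, l) / (A i i / A j j - 1))
    intro k l
    have h1 := h i i k l
    simp only [true_and] at h1
    have h2 := hB k l
    have h3 : A i i / A j j - 1 ≠ 0 := by
      intro e
      apply hs
      field_simp at e
      rw [mul_zero] at e; exact sub_eq_zero.1 e
    have h4 : A i i * B k l = A i i / A j j * (if k = l then 1 else 0) := by
      rw [← h2]; field_simp
    rw [h4] at h1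
    have h5 : (A i i / A j j - 1) * (if k = l then (1 : F) else 0) = a (i, k) * b (i, l) := by linear_combination h1
    rw [mul_div_assoc', eq_div_iff h3, mul_comm, h5]

theorem not_R1_tp {n₁ n₂ : ℕ} {e : ι ≃ Fin n₁ × Fin n₂} {P g : GL ι F} (h1 : 2 ≤ n₁) (h2 : 2 ≤ n₂)
    (hg : g ∈ tensorProductSubgroup n₁ n₂ e P) : ¬ R1 (g : Matrix ι ι F) := by
  intro h
  obtain ⟨m, ⟨k, ⟨A, B, hk⟩, rfl⟩, a, b, ha, hb, h⟩ := R1.of_map hg h
  haveI : Nontrivial (Fin n₁) := Fin.nontrivial_iff_two_le.2 h1
  haveI : Nontrivial (Fin n₂) := Fin.nontrivial_iff_two_le.2 h2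
  have h' : ∀ x y, ((glReindex e.symm k : GL ι F) : Matrix ι ι F) x y = (1 + Matrix.vecMulVec a b) x y := by
    intro x y
    exact congrFun (congrFun h x) y
  rcases kron_aux (A : Matrix _ _ F) (B : Matrix _ _ F) (fun x => a (e.symm x)) (fun x => b (e.symm x)) (by
    intro i j k' l
    have h3 := h' (e.symm (i, k')) (e.symm (j, l))
    rw [CfsgLib.Asch7.glReindex_apply, Equiv.apply_symm_apply, Equiv.apply_symm_apply, hk, Matrix.add_apply, Matrix.one_apply,
      Matrix.vecMulVec_apply] at h3
    have h4 : ((A : Matrix _ _ F) ⊗ₖ (B : Matrix _ _ F)) (i, k') (j, l) = (A : Matrix _ _ F) i j * (B : Matrix _ _ F) k' l := rfl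
    rw [← h4, h3]
    congr 1
    simp) with h3 | h3
  · apply ha
    ext x
    have := congrFun h3 (e x)
    simpa using this
  · apply hb
    ext x
    have := congrFun h3 (e x)
    simpa using this

theorem no3 (h k a b : Fin 3 → F) (hh : ∀ i j, (if i = j then (1 : F) else 0) = h i * k j - a i * b j) : False := by
  obtain ⟨v, hv0, hv1, hv2⟩ := CfsgLib.AschSL1.exists_ker2 (ι := Fin 3) (F := F) (by simp)
    (Fintype.linearCombination F k) (Fintype.linearCombination F b)
  apply hv0
  simp only [Fintype.linearCombination_apply, smul_eq_mul] at hv1 hv2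
  ext i
  have h1 : v i = ∑ j, v j * (if i = j then (1 : F) else 0) := by simp
  rw [h1]
  simp only [hh i]
  have h2 : ∑ j, v j * (h i * k j - a i * b j) = h i * ∑ j, v j * k j - a i * ∑ j, v j * b j := by
    rw [Finset.mul_sum, Finset.mul_sum, ← Finset.sum_sub_distrib]
    refine Finset.sum_congr rfl fun j _ => by ring
  rw [h2, hv1, hv2]; simp

theorem not_R1_tw [Finite F] {m t : ℕ} {e : ι ≃ (Fin t → Fin m)} {P g : GL ι F} (hm : 3 ≤ m) (ht : 2 ≤ t)
    (hg : g ∈ tensorWreathSubgroup m t e P) : ¬ R1 (g : Matrix ι ι F) := by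
  classical
  intro h
  obtain ⟨g', ⟨k, hk, rfl⟩, a, b, ha, hb, h⟩ := R1.of_map hg h
  obtain ⟨π, gs, hgs⟩ := CfsgLib.AschSL1.tw_of_mem hk
  have h' : ∀ x y : Fin t → Fin m, ∏ i, gs i (x (π i)) (y i) = (if x = y then 1 else 0) + a (e.symm x) * b (e.symm y) := by
    intro x y
    have h3 : ((glReindex e.symm k : GL ι F) : Matrix ι ι F) (e.symm x) (e.symm y) = (1 + Matrix.vecMulVec a b) (e.symm x) (e.symm y) :=
      congrFun (congrFun h _) _
    rw [CfsgLib.Asch7.glReindex_apply, Equiv.apply_symm_apply, Equiv.apply_symm_apply, hgs, Matrix.add_apply, Matrix.one_apply,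
      Matrix.vecMulVec_apply] at h3
    rw [h3]; congr 1; simp
  by_cases hπ : π = 1
  · subst hπ
    have s0 : Fin t := ⟨0, by omega⟩
    haveI : Nontrivial (Fin m) := Fin.nontrivial_iff_two_le.2 (by omega)
    haveI : Nontrivial (Fin t) := Fin.nontrivial_iff_two_le.2 ht
    haveI : Nonempty {j // j ≠ s0} := by
      obtain ⟨j, hj⟩ := exists_ne s0
      exact ⟨⟨j, hj⟩⟩
    let E := Equiv.funSplitAt s0 (Fin m)
    rcases kron_aux (α := Fin m) (β := {j // j ≠ s0} → Fin m) (gs s0) (fun x y => ∏ i : {j // j ≠ s0}, gs i (x i) (y i))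
      (fun x => a (e.symm (E.symm x))) (fun x => b (e.symm (E.symm x))) (by
      intro i j x y
      have h3 := h' (E.symm (i, x)) (E.symm (j, y))
      rw [Fintype.prod_eq_mul_prod_subtype_ne _ s0] at h3
      have e1 : ∀ (i : Fin m) (x : {j // j ≠ s0} → Fin m), E.symm (i, x) s0 = i := by
        intro i x; simp [E, Equiv.funSplitAt]
      have e2 : ∀ (i : Fin m) (x : {j // j ≠ s0} → Fin m) (s : {j // j ≠ s0}), E.symm (i, x) s = x s := by
        intro i x s; simp [E, Equiv.funSplitAt, s.2]
      simp only [Equiv.Perm.coe_one, id_eq, e1, e2] at h3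
      rw [h3]
      congr 1
      simp [EmbeddingLike.apply_eq_iff_eq]) with h3 | h3
    · apply ha
      ext x
      have := congrFun h3 (E (e x))
      simpa using this
    · apply hb
      ext x
      have := congrFun h3 (E (e x))
      simpa using this
  · -- the permutation moves a coordinate
    obtain ⟨s, hs⟩ : ∃ s, π s ≠ s := by
      by_contra hcon
      push Not at hcon
      exact hπ (Equiv.ext hcon)
    have c0 : Fin m := ⟨0, by omega⟩
    let c : Fin 3 → Fin m := fun i => ⟨i, by omega⟩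
    have hc : Function.Injective c := by
      intro i j hij
      have := congrArg Fin.val hij
      exact Fin.ext this
    let X : Fin 3 → (Fin t → Fin m) := fun i => Function.update (fun _ => c0) s (c i)
    have hX : Function.Injective X := by
      intro i j hij
      have := congrFun hij s
      simp only [X, Function.update_self] at this
      exact hc this
    apply no3 (fun i => ∏ j ∈ Finset.univ.erase s, gs j (X i (π j)) c0) (fun j => gs s c0 (c j))
      (fun i => a (e.symm (X i))) (fun j => b (e.symm (X j)))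
    intro i j
    have h3 := h' (X i) (X j)
    rw [← Finset.mul_prod_erase Finset.univ _ (Finset.mem_univ s)] at h3
    have e1 : X i (π s) = c0 := by simp only [X]; rw [Function.update_of_ne hs]
    have e2 : X j s = c j := by simp only [X]; rw [Function.update_self]
    have e3 : ∏ x ∈ Finset.univ.erase s, gs x (X i (π x)) (X j x) = ∏ x ∈ Finset.univ.erase s, gs x (X i (π x)) c0 := by
      refine Finset.prod_congr rfl fun x hx => ?_
      have : X j x = c0 := by simp only [X]; rw [Function.update_of_ne (Finset.ne_of_mem_erase hx)]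
      rw [this]
    rw [e1, e2, e3] at h3
    have e4 : (if X i = X j then (1 : F) else 0) = if i = j then 1 else 0 := by
      by_cases hij : i = j
      · subst hij; simp
      · rw [if_neg hij, if_neg (fun h => hij (hX h))]
    rw [e4] at h3
    linear_combination -h3

end R

variable {ι : Type} [Fintype ι] [DecidableEq ι] {F : Type*} [Field F] [Fintype F] {σ : F ≃+* F}
  {f : (ι → F) → (ι → F) → F}

omit [Fintype F] in
theorem ut_coe (hf : IsUnitaryForm σ f) {e : ι → F} (he : f e e = 0) (c : F) :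
    (ut hf e c : Matrix ι ι F) = 1 + Matrix.vecMulVec e (dv (c • fd hf e)) := by
  unfold ut
  rw [dif_pos (by rw [LinearMap.smul_apply, fd_apply, he, smul_zero])]
  rfl

omit [Fintype F] in
theorem ut_R1 (hf : IsUnitaryForm σ f) {e : ι → F} (he : f e e = 0) (he0 : e ≠ 0) {c : F} (hc : c ≠ 0) :
    R1 (ut hf e c : Matrix ι ι F) := by
  refine ⟨e, _, he0, ?_, ut_coe hf he c⟩
  intro h
  obtain ⟨⟨y, hy⟩, -⟩ := hf.nondegenerate e he0
  have h1 : dv (c • fd hf e) ⬝ᵥ y = 0 := by rw [h, zero_dotProduct]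
  rw [dv_dot, LinearMap.smul_apply, fd_apply, smul_eq_mul] at h1
  exact (mul_ne_zero hc hy) h1

theorem not_tm_tp (hf : IsUnitaryForm σ f) (hn : 3 ≤ Fintype.card ι) {n₁ n₂ : ℕ} {e : ι ≃ Fin n₁ × Fin n₂} {P : GL ι F}
    (h1 : 2 ≤ n₁) (h2 : 2 ≤ n₂) : ¬ TM hf (tensorProductSubgroup n₁ n₂ e P) := by
  intro h
  obtain ⟨δ, hδ, hδ'⟩ := exists_skew hf
  obtain ⟨v, hv, hv0⟩ := exists_iso hf hn
  exact not_R1_tp h1 h2 (h v δ hv hδ') (ut_R1 hf hv hv0 hδ)

theorem not_tm_tw (hf : IsUnitaryForm σ f) (hn : 3 ≤ Fintype.card ι) {m t : ℕ} {e : ι ≃ (Fin t → Fin m)} {P : GL ι F}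
    (hm : 3 ≤ m) (ht : 2 ≤ t) : ¬ TM hf (tensorWreathSubgroup m t e P) := by
  intro h
  obtain ⟨δ, hδ, hδ'⟩ := exists_skew hf
  obtain ⟨v, hv, hv0⟩ := exists_iso hf hn
  exact not_R1_tw hm ht (h v δ hv hδ') (ut_R1 hf hv hv0 hδ)

end CfsgLib.H14SU1
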