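import Cfsg.Agent.LibH14SU18

/-! Special unitary groups in dimension six over the field with four elements: frames (seat helper14). -/

set_option autoImplicit false

namespace CfsgLib.H14SU

open Module Cfsg Cfsg.Geo CfsgLib.MaxTv29 CfsgLib.Un29 CfsgLib.H14SU1
open scoped Matrix MatrixGroups Kronecker

/-- an orthonormal frame for a decomposition into lines -/
theorem exists_frame {n : ℕ} {F : Type*} [Field F] [Finite F] {σ : F ≃+* F} {f : (Fin n → F) → (Fin n → F) → F}
    (hf : IsUnitaryForm σ f) {D : Fin n → Submodule F (Fin n → F)} (hD : IsNondegenerateMDecomposition f 1 D) :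
    ∃ B : Basis (Fin n) F (Fin n → F), (∀ i j, f (B i) (B j) = if i = j then 1 else 0) ∧ ∀ i, D i = Submodule.span F {B i} := by
  have hu : ∀ i, ∃ v ∈ D i, f v v = 1 := by
    intro i
    have hne : D i ≠ ⊥ := by
      intro e
      have := hD.decomp.finrank_eq i
      rw [e, finrank_bot] at this
      omega
    obtain ⟨u, hu, hu0⟩ := (Submodule.ne_bot_iff _).1 hne
    obtain ⟨⟨y, hy, hyu⟩, -⟩ := hD.nondegenerate i u hu hu0
    obtain ⟨w, hw, hww⟩ := exists_nonisotropic hf (D i) hu hy (swap_ne hf hyu)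
    obtain ⟨c, hc⟩ := exists_norm hf ((f w w)⁻¹) (by rw [map_inv₀, norm_real hf])
    refine ⟨c • w, (D i).smul_mem _ hw, ?_⟩
    rw [hf.smul_left, smul_right hf, ← mul_assoc, hc, inv_mul_cancel₀ hww]
  choose v hv hvv using hu
  have hvo : ∀ i j, i ≠ j → f (v i) (v j) = 0 := fun i j hij => hD.orthogonal i j hij _ (hv i) _ (hv j)
  have hli := linInd_orth hf (v := v) (fun i => by rw [hvv]; exact one_ne_zero) hvo
  have hn := hD.decomp.two_le
  haveI : Nonempty (Fin n) := ⟨⟨0, by omega⟩⟩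
  let B : Basis (Fin n) F (Fin n → F) := basisOfLinearIndependentOfCardEqFinrank hli (by simp)
  have hBv : ∀ i, B i = v i := fun i => by rw [coe_basisOfLinearIndependentOfCardEqFinrank]
  refine ⟨B, ?_, ?_⟩
  · intro i j
    rw [hBv, hBv]
    by_cases hij : i = j
    · subst hij; rw [if_pos rfl, hvv]
    · rw [if_neg hij, hvo i j hij]
  · intro i
    symm
    apply Submodule.eq_of_le_of_finrank_eq
    · rw [Submodule.span_le, Set.singleton_subset_iff, hBv]; exact hv i
    · rw [hD.decomp.finrank_eq i]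
      exact finrank_span_singleton (B.ne_zero i)

theorem prod_sign_n {n : ℕ} {F : Type*} [Field F] (B : Basis (Fin n) F (Fin n → F)) {g : GL (Fin n) F}
    (hdet : (g : Matrix (Fin n) (Fin n) F).det = 1) {π : Equiv.Perm (Fin n)} {c : Fin n → F}
    (h : ∀ j, (g : Matrix (Fin n) (Fin n) F) *ᵥ B j = c j • B (π j)) : (∏ j, c j) * (∏ j, c j) = 1 := by
  have h1 := Basis.det_comp B (Matrix.toLin' (g : Matrix (Fin n) (Fin n) F)) B
  rw [LinearMap.det_toLin', hdet, one_mul, Basis.det_self] at h1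
  have h2 : (⇑(Matrix.toLin' (g : Matrix (Fin n) (Fin n) F)) ∘ ⇑B) = fun j => c j • (B ∘ π) j := by
    funext j
    rw [Function.comp_apply, Matrix.toLin'_apply, h, Function.comp_apply]
  rw [h2, AlternatingMap.map_smul_univ, AlternatingMap.map_perm, Basis.det_self] at h1
  rcases Int.units_eq_one_or (Equiv.Perm.sign π) with h3 | h3
  · rw [h3, one_smul, smul_eq_mul, mul_one] at h1
    rw [h1, one_mul]
  · rw [h3] at h1
    have h4 : ∏ j, c j = -1 := by
      have : (-1 : ℤˣ) • (1 : F) = -1 := by simp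
      rw [this, smul_eq_mul, mul_neg_one] at h1
      rw [← h1, neg_neg]
    rw [h4]; ring

section code

/-- zero indicator -/
def zc (c : Fin 4) : ℕ := bif c.val.beq 0 then 1 else 0

/-- codes of the special vectors -/
def good (a b c d e f : Fin 4) : Bool :=
  (zc a + zc b + zc c + zc d + zc e + zc f).beq 4 ||
    ((zc a + zc b + zc c + zc d + zc e + zc f).beq 0 && ((a.val + b.val + c.val + d.val + e.val + f.val) % 3).beq 0)

theorem good_trans : ∀ a b c d e f : Fin 4, good a b c d e f = true →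
    good (a ^^^ (a ^^^ b ^^^ c ^^^ d ^^^ e ^^^ f)) (b ^^^ (a ^^^ b ^^^ c ^^^ d ^^^ e ^^^ f)) (c ^^^ (a ^^^ b ^^^ c ^^^ d ^^^ e ^^^ f))
      (d ^^^ (a ^^^ b ^^^ c ^^^ d ^^^ e ^^^ f)) (e ^^^ (a ^^^ b ^^^ c ^^^ d ^^^ e ^^^ f)) (f ^^^ (a ^^^ b ^^^ c ^^^ d ^^^ e ^^^ f)) = true := by
  decide +kernel

variable {F : Type*} [Field F]

/-- the field elements with a given code -/
def cf (ω : F) (c : Fin 4) : F := ![0, 1, ω, ω + 1] c

theorem cf_add (h2 : (2 : F) = 0) (ω : F) (a b : Fin 4) : cf ω (a ^^^ b) = cf ω a + cf ω b := by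
  have hx : ∀ x : F, x + x = 0 := fun x => by rw [← two_mul, h2, zero_mul]
  rcases fin4_cases a with rfl | rfl | rfl | rfl <;> rcases fin4_cases b with rfl | rfl | rfl | rfl
  · exact (add_zero (0 : F)).symm
  · exact (zero_add (1 : F)).symm
  · exact (zero_add ω).symm
  · exact (zero_add (ω + 1)).symm
  · exact (add_zero (1 : F)).symm
  · exact (hx 1).symm
  · exact add_comm ω 1
  · show ω = 1 + (ω + 1); linear_combination -hx 1
  · exact (add_zero ω).symm
  · rfl
  · exact (hx ω).symm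
  · show 1 = ω + (ω + 1); linear_combination -hx ω
  · exact (add_zero (ω + 1)).symm
  · show ω = (ω + 1) + 1; linear_combination -hx 1
  · show 1 = (ω + 1) + ω; linear_combination -hx ω
  · exact (hx (ω + 1)).symm

open Classical in
/-- the special coordinate vectors -/
def PhiC (x : Fin 6 → F) : Prop :=
  (∑ i, (if x i = 0 then 1 else 0 : ℕ)) = 4 ∨ ((∀ i, x i ≠ 0) ∧ ∏ i, x i = 1)

theorem cf_eq_zero {ω : F} (h1 : ω + 1 ≠ 0) (h0 : ω ≠ 0) (c : Fin 4) : cf ω c = 0 ↔ c = 0 := by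
  rcases fin4_cases c with rfl | rfl | rfl | rfl
  · exact ⟨fun _ => rfl, fun _ => rfl⟩
  · exact ⟨fun h => absurd h one_ne_zero, fun h => absurd h (by decide)⟩
  · exact ⟨fun h => absurd h h0, fun h => absurd h (by decide)⟩
  · exact ⟨fun h => absurd h h1, fun h => absurd h (by decide)⟩

open Classical in
theorem PhiC_code (h2 : (2 : F) = 0) {ω : F} (hω : ω * ω = ω + 1) (h0 : ω ≠ 0) (h1 : ω ≠ 1) (c : Fin 6 → Fin 4) :
    PhiC (fun i => cf ω (c i)) ↔ good (c 0) (c 1) (c 2) (c 3) (c 4) (c 5) = true := by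
  have hx : ∀ x : F, x + x = 0 := fun x => by rw [← two_mul, h2, zero_mul]
  have h11 : ω + 1 ≠ 0 := by
    intro h
    apply h1
    linear_combination h - hx 1
  have hw3 : ω ^ 3 = 1 := by
    have : ω ^ 3 = ω * (ω * ω) := by ring
    rw [this, hω]
    linear_combination hω + hx ω
  have hzc : ∀ c : Fin 4, (if cf ω c = 0 then 1 else 0 : ℕ) = zc c := by
    intro c
    rw [if_congr (cf_eq_zero h11 h0 c) rfl rfl]
    revert c; decide
  have hpw : ∀ c : Fin 4, c ≠ 0 → cf ω c = ω ^ (c.val + 2) := by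
    intro c hc
    rcases fin4_cases c with rfl | rfl | rfl | rfl
    · exact absurd rfl hc
    · exact hw3.symm
    · show ω = ω ^ (3 + 1); rw [pow_succ, hw3, one_mul]
    · show ω + 1 = ω ^ (3 + 2); rw [pow_add, hw3, one_mul, pow_two, hω]
  have hord : ∀ m : ℕ, ω ^ m = 1 ↔ m % 3 = 0 := by
    intro m
    have ho : orderOf ω = 3 := orderOf_eq_prime hw3 h1
    rw [← Nat.dvd_iff_mod_eq_zero, ← ho, orderOf_dvd_iff_pow_eq_one]
  unfold PhiC good
  simp only [hzc]
  rw [Bool.or_eq_true, Bool.and_eq_true, Nat.beq_eq, Nat.beq_eq, Nat.beq_eq, Fin.sum_univ_six]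
  apply or_congr Iff.rfl
  constructor
  · rintro ⟨h3, h4⟩
    have h5 : ∀ i, c i ≠ 0 := fun i hi => h3 i ((cf_eq_zero h11 h0 _).2 hi)
    have h6 : ∀ i, zc (c i) = 0 := by
      intro i
      have : ∀ c : Fin 4, c ≠ 0 → zc c = 0 := by decide
      exact this _ (h5 i)
    refine ⟨by simp only [h6], ?_⟩
    have h7 : ∏ i, cf ω (c i) = ∏ i, ω ^ ((c i).val + 2) := Finset.prod_congr rfl fun i _ => hpw _ (h5 i)
    rw [h7, Finset.prod_pow_eq_pow_sum, hord, Fin.sum_univ_six] at h4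
    omega
  · rintro ⟨h3, h4⟩
    have h6 : ∀ i, zc (c i) = 0 := by
      intro i
      have hi : i = 0 ∨ i = 1 ∨ i = 2 ∨ i = 3 ∨ i = 4 ∨ i = 5 := by
        have : ∀ i : Fin 6, i = 0 ∨ i = 1 ∨ i = 2 ∨ i = 3 ∨ i = 4 ∨ i = 5 := by decide
        exact this i
      rcases hi with rfl | rfl | rfl | rfl | rfl | rfl <;> omega
    have h5 : ∀ i, c i ≠ 0 := by
      intro i hi
      have := h6 i
      rw [hi] at this
      exact absurd this (by decide)
    refine ⟨fun i h => h5 i ((cf_eq_zero h11 h0 _).1 h), ?_⟩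
    have h7 : ∏ i, cf ω (c i) = ∏ i, ω ^ ((c i).val + 2) := Finset.prod_congr rfl fun i _ => hpw _ (h5 i)
    rw [h7, Finset.prod_pow_eq_pow_sum, hord, Fin.sum_univ_six]
    omega

open Classical in
theorem PhiC_perm {x a : Fin 6 → F} (ha : ∏ i, a i = 1) (ha0 : ∀ i, a i ≠ 0) (π : Equiv.Perm (Fin 6)) (hx : PhiC x) :
    PhiC (fun i => a i * x (π i)) := by
  have h0 : ∀ i, (a i * x (π i) = 0) ↔ x (π i) = 0 := fun i => ⟨fun h => (mul_eq_zero.1 h).resolve_left (ha0 i), fun h => by rw [h, mul_zero]⟩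
  rcases hx with hx | ⟨hx1, hx2⟩
  · left
    rw [← hx, ← Equiv.sum_comp π (fun i => (if x i = 0 then 1 else 0 : ℕ))]
    apply Finset.sum_congr rfl
    intro i _
    exact if_congr (h0 i) rfl rfl
  · right
    refine ⟨fun i h => hx1 _ ((h0 i).1 h), ?_⟩
    rw [Finset.prod_mul_distrib, ha, one_mul, ← hx2]
    exact Equiv.prod_comp π x

end code

end CfsgLib.H14SU
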