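import Cfsg.Agent.LibH14SU20

/-! Special unitary groups in dimension six over the field with four elements: the stabilizer of a frame is not maximal (seat helper14). -/

set_option autoImplicit false

namespace CfsgLib.H14SU

open Module Cfsg Cfsg.Geo CfsgLib.MaxTv29 CfsgLib.Un29 CfsgLib.H14SU1
open scoped Matrix MatrixGroups Kronecker

theorem det_of_special {ι : Type} [Fintype ι] [DecidableEq ι] {F : Type*} [Field F] {g : GL ι F} (hg : g ∈ specialLinear ι F) :
    (g : Matrix ι ι F).det = 1 := by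
  have h1 := MonoidHom.mem_ker.1 hg
  have h2 : ((Matrix.GeneralLinearGroup.det g : Fˣ) : F) = ((1 : Fˣ) : F) := congrArg _ h1
  rwa [Matrix.GeneralLinearGroup.val_det_apply, Units.val_one] at h2

section six
variable {F : Type*} [Field F] {σ : F ≃+* F} {f : (Fin 6 → F) → (Fin 6 → F) → F}

/-- the stabilizer of the special vectors -/
def KPhi (B : Basis (Fin 6) F (Fin 6 → F)) : Subgroup (GL (Fin 6) F) where
  carrier := {g | ∀ v, PhiC (fun i => B.repr v i) ↔ PhiC (fun i => B.repr ((g : Matrix (Fin 6) (Fin 6) F) *ᵥ v) i)}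
  mul_mem' := by
    intro a b ha hb v
    rw [Units.val_mul, ← Matrix.mulVec_mulVec]
    exact (hb v).trans (ha _)
  one_mem' := by
    intro v
    rw [Units.val_one, Matrix.one_mulVec]
  inv_mem' := by
    intro a ha v
    have h := ha (((a⁻¹ : GL (Fin 6) F) : Matrix (Fin 6) (Fin 6) F) *ᵥ v)
    rw [Matrix.mulVec_mulVec, ← Units.val_mul, mul_inv_cancel, Units.val_one, Matrix.one_mulVec] at h
    exact h.symm

theorem mem_KPhi_of {B : Basis (Fin 6) F (Fin 6 → F)} {g : GL (Fin 6) F}
    (h1 : ∀ v, PhiC (fun i => B.repr v i) → PhiC (fun i => B.repr ((g : Matrix (Fin 6) (Fin 6) F) *ᵥ v) i))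
    (h2 : ∀ v, PhiC (fun i => B.repr v i) → PhiC (fun i => B.repr (((g⁻¹ : GL (Fin 6) F) : Matrix (Fin 6) (Fin 6) F) *ᵥ v) i)) :
    g ∈ KPhi B := by
  intro v
  refine ⟨h1 v, fun h => ?_⟩
  have h3 := h2 _ h
  rwa [Matrix.mulVec_mulVec, ← Units.val_mul, inv_mul_cancel, Units.val_one, Matrix.one_mulVec] at h3

theorem dec_phi (h2 : (2 : F) = 0) {B : Basis (Fin 6) F (Fin 6 → F)} {D : Fin 6 → Submodule F (Fin 6 → F)}
    (hD : ∀ i, D i = Submodule.span F {B i}) {g : GL (Fin 6) F} (hg : g ∈ decompositionStabilizer D)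
    (hdet : (g : Matrix (Fin 6) (Fin 6) F).det = 1) (v : Fin 6 → F) (hv : PhiC (fun i => B.repr v i)) :
    PhiC (fun i => B.repr ((g : Matrix (Fin 6) (Fin 6) F) *ᵥ v) i) := by
  obtain ⟨π, hπ⟩ := hg
  have h1 : ∀ j, ∃ c : F, (g : Matrix (Fin 6) (Fin 6) F) *ᵥ B j = c • B (π j) := by
    intro j
    have h5 : (g : Matrix (Fin 6) (Fin 6) F) *ᵥ B j ∈ D (π j) := by
      rw [← hπ j]
      exact ⟨B j, by rw [hD]; exact Submodule.mem_span_singleton_self _, Matrix.toLin'_apply _ _⟩
    rw [hD] at h5
    obtain ⟨c, hc⟩ := Submodule.mem_span_singleton.1 h5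
    exact ⟨c, hc.symm⟩
  choose c hc using h1
  have hprod : ∏ j, c j = 1 := by
    have h3 := prod_sign_n B hdet hc
    rcases mul_self_eq_one_iff.1 h3 with h | h
    · exact h
    · rw [h]; linear_combination -h2
  have hc0 : ∀ i, c i ≠ 0 := by
    intro i hi
    rw [Finset.prod_eq_zero (Finset.mem_univ i) hi] at hprod
    exact zero_ne_one hprod
  have hrep : ∀ i, B.repr ((g : Matrix (Fin 6) (Fin 6) F) *ᵥ v) i = c (π.symm i) * B.repr v (π.symm i) := by
    intro i
    conv_lhs => rw [← B.sum_repr v, Matrix.mulVec_sum, map_sum]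
    rw [Finset.sum_apply', Finset.sum_eq_single (π.symm i)]
    · rw [Matrix.mulVec_smul, hc, map_smul, map_smul, Equiv.apply_symm_apply, B.repr_self, Finsupp.smul_apply, Finsupp.smul_apply,
        Finsupp.single_eq_same, smul_eq_mul, smul_eq_mul, mul_one, mul_comm]
    · intro j _ hj
      rw [Matrix.mulVec_smul, hc, map_smul, map_smul, B.repr_self, Finsupp.smul_apply, Finsupp.smul_apply, Finsupp.single_apply,
        if_neg, smul_zero, smul_zero]
      intro h
      apply hj
      rw [← h, Equiv.symm_apply_apply]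
    · simp
  simp only [hrep]
  exact PhiC_perm (x := fun i => B.repr v i) (a := fun i => c (π.symm i)) (by rw [← hprod]; exact Equiv.prod_comp π.symm c)
    (fun i => hc0 _) π.symm hv

end six

/-- the stabilizer of a frame in dimension six over the field with four elements is not maximal -/
theorem lines6_false {F : Type*} [Field F] [Fintype F] (hF : Fintype.card F = 4) {σ : F ≃+* F} (hσ : ∀ x, σ x = x ^ 2)
    {f : (Fin 6 → F) → (Fin 6 → F) → F} (hf : IsUnitaryForm σ f) {D : Fin 6 → Submodule F (Fin 6 → F)}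
    (hD : IsNondegenerateMDecomposition f 1 D) {H : Subgroup (GL (Fin 6) F)} (hH : IsMaximalIn (iso f ⊓ specialLinear (Fin 6) F) H)
    (h : H = decompositionStabilizer D ⊓ (iso f ⊓ specialLinear (Fin 6) F)) : False := by
  classical
  have h2 : (2 : F) = 0 := by
    have h1 := Nat.cast_card_eq_zero F
    rw [hF] at h1
    have h2 : ((4 : ℕ) : F) = 2 * 2 := by norm_num
    rw [h2] at h1
    exact mul_self_eq_zero.1 h1
  have hx : ∀ x : F, x + x = 0 := fun x => by rw [← two_mul, h2, zero_mul]
  have hneg : ∀ x : F, -x = x := fun x => by linear_combination -hx x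
  obtain ⟨ω, h0, h1⟩ : ∃ ω : F, ω ≠ 0 ∧ ω ≠ 1 := by
    by_contra hcon
    push Not at hcon
    have h3 : (Finset.univ : Finset F) ⊆ {0, 1} := by
      intro x _
      by_cases hx0 : x = 0
      · simp [hx0]
      · simp [hcon x hx0]
    have h4 := Finset.card_le_card h3
    rw [Finset.card_univ, hF] at h4
    have h5 : ({0, 1} : Finset F).card ≤ 2 := Finset.card_le_two
    omega
  have hω : ω * ω = ω + 1 := by
    have h3 := FiniteField.pow_card_sub_one_eq_one ω h0
    rw [hF] at h3
    have h4 : (ω - 1) * (ω * ω + ω + 1) = 0 := by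
      have : (ω - 1) * (ω * ω + ω + 1) = ω ^ (4 - 1) - 1 := by norm_num; ring
      rw [this, h3, sub_self]
    have h5 := (mul_eq_zero.1 h4).resolve_left (sub_ne_zero.2 h1)
    linear_combination h5 - hx ω - hx 1
  have hsurj : ∀ x : F, ∃ c, cf ω c = x := by
    have hinj : Function.Injective (cf ω) := by
      have h11 : ω + 1 ≠ 0 := by intro h; apply h1; linear_combination h - hx 1
      intro a b hab
      have h3 : cf ω (a ^^^ b) = 0 := by rw [cf_add h2, hab, hx]
      have h4 := (cf_eq_zero h11 h0 _).1 h3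
      have : ∀ a b : Fin 4, a ^^^ b = 0 → a = b := by decide
      exact this _ _ h4
    have hbij : Function.Bijective (cf ω) := by
      rw [Fintype.bijective_iff_injective_and_card]
      exact ⟨hinj, by rw [hF, Fintype.card_fin]⟩
    exact hbij.2
  have htrans : ∀ x : Fin 6 → F, PhiC x → PhiC (fun i => x i + ∑ j, x j) := by
    intro x hxx
    choose c hc using hsurj
    have e1 : x = fun i => cf ω (c (x i)) := funext fun i => (hc _).symm
    rw [e1, PhiC_code h2 hω h0 h1] at hxx
    have h3 := good_trans _ _ _ _ _ _ hxx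
    have e2 : (fun i => x i + ∑ j, x j) = fun i => cf ω (c (x i) ^^^ (c (x 0) ^^^ c (x 1) ^^^ c (x 2) ^^^ c (x 3) ^^^ c (x 4) ^^^ c (x 5))) := by
      funext i
      rw [Fin.sum_univ_six]
      simp only [cf_add h2, hc]
    rw [e2, PhiC_code h2 hω h0 h1]
    exact h3
  obtain ⟨B, hB, hDB⟩ := exists_frame hf hD
  -- the form in coordinates
  have hfB : ∀ x i, f x (B i) = B.repr x i := by
    intro x i
    conv_lhs => rw [← B.sum_repr x]
    rw [sum_left hf, Finset.sum_eq_single i]
    · rw [hf.smul_left, hB, if_pos rfl, mul_one]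
    · intro j _ hj
      rw [hf.smul_left, hB, if_neg hj, mul_zero]
    · simp
  set w : Fin 6 → F := ∑ i, B i with hw
  have hxw : ∀ x, f x w = ∑ i, B.repr x i := by
    intro x
    rw [hw, sum_right hf]
    exact Finset.sum_congr rfl fun i _ => hfB x i
  have hrw : ∀ i, B.repr w i = 1 := by
    intro i
    rw [← hfB, hw, sum_left hf, Finset.sum_eq_single i]
    · rw [hB, if_pos rfl]
    · intro j _ hj; rw [hB, if_neg hj]
    · simp
  have hww : f w w = 0 := by
    rw [hxw, Finset.sum_congr rfl (fun i _ => hrw i), Finset.sum_const, Finset.card_univ, Fintype.card_fin, nsmul_eq_mul, mul_one]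
    have : ((6 : ℕ) : F) = 2 * 3 := by push_cast; norm_num
    rw [this, h2, zero_mul]
  have hs1 : σ (1 : F) = -1 := by rw [map_one, hneg]
  set T := ut hf w 1 with hT
  have hTi : T⁻¹ = T := by rw [hT, ut_inv hf hww, hneg]
  have hTr : ∀ x i, B.repr ((T : Matrix (Fin 6) (Fin 6) F) *ᵥ x) i = B.repr x i + ∑ j, B.repr x j := by
    intro x i
    rw [hT, ut_mulVec hf hww, one_mul, hxw, map_add, map_smul, Finsupp.add_apply, Finsupp.smul_apply, hrw, smul_eq_mul, mul_one]
  have hTphi : ∀ v, PhiC (fun i => B.repr v i) → PhiC (fun i => B.repr ((T : Matrix (Fin 6) (Fin 6) F) *ᵥ v) i) := by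
    intro v hv
    simp only [hTr]
    exact htrans _ hv
  have hTK : T ∈ KPhi B := mem_KPhi_of hTphi (by rw [hTi]; exact hTphi)
  have hTS : T ∈ iso f ⊓ specialLinear (Fin 6) F := ⟨ut_mem_iso hf hww hs1, ut_mem_special hf _ _⟩
  have hdetm : ∀ g : GL (Fin 6) F, g ∈ specialLinear (Fin 6) F → (g : Matrix (Fin 6) (Fin 6) F).det = 1 :=
    fun g hg => det_of_special hg
  have hHK : H ≤ KPhi B ⊓ (iso f ⊓ specialLinear (Fin 6) F) := by
    rw [h]
    intro g hg
    refine ⟨mem_KPhi_of (fun v hv => dec_phi h2 hDB hg.1 (hdetm g hg.2.2) v hv) (fun v hv => ?_), hg.2⟩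
    exact dec_phi h2 hDB (inv_mem hg.1) (hdetm _ (inv_mem hg.2.2)) v hv
  rcases hH.2 _ hHK inf_le_right with h3 | h3
  · -- the transvection is not monomial
    have h4 : T ∈ H := by rw [← h3]; exact ⟨hTK, hTS⟩
    rw [h] at h4
    obtain ⟨π, hπ⟩ := h4.1
    have h5 : (T : Matrix (Fin 6) (Fin 6) F) *ᵥ B 0 ∈ D (π 0) := by
      rw [← hπ 0]
      exact ⟨B 0, by rw [hDB]; exact Submodule.mem_span_singleton_self _, Matrix.toLin'_apply _ _⟩
    rw [hDB] at h5
    obtain ⟨c, hc⟩ := Submodule.mem_span_singleton.1 h5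
    have h6 : ∀ i, i ≠ 0 → B.repr (c • B (π 0)) i = 1 := by
      intro i hi
      rw [hc, hTr, B.repr_self, Finsupp.single_apply, if_neg (Ne.symm hi), zero_add, Finset.sum_eq_single 0]
      · rw [Finsupp.single_eq_same]
      · intro j _ hj; rw [Finsupp.single_apply, if_neg (Ne.symm hj)]
      · simp
    have h7 : ∀ i, i ≠ 0 → i = π 0 := by
      intro i hi
      by_contra hne
      have h8 := h6 i hi
      rw [map_smul, Finsupp.smul_apply, B.repr_self, Finsupp.single_apply, if_neg (Ne.symm hne), smul_zero] at h8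
      exact zero_ne_one h8
    exact absurd ((h7 1 (by decide)).trans (h7 2 (by decide)).symm) (by decide)
  · -- another transvection
    set u : Fin 6 → F := B 0 + B 1 + B 2 + B 3 with hu
    have hxu : ∀ x, f x u = B.repr x 0 + B.repr x 1 + B.repr x 2 + B.repr x 3 := by
      intro x
      rw [hu, add_right hf, add_right hf, add_right hf, hfB, hfB, hfB, hfB]
    have hru : ∀ i, B.repr u i = (if i = 0 then 1 else 0) + (if i = 1 then 1 else 0) + (if i = 2 then 1 else 0) + (if i = 3 then 1 else 0) := by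
      intro i
      rw [hu, map_add, map_add, map_add, Finsupp.add_apply, Finsupp.add_apply, Finsupp.add_apply]
      simp only [B.repr_self, Finsupp.single_apply, eq_comm]
    have huu : f u u = 0 := by
      rw [hxu]
      simp only [hru]
      have e : (1 : F) + 1 + 1 + 1 = 0 := by linear_combination 2 * h2
      simpa using e
    have h4 : ut hf u 1 ∈ KPhi B := by
      have h5 : ut hf u 1 ∈ iso f ⊓ specialLinear (Fin 6) F := ⟨ut_mem_iso hf huu hs1, ut_mem_special hf _ _⟩
      rw [← h3] at h5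
      exact h5.1
    have h5 : PhiC (fun i => B.repr (B 0 + B 4) i) := by
      left
      have : ∀ i : Fin 6, B.repr (B 0 + B 4) i = (if i = 0 then 1 else 0) + (if i = 4 then 1 else 0) := by
        intro i
        rw [map_add, Finsupp.add_apply]
        simp only [B.repr_self, Finsupp.single_apply, eq_comm]
      simp only [this]
      rw [Fin.sum_univ_six]
      simp
    have h6 := (h4 _).1 h5
    have h7 : ∀ i, B.repr (((ut hf u 1 : GL (Fin 6) F) : Matrix (Fin 6) (Fin 6) F) *ᵥ (B 0 + B 4)) i =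
        (if i = 0 then 1 else 0) + (if i = 4 then 1 else 0) +
        ((if i = 0 then 1 else 0) + (if i = 1 then 1 else 0) + (if i = 2 then 1 else 0) + (if i = 3 then 1 else 0)) := by
      intro i
      rw [ut_mulVec hf huu, map_add, Finsupp.add_apply, map_smul, Finsupp.smul_apply, hru, hxu, map_add, Finsupp.add_apply,
        Finsupp.add_apply, Finsupp.add_apply, Finsupp.add_apply, Finsupp.add_apply]
      simp only [B.repr_self, Finsupp.single_apply]
      simp [eq_comm]
    rcases h6 with h8 | ⟨h8, -⟩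
    · simp only [h7] at h8
      rw [Fin.sum_univ_six] at h8
      have e : (1 : F) + 1 = 0 := hx 1
      simp [e] at h8
    · apply h8 5
      show B.repr (((ut hf u 1 : GL (Fin 6) F) : Matrix (Fin 6) (Fin 6) F) *ᵥ (B 0 + B 4)) 5 = 0
      rw [h7]
      simp

end CfsgLib.H14SU
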