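import Cfsg.Agent.LibH14SU21

/-! Unitary groups and extension fields: the trace form (seat helper14). -/

set_option autoImplicit false

namespace CfsgLib.H14SU

open Module Cfsg Cfsg.Geo CfsgLib.MaxTv29 CfsgLib.Un29 CfsgLib.H14SU1
open scoped Matrix MatrixGroups Kronecker

/-- an extension field acting on a unitary space, closed under adjoints -/
structure ExtDat {F : Type*} [Field F] {ι : Type} [Fintype ι] [DecidableEq ι] (σ : F ≃+* F) (f : (ι → F) → (ι → F) → F)
    {L : Type*} [Field L] [Algebra F L] (ρ : L →ₐ[F] Matrix ι ι F) (s : L ≃+* L) : Prop where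
  hf : IsUnitaryForm σ f
  inv : ∀ x, s (s x) = x
  base : ∀ c, s (algebraMap F L c) = algebraMap F L (σ c)
  adj : ∀ k u v, f (ρ k *ᵥ u) v = f u (ρ (s k) *ᵥ v)

section ext
variable {F : Type*} [Field F] [Finite F] {ι : Type} [Fintype ι] [DecidableEq ι] {σ : F ≃+* F} {f : (ι → F) → (ι → F) → F}
    {L : Type*} [Field L] [Algebra F L] [FiniteDimensional F L] {ρ : L →ₐ[F] Matrix ι ι F} {s : L ≃+* L}

omit [Finite F] [FiniteDimensional F L] in
theorem ExtDat.tr_star (h : ExtDat σ f ρ s) (x : L) : Algebra.trace F L (s x) = σ (Algebra.trace F L x) := by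
  have h1 := Algebra.trace_eq_of_equiv_equiv σ s (by
    ext c
    simp only [RingHom.comp_apply, RingEquiv.coe_toRingHom]
    exact (h.base c).symm) x
  rw [h1, RingEquiv.apply_symm_apply]

theorem tr_nd {x : L} (h : ∀ k, Algebra.trace F L (k * x) = 0) : x = 0 := by
  apply (traceForm_nondegenerate F L).1 x
  intro k
  rw [Algebra.traceForm_apply, mul_comm]
  exact h k

theorem tr_eq {x y : L} (h : ∀ k, Algebra.trace F L (k * x) = Algebra.trace F L (k * y)) : x = y := by
  rw [← sub_eq_zero]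
  apply tr_nd (F := F)
  intro k
  rw [mul_sub, map_sub, h, sub_self]

theorem tr_rep (φ : L →ₗ[F] F) : ∃ x : L, ∀ k, φ k = Algebra.trace F L (k * x) := by
  refine ⟨((Algebra.traceForm F L).toDual (traceForm_nondegenerate F L)).symm φ, fun k => ?_⟩
  rw [mul_comm, ← Algebra.traceForm_apply]
  exact (LinearMap.BilinForm.apply_toDual_symm_apply φ k).symm

omit [Finite F] [FiniteDimensional F L] in
theorem rho_smul (k : L) (c : F) (u : ι → F) : ρ (c • k) *ᵥ u = c • (ρ k *ᵥ u) := by
  rw [map_smul, Matrix.smul_mulVec]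

/-- the hermitian form over the extension field -/
theorem ExtDat.exists_H (h : ExtDat σ f ρ s) (u v : ι → F) : ∃ x : L, ∀ k, f (ρ k *ᵥ u) v = Algebra.trace F L (k * x) := by
  let φ : L →ₗ[F] F :=
    { toFun := fun k => f (ρ k *ᵥ u) v
      map_add' := by
        intro a b
        rw [map_add, Matrix.add_mulVec, h.hf.add_left]
      map_smul' := by
        intro c a
        rw [rho_smul, h.hf.smul_left]; rfl }
  exact tr_rep φ

/-- the hermitian form over the extension field -/
noncomputable def ExtDat.H (h : ExtDat σ f ρ s) (u v : ι → F) : L := (h.exists_H u v).choose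

theorem ExtDat.H_spec (h : ExtDat σ f ρ s) (u v : ι → F) (k : L) : f (ρ k *ᵥ u) v = Algebra.trace F L (k * h.H u v) :=
  (h.exists_H u v).choose_spec k

theorem ExtDat.form_eq (h : ExtDat σ f ρ s) (u v : ι → F) : f u v = Algebra.trace F L (h.H u v) := by
  have h1 := h.H_spec u v 1
  rwa [map_one, Matrix.one_mulVec, one_mul] at h1

theorem ExtDat.H_smul (h : ExtDat σ f ρ s) (l : L) (u v : ι → F) : h.H (ρ l *ᵥ u) v = l * h.H u v := by
  apply tr_eq (F := F)
  intro k
  rw [← h.H_spec, Matrix.mulVec_mulVec, ← map_mul, h.H_spec, mul_assoc]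

theorem ExtDat.H_add (h : ExtDat σ f ρ s) (u u' v : ι → F) : h.H (u + u') v = h.H u v + h.H u' v := by
  apply tr_eq (F := F)
  intro k
  rw [← h.H_spec, Matrix.mulVec_add, h.hf.add_left, h.H_spec, h.H_spec, mul_add, map_add]

theorem ExtDat.H_herm (h : ExtDat σ f ρ s) (u v : ι → F) : h.H v u = s (h.H u v) := by
  apply tr_eq (F := F)
  intro k
  have e : k * s (h.H u v) = s (s k * h.H u v) := by rw [map_mul, h.inv]
  rw [e, h.tr_star, ← h.H_spec, ← h.H_spec, h.adj (s k), h.inv, ← h.hf.herm]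

theorem ExtDat.H_smul_right (h : ExtDat σ f ρ s) (l : L) (u v : ι → F) : h.H u (ρ l *ᵥ v) = s l * h.H u v := by
  rw [h.H_herm, h.H_smul, map_mul, ← h.H_herm]

theorem ExtDat.H_add_right (h : ExtDat σ f ρ s) (u v v' : ι → F) : h.H u (v + v') = h.H u v + h.H u v' := by
  rw [h.H_herm, h.H_add, map_add, ← h.H_herm, ← h.H_herm]

theorem ExtDat.H_nd (h : ExtDat σ f ρ s) {v : ι → F} (hv : v ≠ 0) : ∃ u, h.H u v ≠ 0 := by
  obtain ⟨⟨u, hu⟩, -⟩ := h.hf.nondegenerate v hv
  refine ⟨u, fun h0 => hu ?_⟩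
  rw [h.form_eq, h0, map_zero]

theorem ExtDat.H_self (h : ExtDat σ f ρ s) (v : ι → F) : s (h.H v v) = h.H v v := (h.H_herm v v).symm

/-- the form as a linear map in the first variable -/
noncomputable def ExtDat.HL (h : ExtDat σ f ρ s) (v : ι → F) : (ι → F) →ₗ[F] L where
  toFun := fun u => h.H u v
  map_add' := fun u u' => h.H_add u u' v
  map_smul' := by
    intro c u
    have e : c • u = ρ (algebraMap F L c) *ᵥ u := by
      rw [AlgHom.commutes, Algebra.algebraMap_eq_smul_one, Matrix.smul_mulVec, Matrix.one_mulVec]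
    rw [e, h.H_smul, RingHom.id_apply, Algebra.smul_def]

/-- hyperbolic pairs over the extension field, characteristic two -/
theorem ExtDat.exists_hyp [Finite L] (h : ExtDat σ f ρ s) (h2 : (2 : F) = 0) (hdim : finrank F L < Fintype.card ι) :
    ∃ a b : ι → F, h.H a a = 0 ∧ h.H b b = 0 ∧ h.H a b = 1 := by
  classical
  have h2L : (2 : L) = 0 := by
    have := congrArg (algebraMap F L) h2
    rwa [map_ofNat, map_zero] at this
  have hne : s ≠ RingEquiv.refl L := by
    intro e
    apply h.hf.ne_refl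
    ext c
    have h1 := h.base c
    rw [e, RingEquiv.refl_apply] at h1
    rw [RingEquiv.refl_apply]
    exact (algebraMap F L).injective h1.symm
  have hpos : 0 < Fintype.card ι := by omega
  haveI : Nonempty ι := Fintype.card_pos_iff.1 hpos
  -- isotropic vector
  obtain ⟨a, ha, ha0⟩ : ∃ a, h.H a a = 0 ∧ a ≠ 0 := by
    obtain ⟨v, hv⟩ := exists_ne (0 : ι → F)
    by_cases hvv : h.H v v = 0
    · exact ⟨v, hvv, hv⟩
    have hker : LinearMap.ker (h.HL v) ≠ ⊥ := by
      apply LinearMap.ker_ne_bot_of_finrank_lt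
      rw [Module.finrank_fintype_fun_eq_card]
      exact hdim
    obtain ⟨w, hw, hw0⟩ := (Submodule.ne_bot_iff _).1 hker
    have hwv : h.H w v = 0 := hw
    by_cases hww : h.H w w = 0
    · exact ⟨w, hww, hw0⟩
    obtain ⟨κ, hκ⟩ := CfsgLib.Herm27.exists_norm_eq (s : L →+* L) (fun e => hne (RingEquiv.ext fun x => by
        have := RingHom.congr_fun e x
        exact this)) h.inv (-(h.H v v) / h.H w w) (div_ne_zero (neg_ne_zero.2 hvv) hww)
      (by
        show s (-(h.H v v) / h.H w w) = _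
        rw [map_div₀, map_neg, h.H_self, h.H_self])
    have hκ' : κ * s κ = -(h.H v v) / h.H w w := hκ
    refine ⟨v + ρ κ *ᵥ w, ?_, ?_⟩
    · have hvw : h.H v w = 0 := by rw [h.H_herm, hwv, map_zero]
      rw [h.H_add, h.H_add_right, h.H_add_right, h.H_smul, h.H_smul, h.H_smul_right, h.H_smul_right, hvw, hwv]
      have : κ * (s κ * h.H w w) = -(h.H v v) := by rw [← mul_assoc, hκ', div_mul_cancel₀ _ hww]
      rw [this]; ring
    · intro h0
      have h1 : h.H (v + ρ κ *ᵥ w) v = 0 := by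
        rw [h0]
        exact map_zero (h.HL v)
      rw [h.H_add, h.H_smul, hwv, mul_zero, add_zero] at h1
      exact hvv h1
  obtain ⟨u, hu⟩ := h.H_nd ha0
  obtain ⟨b₁, hb₁⟩ : ∃ b₁, h.H a b₁ = 1 := by
    refine ⟨ρ (h.H u a)⁻¹ *ᵥ u, ?_⟩
    rw [h.H_herm, h.H_smul, inv_mul_cancel₀ hu, map_one]
  obtain ⟨x, hx⟩ : ∃ x, s x ≠ x := by
    by_contra hcon
    push Not at hcon
    exact hne (RingEquiv.ext hcon)
  have hxx : x + s x ≠ 0 := by
    intro h0
    apply hx
    linear_combination h0 - x * h2L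
  have hτ : x / (x + s x) + s (x / (x + s x)) = 1 := by
    rw [map_div₀, map_add, h.inv, add_comm (s x) x, ← add_div, div_self hxx]
  set τ := x / (x + s x) with hτd
  refine ⟨a, b₁ + ρ (-(h.H b₁ b₁) * τ) *ᵥ a, ha, ?_, ?_⟩
  · have hb₁a : h.H b₁ a = 1 := by rw [h.H_herm, hb₁, map_one]
    rw [h.H_add, h.H_add_right, h.H_add_right, h.H_smul, h.H_smul, h.H_smul_right, h.H_smul_right, ha, hb₁, hb₁a, map_mul, map_neg, h.H_self]
    linear_combination -(h.H b₁ b₁) * hτ
  · rw [h.H_add_right, h.H_smul_right, ha, mul_zero, add_zero, hb₁]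

end ext

end CfsgLib.H14SU
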