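import Cfsg.Agent.LibH14SU22

/-! Unitary groups and extension fields: rational structures (seat helper14). -/

set_option autoImplicit false

namespace CfsgLib.H14SU

open Module Cfsg Cfsg.Geo CfsgLib.MaxTv29 CfsgLib.Un29 CfsgLib.H14SU1
open scoped Matrix MatrixGroups Kronecker

section ext
variable {F : Type*} [Field F] [Finite F] {ι : Type} [Fintype ι] [DecidableEq ι] {σ : F ≃+* F} {f : (ι → F) → (ι → F) → F}
    {L : Type*} [Field L] [Algebra F L] [FiniteDimensional F L] {ρ : L →ₐ[F] Matrix ι ι F} {s : L ≃+* L}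

theorem ExtDat.ne_refl (h : ExtDat σ f ρ s) : ∃ ω : F, σ ω ≠ ω := by
  by_contra hcon
  push Not at hcon
  exact h.hf.ne_refl (RingEquiv.ext hcon)

/-- a basis of fixed elements -/
theorem ExtDat.exists_basis (h : ExtDat σ f ρ s) {r : ℕ} (hr : finrank F L = r) :
    ∃ κ : Basis (Fin r) F L, (∀ i, s (κ i) = κ i) ∧ ∀ x, s x = x → ∀ i, σ (κ.repr x i) = κ.repr x i := by
  obtain ⟨ω, hω⟩ := h.ne_refl
  -- fixed elements span
  have hspan : Submodule.span F {x : L | s x = x} = ⊤ := by
    rw [eq_top_iff]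
    intro x _
    have hω' : algebraMap F L (ω - σ ω) ≠ 0 := by
      rw [Ne, map_eq_zero_iff _ (algebraMap F L).injective, sub_eq_zero]
      exact Ne.symm hω
    set t := (x - s x) / algebraMap F L (ω - σ ω) with ht
    have hst : s t = t := by
      rw [ht, map_div₀, map_sub, h.inv, h.base, map_sub, h.hf.involutive]
      have e : algebraMap F L (σ ω - ω) = -algebraMap F L (ω - σ ω) := by rw [← map_neg, neg_sub]
      rw [e, div_neg, ← neg_div, neg_sub]
    have hsu : s (x - ω • t) = x - ω • t := by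
      have h1 : (ω - σ ω) • t = x - s x := by
        rw [Algebra.smul_def, ht, mul_div_cancel₀ _ hω']
      have h2 : s (ω • t) = σ ω • t := by rw [Algebra.smul_def, map_mul, h.base, hst, Algebra.smul_def]
      rw [map_sub, h2]
      rw [sub_smul] at h1
      linear_combination h1
    have e : x = (x - ω • t) + ω • t := by ring
    rw [e]
    exact Submodule.add_mem _ (Submodule.subset_span hsu) (Submodule.smul_mem _ _ (Submodule.subset_span hst))
  obtain ⟨b, hb, hbs, hbl⟩ := exists_linearIndependent F {x : L | s x = x}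
  rw [hspan] at hbs
  let κ₀ : Basis b F L := Basis.mk hbl (by rw [Subtype.range_coe, hbs])
  haveI : Fintype b := FiniteDimensional.fintypeBasisIndex κ₀
  have hcard : Fintype.card b = r := by rw [← hr, Module.finrank_eq_card_basis κ₀]
  let κ : Basis (Fin r) F L := κ₀.reindex (Fintype.equivFinOfCardEq hcard)
  have hκ : ∀ i, s (κ i) = κ i := by
    intro i
    have : κ i ∈ {x : L | s x = x} := by
      rw [Basis.reindex_apply, Basis.mk_apply]
      exact hb (Subtype.mem _)
    exact this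
  refine ⟨κ, hκ, ?_⟩
  intro x hx i
  have h1 : x = ∑ j, σ (κ.repr x j) • κ j := by
    conv_lhs => rw [← hx, ← κ.sum_repr x, map_sum]
    apply Finset.sum_congr rfl
    intro j _
    rw [Algebra.smul_def, map_mul, h.base, hκ, ← Algebra.smul_def]
  have h2 := congrArg (fun y => κ.repr y i) h1
  have h3 : κ.repr x i = κ.repr (∑ j, σ (κ.repr x j) • κ j) i := h2
  rw [κ.repr_sum_self] at h3
  exact h3.symm

/-- the basis attached to a hyperbolic pair -/
theorem ExtDat.exists_bs (h : ExtDat σ f ρ s) {r : ℕ} (hr : finrank F L = r) (hι : Fintype.card ι = r + r) (κ : Basis (Fin r) F L)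
    {a b : ι → F} (ha : h.H a a = 0) (hb : h.H b b = 0) (hab : h.H a b = 1) :
    ∃ bs : Basis (Fin r ⊕ Fin r) F (ι → F), (∀ i, bs (Sum.inl i) = ρ (κ i) *ᵥ a) ∧ (∀ i, bs (Sum.inr i) = ρ (κ i) *ᵥ b) := by
  have hba : h.H b a = 1 := by rw [h.H_herm, hab, map_one]
  have hsum : ∀ (c : Fin r → F) (u : ι → F), ∑ i, c i • (ρ (κ i) *ᵥ u) = ρ (∑ i, c i • κ i) *ᵥ u := by
    intro c u
    rw [map_sum, Matrix.sum_mulVec]
    apply Finset.sum_congr rfl
    intro i _
    rw [rho_smul]
  have hli : LinearIndependent F (Sum.elim (fun i => ρ (κ i) *ᵥ a) (fun i => ρ (κ i) *ᵥ b)) := by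
    rw [Fintype.linearIndependent_iff]
    intro c hc
    rw [Fintype.sum_sum_type] at hc
    simp only [Sum.elim_inl, Sum.elim_inr] at hc
    rw [hsum (fun i => c (Sum.inl i)), hsum (fun i => c (Sum.inr i))] at hc
    have h1 : ∑ i, c (Sum.inl i) • κ i = 0 := by
      have h3 := congrArg (fun u => h.H u b) hc
      rw [h.H_add, h.H_smul, h.H_smul, hab, hb, mul_one, mul_zero, add_zero] at h3
      rw [h3]
      exact map_zero (h.HL b)
    have h2 : ∑ i, c (Sum.inr i) • κ i = 0 := by
      have h3 := congrArg (fun u => h.H u a) hc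
      rw [h.H_add, h.H_smul, h.H_smul, hba, ha, mul_one, mul_zero, zero_add] at h3
      rw [h3]
      exact map_zero (h.HL a)
    have hκ := Fintype.linearIndependent_iff.1 κ.linearIndependent
    rintro (i | i)
    · exact hκ _ h1 i
    · exact hκ _ h2 i
  have hspan : ⊤ ≤ Submodule.span F (Set.range (Sum.elim (fun i => ρ (κ i) *ᵥ a) (fun i => ρ (κ i) *ᵥ b))) := by
    rw [LinearIndependent.span_eq_top_of_card_eq_finrank' hli]
    rw [Fintype.card_sum, Fintype.card_fin, Module.finrank_fintype_fun_eq_card, hι]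
  exact ⟨Basis.mk hli hspan, fun i => by rw [Basis.mk_apply]; rfl, fun i => by rw [Basis.mk_apply]; rfl⟩

/-- determinant of the multiplication -/
theorem ExtDat.det_rho {r : ℕ} (κ : Basis (Fin r) F L) {a b : ι → F} {bs : Basis (Fin r ⊕ Fin r) F (ι → F)}
    (h1 : ∀ i, bs (Sum.inl i) = ρ (κ i) *ᵥ a) (h2 : ∀ i, bs (Sum.inr i) = ρ (κ i) *ᵥ b) (x : L) :
    (ρ x).det = Algebra.norm F x * Algebra.norm F x := by
  have hsum : ∀ (c : Fin r → F) (u : ι → F), ∑ i, c i • (ρ (κ i) *ᵥ u) = ρ (∑ i, c i • κ i) *ᵥ u := by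
    intro c u
    rw [map_sum, Matrix.sum_mulVec]
    apply Finset.sum_congr rfl
    intro i _
    rw [rho_smul]
  have hmul : ∀ j, ∑ i, Algebra.leftMulMatrix κ x i j • κ i = x * κ j := by
    intro j
    simp only [Algebra.leftMulMatrix_eq_repr_mul]
    exact κ.sum_repr _
  rw [Algebra.norm_eq_matrix_det κ, ← Matrix.det_fromBlocks_zero₂₁ (Algebra.leftMulMatrix κ x) 0 (Algebra.leftMulMatrix κ x)]
  apply det_of_cols bs
  rintro (j | j)
  · rw [h1, Matrix.mulVec_mulVec, ← map_mul, ← hmul, Fintype.sum_sum_type]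
    simp only [Matrix.fromBlocks_apply₁₁, Matrix.fromBlocks_apply₂₁, Matrix.zero_apply, zero_smul, Finset.sum_const_zero, add_zero, h1]
    rw [hsum]
  · rw [h2, Matrix.mulVec_mulVec, ← map_mul, ← hmul, Fintype.sum_sum_type]
    simp only [Matrix.fromBlocks_apply₁₂, Matrix.fromBlocks_apply₂₂, Matrix.zero_apply, zero_smul, Finset.sum_const_zero, zero_add, h2]
    rw [hsum]

end ext

end CfsgLib.H14SU
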