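import Cfsg.Agent.LibH14SU23

/-! Unitary groups and extension fields: semilinear isometries (seat helper14). -/

set_option autoImplicit false

namespace CfsgLib.H14SU

open Module Cfsg Cfsg.Geo CfsgLib.MaxTv29 CfsgLib.Un29 CfsgLib.H14SU1
open scoped Matrix MatrixGroups Kronecker

section ext
variable {F : Type*} [Field F] [Finite F] {ι : Type} [Fintype ι] [DecidableEq ι] {σ : F ≃+* F} {f : (ι → F) → (ι → F) → F}
    {L : Type*} [Field L] [Algebra F L] [FiniteDimensional F L] {ρ : L →ₐ[F] Matrix ι ι F} {s : L ≃+* L}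

/-- expansion in a hyperbolic pair -/
theorem ExtDat.expand (h : ExtDat σ f ρ s) {r : ℕ} (κ : Basis (Fin r) F L) {a b : ι → F} (ha : h.H a a = 0) (hb : h.H b b = 0) (hab : h.H a b = 1)
    {bs : Basis (Fin r ⊕ Fin r) F (ι → F)}
    (h1 : ∀ i, bs (Sum.inl i) = ρ (κ i) *ᵥ a) (h2 : ∀ i, bs (Sum.inr i) = ρ (κ i) *ᵥ b) (v : ι → F) :
    v = ρ (h.H v b) *ᵥ a + ρ (h.H v a) *ᵥ b := by
  have hba : h.H b a = 1 := by rw [h.H_herm, hab, map_one]
  have hsum : ∀ (c : Fin r → F) (u : ι → F), ∑ i, c i • (ρ (κ i) *ᵥ u) = ρ (∑ i, c i • κ i) *ᵥ u := by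
    intro c u
    rw [map_sum, Matrix.sum_mulVec]
    apply Finset.sum_congr rfl
    intro i _
    rw [rho_smul]
  obtain ⟨x, y, hv⟩ : ∃ x y, v = ρ x *ᵥ a + ρ y *ᵥ b := by
    refine ⟨∑ i, bs.repr v (Sum.inl i) • κ i, ∑ i, bs.repr v (Sum.inr i) • κ i, ?_⟩
    rw [← hsum, ← hsum]
    conv_lhs => rw [← bs.sum_repr v, Fintype.sum_sum_type]
    simp only [h1, h2]
  have hx : h.H v b = x := by rw [hv, h.H_add, h.H_smul, h.H_smul, hab, hb, mul_one, mul_zero, add_zero]
  have hy : h.H v a = y := by rw [hv, h.H_add, h.H_smul, h.H_smul, hba, ha, mul_one, mul_zero, zero_add]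
  rw [hx, hy]; exact hv

/-- the effect of a semilinear isometry on the hermitian form -/
theorem ExtDat.H_semi (h : ExtDat σ f ρ s) {g : GL ι F} (hg : g ∈ iso f) {γ : L ≃ₐ[F] L}
    (hγ : ∀ k, ρ (γ k) * (g : Matrix ι ι F) = (g : Matrix ι ι F) * ρ k) (u v : ι → F) :
    h.H ((g : Matrix ι ι F) *ᵥ u) ((g : Matrix ι ι F) *ᵥ v) = γ (h.H u v) := by
  apply tr_eq (F := F)
  intro k
  have e1 : k = γ (γ.symm k) := (γ.apply_symm_apply k).symm
  rw [← h.H_spec]
  conv_lhs => rw [e1, Matrix.mulVec_mulVec, hγ, ← Matrix.mulVec_mulVec, (mem_iso g).1 hg, h.H_spec]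
  conv_rhs => rw [e1, ← map_mul, Algebra.trace_eq_of_algEquiv]

theorem ExtDat.comm_star (h : ExtDat σ f ρ s) {g : GL ι F} (hg : g ∈ iso f) {γ : L ≃ₐ[F] L}
    (hγ : ∀ k, ρ (γ k) * (g : Matrix ι ι F) = (g : Matrix ι ι F) * ρ k) {a b : ι → F} (hab : h.H a b = 1) (k : L) :
    s (γ k) = γ (s k) := by
  have h1 : h.H (ρ k *ᵥ a) b = k := by rw [h.H_smul, hab, mul_one]
  rw [← h1, ← h.H_semi hg hγ, ← h.H_herm, ← h.H_herm, h.H_semi hg hγ]

/-- semilinear isometries, up to a scalar of norm one -/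
theorem ExtDat.semi_normal [Finite L] (h : ExtDat σ f ρ s) (h2 : (2 : F) = 0) {r : ℕ} (κ : Basis (Fin r) F L) {a b : ι → F}
    (ha : h.H a a = 0) (hb : h.H b b = 0) (hab : h.H a b = 1)
    {bs : Basis (Fin r ⊕ Fin r) F (ι → F)}
    (h1' : ∀ i, bs (Sum.inl i) = ρ (κ i) *ᵥ a) (h2' : ∀ i, bs (Sum.inr i) = ρ (κ i) *ᵥ b)
    {g : GL ι F} (hg : g ∈ iso f) {γ : L ≃ₐ[F] L}
    (hγ : ∀ k, ρ (γ k) * (g : Matrix ι ι F) = (g : Matrix ι ι F) * ρ k) :
    ∃ β : L, β ≠ 0 ∧ β * s β = 1 ∧ ∀ x y, s x = x → s y = y → ∃ x' y', s x' = x' ∧ s y' = y' ∧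
      ρ β *ᵥ ((g : Matrix ι ι F) *ᵥ (ρ x *ᵥ a + ρ y *ᵥ b)) = ρ x' *ᵥ a + ρ y' *ᵥ b := by
  have h2L : (2 : L) = 0 := by
    have := congrArg (algebraMap F L) h2
    rwa [map_ofNat, map_zero] at this
  have hba : h.H b a = 1 := by rw [h.H_herm, hab, map_one]
  set G : Matrix ι ι F := (g : Matrix ι ι F) with hG
  set p := h.H (G *ᵥ a) b with hp
  set r := h.H (G *ᵥ a) a with hr
  set q := h.H (G *ᵥ b) b with hq
  set t := h.H (G *ᵥ b) a with ht
  have hga : G *ᵥ a = ρ p *ᵥ a + ρ r *ᵥ b := h.expand κ ha hb hab h1' h2' _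
  have hgb : G *ᵥ b = ρ q *ᵥ a + ρ t *ᵥ b := h.expand κ ha hb hab h1' h2' _
  have hform : ∀ x y x' y', h.H (ρ x *ᵥ a + ρ y *ᵥ b) (ρ x' *ᵥ a + ρ y' *ᵥ b) = x * s y' + y * s x' := by
    intro x y x' y'
    rw [h.H_add, h.H_add_right, h.H_add_right, h.H_smul, h.H_smul, h.H_smul, h.H_smul, h.H_smul_right, h.H_smul_right, h.H_smul_right,
      h.H_smul_right, ha, hb, hab, hba]
    ring
  have r1 : p * s r + r * s p = 0 := by rw [← hform, ← hga, h.H_semi hg hγ, ha, map_zero]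
  have r2 : q * s t + t * s q = 0 := by rw [← hform, ← hgb, h.H_semi hg hγ, hb, map_zero]
  have r3 : p * s t + r * s q = 1 := by rw [← hform, ← hga, ← hgb, h.H_semi hg hγ, hab, map_one]
  have r4 : s p * t + s r * q = 1 := by
    have := congrArg s r3
    rw [map_add, map_mul, map_mul, h.inv, h.inv, map_one] at this
    exact this
  set d := p * t + q * r with hd
  have dp : p = d * s p := by
    rw [hd]
    linear_combination (-p) * r4 + q * r1 - (q * r * s p) * h2L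
  have dr : r = d * s r := by
    rw [hd]
    linear_combination (-r) * r4 + t * r1 - (p * t * s r) * h2L
  have dq : q = d * s q := by
    rw [hd]
    linear_combination (-q) * r3 + p * r2 - (p * t * s q) * h2L
  have dt : t = d * s t := by
    rw [hd]
    linear_combination (-t) * r3 + r * r2 - (q * r * s t) * h2L
  have hd0 : d ≠ 0 := by
    intro h0
    rw [dp, dr, h0] at r3
    simp at r3
  have hds : d * s d = 1 := by
    have key : ∀ e, e = d * s e → e ≠ 0 → d * s d = 1 := by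
      intro e he he0
      have h3 : s e = s d * e := by
        have := congrArg s he
        rwa [map_mul, h.inv] at this
      rw [h3] at he
      have h4 : (d * s d - 1) * e = 0 := by linear_combination -he
      exact sub_eq_zero.1 ((mul_eq_zero.1 h4).resolve_right he0)
    by_cases hp0 : p = 0
    · apply key r dr
      intro hr0
      rw [hp0, hr0] at r3
      simp at r3
    · exact key p dp hp0
  -- square root
  haveI : CharP L 2 := (CharP.charP_iff_prime_eq_zero Nat.prime_two).mpr (by exact_mod_cast h2L)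
  obtain ⟨α, hα⟩ : IsSquare d := FiniteField.isSquare_of_char_two (ringChar.eq_iff.2 inferInstance) d
  have hα0 : α ≠ 0 := by rintro rfl; apply hd0; rw [hα, mul_zero]
  have hαs : α * s α = 1 := by
    have h3 : (α * s α) * (α * s α) = 1 := by
      rw [← hds, hα, map_mul]; ring
    rcases mul_self_eq_one_iff.1 h3 with h4 | h4
    · exact h4
    · rw [h4]; linear_combination -h2L
  have hβ : ∀ e, e = d * s e → s (s α * e) = s α * e := by
    intro e he
    rw [map_mul, h.inv]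
    conv_rhs => rw [he, hα]
    linear_combination (-(α * s e)) * hαs
  refine ⟨s α, ?_, by rw [h.inv, mul_comm]; exact hαs, ?_⟩
  · intro h0
    rw [h0, mul_zero] at hαs
    exact zero_ne_one hαs
  intro x y hx hy
  have hcs := h.comm_star hg hγ hab
  have hγx : s (γ x) = γ x := by rw [hcs, hx]
  have hγy : s (γ y) = γ y := by rw [hcs, hy]
  refine ⟨γ x * (s α * p) + γ y * (s α * q), γ x * (s α * r) + γ y * (s α * t), ?_, ?_, ?_⟩
  · rw [map_add, map_mul s (γ x), map_mul s (γ y), hγx, hγy, hβ p dp, hβ q dq]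
  · rw [map_add, map_mul s (γ x), map_mul s (γ y), hγx, hγy, hβ r dr, hβ t dt]
  · have e1 : ∀ (x : L) (u : ι → F), G *ᵥ (ρ x *ᵥ u) = ρ (γ x) *ᵥ (G *ᵥ u) := by
      intro x u
      rw [Matrix.mulVec_mulVec, ← hγ, ← Matrix.mulVec_mulVec]
    rw [Matrix.mulVec_add, e1, e1, hga, hgb]
    simp only [Matrix.mulVec_add, Matrix.mulVec_mulVec, ← map_mul, map_add, Matrix.add_mulVec]
    rw [mul_left_comm (s α) (γ x) p, mul_left_comm (s α) (γ x) r, mul_left_comm (s α) (γ y) q, mul_left_comm (s α) (γ y) t]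
    abel

end ext

end CfsgLib.H14SU
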