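import Cfsg.Agent.LibH14SU24

/-! Unitary groups and extension fields: the field with four elements in dimension six (seat helper14). -/

set_option autoImplicit false

namespace CfsgLib.H14SU

open Module Cfsg Cfsg.Geo CfsgLib.MaxTv29 CfsgLib.Un29 CfsgLib.H14SU1
open scoped Matrix MatrixGroups Kronecker

/-- determinants of matrices with entries in a subfield -/
theorem det_mem_subfield {κ : Type} [Fintype κ] [DecidableEq κ] {F : Type*} [Field F] {F₀ : Subfield F} {M : Matrix κ κ F}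
    (h : ∀ i j, M i j ∈ F₀) : M.det ∈ F₀ := by
  let N : Matrix κ κ F₀ := Matrix.of fun i j => ⟨M i j, h i j⟩
  have h1 : M = (F₀.subtype : F₀ →+* F).mapMatrix N := by ext i j; rfl
  rw [h1, ← RingHom.map_det]
  exact N.det.2

/-- the fixed field of an involution of a finite field -/
theorem pow_fixed {L : Type*} [Field L] [Finite L] {s : L ≃+* L} (hs : s ≠ RingEquiv.refl L) (hs2 : ∀ x, s (s x) = x) {m : ℕ}
    (hL : Nat.card L = m ^ 2) {x : L} (hx : x ^ m = x) : s x = x := by
  let S : Subfield L := fixF s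
  haveI : Fintype L := Fintype.ofFinite L
  haveI : Fintype S := Fintype.ofFinite S
  have h := CfsgLib.AschF.card_fix hs hs2 S (fun x => mem_fixF)
  have h1 : Nat.card S = m := by
    rw [hL] at h
    exact (Nat.pow_left_injective (by norm_num : 2 ≠ 0) h).symm
  have h2 : x ∈ S := CfsgLib.AschF.mem_subfield_of_pow S x (by rw [h1]; exact hx)
  exact h2

section ext
variable {F : Type*} [Field F] [Fintype F] {ι : Type} [Fintype ι] [DecidableEq ι] {σ : F ≃+* F} {f : (ι → F) → (ι → F) → F}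
    {L : Type*} [Field L] [Algebra F L] [FiniteDimensional F L] {ρ : L →ₐ[F] Matrix ι ι F} {s : L ≃+* L}

/-- elements of norm one and determinant one are scalars -/
theorem scalar_norm_one [Finite L] (hF : Fintype.card F = 4) (h : ExtDat σ f ρ s) (h3 : finrank F L = 3) {x : L}
    (hx : x * s x = 1) (hn : Algebra.norm F x * Algebra.norm F x = 1) : ∃ c : F, x = algebraMap F L c := by
  have h2 : (2 : F) = 0 := by
    have h1 := Nat.cast_card_eq_zero F
    rw [hF] at h1
    have h2 : ((4 : ℕ) : F) = 2 * 2 := by norm_num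
    rw [h2] at h1
    exact mul_self_eq_zero.1 h1
  have h2L : (2 : L) = 0 := by
    have := congrArg (algebraMap F L) h2
    rwa [map_ofNat, map_zero] at this
  haveI : Fintype L := Fintype.ofFinite L
  have hcL : Nat.card L = 64 := by
    rw [Nat.card_eq_fintype_card, Module.card_eq_pow_finrank (K := F) (V := L), h3, hF]; norm_num
  have hcF : Nat.card F = 4 := by rw [Nat.card_eq_fintype_card, hF]
  have hn1 : Algebra.norm F x = 1 := by
    rcases mul_self_eq_one_iff.1 hn with h4 | h4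
    · exact h4
    · rw [h4]; linear_combination -h2
  have h21 : x ^ 21 = 1 := by
    have h4 := FiniteField.algebraMap_norm_eq_pow (K := F) (x := x)
    rw [hn1, map_one, hcL, hcF] at h4
    norm_num at h4
    exact h4.symm
  have hne : s ≠ RingEquiv.refl L := by
    intro e
    apply h.hf.ne_refl
    ext c
    have h1 := h.base c
    rw [e, RingEquiv.refl_apply] at h1
    rw [RingEquiv.refl_apply]
    exact (algebraMap F L).injective h1.symm
  have hv : (x ^ 3) ^ 8 = x ^ 3 := by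
    have : (x ^ 3) ^ 8 = x ^ 21 * x ^ 3 := by ring
    rw [this, h21, one_mul]
  have hsv := pow_fixed hne h.inv (m := 8) (by rw [hcL]; norm_num) hv
  have hv2 : (x ^ 3) * (x ^ 3) = 1 := by
    have : (x * s x) ^ 3 = 1 := by rw [hx, one_pow]
    rw [mul_pow, ← map_pow, hsv] at this
    exact this
  have hv1 : x ^ 3 = 1 := by
    rcases mul_self_eq_one_iff.1 hv2 with h4 | h4
    · exact h4
    · rw [h4]; linear_combination -h2L
  have hx4 : x ^ Nat.card (algebraMap F L).fieldRange = x := by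
    have hc : Nat.card (algebraMap F L).fieldRange = 4 := by
      rw [← hcF]
      exact Nat.card_congr (Equiv.ofInjective _ (algebraMap F L).injective).symm
    rw [hc]
    have : x ^ 4 = x ^ 3 * x := by ring
    rw [this, hv1, one_mul]
  obtain ⟨c, hc⟩ := CfsgLib.AschF.mem_subfield_of_pow _ x hx4
  exact ⟨c, hc.symm⟩

end ext

/-- extension fields of degree three in dimension six over the field with four elements -/
theorem fld_sub {F : Type*} [Field F] [Fintype F] (hF : Fintype.card F = 4) {σ : F ≃+* F} {f : (Fin 6 → F) → (Fin 6 → F) → F}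
    {L : Type*} [Field L] [Algebra F L] [FiniteDimensional F L] [Finite L] {ρ : L →ₐ[F] Matrix (Fin 6) (Fin 6) F} {s : L ≃+* L}
    (h : ExtDat σ f ρ s) (h3 : finrank F L = 3) :
    ∃ (F₀ : Subfield F) (P : GL (Fin 6) F), Fintype.card F = Nat.card F₀ ^ 2 ∧ IsFormRationalStructure f F₀ 1 P ∧
      (∀ u : Fin 6 → F, (∀ i, u i ∈ F₀) → f ((P : Matrix (Fin 6) (Fin 6) F) *ᵥ u) ((P : Matrix (Fin 6) (Fin 6) F) *ᵥ u) = 0) ∧
      ∀ g : GL (Fin 6) F, g ∈ iso f → (g : Matrix (Fin 6) (Fin 6) F).det = 1 →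
        (∃ γ : L ≃ₐ[F] L, ∀ k, ρ (γ k) * (g : Matrix (Fin 6) (Fin 6) F) = (g : Matrix (Fin 6) (Fin 6) F) * ρ k) →
        g ∈ subfieldSubgroup F₀ P := by
  have h2 : (2 : F) = 0 := by
    have h1 := Nat.cast_card_eq_zero F
    rw [hF] at h1
    have h2 : ((4 : ℕ) : F) = 2 * 2 := by norm_num
    rw [h2] at h1
    exact mul_self_eq_zero.1 h1
  have hc0 : Nat.card (fixF σ) = 2 := card_fixF h.hf (by rw [hF]; norm_num)
  obtain ⟨κ, hκ, hκr⟩ := h.exists_basis h3
  obtain ⟨a, b, ha, hb, hab⟩ := h.exists_hyp h2 (by rw [h3]; simp)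
  have hba : h.H b a = 1 := by rw [h.H_herm, hab, map_one]
  obtain ⟨bs, hbs1, hbs2⟩ := h.exists_bs h3 (by simp) κ ha hb hab
  let e : Fin 3 ⊕ Fin 3 ≃ Fin 6 := finSumFinEquiv
  let bs' : Basis (Fin 6) F (Fin 6 → F) := bs.reindex e
  have hbs' : ∀ i, bs' (e i) = bs i := by
    intro i
    rw [Basis.reindex_apply, Equiv.symm_apply_apply]
  obtain ⟨P, hP⟩ := CfsgLib.Asch7.exists_P bs'
  -- fixed combinations
  have hfix : ∀ x y, s x = x → s y = y → ∃ c : Fin 6 → F, (∀ i, c i ∈ fixF σ) ∧ ρ x *ᵥ a + ρ y *ᵥ b = ∑ i, c i • bs' i := by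
    intro x y hx hy
    refine ⟨fun i => Sum.elim (fun i => κ.repr x i) (fun i => κ.repr y i) (e.symm i), ?_, ?_⟩
    · intro i
      show Sum.elim (fun i => κ.repr x i) (fun i => κ.repr y i) (e.symm i) ∈ fixF σ
      rcases e.symm i with j | j
      · exact hκr x hx j
      · exact hκr y hy j
    · rw [← Equiv.sum_comp e]
      simp only [Equiv.symm_apply_apply, hbs']
      rw [Fintype.sum_sum_type]
      simp only [Sum.elim_inl, Sum.elim_inr, hbs1, hbs2]
      have hsum : ∀ (c : Fin 3 → F) (u : Fin 6 → F), ∑ i, c i • (ρ (κ i) *ᵥ u) = ρ (∑ i, c i • κ i) *ᵥ u := by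
        intro c u
        rw [map_sum, Matrix.sum_mulVec]
        apply Finset.sum_congr rfl
        intro i _
        rw [rho_smul]
      rw [hsum, hsum, κ.sum_repr, κ.sum_repr]
  have hbsx : ∀ i, ∃ x y, s x = x ∧ s y = y ∧ bs' i = ρ x *ᵥ a + ρ y *ᵥ b := by
    intro i
    obtain ⟨j, rfl⟩ := e.surjective i
    rw [hbs']
    rcases j with j | j
    · exact ⟨κ j, 0, hκ j, map_zero s, by rw [hbs1, map_zero, Matrix.zero_mulVec, add_zero]⟩
    · exact ⟨0, κ j, map_zero s, hκ j, by rw [hbs2, map_zero, Matrix.zero_mulVec, zero_add]⟩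
  have hform : ∀ x y x' y', f (ρ x *ᵥ a + ρ y *ᵥ b) (ρ x' *ᵥ a + ρ y' *ᵥ b) = Algebra.trace F L (x * s y' + y * s x') := by
    intro x y x' y'
    rw [h.form_eq, h.H_add, h.H_add_right, h.H_add_right, h.H_smul, h.H_smul, h.H_smul, h.H_smul, h.H_smul_right, h.H_smul_right,
      h.H_smul_right, h.H_smul_right, ha, hb, hab, hba]
    congr 1
    ring
  refine ⟨fixF σ, P, ?_, ?_, ?_, ?_⟩
  · rw [hc0, hF]; norm_num
  · apply ratl_of h.hf (fun x hx => hx) hP
    intro i j
    obtain ⟨x, y, hx, hy, h4⟩ := hbsx i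
    obtain ⟨x', y', hx', hy', h5⟩ := hbsx j
    rw [h4, h5, hform, one_mul, mem_fixF, ← h.tr_star, map_add, map_mul, map_mul, h.inv, h.inv, hx, hy, hx', hy']
  · apply alt_of h.hf (fun x hx => hx) hP
    · intro i
      obtain ⟨x, y, hx, hy, h4⟩ := hbsx i
      rw [h4, hform, hx, hy]
      have : x * y + y * x = (2 : F) • (x * y) := by rw [two_smul]; ring
      rw [this, h2, zero_smul, map_zero]
    · intro i j
      obtain ⟨x, y, hx, hy, h4⟩ := hbsx i
      obtain ⟨x', y', hx', hy', h5⟩ := hbsx j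
      rw [h4, h5, hform, hform, ← map_add, hx, hy, hx', hy']
      have : x * y' + y * x' + (x' * y + y' * x) = (2 : F) • (x * y' + y * x') := by rw [two_smul]; ring
      rw [this, h2, zero_smul, map_zero]
  · rintro g hg hdet ⟨γ, hγ⟩
    obtain ⟨β, hβ0, hβs, hβ⟩ := h.semi_normal h2 κ ha hb hab hbs1 hbs2 hg hγ
    -- the determinant
    have hcols : ∀ j, ∃ c : Fin 6 → F, (∀ i, c i ∈ fixF σ) ∧ (ρ β * (g : Matrix (Fin 6) (Fin 6) F)) *ᵥ bs' j = ∑ i, c i • bs' i := by
      intro j
      obtain ⟨x, y, hx, hy, h4⟩ := hbsx j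
      obtain ⟨x', y', hx', hy', h5⟩ := hβ x y hx hy
      obtain ⟨c, hc, hc'⟩ := hfix x' y' hx' hy'
      exact ⟨c, hc, by rw [h4, ← Matrix.mulVec_mulVec, h5, hc']⟩
    choose c hc hc' using hcols
    have hdm : (ρ β * (g : Matrix (Fin 6) (Fin 6) F)).det ∈ fixF σ := by
      rw [det_of_cols bs' (M := Matrix.of fun i j => c j i) (fun j => hc' j)]
      exact det_mem_subfield (fun i j => hc j i)
    have hd0 : (ρ β * (g : Matrix (Fin 6) (Fin 6) F)).det ≠ 0 := by
      rw [Matrix.det_mul, hdet, mul_one, ExtDat.det_rho κ hbs1 hbs2]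
      have : Algebra.norm F β ≠ 0 := by
        rw [Ne, Algebra.norm_eq_zero_iff]; exact hβ0
      exact mul_ne_zero this this
    have hd1 : (ρ β * (g : Matrix (Fin 6) (Fin 6) F)).det = 1 := by
      haveI : Fintype (fixF σ) := Fintype.ofFinite _
      have h6 := FiniteField.pow_card_sub_one_eq_one (⟨_, hdm⟩ : fixF σ) (fun h0 => hd0 (congrArg Subtype.val h0))
      rw [← Nat.card_eq_fintype_card, hc0, pow_one] at h6
      exact congrArg Subtype.val h6
    rw [Matrix.det_mul, hdet, mul_one, ExtDat.det_rho κ hbs1 hbs2] at hd1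
    obtain ⟨l, hl⟩ := scalar_norm_one hF h h3 hβs hd1
    have hl0 : l ≠ 0 := by
      rintro rfl
      rw [map_zero] at hl
      exact hβ0 hl
    apply mem_sub_of hP hl0
    intro j
    refine ⟨c j, hc j, ?_⟩
    rw [← hc' j, hl, AlgHom.commutes, Algebra.algebraMap_eq_smul_one, smul_mul_assoc, one_mul, Matrix.smul_mulVec]

end CfsgLib.H14SU
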