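import Cfsg.Agent.LibH14SU25

/-! Special unitary groups in dimension six over the field with four elements: extension fields (seat helper14). -/

set_option autoImplicit false

namespace CfsgLib.H14SU

open Module Cfsg Cfsg.Geo CfsgLib.MaxTv29 CfsgLib.Un29 CfsgLib.H14SU1
open scoped Matrix MatrixGroups Kronecker

universe u

/-- a field subalgebra as an abstract field -/
theorem exists_fieldRep {F : Type u} [Field F] {ι : Type} [Fintype ι] [DecidableEq ι] (K : Subalgebra F (Matrix ι ι F)) (hfield : IsField K) :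
    ∃ (L : Type u) (_ : Field L) (_ : Algebra F L) (ρ : L →ₐ[F] Matrix ι ι F), Function.Injective ρ ∧ (∀ x, x ∈ K ↔ ∃ k, ρ k = x) ∧
      finrank F L = finrank F K := by
  letI i1 : CommRing K := { (inferInstance : Ring K) with mul_comm := hfield.mul_comm }
  letI i2 : Field K := hfield.toField
  letI i3 : Algebra F K := inferInstance
  refine ⟨K, i2, i3, K.val, Subtype.val_injective, ?_, rfl⟩
  intro x
  exact ⟨fun hx => ⟨⟨x, hx⟩, rfl⟩, fun ⟨k, hk⟩ => hk ▸ k.2⟩

section ext
variable {F : Type*} [Field F] {ι : Type} [Fintype ι] [DecidableEq ι] {σ : F ≃+* F} {f : (ι → F) → (ι → F) → F}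
    {L : Type*} [Field L] [Algebra F L] {ρ : L →ₐ[F] Matrix ι ι F}

theorem mat_uniq (hf : IsUnitaryForm σ f) {M N : Matrix ι ι F} (h : ∀ u v, f u (M *ᵥ v) = f u (N *ᵥ v)) : M = N := by
  apply Matrix.ext_of_mulVec_single
  intro i
  rw [← sub_eq_zero]
  by_contra hne
  obtain ⟨⟨u, hu⟩, -⟩ := hf.nondegenerate _ hne
  apply hu
  rw [sub_right hf, h, sub_self]

theorem star_exists (hf : IsUnitaryForm σ f) (hρ : Function.Injective ρ)
    (hadj : ∀ k, ∃ l, ∀ u v, f (ρ k *ᵥ u) v = f u (ρ l *ᵥ v)) : ∃ s : L ≃+* L, ExtDat σ f ρ s := by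
  choose s hs using hadj
  have huniq : ∀ k l, (∀ u v, f (ρ k *ᵥ u) v = f u (ρ l *ᵥ v)) → s k = l := by
    intro k l h
    apply hρ
    apply mat_uniq hf
    intro u v
    rw [← hs, h]
  have hss : ∀ x, s (s x) = x := by
    intro x
    apply huniq
    intro u v
    rw [hf.herm, ← hs, ← hf.herm]
  let S : L ≃+* L :=
    { toFun := s
      invFun := s
      left_inv := hss
      right_inv := hss
      map_mul' := by
        intro k l
        apply huniq
        intro u v
        rw [map_mul, map_mul, ← Matrix.mulVec_mulVec, hs, hs, Matrix.mulVec_mulVec, ← map_mul, ← map_mul, mul_comm (s l)]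
      map_add' := by
        intro k l
        apply huniq
        intro u v
        rw [map_add, map_add, Matrix.add_mulVec, Matrix.add_mulVec, hf.add_left, add_right hf, hs, hs] }
  refine ⟨S, hf, hss, ?_, hs⟩
  intro c
  apply huniq
  intro u v
  rw [AlgHom.commutes, AlgHom.commutes, Algebra.algebraMap_eq_smul_one, Algebra.algebraMap_eq_smul_one, Matrix.smul_mulVec, Matrix.one_mulVec,
    Matrix.smul_mulVec, Matrix.one_mulVec, hf.smul_left, smul_right hf, hf.involutive]

theorem conj_alg [FiniteDimensional F L] (hρ : Function.Injective ρ) {K : Subalgebra F (Matrix ι ι F)} (hK : ∀ x, x ∈ K ↔ ∃ k, ρ k = x)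
    {g : GL ι F} (hg : g ∈ subalgebraNormalizer K) : ∃ γ : L ≃ₐ[F] L, ∀ k, ρ (γ k) * (g : Matrix ι ι F) = (g : Matrix ι ι F) * ρ k := by
  have h1 : ∀ k, ∃ l, ρ l = (g : Matrix ι ι F) * ρ k * ((g⁻¹ : GL ι F) : Matrix ι ι F) := by
    intro k
    exact (hK _).1 ((hg _).1 ((hK _).2 ⟨k, rfl⟩))
  choose γ hγ using h1
  have hgg : ((g⁻¹ : GL ι F) : Matrix ι ι F) * (g : Matrix ι ι F) = 1 := by rw [← Units.val_mul, inv_mul_cancel, Units.val_one]
  have hgg' : (g : Matrix ι ι F) * ((g⁻¹ : GL ι F) : Matrix ι ι F) = 1 := by rw [← Units.val_mul, mul_inv_cancel, Units.val_one]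
  have hrel : ∀ k, ρ (γ k) * (g : Matrix ι ι F) = (g : Matrix ι ι F) * ρ k := by
    intro k
    rw [hγ, mul_assoc, hgg, mul_one]
  let Γ : L →ₐ[F] L :=
    { toFun := γ
      map_one' := by
        apply hρ
        rw [hγ, map_one, mul_one, hgg']
      map_mul' := by
        intro k l
        apply hρ
        rw [hγ, map_mul, map_mul, ← mul_assoc, ← hrel, mul_assoc (ρ (γ k)), mul_assoc (ρ (γ k)), ← hγ]
      map_zero' := by
        apply hρ
        rw [hγ, map_zero, mul_zero, zero_mul]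
      map_add' := by
        intro k l
        apply hρ
        rw [hγ, map_add, map_add, mul_add, add_mul, ← hγ, ← hγ]
      commutes' := by
        intro c
        apply hρ
        rw [hγ, AlgHom.commutes, ← Algebra.commutes, mul_assoc, hgg', mul_one] }
  have hbij : Function.Bijective Γ := by
    have hinj : Function.Injective Γ := Γ.toRingHom.injective
    exact ⟨hinj, (LinearMap.injective_iff_surjective (f := Γ.toLinearMap)).1 hinj⟩
  exact ⟨AlgEquiv.ofBijective Γ hbij, hrel⟩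

end ext

/-- extension fields in maximal subgroups in dimension six -/
theorem fld_max6 {q : ℕ} {F : Type*} [Field F] [Fintype F] (hF : Fintype.card F = q ^ 2) {H : Subgroup (GL (Fin 6) F)}
    (hH : IsMaximalIn (GU 6 F q ⊓ specialLinear (Fin 6) F) H) {K : Subalgebra F (Matrix (Fin 6) (Fin 6) F)}
    (hK : IsFieldSubalgebra 3 K) (ha : IsAdjointClosedFor (hermForm 6 F q) K)
    (h : H = subalgebraNormalizer K ⊓ (GU 6 F q ⊓ specialLinear (Fin 6) F)) :
    3 ≤ q ∨ (∃ (F₀ : Subfield F) (P : GL (Fin 6) F) (ζ : F), Fintype.card F = Nat.card F₀ ^ 2 ∧ ζ ≠ 0 ∧ ζ + ζ ^ q = 0 ∧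
      IsFormRationalStructure (hermForm 6 F q) F₀ ζ P ∧
      (∀ u : Fin 6 → F, (∀ i, u i ∈ F₀) →
        hermForm 6 F q ((P : Matrix (Fin 6) (Fin 6) F) *ᵥ u) ((P : Matrix (Fin 6) (Fin 6) F) *ᵥ u) = 0) ∧
      H = subfieldSubgroup F₀ P ⊓ (GU 6 F q ⊓ specialLinear (Fin 6) F)) := by
  have hq := two_le_q hF
  rcases (by omega : q = 2 ∨ 3 ≤ q) with h2 | h3
  swap
  · exact Or.inl h3
  right
  subst h2
  obtain ⟨σ, hσ, hf⟩ := hermForm_unitary (F := F) 6 hF
  have hF4 : Fintype.card F = 4 := by rw [hF]; norm_num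
  have hfield := CfsgLib.AschNum.fld_isField hK
  obtain ⟨L, i1, i2, ρ, hρ, hmem, hfr⟩ := exists_fieldRep K hfield
  have hfr3 : finrank F L = 3 := by rw [hfr, hK.finrank_eq]
  haveI : FiniteDimensional F L := Module.finite_of_finrank_pos (by rw [hfr3]; norm_num)
  haveI : Finite L := Module.finite_of_finite F
  obtain ⟨s, hs⟩ := star_exists hf hρ (by
    intro k
    obtain ⟨k', hk', hkk⟩ := ha _ ((hmem _).2 ⟨k, rfl⟩)
    obtain ⟨l, rfl⟩ := (hmem _).1 hk'
    exact ⟨l, hkk⟩)
  obtain ⟨F₀, P, h4, h5, h6, h7⟩ := fld_sub hF4 hs hfr3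
  have h11 : (1 : F) + 1 ^ 2 = 0 := by
    have h1 := Nat.cast_card_eq_zero F
    rw [hF4] at h1
    have h2 : ((4 : ℕ) : F) = 2 * 2 := by norm_num
    rw [h2] at h1
    have := mul_self_eq_zero.1 h1
    linear_combination this
  refine ⟨F₀, P, 1, h4, one_ne_zero, h11, h5, h6,
    eq_of_max hH ?_ (not_le5 hF (by norm_num) (.subs F₀ P 1 (by decide) h4 one_ne_zero h11 h5 h6 rfl))⟩
  rw [h]
  intro g hg
  exact h7 g ((mem_iso g).2 (fun u v => hg.2.1 u v)) (det_of_special hg.2.2) (conj_alg hρ hmem hg.1)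

/-- frames in maximal subgroups in dimension six -/
theorem lines_max6 {q : ℕ} {F : Type*} [Field F] [Fintype F] (hF : Fintype.card F = q ^ 2) {H : Subgroup (GL (Fin 6) F)}
    (hH : IsMaximalIn (GU 6 F q ⊓ specialLinear (Fin 6) F) H) {D : Fin 6 → Submodule F (Fin 6 → F)}
    (hD : IsNondegenerateMDecomposition (hermForm 6 F q) 1 D)
    (h : H = decompositionStabilizer D ⊓ (GU 6 F q ⊓ specialLinear (Fin 6) F)) : 3 ≤ q := by
  have hq := two_le_q hF
  rcases (by omega : q = 2 ∨ 3 ≤ q) with h2 | h3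
  swap
  · exact h3
  exfalso
  subst h2
  obtain ⟨σ, hσ, hf⟩ := hermForm_unitary (F := F) 6 hF
  have hF4 : Fintype.card F = 4 := by rw [hF]; norm_num
  have e : GU 6 F 2 = iso (hermForm 6 F 2) := by
    ext g
    rw [mem_iso]
    rfl
  rw [e] at hH h
  exact lines6_false hF4 hσ hf hD hH h

end CfsgLib.H14SU
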