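import Cfsg.Agent.LibH14SU2

/-! The special unitary group is not contained in geometric subgroups: subfields, symplectic type (seat helper14). -/

set_option autoImplicit false

namespace CfsgLib.H14SU1

open Module Cfsg Cfsg.Geo CfsgLib.MaxTv29 CfsgLib.Un29
open scoped Matrix MatrixGroups Kronecker

variable {ι : Type} [Fintype ι] [DecidableEq ι] {F : Type*} [Field F] [Fintype F] {σ : F ≃+* F}
  {f : (ι → F) → (ι → F) → F}

omit [Fintype F] in
theorem ut_pow (hf : IsUnitaryForm σ f) {e : ι → F} (he : f e e = 0) (c : F) (k : ℕ) :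
    (ut hf e c) ^ k = ut hf e (k * c) := by
  induction k with
  | zero => rw [pow_zero, Nat.cast_zero, zero_mul, ut_zero hf he]
  | succ k ih => rw [pow_succ, ih, ut_add hf he]; congr 1; push_cast; ring

/-- `c ^ p` in a subfield implies `c` in it -/
theorem mem_of_pow {F₀ : Subfield F} {p : ℕ} (hp : p.Prime) [CharP F p] {c : F} (hc : c ^ p ∈ F₀) : c ∈ F₀ := by
  haveI : Fact p.Prime := ⟨hp⟩
  obtain ⟨n, hn, hcard⟩ := FiniteField.card F p
  have h1 : c ^ (p ^ (n : ℕ)) = c := by rw [← hcard]; exact FiniteField.pow_card c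
  have h2 : (n : ℕ) = (n - 1 : ℕ) + 1 := (Nat.succ_pred_eq_of_pos n.2).symm
  rw [h2, pow_succ', pow_mul] at h1
  rw [← h1]
  exact F₀.pow_mem hc _

theorem ut_rational (hf : IsUnitaryForm σ f) {F₀ : Subfield F} {P : GL ι F} [Nonempty ι] (h : TM hf (subfieldSubgroup F₀ P))
    {e : ι → F} (he : f e e = 0) {c : F} (hc : σ c = -c) (i j : ι) :
    (((P⁻¹ * ut hf e c * P : GL ι F)) : Matrix ι ι F) i j ∈ F₀ := by
  obtain ⟨p, hchar⟩ := CharP.exists F
  have hp : p.Prime := (CharP.char_is_prime_or_zero F p).resolve_right (CharP.char_ne_zero_of_finite F p)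
  obtain ⟨g, hg, hgt⟩ := h e c he hc
  have hgt' : P * g * P⁻¹ = ut hf e c := hgt
  have hgp : g ^ p = 1 := by
    have h1 : g = P⁻¹ * ut hf e c * P := by rw [← hgt']; group
    have h2 : g ^ p = P⁻¹ * (ut hf e c) ^ p * P := by
      rw [h1]
      have : ∀ k : ℕ, (P⁻¹ * ut hf e c * P) ^ k = P⁻¹ * (ut hf e c) ^ k * P := by
        intro k
        induction k with
        | zero => simp
        | succ k ih => rw [pow_succ, ih, pow_succ]; group
      exact this p
    rw [h2, ut_pow hf he, CharP.cast_eq_zero F p, zero_mul, ut_zero hf he]; group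
  obtain ⟨B, a, hB⟩ := CfsgLib.AschSL1.mem_subfield_std hg
  have hgB : (g : Matrix ι ι F) = a • B.map (fun x : F₀ => (x : F)) := by
    ext i j
    rw [hB, Matrix.smul_apply, Matrix.map_apply, smul_eq_mul, mul_comm]
  have hpow : (g : Matrix ι ι F) ^ p = a ^ p • (B ^ p).map (fun x : F₀ => (x : F)) := by
    rw [hgB, smul_pow]
    congr 1
    have : B.map (fun x : F₀ => (x : F)) = (F₀.subtype : F₀ →+* F).mapMatrix B := rfl
    rw [this, ← map_pow]; rfl
  have i0 : ι := Classical.arbitrary ι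
  have h1 : a ^ p * ((B ^ p) i0 i0 : F) = 1 := by
    have h2 := congrFun (congrFun hpow i0) i0
    rw [← Units.val_pow_eq_pow_val, hgp, Units.val_one, Matrix.one_apply_eq, Matrix.smul_apply, Matrix.map_apply, smul_eq_mul] at h2
    exact h2.symm
  have ha : a ∈ F₀ := by
    apply mem_of_pow hp
    rw [eq_inv_of_mul_eq_one_left h1]
    exact F₀.inv_mem ((B ^ p) i0 i0).2
  have h3 : P⁻¹ * ut hf e c * P = g := by rw [← hgt']; group
  rw [h3, hB]
  exact F₀.mul_mem (B i j).2 ha

theorem exists_hyp (hf : IsUnitaryForm σ f) (hn : 3 ≤ Fintype.card ι) :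
    ∃ u v z : ι → F, f u u = 0 ∧ f v v = 0 ∧ f u v = 1 ∧ f z u = 0 ∧ f z v = 0 ∧ f z z ≠ 0 := by
  obtain ⟨u, hu, hu0⟩ := exists_iso hf hn
  obtain ⟨-, x, hx⟩ := hf.nondegenerate u hu0
  obtain ⟨x', hx1⟩ : ∃ x', f u x' = 1 := ⟨(σ (f u x)⁻¹) • x, by
    rw [smul_right hf, hf.involutive, inv_mul_cancel₀ hx]⟩
  obtain ⟨τ, hτ⟩ := exists_trace hf (-(f x' x')) (by rw [map_neg, norm_real hf])
  set v := x' + τ • u with hv
  have hxu : f x' u = 1 := by rw [hf.herm, hx1, map_one]
  have huv : f u v = 1 := by rw [hv, add_right hf, smul_right hf, hu, mul_zero, add_zero, hx1]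
  have hvv : f v v = 0 := by
    rw [hv, hf.add_left, add_right hf, add_right hf, hf.smul_left, hf.smul_left, smul_right hf, smul_right hf, hu, hxu, hx1]
    linear_combination hτ
  have hvu : f v u = 1 := by rw [hf.herm, huv, map_one]
  set W : Submodule F (ι → F) := Submodule.span F {u, v} with hW
  have hWn : IsNondegenerateOn f W := by
    intro w hw hw0
    obtain ⟨α, β, rfl⟩ := Submodule.mem_span_pair.1 hw
    have hor : α ≠ 0 ∨ β ≠ 0 := by
      by_contra hcon
      push Not at hcon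
      apply hw0; rw [hcon.1, hcon.2]; simp
    have hsne : ∀ {x : F}, x ≠ 0 → σ x ≠ 0 := fun h h' => h ((map_eq_zero σ).1 h')
    rcases hor with h | h
    · refine ⟨⟨v, Submodule.subset_span (by simp), ?_⟩, ⟨v, Submodule.subset_span (by simp), ?_⟩⟩
      · rw [add_right hf, smul_right hf, smul_right hf, hvv, hvu, mul_one, mul_zero, add_zero]; exact hsne h
      · rw [hf.add_left, hf.smul_left, hf.smul_left, hvv, huv, mul_one, mul_zero, add_zero]; exact h
    · refine ⟨⟨u, Submodule.subset_span (by simp), ?_⟩, ⟨u, Submodule.subset_span (by simp), ?_⟩⟩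
      · rw [add_right hf, smul_right hf, smul_right hf, hu, huv, mul_one, mul_zero, zero_add]; exact hsne h
      · rw [hf.add_left, hf.smul_left, hf.smul_left, hu, hvu, mul_one, mul_zero, zero_add]; exact h
  have hPn := perp_nondeg hf W hWn
  have hfin := finrank_perp hf W
  rw [Module.finrank_fintype_fun_eq_card] at hfin
  have h2 := finrank_pair_le (F := F) u v
  have hne : perp hf W ≠ ⊥ := by
    intro e
    rw [e, finrank_bot] at hfin
    rw [← hW] at h2
    omega
  obtain ⟨y, hy, hy0⟩ := (Submodule.ne_bot_iff _).1 hne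
  obtain ⟨⟨x, hx, hxy⟩, -⟩ := hPn y hy hy0
  obtain ⟨z, hz, hzz⟩ := exists_nonisotropic hf (perp hf W) hx hy hxy
  refine ⟨u, v, z, hu, hvv, huv, ?_, ?_, hzz⟩
  · exact swap_eq hf (hz u (Submodule.subset_span (by simp)))
  · exact swap_eq hf (hz v (Submodule.subset_span (by simp)))

omit [Fintype F] in
theorem trace_three (a b c d e g : ι → F) :
    (Matrix.vecMulVec a b * Matrix.vecMulVec c d * Matrix.vecMulVec e g).trace = (b ⬝ᵥ c) * (d ⬝ᵥ e) * (g ⬝ᵥ a) := by
  rw [Matrix.vecMulVec_mul_vecMulVec, Matrix.vecMulVec_mul_vecMulVec, Matrix.trace_vecMulVec]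
  simp only [smul_dotProduct, dotProduct_smul, smul_eq_mul]
  rw [dotProduct_comm a g]

theorem sub_top (hf : IsUnitaryForm σ f) (hn : 3 ≤ Fintype.card ι) {F₀ : Subfield F} {P : GL ι F}
    (h : TM hf (subfieldSubgroup F₀ P)) : ∀ x : F, x ∈ F₀ := by
  haveI : Nonempty ι := Fintype.card_pos_iff.1 (by omega)
  obtain ⟨δ, hδ, hδ'⟩ := exists_skew hf
  obtain ⟨u, v, z, hu, hv, huv, hzu, hzv, hz⟩ := exists_hyp hf hn
  have hvu : f v u = 1 := by rw [hf.herm, huv, map_one]
  -- the rational matrices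
  let N : (ι → F) → Matrix ι ι F := fun e => (ut hf e δ : Matrix ι ι F) - 1
  have hN : ∀ e, f e e = 0 → N e = Matrix.vecMulVec e (dv (δ • fd hf e)) := by
    intro e he
    show (ut hf e δ : Matrix ι ι F) - 1 = _
    rw [ut_coe hf he, add_sub_cancel_left]
  have hrat : ∀ e, f e e = 0 → ∀ i j, (((P⁻¹ : GL ι F) : Matrix ι ι F) * N e * (P : Matrix ι ι F)) i j ∈ F₀ := by
    intro e he i j
    have h1 : ((P⁻¹ : GL ι F) : Matrix ι ι F) * N e * (P : Matrix ι ι F) = ((P⁻¹ * ut hf e δ * P : GL ι F) : Matrix ι ι F) - 1 := by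
      show ((P⁻¹ : GL ι F) : Matrix ι ι F) * ((ut hf e δ : Matrix ι ι F) - 1) * (P : Matrix ι ι F) = _
      rw [mul_sub, sub_mul, mul_one, ← Units.val_mul, ← Units.val_mul, ← Units.val_mul, inv_mul_cancel, Units.val_one]
    rw [h1, Matrix.sub_apply]
    apply F₀.sub_mem (ut_rational hf h he hδ' i j)
    rw [Matrix.one_apply]
    split
    · exact F₀.one_mem
    · exact F₀.zero_mem
  have hmul : ∀ A B : Matrix ι ι F, (∀ i j, A i j ∈ F₀) → (∀ i j, B i j ∈ F₀) → ∀ i j, (A * B) i j ∈ F₀ := by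
    intro A B hA hB i j
    rw [Matrix.mul_apply]
    exact F₀.sum_mem fun k _ => F₀.mul_mem (hA i k) (hB k j)
  have htr : ∀ a b c : ι → F, f a a = 0 → f b b = 0 → f c c = 0 → δ * f b a * (δ * f c b) * (δ * f a c) ∈ F₀ := by
    intro a b c ha hb hc
    have h1 : ((((P⁻¹ : GL ι F) : Matrix ι ι F) * N a * (P : Matrix ι ι F)) * (((P⁻¹ : GL ι F) : Matrix ι ι F) * N b * (P : Matrix ι ι F)) *
        (((P⁻¹ : GL ι F) : Matrix ι ι F) * N c * (P : Matrix ι ι F))).trace ∈ F₀ := by
      rw [Matrix.trace]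
      apply F₀.sum_mem
      intro i _
      exact hmul _ _ (hmul _ _ (hrat a ha) (hrat b hb)) (hrat c hc) i i
    have hPP : (P : Matrix ι ι F) * ((P⁻¹ : GL ι F) : Matrix ι ι F) = 1 := by rw [← Units.val_mul, mul_inv_cancel, Units.val_one]
    have h2 : (((P⁻¹ : GL ι F) : Matrix ι ι F) * N a * (P : Matrix ι ι F)) * (((P⁻¹ : GL ι F) : Matrix ι ι F) * N b * (P : Matrix ι ι F)) *
        (((P⁻¹ : GL ι F) : Matrix ι ι F) * N c * (P : Matrix ι ι F)) = ((P⁻¹ : GL ι F) : Matrix ι ι F) * (N a * N b * N c) * (P : Matrix ι ι F) := by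
      calc _ = ((P⁻¹ : GL ι F) : Matrix ι ι F) * N a * ((P : Matrix ι ι F) * ((P⁻¹ : GL ι F) : Matrix ι ι F)) * N b *
            ((P : Matrix ι ι F) * ((P⁻¹ : GL ι F) : Matrix ι ι F)) * N c * (P : Matrix ι ι F) := by simp only [mul_assoc]
        _ = _ := by rw [hPP]; simp only [mul_assoc, mul_one, one_mul]
    rw [h2, Matrix.trace_mul_comm, ← mul_assoc, hPP, one_mul, hN a ha, hN b hb, hN c hc, trace_three, dv_dot, dv_dot, dv_dot] at h1
    simpa [fd_apply] using h1
  have hδF : ∀ ρ : F, δ ^ 3 * ρ ∈ F₀ := by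
    intro ρ
    have hzr : σ (-(ρ + σ ρ) / f z z) = -(ρ + σ ρ) / f z z := by
      rw [map_div₀, map_neg, map_add, hf.involutive, norm_real hf, add_comm]
    obtain ⟨γ, hγ⟩ := exists_norm hf _ hzr
    set w := ρ • u + v + γ • z with hw
    have huz := swap_eq hf hzu
    have hvz := swap_eq hf hzv
    have hwv : f w v = ρ := by
      rw [hw, hf.add_left, hf.add_left, hf.smul_left, hf.smul_left, huv, hv, hzv]; ring
    have huw : f u w = 1 := by
      rw [hw, add_right hf, add_right hf, smul_right hf, smul_right hf, hu, huv, huz]; ring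
    have hvw : f v w = σ ρ := by rw [hf.herm, hwv]
    have hzw : f z w = σ γ * f z z := by
      rw [hw, add_right hf, add_right hf, smul_right hf, smul_right hf, hzu, hzv]; ring
    have hww : f w w = 0 := by
      conv_lhs => rw [hw]
      rw [hf.add_left, hf.add_left, hf.smul_left, hf.smul_left, huw, hvw, hzw]
      have : γ * (σ γ * f z z) = -(ρ + σ ρ) := by rw [← mul_assoc, hγ, div_mul_cancel₀ _ hz]
      rw [this]; ring
    have := htr u v w hu hv hww
    rw [hvu, hwv, huw] at this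
    convert this using 1
    ring
  have h1 : δ ^ 3 ∈ F₀ := by simpa using hδF 1
  intro x
  have h2 := F₀.mul_mem (F₀.inv_mem h1) (hδF x)
  rwa [← mul_assoc, inv_mul_cancel₀ (pow_ne_zero 3 hδ), one_mul] at h2

theorem not_tm_sub (hf : IsUnitaryForm σ f) (hn : 3 ≤ Fintype.card ι) {F₀ : Subfield F} {r : ℕ} {P : GL ι F} (hr : r.Prime)
    (hc : Fintype.card F = Nat.card F₀ ^ r) : ¬ TM hf (subfieldSubgroup F₀ P) := by
  intro h
  have hall := sub_top hf hn h
  have htop : F₀ = ⊤ := by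
    ext c; simp [hall c]
  have h3 : Nat.card F₀ = Fintype.card F := by
    rw [htop, ← Nat.card_eq_fintype_card]
    exact Nat.card_congr Subfield.topEquiv.toEquiv
  rw [h3] at hc
  have h4 := Fintype.one_lt_card (α := F)
  have h5 : Fintype.card F ^ 1 < Fintype.card F ^ r := Nat.pow_lt_pow_right h4 hr.one_lt
  rw [pow_one] at h5
  omega

end CfsgLib.H14SU1
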