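import Cfsg.Agent.LibH14SU3

/-! The special unitary group does not normalize symplectic type groups (seat helper14). -/

set_option autoImplicit false

namespace CfsgLib.H14SU1

open Module Cfsg Cfsg.Geo CfsgLib.MaxTv29 CfsgLib.Un29
open scoped Matrix MatrixGroups Kronecker

variable {ι : Type} [Fintype ι] [DecidableEq ι] {F : Type*} [Field F] [Fintype F] {σ : F ≃+* F}
  {f : (ι → F) → (ι → F) → F}

omit [Fintype F] in
/-- the nilpotent part -/
noncomputable def Nu (hf : IsUnitaryForm σ f) (e : ι → F) : Matrix ι ι F := Matrix.vecMulVec e (dv (fd hf e))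

omit [Fintype F] in
theorem ut_eq (hf : IsUnitaryForm σ f) {e : ι → F} (he : f e e = 0) (c : F) :
    (ut hf e c : Matrix ι ι F) = 1 + c • Nu hf e := by
  rw [ut_coe hf he, Nu]
  congr 1
  have : dv (c • fd hf e) = c • dv (fd hf e) := rfl
  rw [this, Matrix.vecMulVec_smul]

omit [Fintype F] in
theorem trace_Nu (hf : IsUnitaryForm σ f) {e : ι → F} (he : f e e = 0) : (Nu hf e).trace = 0 := by
  rw [Nu, Matrix.trace_vecMulVec, dotProduct_comm, dv_dot, fd_apply, he]

omit [Fintype F] in
theorem comm_iff_Nu (hf : IsUnitaryForm σ f) {e : ι → F} (he : f e e = 0) {c : F} (hc : c ≠ 0) {x : Matrix ι ι F} :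
    (ut hf e c : Matrix ι ι F) * x = x * (ut hf e c : Matrix ι ι F) ↔ Nu hf e * x = x * Nu hf e := by
  rw [ut_eq hf he, add_mul, mul_add, one_mul, mul_one, add_right_inj, smul_mul_assoc, mul_smul_comm]
  exact ⟨fun h => smul_right_injective _ hc h, fun h => by rw [h]⟩

omit [Fintype F] in
/-- trace of a commutator -/
theorem trace_comm (hf : IsUnitaryForm σ f) {e : ι → F} (he : f e e = 0) (c : F) (x : GL ι F) :
    ((ut hf e c * x * (ut hf e c)⁻¹ * x⁻¹ : GL ι F) : Matrix ι ι F).trace =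
      (Fintype.card ι : F) - c ^ 2 * (Nu hf e * (x : Matrix ι ι F) * Nu hf e * ((x⁻¹ : GL ι F) : Matrix ι ι F)).trace := by
  have hxx : (x : Matrix ι ι F) * ((x⁻¹ : GL ι F) : Matrix ι ι F) = 1 := by rw [← Units.val_mul, mul_inv_cancel, Units.val_one]
  have h1 : ((ut hf e c * x * (ut hf e c)⁻¹ * x⁻¹ : GL ι F) : Matrix ι ι F) =
      1 + c • Nu hf e - c • ((x : Matrix ι ι F) * Nu hf e * ((x⁻¹ : GL ι F) : Matrix ι ι F)) -
        (c ^ 2) • (Nu hf e * (x : Matrix ι ι F) * Nu hf e * ((x⁻¹ : GL ι F) : Matrix ι ι F)) := by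
    rw [ut_inv hf he, Units.val_mul, Units.val_mul, Units.val_mul, ut_eq hf he, ut_eq hf he]
    simp only [add_mul, mul_add, one_mul, mul_one, smul_mul_assoc, mul_smul_comm, neg_smul, neg_mul, mul_neg]
    have h2 : Nu hf e * (x : Matrix ι ι F) * ((x⁻¹ : GL ι F) : Matrix ι ι F) = Nu hf e := by rw [mul_assoc, hxx, mul_one]
    rw [hxx, h2, smul_add, smul_smul, ← pow_two]
    abel
  rw [h1, Matrix.trace_sub, Matrix.trace_sub, Matrix.trace_add, Matrix.trace_one, Matrix.trace_smul, Matrix.trace_smul, Matrix.trace_smul,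
    Matrix.trace_mul_comm ((x : Matrix ι ι F) * Nu hf e), ← mul_assoc]
  have h3 : (((x⁻¹ : GL ι F) : Matrix ι ι F) * (x : Matrix ι ι F) * Nu hf e) = Nu hf e := by
    rw [← Units.val_mul, inv_mul_cancel, Units.val_one, one_mul]
  rw [h3, trace_Nu hf he]
  simp

section absirr
variable {R : Subgroup (GL ι F)}

omit [Fintype F] in
theorem scalar_of_absirr (hR : ActsAbsolutelyIrreducibly (matrixSet R)) {y : GL ι F} (h : ∀ g ∈ R, g * y = y * g) :
    y ∈ scalars ι F := by
  obtain ⟨c, hc⟩ := hR.2 (y : Matrix ι ι F) (by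
    rintro _ ⟨g, hg, rfl⟩
    have := congrArg Units.val (h g hg)
    rw [Units.val_mul, Units.val_mul] at this
    exact this.symm)
  rw [mem_scalars_iff]
  by_cases h0 : c = 0
  · rw [h0, zero_smul] at hc
    by_cases hι : Nonempty ι
    · exfalso
      have h1 := y.mul_inv
      rw [hc, zero_mul] at h1
      exact zero_ne_one h1
    · haveI := not_nonempty_iff.1 hι
      exact ⟨1, Subsingleton.elim _ _⟩
  · exact ⟨Units.mk0 c h0, hc⟩

/-- a nonscalar element of a nilpotent absolutely irreducible group which is central modulo scalars, with a power condition -/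
theorem exists_second (hn : 2 ≤ Fintype.card ι) {r : ℕ} (hr : r.Prime) (hp : IsPGroup r R)
    (hR : ActsAbsolutelyIrreducibly (matrixSet R)) :
    ∃ x ∈ R, x ∉ scalars ι F ∧ x ^ r ∈ scalars ι F ∧ ∀ g ∈ R, ∃ s ∈ scalars ι F, g * x = s * (x * g) := by
  classical
  haveI : Fact r.Prime := ⟨hr⟩
  set Z := Subgroup.center R with hZ
  have hZs : ∀ x : R, x ∈ Z ↔ (x : GL ι F) ∈ scalars ι F := by
    intro x
    constructor
    · intro hx
      apply scalar_of_absirr hR
      intro g hg
      have := Subgroup.mem_center_iff.1 hx ⟨g, hg⟩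
      exact congrArg Subtype.val this
    · intro hx
      rw [hZ, Subgroup.mem_center_iff]
      intro g
      apply Subtype.ext
      obtain ⟨c, hc⟩ := (mem_scalars_iff _).1 hx
      apply Units.ext
      show ((g : GL ι F) : Matrix ι ι F) * ((x : GL ι F) : Matrix ι ι F) = ((x : GL ι F) : Matrix ι ι F) * ((g : GL ι F) : Matrix ι ι F)
      rw [hc]; simp
  have hnt : Nontrivial (R ⧸ Z) := by
    by_contra hcon
    rw [not_nontrivial_iff_subsingleton] at hcon
    have h1 : ∀ x : R, (x : GL ι F) ∈ scalars ι F := by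
      intro x
      rw [← hZs, ← QuotientGroup.eq_one_iff]
      exact Subsingleton.elim _ _
    haveI : Nontrivial ι := Fintype.one_lt_card_iff_nontrivial.1 (by omega)
    obtain ⟨i, j, hij⟩ := exists_pair_ne ι
    obtain ⟨c, hc⟩ := hR.2 (Matrix.single i j (1 : F)) (by
      rintro _ ⟨g, hg, rfl⟩
      obtain ⟨c, hc⟩ := (mem_scalars_iff _).1 (h1 ⟨g, hg⟩)
      show _ * (g : Matrix ι ι F) = (g : Matrix ι ι F) * _
      rw [show (g : Matrix ι ι F) = (c : F) • 1 from hc]; simp)
    have h2 := congrFun (congrFun hc i) j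
    rw [Matrix.single_apply_same, Matrix.smul_apply, Matrix.one_apply_ne hij, smul_zero] at h2
    exact one_ne_zero h2
  have hq : IsPGroup r (R ⧸ Z) := hp.to_quotient Z
  haveI := hq.center_nontrivial
  have hqc : IsPGroup r (Subgroup.center (R ⧸ Z)) := hq.to_subgroup _
  obtain ⟨w, hw⟩ : ∃ w : Subgroup.center (R ⧸ Z), orderOf w = r := by
    apply exists_prime_orderOf_dvd_card' r
    obtain ⟨n, hn', hcard⟩ := hqc.nontrivial_iff_card.1 inferInstance
    rw [hcard]; exact dvd_pow_self r hn'.ne'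
  obtain ⟨x, hx⟩ := QuotientGroup.mk_surjective (w : R ⧸ Z)
  have hw1 : w ≠ 1 := by
    intro e; rw [e, orderOf_one] at hw; exact hr.one_lt.ne hw
  refine ⟨x, x.2, ?_, ?_, ?_⟩
  · rw [← hZs, ← QuotientGroup.eq_one_iff, hx]
    intro e; exact hw1 (Subtype.ext e)
  · have : (x ^ r : R) ∈ Z := by
      rw [← QuotientGroup.eq_one_iff, QuotientGroup.mk_pow, hx]
      have := pow_orderOf_eq_one w
      rw [hw] at this
      exact congrArg Subtype.val this
    rw [hZs] at this
    simpa using this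
  · intro g hg
    have h1 := Subgroup.mem_center_iff.1 w.2 ((⟨g, hg⟩ : R) : R ⧸ Z)
    rw [← hx, ← QuotientGroup.mk_mul, ← QuotientGroup.mk_mul, eq_comm, QuotientGroup.eq] at h1
    have h2 := (hZs _).1 h1
    refine ⟨_, h2, ?_⟩
    obtain ⟨c, hc⟩ := (mem_scalars_iff _).1 h2
    apply Units.ext
    rw [Units.val_mul _ ((x : GL ι F) * g), hc]
    have h3 : (g * (x : GL ι F)) = ((x : GL ι F) * g) * (((x * ⟨g, hg⟩)⁻¹ * (⟨g, hg⟩ * x) : R) : GL ι F) := by
      push_cast
      group
    rw [h3, Units.val_mul, hc]; simp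

end absirr

/-- the main dichotomy -/
theorem st_step (hf : IsUnitaryForm σ f) (hn : 3 ≤ Fintype.card ι) {R : Subgroup (GL ι F)} {x : GL ι F} (hx : x ∈ R)
    (hR : ActsAbsolutelyIrreducibly (matrixSet R)) (hxc : ∀ g ∈ R, ∃ s ∈ scalars ι F, g * x = s * (x * g))
    {e : ι → F} (he : f e e = 0) {c : F} (hT : ut hf e c ∈ subgroupNormalizer R) :
    (ut hf e c : Matrix ι ι F) * (x : Matrix ι ι F) = (x : Matrix ι ι F) * (ut hf e c : Matrix ι ι F) ∨
    (Fintype.card ι ≤ 4 ∧ (Fintype.card ι : F) =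
      c ^ 2 * (Nu hf e * (x : Matrix ι ι F) * Nu hf e * ((x⁻¹ : GL ι F) : Matrix ι ι F)).trace) := by
  classical
  set T := ut hf e c with hTdef
  have hTn : ∀ g, g ∈ R ↔ T * g * T⁻¹ ∈ R := fun g => Subgroup.mem_normalizer_iff.1 hT g
  set y : GL ι F := T * x * T⁻¹ * x⁻¹ with hy
  have hyR : y ∈ R := mul_mem ((hTn x).1 hx) (inv_mem hx)
  have hsc : ∀ s ∈ scalars ι F, ∀ g : GL ι F, s * g = g * s := by
    intro s hs g
    obtain ⟨a, ha⟩ := (mem_scalars_iff s).1 hs
    apply Units.ext
    rw [Units.val_mul, Units.val_mul, ha]; simp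
  by_cases hys : y ∈ scalars ι F
  · left
    obtain ⟨a, ha⟩ := (mem_scalars_iff y).1 hys
    have h1 : T * x = y * (x * T) := by rw [hy]; group
    have h2 : (T : Matrix ι ι F) * (x : Matrix ι ι F) = (a : F) • ((x : Matrix ι ι F) * (T : Matrix ι ι F)) := by
      rw [← Units.val_mul, h1, Units.val_mul, ha, Units.val_mul]; simp
    obtain ⟨v, hv0, hv1, hv2⟩ := CfsgLib.AschSL1.exists_ker2 hn (fd hf e) ((fd hf e).comp (Matrix.toLin' (x : Matrix ι ι F)))
    have hv2' : f ((x : Matrix ι ι F) *ᵥ v) e = 0 := hv2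
    have h3 := congrArg (fun m => m *ᵥ v) h2
    simp only [Matrix.smul_mulVec, ← Matrix.mulVec_mulVec] at h3
    rw [hTdef, ut_fix hf he _ hv1, ut_fix hf he _ hv2'] at h3
    have hxv : (x : Matrix ι ι F) *ᵥ v ≠ 0 := by
      intro h0
      apply hv0
      rw [← Matrix.one_mulVec v, ← Units.val_one, ← inv_mul_cancel x, Units.val_mul, ← Matrix.mulVec_mulVec, h0, Matrix.mulVec_zero]
    have h4 : (a : F) = 1 := by
      have : ((a : F) - 1) • ((x : Matrix ι ι F) *ᵥ v) = 0 := by rw [sub_smul, one_smul, ← h3, sub_self]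
      rcases smul_eq_zero.1 this with h | h
      · exact sub_eq_zero.1 h
      · exact absurd h hxv
    rw [h2, h4, one_smul]
  · right
    obtain ⟨z, hz, hzy⟩ : ∃ z ∈ R, z * y ≠ y * z := by
      by_contra hcon
      push Not at hcon
      exact hys (scalar_of_absirr hR hcon)
    -- y is central modulo scalars
    have hcy : ∃ s ∈ scalars ι F, z * y = s * (y * z) := by
      have hz' : T⁻¹ * z * T ∈ R := by
        rw [hTn]
        have : T * (T⁻¹ * z * T) * T⁻¹ = z := by group
        rw [this]; exact hz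
      obtain ⟨s, hs, h1⟩ := hxc _ hz'
      obtain ⟨s', hs', h2⟩ := hxc z hz
      refine ⟨s * s'⁻¹, mul_mem hs (inv_mem hs'), ?_⟩
      have h3 : z * (T * x * T⁻¹) = s * ((T * x * T⁻¹) * z) := by
        calc z * (T * x * T⁻¹) = T * ((T⁻¹ * z * T) * x) * T⁻¹ := by group
          _ = T * (s * (x * (T⁻¹ * z * T))) * T⁻¹ := by rw [h1]
          _ = (T * s) * (x * (T⁻¹ * z * T)) * T⁻¹ := by group
          _ = (s * T) * (x * (T⁻¹ * z * T)) * T⁻¹ := by rw [hsc s hs T]
          _ = s * ((T * x * T⁻¹) * z) := by group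
      have h4 : z * x⁻¹ = s'⁻¹ * (x⁻¹ * z) := by
        have : x⁻¹ * (z * x) * x⁻¹ = x⁻¹ * (s' * (x * z)) * x⁻¹ := by rw [h2]
        have h5 : x⁻¹ * (s' * (x * z)) * x⁻¹ = s' * (z * x⁻¹) := by
          rw [← mul_assoc x⁻¹ s', ← hsc s' hs' x⁻¹]; group
        rw [h5] at this
        have h6 : x⁻¹ * (z * x) * x⁻¹ = x⁻¹ * z := by group
        rw [h6] at this
        rw [this]; group
      calc z * y = (z * (T * x * T⁻¹)) * x⁻¹ := by rw [hy]; group
        _ = s * ((T * x * T⁻¹) * (z * x⁻¹)) := by rw [h3]; group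
        _ = s * ((T * x * T⁻¹) * (s'⁻¹ * (x⁻¹ * z))) := by rw [h4]
        _ = s * (((T * x * T⁻¹) * s'⁻¹) * (x⁻¹ * z)) := by group
        _ = s * ((s'⁻¹ * (T * x * T⁻¹)) * (x⁻¹ * z)) := by rw [hsc _ (inv_mem hs')]
        _ = s * s'⁻¹ * (y * z) := by rw [hy]; group
    obtain ⟨s, hs, hsy⟩ := hcy
    obtain ⟨a, ha⟩ := (mem_scalars_iff s).1 hs
    have ha1 : (a : F) ≠ 1 := by
      intro h1
      apply hzy
      rw [hsy]
      have : s = 1 := Units.ext (by rw [ha, h1, one_smul, Units.val_one])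
      rw [this, one_mul]
    have hmat : (z : Matrix ι ι F) * (y : Matrix ι ι F) = (a : F) • ((y : Matrix ι ι F) * (z : Matrix ι ι F)) := by
      rw [← Units.val_mul, hsy, Units.val_mul, ha, Units.val_mul]; simp
    constructor
    · -- fixed space
      by_contra hcon
      let W : Submodule F (ι → F) := LinearMap.ker (fd hf e) ⊓ LinearMap.ker ((fd hf e).comp (Matrix.toLin' ((x⁻¹ : GL ι F) : Matrix ι ι F)))
      have hWfix : ∀ v ∈ W, (y : Matrix ι ι F) *ᵥ v = v := by
        rintro v ⟨hv1, hv2⟩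
        have hv1' : f v e = 0 := hv1
        have hv2' : f (((x⁻¹ : GL ι F) : Matrix ι ι F) *ᵥ v) e = 0 := hv2
        rw [hy, Units.val_mul, Units.val_mul, Units.val_mul, ← Matrix.mulVec_mulVec, ← Matrix.mulVec_mulVec, ← Matrix.mulVec_mulVec, hTdef,
          ut_inv hf he, ut_fix hf he _ hv2', Matrix.mulVec_mulVec v (x : Matrix ι ι F), ← Units.val_mul, mul_inv_cancel, Units.val_one,
          Matrix.one_mulVec, ut_fix hf he _ hv1']
      have hdim : Fintype.card ι ≤ finrank F W + 2 := by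
        have h1 : finrank F (LinearMap.ker (fd hf e)) + 1 ≥ Fintype.card ι := by
          have := LinearMap.finrank_range_add_finrank_ker (fd hf e)
          rw [Module.finrank_fintype_fun_eq_card] at this
          have h2 := Submodule.finrank_le (LinearMap.range (fd hf e))
          rw [Module.finrank_self] at h2
          omega
        have h2 : finrank F (LinearMap.ker ((fd hf e).comp (Matrix.toLin' ((x⁻¹ : GL ι F) : Matrix ι ι F)))) + 1 ≥ Fintype.card ι := by
          have := LinearMap.finrank_range_add_finrank_ker ((fd hf e).comp (Matrix.toLin' ((x⁻¹ : GL ι F) : Matrix ι ι F)))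
          rw [Module.finrank_fintype_fun_eq_card] at this
          have h2 := Submodule.finrank_le (LinearMap.range ((fd hf e).comp (Matrix.toLin' ((x⁻¹ : GL ι F) : Matrix ι ι F))))
          rw [Module.finrank_self] at h2
          omega
        have h3 := Submodule.finrank_sup_add_finrank_inf_eq (LinearMap.ker (fd hf e))
          (LinearMap.ker ((fd hf e).comp (Matrix.toLin' ((x⁻¹ : GL ι F) : Matrix ι ι F))))
        have h4 := Submodule.finrank_le (LinearMap.ker (fd hf e) ⊔ LinearMap.ker ((fd hf e).comp (Matrix.toLin' ((x⁻¹ : GL ι F) : Matrix ι ι F))))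
        rw [Module.finrank_fintype_fun_eq_card] at h4
        show Fintype.card ι ≤ finrank F (LinearMap.ker (fd hf e) ⊓ LinearMap.ker ((fd hf e).comp (Matrix.toLin' ((x⁻¹ : GL ι F) : Matrix ι ι F))) : Submodule F (ι → F)) + 2
        omega
      have hzW : finrank F (W.map (Matrix.toLin' (z : Matrix ι ι F))) = finrank F W := by
        apply (Submodule.equivMapOfInjective _ ?_ W).symm.finrank_eq
        intro u v huv
        simp only [Matrix.toLin'_apply] at huv
        rw [← Matrix.one_mulVec u, ← Matrix.one_mulVec v, ← Units.val_one, ← inv_mul_cancel z, Units.val_mul, ← Matrix.mulVec_mulVec,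
          ← Matrix.mulVec_mulVec, huv]
      have hdisj : Disjoint W (W.map (Matrix.toLin' (z : Matrix ι ι F))) := by
        rw [Submodule.disjoint_def]
        rintro _ hv1 ⟨v, hv, rfl⟩
        have h1 := hWfix _ hv1
        rw [Matrix.toLin'_apply] at h1 ⊢
        have h2 := congrArg (fun m => m *ᵥ v) hmat
        simp only [Matrix.smul_mulVec, ← Matrix.mulVec_mulVec] at h2
        rw [hWfix v hv, h1] at h2
        have : ((a : F) - 1) • ((z : Matrix ι ι F) *ᵥ v) = 0 := by rw [sub_smul, one_smul, ← h2, sub_self]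
        exact (smul_eq_zero.1 this).resolve_left (sub_ne_zero.2 ha1)
      have h5 := Submodule.finrank_sup_add_finrank_inf_eq W (W.map (Matrix.toLin' (z : Matrix ι ι F)))
      rw [disjoint_iff.1 hdisj, finrank_bot, hzW] at h5
      have h6 := Submodule.finrank_le (W ⊔ W.map (Matrix.toLin' (z : Matrix ι ι F)))
      rw [Module.finrank_fintype_fun_eq_card] at h6
      omega
    · have htr : (y : Matrix ι ι F).trace = 0 := by
        have h1 : (y : Matrix ι ι F) = (a : F) • (((z⁻¹ : GL ι F) : Matrix ι ι F) * (y : Matrix ι ι F) * (z : Matrix ι ι F)) := by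
          calc (y : Matrix ι ι F) = ((z⁻¹ : GL ι F) : Matrix ι ι F) * ((z : Matrix ι ι F) * (y : Matrix ι ι F)) := by
                rw [← mul_assoc, ← Units.val_mul, inv_mul_cancel, Units.val_one, one_mul]
            _ = _ := by rw [hmat, mul_smul_comm, mul_assoc]
        have h2 := congrArg Matrix.trace h1
        rw [Matrix.trace_smul, Matrix.trace_mul_comm, ← mul_assoc, ← Units.val_mul, mul_inv_cancel, Units.val_one, one_mul, smul_eq_mul] at h2
        have h3 : (1 - (a : F)) * (y : Matrix ι ι F).trace = 0 := by linear_combination h2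
        exact (mul_eq_zero.1 h3).resolve_left (sub_ne_zero.2 ha1.symm)
      rw [hy, trace_comm hf he] at htr
      exact sub_eq_zero.1 htr

theorem not_tm_st (hf : IsUnitaryForm σ f) (hn : 3 ≤ Fintype.card ι) {r : ℕ} (hr : r.Prime) {R : Subgroup (GL ι F)} (hp : IsPGroup r R)
    (hR : ActsAbsolutelyIrreducibly (matrixSet R))
    (hcase : 5 ≤ Fintype.card ι ∨ ((Fintype.card ι : F) ≠ 0 ∧ ∃ a : F, σ a = a ∧ a ≠ 0 ∧ a ^ 2 ≠ 1)) :
    ¬ TM hf (subgroupNormalizer R) := by
  intro h
  obtain ⟨δ, hδ, hδ'⟩ := exists_skew hf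
  obtain ⟨x, hx, hxs, -, hxc⟩ := exists_second (by omega) hr hp hR
  apply hxs
  have key : ∀ e, f e e = 0 → (ut hf e δ : Matrix ι ι F) * (x : Matrix ι ι F) = (x : Matrix ι ι F) * (ut hf e δ : Matrix ι ι F) := by
    intro e he
    rcases st_step hf hn hx hR hxc he (h e δ he hδ') with h1 | ⟨h1, h2⟩
    · exact h1
    · rcases hcase with hc | ⟨hc, a, ha1, ha2, ha3⟩
      · omega
      · have haδ : σ (a * δ) = -(a * δ) := by rw [map_mul, ha1, hδ']; ring
        rcases st_step hf hn hx hR hxc he (h e (a * δ) he haδ) with h3 | ⟨h3, h4⟩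
        · rw [comm_iff_Nu hf he (mul_ne_zero ha2 hδ)] at h3
          rw [comm_iff_Nu hf he hδ]; exact h3
        · exfalso
          have h5 : (a ^ 2 - 1) * (Fintype.card ι : F) = 0 := by
            rw [sub_mul, one_mul, sub_eq_zero]
            conv_rhs => rw [h4]
            conv_lhs => rw [h2]
            ring
          rcases mul_eq_zero.1 h5 with h6 | h6
          · exact ha3 (sub_eq_zero.1 h6)
          · exact hc h6
  obtain ⟨a, ha⟩ := scalar_of_comm hf hn hδ key
  rw [mem_scalars_iff]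
  haveI : Nonempty ι := Fintype.card_pos_iff.1 (by omega)
  have ha0 : a ≠ 0 := by
    intro e
    have h1 := x.mul_inv
    rw [ha, e, zero_smul, zero_mul] at h1
    exact zero_ne_one h1
  exact ⟨Units.mk0 a ha0, ha⟩

end CfsgLib.H14SU1
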