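import Mathlib
import Cfsg.Agent.LibAschF26
import Cfsg.Agent.LibH14SU4

/-! Maximal subgroups of special unitary groups: the classes with data (seat helper14, after LibAschF26). -/

set_option autoImplicit false
set_option linter.unusedSectionVars false

namespace CfsgLib.H14SU

open Module Cfsg Cfsg.Geo CfsgLib.Asch1 CfsgLib.Asch2 CfsgLib.Asch3 CfsgLib.Asch4 CfsgLib.Asch5 CfsgLib.Asch6 CfsgLib.Asch7
  CfsgLib.Asch8 CfsgLib.Asch9
  CfsgLib.Asch10 CfsgLib.Asch11 CfsgLib.Asch12 CfsgLib.Asch13 CfsgLib.Asch14 CfsgLib.Asch15 CfsgLib.Asch16 CfsgLib.Asch17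
  CfsgLib.Asch18 CfsgLib.Asch19 CfsgLib.AschF
open scoped Matrix MatrixGroups Kronecker

/-- the geometric classes for the unitary groups, with numerical data -/
inductive ClsU (n : ℕ) {F : Type*} [Field F] [Fintype F] (q : ℕ) (M : Subgroup (GL (Fin n) F)) : Prop
  | sing (W : Submodule F (Fin n → F)) (h0 : W ≠ ⊥) (hs : IsTotallySingularFor (hermForm n F q) W) (h : M = subspaceStabilizer W)
  | nond (W : Submodule F (Fin n → F)) (h0 : W ≠ ⊥) (hs : IsNondegenerateOn (hermForm n F q) W) (hd : 2 * finrank F W < n)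
      (h : M = subspaceStabilizer W)
  | dec (t k : ℕ) (D : Fin t → Submodule F (Fin n → F)) (hD : IsNondegenerateMDecomposition (hermForm n F q) k D)
      (h : M = decompositionStabilizer D)
  | pair (k : ℕ) (D : Fin 2 → Submodule F (Fin n → F)) (hk : 2 * k = n) (hD : IsMDecomposition k D)
      (hs : ∀ i, IsTotallySingularFor (hermForm n F q) (D i)) (h : M = decompositionStabilizer D)
  | fld (r : ℕ) (K : Subalgebra F (Matrix (Fin n) (Fin n) F)) (hr : r.Prime) (ho : Odd r) (hK : IsFieldSubalgebra r K)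
      (ha : IsAdjointClosedFor (hermForm n F q) K) (h : M = subalgebraNormalizer K)
  | tp (n₁ n₂ : ℕ) (e : Fin n ≃ Fin n₁ × Fin n₂) (P : GL (Fin n) F)
      (f₁ : (Fin n₁ → F) → (Fin n₁ → F) → F) (f₂ : (Fin n₂ → F) → (Fin n₂ → F) → F) (h1 : 2 ≤ n₁) (h2 : n₁ < n₂)
      (hf₁ : IsUnitaryFormPow q f₁) (hf₂ : IsUnitaryFormPow q f₂)
      (hS : IsTensorFormStructure (fun x : F => x ^ q) (hermForm n F q) f₁ f₂ e P) (h : M = tensorProductSubgroup n₁ n₂ e P)
  | subo (F₀ : Subfield F) (r : ℕ) (P : GL (Fin n) F) (hr : r.Prime) (ho : Odd r) (hc : Fintype.card F = Nat.card F₀ ^ r)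
      (hS : IsFormRationalStructure (hermForm n F q) F₀ 1 P) (h : M = subfieldSubgroup F₀ P)
  | sub2 (F₀ : Subfield F) (P : GL (Fin n) F) (hq : Odd q) (hc : Fintype.card F = Nat.card F₀ ^ 2)
      (hS : IsFormRationalStructure (hermForm n F q) F₀ 1 P) (h : M = subfieldSubgroup F₀ P)
  | subs (F₀ : Subfield F) (P : GL (Fin n) F) (ζ : F) (hev : Even n) (hc : Fintype.card F = Nat.card F₀ ^ 2) (h0 : ζ ≠ 0)
      (h1 : ζ + ζ ^ q = 0) (hS : IsFormRationalStructure (hermForm n F q) F₀ ζ P)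
      (ha : ∀ u : Fin n → F, (∀ i, u i ∈ F₀) → hermForm n F q ((P : Matrix (Fin n) (Fin n) F) *ᵥ u) ((P : Matrix (Fin n) (Fin n) F) *ᵥ u) = 0)
      (h : M = subfieldSubgroup F₀ P)
  | st (r k : ℕ) (R : Subgroup (GL (Fin n) F)) (p e : ℕ) (hst : IsSymplecticTypeGroup r R)
      (hal : ActsAbsolutelyIrreducibly (matrixSet R)) (hsim : R ≤ similarityGroup (hermForm n F q)) (hrp : r ≠ p)
      (hm : IsMinimalFieldFor (Nat.card (Subgroup.center R)) p e F)
      (hz : (Odd r ∧ Nat.card (Subgroup.center R) = r ∧ 1 ≤ k ∧ Nat.card R = r ^ (1 + 2 * k)) ∨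
        (r = 2 ∧ e = 2 ∧ Nat.card (Subgroup.center R) = 4 ∧ Nat.card R = 2 ^ (2 + 2 * k)))
      (hdeg : n = r ^ k) (hGU : R ≤ GU n F q ∨ r = 3) (h : M = subgroupNormalizer R)
  | tw (k t : ℕ) (e : Fin n ≃ (Fin t → Fin k)) (P : GL (Fin n) F) (f₁ : (Fin k → F) → (Fin k → F) → F)
      (hk : 3 ≤ k) (ht : 2 ≤ t) (hex : ¬ (q = 2 ∧ k = 3)) (hf₁ : IsUnitaryFormPow q f₁)
      (hS : IsTensorPowerFormStructure (fun x : F => x ^ q) (hermForm n F q) f₁ e P) (h : M = tensorWreathSubgroup k t e P)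

theorem unitU {F : Type*} [Field F] [Fintype F] (n q : ℕ) (hF : Fintype.card F = q ^ 2) (hn : 2 ≤ n)
    (H : Subgroup (GL (Fin n) F)) (hH : H ≤ GU n F q) :
    (∃ M, ClsU n q M ∧ H ≤ M) ∨ InUnitaryResidualClass H := by
  classical
  have hcard : Fintype.card (Fin n) = n := Fintype.card_fin n
  have hne : Nonempty (Fin n) := ⟨⟨0, by omega⟩⟩
  obtain ⟨σ, hσq, hu⟩ := CfsgLib.Un29.hermForm_unitary (F := F) n hF
  have hσ : σ ≠ RingEquiv.refl F := hu.ne_refl
  have hf : FD σ 1 (hermForm n F q) := fd_of_unitary hu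
  have hI : Iso (hermForm n F q) H := fun g hg u v => hH hg u v
  have hfun : (fun x => σ x) = fun x : F => x ^ q := funext hσq
  have hq2 : 2 ≤ q := by
    have h1 := Fintype.one_lt_card (α := F)
    rw [hF] at h1
    by_contra hcon
    have : q = 0 ∨ q = 1 := by omega
    rcases this with rfl | rfl <;> simp at h1
  have hqodd : (2 : F) ≠ 0 → Odd q := by
    intro h2
    have h1 := odd_card h2
    rw [hF] at h1
    exact (Nat.odd_pow_iff (by norm_num)).1 h1
  -- the subfield class
  have hsub : ∀ (F₀ : Subfield F) (r : ℕ) (P : GL (Fin n) F) (ζ : F) (N : Subgroup (GL (Fin n) F)), r.Prime →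
      Fintype.card F = Nat.card F₀ ^ r → ζ ≠ 0 → IsFormRationalStructure (hermForm n F q) F₀ ζ P →
      H ≤ subfieldSubgroup F₀ P → Iso (hermForm n F q) N → alg N = ⊤ →
      (∀ x ∈ N, ∀ i j, (((P⁻¹ : GL (Fin n) F) : Matrix (Fin n) (Fin n) F) * (x : Matrix (Fin n) (Fin n) F) * (P : Matrix (Fin n) (Fin n) F)) i j ∈ F₀) →
      ∃ M, ClsU n q M ∧ H ≤ M := by
    intro F₀ r P ζ N hr hc hζ hS h hN halg hreal
    rcases hr.eq_two_or_odd' with h2 | ho
    · subst h2
      rcases sub_two (by rw [hcard]; exact hn) hf hσq hF hc hζ hS hN halg hreal with ⟨hq, hS1⟩ | ⟨hev, ζ', h0, h1, h2, h3⟩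
      · exact ⟨_, .sub2 F₀ P hq hc hS1 rfl, h⟩
      · rw [hcard] at hev
        exact ⟨_, .subs F₀ P ζ' hev hc h0 h1 h2 h3 rfl, h⟩
    · obtain ⟨P', hP', he⟩ := sub_odd hσ hf ho hc hζ hS
      exact ⟨_, .subo F₀ r P' hr ho hc hP' rfl, he ▸ h⟩
  -- the exceptional tensor power case
  have h23 : ∀ (t : ℕ) (b : Basis (Fin t → Fin 3) F (Fin n → F)), 1 ≤ t →
      (∀ x y, hermForm n F q (b x) (b y) = if x = y then 1 else 0) → (∀ h ∈ H, TW b (h : Matrix (Fin n) (Fin n) F)) → q = 2 →
      ∃ M, ClsU n q M ∧ H ≤ M := by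
    intro t b ht hb hTW hq
    have hF4 : Fintype.card F = 4 := by rw [hF, hq]; norm_num
    have hσ2 : ∀ x, σ x = x ^ 2 := by intro x; rw [hσq, hq]
    obtain ⟨R, h1, h2, h3, h4, h5, h6, h7⟩ := Four.two_three b hF4 hσ2 hf ht hb hI hTW
    have hcn : n = 3 ^ t := by
      have := Module.finrank_eq_card_basis b
      rw [Module.finrank_fintype_fun_eq_card, Fintype.card_fun, Fintype.card_fin, Fintype.card_fin, Fintype.card_fin] at this
      exact this
    exact ⟨_, .st 3 t R 2 2 h1 h2 h3 (by norm_num) h4 (Or.inl ⟨by decide, h5, ht, h6⟩) hcn (Or.inr rfl) rfl, h7⟩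
  rcases aschbacherF hf (by rw [hcard]; exact hn) H hI with h | ⟨hirr, N, hcore, hreal⟩
  · left
    cases h with
    | sing W h0 hs h => exact ⟨_, .sing W h0 hs rfl, h⟩
    | nond W h0 hs hd h =>
      rw [hcard] at hd
      exact ⟨_, .nond W h0 hs hd rfl, h⟩
    | dec t k D hD _ h => exact ⟨_, .dec t k D hD rfl, h⟩
    | pair k D hD hs _ h =>
      have hk := mdec_card hD
      rw [hcard] at hk
      exact ⟨_, .pair k D hk hD hs rfl, h⟩
    | fld r K hr hK h ha hc _ =>
      rcases hc with ⟨hc, _⟩ | ⟨_, ho⟩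
      · exact absurd hc hσ
      · exact ⟨_, .fld r K hr ho hK ha rfl, h⟩
    | tp n₁ n₂ b ε₁ ε₂ f₁ f₂ h1 h2 hf₁ hf₂ hε hσ1 hform hirr hkr =>
      have he1 := hσ1 hσ
      rw [he1] at hf₁ hε
      rw [one_mul] at hε
      rw [hε] at hf₂
      have hcn : Fintype.card (Fin n) = n₁ * n₂ := by
        have := Module.finrank_eq_card_basis b
        rw [Module.finrank_fintype_fun_eq_card, Fintype.card_prod, Fintype.card_fin n₁, Fintype.card_fin n₂] at this
        exact this
      have hlt : ∀ (n₁ n₂ : ℕ) (b : Basis (Fin n₁ × Fin n₂) F (Fin n → F))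
          (f₁ : (Fin n₁ → F) → (Fin n₁ → F) → F) (f₂ : (Fin n₂ → F) → (Fin n₂ → F) → F)
          (h1 : 2 ≤ n₁) (h2 : n₁ < n₂) (hf₁ : FD σ 1 f₁) (hf₂ : FD σ 1 f₂)
          (hcn : Fintype.card (Fin n) = n₁ * n₂)
          (hform : ∀ i l j l', hermForm n F q (b (i, l)) (b (j, l')) = gramMatrix f₁ i j * gramMatrix f₂ l l')
          (hkr : ∀ h ∈ H, ∃ (A : (Matrix (Fin n₁) (Fin n₁) F)ˣ) (N : (Matrix (Fin n₂) (Fin n₂) F)ˣ),
            KA b (h : Matrix (Fin n) (Fin n) F) A.1 N.1), ∃ M, ClsU n q M ∧ H ≤ M := by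
        intro n₁ n₂ b f₁ f₂ h1 h2 hf₁ hf₂ hcn hform hkr
        have e : Fin n ≃ Fin n₁ × Fin n₂ := Fintype.equivOfCardEq (by
          rw [hcn, Fintype.card_prod, Fintype.card_fin, Fintype.card_fin])
        obtain ⟨P, hP⟩ := exists_P (b.reindex e.symm)
        refine ⟨_, .tp n₁ n₂ e P f₁ f₂ h1 h2 (pow_of_fd hσq hf₁) (pow_of_fd hσq hf₂) ?_ rfl, le_tensorProduct_P b H hkr e P hP⟩
        rw [← hfun]; exact tensor_structure hf b hform e P hP
      rcases lt_trichotomy n₁ n₂ with hl | heq | hl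
      · exact hlt n₁ n₂ b f₁ f₂ h1 hl hf₁ hf₂ hcn hform hkr
      · subst heq
        obtain ⟨b', hb', hPT⟩ := tp_equal hσ hf b hf₁ hf₂ hform hkr
        have hTW : ∀ h ∈ H, TW b' (h : Matrix (Fin n) (Fin n) F) := by
          intro h hh
          obtain ⟨Q, hQ⟩ := hPT h hh
          exact TW_of_PTr b' hQ
        rcases (by omega : n₁ = 2 ∨ 3 ≤ n₁) with h12 | h13
        · subst h12
          obtain ⟨F₀, P, hF₀, hS, hle, halt⟩ := tp_two_two hσ hf b' hb' hI hPT
          have hc := card_fix hσ hf.sq F₀ hF₀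
          rw [Nat.card_eq_fintype_card] at hc
          by_cases h20 : (2 : F) = 0
          · refine ⟨_, .subs F₀ P 1 ?_ hc one_ne_zero ?_ hS (halt h20) rfl, hle⟩
            · rw [hcard] at hcn
              rw [hcn]; decide
            · rw [one_pow]
              linear_combination h20
          · exact ⟨_, .sub2 F₀ P (hqodd h20) hc hS rfl, hle⟩
        · by_cases hex : q = 2 ∧ n₁ = 3
          · obtain ⟨hq, h3⟩ := hex
            subst h3
            exact h23 2 b' (by norm_num) hb' hTW hq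
          · have e : Fin n ≃ (Fin 2 → Fin n₁) := Fintype.equivOfCardEq (by
              rw [hcn, Fintype.card_fun, Fintype.card_fin, Fintype.card_fin]; ring)
            obtain ⟨P, hP⟩ := exists_P (b'.reindex e.symm)
            obtain ⟨hg, hS⟩ := ortho_structure hf b' hb' e P hP
            refine ⟨_, .tw n₁ 2 e P _ h13 (le_refl 2) hex (pow_of_fd hσq hg) ?_ rfl, le_tensorWreath_P b' H hTW e P hP⟩
            rw [← hfun]; exact hS
      · refine hlt n₂ n₁ (b.reindex (Equiv.prodComm _ _)) f₂ f₁ h2 hl hf₂ hf₁ (by rw [hcn, mul_comm]) (form_swap b hform)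
            (fun h hh => ?_)
        obtain ⟨A, N, hk⟩ := hkr h hh
        exact ⟨N, A, KA_swap b hk⟩
    | sub F₀ r P ζ hr hc hζ hS h N hN halg hreal => exact hsub F₀ r P ζ N hr hc hζ hS h hN halg hreal
    | st r k z p e R hR hk hal hc hRH hrp hmf h =>
      have hIR := hI.mono hRH
      have hdeg : n = r ^ k := by have := hR.deg; rw [hcard] at this; exact this
      refine ⟨_, .st r k R p e hR.st (absIrred_of_alg hal) ?_ hrp ?_ ?_ hdeg (Or.inl (hRH.trans hH)) rfl, h⟩
      · intro x hx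
        exact ⟨1, fun u v => by rw [hIR x hx, Units.val_one, one_mul]⟩
      · rw [hR.center]; exact hmf
      · rcases hR.hz with ⟨ho, hz⟩ | ⟨hr2, hz⟩
        · left
          refine ⟨ho, by rw [hR.center, hz], hk, ?_⟩
          rw [hR.card, hz, pow_add, pow_one, mul_comm]
        · right
          obtain ⟨hp, hchar, hcd, hzd, hmin⟩ := hmf
          have hpo : Odd p := by
            rcases hp.eq_two_or_odd' with h1 | h1
            · exact absurd (hr2.trans h1.symm) hrp
            · exact h1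
          have he0 : 0 < e := by
            rw [Nat.pos_iff_ne_zero]
            rintro rfl
            rw [pow_zero] at hcd
            have := Fintype.one_lt_card (α := F)
            omega
          have he1 : e ≠ 1 := by
            rintro rfl
            rw [hF, pow_one] at hcd
            rw [← hcd] at hp
            exact Nat.Prime.not_prime_pow (le_refl 2) hp
          rcases hz with hz | hz
          · exfalso
            apply hmin 1 (by norm_num) (by omega)
            rw [pow_one, hz]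
            obtain ⟨j, hj⟩ := hpo
            exact ⟨j, by omega⟩
          · have he2 : e = 2 := by
              by_contra hne'
              apply hmin 2 (by norm_num) (by omega)
              rw [hz]
              obtain ⟨j, hj⟩ := hpo
              refine ⟨j * (j + 1), ?_⟩
              rw [hj]
              have : (2 * j + 1) ^ 2 = 4 * (j * (j + 1)) + 1 := by ring
              omega
            refine ⟨hr2, he2, by rw [hR.center, hz], ?_⟩
            rw [hR.card, hr2, hz, pow_add]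
            ring
    | tw m t e P b hP ε₁ f₁ hf₁ _ hε' hm ht c hc hform hS hTW N hNH hnrd halg hperf hPT h =>
      rw [hε' hσ] at hf₁
      rcases (by omega : m = 2 ∨ 3 ≤ m) with hm2 | hm3
      · subst hm2
        obtain ⟨F₀, hF₀, hr⟩ := tw_two hσ hf b hI hTW hNH hnrd halg hperf
        obtain ⟨F₁, r, P', ζ, h1, h2, h3, h4, h5, h6⟩ := real_sub hf hI hNH halg hnrd hF₀ hr
        exact hsub F₁ r P' ζ N h1 h2 h3 h4 h5 (hI.mono hNH) halg h6
      · by_cases hex : q = 2 ∧ m = 3
        · obtain ⟨hq, h3⟩ := hex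
          subst h3
          obtain ⟨W, hW⟩ := orthonormal_gl hσ hf₁
          obtain ⟨b', hb'⟩ := change_basis b W
          have hfb := form_change b hf hf₁ hform hW hb'
          have hc1 : c = 1 := by
            have x0 : Fin t → Fin 3 := fun _ => 0
            have h1 := hfb x0 x0
            rw [if_pos rfl] at h1
            have h2 := hf.herm (b' x0) (b' x0)
            rw [h1, one_mul, hσq, hq] at h2
            have h5 : c * (c - 1) = 0 := by linear_combination -h2
            exact sub_eq_zero.1 ((mul_eq_zero.1 h5).resolve_left hc)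
          rw [hc1] at hfb
          refine h23 t b' (by omega) hfb (fun h hh => ?_) hq
          obtain ⟨π, Q, hQ⟩ := hTW h hh
          exact ⟨π, _, TWr_change b hb' hQ⟩
        · refine ⟨_, .tw m t e P f₁ hm3 ht hex (pow_of_fd hσq hf₁) ?_ rfl, h⟩
          rw [← hfun]; exact hS
  · have hIN := hI.mono hcore.le
    have hnob : ∀ g : (Fin n → F) → (Fin n → F) → F, IsBilinearForm g → IsNondegenerateForm g → ¬ FixesForm (matrixSet N) g := by
      intro g hg hgn hgf
      obtain ⟨F₀, h0, _, h1⟩ := two_forms hσ hf.sq hcore.alg (sesq_of_bilin hg) hgn hgf hf.sesq hf.nd hIN.fixes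
      exact hreal F₀ h0 h1
    right
    refine ⟨N, ⟨hcore.le, hcore.normal, hcore.perfect, hcore.simple, hcore.nonabelian, hcore.centralizer_scalar,
      absIrred_of_alg hcore.alg, hreal⟩, ?_, ?_⟩
    · rintro ⟨Q, hQ, hfix⟩
      refine hnob _ hQ.polar_bilinear hQ.nondegenerate ?_
      intro s hs u v
      simp only [QuadraticMap.polar, ← Matrix.mulVec_add, hfix s hs]
    · rintro ⟨g, hg, hfix⟩
      exact hnob g hg.bilinear hg.nondegenerate hfix

end CfsgLib.H14SU
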