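import Cfsg.Agent.LibH14SU5

/-! Maximal subgroups of special unitary groups: lines, properness, numerics (seat helper14). -/

set_option autoImplicit false

namespace CfsgLib.H14SU

open Module Cfsg Cfsg.Geo CfsgLib.MaxTv29 CfsgLib.Un29 CfsgLib.H14SU1
open scoped Matrix MatrixGroups Kronecker

section gen
variable {ι : Type} [Fintype ι] [DecidableEq ι] {F : Type*} [Field F] [Fintype F] {σ : F ≃+* F}
  {f : (ι → F) → (ι → F) → F}

omit [Fintype F] in
theorem sum_left (hf : IsUnitaryForm σ f) {κ : Type*} (s : Finset κ) (g : κ → ι → F) (v : ι → F) :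
    f (∑ i ∈ s, g i) v = ∑ i ∈ s, f (g i) v := by
  rw [← fd_apply hf, map_sum]; rfl

omit [Fintype F] in
theorem sum_right (hf : IsUnitaryForm σ f) {κ : Type*} (s : Finset κ) (g : κ → ι → F) (v : ι → F) :
    f v (∑ i ∈ s, g i) = ∑ i ∈ s, f v (g i) := by
  classical
  induction s using Finset.induction_on with
  | empty => rw [Finset.sum_empty, Finset.sum_empty, zero_right hf]
  | insert a s ha ih => rw [Finset.sum_insert ha, Finset.sum_insert ha, add_right hf, ih]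

theorem not_tm_lines (hf : IsUnitaryForm σ f) {t : ℕ} {D : Fin t → Submodule F (ι → F)}
    (hD : IsNondegenerateMDecomposition f 1 D)
    (hc : ∃ c : Fin t → F, (∀ i, σ (c i) = c i) ∧ ∑ i, c i = 0 ∧ ∃ i0 i1 i2, i0 ≠ i1 ∧ i0 ≠ i2 ∧ i1 ≠ i2 ∧ c i0 ≠ 0 ∧ c i1 ≠ 0 ∧ c i2 ≠ 0) :
    ¬ TM hf (decompositionStabilizer D) := by
  classical
  intro h
  obtain ⟨c, hcr, hcs, i0, i1, i2, h01, h02, h12, hc0, hc1, hc2⟩ := hc
  obtain ⟨δ, hδ, hδ'⟩ := exists_skew hf
  have hv : ∀ i, ∃ v ∈ D i, v ≠ 0 := by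
    intro i
    apply (Submodule.ne_bot_iff _).1
    intro e
    have := hD.decomp.finrank_eq i
    rw [e, finrank_bot] at this
    omega
  choose v hvD hv0 using hv
  have hline : ∀ i, ∀ w ∈ D i, ∃ a : F, w = a • v i := by
    intro i w hw
    obtain ⟨a, ha⟩ := (finrank_eq_one_iff_of_nonzero' (⟨v i, hvD i⟩ : D i) (by
      intro e; exact hv0 i (congrArg Subtype.val e))).1 (hD.decomp.finrank_eq i) ⟨w, hw⟩
    exact ⟨a, (congrArg Subtype.val ha).symm⟩
  have hvv : ∀ i, f (v i) (v i) ≠ 0 := by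
    intro i h0
    obtain ⟨⟨x, hx, hx'⟩, -⟩ := hD.nondegenerate i (v i) (hvD i) (hv0 i)
    obtain ⟨a, rfl⟩ := hline i x hx
    rw [hf.smul_left, h0, mul_zero] at hx'
    exact hx' rfl
  have horth : ∀ i j, i ≠ j → f (v i) (v j) = 0 := fun i j hij => hD.orthogonal i j hij _ (hvD i) _ (hvD j)
  have hx : ∀ i, ∃ x : F, x * σ x * f (v i) (v i) = c i := by
    intro i
    obtain ⟨x, hx⟩ := exists_norm hf (c i / f (v i) (v i)) (by rw [map_div₀, norm_real hf, hcr])
    exact ⟨x, by rw [hx, div_mul_cancel₀ _ (hvv i)]⟩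
  choose x hx using hx
  set e : ι → F := ∑ i, x i • v i with he
  have hve : ∀ j, f (v j) e = σ (x j) * f (v j) (v j) := by
    intro j
    rw [he, sum_right hf, Finset.sum_eq_single j]
    · rw [smul_right hf]
    · intro i _ hij
      rw [smul_right hf, horth j i (Ne.symm hij), mul_zero]
    · simp
  have hee : f e e = 0 := by
    conv_lhs => rw [he]
    rw [sum_left hf, ← hcs]
    refine Finset.sum_congr rfl fun i _ => ?_
    rw [hf.smul_left, ← he, hve, ← hx i]; ring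
  have hxne : ∀ i, c i ≠ 0 → x i ≠ 0 := by
    intro i hi h0
    apply hi
    rw [← hx i, h0]; ring
  have hsx : ∀ i, c i ≠ 0 → σ (x i) ≠ 0 := fun i hi h0 => hxne i hi ((map_eq_zero σ).1 h0)
  obtain ⟨π, hπ⟩ := h e δ hee hδ'
  have hT : ((ut hf e δ : GL ι F) : Matrix ι ι F) *ᵥ v i0 ∈ D (π i0) := by
    rw [← hπ i0]
    exact ⟨v i0, hvD i0, Matrix.toLin'_apply _ _⟩
  have hkey : ∀ j, j ≠ i0 → c j ≠ 0 → j ≠ π i0 → False := by
    intro j hj hcj hne
    have h1 := hD.orthogonal (π i0) j (Ne.symm hne) _ hT _ (hvD j)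
    rw [ut_mulVec hf hee, hf.add_left, hf.smul_left, horth i0 j (Ne.symm hj), zero_add, hve] at h1
    have h2 : f e (v j) = x j * f (v j) (v j) := by
      rw [hf.herm, hve, map_mul, hf.involutive, norm_real hf]
    rw [h2] at h1
    exact (mul_ne_zero (mul_ne_zero hδ (mul_ne_zero (hsx i0 hc0) (hvv i0))) (mul_ne_zero (hxne j hcj) (hvv j))) h1
  by_cases h1 : i1 = π i0
  · exact hkey i2 (Ne.symm h02) hc2 (by rw [← h1]; exact Ne.symm h12)
  · exact hkey i1 (Ne.symm h01) hc1 h1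

/-- coefficients in dimension at least four -/
theorem exists_coeff4 (σ : F ≃+* F) {t : ℕ} (ht : 4 ≤ t) :
    ∃ c : Fin t → F, (∀ i, σ (c i) = c i) ∧ ∑ i, c i = 0 ∧ ∃ i0 i1 i2, i0 ≠ i1 ∧ i0 ≠ i2 ∧ i1 ≠ i2 ∧ c i0 ≠ 0 ∧ c i1 ≠ 0 ∧ c i2 ≠ 0 := by
  classical
  let i : Fin 4 → Fin t := fun k => ⟨k, by omega⟩
  have hi : Function.Injective i := by
    intro a b hab
    have h1 : (i a : ℕ) = (i b : ℕ) := congrArg Fin.val hab
    exact Fin.ext h1
  let d : Fin 4 → F := ![1, 1, 1, -3]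
  refine ⟨fun j => ∑ k, if j = i k then d k else 0, ?_, ?_, i 0, i 1, i 2, ?_, ?_, ?_, ?_, ?_, ?_⟩
  · intro j
    rw [map_sum]
    refine Finset.sum_congr rfl fun k _ => ?_
    split
    · fin_cases k <;> simp [d, map_ofNat]
    · rw [map_zero]
  · rw [Finset.sum_comm]
    simp only [Finset.sum_ite_eq', Finset.mem_univ, if_true]
    simp only [Fin.sum_univ_four, d]
    simp; ring
  · exact fun h => absurd (hi h) (by decide)
  · exact fun h => absurd (hi h) (by decide)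
  · exact fun h => absurd (hi h) (by decide)
  · simp [Fin.sum_univ_four, hi.eq_iff, d]
  · simp [Fin.sum_univ_four, hi.eq_iff, d]
  · simp [Fin.sum_univ_four, hi.eq_iff, d]

end gen

theorem eq_of_max {G : Type*} [Group G] {S H M : Subgroup G} (hH : IsMaximalIn S H) (hM : H ≤ M) (hn : ¬ S ≤ M) : H = M ⊓ S := by
  rcases hH.2 (M ⊓ S) (le_inf hM hH.1.le) inf_le_right with h | h
  · exact h.symm
  · exact absurd (by rw [← h]; exact inf_le_left) hn

theorem lt_of_sing {n : ℕ} {F : Type*} [Field F] [Fintype F] {σ : F ≃+* F} {f : (Fin n → F) → (Fin n → F) → F}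
    (hf : IsUnitaryForm σ f) {W : Submodule F (Fin n → F)} (h0 : W ≠ ⊥) (hs : IsTotallySingularFor f W) : W ≠ ⊤ := by
  intro h
  obtain ⟨w, hw, hw0⟩ := (Submodule.ne_bot_iff _).1 h0
  obtain ⟨⟨x, hx⟩, -⟩ := hf.nondegenerate w hw0
  exact hx (hs x (by rw [h]; trivial) w hw)

/-- properness in dimension at least five -/
theorem not_le5 {n q : ℕ} {F : Type*} [Field F] [Fintype F] (hF : Fintype.card F = q ^ 2) (hn : 5 ≤ n)
    {M : Subgroup (GL (Fin n) F)} (hM : ClsU n q M) : ¬ GU n F q ⊓ specialLinear (Fin n) F ≤ M := by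
  intro hle
  obtain ⟨σ, hσ, hf⟩ := hermForm_unitary (F := F) n hF
  have hcn : Fintype.card (Fin n) = n := Fintype.card_fin n
  have h3 : 3 ≤ Fintype.card (Fin n) := by omega
  have htm : TM hf M := tm_of_le hf hle
  cases hM with
  | sing W h0 hs h => exact not_tm_red hf h3 h0 (lt_of_sing hf h0 hs) (h ▸ htm)
  | nond W h0 hs hd h =>
    refine not_tm_red hf h3 h0 ?_ (h ▸ htm)
    intro e
    rw [e, finrank_top, Module.finrank_fintype_fun_eq_card, hcn] at hd
    omega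
  | dec t k D hD h =>
    have h1 := CfsgLib.AschNum.dec_mul hD.decomp
    have h2 := hD.decomp.pos
    rcases (by omega : k = 1 ∨ 2 ≤ k) with hk | hk
    · subst hk
      refine not_tm_lines hf hD (exists_coeff4 σ ?_) (h ▸ htm)
      omega
    · exact not_tm_dec hf h3 hD.decomp hk (h ▸ htm)
  | pair k D hk hD hs h => exact not_tm_dec hf h3 hD (by omega) (h ▸ htm)
  | fld r K hr ho hK ha h => exact not_tm_fld hf h3 hr hK (h ▸ htm)
  | tp n₁ n₂ e P f₁ f₂ h1 h2 hf₁ hf₂ hS h => exact not_tm_tp hf h3 h1 (by omega) (h ▸ htm)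
  | subo F₀ r P hr ho hc hS h => exact not_tm_sub hf h3 hr hc (h ▸ htm)
  | sub2 F₀ P hq hc hS h => exact not_tm_sub hf h3 Nat.prime_two hc (h ▸ htm)
  | subs F₀ P ζ hev hc h0 h1 hS ha h => exact not_tm_sub hf h3 Nat.prime_two hc (h ▸ htm)
  | st r k R p e hst hal hsim hrp hm hz hdeg hGU h =>
    exact not_tm_st hf h3 hst.prime hst.pGroup hal (Or.inl (by omega)) (h ▸ htm)
  | tw k t e P f₁ hk ht hex hf₁ hS h => exact not_tm_tw hf h3 hk ht (h ▸ htm)

theorem max5 {n q : ℕ} {F : Type*} [Field F] [Fintype F] (hF : Fintype.card F = q ^ 2) (hn : 5 ≤ n)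
    {H : Subgroup (GL (Fin n) F)} (hH : IsMaximalIn (GU n F q ⊓ specialLinear (Fin n) F) H) :
    (∃ M, ClsU n q M ∧ H = M ⊓ (GU n F q ⊓ specialLinear (Fin n) F)) ∨ InUnitaryResidualClass H := by
  rcases unitU n q hF (by omega) H (hH.1.le.trans inf_le_left) with ⟨M, hM, hle⟩ | h
  · exact Or.inl ⟨M, hM, eq_of_max hH hle (not_le5 hF hn hM)⟩
  · exact Or.inr h

end CfsgLib.H14SU
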