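import Cfsg.Agent.LibH14SU6

/-! Maximal subgroups of special unitary groups: numerics, prime dimension (seat helper14). -/

set_option autoImplicit false

namespace CfsgLib.H14SU

open Module Cfsg Cfsg.Geo CfsgLib.MaxTv29 CfsgLib.Un29 CfsgLib.H14SU1
open scoped Matrix MatrixGroups Kronecker

theorem q_pow {p e q : ℕ} (hp : p.Prime) (h : q ^ 2 = p ^ e) : ∃ a, q = p ^ a ∧ e = 2 * a := by
  have h1 : q ∣ p ^ e := by rw [← h]; exact dvd_pow_self q (by norm_num)
  obtain ⟨a, -, ha⟩ := (Nat.dvd_prime_pow hp).1 h1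
  refine ⟨a, ha, ?_⟩
  rw [ha, ← pow_mul] at h
  have := Nat.pow_right_injective hp.two_le h
  omega

/-- numerics of the symplectic type class, odd prime -/
theorem st_num {F : Type*} [Field F] [Fintype F] {q : ℕ} (hF : Fintype.card F = q ^ 2) {r p e : ℕ} (hr : r.Prime) (hrp : r ≠ p)
    (hm : IsMinimalFieldFor r p e F) :
    ∃ a, q = p ^ a ∧ 0 < a ∧ 2 * a ∣ r - 1 ∧ p ^ (2 * a) % r = 1 ∧ ∀ d, 0 < d → d < 2 * a → p ^ d % r ≠ 1 := by
  obtain ⟨hp, hchar, hcard, hdvd, hmin⟩ := hm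
  obtain ⟨a, ha, he⟩ := q_pow hp (hF.symm.trans hcard)
  have hmod : ∀ d, r ∣ p ^ d - 1 ↔ p ^ d % r = 1 := by
    intro d
    have h1 : 1 ≤ p ^ d := Nat.one_le_pow _ _ hp.pos
    have h3 : 1 % r = 1 := Nat.mod_eq_of_lt hr.one_lt
    rw [← Nat.modEq_iff_dvd' h1, Nat.ModEq, h3, eq_comm]
  have ha0 : 0 < a := by
    rcases Nat.eq_zero_or_pos a with h | h
    · exfalso
      rw [h, pow_zero] at ha
      have := Fintype.one_lt_card (α := F)
      rw [hF, ha] at this
      omega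
    · exact h
  refine ⟨a, ha, ha0, ?_, by rw [← he]; exact (hmod e).1 hdvd, fun d h0 h1 h2 => hmin d h0 (by omega) ((hmod d).2 h2)⟩
  haveI : Fact r.Prime := ⟨hr⟩
  have hp0 : (p : ZMod r) ≠ 0 := by
    intro h
    rw [ZMod.natCast_eq_zero_iff] at h
    exact hrp ((Nat.prime_dvd_prime_iff_eq hr hp).1 h)
  have hz' : ∀ d, (p : ZMod r) ^ d = 1 ↔ p ^ d % r = 1 := by
    intro d
    have h3 : 1 % r = 1 := Nat.mod_eq_of_lt hr.one_lt
    rw [← Nat.cast_pow, ← Nat.cast_one, ZMod.natCast_eq_natCast_iff, Nat.ModEq, h3]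
  have h4 : orderOf (p : ZMod r) = e := by
    rw [orderOf_eq_iff (by omega)]
    refine ⟨(hz' e).2 ((hmod e).1 hdvd), fun d h1 h2 h3 => hmin d h2 h1 ((hmod d).2 ((hz' d).1 h3))⟩
  rw [← he, ← h4]
  exact orderOf_dvd_of_pow_eq_one (ZMod.pow_card_sub_one_eq_one hp0)

/-- numerics of the symplectic type class, r = 2 -/
theorem st_num2 {F : Type*} [Field F] [Fintype F] {q : ℕ} (hF : Fintype.card F = q ^ 2) {p : ℕ} (hrp : 2 ≠ p)
    (hm : IsMinimalFieldFor 4 p 2 F) : p.Prime ∧ q = p ∧ p % 4 = 3 := by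
  obtain ⟨hp, hchar, hcard, hdvd, hmin⟩ := hm
  have h1 : q = p := by
    have := hF.symm.trans hcard
    exact Nat.pow_left_injective (by norm_num : 2 ≠ 0) this
  refine ⟨hp, h1, ?_⟩
  have h2 := hmin 1 (by norm_num) (by norm_num)
  rw [pow_one] at h2
  rcases hp.eq_two_or_odd with h3 | h3
  · exact absurd h3.symm hrp
  · have := hp.two_le
    omega

theorem prime_dimU {n q : ℕ} (hnp : n.Prime) (hn : 5 ≤ n) {F : Type*} [Field F] [Fintype F] (hF : Fintype.card F = q ^ 2)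
    (H : Subgroup (GL (Fin n) F)) (hH : IsMaximalIn (GU n F q ⊓ specialLinear (Fin n) F) H) :
    (∃ W : Submodule F (Fin n → F), W ≠ ⊥ ∧ IsTotallySingularFor (hermForm n F q) W ∧ H = subspaceStabilizer W ⊓ (GU n F q ⊓ specialLinear (Fin n) F)) ∨
    (∃ W : Submodule F (Fin n → F), W ≠ ⊥ ∧ IsNondegenerateOn (hermForm n F q) W ∧ 2 * Module.finrank F W < n ∧
      H = subspaceStabilizer W ⊓ (GU n F q ⊓ specialLinear (Fin n) F)) ∨
    (∃ D : Fin n → Submodule F (Fin n → F), IsNondegenerateMDecomposition (hermForm n F q) 1 D ∧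
      H = decompositionStabilizer D ⊓ (GU n F q ⊓ specialLinear (Fin n) F)) ∨
    (∃ K : Subalgebra F (Matrix (Fin n) (Fin n) F), IsFieldSubalgebra n K ∧ IsAdjointClosedFor (hermForm n F q) K ∧
      H = subalgebraNormalizer K ⊓ (GU n F q ⊓ specialLinear (Fin n) F)) ∨
    (∃ (F₀ : Subfield F) (r : ℕ) (P : GL (Fin n) F), r.Prime ∧ Odd r ∧ Fintype.card F = Nat.card F₀ ^ r ∧
      IsFormRationalStructure (hermForm n F q) F₀ 1 P ∧ H = subfieldSubgroup F₀ P ⊓ (GU n F q ⊓ specialLinear (Fin n) F)) ∨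
    (Odd q ∧ ∃ (F₀ : Subfield F) (P : GL (Fin n) F), Fintype.card F = Nat.card F₀ ^ 2 ∧
      IsFormRationalStructure (hermForm n F q) F₀ 1 P ∧ H = subfieldSubgroup F₀ P ⊓ (GU n F q ⊓ specialLinear (Fin n) F)) ∨
    (∃ (p e : ℕ) (R : Subgroup (GL (Fin n) F)), n ≠ p ∧ IsMinimalFieldFor n p e F ∧ IsSymplecticTypeGroup n R ∧
      ActsAbsolutelyIrreducibly (matrixSet R) ∧ R ≤ similarityGroup (hermForm n F q) ∧ R ≤ GU n F q ∧ Nat.card R = n ^ 3 ∧
      Nat.card (Subgroup.center R) = n ∧ H = subgroupNormalizer R ⊓ (GU n F q ⊓ specialLinear (Fin n) F)) ∨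
    InUnitaryResidualClass H := by
  haveI : Nonempty (Fin n) := ⟨⟨0, by omega⟩⟩
  have hodd : Odd n := (hnp.eq_two_or_odd').resolve_left (by omega)
  have hcn : Fintype.card (Fin n) = n := Fintype.card_fin n
  rcases max5 hF hn hH with ⟨M, hM, hHM⟩ | h
  · cases hM with
    | sing W h0 hs h => subst h; exact Or.inl ⟨W, h0, hs, hHM⟩
    | nond W h0 hs hd h => subst h; exact Or.inr (Or.inl ⟨W, h0, hs, hd, hHM⟩)
    | dec t k D hD h =>
      subst h
      have h1 := CfsgLib.AschNum.dec_mul hD.decomp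
      rw [hcn] at h1
      have ht := hD.decomp.two_le
      have h2 : t ∣ n := ⟨k, h1.symm⟩
      have h3 : t = n := ((Nat.dvd_prime hnp).1 h2).resolve_left (by omega)
      have h4 : k = 1 := by
        rw [h3] at h1
        exact Nat.eq_of_mul_eq_mul_left hnp.pos (by rw [h1, mul_one])
      subst h3
      subst h4
      exact Or.inr (Or.inr (Or.inl ⟨D, hD, hHM⟩))
    | pair k D hk hD hs h =>
      exfalso
      obtain ⟨j, hj⟩ := hodd
      omega
    | fld r K hr ho hK ha h =>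
      subst h
      have h1 := CfsgLib.AschNum.fld_dvd hK
      rw [hcn] at h1
      have h2 : r = n := (Nat.prime_dvd_prime_iff_eq hr hnp).1 h1
      subst h2
      exact Or.inr (Or.inr (Or.inr (Or.inl ⟨K, hK, ha, hHM⟩)))
    | tp n₁ n₂ e P f₁ f₂ h1 h2 hf₁ hf₂ hS h =>
      exfalso
      have h3 := CfsgLib.AschNum.tp_mul e
      rw [hcn] at h3
      have h4 : n₁ ∣ n := ⟨n₂, h3.symm⟩
      have h5 : n₁ = n := ((Nat.dvd_prime hnp).1 h4).resolve_left (by omega)
      rw [h5] at h3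
      have h6 : n₂ = 1 := Nat.eq_of_mul_eq_mul_left hnp.pos (by rw [h3, mul_one])
      omega
    | subo F₀ r P hr ho hc hS h => subst h; exact Or.inr (Or.inr (Or.inr (Or.inr (Or.inl ⟨F₀, r, P, hr, ho, hc, hS, hHM⟩))))
    | sub2 F₀ P hq hc hS h => subst h; exact Or.inr (Or.inr (Or.inr (Or.inr (Or.inr (Or.inl ⟨hq, F₀, P, hc, hS, hHM⟩)))))
    | subs F₀ P ζ hev hc h0 h1 hS ha h => exact absurd hev (Nat.not_even_iff_odd.2 hodd)
    | st r k R p e hst hal hsim hrp hm hz hdeg hGU h =>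
      have hr := hst.prime
      have hk0 : k ≠ 0 := by
        rintro rfl
        rw [pow_zero] at hdeg
        omega
      have h2 : r ∣ n := by rw [hdeg]; exact dvd_pow_self r hk0
      have h3 : r = n := (Nat.prime_dvd_prime_iff_eq hr hnp).1 h2
      subst h3
      have hk1 : k = 1 := by
        have h4 : r ^ 1 = r ^ k := by rw [pow_one]; exact hdeg
        exact (Nat.pow_right_injective hr.two_le h4).symm
      subst hk1
      subst h
      rcases hz with ⟨ho, hz1, -, hz2⟩ | ⟨h2, -⟩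
      · rw [hz1] at hm
        exact Or.inr (Or.inr (Or.inr (Or.inr (Or.inr (Or.inr (Or.inl
          ⟨p, e, R, hrp, hm, hst, hal, hsim, hGU.resolve_right (by omega), hz2, hz1, hHM⟩))))))
      · omega
    | tw k t e P f₁ hk ht hex hf₁ hS h =>
      exfalso
      have h3 := CfsgLib.AschNum.tw_pow e
      rw [hcn] at h3
      have h4 := hnp
      rw [← h3] at h4
      exact Nat.Prime.not_prime_pow ht h4
  · exact Or.inr (Or.inr (Or.inr (Or.inr (Or.inr (Or.inr (Or.inr h))))))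

end CfsgLib.H14SU
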