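import Cfsg.Agent.LibH14SU7

/-! Special unitary groups over the field with four elements: refinements (seat helper14). -/

set_option autoImplicit false

namespace CfsgLib.H14SU

open Module Cfsg Cfsg.Geo CfsgLib.MaxTv29 CfsgLib.Un29 CfsgLib.H14SU1
open scoped Matrix MatrixGroups Kronecker

section gen
variable {ι : Type} [Fintype ι] [DecidableEq ι] {F : Type*} [Field F] [Fintype F] {σ : F ≃+* F}
  {f : (ι → F) → (ι → F) → F}

omit [Fintype F] in
theorem linInd_orth (hf : IsUnitaryForm σ f) {κ : Type*} [Fintype κ] {v : κ → ι → F} (hvv : ∀ i, f (v i) (v i) ≠ 0)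
    (ho : ∀ i j, i ≠ j → f (v i) (v j) = 0) : LinearIndependent F v := by
  classical
  rw [Fintype.linearIndependent_iff]
  intro c hc j
  have h1 : f (∑ i, c i • v i) (v j) = 0 := by rw [hc]; exact zero_left hf _
  rw [sum_left hf, Finset.sum_eq_single j] at h1
  · rw [hf.smul_left] at h1
    exact (mul_eq_zero.1 h1).resolve_right (hvv j)
  · intro i _ hij
    rw [hf.smul_left, ho i j hij, mul_zero]
  · simp

/-- a decomposition into lines from an orthogonal frame -/
theorem lines_decomp (hf : IsUnitaryForm σ f) {n : ℕ} (hn : 2 ≤ n) (hc : Fintype.card ι = n) {v : Fin n → ι → F}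
    (hvv : ∀ i, f (v i) (v i) ≠ 0) (ho : ∀ i j, i ≠ j → f (v i) (v j) = 0) :
    IsNondegenerateMDecomposition f 1 (fun i => Submodule.span F {v i}) := by
  have hli := linInd_orth hf hvv ho
  have hv0 : ∀ i, v i ≠ 0 := fun i h => hvv i (by rw [h]; exact zero_left hf _)
  refine ⟨⟨hn, one_pos, fun i => finrank_span_singleton (hv0 i), hli.iSupIndep_span_singleton, ?_⟩, ?_, ?_⟩
  · rw [← Submodule.span_range_eq_iSup]
    apply LinearIndependent.span_eq_top_of_card_eq_finrank' hli
    rw [Fintype.card_fin, Module.finrank_fintype_fun_eq_card, hc]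
  · intro i w hw hw0
    obtain ⟨a, rfl⟩ := Submodule.mem_span_singleton.1 hw
    have ha : a ≠ 0 := by rintro rfl; exact hw0 (zero_smul _ _)
    have hsa : σ a ≠ 0 := fun h => ha ((map_eq_zero σ).1 h)
    exact ⟨⟨v i, Submodule.mem_span_singleton_self _, by rw [smul_right hf]; exact mul_ne_zero hsa (hvv i)⟩,
      ⟨v i, Submodule.mem_span_singleton_self _, by rw [hf.smul_left]; exact mul_ne_zero ha (hvv i)⟩⟩
  · intro i j hij u hu w hw
    obtain ⟨a, rfl⟩ := Submodule.mem_span_singleton.1 hu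
    obtain ⟨b, rfl⟩ := Submodule.mem_span_singleton.1 hw
    rw [hf.smul_left, smul_right hf, ho i j hij]; ring

omit [Fintype F] in
/-- membership in the stabilizer of a decomposition -/
theorem mem_dec_of {t m : ℕ} {D : Fin t → Submodule F (ι → F)} (hD : IsMDecomposition m D) {g : GL ι F}
    (h : ∀ i, ∃ j, (D i).map (Matrix.toLin' (g : Matrix ι ι F)) = D j) : g ∈ decompositionStabilizer D := by
  choose π hπ using h
  have hne : ∀ i, D i ≠ ⊥ := by
    intro i e
    have := hD.finrank_eq i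
    have hp := hD.pos
    rw [e, finrank_bot] at this
    omega
  have hDinj : Function.Injective D := by
    intro i j hij
    by_contra hne'
    have h1 : Disjoint (D i) (D j) := hD.indep.pairwiseDisjoint hne'
    rw [hij, disjoint_self] at h1
    exact hne j h1
  have hginj : Function.Injective (Matrix.toLin' (g : Matrix ι ι F)) := by
    intro u v huv
    simp only [Matrix.toLin'_apply] at huv
    rw [← Matrix.one_mulVec u, ← Matrix.one_mulVec v, ← Units.val_one, ← inv_mul_cancel g, Units.val_mul, ← Matrix.mulVec_mulVec,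
      ← Matrix.mulVec_mulVec, huv]
  have hinj : Function.Injective π := by
    intro i j hij
    apply hDinj
    apply Submodule.map_injective_of_injective hginj
    rw [hπ, hπ, hij]
  exact ⟨Equiv.ofBijective π (Finite.injective_iff_bijective.1 hinj), fun i => hπ i⟩

/-- the two orthogonal non-isotropic lines of a plane over the field with four elements -/
theorem two_space (hf : IsUnitaryForm σ f) (h4 : Fintype.card F = 4) (hσ : ∀ x, σ x = x ^ 2) {U : Submodule F (ι → F)}
    (hU : IsNondegenerateOn f U) (h2 : finrank F U = 2) :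
    ∃ a ∈ U, ∃ b ∈ U, f a a ≠ 0 ∧ f b b ≠ 0 ∧ f a b = 0 ∧ ∀ v ∈ U, f v v ≠ 0 → v ∈ Submodule.span F {a} ∨ v ∈ Submodule.span F {b} := by
  have hne : U ≠ ⊥ := by
    intro e
    rw [e, finrank_bot] at h2
    omega
  obtain ⟨u, hu, hu0⟩ := (Submodule.ne_bot_iff _).1 hne
  obtain ⟨⟨x, hx, hxu⟩, -⟩ := hU u hu hu0
  obtain ⟨a, ha, haa⟩ := exists_nonisotropic hf U hx hu hxu
  have hker : LinearMap.ker ((fd hf a).domRestrict U) ≠ ⊥ := by
    apply LinearMap.ker_ne_bot_of_finrank_lt
    rw [Module.finrank_self, h2]; omega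
  obtain ⟨⟨b, hb⟩, hb1, hb0⟩ := (Submodule.ne_bot_iff _).1 hker
  have hba : f b a = 0 := hb1
  have hb0' : b ≠ 0 := fun e => hb0 (Subtype.ext e)
  have hab := swap_eq hf hba
  have hli : LinearIndependent F ![a, b] := by
    rw [LinearIndependent.pair_iff]
    intro s t hst
    have h1 : f (s • a + t • b) a = 0 := by rw [hst]; exact zero_left hf _
    rw [hf.add_left, hf.smul_left, hf.smul_left, hba, mul_zero, add_zero] at h1
    have hs : s = 0 := (mul_eq_zero.1 h1).resolve_right haa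
    rw [hs, zero_smul, zero_add] at hst
    exact ⟨hs, (smul_eq_zero.1 hst).resolve_right hb0'⟩
  have hspan : Submodule.span F {a, b} = U := by
    apply Submodule.eq_of_le_of_finrank_eq
    · rw [Submodule.span_le]
      rintro w (rfl | rfl)
      · exact ha
      · exact hb
    · have := finrank_span_eq_card hli
      have hr : Set.range ![a, b] = {a, b} := by ext x; simp [eq_comm, or_comm]
      rw [Fintype.card_fin, hr] at this
      rw [h2, this]
  have hbb : f b b ≠ 0 := by
    intro h0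
    obtain ⟨⟨y, hy, hyb⟩, -⟩ := hU b hb hb0'
    rw [← hspan] at hy
    obtain ⟨s, t, rfl⟩ := Submodule.mem_span_pair.1 hy
    apply hyb
    rw [hf.add_left, hf.smul_left, hf.smul_left, hab, h0]; ring
  have hone : ∀ x : F, σ x = x → x ≠ 0 → x = 1 := by
    intro x hx hx0
    rw [hσ] at hx
    have : x * (x - 1) = 0 := by linear_combination hx
    exact sub_eq_zero.1 ((mul_eq_zero.1 this).resolve_left hx0)
  have hN : ∀ x : F, x ≠ 0 → x * σ x = 1 := by
    intro x hx
    have := FiniteField.pow_card_sub_one_eq_one x hx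
    rw [h4] at this
    rw [hσ, ← this]; ring
  have h20 : (2 : F) = 0 := by
    have h1 := Nat.cast_card_eq_zero F
    rw [h4] at h1
    have : (2 : F) * 2 = 0 := by
      have h2 : ((4 : ℕ) : F) = 2 * 2 := by norm_num
      rw [← h2]; exact h1
    exact mul_self_eq_zero.1 this
  refine ⟨a, ha, b, hb, haa, hbb, hab, fun v hv hvv => ?_⟩
  rw [← hspan] at hv
  obtain ⟨s, t, rfl⟩ := Submodule.mem_span_pair.1 hv
  by_cases hs : s = 0
  · right
    rw [hs, zero_smul, zero_add]
    exact Submodule.smul_mem _ _ (Submodule.mem_span_singleton_self _)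
  · by_cases ht : t = 0
    · left
      rw [ht, zero_smul, add_zero]
      exact Submodule.smul_mem _ _ (Submodule.mem_span_singleton_self _)
    · exfalso
      apply hvv
      rw [hf.add_left, add_right hf, add_right hf, hf.smul_left, hf.smul_left, hf.smul_left, hf.smul_left, smul_right hf, smul_right hf,
        smul_right hf, smul_right hf, hab, hba, hone _ (norm_real hf a) haa, hone _ (norm_real hf b) hbb]
      linear_combination hN s hs + hN t ht + h20

end gen

/-- over the field with four elements a decomposition into non-degenerate planes refines to lines -/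
theorem refine_planes {n : ℕ} (hn : 2 ≤ n) {F : Type*} [Field F] [Fintype F] (hF : Fintype.card F = 4) {σ : F ≃+* F}
    (hσ : ∀ x, σ x = x ^ 2) {f : (Fin n → F) → (Fin n → F) → F}
    (hf : IsUnitaryForm σ f) {t : ℕ} {D : Fin t → Submodule F (Fin n → F)} (hD : IsNondegenerateMDecomposition f 2 D) :
    ∃ D' : Fin n → Submodule F (Fin n → F), IsNondegenerateMDecomposition f 1 D' ∧
      ∀ g ∈ iso f, g ∈ decompositionStabilizer D → g ∈ decompositionStabilizer D' := by
  classical
  have hcn : Fintype.card (Fin n) = n := Fintype.card_fin n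
  choose a ha b hb haa hbb hab hline using fun i => two_space hf hF hσ (hD.nondegenerate i) (hD.decomp.finrank_eq i)
  have htn : t * 2 = n := by
    have := CfsgLib.AschNum.dec_mul hD.decomp
    rw [hcn] at this; exact this
  have E : Fin n ≃ Fin t × Fin 2 := Fintype.equivOfCardEq (by rw [hcn, Fintype.card_prod, Fintype.card_fin, Fintype.card_fin, htn])
  let v : Fin t × Fin 2 → (Fin n → F) := fun p => if p.2 = 0 then a p.1 else b p.1
  have hvD : ∀ p, v p ∈ D p.1 := by
    intro p
    simp only [v]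
    split
    · exact ha _
    · exact hb _
  have hvv : ∀ p, f (v p) (v p) ≠ 0 := by
    intro p
    simp only [v]
    split
    · exact haa _
    · exact hbb _
  have ho : ∀ p p', p ≠ p' → f (v p) (v p') = 0 := by
    rintro ⟨i, s⟩ ⟨j, s'⟩ hne
    by_cases hij : i = j
    · subst hij
      have hss : s ≠ s' := fun e => hne (by rw [e])
      simp only [v]
      fin_cases s <;> fin_cases s' <;> simp_all [swap_eq hf (hab i)]
    · exact hD.orthogonal i j hij _ (hvD (i, s)) _ (hvD (j, s'))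
  have hdec := lines_decomp hf hn hcn (v := fun j => v (E j)) (fun j => hvv _) (fun i j hij => ho _ _ (fun h => hij (E.injective h)))
  refine ⟨_, hdec, fun g hg hgD => ?_⟩
  obtain ⟨π, hπ⟩ := hgD
  apply mem_dec_of hdec.decomp
  intro j
  have h1 : (g : Matrix (Fin n) (Fin n) F) *ᵥ v (E j) ∈ D (π (E j).1) := by
    rw [← hπ]
    exact ⟨_, hvD _, Matrix.toLin'_apply _ _⟩
  have h2 : f ((g : Matrix (Fin n) (Fin n) F) *ᵥ v (E j)) ((g : Matrix (Fin n) (Fin n) F) *ᵥ v (E j)) ≠ 0 := by
    rw [(mem_iso g).1 hg]; exact hvv _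
  have h0 : (g : Matrix (Fin n) (Fin n) F) *ᵥ v (E j) ≠ 0 := fun e => h2 (by rw [e]; exact zero_left hf _)
  have hfin : ∀ w : Fin n → F, (g : Matrix (Fin n) (Fin n) F) *ᵥ v (E j) ∈ Submodule.span F {w} →
      (Submodule.span F {v (E j)}).map (Matrix.toLin' (g : Matrix (Fin n) (Fin n) F)) = Submodule.span F {w} := by
    intro w hw
    obtain ⟨c, hc⟩ := Submodule.mem_span_singleton.1 hw
    have hc0 : c ≠ 0 := by
      rintro rfl
      rw [zero_smul] at hc
      exact h0 hc.symm
    rw [Submodule.map_span, Set.image_singleton, Matrix.toLin'_apply, ← hc]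
    exact Submodule.span_singleton_smul_eq (IsUnit.mk0 c hc0) w
  rcases hline _ _ h1 h2 with h3 | h3
  · refine ⟨E.symm (π (E j).1, 0), ?_⟩
    rw [hfin _ h3]
    simp [v]
  · refine ⟨E.symm (π (E j).1, 1), ?_⟩
    rw [hfin _ h3]
    simp [v]


section tensor
variable {n m : ℕ} {F : Type*} [Field F] {σ : F ≃+* F}

theorem form_expand' {k : ℕ} {g : (Fin k → F) → (Fin k → F) → F} (hg : IsUnitaryForm σ g) (u v : Fin k → F) :
    g u v = ∑ i, ∑ j, u i * gramMatrix g i j * σ (v j) := by
  have hu : u = ∑ i, u i • (Pi.single i 1 : Fin k → F) := pi_eq_sum_univ' u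
  have hv : v = ∑ i, v i • (Pi.single i 1 : Fin k → F) := pi_eq_sum_univ' v
  conv_lhs => rw [hu, hv]
  rw [sum_left hg]
  refine Finset.sum_congr rfl fun i _ => ?_
  rw [hg.smul_left, sum_right hg, Finset.mul_sum]
  refine Finset.sum_congr rfl fun j _ => ?_
  rw [smul_right hg, gramMatrix]; ring

/-- pure tensors -/
def ptn (e : Fin n ≃ Fin 2 × Fin m) (P : GL (Fin n) F) (u : Fin 2 → F) (w : Fin m → F) : Fin n → F :=
  (P : Matrix (Fin n) (Fin n) F) *ᵥ ((fun p : Fin 2 × Fin m => u p.1 * w p.2) ∘ e)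

theorem ptn_form {f : (Fin n → F) → (Fin n → F) → F} {f₁ : (Fin 2 → F) → (Fin 2 → F) → F} {f₂ : (Fin m → F) → (Fin m → F) → F}
    (hf₁ : IsUnitaryForm σ f₁) (hf₂ : IsUnitaryForm σ f₂) {e : Fin n ≃ Fin 2 × Fin m} {P : GL (Fin n) F} {c : F}
    (hS : ∀ x y : Fin 2 × Fin m → F, f ((P : Matrix _ _ F) *ᵥ (x ∘ e)) ((P : Matrix _ _ F) *ᵥ (y ∘ e)) =
      c * formOfGram (fun x => σ x) (gramMatrix f₁ ⊗ₖ gramMatrix f₂) x y) (u u' : Fin 2 → F) (w w' : Fin m → F) :
    f (ptn e P u w) (ptn e P u' w') = c * (f₁ u u' * f₂ w w') := by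
  unfold ptn
  rw [hS, form_expand' hf₁ u u', form_expand' hf₂ w w']
  congr 1
  rw [formOfGram, Finset.sum_mul_sum, Fintype.sum_prod_type]
  refine Finset.sum_congr rfl fun i _ => Finset.sum_congr rfl fun j _ => ?_
  rw [Finset.sum_mul_sum, Fintype.sum_prod_type]
  refine Finset.sum_congr rfl fun k _ => Finset.sum_congr rfl fun l _ => ?_
  rw [Matrix.kronecker_apply, map_mul]; ring

theorem ptn_map {e : Fin n ≃ Fin 2 × Fin m} {P g : GL (Fin n) F} (hg : g ∈ tensorProductSubgroup 2 m e P) :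
    ∃ (A : GL (Fin 2) F) (B : GL (Fin m) F), ∀ u w, (g : Matrix (Fin n) (Fin n) F) *ᵥ (ptn e P u w) =
      ptn e P ((A : Matrix _ _ F) *ᵥ u) ((B : Matrix _ _ F) *ᵥ w) := by
  obtain ⟨g', ⟨k, ⟨A, B, hk⟩, rfl⟩, rfl⟩ := hg
  refine ⟨A, B, fun u w => ?_⟩
  show ((P * glReindex e.symm k * P⁻¹ : GL (Fin n) F) : Matrix (Fin n) (Fin n) F) *ᵥ (ptn e P u w) = _
  unfold ptn
  rw [Matrix.mulVec_mulVec, ← Units.val_mul, mul_assoc, inv_mul_cancel, mul_one, Units.val_mul, ← Matrix.mulVec_mulVec]
  congr 1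
  ext i
  simp only [Function.comp_apply, Matrix.mulVec, dotProduct]
  rw [← e.symm.sum_comp]
  have : ∀ p : Fin 2 × Fin m, ((glReindex e.symm k : GL (Fin n) F) : Matrix _ _ F) i (e.symm p) * (u (e (e.symm p)).1 * w (e (e.symm p)).2) =
      ((A : Matrix _ _ F) (e i).1 p.1 * u p.1) * ((B : Matrix _ _ F) (e i).2 p.2 * w p.2) := by
    intro p
    rw [CfsgLib.Asch7.glReindex_apply, hk, Equiv.apply_symm_apply, Matrix.kronecker_apply]; ring
  rw [Finset.sum_congr rfl fun p _ => this p, Fintype.sum_prod_type, Finset.sum_mul_sum]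

theorem ptn_smul_left {e : Fin n ≃ Fin 2 × Fin m} {P : GL (Fin n) F} (a : F) (u : Fin 2 → F) (w : Fin m → F) :
    ptn e P (a • u) w = ptn e P u (a • w) := by
  unfold ptn
  congr 1
  ext i
  simp only [Function.comp_apply, Pi.smul_apply, smul_eq_mul]; ring

/-- the linear map `w ↦ u ⊗ w` -/
def ptL (e : Fin n ≃ Fin 2 × Fin m) (P : GL (Fin n) F) (u : Fin 2 → F) : (Fin m → F) →ₗ[F] (Fin n → F) where
  toFun := fun w => ptn e P u w
  map_add' := by
    intro w w'
    unfold ptn
    rw [← Matrix.mulVec_add]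
    congr 1
    ext i
    simp only [Function.comp_apply, Pi.add_apply]; ring
  map_smul' := by
    intro a w
    unfold ptn
    rw [RingHom.id_apply, ← Matrix.mulVec_smul]
    congr 1
    ext i
    simp only [Function.comp_apply, Pi.smul_apply, smul_eq_mul]; ring

theorem ptL_apply (e : Fin n ≃ Fin 2 × Fin m) (P : GL (Fin n) F) (u : Fin 2 → F) (w : Fin m → F) : ptL e P u w = ptn e P u w := rfl

theorem tp_two [Fintype F] (hF : Fintype.card F = 4) (hσ : ∀ x, σ x = x ^ 2) (hm : 0 < m) {f : (Fin n → F) → (Fin n → F) → F}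
    (hf : IsUnitaryForm σ f) {e : Fin n ≃ Fin 2 × Fin m} {P : GL (Fin n) F} {f₁ : (Fin 2 → F) → (Fin 2 → F) → F}
    {f₂ : (Fin m → F) → (Fin m → F) → F} (hf₁ : IsUnitaryForm σ f₁) (hf₂ : IsUnitaryForm σ f₂)
    (hS : IsTensorFormStructure (fun x => σ x) f f₁ f₂ e P) :
    ∃ D : Fin 2 → Submodule F (Fin n → F), IsNondegenerateMDecomposition f m D ∧
      ∀ g ∈ iso f, g ∈ tensorProductSubgroup 2 m e P → g ∈ decompositionStabilizer D := by
  obtain ⟨c, hc, hS⟩ := hS
  have hform := ptn_form hf₁ hf₂ hS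
  have hn : Fintype.card (Fin n) = 2 * m := by rw [Fintype.card_congr e]; simp
  rw [Fintype.card_fin] at hn
  obtain ⟨a, -, b, -, haa, hbb, hab, hline⟩ := two_space hf₁ hF hσ (top_nondeg hf₁) (by
    rw [finrank_top, Module.finrank_fintype_fun_eq_card, Fintype.card_fin])
  let v : Fin 2 → (Fin 2 → F) := ![a, b]
  have hvv : ∀ s, f₁ (v s) (v s) ≠ 0 := by intro s; fin_cases s <;> simp [v, haa, hbb]
  have hvo : ∀ s s', s ≠ s' → f₁ (v s) (v s') = 0 := by
    intro s s' hss
    fin_cases s <;> fin_cases s' <;> simp_all [v, swap_eq hf₁ hab]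
  have hline' : ∀ u, f₁ u u ≠ 0 → ∃ s, u ∈ Submodule.span F {v s} := by
    intro u hu
    rcases hline u trivial hu with h | h
    · exact ⟨0, h⟩
    · exact ⟨1, h⟩
  have hinj : ∀ s, Function.Injective (ptL e P (v s)) := by
    intro s
    rw [← LinearMap.ker_eq_bot, LinearMap.ker_eq_bot']
    intro w hw
    by_contra hw0
    obtain ⟨-, w', hw'⟩ := hf₂.nondegenerate w hw0
    have h1 : f (ptn e P (v s) w) (ptn e P (v s) w') = 0 := by
      rw [← ptL_apply, hw]; exact zero_left hf _
    rw [hform] at h1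
    exact (mul_ne_zero hc (mul_ne_zero (hvv s) hw')) h1
  let D : Fin 2 → Submodule F (Fin n → F) := fun s => LinearMap.range (ptL e P (v s))
  have hfr : ∀ s, finrank F (D s) = m := by
    intro s
    show finrank F (LinearMap.range (ptL e P (v s))) = m
    rw [LinearMap.finrank_range_of_inj (hinj s), Module.finrank_fintype_fun_eq_card, Fintype.card_fin]
  have hnd : ∀ s, IsNondegenerateOn f (D s) := by
    rintro s _ ⟨w, rfl⟩ hw
    have hw0 : w ≠ 0 := by rintro rfl; exact hw (map_zero _)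
    obtain ⟨⟨x, hx⟩, ⟨y, hy⟩⟩ := hf₂.nondegenerate w hw0
    refine ⟨⟨_, ⟨x, rfl⟩, ?_⟩, ⟨_, ⟨y, rfl⟩, ?_⟩⟩
    · rw [ptL_apply, ptL_apply, hform]; exact mul_ne_zero hc (mul_ne_zero (hvv s) hx)
    · rw [ptL_apply, ptL_apply, hform]; exact mul_ne_zero hc (mul_ne_zero (hvv s) hy)
  have horth : ∀ s s', s ≠ s' → AreOrthogonalFor f (D s) (D s') := by
    rintro s s' hss _ ⟨w, rfl⟩ _ ⟨w', rfl⟩
    rw [ptL_apply, ptL_apply, hform, hvo s s' hss]; ring
  have hdisj : Disjoint (D 0) (D 1) := by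
    rw [Submodule.disjoint_def]
    intro x hx hx'
    by_contra hx0
    obtain ⟨-, y, hy, hxy⟩ := hnd 1 x hx' hx0
    exact hxy (horth 0 1 (by decide) x hx y hy)
  have hsup : D 0 ⊔ D 1 = ⊤ := by
    apply Submodule.eq_top_of_finrank_eq
    have h1 := Submodule.finrank_sup_add_finrank_inf_eq (D 0) (D 1)
    rw [disjoint_iff.1 hdisj, finrank_bot, hfr, hfr] at h1
    rw [Module.finrank_fintype_fun_eq_card, Fintype.card_fin]
    omega
  have hD : IsMDecomposition m D := by
    refine ⟨le_rfl, hm, hfr, ?_, ?_⟩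
    · intro i
      rw [disjoint_iff_inf_le] 
      fin_cases i
      · have : (⨆ j, ⨆ (_ : j ≠ (0 : Fin 2)), D j) ≤ D 1 := by
          refine iSup₂_le fun j hj => ?_
          fin_cases j
          · exact absurd rfl hj
          · exact le_rfl
        exact (inf_le_inf_left _ this).trans (disjoint_iff_inf_le.1 hdisj)
      · have : (⨆ j, ⨆ (_ : j ≠ (1 : Fin 2)), D j) ≤ D 0 := by
          refine iSup₂_le fun j hj => ?_
          fin_cases j
          · exact le_rfl
          · exact absurd rfl hj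
        exact (inf_le_inf_left _ this).trans (disjoint_iff_inf_le.1 hdisj.symm)
    · rw [eq_top_iff, ← hsup]
      exact sup_le (le_iSup D 0) (le_iSup D 1)
  refine ⟨D, ⟨hD, hnd, horth⟩, fun g hg hgT => ?_⟩
  obtain ⟨A, B, hAB⟩ := ptn_map hgT
  apply mem_dec_of hD
  intro s
  haveI : Nonempty (Fin m) := ⟨⟨0, hm⟩⟩
  obtain ⟨w, hw⟩ : ∃ w : Fin m → F, w ≠ 0 := ⟨1, by
    intro h0
    have := congrFun h0 ⟨0, hm⟩
    exact one_ne_zero this⟩
  obtain ⟨-, w', hww⟩ := hf₂.nondegenerate w hw
  have h1 : f₁ ((A : Matrix _ _ F) *ᵥ v s) ((A : Matrix _ _ F) *ᵥ v s) ≠ 0 := by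
    intro h0
    have h2 := (mem_iso g).1 hg (ptn e P (v s) w) (ptn e P (v s) w')
    rw [hAB, hAB, hform, hform, h0, zero_mul, mul_zero] at h2
    exact (mul_ne_zero hc (mul_ne_zero (hvv s) hww)) h2.symm
  obtain ⟨s', hs'⟩ := hline' _ h1
  obtain ⟨a', ha'⟩ := Submodule.mem_span_singleton.1 hs'
  refine ⟨s', ?_⟩
  have hginj : Function.Injective (Matrix.toLin' (g : Matrix (Fin n) (Fin n) F)) := by
    intro u v huv
    simp only [Matrix.toLin'_apply] at huv
    rw [← Matrix.one_mulVec u, ← Matrix.one_mulVec v, ← Units.val_one, ← inv_mul_cancel g, Units.val_mul, ← Matrix.mulVec_mulVec,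
      ← Matrix.mulVec_mulVec, huv]
  apply Submodule.eq_of_le_of_finrank_eq
  · rintro _ ⟨_, ⟨x, rfl⟩, rfl⟩
    rw [Matrix.toLin'_apply, ptL_apply, hAB, ← ha', ptn_smul_left]
    exact ⟨_, rfl⟩
  · rw [hfr, ← (Submodule.equivMapOfInjective _ hginj (D s)).finrank_eq, hfr]

end tensor

end CfsgLib.H14SU
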