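import Cfsg.Agent.LibH14SU8

/-! Maximal subgroups of special unitary groups: composite dimension, case analysis (seat helper14). -/

set_option autoImplicit false

namespace CfsgLib.H14SU

open Module Cfsg Cfsg.Geo CfsgLib.MaxTv29 CfsgLib.Un29 CfsgLib.H14SU1
open scoped Matrix MatrixGroups Kronecker

variable {n q : ℕ} {F : Type*} [Field F] [Fintype F]

theorem two_le_q (hF : Fintype.card F = q ^ 2) : 2 ≤ q := by
  have h1 := Fintype.one_lt_card (α := F)
  rw [hF] at h1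
  by_contra hcon
  have : q = 0 ∨ q = 1 := by omega
  rcases this with rfl | rfl <;> simp at h1

/-- planes over the field with four elements -/
theorem planes_max (hF : Fintype.card F = q ^ 2) (hn : 5 ≤ n) {H : Subgroup (GL (Fin n) F)}
    (hH : IsMaximalIn (GU n F q ⊓ specialLinear (Fin n) F) H) {t : ℕ} {D : Fin t → Submodule F (Fin n → F)}
    (hD : IsNondegenerateMDecomposition (hermForm n F q) 2 D) (h : H = decompositionStabilizer D ⊓ (GU n F q ⊓ specialLinear (Fin n) F)) :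
    3 ≤ q ∨ (q = 2 ∧ ∃ D : Fin n → Submodule F (Fin n → F), IsNondegenerateMDecomposition (hermForm n F q) 1 D ∧
      H = decompositionStabilizer D ⊓ (GU n F q ⊓ specialLinear (Fin n) F)) := by
  have hq := two_le_q hF
  rcases (by omega : q = 2 ∨ 3 ≤ q) with h2 | h3
  · right
    refine ⟨h2, ?_⟩
    obtain ⟨σ, hσ, hf⟩ := hermForm_unitary (F := F) n hF
    have hF4 : Fintype.card F = 4 := by rw [hF, h2]; norm_num
    obtain ⟨D', hD', hle⟩ := refine_planes (by omega) hF4 (fun x => by rw [hσ, h2]) hf hD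
    refine ⟨D', hD', eq_of_max hH ?_ (not_le5 hF hn (.dec n 1 D' hD' rfl))⟩
    intro g hg
    have hg' := hg
    rw [h] at hg'
    exact hle g hg'.2.1 hg'.1
  · exact Or.inl h3

theorem unit_of_pow {σ : F ≃+* F} (hσ : ∀ x, σ x = x ^ q) (hf : IsUnitaryForm σ (hermForm n F q)) {k : ℕ}
    {g : (Fin k → F) → (Fin k → F) → F} (hg : IsUnitaryFormPow q g) : IsUnitaryForm σ g :=
  ⟨hf.ne_refl, hf.involutive, hg.add_left, hg.smul_left, fun v w => by rw [hg.herm, hσ], hg.nondegenerate⟩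

/-- tensor products with a plane over the field with four elements -/
theorem tensor_max (hF : Fintype.card F = q ^ 2) (hn : 5 ≤ n) {H : Subgroup (GL (Fin n) F)}
    (hH : IsMaximalIn (GU n F q ⊓ specialLinear (Fin n) F) H) {m : ℕ} (hm : 2 < m) {e : Fin n ≃ Fin 2 × Fin m} {P : GL (Fin n) F}
    {f₁ : (Fin 2 → F) → (Fin 2 → F) → F} {f₂ : (Fin m → F) → (Fin m → F) → F}
    (hf₁ : IsUnitaryFormPow q f₁) (hf₂ : IsUnitaryFormPow q f₂)
    (hS : IsTensorFormStructure (fun x : F => x ^ q) (hermForm n F q) f₁ f₂ e P)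
    (h : H = tensorProductSubgroup 2 m e P ⊓ (GU n F q ⊓ specialLinear (Fin n) F)) :
    3 ≤ q ∨ (∃ D : Fin 2 → Submodule F (Fin n → F), IsNondegenerateMDecomposition (hermForm n F q) m D ∧
      H = decompositionStabilizer D ⊓ (GU n F q ⊓ specialLinear (Fin n) F)) := by
  have hq := two_le_q hF
  rcases (by omega : q = 2 ∨ 3 ≤ q) with h2 | h3
  · right
    obtain ⟨σ, hσ, hf⟩ := hermForm_unitary (F := F) n hF
    have hF4 : Fintype.card F = 4 := by rw [hF, h2]; norm_num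
    have hfun : (fun x : F => x ^ q) = fun x => σ x := funext fun x => (hσ x).symm
    rw [hfun] at hS
    obtain ⟨D', hD', hle⟩ := tp_two hF4 (fun x => by rw [hσ, h2]) (by omega) hf (unit_of_pow hσ hf hf₁) (unit_of_pow hσ hf hf₂) hS
    refine ⟨D', hD', eq_of_max hH ?_ (not_le5 hF hn (.dec 2 m D' hD' rfl))⟩
    intro g hg
    have hg' := hg
    rw [h] at hg'
    exact hle g hg'.2.1 hg'.1
  · exact Or.inl h3

theorem pow_eq_nine {r k : ℕ} (hr : r.Prime) (h : 9 = r ^ k) : r = 3 ∧ k = 2 := by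
  have h1 : r ∣ 3 ^ 2 := by
    rw [show 3 ^ 2 = r ^ k by rw [← h]; norm_num]
    exact dvd_pow_self r (by rintro rfl; simp at h)
  have h2 : r = 3 := (Nat.prime_dvd_prime_iff_eq hr Nat.prime_three).1 (hr.dvd_of_dvd_pow h1)
  subst h2
  refine ⟨rfl, ?_⟩
  have h3 : 3 ^ 2 = 3 ^ k := by rw [← h]; norm_num
  exact (Nat.pow_right_injective (le_refl 2 |>.trans (by norm_num)) h3).symm

theorem pow_eq_eight {r k : ℕ} (hr : r.Prime) (h : 8 = r ^ k) : r = 2 ∧ k = 3 := by
  have h1 : r ∣ 2 ^ 3 := by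
    rw [show 2 ^ 3 = r ^ k by rw [← h]; norm_num]
    exact dvd_pow_self r (by rintro rfl; simp at h)
  have h2 : r = 2 := (Nat.prime_dvd_prime_iff_eq hr Nat.prime_two).1 (hr.dvd_of_dvd_pow h1)
  subst h2
  refine ⟨rfl, ?_⟩
  have h3 : 2 ^ 3 = 2 ^ k := by rw [← h]; norm_num
  exact (Nat.pow_right_injective (le_refl 2) h3).symm

theorem not_pow_of_two_primes {n a b : ℕ} (ha : a.Prime) (hb : b.Prime) (hab : a ≠ b) (han : a ∣ n) (hbn : b ∣ n) {r k : ℕ} (hr : r.Prime)
    (h : n = r ^ k) : False := by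
  have h1 : a = r := (Nat.prime_dvd_prime_iff_eq ha hr).1 (ha.dvd_of_dvd_pow (h ▸ han))
  have h2 : b = r := (Nat.prime_dvd_prime_iff_eq hb hr).1 (hb.dvd_of_dvd_pow (h ▸ hbn))
  exact hab (h1.trans h2.symm)

theorem mul_cases {n t k : ℕ} (hn : 0 < n) (h : t * k = n) : t ∈ n.divisors ∧ k = n / t := by
  have ht : 0 < t := Nat.pos_of_ne_zero (by rintro rfl; simp at h; omega)
  exact ⟨Nat.mem_divisors.2 ⟨⟨k, h.symm⟩, by omega⟩, by rw [← h, Nat.mul_div_cancel_left _ ht]⟩

end CfsgLib.H14SU
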