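import Cfsg.Statements.S5016
import Cfsg.Agent.LibH14QD


set_option autoImplicit false
open Cfsg

namespace Cfsg.Agent.S5016


open CfsgLib.H14QD

section
variable {k : Type*} [Field k]

theorem xx_inv (a : k) : (xx a)⁻¹ = xx (-a) := by
  rw [inv_eq_iff_mul_eq_one, xx_mul, add_neg_cancel, xx_zero]

theorem yy_inv (a : k) : (yy a)⁻¹ = yy (-a) := by
  rw [inv_eq_iff_mul_eq_one, yy_mul, add_neg_cancel, yy_zero]

theorem yy_ne {a : k} (h : yy a ≠ 1) : a ≠ 0 := by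
  rintro rfl; exact h yy_zero
theorem xx_ne {a : k} (h : xx a ≠ 1) : a ≠ 0 := by
  rintro rfl; exact h xx_zero

theorem xx_ne_one {a : k} (h : a ≠ 0) : xx a ≠ 1 := by
  intro h1
  have := congrArg (fun g : Matrix.SpecialLinearGroup (Fin 2) k => (g : Matrix (Fin 2) (Fin 2) k) 0 1) h1
  simp at this
  exact h this

theorem yy_ne_one {a : k} (h : a ≠ 0) : yy a ≠ 1 := by
  intro h1
  have := congrArg (fun g : Matrix.SpecialLinearGroup (Fin 2) k => (g : Matrix (Fin 2) (Fin 2) k) 1 0) h1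
  simp at this
  exact h this

/-- the Weyl element conjugates -/
theorem key1 {t : k} (ht : t ≠ 0) (c : k) : yy t * xx (-t⁻¹) * yy c * xx t⁻¹ * yy (-t) = xx (-(c * t⁻¹ * t⁻¹)) := by
  apply ext4 <;> simp [Matrix.mul_apply, Fin.sum_univ_two] <;> field_simp <;> ring

theorem key2 {t : k} (ht : t ≠ 0) (c : k) : xx t * yy (-t⁻¹) * xx c * yy t⁻¹ * xx (-t) = yy (-(c * t⁻¹ * t⁻¹)) := by
  apply ext4 <;> simp [Matrix.mul_apply, Fin.sum_univ_two] <;> field_simp <;> ring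

theorem comm_upper : IsMulCommutative (upperUnipotentSL2 k) := by
  refine ⟨⟨?_⟩⟩
  rintro ⟨a, ha⟩ ⟨b, hb⟩
  obtain ⟨x, rfl⟩ := upper_eq.1 ha
  obtain ⟨y, rfl⟩ := upper_eq.1 hb
  apply Subtype.ext
  show xx x * xx y = xx y * xx x
  rw [xx_mul, xx_mul, add_comm]

theorem comm_lower : IsMulCommutative (lowerUnipotentSL2 k) := by
  refine ⟨⟨?_⟩⟩
  rintro ⟨a, ha⟩ ⟨b, hb⟩
  obtain ⟨x, rfl⟩ := lower_eq.1 ha
  obtain ⟨y, rfl⟩ := lower_eq.1 hb
  apply Subtype.ext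
  show yy x * yy y = yy y * yy x
  rw [yy_mul, yy_mul, add_comm]

theorem conj_up {t : k} (ht : t ≠ 0) :
    conjBy (lowerUnipotentSL2 k) (xx t⁻¹)⁻¹ = conjBy (upperUnipotentSL2 k) (yy t)⁻¹ := by
  ext g
  simp only [Subgroup.mem_map, MulEquiv.coe_toMonoidHom, MulAut.conj_apply, inv_inv]
  constructor
  · rintro ⟨x, hx, rfl⟩
    obtain ⟨c, rfl⟩ := lower_eq.1 hx
    refine ⟨_, upper_eq.2 ⟨-(c * t⁻¹ * t⁻¹), rfl⟩, ?_⟩
    rw [← key1 ht c, xx_inv, yy_inv]
    have h1 : yy (-t) * yy t = 1 := by rw [yy_mul, neg_add_cancel, yy_zero]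
    have h2 : xx (-t⁻¹) * xx t⁻¹ = 1 := by rw [xx_mul, neg_add_cancel, xx_zero]
    calc yy (-t) * (yy t * xx (-t⁻¹) * yy c * xx t⁻¹ * yy (-t)) * yy t
        = (yy (-t) * yy t) * xx (-t⁻¹) * yy c * xx t⁻¹ * (yy (-t) * yy t) := by group
      _ = _ := by rw [h1, one_mul, mul_one]
  · rintro ⟨x, hx, rfl⟩
    obtain ⟨c, rfl⟩ := upper_eq.1 hx
    refine ⟨_, lower_eq.2 ⟨-(c * t * t), rfl⟩, ?_⟩
    have h3 := key1 ht (-(c * t * t))
    have h4 : -(-(c * t * t) * t⁻¹ * t⁻¹) = c := by field_simp; try ring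
    rw [h4] at h3
    rw [← h3, xx_inv, yy_inv]
    have h1 : yy (-t) * yy t = 1 := by rw [yy_mul, neg_add_cancel, yy_zero]
    calc xx (-t⁻¹) * yy (-(c * t * t)) * xx t⁻¹
        = 1 * xx (-t⁻¹) * yy (-(c * t * t)) * xx t⁻¹ * 1 := by rw [one_mul, mul_one]
      _ = (yy (-t) * yy t) * xx (-t⁻¹) * yy (-(c * t * t)) * xx t⁻¹ * (yy (-t) * yy t) := by rw [h1]
      _ = _ := by group

theorem conj_lo {t : k} (ht : t ≠ 0) :
    conjBy (upperUnipotentSL2 k) (yy t⁻¹)⁻¹ = conjBy (lowerUnipotentSL2 k) (xx t)⁻¹ := by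
  have := conj_up (k := k) (t := t⁻¹) (inv_ne_zero ht)
  rw [inv_inv] at this
  exact this.symm

theorem sp {t s : k} (ht : t ≠ 0) (hs : s ≠ 0)
    (h : conjBy (lowerUnipotentSL2 k) (xx s)⁻¹ = conjBy (upperUnipotentSL2 k) (yy t)⁻¹) : s * t = 1 := by
  have h1 : (xx s)⁻¹ * yy t * (xx s)⁻¹⁻¹ ∈ conjBy (lowerUnipotentSL2 k) (xx s)⁻¹ :=
    Subgroup.mem_map_of_mem _ (lower_eq.2 ⟨t, rfl⟩)
  rw [h] at h1
  obtain ⟨x, hx, hxe⟩ := h1
  obtain ⟨r, rfl⟩ := upper_eq.1 hx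
  simp only [MulEquiv.coe_toMonoidHom, MulAut.conj_apply, inv_inv, xx_inv, yy_inv] at hxe
  have e1 := congrArg (fun g : Matrix.SpecialLinearGroup (Fin 2) k => (g : Matrix (Fin 2) (Fin 2) k) 0 0) hxe
  have e2 := congrArg (fun g : Matrix.SpecialLinearGroup (Fin 2) k => (g : Matrix (Fin 2) (Fin 2) k) 0 1) hxe
  simp [Matrix.mul_apply, Fin.sum_univ_two] at e1 e2
  -- e1 : r t = -(s t), so r = -s ; e2 : r = -(s t s)
  have hr : r = -s := by
    have : (r + s) * t = 0 := by linear_combination e1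
    rcases mul_eq_zero.1 this with h | h
    · exact eq_neg_of_add_eq_zero_left h
    · exact absurd h ht
  rw [hr] at e2
  have : s * (s * t - 1) = 0 := by linear_combination e2
  rcases mul_eq_zero.1 this with h | h
  · exact absurd h hs
  · exact sub_eq_zero.1 h

end



/-- For any field k, the special linear group SL₂(k) is a special rank one group with abelian unipotent subgroups, the unipotent subgroups being the group of lower unitriangular matrices and the group of upper unitriangular matrices. -/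
theorem result (k : Type*) [Field k] :
    Cfsg.IsRankOneGroup (Matrix.SpecialLinearGroup (Fin 2) k) (Cfsg.lowerUnipotentSL2 k) (Cfsg.upperUnipotentSL2 k) ∧
    Cfsg.IsSpecialRankOnePair (Cfsg.lowerUnipotentSL2 k) (Cfsg.upperUnipotentSL2 k) ∧
    Cfsg.HasAbelianUnipotents (Cfsg.lowerUnipotentSL2 k) (Cfsg.upperUnipotentSL2 k) := by
  have hpair : Cfsg.IsRankOnePair (Cfsg.lowerUnipotentSL2 k) (Cfsg.upperUnipotentSL2 k) := by
    haveI := comm_upper (k := k)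
    haveI := comm_lower (k := k)
    refine ⟨?_, ?_, ?_, ?_, ?_⟩
    · intro h
      have h1 : xx (1 : k) ∈ Cfsg.lowerUnipotentSL2 k := by rw [h]; exact upper_eq.2 ⟨1, rfl⟩
      obtain ⟨e, he⟩ := lower_eq.1 h1
      have := congrArg (fun g : Matrix.SpecialLinearGroup (Fin 2) k => (g : Matrix (Fin 2) (Fin 2) k) 0 1) he
      simp at this
    · letI : CommGroup (Cfsg.lowerUnipotentSL2 k) := { mul_comm := (comm_lower (k := k)).1.1 }
      infer_instance
    · letI : CommGroup (Cfsg.upperUnipotentSL2 k) := { mul_comm := (comm_upper (k := k)).1.1 }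
      infer_instance
    · intro a ha ha1
      obtain ⟨t, rfl⟩ := lower_eq.1 ha
      have ht := yy_ne ha1
      exact ⟨xx t⁻¹, upper_eq.2 ⟨_, rfl⟩, xx_ne_one (inv_ne_zero ht), conj_up ht⟩
    · intro a ha ha1
      obtain ⟨t, rfl⟩ := upper_eq.1 ha
      have ht := xx_ne ha1
      exact ⟨yy t⁻¹, lower_eq.2 ⟨_, rfl⟩, yy_ne_one (inv_ne_zero ht), conj_lo ht⟩
  refine ⟨⟨?_, hpair⟩, ⟨hpair, ?_⟩, comm_lower, comm_upper⟩
  · rw [sup_comm]; exact sl2_gen
  · intro a ha ha1 b hb hb1 h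
    obtain ⟨t, rfl⟩ := lower_eq.1 ha
    obtain ⟨s, rfl⟩ := upper_eq.1 hb
    have ht := yy_ne ha1
    have hs := xx_ne hb1
    have hst := sp ht hs h
    rw [xx_inv, yy_inv]
    have hs1 : s = t⁻¹ := by field_simp; exact hst
    subst hs1
    apply ext4 <;> simp [Matrix.mul_apply, Fin.sum_univ_two, ht]
    ring

end Cfsg.Agent.S5016
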