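import Cfsg.Agent.LibH14QD
import Cfsg.Agent.S5016

/-! Groups of transvection type inside an algebra (seat helper14). -/

set_option autoImplicit false

namespace CfsgLib.H14TG

open Cfsg CfsgLib.H14R1 CfsgLib.H14RS CfsgLib.H14QD

variable {F R G : Type*} [Field F] [Ring R] [Algebra F R] [Group G]

/-- the one-parameter group of `s` -/
def T (F : Type*) {R G : Type*} [Field F] [Ring R] [Algebra F R] [Group G] (ι : G →* R) (s : R) : Subgroup G :=
  Subgroup.closure {g | ∃ c : F, ι g = 1 + c • s}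

theorem opm {s : R} (hs : s * s = 0) (c d : F) : (1 + c • s) * (1 + d • s) = 1 + (c + d) • s := by
  rw [mul_add, add_mul, add_mul, smul_mul_smul_comm, hs]
  simp only [one_mul, mul_one, smul_zero, add_zero, add_smul]
  abel

theorem ginv {ι : G →* R} {s : R} (hs : s * s = 0) {g : G} {c : F} (h : ι g = 1 + c • s) : ι g⁻¹ = 1 + (-c) • s := by
  have h1 : ι g⁻¹ * ι g = 1 := by rw [← map_mul, inv_mul_cancel, map_one]
  calc ι g⁻¹ = ι g⁻¹ * ((1 + c • s) * (1 + (-c) • s)) := by rw [opm hs, add_neg_cancel, zero_smul, add_zero, mul_one]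
    _ = (ι g⁻¹ * ι g) * (1 + (-c) • s) := by rw [h, mul_assoc]
    _ = _ := by rw [h1, one_mul]

theorem mem_T {ι : G →* R} {s : R} (hs : s * s = 0) {g : G} : g ∈ T F ι s ↔ ∃ c : F, ι g = 1 + c • s := by
  constructor
  · intro hg
    unfold T at hg
    induction hg using Subgroup.closure_induction with
    | mem x hx => exact hx
    | one => exact ⟨0, by simp⟩
    | mul x y _ _ hx hy =>
      obtain ⟨c, hc⟩ := hx
      obtain ⟨d, hd⟩ := hy
      exact ⟨c + d, by rw [map_mul, hc, hd, opm hs]⟩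
    | inv x _ hx =>
      obtain ⟨c, hc⟩ := hx
      exact ⟨-c, ginv hs hc⟩
  · intro h
    exact Subgroup.subset_closure h

theorem T_comm {ι : G →* R} (hι : Function.Injective ι) {s : R} (hs : s * s = 0) : IsMulCommutative (T F ι s) := by
  apply comm_of_el
  intro x hx y hy
  obtain ⟨c, hc⟩ := (mem_T hs).1 hx
  obtain ⟨d, hd⟩ := (mem_T hs).1 hy
  apply hι
  rw [map_mul, map_mul, hc, hd, opm hs, opm hs, add_comm c d]

theorem inv_one {ι : G →* R} (g : G) : ι g * ι g⁻¹ = 1 := by rw [← map_mul, mul_inv_cancel, map_one]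
theorem inv_one' {ι : G →* R} (g : G) : ι g⁻¹ * ι g = 1 := by rw [← map_mul, inv_mul_cancel, map_one]

theorem cj_sq {ι : G →* R} {s : R} (hs : s * s = 0) (g : G) : (ι g * s * ι g⁻¹) * (ι g * s * ι g⁻¹) = 0 := by
  calc (ι g * s * ι g⁻¹) * (ι g * s * ι g⁻¹) = ι g * s * (ι g⁻¹ * ι g) * s * ι g⁻¹ := by simp only [mul_assoc]
    _ = ι g * (s * s) * ι g⁻¹ := by rw [inv_one', mul_one]; simp only [mul_assoc]
    _ = 0 := by rw [hs, mul_zero, zero_mul]

theorem T_conj {ι : G →* R} {s : R} (hs : s * s = 0) (g : G) : conjBy (T F ι s) g = T F ι (ι g * s * ι g⁻¹) := by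
  ext x
  rw [mem_cj, mem_T hs, mem_T (cj_sq hs g)]
  constructor
  · rintro ⟨c, hc⟩
    refine ⟨c, ?_⟩
    have : ι x = ι g * (ι (g⁻¹ * x * g)) * ι g⁻¹ := by
      rw [← map_mul, ← map_mul]; congr 1; group
    rw [this, hc, mul_add, add_mul, mul_one, inv_one, mul_smul_comm, smul_mul_assoc]
  · rintro ⟨c, hc⟩
    refine ⟨c, ?_⟩
    rw [map_mul, map_mul, hc, mul_add, add_mul, mul_one, inv_one', mul_smul_comm, smul_mul_assoc]
    congr 2
    calc ι g⁻¹ * (ι g * s * ι g⁻¹) * ι g = (ι g⁻¹ * ι g) * s * (ι g⁻¹ * ι g) := by simp only [mul_assoc]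
      _ = s := by rw [inv_one', one_mul, mul_one]

theorem T_smul {ι : G →* R} {s : R} {a : F} (ha : a ≠ 0) : T F ι (a • s) = T F ι s := by
  unfold T
  congr 1
  ext g
  constructor
  · rintro ⟨c, hc⟩
    exact ⟨c * a, by rw [hc, smul_smul]⟩
  · rintro ⟨c, hc⟩
    exact ⟨c * a⁻¹, by rw [hc, smul_smul, mul_assoc, inv_mul_cancel₀ ha, mul_one]⟩

theorem T_ne_bot {ι : G →* R} {s : R} (hs : s * s = 0) (h0 : s ≠ 0) (hl : ∃ g, ι g = 1 + (1 : F) • s) : T F ι s ≠ ⊥ := by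
  intro hb
  obtain ⟨g, hg⟩ := hl
  have h1 : g ∈ T F ι s := (mem_T hs).2 ⟨1, hg⟩
  rw [hb, Subgroup.mem_bot] at h1
  rw [h1, map_one, one_smul] at hg
  apply h0
  have := congrArg (fun z => z - 1) hg
  simpa using this.symm

theorem T_el {ι : G →* R} {s : R} (hs : s * s = 0) {g : G} (hg : g ∈ T F ι s) (h1 : g ≠ 1) (hι : Function.Injective ι) :
    ∃ c : F, c ≠ 0 ∧ ι g = 1 + c • s := by
  obtain ⟨c, hc⟩ := (mem_T hs).1 hg
  refine ⟨c, ?_, hc⟩
  rintro rfl
  apply h1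
  apply hι
  rw [hc, zero_smul, add_zero, map_one]

theorem T_commute {ι : G →* R} (hι : Function.Injective ι) {s t : R} (hs : s * s = 0) (ht : t * t = 0) (hst : s * t = t * s) :
    ⁅T F ι s, T F ι t⁆ = ⊥ := by
  rw [comm_iff]
  intro a ha b hb
  obtain ⟨c, hc⟩ := (mem_T hs).1 ha
  obtain ⟨d, hd⟩ := (mem_T ht).1 hb
  apply hι
  rw [map_mul, map_mul, hc, hd]
  simp only [mul_add, add_mul, one_mul, mul_one, smul_mul_smul_comm]
  rw [hst, mul_comm d c]
  abel

/-! ### the homomorphism from `SL₂` -/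

structure Op (s t : R) : Prop where
  ss : s * s = 0
  tt : t * t = 0
  sts : s * t * s = s
  tst : t * s * t = t

section act
variable {s t : R}

/-- the action of a `2 × 2` matrix -/
def ac (s t : R) (m : Matrix (Fin 2) (Fin 2) F) : R :=
  (1 - (s * t + t * s)) + m 0 0 • (s * t) + m 0 1 • s + m 1 0 • t + m 1 1 • (t * s)

theorem ac_one : ac s t (1 : Matrix (Fin 2) (Fin 2) F) = 1 := by
  unfold ac; simp; abel

theorem ac_mul (o : Op s t) (m n : Matrix (Fin 2) (Fin 2) F) : ac s t (m * n) = ac s t m * ac s t n := by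
  unfold ac
  have b1 : s * (t * s) = s := by rw [← mul_assoc, o.sts]
  have b2 : t * (s * t) = t := by rw [← mul_assoc, o.tst]
  have b3 : ∀ x, s * (t * (s * x)) = s * x := fun x => by rw [← mul_assoc, ← mul_assoc, o.sts]
  have b4 : ∀ x, t * (s * (t * x)) = t * x := fun x => by rw [← mul_assoc, ← mul_assoc, o.tst]
  have b5 : ∀ x, s * (s * x) = 0 := fun x => by rw [← mul_assoc, o.ss, zero_mul]
  have b6 : ∀ x, t * (t * x) = 0 := fun x => by rw [← mul_assoc, o.tt, zero_mul]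
  have b7 := o.ss
  have b8 := o.tt
  rw [Matrix.mul_apply, Matrix.mul_apply, Matrix.mul_apply, Matrix.mul_apply]
  simp only [Fin.sum_univ_two]
  simp only [mul_add, add_mul, mul_sub, sub_mul, mul_one, one_mul, smul_mul_assoc, mul_smul_comm, mul_assoc,
    b1, b2, b3, b4, b5, b6, b7, b8, mul_zero, smul_zero]
  module

theorem ac_x (e : F) : ac s t (xx e : Matrix (Fin 2) (Fin 2) F) = 1 + e • s := by
  unfold ac xx; simp; abel

theorem ac_y (e : F) : ac s t (yy e : Matrix (Fin 2) (Fin 2) F) = 1 + e • t := by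
  unfold ac yy; simp; abel

theorem ac_lift (o : Op s t) {ι : G →* R} (ls : ∀ c : F, ∃ g, ι g = 1 + c • s) (lt : ∀ c : F, ∃ g, ι g = 1 + c • t)
    (m : Matrix.SpecialLinearGroup (Fin 2) F) : ∃ g, ι g = ac s t m.1 := by
  let P : Subgroup (Matrix.SpecialLinearGroup (Fin 2) F) :=
    { carrier := {m | ∃ g, ι g = ac s t m.1}
      one_mem' := ⟨1, by rw [map_one, Matrix.SpecialLinearGroup.coe_one, ac_one]⟩
      mul_mem' := by
        rintro a b ⟨g, hg⟩ ⟨h, hh⟩
        exact ⟨g * h, by rw [map_mul, hg, hh, Matrix.SpecialLinearGroup.coe_mul, ac_mul o]⟩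
      inv_mem' := by
        rintro a ⟨g, hg⟩
        refine ⟨g⁻¹, ?_⟩
        have h1 : ac s t a.1 * ac s t (a⁻¹).1 = 1 := by
          rw [← ac_mul o, ← Matrix.SpecialLinearGroup.coe_mul, mul_inv_cancel, Matrix.SpecialLinearGroup.coe_one, ac_one]
        calc ι g⁻¹ = ι g⁻¹ * (ac s t a.1 * ac s t (a⁻¹).1) := by rw [h1, mul_one]
          _ = (ι g⁻¹ * ι g) * ac s t (a⁻¹).1 := by rw [hg, mul_assoc]
          _ = _ := by rw [inv_one', one_mul] }
  have h1 : upperUnipotentSL2 F ⊔ lowerUnipotentSL2 F ≤ P := by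
    apply sup_le
    · intro x hx
      obtain ⟨e, rfl⟩ := upper_eq.1 hx
      obtain ⟨g, hg⟩ := ls e
      exact ⟨g, by rw [hg, ac_x]⟩
    · intro x hx
      obtain ⟨e, rfl⟩ := lower_eq.1 hx
      obtain ⟨g, hg⟩ := lt e
      exact ⟨g, by rw [hg, ac_y]⟩
  rw [sl2_gen] at h1
  exact h1 (Subgroup.mem_top m)

theorem exists_hom (o : Op s t) {ι : G →* R} (hι : Function.Injective ι) (ls : ∀ c : F, ∃ g, ι g = 1 + c • s)
    (lt : ∀ c : F, ∃ g, ι g = 1 + c • t) : ∃ φ : Matrix.SpecialLinearGroup (Fin 2) F →* G, ∀ m, ι (φ m) = ac s t m.1 := by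
  choose f hf using ac_lift o ls lt
  exact ⟨{ toFun := f
           map_one' := hι (by rw [hf, Matrix.SpecialLinearGroup.coe_one, ac_one, map_one])
           map_mul' := fun a b => hι (by rw [hf, map_mul, hf, hf, Matrix.SpecialLinearGroup.coe_mul, ac_mul o]) }, hf⟩

theorem ac_inj (o : Op s t) (h0 : s ≠ 0) (m : Matrix.SpecialLinearGroup (Fin 2) F) (h : ac s t m.1 = 1) : m = 1 := by
  have ht0 : t ≠ 0 := by
    rintro rfl
    apply h0
    rw [← o.sts, mul_zero, zero_mul]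
  have b1 : s * (t * s) = s := by rw [← mul_assoc, o.sts]
  have b2 : t * (s * t) = t := by rw [← mul_assoc, o.tst]
  have b5 : ∀ x, s * (s * x) = 0 := fun x => by rw [← mul_assoc, o.ss, zero_mul]
  have b6 : ∀ x, t * (t * x) = 0 := fun x => by rw [← mul_assoc, o.tt, zero_mul]
  have b7 := o.ss
  have b8 := o.tt
  have e1 : s * ac s t m.1 * s = m.1 1 0 • s := by
    unfold ac
    simp only [mul_add, add_mul, mul_sub, sub_mul, mul_one, one_mul, smul_mul_assoc, mul_smul_comm, mul_assoc,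
      b1, b2, b5, b6, b7, b8, mul_zero, smul_zero]
    simp
  have e2 : t * ac s t m.1 * t = m.1 0 1 • t := by
    unfold ac
    simp only [mul_add, add_mul, mul_sub, sub_mul, mul_one, one_mul, smul_mul_assoc, mul_smul_comm, mul_assoc,
      b1, b2, b5, b6, b7, b8, mul_zero, smul_zero]
    simp
  rw [h, mul_one] at e1 e2
  have hc : m.1 1 0 = 0 := by
    rw [b7] at e1
    rcases smul_eq_zero.1 e1.symm with h | h
    · exact h
    · exact absurd h h0
  have hb : m.1 0 1 = 0 := by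
    rw [b8] at e2
    rcases smul_eq_zero.1 e2.symm with h | h
    · exact h
    · exact absurd h ht0
  have e3 : ac s t m.1 * s = m.1 0 0 • s + m.1 1 0 • (t * s) := by
    unfold ac
    simp only [mul_add, add_mul, mul_sub, sub_mul, mul_one, one_mul, smul_mul_assoc, mul_smul_comm, mul_assoc,
      b1, b2, b5, b6, b7, b8, mul_zero, smul_zero]
    simp
  rw [h, one_mul, hc, zero_smul, add_zero] at e3
  have ha : m.1 0 0 = 1 := by
    have : (1 - m.1 0 0) • s = 0 := by rw [sub_smul, one_smul, ← e3, sub_self]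
    rcases smul_eq_zero.1 this with h | h
    · exact (sub_eq_zero.1 h).symm
    · exact absurd h h0
  have hdet := m.2
  rw [Matrix.det_fin_two, ha, hb, one_mul, zero_mul, sub_zero] at hdet
  ext i j
  fin_cases i <;> fin_cases j <;> simp [ha, hb, hc, hdet]

theorem psl2 (o : Op s t) (h0 : s ≠ 0) {ι : G →* R} (hι : Function.Injective ι) (ls : ∀ c : F, ∃ g, ι g = 1 + c • s)
    (lt : ∀ c : F, ∃ g, ι g = 1 + c • t) : IsPSL2PairOver F (T F ι s) (T F ι t) := by
  obtain ⟨φ, hφ⟩ := exists_hom o hι ls lt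
  have h1 : (upperUnipotentSL2 F).map φ = T F ι s := by
    ext g
    rw [mem_T o.ss]
    constructor
    · rintro ⟨x, hx, rfl⟩
      obtain ⟨e, rfl⟩ := upper_eq.1 hx
      exact ⟨e, by rw [hφ, ac_x]⟩
    · rintro ⟨c, hc⟩
      exact ⟨xx c, upper_eq.2 ⟨c, rfl⟩, hι (by rw [hφ, ac_x, hc])⟩
  have h2 : (lowerUnipotentSL2 F).map φ = T F ι t := by
    ext g
    rw [mem_T o.tt]
    constructor
    · rintro ⟨x, hx, rfl⟩
      obtain ⟨e, rfl⟩ := lower_eq.1 hx
      exact ⟨e, by rw [hφ, ac_y]⟩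
    · rintro ⟨c, hc⟩
      exact ⟨yy c, lower_eq.2 ⟨c, rfl⟩, hι (by rw [hφ, ac_y, hc])⟩
  refine ⟨φ, ?_, ?_, h1, h2⟩
  · rw [← h1, ← h2, ← Subgroup.map_sup, sl2_gen, ← MonoidHom.range_eq_map]
  · intro m hm
    rw [MonoidHom.mem_ker] at hm
    have : ac s t m.1 = 1 := by rw [← hφ, hm, map_one]
    rw [ac_inj o h0 m this]
    exact one_mem _

end act

theorem map_cj {H : Type*} [Group H] (φ : G →* H) (A : Subgroup G) (g : G) : (conjBy A g).map φ = conjBy (A.map φ) (φ g) := by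
  show Subgroup.map φ (Subgroup.map (MulAut.conj g).toMonoidHom A) = Subgroup.map (MulAut.conj (φ g)).toMonoidHom (Subgroup.map φ A)
  rw [Subgroup.map_map A, Subgroup.map_map A]
  congr 1
  ext x
  simp

theorem cj_map_inv {H : Type*} [Group H] (φ : G →* H) {A B : Subgroup G} {a b : G} (h : conjBy A b⁻¹ = conjBy B a⁻¹) :
    conjBy (A.map φ) (φ b)⁻¹ = conjBy (B.map φ) (φ a)⁻¹ := by
  rw [← map_inv, ← map_inv, ← map_cj, ← map_cj, h]

theorem pair_of_psl2 {A B : Subgroup G} (h : IsPSL2PairOver F A B) : IsRankOnePair A B := by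
  obtain ⟨φ, -, hk, rfl, rfl⟩ := h
  obtain ⟨⟨-, hp⟩, -, hc1, hc2⟩ := Cfsg.Agent.S5016.result F
  have hcen : ∀ z ∈ φ.ker, ∀ x, z * x = x * z := fun z hz x => (Subgroup.mem_center_iff.1 (hk hz) x).symm
  have c1 : IsMulCommutative ((upperUnipotentSL2 F).map φ) := by
    apply comm_of_el
    rintro _ ⟨x, hx, rfl⟩ _ ⟨y, hy, rfl⟩
    rw [← map_mul, ← map_mul, el_comm hc2 x hx y hy]
  have c2 : IsMulCommutative ((lowerUnipotentSL2 F).map φ) := by
    apply comm_of_el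
    rintro _ ⟨x, hx, rfl⟩ _ ⟨y, hy, rfl⟩
    rw [← map_mul, ← map_mul, el_comm hc1 x hx y hy]
  refine ⟨?_, nil_comm c1, nil_comm c2, ?_, ?_⟩
  · intro he
    have h1 : φ (xx 1) ∈ (lowerUnipotentSL2 F).map φ := by rw [← he]; exact ⟨_, upper_eq.2 ⟨1, rfl⟩, rfl⟩
    obtain ⟨y, hy, hye⟩ := h1
    obtain ⟨e, rfl⟩ := lower_eq.1 hy
    have h2 : xx 1 * (yy e)⁻¹ ∈ φ.ker := by rw [MonoidHom.mem_ker, map_mul, map_inv, hye, mul_inv_cancel]
    have h3 := hcen _ h2 (yy 1)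
    have h4 : yy (1 : F) * yy e = yy e * yy 1 := by rw [yy_mul, yy_mul, add_comm]
    have h5 : xx (1 : F) * yy 1 = yy 1 * xx 1 := by
      calc xx (1 : F) * yy 1 = xx 1 * (yy e)⁻¹ * (yy e * yy 1) := by group
        _ = xx 1 * (yy e)⁻¹ * yy 1 * yy e := by rw [← h4]; group
        _ = yy 1 * (xx 1 * (yy e)⁻¹) * yy e := by rw [h3]
        _ = _ := by group
    have h6 := congrArg (fun g : Matrix.SpecialLinearGroup (Fin 2) F => (g : Matrix (Fin 2) (Fin 2) F) 0 0) h5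
    simp [Matrix.mul_apply, Fin.sum_univ_two] at h6
  · rintro _ ⟨x, hx, rfl⟩ h1
    have hx1 : x ≠ 1 := by rintro rfl; exact h1 (map_one _)
    obtain ⟨b, hb, hb1, hcj⟩ := hp.cond_right x hx hx1
    refine ⟨φ b, ⟨b, hb, rfl⟩, ?_, cj_map_inv φ hcj⟩
    intro hb2
    obtain ⟨e, rfl⟩ := lower_eq.1 hb
    have h3 := hcen (yy e) hb2 (xx 1)
    have h6 := congrArg (fun g : Matrix.SpecialLinearGroup (Fin 2) F => (g : Matrix (Fin 2) (Fin 2) F) 0 0) h3
    simp [Matrix.mul_apply, Fin.sum_univ_two] at h6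
    rw [h6] at hb1
    exact hb1 yy_zero
  · rintro _ ⟨x, hx, rfl⟩ h1
    have hx1 : x ≠ 1 := by rintro rfl; exact h1 (map_one _)
    obtain ⟨b, hb, hb1, hcj⟩ := hp.cond_left x hx hx1
    refine ⟨φ b, ⟨b, hb, rfl⟩, ?_, cj_map_inv φ hcj⟩
    intro hb2
    obtain ⟨e, rfl⟩ := upper_eq.1 hb
    have h3 := hcen (xx e) hb2 (yy 1)
    have h6 := congrArg (fun g : Matrix.SpecialLinearGroup (Fin 2) F => (g : Matrix (Fin 2) (Fin 2) F) 0 0) h3
    simp [Matrix.mul_apply, Fin.sum_univ_two] at h6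
    rw [h6] at hb1
    exact hb1 xx_zero

/-- the relation giving rank one pairs -/
def Rel (F : Type*) {R : Type*} [Field F] [Ring R] [Algebra F R] (s t : R) : Prop :=
  ∃ a : F, a ≠ 0 ∧ s * t * s = a • s ∧ t * s * t = a • t

theorem psl2' {s t : R} (hs : s * s = 0) (ht : t * t = 0) (h : Rel F s t) (h0 : s ≠ 0) {ι : G →* R}
    (hι : Function.Injective ι) (ls : ∀ c : F, ∃ g, ι g = 1 + c • s)
    (lt : ∀ c : F, ∃ g, ι g = 1 + c • t) : IsPSL2PairOver F (T F ι s) (T F ι t) := by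
  obtain ⟨a, ha, h1, h2⟩ := h
  rw [← T_smul (s := t) (inv_ne_zero ha)]
  apply psl2 _ h0 hι ls
  · intro c
    obtain ⟨g, hg⟩ := lt (c * a⁻¹)
    exact ⟨g, by rw [hg, smul_smul]⟩
  · refine ⟨hs, ?_, ?_, ?_⟩
    · rw [smul_mul_smul_comm, ht, smul_zero]
    · rw [mul_smul_comm, smul_mul_assoc, h1, smul_smul, inv_mul_cancel₀ ha, one_smul]
    · rw [mul_smul_comm, smul_mul_assoc, smul_mul_assoc, h2, smul_smul, smul_smul]
      rw [mul_assoc, inv_mul_cancel₀ ha, mul_one]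

/-! ### commutators -/

theorem comm_id {s t : R} (hs : s * s = 0) (ht : t * t = 0) (h1 : s * t * s = 0) (h2 : t * s * t = 0) :
    (1 + s) * (1 + t) * (1 - s) * (1 - t) = 1 + (s * t - t * s) := by
  have e : (1 + s) * (1 + t) * (1 - s) * (1 - t) = 1 + (s * t - t * s) - s * s + s * s * t - t * t + t * s * t - s * t * s
      - s * (t * t) + s * t * s * t := by noncomm_ring
  rw [e, hs, ht, h1, h2]
  simp

theorem comm_el {ι : G →* R} {s t : R} (hs : s * s = 0) (ht : t * t = 0) (h1 : s * t * s = 0) (h2 : t * s * t = 0)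
    {g h : G} {a b : F} (hg : ι g = 1 + a • s) (hh : ι h = 1 + b • t) : ι (g * h * g⁻¹ * h⁻¹) = 1 + (a * b) • (s * t - t * s) := by
  rw [map_mul, map_mul, map_mul, hg, hh, ginv hs hg, ginv ht hh, neg_smul, neg_smul, ← sub_eq_add_neg, ← sub_eq_add_neg,
    comm_id (s := a • s) (t := b • t)]
  · rw [smul_mul_smul_comm, smul_mul_smul_comm, mul_comm b a, smul_sub]
  · rw [smul_mul_smul_comm, hs, smul_zero]
  · rw [smul_mul_smul_comm, ht, smul_zero]
  · rw [smul_mul_smul_comm, smul_mul_smul_comm, h1, smul_zero]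
  · rw [smul_mul_smul_comm, smul_mul_smul_comm, h2, smul_zero]

theorem uu {s t : R} (hs : s * s = 0) (ht : t * t = 0) (h1 : s * t * s = 0) (h2 : t * s * t = 0) :
    (s * t - t * s) * (s * t - t * s) = 0 := by
  have e : (s * t - t * s) * (s * t - t * s) = s * t * s * t - s * (t * t) * s - t * (s * s) * t + t * s * t * s := by noncomm_ring
  rw [e, h1, h2, hs, ht]; simp

theorem rcc {ι : G →* R} (hι : Function.Injective ι) {s t : R} (hs : s * s = 0) (ht : t * t = 0) (h1 : s * t * s = 0)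
    (h2 : t * s * t = 0) (ls : ∀ c : F, ∃ g, ι g = 1 + c • s) (lt : ∀ c : F, ∃ g, ι g = 1 + c • t) {S : Set (Subgroup G)}
    (hS : T F ι (s * t - t * s) ∈ S) : RootCommutatorCase S (T F ι s) (T F ι t) := by
  have hu := uu hs ht h1 h2
  have hle : ⁅T F ι s, T F ι t⁆ ≤ T F ι (s * t - t * s) := by
    rw [Subgroup.commutator_le]
    intro x hx y hy
    obtain ⟨c, hc⟩ := (mem_T hs).1 hx
    obtain ⟨d, hd⟩ := (mem_T ht).1 hy
    rw [commutatorElement_def]
    exact (mem_T hu).2 ⟨c * d, comm_el hs ht h1 h2 hc hd⟩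
  have hge : T F ι (s * t - t * s) ≤ ⁅T F ι s, T F ι t⁆ := by
    intro x hx
    obtain ⟨e, he⟩ := (mem_T hu).1 hx
    obtain ⟨g, hg⟩ := ls e
    obtain ⟨h, hh⟩ := lt 1
    have : x = g * h * g⁻¹ * h⁻¹ := hι (by rw [comm_el hs ht h1 h2 hg hh, he, mul_one])
    rw [this, ← commutatorElement_def]
    exact Subgroup.commutator_mem_commutator ((mem_T hs).2 ⟨e, hg⟩) ((mem_T ht).2 ⟨1, hh⟩)
  have heq := le_antisymm hle hge
  have z1 : (s * t - t * s) * s = s * (s * t - t * s) := by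
    have e : (s * t - t * s) * s - s * (s * t - t * s) = s * t * s + s * t * s - t * (s * s) - (s * s) * t := by noncomm_ring
    rw [← sub_eq_zero, e, h1, hs]; simp
  have z2 : (s * t - t * s) * t = t * (s * t - t * s) := by
    have e : (s * t - t * s) * t - t * (s * t - t * s) = s * (t * t) - t * s * t - t * s * t + (t * t) * s := by noncomm_ring
    rw [← sub_eq_zero, e, h2, ht]; simp
  refine ⟨by rw [heq]; exact hS, ?_, ?_, ?_⟩
  · intro c hc x hx
    rw [heq] at hc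
    have c1 : ∀ y ∈ T F ι s, c * y = y * c := fun y hy => comm_iff.1 (T_commute (F := F) hι hu hs z1) c hc y hy
    have c2 : ∀ y ∈ T F ι t, c * y = y * c := fun y hy => comm_iff.1 (T_commute (F := F) hι hu ht z2) c hc y hy
    have : T F ι s ⊔ T F ι t ≤ Subgroup.centralizer {c} := by
      apply sup_le
      · intro y hy; rw [Subgroup.mem_centralizer_singleton_iff]; exact (c1 y hy).symm
      · intro y hy; rw [Subgroup.mem_centralizer_singleton_iff]; exact (c2 y hy).symm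
    have h3 := this hx
    rw [Subgroup.mem_centralizer_singleton_iff] at h3
    exact h3.symm
  · intro a ha ha1
    apply le_antisymm
    · rw [Subgroup.closure_le]
      rintro _ ⟨b, hb, rfl⟩
      exact Subgroup.commutator_mem_commutator ha hb
    · rw [heq]
      intro x hx
      obtain ⟨e, he⟩ := (mem_T hu).1 hx
      obtain ⟨c, hc0, hc⟩ := T_el hs ha ha1 hι
      obtain ⟨h, hh⟩ := lt (c⁻¹ * e)
      apply Subgroup.subset_closure
      refine ⟨h, (mem_T ht).2 ⟨_, hh⟩, ?_⟩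
      apply hι
      rw [comm_el hs ht h1 h2 hc hh, he, ← mul_assoc, mul_inv_cancel₀ hc0, one_mul]
  · intro b hb hb1
    apply le_antisymm
    · rw [Subgroup.closure_le]
      rintro _ ⟨a, ha, rfl⟩
      exact Subgroup.commutator_mem_commutator ha hb
    · rw [heq]
      intro x hx
      obtain ⟨e, he⟩ := (mem_T hu).1 hx
      obtain ⟨c, hc0, hc⟩ := T_el ht hb hb1 hι
      obtain ⟨g, hg⟩ := ls (e * c⁻¹)
      apply Subgroup.subset_closure
      refine ⟨g, (mem_T hs).2 ⟨_, hg⟩, ?_⟩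
      apply hι
      rw [comm_el hs ht h1 h2 hg hc, he, mul_assoc, inv_mul_cancel₀ hc0, mul_one]

/-! ### the criterion -/

structure RSet (F : Type*) {R G : Type*} [Field F] [Ring R] [Algebra F R] [Group G] (ι : G →* R) (Q : Set R) : Prop where
  inj : Function.Injective ι
  sq : ∀ s ∈ Q, s * s = 0
  ne : ∀ s ∈ Q, s ≠ 0
  lift : ∀ s ∈ Q, ∀ c : F, ∃ g, ι g = 1 + c • s
  conj : ∀ s ∈ Q, ∀ g, ι g * s * ι g⁻¹ ∈ Q
  pair : ∀ s ∈ Q, ∀ t ∈ Q, s * t = t * s ∨ Rel F s t ∨ (s * t * s = 0 ∧ t * s * t = 0 ∧ s * t - t * s ∈ Q)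

section crit
variable {ι : G →* R} {Q : Set R}

theorem RSet.rel_pair (h : RSet F ι Q) {s t : R} (hs : s ∈ Q) (ht : t ∈ Q) (hr : Rel F s t) : IsPSL2PairOver F (T F ι s) (T F ι t) :=
  psl2' (h.sq s hs) (h.sq t ht) hr (h.ne s hs) h.inj (h.lift s hs) (h.lift t ht)

/-- the set of root groups -/
def SS (F : Type*) {R G : Type*} [Field F] [Ring R] [Algebra F R] [Group G] (ι : G →* R) (Q : Set R) : Set (Subgroup G) :=
  {A | ∃ s ∈ Q, A = T F ι s}

theorem RSet.root (h : RSet F ι Q) (hgen : (⨆ A ∈ SS F ι Q, A) = ⊤) : IsRootSubgroupSet (SS F ι Q) where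
  commutative := by rintro _ ⟨s, hs, rfl⟩; exact T_comm h.inj (h.sq s hs)
  ne_bot := by rintro _ ⟨s, hs, rfl⟩; exact T_ne_bot (h.sq s hs) (h.ne s hs) (h.lift s hs 1)
  generates := hgen
  conj_mem := by
    rintro _ ⟨s, hs, rfl⟩ g
    exact ⟨_, h.conj s hs g, T_conj (h.sq s hs) g⟩
  pair := by
    rintro _ ⟨s, hs, rfl⟩ _ ⟨t, ht, rfl⟩
    rcases h.pair s hs t ht with h1 | h1 | ⟨h1, h2, h3⟩
    · left; exact T_commute h.inj (h.sq s hs) (h.sq t ht) h1
    · right; left; exact pair_of_psl2 (h.rel_pair hs ht h1)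
    · right; right
      exact rcc h.inj (h.sq s hs) (h.sq t ht) h1 h2 (h.lift s hs) (h.lift t ht) ⟨_, h3, rfl⟩

theorem RSet.kroot (h : RSet F ι Q) (hgen : (⨆ A ∈ SS F ι Q, A) = ⊤) : IsKRootSubgroupSet F (SS F ι Q) := by
  have hr := h.root hgen
  refine ⟨hr, ?_⟩
  rintro _ ⟨s, hs, rfl⟩ _ ⟨t, ht, rfl⟩ hp
  rcases h.pair s hs t ht with h1 | h1 | ⟨h1, h2, h3⟩
  · exact (not_comm hp (T_commute h.inj (h.sq s hs) (h.sq t ht) h1)).elim
  · exact h.rel_pair hs ht h1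
  · exact (rcc_not_pair hr ⟨s, hs, rfl⟩ ⟨t, ht, rfl⟩
      (rcc h.inj (h.sq s hs) (h.sq t ht) h1 h2 (h.lift s hs) (h.lift t ht) ⟨_, h3, rfl⟩) hp).elim

theorem RSet.degen (h : RSet F ι Q) (hgen : (⨆ A ∈ SS F ι Q, A) = ⊤) (hd : ∀ s ∈ Q, ∀ t ∈ Q, s * t = t * s ∨ Rel F s t) :
    IsDegenerateRootSet (SS F ι Q) := by
  have hr := h.root hgen
  rintro _ ⟨s, hs, rfl⟩ _ ⟨t, ht, rfl⟩ hc
  rcases hd s hs t ht with h1 | h1
  · exact rcc_not_comm hr hc (T_commute h.inj (h.sq s hs) (h.sq t ht) h1)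
  · exact rcc_not_pair hr ⟨s, hs, rfl⟩ ⟨t, ht, rfl⟩ hc (pair_of_psl2 (h.rel_pair hs ht h1))

theorem RSet.conn (h : RSet F ι Q) (hc : ∀ s ∈ Q, ∀ t ∈ Q, Relation.ReflTransGen (fun x y => x ∈ Q ∧ y ∈ Q ∧ Rel F x y) s t) :
    IsConnectedFamily (FAdj (SS F ι Q)) (SS F ι Q) := by
  rintro _ ⟨s, hs, rfl⟩ _ ⟨t, ht, rfl⟩
  have := hc s hs t ht
  induction this with
  | refl => exact Relation.ReflTransGen.refl
  | tail _ hbc ih =>
    obtain ⟨hb, hcc, hr⟩ := hbc
    exact (ih hb).tail ⟨⟨_, hb, rfl⟩, ⟨_, hcc, rfl⟩, pair_of_psl2 (h.rel_pair hb hcc hr)⟩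

theorem class_of_conn {S : Set (Subgroup G)} (hne : S.Nonempty) (hc : IsConnectedFamily (FAdj S) S) : IsConjClassOfSubgroups S := by
  refine ⟨hne, fun A hA B hB => ?_⟩
  have := hc A hA B hB
  induction this with
  | refl => exact ⟨1, by simp⟩
  | tail _ hbc ih =>
    obtain ⟨h1, h2, h3⟩ := hbc
    obtain ⟨g, hg⟩ := ih h1
    obtain ⟨x, _, hx⟩ := exists_swap h3
    exact ⟨x * g, by rw [hx, hg, cj_cj]⟩

end crit

end CfsgLib.H14TG
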