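import Cfsg.Agent.LibH14TG

/-! Root involutions from groups of transvection type in characteristic two (seat helper14). -/

set_option autoImplicit false

namespace CfsgLib.H14TG

open Cfsg CfsgLib.H14R1 CfsgLib.H14RS CfsgLib.H14QD

section sl2
variable {F : Type*} [Field F]

theorem two0 [CharP F 2] : (2 : F) = 0 := by
  have := CharP.cast_eq_zero F 2
  simpa using this

theorem yy_sq [CharP F 2] (α : F) : ((xx 1 * yy α : Matrix.SpecialLinearGroup (Fin 2) F) : Matrix (Fin 2) (Fin 2) F) *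
    ((xx 1 * yy α : Matrix.SpecialLinearGroup (Fin 2) F) : Matrix (Fin 2) (Fin 2) F) =
    α • ((xx 1 * yy α : Matrix.SpecialLinearGroup (Fin 2) F) : Matrix (Fin 2) (Fin 2) F) + 1 := by
  have h2 := two0 (F := F)
  ext i j
  fin_cases i <;> fin_cases j <;> simp [Matrix.mul_apply, Fin.sum_univ_two]
  · linear_combination (α) * h2
  · linear_combination h2
  · linear_combination (α) * h2

theorem pow_form [CharP F 2] (α : F) (n : ℕ) : ∃ a b : F,
    (((xx 1 * yy α : Matrix.SpecialLinearGroup (Fin 2) F) ^ n : Matrix.SpecialLinearGroup (Fin 2) F) : Matrix (Fin 2) (Fin 2) F) =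
      a • 1 + b • ((xx 1 * yy α : Matrix.SpecialLinearGroup (Fin 2) F) : Matrix (Fin 2) (Fin 2) F) := by
  induction n with
  | zero => exact ⟨1, 0, by simp⟩
  | succ n ih =>
    obtain ⟨a, b, h⟩ := ih
    refine ⟨b, a + b * α, ?_⟩
    rw [pow_succ, Matrix.SpecialLinearGroup.coe_mul, h, add_mul, smul_mul_assoc, smul_mul_assoc, one_mul, yy_sq]
    module

theorem odd_sl2 [Finite F] [CharP F 2] {α : F} (hα : α ≠ 0) :
    Odd (orderOf (xx 1 * yy α : Matrix.SpecialLinearGroup (Fin 2) F)) := by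
  by_contra hodd
  rw [Nat.not_odd_iff_even] at hodd
  obtain ⟨m, hm⟩ := hodd
  set y : Matrix.SpecialLinearGroup (Fin 2) F := xx 1 * yy α with hy
  have hpos : 0 < orderOf y := orderOf_pos y
  have hz1 : y ^ m ≠ 1 := by
    intro h
    have := Nat.le_of_dvd (by omega) (orderOf_dvd_of_pow_eq_one h)
    omega
  have hz2 : y ^ m * y ^ m = 1 := by rw [← pow_add, ← hm, pow_orderOf_eq_one]
  obtain ⟨a, b, hab⟩ := pow_form α m
  rw [← hy] at hab
  have h2 := two0 (F := F)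
  have h3 : ((y ^ m : Matrix.SpecialLinearGroup (Fin 2) F) : Matrix (Fin 2) (Fin 2) F) *
    ((y ^ m : Matrix.SpecialLinearGroup (Fin 2) F) : Matrix (Fin 2) (Fin 2) F) = 1 := by
    rw [← Matrix.SpecialLinearGroup.coe_mul, hz2, Matrix.SpecialLinearGroup.coe_one]
  rw [hab] at h3
  have h4 : (a • (1 : Matrix (Fin 2) (Fin 2) F) + b • (y : Matrix (Fin 2) (Fin 2) F)) * (a • 1 + b • (y : Matrix (Fin 2) (Fin 2) F)) =
      (a * a + b * b) • 1 + (2 * a * b + b * b * α) • (y : Matrix (Fin 2) (Fin 2) F) := by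
    rw [add_mul, mul_add, mul_add, smul_mul_smul_comm, smul_mul_smul_comm, smul_mul_smul_comm, smul_mul_smul_comm, one_mul, mul_one,
      one_mul, yy_sq α]
    module
  rw [h4, h2] at h3
  have h5 := congrFun (congrFun h3 0) 1
  have hy01 : (y : Matrix (Fin 2) (Fin 2) F) 0 1 = 1 := by
    rw [hy]; simp [Matrix.mul_apply, Fin.sum_univ_two]
  simp [hy01] at h5
  have hb : b = 0 := by
    rcases h5 with h | h
    · exact h
    · exact absurd h hα
  have h6 := congrFun (congrFun h3 0) 0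
  simp [hb] at h6
  have ha : a = 1 := by
    have : (a - 1) * (a - 1) = 0 := by linear_combination h6 + (1 - a) * h2
    exact sub_eq_zero.1 (mul_self_eq_zero.1 this)
  apply hz1
  apply Subtype.ext
  rw [hab, hb, ha, one_smul, zero_smul, add_zero]
  rfl

theorem cube_sl2 [CharP F 2] : (xx 1 * yy 1 : Matrix.SpecialLinearGroup (Fin 2) F) ^ 3 = 1 := by
  have h2 := two0 (F := F)
  apply Subtype.ext
  rw [pow_succ, pow_two, Matrix.SpecialLinearGroup.coe_mul, Matrix.SpecialLinearGroup.coe_mul, yy_sq, one_smul, add_mul, yy_sq, one_mul, one_smul]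
  ext i j
  fin_cases i <;> fin_cases j <;> simp [Matrix.mul_apply, Fin.sum_univ_two]
  · linear_combination (2 : F) * h2
  · linear_combination h2
  · linear_combination h2
  · linear_combination h2

end sl2

section dihedral
variable {G : Type*} [Group G]

theorem conj_of_odd {g h : G} (hg : g * g = 1) (hh : h * h = 1) (ho : Odd (orderOf (g * h))) : ∃ x, h = x * g * x⁻¹ := by
  obtain ⟨k, hk⟩ := ho
  have h1 : (g * h) ^ (2 * k + 1) = 1 := by rw [← hk, pow_orderOf_eq_one]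
  have hgi : g⁻¹ = g := inv_eq_of_mul_eq_one_left hg
  have hhi : h⁻¹ = h := inv_eq_of_mul_eq_one_left hh
  have h2 : g * (g * h) * g⁻¹ = (g * h)⁻¹ := by rw [mul_inv_rev, hgi, hhi, ← mul_assoc, hg, one_mul]
  have h3 : ∀ n : ℕ, g * (g * h) ^ n * g⁻¹ = ((g * h) ^ n)⁻¹ := by
    intro n
    rw [← inv_pow, ← h2, conj_pow]
  refine ⟨(g * h) ^ k, ?_⟩
  have h4 : g * ((g * h) ^ k)⁻¹ = (g * h) ^ k * g := by
    have := h3 k
    calc g * ((g * h) ^ k)⁻¹ = g * (g * (g * h) ^ k * g⁻¹) := by rw [this]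
      _ = (g * g) * (g * h) ^ k * g⁻¹ := by group
      _ = _ := by rw [hg, one_mul, hgi]
  rw [mul_assoc, h4, ← mul_assoc, ← pow_add]
  have h5 : (g * h) ^ (k + k) = (g * h)⁻¹ := by
    rw [eq_inv_iff_mul_eq_one, ← pow_succ, ← two_mul, h1]
  rw [h5, mul_inv_rev, hgi, hhi, mul_assoc, hg, mul_one]

theorem comm_of_two {g h : G} (hg : g * g = 1) (hh : h * h = 1) (hc : g * h = h * g) : (g * h) ^ 2 = 1 := by
  rw [pow_two]
  calc g * h * (g * h) = g * (h * g) * h := by group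
    _ = (g * g) * (h * h) := by rw [← hc]; group
    _ = 1 := by rw [hg, hh, one_mul]

end dihedral

/-- the elements `1 + s` -/
def DD {R G : Type*} [Ring R] [Group G] (ι : G →* R) (Q : Set R) : Set G := {g | ∃ s ∈ Q, ι g = 1 + s}

section inv
variable {F R G : Type*} [Field F] [Ring R] [Algebra F R] [Group G] {ι : G →* R} {Q : Set R}

theorem char2R [CharP F 2] (s : R) : s + s = 0 := by
  have h2 := two0 (F := F)
  have : s + s = (2 : F) • s := by rw [two_smul]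
  rw [this, h2, zero_smul]

theorem RSet.sq1 [CharP F 2] (h : RSet F ι Q) {g : G} (hg : g ∈ DD ι Q) : g * g = 1 := by
  obtain ⟨s, hs, e⟩ := hg
  apply h.inj
  rw [map_mul, e, map_one]
  have : (1 + s) * (1 + s) = 1 + (s + s) + s * s := by noncomm_ring
  rw [this, char2R (F := F), h.sq s hs]; simp

theorem RSet.ne1 (h : RSet F ι Q) {g : G} (hg : g ∈ DD ι Q) : g ≠ 1 := by
  obtain ⟨s, hs, e⟩ := hg
  rintro rfl
  rw [map_one] at e
  apply h.ne s hs
  have := congrArg (fun z => z - 1) e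
  simpa using this.symm

theorem RSet.ord2 [CharP F 2] (h : RSet F ι Q) {g : G} (hg : g ∈ DD ι Q) : orderOf g = 2 :=
  orderOf_eq_prime (by rw [pow_two]; exact h.sq1 hg) (h.ne1 hg)

theorem RSet.hom_pair (h : RSet F ι Q) {g k : G} {s t : R} (hs : s ∈ Q) (ht : t ∈ Q) (hg : ι g = 1 + s) (hk : ι k = 1 + t)
    {a : F} (ha : a ≠ 0) (h1 : s * t * s = a • s) (h2 : t * s * t = a • t) :
    ∃ φ : Matrix.SpecialLinearGroup (Fin 2) F →* G, φ (xx 1 * yy a) = g * k := by
  have o : Op s (a⁻¹ • t) := by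
    refine ⟨h.sq s hs, ?_, ?_, ?_⟩
    · rw [smul_mul_smul_comm, h.sq t ht, smul_zero]
    · rw [mul_smul_comm, smul_mul_assoc, h1, smul_smul, inv_mul_cancel₀ ha, one_smul]
    · rw [mul_smul_comm, smul_mul_assoc, smul_mul_assoc, h2, smul_smul, smul_smul]
      rw [mul_assoc, inv_mul_cancel₀ ha, mul_one]
  obtain ⟨φ, hφ⟩ := exists_hom o h.inj (h.lift s hs) (fun c => by
    obtain ⟨x, hx⟩ := h.lift t ht (c * a⁻¹)
    exact ⟨x, by rw [hx, smul_smul]⟩)
  refine ⟨φ, ?_⟩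
  apply h.inj
  rw [map_mul, map_mul, map_mul, hφ, hφ, ac_x, ac_y, hg, hk, one_smul, smul_smul, mul_inv_cancel₀ ha, one_smul]

theorem RSet.odd [CharP F 2] [Finite F] (h : RSet F ι Q) {g k : G} {s t : R} (hs : s ∈ Q) (ht : t ∈ Q) (hg : ι g = 1 + s) (hk : ι k = 1 + t)
    (hr : Rel F s t) : Odd (orderOf (g * k)) := by
  obtain ⟨a, ha, h1, h2⟩ := hr
  obtain ⟨φ, hφ⟩ := h.hom_pair hs ht hg hk ha h1 h2
  rw [← hφ]
  exact Odd.of_dvd_nat (odd_sl2 ha) (orderOf_map_dvd φ _)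

theorem RSet.four [CharP F 2] (h : RSet F ι Q) {g k : G} {s t : R} (hs : s ∈ Q) (ht : t ∈ Q) (hg : ι g = 1 + s) (hk : ι k = 1 + t)
    (h1 : s * t * s = 0) (h2 : t * s * t = 0) (h3 : s * t - t * s ∈ Q) : orderOf (g * k) = 4 ∧ (g * k) ^ 2 ∈ DD ι Q := by
  have e1 : (g * k) ^ 2 = g * k * g⁻¹ * k⁻¹ := by
    have hgi : g⁻¹ = g := inv_eq_of_mul_eq_one_left (h.sq1 ⟨s, hs, hg⟩)
    have hki : k⁻¹ = k := inv_eq_of_mul_eq_one_left (h.sq1 ⟨t, ht, hk⟩)
    rw [hgi, hki, pow_two, mul_assoc (g * k)]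
  have e2 : ι ((g * k) ^ 2) = 1 + (s * t - t * s) := by
    have := comm_el (F := F) (h.sq s hs) (h.sq t ht) h1 h2 (a := 1) (b := 1) (by rw [hg, one_smul]) (by rw [hk, one_smul])
    rw [e1, this, mul_one, one_smul]
  have hm : (g * k) ^ 2 ∈ DD ι Q := ⟨_, h3, e2⟩
  refine ⟨?_, hm⟩
  have h4 : ((g * k) ^ 2) ^ 2 = 1 := by rw [pow_two]; exact h.sq1 hm
  haveI : Fact (Nat.Prime 2) := ⟨Nat.prime_two⟩
  have := orderOf_eq_prime_pow (x := g * k) (p := 2) (n := 1) (by simpa using h.ne1 hm) (by rw [← pow_mul] at h4; simpa using h4)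
  simpa using this

theorem RSet.rinv [CharP F 2] [Finite F] (h : RSet F ι Q) (hgen : Subgroup.closure (DD ι Q) = ⊤) : IsRootInvolutionSet (DD ι Q) where
  orderOf_eq := fun _ hd => h.ord2 hd
  generates := hgen
  conj_mem := by
    rintro d ⟨s, hs, e⟩ g
    refine ⟨_, h.conj s hs g, ?_⟩
    rw [map_mul, map_mul, e, mul_add, add_mul, mul_one, inv_one]
  pair := by
    rintro a ⟨s, hs, ha⟩ b ⟨t, ht, hb⟩
    rcases h.pair s hs t ht with h1 | h1 | ⟨h1, h2, h3⟩
    · left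
      apply h.inj
      rw [map_mul, map_mul, ha, hb]
      simp only [mul_add, add_mul, one_mul, mul_one]
      rw [h1]; abel
    · right; left; exact h.odd hs ht ha hb h1
    · right; right; exact h.four hs ht ha hb h1 h2 h3

theorem RSet.iconj [CharP F 2] [Finite F] (h : RSet F ι Q)
    (hc : ∀ s ∈ Q, ∀ t ∈ Q, Relation.ReflTransGen (fun x y => x ∈ Q ∧ y ∈ Q ∧ Rel F x y) s t) :
    ∀ a ∈ DD ι Q, ∀ b ∈ DD ι Q, ∃ g : G, b = g * a * g⁻¹ := by
  rintro a ⟨s, hs, ha⟩ b ⟨t, ht, hb⟩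
  have := hc s hs t ht
  induction this generalizing b with
  | refl =>
    refine ⟨1, ?_⟩
    rw [one_mul, _root_.inv_one, mul_one]
    exact h.inj (by rw [ha, hb])
  | tail _ hbc ih =>
    rename_i u v _
    obtain ⟨hu, hv, hr⟩ := hbc
    obtain ⟨c, hcc⟩ := h.lift u hu 1
    rw [one_smul] at hcc
    obtain ⟨g, hg⟩ := ih c hu hcc
    obtain ⟨x, hx⟩ := conj_of_odd (h.sq1 ⟨u, hu, hcc⟩) (h.sq1 ⟨v, hv, hb⟩) (h.odd hu hv hcc hb hr)
    refine ⟨x * g, ?_⟩
    rw [hx, hg]; group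

theorem RSet.three [CharP F 2] [Fintype F] (hF : Fintype.card F = 2) (h : RSet F ι Q) :
    ∀ a ∈ DD ι Q, ∀ b ∈ DD ι Q, Odd (orderOf (a * b)) → orderOf (a * b) = 1 ∨ orderOf (a * b) = 3 := by
  rintro a ⟨s, hs, ha⟩ b ⟨t, ht, hb⟩ ho
  rcases h.pair s hs t ht with h1 | ⟨c, hc, h1, h2⟩ | ⟨h1, h2, h3⟩
  · left
    have hcomm : a * b = b * a := by
      apply h.inj
      rw [map_mul, map_mul, ha, hb]
      simp only [mul_add, add_mul, one_mul, mul_one]
      rw [h1]; abel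
    have h2 := orderOf_dvd_of_pow_eq_one (comm_of_two (h.sq1 ⟨s, hs, ha⟩) (h.sq1 ⟨t, ht, hb⟩) hcomm)
    rcases (Nat.dvd_prime Nat.prime_two).1 h2 with h3 | h3
    · exact h3
    · rw [h3] at ho; exact absurd ho (by decide)
  · have hc1 : c = 1 := by
      by_contra hc1
      classical
      have h3 : ({0, 1, c} : Finset F).card ≤ Fintype.card F := Finset.card_le_univ _
      rw [Finset.card_eq_three.2 ⟨0, 1, c, zero_ne_one, fun h => hc h.symm, fun h => hc1 h.symm, rfl⟩, hF] at h3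
      omega
    subst hc1
    obtain ⟨φ, hφ⟩ := h.hom_pair hs ht ha hb one_ne_zero h1 h2
    have h4 : (a * b) ^ 3 = 1 := by rw [← hφ, ← map_pow, cube_sl2, map_one]
    rcases (Nat.dvd_prime Nat.prime_three).1 (orderOf_dvd_of_pow_eq_one h4) with h5 | h5
    · left; exact h5
    · right; exact h5
  · have := (h.four hs ht ha hb h1 h2 h3).1
    rw [this] at ho
    exact absurd ho (by decide)

end inv

end CfsgLib.H14TG
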