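import Cfsg.Agent.LibH14TG

/-! Rank one matrices (seat helper14). -/

set_option autoImplicit false

namespace CfsgLib.H14TGM

open Matrix

variable {k : Type*} [Field k] {n : Type*} [Fintype n]

theorem vv (x f y h : n → k) : vecMulVec x f * vecMulVec y h = (f ⬝ᵥ y) • vecMulVec x h := by
  rw [vecMulVec_mul_vecMulVec, vecMulVec_smul]

theorem vvv (x f y h : n → k) : vecMulVec x f * vecMulVec y h * vecMulVec x f = ((f ⬝ᵥ y) * (h ⬝ᵥ x)) • vecMulVec x f := by
  rw [vv, smul_mul_assoc, vv, smul_smul]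

theorem ext_mv [DecidableEq n] {A B : Matrix n n k} (h : ∀ v, A *ᵥ v = B *ᵥ v) : A = B :=
  ext_of_mulVec_single fun i => h _

theorem tv_mv [DecidableEq n] (c : k) (x f v : n → k) : (1 + c • vecMulVec x f) *ᵥ v = v + (c * (f ⬝ᵥ v)) • x := by
  rw [add_mulVec, one_mulVec, smul_mulVec, vecMulVec_mulVec]
  congr 1
  rw [op_smul_eq_smul, smul_smul]

theorem tv_iff [DecidableEq n] {A : Matrix n n k} {c : k} {x f : n → k} :
    A = 1 + c • vecMulVec x f ↔ ∀ v, A *ᵥ v = v + (c * (f ⬝ᵥ v)) • x := by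
  constructor
  · rintro rfl v; exact tv_mv c x f v
  · intro h; exact ext_mv fun v => by rw [h, tv_mv]

end CfsgLib.H14TGM
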