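import Cfsg.Agent.LibH14TG

/-! Groups of transvection type: restriction to the generated subgroup (seat helper14). -/

set_option autoImplicit false

namespace CfsgLib.H14TG

open Cfsg CfsgLib.H14R1 CfsgLib.H14RS CfsgLib.H14QD

section restrict
variable {F R G : Type*} [Field F] [Ring R] [Algebra F R] [Group G] {ι : G →* R} {Q : Set R}

theorem le_G0 {A : Subgroup G} (hA : A ∈ SS F ι Q) : A ≤ ⨆ B ∈ SS F ι Q, B :=
  le_iSup₂_of_le (f := fun (A : Subgroup G) (_ : A ∈ SS F ι Q) => A) A hA le_rfl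

/-- restriction -/
def rI (H : Subgroup G) (ι : G →* R) : H →* R := ι.comp H.subtype

theorem T_sub {s : R} (hs : s * s = 0) (H : Subgroup G) : T F (rI H ι) s = (T F ι s).subgroupOf H := by
  ext x
  rw [mem_T hs, Subgroup.mem_subgroupOf, mem_T hs]
  rfl

theorem RSet.res (h : RSet F ι Q) : RSet F (rI (⨆ B ∈ SS F ι Q, B) ι) Q where
  inj := h.inj.comp Subtype.val_injective
  sq := h.sq
  ne := h.ne
  lift := fun s hs c => by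
    obtain ⟨g, hg⟩ := h.lift s hs c
    exact ⟨⟨g, le_G0 ⟨s, hs, rfl⟩ ((mem_T (h.sq s hs)).2 ⟨c, hg⟩)⟩, hg⟩
  conj := fun s hs g => h.conj s hs g.1
  pair := h.pair

theorem RSet.res_gen (h : RSet F ι Q) : (⨆ A ∈ SS F (rI (⨆ B ∈ SS F ι Q, B) ι) Q, A) = ⊤ := by
  have h1 : (⨆ B ∈ SS F ι Q, B) ≤ (⨆ A ∈ SS F (rI (⨆ B ∈ SS F ι Q, B) ι) Q, A).map (⨆ B ∈ SS F ι Q, B).subtype := by
    apply iSup₂_le
    rintro _ ⟨s, hs, rfl⟩ x hx
    have hx2 : x ∈ ⨆ B ∈ SS F ι Q, B := le_G0 ⟨s, hs, rfl⟩ hx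
    refine ⟨⟨x, hx2⟩, ?_, rfl⟩
    apply le_G0 ⟨s, hs, rfl⟩
    rw [T_sub (h.sq s hs)]
    exact hx
  rw [eq_top_iff]
  rintro ⟨x, hx⟩ _
  obtain ⟨y, hy, hyx⟩ := h1 hx
  have : y = ⟨x, hx⟩ := Subtype.ext hyx
  rw [← this]; exact hy

theorem RSet.res_img (h : RSet F ι Q) : (fun A : Subgroup G => A.subgroupOf (⨆ B ∈ SS F ι Q, B)) '' (SS F ι Q) =
    SS F (rI (⨆ B ∈ SS F ι Q, B) ι) Q := by
  ext A
  constructor
  · rintro ⟨_, ⟨s, hs, rfl⟩, rfl⟩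
    exact ⟨s, hs, (T_sub (h.sq s hs) _).symm⟩
  · rintro ⟨s, hs, rfl⟩
    exact ⟨_, ⟨s, hs, rfl⟩, (T_sub (h.sq s hs) _).symm⟩

end restrict

end CfsgLib.H14TG
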