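import Cfsg.Agent.LibH14TG
import Cfsg.Agent.LibSLn6

/-! Transvections of `SL_n` (seat helper14). -/

set_option autoImplicit false

namespace CfsgLib.H14TG

open Cfsg Matrix

section SL
variable {k : Type*} [Field k] {N : ℕ}

/-- inclusion in the matrix ring -/
def iSL (k : Type*) [Field k] (N : ℕ) : SpecialLinearGroup (Fin N) k →* Matrix (Fin N) (Fin N) k where
  toFun g := g.1
  map_one' := rfl
  map_mul' _ _ := rfl

theorem iSL_inj : Function.Injective (iSL k N) := fun _ _ h => Subtype.ext h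

/-- the rank one square zero matrices -/
def QSL (k : Type*) [Field k] (N : ℕ) : Set (Matrix (Fin N) (Fin N) k) :=
  {s | ∃ x f : Fin N → k, x ≠ 0 ∧ f ≠ 0 ∧ f ⬝ᵥ x = 0 ∧ s = vecMulVec x f}

theorem vv (x f y h : Fin N → k) : vecMulVec x f * vecMulVec y h = (f ⬝ᵥ y) • vecMulVec x h := by
  rw [vecMulVec_mul_vecMulVec, vecMulVec_smul]

theorem vvv (x f y h : Fin N → k) : vecMulVec x f * vecMulVec y h * vecMulVec x f = ((f ⬝ᵥ y) * (h ⬝ᵥ x)) • vecMulVec x f := by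
  rw [vv, smul_mul_assoc, vv, smul_smul]

theorem det_tv {x f : Fin N → k} (h : f ⬝ᵥ x = 0) (c : k) : (1 + c • vecMulVec x f).det = 1 := by
  rw [← vecMulVec_smul, Matrix.vecMulVec_eq (ι := Unit), det_one_add_replicateCol_mul_replicateRow, smul_dotProduct, h, smul_zero, add_zero]

theorem rset_SL : RSet k (iSL k N) (QSL k N) where
  inj := iSL_inj
  sq := by
    rintro _ ⟨x, f, hx, hf, h, rfl⟩
    rw [vv, h, zero_smul]
  ne := by
    rintro _ ⟨x, f, hx, hf, h, rfl⟩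
    exact vecMulVec_ne_zero hx hf
  lift := by
    rintro _ ⟨x, f, hx, hf, h, rfl⟩ c
    exact ⟨⟨_, det_tv h c⟩, rfl⟩
  conj := by
    rintro _ ⟨x, f, hx, hf, h, rfl⟩ g
    have h1 : iSL k N g * iSL k N g⁻¹ = 1 := inv_one g
    have h2 : iSL k N g⁻¹ * iSL k N g = 1 := inv_one' g
    refine ⟨iSL k N g *ᵥ x, f ᵥ* iSL k N g⁻¹, ?_, ?_, ?_, ?_⟩
    · intro h0
      apply hx
      have := congrArg (fun z => iSL k N g⁻¹ *ᵥ z) h0
      simpa [Matrix.mulVec_mulVec, h2] using this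
    · intro h0
      apply hf
      have := congrArg (fun z => z ᵥ* iSL k N g) h0
      simpa [Matrix.vecMul_vecMul, h2] using this
    · rw [← Matrix.dotProduct_mulVec, Matrix.mulVec_mulVec, h2, Matrix.one_mulVec, h]
    · rw [mul_vecMulVec, vecMulVec_mul]
  pair := by
    rintro _ ⟨x, f, hx, hf, h1, rfl⟩ _ ⟨y, h, hy, hh, h2, rfl⟩
    by_cases a : f ⬝ᵥ y = 0
    · by_cases b : h ⬝ᵥ x = 0
      · left; rw [vv, vv, a, b, zero_smul, zero_smul]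
      · right; right
        refine ⟨by rw [vvv, a, zero_mul, zero_smul], by rw [vvv, a, mul_zero, zero_smul], ?_⟩
        rw [vv, vv, a, zero_smul, zero_sub]
        refine ⟨(-(h ⬝ᵥ x)) • y, f, ?_, hf, ?_, ?_⟩
        · exact smul_ne_zero (neg_ne_zero.2 b) hy
        · rw [dotProduct_smul, a, smul_zero]
        · rw [smul_vecMulVec, neg_smul]
    · by_cases b : h ⬝ᵥ x = 0
      · right; right
        refine ⟨by rw [vvv, b, mul_zero, zero_smul], by rw [vvv, b, zero_mul, zero_smul], ?_⟩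
        rw [vv, vv, b, zero_smul, sub_zero]
        refine ⟨(f ⬝ᵥ y) • x, h, ?_, hh, ?_, ?_⟩
        · exact smul_ne_zero a hx
        · rw [dotProduct_smul, b, smul_zero]
        · rw [smul_vecMulVec]
      · right; left
        refine ⟨(f ⬝ᵥ y) * (h ⬝ᵥ x), mul_ne_zero a b, vvv _ _ _ _, ?_⟩
        rw [vvv, mul_comm]

theorem ex_both {V : Type*} [AddCommGroup V] [Module k V] (α β : V →ₗ[k] k) (h1 : ∃ z, α z ≠ 0) (h2 : ∃ z, β z ≠ 0) :
    ∃ z, α z ≠ 0 ∧ β z ≠ 0 := by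
  obtain ⟨z1, ha1⟩ := h1
  obtain ⟨z2, hb2⟩ := h2
  by_cases hb1 : β z1 = 0
  · by_cases ha2 : α z2 = 0
    · exact ⟨z1 + z2, by rw [map_add, ha2, add_zero]; exact ha1, by rw [map_add, hb1, zero_add]; exact hb2⟩
    · exact ⟨z2, ha2, hb2⟩
  · exact ⟨z1, ha1, hb1⟩

theorem ex_dp {f : Fin N → k} (hf : f ≠ 0) : ∃ z : Fin N → k, f ⬝ᵥ z ≠ 0 := by
  obtain ⟨i, hi⟩ := Function.ne_iff.1 hf
  exact ⟨Pi.single i 1, by simpa using hi⟩

theorem ex_fun {f x z : Fin N → k} (hx : x ≠ 0) (h1 : f ⬝ᵥ x = 0) (h2 : f ⬝ᵥ z ≠ 0) : ∃ l : Fin N → k, l ⬝ᵥ z = 0 ∧ l ⬝ᵥ x ≠ 0 := by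
  obtain ⟨i, hi⟩ := Function.ne_iff.1 hx
  refine ⟨Pi.single i 1 - (z i / (f ⬝ᵥ z)) • f, ?_, ?_⟩
  · rw [sub_dotProduct, single_dotProduct, smul_dotProduct, one_mul, smul_eq_mul, div_mul_cancel₀ _ h2, sub_self]
  · rw [sub_dotProduct, single_dotProduct, smul_dotProduct, one_mul, h1, smul_zero, sub_zero]
    exact hi

theorem path_SL {s t : Matrix (Fin N) (Fin N) k} (hs : s ∈ QSL k N) (ht : t ∈ QSL k N) :
    ∃ u ∈ QSL k N, Rel k s u ∧ Rel k u t := by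
  obtain ⟨x, f, hx, hf, hfx, rfl⟩ := hs
  obtain ⟨y, h, hy, hh, hhy, rfl⟩ := ht
  let dpl (f : Fin N → k) : (Fin N → k) →ₗ[k] k :=
    { toFun := fun z => f ⬝ᵥ z
      map_add' := fun a b => dotProduct_add _ _ _
      map_smul' := fun a b => by simp [dotProduct_smul] }
  obtain ⟨z, hfz, hhz⟩ := ex_both (dpl f) (dpl h) (ex_dp hf) (ex_dp hh)
  change f ⬝ᵥ z ≠ 0 at hfz
  change h ⬝ᵥ z ≠ 0 at hhz
  let W : Submodule k (Fin N → k) := LinearMap.ker (dpl z)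
  have hW : ∀ l : Fin N → k, l ∈ W ↔ l ⬝ᵥ z = 0 := fun l => by
    rw [LinearMap.mem_ker]; show z ⬝ᵥ l = 0 ↔ _; rw [dotProduct_comm]
  obtain ⟨l1, hl1, hl1'⟩ := ex_fun hx hfx hfz
  obtain ⟨l2, hl2, hl2'⟩ := ex_fun hy hhy hhz
  obtain ⟨⟨l, hl⟩, hlx, hly⟩ := ex_both ((dpl x).comp W.subtype) ((dpl y).comp W.subtype)
    ⟨⟨l1, (hW _).2 hl1⟩, by show x ⬝ᵥ l1 ≠ 0; rw [dotProduct_comm]; exact hl1'⟩
    ⟨⟨l2, (hW _).2 hl2⟩, by show y ⬝ᵥ l2 ≠ 0; rw [dotProduct_comm]; exact hl2'⟩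
  change x ⬝ᵥ l ≠ 0 at hlx
  change y ⬝ᵥ l ≠ 0 at hly
  rw [dotProduct_comm] at hlx hly
  have hlz := (hW l).1 hl
  refine ⟨vecMulVec z l, ⟨z, l, ?_, ?_, hlz, rfl⟩, ?_, ?_⟩
  · rintro rfl; exact hfz (dotProduct_zero _)
  · rintro rfl; exact hlx (zero_dotProduct _)
  · refine ⟨(f ⬝ᵥ z) * (l ⬝ᵥ x), mul_ne_zero hfz hlx, vvv _ _ _ _, ?_⟩
    rw [vvv, mul_comm]
  · refine ⟨(l ⬝ᵥ y) * (h ⬝ᵥ z), mul_ne_zero hly hhz, vvv _ _ _ _, ?_⟩
    rw [vvv, mul_comm]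

theorem conn_SL (s : Matrix (Fin N) (Fin N) k) (hs : s ∈ QSL k N) (t : Matrix (Fin N) (Fin N) k) (ht : t ∈ QSL k N) :
    Relation.ReflTransGen (fun x y => x ∈ QSL k N ∧ y ∈ QSL k N ∧ Rel k x y) s t := by
  obtain ⟨u, hu, h1, h2⟩ := path_SL hs ht
  exact (Relation.ReflTransGen.single ⟨hs, hu, h1⟩).tail ⟨hu, ht, h2⟩

theorem el_mem {i j : Fin N} (h : i ≠ j) : (single i j 1 : Matrix (Fin N) (Fin N) k) ∈ QSL k N := by
  refine ⟨Pi.single i 1, Pi.single j 1, ?_, ?_, ?_, single_eq_single_vecMulVec_single i j⟩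
  · intro h0; simpa using congrFun h0 i
  · intro h0; simpa using congrFun h0 j
  · simp [h]

theorem tv_eq (i j : Fin N) (c : k) : transvection i j c = 1 + c • (single i j 1 : Matrix (Fin N) (Fin N) k) := by
  rw [transvection, smul_single, smul_eq_mul, mul_one]

theorem gen_SL (hN : 2 ≤ N) : (⨆ A ∈ SS k (iSL k N) (QSL k N), A) = ⊤ := by
  rw [eq_top_iff, ← CfsgLib.SLn.TT_gen hN, Subgroup.closure_le]
  rintro _ ⟨i, j, h, a, rfl⟩
  have h1 : CfsgLib.SLn.TT h a ∈ T k (iSL k N) (single i j 1) := by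
    apply Subgroup.subset_closure
    refine ⟨a, ?_⟩
    show (CfsgLib.SLn.TT h a).1 = _
    rw [CfsgLib.SLn.TT_coe, tv_eq]
  exact (le_iSup₂_of_le (f := fun (A : Subgroup (SpecialLinearGroup (Fin N) k)) (_ : A ∈ SS k (iSL k N) (QSL k N)) => A)
    _ ⟨_, el_mem h, rfl⟩ le_rfl) h1

end SL

end CfsgLib.H14TG
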