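import Mathlib
import Cfsg.Agent.LibH22OMat
import Cfsg.Agent.LibH22OForms

set_option autoImplicit false

/-! First cohomology of orthogonal groups over `F₂` on the natural module (helper28). -/

namespace CfsgLib.H1Orth28

open Cfsg.Agent.H22
open Module

variable {V : Type*} [AddCommGroup V] [Module (ZMod 2) V] {Q : QuadraticForm (ZMod 2) V}

theorem two_cases (a : ZMod 2) : a = 0 ∨ a = 1 := by revert a; decide

theorem add_self (x : V) : x + x = 0 := by
  have : (2 : ZMod 2) • x = x + x := two_smul _ _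
  rw [← this, show (2 : ZMod 2) = 0 by decide, zero_smul]

theorem sub_eq (x y : V) : x - y = x + y := by
  rw [sub_eq_iff_eq_add, add_assoc, add_self, add_zero]

abbrev B (Q : QuadraticForm (ZMod 2) V) (x y : V) : ZMod 2 := QuadraticMap.polar Q x y

theorem B_self (x : V) : B Q x x = 0 := by
  rw [B, pself, show (2 : ZMod 2) = 0 by decide, zero_mul]

theorem ne0 {x : V} (hx : Q x = 1) : Q x ≠ 0 := by rw [hx]; exact one_ne_zero

/-- the reflection -/
abbrev T (x : V) (hx : Q x = 1) : OGrp Q := oRefl Q x (ne0 hx)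

theorem T_apply {x : V} (hx : Q x = 1) (v : V) :
    ((T x hx : OGrp Q) : V ≃ₗ[ZMod 2] V) v = v + B Q x v • x := by
  show refl Q x (ne0 hx) v = _
  rw [refl_apply, hx, inv_one, one_mul, sub_eq]

theorem T_sq {x : V} (hx : Q x = 1) : T x hx * T x hx = (1 : OGrp Q) :=
  Subtype.ext (refl_mul_self Q x (ne0 hx))

theorem T_inv {x : V} (hx : Q x = 1) : (T x hx)⁻¹ = (T x hx : OGrp Q) :=
  inv_eq_of_mul_eq_one_left (T_sq hx)

theorem ext_O {g h : OGrp Q} (H : ∀ v, (g : V ≃ₗ[ZMod 2] V) v = (h : V ≃ₗ[ZMod 2] V) v) : g = h :=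
  Subtype.ext (LinearEquiv.ext H)

theorem coe_mul (g h : OGrp Q) (v : V) : ((g * h : OGrp Q) : V ≃ₗ[ZMod 2] V) v =
    (g : V ≃ₗ[ZMod 2] V) ((h : V ≃ₗ[ZMod 2] V) v) := rfl

theorem Q_apply (g : OGrp Q) (v : V) : Q ((g : V ≃ₗ[ZMod 2] V) v) = Q v := g.2 v

theorem B_apply (g : OGrp Q) (v w : V) :
    B Q ((g : V ≃ₗ[ZMod 2] V) v) ((g : V ≃ₗ[ZMod 2] V) w) = B Q v w := OGrp_polar g.2 v w

theorem T_congr {x y : V} (h : x = y) (hx : Q x = 1) (hy : Q y = 1) : T x hx = (T y hy : OGrp Q) := by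
  subst h; rfl

theorem conj_T (g : OGrp Q) {x : V} (hx : Q x = 1) :
    g * T x hx = T ((g : V ≃ₗ[ZMod 2] V) x) (by rw [Q_apply]; exact hx) * g := by
  apply ext_O
  intro v
  rw [coe_mul, coe_mul, T_apply, T_apply, map_add, map_smul, B_apply]

theorem conj_T' (g : OGrp Q) {x : V} (hx : Q x = 1) :
    g * T x hx * g⁻¹ = T ((g : V ≃ₗ[ZMod 2] V) x) (by rw [Q_apply]; exact hx) := by
  rw [conj_T]; group

theorem Q_add {x y : V} (hx : Q x = 1) (hy : Q y = 1) (hxy : B Q x y = 1) : Q (x + y) = 1 := by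
  rw [qadd, hx, hy]
  show 1 + 1 + B Q x y = 1
  rw [hxy]; decide

/-- `T_x T_y = [T_x, T_{x+y}]` -/
theorem comm_mem {x y : V} (hx : Q x = 1) (hy : Q y = 1) (hxy : B Q x y = 1) :
    T x hx * T y hy ∈ commutator (OGrp Q) := by
  have hz := Q_add hx hy hxy
  have h1 : T (x + y) hz * T x hx = (T y hy : OGrp Q) * T (x + y) hz := by
    rw [conj_T]
    congr 1
    apply T_congr
    rw [T_apply]
    have : B Q (x + y) x = 1 := by
      rw [B, QuadraticMap.polar_add_left, QuadraticMap.polar_comm Q y x]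
      show B Q x x + B Q x y = 1
      rw [B_self, hxy, zero_add]
    rw [this, one_smul, ← add_assoc, add_self, zero_add]
  have h2 : T x hx * T y hy = (T x hx : OGrp Q) * T (x + y) hz * (T x hx)⁻¹ * (T (x + y) hz)⁻¹ := by
    rw [T_inv, T_inv, mul_assoc, mul_assoc, ← mul_assoc (T (x + y) hz), h1, mul_assoc (T y hy),
      T_sq, mul_one]
  rw [h2, commutator_def]
  exact Subgroup.commutator_mem_commutator trivial trivial

/-- a common non-orthogonal vector -/
theorem exists_z [FiniteDimensional (ZMod 2) V] (hQ : (QuadraticMap.polarBilin Q).Nondegenerate)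
    (hn : 5 ≤ finrank (ZMod 2) V) {x y : V} (hx : Q x = 1) (hy : Q y = 1) (hne : x ≠ y) :
    ∃ z, Q z = 1 ∧ B Q x z = 1 ∧ B Q z y = 1 := by
  have hx0 : x ≠ 0 := by rintro rfl; simp at hx
  have hy0 : y ≠ 0 := by rintro rfl; simp at hy
  have hxs : x ∉ Submodule.span (ZMod 2) {y} := by
    rw [Submodule.mem_span_singleton]
    rintro ⟨a, ha⟩
    rcases two_cases a with rfl | rfl
    · rw [zero_smul] at ha; exact hx0 ha.symm
    · rw [one_smul] at ha; exact hne ha.symm
  have hys : y ∉ Submodule.span (ZMod 2) {x} := by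
    rw [Submodule.mem_span_singleton]
    rintro ⟨a, ha⟩
    rcases two_cases a with rfl | rfl
    · rw [zero_smul] at ha; exact hy0 ha.symm
    · rw [one_smul] at ha; exact hne ha
  obtain ⟨s, hs, hs1⟩ := exists_functional_ne_zero (QuadraticMap.polarBilin Q)
    (polar_isSymm).isRefl hQ _ x hxs
  obtain ⟨t, ht, ht1⟩ := exists_functional_ne_zero (QuadraticMap.polarBilin Q)
    (polar_isSymm).isRefl hQ _ y hys
  rw [LinearMap.BilinForm.mem_orthogonal_iff] at hs ht
  have hs' : B Q y s = 0 := hs y (Submodule.mem_span_singleton_self y)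
  have ht' : B Q x t = 0 := ht x (Submodule.mem_span_singleton_self x)
  have hs1' : B Q x s = 1 := (two_cases _).resolve_left hs1
  have ht1' : B Q y t = 1 := (two_cases _).resolve_left ht1
  obtain ⟨z0, hz0⟩ : ∃ z0, z0 = s + t := ⟨_, rfl⟩
  have hxz0 : B Q x z0 = 1 := by
    rw [hz0, B, QuadraticMap.polar_add_right]
    show B Q x s + B Q x t = 1
    rw [hs1', ht', add_zero]
  have hyz0 : B Q y z0 = 1 := by
    rw [hz0, B, QuadraticMap.polar_add_right]
    show B Q y s + B Q y t = 1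
    rw [hs', ht1', zero_add]
  by_contra hcon
  push Not at hcon
  set W := LinearMap.BilinForm.orthogonal (QuadraticMap.polarBilin Q)
    (Submodule.span (ZMod 2) {x, y}) with hW
  have hWm : ∀ w, w ∈ W → B Q x w = 0 ∧ B Q y w = 0 := by
    intro w hw
    rw [hW, LinearMap.BilinForm.mem_orthogonal_iff] at hw
    exact ⟨hw x (Submodule.subset_span (by simp)), hw y (Submodule.subset_span (by simp))⟩
  have hQW : ∀ w ∈ W, Q (z0 + w) = 0 := by
    intro w hw
    obtain ⟨h1, h2⟩ := hWm w hw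
    rcases two_cases (Q (z0 + w)) with h3 | h3
    · exact h3
    · exfalso
      apply hcon (z0 + w) h3
      · rw [B, QuadraticMap.polar_add_right]
        show B Q x z0 + B Q x w = 1
        rw [hxz0, h1, add_zero]
      · rw [B, QuadraticMap.polar_comm, QuadraticMap.polar_add_right]
        show B Q y z0 + B Q y w = 1
        rw [hyz0, h2, add_zero]
  have hz00 : Q z0 = 0 := by
    have := hQW 0 (Submodule.zero_mem _)
    rwa [add_zero] at this
  have hQW2 : ∀ w ∈ W, Q w = B Q z0 w := by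
    intro w hw
    have := hQW w hw
    rw [qadd, hz00, zero_add] at this
    change Q w + B Q z0 w = 0 at this
    revert this
    generalize Q w = a
    generalize B Q z0 w = b
    revert a b; decide
  have hiso : W ≤ LinearMap.BilinForm.orthogonal (QuadraticMap.polarBilin Q) W := by
    intro w hw
    rw [LinearMap.BilinForm.mem_orthogonal_iff]
    intro w' hw'
    show B Q w' w = 0
    have h1 := hQW2 _ (Submodule.add_mem _ hw' hw)
    rw [qadd, hQW2 w' hw', hQW2 w hw] at h1
    have h2 : B Q z0 (w' + w) = B Q z0 w' + B Q z0 w := QuadraticMap.polar_add_right _ _ _ _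
    rw [h2] at h1
    exact add_eq_left.mp h1
  have h1 := LinearMap.BilinForm.finrank_orthogonal hQ (Submodule.span (ZMod 2) {x, y})
  have h2 := LinearMap.BilinForm.finrank_orthogonal hQ W
  have h3 := Submodule.finrank_mono hiso
  have h4 : finrank (ZMod 2) (Submodule.span (ZMod 2) ({x, y} : Set V)) ≤ 2 := by
    classical
    have h5 := finrank_span_le_card (R := ZMod 2) ({x, y} : Set V)
    refine h5.trans ?_
    rw [Set.toFinset_insert, Set.toFinset_singleton]
    exact Finset.card_le_two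
  rw [← hW] at h1
  omega

theorem pair_mem [FiniteDimensional (ZMod 2) V] (hQ : (QuadraticMap.polarBilin Q).Nondegenerate)
    (hn : 5 ≤ finrank (ZMod 2) V) {K : Subgroup (OGrp Q)}
    (hK : ∀ (x y : V) (hx : Q x = 1) (hy : Q y = 1), B Q x y = 1 → T x hx * T y hy ∈ K)
    (x y : V) (hx : Q x = 1) (hy : Q y = 1) : T x hx * T y hy ∈ K := by
  by_cases hne : x = y
  · subst hne
    rw [T_sq]; exact one_mem _
  rcases two_cases (B Q x y) with h | h
  · obtain ⟨z, hz, hxz, hzy⟩ := exists_z hQ hn hx hy hne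
    have h1 := mul_mem (hK x z hx hz hxz) (hK z y hz hy hzy)
    have e : T x hx * T z hz * (T z hz * T y hy) = (T x hx * T y hy : OGrp Q) := by
      rw [mul_assoc, ← mul_assoc (T z hz), T_sq, one_mul]
    rwa [e] at h1
  · exact hK x y hx hy h

/-- the commutator subgroup is generated by the products of two reflections. -/
theorem commutator_le [FiniteDimensional (ZMod 2) V]
    (hQ : (QuadraticMap.polarBilin Q).Nondegenerate)
    (hn : finrank (ZMod 2) V ≠ 4) (hex : ∃ x : V, Q x = 1) {K : Subgroup (OGrp Q)}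
    (hK : ∀ (x y : V) (hx : Q x = 1) (hy : Q y = 1), T x hx * T y hy ∈ K) :
    commutator (OGrp Q) ≤ K := by
  have hgen := closure_oRefl hQ (Or.inr hn)
  set S : Set (OGrp Q) := {g : OGrp Q | ∃ v, ∃ hv : Q v ≠ 0, g = oRefl Q v hv} with hS
  have hST : ∀ s ∈ S, ∃ x, ∃ hx : Q x = 1, s = T x hx := by
    rintro s ⟨v, hv, rfl⟩
    exact ⟨v, (two_cases _).resolve_left hv, rfl⟩
  have hTS : ∀ x (hx : Q x = 1), T x hx ∈ S := fun x hx => ⟨x, ne0 hx, rfl⟩
  set E : Subgroup (OGrp Q) := Subgroup.closure {g | ∃ x y, ∃ (hx : Q x = 1) (hy : Q y = 1),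
    g = T x hx * T y hy} with hE
  have hEK : E ≤ K := by
    rw [hE, Subgroup.closure_le]
    rintro g ⟨x, y, hx, hy, rfl⟩
    exact hK x y hx hy
  have hTE : ∀ (x y : V) (hx : Q x = 1) (hy : Q y = 1), T x hx * T y hy ∈ E :=
    fun x y hx hy => Subgroup.subset_closure ⟨x, y, hx, hy, rfl⟩
  have hEn : E.Normal := by
    refine ⟨fun n hn g => ?_⟩
    have h1 : E ≤ E.comap (MulAut.conj g).toMonoidHom := by
      rw [hE, Subgroup.closure_le]
      rintro _ ⟨x, y, hx, hy, rfl⟩
      show g * (T x hx * T y hy) * g⁻¹ ∈ E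
      have h2 : g * (T x hx * T y hy) * g⁻¹ =
          T ((g : V ≃ₗ[ZMod 2] V) x) (by rw [Q_apply]; exact hx) *
          T ((g : V ≃ₗ[ZMod 2] V) y) (by rw [Q_apply]; exact hy) := by
        rw [← conj_T' g hx, ← conj_T' g hy]
        group
      rw [h2]
      exact hTE _ _ _ _
    exact h1 hn
  refine le_trans ?_ hEK
  obtain ⟨x0, hx0⟩ := hex
  have hor : ∀ g : OGrp Q, g ∈ E ∨ T x0 hx0 * g ∈ E := by
    intro g
    rcases mem_even_or S (by
      intro s hs
      obtain ⟨x, hx, rfl⟩ := hST s hs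
      rw [T_inv]; exact hs) hgen E (by
      intro s hs t ht
      obtain ⟨x, hx, rfl⟩ := hST s hs
      obtain ⟨y, hy, rfl⟩ := hST t ht
      exact hTE x y hx hy) g with h | h
    · exact Or.inl h
    · exact Or.inr (h _ (hTS x0 hx0))
  rw [commutator_def, Subgroup.commutator_le]
  intro g _ h _
  rw [← QuotientGroup.eq_one_iff]
  have hq : ∀ g : OGrp Q, (g : OGrp Q ⧸ E) = 1 ∨ (g : OGrp Q ⧸ E) = ((T x0 hx0 : OGrp Q) : OGrp Q ⧸ E) := by
    intro g
    rcases hor g with h | h
    · exact Or.inl ((QuotientGroup.eq_one_iff g).mpr h)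
    · right
      rw [← QuotientGroup.eq_one_iff, QuotientGroup.mk_mul] at h
      have h2 : ((T x0 hx0 : OGrp Q) : OGrp Q ⧸ E) * ((T x0 hx0 : OGrp Q) : OGrp Q ⧸ E) = 1 := by
        rw [← QuotientGroup.mk_mul, T_sq]; rfl
      exact mul_left_cancel (h.trans h2.symm)
  show ((g * h * g⁻¹ * h⁻¹ : OGrp Q) : OGrp Q ⧸ E) = 1
  rw [QuotientGroup.mk_mul, QuotientGroup.mk_mul, QuotientGroup.mk_mul, QuotientGroup.mk_inv,
    QuotientGroup.mk_inv]
  rcases hq g with h1 | h1 <;> rcases hq h with h2 | h2 <;> rw [h1, h2] <;> simp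

end CfsgLib.H1Orth28
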