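import Mathlib
import Cfsg.Agent.LibH1Orth28

set_option autoImplicit false

/-! First cohomology of orthogonal groups over `F₂` on the natural module, II (helper28). -/

namespace CfsgLib.H1Orth28

open Cfsg.Agent.H22
open Module

variable {V : Type*} [AddCommGroup V] [Module (ZMod 2) V] {Q : QuadraticForm (ZMod 2) V}

/-- application -/
abbrev ap (g : OGrp Q) (v : V) : V := (g : V ≃ₗ[ZMod 2] V) v

theorem T_ap {x : V} (hx : Q x = 1) (v : V) : ap (T x hx : OGrp Q) v = v + B Q x v • x :=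
  T_apply hx v

/-- a crossed homomorphism vanishing set -/
structure CK (K : Subgroup (OGrp Q)) : Prop where
  cent : ∀ a ∈ K, (∀ v, ap a (ap a v) + ap a v + v = 0) → ∀ g ∈ commutator (OGrp Q),
    g * a = a * g → g ∈ K

/-- fixed-point-free elements of order 3 in `K` -/
structure Dl (K : Subgroup (OGrp Q)) (a : OGrp Q) : Prop where
  mem : a ∈ K
  id : ∀ v, ap a (ap a v) + ap a v + v = 0

theorem three {x y z : V} (h : x + y + z = 0) : x = y + z := by
  have : x = -(y + z) := by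
    rw [eq_neg_iff_add_eq_zero, ← add_assoc]; exact h
  rw [this, neg_eq_iff_add_eq_zero, add_self]

namespace Dl

variable {K : Subgroup (OGrp Q)} {a : OGrp Q}

theorem sq (d : Dl K a) (v : V) : ap a (ap a v) = ap a v + v := three (d.id v)

theorem cube (d : Dl K a) (v : V) : ap a (ap a (ap a v)) = v := by
  rw [d.sq (ap a v), d.sq v]
  calc ap a v + v + ap a v = (ap a v + ap a v) + v := by abel
    _ = v := by rw [add_self, zero_add]

theorem inv (d : Dl K a) : Dl K a⁻¹ where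
  mem := inv_mem d.mem
  id := by
    intro v
    have e : ∀ v, ap a (ap a⁻¹ v) = v := by
      intro v
      show ((a * a⁻¹ : OGrp Q) : V ≃ₗ[ZMod 2] V) v = v
      rw [mul_inv_cancel]; rfl
    have h := d.id (ap a⁻¹ (ap a⁻¹ v))
    rw [e, e] at h
    calc ap a⁻¹ (ap a⁻¹ v) + ap a⁻¹ v + v = v + ap a⁻¹ v + ap a⁻¹ (ap a⁻¹ v) := by abel
      _ = 0 := h

theorem inv_ap (d : Dl K a) (v : V) : ap a⁻¹ v = ap a (ap a v) := by
  have h := d.cube (ap a⁻¹ v)
  have e : ∀ v, ap a (ap a⁻¹ v) = v := by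
    intro v
    show ((a * a⁻¹ : OGrp Q) : V ≃ₗ[ZMod 2] V) v = v
    rw [mul_inv_cancel]; rfl
  rw [e] at h
  exact h.symm

theorem Bx (d : Dl K a) {x : V} (hx : Q x = 1) : B Q x (ap a x) = 1 := by
  have h1 : Q (ap a (ap a x)) = 1 := by rw [Q_apply, Q_apply, hx]
  rw [d.sq, qadd, Q_apply, hx] at h1
  change 1 + 1 + B Q (ap a x) x = 1 at h1
  rw [B, QuadraticMap.polar_comm]
  change B Q (ap a x) x = 1
  revert h1
  generalize B Q (ap a x) x = t
  revert t; decide

end Dl

theorem Qa (a : OGrp Q) {x : V} (hx : Q x = 1) : Q (ap a x) = 1 := by rw [Q_apply, hx]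

/-- `b = t_x t_{ax}` -/
abbrev bb (a : OGrp Q) (x : V) (hx : Q x = 1) : OGrp Q := T x hx * T (ap a x) (Qa a hx)

namespace Dl

variable {K : Subgroup (OGrp Q)} {a : OGrp Q}

theorem bb_mem (d : Dl K a) {x : V} (hx : Q x = 1) : bb a x hx ∈ commutator (OGrp Q) :=
  comm_mem hx (Qa a hx) (d.Bx hx)

theorem bb_comm (d : Dl K a) {x : V} (hx : Q x = 1) : bb a x hx * a = a * bb a x hx := by
  have hB := d.Bx hx
  have hB2 : B Q (ap a x) (ap a (ap a x)) = 1 := by
    show B Q (ap a x) (ap a (ap a x)) = 1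
    rw [B_apply]; exact hB
  have h1 : (T (ap a x) (Qa a hx) : OGrp Q) * T (ap a (ap a x)) (Qa a (Qa a hx)) =
      T x hx * T (ap a x) (Qa a hx) := by
    rw [conj_T]
    congr 1
    apply T_congr
    rw [T_apply, hB2, one_smul, d.sq]
    calc ap a x + x + ap a x = (ap a x + ap a x) + x := by abel
      _ = x := by rw [add_self, zero_add]
  have h2 : a * bb a x hx = (T (ap a x) (Qa a hx) * T (ap a (ap a x)) (Qa a (Qa a hx))) * a := by
    have e1 := conj_T' a hx
    have e2 := conj_T' a (Qa a hx)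
    calc a * (T x hx * T (ap a x) (Qa a hx)) =
        (a * T x hx * a⁻¹) * (a * T (ap a x) (Qa a hx) * a⁻¹) * a := by group
      _ = _ := by rw [e1, e2]
  rw [h2, h1]

theorem bb_K (d : Dl K a) (hK : CK K) {x : V} (hx : Q x = 1) : bb a x hx ∈ K :=
  hK.cent a d.mem d.id _ (d.bb_mem hx) (d.bb_comm hx)

theorem bb_x (d : Dl K a) {x : V} (hx : Q x = 1) : ap (bb a x hx) x = ap a x := by
  have hB := d.Bx hx
  have hB' : B Q (ap a x) x = 1 := by rw [B, QuadraticMap.polar_comm]; exact hB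
  show ap (T x hx) (ap (T (ap a x) (Qa a hx)) x) = _
  rw [T_ap, T_ap, hB', one_smul, B, QuadraticMap.polar_add_right]
  change x + ap a x + (B Q x x + B Q x (ap a x)) • x = _
  rw [B_self, hB, zero_add, one_smul]
  calc x + ap a x + x = (x + x) + ap a x := by abel
    _ = ap a x := by rw [add_self, zero_add]

theorem bb_ax (d : Dl K a) {x : V} (hx : Q x = 1) : ap (bb a x hx) (ap a x) = ap a x + x := by
  have hB := d.Bx hx
  show ap (T x hx) (ap (T (ap a x) (Qa a hx)) (ap a x)) = _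
  rw [T_ap, T_ap, B_self, zero_smul, add_zero, hB, one_smul]

theorem bb_w {x : V} (hx : Q x = 1) {w : V} (h1 : B Q x w = 0) (h2 : B Q (ap a x) w = 0) :
    ap (bb a x hx) w = w := by
  show ap (T x hx) (ap (T (ap a x) (Qa a hx)) w) = _
  rw [T_ap, T_ap, h2, zero_smul, add_zero, h1, zero_smul, add_zero]

/-- `a b` is again such an element -/
theorem mul_bb (d : Dl K a) (hK : CK K) {x : V} (hx : Q x = 1) : Dl K (a * bb a x hx) where
  mem := mul_mem d.mem (d.bb_K hK hx)
  id := by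
    intro v
    have hB := d.Bx hx
    have hB' : B Q (ap a x) x = 1 := by rw [B, QuadraticMap.polar_comm]; exact hB
    have hc : ∀ v, ap (a * bb a x hx) v = ap a (ap (bb a x hx) v) := fun v => rfl
    have cx : ap (a * bb a x hx) x = ap a x + x := by rw [hc, d.bb_x hx, d.sq]
    have cax : ap (a * bb a x hx) (ap a x) = x := by
      rw [hc, d.bb_ax hx]
      show ap a (ap a x + x) = x
      rw [ap, map_add]
      change ap a (ap a x) + ap a x = x
      rw [d.sq]
      calc ap a x + x + ap a x = (ap a x + ap a x) + x := by abel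
        _ = x := by rw [add_self, zero_add]
    obtain ⟨w, hw⟩ : ∃ w, w = v + (B Q (ap a x) v • x + B Q x v • ap a x) := ⟨_, rfl⟩
    have hxw : B Q x w = 0 := by
      rw [hw, B, QuadraticMap.polar_add_right, QuadraticMap.polar_add_right,
        QuadraticMap.polar_smul_right, QuadraticMap.polar_smul_right]
      change B Q x v + (B Q (ap a x) v • B Q x x + B Q x v • B Q x (ap a x)) = 0
      rw [B_self, hB, smul_zero, zero_add, smul_eq_mul, mul_one]
      exact CharTwo.add_self_eq_zero _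
    have haxw : B Q (ap a x) w = 0 := by
      rw [hw, B, QuadraticMap.polar_add_right, QuadraticMap.polar_add_right,
        QuadraticMap.polar_smul_right, QuadraticMap.polar_smul_right]
      change B Q (ap a x) v + (B Q (ap a x) v • B Q (ap a x) x +
        B Q x v • B Q (ap a x) (ap a x)) = 0
      rw [B_self, hB', smul_zero, add_zero, smul_eq_mul, mul_one]
      exact CharTwo.add_self_eq_zero _
    have cw : ap (a * bb a x hx) w = ap a w := by rw [hc, bb_w hx hxw haxw]
    have cw2 : ap (a * bb a x hx) (ap a w) = ap a (ap a w) := by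
      have h1 : ap (bb a x hx) (ap a w) = ap a (ap (bb a x hx) w) := by
        show ap (bb a x hx * a) w = ap (a * bb a x hx) w
        rw [d.bb_comm hx]
      rw [hc, h1, bb_w hx hxw haxw]
    have hv : v = w + (B Q (ap a x) v • x + B Q x v • ap a x) := by
      rw [hw, add_assoc, add_self, add_zero]
    generalize B Q (ap a x) v = s at hv
    generalize B Q x v = t at hv
    have hlin : ∀ g : OGrp Q, ∀ (w x y : V) (s t : ZMod 2),
        ap g (w + (s • x + t • y)) = ap g w + (s • ap g x + t • ap g y) := by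
      intro g w x y s t
      simp only [ap, map_add, map_smul]
    rw [hv, hlin, hlin, cw, cw2, cx, cax]
    have c2x : ap (a * bb a x hx) (ap a x + x) = ap a x := by
      rw [ap, map_add]
      change ap (a * bb a x hx) (ap a x) + ap (a * bb a x hx) x = _
      rw [cax, cx]
      calc x + (ap a x + x) = (x + x) + ap a x := by abel
        _ = ap a x := by rw [add_self, zero_add]
    rw [c2x, cx]
    have e1 : ap a (ap a w) + (s • ap a x + t • (ap a x + x)) +
        (ap a w + (s • (ap a x + x) + t • x)) + (w + (s • x + t • ap a x)) =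
        (ap a (ap a w) + ap a w + w) + s • ((ap a x + ap a x) + (x + x)) +
        t • ((ap a x + ap a x) + (x + x)) := by
      simp only [smul_add]; abel
    rw [e1, d.id w, add_self, add_self, add_zero, smul_zero, smul_zero, add_zero, add_zero]

theorem rel_a (d : Dl K a) (hK : CK K) {x : V} (hx : Q x = 1) :
    T x hx * T (ap a x) (Qa a hx) ∈ K := d.bb_K hK hx

theorem rel_b (d : Dl K a) (hK : CK K) {x y : V} (hx : Q x = 1) (hy : Q y = 1) :
    T y hy * T (ap (bb a x hx) y) (Qa _ hy) ∈ K := by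
  have d2 := d.mul_bb hK hx
  have h1 := d2.rel_a hK hy
  have h2 := d.rel_a hK (Qa (bb a x hx) hy)
  have h3 := mul_mem h1 (inv_mem h2)
  have e : T y hy * T (ap (a * bb a x hx) y) (Qa _ hy) *
      (T (ap (bb a x hx) y) (Qa _ hy) * T (ap a (ap (bb a x hx) y)) (Qa a (Qa _ hy)))⁻¹ =
      (T y hy * T (ap (bb a x hx) y) (Qa _ hy) : OGrp Q) := by
    rw [mul_inv_rev, T_inv, T_inv]
    have : (T (ap (a * bb a x hx) y) (Qa _ hy) : OGrp Q) =
      T (ap a (ap (bb a x hx) y)) (Qa a (Qa _ hy)) := rfl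
    rw [this, mul_assoc, ← mul_assoc (T (ap a (ap (bb a x hx) y)) _), T_sq, one_mul]
  rwa [e] at h3

/-- `y ~ x + y` when `y` is not orthogonal to `x` and `a²x`. -/
theorem rel_c (d : Dl K a) (hK : CK K) {x y : V} (hx : Q x = 1) (hy : Q y = 1)
    (hxy : B Q x y = 1) (h2 : B Q (ap a (ap a x)) y = 1) :
    T y hy * T (x + y) (Q_add hx hy hxy) ∈ K := by
  have hx2 : Q (ap a (ap a x)) = 1 := Qa a (Qa a hx)
  have h3 := d.rel_b hK hx2 hy
  have hc := d.cube x
  have e : ap (bb a (ap a (ap a x)) hx2) y = x + y := by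
    show ap (T (ap a (ap a x)) hx2) (ap (T (ap a (ap a (ap a x))) (Qa a hx2)) y) = _
    rw [T_ap, T_ap, hc, hxy, one_smul, B, QuadraticMap.polar_add_right]
    change y + x + (B Q (ap a (ap a x)) y + B Q (ap a (ap a x)) x) • ap a (ap a x) = _
    have h4 : B Q (ap a (ap a x)) x = 1 := by
      have h5 := d.Bx hx2
      rwa [hc] at h5
    rw [h2, h4, show (1 + 1 : ZMod 2) = 0 by decide, zero_smul, add_zero, add_comm]
  have e2 : (T (ap (bb a (ap a (ap a x)) hx2) y) (Qa _ hy) : OGrp Q) =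
      T (x + y) (Q_add hx hy hxy) := T_congr e _ _
  rwa [e2] at h3

theorem rel_d (d : Dl K a) (hK : CK K) {x y : V} (hx : Q x = 1) (hy : Q y = 1)
    (hxy : B Q x y = 1) : T y hy * T (x + y) (Q_add hx hy hxy) ∈ K := by
  rcases two_cases (B Q (ap a (ap a x)) y) with h | h
  · refine d.inv.rel_c hK hx hy hxy ?_
    rw [d.inv_ap, d.inv_ap, d.cube]
    have h1 : B Q (ap a (ap a x)) y = B Q (ap a x) y + B Q x y := by
      rw [d.sq]; exact QuadraticMap.polar_add_left _ _ _ _
    rw [h, hxy] at h1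
    revert h1
    generalize B Q (ap a x) y = t
    revert t; decide
  · exact d.rel_c hK hx hy hxy h

theorem rel_e (d : Dl K a) (hK : CK K) {x y : V} (hx : Q x = 1) (hy : Q y = 1)
    (hxy : B Q x y = 1) : T x hx * T y hy ∈ K := by
  have hyx : B Q y x = 1 := by rw [B, QuadraticMap.polar_comm]; exact hxy
  have h1 := d.rel_d hK hx hy hxy
  have h2 := d.rel_d hK hy hx hyx
  have h3 := mul_mem h2 (inv_mem h1)
  have e : (T (y + x) (Q_add hy hx hyx) : OGrp Q) = T (x + y) (Q_add hx hy hxy) :=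
    T_congr (add_comm _ _) _ _
  rw [e, mul_inv_rev, T_inv, T_inv, mul_assoc, ← mul_assoc (T (x + y) _), T_sq, one_mul] at h3
  exact h3

end Dl

/-- vanishing of `H¹` -/
theorem h1_zero [FiniteDimensional (ZMod 2) V] (hQ : (QuadraticMap.polarBilin Q).Nondegenerate)
    (hn : 5 ≤ finrank (ZMod 2) V) (hex : ∃ x : V, Q x = 1) {a : OGrp Q}
    (haC : a ∈ commutator (OGrp Q)) (ha : ∀ v, ap a (ap a v) + ap a v + v = 0)
    (f : ↥(commutator (OGrp Q)) → V)
    (hf : ∀ g h : ↥(commutator (OGrp Q)), f (g * h) = f g + ap (g : OGrp Q) (f h)) :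
    ∃ v : V, ∀ g : ↥(commutator (OGrp Q)), f g = ap (g : OGrp Q) v - v := by
  set v0 := ap a (f ⟨a, haC⟩) with hv0
  refine ⟨v0, ?_⟩
  set F : ↥(commutator (OGrp Q)) → V := fun g => f g + (ap (g : OGrp Q) v0 + v0) with hF
  have hFm : ∀ g h, F (g * h) = F g + ap (g : OGrp Q) (F h) := by
    intro g h
    simp only [hF]
    rw [hf]
    have e1 : ap ((g * h : ↥(commutator (OGrp Q))) : OGrp Q) v0 =
      ap (g : OGrp Q) (ap (h : OGrp Q) v0) := rfl
    have e2 : ap (g : OGrp Q) (f h + (ap (h : OGrp Q) v0 + v0)) = ap (g : OGrp Q) (f h) +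
        (ap (g : OGrp Q) (ap (h : OGrp Q) v0) + ap (g : OGrp Q) v0) := by
      simp only [ap, map_add]
    rw [e1, e2]
    calc f g + ap (g : OGrp Q) (f h) + (ap (g : OGrp Q) (ap (h : OGrp Q) v0) + v0) =
        f g + ap (g : OGrp Q) (f h) + (ap (g : OGrp Q) (ap (h : OGrp Q) v0) + v0) +
          (ap (g : OGrp Q) v0 + ap (g : OGrp Q) v0) := by rw [add_self, add_zero]
      _ = _ := by abel
  have hF1 : F 1 = 0 := by
    have h1 := hFm 1 1
    rw [mul_one] at h1
    have e : ap ((1 : ↥(commutator (OGrp Q))) : OGrp Q) (F 1) = F 1 := rfl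
    rw [e, add_self] at h1
    exact h1
  have hFa : F ⟨a, haC⟩ = 0 := by
    have h1 := ha (f ⟨a, haC⟩)
    simp only [hF]
    rw [hv0]
    calc f ⟨a, haC⟩ + (ap a (ap a (f ⟨a, haC⟩)) + ap a (f ⟨a, haC⟩)) =
        ap a (ap a (f ⟨a, haC⟩)) + ap a (f ⟨a, haC⟩) + f ⟨a, haC⟩ := by abel
      _ = 0 := h1
  let K : Subgroup (OGrp Q) := {
    carrier := {g | ∃ hg : g ∈ commutator (OGrp Q), F ⟨g, hg⟩ = 0}
    one_mem' := ⟨one_mem _, hF1⟩
    mul_mem' := by
      rintro g h ⟨hg, hg0⟩ ⟨hh, hh0⟩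
      refine ⟨mul_mem hg hh, ?_⟩
      have := hFm ⟨g, hg⟩ ⟨h, hh⟩
      rw [hg0, hh0] at this
      rw [show (⟨g * h, mul_mem hg hh⟩ : ↥(commutator (OGrp Q))) = ⟨g, hg⟩ * ⟨h, hh⟩ from rfl, this]
      simp [ap]
    inv_mem' := by
      rintro g ⟨hg, hg0⟩
      refine ⟨inv_mem hg, ?_⟩
      have h1 := hFm ⟨g, hg⟩ ⟨g⁻¹, inv_mem hg⟩
      rw [show (⟨g, hg⟩ * ⟨g⁻¹, inv_mem hg⟩ : ↥(commutator (OGrp Q))) = 1 from
        Subtype.ext (mul_inv_cancel g), hF1, hg0, zero_add] at h1
      have h2 : ap g (F ⟨g⁻¹, inv_mem hg⟩) = ap g 0 := by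
        rw [← h1]; simp [ap]
      exact (g : V ≃ₗ[ZMod 2] V).injective h2 }
  have hKm : ∀ g, g ∈ K ↔ ∃ hg : g ∈ commutator (OGrp Q), F ⟨g, hg⟩ = 0 := fun g => Iff.rfl
  have hCK : CK K := {
    cent := by
      intro b hb hbid g hg hgb
      rw [hKm]
      refine ⟨hg, ?_⟩
      obtain ⟨hbC, hb0⟩ := (hKm b).mp hb
      have h1 := hFm ⟨g, hg⟩ ⟨b, hbC⟩
      have h2 := hFm ⟨b, hbC⟩ ⟨g, hg⟩
      have e : (⟨g, hg⟩ * ⟨b, hbC⟩ : ↥(commutator (OGrp Q))) = ⟨b, hbC⟩ * ⟨g, hg⟩ :=
        Subtype.ext hgb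
      rw [e, h2, hb0, zero_add] at h1
      have h3 : ap b (F ⟨g, hg⟩) = F ⟨g, hg⟩ := by
        have e0 : ap g (0 : V) = 0 := by simp [ap]
        change ap b (F ⟨g, hg⟩) = F ⟨g, hg⟩ + ap g 0 at h1
        rw [e0, add_zero] at h1
        exact h1
      have h4 := hbid (F ⟨g, hg⟩)
      rw [h3, h3, add_self, zero_add] at h4
      exact h4 }
  have hdl : Dl K a := { mem := (hKm a).mpr ⟨haC, hFa⟩, id := ha }
  have hle := commutator_le hQ (by omega) hex
    (pair_mem hQ hn (K := K) (fun x y hx hy hxy => hdl.rel_e hCK hx hy hxy))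
  intro g
  obtain ⟨hg, hg0⟩ := (hKm g).mp (hle g.2)
  have h1 : f g + (ap (g : OGrp Q) v0 + v0) = 0 := hg0
  rw [sub_eq, three (x := f g) (y := ap (g : OGrp Q) v0) (z := v0) (by rw [add_assoc]; exact h1)]

end CfsgLib.H1Orth28
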