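import Mathlib
import Cfsg.Agent.LibH1Orth28B

set_option autoImplicit false

/-! First cohomology of orthogonal groups over `F₂` on the natural module, III (helper28). -/

namespace CfsgLib.H1Orth28

open Cfsg.Agent.H22
open Module

/-- transport to matrices -/
theorem mat_of {ι : Type} [Fintype ι] [DecidableEq ι] (q : QuadraticForm (ZMod 2) (ι → ZMod 2))
    (H : ∀ f : ↥(commutator (OGrp q)) → (ι → ZMod 2),
      (∀ g h : ↥(commutator (OGrp q)), f (g * h) = f g + ap (g : OGrp q) (f h)) →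
      ∃ v : ι → ZMod 2, ∀ g : ↥(commutator (OGrp q)), f g = ap (g : OGrp q) v - v)
    (f : ↥(Cfsg.Omega (ZMod 2) ⇑q) → (ι → ZMod 2))
    (hf : ∀ g h : ↥(Cfsg.Omega (ZMod 2) ⇑q), f (g * h) = f g +
      Matrix.mulVec (((g : ↥(Cfsg.isometryGroup (ZMod 2) ⇑q)) : GL ι (ZMod 2)) :
        Matrix ι ι (ZMod 2)) (f h)) :
    ∃ v : ι → ZMod 2, ∀ g : ↥(Cfsg.Omega (ZMod 2) ⇑q), f g =
      Matrix.mulVec (((g : ↥(Cfsg.isometryGroup (ZMod 2) ⇑q)) : GL ι (ZMod 2)) :
        Matrix ι ι (ZMod 2)) v - v := by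
  have key : ∀ (g : ↥(Cfsg.Omega (ZMod 2) ⇑q)) (v : ι → ZMod 2),
      Matrix.mulVec (((g : ↥(Cfsg.isometryGroup (ZMod 2) ⇑q)) : GL ι (ZMod 2)) :
        Matrix ι ι (ZMod 2)) v = ap ((omegaIso q g : ↥(commutator (OGrp q))) : OGrp q) v := by
    intro g v; rfl
  obtain ⟨v, hv⟩ := H (fun g => f ((omegaIso q).symm g)) (by
    intro g h
    rw [map_mul, hf, key, MulEquiv.apply_symm_apply])
  refine ⟨v, fun g => ?_⟩
  have := hv (omegaIso q g)
  rw [MulEquiv.symm_apply_apply] at this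
  rw [this, key]

/-! ### plus type, dimension 8 -/

def hP : (Fin 4 ⊕ Fin 4 → ZMod 2) →ₗ[ZMod 2] (Fin 4 ⊕ Fin 4 → ZMod 2) where
  toFun v := Sum.elim ![v (.inl 1), v (.inl 0), v (.inl 3), v (.inl 2)]
    ![v (.inr 1), v (.inr 0), v (.inr 3), v (.inr 2)]
  map_add' v w := by
    funext k
    rcases k with k | k <;> fin_cases k <;> simp
  map_smul' c v := by
    funext k
    rcases k with k | k <;> fin_cases k <;> simp

def hP' : (Fin 4 ⊕ Fin 4 → ZMod 2) →ₗ[ZMod 2] (Fin 4 ⊕ Fin 4 → ZMod 2) where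
  toFun v := Sum.elim ![v (.inl 0) + v (.inl 1), v (.inl 1), v (.inl 2) + v (.inl 3), v (.inl 3)]
    ![v (.inr 0), v (.inr 0) + v (.inr 1), v (.inr 2), v (.inr 2) + v (.inr 3)]
  map_add' v w := by
    funext k
    rcases k with k | k <;> fin_cases k <;> simp <;> ring
  map_smul' c v := by
    funext k
    rcases k with k | k <;> fin_cases k <;> simp <;> ring

theorem hP_inv (v : Fin 4 ⊕ Fin 4 → ZMod 2) : hP (hP v) = v := by
  funext k
  rcases k with k | k <;> fin_cases k <;> simp [hP]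

theorem add_cancel (a b : ZMod 2) : a + b + b = a := by revert a b; decide
theorem add_cancel' (a b : ZMod 2) : a + (a + b) = b := by revert a b; decide

theorem hP'_inv (v : Fin 4 ⊕ Fin 4 → ZMod 2) : hP' (hP' v) = v := by
  funext k
  rcases k with k | k <;> fin_cases k <;> simp [hP', add_cancel, add_cancel']

theorem hP_Q (v : Fin 4 ⊕ Fin 4 → ZMod 2) : qPlus 4 (ZMod 2) (hP v) = qPlus 4 (ZMod 2) v := by
  rw [coe_qPlus]
  unfold Cfsg.quadFormPlus
  simp only [Fin.sum_univ_four, hP, LinearMap.coe_mk, AddHom.coe_mk, Sum.elim_inl, Sum.elim_inr,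
    Matrix.cons_val]
  ring

theorem hP'_Q (v : Fin 4 ⊕ Fin 4 → ZMod 2) : qPlus 4 (ZMod 2) (hP' v) = qPlus 4 (ZMod 2) v := by
  rw [coe_qPlus]
  unfold Cfsg.quadFormPlus
  simp only [Fin.sum_univ_four, hP', LinearMap.coe_mk, AddHom.coe_mk, Sum.elim_inl, Sum.elim_inr,
    Matrix.cons_val]
  have h2 : (2 : ZMod 2) = 0 := by decide
  linear_combination (v (.inl 1) * v (.inr 0) + v (.inl 3) * v (.inr 2)) * h2

def gP : OGrp (qPlus 4 (ZMod 2)) := ⟨LinearEquiv.ofInvolutive hP hP_inv, hP_Q⟩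
def gP' : OGrp (qPlus 4 (ZMod 2)) := ⟨LinearEquiv.ofInvolutive hP' hP'_inv, hP'_Q⟩

theorem gP_sq : gP * gP = 1 := ext_O hP_inv
theorem gP'_sq : gP' * gP' = 1 := ext_O hP'_inv

def aP : OGrp (qPlus 4 (ZMod 2)) := gP * gP' * gP⁻¹ * gP'⁻¹

theorem aP_mem : aP ∈ commutator (OGrp (qPlus 4 (ZMod 2))) := by
  rw [commutator_def]
  exact Subgroup.commutator_mem_commutator trivial trivial

theorem aP_eq : aP = gP * gP' * gP * gP' := by
  rw [aP, inv_eq_of_mul_eq_one_left gP_sq, inv_eq_of_mul_eq_one_left gP'_sq]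

theorem aP_id (v : Fin 4 ⊕ Fin 4 → ZMod 2) : ap aP (ap aP v) + ap aP v + v = 0 := by
  have h1 : ∀ v, ap aP v = hP (hP' (hP (hP' v))) := by
    intro v; rw [aP_eq]; rfl
  rw [h1, h1]
  have h2 : (2 : ZMod 2) = 0 := by decide
  funext k
  rcases k with k | k <;> fin_cases k <;>
    simp only [hP, hP', LinearMap.coe_mk, AddHom.coe_mk, Sum.elim_inl, Sum.elim_inr,
      Matrix.cons_val, Pi.add_apply, Pi.zero_apply, Fin.zero_eta, Fin.mk_one, Fin.reduceFinMk]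
  · generalize v (.inl 0) = a; generalize v (.inl 1) = b; revert a b; decide
  · generalize v (.inl 0) = a; generalize v (.inl 1) = b; revert a b; decide
  · generalize v (.inl 2) = a; generalize v (.inl 3) = b; revert a b; decide
  · generalize v (.inl 2) = a; generalize v (.inl 3) = b; revert a b; decide
  · generalize v (.inr 0) = a; generalize v (.inr 1) = b; revert a b; decide
  · generalize v (.inr 0) = a; generalize v (.inr 1) = b; revert a b; decide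
  · generalize v (.inr 2) = a; generalize v (.inr 3) = b; revert a b; decide
  · generalize v (.inr 2) = a; generalize v (.inr 3) = b; revert a b; decide

theorem plus_case (f : ↥(commutator (OGrp (qPlus 4 (ZMod 2)))) → (Fin 4 ⊕ Fin 4 → ZMod 2))
    (hf : ∀ g h, f (g * h) = f g + ap (g : OGrp (qPlus 4 (ZMod 2))) (f h)) :
    ∃ v, ∀ g, f g = ap (g : OGrp (qPlus 4 (ZMod 2))) v - v := by
  refine h1_zero (nondeg_qPlus 4) (by simp) ?_ aP_mem aP_id f hf
  refine ⟨Sum.elim ![1, 0, 0, 0] ![1, 0, 0, 0], ?_⟩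
  rw [coe_qPlus]
  unfold Cfsg.quadFormPlus
  simp [Fin.sum_univ_four]

/-! ### minus type, dimension 6 -/

def hM : ((Fin 2 ⊕ Fin 2) ⊕ Fin 2 → ZMod 2) →ₗ[ZMod 2] ((Fin 2 ⊕ Fin 2) ⊕ Fin 2 → ZMod 2) where
  toFun v := Sum.elim (Sum.elim ![v (.inl (.inl 1)), v (.inl (.inl 0))]
    ![v (.inl (.inr 1)), v (.inl (.inr 0))]) ![v (.inr 1), v (.inr 0)]
  map_add' v w := by
    funext k
    rcases k with (k | k) | k <;> fin_cases k <;> simp
  map_smul' c v := by
    funext k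
    rcases k with (k | k) | k <;> fin_cases k <;> simp

def hM' : ((Fin 2 ⊕ Fin 2) ⊕ Fin 2 → ZMod 2) →ₗ[ZMod 2] ((Fin 2 ⊕ Fin 2) ⊕ Fin 2 → ZMod 2) where
  toFun v := Sum.elim (Sum.elim ![v (.inl (.inl 0)) + v (.inl (.inl 1)), v (.inl (.inl 1))]
    ![v (.inl (.inr 0)), v (.inl (.inr 0)) + v (.inl (.inr 1))])
    ![v (.inr 0) + v (.inr 1), v (.inr 1)]
  map_add' v w := by
    funext k
    rcases k with (k | k) | k <;> fin_cases k <;> simp <;> ring
  map_smul' c v := by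
    funext k
    rcases k with (k | k) | k <;> fin_cases k <;> simp <;> ring

theorem hM_inv (v : (Fin 2 ⊕ Fin 2) ⊕ Fin 2 → ZMod 2) : hM (hM v) = v := by
  funext k
  rcases k with (k | k) | k <;> fin_cases k <;> simp [hM]

theorem hM'_inv (v : (Fin 2 ⊕ Fin 2) ⊕ Fin 2 → ZMod 2) : hM' (hM' v) = v := by
  funext k
  rcases k with (k | k) | k <;> fin_cases k <;> simp [hM', add_cancel, add_cancel']

theorem hM_Q (v : (Fin 2 ⊕ Fin 2) ⊕ Fin 2 → ZMod 2) :
    qMinus 2 (ZMod 2) 1 1 (hM v) = qMinus 2 (ZMod 2) 1 1 v := by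
  rw [coe_qMinus]
  unfold Cfsg.quadFormMinus
  simp only [Fin.sum_univ_two, hM, LinearMap.coe_mk, AddHom.coe_mk, Sum.elim_inl, Sum.elim_inr,
    Matrix.cons_val]
  ring

theorem hM'_Q (v : (Fin 2 ⊕ Fin 2) ⊕ Fin 2 → ZMod 2) :
    qMinus 2 (ZMod 2) 1 1 (hM' v) = qMinus 2 (ZMod 2) 1 1 v := by
  rw [coe_qMinus]
  unfold Cfsg.quadFormMinus
  simp only [Fin.sum_univ_two, hM', LinearMap.coe_mk, AddHom.coe_mk, Sum.elim_inl, Sum.elim_inr,
    Matrix.cons_val]
  have h2 : (2 : ZMod 2) = 0 := by decide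
  linear_combination (v (.inl (.inl 1)) * v (.inl (.inr 0)) + v (.inr 0) * v (.inr 1) +
    v (.inr 1) ^ 2) * h2

def gM : OGrp (qMinus 2 (ZMod 2) 1 1) := ⟨LinearEquiv.ofInvolutive hM hM_inv, hM_Q⟩
def gM' : OGrp (qMinus 2 (ZMod 2) 1 1) := ⟨LinearEquiv.ofInvolutive hM' hM'_inv, hM'_Q⟩

theorem gM_sq : gM * gM = 1 := ext_O hM_inv
theorem gM'_sq : gM' * gM' = 1 := ext_O hM'_inv

def aM : OGrp (qMinus 2 (ZMod 2) 1 1) := gM * gM' * gM⁻¹ * gM'⁻¹

theorem aM_mem : aM ∈ commutator (OGrp (qMinus 2 (ZMod 2) 1 1)) := by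
  rw [commutator_def]
  exact Subgroup.commutator_mem_commutator trivial trivial

theorem aM_eq : aM = gM * gM' * gM * gM' := by
  rw [aM, inv_eq_of_mul_eq_one_left gM_sq, inv_eq_of_mul_eq_one_left gM'_sq]

theorem aM_id (v : (Fin 2 ⊕ Fin 2) ⊕ Fin 2 → ZMod 2) : ap aM (ap aM v) + ap aM v + v = 0 := by
  have h1 : ∀ v, ap aM v = hM (hM' (hM (hM' v))) := by
    intro v; rw [aM_eq]; rfl
  rw [h1, h1]
  funext k
  rcases k with (k | k) | k <;> fin_cases k <;>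
    simp only [hM, hM', LinearMap.coe_mk, AddHom.coe_mk, Sum.elim_inl, Sum.elim_inr,
      Matrix.cons_val, Pi.add_apply, Pi.zero_apply, Fin.zero_eta, Fin.mk_one, Fin.reduceFinMk]
  · generalize v (.inl (.inl 0)) = a; generalize v (.inl (.inl 1)) = b; revert a b; decide
  · generalize v (.inl (.inl 0)) = a; generalize v (.inl (.inl 1)) = b; revert a b; decide
  · generalize v (.inl (.inr 0)) = a; generalize v (.inl (.inr 1)) = b; revert a b; decide
  · generalize v (.inl (.inr 0)) = a; generalize v (.inl (.inr 1)) = b; revert a b; decide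
  · generalize v (.inr 0) = a; generalize v (.inr 1) = b; revert a b; decide
  · generalize v (.inr 0) = a; generalize v (.inr 1) = b; revert a b; decide

theorem aniso : ∀ z₁ z₂ : ZMod 2, z₁ ^ 2 + 1 * z₁ * z₂ + 1 * z₂ ^ 2 = 0 → z₁ = 0 ∧ z₂ = 0 := by
  decide

theorem minus_case (f : ↥(commutator (OGrp (qMinus 2 (ZMod 2) 1 1))) →
    ((Fin 2 ⊕ Fin 2) ⊕ Fin 2 → ZMod 2))
    (hf : ∀ g h, f (g * h) = f g + ap (g : OGrp (qMinus 2 (ZMod 2) 1 1)) (f h)) :
    ∃ v, ∀ g, f g = ap (g : OGrp (qMinus 2 (ZMod 2) 1 1)) v - v := by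
  refine h1_zero (nondeg_qMinus 2 1 1 aniso) (by simp) ?_ aM_mem aM_id f hf
  refine ⟨Sum.elim (Sum.elim ![1, 0] ![1, 0]) ![0, 0], ?_⟩
  rw [coe_qMinus]
  unfold Cfsg.quadFormMinus
  simp [Fin.sum_univ_two]

end CfsgLib.H1Orth28
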