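import Mathlib
import Cfsg.Agent.LibH1Orth28C
import Cfsg.Agent.LibH22OOrd3

set_option autoImplicit false

/-! First cohomology of `Ω₄⁻(2)` on the natural module (helper28). -/

namespace CfsgLib.H1Orth28

open Cfsg.Agent.H22
open Module

/-- restriction to subgroups of odd index detects cocycles, char 2. -/
theorem transfer {Γ V : Type*} [Group Γ] [Finite Γ] [AddCommGroup V] (hV : ∀ x : V, x + x = 0)
    (act : Γ → V → V) (hadd : ∀ g x y, act g (x + y) = act g x + act g y)
    (F : Γ → V) (hF : ∀ g h, F (g * h) = F g + act g (F h)) (P : Subgroup Γ)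
    (hP : ∀ p ∈ P, F p = 0) (hodd : Odd P.index) : ∃ v, ∀ g, F g = act g v + v := by
  classical
  haveI : Fintype (Γ ⧸ P) := Fintype.ofFinite _
  have h0 : ∀ g, act g 0 = 0 := by
    intro g
    have := hadd g 0 0
    rw [add_zero] at this
    rw [this]; exact hV _
  let φ : Γ ⧸ P → V := Quotient.lift F (by
    intro a b hab
    have h1 : a⁻¹ * b ∈ P := QuotientGroup.leftRel_apply.mp hab
    have h2 := hF a (a⁻¹ * b)
    rw [mul_inv_cancel_left, hP _ h1, h0, add_zero] at h2
    exact h2.symm)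
  have hφ : ∀ g : Γ, φ (g : Γ ⧸ P) = F g := fun g => rfl
  have hact : ∀ (g : Γ) (q : Γ ⧸ P), φ (g • q) = F g + act g (φ q) := by
    intro g q
    induction q using QuotientGroup.induction_on with
    | H x =>
      show φ ((g * x : Γ) : Γ ⧸ P) = _
      rw [hφ, hφ, hF]
  refine ⟨∑ q : Γ ⧸ P, φ q, fun g => ?_⟩
  have h1 : ∑ q : Γ ⧸ P, φ (g • q) = ∑ q : Γ ⧸ P, φ q :=
    Equiv.sum_comp (MulAction.toPerm g) φ
  have hsum : ∀ s : Finset (Γ ⧸ P), ∑ q ∈ s, act g (φ q) = act g (∑ q ∈ s, φ q) := by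
    intro s
    induction s using Finset.induction_on with
    | empty => simp [h0]
    | insert a s ha ih => rw [Finset.sum_insert ha, Finset.sum_insert ha, hadd, ih]
  have h2 : ∑ q : Γ ⧸ P, φ (g • q) = F g + act g (∑ q : Γ ⧸ P, φ q) := by
    simp only [hact]
    rw [Finset.sum_add_distrib, hsum, Finset.sum_const, Finset.card_univ,
      ← Nat.card_eq_fintype_card]
    have h3 : Nat.card (Γ ⧸ P) = P.index := rfl
    rw [h3]
    obtain ⟨k, hk⟩ := hodd
    rw [hk, add_nsmul, mul_nsmul, one_nsmul, two_nsmul, hV, nsmul_zero, zero_add]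
  rw [h1] at h2
  calc F g = F g + (act g (∑ q : Γ ⧸ P, φ q) + act g (∑ q : Γ ⧸ P, φ q)) := by
        rw [hV, add_zero]
    _ = (F g + act g (∑ q : Γ ⧸ P, φ q)) + act g (∑ q : Γ ⧸ P, φ q) := by abel
    _ = (∑ q : Γ ⧸ P, φ q) + act g (∑ q : Γ ⧸ P, φ q) := by rw [← h2]
    _ = _ := add_comm _ _

abbrev V4 := (Fin 1 ⊕ Fin 1) ⊕ Fin 2 → ZMod 2

def mk4 (a b c d : ZMod 2) : V4 := Sum.elim (Sum.elim ![a] ![b]) ![c, d]

abbrev cx (v : V4) : ZMod 2 := v (.inl (.inl 0))
abbrev cy (v : V4) : ZMod 2 := v (.inl (.inr 0))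
abbrev c0 (v : V4) : ZMod 2 := v (.inr 0)
abbrev c1 (v : V4) : ZMod 2 := v (.inr 1)

theorem mk4_eta (v : V4) : mk4 (cx v) (cy v) (c0 v) (c1 v) = v := by
  funext k
  rcases k with (k | k) | k <;> fin_cases k <;> simp [mk4]

theorem ext4 {v w : V4} (h1 : cx v = cx w) (h2 : cy v = cy w) (h3 : c0 v = c0 w)
    (h4 : c1 v = c1 w) : v = w := by
  rw [← mk4_eta v, ← mk4_eta w, h1, h2, h3, h4]

/-- a linear map from formulas -/
def lin (f : V4 → V4) (hf : ∀ v w, f (v + w) = f v + f w) : V4 →ₗ[ZMod 2] V4 where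
  toFun := f
  map_add' := hf
  map_smul' c v := by
    rcases two_cases c with rfl | rfl
    · simp only [zero_smul, RingHom.id_apply]
      have := hf 0 0
      rw [add_zero] at this
      rw [this]; exact add_self _
    · simp

theorem q_mk (v : V4) : qMinus 1 (ZMod 2) 1 1 v = cx v * cy v +
    (c0 v ^ 2 + 1 * c0 v * c1 v + 1 * c1 v ^ 2) := by
  rw [coe_qMinus]
  unfold Cfsg.quadFormMinus
  simp

abbrev q4 := qMinus 1 (ZMod 2) 1 1

def el (f : V4 → V4) (hf : ∀ v w, f (v + w) = f v + f w) (hi : ∀ v, f (f v) = v)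
    (hq : ∀ v, q4 (f v) = q4 v) : OGrp q4 :=
  ⟨LinearEquiv.ofInvolutive (lin f hf) hi, hq⟩

theorem el_ap {f : V4 → V4} {hf : ∀ v w, f (v + w) = f v + f w} {hi : ∀ v, f (f v) = v}
    {hq : ∀ v, q4 (f v) = q4 v} (v : V4) : ap (el f hf hi hq) v = f v := rfl

theorem el_sq {f : V4 → V4} {hf : ∀ v w, f (v + w) = f v + f w} {hi : ∀ v, f (f v) = v}
    {hq : ∀ v, q4 (f v) = q4 v} : el f hf hi hq * el f hf hi hq = 1 := ext_O hi

def f1 (v : V4) : V4 := mk4 (cx v + c1 v + cy v) (cy v) (c0 v + cy v) (c1 v)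
def f2 (v : V4) : V4 := mk4 (cx v + c0 v + cy v) (cy v) (c0 v) (c1 v + cy v)
def ft (v : V4) : V4 := mk4 (cx v) (cy v) (c0 v + c1 v) (c1 v)
def ft' (v : V4) : V4 := mk4 (cx v) (cy v) (c0 v) (c0 v + c1 v)
def f0 (v : V4) : V4 := mk4 (cy v) (cx v) (c0 v) (c1 v)

theorem cx_mk (a b c d : ZMod 2) : cx (mk4 a b c d) = a := rfl
theorem cy_mk (a b c d : ZMod 2) : cy (mk4 a b c d) = b := rfl
theorem c0_mk (a b c d : ZMod 2) : c0 (mk4 a b c d) = c := rfl
theorem c1_mk (a b c d : ZMod 2) : c1 (mk4 a b c d) = d := rfl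
theorem cx_add (v w : V4) : cx (v + w) = cx v + cx w := rfl
theorem cy_add (v w : V4) : cy (v + w) = cy v + cy w := rfl
theorem c0_add (v w : V4) : c0 (v + w) = c0 v + c0 w := rfl
theorem c1_add (v w : V4) : c1 (v + w) = c1 v + c1 w := rfl

theorem f1_add (v w : V4) : f1 (v + w) = f1 v + f1 w := by
  apply ext4 <;> simp only [f1, cx_mk, cy_mk, c0_mk, c1_mk, cx_add, cy_add, c0_add, c1_add] <;> ring
theorem f2_add (v w : V4) : f2 (v + w) = f2 v + f2 w := by
  apply ext4 <;> simp only [f2, cx_mk, cy_mk, c0_mk, c1_mk, cx_add, cy_add, c0_add, c1_add] <;> ring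
theorem ft_add (v w : V4) : ft (v + w) = ft v + ft w := by
  apply ext4 <;> simp only [ft, cx_mk, cy_mk, c0_mk, c1_mk, cx_add, cy_add, c0_add, c1_add] <;> ring
theorem ft'_add (v w : V4) : ft' (v + w) = ft' v + ft' w := by
  apply ext4 <;> simp only [ft', cx_mk, cy_mk, c0_mk, c1_mk, cx_add, cy_add, c0_add, c1_add] <;> ring
theorem f0_add (v w : V4) : f0 (v + w) = f0 v + f0 w := by
  apply ext4 <;> simp only [f0, cx_mk, cy_mk, c0_mk, c1_mk, cx_add, cy_add, c0_add, c1_add]

theorem f1_inv (v : V4) : f1 (f1 v) = v := by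
  apply ext4 <;> simp only [f1, cx_mk, cy_mk, c0_mk, c1_mk] <;>
    (generalize cx v = a; generalize cy v = b; generalize c0 v = c; generalize c1 v = d;
     revert a b c d; decide)
theorem f2_inv (v : V4) : f2 (f2 v) = v := by
  apply ext4 <;> simp only [f2, cx_mk, cy_mk, c0_mk, c1_mk] <;>
    (generalize cx v = a; generalize cy v = b; generalize c0 v = c; generalize c1 v = d;
     revert a b c d; decide)
theorem ft_inv (v : V4) : ft (ft v) = v := by
  apply ext4 <;> simp only [ft, cx_mk, cy_mk, c0_mk, c1_mk] <;>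
    (generalize cx v = a; generalize cy v = b; generalize c0 v = c; generalize c1 v = d;
     revert a b c d; decide)
theorem ft'_inv (v : V4) : ft' (ft' v) = v := by
  apply ext4 <;> simp only [ft', cx_mk, cy_mk, c0_mk, c1_mk] <;>
    (generalize cx v = a; generalize cy v = b; generalize c0 v = c; generalize c1 v = d;
     revert a b c d; decide)
theorem f0_inv (v : V4) : f0 (f0 v) = v := by
  apply ext4 <;> simp only [f0, cx_mk, cy_mk, c0_mk, c1_mk]

theorem f1_q (v : V4) : q4 (f1 v) = q4 v := by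
  rw [q_mk, q_mk]
  simp only [f1, cx_mk, cy_mk, c0_mk, c1_mk]
  generalize cx v = a; generalize cy v = b; generalize c0 v = c; generalize c1 v = d
  revert a b c d; decide
theorem f2_q (v : V4) : q4 (f2 v) = q4 v := by
  rw [q_mk, q_mk]
  simp only [f2, cx_mk, cy_mk, c0_mk, c1_mk]
  generalize cx v = a; generalize cy v = b; generalize c0 v = c; generalize c1 v = d
  revert a b c d; decide
theorem ft_q (v : V4) : q4 (ft v) = q4 v := by
  rw [q_mk, q_mk]
  simp only [ft, cx_mk, cy_mk, c0_mk, c1_mk]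
  generalize cx v = a; generalize cy v = b; generalize c0 v = c; generalize c1 v = d
  revert a b c d; decide
theorem ft'_q (v : V4) : q4 (ft' v) = q4 v := by
  rw [q_mk, q_mk]
  simp only [ft', cx_mk, cy_mk, c0_mk, c1_mk]
  generalize cx v = a; generalize cy v = b; generalize c0 v = c; generalize c1 v = d
  revert a b c d; decide
theorem f0_q (v : V4) : q4 (f0 v) = q4 v := by
  rw [q_mk, q_mk]
  simp only [f0, cx_mk, cy_mk, c0_mk, c1_mk]
  generalize cx v = a; generalize cy v = b; generalize c0 v = c; generalize c1 v = d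
  revert a b c d; decide

def s1 : OGrp q4 := el f1 f1_add f1_inv f1_q
def s2 : OGrp q4 := el f2 f2_add f2_inv f2_q
def tt : OGrp q4 := el ft ft_add ft_inv ft_q
def tt' : OGrp q4 := el ft' ft'_add ft'_inv ft'_q
def g0 : OGrp q4 := el f0 f0_add f0_inv f0_q

theorem s1_mem : s1 ∈ commutator (OGrp q4) := by
  have h1 : s1 = tt * s2 * tt⁻¹ * s2⁻¹ := by
    have e1 : tt⁻¹ = tt := inv_eq_of_mul_eq_one_left el_sq
    have e2 : s2⁻¹ = s2 := inv_eq_of_mul_eq_one_left el_sq
    rw [e1, e2]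
    apply ext_O
    intro v
    show f1 v = ft (f2 (ft (f2 v)))
    apply ext4 <;> simp only [f1, f2, ft, cx_mk, cy_mk, c0_mk, c1_mk] <;>
      (generalize cx v = a; generalize cy v = b; generalize c0 v = c; generalize c1 v = d;
       revert a b c d; decide)
  rw [h1, commutator_def]
  exact Subgroup.commutator_mem_commutator trivial trivial

theorem s2_mem : s2 ∈ commutator (OGrp q4) := by
  have h1 : s2 = tt' * s1 * tt'⁻¹ * s1⁻¹ := by
    have e1 : tt'⁻¹ = tt' := inv_eq_of_mul_eq_one_left el_sq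
    have e2 : s1⁻¹ = s1 := inv_eq_of_mul_eq_one_left el_sq
    rw [e1, e2]
    apply ext_O
    intro v
    show f2 v = ft' (f1 (ft' (f1 v)))
    apply ext4 <;> simp only [f1, f2, ft', cx_mk, cy_mk, c0_mk, c1_mk] <;>
      (generalize cx v = a; generalize cy v = b; generalize c0 v = c; generalize c1 v = d;
       revert a b c d; decide)
  rw [h1, commutator_def]
  exact Subgroup.commutator_mem_commutator trivial trivial

theorem s12 : s1 * s2 = s2 * s1 := by
  apply ext_O
  intro v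
  show f1 (f2 v) = f2 (f1 v)
  apply ext4 <;> simp only [f1, f2, cx_mk, cy_mk, c0_mk, c1_mk] <;>
    (generalize cx v = a; generalize cy v = b; generalize c0 v = c; generalize c1 v = d;
     revert a b c d; decide)

/-- singular vectors -/
abbrev X4 := {v : V4 // q4 v = 0 ∧ v ≠ 0}

def perm : OGrp q4 →* Equiv.Perm X4 where
  toFun g := {
    toFun := fun x => ⟨ap g x, by rw [Q_apply]; exact x.2.1, fun h => x.2.2 (by
      have := congrArg (fun w => ap g⁻¹ w) h
      change ap g⁻¹ (ap g (x : V4)) = ap g⁻¹ 0 at this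
      have e : ap g⁻¹ (ap g (x : V4)) = x := by
        show ((g⁻¹ * g : OGrp q4) : V4 ≃ₗ[ZMod 2] V4) (x : V4) = x
        rw [inv_mul_cancel]; rfl
      rw [e] at this
      rw [this]; simp [ap])⟩
    invFun := fun x => ⟨ap g⁻¹ x, by rw [Q_apply]; exact x.2.1, fun h => x.2.2 (by
      have := congrArg (fun w => ap g w) h
      change ap g (ap g⁻¹ (x : V4)) = ap g 0 at this
      have e : ap g (ap g⁻¹ (x : V4)) = x := by
        show ((g * g⁻¹ : OGrp q4) : V4 ≃ₗ[ZMod 2] V4) (x : V4) = x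
        rw [mul_inv_cancel]; rfl
      rw [e] at this
      rw [this]; simp [ap])⟩
    left_inv := fun x => Subtype.ext (by
      show ((g⁻¹ * g : OGrp q4) : V4 ≃ₗ[ZMod 2] V4) (x : V4) = x
      rw [inv_mul_cancel]; rfl)
    right_inv := fun x => Subtype.ext (by
      show ((g * g⁻¹ : OGrp q4) : V4 ≃ₗ[ZMod 2] V4) (x : V4) = x
      rw [mul_inv_cancel]; rfl) }
  map_one' := Equiv.ext fun x => Subtype.ext rfl
  map_mul' g h := Equiv.ext fun x => Subtype.ext rfl

def e1 : X4 := ⟨mk4 1 0 0 0, by rw [q_mk]; decide, fun h => by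
  have := congrArg cx h; revert this; decide⟩
def e2 : X4 := ⟨mk4 0 1 0 0, by rw [q_mk]; decide, fun h => by
  have := congrArg cy h; revert this; decide⟩

noncomputable section

open Classical in
theorem perm_g0 : perm g0 = Equiv.swap e1 e2 := by
  ext1 x
  rw [Equiv.swap_apply_def]
  split_ifs with h1 h2
  · rw [h1]
    exact Subtype.ext rfl
  · rw [h2]
    exact Subtype.ext rfl
  · apply Subtype.ext
    show f0 (x : V4) = x
    obtain ⟨v, hv, hv0⟩ := x
    rw [q_mk] at hv
    have h1' : v ≠ mk4 1 0 0 0 := fun h => h1 (Subtype.ext h)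
    have h2' : v ≠ mk4 0 1 0 0 := fun h => h2 (Subtype.ext h)
    have key : ∀ a b c d : ZMod 2, a * b + (c ^ 2 + 1 * c * d + 1 * d ^ 2) = 0 →
        (a = 0 ∧ b = 0 ∧ c = 0 ∧ d = 0) ∨ (a = 1 ∧ b = 0 ∧ c = 0 ∧ d = 0) ∨
        (a = 0 ∧ b = 1 ∧ c = 0 ∧ d = 0) ∨ a = b := by decide
    show f0 v = v
    rcases key _ _ _ _ hv with ⟨h3, h4, h5, h6⟩ | ⟨h3, h4, h5, h6⟩ | ⟨h3, h4, h5, h6⟩ | h3
    · exfalso
      apply hv0
      exact ext4 h3 h4 h5 h6
    · exact absurd (ext4 h3 h4 h5 h6) h1'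
    · exact absurd (ext4 h3 h4 h5 h6) h2'
    · apply ext4 <;> simp only [f0, cx_mk, cy_mk, c0_mk, c1_mk]
      · exact h3.symm
      · exact h3

open Classical in
def sg : OGrp q4 →* ℤˣ := (Equiv.Perm.sign (α := X4)).comp perm

theorem sg_g0 : sg g0 = -1 := by
  classical
  show Equiv.Perm.sign (perm g0) = -1
  rw [perm_g0]
  apply Equiv.Perm.sign_swap
  intro h
  have := congrArg (fun x : X4 => cx (x : V4)) h
  revert this
  show (1 : ZMod 2) = 0 → False
  decide

end

theorem card_O4 : Nat.card (OGrp q4) = 120 := by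
  have h := card_O_minus (F := ZMod 2) 1 1 1 aniso
  rw [h, ZMod.card]
  simp

theorem card_C_dvd : Nat.card ↥(commutator (OGrp q4)) ∣ 60 := by
  have h1 : commutator (OGrp q4) ≤ sg.ker := Abelianization.commutator_subset_ker sg
  have h2 : sg.ker.index = 2 := by
    rw [Subgroup.index_ker]
    have h3 : sg.range = ⊤ := by
      rw [MonoidHom.range_eq_top]
      intro u
      rcases Int.units_eq_one_or u with h | h
      · exact ⟨1, by rw [map_one, h]⟩
      · exact ⟨g0, by rw [sg_g0, h]⟩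
    rw [h3, Subgroup.card_top, Nat.card_eq_fintype_card]
    rfl
  have h3 := sg.ker.card_mul_index
  rw [h2, card_O4] at h3
  have h4 : Nat.card sg.ker = 60 := by omega
  rw [← h4]
  exact Subgroup.card_dvd_of_le h1

end CfsgLib.H1Orth28
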