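import Mathlib
import Cfsg.Agent.LibH1Orth28D

set_option autoImplicit false

/-! First cohomology of `Ω₄⁻(2)` on the natural module (helper28), second part. -/

namespace CfsgLib.H1Orth28

open Cfsg.Agent.H22
open Module

theorem four_case (f : ↥(commutator (OGrp q4)) → V4)
    (hf : ∀ g h, f (g * h) = f g + ap (g : OGrp q4) (f h)) :
    ∃ v, ∀ g, f g = ap (g : OGrp q4) v - v := by
  haveI : Finite (OGrp q4) := Nat.finite_of_card_ne_zero (by rw [card_O4]; norm_num)
  have hlin : ∀ (g : OGrp q4) (x y : V4), ap g (x + y) = ap g x + ap g y := by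
    intro g x y; simp only [ap, map_add]
  have hf1 : f 1 = 0 := by
    have h1 := hf 1 1
    rw [mul_one] at h1
    have e : ap ((1 : ↥(commutator (OGrp q4))) : OGrp q4) (f 1) = f 1 := rfl
    rw [e, add_self] at h1
    exact h1
  -- values
  set w1 := f ⟨s1, s1_mem⟩ with hw1
  set w2 := f ⟨s2, s2_mem⟩ with hw2
  have r1 : w1 + f1 w1 = 0 := by
    have h := hf ⟨s1, s1_mem⟩ ⟨s1, s1_mem⟩
    rw [show (⟨s1, s1_mem⟩ * ⟨s1, s1_mem⟩ : ↥(commutator (OGrp q4))) = 1 from Subtype.ext el_sq, hf1] at h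
    exact h.symm
  have r2 : w2 + f2 w2 = 0 := by
    have h := hf ⟨s2, s2_mem⟩ ⟨s2, s2_mem⟩
    rw [show (⟨s2, s2_mem⟩ * ⟨s2, s2_mem⟩ : ↥(commutator (OGrp q4))) = 1 from Subtype.ext el_sq, hf1] at h
    exact h.symm
  have r3 : w1 + f1 w2 = w2 + f2 w1 := by
    have h := hf ⟨s1, s1_mem⟩ ⟨s2, s2_mem⟩
    have h' := hf ⟨s2, s2_mem⟩ ⟨s1, s1_mem⟩
    rw [show (⟨s1, s1_mem⟩ * ⟨s2, s2_mem⟩ : ↥(commutator (OGrp q4))) = ⟨s2, s2_mem⟩ * ⟨s1, s1_mem⟩ from
      Subtype.ext s12, h'] at h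
    exact h.symm
  have hv : ∃ v : V4, w1 = f1 v + v ∧ w2 = f2 v + v := by
    have a1 := congrArg cx r1
    have a3 := congrArg c0 r1
    have b1 := congrArg cx r2
    have b4 := congrArg c1 r2
    have d1 := congrArg cx r3
    have z1 : cx (0 : V4) = 0 := rfl
    have z3 : c0 (0 : V4) = 0 := rfl
    have z4 : c1 (0 : V4) = 0 := rfl
    rw [z1] at a1 b1
    rw [z3] at a3
    rw [z4] at b4
    simp only [f1, f2, cx_mk, cy_mk, c0_mk, c1_mk, cx_add, cy_add, c0_add, c1_add] at a1 a3 b1 b4 d1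
    have kA : ∀ x y u w : ZMod 2, x + (x + w + y) = 0 → u + (u + y) = 0 → y = 0 ∧ w = 0 := by decide
    obtain ⟨k1, k2⟩ := kA _ _ _ _ a1 a3
    obtain ⟨k3, k4⟩ := kA _ _ _ _ b1 b4
    rw [k1, k3, add_zero, add_zero] at d1
    have kB : ∀ x y u w : ZMod 2, x + (y + u) = y + (x + w) → u = w := by decide
    have k5 := kB _ _ _ _ d1
    have kC : ∀ x p : ZMod 2, x = 0 + (x + p) + p + 0 := by decide
    have kD : ∀ x p : ZMod 2, p = x + p + x := by decide
    have kE : ∀ p : ZMod 2, 0 = p + p := by decide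
    refine ⟨mk4 0 (c0 w1) (cx w2 + c0 w1) (cx w1 + c0 w1), ?_, ?_⟩
    · apply ext4
      · simp only [f1, cx_mk, cy_mk, c0_mk, c1_mk, cx_add, cy_add, c0_add, c1_add]
        exact kC _ _
      · simp only [f1, cx_mk, cy_mk, c0_mk, c1_mk, cx_add, cy_add, c0_add, c1_add]
        rw [k1]; exact kE _
      · simp only [f1, cx_mk, cy_mk, c0_mk, c1_mk, cx_add, cy_add, c0_add, c1_add]
        generalize cx w2 = x; generalize c0 w1 = p; revert x p; decide
      · simp only [f1, cx_mk, cy_mk, c0_mk, c1_mk, cx_add, cy_add, c0_add, c1_add]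
        rw [k2]; exact kE _
    · apply ext4
      · simp only [f2, cx_mk, cy_mk, c0_mk, c1_mk, cx_add, cy_add, c0_add, c1_add]
        exact kC _ _
      · simp only [f2, cx_mk, cy_mk, c0_mk, c1_mk, cx_add, cy_add, c0_add, c1_add]
        rw [k3]; exact kE _
      · simp only [f2, cx_mk, cy_mk, c0_mk, c1_mk, cx_add, cy_add, c0_add, c1_add]
        rw [k4]; exact kE _
      · simp only [f2, cx_mk, cy_mk, c0_mk, c1_mk, cx_add, cy_add, c0_add, c1_add]
        rw [k5]
        generalize cx w1 = x; generalize c0 w1 = p; revert x p; decide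
  obtain ⟨v, hv1, hv2⟩ := hv
  set F : ↥(commutator (OGrp q4)) → V4 := fun g => f g + (ap (g : OGrp q4) v + v) with hF
  have hFm : ∀ g h, F (g * h) = F g + ap (g : OGrp q4) (F h) := by
    intro g h
    simp only [hF]
    rw [hf, hlin, hlin]
    have e1 : ap ((g * h : ↥(commutator (OGrp q4))) : OGrp q4) v = ap (g : OGrp q4) (ap (h : OGrp q4) v) := rfl
    rw [e1]
    calc f g + ap (g : OGrp q4) (f h) + (ap (g : OGrp q4) (ap (h : OGrp q4) v) + v) =
        f g + ap (g : OGrp q4) (f h) + (ap (g : OGrp q4) (ap (h : OGrp q4) v) + v) +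
          (ap (g : OGrp q4) v + ap (g : OGrp q4) v) := by rw [add_self, add_zero]
      _ = _ := by abel
  have hF1 : F 1 = 0 := by
    have h1 := hFm 1 1
    rw [mul_one] at h1
    have e : ap ((1 : ↥(commutator (OGrp q4))) : OGrp q4) (F 1) = F 1 := rfl
    rw [e, add_self] at h1
    exact h1
  let K : Subgroup ↥(commutator (OGrp q4)) := {
    carrier := {g | F g = 0}
    one_mem' := hF1
    mul_mem' := by
      intro g h hg hh
      show F (g * h) = 0
      have hg' : F g = 0 := hg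
      have hh' : F h = 0 := hh
      rw [hFm, hg', hh']; simp [ap]
    inv_mem' := by
      intro g hg
      have hg' : F g = 0 := hg
      have h1 := hFm g g⁻¹
      rw [mul_inv_cancel, hF1, hg', zero_add] at h1
      have h2 : ap (g : OGrp q4) (F g⁻¹) = ap (g : OGrp q4) 0 := by
        rw [← h1]; simp [ap]
      exact ((g : OGrp q4) : V4 ≃ₗ[ZMod 2] V4).injective h2 }
  have hK1 : (⟨s1, s1_mem⟩ : ↥(commutator (OGrp q4))) ∈ K := by
    show f ⟨s1, s1_mem⟩ + (f1 v + v) = 0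
    rw [← hw1, hv1, add_self]
  have hK2 : (⟨s2, s2_mem⟩ : ↥(commutator (OGrp q4))) ∈ K := by
    show f ⟨s2, s2_mem⟩ + (f2 v + v) = 0
    rw [← hw2, hv2, add_self]
  -- 4 divides |K|
  have h4 : 4 ∣ Nat.card K := by
    have x1 : (⟨s1, s1_mem⟩ : ↥(commutator (OGrp q4))) * ⟨s1, s1_mem⟩ = 1 := Subtype.ext el_sq
    have x2 : (⟨s2, s2_mem⟩ : ↥(commutator (OGrp q4))) * ⟨s2, s2_mem⟩ = 1 := Subtype.ext el_sq
    have x12 : (⟨s1, s1_mem⟩ : ↥(commutator (OGrp q4))) * ⟨s2, s2_mem⟩ = ⟨s2, s2_mem⟩ * ⟨s1, s1_mem⟩ := Subtype.ext s12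
    have ne1 : s1 ≠ 1 := by
      intro h
      have := congrArg (fun g : OGrp q4 => c0 (ap g (mk4 0 1 0 0))) h
      revert this
      show (0 + 1 : ZMod 2) = 0 → False
      decide
    have ne2 : s2 ≠ 1 := by
      intro h
      have := congrArg (fun g : OGrp q4 => c1 (ap g (mk4 0 1 0 0))) h
      revert this
      show (0 + 1 : ZMod 2) = 0 → False
      decide
    have ne3 : s1 ≠ s2 := by
      intro h
      have := congrArg (fun g : OGrp q4 => c0 (ap g (mk4 0 1 0 0))) h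
      revert this
      show (0 + 1 : ZMod 2) = 0 → False
      decide
    -- the subgroup {1, s1, s2, s1 s2}
    let φ : Multiplicative (ZMod 2) × Multiplicative (ZMod 2) → K := fun p =>
      (if p.1 = 1 then 1 else ⟨_, hK1⟩) * (if p.2 = 1 then 1 else ⟨_, hK2⟩)
    let S : Subgroup K := {
      carrier := {1, ⟨_, hK1⟩, ⟨_, hK2⟩, ⟨_, hK1⟩ * ⟨_, hK2⟩}
      one_mem' := by simp
      mul_mem' := by
        have y1 : (⟨_, hK1⟩ : K) * ⟨_, hK1⟩ = 1 := Subtype.ext x1
        have y2 : (⟨_, hK2⟩ : K) * ⟨_, hK2⟩ = 1 := Subtype.ext x2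
        have y12 : (⟨_, hK1⟩ : K) * ⟨_, hK2⟩ = ⟨_, hK2⟩ * ⟨_, hK1⟩ := Subtype.ext x12
        generalize (⟨_, hK1⟩ : K) = a at *
        generalize (⟨_, hK2⟩ : K) = b at *
        have y1' : ∀ c, a * (a * c) = c := fun c => by rw [← mul_assoc, y1, one_mul]
        have y2' : ∀ c, b * (b * c) = c := fun c => by rw [← mul_assoc, y2, one_mul]
        have y12' : ∀ c, b * (a * c) = a * (b * c) := fun c => by
          rw [← mul_assoc, ← y12, mul_assoc]
        rintro g h (rfl | rfl | rfl | rfl) (rfl | rfl | rfl | rfl) <;>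
          simp [y1, y2, ← y12, y1', y2', y12', mul_assoc]
      inv_mem' := by
        have y1 : (⟨_, hK1⟩ : K) * ⟨_, hK1⟩ = 1 := Subtype.ext x1
        have y2 : (⟨_, hK2⟩ : K) * ⟨_, hK2⟩ = 1 := Subtype.ext x2
        have y12 : (⟨_, hK1⟩ : K) * ⟨_, hK2⟩ = ⟨_, hK2⟩ * ⟨_, hK1⟩ := Subtype.ext x12
        generalize (⟨_, hK1⟩ : K) = a at *
        generalize (⟨_, hK2⟩ : K) = b at *
        have i1 : a⁻¹ = a := inv_eq_of_mul_eq_one_left y1
        have i2 : b⁻¹ = b := inv_eq_of_mul_eq_one_left y2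
        rintro g (rfl | rfl | rfl | rfl) <;> simp [i1, i2, y12] }
    have hS : Nat.card S = 4 := by
      classical
      have h1 : ((S : Subgroup K) : Set K) =
          (({1, ⟨_, hK1⟩, ⟨_, hK2⟩, ⟨_, hK1⟩ * ⟨_, hK2⟩} : Finset K) : Set K) := by
        simp; rfl
      have h2 : Nat.card S = Nat.card (({1, ⟨_, hK1⟩, ⟨_, hK2⟩, ⟨_, hK1⟩ * ⟨_, hK2⟩} : Finset K) : Set K) := by
        rw [← h1]; rfl
      have n1 : (⟨_, hK1⟩ : K) ≠ 1 := fun h => ne1 (congrArg (fun t : K => ((t : ↥(commutator (OGrp q4))) : OGrp q4)) h)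
      have n2 : (⟨_, hK2⟩ : K) ≠ 1 := fun h => ne2 (congrArg (fun t : K => ((t : ↥(commutator (OGrp q4))) : OGrp q4)) h)
      have n3 : (⟨_, hK1⟩ : K) ≠ ⟨_, hK2⟩ := fun h =>
        ne3 (congrArg (fun t : K => ((t : ↥(commutator (OGrp q4))) : OGrp q4)) h)
      have y2 : (⟨_, hK2⟩ : K) * ⟨_, hK2⟩ = 1 := Subtype.ext x2
      rw [h2, Nat.card_coe_set_eq, Set.ncard_coe_finset]
      generalize (⟨_, hK1⟩ : K) = a at *
      generalize (⟨_, hK2⟩ : K) = b at *
      have i2 : b⁻¹ = b := inv_eq_of_mul_eq_one_left y2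
      rw [Finset.card_insert_of_notMem, Finset.card_insert_of_notMem, Finset.card_insert_of_notMem,
        Finset.card_singleton]
      · rw [Finset.mem_singleton]
        intro hc
        exact n1 (mul_eq_right.mp hc.symm)
      · simp only [Finset.mem_insert, Finset.mem_singleton, not_or]
        exact ⟨n3, fun hc => n2 (mul_eq_left.mp hc.symm)⟩
      · simp only [Finset.mem_insert, Finset.mem_singleton, not_or]
        exact ⟨n1.symm, n2.symm, fun hc => n3 (by rw [eq_inv_of_mul_eq_one_left hc.symm, i2])⟩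
    rw [← hS]
    exact Subgroup.card_subgroup_dvd_card S
  have hodd : Odd K.index := by
    have h5 := K.card_mul_index
    have h6 := card_C_dvd
    obtain ⟨m, hm⟩ := h4
    rw [hm] at h5
    rw [← h5] at h6
    have h7 : K.index ∣ 15 := by
      have : 4 * (m * K.index) ∣ 4 * 15 := by
        rw [← mul_assoc]; exact h6
      exact (Dvd.intro_left m rfl).trans (Nat.dvd_of_mul_dvd_mul_left (by norm_num) this)
    exact Odd.of_dvd_nat (by decide) h7
  obtain ⟨w, hw⟩ := transfer (fun x : V4 => add_self x) (fun (g : ↥(commutator (OGrp q4))) (x : V4) => ap (g : OGrp q4) x)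
    (fun g x y => hlin _ x y) F hFm K (fun p hp => hp) hodd
  refine ⟨w + v, fun g => ?_⟩
  have h1 : f g + (ap (g : OGrp q4) v + v) = ap (g : OGrp q4) w + w := hw g
  rw [sub_eq, hlin]
  calc f g = f g + (ap (g : OGrp q4) v + v) + (ap (g : OGrp q4) v + v) := by
        rw [add_assoc, add_self, add_zero]
    _ = ap (g : OGrp q4) w + w + (ap (g : OGrp q4) v + v) := by rw [h1]
    _ = _ := by abel

end CfsgLib.H1Orth28
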