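import Cfsg.Agent.LibH22Un4
import Cfsg.Agent.LibSylCen27

set_option autoImplicit false

/-! Automorphisms of unitary groups I: Siegel elements (seat helper22). -/

namespace Cfsg.Agent.H22

open Module Matrix Cfsg CfsgLib.Un29

section
variable {F : Type*} [Field F] {σ : F ≃+* F} {q n : ℕ}

local notation "hh" => hermForm n F q

/-- action on vectors -/
def ac (A : Cfsg.SU n F q) (x : Fin n → F) : Fin n → F := suM A *ᵥ x

lemma ac_add (A : Cfsg.SU n F q) (x y : Fin n → F) : ac A (x + y) = ac A x + ac A y := Matrix.mulVec_add _ _ _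
lemma ac_sub (A : Cfsg.SU n F q) (x y : Fin n → F) : ac A (x - y) = ac A x - ac A y := Matrix.mulVec_sub _ _ _
lemma ac_neg (A : Cfsg.SU n F q) (x : Fin n → F) : ac A (-x) = - ac A x := Matrix.mulVec_neg _ _
lemma ac_smul (A : Cfsg.SU n F q) (c : F) (x : Fin n → F) : ac A (c • x) = c • ac A x := Matrix.mulVec_smul _ _ _
lemma ac_zero (A : Cfsg.SU n F q) : ac A (0 : Fin n → F) = 0 := Matrix.mulVec_zero _
lemma ac_one (x : Fin n → F) : ac (1 : Cfsg.SU n F q) x = x := by unfold ac; rw [suM_one, Matrix.one_mulVec]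
lemma ac_mul (A B : Cfsg.SU n F q) (x : Fin n → F) : ac (A * B) x = ac A (ac B x) := by
  unfold ac; rw [suM_mul, Matrix.mulVec_mulVec]
lemma ac_inv (A : Cfsg.SU n F q) (x : Fin n → F) : ac A⁻¹ (ac A x) = x := by rw [← ac_mul, inv_mul_cancel, ac_one]
lemma ac_inv' (A : Cfsg.SU n F q) (x : Fin n → F) : ac A (ac A⁻¹ x) = x := by rw [← ac_mul, mul_inv_cancel, ac_one]
lemma ac_herm (A : Cfsg.SU n F q) (x y : Fin n → F) : hh (ac A x) (ac A y) = hh x y := su_herm A x y
lemma ac_ext {A B : Cfsg.SU n F q} (h : ∀ x, ac A x = ac B x) : A = B := su_ext' h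
lemma ac_inj (A : Cfsg.SU n F q) {x y : Fin n → F} (h : ac A x = ac A y) : x = y := by
  rw [← ac_inv A x, h, ac_inv]
lemma ac_ne (A : Cfsg.SU n F q) {x : Fin n → F} (h : x ≠ 0) : ac A x ≠ 0 := fun h' => h (ac_inj A (h'.trans (ac_zero A).symm))

/-- Siegel elements -/
def IsE (v w : Fin n → F) (t : F) (A : Cfsg.SU n F q) : Prop :=
  ∀ x, ac A x = x + hh x v • w - hh x w • v + (t * hh x v) • v

/-- transvections with centre `v` -/
def TS (v : Fin n → F) : Set (Cfsg.SU n F q) := {A | ∃ c : F, ∀ x, ac A x = x + (c * hh x v) • v}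

lemma IsE.ts {v : Fin n → F} {t : F} {A : Cfsg.SU n F q} (hf : Geo.IsUnitaryForm σ hh) (h : IsE v 0 t A) : A ∈ (TS v : Set (Cfsg.SU n F q)) :=
  ⟨t, fun x => by rw [h, smul_zero, zero_right hf, zero_smul]; abel⟩

lemma exists_E (hf : Geo.IsUnitaryForm σ hh) {v w : Fin n → F} (hv : hh v v = 0) (hvw : hh v w = 0) {t : F} (ht : t + σ t = - hh w w) :
    ∃ A : Cfsg.SU n F q, IsE v w t A := by
  obtain ⟨g, hg, hgx⟩ := exists_siegel hf hv hvw ht
  obtain ⟨A, hA⟩ := exists_su_of_gl hg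
  exact ⟨A, fun x => by unfold ac; rw [hA]; exact hgx x⟩

lemma IsE.mul {v w u : Fin n → F} {t s : F} {A B : Cfsg.SU n F q} (hf : Geo.IsUnitaryForm σ hh) (hv : hh v v = 0) (hvw : hh v w = 0) (hvu : hh v u = 0)
    (hA : IsE v w t A) (hB : IsE v u s B) : IsE v (w + u) (t + s - hh u w) (A * B) := by
  intro x
  have hwv := swap_eq hf hvw
  have huv := swap_eq hf hvu
  rw [ac_mul, hB, hA]
  simp only [hf.add_left, sub_left hf, hf.smul_left, add_right hf, hv, hvw, huv]
  module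

lemma IsE.one {v : Fin n → F} (hf : Geo.IsUnitaryForm σ hh) : IsE v 0 0 (1 : Cfsg.SU n F q) := by
  intro x
  rw [ac_one, zero_right hf]; simp

lemma IsE.inv {v w : Fin n → F} {t : F} {A : Cfsg.SU n F q} (hf : Geo.IsUnitaryForm σ hh) (hv : hh v v = 0) (hvw : hh v w = 0)
    (hA : IsE v w t A) (ht : t + σ t = - hh w w) : IsE v (-w) (σ t) A⁻¹ := by
  intro x
  have hwv := swap_eq hf hvw
  apply ac_inj A
  rw [ac_inv', hA]
  have h1 : hh w w = - t - σ t := by rw [sub_eq_add_neg, ← neg_add, ht, neg_neg]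
  simp only [hf.add_left, sub_left hf, hf.smul_left, neg_left hf, neg_right hf, hv, hvw, hwv, h1]
  module

lemma IsE.congr {v w w' : Fin n → F} {t t' : F} {A : Cfsg.SU n F q} (h : IsE v w t A) (hw : w = w') (ht : t = t') : IsE v w' t' A := by
  rw [← hw, ← ht]; exact h

lemma IsE.conj {v w : Fin n → F} {t : F} {A : Cfsg.SU n F q} (h : IsE v w t A) (g : Cfsg.SU n F q) : IsE (ac g v) (ac g w) t (g * A * g⁻¹) := by
  intro x
  rw [ac_mul, ac_mul, h]
  have e1 : ∀ y : Fin n → F, hh x (ac g y) = hh (ac g⁻¹ x) y := by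
    intro y
    rw [← ac_herm g (ac g⁻¹ x) y, ac_inv']
  rw [e1, e1, ac_add, ac_sub, ac_add, ac_smul, ac_smul, ac_smul, ac_inv']

/-- change of centre -/
lemma IsE.smul_center {v w : Fin n → F} {t a : F} {A : Cfsg.SU n F q} (hf : Geo.IsUnitaryForm σ hh) (h : IsE (a • v) w t A) :
    IsE v (σ a • w) (a * σ a * t) A := by
  intro x
  rw [h, smul_right hf, smul_right hf, hf.involutive]
  module

/-- uniqueness of parameters -/
lemma IsE.uniq {v v' w w' : Fin n → F} {t t' : F} {A : Cfsg.SU n F q} (hf : Geo.IsUnitaryForm σ hh) (hvv' : hh v v' = 1)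
    (hw : hh w v' = 0) (hw' : hh w' v' = 0) (h : IsE v w t A) (h' : IsE v w' t' A) : w = w' ∧ t = t' := by
  have hv'v : hh v' v = 1 := by rw [hf.herm, hvv', map_one]
  have e1 := h v'
  have e2 := h' v'
  rw [e1, hv'v, swap_eq hf hw, swap_eq hf hw'] at e2
  have e3 : w + t • v = w' + t' • v := by
    have h1 : v' + (1 : F) • w - (0 : F) • v + (t * 1) • v = v' + (w + t • v) := by module
    have h2 : v' + (1 : F) • w' - (0 : F) • v + (t' * 1) • v = v' + (w' + t' • v) := by module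
    rw [h1, h2] at e2
    exact add_left_cancel e2
  have e4 : t = t' := by
    have := congrArg (fun y => hh y v') e3
    simp only [hf.add_left, hf.smul_left, hw, hw', hvv'] at this
    linear_combination this
  refine ⟨?_, e4⟩
  rw [e4] at e3
  exact add_right_cancel e3

/-- the unipotent radical -/
def QG (v : Fin n → F) : Subgroup (Cfsg.SU n F q) where
  carrier := {A | ac A v = v ∧ ∀ x, hh x v = 0 → ∃ a : F, ac A x = x + a • v}
  mul_mem' := by
    rintro A B ⟨hA1, hA2⟩ ⟨hB1, hB2⟩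
    refine ⟨by rw [ac_mul, hB1, hA1], fun x hx => ?_⟩
    obtain ⟨a, ha⟩ := hA2 x hx
    obtain ⟨b, hb⟩ := hB2 x hx
    exact ⟨a + b, by rw [ac_mul, hb, ac_add, ha, ac_smul, hA1]; module⟩
  one_mem' := ⟨ac_one v, fun x _ => ⟨0, by rw [ac_one]; simp⟩⟩
  inv_mem' := by
    rintro A ⟨hA1, hA2⟩
    have h1 : ac A⁻¹ v = v := by
      conv_lhs => rw [← hA1]
      exact ac_inv A v
    refine ⟨h1, fun x hx => ?_⟩
    obtain ⟨a, ha⟩ := hA2 x hx
    refine ⟨-a, ?_⟩
    apply ac_inj A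
    rw [ac_inv', ac_add, ac_smul, ha, hA1]; module

lemma mem_QG {v : Fin n → F} {A : Cfsg.SU n F q} : A ∈ QG v ↔ ac A v = v ∧ ∀ x, hh x v = 0 → ∃ a : F, ac A x = x + a • v := Iff.rfl

lemma IsE.mem {v w : Fin n → F} {t : F} {A : Cfsg.SU n F q} (hv : hh v v = 0) (hvw : hh v w = 0) (h : IsE v w t A) : A ∈ QG v := by
  refine ⟨by rw [h, hv, hvw]; simp, fun x hx => ⟨-(hh x w), ?_⟩⟩
  rw [h, hx]; module

/-- elements of the unipotent radical are Siegel elements -/
lemma exists_E_of_mem (hf : Geo.IsUnitaryForm σ hh) {v v' : Fin n → F} (hv : hh v v = 0) (hv' : hh v' v' = 0) (hvv' : hh v v' = 1)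
    {A : Cfsg.SU n F q} (hA : A ∈ QG v) : ∃ w t, hh v w = 0 ∧ hh v' w = 0 ∧ t + σ t = - hh w w ∧ IsE v w t A := by
  obtain ⟨hA1, hA2⟩ := hA
  have hv'v : hh v' v = 1 := by rw [hf.herm, hvv', map_one]
  obtain ⟨y, hy⟩ : ∃ y, y = ac A v' - v' := ⟨_, rfl⟩
  have hyv : hh y v = 0 := by
    rw [hy, sub_left hf]
    have := ac_herm A v' v
    rw [hA1] at this
    rw [this, sub_self]
  obtain ⟨t, ht⟩ : ∃ t, t = hh y v' := ⟨_, rfl⟩
  obtain ⟨w, hw⟩ : ∃ w, w = y - t • v := ⟨_, rfl⟩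
  have hwv : hh w v = 0 := by rw [hw, sub_left hf, hf.smul_left, hyv, hv]; ring
  have hwv' : hh w v' = 0 := by rw [hw, sub_left hf, hf.smul_left, hvv', ← ht]; ring
  have hvw := swap_eq hf hwv
  have hv'w := swap_eq hf hwv'
  have hAv' : ac A v' = v' + w + t • v := by
    have : ac A v' = v' + y := by rw [hy]; abel
    rw [this, hw]; abel
  have htr : t + σ t = - hh w w := by
    have := ac_herm A v' v'
    rw [hAv', hv'] at this
    simp only [hf.add_left, add_right hf, hf.smul_left, smul_right hf, hv, hv', hvv', hv'v, hvw, hwv, hv'w, hwv'] at this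
    linear_combination this
  refine ⟨w, t, hvw, hv'w, htr, ?_⟩
  intro x
  obtain ⟨x0, hx0⟩ : ∃ x0, x0 = x - hh x v • v' := ⟨_, rfl⟩
  have hx0v : hh x0 v = 0 := by rw [hx0, sub_left hf, hf.smul_left, hv'v]; ring
  obtain ⟨a, ha⟩ := hA2 x0 hx0v
  have hx0w : hh x0 w = hh x w := by rw [hx0, sub_left hf, hf.smul_left, hv'w]; ring
  have ha2 : a = - hh x w := by
    have := ac_herm A x0 v'
    rw [ha, hAv'] at this
    simp only [hf.add_left, add_right hf, hf.smul_left, smul_right hf, hv, hvv', hvw, hx0v, hx0w] at this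
    linear_combination this
  have hx : x = x0 + hh x v • v' := by rw [hx0]; abel
  have h1 : ac A x = ac A x0 + hh x v • ac A v' := by
    conv_lhs => rw [hx]
    rw [ac_add, ac_smul]
  rw [h1, ha, hAv', ha2, hx0]
  module

/-- the commutator of Siegel elements -/
lemma IsE.comm {v w u : Fin n → F} {t s : F} {A B C : Cfsg.SU n F q} (hf : Geo.IsUnitaryForm σ hh) (hv : hh v v = 0) (hvw : hh v w = 0) (hvu : hh v u = 0)
    (hA : IsE v w t A) (hB : IsE v u s B) (hC : IsE v 0 (hh w u - hh u w) C) : A * B = C * (B * A) := by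
  apply ac_ext
  intro x
  have h1 := hA.mul hf hv hvw hvu hB
  have h2 := hC.mul hf hv (zero_right hf v) (by rw [add_right hf, hvu, hvw, add_zero]) (hB.mul hf hv hvu hvw hA)
  rw [h1, h2]
  simp only [zero_add, zero_right hf, add_right hf, add_comm u w]
  module

end

end Cfsg.Agent.H22
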