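import Cfsg.Agent.LibH22AU9

set_option autoImplicit false

/-! Automorphisms of unitary groups X: class splitting and Lang's theorem for field automorphisms of odd order (seat helper22). -/

namespace Cfsg.Agent.H22

open Module Matrix Cfsg CfsgLib.Un29 CfsgLib.SylCen27 CfsgLib.FTPG27

section Odd
variable {F : Type*} [Field F] [Fintype F] {q n : ℕ}

local notation "hh" => hermForm n F q
local notation "V" => (Fin n → F)

open CfsgLib.Semi27 CfsgLib.H9027

variable {q0 r : ℕ} {σ : F ≃+* F}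

/-- fixed norm one elements -/
def N1s (F : Type*) [Field F] (q : ℕ) (σ : F ≃+* F) : Subgroup (N1 F q) where
  carrier := {u | σ (u.1 : F) = (u.1 : F)}
  mul_mem' {a b} ha hb := by
    have ha' : σ (a.1 : F) = (a.1 : F) := ha
    have hb' : σ (b.1 : F) = (b.1 : F) := hb
    show σ ((a * b : N1 F q).1 : F) = _
    rw [Subgroup.coe_mul, Units.val_mul, map_mul, ha', hb']
  one_mem' := by
    show σ ((1 : N1 F q).1 : F) = _
    rw [OneMemClass.coe_one, Units.val_one, map_one]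
  inv_mem' {a} ha := by
    have ha' : σ (a.1 : F) = (a.1 : F) := ha
    show σ ((a⁻¹ : N1 F q).1 : F) = _
    rw [Subgroup.coe_inv, Units.val_inv_eq_inv_val, map_inv₀, ha']

lemma OddF.card_N1s (H : OddF F q q0 r σ) : Nat.card (N1s F q σ) = q0 + 1 := by
  letI : Fintype (fixF σ) := Fintype.ofFinite _
  have hK : Fintype.card (fixF σ) = q0 ^ 2 := by rw [← Nat.card_eq_fintype_card, H.hK]
  rw [← card_norm_fiber hK 1 one_ne_zero (one_pow q0)]
  refine Nat.card_congr ⟨fun u => ⟨⟨(u.1.1 : F), u.2⟩, ?_⟩, fun x => ⟨⟨Units.mk0 (x.1 : F) ?_, ?_⟩, ?_⟩, fun u => ?_, fun x => ?_⟩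
  · apply Subtype.ext
    show (u.1.1 : F) ^ (q0 + 1) = 1
    rw [pow_succ, ← H.pow_eq _ u.2, ← pow_succ]
    have := congrArg Units.val (mem_N1.1 u.1.2)
    rwa [Units.val_pow_eq_pow_val, Units.val_one] at this
  · intro h0
    have h1 := congrArg Subtype.val x.2
    have h2 : ((x.1 : fixF σ) : F) ^ (q0 + 1) = 1 := h1
    rw [h0, zero_pow (by omega)] at h2
    exact zero_ne_one h2
  · rw [mem_N1]
    apply Units.ext
    rw [Units.val_pow_eq_pow_val, Units.val_mk0, Units.val_one, pow_succ, H.pow_eq _ x.1.2, ← pow_succ]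
    exact congrArg Subtype.val x.2
  · exact x.1.2
  · exact Subtype.ext (Subtype.ext (Units.ext rfl))
  · exact Subtype.ext (Subtype.ext rfl)

/-- the splitting number -/
theorem OddF.split (H : OddF F q q0 r σ) (hn : 3 ≤ n) :
    Cfsg.splitClassCount (Cfsg.inndiagPSU n F q) (Cfsg.Inn (Cfsg.PSU n F q)) (phiU n F q σ) = Nat.gcd n ((q + 1) / (q0 + 1)) := by
  have hN := card_N1 H.hF
  haveI : IsCyclic (N1 F q) := inferInstance
  rw [inndiagPSU_eq, CfsgLib.Split27.splitCount_eq (rhoU n F q) _ _ (dU H.hF) (dU_surj H.hF (by omega)) (powMonoidHom n : N1 F q →* N1 F q).range (mem_innU_iff H.hF hn) innU_le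
    (N1s F q σ ⊔ (powMonoidHom n : N1 F q →* N1 F q).range)]
  · rw [CfsgLib.Split27.index_sup, IsCyclic.index_powMonoidHom_range]
    have h1 : (N1s F q σ).index = (q + 1) / (q0 + 1) := by
      rw [← H.card_N1s, ← hN, ← Subgroup.card_mul_index (N1s F q σ), Nat.mul_div_cancel_left _ Nat.card_pos]
    have h2 : (N1s F q σ).index ∣ Nat.card (N1 F q) := Subgroup.index_dvd_card _
    rw [← Nat.gcd_assoc, Nat.gcd_eq_left h2, Nat.gcd_comm, h1]
  · intro z
    rw [Subgroup.mem_sup]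
    constructor
    · rintro ⟨u, hu, t, ht, rfl⟩
      obtain ⟨σ', hσ', hf'⟩ := hermForm_unitary (F := F) n H.hF
      have hu1 : u.1 ∈ (CfsgLib.AutPSL27.Nh σ').ker := by
        rw [MonoidHom.mem_ker]
        apply Units.ext
        rw [CfsgLib.AutPSL27.Nh_apply, hσ', ← pow_succ', ← Units.val_pow_eq_pow_val, mem_N1.1 u.2]
      -- a diagonal matrix
      have key : (diagonal (fun i : Fin n => if i = ⟨0, by omega⟩ then (u.1 : F) else 1)).det = u.1 := by
        rw [det_diagonal, Finset.prod_eq_single ⟨0, by omega⟩]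
        · rw [if_pos rfl]
        · intro b _ hb
          rw [if_neg hb]
        · intro h
          exact absurd (Finset.mem_univ _) h
      obtain ⟨g, hg⟩ : ∃ g : GL (Fin n) F, (g : Matrix (Fin n) (Fin n) F) = diagonal (fun i : Fin n => if i = ⟨0, by omega⟩ then (u.1 : F) else 1) :=
        ⟨Matrix.GeneralLinearGroup.mkOfDetNeZero (diagonal (fun i : Fin n => if i = ⟨0, by omega⟩ then (u.1 : F) else 1)) (by
          rw [key]; exact u.1.ne_zero), rfl⟩
      have hgU : g ∈ Cfsg.GU n F q := by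
        rw [CfsgLib.AutPSL27.GU_eq hσ', CfsgLib.AutPSL27.mem_uni_iff, hg, diagonal_map (map_zero σ'), diagonal_transpose, diagonal_mul_diagonal, ← diagonal_one]
        congr 1
        ext i
        by_cases hi : i = ⟨0, by omega⟩
        · have hu' := congrArg Units.val (MonoidHom.mem_ker.1 hu1)
          rw [CfsgLib.AutPSL27.Nh_apply, Units.val_one] at hu'
          simp [hi, hu']
        · simp [hi]
      have hdet : dU H.hF ⟨g, hgU⟩ = u := by
        apply Subtype.ext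
        rw [dU_coe]
        apply Units.ext
        rw [Matrix.GeneralLinearGroup.val_det_apply]
        show (g : Matrix (Fin n) (Fin n) F).det = _
        rw [hg, key]
      refine ⟨⟨g, hgU⟩, ?_, t, ht, by rw [hdet]⟩
      rw [H.comm_iff hn]
      refine ⟨1, g, one_pow _, ?_, hgU, by rw [scal_one, one_mul]⟩
      apply Units.ext
      rw [CfsgLib.Semi27.coe_gm, hg, diagonal_map (map_zero σ)]
      congr 1
      ext i
      by_cases hi : i = ⟨0, by omega⟩
      · simp only [hi, if_true]; exact hu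
      · simp [hi]
    · rintro ⟨c, hc, t, ht, rfl⟩
      obtain ⟨u, g, hu, hg, hgU, hcu⟩ := (H.comm_iff hn c).1 hc
      have hcm : dU H.hF c = (⟨u, hu⟩ : N1 F q) ^ n * dU H.hF ⟨g, hgU⟩ := by
        apply Subtype.ext
        rw [Subgroup.coe_mul, SubmonoidClass.coe_pow, dU_coe, dU_coe, hcu, map_mul, det_scalU]
      refine ⟨dU H.hF ⟨g, hgU⟩, ?_, (⟨u, hu⟩ : N1 F q) ^ n * t, Subgroup.mul_mem _ ⟨_, rfl⟩ ht, ?_⟩
      · show σ (((dU H.hF ⟨g, hgU⟩ : N1 F q).1 : Fˣ) : F) = _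
        rw [dU_coe]
        show σ ((g : Matrix (Fin n) (Fin n) F).det) = (g : Matrix (Fin n) (Fin n) F).det
        have h1 : ((g : Matrix (Fin n) (Fin n) F).map (σ : F →+* F)).det = σ ((g : Matrix (Fin n) (Fin n) F).det) := ((σ : F →+* F).map_det _).symm
        rw [← h1]
        have h2 := congrArg (fun x : GL (Fin n) F => (x : Matrix (Fin n) (Fin n) F).det) hg
        exact h2
      · rw [hcm, ← mul_assoc, mul_comm ((⟨u, hu⟩ : N1 F q) ^ n)]

/-- descent of the form -/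
theorem OddF.hformU (H : OddF F q q0 r σ) (hn : 3 ≤ n) (g : Cfsg.GU n F q) (l : Fˣ) (k : GL (Fin n) F) (hk : g.1 * gm σ k = scal l * k) :
    ∃ (k' : Cfsg.GU n F q) (l' : Fˣ), g.1 * gm σ k'.1 = scal l' * k'.1 := by
  haveI : Nonempty (Fin n) := ⟨⟨0, by omega⟩⟩
  obtain ⟨τ, hτ, hf⟩ := hermForm_unitary (F := F) n H.hF
  have hτ2 : ∀ a, τ (τ a) = a := hf.involutive
  have hτσ : ∀ a, τ (σ a) = σ (τ a) := by
    intro a
    rw [hτ, hτ, map_pow]
  -- restriction to the fixed field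
  letI : Fintype (fixF σ) := Fintype.ofFinite _
  have hK : Fintype.card (fixF σ) = q0 ^ 2 := by rw [← Nat.card_eq_fintype_card, H.hK]
  obtain ⟨τ0, hτ0, hf0⟩ := hermForm_unitary (F := fixF σ) n hK
  have hτ0' : ∀ a : fixF σ, ((τ0 a : fixF σ) : F) = τ (a : F) := by
    intro a
    rw [hτ0, hτ, H.pow_eq (a : F) a.2]
    rfl
  obtain ⟨M, hM⟩ : ∃ M : Matrix (Fin n) (Fin n) F, M = (k : Matrix (Fin n) (Fin n) F)ᵀ * (k : Matrix (Fin n) (Fin n) F).map τ := ⟨_, rfl⟩
  have hgU' : ∀ x : GL (Fin n) F, x ∈ Cfsg.GU n F q → (x : Matrix (Fin n) (Fin n) F)ᵀ * (x : Matrix (Fin n) (Fin n) F).map τ = 1 := by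
    intro x hx
    rw [CfsgLib.AutPSL27.GU_eq hτ, CfsgLib.AutPSL27.mem_uni_iff] at hx
    exact hx
  have hgU := hgU' g.1 g.2
  have hMt : ∀ i j, τ (M i j) = M j i := by
    intro i j
    rw [hM, Matrix.mul_apply, Matrix.mul_apply, map_sum]
    refine Finset.sum_congr rfl fun a _ => ?_
    rw [map_mul, Matrix.transpose_apply, Matrix.transpose_apply, Matrix.map_apply, Matrix.map_apply, hτ2, mul_comm]
  have hgk : (g.1 : Matrix (Fin n) (Fin n) F) * (k : Matrix (Fin n) (Fin n) F).map σ = (l : F) • (k : Matrix (Fin n) (Fin n) F) := by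
    have h1 := congrArg (fun x : GL (Fin n) F => (x : Matrix (Fin n) (Fin n) F)) hk
    simp only [Units.val_mul] at h1
    rw [CfsgLib.Semi27.coe_gm] at h1
    rw [h1]
    ext a b
    have := scal_mul_apply l k a b
    rw [Units.val_mul] at this
    rw [this]; rfl
  have hMσ : ∀ i j, σ (M i j) = ((l : F) * τ (l : F)) * M i j := by
    have e1 : M.map σ = ((g.1 : Matrix (Fin n) (Fin n) F) * (k : Matrix (Fin n) (Fin n) F).map σ)ᵀ * ((g.1 : Matrix (Fin n) (Fin n) F) * (k : Matrix (Fin n) (Fin n) F).map σ).map τ := by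
      have e2 : ((g.1 : Matrix (Fin n) (Fin n) F) * (k : Matrix (Fin n) (Fin n) F).map σ).map τ = (g.1 : Matrix (Fin n) (Fin n) F).map τ * ((k : Matrix (Fin n) (Fin n) F).map σ).map τ :=
        Matrix.map_mul (f := (τ : F →+* F))
      have e3 : M.map σ = (k : Matrix (Fin n) (Fin n) F)ᵀ.map σ * ((k : Matrix (Fin n) (Fin n) F).map τ).map σ := by
        rw [hM]
        exact Matrix.map_mul (f := (σ : F →+* F))
      have e4 : ((k : Matrix (Fin n) (Fin n) F).map τ).map σ = ((k : Matrix (Fin n) (Fin n) F).map σ).map τ := by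
        ext a b
        simp only [Matrix.map_apply]
        exact (hτσ _).symm
      rw [e2, Matrix.transpose_mul]
      have e6 : ((k : Matrix (Fin n) (Fin n) F).map σ)ᵀ * (g.1 : Matrix (Fin n) (Fin n) F)ᵀ * ((g.1 : Matrix (Fin n) (Fin n) F).map τ * ((k : Matrix (Fin n) (Fin n) F).map σ).map τ) =
          ((k : Matrix (Fin n) (Fin n) F).map σ)ᵀ * ((g.1 : Matrix (Fin n) (Fin n) F)ᵀ * (g.1 : Matrix (Fin n) (Fin n) F).map τ) * ((k : Matrix (Fin n) (Fin n) F).map σ).map τ := by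
        simp only [Matrix.mul_assoc]
      rw [e6, hgU, Matrix.mul_one, e3, e4]
      rfl
    intro i j
    have e5 := congrFun (congrFun e1 i) j
    rw [Matrix.map_apply, hgk] at e5
    rw [e5, hM, Matrix.mul_apply, Matrix.mul_apply, Finset.mul_sum]
    refine Finset.sum_congr rfl fun a _ => ?_
    simp only [Matrix.transpose_apply, Matrix.map_apply, Matrix.smul_apply, smul_eq_mul, map_mul]
    ring
  have hMdet : M.det ≠ 0 := by
    rw [hM, Matrix.det_mul, Matrix.det_transpose]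
    have h1 : ((k : Matrix (Fin n) (Fin n) F).map τ).det = τ ((k : Matrix (Fin n) (Fin n) F).det) := ((τ : F →+* F).map_det _).symm
    have h2 : (k : Matrix (Fin n) (Fin n) F).det ≠ 0 := (Matrix.GeneralLinearGroup.det k).ne_zero
    rw [h1]
    exact mul_ne_zero h2 (fun h => h2 ((map_eq_zero τ).1 h))
  -- a real value
  obtain ⟨y0, hy00, hy0τ, hy0σ⟩ : ∃ y0 : F, y0 ≠ 0 ∧ τ y0 = y0 ∧ σ y0 = ((l : F) * τ (l : F)) * y0 := by
    obtain ⟨i, j, hij⟩ : ∃ i j, M i j ≠ 0 := by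
      by_contra hcon
      push Not at hcon
      apply hMdet
      have : M = 0 := by ext i j; exact hcon i j
      rw [this, Matrix.det_zero]
    obtain ⟨c0, hc0⟩ := exists_moved hf0
    have hc0' : τ (c0 : F) ≠ (c0 : F) := fun h => hc0 (Subtype.ext ((hτ0' c0).trans h))
    have hgen : ∀ c : fixF σ, τ ((c : F) * M i j + τ ((c : F) * M i j)) = (c : F) * M i j + τ ((c : F) * M i j) ∧
        σ ((c : F) * M i j + τ ((c : F) * M i j)) = ((l : F) * τ (l : F)) * ((c : F) * M i j + τ ((c : F) * M i j)) := by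
      intro c
      have hc : σ (c : F) = c := c.2
      constructor
      · rw [map_add, hτ2, add_comm]
      · rw [map_add, ← hτσ, map_mul σ, hc, hMσ]
        simp only [map_mul, hτ2]; ring
    by_contra hcon
    push Not at hcon
    have hz : ∀ c : fixF σ, (c : F) * M i j + τ ((c : F) * M i j) = 0 := by
      intro c
      by_contra hne
      exact hcon _ hne (hgen c).1 (hgen c).2
    have h1 := hz 1
    have h2 := hz c0
    have h1' : M i j + τ (M i j) = 0 := by
      have : ((1 : fixF σ) : F) = 1 := rfl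
      rw [this, one_mul] at h1
      exact h1
    rw [map_mul] at h2
    have h3 : ((c0 : F) - τ (c0 : F)) * M i j = 0 := by linear_combination h2 - τ (c0 : F) * h1'
    exact hc0' (sub_eq_zero.1 ((mul_eq_zero.1 h3).resolve_right hij)).symm
  -- the descended matrix
  have hent : ∀ i j, σ (y0⁻¹ * M i j) = y0⁻¹ * M i j := by
    intro i j
    have hN : (l : F) * τ (l : F) ≠ 0 := mul_ne_zero l.ne_zero (fun h => l.ne_zero ((map_eq_zero τ).1 h))
    rw [map_mul, map_inv₀, hMσ, hy0σ]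
    field_simp
  obtain ⟨NK, hNK⟩ : ∃ NK : Matrix (Fin n) (Fin n) (fixF σ), NK = fun i j => ⟨y0⁻¹ * M i j, hent i j⟩ := ⟨_, rfl⟩
  have hNKc : ∀ i j, ((NK i j : fixF σ) : F) = y0⁻¹ * M i j := by
    intro i j; rw [hNK]
  obtain ⟨ι, hι⟩ : ∃ ι : fixF σ →+* F, ι = (fixF σ).subtype := ⟨_, rfl⟩
  have hιc : ∀ a, ι a = (a : F) := by intro a; rw [hι]; rfl
  have hNKM : NK.map ι = y0⁻¹ • M := by
    ext i j
    rw [Matrix.map_apply, hιc, hNKc]; rfl
  have hNKdet : NK.det ≠ 0 := by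
    intro h
    have h1 := ι.map_det NK
    rw [h, map_zero] at h1
    have h2 : (NK.map ι).det = 0 := h1.symm
    rw [hNKM, Matrix.det_smul] at h2
    exact (mul_ne_zero (pow_ne_zero _ (inv_ne_zero hy00)) hMdet) h2
  obtain ⟨G, hG⟩ : ∃ G : GL (Fin n) (fixF σ), (G : Matrix (Fin n) (Fin n) (fixF σ)) = NK := ⟨Matrix.GeneralLinearGroup.mkOfDetNeZero NK hNKdet, rfl⟩
  obtain ⟨h, hhm⟩ := CfsgLib.AutPSL27.herm_matrix (σ := τ0) hf0.ne_refl hf0.involutive G (by
    rw [hG]
    ext i j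
    rw [Matrix.transpose_apply, Matrix.map_apply, hτ0', hNKc, hNKc, map_mul, map_inv₀, hy0τ, hMt])
  rw [hG] at hhm
  -- inverse transpose
  obtain ⟨h0, hh0⟩ : ∃ h0 : Matrix (Fin n) (Fin n) (fixF σ), h0 = ((h⁻¹ : GL (Fin n) (fixF σ)) : Matrix (Fin n) (Fin n) (fixF σ))ᵀ := ⟨_, rfl⟩
  have hone : h0ᵀ * NK * h0.map τ0 = 1 := by
    have e1 : h0ᵀ * (h : Matrix (Fin n) (Fin n) (fixF σ)) = 1 := by
      rw [hh0, Matrix.transpose_transpose, Units.inv_mul]
    have e2 : ((h : Matrix (Fin n) (Fin n) (fixF σ)).map τ0)ᵀ * h0.map τ0 = 1 := by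
      have e3 := congrArg (fun X : Matrix (Fin n) (Fin n) (fixF σ) => (X.map (τ0 : fixF σ →+* fixF σ))ᵀ) e1
      simp only [Matrix.map_mul, Matrix.transpose_mul] at e3
      have e4 : ((1 : Matrix (Fin n) (Fin n) (fixF σ)).map (τ0 : fixF σ →+* fixF σ))ᵀ = 1 := by
        rw [Matrix.map_one _ (map_zero _) (map_one _), Matrix.transpose_one]
      rw [e4] at e3
      exact e3
    rw [hhm]
    calc h0ᵀ * ((h : Matrix (Fin n) (Fin n) (fixF σ)) * ((h : Matrix (Fin n) (Fin n) (fixF σ)).map τ0)ᵀ) * h0.map τ0 =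
        (h0ᵀ * (h : Matrix (Fin n) (Fin n) (fixF σ))) * (((h : Matrix (Fin n) (Fin n) (fixF σ)).map τ0)ᵀ * h0.map τ0) := by simp only [Matrix.mul_assoc]
      _ = 1 := by rw [e1, e2, Matrix.one_mul]
  obtain ⟨H0, hH0⟩ : ∃ H0 : GL (Fin n) F, (H0 : Matrix (Fin n) (Fin n) F) = h0.map ι := by
    have hdet0 : (h0.map ι).det ≠ 0 := by
      intro hz
      have h1 := ι.map_det h0
      have h2 : ι h0.det = 0 := by rw [h1]; exact hz
      have h3 : h0.det = 0 := by
        have := h2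
        rw [hιc] at this
        exact Subtype.ext this
      have h4 : h0.det ≠ 0 := by
        rw [hh0, Matrix.det_transpose]
        exact (Matrix.GeneralLinearGroup.det h⁻¹).ne_zero
      exact h4 h3
    exact ⟨Matrix.GeneralLinearGroup.mkOfDetNeZero _ hdet0, rfl⟩
  obtain ⟨κ, hκ⟩ := CfsgLib.Un29.exists_norm hf y0 hy0τ
  have hκ0 : κ ≠ 0 := by rintro rfl; rw [zero_mul] at hκ; exact hy00 hκ.symm
  obtain ⟨κu, hκu⟩ : ∃ κu : Fˣ, (κu : F) = κ := ⟨Units.mk0 κ hκ0, rfl⟩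
  have hH0σ : gm σ H0 = H0 := by
    apply Units.ext
    rw [CfsgLib.Semi27.coe_gm, hH0]
    ext a b
    rw [Matrix.map_apply, Matrix.map_apply, hιc]
    exact (h0 a b).2
  obtain ⟨k', hk'⟩ : ∃ k' : GL (Fin n) F, k' = scal κu⁻¹ * (k * H0) := ⟨_, rfl⟩
  have hk'm : (k' : Matrix (Fin n) (Fin n) F) = κ⁻¹ • ((k : Matrix (Fin n) (Fin n) F) * h0.map ι) := by
    ext a b
    rw [hk', scal_mul_apply, Units.val_inv_eq_inv_val, hκu, Units.val_mul, hH0]; rfl
  have hk'U : k' ∈ Cfsg.GU n F q := by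
    rw [CfsgLib.AutPSL27.GU_eq hτ, CfsgLib.AutPSL27.mem_uni_iff, hk'm]
    have e1 : (κ⁻¹ • ((k : Matrix (Fin n) (Fin n) F) * h0.map ι)).map τ = (τ κ)⁻¹ • ((k : Matrix (Fin n) (Fin n) F).map τ * (h0.map ι).map τ) := by
      have e2 : ((k : Matrix (Fin n) (Fin n) F) * h0.map ι).map τ = (k : Matrix (Fin n) (Fin n) F).map τ * (h0.map ι).map τ := Matrix.map_mul (f := (τ : F →+* F))
      rw [← e2]
      ext a b
      simp only [Matrix.map_apply, Matrix.smul_apply, smul_eq_mul, map_mul, map_inv₀]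
    have e3 : (h0.map ι).map τ = (h0.map τ0).map ι := by
      ext a b
      rw [Matrix.map_apply, Matrix.map_apply, Matrix.map_apply, Matrix.map_apply, hιc, hιc, hτ0']
    have e4 : M = y0 • NK.map ι := by
      rw [hNKM, smul_smul, mul_inv_cancel₀ hy00, one_smul]
    rw [e1, Matrix.transpose_smul, Matrix.transpose_mul, Matrix.smul_mul, Matrix.mul_smul, smul_smul]
    have e5 : (h0.map ι)ᵀ * (k : Matrix (Fin n) (Fin n) F)ᵀ * ((k : Matrix (Fin n) (Fin n) F).map τ * (h0.map ι).map τ) = (h0.map ι)ᵀ * M * (h0.map ι).map τ := by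
      rw [hM]; simp only [Matrix.mul_assoc]
    have e6 : (h0.map ι)ᵀ * NK.map ι * (h0.map τ0).map ι = 1 := by
      have e7 := congrArg (fun X : Matrix (Fin n) (Fin n) (fixF σ) => X.map ι) hone
      simp only [Matrix.map_mul] at e7
      rw [Matrix.map_one _ (map_zero _) (map_one _)] at e7
      rw [← e7]
      rfl
    rw [e5, e4, e3, Matrix.mul_smul, Matrix.smul_mul, e6, smul_smul]
    have e8 : κ⁻¹ * (τ κ)⁻¹ * y0 = 1 := by
      have hτκ : τ κ ≠ 0 := fun h => hκ0 ((map_eq_zero τ).1 h)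
      rw [← hκ]; field_simp
    rw [e8, one_smul]
  refine ⟨⟨k', hk'U⟩, Units.map ((σ : F →+* F) : F →* F) κu⁻¹ * l * κu, ?_⟩
  change g.1 * gm σ k' = scal (Units.map ((σ : F →+* F) : F →* F) κu⁻¹ * l * κu) * k'
  rw [hk', map_mul, map_mul, hH0σ, gm_scal]
  calc g.1 * (scal (Units.map ((σ : F →+* F) : F →* F) κu⁻¹) * (gm σ k * H0)) = scal (Units.map ((σ : F →+* F) : F →* F) κu⁻¹) * (g.1 * gm σ k) * H0 := by
        rw [← mul_assoc g.1, ← scal_comm]; simp only [mul_assoc]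
    _ = scal (Units.map ((σ : F →+* F) : F →* F) κu⁻¹ * l) * (k * H0) := by rw [hk, scal_mul]; simp only [mul_assoc]
    _ = _ := by
      rw [scal_mul (Units.map ((σ : F →+* F) : F →* F) κu⁻¹ * l) κu, mul_assoc, ← mul_assoc (scal κu), ← scal_mul, mul_inv_cancel, scal_one, one_mul]

/-- Lang's theorem -/
theorem OddF.lang (H : OddF F q q0 r σ) (hn : 3 ≤ n) (g : Cfsg.GU n F q) (h : (rhoU n F q g * phiU n F q σ) ^ r = 1) :
    ∃ k : Cfsg.GU n F q, rhoU n F q g * phiU n F q σ = rhoU n F q k * phiU n F q σ * (rhoU n F q k)⁻¹ := by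
  haveI : Nonempty (Fin n) := ⟨⟨0, by omega⟩⟩
  have hφ : phiU n F q σ ^ r = 1 := by
    rw [← map_pow, ← H.ho, pow_orderOf_eq_one, map_one]
  rw [semi_pow (fun g hg => gm_memU hg) (fun g => phiU_mul_rhoU σ g), hφ, mul_one, rhoU_ker H.hF hn] at h
  obtain ⟨u, hu⟩ := h
  obtain ⟨l, k, hk⟩ := lang_matrix H.pos H.ho (g := g.1) hu
  obtain ⟨k', l', hk'⟩ := H.hformU hn g l k hk
  refine ⟨k', ?_⟩
  rw [eq_mul_inv_iff_mul_eq, mul_assoc, phiU_mul_rhoU, ← mul_assoc, mul_left_inj, ← map_mul, rhoU_eq_iff H.hF hn]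
  exact ⟨l', hk'⟩

end Odd

end Cfsg.Agent.H22
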