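import Cfsg.Agent.LibH22AU1
import Cfsg.Agent.LibFTPG27

set_option autoImplicit false

/-! Automorphisms of unitary groups II: centres of Sylow subgroups (seat helper22). -/

namespace Cfsg.Agent.H22

open Module Matrix Cfsg CfsgLib.Un29 CfsgLib.SylCen27 CfsgLib.FTPG27

section
variable {F : Type*} [Field F] {σ : F ≃+* F} {q n : ℕ}

local notation "hh" => hermForm n F q
local notation "V" => (Fin n → F)
local notation "GS" => (Cfsg.SU n F q)
local notation "π" => (QuotientGroup.mk' (Subgroup.center (Cfsg.SU n F q)))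

/-- the linear representation -/
noncomputable def acL : Cfsg.SU n F q →* ((Fin n → F) ≃ₗ[F] (Fin n → F)) where
  toFun A :=
    { toFun := ac A
      map_add' := ac_add A
      map_smul' := fun c x => ac_smul A c x
      invFun := ac A⁻¹
      left_inv := ac_inv A
      right_inv := ac_inv' A }
  map_one' := LinearEquiv.ext fun x => ac_one x
  map_mul' A B := LinearEquiv.ext fun x => ac_mul A B x

lemma acL_apply (A : GS) (x : V) : acL A x = ac A x := rfl

lemma ac_pow_of {p : ℕ} [Fact p.Prime] [CharP F p] {A : GS} (j k : ℕ) (hjk : j ≤ p ^ k) (h : ∀ x, (fun x => ac A x - x)^[j] x = 0) : A ^ (p ^ k) = 1 := by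
  have h1 := equiv_pow_of_unip (p := p) (acL A) j k hjk (fun x => ac A x - x) (fun _ => rfl) h
  apply ac_ext
  intro x
  have h2 := LinearEquiv.congr_fun h1 x
  rw [← map_pow, acL_apply] at h2
  rw [h2, ac_one]; rfl

lemma QG_pow {p : ℕ} [Fact p.Prime] [CharP F p] (hf : Geo.IsUnitaryForm σ hh) {v : V} {A : GS} (hA : A ∈ QG v) : A ^ (p ^ 2) = 1 := by
  obtain ⟨hA1, hA2⟩ := hA
  apply ac_pow_of (p := p) 3 2
  · have h2 := (Fact.out : p.Prime).two_le
    nlinarith
  · intro x
    show ac A (ac A (ac A x - x) - (ac A x - x)) - (ac A (ac A x - x) - (ac A x - x)) = 0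
    have h1 : hh (ac A x - x) v = 0 := by
      rw [sub_left hf]
      have := ac_herm A x v
      rw [hA1] at this
      rw [this, sub_self]
    obtain ⟨a, ha⟩ := hA2 _ h1
    rw [ha, add_sub_cancel_left, ac_smul, hA1, sub_self]

lemma QG_pgroup {p : ℕ} [Fact p.Prime] [CharP F p] (hf : Geo.IsUnitaryForm σ hh) (v : V) : IsPGroup p (QG v : Subgroup GS) := by
  rintro ⟨A, hA⟩
  exact ⟨2, Subtype.ext (QG_pow hf hA)⟩

/-- transvection with parameter -/
def IsT (v : V) (c : F) (A : GS) : Prop := ∀ x, ac A x = x + (c * hh x v) • v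

lemma mem_TS {v : V} {A : GS} : A ∈ (TS v : Set GS) ↔ ∃ c, IsT v c A := Iff.rfl

lemma isT_iff_isE (hf : Geo.IsUnitaryForm σ hh) {v : V} {c : F} {A : GS} : IsT v c A ↔ IsE v 0 c A := by
  unfold IsT IsE
  apply forall_congr'
  intro x
  rw [smul_zero, zero_right hf, zero_smul, add_zero, sub_zero]

lemma exists_T (hf : Geo.IsUnitaryForm σ hh) {v : V} (hv : hh v v = 0) {c : F} (hc : σ c = -c) : ∃ A : GS, IsT v c A := by
  obtain ⟨A, hA⟩ := exists_E hf hv (zero_right hf v) (t := c) (by rw [hc, zero_right hf]; ring)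
  exact ⟨A, (isT_iff_isE hf).2 hA⟩

lemma IsT.mem {v : V} {c : F} {A : GS} (hv : hh v v = 0) (h : IsT v c A) : A ∈ QG v := by
  refine ⟨by rw [h, hv]; simp, fun x hx => ⟨0, ?_⟩⟩
  rw [h, hx]; simp

lemma IsT.fix {v : V} {c : F} {A : GS} (h : IsT v c A) {x : V} (hx : hh x v = 0) : ac A x = x := by
  rw [h, hx]; simp

lemma IsT.smul (hf : Geo.IsUnitaryForm σ hh) {v : V} {c a : F} {A : GS} (h : IsT (a • v) c A) : IsT v (a * σ a * c) A := by
  intro x
  rw [h, smul_right hf]; module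

lemma IsT.conj {v : V} {c : F} {A : GS} (h : IsT v c A) (g : GS) : IsT (ac g v) c (g * A * g⁻¹) := by
  intro x
  rw [ac_mul, ac_mul, h]
  have e1 : hh x (ac g v) = hh (ac g⁻¹ x) v := by
    rw [← ac_herm g (ac g⁻¹ x) v, ac_inv']
  rw [e1, ac_add, ac_smul, ac_inv']

lemma IsT.mul (hf : Geo.IsUnitaryForm σ hh) {v : V} {c d : F} {A B : GS} (hv : hh v v = 0) (hA : IsT v c A) (hB : IsT v d B) : IsT v (c + d) (A * B) := by
  intro x
  rw [ac_mul, hB, hA]
  simp only [hf.add_left, hf.smul_left, hv]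
  module

lemma IsT.skew (hf : Geo.IsUnitaryForm σ hh) {v : V} {c : F} {A : GS} (hv0 : v ≠ 0) (hv : hh v v = 0) (h : IsT v c A) : σ c = -c := by
  obtain ⟨⟨x, hx⟩, ⟨y, hy⟩⟩ := hf.nondegenerate v hv0
  have h1 := ac_herm A x y
  rw [h, h] at h1
  simp only [hf.add_left, add_right hf, hf.smul_left, smul_right hf, hv, map_mul] at h1
  rw [← hf.herm v y] at h1
  have h2 : (c + σ c) * (hh x v * hh v y) = 0 := by linear_combination h1
  have h3 := (mul_eq_zero.1 h2).resolve_right (mul_ne_zero hx hy)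
  linear_combination h3

lemma IsT.uniq (hf : Geo.IsUnitaryForm σ hh) {v : V} {c d : F} {A : GS} (hv0 : v ≠ 0) (h : IsT v c A) (h' : IsT v d A) : c = d := by
  obtain ⟨⟨x, hx⟩, -⟩ := hf.nondegenerate v hv0
  have h1 := h x
  rw [h' x] at h1
  have h2 := smul_left_injective F hv0 (add_left_cancel h1)
  exact (mul_right_cancel₀ hx h2).symm

lemma IsT.zero {v : V} : IsT v 0 (1 : GS) := by
  intro x; rw [ac_one]; simp

lemma IsT.congr {v : V} {c d : F} {A : GS} (h : IsT v c A) (hc : c = d) : IsT v d A := hc ▸ h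

lemma IsT.ext {v : V} {c : F} {A B : GS} (h : IsT v c A) (h' : IsT v c B) : A = B := ac_ext fun x => by rw [h, h']

lemma TS_smul (hf : Geo.IsUnitaryForm σ hh) {v : V} {a : F} (ha : a ≠ 0) : (TS (a • v) : Set GS) = TS v := by
  have hσa : σ a ≠ 0 := fun h0 => ha ((map_eq_zero σ).1 h0)
  ext A
  constructor
  · rintro ⟨c, hc⟩
    exact ⟨_, IsT.smul hf hc⟩
  · rintro ⟨c, hc⟩
    refine ⟨c / (a * σ a), fun x => ?_⟩
    rw [hc, smul_right hf, smul_smul]
    congr 2
    field_simp

lemma TS_conj (g : GS) (v : V) : (MulAut.conj g) '' (TS v) = TS (ac g v) := by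
  ext A
  constructor
  · rintro ⟨B, ⟨c, hc⟩, rfl⟩
    exact ⟨c, IsT.conj hc g⟩
  · rintro ⟨c, hc⟩
    refine ⟨g⁻¹ * A * g, ⟨c, ?_⟩, ?_⟩
    · have := IsT.conj (v := ac g v) hc g⁻¹
      rw [ac_inv, inv_inv] at this
      exact this
    · rw [MulAut.conj_apply]; group

lemma exists_T_ne (hf : Geo.IsUnitaryForm σ hh) {v : V} (hv0 : v ≠ 0) (hv : hh v v = 0) : ∃ (c : F) (A : GS), c ≠ 0 ∧ IsT v c A := by
  obtain ⟨δ, hδ0, hδ⟩ := exists_skew hf
  obtain ⟨A, hA⟩ := exists_T hf hv hδ
  exact ⟨δ, A, hδ0, hA⟩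

/-- transvections determine their centres -/
lemma IsT.par (hf : Geo.IsUnitaryForm σ hh) {v u : V} {c d : F} {A : GS} (hv0 : v ≠ 0) (hc : c ≠ 0) (h : IsT v c A) (h' : IsT u d A) : PF F v u := by
  obtain ⟨⟨x, hx⟩, -⟩ := hf.nondegenerate v hv0
  have h1 := h x
  rw [h' x] at h1
  have h2 := add_left_cancel h1
  have h3 : d * hh x u ≠ 0 := by
    intro h0
    rw [h0, zero_smul] at h2
    exact smul_ne_zero (mul_ne_zero hc hx) hv0 h2.symm
  refine ⟨(d * hh x u)⁻¹ * (c * hh x v), mul_ne_zero (inv_ne_zero h3) (mul_ne_zero hc hx), ?_⟩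
  rw [mul_smul, ← h2, smul_smul, inv_mul_cancel₀ h3, one_smul]

/-- commuting transvections -/
lemma IsT.comm_iff (hf : Geo.IsUnitaryForm σ hh) {v u : V} {c d : F} {A B : GS} (hv0 : v ≠ 0) (hu0 : u ≠ 0) (hv : hh v v = 0) (hc : c ≠ 0) (hd : d ≠ 0)
    (hA : IsT v c A) (hB : IsT u d B) : A * B = B * A ↔ hh v u = 0 := by
  have e1 : ∀ x, ac (A * B) x = x + (d * hh x u) • u + (c * (hh x v + d * hh x u * hh u v)) • v := by
    intro x
    rw [ac_mul, hB, hA]
    simp only [hf.add_left, hf.smul_left]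
  have e2 : ∀ x, ac (B * A) x = x + (c * hh x v) • v + (d * (hh x u + c * hh x v * hh v u)) • u := by
    intro x
    rw [ac_mul, hA, hB]
    simp only [hf.add_left, hf.smul_left]
  constructor
  · intro h
    by_contra hne
    have hne' := swap_ne hf hne
    obtain ⟨⟨x, hx⟩, -⟩ := hf.nondegenerate u hu0
    have h1 := e1 x
    rw [h, e2 x] at h1
    have h2 : (d * c * hh x v * hh v u) • u = (c * d * hh x u * hh u v) • v := by
      have h3 : x + (c * hh x v) • v + (d * (hh x u + c * hh x v * hh v u)) • u =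
        x + (d * hh x u) • u + (c * hh x v) • v + (d * c * hh x v * hh v u) • u := by module
      have h4 : x + (d * hh x u) • u + (c * (hh x v + d * hh x u * hh u v)) • v =
        x + (d * hh x u) • u + (c * hh x v) • v + (c * d * hh x u * hh u v) • v := by module
      rw [h3, h4] at h1
      exact add_left_cancel h1
    have h5 := congrArg (fun y => hh y v) h2
    simp only [hf.smul_left, hv, mul_zero] at h5
    have h6 : d * c * hh x v * hh v u = 0 := (mul_eq_zero.1 h5).resolve_right hne'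
    rw [h6, zero_smul] at h2
    exact smul_ne_zero (mul_ne_zero (mul_ne_zero (mul_ne_zero hc hd) hx) hne') hv0 h2.symm
  · intro h
    apply ac_ext
    intro x
    rw [e1, e2, h, swap_eq hf h]
    module

end

section
variable {F : Type*} [Field F] [Fintype F] {σ : F ≃+* F} {q n : ℕ}

local notation "hh" => hermForm n F q
local notation "V" => (Fin n → F)
local notation "GS" => (Cfsg.SU n F q)
local notation "π" => (QuotientGroup.mk' (Subgroup.center (Cfsg.SU n F q)))

lemma center_ac (hF : Fintype.card F = q ^ 2) (hn : 2 ≤ n) {A : GS} (hA : A ∈ Subgroup.center GS) : ∃ μ : F, ∀ x, ac A x = μ • x := by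
  obtain ⟨μ, hμ⟩ := center_SU_scalar hF hn hA
  refine ⟨μ, fun x => ?_⟩
  unfold ac
  rw [show suM A = Matrix.scalar (Fin n) μ from hμ, Matrix.scalar_apply, ← Matrix.smul_one_eq_diagonal, Matrix.smul_mulVec, Matrix.one_mulVec]

lemma center_eq_one (hF : Fintype.card F = q ^ 2) (hn : 2 ≤ n) {A : GS} (hA : A ∈ Subgroup.center GS) {x : V} (hx0 : x ≠ 0) (hx : ac A x = x) : A = 1 := by
  obtain ⟨μ, hμ⟩ := center_ac hF hn hA
  have : μ = 1 := by
    have h1 := hμ x
    rw [hx] at h1
    exact (smul_left_injective F hx0 (show (1 : F) • x = μ • x by rw [one_smul]; exact h1)).symm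
  apply ac_ext
  intro y
  rw [hμ, this, one_smul, ac_one]

lemma pi_eq_iff {A B : GS} : π A = π B ↔ A⁻¹ * B ∈ Subgroup.center GS := QuotientGroup.eq

/-- elements with a common fixed vector are separated by `π` -/
lemma pi_inj (hF : Fintype.card F = q ^ 2) (hn : 2 ≤ n) {A B : GS} {x : V} (hx0 : x ≠ 0) (hA : ac A x = x) (hB : ac B x = x) (h : π A = π B) : A = B := by
  rw [pi_eq_iff] at h
  have h1 : ac (A⁻¹ * B) x = x := by
    rw [ac_mul, hB]
    conv_lhs => rw [← hA]
    rw [ac_inv]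
  have h2 := center_eq_one hF hn h hx0 h1
  rw [inv_mul_eq_one] at h2
  exact h2

lemma comm_of_pi (hF : Fintype.card F = q ^ 2) (hn : 2 ≤ n) {A B : GS} {x : V} (hx0 : x ≠ 0) (hA : ac A x = x) (hB : ac B x = x)
    (h : π A * π B = π B * π A) : A * B = B * A := by
  apply pi_inj hF hn hx0
  · rw [ac_mul, hB, hA]
  · rw [ac_mul, hA, hB]
  · rw [map_mul, map_mul, h]

lemma hK {p : ℕ} [Fact p.Prime] [CharP F p] (hF : Fintype.card F = q ^ 2) (hn : 2 ≤ n) (x : GS) (k : ℕ) (hx : x ^ (p ^ k) = 1) (h : π x = 1) : x = 1 := by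
  rw [QuotientGroup.mk'_apply, QuotientGroup.eq_one_iff] at h
  obtain ⟨μ, hμ⟩ := center_ac hF hn h
  have h0 : (Pi.single ⟨0, by omega⟩ 1 : V) ≠ 0 := by
    intro h0
    have := congrFun h0 ⟨0, by omega⟩
    simp at this
  apply center_eq_one hF hn h h0
  have h1 : ∀ m : ℕ, ∀ y, ac (x ^ m) y = μ ^ m • y := by
    intro m
    induction m with
    | zero => intro y; rw [pow_zero, pow_zero, one_smul, ac_one]
    | succ m ih => intro y; rw [pow_succ, ac_mul, hμ, ac_smul, ih, smul_smul, pow_succ, mul_comm]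
  have h2 := h1 (p ^ k) (Pi.single ⟨0, by omega⟩ 1)
  rw [hx, ac_one] at h2
  have h3 : μ ^ (p ^ k) = 1 := (smul_left_injective F h0 (show (1 : F) • (Pi.single ⟨0, by omega⟩ 1 : V) = μ ^ (p ^ k) • (Pi.single ⟨0, by omega⟩ 1 : V) by rw [one_smul]; exact h2)).symm
  have h4 : (μ - 1) ^ (p ^ k) = 0 := by
    rw [sub_pow_char_pow, h3, one_pow, sub_self]
  have h5 : μ = 1 := sub_eq_zero.1 (pow_eq_zero_iff (pow_ne_zero _ (Fact.out : p.Prime).ne_zero) |>.1 h4)
  rw [hμ, h5, one_smul]

/-- vectors fixed by the unipotent radical -/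
lemma QG_fix (hf : Geo.IsUnitaryForm σ hh) {v u : V} (hv0 : v ≠ 0) (hv : hh v v = 0) (h : ∀ A ∈ (QG v : Subgroup GS), ac A u = u) :
    ∃ a : F, u = a • v := by
  have h1 : hh u v = 0 := by
    obtain ⟨c, A, hc, hA⟩ := exists_T_ne hf hv0 hv
    have := h A (hA.mem hv)
    rw [hA u, add_eq_left, smul_eq_zero] at this
    exact (mul_eq_zero.1 (this.resolve_right hv0)).resolve_left hc
  by_contra hcon
  have hu : u ∉ Submodule.span F {v} := by
    intro hu
    obtain ⟨a, ha⟩ := Submodule.mem_span_singleton.1 hu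
    exact hcon ⟨a, ha.symm⟩
  obtain ⟨z, hz1, hz2⟩ := CfsgLib.Un29.exists_perp hf _ u hu
  have hz3 := hz2 v (Submodule.mem_span_singleton_self v)
  obtain ⟨t, ht⟩ := exists_trace hf (- hh z z) (by rw [map_neg, norm_real hf])
  obtain ⟨A, hA⟩ := exists_E hf hv hz3 ht
  have h2 := h A (hA.mem hv hz3)
  rw [hA u, h1, hz1] at h2
  apply hv0
  have h3 : u + (0 : F) • z - (1 : F) • v + (t * 0) • v = u - v := by module
  rw [h3] at h2
  exact sub_eq_self.1 h2

lemma cen_eq (hf : Geo.IsUnitaryForm σ hh) {P : Subgroup GS} {v : V} (hv0 : v ≠ 0) (hv : hh v v = 0)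
    (h1 : QG v ≤ P) (h2 : ∀ A ∈ P, ac A v = v) : cen P = TS v := by
  obtain ⟨v', hv', hvv'⟩ := exists_upartner hf hv0 hv
  have hv'v : hh v' v = 1 := by rw [hf.herm, hvv', map_one]
  ext z
  constructor
  · rintro ⟨hz, hc⟩
    have hzv := h2 z hz
    have hzQ : z ∈ QG v := by
      refine ⟨hzv, fun x hx => ?_⟩
      have hvx := swap_eq hf hx
      obtain ⟨t, ht⟩ := exists_trace hf (- hh x x) (by rw [map_neg, norm_real hf])
      obtain ⟨A, hA⟩ := exists_E hf hv hvx ht
      have h3 := hc A (h1 (hA.mem hv hvx))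
      have h4 : z * A * z⁻¹ = A := by rw [← h3, mul_inv_cancel_right]
      have h5 := hA.conj z
      rw [h4, hzv] at h5
      have h6 := h5 v'
      rw [hA v', hv'v] at h6
      refine ⟨hh v' (ac z x) - hh v' x, ?_⟩
      have h7 : v' + (1 : F) • x - hh v' x • v + (t * 1) • v = (v' + (t * 1) • v) + (x - hh v' x • v) := by module
      have h8 : v' + (1 : F) • ac z x - hh v' (ac z x) • v + (t * 1) • v = (v' + (t * 1) • v) + (ac z x - hh v' (ac z x) • v) := by module
      rw [h7, h8] at h6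
      have h9 := add_left_cancel h6
      rw [sub_smul, ← add_sub_assoc, add_sub_right_comm, h9]; abel
    obtain ⟨w, t, hvw, hv'w, htw, hE⟩ := exists_E_of_mem hf hv hv' hvv' hzQ
    have hwv := swap_eq hf hvw
    have hwv' := swap_eq hf hv'w
    have hwu : ∀ u, hh v u = 0 → hh w u = hh u w := by
      intro u hvu
      obtain ⟨s, hs⟩ := exists_trace hf (- hh u u) (by rw [map_neg, norm_real hf])
      obtain ⟨A, hA⟩ := exists_E hf hv hvu hs
      have h3 := hc A (h1 (hA.mem hv hvu))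
      obtain ⟨C, hC⟩ := exists_E hf hv (zero_right hf v) (t := hh w u - hh u w) (by
        rw [zero_right hf, map_sub, ← hf.herm, ← hf.herm]; ring)
      have h4 := IsE.comm hf hv hvw hvu hE hA hC
      rw [← h3] at h4
      have h5 : C = 1 := right_eq_mul.1 h4
      have h6 := hC v'
      rw [h5, ac_one, zero_right hf, hv'v] at h6
      have h7 : v' + (1 : F) • (0 : V) - (0 : F) • v + ((hh w u - hh u w) * 1) • v = v' + (hh w u - hh u w) • v := by module
      rw [h7, left_eq_add, smul_eq_zero] at h6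
      exact sub_eq_zero.1 (h6.resolve_right hv0)
    obtain ⟨a, ha⟩ := exists_moved hf
    have hwu0 : ∀ u, hh v u = 0 → hh w u = 0 := by
      intro u hvu
      have e1 := hwu u hvu
      have e2 := hwu (a • u) (by rw [smul_right hf, hvu, mul_zero])
      rw [smul_right hf, hf.smul_left, ← e1] at e2
      have e3 : (σ a - a) * hh w u = 0 := by linear_combination e2
      exact (mul_eq_zero.1 e3).resolve_left (sub_ne_zero.2 ha)
    have hw0 : w = 0 := by
      by_contra hw0
      obtain ⟨-, ⟨y, hy⟩⟩ := hf.nondegenerate w hw0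
      apply hy
      have h3 := hwu0 (y - hh y v • v') (by
        rw [sub_right hf, smul_right hf, hvv', ← hf.herm]; ring)
      rw [sub_right hf, smul_right hf, hwv', mul_zero, sub_zero] at h3
      exact h3
    rw [hw0] at hE
    exact IsE.ts hf hE
  · rintro ⟨c, hc⟩
    have hc : IsT v c z := hc
    refine ⟨h1 (hc.mem hv), fun y hy => ?_⟩
    have h3 := hc.conj y
    rw [h2 y hy] at h3
    have h4 := h3.ext hc
    rw [mul_inv_eq_iff_eq_mul] at h4
    exact h4

variable {p : ℕ} [Fact p.Prime] [CharP F p]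

/-- centres of Sylow subgroups -/
theorem exists_sylow_cen (hf : Geo.IsUnitaryForm σ hh) {v : V} (hv0 : v ≠ 0) (hv : hh v v = 0) :
    ∃ P : Sylow p GS, cen (P : Subgroup GS) = TS v := by
  haveI : Finite GS := Subtype.finite
  obtain ⟨P, hP⟩ := (QG_pgroup (p := p) hf v : IsPGroup p (QG v : Subgroup GS)).exists_le_sylow
  refine ⟨P, cen_eq hf hv0 hv hP ?_⟩
  obtain ⟨u, -, hu0, hu⟩ := exists_fixed_mod (p := p) (P : Subgroup GS) P.2 acL (⊥ : Submodule F V) ⊤ (by
      intro h
      exact hv0 ((Submodule.mem_bot F).1 (h (Submodule.mem_top (x := v))))) (fun _ _ _ _ => trivial) (by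
      intro g _ x hx
      rw [Submodule.mem_bot] at hx ⊢
      rw [hx, map_zero])
  have hu' : ∀ g ∈ (P : Subgroup GS), ac g u = u := fun g hg => sub_eq_zero.1 ((Submodule.mem_bot F).1 (hu g hg))
  obtain ⟨a, ha⟩ := QG_fix hf hv0 hv (fun A hA => hu' A (hP hA))
  have ha0 : a ≠ 0 := by
    rintro rfl
    apply hu0
    rw [ha, zero_smul]; exact Submodule.zero_mem _
  intro A hA
  have h1 := hu' A hA
  rw [ha, ac_smul] at h1
  exact smul_right_injective V ha0 h1

lemma cen_conj (g : GS) (P : Subgroup GS) : cen (P.map (MulAut.conj g).toMonoidHom) = (MulAut.conj g) '' cen P := cen_map _ P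

theorem sylow_cen_TS (hf : Geo.IsUnitaryForm σ hh) (hn : 3 ≤ n) (P : Sylow p GS) :
    ∃ v : V, v ≠ 0 ∧ hh v v = 0 ∧ cen (P : Subgroup GS) = TS v := by
  haveI : Finite GS := Subtype.finite
  obtain ⟨e, _, he, he0⟩ := (rich_perp hf (⊥ : Submodule F (Fin n → F)) (by rw [finrank_bot, Fintype.card_fin]; omega)) ⊥ (by
      exact perp_not_le_of_finrank hf (⊥ : Submodule F (Fin n → F)) ⊥ (by rw [finrank_bot, Fintype.card_fin]; omega))
  have he0' : e ≠ 0 := by simpa using he0
  obtain ⟨P0, hP0⟩ := exists_sylow_cen (p := p) hf he0' he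
  obtain ⟨g, hg⟩ := MulAction.exists_smul_eq GS P0 P
  refine ⟨ac g e, ac_ne g he0', by rw [ac_herm, he], ?_⟩
  rw [← TS_conj, ← hP0, ← cen_conj, ← hg]
  rfl

end

end Cfsg.Agent.H22
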