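import Cfsg.Agent.LibUn29d

/-! Overgroups of the special unitary group in the special linear group. -/

namespace CfsgLib.Un29

open scoped MatrixGroups Matrix
open Cfsg CfsgLib.MaxTv29

variable {ι : Type} [Fintype ι] [DecidableEq ι] {F : Type*} [Field F] {σ : F ≃+* F}
variable {f : (ι → F) → (ι → F) → F}

/-- short root elements -/
theorem exists_sr (hf : Geo.IsUnitaryForm σ f) {U : Submodule F (ι → F)} {a b : ι → F} (haU : a ∈ U) (hbU : b ∈ U) (ha : f a a = 0) (hb : f b b = 0)
    (hab : f a b = 0) (μ : F) : ∃ g ∈ TG hf U, ∀ x, (g : Matrix ι ι F) *ᵥ x = x + (μ * f x a) • b - (σ μ * f x b) • a := by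
  obtain ⟨δ, hδ0, hδ⟩ := exists_skew hf
  have hba := swap_eq hf hab
  set ν := σ (μ / δ) with hν
  have hσν : σ ν = μ / δ := by rw [hν, hf.involutive]
  have hiso : f (b + ν • a) (b + ν • a) = 0 := by
    rw [hf.add_left, add_right hf, add_right hf, hf.smul_left, hf.smul_left, smul_right hf, smul_right hf, ha, hb, hab, hba]; ring
  have hc1 : σ (-δ) = - -δ := by rw [map_neg, hδ]
  have hc2 : σ (-(δ * (ν * σ ν))) = - -(δ * (ν * σ ν)) := by
    rw [map_neg, map_mul, map_mul, hδ, hf.involutive]; ring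
  refine ⟨ut hf (b + ν • a) δ * ut hf b (-δ) * ut hf a (-(δ * (ν * σ ν))),
    (TG hf U).mul_mem ((TG hf U).mul_mem (ut_mem_TG hf (U.add_mem hbU (U.smul_mem _ haU)) hiso hδ) (ut_mem_TG hf hbU hb hc1)) (ut_mem_TG hf haU ha hc2), ?_⟩
  intro x
  have e1 : σ μ = - (δ * ν) := by
    rw [hν, map_div₀, hδ]; field_simp
  have e2 : μ = δ * σ ν := by rw [hσν]; field_simp
  rw [Units.val_mul, Units.val_mul, ← Matrix.mulVec_mulVec, ← Matrix.mulVec_mulVec, ut_mulVec hf ha, ut_mulVec hf hb, ut_mulVec hf hiso]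
  simp only [hf.add_left, add_right hf, hf.smul_left, smul_right hf, ha, hb, hab, hba]
  rw [e1, e2]
  module

/-- the transvection `x ↦ x + f(x,w) u` belongs to `M` -/
def ZM (hf : Geo.IsUnitaryForm σ f) (M : Subgroup (GL ι F)) (u w : ι → F) : Prop := ∃ h : fd hf w u = 0, tv u (fd hf w) h ∈ M

theorem ZM.congr {hf : Geo.IsUnitaryForm σ f} {M : Subgroup (GL ι F)} {u w : ι → F} (h : ZM hf M u w) {w' : ι → F} (hw : w = w') : ZM hf M u w' := hw ▸ h

theorem ZM.add {hf : Geo.IsUnitaryForm σ f} {M : Subgroup (GL ι F)} {u w w' : ι → F} (h : ZM hf M u w) (h' : ZM hf M u w') : ZM hf M u (w + w') := by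
  obtain ⟨h1, h2⟩ := h
  obtain ⟨h1', h2'⟩ := h'
  have e1 : f u w = 0 := h1
  have e1' : f u w' = 0 := h1'
  refine ⟨by rw [fd_apply, add_right hf, e1, e1', add_zero], ?_⟩
  have : tv u (fd hf (w + w')) (by rw [fd_apply, add_right hf, e1, e1', add_zero]) = tv u (fd hf w) h1 * tv u (fd hf w') h1' := by
    apply gl_ext
    intro x
    rw [Units.val_mul, ← Matrix.mulVec_mulVec, tv_mulVec, tv_mulVec, tv_mulVec]
    simp only [fd_apply, add_right hf, hf.add_left, hf.smul_left, e1]
    module
  rw [this]; exact M.mul_mem h2 h2'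

theorem ZM.neg {hf : Geo.IsUnitaryForm σ f} {M : Subgroup (GL ι F)} {u w : ι → F} (h : ZM hf M u w) : ZM hf M u (-w) := by
  obtain ⟨h1, h2⟩ := h
  have e1 : f u w = 0 := h1
  refine ⟨by rw [fd_apply, neg_right hf, e1, neg_zero], ?_⟩
  have : tv u (fd hf (-w)) (by rw [fd_apply, neg_right hf, e1, neg_zero]) = (tv u (fd hf w) h1)⁻¹ := by
    symm
    rw [inv_eq_iff_mul_eq_one]
    apply gl_ext
    intro x
    rw [Units.val_mul, ← Matrix.mulVec_mulVec, tv_mulVec, tv_mulVec]
    simp only [fd_apply, neg_right hf, hf.add_left, hf.smul_left, e1, Units.val_one, Matrix.one_mulVec]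
    module
  rw [this]; exact M.inv_mem h2

theorem ZM.conj {hf : Geo.IsUnitaryForm σ f} {M : Subgroup (GL ι F)} {u w : ι → F} (h : ZM hf M u w) {g : GL ι F} (hgM : g ∈ M) (hgi : g ∈ iso f) :
    ZM hf M ((g : Matrix ι ι F) *ᵥ u) ((g : Matrix ι ι F) *ᵥ w) := by
  obtain ⟨h1, h2⟩ := h
  have h3 : fd hf ((g : Matrix ι ι F) *ᵥ w) ((g : Matrix ι ι F) *ᵥ u) = 0 := by rw [fd_apply, (mem_iso g).mp hgi]; exact h1
  refine ⟨h3, ?_⟩
  have : tv ((g : Matrix ι ι F) *ᵥ u) (fd hf ((g : Matrix ι ι F) *ᵥ w)) h3 = g * tv u (fd hf w) h1 * g⁻¹ := by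
    apply gl_ext
    intro x
    rw [Units.val_mul, Units.val_mul, ← Matrix.mulVec_mulVec, ← Matrix.mulVec_mulVec, tv_mulVec, tv_mulVec, Matrix.mulVec_add, Matrix.mulVec_smul,
      mulVec_inv_mulVec, fd_apply, fd_apply]
    congr 2
    rw [← (mem_iso g).mp hgi (((g⁻¹ : GL ι F) : Matrix ι ι F) *ᵥ x), mulVec_inv_mulVec]
  rw [this]; exact M.mul_mem (M.mul_mem hgM h2) (M.inv_mem hgM)

section full
variable [Finite F] (hf : Geo.IsUnitaryForm σ f) {M : Subgroup (GL ι F)} (hM : TG hf ⊤ ≤ M)
include hM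

/-- propagate along a short root element -/
theorem zm_step {u w a b : ι → F} (hw : ZM hf M u w) (ha : f a a = 0) (hb : f b b = 0) (hab : f a b = 0) (hua : f u a = 0) (hub : f u b = 0)
    (hwb : f w b = 0) (hwa : f w a ≠ 0) (μ : F) : ZM hf M u (μ • b) := by
  obtain ⟨g, hg, hgx⟩ := exists_sr hf (U := ⊤) Submodule.mem_top Submodule.mem_top ha hb hab (μ / f w a)
  have h1 := hw.conj (hM hg) (TG_le_iso hf ⊤ hg)
  rw [hgx u, hgx w, hua, hub, hwb, div_mul_cancel₀ _ hwa] at h1
  simp only [mul_zero, zero_smul, add_zero, sub_zero] at h1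
  exact (h1.add hw.neg).congr (by abel)

omit hM [Finite F] in
theorem span_triple_le (u v w : ι → F) : Module.finrank F (Submodule.span F {u, v, w}) ≤ 3 := by
  classical
  have h1 := finrank_span_finset_le_card (R := F) ({u, v, w} : Finset (ι → F))
  have h2 : ((({u, v, w} : Finset (ι → F)) : Set (ι → F))) = {u, v, w} := by simp
  rw [h2] at h1
  exact h1.trans Finset.card_le_three

omit hM [Finite F] in
/-- exchange -/
theorem notMem_pair {u b b' : ι → F} (h : b ∉ Submodule.span F {u}) (h' : b' ∉ Submodule.span F {u, b}) : b ∉ Submodule.span F {u, b'} := by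
  intro hcon
  obtain ⟨α, β, h1⟩ := Submodule.mem_span_pair.mp hcon
  by_cases hβ : β = 0
  · apply h
    rw [Submodule.mem_span_singleton]
    exact ⟨α, by rw [← h1, hβ, zero_smul, add_zero]⟩
  · apply h'
    rw [Submodule.mem_span_pair]
    refine ⟨-(β⁻¹ * α), β⁻¹, ?_⟩
    rw [← h1, smul_add, smul_smul, smul_smul, inv_mul_cancel₀ hβ]
    module

theorem zm_prop (hn : 9 ≤ Fintype.card ι) {u w b : ι → F} (hw : ZM hf M u w) (hb : f b b = 0) (hub : f u b = 0) (hwb : f w b = 0)
    (hwn : w ∉ Submodule.span F {u, b}) (μ : F) : ZM hf M u (μ • b) := by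
  have hr : Rich f (perp hf (Submodule.span F {u, b})) := rich_perp hf _ (by have := finrank_pair_le (F := F) u b; omega)
  obtain ⟨a, haP, ha, haw⟩ := hr (perp hf (Submodule.span F {w})) (perp_not_le hf _ hwn)
  exact zm_step hf hM hw ha hb (swap_eq hf (haP b (Submodule.subset_span (by simp)))) (haP u (Submodule.subset_span (by simp))) hub hwb
    (notMem_perp_singleton hf haw) μ

theorem full_of_zm (hn : 9 ≤ Fintype.card ι) {u w : ι → F} (hw : ZM hf M u w) (hwu : w ∉ Submodule.span F {u}) : Full M u := by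
  -- a first isotropic vector
  obtain ⟨b, hbP, hb, hbn, _⟩ := Rich.avoid hf (rich_perp hf (Submodule.span F {u, w}) (by have := finrank_pair_le (F := F) u w; omega))
    (A := Submodule.span F {u, w}) (B := Submodule.span F {u, w})
    (perp_not_le_of_finrank hf _ _ (by have := finrank_pair_le (F := F) u w; omega))
    (perp_not_le_of_finrank hf _ _ (by have := finrank_pair_le (F := F) u w; omega))
  have hub : f u b = 0 := hbP u (Submodule.subset_span (by simp))
  have hwb : f w b = 0 := hbP w (Submodule.subset_span (by simp))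
  have hbu : b ∉ Submodule.span F {u} := fun h => hbn (Submodule.span_mono (by simp) h)
  have hZb : ∀ μ : F, ZM hf M u (μ • b) := zm_prop hf hM hn hw hb hub hwb (notMem_pair hwu hbn)
  have hZb1 : ZM hf M u b := (hZb 1).congr (one_smul _ _)
  let Z : Submodule F (ι → F) :=
    { carrier := {x | ∀ μ : F, ZM hf M u (μ • x)}
      add_mem' := by
        intro x y hx hy μ
        exact ((hx μ).add (hy μ)).congr (smul_add _ _ _).symm
      zero_mem' := by
        intro μ
        exact (hZb 0).congr (by rw [zero_smul, smul_zero])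
      smul_mem' := by
        intro c x hx μ
        exact (hx (μ * c)).congr (mul_smul _ _ _) }
  have key : ∀ y, y ∉ Submodule.span F {u} → ∃ x ∈ Z, f y x ≠ 0 := by
    intro y hy
    obtain ⟨b', hbP', hb', hbn', _⟩ := Rich.avoid hf (rich_perp hf (Submodule.span F {u, b, y}) (by have := span_triple_le (F := F) u b y; omega))
      (A := Submodule.span F {u, b, y}) (B := Submodule.span F {u, b, y})
      (perp_not_le_of_finrank hf _ _ (by have := span_triple_le (F := F) u b y; omega))
      (perp_not_le_of_finrank hf _ _ (by have := span_triple_le (F := F) u b y; omega))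
    have hub' : f u b' = 0 := hbP' u (Submodule.subset_span (by simp))
    have hbb' : f b b' = 0 := hbP' b (Submodule.subset_span (by simp))
    have h1 : b' ∉ Submodule.span F {u, b} := fun h => hbn' (Submodule.span_mono (by intro x hx; simp at hx ⊢; tauto) h)
    have h2 : b' ∉ Submodule.span F {u, y} := fun h => hbn' (Submodule.span_mono (by intro x hx; simp at hx ⊢; tauto) h)
    have hbu' : b' ∉ Submodule.span F {u} := fun h => h1 (Submodule.span_mono (by simp) h)
    have hZb' : ∀ μ : F, ZM hf M u (μ • b') := zm_prop hf hM hn hZb1 hb' hub' hbb' (notMem_pair hbu h1)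
    have hZb1' : ZM hf M u b' := (hZb' 1).congr (one_smul _ _)
    obtain ⟨b'', hbP'', hb'', h3, h4⟩ := Rich.avoid hf (rich_perp hf (Submodule.span F {u, b'}) (by have := finrank_pair_le (F := F) u b'; omega))
      (A := perp hf (Submodule.span F {y})) (B := Submodule.span F {u, b'})
      (perp_not_le hf _ (notMem_pair hy h2))
      (perp_not_le_of_finrank hf _ _ (by have := finrank_pair_le (F := F) u b'; omega))
    have hZb'' : ∀ μ : F, ZM hf M u (μ • b'') := zm_prop hf hM hn hZb1' hb'' (hbP'' u (Submodule.subset_span (by simp)))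
      (hbP'' b' (Submodule.subset_span (by simp))) (notMem_pair hbu' h4)
    exact ⟨b'', hZb'', notMem_perp_singleton hf h3⟩
  have h1 : perp hf Z ≤ Submodule.span F {u} := by
    intro y hy
    by_contra hcon
    obtain ⟨x, hx, hyx⟩ := key y hcon
    exact hyx (swap_eq hf (hy x hx))
  intro φ hφ
  obtain ⟨z, hz⟩ := riesz hf φ
  have h2 : φ = fd hf z := LinearMap.ext hz
  subst h2
  have h3 : z ∈ Z := by
    rw [← perp_perp hf Z]
    intro y hy
    obtain ⟨k, rfl⟩ := Submodule.mem_span_singleton.mp (h1 hy)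
    rw [hf.smul_left, (show f u z = 0 from hφ), mul_zero]
  exact ((h3 1).congr (one_smul _ _)).2

theorem full_all (hn : 9 ≤ Fintype.card ι) {u : ι → F} (hu0 : u ≠ 0) (hu : Full M u) (a : ι → F) : Full M a := by
  let X : Submodule F (ι → F) :=
    { carrier := {x | Full M x}
      add_mem' := by
        intro x y hx hy
        by_cases hxy : x ∈ Submodule.span F {y}
        · obtain ⟨k, rfl⟩ := Submodule.mem_span_singleton.mp hxy
          have : k • y + y = (k + 1) • y := by rw [add_smul, one_smul]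
          change Full M (k • y + y)
          rw [this]
          exact Full.smul hy _
        · obtain ⟨φ, h1, h2⟩ := exists_functional _ x hxy
          have h3 := Full.mulVec hx (hy φ (h2 y (Submodule.mem_span_singleton_self y)))
          rw [tv_mulVec, h1, one_smul] at h3
          exact h3
      zero_mem' := full_zero M
      smul_mem' := fun c x hx => Full.smul hx c }
  have hX : perp hf X ≤ ⊥ := by
    intro y hy
    rw [Submodule.mem_bot]
    by_contra hy0
    have hr : Rich f (perp hf (⊥ : Submodule F (ι → F))) := rich_perp hf _ (by rw [finrank_bot]; omega)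
    obtain ⟨v, _, hv, h1, h2⟩ := Rich.avoid hf hr (perp_not_le hf ⊥ (w := u) (by simpa using hu0)) (perp_not_le hf ⊥ (w := y) (by simpa using hy0))
    have h1' := notMem_perp_singleton hf h1
    have h2' := notMem_perp_singleton hf h2
    obtain ⟨δ, hδ0, hδ⟩ := exists_skew hf
    have h3 : Full M (u + (δ * f u v) • v) := by
      have := Full.mulVec hu (hM (ut_mem_TG hf (U := ⊤) Submodule.mem_top hv hδ))
      rwa [ut_mulVec hf hv] at this
    have h4 : (δ * f u v) • v ∈ X := by
      have := X.sub_mem (show u + (δ * f u v) • v ∈ X from h3) (show u ∈ X from hu)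
      rwa [add_sub_cancel_left] at this
    have h5 : v ∈ X := (X.smul_mem_iff (mul_ne_zero hδ0 h1')).mp h4
    exact h2' (swap_eq hf (hy v h5))
  have h1 : a ∈ X := by
    rw [← perp_perp hf X]
    intro y hy
    rw [(Submodule.mem_bot F).mp (hX hy)]
    exact zero_left hf a
  exact h1

/-- If `M` contains the unitary transvections and one element that is not a similarity then `M` contains all transvections. -/
theorem full_of_not_sim (hn : 9 ≤ Fintype.card ι) {g : GL ι F} (hgM : g ∈ M) (hg : g ∉ Geo.similarityGroup f) : ∀ a, Full M a := by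
  suffices h : ∃ u, u ≠ 0 ∧ Full M u by
    obtain ⟨u, hu0, hu⟩ := h
    exact full_all hf hM hn hu0 hu
  by_contra hcon
  push Not at hcon
  apply hg
  obtain ⟨δ, hδ0, hδ⟩ := exists_skew hf
  have h1 : ∀ v, v ≠ 0 → f v v = 0 → ∃ c : F, ∀ x, f x v = c * f ((g : Matrix ι ι F) *ᵥ x) ((g : Matrix ι ι F) *ᵥ v) := by
    intro v hv hvv
    set u := (g : Matrix ι ι F) *ᵥ v with hu
    have hu0 : u ≠ 0 := fun h => hv (mulVec_injective g (h.trans (Matrix.mulVec_zero _).symm))
    obtain ⟨z, hz⟩ := riesz hf ((fd hf v).comp (le g).symm.toLinearMap)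
    have hz' : ∀ x, f x v = f ((g : Matrix ι ι F) *ᵥ x) z := by
      intro x
      rw [← hz]
      simp only [LinearMap.comp_apply, LinearEquiv.coe_coe, le_symm_apply, inv_mulVec_mulVec, fd_apply]
    by_cases hzs : z ∈ Submodule.span F {u}
    · obtain ⟨c, rfl⟩ := Submodule.mem_span_singleton.mp hzs
      exact ⟨σ c, fun x => by rw [hz', smul_right hf]⟩
    · exfalso
      have huz : f u z = 0 := by rw [hu, ← hz', hvv]
      apply hcon u hu0
      have hok : fd hf ((-δ) • z) u = 0 := by rw [fd_apply, smul_right hf, huz, mul_zero]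
      have h2 : g * ut hf v δ * g⁻¹ ∈ M := M.mul_mem (M.mul_mem hgM (hM (ut_mem_TG hf Submodule.mem_top hvv hδ))) (M.inv_mem hgM)
      have h3 : g * ut hf v δ * g⁻¹ = tv u (fd hf ((-δ) • z)) hok := by
        rw [mul_inv_eq_iff_eq_mul]
        apply gl_ext
        intro x
        rw [Units.val_mul, Units.val_mul, ← Matrix.mulVec_mulVec, ← Matrix.mulVec_mulVec, ut_mulVec hf hvv, tv_mulVec, Matrix.mulVec_add, Matrix.mulVec_smul,
          fd_apply, smul_right hf, ← hz', map_neg, hδ, neg_neg]
      rw [h3] at h2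
      refine full_of_zm hf hM hn ⟨hok, h2⟩ ?_
      intro h4
      exact hzs ((Submodule.smul_mem_iff _ (neg_ne_zero.mpr hδ0)).mp h4)
  choose c hc using h1
  have hr : Rich f (perp hf (⊥ : Submodule F (ι → F))) := rich_perp hf _ (by rw [finrank_bot]; omega)
  have htop : ∀ x : ι → F, x ∈ perp hf (⊥ : Submodule F (ι → F)) := by
    intro x w hw
    rw [(Submodule.mem_bot F).mp hw]; exact zero_left hf x
  have h2 : ∀ v hv hvv w hw hww, f v w ≠ 0 → c v hv hvv = σ (c w hw hww) := by
    intro v hv hvv w hw hww hvw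
    have e1 := hc w hw hww v
    have e2 := hc v hv hvv w
    have e3 : f w v = σ (c w hw hww) * f ((g : Matrix ι ι F) *ᵥ w) ((g : Matrix ι ι F) *ᵥ v) := by
      rw [hf.herm w v, e1, map_mul, ← hf.herm]
    have e4 : f ((g : Matrix ι ι F) *ᵥ w) ((g : Matrix ι ι F) *ᵥ v) ≠ 0 := by
      intro h0
      rw [h0, mul_zero] at e2
      exact hvw (swap_eq hf e2)
    exact mul_right_cancel₀ e4 (e2.symm.trans e3)
  have hcc : ∀ v hv hvv w hw hww, c v hv hvv = c w hw hww := by
    intro v hv hvv w hw hww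
    obtain ⟨e, _, he, h3, h4⟩ := Rich.avoid hf hr (perp_not_le hf ⊥ (w := v) (by simpa using hv)) (perp_not_le hf ⊥ (w := w) (by simpa using hw))
    have h3' := notMem_perp_singleton hf h3
    have h4' := notMem_perp_singleton hf h4
    have he0 : e ≠ 0 := by rintro rfl; exact h3' (zero_right hf v)
    rw [h2 v hv hvv e he0 he h3', h2 w hw hww e he0 he h4']
  obtain ⟨v0, _, hv00, hv0n⟩ := hr ⊥ (by
    have := perp_not_le_of_finrank hf (⊥ : Submodule F (ι → F)) ⊥ (by rw [finrank_bot]; omega)
    exact this)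
  have hv0 : v0 ≠ 0 := by simpa using hv0n
  set k := c v0 hv0 hv00 with hk
  have hk0 : k ≠ 0 := by
    intro h0
    obtain ⟨⟨x, hx⟩, _⟩ := hf.nondegenerate v0 hv0
    apply hx
    rw [hc v0 hv0 hv00, ← hk, h0, zero_mul]
  -- the space of good second arguments
  let A : Submodule F (ι → F) :=
    { carrier := {y | ∀ x, f x y = k * f ((g : Matrix ι ι F) *ᵥ x) ((g : Matrix ι ι F) *ᵥ y)}
      add_mem' := by
        intro y z hy hz x
        rw [Matrix.mulVec_add, add_right hf, add_right hf, hy x, hz x]; ring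
      zero_mem' := by
        intro x
        rw [Matrix.mulVec_zero, zero_right hf, zero_right hf, mul_zero]
      smul_mem' := by
        intro l y hy x
        rw [Matrix.mulVec_smul, smul_right hf, smul_right hf, hy x]; ring }
  have hA : perp hf (⊥ : Submodule F (ι → F)) ≤ A := by
    by_contra hcon'
    obtain ⟨e, _, he, heA⟩ := hr A hcon'
    apply heA
    intro x
    by_cases he0 : e = 0
    · rw [he0, Matrix.mulVec_zero, zero_right hf, zero_right hf, mul_zero]
    · rw [hc e he0 he x, hcc e he0 he v0 hv0 hv00]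
  refine ⟨(Units.mk0 _ hk0)⁻¹, fun x y => ?_⟩
  rw [hA (htop y) x, Units.val_inv_eq_inv_val, Units.val_mk0, inv_mul_cancel_left₀ hk0]

end full

end CfsgLib.Un29
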