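import Cfsg.Agent.LibH22AU2
import Cfsg.Agent.LibUn29e

set_option autoImplicit false

/-! Automorphisms of unitary groups III: the induced map on isotropic points; unipotent radicals (seat helper22). -/

namespace Cfsg.Agent.H22

open Module Matrix Cfsg CfsgLib.Un29 CfsgLib.SylCen27 CfsgLib.FTPG27

section
variable {F : Type*} [Field F] [Fintype F] {σ : F ≃+* F} {q n : ℕ}

local notation "hh" => hermForm n F q
local notation "V" => (Fin n → F)
local notation "GS" => (Cfsg.SU n F q)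
local notation "π" => (QuotientGroup.mk' (Subgroup.center (Cfsg.SU n F q)))

lemma exists_common (hf : Geo.IsUnitaryForm σ hh) (hn : 3 ≤ n) (v u : V) : ∃ x : V, x ≠ 0 ∧ hh x v = 0 ∧ hh x u = 0 := by
  have h1 : ¬ perp hf (Submodule.span F {v, u}) ≤ ⊥ := perp_not_le_of_finrank hf _ _ (by
    have := finrank_pair_le v u
    rw [finrank_bot, Fintype.card_fin]; omega)
  obtain ⟨x, hx, hx0⟩ := SetLike.not_le_iff_exists.1 h1
  refine ⟨x, by simpa using hx0, swap_eq hf (hx v (Submodule.subset_span (by simp))), swap_eq hf (hx u (Submodule.subset_span (by simp)))⟩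

/-- the relation on points induced by an automorphism -/
def Rl (α : MulAut (Cfsg.PSU n F q)) (v v' : V) : Prop := α '' (π '' (TS v : Set GS)) = π '' (TS v' : Set GS)

lemma Rl.symm {α : MulAut (Cfsg.PSU n F q)} {v v' : V} (h : Rl α v v') : Rl α⁻¹ v' v := by
  unfold Rl at h ⊢
  rw [← h, ← Set.image_comp]
  have : (⇑(α⁻¹) ∘ ⇑α) = id := by
    ext x
    exact α.symm_apply_apply x
  rw [this, Set.image_id]

lemma Rl.one (v : V) : Rl (1 : MulAut (Cfsg.PSU n F q)) v v := by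
  unfold Rl
  have : (⇑(1 : MulAut (Cfsg.PSU n F q))) = id := rfl
  rw [this, Set.image_id]

lemma Rl.comp {α β : MulAut (Cfsg.PSU n F q)} {v v' v'' : V} (h : Rl α v v') (h' : Rl β v' v'') : Rl (β * α) v v'' := by
  unfold Rl at h h' ⊢
  rw [← h', ← h, ← Set.image_comp β α]
  rfl

lemma Rl.smul_left (hf : Geo.IsUnitaryForm σ hh) {α : MulAut (Cfsg.PSU n F q)} {v v' : V} (h : Rl α v v') {a : F} (ha : a ≠ 0) : Rl α (a • v) v' := by
  unfold Rl at h ⊢
  rw [TS_smul hf ha, h]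

lemma Rl.smul_right (hf : Geo.IsUnitaryForm σ hh) {α : MulAut (Cfsg.PSU n F q)} {v v' : V} (h : Rl α v v') {a : F} (ha : a ≠ 0) : Rl α v (a • v') := by
  unfold Rl at h ⊢
  rw [TS_smul hf ha, h]

lemma Rl.of_smul_left (hf : Geo.IsUnitaryForm σ hh) {α : MulAut (Cfsg.PSU n F q)} {v v' : V} {a : F} (h : Rl α (a • v) v') (ha : a ≠ 0) : Rl α v v' := by
  unfold Rl at h ⊢
  rwa [TS_smul hf ha] at h

lemma Rl.of_smul_right (hf : Geo.IsUnitaryForm σ hh) {α : MulAut (Cfsg.PSU n F q)} {v v' : V} {a : F} (h : Rl α v (a • v')) (ha : a ≠ 0) : Rl α v v' := by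
  unfold Rl at h ⊢
  rwa [TS_smul hf ha] at h

lemma pi_TS_conj (g : GS) (v : V) : π '' (TS (ac g v) : Set GS) = (MulAut.conj (π g)) '' (π '' (TS v : Set GS)) := by
  rw [← TS_conj, ← Set.image_comp, ← Set.image_comp]
  apply Set.image_congr
  intro x _
  simp only [Function.comp_apply, MulAut.conj_apply, map_mul, map_inv]

lemma Rl.conj {α : MulAut (Cfsg.PSU n F q)} {v v' : V} (h : Rl α v v') {g g' : GS} (hg : α (π g) = π g') : Rl α (ac g v) (ac g' v') := by
  unfold Rl at h ⊢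
  rw [pi_TS_conj, pi_TS_conj, ← h]
  simp only [Set.image_image]
  apply Set.image_congr
  intro x _
  simp only [Function.comp_apply, MulAut.conj_apply, map_mul, map_inv, hg]

lemma Rl.inner (g : GS) (v : V) : Rl (MulAut.conj (π g)) v (ac g v) := by
  unfold Rl
  rw [pi_TS_conj]

lemma Rl.exists (hF : Fintype.card F = q ^ 2) (hn : 3 ≤ n) (hf : Geo.IsUnitaryForm σ hh) (α : MulAut (Cfsg.PSU n F q)) {v : V} (hv0 : v ≠ 0) (hv : hh v v = 0) :
    ∃ v' : V, v' ≠ 0 ∧ hh v' v' = 0 ∧ Rl α v v' := by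
  haveI : Finite GS := Subtype.finite
  obtain ⟨p, hp⟩ := CharP.exists F
  haveI : Fact p.Prime := ⟨CharP.char_is_prime F p⟩
  obtain ⟨P, hP⟩ := exists_sylow_cen (p := p) hf hv0 hv
  have hsurj : Function.Surjective π := QuotientGroup.mk'_surjective _
  obtain ⟨Q', hQ'⟩ := sylow_cen (p := p) π π hsurj hsurj (fun x k => hK hF (by omega) x k) (fun x k => hK hF (by omega) x k) α P
  obtain ⟨v', hv0', hv', h'⟩ := sylow_cen_TS (p := p) hf hn Q'
  refine ⟨v', hv0', hv', ?_⟩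
  unfold Rl
  rw [← hP, ← h', ← hQ']

lemma Rl.exists_left (hF : Fintype.card F = q ^ 2) (hn : 3 ≤ n) (hf : Geo.IsUnitaryForm σ hh) (α : MulAut (Cfsg.PSU n F q)) {v' : V} (hv0 : v' ≠ 0) (hv : hh v' v' = 0) :
    ∃ v : V, v ≠ 0 ∧ hh v v = 0 ∧ Rl α v v' := by
  obtain ⟨v, h1, h2, h3⟩ := Rl.exists hF hn hf α⁻¹ hv0 hv
  refine ⟨v, h1, h2, ?_⟩
  have := h3.symm
  rwa [inv_inv] at this

lemma TS_par (hF : Fintype.card F = q ^ 2) (hn : 3 ≤ n) (hf : Geo.IsUnitaryForm σ hh) {v u : V} (hv0 : v ≠ 0) (hv : hh v v = 0)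
    (h : π '' (TS v : Set GS) = π '' (TS u : Set GS)) : PF F v u := by
  obtain ⟨c, A, hc, hA⟩ := exists_T_ne hf hv0 hv
  have h1 : π A ∈ π '' (TS u : Set GS) := by
    rw [← h]; exact ⟨A, ⟨c, hA⟩, rfl⟩
  obtain ⟨B, ⟨d, hB⟩, hBA⟩ := h1
  have hB : IsT u d B := hB
  obtain ⟨x, hx0, hxv, hxu⟩ := exists_common hf hn v u
  have h2 := pi_inj hF (by omega) hx0 (hB.fix hxu) (hA.fix hxv) hBA
  rw [h2] at hB
  exact IsT.par hf hv0 hc hA hB

lemma Rl.uniq (hF : Fintype.card F = q ^ 2) (hn : 3 ≤ n) (hf : Geo.IsUnitaryForm σ hh) {α : MulAut (Cfsg.PSU n F q)} {v v' v'' : V} (hv0 : v' ≠ 0) (hv : hh v' v' = 0)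
    (h : Rl α v v') (h' : Rl α v v'') : PF F v' v'' := by
  apply TS_par hF hn hf hv0 hv
  rw [← h.symm.symm, ← h'.symm.symm]

lemma Rl.uniq_left (hF : Fintype.card F = q ^ 2) (hn : 3 ≤ n) (hf : Geo.IsUnitaryForm σ hh) {α : MulAut (Cfsg.PSU n F q)} {v w v' : V} (hv0 : v ≠ 0) (hv : hh v v = 0)
    (h : Rl α v v') (h' : Rl α w v') : PF F v w :=
  Rl.uniq hF hn hf hv0 hv h.symm h'.symm

lemma Rl.perp_aux (hF : Fintype.card F = q ^ 2) (hn : 3 ≤ n) (hf : Geo.IsUnitaryForm σ hh) {α : MulAut (Cfsg.PSU n F q)} {v v' u u' : V}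
    (hv0 : v ≠ 0) (hv : hh v v = 0) (hu0 : u ≠ 0) (hu : hh u u = 0) (hv0' : v' ≠ 0) (hv' : hh v' v' = 0) (hu0' : u' ≠ 0)
    (h : Rl α v v') (h' : Rl α u u') (hvu : hh v u = 0) : hh v' u' = 0 := by
  obtain ⟨c, A, hc, hA⟩ := exists_T_ne hf hv0 hv
  obtain ⟨d, B, hd, hB⟩ := exists_T_ne hf hu0 hu
  have hAB := (IsT.comm_iff hf hv0 hu0 hv hc hd hA hB).2 hvu
  have h1 : α (π A) ∈ π '' (TS v' : Set GS) := by
    rw [← h]; exact ⟨_, ⟨A, ⟨c, hA⟩, rfl⟩, rfl⟩
  have h2 : α (π B) ∈ π '' (TS u' : Set GS) := by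
    rw [← h']; exact ⟨_, ⟨B, ⟨d, hB⟩, rfl⟩, rfl⟩
  obtain ⟨A', ⟨c', hA'⟩, hAA'⟩ := h1
  obtain ⟨B', ⟨d', hB'⟩, hBB'⟩ := h2
  have hA' : IsT v' c' A' := hA'
  have hB' : IsT u' d' B' := hB'
  have key : ∀ {w w' : V} {a a' : F} {X X' : GS}, w ≠ 0 → hh w w = 0 → a ≠ 0 → IsT w a X → IsT w' a' X' → π X' = α (π X) → a' ≠ 0 := by
    intro w w' a a' X X' hw0 hw ha hX hX' hXX' ha'
    rw [ha'] at hX'
    have h3 : X' = 1 := hX'.ext (IsT.zero)
    rw [h3, map_one, eq_comm, MulEquiv.map_eq_one_iff] at hXX'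
    have h4 : X = 1 := by
      apply pi_inj hF (by omega) hw0 (hX.fix hw) (ac_one w)
      rw [hXX', map_one]
    rw [h4] at hX
    exact ha (IsT.uniq hf hw0 hX IsT.zero)
  have hc' := key hv0 hv hc hA hA' hAA'
  have hd' := key hu0 hu hd hB hB' hBB'
  rw [← IsT.comm_iff hf hv0' hu0' hv' hc' hd' hA' hB']
  obtain ⟨x, hx0, hxv, hxu⟩ := exists_common hf hn v' u'
  apply comm_of_pi hF (by omega) hx0 (hA'.fix hxv) (hB'.fix hxu)
  rw [hAA', hBB', ← map_mul, ← map_mul, ← map_mul, ← map_mul, hAB]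

lemma Rl.perp (hF : Fintype.card F = q ^ 2) (hn : 3 ≤ n) (hf : Geo.IsUnitaryForm σ hh) {α : MulAut (Cfsg.PSU n F q)} {v v' u u' : V}
    (hv0 : v ≠ 0) (hv : hh v v = 0) (hu0 : u ≠ 0) (hu : hh u u = 0) (hv0' : v' ≠ 0) (hv' : hh v' v' = 0) (hu0' : u' ≠ 0) (hu' : hh u' u' = 0)
    (h : Rl α v v') (h' : Rl α u u') : hh v u = 0 ↔ hh v' u' = 0 :=
  ⟨Rl.perp_aux hF hn hf hv0 hv hu0 hu hv0' hv' hu0' h h', Rl.perp_aux hF hn hf hv0' hv' hu0' hu' hv0 hv hu0 h.symm h'.symm⟩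

/-- totally isotropic lines -/
lemma line_iff (hf : Geo.IsUnitaryForm σ hh) {v u x : V} (hv0 : v ≠ 0) (hv : hh v v = 0) (hu0 : u ≠ 0) (hu : hh u u = 0) (hvu : hh v u = 0) (hx : hh x x = 0)
    (h : ∀ y, y ≠ 0 → hh y y = 0 → hh y v = 0 → hh y u = 0 → hh y x = 0) : ∃ a b : F, x = a • v + b • u := by
  have h1 := h v hv0 hv hv hvu
  have h2 := h u hu0 hu (swap_eq hf hvu) hu
  by_contra hcon
  have hx' : x ∉ Submodule.span F {v, u} := by
    intro hx'
    obtain ⟨a, b, hab⟩ := Submodule.mem_span_pair.1 hx'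
    exact hcon ⟨a, b, hab.symm⟩
  obtain ⟨z, hz1, hz2⟩ := CfsgLib.Un29.exists_perp hf _ x hx'
  have hz3 := swap_eq hf (hz2 v (Submodule.subset_span (by simp)))
  have hz4 := swap_eq hf (hz2 u (Submodule.subset_span (by simp)))
  have hzx : hh z x = 1 := by rw [hf.herm, hz1, map_one]
  obtain ⟨t, ht⟩ := exists_trace hf (- hh z z) (by rw [map_neg, norm_real hf])
  have h3 : hh (z + t • x) x = 1 := by rw [hf.add_left, hf.smul_left, hzx, hx]; ring
  have h4 := h (z + t • x) (by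
      intro h0
      rw [h0, zero_left hf] at h3
      exact zero_ne_one h3) (by
      simp only [hf.add_left, add_right hf, hf.smul_left, CfsgLib.Un29.smul_right hf, hz1, hzx, hx]
      linear_combination ht) (by
      rw [hf.add_left, hf.smul_left, hz3, swap_eq hf h1]; ring) (by
      rw [hf.add_left, hf.smul_left, hz4, swap_eq hf h2]; ring)
  rw [h3] at h4
  exact one_ne_zero h4

lemma Rl.line (hF : Fintype.card F = q ^ 2) (hn : 3 ≤ n) (hf : Geo.IsUnitaryForm σ hh) {α : MulAut (Cfsg.PSU n F q)} {v v' u u' x x' : V}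
    (hv0 : v ≠ 0) (hv : hh v v = 0) (hu0 : u ≠ 0) (hu : hh u u = 0) (hx0 : x ≠ 0) (hx : hh x x = 0)
    (hv0' : v' ≠ 0) (hv' : hh v' v' = 0) (hu0' : u' ≠ 0) (hu' : hh u' u' = 0) (hx0' : x' ≠ 0) (hx' : hh x' x' = 0)
    (h1 : Rl α v v') (h2 : Rl α u u') (h3 : Rl α x x') (hvu : hh v u = 0) (h : ∃ a b : F, x = a • v + b • u) : ∃ a b : F, x' = a • v' + b • u' := by
  apply line_iff hf hv0' hv' hu0' hu' ((Rl.perp hF hn hf hv0 hv hu0 hu hv0' hv' hu0' hu' h1 h2).1 hvu) hx'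
  intro y' hy0' hy' hyv' hyu'
  obtain ⟨y, hy0, hy, hyy'⟩ := Rl.exists_left hF hn hf α hy0' hy'
  have h4 := (Rl.perp hF hn hf hy0 hy hv0 hv hy0' hy' hv0' hv' hyy' h1).2 hyv'
  have h5 := (Rl.perp hF hn hf hy0 hy hu0 hu hy0' hy' hu0' hu' hyy' h2).2 hyu'
  apply (Rl.perp hF hn hf hy0 hy hx0 hx hy0' hy' hx0' hx' hyy' h3).1
  obtain ⟨a, b, rfl⟩ := h
  rw [add_right hf, CfsgLib.Un29.smul_right hf, CfsgLib.Un29.smul_right hf, h4, h5]; ring

/-- elements fixing a point and the totally isotropic lines through it -/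
def KG (v : V) : Set GS := {g | (∃ a : F, ac g v = a • v) ∧ ∀ u, hh u u = 0 → hh u v = 0 → ∃ a b : F, ac g u = a • v + b • u}

lemma QG_le_KG (hf : Geo.IsUnitaryForm σ hh) {v : V} {A : GS} (hA : A ∈ QG v) : A ∈ KG v := by
  obtain ⟨h1, h2⟩ := hA
  refine ⟨⟨1, by rw [h1, one_smul]⟩, fun u _ hu => ?_⟩
  obtain ⟨a, ha⟩ := h2 u hu
  exact ⟨a, 1, by rw [ha]; module⟩

lemma KG_map (hF : Fintype.card F = q ^ 2) (hn : 3 ≤ n) (hf : Geo.IsUnitaryForm σ hh) {α : MulAut (Cfsg.PSU n F q)} {v v' : V}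
    (hv0 : v ≠ 0) (hv : hh v v = 0) (hv0' : v' ≠ 0) (hv' : hh v' v' = 0) (h : Rl α v v') {g g' : GS} (hg : g ∈ KG v) (hgg' : α (π g) = π g') : g' ∈ KG v' := by
  obtain ⟨⟨a, ha⟩, hg2⟩ := hg
  constructor
  · have ha0 : a ≠ 0 := by
      rintro rfl
      rw [zero_smul] at ha
      exact ac_ne g hv0 ha
    have h1 := h.conj hgg'
    rw [ha] at h1
    obtain ⟨c, hc, h2⟩ := Rl.uniq hF hn hf hv0' hv' h (h1.of_smul_left hf ha0)
    exact ⟨c, h2⟩
  · intro u' hu' huv'
    by_cases hu0' : u' = 0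
    · exact ⟨0, 0, by rw [hu0', ac_zero]; simp⟩
    obtain ⟨u, hu0, hu, huu'⟩ := Rl.exists_left hF hn hf α hu0' hu'
    have huv := (Rl.perp hF hn hf hu0 hu hv0 hv hu0' hu' hv0' hv' huu' h).2 huv'
    obtain ⟨b, c, hbc⟩ := hg2 u hu huv
    exact Rl.line hF hn hf hv0 hv hu0 hu (ac_ne g hu0) (by rw [ac_herm, hu]) hv0' hv' hu0' hu' (ac_ne g' hu0') (by rw [ac_herm, hu'])
      h huu' (huu'.conj hgg') (swap_eq hf huv) ⟨b, c, hbc⟩

lemma ppow_eq_one {p : ℕ} [Fact p.Prime] [CharP F p] {k : ℕ} {μ : F} (h3 : μ ^ (p ^ k) = 1) : μ = 1 := by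
  have h4 : (μ - 1) ^ (p ^ k) = 0 := by
    rw [sub_pow_char_pow, h3, one_pow, sub_self]
  exact sub_eq_zero.1 (pow_eq_zero_iff (pow_ne_zero _ (Fact.out : p.Prime).ne_zero) |>.1 h4)

/-- the perp of an isotropic vector is spanned by isotropic vectors, `n ≥ 4` -/
lemma rich_vperp (hf : Geo.IsUnitaryForm σ hh) (hn : 4 ≤ n) {v : V} (hv0 : v ≠ 0) (hv : hh v v = 0) :
    Rich hh (perp hf (Submodule.span F {v})) := by
  apply rich_of hf
  obtain ⟨v', hv', hvv'⟩ := exists_upartner hf hv0 hv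
  have hv'v : hh v' v = 1 := by rw [hf.herm, hvv', map_one]
  -- two orthogonal non-isotropic vectors in `{v, v'}^⊥`
  obtain ⟨y0, _, hy0, hyy0⟩ := exists_nonisotropic_perp hf (top_nondeg hf) (Submodule.span F {v}) (by
    rw [finrank_top, Module.finrank_fintype_fun_eq_card, finrank_span_singleton hv0, Fintype.card_fin]; omega)
  obtain ⟨x, hx⟩ : ∃ x, x = y0 - hh y0 v' • v := ⟨_, rfl⟩
  have hvy0 : hh v y0 = 0 := hy0 v (Submodule.mem_span_singleton_self v)
  have hxv : hh x v = 0 := by rw [hx, sub_left hf, hf.smul_left, hv, swap_eq hf hvy0]; ring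
  have hxv' : hh x v' = 0 := by rw [hx, sub_left hf, hf.smul_left, hvv']; ring
  have hxx : hh x x ≠ 0 := by
    rw [hx]
    simp only [sub_left hf, sub_right hf, hf.smul_left, CfsgLib.Un29.smul_right hf, hv, hvy0, swap_eq hf hvy0]
    simpa using hyy0
  obtain ⟨y1, hy1, hy10⟩ : ∃ y1 ∈ perp hf (Submodule.span F {v, v', x}), y1 ∉ (⊥ : Submodule F V) := SetLike.not_le_iff_exists.1 (perp_not_le_of_finrank hf _ _ (by
    have := span_triple_le v v' x
    rw [finrank_bot, Fintype.card_fin]; omega))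
  have h1v : hh v y1 = 0 := hy1 v (Submodule.subset_span (by simp))
  have h1v' : hh v' y1 = 0 := hy1 v' (Submodule.subset_span (by simp))
  have h1x : hh x y1 = 0 := hy1 x (Submodule.subset_span (by simp))
  have hy10' : y1 ≠ 0 := by simpa using hy10
  have hmem : ∀ z, hh v z = 0 → z ∈ perp hf (Submodule.span F {v}) := by
    intro z hz
    rw [mem_perp_span]
    intro w hw
    rw [Set.mem_singleton_iff] at hw
    rw [hw]; exact hz
  by_cases h11 : hh y1 y1 = 0
  · refine ⟨y1, hmem _ h1v, h11, ?_⟩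
    obtain ⟨-, ⟨z, hz⟩⟩ := hf.nondegenerate y1 hy10'
    refine ⟨z - hh z v' • v - hh z v • v', hmem _ ?_, ?_⟩
    · rw [sub_right hf, sub_right hf, CfsgLib.Un29.smul_right hf, CfsgLib.Un29.smul_right hf, hv, hvv', ← hf.herm v z]; ring
    · rw [sub_right hf, sub_right hf, CfsgLib.Un29.smul_right hf, CfsgLib.Un29.smul_right hf, swap_eq hf h1v, swap_eq hf h1v']
      simpa using hz
  · obtain ⟨μ, hμ⟩ := exists_norm_on_line hf x y1 h11 0 (map_zero σ)
    refine ⟨x + μ • y1, hmem _ ?_, hμ, x, hmem _ (swap_eq hf hxv), ?_⟩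
    · rw [add_right hf, CfsgLib.Un29.smul_right hf, swap_eq hf hxv, h1v]; ring
    · rw [hf.add_left, hf.smul_left, swap_eq hf h1x, mul_zero, add_zero]
      exact hxx

lemma QG_of_KG {p : ℕ} [Fact p.Prime] [CharP F p] (hn : 3 ≤ n) (hf : Geo.IsUnitaryForm σ hh) {v : V} (hv0 : v ≠ 0) (hv : hh v v = 0) {g : GS} (hg : g ∈ KG v)
    {k : ℕ} (hk : g ^ (p ^ k) = 1) : g ∈ QG v := by
  obtain ⟨⟨a, ha⟩, hg2⟩ := hg
  have ha1 : a = 1 := by
    have h1 : ∀ m : ℕ, ac (g ^ m) v = a ^ m • v := by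
      intro m
      induction m with
      | zero => rw [pow_zero, pow_zero, one_smul, ac_one]
      | succ m ih => rw [pow_succ, ac_mul, ha, ac_smul, ih, smul_smul, pow_succ, mul_comm]
    have h2 := h1 (p ^ k)
    rw [hk, ac_one] at h2
    exact ppow_eq_one (p := p) (smul_left_injective F hv0 (show (1 : F) • v = a ^ (p ^ k) • v by rw [one_smul]; exact h2)).symm
  have hgv : ac g v = v := by rw [ha, ha1, one_smul]
  have key : ∀ (x : V) (b c : F), x ∉ Submodule.span F {v} → ac g x = b • v + c • x → ac g x = x + b • v := by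
    intro x b c hx h
    have h1 : ∀ m : ℕ, ∃ d : F, ac (g ^ m) x = d • v + c ^ m • x := by
      intro m
      induction m with
      | zero => exact ⟨0, by rw [pow_zero, pow_zero, ac_one]; module⟩
      | succ m ih =>
        obtain ⟨d, hd⟩ := ih
        refine ⟨d + c ^ m * b, ?_⟩
        rw [pow_succ', ac_mul, hd, ac_add, ac_smul, ac_smul, hgv, h, pow_succ]; module
    obtain ⟨d, hd⟩ := h1 (p ^ k)
    rw [hk, ac_one] at hd
    have hc : c ^ (p ^ k) = 1 := by
      by_contra hne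
      apply hx
      rw [Submodule.mem_span_singleton]
      refine ⟨(1 - c ^ (p ^ k))⁻¹ * d, ?_⟩
      have h2 : (1 - c ^ (p ^ k)) • x = d • v := by
        rw [sub_smul, one_smul]
        nth_rewrite 1 [hd]
        abel
      rw [mul_smul, ← h2, smul_smul, inv_mul_cancel₀ (sub_ne_zero.2 (Ne.symm hne)), one_smul]
    rw [h, ppow_eq_one (p := p) hc, one_smul, add_comm]
  refine ⟨hgv, ?_⟩
  rcases Nat.lt_or_ge n 4 with h4 | h4
  · have h3 : n = 3 := by omega
    intro x hx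
    by_cases hxs : x ∈ Submodule.span F {v}
    · obtain ⟨c, rfl⟩ := Submodule.mem_span_singleton.1 hxs
      exact ⟨0, by rw [ac_smul, hgv]; simp⟩
    · have hS : Submodule.span F {v, x} = perp hf (Submodule.span F {v}) := by
        apply Submodule.eq_of_le_of_finrank_eq
        · rw [Submodule.span_le]
          intro y hy
          rw [SetLike.mem_coe, mem_perp_span]
          intro w hw
          rw [Set.mem_singleton_iff] at hw
          rw [hw]
          rcases hy with rfl | hy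
          · exact hv
          · rw [Set.mem_singleton_iff] at hy
            rw [hy]; exact swap_eq hf hx
        · have e1 := finrank_perp hf (Submodule.span F {v})
          rw [Module.finrank_fintype_fun_eq_card, Fintype.card_fin, finrank_span_singleton hv0] at e1
          have e2 : Module.finrank F (Submodule.span F {v, x}) = 2 := by
            have hli : LinearIndependent F ![v, x] := by
              rw [LinearIndependent.pair_iff' hv0]
              intro a ha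
              exact hxs (Submodule.mem_span_singleton.2 ⟨a, ha⟩)
            have := finrank_span_eq_card hli
            rw [Fintype.card_fin, Matrix.range_cons, Matrix.range_cons, Matrix.range_empty, Set.union_empty, Set.singleton_union] at this
            exact this
          omega
      have hgx : ac g x ∈ perp hf (Submodule.span F {v}) := by
        rw [mem_perp_span]
        intro w hw
        rw [Set.mem_singleton_iff] at hw
        rw [hw]
        have := ac_herm g v x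
        rw [hgv] at this
        rw [this]; exact swap_eq hf hx
      rw [← hS, Submodule.mem_span_pair] at hgx
      obtain ⟨b, c, hbc⟩ := hgx
      exact ⟨b, key x b c hxs hbc.symm⟩
  · let A : Submodule F V :=
      { carrier := {x | ∃ a : F, ac g x = x + a • v}
        add_mem' := by
          rintro x y ⟨a, ha⟩ ⟨b, hb⟩
          exact ⟨a + b, by rw [ac_add, ha, hb]; module⟩
        zero_mem' := ⟨0, by rw [ac_zero]; simp⟩
        smul_mem' := by
          rintro c x ⟨a, ha⟩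
          exact ⟨c * a, by rw [ac_smul, ha]; module⟩ }
    have hle : perp hf (Submodule.span F {v}) ≤ A := by
      by_contra hcon
      obtain ⟨e, he, hee, heA⟩ := rich_vperp hf h4 hv0 hv A hcon
      apply heA
      by_cases hes : e ∈ Submodule.span F {v}
      · obtain ⟨c, rfl⟩ := Submodule.mem_span_singleton.1 hes
        exact ⟨0, by rw [ac_smul, hgv]; simp⟩
      · obtain ⟨b, c, hbc⟩ := hg2 e hee (swap_eq hf (he v (Submodule.mem_span_singleton_self v)))
        exact ⟨b, key e b c hes hbc⟩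
    intro x hx
    apply hle
    rw [mem_perp_span]
    intro w hw
    rw [Set.mem_singleton_iff] at hw
    rw [hw]; exact swap_eq hf hx

lemma exists_p_lift {p : ℕ} [Fact p.Prime] {x : Cfsg.PSU n F q} {j : ℕ} (hx : x ^ (p ^ j) = 1) : ∃ g : GS, π g = x ∧ ∃ k : ℕ, g ^ (p ^ k) = 1 := by
  haveI : Finite GS := Subtype.finite
  obtain ⟨g1, hg1⟩ := QuotientGroup.mk'_surjective (Subgroup.center GS) x
  obtain ⟨k, m, hm, hN⟩ := Nat.exists_eq_pow_mul_and_not_dvd (n := orderOf g1) (orderOf_pos g1).ne' p (Fact.out : p.Prime).ne_one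
  have hcop : Nat.Coprime (p ^ (max k j)) m := Nat.Coprime.pow_left _ (((Fact.out : p.Prime).coprime_iff_not_dvd).2 hm)
  obtain ⟨s, hs1, hs2⟩ := Nat.chineseRemainder hcop 1 0
  refine ⟨g1 ^ s, ?_, k, ?_⟩
  · rw [map_pow, hg1]
    have h1 : s ≡ 1 [MOD orderOf x] := by
      apply hs1.of_dvd
      exact (orderOf_dvd_of_pow_eq_one hx).trans (pow_dvd_pow p (le_max_right k j))
    have h2 := (pow_eq_pow_iff_modEq (x := x)).2 h1
    rw [h2, pow_one]
  · rw [← pow_mul]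
    apply orderOf_dvd_iff_pow_eq_one.1
    rw [hN, mul_comm s]
    exact Nat.mul_dvd_mul_left _ ((Nat.modEq_zero_iff_dvd).1 hs2)

/-- automorphisms preserve the unipotent radicals -/
theorem Rl.radical (hF : Fintype.card F = q ^ 2) (hn : 3 ≤ n) (hf : Geo.IsUnitaryForm σ hh) {α : MulAut (Cfsg.PSU n F q)} {v v' : V}
    (hv0 : v ≠ 0) (hv : hh v v = 0) (hv0' : v' ≠ 0) (hv' : hh v' v' = 0) (h : Rl α v v') {A : GS} (hA : A ∈ QG v) : ∃ A' ∈ (QG v' : Subgroup GS), α (π A) = π A' := by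
  obtain ⟨p, hp⟩ := CharP.exists F
  haveI : Fact p.Prime := ⟨CharP.char_is_prime F p⟩
  have h1 : (α (π A)) ^ (p ^ 2) = 1 := by
    rw [← map_pow, ← map_pow, QG_pow (p := p) hf hA, map_one, map_one]
  obtain ⟨A', hA', k, hk⟩ := exists_p_lift (p := p) h1
  exact ⟨A', QG_of_KG (p := p) hn hf hv0' hv' (KG_map hF hn hf hv0 hv hv0' hv' h (QG_le_KG hf hA) hA'.symm) hk, hA'.symm⟩

end

end Cfsg.Agent.H22
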