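import Cfsg.Agent.LibH22AU3

set_option autoImplicit false

/-! Automorphisms of unitary groups IV: normalized automorphisms act on the unipotent radical (seat helper22). -/

namespace Cfsg.Agent.H22

open Module Matrix Cfsg CfsgLib.Un29 CfsgLib.SylCen27 CfsgLib.FTPG27

section
variable {F : Type*} [Field F] [Fintype F] {σ : F ≃+* F} {q n : ℕ}

local notation "hh" => hermForm n F q
local notation "V" => (Fin n → F)
local notation "GS" => (Cfsg.SU n F q)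
local notation "π" => (QuotientGroup.mk' (Subgroup.center (Cfsg.SU n F q)))

/-- normalized automorphisms -/
structure NA (σ : F ≃+* F) (v v' : Fin n → F) (α : MulAut (Cfsg.PSU n F q)) : Prop where
  hF : Fintype.card F = q ^ 2
  hn : 3 ≤ n
  hσ : ∀ x, σ x = x ^ q
  hf : Geo.IsUnitaryForm σ (hermForm n F q)
  vv : hermForm n F q v v = 0
  v'v' : hermForm n F q v' v' = 0
  vv' : hermForm n F q v v' = 1
  rv : Rl α v v
  rv' : Rl α v' v'

variable {v v' : Fin n → F} {α β : MulAut (Cfsg.PSU n F q)}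

lemma NA.v'v (H : NA σ v v' α) : hh v' v = 1 := by rw [H.hf.herm, H.vv', map_one]

lemma NA.v0 (H : NA σ v v' α) : v ≠ 0 := by
  rintro rfl
  have := H.vv'
  rw [zero_left H.hf] at this
  exact zero_ne_one this

lemma NA.v'0 (H : NA σ v v' α) : v' ≠ 0 := by
  rintro rfl
  have := H.vv'
  rw [zero_right H.hf] at this
  exact zero_ne_one this

lemma NA.inv (H : NA σ v v' α) : NA σ v v' α⁻¹ := { H with rv := H.rv.symm, rv' := H.rv'.symm }

lemma NA.mul (H : NA σ v v' α) (H' : NA σ v v' β) : NA σ v v' (β * α) := { H with rv := H.rv.comp H'.rv, rv' := H.rv'.comp H'.rv' }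

/-- vectors perpendicular to both -/
def IW (q : ℕ) (v v' w : Fin n → F) : Prop := hermForm n F q v w = 0 ∧ hermForm n F q v' w = 0

lemma IW.wv {w : V} (hf : Geo.IsUnitaryForm σ hh) (h : IW q v v' w) : hh w v = 0 := swap_eq hf h.1
lemma IW.wv' {w : V} (hf : Geo.IsUnitaryForm σ hh) (h : IW q v v' w) : hh w v' = 0 := swap_eq hf h.2
lemma IW.add {w u : V} (hf : Geo.IsUnitaryForm σ hh) (h : IW q v v' w) (h' : IW q v v' u) : IW q v v' (w + u) := by
  constructor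
  · rw [add_right hf, h.1, h'.1, add_zero]
  · rw [add_right hf, h.2, h'.2, add_zero]
lemma IW.smul {w : V} (hf : Geo.IsUnitaryForm σ hh) (h : IW q v v' w) (c : F) : IW q v v' (c • w) := by
  constructor
  · rw [smul_right hf, h.1, mul_zero]
  · rw [smul_right hf, h.2, mul_zero]
lemma IW.zero (hf : Geo.IsUnitaryForm σ hh) : IW q v v' 0 := ⟨zero_right hf _, zero_right hf _⟩
lemma IW.neg {w : V} (hf : Geo.IsUnitaryForm σ hh) (h : IW q v v' w) : IW q v v' (-w) := by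
  constructor
  · rw [neg_right hf, h.1, neg_zero]
  · rw [neg_right hf, h.2, neg_zero]

lemma IsE.apply' (H : NA σ v v' α) {w : V} (hw : IW q v v' w) {t : F} {A : GS} (hA : IsE v w t A) : ac A v' = v' + w + t • v := by
  rw [hA, H.v'v, hw.2]; module

lemma IsE.trace (H : NA σ v v' α) {w : V} (hw : IW q v v' w) {t : F} {A : GS} (hA : IsE v w t A) : t + σ t = - hh w w := by
  have hf := H.hf
  have := ac_herm A v' v'
  rw [IsE.apply' H hw hA, H.v'v'] at this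
  simp only [hf.add_left, add_right hf, hf.smul_left, smul_right hf, H.vv, H.v'v', H.vv', H.v'v, hw.1, hw.2, hw.wv hf, hw.wv' hf] at this
  linear_combination this

lemma NA.uniqE (H : NA σ v v' α) {w w' : V} (hw : IW q v v' w) (hw' : IW q v v' w') {t t' : F} {A : GS} (h : IsE v w t A) (h' : IsE v w' t' A) : w = w' ∧ t = t' :=
  IsE.uniq H.hf H.vv' (hw.wv' H.hf) (hw'.wv' H.hf) h h'

lemma IsE.fixv (hf : Geo.IsUnitaryForm σ hh) (hv : hh v v = 0) {w : V} (hw : hh v w = 0) {t : F} {A : GS} (h : IsE v w t A) : ac A v = v := by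
  rw [h, hv, hw]; simp

lemma NA.uniqPi (H : NA σ v v' α) {w w' : V} (hw : IW q v v' w) (hw' : IW q v v' w') {t t' : F} {A B : GS} (h : IsE v w t A) (h' : IsE v w' t' B)
    (hAB : π A = π B) : A = B ∧ w = w' ∧ t = t' := by
  have h1 := pi_inj H.hF (by have := H.hn; omega) H.v0 (h.fixv H.hf H.vv hw.1) (h'.fixv H.hf H.vv hw'.1) hAB
  rw [← h1] at h'
  exact ⟨h1, H.uniqE hw hw' h h'⟩

/-- the relation on parameters -/
def RE (v : V) (α : MulAut (Cfsg.PSU n F q)) (w w' : V) : Prop := ∃ t t' A A', IsE v w t A ∧ IsE v w' t' A' ∧ α (π A) = π A'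

def RT (v : V) (α : MulAut (Cfsg.PSU n F q)) (c d : F) : Prop := ∃ A A', IsT v c A ∧ IsT v d A' ∧ α (π A) = π A'

lemma NA.exists_RT (H : NA σ v v' α) {c : F} {A : GS} (hA : IsT v c A) : ∃ d A', IsT v d A' ∧ α (π A) = π A' := by
  have h1 : α (π A) ∈ π '' (TS v : Set GS) := by
    have := H.rv
    unfold Rl at this
    rw [← this]; exact ⟨_, ⟨A, ⟨c, hA⟩, rfl⟩, rfl⟩
  obtain ⟨A', ⟨d, hd⟩, h⟩ := h1
  exact ⟨d, A', hd, h.symm⟩

lemma NA.uniqT (H : NA σ v v' α) {c d : F} {A B : GS} (h : IsT v c A) (h' : IsT v d B) (hAB : π A = π B) : A = B ∧ c = d := by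
  have h1 := pi_inj H.hF (by have := H.hn; omega) H.v0 (h.fix H.vv) (h'.fix H.vv) hAB
  rw [← h1] at h'
  exact ⟨h1, IsT.uniq H.hf H.v0 h h'⟩

lemma NA.uniqRT (H : NA σ v v' α) {c d d' : F} (h : RT v α c d) (h' : RT v α c d') : d = d' := by
  obtain ⟨A, A', hA, hA', e⟩ := h
  obtain ⟨B, B', hB, hB', e'⟩ := h'
  rw [hA.ext hB, e'] at e
  exact (H.uniqT hB' hA' e).2.symm

lemma NA.uniqRE (H : NA σ v v' α) {w w1 w2 : V} (hw : IW q v v' w) (hw1 : IW q v v' w1) (hw2 : IW q v v' w2) (h : RE v α w w1) (h' : RE v α w w2) : w1 = w2 := by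
  have hf := H.hf
  obtain ⟨t, t', A, A', hA, hA', e⟩ := h
  obtain ⟨s, s', B, B', hB, hB', e'⟩ := h'
  have h1 := IsE.mul hf H.vv hw.1 (hw.neg hf).1 hB (hA.inv hf H.vv hw.1 (hA.trace H hw))
  rw [add_neg_cancel, ← isT_iff_isE hf] at h1
  obtain ⟨d, C, hC, hC'⟩ := H.exists_RT h1
  have h2 : π B' = π (C * A') := by
    rw [map_mul, ← hC', ← e', ← e, map_mul, map_mul, map_inv, map_inv]; group
  have h3 := IsE.mul hf H.vv (zero_right hf v) hw1.1 ((isT_iff_isE hf).1 hC) hA'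
  rw [zero_add] at h3
  exact ((H.uniqPi hw2 hw1 hB' h3 h2).2.1).symm

lemma NA.exists_RE (H : NA σ v v' α) {w : V} (hw : IW q v v' w) {t : F} {A : GS} (hA : IsE v w t A) :
    ∃ w' t' A', IW q v v' w' ∧ IsE v w' t' A' ∧ α (π A) = π A' := by
  obtain ⟨A', hA', e⟩ := Rl.radical H.hF H.hn H.hf H.v0 H.vv H.v0 H.vv H.rv (hA.mem H.vv hw.1)
  obtain ⟨w', t', h1, h2, -, h4⟩ := exists_E_of_mem H.hf H.vv H.v'v' H.vv' hA'
  exact ⟨w', t', A', ⟨h1, h2⟩, h4, e⟩

open Classical in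
/-- the induced map on `W` -/
noncomputable def phi (v v' : V) (α : MulAut (Cfsg.PSU n F q)) (w : V) : V := if h : ∃ w', IW q v v' w' ∧ RE v α w w' then h.choose else 0

open Classical in
/-- the induced map on transvection parameters -/
noncomputable def tau (v : V) (α : MulAut (Cfsg.PSU n F q)) (c : F) : F := if h : ∃ d, RT v α c d then h.choose else 0

lemma NA.exE (H : NA σ v v' α) {w : V} (hw : IW q v v' w) : ∃ t, ∃ A : GS, IsE v w t A := by
  obtain ⟨t, ht⟩ := exists_trace H.hf (- hh w w) (by rw [map_neg, norm_real H.hf])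
  obtain ⟨A, hA⟩ := exists_E H.hf H.vv hw.1 ht
  exact ⟨t, A, hA⟩

lemma NA.phi_spec (H : NA σ v v' α) {w : V} (hw : IW q v v' w) : IW q v v' (phi v v' α w) ∧ RE v α w (phi v v' α w) := by
  obtain ⟨t, A, hA⟩ := H.exE hw
  obtain ⟨w', t', A', h1, h2, h3⟩ := H.exists_RE hw hA
  have h : ∃ w', IW q v v' w' ∧ RE v α w w' := ⟨w', h1, t, t', A, A', hA, h2, h3⟩
  unfold phi
  rw [dif_pos h]
  exact h.choose_spec

lemma NA.phi_IW (H : NA σ v v' α) {w : V} (hw : IW q v v' w) : IW q v v' (phi v v' α w) := (H.phi_spec hw).1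

lemma NA.phi_eq (H : NA σ v v' α) {w w' : V} (hw : IW q v v' w) (hw' : IW q v v' w') (h : RE v α w w') : phi v v' α w = w' :=
  H.uniqRE hw (H.phi_spec hw).1 hw' (H.phi_spec hw).2 h

lemma NA.phi_E (H : NA σ v v' α) {w : V} (hw : IW q v v' w) {t : F} {A : GS} (hA : IsE v w t A) :
    ∃ t' A', IsE v (phi v v' α w) t' A' ∧ α (π A) = π A' := by
  obtain ⟨w', t', A', h1, h2, h3⟩ := H.exists_RE hw hA
  have h4 := H.phi_eq hw h1 ⟨t, t', A, A', hA, h2, h3⟩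
  exact ⟨t', A', by rw [h4]; exact h2, h3⟩

lemma NA.tau_spec (H : NA σ v v' α) {c : F} {A : GS} (hA : IsT v c A) : ∃ A', IsT v (tau v α c) A' ∧ α (π A) = π A' := by
  obtain ⟨d, A', h1, h2⟩ := H.exists_RT hA
  have h : ∃ d, RT v α c d := ⟨d, A, A', hA, h1, h2⟩
  have h3 : tau v α c = d := by
    unfold tau
    rw [dif_pos h]
    exact H.uniqRT h.choose_spec ⟨A, A', hA, h1, h2⟩
  exact ⟨A', by rw [h3]; exact h1, h2⟩

lemma NA.tau_eq (H : NA σ v v' α) {c d : F} (h : RT v α c d) : tau v α c = d := by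
  obtain ⟨A, A', hA, h1, h2⟩ := h
  obtain ⟨B, h3, h4⟩ := H.tau_spec hA
  rw [h2] at h4
  exact ((H.uniqT h1 h3 h4).2).symm

lemma NA.phi_add (H : NA σ v v' α) {w u : V} (hw : IW q v v' w) (hu : IW q v v' u) : phi v v' α (w + u) = phi v v' α w + phi v v' α u := by
  have hf := H.hf
  obtain ⟨t, A, hA⟩ := H.exE hw
  obtain ⟨s, B, hB⟩ := H.exE hu
  obtain ⟨t', A', hA', e⟩ := H.phi_E hw hA
  obtain ⟨s', B', hB', e'⟩ := H.phi_E hu hB
  refine H.phi_eq (hw.add hf hu) ((H.phi_IW hw).add hf (H.phi_IW hu)) ⟨_, _, A * B, A' * B', hA.mul hf H.vv hw.1 hu.1 hB, hA'.mul hf H.vv (H.phi_IW hw).1 (H.phi_IW hu).1 hB', ?_⟩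
  rw [map_mul, map_mul, e, e', map_mul]

lemma NA.phi_zero (H : NA σ v v' α) : phi v v' α 0 = 0 := by
  have h := H.phi_add (IW.zero H.hf) (IW.zero H.hf)
  rw [add_zero] at h
  exact left_eq_add.1 h

lemma NA.phi_inv (H : NA σ v v' α) {w : V} (hw : IW q v v' w) : phi v v' α⁻¹ (phi v v' α w) = w := by
  apply H.inv.phi_eq (H.phi_IW hw) hw
  obtain ⟨t, t', A, A', hA, hA', e⟩ := (H.phi_spec hw).2
  refine ⟨t', t, A', A, hA', hA, ?_⟩
  rw [← e]
  exact α.symm_apply_apply _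

lemma NA.phi_inv' (H : NA σ v v' α) {w : V} (hw : IW q v v' w) : phi v v' α (phi v v' α⁻¹ w) = w := by
  have := H.inv.phi_inv hw
  rwa [inv_inv] at this

lemma NA.phi_ne (H : NA σ v v' α) {w : V} (hw : IW q v v' w) (h0 : w ≠ 0) : phi v v' α w ≠ 0 := by
  intro h
  have := H.phi_inv hw
  rw [h, H.inv.phi_zero] at this
  exact h0 this.symm

lemma NA.phi_mul (H : NA σ v v' α) (H' : NA σ v v' β) {w : V} (hw : IW q v v' w) : phi v v' (β * α) w = phi v v' β (phi v v' α w) := by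
  apply (H.mul H').phi_eq hw (H'.phi_IW (H.phi_IW hw))
  obtain ⟨t, A, hA⟩ := H.exE hw
  obtain ⟨t', A', hA', e⟩ := H.phi_E hw hA
  obtain ⟨s, B, hB, e'⟩ := H'.phi_E (H.phi_IW hw) hA'
  refine ⟨_, _, A, B, hA, hB, ?_⟩
  rw [MulAut.mul_apply, e, e']

lemma NA.tau_add (H : NA σ v v' α) {c d : F} (hc : σ c = -c) (hd : σ d = -d) : tau v α (c + d) = tau v α c + tau v α d := by
  obtain ⟨A, hA⟩ := exists_T (n := n) H.hf H.vv hc
  obtain ⟨B, hB⟩ := exists_T (n := n) H.hf H.vv hd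
  obtain ⟨A', hA', e⟩ := H.tau_spec hA
  obtain ⟨B', hB', e'⟩ := H.tau_spec hB
  refine H.tau_eq ⟨A * B, A' * B', hA.mul H.hf H.vv hB, hA'.mul H.hf H.vv hB', ?_⟩
  rw [map_mul, map_mul, e, e', map_mul]

lemma NA.tau_skew (H : NA σ v v' α) {c : F} (hc : σ c = -c) : σ (tau v α c) = - tau v α c := by
  obtain ⟨A, hA⟩ := exists_T (n := n) H.hf H.vv hc
  obtain ⟨A', hA', e⟩ := H.tau_spec hA
  exact hA'.skew H.hf H.v0 H.vv

lemma NA.tau_zero (H : NA σ v v' α) : tau v α 0 = 0 := H.tau_eq ⟨1, 1, IsT.zero, IsT.zero, by rw [map_one, map_one]⟩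

lemma NA.tau_mul (H : NA σ v v' α) (H' : NA σ v v' β) {c : F} (hc : σ c = -c) : tau v (β * α) c = tau v β (tau v α c) := by
  obtain ⟨A, hA⟩ := exists_T (n := n) H.hf H.vv hc
  obtain ⟨A', hA', e⟩ := H.tau_spec hA
  obtain ⟨B, hB, e'⟩ := H'.tau_spec hA'
  exact (H.mul H').tau_eq ⟨A, B, hA, hB, by rw [MulAut.mul_apply, e, e']⟩

/-- commutators -/
lemma NA.tau_comm (H : NA σ v v' α) {w u : V} (hw : IW q v v' w) (hu : IW q v v' u) :
    tau v α (hh w u - hh u w) = hh (phi v v' α w) (phi v v' α u) - hh (phi v v' α u) (phi v v' α w) := by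
  have hf := H.hf
  obtain ⟨t, A, hA⟩ := H.exE hw
  obtain ⟨s, B, hB⟩ := H.exE hu
  obtain ⟨t', A', hA', e⟩ := H.phi_E hw hA
  obtain ⟨s', B', hB', e'⟩ := H.phi_E hu hB
  have sk : ∀ x y : V, σ (hh x y - hh y x) = -(hh x y - hh y x) := by
    intro x y
    rw [map_sub, ← hf.herm, ← hf.herm]; ring
  obtain ⟨C, hC⟩ := exists_T (n := n) hf H.vv (sk w u)
  obtain ⟨C', hC'⟩ := exists_T (n := n) hf H.vv (sk (phi v v' α w) (phi v v' α u))
  refine H.tau_eq ⟨C, C', hC, hC', ?_⟩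
  have h1 := hA.comm hf H.vv hw.1 hu.1 hB ((isT_iff_isE hf).1 hC)
  have h2 := hA'.comm hf H.vv (H.phi_IW hw).1 (H.phi_IW hu).1 hB' ((isT_iff_isE hf).1 hC')
  have h3 : C = A * B * (B * A)⁻¹ := by rw [h1]; group
  have h4 : C' = A' * B' * (B' * A')⁻¹ := by rw [h2]; group
  rw [h3, h4]
  simp only [map_mul, map_inv, e, e']

/-- torus elements -/
lemma NA.torus (H : NA σ v v' α) {a : F} (ha : a ≠ 0) {g g' : GS} (hgv : ac g v = a • v) (hgv' : ac g v' = (σ a)⁻¹ • v') (hgg' : α (π g) = π g') :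
    ∃ a', a' ≠ 0 ∧ ac g' v = a' • v ∧ ac g' v' = (σ a')⁻¹ • v' ∧
      (∀ w, IW q v v' w → IW q v v' (ac g w) ∧ phi v v' α (σ a • ac g w) = σ a' • ac g' (phi v v' α w)) ∧
      (∀ c, σ c = -c → tau v α (a * σ a * c) = a' * σ a' * tau v α c) ∧
      (∀ w, IW q v v' w → ∀ t A t' A', IsE v w t A → IsE v (phi v v' α w) t' A' → α (π A) = π A' →
        IsE v (σ a • ac g w) (a * σ a * t) (g * A * g⁻¹) ∧ IsE v (σ a' • ac g' (phi v v' α w)) (a' * σ a' * t') (g' * A' * g'⁻¹) ∧ α (π (g * A * g⁻¹)) = π (g' * A' * g'⁻¹)) := by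
  have hf := H.hf
  have hσa : σ a ≠ 0 := fun h0 => ha ((map_eq_zero σ).1 h0)
  have h1 := H.rv.conj hgg'
  rw [hgv] at h1
  obtain ⟨a', ha', h2⟩ := Rl.uniq H.hF H.hn hf H.v0 H.vv H.rv (h1.of_smul_left hf ha)
  have h3 := H.rv'.conj hgg'
  rw [hgv'] at h3
  obtain ⟨b', hb', h4⟩ := Rl.uniq H.hF H.hn hf H.v'0 H.v'v' H.rv' (h3.of_smul_left hf (inv_ne_zero hσa))
  have hσa' : σ a' ≠ 0 := fun h0 => ha' ((map_eq_zero σ).1 h0)
  have h5 : b' = (σ a')⁻¹ := by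
    have h6 := ac_herm g' v' v
    rw [h2, h4, hf.smul_left, smul_right hf, H.v'v] at h6
    field_simp
    linear_combination h6
  rw [h5] at h4
  have gW : ∀ {g : GS} {a : F}, a ≠ 0 → ac g v = a • v → ac g v' = (σ a)⁻¹ • v' → ∀ w, IW q v v' w → IW q v v' (ac g w) := by
    intro g a ha hgv hgv' w hw
    have hσa : σ a ≠ 0 := fun h0 => ha ((map_eq_zero σ).1 h0)
    constructor
    · have h7 := ac_herm g v w
      rw [hgv, hf.smul_left, hw.1] at h7
      exact (mul_eq_zero.1 h7).resolve_left ha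
    · have h7 := ac_herm g v' w
      rw [hgv', hf.smul_left, hw.2] at h7
      exact (mul_eq_zero.1 h7).resolve_left (inv_ne_zero hσa)
  have hE : ∀ w, IW q v v' w → ∀ t A t' A', IsE v w t A → IsE v (phi v v' α w) t' A' → α (π A) = π A' →
        IsE v (σ a • ac g w) (a * σ a * t) (g * A * g⁻¹) ∧ IsE v (σ a' • ac g' (phi v v' α w)) (a' * σ a' * t') (g' * A' * g'⁻¹) ∧ α (π (g * A * g⁻¹)) = π (g' * A' * g'⁻¹) := by
    intro w hw t A t' A' hA hA' e
    refine ⟨?_, ?_, ?_⟩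
    · have h8 := hA.conj g
      rw [hgv] at h8
      exact h8.smul_center hf
    · have h8 := hA'.conj g'
      rw [h2] at h8
      exact h8.smul_center hf
    · simp only [map_mul, map_inv, hgg', e]
  refine ⟨a', ha', h2, h4, fun w hw => ⟨gW ha hgv hgv' w hw, ?_⟩, fun c hc => ?_, hE⟩
  · obtain ⟨t, A, hA⟩ := H.exE hw
    obtain ⟨t', A', hA', e⟩ := H.phi_E hw hA
    obtain ⟨k1, k2, k3⟩ := hE w hw t A t' A' hA hA' e
    exact H.phi_eq ((gW ha hgv hgv' w hw).smul hf _) ((gW ha' h2 h4 _ (H.phi_IW hw)).smul hf _) ⟨_, _, _, _, k1, k2, k3⟩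
  · obtain ⟨A, hA⟩ := exists_T (n := n) hf H.vv hc
    obtain ⟨A', hA', e⟩ := H.tau_spec hA
    have h8 := hA.conj g
    rw [hgv] at h8
    have h9 := hA'.conj g'
    rw [h2] at h9
    exact H.tau_eq ⟨_, _, h8.smul hf, h9.smul hf, by simp only [map_mul, map_inv, hgg', e]⟩

/-- hyperbolic diagonal elements -/
lemma hyp_gl (hσ : ∀ x, σ x = x ^ q) (hf : Geo.IsUnitaryForm σ hh) {u u' : V} (huu : hh u u = 0) (hu'u' : hh u' u' = 0) (h : hh u u' = 1) {c : F} (hc : c ≠ 0) :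
    ∃ g ∈ iso hh, (g : Matrix (Fin n) (Fin n) F).det = c * (σ c)⁻¹ ∧
      ∀ x, (g : Matrix (Fin n) (Fin n) F) *ᵥ x = x + ((c - 1) * hh x u') • u + (((σ c)⁻¹ - 1) * hh x u) • u' := by
  have hσ' : ∀ x, (σ : F →+* F) x = x ^ q := hσ
  have hσ2 : ∀ x, (σ : F →+* F) ((σ : F →+* F) x) = x := fun x => hf.involutive x
  obtain ⟨g, hg, hdet, hgx⟩ := exists_hyp_diag (n := n) hσ' hσ2 u u' (by rw [BH_hermForm hσ', huu]) (by rw [BH_hermForm hσ', hu'u']) (by
    rw [BH_hermForm hσ', hf.herm, h, map_one]) c hc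
  refine ⟨g, hg, hdet, fun x => ?_⟩
  rw [hgx, BH_hermForm hσ', BH_hermForm hσ']
  rfl

lemma NA.torus4 (H : NA σ v v' α) {w w' : V} (hw : IW q v v' w) (hw' : IW q v v' w') (hww : hh w w = 0) (hw'w' : hh w' w' = 0) (hww' : hh w w' = 1)
    {a b : F} (ha : a ≠ 0) (hb : b ≠ 0) (hab : σ (a * b) = a * b) :
    ∃ g : GS, ac g v = a • v ∧ ac g v' = (σ a)⁻¹ • v' ∧ ac g w = b • w := by
  have hf := H.hf
  have hσa : σ a ≠ 0 := fun h0 => ha ((map_eq_zero σ).1 h0)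
  have hσb : σ b ≠ 0 := fun h0 => hb ((map_eq_zero σ).1 h0)
  obtain ⟨g1, hg1, hd1, hg1x⟩ := hyp_gl H.hσ hf H.vv H.v'v' H.vv' ha
  obtain ⟨g2, hg2, hd2, hg2x⟩ := hyp_gl H.hσ hf hww hw'w' hww' hb
  have hdet : ((g1 * g2 : Matrix.GeneralLinearGroup (Fin n) F) : Matrix (Fin n) (Fin n) F).det = 1 := by
    rw [Units.val_mul, Matrix.det_mul, hd1, hd2]
    rw [map_mul] at hab
    field_simp
    linear_combination -hab
  obtain ⟨g, hg⟩ := exists_su_of_gl (n := n) (q := q) (g := g1 * g2) ⟨Subgroup.mul_mem _ hg1 hg2, by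
    show Matrix.GeneralLinearGroup.det _ = 1
    apply Units.ext
    rw [Matrix.GeneralLinearGroup.val_det_apply]
    exact hdet⟩
  have hgx : ∀ x, ac g x = (g1 : Matrix (Fin n) (Fin n) F) *ᵥ ((g2 : Matrix (Fin n) (Fin n) F) *ᵥ x) := by
    intro x
    unfold ac
    rw [hg, Units.val_mul, Matrix.mulVec_mulVec]
  refine ⟨g, ?_, ?_, ?_⟩
  · rw [hgx, hg2x, hw'.1, hw.1, hg1x]
    simp only [mul_zero, zero_smul, add_zero, H.vv', H.vv]
    module
  · rw [hgx, hg2x, hw'.2, hw.2, hg1x]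
    simp only [mul_zero, zero_smul, add_zero, H.v'v', H.v'v]
    module
  · rw [hgx, hg2x, hww', hww, hg1x]
    simp only [mul_zero, zero_smul, add_zero, mul_one, hf.add_left, hf.smul_left, hw.wv hf, hw.wv' hf]
    module

lemma NA.torus3 (H : NA σ v v' α) {w : V} (hw : IW q v v' w) (hww : hh w w ≠ 0) {a : F} (ha : a ≠ 0) :
    ∃ g : GS, ac g v = a • v ∧ ac g v' = (σ a)⁻¹ • v' ∧ ac g w = (σ a / a) • w := by
  have hf := H.hf
  have hσa : σ a ≠ 0 := fun h0 => ha ((map_eq_zero σ).1 h0)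
  have hb : σ a / a ≠ 0 := div_ne_zero hσa ha
  obtain ⟨g1, hg1, hd1, hg1x⟩ := hyp_gl H.hσ hf H.vv H.v'v' H.vv' ha
  have hnb : (σ a / a) * σ (σ a / a) = 1 := by
    rw [map_div₀, hf.involutive]; field_simp
  have hg2 := qr_mem_iso hf hww hnb
  have hd2 := qr_det hf hww hb
  have hg2x := qr_mulVec hf hww hb
  obtain ⟨g2, hg2e⟩ : ∃ g2, g2 = CfsgLib.Un29.qr hf w (σ a / a) := ⟨_, rfl⟩
  rw [← hg2e] at hg2 hd2 hg2x
  have hdet : ((g1 * g2 : Matrix.GeneralLinearGroup (Fin n) F) : Matrix (Fin n) (Fin n) F).det = 1 := by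
    rw [Units.val_mul, Matrix.det_mul, hd1, hd2]
    field_simp
  obtain ⟨g, hg⟩ := exists_su_of_gl (n := n) (q := q) (g := g1 * g2) ⟨Subgroup.mul_mem _ hg1 hg2, by
    show Matrix.GeneralLinearGroup.det _ = 1
    apply Units.ext
    rw [Matrix.GeneralLinearGroup.val_det_apply]
    exact hdet⟩
  have hgx : ∀ x, ac g x = (g1 : Matrix (Fin n) (Fin n) F) *ᵥ ((g2 : Matrix (Fin n) (Fin n) F) *ᵥ x) := by
    intro x
    unfold ac
    rw [hg, Units.val_mul, Matrix.mulVec_mulVec]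
  refine ⟨g, ?_, ?_, ?_⟩
  · rw [hgx, hg2x, hw.1, hg1x]
    simp only [mul_zero, zero_smul, add_zero, H.vv', H.vv]
    module
  · rw [hgx, hg2x, hw.2, hg1x]
    simp only [mul_zero, zero_smul, add_zero, H.v'v', H.v'v]
    module
  · rw [hgx, hg2x, hg1x]
    simp only [hf.add_left, hf.smul_left, hw.wv hf, hw.wv' hf, mul_zero, zero_smul, add_zero]
    rw [div_mul_cancel₀ _ hww, sub_smul, one_smul]; abel

end

end Cfsg.Agent.H22
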