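import Cfsg.Agent.LibH22AU4

set_option autoImplicit false

/-! Automorphisms of unitary groups V: the induced map is semilinear (seat helper22). -/

namespace Cfsg.Agent.H22

open Module Matrix Cfsg CfsgLib.Un29 CfsgLib.SylCen27 CfsgLib.FTPG27

section
variable {F : Type*} [Field F] [Fintype F] {σ : F ≃+* F} {q n : ℕ}

local notation "hh" => hermForm n F q
local notation "V" => (Fin n → F)
local notation "GS" => (Cfsg.SU n F q)
local notation "π" => (QuotientGroup.mk' (Subgroup.center (Cfsg.SU n F q)))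

omit [Fintype F] in
lemma exists_rho [Finite F] (φ : F → V) (hadd : ∀ a b, φ (a + b) = φ a + φ b) (h1 : φ 1 ≠ 0) (hR : ∀ κ, ∃ κ' : F, ∀ k, φ (κ * k) = κ' • φ k) :
    ∃ ρ : F ≃+* F, ∀ κ k, φ (κ * k) = ρ κ • φ k := by
  choose r hr using hR
  have h0 : φ 0 = 0 := by
    have := hadd 0 0
    rw [add_zero] at this
    exact left_eq_add.1 this
  have hinj : ∀ a b : F, a • φ 1 = b • φ 1 → a = b := fun a b h => smul_left_injective F h1 h
  let ρ0 : F →+* F :=
    { toFun := r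
      map_one' := by
        apply hinj
        rw [← hr, one_smul, mul_one]
      map_mul' := fun a b => by
        apply hinj
        rw [← hr, mul_smul, ← hr b, ← hr, mul_assoc]
      map_zero' := by
        apply hinj
        rw [← hr, zero_smul, zero_mul, h0]
      map_add' := fun a b => by
        apply hinj
        rw [← hr, add_smul, ← hr, ← hr, mul_one, mul_one, mul_one, hadd] }
  exact ⟨RingEquiv.ofBijective ρ0 (Finite.injective_iff_bijective.1 ρ0.injective), fun κ k => hr κ k⟩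

omit [Fintype F] in
lemma R_top (hf : Geo.IsUnitaryForm σ hh) (φ : F → V) (hadd : ∀ a b, φ (a + b) = φ a + φ b)
    (hreal : ∀ κ, κ ≠ 0 → σ κ = κ → ∃ κ' : F, ∀ k, φ (κ * k) = κ' • φ k) {u : F} (hu : σ u ≠ u) (hPu : ∃ κ' : F, ∀ k, φ (u * k) = κ' • φ k) (κ : F) :
    ∃ κ' : F, ∀ k, φ (κ * k) = κ' • φ k := by
  have h0 : φ 0 = 0 := by
    have := hadd 0 0
    rw [add_zero] at this
    exact left_eq_add.1 this
  have hreal' : ∀ κ, σ κ = κ → ∃ κ' : F, ∀ k, φ (κ * k) = κ' • φ k := by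
    intro κ hκ
    by_cases h : κ = 0
    · exact ⟨0, fun k => by rw [h, zero_mul, h0, zero_smul]⟩
    · exact hreal κ h hκ
  have hu' : u - σ u ≠ 0 := sub_ne_zero.2 (Ne.symm hu)
  obtain ⟨β, hβ⟩ : ∃ β, β = (κ - σ κ) / (u - σ u) := ⟨_, rfl⟩
  have hβr : σ β = β := by
    rw [hβ, map_div₀, map_sub, map_sub, hf.involutive, hf.involutive, ← neg_sub κ, ← neg_sub u, neg_div_neg_eq]
  have hβu : β * (u - σ u) = κ - σ κ := by rw [hβ, div_mul_cancel₀ _ hu']
  obtain ⟨b', hb'⟩ := hreal' β hβr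
  obtain ⟨a', ha'⟩ := hreal' (κ - β * u) (by rw [map_sub, map_mul, hβr]; linear_combination hβu)
  obtain ⟨u', hu'⟩ := hPu
  refine ⟨a' + b' * u', fun k => ?_⟩
  have : κ * k = (κ - β * u) * k + β * (u * k) := by ring
  rw [this, hadd, ha', hb', hu', add_smul, mul_smul]

lemma exists_root3 (hF : Fintype.card F = q ^ 2) (hq : 3 ≤ q) : ∃ c : F, c ^ (q + 1) = 1 ∧ c ^ 3 ≠ 1 := by
  classical
  by_contra hcon
  push Not at hcon
  have h1 : Nat.card {x : F // x ^ (q + 1) = 1} = q + 1 := card_norm_fiber hF 1 one_ne_zero (one_pow q)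
  have h2 : Nat.card {x : F // x ^ 3 = 1} = Nat.gcd 3 (Fintype.card F - 1) := by
    rw [Nat.gcd_comm]; exact card_pow_eq_one 3 (by norm_num)
  have h3 : Nat.card {x : F // x ^ (q + 1) = 1} ≤ Nat.card {x : F // x ^ 3 = 1} :=
    Nat.card_le_card_of_injective (fun x => ⟨x.1, hcon x.1 x.2⟩) (fun a b h => Subtype.ext (congrArg (fun z : {x : F // x ^ 3 = 1} => z.1) h))
  rw [h1, h2] at h3
  have h4 : Nat.gcd 3 (Fintype.card F - 1) ≤ 3 := Nat.gcd_le_left _ (by norm_num)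
  omega

lemma hilb (hσ : ∀ x, σ x = x ^ q) (hf : Geo.IsUnitaryForm σ hh) {c : F} (hc : c ^ (q + 1) = 1) : ∃ a : F, a ≠ 0 ∧ a * (σ a)⁻¹ = c :=
  hilbert90 (σ := (σ : F →+* F)) hσ (fun x => hf.involutive x) (fun h => hf.ne_refl (RingEquiv.ext fun x => congrArg (fun f : F →+* F => f x) h)) c hc

variable {v v' : Fin n → F} {α β : MulAut (Cfsg.PSU n F q)}

/-- images of isotropic vectors -/
lemma NA.phi_iso (H : NA σ v v' α) {w u : V} (hw : IW q v v' w) (hw0 : w ≠ 0) (hww : hh w w = 0) (hu0 : u ≠ 0) (huu : hh u u = 0) (hwu : Rl α w u) :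
    IW q v v' u ∧ ∃ c : F, phi v v' α w = c • u := by
  have hf := H.hf
  have hn := H.hn
  have hu : IW q v v' u := ⟨(Rl.perp H.hF H.hn hf H.v0 H.vv hw0 hww H.v0 H.vv hu0 huu H.rv hwu).1 hw.1,
    (Rl.perp H.hF H.hn hf H.v'0 H.v'v' hw0 hww H.v'0 H.v'v' hu0 huu H.rv' hwu).1 hw.2⟩
  refine ⟨hu, ?_⟩
  obtain ⟨δ, hδ0, hδ⟩ := exists_skew hf
  obtain ⟨s, hs⟩ : ∃ s, s = δ⁻¹ := ⟨_, rfl⟩
  have hδs : δ * s = 1 := by rw [hs, mul_inv_cancel₀ hδ0]
  have hσs : σ s = -s := by rw [hs, map_inv₀, hδ, inv_neg]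
  have hx1v' : hh (v + s • w) v' = 1 := by rw [hf.add_left, hf.smul_left, H.vv', hw.wv' hf]; ring
  have hx10 : v + s • w ≠ 0 := by
    intro h
    rw [h, zero_left hf] at hx1v'
    exact zero_ne_one hx1v'
  have hx1 : hh (v + s • w) (v + s • w) = 0 := by
    simp only [hf.add_left, add_right hf, hf.smul_left, smul_right hf, H.vv, hww, hw.1, hw.wv hf]; ring
  obtain ⟨x', hx0', hx', hxx'⟩ := Rl.exists H.hF hn hf α hx10 hx1
  obtain ⟨a, b, hab⟩ := Rl.line H.hF hn hf H.v0 H.vv hw0 hww hx10 hx1 H.v0 H.vv hu0 huu hx0' hx' H.rv hwu hxx' hw.1 ⟨1, s, by rw [one_smul]⟩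
  obtain ⟨A1, hA1⟩ := exists_T (n := n) hf hx1 hδ
  obtain ⟨A2, hA2⟩ := exists_T (n := n) hf H.vv (c := -δ) (by rw [map_neg, hδ])
  obtain ⟨A3, hA3⟩ := exists_T (n := n) hf hww hσs
  have img : ∀ {y y' : V} {c : F} {A : GS}, Rl α y y' → IsT y c A → ∃ d A', IsT y' d A' ∧ α (π A) = π A' := by
    intro y y' c A hy hA
    have h1 : α (π A) ∈ π '' (TS y' : Set GS) := by
      unfold Rl at hy
      rw [← hy]; exact ⟨_, ⟨A, ⟨c, hA⟩, rfl⟩, rfl⟩
    obtain ⟨A', ⟨d, hd⟩, h⟩ := h1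
    exact ⟨d, A', hd, h.symm⟩
  obtain ⟨c1, A1', hA1', e1⟩ := img hxx' hA1
  obtain ⟨c2, A2', hA2', e2⟩ := img H.rv hA2
  obtain ⟨c3, A3', hA3', e3⟩ := img hwu hA3
  have hA : IsE v w 0 (A1 * A2 * A3) := by
    intro x
    rw [ac_mul, ac_mul, hA3, hA2, hA1]
    simp only [hf.add_left, add_right hf, hf.smul_left, smul_right hf, H.vv, hww, hw.1, hw.wv hf, hσs, mul_zero, add_zero, zero_mul]
    have k1 : ∀ (X Y : F), x + (s * X) • w + (-δ * Y) • v + (δ * (Y + -s * X)) • (v + s • w) =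
      x + (Y * (δ * s) + s * X * (1 - δ * s)) • w + (-(δ * s) * X) • v := by
      intro X Y; module
    rw [k1, hδs]; module
  obtain ⟨t', B, hB, e⟩ := H.phi_E hw hA
  have hux : hh v x' = 0 := by rw [hab, add_right hf, smul_right hf, smul_right hf, H.vv, hu.1]; ring
  have hBB : B = A1' * A2' * A3' := by
    apply pi_inj H.hF (by omega) H.v0 (hB.fixv hf H.vv (H.phi_IW hw).1)
    · rw [ac_mul, ac_mul, hA3'.fix hu.1, hA2'.fix H.vv, hA1'.fix hux]
    · rw [← e]
      simp only [map_mul, e1, e2, e3]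
  have h1 := hB.apply' H (H.phi_IW hw)
  rw [hBB, ac_mul, ac_mul, hA3', hA2', hA1', hab] at h1
  obtain ⟨X, Y, hXY⟩ : ∃ X Y : F, phi v v' α w + t' • v = X • v + Y • u := by
    obtain ⟨P, hP⟩ : ∃ P, P = c1 * hh (v' + (c3 * hh v' u) • u + (c2 * hh (v' + (c3 * hh v' u) • u) v) • v) (a • v + b • u) := ⟨_, rfl⟩
    obtain ⟨Q, hQ⟩ : ∃ Q, Q = c2 * hh (v' + (c3 * hh v' u) • u) v := ⟨_, rfl⟩
    rw [← hP, ← hQ] at h1
    refine ⟨Q + P * a, c3 * hh v' u + P * b, ?_⟩
    have h2 : v' + (phi v v' α w + t' • v) = v' + ((Q + P * a) • v + (c3 * hh v' u + P * b) • u) := by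
      rw [← add_assoc, ← h1]; module
    exact add_left_cancel h2
  have h3 := congrArg (fun y => hh y v') hXY
  simp only [hf.add_left, hf.smul_left, H.vv', (H.phi_IW hw).wv' hf, hu.wv' hf] at h3
  have h4 : t' = X := by linear_combination h3
  rw [h4, add_comm] at hXY
  exact ⟨Y, add_left_cancel hXY⟩

lemma NA.step (H : NA σ v v' α) {w u : V} (hw : IW q v v' w) (hw0 : w ≠ 0) (hline : ∀ k : F, ∃ c : F, phi v v' α (k • w) = c • u)
    {a b : F} (ha : a ≠ 0) {g : GS} (hgv : ac g v = a • v) (hgv' : ac g v' = (σ a)⁻¹ • v') (hgw : ac g w = b • w) :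
    ∃ κ' : F, ∀ k, phi v v' α ((σ a * b * k) • w) = κ' • phi v v' α (k • w) := by
  obtain ⟨g', hg'⟩ := QuotientGroup.mk'_surjective (Subgroup.center GS) (α (π g))
  obtain ⟨a', ha', -, -, h1, -, -⟩ := H.torus ha hgv hgv' hg'.symm
  have hσa' : σ a' ≠ 0 := fun h0 => ha' ((map_eq_zero σ).1 h0)
  have h2 : ∀ k : F, phi v v' α ((σ a * b * k) • w) = σ a' • ac g' (phi v v' α (k • w)) := by
    intro k
    rw [← (h1 (k • w) (hw.smul H.hf k)).2, ac_smul, hgw]
    congr 1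
    module
  obtain ⟨c1, hc1⟩ := hline 1
  rw [one_smul] at hc1
  have hc10 : c1 ≠ 0 := by
    rintro rfl
    rw [zero_smul] at hc1
    exact H.phi_ne hw hw0 hc1
  obtain ⟨c2, hc2⟩ := hline (σ a * b * 1)
  have h3 := h2 1
  rw [hc2, one_smul, hc1, ac_smul, smul_smul] at h3
  have h4 : ac g' u = ((σ a' * c1)⁻¹ * c2) • u := by
    rw [mul_smul, h3, smul_smul, inv_mul_cancel₀ (mul_ne_zero hσa' hc10), one_smul]
  refine ⟨σ a' * ((σ a' * c1)⁻¹ * c2), fun k => ?_⟩
  obtain ⟨c, hc⟩ := hline k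
  rw [h2, hc, ac_smul, h4]
  module

lemma exists_W_noniso (hf : Geo.IsUnitaryForm σ hh) (hn : 3 ≤ n) {v v' : V} (hv : hh v v = 0) (hvv' : hh v v' = 1) : ∃ w : V, IW q v v' w ∧ hh w w ≠ 0 := by
  have hv0 : v ≠ 0 := by
    rintro rfl
    rw [zero_left hf] at hvv'
    exact zero_ne_one hvv'
  have hv'v : hh v' v = 1 := by rw [hf.herm, hvv', map_one]
  obtain ⟨y0, _, hy0, hyy0⟩ := exists_nonisotropic_perp hf (top_nondeg hf) (Submodule.span F {v}) (by
    rw [finrank_top, Module.finrank_fintype_fun_eq_card, finrank_span_singleton hv0, Fintype.card_fin]; omega)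
  have hvy0 : hh v y0 = 0 := hy0 v (Submodule.mem_span_singleton_self v)
  refine ⟨y0 - σ (hh v' y0) • v, ⟨?_, ?_⟩, ?_⟩
  · rw [sub_right hf, smul_right hf, hv, hvy0]; ring
  · rw [sub_right hf, smul_right hf, hv'v, hf.involutive]; ring
  · simp only [sub_left hf, sub_right hf, hf.smul_left, smul_right hf, hv, hvy0, swap_eq hf hvy0]
    simpa using hyy0

/-- dimension three: `W` is a line -/
lemma W_line (hf : Geo.IsUnitaryForm σ hh) (hn : n = 3) {v v' : V} (hv : hh v v = 0) (hvv' : hh v v' = 1) {w0 w : V} (hw0 : IW q v v' w0) (h0 : w0 ≠ 0) (hw : IW q v v' w) :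
    ∃ c : F, w = c • w0 := by
  have hv0 : v ≠ 0 := by
    rintro rfl
    rw [zero_left hf] at hvv'
    exact zero_ne_one hvv'
  have hmem : ∀ z, IW q v v' z → z ∈ perp hf (Submodule.span F {v, v'}) := by
    intro z hz
    rw [mem_perp_span]
    intro w hw
    rcases hw with rfl | hw
    · exact hz.1
    · rw [Set.mem_singleton_iff] at hw
      rw [hw]; exact hz.2
  have e1 := finrank_perp hf (Submodule.span F {v, v'})
  have e2 : Module.finrank F (Submodule.span F {v, v'}) = 2 := by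
    have hli : LinearIndependent F ![v, v'] := by
      rw [LinearIndependent.pair_iff' hv0]
      intro a ha
      rw [← ha, smul_right hf, hv, mul_zero] at hvv'
      exact zero_ne_one hvv'
    have := finrank_span_eq_card hli
    rw [Fintype.card_fin, Matrix.range_cons, Matrix.range_cons, Matrix.range_empty, Set.union_empty, Set.singleton_union] at this
    exact this
  rw [Module.finrank_fintype_fun_eq_card, Fintype.card_fin, e2] at e1
  have e3 : Module.finrank F (perp hf (Submodule.span F {v, v'})) = 1 := by omega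
  obtain ⟨c, hc⟩ := (finrank_eq_one_iff_of_nonzero' (⟨w0, hmem w0 hw0⟩ : perp hf (Submodule.span F {v, v'})) (by
    intro h
    exact h0 (congrArg Subtype.val h))).1 e3 ⟨w, hmem w hw⟩
  exact ⟨c, (congrArg Subtype.val hc).symm⟩

lemma NA.q3 (H : NA σ v v' α) (h32 : ¬ (n = 3 ∧ q = 2)) (hn : n = 3) : 3 ≤ q := by
  have hq2 : 2 ≤ q := two_le_of_card_sq H.hF
  rcases Nat.lt_or_ge 2 q with h | h
  · exact h
  · exact absurd ⟨hn, by omega⟩ h32

lemma NA.line_rho (H : NA σ v v' α) {w : V} (hw : IW q v v' w) (hw0 : w ≠ 0)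
    (hreal : ∀ κ, κ ≠ 0 → σ κ = κ → ∃ κ' : F, ∀ k, phi v v' α ((κ * k) • w) = κ' • phi v v' α (k • w))
    {x : F} (hx : σ x ≠ x) (hPx : ∃ κ' : F, ∀ k, phi v v' α ((x * k) • w) = κ' • phi v v' α (k • w)) :
    ∃ ρ : F ≃+* F, ∀ κ, phi v v' α (κ • w) = ρ κ • phi v v' α w := by
  have hadd : ∀ a b : F, phi v v' α ((a + b) • w) = phi v v' α (a • w) + phi v v' α (b • w) := by
    intro a b
    rw [add_smul, H.phi_add (hw.smul H.hf a) (hw.smul H.hf b)]
  obtain ⟨ρ, hρ⟩ := exists_rho (fun k : F => phi v v' α (k • w)) hadd (by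
    show phi v v' α ((1 : F) • w) ≠ 0
    rw [one_smul]; exact H.phi_ne hw hw0) (fun κ => R_top H.hf (fun k : F => phi v v' α (k • w)) hadd hreal hx hPx κ)
  refine ⟨ρ, fun κ => ?_⟩
  have := hρ κ 1
  simp only [mul_one, one_smul] at this
  exact this

/-- dimension three -/
lemma NA.rho3 (H : NA σ v v' α) (hn : n = 3) (h32 : ¬ (n = 3 ∧ q = 2)) {w0 : V} (hw0 : IW q v v' w0) (h00 : hh w0 w0 ≠ 0) :
    ∃ ρ : F ≃+* F, ∀ κ, phi v v' α (κ • w0) = ρ κ • phi v v' α w0 := by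
  have hf := H.hf
  have hne : w0 ≠ 0 := by
    rintro rfl
    exact h00 (zero_left hf 0)
  have hline : ∀ k : F, ∃ c : F, phi v v' α (k • w0) = c • w0 := fun k => W_line hf hn H.vv H.vv' hw0 hne (H.phi_IW (hw0.smul hf k))
  have hP : ∀ a : F, a ≠ 0 → ∃ κ' : F, ∀ k, phi v v' α ((σ a * (σ a / a) * k) • w0) = κ' • phi v v' α (k • w0) := by
    intro a ha
    obtain ⟨g, h1, h2, h3⟩ := H.torus3 hw0 h00 ha
    exact H.step hw0 hne hline ha h1 h2 h3
  obtain ⟨c, hc1, hc3⟩ := exists_root3 H.hF (H.q3 h32 hn)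
  obtain ⟨a, ha, hac⟩ := hilb H.hσ hf hc1
  have hσa : σ a ≠ 0 := fun h0 => ha ((map_eq_zero σ).1 h0)
  refine H.line_rho hw0 hne ?_ (x := σ a * (σ a / a)) ?_ (hP a ha)
  · intro κ hκ hr
    have := hP κ hκ
    rwa [hr, div_self hκ, mul_one] at this
  · intro h
    apply hc3
    rw [map_mul, map_div₀, hf.involutive] at h
    rw [← hac]
    field_simp
    field_simp at h
    linear_combination h

/-- dimension at least four: `W` contains a hyperbolic pair -/
lemma exists_hyp_W (hf : Geo.IsUnitaryForm σ hh) (hn : 4 ≤ n) {v v' : V} (hv : hh v v = 0) (hv' : hh v' v' = 0) (hvv' : hh v v' = 1) :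
    ∃ e y : V, IW q v v' e ∧ IW q v v' y ∧ hh e e = 0 ∧ hh e y ≠ 0 := by
  have hv'v : hh v' v = 1 := by rw [hf.herm, hvv', map_one]
  obtain ⟨x, hxW, hxx⟩ := exists_W_noniso hf (by omega) hv hvv'
  obtain ⟨y1, hy1, hy10⟩ : ∃ y1 ∈ perp hf (Submodule.span F {v, v', x}), y1 ∉ (⊥ : Submodule F V) := SetLike.not_le_iff_exists.1 (perp_not_le_of_finrank hf _ _ (by
    have := span_triple_le v v' x
    rw [finrank_bot, Fintype.card_fin]; omega))
  have h1v : hh v y1 = 0 := hy1 v (Submodule.subset_span (by simp))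
  have h1v' : hh v' y1 = 0 := hy1 v' (Submodule.subset_span (by simp))
  have h1x : hh x y1 = 0 := hy1 x (Submodule.subset_span (by simp))
  have hy10' : y1 ≠ 0 := by simpa using hy10
  by_cases h11 : hh y1 y1 = 0
  · obtain ⟨-, ⟨z, hz⟩⟩ := hf.nondegenerate y1 hy10'
    refine ⟨y1, z - hh z v' • v - hh z v • v', ⟨h1v, h1v'⟩, ⟨?_, ?_⟩, h11, ?_⟩
    · rw [sub_right hf, sub_right hf, smul_right hf, smul_right hf, hv, hvv', ← hf.herm v z]; ring
    · rw [sub_right hf, sub_right hf, smul_right hf, smul_right hf, hv', hv'v, ← hf.herm v' z]; ring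
    · rw [sub_right hf, sub_right hf, smul_right hf, smul_right hf, swap_eq hf h1v, swap_eq hf h1v']
      simpa using hz
  · obtain ⟨μ, hμ⟩ := exists_norm_on_line hf x y1 h11 0 (map_zero σ)
    refine ⟨x + μ • y1, x, hxW.add hf (IW.smul hf ⟨h1v, h1v'⟩ μ), hxW, hμ, ?_⟩
    rw [hf.add_left, hf.smul_left, swap_eq hf h1x, mul_zero, add_zero]
    exact hxx

lemma mem_WS (hf : Geo.IsUnitaryForm σ hh) {v v' z : V} : z ∈ perp hf (Submodule.span F {v, v'}) ↔ IW q v v' z := by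
  rw [mem_perp_span]
  constructor
  · intro h
    exact ⟨h v (by simp), h v' (by simp)⟩
  · intro hz w hw
    rcases hw with rfl | hw
    · exact hz.1
    · rw [Set.mem_singleton_iff] at hw
      rw [hw]; exact hz.2

lemma rich_W (hf : Geo.IsUnitaryForm σ hh) (hn : 4 ≤ n) {v v' : V} (hv : hh v v = 0) (hv' : hh v' v' = 0) (hvv' : hh v v' = 1) :
    Rich hh (perp hf (Submodule.span F {v, v'})) := by
  obtain ⟨e, y, he, hy, hee, hey⟩ := exists_hyp_W hf hn hv hv' hvv'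
  exact rich_of hf ⟨e, (mem_WS hf).2 he, hee, y, (mem_WS hf).2 hy, hey⟩

/-- an isotropic partner in `W` -/
lemma exists_partner_W (hf : Geo.IsUnitaryForm σ hh) {v v' : V} (hv : hh v v = 0) (hv' : hh v' v' = 0) (hvv' : hh v v' = 1) {e : V} (he : IW q v v' e) (he0 : e ≠ 0) (hee : hh e e = 0) :
    ∃ f : V, IW q v v' f ∧ hh f f = 0 ∧ hh e f = 1 := by
  have hv'v : hh v' v = 1 := by rw [hf.herm, hvv', map_one]
  obtain ⟨-, ⟨z, hz⟩⟩ := hf.nondegenerate e he0
  obtain ⟨z1, hz1⟩ : ∃ z1, z1 = z - hh z v' • v - hh z v • v' := ⟨_, rfl⟩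
  have hW : IW q v v' z1 := by
    rw [hz1]
    refine ⟨?_, ?_⟩
    · rw [sub_right hf, sub_right hf, smul_right hf, smul_right hf, hv, hvv', ← hf.herm v z]; ring
    · rw [sub_right hf, sub_right hf, smul_right hf, smul_right hf, hv', hv'v, ← hf.herm v' z]; ring
  have hez1 : hh e z1 ≠ 0 := by
    rw [hz1, sub_right hf, sub_right hf, smul_right hf, smul_right hf, he.wv hf, he.wv' hf]
    simpa using hz
  obtain ⟨z2, hz2⟩ : ∃ z2, z2 = (σ (hh e z1))⁻¹ • z1 := ⟨_, rfl⟩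
  have hW2 : IW q v v' z2 := by rw [hz2]; exact hW.smul hf _
  have hez2 : hh e z2 = 1 := by
    rw [hz2, smul_right hf, map_inv₀, hf.involutive, inv_mul_cancel₀ hez1]
  have hz2e : hh z2 e = 1 := by rw [hf.herm, hez2, map_one]
  obtain ⟨t, ht⟩ := exists_trace hf (- hh z2 z2) (by rw [map_neg, norm_real hf])
  refine ⟨z2 + t • e, hW2.add hf (he.smul hf t), ?_, ?_⟩
  · simp only [hf.add_left, add_right hf, hf.smul_left, smul_right hf, hee, hez2, hz2e]
    linear_combination ht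
  · rw [add_right hf, smul_right hf, hee, hez2]; ring

lemma NA.rho4 (H : NA σ v v' α) {w : V} (hw : IW q v v' w) (hw0 : w ≠ 0) (hww : hh w w = 0) :
    ∃ ρ : F ≃+* F, ∀ κ, phi v v' α (κ • w) = ρ κ • phi v v' α w := by
  have hf := H.hf
  obtain ⟨u, hu0, huu, hwu⟩ := Rl.exists H.hF H.hn hf α hw0 hww
  have hline : ∀ k : F, ∃ c : F, phi v v' α (k • w) = c • u := by
    intro k
    by_cases hk : k = 0
    · exact ⟨0, by rw [hk, zero_smul, zero_smul, H.phi_zero]⟩
    · exact (H.phi_iso (hw.smul hf k) (smul_ne_zero hk hw0) (by rw [hf.smul_left, smul_right hf, hww]; ring) hu0 huu (hwu.smul_left hf hk)).2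
  obtain ⟨w', hw', hw'w', hww'⟩ := exists_partner_W hf H.vv H.v'v' H.vv' hw hw0 hww
  have hP : ∀ a b : F, a ≠ 0 → b ≠ 0 → σ (a * b) = a * b → ∃ κ' : F, ∀ k, phi v v' α ((σ a * b * k) • w) = κ' • phi v v' α (k • w) := by
    intro a b ha hb hab
    obtain ⟨g, h1, h2, h3⟩ := H.torus4 hw hw' hww hw'w' hww' ha hb hab
    exact H.step hw hw0 hline ha h1 h2 h3
  obtain ⟨c, hc1, hc2⟩ := exists_root_ne H.hF
  obtain ⟨a, ha, hac⟩ := hilb H.hσ hf hc1
  have hσa : σ a ≠ 0 := fun h0 => ha ((map_eq_zero σ).1 h0)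
  refine H.line_rho hw hw0 ?_ (x := σ a * a⁻¹) ?_ (hP a a⁻¹ ha (inv_ne_zero ha) (by rw [mul_inv_cancel₀ ha, map_one]))
  · intro κ hκ hr
    have := hP 1 κ one_ne_zero hκ (by rw [one_mul, hr])
    rwa [map_one, one_mul] at this
  · intro h
    apply hc2
    rw [map_mul, map_inv₀, hf.involutive] at h
    rw [← hac]
    field_simp
    field_simp at h
    linear_combination h

lemma NA.rho_eq (H : NA σ v v' α) {e w : V} (he : IW q v v' e) (hw : IW q v v' w) (hee : hh e e = 0) (hww : hh w w = 0) (hew : hh e w ≠ 0)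
    {ρe ρw : F ≃+* F} (h1 : ∀ κ, phi v v' α (κ • e) = ρe κ • phi v v' α e) (h2 : ∀ κ, phi v v' α (κ • w) = ρw κ • phi v v' α w) : ρe = ρw := by
  have hf := H.hf
  have he0 : e ≠ 0 := by rintro rfl; exact hew (zero_left hf _)
  have hw0 : w ≠ 0 := by rintro rfl; exact hew (zero_right hf _)
  have hwe := swap_ne hf hew
  obtain ⟨δ, hδ0, hδ⟩ := exists_skew hf
  obtain ⟨c, hc⟩ : ∃ c, c = δ / hh w e := ⟨_, rfl⟩
  have hc0 : c ≠ 0 := by rw [hc]; exact div_ne_zero hδ0 hwe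
  have hcw : c * hh w e = δ := by rw [hc, div_mul_cancel₀ _ hwe]
  have hx : IW q v v' (e + c • w) := he.add hf (hw.smul hf c)
  have hxx : hh (e + c • w) (e + c • w) = 0 := by
    have h3 : σ c * hh e w = - δ := by rw [hf.herm e w, ← map_mul, hcw, hδ]
    simp only [hf.add_left, add_right hf, hf.smul_left, smul_right hf, hee, hww]
    linear_combination h3 + hcw
  have hx0 : e + c • w ≠ 0 := by
    intro h
    have h3 : hh (e + c • w) w = 0 := by rw [h, zero_left hf]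
    rw [hf.add_left, hf.smul_left, hww, mul_zero, add_zero] at h3
    exact hew h3
  obtain ⟨ρx, h3⟩ := H.rho4 hx hx0 hxx
  obtain ⟨e', he0', hee', hRe⟩ := Rl.exists H.hF H.hn hf α he0 hee
  obtain ⟨w', hw0', hww', hRw⟩ := Rl.exists H.hF H.hn hf α hw0 hww
  have hew' : hh e' w' ≠ 0 := fun h => hew ((Rl.perp H.hF H.hn hf he0 hee hw0 hww he0' hee' hw0' hww' hRe hRw).2 h)
  have hwe' := swap_ne hf hew'
  obtain ⟨-, ce, hce⟩ := H.phi_iso he he0 hee he0' hee' hRe
  obtain ⟨-, cw, hcw'⟩ := H.phi_iso hw hw0 hww hw0' hww' hRw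
  have hce0 : ce ≠ 0 := by rintro rfl; rw [zero_smul] at hce; exact H.phi_ne he he0 hce
  have hcw0 : cw ≠ 0 := by rintro rfl; rw [zero_smul] at hcw'; exact H.phi_ne hw hw0 hcw'
  have key : ∀ κ, ρx κ = ρe κ ∧ ρx κ = ρw κ := by
    intro κ
    have h4 := h3 κ
    have h5 : κ • (e + c • w) = κ • e + (κ * c) • w := by module
    rw [h5, H.phi_add (he.smul hf κ) (hw.smul hf _), H.phi_add he (hw.smul hf c), h1, h2, h2, map_mul, hce, hcw'] at h4
    have h6 := congrArg (fun y => hh y w') h4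
    have h7 := congrArg (fun y => hh y e') h4
    simp only [hf.add_left, hf.smul_left, hww', hee', mul_zero, add_zero, zero_add] at h6 h7
    constructor
    · have : (ρx κ - ρe κ) * (ce * hh e' w') = 0 := by linear_combination -h6
      exact sub_eq_zero.1 ((mul_eq_zero.1 this).resolve_right (mul_ne_zero hce0 hew'))
    · have hρc : ρw c ≠ 0 := fun h0 => hc0 ((map_eq_zero ρw).1 h0)
      have : (ρx κ - ρw κ) * (ρw c * cw * hh w' e') = 0 := by linear_combination -h7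
      exact sub_eq_zero.1 ((mul_eq_zero.1 this).resolve_right (mul_ne_zero (mul_ne_zero hρc hcw0) hwe'))
  apply RingEquiv.ext
  intro κ
  rw [← (key κ).1, (key κ).2]

theorem NA.semilinear (H : NA σ v v' α) (h32 : ¬ (n = 3 ∧ q = 2)) :
    ∃ ρ : F ≃+* F, ∀ w, IW q v v' w → ∀ κ : F, phi v v' α (κ • w) = ρ κ • phi v v' α w := by
  have hf := H.hf
  have hn := H.hn
  rcases Nat.lt_or_ge n 4 with h4 | h4
  · have h3 : n = 3 := by omega
    obtain ⟨w0, hw0, h00⟩ := exists_W_noniso hf H.hn H.vv H.vv'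
    have hne : w0 ≠ 0 := by
      rintro rfl
      exact h00 (zero_left hf 0)
    obtain ⟨ρ, hρ⟩ := H.rho3 h3 h32 hw0 h00
    refine ⟨ρ, fun w hw κ => ?_⟩
    obtain ⟨c, rfl⟩ := W_line hf h3 H.vv H.vv' hw0 hne hw
    rw [smul_smul, hρ, hρ, map_mul, mul_smul]
  · obtain ⟨e, y, he, hy, hee, hey⟩ := exists_hyp_W hf h4 H.vv H.v'v' H.vv'
    have he0 : e ≠ 0 := by rintro rfl; exact hey (zero_left hf _)
    obtain ⟨ρ, hρ⟩ := H.rho4 he he0 hee
    have hR := rich_W hf h4 H.vv H.v'v' H.vv'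
    have hiso : ∀ w, IW q v v' w → hh w w = 0 → ∀ κ : F, phi v v' α (κ • w) = ρ κ • phi v v' α w := by
      intro w hw hww
      by_cases hw0 : w = 0
      · intro κ
        rw [hw0, smul_zero, H.phi_zero, smul_zero]
      obtain ⟨ρw, hρw⟩ := H.rho4 hw hw0 hww
      -- a vector not perpendicular to both
      have hnot : ∀ z, IW q v v' z → z ≠ 0 → hh z z = 0 → ¬ perp hf (Submodule.span F {v, v'}) ≤ perp hf (Submodule.span F {z}) := by
        intro z hz hz0 hzz hle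
        obtain ⟨z', hz', -, hzz'⟩ := exists_partner_W hf H.vv H.v'v' H.vv' hz hz0 hzz
        have := (hle ((mem_WS hf).2 hz')) z (Submodule.mem_span_singleton_self z)
        rw [this] at hzz'
        exact zero_ne_one hzz'
      obtain ⟨x, hx, hxx, hx1, hx2⟩ := Rich.avoid hf hR (hnot e he he0 hee) (hnot w hw hw0 hww)
      have hx' := (mem_WS hf).1 hx
      have hex := notMem_perp_singleton hf hx1
      have hwx := notMem_perp_singleton hf hx2
      have hx0 : x ≠ 0 := by rintro rfl; exact hex (zero_right hf _)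
      obtain ⟨ρx, hρx⟩ := H.rho4 hx' hx0 hxx
      have e1 := H.rho_eq he hx' hee hxx hex hρ hρx
      have e2 := H.rho_eq hw hx' hww hxx hwx hρw hρx
      rw [e1, ← e2]; exact hρw
    let A : Submodule F V :=
      { carrier := {w | IW q v v' w ∧ ∀ κ : F, phi v v' α (κ • w) = ρ κ • phi v v' α w}
        add_mem' := by
          rintro x y ⟨hx, hx'⟩ ⟨hy, hy'⟩
          refine ⟨hx.add hf hy, fun κ => ?_⟩
          rw [smul_add, H.phi_add (hx.smul hf κ) (hy.smul hf κ), hx', hy', H.phi_add hx hy, smul_add]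
        zero_mem' := ⟨IW.zero hf, fun κ => by rw [smul_zero, H.phi_zero, smul_zero]⟩
        smul_mem' := by
          rintro c x ⟨hx, hx'⟩
          refine ⟨hx.smul hf c, fun κ => ?_⟩
          rw [smul_smul, hx', hx', map_mul, mul_smul] }
    have hle : perp hf (Submodule.span F {v, v'}) ≤ A := by
      by_contra hcon
      obtain ⟨x, hx, hxx, hxA⟩ := hR A hcon
      exact hxA ⟨(mem_WS hf).1 hx, hiso x ((mem_WS hf).1 hx) hxx⟩
    exact ⟨ρ, fun w hw => (hle ((mem_WS hf).2 hw)).2⟩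

end

end Cfsg.Agent.H22
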