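import Cfsg.Agent.LibH22AU5
import Cfsg.Agent.LibAutPSL27n

set_option autoImplicit false

/-! Automorphisms of unitary groups VI: semisimilarities and the automorphisms they induce (seat helper22). -/

namespace Cfsg.Agent.H22

open Module Matrix Cfsg CfsgLib.Un29 CfsgLib.SylCen27 CfsgLib.FTPG27

/-- restriction of an action by automorphisms -/
noncomputable def resHom {A G : Type*} [Group A] [Group G] (φ : A →* MulAut G) (K : Subgroup G) (h : ∀ a, ∀ x ∈ K, φ a x ∈ K) : A →* MulAut K where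
  toFun a :=
    { toFun := fun x => ⟨φ a x, h a x x.2⟩
      invFun := fun x => ⟨φ a⁻¹ x, h a⁻¹ x x.2⟩
      left_inv := fun x => Subtype.ext (by
        show φ a⁻¹ (φ a x) = x
        rw [← MulAut.mul_apply, ← map_mul, inv_mul_cancel, map_one, MulAut.one_apply])
      right_inv := fun x => Subtype.ext (by
        show φ a (φ a⁻¹ x) = x
        rw [← MulAut.mul_apply, ← map_mul, mul_inv_cancel, map_one, MulAut.one_apply])
      map_mul' := fun x y => Subtype.ext (map_mul (φ a) x.1 y.1) }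
  map_one' := MulEquiv.ext fun x => Subtype.ext (by
    show φ 1 x = x
    rw [map_one, MulAut.one_apply])
  map_mul' a b := MulEquiv.ext fun x => Subtype.ext (by
    show φ (a * b) x = φ a (φ b x)
    rw [map_mul, MulAut.mul_apply])

section
variable {F : Type*} [Field F] {q n : ℕ}

local notation "hh" => hermForm n F q
local notation "V" => (Fin n → F)
local notation "GS" => (Cfsg.SU n F q)
local notation "π" => (QuotientGroup.mk' (Subgroup.center (Cfsg.SU n F q)))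

lemma herm_comp (ρ : F ≃+* F) (u v : V) : hh (ρ ∘ u) (ρ ∘ v) = ρ (hh u v) := by
  unfold hermForm
  rw [map_sum]
  exact Finset.sum_congr rfl fun i _ => by rw [map_mul, map_pow]; rfl

lemma comp_symm' (ρ : F ≃+* F) (u : V) : ρ ∘ (ρ.symm ∘ u) = u := by
  ext i; simp

lemma mem_SU' {A : Matrix.SpecialLinearGroup (Fin n) F} : A ∈ Cfsg.SU n F q ↔
    ∀ u v, hh ((A : Matrix (Fin n) (Fin n) F) *ᵥ u) ((A : Matrix (Fin n) (Fin n) F) *ᵥ v) = hh u v := Iff.rfl

lemma mem_GU' {g : Matrix.GeneralLinearGroup (Fin n) F} : g ∈ Cfsg.GU n F q ↔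
    ∀ u v, hh ((g : Matrix (Fin n) (Fin n) F) *ᵥ u) ((g : Matrix (Fin n) (Fin n) F) *ᵥ v) = hh u v := Iff.rfl

lemma gl_inv_mulVec (g : Matrix.GeneralLinearGroup (Fin n) F) (x : V) :
    (g : Matrix (Fin n) (Fin n) F) *ᵥ (((g⁻¹ : Matrix.GeneralLinearGroup (Fin n) F) : Matrix (Fin n) (Fin n) F) *ᵥ x) = x := by
  rw [Matrix.mulVec_mulVec, Units.mul_inv, Matrix.one_mulVec]

lemma gl_inv_mulVec' (g : Matrix.GeneralLinearGroup (Fin n) F) (x : V) :
    ((g⁻¹ : Matrix.GeneralLinearGroup (Fin n) F) : Matrix (Fin n) (Fin n) F) *ᵥ ((g : Matrix (Fin n) (Fin n) F) *ᵥ x) = x := by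
  rw [Matrix.mulVec_mulVec, Units.inv_mul, Matrix.one_mulVec]

lemma cj_mem (g : Cfsg.GU n F q) (s : Matrix.SpecialLinearGroup (Fin n) F) (hs : s ∈ Cfsg.SU n F q) : CfsgLib.AutPSL27.cj (g : Matrix.GeneralLinearGroup (Fin n) F) s ∈ Cfsg.SU n F q := by
  rw [mem_SU']
  intro u v
  rw [CfsgLib.AutPSL27.coe_cj, ← Matrix.mulVec_mulVec, ← Matrix.mulVec_mulVec, ← Matrix.mulVec_mulVec, ← Matrix.mulVec_mulVec, mem_GU'.1 g.2, mem_SU'.1 hs,
    ← mem_GU'.1 g.2, gl_inv_mulVec, gl_inv_mulVec]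

lemma fl_mem (ρ : F ≃+* F) (s : Matrix.SpecialLinearGroup (Fin n) F) (hs : s ∈ Cfsg.SU n F q) : CfsgLib.AutPSL27.fl ρ s ∈ Cfsg.SU n F q := by
  rw [mem_SU']
  intro u v
  rw [CfsgLib.AutPSL27.coe_fl, ← comp_symm' ρ u, ← comp_symm' ρ v, CfsgLib.AutPSL27.gm_mulVec, CfsgLib.AutPSL27.gm_mulVec, herm_comp, herm_comp, mem_SU'.1 hs]

/-- conjugation by unitary matrices on `SU` -/
noncomputable def cjU (n : ℕ) (F : Type*) [Field F] (q : ℕ) : Cfsg.GU n F q →* MulAut (Cfsg.SU n F q) :=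
  resHom (CfsgLib.AutPSL27.cj.comp (Cfsg.GU n F q).subtype) (Cfsg.SU n F q) (fun g s hs => cj_mem g s hs)

/-- field automorphisms on `SU` -/
noncomputable def flU (n : ℕ) (F : Type*) [Field F] (q : ℕ) : (F ≃+* F) →* MulAut (Cfsg.SU n F q) :=
  resHom CfsgLib.AutPSL27.fl (Cfsg.SU n F q) (fun ρ s hs => fl_mem ρ s hs)

lemma suM_cjU (g : Cfsg.GU n F q) (A : GS) : suM (cjU n F q g A) = (g.1 : Matrix (Fin n) (Fin n) F) * suM A * ((g.1⁻¹ : Matrix.GeneralLinearGroup (Fin n) F) : Matrix (Fin n) (Fin n) F) := rfl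

lemma suM_flU (ρ : F ≃+* F) (A : GS) : suM (flU n F q ρ A) = (suM A).map ρ := rfl

lemma ac_cjU (g : Cfsg.GU n F q) (A : GS) (x : V) : ac (cjU n F q g A) ((g.1 : Matrix (Fin n) (Fin n) F) *ᵥ x) = (g.1 : Matrix (Fin n) (Fin n) F) *ᵥ ac A x := by
  unfold ac
  rw [suM_cjU, ← Matrix.mulVec_mulVec, ← Matrix.mulVec_mulVec, gl_inv_mulVec']

lemma ac_flU (ρ : F ≃+* F) (A : GS) (x : V) : ac (flU n F q ρ A) (ρ ∘ x) = ρ ∘ ac A x := by
  unfold ac
  rw [suM_flU, CfsgLib.AutPSL27.gm_mulVec]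

/-- unitary matrices acting on `PSU` -/
noncomputable def rhoU (n : ℕ) (F : Type*) [Field F] (q : ℕ) : Cfsg.GU n F q →* MulAut (Cfsg.PSU n F q) :=
  (CfsgLib.AutPSL27.lft (G := Cfsg.SU n F q)).comp (cjU n F q)

/-- field automorphisms acting on `PSU` -/
noncomputable def phiU (n : ℕ) (F : Type*) [Field F] (q : ℕ) : (F ≃+* F) →* MulAut (Cfsg.PSU n F q) :=
  (CfsgLib.AutPSL27.lft (G := Cfsg.SU n F q)).comp (flU n F q)

lemma rhoU_pi (g : Cfsg.GU n F q) (A : GS) : rhoU n F q g (π A) = π (cjU n F q g A) := rfl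
lemma phiU_pi (ρ : F ≃+* F) (A : GS) : phiU n F q ρ (π A) = π (flU n F q ρ A) := rfl

end

section
variable {F : Type*} [Field F] [Fintype F] {σ : F ≃+* F} {q n : ℕ}

local notation "hh" => hermForm n F q
local notation "V" => (Fin n → F)
local notation "GS" => (Cfsg.SU n F q)
local notation "π" => (QuotientGroup.mk' (Subgroup.center (Cfsg.SU n F q)))

variable {v v' : Fin n → F} {α β : MulAut (Cfsg.PSU n F q)}

lemma NA.comm (H : NA σ v v' α) (ρ : F ≃+* F) (x : F) : σ (ρ x) = ρ (σ x) := by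
  rw [H.hσ, H.hσ, map_pow]

lemma NA.semisim (H : NA σ v v' α) (h32 : ¬ (n = 3 ∧ q = 2)) :
    ∃ (ρ : F ≃+* F) (μ : F), μ ≠ 0 ∧ σ μ = μ ∧ (∀ w, IW q v v' w → ∀ κ : F, phi v v' α (κ • w) = ρ κ • phi v v' α w) ∧
      (∀ w u, IW q v v' w → IW q v v' u → hh (phi v v' α w) (phi v v' α u) = μ * ρ (hh w u)) ∧
      (∀ c, σ c = -c → tau v α c = μ * ρ c) := by
  have hf := H.hf
  obtain ⟨ρ, hρ⟩ := H.semilinear h32
  have hc := H.comm ρ
  obtain ⟨y0, hy0⟩ := exists_moved hf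
  obtain ⟨μ, hμ⟩ : ∃ μ, μ = tau v α (y0 - σ y0) / ρ (y0 - σ y0) := ⟨_, rfl⟩
  have hy0' : ρ (y0 - σ y0) ≠ 0 := fun h => hy0 ((sub_eq_zero.1 ((map_eq_zero ρ).1 h)).symm)
  have key : ∀ w u, IW q v v' w → IW q v v' u → ∀ κ : F, tau v α (σ κ * hh w u - κ * hh u w) =
      σ (ρ κ) * hh (phi v v' α w) (phi v v' α u) - ρ κ * σ (hh (phi v v' α w) (phi v v' α u)) := by
    intro w u hw hu κ
    have h1 := H.tau_comm hw (hu.smul hf κ)
    rw [hρ u hu, smul_right hf, hf.smul_left, smul_right hf, hf.smul_left, hf.herm (phi v v' α u) (phi v v' α w)] at h1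
    exact h1
  have key2 : ∀ w u, IW q v v' w → IW q v v' u → hh w u ≠ 0 →
      σ (hh (phi v v' α w) (phi v v' α u) / ρ (hh w u)) = hh (phi v v' α w) (phi v v' α u) / ρ (hh w u) ∧
      ∀ y, tau v α (y - σ y) = (hh (phi v v' α w) (phi v v' α u) / ρ (hh w u)) * ρ (y - σ y) := by
    intro w u hw hu hwu
    obtain ⟨z, hz⟩ : ∃ z, z = hh (phi v v' α w) (phi v v' α u) := ⟨_, rfl⟩
    obtain ⟨c, hcz⟩ : ∃ c, c = z / ρ (hh w u) := ⟨_, rfl⟩
    rw [← hz, ← hcz]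
    have hρwu : ρ (hh w u) ≠ 0 := fun h => hwu ((map_eq_zero ρ).1 h)
    have hzc : z = c * ρ (hh w u) := by rw [hcz, div_mul_cancel₀ _ hρwu]
    have e1 : ∀ y, tau v α (y - σ y) = c * ρ y - σ (c * ρ y) := by
      intro y
      have h1 := key w u hw hu (σ (y / hh w u))
      rw [hf.involutive, div_mul_cancel₀ _ hwu, hf.herm u w, ← map_mul, div_mul_cancel₀ _ hwu, ← hz, hc, hf.involutive, ← hc, ← map_mul] at h1
      have h2 : ρ (y / hh w u) * z = c * ρ y := by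
        rw [hzc, map_div₀]; field_simp
      rw [h2] at h1
      exact h1
    have hcr : σ c = c := by
      have h1 := e1 1
      rw [map_one, sub_self, H.tau_zero, map_one, mul_one] at h1
      exact (sub_eq_zero.1 h1.symm).symm
    refine ⟨hcr, fun y => ?_⟩
    rw [e1, map_mul, hcr, hc, map_sub]; ring
  have key3 : ∀ w u, IW q v v' w → IW q v v' u → hh w u ≠ 0 → hh (phi v v' α w) (phi v v' α u) / ρ (hh w u) = μ := by
    intro w u hw hu hwu
    rw [hμ, (key2 w u hw hu hwu).2 y0, mul_div_cancel_right₀ _ hy0']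
  have hsim : ∀ w u, IW q v v' w → IW q v v' u → hh (phi v v' α w) (phi v v' α u) = μ * ρ (hh w u) := by
    intro w u hw hu
    by_cases hwu : hh w u = 0
    · rw [hwu, map_zero, mul_zero]
      have h1 : ∀ κ : F, σ (ρ κ) * hh (phi v v' α w) (phi v v' α u) - ρ κ * σ (hh (phi v v' α w) (phi v v' α u)) = 0 := by
        intro κ
        rw [← key w u hw hu κ, hwu, swap_eq hf hwu, mul_zero, mul_zero, sub_zero, H.tau_zero]
      have h2 := h1 1
      rw [map_one, map_one, one_mul, one_mul] at h2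
      have h3 := h1 (ρ.symm y0)
      rw [ρ.apply_symm_apply] at h3
      have h4 : (σ y0 - y0) * hh (phi v v' α w) (phi v v' α u) = 0 := by linear_combination h3 - y0 * h2
      exact (mul_eq_zero.1 h4).resolve_left (sub_ne_zero.2 hy0)
    · have hρwu : ρ (hh w u) ≠ 0 := fun h => hwu ((map_eq_zero ρ).1 h)
      rw [← key3 w u hw hu hwu, div_mul_cancel₀ _ hρwu]
  obtain ⟨w0, hw0, h00⟩ := exists_W_noniso hf H.hn H.vv H.vv'
  refine ⟨ρ, μ, ?_, ?_, hρ, hsim, ?_⟩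
  · intro hμ0
    have h1 := hsim _ _ (H.inv.phi_IW hw0) (H.inv.phi_IW hw0)
    rw [H.phi_inv' hw0, hμ0, zero_mul] at h1
    exact h00 h1
  · rw [← key3 w0 w0 hw0 hw0 h00]
    exact (key2 w0 w0 hw0 hw0 h00).1
  · intro c hcs
    obtain ⟨t, ht⟩ := exists_trace_one hf
    have h1 := (key2 w0 w0 hw0 hw0 h00).2 (c * t)
    rw [key3 w0 w0 hw0 hw0 h00] at h1
    have h2 : c * t - σ (c * t) = c := by rw [map_mul, hcs]; linear_combination c * ht
    rw [h2] at h1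
    exact h1

lemma Rl.of_mem (hF : Fintype.card F = q ^ 2) (hn : 3 ≤ n) (hf : Geo.IsUnitaryForm σ hh) {u u' : V} (hu0 : u ≠ 0) (hu : hh u u = 0)
    {c d : F} {A A' : GS} (hc : c ≠ 0) (hA : IsT u c A) (hA' : IsT u' d A') (e : α (π A) = π A') : Rl α u u' := by
  obtain ⟨x, hx0, hx, hux⟩ := Rl.exists hF hn hf α hu0 hu
  have h1 : α (π A) ∈ π '' (TS x : Set GS) := by
    unfold Rl at hux
    rw [← hux]; exact ⟨_, ⟨A, ⟨c, hA⟩, rfl⟩, rfl⟩
  obtain ⟨B, ⟨b, hB⟩, hBe⟩ := h1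
  have hB : IsT x b B := hB
  have hb : b ≠ 0 := by
    rintro rfl
    have h3 : B = 1 := hB.ext (IsT.zero)
    rw [h3, map_one, eq_comm, MulEquiv.map_eq_one_iff] at hBe
    have h4 : A = 1 := by
      apply pi_inj hF (by omega) hu0 (hA.fix hu) (ac_one u)
      rw [hBe, map_one]
    rw [h4] at hA
    exact hc (IsT.uniq hf hu0 hA IsT.zero)
  obtain ⟨y, hy0, hyx, hyu⟩ := exists_common hf hn x u'
  have h2 : B = A' := pi_inj hF (by omega) hy0 (hB.fix hyx) (hA'.fix hyu) (hBe.trans e)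
  rw [← h2] at hA'
  obtain ⟨k, hk, hk'⟩ := IsT.par hf hx0 hb hB hA'
  rw [hk']
  exact hux.smul_right hf hk

/-- the automorphism induced by a semisimilarity matching `α` on the unipotent radical -/
theorem NA.exists_beta (H : NA σ v v' α) (h32 : ¬ (n = 3 ∧ q = 2)) :
    ∃ (g : Cfsg.GU n F q) (ρ : F ≃+* F), NA σ v v' (rhoU n F q g * phiU n F q ρ) ∧
      (∀ w, IW q v v' w → phi v v' (rhoU n F q g * phiU n F q ρ) w = phi v v' α w) ∧
      (∀ c, σ c = -c → tau v (rhoU n F q g * phiU n F q ρ) c = tau v α c) := by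
  have hf := H.hf
  obtain ⟨ρ, μ, hμ0, hμ, hlin, hsim, htau⟩ := H.semisim h32
  have hc := H.comm ρ
  have hμi : σ μ⁻¹ = μ⁻¹ := by rw [map_inv₀, hμ]
  -- projection to `W`
  obtain ⟨pr, hpr⟩ : ∃ pr : V → V, pr = fun x => x - hh x v' • v - hh x v • v' := ⟨_, rfl⟩
  have prW : ∀ x, IW q v v' (pr x) := by
    intro x
    rw [hpr]
    refine ⟨?_, ?_⟩
    · rw [sub_right hf, sub_right hf, smul_right hf, smul_right hf, H.vv, H.vv', ← hf.herm v x]; ring
    · rw [sub_right hf, sub_right hf, smul_right hf, smul_right hf, H.v'v', H.v'v, ← hf.herm v' x]; ring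
  have pradd : ∀ x y, pr (x + y) = pr x + pr y := by
    intro x y
    rw [hpr]; simp only [hf.add_left]; module
  have prsm : ∀ (c : F) x, pr (c • x) = c • pr x := by
    intro c x
    rw [hpr]; simp only [hf.smul_left]; module
  have prdec : ∀ x, x = hh x v' • v + hh x v • v' + pr x := by
    intro x
    rw [hpr]; simp
  have prW' : ∀ w, IW q v v' w → pr w = w := by
    intro w hw
    rw [hpr]; simp only [hw.wv hf, hw.wv' hf]; simp
  have prv : pr v = 0 := by rw [hpr]; simp only [H.vv, H.vv']; simp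
  have prv' : pr v' = 0 := by rw [hpr]; simp only [H.v'v, H.v'v']; simp
  have hdec : ∀ x y, hh x y = hh x v' * hh v y + hh x v * hh v' y + hh (pr x) (pr y) := by
    intro x y
    have h1 : hh (pr x) (pr y) = hh (pr x) y := by
      conv_rhs => rw [prdec y]
      rw [add_right hf, add_right hf, smul_right hf, smul_right hf, (prW x).wv hf, (prW x).wv' hf]; ring
    rw [h1]
    conv_lhs => rw [prdec x]
    rw [hf.add_left, hf.add_left, hf.smul_left, hf.smul_left]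
  -- the semilinear map
  obtain ⟨S, hS⟩ : ∃ S : V → V, S = fun x => ρ (hh x v') • v + (μ⁻¹ * ρ (hh x v)) • v' + μ⁻¹ • phi v v' α (pr x) := ⟨_, rfl⟩
  have Sadd : ∀ x y, S (x + y) = S x + S y := by
    intro x y
    rw [hS]; simp only [hf.add_left, map_add, pradd, H.phi_add (prW x) (prW y)]; module
  have Ssm : ∀ (c : F) x, S (c • x) = ρ c • S x := by
    intro c x
    rw [hS]; simp only [hf.smul_left, map_mul, prsm, hlin _ (prW x)]; module
  have Sherm : ∀ x y, hh (S x) (S y) = μ⁻¹ * ρ (hh x y) := by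
    intro x y
    rw [hdec x y, hS]
    have hx := H.phi_IW (prW x)
    have hy := H.phi_IW (prW y)
    simp only [hf.add_left, add_right hf, hf.smul_left, smul_right hf, H.vv, H.vv', H.v'v, H.v'v', hx.1, hx.2, hx.wv hf, hx.wv' hf, hy.1, hy.2, hy.wv hf, hy.wv' hf,
      hsim _ _ (prW x) (prW y), map_mul, hμi, hc, ← hf.herm v y, ← hf.herm v' y, map_add, mul_zero, add_zero, zero_add, mul_one]
    field_simp
  have Sinj : ∀ x, S x = 0 → x = 0 := by
    intro x hx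
    by_contra hx0
    obtain ⟨-, ⟨y, hy⟩⟩ := hf.nondegenerate x hx0
    have h1 := Sherm x y
    rw [hx, zero_left hf] at h1
    have h2 := (mul_eq_zero.1 h1.symm).resolve_left (inv_ne_zero hμ0)
    exact hy ((map_eq_zero ρ).1 h2)
  have Sv : S v = v := by
    rw [hS]; simp only [H.vv, H.vv', prv, H.phi_zero, map_one, map_zero]; simp
  have Sv' : S v' = μ⁻¹ • v' := by
    rw [hS]; simp only [H.v'v, H.v'v', prv', H.phi_zero, map_one, map_zero]; simp
  have Sw : ∀ w, IW q v v' w → S w = μ⁻¹ • phi v v' α w := by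
    intro w hw
    rw [hS]; simp only [hw.wv hf, hw.wv' hf, prW' w hw, map_zero]; simp
  obtain ⟨g0, hg0⟩ := exists_matrix ρ S Sadd Ssm Sinj
  obtain ⟨κ, hκ⟩ := CfsgLib.Un29.exists_norm hf μ hμ
  have hκ0 : κ ≠ 0 := by rintro rfl; rw [zero_mul] at hκ; exact hμ0 hκ.symm
  obtain ⟨g, hg⟩ : ∃ g : Matrix.GeneralLinearGroup (Fin n) F, g = Matrix.GeneralLinearGroup.scalar (Fin n) (Units.mk0 κ hκ0) * g0 := ⟨_, rfl⟩
  have hgx : ∀ x : V, (g : Matrix (Fin n) (Fin n) F) *ᵥ (ρ ∘ x) = κ • S x := by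
    intro x
    rw [hg, Units.val_mul, ← Matrix.mulVec_mulVec, ← hg0]
    show Matrix.scalar (Fin n) κ *ᵥ S x = κ • S x
    rw [Matrix.scalar_apply, ← Matrix.smul_one_eq_diagonal, Matrix.smul_mulVec, Matrix.one_mulVec]
  have hgU : g ∈ Cfsg.GU n F q := by
    rw [mem_GU']
    intro u w
    obtain ⟨u, rfl⟩ : ∃ u', u = ρ ∘ u' := ⟨_, (comp_symm' ρ u).symm⟩
    obtain ⟨w, rfl⟩ : ∃ u', w = ρ ∘ u' := ⟨_, (comp_symm' ρ w).symm⟩
    rw [hgx, hgx, hf.smul_left, smul_right hf, Sherm, herm_comp]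
    have : κ * (σ κ * (μ⁻¹ * ρ (hh u w))) = (κ * σ κ) * μ⁻¹ * ρ (hh u w) := by ring
    rw [this, hκ, mul_inv_cancel₀ hμ0, one_mul]
  obtain ⟨β, hβ⟩ : ∃ β, β = rhoU n F q ⟨g, hgU⟩ * phiU n F q ρ := ⟨_, rfl⟩
  have hβπ : ∀ A : GS, ∃ A' : GS, β (π A) = π A' ∧ ∀ x, ac A' (S x) = S (ac A x) := by
    intro A
    refine ⟨cjU n F q ⟨g, hgU⟩ (flU n F q ρ A), by rw [hβ, MulAut.mul_apply, phiU_pi, rhoU_pi], fun x => ?_⟩
    have h1 := ac_cjU ⟨g, hgU⟩ (flU n F q ρ A) (ρ ∘ x)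
    rw [ac_flU, hgx, hgx, ac_smul] at h1
    exact smul_right_injective V hκ0 h1
  have Ssurj : ∀ y, ∃ x, S x = y := by
    intro y
    refine ⟨ρ.symm ∘ (((g0⁻¹ : Matrix.GeneralLinearGroup (Fin n) F) : Matrix (Fin n) (Fin n) F) *ᵥ y), ?_⟩
    rw [hg0, comp_symm', gl_inv_mulVec]
  have hSv : ∀ x, hh (S x) v = μ⁻¹ * ρ (hh x v) := by
    intro x
    have := Sherm x v
    rwa [Sv] at this
  have hSv' : ∀ x, hh (S x) v' = ρ (hh x v') := by
    intro x
    have := Sherm x v'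
    rw [Sv', smul_right hf, hμi] at this
    exact mul_left_cancel₀ (inv_ne_zero hμ0) this
  have hSw : ∀ x w, IW q v v' w → hh (S x) (phi v v' α w) = ρ (hh x w) := by
    intro x w hw
    have := Sherm x w
    rw [Sw w hw, smul_right hf, hμi] at this
    exact mul_left_cancel₀ (inv_ne_zero hμ0) this
  have Ssub : ∀ x y, S (x - y) = S x - S y := by
    intro x y
    have h1 : x - y = x + (-1 : F) • y := by module
    rw [h1, Sadd, Ssm, map_neg, map_one]; module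
  have hβT : ∀ {c : F} {A : GS}, IsT v c A → ∃ A', IsT v (μ * ρ c) A' ∧ β (π A) = π A' := by
    intro c A hA
    obtain ⟨A', e, hA'⟩ := hβπ A
    refine ⟨A', fun y => ?_, e⟩
    obtain ⟨x, rfl⟩ := Ssurj y
    rw [hA', hA x, Sadd, Ssm, Sv, hSv, map_mul]
    congr 2
    field_simp
  have hβT' : ∀ {c : F} {A : GS}, IsT v' c A → ∃ A', IsT v' (μ⁻¹ * ρ c) A' ∧ β (π A) = π A' := by
    intro c A hA
    obtain ⟨A', e, hA'⟩ := hβπ A
    refine ⟨A', fun y => ?_, e⟩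
    obtain ⟨x, rfl⟩ := Ssurj y
    rw [hA', hA x, Sadd, Ssm, Sv', hSv', map_mul]
    module
  have hNA : NA σ v v' β := by
    obtain ⟨c, A, hc0, hA⟩ := exists_T_ne (n := n) hf H.v0 H.vv
    obtain ⟨A', hA', e⟩ := hβT hA
    obtain ⟨d, B, hd0, hB⟩ := exists_T_ne (n := n) hf H.v'0 H.v'v'
    obtain ⟨B', hB', e'⟩ := hβT' hB
    exact { H with
      rv := Rl.of_mem H.hF H.hn hf H.v0 H.vv hc0 hA hA' e
      rv' := Rl.of_mem H.hF H.hn hf H.v'0 H.v'v' hd0 hB hB' e' }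
  refine ⟨⟨g, hgU⟩, ρ, ?_, ?_, ?_⟩
  · rw [← hβ]; exact hNA
  · rw [← hβ]
    intro w hw
    obtain ⟨t, A, hA⟩ := H.exE hw
    obtain ⟨A', e, hA'⟩ := hβπ A
    refine hNA.phi_eq hw (H.phi_IW hw) ⟨t, μ * ρ t, A, A', hA, fun y => ?_, e⟩
    obtain ⟨x, rfl⟩ := Ssurj y
    rw [hA', hA x, Sadd, Ssub, Sadd, Ssm, Ssm, Ssm, Sv, Sw w hw, hSv, hSw x w hw, map_mul]
    have e3 : μ * ρ t * (μ⁻¹ * ρ (hh x v)) = ρ t * ρ (hh x v) := by field_simp
    rw [e3]
    module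
  · rw [← hβ]
    intro c hcs
    obtain ⟨A, hA⟩ := exists_T (n := n) hf H.vv hcs
    obtain ⟨A', hA', e⟩ := hβT hA
    rw [htau c hcs]
    exact hNA.tau_eq ⟨A, A', hA, hA', e⟩

end

end Cfsg.Agent.H22
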