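import Cfsg.Agent.LibH22AU6

set_option autoImplicit false

/-! Automorphisms of unitary groups VII: rigidity and the main theorem (seat helper22). -/

namespace Cfsg.Agent.H22

open Module Matrix Cfsg CfsgLib.Un29 CfsgLib.SylCen27 CfsgLib.FTPG27

section
variable {F : Type*} [Field F] [Fintype F] {σ : F ≃+* F} {q n : ℕ}

local notation "hh" => hermForm n F q
local notation "V" => (Fin n → F)
local notation "GS" => (Cfsg.SU n F q)
local notation "π" => (QuotientGroup.mk' (Subgroup.center (Cfsg.SU n F q)))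

variable {v v' : Fin n → F} {α β γ : MulAut (Cfsg.PSU n F q)}

/-- shift of the centre parameter -/
def LS (v : V) (γ : MulAut (Cfsg.PSU n F q)) (w : V) (l : F) : Prop :=
  ∀ t A, IsE v w t A → ∃ A' : GS, IsE v w (t + l) A' ∧ γ (π A) = π A'

lemma LS.mk' (H : NA σ v v' γ) (hτ : ∀ c, σ c = -c → tau v γ c = c) {w : V} (hw : IW q v v' w) {l t : F} {A A' : GS}
    (hA : IsE v w t A) (hA' : IsE v w (t + l) A') (e : γ (π A) = π A') : LS v γ w l := by
  have hf := H.hf
  intro s B hB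
  have h1 := hA.inv hf H.vv hw.1 (hA.trace H hw)
  have h2 := IsE.mul hf H.vv hw.1 (hw.neg hf).1 hB h1
  rw [add_neg_cancel] at h2
  have h3 : s + σ t - hh (-w) w = s - t := by
    rw [neg_left hf]
    linear_combination hA.trace H hw
  have hT : IsT v (s - t) (B * A⁻¹) := (isT_iff_isE hf).2 (h2.congr rfl h3)
  obtain ⟨C, hC, e'⟩ := H.tau_spec hT
  rw [hτ _ (hT.skew hf H.v0 H.vv)] at hC
  refine ⟨C * A', ?_, ?_⟩
  · have h4 := IsE.mul hf H.vv (zero_right hf v) hw.1 ((isT_iff_isE hf).1 hC) hA'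
    refine h4.congr (zero_add w) ?_
    rw [zero_right hf]; ring
  · rw [map_mul (QuotientGroup.mk' _), ← e', ← e, ← map_mul, ← map_mul, inv_mul_cancel_right]

lemma LS.exists (H : NA σ v v' γ) (hφ : ∀ w, IW q v v' w → phi v v' γ w = w) (hτ : ∀ c, σ c = -c → tau v γ c = c) {w : V} (hw : IW q v v' w) :
    ∃ l, LS v γ w l := by
  obtain ⟨t, A, hA⟩ := H.exE hw
  obtain ⟨t', A', hA', e⟩ := H.phi_E hw hA
  rw [hφ w hw] at hA'
  exact ⟨t' - t, LS.mk' H hτ hw hA (hA'.congr rfl (by ring)) e⟩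

lemma LS.uniq (H : NA σ v v' γ) {w : V} (hw : IW q v v' w) {l m : F} (h : LS v γ w l) (h' : LS v γ w m) : l = m := by
  obtain ⟨t, A, hA⟩ := H.exE hw
  obtain ⟨A', hA', e⟩ := h t A hA
  obtain ⟨B', hB', e'⟩ := h' t A hA
  have := (H.uniqPi hw hw hA' hB' (by rw [← e, e'])).2.2
  exact add_left_cancel this

lemma LS.add (H : NA σ v v' γ) (hτ : ∀ c, σ c = -c → tau v γ c = c) {w u : V} (hw : IW q v v' w) (hu : IW q v v' u) {l m : F} (h : LS v γ w l) (h' : LS v γ u m) :
    LS v γ (w + u) (l + m) := by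
  have hf := H.hf
  obtain ⟨t, A, hA⟩ := H.exE hw
  obtain ⟨s, B, hB⟩ := H.exE hu
  obtain ⟨A', hA', e⟩ := h t A hA
  obtain ⟨B', hB', e'⟩ := h' s B hB
  refine LS.mk' H hτ (hw.add hf hu) (hA.mul hf H.vv hw.1 hu.1 hB) ((hA'.mul hf H.vv hw.1 hu.1 hB').congr rfl (by ring)) ?_
  rw [map_mul, map_mul, e, e', map_mul]

lemma LS.zero (H : NA σ v v' γ) (hτ : ∀ c, σ c = -c → tau v γ c = c) : LS v γ (0 : V) 0 := by
  refine LS.mk' H hτ (IW.zero H.hf) (t := 0) (A := 1) (A' := 1) (IsE.one H.hf) ((IsE.one H.hf).congr rfl (by ring)) (by rw [map_one, map_one])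

lemma LS.iso (H : NA σ v v' γ) (hφ : ∀ w, IW q v v' w → phi v v' γ w = w) (hτ : ∀ c, σ c = -c → tau v γ c = c) {w : V} (hw : IW q v v' w) (hww : hh w w = 0) :
    LS v γ w 0 := by
  have hf := H.hf
  obtain ⟨l, hl⟩ := LS.exists H hφ hτ hw
  obtain ⟨A, hA⟩ := exists_E hf H.vv hw.1 (t := 0) (by rw [map_zero, hww]; ring)
  obtain ⟨A', hA', e⟩ := hl 0 A hA
  rw [zero_add] at hA'
  have h1 := H.rv'.conj e
  have e1 : ac A v' = v' + w := by rw [hA.apply' H hw]; simp
  have e2 : ac A' v' = v' + w + l • v := hA'.apply' H hw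
  have i1 : hh (ac A v') (ac A v') = 0 := by rw [ac_herm, H.v'v']
  have i2 : hh (ac A' v') (ac A' v') = 0 := by rw [ac_herm, H.v'v']
  have h2 := (Rl.perp H.hF H.hn hf H.v'0 H.v'v' (ac_ne A H.v'0) i1 H.v'0 H.v'v' (ac_ne A' H.v'0) i2 H.rv' h1).1 (by
    rw [e1, add_right hf, H.v'v', hw.2]; ring)
  rw [e2, add_right hf, add_right hf, smul_right hf, H.v'v', hw.2, H.v'v] at h2
  have h3 : l = 0 := by
    have : σ l = 0 := by linear_combination h2
    exact (map_eq_zero σ).1 this
  rw [h3] at hl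
  exact hl

lemma LS.all_zero (H : NA σ v v' γ) (h32 : ¬ (n = 3 ∧ q = 2)) (hφ : ∀ w, IW q v v' w → phi v v' γ w = w) (hτ : ∀ c, σ c = -c → tau v γ c = c) {w : V} (hw : IW q v v' w) :
    LS v γ w 0 := by
  have hf := H.hf
  have hn := H.hn
  rcases Nat.lt_or_ge n 4 with h4 | h4
  · have h3 : n = 3 := by omega
    obtain ⟨w0, hw0, h00⟩ := exists_W_noniso hf H.hn H.vv H.vv'
    have hne : w0 ≠ 0 := by
      rintro rfl
      exact h00 (zero_left hf 0)
    obtain ⟨a, ha1, ha3⟩ := exists_root3 H.hF (H.q3 h32 h3)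
    have ha0 : a ≠ 0 := by rintro rfl; rw [zero_pow (by omega)] at ha1; exact zero_ne_one ha1
    have haσ : a * σ a = 1 := by rw [H.hσ, ← pow_succ', ha1]
    obtain ⟨g, hgv, hgv', hgw⟩ := H.torus3 hw0 h00 ha0
    obtain ⟨g', hg'⟩ := QuotientGroup.mk'_surjective (Subgroup.center GS) (γ (π g))
    obtain ⟨a', ha', -, -, h1, h2, h5⟩ := H.torus ha0 hgv hgv' hg'.symm
    have hN : a' * σ a' = 1 := by
      obtain ⟨δ, hδ0, hδ⟩ := exists_skew hf
      have h6 := h2 δ hδ
      rw [haσ, one_mul, hτ δ hδ] at h6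
      exact (mul_right_cancel₀ hδ0 (by rw [one_mul]; exact h6)).symm
    have hgW : ∀ x, IW q v v' x → ac g x = (σ a / a) • x := by
      intro x hx
      obtain ⟨c, rfl⟩ := W_line hf h3 H.vv H.vv' hw0 hne hx
      rw [ac_smul, hgw]; module
    obtain ⟨m, hm⟩ : ∃ m, m = σ a * (σ a / a) := ⟨_, rfl⟩
    have hm1 : m ≠ 1 := by
      intro h6
      apply ha3
      rw [hm] at h6
      field_simp at h6
      have h7 : a ^ 3 * (σ a) ^ 2 = a ^ 3 * a := by rw [h6]
      have h8 : a ^ 3 * (σ a) ^ 2 = a := by linear_combination (a ^ 2 * σ a + a) * haσ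
      rw [h8] at h7
      have h9 : a * (a ^ 3 - 1) = 0 := by linear_combination -h7
      exact sub_eq_zero.1 ((mul_eq_zero.1 h9).resolve_left ha0)
    have hmul : ∀ x, IW q v v' x → ∀ l, LS v γ x l → LS v γ (m • x) l := by
      intro x hx l hl
      obtain ⟨t, A, hA⟩ := H.exE hx
      obtain ⟨A', hA', e⟩ := hl t A hA
      have hφx := hφ x hx
      have hA'' : IsE v (phi v v' γ x) (t + l) A' := hA'.congr hφx.symm rfl
      obtain ⟨k1, k2, k3⟩ := h5 x hx t A (t + l) A' hA hA'' e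
      have h6 := (h1 x hx).2
      rw [haσ, one_mul] at k1
      rw [hN, one_mul, ← h6] at k2
      have h7 : σ a • ac g x = m • x := by rw [hgW x hx, smul_smul, hm]
      rw [h7] at k1
      rw [h7, hφ _ (hx.smul hf m)] at k2
      exact LS.mk' H hτ (hx.smul hf m) k1 k2 k3
    have hm1' : m - 1 ≠ 0 := sub_ne_zero.2 hm1
    obtain ⟨x, hx⟩ : ∃ x, x = (m - 1)⁻¹ • w := ⟨_, rfl⟩
    have hxW : IW q v v' x := by rw [hx]; exact hw.smul hf _
    have hwx : w = m • x + -x := by
      rw [hx]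
      have : m • (m - 1)⁻¹ • w + -((m - 1)⁻¹ • w) = ((m - 1) * (m - 1)⁻¹) • w := by module
      rw [this, mul_inv_cancel₀ hm1', one_smul]
    obtain ⟨l, hl⟩ := LS.exists H hφ hτ hxW
    obtain ⟨l', hl'⟩ := LS.exists H hφ hτ (hxW.neg hf)
    have h8 := LS.add H hτ hxW (hxW.neg hf) hl hl'
    rw [add_neg_cancel] at h8
    have h9 := LS.uniq H (IW.zero hf) h8 (LS.zero H hτ)
    have h10 := LS.add H hτ (hxW.smul hf m) (hxW.neg hf) (hmul x hxW l hl) hl'
    rw [← hwx, h9] at h10
    exact h10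
  · have hR := rich_W hf h4 H.vv H.v'v' H.vv'
    let A : Submodule F V :=
      { carrier := {w | IW q v v' w ∧ ∀ κ : F, LS v γ (κ • w) 0}
        add_mem' := by
          rintro x y ⟨hx, hx'⟩ ⟨hy, hy'⟩
          refine ⟨hx.add hf hy, fun κ => ?_⟩
          have := LS.add H hτ (hx.smul hf κ) (hy.smul hf κ) (hx' κ) (hy' κ)
          rw [add_zero, ← smul_add] at this
          exact this
        zero_mem' := ⟨IW.zero hf, fun κ => by rw [smul_zero]; exact LS.zero H hτ⟩
        smul_mem' := by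
          rintro c x ⟨hx, hx'⟩
          refine ⟨hx.smul hf c, fun κ => ?_⟩
          rw [smul_smul]; exact hx' _ }
    have hle : perp hf (Submodule.span F {v, v'}) ≤ A := by
      by_contra hcon
      obtain ⟨x, hx, hxx, hxA⟩ := hR A hcon
      have hx' := (mem_WS hf).1 hx
      exact hxA ⟨hx', fun κ => LS.iso H hφ hτ (hx'.smul hf κ) (by rw [hf.smul_left, smul_right hf, hxx]; ring)⟩
    have := (hle ((mem_WS hf).2 hw)).2 1
    rwa [one_smul] at this

/-- an automorphism trivial on the unipotent radical is trivial -/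
theorem NA.eq_one (H : NA σ v v' γ) (h32 : ¬ (n = 3 ∧ q = 2)) (hφ : ∀ w, IW q v v' w → phi v v' γ w = w) (hτ : ∀ c, σ c = -c → tau v γ c = c) : γ = 1 := by
  have hf := H.hf
  have hn := H.hn
  have hfixE : ∀ w, IW q v v' w → ∀ t A, IsE v w t A → γ (π A) = π A := by
    intro w hw t A hA
    obtain ⟨A', hA', e⟩ := LS.all_zero H h32 hφ hτ hw t A hA
    rw [add_zero] at hA'
    have : A' = A := ac_ext fun x => by rw [hA' x, hA x]
    rw [e, this]
  -- opposite points are fixed
  have hopp : ∀ x, hh x x = 0 → hh x v ≠ 0 → Rl γ x x := by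
    intro x hx hxv
    obtain ⟨x1, hx1⟩ : ∃ x1, x1 = (hh x v)⁻¹ • x := ⟨_, rfl⟩
    have h1v : hh x1 v = 1 := by rw [hx1, hf.smul_left, inv_mul_cancel₀ hxv]
    have h11 : hh x1 x1 = 0 := by rw [hx1, hf.smul_left, smul_right hf, hx]; ring
    obtain ⟨t, ht⟩ : ∃ t, t = hh x1 v' := ⟨_, rfl⟩
    obtain ⟨w, hw⟩ : ∃ w, w = x1 - v' - t • v := ⟨_, rfl⟩
    have hv1 : hh v x1 = 1 := by rw [hf.herm, h1v, map_one]
    have hv'1 : hh v' x1 = σ t := by rw [hf.herm, ht]
    have hwW : IW q v v' w := by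
      rw [hw]
      constructor
      · rw [sub_right hf, sub_right hf, smul_right hf, H.vv, H.vv', hv1]; ring
      · rw [sub_right hf, sub_right hf, smul_right hf, H.v'v', H.v'v, hv'1]; ring
    have htr : t + σ t = - hh w w := by
      have h2 : hh w w = hh x1 w := by
        calc hh w w = hh (x1 - v' - t • v) w := by rw [← hw]
          _ = _ := by rw [sub_left hf, sub_left hf, hf.smul_left, hwW.1, hwW.2]; ring
      rw [h2, hw, sub_right hf, sub_right hf, smul_right hf, h11, ← ht, h1v]; ring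
    obtain ⟨A, hA⟩ := exists_E hf H.vv hwW.1 htr
    have h3 := H.rv'.conj (hfixE w hwW t A hA)
    have h4 : ac A v' = x1 := by rw [hA.apply' H hwW, hw]; abel
    rw [h4] at h3
    have h5 : x = hh x v • x1 := by rw [hx1, smul_smul, mul_inv_cancel₀ hxv, one_smul]
    rw [h5]
    exact (h3.smul_left hf hxv).smul_right hf hxv
  -- all points are fixed
  have hall : ∀ x, x ≠ 0 → hh x x = 0 → Rl γ x x := by
    intro x hx0 hx
    by_cases hxv : hh x v = 0
    · by_cases hxs : ∃ c : F, x = c • v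
      · obtain ⟨c, rfl⟩ := hxs
        have hc : c ≠ 0 := by rintro rfl; exact hx0 (zero_smul _ _)
        exact (H.rv.smul_left hf hc).smul_right hf hc
      · have h4 : 4 ≤ n := by
          by_contra h4
          have h3 : n = 3 := by omega
          obtain ⟨w0, hw0, h00⟩ := exists_W_noniso hf H.hn H.vv H.vv'
          have hne : w0 ≠ 0 := by
            rintro rfl
            exact h00 (zero_left hf 0)
          have hvx := swap_eq hf hxv
          have hW : IW q v v' (x - hh x v' • v) := by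
            constructor
            · rw [sub_right hf, smul_right hf, H.vv, hvx]; ring
            · rw [sub_right hf, smul_right hf, H.v'v, ← hf.herm]; ring
          obtain ⟨c, hc⟩ := W_line hf h3 H.vv H.vv' hw0 hne hW
          have h5 : hh (x - hh x v' • v) (x - hh x v' • v) = 0 := by
            simp only [sub_left hf, sub_right hf, hf.smul_left, smul_right hf, hx, H.vv, hvx, hxv]; ring
          rw [hc, hf.smul_left, smul_right hf] at h5
          have h6 : c * σ c = 0 := (mul_eq_zero.1 (show (c * σ c) * hh w0 w0 = 0 by linear_combination h5)).resolve_right h00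
          have h7 : c = 0 := by
            rcases mul_eq_zero.1 h6 with h | h
            · exact h
            · exact (map_eq_zero σ).1 h
          apply hxs
          refine ⟨hh x v', ?_⟩
          rw [h7, zero_smul, sub_eq_zero] at hc
          exact hc
        obtain ⟨x', hx0', hx', hxx'⟩ := Rl.exists H.hF hn hf γ hx0 hx
        by_cases hpar : x' ∈ Submodule.span F {x}
        · obtain ⟨c, rfl⟩ := Submodule.mem_span_singleton.1 hpar
          have hc : c ≠ 0 := by rintro rfl; exact hx0' (zero_smul _ _)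
          exact hxx'.of_smul_right hf hc
        · exfalso
          have hvs : v ∉ Submodule.span F {x} := by
            intro h
            obtain ⟨c, hc⟩ := Submodule.mem_span_singleton.1 h
            have hc0 : c ≠ 0 := by rintro rfl; rw [zero_smul] at hc; exact H.v0 hc.symm
            exact hxs ⟨c⁻¹, by rw [← hc, smul_smul, inv_mul_cancel₀ hc0, one_smul]⟩
          obtain ⟨y, hy, hyy, hy1, hy2⟩ := Rich.avoid hf (rich_vperp hf h4 hx0 hx) (perp_not_le hf _ hpar) (perp_not_le hf _ hvs)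
          have h5 := notMem_perp_singleton hf hy1
          have h6 := notMem_perp_singleton hf hy2
          have hxy : hh x y = 0 := hy x (Submodule.mem_span_singleton_self x)
          have hy0 : y ≠ 0 := by rintro rfl; exact h5 (zero_right hf _)
          exact h5 ((Rl.perp H.hF hn hf hx0 hx hy0 hyy hx0' hx' hy0 hyy hxx' (hopp y hyy (swap_ne hf h6))).1 hxy)
    · exact hopp x hx hxv
  apply MulEquiv.ext
  intro y
  obtain ⟨g, rfl⟩ := QuotientGroup.mk'_surjective (Subgroup.center GS) y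
  obtain ⟨g', hg'⟩ := QuotientGroup.mk'_surjective (Subgroup.center GS) (γ (π g))
  rw [MulAut.one_apply, ← hg', eq_comm, pi_eq_iff]
  apply su_center_of_fix H.hF hn h32
  intro x hx0 hx
  have h1 := (hall x hx0 hx).conj hg'.symm
  have h2 := hall (ac g x) (ac_ne g hx0) (by rw [ac_herm, hx])
  obtain ⟨c, hc, h3⟩ := Rl.uniq H.hF hn hf (ac_ne g hx0) (by rw [ac_herm, hx]) h2 h1
  refine ⟨c, ?_⟩
  show ac (g⁻¹ * g') x = c • x
  rw [ac_mul, h3, ac_smul, ac_inv]

/-- every normalized automorphism is induced by a semisimilarity -/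
theorem NA.main (H : NA σ v v' α) (h32 : ¬ (n = 3 ∧ q = 2)) : ∃ (g : Cfsg.GU n F q) (ρ : F ≃+* F), α = rhoU n F q g * phiU n F q ρ := by
  obtain ⟨g, ρ, hβ, h1, h2⟩ := H.exists_beta h32
  refine ⟨g, ρ, ?_⟩
  obtain ⟨β, hβe⟩ : ∃ β, β = rhoU n F q g * phiU n F q ρ := ⟨_, rfl⟩
  rw [← hβe] at hβ h1 h2 ⊢
  have h3 : β⁻¹ * α = 1 := by
    apply (H.mul hβ.inv).eq_one h32
    · intro w hw
      rw [H.phi_mul hβ.inv hw, ← h1 w hw, hβ.phi_inv hw]
    · intro c hc
      rw [H.tau_mul hβ.inv hc, ← h2 c hc, ← hβ.tau_mul hβ.inv hc, inv_mul_cancel]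
      obtain ⟨A, hA⟩ := exists_T (n := n) H.hf H.vv hc
      have hone : NA σ v v' (1 : MulAut (Cfsg.PSU n F q)) := by
        have := H.mul H.inv
        rwa [inv_mul_cancel] at this
      exact hone.tau_eq ⟨A, A, hA, hA, rfl⟩
  rw [inv_mul_eq_one] at h3
  exact h3.symm

end

section
variable {F : Type*} [Field F] [Fintype F] {q n : ℕ}

local notation "hh" => hermForm n F q
local notation "GS" => (Cfsg.SU n F q)
local notation "π" => (QuotientGroup.mk' (Subgroup.center (Cfsg.SU n F q)))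

/-- special unitary matrices as unitary matrices -/
lemma exists_gu_of_su (A : GS) : ∃ g : Cfsg.GU n F q, (g.1 : Matrix (Fin n) (Fin n) F) = suM A := by
  obtain ⟨g, hg, h⟩ := exists_gl_of_su A
  exact ⟨⟨g, hg.1⟩, h⟩

lemma rhoU_of_su {A : GS} {g : Cfsg.GU n F q} (hg : (g.1 : Matrix (Fin n) (Fin n) F) = suM A) : rhoU n F q g = MulAut.conj (π A) := by
  apply MulEquiv.ext
  intro y
  obtain ⟨B, rfl⟩ := QuotientGroup.mk'_surjective (Subgroup.center GS) y
  rw [rhoU_pi, MulAut.conj_apply, ← map_inv, ← map_mul, ← map_mul]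
  congr 1
  apply su_ext
  rw [suM_cjU, suM_mul, suM_mul, hg]
  congr 1
  have h1 : suM A * suM A⁻¹ = 1 := by rw [← suM_mul, mul_inv_cancel, suM_one]
  have h2 : ((g.1⁻¹ : Matrix.GeneralLinearGroup (Fin n) F) : Matrix (Fin n) (Fin n) F) * suM A = 1 := by rw [← hg, Units.inv_mul]
  calc _ = ((g.1⁻¹ : Matrix.GeneralLinearGroup (Fin n) F) : Matrix (Fin n) (Fin n) F) * (suM A * suM A⁻¹) := by rw [h1, mul_one]
    _ = _ := by rw [← mul_assoc, h2, one_mul]

/-- **Automorphisms of `PSU_n(q)`.** -/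
theorem psu_aut (hF : Fintype.card F = q ^ 2) (hn : 3 ≤ n) (h32 : ¬ (n = 3 ∧ q = 2)) (α : MulAut (Cfsg.PSU n F q)) :
    ∃ (g : Cfsg.GU n F q) (ρ : F ≃+* F), α = rhoU n F q g * phiU n F q ρ := by
  obtain ⟨σ, hσ, hf⟩ := hermForm_unitary (F := F) n hF
  obtain ⟨e, _, he, he0⟩ := (rich_perp hf (⊥ : Submodule F (Fin n → F)) (by rw [finrank_bot, Fintype.card_fin]; omega)) ⊥ (by
      exact perp_not_le_of_finrank hf (⊥ : Submodule F (Fin n → F)) ⊥ (by rw [finrank_bot, Fintype.card_fin]; omega))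
  have he0' : e ≠ 0 := by simpa using he0
  obtain ⟨f, hff, hef⟩ := exists_upartner hf he0' he
  have hf0 : f ≠ 0 := by rintro rfl; rw [zero_right hf] at hef; exact zero_ne_one hef
  obtain ⟨e', he'0, he', hR⟩ := Rl.exists hF hn hf α he0' he
  obtain ⟨f', hf'0, hf', hR'⟩ := Rl.exists hF hn hf α hf0 hff
  have hne : hh e f ≠ 0 := by rw [hef]; exact one_ne_zero
  have hne' : hh e' f' ≠ 0 := fun h => hne ((Rl.perp hF hn hf he0' he hf0 hff he'0 he' hf'0 hf' hR hR').2 h)
  obtain ⟨A, ⟨a, ha, hAe⟩, ⟨b, hb, hAf⟩⟩ := su_move_pair hF he'0 he0' he' hf' (notMem_span_of_ne hf he' hne') he hff (notMem_span_of_ne hf he hne)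
    (by simp only [hne, hne'])
  have hAe : ac A e' = a • e := hAe
  have hAf : ac A f' = b • f := hAf
  have H : NA σ e f (MulAut.conj (π A) * α) :=
    { hF := hF
      hn := hn
      hσ := hσ
      hf := hf
      vv := he
      v'v' := hff
      vv' := hef
      rv := by
        have := hR.comp (Rl.inner A e')
        rw [hAe] at this
        exact this.of_smul_right hf ha
      rv' := by
        have := hR'.comp (Rl.inner A f')
        rw [hAf] at this
        exact this.of_smul_right hf hb }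
  obtain ⟨g, ρ, hg⟩ := H.main h32
  obtain ⟨k, hk⟩ := exists_gu_of_su (F := F) A
  refine ⟨k⁻¹ * g, ρ, ?_⟩
  rw [map_mul, map_inv, rhoU_of_su hk, mul_assoc, ← hg, inv_mul_cancel_left]

end

end Cfsg.Agent.H22
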