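import Cfsg.Agent.LibH22AU7
import Cfsg.Agent.LibSemi27

set_option autoImplicit false

/-! Automorphisms of unitary groups VIII: predicates, kernel, inner automorphisms, determinant (seat helper22). -/

namespace Cfsg.Agent.H22

open Module Matrix Cfsg CfsgLib.Un29 CfsgLib.SylCen27 CfsgLib.FTPG27

section
variable {F : Type*} [Field F] {q n : ℕ}

local notation "hh" => hermForm n F q
local notation "V" => (Fin n → F)
local notation "GS" => (Cfsg.SU n F q)
local notation "π" => (QuotientGroup.mk' (Subgroup.center (Cfsg.SU n F q)))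

lemma phiU_refl : phiU n F q (RingEquiv.refl F) = 1 := map_one (phiU n F q)

lemma isIndU_iff {g : Matrix.GeneralLinearGroup (Fin n) F} (hg : g ∈ Cfsg.GU n F q) (σ : F ≃+* F) (β : MulAut (Cfsg.PSU n F q)) :
    Cfsg.IsInducedBySemilinearPSU g σ β ↔ β = rhoU n F q ⟨g, hg⟩ * phiU n F q σ := by
  constructor
  · intro h
    apply MulEquiv.ext
    intro x
    induction x using QuotientGroup.induction_on with
    | H s => exact h s (cjU n F q ⟨g, hg⟩ (flU n F q σ s)) rfl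
  · rintro rfl s s' hs
    have : s' = cjU n F q ⟨g, hg⟩ (flU n F q σ s) := su_ext hs
    rw [this]
    rfl

lemma isFieldU_iff (σ : F ≃+* F) (β : MulAut (Cfsg.PSU n F q)) : Cfsg.IsFieldAutPSUOf σ β ↔ β = phiU n F q σ := by
  constructor
  · intro h
    apply MulEquiv.ext
    intro x
    induction x using QuotientGroup.induction_on with
    | H s => exact h s (flU n F q σ s) rfl
  · rintro rfl s s' hs
    have : s' = flU n F q σ s := su_ext hs
    rw [this]
    rfl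

lemma isInnDiagU_iff (β : MulAut (Cfsg.PSU n F q)) : Cfsg.IsInnerDiagonalAutPSU β ↔ ∃ g, β = rhoU n F q g := by
  constructor
  · rintro ⟨g, hg, h⟩
    refine ⟨⟨g, hg⟩, ?_⟩
    apply MulEquiv.ext
    intro x
    induction x using QuotientGroup.induction_on with
    | H s => exact h s (cjU n F q ⟨g, hg⟩ s) rfl
  · rintro ⟨g, rfl⟩
    refine ⟨g.1, g.2, fun s s' hs => ?_⟩
    have : s' = cjU n F q g s := su_ext hs
    rw [this]
    rfl

theorem inndiagPSU_eq {F : Type*} [Field F] {q n : ℕ} : Cfsg.inndiagPSU n F q = (rhoU n F q).range := by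
  apply le_antisymm
  · refine (Subgroup.closure_le _).2 ?_
    rintro β hβ
    obtain ⟨g, hg⟩ := (isInnDiagU_iff β).1 hβ
    exact ⟨g, hg.symm⟩
  · rintro _ ⟨g, rfl⟩
    exact Subgroup.subset_closure ((isInnDiagU_iff _).2 ⟨g, rfl⟩)

/-- `σ` applied to a unitary matrix -/
lemma gm_memU {σ : F ≃+* F} {g : Matrix.GeneralLinearGroup (Fin n) F} (hg : g ∈ Cfsg.GU n F q) : CfsgLib.Semi27.gm σ g ∈ Cfsg.GU n F q := by
  rw [mem_GU']
  intro u v
  obtain ⟨u, rfl⟩ : ∃ u', u = σ ∘ u' := ⟨_, (comp_symm' σ u).symm⟩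
  obtain ⟨v, rfl⟩ : ∃ u', v = σ ∘ u' := ⟨_, (comp_symm' σ v).symm⟩
  rw [CfsgLib.Semi27.coe_gm, CfsgLib.Semi27.gm_mulVec, CfsgLib.Semi27.gm_mulVec, herm_comp, herm_comp, mem_GU'.1 hg]

lemma phiU_mul_rhoU (σ : F ≃+* F) (g : Cfsg.GU n F q) : phiU n F q σ * rhoU n F q g = rhoU n F q ⟨CfsgLib.Semi27.gm σ g.1, gm_memU g.2⟩ * phiU n F q σ := by
  apply MulEquiv.ext
  intro x
  obtain ⟨A, rfl⟩ := QuotientGroup.mk'_surjective (Subgroup.center GS) x
  rw [MulAut.mul_apply, MulAut.mul_apply, rhoU_pi, phiU_pi, phiU_pi, rhoU_pi]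
  congr 1
  apply su_ext
  rw [suM_flU, suM_cjU, suM_cjU, suM_flU]
  have e : ((((CfsgLib.Semi27.gm σ g.1)⁻¹ : Matrix.GeneralLinearGroup (Fin n) F)) : Matrix (Fin n) (Fin n) F) = ((g.1⁻¹ : Matrix.GeneralLinearGroup (Fin n) F) : Matrix (Fin n) (Fin n) F).map σ := by
    rw [← map_inv, CfsgLib.Semi27.coe_gm]
  rw [e, CfsgLib.Semi27.coe_gm]
  show ((g.1 : Matrix (Fin n) (Fin n) F) * suM A * ((g.1⁻¹ : Matrix.GeneralLinearGroup (Fin n) F) : Matrix (Fin n) (Fin n) F)).map (σ : F →+* F) =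
    ((g.1 : Matrix (Fin n) (Fin n) F)).map (σ : F →+* F) * (suM A).map (σ : F →+* F) * (((g.1⁻¹ : Matrix.GeneralLinearGroup (Fin n) F) : Matrix (Fin n) (Fin n) F)).map (σ : F →+* F)
  rw [Matrix.map_mul, Matrix.map_mul]

end

section
variable {F : Type*} [Field F] [Fintype F] {q n : ℕ}

local notation "hh" => hermForm n F q
local notation "V" => (Fin n → F)
local notation "GS" => (Cfsg.SU n F q)
local notation "π" => (QuotientGroup.mk' (Subgroup.center (Cfsg.SU n F q)))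

/-- images of transvection groups under induced automorphisms -/
lemma rel_induced (hF : Fintype.card F = q ^ 2) (hn : 3 ≤ n) {σ : F ≃+* F} (hf : Geo.IsUnitaryForm σ hh) (g : Cfsg.GU n F q) (ρ : F ≃+* F) {v : V} (hv0 : v ≠ 0) (hv : hh v v = 0) :
    Rl (rhoU n F q g * phiU n F q ρ) v ((g.1 : Matrix (Fin n) (Fin n) F) *ᵥ (ρ ∘ v)) := by
  obtain ⟨c, A, hc0, hA⟩ := exists_T_ne (n := n) hf hv0 hv
  refine Rl.of_mem hF hn hf hv0 hv hc0 hA (d := ρ c) (A' := cjU n F q g (flU n F q ρ A)) ?_ rfl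
  intro y
  obtain ⟨x, rfl⟩ : ∃ x : V, y = (g.1 : Matrix (Fin n) (Fin n) F) *ᵥ (ρ ∘ x) := by
    refine ⟨ρ.symm ∘ (((g.1⁻¹ : Matrix.GeneralLinearGroup (Fin n) F) : Matrix (Fin n) (Fin n) F) *ᵥ y), ?_⟩
    rw [comp_symm', gl_inv_mulVec]
  rw [ac_cjU, ac_flU, hA x, mem_GU'.1 g.2, herm_comp, ← Matrix.mulVec_smul, ← Matrix.mulVec_add]
  congr 1
  ext i
  simp only [Function.comp_apply, Pi.add_apply, Pi.smul_apply, smul_eq_mul, map_add, map_mul]

theorem unique_oneU (hF : Fintype.card F = q ^ 2) (hn : 3 ≤ n) {g : Cfsg.GU n F q} {ρ : F ≃+* F}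
    (h : rhoU n F q g * phiU n F q ρ = 1) : ρ = 1 ∧ ∃ u : Fˣ, (g : Matrix.GeneralLinearGroup (Fin n) F) = CfsgLib.Semi27.scal u := by
  obtain ⟨σ, hσ, hf⟩ := hermForm_unitary (F := F) n hF
  obtain ⟨S, hS⟩ : ∃ S : V → V, S = fun x => (g.1 : Matrix (Fin n) (Fin n) F) *ᵥ (ρ ∘ x) := ⟨_, rfl⟩
  have Sadd : ∀ x y, S (x + y) = S x + S y := by
    intro x y
    rw [hS]
    show _ *ᵥ _ = _ *ᵥ _ + _ *ᵥ _
    rw [← Matrix.mulVec_add]
    congr 1
    ext i; simp
  have Ssm : ∀ (c : F) x, S (c • x) = ρ c • S x := by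
    intro c x
    rw [hS]
    show _ *ᵥ _ = ρ c • (_ *ᵥ _)
    rw [← Matrix.mulVec_smul]
    congr 1
    ext i; simp
  have Sherm : ∀ x y, hh (S x) (S y) = ρ (hh x y) := by
    intro x y
    rw [hS]
    show hh (_ *ᵥ _) (_ *ᵥ _) = _
    rw [mem_GU'.1 g.2, herm_comp]
  have hfix : ∀ x, x ≠ 0 → hh x x = 0 → ∃ c : F, c ≠ 0 ∧ S x = c • x := by
    intro x hx0 hx
    have h1 := rel_induced hF hn hf g ρ hx0 hx
    rw [h] at h1
    obtain ⟨c, hc, h2⟩ := Rl.uniq hF hn hf hx0 hx (Rl.one x) h1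
    exact ⟨c, hc, by rw [hS]; exact h2⟩
  obtain ⟨v, _, hv, hv0⟩ := (rich_perp hf (⊥ : Submodule F (Fin n → F)) (by rw [finrank_bot, Fintype.card_fin]; omega)) ⊥ (by
      exact perp_not_le_of_finrank hf (⊥ : Submodule F (Fin n → F)) ⊥ (by rw [finrank_bot, Fintype.card_fin]; omega))
  have hv0 : v ≠ 0 := by simpa using hv0
  obtain ⟨v', hv', hvv'⟩ := exists_upartner hf hv0 hv
  have hv'0 : v' ≠ 0 := by rintro rfl; rw [zero_right hf] at hvv'; exact zero_ne_one hvv'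
  have hv'v : hh v' v = 1 := by rw [hf.herm, hvv', map_one]
  obtain ⟨a, ha0, ha⟩ := hfix v hv0 hv
  obtain ⟨b, hb0, hb⟩ := hfix v' hv'0 hv'
  have hSW : ∀ w, IW q v v' w → IW q v v' (S w) := by
    intro w hw
    constructor
    · have h1 := Sherm v w
      rw [ha, hf.smul_left, hw.1, map_zero] at h1
      exact (mul_eq_zero.1 h1).resolve_left ha0
    · have h1 := Sherm v' w
      rw [hb, hf.smul_left, hw.2, map_zero] at h1
      exact (mul_eq_zero.1 h1).resolve_left hb0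
  have key : ∀ w, IW q v v' w → ∀ t, t + σ t = - hh w w → S w = b • w ∧ b * t = ρ t * a := by
    intro w hw t ht
    have hx : hh (v' + w + t • v) (v' + w + t • v) = 0 := by
      simp only [hf.add_left, add_right hf, hf.smul_left, smul_right hf, hv, hv', hvv', hv'v, hw.1, hw.2, hw.wv hf, hw.wv' hf]
      linear_combination ht
    have hxv : hh (v' + w + t • v) v = 1 := by
      rw [hf.add_left, hf.add_left, hf.smul_left, hv'v, hw.wv hf, hv]; ring
    have hx0 : v' + w + t • v ≠ 0 := by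
      intro h0
      rw [h0, zero_left hf] at hxv
      exact zero_ne_one hxv
    obtain ⟨c, hc0, hc⟩ := hfix _ hx0 hx
    rw [Sadd, Sadd, Ssm, ha, hb] at hc
    have hSw := hSW w hw
    have e1 := congrArg (fun y => hh y v) hc
    simp only [hf.add_left, hf.smul_left, hv'v, hSw.wv hf, hw.wv hf, hv, mul_zero, add_zero, mul_one] at e1
    have e2 := congrArg (fun y => hh y v') hc
    simp only [hf.add_left, hf.smul_left, hv', hSw.wv' hf, hw.wv' hf, hvv', mul_zero, zero_add, mul_one] at e2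
    refine ⟨?_, by rw [e1, ← e2]⟩
    have e3 : S w = (b • v' + S w + ρ t • a • v) - b • v' - (ρ t * a) • v := by module
    rw [e3, hc, ← e1, e2, ← e1]; module
  obtain ⟨w0, hw0, h00⟩ := exists_W_noniso hf hn hv hvv'
  have hw00 : w0 ≠ 0 := by
    rintro rfl
    exact h00 (zero_left hf 0)
  have hex : ∀ w : V, ∃ t, t + σ t = - hh w w := fun w => exists_trace hf (- hh w w) (by rw [map_neg, norm_real hf])
  have hρ : ∀ κ, ρ κ = κ := by
    intro κ
    obtain ⟨t, ht⟩ := hex w0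
    obtain ⟨s, hs⟩ := hex (κ • w0)
    have e1 := (key w0 hw0 t ht).1
    have e2 := (key (κ • w0) (hw0.smul hf κ) s hs).1
    rw [Ssm, e1, smul_smul, smul_smul] at e2
    have e3 := smul_left_injective F hw00 e2
    exact mul_right_cancel₀ hb0 (e3.trans (mul_comm b κ))
  have hab : a = b := by
    obtain ⟨δ, hδ0, hδ⟩ := exists_skew hf
    have e1 := (key 0 (IW.zero hf) δ (by rw [hδ, zero_right hf]; ring)).2
    rw [hρ] at e1
    exact (mul_left_cancel₀ hδ0 (by rw [← e1]; ring)).symm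
  have hρ1 : ρ = 1 := RingEquiv.ext hρ
  have hSx : ∀ x, S x = b • x := by
    intro x
    obtain ⟨w, hw⟩ : ∃ w, w = x - hh x v' • v - hh x v • v' := ⟨_, rfl⟩
    have hwW : IW q v v' w := by
      rw [hw]
      refine ⟨?_, ?_⟩
      · rw [sub_right hf, sub_right hf, smul_right hf, smul_right hf, hv, hvv', ← hf.herm v x]; ring
      · rw [sub_right hf, sub_right hf, smul_right hf, smul_right hf, hv', hv'v, ← hf.herm v' x]; ring
    obtain ⟨t, ht⟩ := hex w
    have e1 := (key w hwW t ht).1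
    have hx : x = hh x v' • v + hh x v • v' + w := by rw [hw]; abel
    calc S x = S (hh x v' • v + hh x v • v' + w) := by rw [← hx]
      _ = b • (hh x v' • v + hh x v • v' + w) := by
        rw [Sadd, Sadd, Ssm, Ssm, ha, hb, e1, hρ, hρ, hab]; module
      _ = b • x := by rw [← hx]
  refine ⟨hρ1, Units.mk0 b hb0, ?_⟩
  apply Units.ext
  apply CfsgLib.Semi27.eq_of_mulVec_single
  intro i
  have e1 := hSx (Pi.single i 1)
  rw [hS] at e1
  have e2 : (ρ ∘ (Pi.single i 1 : V)) = Pi.single i 1 := CfsgLib.Semi27.comp_single ρ i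
  simp only [e2] at e1
  rw [e1, CfsgLib.Semi27.scal_mulVec]; rfl

lemma scal_memU (u : Fˣ) (hu : u ^ (q + 1) = 1) : (CfsgLib.Semi27.scal u : Matrix.GeneralLinearGroup (Fin n) F) ∈ Cfsg.GU n F q := by
  rw [mem_GU']
  intro x y
  rw [CfsgLib.Semi27.scal_mulVec, CfsgLib.Semi27.scal_mulVec]
  unfold hermForm
  have hu' : (u : F) * (u : F) ^ q = 1 := by
    have := congrArg Units.val hu
    rw [Units.val_pow_eq_pow_val, Units.val_one, pow_succ'] at this
    exact this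
  refine Finset.sum_congr rfl fun i _ => ?_
  simp only [Pi.smul_apply, smul_eq_mul, mul_pow]
  linear_combination (x i * y i ^ q) * hu'

lemma scal_memU_iff (hn : 1 ≤ n) (u : Fˣ) : (CfsgLib.Semi27.scal u : Matrix.GeneralLinearGroup (Fin n) F) ∈ Cfsg.GU n F q ↔ u ^ (q + 1) = 1 := by
  refine ⟨fun h => ?_, scal_memU u⟩
  have h1 := mem_GU'.1 h (Pi.single ⟨0, hn⟩ 1) (Pi.single ⟨0, hn⟩ 1)
  rw [CfsgLib.Semi27.scal_mulVec] at h1
  have h2 : hermForm n F q (Pi.single ⟨0, hn⟩ 1) (Pi.single ⟨0, hn⟩ 1) = 1 := by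
    unfold hermForm
    rw [Finset.sum_eq_single ⟨0, hn⟩]
    · simp
    · intro b _ hb; simp [hb]
    · intro h; exact absurd (Finset.mem_univ _) h
  rw [herm_smul_smul, h2, mul_one] at h1
  apply Units.ext
  rw [Units.val_pow_eq_pow_val, Units.val_one, pow_succ', h1]

lemma cjU_scal {g : Cfsg.GU n F q} {u : Fˣ} (h : (g : Matrix.GeneralLinearGroup (Fin n) F) = CfsgLib.Semi27.scal u) : cjU n F q g = 1 := by
  apply MulEquiv.ext
  intro s
  apply su_ext
  rw [suM_cjU, MulAut.one_apply]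
  have e : g.1 = CfsgLib.Semi27.scal u := h
  have h1 : ∀ M : Matrix (Fin n) (Fin n) F, (g.1 : Matrix (Fin n) (Fin n) F) * M = M * (g.1 : Matrix (Fin n) (Fin n) F) := by
    intro M
    rw [e]
    exact (Matrix.scalar_commute (u : F) (fun _ => mul_comm _ _) M).eq
  rw [h1, mul_assoc, Units.mul_inv, mul_one]

theorem rhoU_ker (hF : Fintype.card F = q ^ 2) (hn : 3 ≤ n) (g : Cfsg.GU n F q) :
    rhoU n F q g = 1 ↔ ∃ u : Fˣ, (g : Matrix.GeneralLinearGroup (Fin n) F) = CfsgLib.Semi27.scal u := by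
  constructor
  · intro h
    exact (unique_oneU hF hn (g := g) (ρ := 1) (by rw [map_one, mul_one, h])).2
  · rintro ⟨u, hu⟩
    show CfsgLib.AutPSL27.lft (cjU n F q g) = 1
    rw [cjU_scal hu, map_one]

lemma phiU_inj (hF : Fintype.card F = q ^ 2) (hn : 3 ≤ n) : Function.Injective (phiU n F q) := by
  rw [injective_iff_map_eq_one]
  intro σ h
  exact (unique_oneU hF hn (g := 1) (ρ := σ) (by rw [map_one, one_mul, h])).1

lemma rhoU_eq_iff (hF : Fintype.card F = q ^ 2) (hn : 3 ≤ n) (g h : Cfsg.GU n F q) :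
    rhoU n F q g = rhoU n F q h ↔ ∃ u : Fˣ, (g : Matrix.GeneralLinearGroup (Fin n) F) = CfsgLib.Semi27.scal u * (h : Matrix.GeneralLinearGroup (Fin n) F) :=
  CfsgLib.Semi27.rho_eq_iff (rhoU_ker hF hn) g h

/-- norm one elements -/
def N1 (F : Type*) [Field F] (q : ℕ) : Subgroup Fˣ := (powMonoidHom (q + 1) : Fˣ →* Fˣ).ker

omit [Fintype F] in
lemma mem_N1 {u : Fˣ} : u ∈ N1 F q ↔ u ^ (q + 1) = 1 := Iff.rfl

/-- determinant on the unitary group -/
noncomputable def dU (hF : Fintype.card F = q ^ 2) : Cfsg.GU n F q →* N1 F q :=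
  (Matrix.GeneralLinearGroup.det.comp (Cfsg.GU n F q).subtype).codRestrict (N1 F q) (fun g => detU_pow hF g)

lemma dU_coe (hF : Fintype.card F = q ^ 2) (g : Cfsg.GU n F q) : ((dU hF g : N1 F q) : Fˣ) = Matrix.GeneralLinearGroup.det g.1 := rfl

lemma dU_surj (hF : Fintype.card F = q ^ 2) (hn : 1 ≤ n) : Function.Surjective (dU (n := n) hF) := by
  rintro ⟨u, hu⟩
  obtain ⟨g, hg⟩ := exists_detU hF hn u hu
  exact ⟨g, Subtype.ext hg⟩

lemma card_N1 (hF : Fintype.card F = q ^ 2) : Nat.card (N1 F q) = q + 1 := by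
  have h1 := card_norm_fiber hF 1 one_ne_zero (one_pow q)
  rw [← h1]
  refine Nat.card_congr ⟨fun u => ⟨(u.1 : F), ?_⟩, fun x => ⟨Units.mk0 x.1 ?_, ?_⟩, fun u => ?_, fun x => ?_⟩
  · have := congrArg Units.val (mem_N1.1 u.2)
    rwa [Units.val_pow_eq_pow_val, Units.val_one] at this
  · intro h0
    have := x.2
    rw [h0, zero_pow (by omega)] at this
    exact zero_ne_one this
  · rw [mem_N1]
    apply Units.ext
    rw [Units.val_pow_eq_pow_val, Units.val_mk0, Units.val_one]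
    exact x.2
  · exact Subtype.ext (Units.ext rfl)
  · exact Subtype.ext rfl

lemma det_scalU (u : Fˣ) : Matrix.GeneralLinearGroup.det (CfsgLib.Semi27.scal u : Matrix.GeneralLinearGroup (Fin n) F) = u ^ n := by
  rw [Matrix.GeneralLinearGroup.det_scalar, Fintype.card_fin]

/-- inner automorphisms among the inner-diagonal ones -/
theorem mem_innU_iff (hF : Fintype.card F = q ^ 2) (hn : 3 ≤ n) (g : Cfsg.GU n F q) :
    rhoU n F q g ∈ Cfsg.Inn (Cfsg.PSU n F q) ↔ dU hF g ∈ (powMonoidHom n : N1 F q →* N1 F q).range := by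
  constructor
  · rintro ⟨x, hx⟩
    obtain ⟨s, rfl⟩ := QuotientGroup.mk'_surjective (Subgroup.center GS) x
    obtain ⟨k, hk⟩ := exists_gu_of_su (F := F) s
    have h1 : rhoU n F q g = rhoU n F q k := by rw [rhoU_of_su hk]; exact hx.symm
    obtain ⟨u, hu⟩ := (rhoU_eq_iff hF hn g k).1 h1
    have hu1 : u ^ (q + 1) = 1 := by
      rw [← scal_memU_iff (n := n) (by omega)]
      have : (CfsgLib.Semi27.scal u : Matrix.GeneralLinearGroup (Fin n) F) = g.1 * k.1⁻¹ := by rw [eq_mul_inv_iff_mul_eq]; exact hu.symm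
      rw [this]
      exact Subgroup.mul_mem _ g.2 (Subgroup.inv_mem _ k.2)
    refine ⟨⟨u, hu1⟩, Subtype.ext ?_⟩
    show u ^ n = Matrix.GeneralLinearGroup.det g.1
    have hk1 : Matrix.GeneralLinearGroup.det k.1 = 1 := by
      apply Units.ext
      rw [Matrix.GeneralLinearGroup.val_det_apply, Units.val_one, hk]
      exact s.1.2
    have hu' : g.1 = CfsgLib.Semi27.scal u * k.1 := hu
    rw [hu', map_mul, det_scalU, hk1, mul_one]
  · rintro ⟨⟨u, hu1⟩, hu⟩
    have hdet : u ^ n = Matrix.GeneralLinearGroup.det g.1 := congrArg Subtype.val hu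
    have hu1' : u ^ (q + 1) = 1 := hu1
    have hui : (u⁻¹) ^ (q + 1) = 1 := by rw [inv_pow, hu1', inv_one]
    obtain ⟨s, hs⟩ := exists_su_of_gl (n := n) (q := q) (g := CfsgLib.Semi27.scal u⁻¹ * g.1) ⟨Subgroup.mul_mem (Cfsg.GU n F q) (scal_memU _ hui) g.2, by
      show Matrix.GeneralLinearGroup.det _ = 1
      rw [map_mul, det_scalU, inv_pow, hdet, inv_mul_cancel]⟩
    refine ⟨π s, ?_⟩
    have h2 : (((⟨CfsgLib.Semi27.scal u⁻¹, scal_memU _ hui⟩ * g : Cfsg.GU n F q)).1 : Matrix (Fin n) (Fin n) F) = suM s := hs.symm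
    have h3 := rhoU_of_su h2
    rw [map_mul, (rhoU_ker hF hn _).2 ⟨u⁻¹, rfl⟩, one_mul] at h3
    exact h3.symm

theorem innU_le : Cfsg.Inn (Cfsg.PSU n F q) ≤ (rhoU n F q).range := by
  rintro _ ⟨x, rfl⟩
  obtain ⟨s, rfl⟩ := QuotientGroup.mk'_surjective (Subgroup.center GS) x
  obtain ⟨k, hk⟩ := exists_gu_of_su (F := F) s
  exact ⟨k, rhoU_of_su hk⟩

/-- `Inndiag` is normal -/
theorem inndiagU_normal (hF : Fintype.card F = q ^ 2) (hn : 3 ≤ n) (h32 : ¬ (n = 3 ∧ q = 2)) (α : MulAut (Cfsg.PSU n F q)) (g : Cfsg.GU n F q) :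
    ∃ g' : Cfsg.GU n F q, α * rhoU n F q g * α⁻¹ = rhoU n F q g' := by
  obtain ⟨h, ρ, rfl⟩ := psu_aut hF hn h32 α
  refine ⟨h * ⟨CfsgLib.Semi27.gm ρ g.1, gm_memU g.2⟩ * h⁻¹, ?_⟩
  rw [mul_inv_eq_iff_eq_mul, map_mul, map_mul, map_inv, mul_assoc, phiU_mul_rhoU]
  group

/-- the map to field automorphisms -/
theorem exists_chiU (hF : Fintype.card F = q ^ 2) (hn : 3 ≤ n) (h32 : ¬ (n = 3 ∧ q = 2)) :
    ∃ χ : MulAut (Cfsg.PSU n F q) →* (F ≃+* F), ∀ α ρ, (∃ g, α = rhoU n F q g * phiU n F q ρ) ↔ χ α = ρ := by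
  apply CfsgLib.AutPSL27.exists_hom_of_rel (fun α ρ => ∃ g, α = rhoU n F q g * phiU n F q ρ)
  · intro α
    obtain ⟨g, ρ, h⟩ := psu_aut hF hn h32 α
    exact ⟨ρ, g, h⟩
  · rintro ρ ⟨g, h⟩
    exact (unique_oneU hF hn h.symm).1
  · rintro α α' ρ ρ' ⟨g, rfl⟩ ⟨g', rfl⟩
    refine ⟨g * ⟨CfsgLib.Semi27.gm ρ g'.1, gm_memU g'.2⟩, ?_⟩
    rw [map_mul, map_mul, mul_assoc, ← mul_assoc (phiU n F q ρ), phiU_mul_rhoU]
    simp only [mul_assoc]

end

end Cfsg.Agent.H22
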