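import Cfsg.Agent.LibH22AU8

set_option autoImplicit false

/-! Automorphisms of unitary groups IX: orders, centralizers of field automorphisms (seat helper22). -/

namespace Cfsg.Agent.H22

open Module Matrix Cfsg CfsgLib.Un29 CfsgLib.SylCen27 CfsgLib.FTPG27

/-- diagonal part of an outer automorphism group -/
theorem out_abs {X Γ D B : Type*} [Group X] [Group Γ] [CommGroup D] [Group B] [Finite D] [IsCyclic D] (ρ : Γ →* MulAut X) (d : Γ →* D) (hd : Function.Surjective d)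
    (P : Subgroup D) (hT : ∀ g, ρ g ∈ Cfsg.Inn X ↔ d g ∈ P) (hle : Cfsg.Inn X ≤ ρ.range) (χ : MulAut X →* B) (hs : Function.Surjective χ)
    (hk : ∀ α, α ∈ ρ.range ↔ χ α = 1) :
    ∃ φ : Cfsg.Out X →* B, Function.Surjective φ ∧ IsCyclic φ.ker ∧ Nat.card φ.ker = P.index := by
  have hinn : ∀ α ∈ Cfsg.Inn X, χ α = 1 := fun α hα => (hk α).1 (hle hα)
  let φ : Cfsg.Out X →* B := QuotientGroup.lift _ χ hinn
  let om : Γ →* Cfsg.Out X := (QuotientGroup.mk' (Cfsg.Inn X)).comp ρ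
  have hker : φ.ker = om.range := by
    ext x
    induction x using QuotientGroup.induction_on with
    | H α =>
      rw [MonoidHom.mem_ker]
      show χ α = 1 ↔ _
      rw [← hk]
      constructor
      · rintro ⟨g, rfl⟩
        exact ⟨g, rfl⟩
      · rintro ⟨g, hg⟩
        have h1 : (ρ g)⁻¹ * α ∈ Cfsg.Inn X := QuotientGroup.eq.1 hg
        have h2 := ρ.range.mul_mem ⟨g, rfl⟩ (hle h1)
        rwa [mul_inv_cancel_left] at h2
  have hker2 : om.ker = ((QuotientGroup.mk' P).comp d).ker := by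
    ext g
    rw [MonoidHom.mem_ker, MonoidHom.mem_ker]
    show (QuotientGroup.mk (ρ g) : Cfsg.Out X) = 1 ↔ (QuotientGroup.mk (d g) : D ⧸ P) = 1
    rw [QuotientGroup.eq_one_iff, QuotientGroup.eq_one_iff, hT]
  have hsurj : Function.Surjective ((QuotientGroup.mk' P).comp d) := (QuotientGroup.mk'_surjective _).comp hd
  have e : om.range ≃* (D ⧸ P) :=
    ((QuotientGroup.quotientKerEquivRange om).symm.trans (QuotientGroup.quotientMulEquivOfEq hker2)).trans
      (QuotientGroup.quotientKerEquivOfSurjective _ hsurj)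
  refine ⟨φ, ?_, ?_, ?_⟩
  · intro b
    obtain ⟨α, hα⟩ := hs b
    exact ⟨QuotientGroup.mk α, hα⟩
  · rw [hker]
    haveI : IsCyclic (D ⧸ P) := isCyclic_of_surjective (QuotientGroup.mk' _) (QuotientGroup.mk'_surjective _)
    exact isCyclic_of_surjective e.symm e.symm.surjective
  · rw [hker, Nat.card_congr e.toEquiv, Subgroup.index_eq_card]

section
variable {F : Type*} [Field F] [Fintype F] {q n : ℕ}

local notation "hh" => hermForm n F q
local notation "V" => (Fin n → F)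
local notation "GS" => (Cfsg.SU n F q)
local notation "π" => (QuotientGroup.mk' (Subgroup.center (Cfsg.SU n F q)))

lemma card_ker_rhoU (hF : Fintype.card F = q ^ 2) (hn : 3 ≤ n) : Nat.card (rhoU n F q).ker = q + 1 := by
  rw [← card_N1 hF]
  refine (Nat.card_congr (Equiv.ofBijective (fun u : N1 F q => (⟨⟨CfsgLib.Semi27.scal u.1, scal_memU u.1 u.2⟩, ?_⟩ : (rhoU n F q).ker)) ⟨?_, ?_⟩)).symm
  · exact (rhoU_ker hF hn _).2 ⟨u.1, rfl⟩
  · intro u v h
    have h1 := congrArg (fun z : (rhoU n F q).ker => z.1.1) h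
    haveI : Nonempty (Fin n) := ⟨⟨0, by omega⟩⟩
    exact Subtype.ext (CfsgLib.Semi27.scal_inj (1 : Matrix.GeneralLinearGroup (Fin n) F) (by rw [mul_one, mul_one]; exact h1))
  · rintro ⟨g, hg⟩
    obtain ⟨u, hu⟩ := (rhoU_ker hF hn g).1 hg
    have hu1 : u ^ (q + 1) = 1 := by
      rw [← scal_memU_iff (n := n) (by omega), ← hu]
      exact g.2
    exact ⟨⟨u, hu1⟩, Subtype.ext (Subtype.ext hu.symm)⟩

lemma card_rhoU_range (hF : Fintype.card F = q ^ 2) (hn : 3 ≤ n) : Nat.card (rhoU n F q).range = Nat.gcd n (q + 1) * Nat.card (Cfsg.PSU n F q) := by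
  have h1 : Nat.card (Cfsg.GU n F q) = Nat.card (rhoU n F q).range * (q + 1) := by
    rw [Subgroup.card_eq_card_quotient_mul_card_subgroup (rhoU n F q).ker, Nat.card_congr (QuotientGroup.quotientKerEquivRange (rhoU n F q)).toEquiv, card_ker_rhoU hF hn]
  have h2 := card_SU (n := n) hF (by omega)
  rw [← card_GU hF, h1, mul_comm] at h2
  have h3 := Nat.eq_of_mul_eq_mul_right (by omega : 0 < q + 1) h2
  have h4 := Subgroup.card_eq_card_quotient_mul_card_subgroup (Subgroup.center (Cfsg.SU n F q))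
  rw [card_center_SU hF (by omega)] at h4
  rw [← h3, h4, mul_comm]

lemma chiU_surj {χ : MulAut (Cfsg.PSU n F q) →* (F ≃+* F)} (hχ : ∀ α ρ, (∃ g, α = rhoU n F q g * phiU n F q ρ) ↔ χ α = ρ) : Function.Surjective χ :=
  fun ρ => ⟨phiU n F q ρ, (hχ _ _).1 ⟨1, by rw [map_one, one_mul]⟩⟩

lemma chiU_ker {χ : MulAut (Cfsg.PSU n F q) →* (F ≃+* F)} (hχ : ∀ α ρ, (∃ g, α = rhoU n F q g * phiU n F q ρ) ↔ χ α = ρ) (α : MulAut (Cfsg.PSU n F q)) :
    α ∈ (rhoU n F q).range ↔ χ α = 1 := by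
  rw [← hχ]
  constructor
  · rintro ⟨g, rfl⟩
    exact ⟨g, by rw [map_one, mul_one]⟩
  · rintro ⟨g, rfl⟩
    exact ⟨g, by rw [map_one, mul_one]⟩

theorem card_aut_psu (p f : ℕ) [Fact p.Prime] (hq : q = p ^ f) (hF : Fintype.card F = q ^ 2) (hn : 3 ≤ n) (h32 : ¬ (n = 3 ∧ q = 2)) :
    Nat.card (MulAut (Cfsg.PSU n F q)) = Nat.gcd n (q + 1) * (2 * f) * Nat.card (Cfsg.PSU n F q) := by
  obtain ⟨χ, hχ⟩ := exists_chiU (F := F) hF hn h32
  have h1 : χ.ker = (rhoU n F q).range := by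
    ext α
    rw [MonoidHom.mem_ker, chiU_ker hχ]
  have h2 := Subgroup.card_eq_card_quotient_mul_card_subgroup χ.ker
  have hcard : Nat.card F = p ^ (2 * f) := by rw [Nat.card_eq_fintype_card, hF, hq, ← pow_mul, mul_comm]
  rw [Nat.card_congr (QuotientGroup.quotientKerEquivOfSurjective χ (chiU_surj hχ)).toEquiv, h1, card_rhoU_range hF hn, (CfsgLib.AutPSL27.ringAut_cyclic p (2 * f) hcard).2] at h2
  rw [h2]; ring

theorem out_psu (p f : ℕ) [Fact p.Prime] (hq : q = p ^ f) (hF : Fintype.card F = q ^ 2) (hn : 3 ≤ n) (h32 : ¬ (n = 3 ∧ q = 2)) :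
    ∃ φ : Cfsg.Out (Cfsg.PSU n F q) →* Multiplicative (ZMod (2 * f)), Function.Surjective φ ∧ IsCyclic φ.ker ∧ Nat.card φ.ker = Nat.gcd n (q + 1) := by
  obtain ⟨χ, hχ⟩ := exists_chiU (F := F) hF hn h32
  have hcard : Nat.card F = p ^ (2 * f) := by rw [Nat.card_eq_fintype_card, hF, hq, ← pow_mul, mul_comm]
  obtain ⟨e⟩ := CfsgLib.AutPSL27.exists_ringAut_equiv (F := F) p (2 * f) hcard
  haveI : IsCyclic (N1 F q) := inferInstance
  obtain ⟨φ, h1, h2, h3⟩ := out_abs (rhoU n F q) (dU hF) (dU_surj hF (by omega)) (powMonoidHom n : N1 F q →* N1 F q).range (mem_innU_iff hF hn) innU_le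
    ((e : (F ≃+* F) →* Multiplicative (ZMod (2 * f))).comp χ) (e.surjective.comp (chiU_surj hχ)) (fun α => by
      rw [chiU_ker hχ, MonoidHom.comp_apply]
      exact (map_eq_one_iff e e.injective).symm)
  refine ⟨φ, h1, h2, ?_⟩
  rw [h3, IsCyclic.index_powMonoidHom_range, card_N1 hF, Nat.gcd_comm]

end

/-! ### field automorphisms of odd order -/

section Odd
variable {F : Type*} [Field F] [Fintype F] {q n : ℕ}

local notation "hh" => hermForm n F q
local notation "V" => (Fin n → F)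

open CfsgLib.Semi27 CfsgLib.H9027

lemma pow_odd_eq {K : Type*} [Field K] [Fintype K] {q0 : ℕ} (hK : Fintype.card K = q0 ^ 2) (x : K) {r : ℕ} (hr : Odd r) : x ^ (q0 ^ r) = x ^ q0 := by
  obtain ⟨k, rfl⟩ := hr
  induction k with
  | zero => rw [mul_zero, zero_add, pow_one]
  | succ k ih =>
    have h1 : q0 ^ (2 * (k + 1) + 1) = q0 ^ (2 * k + 1) * q0 ^ 2 := by ring
    rw [h1, pow_mul, ih, ← hK, FiniteField.pow_card]

/-- data for a field automorphism of odd order -/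
structure OddF (F : Type*) [Field F] [Fintype F] (q q0 r : ℕ) (σ : F ≃+* F) : Prop where
  hF : Fintype.card F = q ^ 2
  ho : orderOf σ = r
  odd : Odd r
  hq : q = q0 ^ r
  hK : Nat.card (fixF σ) = q0 ^ 2

variable {q0 r : ℕ} {σ : F ≃+* F}

lemma OddF.pos (H : OddF F q q0 r σ) : 0 < r := H.odd.pos

lemma exists_oddF {p f : ℕ} [Fact p.Prime] (hq : q = p ^ f) (hf : 1 ≤ f) (hF : Fintype.card F = q ^ 2) (ho : orderOf σ = r) (hr : Odd r) :
    r ∣ f ∧ OddF F q (p ^ (f / r)) r σ := by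
  have hcard : Nat.card F = p ^ (2 * f) := by rw [Nat.card_eq_fintype_card, hF, hq, ← pow_mul, mul_comm]
  obtain ⟨h1, h2⟩ := CfsgLib.AutPSL27.field_arith (F := F) hcard hr.pos σ ho
  have h3 : r ∣ f := (Nat.Coprime.dvd_mul_left (Nat.Coprime.symm (Nat.coprime_two_left.2 hr))).1 h1
  refine ⟨h3, hF, ho, hr, ?_, ?_⟩
  · rw [hq, ← pow_mul, Nat.div_mul_cancel h3]
  · rw [h2, ← pow_mul]
    congr 1
    obtain ⟨k, rfl⟩ := h3
    rw [Nat.mul_div_cancel_left _ hr.pos, ← mul_assoc, mul_comm 2 r, mul_assoc, Nat.mul_div_cancel_left _ hr.pos, mul_comm]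

lemma OddF.pow_eq (H : OddF F q q0 r σ) (x : F) (hx : σ x = x) : x ^ q = x ^ q0 := by
  letI : Fintype (fixF σ) := Fintype.ofFinite _
  have hK : Fintype.card (fixF σ) = q0 ^ 2 := by rw [← Nat.card_eq_fintype_card, H.hK]
  have := congrArg Subtype.val (pow_odd_eq hK (⟨x, hx⟩ : fixF σ) H.odd)
  rw [← H.hq] at this
  exact this

/-- norms from the fixed field -/
lemma OddF.norm (H : OddF F q q0 r σ) {N : F} (hN0 : N ≠ 0) (hN : σ N = N) (hNq : N ^ q = N) : ∃ s : F, s ≠ 0 ∧ σ s = s ∧ s ^ (q + 1) = N := by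
  letI : Fintype (fixF σ) := Fintype.ofFinite _
  have hK : Fintype.card (fixF σ) = q0 ^ 2 := by rw [← Nat.card_eq_fintype_card, H.hK]
  have h1 : (⟨N, hN⟩ : fixF σ) ^ q0 = ⟨N, hN⟩ := by
    apply Subtype.ext
    show N ^ q0 = N
    rw [← H.pow_eq N hN, hNq]
  have h2 := card_norm_fiber hK (⟨N, hN⟩ : fixF σ) (fun h => hN0 (congrArg Subtype.val h)) h1
  obtain ⟨s, hs⟩ : Nonempty {x : fixF σ // x ^ (q0 + 1) = ⟨N, hN⟩} := by
    apply Nat.card_pos_iff.1 (by rw [h2]; omega) |>.1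
  have hs' : (s : F) ^ (q0 + 1) = N := congrArg Subtype.val hs
  refine ⟨s, ?_, s.2, ?_⟩
  · intro h0
    rw [h0, zero_pow (by omega)] at hs'
    exact hN0 hs'.symm
  · rw [pow_succ, H.pow_eq s s.2, ← pow_succ, hs']

lemma herm_single (i : Fin n) : hermForm n F q (Pi.single i 1) (Pi.single i 1) = 1 := by
  unfold hermForm
  rw [Finset.sum_eq_single i]
  · simp
  · intro b _ hb; simp [hb]
  · intro h; exact absurd (Finset.mem_univ _) h

/-- inner-diagonal automorphisms commuting with a field automorphism -/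
theorem OddF.comm_iff (H : OddF F q q0 r σ) (hn : 3 ≤ n) (c : Cfsg.GU n F q) :
    rhoU n F q c * phiU n F q σ = phiU n F q σ * rhoU n F q c ↔
      ∃ (u : Fˣ) (g : Matrix.GeneralLinearGroup (Fin n) F), u ^ (q + 1) = 1 ∧ gm σ g = g ∧ g ∈ Cfsg.GU n F q ∧ c.1 = scal u * g := by
  haveI : Nonempty (Fin n) := ⟨⟨0, by omega⟩⟩
  have h0 := CfsgLib.Semi27.comm_iff (ρ := rhoU n F q) (φ := phiU n F q σ) (σ := σ) (fun g hg => gm_memU hg) (fun g => phiU_mul_rhoU σ g) (rhoU_ker H.hF hn) c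
  rw [h0]
  constructor
  · rintro ⟨u, g, hg, hc⟩
    obtain ⟨N, hN⟩ : ∃ N : F, N = (u : F) * (u : F) ^ q := ⟨_, rfl⟩
    have hN0 : N ≠ 0 := by rw [hN]; exact mul_ne_zero u.ne_zero (pow_ne_zero _ u.ne_zero)
    have hNq : N ^ q = N := by
      rw [hN, mul_pow, ← pow_mul]
      have : (u : F) ^ (q * q) = u := by rw [← sq, ← H.hF, FiniteField.pow_card]
      rw [this, mul_comm]
    have hform : ∀ x y : V, N * hh ((g : Matrix (Fin n) (Fin n) F) *ᵥ x) ((g : Matrix (Fin n) (Fin n) F) *ᵥ y) = hh x y := by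
      intro x y
      have h1 := mem_GU'.1 c.2 x y
      have hc' : c.1 = scal u * g := hc
      rw [hc', scal_mul_mulVec, scal_mul_mulVec] at h1
      rw [← h1, hN]
      unfold hermForm
      rw [Finset.mul_sum]
      refine Finset.sum_congr rfl fun i _ => ?_
      simp only [Pi.smul_apply, smul_eq_mul, mul_pow]; ring
    have hNσ : σ N = N := by
      obtain ⟨i0⟩ := (inferInstance : Nonempty (Fin n))
      have h1 := hform (Pi.single i0 1) (Pi.single i0 1)
      rw [herm_single] at h1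
      have h2 : σ (hh ((g : Matrix (Fin n) (Fin n) F) *ᵥ Pi.single i0 1) ((g : Matrix (Fin n) (Fin n) F) *ᵥ Pi.single i0 1)) =
          hh ((g : Matrix (Fin n) (Fin n) F) *ᵥ Pi.single i0 1) ((g : Matrix (Fin n) (Fin n) F) *ᵥ Pi.single i0 1) := by
        rw [← herm_comp, ← CfsgLib.Semi27.gm_mulVec, CfsgLib.Semi27.comp_single, ← CfsgLib.Semi27.coe_gm, hg]
      have h3 := congrArg σ h1
      rw [map_mul, h2, map_one] at h3
      have h4 : hh ((g : Matrix (Fin n) (Fin n) F) *ᵥ Pi.single i0 1) ((g : Matrix (Fin n) (Fin n) F) *ᵥ Pi.single i0 1) ≠ 0 := by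
        intro h5
        rw [h5, mul_zero] at h1
        exact zero_ne_one h1
      exact mul_right_cancel₀ h4 (h3.trans h1.symm)
    obtain ⟨s, hs0, hsσ, hsN⟩ := H.norm hN0 hNσ hNq
    obtain ⟨s', hs'⟩ : ∃ s' : Fˣ, (s' : F) = s := ⟨Units.mk0 s hs0, rfl⟩
    have hu' : (u * s'⁻¹) ^ (q + 1) = 1 := by
      apply Units.ext
      rw [mul_pow, inv_pow, Units.val_mul, Units.val_pow_eq_pow_val, Units.val_inv_eq_inv_val, Units.val_pow_eq_pow_val, Units.val_one, hs', hsN, pow_succ', ← hN, mul_inv_cancel₀ hN0]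
    have hg' : gm σ (scal s' * g) = scal s' * g := by
      rw [map_mul, hg, gm_scal]
      congr 2
      apply Units.ext
      show σ (s' : F) = s'
      rw [hs', hsσ]
    have hc' : c.1 = scal (u * s'⁻¹) * (scal s' * g) := by
      have hc'' : c.1 = scal u * g := hc
      rw [hc'', ← mul_assoc, ← scal_mul, inv_mul_cancel_right]
    refine ⟨u * s'⁻¹, scal s' * g, hu', hg', ?_, hc'⟩
    have : scal s' * g = (scal (u * s'⁻¹))⁻¹ * c.1 := by rw [hc', inv_mul_cancel_left]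
    rw [this]
    exact Subgroup.mul_mem _ (Subgroup.inv_mem _ (scal_memU _ hu')) c.2
  · rintro ⟨u, g, -, hg, -, hc⟩
    exact ⟨u, g, hg, hc⟩

/-- unitary matrices over a subfield -/
lemma map_memU {F₀ : Type*} [Field F₀] [Fintype F₀] (hF : Fintype.card F = q ^ 2) (hF₀ : Fintype.card F₀ = q0 ^ 2) (hq : q = q0 ^ r) (hr : Odd r) (j : F₀ →+* F)
    (g : Matrix.GeneralLinearGroup (Fin n) F₀) : Matrix.GeneralLinearGroup.map j g ∈ Cfsg.GU n F q ↔ g ∈ Cfsg.GU n F₀ q0 := by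
  obtain ⟨σ', hσ', hf'⟩ := hermForm_unitary (F := F) n hF
  obtain ⟨σ0, hσ0, hf0⟩ := hermForm_unitary (F := F₀) n hF₀
  rw [CfsgLib.AutPSL27.GU_eq hσ', CfsgLib.AutPSL27.GU_eq hσ0, CfsgLib.AutPSL27.mem_uni_iff, CfsgLib.AutPSL27.mem_uni_iff]
  have hj : ∀ x, σ' (j x) = j (σ0 x) := by
    intro x
    rw [hσ', hσ0, hq, ← map_pow, pow_odd_eq hF₀ x hr]
  have h1 : ((Matrix.GeneralLinearGroup.map j g : Matrix.GeneralLinearGroup (Fin n) F) : Matrix (Fin n) (Fin n) F)ᵀ *
      ((Matrix.GeneralLinearGroup.map j g : Matrix.GeneralLinearGroup (Fin n) F) : Matrix (Fin n) (Fin n) F).map σ' =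
      ((g : Matrix (Fin n) (Fin n) F₀)ᵀ * (g : Matrix (Fin n) (Fin n) F₀).map σ0).map j := by
    rw [Matrix.map_mul]
    congr 1
    ext a b
    exact hj _
  rw [h1]
  constructor
  · intro h
    apply Matrix.map_injective j.injective
    show ((g : Matrix (Fin n) (Fin n) F₀)ᵀ * (g : Matrix (Fin n) (Fin n) F₀).map σ0).map j = (1 : Matrix (Fin n) (Fin n) F₀).map j
    rw [h, Matrix.map_one _ (map_zero _) (map_one _)]
  · intro h
    rw [h, Matrix.map_one _ (map_zero _) (map_one _)]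

/-- centralizer of a field automorphism of odd order -/
theorem OddF.centralizer (H : OddF F q q0 r σ) (hn : 3 ≤ n) {F₀ : Type*} [Field F₀] [Fintype F₀] (hF₀ : Fintype.card F₀ = q0 ^ 2) :
    Nonempty (↥((rhoU n F q).range ⊓ Subgroup.centralizer {phiU n F q σ}) ≃* Cfsg.PGU n F₀ q0) := by
  haveI : Nonempty (Fin n) := ⟨⟨0, by omega⟩⟩
  obtain ⟨e⟩ := CfsgLib.AutPSL27.field_equiv (K := F₀) (L := fixF σ) (by
    rw [H.hK, Nat.card_eq_fintype_card, hF₀])
  let j : F₀ →+* F := (fixF σ).subtype.comp (e : F₀ →+* fixF σ)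
  have hj : Function.Injective j := j.injective
  have hjσ : ∀ a, σ (j a) = j a := fun a => (e a).2
  let J : GL (Fin n) F₀ →* GL (Fin n) F := Matrix.GeneralLinearGroup.map j
  have hJσ : ∀ g, gm σ (J g) = J g := by
    intro g
    apply Units.ext
    ext a b
    exact hjσ _
  have hJr : ∀ g : GL (Fin n) F, gm σ g = g → ∃ g₀, J g₀ = g := by
    intro g hg
    have hent : ∀ a b, σ ((g : Matrix (Fin n) (Fin n) F) a b) = (g : Matrix (Fin n) (Fin n) F) a b := by
      intro a b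
      exact congrArg (fun x : GL (Fin n) F => (x : Matrix (Fin n) (Fin n) F) a b) hg
    let M : Matrix (Fin n) (Fin n) F₀ := fun a b => e.symm ⟨(g : Matrix (Fin n) (Fin n) F) a b, hent a b⟩
    have hM : M.map j = (g : Matrix (Fin n) (Fin n) F) := by
      ext a b
      show j (e.symm _) = _
      show ((e (e.symm ⟨(g : Matrix (Fin n) (Fin n) F) a b, hent a b⟩) : fixF σ) : F) = _
      rw [RingEquiv.apply_symm_apply]
    have hdet : M.det ≠ 0 := by
      intro h
      have h1 : ((g : Matrix (Fin n) (Fin n) F)).det = 0 := by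
        rw [← hM]
        have := j.map_det M
        rw [h, map_zero] at this
        exact this.symm
      exact (Matrix.GeneralLinearGroup.det g).ne_zero h1
    refine ⟨Matrix.GeneralLinearGroup.mkOfDetNeZero M hdet, ?_⟩
    apply Units.ext
    exact hM
  have hΓ : ∀ g : GL (Fin n) F₀, J g ∈ Cfsg.GU n F q ↔ g ∈ Cfsg.GU n F₀ q0 := fun g => map_memU H.hF hF₀ H.hq H.odd j g
  let J' : Cfsg.GU n F₀ q0 →* Cfsg.GU n F q := (J.comp (Cfsg.GU n F₀ q0).subtype).codRestrict _ (fun g => (hΓ g).2 g.2)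
  let ψ : Cfsg.GU n F₀ q0 →* MulAut (Cfsg.PSU n F q) := (rhoU n F q).comp J'
  have hker' : ψ.ker = (Cfsg.Geo.scalars (Fin n) F₀).subgroupOf (Cfsg.GU n F₀ q0) := by
    ext g
    rw [MonoidHom.mem_ker, Subgroup.mem_subgroupOf]
    show rhoU n F q (J' g) = 1 ↔ _
    rw [rhoU_ker H.hF hn]
    show (∃ u : Fˣ, J (g : GL (Fin n) F₀) = scal u) ↔ _
    constructor
    · rintro ⟨u, hu⟩
      obtain ⟨i⟩ := (inferInstance : Nonempty (Fin n))
      have hent : ∀ a b, j (((g : GL (Fin n) F₀) : Matrix (Fin n) (Fin n) F₀) a b) = if a = b then (u : F) else 0 := by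
        intro a b
        have := congrArg (fun x : GL (Fin n) F => (x : Matrix (Fin n) (Fin n) F) a b) hu
        have h2 : ((scal u : GL (Fin n) F) : Matrix (Fin n) (Fin n) F) a b = if a = b then (u : F) else 0 := by
          show (Matrix.scalar (Fin n) (u : F)) a b = _
          rw [scalar_apply, diagonal_apply]
        rw [← h2]; exact this
      have hne : ((g : GL (Fin n) F₀) : Matrix (Fin n) (Fin n) F₀) i i ≠ 0 := by
        intro h
        have := hent i i
        rw [h, map_zero, if_pos rfl] at this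
        exact u.ne_zero this.symm
      refine ⟨Units.mk0 _ hne, ?_⟩
      apply Units.ext
      ext a b
      apply hj
      rw [hent]
      show j ((Matrix.scalar (Fin n) (((g : GL (Fin n) F₀) : Matrix (Fin n) (Fin n) F₀) i i)) a b) = _
      rw [scalar_apply, diagonal_apply]
      split_ifs
      · rw [hent, if_pos rfl]
      · exact map_zero j
    · rintro ⟨u, hu⟩
      refine ⟨Units.map (j : F₀ →* F) u, ?_⟩
      have hu' : Matrix.GeneralLinearGroup.scalar (Fin n) u = (g : GL (Fin n) F₀) := hu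
      rw [← hu']
      exact Matrix.GeneralLinearGroup.map_scalar _ _
  have hrange : ψ.range = (rhoU n F q).range ⊓ Subgroup.centralizer {phiU n F q σ} := by
    ext α
    constructor
    · rintro ⟨g, rfl⟩
      refine ⟨⟨J' g, rfl⟩, Subgroup.mem_centralizer_singleton_iff.2 ?_⟩
      exact (H.comm_iff hn (J' g)).2 ⟨1, J g, one_pow _, hJσ g, (J' g).2, by rw [scal_one, one_mul]; rfl⟩
    · rintro ⟨⟨c, rfl⟩, hc⟩
      have hc' := Subgroup.mem_centralizer_singleton_iff.1 hc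
      obtain ⟨u, g, hu, hg, hgU, hcu⟩ := (H.comm_iff hn c).1 hc'
      obtain ⟨g₀, rfl⟩ := hJr g hg
      refine ⟨⟨g₀, (hΓ g₀).1 hgU⟩, ?_⟩
      show rhoU n F q (J' ⟨g₀, (hΓ g₀).1 hgU⟩) = rhoU n F q c
      rw [rhoU_eq_iff H.hF hn]
      refine ⟨u⁻¹, ?_⟩
      have hcu' : (c : GL (Fin n) F) = scal u * J g₀ := hcu
      rw [hcu', ← mul_assoc, ← map_mul, inv_mul_cancel, map_one, one_mul]; rfl
  have e1 : (Cfsg.GU n F₀ q0 ⧸ ψ.ker) ≃* ψ.range := QuotientGroup.quotientKerEquivRange ψ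
  have e2 : Cfsg.PGU n F₀ q0 ≃* (Cfsg.GU n F₀ q0 ⧸ ψ.ker) := (QuotientGroup.quotientMulEquivOfEq hker').symm
  exact ⟨((e2.trans e1).trans (MulEquiv.subgroupCongr hrange)).symm⟩

end Odd

end Cfsg.Agent.H22
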