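import Cfsg.Agent.LibH22Exist
import Cfsg.Agent.LibH22Spin3

set_option autoImplicit false

/-! Reflections of one norm class (seat helper22). -/

namespace Cfsg.Agent.H22

open Module MulAction

section
variable {F V : Type*} [Field F] [Fintype F] [AddCommGroup V] [Module F V] [FiniteDimensional F V] {Q : QuadraticForm F V}

/-- three reflections in a plane -/
lemma three_refl (w w' : V) (hw : Q w ≠ 0) (hw' : Q w' ≠ 0) (a b : F) (hv : Q (a • w + b • w') ≠ 0)
    (hu : Q ((-(b * Q w')) • w + (a * Q w + b * QuadraticMap.polar Q w w') • w') ≠ 0) :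
    oRefl Q (a • w + b • w') hv * oRefl Q w hw * oRefl Q w' hw' = oRefl Q _ hu := by
  have hQv : Q (a • w + b • w') = a ^ 2 * Q w + a * b * QuadraticMap.polar Q w w' + b ^ 2 * Q w' := by
    rw [qadd, qsmul, qsmul, QuadraticMap.polar_smul_left, QuadraticMap.polar_smul_right, smul_eq_mul, smul_eq_mul]; ring
  have hQu : Q ((-(b * Q w')) • w + (a * Q w + b * QuadraticMap.polar Q w w') • w') = Q w * Q w' * (a ^ 2 * Q w + a * b * QuadraticMap.polar Q w w' + b ^ 2 * Q w') := by
    rw [qadd, qsmul, qsmul, QuadraticMap.polar_smul_left, QuadraticMap.polar_smul_right, smul_eq_mul, smul_eq_mul]; ring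
  apply og_ext
  intro z
  rw [og_mul_apply, og_mul_apply, oRefl_apply, oRefl_apply, oRefl_apply, oRefl_apply, hQu]
  obtain ⟨N, hN⟩ : ∃ N, N = a ^ 2 * Q w + a * b * QuadraticMap.polar Q w w' + b ^ 2 * Q w' := ⟨_, rfl⟩
  rw [hQv] at hv ⊢
  rw [← hN] at hv ⊢
  have hpw : QuadraticMap.polar Q w w = 2 * Q w := pself Q w
  have hpw' : QuadraticMap.polar Q w' w' = 2 * Q w' := pself Q w'
  have hc : QuadraticMap.polar Q w' w = QuadraticMap.polar Q w w' := QuadraticMap.polar_comm Q w' w
  simp only [QuadraticMap.polar_sub_right, QuadraticMap.polar_smul_right, QuadraticMap.polar_add_left, QuadraticMap.polar_smul_left, smul_eq_mul, hpw, hpw', hc]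
  generalize QuadraticMap.polar Q w z = α
  generalize QuadraticMap.polar Q w' z = β
  generalize QuadraticMap.polar Q w w' = t at *
  generalize Q w = x at *
  generalize Q w' = y at *
  clear hQu hQv hu
  match_scalars <;> field_simp <;> rw [hN] <;> ring

/-- reflections of norm class `c` -/
def SC (Q : QuadraticForm F V) (c : F) : Set (OGrp Q) := {g | ∃ (v : V) (hv : Q v ≠ 0) (t : F), Q v = c * t ^ 2 ∧ g = oRefl Q v hv}

variable {c : F}

lemma SC_conj (g s : OGrp Q) (hs : s ∈ SC Q c) : g * s * g⁻¹ ∈ SC Q c := by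
  obtain ⟨v, hv, t, ht, rfl⟩ := hs
  have hgv : Q (g.1 v) ≠ 0 := by rw [og_Q]; exact hv
  exact ⟨g.1 v, hgv, t, by rw [og_Q]; exact ht, conj_oRefl g v _ hv hgv rfl⟩

lemma HC_normal : (Subgroup.closure (SC Q c)).Normal := by
  constructor
  intro s hs g
  induction hs using Subgroup.closure_induction with
  | mem x hx => exact Subgroup.subset_closure (SC_conj g x hx)
  | one => rw [mul_one, mul_inv_cancel]; exact Subgroup.one_mem _
  | mul x y _ _ hx hy =>
    have : g * (x * y) * g⁻¹ = (g * x * g⁻¹) * (g * y * g⁻¹) := by group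
    rw [this]; exact Subgroup.mul_mem _ hx hy
  | inv x _ hx =>
    have : g * x⁻¹ * g⁻¹ = (g * x * g⁻¹)⁻¹ := by group
    rw [this]; exact Subgroup.inv_mem _ hx

/-- product of two reflections of norm `d` spanning a nondegenerate plane -/
lemma pair_mem (h2 : (2 : F) ≠ 0) (hc : c ≠ 0) (w w' : V) (d : F) (hd : d ≠ 0) (hw : Q w = d) (hw' : Q w' = d)
    (ht : 4 * d ^ 2 ≠ (QuadraticMap.polar Q w w') ^ 2) (h1 : Q w ≠ 0) (h1' : Q w' ≠ 0) :
    oRefl Q w h1 * oRefl Q w' h1' ∈ Subgroup.closure (SC Q c) := by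
  obtain ⟨t, htt⟩ : ∃ t, t = QuadraticMap.polar Q w w' := ⟨_, rfl⟩
  have h4 : (4 : F) ≠ 0 := by
    have : (4 : F) = 2 * 2 := by norm_num
    rw [this]; exact mul_ne_zero h2 h2
  have hβ : d - t ^ 2 / (4 * d) ≠ 0 := by
    intro h
    apply ht
    rw [← htt]
    have h5 : t ^ 2 / (4 * d) = d := (sub_eq_zero.1 h).symm
    rw [div_eq_iff (mul_ne_zero h4 hd)] at h5
    rw [h5]; ring
  obtain ⟨a', b, hab⟩ := exists_binary h2 d (d - t ^ 2 / (4 * d)) c hd hβ
  obtain ⟨a, ha⟩ : ∃ a, a = a' - b * t / (2 * d) := ⟨_, rfl⟩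
  have hQ1 : Q (a • w + b • w') = c := by
    rw [qadd, qsmul, qsmul, QuadraticMap.polar_smul_left, QuadraticMap.polar_smul_right, smul_eq_mul, smul_eq_mul, ← htt, hw, hw', ← hab, ha]
    field_simp
    ring
  have hv : Q (a • w + b • w') ≠ 0 := by rw [hQ1]; exact hc
  have hQu : Q ((-(b * Q w')) • w + (a * Q w + b * QuadraticMap.polar Q w w') • w') = c * d ^ 2 := by
    have : Q ((-(b * Q w')) • w + (a * Q w + b * QuadraticMap.polar Q w w') • w') = Q w * Q w' * Q (a • w + b • w') := by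
      rw [qadd, qsmul, qsmul, QuadraticMap.polar_smul_left, QuadraticMap.polar_smul_right, smul_eq_mul, smul_eq_mul]
      rw [qadd Q (a • w), qsmul, qsmul, QuadraticMap.polar_smul_left, QuadraticMap.polar_smul_right, smul_eq_mul, smul_eq_mul]
      ring
    rw [this, hw, hw', hQ1]; ring
  have hu : Q ((-(b * Q w')) • w + (a * Q w + b * QuadraticMap.polar Q w w') • w') ≠ 0 := by
    rw [hQu]; exact mul_ne_zero hc (pow_ne_zero _ hd)
  have h3 := three_refl w w' h1 h1' a b hv hu
  have h5 : oRefl Q w h1 * oRefl Q w' h1' = oRefl Q (a • w + b • w') hv * oRefl Q _ hu := by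
    rw [← h3, ← mul_assoc, ← mul_assoc, oRefl_mul_self, one_mul]
  rw [h5]
  apply Subgroup.mul_mem
  · exact Subgroup.subset_closure ⟨_, hv, 1, by rw [hQ1]; ring, rfl⟩
  · exact Subgroup.subset_closure ⟨_, hu, d, hQu, rfl⟩

/-- connecting vector -/
lemma exists_conn (h2 : (2 : F) ≠ 0) (hQ : (QuadraticMap.polarBilin Q).Nondegenerate) (d : F) (hd : d ≠ 0) (w s : V) (hw : Q w = d) (hs : Q s = 0)
    (hws : QuadraticMap.polar Q w s = 0) (hs0 : s ≠ 0) (h : 5 ≤ Fintype.card F ∨ 6 ≤ finrank F V) :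
    ∃ z, Q z = d ∧ QuadraticMap.polar Q w z = 0 ∧ (QuadraticMap.polar Q s z) ^ 2 ≠ 4 * d ^ 2 := by
  classical
  have h4 : (4 : F) ≠ 0 := by
    have : (4 : F) = 2 * 2 := by norm_num
    rw [this]; exact mul_ne_zero h2 h2
  rcases h with h | h
  · -- partner orthogonal to `w`
    obtain ⟨s', hs1, hs2, hs3⟩ := exists_partner hQ (Submodule.span F {w}) s (by
      intro hmem
      obtain ⟨k, hk⟩ := Submodule.mem_span_singleton.1 hmem
      rw [← hk, qsmul, hw] at hs
      have hk0 : k = 0 := by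
        rcases mul_eq_zero.1 hs with h5 | h5
        · exact mul_self_eq_zero.1 h5
        · exact absurd h5 hd
      rw [hk0, zero_smul] at hk
      exact hs0 hk.symm) (by
      intro z hz
      obtain ⟨k, rfl⟩ := Submodule.mem_span_singleton.1 hz
      rw [QuadraticMap.polar_smul_left, hws, smul_zero]) hs
    have hws' : QuadraticMap.polar Q w s' = 0 := hs1 w (Submodule.mem_span_singleton_self w)
    obtain ⟨β, hβ⟩ : ∃ β : F, β ∉ ({0, 2 * d, -(2 * d)} : Finset F) := by
      by_contra hcon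
      push Not at hcon
      have h5 : (Finset.univ : Finset F) ⊆ {0, 2 * d, -(2 * d)} := fun x _ => hcon x
      have h6 := Finset.card_le_card h5
      have h7 : ({0, 2 * d, -(2 * d)} : Finset F).card ≤ 3 := Finset.card_le_three
      rw [Finset.card_univ] at h6
      omega
    simp only [Finset.mem_insert, Finset.mem_singleton, not_or] at hβ
    obtain ⟨hβ0, hβ1, hβ2⟩ := hβ
    refine ⟨(d / β) • s + β • s', ?_, ?_, ?_⟩
    · rw [qadd, qsmul, qsmul, hs, hs3, QuadraticMap.polar_smul_left, QuadraticMap.polar_smul_right, hs2, smul_eq_mul, smul_eq_mul]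
      field_simp
      ring
    · rw [QuadraticMap.polar_add_right, QuadraticMap.polar_smul_right, QuadraticMap.polar_smul_right, hws, hws', smul_zero, smul_zero, add_zero]
    · rw [QuadraticMap.polar_add_right, QuadraticMap.polar_smul_right, QuadraticMap.polar_smul_right, pself, hs, hs2, mul_zero, smul_zero, zero_add, smul_eq_mul, mul_one]
      intro h5
      have h6 : (β - 2 * d) * (β + 2 * d) = 0 := by linear_combination h5
      rcases mul_eq_zero.1 h6 with h7 | h7
      · exact hβ1 (sub_eq_zero.1 h7)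
      · exact hβ2 (eq_neg_of_add_eq_zero_left h7)
  · obtain ⟨s', hs1, hs2, hs3⟩ := exists_partner hQ (Submodule.span F {w}) s (by
      intro hmem
      obtain ⟨k, hk⟩ := Submodule.mem_span_singleton.1 hmem
      rw [← hk, qsmul, hw] at hs
      have hk0 : k = 0 := by
        rcases mul_eq_zero.1 hs with h5 | h5
        · exact mul_self_eq_zero.1 h5
        · exact absurd h5 hd
      rw [hk0, zero_smul] at hk
      exact hs0 hk.symm) (by
      intro z hz
      obtain ⟨k, rfl⟩ := Submodule.mem_span_singleton.1 hz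
      rw [QuadraticMap.polar_smul_left, hws, smul_zero]) hs
    have hws' : QuadraticMap.polar Q w s' = 0 := hs1 w (Submodule.mem_span_singleton_self w)
    have hp : HP Q s s' := ⟨hs, hs3, hs2⟩
    have hnd := hp.nondeg hQ
    have hr := hp.finrank_eq
    obtain ⟨e1, he10, he1⟩ := exists_singular hnd (by omega)
    obtain ⟨f1, hf1⟩ := exists_HP_of_singular hnd e1 he10 he1
    have hr1 := hf1.finrank_eq
    have hnd1 := hf1.nondeg hnd
    obtain ⟨y0, hy0⟩ := exists_norm_odd h2 hnd1 (by omega) d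
    rw [qres_apply] at hy0
    have hwm : w ∈ perp2 Q s s' := ⟨by rw [QuadraticMap.polar_comm]; exact hws, by rw [QuadraticMap.polar_comm]; exact hws'⟩
    have hQw0 : qres Q (perp2 Q s s') (e1 + d • f1) = d := by
      rw [qadd, qsmul, hf1.1, hf1.2.1, QuadraticMap.polar_smul_right, hf1.2.2]
      simp
    have hQw1 : qres Q (perp2 Q s s') ⟨w, hwm⟩ = d := hw
    obtain ⟨g, hg⟩ := witt_one hnd (e1 + d • f1) ⟨w, hwm⟩ (ne_zero_of_Q (Q := qres Q (perp2 Q s s')) (by rw [hQw0]; exact hd))
      (ne_zero_of_Q (Q := qres Q (perp2 Q s s')) (by rw [hQw1]; exact hd)) (by rw [hQw0, hQw1])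
    have hy1 : QuadraticMap.polar (qres Q (perp2 Q s s')) (e1 + d • f1) (y0 : perp2 Q s s') = 0 := by
      rw [QuadraticMap.polar_add_left, QuadraticMap.polar_smul_left, y0.2.1, y0.2.2, smul_zero, add_zero]
    refine ⟨(g.1 (y0 : perp2 Q s s') : perp2 Q s s'), ?_, ?_, ?_⟩
    · have := og_Q g (y0 : perp2 Q s s')
      rw [hy0] at this
      exact this
    · have := og_polar g (e1 + d • f1) (y0 : perp2 Q s s')
      rw [hy1, hg] at this
      exact this
    · rw [(g.1 (y0 : perp2 Q s s')).2.1]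
      intro h5
      have : (4 : F) * d ^ 2 = 0 := by rw [← h5]; ring
      exact mul_ne_zero h4 (pow_ne_zero _ hd) this

/-- product of two reflections of norm class `d` -/
lemma pair_mem' (h2 : (2 : F) ≠ 0) (hQ : (QuadraticMap.polarBilin Q).Nondegenerate) (hc : c ≠ 0) (h : 5 ≤ Fintype.card F ∨ 6 ≤ finrank F V ∨ finrank F V ≤ 2)
    (w w' : V) (t : F) (hw : Q w ≠ 0) (hw' : Q w' ≠ 0) (ht : Q w' = t ^ 2 * Q w) :
    oRefl Q w hw * oRefl Q w' hw' ∈ Subgroup.closure (SC Q c) := by
  have ht0 : t ≠ 0 := by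
    rintro rfl
    apply hw'
    rw [ht]; ring
  obtain ⟨d, hd⟩ : ∃ d, d = Q w := ⟨_, rfl⟩
  have hd0 : d ≠ 0 := by rw [hd]; exact hw
  have main : ∀ (w'' : V) (hw'' : Q w'' ≠ 0), Q w'' = d → 2 * d = QuadraticMap.polar Q w w'' → oRefl Q w hw * oRefl Q w'' hw'' ∈ Subgroup.closure (SC Q c) := by
    intro w'' hw'' hd'' hpol
    obtain ⟨s, hs⟩ : ∃ s, s = w'' - w := ⟨_, rfl⟩
    have hws'' : w'' = w + s := by rw [hs]; abel
    have hQs : Q s = 0 := by rw [hs, qsub, hd'', ← hd, QuadraticMap.polar_comm, ← hpol]; ring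
    have hws : QuadraticMap.polar Q w s = 0 := by rw [hs, QuadraticMap.polar_sub_right, pself, ← hpol, ← hd]; ring
    by_cases hs0 : s = 0
    · have h5 : w'' = w := by rw [hws'', hs0, add_zero]
      subst h5
      rw [oRefl_mul_self]; exact Subgroup.one_mem _
    have h6 : 5 ≤ Fintype.card F ∨ 6 ≤ finrank F V := by
      rcases h with h | h | h
      · exact Or.inl h
      · exact Or.inr h
      · exfalso
        -- w, s independent, orthogonal complement
        obtain ⟨s', hs1, hs2, hs3⟩ := exists_partner hQ (Submodule.span F {w}) s (by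
          intro hmem
          obtain ⟨k, hk⟩ := Submodule.mem_span_singleton.1 hmem
          rw [← hk, qsmul, ← hd] at hQs
          have hk0 : k = 0 := by
            rcases mul_eq_zero.1 hQs with h5 | h5
            · exact mul_self_eq_zero.1 h5
            · exact absurd h5 hd0
          rw [hk0, zero_smul] at hk
          exact hs0 hk.symm) (by
          intro z hz
          obtain ⟨k, rfl⟩ := Submodule.mem_span_singleton.1 hz
          rw [QuadraticMap.polar_smul_left, hws, smul_zero]) hQs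
        have hws' : QuadraticMap.polar Q w s' = 0 := hs1 w (Submodule.mem_span_singleton_self w)
        have hp : HP Q s s' := ⟨hQs, hs3, hs2⟩
        have hr := hp.finrank_eq
        have h7 : finrank F (perp2 Q s s') = 0 := by omega
        have h8 : (⟨w, ⟨by rw [QuadraticMap.polar_comm]; exact hws, by rw [QuadraticMap.polar_comm]; exact hws'⟩⟩ : perp2 Q s s') = 0 := by
          haveI := Module.finrank_zero_iff.1 h7
          exact Subsingleton.elim _ _
        have h9 : w = 0 := congrArg Subtype.val h8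
        apply hw
        rw [h9]; exact QuadraticMap.map_zero Q
    obtain ⟨z, hz1, hz2, hz3⟩ := exists_conn h2 hQ d hd0 w s hd.symm hQs hws hs0 h6
    have hz : Q z ≠ 0 := by rw [hz1]; exact hd0
    have h4 : (4 : F) ≠ 0 := by
      have : (4 : F) = 2 * 2 := by norm_num
      rw [this]; exact mul_ne_zero h2 h2
    have e1 := pair_mem (c := c) h2 hc w z d hd0 hd.symm hz1 (by
      rw [hz2]
      intro h5
      apply mul_ne_zero h4 (pow_ne_zero 2 hd0)
      rw [h5]; ring) hw hz
    have e2 := pair_mem (c := c) h2 hc z w'' d hd0 hz1 hd'' (by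
      rw [hws'', QuadraticMap.polar_add_right, QuadraticMap.polar_comm Q z w, hz2, zero_add, QuadraticMap.polar_comm Q z s]
      exact fun h => hz3 h.symm) hz hw''
    have e3 : oRefl Q w hw * oRefl Q w'' hw'' = (oRefl Q w hw * oRefl Q z hz) * (oRefl Q z hz * oRefl Q w'' hw'') := by
      rw [mul_assoc, ← mul_assoc (oRefl Q z hz), oRefl_mul_self, one_mul]
    rw [e3]
    exact Subgroup.mul_mem _ e1 e2
  -- rescale
  have hsc : Q (t⁻¹ • w') = d := by
    rw [qsmul, ht, ← hd]
    field_simp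
  have hsc0 : Q (t⁻¹ • w') ≠ 0 := by rw [hsc]; exact hd0
  rw [← oRefl_smul t⁻¹ w' hw' hsc0]
  obtain ⟨w'', hw''⟩ : ∃ w'', w'' = t⁻¹ • w' := ⟨_, rfl⟩
  revert hsc0 hsc
  rw [← hw'']
  intro hsc hsc0
  by_cases h5 : 4 * d ^ 2 = (QuadraticMap.polar Q w w'') ^ 2
  · have h6 : (2 * d - QuadraticMap.polar Q w w'') * (2 * d + QuadraticMap.polar Q w w'') = 0 := by linear_combination h5
    rcases mul_eq_zero.1 h6 with h7 | h7
    · exact main w'' hsc0 hsc (sub_eq_zero.1 h7)
    · have hn : Q ((-1 : F) • w'') ≠ 0 := by rw [qsmul]; simpa using hsc0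
      have h8 := main ((-1 : F) • w'') hn (by rw [qsmul, hsc]; ring) (by rw [QuadraticMap.polar_smul_right, smul_eq_mul]; linear_combination h7)
      rwa [oRefl_smul (-1) w'' hsc0 hn] at h8
  · exact pair_mem h2 hc w w'' d hd0 hd.symm hsc h5 hw hsc0

/-- the index-two theorem -/
theorem closure_SC_index (h2 : (2 : F) ≠ 0) (hQ : (QuadraticMap.polarBilin Q).Nondegenerate) (hc : c ≠ 0) (hn : 2 ≤ finrank F V)
    (h : 5 ≤ Fintype.card F ∨ 6 ≤ finrank F V ∨ finrank F V ≤ 2) : (Subgroup.closure (SC Q c)).index = 2 := by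
  classical
  have hF := exists_ne_one_of_odd h2
  -- a vector in the class and one outside
  obtain ⟨v0, hv0⟩ := exists_norm_odd h2 hQ hn c
  obtain ⟨ν, hν⟩ : ∃ ν : F, ¬ IsSquare ν := FiniteField.exists_nonsquare (ringChar_ne_two h2)
  have hν0 : ν ≠ 0 := by rintro rfl; exact hν IsSquare.zero
  obtain ⟨w0, hw0⟩ := exists_norm_odd h2 hQ hn (ν * c)
  have hv0' : Q v0 ≠ 0 := by rw [hv0]; exact hc
  have hw0' : Q w0 ≠ 0 := by rw [hw0]; exact mul_ne_zero hν0 hc
  have hwv : ¬ IsSquare (Q w0 / Q v0) := by rw [hw0, hv0, mul_div_assoc, div_self hc, mul_one]; exact hν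
  -- the character
  obtain ⟨χ, hχc, hχw⟩ : ∃ χ : OGrp Q →* ℤˣ, (∀ s ∈ SC Q c, χ s = 1) ∧ χ (oRefl Q w0 hw0') = -1 := by
    have hs := sgn_two_refl h2 hQ hn
    have hcl : ∀ (v : V) (hv : Q v ≠ 0) (t : F), Q v = c * t ^ 2 → sgnC Q 1 (oRefl Q v hv) = sgnC Q 1 (oRefl Q v0 hv0') := by
      intro v hv t ht
      have h1 := (hs v v0 hv hv0').1 ⟨t, by rw [ht, hv0, mul_comm c, mul_div_assoc, div_self hc]; ring⟩
      have h3 := Int.units_mul_self (sgnC Q 1 (oRefl Q v0 hv0'))
      exact mul_right_cancel (h1.trans h3.symm)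
    have hw := (hs w0 v0 hw0' hv0').2 hwv
    rcases Int.units_eq_one_or (sgnC Q 1 (oRefl Q v0 hv0')) with h1 | h1
    · refine ⟨sgnC Q 1, ?_, ?_⟩
      · rintro _ ⟨v, hv, t, ht, rfl⟩
        rw [hcl v hv t ht, h1]
      · rw [h1, mul_one] at hw; exact hw
    · refine ⟨sgnC Q 1 * par hQ (Or.inl hF), ?_, ?_⟩
      · rintro _ ⟨v, hv, t, ht, rfl⟩
        rw [MonoidHom.mul_apply, hcl v hv t ht, h1, par_refl]; rfl
      · rw [h1] at hw
        have h3 : sgnC Q 1 (oRefl Q w0 hw0') = 1 := by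
          rw [mul_neg, mul_one] at hw
          exact neg_injective hw
        rw [MonoidHom.mul_apply, h3, par_refl]; rfl
  have hle : Subgroup.closure (SC Q c) ≤ χ.ker := by
    rw [Subgroup.closure_le]
    exact fun s hs => hχc s hs
  have hdec : ∀ g : OGrp Q, g ∈ Subgroup.closure (SC Q c) ∨ g * oRefl Q w0 hw0' ∈ Subgroup.closure (SC Q c) := by
    intro g
    have hg : g ∈ Subgroup.closure {g : OGrp Q | ∃ v, ∃ hv : Q v ≠ 0, g = oRefl Q v hv} := by
      rw [closure_oRefl hQ (Or.inl hF)]; trivial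
    have hstep : ∀ (v : V) (hv : Q v ≠ 0) (y : OGrp Q), (y ∈ Subgroup.closure (SC Q c) ∨ y * oRefl Q w0 hw0' ∈ Subgroup.closure (SC Q c)) →
        (oRefl Q v hv * y ∈ Subgroup.closure (SC Q c) ∨ oRefl Q v hv * y * oRefl Q w0 hw0' ∈ Subgroup.closure (SC Q c)) := by
      intro v hv y hy
      by_cases hsq : IsSquare (Q v / c)
      · obtain ⟨t, ht⟩ := hsq
        have hm : oRefl Q v hv ∈ Subgroup.closure (SC Q c) := Subgroup.subset_closure ⟨v, hv, t, by rw [pow_two, ← ht, mul_div_cancel₀ _ hc], rfl⟩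
        rcases hy with hy | hy
        · exact Or.inl (Subgroup.mul_mem _ hm hy)
        · right
          rw [mul_assoc]
          exact Subgroup.mul_mem _ hm hy
      · have hsq2 : IsSquare (Q v / Q w0) := by
          have : Q v / Q w0 = (Q v / c) / ν := by rw [hw0]; field_simp
          rw [this]
          exact isSquare_div_of_not h2 _ _ (div_ne_zero hv hc) hν0 hsq hν
        obtain ⟨t, ht⟩ := hsq2
        have hp := pair_mem' (c := c) h2 hQ hc h w0 v t hw0' hv (by rw [pow_two, ← ht, div_mul_cancel₀ _ hw0'])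
        have hN := HC_normal (Q := Q) (c := c)
        have e1 : oRefl Q v hv = (oRefl Q w0 hw0' * oRefl Q v hv)⁻¹ * oRefl Q w0 hw0' := by
          rw [mul_inv_rev, oRefl_inv, oRefl_inv, mul_assoc, oRefl_mul_self, mul_one]
        rcases hy with hy | hy
        · right
          have e2 : oRefl Q v hv * y * oRefl Q w0 hw0' = (oRefl Q w0 hw0' * oRefl Q v hv)⁻¹ * (oRefl Q w0 hw0' * y * (oRefl Q w0 hw0')⁻¹) := by
            rw [mul_inv_rev, oRefl_inv v hv]
            have e3 : oRefl Q v hv * (oRefl Q w0 hw0')⁻¹ * (oRefl Q w0 hw0' * y * (oRefl Q w0 hw0')⁻¹) = oRefl Q v hv * y * (oRefl Q w0 hw0')⁻¹ := by group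
            rw [e3, oRefl_inv]
          rw [e2]
          exact Subgroup.mul_mem _ (Subgroup.inv_mem _ hp) (hN.conj_mem _ hy _)
        · left
          have e2 : oRefl Q v hv * y = (oRefl Q w0 hw0' * oRefl Q v hv)⁻¹ * (oRefl Q w0 hw0' * (y * oRefl Q w0 hw0') * (oRefl Q w0 hw0')⁻¹) := by
            nth_rw 1 [e1]
            group
          rw [e2]
          exact Subgroup.mul_mem _ (Subgroup.inv_mem _ hp) (hN.conj_mem _ hy _)
    induction hg using Subgroup.closure_induction_left with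
    | one => left; exact Subgroup.one_mem _
    | mul_left x hx y hy hih =>
      obtain ⟨v, hv, rfl⟩ := hx
      exact hstep v hv y hih
    | inv_mul_cancel x hx y hy hih =>
      obtain ⟨v, hv, rfl⟩ := hx
      rw [oRefl_inv]
      exact hstep v hv y hih
  have heq : Subgroup.closure (SC Q c) = χ.ker := by
    apply le_antisymm hle
    intro g hg
    rcases hdec g with h1 | h1
    · exact h1
    · exfalso
      have h3 := hle h1
      rw [MonoidHom.mem_ker] at h3 hg
      rw [map_mul, hg, one_mul, hχw] at h3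
      exact absurd h3 (by decide)
  rw [heq]
  exact hom_index_two χ _ hχw

end

end Cfsg.Agent.H22
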