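import Cfsg.Agent.LibH22Cv7

set_option autoImplicit false

/-! Abstract decompositions of outer automorphism groups. -/

namespace Cfsg.Agent.H22.Cw

/-- a cyclic group of order `f` -/
theorem cyc_iso {G : Type*} [Group G] [IsCyclic G] {f : ℕ} (hf : 1 ≤ f) (h : Nat.card G = f) : Nonempty (G ≃* Multiplicative (ZMod f)) := by
  subst h
  exact ⟨(zmodCyclicMulEquiv (G := G) inferInstance).symm⟩

/-- the direct product with a central subgroup -/
theorem prod_iso {O : Type*} [Group O] [Finite O] (A C : Subgroup O) (hc : ∀ a ∈ A, ∀ c ∈ C, a * c = c * a)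
    (hdec : ∀ o : O, ∃ a ∈ A, ∃ c ∈ C, o = a * c) (hcard : Nat.card A * Nat.card C ≤ Nat.card O) : Nonempty (O ≃* ↥A × ↥C) := by
  let φ : ↥A × ↥C →* O := MonoidHom.noncommCoprod A.subtype C.subtype (fun a c => hc a a.2 c c.2)
  have hs : Function.Surjective φ := by
    intro o
    obtain ⟨a, ha, c, hc', rfl⟩ := hdec o
    exact ⟨(⟨a, ha⟩, ⟨c, hc'⟩), rfl⟩
  have hb : Function.Bijective φ := hs.bijective_of_nat_card_le (by rw [Nat.card_prod]; exact hcard)
  exact ⟨(MulEquiv.ofBijective φ hb).symm⟩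

/-- the decomposition of the outer automorphism group in the case of triality and odd characteristic -/
theorem lemX {O : Type*} [Group O] [Finite O] (V C Φ : Subgroup O) [V.Normal] (hVc : ∀ a ∈ V, ∀ b ∈ V, a * b = b * a)
    (hV : Nat.card V ≤ 4) (hC : Nat.card C ≤ 6) (hfaith : ∀ c ∈ C, (∀ v ∈ V, c * v = v * c) → c = 1)
    (hΦ : Φ ≤ Subgroup.center O) {f : ℕ} (hf : 1 ≤ f) (hΦc : Nat.card Φ ≤ f) (hO : Nat.card O = 24 * f)
    (hdec : ∀ o : O, ∃ v ∈ V, ∃ c ∈ C, ∃ φ ∈ Φ, o = v * c * φ) [IsCyclic Φ] :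
    Nonempty (O ≃* Equiv.Perm (Fin 4) × Multiplicative (ZMod f)) := by
  classical
  -- orders
  have hs1 : Function.Surjective (fun q : (↥V × ↥C) × ↥Φ => (q.1.1 : O) * q.1.2 * q.2) := by
    intro o
    obtain ⟨v, hv, c, hc, φ, hφ, rfl⟩ := hdec o
    exact ⟨((⟨v, hv⟩, ⟨c, hc⟩), ⟨φ, hφ⟩), rfl⟩
  have h1 := Nat.card_le_card_of_surjective _ hs1
  rw [Nat.card_prod, Nat.card_prod, hO] at h1
  have hV0 : 0 < Nat.card V := Nat.card_pos
  have hC0 : 0 < Nat.card C := Nat.card_pos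
  have hΦ0 : 0 < Nat.card Φ := Nat.card_pos
  have hVC : Nat.card V * Nat.card C ≤ 24 := Nat.mul_le_mul hV hC
  have hΦf : Nat.card Φ = f := by
    apply le_antisymm hΦc
    have h3 : 24 * f ≤ 24 * Nat.card Φ := h1.trans (Nat.mul_le_mul_right _ hVC)
    omega
  rw [hΦf] at h1
  have h24 : Nat.card V * Nat.card C = 24 := le_antisymm hVC (Nat.le_of_mul_le_mul_right h1 (by omega))
  have hC6 : Nat.card C = 6 := by
    apply le_antisymm hC
    have : 24 ≤ 4 * Nat.card C := by rw [← h24]; exact Nat.mul_le_mul_right _ hV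
    omega
  have hV4 : Nat.card V = 4 := by rw [hC6] at h24; omega
  -- the complement
  let E : Subgroup O := V ⊔ C
  have hE : ∀ x ∈ E, ∃ v ∈ V, ∃ c ∈ C, x = v * c := by
    intro x hx
    rw [Subgroup.mem_sup_of_normal_left] at hx
    obtain ⟨v, hv, c, hc, h⟩ := hx
    exact ⟨v, hv, c, hc, h.symm⟩
  have hs2 : Function.Surjective (fun q : ↥V × ↥C => (⟨(q.1 : O) * q.2, Subgroup.mul_mem_sup q.1.2 q.2.2⟩ : ↥E)) := by
    rintro ⟨x, hx⟩
    obtain ⟨v, hv, c, hc, rfl⟩ := hE x hx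
    exact ⟨(⟨v, hv⟩, ⟨c, hc⟩), rfl⟩
  have hE24 : Nat.card E ≤ 24 := by
    have := Nat.card_le_card_of_surjective _ hs2
    rwa [Nat.card_prod, h24] at this
  obtain ⟨e1⟩ := prod_iso E Φ (fun a _ c hc => (Subgroup.mem_center_iff.1 (hΦ hc) a)) (by
    intro o
    obtain ⟨v, hv, c, hc, φ, hφ, rfl⟩ := hdec o
    exact ⟨v * c, Subgroup.mul_mem_sup hv hc, φ, hφ, rfl⟩) (by rw [hO, hΦf]; exact Nat.mul_le_mul_right _ hE24)
  have hE' : Nat.card E = 24 := by
    have h5 := Nat.card_congr e1.toEquiv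
    rw [Nat.card_prod, hΦf, hO] at h5
    exact (Nat.eq_of_mul_eq_mul_right (by omega) h5).symm
  -- the action on the cosets
  let C' : Subgroup ↥E := C.subgroupOf E
  have hC' : Nat.card C' = 6 := by
    rw [← hC6]
    exact Nat.card_congr (Subgroup.subgroupOfEquivOfLe (le_sup_right : C ≤ E)).toEquiv
  have hidx : Nat.card (↥E ⧸ C') = 4 := by
    have := Subgroup.card_eq_card_quotient_mul_card_subgroup C'
    rw [hE', hC'] at this
    omega
  have hker : (MulAction.toPermHom ↥E (↥E ⧸ C')).ker = ⊥ := by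
    rw [← Subgroup.normalCore_eq_ker, eq_bot_iff]
    intro x hx
    rw [Subgroup.mem_bot]
    have hxC : (x : O) ∈ C := Subgroup.mem_subgroupOf.1 (Subgroup.normalCore_le C' hx)
    apply Subtype.ext
    apply hfaith _ hxC
    intro v hv
    -- the commutator lies in both
    let w : ↥E := ⟨v, Subgroup.mem_sup_left hv⟩
    have h6 : w * x * w⁻¹ ∈ C'.normalCore := (Subgroup.normalCore_normal C').conj_mem x hx w
    have h7 : w * x * w⁻¹ * x⁻¹ ∈ C'.normalCore := Subgroup.mul_mem _ h6 (Subgroup.inv_mem _ hx)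
    have h8 : v * x * v⁻¹ * (x : O)⁻¹ ∈ C := Subgroup.mem_subgroupOf.1 (Subgroup.normalCore_le C' h7)
    have h9 : v * x * v⁻¹ * (x : O)⁻¹ ∈ V := by
      have : v * x * v⁻¹ * (x : O)⁻¹ = v * (x * v⁻¹ * (x : O)⁻¹) := by group
      rw [this]
      exact V.mul_mem hv (Subgroup.Normal.conj_mem inferInstance _ (V.inv_mem hv) _)
    have h10 := hfaith _ h8 (fun u hu => hVc _ h9 _ hu)
    rw [mul_inv_eq_one, mul_inv_eq_iff_eq_mul] at h10
    exact h10.symm
  let π := MulAction.toPermHom ↥E (↥E ⧸ C')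
  have hinj : Function.Injective π := (MonoidHom.ker_eq_bot_iff _).1 hker
  have : Finite (↥E ⧸ C') := inferInstance
  have hbij : Function.Bijective π := by
    refine (Nat.bijective_iff_injective_and_card π).2 ⟨hinj, ?_⟩
    rw [hE', Nat.card_perm, hidx]
    rfl
  have e2 : (↥E ⧸ C') ≃ Fin 4 := Nat.equivFinOfCardPos (by rw [hidx]; decide) |>.trans (finCongr hidx)
  obtain ⟨e3⟩ := cyc_iso (G := ↥Φ) hf hΦf
  exact ⟨e1.trans (MulEquiv.prodCongr ((MulEquiv.ofBijective π hbij).trans e2.permCongrHom) e3)⟩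

end Cfsg.Agent.H22.Cw
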