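import Cfsg.Agent.LibH22Cw9

set_option autoImplicit false

/-! Field automorphisms of the plus-type groups. -/

namespace Cfsg.Agent.H22.Cw

open Cfsg.Agent.H22 CfsgLib.Semi27 CfsgLib.Lift27 CfsgLib.RhoO27 CfsgLib.AutO27 CfsgLib.Spinor27 CfsgLib.Even27 CfsgLib.Min27 CfsgLib.Eps27 CfsgLib.H9027 CfsgLib.QForm27 CfsgLib.Desc27 Module Matrix

universe u v

section
variable {F : Type u} [Field F] [Finite F] {ι : Type} [Fintype ι] [DecidableEq ι] {Q : QuadraticForm F (ι → F)}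
  {e f : Fin 3 → (ι → F)} {u : ι → F}

theorem ph_order' (h : Gd Q e f u) {σ : F ≃+* F} (hσ : (⟨1, σ⟩ : GamL ι F) ∈ SP Q) : orderOf (ph hσ) = orderOf σ := by
  apply Nat.dvd_antisymm
  · rw [orderOf_dvd_iff_pow_eq_one, ph_pow hσ _ (mul_mem_std hσ _)]
    unfold ph
    rw [R_ker' h]
    exact ⟨pow_orderOf_eq_one σ, 1, by rw [scal_one]⟩
  · rw [orderOf_dvd_iff_pow_eq_one]
    have h1 := pow_orderOf_eq_one (ph hσ)
    rw [ph_pow hσ _ (mul_mem_std hσ _)] at h1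
    unfold ph at h1
    rw [R_ker' h] at h1
    exact h1.1

end

section cnt
variable {F : Type u} [Field F] [Fintype F] {m : ℕ} {σ : F ≃+* F}

theorem chi_pow (h2 : (2 : F) ≠ 0) {y : F} (hy0 : y ≠ 0) (k : ℕ) : chi (y ^ k) = chi y ^ k := by
  induction k with
  | zero => rw [pow_zero, pow_zero, chi_one]
  | succ k ih => rw [pow_succ, chi_mul h2 (pow_ne_zero _ hy0) hy0, ih, pow_succ]

/-- the class of the rational similarity -/
theorem dC_class [Fintype (fixF σ)] (hm : 1 ≤ m) (h2 : (2 : F) ≠ 0) (ho : orderOf σ = 2)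
    {e f : Fin 3 → (Fin m ⊕ Fin m → F)} {u : Fin m ⊕ Fin m → F} (hG : Gd (qPlus m F) e f u) (hneg : NegIn (qPlus m F))
    (hj : ∀ x, qPlus m F ((fixF σ).subtype ∘ x) = (fixF σ).subtype (qPlus m (fixF σ) x))
    {c : (fixF σ)ˣ} (hc : ¬ IsSquare (c : fixF σ)) :
    JH hj (dCG m c) ∈ KI (qPlus m F) ↔ ¬ (Odd m ∧ Fintype.card (fixF σ) % 4 ≠ 3) := by
  have hc0 : ((c : fixF σ) : F) ≠ 0 := fun h => c.ne_zero (Subtype.ext h)
  obtain ⟨w, hw0, hwN⟩ := exists_norm σ 2 (by norm_num) ho ((c : fixF σ) : F) hc0 (c : fixF σ).2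
  rw [Finset.prod_range_succ, Finset.prod_range_one, pow_zero, pow_one] at hwN
  obtain ⟨y, hy⟩ := squares_of_order_two h2 ho (c : fixF σ)
  have hy0 : y ≠ 0 := by
    rintro rfl
    rw [mul_zero] at hy
    exact hc0 hy
  obtain ⟨k1, k2⟩ := root_chi h2 ho hc hwN hy.symm
  obtain ⟨y', hy'⟩ : ∃ y' : Fˣ, (y' : F) = y := ⟨Units.mk0 y hy0, rfl⟩
  have hE : Ev (qPlus m F) m := ev_qPlus h2 hm
  have h1 : JH hj (dCG m c) = dCG m y' * dCG m y' := by
    apply Subtype.ext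
    apply Units.ext
    ext i j
    show ((Matrix.diagonal (Sum.elim (fun _ => ((c : fixF σ) : fixF σ)) (fun _ => 1)) : Matrix (Fin m ⊕ Fin m) (Fin m ⊕ Fin m) (fixF σ)) i j : F) =
      ((Matrix.diagonal (Sum.elim (fun _ => (y' : F)) (fun _ => 1)) : Matrix (Fin m ⊕ Fin m) (Fin m ⊕ Fin m) F) *
        (Matrix.diagonal (Sum.elim (fun _ => (y' : F)) (fun _ => 1)) : Matrix (Fin m ⊕ Fin m) (Fin m ⊕ Fin m) F) : Matrix (Fin m ⊕ Fin m) (Fin m ⊕ Fin m) F) i j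
    rw [Matrix.diagonal_mul_diagonal, Matrix.diagonal_apply, Matrix.diagonal_apply]
    by_cases hij : i = j
    · rw [if_pos hij, if_pos hij]
      rcases i with i | i
      · show ((c : fixF σ) : F) = (y' : F) * y'
        rw [hy', hy]
      · show ((1 : fixF σ) : F) = 1 * 1
        rw [mul_one]; rfl
    · rw [if_neg hij, if_neg hij]; rfl
  rw [h1, dCG_sq hE hG hneg y', hy', chi_pow h2 hy0, ← FiniteField.isSquare_neg_one_iff, ← k2]
  rcases Int.units_eq_one_or (chi y) with h5 | h5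
  · rw [h5, one_pow]
    simp
  · rw [h5]
    rcases Nat.even_or_odd m with h6 | h6
    · rw [h6.neg_one_pow]
      simp [Nat.not_odd_iff_even.2 h6]
    · rw [h6.neg_one_pow]
      simp [h6]

/-- the splitting of the class of an involutory field automorphism -/
theorem plus_count [Fintype (fixF σ)] (hm : 4 ≤ m) (h2 : (2 : F) ≠ 0) (ho : orderOf σ = 2)
    (h : Ea (qPlus m F) m) (hσ : (⟨1, σ⟩ : GamL (Fin m ⊕ Fin m) F) ∈ SP (qPlus m F)) :
    Cfsg.splitClassCount (rho h.Gam h.Gam_le).range (Cfsg.Inn (Cfsg.POmega F ⇑(qPlus m F))) (ph hσ) =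
      if Odd m ∧ Fintype.card (fixF σ) % 4 ≠ 3 then 2 else 4 := by
  have h20 : (2 : fixF σ) ≠ 0 := fun h3 => h2 (congrArg Subtype.val h3)
  obtain ⟨e, f, u, hG⟩ := gd_qPlus (F := F) (m := m) hm
  have hE₀ : Ev (qPlus m (fixF σ)) m := ev_qPlus h20 (by omega)
  have hE := h.ev h2
  have hodd₀ : Odd (Fintype.card (fixF σ)) := by
    rw [Nat.odd_iff]
    apply FiniteField.odd_card_of_char_ne_two
    intro h3
    apply h20
    have : CharP (fixF σ) 2 := by rw [← h3]; exact ringChar.charP (fixF σ)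
    exact_mod_cast CharP.cast_eq_zero (fixF σ) 2
  have hcard : Fintype.card F = Fintype.card (fixF σ) ^ 2 := by
    have := card_fixF σ
    rw [ho, Nat.card_eq_fintype_card, Nat.card_eq_fintype_card] at this
    exact this
  have hodd : Odd (Fintype.card F) := by rw [hcard]; exact hodd₀.pow
  have hmod : Fintype.card F % 4 = 1 := by
    rw [hcard]
    obtain ⟨k, hk⟩ := hodd₀
    rw [hk]
    have : (2 * k + 1) ^ 2 = 4 * (k ^ 2 + k) + 1 := by ring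
    rw [this]; omega
  have hneg : NegIn (qPlus m F) := (negIn_plus hodd (by omega)).2 (by omega)
  have hj : ∀ x, qPlus m F ((fixF σ).subtype ∘ x) = (fixF σ).subtype (qPlus m (fixF σ) x) := fun x => qPlus_j (fixF σ).subtype x
  obtain ⟨c, hc⟩ := hE₀.exists_nonsq
  obtain ⟨D, hD⟩ : ∃ D : GOs (qPlus m (fixF σ)), D = dCG m c := ⟨_, rfl⟩
  have hDmu : mu hE₀.hx D = c := by rw [hD]; exact mu_dCG hE₀ c
  have hDe : hE₀.eps D = 1 := by rw [hD]; exact eps_dCG hE₀ c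
  have hcls := dC_class (by omega) h2 ho hG hneg hj hc
  rw [← hD] at hcls
  have hJe : hE.eps (JH hj D) = 1 := by rw [eps_JH hE hE₀, hDe]
  have hJf : gm σ (JH hj D : GL (Fin m ⊕ Fin m) F) = JH hj D := by
    rw [JH_coe]
    apply Units.ext
    ext i k
    exact (((D : GL (Fin m ⊕ Fin m) (fixF σ)) : Matrix (Fin m ⊕ Fin m) (Fin m ⊕ Fin m) (fixF σ)) i k).2
  obtain ⟨r1, r2⟩ := ev_count h hG h2 hneg hσ (JH hj D) hJe hJf (fun c' hc' hcc => rat_class hE hE₀ hG hneg hj ho D hDe (by rw [hDmu]; exact hc) c' hc' hcc)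
  split_ifs with h5
  · exact r2 (fun h6 => (hcls.1 h6) h5)
  · exact r1 (hcls.2 h5)

end cnt

theorem aux {F : Type u} [Field F] [Fintype F] {p f : ℕ} [Fact p.Prime] (hF : Fintype.card F = p ^ f) (hf : 1 ≤ f) {m : ℕ} (hm : 4 ≤ m)
    (q : (Fin m ⊕ Fin m → F) → F) (hq : q = ⇑(qPlus m F))
    (P : Subgroup (MulAut (Cfsg.POmega F q))) (hP : P = Cfsg.autSubgroupOf (fun β : Cfsg.POmega F q ≃* Cfsg.POmega F q => ∃ g : GL (Fin m ⊕ Fin m) F,
      g ∈ Cfsg.Geo.quadSimilarityGroup (F := F) q ∧ Cfsg.PreservesSingularClasses q (g : Matrix (Fin m ⊕ Fin m) (Fin m ⊕ Fin m) F) ∧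
        Cfsg.IsInducedBySemilinearPOmega q g (RingEquiv.refl F) β))
    (x : MulAut (Cfsg.POmega F q)) (hx : Cfsg.IsFieldAutClassPOmega q x) {r : ℕ} (hr : r.Prime) (hxr : orderOf x = r)
    (F₀ : Type v) [Field F₀] [Fintype F₀] (hF₀ : Fintype.card F₀ = p ^ (f / r))
    (q₀ : (Fin m ⊕ Fin m → F₀) → F₀) (hq₀ : q₀ = ⇑(qPlus m F₀))
    (P₀ : Subgroup (MulAut (Cfsg.POmega F₀ q₀))) (hP₀ : P₀ = Cfsg.autSubgroupOf (fun β : Cfsg.POmega F₀ q₀ ≃* Cfsg.POmega F₀ q₀ => ∃ g : GL (Fin m ⊕ Fin m) F₀,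
      g ∈ Cfsg.Geo.quadSimilarityGroup (F := F₀) q₀ ∧ Cfsg.PreservesSingularClasses q₀ (g : Matrix (Fin m ⊕ Fin m) (Fin m ⊕ Fin m) F₀) ∧
        Cfsg.IsInducedBySemilinearPOmega q₀ g (RingEquiv.refl F₀) β)) :
    r ∣ f ∧ Nonempty (↥(P ⊓ Subgroup.centralizer {x}) ≃* ↥P₀) ∧
    ((Odd r ∨ p = 2) → Cfsg.splitClassCount P (Cfsg.Inn (Cfsg.POmega F q)) x = 1) ∧
    ((r = 2 ∧ p ≠ 2 ∧ Odd m ∧ p ^ (f / 2) % 4 = 1) → Cfsg.splitClassCount P (Cfsg.Inn (Cfsg.POmega F q)) x = 2) ∧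
    ((r = 2 ∧ p ≠ 2 ∧ ¬ (Odd m ∧ p ^ (f / 2) % 4 = 1)) → Cfsg.splitClassCount P (Cfsg.Inn (Cfsg.POmega F q)) x = 4) := by
  subst hq hq₀
  have ha := ea_qPlus (F := F) (m := m) (by omega)
  rw [ha.range_Gam _ (fun g => psc_plus ha g)] at hP
  subst hP
  have hc := ea_qPlus (F := F₀) (m := m) (by omega)
  rw [hc.range_Gam _ (fun g => psc_plus hc g)] at hP₀
  subst hP₀
  obtain ⟨e, ff, u, hG⟩ := gd_qPlus (F := F) (m := m) hm
  obtain ⟨e', f', u', hG₀⟩ := gd_qPlus (F := F₀) (m := m) hm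
  obtain ⟨α, φ, σ, hσ1, hφ, hconj⟩ := hx
  have hst := std_mem (Q := qPlus m F) (σ := σ) plus_σ
  have hφe : φ = ph hst := (isStd_iff hst _).1 hφ
  rw [hφe] at hconj
  have hord : orderOf σ = r := by
    rw [← ph_order' hG hst, ← hconj, ← hxr]
    exact (MulAut.conj α).orderOf_eq x
  have hF' : Nat.card F = p ^ f := by rw [Nat.card_eq_fintype_card, hF]
  obtain ⟨hrf, hK⟩ := CfsgLib.AutPSL27.field_arith (F := F) hF' hr.pos σ hord
  haveI := Fintype.ofFinite (fixF σ)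
  have hK' : Fintype.card (fixF σ) = p ^ (f / r) := by rw [← Nat.card_eq_fintype_card, hK]
  obtain ⟨e0⟩ := CfsgLib.AutPSL27.field_equiv (K := F₀) (L := CfsgLib.H9027.fixF σ) (by
    rw [hK, Nat.card_eq_fintype_card, hF₀])
  haveI : Nonempty (Fin m ⊕ Fin m) := ⟨Sum.inl ⟨0, by omega⟩⟩
  have hGn : ∀ β : MulAut (Cfsg.POmega F ⇑(qPlus m F)), ∀ g ∈ (rho ha.Gam ha.Gam_le).range, β * g * β⁻¹ ∈ (rho ha.Gam ha.Gam_le).range :=
    fun β g hg => hnormP hm ha β g hg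
  have hT : ∀ β : MulAut (Cfsg.POmega F ⇑(qPlus m F)), ∀ g ∈ Cfsg.Inn (Cfsg.POmega F ⇑(qPlus m F)),
      β * g * β⁻¹ ∈ Cfsg.Inn (Cfsg.POmega F ⇑(qPlus m F)) := fun β g hg =>
    (Cfsg.innNormal (Cfsg.POmega F ⇑(qPlus m F))).conj_mem g hg β
  have hsp : Cfsg.splitClassCount (rho ha.Gam ha.Gam_le).range (Cfsg.Inn (Cfsg.POmega F ⇑(qPlus m F))) x =
      Cfsg.splitClassCount (rho ha.Gam ha.Gam_le).range (Cfsg.Inn (Cfsg.POmega F ⇑(qPlus m F))) (ph hst) := by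
    rw [CfsgLib.Split27.splitCount_conj _ _ x α (hGn α) (fun g hg => by
      have := hGn α⁻¹ g hg
      rwa [inv_inv] at this) (hT α) (fun g hg => by
      have := hT α⁻¹ g hg
      rwa [inv_inv] at this), hconj]
  have h2iff : (2 : F) = 0 ↔ p = 2 := by
    haveI : CharP F p := CfsgLib.AutPSL27.charP_of_card hF
    constructor
    · intro h
      have h3 : ((2 : ℕ) : F) = 0 := by exact_mod_cast h
      rw [CharP.cast_eq_zero_iff F p] at h3
      exact (Nat.prime_dvd_prime_iff_eq Fact.out Nat.prime_two).1 h3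
    · rintro rfl
      exact_mod_cast CharP.cast_eq_zero F 2
  refine ⟨hrf, ?_, ?_, ?_, ?_⟩
  · obtain ⟨e1⟩ := CfsgLib.Split27.centr_conj (rho ha.Gam ha.Gam_le).range x α (hGn α) (fun g hg => by
      have := hGn α⁻¹ g hg
      rwa [inv_inv] at this)
    rw [hconj] at e1
    obtain ⟨j, hj⟩ : ∃ j : F₀ →+* F, j = (fixF σ).subtype.comp (e0 : F₀ →+* fixF σ) := ⟨_, rfl⟩
    have hQj : ∀ v, qPlus m F (j ∘ v) = j (qPlus m F₀ v) := fun v => qPlus_j j v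
    obtain ⟨e2⟩ := CfsgLib.Semi27.centralizer_equiv (ρ := rho ha.Gam ha.Gam_le) (φ := ph hst)
      (fun g hg => ha.gm_Gam hst hg) (fun g => ph_mul_rho _ _ hst (fun g hg => ha.gm_Gam hst hg) g)
      (rho_ker' _ _ hG) (fun u => ha.scal_Gam u) e0 (Γ₀ := hc.Gam) (by
        intro g
        rw [← hj]
        constructor
        · intro hg
          obtain ⟨h1, h2⟩ := ha.mem_Gam.1 hg
          have h3 : g ∈ GOs (qPlus m F₀) := (comap_GOs _ hQj hc.hx g).1 h1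
          refine hc.mem_Gam.2 ⟨h3, ?_⟩
          rw [← hc.ep_map ha j hQj ⟨g, h3⟩]
          exact h2
        · intro hg
          obtain ⟨h1, h2⟩ := hc.mem_Gam.1 hg
          refine ha.mem_Gam.2 ⟨map_GOs j hQj ⟨g, h1⟩, ?_⟩
          rw [hc.ep_map ha j hQj ⟨g, h1⟩]
          exact h2)
    obtain ⟨e3⟩ := range_equiv' hc.Gam hc.Gam_le hG₀
    exact ⟨(e1.trans e2).trans e3.symm⟩
  · intro hor
    rw [hsp]
    rcases hor with hodd | hp
    · exact odd_split ha (ea_qPlus (F := fixF σ) (m := m) (by omega)) hG (fun v => qPlus_j (fixF σ).subtype v) plus_σ hord hodd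
    · exact two_count ha hG (h2iff.2 hp) _
  · rintro ⟨hr2, hp, hm2, hq4⟩
    rw [hsp]
    subst hr2
    rw [plus_count hm (fun h => hp (h2iff.1 h)) hord ha hst, if_pos ⟨hm2, by rw [hK']; omega⟩]
  · rintro ⟨hr2, hp, hm2⟩
    rw [hsp]
    subst hr2
    rw [plus_count hm (fun h => hp (h2iff.1 h)) hord ha hst, if_neg]
    rintro ⟨h1, h3⟩
    apply hm2
    refine ⟨h1, ?_⟩
    rw [hK'] at h3
    have hodd : Odd (p ^ (f / 2)) := ((Fact.out : p.Prime).odd_of_ne_two hp).pow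
    obtain ⟨k, hk⟩ := hodd
    omega

end Cfsg.Agent.H22.Cw
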