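import Cfsg.Agent.LibH22Cw1

set_option autoImplicit false

/-! Outer automorphisms of simply laced Chevalley groups. -/

namespace Cfsg.Agent.H22.Cw

open CfsgLib.Chev Cfsg.Lie CfsgLib.SA

section Gen

variable {D : ChevalleyDatum} {T : Tb} (g : Good3 D T) {F : Type*} [Field F]

include g in
theorem saE_one (hsl : T.chkSL = true) (ρ : Equiv.Perm (Fin T.l)) (i : Fin T.l) : Good3.saE T F ρ i = 1 := by
  unfold Good3.saE
  rw [(Good3.sa_SL hsl).1 _ (ρ i).2]
  simp

theorem gr_mul (hsl : T.chkSL = true) {γ γ' : D.group F ≃* D.group F} {ρ ρ' : Equiv.Perm (Fin T.l)} (h : g.IsGr γ ρ) (h' : g.IsGr γ' ρ') :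
    g.IsGr (γ'.trans γ) (ρ * ρ') := by
  refine ⟨?_, ?_, h'.hU.trans h.hU, h'.hV.trans h.hV⟩
  · intro i t
    rw [ex_trans _ _ (g.X_mem_G _ _), h'.hx, h.hx, saE_one g hsl, saE_one g hsl, saE_one g hsl, pow_one, pow_one]
    rfl
  · intro i t
    rw [ex_trans _ _ (g.X_mem_G _ _), h'.hy, h.hy, saE_one g hsl, saE_one g hsl, saE_one g hsl, pow_one, pow_one]
    rfl

theorem gr_F (hsl : T.chkSL = true) {γ : D.group F ≃* D.group F} {ρ : Equiv.Perm (Fin T.l)} (h : g.IsGr γ ρ) (τ : F ≃+* F) :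
    (g.saF τ).trans γ = γ.trans (g.saF τ) := by
  apply g.sa_ext
  · intro i hi t
    have e1 := h.hx ⟨i, hi⟩ t
    have e2 := h.hx ⟨i, hi⟩ (τ t)
    rw [saE_one g hsl, pow_one] at e1 e2
    rw [ex_trans _ _ (g.X_mem_G _ _), ex_trans _ _ (g.X_mem_G _ _), g.ex_saF_X, e1, e2, g.ex_saF_X]
  · intro i hi t
    have e1 := h.hy ⟨i, hi⟩ t
    have e2 := h.hy ⟨i, hi⟩ (τ t)
    rw [saE_one g hsl, pow_one] at e1 e2
    rw [ex_trans _ _ (g.X_mem_G _ _), ex_trans _ _ (g.X_mem_G _ _), g.ex_saF_X, e1, e2, g.ex_saF_X]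

theorem gr_D (hsl : T.chkSL = true) {γ : D.group F ≃* D.group F} {ρ : Equiv.Perm (Fin T.l)} (h : g.IsGr γ ρ) (b : ℕ → Fˣ) :
    (g.saD b).trans γ = γ.trans (g.saD (ext1 (fun j : Fin T.l => b (ρ.symm j)))) := by
  have hev := g.even
  have hb : ∀ i : Fin T.l, ext1 (fun j : Fin T.l => b (ρ.symm j)) (ρ i) = b i := by
    intro i
    unfold ext1
    rw [dif_pos (ρ i).2]
    simp
  have hneg : ∀ (a : ℕ → Fˣ) (i : Fin T.l), chi T a (T.n - 1 - T.sim i) = (a i)⁻¹ := by
    intro a i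
    rw [(g.chi_isChi a).1 _ (g.sim_lt i.2), g.chi_sim _ i.2]
  apply g.sa_ext
  · intro i hi t
    have h1 := h.hx ⟨i, hi⟩
    simp only [saE_one g hsl, pow_one] at h1
    rw [ex_trans _ _ (g.X_mem_G _ _), ex_trans _ _ (g.X_mem_G _ _), g.ex_saD_X _ (g.sim_lt hi), h1, h1,
      g.ex_saD_X _ (g.sim_lt (ρ _).2), g.chi_sim _ hi, g.chi_sim _ (ρ _).2, hb]
  · intro i hi t
    have h1 := h.hy ⟨i, hi⟩
    simp only [saE_one g hsl, pow_one] at h1
    have h2 := g.sim_lt hi
    have h3 := g.sim_lt (ρ ⟨i, hi⟩).2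
    rw [ex_trans _ _ (g.X_mem_G _ _), ex_trans _ _ (g.X_mem_G _ _), g.ex_saD_X _ (by omega), h1, h1,
      g.ex_saD_X _ (by omega), hneg, hneg b ⟨i, hi⟩, hb]

variable {S : Type*} [Group S] {ι : S →* Equiv.Perm (Fin T.l)}

/-- the homomorphism of graph automorphisms -/
noncomputable def gS (hsl : T.chkSL = true) (hgr : ∀ s : S, ∃ γ : D.group F ≃* D.group F, g.IsGr γ (ι s)) : S →* MulAut (D.group F) where
  toFun s := Classical.choose (hgr s)
  map_one' := by
    have h1 := Classical.choose_spec (hgr 1)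
    have h2 : g.IsGr (MulEquiv.refl (D.group F)) (ι 1) := by rw [map_one]; exact Good3.IsGr.one_iff
    exact h1.unique h2
  map_mul' s t := by
    have h1 := Classical.choose_spec (hgr (s * t))
    have h2 := gr_mul g hsl (Classical.choose_spec (hgr s)) (Classical.choose_spec (hgr t))
    rw [← map_mul] at h2
    exact h1.unique h2

theorem gS_isGr (hsl : T.chkSL = true) (hgr : ∀ s : S, ∃ γ : D.group F ≃* D.group F, g.IsGr γ (ι s)) (s : S) :
    g.IsGr (gS g hsl hgr s : D.group F ≃* D.group F) (ι s) := Classical.choose_spec (hgr s)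

open Good3 in
/-- graph and field automorphisms commute modulo inner ones -/
theorem gS_F (hsl : T.chkSL = true) (hgr : ∀ s : S, ∃ γ : D.group F ≃* D.group F, g.IsGr γ (ι s)) (s : S) (τ : F ≃+* F) :
    gS g hsl hgr s * g.fH τ = g.fH τ * gS g hsl hgr s := gr_F g hsl (gS_isGr g hsl hgr s) τ

open Good3 in
/-- the outer automorphism group, no diagonal automorphisms -/
theorem out_noD [Finite F] (hsl : T.chkSL = true) (hcl : SAC T F) (hl : 0 < T.l) (hι : Function.Injective ι)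
    (hgr : ∀ s : S, ∃ γ : D.group F ≃* D.group F, g.IsGr γ (ι s))
    (hall : ∀ (ρ : Equiv.Perm (Fin T.l)) (γ : D.group F ≃* D.group F), g.IsGr γ ρ → ∃ s, ι s = ρ)
    (hK : KH D T F = ⊤) : Nonempty (Cfsg.Out ↥(D.group F) ≃* S × (F ≃+* F)) := by
  let φ : S × (F ≃+* F) →* Cfsg.Out ↥(D.group F) :=
    MonoidHom.noncommCoprod ((qO D F).comp (gS g hsl hgr)) ((qO D F).comp g.fH) (fun s τ => by
      show qO D F _ * qO D F _ = qO D F _ * qO D F _
      rw [← map_mul, ← map_mul, gS_F])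
  have hinj : Function.Injective φ := by
    rw [injective_iff_map_eq_one]
    rintro ⟨s, τ⟩ h
    have h1 : (QuotientGroup.mk (1 : MulAut ↥(D.group F)) : Cfsg.Out ↥(D.group F)) = QuotientGroup.mk (gS g hsl hgr s * g.fH τ) := by
      have : φ (s, τ) = QuotientGroup.mk (gS g hsl hgr s * g.fH τ) := rfl
      rw [← this, h]
      rfl
    obtain ⟨c, hc⟩ := (out_eq_iff _ _).1 h1
    have e3 : (g.saF τ).trans (gS g hsl hgr s : D.group F ≃* D.group F) = ((g.saF (1 : F ≃+* F)).trans (MulEquiv.refl _)).trans (inn c) := by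
      rw [Cv.saF_one]
      exact hc
    obtain ⟨h2, h3⟩ := Cv.uniq2 g hl (gS_isGr g hsl hgr s) Good3.IsGr.one_iff e3
    have h4 : s = 1 := hι (by rw [h2, map_one])
    rw [h4, h3]
    rfl
  have hsur : Function.Surjective φ := by
    intro o
    obtain ⟨b, ρ, τ, γ, hγ, rfl⟩ := g.out_decomp hcl o
    obtain ⟨s, hs⟩ := hall ρ γ hγ
    subst hs
    refine ⟨(s, τ), ?_⟩
    have h1 : γ = (gS g hsl hgr s : D.group F ≃* D.group F) := hγ.unique (gS_isGr g hsl hgr s)
    have h2 : qO D F (g.saD b) = 1 := by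
      have h3 : (fun j : Fin T.l => b j) ∈ KH D T F := by rw [hK]; trivial
      have h4 : tor D T (fun j => b j / (fun _ => (1 : Fˣ)) j) ∈ D.diagonalSubgroup F := by
        have h5 : torHom D T F (fun j : Fin T.l => b j) ∈ D.diagonalSubgroup F := h3
        have : torHom D T F (fun j : Fin T.l => b j) = tor D T (fun j => b j / (fun _ => (1 : Fˣ)) j) := by
          apply tor_congr
          intro j hj
          unfold ext1
          rw [dif_pos hj, div_one]
        rwa [this] at h5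
      obtain ⟨c, hc⟩ := g.saD_H h4
      have h6 : (QuotientGroup.mk (g.saD (fun _ => (1 : Fˣ)) : MulAut ↥(D.group F)) : Cfsg.Out ↥(D.group F)) =
        QuotientGroup.mk (g.saD b : MulAut ↥(D.group F)) := (out_eq_iff _ _).2 ⟨c, hc⟩
      rw [Cv.saD_one] at h6
      exact h6.symm
    rw [h2, one_mul, h1]
    rfl
  exact ⟨(MulEquiv.ofBijective φ ⟨hinj, hsur⟩).symm⟩

/-- the ratio of a field automorphism on units is a square -/
theorem ratio_sq [Finite F] (τ : F ≃+* F) (u : Fˣ) : ∃ w : Fˣ, Units.map (τ : F →* F) u = w * w * u := by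
  classical
  let _ := Fintype.ofFinite F
  by_cases h : IsSquare u
  · obtain ⟨v, rfl⟩ := h
    refine ⟨Units.map (τ : F →* F) v * v⁻¹, ?_⟩
    rw [map_mul]
    have : ∀ x y : Fˣ, x * x = x * y⁻¹ * (x * y⁻¹) * (y * y) := by
      intro x y
      rw [mul_comm (x * y⁻¹) (x * y⁻¹)]
      have : x * y⁻¹ * (x * y⁻¹) * (y * y) = x * x * (y⁻¹ * y) * (y⁻¹ * y) := by
        simp only [mul_assoc, mul_comm, mul_left_comm]
      rw [this]; simp
    exact this _ _
  · -- both are nonsquares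
    have h2 : ¬ IsSquare (u : F) := fun h3 => h (by
      obtain ⟨v, hv⟩ := h3
      have hv0 : v ≠ 0 := by
        rintro rfl
        rw [mul_zero] at hv
        exact u.ne_zero hv
      exact ⟨Units.mk0 v hv0, Units.ext hv⟩)
    have h3 : ¬ IsSquare (τ (u : F)) := fun ⟨v, hv⟩ => h2 ⟨τ.symm v, by rw [← map_mul, ← hv, RingEquiv.symm_apply_apply]⟩
    have hch : ringChar F ≠ 2 := by
      intro h4
      exact h2 (FiniteField.isSquare_of_char_two h4 _)
    have h5 := FiniteField.isSquare_iff hch (a := τ (u : F) * (u : F)⁻¹) (mul_ne_zero (by simp) (inv_ne_zero u.ne_zero))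
    have h6 := FiniteField.pow_dichotomy hch (a := (u : F)) u.ne_zero
    have h7 := FiniteField.pow_dichotomy hch (a := τ (u : F)) (by simp)
    have h8 : (u : F) ^ (Fintype.card F / 2) = -1 := by
      rcases h6 with h | h
      · exact absurd ((FiniteField.isSquare_iff hch u.ne_zero).2 h) h2
      · exact h
    have h9 : (τ (u : F)) ^ (Fintype.card F / 2) = -1 := by
      rcases h7 with h | h
      · exact absurd ((FiniteField.isSquare_iff hch (by simp)).2 h) h3
      · exact h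
    rw [mul_pow, inv_pow, h8, h9] at h5
    obtain ⟨v, hv⟩ := h5.2 (by norm_num)
    have hv0 : v ≠ 0 := by
      rintro rfl
      rw [mul_zero] at hv
      exact mul_ne_zero (by simp) (inv_ne_zero u.ne_zero) hv
    refine ⟨Units.mk0 v hv0, Units.ext ?_⟩
    show τ (u : F) = v * v * u
    rw [← hv, inv_mul_cancel_right₀ u.ne_zero]

open Good3 in
theorem qD_eq_iff [Finite F] (hl : 0 < T.l) (b b' : ℕ → Fˣ) :
    qO D F (g.saD b) = qO D F (g.saD b') ↔ (fun j : Fin T.l => b j / b' j) ∈ KH D T F := by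
  have hto : torHom D T F (fun j : Fin T.l => b j / b' j) = tor D T (fun j => b j / b' j) := by
    apply tor_congr
    intro j hj
    unfold ext1
    rw [dif_pos hj]
  constructor
  · intro h
    have h1 : (QuotientGroup.mk (g.saD b' : MulAut ↥(D.group F)) : Cfsg.Out ↥(D.group F)) = QuotientGroup.mk (g.saD b : MulAut ↥(D.group F)) := h.symm
    obtain ⟨c, hc⟩ := (out_eq_iff _ _).1 h1
    have h1 := Good3.IsGr.one_iff (g := g) (F := F)
    have h2 := g.sa_uniq hl h1 h1 (b := b) (b' := b') (τ := 1) (τ' := 1) (c := c) (by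
      rw [Cv.saF_one]
      exact hc)
    show torHom D T F (fun j : Fin T.l => b j / b' j) ∈ D.diagonalSubgroup F
    rw [hto]
    exact h2.2.2
  · intro h
    have h5 : torHom D T F (fun j : Fin T.l => b j / b' j) ∈ D.diagonalSubgroup F := h
    rw [hto] at h5
    obtain ⟨c, hc⟩ := g.saD_H h5
    exact ((out_eq_iff _ _).2 ⟨c, hc⟩ : (QuotientGroup.mk (g.saD b' : MulAut ↥(D.group F)) : Cfsg.Out ↥(D.group F)) = QuotientGroup.mk (g.saD b : MulAut ↥(D.group F))).symm

open Good3 in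
/-- the case of four diagonal classes and triality -/
theorem out_D [Finite F] (hsl : T.chkSL = true) (hcl : SAC T F) (hl : 0 < T.l)
    (hgr : ∀ s : S, ∃ γ : D.group F ≃* D.group F, g.IsGr γ (ι s))
    (hall : ∀ (ρ : Equiv.Perm (Fin T.l)) (γ : D.group F ≃* D.group F), g.IsGr γ ρ → ∃ s, ι s = ρ)
    [Finite S] (hS : Nat.card S = 6)
    (hK : Nat.card ((Fin T.l → Fˣ) ⧸ KH D T F) = 4) (hsq : ∀ b : Fin T.l → Fˣ, b * b ∈ KH D T F)
    (hfa : ∀ s : S, s ≠ 1 → ∃ b : Fin T.l → Fˣ, (fun j => b ((ι s).symm j) / b j) ∉ KH D T F)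
    {f : ℕ} (hf : 1 ≤ f) (hG : Nat.card (F ≃+* F) = f) (hGc : IsCyclic (F ≃+* F)) (hO : Nat.card (Cfsg.Out ↥(D.group F)) = 24 * f) :
    Nonempty (Cfsg.Out ↥(D.group F) ≃* Equiv.Perm (Fin 4) × Multiplicative (ZMod f)) := by
  have : Finite (Cfsg.Out ↥(D.group F)) := Nat.finite_of_card_ne_zero (by rw [hO]; omega)
  let V : Subgroup (Cfsg.Out ↥(D.group F)) := (g.dH (F := F)).range.map (qO D F)
  let C : Subgroup (Cfsg.Out ↥(D.group F)) := ((qO D F).comp (gS g hsl hgr)).range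
  let Φ : Subgroup (Cfsg.Out ↥(D.group F)) := ((qO D F).comp (g.fH (F := F))).range
  have hVn : V.Normal := g.D_normal hcl
  have hVc : ∀ a ∈ V, ∀ b ∈ V, a * b = b * a := by
    intro a ha b hb
    have := g.D_comm.is_comm.comm (⟨a, ha⟩ : ↥V) ⟨b, hb⟩
    exact congrArg Subtype.val this
  have hD : ∀ b : Fin T.l → Fˣ, g.dH b = (g.saD (ext1 b) : MulAut ↥(D.group F)) := fun b => rfl
  have hV : Nat.card V ≤ 4 := by
    rw [← hK]
    have hle : KH D T F ≤ ((qO D F).comp g.dH).ker := by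
      intro b hb
      rw [MonoidHom.mem_ker]
      have h1 : (fun j : Fin T.l => ext1 b j / ext1 (1 : Fin T.l → Fˣ) j) ∈ KH D T F := by
        have : (fun j : Fin T.l => ext1 b j / ext1 (1 : Fin T.l → Fˣ) j) = b := by
          funext j
          unfold ext1
          rw [dif_pos j.2, dif_pos j.2]
          simp
        rw [this]; exact hb
      have h2 := (qD_eq_iff g hl (ext1 b) (ext1 (1 : Fin T.l → Fˣ))).2 h1
      have h3 : qO D F (g.dH (1 : Fin T.l → Fˣ)) = 1 := by rw [map_one, map_one]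
      exact h2.trans h3
    let ψ : (Fin T.l → Fˣ) ⧸ KH D T F →* Cfsg.Out ↥(D.group F) := QuotientGroup.lift _ ((qO D F).comp g.dH) hle
    have hr : V = ψ.range := by
      ext x
      constructor
      · rintro ⟨_, ⟨b, rfl⟩, rfl⟩
        exact ⟨QuotientGroup.mk b, rfl⟩
      · rintro ⟨b, rfl⟩
        obtain ⟨b, rfl⟩ := QuotientGroup.mk_surjective b
        exact ⟨_, ⟨b, rfl⟩, rfl⟩
    rw [hr]
    have : Finite ((Fin T.l → Fˣ) ⧸ KH D T F) := inferInstance
    exact Nat.card_le_card_of_surjective _ (MonoidHom.rangeRestrict_surjective ψ)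
  have hC : Nat.card C ≤ 6 := by
    rw [← hS]
    exact Nat.card_le_card_of_surjective _ (MonoidHom.rangeRestrict_surjective ((qO D F).comp (gS g hsl hgr)))
  have : Finite (F ≃+* F) := Nat.finite_of_card_ne_zero (by omega)
  have hΦc : Nat.card Φ ≤ f := by
    rw [← hG]
    exact Nat.card_le_card_of_surjective _ (MonoidHom.rangeRestrict_surjective ((qO D F).comp (g.fH (F := F))))
  have hcyc : IsCyclic Φ := isCyclic_of_surjective _ (MonoidHom.rangeRestrict_surjective ((qO D F).comp (g.fH (F := F))))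
  have hdec : ∀ o : Cfsg.Out ↥(D.group F), ∃ v ∈ V, ∃ c ∈ C, ∃ φ ∈ Φ, o = v * c * φ := by
    intro o
    obtain ⟨b, ρ, τ, γ, hγ, rfl⟩ := g.out_decomp hcl o
    obtain ⟨s, hs⟩ := hall ρ γ hγ
    subst hs
    have h1 : γ = (gS g hsl hgr s : D.group F ≃* D.group F) := hγ.unique (gS_isGr g hsl hgr s)
    exact ⟨_, ⟨_, ⟨_, g.dH_eq b⟩, rfl⟩, _, ⟨s, by rw [h1]; rfl⟩, _, ⟨τ, rfl⟩, rfl⟩
  have hFV : ∀ (τ : F ≃+* F) (b : Fin T.l → Fˣ), qO D F (g.fH τ) * qO D F (g.dH b) = qO D F (g.dH b) * qO D F (g.fH τ) := by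
    intro τ b
    have e1 : (g.fH τ : MulAut ↥(D.group F)) * (g.dH b : MulAut _) = (g.saD (fun j => Units.map (τ : F →* F) (ext1 b j)) : MulAut _) * (g.fH τ : MulAut _) :=
      g.conj_F τ (ext1 b)
    have e2 : qO D F (g.saD (fun j => Units.map (τ : F →* F) (ext1 b j))) = qO D F (g.saD (ext1 b)) := by
      rw [qD_eq_iff g hl]
      choose w hw using fun j : Fin T.l => ratio_sq τ (ext1 b j)
      have : (fun j : Fin T.l => (Units.map (τ : F →* F)) (ext1 b ↑j) / ext1 b ↑j) = w * w := by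
        funext j
        rw [hw j]
        show w j * w j * ext1 b j / ext1 b j = w j * w j
        rw [mul_div_cancel_right]
      rw [this]
      exact hsq w
    rw [← map_mul, e1, map_mul, e2]
    rfl
  have hΦ : Φ ≤ Subgroup.center _ := by
    rintro _ ⟨τ, rfl⟩
    rw [Subgroup.mem_center_iff]
    intro o
    obtain ⟨_, ⟨_, ⟨b, rfl⟩, rfl⟩, _, ⟨s, rfl⟩, _, ⟨τ', rfl⟩, rfl⟩ := hdec o
    show qO D F (g.dH b) * qO D F (gS g hsl hgr s) * qO D F (g.fH τ') * qO D F (g.fH τ) =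
      qO D F (g.fH τ) * (qO D F (g.dH b) * qO D F (gS g hsl hgr s) * qO D F (g.fH τ'))
    have c1 := hFV τ b
    have c2 : qO D F (gS g hsl hgr s) * qO D F (g.fH τ) = qO D F (g.fH τ) * qO D F (gS g hsl hgr s) := by
      rw [← map_mul, ← map_mul, gS_F]
    have c3 : qO D F (g.fH τ') * qO D F (g.fH τ) = qO D F (g.fH τ) * qO D F (g.fH τ') := by
      rw [← map_mul, ← map_mul, ← map_mul, ← map_mul, hGc.commGroup.mul_comm]
    calc _ = qO D F (g.dH b) * qO D F (gS g hsl hgr s) * (qO D F (g.fH τ') * qO D F (g.fH τ)) := by group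
      _ = qO D F (g.dH b) * (qO D F (gS g hsl hgr s) * qO D F (g.fH τ)) * qO D F (g.fH τ') := by rw [c3]; group
      _ = (qO D F (g.dH b) * qO D F (g.fH τ)) * qO D F (gS g hsl hgr s) * qO D F (g.fH τ') := by rw [c2]; group
      _ = _ := by rw [← c1]; group
  have hfaith : ∀ c ∈ C, (∀ v ∈ V, c * v = v * c) → c = 1 := by
    rintro _ ⟨s, rfl⟩ h
    by_contra hne
    have hs : s ≠ 1 := by
      rintro rfl
      exact hne (map_one _)
    obtain ⟨b, hb⟩ := hfa s hs
    apply hb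
    have h1 := h (qO D F (g.dH b)) ⟨_, ⟨b, rfl⟩, rfl⟩
    have e1 : (gS g hsl hgr s : MulAut ↥(D.group F)) * (g.dH b : MulAut _) = 
        (g.saD (ext1 (fun j : Fin T.l => ext1 b ((ι s).symm j))) : MulAut _) * (gS g hsl hgr s : MulAut _) :=
      gr_D g hsl (gS_isGr g hsl hgr s) (ext1 b)
    have h2 : qO D F (g.saD (ext1 (fun j : Fin T.l => ext1 b ((ι s).symm j)))) * qO D F (gS g hsl hgr s) = qO D F (g.saD (ext1 b)) * qO D F (gS g hsl hgr s) := by
      rw [← map_mul, ← e1, map_mul]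
      exact h1
    have h3 := mul_right_cancel h2
    rw [qD_eq_iff g hl] at h3
    have : (fun j : Fin T.l => b ((ι s).symm j) / b j) = fun j : Fin T.l => ext1 (fun j : Fin T.l => ext1 b ((ι s).symm j)) j / ext1 b j := by
      funext j
      unfold ext1
      rw [dif_pos j.2, dif_pos j.2]
      dsimp only
      rw [dif_pos ((ι s).symm _).2]
    rw [this]
    exact h3
  exact lemX V C Φ hVc hV hC hfaith hΦ hf hΦc hO hdec

end Gen

end Cfsg.Agent.H22.Cw
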