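import Cfsg.Agent.LibH22Cw2
import Cfsg.Agent.LibH22Cv5

set_option autoImplicit false

/-! Outer automorphisms of D4(q). -/

namespace Cfsg.Agent.H22.Cw

open CfsgLib.Chev Cfsg.Lie CfsgLib.SA

open Good3 in
theorem mem_KH {D : ChevalleyDatum} {T : Tb} (g : Good3 D T) {F : Type*} [Field F] (b : Fin T.l → Fˣ) :
    b ∈ KH D T F ↔ ∃ a : ℕ → Fˣ, ∀ j : Fin T.l, b j = hchi T a (T.sim j) := by
  constructor
  · intro h
    have h1 : torHom D T F b ∈ D.diagonalSubgroup F := h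
    obtain ⟨a, ha⟩ := g.mem_H.1 h1
    rw [g.hel_eq_tor] at ha
    refine ⟨a, fun j => ?_⟩
    have := g.tor_inj ha j j.2
    unfold ext1 at this
    rw [dif_pos j.2] at this
    exact this
  · rintro ⟨a, ha⟩
    show torHom D T F b ∈ D.diagonalSubgroup F
    refine g.mem_H.2 ⟨a, ?_⟩
    rw [g.hel_eq_tor]
    apply tor_congr
    intro j hj
    unfold ext1
    rw [dif_pos hj]
    exact ha ⟨j, hj⟩

def cD4 : Fin 4 → Fin 4 → ℤ := ![![2, -1, 0, 0], ![-1, 2, -1, -1], ![0, -1, 2, 0], ![0, -1, 0, 2]]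
theorem cm_D4 : ∀ i j : Fin 4, tD4.A i (tD4.sim j) = cD4 i j := by decide +kernel

theorem hchi_D4 {F : Type*} [Field F] (a : ℕ → Fˣ) (j : Fin 4) : hchi tD4 a (tD4.sim j) = ∏ i : Fin 4, a i ^ cD4 i j := by
  unfold hchi
  show ∏ i ∈ Finset.range 4, a i ^ tD4.A i (tD4.sim j) = _
  rw [Finset.prod_range]
  apply Finset.prod_congr rfl
  intro i _
  rw [cm_D4]

/-- the inner diagonal classes of D4 -/
theorem mem_KH_D4 {F : Type*} [Field F] (b : Fin 4 → Fˣ) :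
    b ∈ Good3.KH chevD4 tD4 F ↔ ∃ a : Fin 4 → Fˣ, b 0 = a 0 * a 0 * (a 1)⁻¹ ∧ b 1 = (a 0)⁻¹ * (a 1 * a 1) * (a 2)⁻¹ * (a 3)⁻¹ ∧
      b 2 = (a 1)⁻¹ * (a 2 * a 2) ∧ b 3 = (a 1)⁻¹ * (a 3 * a 3) := by
  refine (mem_KH good3_D4 (F := F) b).trans ?_
  have h2 : ∀ a : ℕ → Fˣ, (∀ j : Fin 4, b j = hchi tD4 a (tD4.sim j)) ↔ (b 0 = a 0 * a 0 * (a 1)⁻¹ ∧ b 1 = (a 0)⁻¹ * (a 1 * a 1) * (a 2)⁻¹ * (a 3)⁻¹ ∧
      b 2 = (a 1)⁻¹ * (a 2 * a 2) ∧ b 3 = (a 1)⁻¹ * (a 3 * a 3)) := by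
    intro a
    have e : ∀ j, hchi tD4 a (tD4.sim (j : Fin 4)) = ∏ i : Fin 4, a i ^ cD4 i j := hchi_D4 a
    simp only [e, Fin.prod_univ_four]
    rw [Fin.forall_fin_succ, Fin.forall_fin_succ, Fin.forall_fin_succ, Fin.forall_fin_succ]
    simp [cD4, pow_two, zpow_two]
  constructor
  · rintro ⟨a, ha⟩
    exact ⟨fun j => a j, (h2 a).1 ha⟩
  · rintro ⟨a, ha⟩
    refine ⟨fun j => if h : j < 4 then a ⟨j, h⟩ else 1, (h2 _).2 ?_⟩
    simpa using ha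

theorem sq_KH_D4 {F : Type*} [Field F] (b : Fin 4 → Fˣ) : b * b ∈ Good3.KH chevD4 tD4 F := by
  rw [mem_KH_D4]
  let d := b 1 * b 1 * b 0 * b 2 * b 3
  refine ⟨![b 0 * d, d * d, b 2 * d, b 3 * d], ?_, ?_, ?_, ?_⟩
  · show b 0 * b 0 = b 0 * d * (b 0 * d) * (d * d)⁻¹
    rw [eq_mul_inv_iff_mul_eq]; simp only [mul_assoc, mul_comm, mul_left_comm]
  · show b 1 * b 1 = (b 0 * d)⁻¹ * (d * d * (d * d)) * (b 2 * d)⁻¹ * (b 3 * d)⁻¹
    rw [eq_mul_inv_iff_mul_eq, eq_mul_inv_iff_mul_eq, eq_inv_mul_iff_mul_eq]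
    show b 0 * d * (b 1 * b 1 * (b 3 * d) * (b 2 * d)) = d * d * ((b 1 * b 1 * b 0 * b 2 * b 3) * d)
    simp only [mul_assoc, mul_comm, mul_left_comm]
  · show b 2 * b 2 = (d * d)⁻¹ * (b 2 * d * (b 2 * d))
    rw [eq_inv_mul_iff_mul_eq]; simp only [mul_assoc, mul_comm, mul_left_comm]
  · show b 3 * b 3 = (d * d)⁻¹ * (b 3 * d * (b 3 * d))
    rw [eq_inv_mul_iff_mul_eq]; simp only [mul_assoc, mul_comm, mul_left_comm]

/-- the leaves have the same square class -/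
theorem leaf_KH_D4 {F : Type*} [Field F] {b : Fin 4 → Fˣ} (h : b ∈ Good3.KH chevD4 tD4 F) {i k : Fin 4} (hi : i ≠ 1) (hk : k ≠ 1) :
    ∃ w : Fˣ, b i = w * w * b k := by
  obtain ⟨a, h0, _, h2, h3⟩ := (mem_KH_D4 b).1 h
  have key : ∀ i : Fin 4, i ≠ 1 → b i = a i * a i * (a 1)⁻¹ := by
    intro i hi
    fin_cases i
    · exact h0
    · exact absurd rfl hi
    · show b 2 = a 2 * a 2 * (a 1)⁻¹
      rw [h2, mul_comm]
    · show b 3 = a 3 * a 3 * (a 1)⁻¹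
      rw [h3, mul_comm]
  refine ⟨a i * (a k)⁻¹, ?_⟩
  rw [key i hi, key k hk]
  have : a i * (a k)⁻¹ * (a i * (a k)⁻¹) * (a k * a k * (a 1)⁻¹) = a i * a i * (a 1)⁻¹ * ((a k)⁻¹ * a k) * ((a k)⁻¹ * a k) := by
    simp only [mul_assoc, mul_comm, mul_left_comm]
  rw [this]; simp

def eD3 : Fin 3 ≃ {x : Fin 4 // x ≠ 1} where
  toFun i := (![⟨0, by decide⟩, ⟨2, by decide⟩, ⟨3, by decide⟩] : Fin 3 → {x : Fin 4 // x ≠ 1}) i
  invFun x := ![0, 0, 1, 2] x.1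
  left_inv := by intro i; fin_cases i <;> rfl
  right_inv := by
    rintro ⟨x, hx⟩
    fin_cases x
    · rfl
    · exact absurd rfl hx
    · rfl
    · rfl

def iD4 : Equiv.Perm (Fin 3) →* Equiv.Perm (Fin 4) := Equiv.Perm.extendDomainHom eD3

theorem iD4_inj : Function.Injective iD4 := Equiv.Perm.extendDomainHom_injective eD3

theorem iD4_one (s : Equiv.Perm (Fin 3)) : iD4 s 1 = 1 := by
  show s.extendDomain eD3 1 = 1
  rw [Equiv.Perm.extendDomain_apply_not_subtype]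
  simp

theorem iD4_surj {ρ : Equiv.Perm (Fin 4)} (h : ρ 1 = 1) : ∃ s, iD4 s = ρ := by
  revert ρ
  decide +kernel

theorem iD4_sep (s : Equiv.Perm (Fin 3)) (hs : s ≠ 1) : ∃ i k : Fin 4, i ≠ 1 ∧ k ≠ 1 ∧ k ≠ i ∧ (iD4 s).symm i ≠ i ∧ (iD4 s).symm k ≠ i := by
  revert s
  decide +kernel

theorem ex_gr_D4 {F : Type*} [Field F] [Finite F] (s : Equiv.Perm (Fin 3)) : ∃ γ : chevD4.group F ≃* chevD4.group F, good3_D4.IsGr γ (iD4 s) := by
  have hcl : Good3.SAC tD4 F := good4_D4.sac_SL sl_D4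
  have ha : rD4a ∈ (good3_D4.pmO (F := F)).range := (good3_D4.mem_pm_range hcl).2 isGr_D4a
  have hc : rD4c ∈ (good3_D4.pmO (F := F)).range := (good3_D4.mem_pm_range hcl).2 isGr_D4c
  refine (good3_D4.mem_pm_range hcl).1 ?_
  rcases rD4_gen _ (iD4_one s) with h | h | h | h | h | h <;> rw [h]
  · exact Subgroup.one_mem _
  · exact ha
  · exact Subgroup.mul_mem _ ha ha
  · exact hc
  · exact Subgroup.mul_mem _ ha hc
  · exact Subgroup.mul_mem _ (Subgroup.mul_mem _ ha ha) hc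

theorem all_gr_D4 {F : Type*} [Field F] [Finite F] (ρ : Equiv.Perm (Fin 4)) (γ : chevD4.group F ≃* chevD4.group F) (hγ : good3_D4.IsGr γ ρ) :
    ∃ s, iD4 s = ρ := by
  apply iD4_surj
  apply perm_D4
  intro i j hij
  have h0 : ∀ i j : Fin 4, i ≠ j → tD4.A i (tD4.sim j) = 0 → tD4.A (ρ i) (tD4.sim (ρ j)) = 0 := fun i j hij hA => hγ.adj hij hA
  have h1 := adj_iff_of (P := fun i j : Fin 4 => tD4.A i (tD4.sim j) = 0) h0 i j hij
  have h2 := am_D4 i j hij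
  have h3 := am_D4 (ρ i) (ρ j) (fun h => hij (ρ.injective h))
  rw [← Bool.not_inj_iff, ← h2, ← h3]
  exact decide_eq_decide.2 h1.symm

theorem card_quot_D4 {F : Type*} [Field F] [Fintype F] : Nat.card ((Fin 4 → Fˣ) ⧸ Good3.KH chevD4 tD4 F) = Nat.gcd 2 (Fintype.card F - 1) * Nat.gcd 2 (Fintype.card F - 1) := by
  have h1 := good3_D4.card_quot (F := F)
  have h2 := good3_D4.card_H_list (F := F) smith_D4 rfl
  have h3 : ((([-1, -1, -2, 2] : List ℤ).map fun z => Nat.gcd z.natAbs (Fintype.card F - 1)).prod) = Nat.gcd 2 (Fintype.card F - 1) * Nat.gcd 2 (Fintype.card F - 1) := by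
    simp
  rw [h3] at h2
  have h4 : (Fintype.card F - 1) ^ chevD4.rank = (Fintype.card F - 1) ^ tD4.l := congrArg _ good3_D4.hl
  rw [h4, ← h1] at h2
  have h5 : 0 < Nat.card (chevD4.diagonalSubgroup F) := Nat.card_pos
  exact Nat.eq_of_mul_eq_mul_right h5 h2.symm

theorem gr_card_D4 {F : Type*} [Field F] [Finite F] :
    Nat.card {ρ : Equiv.Perm (Fin 4) // ∃ γ : chevD4.group F ≃* chevD4.group F, good3_D4.IsGr γ ρ} = 6 := by
  let e : Equiv.Perm (Fin 3) ≃ {ρ : Equiv.Perm (Fin 4) // ∃ γ : chevD4.group F ≃* chevD4.group F, good3_D4.IsGr γ ρ} :=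
    Equiv.ofBijective (fun s => ⟨iD4 s, ex_gr_D4 s⟩) ⟨fun s t h => iD4_inj (congrArg Subtype.val h), fun ⟨ρ, γ, hγ⟩ => by
      obtain ⟨s, hs⟩ := all_gr_D4 ρ γ hγ
      exact ⟨s, Subtype.ext hs⟩⟩
  rw [← Nat.card_congr e, Nat.card_perm, Nat.card_eq_fintype_card, Fintype.card_fin]
  rfl

theorem out_card_D4 {F : Type*} [Field F] [Fintype F] {p f : ℕ} [Fact p.Prime] (hF : Fintype.card F = p ^ f) :
    Nat.card (Cfsg.Out ↥(chevD4.group F)) = Nat.gcd 2 (Fintype.card F - 1) * Nat.gcd 2 (Fintype.card F - 1) * (6 * f) := by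
  have h1 := good3_D4.out_card (F := F) (good4_D4.sac_SL sl_D4) (by decide)
  have h2 := card_quot_D4 (F := F)
  have h3 := gr_card_D4 (F := F)
  have h4 := (gal_card (F := F) p f (by rw [Nat.card_eq_fintype_card, hF])).2
  rw [h4] at h1
  rw [h1]
  have h5 : Nat.card ((Fin tD4.l → Fˣ) ⧸ Good3.KH chevD4 tD4 F) = Nat.gcd 2 (Fintype.card F - 1) * Nat.gcd 2 (Fintype.card F - 1) := h2
  have h6 : Nat.card {ρ : Equiv.Perm (Fin tD4.l) // ∃ γ : chevD4.group F ≃* chevD4.group F, good3_D4.IsGr γ ρ} = 6 := h3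
  rw [h5, h6]

/-- characteristic two -/
theorem out_D4_two {F : Type*} [Field F] [Fintype F] {f : ℕ} (hf : 1 ≤ f) (hF : Fintype.card F = 2 ^ f) :
    Nonempty (Cfsg.Out ↥(chevD4.group F) ≃* Equiv.Perm (Fin 3) × Multiplicative (ZMod f)) := by
  have : Fact (Nat.Prime 2) := ⟨Nat.prime_two⟩
  have hG := gal_card (F := F) 2 f (by rw [Nat.card_eq_fintype_card, hF])
  have hg : Nat.gcd 2 (Fintype.card F - 1) = 1 := by
    have h9 : Nat.Coprime 2 (Fintype.card F - 1) := by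
      rw [Nat.coprime_two_left, hF]
      have : Even (2 ^ f) := (Nat.even_pow.2 ⟨by decide, by omega⟩)
      have h8 : 1 ≤ 2 ^ f := Nat.one_le_two_pow
      exact Nat.Even.sub_odd h8 this (by decide)
    exact h9
  have hK : Good3.KH chevD4 tD4 F = ⊤ := by
    have h1 := card_quot_D4 (F := F)
    rw [hg] at h1
    exact Subgroup.index_eq_one.1 h1
  obtain ⟨e1⟩ := out_noD good3_D4 (F := F) (S := Equiv.Perm (Fin 3)) (ι := iD4) sl_D4 (good4_D4.sac_SL sl_D4) (by decide) iD4_inj ex_gr_D4 all_gr_D4 hK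
  have := hG.1
  obtain ⟨e2⟩ := cyc_iso (G := F ≃+* F) hf hG.2
  exact ⟨e1.trans (MulEquiv.prodCongr (MulEquiv.refl _) e2)⟩

theorem hfa_D4 {F : Type*} [Field F] {u : F} (hu : ¬ IsSquare u) (s : Equiv.Perm (Fin 3)) (hs : s ≠ 1) :
    ∃ b : Fin 4 → Fˣ, (fun j : Fin 4 => b ((iD4 s).symm j) / b j) ∉ Good3.KH chevD4 tD4 F := by
  have hu0 : u ≠ 0 := fun h => hu (h ▸ ⟨0, by simp⟩)
  obtain ⟨i, k, hi, hk, hki, h1, h2⟩ := iD4_sep s hs
  refine ⟨fun j => if j = i then Units.mk0 u hu0 else 1, ?_⟩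
  intro h
  obtain ⟨w, hw⟩ := leaf_KH_D4 h hi hk
  simp only [h1, h2, hki, if_true, if_false] at hw
  apply hu
  refine ⟨((w⁻¹ : Fˣ) : F), ?_⟩
  have h3 : Units.mk0 u hu0 = w⁻¹ * w⁻¹ := by
    have := congrArg (fun x => x⁻¹) hw
    simpa using this
  exact congrArg (fun x : Fˣ => (x : F)) h3

/-- odd characteristic -/
theorem out_D4_odd {F : Type*} [Field F] [Fintype F] {p f : ℕ} [Fact p.Prime] (hf : 1 ≤ f) (hF : Fintype.card F = p ^ f) (hp : p ≠ 2) :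
    Nonempty (Cfsg.Out ↥(chevD4.group F) ≃* Equiv.Perm (Fin 4) × Multiplicative (ZMod f)) := by
  have hG := gal_card (F := F) p f (by rw [Nat.card_eq_fintype_card, hF])
  have hodd : Odd (Fintype.card F) := by
    rw [hF]
    exact ((Fact.out : p.Prime).odd_of_ne_two hp).pow
  have hg : Nat.gcd 2 (Fintype.card F - 1) = 2 := by
    apply Nat.gcd_eq_left
    obtain ⟨k, hk⟩ := hodd
    exact ⟨k, by omega⟩
  have hO := out_card_D4 (F := F) (p := p) (f := f) hF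
  rw [hg] at hO
  have hch : ringChar F ≠ 2 := by
    intro h
    have h1 : CharP F p := charP_of_card_eq_prime_pow hF
    have h2 := ringChar.eq F p
    exact hp (h2.symm.trans h)
  obtain ⟨u, hu⟩ := FiniteField.exists_nonsquare hch
  have hu0 : u ≠ 0 := fun h => hu (h ▸ ⟨0, by simp⟩)
  refine out_D good3_D4 (F := F) (S := Equiv.Perm (Fin 3)) (ι := iD4) sl_D4 (good4_D4.sac_SL sl_D4) (by decide) ex_gr_D4 all_gr_D4
    ?_ ?_ sq_KH_D4 ?_ hf hG.2 hG.1 (by rw [hO]; ring)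
  · rw [Nat.card_perm, Nat.card_eq_fintype_card, Fintype.card_fin]; rfl
  · have h1 := card_quot_D4 (F := F)
    rw [hg] at h1
    exact h1
  · exact hfa_D4 hu

theorem out_plus_two {F : Type*} [Field F] [Fintype F] {f : ℕ} (hf : 1 ≤ f) (hF : Fintype.card F = 2 ^ f) :
    Nonempty (Cfsg.Out (Cfsg.POmega F (Cfsg.quadFormPlus 4 F)) ≃* Equiv.Perm (Fin 3) × Multiplicative (ZMod f)) := by
  obtain ⟨e⟩ := Cv.isoD (F := F)
  obtain ⟨e1⟩ := out_D4_two (F := F) hf hF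
  exact ⟨(Cv.outCongr e).symm.trans e1⟩

theorem out_plus_odd {F : Type*} [Field F] [Fintype F] {p f : ℕ} [Fact p.Prime] (hf : 1 ≤ f) (hF : Fintype.card F = p ^ f) (hp : p ≠ 2) :
    Nonempty (Cfsg.Out (Cfsg.POmega F (Cfsg.quadFormPlus 4 F)) ≃* Equiv.Perm (Fin 4) × Multiplicative (ZMod f)) := by
  obtain ⟨e⟩ := Cv.isoD (F := F)
  obtain ⟨e1⟩ := out_D4_odd (F := F) hf hF hp
  exact ⟨(Cv.outCongr e).symm.trans e1⟩

end Cfsg.Agent.H22.Cw
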