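import Cfsg.Agent.LibMin27d
import Cfsg.Agent.LibCardAut27
import Cfsg.Agent.LibH22Cw1

set_option autoImplicit false

/-! Outer automorphism groups of the plus-type orthogonal groups of dimension at least ten. -/

namespace Cfsg.Agent.H22.Cw

open Cfsg.Agent.H22 CfsgLib.Semi27 CfsgLib.Lift27 CfsgLib.RhoO27 CfsgLib.AutO27 CfsgLib.Spinor27 CfsgLib.Even27 CfsgLib.AutPSL27 CfsgLib.Small27 CfsgLib.Min27 Module Matrix

section gen
variable {F : Type*} [Field F] [Fintype F] {ι : Type} [Fintype ι] [DecidableEq ι] {Q : QuadraticForm F (ι → F)}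

instance finOut : Finite (Cfsg.Out (Cfsg.POmega F ⇑Q)) := by
  haveI : Finite (GL ι F) := inferInstance
  haveI : Finite (Cfsg.isometryGroup F ⇑Q) := inferInstance
  haveI : Finite (Cfsg.POmega F ⇑Q) := by infer_instance
  haveI : Finite (MulAut (Cfsg.POmega F ⇑Q)) := inferInstance
  exact Finite.of_surjective _ (QuotientGroup.mk'_surjective (Cfsg.Inn (Cfsg.POmega F ⇑Q)))

variable {e f : Fin 3 → (ι → F)} {u : ι → F} {χ : (F ≃+* F) →* SP Q} (hχ : ∀ σ, (χ σ).1.right = σ)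

include hχ in
theorem splitF (x : SP Q) : ∃ g : GOs Q, x = JG Q g * χ x.1.right := by
  obtain ⟨g, hg⟩ := exists_JG (x := x * (χ x.1.right)⁻¹) (by
    show x.1.right * (χ x.1.right).1.right⁻¹ = 1
    rw [hχ, mul_inv_cancel])
  exact ⟨g, by rw [← hg, inv_mul_cancel_right]⟩

/-- the general decomposition -/
theorem out_split (hG : Good Q e f u) {n : ℕ} (hn : 1 ≤ n) (hcard : Nat.card (F ≃+* F) = n) {φ : F ≃+* F} (hφ : ∀ σ, σ ∈ Subgroup.zpowers φ)
    (hχ : ∀ σ, (χ σ).1.right = σ)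
    (a : GOs Q) (hc : ∀ g : GOs Q, Commute (pj Q (χ φ) * pj Q (JG Q a)) (pj Q (JG Q g))) (hord : (pj Q (χ φ) * pj Q (JG Q a)) ^ n = 1) :
    Nonempty (Cfsg.Out (Cfsg.POmega F ⇑Q) ≃* (GOs Q ⧸ KI Q) × Multiplicative (ZMod n)) := by
  classical
  obtain ⟨β, hβ⟩ : ∃ β, β = pj Q (χ φ) * pj Q (JG Q a) := ⟨_, rfl⟩
  rw [← hβ] at hc hord
  let A : Subgroup (Cfsg.Out (Cfsg.POmega F ⇑Q)) := ((pj Q).comp (JG Q)).range
  have hcA : ∀ x ∈ A, ∀ c ∈ Subgroup.zpowers β, x * c = c * x := by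
    rintro _ ⟨g, rfl⟩ c hc'
    obtain ⟨j, rfl⟩ := Subgroup.mem_zpowers_iff.1 hc'
    exact ((hc g).zpow_left j).symm
  have hker : ((pj Q).comp (JG Q)).ker = KI Q := by
    ext g
    rw [MonoidHom.mem_ker]
    exact pj_JG hG.gd g
  have e1 : A ≃* GOs Q ⧸ KI Q :=
    (QuotientGroup.quotientKerEquivRange _).symm.trans (QuotientGroup.quotientMulEquivOfEq hker)
  have hφβ : pj Q (χ φ) = β * (pj Q (JG Q a))⁻¹ := by rw [hβ, mul_inv_cancel_right]
  have hpow : ∀ j : ℤ, pj Q (χ φ) ^ j = pj Q (JG Q (a⁻¹ ^ j)) * β ^ j := by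
    intro j
    have h1 : Commute β (pj Q (JG Q a))⁻¹ := (hc a).inv_right
    rw [hφβ, h1.mul_zpow, map_zpow, map_zpow, map_inv, map_inv]
    exact (h1.zpow_zpow j j)
  have hdec : ∀ o : Cfsg.Out (Cfsg.POmega F ⇑Q), ∃ x ∈ A, ∃ c ∈ Subgroup.zpowers β, o = x * c := by
    intro o
    obtain ⟨x, rfl⟩ := pj_surj hG o
    obtain ⟨g, hg⟩ := splitF hχ x
    obtain ⟨j, hj⟩ := Subgroup.mem_zpowers_iff.1 (hφ x.1.right)
    refine ⟨pj Q (JG Q (g * a⁻¹ ^ j)), ⟨_, rfl⟩, β ^ j, ⟨j, rfl⟩, ?_⟩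
    have h1 : pj Q x = pj Q (JG Q g) * pj Q (χ x.1.right) := (congrArg _ hg).trans (map_mul _ _ _)
    rw [h1, ← hj, map_zpow, map_zpow, hpow, map_mul, map_mul, mul_assoc]
  have hfG : Finite (F ≃+* F) := Nat.finite_of_card_ne_zero (by rw [hcard]; omega)
  have hinj : Function.Injective (fun q : A × (F ≃+* F) => (q.1 : Cfsg.Out (Cfsg.POmega F ⇑Q)) * pj Q (χ q.2)) := by
    rintro ⟨⟨_, g, rfl⟩, σ⟩ ⟨⟨_, g', rfl⟩, σ'⟩ h
    have h' : pj Q (JG Q g) * pj Q (χ σ) = pj Q (JG Q g') * pj Q (χ σ') := h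
    have h1 : pj Q ((JG Q g * χ σ) * (JG Q g' * χ σ')⁻¹) = 1 := by
      rw [map_mul, map_inv, map_mul, map_mul, h', mul_inv_cancel]
    rw [pj_eq_one hG.gd] at h1
    have h2 : (1 * (χ σ).1.right) * (1 * (χ σ').1.right)⁻¹ = 1 := h1.1
    rw [one_mul, one_mul, mul_inv_eq_one, hχ, hχ] at h2
    subst h2
    have h3 := mul_right_cancel h'
    exact Prod.ext (Subtype.ext h3) rfl
  have hle : Nat.card A * Nat.card (Subgroup.zpowers β) ≤ Nat.card (Cfsg.Out (Cfsg.POmega F ⇑Q)) := by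
    have h1 := Nat.card_le_card_of_injective _ hinj
    rw [Nat.card_prod, hcard] at h1
    refine le_trans (Nat.mul_le_mul_left _ ?_) h1
    rw [Nat.card_zpowers]
    exact Nat.le_of_dvd (by omega) (orderOf_dvd_of_pow_eq_one hord)
  obtain ⟨e2⟩ := prod_iso A (Subgroup.zpowers β) hcA hdec hle
  have hcard2 : Nat.card (Subgroup.zpowers β) = n := by
    have h1 := Nat.card_le_card_of_injective _ hinj
    rw [Nat.card_prod, hcard, Nat.card_congr e2.toEquiv, Nat.card_prod] at h1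
    have h2 : 0 < Nat.card A := Nat.card_pos
    have h3 := Nat.le_of_mul_le_mul_left h1 h2
    apply le_antisymm _ h3
    rw [Nat.card_zpowers]
    exact Nat.le_of_dvd (by omega) (orderOf_dvd_of_pow_eq_one hord)
  obtain ⟨e3⟩ := cyc_iso (G := Subgroup.zpowers β) hn hcard2
  exact ⟨e2.trans (MulEquiv.prodCongr e1 e3)⟩

end gen

end Cfsg.Agent.H22.Cw
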