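import Cfsg.Agent.LibH22Cw4

set_option autoImplicit false

/-! Outer automorphism groups of the plus-type orthogonal groups of dimension at least ten. -/

namespace Cfsg.Agent.H22.Cw

open Cfsg.Agent.H22 CfsgLib.Semi27 CfsgLib.Lift27 CfsgLib.RhoO27 CfsgLib.AutO27 CfsgLib.Spinor27 CfsgLib.Even27 CfsgLib.AutPSL27 CfsgLib.Small27 CfsgLib.Min27 Module Matrix

section gen
variable {F : Type*} [Field F] [Fintype F] {ι : Type} [Fintype ι] [DecidableEq ι] {Q : QuadraticForm F (ι → F)}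

/-- the standard field automorphisms -/
noncomputable def chiS (hstd : ∀ (σ : F ≃+* F) (v : ι → F), Q (σ ∘ v) = σ (Q v)) : (F ≃+* F) →* SP Q :=
  (SemidirectProduct.inr : (F ≃+* F) →* GamL ι F).codRestrict (SP Q) fun σ => std_mem (hstd σ)

theorem chiS_right (hstd : ∀ (σ : F ≃+* F) (v : ι → F), Q (σ ∘ v) = σ (Q v)) (σ : F ≃+* F) : (chiS hstd σ).1.right = σ := rfl

theorem act_chiS (hstd : ∀ (σ : F ≃+* F) (v : ι → F), Q (σ ∘ v) = σ (Q v)) (σ : F ≃+* F) (v : ι → F) : act (chiS hstd σ).1 v = σ ∘ v :=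
  act_std σ v

/-- a reflection in a fixed vector -/
theorem cjg_rfG (hstd : ∀ (σ : F ≃+* F) (v : ι → F), Q (σ ∘ v) = σ (Q v)) (σ : F ≃+* F) {v : ι → F} (hv : Q v ≠ 0) (hf : σ ∘ v = v) :
    cjg (chiS hstd σ) (rfG v hv) = rfG v hv := by
  apply Subtype.ext
  apply gl_ext
  intro y
  obtain ⟨w, rfl⟩ : ∃ w, σ ∘ w = y := ⟨σ.symm ∘ y, by ext i; simp⟩
  have h1 : (((cjg (chiS hstd σ) (rfG v hv) : GOs Q) : GL ι F) : Matrix ι ι F) *ᵥ act (chiS hstd σ).1 w = act (chiS hstd σ).1 ((((rfG v hv : GOs Q) : GL ι F) : Matrix ι ι F) *ᵥ w) :=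
    cjG_act _ _ w
  rw [act_chiS, act_chiS] at h1
  rw [h1]
  have h2 : (((rfG v hv : GOs Q) : GL ι F) : Matrix ι ι F) *ᵥ w = w - ((Q v)⁻¹ * QuadraticMap.polar Q v w) • v := rfM_mulVec v hv w
  have h3 : (((rfG v hv : GOs Q) : GL ι F) : Matrix ι ι F) *ᵥ (σ ∘ w) = σ ∘ w - ((Q v)⁻¹ * QuadraticMap.polar Q v (σ ∘ w)) • v := rfM_mulVec v hv _
  rw [h2, h3]
  have h4 : QuadraticMap.polar Q v (σ ∘ w) = σ (QuadraticMap.polar Q v w) := by
    unfold QuadraticMap.polar
    have : v + σ ∘ w = σ ∘ (v + w) := by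
      funext i
      show v i + σ (w i) = σ (v i + w i)
      rw [map_add]
      congr 1
      exact (congrFun hf i).symm
    rw [this, hstd, hstd, map_sub, map_sub, ← hstd σ v, hf]
  have h5 : σ (Q v) = Q v := by rw [← hstd, hf]
  funext i
  show σ (w i - ((Q v)⁻¹ * QuadraticMap.polar Q v w) * v i) = σ (w i) - ((Q v)⁻¹ * QuadraticMap.polar Q v (σ ∘ w)) * v i
  rw [h4, map_sub, map_mul, map_mul, map_inv₀, h5]
  congr 2
  exact congrFun hf i

theorem pj_conj (x : SP Q) (g : GOs Q) : pj Q x * pj Q (JG Q g) = pj Q (JG Q (cjg x g)) * pj Q x := by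
  rw [← map_mul, ← map_mul, ← conj_JG, inv_mul_cancel_right]

theorem rfG_sq (v : ι → F) (hv : Q v ≠ 0) : rfG v hv * rfG v hv = (1 : GOs Q) := by
  apply Subtype.ext
  apply gl_ext
  intro y
  show (((rfM Q v hv * rfM Q v hv : Cfsg.isometryGroup F ⇑Q) : GL ι F) : Matrix ι ι F) *ᵥ y = _
  have h5 : rfM Q v hv * rfM Q v hv = 1 := by
    unfold rfM
    rw [← map_mul]
    have h6 : oRefl Q v hv * oRefl Q v hv = 1 := by
      have := oRefl_inv v hv
      rw [inv_eq_iff_mul_eq_one] at this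
      exact this
    rw [h6, map_one]
  rw [h5]; rfl

variable {e f : Fin 3 → (ι → F)} {u : ι → F} {n : ℕ}

/-- the kernel of the characters is centralized -/
theorem ker_comm (h : Ev Q n) (hG : Gd Q e f u) (x : SP Q) {k : GOs Q} (hk : h.ch k = 1) : Commute (pj Q x) (pj Q (JG Q k)) := by
  have h1 := pj_conj x k
  have h2 : pj Q (JG Q (cjg x k)) = pj Q (JG Q k) := by
    rw [pj_JG_eq hG]
    apply ker_class h hG (by rw [ch_cjg, hk]) hk
    rw [← pj_JG hG, ← pj_JG hG]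
    have h3 : pj Q (JG Q (cjg x k)) = pj Q x * pj Q (JG Q k) * (pj Q x)⁻¹ := by rw [h1, mul_inv_cancel_right]
    rw [h3, mul_inv_eq_one, mul_eq_left]
  rw [h2] at h1
  exact h1

/-- an element centralizing generators -/
theorem comm_all (h : Ev Q n) {β : Cfsg.Out (Cfsg.POmega F ⇑Q)} (hk : ∀ k : GOs Q, h.ch k = 1 → Commute β (pj Q (JG Q k)))
    {v : ι → F} (hv : Q v ≠ 0) (hr : Commute β (pj Q (JG Q (rfG v hv)))) {D : GOs Q} (hD : h.ch D = (1, -1)) (hd : Commute β (pj Q (JG Q D))) (g : GOs Q) :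
    Commute β (pj Q (JG Q g)) := by
  have key : ∀ w : GOs Q, Commute β (pj Q (JG Q w)) → h.ch w = h.ch g → Commute β (pj Q (JG Q g)) := by
    intro w hw hwg
    have h1 : g = w * (w⁻¹ * g) := by rw [mul_inv_cancel_left]
    rw [h1, map_mul, map_mul]
    exact hw.mul_right (hk _ (by rw [map_mul, map_inv, hwg, inv_mul_cancel]))
  have hrc : h.ch (rfG v hv) = (-1, 1) := Prod.ext (h.eps_rfG v hv) (h.cl_rfG v hv)
  rcases Int.units_eq_one_or (h.eps g) with h1 | h1 <;> rcases Int.units_eq_one_or (h.cl g) with h3 | h3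
  · apply key 1
    · rw [map_one, map_one]; exact Commute.one_right _
    · rw [map_one]; exact (Prod.ext h1 h3 : h.ch g = (1, 1)).symm
  · exact key D hd (by rw [hD]; exact (Prod.ext h1 h3 : h.ch g = (1, -1)).symm)
  · exact key _ hr (by rw [hrc]; exact (Prod.ext h1 h3 : h.ch g = (-1, 1)).symm)
  · apply key (rfG v hv * D)
    · rw [map_mul, map_mul]; exact hr.mul_right hd
    · rw [map_mul, hrc, hD]; exact (Prod.ext h1 h3 : h.ch g = (-1, -1)).symm

/-- the case `-1 ∈ Ω` -/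
theorem out_in (h : Ev Q n) (hG : Good Q e f u) (hneg : NegIn Q) (hstd : ∀ (σ : F ≃+* F) (v : ι → F), Q (σ ∘ v) = σ (Q v))
    {v : ι → F} (hv : Q v ≠ 0) (hf : ∀ σ : F ≃+* F, σ ∘ v = v) {N : ℕ} (hN : 1 ≤ N) (hcard : Nat.card (F ≃+* F) = N)
    (hcyc : IsCyclic (F ≃+* F)) : Nonempty (Cfsg.Out (Cfsg.POmega F ⇑Q) ≃* (GOs Q ⧸ KI Q) × Multiplicative (ZMod N)) := by
  obtain ⟨φ, hφ⟩ := hcyc.exists_generator
  have hfin : Finite (F ≃+* F) := Nat.finite_of_card_ne_zero (by rw [hcard]; omega)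
  have hφN : φ ^ N = 1 := by rw [← hcard]; exact pow_card_eq_one'
  obtain ⟨c, hc⟩ : ∃ c, c = pj Q (chiS hstd φ) := ⟨_, rfl⟩
  have hcN : c ^ N = 1 := by rw [hc, ← map_pow, ← map_pow, hφN, map_one, map_one]
  obtain ⟨D, hD1, hD2⟩ := h.exists_D
  have hDc : h.ch D = (1, -1) := Prod.ext hD2 hD1
  obtain ⟨r, hr⟩ : ∃ r, r = pj Q (JG Q (rfG v hv)) := ⟨_, rfl⟩
  obtain ⟨d, hd⟩ : ∃ d, d = pj Q (JG Q D) := ⟨_, rfl⟩
  have hcr : Commute c r := by
    have := pj_conj (chiS hstd φ) (rfG v hv)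
    rw [cjg_rfG hstd φ hv (hf φ)] at this
    rw [hc, hr]; exact this
  have hck : ∀ k : GOs Q, h.ch k = 1 → Commute c (pj Q (JG Q k)) := fun k hk => by rw [hc]; exact ker_comm h hG.gd _ hk
  by_cases hcd : Commute c d
  · refine out_split hG hN hcard (φ := φ) hφ (chiS_right hstd) 1 ?_ ?_
    · intro g
      rw [map_one, map_one, mul_one, ← hc]
      exact comm_all h hck hv (by rw [← hr]; exact hcr) hDc (by rw [← hd]; exact hcd) g
    · rw [map_one, map_one, mul_one, ← hc]; exact hcN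
  · -- the class of the commutator
    obtain ⟨k1, hk1⟩ : ∃ k1, k1 = D⁻¹ * cjg (chiS hstd φ) D := ⟨_, rfl⟩
    obtain ⟨k2, hk2⟩ : ∃ k2, k2 = D⁻¹ * (rfG v hv * D * (rfG v hv)⁻¹) := ⟨_, rfl⟩
    have hc1 : h.ch k1 = 1 := by rw [hk1, map_mul, map_inv, ch_cjg, inv_mul_cancel]
    have hc2 : h.ch k2 = 1 := by
      rw [hk2, map_mul, map_mul, map_mul, map_inv, map_inv, mul_comm (h.ch (rfG v hv)), mul_inv_cancel_right, inv_mul_cancel]
    have e1 : c * d = d * pj Q (JG Q k1) * c := by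
      have h1 := pj_conj (chiS hstd φ) D
      have h2 : cjg (chiS hstd φ) D = D * k1 := by rw [hk1, mul_inv_cancel_left]
      rw [h2, map_mul, map_mul] at h1
      rw [hc, hd]; exact h1
    have e2 : r * d = d * pj Q (JG Q k2) * r := by
      rw [hr, hd, ← map_mul, ← map_mul, ← map_mul, ← map_mul, ← map_mul, ← map_mul]
      congr 2
      rw [hk2]; group
    have n1 : k1 ∉ KI Q := by
      intro h1
      apply hcd
      rw [← pj_JG hG.gd] at h1
      rw [h1, mul_one] at e1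
      exact e1
    have n2 : k2 ∉ KI Q := by
      have hspec := mu_spec h.hx D
      have hDx : Q (((D : GL ι F) : Matrix ι ι F) *ᵥ v) ≠ 0 := by
        rw [hspec]; exact mul_ne_zero (Units.ne_zero _) hv
      have hconj : D * rfG v hv * D⁻¹ = rfG _ hDx := Subtype.ext (conj_rfM hspec v hv hDx)
      have hchi : chi (Q v) * chi (Q (((D : GL ι F) : Matrix ι ι F) *ᵥ v)) = -1 := by
        rw [h.cl_apply] at hD1
        rw [hspec, chi_mul h.h2 (Units.ne_zero _) hv, hD1]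
        rcases Int.units_eq_one_or (chi (Q v)) with h3 | h3 <;> rw [h3] <;> rfl
      have hz := h.z_notMem hG.gd hneg hv hDx hchi
      rw [← hconj] at hz
      intro h1
      apply hz
      -- conjugate
      have h2 : rfG v hv * (D * rfG v hv * D⁻¹) = (D * (k2)⁻¹ * D⁻¹)⁻¹ := by
        have hrr : (rfG v hv)⁻¹ = rfG v hv := by rw [inv_eq_iff_mul_eq_one]; exact rfG_sq v hv
        rw [hk2, hrr]
        simp only [_root_.mul_inv_rev, inv_inv, hrr]
        group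
      rw [h2]
      exact (KI Q).inv_mem ((inferInstance : (KI Q).Normal).conj_mem _ ((KI Q).inv_mem h1) D)
    obtain ⟨z, hz⟩ : ∃ z, z = pj Q (JG Q k1) := ⟨_, rfl⟩
    have hz2 : pj Q (JG Q k2) = z := by
      rw [hz, pj_JG_eq hG.gd]
      exact ker_class h hG.gd hc2 hc1 (by constructor <;> intro h1 <;> [exact absurd h1 n2; exact absurd h1 n1])
    rw [← hz] at e1
    rw [hz2] at e2
    have hzz : z * z = 1 := by rw [hz, ← map_mul, ← map_mul, pj_JG hG.gd]; exact ker_sq h hG.gd hc1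
    have hz1 : z ≠ 1 := by rw [hz, Ne, pj_JG hG.gd]; exact n1
    have hcz : Commute c z := by rw [hz]; exact hck _ hc1
    have hrz : Commute r z := by rw [hz, hr]; exact ker_comm h hG.gd _ hc1
    have hrr : r * r = 1 := by rw [hr, ← map_mul, ← map_mul, rfG_sq, map_one, map_one]
    have hpw : ∀ j : ℕ, c ^ j * d = d * z ^ j * c ^ j := by
      intro j
      induction j with
      | zero => simp
      | succ j ih =>
        rw [pow_succ, mul_assoc, e1]
        have h1 : c ^ j * (d * z * c) = (c ^ j * d) * z * c := by simp only [mul_assoc]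
        rw [h1, ih]
        have h2 : Commute (c ^ j) z := hcz.pow_left j
        have h3 : d * z ^ j * c ^ j * z * c = d * z ^ j * (c ^ j * z) * c := by simp only [mul_assoc]
        rw [h3, h2.eq, pow_succ z]
        simp only [mul_assoc]
    have hNe : Even N := by
      rcases Nat.even_or_odd' N with ⟨i, hi | hi⟩
      · exact ⟨i, by omega⟩
      · exfalso
        have h1 := hpw N
        rw [hcN, one_mul, mul_one] at h1
        have h2 : z ^ N = 1 := by
          have : d * 1 = d * z ^ N := by rw [mul_one]; exact h1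
          exact (mul_left_cancel this).symm
        rw [hi, pow_succ, pow_mul, pow_two, hzz, one_pow, one_mul] at h2
        exact hz1 h2
    refine out_split hG hN hcard (φ := φ) hφ (chiS_right hstd) (rfG v hv) ?_ ?_
    · intro g
      rw [← hc, ← hr]
      refine comm_all h ?_ hv ?_ hDc ?_ g
      · intro k hk
        exact (hck k hk).mul_left (by rw [hr]; exact ker_comm h hG.gd _ hk)
      · rw [← hr]
        exact hcr.mul_left (Commute.refl r)
      · rw [← hd]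
        show c * r * d = d * (c * r)
        calc c * r * d = c * (r * d) := by rw [mul_assoc]
          _ = (c * d) * z * r := by rw [e2]; simp only [mul_assoc]
          _ = d * z * (c * z) * r := by rw [e1]; simp only [mul_assoc]
          _ = d * (z * z) * c * r := by rw [hcz.eq]; simp only [mul_assoc]
          _ = d * (c * r) := by rw [hzz, mul_one, mul_assoc]
    · rw [← hc, ← hr, hcr.mul_pow, hcN, one_mul]
      obtain ⟨i, hi⟩ := hNe
      rw [hi, ← two_mul, pow_mul, pow_two, hrr, one_pow]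

/-- the case `-1 ∉ Ω` -/
theorem out_notin (h : Ev Q n) (hG : Good Q e f u) (hneg : ¬ NegIn Q) (hstd : ∀ (σ : F ≃+* F) (v : ι → F), Q (σ ∘ v) = σ (Q v))
    {N : ℕ} (hN : 1 ≤ N) (hcard : Nat.card (F ≃+* F) = N)
    (hcyc : IsCyclic (F ≃+* F)) : Nonempty (Cfsg.Out (Cfsg.POmega F ⇑Q) ≃* (GOs Q ⧸ KI Q) × Multiplicative (ZMod N)) := by
  obtain ⟨φ, hφ⟩ := hcyc.exists_generator
  have hfin : Finite (F ≃+* F) := Nat.finite_of_card_ne_zero (by rw [hcard]; omega)
  have hφN : φ ^ N = 1 := by rw [← hcard]; exact pow_card_eq_one'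
  have hKI : ∀ g, g ∈ KI Q ↔ h.ch g = 1 := by
    intro g
    constructor
    · intro hg; exact KI_le h hG.gd hg
    · intro hg
      exact (Subgroup.relIndex_eq_one.1 ((h.KI_relIndex hG.gd).2 hneg)) (MonoidHom.mem_ker.2 hg)
  refine out_split hG hN hcard (φ := φ) hφ (chiS_right hstd) 1 ?_ ?_
  · intro g
    rw [map_one, map_one, mul_one]
    have h1 := pj_conj (chiS hstd φ) g
    have h2 : pj Q (JG Q (cjg (chiS hstd φ) g)) = pj Q (JG Q g) := by
      rw [pj_JG_eq hG.gd, hKI, map_mul, map_inv, ch_cjg, inv_mul_cancel]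
    rw [h2] at h1
    exact h1
  · rw [map_one, map_one, mul_one, ← map_pow, ← map_pow, hφN, map_one, map_one]

theorem quot_notin (h : Ev Q n) (hG : Gd Q e f u) (hneg : ¬ NegIn Q) : Nonempty (GOs Q ⧸ KI Q ≃* Multiplicative (ZMod 2) × Multiplicative (ZMod 2)) := by
  have hKI : KI Q = h.ch.ker := le_antisymm (KI_le h hG) (Subgroup.relIndex_eq_one.1 ((h.KI_relIndex hG).2 hneg))
  have e1 : (GOs Q ⧸ KI Q) ≃* (ℤˣ × ℤˣ) := (QuotientGroup.quotientMulEquivOfEq hKI).trans (QuotientGroup.quotientKerEquivOfSurjective h.ch h.ch_surj)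
  haveI : Fact (Nat.Prime 2) := ⟨Nat.prime_two⟩
  have e2 : ℤˣ ≃* Multiplicative (ZMod 2) := mulEquivOfPrimeCardEq (p := 2) (by simp [Nat.card_eq_fintype_card]) (by simp)
  exact ⟨e1.trans (MulEquiv.prodCongr e2 e2)⟩

section two
variable [CharP F 2]

theorem mem_KI_two (hQ : (QuadraticMap.polarBilin Q).Nondegenerate) (hF : (∃ a : F, a ≠ 0 ∧ a ≠ 1) ∨ finrank F (ι → F) ≠ 4)
    (hn : Fintype.card ι = 2 * n) (hx : ∃ x, Q x ≠ 0) (hG : Gd Q e f u) {g : GOs Q} {s : Fˣ} {t : Cfsg.isometryGroup F ⇑Q}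
    (hg : (g : GL ι F) = scal s * (t : GL ι F)) : g ∈ KI Q ↔ par hQ hF (oIso Q t) = 1 := by
  rw [mem_KI hG]
  constructor
  · rintro ⟨a, s', hs'⟩
    apply par_inn hQ hF hn hx (a := s⁻¹ * a) (s := s')
    rw [hs'] at hg
    rw [scal_mul, mul_assoc, hg, ← mul_assoc, ← scal_mul, inv_mul_cancel, scal_one, one_mul]
  · intro h1
    exact ⟨s, ⟨t, (two_omega hQ hF hx t).2 h1⟩, hg⟩

theorem out_two (hQ : (QuadraticMap.polarBilin Q).Nondegenerate) (hn : Fintype.card ι = 2 * n) (hG : Good Q e f u)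
    (hstd : ∀ (σ : F ≃+* F) (v : ι → F), Q (σ ∘ v) = σ (Q v))
    {v : ι → F} (hv : Q v ≠ 0) (hf : ∀ σ : F ≃+* F, σ ∘ v = v) {N : ℕ} (hN : 1 ≤ N) (hcard : Nat.card (F ≃+* F) = N)
    (hcyc : IsCyclic (F ≃+* F)) : Nonempty (Cfsg.Out (Cfsg.POmega F ⇑Q) ≃* Multiplicative (ZMod 2) × Multiplicative (ZMod N)) := by
  have hF : (∃ a : F, a ≠ 0 ∧ a ≠ 1) ∨ finrank F (ι → F) ≠ 4 := hG.gd.hF
  have hx : ∃ x, Q x ≠ 0 := ⟨v, hv⟩
  have hpr : par hQ hF (oIso Q (rfM Q v hv)) = -1 := by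
    unfold rfM
    rw [MulEquiv.apply_symm_apply, par_refl]
  have hrr : ((rfG v hv : GOs Q) : GL ι F) = ((rfM Q v hv : Cfsg.isometryGroup F ⇑Q) : GL ι F) := rfl
  have hmul : ∀ g : GOs Q, g * rfG v hv ∈ KI Q ↔ g ∉ KI Q := by
    intro g
    obtain ⟨s, t, ht⟩ := two_split g.2
    rw [mem_KI_two hQ hF hn hx hG.gd ht, mem_KI_two hQ hF hn hx hG.gd (g := g * rfG v hv) (s := s) (t := t * rfM Q v hv) (by
      rw [Subgroup.coe_mul, Subgroup.coe_mul, hrr, ht, mul_assoc]), map_mul, map_mul, hpr]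
    rcases Int.units_eq_one_or (par hQ hF (oIso Q t)) with h1 | h1 <;> rw [h1] <;> decide
  have hidx : (KI Q).index = 2 := by
    rw [Subgroup.index_eq_two_iff]
    refine ⟨rfG v hv, fun g => ?_⟩
    rw [hmul g]
    by_cases h1 : g ∈ KI Q
    · right; exact ⟨h1, fun h2 => h2 h1⟩
    · left; exact ⟨h1, h1⟩
  haveI : Fact (Nat.Prime 2) := ⟨Nat.prime_two⟩
  have e1 : GOs Q ⧸ KI Q ≃* Multiplicative (ZMod 2) := mulEquivOfPrimeCardEq (p := 2) hidx (by simp)
  obtain ⟨φ, hφ⟩ := hcyc.exists_generator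
  have hfin : Finite (F ≃+* F) := Nat.finite_of_card_ne_zero (by rw [hcard]; omega)
  have hφN : φ ^ N = 1 := by rw [← hcard]; exact pow_card_eq_one'
  obtain ⟨e2⟩ := out_split hG hN hcard (φ := φ) hφ (chiS_right hstd) 1 (by
    intro g
    rw [map_one, map_one, mul_one]
    have hcr : Commute (pj Q (chiS hstd φ)) (pj Q (JG Q (rfG v hv))) := by
      have := pj_conj (chiS hstd φ) (rfG v hv)
      rw [cjg_rfG hstd φ hv (hf φ)] at this
      exact this
    by_cases h1 : g ∈ KI Q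
    · rw [(pj_JG hG.gd g).2 h1]; exact Commute.one_right _
    · rw [← hmul g, ← pj_JG hG.gd, map_mul, map_mul, mul_eq_one_iff_eq_inv] at h1
      rw [h1]; exact hcr.inv_right) (by
    rw [map_one, map_one, mul_one, ← map_pow, ← map_pow, hφN, map_one, map_one])
  exact ⟨e2.trans (MulEquiv.prodCongr e1 (MulEquiv.refl _))⟩

end two

end gen

section plus
variable {F : Type*} [Field F] [Fintype F] {m : ℕ}

theorem std_plus (σ : F ≃+* F) (v : Fin m ⊕ Fin m → F) : qPlus m F (σ ∘ v) = σ (qPlus m F v) := by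
  rw [coe_qPlus]
  unfold Cfsg.quadFormPlus
  rw [map_sum]
  apply Finset.sum_congr rfl
  intro i _
  rw [map_mul]; rfl

/-- the vector of norm one with prime-field coordinates -/
def v1 (F : Type*) [Field F] (i₀ : Fin m) : Fin m ⊕ Fin m → F := Sum.elim (Pi.single i₀ 1) (Pi.single i₀ 1)

theorem Q_v1 (i₀ : Fin m) : qPlus m F (v1 F i₀) = 1 := by
  rw [coe_qPlus]
  unfold Cfsg.quadFormPlus v1
  rw [Finset.sum_eq_single i₀]
  · simp
  · intro j _ hj
    simp [hj]
  · intro h; exact absurd (Finset.mem_univ _) h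

theorem fix_v1 (i₀ : Fin m) (σ : F ≃+* F) : σ ∘ v1 F i₀ = v1 F i₀ := by
  funext j
  rcases j with j | j <;>
  · show σ ((Pi.single i₀ 1 : Fin m → F) j) = (Pi.single i₀ 1 : Fin m → F) j
    by_cases h : j = i₀
    · subst h; simp
    · simp [h]

theorem out_plus5_two {N : ℕ} (hN : 1 ≤ N) (hF : Fintype.card F = 2 ^ N) (hm : 5 ≤ m) :
    Nonempty (Cfsg.Out (Cfsg.POmega F (Cfsg.quadFormPlus m F)) ≃* Multiplicative (ZMod 2 × ZMod N)) := by
  haveI : Fact (Nat.Prime 2) := ⟨Nat.prime_two⟩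
  haveI : CharP F 2 := charP_of_card_eq_prime_pow hF
  obtain ⟨hcyc, hcard⟩ := ringAut_cyclic (F := F) 2 N (by rw [Nat.card_eq_fintype_card, hF])
  obtain ⟨e, f, u, hG⟩ := good_qPlus (F := F) hm
  rw [← coe_qPlus]
  obtain ⟨e1⟩ := out_two (Q := qPlus m F) (n := m) (nondeg_qPlus m) (by simp; omega) hG std_plus (v := v1 F ⟨0, by omega⟩) (by rw [Q_v1]; exact one_ne_zero)
    (fix_v1 _) hN hcard hcyc
  exact ⟨e1.trans (MulEquiv.prodMultiplicative (ZMod 2) (ZMod N)).symm⟩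

theorem out_plus5_in {p N : ℕ} [Fact p.Prime] (hp : p ≠ 2) (hN : 1 ≤ N) (hF : Fintype.card F = p ^ N) (hm : 5 ≤ m) (hc : ¬ (p ^ N % 4 = 3 ∧ Odd m)) :
    Nonempty (Cfsg.Out (Cfsg.POmega F (Cfsg.quadFormPlus m F)) ≃* DihedralGroup 4 × Multiplicative (ZMod N)) := by
  obtain ⟨hcyc, hcard⟩ := ringAut_cyclic (F := F) p N (by rw [Nat.card_eq_fintype_card, hF])
  obtain ⟨e, f, u, hG⟩ := good_qPlus (F := F) hm
  have hodd : Odd (Fintype.card F) := by
    rw [hF]
    exact ((Fact.out : p.Prime).odd_of_ne_two hp).pow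
  haveI : CharP F p := charP_of_card_eq_prime_pow hF
  have h2 : (2 : F) ≠ 0 := by
    intro h
    have h3 : ((2 : ℕ) : F) = 0 := by exact_mod_cast h
    rw [CharP.cast_eq_zero_iff F p] at h3
    exact hp ((Nat.prime_dvd_prime_iff_eq Fact.out Nat.prime_two).1 h3)
  have hneg : NegIn (qPlus m F) := by
    rw [negIn_plus hodd (by omega), hF]
    exact fun h => hc ⟨h.2, h.1⟩
  have hev := ev_qPlus (F := F) (m := m) h2 (by omega)
  rw [← coe_qPlus]
  obtain ⟨e1⟩ := out_in hev hG hneg std_plus (v := v1 F ⟨0, by omega⟩) (by rw [Q_v1]; exact one_ne_zero) (fix_v1 _) hN hcard hcyc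
  obtain ⟨e2⟩ := hev.d8 hG.gd hneg
  exact ⟨e1.trans (MulEquiv.prodCongr e2 (MulEquiv.refl _))⟩

theorem out_plus5_notin {p N : ℕ} [Fact p.Prime] (hp : p ≠ 2) (hN : 1 ≤ N) (hF : Fintype.card F = p ^ N) (hm : 5 ≤ m) (hc : p ^ N % 4 = 3 ∧ Odd m) :
    Nonempty (Cfsg.Out (Cfsg.POmega F (Cfsg.quadFormPlus m F)) ≃* Multiplicative (ZMod 2 × ZMod 2 × ZMod N)) := by
  obtain ⟨hcyc, hcard⟩ := ringAut_cyclic (F := F) p N (by rw [Nat.card_eq_fintype_card, hF])
  obtain ⟨e, f, u, hG⟩ := good_qPlus (F := F) hm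
  have hodd : Odd (Fintype.card F) := by
    rw [hF]
    exact ((Fact.out : p.Prime).odd_of_ne_two hp).pow
  haveI : CharP F p := charP_of_card_eq_prime_pow hF
  have h2 : (2 : F) ≠ 0 := by
    intro h
    have h3 : ((2 : ℕ) : F) = 0 := by exact_mod_cast h
    rw [CharP.cast_eq_zero_iff F p] at h3
    exact hp ((Nat.prime_dvd_prime_iff_eq Fact.out Nat.prime_two).1 h3)
  have hneg : ¬ NegIn (qPlus m F) := by
    rw [negIn_plus hodd (by omega), hF]
    exact fun h => h ⟨hc.2, hc.1⟩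
  have hev := ev_qPlus (F := F) (m := m) h2 (by omega)
  rw [← coe_qPlus]
  obtain ⟨e1⟩ := out_notin hev hG hneg std_plus hN hcard hcyc
  obtain ⟨e2⟩ := quot_notin hev hG.gd hneg
  exact ⟨e1.trans ((MulEquiv.prodCongr e2 (MulEquiv.refl _)).trans (MulEquiv.prodAssoc.trans ((MulEquiv.prodCongr (MulEquiv.refl _) (MulEquiv.prodMultiplicative (ZMod 2) (ZMod N)).symm).trans
    (MulEquiv.prodMultiplicative (ZMod 2) (ZMod 2 × ZMod N)).symm)))⟩

end plus

end Cfsg.Agent.H22.Cw
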