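import Cfsg.Agent.LibH22Cw5
import Cfsg.Agent.LibH22Cw3

set_option autoImplicit false

/-! The order of the automorphism group of the plus-type groups. -/

namespace Cfsg.Agent.H22.Cw

open Cfsg.Agent.H22 CfsgLib.RhoO27 CfsgLib.AutO27

theorem pow_ne_one {f : ℕ} (hf : 1 ≤ f) : NeZero f := ⟨by omega⟩

theorem card_plus {F : Type*} [Field F] [Fintype F] (p f : ℕ) [Fact p.Prime] (hf : 1 ≤ f) (hF : Fintype.card F = p ^ f) (m : ℕ) (hm : 4 ≤ m) :
    Nat.card (MulAut (Cfsg.POmega F (Cfsg.quadFormPlus m F))) = (if m = 4 then 3 else 1) * (if p = 2 then 2 else (if Even (m * (p ^ f - 1) / 2) then 8 else 4)) * f * Nat.card (Cfsg.POmega F (Cfsg.quadFormPlus m F)) := by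
  have hcard : Nat.card (MulAut (Cfsg.POmega F (Cfsg.quadFormPlus m F))) = Nat.card (Cfsg.Out (Cfsg.POmega F (Cfsg.quadFormPlus m F))) * Nat.card (Cfsg.POmega F (Cfsg.quadFormPlus m F)) := by
    obtain ⟨e, f', u, hG⟩ := gd_qPlus (F := F) hm
    rw [← coe_qPlus]
    exact card_mulAut_pomega hG
  rw [hcard]
  congr 1
  haveI : NeZero f := ⟨by omega⟩
  by_cases hp : p = 2
  · subst hp
    rw [if_pos rfl]
    by_cases h4 : m = 4
    · subst h4
      obtain ⟨e⟩ := out_plus_two (F := F) hf hF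
      rw [if_pos rfl, Nat.card_congr e.toEquiv, Nat.card_prod, Nat.card_perm]
      simp [Nat.factorial]
    · obtain ⟨e⟩ := out_plus5_two (F := F) (m := m) hf hF (by omega)
      rw [if_neg h4, Nat.card_congr e.toEquiv]
      simp [Nat.card_prod]
  · rw [if_neg hp]
    have hodd : Odd (p ^ f) := ((Fact.out : p.Prime).odd_of_ne_two hp).pow
    obtain ⟨k, hk⟩ := hodd
    have h1 : m * (p ^ f - 1) / 2 = m * k := by
      have : m * (p ^ f - 1) = m * k * 2 := by rw [hk, Nat.add_sub_cancel]; ring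
      rw [this, Nat.mul_div_cancel _ (by norm_num)]
    by_cases h4 : m = 4
    · subst h4
      obtain ⟨e⟩ := out_plus_odd (F := F) hf hF hp
      rw [if_pos rfl, if_pos (by rw [h1]; exact Even.mul_right (by decide) _), Nat.card_congr e.toEquiv, Nat.card_prod, Nat.card_perm]
      simp [Nat.factorial]
    · rw [if_neg h4, h1]
      by_cases hc : p ^ f % 4 = 3 ∧ Odd m
      · obtain ⟨e⟩ := out_plus5_notin (F := F) (m := m) hp hf hF (by omega) hc
        have h2 : ¬ Even (m * k) := by
          rw [Nat.not_even_iff_odd, Nat.odd_mul]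
          refine ⟨hc.2, ?_⟩
          rw [Nat.odd_iff]
          have := hc.1
          omega
        rw [if_neg h2, Nat.card_congr e.toEquiv]
        simp [Nat.card_prod]
        ring
      · obtain ⟨e⟩ := out_plus5_in (F := F) (m := m) hp hf hF (by omega) hc
        have h2 : Even (m * k) := by
          rw [Nat.even_mul]
          by_contra h
          push Not at h
          apply hc
          have h3 : Odd k := Nat.not_even_iff_odd.1 h.2
          have h4 : Odd m := Nat.not_even_iff_odd.1 h.1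
          refine ⟨?_, h4⟩
          rw [Nat.odd_iff] at h3
          omega
        rw [if_pos h2, Nat.card_congr e.toEquiv, Nat.card_prod, DihedralGroup.nat_card]
        simp

theorem plus_two {F : Type*} [Field F] [Fintype F] {f m : ℕ} (hf : 1 ≤ f) (hF : Fintype.card F = 2 ^ f) (hm : 4 ≤ m) : if m = 4 then Nonempty (Cfsg.Out (Cfsg.POmega F (Cfsg.quadFormPlus m F)) ≃* Equiv.Perm (Fin 3) × Multiplicative (ZMod f)) else Nonempty (Cfsg.Out (Cfsg.POmega F (Cfsg.quadFormPlus m F)) ≃* Multiplicative (ZMod 2 × ZMod f)) := by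
  by_cases h4 : m = 4
  · subst h4
    rw [if_pos rfl]
    exact out_plus_two hf hF
  · rw [if_neg h4]
    exact out_plus5_two hf hF (by omega)

theorem plus_odd {F : Type*} [Field F] [Fintype F] {p f m : ℕ} [Fact p.Prime] (hf : 1 ≤ f) (hF : Fintype.card F = p ^ f) (hp : p ≠ 2) (hm : 4 ≤ m) : if m = 4 then Nonempty (Cfsg.Out (Cfsg.POmega F (Cfsg.quadFormPlus m F)) ≃* Equiv.Perm (Fin 4) × Multiplicative (ZMod f)) else if p ^ f % 4 = 3 ∧ Odd m then Nonempty (Cfsg.Out (Cfsg.POmega F (Cfsg.quadFormPlus m F)) ≃* Multiplicative (ZMod 2 × ZMod 2 × ZMod f)) else Nonempty (Cfsg.Out (Cfsg.POmega F (Cfsg.quadFormPlus m F)) ≃* DihedralGroup 4 × Multiplicative (ZMod f)) := by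
  by_cases h4 : m = 4
  · subst h4
    rw [if_pos rfl]
    exact out_plus_odd hf hF hp
  · rw [if_neg h4]
    by_cases hc : p ^ f % 4 = 3 ∧ Odd m
    · rw [if_pos hc]
      exact out_plus5_notin hp hf hF (by omega) hc
    · rw [if_neg hc]
      exact out_plus5_in hp hf hF (by omega) hc

end Cfsg.Agent.H22.Cw
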