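import Cfsg.Agent.LibH22Cw3
import Cfsg.Agent.LibRhoO27d

set_option autoImplicit false

/-! The isomorphism of D4(q) with the orthogonal group, explicitly on root elements. -/

namespace Cfsg.Agent.H22.Cw

open CfsgLib.Chev Cfsg.Lie CfsgLib.SA Cfsg.Agent.H22 Cfsg.Agent.H22.Cv CfsgLib.Semi27 CfsgLib.Lift27 CfsgLib.RhoO27 CfsgLib.AutO27 Module Matrix

section Iso

variable {F V : Type*} [Field F] [AddCommGroup V] [Module F V] {M : Md} {Q : QuadraticForm F V} {e : ℕ → V}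

variable {T : Tb} {D : ChevalleyDatum}

/-- the homomorphism onto the Chevalley group -/
theorem iso_G0x (g : Good3 D T) (hc : M.chkR T.n T.l = true) (hcl : M.chkL T.n T.l = true) (hck : M.chk T.acc = true) (hd : 0 < M.d)
    (hf : Fr M Q e) {L : ℕ → List (ℕ × ℤ)} (hL : M.chkN T.n T.l L = true) {x : ℕ → Module.Dual F V} {β₀ : LinearMap.BilinForm F V}
    (hx : Cf M Q e x β₀)
    (hker : ∀ y ∈ G0 M T.n Q e, Rel M D T.n Q e y 1 → ∀ r < T.n, ∀ t : F, (xe M Q e r t).1 * y = y * (xe M Q e r t).1)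
    (hs : IsSimpleGroup ↥(D.group F)) (hnc : ¬ IsMulCommutative ↥(D.group F)) :
    ∃ φ : ↥(G0 M T.n Q e) →* ↥(D.group F), Function.Surjective φ ∧ φ.ker = Subgroup.center ↥(G0 M T.n Q e) ∧
      ∀ r (hr : r < T.n) (t : F), ((φ ⟨(xe M Q e r t).1, xe_mem hr t⟩ : D.group F) : GL D.Idx F) = g.X r t := by
  obtain ⟨φ, hφ⟩ := exists_hom (A := ↥(G0 M T.n Q e)) (B := ↥(D.group F)) (fun a b => Rel M D T.n Q e a.1 b.1)
    (fun a => by
      obtain ⟨h, hh, H⟩ := rel_tot g hc hcl hck hd hf a.2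
      exact ⟨⟨h, hh⟩, H⟩)
    (fun a b b' h h' => Subtype.ext (Rel.unique g.hn g.hl hL hx h h'))
    (fun a b a' b' h h' => h.mul h')
  have hsurj : Function.Surjective φ := by
    intro b
    obtain ⟨y, hy, H⟩ := rel_surj g hc hcl hck hd hf b.2
    exact ⟨⟨y, hy⟩, Subtype.ext (Rel.unique g.hn g.hl hL hx (hφ ⟨y, hy⟩) H)⟩
  have hk : φ.ker = Subgroup.center ↥(G0 M T.n Q e) := by
    apply le_antisymm
    · intro y hy
      rw [MonoidHom.mem_ker] at hy
      have h1 : Rel M D T.n Q e y.1 1 := by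
        have := hφ y
        rw [hy] at this
        exact this
      have h2 := hker y.1 y.2 h1
      rw [Subgroup.mem_center_iff]
      intro z
      apply Subtype.ext
      show z.1 * y.1 = y.1 * z.1
      obtain ⟨z, hz⟩ := z
      show z * y.1 = y.1 * z
      induction hz using Subgroup.closure_induction with
      | mem z hz =>
        obtain ⟨r, hr, t, rfl⟩ := hz
        exact h2 r hr t
      | one => rw [one_mul, mul_one]
      | mul a b _ _ iha ihb => rw [mul_assoc, ihb, ← mul_assoc, iha, mul_assoc]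
      | inv a _ iha => rw [inv_mul_eq_iff_eq_mul, ← mul_assoc, iha, mul_assoc, mul_inv_cancel, mul_one]
    · intro y hy
      rw [MonoidHom.mem_ker]
      have hz : φ y ∈ Subgroup.center ↥(D.group F) := by
        rw [Subgroup.mem_center_iff]
        intro b
        obtain ⟨z, rfl⟩ := hsurj b
        rw [← map_mul, ← map_mul, Subgroup.mem_center_iff.1 hy z]
      rcases hs.eq_bot_or_eq_top_of_normal _ (inferInstance : (Subgroup.center ↥(D.group F)).Normal) with h | h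
      · rw [h, Subgroup.mem_bot] at hz
        exact hz
      · exfalso
        apply hnc
        refine ⟨⟨fun a b => ?_⟩⟩
        have : a ∈ Subgroup.center ↥(D.group F) := by rw [h]; trivial
        exact (Subgroup.mem_center_iff.1 this b).symm
  exact ⟨φ, hsurj, hk, fun r hr t => Rel.unique g.hn g.hl hL hx (hφ _) (rel_X g hc hcl hck hd hf hr t)⟩

end Iso

section D4
variable {F : Type*} [Field F] [Finite F]

local notation "Q4" => qPlus 4 F

/-- the explicit isomorphism -/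
theorem isoDx {e f : Fin 3 → (Fin 4 ⊕ Fin 4 → F)} {u : Fin 4 ⊕ Fin 4 → F} (hG : Gd Q4 e f u) :
    ∃ i : Cfsg.POmega F ⇑Q4 ≃* ↥(chevD4.group F), ∀ r < 24, ∀ t : F,
      ((i (QuotientGroup.mk (hG.Th.symm (xe mD4 Q4 (eD F) r t))) : chevD4.group F) : GL chevD4.Idx F) = good3_D4.X r t := by
  have hd : mD4.d = 8 := rfl
  have hE : G0 mD4 24 Q4 (eD F) = EG Q4 := G0_eq chkR_mD4 chkP_mD4 (by rw [hd]; omega) frD cfD hmidD
  obtain ⟨h1, h2⟩ := good4_D4.simple_of_perf (F := F) perf_D4 (by decide)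
  have hex : ∃ φ : ↥(G0 mD4 24 Q4 (eD F)) →* ↥(chevD4.group F), Function.Surjective φ ∧ φ.ker = Subgroup.center ↥(G0 mD4 24 Q4 (eD F)) ∧
      ∀ r (hr : r < 24) (t : F), ((φ ⟨(xe mD4 Q4 (eD F) r t).1, xe_mem hr t⟩ : chevD4.group F) : GL chevD4.Idx F) = good3_D4.X r t :=
    iso_G0x (F := F) (Q := Q4) (e := eD F) good3_D4 chkR_mD4 chkL_mD4 chk_mD4 (by rw [hd]; omega) frD chkN_mD4 cfD
    (fun y _ H r hr t => kerD H hr t) h1 h2
  obtain ⟨φ, hs, hk, hX⟩ := hex
  let i3 : Cfsg.Omega F ⇑Q4 ≃* G0 mD4 24 Q4 (eD F) := hG.Th.trans (MulEquiv.subgroupCongr hE.symm)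
  let ψ : Cfsg.Omega F ⇑Q4 →* ↥(chevD4.group F) := φ.comp i3.toMonoidHom
  have hψs : Function.Surjective ψ := hs.comp i3.surjective
  have hψk : ψ.ker = Subgroup.center (Cfsg.Omega F ⇑Q4) := by
    ext s
    rw [MonoidHom.mem_ker]
    show φ (i3 s) = 1 ↔ _
    rw [← MonoidHom.mem_ker, hk, Subgroup.mem_center_iff, Subgroup.mem_center_iff]
    constructor
    · intro h z
      apply i3.injective
      rw [map_mul, map_mul]
      exact h (i3 z)
    · intro h z
      obtain ⟨z, rfl⟩ := i3.surjective z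
      rw [← map_mul, ← map_mul, h z]
  refine ⟨(QuotientGroup.quotientMulEquivOfEq hψk.symm).trans (QuotientGroup.quotientKerEquivOfSurjective ψ hψs), ?_⟩
  intro r hr t
  have h3 : i3 (hG.Th.symm (xe mD4 Q4 (eD F) r t)) = ⟨(xe mD4 Q4 (eD F) r t).1, xe_mem hr t⟩ := by
    apply Subtype.ext
    show (hG.Th (hG.Th.symm (xe mD4 Q4 (eD F) r t))).1 = _
    rw [MulEquiv.apply_symm_apply]
  show ((φ (i3 (hG.Th.symm (xe mD4 Q4 (eD F) r t))) : chevD4.group F) : GL chevD4.Idx F) = _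
  rw [h3]
  exact hX r hr t

end D4

end Cfsg.Agent.H22.Cw
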