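import Cfsg.Agent.LibH22Cw7
import Cfsg.Agent.LibEps27b
import Cfsg.Agent.LibH22Cw5

set_option autoImplicit false

/-! Diagonal automorphisms of D4(q) are induced by diagonal similarities. -/

namespace Cfsg.Agent.H22.Cw

open CfsgLib.Chev Cfsg.Lie CfsgLib.SA Cfsg.Agent.H22 Cfsg.Agent.H22.Cv CfsgLib.Semi27 CfsgLib.Lift27 CfsgLib.RhoO27 CfsgLib.AutO27 CfsgLib.Even27 CfsgLib.Min27 CfsgLib.Eps27 Module Matrix

section diag
variable {F : Type*} [Field F]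

/-- the entries -/
def del (d : Fin 4 → Fˣ) (μ : Fˣ) : Fin 4 ⊕ Fin 4 → Fˣ := Sum.elim d (fun i => μ * (d i)⁻¹)

/-- the diagonal similarity -/
noncomputable def dgS (d : Fin 4 → Fˣ) (μ : Fˣ) : GL (Fin 4 ⊕ Fin 4) F where
  val := Matrix.diagonal (fun s => ((del d μ s : Fˣ) : F))
  inv := Matrix.diagonal (fun s => (((del d μ s)⁻¹ : Fˣ) : F))
  val_inv := by
    rw [Matrix.diagonal_mul_diagonal, ← Matrix.diagonal_one]
    congr 1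
    funext s
    rw [← Units.val_mul, mul_inv_cancel]; rfl
  inv_val := by
    rw [Matrix.diagonal_mul_diagonal, ← Matrix.diagonal_one]
    congr 1
    funext s
    rw [← Units.val_mul, inv_mul_cancel]; rfl

theorem dgS_mulVec (d : Fin 4 → Fˣ) (μ : Fˣ) (x : Fin 4 ⊕ Fin 4 → F) (s : Fin 4 ⊕ Fin 4) :
    (((dgS d μ : GL (Fin 4 ⊕ Fin 4) F) : Matrix (Fin 4 ⊕ Fin 4) (Fin 4 ⊕ Fin 4) F) *ᵥ x) s = (del d μ s : F) * x s := by
  show (Matrix.diagonal (fun s => ((del d μ s : Fˣ) : F)) *ᵥ x) s = _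
  rw [Matrix.mulVec_diagonal]

theorem dgS_Q (d : Fin 4 → Fˣ) (μ : Fˣ) (x : Fin 4 ⊕ Fin 4 → F) :
    qPlus 4 F (((dgS d μ : GL (Fin 4 ⊕ Fin 4) F) : Matrix (Fin 4 ⊕ Fin 4) (Fin 4 ⊕ Fin 4) F) *ᵥ x) = (μ : F) * qPlus 4 F x := by
  rw [coe_qPlus]
  unfold Cfsg.quadFormPlus
  rw [Finset.mul_sum]
  apply Finset.sum_congr rfl
  intro i _
  rw [dgS_mulVec, dgS_mulVec]
  show (d i : F) * x (Sum.inl i) * (((μ * (d i)⁻¹ : Fˣ) : F) * x (Sum.inr i)) = _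
  have h : (d i : F) ≠ 0 := (d i).ne_zero
  rw [Units.val_mul, Units.val_inv_eq_inv_val]
  field_simp

theorem dgS_det (d : Fin 4 → Fˣ) (μ : Fˣ) : (dgS d μ : GL (Fin 4 ⊕ Fin 4) F).det = μ ^ 4 := by
  apply Units.ext
  have h0 : ((dgS d μ : GL (Fin 4 ⊕ Fin 4) F) : Matrix (Fin 4 ⊕ Fin 4) (Fin 4 ⊕ Fin 4) F) = Matrix.diagonal (fun s => ((del d μ s : Fˣ) : F)) := rfl
  rw [Matrix.GeneralLinearGroup.val_det_apply, h0, Matrix.det_diagonal, Fintype.prod_sum_type]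
  show (∏ i, (d i : F)) * (∏ i, ((μ * (d i)⁻¹ : Fˣ) : F)) = _
  rw [← Finset.prod_mul_distrib]
  have h1 : ∀ i : Fin 4, (d i : F) * ((μ * (d i)⁻¹ : Fˣ) : F) = μ := by
    intro i
    rw [← Units.val_mul, mul_comm μ, mul_inv_cancel_left]
  rw [Finset.prod_congr rfl (fun i _ => h1 i), Finset.prod_const, Finset.card_univ, Fintype.card_fin]
  rfl

/-- the coefficient on a root -/
def cr (d : Fin 4 → Fˣ) (μ : Fˣ) (r : ℕ) : Fˣ := del d μ (s8 (mD4.A r)) * del d μ (s8 (mD4.B r)) * μ⁻¹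

theorem cr_tab : ∀ i : Fin 4, s8 (mD4.A (tD4.sim i)) = (![Sum.inl 0, Sum.inl 1, Sum.inl 2, Sum.inl 2] : Fin 4 → Fin 4 ⊕ Fin 4) i ∧
    s8 (mD4.B (tD4.sim i)) = (![Sum.inr 1, Sum.inr 2, Sum.inr 3, Sum.inl 3] : Fin 4 → Fin 4 ⊕ Fin 4) i ∧
    s8 (mD4.A (23 - tD4.sim i)) = (![Sum.inr 0, Sum.inr 1, Sum.inr 2, Sum.inr 2] : Fin 4 → Fin 4 ⊕ Fin 4) i ∧
    s8 (mD4.B (23 - tD4.sim i)) = (![Sum.inl 1, Sum.inl 2, Sum.inl 3, Sum.inr 3] : Fin 4 → Fin 4 ⊕ Fin 4) i := by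
  decide +kernel

/-- the parameters of the similarity -/
def dpar (b : Fin 4 → Fˣ) : Fin 4 → Fˣ := ![b 0 * b 1 * b 2, b 1 * b 2, b 2, 1]

theorem cr_sim (b : Fin 4 → Fˣ) (i : Fin 4) : cr (dpar b) (b 2 * (b 3)⁻¹) (tD4.sim i) = b i ∧
    cr (dpar b) (b 2 * (b 3)⁻¹) (23 - tD4.sim i) = (b i)⁻¹ := by
  obtain ⟨h1, h2, h3, h4⟩ := cr_tab i
  unfold cr
  rw [h1, h2, h3, h4]
  have e : ∀ x y z : Fˣ, x * (z * y⁻¹) * z⁻¹ = x * y⁻¹ := by intro x y z; rw [mul_comm z, mul_assoc, mul_inv_cancel_right]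
  fin_cases i
  · constructor
    · show (b 0 * b 1 * b 2) * ((b 2 * (b 3)⁻¹) * (b 1 * b 2)⁻¹) * (b 2 * (b 3)⁻¹)⁻¹ = b 0
      rw [e, mul_assoc (b 0) (b 1) (b 2), mul_inv_cancel_right]
    · show ((b 2 * (b 3)⁻¹) * (b 0 * b 1 * b 2)⁻¹) * (b 1 * b 2) * (b 2 * (b 3)⁻¹)⁻¹ = (b 0)⁻¹
      rw [mul_comm _ (b 1 * b 2), e, mul_assoc (b 0), mul_inv, mul_comm (b 0)⁻¹, mul_inv_cancel_left]
  · constructor
    · show (b 1 * b 2) * ((b 2 * (b 3)⁻¹) * (b 2)⁻¹) * (b 2 * (b 3)⁻¹)⁻¹ = b 1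
      rw [e, mul_inv_cancel_right]
    · show ((b 2 * (b 3)⁻¹) * (b 1 * b 2)⁻¹) * (b 2) * (b 2 * (b 3)⁻¹)⁻¹ = (b 1)⁻¹
      rw [mul_comm _ (b 2), e, mul_inv, mul_comm (b 1)⁻¹, mul_inv_cancel_left]
  · constructor
    · show (b 2) * ((b 2 * (b 3)⁻¹) * (1)⁻¹) * (b 2 * (b 3)⁻¹)⁻¹ = b 2
      rw [e, inv_one, mul_one]
    · show ((b 2 * (b 3)⁻¹) * (b 2)⁻¹) * 1 * (b 2 * (b 3)⁻¹)⁻¹ = (b 2)⁻¹
      rw [mul_comm _ (1 : Fˣ), e, one_mul]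
  · constructor
    · show (b 2) * 1 * (b 2 * (b 3)⁻¹)⁻¹ = b 3
      rw [mul_one, mul_inv, inv_inv, mul_inv_cancel_left]
    · show ((b 2 * (b 3)⁻¹) * (b 2)⁻¹) * ((b 2 * (b 3)⁻¹) * (1)⁻¹) * (b 2 * (b 3)⁻¹)⁻¹ = (b 3)⁻¹
      rw [e, inv_one, mul_one, mul_comm (b 2), mul_inv_cancel_right]

end diag

section conj
variable {F : Type*} [Field F] [Fintype F]

local notation "Q4" => qPlus 4 F

noncomputable def dgG (d : Fin 4 → Fˣ) (μ : Fˣ) : GOs Q4 := ⟨dgS d μ, μ, dgS_Q d μ⟩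

theorem ss_c {x : SP Q4} (hr : x.1.right = 1) {μ : Fˣ} (h : ∀ v, Q4 ((x.1.left : Matrix (Fin 4 ⊕ Fin 4) (Fin 4 ⊕ Fin 4) F) *ᵥ v) = (μ : F) * Q4 v) : (ssOf x).c = μ := by
  have h1 := (ssOf x).q (v1 F 0)
  have h2 : (ssOf x).S (v1 F 0) = (x.1.left : Matrix (Fin 4 ⊕ Fin 4) (Fin 4 ⊕ Fin 4) F) *ᵥ (v1 F 0) := act_one_right hr _
  have h3 : (ssOf x).σ = 1 := hr
  rw [h2, h, Q_v1, h3, mul_one] at h1
  have h4 : ((1 : F ≃+* F)) (1 : F) = 1 := rfl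
  rw [h4, mul_one] at h1
  exact h1.symm

theorem dg_eD (d : Fin 4 → Fˣ) (μ : Fˣ) (a : ℕ) :
    ((dgS d μ : GL (Fin 4 ⊕ Fin 4) F) : Matrix (Fin 4 ⊕ Fin 4) (Fin 4 ⊕ Fin 4) F) *ᵥ eD F a = (del d μ (s8 a) : F) • eD F a := by
  funext s
  rw [dgS_mulVec, Pi.smul_apply, smul_eq_mul]
  unfold eD
  by_cases h : s = s8 a
  · rw [h]
  · rw [Pi.single_eq_of_ne h, mul_zero, mul_zero]

/-- conjugating a root element -/
theorem aut_xe (d : Fin 4 → Fˣ) (μ : Fˣ) {r : ℕ} (hr : r < 24) (t : F) :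
    (ssOf (JG Q4 (dgG d μ))).aut (xe mD4 Q4 (eD F) r t) = xe mD4 Q4 (eD F) r ((cr d μ r : F) * t) := by
  have hc : mD4.chkR 24 4 = true := chkR_mD4
  obtain ⟨h1, h2, h3, h4, h5, h6⟩ := rchk hc hr
  have hf := frD (F := F)
  have hQ : Q4 (eD F (mD4.A r)) = 0 := q_single _
  have hP0 : QuadraticMap.polar Q4 (eD F (mD4.A r)) (eD F (mD4.B r)) = 0 := by
    rw [hf.pol _ h1 _ h2]; unfold Md.bb; rw [if_neg h4]; simp
  have hP : ∀ c : F, QuadraticMap.polar Q4 (eD F (mD4.A r)) (c • eD F (mD4.B r)) = 0 := by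
    intro c
    rw [QuadraticMap.polar_smul_right, hP0, smul_zero]
  have hS : ∀ v, (ssOf (JG Q4 (dgG d μ))).S v = ((dgS d μ : GL (Fin 4 ⊕ Fin 4) F) : Matrix (Fin 4 ⊕ Fin 4) (Fin 4 ⊕ Fin 4) F) *ᵥ v :=
    fun v => act_one_right (JG_right _) v
  have hcc : (ssOf (JG Q4 (dgG d μ))).c = μ := ss_c (JG_right _) (fun v => dgS_Q d μ v)
  unfold xe
  rw [SS.aut_E _ _ _ hQ (hP _), hS, hS, hcc, mulVec_smul, dg_eD, dg_eD, E_smul_left hQ (by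
    rw [smul_smul, smul_smul]; exact hP _)]
  congr 1
  rw [smul_smul, smul_smul, smul_smul]
  congr 1
  unfold cr
  rw [Units.val_mul, Units.val_mul, Units.val_inv_eq_inv_val]
  ring

variable {e f : Fin 3 → (Fin 4 ⊕ Fin 4 → F)} {u : Fin 4 ⊕ Fin 4 → F}

/-- diagonal automorphisms are induced by similarities -/
theorem conjDx (hG : Gd Q4 e f u) (i : Cfsg.POmega F ⇑Q4 ≃* ↥(chevD4.group F))
    (hi : ∀ r < 24, ∀ t : F, ((i (QuotientGroup.mk (hG.Th.symm (xe mD4 Q4 (eD F) r t))) : chevD4.group F) : GL chevD4.Idx F) = good3_D4.X r t)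
    (b : ℕ → Fˣ) : MulAut.congr i (rho (GOs Q4) le_rfl (dgG (dpar fun j : Fin 4 => b j) (b 2 * (b 3)⁻¹))) = (good3_D4.saD b : MulAut ↥(chevD4.group F)) := by
  have hn : tD4.n = 24 := rfl
  have hl : tD4.l = 4 := rfl
  have key : ∀ (d : Fin 4 → Fˣ) (μ : Fˣ) (r : ℕ), r < 24 → ∀ t : F,
      ex (MulAut.congr i (rho (GOs Q4) le_rfl (dgG d μ)) : chevD4.group F ≃* chevD4.group F) (good3_D4.X r t) = good3_D4.X r ((cr d μ r : F) * t) := by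
    intro d μ r hr t
    have h1 : (⟨good3_D4.X r t, good3_D4.X_mem_G r t⟩ : chevD4.group F) = i (QuotientGroup.mk (hG.Th.symm (xe mD4 Q4 (eD F) r t))) := Subtype.ext (hi r hr t).symm
    rw [ex_of_mem _ (good3_D4.X_mem_G r t), h1]
    show ((i (rho (GOs Q4) le_rfl (dgG d μ) (i.symm (i (QuotientGroup.mk (hG.Th.symm (xe mD4 Q4 (eD F) r t))))))) : chevD4.group F).1 = _
    rw [MulEquiv.symm_apply_apply]
    have h2 : rho (GOs Q4) le_rfl (dgG d μ) (QuotientGroup.mk (hG.Th.symm (xe mD4 Q4 (eD F) r t))) =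
        QuotientGroup.mk (cjO Q4 (JG Q4 (dgG d μ)) (hG.Th.symm (xe mD4 Q4 (eD F) r t))) := R_mk _ _
    have h3 : cjO Q4 (JG Q4 (dgG d μ)) (hG.Th.symm (xe mD4 Q4 (eD F) r t)) = hG.Th.symm (xe mD4 Q4 (eD F) r ((cr d μ r : F) * t)) := by
      apply hG.Th.injective
      rw [Th_cjO' hG, MulEquiv.apply_symm_apply, MulEquiv.apply_symm_apply, aut_xe d μ hr]
    rw [h2, h3]
    exact hi r hr _
  apply good3_D4.sa_ext
  · intro j hj t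
    have hj' : j < 4 := hj
    have hs : tD4.sim j < 24 := good3_D4.sim_lt hj
    have h1 := (cr_sim (fun j : Fin 4 => b j) ⟨j, hj'⟩).1
    have h2 : chi tD4 b (tD4.sim j) = b j := good3_D4.chi_sim b hj
    rw [key _ _ _ hs, good3_D4.ex_saD_X b (good3_D4.sim_lt hj), h2]
    congr 2
    exact congrArg Units.val h1
  · intro j hj t
    have hj' : j < 4 := hj
    have hs : tD4.sim j < 24 := good3_D4.sim_lt hj
    have h1 := (cr_sim (fun j : Fin 4 => b j) ⟨j, hj'⟩).2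
    have h2 : chi tD4 b (tD4.n - 1 - tD4.sim j) = (b j)⁻¹ := by
      rw [(good3_D4.chi_isChi b).1 _ (good3_D4.sim_lt hj), good3_D4.chi_sim b hj]
    have hlt : tD4.n - 1 - tD4.sim j < tD4.n := by rw [hn]; omega
    rw [key _ _ _ hlt, good3_D4.ex_saD_X b hlt, h2]
    congr 2
    exact congrArg Units.val h1

end conj

end Cfsg.Agent.H22.Cw
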