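import Cfsg.Agent.LibH22Cw8
import Cfsg.Agent.LibEps27j

set_option autoImplicit false

/-! The inner-diagonal automorphisms of the eight-dimensional plus-type group form a normal subgroup. -/

namespace Cfsg.Agent.H22.Cw

open CfsgLib.Chev Cfsg.Lie CfsgLib.SA Cfsg.Agent.H22 Cfsg.Agent.H22.Cv CfsgLib.Semi27 CfsgLib.Lift27 CfsgLib.RhoO27 CfsgLib.AutO27 CfsgLib.Even27 CfsgLib.Min27 CfsgLib.Eps27 Module Matrix

open Good3 in
/-- the order of the group of diagonal classes -/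
theorem card_V {D : ChevalleyDatum} {T : Tb} (g : Good3 D T) {F : Type*} [Field F] [Finite F] (hl : 0 < T.l) :
    Nat.card ↥((g.dH (F := F)).range.map (qO D F)) = Nat.card ((Fin T.l → Fˣ) ⧸ KH D T F) := by
  have hker : ((qO D F).comp g.dH).ker = KH D T F := by
    ext b
    rw [MonoidHom.mem_ker]
    have h1 : (fun j : Fin T.l => ext1 b j / ext1 (1 : Fin T.l → Fˣ) j) = b := by
      funext j
      unfold ext1
      rw [dif_pos j.2, dif_pos j.2]
      simp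
    have h2 := qD_eq_iff g hl (ext1 b) (ext1 (1 : Fin T.l → Fˣ))
    rw [h1] at h2
    have h3 : qO D F (g.saD (ext1 (1 : Fin T.l → Fˣ))) = 1 := by
      have : qO D F (g.dH (1 : Fin T.l → Fˣ)) = 1 := by rw [map_one, map_one]
      exact this
    rw [h3] at h2
    exact h2
  have hr : (g.dH (F := F)).range.map (qO D F) = ((qO D F).comp g.dH).range := by
    ext x
    constructor
    · rintro ⟨_, ⟨b, rfl⟩, rfl⟩
      exact ⟨b, rfl⟩
    · rintro ⟨b, rfl⟩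
      exact ⟨_, ⟨b, rfl⟩, rfl⟩
  rw [hr, ← Nat.card_congr (QuotientGroup.quotientKerEquivRange ((qO D F).comp g.dH)).toEquiv, hker]

universe u
variable {F : Type u} [Field F] [Fintype F]

local notation "Q4" => qPlus 4 F

theorem two_inn {ι : Type} [Fintype ι] [DecidableEq ι] {Q : QuadraticForm F (ι → F)} {n : ℕ} {e f : Fin 3 → (ι → F)} {u : ι → F}
    (h : Ea Q n) (hG : Gd Q e f u) (h2 : (2 : F) = 0) : (rho h.Gam h.Gam_le).range ≤ Cfsg.Inn (Cfsg.POmega F ⇑Q) := by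
  rintro _ ⟨g, rfl⟩
  obtain ⟨hg1, hg2⟩ := h.mem_Gam.1 g.2
  haveI := charP_two h2
  obtain ⟨s, t, ht⟩ := two_split' h2 ⟨g.1, hg1⟩
  rw [h.ep_two h2 ht, ← two_omega h.nd h.hF h.hx] at hg2
  rw [rho_def, mem_inn' hG]
  exact ⟨rfl, s, ⟨t, hg2⟩, ht⟩

/-- the image of the similarities -/
theorem img_eq (h : Ea Q4 4) (h2 : (2 : F) ≠ 0) {e f : Fin 3 → (Fin 4 ⊕ Fin 4 → F)} {u : Fin 4 ⊕ Fin 4 → F} (hG : Gd Q4 e f u)
    (i : Cfsg.POmega F ⇑Q4 ≃* ↥(chevD4.group F))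
    (hi : ∀ r < 24, ∀ t : F, ((i (QuotientGroup.mk (hG.Th.symm (xe mD4 Q4 (eD F) r t))) : chevD4.group F) : GL chevD4.Idx F) = good3_D4.X r t) :
    (rho h.Gam h.Gam_le).range.map ((Good3.qO chevD4 F).comp (MulAut.congr i).toMonoidHom) = (good3_D4.dH (F := F)).range.map (Good3.qO chevD4 F) := by
  have hE := h.ev h2
  have hch : ringChar F ≠ 2 := by
    intro h3
    apply h2
    have : CharP F 2 := by rw [← h3]; exact ringChar.charP F
    exact_mod_cast CharP.cast_eq_zero F 2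
  have hodd : Odd (Fintype.card F) := by
    rw [Nat.odd_iff]
    exact FiniteField.odd_card_of_char_ne_two hch
  have hneg : NegIn Q4 := (negIn_plus hodd (by omega)).2 (fun h3 => absurd h3.1 (by decide))
  obtain ⟨P, hP⟩ : ∃ P : MulAut (Cfsg.POmega F ⇑Q4) →* Cfsg.Out ↥(chevD4.group F), P = (Good3.qO chevD4 F).comp (MulAut.congr i).toMonoidHom := ⟨_, rfl⟩
  rw [← hP]
  have hPv : ∀ β, P β = Good3.qO chevD4 F (MulAut.congr i β) := fun β => by rw [hP]; rfl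
  have hP1 : ∀ β, P β = 1 ↔ β ∈ Cfsg.Inn (Cfsg.POmega F ⇑Q4) := by
    intro β
    rw [hPv, ← congr_inn i]
    exact QuotientGroup.eq_one_iff _
  have hfinO : Finite (Cfsg.Out ↥(chevD4.group F)) := Finite.of_surjective _ (QuotientGroup.mk'_surjective (Cfsg.Inn ↥(chevD4.group F)))
  symm
  apply Subgroup.eq_of_le_of_card_ge
  · rintro _ ⟨_, ⟨b, rfl⟩, rfl⟩
    refine ⟨rho (GOs Q4) le_rfl (dgG (dpar fun j : Fin 4 => ext1 b j) (ext1 b 2 * (ext1 b 3)⁻¹)), ?_, ?_⟩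
    · refine ⟨⟨_, h.mem_Gam.2 ⟨(dgG (dpar fun j : Fin 4 => ext1 b j) (ext1 b 2 * (ext1 b 3)⁻¹)).2, ?_⟩⟩, rfl⟩
      rw [h.ep_odd h2, Ev.eps_eq_one]
      have h3 : mu (h.ev h2).hx (dgG (dpar fun j : Fin 4 => ext1 b j) (ext1 b 2 * (ext1 b 3)⁻¹)) = ext1 b 2 * (ext1 b 3)⁻¹ := mu_eq _ (dgS_Q _ _)
      have h4 := dgS_det (dpar fun j : Fin 4 => ext1 b j) (ext1 b 2 * (ext1 b 3)⁻¹)
      exact h4.trans (congrArg (fun z => z ^ 4) h3.symm)
    · rw [hPv, conjDx hG i hi (ext1 b)]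
      rfl
  · have h5 := card_V good3_D4 (F := F) (by decide)
    have h6 := card_quot_D4 (F := F)
    have hg : Nat.gcd 2 (Fintype.card F - 1) = 2 := by
      apply Nat.gcd_eq_left
      obtain ⟨k, hk⟩ := hodd
      exact ⟨k, by omega⟩
    rw [hg] at h6
    have h7 : Nat.card ↥((good3_D4.dH (F := F)).range.map (Good3.qO chevD4 F)) = 4 := h5.trans h6
    rw [h7]
    -- the bound for the similarities
    let ρ : hE.eps.ker →* Cfsg.Out ↥(chevD4.group F) := P.comp ((rho (GOs Q4) le_rfl).comp hE.eps.ker.subtype)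
    have hrange : (rho h.Gam h.Gam_le).range.map P = ρ.range := by
      ext x
      constructor
      · rintro ⟨_, ⟨g, rfl⟩, rfl⟩
        obtain ⟨hg1, hg2⟩ := h.mem_Gam.1 g.2
        rw [h.ep_odd h2] at hg2
        exact ⟨⟨⟨g.1, hg1⟩, hg2⟩, rfl⟩
      · rintro ⟨g, rfl⟩
        refine ⟨_, ⟨⟨g.1.1, h.mem_Gam.2 ⟨g.1.2, ?_⟩⟩, rfl⟩, rfl⟩
        rw [h.ep_odd h2]
        exact g.2
    rw [hrange]
    have hle : (KI Q4).subgroupOf hE.eps.ker ≤ ρ.ker := by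
      intro g hg
      rw [MonoidHom.mem_ker]
      exact (hP1 _).2 (Subgroup.mem_subgroupOf.1 hg)
    have h8 : ((KI Q4).subgroupOf hE.eps.ker).index = 4 := (hE.KI_relIndex_eps hG).1 hneg
    have h9 : ρ.ker.index ∣ 4 := (Subgroup.index_dvd_of_le hle).trans (dvd_of_eq h8)
    rw [Subgroup.index_ker] at h9
    exact Nat.le_of_dvd (by norm_num) h9

theorem hnorm4 (h : Ea Q4 4) (α β : MulAut (Cfsg.POmega F ⇑Q4)) (hβ : β ∈ (rho h.Gam h.Gam_le).range) : α * β * α⁻¹ ∈ (rho h.Gam h.Gam_le).range := by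
  obtain ⟨e, f, u, hG⟩ := gd_qPlus (F := F) (m := 4) le_rfl
  by_cases h2 : (2 : F) = 0
  · exact inn_le_rho h ((Cfsg.innNormal (Cfsg.POmega F ⇑Q4)).conj_mem β (two_inn h hG h2 hβ) α)
  · obtain ⟨i, hi⟩ := isoDx hG
    have himg := img_eq h h2 hG i hi
    obtain ⟨P, hP⟩ : ∃ P : MulAut (Cfsg.POmega F ⇑Q4) →* Cfsg.Out ↥(chevD4.group F), P = (Good3.qO chevD4 F).comp (MulAut.congr i).toMonoidHom := ⟨_, rfl⟩
    rw [← hP] at himg
    have hPv : ∀ β, P β = Good3.qO chevD4 F (MulAut.congr i β) := fun β => by rw [hP]; rfl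
    have hP1 : ∀ β, P β = 1 ↔ β ∈ Cfsg.Inn (Cfsg.POmega F ⇑Q4) := by
      intro β
      rw [hPv, ← congr_inn i]
      exact QuotientGroup.eq_one_iff _
    have hV := good3_D4.D_normal (F := F) (good4_D4.sac_SL sl_D4)
    have h3 : P β ∈ (good3_D4.dH (F := F)).range.map (Good3.qO chevD4 F) := by
      rw [← himg]; exact ⟨β, hβ, rfl⟩
    have h4 : P (α * β * α⁻¹) ∈ (good3_D4.dH (F := F)).range.map (Good3.qO chevD4 F) := by
      rw [map_mul, map_mul, map_inv]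
      exact hV.conj_mem _ h3 _
    rw [← himg] at h4
    obtain ⟨γ, hγ, hγe⟩ := h4
    have h5 : γ⁻¹ * (α * β * α⁻¹) ∈ Cfsg.Inn (Cfsg.POmega F ⇑Q4) := by
      rw [← hP1, map_mul, map_inv, hγe, inv_mul_cancel]
    have h6 := mul_mem hγ (inn_le_rho h h5)
    rwa [mul_inv_cancel_left] at h6

/-- the inner-diagonal automorphisms are normal, all dimensions -/
theorem hnormP {m : ℕ} (hm : 4 ≤ m) (h : Ea (qPlus m F) m) (α β : MulAut (Cfsg.POmega F ⇑(qPlus m F))) (hβ : β ∈ (rho h.Gam h.Gam_le).range) :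
    α * β * α⁻¹ ∈ (rho h.Gam h.Gam_le).range := by
  by_cases h4 : m = 4
  · subst h4
    exact hnorm4 h α β hβ
  · obtain ⟨e, f, u, hG⟩ := good_qPlus (F := F) (m := m) (by omega)
    exact h.rho_normal hG α β hβ

end Cfsg.Agent.H22.Cw
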