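import Mathlib

set_option autoImplicit false

/-! Symmetric bilinear forms over finite fields of odd characteristic. -/

namespace CfsgLib.Symm27

section

variable {F V : Type*} [Field F] [AddCommGroup V] [Module F V]

/-- orthogonal family with nonzero values `d i` -/
structure DFam (B : LinearMap.BilinForm F V) (k : ℕ) (x : Fin k → V) (d : Fin k → F) : Prop where
  orth : ∀ i j, i ≠ j → B (x i) (x j) = 0
  diag : ∀ i, B (x i) (x i) = d i
  nz : ∀ i, d i ≠ 0

/-- projection -/
def proj (B : LinearMap.BilinForm F V) {k : ℕ} (x : Fin k → V) (d : Fin k → F) (v : V) : V :=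
  v - ∑ i, ((d i)⁻¹ * B (x i) v) • x i

theorem proj_x {B : LinearMap.BilinForm F V} {k : ℕ} {x : Fin k → V} {d : Fin k → F} (h : DFam B k x d) (v : V)
    (j : Fin k) : B (x j) (proj B x d v) = 0 := by
  unfold proj
  rw [map_sub, map_sum, Finset.sum_eq_single j]
  · rw [map_smul, h.diag, smul_eq_mul, mul_right_comm, inv_mul_cancel₀ (h.nz j), one_mul, sub_self]
  · intro i _ hij
    rw [map_smul, h.orth j i (Ne.symm hij), smul_zero]
  · intro hj; exact absurd (Finset.mem_univ _) hj

theorem DFam.linearIndependent {B : LinearMap.BilinForm F V} {k : ℕ} {x : Fin k → V} {d : Fin k → F}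
    (h : DFam B k x d) : LinearIndependent F x := by
  rw [Fintype.linearIndependent_iff]
  intro g hg j
  have h1 := congrArg (fun v => B (x j) v) hg
  simp only [map_sum, map_smul, map_zero] at h1
  rw [Finset.sum_eq_single j] at h1
  · rw [h.diag, smul_eq_mul] at h1
    exact (mul_eq_zero.mp h1).resolve_right (h.nz j)
  · intro i _ hij
    rw [h.orth j i (Ne.symm hij), smul_zero]
  · intro hj; exact absurd (Finset.mem_univ _) hj

theorem DFam.extend {B : LinearMap.BilinForm F V} (h2 : (2 : F) ≠ 0) (hS : ∀ x y, B x y = B y x)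
    (hnd : ∀ v : V, v ≠ 0 → ∃ w, B v w ≠ 0)
    {k : ℕ} {x : Fin k → V} {d : Fin k → F} (h : DFam B k x d) (hs : Submodule.span F (Set.range x) ≠ ⊤) :
    ∃ (u : V) (c : F), DFam B (k + 1) (Fin.snoc (α := fun _ => V) x u) (Fin.snoc (α := fun _ => F) d c) := by
  obtain ⟨v0, hv0⟩ : ∃ v0, v0 ∉ Submodule.span F (Set.range x) := by
    by_contra hcon
    push Not at hcon
    exact hs (eq_top_iff.mpr fun v _ => hcon v)
  set v := proj B x d v0 with hv
  have hvne : v ≠ 0 := by
    intro h0
    rw [hv] at h0
    apply hv0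
    rw [sub_eq_zero.mp h0]
    exact Submodule.sum_mem _ fun i _ => Submodule.smul_mem _ _ (Submodule.subset_span ⟨i, rfl⟩)
  obtain ⟨w0, hw0⟩ := hnd v hvne
  have hvx : ∀ j, B (x j) v = 0 := proj_x h v0
  have hvx' : ∀ j, B v (x j) = 0 := fun j => by rw [hS, hvx]
  set w := proj B x d w0 with hw
  have hwx : ∀ j, B (x j) w = 0 := proj_x h w0
  have hvw : B v w ≠ 0 := by
    rw [hw]
    unfold proj
    rw [map_sub, map_sum]
    simp only [map_smul, hvx', smul_zero, Finset.sum_const_zero, sub_zero]
    exact hw0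
  obtain ⟨u, hux, huu⟩ : ∃ u, (∀ j, B (x j) u = 0) ∧ B u u ≠ 0 := by
    by_cases h1 : B v v = 0
    · by_cases h3 : B w w = 0
      · refine ⟨v + w, fun j => by rw [map_add, hvx, hwx, add_zero], ?_⟩
        rw [map_add, map_add, LinearMap.add_apply, LinearMap.add_apply, h1, h3, hS w v, zero_add, add_zero, ← two_mul]
        exact mul_ne_zero h2 hvw
      · exact ⟨w, hwx, h3⟩
    · exact ⟨v, hvx, h1⟩
  refine ⟨u, B u u, ?_, ?_, ?_⟩
  · intro i j
    refine Fin.lastCases ?_ (fun i => ?_) i <;> refine Fin.lastCases ?_ (fun j => ?_) j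
    · intro h; exact absurd rfl h
    · intro _
      rw [Fin.snoc_last, Fin.snoc_castSucc, hS, hux]
    · intro _
      rw [Fin.snoc_last, Fin.snoc_castSucc, hux]
    · intro hij
      rw [Fin.snoc_castSucc, Fin.snoc_castSucc]
      exact h.orth i j (fun h' => hij (by rw [h']))
  · intro i
    refine Fin.lastCases ?_ (fun i => ?_) i
    · rw [Fin.snoc_last, Fin.snoc_last]
    · rw [Fin.snoc_castSucc, Fin.snoc_castSucc, h.diag]
  · intro i
    refine Fin.lastCases ?_ (fun i => ?_) i
    · rw [Fin.snoc_last]; exact huu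
    · rw [Fin.snoc_castSucc]; exact h.nz i

theorem span_ne_top [FiniteDimensional F V] {k : ℕ} (x : Fin k → V) (hk : k < Module.finrank F V) :
    Submodule.span F (Set.range x) ≠ ⊤ := by
  intro h
  have h1 : Module.finrank F (Submodule.span F (Set.range x)) ≤ k := by
    have := finrank_range_le_card (R := F) (b := x)
    rw [Fintype.card_fin] at this
    exact this
  rw [h, finrank_top] at h1
  omega

theorem exists_diag_basis [Finite F] [FiniteDimensional F V] (h2 : (2 : F) ≠ 0) (B : LinearMap.BilinForm F V)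
    (hS : ∀ x y, B x y = B y x) (hnd : ∀ v : V, v ≠ 0 → ∃ w, B v w ≠ 0) {n : ℕ}
    (hn : Module.finrank F V = n + 1) :
    ∃ (b : Module.Basis (Fin (n + 1)) F V) (c : F), c ≠ 0 ∧ (∀ i j, i ≠ j → B (b i) (b j) = 0) ∧
      (∀ i : Fin n, B (b i.castSucc) (b i.castSucc) = 1) ∧ B (b (Fin.last n)) (b (Fin.last n)) = c := by
  haveI := Fintype.ofFinite F
  have hquad : ∀ a b : F, a ≠ 0 → b ≠ 0 → ∃ s t : F, a * s ^ 2 + b * t ^ 2 = 1 := by
    intro a b ha hb
    obtain ⟨s, t, hst⟩ := FiniteField.exists_root_sum_quadratic (f := Polynomial.C a * Polynomial.X ^ 2)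
      (g := Polynomial.C b * Polynomial.X ^ 2 - Polynomial.C 1)
      (by rw [Polynomial.degree_C_mul_X_pow 2 ha]; rfl)
      (by rw [Polynomial.degree_sub_C (by rw [Polynomial.degree_C_mul_X_pow 2 hb]; norm_num),
            Polynomial.degree_C_mul_X_pow 2 hb]; rfl)
      (by
        apply FiniteField.odd_card_of_char_ne_two
        intro h
        apply h2
        have := ringChar.Nat.cast_ringChar (R := F)
        rw [h] at this
        exact_mod_cast this)
    refine ⟨s, t, ?_⟩
    simp only [Polynomial.eval_mul, Polynomial.eval_C, Polynomial.eval_pow, Polynomial.eval_X, Polynomial.eval_sub] at hst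
    linear_combination hst
  have key : ∀ k : ℕ, k ≤ n → ∃ x : Fin k → V, DFam B k x (fun _ => 1) := by
    intro k
    induction k with
    | zero => exact fun _ => ⟨Fin.elim0, fun i => Fin.elim0 i, fun i => Fin.elim0 i, fun i => Fin.elim0 i⟩
    | succ k ih =>
      intro hk
      obtain ⟨x, hx⟩ := ih (by omega)
      obtain ⟨u, a, h1⟩ := hx.extend h2 hS hnd (span_ne_top x (by omega))
      obtain ⟨w, b, h3⟩ := h1.extend h2 hS hnd (span_ne_top _ (by omega))
      have ha : a ≠ 0 := by have := h1.nz (Fin.last k); rwa [Fin.snoc_last] at this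
      have hb : b ≠ 0 := by have := h3.nz (Fin.last _); rwa [Fin.snoc_last] at this
      obtain ⟨s, t, hst⟩ := hquad a b ha hb
      have huu : B u u = a := by have := h1.diag (Fin.last k); rwa [Fin.snoc_last, Fin.snoc_last] at this
      have hww : B w w = b := by have := h3.diag (Fin.last _); rwa [Fin.snoc_last, Fin.snoc_last] at this
      have huw : B u w = 0 := by
        have := h3.orth (Fin.last k).castSucc (Fin.last (k + 1)) (by
          intro h; have := congrArg Fin.val h; simp at this)
        rwa [Fin.snoc_castSucc, Fin.snoc_last, Fin.snoc_last] at this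
      have hux : ∀ j, B (x j) u = 0 := by
        intro j
        have := h1.orth j.castSucc (Fin.last k) (Fin.castSucc_lt_last j).ne
        rwa [Fin.snoc_castSucc, Fin.snoc_last] at this
      have hwx : ∀ j, B (x j) w = 0 := by
        intro j
        have := h3.orth j.castSucc.castSucc (Fin.last (k + 1)) (Fin.castSucc_lt_last _).ne
        rwa [Fin.snoc_castSucc, Fin.snoc_castSucc, Fin.snoc_last] at this
      have hy : B (s • u + t • w) (s • u + t • w) = 1 := by
        simp only [map_add, map_smul, LinearMap.add_apply, LinearMap.smul_apply, smul_eq_mul, huu, hww, huw, hS w u]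
        linear_combination hst
      have hyx : ∀ j, B (x j) (s • u + t • w) = 0 := by
        intro j
        rw [map_add, map_smul, map_smul, hux, hwx, smul_zero, smul_zero, add_zero]
      refine ⟨Fin.snoc (α := fun _ => V) x (s • u + t • w), ?_, ?_, fun _ => one_ne_zero⟩
      · intro i j
        refine Fin.lastCases ?_ (fun i => ?_) i <;> refine Fin.lastCases ?_ (fun j => ?_) j
        · intro h; exact absurd rfl h
        · intro _
          rw [Fin.snoc_last, Fin.snoc_castSucc, hS, hyx]
        · intro _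
          rw [Fin.snoc_last, Fin.snoc_castSucc, hyx]
        · intro hij
          rw [Fin.snoc_castSucc, Fin.snoc_castSucc]
          exact hx.orth i j (fun h' => hij (by rw [h']))
      · intro i
        refine Fin.lastCases ?_ (fun i => ?_) i
        · rw [Fin.snoc_last, hy]
        · rw [Fin.snoc_castSucc, hx.diag]
  obtain ⟨x, hx⟩ := key n le_rfl
  obtain ⟨u, c, h1⟩ := hx.extend h2 hS hnd (span_ne_top x (by omega))
  have hli := h1.linearIndependent
  have hsp : Submodule.span F (Set.range (Fin.snoc (α := fun _ => V) x u)) = ⊤ :=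
    hli.span_eq_top_of_card_eq_finrank' (by rw [Fintype.card_fin, hn])
  let b : Module.Basis (Fin (n + 1)) F V := Module.Basis.mk hli hsp.ge
  have hb : ∀ i, b i = Fin.snoc (α := fun _ => V) x u i := fun i => by rw [Module.Basis.mk_apply]
  refine ⟨b, c, ?_, ?_, ?_, ?_⟩
  · have := h1.nz (Fin.last n); rwa [Fin.snoc_last] at this
  · intro i j hij
    rw [hb, hb]; exact h1.orth i j hij
  · intro i
    rw [hb, h1.diag, Fin.snoc_castSucc]
  · rw [hb, h1.diag, Fin.snoc_last]

theorem exists_basis_one_or_nonsquare [Finite F] [FiniteDimensional F V] (h2 : (2 : F) ≠ 0) (B : LinearMap.BilinForm F V)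
    (hS : ∀ x y, B x y = B y x) (hnd : ∀ v : V, v ≠ 0 → ∃ w, B v w ≠ 0) {n : ℕ}
    (hn : Module.finrank F V = n + 1) (α : F) (hα : ¬ IsSquare α) :
    ∃ b : Module.Basis (Fin (n + 1)) F V, (∀ i j, i ≠ j → B (b i) (b j) = 0) ∧
      (∀ i, i ≠ Fin.last n → B (b i) (b i) = 1) ∧
      (B (b (Fin.last n)) (b (Fin.last n)) = 1 ∨ B (b (Fin.last n)) (b (Fin.last n)) = α) := by
  obtain ⟨b, c, hc, h1, h3, h4⟩ := exists_diag_basis h2 B hS hnd hn
  have hα0 : α ≠ 0 := by rintro rfl; exact hα ⟨0, by ring⟩
  obtain ⟨y, hy, hyc⟩ : ∃ y : F, y ≠ 0 ∧ (y * (y * c) = 1 ∨ y * (y * c) = α) := by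
    by_cases hsq : IsSquare c
    · obtain ⟨s, hs⟩ := hsq
      have hs0 : s ≠ 0 := by rintro rfl; exact hc (by rw [hs, mul_zero])
      exact ⟨s⁻¹, inv_ne_zero hs0, Or.inl (by rw [hs]; field_simp)⟩
    · have : IsSquare (c * α) := by
        haveI := Fintype.ofFinite F
        have hchar : ringChar F ≠ 2 := by
          intro h
          apply h2
          have := ringChar.Nat.cast_ringChar (R := F)
          rw [h] at this
          exact_mod_cast this
        rw [FiniteField.isSquare_iff hchar (mul_ne_zero hc hα0), mul_pow]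
        rw [FiniteField.isSquare_iff hchar hc] at hsq
        rw [FiniteField.isSquare_iff hchar hα0] at hα
        rw [(FiniteField.pow_dichotomy hchar hc).resolve_left hsq, (FiniteField.pow_dichotomy hchar hα0).resolve_left hα]
        ring
      obtain ⟨s, hs⟩ := this
      have hs0 : s ≠ 0 := by rintro rfl; exact mul_ne_zero hc hα0 (by rw [hs, mul_zero])
      refine ⟨s / c, div_ne_zero hs0 hc, Or.inr ?_⟩
      field_simp
      linear_combination -hs
  let w : Fin (n + 1) → Fˣ := fun i => if i = Fin.last n then Units.mk0 y hy else 1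
  have hw : ∀ i, i ≠ Fin.last n → b.unitsSMul w i = b i := by
    intro i hi
    rw [Module.Basis.unitsSMul_apply]
    simp only [w, if_neg hi, one_smul]
  have hwl : b.unitsSMul w (Fin.last n) = y • b (Fin.last n) := by
    rw [Module.Basis.unitsSMul_apply]
    simp only [w, if_true]
    rfl
  refine ⟨b.unitsSMul w, ?_, ?_, ?_⟩
  · intro i j hij
    rw [Module.Basis.unitsSMul_apply, Module.Basis.unitsSMul_apply]
    simp only [Units.smul_def, map_smul, LinearMap.smul_apply, h1 i j hij, smul_zero]
  · intro i hi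
    rw [hw i hi]
    obtain ⟨j, rfl⟩ := Fin.exists_castSucc_eq.mpr hi
    exact h3 j
  · rw [hwl, map_smul, map_smul, LinearMap.smul_apply, h4]
    exact hyc

end

end CfsgLib.Symm27
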