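import Cfsg.Agent.LibH22Exist
import Cfsg.Agent.S0756

set_option autoImplicit false

/-! Discriminants of symmetric forms over finite fields of odd order (seat helper22). -/

namespace Cfsg.Agent.H22

open Module Matrix

section
variable {F V : Type*} [Field F] [AddCommGroup V] [Module F V] [FiniteDimensional F V]

/-- discriminant with respect to a basis -/
noncomputable def Dis {ι : Type*} [Fintype ι] [DecidableEq ι] (b : Basis ι F V) (B : LinearMap.BilinForm F V) : F := (LinearMap.BilinForm.toMatrix b B).det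

lemma Dis_change {ι : Type*} [Fintype ι] [DecidableEq ι] (b c : Basis ι F V) (B : LinearMap.BilinForm F V) : ∃ p : F, p ≠ 0 ∧ Dis c B = p ^ 2 * Dis b B := by
  refine ⟨(b.toMatrix c).det, ?_, ?_⟩
  · intro h
    have h1 := congrArg Matrix.det (b.toMatrix_mul_toMatrix_flip c)
    rw [Matrix.det_mul, h, zero_mul, Matrix.det_one] at h1
    exact zero_ne_one h1
  · unfold Dis
    rw [← LinearMap.BilinForm.toMatrix_mul_basis_toMatrix b c B, Matrix.det_mul, Matrix.det_mul, Matrix.det_transpose]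
    ring

lemma Dis_reindex {ι ι' : Type*} [Fintype ι] [DecidableEq ι] [Fintype ι'] [DecidableEq ι'] (e : ι ≃ ι') (b : Basis ι F V) (B : LinearMap.BilinForm F V) :
    Dis (b.reindex e) B = Dis b B := by
  unfold Dis
  rw [← Matrix.det_submatrix_equiv_self e]
  congr 1
  ext i j
  rw [Matrix.submatrix_apply, LinearMap.BilinForm.toMatrix_apply, LinearMap.BilinForm.toMatrix_apply, Basis.reindex_apply, Basis.reindex_apply,
    Equiv.symm_apply_apply, Equiv.symm_apply_apply]

lemma Dis_change' {ι ι' : Type*} [Fintype ι] [DecidableEq ι] [Fintype ι'] [DecidableEq ι'] (b : Basis ι F V) (c : Basis ι' F V) (B : LinearMap.BilinForm F V) :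
    ∃ p : F, p ≠ 0 ∧ Dis c B = p ^ 2 * Dis b B := by
  have e : ι ≃ ι' := b.indexEquiv c
  obtain ⟨p, hp, h⟩ := Dis_change (b.reindex e) c B
  rw [Dis_reindex] at h
  exact ⟨p, hp, h⟩

lemma Dis_ne_zero {ι : Type*} [Fintype ι] [DecidableEq ι] (b : Basis ι F V) {B : LinearMap.BilinForm F V} (hB : B.Nondegenerate) : Dis b B ≠ 0 :=
  (LinearMap.BilinForm.nondegenerate_iff_det_ne_zero b).1 hB

/-- determinant of a hyperbolic block matrix -/
lemma det_hyp {m : ℕ} (P C : Matrix (Fin m) (Fin m) F) : (Matrix.fromBlocks 0 P Pᵀ C).det = (-1) ^ m * P.det ^ 2 := by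
  have hJ : (Matrix.fromBlocks 0 (-1) 1 0 : Matrix (Fin m ⊕ Fin m) (Fin m ⊕ Fin m) F).det = 1 := by
    have h5 : (Matrix.fromBlocks 0 (-1) 1 0 : Matrix (Fin m ⊕ Fin m) (Fin m ⊕ Fin m) F) =
        Matrix.fromBlocks 1 (-1) 0 1 * Matrix.fromBlocks 1 0 1 1 * Matrix.fromBlocks 1 (-1) 0 1 := by
      rw [Matrix.fromBlocks_multiply, Matrix.fromBlocks_multiply]
      simp
    rw [h5, Matrix.det_mul, Matrix.det_mul, Matrix.det_fromBlocks_zero₂₁, Matrix.det_fromBlocks_zero₁₂]
    simp
  have h6 : (Matrix.fromBlocks 0 P Pᵀ C * Matrix.fromBlocks 0 (-1) 1 0).det = (Matrix.fromBlocks 0 P Pᵀ C).det := by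
    rw [Matrix.det_mul, hJ, mul_one]
  rw [← h6, Matrix.fromBlocks_multiply]
  have h7 : Matrix.fromBlocks (0 * 0 + P * 1) (0 * -1 + P * 0) (Pᵀ * 0 + C * 1) (Pᵀ * -1 + C * 0) = Matrix.fromBlocks P 0 C (-Pᵀ) := by
    congr 1 <;> simp
  rw [h7, Matrix.det_fromBlocks_zero₁₂, Matrix.det_neg, Matrix.det_transpose, Fintype.card_fin]
  ring

/-- plus type implies the discriminant condition -/
theorem disc_of_ti {n : ℕ} {B : LinearMap.BilinForm F V} (hB : B.Nondegenerate) (hS : B.IsSymm) (hV : finrank F V = 2 * n) {W : Submodule F V}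
    (hW : finrank F W = n) (hW0 : ∀ x ∈ W, ∀ y ∈ W, B x y = 0) {ι : Type*} [Fintype ι] [DecidableEq ι] (c : Basis ι F V) : IsSquare ((-1) ^ n * Dis c B) := by
  obtain ⟨W', hW'⟩ := Submodule.exists_isCompl W
  have hr : finrank F W' = n := by
    have := Submodule.finrank_add_eq_of_isCompl hW'
    omega
  obtain ⟨b1, -⟩ : ∃ b : Basis (Fin n) F W, True := ⟨finBasisOfFinrankEq F W hW, trivial⟩
  obtain ⟨b2, -⟩ : ∃ b : Basis (Fin n) F W', True := ⟨finBasisOfFinrankEq F W' hr, trivial⟩
  obtain ⟨b, hb⟩ : ∃ b : Basis (Fin n ⊕ Fin n) F V, b = (b1.prod b2).map (Submodule.prodEquivOfIsCompl W W' hW') := ⟨_, rfl⟩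
  have hbl : ∀ j, b (Sum.inl j) ∈ W := by
    intro j
    rw [hb, Basis.map_apply]
    have : (Submodule.prodEquivOfIsCompl W W' hW') ((b1.prod b2) (Sum.inl j)) = (b1 j : V) := by
      rw [Submodule.coe_prodEquivOfIsCompl' W W' hW']
      simp
    rw [this]
    exact (b1 j).2
  have hG : ∀ j k, LinearMap.BilinForm.toMatrix b B j k = B (b j) (b k) := fun j k => LinearMap.BilinForm.toMatrix_apply b B j k
  obtain ⟨P, hP⟩ : ∃ P : Matrix (Fin n) (Fin n) F, P = (LinearMap.BilinForm.toMatrix b B).toBlocks₁₂ := ⟨_, rfl⟩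
  obtain ⟨C, hC⟩ : ∃ C : Matrix (Fin n) (Fin n) F, C = (LinearMap.BilinForm.toMatrix b B).toBlocks₂₂ := ⟨_, rfl⟩
  have hGB : LinearMap.BilinForm.toMatrix b B = Matrix.fromBlocks 0 P Pᵀ C := by
    rw [← Matrix.fromBlocks_toBlocks (LinearMap.BilinForm.toMatrix b B), ← hP, ← hC]
    congr 1
    · ext j k
      show LinearMap.BilinForm.toMatrix b B (Sum.inl j) (Sum.inl k) = 0
      rw [hG]
      exact hW0 _ (hbl j) _ (hbl k)
    · ext j k
      rw [hP]
      show LinearMap.BilinForm.toMatrix b B (Sum.inr j) (Sum.inl k) = LinearMap.BilinForm.toMatrix b B (Sum.inl k) (Sum.inr j)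
      rw [hG, hG]
      exact hS.eq _ _
  have hD : Dis b B = (-1) ^ n * P.det ^ 2 := by
    unfold Dis
    rw [hGB, det_hyp]
  obtain ⟨p, hp, h⟩ := Dis_change' b c B
  rw [h, hD]
  refine ⟨p * P.det * (-1) ^ n, ?_⟩
  have : ((-1 : F) ^ n) * (-1) ^ n = 1 := by rw [← mul_pow]; simp
  linear_combination (p ^ 2 * P.det ^ 2 - p ^ 2 * P.det ^ 2) * this

end

section
variable {F : Type*} [Field F] [Finite F]

/-- isometry criterion -/
theorem iso_of_disc {V V' : Type*} [AddCommGroup V] [Module F V] [FiniteDimensional F V] [AddCommGroup V'] [Module F V'] [FiniteDimensional F V']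
    (h2 : (2 : F) ≠ 0) {B : LinearMap.BilinForm F V} {B' : LinearMap.BilinForm F V'} (hB : B.Nondegenerate) (hS : B.IsSymm) (hB' : B'.Nondegenerate) (hS' : B'.IsSymm)
    {n : ℕ} (hn : finrank F V = n + 1) (hn' : finrank F V' = n + 1) {ι ι' : Type*} [Fintype ι] [DecidableEq ι] [Fintype ι'] [DecidableEq ι']
    (c : Basis ι F V) (c' : Basis ι' F V') (hsq : IsSquare (Dis c B * Dis c' B')) : ∃ g : V ≃ₗ[F] V', ∀ x y, B' (g x) (g y) = B x y := by
  classical
  haveI : Fintype F := Fintype.ofFinite F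
  obtain ⟨α, hα⟩ : ∃ ν : F, ¬ IsSquare ν := FiniteField.exists_nonsquare (ringChar_ne_two h2)
  obtain ⟨b, hb1, hb2, hb3⟩ := Cfsg.Agent.S0756.result h2 B hS hB hn α hα
  obtain ⟨b', hb1', hb2', hb3'⟩ := Cfsg.Agent.S0756.result h2 B' hS' hB' hn' α hα
  have hα0 : α ≠ 0 := by rintro rfl; exact hα IsSquare.zero
  obtain ⟨p, hp, h⟩ := Dis_change' b c B
  obtain ⟨p', hp', h'⟩ := Dis_change' b' c' B'
  have hd : IsSquare (Dis b B * Dis b' B') := by
    have : Dis b B * Dis b' B' = (Dis c B * Dis c' B') / (p * p') ^ 2 := by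
      rw [h, h']
      field_simp
    rw [this]
    exact hsq.div (IsSquare.sq _)
  have hlast : B (b (Fin.last n)) (b (Fin.last n)) = B' (b' (Fin.last n)) (b' (Fin.last n)) := by
    have e1 : Dis b B = B (b (Fin.last n)) (b (Fin.last n)) := by
      unfold Dis
      have h4 : LinearMap.BilinForm.toMatrix b B = Matrix.diagonal (fun i => B (b i) (b i)) := by
        ext i j
        rw [LinearMap.BilinForm.toMatrix_apply]
        by_cases hij : i = j
        · subst hij; rw [Matrix.diagonal_apply_eq]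
        · rw [Matrix.diagonal_apply_ne _ hij, hb1 i j hij]
      rw [h4, Matrix.det_diagonal, Fin.prod_univ_castSucc, Finset.prod_eq_one, one_mul]
      intro i _
      exact hb2 _ (Fin.castSucc_lt_last i).ne
    have e2 : Dis b' B' = B' (b' (Fin.last n)) (b' (Fin.last n)) := by
      unfold Dis
      have h4 : LinearMap.BilinForm.toMatrix b' B' = Matrix.diagonal (fun i => B' (b' i) (b' i)) := by
        ext i j
        rw [LinearMap.BilinForm.toMatrix_apply]
        by_cases hij : i = j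
        · subst hij; rw [Matrix.diagonal_apply_eq]
        · rw [Matrix.diagonal_apply_ne _ hij, hb1' i j hij]
      rw [h4, Matrix.det_diagonal, Fin.prod_univ_castSucc, Finset.prod_eq_one, one_mul]
      intro i _
      exact hb2' _ (Fin.castSucc_lt_last i).ne
    rw [e1, e2] at hd
    rcases hb3 with h3 | h3 <;> rcases hb3' with h4 | h4 <;> rw [h3, h4] at hd ⊢
    · exfalso; rw [one_mul] at hd; exact hα hd
    · exfalso; rw [mul_one] at hd; exact hα hd
  refine ⟨b.equiv b' (Equiv.refl _), ?_⟩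
  have key : B'.comp (b.equiv b' (Equiv.refl _) : V →ₗ[F] V') (b.equiv b' (Equiv.refl _) : V →ₗ[F] V') = B := by
    apply LinearMap.BilinForm.ext_basis b
    intro i j
    rw [LinearMap.BilinForm.comp_apply]
    show B' ((b.equiv b' (Equiv.refl _)) (b i)) ((b.equiv b' (Equiv.refl _)) (b j)) = _
    rw [Basis.equiv_apply, Basis.equiv_apply, Equiv.refl_apply, Equiv.refl_apply]
    by_cases hij : i = j
    · subst hij
      by_cases hi : i = Fin.last n
      · rw [hi, hlast]
      · rw [hb2 i hi, hb2' i hi]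
    · rw [hb1 i j hij, hb1' i j hij]
  intro x y
  rw [← key]; rfl

/-- the discriminant condition implies plus type -/
theorem ti_of_disc {V : Type*} [AddCommGroup V] [Module F V] [FiniteDimensional F V]
    (h2 : (2 : F) ≠ 0) {B : LinearMap.BilinForm F V} (hB : B.Nondegenerate) (hS : B.IsSymm)
    {n : ℕ} (hV : finrank F V = 2 * n) {ι : Type*} [Fintype ι] [DecidableEq ι]
    (c : Basis ι F V) (hsq : IsSquare ((-1) ^ n * Dis c B)) : ∃ W : Submodule F V, finrank F W = n ∧ ∀ x ∈ W, ∀ y ∈ W, B x y = 0 := by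
  classical
  rcases Nat.eq_zero_or_pos n with hn | hn
  · subst hn
    exact ⟨⊥, finrank_bot F V, fun x hx y _ => by rw [(Submodule.mem_bot F).1 hx, map_zero]; rfl⟩
  obtain ⟨B0, hB0⟩ : ∃ B0 : LinearMap.BilinForm F (Fin n ⊕ Fin n → F), B0 = QuadraticMap.polarBilin (qPlus n F) := ⟨_, rfl⟩
  have hB0v : ∀ x y, B0 x y = ∑ i, (x (.inl i) * y (.inr i) + x (.inr i) * y (.inl i)) := by
    intro x y
    rw [hB0]
    exact polar_qPlus n x y
  have hnd : B0.Nondegenerate := by rw [hB0]; exact nondeg_qPlus n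
  have hsy : B0.IsSymm := by rw [hB0]; exact ⟨fun a b => QuadraticMap.polar_comm _ a b⟩
  have hdis : Dis (Pi.basisFun F (Fin n ⊕ Fin n)) B0 = (-1) ^ n := by
    unfold Dis
    have h1 : LinearMap.BilinForm.toMatrix (Pi.basisFun F (Fin n ⊕ Fin n)) B0 = Matrix.fromBlocks 0 1 (1 : Matrix (Fin n) (Fin n) F)ᵀ 0 := by
      ext i j
      rw [LinearMap.BilinForm.toMatrix_apply, Pi.basisFun_apply, Pi.basisFun_apply, hB0v]
      rcases i with i | i <;> rcases j with j | j
      · simp
      · rw [Matrix.fromBlocks_apply₁₂, Finset.sum_eq_single i]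
        · rw [Pi.single_eq_same, one_mul, Pi.single_eq_of_ne (i := Sum.inl i) (i' := Sum.inr i) (by simp), zero_mul, add_zero, Matrix.one_apply]
          by_cases hij : i = j
          · subst hij; rw [Pi.single_eq_same, if_pos rfl]
          · rw [if_neg hij, Pi.single_eq_of_ne (by rintro h; rw [Sum.inr.injEq] at h; exact hij h)]
        · intro k _ hk
          rw [Pi.single_eq_of_ne (i := Sum.inl i) (i' := Sum.inl k) (by rintro h; rw [Sum.inl.injEq] at h; exact hk h), Pi.single_eq_of_ne (i := Sum.inl i) (i' := Sum.inr k) (by simp)]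
          ring
        · intro h; exact absurd (Finset.mem_univ _) h
      · rw [Matrix.fromBlocks_apply₂₁, Matrix.transpose_one, Finset.sum_eq_single i]
        · rw [Pi.single_eq_same, one_mul, Pi.single_eq_of_ne (i := Sum.inr i) (i' := Sum.inl i) (by simp), zero_mul, zero_add, Matrix.one_apply]
          by_cases hij : i = j
          · subst hij; rw [Pi.single_eq_same, if_pos rfl]
          · rw [if_neg hij, Pi.single_eq_of_ne (by rintro h; rw [Sum.inl.injEq] at h; exact hij h)]
        · intro k _ hk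
          rw [Pi.single_eq_of_ne (i := Sum.inr i) (i' := Sum.inr k) (by rintro h; rw [Sum.inr.injEq] at h; exact hk h), Pi.single_eq_of_ne (i := Sum.inr i) (i' := Sum.inl k) (by simp)]
          ring
        · intro h; exact absurd (Finset.mem_univ _) h
      · simp
    rw [h1, det_hyp, Matrix.det_one]
    ring
  have hr : finrank F (Fin n ⊕ Fin n → F) = 2 * n := by
    rw [finrank_fintype_fun_eq_card, Fintype.card_sum, Fintype.card_fin]; ring
  obtain ⟨g, hg⟩ := iso_of_disc h2 hnd hsy hB hS (n := 2 * n - 1) (by omega) (by omega) (Pi.basisFun F (Fin n ⊕ Fin n)) c (by rw [hdis]; exact hsq)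
  obtain ⟨f, hf⟩ : ∃ f : (Fin n → F) →ₗ[F] (Fin n ⊕ Fin n → F), ∀ x, f x = Sum.elim x (fun _ => 0) := by
    refine ⟨{ toFun := fun x => Sum.elim x (fun _ => 0), map_add' := ?_, map_smul' := ?_ }, fun x => rfl⟩
    · intro x y
      funext k
      rcases k with k | k
      · rfl
      · exact (add_zero (0 : F)).symm
    · intro a x
      funext k
      rcases k with k | k
      · rfl
      · exact (mul_zero a).symm
  have hfi : Function.Injective f := by
    intro x y h
    rw [hf, hf] at h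
    funext k
    exact congrFun h (.inl k)
  refine ⟨LinearMap.range ((g : (Fin n ⊕ Fin n → F) →ₗ[F] V).comp f), ?_, ?_⟩
  · rw [LinearMap.finrank_range_of_inj, finrank_fintype_fun_eq_card, Fintype.card_fin]
    exact g.injective.comp hfi
  · rintro _ ⟨x, rfl⟩ _ ⟨y, rfl⟩
    show B (g (f x)) (g (f y)) = 0
    rw [hg, hB0v, hf, hf]
    simp

end

end Cfsg.Agent.H22
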