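import Cfsg.Agent.LibH22OForms
import Cfsg.Agent.LibH22Par

set_option autoImplicit false

/-! Families of maximal totally singular subspaces (seat helper22). -/

namespace Cfsg.Agent.H22

open Module

section
variable {F V : Type*} [Field F] [AddCommGroup V] [Module F V] [FiniteDimensional F V] {Q : QuadraticForm F V} {m : ℕ}

/-- maximal totally singular -/
def TS (Q : QuadraticForm F V) (m : ℕ) (W : Submodule F V) : Prop := finrank F W = m ∧ ∀ w ∈ W, Q w = 0

/-- orthogonal subspace -/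
abbrev orth (Q : QuadraticForm F V) (W : Submodule F V) : Submodule F V := LinearMap.BilinForm.orthogonal (QuadraticMap.polarBilin Q) W

lemma mem_orth {W : Submodule F V} {x : V} : x ∈ orth Q W ↔ ∀ w ∈ W, QuadraticMap.polar Q w x = 0 := by
  rw [LinearMap.BilinForm.mem_orthogonal_iff]; rfl

lemma polar_ts {W : Submodule F V} (h : ∀ w ∈ W, Q w = 0) {x y : V} (hx : x ∈ W) (hy : y ∈ W) : QuadraticMap.polar Q x y = 0 := by
  unfold QuadraticMap.polar
  rw [h _ (W.add_mem hx hy), h _ hx, h _ hy]; ring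

lemma finrank_orth (hQ : (QuadraticMap.polarBilin Q).Nondegenerate) (W : Submodule F V) : finrank F (orth Q W) + finrank F W = finrank F V := by
  have h1 := LinearMap.BilinForm.finrank_orthogonal hQ W
  have h2 := Submodule.finrank_le W
  unfold orth
  omega

lemma TS.orth_eq (hQ : (QuadraticMap.polarBilin Q).Nondegenerate) (hV : finrank F V = 2 * m) {W : Submodule F V} (h : TS Q m W) : orth Q W = W := by
  have h1 := finrank_orth hQ W
  have h2 : W ≤ orth Q W := fun x hx => mem_orth.2 fun w hw => polar_ts h.2 hw hx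
  exact (Submodule.eq_of_le_of_finrank_eq h2 (by rw [h.1] at h1 ⊢; omega)).symm

lemma orth_sup (W H : Submodule F V) : orth Q (W ⊔ H) = orth Q W ⊓ orth Q H := by
  ext x
  rw [Submodule.mem_inf, mem_orth, mem_orth, mem_orth]
  constructor
  · intro h
    exact ⟨fun w hw => h w (Submodule.mem_sup_left hw), fun w hw => h w (Submodule.mem_sup_right hw)⟩
  · rintro ⟨h1, h2⟩ w hw
    obtain ⟨a, ha, b, hb, rfl⟩ := Submodule.mem_sup.1 hw
    rw [QuadraticMap.polar_add_left, h1 a ha, h2 b hb, add_zero]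

lemma orth_anti {W H : Submodule F V} (h : W ≤ H) : orth Q H ≤ orth Q W := fun _ hx => mem_orth.2 fun w hw => mem_orth.1 hx w (h hw)

lemma TS.finrank_inf_orth (hQ : (QuadraticMap.polarBilin Q).Nondegenerate) (hV : finrank F V = 2 * m) {W : Submodule F V} (h : TS Q m W) (H : Submodule F V)
    (hH : finrank F H + 1 = m) : finrank F (W ⊓ orth Q H : Submodule F V) = finrank F (W ⊓ H : Submodule F V) + 1 := by
  have h1 : W ⊓ orth Q H = orth Q (W ⊔ H) := by rw [orth_sup, h.orth_eq hQ hV]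
  rw [h1]
  have h2 := finrank_orth hQ (W ⊔ H)
  have h3 := Submodule.finrank_sup_add_finrank_inf_eq W H
  rw [h.1] at h3
  omega

/-- the two singular points -/
lemma mem_or_mem (hQ : (QuadraticMap.polarBilin Q).Nondegenerate) (hV : finrank F V = 2 * m) {W X : Submodule F V} (hW : TS Q m W) (hX : TS Q m X)
    (h : finrank F (W ⊓ X : Submodule F V) + 1 = m) {u : V} (hu : u ∈ orth Q (W ⊓ X)) (hu0 : Q u = 0) : u ∈ W ∨ u ∈ X := by
  have h1 := Submodule.finrank_sup_add_finrank_inf_eq W X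
  have h2 := finrank_orth hQ (W ⊓ X)
  have h3 : W ⊔ X ≤ orth Q (W ⊓ X) := by
    apply sup_le
    · intro x hx
      exact mem_orth.2 fun w hw => polar_ts hW.2 hw.1 hx
    · intro x hx
      exact mem_orth.2 fun w hw => polar_ts hX.2 hw.2 hx
  have h4 : W ⊔ X = orth Q (W ⊓ X) := Submodule.eq_of_le_of_finrank_eq h3 (by rw [hW.1, hX.1] at h1; omega)
  rw [← h4] at hu
  obtain ⟨w, hw, x, hx, rfl⟩ := Submodule.mem_sup.1 hu
  rw [qadd, hW.2 w hw, hX.2 x hx, zero_add, zero_add] at hu0
  by_cases hwX : w ∈ X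
  · exact Or.inr (X.add_mem hwX hx)
  · left
    refine W.add_mem hw ?_
    rw [← hW.orth_eq hQ hV, mem_orth]
    have h5 : W ⊓ X ⊔ Submodule.span F {w} = W := by
      apply Submodule.eq_of_le_of_finrank_le
      · exact sup_le inf_le_left (by rw [Submodule.span_singleton_le_iff_mem]; exact hw)
      · have h6 : W ⊓ X < W ⊓ X ⊔ Submodule.span F {w} := by
          rw [lt_iff_le_and_ne]
          refine ⟨le_sup_left, fun h7 => hwX ?_⟩
          have : w ∈ W ⊓ X := by rw [h7]; exact Submodule.mem_sup_right (Submodule.mem_span_singleton_self w)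
          exact this.2
        have h7 := Submodule.finrank_lt_finrank_of_lt h6
        rw [hW.1]
        omega
    intro z hz
    rw [← h5] at hz
    obtain ⟨a, ha, b, hb, rfl⟩ := Submodule.mem_sup.1 hz
    obtain ⟨c, rfl⟩ := Submodule.mem_span_singleton.1 hb
    rw [QuadraticMap.polar_add_left, QuadraticMap.polar_smul_left, hu0, polar_ts hX.2 ha.2 hx, smul_zero, add_zero]

lemma finrank_inf_le (U W X : Submodule F V) (hW : finrank F W = m) (h : finrank F (W ⊓ X : Submodule F V) + 1 = m) :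
    finrank F (U ⊓ W : Submodule F V) ≤ finrank F (U ⊓ (W ⊓ X) : Submodule F V) + 1 := by
  have h1 := Submodule.finrank_sup_add_finrank_inf_eq (U ⊓ W) (W ⊓ X)
  have h2 : (U ⊓ W) ⊓ (W ⊓ X) = U ⊓ (W ⊓ X) := by
    ext x
    simp only [Submodule.mem_inf]
    tauto
  rw [h2] at h1
  have h3 : finrank F ((U ⊓ W) ⊔ (W ⊓ X) : Submodule F V) ≤ finrank F W := Submodule.finrank_mono (sup_le inf_le_right inf_le_left)
  omega

lemma lemA (hQ : (QuadraticMap.polarBilin Q).Nondegenerate) (hV : finrank F V = 2 * m) {U W X : Submodule F V} (hU : TS Q m U) (hW : TS Q m W) (hX : TS Q m X)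
    (h : finrank F (W ⊓ X : Submodule F V) + 1 = m) :
    finrank F (U ⊓ W : Submodule F V) = finrank F (U ⊓ X : Submodule F V) + 1 ∨ finrank F (U ⊓ X : Submodule F V) = finrank F (U ⊓ W : Submodule F V) + 1 := by
  have h1 := hU.finrank_inf_orth hQ hV (W ⊓ X) h
  have hle1 : U ⊓ (W ⊓ X) ≤ U ⊓ W := inf_le_inf_left _ inf_le_left
  have hle2 : U ⊓ (W ⊓ X) ≤ U ⊓ X := inf_le_inf_left _ inf_le_right
  have b1 := finrank_inf_le U W X hW.1 h
  have b2 := finrank_inf_le U X W hX.1 (by rw [inf_comm]; exact h)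
  rw [inf_comm X W] at b2
  -- a vector outside
  obtain ⟨u, hu, hun⟩ : ∃ u ∈ U ⊓ orth Q (W ⊓ X), u ∉ U ⊓ (W ⊓ X) := by
    by_contra hcon
    push Not at hcon
    have := Submodule.finrank_mono (show U ⊓ orth Q (W ⊓ X) ≤ U ⊓ (W ⊓ X) from hcon)
    omega
  -- not both
  have hnot : ¬ (finrank F (U ⊓ (W ⊓ X) : Submodule F V) < finrank F (U ⊓ W : Submodule F V) ∧ finrank F (U ⊓ (W ⊓ X) : Submodule F V) < finrank F (U ⊓ X : Submodule F V)) := by
    rintro ⟨c1, c2⟩
    obtain ⟨w, hw, hwn⟩ : ∃ w ∈ U ⊓ W, w ∉ U ⊓ (W ⊓ X) := by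
      by_contra hcon
      push Not at hcon
      have := Submodule.finrank_mono (show U ⊓ W ≤ U ⊓ (W ⊓ X) from hcon)
      omega
    obtain ⟨x, hx, hxn⟩ : ∃ w ∈ U ⊓ X, w ∉ U ⊓ (W ⊓ X) := by
      by_contra hcon
      push Not at hcon
      have := Submodule.finrank_mono (show U ⊓ X ≤ U ⊓ (W ⊓ X) from hcon)
      omega
    have hs : w + x ∈ orth Q (W ⊓ X) := by
      refine Submodule.add_mem _ ?_ ?_
      · exact mem_orth.2 fun z hz => polar_ts hW.2 hz.1 hw.2
      · exact mem_orth.2 fun z hz => polar_ts hX.2 hz.2 hx.2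
    rcases mem_or_mem hQ hV hW hX h hs (hU.2 _ (U.add_mem hw.1 hx.1)) with h5 | h5
    · exact hxn ⟨hx.1, (Submodule.add_mem_iff_right W hw.2).1 h5, hx.2⟩
    · exact hwn ⟨hw.1, hw.2, (Submodule.add_mem_iff_left X hx.2).1 h5⟩
  rcases mem_or_mem hQ hV hW hX h hu.2 (hU.2 u hu.1) with h5 | h5
  · left
    have h6 : U ⊓ (W ⊓ X) < U ⊓ W := by
      rw [lt_iff_le_and_ne]
      exact ⟨hle1, fun h7 => hun (by rw [h7]; exact ⟨hu.1, h5⟩)⟩
    have h7 := Submodule.finrank_lt_finrank_of_lt h6
    have h8 := Submodule.finrank_mono hle2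
    omega
  · right
    have h6 : U ⊓ (W ⊓ X) < U ⊓ X := by
      rw [lt_iff_le_and_ne]
      exact ⟨hle2, fun h7 => hun (by rw [h7]; exact ⟨hu.1, h5⟩)⟩
    have h7 := Submodule.finrank_lt_finrank_of_lt h6
    have h8 := Submodule.finrank_mono hle1
    omega

/-- projecting a maximal subspace -/
lemma TS.proj (hQ : (QuadraticMap.polarBilin Q).Nondegenerate) (hV : finrank F V = 2 * m) {X : Submodule F V} (hX : TS Q m X) (H : Submodule F V)
    (hH : finrank F H + 1 = m) (hH0 : ∀ w ∈ H, Q w = 0) : TS Q m (H ⊔ (X ⊓ orth Q H)) := by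
  constructor
  · have h1 := hX.finrank_inf_orth hQ hV H hH
    have h2 := Submodule.finrank_sup_add_finrank_inf_eq H (X ⊓ orth Q H)
    have h3 : H ⊓ (X ⊓ orth Q H) = X ⊓ H := by
      apply le_antisymm
      · rintro x ⟨h4, h5, _⟩; exact ⟨h5, h4⟩
      · rintro x ⟨h4, h5⟩; exact ⟨h5, h4, mem_orth.2 fun w hw => polar_ts hH0 hw h5⟩
    rw [h3] at h2
    omega
  · intro w hw
    obtain ⟨a, ha, b, hb, rfl⟩ := Submodule.mem_sup.1 hw
    rw [qadd, hH0 a ha, hX.2 b hb.1, mem_orth.1 hb.2 a ha]; ring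

lemma exists_hyperplane {W X : Submodule F V} (hX : X < W) : ∃ H, X ≤ H ∧ H ≤ W ∧ finrank F H + 1 = finrank F W := by
  obtain ⟨w, hw, hwX⟩ := SetLike.exists_of_lt hX
  obtain ⟨f, hf, hfX⟩ : ∃ f : V →ₗ[F] F, f w ≠ 0 ∧ ∀ x ∈ X, f x = 0 := by
    obtain ⟨f, hf1, hf2⟩ := Submodule.exists_le_ker_of_notMem hwX
    exact ⟨f, hf1, fun x hx => hf2 hx⟩
  refine ⟨W ⊓ LinearMap.ker f, ?_, inf_le_left, ?_⟩
  · intro x hx
    exact ⟨hX.le hx, hfX x hx⟩
  · exact (finrank_inf_ker W f (fun h => hf (h hw))).symm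

theorem three_even (hQ : (QuadraticMap.polarBilin Q).Nondegenerate) (hV : finrank F V = 2 * m) {U : Submodule F V} (hU : TS Q m U) :
    ∀ (k : ℕ) (W X : Submodule F V) (_ : TS Q m W) (_ : TS Q m X) (_ : m - finrank F (W ⊓ X : Submodule F V) = k),
    Even ((m - finrank F (U ⊓ W : Submodule F V)) + (m - finrank F (W ⊓ X : Submodule F V)) + (m - finrank F (U ⊓ X : Submodule F V))) := by
  intro k
  induction k with
  | zero =>
    intro W X hW hX hk
    have h1 : finrank F (W ⊓ X : Submodule F V) ≤ m := by rw [← hW.1]; exact Submodule.finrank_mono inf_le_left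
    have h2 : W ⊓ X = W := Submodule.eq_of_le_of_finrank_eq inf_le_left (by rw [hW.1]; omega)
    have h3 : W ⊓ X = X := Submodule.eq_of_le_of_finrank_eq inf_le_right (by rw [hX.1]; omega)
    have h4 : W = X := by rw [← h2]; exact h3
    subst h4
    rw [hk, add_zero]
    exact ⟨_, rfl⟩
  | succ k ih =>
    intro W X hW hX hk
    have hlt : W ⊓ X < W := by
      rw [lt_iff_le_and_ne]
      refine ⟨inf_le_left, fun h => ?_⟩
      rw [h, hW.1] at hk
      omega
    obtain ⟨H, hH1, hH2, hH3⟩ := exists_hyperplane hlt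
    rw [hW.1] at hH3
    have hH0 : ∀ w ∈ H, Q w = 0 := fun w hw => hW.2 w (hH2 hw)
    have hW' := hX.proj hQ hV H hH3 hH0
    obtain ⟨W', hW'd⟩ : ∃ W', W' = H ⊔ (X ⊓ orth Q H) := ⟨_, rfl⟩
    rw [← hW'd] at hW'
    have hXH : X ⊓ H = W ⊓ X := by
      apply le_antisymm
      · rintro x ⟨h1, h2⟩; exact ⟨hH2 h2, h1⟩
      · intro x hx; exact ⟨hx.2, hH1 hx⟩
    have h1 := hX.finrank_inf_orth hQ hV H hH3
    rw [hXH] at h1
    have hWX : finrank F (W ⊓ X : Submodule F V) ≤ m := by rw [← hW.1]; exact Submodule.finrank_mono inf_le_left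
    have hWle : finrank F (W' ⊓ X : Submodule F V) ≤ m := by rw [← hW'.1]; exact Submodule.finrank_mono inf_le_left
    have hUle : finrank F (U ⊓ W : Submodule F V) ≤ m := by rw [← hW.1]; exact Submodule.finrank_mono inf_le_right
    have hUle' : finrank F (U ⊓ W' : Submodule F V) ≤ m := by rw [← hW'.1]; exact Submodule.finrank_mono inf_le_right
    have h2 : finrank F (X ⊓ orth Q H : Submodule F V) ≤ finrank F (W' ⊓ X : Submodule F V) := by
      apply Submodule.finrank_mono
      rw [hW'd]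
      exact le_inf le_sup_right inf_le_left
    have h3 : finrank F (W ⊓ W' : Submodule F V) + 1 = m := by
      have h4 : H ≤ W ⊓ W' := le_inf hH2 (by rw [hW'd]; exact le_sup_left)
      have h5 := Submodule.finrank_mono h4
      have h6 : finrank F (W ⊓ W' : Submodule F V) ≤ m := by rw [← hW.1]; exact Submodule.finrank_mono inf_le_left
      by_contra hne
      have h7 : finrank F (W ⊓ W' : Submodule F V) = m := by omega
      have h8 : W ⊓ W' = W := Submodule.eq_of_le_of_finrank_eq inf_le_left (by rw [hW.1, h7])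
      have h9 : W ⊓ W' = W' := Submodule.eq_of_le_of_finrank_eq inf_le_right (by rw [hW'.1, h7])
      have h10 : W' = W := by rw [← h9]; exact h8
      rw [h10] at h2
      omega
    have hA := lemA hQ hV hU hW hW' h3
    have hA2 := lemA hQ hV hX hW hW' h3
    rw [inf_comm X W, inf_comm X W'] at hA2
    have hfin : m - finrank F (W' ⊓ X : Submodule F V) = k := by
      rcases hA2 with h | h <;> omega
    have := ih W' X hW' hX hfin
    rw [hfin] at this
    rw [hk]
    rw [Nat.even_iff] at this ⊢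
    rcases hA with h | h <;> omega

/-- exactly two -/
theorem two_over (hQ : (QuadraticMap.polarBilin Q).Nondegenerate) (hV : finrank F V = 2 * m) {X : Submodule F V} (hX : TS Q m X) (H : Submodule F V)
    (hH : finrank F H + 1 = m) (hH0 : ∀ w ∈ H, Q w = 0) :
    Nat.card {W : Submodule F V // TS Q m W ∧ H ≤ W} = 2 := by
  classical
  have hW0 := hX.proj hQ hV H hH hH0
  obtain ⟨W0, hW0d⟩ : ∃ W', W' = H ⊔ (X ⊓ orth Q H) := ⟨_, rfl⟩
  rw [← hW0d] at hW0
  have hHW0 : H ≤ W0 := by rw [hW0d]; exact le_sup_left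
  obtain ⟨w, hw, hwH⟩ : ∃ w ∈ W0, w ∉ H := by
    by_contra hcon
    push Not at hcon
    have := Submodule.finrank_mono (show W0 ≤ H from hcon)
    rw [hW0.1] at this
    omega
  obtain ⟨z, hz, hwz⟩ : ∃ z ∈ orth Q H, QuadraticMap.polar Q w z ≠ 0 := by
    by_contra hcon
    push Not at hcon
    apply hwH
    have h1 : orth Q (orth Q H) = H := by
      have hS : (QuadraticMap.polarBilin Q).IsRefl := by
        intro x y h
        rw [QuadraticMap.polarBilin_apply_apply] at h ⊢
        rw [QuadraticMap.polar_comm]; exact h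
      symm
      apply Submodule.eq_of_le_of_finrank_eq
      · intro x hx
        exact mem_orth.2 fun y hy => by rw [QuadraticMap.polar_comm]; exact mem_orth.1 hy x hx
      · have h2 := finrank_orth hQ (orth Q H)
        have h3 := finrank_orth hQ H
        omega
    rw [← h1, mem_orth]
    intro y hy
    rw [QuadraticMap.polar_comm]
    exact hcon y hy
  have hwo : w ∈ orth Q H := mem_orth.2 fun y hy => polar_ts hW0.2 (hHW0 hy) hw
  obtain ⟨x, hx⟩ : ∃ x, x = z - (Q z / QuadraticMap.polar Q w z) • w := ⟨_, rfl⟩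
  have hxo : x ∈ orth Q H := by
    rw [hx]
    exact Submodule.sub_mem _ hz (Submodule.smul_mem _ _ hwo)
  have hQx : Q x = 0 := by
    rw [hx, qsub, qsmul, hW0.2 w hw, QuadraticMap.polar_smul_right, QuadraticMap.polar_comm Q z w, smul_eq_mul]
    field_simp
    ring
  have hwx : QuadraticMap.polar Q w x ≠ 0 := by
    rw [hx, QuadraticMap.polar_sub_right, QuadraticMap.polar_smul_right, polar_ts hW0.2 hw hw, smul_zero, sub_zero]
    exact hwz
  have hxH : x ∉ H := fun h => hwx (polar_ts hW0.2 hw (hHW0 h))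
  obtain ⟨W1, hW1d⟩ : ∃ W1, W1 = H ⊔ Submodule.span F {x} := ⟨_, rfl⟩
  have hsupr : ∀ y, y ∉ H → finrank F (H ⊔ Submodule.span F {y} : Submodule F V) = m := by
    intro y hy
    have h1 := Submodule.finrank_sup_add_finrank_inf_eq H (Submodule.span F {y})
    have hy0 : y ≠ 0 := by rintro rfl; exact hy H.zero_mem
    rw [finrank_span_singleton hy0] at h1
    have h2 : H ⊓ Submodule.span F {y} = ⊥ := by
      rw [eq_bot_iff]
      rintro v ⟨hv1, hv2⟩
      obtain ⟨c, rfl⟩ := Submodule.mem_span_singleton.1 hv2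
      rw [Submodule.mem_bot]
      by_cases hc : c = 0
      · rw [hc, zero_smul]
      · exfalso
        apply hy
        have := H.smul_mem c⁻¹ hv1
        rwa [smul_smul, inv_mul_cancel₀ hc, one_smul] at this
    rw [h2, finrank_bot] at h1
    omega
  have hW1 : TS Q m W1 := by
    refine ⟨by rw [hW1d]; exact hsupr x hxH, ?_⟩
    intro v hv
    rw [hW1d] at hv
    obtain ⟨a, ha, b, hb, rfl⟩ := Submodule.mem_sup.1 hv
    obtain ⟨c, rfl⟩ := Submodule.mem_span_singleton.1 hb
    rw [qadd, hH0 a ha, qsmul, hQx, QuadraticMap.polar_smul_right, mem_orth.1 hxo a ha]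
    simp
  have hHW1 : H ≤ W1 := by rw [hW1d]; exact le_sup_left
  have hxW1 : x ∈ W1 := by rw [hW1d]; exact Submodule.mem_sup_right (Submodule.mem_span_singleton_self x)
  have hne : W0 ≠ W1 := by
    intro h
    apply hwx
    exact polar_ts hW0.2 hw (by rw [h]; exact hxW1)
  have hinf : W0 ⊓ W1 = H := by
    symm
    apply Submodule.eq_of_le_of_finrank_le (le_inf hHW0 hHW1)
    have h1 : W0 ⊓ W1 < W0 := by
      rw [lt_iff_le_and_ne]
      refine ⟨inf_le_left, fun h => hne ?_⟩
      exact Submodule.eq_of_le_of_finrank_eq (inf_eq_left.1 h) (by rw [hW0.1, hW1.1])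
    have h2 := Submodule.finrank_lt_finrank_of_lt h1
    rw [hW0.1] at h2
    omega
  have hall : ∀ W, TS Q m W → H ≤ W → W = W0 ∨ W = W1 := by
    intro W hW hHW
    obtain ⟨u, hu, huH⟩ : ∃ u ∈ W, u ∉ H := by
      by_contra hcon
      push Not at hcon
      have := Submodule.finrank_mono (show W ≤ H from hcon)
      rw [hW.1] at this
      omega
    have huo : u ∈ orth Q (W0 ⊓ W1) := by
      rw [hinf]
      exact mem_orth.2 fun y hy => polar_ts hW.2 (hHW hy) hu
    have hWeq : H ⊔ Submodule.span F {u} = W := Submodule.eq_of_le_of_finrank_eq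
      (sup_le hHW (by rw [Submodule.span_singleton_le_iff_mem]; exact hu)) (by rw [hsupr u huH, hW.1])
    rcases mem_or_mem hQ hV hW0 hW1 (by rw [hinf]; exact hH) huo (hW.2 u hu) with h | h
    · left
      apply Submodule.eq_of_le_of_finrank_eq
      · rw [← hWeq]
        exact sup_le hHW0 (by rw [Submodule.span_singleton_le_iff_mem]; exact h)
      · rw [hW.1, hW0.1]
    · right
      apply Submodule.eq_of_le_of_finrank_eq
      · rw [← hWeq]
        exact sup_le hHW1 (by rw [Submodule.span_singleton_le_iff_mem]; exact h)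
      · rw [hW.1, hW1.1]
  have hset : {W : Submodule F V | TS Q m W ∧ H ≤ W} = {W0, W1} := by
    ext W
    constructor
    · rintro ⟨h1, h2⟩
      rcases hall W h1 h2 with h | h
      · exact Or.inl h
      · exact Or.inr h
    · rintro (h | h)
      · rw [h]; exact ⟨hW0, hHW0⟩
      · rw [Set.mem_singleton_iff] at h; rw [h]; exact ⟨hW1, hHW1⟩
  have : Nat.card {W : Submodule F V // TS Q m W ∧ H ≤ W} = ({W : Submodule F V | TS Q m W ∧ H ≤ W}).ncard := rfl
  rw [this, hset, Set.ncard_pair hne]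

end

end Cfsg.Agent.H22
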