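import Cfsg.Agent.LibH22Dec
import Cfsg.Agent.LibH22HermS
import Cfsg.Agent.S0755

set_option autoImplicit false

/-! Decompositions of Hermitian spaces (seat helper22). -/

namespace Cfsg.Agent.H22

open Module

section
variable {F : Type*} [Field F] [Fintype F] {σ : F →+* F} {n : ℕ}

/-- every nondegenerate Hermitian form is standard -/
theorem exists_herm_iso (hσ2 : ∀ x, σ (σ x) = x) (hσi : σ ≠ RingHom.id F) {U : Type*} [AddCommGroup U] [Module F U] [FiniteDimensional F U]
    (B : U →ₛₗ[σ] U →ₗ[F] F) (hS : ∀ x y, σ (B x y) = B y x)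
    (hB : ∀ x, (∀ y, B x y = 0) → x = 0) {k : ℕ} (hk : finrank F U = k) :
    ∃ φ : (Fin k → F) ≃ₗ[F] U, ∀ x y, B (φ x) (φ y) = BH σ k x y := by
  subst hk
  obtain ⟨b, hb⟩ := Cfsg.Agent.S0755.result σ hσi hσ2 B ⟨hS⟩ ⟨hB, fun y hy => hB y (fun x => by rw [← hS, hy, map_zero])⟩
  refine ⟨b.equivFun.symm, fun x y => ?_⟩
  rw [Basis.equivFun_symm_apply, Basis.equivFun_symm_apply, BH_apply, map_sum, map_sum]
  refine Finset.sum_congr rfl fun i _ => ?_
  rw [LinearMap.sum_apply, Finset.sum_eq_single i]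
  · rw [map_smul, LinearMap.map_smulₛₗ, LinearMap.smul_apply, hb, if_pos rfl, smul_eq_mul, smul_eq_mul, mul_one, mul_comm]
  · intro j _ hj
    rw [map_smul, LinearMap.map_smulₛₗ, LinearMap.smul_apply, hb, if_neg hj, smul_zero, smul_zero]
  · intro h; exact absurd (Finset.mem_univ _) h

/-- orthogonal complement -/
def hperp (σ : F →+* F) (W : Submodule F (Fin n → F)) : Submodule F (Fin n → F) := ⨅ w : W, LinearMap.ker (BH σ n w.1)

lemma mem_hperp {W : Submodule F (Fin n → F)} {x : Fin n → F} : x ∈ hperp σ W ↔ ∀ w ∈ W, BH σ n w x = 0 := by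
  unfold hperp
  rw [Submodule.mem_iInf]
  exact ⟨fun h w hw => LinearMap.mem_ker.1 (h ⟨w, hw⟩), fun h w => LinearMap.mem_ker.2 (h w.1 w.2)⟩

theorem isCompl_hperp (hσ2 : ∀ x, σ (σ x) = x) (hσi : σ ≠ RingHom.id F) {W : Submodule F (Fin n → F)}
    (hW : ∀ u ∈ W, (∀ v ∈ W, BH σ n u v = 0) → u = 0) : IsCompl W (hperp σ W) := by
  obtain ⟨φ, hφ⟩ := exists_herm_iso hσ2 hσi ((BH σ n).domRestrict₁₂ W W) (fun x y => BH_symm hσ2 x.1 y.1) (fun x hx => by
    apply Subtype.ext
    apply hW x.1 x.2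
    intro v hv
    exact hx ⟨v, hv⟩) rfl
  constructor
  · rw [Submodule.disjoint_def]
    intro x hx hx'
    apply hW x hx
    intro v hv
    rw [← BH_symm hσ2, mem_hperp.1 hx' v hv, map_zero]
  · rw [codisjoint_iff, eq_top_iff]
    intro x _
    obtain ⟨c, hc⟩ : ∃ c : Fin (finrank F W) → F, c = fun i => BH σ n (φ (Pi.single i 1) : Fin n → F) x := ⟨_, rfl⟩
    have hx : x = (φ c : Fin n → F) + (x - φ c) := by abel
    rw [hx]
    refine Submodule.add_mem_sup (φ c).2 ?_
    rw [mem_hperp]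
    intro w hw
    obtain ⟨z, hz⟩ := φ.surjective ⟨w, hw⟩
    have hw' : w = (φ z : Fin n → F) := by rw [hz]
    have h1 : BH σ n w (φ c : Fin n → F) = ∑ i, σ (z i) * c i := by
      rw [hw']; exact hφ z c
    have h2 : BH σ n w x = ∑ i, σ (z i) * c i := by
      have hz2 : z = ∑ i, z i • (Pi.single i 1 : Fin (finrank F W) → F) := by
        ext j
        rw [Finset.sum_apply, Finset.sum_eq_single j]
        · simp
        · intro i _ hi
          rw [Pi.smul_apply, Pi.single_eq_of_ne hi.symm, smul_zero]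
        · intro h; exact absurd (Finset.mem_univ _) h
      have hw2 : w = ∑ i, z i • (φ (Pi.single i 1) : Fin n → F) := by
        rw [hw']
        conv_lhs => rw [hz2]
        rw [map_sum]
        push_cast
        refine Finset.sum_congr rfl fun i _ => ?_
        rw [map_smul]; rfl
      conv_lhs => rw [hw2]
      rw [map_sum, LinearMap.sum_apply]
      refine Finset.sum_congr rfl fun i _ => ?_
      rw [LinearMap.map_smulₛₗ, LinearMap.smul_apply, smul_eq_mul, hc]
    rw [map_sub, h1, h2, sub_self]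

end

end Cfsg.Agent.H22
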