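import Cfsg.Agent.LibH22POrd
import Cfsg.Agent.LibH22Exist
import Cfsg.Agent.LibH22SpOrder

set_option autoImplicit false

/-! Involutions in orthogonal groups of odd dimension (seat helper22). -/

namespace Cfsg.Agent.H22

open Module
open scoped commutatorElement

section
variable {F V : Type*} [Field F] [Fintype F] [AddCommGroup V] [Module F V] [FiniteDimensional F V] {Q : QuadraticForm F V}

/-- orthonormal families -/
theorem ortho_family (h2 : (2 : F) ≠ 0) (hQ : (QuadraticMap.polarBilin Q).Nondegenerate) (k : ℕ) (hk : k + 1 ≤ finrank F V) :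
    ∃ w : Fin k → V, (∀ i, Q (w i) = 1) ∧ ∀ i j, i ≠ j → QuadraticMap.polar Q (w i) (w j) = 0 := by
  classical
  induction k with
  | zero => exact ⟨fun i => i.elim0, fun i => i.elim0, fun i => i.elim0⟩
  | succ k ih =>
    obtain ⟨w, hw1, hw2⟩ := ih (by omega)
    have hbi : ∀ a b, QuadraticMap.polarBilin Q (w a) ((2 : F)⁻¹ • w b) = if a = b then 1 else 0 := by
      intro a b
      rw [map_smul, QuadraticMap.polarBilin_apply_apply, smul_eq_mul]
      by_cases hab : a = b
      · subst hab; rw [pself, hw1, if_pos rfl]; field_simp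
      · rw [hw2 a b hab, if_neg hab, mul_zero]
    have hR : (QuadraticMap.polarBilin Q).IsRefl := by
      intro x y h
      rw [QuadraticMap.polarBilin_apply_apply, QuadraticMap.polar_comm]; exact h
    have hc' : ∀ b, (2 : F)⁻¹ • w b ∈ Submodule.span F (Set.range w) := fun b => Submodule.smul_mem _ _ (Submodule.subset_span ⟨b, rfl⟩)
    have hfr := finrank_orth_of_biorth (QuadraticMap.polarBilin Q) hR w _ hbi hc'
    rw [Fintype.card_fin] at hfr
    obtain ⟨W, hW⟩ : ∃ W, W = LinearMap.BilinForm.orthogonal (QuadraticMap.polarBilin Q) (Submodule.span F (Set.range w)) := ⟨_, rfl⟩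
    rw [← hW] at hfr
    have hnd : (QuadraticMap.polarBilin (Q.comp W.subtype)).Nondegenerate := by
      apply nondeg_of_left
      intro x hx
      apply Subtype.ext
      apply nondeg_orth_of_biorth (QuadraticMap.polarBilin Q) hR hQ w _ hbi hc' x.1 (by rw [← hW]; exact x.2)
      intro y hy
      rw [← hW] at hy
      have := hx ⟨y, hy⟩
      exact this
    obtain ⟨x, hx⟩ := exists_norm_odd h2 hnd (by omega) 1
    have hx' : Q x.1 = 1 := hx
    have hxw : ∀ i, QuadraticMap.polar Q (w i) x.1 = 0 := by
      intro i
      have h3 : x.1 ∈ LinearMap.BilinForm.orthogonal (QuadraticMap.polarBilin Q) (Submodule.span F (Set.range w)) := by rw [← hW]; exact x.2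
      rw [LinearMap.BilinForm.mem_orthogonal_iff] at h3
      exact h3 _ (Submodule.subset_span ⟨i, rfl⟩)
    refine ⟨Fin.cons x.1 w, ?_, ?_⟩
    · intro i
      refine Fin.cases ?_ ?_ i
      · exact hx'
      · intro i; rw [Fin.cons_succ]; exact hw1 i
    · intro i j
      refine Fin.cases ?_ ?_ i
      · refine Fin.cases ?_ ?_ j
        · intro h; exact absurd rfl h
        · intro j _
          rw [Fin.cons_zero, Fin.cons_succ, QuadraticMap.polar_comm]; exact hxw j
      · intro i
        refine Fin.cases ?_ ?_ j
        · intro _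
          rw [Fin.cons_zero, Fin.cons_succ]; exact hxw i
        · intro j h
          rw [Fin.cons_succ, Fin.cons_succ]
          exact hw2 i j (fun h' => h (by rw [h']))

/-- involutions -/
theorem exists_invol (h2 : (2 : F) ≠ 0) (hQ : (QuadraticMap.polarBilin Q).Nondegenerate) (m : ℕ) (hm : finrank F V = 2 * m + 1) (k : ℕ) (hk : k ≤ m) :
    ∃ g ∈ commutator (OGrp Q), g * g = 1 ∧ finrank F (LinearMap.ker ((g.1 : V →ₗ[F] V) + 1)) = 2 * k := by
  classical
  obtain ⟨w, hw1, hw2⟩ := ortho_family h2 hQ (m + m) (by omega)
  obtain ⟨u, hu⟩ : ∃ u : Fin m → V, ∀ i, u i = w (Fin.castAdd m i) := ⟨_, fun i => rfl⟩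
  obtain ⟨v, hv⟩ : ∃ v : Fin m → V, ∀ i, v i = w (Fin.natAdd m i) := ⟨_, fun i => rfl⟩
  have huu : ∀ i j, QuadraticMap.polar Q (u i) (u j) = if i = j then 2 else 0 := by
    intro i j
    rw [hu, hu]
    by_cases h : i = j
    · rw [h, pself, hw1, if_pos rfl, mul_one]
    · rw [hw2 _ _ (fun h' => h (Fin.castAdd_injective m m h')), if_neg h]
  have hvv : ∀ i j, QuadraticMap.polar Q (v i) (v j) = if i = j then 2 else 0 := by
    intro i j
    rw [hv, hv]
    by_cases h : i = j
    · rw [h, pself, hw1, if_pos rfl, mul_one]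
    · rw [hw2 _ _ (fun h' => h (by simpa [Fin.ext_iff] using h')), if_neg h]
  have huv : ∀ i j, QuadraticMap.polar Q (u i) (v j) = 0 := by
    intro i j
    rw [hu, hv]
    apply hw2
    intro h
    have := congrArg Fin.val h
    simp at this
    omega
  have hvu : ∀ i j, QuadraticMap.polar Q (v i) (u j) = 0 := fun i j => by rw [QuadraticMap.polar_comm]; exact huv j i
  have hu1 : ∀ i, Q (u i) = 1 := fun i => by rw [hu, hw1]
  have hv1 : ∀ i, Q (v i) = 1 := fun i => by rw [hv, hw1]
  have key : ∀ s : Finset (Fin m), ∃ g ∈ commutator (OGrp Q), ∀ x, g.1 x = x - ∑ i ∈ s, (QuadraticMap.polar Q (u i) x • u i + QuadraticMap.polar Q (v i) x • v i) := by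
    intro s
    induction s using Finset.induction_on with
    | empty => exact ⟨1, one_mem _, fun x => by rw [Finset.sum_empty, sub_zero]; rfl⟩
    | insert a s ha ih =>
      obtain ⟨g, hg, hgx⟩ := ih
      have hqu : Q (u a) ≠ 0 := by rw [hu1]; exact one_ne_zero
      have hqv : Q (v a) ≠ 0 := by rw [hv1]; exact one_ne_zero
      have hu0 : u a ≠ 0 := by intro h; rw [h, map_zero] at hqu; exact hqu rfl
      have hv0 : v a ≠ 0 := by intro h; rw [h, map_zero] at hqv; exact hqv rfl
      obtain ⟨h, hh⟩ := witt_one hQ (u a) (v a) hu0 hv0 (by rw [hu1, hv1])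
      have hcomm : oRefl Q (u a) hqu * oRefl Q (v a) hqv ∈ commutator (OGrp Q) := by
        have h1 : oRefl Q (v a) hqv = h * oRefl Q (u a) hqu * h⁻¹ := (conj_oRefl h (u a) (v a) hqu hqv hh).symm
        have h3 : oRefl Q (u a) hqu * oRefl Q (v a) hqv = ⁅oRefl Q (u a) hqu, h⁆ := by
          rw [h1, commutatorElement_def, oRefl_inv]; group
        rw [h3]
        exact Subgroup.commutator_mem_commutator (Subgroup.mem_top _) (Subgroup.mem_top _)
      refine ⟨(oRefl Q (u a) hqu * oRefl Q (v a) hqv) * g, mul_mem hcomm hg, ?_⟩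
      intro x
      have hsu : QuadraticMap.polar Q (u a) (∑ i ∈ s, (QuadraticMap.polar Q (u i) x • u i + QuadraticMap.polar Q (v i) x • v i)) = 0 := by
        have h1 := map_sum (QuadraticMap.polarBilin Q (u a)) (fun i => QuadraticMap.polar Q (u i) x • u i + QuadraticMap.polar Q (v i) x • v i) s
        rw [QuadraticMap.polarBilin_apply_apply] at h1
        rw [h1]
        apply Finset.sum_eq_zero
        intro i hi
        rw [map_add, map_smul, map_smul, QuadraticMap.polarBilin_apply_apply, QuadraticMap.polarBilin_apply_apply, huu, huv, if_neg (by rintro rfl; exact ha hi)]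
        simp
      have hsv : QuadraticMap.polar Q (v a) (∑ i ∈ s, (QuadraticMap.polar Q (u i) x • u i + QuadraticMap.polar Q (v i) x • v i)) = 0 := by
        have h1 := map_sum (QuadraticMap.polarBilin Q (v a)) (fun i => QuadraticMap.polar Q (u i) x • u i + QuadraticMap.polar Q (v i) x • v i) s
        rw [QuadraticMap.polarBilin_apply_apply] at h1
        rw [h1]
        apply Finset.sum_eq_zero
        intro i hi
        rw [map_add, map_smul, map_smul, QuadraticMap.polarBilin_apply_apply, QuadraticMap.polarBilin_apply_apply, hvv, hvu, if_neg (by rintro rfl; exact ha hi)]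
        simp
      rw [og_mul_apply, og_mul_apply, hgx, oRefl_apply, oRefl_apply, hv1, hu1, Finset.sum_insert ha]
      simp only [QuadraticMap.polar_sub_right, QuadraticMap.polar_smul_right, hsu, hsv, huv, smul_zero, sub_zero, inv_one, one_mul, smul_eq_mul, mul_zero]
      abel
  obtain ⟨s, hs⟩ : ∃ s : Finset (Fin m), s.card = k := by
    obtain ⟨s, _, hs⟩ := Finset.exists_subset_card_eq (s := (Finset.univ : Finset (Fin m))) (n := k) (by rw [Finset.card_univ, Fintype.card_fin]; exact hk)
    exact ⟨s, hs⟩
  obtain ⟨g, hg, hgx⟩ := key s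
  obtain ⟨P, hP⟩ : ∃ P : V → V, ∀ x, P x = ∑ i ∈ s, (QuadraticMap.polar Q (u i) x • u i + QuadraticMap.polar Q (v i) x • v i) := ⟨_, fun x => rfl⟩
  have hPu : ∀ x, ∀ j ∈ s, QuadraticMap.polar Q (u j) (P x) = 2 * QuadraticMap.polar Q (u j) x := by
    intro x j hj
    have h1 := map_sum (QuadraticMap.polarBilin Q (u j)) (fun i => QuadraticMap.polar Q (u i) x • u i + QuadraticMap.polar Q (v i) x • v i) s
    rw [QuadraticMap.polarBilin_apply_apply] at h1
    rw [hP, h1, Finset.sum_eq_single j]
    · rw [map_add, map_smul, map_smul, QuadraticMap.polarBilin_apply_apply, QuadraticMap.polarBilin_apply_apply, huu, huv, if_pos rfl]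
      simp [mul_comm]
    · intro i _ hij
      rw [map_add, map_smul, map_smul, QuadraticMap.polarBilin_apply_apply, QuadraticMap.polarBilin_apply_apply, huu, huv, if_neg (Ne.symm hij)]
      simp
    · intro h; exact absurd hj h
  have hPv : ∀ x, ∀ j ∈ s, QuadraticMap.polar Q (v j) (P x) = 2 * QuadraticMap.polar Q (v j) x := by
    intro x j hj
    have h1 := map_sum (QuadraticMap.polarBilin Q (v j)) (fun i => QuadraticMap.polar Q (u i) x • u i + QuadraticMap.polar Q (v i) x • v i) s
    rw [QuadraticMap.polarBilin_apply_apply] at h1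
    rw [hP, h1, Finset.sum_eq_single j]
    · rw [map_add, map_smul, map_smul, QuadraticMap.polarBilin_apply_apply, QuadraticMap.polarBilin_apply_apply, hvv, hvu, if_pos rfl]
      simp [mul_comm]
    · intro i _ hij
      rw [map_add, map_smul, map_smul, QuadraticMap.polarBilin_apply_apply, QuadraticMap.polarBilin_apply_apply, hvv, hvu, if_neg (Ne.symm hij)]
      simp
    · intro h; exact absurd hj h
  have hgx' : ∀ x, g.1 x = x - P x := fun x => by rw [hP, hgx]
  refine ⟨g, hg, ?_, ?_⟩
  · apply og_ext
    intro x
    have hPP : P (x - P x) = - P x := by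
      rw [hP (x - P x), hP x, ← Finset.sum_neg_distrib]
      refine Finset.sum_congr rfl fun i hi => ?_
      rw [← hP x, QuadraticMap.polar_sub_right, QuadraticMap.polar_sub_right, hPu x i hi, hPv x i hi]
      module
    rw [og_mul_apply, hgx', hgx', hPP]
    show x - P x - - P x = x
    abel
  · -- the eigenspace is spanned by the vectors
    let c : s ⊕ s → V := Sum.elim (fun i => u i) (fun i => v i)
    have hbi : ∀ a b, QuadraticMap.polarBilin Q (c a) ((2 : F)⁻¹ • c b) = if a = b then 1 else 0 := by
      intro a b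
      rw [map_smul, QuadraticMap.polarBilin_apply_apply, smul_eq_mul]
      rcases a with a | a <;> rcases b with b | b
      · show (2 : F)⁻¹ * QuadraticMap.polar Q (u a) (u b) = _
        rw [huu]
        by_cases h : a = b
        · subst h; rw [if_pos rfl, if_pos rfl, inv_mul_cancel₀ h2]
        · rw [if_neg (fun h' => h (Subtype.ext h')), if_neg (fun h' => h (Sum.inl.inj h')), mul_zero]
      · show (2 : F)⁻¹ * QuadraticMap.polar Q (u a) (v b) = _
        rw [huv, if_neg (by simp), mul_zero]
      · show (2 : F)⁻¹ * QuadraticMap.polar Q (v a) (u b) = _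
        rw [hvu, if_neg (by simp), mul_zero]
      · show (2 : F)⁻¹ * QuadraticMap.polar Q (v a) (v b) = _
        rw [hvv]
        by_cases h : a = b
        · subst h; rw [if_pos rfl, if_pos rfl, inv_mul_cancel₀ h2]
        · rw [if_neg (fun h' => h (Subtype.ext h')), if_neg (fun h' => h (Sum.inr.inj h')), mul_zero]
    have hli := linInd_of_biorth (QuadraticMap.polarBilin Q) c _ hbi
    have hspan : LinearMap.ker ((g.1 : V →ₗ[F] V) + 1) = Submodule.span F (Set.range c) := by
      apply le_antisymm
      · intro x hx
        rw [LinearMap.mem_ker, LinearMap.add_apply] at hx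
        have h3 : g.1 x + x = 0 := hx
        rw [hgx'] at h3
        have h4 : (2 : F) • x = P x := by
          rw [two_smul]
          have : x + x = (x - P x + x) + P x := by abel
          rw [this, h3, zero_add]
        have h5 : x = (2 : F)⁻¹ • P x := by rw [← h4, smul_smul, inv_mul_cancel₀ h2, one_smul]
        rw [h5, hP]
        apply Submodule.smul_mem
        apply Submodule.sum_mem
        intro i hi
        apply Submodule.add_mem
        · exact Submodule.smul_mem _ _ (Submodule.subset_span ⟨Sum.inl ⟨i, hi⟩, rfl⟩)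
        · exact Submodule.smul_mem _ _ (Submodule.subset_span ⟨Sum.inr ⟨i, hi⟩, rfl⟩)
      · rw [Submodule.span_le]
        rintro _ ⟨a, rfl⟩
        rw [SetLike.mem_coe, LinearMap.mem_ker, LinearMap.add_apply]
        show g.1 (c a) + c a = 0
        rw [hgx']
        rcases a with a | a
        · show u a - P (u a) + u a = 0
          have : P (u a) = (2 : F) • u a := by
            rw [hP, Finset.sum_eq_single a.1]
            · rw [huu, hvu, if_pos rfl, zero_smul, add_zero]
            · intro i _ hij
              rw [huu, hvu, if_neg hij, zero_smul, zero_smul, add_zero]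
            · intro h; exact absurd a.2 h
          rw [this, two_smul]; abel
        · show v a - P (v a) + v a = 0
          have : P (v a) = (2 : F) • v a := by
            rw [hP, Finset.sum_eq_single a.1]
            · rw [huv, hvv, if_pos rfl, zero_smul, zero_add]
            · intro i _ hij
              rw [huv, hvv, if_neg hij, zero_smul, zero_smul, add_zero]
            · intro h; exact absurd a.2 h
          rw [this, two_smul]; abel
    rw [hspan, finrank_span_eq_card hli, Fintype.card_sum, Fintype.card_coe, hs]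
    ring

end

end Cfsg.Agent.H22
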