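import Cfsg.Agent.LibH22Inv
import Cfsg.Agent.LibH22SpDec

set_option autoImplicit false

/-! Involutions in projective symplectic groups (seat helper22). -/

namespace Cfsg.Agent.H22

open Module

section
variable {F V : Type*} [Field F] [AddCommGroup V] [Module F V] [FiniteDimensional F V] {B : LinearMap.BilinForm F V}

/-- non-degenerate alternating forms live in even dimension -/
lemma even_of_alt (hA : B.IsAlt) (hB : ∀ x, (∀ y, B x y = 0) → x = 0) : ∃ k, finrank F V = 2 * k := by
  obtain ⟨m', k', b, h1, h2, h3, h4⟩ := Cfsg.Agent.S0752.result B hA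
  have hk' : k' = 0 := by
    by_contra hne
    have := hB (b (Sum.inr ⟨0, by omega⟩)) (h4 _)
    exact b.ne_zero _ this
  subst hk'
  refine ⟨m', ?_⟩
  have h5 := Module.finrank_eq_card_basis b
  simp at h5
  omega

/-- eigenspaces of an isometric involution -/
lemma invol_split (h2 : (2 : F) ≠ 0) (L : V ≃ₗ[F] V) (hL : ∀ x y, B (L x) (L y) = B x y) (hLL : ∀ x, L (L x) = x) :
    (∀ x ∈ LinearMap.ker ((L : V →ₗ[F] V) + 1), ∀ y ∈ LinearMap.ker ((L : V →ₗ[F] V) - 1), B x y = 0 ∧ B y x = 0) ∧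
    (∀ x, ∃ a ∈ LinearMap.ker ((L : V →ₗ[F] V) + 1), ∃ b ∈ LinearMap.ker ((L : V →ₗ[F] V) - 1), x = a + b) ∧
    IsCompl (LinearMap.ker ((L : V →ₗ[F] V) + 1)) (LinearMap.ker ((L : V →ₗ[F] V) - 1)) := by
  have hm : ∀ x, x ∈ LinearMap.ker ((L : V →ₗ[F] V) + 1) ↔ L x = -x := by
    intro x
    rw [LinearMap.mem_ker, LinearMap.add_apply]
    show L x + x = 0 ↔ _
    rw [add_eq_zero_iff_eq_neg]
  have hp : ∀ x, x ∈ LinearMap.ker ((L : V →ₗ[F] V) - 1) ↔ L x = x := by
    intro x
    rw [LinearMap.mem_ker, LinearMap.sub_apply]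
    show L x - x = 0 ↔ _
    rw [sub_eq_zero]
  have hdec : ∀ x, ∃ a ∈ LinearMap.ker ((L : V →ₗ[F] V) + 1), ∃ b ∈ LinearMap.ker ((L : V →ₗ[F] V) - 1), x = a + b := by
    intro x
    refine ⟨(2 : F)⁻¹ • (x - L x), ?_, (2 : F)⁻¹ • (x + L x), ?_, ?_⟩
    · rw [hm, _root_.map_smul, map_sub, hLL, ← smul_neg, neg_sub]
    · rw [hp, _root_.map_smul, map_add, hLL, add_comm]
    · rw [← smul_add]
      have : x - L x + (x + L x) = (2 : F) • x := by rw [two_smul]; abel
      rw [this, smul_smul, inv_mul_cancel₀ h2, one_smul]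
  refine ⟨?_, hdec, ?_⟩
  · intro x hx y hy
    rw [hm] at hx
    rw [hp] at hy
    constructor
    · have := hL x y
      rw [hx, hy, map_neg, LinearMap.neg_apply] at this
      have h3 : (2 : F) * B x y = 0 := by linear_combination -this
      exact (mul_eq_zero.1 h3).resolve_left h2
    · have := hL y x
      rw [hx, hy, map_neg] at this
      have h3 : (2 : F) * B y x = 0 := by linear_combination -this
      exact (mul_eq_zero.1 h3).resolve_left h2
  · constructor
    · rw [Submodule.disjoint_def]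
      intro x hx1 hx2
      rw [hm] at hx1
      rw [hp] at hx2
      rw [hx2] at hx1
      have h3 : (2 : F) • x = 0 := by
        rw [two_smul]
        nth_rewrite 1 [hx1]
        exact neg_add_cancel x
      exact (smul_eq_zero.1 h3).resolve_left h2
    · rw [codisjoint_iff, eq_top_iff]
      intro x _
      obtain ⟨a, ha, b, hb, h⟩ := hdec x
      rw [h]
      exact Submodule.add_mem_sup ha hb

/-- two non-degenerate subspaces of the same dimension are isometric -/
lemma exists_alt_isometry (hA : B.IsAlt) (W W' : Submodule F V) (hW : ∀ x ∈ W, (∀ y ∈ W, B x y = 0) → x = 0)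
    (hW' : ∀ x ∈ W', (∀ y ∈ W', B x y = 0) → x = 0) (hfr : finrank F W = finrank F W') :
    ∃ ψ : W ≃ₗ[F] W', ∀ x y, B (ψ x : V) (ψ y : V) = B (x : V) (y : V) := by
  have n1 : ∀ x : W, (∀ y, B.restrict W x y = 0) → x = 0 := fun x hx => Subtype.ext (hW x.1 x.2 (fun y hy => hx ⟨y, hy⟩))
  have n2 : ∀ x : W', (∀ y, B.restrict W' x y = 0) → x = 0 := fun x hx => Subtype.ext (hW' x.1 x.2 (fun y hy => hx ⟨y, hy⟩))
  have a1 : (B.restrict W).IsAlt := fun w => hA w
  have a2 : (B.restrict W').IsAlt := fun w => hA w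
  obtain ⟨k, hk⟩ := even_of_alt a1 n1
  obtain ⟨φ, hφ⟩ := exists_sp_iso (B.restrict W) a1 n1 hk
  obtain ⟨φ', hφ'⟩ := exists_sp_iso (B.restrict W') a2 n2 (k := k) (by rw [← hfr, hk])
  refine ⟨φ.symm.trans φ', fun x y => ?_⟩
  have h1 := hφ' (φ.symm x) (φ.symm y)
  have h3 := hφ (φ.symm x) (φ.symm y)
  rw [LinearEquiv.apply_symm_apply, LinearEquiv.apply_symm_apply] at h3
  exact h1.trans h3.symm

/-- conjugacy of isometric involutions -/
theorem invol_conj (h2 : (2 : F) ≠ 0) (hA : B.IsAlt) (hB : ∀ x, (∀ y, B x y = 0) → x = 0) (L M : V ≃ₗ[F] V)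
    (hL : ∀ x y, B (L x) (L y) = B x y) (hLL : ∀ x, L (L x) = x) (hM : ∀ x y, B (M x) (M y) = B x y) (hMM : ∀ x, M (M x) = x)
    (hfr : finrank F (LinearMap.ker ((L : V →ₗ[F] V) + 1)) = finrank F (LinearMap.ker ((M : V →ₗ[F] V) + 1))) :
    ∃ g : V ≃ₗ[F] V, (∀ x y, B (g x) (g y) = B x y) ∧ ∀ x, g (L x) = M (g x) := by
  obtain ⟨hL1, hL2, hL3⟩ := invol_split h2 L hL hLL
  obtain ⟨hM1, hM2, hM3⟩ := invol_split h2 M hM hMM
  have hfr' : finrank F (LinearMap.ker ((L : V →ₗ[F] V) - 1)) = finrank F (LinearMap.ker ((M : V →ₗ[F] V) - 1)) := by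
    have e1 := Submodule.finrank_add_eq_of_isCompl hL3
    have e2 := Submodule.finrank_add_eq_of_isCompl hM3
    omega
  have nd : ∀ L : V ≃ₗ[F] V, (∀ x ∈ LinearMap.ker ((L : V →ₗ[F] V) + 1), ∀ y ∈ LinearMap.ker ((L : V →ₗ[F] V) - 1), B x y = 0 ∧ B y x = 0) →
      (∀ x, ∃ a ∈ LinearMap.ker ((L : V →ₗ[F] V) + 1), ∃ b ∈ LinearMap.ker ((L : V →ₗ[F] V) - 1), x = a + b) →
      (∀ x ∈ LinearMap.ker ((L : V →ₗ[F] V) + 1), (∀ y ∈ LinearMap.ker ((L : V →ₗ[F] V) + 1), B x y = 0) → x = 0) ∧
      (∀ x ∈ LinearMap.ker ((L : V →ₗ[F] V) - 1), (∀ y ∈ LinearMap.ker ((L : V →ₗ[F] V) - 1), B x y = 0) → x = 0) := by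
    intro L h1 h2
    constructor
    · intro x hx hxy
      apply hB
      intro y
      obtain ⟨a, ha, b, hb, rfl⟩ := h2 y
      rw [map_add, hxy a ha, (h1 x hx b hb).1, add_zero]
    · intro x hx hxy
      apply hB
      intro y
      obtain ⟨a, ha, b, hb, rfl⟩ := h2 y
      rw [map_add, hxy b hb, (h1 a ha x hx).2, add_zero]
  obtain ⟨nL1, nL2⟩ := nd L hL1 hL2
  obtain ⟨nM1, nM2⟩ := nd M hM1 hM2
  obtain ⟨ψ₁, hψ₁⟩ := exists_alt_isometry hA _ _ nL1 nM1 hfr
  obtain ⟨ψ₂, hψ₂⟩ := exists_alt_isometry hA _ _ nL2 nM2 hfr'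
  obtain ⟨e, he⟩ : ∃ e : (LinearMap.ker ((L : V →ₗ[F] V) + 1) × LinearMap.ker ((L : V →ₗ[F] V) - 1)) ≃ₗ[F] V, ∀ p, e p = (p.1 : V) + (p.2 : V) :=
    ⟨Submodule.prodEquivOfIsCompl _ _ hL3, fun p => rfl⟩
  obtain ⟨e', he'⟩ : ∃ e' : (LinearMap.ker ((M : V →ₗ[F] V) + 1) × LinearMap.ker ((M : V →ₗ[F] V) - 1)) ≃ₗ[F] V, ∀ p, e' p = (p.1 : V) + (p.2 : V) :=
    ⟨Submodule.prodEquivOfIsCompl _ _ hM3, fun p => rfl⟩
  obtain ⟨g, hg⟩ : ∃ g : V ≃ₗ[F] V, ∀ p, g (e p) = e' (ψ₁ p.1, ψ₂ p.2) :=
    ⟨(e.symm.trans (LinearEquiv.prodCongr ψ₁ ψ₂)).trans e', fun p => by simp⟩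
  refine ⟨g, ?_, ?_⟩
  · intro x y
    obtain ⟨p, rfl⟩ := e.surjective x
    obtain ⟨r, rfl⟩ := e.surjective y
    rw [hg, hg, he', he', he, he]
    simp only [map_add, LinearMap.add_apply]
    rw [(hM1 _ (ψ₁ p.1).2 _ (ψ₂ r.2).2).1, (hM1 _ (ψ₁ r.1).2 _ (ψ₂ p.2).2).2, (hL1 _ p.1.2 _ r.2.2).1, (hL1 _ r.1.2 _ p.2.2).2, hψ₁, hψ₂]
  · have hmL : ∀ x : LinearMap.ker ((L : V →ₗ[F] V) + 1), L x = -x := by
      intro x
      have := x.2
      rw [LinearMap.mem_ker, LinearMap.add_apply] at this
      exact add_eq_zero_iff_eq_neg.1 this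
    have hpL : ∀ x : LinearMap.ker ((L : V →ₗ[F] V) - 1), L x = x := by
      intro x
      have := x.2
      rw [LinearMap.mem_ker, LinearMap.sub_apply] at this
      exact sub_eq_zero.1 this
    have hmM : ∀ x : LinearMap.ker ((M : V →ₗ[F] V) + 1), M x = -x := by
      intro x
      have := x.2
      rw [LinearMap.mem_ker, LinearMap.add_apply] at this
      exact add_eq_zero_iff_eq_neg.1 this
    have hpM : ∀ x : LinearMap.ker ((M : V →ₗ[F] V) - 1), M x = x := by
      intro x
      have := x.2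
      rw [LinearMap.mem_ker, LinearMap.sub_apply] at this
      exact sub_eq_zero.1 this
    intro x
    obtain ⟨p, rfl⟩ := e.surjective x
    have h1 : L (e p) = e (-p.1, p.2) := by
      rw [he, he, map_add, hmL, hpL]
      try rfl
    rw [h1, hg, hg, he', he', map_add, hmM, hpM]
    simp

variable [Fintype F]

/-- families adapted to a square root of `-1` -/
theorem root_family (h2 : (2 : F) ≠ 0) (hA : B.IsAlt) (hB : B.Nondegenerate) {m : ℕ} (hm : finrank F V = 2 * m) (L : V ≃ₗ[F] V)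
    (hL : ∀ x y, B (L x) (L y) = B x y) (hLL : ∀ x, L (L x) = -x) (k : ℕ) (hk : k ≤ m) :
    ∃ e : Fin k → V, (∀ i j, B (e i) (L (e j)) = if i = j then 1 else 0) ∧ ∀ i j, B (e i) (e j) = 0 := by
  classical
  induction k with
  | zero => exact ⟨fun i => i.elim0, fun i => i.elim0, fun i => i.elim0⟩
  | succ k ih =>
    obtain ⟨e, he1, he2⟩ := ih (by omega)
    have hLe : ∀ x y, B (L x) y = - B x (L y) := by
      intro x y
      have := hL x (L y)
      rw [hLL, map_neg] at this
      linear_combination -this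
    let c : Fin k ⊕ Fin k → V := Sum.elim e (fun i => L (e i))
    let c' : Fin k ⊕ Fin k → V := Sum.elim (fun i => L (e i)) (fun i => -(e i))
    have hbi : ∀ a b, B (c a) (c' b) = if a = b then 1 else 0 := by
      intro a b
      rcases a with a | a <;> rcases b with b | b
      · show B (e a) (L (e b)) = _
        rw [he1]
        by_cases h : a = b
        · subst h; rw [if_pos rfl, if_pos rfl]
        · rw [if_neg h, if_neg (fun h' => h (Sum.inl.inj h'))]
      · show B (e a) (-(e b)) = _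
        rw [map_neg, he2, if_neg (by simp), neg_zero]
      · show B (L (e a)) (L (e b)) = _
        rw [hL, he2, if_neg (by simp)]
      · show B (L (e a)) (-(e b)) = _
        rw [map_neg, hLe, neg_neg, he1]
        by_cases h : a = b
        · subst h; rw [if_pos rfl, if_pos rfl]
        · rw [if_neg h, if_neg (fun h' => h (Sum.inr.inj h'))]
    have hc' : ∀ b, c' b ∈ Submodule.span F (Set.range c) := by
      intro b
      rcases b with b | b
      · exact Submodule.subset_span ⟨Sum.inr b, rfl⟩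
      · exact Submodule.neg_mem _ (Submodule.subset_span ⟨Sum.inl b, rfl⟩)
    have hR := hA.isRefl
    have hfr := finrank_orth_of_biorth B hR c c' hbi hc'
    rw [Fintype.card_sum, Fintype.card_fin] at hfr
    obtain ⟨W, hW⟩ : ∃ W, W = B.orthogonal (Submodule.span F (Set.range c)) := ⟨_, rfl⟩
    have hWn := nondeg_orth_of_biorth B hR hB c c' hbi hc'
    rw [← hW] at hfr hWn
    have hWmem : ∀ x, x ∈ W ↔ ∀ i, B (e i) x = 0 ∧ B (e i) (L x) = 0 := by
      intro x
      rw [hW, LinearMap.BilinForm.mem_orthogonal_iff]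
      constructor
      · intro h i
        refine ⟨h _ (Submodule.subset_span ⟨Sum.inl i, rfl⟩), ?_⟩
        have : B (L (e i)) x = 0 := h _ (Submodule.subset_span ⟨Sum.inr i, rfl⟩)
        rw [hLe] at this
        linear_combination -this
      · intro h y hy
        have hle : Submodule.span F (Set.range c) ≤ LinearMap.ker (B.flip x) := by
          rw [Submodule.span_le]
          rintro _ ⟨a, rfl⟩
          rw [SetLike.mem_coe, LinearMap.mem_ker]
          rcases a with a | a
          · exact (h a).1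
          · show B (L (e a)) x = 0
            rw [hLe, (h a).2, neg_zero]
        exact hle hy
    have hWL : ∀ x ∈ W, L x ∈ W := by
      intro x hx
      rw [hWmem] at hx ⊢
      intro i
      exact ⟨(hx i).2, by rw [hLL, map_neg, (hx i).1, neg_zero]⟩
    -- the quadratic form `x ↦ B x (L x)` on `W`
    have hsym : ∀ x y, B x (L y) = B y (L x) := by
      intro x y
      rw [← hA.neg_eq, hLe, neg_neg]
    let q : QuadraticForm F W := QuadraticMap.ofPolar (fun x : W => B x (L x)) (fun a x => by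
        simp only [Submodule.coe_smul, _root_.map_smul, LinearMap.smul_apply, smul_eq_mul]; ring) (fun x y z => by
        simp only [QuadraticMap.polar, Submodule.coe_add, map_add, LinearMap.add_apply]; ring) (fun a x y => by
        simp only [QuadraticMap.polar, Submodule.coe_smul, Submodule.coe_add, _root_.map_smul, map_add, LinearMap.smul_apply, LinearMap.add_apply, smul_eq_mul]; ring)
    have hq : ∀ x : W, q x = B x (L x) := fun x => rfl
    have hpq : ∀ x y : W, QuadraticMap.polar q x y = 2 * B x (L y) := by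
      intro x y
      simp only [QuadraticMap.polar, hq, Submodule.coe_add, map_add, LinearMap.add_apply]
      rw [hsym y x]; ring
    have hnd : (QuadraticMap.polarBilin q).Nondegenerate := by
      apply nondeg_of_left
      intro x hx
      apply Subtype.ext
      apply hWn x.1 x.2
      intro y hy
      have h3 := hx ⟨L y, hWL y hy⟩
      rw [hpq] at h3
      have h4 := (mul_eq_zero.1 h3).resolve_left h2
      have h5 : B (x : V) (L (L y)) = 0 := h4
      rw [hLL, map_neg] at h5
      linear_combination -h5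
    obtain ⟨x, hx⟩ := exists_norm_odd h2 hnd (by omega) 1
    rw [hq] at hx
    have hxe := (hWmem x.1).1 x.2
    refine ⟨Fin.cons x.1 e, ?_, ?_⟩
    · intro i j
      refine Fin.cases ?_ ?_ i
      · refine Fin.cases ?_ ?_ j
        · rw [Fin.cons_zero, if_pos rfl]; exact hx
        · intro j
          rw [Fin.cons_zero, Fin.cons_succ, hsym, (hxe j).2, if_neg (Fin.succ_ne_zero j).symm]
      · intro i
        refine Fin.cases ?_ ?_ j
        · rw [Fin.cons_zero, Fin.cons_succ, (hxe i).2, if_neg (Fin.succ_ne_zero i)]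
        · intro j
          rw [Fin.cons_succ, Fin.cons_succ, he1]
          by_cases h : i = j
          · rw [h, if_pos rfl, if_pos rfl]
          · rw [if_neg h, if_neg (fun h' => h (Fin.succ_injective _ h'))]
    · intro i j
      refine Fin.cases ?_ ?_ i
      · refine Fin.cases ?_ ?_ j
        · rw [Fin.cons_zero]; exact hA _
        · intro j
          rw [Fin.cons_zero, Fin.cons_succ, ← hA.neg_eq, (hxe j).1, neg_zero]
      · intro i
        refine Fin.cases ?_ ?_ j
        · rw [Fin.cons_zero, Fin.cons_succ, (hxe i).1]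
        · intro j
          rw [Fin.cons_succ, Fin.cons_succ, he2]

/-- conjugacy of isometric square roots of `-1` -/
theorem root_conj (h2 : (2 : F) ≠ 0) (hA : B.IsAlt) (hB : B.Nondegenerate) {m : ℕ} (hm : finrank F V = 2 * m) (L M : V ≃ₗ[F] V)
    (hL : ∀ x y, B (L x) (L y) = B x y) (hLL : ∀ x, L (L x) = -x) (hM : ∀ x y, B (M x) (M y) = B x y) (hMM : ∀ x, M (M x) = -x) :
    ∃ g : V ≃ₗ[F] V, (∀ x y, B (g x) (g y) = B x y) ∧ ∀ x, g (L x) = M (g x) := by
  classical
  have main : ∀ L : V ≃ₗ[F] V, (∀ x y, B (L x) (L y) = B x y) → (∀ x, L (L x) = -x) → ∃ b : Basis (Fin m ⊕ Fin m) F V,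
      (∀ i, L (b (Sum.inl i)) = b (Sum.inr i)) ∧ (∀ i, L (b (Sum.inr i)) = - b (Sum.inl i)) ∧
      (∀ i j, B (b (Sum.inl i)) (b (Sum.inr j)) = if i = j then 1 else 0) ∧ (∀ i j, B (b (Sum.inl i)) (b (Sum.inl j)) = 0) ∧
      (∀ i j, B (b (Sum.inr i)) (b (Sum.inr j)) = 0) ∧ (∀ i j, B (b (Sum.inr i)) (b (Sum.inl j)) = if i = j then -1 else 0) := by
    intro L hL hLL
    obtain ⟨e, he1, he2⟩ := root_family h2 hA hB hm L hL hLL m le_rfl
    have hLe : ∀ x y, B (L x) y = - B x (L y) := by
      intro x y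
      have := hL x (L y)
      rw [hLL, map_neg] at this
      linear_combination -this
    let c : Fin m ⊕ Fin m → V := Sum.elim e (fun i => L (e i))
    let c' : Fin m ⊕ Fin m → V := Sum.elim (fun i => L (e i)) (fun i => -(e i))
    have hbi : ∀ a b, B (c a) (c' b) = if a = b then 1 else 0 := by
      intro a b
      rcases a with a | a <;> rcases b with b | b
      · show B (e a) (L (e b)) = _
        rw [he1]
        by_cases h : a = b
        · subst h; rw [if_pos rfl, if_pos rfl]
        · rw [if_neg h, if_neg (fun h' => h (Sum.inl.inj h'))]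
      · show B (e a) (-(e b)) = _
        rw [map_neg, he2, if_neg (by simp), neg_zero]
      · show B (L (e a)) (L (e b)) = _
        rw [hL, he2, if_neg (by simp)]
      · show B (L (e a)) (-(e b)) = _
        rw [map_neg, hLe, neg_neg, he1]
        by_cases h : a = b
        · subst h; rw [if_pos rfl, if_pos rfl]
        · rw [if_neg h, if_neg (fun h' => h (Sum.inr.inj h'))]
    have hli := linInd_of_biorth B c c' hbi
    obtain ⟨b, hb⟩ : ∃ b : Basis (Fin m ⊕ Fin m) F V, ∀ a, b a = c a := by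
      rcases Nat.eq_zero_or_pos m with h0 | hpos
      · subst h0
        haveI : Subsingleton V := by
          rw [← Module.finrank_zero_iff (R := F)]; omega
        exact ⟨Basis.empty V, fun a => by rcases a with a | a <;> exact a.elim0⟩
      · haveI : Nonempty (Fin m ⊕ Fin m) := ⟨Sum.inl ⟨0, hpos⟩⟩
        refine ⟨basisOfLinearIndependentOfCardEqFinrank hli ?_, fun a => by rw [coe_basisOfLinearIndependentOfCardEqFinrank]⟩
        rw [Fintype.card_sum, Fintype.card_fin, hm]; ring
    refine ⟨b, ?_, ?_, ?_, ?_, ?_, ?_⟩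
    · intro i; rw [hb, hb]; rfl
    · intro i; rw [hb, hb]; exact hLL (e i)
    · intro i j; rw [hb, hb]; exact he1 i j
    · intro i j; rw [hb, hb]; exact he2 i j
    · intro i j; rw [hb, hb]
      show B (L (e i)) (L (e j)) = 0
      rw [hL, he2]
    · intro i j; rw [hb, hb]
      show B (L (e i)) (e j) = _
      rw [hLe, he1]
      by_cases h : i = j
      · rw [if_pos h, if_pos h]
      · rw [if_neg h, if_neg h, neg_zero]
  obtain ⟨b, h1, h2, h3, h4, h5, h6⟩ := main L hL hLL
  obtain ⟨b', h1', h2', h3', h4', h5', h6'⟩ := main M hM hMM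
  obtain ⟨g, hg⟩ : ∃ g : V ≃ₗ[F] V, ∀ a, g (b a) = b' a := ⟨b.equiv b' (Equiv.refl _), fun a => by rw [Basis.equiv_apply]; rfl⟩
  refine ⟨g, ?_, ?_⟩
  · have key : B.comp (g : V →ₗ[F] V) (g : V →ₗ[F] V) = B := by
      apply LinearMap.BilinForm.ext_basis b
      intro i j
      rw [LinearMap.BilinForm.comp_apply]
      show B (g (b i)) (g (b j)) = _
      rw [hg, hg]
      rcases i with i | i <;> rcases j with j | j
      · rw [h4, h4']
      · rw [h3, h3']
      · rw [h6, h6']
      · rw [h5, h5']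
    intro x y
    have := congrArg (fun C : LinearMap.BilinForm F V => C x y) key
    exact this
  · have key : (g : V →ₗ[F] V).comp (L : V →ₗ[F] V) = (M : V →ₗ[F] V).comp (g : V →ₗ[F] V) := by
      apply b.ext
      intro a
      show g (L (b a)) = M (g (b a))
      rw [hg]
      rcases a with a | a
      · rw [h1, h1', hg]
      · rw [h2, h2', map_neg, hg]
    intro x
    exact LinearMap.congr_fun key x

end

end Cfsg.Agent.H22
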