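import Cfsg.Agent.LibH22Inv2
import Cfsg.Agent.LibH22Sp3
import Cfsg.Agent.LibH22OForms
import Cfsg.Agent.LibH22Spin2

set_option autoImplicit false

/-! `PSp_{2m}(q)` is not `PΩ_{2m+1}(q)` (seat helper22). -/

namespace Cfsg.Agent.H22

open Module

section orth
variable {F V : Type*} [Field F] [Fintype F] [AddCommGroup V] [Module F V] [FiniteDimensional F V] {Q : QuadraticForm F V}
variable {e f e' f' u : V}

/-- pairwise non-conjugate involutions in the projective group -/
theorem HS.many_invol (hs : HS Q e f e' f' u) (h2 : (2 : F) ≠ 0) (hQ : (QuadraticMap.polarBilin Q).Nondegenerate)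
    (hcom : commutator (OGrp Q) = EG Q) (m : ℕ) (hm : finrank F V = 2 * m + 1) :
    ∃ y : Fin m → EG Q ⧸ Subgroup.center (EG Q), (∀ k, y k ≠ 1 ∧ y k * y k = 1) ∧ ∀ k l, IsConj (y k) (y l) → k = l := by
  have hex : ∀ k : Fin m, ∃ g : EG Q, g * g = 1 ∧ finrank F (LinearMap.ker ((g.1.1 : V →ₗ[F] V) + 1)) = 2 * (k.1 + 1) := by
    intro k
    obtain ⟨g, hg, hgg, hfr⟩ := exists_invol h2 hQ m hm (k.1 + 1) k.2
    rw [hcom] at hg
    exact ⟨⟨g, hg⟩, Subtype.ext hgg, hfr⟩
  choose g hgg hfr using hex
  have hinv : ∀ k x, (g k).1.1 ((g k).1.1 x) = x := by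
    intro k x
    have := congrArg (fun z : EG Q => z.1.1 x) (hgg k)
    exact this
  -- `ker (g - 1)`
  have hcompl : ∀ k, finrank F (LinearMap.ker (((g k).1.1 : V →ₗ[F] V) - 1)) + 2 * (k.1 + 1) = 2 * m + 1 := by
    intro k
    rw [← hfr k, ← hm, add_comm]
    apply Submodule.finrank_add_eq_of_isCompl
    constructor
    · rw [Submodule.disjoint_def]
      intro x hx1 hx2
      rw [LinearMap.mem_ker, LinearMap.add_apply] at hx1
      rw [LinearMap.mem_ker, LinearMap.sub_apply] at hx2
      have h3 : (g k).1.1 x = -x := add_eq_zero_iff_eq_neg.1 hx1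
      have h4 : (g k).1.1 x = x := sub_eq_zero.1 hx2
      rw [h4] at h3
      have h5 : (2 : F) • x = 0 := by
        rw [two_smul]
        nth_rewrite 1 [h3]
        exact neg_add_cancel x
      exact (smul_eq_zero.1 h5).resolve_left h2
    · rw [codisjoint_iff, eq_top_iff]
      intro x _
      have h3 : x = (2 : F)⁻¹ • (x - (g k).1.1 x) + (2 : F)⁻¹ • (x + (g k).1.1 x) := by
        rw [← smul_add]
        have : x - (g k).1.1 x + (x + (g k).1.1 x) = (2 : F) • x := by rw [two_smul]; abel
        rw [this, smul_smul, inv_mul_cancel₀ h2, one_smul]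
      rw [h3]
      apply Submodule.add_mem_sup
      · rw [LinearMap.mem_ker, LinearMap.add_apply]
        show (g k).1.1 ((2 : F)⁻¹ • (x - (g k).1.1 x)) + (2 : F)⁻¹ • (x - (g k).1.1 x) = 0
        rw [_root_.map_smul, map_sub, hinv, ← smul_add, sub_add_sub_cancel, sub_self, smul_zero]
      · rw [LinearMap.mem_ker, LinearMap.sub_apply]
        show (g k).1.1 ((2 : F)⁻¹ • (x + (g k).1.1 x)) - (2 : F)⁻¹ • (x + (g k).1.1 x) = 0
        rw [_root_.map_smul, map_add, hinv, ← smul_sub, add_comm, sub_self, smul_zero]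
  -- scalars
  have hsc : ∀ z : EG Q, z ∈ Subgroup.center (EG Q) → (∀ x, z.1.1 x = x) ∨ (∀ x, z.1.1 x = -x) := by
    intro z hz
    obtain ⟨a, ha, hax⟩ := hs.center_scalar hQ z hz
    have hc1 : (a - 1) * (a + 1) = 0 := by linear_combination ha
    rcases mul_eq_zero.1 hc1 with h | h
    · left; intro x; rw [hax, sub_eq_zero.1 h, one_smul]
    · right; intro x; rw [hax, add_eq_zero_iff_eq_neg.1 h, neg_smul, one_smul]
  refine ⟨fun k => QuotientGroup.mk (g k), fun k => ⟨?_, ?_⟩, ?_⟩
  · intro h1
    have h3 : g k ∈ Subgroup.center (EG Q) := (QuotientGroup.eq_one_iff _).1 h1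
    rcases hsc _ h3 with h | h
    · have h4 : LinearMap.ker (((g k).1.1 : V →ₗ[F] V) + 1) = ⊥ := by
        rw [eq_bot_iff]
        intro x hx
        rw [LinearMap.mem_ker, LinearMap.add_apply] at hx
        have h5 : (g k).1.1 x + x = 0 := hx
        rw [h, ← two_smul F] at h5
        exact (smul_eq_zero.1 h5).resolve_left h2
      have := hfr k
      rw [h4, finrank_bot] at this
      omega
    · have h4 : LinearMap.ker (((g k).1.1 : V →ₗ[F] V) + 1) = ⊤ := by
        rw [eq_top_iff]
        intro x _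
        rw [LinearMap.mem_ker, LinearMap.add_apply]
        show (g k).1.1 x + x = 0
        rw [h, neg_add_cancel]
      have := hfr k
      rw [h4, finrank_top, hm] at this
      omega
  · show QuotientGroup.mk (g k * g k) = _
    rw [hgg]; rfl
  · intro k l hkl
    obtain ⟨c, hc⟩ := isConj_iff.1 hkl
    obtain ⟨h, rfl⟩ := QuotientGroup.mk_surjective c
    have h3 : (QuotientGroup.mk (h * g k * h⁻¹) : EG Q ⧸ Subgroup.center (EG Q)) = QuotientGroup.mk (g l) := hc
    rw [QuotientGroup.eq] at h3
    -- `g l = (h g_k h⁻¹) z`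
    obtain ⟨z, hz⟩ : ∃ z, z = (h * g k * h⁻¹)⁻¹ * g l := ⟨_, rfl⟩
    rw [← hz] at h3
    have h4 : g l * h = h * g k * z := by
      have h5 : g l * h = (h * g k * h⁻¹) * z * h := by rw [hz]; group
      have h6 : z * h = h * z := (Subgroup.mem_center_iff.1 h3 h).symm
      rw [h5, mul_assoc, h6]; group
    have h5 : ∀ x, (g l).1.1 (h.1.1 x) = h.1.1 ((g k).1.1 (z.1.1 x)) := by
      intro x
      have := congrArg (fun w : EG Q => w.1.1 x) h4
      exact this
    rcases hsc z h3 with h6 | h6
    · have h7 : LinearMap.ker (((g l).1.1 : V →ₗ[F] V) + 1) = (LinearMap.ker (((g k).1.1 : V →ₗ[F] V) + 1)).map (h.1.1 : V →ₗ[F] V) := by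
        ext y
        rw [Submodule.mem_map, LinearMap.mem_ker, LinearMap.add_apply]
        constructor
        · intro hy
          obtain ⟨x, rfl⟩ := h.1.1.surjective y
          refine ⟨x, ?_, rfl⟩
          rw [LinearMap.mem_ker, LinearMap.add_apply]
          show (g k).1.1 x + x = 0
          have h8 : (g l).1.1 (h.1.1 x) + h.1.1 x = 0 := hy
          rw [h5, h6, ← map_add] at h8
          exact (LinearEquiv.map_eq_zero_iff _).1 h8
        · rintro ⟨x, hx, rfl⟩
          rw [LinearMap.mem_ker, LinearMap.add_apply] at hx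
          have h9 : (g k).1.1 x + x = 0 := hx
          show (g l).1.1 (h.1.1 x) + h.1.1 x = 0
          rw [h5, h6, ← map_add, h9, map_zero]
      have h8 := hfr l
      rw [h7, LinearEquiv.finrank_map_eq h.1.1, hfr k] at h8
      apply Fin.ext; omega
    · exfalso
      have h7 : LinearMap.ker (((g l).1.1 : V →ₗ[F] V) - 1) = (LinearMap.ker (((g k).1.1 : V →ₗ[F] V) + 1)).map (h.1.1 : V →ₗ[F] V) := by
        ext y
        rw [Submodule.mem_map, LinearMap.mem_ker, LinearMap.sub_apply]
        constructor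
        · intro hy
          obtain ⟨x, rfl⟩ := h.1.1.surjective y
          refine ⟨x, ?_, rfl⟩
          rw [LinearMap.mem_ker, LinearMap.add_apply]
          show (g k).1.1 x + x = 0
          have h8 : (g l).1.1 (h.1.1 x) - h.1.1 x = 0 := hy
          rw [h5, h6, map_neg, ← map_sub] at h8
          have h9 := (LinearEquiv.map_eq_zero_iff _).1 h8
          rw [← neg_eq_zero]
          rw [← h9]; abel
        · rintro ⟨x, hx, rfl⟩
          rw [LinearMap.mem_ker, LinearMap.add_apply] at hx
          have h9 : (g k).1.1 x + x = 0 := hx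
          show (g l).1.1 (h.1.1 x) - h.1.1 x = 0
          rw [h5, h6, map_neg, ← map_sub]
          have : -(g k).1.1 x - x = -((g k).1.1 x + x) := by abel
          rw [this, h9, neg_zero, map_zero]
      have h8 := hcompl l
      rw [h7, LinearEquiv.finrank_map_eq h.1.1, hfr k] at h8
      omega

end orth

end Cfsg.Agent.H22
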