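import Cfsg.Agent.LibH22Inv3

set_option autoImplicit false

/-! `PSp_{2m}(q)` is not `PΩ_{2m+1}(q)` (seat helper22). -/

namespace Cfsg.Agent.H22

open Module Matrix

section
variable {m : ℕ} {F : Type*} [Field F] [Fintype F]

lemma isConj_of_intertwine (A C : Matrix.symplecticGroup (Fin m) F) (g : (Fin m ⊕ Fin m → F) ≃ₗ[F] (Fin m ⊕ Fin m → F))
    (hg : ∀ x y, spB m F (g x) (g y) = spB m F x y) (h : ∀ x, g (spToLin A x) = spToLin C (g x)) :
    IsConj (QuotientGroup.mk A : Cfsg.PSp m F) (QuotientGroup.mk C) := by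
  obtain ⟨P, rfl⟩ := exists_spToLin g hg
  have h1 : P * A = C * P := by
    apply spToLin_injective
    rw [map_mul, map_mul]
    ext1 x
    rw [LinearEquiv.mul_apply, LinearEquiv.mul_apply, h]
  rw [isConj_iff]
  refine ⟨QuotientGroup.mk P, ?_⟩
  have h2 : P * A * P⁻¹ = C := by rw [h1]; group
  calc (QuotientGroup.mk P : Cfsg.PSp m F) * QuotientGroup.mk A * (QuotientGroup.mk P)⁻¹ = QuotientGroup.mk (P * A * P⁻¹) := rfl
    _ = QuotientGroup.mk C := by rw [h2]

/-- types of involutions -/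
theorem psp_few_invol (h2 : (2 : F) ≠ 0) (m : ℕ) (hm : 1 ≤ m) :
    ∃ τ : Cfsg.PSp m F → ℕ, (∀ x, x ≠ 1 → x * x = 1 → τ x ≤ m / 2) ∧ ∀ x y, x ≠ 1 → x * x = 1 → y ≠ 1 → y * y = 1 → τ x = τ y → IsConj x y := by
  classical
  have hfin : finrank F (Fin m ⊕ Fin m → F) = 2 * m := by
    rw [Module.finrank_fintype_fun_eq_card, Fintype.card_sum, Fintype.card_fin]; ring
  have hBn : ∀ x, (∀ y, spB m F x y = 0) → x = 0 := fun x hx => spB_nondeg.1 x hx
  -- minus one
  obtain ⟨N, hN⟩ : ∃ N : Matrix.symplecticGroup (Fin m) F, ∀ x, spToLin N x = -x := by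
    obtain ⟨N, hN⟩ := exists_spToLin (m := m) (LinearEquiv.neg F) (fun u v => by
      rw [LinearEquiv.neg_apply, LinearEquiv.neg_apply, map_neg, LinearMap.map_neg, LinearMap.neg_apply, neg_neg])
    exact ⟨N, fun x => by rw [hN, LinearEquiv.neg_apply]⟩
  have hNc : N ∈ Subgroup.center (Matrix.symplecticGroup (Fin m) F) := by
    rw [Subgroup.mem_center_iff]
    intro A
    apply spToLin_injective
    rw [map_mul, map_mul]
    ext1 x
    rw [LinearEquiv.mul_apply, LinearEquiv.mul_apply, hN, hN, map_neg]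
  have hNmk : ∀ A : Matrix.symplecticGroup (Fin m) F, (QuotientGroup.mk (N * A) : Cfsg.PSp m F) = QuotientGroup.mk A := by
    intro A
    have : (QuotientGroup.mk N : Cfsg.PSp m F) = 1 := (QuotientGroup.eq_one_iff N).2 hNc
    calc (QuotientGroup.mk (N * A) : Cfsg.PSp m F) = QuotientGroup.mk N * QuotientGroup.mk A := rfl
      _ = QuotientGroup.mk A := by rw [this, one_mul]
  -- lifts
  have hlift : ∀ x : Cfsg.PSp m F, ∃ A : Matrix.symplecticGroup (Fin m) F, QuotientGroup.mk A = x := QuotientGroup.mk_surjective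
  choose X hX using hlift
  have hsq : ∀ x : Cfsg.PSp m F, x * x = 1 → (∀ v, spToLin (X x) (spToLin (X x) v) = v) ∨ (∀ v, spToLin (X x) (spToLin (X x) v) = -v) := by
    intro x hx
    have h1 : X x * X x ∈ Subgroup.center (Matrix.symplecticGroup (Fin m) F) := by
      rw [← QuotientGroup.eq_one_iff]
      calc (QuotientGroup.mk (X x * X x) : Cfsg.PSp m F) = QuotientGroup.mk (X x) * QuotientGroup.mk (X x) := rfl
        _ = 1 := by rw [hX, hx]
    obtain ⟨a, ha⟩ := center_sp_scalar h1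
    have h3 := (X x * X x).2
    rw [ha, smul_one_mem_sp_iff hm] at h3
    have h4 : ∀ v, spToLin (X x) (spToLin (X x) v) = a • v := by
      intro v
      have : spToLin (X x * X x) v = a • v := by
        rw [spToLin_apply, ha, Matrix.smul_mulVec, Matrix.one_mulVec]
      rw [← this, map_mul, LinearEquiv.mul_apply]
    have h5 : (a - 1) * (a + 1) = 0 := by linear_combination h3
    rcases mul_eq_zero.1 h5 with h | h
    · left; intro v; rw [h4, sub_eq_zero.1 h, one_smul]
    · right; intro v; rw [h4, add_eq_zero_iff_eq_neg.1 h, neg_smul, one_smul]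
  -- dimension of the minus eigenspace
  obtain ⟨d, hd⟩ : ∃ d : Matrix.symplecticGroup (Fin m) F → ℕ, ∀ A, d A = finrank F (LinearMap.ker ((spToLin A : (Fin m ⊕ Fin m → F) →ₗ[F] (Fin m ⊕ Fin m → F)) + 1)) := ⟨_, fun A => rfl⟩
  have heven : ∀ A : Matrix.symplecticGroup (Fin m) F, (∀ v, spToLin A (spToLin A v) = v) → ∃ k, d A = 2 * k ∧ k ≤ m ∧ d (N * A) = 2 * (m - k) := by
    intro A hA
    obtain ⟨h3, h4, h5⟩ := invol_split (B := spB m F) h2 (spToLin A) (spToLin_isometry A) hA
    have nd : ∀ x ∈ LinearMap.ker ((spToLin A : (Fin m ⊕ Fin m → F) →ₗ[F] (Fin m ⊕ Fin m → F)) + 1),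
        (∀ y ∈ LinearMap.ker ((spToLin A : (Fin m ⊕ Fin m → F) →ₗ[F] (Fin m ⊕ Fin m → F)) + 1), spB m F x y = 0) → x = 0 := by
      intro x hx hxy
      apply hBn
      intro y
      obtain ⟨a, ha, b, hb, rfl⟩ := h4 y
      rw [map_add, hxy a ha, (h3 x hx b hb).1, add_zero]
    obtain ⟨k, hk⟩ := even_of_alt (B := (spB m F).restrict (LinearMap.ker ((spToLin A : (Fin m ⊕ Fin m → F) →ₗ[F] (Fin m ⊕ Fin m → F)) + 1))) (fun w => spB_isAlt _)
      (fun x hx => Subtype.ext (nd x.1 x.2 (fun y hy => hx ⟨y, hy⟩)))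
    have h6 := Submodule.finrank_add_eq_of_isCompl h5
    rw [hk, hfin] at h6
    refine ⟨k, by rw [hd, hk], by omega, ?_⟩
    have h7 : LinearMap.ker ((spToLin (N * A) : (Fin m ⊕ Fin m → F) →ₗ[F] (Fin m ⊕ Fin m → F)) + 1) =
        LinearMap.ker ((spToLin A : (Fin m ⊕ Fin m → F) →ₗ[F] (Fin m ⊕ Fin m → F)) - 1) := by
      ext x
      rw [LinearMap.mem_ker, LinearMap.mem_ker, LinearMap.add_apply, LinearMap.sub_apply]
      show spToLin (N * A) x + x = 0 ↔ spToLin A x - x = 0
      rw [map_mul, LinearEquiv.mul_apply, hN]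
      constructor
      · intro h
        have : spToLin A x - x = -(-(spToLin A x) + x) := by abel
        rw [this, h, neg_zero]
      · intro h
        have : -(spToLin A x) + x = -(spToLin A x - x) := by abel
        rw [this, h, neg_zero]
    rw [hd, h7]
    omega
  have htriv : ∀ A : Matrix.symplecticGroup (Fin m) F, (∀ v, spToLin A (spToLin A v) = v) → d A = 0 → A = 1 := by
    intro A hA h0
    rw [hd, Submodule.finrank_eq_zero] at h0
    apply spToLin_injective
    ext1 x
    rw [map_one]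
    obtain ⟨_, h4, _⟩ := invol_split (B := spB m F) h2 (spToLin A) (spToLin_isometry A) hA
    obtain ⟨a, ha, b, hb, rfl⟩ := h4 x
    rw [h0, Submodule.mem_bot] at ha
    rw [LinearMap.mem_ker, LinearMap.sub_apply] at hb
    have hb' : spToLin A b = b := sub_eq_zero.1 hb
    rw [ha, zero_add, hb']; rfl
  refine ⟨fun x => if (∀ v, spToLin (X x) (spToLin (X x) v) = v) then min (d (X x) / 2) (m - d (X x) / 2) else 0, ?_, ?_⟩
  · intro x _ _
    show (if (∀ v, spToLin (X x) (spToLin (X x) v) = v) then min (d (X x) / 2) (m - d (X x) / 2) else 0) ≤ m / 2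
    split
    · omega
    · omega
  · intro x y hx1 hxx hy1 hyy hxy
    have hxy' : (if (∀ v, spToLin (X x) (spToLin (X x) v) = v) then min (d (X x) / 2) (m - d (X x) / 2) else 0) =
      (if (∀ v, spToLin (X y) (spToLin (X y) v) = v) then min (d (X y) / 2) (m - d (X y) / 2) else 0) := hxy
    -- the type is positive for genuine involutions
    have hpos : ∀ z : Cfsg.PSp m F, z ≠ 1 → (∀ v, spToLin (X z) (spToLin (X z) v) = v) → min (d (X z) / 2) (m - d (X z) / 2) ≠ 0 := by
      intro z hz1 hz h0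
      obtain ⟨k, hk, hkm, hkN⟩ := heven (X z) hz
      rw [hk] at h0
      have h1 : k = 0 ∨ m - k = 0 := by omega
      rcases h1 with h1 | h1
      · apply hz1
        rw [← hX z, htriv (X z) hz (by rw [hk, h1])]; rfl
      · apply hz1
        have hzN : ∀ v, spToLin (N * X z) (spToLin (N * X z) v) = v := by
          intro v
          rw [map_mul, LinearEquiv.mul_apply, LinearEquiv.mul_apply, hN, hN, map_neg, neg_neg, hz]
        rw [← hX z, ← hNmk, htriv (N * X z) hzN (by rw [hkN, h1])]; rfl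
    by_cases hcx : ∀ v, spToLin (X x) (spToLin (X x) v) = v
    · by_cases hcy : ∀ v, spToLin (X y) (spToLin (X y) v) = v
      · rw [if_pos hcx, if_pos hcy] at hxy'
        obtain ⟨k, hk, hkm, hkN⟩ := heven (X x) hcx
        obtain ⟨l, hl, hlm, hlN⟩ := heven (X y) hcy
        rw [hk, hl] at hxy'
        have h1 : k = l ∨ k = m - l := by omega
        have hcyN : ∀ v, spToLin (N * X y) (spToLin (N * X y) v) = v := by
          intro v
          rw [map_mul, LinearEquiv.mul_apply, LinearEquiv.mul_apply, hN, hN, map_neg, neg_neg, hcy]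
        rcases h1 with h1 | h1
        · obtain ⟨g, hg, hgx⟩ := invol_conj (B := spB m F) h2 spB_isAlt hBn (spToLin (X x)) (spToLin (X y)) (spToLin_isometry _) hcx (spToLin_isometry _) hcy
            (by rw [← hd, ← hd, hk, hl, h1])
          have := isConj_of_intertwine _ _ g hg hgx
          rwa [hX, hX] at this
        · obtain ⟨g, hg, hgx⟩ := invol_conj (B := spB m F) h2 spB_isAlt hBn (spToLin (X x)) (spToLin (N * X y)) (spToLin_isometry _) hcx (spToLin_isometry _) hcyN
            (by rw [← hd, ← hd, hk, hlN, h1])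
          have := isConj_of_intertwine _ _ g hg hgx
          rwa [hNmk, hX, hX] at this
      · rw [if_pos hcx, if_neg hcy] at hxy'
        exact absurd hxy' (hpos x hx1 hcx)
    · by_cases hcy : ∀ v, spToLin (X y) (spToLin (X y) v) = v
      · rw [if_neg hcx, if_pos hcy] at hxy'
        exact absurd hxy'.symm (hpos y hy1 hcy)
      · have h3 := (hsq x hxx).resolve_left hcx
        have h4 := (hsq y hyy).resolve_left hcy
        obtain ⟨g, hg, hgx⟩ := root_conj (B := spB m F) h2 spB_isAlt spB_nondeg hfin (spToLin (X x)) (spToLin (X y)) (spToLin_isometry _) h3 (spToLin_isometry _) h4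
        have := isConj_of_intertwine _ _ g hg hgx
        rwa [hX, hX] at this

theorem psp_ne_pomega (hodd : Odd (Fintype.card F)) (m : ℕ) (hm : 3 ≤ m) : IsEmpty (Cfsg.PSp m F ≃* Cfsg.POmega F (Cfsg.quadFormOdd m F)) := by
  classical
  constructor
  intro f
  have h2 : (2 : F) ≠ 0 := by
    intro h
    haveI : CharP F 2 := CharTwo.of_one_ne_zero_of_two_eq_zero one_ne_zero h
    have h1 := FiniteField.even_card_iff_char_two.1 (ringChar.eq F 2)
    rw [Nat.odd_iff] at hodd
    omega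
  have hQ := nondeg_qOdd (F := F) m h2
  have hs := hs_qOdd (F := F) (m := m) (by omega)
  have hcom := hs.commutator_eq hQ (Or.inl (exists_ne_one_of_odd h2))
  have hfin : finrank F (Unit ⊕ (Fin m ⊕ Fin m) → F) = 2 * m + 1 := by
    rw [Module.finrank_fintype_fun_eq_card, Fintype.card_sum, Fintype.card_sum, Fintype.card_fin, Fintype.card_unit]; ring
  obtain ⟨y, hy1, hy2⟩ := hs.many_invol h2 hQ hcom m hfin
  have e1 : Cfsg.Omega F ⇑(qOdd m F) ≃* EG (qOdd m F) := (omegaIso (qOdd m F)).trans (MulEquiv.subgroupCongr hcom)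
  have e2 : Cfsg.POmega F (Cfsg.quadFormOdd m F) ≃* EG (qOdd m F) ⧸ Subgroup.center (EG (qOdd m F)) := by
    rw [← coe_qOdd]
    exact quotCenterCongr e1
  obtain ⟨φ⟩ : Nonempty (Cfsg.PSp m F ≃* EG (qOdd m F) ⧸ Subgroup.center (EG (qOdd m F))) := ⟨f.trans e2⟩
  obtain ⟨τ, hτ1, hτ2⟩ := psp_few_invol (F := F) h2 m (by omega)
  have hx1 : ∀ k, φ.symm (y k) ≠ 1 := fun k h => (hy1 k).1 (by rw [← φ.apply_symm_apply (y k), h, map_one])
  have hx2 : ∀ k, φ.symm (y k) * φ.symm (y k) = 1 := fun k => by rw [← map_mul, (hy1 k).2, map_one]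
  have hcard : Fintype.card (Fin (m / 2 + 1)) < Fintype.card (Fin m) := by
    rw [Fintype.card_fin, Fintype.card_fin]; omega
  obtain ⟨k, l, hkl, hτ⟩ := Fintype.exists_ne_map_eq_of_card_lt (fun k : Fin m => (⟨τ (φ.symm (y k)), Nat.lt_succ_of_le (hτ1 _ (hx1 k) (hx2 k))⟩ : Fin (m / 2 + 1))) hcard
  apply hkl
  apply hy2
  have h3 := hτ2 _ _ (hx1 k) (hx2 k) (hx1 l) (hx2 l) (congrArg Fin.val hτ)
  have h4 := φ.toMonoidHom.map_isConj h3
  simpa using h4

end

end Cfsg.Agent.H22
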