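import Cfsg.Agent.LibH22U32

set_option autoImplicit false

/-! `PSL_3(4)` (seat helper22). -/

namespace Cfsg.Agent.H22

open Module Matrix Cfsg

section
variable {F : Type*} [Field F]

/-- square-zero matrices of size three are conjugate under `SL_3` -/
lemma sq_zero_conj {N : Matrix (Fin 3) (Fin 3) F} (hN : N * N = 0) (hN0 : N ≠ 0) :
    ∃ P : Matrix.SpecialLinearGroup (Fin 3) F, N * (P : Matrix (Fin 3) (Fin 3) F) = (P : Matrix (Fin 3) (Fin 3) F) * !![0, 0, 0; 1, 0, 0; 0, 0, 0] := by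
  obtain ⟨w, hw⟩ : ∃ w, N *ᵥ w ≠ 0 := by
    by_contra h
    push Not at h
    apply hN0
    apply Matrix.ext_iff_mulVec.2
    intro w; rw [h w, Matrix.zero_mulVec]
  obtain ⟨u, hu⟩ : ∃ u, u = N *ᵥ w := ⟨_, rfl⟩
  rw [← hu] at hw
  have hNu : N *ᵥ u = 0 := by rw [hu, Matrix.mulVec_mulVec, hN, Matrix.zero_mulVec]
  have hle : LinearMap.range (Matrix.mulVecLin N) ≤ LinearMap.ker (Matrix.mulVecLin N) := by
    rintro _ ⟨x, rfl⟩
    rw [LinearMap.mem_ker, Matrix.mulVecLin_apply, Matrix.mulVecLin_apply, Matrix.mulVec_mulVec, hN, Matrix.zero_mulVec]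
  have hrk := LinearMap.finrank_range_add_finrank_ker (Matrix.mulVecLin N)
  rw [Module.finrank_fintype_fun_eq_card, Fintype.card_fin] at hrk
  have hle' := Submodule.finrank_mono hle
  obtain ⟨u', hu', hu'u⟩ : ∃ u' ∈ LinearMap.ker (Matrix.mulVecLin N), u' ∉ Submodule.span F {u} := by
    by_contra hcon
    push Not at hcon
    have h1 := Submodule.finrank_mono (show LinearMap.ker (Matrix.mulVecLin N) ≤ Submodule.span F {u} from hcon)
    rw [finrank_span_singleton hw] at h1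
    omega
  rw [LinearMap.mem_ker, Matrix.mulVecLin_apply] at hu'
  obtain ⟨P, hP⟩ : ∃ P : Matrix (Fin 3) (Fin 3) F, P = Matrix.of fun i j => (![w, u, u'] j) i := ⟨_, rfl⟩
  have hPx : ∀ x, P *ᵥ x = x 0 • w + x 1 • u + x 2 • u' := by
    intro x
    ext i
    rw [hP]
    show ∑ j, (![w, u, u'] j) i * x j = _
    rw [Fin.sum_univ_three]
    show w i * x 0 + u i * x 1 + u' i * x 2 = _
    simp only [Pi.add_apply, Pi.smul_apply, smul_eq_mul]; ring
  have hdP : P.det ≠ 0 := by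
    intro h
    obtain ⟨x, hx0, hx⟩ := Matrix.exists_mulVec_eq_zero_iff.2 h
    rw [hPx] at hx
    have h1 := congrArg (fun y => N *ᵥ y) hx
    simp only [Matrix.mulVec_add, Matrix.mulVec_smul, ← hu, hNu, hu', smul_zero, add_zero, Matrix.mulVec_zero] at h1
    have hx0' : x 0 = 0 := (smul_eq_zero.1 h1).resolve_right hw
    rw [hx0', zero_smul, zero_add] at hx
    have hx2 : x 2 = 0 := by
      by_contra hne
      apply hu'u
      rw [Submodule.mem_span_singleton]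
      refine ⟨-((x 2)⁻¹ * x 1), ?_⟩
      have h3 : x 2 • u' = -(x 1 • u) := by rw [eq_neg_iff_add_eq_zero, add_comm]; exact hx
      calc (-((x 2)⁻¹ * x 1)) • u = (x 2)⁻¹ • (-(x 1 • u)) := by module
        _ = u' := by rw [← h3, smul_smul, inv_mul_cancel₀ hne, one_smul]
    rw [hx2, zero_smul, add_zero] at hx
    have hx1 : x 1 = 0 := (smul_eq_zero.1 hx).resolve_right hw
    apply hx0
    funext i
    fin_cases i
    · exact hx0'
    · exact hx1
    · exact hx2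
  have hNP : N * P = P * !![0, 0, 0; 1, 0, 0; 0, 0, 0] := by
    ext i j
    have h1 : (N * P) i j = (N *ᵥ (![w, u, u'] j)) i := by rw [hP]; rfl
    rw [h1, Matrix.mul_apply, Fin.sum_univ_three, hP]
    fin_cases j
    · show (N *ᵥ w) i = w i * 0 + u i * 1 + u' i * 0
      rw [← hu]; ring
    · show (N *ᵥ u) i = w i * 0 + u i * 0 + u' i * 0
      rw [hNu]; simp
    · show (N *ᵥ u') i = w i * 0 + u i * 0 + u' i * 0
      rw [hu']; simp
  refine ⟨⟨P * Matrix.diagonal ![1, 1, P.det⁻¹], ?_⟩, ?_⟩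
  · rw [Matrix.det_mul, Matrix.det_diagonal, Fin.prod_univ_three]
    simp [hdP]
  · show N * (P * Matrix.diagonal ![1, 1, P.det⁻¹]) = (P * Matrix.diagonal ![1, 1, P.det⁻¹]) * !![0, 0, 0; 1, 0, 0; 0, 0, 0]
    rw [← mul_assoc, hNP, mul_assoc, mul_assoc]
    congr 1
    ext i j
    fin_cases i <;> fin_cases j <;> simp [Matrix.mul_apply, Fin.sum_univ_three]

variable [Fintype F]

/-- lifts of elements of `PSL_3(4)` of order two -/
lemma lift_involution (hF : Fintype.card F = 4) (x : Matrix.ProjectiveSpecialLinearGroup (Fin 3) F) (hx : orderOf x = 2) :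
    ∃ P : Matrix.SpecialLinearGroup (Fin 3) F, ∃ A : Matrix.SpecialLinearGroup (Fin 3) F, QuotientGroup.mk A = x ∧
      (A : Matrix (Fin 3) (Fin 3) F) * (P : Matrix (Fin 3) (Fin 3) F) = (P : Matrix (Fin 3) (Fin 3) F) * (1 + !![0, 0, 0; 1, 0, 0; 0, 0, 0]) := by
  obtain ⟨h2, h3, _⟩ := f4_facts hF
  obtain ⟨A, rfl⟩ := QuotientGroup.mk_surjective x
  have hA2 : A * A ∈ Subgroup.center (Matrix.SpecialLinearGroup (Fin 3) F) := by
    rw [← QuotientGroup.eq_one_iff]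
    have := pow_orderOf_eq_one (QuotientGroup.mk A : Matrix.ProjectiveSpecialLinearGroup (Fin 3) F)
    rw [hx, pow_two] at this
    exact this
  obtain ⟨r, hr, hrA⟩ := Matrix.SpecialLinearGroup.mem_center_iff.1 hA2
  rw [Fintype.card_fin] at hr
  have hr0 : r ≠ 0 := by rintro rfl; norm_num at hr
  have hdet : (r • (A : Matrix (Fin 3) (Fin 3) F)).det = 1 := by
    rw [Matrix.det_smul, A.2, mul_one, Fintype.card_fin, hr]
  obtain ⟨A', hA'⟩ : ∃ A' : Matrix.SpecialLinearGroup (Fin 3) F, (A' : Matrix (Fin 3) (Fin 3) F) = r • (A : Matrix (Fin 3) (Fin 3) F) := ⟨⟨_, hdet⟩, rfl⟩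
  have hmk : (QuotientGroup.mk A' : Matrix.ProjectiveSpecialLinearGroup (Fin 3) F) = QuotientGroup.mk A := by
    rw [QuotientGroup.eq, Matrix.SpecialLinearGroup.mem_center_iff]
    refine ⟨r⁻¹, by rw [Fintype.card_fin, inv_pow, hr, inv_one], ?_⟩
    have h4 : (A'⁻¹ * A : Matrix.SpecialLinearGroup (Fin 3) F) = A'⁻¹ * A := rfl
    have h5 : (A' : Matrix (Fin 3) (Fin 3) F) * Matrix.scalar (Fin 3) r⁻¹ = A := by
      rw [hA', Matrix.scalar_apply, ← Matrix.smul_one_eq_diagonal, Matrix.mul_smul, mul_one, smul_smul, inv_mul_cancel₀ hr0, one_smul]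
    rw [Matrix.SpecialLinearGroup.coe_mul, ← h5, ← mul_assoc, ← Matrix.SpecialLinearGroup.coe_mul, inv_mul_cancel, Matrix.SpecialLinearGroup.coe_one, one_mul]
  have hAA : (A' : Matrix (Fin 3) (Fin 3) F) * (A' : Matrix (Fin 3) (Fin 3) F) = 1 := by
    rw [hA', Matrix.smul_mul, Matrix.mul_smul, smul_smul, ← Matrix.SpecialLinearGroup.coe_mul, ← hrA, Matrix.scalar_apply, ← Matrix.smul_one_eq_diagonal, smul_smul]
    have : r * r * r = 1 := by rw [← hr]; ring
    rw [this, one_smul]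
  have hN : ((A' : Matrix (Fin 3) (Fin 3) F) - 1) * ((A' : Matrix (Fin 3) (Fin 3) F) - 1) = 0 := by
    have : ((A' : Matrix (Fin 3) (Fin 3) F) - 1) * ((A' : Matrix (Fin 3) (Fin 3) F) - 1) = (A' : Matrix (Fin 3) (Fin 3) F) * (A' : Matrix (Fin 3) (Fin 3) F) + 1 - (2 : F) • (A' : Matrix (Fin 3) (Fin 3) F) := by
      rw [two_smul]; noncomm_ring
    rw [this, hAA, h2, zero_smul, sub_zero, ← two_smul F (1 : Matrix (Fin 3) (Fin 3) F), h2, zero_smul]
  have hN0 : (A' : Matrix (Fin 3) (Fin 3) F) - 1 ≠ 0 := by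
    intro h
    have h4 : A' = 1 := Subtype.ext (sub_eq_zero.1 h)
    rw [← hmk, h4] at hx
    have : (QuotientGroup.mk (1 : Matrix.SpecialLinearGroup (Fin 3) F) : Matrix.ProjectiveSpecialLinearGroup (Fin 3) F) = 1 := rfl
    rw [this, orderOf_one] at hx
    norm_num at hx
  obtain ⟨P, hP⟩ := sq_zero_conj hN hN0
  refine ⟨P, A', hmk, ?_⟩
  rw [mul_add, mul_one, ← hP]
  noncomm_ring

theorem psl34_invol (hF : Fintype.card F = 4) (x y : Matrix.ProjectiveSpecialLinearGroup (Fin 3) F) (hx : orderOf x = 2) (hy : orderOf y = 2) : IsConj x y := by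
  obtain ⟨P, A, hA, hAP⟩ := lift_involution hF x hx
  obtain ⟨Q, B, hB, hBQ⟩ := lift_involution hF y hy
  have hdet : ((1 : Matrix (Fin 3) (Fin 3) F) + !![0, 0, 0; 1, 0, 0; 0, 0, 0]).det = 1 := by
    rw [Matrix.det_fin_three]; simp
  obtain ⟨E, hE⟩ : ∃ E : Matrix.SpecialLinearGroup (Fin 3) F, (E : Matrix (Fin 3) (Fin 3) F) = 1 + !![0, 0, 0; 1, 0, 0; 0, 0, 0] := ⟨⟨_, hdet⟩, rfl⟩
  have h1 : A * P = P * E := Subtype.ext (by rw [Matrix.SpecialLinearGroup.coe_mul, Matrix.SpecialLinearGroup.coe_mul, hE]; exact hAP)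
  have h2 : B * Q = Q * E := Subtype.ext (by rw [Matrix.SpecialLinearGroup.coe_mul, Matrix.SpecialLinearGroup.coe_mul, hE]; exact hBQ)
  rw [← hA, ← hB, isConj_iff]
  refine ⟨QuotientGroup.mk (Q * P⁻¹), ?_⟩
  have h3 : (Q * P⁻¹) * A * (Q * P⁻¹)⁻¹ = B := by
    have e1 : A = P * E * P⁻¹ := by rw [← h1]; group
    have e2 : B = Q * E * Q⁻¹ := by rw [← h2]; group
    rw [e1, e2]; group
  calc (QuotientGroup.mk (Q * P⁻¹) : Matrix.ProjectiveSpecialLinearGroup (Fin 3) F) * QuotientGroup.mk A * (QuotientGroup.mk (Q * P⁻¹))⁻¹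
      = QuotientGroup.mk ((Q * P⁻¹) * A * (Q * P⁻¹)⁻¹) := rfl
    _ = QuotientGroup.mk B := by rw [h3]

end

end Cfsg.Agent.H22
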