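import Cfsg.Agent.LibH22L34

set_option autoImplicit false

/-! `PSL_3(4)` has no element of order 15 (seat helper22). -/

namespace Cfsg.Agent.H22

open Module Matrix Cfsg

section
variable {F : Type*} [Field F] [Fintype F]

/-- fixed vectors of an element of order five -/
lemma fixed_five (hF : Fintype.card F = 4) (L : (Fin 3 → F) →ₗ[F] (Fin 3 → F)) (h5 : L ^ 5 = 1) (h1 : L ≠ 1) :
    finrank F (LinearMap.ker (L - 1)) = 1 := by
  classical
  haveI : Fact (Nat.Prime 5) := ⟨by norm_num⟩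
  have hL : L * L ^ 4 = 1 := by rw [← pow_succ', h5]
  have hL' : L ^ 4 * L = 1 := by rw [← pow_succ, h5]
  let e : Equiv.Perm (Fin 3 → F) := ⟨L, (L ^ 4 : (Fin 3 → F) →ₗ[F] (Fin 3 → F)), fun x => by
    have := LinearMap.congr_fun hL' x
    exact this, fun x => by
    have := LinearMap.congr_fun hL x
    exact this⟩
  have he : ∀ k : ℕ, ∀ x, (e ^ k) x = (L ^ k) x := by
    intro k
    induction k with
    | zero => intro x; rfl
    | succ k ih =>
      intro x
      rw [pow_succ, pow_succ, Equiv.Perm.mul_apply, Module.End.mul_apply, ih]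
      rfl
  have he5 : e ^ 5 = 1 := by
    ext x
    rw [he, h5]; rfl
  have hpg : IsPGroup 5 (Subgroup.zpowers e) := by
    rintro ⟨g, hg⟩
    refine ⟨1, ?_⟩
    obtain ⟨k, rfl⟩ := Subgroup.mem_zpowers_iff.1 hg
    apply Subtype.ext
    show (e ^ k) ^ (5 ^ 1) = 1
    rw [pow_one, ← zpow_natCast, ← _root_.zpow_mul, mul_comm, _root_.zpow_mul, zpow_natCast, he5, _root_.one_zpow]
  have h2 := hpg.card_modEq_card_fixedPoints (Fin 3 → F)
  have h3 : Nat.card (MulAction.fixedPoints (Subgroup.zpowers e) (Fin 3 → F)) = Nat.card (LinearMap.ker (L - 1)) := by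
    apply Nat.card_congr
    apply Equiv.subtypeEquivRight
    intro x
    rw [MulAction.mem_fixedPoints, LinearMap.mem_ker, LinearMap.sub_apply, sub_eq_zero]
    constructor
    · intro h
      exact h ⟨e, Subgroup.mem_zpowers e⟩
    · rintro h ⟨g, hg⟩
      obtain ⟨k, rfl⟩ := Subgroup.mem_zpowers_iff.1 hg
      show (e ^ k) x = x
      have hx : e ∈ MulAction.stabilizer (Equiv.Perm (Fin 3 → F)) x := h
      exact (MulAction.stabilizer (Equiv.Perm (Fin 3 → F)) x).zpow_mem hx k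
  have h4 : Nat.card (LinearMap.ker (L - 1)) = 4 ^ finrank F (LinearMap.ker (L - 1)) := by
    rw [Module.natCard_eq_pow_finrank (K := F), Nat.card_eq_fintype_card (α := F), hF]
  have h6 : Nat.card (Fin 3 → F) = 64 := by
    rw [Nat.card_eq_fintype_card, Fintype.card_fun, hF, Fintype.card_fin]; norm_num
  rw [h3, h4, h6] at h2
  have h7 : finrank F (LinearMap.ker (L - 1)) ≤ 3 := by
    have := Submodule.finrank_le (LinearMap.ker (L - 1))
    rw [Module.finrank_fintype_fun_eq_card, Fintype.card_fin] at this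
    exact this
  have h8 : finrank F (LinearMap.ker (L - 1)) ≠ 3 := by
    intro h
    have h9 : LinearMap.ker (L - 1) = ⊤ := by
      apply Submodule.eq_top_of_finrank_eq
      rw [h, Module.finrank_fintype_fun_eq_card, Fintype.card_fin]
    rw [LinearMap.ker_eq_top, sub_eq_zero] at h9
    exact h1 h9
  obtain ⟨d, hd⟩ : ∃ d, d = finrank F (LinearMap.ker (L - 1)) := ⟨_, rfl⟩
  rw [← hd] at h2 h7 h8 ⊢
  rcases (show d = 0 ∨ d = 1 ∨ d = 2 by omega) with h | h | h
  · rw [h] at h2; exact absurd h2 (by decide)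
  · exact h
  · rw [h] at h2; exact absurd h2 (by decide)

/-- commuting with an element of order five -/
lemma pow_five_scalar (hF : Fintype.card F = 4) (A B : Matrix (Fin 3) (Fin 3) F) (hA : A.det = 1) (hAB : A * B = B * A) (hB5 : B ^ 5 = 1) (hB1 : B ≠ 1) :
    ∃ a : F, A ^ 5 = Matrix.scalar (Fin 3) a ∧ a ^ 3 = 1 := by
  obtain ⟨h2, h3, _⟩ := f4_facts hF
  have h4 : ∀ x : F, x ^ 4 = x := by
    intro x
    have := FiniteField.pow_card x
    rwa [hF] at this
  obtain ⟨L, hL⟩ : ∃ L : (Fin 3 → F) →ₗ[F] (Fin 3 → F), L = Matrix.toLin' B := ⟨_, rfl⟩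
  have hLx : ∀ x, L x = B *ᵥ x := by intro x; rw [hL, Matrix.toLin'_apply]
  have hL5 : L ^ 5 = 1 := by
    rw [hL, ← Matrix.toLin'_pow, hB5, Matrix.toLin'_one]; rfl
  have hL1 : L ≠ 1 := by
    intro h
    apply hB1
    apply Matrix.ext_iff_mulVec.2
    intro x
    rw [← hLx, h, Matrix.one_mulVec]; rfl
  have hfr := fixed_five hF L hL5 hL1
  -- the fixed vector
  obtain ⟨v, hvk, hv0⟩ : ∃ v ∈ LinearMap.ker (L - 1), v ≠ 0 := by
    apply Submodule.exists_mem_ne_zero_of_ne_bot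
    intro h
    rw [h, finrank_bot] at hfr
    omega
  have hvspan : ∀ x, B *ᵥ x = x → ∃ a : F, x = a • v := by
    intro x hx
    obtain ⟨a, ha⟩ := (finrank_eq_one_iff_of_nonzero' (⟨v, hvk⟩ : LinearMap.ker (L - 1)) (fun h => hv0 (congrArg Subtype.val h))).1 hfr ⟨x, by
      rw [LinearMap.mem_ker, LinearMap.sub_apply, sub_eq_zero, hLx, hx]; rfl⟩
    exact ⟨a, (congrArg Subtype.val ha).symm⟩
  have hBv : B *ᵥ v = v := by
    rw [LinearMap.mem_ker, LinearMap.sub_apply, sub_eq_zero, hLx] at hvk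
    exact hvk
  obtain ⟨a, hAv⟩ := hvspan (A *ᵥ v) (by rw [Matrix.mulVec_mulVec, ← hAB, ← Matrix.mulVec_mulVec, hBv])
  -- the complement
  obtain ⟨W, hW⟩ : ∃ W, W = LinearMap.range (L - 1) := ⟨_, rfl⟩
  have hWfr : finrank F W = 2 := by
    have := LinearMap.finrank_range_add_finrank_ker (L - 1)
    rw [← hW, hfr, Module.finrank_fintype_fun_eq_card, Fintype.card_fin] at this
    omega
  have hWinv : ∀ C : Matrix (Fin 3) (Fin 3) F, C * B = B * C → ∀ x ∈ W, C *ᵥ x ∈ W := by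
    intro C hC x hx
    rw [hW] at hx ⊢
    obtain ⟨y, rfl⟩ := hx
    refine ⟨C *ᵥ y, ?_⟩
    rw [LinearMap.sub_apply, LinearMap.sub_apply, hLx, hLx, Matrix.mulVec_mulVec, ← hC, ← Matrix.mulVec_mulVec, Matrix.mulVec_sub]
    rfl
  have hWL : ∀ x ∈ W, B *ᵥ x = x → x = 0 := by
    intro x hx hBx
    rw [hW] at hx
    obtain ⟨y, hy⟩ := hx
    have hy' : x = B *ᵥ y - y := by rw [← hy, LinearMap.sub_apply, hLx]; rfl
    have e1 : B *ᵥ y = y + x := by rw [hy']; abel
    have e2 : ∀ k : ℕ, (B ^ k) *ᵥ y = y + (k : F) • x := by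
      intro k
      induction k with
      | zero => simp
      | succ k ih =>
        rw [pow_succ', ← Matrix.mulVec_mulVec, ih, Matrix.mulVec_add, Matrix.mulVec_smul, hBx, e1]
        push_cast
        module
    have e3 := e2 5
    rw [hB5, Matrix.one_mulVec, left_eq_add, smul_eq_zero] at e3
    rcases e3 with h | h
    · exfalso
      have : (1 : F) = 0 := by
        push_cast at h
        linear_combination h - 2 * h2
      exact one_ne_zero this
    · exact h
  obtain ⟨w, hwW, hw0⟩ : ∃ w ∈ W, w ≠ 0 := by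
    apply Submodule.exists_mem_ne_zero_of_ne_bot
    intro h
    rw [h, finrank_bot] at hWfr
    omega
  obtain ⟨u, hu⟩ : ∃ u, u = B *ᵥ w := ⟨_, rfl⟩
  have huW : u ∈ W := by rw [hu]; exact hWinv B rfl w hwW
  have hwu : u ∉ Submodule.span F {w} := by
    intro h
    obtain ⟨c, hc⟩ := Submodule.mem_span_singleton.1 h
    have e1 : B *ᵥ w = c • w := by rw [← hu, hc]
    have e2 : ∀ k : ℕ, (B ^ k) *ᵥ w = c ^ k • w := by
      intro k
      induction k with
      | zero => simp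
      | succ k ih => rw [pow_succ', ← Matrix.mulVec_mulVec, ih, Matrix.mulVec_smul, e1, smul_smul, pow_succ]
    have e3 := e2 5
    rw [hB5, Matrix.one_mulVec] at e3
    have e4 : (c ^ 5 - 1) • w = 0 := by rw [sub_smul, ← e3, one_smul, sub_self]
    have e5 := (smul_eq_zero.1 e4).resolve_right hw0
    have e6 : c ≠ 0 := by rintro rfl; norm_num at e5
    have e7 := h3 c e6
    have e8 : c = 1 := by linear_combination (c ^ 2 * c ^ 0) * 0 + (c ^ 3 + 1) * c * 0 - c * e5 + (c ^ 3 + 1) * e7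
    rw [e8, one_smul] at e1
    exact hw0 (hWL w hwW e1)
  have hli : LinearIndependent F ![w, u] := by
    rw [LinearIndependent.pair_iff' hw0]
    intro c hc
    exact hwu (Submodule.mem_span_singleton.2 ⟨c, hc⟩)
  have hWspan : ∀ x ∈ W, ∃ c d : F, x = c • w + d • u := by
    intro x hx
    have h1 : Submodule.span F {w, u} = W := by
      apply Submodule.eq_of_le_of_finrank_eq
      · rw [Submodule.span_le]
        intro y hy
        rcases hy with rfl | hy
        · exact hwW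
        · rw [Set.mem_singleton_iff] at hy; rw [hy]; exact huW
      · rw [hWfr]
        have h1 := finrank_span_eq_card hli
        have h2 : Set.range ![w, u] = ({w, u} : Set (Fin 3 → F)) := by
          rw [Matrix.range_cons, Matrix.range_cons, Matrix.range_empty, Set.union_empty, Set.singleton_union]
        rw [h2] at h1
        simpa using h1
    rw [← h1] at hx
    obtain ⟨c, d, h⟩ := Submodule.mem_span_pair.1 hx
    exact ⟨c, d, h.symm⟩
  have huniq : ∀ c d : F, c • w + d • u = 0 → c = 0 ∧ d = 0 := LinearIndependent.pair_iff.1 hli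
  obtain ⟨d, t, hBu⟩ := hWspan (B *ᵥ u) (hWinv B rfl u huW)
  obtain ⟨α, β, hAw⟩ := hWspan (A *ᵥ w) (hWinv A hAB w hwW)
  -- `B^5 w = w`
  have hBw : B *ᵥ w = u := hu.symm
  have hdt : d = 1 ∧ t ^ 2 + t + 1 = 0 := by
    have e1 : (B ^ 5) *ᵥ w = w := by rw [hB5, Matrix.one_mulVec]
    have e2 : (B ^ 5) *ᵥ w = (d * t ^ 3 + 2 * d ^ 2 * t) • w + (t ^ 4 + 3 * d * t ^ 2 + d ^ 2) • u := by
      have : B ^ 5 = B * (B * (B * (B * B))) := by simp only [pow_succ, pow_zero, one_mul, mul_assoc]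
      rw [this]
      simp only [← Matrix.mulVec_mulVec, Matrix.mulVec_add, Matrix.mulVec_smul, hBw, hBu]
      module
    rw [e1] at e2
    have e3 : (d * t ^ 3 + 2 * d ^ 2 * t - 1) • w + (t ^ 4 + 3 * d * t ^ 2 + d ^ 2) • u = 0 := by
      rw [sub_smul, one_smul, sub_add_eq_add_sub, ← e2, sub_self]
    obtain ⟨e4, e5⟩ := huniq _ _ e3
    have e6 : d * t ^ 3 = 1 := by linear_combination e4 - d ^ 2 * t * h2
    have ht0 : t ≠ 0 := by rintro rfl; norm_num at e6
    have ht3 := h3 t ht0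
    have hd : d = 1 := by linear_combination e6 - d * ht3
    refine ⟨hd, ?_⟩
    subst hd
    linear_combination e5 - h4 t - t ^ 2 * h2
  obtain ⟨hd, ht⟩ := hdt
  subst hd
  have hAu : A *ᵥ u = β • w + (α + β * t) • u := by
    rw [hu, Matrix.mulVec_mulVec, hAB, ← Matrix.mulVec_mulVec, hAw, Matrix.mulVec_add, Matrix.mulVec_smul, Matrix.mulVec_smul, hBw, hBu]
    module
  -- determinant
  obtain ⟨P, hP⟩ : ∃ P : Matrix (Fin 3) (Fin 3) F, P = Matrix.of fun i j => (![v, w, u] j) i := ⟨_, rfl⟩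
  have hPx : ∀ x, P *ᵥ x = x 0 • v + x 1 • w + x 2 • u := by
    intro x
    ext i
    rw [hP]
    show ∑ j, (![v, w, u] j) i * x j = _
    rw [Fin.sum_univ_three]
    show v i * x 0 + w i * x 1 + u i * x 2 = _
    simp only [Pi.add_apply, Pi.smul_apply, smul_eq_mul]; ring
  have hdP : P.det ≠ 0 := by
    intro h
    obtain ⟨x, hx0, hx⟩ := Matrix.exists_mulVec_eq_zero_iff.2 h
    rw [hPx] at hx
    have hxv : x 0 • v ∈ W := by
      have : x 0 • v = -(x 1 • w + x 2 • u) := by rw [eq_neg_iff_add_eq_zero, ← add_assoc]; exact hx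
      rw [this]
      exact W.neg_mem (W.add_mem (W.smul_mem _ hwW) (W.smul_mem _ huW))
    have hx0' : x 0 = 0 := by
      have := hWL _ hxv (by rw [Matrix.mulVec_smul, hBv])
      exact (smul_eq_zero.1 this).resolve_right hv0
    rw [hx0', zero_smul, zero_add] at hx
    obtain ⟨h5, h6⟩ := huniq _ _ hx
    apply hx0
    funext i
    fin_cases i
    · exact hx0'
    · exact h5
    · exact h6
  have hAP : A * P = P * !![a, 0, 0; 0, α, β; 0, β, α + β * t] := by
    ext i j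
    have h1 : (A * P) i j = (A *ᵥ (![v, w, u] j)) i := by rw [hP]; rfl
    rw [h1, Matrix.mul_apply, Fin.sum_univ_three, hP]
    fin_cases j
    · show (A *ᵥ v) i = v i * a + w i * 0 + u i * 0
      rw [hAv]; simp only [Pi.smul_apply, smul_eq_mul]; ring
    · show (A *ᵥ w) i = v i * 0 + w i * α + u i * β
      rw [hAw]; simp only [Pi.add_apply, Pi.smul_apply, smul_eq_mul]; ring
    · show (A *ᵥ u) i = v i * 0 + w i * β + u i * (α + β * t)
      rw [hAu]; simp only [Pi.add_apply, Pi.smul_apply, smul_eq_mul]; ring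
  have hdet : a * (α * (α + β * t) - β * β) = 1 := by
    have h1 := congrArg Matrix.det hAP
    rw [Matrix.det_mul, Matrix.det_mul, hA, one_mul] at h1
    have h5 : (!![a, 0, 0; 0, α, β; 0, β, α + β * t] : Matrix (Fin 3) (Fin 3) F).det = 1 := by
      have : P.det * ((!![a, 0, 0; 0, α, β; 0, β, α + β * t] : Matrix (Fin 3) (Fin 3) F).det - 1) = 0 := by linear_combination -h1
      exact sub_eq_zero.1 ((mul_eq_zero.1 this).resolve_left hdP)
    rw [Matrix.det_fin_three] at h5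
    simp at h5
    linear_combination h5
  have ha0 : a ≠ 0 := by rintro rfl; norm_num at hdet
  have ha3 := h3 a ha0
  -- the fifth power
  have hμ : α ^ 2 + α * β * t + β ^ 2 = a ^ 2 := by
    linear_combination a ^ 2 * hdet - (α ^ 2 + α * β * t - β ^ 2) * ha3 + β ^ 2 * h2
  have hA2w : A *ᵥ (A *ᵥ w) = (α ^ 2 + β ^ 2) • w + (β ^ 2 * t) • u := by
    rw [hAw, Matrix.mulVec_add, Matrix.mulVec_smul, Matrix.mulVec_smul, hAw, hAu]
    have : α • (α • w + β • u) + β • (β • w + (α + β * t) • u) = (α ^ 2 + β ^ 2) • w + (β ^ 2 * t) • u + (2 * (α * β)) • u := by module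
    rw [this, h2, zero_mul, zero_smul, add_zero]
  have hA2u : A *ᵥ (A *ᵥ u) = (β ^ 2 * t) • w + (α ^ 2 + β ^ 2 + β ^ 2 * t ^ 2) • u := by
    rw [hAu, Matrix.mulVec_add, Matrix.mulVec_smul, Matrix.mulVec_smul, hAw, hAu]
    have : β • (α • w + β • u) + (α + β * t) • (β • w + (α + β * t) • u) = (β ^ 2 * t) • w + (α ^ 2 + β ^ 2 + β ^ 2 * t ^ 2) • u + (2 * (α * β)) • w + (2 * (α * β * t)) • u := by module
    rw [this, h2]; module
  have hA4w : A *ᵥ (A *ᵥ (A *ᵥ (A *ᵥ w))) = (α + β * t) • w + β • u := by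
    rw [hA2w, Matrix.mulVec_add, Matrix.mulVec_add, Matrix.mulVec_smul, Matrix.mulVec_smul, Matrix.mulVec_smul, Matrix.mulVec_smul, hA2w, hA2u]
    have e1 : (α ^ 2 + β ^ 2) ^ 2 + β ^ 4 * t ^ 2 = α + β * t := by
      linear_combination h4 α + (1 + t ^ 2) * h4 β + α ^ 2 * β ^ 2 * h2 + β * ht - β * t * h2
    have e2 : β ^ 2 * t * (2 * (α ^ 2 + β ^ 2) + β ^ 2 * t ^ 2) = β := by
      have ht3 : t ^ 3 = 1 := by linear_combination (t - 1) * ht
      linear_combination β ^ 2 * t * (α ^ 2 + β ^ 2) * h2 + β ^ 4 * ht3 + h4 β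
    have : (α ^ 2 + β ^ 2) • ((α ^ 2 + β ^ 2) • w + (β ^ 2 * t) • u) + (β ^ 2 * t) • ((β ^ 2 * t) • w + (α ^ 2 + β ^ 2 + β ^ 2 * t ^ 2) • u) =
        ((α ^ 2 + β ^ 2) ^ 2 + β ^ 4 * t ^ 2) • w + (β ^ 2 * t * (2 * (α ^ 2 + β ^ 2) + β ^ 2 * t ^ 2)) • u := by module
    rw [this, e1, e2]
  have hA5w : A *ᵥ (A *ᵥ (A *ᵥ (A *ᵥ (A *ᵥ w)))) = a ^ 2 • w := by
    rw [hA4w, Matrix.mulVec_add, Matrix.mulVec_smul, Matrix.mulVec_smul, hAw, hAu]
    have : (α + β * t) • (α • w + β • u) + β • (β • w + (α + β * t) • u) = (α ^ 2 + α * β * t + β ^ 2) • w + (2 * ((α + β * t) * β)) • u := by module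
    rw [this, hμ, h2, zero_mul, zero_smul, add_zero]
  have hA5 : A ^ 5 = A * (A * (A * (A * A))) := by simp only [pow_succ, pow_zero, one_mul, mul_assoc]
  have hA5w' : A ^ 5 *ᵥ w = a ^ 2 • w := by
    rw [hA5]; simp only [← Matrix.mulVec_mulVec]; exact hA5w
  have hA5u : A ^ 5 *ᵥ u = a ^ 2 • u := by
    have hcomm : A ^ 5 * B = B * A ^ 5 := ((show Commute A B from hAB).pow_left 5).eq
    rw [hu, Matrix.mulVec_mulVec, hcomm, ← Matrix.mulVec_mulVec, hA5w', Matrix.mulVec_smul]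
  have hA5v : A ^ 5 *ᵥ v = a ^ 2 • v := by
    have e2 : ∀ k : ℕ, (A ^ k) *ᵥ v = a ^ k • v := by
      intro k
      induction k with
      | zero => simp
      | succ k ih => rw [pow_succ', ← Matrix.mulVec_mulVec, ih, Matrix.mulVec_smul, hAv, smul_smul, pow_succ]
    rw [e2 5]
    congr 1
    linear_combination a ^ 2 * ha3
  refine ⟨a ^ 2, ?_, by linear_combination (a ^ 3 + 1) * ha3⟩
  -- compare after multiplying by `P`
  have hfin : A ^ 5 * P = Matrix.scalar (Fin 3) (a ^ 2) * P := by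
    rw [Matrix.scalar_apply, ← Matrix.smul_one_eq_diagonal, Matrix.smul_mul, one_mul]
    ext i j
    have h1 : (A ^ 5 * P) i j = (A ^ 5 *ᵥ (![v, w, u] j)) i := by rw [hP]; rfl
    rw [h1, Matrix.smul_apply, hP]
    fin_cases j
    · show (A ^ 5 *ᵥ v) i = a ^ 2 • v i
      rw [hA5v]; rfl
    · show (A ^ 5 *ᵥ w) i = a ^ 2 • w i
      rw [hA5w']; rfl
    · show (A ^ 5 *ᵥ u) i = a ^ 2 • u i
      rw [hA5u]; rfl
  have hPu : IsUnit P := (Matrix.isUnit_iff_isUnit_det P).2 (isUnit_iff_ne_zero.2 hdP)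
  exact hPu.mul_right_cancel hfin

theorem psl34_no15 (hF : Fintype.card F = 4) (g : Matrix.ProjectiveSpecialLinearGroup (Fin 3) F) : orderOf g ≠ 15 := by
  intro hg
  obtain ⟨h2, h3, _⟩ := f4_facts hF
  obtain ⟨A, rfl⟩ := QuotientGroup.mk_surjective g
  have hpow : ∀ k : ℕ, (QuotientGroup.mk A : Matrix.ProjectiveSpecialLinearGroup (Fin 3) F) ^ k = 1 → ∃ r : F, r ^ 3 = 1 ∧ (A : Matrix (Fin 3) (Fin 3) F) ^ k = Matrix.scalar (Fin 3) r := by
    intro k hk
    have h1 : (QuotientGroup.mk (A ^ k) : Matrix.ProjectiveSpecialLinearGroup (Fin 3) F) = 1 := hk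
    rw [QuotientGroup.eq_one_iff] at h1
    obtain ⟨r, hr, hrA⟩ := Matrix.SpecialLinearGroup.mem_center_iff.1 h1
    rw [Fintype.card_fin] at hr
    exact ⟨r, hr, by rw [← Matrix.SpecialLinearGroup.coe_pow]; exact hrA.symm⟩
  obtain ⟨z, hz, hA15⟩ := hpow 15 (by rw [← hg]; exact pow_orderOf_eq_one _)
  have hB5 : ((A : Matrix (Fin 3) (Fin 3) F) ^ 9) ^ 5 = 1 := by
    rw [← pow_mul, show 9 * 5 = 15 * 3 from rfl, pow_mul, hA15, ← map_pow, hz, map_one]
  have hB1 : (A : Matrix (Fin 3) (Fin 3) F) ^ 9 ≠ 1 := by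
    intro h
    have h1 : A ^ 9 = 1 := Subtype.ext (by rw [Matrix.SpecialLinearGroup.coe_pow, h, Matrix.SpecialLinearGroup.coe_one])
    have h4 : (QuotientGroup.mk A : Matrix.ProjectiveSpecialLinearGroup (Fin 3) F) ^ 9 = 1 := by
      have : (QuotientGroup.mk (A ^ 9) : Matrix.ProjectiveSpecialLinearGroup (Fin 3) F) = 1 := by rw [h1]; rfl
      exact this
    have h5 := orderOf_dvd_of_pow_eq_one h4
    rw [hg] at h5
    norm_num at h5
  obtain ⟨a, ha, ha3⟩ := pow_five_scalar hF (A : Matrix (Fin 3) (Fin 3) F) _ A.2 ((Commute.refl _).pow_right 9).eq hB5 hB1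
  have h6 : (QuotientGroup.mk A : Matrix.ProjectiveSpecialLinearGroup (Fin 3) F) ^ 5 = 1 := by
    have : (QuotientGroup.mk (A ^ 5) : Matrix.ProjectiveSpecialLinearGroup (Fin 3) F) = 1 := by
      rw [QuotientGroup.eq_one_iff, Matrix.SpecialLinearGroup.mem_center_iff]
      exact ⟨a, by rw [Fintype.card_fin, ha3], by rw [Matrix.SpecialLinearGroup.coe_pow, ha]⟩
    exact this
  have h5 := orderOf_dvd_of_pow_eq_one h6
  rw [hg] at h5
  norm_num at h5

end

end Cfsg.Agent.H22
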