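import Cfsg.Agent.LibSympTv29c

/-! Stabilisers of orthogonal decompositions are not maximal: generalities and the symplectic case over `F_2`. -/

namespace CfsgLib.H22NM

open scoped MatrixGroups Matrix
open Cfsg

variable {ι : Type} [Fintype ι] [DecidableEq ι] {F : Type*} [Field F]

/-- strictness from witnesses -/
theorem strict_of {G : Type*} [Group G] {H I K : Subgroup G} (hHK : H ⊓ I ≤ K) (h1 : ∃ g, g ∈ K ∧ g ∈ I ∧ g ∉ H)
    (h2 : ∃ g, g ∈ I ∧ g ∉ K) : H ⊓ I < K ⊓ I ∧ K ⊓ I < I := by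
  refine ⟨lt_of_le_of_ne (le_inf hHK inf_le_right) ?_, lt_of_le_of_ne inf_le_right ?_⟩
  · intro he
    obtain ⟨g, hg1, hg2, hg3⟩ := h1
    have : g ∈ H ⊓ I := by rw [he]; exact ⟨hg1, hg2⟩
    exact hg3 this.1
  · intro he
    obtain ⟨g, hg1, hg2⟩ := h2
    rw [← he] at hg1
    exact hg2 hg1.1

theorem map_mem {t : ℕ} {D : Fin t → Submodule F (ι → F)} {g : GL ι F} {σ : Equiv.Perm (Fin t)}
    (hσ : ∀ i, (D i).map (Matrix.toLin' (g : Matrix ι ι F)) = D (σ i)) {i : Fin t} {v : ι → F} (hv : v ∈ D i) :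
    (g : Matrix ι ι F) *ᵥ v ∈ D (σ i) := by
  rw [← hσ i]
  exact ⟨v, hv, Matrix.toLin'_apply _ _⟩

theorem map_surj {t : ℕ} {D : Fin t → Submodule F (ι → F)} {g : GL ι F} {σ : Equiv.Perm (Fin t)}
    (hσ : ∀ i, (D i).map (Matrix.toLin' (g : Matrix ι ι F)) = D (σ i)) {i : Fin t} {v : ι → F} (hv : v ∈ D (σ i)) :
    ∃ w ∈ D i, (g : Matrix ι ι F) *ᵥ w = v := by
  rw [← hσ i] at hv
  obtain ⟨w, hw, h⟩ := hv
  exact ⟨w, hw, by rw [← h, Matrix.toLin'_apply]⟩

theorem exists_dec {t : ℕ} {D : Fin t → Submodule F (ι → F)} (h : iSup D = ⊤) (v : ι → F) :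
    ∃ c : Fin t → (ι → F), (∀ i, c i ∈ D i) ∧ v = ∑ i, c i := by
  have hv : v ∈ iSup D := by rw [h]; trivial
  rw [Submodule.mem_iSup_iff_exists_finsupp] at hv
  obtain ⟨c, hc, hs⟩ := hv
  refine ⟨fun i => c i, hc, ?_⟩
  rw [← hs, Finsupp.sum_fintype]
  intro i
  rfl

/-- over `F_2`, distinct nonzero vectors of a nondegenerate symplectic plane pair nontrivially. -/
theorem plane_ne [Fintype F] (hq : Fintype.card F = 2) {f : (ι → F) → (ι → F) → F} (hf : Geo.IsSymplecticForm f)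
    {W : Submodule F (ι → F)} (hW : Geo.IsNondegenerateOn f W) (h2 : Module.finrank F W = 2) {a b : ι → F}
    (ha : a ∈ W) (hb : b ∈ W) (ha0 : a ≠ 0) (hb0 : b ≠ 0) (hab : a ≠ b) (cases2 : ∀ x : F, x = 0 ∨ x = 1) (char2 : (1 : F) + 1 = 0) :
    f a b = 1 := by
  rcases cases2 (f a b) with h | h
  swap
  · exact h
  exfalso
  have hneg : ∀ x : ι → F, -x = x := by
    intro x
    have : x + x = 0 := by
      have : x + x = ((1 : F) + 1) • x := by rw [add_smul, one_smul]
      rw [this, char2, zero_smul]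
    exact neg_eq_of_add_eq_zero_left this
  have hli : LinearIndependent F ![a, b] := by
    rw [LinearIndependent.pair_iff]
    intro s t hst
    rcases cases2 s with hs | hs <;> rcases cases2 t with ht | ht
    · exact ⟨hs, ht⟩
    · rw [hs, ht, zero_smul, one_smul, zero_add] at hst; exact absurd hst hb0
    · rw [hs, ht, zero_smul, one_smul, add_zero] at hst; exact absurd hst ha0
    · rw [hs, ht, one_smul, one_smul] at hst
      exfalso
      apply hab
      rw [add_eq_zero_iff_eq_neg, hneg] at hst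
      exact hst
  have hsp : Submodule.span F (Set.range ![a, b]) = W := by
    apply Submodule.eq_of_le_of_finrank_eq
    · rw [Submodule.span_le]
      rintro _ ⟨i, rfl⟩
      fin_cases i
      · exact ha
      · exact hb
    · rw [finrank_span_eq_card hli, h2]; simp
  obtain ⟨⟨x, hx, hxa⟩, _⟩ := hW a ha ha0
  rw [← hsp] at hx
  simp only [Matrix.range_cons, Matrix.range_empty, Set.union_empty, Set.singleton_union] at hx
  obtain ⟨s, t, rfl⟩ := Submodule.mem_span_pair.mp hx
  apply hxa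
  rw [hf.bilinear.add_left, hf.bilinear.smul_left, hf.bilinear.smul_left, hf.alternating, hf.skew b a, h]
  ring

end CfsgLib.H22NM
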