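import Cfsg.Agent.LibH22NM9

/-! Non-maximality of decomposition stabilisers in `Ω` in characteristic two. -/

namespace CfsgLib.H22NM

open scoped MatrixGroups Matrix commutatorElement
open Cfsg Cfsg.Geo CfsgLib.OM29

variable {ι : Type} [Fintype ι] [DecidableEq ι] {F : Type*} [Field F] {Q : QuadraticForm F (ι → F)}

theorem two_arith [Fintype F] (hF : Fintype.card F = 2) : (2 : F) = 0 ∧ ∀ x : F, x = 0 ∨ x = 1 := by
  have h2 : (2 : F) = 0 := by
    have : ((Fintype.card F : ℕ) : F) = 0 := Nat.cast_card_eq_zero F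
    rw [hF] at this
    exact_mod_cast this
  refine ⟨h2, ?_⟩
  intro x
  by_cases hx : x = 0
  · exact Or.inl hx
  · right
    have := FiniteField.pow_card_sub_one_eq_one x hx
    rw [hF] at this
    simpa using this

theorem pol22 {f : (ι → F) → (ι → F) → F} (hS : Sym f) (a b c d : ι → F) : f (a + b) (c + d) = f a c + f a d + (f b c + f b d) := by
  rw [hS.add_left, hS.add_right, hS.add_right]

/-- second witness: `EM e₀ e₁` moves `e₀ + f₀` out of the decomposition -/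
theorem wit2 {t k : ℕ} {D : Fin t → Submodule F (ι → F)} (hD : IsNondegenerateMDecomposition (QuadraticMap.polar Q) k D)
    {i j : Fin t} (hij : i ≠ j) {e f e' f' : ι → F} (h : Hyp Q (D i) e f) (h' : Hyp Q (D j) e' f') :
    EM Q e e' ∉ stS {v | (∃ i, v ∈ D i) ∧ Q v = 1} := by
  have hS := polSym Q
  intro hcon
  obtain ⟨⟨l, hl⟩, _⟩ := (mem_stS.mp hcon (e + f)).mpr ⟨⟨i, (D i).add_mem h.me h.mf⟩, h.q_z⟩
  have ee' : QuadraticMap.polar Q e e' = 0 := hD.orthogonal i j hij _ h.me _ h'.me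
  have e'e : QuadraticMap.polar Q e' e = 0 := hD.orthogonal j i hij.symm _ h'.me _ h.me
  have e'f : QuadraticMap.polar Q e' f = 0 := hD.orthogonal j i hij.symm _ h'.me _ h.mf
  rw [EM_mulVec h.qe ee', hS.add_right, hS.add_right, pol_self, h.qe, h.ef, e'e, e'f, h'.qe] at hl
  have h3 : e + f + ((2 : F) * 0 + 1) • e' - ((0 : F) + 0) • e - ((0 : F) * (2 * 0 + 1)) • e = (e + f) + e' + 0 := by
    simp
  rw [h3] at hl
  exact not_mem_D hS.add_left hD hij ((D i).add_mem h.me h.mf) h'.me h.z0 h'.e0 (fun y _ => hS.zero_left y) (fun y _ => hS.zero_left y) l hl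

/-- the first witness moves `e₀` out of the decomposition -/
theorem wit1 {t k : ℕ} {D : Fin t → Submodule F (ι → F)} (hD : IsNondegenerateMDecomposition (QuadraticMap.polar Q) k D)
    (h2 : (2 : F) = 0) {i0 i1 i2 i3 : Fin t} (h01 : i0 ≠ i1) (h02 : i0 ≠ i2) (h03 : i0 ≠ i3) (h12 : i1 ≠ i2) (h13 : i1 ≠ i3) (h23 : i2 ≠ i3)
    {e0 f0 e1 f1 e2 f2 e3 f3 : ι → F} (h0 : Hyp Q (D i0) e0 f0) (h1 : Hyp Q (D i1) e1 f1) (h2' : Hyp Q (D i2) e2 f2) (h3 : Hyp Q (D i3) e3 f3) :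
    EM Q ((e0 + f0) + (e1 + f1)) ((e2 + f2) + (e3 + f3)) ∉ decompositionStabilizer D := by
  have hS := polSym Q
  rintro ⟨σ, hσ⟩
  have ho : ∀ {i j : Fin t} {a b : ι → F}, i ≠ j → a ∈ D i → b ∈ D j → QuadraticMap.polar Q a b = 0 :=
    fun hij ha hb => hD.orthogonal _ _ hij _ ha _ hb
  have m0 := (D i0).add_mem h0.me h0.mf
  have m1 := (D i1).add_mem h1.me h1.mf
  have m2 := (D i2).add_mem h2'.me h2'.mf
  have m3 := (D i3).add_mem h3.me h3.mf
  have hv : Q ((e0 + f0) + (e1 + f1)) = 0 := by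
    rw [q_add, h0.q_z, h1.q_z, ho h01 m0 m1]; linear_combination h2
  have hvw : QuadraticMap.polar Q ((e0 + f0) + (e1 + f1)) ((e2 + f2) + (e3 + f3)) = 0 := by
    rw [pol22 hS (e0 + f0) (e1 + f1) (e2 + f2) (e3 + f3), ho h02 m0 m2, ho h03 m0 m3, ho h12 m1 m2, ho h13 m1 m3]; ring
  have hw : Q ((e2 + f2) + (e3 + f3)) = 0 := by
    rw [q_add, h2'.q_z, h3.q_z, ho h23 m2 m3]; linear_combination h2
  have hl := map_mem hσ h0.me
  rw [EM_mulVec hv hvw] at hl
  have b1 : QuadraticMap.polar Q ((e0 + f0) + (e1 + f1)) e0 = 1 := by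
    rw [hS.add_left, hS.add_left, pol_self, h0.qe, h0.fe, ho h01.symm m1 h0.me]; ring
  have b2 : QuadraticMap.polar Q ((e2 + f2) + (e3 + f3)) e0 = 0 := by
    rw [hS.add_left, ho h02.symm m2 h0.me, ho h03.symm m3 h0.me]; ring
  rw [b1, b2, hw] at hl
  have h4 : e0 + (1 : F) • (e2 + f2 + (e3 + f3)) - (0 : F) • (e0 + f0 + (e1 + f1)) - ((0 : F) * 1) • (e0 + f0 + (e1 + f1)) =
      e0 + (e2 + f2) + (e3 + f3) := by
    rw [one_smul, zero_smul, zero_mul, zero_smul]; abel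
  rw [h4] at hl
  exact not_mem_D hS.add_left hD h02 h0.me m2 h0.e0 h2'.z0 (fun y hy => ho h03.symm m3 hy) (fun y hy => ho h23.symm m3 hy) _ hl

/-- plus-type planes over `F_2` -/
theorem planes2 [Fintype F] (hF : Fintype.card F = 2) (hQ : (QuadraticMap.polarBilin Q).Nondegenerate) (h5 : 5 ≤ Module.finrank F (ι → F))
    {t : ℕ} {D : Fin t → Submodule F (ι → F)}
    (hD : IsOrthogonalMDecomposition ⇑Q 2 D) (hp : ∀ i, IsPlusTypeOn ⇑Q (D i)) (ht : 4 ≤ t) :
    ∃ K : Subgroup (GL ι F), decompositionStabilizer D ⊓ omegaGL ⇑Q < K ∧ K < omegaGL ⇑Q := by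
  have hS := polSym Q
  obtain ⟨h2, hc⟩ := two_arith hF
  have hh : ∀ i, ∃ e f, Hyp Q (D i) e f := fun i =>
    plus_plane (hD.decomp.nondegenerate i) (hD.decomp.decomp.finrank_eq i) (hp i)
  choose e f hef using hh
  let i0 : Fin t := ⟨0, by omega⟩
  let i1 : Fin t := ⟨1, by omega⟩
  let i2 : Fin t := ⟨2, by omega⟩
  let i3 : Fin t := ⟨3, by omega⟩
  have h01 : i0 ≠ i1 := by simp [i0, i1]
  have h02 : i0 ≠ i2 := by simp [i0, i2]
  have h03 : i0 ≠ i3 := by simp [i0, i3]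
  have h12 : i1 ≠ i2 := by simp [i1, i2]
  have h13 : i1 ≠ i3 := by simp [i1, i3]
  have h23 : i2 ≠ i3 := by simp [i2, i3]
  have ho : ∀ {i j : Fin t} {a b : ι → F}, i ≠ j → a ∈ D i → b ∈ D j → QuadraticMap.polar Q a b = 0 :=
    fun hij ha hb => hD.decomp.orthogonal _ _ hij _ ha _ hb
  have mz : ∀ i, e i + f i ∈ D i := fun i => (D i).add_mem (hef i).me (hef i).mf
  -- the nonsingular vector of `D i`
  have huniq : ∀ i, ∀ v ∈ D i, Q v = 1 → v = e i + f i := by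
    intro i v hv hqv
    obtain ⟨a, b, rfl⟩ := span_hyp (hD.decomp.decomp.finrank_eq i) (hef i) v hv
    rw [(hef i).q_comb] at hqv
    rcases hc a with ha | ha
    · rw [ha, zero_mul] at hqv; exact absurd hqv zero_ne_one
    · rcases hc b with hb | hb
      · rw [hb, mul_zero] at hqv; exact absurd hqv zero_ne_one
      · rw [ha, hb, one_smul, one_smul]
  have hzz : ∀ i j, QuadraticMap.polar Q (e i + f i) (e j + f j) = 0 := by
    intro i j
    by_cases hij : i = j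
    · rw [hij, pol_self, h2, zero_mul]
    · exact ho hij (mz i) (mz j)
  have hv : Q ((e i0 + f i0) + (e i1 + f i1)) = 0 := by
    rw [q_add, (hef i0).q_z, (hef i1).q_z, hzz]; linear_combination h2
  have hvw : QuadraticMap.polar Q ((e i0 + f i0) + (e i1 + f i1)) ((e i2 + f i2) + (e i3 + f i3)) = 0 := by
    rw [pol22 hS (e i0 + f i0), hzz, hzz, hzz, hzz]; ring
  have hst := strict_of (H := decompositionStabilizer D) (I := omegaGL ⇑Q)
    (K := stS {v | (∃ i, v ∈ D i) ∧ Q v = 1}) ?_ ?_ ?_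
  · exact ⟨_, hst.1, hst.2⟩
  · refine frame_le (P := fun v => Q v = 1) ?_
    intro g hg v
    show Q _ = 1 ↔ Q v = 1
    rw [(CfsgLib.OM29.mem_isoQ g).mp (CfsgLib.OM29.omegaGL_le_iso hg)]
  · refine ⟨EM Q ((e i0 + f i0) + (e i1 + f i1)) ((e i2 + f i2) + (e i3 + f i3)), ?_, em_mem hQ h5 hv hvw, ?_⟩
    · apply mem_stS_of_le
      rintro v ⟨⟨i, hi⟩, hqv⟩
      have h6 : ((EM Q ((e i0 + f i0) + (e i1 + f i1)) ((e i2 + f i2) + (e i3 + f i3)) : GL ι F) : Matrix ι ι F) *ᵥ v = v := by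
        rw [EM_mulVec hv hvw, huniq i v hi hqv, hS.add_left (e i0 + f i0), hS.add_left (e i2 + f i2), hzz, hzz, hzz, hzz]
        simp
      rw [h6]
      exact ⟨⟨i, hi⟩, hqv⟩
    · exact wit1 hD.decomp h2 h01 h02 h03 h12 h13 h23 (hef i0) (hef i1) (hef i2) (hef i3)
  · exact ⟨EM Q (e i0) (e i1), em_mem hQ h5 (hef i0).qe (ho h01 (hef i0).me (hef i1).me), wit2 hD.decomp h01 (hef i0) (hef i1)⟩

end CfsgLib.H22NM
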