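import Cfsg.Agent.LibH22NM10

/-! Non-maximality of decomposition stabilisers in `Ω` in characteristic two: 4-spaces over `F_2`, planes over `F_4`. -/

namespace CfsgLib.H22NM

open scoped MatrixGroups Matrix commutatorElement
open Cfsg Cfsg.Geo CfsgLib.OM29

variable {ι : Type} [Fintype ι] [DecidableEq ι] {F : Type*} [Field F] {Q : QuadraticForm F (ι → F)}

/-- the anisotropic planes of a 4-space of plus type over `F_2` -/
structure Pl (Q : QuadraticForm F (ι → F)) (W : Submodule F (ι → F)) (a b c : ι → F) : Prop where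
  ma : a ∈ W
  mb : b ∈ W
  qa : Q a = 1
  qb : Q b = 1
  ab : QuadraticMap.polar Q a b = 1
  mc : c ∈ W
  qc : Q c = 1
  ac : QuadraticMap.polar Q a c = 0
  bc : QuadraticMap.polar Q b c = 0
  dich : ∀ v ∈ W, Q v = 1 → (v = a ∨ v = b ∨ v = a + b) ∨ (QuadraticMap.polar Q v a = 0 ∧ QuadraticMap.polar Q v b = 0)

theorem exists_pl [Fintype F] (hF : Fintype.card F = 2) {W : Submodule F (ι → F)} (hW : IsNondegenerateOn (QuadraticMap.polar Q) W)
    (h4 : Module.finrank F W = 4) (hp : IsPlusTypeOn ⇑Q W) : ∃ a b c, Pl Q W a b c := by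
  have hS := polSym Q
  obtain ⟨h2, hc⟩ := two_arith hF
  have n2 : (-1 : F) = 1 := by linear_combination -h2
  obtain ⟨e, f, e', f', h⟩ := plus_four hW h4 hp
  have e'e : QuadraticMap.polar Q e' e = 0 := by rw [hS.symm]; exact h.ee'
  have f'e : QuadraticMap.polar Q f' e = 0 := by rw [hS.symm]; exact h.ef'
  have e'f : QuadraticMap.polar Q e' f = 0 := by rw [hS.symm]; exact h.fe'
  have f'f : QuadraticMap.polar Q f' f = 0 := by rw [hS.symm]; exact h.ff'
  have vv : ∀ x : ι → F, x + x = 0 := fun x => by rw [← two_smul F x, h2, zero_smul]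
  have hq : ∀ a b c d : F, Q (a • e + b • f + c • e' + d • f') = a * b + c * d := by
    intro a b c d
    have h1 : a • e + b • f + c • e' + d • f' = (a • e + b • f) + (c • e' + d • f') := by abel
    rw [h1, q_add, h.h.q_comb, h.h'.q_comb, pol22 hS]
    simp only [hS.smul_left, hS.smul_r, h.ee', h.ef', h.fe', h.ff']
    ring
  have W1 := h.h.me
  have W2 := h.h.mf
  have W3 := h.h'.me
  have W4 := h.h'.mf
  refine ⟨e + f, e' + f' + e, e' + f', W.add_mem W1 W2, W.add_mem (W.add_mem W3 W4) W1, h.h.q_z, ?_, ?_, W.add_mem W3 W4, h.h'.q_z, ?_, ?_, ?_⟩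
  · have := hq 1 0 1 1
    simp only [one_smul, zero_smul, add_zero] at this
    have h1 : e' + f' + e = e + e' + f' := by abel
    rw [h1, this]; ring
  · simp only [hS.add_left, hS.add_right, h.ee', h.ef', h.fe', h.ff', pol_self, h.h.qe, h.h.fe]
    ring
  · simp only [hS.add_left, hS.add_right, h.ee', h.ef', h.fe', h.ff']
    ring
  · simp only [hS.add_left, hS.add_right, h.ee', h.ef', h.fe', h.ff', pol_self, h.h'.qe, h.h'.qf, h.h'.ef, h.h'.fe]
    linear_combination h2
  · intro v hv hqv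
    obtain ⟨a, b, c, d, rfl⟩ := span_hyp4 h4 h v hv
    rw [hq] at hqv
    rcases hc a with ha | ha <;> rcases hc b with hb | hb <;> rcases hc c with hc' | hc' <;> rcases hc d with hd | hd <;>
      simp only [ha, hb, hc', hd, mul_zero, zero_mul, mul_one, one_mul, add_zero, zero_add, one_smul, zero_smul] at hqv ⊢
    all_goals first
      | exact absurd hqv zero_ne_one
      | (exfalso
         apply one_ne_zero (α := F)
         linear_combination h2 - hqv
         done)
      | (left; left; trivial)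
      | (left; right; left; abel
         done)
      | (left; right; right
         rw [show e + f + (e' + f' + e) = f + e' + f' + (e + e) by abel, vv, add_zero]
         done)
      | (right
         simp only [hS.add_left, hS.add_right, h.ee', h.ef', h.fe', h.ff', e'e, f'e, e'f, f'f, pol_self, h.h.qe, h.h.qf, h.h.ef, h.h.fe,
          h.h'.qe, h.h'.qf, h.h'.ef, h.h'.fe]
         refine ⟨?_, ?_⟩ <;> first | (ring1; done) | linear_combination h2 | linear_combination 2 * h2)

/-- plus-type 4-spaces over `F_2` -/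
theorem spaces4 [Fintype F] (hF : Fintype.card F = 2) (hQ : (QuadraticMap.polarBilin Q).Nondegenerate) (h5 : 5 ≤ Module.finrank F (ι → F))
    {t : ℕ} {D : Fin t → Submodule F (ι → F)}
    (hD : IsOrthogonalMDecomposition ⇑Q 4 D) (hp : ∀ i, IsPlusTypeOn ⇑Q (D i)) (ht : 2 ≤ t) :
    ∃ K : Subgroup (GL ι F), decompositionStabilizer D ⊓ omegaGL ⇑Q < K ∧ K < omegaGL ⇑Q := by
  have hS := polSym Q
  obtain ⟨h2, hc⟩ := two_arith hF
  have vv : ∀ x : ι → F, x + x = 0 := fun x => by rw [← two_smul F x, h2, zero_smul]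
  let i0 : Fin t := ⟨0, by omega⟩
  let i1 : Fin t := ⟨1, by omega⟩
  have h01 : i0 ≠ i1 := by simp [i0, i1]
  have ho : ∀ {i j : Fin t} {a b : ι → F}, i ≠ j → a ∈ D i → b ∈ D j → QuadraticMap.polar Q a b = 0 :=
    fun hij ha hb => hD.decomp.orthogonal _ _ hij _ ha _ hb
  obtain ⟨e0, f0, _, _, he0⟩ := plus_four (hD.decomp.nondegenerate i0) (hD.decomp.decomp.finrank_eq i0) (hp i0)
  obtain ⟨e1, f1, _, _, he1⟩ := plus_four (hD.decomp.nondegenerate i1) (hD.decomp.decomp.finrank_eq i1) (hp i1)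
  obtain ⟨a0, b0, c0, p0⟩ := exists_pl hF (hD.decomp.nondegenerate i0) (hD.decomp.decomp.finrank_eq i0) (hp i0)
  obtain ⟨a1, b1, c1, p1⟩ := exists_pl hF (hD.decomp.nondegenerate i1) (hD.decomp.decomp.finrank_eq i1) (hp i1)
  have hv : Q (a0 + a1) = 0 := by
    rw [q_add, p0.qa, p1.qa, ho h01 p0.ma p1.ma]; linear_combination h2
  have hw : Q (b0 + b1) = 0 := by
    rw [q_add, p0.qb, p1.qb, ho h01 p0.mb p1.mb]; linear_combination h2
  have hvw : QuadraticMap.polar Q (a0 + a1) (b0 + b1) = 0 := by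
    rw [pol22 hS, p0.ab, p1.ab, ho h01 p0.ma p1.mb, ho h01.symm p1.ma p0.mb]; linear_combination h2
  have hg : ∀ x, ((EM Q (a0 + a1) (b0 + b1) : GL ι F) : Matrix ι ι F) *ᵥ x =
      x + (QuadraticMap.polar Q x a0 + QuadraticMap.polar Q x a1) • (b0 + b1) - (QuadraticMap.polar Q x b0 + QuadraticMap.polar Q x b1) • (a0 + a1) := by
    intro x
    rw [EM_mulVec hv hvw, hw, zero_mul, zero_smul, sub_zero, hS.symm _ x, hS.symm _ x, hS.add_right, hS.add_right]
  have hfix : ∀ x, QuadraticMap.polar Q x a0 = 0 → QuadraticMap.polar Q x b0 = 0 → QuadraticMap.polar Q x a1 = 0 →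
      QuadraticMap.polar Q x b1 = 0 → ((EM Q (a0 + a1) (b0 + b1) : GL ι F) : Matrix ι ι F) *ᵥ x = x := by
    intro x h1 h3 h4 h6
    rw [hg, h1, h3, h4, h6]; simp
  have ba0 : QuadraticMap.polar Q b0 a0 = 1 := by rw [hS.symm]; exact p0.ab
  have ba1 : QuadraticMap.polar Q b1 a1 = 1 := by rw [hS.symm]; exact p1.ab
  have hneg : ∀ x : ι → F, -x = x := fun x => by
    rw [neg_eq_iff_add_eq_zero]; exact vv x
  have ga0 : ((EM Q (a0 + a1) (b0 + b1) : GL ι F) : Matrix ι ι F) *ᵥ a0 = a1 := by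
    rw [hg, pol_self, h2, zero_mul, ho h01 p0.ma p1.ma, p0.ab, ho h01 p0.ma p1.mb, add_zero, zero_smul, add_zero, add_zero, one_smul,
      sub_add_cancel_left, hneg]
  have ga1 : ((EM Q (a0 + a1) (b0 + b1) : GL ι F) : Matrix ι ι F) *ᵥ a1 = a0 := by
    rw [hg, pol_self, h2, zero_mul, ho h01.symm p1.ma p0.ma, p1.ab, ho h01.symm p1.ma p0.mb, add_zero, zero_smul, add_zero, zero_add, one_smul,
      sub_add_cancel_right, hneg]
  have gb0 : ((EM Q (a0 + a1) (b0 + b1) : GL ι F) : Matrix ι ι F) *ᵥ b0 = b1 := by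
    rw [hg, pol_self, h2, zero_mul, ho h01 p0.mb p1.ma, ba0, ho h01 p0.mb p1.mb, add_zero, add_zero, one_smul, zero_smul, sub_zero, ← add_assoc, vv, zero_add]
  have gb1 : ((EM Q (a0 + a1) (b0 + b1) : GL ι F) : Matrix ι ι F) *ᵥ b1 = b0 := by
    rw [hg, pol_self, h2, zero_mul, ho h01.symm p1.mb p0.ma, ba1, ho h01.symm p1.mb p0.mb, zero_add, add_zero, one_smul, zero_smul, sub_zero,
      add_comm b0 b1, ← add_assoc, vv, zero_add]
  have hiso := (CfsgLib.OM29.mem_isoQ _).mp (EM_iso (Q := Q) (a0 + a1) (b0 + b1))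
  have hst := strict_of (H := decompositionStabilizer D) (I := omegaGL ⇑Q)
    (K := stS {v | (∃ i, v ∈ D i) ∧ Q v = 1}) ?_ ?_ ?_
  · exact ⟨_, hst.1, hst.2⟩
  · refine frame_le (P := fun v => Q v = 1) ?_
    intro g hg v
    show Q _ = 1 ↔ Q v = 1
    rw [(CfsgLib.OM29.mem_isoQ g).mp (CfsgLib.OM29.omegaGL_le_iso hg)]
  · refine ⟨EM Q (a0 + a1) (b0 + b1), ?_, em_mem hQ h5 hv hvw, ?_⟩
    · apply mem_stS_of_le
      rintro v ⟨⟨i, hi⟩, hqv⟩
      refine ⟨?_, by rw [hiso]; exact hqv⟩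
      by_cases hi0 : i = i0
      · rw [hi0] at hi
        rcases p0.dich v hi hqv with (h | h | h) | ⟨h, h'⟩
        · exact ⟨i1, by rw [h, ga0]; exact p1.ma⟩
        · exact ⟨i1, by rw [h, gb0]; exact p1.mb⟩
        · exact ⟨i1, by rw [h, Matrix.mulVec_add, ga0, gb0]; exact (D i1).add_mem p1.ma p1.mb⟩
        · exact ⟨i0, by rw [hfix v h h' (ho h01 hi p1.ma) (ho h01 hi p1.mb)]; exact hi⟩
      · by_cases hi1 : i = i1
        · rw [hi1] at hi
          rcases p1.dich v hi hqv with (h | h | h) | ⟨h, h'⟩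
          · exact ⟨i0, by rw [h, ga1]; exact p0.ma⟩
          · exact ⟨i0, by rw [h, gb1]; exact p0.mb⟩
          · exact ⟨i0, by rw [h, Matrix.mulVec_add, ga1, gb1]; exact (D i0).add_mem p0.ma p0.mb⟩
          · exact ⟨i1, by rw [hfix v (ho h01.symm hi p0.ma) (ho h01.symm hi p0.mb) h h']; exact hi⟩
        · exact ⟨i, by rw [hfix v (ho hi0 hi p0.ma) (ho hi0 hi p0.mb) (ho hi1 hi p1.ma) (ho hi1 hi p1.mb)]; exact hi⟩
    · rintro ⟨σ, hσ⟩
      have m1 := map_mem hσ p0.ma
      rw [ga0] at m1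
      have m2 := map_mem hσ p0.mc
      rw [hfix c0 (by rw [hS.symm]; exact p0.ac) (by rw [hS.symm]; exact p0.bc) (ho h01 p0.mc p1.ma) (ho h01 p0.mc p1.mb)] at m2
      have t3 : σ i0 = i1 := by
        by_contra hne
        have := eq_zero_of_mem hD.decomp hne m1 p1.ma
        have h3 := p1.qa
        rw [this, QuadraticMap.map_zero] at h3
        exact zero_ne_one h3
      rw [t3] at m2
      have := eq_zero_of_mem hD.decomp h01 p0.mc m2
      have h3 := p0.qc
      rw [this, QuadraticMap.map_zero] at h3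
      exact zero_ne_one h3
  · exact ⟨EM Q e0 e1, em_mem hQ h5 he0.h.qe (ho h01 he0.h.me he1.h.me), wit2 hD.decomp h01 he0.h he1.h⟩

/-- plus-type planes over `F_4` -/
theorem planes4 [Fintype F] (hF : Fintype.card F = 4) (hQ : (QuadraticMap.polarBilin Q).Nondegenerate) (h5 : 5 ≤ Module.finrank F (ι → F))
    {t : ℕ} {D : Fin t → Submodule F (ι → F)}
    (hD : IsOrthogonalMDecomposition ⇑Q 2 D) (hp : ∀ i, IsPlusTypeOn ⇑Q (D i)) (ht : 4 ≤ t) :
    ∃ K : Subgroup (GL ι F), decompositionStabilizer D ⊓ omegaGL ⇑Q < K ∧ K < omegaGL ⇑Q := by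
  have hS := polSym Q
  have h2 : (2 : F) = 0 := by
    have : ((Fintype.card F : ℕ) : F) = 0 := Nat.cast_card_eq_zero F
    rw [hF] at this
    have h4 : (2 : F) * 2 = 0 := by
      have h : ((4 : ℕ) : F) = 2 * 2 := by norm_num
      rw [← h]; exact this
    exact (mul_eq_zero.mp h4).elim id id
  have h3 : ∀ x : F, x ≠ 0 → x ^ 3 = 1 := by
    intro x hx
    have := FiniteField.pow_card_sub_one_eq_one x hx
    rwa [hF] at this
  obtain ⟨ω, hω0, hω1⟩ : ∃ ω : F, ω ≠ 0 ∧ ω ≠ 1 := by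
    by_contra hcon
    push Not at hcon
    have : Fintype.card F ≤ 2 := by
      classical
      have h6 : (Finset.univ : Finset F) ⊆ {0, 1} := by
        intro x _
        by_cases hx : x = 0
        · simp [hx]
        · simp [hcon x hx]
      calc Fintype.card F = (Finset.univ : Finset F).card := Finset.card_univ.symm
        _ ≤ ({0, 1} : Finset F).card := Finset.card_le_card h6
        _ ≤ 2 := Finset.card_le_two
    omega
  have hω : ω ^ 2 + ω + 1 = 0 := by
    have h6 := h3 ω hω0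
    have h7 : (ω - 1) * (ω ^ 2 + ω + 1) = 0 := by linear_combination h6
    exact (mul_eq_zero.mp h7).resolve_left (sub_ne_zero.mpr hω1)
  -- the prime field
  let P : F → Prop := fun x => x = 0 ∨ x = 1
  have P0 : P 0 := Or.inl rfl
  have P1 : P 1 := Or.inr rfl
  have Padd : ∀ x y, P x → P y → P (x + y) := by
    rintro x y (hx | hx) (hy | hy)
    · left; rw [hx, hy, add_zero]
    · right; rw [hx, hy, zero_add]
    · right; rw [hx, hy, add_zero]
    · left; rw [hx, hy]; linear_combination h2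
  have Pmul : ∀ x y, P x → P y → P (x * y) := by
    rintro x y (hx | hx) (hy | hy)
    · left; rw [hx, zero_mul]
    · left; rw [hx, zero_mul]
    · left; rw [hy, mul_zero]
    · right; rw [hx, hy, one_mul]
  have Pneg : ∀ x, P x → P (-x) := by
    rintro x (hx | hx)
    · left; rw [hx, neg_zero]
    · right; rw [hx]; linear_combination -h2
  have hh : ∀ i, ∃ e f, Hyp Q (D i) e f := fun i =>
    plus_plane (hD.decomp.nondegenerate i) (hD.decomp.decomp.finrank_eq i) (hp i)
  choose e f hef using hh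
  let i0 : Fin t := ⟨0, by omega⟩
  let i1 : Fin t := ⟨1, by omega⟩
  let i2 : Fin t := ⟨2, by omega⟩
  let i3 : Fin t := ⟨3, by omega⟩
  have h01 : i0 ≠ i1 := by simp [i0, i1]
  have h02 : i0 ≠ i2 := by simp [i0, i2]
  have h03 : i0 ≠ i3 := by simp [i0, i3]
  have h12 : i1 ≠ i2 := by simp [i1, i2]
  have h13 : i1 ≠ i3 := by simp [i1, i3]
  have h23 : i2 ≠ i3 := by simp [i2, i3]
  have ho : ∀ {i j : Fin t} {a b : ι → F}, i ≠ j → a ∈ D i → b ∈ D j → QuadraticMap.polar Q a b = 0 :=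
    fun hij ha hb => hD.decomp.orthogonal _ _ hij _ ha _ hb
  have mz : ∀ i, e i + f i ∈ D i := fun i => (D i).add_mem (hef i).me (hef i).mf
  -- pairings of nonsingular vectors of norm one
  have hzz : ∀ i, ∀ x ∈ D i, ∀ j, ∀ y ∈ D j, Q x = 1 → Q y = 1 → P (QuadraticMap.polar Q x y) := by
    intro i x hx j y hy qx qy
    by_cases hij : i = j
    swap
    · rw [ho hij hx hy]; exact P0
    subst hij
    obtain ⟨a, b, rfl⟩ := span_hyp (hD.decomp.decomp.finrank_eq i) (hef i) x hx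
    obtain ⟨a', b', rfl⟩ := span_hyp (hD.decomp.decomp.finrank_eq i) (hef i) y hy
    rw [(hef i).q_comb] at qx qy
    have hr0 : a * b' ≠ 0 := by
      intro h0
      apply one_ne_zero (α := F)
      linear_combination (a' * b) * h0 - a' * b' * qx - qy
    have hr := h3 (a * b') hr0
    have hpq : (a * b') * (a' * b) = 1 := by linear_combination (a' * b') * qx + qy
    have hpol : QuadraticMap.polar Q (a • e i + b • f i) (a' • e i + b' • f i) = a * b' + a' * b := by
      rw [pol22 hS]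
      simp only [hS.smul_left, hS.smul_r, pol_self, (hef i).qe, (hef i).qf, (hef i).ef, (hef i).fe]
      ring
    rw [hpol]
    have hr' : (a * b' - 1) * ((a * b') ^ 2 + a * b' + 1) = 0 := by linear_combination hr
    rcases mul_eq_zero.mp hr' with h6 | h6
    · left
      have h7 : a * b' = 1 := by linear_combination h6
      rw [h7, one_mul] at hpq
      rw [h7, hpq]; linear_combination h2
    · right
      have h7 : a' * b = (a * b') ^ 2 := by
        apply mul_left_cancel₀ hr0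
        rw [hpq, ← hr]; ring
      rw [h7]; linear_combination h6 - h2
  -- the second norm one vector of each plane
  have hω3 : ω * ω ^ 2 = 1 := by rw [← h3 ω hω0]; ring
  have mz' : ∀ i, ω • e i + ω ^ 2 • f i ∈ D i := fun i => (D i).add_mem ((D i).smul_mem _ (hef i).me) ((D i).smul_mem _ (hef i).mf)
  have qz' : ∀ i, Q (ω • e i + ω ^ 2 • f i) = 1 := fun i => by rw [(hef i).q_comb, hω3]
  have pzz' : ∀ i, QuadraticMap.polar Q (e i + f i) (ω • e i + ω ^ 2 • f i) = 1 := by
    intro i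
    rw [pol22 hS]
    simp only [hS.smul_r, pol_self, (hef i).qe, (hef i).qf, (hef i).ef, (hef i).fe]
    linear_combination hω - h2
  have hv : Q ((e i0 + f i0) + (e i1 + f i1)) = 0 := by
    rw [q_add, (hef i0).q_z, (hef i1).q_z, ho h01 (mz i0) (mz i1)]; linear_combination h2
  have hw : Q ((e i2 + f i2) + (e i3 + f i3)) = 0 := by
    rw [q_add, (hef i2).q_z, (hef i3).q_z, ho h23 (mz i2) (mz i3)]; linear_combination h2
  have hvw : QuadraticMap.polar Q ((e i0 + f i0) + (e i1 + f i1)) ((e i2 + f i2) + (e i3 + f i3)) = 0 := by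
    rw [pol22 hS (e i0 + f i0), ho h02 (mz i0) (mz i2), ho h03 (mz i0) (mz i3), ho h12 (mz i1) (mz i2), ho h13 (mz i1) (mz i3)]; ring
  have hv' : Q (ω • ((e i0 + f i0) + (e i1 + f i1))) = 0 := by
    rw [QuadraticMap.map_smul, hv, smul_zero]
  have hvw' : QuadraticMap.polar Q (ω • ((e i0 + f i0) + (e i1 + f i1))) ((e i2 + f i2) + (e i3 + f i3)) = 0 := by
    rw [hS.smul_left, hvw, mul_zero]
  have hst := strict_of (H := decompositionStabilizer D) (I := omegaGL ⇑Q)
    (K := stS {x | ∀ i, ∀ z ∈ D i, Q z = 1 → P (QuadraticMap.polar Q x z)}) ?_ ?_ ?_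
  · exact ⟨_, hst.1, hst.2⟩
  · rintro g ⟨⟨σ, hσ⟩, hI⟩
    have hgi := CfsgLib.OM29.omegaGL_le_iso hI
    apply mem_stS_of_le
    intro x hx i z hz qz
    obtain ⟨j, rfl⟩ := σ.surjective i
    obtain ⟨w, hw, rfl⟩ := map_surj hσ hz
    rw [(CfsgLib.OM29.mem_isoQ g).mp hgi] at qz
    rw [CfsgLib.OM29.isoQ_polar hgi]
    exact hx j w hw qz
  · refine ⟨EM Q ((e i0 + f i0) + (e i1 + f i1)) ((e i2 + f i2) + (e i3 + f i3)), ?_, em_mem hQ h5 hv hvw, ?_⟩
    · apply mem_stS_of_le
      intro x hx i z hz qz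
      rw [EM_mulVec hv hvw, hw, zero_mul, zero_smul, sub_zero, hS.sub_left, hS.add_left, hS.smul_left, hS.smul_left, sub_eq_add_neg]
      have A : ∀ j, P (QuadraticMap.polar Q (e j + f j) x) := fun j => by
        rw [hS.symm]; exact hx j _ (mz j) (hef j).q_z
      have B : ∀ j, P (QuadraticMap.polar Q (e j + f j) z) := fun j => hzz j _ (mz j) i z hz (hef j).q_z qz
      refine Padd _ _ (Padd _ _ (hx i z hz qz) (Pmul _ _ ?_ ?_)) (Pneg _ (Pmul _ _ ?_ ?_))
      · rw [hS.add_left]; exact Padd _ _ (A _) (A _)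
      · rw [hS.add_left]; exact Padd _ _ (B _) (B _)
      · rw [hS.add_left]; exact Padd _ _ (A _) (A _)
      · rw [hS.add_left]; exact Padd _ _ (B _) (B _)
    · exact wit1 hD.decomp h2 h01 h02 h03 h12 h13 h23 (hef i0) (hef i1) (hef i2) (hef i3)
  · refine ⟨EM Q (ω • ((e i0 + f i0) + (e i1 + f i1))) ((e i2 + f i2) + (e i3 + f i3)), em_mem hQ h5 hv' hvw', ?_⟩
    intro hcon
    have h6 := (mem_stS.mp hcon (ω • e i0 + ω ^ 2 • f i0)).mpr (fun i z hz qz => hzz i0 _ (mz' i0) i z hz (qz' i0) qz)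
    have h7 := h6 i2 (ω • e i2 + ω ^ 2 • f i2) (mz' i2) (qz' i2)
    rw [EM_mulVec hv' hvw', hw, zero_mul, zero_smul, sub_zero] at h7
    have b1 : QuadraticMap.polar Q (ω • (e i0 + f i0 + (e i1 + f i1))) (ω • e i0 + ω ^ 2 • f i0) = ω := by
      rw [hS.smul_left, hS.add_left, pzz', ho h01.symm (mz i1) (mz' i0)]; ring
    have b2 : QuadraticMap.polar Q (e i2 + f i2 + (e i3 + f i3)) (ω • e i0 + ω ^ 2 • f i0) = 0 := by
      rw [hS.add_left, ho h02.symm (mz i2) (mz' i0), ho h03.symm (mz i3) (mz' i0)]; ring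
    rw [b1, b2, zero_smul, sub_zero, hS.add_left, hS.smul_left, ho h02 (mz' i0) (mz' i2), hS.add_left, pzz', ho h23.symm (mz i3) (mz' i2)] at h7
    have h8 : P ω := by
      have : (0 : F) + ω * (1 + 0) = ω := by ring
      rwa [this] at h7
    rcases h8 with h8 | h8
    · exact hω0 h8
    · exact hω1 h8

end CfsgLib.H22NM
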