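import Cfsg.Prelude.Def_GeometricClasses
import Mathlib

set_option autoImplicit false
open Cfsg Cfsg.Geo
open scoped Kronecker

namespace CfsgLib.NMax

variable {F : Type*} [Field F] [Fintype F]

theorem two_cases (hq : Fintype.card F = 2) (x : F) : x = 0 ∨ x = 1 := by
  classical
  by_contra h
  push Not at h
  have h3 : ({0, 1, x} : Finset F).card = 3 := by
    rw [Finset.card_eq_three]
    exact ⟨0, 1, x, zero_ne_one, h.1.symm, h.2.symm, rfl⟩
  have := Finset.card_le_univ ({0, 1, x} : Finset F)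
  rw [h3, hq] at this
  omega

theorem two_char (hq : Fintype.card F = 2) : (1 : F) + 1 = 0 := by
  rcases two_cases hq ((1 : F) + 1) with h | h
  · exact h
  · exfalso
    have : (1 : F) = 0 := by linear_combination h
    exact one_ne_zero this

/-- the matrix of order 3 -/
def om (F : Type*) [Field F] : Matrix (Fin 2) (Fin 2) F := !![0, 1; 1, 1]

def om' (F : Type*) [Field F] : Matrix (Fin 2) (Fin 2) F := !![1, 1; 1, 0]

theorem om_mul (hq : Fintype.card F = 2) : om F * om' F = 1 := by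
  have h := two_char hq
  ext i j
  fin_cases i <;> fin_cases j <;> simp [om, om', Matrix.mul_apply, Fin.sum_univ_two, h]

theorem om'_mul (hq : Fintype.card F = 2) : om' F * om F = 1 := by
  have h := two_char hq
  ext i j
  fin_cases i <;> fin_cases j <;> simp [om, om', Matrix.mul_apply, Fin.sum_univ_two, h]

theorem om_sq (hq : Fintype.card F = 2) : om F * om F = om' F := by
  have h := two_char hq
  ext i j
  fin_cases i <;> fin_cases j <;> simp [om, om', Matrix.mul_apply, Fin.sum_univ_two, h]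

def omU (hq : Fintype.card F = 2) : GL (Fin 2) F := ⟨om F, om' F, om_mul hq, om'_mul hq⟩

theorem om_comm_or (hq : Fintype.card F = 2) (A : Matrix (Fin 2) (Fin 2) F) (hA : A.det ≠ 0) :
    A * om F = om F * A ∨ A * om F = om' F * A := by
  have h2 := two_char hq
  have hA4 : A = !![A 0 0, A 0 1; A 1 0, A 1 1] := by
    ext i j
    fin_cases i <;> fin_cases j <;> rfl
  rw [hA4] at hA ⊢
  rw [Matrix.det_fin_two_of] at hA
  rcases two_cases hq (A 0 0) with ha | ha <;> rcases two_cases hq (A 0 1) with hb | hb <;>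
    rcases two_cases hq (A 1 0) with hc | hc <;> rcases two_cases hq (A 1 1) with hd | hd <;>
    rw [ha, hb, hc, hd] at hA ⊢ <;>
    first
    | (exfalso; revert hA; simp; done)
    | (left; ext i j; fin_cases i <;> fin_cases j <;> simp [om, om', Matrix.mul_apply, Fin.sum_univ_two, h2] <;> done)
    | (right; ext i j; fin_cases i <;> fin_cases j <;> simp [om, om', Matrix.mul_apply, Fin.sum_univ_two, h2] <;> done)

theorem conj_om (hq : Fintype.card F = 2) (A : GL (Fin 2) F) :
    A * omU hq * A⁻¹ ∈ Subgroup.zpowers (omU hq) := by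
  have hdet : (A : Matrix (Fin 2) (Fin 2) F).det ≠ 0 := by
    have := (Matrix.isUnit_iff_isUnit_det (A : Matrix (Fin 2) (Fin 2) F)).mp A.isUnit
    exact this.ne_zero
  rcases om_comm_or hq _ hdet with h | h
  · have : A * omU hq * A⁻¹ = omU hq := by
      rw [mul_inv_eq_iff_eq_mul]
      exact Units.ext h
    rw [this]
    exact Subgroup.mem_zpowers _
  · have : A * omU hq * A⁻¹ = (omU hq)⁻¹ := by
      rw [mul_inv_eq_iff_eq_mul]
      exact Units.ext h
    rw [this]
    exact inv_mem (Subgroup.mem_zpowers _)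

/-- A ↦ A ⊗ 1 -/
def kl (n : ℕ) : GL (Fin 2) F →* GL (Fin 2 × Fin n) F :=
  Units.map { toFun := fun A => A ⊗ₖ (1 : Matrix (Fin n) (Fin n) F)
              map_one' := Matrix.one_kronecker_one
              map_mul' := fun A B => by rw [← Matrix.mul_kronecker_mul, mul_one] }

theorem kl_val (n : ℕ) (A : GL (Fin 2) F) :
    ((kl n A : GL (Fin 2 × Fin n) F) : Matrix _ _ F) = (A : Matrix (Fin 2) (Fin 2) F) ⊗ₖ (1 : Matrix (Fin n) (Fin n) F) := rfl

def NN (hq : Fintype.card F = 2) (n : ℕ) : Subgroup (GL (Fin 2 × Fin n) F) :=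
  Subgroup.normalizer (Subgroup.zpowers (kl n (omU hq)) : Subgroup (GL (Fin 2 × Fin n) F))

theorem kron_conj (hq : Fintype.card F = 2) (n : ℕ) (g : GL (Fin 2 × Fin n) F) (hg : g ∈ kroneckerSubgroup 2 n F)
    (k : GL (Fin 2 × Fin n) F) (hk : k ∈ Subgroup.zpowers (kl n (omU hq))) :
    g * k * g⁻¹ ∈ Subgroup.zpowers (kl n (omU hq)) := by
  obtain ⟨a, b, hab⟩ := hg
  obtain ⟨m, rfl⟩ := Subgroup.mem_zpowers_iff.mp hk
  rw [← conj_zpow]
  refine Subgroup.zpow_mem _ ?_ m
  have h1 : g * kl n (omU hq) * g⁻¹ = kl n (a * omU hq * a⁻¹) := by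
    rw [mul_inv_eq_iff_eq_mul]
    refine Units.ext ?_
    rw [Units.val_mul, Units.val_mul, kl_val, kl_val, hab, ← Matrix.mul_kronecker_mul, ← Matrix.mul_kronecker_mul,
      mul_one, one_mul]
    congr 1
    rw [← Units.val_mul, ← Units.val_mul, inv_mul_cancel_right]
  rw [h1]
  obtain ⟨m, hm⟩ := Subgroup.mem_zpowers_iff.mp (conj_om hq a)
  rw [← hm, map_zpow]
  exact Subgroup.zpow_mem _ (Subgroup.mem_zpowers _) m

theorem kron_le (hq : Fintype.card F = 2) (n : ℕ) : kroneckerSubgroup 2 n F ≤ NN hq n := by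
  intro g hg
  rw [NN, Subgroup.mem_normalizer_iff]
  intro k
  refine ⟨fun hk => kron_conj hq n g hg k hk, fun hk => ?_⟩
  have := kron_conj hq n g⁻¹ (inv_mem hg) _ hk
  rwa [inv_inv, ← mul_assoc, ← mul_assoc, inv_mul_cancel, one_mul, inv_mul_cancel_right] at this

/-- the block element -/
def bl (hq : Fintype.card F = 2) {n : ℕ} (j : Fin n) : GL (Fin 2 × Fin n) F where
  val := om F ⊗ₖ (Matrix.single j j 1) + 1 ⊗ₖ (1 - Matrix.single j j 1)
  inv := om' F ⊗ₖ (Matrix.single j j 1) + 1 ⊗ₖ (1 - Matrix.single j j 1)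
  val_inv := by
    have h1 : (Matrix.single j j (1 : F)) * (Matrix.single j j 1) = Matrix.single j j 1 := by
      rw [Matrix.single_mul_single_same, mul_one]
    have h3 : (1 - Matrix.single j j (1 : F)) * (Matrix.single j j 1) = 0 := by rw [sub_mul, one_mul, h1, sub_self]
    have h4 : (Matrix.single j j (1 : F)) * (1 - Matrix.single j j 1) = 0 := by rw [mul_sub, mul_one, h1, sub_self]
    have h5 : (1 - Matrix.single j j (1 : F)) * (1 - Matrix.single j j 1) = 1 - Matrix.single j j 1 := by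
      rw [sub_mul, one_mul, h4, sub_zero]
    rw [add_mul, mul_add, mul_add, ← Matrix.mul_kronecker_mul, ← Matrix.mul_kronecker_mul, ← Matrix.mul_kronecker_mul,
      ← Matrix.mul_kronecker_mul, h1, h3, h4, h5, om_mul hq]
    simp only [mul_one, Matrix.kronecker_zero, zero_add, add_zero]
    rw [← Matrix.kronecker_add, add_sub_cancel, Matrix.one_kronecker_one]
  inv_val := by
    have h1 : (Matrix.single j j (1 : F)) * (Matrix.single j j 1) = Matrix.single j j 1 := by
      rw [Matrix.single_mul_single_same, mul_one]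
    have h3 : (1 - Matrix.single j j (1 : F)) * (Matrix.single j j 1) = 0 := by rw [sub_mul, one_mul, h1, sub_self]
    have h4 : (Matrix.single j j (1 : F)) * (1 - Matrix.single j j 1) = 0 := by rw [mul_sub, mul_one, h1, sub_self]
    have h5 : (1 - Matrix.single j j (1 : F)) * (1 - Matrix.single j j 1) = 1 - Matrix.single j j 1 := by
      rw [sub_mul, one_mul, h4, sub_zero]
    rw [add_mul, mul_add, mul_add, ← Matrix.mul_kronecker_mul, ← Matrix.mul_kronecker_mul, ← Matrix.mul_kronecker_mul,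
      ← Matrix.mul_kronecker_mul, h1, h3, h4, h5, om'_mul hq]
    simp only [mul_one, Matrix.kronecker_zero, zero_add, add_zero]
    rw [← Matrix.kronecker_add, add_sub_cancel, Matrix.one_kronecker_one]

theorem bl_mem (hq : Fintype.card F = 2) {n : ℕ} (j : Fin n) : bl hq j ∈ NN hq n := by
  have hc : bl hq j * kl n (omU hq) = kl n (omU hq) * bl hq j := by
    refine Units.ext ?_
    rw [Units.val_mul, Units.val_mul, kl_val]
    show (om F ⊗ₖ (Matrix.single j j 1) + 1 ⊗ₖ (1 - Matrix.single j j 1)) * ((omU hq : Matrix (Fin 2) (Fin 2) F) ⊗ₖ 1) =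
      ((omU hq : Matrix (Fin 2) (Fin 2) F) ⊗ₖ 1) * (om F ⊗ₖ (Matrix.single j j 1) + 1 ⊗ₖ (1 - Matrix.single j j 1))
    rw [add_mul, mul_add, ← Matrix.mul_kronecker_mul, ← Matrix.mul_kronecker_mul, ← Matrix.mul_kronecker_mul,
      ← Matrix.mul_kronecker_mul]
    simp only [mul_one, one_mul]
    rfl
  rw [NN, Subgroup.mem_normalizer_iff]
  intro k
  have hcc : ∀ k ∈ Subgroup.zpowers (kl n (omU hq)), bl hq j * k * (bl hq j)⁻¹ = k := by
    intro k hk
    obtain ⟨m, rfl⟩ := Subgroup.mem_zpowers_iff.mp hk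
    rw [← conj_zpow, hc, mul_inv_cancel_right]
  constructor
  · intro hk
    rw [hcc k hk]
    exact hk
  · intro hk
    have h2 := hcc _ hk
    have h3 : bl hq j * k * (bl hq j)⁻¹ = k := by
      rw [mul_inv_eq_iff_eq_mul] at h2
      exact mul_left_cancel (a := bl hq j) (by rw [h2, inv_mul_cancel_right])
    rw [h3] at hk
    exact hk

theorem bl_not (hq : Fintype.card F = 2) {n : ℕ} (j j' : Fin n) (hj : j' ≠ j) : bl hq j ∉ kroneckerSubgroup 2 n F := by
  rintro ⟨a, b, hab⟩
  have hv : ((bl hq j : GL (Fin 2 × Fin n) F) : Matrix _ _ F) =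
      om F ⊗ₖ (Matrix.single j j 1) + 1 ⊗ₖ (1 - Matrix.single j j 1) := rfl
  rw [hv] at hab
  have h1 := congrFun (congrFun hab (0, j)) (1, j)
  have h2 := congrFun (congrFun hab (0, j)) (0, j)
  have h3 := congrFun (congrFun hab (0, j')) (0, j')
  simp [om, Matrix.kroneckerMap_apply, Matrix.one_apply, hj.symm] at h1 h2 h3
  have hb : (b : Matrix (Fin n) (Fin n) F) j j = 0 := by
    rcases h2 with h | h
    · rw [h, zero_mul] at h3
      exact absurd h3 one_ne_zero
    · exact h
  rw [hb, mul_zero] at h1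
  exact one_ne_zero h1

/-- a transvection not in the normaliser -/
def tv {n : ℕ} (j j' : Fin n) (hj : j' ≠ j) : GL (Fin 2 × Fin n) F :=
  Matrix.GeneralLinearGroup.mkOfDetNeZero (Matrix.transvection ((0 : Fin 2), j) ((0 : Fin 2), j') (1 : F)) (by
    rw [Matrix.det_transvection_of_ne]
    · exact one_ne_zero
    · intro h
      exact hj (Prod.ext_iff.mp h).2.symm)

theorem tv_not (hq : Fintype.card F = 2) {n : ℕ} (j j' : Fin n) (hj : j' ≠ j) : tv j j' hj ∉ NN hq n := by
  intro h
  rw [NN, Subgroup.mem_normalizer_iff] at h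
  have h1 := (h (kl n (omU hq))).mp (Subgroup.mem_zpowers _)
  obtain ⟨m, hm⟩ := Subgroup.mem_zpowers_iff.mp h1
  rw [← map_zpow, eq_mul_inv_iff_mul_eq] at hm
  have h2 := congrArg (fun x : GL (Fin 2 × Fin n) F => (x : Matrix (Fin 2 × Fin n) (Fin 2 × Fin n) F)) hm
  simp only [Units.val_mul, kl_val] at h2
  have hv : ((tv j j' hj : GL (Fin 2 × Fin n) F) : Matrix (Fin 2 × Fin n) (Fin 2 × Fin n) F) =
    1 + Matrix.single ((0 : Fin 2), j) ((0 : Fin 2), j') (1 : F) := rfl
  rw [hv, mul_add, add_mul, mul_one, one_mul] at h2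
  have h3 := congrFun (congrFun h2 (0, j)) (1, j')
  have h4 : ((omU hq : GL (Fin 2) F) : Matrix (Fin 2) (Fin 2) F) = om F := rfl
  rw [h4] at h3
  simp [om, Matrix.kroneckerMap_apply, Matrix.one_apply, hj.symm, Matrix.mul_apply, Matrix.single_apply] at h3
  rw [Finset.sum_eq_single ((0 : Fin 2), j')] at h3
  · simp at h3
  · intro b _ hb
    rw [if_neg hb.symm, ite_self]
  · intro hb
    exact absurd (Finset.mem_univ _) hb

theorem sl_top (hq : Fintype.card F = 2) (ι : Type) [Fintype ι] [DecidableEq ι] : specialLinear ι F = ⊤ := by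
  rw [eq_top_iff]
  intro g _
  rw [specialLinear, MonoidHom.mem_ker]
  refine Units.ext ?_
  rcases two_cases hq ((Matrix.GeneralLinearGroup.det g : Fˣ) : F) with h | h
  · exact absurd h (Units.ne_zero _)
  · rw [h]; rfl

end CfsgLib.NMax
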