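import Cfsg.Agent.LibH22NM10
import Cfsg.Agent.LibNMax1

/-! Non-maximality of `Sp_2(2) ⊗ Sp_n(2)` in `Ω`. -/

namespace CfsgLib.H22NM

open scoped MatrixGroups Matrix commutatorElement
open Cfsg Cfsg.Geo CfsgLib.OM29 CfsgLib.OmH12

variable {ι : Type} [Fintype ι] [DecidableEq ι] {F : Type*} [Field F] {Q : QuadraticForm F (ι → F)}

theorem act_of [Finite F] {n₁ n₂ : ℕ} {e : ι ≃ Fin n₁ × Fin n₂} {P : GL ι F} {g' : GL (Fin n₁ × Fin n₂) F} {A : Matrix (Fin n₁) (Fin n₁) F}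
    {B : Matrix (Fin n₂) (Fin n₂) F} (hg' : (g' : Matrix (Fin n₁ × Fin n₂) (Fin n₁ × Fin n₂) F) = Matrix.kronecker A B) (x : Fin n₁ → F) (y : Fin n₂ → F) :
    ((P * (glReindex e.symm g') * P⁻¹ : GL ι F) : Matrix ι ι F) *ᵥ tv e P x y = tv e P (A *ᵥ x) (B *ᵥ y) := by
  unfold tv
  rw [conj_mulVec]
  congr 1
  ext i
  rw [Matrix.mulVec, dotProduct]
  have h1 : ∀ j, ((glReindex e.symm g' : GL ι F) : Matrix ι ι F) i j = A (e i).1 (e j).1 * B (e i).2 (e j).2 := by
    intro j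
    obtain ⟨i', rfl⟩ := e.symm.surjective i
    obtain ⟨j', rfl⟩ := e.symm.surjective j
    rw [CfsgLib.Asch7.glReindex_apply, hg', Equiv.apply_symm_apply, Equiv.apply_symm_apply]
    rfl
  simp only [h1]
  rw [Matrix.mulVec, Matrix.mulVec, dotProduct, dotProduct, Finset.sum_mul_sum]
  rw [← Fintype.sum_prod_type']
  rw [← Equiv.sum_comp e (fun p : Fin n₁ × Fin n₂ => A (e i).1 p.1 * x p.1 * (B (e i).2 p.2 * y p.2))]
  refine Finset.sum_congr rfl fun j _ => ?_
  ring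

theorem tv_exists2 {n₂ : ℕ} (e : ι ≃ Fin 2 × Fin n₂) (P : GL ι F) (x : ι → F) :
    ∃ b0 b1 : Fin n₂ → F, x = tv e P ![1, 0] b0 + tv e P ![0, 1] b1 := by
  obtain ⟨z, hz⟩ : ∃ z, (P : Matrix ι ι F) *ᵥ z = x := ⟨((P⁻¹ : GL ι F) : Matrix ι ι F) *ᵥ x, by
    rw [Matrix.mulVec_mulVec, ← Units.val_mul, mul_inv_cancel, Units.val_one, Matrix.one_mulVec]⟩
  refine ⟨fun j => z (e.symm (0, j)), fun j => z (e.symm (1, j)), ?_⟩
  rw [← hz]
  unfold tv
  rw [← Matrix.mulVec_add]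
  congr 1
  ext i
  obtain ⟨⟨a, j⟩, rfl⟩ := e.symm.surjective i
  simp only [Pi.add_apply, Equiv.apply_symm_apply]
  fin_cases a <;> simp

theorem tv_unique2 {n₂ : ℕ} {e : ι ≃ Fin 2 × Fin n₂} {P : GL ι F} {b0 b1 c0 c1 : Fin n₂ → F}
    (h : tv e P ![1, 0] b0 + tv e P ![0, 1] b1 = tv e P ![1, 0] c0 + tv e P ![0, 1] c1) : b0 = c0 ∧ b1 = c1 := by
  unfold tv at h
  rw [← Matrix.mulVec_add, ← Matrix.mulVec_add] at h
  have h1 := congrArg (fun t => ((P⁻¹ : GL ι F) : Matrix ι ι F) *ᵥ t) h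
  simp only [Matrix.mulVec_mulVec, ← Units.val_mul, inv_mul_cancel, Units.val_one, Matrix.one_mulVec] at h1
  constructor
  · ext j
    have := congrFun h1 (e.symm (0, j))
    simpa using this
  · ext j
    have := congrFun h1 (e.symm (1, j))
    simpa using this

/-- the elements conjugating `J` to itself or its inverse -/
def NJ {G : Type*} [Group G] (J : G) : Subgroup G where
  carrier := {g | g * J * g⁻¹ = J ∨ g * J * g⁻¹ = J⁻¹}
  mul_mem' {g h} hg hh := by
    have key : (g * h) * J * (g * h)⁻¹ = g * (h * J * h⁻¹) * g⁻¹ := by group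
    have key2 : g * J⁻¹ * g⁻¹ = (g * J * g⁻¹)⁻¹ := by group
    rcases hh with hh | hh <;> rcases hg with hg | hg
    · left; rw [key, hh, hg]
    · right; rw [key, hh, hg]
    · right; rw [key, hh, key2, hg]
    · left; rw [key, hh, key2, hg, inv_inv]
  one_mem' := by left; simp
  inv_mem' {g} hg := by
    rcases hg with hg | hg
    · left
      rw [inv_inv]
      calc g⁻¹ * J * g = g⁻¹ * (g * J * g⁻¹) * g := by rw [hg]
        _ = J := by group
    · right
      rw [inv_inv]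
      have h1 : J = (g * J * g⁻¹)⁻¹ := by rw [hg, inv_inv]
      calc g⁻¹ * J * g = g⁻¹ * (g * J * g⁻¹)⁻¹ * g := by rw [← h1]
        _ = J⁻¹ := by group

theorem mem_NJ {G : Type*} [Group G] {J g : G} : g ∈ NJ J ↔ g * J = J * g ∨ g * J = J⁻¹ * g := by
  show (g * J * g⁻¹ = J ∨ g * J * g⁻¹ = J⁻¹) ↔ _
  rw [mul_inv_eq_iff_eq_mul, mul_inv_eq_iff_eq_mul]

theorem tensor2 [Fintype F] (hF : Fintype.card F = 2) (hQ : (QuadraticMap.polarBilin Q).Nondegenerate) (h5 : 5 ≤ Module.finrank F (ι → F))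
    {n₂ : ℕ} (hn : 3 ≤ n₂) (e : ι ≃ Fin 2 × Fin n₂) (P : GL ι F)
    (f₁ : (Fin 2 → F) → (Fin 2 → F) → F) (f₂ : (Fin n₂ → F) → (Fin n₂ → F) → F) (hf₁ : IsSymplecticForm f₁) (hf₂ : IsSymplecticForm f₂)
    (hT : IsTensorFormStructure id (QuadraticMap.polar ⇑Q) f₁ f₂ e P) (hpure : ∀ x y, Q (tv e P x y) = 0) :
    ∃ K : Subgroup (GL ι F), tensorProductSubgroup 2 n₂ e P ⊓ omegaGL ⇑Q < K ∧ K < omegaGL ⇑Q := by
  classical
  have hS := polSym Q
  obtain ⟨h2, hc⟩ := two_arith hF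
  have n2 : (-1 : F) = 1 := by linear_combination -h2
  have hneg : ∀ x : ι → F, -x = x := fun x => by rw [← neg_one_smul F x, n2, one_smul]
  have hsub : ∀ x y : ι → F, x - y = x + y := fun x y => by rw [sub_eq_add_neg, hneg]
  have s1 : Sesq (RingHom.id F) f₁ := ⟨hf₁.bilinear.add_left, hf₁.bilinear.smul_left, hf₁.bilinear.add_right, hf₁.bilinear.smul_right⟩
  have s2 : Sesq (RingHom.id F) f₂ := ⟨hf₂.bilinear.add_left, hf₂.bilinear.smul_left, hf₂.bilinear.add_right, hf₂.bilinear.smul_right⟩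
  have S2 : Sym f₂ := ⟨s2, fun u v => by rw [hf₂.skew, ← neg_one_mul, n2, one_mul]⟩
  obtain ⟨c, hc0, hform⟩ := tv_form s1 s2 hT
  have hc1 : c = 1 := (hc c).resolve_left hc0
  rw [hc1] at hform
  -- the first factor
  let u0 : Fin 2 → F := ![1, 0]
  let u1 : Fin 2 → F := ![0, 1]
  have hu : ∀ x : Fin 2 → F, x = x 0 • u0 + x 1 • u1 := by
    intro x
    ext i
    fin_cases i <;> simp [u0, u1]
  have f01 : f₁ u0 u1 = 1 := by
    rcases hc (f₁ u0 u1) with h | h
    swap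
    · exact h
    exfalso
    have hu0 : u0 ≠ 0 := by
      intro h0
      have := congrFun h0 0
      simp [u0] at this
    obtain ⟨_, y, hy⟩ := hf₁.nondegenerate u0 hu0
    apply hy
    rw [hu y, s1.add_right, s1.smul_right, s1.smul_right, h, hf₁.alternating]
    simp
  have f10 : f₁ u1 u0 = 1 := by rw [hf₁.skew, f01, n2]
  have B01 : ∀ b b', QuadraticMap.polar Q (tv e P u0 b) (tv e P u1 b') = f₂ b b' := fun b b' => by rw [hform, f01]; ring
  have B10 : ∀ b b', QuadraticMap.polar Q (tv e P u1 b) (tv e P u0 b') = f₂ b b' := fun b b' => by rw [hform, f10]; ring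
  have B00 : ∀ b b', QuadraticMap.polar Q (tv e P u0 b) (tv e P u0 b') = 0 := fun b b' => by rw [hform, hf₁.alternating]; ring
  have B11 : ∀ b b', QuadraticMap.polar Q (tv e P u1 b) (tv e P u1 b') = 0 := fun b b' => by rw [hform, hf₁.alternating]; ring
  -- the element of order three
  obtain ⟨J, hJ⟩ : ∃ J : GL ι F, ∀ x y, (J : Matrix ι ι F) *ᵥ tv e P x y = tv e P (NMax.om F *ᵥ x) y := by
    refine ⟨P * (glReindex e.symm (NMax.kl n₂ (NMax.omU hF))) * P⁻¹, fun x y => ?_⟩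
    rw [act_of (A := NMax.om F) (B := 1) rfl, Matrix.one_mulVec]
  have hJ' : ∀ x y, ((J⁻¹ : GL ι F) : Matrix ι ι F) *ᵥ tv e P x y = tv e P (NMax.om' F *ᵥ x) y := by
    intro x y
    have h1 := hJ (NMax.om' F *ᵥ x) y
    rw [Matrix.mulVec_mulVec, NMax.om_mul hF, Matrix.one_mulVec] at h1
    rw [← h1, Matrix.mulVec_mulVec, ← Units.val_mul, inv_mul_cancel, Units.val_one, Matrix.one_mulVec]
  have o0 : NMax.om F *ᵥ u0 = u1 := by
    ext i; fin_cases i <;> simp [NMax.om, u0, u1, Matrix.mulVec, dotProduct, Fin.sum_univ_two]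
  have o1 : NMax.om F *ᵥ u1 = u0 + u1 := by
    ext i; fin_cases i <;> simp [NMax.om, u0, u1, Matrix.mulVec, dotProduct, Fin.sum_univ_two]
  have J0 : ∀ b, (J : Matrix ι ι F) *ᵥ tv e P u0 b = tv e P u1 b := fun b => by rw [hJ, o0]
  have J1 : ∀ b, (J : Matrix ι ι F) *ᵥ tv e P u1 b = tv e P u0 b + tv e P u1 b := fun b => by rw [hJ, o1, tv_add_left]
  have hgen : ∀ x : ι → F, ∃ b0 b1, x = tv e P u0 b0 + tv e P u1 b1 := tv_exists2 e P
  have huni : ∀ {b0 b1 c0 c1 : Fin n₂ → F}, tv e P u0 b0 + tv e P u1 b1 = tv e P u0 c0 + tv e P u1 c1 → b0 = c0 ∧ b1 = c1 :=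
    fun h => tv_unique2 h
  have Tadd : ∀ (u : Fin 2 → F) b b', tv e P u (b + b') = tv e P u b + tv e P u b' := fun u b b' => tv_add_right e P u b b'
  have T0 : ∀ (u : Fin 2 → F), tv e P u 0 = 0 := fun u => tv_zero_right e P u
  -- vectors of the second factor
  obtain ⟨y, hy0⟩ : ∃ x : Fin n₂ → F, x ≠ 0 := ⟨Pi.single ⟨0, by omega⟩ 1, by simp⟩
  obtain ⟨_, b, hb⟩ := hf₂.nondegenerate y hy0
  have hyb : f₂ y b = 1 := (hc _).resolve_left hb
  obtain ⟨y', _, hy'0, hy'y, hy'b⟩ := exists_orth2 S2 (W := ⊤) (by rw [finrank_top]; simpa using hn) y b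
  have hyy' : f₂ y y' = 0 := by rw [S2.symm]; exact hy'y
  have hst := strict_of (H := tensorProductSubgroup 2 n₂ e P) (I := omegaGL ⇑Q) (K := NJ J) ?_ ?_ ?_
  · exact ⟨_, hst.1, hst.2⟩
  · rintro g ⟨hg, _⟩
    obtain ⟨A, B, hAB⟩ := tp_act hg
    rw [mem_NJ]
    have hdet : (A : Matrix (Fin 2) (Fin 2) F).det ≠ 0 :=
      ((Matrix.isUnit_iff_isUnit_det (A : Matrix (Fin 2) (Fin 2) F)).mp A.isUnit).ne_zero
    rcases NMax.om_comm_or hF _ hdet with h | h
    · left
      apply CfsgLib.MaxTv29.gl_ext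
      intro x
      obtain ⟨b0, b1, rfl⟩ := hgen x
      simp only [Units.val_mul, ← Matrix.mulVec_mulVec, Matrix.mulVec_add, hJ, hAB]
      simp only [Matrix.mulVec_mulVec, h]
    · right
      apply CfsgLib.MaxTv29.gl_ext
      intro x
      obtain ⟨b0, b1, rfl⟩ := hgen x
      simp only [Units.val_mul, ← Matrix.mulVec_mulVec, Matrix.mulVec_add, hJ, hJ', hAB]
      simp only [Matrix.mulVec_mulVec, h]
  · -- first witness
    have jv : (J : Matrix ι ι F) *ᵥ (tv e P u0 y + tv e P u1 y') = tv e P u0 y' + tv e P u1 (y + y') := by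
      rw [Matrix.mulVec_add, J0, J1, Tadd]; abel
    have qv : Q (tv e P u0 y + tv e P u1 y') = 0 := by
      rw [q_add, hpure, hpure, B01, hyy']; ring
    have qjv : Q (tv e P u0 y' + tv e P u1 (y + y')) = 0 := by
      rw [q_add, hpure, hpure, B01, S2.add_right, hy'y, hf₂.alternating]; ring
    have bv : QuadraticMap.polar Q (tv e P u0 y + tv e P u1 y') (tv e P u0 y' + tv e P u1 (y + y')) = 0 := by
      rw [pol22 hS, B00, B01, B10, B11, S2.add_right, hyy', hf₂.alternating, hf₂.alternating]; ring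
    have hB : ∀ a a' b0 b1, QuadraticMap.polar Q (tv e P u0 a + tv e P u1 a') (tv e P u0 b0 + tv e P u1 b1) = f₂ a b1 + f₂ a' b0 := by
      intro a a' b0 b1
      rw [pol22 hS, B00, B01, B10, B11]; ring
    have hg : ∀ b0 b1, ((EM Q (tv e P u0 y + tv e P u1 y') (tv e P u0 y' + tv e P u1 (y + y')) : GL ι F) : Matrix ι ι F) *ᵥ
        (tv e P u0 b0 + tv e P u1 b1) = tv e P u0 b0 + tv e P u1 b1 + (f₂ y b1 + f₂ y' b0) • (tv e P u0 y' + tv e P u1 (y + y')) +
          (f₂ y' b1 + f₂ y b0 + f₂ y' b0) • (tv e P u0 y + tv e P u1 y') := by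
      intro b0 b1
      rw [EM_mulVec qv bv, qjv, zero_mul, zero_smul, sub_zero, hsub, hB, hB, S2.add_left, ← add_assoc (f₂ y' b1)]
    refine ⟨EM Q (tv e P u0 y + tv e P u1 y') (tv e P u0 y' + tv e P u1 (y + y')), ?_, em_mem hQ h5 qv bv, ?_⟩
    · rw [mem_NJ]
      left
      apply CfsgLib.MaxTv29.gl_ext
      intro x
      obtain ⟨b0, b1, rfl⟩ := hgen x
      rw [Units.val_mul, Units.val_mul, ← Matrix.mulVec_mulVec, ← Matrix.mulVec_mulVec, hg]
      have h1 : (J : Matrix ι ι F) *ᵥ (tv e P u0 b0 + tv e P u1 b1) = tv e P u0 b1 + tv e P u1 (b0 + b1) := by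
        rw [Matrix.mulVec_add, J0, J1, Tadd]; abel
      have h3 : (J : Matrix ι ι F) *ᵥ (tv e P u0 y' + tv e P u1 (y + y')) =
          (tv e P u0 y + tv e P u1 y') + (tv e P u0 y' + tv e P u1 (y + y')) := by
        rw [Matrix.mulVec_add, J0, J1, Tadd, Tadd]; abel
      rw [h1, hg, Matrix.mulVec_add, Matrix.mulVec_add, Matrix.mulVec_smul, Matrix.mulVec_smul, h1, h3, jv]
      have h4 : f₂ y (b0 + b1) + f₂ y' b1 = (f₂ y b1 + f₂ y' b0) + (f₂ y' b1 + f₂ y b0 + f₂ y' b0) := by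
        rw [S2.add_right]; linear_combination -(f₂ y' b0) * h2
      have h6 : f₂ y' (b0 + b1) + f₂ y b1 + f₂ y' b1 = f₂ y b1 + f₂ y' b0 := by
        rw [S2.add_right]; linear_combination (f₂ y' b1) * h2
      rw [h4, h6]
      module
    · intro hcon
      obtain ⟨A, B, hAB⟩ := tp_act hcon
      have h1 := hAB u0 b
      have h3 := hg b 0
      have e1 : f₂ y 0 = 0 := s2.zero_right y
      have e2 : f₂ y' 0 = 0 := s2.zero_right y'
      rw [T0, add_zero, e1, e2, hy'b, hyb, add_zero, zero_smul, add_zero, zero_add, add_zero, one_smul] at h3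
      rw [h3, hu (A.1 *ᵥ u0), tv_add_left, tv_smul_left, tv_smul_left, ← tv_smul_right, ← tv_smul_right, ← add_assoc, ← Tadd] at h1
      obtain ⟨k1, k2⟩ := huni h1
      rcases hc ((A.1 *ᵥ u0) 1) with h | h
      · rw [h, zero_smul] at k2
        exact hy'0 k2
      · rw [h, one_smul] at k2
        rw [← k2] at k1
        have k3 := congrArg (fun t => f₂ y t) k1
        simp only [S2.add_right, S2.smul_r, hyb, hyy', hf₂.alternating] at k3
        apply one_ne_zero (α := F)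
        linear_combination k3
  · -- second witness
    have bw : QuadraticMap.polar Q (tv e P u0 y) (tv e P u0 y') = 0 := B00 _ _
    refine ⟨EM Q (tv e P u0 y) (tv e P u0 y'), em_mem hQ h5 (hpure _ _) bw, ?_⟩
    have hg : ∀ b0 b1, ((EM Q (tv e P u0 y) (tv e P u0 y') : GL ι F) : Matrix ι ι F) *ᵥ
        (tv e P u0 b0 + tv e P u1 b1) = tv e P u0 b0 + tv e P u1 b1 + (f₂ y b1) • (tv e P u0 y') + (f₂ y' b1) • (tv e P u0 y) := by
      intro b0 b1
      rw [EM_mulVec (hpure _ _) bw, hpure, zero_mul, zero_smul, sub_zero, hsub, hS.add_right, hS.add_right, B00, B00, B01, B01, zero_add, zero_add]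
    intro hcon
    rw [mem_NJ] at hcon
    rcases hcon with h | h
    · have h1 := congrArg (fun t : GL ι F => (t : Matrix ι ι F) *ᵥ (tv e P u1 b)) h
      simp only [Units.val_mul, ← Matrix.mulVec_mulVec] at h1
      have h3 := hg 0 b
      rw [T0, zero_add, hyb, hy'b, one_smul, zero_smul, add_zero] at h3
      rw [J1, hg, h3, Matrix.mulVec_add, J1, J0, hyb, hy'b, one_smul, zero_smul, add_zero] at h1
      have h4 : tv e P u0 y' = tv e P u1 y' := by
        have := congrArg (fun t => t - (tv e P u0 b + tv e P u1 b)) h1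
        simpa using this
      have h6 : tv e P u0 y' + tv e P u1 0 = tv e P u0 0 + tv e P u1 y' := by
        rw [T0, T0, add_zero, zero_add]; exact h4
      exact hy'0 (huni h6).1
    · obtain ⟨z, _, hz0, hzy, hzy'⟩ := exists_orth2 S2 (W := ⊤) (by rw [finrank_top]; simpa using hn) y y'
      have hyz : f₂ y z = 0 := by rw [S2.symm]; exact hzy
      have hy'z : f₂ y' z = 0 := by rw [S2.symm]; exact hzy'
      have h1 := congrArg (fun t : GL ι F => (t : Matrix ι ι F) *ᵥ (tv e P u0 z)) h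
      simp only [Units.val_mul, ← Matrix.mulVec_mulVec] at h1
      have h3 := hg z 0
      have e1 : f₂ y 0 = 0 := s2.zero_right y
      have e2 : f₂ y' 0 = 0 := s2.zero_right y'
      rw [T0, add_zero, e1, e2, zero_smul, zero_smul, add_zero, add_zero] at h3
      have h4 := hg 0 z
      rw [T0, zero_add, hyz, hy'z, zero_smul, zero_smul, add_zero, add_zero] at h4
      rw [h3, J0, h4] at h1
      have h6 := congrArg (fun t => (J : Matrix ι ι F) *ᵥ t) h1
      simp only [Matrix.mulVec_mulVec, ← Units.val_mul, mul_inv_cancel, Units.val_one, Matrix.one_mulVec] at h6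
      rw [J1] at h6
      have h7 : tv e P u0 z + tv e P u1 z = tv e P u0 z + tv e P u1 0 := by rw [h6, T0, add_zero]
      exact hz0 (huni h7).2

end CfsgLib.H22NM
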