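import Cfsg.Agent.LibH22NM1
import Cfsg.Agent.LibUn29d
import Cfsg.Agent.LibAschNumH13

/-! Stabilisers of orthogonal decompositions are not maximal: vectors of a decomposition, the frame group. -/

namespace CfsgLib.H22NM

open scoped MatrixGroups Matrix
open Cfsg

variable {ι : Type} [Fintype ι] [DecidableEq ι] {F : Type*} [Field F]

/-- `a + b + c` lies in no member of the decomposition if `a`, `b` are nonzero components. -/
theorem not_mem_D {f : (ι → F) → (ι → F) → F} (hadd : ∀ x y v, f (x + y) v = f x v + f y v) {t m : ℕ}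
    {D : Fin t → Submodule F (ι → F)} (hD : Geo.IsNondegenerateMDecomposition f m D) {i j : Fin t} (hij : i ≠ j)
    {a b c : ι → F} (ha : a ∈ D i) (hb : b ∈ D j) (ha0 : a ≠ 0) (hb0 : b ≠ 0) (hci : ∀ y ∈ D i, f c y = 0)
    (hcj : ∀ y ∈ D j, f c y = 0) (l : Fin t) : a + b + c ∉ D l := by
  intro h
  by_cases hl : l = i
  · obtain ⟨_, y, hy, hne⟩ := hD.nondegenerate j b hb hb0
    have h1 := hD.orthogonal l j (by rw [hl]; exact hij) _ h y hy
    rw [hadd, hadd, hcj y hy, hD.orthogonal i j hij a ha y hy, zero_add, add_zero] at h1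
    exact hne h1
  · obtain ⟨_, y, hy, hne⟩ := hD.nondegenerate i a ha ha0
    have h1 := hD.orthogonal l i hl _ h y hy
    rw [hadd, hadd, hci y hy, hD.orthogonal j i (Ne.symm hij) b hb y hy, add_zero, add_zero] at h1
    exact hne h1

theorem eq_zero_of_mem {f : (ι → F) → (ι → F) → F} {t m : ℕ}
    {D : Fin t → Submodule F (ι → F)} (hD : Geo.IsNondegenerateMDecomposition f m D) {i j : Fin t} (hij : i ≠ j)
    {a : ι → F} (ha : a ∈ D i) (ha' : a ∈ D j) : a = 0 := by
  by_contra h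
  obtain ⟨_, y, hy, hne⟩ := hD.nondegenerate j a ha' h
  exact hne (hD.orthogonal i j hij a ha y hy)

open Classical in
/-- indicator of a set of vectors -/
noncomputable def chi (S : Set (ι → F)) (v : ι → F) : F := if v ∈ S then 1 else 0

/-- the stabiliser of a set of vectors -/
noncomputable def stS (S : Set (ι → F)) : Subgroup (GL ι F) := isometryGroup F (chi S)

theorem mem_stS {S : Set (ι → F)} {g : GL ι F} : g ∈ stS S ↔ ∀ v, ((g : Matrix ι ι F) *ᵥ v ∈ S ↔ v ∈ S) := by
  classical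
  constructor
  · intro h v
    have h1 : chi S ((g : Matrix ι ι F) *ᵥ v) = chi S v := h v 0
    unfold chi at h1
    by_cases h2 : v ∈ S <;> by_cases h3 : (g : Matrix ι ι F) *ᵥ v ∈ S <;> simp [h2, h3] at h1 ⊢
  · intro h v _
    show chi S ((g : Matrix ι ι F) *ᵥ v) = chi S v
    unfold chi
    simp only [h v]

theorem mem_stS_of_le [Fintype F] {S : Set (ι → F)} {g : GL ι F} (h : ∀ v ∈ S, (g : Matrix ι ι F) *ᵥ v ∈ S) : g ∈ stS S := by
  rw [mem_stS]
  intro v
  refine ⟨?_, h v⟩
  intro hv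
  have hinj : Function.Injective (fun w : ι → F => (g : Matrix ι ι F) *ᵥ w) := by
    intro a b hab
    have h1 := congrArg (fun w => ((g⁻¹ : GL ι F) : Matrix ι ι F) *ᵥ w) hab
    simp only [Matrix.mulVec_mulVec, ← Units.val_mul, inv_mul_cancel, Units.val_one, Matrix.one_mulVec] at h1
    exact h1
  have h2 : Set.MapsTo (fun w : ι → F => (g : Matrix ι ι F) *ᵥ w) S S := fun w hw => h w hw
  have hfin : S.Finite := Set.toFinite S
  have h4 : (fun w : ι → F => (g : Matrix ι ι F) *ᵥ w) '' S = S := by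
    apply Set.eq_of_subset_of_ncard_le h2.image_subset
    rw [Set.ncard_image_of_injective _ hinj]
  rw [← h4] at hv
  obtain ⟨w, hw, he⟩ := hv
  rwa [← hinj he]

/-- the vectors of the members of `D` satisfying an isometry invariant condition are permuted. -/
theorem frame_le {t : ℕ} {D : Fin t → Submodule F (ι → F)} {P : (ι → F) → Prop}
    {I : Subgroup (GL ι F)} (hP : ∀ g ∈ I, ∀ v, P ((g : Matrix ι ι F) *ᵥ v) ↔ P v) :
    Geo.decompositionStabilizer D ⊓ I ≤ stS {v | (∃ i, v ∈ D i) ∧ P v} := by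
  rintro g ⟨⟨σ, hσ⟩, hI⟩
  rw [mem_stS]
  intro v
  simp only [Set.mem_setOf_eq, hP g hI v]
  refine and_congr_left fun _ => ?_
  constructor
  · rintro ⟨j, hj⟩
    obtain ⟨i, rfl⟩ := σ.surjective j
    obtain ⟨w, hw, he⟩ := map_surj hσ hj
    have h1 := congrArg (fun w => ((g⁻¹ : GL ι F) : Matrix ι ι F) *ᵥ w) he
    simp only [Matrix.mulVec_mulVec, ← Units.val_mul, inv_mul_cancel, Units.val_one, Matrix.one_mulVec] at h1
    exact ⟨i, h1 ▸ hw⟩
  · rintro ⟨i, hi⟩
    exact ⟨_, map_mem hσ hi⟩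

end CfsgLib.H22NM
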