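import Cfsg.Agent.LibOmPropH12c

set_option autoImplicit false
set_option linter.unusedSectionVars false

/-! Omega is contained in no member of the geometric classes: orthogonal decompositions, tensor products, subfields
(seat helper12). -/

namespace CfsgLib.OmH12

open Module Cfsg Cfsg.Geo Cfsg.Agent.H22
open scoped Matrix MatrixGroups Kronecker

section detect
variable {F V : Type*} [Field F] [AddCommGroup V] [Module F V] [FiniteDimensional F V] {Q : QuadraticForm F V}

theorem exists_pair_perp [Finite F] (hQ : (QuadraticMap.polarBilin Q).Nondegenerate) (hn : 5 ≤ finrank F V) {w : V} (hw : w ≠ 0)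
    (hQw : Q w = 0) : ∃ e f, HP Q e f ∧ QuadraticMap.polar Q w e = 0 ∧ QuadraticMap.polar Q w f = 0 := by
  obtain ⟨e, f, e', f', u₀, hs⟩ := exists_hp2 hQ hn
  obtain ⟨g, hg⟩ := witt_one hQ e w hs.h1.ne hw (by rw [hs.h1.1, hQw])
  exact ⟨_, _, hs.h2.map g, by rw [← hg, og_polar]; exact hs.ee', by rw [← hg, og_polar]; exact hs.ef'⟩

theorem detect [Finite F] (hQ : (QuadraticMap.polarBilin Q).Nondegenerate) (hn : 5 ≤ finrank F V) {w x : V} (hw : w ≠ 0)
    (hQw : Q w = 0) (hwx : QuadraticMap.polar Q w x = 0) (hx : x ∉ Submodule.span F {w}) :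
    ∃ e, Q e = 0 ∧ QuadraticMap.polar Q e w = 0 ∧ QuadraticMap.polar Q e x ≠ 0 := by
  obtain ⟨e, f, hef, h1, h2⟩ := exists_pair_perp hQ hn hw hQw
  by_contra hcon
  push Not at hcon
  have he := hcon e hef.1 (by rw [QuadraticMap.polar_comm]; exact h1)
  have hf := hcon f hef.2.1 (by rw [QuadraticMap.polar_comm]; exact h2)
  have hall : ∀ z, QuadraticMap.polar Q w z = 0 → QuadraticMap.polar Q z x = 0 := by
    intro z hz
    obtain ⟨y, hy⟩ : ∃ y, y = z - QuadraticMap.polar Q f z • e - QuadraticMap.polar Q e z • f := ⟨_, rfl⟩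
    have hyp := hef.proj_mem z
    rw [← hy] at hyp
    have hye : QuadraticMap.polar Q y e = 0 := by rw [QuadraticMap.polar_comm]; exact hyp.1
    have hyf : QuadraticMap.polar Q y f = 0 := by rw [QuadraticMap.polar_comm]; exact hyp.2
    have hyw : QuadraticMap.polar Q y w = 0 := by
      rw [QuadraticMap.polar_comm, hy, QuadraticMap.polar_sub_right, QuadraticMap.polar_sub_right, QuadraticMap.polar_smul_right,
        QuadraticMap.polar_smul_right, hz, h1, h2]; simp
    have hs : Q (y + e - Q y • f) = 0 := by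
      rw [qsub, qadd, qsmul, hef.1, hef.2.1, hye, QuadraticMap.polar_smul_right, QuadraticMap.polar_add_left, hyf, hef.2.2]
      simp
    have hus : QuadraticMap.polar Q (y + e - Q y • f) w = 0 := by
      rw [QuadraticMap.polar_sub_left, QuadraticMap.polar_add_left, QuadraticMap.polar_smul_left, hyw, QuadraticMap.polar_comm Q e,
        QuadraticMap.polar_comm Q f, h1, h2]; simp
    have h3 := hcon _ hs hus
    rw [QuadraticMap.polar_sub_left, QuadraticMap.polar_add_left, QuadraticMap.polar_smul_left, he, hf] at h3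
    have h4 : QuadraticMap.polar Q y x = 0 := by simpa using h3
    have hx : z = y + QuadraticMap.polar Q f z • e + QuadraticMap.polar Q e z • f := by rw [hy]; abel
    rw [hx, QuadraticMap.polar_add_left, QuadraticMap.polar_add_left, QuadraticMap.polar_smul_left, QuadraticMap.polar_smul_left,
      h4, he, hf]
    simp
  obtain ⟨s, hs, hs1⟩ := exists_functional_ne_zero (QuadraticMap.polarBilin Q) polar_isSymm.isRefl hQ _ x hx
  rw [LinearMap.BilinForm.mem_orthogonal_iff] at hs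
  have h3 : QuadraticMap.polar Q w s = 0 := hs w (Submodule.mem_span_singleton_self w)
  apply hs1
  change QuadraticMap.polar Q x s = 0
  rw [QuadraticMap.polar_comm]
  exact hall s h3

end detect

section proper
variable {ι : Type} [Fintype ι] [DecidableEq ι] {F : Type*} [Field F] [Finite F] {Q : QuadraticForm F (ι → F)}
  (hQ : (QuadraticMap.polarBilin Q).Nondegenerate) (hn : 5 ≤ Fintype.card ι)
  {M : Subgroup (GL ι F)} (hM : HasLong (Q : (ι → F) → F) M)

section dec
variable {s k : ℕ} {D : Fin s → Submodule F (ι → F)}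

include hQ hn hM in
theorem not_dec (hD : IsNondegenerateMDecomposition (QuadraticMap.polar Q) k D) (hk : k + 3 ≤ Fintype.card ι)
    (hle : M ≤ decompositionStabilizer D) : False := by
  have ht := hD.decomp.two_le
  set i : Fin s := ⟨0, by omega⟩ with hi
  obtain ⟨x, hx, hx0⟩ := Submodule.exists_mem_ne_zero_of_ne_bot (dec_ne_bot hD.decomp i)
  set W' : Submodule F (ι → F) := ⨆ j ≠ i, D j with hW'
  have hdis : Disjoint (D i) W' := hD.decomp.indep i
  have hsup : D i ⊔ W' = ⊤ := by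
    rw [eq_top_iff, ← hD.decomp.iSup_eq_top]
    apply iSup_le
    intro j
    by_cases hj : j = i
    · rw [hj]; exact le_sup_left
    · exact le_trans (le_iSup₂_of_le j hj le_rfl) le_sup_right
  have hfr : 3 ≤ finrank F W' := by
    have h1 := Submodule.finrank_sup_add_finrank_inf_eq (D i) W'
    rw [hsup, hdis.eq_bot, finrank_bot, finrank_top, Module.finrank_fintype_fun_eq_card, hD.decomp.finrank_eq] at h1
    omega
  have hperp : ∀ w ∈ W', QuadraticMap.polar Q x w = 0 := by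
    have h1 : W' ≤ LinearMap.ker (QuadraticMap.polarBilin Q x) := by
      apply iSup₂_le
      intro j hj y hy
      rw [LinearMap.mem_ker]
      exact hD.orthogonal i j (Ne.symm hj) x hx y hy
    intro w hw
    exact h1 hw
  obtain ⟨⟨w, hw⟩, hw0, hQw⟩ := exists_sing (Q := qres Q W') hfr
  have hw0' : w ≠ 0 := fun h => hw0 (Subtype.ext h)
  have hQw' : Q w = 0 := hQw
  have hxw : x ∉ Submodule.span F {w} := by
    intro h
    have : x ∈ W' := by
      have h1 : Submodule.span F {w} ≤ W' := by rw [Submodule.span_le]; simpa using hw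
      exact h1 h
    exact hx0 (Submodule.disjoint_def.1 hdis x hx this)
  obtain ⟨e, he, hew, hex⟩ := detect hQ (by rw [Module.finrank_fintype_fun_eq_card]; exact hn) hw0' hQw'
    (by rw [QuadraticMap.polar_comm]; exact hperp w hw) hxw
  obtain ⟨t, htM, h⟩ := hM e w he hQw' hew
  obtain ⟨σ, hσ⟩ := hle htM
  have h1 : x + QuadraticMap.polar Q e x • w ∈ D (σ i) := by
    rw [← hσ i]
    refine ⟨x, hx, ?_⟩
    rw [Matrix.toLin'_apply, h, QuadraticMap.polar_comm Q w x, hperp w hw, zero_smul, sub_zero]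
  by_cases hσi : σ i = i
  · rw [hσi] at h1
    have h2 : QuadraticMap.polar Q e x • w ∈ D i := by
      have := (D i).sub_mem h1 hx
      rwa [add_sub_cancel_left] at this
    exact hw0' (Submodule.disjoint_def.1 hdis w (((D i).smul_mem_iff hex).1 h2) hw)
  · have h2 : x + QuadraticMap.polar Q e x • w ∈ W' := (le_iSup₂_of_le (f := fun j (_ : j ≠ i) => D j) (σ i) hσi le_rfl) h1
    have h3 : x ∈ W' := by
      have := W'.sub_mem h2 (W'.smul_mem (QuadraticMap.polar Q e x) hw)
      rwa [add_sub_cancel_right] at this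
    exact hx0 (Submodule.disjoint_def.1 hdis x hx h3)

end dec

section tensor

/-- transport of the action by a change of basis -/
theorem conj_mulVec {P g : GL ι F} (x : ι → F) :
    ((P * g * P⁻¹ : GL ι F) : Matrix ι ι F) *ᵥ ((P : Matrix ι ι F) *ᵥ x) = (P : Matrix ι ι F) *ᵥ ((g : Matrix ι ι F) *ᵥ x) := by
  rw [Matrix.mulVec_mulVec, Matrix.mulVec_mulVec, ← Units.val_mul, ← Units.val_mul]
  congr 2
  group

/-- pure tensors -/
def tv {n₁ n₂ : ℕ} (e : ι ≃ Fin n₁ × Fin n₂) (P : GL ι F) (x : Fin n₁ → F) (y : Fin n₂ → F) : ι → F :=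
  (P : Matrix ι ι F) *ᵥ (fun i => x (e i).1 * y (e i).2)

theorem tp_act {n₁ n₂ : ℕ} {e : ι ≃ Fin n₁ × Fin n₂} {P t : GL ι F} (ht : t ∈ tensorProductSubgroup n₁ n₂ e P) :
    ∃ (A : GL (Fin n₁) F) (B : GL (Fin n₂) F), (∀ x y, (t : Matrix ι ι F) *ᵥ tv e P x y =
      tv e P ((A : Matrix _ _ F) *ᵥ x) ((B : Matrix _ _ F) *ᵥ y)) := by
  obtain ⟨g, hg, rfl⟩ := Subgroup.mem_map.1 ht
  obtain ⟨g', ⟨A, B, hg'⟩, rfl⟩ := Subgroup.mem_map.1 hg
  refine ⟨A, B, fun x y => ?_⟩
  change ((P * (glReindex e.symm g') * P⁻¹ : GL ι F) : Matrix ι ι F) *ᵥ _ = _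
  unfold tv
  rw [conj_mulVec]
  congr 1
  ext i
  rw [Matrix.mulVec, dotProduct]
  have h1 : ∀ j, ((glReindex e.symm g' : GL ι F) : Matrix ι ι F) i j = (A : Matrix _ _ F) (e i).1 (e j).1 * (B : Matrix _ _ F) (e i).2 (e j).2 := by
    intro j
    obtain ⟨i', rfl⟩ := e.symm.surjective i
    obtain ⟨j', rfl⟩ := e.symm.surjective j
    rw [CfsgLib.Asch7.glReindex_apply, hg', Equiv.apply_symm_apply, Equiv.apply_symm_apply]
    rfl
  simp only [h1]
  rw [Matrix.mulVec, Matrix.mulVec, dotProduct, dotProduct, Finset.sum_mul_sum]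
  rw [← Fintype.sum_prod_type']
  rw [← Equiv.sum_comp e (fun p : Fin n₁ × Fin n₂ => (A : Matrix _ _ F) (e i).1 p.1 * x p.1 * ((B : Matrix _ _ F) (e i).2 p.2 * y p.2))]
  refine Finset.sum_congr rfl fun j _ => ?_
  ring

theorem tv_zero_iff {n₁ n₂ : ℕ} (e : ι ≃ Fin n₁ × Fin n₂) (P : GL ι F) {x : Fin n₁ → F} {y : Fin n₂ → F}
    (h : tv e P x y = 0) (hx : x ≠ 0) : y = 0 := by
  have h1 : (fun i => x (e i).1 * y (e i).2) = 0 := by
    have : ((P⁻¹ : GL ι F) : Matrix ι ι F) *ᵥ (tv e P x y) = 0 := by rw [h, Matrix.mulVec_zero]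
    unfold tv at this
    rwa [Matrix.mulVec_mulVec, ← Units.val_mul, inv_mul_cancel, Units.val_one, Matrix.one_mulVec] at this
  obtain ⟨a, ha⟩ := Function.ne_iff.1 hx
  ext b
  have := congrFun h1 (e.symm (a, b))
  simp only [Equiv.apply_symm_apply, Pi.zero_apply] at this
  exact (mul_eq_zero.1 this).resolve_left ha

/-- tensoring with a fixed vector, right factor -/
def tvl {n₁ n₂ : ℕ} (e : ι ≃ Fin n₁ × Fin n₂) (P : GL ι F) (x : Fin n₁ → F) : (Fin n₂ → F) →ₗ[F] (ι → F) where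
  toFun y := tv e P x y
  map_add' y z := by
    unfold tv
    rw [← Matrix.mulVec_add]
    congr 1
    ext i
    simp [mul_add]
  map_smul' c y := by
    unfold tv
    rw [RingHom.id_apply, ← Matrix.mulVec_smul]
    congr 1
    ext i
    simp; ring

/-- tensoring with a fixed vector, left factor -/
def tvr {n₁ n₂ : ℕ} (e : ι ≃ Fin n₁ × Fin n₂) (P : GL ι F) (y : Fin n₂ → F) : (Fin n₁ → F) →ₗ[F] (ι → F) where
  toFun x := tv e P x y
  map_add' y z := by
    unfold tv
    rw [← Matrix.mulVec_add]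
    congr 1
    ext i
    simp [add_mul]
  map_smul' c y := by
    unfold tv
    rw [RingHom.id_apply, ← Matrix.mulVec_smul]
    congr 1
    ext i
    simp [mul_assoc]

/-- swapping the factors -/
theorem tv_swap {n₁ n₂ : ℕ} (e : ι ≃ Fin n₁ × Fin n₂) (P : GL ι F) (x : Fin n₁ → F) (y : Fin n₂ → F) :
    tv e P x y = tv (e.trans (Equiv.prodComm _ _)) P y x := by
  unfold tv
  congr 1
  ext i
  simp [mul_comm]

theorem scalar_of_span {n : ℕ} {A : Matrix (Fin n) (Fin n) F} (h : ∀ x : Fin n → F, A *ᵥ x ∈ Submodule.span F {x}) :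
    ∃ c : F, ∀ x, A *ᵥ x = c • x := by
  classical
  rcases Nat.eq_zero_or_pos n with hn | hn
  · subst hn
    exact ⟨1, fun x => Subsingleton.elim _ _⟩
  have h1 : ∀ x : Fin n → F, ∃ c : F, A *ᵥ x = c • x := by
    intro x
    obtain ⟨c, hc⟩ := Submodule.mem_span_singleton.1 (h x)
    exact ⟨c, hc.symm⟩
  set i0 : Fin n := ⟨0, hn⟩
  obtain ⟨c, hc⟩ := h1 (Pi.single i0 1)
  refine ⟨c, ?_⟩
  have h2 : ∀ i : Fin n, A *ᵥ Pi.single i 1 = c • Pi.single i (1 : F) := by
    intro i
    by_cases hi : i = i0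
    · rw [hi, hc]
    obtain ⟨d, hd⟩ := h1 (Pi.single i 1)
    obtain ⟨b, hb⟩ := h1 (Pi.single i0 1 + Pi.single i 1)
    rw [Matrix.mulVec_add, hc, hd] at hb
    have e1 := congrFun hb i0
    have e2 := congrFun hb i
    simp [Pi.single_apply, hi, Ne.symm hi] at e1 e2
    rw [hd, e2, ← e1]
  intro x
  have h3 : x = ∑ i, x i • Pi.single i (1 : F) := by
    ext j
    simp [Finset.sum_apply, Pi.single_apply]
  conv_lhs => rw [h3]
  rw [Matrix.mulVec_sum]
  simp only [Matrix.mulVec_smul, h2]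
  conv_rhs => rw [h3]
  rw [Finset.smul_sum]
  refine Finset.sum_congr rfl fun i _ => ?_
  rw [smul_comm]

/-- a nonscalar left factor forces a small right factor -/
theorem left_scalar {n₁ n₂ : ℕ} {e : ι ≃ Fin n₁ × Fin n₂} {P t : GL ι F} {u v : ι → F}
    (h : ∀ x : ι → F, (t : Matrix ι ι F) *ᵥ x = x + QuadraticMap.polar Q u x • v - QuadraticMap.polar Q v x • u)
    {A : Matrix (Fin n₁) (Fin n₁) F} {B : GL (Fin n₂) F}
    (ht : ∀ x y, (t : Matrix ι ι F) *ᵥ tv e P x y = tv e P (A *ᵥ x) ((B : Matrix _ _ F) *ᵥ y)) (hn2 : 3 ≤ n₂) :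
    ∃ c : F, ∀ x, A *ᵥ x = c • x := by
  apply scalar_of_span
  by_contra hcon
  push Not at hcon
  obtain ⟨x, hx⟩ := hcon
  obtain ⟨φ, h1, h2⟩ := CfsgLib.AschSL1.exists_sep hx
  -- injectivity of y ↦ (t-1)(x ⊗ y)
  have hinj : ∀ y, rd Q u v (tv e P x y) = 0 → y = 0 := by
    intro y hy
    have h3 := toLin_eq h (tv e P x y)
    rw [hy, add_zero, ht] at h3
    -- apply the functional
    have h4 : tv e P (φ (A *ᵥ x) • (A *ᵥ x)) ((B : Matrix _ _ F) *ᵥ y) = tv e P (φ x • (A *ᵥ x)) y := by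
      have h5 : (fun i => (A *ᵥ x) (e i).1 * ((B : Matrix _ _ F) *ᵥ y) (e i).2) = (fun i => x (e i).1 * y (e i).2) := by
        have h6 : ((P⁻¹ : GL ι F) : Matrix ι ι F) *ᵥ (tv e P (A *ᵥ x) ((B : Matrix _ _ F) *ᵥ y)) =
            ((P⁻¹ : GL ι F) : Matrix ι ι F) *ᵥ (tv e P x y) := by rw [h3]
        unfold tv at h6
        rwa [Matrix.mulVec_mulVec, Matrix.mulVec_mulVec, ← Units.val_mul, inv_mul_cancel, Units.val_one, Matrix.one_mulVec,
          Matrix.one_mulVec] at h6
      have h7 : ∀ b, φ (A *ᵥ x) * ((B : Matrix _ _ F) *ᵥ y) b = φ x * y b := by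
        intro b
        have h8 : (((B : Matrix _ _ F) *ᵥ y) b) • (A *ᵥ x) = (y b) • x := by
          ext a
          have := congrFun h5 (e.symm (a, b))
          simp only [Equiv.apply_symm_apply] at this
          rw [Pi.smul_apply, Pi.smul_apply, smul_eq_mul, smul_eq_mul, mul_comm, this, mul_comm]
        have h9 := congrArg φ h8
        rw [map_smul, map_smul, smul_eq_mul, smul_eq_mul] at h9
        rw [mul_comm, h9, mul_comm]
      unfold tv
      congr 1
      ext i
      simp only [Pi.smul_apply, smul_eq_mul]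
      linear_combination ((A *ᵥ x) (e i).1) * h7 (e i).2
    rw [h1, h2, one_smul, zero_smul] at h4
    have h10 : tv e P 0 y = 0 := by
      unfold tv
      have : (fun i => (0 : Fin n₁ → F) (e i).1 * y (e i).2) = 0 := by ext i; simp
      rw [this, Matrix.mulVec_zero]
    rw [h10] at h4
    have hAx : A *ᵥ x ≠ 0 := by
      intro h0
      rw [h0, map_zero] at h2
      exact zero_ne_one h2
    have h11 := tv_zero_iff e P h4 hAx
    calc y = (((B⁻¹ : GL (Fin n₂) F) : Matrix _ _ F) * (B : Matrix _ _ F)) *ᵥ y := by rw [← Units.val_mul]; simp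
      _ = 0 := by rw [← Matrix.mulVec_mulVec, h11, Matrix.mulVec_zero]
  have hx0 : x ≠ 0 := by
    rintro rfl
    apply hx
    rw [Matrix.mulVec_zero]; exact Submodule.zero_mem _
  have h12 : Function.Injective (tvl e P x) := by
    rw [← LinearMap.ker_eq_bot, LinearMap.ker_eq_bot']
    intro y hy
    exact tv_zero_iff e P hy hx0
  have h13 := LinearMap.finrank_range_of_inj h12
  rw [Module.finrank_fintype_fun_eq_card, Fintype.card_fin] at h13
  have h14 := finrank_le_two (Q := Q) (W := LinearMap.range (tvl e P x)) u v (by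
    rintro _ ⟨y, rfl⟩ h0
    rw [hinj y h0, map_zero])
  omega

include hQ hn hM in
theorem not_tp_left {n₁ n₂ : ℕ} {e : ι ≃ Fin n₁ × Fin n₂} {P : GL ι F} (h1 : 2 ≤ n₁) (h2 : 3 ≤ n₂)
    (hle : M ≤ tensorProductSubgroup n₁ n₂ e P) : False := by
  have hcard : Fintype.card ι = n₁ * n₂ := by
    rw [Fintype.card_congr e, Fintype.card_prod, Fintype.card_fin, Fintype.card_fin]
  -- the subspace x ⊗ V₂
  obtain ⟨x, hx⟩ : ∃ x : Fin n₁ → F, x ≠ 0 := ⟨Pi.single ⟨0, by omega⟩ 1, by simp⟩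
  have h12 : Function.Injective (tvl e P x) := by
    rw [← LinearMap.ker_eq_bot, LinearMap.ker_eq_bot']
    intro y hy
    exact tv_zero_iff e P hy hx
  have h13 := LinearMap.finrank_range_of_inj h12
  rw [Module.finrank_fintype_fun_eq_card, Fintype.card_fin] at h13
  rcases irr_of_long hQ hn (LinearMap.range (tvl e P x)) (fun u v hu hv huv => by
    obtain ⟨t, ht, h⟩ := hM u v hu hv huv
    obtain ⟨A, B, hAB⟩ := tp_act (hle ht)
    obtain ⟨c, hc⟩ := left_scalar h hAB h2
    refine ⟨t, h, ?_⟩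
    rintro _ ⟨y, rfl⟩
    refine ⟨c • ((B : Matrix _ _ F) *ᵥ y), ?_⟩
    have : (t : Matrix ι ι F) *ᵥ (tvl e P x y) = tv e P ((A : Matrix _ _ F) *ᵥ x) ((B : Matrix _ _ F) *ᵥ y) := hAB x y
    rw [this, hc, map_smul]
    exact ((tvr e P ((B : Matrix _ _ F) *ᵥ y)).map_smul c x).symm) with h | h
  · rw [h, finrank_bot] at h13; omega
  · rw [h, finrank_top, Module.finrank_fintype_fun_eq_card, hcard] at h13
    nlinarith

include hQ hn hM in
theorem not_tp {n₁ n₂ : ℕ} {e : ι ≃ Fin n₁ × Fin n₂} {P : GL ι F} (h1 : 2 ≤ n₁) (h2 : 2 ≤ n₂)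
    (hle : M ≤ tensorProductSubgroup n₁ n₂ e P) : False := by
  have hcard : Fintype.card ι = n₁ * n₂ := by
    rw [Fintype.card_congr e, Fintype.card_prod, Fintype.card_fin, Fintype.card_fin]
  rcases Nat.lt_or_ge n₂ 3 with h3 | h3
  swap
  · exact not_tp_left hQ hn hM h1 h3 hle
  have h4 : n₂ = 2 := by omega
  have h5 : 3 ≤ n₁ := by
    rw [h4] at hcard; omega
  apply not_tp_left (e := e.trans (Equiv.prodComm _ _)) (P := P) hQ hn hM h2 h5
  intro t ht
  have := hle ht
  obtain ⟨g, hg, rfl⟩ := Subgroup.mem_map.1 this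
  obtain ⟨g', ⟨A, B, hg'⟩, rfl⟩ := Subgroup.mem_map.1 hg
  refine Subgroup.mem_map.2 ⟨_, Subgroup.mem_map.2 ⟨glReindex (Equiv.prodComm _ _) g', ⟨B, A, ?_⟩, rfl⟩, ?_⟩
  · ext ⟨a, b⟩ ⟨c, d⟩
    change (g' : Matrix (Fin n₁ × Fin n₂) (Fin n₁ × Fin n₂) F) (b, a) (d, c) = _
    rw [hg']
    simp [mul_comm]
  · congr 1

end tensor

end proper

end CfsgLib.OmH12
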