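import Cfsg.Agent.LibH22NM2
import Cfsg.Agent.LibOmPropH12d
import Cfsg.Agent.LibH14SU2

/-! Tensor decompositions: forms on pure tensors, similarity factors, block sets. -/

namespace CfsgLib.H22NM

open scoped MatrixGroups Matrix Kronecker
open Cfsg Cfsg.Geo CfsgLib.OmH12

variable {ι : Type} [Fintype ι] [DecidableEq ι] {F : Type*} [Field F]

/-- sesquilinear forms -/
structure Sesq (σ : F →+* F) (f : (ι → F) → (ι → F) → F) : Prop where
  add_left : ∀ x y v, f (x + y) v = f x v + f y v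
  smul_left : ∀ (c : F) (x v : ι → F), f (c • x) v = c * f x v
  add_right : ∀ v x y, f v (x + y) = f v x + f v y
  smul_right : ∀ (c : F) (v x : ι → F), f v (c • x) = σ c * f v x

omit [DecidableEq ι] in
theorem Sesq.zero_left {σ : F →+* F} {f : (ι → F) → (ι → F) → F} (h : Sesq σ f) (v : ι → F) : f 0 v = 0 := by
  have := h.smul_left 0 0 v
  rwa [zero_smul, zero_mul] at this

omit [DecidableEq ι] in
theorem Sesq.zero_right {σ : F →+* F} {f : (ι → F) → (ι → F) → F} (h : Sesq σ f) (v : ι → F) : f v 0 = 0 := by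
  have := h.smul_right 0 v 0
  rwa [zero_smul, map_zero, zero_mul] at this

omit [DecidableEq ι] in
theorem Sesq.sum_left {σ : F →+* F} {f : (ι → F) → (ι → F) → F} (h : Sesq σ f) {κ : Type*} (s : Finset κ) (c : κ → (ι → F)) (v : ι → F) :
    f (∑ i ∈ s, c i) v = ∑ i ∈ s, f (c i) v := by
  classical
  induction s using Finset.induction_on with
  | empty => simp [h.zero_left]
  | insert a s ha ih => rw [Finset.sum_insert ha, Finset.sum_insert ha, h.add_left, ih]

omit [DecidableEq ι] in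
theorem Sesq.sum_right {σ : F →+* F} {f : (ι → F) → (ι → F) → F} (h : Sesq σ f) {κ : Type*} (s : Finset κ) (c : κ → (ι → F)) (v : ι → F) :
    f v (∑ i ∈ s, c i) = ∑ i ∈ s, f v (c i) := by
  classical
  induction s using Finset.induction_on with
  | empty => simp [h.zero_right]
  | insert a s ha ih => rw [Finset.sum_insert ha, Finset.sum_insert ha, h.add_right, ih]

theorem Sesq.expand {σ : F →+* F} {f : (ι → F) → (ι → F) → F} (h : Sesq σ f) (x y : ι → F) :
    f x y = ∑ i, ∑ j, x i * gramMatrix f i j * σ (y j) := by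
  have hx : x = ∑ i, x i • Pi.single i (1 : F) := by
    ext j
    simp [Finset.sum_apply, Pi.single_apply]
  have hy : y = ∑ i, y i • Pi.single i (1 : F) := by
    ext j
    simp [Finset.sum_apply, Pi.single_apply]
  conv_lhs => rw [hx, hy]
  rw [h.sum_left]
  refine Finset.sum_congr rfl fun i _ => ?_
  rw [h.sum_right]
  refine Finset.sum_congr rfl fun j _ => ?_
  rw [h.smul_left, h.smul_right, gramMatrix]
  ring

theorem tv_form {σ : F →+* F} {f : (ι → F) → (ι → F) → F} {n₁ n₂ : ℕ} {f₁ : (Fin n₁ → F) → (Fin n₁ → F) → F}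
    {f₂ : (Fin n₂ → F) → (Fin n₂ → F) → F} {e : ι ≃ Fin n₁ × Fin n₂} {P : GL ι F} (h1 : Sesq σ f₁) (h2 : Sesq σ f₂)
    (hT : IsTensorFormStructure (fun x => σ x) f f₁ f₂ e P) :
    ∃ c : F, c ≠ 0 ∧ ∀ a b a' b', f (tv e P a b) (tv e P a' b') = c * (f₁ a a' * f₂ b b') := by
  obtain ⟨c, hc, hT⟩ := hT
  refine ⟨c, hc, fun a b a' b' => ?_⟩
  have := hT (fun p => a p.1 * b p.2) (fun p => a' p.1 * b' p.2)
  have e1 : f (tv e P a b) (tv e P a' b') = c * formOfGram (fun x => σ x) (gramMatrix f₁ ⊗ₖ gramMatrix f₂)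
      (fun p => a p.1 * b p.2) (fun p => a' p.1 * b' p.2) := this
  rw [e1]
  congr 1
  rw [h1.expand a a', h2.expand b b', formOfGram, Finset.sum_mul_sum, ← Finset.univ_product_univ, Finset.sum_product]
  refine Finset.sum_congr rfl fun i _ => Finset.sum_congr rfl fun k _ => ?_
  rw [Finset.sum_mul_sum, Finset.sum_product]
  refine Finset.sum_congr rfl fun j _ => Finset.sum_congr rfl fun l _ => ?_
  simp only [Matrix.kroneckerMap_apply, map_mul]
  ring

/-- elements of the tensor stabiliser that are isometries act by a similarity on the first factor. -/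
theorem tp_sim [Finite F] {f : (ι → F) → (ι → F) → F} {n₁ n₂ : ℕ} {f₁ : (Fin n₁ → F) → (Fin n₁ → F) → F}
    {f₂ : (Fin n₂ → F) → (Fin n₂ → F) → F} {e : ι ≃ Fin n₁ × Fin n₂} {P : GL ι F} {c : F} (hc : c ≠ 0)
    (hf : ∀ a b a' b', f (tv e P a b) (tv e P a' b') = c * (f₁ a a' * f₂ b b'))
    (hn1 : ∃ a a', f₁ a a' ≠ 0) (hn2 : ∃ b b', f₂ b b' ≠ 0) {g : GL ι F} (hg : g ∈ tensorProductSubgroup n₁ n₂ e P)
    (hi : ∀ x y, f ((g : Matrix ι ι F) *ᵥ x) ((g : Matrix ι ι F) *ᵥ y) = f x y) :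
    ∃ (A : GL (Fin n₁) F) (B : GL (Fin n₂) F) (l : F), (∀ x y, (g : Matrix ι ι F) *ᵥ tv e P x y =
      tv e P ((A : Matrix _ _ F) *ᵥ x) ((B : Matrix _ _ F) *ᵥ y)) ∧ l ≠ 0 ∧
      (∀ x x', f₁ ((A : Matrix _ _ F) *ᵥ x) ((A : Matrix _ _ F) *ᵥ x') = l * f₁ x x') ∧
      (∀ y y', f₂ ((B : Matrix _ _ F) *ᵥ y) ((B : Matrix _ _ F) *ᵥ y') = l⁻¹ * f₂ y y') := by
  obtain ⟨A, B, hAB⟩ := tp_act hg
  have key : ∀ a b a' b', f₁ ((A : Matrix _ _ F) *ᵥ a) ((A : Matrix _ _ F) *ᵥ a') * f₂ ((B : Matrix _ _ F) *ᵥ b) ((B : Matrix _ _ F) *ᵥ b') =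
      f₁ a a' * f₂ b b' := by
    intro a b a' b'
    have h1 := hi (tv e P a b) (tv e P a' b')
    rw [hAB, hAB, hf, hf] at h1
    exact mul_left_cancel₀ hc h1
  obtain ⟨a, a', ha⟩ := hn1
  obtain ⟨b, b', hb⟩ := hn2
  have hB : f₂ ((B : Matrix _ _ F) *ᵥ b) ((B : Matrix _ _ F) *ᵥ b') ≠ 0 := by
    intro h
    have := key a b a' b'
    rw [h, mul_zero] at this
    exact mul_ne_zero ha hb this.symm
  have hl : f₂ b b' / f₂ ((B : Matrix _ _ F) *ᵥ b) ((B : Matrix _ _ F) *ᵥ b') ≠ 0 := div_ne_zero hb hB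
  have h1 : ∀ x x', f₁ ((A : Matrix _ _ F) *ᵥ x) ((A : Matrix _ _ F) *ᵥ x') =
      (f₂ b b' / f₂ ((B : Matrix _ _ F) *ᵥ b) ((B : Matrix _ _ F) *ᵥ b')) * f₁ x x' := by
    intro x x'
    have := key x b x' b'
    field_simp
    linear_combination this
  refine ⟨A, B, _, hAB, hl, h1, ?_⟩
  intro y y'
  have h2 := key a y a' y'
  rw [h1] at h2
  have h3 : f₁ a a' * ((f₂ b b' / f₂ ((B : Matrix _ _ F) *ᵥ b) ((B : Matrix _ _ F) *ᵥ b')) * f₂ ((B : Matrix _ _ F) *ᵥ y) ((B : Matrix _ _ F) *ᵥ y')) =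
      f₁ a a' * f₂ y y' := by linear_combination h2
  have h4 := mul_left_cancel₀ ha h3
  rw [← h4, inv_mul_cancel_left₀ hl]

theorem tv_add_right {n₁ n₂ : ℕ} (e : ι ≃ Fin n₁ × Fin n₂) (P : GL ι F) (x : Fin n₁ → F) (y z : Fin n₂ → F) :
    tv e P x (y + z) = tv e P x y + tv e P x z := (tvl e P x).map_add y z

theorem tv_smul_right {n₁ n₂ : ℕ} (e : ι ≃ Fin n₁ × Fin n₂) (P : GL ι F) (c : F) (x : Fin n₁ → F) (y : Fin n₂ → F) :
    tv e P x (c • y) = c • tv e P x y := (tvl e P x).map_smul c y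

theorem tv_smul_left {n₁ n₂ : ℕ} (e : ι ≃ Fin n₁ × Fin n₂) (P : GL ι F) (c : F) (x : Fin n₁ → F) (y : Fin n₂ → F) :
    tv e P (c • x) y = c • tv e P x y := (tvr e P y).map_smul c x

theorem tv_add_left {n₁ n₂ : ℕ} (e : ι ≃ Fin n₁ × Fin n₂) (P : GL ι F) (x x' : Fin n₁ → F) (y : Fin n₂ → F) :
    tv e P (x + x') y = tv e P x y + tv e P x' y := (tvr e P y).map_add x x'

theorem tv_zero_left {n₁ n₂ : ℕ} (e : ι ≃ Fin n₁ × Fin n₂) (P : GL ι F) (y : Fin n₂ → F) :
    tv e P 0 y = 0 := (tvr e P y).map_zero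

theorem tv_zero_right {n₁ n₂ : ℕ} (e : ι ≃ Fin n₁ × Fin n₂) (P : GL ι F) (x : Fin n₁ → F) :
    tv e P x 0 = 0 := (tvl e P x).map_zero

/-- a functional on a space of dimension at least two has a nonzero kernel vector -/
theorem exists_ker {n : ℕ} (hn : 2 ≤ n) (φ : Module.Dual F (Fin n → F)) : ∃ z, z ≠ 0 ∧ φ z = 0 := by
  have h1 := LinearMap.finrank_range_add_finrank_ker φ
  rw [Module.finrank_fintype_fun_eq_card, Fintype.card_fin] at h1
  have h2 : Module.finrank F (LinearMap.range φ) ≤ 1 := by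
    have := Submodule.finrank_le (LinearMap.range φ)
    rwa [Module.finrank_self] at this
  have h3 : LinearMap.ker φ ≠ ⊥ := by
    intro h; rw [h, finrank_bot] at h1; omega
  obtain ⟨z, hz, hz0⟩ := Submodule.exists_mem_ne_zero_of_ne_bot h3
  exact ⟨z, hz0, hz⟩

/-- arithmetic of the field with four elements -/
theorem four_arith {F : Type*} [Field F] [Fintype F] (hF : Fintype.card F = 4) :
    (1 : F) + 1 = 0 ∧ ∀ x : F, x ^ 2 = x → x ≠ 0 → x = 1 := by
  have h4 : (Fintype.card F : F) = 0 := Nat.cast_card_eq_zero F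
  rw [hF] at h4
  push_cast at h4
  have h2 : (1 : F) + 1 = 0 := by
    have : ((1 : F) + 1) * (1 + 1) = 0 := by linear_combination h4
    rcases mul_eq_zero.mp this with h | h <;> exact h
  refine ⟨h2, fun x hx hx0 => ?_⟩
  have : x * (x - 1) = 0 := by linear_combination hx
  rcases mul_eq_zero.mp this with h | h
  · exact absurd h hx0
  · exact sub_eq_zero.mp h

open CfsgLib.Un29 in
/-- in a nondegenerate plane over `F_4`, an anisotropic vector is orthogonal or proportional to a given unit vector. -/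
theorem plane4_dich {σ : F ≃+* F} {f : (ι → F) → (ι → F) → F} (hf : Geo.IsUnitaryForm σ f) (h1 : ∀ x : F, σ x = x → x ≠ 0 → x = 1)
    (hN : ∀ x : F, x ≠ 0 → x * σ x = 1) {W : Submodule F (ι → F)} (hW : Geo.IsNondegenerateOn f W)
    (h2 : Module.finrank F W = 2) {e v : ι → F} (he : e ∈ W) (hee : f e e = 1) (hv : v ∈ W) (hvv : f v v ≠ 0) :
    f v e = 0 ∨ v = f v e • e := by
  by_cases h : f v e = 0
  · exact Or.inl h
  right
  have hvv1 : f v v = 1 := h1 _ (norm_real hf v) hvv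
  set w := v - f v e • e with hw
  have hwe : f w e = 0 := by rw [hw, sub_left hf, hf.smul_left, hee, mul_one, sub_self]
  have hew : f e w = 0 := swap_eq hf hwe
  have hwW : w ∈ W := W.sub_mem hv (W.smul_mem _ he)
  have hvw : v = f v e • e + w := by rw [hw]; abel
  have hww : f w w = 0 := by
    have h3 : f v v = f v e * σ (f v e) + f w w := by
      conv_lhs => rw [hvw]
      rw [hf.add_left, add_right hf, add_right hf, hf.smul_left, hf.smul_left, smul_right hf, smul_right hf, hee, hew, hwe]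
      ring
    rw [hvv1, hN _ h] at h3
    linear_combination -h3
  by_cases hw0 : w = 0
  · exact sub_eq_zero.mp hw0
  exfalso
  have hli : LinearIndependent F ![e, w] := by
    rw [LinearIndependent.pair_iff]
    intro s t hst
    have h3 : s = 0 := by
      have := congrArg (fun x => f x e) hst
      simp only [hf.add_left, hf.smul_left, hee, hwe, mul_one, mul_zero, add_zero, zero_left hf] at this
      exact this
    rw [h3, zero_smul, zero_add] at hst
    exact ⟨h3, (smul_eq_zero.mp hst).resolve_right hw0⟩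
  have hsp : Submodule.span F (Set.range ![e, w]) = W := by
    apply Submodule.eq_of_le_of_finrank_eq
    · rw [Submodule.span_le]
      rintro _ ⟨i, rfl⟩
      fin_cases i
      · exact he
      · exact hwW
    · rw [finrank_span_eq_card hli, h2]; simp
  obtain ⟨⟨x, hx, hxa⟩, _⟩ := hW w hwW hw0
  rw [← hsp] at hx
  simp only [Matrix.range_cons, Matrix.range_empty, Set.union_empty, Set.singleton_union] at hx
  obtain ⟨s, t, rfl⟩ := Submodule.mem_span_pair.mp hx
  apply hxa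
  rw [hf.add_left, hf.smul_left, hf.smul_left, hew, hww, mul_zero, mul_zero, add_zero]

end CfsgLib.H22NM
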