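import Cfsg.Agent.LibH22NM3

/-! Symmetric bilinear forms in dimension three over `F_3`: orthogonal frames. -/

namespace CfsgLib.H22NM

open scoped MatrixGroups Matrix
open Cfsg Cfsg.Geo

variable {ι : Type} [Fintype ι] [DecidableEq ι] {F : Type*} [Field F]

/-- symmetric bilinear forms (possibly degenerate) -/
structure Sym (f : (ι → F) → (ι → F) → F) : Prop extends Sesq (RingHom.id F) f where
  symm : ∀ u v, f u v = f v u

omit [DecidableEq ι] in
theorem Sym.smul_r {f : (ι → F) → (ι → F) → F} (h : Sym f) (c : F) (v x : ι → F) : f v (c • x) = c * f v x := h.smul_right c v x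

/-- the functional `x ↦ f x v` -/
def Sym.fn {f : (ι → F) → (ι → F) → F} (h : Sym f) (v : ι → F) : Module.Dual F (ι → F) where
  toFun := fun x => f x v
  map_add' := fun x y => h.add_left x y v
  map_smul' := fun c x => h.smul_left c x v

omit [DecidableEq ι] in
theorem Sym.sub_left {f : (ι → F) → (ι → F) → F} (h : Sym f) (x y v : ι → F) : f (x - y) v = f x v - f y v := map_sub (h.fn v) x y

omit [DecidableEq ι] in
theorem Sym.sub_right {f : (ι → F) → (ι → F) → F} (h : Sym f) (x y v : ι → F) : f v (x - y) = f v x - f v y := by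
  rw [h.symm, h.sub_left, h.symm x, h.symm y]

omit [DecidableEq ι] in
theorem aniso {f : (ι → F) → (ι → F) → F} (h : Sym f) (h2 : (2 : F) ≠ 0) {X : Submodule F (ι → F)} {x y : ι → F} (hx : x ∈ X)
    (hy : y ∈ X) (hne : f x y ≠ 0) : ∃ w ∈ X, f w w ≠ 0 := by
  by_contra hcon
  push Not at hcon
  have h1 := hcon (x + y) (X.add_mem hx hy)
  rw [h.add_left, h.add_right, h.add_right, hcon x hx, hcon y hy, h.symm y x] at h1
  have h3 : 2 * f x y = 0 := by linear_combination h1
  exact (mul_ne_zero h2 hne) h3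

/-- the orthogonal of two vectors inside a space of dimension three -/
theorem exists_orth2 {f : (ι → F) → (ι → F) → F} (h : Sym f) {W : Submodule F (ι → F)} (h3 : 3 ≤ Module.finrank F W) (x y : ι → F) :
    ∃ z ∈ W, z ≠ 0 ∧ f z x = 0 ∧ f z y = 0 := by
  let φ : W →ₗ[F] (F × F) := (LinearMap.prod (h.fn x) (h.fn y)).comp W.subtype
  have h1 : LinearMap.ker φ ≠ ⊥ := by
    apply LinearMap.ker_ne_bot_of_finrank_lt
    rw [Module.finrank_prod, Module.finrank_self]
    omega
  obtain ⟨z, hz, hz0⟩ := Submodule.exists_mem_ne_zero_of_ne_bot h1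
  have h2 : (f z x, f z y) = ((0 : F), (0 : F)) := hz
  exact ⟨z, z.2, fun h0 => hz0 (Subtype.ext h0), congrArg Prod.fst h2, congrArg Prod.snd h2⟩

/-- three pairwise orthogonal vectors, the first two anisotropic and the third nonzero, span a space of dimension three -/
theorem span_three {f : (ι → F) → (ι → F) → F} (h : Sym f) {W : Submodule F (ι → F)} (h3 : Module.finrank F W = 3) {x y z : ι → F}
    (hx : x ∈ W) (hy : y ∈ W) (hz : z ∈ W) (hxx : f x x ≠ 0) (hyy : f y y ≠ 0) (hz0 : z ≠ 0) (hxy : f x y = 0) (hzx : f z x = 0)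
    (hzy : f z y = 0) : ∀ w ∈ W, ∃ a b c : F, w = a • x + b • y + c • z := by
  have hli : LinearIndependent F ![x, y, z] := by
    rw [Fintype.linearIndependent_iff]
    intro g hg
    rw [Fin.sum_univ_three] at hg
    simp only [Matrix.cons_val_zero, Matrix.cons_val_one, Matrix.cons_val_two, Matrix.head_cons, Matrix.tail_cons] at hg
    have e1 := congrArg (fun t => f t x) hg
    simp only [h.add_left, h.smul_left, h.symm y x, hxy, hzx, mul_zero, add_zero, h.zero_left] at e1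
    have g0 : g 0 = 0 := (mul_eq_zero.mp e1).resolve_right hxx
    have e2 := congrArg (fun t => f t y) hg
    simp only [h.add_left, h.smul_left, hxy, hzy, mul_zero, add_zero, h.zero_left, zero_add] at e2
    have g1 : g 1 = 0 := (mul_eq_zero.mp e2).resolve_right hyy
    rw [g0, g1, zero_smul, zero_smul, zero_add, zero_add] at hg
    have g2 : g 2 = 0 := (smul_eq_zero.mp hg).resolve_right hz0
    intro i
    fin_cases i
    · exact g0
    · exact g1
    · exact g2
  have hsp : Submodule.span F (Set.range ![x, y, z]) = W := by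
    apply Submodule.eq_of_le_of_finrank_eq
    · rw [Submodule.span_le]
      rintro _ ⟨i, rfl⟩
      fin_cases i
      · exact hx
      · exact hy
      · exact hz
    · rw [finrank_span_eq_card hli, h3]; simp
  intro w hw
  rw [← hsp, Submodule.mem_span_range_iff_exists_fun] at hw
  obtain ⟨c, hc⟩ := hw
  rw [Fin.sum_univ_three] at hc
  exact ⟨c 0, c 1, c 2, hc.symm⟩

/-- an orthogonal basis of anisotropic vectors -/
theorem orth_basis3 {f : (ι → F) → (ι → F) → F} (h : Sym f) (h2 : (2 : F) ≠ 0) {W : Submodule F (ι → F)} (hW : IsNondegenerateOn f W)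
    (h3 : Module.finrank F W = 3) : ∃ x ∈ W, ∃ y ∈ W, ∃ z ∈ W, f x x ≠ 0 ∧ f y y ≠ 0 ∧ f z z ≠ 0 ∧ f x y = 0 ∧ f z x = 0 ∧ f z y = 0 := by
  obtain ⟨x0, hx0, hx00⟩ := Submodule.exists_mem_ne_zero_of_ne_bot (p := W) (by
    intro hb; rw [hb, finrank_bot] at h3; omega)
  obtain ⟨⟨t, ht, htx⟩, _⟩ := hW x0 hx0 hx00
  obtain ⟨x, hx, hxx⟩ := aniso h h2 ht hx0 htx
  -- a second anisotropic vector orthogonal to the first
  obtain ⟨y0, hy0, hy00, hy0x, _⟩ := exists_orth2 h (by rw [h3]) x x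
  obtain ⟨⟨s, hs, hsy⟩, _⟩ := hW y0 hy0 hy00
  let X : Submodule F (ι → F) := W ⊓ LinearMap.ker (h.fn x)
  have hy0X : y0 ∈ X := ⟨hy0, hy0x⟩
  have hs'X : s - (f s x / f x x) • x ∈ X := by
    refine ⟨W.sub_mem hs (W.smul_mem _ hx), ?_⟩
    show f _ x = 0
    rw [h.sub_left, h.smul_left, div_mul_cancel₀ _ hxx, sub_self]
  obtain ⟨y, hyX, hyy⟩ := aniso h h2 hs'X hy0X (by
    rw [h.sub_left, h.smul_left, h.symm x y0, hy0x, mul_zero, sub_zero]; exact hsy)
  have hyx : f y x = 0 := hyX.2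
  obtain ⟨z, hz, hz0, hzx, hzy⟩ := exists_orth2 h (by rw [h3]) x y
  have hxy : f x y = 0 := by rw [h.symm]; exact hyx
  have hsp := span_three h h3 hx hyX.1 hz hxx hyy hz0 hxy hzx hzy
  refine ⟨x, hx, y, hyX.1, z, hz, hxx, hyy, ?_, hxy, hzx, hzy⟩
  intro hzz
  obtain ⟨⟨w, hw, hwz⟩, _⟩ := hW z hz hz0
  obtain ⟨a, b, c, rfl⟩ := hsp w hw
  apply hwz
  rw [h.add_left, h.add_left, h.smul_left, h.smul_left, h.smul_left, h.symm x z, h.symm y z, hzx, hzy, hzz]
  ring

/-- arithmetic of the field with three elements -/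
theorem three_arith {F : Type*} [Field F] [Fintype F] (hF : Fintype.card F = 3) :
    (3 : F) = 0 ∧ (2 : F) ≠ 0 ∧ ∀ x : F, x = 0 ∨ x = 1 ∨ x = -1 := by
  have h4 : (Fintype.card F : F) = 0 := Nat.cast_card_eq_zero F
  rw [hF] at h4
  push_cast at h4
  have h2 : (2 : F) ≠ 0 := by
    intro h
    have : (1 : F) = 0 := by linear_combination h4 - h
    exact one_ne_zero this
  refine ⟨h4, h2, fun x => ?_⟩
  by_cases hx : x = 0
  · exact Or.inl hx
  right
  have := FiniteField.pow_card_sub_one_eq_one x hx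
  rw [hF] at this
  have h5 : (x - 1) * (x + 1) = 0 := by
    have h6 : x ^ 2 = 1 := this
    linear_combination h6
  rcases mul_eq_zero.mp h5 with h | h
  · exact Or.inl (sub_eq_zero.mp h)
  · exact Or.inr (add_eq_zero_iff_eq_neg.mp h)

/-- an orthogonal frame of vectors of the same norm `d` over `F_3`, containing all vectors of norm `d` up to scalars. -/
structure Frame3 (f : (ι → F) → (ι → F) → F) (W : Submodule F (ι → F)) (d : F) (u v w : ι → F) : Prop where
  d0 : d ≠ 0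
  hu : u ∈ W
  hv : v ∈ W
  hw : w ∈ W
  uu : f u u = d
  vv : f v v = d
  ww : f w w = d
  uv : f u v = 0
  wu : f w u = 0
  wv : f w v = 0
  all : ∀ x ∈ W, f x x = d → ∃ c : F, x = c • u ∨ x = c • v ∨ x = c • w

theorem Frame3.mk' {f : (ι → F) → (ι → F) → F} (h : Sym f) (h3 : (3 : F) = 0) (hc : ∀ x : F, x = 0 ∨ x = 1 ∨ x = -1)
    {W : Submodule F (ι → F)} (hW : Module.finrank F W = 3) {d : F} {u v w : ι → F} (d0 : d ≠ 0) (hu : u ∈ W) (hv : v ∈ W) (hw : w ∈ W)
    (uu : f u u = d) (vv : f v v = d) (ww : f w w = d) (uv : f u v = 0) (wu : f w u = 0) (wv : f w v = 0) : Frame3 f W d u v w := by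
  have w0 : w ≠ 0 := by
    intro h0
    rw [h0, h.zero_left] at ww
    exact d0 ww.symm
  have hsp := span_three h hW hu hv hw (by rw [uu]; exact d0) (by rw [vv]; exact d0) w0 uv wu wv
  refine ⟨d0, hu, hv, hw, uu, vv, ww, uv, wu, wv, ?_⟩
  intro x hx hxx
  obtain ⟨a, b, c, rfl⟩ := hsp x hx
  have e : d * (a * a + b * b + c * c - 1) = 0 := by
    simp only [h.add_left, h.add_right, h.smul_left, h.smul_r, uu, vv, ww, uv, wu, wv, h.symm v u, h.symm u w, h.symm v w] at hxx
    linear_combination hxx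
  have e' := (mul_eq_zero.mp e).resolve_left d0
  have n1 : (1 : F) ≠ 0 := one_ne_zero
  rcases hc a with ha | ha | ha <;> rcases hc b with hb | hb | hb <;> rcases hc c with hcc | hcc | hcc <;> rw [ha, hb, hcc] at e' <;>
    first
    | (exfalso; apply n1; linear_combination -e'; done)
    | (exfalso; apply n1; linear_combination e'; done)
    | (exfalso; apply n1; linear_combination e' - h3; done)
    | (exfalso; apply n1; linear_combination h3 - e'; done)
    | (refine ⟨a, Or.inl ?_⟩; rw [ha, hb, hcc]; simp; done)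
    | (refine ⟨b, Or.inr (Or.inl ?_)⟩; rw [ha, hb, hcc]; simp; done)
    | (refine ⟨c, Or.inr (Or.inr ?_)⟩; rw [ha, hb, hcc]; simp; done)

theorem exists_frame3 {f : (ι → F) → (ι → F) → F} (h : Sym f) (h3 : (3 : F) = 0) (h2 : (2 : F) ≠ 0) (hc : ∀ x : F, x = 0 ∨ x = 1 ∨ x = -1)
    {W : Submodule F (ι → F)} (hWn : IsNondegenerateOn f W) (hW : Module.finrank F W = 3) : ∃ d u v w, Frame3 f W d u v w := by
  obtain ⟨x, hx, y, hy, z, hz, hxx, hyy, hzz, hxy, hzx, hzy⟩ := orth_basis3 h h2 hWn hW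
  -- two vectors of norm `a` and one of norm `-a`
  have key : ∀ (a : F) (x y z : ι → F), a ≠ 0 → x ∈ W → y ∈ W → z ∈ W → f x x = a → f y y = a → f z z = -a → f x y = 0 → f z x = 0 →
      f z y = 0 → ∃ d u v w, Frame3 f W d u v w := by
    intro a x y z ha hx hy hz e1 e2 e3 e4 e5 e6
    refine ⟨-a, x + y, x - y, z, Frame3.mk' h h3 hc hW (neg_ne_zero.mpr ha) (W.add_mem hx hy) (W.sub_mem hx hy) hz ?_ ?_ e3 ?_ ?_ ?_⟩
    · rw [h.add_left, h.add_right, h.add_right, e1, e2, e4, h.symm y x, e4]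
      linear_combination a * h3
    · rw [h.sub_left, h.sub_right, h.sub_right, e1, e2, e4, h.symm y x, e4]
      linear_combination a * h3
    · rw [h.add_left, h.sub_right, h.sub_right, e1, e2, e4, h.symm y x, e4]
      ring
    · rw [h.add_right, e5, e6, add_zero]
    · rw [h.sub_right, e5, e6, sub_zero]
  have hpm : ∀ a : F, a ≠ 0 → a = 1 ∨ a = -1 := fun a ha => (hc a).resolve_left ha
  have hyz : f y z = 0 := by rw [h.symm]; exact hzy
  have hxz : f x z = 0 := by rw [h.symm]; exact hzx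
  have hyx : f y x = 0 := by rw [h.symm]; exact hxy
  have hn1 : (1 : F) ≠ 0 := one_ne_zero
  have hn2 : (-1 : F) ≠ 0 := neg_ne_zero.mpr one_ne_zero
  rcases hpm _ hxx with h1 | h1 <;> rcases hpm _ hyy with h2' | h2' <;> rcases hpm _ hzz with h3' | h3'
  · exact ⟨1, x, y, z, Frame3.mk' h h3 hc hW hn1 hx hy hz h1 h2' h3' hxy hzx hzy⟩
  · exact key 1 x y z hn1 hx hy hz h1 h2' h3' hxy hzx hzy
  · exact key 1 x z y hn1 hx hz hy h1 h3' h2' hxz hyx hyz
  · exact key (-1) y z x hn2 hy hz hx h2' h3' (by rw [h1]; ring) hyz hxy hxz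
  · exact key 1 y z x hn1 hy hz hx h2' h3' h1 hyz hxy hxz
  · exact key (-1) x z y hn2 hx hz hy h1 h3' (by rw [h2']; ring) hxz hyx hyz
  · exact key (-1) x y z hn2 hx hy hz h1 h2' (by rw [h3']; ring) hxy hzx hzy
  · exact ⟨-1, x, y, z, Frame3.mk' h h3 hc hW hn2 hx hy hz h1 h2' h3' hxy hzx hzy⟩

/-- a similarity of the frame space has factor one -/
theorem Frame3.sim {f : (ι → F) → (ι → F) → F} (h : Sym f) (h2 : (2 : F) ≠ 0) (hc : ∀ x : F, x = 0 ∨ x = 1 ∨ x = -1)
    {W : Submodule F (ι → F)} (hW : Module.finrank F W = 3) {d : F} {u v w : ι → F} (hf : Frame3 f W d u v w) {m : F} {x y z : ι → F}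
    (hx : x ∈ W) (hy : y ∈ W) (hz : z ∈ W) (xx : f x x = m * d) (yy : f y y = m * d) (zz : f z z = m * d) (xy : f x y = 0)
    (xz : f x z = 0) (yz : f y z = 0) : m ≠ -1 := by
  intro hm
  have w0 : w ≠ 0 := by
    intro h0
    have := hf.ww
    rw [h0, h.zero_left] at this
    exact hf.d0 this.symm
  have hsp := span_three h hW hf.hu hf.hv hf.hw (by rw [hf.uu]; exact hf.d0) (by rw [hf.vv]; exact hf.d0) w0 hf.uv hf.wu hf.wv
  obtain ⟨a1, b1, c1, rfl⟩ := hsp x hx
  obtain ⟨a2, b2, c2, rfl⟩ := hsp y hy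
  obtain ⟨a3, b3, c3, rfl⟩ := hsp z hz
  simp only [h.add_left, h.add_right, h.smul_left, h.smul_r, hf.uu, hf.vv, hf.ww, hf.uv, hf.wu, hf.wv, h.symm v u, h.symm u w, h.symm v w] at xx yy zz xy xz yz
  have k1 : a1 * a1 + b1 * b1 + c1 * c1 = m := by apply mul_left_cancel₀ hf.d0; linear_combination xx
  have k2 : a2 * a2 + b2 * b2 + c2 * c2 = m := by apply mul_left_cancel₀ hf.d0; linear_combination yy
  have k3 : a3 * a3 + b3 * b3 + c3 * c3 = m := by apply mul_left_cancel₀ hf.d0; linear_combination zz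
  have k4 : a1 * a2 + b1 * b2 + c1 * c2 = 0 := by apply mul_left_cancel₀ hf.d0; linear_combination xy
  have k5 : a1 * a3 + b1 * b3 + c1 * c3 = 0 := by apply mul_left_cancel₀ hf.d0; linear_combination xz
  have k6 : a2 * a3 + b2 * b3 + c2 * c3 = 0 := by apply mul_left_cancel₀ hf.d0; linear_combination yz
  have key : (a1 * (b2 * c3 - b3 * c2) - b1 * (a2 * c3 - a3 * c2) + c1 * (a2 * b3 - a3 * b2)) ^ 2 =
      (a1 * a1 + b1 * b1 + c1 * c1) * (a2 * a2 + b2 * b2 + c2 * c2) * (a3 * a3 + b3 * b3 + c3 * c3)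
      + 2 * (a1 * a2 + b1 * b2 + c1 * c2) * (a2 * a3 + b2 * b3 + c2 * c3) * (a1 * a3 + b1 * b3 + c1 * c3)
      - (a1 * a1 + b1 * b1 + c1 * c1) * (a2 * a3 + b2 * b3 + c2 * c3) ^ 2
      - (a2 * a2 + b2 * b2 + c2 * c2) * (a1 * a3 + b1 * b3 + c1 * c3) ^ 2
      - (a3 * a3 + b3 * b3 + c3 * c3) * (a1 * a2 + b1 * b2 + c1 * c2) ^ 2 := by ring
  rw [k1, k2, k3, k4, k5, k6, hm] at key
  rcases hc (a1 * (b2 * c3 - b3 * c2) - b1 * (a2 * c3 - a3 * c2) + c1 * (a2 * b3 - a3 * b2)) with hD | hD | hD <;> rw [hD] at key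
  · apply one_ne_zero (α := F); linear_combination key
  · apply h2; linear_combination key
  · apply h2; linear_combination key

end CfsgLib.H22NM
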