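import Cfsg.Agent.LibOM29b

set_option autoImplicit false

/-! Non-degenerate quadratic forms; stabilizers of totally singular subspaces of dimension `n/2 - 1`. -/

namespace CfsgLib.OM29

open scoped MatrixGroups Matrix
open Cfsg CfsgLib.MaxTv29 Cfsg.Agent.H22 Module

section
variable {ι : Type} [Fintype ι] [DecidableEq ι] {F : Type*} [Field F]

/-- the quadratic form given by a function -/
def toQ (Q : (ι → F) → F) (h : Geo.IsNondegenerateQuadraticForm Q) : QuadraticForm F (ι → F) where
  toFun := Q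
  toFun_smul a x := by rw [h.smul, smul_eq_mul, sq]
  exists_companion' := ⟨LinearMap.mk₂ F (QuadraticMap.polar Q) h.polar_bilinear.add_left (fun c x y => by rw [h.polar_bilinear.smul_left, smul_eq_mul])
    h.polar_bilinear.add_right (fun c x y => by rw [h.polar_bilinear.smul_right, smul_eq_mul]), fun x y => by
      rw [LinearMap.mk₂_apply]; unfold QuadraticMap.polar; ring⟩

theorem coe_toQ (Q : (ι → F) → F) (h : Geo.IsNondegenerateQuadraticForm Q) : ⇑(toQ Q h) = Q := rfl

theorem nondeg_toQ (Q : (ι → F) → F) (h : Geo.IsNondegenerateQuadraticForm Q) : (QuadraticMap.polarBilin (toQ Q h)).Nondegenerate := by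
  apply nondeg_of_left
  intro x hx
  by_contra hx0
  obtain ⟨y, hy⟩ := (h.nondegenerate x hx0).2
  exact hy (hx y)

end

section
variable {ι : Type} [Fintype ι] [DecidableEq ι] {F : Type*} [Field F] {Q : QuadraticForm F (ι → F)}

local notation "B" => QuadraticMap.polar Q

theorem gmap_ts {g : GL ι F} (hg : g ∈ Cfsg.isometryGroup F ⇑Q) {m : ℕ} {U : Submodule F (ι → F)} (hU : TS Q m U) : TS Q m (U.map (le g).toLinearMap) := by
  refine ⟨by rw [← hU.1]; exact LinearEquiv.finrank_map_eq (le g) U, ?_⟩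
  rintro _ ⟨x, hx, rfl⟩
  exact ((mem_isoQ g).mp hg x).trans (hU.2 x hx)

theorem gmap_mul (g h : GL ι F) (U : Submodule F (ι → F)) : U.map (le (g * h)).toLinearMap = (U.map (le h).toLinearMap).map (le g).toLinearMap := by
  rw [← Submodule.map_comp]
  congr 1
  apply LinearMap.ext
  intro x
  show ((g * h : GL ι F) : Matrix ι ι F) *ᵥ x = (g : Matrix ι ι F) *ᵥ ((h : Matrix ι ι F) *ᵥ x)
  rw [Units.val_mul, Matrix.mulVec_mulVec]

/-- the parity of a pair of maximal totally singular subspaces -/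
noncomputable def dp (m : ℕ) (U W : Submodule F (ι → F)) : ZMod 2 := ((m - finrank F (U ⊓ W : Submodule F (ι → F)) : ℕ) : ZMod 2)

theorem dp_comm (m : ℕ) (U W : Submodule F (ι → F)) : dp m U W = dp m W U := by unfold dp; rw [inf_comm]

theorem dp_add (hQ : (QuadraticMap.polarBilin Q).Nondegenerate) {m : ℕ} (hV : finrank F (ι → F) = 2 * m) {U W X : Submodule F (ι → F)} (hU : TS Q m U) (hW : TS Q m W) (hX : TS Q m X) :
    dp m U X = dp m U W + dp m W X := by
  have h1 := three_even hQ hV hU _ W X hW hX rfl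
  have h2 := (ZMod.natCast_eq_zero_iff_even).mpr h1
  rw [Nat.cast_add, Nat.cast_add] at h2
  unfold dp
  have h3 : ∀ a b c : ZMod 2, a + b + c = 0 → c = a + b := by decide
  exact h3 _ _ _ h2

theorem dp_map (m : ℕ) (g : GL ι F) (U W : Submodule F (ι → F)) : dp m (U.map (le g).toLinearMap) (W.map (le g).toLinearMap) = dp m U W := by
  unfold dp
  have h1 : (U.map (le g).toLinearMap) ⊓ (W.map (le g).toLinearMap) = (U ⊓ W).map (le g).toLinearMap := (Submodule.map_inf _ (le g).injective).symm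
  rw [h1, show finrank F ((U ⊓ W).map (le g).toLinearMap) = finrank F (U ⊓ W : Submodule F (ι → F)) from LinearEquiv.finrank_map_eq (le g) (U ⊓ W)]

theorem dp_omega (hQ : (QuadraticMap.polarBilin Q).Nondegenerate) {m : ℕ} (hV : finrank F (ι → F) = 2 * m) {U : Submodule F (ι → F)} (hU : TS Q m U) {g : GL ι F}
    (hg : g ∈ Geo.omegaGL ⇑Q) : dp m U (U.map (le g).toLinearMap) = 0 := by
  let φ : Cfsg.isometryGroup F ⇑Q →* Multiplicative (ZMod 2) :=
    { toFun := fun g => Multiplicative.ofAdd (dp m U (U.map (le (g : GL ι F)).toLinearMap))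
      map_one' := by
        have h1 : U.map (le ((1 : Cfsg.isometryGroup F ⇑Q) : GL ι F)).toLinearMap = U := by
          ext x
          constructor
          · rintro ⟨y, hy, rfl⟩
            have : (le ((1 : Cfsg.isometryGroup F ⇑Q) : GL ι F)).toLinearMap y = y := by
              show (((1 : GL ι F)) : Matrix ι ι F) *ᵥ y = y
              rw [Units.val_one, Matrix.one_mulVec]
            rw [this]; exact hy
          · intro hx
            refine ⟨x, hx, ?_⟩
            show (((1 : GL ι F)) : Matrix ι ι F) *ᵥ x = x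
            rw [Units.val_one, Matrix.one_mulVec]
        rw [h1]
        unfold dp
        rw [inf_idem, hU.1, Nat.sub_self]; rfl
      map_mul' := fun g h => by
        have h1 : U.map (le ((g * h : Cfsg.isometryGroup F ⇑Q) : GL ι F)).toLinearMap = (U.map (le (h : GL ι F)).toLinearMap).map (le (g : GL ι F)).toLinearMap := gmap_mul _ _ _
        rw [h1, ← ofAdd_add]
        congr 1
        rw [dp_add hQ hV hU (gmap_ts g.2 hU) (gmap_ts g.2 (gmap_ts h.2 hU)), dp_map] }
  unfold Geo.omegaGL at hg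
  obtain ⟨x, hx, rfl⟩ := hg
  have h1 := Abelianization.commutator_subset_ker φ hx
  exact h1

theorem stab_ne_omega [Finite F] (hQ : (QuadraticMap.polarBilin Q).Nondegenerate) (h5 : 5 ≤ finrank F (ι → F)) (W : Submodule F (ι → F)) (hW0 : W ≠ ⊥)
    (hW : ∀ w ∈ W, Q w = 0) : Geo.subspaceStabilizer W ⊓ Geo.omegaGL ⇑Q < Geo.omegaGL ⇑Q := by
  haveI : Fintype F := Fintype.ofFinite F
  obtain ⟨e, f, e', f', u', hs⟩ := exists_HS hQ h5
  obtain ⟨w0, hw0, hw0'⟩ := Submodule.exists_mem_ne_zero_of_ne_bot hW0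
  have hWp : ∀ x ∈ W, ∀ y ∈ W, B x y = 0 := fun x hx y hy => polar_ts hW hx hy
  refine lt_of_le_of_ne inf_le_right ?_
  intro heq
  obtain ⟨y, hy⟩ := exists_HP_of_singular hQ w0 hw0' (hW w0 hw0)
  have hy2 : Q y = 0 := hy.2.1
  have hy1 : B w0 y = 1 := hy.2.2
  obtain ⟨w, hw, hQw⟩ := exists_nonsing hQ (Submodule.span F {y}) (by
    rw [finrank_span_singleton (by rintro rfl; rw [QuadraticMap.polar_zero_right] at hy1; exact zero_ne_one hy1)]; omega)
  have hyw : B y w = 0 := mem_orth_span.mp hw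
  have h1 : EM Q y w ∈ Geo.subspaceStabilizer W ⊓ Geo.omegaGL ⇑Q := by
    rw [heq]; exact EM_omega hQ hs h5 hy2 hyw
  have h2 := (mem_stab _ _).mp h1.1 w0 hw0
  rw [EM_mulVec hy2 hyw] at h2
  have h3 := hWp w0 hw0 _ h2
  simp only [QuadraticMap.polar_add_right, QuadraticMap.polar_sub_right, QuadraticMap.polar_smul_right, smul_eq_mul, bself (hW w0 hw0), bsymm y w0, bsymm w w0, hy1] at h3
  apply hQw
  linear_combination -h3

/-- **non-maximal stabilizers** -/
theorem submaximal_not_maximal [Finite F] (hQ : (QuadraticMap.polarBilin Q).Nondegenerate) (h5 : 5 ≤ finrank F (ι → F)) {m : ℕ} (hV : finrank F (ι → F) = 2 * m)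
    {X : Submodule F (ι → F)} (hX : TS Q m X) (W : Submodule F (ι → F)) (hW : ∀ w ∈ W, Q w = 0) (hWm : finrank F W + 1 = m) :
    ∃ K : Subgroup (GL ι F), Geo.subspaceStabilizer W ⊓ Geo.omegaGL ⇑Q < K ∧ K < Geo.omegaGL ⇑Q := by
  haveI : Fintype F := Fintype.ofFinite F
  obtain ⟨e, f, e', f', u', hs⟩ := exists_HS hQ h5
  have h2 := two_over hQ hV hX W hWm hW
  have hA : ∃ A : Submodule F (ι → F), TS Q m A ∧ W ≤ A := by
    haveI : Nonempty {W' : Submodule F (ι → F) // TS Q m W' ∧ W ≤ W'} := by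
      rcases isEmpty_or_nonempty {W' : Submodule F (ι → F) // TS Q m W' ∧ W ≤ W'} with h | h
      · rw [Nat.card_of_isEmpty] at h2; omega
      · exact h
    obtain ⟨A⟩ := this
    exact ⟨A.1, A.2⟩
  obtain ⟨A, hAT, hWA⟩ := hA
  -- maximal singular subspaces above `W` of even parity are equal
  have huniq : ∀ A' : Submodule F (ι → F), TS Q m A' → W ≤ A' → dp m A A' = 0 → A' = A := by
    intro A' hA' hWA' hd
    by_contra hne
    have h3 : finrank F (A ⊓ A' : Submodule F (ι → F)) < m := by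
      by_contra hcon
      have h4 : finrank F (A ⊓ A' : Submodule F (ι → F)) ≤ m := by rw [← hAT.1]; exact Submodule.finrank_mono inf_le_left
      have h5' : A ⊓ A' = A := Submodule.eq_of_le_of_finrank_eq inf_le_left (by rw [hAT.1]; omega)
      have h6 : A ⊓ A' = A' := Submodule.eq_of_le_of_finrank_eq inf_le_right (by rw [hA'.1]; omega)
      exact hne (by rw [← h6]; exact h5')
    have h4 := Submodule.finrank_mono (le_inf hWA hWA')
    have h6 : m - finrank F (A ⊓ A' : Submodule F (ι → F)) = 1 := by omega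
    unfold dp at hd
    rw [h6] at hd
    exact absurd hd (by decide)
  have hm2 : 2 ≤ m := by omega
  have hW0 : ∃ x ∈ W, x ≠ 0 := by
    apply Submodule.exists_mem_ne_zero_of_ne_bot
    rintro h
    rw [h, finrank_bot] at hWm
    omega
  obtain ⟨x, hxW, hx0⟩ := hW0
  have hA0 : A ≠ ⊥ := by
    rintro h
    exact hx0 (by
      have := hWA hxW
      rw [h] at this
      exact (Submodule.mem_bot F).mp this)
  refine ⟨Geo.subspaceStabilizer A ⊓ Geo.omegaGL ⇑Q, lt_of_le_of_ne ?_ ?_, stab_ne_omega hQ h5 A hA0 hAT.2⟩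
  · rintro g ⟨hg1, hg2⟩
    refine ⟨?_, hg2⟩
    have h3 := dp_omega hQ hV hAT hg2
    have h4 : A.map (le g).toLinearMap = A := by
      refine huniq _ (gmap_ts (omegaGL_le_iso hg2) hAT) ?_ h3
      have h5' : W.map (le g).toLinearMap ≤ W := by
        rintro _ ⟨w, hw, rfl⟩
        exact (mem_stab _ _).mp hg1 w hw
      have h6 : W.map (le g).toLinearMap = W := Submodule.eq_of_le_of_finrank_eq h5' (LinearEquiv.finrank_map_eq (le g) W)
      calc W = W.map (le g).toLinearMap := h6.symm
        _ ≤ A.map (le g).toLinearMap := Submodule.map_mono hWA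
    refine (mem_stab _ _).mpr fun a ha => ?_
    have : (le g).toLinearMap a ∈ A.map (le g).toLinearMap := ⟨a, ha, rfl⟩
    rw [h4] at this
    exact this
  · intro heq
    obtain ⟨v, hvA, hvW⟩ : ∃ v ∈ A, v ∉ W := by
      by_contra hcon
      push Not at hcon
      have := Submodule.finrank_mono (show A ≤ W from hcon)
      rw [hAT.1] at this
      omega
    have hxv : x ∉ Submodule.span F {v} := by
      intro h
      obtain ⟨k, hk⟩ := Submodule.mem_span_singleton.mp h
      have hk0 : k ≠ 0 := by rintro rfl; exact hx0 (by rw [← hk, zero_smul])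
      apply hvW
      rw [← hk] at hxW
      exact (W.smul_mem_iff hk0).mp hxW
    obtain ⟨w, hw, hxw⟩ := orth_func hQ (Submodule.span F {v}) x hxv
    have hvw : B v w = 0 := mem_orth_span.mp hw
    have hv0 := hAT.2 v hvA
    have hAp : ∀ a ∈ A, ∀ b ∈ A, B a b = 0 := fun a ha b hb => polar_ts hAT.2 ha hb
    have h3 : EM Q v w ∈ Geo.subspaceStabilizer A ⊓ Geo.omegaGL ⇑Q := by
      refine ⟨(mem_stab _ _).mpr fun a ha => ?_, EM_omega hQ hs h5 hv0 hvw⟩
      rw [EM_mulVec hv0 hvw, hAp v hvA a ha, zero_smul, mul_zero, zero_smul, add_zero, sub_zero]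
      exact A.sub_mem ha (A.smul_mem _ hvA)
    rw [← heq] at h3
    have h4 := (mem_stab _ _).mp h3.1 x hxW
    rw [EM_mulVec hv0 hvw, hAp v hvA x (hWA hxW), zero_smul, mul_zero, zero_smul, add_zero, sub_zero] at h4
    have h6 : B w x • v ∈ W := by
      have := W.sub_mem hxW h4
      rwa [sub_sub_cancel] at this
    exact hvW ((W.smul_mem_iff (by rw [bsymm]; exact hxw)).mp h6)

/-- minus type: the dimension bound -/
theorem not_plus_bound {W : Submodule F (ι → F)} (hW : ∀ w ∈ W, Q w = 0) (hminus : ¬ Geo.IsPlusTypeOn ⇑Q ⊤) (u : ι → F) (hu : Q u = 0) (huW : u ∉ W) (hWu : ∀ w ∈ W, B w u = 0) :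
    2 * (finrank F W + 1) ≠ finrank F (ι → F) := by
  intro h
  apply hminus
  refine ⟨W ⊔ Submodule.span F {u}, le_top, ?_, ?_⟩
  · intro x hx
    obtain ⟨d, hd, y, hy, rfl⟩ := Submodule.mem_sup.mp hx
    obtain ⟨k, rfl⟩ := Submodule.mem_span_singleton.mp hy
    rw [qadd, hW d hd, qsmul, hu, QuadraticMap.polar_smul_right, hWu d hd]; simp
  · have h3 := Submodule.finrank_sup_add_finrank_inf_eq W (Submodule.span F {u})
    have h4 : W ⊓ Submodule.span F {u} = ⊥ := by
      rw [eq_bot_iff]
      rintro x ⟨hxD, hx⟩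
      obtain ⟨k, rfl⟩ := Submodule.mem_span_singleton.mp hx
      by_cases hk0 : k = 0
      · rw [hk0, zero_smul]; exact Submodule.zero_mem _
      · exact absurd ((W.smul_mem_iff hk0).mp hxD) huW
    have hu0' : u ≠ 0 := by
      rintro rfl
      exact huW W.zero_mem
    rw [h4, finrank_bot, finrank_span_singleton hu0'] at h3
    rw [finrank_top]
    omega

end

end CfsgLib.OM29
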