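import Cfsg.Agent.LibH22NM4
import Cfsg.Agent.LibUn29c
import Cfsg.Agent.LibOM29c

/-! Orthogonal frames: the stabiliser in `Ω` of a decomposition refined by a frame is not maximal (odd characteristic). -/

namespace CfsgLib.H22NM

open scoped MatrixGroups Matrix commutatorElement
open Cfsg Cfsg.Geo

variable {ι : Type} [Fintype ι] [DecidableEq ι] {F : Type*} [Field F] {Q : QuadraticForm F (ι → F)}

theorem polSym (Q : QuadraticForm F (ι → F)) : Sym (QuadraticMap.polar Q) :=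
  ⟨⟨fun x y v => QuadraticMap.polar_add_left Q x y v, fun c x v => by rw [QuadraticMap.polar_smul_left]; rfl,
    fun v x y => QuadraticMap.polar_add_right Q v x y, fun c v x => by rw [QuadraticMap.polar_smul_right]; rfl⟩,
    fun u v => QuadraticMap.polar_comm Q u v⟩

theorem pol_self (Q : QuadraticForm F (ι → F)) (x : ι → F) : QuadraticMap.polar Q x x = 2 * Q x := by
  rw [QuadraticMap.polar_self, two_smul, two_mul]

/-- reflections -/
noncomputable def rf (Q : QuadraticForm F (ι → F)) (a : ι → F) : GL ι F :=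
  CfsgLib.Un29.dil a ((-(Q a)⁻¹) • (polSym Q).fn a)

theorem rf_ok {a : ι → F} (ha : Q a ≠ 0) : 1 + ((-(Q a)⁻¹) • (polSym Q).fn a) a ≠ 0 := by
  have h1 : ((-(Q a)⁻¹) • (polSym Q).fn a) a = -2 := by
    show (-(Q a)⁻¹) * QuadraticMap.polar Q a a = -2
    rw [pol_self]; field_simp
  rw [h1]
  intro h
  have : (1 : F) = 0 := by linear_combination -h
  exact one_ne_zero this

theorem rf_mulVec {a : ι → F} (ha : Q a ≠ 0) (x : ι → F) :
    ((rf Q a : GL ι F) : Matrix ι ι F) *ᵥ x = x - (QuadraticMap.polar Q x a / Q a) • a := by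
  rw [rf, CfsgLib.Un29.dil_mulVec (rf_ok ha)]
  have h1 : ((-(Q a)⁻¹) • (polSym Q).fn a) x = - (QuadraticMap.polar Q x a / Q a) := by
    show (-(Q a)⁻¹) * QuadraticMap.polar Q x a = _
    field_simp
  rw [h1, neg_smul, sub_eq_add_neg]

theorem rf_iso {a : ι → F} (ha : Q a ≠ 0) : rf Q a ∈ isometryGroup F ⇑Q := by
  rw [CfsgLib.OM29.mem_isoQ]
  intro x
  rw [rf_mulVec ha, sub_eq_add_neg, ← neg_smul, QuadraticMap.map_add ⇑Q, QuadraticMap.map_smul, QuadraticMap.polar_smul_right]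
  simp only [smul_eq_mul]
  field_simp
  ring

theorem rf_fix {a : ι → F} (ha : Q a ≠ 0) {x : ι → F} (h : QuadraticMap.polar Q x a = 0) :
    ((rf Q a : GL ι F) : Matrix ι ι F) *ᵥ x = x := by
  rw [rf_mulVec ha, h, zero_div, zero_smul, sub_zero]

theorem rf_sq {a : ι → F} (ha : Q a ≠ 0) : rf Q a * rf Q a = 1 := by
  apply CfsgLib.MaxTv29.gl_ext
  intro x
  rw [Units.val_mul, ← Matrix.mulVec_mulVec, rf_mulVec ha, rf_mulVec ha, Units.val_one, Matrix.one_mulVec, (polSym Q).sub_left, (polSym Q).smul_left, pol_self]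
  have h1 : (QuadraticMap.polar Q x a - QuadraticMap.polar Q x a / Q a * (2 * Q a)) / Q a = -(QuadraticMap.polar Q x a / Q a) := by
    field_simp; ring
  rw [h1, neg_smul, sub_neg_eq_add, sub_add_cancel]

theorem comm_mem_omega {g h : GL ι F} (hg : g ∈ isometryGroup F ⇑Q) (hh : h ∈ isometryGroup F ⇑Q) :
    g * h * g⁻¹ * h⁻¹ ∈ omegaGL ⇑Q := by
  refine ⟨⁅(⟨g, hg⟩ : isometryGroup F ⇑Q), ⟨h, hh⟩⁆, ?_, rfl⟩
  exact Subgroup.commutator_mem_commutator (Subgroup.mem_top _) (Subgroup.mem_top _)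

theorem rr_mem {a b : ι → F} (ha : Q a ≠ 0) (hb : Q b ≠ 0) : rf Q a * rf Q b * rf Q a * rf Q b ∈ omegaGL ⇑Q := by
  have h1 := comm_mem_omega (rf_iso ha) (rf_iso hb)
  rwa [inv_eq_of_mul_eq_one_left (rf_sq ha), inv_eq_of_mul_eq_one_left (rf_sq hb)] at h1

/-- the reflection swapping two orthogonal vectors of the same norm -/
theorem rf_swap (h2 : (2 : F) ≠ 0) {d : F} (hd : d ≠ 0) {e e' : ι → F} (he : Q e = d) (he' : Q e' = d)
    (ho : QuadraticMap.polar Q e e' = 0) : Q (e - e') ≠ 0 ∧ ((rf Q (e - e') : GL ι F) : Matrix ι ι F) *ᵥ e = e' ∧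
      ((rf Q (e - e') : GL ι F) : Matrix ι ι F) *ᵥ e' = e := by
  have hS := polSym Q
  have hQ : Q (e - e') = 2 * d := by
    have h1 := pol_self Q (e - e')
    rw [hS.sub_left, hS.sub_right, hS.sub_right, ho, hS.symm e' e, ho, pol_self, pol_self, he, he'] at h1
    apply mul_left_cancel₀ h2
    linear_combination -h1
  have hne : Q (e - e') ≠ 0 := by rw [hQ]; exact mul_ne_zero h2 hd
  refine ⟨hne, ?_, ?_⟩
  · rw [rf_mulVec hne, hS.sub_right, ho, pol_self, he, hQ, sub_zero, div_self (mul_ne_zero h2 hd), one_smul, sub_sub_cancel]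
  · rw [rf_mulVec hne, hS.sub_right, hS.symm e' e, ho, pol_self, he', hQ, zero_sub, neg_div, div_self (mul_ne_zero h2 hd), neg_smul, one_smul]
    abel

end CfsgLib.H22NM
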