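import Cfsg.Agent.LibH22NM5

/-! The stabiliser in `Ω` of an orthogonal decomposition refined by a frame is not maximal (odd characteristic). -/

namespace CfsgLib.H22NM

open scoped MatrixGroups Matrix commutatorElement
open Cfsg Cfsg.Geo

variable {ι : Type} [Fintype ι] [DecidableEq ι] {F : Type*} [Field F] {Q : QuadraticForm F (ι → F)}

/-- the swap of two frame vectors of different members preserves the frame -/
theorem swap_mem [Fintype F] (h2 : (2 : F) ≠ 0) {t k : ℕ} {D : Fin t → Submodule F (ι → F)}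
    (hD : IsNondegenerateMDecomposition (QuadraticMap.polar Q) k D) {d : F} (hd : d ≠ 0)
    (hdich : ∀ i, ∀ e ∈ D i, ∀ v ∈ D i, Q e = d → Q v = d → QuadraticMap.polar Q v e = 0 ∨ ∃ c : F, v = c • e)
    {i j : Fin t} (hij : i ≠ j) {e e' : ι → F} (he : e ∈ D i) (he' : e' ∈ D j) (qe : Q e = d) (qe' : Q e' = d) :
    rf Q (e - e') ∈ stS {v | (∃ i, v ∈ D i) ∧ Q v = d} := by
  have hS := polSym Q
  have ho : QuadraticMap.polar Q e e' = 0 := hD.orthogonal i j hij e he e' he'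
  obtain ⟨hne, s1, s2⟩ := rf_swap h2 hd qe qe' ho
  apply mem_stS_of_le
  rintro v ⟨⟨l, hl⟩, hv⟩
  refine ⟨?_, by rw [(CfsgLib.OM29.mem_isoQ _).mp (rf_iso hne), hv]⟩
  by_cases hli : l = i
  · rw [hli] at hl
    rcases hdich i e he v hl qe hv with h | ⟨c, rfl⟩
    · refine ⟨i, ?_⟩
      rw [rf_fix hne]; exact hl
      rw [hS.sub_right, h, hD.orthogonal i j hij v hl e' he', sub_zero]
    · refine ⟨j, ?_⟩
      rw [Matrix.mulVec_smul, s1]
      exact (D j).smul_mem _ he'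
  · by_cases hlj : l = j
    · rw [hlj] at hl
      rcases hdich j e' he' v hl qe' hv with h | ⟨c, rfl⟩
      · refine ⟨j, ?_⟩
        rw [rf_fix hne]; exact hl
        rw [hS.sub_right, h, hD.orthogonal j i (Ne.symm hij) v hl e he, sub_zero]
      · refine ⟨i, ?_⟩
        rw [Matrix.mulVec_smul, s2]
        exact (D i).smul_mem _ he
    · refine ⟨l, ?_⟩
      rw [rf_fix hne]; exact hl
      rw [hS.sub_right, hD.orthogonal l i hli v hl e he, hD.orthogonal l j hlj v hl e' he', sub_zero]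

/-- a nonzero vector of a subspace of dimension at least two orthogonal to a given vector -/
theorem exists_orth1 {f : (ι → F) → (ι → F) → F} (h : Sym f) {W : Submodule F (ι → F)} (h3 : 2 ≤ Module.finrank F W) (x : ι → F) :
    ∃ z ∈ W, z ≠ 0 ∧ f z x = 0 := by
  let φ : W →ₗ[F] F := (h.fn x).comp W.subtype
  have h1 : LinearMap.ker φ ≠ ⊥ := by
    apply LinearMap.ker_ne_bot_of_finrank_lt
    rw [Module.finrank_self]
    omega
  obtain ⟨z, hz, hz0⟩ := Submodule.exists_mem_ne_zero_of_ne_bot h1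
  exact ⟨z, z.2, fun h0 => hz0 (Subtype.ext h0), hz⟩

theorem frame_not_max [Fintype F] (h2 : (2 : F) ≠ 0) {t k : ℕ} {D : Fin t → Submodule F (ι → F)}
    (hD : IsNondegenerateMDecomposition (QuadraticMap.polar Q) k D) (hk : 2 ≤ k) (ht : 5 ≤ t) {d : F} (hd : d ≠ 0)
    (hex : ∀ i, ∃ e ∈ D i, Q e = d)
    (hdich : ∀ i, ∀ e ∈ D i, ∀ v ∈ D i, Q e = d → Q v = d → QuadraticMap.polar Q v e = 0 ∨ ∃ c : F, v = c • e) :
    ∃ K : Subgroup (GL ι F), decompositionStabilizer D ⊓ omegaGL ⇑Q < K ∧ K < omegaGL ⇑Q := by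
  classical
  have hS := polSym Q
  let i0 : Fin t := ⟨0, by omega⟩
  let i1 : Fin t := ⟨1, by omega⟩
  let i2 : Fin t := ⟨2, by omega⟩
  let i3 : Fin t := ⟨3, by omega⟩
  let i4 : Fin t := ⟨4, by omega⟩
  have h01 : i0 ≠ i1 := by simp [i0, i1]
  have h02 : i0 ≠ i2 := by simp [i0, i2]
  have h03 : i0 ≠ i3 := by simp [i0, i3]
  have h04 : i0 ≠ i4 := by simp [i0, i4]
  have h12 : i1 ≠ i2 := by simp [i1, i2]
  have h13 : i1 ≠ i3 := by simp [i1, i3]
  have h14 : i1 ≠ i4 := by simp [i1, i4]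
  have h23 : i2 ≠ i3 := by simp [i2, i3]
  have h24 : i2 ≠ i4 := by simp [i2, i4]
  have h34 : i3 ≠ i4 := by simp [i3, i4]
  obtain ⟨e0, m0, q0⟩ := hex i0
  obtain ⟨e1, m1, q1⟩ := hex i1
  obtain ⟨e2, m2, q2⟩ := hex i2
  obtain ⟨e3, m3, q3⟩ := hex i3
  obtain ⟨e4, m4, q4⟩ := hex i4
  have nz : ∀ e : ι → F, Q e = d → e ≠ 0 := by
    intro e he h0
    rw [h0, QuadraticMap.map_zero] at he
    exact hd he.symm
  have ho : ∀ {i j : Fin t} {a b : ι → F}, i ≠ j → a ∈ D i → b ∈ D j → QuadraticMap.polar Q a b = 0 :=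
    fun hij ha hb => hD.orthogonal _ _ hij _ ha _ hb
  obtain ⟨n01, s01, s10⟩ := rf_swap h2 hd q0 q1 (ho h01 m0 m1)
  obtain ⟨n12, s12, s21⟩ := rf_swap h2 hd q1 q2 (ho h12 m1 m2)
  obtain ⟨n34, s34, s43⟩ := rf_swap h2 hd q3 q4 (ho h34 m3 m4)
  have hst := strict_of (H := decompositionStabilizer D) (I := omegaGL ⇑Q)
    (K := stS {v | (∃ i, v ∈ D i) ∧ Q v = d}) ?_ ?_ ?_
  · exact ⟨_, hst.1, hst.2⟩
  · refine frame_le (P := fun v => Q v = d) ?_
    intro g hg v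
    show Q _ = d ↔ Q v = d
    rw [(CfsgLib.OM29.mem_isoQ g).mp (CfsgLib.OM29.omegaGL_le_iso hg)]
  · refine ⟨rf Q (e0 - e1) * rf Q (e1 - e2) * rf Q (e0 - e1) * rf Q (e1 - e2), ?_, rr_mem n01 n12, ?_⟩
    · have k1 := swap_mem h2 hD hd hdich h01 m0 m1 q0 q1
      have k2 := swap_mem h2 hD hd hdich h12 m1 m2 q1 q2
      exact Subgroup.mul_mem _ (Subgroup.mul_mem _ (Subgroup.mul_mem _ k1 k2) k1) k2
    · rintro ⟨τ, hτ⟩
      -- a vector of `D i0` orthogonal to `e0` is fixed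
      obtain ⟨y, hy, hy0, hye⟩ := exists_orth1 hS (show 2 ≤ Module.finrank F (D i0) by rw [hD.decomp.finrank_eq]; exact hk) e0
      have hfix : ((rf Q (e0 - e1) * rf Q (e1 - e2) * rf Q (e0 - e1) * rf Q (e1 - e2) : GL ι F) : Matrix ι ι F) *ᵥ y = y := by
        have f1 : ((rf Q (e0 - e1) : GL ι F) : Matrix ι ι F) *ᵥ y = y :=
          rf_fix n01 (by rw [hS.sub_right, hye, ho h01 hy m1, sub_zero])
        have f2 : ((rf Q (e1 - e2) : GL ι F) : Matrix ι ι F) *ᵥ y = y :=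
          rf_fix n12 (by rw [hS.sub_right, ho h01 hy m1, ho h02 hy m2, sub_zero])
        simp only [Units.val_mul, ← Matrix.mulVec_mulVec, f1, f2]
      have hmv : ((rf Q (e0 - e1) * rf Q (e1 - e2) * rf Q (e0 - e1) * rf Q (e1 - e2) : GL ι F) : Matrix ι ι F) *ᵥ e0 = e2 := by
        have f1 : ((rf Q (e1 - e2) : GL ι F) : Matrix ι ι F) *ᵥ e0 = e0 :=
          rf_fix n12 (by rw [hS.sub_right, ho h01 m0 m1, ho h02 m0 m2, sub_zero])
        have f2 : ((rf Q (e0 - e1) : GL ι F) : Matrix ι ι F) *ᵥ e2 = e2 :=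
          rf_fix n01 (by rw [hS.sub_right, ho (Ne.symm h02) m2 m0, ho (Ne.symm h12) m2 m1, sub_zero])
        simp only [Units.val_mul, ← Matrix.mulVec_mulVec, f1, s01, s12, f2]
      have t1 := map_mem hτ m0
      rw [hmv] at t1
      have t2 := map_mem hτ hy
      rw [hfix] at t2
      have t3 : τ i0 = i2 := by
        by_contra hne
        exact nz e2 q2 (eq_zero_of_mem hD hne t1 m2)
      rw [t3] at t2
      exact hy0 (eq_zero_of_mem hD h02 hy t2)
  · -- the second witness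
    have qa : Q (e0 + e1 + e2 + e3) = 4 * d := by
      have h1 := pol_self Q (e0 + e1 + e2 + e3)
      simp only [hS.add_left, hS.add_right, pol_self, q0, q1, q2, q3, ho h01 m0 m1, ho h02 m0 m2, ho h03 m0 m3, ho h12 m1 m2, ho h13 m1 m3,
        ho h23 m2 m3, ho (Ne.symm h01) m1 m0, ho (Ne.symm h02) m2 m0, ho (Ne.symm h03) m3 m0, ho (Ne.symm h12) m2 m1,
        ho (Ne.symm h13) m3 m1, ho (Ne.symm h23) m3 m2] at h1
      apply mul_left_cancel₀ h2
      linear_combination -h1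
    have h4 : (4 : F) ≠ 0 := by
      have : (4 : F) = 2 * 2 := by norm_num
      rw [this]; exact mul_ne_zero h2 h2
    have na : Q (e0 + e1 + e2 + e3) ≠ 0 := by rw [qa]; exact mul_ne_zero h4 hd
    refine ⟨rf Q (e0 + e1 + e2 + e3) * rf Q (e3 - e4) * rf Q (e0 + e1 + e2 + e3) * rf Q (e3 - e4), rr_mem na n34, ?_⟩
    intro hcon
    obtain ⟨⟨l, hl⟩, _⟩ := (mem_stS.mp hcon e0).mpr ⟨⟨i0, m0⟩, q0⟩
    have f1 : ((rf Q (e3 - e4) : GL ι F) : Matrix ι ι F) *ᵥ e0 = e0 :=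
      rf_fix n34 (by rw [hS.sub_right, ho h03 m0 m3, ho h04 m0 m4, sub_zero])
    have f1' : ((rf Q (e3 - e4) : GL ι F) : Matrix ι ι F) *ᵥ e1 = e1 :=
      rf_fix n34 (by rw [hS.sub_right, ho h13 m1 m3, ho h14 m1 m4, sub_zero])
    have f1'' : ((rf Q (e3 - e4) : GL ι F) : Matrix ι ι F) *ᵥ e2 = e2 :=
      rf_fix n34 (by rw [hS.sub_right, ho h23 m2 m3, ho h24 m2 m4, sub_zero])
    have f2 : ∀ x, ((rf Q (e0 + e1 + e2 + e3) : GL ι F) : Matrix ι ι F) *ᵥ x =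
        x - (QuadraticMap.polar Q x (e0 + e1 + e2 + e3) / (4 * d)) • (e0 + e1 + e2 + e3) := by
      intro x; rw [rf_mulVec na, qa]
    simp only [Units.val_mul, ← Matrix.mulVec_mulVec, f1] at hl
    rw [f2 e0] at hl
    have b0 : QuadraticMap.polar Q e0 (e0 + e1 + e2 + e3) = 2 * d := by
      simp only [hS.add_right, pol_self, q0, ho h01 m0 m1, ho h02 m0 m2, ho h03 m0 m3]; ring
    rw [b0, Matrix.mulVec_sub, Matrix.mulVec_smul, Matrix.mulVec_add, Matrix.mulVec_add, Matrix.mulVec_add, f1, f1', f1'', s34, f2] at hl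
    have b1 : QuadraticMap.polar Q (e0 - (2 * d / (4 * d)) • (e0 + e1 + e2 + e4)) (e0 + e1 + e2 + e3) = - d := by
      simp only [hS.sub_left, hS.smul_left, hS.add_left, hS.add_right, pol_self, q0, q1, q2, q3, ho h01 m0 m1, ho h02 m0 m2, ho h03 m0 m3,
        ho h12 m1 m2, ho h13 m1 m3, ho h23 m2 m3, ho (Ne.symm h01) m1 m0, ho (Ne.symm h02) m2 m0, ho (Ne.symm h03) m3 m0, ho (Ne.symm h12) m2 m1,
        ho (Ne.symm h13) m3 m1, ho (Ne.symm h23) m3 m2, ho (Ne.symm h04) m4 m0, ho (Ne.symm h14) m4 m1, ho (Ne.symm h24) m4 m2, ho (Ne.symm h34) m4 m3]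
      field_simp
      ring
    rw [b1] at hl
    have key : e0 - (2 * d / (4 * d)) • (e0 + e1 + e2 + e4) - (-d / (4 * d)) • (e0 + e1 + e2 + e3) =
        (-(4 : F)⁻¹) • e1 + (-(4 : F)⁻¹) • e2 + ((3 / 4 : F) • e0 + (4 : F)⁻¹ • e3 + (-(2 : F)⁻¹) • e4) := by
      have r1 : 2 * d / (4 * d) = (2 : F)⁻¹ := by field_simp; norm_num
      have r2 : -d / (4 * d) = -(4 : F)⁻¹ := by field_simp
      rw [r1, r2]
      have r3 : (2 : F)⁻¹ = 2 * (4 : F)⁻¹ := by
        field_simp; norm_num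
      rw [r3]
      have r4 : (3 / 4 : F) = 1 - (4 : F)⁻¹ := by field_simp; norm_num
      rw [r4]
      module
    rw [key] at hl
    have n4 : (-(4 : F)⁻¹) ≠ 0 := neg_ne_zero.mpr (inv_ne_zero h4)
    exact not_mem_D hS.add_left hD h12 ((D i1).smul_mem _ m1) ((D i2).smul_mem _ m2)
      (smul_ne_zero n4 (nz _ q1)) (smul_ne_zero n4 (nz _ q2))
      (fun y hy => by simp only [hS.add_left, hS.smul_left, ho h01 m0 hy, ho (Ne.symm h13) m3 hy, ho (Ne.symm h14) m4 hy]; ring)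
      (fun y hy => by simp only [hS.add_left, hS.smul_left, ho h02 m0 hy, ho (Ne.symm h23) m3 hy, ho (Ne.symm h24) m4 hy]; ring) l hl

end CfsgLib.H22NM
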