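import Cfsg.Agent.LibH22NM6

/-! Non-maximality of decomposition stabilisers in `Ω` over `F_3`: planes and 3-spaces. -/

namespace CfsgLib.H22NM

open scoped MatrixGroups Matrix commutatorElement
open Cfsg Cfsg.Geo

variable {ι : Type} [Fintype ι] [DecidableEq ι] {F : Type*} [Field F] {Q : QuadraticForm F (ι → F)}

theorem span_two {f : (ι → F) → (ι → F) → F} (h : Sym f) {W : Submodule F (ι → F)} (h3 : Module.finrank F W = 2) {x z : ι → F}
    (hx : x ∈ W) (hz : z ∈ W) (hxx : f x x ≠ 0) (hz0 : z ≠ 0) (hzx : f z x = 0) : ∀ w ∈ W, ∃ a b : F, w = a • x + b • z := by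
  have hli : LinearIndependent F ![x, z] := by
    rw [LinearIndependent.pair_iff]
    intro s t hst
    have e1 := congrArg (fun t => f t x) hst
    simp only [h.add_left, h.smul_left, hzx, mul_zero, add_zero, h.zero_left] at e1
    have g0 : s = 0 := (mul_eq_zero.mp e1).resolve_right hxx
    rw [g0, zero_smul, zero_add] at hst
    exact ⟨g0, (smul_eq_zero.mp hst).resolve_right hz0⟩
  have hsp : Submodule.span F (Set.range ![x, z]) = W := by
    apply Submodule.eq_of_le_of_finrank_eq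
    · rw [Submodule.span_le]
      rintro _ ⟨i, rfl⟩
      fin_cases i
      · exact hx
      · exact hz
    · rw [finrank_span_eq_card hli, h3]; simp
  intro w hw
  rw [← hsp] at hw
  simp only [Matrix.range_cons, Matrix.range_empty, Set.union_empty, Set.singleton_union] at hw
  obtain ⟨s, t, rfl⟩ := Submodule.mem_span_pair.mp hw
  exact ⟨s, t, rfl⟩

/-- in a plane: an orthogonal vector with its norm -/
theorem plane_basis {f : (ι → F) → (ι → F) → F} (h : Sym f) {W : Submodule F (ι → F)} (hW : IsNondegenerateOn f W)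
    (h3 : Module.finrank F W = 2) {x : ι → F} (hx : x ∈ W) (hxx : f x x ≠ 0) :
    ∃ z ∈ W, z ≠ 0 ∧ f z x = 0 ∧ f z z ≠ 0 ∧ ∀ w ∈ W, ∃ a b : F, w = a • x + b • z := by
  obtain ⟨z, hz, hz0, hzx⟩ := exists_orth1 h (by rw [h3]) x
  have hsp := span_two h h3 hx hz hxx hz0 hzx
  refine ⟨z, hz, hz0, hzx, ?_, hsp⟩
  intro hzz
  obtain ⟨⟨w, hw, hwz⟩, _⟩ := hW z hz hz0
  obtain ⟨a, b, rfl⟩ := hsp w hw
  apply hwz
  rw [h.add_left, h.smul_left, h.smul_left, h.symm x z, hzx, hzz]
  ring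

theorem dich_plane3 (h2 : (2 : F) ≠ 0) (hc : ∀ x : F, x = 0 ∨ x = 1 ∨ x = -1) {W : Submodule F (ι → F)}
    (hW : IsNondegenerateOn (QuadraticMap.polar Q) W) (h3 : Module.finrank F W = 2) {d : F} (hd : d ≠ 0) {e v : ι → F} (he : e ∈ W)
    (hv : v ∈ W) (qe : Q e = d) (qv : Q v = d) : QuadraticMap.polar Q v e = 0 ∨ ∃ c : F, v = c • e := by
  have hS := polSym Q
  obtain ⟨z, hz, hz0, hze, hzz, hsp⟩ := plane_basis hS hW h3 he (by rw [pol_self, qe]; exact mul_ne_zero h2 hd)
  obtain ⟨a, b, rfl⟩ := hsp v hv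
  rcases hc b with hb | hb | hb
  · right; exact ⟨a, by rw [hb]; simp⟩
  all_goals
    left
    have e1 := pol_self Q (a • e + b • z)
    rw [qv, hS.add_left, hS.add_right, hS.add_right, hS.smul_left, hS.smul_left, hS.smul_left, hS.smul_left, hS.smul_r, hS.smul_r, hS.smul_r, hS.smul_r,
      pol_self, qe, hze, hS.symm e z, hze, hb] at e1
    rw [hS.add_left, hS.smul_left, hS.smul_left, hze, pol_self, qe]
    rcases hc a with ha | ha | ha
    · rw [ha]; ring
    · exfalso
      rw [ha] at e1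
      apply hzz
      linear_combination e1
    · exfalso
      rw [ha] at e1
      apply hzz
      linear_combination e1

theorem iso_polar {W W' : Submodule F (ι → F)} (e : W ≃ₗ[F] W') (he : ∀ w : W, Q ((e w : W') : ι → F) = Q (w : ι → F)) (x y : W) :
    QuadraticMap.polar Q ((e x : W') : ι → F) ((e y : W') : ι → F) = QuadraticMap.polar Q (x : ι → F) (y : ι → F) := by
  unfold QuadraticMap.polar
  have h1 : ((e x : W') : ι → F) + ((e y : W') : ι → F) = ((e (x + y) : W') : ι → F) := by rw [map_add]; rfl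
  rw [h1, he, he, he]
  rfl

/-- planes over `F_3` -/
theorem planes3 [Fintype F] (hF : Fintype.card F = 3) {t : ℕ} {D : Fin t → Submodule F (ι → F)}
    (hD : IsOrthogonalMDecomposition ⇑Q 2 D) (ht : 5 ≤ t) :
    ∃ K : Subgroup (GL ι F), decompositionStabilizer D ⊓ omegaGL ⇑Q < K ∧ K < omegaGL ⇑Q := by
  obtain ⟨h3, h2, hc⟩ := three_arith hF
  have hS := polSym Q
  let i0 : Fin t := ⟨0, by omega⟩
  obtain ⟨x0, hx0, hx00⟩ := Submodule.exists_mem_ne_zero_of_ne_bot (p := D i0) (by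
    intro hb
    have := hD.decomp.decomp.finrank_eq i0
    rw [hb, finrank_bot] at this; omega)
  obtain ⟨⟨s, hs, hsx⟩, _⟩ := hD.decomp.nondegenerate i0 x0 hx0 hx00
  obtain ⟨x, hx, hxx⟩ := aniso hS h2 hs hx0 hsx
  have hQx : Q x ≠ 0 := by
    intro h
    rw [pol_self, h, mul_zero] at hxx
    exact hxx rfl
  apply frame_not_max h2 hD.decomp (le_refl 2) ht hQx
  · intro i
    obtain ⟨e, he⟩ := hD.isometric i0 i
    exact ⟨e ⟨x, hx⟩, (e ⟨x, hx⟩).2, he ⟨x, hx⟩⟩
  · intro i e he v hv qe qv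
    exact dich_plane3 h2 hc (hD.decomp.nondegenerate i) (hD.decomp.decomp.finrank_eq i) hQx he hv qe qv

/-- 3-spaces over `F_3` -/
theorem spaces3 [Fintype F] (hF : Fintype.card F = 3) {t : ℕ} {D : Fin t → Submodule F (ι → F)}
    (hD : IsOrthogonalMDecomposition ⇑Q 3 D) (ht : 5 ≤ t) :
    ∃ K : Subgroup (GL ι F), decompositionStabilizer D ⊓ omegaGL ⇑Q < K ∧ K < omegaGL ⇑Q := by
  obtain ⟨h3, h2, hc⟩ := three_arith hF
  have hS := polSym Q
  let i0 : Fin t := ⟨0, by omega⟩
  obtain ⟨δ, u, v, w, hfr⟩ := exists_frame3 hS h3 h2 hc (hD.decomp.nondegenerate i0) (hD.decomp.decomp.finrank_eq i0)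
  have hδ : δ = 2 * (δ / 2) := by field_simp
  have hd0 : δ / 2 ≠ 0 := div_ne_zero hfr.d0 h2
  have hall : ∀ i, ∃ u v w, Frame3 (QuadraticMap.polar Q) (D i) δ u v w := by
    intro i
    obtain ⟨e, he⟩ := hD.isometric i0 i
    refine ⟨e ⟨u, hfr.hu⟩, e ⟨v, hfr.hv⟩, e ⟨w, hfr.hw⟩, Frame3.mk' hS h3 hc (hD.decomp.decomp.finrank_eq i) hfr.d0 (Subtype.mem _)
      (Subtype.mem _) (Subtype.mem _) ?_ ?_ ?_ ?_ ?_ ?_⟩
    · rw [iso_polar e he]; exact hfr.uu
    · rw [iso_polar e he]; exact hfr.vv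
    · rw [iso_polar e he]; exact hfr.ww
    · rw [iso_polar e he]; exact hfr.uv
    · rw [iso_polar e he]; exact hfr.wu
    · rw [iso_polar e he]; exact hfr.wv
  have hQ : ∀ x, QuadraticMap.polar Q x x = δ → Q x = δ / 2 := by
    intro x hx
    rw [pol_self] at hx
    rw [← hx]; field_simp
  have hQ' : ∀ x, Q x = δ / 2 → QuadraticMap.polar Q x x = δ := by
    intro x hx
    rw [pol_self, hx, ← hδ]
  apply frame_not_max h2 hD.decomp (show 2 ≤ 3 by omega) ht hd0
  · intro i
    obtain ⟨u, v, w, h⟩ := hall i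
    exact ⟨u, h.hu, hQ _ h.uu⟩
  · intro i e he x hx qe qx
    obtain ⟨u, v, w, h⟩ := hall i
    have vu : QuadraticMap.polar Q v u = 0 := by rw [hS.symm]; exact h.uv
    have uw : QuadraticMap.polar Q u w = 0 := by rw [hS.symm]; exact h.wu
    have vw : QuadraticMap.polar Q v w = 0 := by rw [hS.symm]; exact h.wv
    have same : ∀ (y : ι → F) (a b : F), e = a • y → x = b • y → ∃ c : F, x = c • e := by
      intro y a b h1 h2'
      have ha : a ≠ 0 := by
        rintro rfl
        rw [h1, zero_smul, QuadraticMap.map_zero] at qe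
        exact hd0 qe.symm
      exact ⟨b * a⁻¹, by rw [h1, h2', smul_smul, inv_mul_cancel_right₀ ha]⟩
    have diff : ∀ (y z : ι → F) (a b : F), e = a • y → x = b • z → QuadraticMap.polar Q z y = 0 → QuadraticMap.polar Q x e = 0 := by
      intro y z a b h1 h2' h3'
      rw [h1, h2', hS.smul_left, hS.smul_r, h3']; ring
    obtain ⟨a, ha | ha | ha⟩ := h.all e he (hQ' e qe) <;> obtain ⟨b, hb | hb | hb⟩ := h.all x hx (hQ' x qx)
    · exact Or.inr (same u a b ha hb)
    · exact Or.inl (diff u v a b ha hb vu)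
    · exact Or.inl (diff u w a b ha hb h.wu)
    · exact Or.inl (diff v u a b ha hb h.uv)
    · exact Or.inr (same v a b ha hb)
    · exact Or.inl (diff v w a b ha hb h.wv)
    · exact Or.inl (diff w u a b ha hb uw)
    · exact Or.inl (diff w v a b ha hb vw)
    · exact Or.inr (same w a b ha hb)

end CfsgLib.H22NM
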