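import Cfsg.Agent.LibH22NM7

/-! Non-maximality of the tensor stabilisers `O_3(3) ⊗ O_n(3)` in `Ω`. -/

namespace CfsgLib.H22NM

open scoped MatrixGroups Matrix commutatorElement
open Cfsg Cfsg.Geo CfsgLib.OmH12

variable {ι : Type} [Fintype ι] [DecidableEq ι] {F : Type*} [Field F] {Q : QuadraticForm F (ι → F)}

/-- an anisotropic vector orthogonal to two given orthogonal anisotropic vectors -/
theorem exists_aniso_orth {n : ℕ} (hn : 3 ≤ n) (h2 : (2 : F) ≠ 0) {f : (Fin n → F) → (Fin n → F) → F} (h : Sym f)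
    (hnd : IsNondegenerateForm f) {x y : Fin n → F} (hxx : f x x ≠ 0) (hyy : f y y ≠ 0) (hxy : f x y = 0) :
    ∃ z, f z z ≠ 0 ∧ f z x = 0 ∧ f z y = 0 := by
  obtain ⟨z0, _, hz0, hzx, hzy⟩ := exists_orth2 h (W := ⊤) (by rw [finrank_top]; simpa using hn) x y
  obtain ⟨⟨s, hs⟩, _⟩ := hnd z0 hz0
  have hyx : f y x = 0 := by rw [h.symm]; exact hxy
  have hxz : f x z0 = 0 := by rw [h.symm]; exact hzx
  have hyz : f y z0 = 0 := by rw [h.symm]; exact hzy
  let X : Submodule F (Fin n → F) := LinearMap.ker (h.fn x) ⊓ LinearMap.ker (h.fn y)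
  have hz0X : z0 ∈ X := ⟨hzx, hzy⟩
  have hsX : s - (f s x / f x x) • x - (f s y / f y y) • y ∈ X := by
    refine ⟨?_, ?_⟩
    · show f _ x = 0
      rw [h.sub_left, h.sub_left, h.smul_left, h.smul_left, hyx, div_mul_cancel₀ _ hxx]; ring
    · show f _ y = 0
      rw [h.sub_left, h.sub_left, h.smul_left, h.smul_left, hxy, div_mul_cancel₀ _ hyy]; ring
  obtain ⟨z, hzX, hzz⟩ := aniso h h2 hsX hz0X (by
    rw [h.sub_left, h.sub_left, h.smul_left, h.smul_left, hxz, hyz]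
    simpa using hs)
  exact ⟨z, hzz, hzX.1, hzX.2⟩

/-- two orthogonal vectors of the same nonzero norm over `F_3` -/
theorem exists_pair {n : ℕ} (hn : 3 ≤ n) (h2 : (2 : F) ≠ 0) (hc : ∀ x : F, x = 0 ∨ x = 1 ∨ x = -1)
    {f : (Fin n → F) → (Fin n → F) → F} (h : Sym f) (hnd : IsNondegenerateForm f) :
    ∃ (d : F) (x y : Fin n → F), d ≠ 0 ∧ f x x = d ∧ f y y = d ∧ f x y = 0 := by
  obtain ⟨x0, hx0⟩ : ∃ x : Fin n → F, x ≠ 0 := ⟨Pi.single ⟨0, by omega⟩ 1, by simp⟩
  obtain ⟨⟨s, hs⟩, _⟩ := hnd x0 hx0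
  obtain ⟨x, _, hxx⟩ := aniso h h2 (X := ⊤) trivial trivial hs
  -- second vector
  obtain ⟨y0, _, hy0, hyx0, _⟩ := exists_orth2 h (W := ⊤) (by rw [finrank_top]; simpa using hn) x x
  obtain ⟨⟨t, ht⟩, _⟩ := hnd y0 hy0
  let X : Submodule F (Fin n → F) := LinearMap.ker (h.fn x)
  have hsX : t - (f t x / f x x) • x ∈ X := by
    show f _ x = 0
    rw [h.sub_left, h.smul_left, div_mul_cancel₀ _ hxx, sub_self]
  obtain ⟨y, hyX, hyy⟩ := aniso h h2 hsX (show y0 ∈ X from hyx0) (by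
    rw [h.sub_left, h.smul_left, h.symm x y0, hyx0, mul_zero, sub_zero]; exact ht)
  have hyx : f y x = 0 := hyX
  have hxy : f x y = 0 := by rw [h.symm]; exact hyx
  obtain ⟨z, hzz, hzx, hzy⟩ := exists_aniso_orth hn h2 h hnd hxx hyy hxy
  have hpm : ∀ a : F, a ≠ 0 → a = 1 ∨ a = -1 := fun a ha => (hc a).resolve_left ha
  have n1 : (1 : F) ≠ 0 := one_ne_zero
  have n2 : (-1 : F) ≠ 0 := neg_ne_zero.mpr one_ne_zero
  rcases hpm _ hxx with h1 | h1 <;> rcases hpm _ hyy with h2' | h2' <;> rcases hpm _ hzz with h3' | h3'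
  · exact ⟨1, x, y, n1, h1, h2', hxy⟩
  · exact ⟨1, x, y, n1, h1, h2', hxy⟩
  · exact ⟨1, z, x, n1, h3', h1, hzx⟩
  · exact ⟨-1, z, y, n2, h3', h2', hzy⟩
  · exact ⟨1, z, y, n1, h3', h2', hzy⟩
  · exact ⟨-1, z, x, n2, h3', h1, hzx⟩
  · exact ⟨-1, x, y, n2, h1, h2', hxy⟩
  · exact ⟨-1, x, y, n2, h1, h2', hxy⟩

theorem sesq_sym {f : (ι → F) → (ι → F) → F} (hf : IsSymmetricForm f) : Sym f :=
  ⟨⟨hf.bilinear.add_left, hf.bilinear.smul_left, hf.bilinear.add_right, hf.bilinear.smul_right⟩, hf.symm⟩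

/-- equal nonzero pure tensors have proportional second factors -/
theorem tv_span {n₁ n₂ : ℕ} {e : ι ≃ Fin n₁ × Fin n₂} {P : GL ι F} {x x' : Fin n₁ → F} {y y' : Fin n₂ → F}
    (h : tv e P x y = tv e P x' y') (hx : x' ≠ 0) : ∃ c : F, y' = c • y := by
  have h1 : (fun i => x (e i).1 * y (e i).2) = (fun i => x' (e i).1 * y' (e i).2) := by
    have h6 : ((P⁻¹ : GL ι F) : Matrix ι ι F) *ᵥ (tv e P x y) = ((P⁻¹ : GL ι F) : Matrix ι ι F) *ᵥ (tv e P x' y') := by rw [h]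
    unfold tv at h6
    rwa [Matrix.mulVec_mulVec, Matrix.mulVec_mulVec, ← Units.val_mul, inv_mul_cancel, Units.val_one, Matrix.one_mulVec,
      Matrix.one_mulVec] at h6
  obtain ⟨a, ha⟩ := Function.ne_iff.1 hx
  have ha' : x' a ≠ 0 := ha
  refine ⟨x a / x' a, ?_⟩
  ext b
  have := congrFun h1 (e.symm (a, b))
  simp only [Equiv.apply_symm_apply] at this
  rw [Pi.smul_apply, smul_eq_mul]
  field_simp
  linear_combination -this

theorem tensor3 [Fintype F] (hF : Fintype.card F = 3) {n₂ : ℕ} (hn : 3 ≤ n₂) (e : ι ≃ Fin 3 × Fin n₂) (P : GL ι F)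
    (f₁ : (Fin 3 → F) → (Fin 3 → F) → F) (f₂ : (Fin n₂ → F) → (Fin n₂ → F) → F) (hf₁ : IsSymmetricForm f₁) (hf₂ : IsSymmetricForm f₂)
    (hT : IsTensorFormStructure id (QuadraticMap.polar ⇑Q) f₁ f₂ e P) :
    ∃ K : Subgroup (GL ι F), tensorProductSubgroup 3 n₂ e P ⊓ omegaGL ⇑Q < K ∧ K < omegaGL ⇑Q := by
  classical
  obtain ⟨h3, h2, hc3⟩ := three_arith hF
  have hS := polSym Q
  have hs1 := sesq_sym hf₁
  have hs2 := sesq_sym hf₂
  have hnd : IsNondegenerateOn f₁ (⊤ : Submodule F (Fin 3 → F)) := by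
    intro w _ hw
    obtain ⟨⟨x, hx⟩, y, hy⟩ := hf₁.nondegenerate w hw
    exact ⟨⟨x, trivial, hx⟩, y, trivial, hy⟩
  have h3r : Module.finrank F (⊤ : Submodule F (Fin 3 → F)) = 3 := by rw [finrank_top]; simp
  obtain ⟨δ, u, v, w, hfr⟩ := exists_frame3 hs1 h3 h2 hc3 hnd h3r
  obtain ⟨c, hc, hform⟩ := tv_form hs1.toSesq hs2.toSesq hT
  obtain ⟨d, w0, w1, hd, hw0, hw1, hw01⟩ := exists_pair hn h2 hc3 hs2 hf₂.nondegenerate
  obtain ⟨z, hzz, hz0, hz1⟩ := exists_aniso_orth hn h2 hs2 hf₂.nondegenerate (by rw [hw0]; exact hd) (by rw [hw1]; exact hd) hw01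
  have vu : f₁ v u = 0 := by rw [hs1.symm]; exact hfr.uv
  have uw : f₁ u w = 0 := by rw [hs1.symm]; exact hfr.wu
  have vw : f₁ v w = 0 := by rw [hs1.symm]; exact hfr.wv
  have hw10 : f₂ w1 w0 = 0 := by rw [hs2.symm]; exact hw01
  have h0z : f₂ w0 z = 0 := by rw [hs2.symm]; exact hz0
  have h1z : f₂ w1 z = 0 := by rw [hs2.symm]; exact hz1
  have hu0 : u ≠ 0 := by
    intro h0
    have := hfr.uu
    rw [h0, hs1.zero_left] at this
    exact hfr.d0 this.symm
  have hv0 : v ≠ 0 := by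
    intro h0
    have := hfr.vv
    rw [h0, hs1.zero_left] at this
    exact hfr.d0 this.symm
  -- norms of the basic tensors
  have hk : c * (δ * d) ≠ 0 := mul_ne_zero hc (mul_ne_zero hfr.d0 hd)
  have qk : ∀ x : Fin 3 → F, f₁ x x = δ → ∀ y : Fin n₂ → F, f₂ y y = d → Q (tv e P x y) = c * (δ * d) / 2 := by
    intro x hx y hy
    have := pol_self Q (tv e P x y)
    rw [hform, hx, hy] at this
    rw [this]; field_simp
  have hk2 : c * (δ * d) / 2 ≠ 0 := div_ne_zero hk h2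
  have o1 : QuadraticMap.polar Q (tv e P u w0) (tv e P u w1) = 0 := by rw [hform, hw01]; ring
  have o2 : QuadraticMap.polar Q (tv e P u w0) (tv e P v w0) = 0 := by rw [hform, hfr.uv]; ring
  have o3 : QuadraticMap.polar Q (tv e P v w0) (tv e P w w0) = 0 := by rw [hform, vw]; ring
  obtain ⟨n1, s1, s1'⟩ := rf_swap h2 hk2 (qk u hfr.uu w0 hw0) (qk u hfr.uu w1 hw1) o1
  obtain ⟨n2, s2, s2'⟩ := rf_swap h2 hk2 (qk u hfr.uu w0 hw0) (qk v hfr.vv w0 hw0) o2
  obtain ⟨n3, s3, s3'⟩ := rf_swap h2 hk2 (qk v hfr.vv w0 hw0) (qk w hfr.ww w0 hw0) o3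
  have n0 : Q (tv e P u w0) ≠ 0 := by rw [qk u hfr.uu w0 hw0]; exact hk2
  have hst := strict_of (H := tensorProductSubgroup 3 n₂ e P) (I := omegaGL ⇑Q)
    (K := stS {x | ∃ y, x = tv e P u y ∨ x = tv e P v y ∨ x = tv e P w y}) ?_ ?_ ?_
  · exact ⟨_, hst.1, hst.2⟩
  · rintro g ⟨hg, hgi⟩
    have hgi' := CfsgLib.OM29.omegaGL_le_iso hgi
    obtain ⟨A, B, l, hAB, hl, hA, hB⟩ := tp_sim hc hform ⟨u, u, by rw [hfr.uu]; exact hfr.d0⟩ ⟨w0, w0, by rw [hw0]; exact hd⟩ hg
      (fun x y => CfsgLib.OM29.isoQ_polar hgi' x y)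
    have hl1 : l = 1 := by
      have hl' : l ≠ -1 := hfr.sim hs1 h2 hc3 h3r (x := (A : Matrix (Fin 3) (Fin 3) F) *ᵥ u) (y := (A : Matrix (Fin 3) (Fin 3) F) *ᵥ v) (z := (A : Matrix (Fin 3) (Fin 3) F) *ᵥ w)
        trivial trivial trivial (by rw [hA, hfr.uu]) (by rw [hA, hfr.vv]) (by rw [hA, hfr.ww]) (by rw [hA, hfr.uv, mul_zero])
        (by rw [hA, uw, mul_zero]) (by rw [hA, vw, mul_zero])
      rcases hc3 l with h | h | h
      · exact absurd h hl
      · exact h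
      · exact absurd h hl'
    apply mem_stS_of_le
    have hgen : ∀ x, f₁ x x = δ → ∀ y, ∃ y', (g : Matrix _ _ F) *ᵥ tv e P x y = tv e P u y' ∨
        (g : Matrix _ _ F) *ᵥ tv e P x y = tv e P v y' ∨ (g : Matrix _ _ F) *ᵥ tv e P x y = tv e P w y' := by
      intro x hx y
      rw [hAB]
      obtain ⟨b, hb | hb | hb⟩ := hfr.all ((A : Matrix (Fin 3) (Fin 3) F) *ᵥ x) trivial (by rw [hA, hl1, one_mul, hx])
      · refine ⟨b • ((B : Matrix (Fin n₂) (Fin n₂) F) *ᵥ y), Or.inl ?_⟩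
        rw [hb, tv_smul_left, tv_smul_right]
      · refine ⟨b • ((B : Matrix (Fin n₂) (Fin n₂) F) *ᵥ y), Or.inr (Or.inl ?_)⟩
        rw [hb, tv_smul_left, tv_smul_right]
      · refine ⟨b • ((B : Matrix (Fin n₂) (Fin n₂) F) *ᵥ y), Or.inr (Or.inr ?_)⟩
        rw [hb, tv_smul_left, tv_smul_right]
    rintro x ⟨y, rfl | rfl | rfl⟩
    · exact hgen u hfr.uu y
    · exact hgen v hfr.vv y
    · exact hgen w hfr.ww y
  · -- `-1` on a plane of `u ⊗ W`
    have hblk : ∀ y : Fin n₂ → F, Q (tv e P u y) ≠ 0 → rf Q (tv e P u y) ∈ stS {x | ∃ y, x = tv e P u y ∨ x = tv e P v y ∨ x = tv e P w y} := by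
      intro y hy
      apply mem_stS_of_le
      rintro x ⟨y', rfl | rfl | rfl⟩
      · refine ⟨y' - (QuadraticMap.polar Q (tv e P u y') (tv e P u y) / Q (tv e P u y)) • y, Or.inl ?_⟩
        rw [rf_mulVec hy, sub_eq_add_neg, sub_eq_add_neg, tv_add_right, ← neg_smul, ← neg_smul, tv_smul_right]
      · refine ⟨y', Or.inr (Or.inl ?_)⟩
        rw [rf_fix hy]
        rw [hform, vu]; ring
      · refine ⟨y', Or.inr (Or.inr ?_)⟩
        rw [rf_fix hy]
        rw [hform, hfr.wu]; ring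
    have hsub : tv e P u w0 - tv e P u w1 = tv e P u (w0 - w1) := by
      rw [sub_eq_add_neg, sub_eq_add_neg, tv_add_right]
      congr 1
      have := tv_smul_right e P (-1 : F) u w1
      rw [neg_one_smul, neg_one_smul] at this
      exact this.symm
    refine ⟨rf Q (tv e P u w0) * rf Q (tv e P u w0 - tv e P u w1) * rf Q (tv e P u w0) * rf Q (tv e P u w0 - tv e P u w1), ?_, rr_mem n0 n1, ?_⟩
    · have k1 := hblk w0 n0
      have k2 := hblk (w0 - w1) (by rw [← hsub]; exact n1)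
      rw [← hsub] at k2
      exact Subgroup.mul_mem _ (Subgroup.mul_mem _ (Subgroup.mul_mem _ k1 k2) k1) k2
    · intro hcon
      obtain ⟨A, B, hAB⟩ := tp_act hcon
      have a0 : ((rf Q (tv e P u w0) : GL ι F) : Matrix ι ι F) *ᵥ (tv e P u w0) = - tv e P u w0 := by
        rw [rf_mulVec n0, pol_self, mul_div_assoc, div_self n0, mul_one, two_smul]; abel
      have a1 : ((rf Q (tv e P u w0) : GL ι F) : Matrix ι ι F) *ᵥ (tv e P u w1) = tv e P u w1 :=
        rf_fix n0 (by rw [hform, hw10]; ring)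
      have az : ((rf Q (tv e P u w0) : GL ι F) : Matrix ι ι F) *ᵥ (tv e P u z) = tv e P u z :=
        rf_fix n0 (by rw [hform, hz0]; ring)
      have bz : ((rf Q (tv e P u w0 - tv e P u w1) : GL ι F) : Matrix ι ι F) *ᵥ (tv e P u z) = tv e P u z :=
        rf_fix n1 (by rw [hS.sub_right, hform, hform, hz0, hz1]; ring)
      have av : ∀ y, ((rf Q (tv e P u w0) : GL ι F) : Matrix ι ι F) *ᵥ (tv e P v y) = tv e P v y := fun y =>
        rf_fix n0 (by rw [hform, vu]; ring)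
      have bv : ∀ y, ((rf Q (tv e P u w0 - tv e P u w1) : GL ι F) : Matrix ι ι F) *ᵥ (tv e P v y) = tv e P v y := fun y =>
        rf_fix n1 (by rw [hS.sub_right, hform, hform, vu]; ring)
      -- the second factor is scalar
      have hBv : ∀ y, ∃ b : F, (B : Matrix (Fin n₂) (Fin n₂) F) *ᵥ y = b • y := by
        intro y
        have h5 := hAB v y
        simp only [Units.val_mul, ← Matrix.mulVec_mulVec, av, bv] at h5
        by_cases hy : y = 0
        · exact ⟨0, by rw [hy, Matrix.mulVec_zero, smul_zero]⟩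
        · have hA0 : (A : Matrix (Fin 3) (Fin 3) F) *ᵥ v ≠ 0 := by
            intro h0
            rw [h0, tv_zero_left] at h5
            exact hy (tv_zero_iff e P h5 hv0)
          exact tv_span h5 hA0
      -- but the element is not scalar on `u ⊗ W`
      have h6 := hAB u (w0 + z)
      rw [tv_add_right] at h6
      simp only [Units.val_mul, ← Matrix.mulVec_mulVec, Matrix.mulVec_add, Matrix.mulVec_neg, s1, s1', a0, a1, az, bz] at h6
      have h7 : tv e P u (z - w0) = tv e P ((A : Matrix (Fin 3) (Fin 3) F) *ᵥ u) ((B : Matrix (Fin n₂) (Fin n₂) F) *ᵥ (w0 + z)) := by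
        rw [Matrix.mulVec_add, ← h6, sub_eq_add_neg, tv_add_right]
        have := tv_smul_right e P (-1 : F) u w0
        rw [neg_one_smul, neg_one_smul] at this
        rw [this]; abel
      obtain ⟨b, hb⟩ := hBv (w0 + z)
      rw [hb] at h7
      have h8 : ∃ c' : F, z - w0 = c' • (w0 + z) := by
        obtain ⟨c', hc'⟩ := tv_span h7.symm hu0
        exact ⟨c' * b, by rw [hc', smul_smul]⟩
      obtain ⟨c', hc'⟩ := h8
      have e1 := congrArg (fun t => f₂ t w0) hc'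
      have e2 := congrArg (fun t => f₂ t z) hc'
      simp only [hs2.sub_left, hs2.smul_left, hs2.add_left, hw0, hz0, h0z] at e1 e2
      have e3 : c' = -1 := by
        apply mul_right_cancel₀ hd
        linear_combination -e1
      have e4 : c' = 1 := by
        apply mul_right_cancel₀ hzz
        linear_combination -e2
      rw [e3] at e4
      apply h2
      linear_combination -e4
  · -- three-cycle mixing the blocks
    refine ⟨rf Q (tv e P u w0 - tv e P v w0) * rf Q (tv e P v w0 - tv e P w w0) * rf Q (tv e P u w0 - tv e P v w0) *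
      rf Q (tv e P v w0 - tv e P w w0), rr_mem n2 n3, ?_⟩
    intro hcon
    have f1 : ((rf Q (tv e P v w0 - tv e P w w0) : GL ι F) : Matrix ι ι F) *ᵥ (tv e P u w0) = tv e P u w0 :=
      rf_fix n3 (by rw [hS.sub_right, hform, hform, hfr.uv, uw]; ring)
    have f2 : ((rf Q (tv e P u w0 - tv e P v w0) : GL ι F) : Matrix ι ι F) *ᵥ (tv e P w w0) = tv e P w w0 :=
      rf_fix n2 (by rw [hS.sub_right, hform, hform, hfr.wu, hfr.wv]; ring)
    have f3 : ((rf Q (tv e P v w0 - tv e P w w0) : GL ι F) : Matrix ι ι F) *ᵥ (tv e P u z) = tv e P u z :=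
      rf_fix n3 (by rw [hS.sub_right, hform, hform, hfr.uv, uw]; ring)
    have f4 : ((rf Q (tv e P u w0 - tv e P v w0) : GL ι F) : Matrix ι ι F) *ᵥ (tv e P u z) = tv e P u z :=
      rf_fix n2 (by rw [hS.sub_right, hform, hform, hz0]; ring)
    obtain ⟨y, h5⟩ := (mem_stS.mp hcon (tv e P u (w0 + z))).mpr ⟨_, Or.inl rfl⟩
    rw [tv_add_right] at h5
    simp only [Units.val_mul, ← Matrix.mulVec_mulVec, Matrix.mulVec_add, f1, s2, s3, f2, f3, f4] at h5
    rcases h5 with h5 | h5 | h5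
    · have h6 := congrArg (fun x => QuadraticMap.polar Q x (tv e P w w0)) h5
      simp only [hS.add_left, hform, hfr.ww, hw0, uw] at h6
      apply hk
      linear_combination h6
    · have h6 := congrArg (fun x => QuadraticMap.polar Q x (tv e P w w0)) h5
      simp only [hS.add_left, hform, hfr.ww, hw0, uw, vw] at h6
      apply hk
      linear_combination h6
    · have h6 := congrArg (fun x => QuadraticMap.polar Q x (tv e P u z)) h5
      simp only [hS.add_left, hform, hfr.uu, hfr.wu] at h6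
      apply mul_ne_zero hc (mul_ne_zero hfr.d0 hzz)
      linear_combination h6

end CfsgLib.H22NM
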