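import Cfsg.Agent.LibH22NM8
import Cfsg.Agent.LibOM29c

/-! Non-maximality of decomposition stabilisers in `Ω`: plus-type planes over `F_2`, `F_4`, `F_5`, plus-type 4-spaces over `F_2`. -/

namespace CfsgLib.H22NM

open scoped MatrixGroups Matrix commutatorElement
open Cfsg Cfsg.Geo CfsgLib.OM29

variable {ι : Type} [Fintype ι] [DecidableEq ι] {F : Type*} [Field F] {Q : QuadraticForm F (ι → F)}

theorem em_mem [Fintype F] (hQ : (QuadraticMap.polarBilin Q).Nondegenerate) (h5 : 5 ≤ Module.finrank F (ι → F)) {v w : ι → F} (hv : Q v = 0)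
    (hw : QuadraticMap.polar Q v w = 0) : EM Q v w ∈ omegaGL ⇑Q := by
  obtain ⟨e, f, e', f', u, hs⟩ := Cfsg.Agent.H22.exists_HS hQ h5
  exact EM_omega hQ hs h5 hv hw

/-- hyperbolic pair structure -/
structure Hyp (Q : QuadraticForm F (ι → F)) (W : Submodule F (ι → F)) (e f : ι → F) : Prop where
  me : e ∈ W
  mf : f ∈ W
  qe : Q e = 0
  qf : Q f = 0
  ef : QuadraticMap.polar Q e f = 1

theorem Hyp.fe {W : Submodule F (ι → F)} {e f : ι → F} (h : Hyp Q W e f) : QuadraticMap.polar Q f e = 1 := by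
  rw [(polSym Q).symm]; exact h.ef

theorem q_add (Q : QuadraticForm F (ι → F)) (x y : ι → F) : Q (x + y) = Q x + Q y + QuadraticMap.polar Q x y := by
  unfold QuadraticMap.polar; ring

theorem Hyp.q_comb {W : Submodule F (ι → F)} {e f : ι → F} (h : Hyp Q W e f) (a b : F) : Q (a • e + b • f) = a * b := by
  rw [q_add, QuadraticMap.map_smul, QuadraticMap.map_smul, h.qe, h.qf, (polSym Q).smul_left, (polSym Q).smul_r, h.ef]
  simp

theorem Hyp.q_z {W : Submodule F (ι → F)} {e f : ι → F} (h : Hyp Q W e f) : Q (e + f) = 1 := by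
  rw [q_add, h.qe, h.qf, h.ef]; ring

theorem Hyp.e0 {W : Submodule F (ι → F)} {e f : ι → F} (h : Hyp Q W e f) : e ≠ 0 := by
  intro h0
  have := h.ef
  rw [h0, (polSym Q).zero_left] at this
  exact zero_ne_one this

theorem Hyp.z0 {W : Submodule F (ι → F)} {e f : ι → F} (h : Hyp Q W e f) : e + f ≠ 0 := by
  intro h0
  have := h.q_z
  rw [h0, QuadraticMap.map_zero] at this
  exact zero_ne_one this

/-- a singular vector of a nondegenerate space lies in a hyperbolic pair -/
theorem exists_hyp {W : Submodule F (ι → F)} (hW : IsNondegenerateOn (QuadraticMap.polar Q) W) {e : ι → F} (he : e ∈ W) (he0 : e ≠ 0)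
    (hq : Q e = 0) : ∃ f, Hyp Q W e f := by
  have hS := polSym Q
  obtain ⟨_, s, hs, hse⟩ := hW e he he0
  set c := QuadraticMap.polar Q e s with hc
  refine ⟨c⁻¹ • s - (c⁻¹ * c⁻¹ * Q s) • e, he, ?_, hq, ?_, ?_⟩
  · exact W.sub_mem (W.smul_mem _ hs) (W.smul_mem _ he)
  · have hse' : QuadraticMap.polar Q s e = c := by rw [hS.symm]
    rw [sub_eq_add_neg, q_add, QuadraticMap.map_neg, QuadraticMap.map_smul, QuadraticMap.map_smul, hq, ← neg_smul, hS.smul_left, hS.smul_r,
      hse', smul_eq_mul, smul_zero]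
    field_simp
    ring
  · rw [hS.sub_right, hS.smul_r, hS.smul_r, pol_self, hq, ← hc, inv_mul_cancel₀ hse]; ring

theorem span_hyp {W : Submodule F (ι → F)} (h2 : Module.finrank F W = 2) {e f : ι → F} (h : Hyp Q W e f) :
    ∀ w ∈ W, ∃ a b : F, w = a • e + b • f := by
  have hS := polSym Q
  have hli : LinearIndependent F ![e, f] := by
    rw [LinearIndependent.pair_iff]
    intro s t hst
    have e1 := congrArg (fun t => QuadraticMap.polar Q t f) hst
    have e2 := congrArg (fun t => QuadraticMap.polar Q t e) hst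
    simp only [hS.add_left, hS.smul_left, hS.zero_left, pol_self, h.qe, h.qf, h.ef, h.fe, mul_zero, mul_one, add_zero, zero_add] at e1 e2
    exact ⟨e1, e2⟩
  have hsp : Submodule.span F (Set.range ![e, f]) = W := by
    apply Submodule.eq_of_le_of_finrank_eq
    · rw [Submodule.span_le]
      rintro _ ⟨i, rfl⟩
      fin_cases i
      · exact h.me
      · exact h.mf
    · rw [finrank_span_eq_card hli, h2]; simp
  intro w hw
  rw [← hsp] at hw
  simp only [Matrix.range_cons, Matrix.range_empty, Set.union_empty, Set.singleton_union] at hw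
  obtain ⟨s, t, rfl⟩ := Submodule.mem_span_pair.mp hw
  exact ⟨s, t, rfl⟩

theorem plus_plane {W : Submodule F (ι → F)} (hW : IsNondegenerateOn (QuadraticMap.polar Q) W) (h2 : Module.finrank F W = 2)
    (hp : IsPlusTypeOn ⇑Q W) : ∃ e f, Hyp Q W e f := by
  obtain ⟨U, hU, hs, h1⟩ := hp
  obtain ⟨e, he, he0⟩ := Submodule.exists_mem_ne_zero_of_ne_bot (p := U) (by
    intro hb; rw [hb, finrank_bot, h2] at h1; omega)
  obtain ⟨f, hf⟩ := exists_hyp hW (hU he) he0 (hs e he)
  exact ⟨e, f, hf⟩

/-- two orthogonal hyperbolic pairs spanning a four-dimensional space -/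
structure Hyp4 (Q : QuadraticForm F (ι → F)) (W : Submodule F (ι → F)) (e f e' f' : ι → F) : Prop where
  h : Hyp Q W e f
  h' : Hyp Q W e' f'
  ee' : QuadraticMap.polar Q e e' = 0
  ef' : QuadraticMap.polar Q e f' = 0
  fe' : QuadraticMap.polar Q f e' = 0
  ff' : QuadraticMap.polar Q f f' = 0

theorem plus_four {W : Submodule F (ι → F)} (hW : IsNondegenerateOn (QuadraticMap.polar Q) W) (h4 : Module.finrank F W = 4)
    (hp : IsPlusTypeOn ⇑Q W) : ∃ e f e' f', Hyp4 Q W e f e' f' := by
  have hS := polSym Q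
  obtain ⟨U, hU, hs, h1⟩ := hp
  obtain ⟨e, he, he0⟩ := Submodule.exists_mem_ne_zero_of_ne_bot (p := U) (by
    intro hb; rw [hb, finrank_bot, h4] at h1; omega)
  obtain ⟨f, hf⟩ := exists_hyp hW (hU he) he0 (hs e he)
  obtain ⟨e', he', he'0, he'f⟩ := exists_orth1 hS (W := U) (by omega) f
  have ee' : QuadraticMap.polar Q e e' = 0 := by
    have h5 := q_add Q e e'
    rw [hs _ (U.add_mem he he'), hs _ he, hs _ he'] at h5
    linear_combination -h5
  have e'e : QuadraticMap.polar Q e' e = 0 := by rw [hS.symm]; exact ee'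
  have fe' : QuadraticMap.polar Q f e' = 0 := by rw [hS.symm]; exact he'f
  obtain ⟨s0, hs0⟩ := exists_hyp hW (hU he') he'0 (hs e' he')
  obtain ⟨s, hsd⟩ : ∃ s, s = s0 - (QuadraticMap.polar Q s0 f) • e - (QuadraticMap.polar Q s0 e) • f := ⟨_, rfl⟩
  have hsW : s ∈ W := by
    rw [hsd]; exact W.sub_mem (W.sub_mem hs0.mf (W.smul_mem _ hf.me)) (W.smul_mem _ hf.mf)
  have se : QuadraticMap.polar Q s e = 0 := by
    rw [hsd, hS.sub_left, hS.sub_left, hS.smul_left, hS.smul_left, hf.fe, pol_self, hf.qe]; ring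
  have sf : QuadraticMap.polar Q s f = 0 := by
    rw [hsd, hS.sub_left, hS.sub_left, hS.smul_left, hS.smul_left, hf.ef, pol_self, hf.qf]; ring
  have se' : QuadraticMap.polar Q s e' = 1 := by
    rw [hsd, hS.sub_left, hS.sub_left, hS.smul_left, hS.smul_left, hs0.fe, ee', fe']; ring
  have e's : QuadraticMap.polar Q e' s = 1 := by rw [hS.symm]; exact se'
  have es : QuadraticMap.polar Q e s = 0 := by rw [hS.symm]; exact se
  have fs : QuadraticMap.polar Q f s = 0 := by rw [hS.symm]; exact sf
  refine ⟨e, f, e', s - (Q s) • e', hf, ⟨hU he', W.sub_mem hsW (W.smul_mem _ (hU he')), hs e' he', ?_, ?_⟩, ee', ?_, fe', ?_⟩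
  · rw [sub_eq_add_neg, q_add, QuadraticMap.map_neg, QuadraticMap.map_smul, hs e' he', ← neg_smul, hS.smul_r, se', smul_zero]; ring
  · rw [hS.sub_right, hS.smul_r, e's, pol_self, hs e' he']; ring
  · rw [hS.sub_right, hS.smul_r, es, ee']; ring
  · rw [hS.sub_right, hS.smul_r, fs, fe']; ring

theorem span_hyp4 {W : Submodule F (ι → F)} (h4 : Module.finrank F W = 4) {e f e' f' : ι → F} (h : Hyp4 Q W e f e' f') :
    ∀ w ∈ W, ∃ a b c d : F, w = a • e + b • f + c • e' + d • f' := by
  have hS := polSym Q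
  have e'e : QuadraticMap.polar Q e' e = 0 := by rw [hS.symm]; exact h.ee'
  have f'e : QuadraticMap.polar Q f' e = 0 := by rw [hS.symm]; exact h.ef'
  have e'f : QuadraticMap.polar Q e' f = 0 := by rw [hS.symm]; exact h.fe'
  have f'f : QuadraticMap.polar Q f' f = 0 := by rw [hS.symm]; exact h.ff'
  have hli : LinearIndependent F ![e, f, e', f'] := by
    rw [Fintype.linearIndependent_iff]
    intro g hg
    rw [Fin.sum_univ_four] at hg
    simp only [Matrix.cons_val] at hg
    have e1 := congrArg (fun t => QuadraticMap.polar Q t f) hg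
    have e2 := congrArg (fun t => QuadraticMap.polar Q t e) hg
    have e3 := congrArg (fun t => QuadraticMap.polar Q t f') hg
    have e4 := congrArg (fun t => QuadraticMap.polar Q t e') hg
    simp only [hS.add_left, hS.smul_left, hS.zero_left, pol_self, h.h.qe, h.h.qf, h.h.ef, h.h.fe, h.h'.qe, h.h'.qf, h.h'.ef, h.h'.fe,
      h.ee', h.ef', h.fe', h.ff', e'e, f'e, e'f, f'f, mul_zero, mul_one, add_zero, zero_add] at e1 e2 e3 e4
    intro i
    fin_cases i
    · exact e1
    · exact e2
    · exact e3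
    · exact e4
  have hsp : Submodule.span F (Set.range ![e, f, e', f']) = W := by
    apply Submodule.eq_of_le_of_finrank_eq
    · rw [Submodule.span_le]
      rintro _ ⟨i, rfl⟩
      fin_cases i
      · exact h.h.me
      · exact h.h.mf
      · exact h.h'.me
      · exact h.h'.mf
    · rw [finrank_span_eq_card hli, h4]; simp
  intro w hw
  rw [← hsp, Submodule.mem_span_range_iff_exists_fun] at hw
  obtain ⟨c, hc⟩ := hw
  rw [Fin.sum_univ_four] at hc
  exact ⟨c 0, c 1, c 2, c 3, hc.symm⟩

/-- plus-type planes over `F_5` -/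
theorem planes5 [Fintype F] (hF : Fintype.card F = 5) {t : ℕ} {D : Fin t → Submodule F (ι → F)}
    (hD : IsOrthogonalMDecomposition ⇑Q 2 D) (hp : ∀ i, IsPlusTypeOn ⇑Q (D i)) (ht : 5 ≤ t) :
    ∃ K : Subgroup (GL ι F), decompositionStabilizer D ⊓ omegaGL ⇑Q < K ∧ K < omegaGL ⇑Q := by
  have hS := polSym Q
  have h5 : (5 : F) = 0 := by
    have : ((Fintype.card F : ℕ) : F) = 0 := Nat.cast_card_eq_zero F
    rw [hF] at this
    exact_mod_cast this
  have h2 : (2 : F) ≠ 0 := by
    intro h2
    apply one_ne_zero (α := F)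
    linear_combination h5 - 2 * h2
  have hh : ∀ i, ∃ e f, Hyp Q (D i) e f := fun i =>
    plus_plane (hD.decomp.nondegenerate i) (hD.decomp.decomp.finrank_eq i) (hp i)
  apply frame_not_max h2 hD.decomp (le_refl 2) ht (d := 1) one_ne_zero
  · intro i
    obtain ⟨e, f, h⟩ := hh i
    exact ⟨e + f, (D i).add_mem h.me h.mf, h.q_z⟩
  · intro i x hx y hy qx qy
    obtain ⟨e, f, h⟩ := hh i
    obtain ⟨a, b, rfl⟩ := span_hyp (hD.decomp.decomp.finrank_eq i) h x hx
    obtain ⟨a', b', rfl⟩ := span_hyp (hD.decomp.decomp.finrank_eq i) h y hy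
    rw [h.q_comb] at qx qy
    have hr0 : a * b' ≠ 0 := by
      intro h0
      apply one_ne_zero (α := F)
      linear_combination (a' * b) * h0 - a' * b' * qx - qy
    have hr := FiniteField.pow_card_sub_one_eq_one (a * b') hr0
    rw [hF] at hr
    have hr' : ((a * b') ^ 2 - 1) * ((a * b') ^ 2 + 1) = 0 := by
      have : (a * b') ^ (5 - 1) = (a * b') ^ 4 := rfl
      rw [this] at hr
      linear_combination hr
    rcases mul_eq_zero.mp hr' with h1 | h1
    · right
      have h1' : (a * b' - 1) * (a * b' + 1) = 0 := by linear_combination h1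
      rcases mul_eq_zero.mp h1' with h3 | h3
      · refine ⟨1, ?_⟩
        have e1 : a = a' := by linear_combination a' * h3 - a * qy
        have e2 : b = b' := by linear_combination b' * qx - b * h3
        rw [e1, e2, one_smul]
      · refine ⟨-1, ?_⟩
        have e1 : a = -a' := by linear_combination a' * h3 - a * qy
        have e2 : b = -b' := by linear_combination -b' * qx + b * h3
        rw [e1, e2]
        simp
    · left
      simp only [hS.add_left, hS.add_right, hS.smul_left, hS.smul_r, pol_self, h.qe, h.qf, h.ef, h.fe]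
      have h3 : (a * b') * (a' * b + a * b') = 0 := by linear_combination h1 + a' * b' * qx + qy
      have h4 := (mul_eq_zero.mp h3).resolve_left hr0
      linear_combination h4

end CfsgLib.H22NM
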