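import Cfsg.Agent.LibH22Lin
import Cfsg.Agent.LibMaxTv29b
import Cfsg.Prelude.Def_ClassicalGeometry

set_option autoImplicit false

/-! Parabolic subgroups of `GL_n` (seat helper22). -/

namespace Cfsg.Agent.H22

open Matrix CfsgLib.MaxTv29 Cfsg

section
variable {F : Type*} [Field F]

/-- the coordinate subspace -/
def coordSub (F : Type*) [Field F] (n k : ℕ) : Submodule F (Fin n → F) where
  carrier := {v : Fin n → F | ∀ i : Fin n, k ≤ (i : ℕ) → v i = 0}
  add_mem' := by
    intro a b ha hb i hi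
    rw [Pi.add_apply, ha i hi, hb i hi, add_zero]
  zero_mem' := fun i hi => rfl
  smul_mem' := by
    intro c a ha i hi
    rw [Pi.smul_apply, ha i hi, smul_zero]

lemma coe_coordSub (n k : ℕ) : (coordSub F n k : Set (Fin n → F)) = {v : Fin n → F | ∀ i : Fin n, k ≤ (i : ℕ) → v i = 0} := rfl

lemma mem_coordSub {n k : ℕ} {v : Fin n → F} : v ∈ coordSub F n k ↔ ∀ i : Fin n, k ≤ (i : ℕ) → v i = 0 := Iff.rfl

lemma stab_iff {n k : ℕ} (g : Matrix.GeneralLinearGroup (Fin n) F) : g ∈ Geo.subspaceStabilizer (coordSub F n k) ↔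
    ∀ i j : Fin n, k ≤ (i : ℕ) → (j : ℕ) < k → (g : Matrix (Fin n) (Fin n) F) i j = 0 := by
  rw [mem_stab]
  constructor
  · intro h i j hi hj
    have h1 := h (Pi.single j 1) (by
      rw [mem_coordSub]
      intro l hl
      rw [Pi.single_eq_of_ne]
      rintro rfl
      omega) i hi
    rw [Matrix.mulVec_single_one] at h1
    exact h1
  · intro h w hw i hi
    rw [Matrix.mulVec, dotProduct]
    apply Finset.sum_eq_zero
    intro j _
    by_cases hj : (j : ℕ) < k
    · rw [h i j hi hj, zero_mul]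
    · rw [mem_coordSub] at hw
      rw [hw j (by omega), mul_zero]

/-- a subspace stabilised by the stabiliser of `U` is `0`, `V` or `U` -/
theorem stab_le_stab {n : ℕ} {U W : Submodule F (Fin n → F)} (h : Geo.subspaceStabilizer U ≤ Geo.subspaceStabilizer W) :
    W = ⊥ ∨ W = ⊤ ∨ W = U := by
  classical
  by_cases hW : W = ⊥
  · exact Or.inl hW
  right
  by_cases hWU : W ≤ U
  · right
    apply le_antisymm hWU
    intro u hu
    by_contra huW
    obtain ⟨w, hw, hw0⟩ := Submodule.exists_mem_ne_zero_of_ne_bot hW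
    have hwu : w ∉ Submodule.span F {u} := by
      intro hmem
      obtain ⟨c, hc⟩ := Submodule.mem_span_singleton.1 hmem
      have hc0 : c ≠ 0 := by rintro rfl; rw [zero_smul] at hc; exact hw0 hc.symm
      rw [← hc] at hw
      exact huW ((W.smul_mem_iff hc0).1 hw)
    obtain ⟨φ, hφ1, hφ2⟩ := exists_functional _ w hwu
    have hφu : φ u = 0 := hφ2 u (Submodule.mem_span_singleton_self u)
    have h1 := h (tv_mem_stab_of_mem U u φ hφu hu)
    rw [mem_stab] at h1
    have h2 := h1 w hw
    rw [tv_mulVec, hφ1, one_smul] at h2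
    exact huW ((W.add_mem_iff_right hw).1 h2)
  · left
    obtain ⟨w, hw, hwU⟩ : ∃ w ∈ W, w ∉ U := by
      by_contra hcon; push Not at hcon; exact hWU hcon
    obtain ⟨φ, hφ1, hφ2⟩ := exists_functional _ w hwU
    rw [eq_top_iff]
    intro x _
    have hker : ∀ y, φ y = 0 → y ∈ W := by
      intro y hy
      have h1 := h (tv_mem_stab_of_le_ker U y φ hy hφ2)
      rw [mem_stab] at h1
      have h2 := h1 w hw
      rw [tv_mulVec, hφ1, one_smul] at h2
      exact (W.add_mem_iff_right hw).1 h2
    have h3 : x = (x - φ x • w) + φ x • w := by abel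
    rw [h3]
    refine W.add_mem (hker _ ?_) (W.smul_mem _ hw)
    rw [map_sub, map_smul, hφ1, smul_eq_mul, mul_one, sub_self]

end

end Cfsg.Agent.H22
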