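import Cfsg.Agent.LibH22Perm

set_option autoImplicit false

/-! Permutation modules and orthogonal groups (seat helper22). -/

namespace Cfsg.Agent.H22

open Module

section
variable {F : Type*} [Field F] {N : ℕ}

/-- second elementary symmetric function -/
def qN (v : Fin N → F) : F := ∑ i, ∑ j, if i < j then v i * v j else 0

lemma qN_eq (v : Fin N → F) : qN v = ∑ z ∈ (Finset.univ : Finset (Fin N)).sym2 with ¬ z.IsDiag, (Sym2.lift ⟨fun i j => v i * v j, fun i j => mul_comm _ _⟩ : Sym2 (Fin N) → F) z := by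
  rw [Finset.sum_sym2_filter_not_isDiag]
  unfold qN
  rw [← Finset.sum_product', ← Finset.sum_filter]
  apply Finset.sum_congr
  · ext p
    simp only [Finset.mem_filter, Finset.mem_product, Finset.mem_univ, true_and, Finset.mem_offDiag]
    constructor
    · intro h; exact ⟨h.ne, h⟩
    · intro h; exact h.2
  · intro p _; rfl

lemma qN_perm (v : Fin N → F) (π : Equiv.Perm (Fin N)) : qN (fun i => v (π i)) = qN v := by
  rw [qN_eq, qN_eq]
  refine Finset.sum_nbij' (Sym2.map π) (Sym2.map π.symm) ?_ ?_ ?_ ?_ ?_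
  · intro z
    simp only [Finset.mem_filter, Finset.mem_sym2_iff, Finset.mem_univ, implies_true, true_and]
    intro h h'
    apply h
    revert h h'
    refine Sym2.inductionOn z fun x y => ?_
    intro _ h'
    rw [Sym2.map_mk, Sym2.isDiag_iff_proj_eq] at h'
    exact Sym2.mk_isDiag_iff.2 (π.injective h')
  · intro z
    simp only [Finset.mem_filter, Finset.mem_sym2_iff, Finset.mem_univ, implies_true, true_and]
    intro h h'
    apply h
    revert h h'
    refine Sym2.inductionOn z fun x y => ?_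
    intro _ h'
    rw [Sym2.map_mk, Sym2.isDiag_iff_proj_eq] at h'
    exact Sym2.mk_isDiag_iff.2 (π.symm.injective h')
  · intro z _
    rw [Sym2.map_map]
    simp
  · intro z _
    rw [Sym2.map_map]
    simp
  · intro z _
    refine Sym2.inductionOn z fun x y => ?_
    rfl

/-- polarisation -/
lemma polar_perm {ι : Type} [Fintype ι] {a : Fin N} (Q : QuadraticForm F (ι → F)) (hQ : (QuadraticMap.polarBilin Q).Nondegenerate)
    (L : (ι → F) →ₗ[F] WP F a) (hL : ∀ x, qN (L x).1 = Q x) : Function.Injective L := by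
  rw [← LinearMap.ker_eq_bot, LinearMap.ker_eq_bot']
  intro x hx
  apply hQ.1 x
  intro y
  show QuadraticMap.polar Q x y = 0
  unfold QuadraticMap.polar
  rw [← hL, ← hL, ← hL, map_add, hx, zero_add]
  have : qN ((0 : WP F a)).1 = 0 := by
    unfold qN
    apply Finset.sum_eq_zero; intro i _
    apply Finset.sum_eq_zero; intro j _
    show (if i < j then (0 : F) * 0 else 0) = 0
    split_ifs
    · ring
    · rfl
  rw [this]; ring

/-- the orthogonal representation -/
theorem perm_orth {G : Type*} [Group G] {ι : Type} [Fintype ι] {a : Fin N} (hN : (N : F) = 0) (h5 : 5 ≤ N) (f : G →* Equiv.Perm (Fin N)) (hf : Function.Injective f)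
    (hq : ∀ g (v : WP F a), qN (permE hN a (f g) v).1 = qN v.1)
    (Q : QuadraticForm F (ι → F)) (hQ : (QuadraticMap.polarBilin Q).Nondegenerate)
    (L : (ι → F) →ₗ[F] WP F a) (hL : ∀ x, qN (L x).1 = Q x) (hd : Fintype.card ι + 2 = N) :
    ∃ F' : G →* OGrp Q, Function.Injective F' := by
  classical
  obtain ⟨b, hb⟩ : ∃ b : Fin N, b ≠ a := by
    haveI : Nontrivial (Fin N) := Fin.nontrivial_iff_two_le.2 (by omega)
    exact exists_ne a
  have hr := finrank_WP (F := F) hb
  obtain ⟨φ, hφ⟩ : ∃ φ : (ι → F) ≃ₗ[F] WP F a, ∀ x, φ x = L x := by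
    refine ⟨LinearMap.linearEquivOfInjective L (polar_perm Q hQ L hL) ?_, fun x => rfl⟩
    rw [finrank_fintype_fun_eq_card]
    omega
  obtain ⟨c, hc⟩ : ∃ c : (WP F a ≃ₗ[F] WP F a) →* ((ι → F) ≃ₗ[F] (ι → F)), ∀ g x, φ (c g x) = g (φ x) := by
    refine ⟨{ toFun := fun g => (φ.trans g).trans φ.symm, map_one' := ?_, map_mul' := ?_ }, fun g x => ?_⟩
    · ext1 x
      exact φ.symm_apply_apply x
    · intro g h
      ext1 x
      show φ.symm (g (h (φ x))) = φ.symm (g (φ (φ.symm (h (φ x)))))
      rw [LinearEquiv.apply_symm_apply]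
    · exact LinearEquiv.apply_symm_apply _ _
  refine ⟨((c.comp (permE hN a)).comp f).codRestrict _ ?_, ?_⟩
  · intro g x
    show Q (c (permE hN a (f g)) x) = Q x
    rw [← hL, ← hφ, hc, hq, hφ, hL]
  · intro g h hgh
    apply hf
    apply permE_injective hN a h5
    have h1 : c (permE hN a (f g)) = c (permE hN a (f h)) := congrArg Subtype.val hgh
    apply LinearEquiv.ext
    intro w
    obtain ⟨x, rfl⟩ := φ.surjective w
    rw [← hc, ← hc, h1]

end

end Cfsg.Agent.H22
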