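import Mathlib
import Cfsg.Agent.LibJor3H13

/-! Existence of unipotent isometries with prescribed Jordan types (seat helper13). -/

namespace CfsgLib.Jor

open Module

section frame
variable (F : Type*) [Field F]

/-- realised by an isometry of a symplectic space -/
def RSp (S : Multiset ℕ) : Prop := ∃ (n : ℕ) (B : LinearMap.BilinForm F (Fin n → F)) (T : (Fin n → F) ≃ₗ[F] (Fin n → F)), B.IsAlt ∧ B.Nondegenerate ∧
  (∀ x y, B (T x) (T y) = B x y) ∧ (∃ M, ((T : (Fin n → F) →ₗ[F] (Fin n → F)) - 1) ^ M = 0) ∧ ∀ k, nk (T : (Fin n → F) →ₗ[F] (Fin n → F)) k = sm S k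

/-- realised by an isometry of a non-degenerate quadratic space -/
def ROr (S : Multiset ℕ) : Prop := ∃ (n : ℕ) (Q : QuadraticForm F (Fin n → F)) (T : (Fin n → F) ≃ₗ[F] (Fin n → F)), (QuadraticMap.polarBilin Q).Nondegenerate ∧
  (∀ x, Q (T x) = Q x) ∧ (∃ M, ((T : (Fin n → F) →ₗ[F] (Fin n → F)) - 1) ^ M = 0) ∧ ∀ k, nk (T : (Fin n → F) →ₗ[F] (Fin n → F)) k = sm S k

variable {F}

theorem ror_of {V : Type*} [AddCommGroup V] [Module F V] [FiniteDimensional F V] {Q : QuadraticForm F V} (hQ : (QuadraticMap.polarBilin Q).Nondegenerate)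
    {T : V ≃ₗ[F] V} (hT : ∀ x, Q (T x) = Q x) {M : ℕ} (hM : ((T : V →ₗ[F] V) - 1) ^ M = 0) {S : Multiset ℕ} (hS : ∀ k, nk (T : V →ₗ[F] V) k = sm S k) : ROr F S := by
  let ψ : V ≃ₗ[F] (Fin (finrank F V) → F) := LinearEquiv.ofFinrankEq _ _ (by rw [Module.finrank_fin_fun])
  let T' : (Fin (finrank F V) → F) ≃ₗ[F] (Fin (finrank F V) → F) := (ψ.symm.trans T).trans ψ
  have hT' : ∀ v, ψ (T v) = T' (ψ v) := by
    intro v
    show _ = ψ (T (ψ.symm (ψ v)))
    rw [LinearEquiv.symm_apply_apply]
  have hnk : ∀ k, nk (T' : (Fin (finrank F V) → F) →ₗ[F] (Fin (finrank F V) → F)) k = nk (T : V →ₗ[F] V) k := fun k => (nk_congr ψ hT' k).symm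
  refine ⟨finrank F V, Q.comp (ψ.symm : (Fin (finrank F V) → F) →ₗ[F] V), T', ?_, ?_, ⟨M, ?_⟩, ?_⟩
  · have hp : ∀ x y, QuadraticMap.polarBilin (Q.comp (ψ.symm : (Fin (finrank F V) → F) →ₗ[F] V)) x y = QuadraticMap.polarBilin Q (ψ.symm x) (ψ.symm y) := by
      intro x y
      rw [QuadraticMap.polarBilin_apply_apply, QuadraticMap.polarBilin_apply_apply]
      unfold QuadraticMap.polar
      rw [QuadraticMap.comp_apply, QuadraticMap.comp_apply, QuadraticMap.comp_apply, map_add]; rfl
    constructor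
    · intro x hx
      have h1 := hQ.1 (ψ.symm x) (fun y => by have := hx (ψ y); rwa [hp, LinearEquiv.symm_apply_apply] at this)
      exact (LinearEquiv.map_eq_zero_iff ψ.symm).1 h1
    · intro x hx
      have h1 := hQ.2 (ψ.symm x) (fun y => by have := hx (ψ y); rwa [hp, LinearEquiv.symm_apply_apply] at this)
      exact (LinearEquiv.map_eq_zero_iff ψ.symm).1 h1
  · intro x
    show Q (ψ.symm (ψ (T (ψ.symm x)))) = Q (ψ.symm x)
    rw [LinearEquiv.symm_apply_apply, hT]
  · apply nil_of_nk
    rw [hnk, nk_of_nil hM, Module.finrank_fin_fun]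
  · intro k; rw [hnk, hS]

theorem rsp_of {V : Type*} [AddCommGroup V] [Module F V] [FiniteDimensional F V] {B : LinearMap.BilinForm F V} (hA : B.IsAlt) (hB : B.Nondegenerate)
    {T : V ≃ₗ[F] V} (hT : ∀ x y, B (T x) (T y) = B x y) {M : ℕ} (hM : ((T : V →ₗ[F] V) - 1) ^ M = 0) {S : Multiset ℕ} (hS : ∀ k, nk (T : V →ₗ[F] V) k = sm S k) : RSp F S := by
  let ψ : V ≃ₗ[F] (Fin (finrank F V) → F) := LinearEquiv.ofFinrankEq _ _ (by rw [Module.finrank_fin_fun])
  let T' : (Fin (finrank F V) → F) ≃ₗ[F] (Fin (finrank F V) → F) := (ψ.symm.trans T).trans ψ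
  have hT' : ∀ v, ψ (T v) = T' (ψ v) := by
    intro v
    show _ = ψ (T (ψ.symm (ψ v)))
    rw [LinearEquiv.symm_apply_apply]
  have hnk : ∀ k, nk (T' : (Fin (finrank F V) → F) →ₗ[F] (Fin (finrank F V) → F)) k = nk (T : V →ₗ[F] V) k := fun k => (nk_congr ψ hT' k).symm
  let B' : LinearMap.BilinForm F (Fin (finrank F V) → F) := B.compl₁₂ (ψ.symm : (Fin (finrank F V) → F) →ₗ[F] V) (ψ.symm : (Fin (finrank F V) → F) →ₗ[F] V)
  have hp : ∀ x y, B' x y = B (ψ.symm x) (ψ.symm y) := fun x y => rfl
  refine ⟨finrank F V, B', T', ?_, ?_, ?_, ⟨M, ?_⟩, ?_⟩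
  · intro x
    exact hA _
  · constructor
    · intro x hx
      have h1 := hB.1 (ψ.symm x) (fun y => by have := hx (ψ y); rwa [hp, LinearEquiv.symm_apply_apply] at this)
      exact (LinearEquiv.map_eq_zero_iff ψ.symm).1 h1
    · intro x hx
      have h1 := hB.2 (ψ.symm x) (fun y => by have := hx (ψ y); rwa [hp, LinearEquiv.symm_apply_apply] at this)
      exact (LinearEquiv.map_eq_zero_iff ψ.symm).1 h1
  · intro x y
    rw [hp, hp]
    show B (ψ.symm (ψ (T (ψ.symm x)))) (ψ.symm (ψ (T (ψ.symm y)))) = _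
    rw [LinearEquiv.symm_apply_apply, LinearEquiv.symm_apply_apply, hT]
  · apply nil_of_nk
    rw [hnk, nk_of_nil hM, Module.finrank_fin_fun]
  · intro k; rw [hnk, hS]

theorem nk_prod {V V' : Type*} [AddCommGroup V] [Module F V] [FiniteDimensional F V] [AddCommGroup V'] [Module F V'] [FiniteDimensional F V'] (T : V ≃ₗ[F] V) (T' : V' ≃ₗ[F] V') (k : ℕ) :
    nk ((T.prodCongr T' : (V × V') ≃ₗ[F] (V × V')) : (V × V') →ₗ[F] (V × V')) k = nk (T : V →ₗ[F] V) k + nk (T' : V' →ₗ[F] V') k := by
  have h : ∀ (k : ℕ) (v : V × V'), ((((T.prodCongr T' : (V × V') ≃ₗ[F] (V × V')) : End F (V × V')) - 1) ^ k) v = ((((T : End F V) - 1) ^ k) v.1, (((T' : End F V') - 1) ^ k) v.2) := by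
    intro k
    induction k with
    | zero => intro v; rfl
    | succ k ih => intro v; rw [pow_succ', Module.End.mul_apply, ih, pow_succ', pow_succ']; rfl
  unfold nk
  let e : LinearMap.ker (((((T.prodCongr T' : (V × V') ≃ₗ[F] (V × V')) : End F (V × V')) - 1) ^ k)) ≃ₗ[F] LinearMap.ker (((T : End F V) - 1) ^ k) × LinearMap.ker (((T' : End F V') - 1) ^ k) :=
    { toFun := fun v => (⟨v.1.1, by have h1 := v.2; rw [LinearMap.mem_ker, h] at h1; exact (Prod.ext_iff.1 h1).1⟩, ⟨v.1.2, by have h1 := v.2; rw [LinearMap.mem_ker, h] at h1; exact (Prod.ext_iff.1 h1).2⟩)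
      invFun := fun v => ⟨(v.1, v.2), by rw [LinearMap.mem_ker, h]; exact Prod.ext v.1.2 v.2.2⟩
      left_inv := fun v => rfl
      right_inv := fun v => rfl
      map_add' := fun u v => rfl
      map_smul' := fun c v => rfl }
  rw [e.finrank_eq, Module.finrank_prod]

theorem sm_add (S S' : Multiset ℕ) (k : ℕ) : sm (S + S') k = sm S k + sm S' k := by
  unfold sm
  rw [Multiset.map_add, Multiset.sum_add]

theorem prod_nil {V V' : Type*} [AddCommGroup V] [Module F V] [FiniteDimensional F V] [AddCommGroup V'] [Module F V'] [FiniteDimensional F V'] {T : V ≃ₗ[F] V} {T' : V' ≃ₗ[F] V'} {M M' : ℕ}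
    (h : ((T : V →ₗ[F] V) - 1) ^ M = 0) (h' : ((T' : V' →ₗ[F] V') - 1) ^ M' = 0) :
    (((T.prodCongr T' : (V × V') ≃ₗ[F] (V × V')) : (V × V') →ₗ[F] (V × V')) - 1) ^ (M + M') = 0 := by
  apply nil_of_nk
  rw [nk_prod, Module.finrank_prod]
  congr 1
  · apply nk_of_nil
    rw [pow_add, h, zero_mul]
  · apply nk_of_nil
    rw [pow_add, h', mul_zero]

theorem ror_add {S S' : Multiset ℕ} (h : ROr F S) (h' : ROr F S') : ROr F (S + S') := by
  obtain ⟨n, Q, T, hQ, hT, ⟨M, hM⟩, hS⟩ := h
  obtain ⟨n', Q', T', hQ', hT', ⟨M', hM'⟩, hS'⟩ := h'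
  refine ror_of (Q := Q.prod Q') (T := T.prodCongr T') ?_ ?_ (prod_nil hM hM') ?_
  · have hp : ∀ x y, QuadraticMap.polarBilin (Q.prod Q') x y = QuadraticMap.polarBilin Q x.1 y.1 + QuadraticMap.polarBilin Q' x.2 y.2 := by
      intro x y
      rw [QuadraticMap.polarBilin_apply_apply, QuadraticMap.polar_prod]; rfl
    constructor
    · intro x hx
      apply Prod.ext
      · apply hQ.1
        intro y
        have h1 := hx (y, 0)
        rw [hp, map_zero, add_zero] at h1
        exact h1
      · apply hQ'.1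
        intro y
        have h1 := hx (0, y)
        rw [hp, map_zero, zero_add] at h1
        exact h1
    · intro x hx
      apply Prod.ext
      · apply hQ.2
        intro y
        have h1 := hx (y, 0)
        rw [hp, map_zero, LinearMap.zero_apply, add_zero] at h1
        exact h1
      · apply hQ'.2
        intro y
        have h1 := hx (0, y)
        rw [hp, map_zero, LinearMap.zero_apply, zero_add] at h1
        exact h1
  · intro x
    rw [QuadraticMap.prod_apply, QuadraticMap.prod_apply]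
    show Q (T x.1) + Q' (T' x.2) = _
    rw [hT, hT']
  · intro k
    rw [nk_prod, sm_add, hS, hS']

theorem rsp_add {S S' : Multiset ℕ} (h : RSp F S) (h' : RSp F S') : RSp F (S + S') := by
  obtain ⟨n, B, T, hA, hB, hT, ⟨M, hM⟩, hS⟩ := h
  obtain ⟨n', B', T', hA', hB', hT', ⟨M', hM'⟩, hS'⟩ := h'
  let C : LinearMap.BilinForm F ((Fin n → F) × (Fin n' → F)) := B.compl₁₂ (LinearMap.fst F _ _) (LinearMap.fst F _ _) + B'.compl₁₂ (LinearMap.snd F _ _) (LinearMap.snd F _ _)
  have hp : ∀ x y, C x y = B x.1 y.1 + B' x.2 y.2 := fun x y => rfl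
  refine rsp_of (B := C) (T := T.prodCongr T') ?_ ?_ ?_ (prod_nil hM hM') ?_
  · intro x
    rw [hp, hA, hA', add_zero]
  · constructor
    · intro x hx
      apply Prod.ext
      · apply hB.1
        intro y
        have h1 := hx (y, 0)
        rw [hp, map_zero, add_zero] at h1
        exact h1
      · apply hB'.1
        intro y
        have h1 := hx (0, y)
        rw [hp, map_zero, zero_add] at h1
        exact h1
    · intro x hx
      apply Prod.ext
      · apply hB.2
        intro y
        have h1 := hx (y, 0)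
        rw [hp, map_zero, LinearMap.zero_apply, add_zero] at h1
        exact h1
      · apply hB'.2
        intro y
        have h1 := hx (0, y)
        rw [hp, map_zero, LinearMap.zero_apply, zero_add] at h1
        exact h1
  · intro x y
    rw [hp, hp]
    show B (T x.1) (T y.1) + B' (T' x.2) (T' y.2) = _
    rw [hT, hT']
  · intro k
    rw [nk_prod, sm_add, hS, hS']

theorem nk_zero_dim (k : ℕ) (T : (Fin 0 → F) →ₗ[F] (Fin 0 → F)) : nk T k = 0 := by
  unfold nk
  have h := Submodule.finrank_le (LinearMap.ker ((T - 1) ^ k))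
  rw [Module.finrank_fin_fun] at h
  omega

theorem ror_zero : ROr F 0 := by
  refine ⟨0, 0, LinearEquiv.refl F _, ?_, fun x => rfl, ⟨1, ?_⟩, fun k => ?_⟩
  · exact ⟨fun x _ => Subsingleton.elim _ _, fun x _ => Subsingleton.elim _ _⟩
  · apply LinearMap.ext; intro v; exact Subsingleton.elim _ _
  · rw [nk_zero_dim]; rfl

theorem rsp_zero : RSp F 0 := by
  refine ⟨0, 0, LinearEquiv.refl F _, fun x => rfl, ?_, fun x y => rfl, ⟨1, ?_⟩, fun k => ?_⟩
  · exact ⟨fun x _ => Subsingleton.elim _ _, fun x _ => Subsingleton.elim _ _⟩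
  · apply LinearMap.ext; intro v; exact Subsingleton.elim _ _
  · rw [nk_zero_dim]; rfl

/-- assembling from blocks -/
theorem build (R : Multiset ℕ → Prop) (P : ℕ → Prop) (h0 : R 0) (hadd : ∀ S S', R S → R S' → R (S + S')) (h1 : ∀ a, 0 < a → P a → R {a})
    (h2 : ∀ a, 0 < a → R ({a} + {a})) (S : Multiset ℕ) (hS : ∀ a ∈ S, 0 < a) (he : ∀ a, ¬ P a → Even (S.count a)) : R S := by
  classical
  induction hn : Multiset.card S using Nat.strong_induction_on generalizing S with
  | _ n ih =>
    rcases Multiset.empty_or_exists_mem S with rfl | ⟨a, ha⟩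
    · exact h0
    · obtain ⟨S', rfl⟩ := Multiset.exists_cons_of_mem ha
      by_cases hP : P a
      · rw [← Multiset.singleton_add]
        apply hadd _ _ (h1 a (hS a ha) hP)
        refine ih (Multiset.card S') (by rw [← hn, Multiset.card_cons]; omega) S' (fun b hb => hS b (Multiset.mem_cons_of_mem hb)) (fun b hb => ?_) rfl
        have h3 := he b hb
        rw [Multiset.count_cons_of_ne (fun h : b = a => hb (by rw [h]; exact hP))] at h3
        exact h3
      · have h3 := he a hP
        rw [Multiset.count_cons_self] at h3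
        have h4 : a ∈ S' := by
          rw [← Multiset.count_pos]
          by_contra h5
          have : S'.count a = 0 := by omega
          rw [this] at h3
          exact absurd h3 (by decide)
        obtain ⟨S'', rfl⟩ := Multiset.exists_cons_of_mem h4
        rw [← Multiset.singleton_add, ← Multiset.singleton_add, ← add_assoc]
        apply hadd _ _ (h2 a (hS a ha))
        refine ih (Multiset.card S'') (by rw [← hn, Multiset.card_cons, Multiset.card_cons]; omega) S'' (fun b hb => hS b (Multiset.mem_cons_of_mem (Multiset.mem_cons_of_mem hb))) (fun b hb => ?_) rfl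
        have h5 := he b hb
        by_cases hba : b = a
        · subst hba
          rw [Multiset.count_cons_self, Multiset.count_cons_self] at h5
          rw [Nat.even_iff] at h5 ⊢
          omega
        · rw [Multiset.count_cons_of_ne hba, Multiset.count_cons_of_ne hba] at h5
          exact h5

end frame

section pair
variable {F : Type*} [Field F]

theorem nk_dual {W : Type*} [AddCommGroup W] [Module F W] [FiniteDimensional F W] (A : W ≃ₗ[F] W) (k : ℕ) :
    nk ((A.dualMap : Dual F W ≃ₗ[F] Dual F W) : Dual F W →ₗ[F] Dual F W) k = nk (A : W →ₗ[F] W) k := by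
  have h : ∀ (k : ℕ), ((((A.dualMap : Dual F W ≃ₗ[F] Dual F W) : End F (Dual F W)) - 1) ^ k) = (((A : End F W) - 1) ^ k).dualMap := by
    intro k
    induction k with
    | zero => rfl
    | succ k ih =>
      rw [pow_succ', ih, pow_succ]
      apply LinearMap.ext
      intro g
      apply LinearMap.ext
      intro w
      show (((A.dualMap : Dual F W ≃ₗ[F] Dual F W) : Dual F W →ₗ[F] Dual F W) - 1) ((((A : End F W) - 1) ^ k).dualMap g) w = g ((((A : End F W) - 1) ^ k) (((A : End F W) - 1) w))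
      show g ((((A : End F W) - 1) ^ k) (A w)) - g ((((A : End F W) - 1) ^ k) w) = _
      rw [← map_sub, ← map_sub]; rfl
  unfold nk
  have h1 := LinearMap.finrank_range_add_finrank_ker (((A : End F W) - 1) ^ k)
  have h2 := LinearMap.finrank_range_add_finrank_ker ((((A : End F W) - 1) ^ k).dualMap)
  rw [LinearMap.finrank_range_dualMap_eq_finrank_range, Subspace.dual_finrank_eq] at h2
  have h3 : finrank F (LinearMap.ker ((((A.dualMap : Dual F W ≃ₗ[F] Dual F W) : End F (Dual F W)) - 1) ^ k)) = finrank F (LinearMap.ker ((((A : End F W) - 1) ^ k).dualMap)) := by rw [h]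
  have h4 : finrank F (LinearMap.ker (((A : W →ₗ[F] W) - 1) ^ k)) = finrank F (LinearMap.ker (((A : End F W) - 1) ^ k)) := rfl
  rw [h4]
  refine h3.trans ?_
  omega

/-- unipotent operators with one block -/
theorem exists_single (F : Type*) [Field F] (a : ℕ) : ∃ A : (Fin a → F) ≃ₗ[F] (Fin a → F), ((A : (Fin a → F) →ₗ[F] (Fin a → F)) - 1) ^ a = 0 ∧ ∀ k, nk (A : (Fin a → F) →ₗ[F] (Fin a → F)) k = sm {a} k := by
  obtain ⟨T, hT, hk⟩ := exists_type (F := F) {a} (n := a) (M := a) (by simp) (by simp)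
  have hu : IsUnit T := by
    have : IsNilpotent (T - 1) := ⟨a, hT⟩
    have := this.isUnit_one_add
    rwa [add_sub_cancel] at this
  refine ⟨LinearEquiv.ofBijective T ((Module.End.isUnit_iff _).1 hu), ?_, ?_⟩
  · exact hT
  · exact hk

/-- the hyperbolic map -/
noncomputable def lev {W : Type*} [AddCommGroup W] [Module F W] (A : W ≃ₗ[F] W) : (Dual F W × W) ≃ₗ[F] (Dual F W × W) := A.symm.dualMap.prodCongr A

theorem lev_apply {W : Type*} [AddCommGroup W] [Module F W] (A : W ≃ₗ[F] W) (v : Dual F W × W) : lev A v = (v.1 ∘ₗ (A.symm : W →ₗ[F] W), A v.2) := rfl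

theorem dual_polar {W : Type*} [AddCommGroup W] [Module F W] (x y : Dual F W × W) : QuadraticMap.polarBilin (QuadraticForm.dualProd F W) x y = x.1 y.2 + y.1 x.2 := by
  rw [QuadraticMap.polarBilin_apply_apply]
  unfold QuadraticMap.polar
  show (x.1 + y.1) (x.2 + y.2) - x.1 x.2 - y.1 y.2 = _
  rw [LinearMap.add_apply, map_add, map_add]; ring

theorem dual_nondeg {W : Type*} [AddCommGroup W] [Module F W] [FiniteDimensional F W] : (QuadraticMap.polarBilin (QuadraticForm.dualProd F W)).Nondegenerate := by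
  have key : ∀ x : Dual F W × W, (∀ y, QuadraticMap.polarBilin (QuadraticForm.dualProd F W) x y = 0) → x = 0 := by
    intro x hx
    apply Prod.ext
    · apply LinearMap.ext
      intro w
      have h1 := hx (0, w)
      rw [dual_polar] at h1
      simpa using h1
    · show x.2 = 0
      rw [← Module.forall_dual_apply_eq_zero_iff F]
      intro g
      have h1 := hx (g, 0)
      rw [dual_polar] at h1
      simpa using h1
  refine ⟨key, fun x hx => key x (fun y => ?_)⟩
  have := hx y
  rw [dual_polar] at this ⊢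
  rw [← this]; ring

theorem lev_quad {W : Type*} [AddCommGroup W] [Module F W] (A : W ≃ₗ[F] W) (v : Dual F W × W) : QuadraticForm.dualProd F W (lev A v) = QuadraticForm.dualProd F W v := by
  show v.1 (A.symm (A v.2)) = v.1 v.2
  rw [LinearEquiv.symm_apply_apply]

theorem nk_lev {W : Type*} [AddCommGroup W] [Module F W] [FiniteDimensional F W] (A : W ≃ₗ[F] W) (k : ℕ) : nk (lev A : (Dual F W × W) →ₗ[F] (Dual F W × W)) k = nk (A : W →ₗ[F] W) k + nk (A : W →ₗ[F] W) k := by
  unfold lev
  rw [nk_prod, nk_dual, nk_inv]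

theorem lev_nil {W : Type*} [AddCommGroup W] [Module F W] [FiniteDimensional F W] {A : W ≃ₗ[F] W} {M : ℕ} (h : ((A : W →ₗ[F] W) - 1) ^ M = 0) :
    ((lev A : (Dual F W × W) →ₗ[F] (Dual F W × W)) - 1) ^ M = 0 := by
  apply nil_of_nk
  rw [nk_lev, nk_of_nil h, Module.finrank_prod, Subspace.dual_finrank_eq]

theorem ror_pair (F : Type*) [Field F] (a : ℕ) : ROr F ({a} + {a}) := by
  obtain ⟨A, hA, hk⟩ := exists_single F a
  refine ror_of dual_nondeg (T := lev A) (lev_quad A) (lev_nil hA) (fun k => ?_)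
  rw [nk_lev, hk, sm_add]

theorem rsp_pair (F : Type*) [Field F] (a : ℕ) : RSp F ({a} + {a}) := by
  obtain ⟨A, hA, hk⟩ := exists_single F a
  let W := Fin a → F
  let B : LinearMap.BilinForm F (Dual F W × W) := LinearMap.mk₂ F (fun x y => y.1 x.2 - x.1 y.2)
    (fun x x' y => by simp only [Prod.fst_add, Prod.snd_add, map_add, LinearMap.add_apply]; ring)
    (fun c x y => by simp only [Prod.smul_fst, Prod.smul_snd, map_smul, LinearMap.smul_apply, smul_eq_mul]; ring)
    (fun x y y' => by simp only [Prod.fst_add, Prod.snd_add, map_add, LinearMap.add_apply]; ring)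
    (fun c x y => by simp only [Prod.smul_fst, Prod.smul_snd, map_smul, LinearMap.smul_apply, smul_eq_mul]; ring)
  have hB : ∀ x y, B x y = y.1 x.2 - x.1 y.2 := fun x y => rfl
  refine rsp_of (B := B) (T := lev A) ?_ ?_ ?_ (lev_nil hA) (fun k => ?_)
  · intro x; rw [hB, sub_self]
  · have key : ∀ x : Dual F W × W, (∀ y, B x y = 0) → x = 0 := by
      intro x hx
      apply Prod.ext
      · apply LinearMap.ext
        intro w
        have h1 := hx (0, w)
        rw [hB] at h1
        simpa using h1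
      · show x.2 = 0
        rw [← Module.forall_dual_apply_eq_zero_iff F]
        intro g
        have h1 := hx (g, 0)
        rw [hB] at h1
        simpa using h1
    refine ⟨key, fun x hx => key x (fun y => ?_)⟩
    have := hx y
    rw [hB] at this ⊢
    linear_combination -this
  · intro x y
    rw [hB, hB, lev_apply, lev_apply]
    show y.1 (A.symm (A x.2)) - x.1 (A.symm (A y.2)) = _
    rw [LinearEquiv.symm_apply_apply, LinearEquiv.symm_apply_apply]
  · rw [nk_lev, hk, sm_add]

end pair

end CfsgLib.Jor
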