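import Mathlib
import Cfsg.Agent.LibDual2H13
import Cfsg.Agent.LibJor5H13

/-! Invariant symmetric forms for operators of odd prime order (seat helper13). -/

namespace CfsgLib.RS

open Module Polynomial CfsgLib.Typ CfsgLib.SS2 CfsgLib.Dual

section gen
variable {F : Type*} [Field F] {V V' : Type*} [AddCommGroup V] [Module F V] [AddCommGroup V'] [Module F V'] {r : ℕ}

theorem aeval_prodMap (T : End F V) (T' : End F V') (f : F[X]) (v : V × V') :
    (aeval (LinearMap.prodMap T T' : End F (V × V')) f) v = (aeval T f v.1, aeval T' f v.2) := by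
  have hpow : ∀ (k : ℕ) (v : V × V'), ((LinearMap.prodMap T T' : End F (V × V')) ^ k) v = ((T ^ k) v.1, (T' ^ k) v.2) := by
    intro k
    induction k with
    | zero => intro v; rfl
    | succ k ih => intro v; rw [pow_succ', Module.End.mul_apply, ih, pow_succ', pow_succ']; rfl
  induction f using Polynomial.induction_on' with
  | add a b ha hb => rw [map_add, LinearMap.add_apply, ha, hb, map_add, map_add]; rfl
  | monomial k a =>
    rw [aeval_monomial, aeval_monomial, aeval_monomial, Module.End.mul_apply, Module.algebraMap_end_apply, hpow]; rfl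

theorem kd_prod [FiniteDimensional F V] [FiniteDimensional F V'] (T : End F V) (T' : End F V') (f : F[X]) (k : ℕ) :
    kd (LinearMap.prodMap T T' : End F (V × V')) f k = kd T f k + kd T' f k := by
  unfold kd
  have h := aeval_prodMap T T' (f ^ k)
  let e : LinearMap.ker (aeval (LinearMap.prodMap T T' : End F (V × V')) (f ^ k)) ≃ₗ[F] LinearMap.ker (aeval T (f ^ k)) × LinearMap.ker (aeval T' (f ^ k)) :=
    { toFun := fun v => (⟨v.1.1, by have h1 := v.2; rw [LinearMap.mem_ker, h] at h1; exact (Prod.ext_iff.1 h1).1⟩, ⟨v.1.2, by have h1 := v.2; rw [LinearMap.mem_ker, h] at h1; exact (Prod.ext_iff.1 h1).2⟩)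
      invFun := fun v => ⟨(v.1, v.2), by rw [LinearMap.mem_ker, h]; exact Prod.ext v.1.2 v.2.2⟩
      left_inv := fun v => rfl
      right_inv := fun v => rfl
      map_add' := fun u v => rfl
      map_smul' := fun c v => rfl }
  rw [e.finrank_eq, Module.finrank_prod]

theorem kd_dualMap [FiniteDimensional F V] (A : V →ₗ[F] V) (f : F[X]) : kd (A.dualMap : End F (Dual F V)) f 1 = kd (A : End F V) f 1 := by
  have hpow : ∀ (k : ℕ), ((A.dualMap : End F (Dual F V)) ^ k) = ((A : End F V) ^ k).dualMap := by
    intro k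
    induction k with
    | zero => rfl
    | succ k ih => rw [pow_succ', ih, pow_succ]; rfl
  have h : aeval (A.dualMap : End F (Dual F V)) f = (aeval (A : End F V) f).dualMap := by
    induction f using Polynomial.induction_on' with
    | add a b ha hb =>
      rw [map_add, ha, hb, map_add]
      apply LinearMap.ext; intro g; apply LinearMap.ext; intro v
      show g (aeval A a v) + g (aeval A b v) = g ((aeval A a + aeval A b) v)
      rw [LinearMap.add_apply, map_add]
    | monomial k a =>
      rw [aeval_monomial, aeval_monomial, hpow]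
      apply LinearMap.ext; intro g; apply LinearMap.ext; intro v
      show a • (g ((A ^ k) v)) = g ((algebraMap F (End F V) a * A ^ k) v)
      rw [Module.End.mul_apply, Module.algebraMap_end_apply, map_smul]
  unfold kd
  rw [pow_one, h]
  have h1 := LinearMap.finrank_range_add_finrank_ker (aeval (A : End F V) f)
  have h2 := LinearMap.finrank_range_add_finrank_ker ((aeval (A : End F V) f).dualMap)
  rw [LinearMap.finrank_range_dualMap_eq_finrank_range, Subspace.dual_finrank_eq] at h2
  omega

/-- an isometry of a non-degenerate form is conjugate to its inverse -/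
theorem conj_symm [FiniteDimensional F V] (B : LinearMap.BilinForm F V) (hB : B.Nondegenerate) (T : V ≃ₗ[F] V) (hT : ∀ x y, B (T x) (T y) = B x y) :
    ∃ ψ : V ≃ₗ[F] V, ∀ v, ψ (T v) = T.symm (ψ v) := by
  obtain ⟨S, hS, hs, hST⟩ := CfsgLib.Str.exists_symm_form (T : V →ₗ[F] V)
  let ψ : V ≃ₗ[F] V := (S.toDual hS).trans (B.toDual hB).symm
  have hψ : ∀ u v, B (ψ u) v = S u v := by
    intro u v
    show B ((B.toDual hB).symm (S.toDual hS u)) v = S u v
    rw [LinearMap.BilinForm.apply_toDual_symm_apply]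
    rfl
  refine ⟨ψ, fun v => ?_⟩
  have h1 : ∀ w, B (ψ (T v) - T.symm (ψ v)) w = 0 := by
    intro w
    rw [map_sub, LinearMap.sub_apply, hψ]
    have h2 : B (T.symm (ψ v)) w = B (ψ v) (T w) := by rw [← hT (T.symm (ψ v)) w, LinearEquiv.apply_symm_apply]
    rw [h2, hψ]
    have h3 : S (T v) w = S v (T w) := hST v w
    rw [h3, sub_self]
  exact sub_eq_zero.1 (hB.1 _ h1)

variable [Fintype F] {p : ℕ} [Fact p.Prime] [CharP F p] (hr : r.Prime) (hrp : r ≠ p)
include p hr hrp

theorem kd_mult [FiniteDimensional F V] {T : End F V} (hT : T ^ r = 1) (f : fac F r) : kd T f 1 = (f : F[X]).natDegree * mult r T f := by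
  classical
  obtain ⟨ι, hι, P, φ, h⟩ := exists_ss hr hrp T hT
  have hf := mem_fac.1 f.2
  rw [kd_dec h hf.2.1 hf.1, mult_dec h, min_self, mul_one]

theorem mult_prod [FiniteDimensional F V] [FiniteDimensional F V'] {T : End F V} {T' : End F V'} (hT : T ^ r = 1) (hT' : T' ^ r = 1) :
    mult r (LinearMap.prodMap T T' : End F (V × V')) = mult r T + mult r T' := by
  funext f
  have hf := mem_fac.1 f.2
  rw [Pi.add_apply]
  show kd (LinearMap.prodMap T T' : End F (V × V')) f 1 / (f : F[X]).natDegree = _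
  rw [kd_prod, kd_mult hr hrp hT, kd_mult hr hrp hT', ← mul_add, Nat.mul_div_cancel_left _ hf.1.natDegree_pos]

/-- the multiplicities of the inverse -/
theorem mult_symm [FiniteDimensional F V] (T : V ≃ₗ[F] V) (f : fac F r) :
    mult r (T.symm : V →ₗ[F] V) f = mult r (T : V →ₗ[F] V) ⟨du r 1 f, du_mem hr hrp (k := 0) (by simp) f.2⟩ := by
  unfold mult
  obtain ⟨c, hc, h2⟩ := du_eq hr hrp (k := 0) (Q := 1) (by simp) (σ := RingHom.id F) (fun x => by simp) f.2
  rw [Polynomial.map_id] at h2
  have h1 := ker_symm T (f : F[X])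
  rw [h2, ker_C_mul _ hc] at h1
  unfold kd
  rw [pow_one, pow_one]
  rw [deg_fac hr hrp f.2, deg_fac hr hrp (du_mem hr hrp (k := 0) (Q := 1) (by simp) f.2)]
  have h3 : finrank F (LinearMap.ker (aeval ((T.symm : V →ₗ[F] V) : End F V) (f : F[X]))) = finrank F (LinearMap.ker (aeval ((T : V →ₗ[F] V) : End F V) (du r 1 (f : F[X])))) := by rw [h1]
  exact congrArg (fun z => z / orderOf (Fintype.card F : ZMod r)) h3

theorem mult_isom [FiniteDimensional F V] (B : LinearMap.BilinForm F V) (hB : B.Nondegenerate) (T : V ≃ₗ[F] V) (hT : ∀ x y, B (T x) (T y) = B x y) (f : fac F r) :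
    mult r (T : V →ₗ[F] V) ⟨du r 1 f, du_mem hr hrp (k := 0) (by simp) f.2⟩ = mult r (T : V →ₗ[F] V) f := by
  obtain ⟨ψ, hψ⟩ := conj_symm B hB T hT
  have h1 : mult r (T : V →ₗ[F] V) = mult r (T.symm : V →ₗ[F] V) := mult_congr ψ hψ
  rw [← mult_symm hr hrp, ← h1]

end gen

end CfsgLib.RS
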