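import Mathlib
import Cfsg.Agent.LibRSymH13

/-! Existence of operators of odd prime order preserving symmetric forms (seat helper13). -/

namespace CfsgLib.RS

open Module Polynomial CfsgLib.Typ CfsgLib.SS2 CfsgLib.Dual CfsgLib.Jor

section pred
variable (F : Type*) [Field F] [Fintype F] (r : ℕ)

/-- realised by an isometry of a symmetric non-degenerate form without fixed vectors -/
def RSym (n : ℕ) (a : fac F r → ℕ) : Prop := ∃ (S : LinearMap.BilinForm F (Fin n → F)) (T : (Fin n → F) ≃ₗ[F] (Fin n → F)), S.Nondegenerate ∧ (∀ x y, S x y = S y x) ∧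
  (∀ x y, S (T x) (T y) = S x y) ∧ (∀ v, T v = v → v = 0) ∧ ((T : (Fin n → F) →ₗ[F] (Fin n → F)) : End F (Fin n → F)) ^ r = 1 ∧
    mult r (T : (Fin n → F) →ₗ[F] (Fin n → F)) = a

variable {F r}

theorem conj_pow {V V' : Type*} [AddCommGroup V] [Module F V] [AddCommGroup V'] [Module F V'] {T : End F V} {T' : End F V'} (ψ : V ≃ₗ[F] V') (h : ∀ v, ψ (T v) = T' (ψ v)) (hT : T ^ r = 1) : T' ^ r = 1 := by
  have hk : ∀ (k : ℕ) v, ψ ((T ^ k) v) = (T' ^ k) (ψ v) := by
    intro k
    induction k with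
    | zero => intro v; rfl
    | succ k ih => intro v; rw [pow_succ', Module.End.mul_apply, h, ih, pow_succ', Module.End.mul_apply]
  apply LinearMap.ext
  intro v
  obtain ⟨v, rfl⟩ := ψ.surjective v
  rw [← hk, hT]; rfl

theorem rsym_of {V : Type*} [AddCommGroup V] [Module F V] [FiniteDimensional F V] {n : ℕ} (hn : finrank F V = n) {S : LinearMap.BilinForm F V} {T : V ≃ₗ[F] V} (hS : S.Nondegenerate)
    (hs : ∀ x y, S x y = S y x) (hT : ∀ x y, S (T x) (T y) = S x y) (hf : ∀ v, T v = v → v = 0) (hr : ((T : V →ₗ[F] V) : End F V) ^ r = 1) {a : fac F r → ℕ}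
    (ha : mult r (T : V →ₗ[F] V) = a) : RSym F r n a := by
  subst hn
  let ψ : V ≃ₗ[F] (Fin (finrank F V) → F) := LinearEquiv.ofFinrankEq _ _ (by rw [Module.finrank_fin_fun])
  let T' : (Fin (finrank F V) → F) ≃ₗ[F] (Fin (finrank F V) → F) := (ψ.symm.trans T).trans ψ
  have hT' : ∀ v, ψ (T v) = T' (ψ v) := by
    intro v
    show _ = ψ (T (ψ.symm (ψ v)))
    rw [LinearEquiv.symm_apply_apply]
  let B' : LinearMap.BilinForm F (Fin (finrank F V) → F) := S.compl₁₂ (ψ.symm : (Fin (finrank F V) → F) →ₗ[F] V) (ψ.symm : (Fin (finrank F V) → F) →ₗ[F] V)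
  have hp : ∀ x y, B' x y = S (ψ.symm x) (ψ.symm y) := fun x y => rfl
  refine ⟨B', T', ?_, ?_, ?_, ?_, ?_, ?_⟩
  · constructor
    · intro x hx
      have h1 := hS.1 (ψ.symm x) (fun y => by have := hx (ψ y); rwa [hp, LinearEquiv.symm_apply_apply] at this)
      exact (LinearEquiv.map_eq_zero_iff ψ.symm).1 h1
    · intro x hx
      have h1 := hS.2 (ψ.symm x) (fun y => by have := hx (ψ y); rwa [hp, LinearEquiv.symm_apply_apply] at this)
      exact (LinearEquiv.map_eq_zero_iff ψ.symm).1 h1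
  · intro x y; rw [hp, hp, hs]
  · intro x y
    rw [hp, hp]
    show S (ψ.symm (ψ (T (ψ.symm x)))) (ψ.symm (ψ (T (ψ.symm y)))) = _
    rw [LinearEquiv.symm_apply_apply, LinearEquiv.symm_apply_apply, hT]
  · intro v hv
    obtain ⟨v, rfl⟩ := ψ.surjective v
    rw [← hT'] at hv
    rw [hf v (ψ.injective hv), map_zero]
  · exact conj_pow ψ hT' hr
  · rw [← ha]; exact (mult_congr ψ hT').symm

end pred

section sums
variable {F : Type*} [Field F] [Fintype F] {p r : ℕ} [Fact p.Prime] [CharP F p] (hr : r.Prime) (hrp : r ≠ p)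
include p hr hrp

omit [Fintype F] [Fact p.Prime] [CharP F p] hr hrp p in
theorem prodMap_pow {V V' : Type*} [AddCommGroup V] [Module F V] [AddCommGroup V'] [Module F V'] {T : End F V} {T' : End F V'} (h : T ^ r = 1) (h' : T' ^ r = 1) :
    (LinearMap.prodMap T T' : End F (V × V')) ^ r = 1 := by
  have hpow : ∀ (k : ℕ) (v : V × V'), ((LinearMap.prodMap T T' : End F (V × V')) ^ k) v = ((T ^ k) v.1, (T' ^ k) v.2) := by
    intro k
    induction k with
    | zero => intro v; rfl
    | succ k ih => intro v; rw [pow_succ', Module.End.mul_apply, ih, pow_succ', pow_succ']; rfl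
  apply LinearMap.ext
  intro v
  rw [hpow, h, h']; rfl

theorem rsym_add {n n' : ℕ} {a a' : fac F r → ℕ} (h : RSym F r n a) (h' : RSym F r n' a') : RSym F r (n + n') (a + a') := by
  obtain ⟨S, T, hS, hs, hT, hf, hTr, ha⟩ := h
  obtain ⟨S', T', hS', hs', hT', hf', hTr', ha'⟩ := h'
  let C : LinearMap.BilinForm F ((Fin n → F) × (Fin n' → F)) := S.compl₁₂ (LinearMap.fst F _ _) (LinearMap.fst F _ _) + S'.compl₁₂ (LinearMap.snd F _ _) (LinearMap.snd F _ _)
  have hp : ∀ x y, C x y = S x.1 y.1 + S' x.2 y.2 := fun x y => rfl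
  refine rsym_of (V := (Fin n → F) × (Fin n' → F)) (by rw [Module.finrank_prod, Module.finrank_fin_fun, Module.finrank_fin_fun]) (S := C) (T := T.prodCongr T') ?_ ?_ ?_ ?_ ?_ ?_
  · constructor
    · intro x hx
      apply Prod.ext
      · apply hS.1
        intro y
        have h1 := hx (y, 0)
        rw [hp, map_zero, add_zero] at h1
        exact h1
      · apply hS'.1
        intro y
        have h1 := hx (0, y)
        rw [hp, map_zero, zero_add] at h1
        exact h1
    · intro x hx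
      apply Prod.ext
      · apply hS.2
        intro y
        have h1 := hx (y, 0)
        rw [hp, map_zero, LinearMap.zero_apply, add_zero] at h1
        exact h1
      · apply hS'.2
        intro y
        have h1 := hx (0, y)
        rw [hp, map_zero, LinearMap.zero_apply, zero_add] at h1
        exact h1
  · intro x y
    rw [hp, hp, hs, hs']
  · intro x y
    rw [hp, hp]
    show S (T x.1) (T y.1) + S' (T' x.2) (T' y.2) = _
    rw [hT, hT']
  · intro v hv
    exact Prod.ext (hf _ (Prod.ext_iff.1 hv).1) (hf' _ (Prod.ext_iff.1 hv).2)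
  · exact prodMap_pow hTr hTr'
  · rw [← ha, ← ha']
    exact mult_prod hr hrp hTr hTr'

omit [Fact p.Prime] [CharP F p] p hr hrp in
theorem rsym_zero (p : ℕ) [Fact p.Prime] [CharP F p] (hr : r.Prime) (hrp : r ≠ p) : RSym F r 0 0 := by
  refine ⟨0, LinearEquiv.refl F _, ⟨fun x _ => Subsingleton.elim _ _, fun x _ => Subsingleton.elim _ _⟩, fun x y => rfl, fun x y => rfl, fun v _ => Subsingleton.elim _ _, ?_, ?_⟩
  · apply LinearMap.ext; intro v; exact Subsingleton.elim _ _
  · exact mult_one hr hrp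

/-- multiplication by the root as a linear equivalence -/
noncomputable def mulRoot {f : F[X]} (h : (AdjoinRoot.root f) ^ r = 1) (hr : r.Prime) : AdjoinRoot f ≃ₗ[F] AdjoinRoot f :=
  LinearEquiv.ofLinear (LinearMap.mulLeft F (AdjoinRoot.root f)) (LinearMap.mulLeft F ((AdjoinRoot.root f) ^ (r - 1)))
    (by
      apply LinearMap.ext; intro x
      show AdjoinRoot.root f * ((AdjoinRoot.root f) ^ (r - 1) * x) = x
      rw [← mul_assoc, ← pow_succ', Nat.sub_add_cancel hr.one_le, h, one_mul])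
    (by
      apply LinearMap.ext; intro x
      show (AdjoinRoot.root f) ^ (r - 1) * (AdjoinRoot.root f * x) = x
      rw [← mul_assoc, ← pow_succ, Nat.sub_add_cancel hr.one_le, h, one_mul])

omit [Fact p.Prime] [CharP F p] [Fintype F] p hrp in
theorem mulRoot_apply {f : F[X]} (h : (AdjoinRoot.root f) ^ r = 1) (x : AdjoinRoot f) : mulRoot h hr x = AdjoinRoot.root f * x := rfl

omit [Fact p.Prime] [CharP F p] [Fintype F] p hrp in
theorem mulRoot_pow {f : F[X]} (h : (AdjoinRoot.root f) ^ r = 1) : ((mulRoot h hr : AdjoinRoot f →ₗ[F] AdjoinRoot f) : End F (AdjoinRoot f)) ^ r = 1 := by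
  have hk : ∀ (k : ℕ) x, (((mulRoot h hr : AdjoinRoot f →ₗ[F] AdjoinRoot f) : End F (AdjoinRoot f)) ^ k) x = (AdjoinRoot.root f) ^ k * x := by
    intro k
    induction k with
    | zero => intro x; simp
    | succ k ih =>
      intro x
      rw [pow_succ', Module.End.mul_apply, ih, pow_succ', mul_assoc]; rfl
  apply LinearMap.ext
  intro x
  rw [hk, h, one_mul]; rfl

open Classical in
omit [Fact p.Prime] [CharP F p] p hrp in
theorem mult_mulRoot {f : F[X]} (hf : f ∈ fac F r) (h : (AdjoinRoot.root f) ^ r = 1) (g : fac F r) :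
    mult r (mulRoot h hr : AdjoinRoot f →ₗ[F] AdjoinRoot f) g = if f = g then 1 else 0 := by
  let c : AdjoinRoot f ≃ₐ[F] AdjoinRoot (f ^ 1) := AdjoinRoot.algEquivOfEq F _ _ (pow_one f).symm
  have hc : c (AdjoinRoot.root f) = AdjoinRoot.root (f ^ 1) := AdjoinRoot.algEquivOfEq_root _ _ _
  let φ : AdjoinRoot f ≃ₗ[F] (∀ _ : Unit, AdjoinRoot (f ^ 1)) := c.toLinearEquiv.trans (LinearEquiv.funUnique Unit F (AdjoinRoot (f ^ 1))).symm
  have hm := mem_fac.1 hf
  have hdec : Dec (mulRoot h hr : AdjoinRoot f →ₗ[F] AdjoinRoot f) r (fun _ : Unit => f) φ := by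
    refine ⟨fun _ => hm.1, fun _ => hm.2.1, fun _ => Or.inr hf, fun v i => ?_⟩
    show c (AdjoinRoot.root f * v) = AdjoinRoot.root (f ^ 1) * c v
    rw [map_mul, hc]
  rw [mult_dec hdec]
  split_ifs with h1
  · haveI : Unique {i : Unit // f = g} := ⟨⟨⟨(), h1⟩⟩, fun _ => rfl⟩
    exact Fintype.card_unique
  · rw [Fintype.card_eq_zero_iff]
    exact ⟨fun x => h1 x.2⟩

theorem root_pow {f : F[X]} (hf : f ∈ fac F r) : (AdjoinRoot.root f) ^ r = 1 := by
  haveI : Fact (Irreducible f) := ⟨(mem_fac.1 hf).1⟩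
  exact (root_prim hr hrp hf).pow_eq_one

theorem mulRoot_fix {f : F[X]} (hf : f ∈ fac F r) (h : (AdjoinRoot.root f) ^ r = 1) (x : AdjoinRoot f) (hx : mulRoot h hr x = x) : x = 0 := by
  haveI : Fact (Irreducible f) := ⟨(mem_fac.1 hf).1⟩
  have hprim := root_prim hr hrp hf
  rw [mulRoot_apply] at hx
  have h1 : (AdjoinRoot.root f - 1) * x = 0 := by rw [sub_mul, hx, one_mul, sub_self]
  exact (mul_eq_zero.1 h1).resolve_left (sub_ne_zero.2 (hprim.ne_one hr.one_lt))

open Classical in
/-- self-dual blocks -/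
theorem rsym_self (f : fac F r) (hs : du r 1 (f : F[X]) = f) : RSym F r (orderOf (Fintype.card F : ZMod r)) (Pi.single f 1) := by
  obtain ⟨f, hf⟩ := f
  have hs' : du r 1 f = f := hs
  haveI : Fact (Irreducible f) := ⟨(mem_fac.1 hf).1⟩
  haveI : FiniteDimensional F (AdjoinRoot f) := (AdjoinRoot.powerBasis' (mem_fac.1 hf).2.1).finite
  haveI : Finite (AdjoinRoot f) := Module.finite_of_finite F
  have hrt := root_pow hr hrp hf
  have hroot : aeval ((AdjoinRoot.root f) ^ (r - 1)) f = 0 := by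
    have := minpoly.aeval F ((AdjoinRoot.root f) ^ (r - 1))
    unfold du at hs'
    rw [mul_one] at hs'
    rwa [hs'] at this
  let τ : AdjoinRoot f →ₐ[F] AdjoinRoot f := AdjoinRoot.liftAlgHom f (Algebra.ofId F (AdjoinRoot f)) ((AdjoinRoot.root f) ^ (r - 1)) hroot
  have hτr : τ (AdjoinRoot.root f) = (AdjoinRoot.root f) ^ (r - 1) := AdjoinRoot.liftAlgHom_root _ _ _ _
  have hττ : ∀ z, τ (τ z) = z := by
    have : τ.comp τ = AlgHom.id F (AdjoinRoot f) := by
      apply AdjoinRoot.algHom_ext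
      rw [AlgHom.comp_apply, hτr, map_pow, hτr, ← pow_mul, AlgHom.id_apply]
      have e1 : (r - 1) * (r - 1) = r * (r - 2) + 1 := by
        have := hr.two_le
        obtain ⟨k, rfl⟩ : ∃ k, r = k + 2 := ⟨r - 2, by omega⟩
        simp only [Nat.add_sub_cancel, show k + 2 - 1 = k + 1 by omega]
        ring
      rw [e1, pow_succ, pow_mul, hrt, one_pow, one_mul]
    intro z
    exact congrArg (fun φ : AdjoinRoot f →ₐ[F] AdjoinRoot f => φ z) this
  let τe : AdjoinRoot f ≃ₐ[F] AdjoinRoot f := AlgEquiv.ofBijective τ (Function.Involutive.bijective hττ)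
  have htr : ∀ z, Algebra.trace F (AdjoinRoot f) (τ z) = Algebra.trace F (AdjoinRoot f) z := fun z => Algebra.trace_eq_of_algEquiv τe z
  let S : LinearMap.BilinForm F (AdjoinRoot f) := LinearMap.mk₂ F (fun x y => Algebra.trace F (AdjoinRoot f) (x * τ y))
    (fun x x' y => by rw [add_mul, map_add]) (fun c x y => by rw [smul_mul_assoc, map_smul])
    (fun x y y' => by rw [map_add, mul_add, map_add]) (fun c x y => by rw [map_smul, mul_smul_comm, map_smul])
  have hS : ∀ x y, S x y = Algebra.trace F (AdjoinRoot f) (x * τ y) := fun x y => rfl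
  have hsym : ∀ x y, S x y = S y x := by
    intro x y
    rw [hS, hS, ← htr, map_mul, hττ, mul_comm]
  have hnd : ∀ x, (∀ y, S x y = 0) → x = 0 := by
    intro x hx
    apply (traceForm_nondegenerate F (AdjoinRoot f)).1
    intro y
    rw [Algebra.traceForm_apply, ← hττ y]
    exact hx (τ y)
  refine rsym_of (V := AdjoinRoot f) ?_ (S := S) (T := mulRoot hrt hr) ⟨hnd, fun x hx => hnd x (fun y => by rw [hsym]; exact hx y)⟩ hsym ?_ (mulRoot_fix hr hrp hf hrt) (mulRoot_pow hr hrt) ?_
  · rw [finrank_adjoinRoot (mem_fac.1 hf).2.1, deg_fac hr hrp hf]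
  · intro x y
    rw [mulRoot_apply, mulRoot_apply, hS, hS, map_mul τ, hτr]
    congr 1
    calc AdjoinRoot.root f * x * (AdjoinRoot.root f ^ (r - 1) * τ y) = (AdjoinRoot.root f * AdjoinRoot.root f ^ (r - 1)) * (x * τ y) := by ring
      _ = x * τ y := by rw [← pow_succ', Nat.sub_add_cancel hr.one_le, hrt, one_mul]
  · funext g
    rw [mult_mulRoot hr hf]
    by_cases hg : f = g
    · rw [if_pos hg]
      have : g = ⟨f, hf⟩ := Subtype.ext hg.symm
      rw [this, Pi.single_eq_same]
    · rw [if_neg hg, Pi.single_eq_of_ne (fun h => hg (by rw [h]))]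

open Classical in
/-- dual pairs -/
theorem rsym_pair (f : fac F r) : RSym F r (2 * orderOf (Fintype.card F : ZMod r)) (Pi.single f 1 + Pi.single ⟨du r 1 f, du_mem hr hrp (k := 0) (by simp) f.2⟩ 1) := by
  obtain ⟨f, hf⟩ := f
  haveI : Fact (Irreducible f) := ⟨(mem_fac.1 hf).1⟩
  haveI : FiniteDimensional F (AdjoinRoot f) := (AdjoinRoot.powerBasis' (mem_fac.1 hf).2.1).finite
  have hrt := root_pow hr hrp hf
  let A := mulRoot (r := r) hrt hr
  have hAr : ((A : AdjoinRoot f →ₗ[F] AdjoinRoot f) : End F (AdjoinRoot f)) ^ r = 1 := mulRoot_pow hr hrt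
  have hAsr : ((A.symm : AdjoinRoot f →ₗ[F] AdjoinRoot f) : End F (AdjoinRoot f)) ^ r = 1 := by
    have h1 := symm_pow_mul A r
    rw [hAr, one_mul] at h1
    exact h1
  have hDr : (((A.symm : AdjoinRoot f →ₗ[F] AdjoinRoot f).dualMap : Dual F (AdjoinRoot f) →ₗ[F] Dual F (AdjoinRoot f)) : End F (Dual F (AdjoinRoot f))) ^ r = 1 := by
    have hpow : ∀ (k : ℕ), (((A.symm : AdjoinRoot f →ₗ[F] AdjoinRoot f).dualMap : End F (Dual F (AdjoinRoot f))) ^ k) = (((A.symm : AdjoinRoot f →ₗ[F] AdjoinRoot f) : End F (AdjoinRoot f)) ^ k).dualMap := by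
      intro k
      induction k with
      | zero => rfl
      | succ k ih => rw [pow_succ', ih, pow_succ]; rfl
    rw [hpow, hAsr]; rfl
  have hlev : ((lev A : (Dual F (AdjoinRoot f) × AdjoinRoot f) →ₗ[F] (Dual F (AdjoinRoot f) × AdjoinRoot f)) : End F (Dual F (AdjoinRoot f) × AdjoinRoot f)) =
      LinearMap.prodMap ((A.symm : AdjoinRoot f →ₗ[F] AdjoinRoot f).dualMap) (A : AdjoinRoot f →ₗ[F] AdjoinRoot f) := rfl
  refine rsym_of (V := Dual F (AdjoinRoot f) × AdjoinRoot f) ?_ (S := QuadraticMap.polarBilin (QuadraticForm.dualProd F (AdjoinRoot f))) (T := lev A) dual_nondeg ?_ ?_ ?_ ?_ ?_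
  · rw [Module.finrank_prod, Subspace.dual_finrank_eq, finrank_adjoinRoot (mem_fac.1 hf).2.1, deg_fac hr hrp hf]; ring
  · intro x y
    rw [dual_polar, dual_polar]; ring
  · intro x y
    rw [dual_polar, dual_polar, lev_apply, lev_apply]
    show x.1 (A.symm (A y.2)) + y.1 (A.symm (A x.2)) = _
    rw [LinearEquiv.symm_apply_apply, LinearEquiv.symm_apply_apply]
  · rintro ⟨g, x⟩ hv
    rw [lev_apply] at hv
    have h1 : A x = x := (Prod.ext_iff.1 hv).2
    have h2 : g ∘ₗ (A.symm : AdjoinRoot f →ₗ[F] AdjoinRoot f) = g := (Prod.ext_iff.1 hv).1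
    have h3 := mulRoot_fix hr hrp hf hrt x h1
    have h4 : g = 0 := by
      let L : AdjoinRoot f →ₗ[F] AdjoinRoot f := (A : AdjoinRoot f →ₗ[F] AdjoinRoot f) - LinearMap.id
      have hsurj : Function.Surjective L := by
        apply LinearMap.surjective_of_injective
        rw [injective_iff_map_eq_zero]
        intro y hy
        have hy' : A y - y = 0 := hy
        exact mulRoot_fix hr hrp hf hrt y (sub_eq_zero.1 hy')
      apply LinearMap.ext
      intro y
      obtain ⟨z, rfl⟩ := hsurj y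
      show g (A z - z) = 0
      rw [map_sub, sub_eq_zero]
      have := LinearMap.congr_fun h2 (A z)
      rw [LinearMap.comp_apply] at this
      have h5 : (A.symm : AdjoinRoot f →ₗ[F] AdjoinRoot f) (A z) = z := A.symm_apply_apply z
      rw [h5] at this
      exact this.symm
    rw [h3, h4]; rfl
  · rw [hlev]
    exact prodMap_pow hDr hAr
  · rw [hlev, mult_prod hr hrp hDr hAr]
    funext g
    rw [Pi.add_apply, Pi.add_apply, add_comm]
    congr 1
    · have h1 : mult r (A : AdjoinRoot f →ₗ[F] AdjoinRoot f) g = if f = g then 1 else 0 := mult_mulRoot hr hf hrt g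
      rw [h1]
      by_cases hg : f = g
      · rw [if_pos hg]
        have : g = ⟨f, hf⟩ := Subtype.ext hg.symm
        rw [this, Pi.single_eq_same]
      · rw [if_neg hg, Pi.single_eq_of_ne (fun h => hg (by rw [h]))]
    · have h1 : mult r ((A.symm : AdjoinRoot f →ₗ[F] AdjoinRoot f).dualMap : End F (Dual F (AdjoinRoot f))) g = mult r (A.symm : AdjoinRoot f →ₗ[F] AdjoinRoot f) g := by
        unfold mult
        rw [kd_dualMap]
      rw [h1, mult_symm hr hrp]
      have h2 : mult r (A : AdjoinRoot f →ₗ[F] AdjoinRoot f) ⟨du r 1 g, du_mem hr hrp (k := 0) (by simp) g.2⟩ = if f = du r 1 g then 1 else 0 := mult_mulRoot hr hf hrt _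
      rw [h2]
      have hdd : ∀ g : fac F r, du r 1 (du r 1 (g : F[X])) = g := fun g => du_du hr hrp (k := 0) (by simp) (σ := RingHom.id F) (fun x => by simp) (fun x => rfl) g.2
      by_cases hg : f = du r 1 g
      · rw [if_pos hg]
        have h3 : g = ⟨du r 1 f, du_mem hr hrp (k := 0) (by simp) hf⟩ := by
          apply Subtype.ext
          show (g : F[X]) = du r 1 f
          rw [hg, hdd]
        rw [h3]
        exact (Pi.single_eq_same (M := fun _ : fac F r => ℕ) (⟨du r 1 f, du_mem hr hrp (k := 0) (by simp) hf⟩ : fac F r) 1).symm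
      · have h5 : g ≠ ⟨du r 1 f, du_mem hr hrp (k := 0) (by simp) hf⟩ := by
          intro h
          apply hg
          have h4 : (g : F[X]) = du r 1 f := congrArg Subtype.val h
          rw [h4, hdd ⟨f, hf⟩]
        rw [if_neg hg]
        exact (Pi.single_eq_of_ne (M := fun _ : fac F r => ℕ) h5 1).symm

end sums

end CfsgLib.RS
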