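import Mathlib
import Cfsg.Agent.LibRSym2H13
import Cfsg.Agent.LibInvCH13

/-! Counting classes of elements of odd prime order (seat helper13). -/

namespace CfsgLib.RS

open Module Polynomial CfsgLib.Typ CfsgLib.SS2 CfsgLib.Dual CfsgLib.Jor CfsgLib.Cnt

section all
variable {F : Type*} [Field F] [Fintype F] {p r : ℕ} [Fact p.Prime] [CharP F p] (hr : r.Prime) (hrp : r ≠ p)

/-- the duality on the factors -/
noncomputable def io (f : fac F r) : fac F r := ⟨du r 1 f, du_mem hr hrp (k := 0) (by simp) f.2⟩

theorem io_io (f : fac F r) : io hr hrp (io hr hrp f) = f := Subtype.ext (du_du hr hrp (k := 0) (by simp) (σ := RingHom.id F) (fun x => by simp) (fun x => rfl) f.2)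

theorem rsym_all (a : fac F r → ℕ) (ha : ∀ f, a (io hr hrp f) = a f) : RSym F r (orderOf (Fintype.card F : ZMod r) * ∑ f, a f) a := by
  classical
  induction hn : ∑ f, a f using Nat.strong_induction_on generalizing a with
  | _ n ih =>
    by_cases h0 : a = 0
    · subst h0
      have : n = 0 := by rw [← hn]; simp
      subst this
      rw [mul_zero]
      exact rsym_zero p hr hrp
    · obtain ⟨f, hf⟩ : ∃ f, a f ≠ 0 := by
        by_contra hcon
        push Not at hcon
        exact h0 (funext hcon)
      by_cases hs : io hr hrp f = f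
      · let a' : fac F r → ℕ := fun g => a g - (Pi.single f 1 : fac F r → ℕ) g
        have haa : a = a' + Pi.single f 1 := by
          funext g
          simp only [a', Pi.add_apply]
          by_cases hg : g = f
          · subst hg; rw [Pi.single_eq_same]; omega
          · rw [Pi.single_eq_of_ne hg]; omega
        have ha' : ∀ g, a' (io hr hrp g) = a' g := by
          intro g
          simp only [a', ha]
          by_cases hg : g = f
          · subst hg; rw [hs]
          · rw [Pi.single_eq_of_ne hg, Pi.single_eq_of_ne (fun h => hg (by rw [← io_io hr hrp g, h, hs]))]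
        have hsum : ∑ g, a g = ∑ g, a' g + 1 := by
          conv_lhs => rw [haa]
          simp only [Pi.add_apply, Finset.sum_add_distrib, Finset.sum_pi_single', Finset.mem_univ, if_true]
        have h1 := ih (∑ g, a' g) (by omega) a' ha' rfl
        have h2 := rsym_self hr hrp f (congrArg Subtype.val hs)
        have h3 := rsym_add hr hrp h1 h2
        rw [← haa] at h3
        rw [← hn, hsum, mul_add, mul_one]
        exact h3
      · let a' : fac F r → ℕ := fun g => a g - ((Pi.single f 1 : fac F r → ℕ) g + (Pi.single (io hr hrp f) 1 : fac F r → ℕ) g)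
        have hf2 : a (io hr hrp f) ≠ 0 := by rw [ha]; exact hf
        have haa : a = a' + (Pi.single f 1 + Pi.single (io hr hrp f) 1) := by
          funext g
          simp only [a', Pi.add_apply]
          by_cases hg : g = f
          · subst hg; rw [Pi.single_eq_same, Pi.single_eq_of_ne (fun h => hs h.symm)]; omega
          · by_cases hg2 : g = io hr hrp f
            · subst hg2; rw [Pi.single_eq_of_ne hg, Pi.single_eq_same]; omega
            · rw [Pi.single_eq_of_ne hg, Pi.single_eq_of_ne hg2]; omega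
        have ha' : ∀ g, a' (io hr hrp g) = a' g := by
          intro g
          simp only [a', ha]
          have e1 : (Pi.single f 1 : fac F r → ℕ) (io hr hrp g) = (Pi.single (io hr hrp f) 1 : fac F r → ℕ) g := by
            by_cases hg : io hr hrp g = f
            · have : g = io hr hrp f := by rw [← hg, io_io]
              rw [hg, this, Pi.single_eq_same, Pi.single_eq_same]
            · rw [Pi.single_eq_of_ne hg, Pi.single_eq_of_ne (fun h => hg (by rw [h, io_io]))]
          have e2 : (Pi.single (io hr hrp f) 1 : fac F r → ℕ) (io hr hrp g) = (Pi.single f 1 : fac F r → ℕ) g := by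
            by_cases hg : g = f
            · rw [hg, Pi.single_eq_same, Pi.single_eq_same]
            · rw [Pi.single_eq_of_ne hg, Pi.single_eq_of_ne (fun h => hg (by rw [← io_io hr hrp g, h, io_io]))]
          rw [e1, e2, add_comm]
        have hsum : ∑ g, a g = ∑ g, a' g + 2 := by
          conv_lhs => rw [haa]
          simp only [Pi.add_apply, Finset.sum_add_distrib, Finset.sum_pi_single', Finset.mem_univ, if_true]
        have h1 := ih (∑ g, a' g) (by omega) a' ha' rfl
        have h2 := rsym_pair hr hrp f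
        have h3 := rsym_add hr hrp h1 h2
        have h4 : a' + (Pi.single f 1 + Pi.single ⟨du r 1 f, du_mem hr hrp (k := 0) (by simp) f.2⟩ 1) = a := haa.symm
        rw [h4] at h3
        rw [← hn, hsum, mul_add, mul_comm _ 2]
        exact h3

end all

section derive
variable {F : Type*} [Field F] {V : Type*} [AddCommGroup V] [Module F V] [FiniteDimensional F V] {r : ℕ} (hodd : Odd r)
  (T : V ≃ₗ[F] V) (hf : ∀ v, T v = v → v = 0) (hTr : ((T : V →ₗ[F] V) : End F V) ^ r = 1)
include hodd hf hTr

omit [FiniteDimensional F V] in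
theorem sq_inj {v : V} (hv : T (T v) = v) : v = 0 := by
  apply hf
  obtain ⟨k, hk⟩ := hodd
  have h1 : ∀ j : ℕ, (((T : V →ₗ[F] V) : End F V) ^ (2 * j)) v = v := by
    intro j
    induction j with
    | zero => rfl
    | succ j ih =>
      rw [show 2 * (j + 1) = 2 * j + 1 + 1 by ring, pow_succ, Module.End.mul_apply, pow_succ, Module.End.mul_apply]
      have : (T : V →ₗ[F] V) ((T : V →ₗ[F] V) v) = v := hv
      rw [this]; exact ih
  have h2 : (((T : V →ₗ[F] V) : End F V) ^ r) v = v := by rw [hTr]; rfl
  rw [hk, pow_succ', Module.End.mul_apply, h1] at h2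
  exact h2

omit [FiniteDimensional F V] in
theorem neg_inj {v : V} (hv : T (T v) = -v) : v = 0 := by
  have h4 : T (T (T (T v))) = v := by rw [hv, map_neg, map_neg, hv, neg_neg]
  have h1 : ∀ j : ℕ, (((T : V →ₗ[F] V) : End F V) ^ (4 * j)) v = v := by
    intro j
    induction j with
    | zero => rfl
    | succ j ih =>
      rw [show 4 * (j + 1) = 4 * j + 1 + 1 + 1 + 1 by ring, pow_succ, Module.End.mul_apply, pow_succ, Module.End.mul_apply, pow_succ, Module.End.mul_apply, pow_succ, Module.End.mul_apply]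
      have : (T : V →ₗ[F] V) ((T : V →ₗ[F] V) ((T : V →ₗ[F] V) ((T : V →ₗ[F] V) v))) = v := h4
      rw [this]; exact ih
  have h2 : (((T : V →ₗ[F] V) : End F V) ^ (r * 1)) v = v := by rw [mul_one, hTr]; rfl
  have h3 : ∀ j : ℕ, (((T : V →ₗ[F] V) : End F V) ^ (r * j)) v = v := by
    intro j; rw [pow_mul, hTr, one_pow]; rfl
  -- r odd: choose j with r * j = 4 k + 1
  obtain ⟨j, k, hjk⟩ : ∃ j k, r * j = 4 * k + 1 := by
    have hr4 : r % 4 = 1 ∨ r % 4 = 3 := by rw [Nat.odd_iff] at hodd; omega
    rcases hr4 with h | h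
    · exact ⟨1, r / 4, by omega⟩
    · refine ⟨3, (3 * r - 1) / 4, by omega⟩
  have h5 := h3 j
  rw [hjk, pow_succ', Module.End.mul_apply, h1] at h5
  exact hf v h5

theorem sp_of_sym (S : LinearMap.BilinForm F V) (hS : S.Nondegenerate) (hs : ∀ x y, S x y = S y x) (hT : ∀ x y, S (T x) (T y) = S x y) :
    ∃ B : LinearMap.BilinForm F V, B.IsAlt ∧ B.Nondegenerate ∧ ∀ x y, B (T x) (T y) = B x y := by
  let D : V →ₗ[F] V := (T : V →ₗ[F] V) - (T.symm : V →ₗ[F] V)
  have hD : ∀ v, D v = T v - T.symm v := fun v => rfl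
  have hDi : Function.Injective D := by
    rw [injective_iff_map_eq_zero]
    intro v hv
    rw [hD, sub_eq_zero] at hv
    apply sq_inj hodd T hf hTr
    rw [hv, LinearEquiv.apply_symm_apply]
  have hDs : Function.Surjective D := LinearMap.surjective_of_injective hDi
  have hadj : ∀ x y, S (T.symm x) y = S x (T y) := fun x y => by rw [← hT (T.symm x) y, LinearEquiv.apply_symm_apply]
  refine ⟨S.compl₂ D, ?_, ⟨?_, ?_⟩, ?_⟩
  · intro x
    show S x (D x) = 0
    rw [hD, map_sub, hs x (T.symm x), hadj, sub_self]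
  · intro x hx
    apply hS.1
    intro y
    obtain ⟨y, rfl⟩ := hDs y
    exact hx y
  · intro y hy
    have : D y = 0 := hS.2 _ hy
    exact hDi (by rw [this, map_zero])
  · intro x y
    show S (T x) (D (T y)) = S x (D y)
    have : D (T y) = T (D y) := by rw [hD, hD, map_sub, LinearEquiv.symm_apply_apply, LinearEquiv.apply_symm_apply]
    rw [this, hT]

/-- the quadratic form `S(x, Tx)` -/
theorem quad_of_sym (S : LinearMap.BilinForm F V) (hS : S.Nondegenerate) (hs : ∀ x y, S x y = S y x) (hT : ∀ x y, S (T x) (T y) = S x y) :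
    ∃ Q : QuadraticForm F V, (QuadraticMap.polarBilin Q).Nondegenerate ∧ ∀ x, Q (T x) = Q x := by
  let C : LinearMap.BilinForm F V := S.compl₂ (T : V →ₗ[F] V)
  have hC : ∀ x y, C x y = S x (T y) := fun x y => rfl
  let D : V →ₗ[F] V := (T : V →ₗ[F] V) + (T.symm : V →ₗ[F] V)
  have hD : ∀ v, D v = T v + T.symm v := fun v => rfl
  have hDi : Function.Injective D := by
    rw [injective_iff_map_eq_zero]
    intro v hv
    rw [hD, add_eq_zero_iff_eq_neg] at hv
    apply neg_inj hodd T hf hTr
    rw [hv, map_neg, LinearEquiv.apply_symm_apply]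
  have hDs : Function.Surjective D := LinearMap.surjective_of_injective hDi
  have hadj : ∀ x y, S (T.symm x) y = S x (T y) := fun x y => by rw [← hT (T.symm x) y, LinearEquiv.apply_symm_apply]
  have hp : ∀ x y, QuadraticMap.polarBilin C.toQuadraticMap x y = S x (D y) := by
    intro x y
    rw [QuadraticMap.polarBilin_apply_apply]
    unfold QuadraticMap.polar
    rw [LinearMap.BilinMap.toQuadraticMap_apply, LinearMap.BilinMap.toQuadraticMap_apply, LinearMap.BilinMap.toQuadraticMap_apply, hC, hC, hC, hD]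
    simp only [map_add, LinearMap.add_apply]
    have : S x (T.symm y) = S y (T x) := by rw [hs, hadj]
    rw [this]; ring
  refine ⟨C.toQuadraticMap, ⟨?_, ?_⟩, ?_⟩
  · intro x hx
    apply hS.1
    intro y
    obtain ⟨y, rfl⟩ := hDs y
    rw [← hp]; exact hx y
  · intro y hy
    have : D y = 0 := hS.2 _ (fun x => by rw [← hp]; exact hy x)
    exact hDi (by rw [this, map_zero])
  · intro x
    rw [LinearMap.BilinMap.toQuadraticMap_apply, LinearMap.BilinMap.toQuadraticMap_apply, hC, hC, hT]

end derive

section sets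
variable (A : Type*) [Fintype A] [DecidableEq A]

open Classical in
/-- admissible multiplicities -/
noncomputable def adm (N : ℕ) (E : Prop) : Finset (A → ℕ) := ((bd A N).erase 0) \ (if E then ex A N else ∅)

variable {A}

theorem mem_adm {N : ℕ} {E : Prop} {a : A → ℕ} : a ∈ adm A N E ↔ a ≠ 0 ∧ ∑ x, a x ≤ N ∧ ¬ (E ∧ ∑ x, a x = N) := by
  classical
  unfold adm
  rw [Finset.mem_sdiff, Finset.mem_erase, mem_bd]
  by_cases hE : E
  · rw [if_pos hE, mem_ex]
    tauto
  · rw [if_neg hE]
    simp [hE]

open Classical in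
theorem card_adm {N : ℕ} {E : Prop} (hN : E → 0 < N) (hA : 1 ≤ Fintype.card A) :
    (adm A N E).card = (N + Fintype.card A).choose (Fintype.card A) - 1 - (if E then (N + Fintype.card A - 1).choose (Fintype.card A - 1) else 0) := by
  unfold adm
  by_cases hE : E
  · rw [if_pos hE, if_pos hE, Finset.card_sdiff_of_subset, card_ex N hA, Finset.card_erase_of_mem (zero_mem_bd _), card_bd]
    intro a ha
    rw [mem_ex] at ha
    rw [Finset.mem_erase, mem_bd]
    refine ⟨fun h0 => ?_, ha.le⟩
    have := hN hE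
    rw [h0] at ha
    simp at ha
    omega
  · rw [if_neg hE, if_neg hE, Finset.sdiff_empty, Finset.card_erase_of_mem (zero_mem_bd _), card_bd, Nat.sub_zero]

end sets

section count
variable {F : Type*} [Field F] [Fintype F] {p r : ℕ} [Fact p.Prime] [CharP F p] (hr : r.Prime) (hrp : r ≠ p)

open Classical in
theorem count_even {G : Type*} [Group G] (mu : G → (fac F r → ℕ)) (hconj : ∀ g h, orderOf g = r → orderOf h = r → (IsConj g h ↔ mu g = mu h)) {N : ℕ} {E : Prop} (hN : E → 0 < N)
    {t : ℕ} (ht : (fac F r).card = t) (ht1 : 1 ≤ t)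
    (himg : ∀ a, (∃ g, orderOf g = r ∧ mu g = a) ↔ (a ≠ 0 ∧ ∑ x, a x ≤ N ∧ ¬ (E ∧ ∑ x, a x = N))) :
    Nat.card {C : ConjClasses G // ∃ g : G, ConjClasses.mk g = C ∧ orderOf g = r} = (N + t).choose t - 1 - (if E then (N + t - 1).choose (t - 1) else 0) := by
  have key := CfsgLib.InvC.card_types (G := G) (fun g => orderOf g = r) mu (adm (fac F r) N E) (fun g hg => by
    rw [mem_adm, ← himg]; exact ⟨g, hg, rfl⟩) (fun a ha => by
    rw [mem_adm, ← himg] at ha; exact ha) hconj
  rw [key, card_adm hN (by rw [Fintype.card_coe, ht]; exact ht1), Fintype.card_coe, ht]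

open Classical in
theorem count_odd {G : Type*} [Group G] (mu : G → (fac F r → ℕ)) (hconj : ∀ g h, orderOf g = r → orderOf h = r → (IsConj g h ↔ mu g = mu h)) {N : ℕ} {E : Prop} (hN : E → 0 < N)
    {t : ℕ} (ht : (fac F r).card = t) (ht1 : 1 ≤ t) (hfix : ∀ f, io hr hrp f ≠ (f : fac F r))
    (himg : ∀ a, (∃ g, orderOf g = r ∧ mu g = a) ↔ (a ≠ 0 ∧ (∀ f, a (io hr hrp f) = a f) ∧ ∑ x, a x ≤ 2 * N + 1 ∧ ¬ (E ∧ ∑ x, a x = 2 * N))) :
    Nat.card {C : ConjClasses G // ∃ g : G, ConjClasses.mk g = C ∧ orderOf g = r} = (N + t / 2).choose (t / 2) - 1 - (if E then (N + t / 2 - 1).choose (t / 2 - 1) else 0) := by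
  obtain ⟨H, hH, hsum⟩ := exists_half (io hr hrp) (io_io hr hrp) hfix
  have hHc : 2 * H.card = t := by
    have := hsum (fun _ => 1) (fun _ => rfl)
    simp only [Finset.sum_const, Finset.card_univ, Fintype.card_coe, smul_eq_mul, mul_one] at this
    omega
  have hHs : H.card = t / 2 := by omega
  have hext : ∀ a a' : fac F r → ℕ, (∀ f, a (io hr hrp f) = a f) → (∀ f, a' (io hr hrp f) = a' f) → (∀ x : H, a x = a' x) → a = a' := by
    intro a a' ha ha' h
    funext f
    by_cases hf : f ∈ H
    · exact h ⟨f, hf⟩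
    · rw [← ha, ← ha']
      exact h ⟨io hr hrp f, (hH f).2 hf⟩
  have hsymm : ∀ g, orderOf g = r → ∀ f, mu g (io hr hrp f) = mu g f := fun g hg => ((himg (mu g)).1 ⟨g, hg, rfl⟩).2.1
  have key := CfsgLib.InvC.card_types (G := G) (fun g => orderOf g = r) (fun g => fun x : H => mu g x) (adm H N E) ?_ ?_ ?_
  · rw [key, card_adm hN (by rw [Fintype.card_coe]; omega), Fintype.card_coe, hHs]
  · intro g hg
    obtain ⟨h1, h2, h3, h4⟩ := (himg (mu g)).1 ⟨g, hg, rfl⟩
    rw [hsum _ h2] at h3 h4
    rw [mem_adm]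
    refine ⟨fun h0 => h1 (hext _ 0 h2 (fun _ => rfl) (fun x => congrFun h0 x)), by omega, fun h5 => h4 ⟨h5.1, by rw [h5.2]⟩⟩
  · intro a ha
    rw [mem_adm] at ha
    let a' : fac F r → ℕ := fun f => if h : f ∈ H then a ⟨f, h⟩ else a ⟨io hr hrp f, (hH f).2 h⟩
    have ha' : ∀ f, a' (io hr hrp f) = a' f := by
      intro f
      by_cases hf : f ∈ H
      · have h6 : io hr hrp f ∉ H := by rw [hH]; exact not_not.2 hf
        simp only [a', dif_neg h6, dif_pos hf]
        congr 1
        exact Subtype.ext (io_io hr hrp f)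
      · have h6 : io hr hrp f ∈ H := (hH f).2 hf
        simp only [a', dif_pos h6, dif_neg hf]
    have hres : ∀ x : H, a' x = a x := by
      intro x
      simp only [a', dif_pos x.2]
    have hs : ∑ x, a' x = 2 * ∑ x, a x := by rw [hsum _ ha', Finset.sum_congr rfl fun x _ => hres x]
    obtain ⟨g, hg, hm⟩ := (himg a').2 ⟨fun h0 => ha.1 (by
      funext x
      rw [← hres, h0]; rfl), ha', by rw [hs]; omega, by
      rw [hs]
      intro h5
      exact ha.2.2 ⟨h5.1, by omega⟩⟩
    refine ⟨g, hg, ?_⟩
    funext x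
    show mu g (x : fac F r) = a x
    rw [hm, hres]
  · intro g h hg hh
    rw [hconj g h hg hh]
    constructor
    · intro h5; rw [h5]
    · intro h5
      exact hext _ _ (hsymm g hg) (hsymm h hh) (fun x => congrFun h5 x)

/-- self-duality criterion -/
theorem io_iff (hr2 : r ≠ 2) (f : fac F r) : io hr hrp f = f ↔ Even (orderOf (Fintype.card F : ZMod r)) := by
  haveI : Fact r.Prime := ⟨hr⟩
  have hne : (-1 : ZMod r) ≠ 1 := by
    intro h
    have h2 : ((2 : ℕ) : ZMod r) = 0 := by push_cast; linear_combination -h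
    rw [ZMod.natCast_eq_zero_iff] at h2
    exact hr2 ((Nat.prime_dvd_prime_iff_eq hr Nat.prime_two).1 h2)
  have hpos := ord_pos (F := F) hr hrp
  constructor
  · intro h
    obtain ⟨j, hj⟩ := exists_of_du_self hr hrp (k := 0) (Q := 1) (by simp) f.2 (congrArg Subtype.val h)
    rw [Nat.cast_one] at hj
    by_contra hcon
    rw [Nat.not_even_iff_odd] at hcon
    apply hne
    have h1 : ((Fintype.card F : ZMod r) ^ j) ^ orderOf (Fintype.card F : ZMod r) = 1 := by rw [← pow_mul, mul_comm, pow_mul, pow_orderOf_eq_one, one_pow]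
    rw [← hj, hcon.neg_one_pow] at h1
    exact h1
  · rintro ⟨b, hb⟩
    have h1 : (Fintype.card F : ZMod r) ^ b * (Fintype.card F : ZMod r) ^ b = 1 := by rw [← pow_add, ← hb, pow_orderOf_eq_one]
    have h2 : (Fintype.card F : ZMod r) ^ b ≠ 1 := by
      intro h3
      have := Nat.le_of_dvd (by omega) (orderOf_dvd_of_pow_eq_one h3)
      omega
    rcases mul_self_eq_one_iff.1 h1 with h | h
    · exact absurd h h2
    · exact Subtype.ext (du_self hr hrp (k := 0) (Q := 1) (by simp) f.2 (j := b) (by rw [h, Nat.cast_one]))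

end count

end CfsgLib.RS
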