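import Mathlib
import Cfsg.Agent.LibRSym3H13
import Cfsg.Agent.LibSemi2H13

/-! Classes of elements of odd prime order in linear groups: glue lemmas (seat helper13). -/

namespace CfsgLib.RS

open Module Polynomial CfsgLib.Typ CfsgLib.SS2 CfsgLib.Dual CfsgLib.Jor CfsgLib.Cnt

section ord
variable {F : Type*} [Field F] {V : Type*} [AddCommGroup V] [Module F V] {G : Type*} [Group G] (ρ : G →* (V ≃ₗ[F] V)) (hρ : Function.Injective ρ)

theorem coe_pow' (T : V ≃ₗ[F] V) (k : ℕ) : (((T ^ k : V ≃ₗ[F] V) : V →ₗ[F] V) : End F V) = ((T : V →ₗ[F] V) : End F V) ^ k := by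
  induction k with
  | zero => rfl
  | succ k ih =>
    rw [pow_succ, pow_succ, ← ih]; rfl

theorem pow_r {g : G} {r : ℕ} (hg : orderOf g = r) : ((ρ g : V →ₗ[F] V) : End F V) ^ r = 1 := by
  rw [← coe_pow', ← map_pow, ← hg, pow_orderOf_eq_one, map_one]; rfl

include hρ in
theorem ord_of {g : G} {r : ℕ} (hr : r.Prime) (h1 : ((ρ g : V →ₗ[F] V) : End F V) ^ r = 1) (h2 : ((ρ g : V →ₗ[F] V) : End F V) ≠ 1) : orderOf g = r := by
  haveI : Fact r.Prime := ⟨hr⟩
  apply orderOf_eq_prime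
  · apply hρ
    rw [map_pow, map_one]
    rw [← coe_pow'] at h1
    ext1 v
    exact LinearMap.congr_fun h1 v
  · intro h
    apply h2
    rw [h, map_one]; rfl

theorem pow_equiv {r : ℕ} (T : V ≃ₗ[F] V) (h1 : ((T : V →ₗ[F] V) : End F V) ^ r = 1) : T ^ r = 1 := by
  rw [← coe_pow'] at h1
  ext1 v
  exact LinearMap.congr_fun h1 v

end ord

section group
variable {F : Type*} [Field F] [Fintype F] {p r : ℕ} [Fact p.Prime] [CharP F p] (hr : r.Prime) (hrp : r ≠ p)
  {V : Type*} [AddCommGroup V] [Module F V] [FiniteDimensional F V] {G : Type*} [Group G] (ρ : G →* (V ≃ₗ[F] V)) (hρ : Function.Injective ρ)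
include p hr hrp

theorem mult_ne_zero {g : G} (hg : orderOf g = r) (hρ : Function.Injective ρ) : mult r (ρ g : V →ₗ[F] V) ≠ 0 := by
  intro h0
  have h1 := eq_one_of_mult hr hrp (pow_r ρ hg) h0
  have h2 : g = 1 := by
    apply hρ
    rw [map_one]
    ext1 v
    exact LinearMap.congr_fun h1 v
  rw [h2, orderOf_one] at hg
  exact hr.one_lt.ne hg

/-- conjugacy from multiplicities once the group detects conjugacy in the general linear group -/
theorem conj_iff (hc : ∀ g h, orderOf g = r → orderOf h = r → (∃ ψ : V ≃ₗ[F] V, ∀ v, ψ (ρ g v) = ρ h (ψ v)) → IsConj g h) (g h : G) (hg : orderOf g = r) (hh : orderOf h = r) :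
    IsConj g h ↔ mult r (ρ g : V →ₗ[F] V) = mult r (ρ h : V →ₗ[F] V) := by
  constructor
  · intro hgh
    obtain ⟨c, hc⟩ := isConj_iff.1 hgh
    refine mult_congr (ρ c) (fun v => ?_)
    show ρ c (ρ g v) = ρ h (ρ c v)
    rw [← hc, map_mul, map_mul, map_inv]
    show _ = ρ c (ρ g ((ρ c)⁻¹ (ρ c v)))
    congr 2
    exact ((ρ c).symm_apply_apply v).symm
  · intro hm
    obtain ⟨ψ, hψ⟩ := conj_of_mult hr hrp (pow_r ρ hg) (pow_r ρ hh) rfl hm
    exact hc g h hg hh ⟨ψ, fun v => hψ v⟩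

end group

end CfsgLib.RS
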