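import Mathlib
import Cfsg.Agent.LibRSym4H13

/-! Classes of elements of odd prime order in classical groups: the final count (seat helper13). -/

namespace CfsgLib.RS

open Module Polynomial CfsgLib.Typ CfsgLib.SS2 CfsgLib.Dual CfsgLib.Jor CfsgLib.Cnt

section fin
variable {F : Type*} [Field F] [Fintype F] {p r : ℕ} [Fact p.Prime] [CharP F p] (hr : r.Prime) (hrp : r ≠ p)
include p hr hrp

theorem card_fac_t {t : ℕ} (ht : t * orderOf (Fintype.card F : ZMod r) = r - 1) : (fac F r).card = t ∧ 1 ≤ t := by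
  have hpos := ord_pos (F := F) hr hrp
  have hcard := card_fac (F := F) hr hrp
  refine ⟨Nat.eq_of_mul_eq_mul_right hpos (hcard.trans ht.symm), ?_⟩
  rcases Nat.eq_zero_or_pos t with h | h
  · rw [h, zero_mul] at ht
    have := hr.two_le
    omega
  · exact h

theorem count_E (hr2 : r ≠ 2) {G : Type*} [Group G] (mu : G → (fac F r → ℕ)) (hconj : ∀ g h, orderOf g = r → orderOf h = r → (IsConj g h ↔ mu g = mu h))
    {t : ℕ} (ht : t * orderOf (Fintype.card F : ZMod r) = r - 1) (hi : Even (orderOf (Fintype.card F : ZMod r))) {D m : ℕ} (hD : D = 2 * m ∨ D = 2 * m + 1) (X : ℕ → Prop)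
    (E : Prop) [Decidable E] (hE : E ↔ (orderOf (Fintype.card F : ZMod r) ∣ 2 * m ∧ X (2 * m / orderOf (Fintype.card F : ZMod r)))) (hX : E → 1 ≤ m)
    (himg : ∀ a, (∃ g, orderOf g = r ∧ mu g = a) ↔ (a ≠ 0 ∧ (∀ f, a (io hr hrp f) = a f) ∧ orderOf (Fintype.card F : ZMod r) * ∑ x, a x ≤ D ∧ ¬ (orderOf (Fintype.card F : ZMod r) * ∑ x, a x = 2 * m ∧ X (∑ x, a x)))) :
    Nat.card {C : ConjClasses G // ∃ g : G, ConjClasses.mk g = C ∧ orderOf g = r} = (D / orderOf (Fintype.card F : ZMod r) + t).choose t - 1 -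
      (if E then (D / orderOf (Fintype.card F : ZMod r) + t - 1).choose (t - 1) else 0) := by
  obtain ⟨ht', ht1⟩ := card_fac_t (F := F) hr hrp ht
  have hpos := ord_pos (F := F) hr hrp
  have hfix : ∀ f : fac F r, io hr hrp f = f := fun f => (io_iff hr hrp hr2 f).2 hi
  have hDe : D / orderOf (Fintype.card F : ZMod r) = 2 * m / orderOf (Fintype.card F : ZMod r) := by
    rcases hD with h | h
    · rw [h]
    · rw [h]
      obtain ⟨j, hj⟩ := hi
      rw [hj]
      have h2 : 0 < j := by omega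
      rw [← two_mul, ← Nat.div_div_eq_div_mul, ← Nat.div_div_eq_div_mul]
      congr 1
      omega
  refine (count_even mu hconj (N := D / orderOf (Fintype.card F : ZMod r)) (E := E) (fun h => ?_) ht' ht1 (fun a => ?_)).trans (by congr)
  · have h1 := hX h
    rw [hDe]
    exact Nat.div_pos (Nat.le_of_dvd (by omega) (hE.1 h).1) hpos
  · rw [himg, hE]
    have e1 : orderOf (Fintype.card F : ZMod r) * ∑ x, a x ≤ D ↔ ∑ x, a x ≤ D / orderOf (Fintype.card F : ZMod r) := by
      rw [Nat.le_div_iff_mul_le hpos, mul_comm]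
    have e2 : (orderOf (Fintype.card F : ZMod r) * ∑ x, a x = 2 * m ∧ X (∑ x, a x)) ↔ ((orderOf (Fintype.card F : ZMod r) ∣ 2 * m ∧ X (2 * m / orderOf (Fintype.card F : ZMod r))) ∧ ∑ x, a x = D / orderOf (Fintype.card F : ZMod r)) := by
      rw [hDe]
      constructor
      · rintro ⟨h1, h2⟩
        have h3 : 2 * m / orderOf (Fintype.card F : ZMod r) = ∑ x, a x := by rw [← h1]; exact Nat.mul_div_cancel_left _ hpos
        exact ⟨⟨⟨_, h1.symm⟩, by rw [h3]; exact h2⟩, h3.symm⟩
      · rintro ⟨⟨h1, h2⟩, h3⟩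
        rw [h3]
        exact ⟨Nat.mul_div_cancel' h1, h2⟩
    rw [e1, e2]
    constructor
    · rintro ⟨h0, -, h1, h2⟩
      exact ⟨h0, h1, h2⟩
    · rintro ⟨h0, h1, h2⟩
      exact ⟨h0, fun f => by rw [hfix], h1, h2⟩

theorem count_O (hr2 : r ≠ 2) {G : Type*} [Group G] (mu : G → (fac F r → ℕ)) (hconj : ∀ g h, orderOf g = r → orderOf h = r → (IsConj g h ↔ mu g = mu h))
    {t : ℕ} (ht : t * orderOf (Fintype.card F : ZMod r) = r - 1) (hi : Odd (orderOf (Fintype.card F : ZMod r))) {D m : ℕ} (hD : D = 2 * m ∨ D = 2 * m + 1) (X : ℕ → Prop)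
    (E : Prop) [Decidable E] (hE : E ↔ (orderOf (Fintype.card F : ZMod r) ∣ m ∧ X (2 * (m / orderOf (Fintype.card F : ZMod r))))) (hX : E → 1 ≤ m)
    (himg : ∀ a, (∃ g, orderOf g = r ∧ mu g = a) ↔ (a ≠ 0 ∧ (∀ f, a (io hr hrp f) = a f) ∧ orderOf (Fintype.card F : ZMod r) * ∑ x, a x ≤ D ∧ ¬ (orderOf (Fintype.card F : ZMod r) * ∑ x, a x = 2 * m ∧ X (∑ x, a x)))) :
    Nat.card {C : ConjClasses G // ∃ g : G, ConjClasses.mk g = C ∧ orderOf g = r} = (m / orderOf (Fintype.card F : ZMod r) + t / 2).choose (t / 2) - 1 -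
      (if E then (m / orderOf (Fintype.card F : ZMod r) + t / 2 - 1).choose (t / 2 - 1) else 0) := by
  obtain ⟨ht', ht1⟩ := card_fac_t (F := F) hr hrp ht
  have hpos := ord_pos (F := F) hr hrp
  have hfix : ∀ f : fac F r, io hr hrp f ≠ f := by
    intro f h
    rw [io_iff hr hrp hr2] at h
    exact (Nat.not_even_iff_odd.2 hi) h
  haveI : DecidableEq (fac F r) := Classical.decEq _
  obtain ⟨H, hH, hsum⟩ := exists_half (io hr hrp) (io_io hr hrp) hfix
  refine (count_odd hr hrp mu hconj (N := m / orderOf (Fintype.card F : ZMod r)) (E := E) (fun h => ?_) ht' ht1 hfix (fun a => ?_)).trans (by congr)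
  · have h1 := hX h
    exact Nat.div_pos (Nat.le_of_dvd (by omega) (hE.1 h).1) hpos
  · rw [himg, hE]
    refine and_congr_right fun h0 => and_congr_right fun hs => ?_
    have h2 := hsum a hs
    have e1 : orderOf (Fintype.card F : ZMod r) * ∑ x, a x ≤ D ↔ ∑ x, a x ≤ 2 * (m / orderOf (Fintype.card F : ZMod r)) + 1 := by
      rw [h2]
      have e3 : ∑ x : H, a x ≤ m / orderOf (Fintype.card F : ZMod r) ↔ orderOf (Fintype.card F : ZMod r) * ∑ x : H, a x ≤ m := by
        rw [Nat.le_div_iff_mul_le hpos, mul_comm]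
      rw [mul_left_comm]
      constructor
      · intro h
        have := e3.2 (by omega)
        omega
      · intro h
        have := e3.1 (by omega)
        omega
    have e2 : (orderOf (Fintype.card F : ZMod r) * ∑ x, a x = 2 * m ∧ X (∑ x, a x)) ↔ ((orderOf (Fintype.card F : ZMod r) ∣ m ∧ X (2 * (m / orderOf (Fintype.card F : ZMod r)))) ∧ ∑ x, a x = 2 * (m / orderOf (Fintype.card F : ZMod r))) := by
      rw [h2, mul_left_comm]
      constructor
      · rintro ⟨h1, h4⟩
        have h5 : orderOf (Fintype.card F : ZMod r) * ∑ x : H, a x = m := by omega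
        have h3 : m / orderOf (Fintype.card F : ZMod r) = ∑ x : H, a x := by rw [← h5]; exact Nat.mul_div_cancel_left _ hpos
        exact ⟨⟨⟨_, h5.symm⟩, by rw [h3]; exact h4⟩, by rw [h3]⟩
      · rintro ⟨⟨h1, h4⟩, h3⟩
        have h5 : ∑ x : H, a x = m / orderOf (Fintype.card F : ZMod r) := by omega
        rw [h5]
        exact ⟨by rw [Nat.mul_div_cancel' h1], h4⟩
    rw [e1, e2]

end fin

end CfsgLib.RS
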