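import Mathlib
import Cfsg.Agent.LibQClsH13
import Cfsg.Agent.LibRSym5H13

/-! Counting vectors of given norm in even-dimensional quadratic spaces; types and elements of prime order (seat helper13). -/

namespace CfsgLib.QCls

open Module Cfsg.Agent.H22

section cnt
universe u
variable {F : Type*} [Field F] [Fintype F] {V : Type*} [AddCommGroup V] [Module F V] [FiniteDimensional F V]

theorem sum_cnt (Q : QuadraticForm F V) : ∑ c : F, cnt Q c = Fintype.card F ^ finrank F V := by
  classical
  haveI : Finite V := Module.finite_of_finite F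
  haveI : Fintype V := Fintype.ofFinite V
  rw [← natcard_space (F := F) (V := V), ← Nat.card_congr (Equiv.sigmaFiberEquiv Q), Nat.card_sigma]
  rfl

theorem aniso_all (Q : QuadraticForm F V) (hQ : (QuadraticMap.polarBilin Q).Nondegenerate) (hfr : finrank F V = 2) (han : ∀ x, Q x = 0 → x = 0) {c : F} (hc : c ≠ 0) :
    cnt Q c = Fintype.card F + 1 := by
  classical
  haveI : Finite V := Module.finite_of_finite F
  have h0 : cnt Q 0 = 1 := by
    unfold cnt
    rw [Nat.card_eq_one_iff_unique]
    exact ⟨⟨fun a b => Subtype.ext ((han _ a.2).trans (han _ b.2).symm)⟩, ⟨0, QuadraticMap.map_zero Q⟩⟩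
  have hle : ∀ d : F, d ≠ 0 → cnt Q d ≤ Fintype.card F + 1 := by
    intro d hd
    by_cases hx : ∃ x, Q x = d
    · obtain ⟨x, rfl⟩ := hx
      rw [aniso_cnt hQ hfr han x (fun h => hd (by rw [h, QuadraticMap.map_zero]))]
    · have : IsEmpty {v : V // Q v = d} := ⟨fun v => hx ⟨v.1, v.2⟩⟩
      unfold cnt
      rw [Nat.card_of_isEmpty]
      exact Nat.zero_le _
  have hs := sum_cnt Q
  rw [hfr, ← Finset.add_sum_erase _ _ (Finset.mem_univ (0 : F)), h0] at hs
  by_contra hne
  have hlt : ∑ x ∈ Finset.univ.erase (0 : F), cnt Q x < ∑ x ∈ Finset.univ.erase (0 : F), (Fintype.card F + 1) :=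
    Finset.sum_lt_sum (fun d hd => hle d (Finset.ne_of_mem_erase hd)) ⟨c, Finset.mem_erase.2 ⟨hc, Finset.mem_univ _⟩, lt_of_le_of_ne (hle c hc) hne⟩
  rw [Finset.sum_const, Finset.card_erase_of_mem (Finset.mem_univ _), Finset.card_univ, smul_eq_mul] at hlt
  obtain ⟨k, hk⟩ : ∃ k, Fintype.card F = k + 1 := ⟨Fintype.card F - 1, by have := Fintype.card_pos (α := F); omega⟩
  rw [hk, Nat.add_sub_cancel] at hlt
  rw [hk] at hs
  nlinarith

theorem cntc_plus (m : ℕ) {c : F} (hc : c ≠ 0) : cnt (qPlus m F) c = Fintype.card F ^ (m - 1) * (Fintype.card F ^ m - 1) := by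
  refine count_zero (fun j => 2 * j) (fun j => Fintype.card F ^ (j - 1) * (Fintype.card F ^ j - 1)) (fun j => by ring) (fun j => ?_) c m _ (qPlus m F) (by simp; ring)
    (famPlus m F) (qfam_plus m) ?_
  · obtain ⟨k, hk⟩ : ∃ k, Fintype.card F = k + 1 := ⟨Fintype.card F - 1, by have := Fintype.card_pos (α := F); omega⟩
    rcases j with _ | j
    · simp
    · show Fintype.card F ^ (j + 1) * (Fintype.card F ^ (j + 1 + 1) - 1) = Fintype.card F * (Fintype.card F ^ j * (Fintype.card F ^ (j + 1) - 1)) + (Fintype.card F - 1) * Fintype.card F ^ (2 * (j + 1))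
      obtain ⟨y, hy⟩ : ∃ y, Fintype.card F ^ (j + 1) = y + 1 := ⟨Fintype.card F ^ (j + 1) - 1, by have := pow_pos (Fintype.card_pos (α := F)) (j + 1); omega⟩
      have e1 : Fintype.card F ^ (j + 1 + 1) = (y + 1) * (k + 1) := by rw [pow_succ, hy, hk]
      have e2 : Fintype.card F ^ (2 * (j + 1)) = (y + 1) * (y + 1) := by rw [two_mul, pow_add, hy]
      have e3 : Fintype.card F * (Fintype.card F ^ j * (Fintype.card F ^ (j + 1) - 1)) = (y + 1) * y := by
        rw [← mul_assoc, ← pow_succ', hy, Nat.add_sub_cancel]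
      rw [e3, e2, e1, hy, hk, Nat.add_sub_cancel]
      have e4 : (y + 1) * (k + 1) - 1 = y * k + y + k := by
        have : (y + 1) * (k + 1) = y * k + y + k + 1 := by ring
        omega
      rw [e4]; ring
  · have : IsEmpty {x : Fin m ⊕ Fin m → F // cperp (qPlus m F) (famPlus m F) x ∧ (qPlus m F) x = c} := by
      refine ⟨fun x => ?_⟩
      have h1 := (cperp_plus m x.1).1 x.2.1
      have h2 := x.2.2
      rw [h1, QuadraticMap.map_zero] at h2
      exact hc h2.symm
    rw [Nat.card_of_isEmpty]; simp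

theorem cntc_minus (k : ℕ) (a b : F) (hab : ∀ z₁ z₂ : F, z₁ ^ 2 + a * z₁ * z₂ + b * z₂ ^ 2 = 0 → z₁ = 0 ∧ z₂ = 0) {c : F} (hc : c ≠ 0) :
    cnt (qMinus k F a b) c = Fintype.card F ^ k * (Fintype.card F ^ (k + 1) + 1) := by
  refine count_zero (fun j => 2 * j + 2) (fun j => Fintype.card F ^ j * (Fintype.card F ^ (j + 1) + 1)) (fun j => by ring) (fun j => ?_) c k _ (qMinus k F a b) (by simp; ring)
    (famMinus k F) (qfam_minus k a b) ?_
  · obtain ⟨l, hl⟩ : ∃ l, Fintype.card F = l + 1 := ⟨Fintype.card F - 1, by have := Fintype.card_pos (α := F); omega⟩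
    simp only [hl, Nat.add_sub_cancel]
    ring
  · have h0 : cnt (qMinus 0 F a b) c = Fintype.card F + 1 := by
      refine aniso_all (qMinus 0 F a b) (nondeg_qMinus 0 a b hab) (by simp) ?_ hc
      intro x hx
      rw [coe_qMinus] at hx
      unfold Cfsg.quadFormMinus at hx
      have := hab (x (.inr 0)) (x (.inr 1)) (by simpa using hx)
      ext k
      rcases k with (i | i) | i
      · exact i.elim0
      · exact i.elim0
      · fin_cases i
        · exact this.1
        · exact this.2
    have h1 : Fintype.card F ^ 0 * (Fintype.card F ^ (0 + 1) + 1) = cnt (qMinus 0 F a b) c := by rw [h0]; simp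
    rw [h1]
    unfold cnt
    refine Nat.card_congr ⟨fun x => ⟨Sum.elim (Sum.elim (fun i => i.elim0) (fun i => i.elim0)) ![x.1 (.inr 0), x.1 (.inr 1)], ?_⟩,
      fun v => ⟨Pi.single (.inr 0) (v.1 (.inr 0)) + Pi.single (.inr 1) (v.1 (.inr 1)), ?_, ?_⟩, ?_, ?_⟩
    · obtain ⟨x, hx1, h2⟩ := x
      rw [(cperp_minus k a b x).1 hx1, coe_qMinus] at h2
      unfold Cfsg.quadFormMinus at h2
      rw [coe_qMinus]
      unfold Cfsg.quadFormMinus
      simpa using h2
    · rw [cperp_minus]; simp
    · obtain ⟨v, h2⟩ := v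
      rw [coe_qMinus] at h2
      unfold Cfsg.quadFormMinus at h2
      rw [coe_qMinus]
      unfold Cfsg.quadFormMinus
      simpa using h2
    · intro x
      apply Subtype.ext
      have h2 := (cperp_minus k a b x.1).1 x.2.1
      show Pi.single (.inr 0) (x.1 (.inr 0)) + Pi.single (.inr 1) (x.1 (.inr 1)) = x.1
      exact h2.symm
    · intro v
      apply Subtype.ext
      ext k
      rcases k with (i | i) | i
      · exact i.elim0
      · exact i.elim0
      · fin_cases i <;> simp

/-- the number of vectors of norm `c` modulo the order of an isometry -/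
theorem cnt_mod (Q : QuadraticForm F V) (T : V ≃ₗ[F] V) (hT : ∀ x, Q (T x) = Q x) {r : ℕ} (hr : r.Prime) (hTr : T ^ r = 1) (c : F) :
    cnt Q c ≡ Nat.card {v : V // Q v = c ∧ T v = v} [MOD r] := by
  classical
  haveI : Fact r.Prime := ⟨hr⟩
  haveI : Finite V := Module.finite_of_finite F
  haveI : Fintype V := Fintype.ofFinite V
  let f : Function.End {v : V // Q v = c} := fun v => ⟨T v.1, (hT _).trans v.2⟩
  have hf : ∀ k : ℕ, ∀ v : {v : V // Q v = c}, ((f ^ k) v : V) = (T ^ k) v := by
    intro k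
    induction k with
    | zero => intro v; rfl
    | succ k ih => intro v; rw [pow_succ', pow_succ', LinearEquiv.mul_apply, ← ih]; rfl
  have hfr : f ^ r ^ 1 = 1 := by
    rw [pow_one]
    funext v
    apply Subtype.ext
    rw [hf, hTr]; rfl
  have key := Equiv.Perm.card_fixedPoints_modEq hfr
  unfold cnt
  rw [Nat.card_eq_fintype_card]
  refine key.trans ?_
  rw [← Nat.card_eq_fintype_card]
  have : Nat.card (Function.fixedPoints f) = Nat.card {v : V // Q v = c ∧ T v = v} := by
    refine Nat.card_congr ⟨fun v => ⟨v.1.1, v.1.2, congrArg Subtype.val v.2⟩, fun v => ⟨⟨v.1, v.2.1⟩, Subtype.ext v.2.2⟩, fun v => rfl, fun v => rfl⟩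
  rw [this]

end cnt

end CfsgLib.QCls
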