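import Mathlib
import Cfsg.Agent.LibQCntH13
import Cfsg.Agent.LibDiscH13

/-! Elements of odd prime order in orthogonal groups: existence (seat helper13). -/

namespace CfsgLib.RS

open Module Polynomial CfsgLib.Typ CfsgLib.SS2 CfsgLib.Dual CfsgLib.Jor CfsgLib.Cnt Cfsg.Agent.H22 CfsgLib.QCls

section num
variable {F : Type*} [Field F] [Fintype F] {p r : ℕ} [Fact p.Prime] [CharP F p] (hr : r.Prime) (hrp : r ≠ p)

theorem two_ne (hr : r.Prime) (hr2 : r ≠ 2) : (1 : ZMod r) ≠ -1 := by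
  haveI : Fact r.Prime := ⟨hr⟩
  intro h
  have h2 : ((2 : ℕ) : ZMod r) = 0 := by push_cast; linear_combination h
  rw [ZMod.natCast_eq_zero_iff] at h2
  exact hr2 ((Nat.prime_dvd_prime_iff_eq hr Nat.prime_two).1 h2)

include p hr hrp

theorem q_ne : ((Fintype.card F : ℕ) : ZMod r) ≠ 0 := by
  haveI : Fact r.Prime := ⟨hr⟩
  intro h
  have h1 := pow_orderOf_eq_one ((Fintype.card F : ℕ) : ZMod r)
  rw [h, zero_pow (by rw [← h]; exact (ord_pos (F := F) hr hrp).ne')] at h1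
  exact zero_ne_one h1

theorem pow_even (hi : Even (orderOf (Fintype.card F : ZMod r))) {m s : ℕ} (h : orderOf (Fintype.card F : ZMod r) * s = 2 * m) :
    ((Fintype.card F : ℕ) : ZMod r) ^ m = (-1) ^ s := by
  haveI : Fact r.Prime := ⟨hr⟩
  obtain ⟨j, hj⟩ := hi
  have hpos := ord_pos (F := F) hr hrp
  have h1 : ((Fintype.card F : ℕ) : ZMod r) ^ j = -1 := by
    have h2 : (((Fintype.card F : ℕ) : ZMod r) ^ j) * (((Fintype.card F : ℕ) : ZMod r) ^ j) = 1 := by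
      rw [← pow_add, ← hj, pow_orderOf_eq_one]
    rcases mul_self_eq_one_iff.1 h2 with h3 | h3
    · have h4 := Nat.le_of_dvd (by omega) (orderOf_dvd_of_pow_eq_one h3)
      omega
    · exact h3
  have h3 : m = j * s := by
    rw [hj] at h
    have : (j + j) * s = 2 * (j * s) := by ring
    omega
  rw [h3, pow_mul, h1]

theorem half_sum (hr2 : r ≠ 2) (hi : Odd (orderOf (Fintype.card F : ZMod r))) (a : fac F r → ℕ) (ha : ∀ f, a (io hr hrp f) = a f) : ∃ h, ∑ f, a f = 2 * h := by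
  classical
  obtain ⟨H, hH, hsum⟩ := exists_half (io (F := F) hr hrp) (io_io hr hrp) (fun f h => by
    rw [io_iff hr hrp hr2] at h
    exact (Nat.not_even_iff_odd.2 hi) h)
  exact ⟨_, hsum a ha⟩

theorem dim_even (hr2 : r ≠ 2) (a : fac F r → ℕ) (ha : ∀ f, a (io hr hrp f) = a f) : ∃ m1, orderOf (Fintype.card F : ZMod r) * ∑ f, a f = 2 * m1 := by
  by_cases hi : Even (orderOf (Fintype.card F : ZMod r))
  · obtain ⟨j, hj⟩ := hi
    exact ⟨j * ∑ f, a f, by rw [hj]; ring⟩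
  · obtain ⟨h, hh⟩ := half_sum hr hrp hr2 (Nat.not_even_iff_odd.1 hi) a ha
    exact ⟨orderOf (Fintype.card F : ZMod r) * h, by rw [hh]; ring⟩

theorem pow_odd (hr2 : r ≠ 2) (hi : Odd (orderOf (Fintype.card F : ZMod r))) {a : fac F r → ℕ} (ha : ∀ f, a (io hr hrp f) = a f) {m : ℕ} (h : orderOf (Fintype.card F : ZMod r) * ∑ f, a f = 2 * m) :
    ((Fintype.card F : ℕ) : ZMod r) ^ m = 1 := by
  obtain ⟨l, hl⟩ := half_sum hr hrp hr2 hi a ha
  rw [hl, mul_left_comm] at h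
  have h2 : m = orderOf (Fintype.card F : ZMod r) * l := by omega
  rw [h2, pow_mul, pow_orderOf_eq_one, one_pow]

end num

section typ
variable {F : Type*} [Field F] [Fintype F] {V W : Type*} [AddCommGroup V] [Module F V] [FiniteDimensional F V] [AddCommGroup W] [Module F W] [FiniteDimensional F W]

theorem cnt_congr (ψ : V ≃ₗ[F] W) (Q : QuadraticForm F V) (Q' : QuadraticForm F W) {d : F} (hd : d ≠ 0) (h : ∀ v, Q v = d * Q' (ψ v)) (c : F) : cnt Q (d * c) = cnt Q' c := by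
  unfold cnt
  refine Nat.card_congr (ψ.toEquiv.subtypeEquiv (fun v => ?_))
  show Q v = d * c ↔ Q' (ψ v) = c
  rw [h]
  exact ⟨fun h => mul_left_cancel₀ hd h, fun h => by rw [h]⟩

theorem full_zero (Q : QuadraticForm F V) (T : V ≃ₗ[F] V) (hT : ∀ x, Q (T x) = Q x) {r : ℕ} (hr : r.Prime) (hTr : T ^ r = 1) (hf : ∀ v, T v = v → v = 0) {c : F} (hc : c ≠ 0) :
    ((cnt Q c : ℕ) : ZMod r) = 0 := by
  have h1 := cnt_mod Q T hT hr hTr c
  have : IsEmpty {v : V // Q v = c ∧ T v = v} := ⟨fun v => hc (by rw [← v.2.1, hf _ v.2.2, QuadraticMap.map_zero])⟩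
  rw [Nat.card_of_isEmpty] at h1
  have := (ZMod.natCast_eq_natCast_iff _ _ _).2 h1
  rw [this, Nat.cast_zero]

/-- transport of an isometry -/
theorem transfer {r : ℕ} (Q : QuadraticForm F V) (Q' : QuadraticForm F W) (T : V ≃ₗ[F] V) (hT : ∀ x, Q (T x) = Q x) (hTr : ((T : V →ₗ[F] V) : End F V) ^ r = 1)
    (ψ : V ≃ₗ[F] W) {d : F} (hd : d ≠ 0) (h : ∀ v, Q v = d * Q' (ψ v)) :
    ∃ A : W ≃ₗ[F] W, (∀ w, Q' (A w) = Q' w) ∧ ((A : W →ₗ[F] W) : End F W) ^ r = 1 ∧ mult r (A : W →ₗ[F] W) = mult r (T : V →ₗ[F] V) := by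
  let A : W ≃ₗ[F] W := ψ.symm.trans (T.trans ψ)
  have hA : ∀ v, ψ (T v) = A (ψ v) := fun v => by
    show ψ (T v) = ψ (T (ψ.symm (ψ v)))
    rw [LinearEquiv.symm_apply_apply]
  refine ⟨A, fun w => ?_, conj_pow ψ hA hTr, (mult_congr ψ hA).symm⟩
  obtain ⟨v, rfl⟩ := ψ.surjective w
  rw [← hA]
  apply mul_left_cancel₀ hd
  rw [← h, ← h, hT]

/-- orthogonal sums -/
def qsum (Q : QuadraticForm F V) (Q' : QuadraticForm F W) : QuadraticForm F (V × W) := Q.comp (LinearMap.fst F V W) + Q'.comp (LinearMap.snd F V W)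

theorem qsum_apply (Q : QuadraticForm F V) (Q' : QuadraticForm F W) (v : V × W) : qsum Q Q' v = Q v.1 + Q' v.2 := rfl

theorem qsum_nondeg {Q : QuadraticForm F V} {Q' : QuadraticForm F W} (hQ : (QuadraticMap.polarBilin Q).Nondegenerate) (hQ' : (QuadraticMap.polarBilin Q').Nondegenerate) :
    (QuadraticMap.polarBilin (qsum Q Q')).Nondegenerate := by
  have hp : ∀ x y : V × W, QuadraticMap.polar (qsum Q Q') x y = QuadraticMap.polar Q x.1 y.1 + QuadraticMap.polar Q' x.2 y.2 := by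
    intro x y
    unfold QuadraticMap.polar
    rw [qsum_apply, qsum_apply, qsum_apply]
    show Q (x.1 + y.1) + Q' (x.2 + y.2) - _ - _ = _
    ring
  apply nondeg_of_left
  intro x hx
  apply Prod.ext
  · apply hQ.1
    intro y
    have h1 := hx (y, 0)
    have h2 : QuadraticMap.polar (qsum Q Q') x (y, 0) = 0 := h1
    rw [hp, QuadraticMap.polar_zero_right, add_zero] at h2
    exact h2
  · apply hQ'.1
    intro y
    have h1 := hx (0, y)
    have h2 : QuadraticMap.polar (qsum Q Q') x (0, y) = 0 := h1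
    rw [hp, QuadraticMap.polar_zero_right, zero_add] at h2
    exact h2

theorem sum_isom (Q : QuadraticForm F V) (Q' : QuadraticForm F W) (T : V ≃ₗ[F] V) (hT : ∀ x, Q (T x) = Q x) (x : V × W) : qsum Q Q' (T.prodCongr (LinearEquiv.refl F W) x) = qsum Q Q' x := by
  rw [qsum_apply, qsum_apply]
  show Q (T x.1) + Q' x.2 = _
  rw [hT]

theorem sum_pow {r : ℕ} (T : V ≃ₗ[F] V) (hTr : ((T : V →ₗ[F] V) : End F V) ^ r = 1) : (((T.prodCongr (LinearEquiv.refl F W) : (V × W) ≃ₗ[F] (V × W)) : (V × W) →ₗ[F] (V × W)) : End F (V × W)) ^ r = 1 := by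
  have : ((T.prodCongr (LinearEquiv.refl F W) : (V × W) ≃ₗ[F] (V × W)) : (V × W) →ₗ[F] (V × W)) = LinearMap.prodMap (T : V →ₗ[F] V) 1 := rfl
  rw [this]
  exact prodMap_pow hTr (one_pow r)

theorem sum_cnt_mod (Q : QuadraticForm F V) (Q' : QuadraticForm F W) (T : V ≃ₗ[F] V) (hT : ∀ x, Q (T x) = Q x) {r : ℕ} (hr : r.Prime) (hTr : ((T : V →ₗ[F] V) : End F V) ^ r = 1) (hf : ∀ v, T v = v → v = 0) (c : F) :
    ((cnt (qsum Q Q') c : ℕ) : ZMod r) = cnt Q' c := by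
  rw [ZMod.natCast_eq_natCast_iff]
  refine (cnt_mod (qsum Q Q') (T.prodCongr (LinearEquiv.refl F W)) (sum_isom Q Q' T hT) hr (pow_equiv _ (sum_pow T hTr)) c).trans ?_
  have : Nat.card {v : V × W // qsum Q Q' v = c ∧ T.prodCongr (LinearEquiv.refl F W) v = v} = cnt Q' c := by
    unfold cnt
    refine Nat.card_congr ⟨fun v => ⟨v.1.2, ?_⟩, fun w => ⟨(0, w.1), ?_, ?_⟩, fun v => ?_, fun w => rfl⟩
    · have h1 : v.1.1 = 0 := hf _ (congrArg Prod.fst v.2.2)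
      have h2 := v.2.1
      rw [qsum_apply, h1, QuadraticMap.map_zero, zero_add] at h2
      exact h2
    · rw [qsum_apply, QuadraticMap.map_zero, zero_add]; exact w.2
    · show (T 0, w.1) = (0, w.1)
      rw [map_zero]
    · have h1 : v.1.1 = 0 := hf _ (congrArg Prod.fst v.2.2)
      exact Subtype.ext (Prod.ext h1.symm rfl)
  rw [this]

end typ

section main
variable {F : Type*} [Field F] [Fintype F] {p r : ℕ} [Fact p.Prime] [CharP F p] (hr : r.Prime) (hrp : r ≠ p)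
  {V W : Type*} [AddCommGroup V] [Module F V] [FiniteDimensional F V] [AddCommGroup W] [Module F W] [FiniteDimensional F W]

theorem cast_plus {m : ℕ} {c : F} (hc : c ≠ 0) : ((cnt (qPlus m F) c : ℕ) : ZMod r) = (Fintype.card F : ZMod r) ^ (m - 1) * ((Fintype.card F : ZMod r) ^ m - 1) := by
  rw [cntc_plus m hc, Nat.cast_mul, Nat.cast_sub (Nat.one_le_pow _ _ Fintype.card_pos)]
  push_cast; rfl

theorem cast_minus {k : ℕ} {a b : F} (hab : ∀ z₁ z₂ : F, z₁ ^ 2 + a * z₁ * z₂ + b * z₂ ^ 2 = 0 → z₁ = 0 ∧ z₂ = 0) {c : F} (hc : c ≠ 0) :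
    ((cnt (qMinus k F a b) c : ℕ) : ZMod r) = (Fintype.card F : ZMod r) ^ k * ((Fintype.card F : ZMod r) ^ (k + 1) + 1) := by
  rw [cntc_minus k a b hab hc, Nat.cast_mul]
  push_cast; rfl

include p hr hrp

theorem full_plus (Q : QuadraticForm F V) (T : V ≃ₗ[F] V) (hT : ∀ x, Q (T x) = Q x) (hTr : ((T : V →ₗ[F] V) : End F V) ^ r = 1) (hf : ∀ v, T v = v → v = 0)
    {m : ℕ} (ψ : V ≃ₗ[F] (Fin m ⊕ Fin m → F)) (h : ∀ v, Q v = qPlus m F (ψ v)) : (Fintype.card F : ZMod r) ^ m = 1 := by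
  haveI : Fact r.Prime := ⟨hr⟩
  have h1 := full_zero Q T hT hr (pow_equiv _ hTr) hf (one_ne_zero (α := F))
  have h2 := cnt_congr ψ Q (qPlus m F) one_ne_zero (fun v => by rw [one_mul]; exact h v) 1
  rw [one_mul] at h2
  rw [h2, cast_plus one_ne_zero, mul_eq_zero] at h1
  rcases h1 with h1 | h1
  · exact absurd (eq_zero_of_pow_eq_zero h1) (q_ne hr hrp)
  · exact sub_eq_zero.1 h1

theorem full_minus (Q : QuadraticForm F V) (T : V ≃ₗ[F] V) (hT : ∀ x, Q (T x) = Q x) (hTr : ((T : V →ₗ[F] V) : End F V) ^ r = 1) (hf : ∀ v, T v = v → v = 0)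
    {k : ℕ} {a b : F} (hab : ∀ z₁ z₂ : F, z₁ ^ 2 + a * z₁ * z₂ + b * z₂ ^ 2 = 0 → z₁ = 0 ∧ z₂ = 0) (ψ : V ≃ₗ[F] ((Fin k ⊕ Fin k) ⊕ Fin 2 → F)) {d : F} (hd : d ≠ 0)
    (h : ∀ v, Q v = d * qMinus k F a b (ψ v)) : (Fintype.card F : ZMod r) ^ (k + 1) = -1 := by
  haveI : Fact r.Prime := ⟨hr⟩
  have h1 := full_zero Q T hT hr (pow_equiv _ hTr) hf (mul_ne_zero hd (one_ne_zero (α := F)))
  have h2 := cnt_congr ψ Q (qMinus k F a b) hd h 1
  rw [h2, cast_minus hab one_ne_zero, mul_eq_zero] at h1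
  rcases h1 with h1 | h1
  · exact absurd (eq_zero_of_pow_eq_zero h1) (q_ne hr hrp)
  · exact eq_neg_of_add_eq_zero_left h1

/-- the two complements give different types -/
theorem not_same (hr2 : r ≠ 2) (Q : QuadraticForm F V) (T : V ≃ₗ[F] V) (hT : ∀ x, Q (T x) = Q x) (hTr : ((T : V →ₗ[F] V) : End F V) ^ r = 1) (hf : ∀ v, T v = v → v = 0)
    {k : ℕ} {a b : F} (hab : ∀ z₁ z₂ : F, z₁ ^ 2 + a * z₁ * z₂ + b * z₂ ^ 2 = 0 → z₁ = 0 ∧ z₂ = 0) {c c' : F} (hc : c ≠ 0) (hc' : c' ≠ 0)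
    (h : cnt (qsum Q (qPlus (k + 1) F)) c = cnt (qsum Q (qMinus k F a b)) c') : False := by
  haveI : Fact r.Prime := ⟨hr⟩
  have h1 := sum_cnt_mod Q (qPlus (k + 1) F) T hT hr hTr hf c
  have h2 := sum_cnt_mod Q (qMinus k F a b) T hT hr hTr hf c'
  rw [h, h2, cast_plus hc, cast_minus hab hc', Nat.add_sub_cancel] at h1
  have h3 := mul_left_cancel₀ (pow_ne_zero _ (q_ne (F := F) hr hrp)) h1
  have h4 : (1 : ZMod r) = -1 := by linear_combination h3
  exact two_ne hr hr2 h4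

end main

end CfsgLib.RS
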