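import Mathlib
import Cfsg.Agent.LibQTypH13

/-! Elements of odd prime order in orthogonal groups: existence and conjugacy (seat helper13). -/

namespace CfsgLib.RS

open Module Polynomial CfsgLib.Typ CfsgLib.SS2 CfsgLib.Dual CfsgLib.Jor CfsgLib.Cnt Cfsg.Agent.H22 CfsgLib.QCls CfsgLib.Disc

section oddc
variable {F : Type*} [Field F] [Fintype F] {V : Type*} [AddCommGroup V] [Module F V] [FiniteDimensional F V]

omit [Fintype F] [FiniteDimensional F V] in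
theorem gram_ne {ι : Type*} [Fintype ι] [DecidableEq ι] (R : QuadraticForm F V) (hR : (QuadraticMap.polarBilin R).Nondegenerate) (b : Basis ι F V) : (gram R b).det ≠ 0 := by
  rw [gram_eq]
  exact (LinearMap.BilinForm.nondegenerate_iff_det_ne_zero b).1 hR

theorem odd_coord (h2 : (2 : F) ≠ 0) (Q : QuadraticForm F V) (hQ : (QuadraticMap.polarBilin Q).Nondegenerate) {m : ℕ} (hfr : finrank F V = 2 * m + 1) :
    ∃ (d : F) (ψ : V ≃ₗ[F] (Unit ⊕ (Fin m ⊕ Fin m) → F)), d ≠ 0 ∧ ∀ v, Q v = d * qOdd m F (ψ v) := by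
  classical
  have hO := nondeg_qOdd (F := F) m h2
  obtain ⟨d, hd⟩ : ∃ d, d = (gram Q (Module.finBasis F V)).det * (gram (qOdd m F) (Pi.basisFun F (Unit ⊕ (Fin m ⊕ Fin m)))).det := ⟨_, rfl⟩
  have hd0 : d ≠ 0 := by rw [hd]; exact mul_ne_zero (gram_ne Q hQ _) (gram_ne _ hO _)
  have hnd : (QuadraticMap.polarBilin (d • qOdd m F)).Nondegenerate := by
    apply nondeg_of_left
    intro x hx
    apply hO.1
    intro y
    have h1 : QuadraticMap.polar (d • qOdd m F) x y = 0 := hx y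
    have h3 : QuadraticMap.polar (d • qOdd m F) x y = d * QuadraticMap.polar (qOdd m F) x y := by
      unfold QuadraticMap.polar
      simp only [QuadraticMap.smul_apply, smul_eq_mul]; ring
    rw [h3] at h1
    exact (mul_eq_zero.1 h1).resolve_left hd0
  have hg : gram (d • qOdd m F) (Pi.basisFun F (Unit ⊕ (Fin m ⊕ Fin m))) = d • gram (qOdd m F) (Pi.basisFun F (Unit ⊕ (Fin m ⊕ Fin m))) := by
    ext i j
    show QuadraticMap.polar (d • qOdd m F) _ _ = d * QuadraticMap.polar (qOdd m F) _ _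
    unfold QuadraticMap.polar
    simp only [QuadraticMap.smul_apply, smul_eq_mul]; ring
  have hsq : IsSquare ((gram Q (Module.finBasis F V)).det * (gram (d • qOdd m F) (Pi.basisFun F (Unit ⊕ (Fin m ⊕ Fin m)))).det) := by
    rw [hg, Matrix.det_smul]
    have hc : Fintype.card (Unit ⊕ (Fin m ⊕ Fin m)) = 2 * m + 1 := by simp; ring
    rw [hc]
    refine ⟨d ^ (m + 1), ?_⟩
    rw [mul_left_comm, ← hd]; ring
  obtain ⟨g, hgg⟩ := (isometric_iff h2 Q (d • qOdd m F) hQ hnd (Module.finBasis F V) (Pi.basisFun F (Unit ⊕ (Fin m ⊕ Fin m))) (by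
    rw [hfr, Module.finrank_fintype_fun_eq_card]; simp; ring)).2 hsq
  exact ⟨d, g, hd0, fun v => (hgg v).symm⟩

end oddc

section ex
variable {F : Type*} [Field F] [Fintype F] {p r : ℕ} [Fact p.Prime] [CharP F p] (hr : r.Prime) (hrp : r ≠ p)
include p hr hrp

theorem exists_base (hr2 : r ≠ 2) (a : fac F r → ℕ) (ha : ∀ f, a (io hr hrp f) = a f) : ∃ (m1 : ℕ) (Q1 : QuadraticForm F (Fin (2 * m1) → F)) (T1 : (Fin (2 * m1) → F) ≃ₗ[F] (Fin (2 * m1) → F)),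
    orderOf (Fintype.card F : ZMod r) * ∑ f, a f = 2 * m1 ∧ (QuadraticMap.polarBilin Q1).Nondegenerate ∧ (∀ x, Q1 (T1 x) = Q1 x) ∧ (∀ v, T1 v = v → v = 0) ∧
    ((T1 : (Fin (2 * m1) → F) →ₗ[F] (Fin (2 * m1) → F)) : End F (Fin (2 * m1) → F)) ^ r = 1 ∧ mult r (T1 : (Fin (2 * m1) → F) →ₗ[F] (Fin (2 * m1) → F)) = a := by
  have hR := rsym_all hr hrp a ha
  obtain ⟨m1, hm1⟩ := dim_even hr hrp hr2 a ha
  rw [hm1] at hR
  obtain ⟨S, T, hS, hs, hT, hf, hTr, hm⟩ := hR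
  obtain ⟨Q, hQ, hQT⟩ := quad_of_sym (hr.odd_of_ne_two hr2) T hf hTr S hS hs hT
  exact ⟨m1, Q, T, hm1, hQ, hQT, hf, hTr, hm⟩

theorem sum_pos {a : fac F r → ℕ} (h0 : a ≠ 0) : 0 < orderOf (Fintype.card F : ZMod r) * ∑ f, a f := by
  refine Nat.mul_pos (ord_pos (F := F) hr hrp) ?_
  rw [Nat.pos_iff_ne_zero]
  intro h
  apply h0
  funext f
  exact Finset.sum_eq_zero_iff.1 h f (Finset.mem_univ _)

theorem mult_sum {V W : Type*} [AddCommGroup V] [Module F V] [FiniteDimensional F V] [AddCommGroup W] [Module F W] [FiniteDimensional F W] (T : V ≃ₗ[F] V)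
    (hTr : ((T : V →ₗ[F] V) : End F V) ^ r = 1) : mult r ((T.prodCongr (LinearEquiv.refl F W) : (V × W) ≃ₗ[F] (V × W)) : (V × W) →ₗ[F] (V × W)) = mult r (T : V →ₗ[F] V) := by
  have : ((T.prodCongr (LinearEquiv.refl F W) : (V × W) ≃ₗ[F] (V × W)) : (V × W) →ₗ[F] (V × W)) = LinearMap.prodMap (T : V →ₗ[F] V) 1 := rfl
  rw [this, mult_prod hr hrp hTr (one_pow r), mult_one hr hrp, add_zero]

theorem exists_Oplus (hr2 : r ≠ 2) {m : ℕ} (a : fac F r → ℕ) (ha : ∀ f, a (io hr hrp f) = a f) (h0 : a ≠ 0) (hle : orderOf (Fintype.card F : ZMod r) * ∑ f, a f ≤ 2 * m)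
    (hfull : orderOf (Fintype.card F : ZMod r) * ∑ f, a f = 2 * m → (Fintype.card F : ZMod r) ^ m = 1) :
    ∃ A : (Fin m ⊕ Fin m → F) ≃ₗ[F] (Fin m ⊕ Fin m → F), (∀ w, qPlus m F (A w) = qPlus m F w) ∧ ((A : (Fin m ⊕ Fin m → F) →ₗ[F] (Fin m ⊕ Fin m → F)) : End F (Fin m ⊕ Fin m → F)) ^ r = 1 ∧
      mult r (A : (Fin m ⊕ Fin m → F) →ₗ[F] (Fin m ⊕ Fin m → F)) = a := by
  obtain ⟨m1, Q1, T1, hm1, hQ1, hT1, hf1, hr1, hmu⟩ := exists_base hr hrp hr2 a ha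
  have hpos := sum_pos hr hrp h0
  rw [hm1] at hpos hle hfull
  obtain ⟨x, y, hab⟩ := exists_aniso F
  rcases Nat.lt_or_ge m1 m with hlt | hge
  · obtain ⟨k, rfl⟩ : ∃ k, m = m1 + k + 1 := ⟨m - m1 - 1, by omega⟩
    have e1 := sum_isom Q1 (qPlus (k + 1) F) T1 hT1
    have e2 := sum_pow (W := Fin (k + 1) ⊕ Fin (k + 1) → F) T1 hr1
    have e3 := mult_sum (W := Fin (k + 1) ⊕ Fin (k + 1) → F) hr hrp T1 hr1
    have e1' := sum_isom Q1 (qMinus k F x y) T1 hT1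
    have e2' := sum_pow (W := (Fin k ⊕ Fin k) ⊕ Fin 2 → F) T1 hr1
    have e3' := mult_sum (W := (Fin k ⊕ Fin k) ⊕ Fin 2 → F) hr hrp T1 hr1
    rcases even_coord (Q := qsum Q1 (qPlus (k + 1) F)) (qsum_nondeg hQ1 (nondeg_qPlus (k + 1))) (m := m1 + k) (by
      rw [Module.finrank_prod, Module.finrank_fintype_fun_eq_card, Module.finrank_fintype_fun_eq_card]; simp; ring) with ⟨φ, hφ⟩ | h1
    · obtain ⟨A, hA1, hA2, hA3⟩ := transfer _ (qPlus (m1 + k + 1) F) _ e1 e2 φ.symm one_ne_zero (fun v => by rw [one_mul, ← hφ, LinearEquiv.apply_symm_apply])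
      exact ⟨A, hA1, hA2, by rw [hA3, e3, hmu]⟩
    · rcases even_coord (Q := qsum Q1 (qMinus k F x y)) (qsum_nondeg hQ1 (nondeg_qMinus k x y hab)) (m := m1 + k) (by
        rw [Module.finrank_prod, Module.finrank_fintype_fun_eq_card, Module.finrank_fintype_fun_eq_card]; simp; ring) with ⟨φ, hφ⟩ | h2
      · obtain ⟨A, hA1, hA2, hA3⟩ := transfer _ (qPlus (m1 + k + 1) F) _ e1' e2' φ.symm one_ne_zero (fun v => by rw [one_mul, ← hφ, LinearEquiv.apply_symm_apply])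
        exact ⟨A, hA1, hA2, by rw [hA3, e3', hmu]⟩
      · exfalso
        obtain ⟨d, φ, hd, hφ⟩ := h1 x y hab
        obtain ⟨d', φ', hd', hφ'⟩ := h2 x y hab
        have c1 := cnt_congr φ.symm _ (qMinus (m1 + k) F x y) hd (fun v => by rw [← hφ, LinearEquiv.apply_symm_apply]) 1
        have c2 := cnt_congr φ'.symm _ (qMinus (m1 + k) F x y) hd' (fun v => by rw [← hφ', LinearEquiv.apply_symm_apply]) 1
        exact not_same hr hrp hr2 Q1 T1 hT1 hr1 hf1 hab (mul_ne_zero hd one_ne_zero) (mul_ne_zero hd' one_ne_zero) (c1.trans c2.symm)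
  · obtain rfl : m1 = m := by omega
    obtain ⟨k, rfl⟩ : ∃ k, m1 = k + 1 := ⟨m1 - 1, by omega⟩
    rcases even_coord hQ1 (m := k) (by rw [Module.finrank_fintype_fun_eq_card]; simp; ring) with ⟨φ, hφ⟩ | h1
    · obtain ⟨A, hA1, hA2, hA3⟩ := transfer Q1 (qPlus (k + 1) F) T1 hT1 hr1 φ.symm one_ne_zero (fun v => by rw [one_mul, ← hφ, LinearEquiv.apply_symm_apply])
      exact ⟨A, hA1, hA2, by rw [hA3, hmu]⟩
    · exfalso
      obtain ⟨d, φ, hd, hφ⟩ := h1 x y hab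
      have h3 := full_minus hr hrp Q1 T1 hT1 hr1 hf1 hab φ.symm hd (fun v => by rw [← hφ, LinearEquiv.apply_symm_apply])
      rw [hfull rfl] at h3
      exact two_ne hr hr2 h3

theorem exists_Ominus (hr2 : r ≠ 2) {k : ℕ} {x y : F} (hab : ∀ z₁ z₂ : F, z₁ ^ 2 + x * z₁ * z₂ + y * z₂ ^ 2 = 0 → z₁ = 0 ∧ z₂ = 0) (a : fac F r → ℕ) (ha : ∀ f, a (io hr hrp f) = a f) (h0 : a ≠ 0)
    (hle : orderOf (Fintype.card F : ZMod r) * ∑ f, a f ≤ 2 * (k + 1))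
    (hfull : orderOf (Fintype.card F : ZMod r) * ∑ f, a f = 2 * (k + 1) → (Fintype.card F : ZMod r) ^ (k + 1) = -1) :
    ∃ A : ((Fin k ⊕ Fin k) ⊕ Fin 2 → F) ≃ₗ[F] ((Fin k ⊕ Fin k) ⊕ Fin 2 → F), (∀ w, qMinus k F x y (A w) = qMinus k F x y w) ∧
      ((A : ((Fin k ⊕ Fin k) ⊕ Fin 2 → F) →ₗ[F] ((Fin k ⊕ Fin k) ⊕ Fin 2 → F)) : End F ((Fin k ⊕ Fin k) ⊕ Fin 2 → F)) ^ r = 1 ∧
      mult r (A : ((Fin k ⊕ Fin k) ⊕ Fin 2 → F) →ₗ[F] ((Fin k ⊕ Fin k) ⊕ Fin 2 → F)) = a := by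
  obtain ⟨m1, Q1, T1, hm1, hQ1, hT1, hf1, hr1, hmu⟩ := exists_base hr hrp hr2 a ha
  have hpos := sum_pos hr hrp h0
  rw [hm1] at hpos hle hfull
  rcases Nat.lt_or_ge m1 (k + 1) with hlt | hge
  · obtain ⟨l, rfl⟩ : ∃ l, k = m1 + l := ⟨k - m1, by omega⟩
    have e1 := sum_isom Q1 (qPlus (l + 1) F) T1 hT1
    have e2 := sum_pow (W := Fin (l + 1) ⊕ Fin (l + 1) → F) T1 hr1
    have e3 := mult_sum (W := Fin (l + 1) ⊕ Fin (l + 1) → F) hr hrp T1 hr1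
    have e1' := sum_isom Q1 (qMinus l F x y) T1 hT1
    have e2' := sum_pow (W := (Fin l ⊕ Fin l) ⊕ Fin 2 → F) T1 hr1
    have e3' := mult_sum (W := (Fin l ⊕ Fin l) ⊕ Fin 2 → F) hr hrp T1 hr1
    rcases even_coord (Q := qsum Q1 (qPlus (l + 1) F)) (qsum_nondeg hQ1 (nondeg_qPlus (l + 1))) (m := m1 + l) (by
      rw [Module.finrank_prod, Module.finrank_fintype_fun_eq_card, Module.finrank_fintype_fun_eq_card]; simp; ring) with ⟨φ, hφ⟩ | h1
    · rcases even_coord (Q := qsum Q1 (qMinus l F x y)) (qsum_nondeg hQ1 (nondeg_qMinus l x y hab)) (m := m1 + l) (by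
        rw [Module.finrank_prod, Module.finrank_fintype_fun_eq_card, Module.finrank_fintype_fun_eq_card]; simp; ring) with ⟨φ', hφ'⟩ | h2
      · exfalso
        have c1 := cnt_congr φ.symm _ (qPlus (m1 + l + 1) F) one_ne_zero (fun v => by rw [one_mul, ← hφ, LinearEquiv.apply_symm_apply]) 1
        have c2 := cnt_congr φ'.symm _ (qPlus (m1 + l + 1) F) one_ne_zero (fun v => by rw [one_mul, ← hφ', LinearEquiv.apply_symm_apply]) 1
        exact not_same hr hrp hr2 Q1 T1 hT1 hr1 hf1 hab (mul_ne_zero one_ne_zero one_ne_zero) (mul_ne_zero one_ne_zero one_ne_zero) (c1.trans c2.symm)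
      · obtain ⟨d, φ, hd, hφ⟩ := h2 x y hab
        obtain ⟨A, hA1, hA2, hA3⟩ := transfer _ (qMinus (m1 + l) F x y) _ e1' e2' φ.symm hd (fun v => by rw [← hφ, LinearEquiv.apply_symm_apply])
        exact ⟨A, hA1, hA2, by rw [hA3, e3', hmu]⟩
    · obtain ⟨d, φ, hd, hφ⟩ := h1 x y hab
      obtain ⟨A, hA1, hA2, hA3⟩ := transfer _ (qMinus (m1 + l) F x y) _ e1 e2 φ.symm hd (fun v => by rw [← hφ, LinearEquiv.apply_symm_apply])
      exact ⟨A, hA1, hA2, by rw [hA3, e3, hmu]⟩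
  · obtain rfl : m1 = k + 1 := by omega
    rcases even_coord hQ1 (m := k) (by rw [Module.finrank_fintype_fun_eq_card]; simp; ring) with ⟨φ, hφ⟩ | h1
    · exfalso
      have h3 := full_plus hr hrp Q1 T1 hT1 hr1 hf1 φ.symm (fun v => by rw [← hφ, LinearEquiv.apply_symm_apply])
      rw [hfull rfl] at h3
      exact two_ne hr hr2 h3.symm
    · obtain ⟨d, φ, hd, hφ⟩ := h1 x y hab
      obtain ⟨A, hA1, hA2, hA3⟩ := transfer Q1 (qMinus k F x y) T1 hT1 hr1 φ.symm hd (fun v => by rw [← hφ, LinearEquiv.apply_symm_apply])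
      exact ⟨A, hA1, hA2, by rw [hA3, hmu]⟩

theorem exists_Oodd (hr2 : r ≠ 2) (h2 : (2 : F) ≠ 0) {m : ℕ} (a : fac F r → ℕ) (ha : ∀ f, a (io hr hrp f) = a f) (hle : orderOf (Fintype.card F : ZMod r) * ∑ f, a f ≤ 2 * m + 1) :
    ∃ A : (Unit ⊕ (Fin m ⊕ Fin m) → F) ≃ₗ[F] (Unit ⊕ (Fin m ⊕ Fin m) → F), (∀ w, qOdd m F (A w) = qOdd m F w) ∧
      ((A : (Unit ⊕ (Fin m ⊕ Fin m) → F) →ₗ[F] (Unit ⊕ (Fin m ⊕ Fin m) → F)) : End F (Unit ⊕ (Fin m ⊕ Fin m) → F)) ^ r = 1 ∧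
      mult r (A : (Unit ⊕ (Fin m ⊕ Fin m) → F) →ₗ[F] (Unit ⊕ (Fin m ⊕ Fin m) → F)) = a := by
  obtain ⟨m1, Q1, T1, hm1, hQ1, hT1, hf1, hr1, hmu⟩ := exists_base hr hrp hr2 a ha
  rw [hm1] at hle
  obtain ⟨k, rfl⟩ : ∃ k, m = m1 + k := ⟨m - m1, by omega⟩
  obtain ⟨d, ψ, hd, hψ⟩ := odd_coord h2 (qsum Q1 (qOdd k F)) (qsum_nondeg hQ1 (nondeg_qOdd k h2)) (m := m1 + k) (by
    rw [Module.finrank_prod, Module.finrank_fintype_fun_eq_card, Module.finrank_fintype_fun_eq_card]; simp; ring)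
  obtain ⟨A, hA1, hA2, hA3⟩ := transfer _ (qOdd (m1 + k) F) _ (sum_isom Q1 (qOdd k F) T1 hT1) (sum_pow T1 hr1) ψ hd hψ
  exact ⟨A, hA1, hA2, by rw [hA3, mult_sum hr hrp T1 hr1, hmu]⟩

/-- no fixed points when the multiplicities fill the space -/
theorem fix_zero {V : Type*} [AddCommGroup V] [Module F V] [FiniteDimensional F V] {T : End F V} (hT : T ^ r = 1) (h : orderOf (Fintype.card F : ZMod r) * ∑ f, mult r T f = finrank F V)
    {v : V} (hv : T v = v) : v = 0 := by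
  classical
  obtain ⟨ι, hι, P, φ, hD⟩ := exists_ss hr hrp T hT
  have h1 := finrank_dec hr hrp hD
  rw [← Finset.sum_congr rfl fun f _ => mult_dec hD f, h] at h1
  have h2 : Fintype.card {i // P i = X - C 1} = 0 := by omega
  have h3 := kd_dec hD (monic_X_sub_C (1 : F)) (irreducible_X_sub_C 1) 1
  rw [h2, mul_zero] at h3
  unfold kd at h3
  rw [pow_one, Submodule.finrank_eq_zero] at h3
  have h4 : v ∈ LinearMap.ker (aeval T (X - C (1 : F))) := by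
    rw [LinearMap.mem_ker, map_sub, aeval_X, aeval_C, map_one, LinearMap.sub_apply, hv, Module.End.one_apply, sub_self]
  rw [h3] at h4
  exact h4

end ex

end CfsgLib.RS
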