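import Mathlib
import Cfsg.Agent.LibQTyp2H13

/-! Elements of odd prime order in orthogonal groups: the groups (seat helper13). -/

namespace CfsgLib.RS

open Module Polynomial CfsgLib.Typ CfsgLib.SS2 CfsgLib.Dual CfsgLib.Jor CfsgLib.Cnt Cfsg.Agent.H22 CfsgLib.QCls CfsgLib.Semi

section grp
variable {F : Type*} [Field F] [Fintype F] {p r : ℕ} [Fact p.Prime] [CharP F p] (hr : r.Prime) (hrp : r ≠ p) {ι : Type} [Fintype ι] [DecidableEq ι] (Q : QuadraticForm F (ι → F))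

/-- the natural representation of the orthogonal group -/
noncomputable def rhoO : ↥(Cfsg.isometryGroup F ⇑Q) →* ((ι → F) ≃ₗ[F] (ι → F)) := (OGrp Q).subtype.comp (oIso Q).toMonoidHom

omit [Fintype F] in
theorem rhoO_inj : Function.Injective (rhoO Q) := by
  intro g h hgh
  exact (oIso Q).injective (Subtype.ext hgh)

omit [Fintype F] in
theorem rhoO_isom (g : ↥(Cfsg.isometryGroup F ⇑Q)) (x : ι → F) : Q (rhoO Q g x) = Q x := (oIso Q g).2 x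

omit [Fintype F] in
theorem exists_rhoO (A : (ι → F) ≃ₗ[F] (ι → F)) (hA : ∀ x, Q (A x) = Q x) : ∃ g, rhoO Q g = A := by
  obtain ⟨g, hg⟩ := (oIso Q).surjective ⟨A, hA⟩
  exact ⟨g, congrArg Subtype.val hg⟩

include p hr hrp

theorem O_conj_iff (hr2 : r ≠ 2) (hQ : (QuadraticMap.polarBilin Q).Nondegenerate) (g h : ↥(Cfsg.isometryGroup F ⇑Q)) (hg : orderOf g = r) (hh : orderOf h = r) :
    (IsConj g h ↔ mult r (rhoO Q g : (ι → F) →ₗ[F] (ι → F)) = mult r (rhoO Q h : (ι → F) →ₗ[F] (ι → F))) := by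
  have hr0 : (r : F) ≠ 0 := by
    rw [Ne, CharP.cast_eq_zero_iff F p]
    intro h
    exact hrp ((Nat.prime_dvd_prime_iff_eq (Fact.out : p.Prime) hr).1 h).symm
  refine conj_iff (V := ι → F) (G := ↥(Cfsg.isometryGroup F ⇑Q)) hr hrp (rhoO Q) ?_ g h hg hh
  intro g h hg hh hψ
  obtain ⟨ψ, hψ⟩ := hψ
  obtain ⟨Gm, hG1, hG2⟩ := orth_conj Q hQ (rhoO Q g) (rhoO_isom Q g) (rhoO Q h) (rhoO_isom Q h) hr0 (hr.odd_of_ne_two hr2) (pow_equiv _ (pow_r (rhoO Q) hg)) ψ hψ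
  obtain ⟨c, hc⟩ := exists_rhoO Q Gm hG1
  rw [isConj_iff]
  refine ⟨c, ?_⟩
  apply rhoO_inj
  rw [map_mul, map_mul, map_inv, hc]
  ext1 v
  show Gm (rhoO Q g (Gm⁻¹ v)) = rhoO Q h v
  rw [hG2]
  congr 1
  exact Gm.apply_symm_apply v

theorem O_himg (a : fac F r → ℕ) : (∃ g : ↥(Cfsg.isometryGroup F ⇑Q), orderOf g = r ∧ mult r (rhoO Q g : (ι → F) →ₗ[F] (ι → F)) = a) ↔
    (a ≠ 0 ∧ ∃ A : (ι → F) ≃ₗ[F] (ι → F), (∀ w, Q (A w) = Q w) ∧ ((A : (ι → F) →ₗ[F] (ι → F)) : End F (ι → F)) ^ r = 1 ∧ mult r (A : (ι → F) →ₗ[F] (ι → F)) = a) := by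
  constructor
  · rintro ⟨g, hg, rfl⟩
    exact ⟨mult_ne_zero (V := ι → F) (G := ↥(Cfsg.isometryGroup F ⇑Q)) hr hrp (rhoO Q) hg (rhoO_inj Q), rhoO Q g, rhoO_isom Q g, pow_r (V := ι → F) (G := ↥(Cfsg.isometryGroup F ⇑Q)) (rhoO Q) hg, rfl⟩
  · rintro ⟨h0, A, hA, hAr, rfl⟩
    obtain ⟨g, hg⟩ := exists_rhoO Q A hA
    refine ⟨g, ord_of (V := ι → F) (G := ↥(Cfsg.isometryGroup F ⇑Q)) (rhoO Q) (rhoO_inj Q) hr (by rw [hg]; exact hAr) (fun h => h0 ?_), by rw [hg]⟩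
    rw [hg] at h
    rw [h, mult_one hr hrp]

theorem nec (hQ : (QuadraticMap.polarBilin Q).Nondegenerate) {A : (ι → F) ≃ₗ[F] (ι → F)} (hA : ∀ w, Q (A w) = Q w) (hAr : ((A : (ι → F) →ₗ[F] (ι → F)) : End F (ι → F)) ^ r = 1) :
    (∀ f, mult r (A : (ι → F) →ₗ[F] (ι → F)) (io hr hrp f) = mult r (A : (ι → F) →ₗ[F] (ι → F)) f) ∧ orderOf (Fintype.card F : ZMod r) * ∑ f, mult r (A : (ι → F) →ₗ[F] (ι → F)) f ≤ Fintype.card ι := by
  constructor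
  · refine mult_isom hr hrp (QuadraticMap.polarBilin Q) hQ A (fun x y => ?_)
    show Q (A x + A y) - Q (A x) - Q (A y) = Q (x + y) - Q x - Q y
    rw [← map_add, hA, hA, hA]
  · have h1 := mult_le hr hrp hAr
    rwa [Module.finrank_fintype_fun_eq_card] at h1

end grp

end CfsgLib.RS
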