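import Cfsg.Prelude
import Cfsg.Agent.LibQTyp3H13
import Cfsg.Agent.LibInvC3H13
import Cfsg.Agent.LibInv2oH13

set_option autoImplicit false

namespace Cfsg.Agent.H22Pn

open Module LinearMap CfsgLib.Inv2 Cfsg.Agent.H22 CfsgLib.Cls CfsgLib.OSum

section tr
variable {F : Type*} [Field F] [Fintype F] [CharP F 2] {ι : Type} [Fintype ι] [DecidableEq ι]
  {Q : QuadraticForm F (ι → F)}

theorem sq_one {c : F} (h : c * c = 1) : c = 1 := by
  have h2 : (2 : F) = 0 := CharTwo.two_eq_zero
  have h1 : (c - 1) * (c - 1) = 0 := by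
    have : (c - 1) * (c - 1) = c * c - 2 * c + 1 := by ring
    rw [this, h, h2]
    have h3 : (1 : F) + 1 = 2 := by norm_num
    rw [zero_mul, sub_zero, h3, h2]
  have := mul_self_eq_zero.mp h1
  exact sub_eq_zero.mp this

theorem trans (hne : ∃ v, Q v ≠ 0) (r : ℕ) :
    (∀ x : GL ι F, x ∈ Cfsg.Geo.omegaGL ⇑Q →
      (∃ z : F, ((x ^ r : GL ι F) : Matrix ι ι F) = z • (1 : Matrix ι ι F)) →
      (∀ z : F, (x : Matrix ι ι F) ≠ z • (1 : Matrix ι ι F)) →
      ∃ W : Submodule F (ι → F), (Module.finrank F ↥W = 1 ∧ ∃ v ∈ W, Q v ≠ 0) ∧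
        W.map (Matrix.toLin' (x : Matrix ι ι F)) ≤ W) ↔
    (∀ A : OGrp Q, A ∈ commutator (OGrp Q) → A ^ r = 1 → A ≠ 1 →
      ∃ v, (A : (ι → F) ≃ₗ[F] (ι → F)) v = v ∧ Q v ≠ 0) := by
  obtain ⟨v0, hv0⟩ := hne
  have hscal : ∀ (g : ↥(Cfsg.isometryGroup F ⇑Q)) (z : F),
      ((g : GL ι F) : Matrix ι ι F) = z • (1 : Matrix ι ι F) → g = 1 := by
    intro g z hz
    have h1 : ((oIso Q g : OGrp Q) : (ι → F) ≃ₗ[F] (ι → F)) v0 = z • v0 := by
      rw [oIso_apply, hz, Matrix.smul_mulVec, Matrix.one_mulVec]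
    have h2 := (oIso Q g).2 v0
    rw [h1, QuadraticMap.map_smul, smul_eq_mul] at h2
    have h3 : z * z = 1 := by
      have : z * z * Q v0 = 1 * Q v0 := by rw [h2, one_mul]
      exact mul_right_cancel₀ hv0 this
    have h4 := sq_one h3
    apply Subtype.ext
    apply Units.ext
    rw [hz, h4, one_smul]
    rfl
  constructor
  · intro H A hA hAr hA1
    set g := (oIso Q).symm A with hg
    have hgA : oIso Q g = A := by rw [hg]; simp
    have hgO : g ∈ Cfsg.Omega F ⇑Q := (mem_Omega_iff Q g).mpr (by rw [hgA]; exact hA)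
    have hgr : g ^ r = 1 := by
      apply (oIso Q).injective
      rw [map_pow, hgA, hAr, map_one]
    obtain ⟨W, ⟨hW1, v, hvW, hv⟩, hW⟩ := H (g : GL ι F) ⟨g, hgO, rfl⟩ ⟨1, by
      have : ((g : GL ι F) ^ r) = 1 := by
        rw [← Subgroup.coe_pow, hgr]; rfl
      rw [this, one_smul]; rfl⟩ (fun z hz => hA1 (by
        rw [← hgA, hscal g z hz, map_one]))
    refine ⟨v, ?_, hv⟩
    have h1 : (A : (ι → F) ≃ₗ[F] (ι → F)) v ∈ W := by
      have : (A : (ι → F) ≃ₗ[F] (ι → F)) v = Matrix.toLin' ((g : GL ι F) : Matrix ι ι F) v := by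
        rw [← hgA, oIso_apply, Matrix.toLin'_apply]
      rw [this]
      exact hW (Submodule.mem_map_of_mem hvW)
    have hv0' : v ≠ 0 := by
      rintro rfl
      exact hv (QuadraticMap.map_zero _)
    obtain ⟨c, hc⟩ := (finrank_eq_one_iff_of_nonzero' (⟨v, hvW⟩ : W) (by
      intro h; exact hv0' (congrArg Subtype.val h))).mp hW1 ⟨_, h1⟩
    have hc' : c • v = (A : (ι → F) ≃ₗ[F] (ι → F)) v := congrArg Subtype.val hc
    have h2 := A.2 v
    rw [← hc', QuadraticMap.map_smul, smul_eq_mul] at h2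
    have h3 : c * c = 1 := by
      have : c * c * Q v = 1 * Q v := by rw [h2, one_mul]
      exact mul_right_cancel₀ hv this
    rw [← hc', sq_one h3, one_smul]
  · intro H x hx ⟨z, hz⟩ hx1
    obtain ⟨g, hg, hgx⟩ := hx
    have hgx' : (g : GL ι F) = x := hgx
    have hgr : g ^ r = 1 := by
      apply hscal _ z
      rw [Subgroup.coe_pow, hgx']
      exact hz
    obtain ⟨v, hv1, hv2⟩ := H (oIso Q g) ((mem_Omega_iff Q g).mp hg) (by
      rw [← map_pow, hgr, map_one]) (by
      intro h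
      have h1 : g = 1 := by
        apply (oIso Q).injective
        rw [h, map_one]
      apply hx1 1
      rw [← hgx', h1, one_smul]; rfl)
    have hv0' : v ≠ 0 := by
      rintro rfl
      exact hv2 (QuadraticMap.map_zero _)
    refine ⟨Submodule.span F {v}, ⟨finrank_span_singleton hv0', v, Submodule.mem_span_singleton_self v, hv2⟩, ?_⟩
    rw [Submodule.map_le_iff_le_comap, Submodule.span_singleton_le_iff_mem, Submodule.mem_comap]
    rw [oIso_apply, hgx'] at hv1
    rw [Matrix.toLin'_apply, hv1]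
    exact Submodule.mem_span_singleton_self v

/-- nonsingular points ↔ vectors of norm one -/
theorem card_pts : Nat.card {W : Submodule F (ι → F) // Module.finrank F ↥W = 1 ∧ ∃ v ∈ W, Q v ≠ 0} =
    cnt Q 1 := by
  have hsq : ∀ c : F, ∃ d : F, d * d = c := by
    intro c
    obtain ⟨d, hd⟩ := FiniteField.isSquare_of_char_two (ringChar.eq F 2) c
    exact ⟨d, hd.symm⟩
  unfold cnt
  symm
  refine Nat.card_congr (Equiv.ofBijective (fun v : {v : ι → F // Q v = 1} =>
    (⟨Submodule.span F {v.1}, finrank_span_singleton (by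
      intro h
      have := v.2
      rw [h, QuadraticMap.map_zero] at this
      exact zero_ne_one this), v.1, Submodule.mem_span_singleton_self _, by rw [v.2]; exact one_ne_zero⟩ :
      {W : Submodule F (ι → F) // Module.finrank F ↥W = 1 ∧ ∃ v ∈ W, Q v ≠ 0})) ⟨?_, ?_⟩)
  · rintro ⟨v, hv⟩ ⟨w, hw⟩ h
    have h1 : Submodule.span F {v} = Submodule.span F {w} := congrArg Subtype.val h
    have h2 : v ∈ Submodule.span F {w} := by rw [← h1]; exact Submodule.mem_span_singleton_self v
    obtain ⟨c, hc⟩ := Submodule.mem_span_singleton.mp h2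
    have h3 : c * c = 1 := by
      have := hv
      rw [← hc, QuadraticMap.map_smul, smul_eq_mul, hw, mul_one] at this
      exact this
    apply Subtype.ext
    show v = w
    rw [← hc, sq_one h3, one_smul]
  · rintro ⟨W, hW, v, hvW, hv⟩
    obtain ⟨d, hd⟩ := hsq (Q v)⁻¹
    have hd0 : d ≠ 0 := by
      rintro rfl
      rw [mul_zero] at hd
      exact inv_ne_zero hv hd.symm
    refine ⟨⟨d • v, ?_⟩, ?_⟩
    · rw [QuadraticMap.map_smul, smul_eq_mul, hd, inv_mul_cancel₀ hv]
    · apply Subtype.ext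
      show Submodule.span F {d • v} = W
      have hv0' : v ≠ 0 := by
        rintro rfl
        exact hv (QuadraticMap.map_zero _)
      apply Submodule.eq_of_le_of_finrank_eq
      · rw [Submodule.span_singleton_le_iff_mem]
        exact W.smul_mem d hvW
      · rw [hW, finrank_span_singleton (smul_ne_zero hd0 hv0')]

end tr

end Cfsg.Agent.H22Pn
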