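import Cfsg.Agent.LibH22Pn1

set_option autoImplicit false

namespace Cfsg.Agent.H22Pn

open Module LinearMap CfsgLib.Inv2 Cfsg.Agent.H22 CfsgLib.Cls CfsgLib.OSum CfsgLib.SS2 CfsgLib.QCls CfsgLib.Typ CfsgLib.InvC CfsgLib.Dual CfsgLib.RS

section abs
variable {F : Type*} [Field F] [Fintype F] [CharP F 2] {V : Type*} [AddCommGroup V] [Module F V]
  [FiniteDimensional F V] {Q : QuadraticForm F V}

theorem par_one_of_odd (hQ : (QuadraticMap.polarBilin Q).Nondegenerate)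
    (hF : (∃ a : F, a ≠ 0 ∧ a ≠ 1) ∨ finrank F V ≠ 4) {r : ℕ} (hr : Odd r) {g : OGrp Q} (hg : g ^ r = 1) :
    par hQ hF g = 1 := by
  have h1 : (par hQ hF g) ^ r = 1 := by rw [← map_pow, hg, map_one]
  rcases Int.units_eq_one_or (par hQ hF g) with h | h
  · exact h
  · rw [h, hr.neg_one_pow] at h1
    exact absurd h1 (by decide)

theorem invol_fix (hQ : (QuadraticMap.polarBilin Q).Nondegenerate) {m : ℕ} (hV : finrank F V = 2 * m)
    {A : OGrp Q} (hA : A ^ 2 = 1)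
    (hno : ¬ ∃ v, (A : V ≃ₗ[F] V) v = v ∧ Q v ≠ 0) :
    finrank F (range (nl (A : V ≃ₗ[F] V))) = m ∧ (∀ v, Q (nl (A : V ≃ₗ[F] V) v) = 0) ∧ Even m := by
  have hT2 : (A : V ≃ₗ[F] V) * (A : V ≃ₗ[F] V) = 1 := by
    rw [pow_two] at hA
    exact congrArg Subtype.val hA
  have h := fix_TS hQ hV hT2 (fun w hw => by
    by_contra hcon
    refine hno ⟨w, ?_, hcon⟩
    rw [nl_apply, sub_eq_zero] at hw
    exact hw)
  refine ⟨h.1, h.2, ?_⟩
  rw [← h.1]
  exact even_of_alt hQ A.2 hT2 h.2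

theorem finish (hQ : (QuadraticMap.polarBilin Q).Nondegenerate)
    (hF : (∃ a : F, a ≠ 0 ∧ a ≠ 1) ∨ finrank F V ≠ 4) (hne : ∃ x : V, x ≠ 0) {r : ℕ} (hr : Odd r)
    (A : V ≃ₗ[F] V) (hA1 : ∀ v, Q (A v) = Q v) (hA2 : ((A : V →ₗ[F] V) : End F V) ^ r = 1)
    (hfix : ∀ v, A v = v → v = 0)
    (H : ∀ A : OGrp Q, A ∈ commutator (OGrp Q) → A ^ r = 1 → A ≠ 1 →
      ∃ v, (A : V ≃ₗ[F] V) v = v ∧ Q v ≠ 0) : False := by
  have hK := (omega_even hQ hF hne).2
  have hAr : (⟨A, hA1⟩ : OGrp Q) ^ r = 1 := by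
    apply Subtype.ext
    show A ^ r = 1
    apply LinearEquiv.ext
    intro x
    have h1 := LinearMap.congr_fun hA2 x
    have h2 : ∀ n : ℕ, ∀ y, (A ^ n) y = (((A : V →ₗ[F] V) : End F V) ^ n) y := by
      intro n
      induction n with
      | zero => intro y; rfl
      | succ n ih =>
        intro y
        rw [pow_succ, pow_succ, LinearEquiv.mul_apply, ih]
        rfl
    exact (h2 r x).trans h1
  obtain ⟨v, hv1, hv2⟩ := H ⟨A, hA1⟩ ((hK _).mpr (par_one_of_odd hQ hF hr hAr)) hAr (by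
    intro h
    obtain ⟨x, hx⟩ := hne
    apply hx
    apply hfix
    have h1 : A = 1 := congrArg Subtype.val h
    rw [h1]; rfl)
  apply hv2
  rw [hfix v hv1]
  exact QuadraticMap.map_zero _

end abs

section plus
variable {F : Type*} [Field F] [Fintype F] [CharP F 2]

theorem plus_two_even {d : ℕ} (hd : 4 ≤ d) (he : Even d)
    (H : ∀ A : OGrp (qPlus d F), A ∈ commutator (OGrp (qPlus d F)) → A ^ 2 = 1 → A ≠ 1 →
      ∃ v, (A : (Fin d ⊕ Fin d → F) ≃ₗ[F] (Fin d ⊕ Fin d → F)) v = v ∧ qPlus d F v ≠ 0) : False := by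
  have hV : finrank F (Fin d ⊕ Fin d → F) = 2 * d := by simp; omega
  have hF : (∃ a : F, a ≠ 0 ∧ a ≠ 1) ∨ finrank F (Fin d ⊕ Fin d → F) ≠ 4 := Or.inr (by omega)
  have hne : ∃ x : Fin d ⊕ Fin d → F, x ≠ 0 := by
    haveI : Nonempty (Fin d) := ⟨⟨0, by omega⟩⟩
    exact exists_ne 0
  have hQ := nondeg_qPlus (F := F) d
  have hK := (omega_even hQ hF hne).2
  obtain ⟨T, hT, hT2, hrk, halt⟩ := exists_alt (F := F) (le_refl d) he
  have hTK : (⟨T, hT⟩ : OGrp (qPlus d F)) ∈ commutator (OGrp (qPlus d F)) :=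
    (mem_K_iff hQ hF _ hK _).mpr (by
      show Even (finrank F (range (nl T)))
      rw [hrk]; exact he)
  obtain ⟨v, hv1, hv2⟩ := H ⟨T, hT⟩ hTK (by
    apply Subtype.ext
    rw [pow_two]; exact hT2) (by
    intro h
    have h1 : T = 1 := congrArg Subtype.val h
    have h2 : nl T = 0 := by
      apply LinearMap.ext
      intro x
      rw [nl_apply, h1]; simp
    rw [h2, LinearMap.range_zero, finrank_bot] at hrk
    omega)
  have hle : range (nl T) ≤ ker (nl T) := by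
    rintro _ ⟨x, rfl⟩; exact nl_sq T hT2 x
  have hfr := LinearMap.finrank_range_add_finrank_ker (nl T)
  have heq : range (nl T) = ker (nl T) := Submodule.eq_of_le_of_finrank_eq hle (by omega)
  have hvk : v ∈ ker (nl T) := by
    rw [LinearMap.mem_ker, nl_apply, sub_eq_zero]; exact hv1
  rw [← heq] at hvk
  obtain ⟨u, rfl⟩ := hvk
  exact hv2 (halt u)

theorem fac_nonempty {r : ℕ} (hr : r.Prime) (hr2 : r ≠ 2) : Nonempty (fac F r) := by
  haveI : Fact (Nat.Prime 2) := ⟨Nat.prime_two⟩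
  have hcard := card_fac (F := F) (p := 2) hr hr2
  rw [← Fintype.card_pos_iff, Fintype.card_coe]
  rcases Nat.eq_zero_or_pos (fac F r).card with h | h
  · rw [h, zero_mul] at hcard
    have := hr.two_le
    omega
  · exact h

theorem plus_odd {d : ℕ} (hd : 4 ≤ d) {r : ℕ} (hr : r.Prime) (hr2 : r ≠ 2)
    (hdvd : r ∣ cnt (qPlus d F) 1)
    (H : ∀ A : OGrp (qPlus d F), A ∈ commutator (OGrp (qPlus d F)) → A ^ r = 1 → A ≠ 1 →
      ∃ v, (A : (Fin d ⊕ Fin d → F) ≃ₗ[F] (Fin d ⊕ Fin d → F)) v = v ∧ qPlus d F v ≠ 0) : False := by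
  haveI : Fact (Nat.Prime 2) := ⟨Nat.prime_two⟩
  haveI : Fact r.Prime := ⟨hr⟩
  have hV : finrank F (Fin d ⊕ Fin d → F) = 2 * d := by simp; omega
  have hF : (∃ a : F, a ≠ 0 ∧ a ≠ 1) ∨ finrank F (Fin d ⊕ Fin d → F) ≠ 4 := Or.inr (by omega)
  have hne : ∃ x : Fin d ⊕ Fin d → F, x ≠ 0 := by
    haveI : Nonempty (Fin d) := ⟨⟨0, by omega⟩⟩
    exact exists_ne 0
  have hQ := nondeg_qPlus (F := F) d
  have hq := q_ne (F := F) (p := 2) hr hr2
  have hqd : (Fintype.card F : ZMod r) ^ d = 1 := by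
    have h1 : ((cnt (qPlus d F) 1 : ℕ) : ZMod r) = 0 := (ZMod.natCast_eq_zero_iff _ _).mpr hdvd
    rw [cast_plus one_ne_zero] at h1
    rcases mul_eq_zero.mp h1 with h2 | h2
    · exact absurd h2 (pow_ne_zero _ hq)
    · exact sub_eq_zero.mp h2
  obtain ⟨s, hs⟩ := orderOf_dvd_of_pow_eq_one hqd
  obtain ⟨f0⟩ := fac_nonempty (F := F) hr hr2
  classical
  let a : fac F r → ℕ := fun f => (if f = f0 then s else 0) + (if io hr hr2 f = f0 then s else 0)
  have ha : ∀ f, a (io hr hr2 f) = a f := by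
    intro f
    simp only [a, io_io]
    ring
  have hsum : ∑ f, a f = 2 * s := by
    simp only [a, Finset.sum_add_distrib]
    have h1 : ∑ f, (if f = f0 then s else 0) = s := by simp
    have h2 : ∑ f, (if io hr hr2 f = f0 then s else 0) = s := by
      have : ∀ f, (if io hr hr2 f = f0 then s else 0) = (if f = io hr hr2 f0 then s else 0) := by
        intro f
        have : io hr hr2 f = f0 ↔ f = io hr hr2 f0 := by
          constructor
          · rintro rfl; rw [io_io]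
          · rintro rfl; rw [io_io]
        simp only [this]
      rw [Finset.sum_congr rfl (fun f _ => this f)]
      simp
    rw [h1, h2]; ring
  have hs0 : s ≠ 0 := by
    rintro rfl
    omega
  have h0 : a ≠ 0 := by
    intro h
    rw [h] at hsum
    simp only [Pi.zero_apply, Finset.sum_const_zero] at hsum
    omega
  have hfull : orderOf (Fintype.card F : ZMod r) * ∑ f, a f = 2 * d := by
    rw [hsum]
    nlinarith [hs]
  obtain ⟨A, hA1, hA2, hA3⟩ := exists_Oplus hr hr2 hr2 (m := d) a ha h0 hfull.le (fun _ => hqd)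
  exact finish hQ hF hne (hr.odd_of_ne_two hr2) A hA1 hA2 (fun v hv =>
    fix_zero hr hr2 hA2 (by rw [hA3, hfull, hV]) hv) H

end plus

section minus
variable {F : Type*} [Field F] [Fintype F] [CharP F 2]

theorem minus_two {k : ℕ} {x y : F} (hab : ∀ z₁ z₂ : F, z₁ ^ 2 + x * z₁ * z₂ + y * z₂ ^ 2 = 0 → z₁ = 0 ∧ z₂ = 0)
    (A : OGrp (qMinus k F x y)) (hA : A ^ 2 = 1) :
    ∃ v, (A : ((Fin k ⊕ Fin k) ⊕ Fin 2 → F) ≃ₗ[F] ((Fin k ⊕ Fin k) ⊕ Fin 2 → F)) v = v ∧ qMinus k F x y v ≠ 0 := by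
  have hV : finrank F ((Fin k ⊕ Fin k) ⊕ Fin 2 → F) = 2 * (k + 1) := by simp; omega
  have hQ := nondeg_qMinus k x y hab
  by_contra hno
  obtain ⟨h1, h2, -⟩ := invol_fix hQ hV hA hno
  have h3 := minus_alt_le hab (T := (A : ((Fin k ⊕ Fin k) ⊕ Fin 2 → F) ≃ₗ[F] ((Fin k ⊕ Fin k) ⊕ Fin 2 → F)))
    (by rw [pow_two] at hA; exact congrArg Subtype.val hA) h2
  omega

theorem minus_odd {k : ℕ} (hk : 3 ≤ k) {x y : F} (hab : ∀ z₁ z₂ : F, z₁ ^ 2 + x * z₁ * z₂ + y * z₂ ^ 2 = 0 → z₁ = 0 ∧ z₂ = 0)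
    {r : ℕ} (hr : r.Prime) (hr2 : r ≠ 2)
    (hdvd : r ∣ cnt (qMinus k F x y) 1)
    (H : ∀ A : OGrp (qMinus k F x y), A ∈ commutator (OGrp (qMinus k F x y)) → A ^ r = 1 → A ≠ 1 →
      ∃ v, (A : ((Fin k ⊕ Fin k) ⊕ Fin 2 → F) ≃ₗ[F] ((Fin k ⊕ Fin k) ⊕ Fin 2 → F)) v = v ∧ qMinus k F x y v ≠ 0) : False := by
  haveI : Fact (Nat.Prime 2) := ⟨Nat.prime_two⟩
  haveI : Fact r.Prime := ⟨hr⟩
  have hV : finrank F ((Fin k ⊕ Fin k) ⊕ Fin 2 → F) = 2 * (k + 1) := by simp; omega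
  have hF : (∃ a : F, a ≠ 0 ∧ a ≠ 1) ∨ finrank F ((Fin k ⊕ Fin k) ⊕ Fin 2 → F) ≠ 4 := Or.inr (by omega)
  have hne : ∃ x : (Fin k ⊕ Fin k) ⊕ Fin 2 → F, x ≠ 0 := exists_ne 0
  have hQ := nondeg_qMinus k x y hab
  have hq := q_ne (F := F) (p := 2) hr hr2
  have hqd : (Fintype.card F : ZMod r) ^ (k + 1) = -1 := by
    have h1 : ((cnt (qMinus k F x y) 1 : ℕ) : ZMod r) = 0 := (ZMod.natCast_eq_zero_iff _ _).mpr hdvd
    rw [cast_minus hab one_ne_zero] at h1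
    rcases mul_eq_zero.mp h1 with h2 | h2
    · exact absurd h2 (pow_ne_zero _ hq)
    · exact eq_neg_of_add_eq_zero_left h2
  have hq2 : (Fintype.card F : ZMod r) ^ (2 * (k + 1)) = 1 := by
    rw [mul_comm, pow_mul, hqd]; ring
  obtain ⟨s, hs⟩ := orderOf_dvd_of_pow_eq_one hq2
  -- the order is even
  have hev : Even (orderOf (Fintype.card F : ZMod r)) := by
    by_contra hodd
    rw [Nat.not_even_iff_odd] at hodd
    have h1 : orderOf (Fintype.card F : ZMod r) ∣ (k + 1) := by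
      refine (Nat.Coprime.dvd_of_dvd_mul_left ?_ ⟨s, hs⟩)
      exact hodd.coprime_two_right
    have h2 := orderOf_dvd_iff_pow_eq_one.mp h1
    rw [hqd] at h2
    exact two_ne hr hr2 h2.symm
  obtain ⟨f0⟩ := fac_nonempty (F := F) hr hr2
  classical
  let a : fac F r → ℕ := fun f => (if f = f0 then s else 0)
  have ha : ∀ f, a (io hr hr2 f) = a f := by
    intro f
    rw [(io_iff hr hr2 hr2 f).mpr hev]
  have hsum : ∑ f, a f = s := by
    simp [a]
  have hs0 : s ≠ 0 := by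
    rintro rfl
    omega
  have h0 : a ≠ 0 := by
    intro h
    rw [h] at hsum
    simp only [Pi.zero_apply, Finset.sum_const_zero] at hsum
    omega
  have hfull : orderOf (Fintype.card F : ZMod r) * ∑ f, a f = 2 * (k + 1) := by
    rw [hsum, hs]
  obtain ⟨A, hA1, hA2, hA3⟩ := exists_Ominus hr hr2 hr2 (k := k) hab a ha h0 hfull.le (fun _ => hqd)
  exact finish hQ hF hne (hr.odd_of_ne_two hr2) A hA1 hA2 (fun v hv =>
    fix_zero hr hr2 hA2 (by rw [hA3, hfull, hV]) hv) H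

end minus

end Cfsg.Agent.H22Pn
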