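import Cfsg.Agent.LibH22HermS

set_option autoImplicit false

/-! Element orders in `PSU_3(q)`: general facts and upper bounds (seat helper22). -/

namespace Cfsg.Agent.H22.Sp

open Matrix Polynomial

variable {F : Type*} [Field F] [Fintype F] {q : ℕ}

/-- the matrix of an element of `SU_3` -/
abbrev mt (A : Cfsg.SU 3 F q) : Matrix (Fin 3) (Fin 3) F := ((A.1 : Matrix.SpecialLinearGroup (Fin 3) F) : Matrix (Fin 3) (Fin 3) F)

lemma mt_pow (A : Cfsg.SU 3 F q) (m : ℕ) : mt (A ^ m) = mt A ^ m := by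
  show ((((A ^ m : Cfsg.SU 3 F q)).1 : Matrix.SpecialLinearGroup (Fin 3) F) : Matrix (Fin 3) (Fin 3) F) = _
  rw [SubmonoidClass.coe_pow, Matrix.SpecialLinearGroup.coe_pow]

lemma ord_dvd_iff (hF : Fintype.card F = q ^ 2) (A : Cfsg.SU 3 F q) (m : ℕ) :
    orderOf (QuotientGroup.mk A : Cfsg.PSU 3 F q) ∣ m ↔ ∃ c : F, mt A ^ m = Matrix.scalar (Fin 3) c := by
  rw [orderOf_dvd_iff_pow_eq_one, ← QuotientGroup.mk_pow, QuotientGroup.eq_one_iff]
  constructor
  · intro h
    obtain ⟨c, hc⟩ := center_SU_scalar hF (by norm_num) h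
    exact ⟨c, by rw [← mt_pow]; exact hc⟩
  · rintro ⟨c, hc⟩
    rw [Subgroup.mem_center_iff]
    intro B
    apply Subtype.ext
    apply Subtype.ext
    show mt B * mt (A ^ m) = mt (A ^ m) * mt B
    rw [mt_pow, hc]
    exact (Matrix.scalar_commute c (fun _ => mul_comm _ _) _).symm

lemma ord_eq (hF : Fintype.card F = q ^ 2) (A : Cfsg.SU 3 F q) (N : ℕ)
    (h : ∀ k : ℕ, (∃ c : F, mt A ^ k = Matrix.scalar (Fin 3) c) ↔ N ∣ k) :
    orderOf (QuotientGroup.mk A : Cfsg.PSU 3 F q) = N := by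
  apply Nat.dvd_antisymm
  · rw [ord_dvd_iff hF, h]
  · rw [← h, ← ord_dvd_iff hF]

lemma range_of (hF : Fintype.card F = q ^ 2) {N : ℕ} (hN : 0 < N) (h : ∃ x : Cfsg.PSU 3 F q, orderOf x = N) {s : ℕ} (hs : s ∣ N) :
    s ∈ Set.range (orderOf : Cfsg.PSU 3 F q → ℕ) := by
  obtain ⟨x, hx⟩ := h
  obtain ⟨k, hk⟩ := hs
  have hk0 : k ≠ 0 := by rintro rfl; rw [mul_zero] at hk; omega
  refine ⟨x ^ k, ?_⟩
  rw [orderOf_pow_of_dvd hk0 (by rw [hx, hk]; exact Dvd.intro_left _ rfl), hx, hk]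
  exact Nat.mul_div_cancel _ (Nat.pos_of_ne_zero hk0)

/-! characteristic polynomial -/

lemma cp3 {R : Type*} [CommRing R] (M : Matrix (Fin 3) (Fin 3) R) :
    M.charpoly = X ^ 3 - C M.trace * X ^ 2 + C M.adjugate.trace * X - C M.det := by
  rw [Matrix.charpoly, Matrix.charmatrix, Matrix.det_fin_three, Matrix.det_fin_three, Matrix.trace_fin_three, Matrix.trace_fin_three,
    Matrix.adjugate_fin_three]
  simp only [Matrix.sub_apply, Matrix.scalar_apply, Matrix.diagonal_apply, Matrix.map_apply, Fin.isValue, RingHom.mapMatrix_apply,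
    Matrix.of_apply, Matrix.cons_val', Matrix.cons_val_zero, Matrix.cons_val_one, Matrix.cons_val, Matrix.cons_val_fin_one,
    map_add, map_sub, map_mul, map_neg]
  simp
  ring

/-- the characteristic polynomial over an extension splits as given -/
def Spl {K : Type*} [Field K] [Algebra F K] (M : Matrix (Fin 3) (Fin 3) F) (a b c : K) : Prop :=
  M.charpoly.map (algebraMap F K) = (X - C a) * (X - C b) * (X - C c)

lemma Spl.rot {K : Type*} [Field K] [Algebra F K] {M : Matrix (Fin 3) (Fin 3) F} {a b c : K} (h : Spl M a b c) : Spl M b c a := by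
  unfold Spl at h ⊢; rw [h]; ring

lemma Spl.swap {K : Type*} [Field K] [Algebra F K] {M : Matrix (Fin 3) (Fin 3) F} {a b c : K} (h : Spl M a b c) : Spl M b a c := by
  unfold Spl at h ⊢; rw [h]; ring

lemma exists_spl (M : Matrix (Fin 3) (Fin 3) F) : ∃ a b c : AlgebraicClosure F, Spl M a b c := by
  have h1 : (M.charpoly.map (algebraMap F (AlgebraicClosure F))).Splits := IsAlgClosed.splits _
  have hm : (M.charpoly.map (algebraMap F (AlgebraicClosure F))).Monic := (Matrix.charpoly_monic M).map _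
  have hd : (M.charpoly.map (algebraMap F (AlgebraicClosure F))).natDegree = 3 := by
    rw [Polynomial.natDegree_map, Matrix.charpoly_natDegree_eq_dim, Fintype.card_fin]
  have hc : (M.charpoly.map (algebraMap F (AlgebraicClosure F))).roots.card = 3 := by
    exact (h1.natDegree_eq_card_roots).symm.trans hd
  obtain ⟨a, b, c, h⟩ := Multiset.card_eq_three.1 hc
  refine ⟨a, b, c, ?_⟩
  have h2 := h1.eq_prod_roots_of_monic hm
  rw [h] at h2
  unfold Spl
  rw [h2]
  simp [mul_assoc]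

lemma scalar_of_map {K : Type*} [Field K] [Algebra F K] {N : Matrix (Fin 3) (Fin 3) F} {s : K}
    (h : N.map (algebraMap F K) = Matrix.scalar (Fin 3) s) : ∃ c : F, N = Matrix.scalar (Fin 3) c := by
  have h1 : ∀ i j, algebraMap F K (N i j) = if i = j then s else 0 := by
    intro i j
    have := congrFun (congrFun h i) j
    rw [Matrix.map_apply, Matrix.scalar_apply, Matrix.diagonal_apply] at this
    exact this
  refine ⟨N 0 0, ?_⟩
  ext i j
  rw [Matrix.scalar_apply, Matrix.diagonal_apply]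
  apply (algebraMap F K).injective
  rw [h1]
  split_ifs with hij
  · rw [h1]; rfl
  · rw [map_zero]

lemma aeval_map0 {K : Type*} [Field K] [Algebra F K] (M : Matrix (Fin 3) (Fin 3) F) {P : K[X]}
    (hP : M.charpoly.map (algebraMap F K) ∣ P) : aeval (M.map (algebraMap F K)) P = 0 := by
  obtain ⟨Q, rfl⟩ := hP
  have h1 : M.charpoly.map (algebraMap F K) = (M.map (algebraMap F K)).charpoly := (Matrix.charpoly_map M (algebraMap F K)).symm
  rw [map_mul, h1, Matrix.aeval_self_charpoly, zero_mul]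

lemma dvd_of_root {K : Type*} [Field K] {P : K[X]} {a : K} (h : P.eval a = 0) : (X - C a) ∣ P := dvd_iff_isRoot.2 h

/-- distinct eigenvalues -/
lemma ss {K : Type*} [Field K] [Algebra F K] {M : Matrix (Fin 3) (Fin 3) F} {a b c : K} (h : Spl M a b c)
    (hab : a ≠ b) (hbc : b ≠ c) (hac : a ≠ c) {m : ℕ} (h1 : a ^ m = b ^ m) (h2 : b ^ m = c ^ m) :
    ∃ z : F, M ^ m = Matrix.scalar (Fin 3) z := by
  have h3 : M.charpoly.map (algebraMap F K) ∣ (X ^ m - C (c ^ m)) := by
    rw [h]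
    refine IsCoprime.mul_dvd ?_ (IsCoprime.mul_dvd ?_ (dvd_of_root ?_) (dvd_of_root ?_)) (dvd_of_root ?_)
    · exact IsCoprime.mul_left (Polynomial.isCoprime_X_sub_C_of_isUnit_sub (sub_ne_zero.2 hac).isUnit)
        (Polynomial.isCoprime_X_sub_C_of_isUnit_sub (sub_ne_zero.2 hbc).isUnit)
    · exact Polynomial.isCoprime_X_sub_C_of_isUnit_sub (sub_ne_zero.2 hab).isUnit
    · simp [h1, h2]
    · simp [h2]
    · simp
  have h4 := aeval_map0 M h3
  rw [map_sub, map_pow, aeval_X, aeval_C, sub_eq_zero] at h4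
  apply scalar_of_map (K := K) (s := c ^ m)
  rw [Matrix.map_pow, h4]
  rfl

/-- general eigenvalues -/
lemma pp {K : Type*} [Field K] [Algebra F K] {p : ℕ} [Fact p.Prime] [CharP F p] (hp : p ≠ 2) {M : Matrix (Fin 3) (Fin 3) F} {a b c : K} (h : Spl M a b c)
    {m : ℕ} (h1 : a ^ m = b ^ m) (h2 : b ^ m = c ^ m) :
    ∃ z : F, M ^ (m * p) = Matrix.scalar (Fin 3) z := by
  haveI : CharP K p := charP_of_injective_algebraMap (algebraMap F K).injective p
  have hp3 : 3 ≤ p := by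
    have := (Fact.out : p.Prime).two_le
    omega
  have h3 : M.charpoly.map (algebraMap F K) ∣ (X ^ m - C (c ^ m)) ^ 3 := by
    rw [h, pow_succ, pow_two]
    refine mul_dvd_mul (mul_dvd_mul (dvd_of_root ?_) (dvd_of_root ?_)) (dvd_of_root ?_)
    · simp [h1, h2]
    · simp [h2]
    · simp
  have h3' : M.charpoly.map (algebraMap F K) ∣ (X ^ m - C (c ^ m)) ^ p := h3.trans (pow_dvd_pow _ hp3)
  have h4 := aeval_map0 M h3'
  rw [sub_pow_char] at h4
  rw [map_sub, ← pow_mul, map_pow, aeval_X, ← map_pow C, aeval_C, sub_eq_zero] at h4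
  apply scalar_of_map (K := K) (s := (c ^ m) ^ p)
  rw [Matrix.map_pow, h4]
  rfl

/-! combinatorics of eigenvalues -/

lemma match3 {K : Type*} [Field K] {a b c A B C : K} (h0 : a * b * c = 1) (h1 : A + B + C = a * b + b * c + c * a)
    (h2 : A * B + B * C + C * A = a + b + c) (h3 : A * B * C = 1) :
    (A * a = 1 ∧ B * b = 1 ∧ C * c = 1) ∨ (A * a = 1 ∧ B * c = 1 ∧ C * b = 1) ∨ (A * c = 1 ∧ B * b = 1 ∧ C * a = 1) ∨
    (A * b = 1 ∧ B * a = 1 ∧ C * c = 1) ∨ (A * b = 1 ∧ B * c = 1 ∧ C * a = 1) ∨ (A * c = 1 ∧ B * a = 1 ∧ C * b = 1) := by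
  have key : ∀ {a b c A B C : K}, a * b * c = 1 → A + B + C = a * b + b * c + c * a → A * B * C = 1 → A = b * c →
      (B = c * a ∧ C = a * b) ∨ (B = a * b ∧ C = c * a) := by
    intro a b c A B C h0 h1 h3 hA
    have h4 : B * C = a := by
      have : a * (A * B * C) = a := by rw [h3, mul_one]
      rw [hA] at this
      linear_combination this - (B * C) * h0
    have h5 : (B - c * a) * (B - a * b) = 0 := by
      linear_combination B * (h1 - hA) - h4 + a * h0
    rcases mul_eq_zero.1 h5 with h | h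
    · left
      exact ⟨sub_eq_zero.1 h, by linear_combination h1 - hA - h⟩
    · right
      exact ⟨sub_eq_zero.1 h, by linear_combination h1 - hA - h⟩
  have h5 : (A - b * c) * ((A - c * a) * (A - a * b)) = 0 := by
    linear_combination A ^ 2 * h1 - A * h2 + h3 + (A * (a + b + c) - (a * b * c + 1)) * h0
  rcases mul_eq_zero.1 h5 with h | h
  · rcases key h0 h1 h3 (sub_eq_zero.1 h) with ⟨h6, h7⟩ | ⟨h6, h7⟩
    · left
      rw [sub_eq_zero.1 h, h6, h7]
      exact ⟨by linear_combination h0, by linear_combination h0, by linear_combination h0⟩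
    · right; left
      rw [sub_eq_zero.1 h, h6, h7]
      exact ⟨by linear_combination h0, by linear_combination h0, by linear_combination h0⟩
  rcases mul_eq_zero.1 h with h | h
  · rcases key (a := b) (b := c) (c := a) (by linear_combination h0) (by linear_combination h1) h3 (sub_eq_zero.1 h) with ⟨h6, h7⟩ | ⟨h6, h7⟩
    · right; right; right; right; left
      rw [sub_eq_zero.1 h, h6, h7]
      exact ⟨by linear_combination h0, by linear_combination h0, by linear_combination h0⟩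
    · right; right; right; left
      rw [sub_eq_zero.1 h, h6, h7]
      exact ⟨by linear_combination h0, by linear_combination h0, by linear_combination h0⟩
  · rcases key (a := c) (b := a) (c := b) (by linear_combination h0) (by linear_combination h1) h3 (sub_eq_zero.1 h) with ⟨h6, h7⟩ | ⟨h6, h7⟩
    · right; right; right; right; right
      rw [sub_eq_zero.1 h, h6, h7]
      exact ⟨by linear_combination h0, by linear_combination h0, by linear_combination h0⟩
    · right; right; left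
      rw [sub_eq_zero.1 h, h6, h7]
      exact ⟨by linear_combination h0, by linear_combination h0, by linear_combination h0⟩

lemma cubic_coeffs {K : Type*} [Field K] {a b c s t u : K}
    (h : (X ^ 3 - C s * X ^ 2 + C t * X - C u : K[X]) = (X - C a) * (X - C b) * (X - C c)) :
    a + b + c = s ∧ a * b + b * c + c * a = t ∧ a * b * c = u := by
  have h1 : ((X - C a) * (X - C b) * (X - C c) : K[X]) = X ^ 3 - C (a + b + c) * X ^ 2 + C (a * b + b * c + c * a) * X - C (a * b * c) := by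
    simp only [map_add, map_mul]; ring
  rw [h1] at h
  clear h1
  generalize a + b + c = s' at h ⊢
  generalize a * b + b * c + c * a = t' at h ⊢
  generalize a * b * c = u' at h ⊢
  have e0 := congrArg (fun P => coeff P 0) h
  have e1 := congrArg (fun P => coeff P 1) h
  have e2 := congrArg (fun P => coeff P 2) h
  simp [coeff_X, coeff_C, coeff_X_pow] at e0 e1 e2
  exact ⟨e2.symm, e1.symm, e0.symm⟩

/-- arithmetic of `gcd(3, q+1)` -/
lemma d_dvd {q : ℕ} (hq : 2 ≤ q) : Nat.gcd 3 (q + 1) ∣ 3 ∧ Nat.gcd 3 (q + 1) ∣ q + 1 ∧ Nat.gcd 3 (q + 1) ∣ q - 2 ∧ Nat.gcd 3 (q + 1) ∣ q ^ 2 - 1 ∧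
    Nat.gcd 3 (q + 1) ∣ q ^ 2 - q + 1 ∧ 0 < Nat.gcd 3 (q + 1) := by
  have h3 : Nat.gcd 3 (q + 1) ∣ 3 := Nat.gcd_dvd_left _ _
  have h1 : Nat.gcd 3 (q + 1) ∣ q + 1 := Nat.gcd_dvd_right _ _
  have h2 : Nat.gcd 3 (q + 1) ∣ q - 2 := by
    have e : q - 2 = (q + 1) - 3 := by omega
    rw [e]; exact Nat.dvd_sub h1 h3
  refine ⟨h3, h1, h2, ?_, ?_, Nat.gcd_pos_of_pos_left _ (by norm_num)⟩
  · have e : q ^ 2 - 1 = (q + 1) * (q - 1) := by
      obtain ⟨k, rfl⟩ : ∃ k, q = k + 1 := ⟨q - 1, by omega⟩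
      rw [Nat.add_sub_cancel]
      have : (k + 1) ^ 2 = (k + 1 + 1) * k + 1 := by ring
      omega
    rw [e]; exact Dvd.dvd.mul_right h1 _
  · have e : q ^ 2 - q + 1 = (q + 1) * (q - 2) + 3 := by
      obtain ⟨k, rfl⟩ : ∃ k, q = k + 2 := ⟨q - 2, by omega⟩
      rw [Nat.add_sub_cancel]
      have : (k + 2) ^ 2 = (k + 2) * (k + 1) + (k + 2) := by ring
      rw [this, Nat.add_sub_cancel]; ring
    rw [e]; exact (Nat.dvd_add_right (Dvd.dvd.mul_right h1 _)).2 h3

/-- frobenius -/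
lemma exists_frob (K : Type*) [Field K] [Algebra F K] (p : ℕ) [Fact p.Prime] [CharP F p] (hF : Fintype.card F = q ^ 2) :
    ∃ φ : K →+* K, ∀ x, φ x = x ^ q := by
  haveI : CharP K p := charP_of_injective_algebraMap (algebraMap F K).injective p
  obtain ⟨n, hp, hc⟩ := FiniteField.card F p
  have h1 : q ∣ p ^ (n : ℕ) := by rw [← hc, hF]; exact dvd_pow_self q (by norm_num)
  obtain ⟨k, -, hk⟩ := (Nat.dvd_prime_pow hp).1 h1
  exact ⟨iterateFrobenius K p k, fun x => by rw [iterateFrobenius_def, hk]⟩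

/-- the eigenvalue relations -/
lemma eig {K : Type*} [Field K] [Algebra F K] (p : ℕ) [Fact p.Prime] [CharP F p] (hF : Fintype.card F = q ^ 2) {σ : F →+* F} (hσ : ∀ x, σ x = x ^ q)
    {M : Matrix (Fin 3) (Fin 3) F} (hd : M.det = 1) (hU : Mᵀ * M.map σ = 1) {a b c : K} (h : Spl M a b c) :
    a * b * c = 1 ∧ a ^ q + b ^ q + c ^ q = a * b + b * c + c * a ∧
      a ^ q * b ^ q + b ^ q * c ^ q + c ^ q * a ^ q = a + b + c ∧ a ^ q * b ^ q * c ^ q = 1 := by
  obtain ⟨φ, hφ⟩ := exists_frob K p hF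
  have hadj : M.adjugate = (M.map σ)ᵀ := by
    have h1 : (M.map σ)ᵀ * M = 1 := by
      have := congrArg Matrix.transpose hU
      rwa [Matrix.transpose_mul, Matrix.transpose_transpose, Matrix.transpose_one] at this
    calc M.adjugate = ((M.map σ)ᵀ * M) * M.adjugate := by rw [h1, Matrix.one_mul]
      _ = (M.map σ)ᵀ := by rw [Matrix.mul_assoc, Matrix.mul_adjugate, hd, one_smul, Matrix.mul_one]
  have htr : M.adjugate.trace = M.trace ^ q := by
    rw [hadj, Matrix.trace_transpose, ← hσ]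
    exact (AddMonoidHom.map_trace σ M).symm
  unfold Spl at h
  rw [cp3, hd, htr] at h
  simp only [Polynomial.map_sub, Polynomial.map_add, Polynomial.map_mul, Polynomial.map_pow, Polynomial.map_X, Polynomial.map_C, Polynomial.map_one, map_one, map_pow] at h
  obtain ⟨e1, e2, e3⟩ := cubic_coeffs (s := algebraMap F K M.trace) (t := (algebraMap F K M.trace) ^ q) (u := 1) (by rw [← h]; simp)
  have ht : ((algebraMap F K M.trace) ^ q) ^ q = algebraMap F K M.trace := by
    rw [← pow_mul, ← pow_two, ← map_pow, ← hF, FiniteField.pow_card]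
  refine ⟨e3, ?_, ?_, ?_⟩
  · rw [e2, ← e1, ← hφ, ← hφ, ← hφ, ← hφ, map_add, map_add]
  · rw [e1, ← ht, ← e2, ← hφ, ← hφ, ← hφ, ← hφ, map_add, map_add, map_mul, map_mul, map_mul]
  · rw [← mul_pow, ← mul_pow, e3, one_pow]

/-- the conclusion for one matrix -/
def Good (p q : ℕ) (M : Matrix (Fin 3) (Fin 3) F) : Prop :=
  (∃ z : F, M ^ (q + 1) = Matrix.scalar (Fin 3) z) ∨ (∃ z : F, M ^ (p * (q + 1) / Nat.gcd 3 (q + 1)) = Matrix.scalar (Fin 3) z) ∨
  (∃ z : F, M ^ ((q ^ 2 - 1) / Nat.gcd 3 (q + 1)) = Matrix.scalar (Fin 3) z) ∨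
  (∃ z : F, M ^ ((q ^ 2 - q + 1) / Nat.gcd 3 (q + 1)) = Matrix.scalar (Fin 3) z)

section
variable {K : Type*} [Field K] [Algebra F K]

lemma pow_dvd_one {x : K} {m n : ℕ} (h : x ^ m = 1) (hmn : m ∣ n) : x ^ n = 1 := by
  obtain ⟨k, rfl⟩ := hmn
  rw [pow_mul, h, one_pow]

/-- two equal eigenvalues, all of norm one -/
lemma good_eq (p : ℕ) [Fact p.Prime] [CharP F p] (hp : p ≠ 2) (hq : 2 ≤ q) {M : Matrix (Fin 3) (Fin 3) F} {a b : K} (h : Spl M a b b)
    (h0 : a * b * b = 1) (hb : b ^ (q + 1) = 1) : Good p q M := by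
  right; left
  obtain ⟨d3, d1, d2, d4, d5, dpos⟩ := d_dvd hq
  have e : p * (q + 1) / Nat.gcd 3 (q + 1) = ((q + 1) / Nat.gcd 3 (q + 1)) * p := by
    rw [Nat.mul_div_assoc _ d1, mul_comm]
  rw [e]
  refine pp (K := K) hp h ?_ rfl
  have h1 : b ^ (((q + 1) / Nat.gcd 3 (q + 1)) * 3) = 1 := by
    apply pow_dvd_one hb
    obtain ⟨y, hy⟩ := d3
    refine ⟨y, ?_⟩
    calc (q + 1) / Nat.gcd 3 (q + 1) * 3 = (q + 1) / Nat.gcd 3 (q + 1) * (Nat.gcd 3 (q + 1) * y) := by rw [← hy]
      _ = (q + 1) * y := by rw [← mul_assoc, Nat.div_mul_cancel d1]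
  have h2 : a ^ ((q + 1) / Nat.gcd 3 (q + 1)) * (b ^ ((q + 1) / Nat.gcd 3 (q + 1)) * b ^ ((q + 1) / Nat.gcd 3 (q + 1))) = 1 := by
    rw [← mul_pow, ← mul_pow, ← mul_assoc, h0, one_pow]
  rw [pow_mul] at h1
  generalize b ^ ((q + 1) / Nat.gcd 3 (q + 1)) = B at h1 h2
  generalize a ^ ((q + 1) / Nat.gcd 3 (q + 1)) = A at h1 h2
  linear_combination B * h2 - A * h1

/-- two conjugate eigenvalues -/
lemma good_two (p : ℕ) [Fact p.Prime] [CharP F p] (hp : p ≠ 2) (hq : 2 ≤ q) {M : Matrix (Fin 3) (Fin 3) F} {a b c : K} (h : Spl M a b c)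
    (h0 : a * b * c = 1) (ha : a ^ q * a = 1) (hb : b ^ q * c = 1) (hc : c ^ q * b = 1) : Good p q M := by
  obtain ⟨d3, d1, d2, d4, d5, dpos⟩ := d_dvd hq
  have hbq : b ^ q = a * b := by
    have hc0 : c ≠ 0 := by rintro rfl; rw [mul_zero] at h0; exact zero_ne_one h0
    apply mul_right_cancel₀ hc0
    rw [hb, h0]
  by_cases hbc : b = c
  · subst hbc
    exact good_eq p hp hq h h0 (by rw [pow_succ]; exact hb)
  by_cases hab : a = b
  · exfalso; apply hbc
    subst hab
    have ha0 : a ^ q ≠ 0 := by intro h; rw [h, zero_mul] at ha; exact zero_ne_one ha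
    exact mul_left_cancel₀ ha0 (ha.trans hb.symm)
  by_cases hac : a = c
  · exfalso; apply hbc
    subst hac
    have ha0 : a ^ q ≠ 0 := by intro h; rw [h, zero_mul] at ha; exact zero_ne_one ha
    exact (mul_left_cancel₀ ha0 (ha.trans hc.symm)).symm
  right; right; left
  have hb1 : b ^ (q ^ 2 - 1) = 1 := by
    have hb0 : b ≠ 0 := by rintro rfl; rw [mul_zero, zero_mul] at h0; exact zero_ne_one h0
    apply mul_right_cancel₀ hb0
    rw [← pow_succ, one_mul, Nat.sub_add_cancel (Nat.one_le_pow _ _ (by omega))]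
    have h1 : (b ^ q) ^ q * c ^ q = 1 := by rw [← mul_pow, hb, one_pow]
    have hc0 : c ^ q ≠ 0 := by intro h; rw [h, zero_mul] at hc; exact zero_ne_one hc
    apply mul_right_cancel₀ hc0
    rw [pow_two, pow_mul, h1, mul_comm, hc]
  have hd4 := Nat.div_mul_cancel d4
  generalize hN : (q ^ 2 - 1) / Nat.gcd 3 (q + 1) = N at hd4 ⊢
  have e1 : b ^ (N * (q + 1)) = 1 := by
    apply pow_dvd_one hb1
    rw [← hd4]; exact Nat.mul_dvd_mul_left _ d1
  have e2 : b ^ (N * (q - 2)) = 1 := by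
    apply pow_dvd_one hb1
    rw [← hd4]; exact Nat.mul_dvd_mul_left _ d2
  have hbN : (b ^ N) ≠ 0 := by
    apply pow_ne_zero
    rintro rfl; rw [mul_zero, zero_mul] at h0; exact zero_ne_one h0
  have e3 : a ^ N = b ^ N := by
    apply mul_right_cancel₀ hbN
    rw [← mul_pow, ← hbq, ← pow_mul, mul_comm q N]
    have : N * q = N * (q - 2) + 2 * N := by
      obtain ⟨k, rfl⟩ : ∃ k, q = k + 2 := ⟨q - 2, by omega⟩
      rw [Nat.add_sub_cancel]; ring
    rw [this, pow_add, e2, one_mul, two_mul, pow_add]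
  refine ss (K := K) h hab hbc hac e3 ?_
  have h1 : (b ^ q) ^ N * c ^ N = 1 := by rw [← mul_pow, hb, one_pow]
  have h2 : (b ^ q) ^ N * b ^ N = 1 := by
    rw [← pow_mul, ← pow_add, ← e1]; congr 1; ring
  have h3 : (b ^ q) ^ N ≠ 0 := by intro h; rw [h, zero_mul] at h1; exact zero_ne_one h1
  exact mul_left_cancel₀ h3 (h2.trans h1.symm)

/-- three conjugate eigenvalues -/
lemma good_three (p : ℕ) [Fact p.Prime] [CharP F p] (hp : p ≠ 2) (hq : 2 ≤ q) {M : Matrix (Fin 3) (Fin 3) F} {a b c : K} (h : Spl M a b c)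
    (h0 : a * b * c = 1) (ha : a ^ q * b = 1) (hb : b ^ q * c = 1) (hc : c ^ q * a = 1) : Good p q M := by
  obtain ⟨d3, d1, d2, d4, d5, dpos⟩ := d_dvd hq
  have key : ∀ {a b c : K}, a * b * c = 1 → a ^ q * b = 1 → b ^ q * c = 1 → c ^ q * a = 1 →
      (a = b → b = c ∧ a ^ (q + 1) = 1) ∧ a ^ (q ^ 2 - q + 1) = 1 := by
    intro a b c h0 ha hb hc
    have ha0 : a ^ q ≠ 0 := by intro h; rw [h, zero_mul] at ha; exact zero_ne_one ha
    refine ⟨?_, ?_⟩
    · rintro rfl
      exact ⟨mul_left_cancel₀ ha0 (ha.trans hb.symm), by rw [pow_succ]; exact ha⟩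
    · apply mul_left_cancel₀ ha0
      rw [← pow_add, mul_one]
      have e : q + (q ^ 2 - q + 1) = q * q + 1 := by
        have : q ≤ q * q := Nat.le_mul_self q
        rw [pow_two]; omega
      rw [e, pow_succ, pow_mul]
      have h1 : (a ^ q) ^ q * b ^ q = 1 := by rw [← mul_pow, ha, one_pow]
      have hb0 : b ^ q ≠ 0 := by intro h; rw [h, zero_mul] at hb; exact zero_ne_one hb
      have h2 : (a ^ q) ^ q = c := mul_right_cancel₀ hb0 (h1.trans (by rw [mul_comm]; exact hb.symm))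
      rw [h2]
      have hb1 : b ≠ 0 := by rintro rfl; rw [mul_zero, zero_mul] at h0; exact zero_ne_one h0
      apply mul_right_cancel₀ hb1
      rw [ha]
      linear_combination h0
  obtain ⟨k1, k2⟩ := key h0 ha hb hc
  obtain ⟨k3, k4⟩ := key (a := b) (b := c) (c := a) (by linear_combination h0) hb hc ha
  obtain ⟨k5, k6⟩ := key (a := c) (b := a) (c := b) (by linear_combination h0) hc ha hb
  by_cases hab : a = b
  · obtain ⟨h1, h2⟩ := k1 hab
    subst hab; subst h1
    exact good_eq p hp hq h h0 h2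
  by_cases hbc : b = c
  · obtain ⟨h1, h2⟩ := k3 hbc
    exact absurd (hbc.trans h1).symm hab
  by_cases hca : c = a
  · obtain ⟨h1, h2⟩ := k5 hca
    exact absurd h1 hab
  right; right; right
  have hd5 := Nat.div_mul_cancel d5
  generalize hN : (q ^ 2 - q + 1) / Nat.gcd 3 (q + 1) = N at hd5 ⊢
  have key2 : ∀ {a b : K}, a ^ (q ^ 2 - q + 1) = 1 → a ^ q * b = 1 → a ^ N = b ^ N := by
    intro a b h1 h2
    have e1 : a ^ (N * (q + 1)) = 1 := by
      apply pow_dvd_one h1
      rw [← hd5]; exact Nat.mul_dvd_mul_left _ d1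
    have h3 : (a ^ q) ^ N * b ^ N = 1 := by rw [← mul_pow, h2, one_pow]
    have h4 : (a ^ q) ^ N * a ^ N = 1 := by
      rw [← pow_mul, ← pow_add, ← e1]; congr 1; ring
    have h5 : (a ^ q) ^ N ≠ 0 := by intro h; rw [h, zero_mul] at h3; exact zero_ne_one h3
    exact mul_left_cancel₀ h5 (h4.trans h3.symm)
  exact ss (K := K) h hab hbc (Ne.symm hca) (key2 k2 ha) (key2 k4 hb)

/-- all eigenvalues of norm one -/
lemma good_one (p : ℕ) [Fact p.Prime] [CharP F p] (hp : p ≠ 2) (hq : 2 ≤ q) {M : Matrix (Fin 3) (Fin 3) F} {a b c : K} (h : Spl M a b c)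
    (h0 : a * b * c = 1) (ha : a ^ q * a = 1) (hb : b ^ q * b = 1) (hc : c ^ q * c = 1) : Good p q M := by
  rw [← pow_succ] at ha hb hc
  by_cases hab : a = b
  · subst hab
    exact good_eq p hp hq h.rot.rot (by linear_combination h0) ha
  by_cases hbc : b = c
  · subst hbc
    exact good_eq p hp hq h h0 hb
  by_cases hac : a = c
  · subst hac
    exact good_eq p hp hq h.rot (by linear_combination h0) ha
  left
  exact ss (K := K) h hab hbc hac (ha.trans hb.symm) (hb.trans hc.symm)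

end

/-- upper bound -/
theorem good_all (p : ℕ) [Fact p.Prime] [CharP F p] (hp : p ≠ 2) (hF : Fintype.card F = q ^ 2) (A : Cfsg.SU 3 F q) : Good p q (mt A) := by
  have hq := two_le_of_card_sq hF
  obtain ⟨σ, hσ, hσ2, hσi⟩ := exists_sigma hF
  obtain ⟨a, b, c, h⟩ := exists_spl (mt A)
  obtain ⟨h0, h1, h2, h3⟩ := eig p hF hσ A.1.2 ((mem_SU_iff hσ A.1).1 A.2) h
  rcases match3 h0 h1 h2 h3 with ⟨e1, e2, e3⟩ | ⟨e1, e2, e3⟩ | ⟨e1, e2, e3⟩ | ⟨e1, e2, e3⟩ | ⟨e1, e2, e3⟩ | ⟨e1, e2, e3⟩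
  · exact good_one p hp hq h h0 e1 e2 e3
  · exact good_two p hp hq h h0 e1 e2 e3
  · exact good_two p hp hq (a := b) (b := c) (c := a) h.rot (by linear_combination h0) e2 e3 e1
  · exact good_two p hp hq (a := c) (b := a) (c := b) h.rot.rot (by linear_combination h0) e3 e1 e2
  · exact good_three p hp hq h h0 e1 e2 e3
  · exact good_three p hp hq (a := a) (b := c) (c := b) h.rot.rot.swap (by linear_combination h0) e1 e3 e2

end Cfsg.Agent.H22.Sp
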