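import Cfsg.Agent.LibH22Stab
import Cfsg.Agent.LibH22SpOrder
import Cfsg.Agent.LibH22Sp

set_option autoImplicit false

/-! Orders of parabolic subgroups of `Sp` (seat helper22). -/

namespace Cfsg.Agent.H22

open Module

section
variable {F : Type*} [Field F] [Fintype F] {m : ℕ}

/-- totally isotropic independent families -/
def TI (m : ℕ) (F : Type*) [Field F] (k : ℕ) (s : Fin k → (Fin m ⊕ Fin m → F)) : Prop :=
  LinearIndependent F s ∧ ∀ i j, spB m F (s i) (s j) = 0

lemma spB_comm0 {u v : Fin m ⊕ Fin m → F} (h : spB m F u v = 0) : spB m F v u = 0 := by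
  rw [← LinearMap.BilinForm.IsAlt.neg_eq spB_isAlt u v, h, neg_zero]

theorem card_TI (k : ℕ) (hk : k ≤ m) : Nat.card {s // TI m F k s} = ∏ i ∈ Finset.range k, (Fintype.card F ^ (2 * m - i) - Fintype.card F ^ i) := by
  classical
  refine count_families (X := Fin m ⊕ Fin m → F) m (fun k s => TI m F k s) (fun i => Fintype.card F ^ (2 * m - i) - Fintype.card F ^ i) ?_ ?_ ?_ k hk
  · intro s
    exact ⟨linearIndependent_empty_type, fun i => i.elim0⟩
  · intro k s x h
    constructor
    · have := h.1
      rw [linearIndependent_fin_snoc] at this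
      exact this.1
    · intro i j
      have := h.2 i.castSucc j.castSucc
      rw [Fin.snoc_castSucc, Fin.snoc_castSucc] at this
      exact this
  · intro k s hk hs
    obtain ⟨W, hW⟩ : ∃ W : Submodule F (Fin m ⊕ Fin m → F), W = Submodule.span F (Set.range s) := ⟨_, rfl⟩
    have hWk : finrank F W = k := by rw [hW, finrank_span_eq_card hs.1, Fintype.card_fin]
    have hR : (spB m F).IsRefl := spB_isAlt.isRefl
    have horth : finrank F ((spB m F).orthogonal W) = 2 * m - k := by
      rw [LinearMap.BilinForm.finrank_orthogonal spB_nondeg, hWk, finrank_fintype_fun_eq_card, Fintype.card_sum, Fintype.card_fin]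
      congr 1; ring
    have hmem : ∀ x, x ∈ (spB m F).orthogonal W ↔ ∀ i, spB m F (s i) x = 0 := by
      intro x
      rw [LinearMap.BilinForm.mem_orthogonal_iff]
      constructor
      · intro h i
        exact h _ (by rw [hW]; exact Submodule.subset_span ⟨i, rfl⟩)
      · intro h y hy
        rw [hW] at hy
        show spB m F y x = 0
        induction hy using Submodule.span_induction with
        | mem z hz => obtain ⟨i, rfl⟩ := hz; exact h i
        | zero => rw [map_zero, LinearMap.zero_apply]
        | add a b _ _ ha hb => rw [map_add, LinearMap.add_apply, ha, hb, add_zero]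
        | smul a b _ hb => rw [map_smul, LinearMap.smul_apply, hb, smul_zero]
    have hle : W ≤ (spB m F).orthogonal W := by
      rw [hW, Submodule.span_le]
      rintro _ ⟨j, rfl⟩
      rw [← hW, SetLike.mem_coe, hmem]
      exact fun i => hs.2 i j
    have h1 : Nat.card {x : Fin m ⊕ Fin m → F // TI m F (k + 1) (Fin.snoc (α := fun _ => (Fin m ⊕ Fin m → F)) s x)} =
        Set.ncard (((spB m F).orthogonal W : Set (Fin m ⊕ Fin m → F)) \ (W : Set (Fin m ⊕ Fin m → F))) := by
      refine Nat.card_congr (Equiv.subtypeEquivRight fun x => ?_)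
      rw [Set.mem_diff, SetLike.mem_coe, SetLike.mem_coe, hmem]
      constructor
      · intro h
        refine ⟨fun i => ?_, ?_⟩
        · have := h.2 i.castSucc (Fin.last k)
          rw [Fin.snoc_castSucc, Fin.snoc_last] at this
          exact this
        · have := h.1
          rw [linearIndependent_fin_snoc] at this
          rw [hW]; exact this.2
      · rintro ⟨h2, h3⟩
        refine ⟨?_, ?_⟩
        · rw [linearIndependent_fin_snoc]
          exact ⟨hs.1, by rw [← hW]; exact h3⟩
        · intro i j
          refine Fin.lastCases ?_ (fun i => ?_) i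
          · refine Fin.lastCases ?_ (fun j => ?_) j
            · rw [Fin.snoc_last]; exact spB_isAlt x
            · rw [Fin.snoc_last, Fin.snoc_castSucc]; exact spB_comm0 (h2 j)
          · refine Fin.lastCases ?_ (fun j => ?_) j
            · rw [Fin.snoc_last, Fin.snoc_castSucc]; exact h2 i
            · rw [Fin.snoc_castSucc, Fin.snoc_castSucc]; exact hs.2 i j
    rw [h1, Set.ncard_diff (by exact hle)]
    have h4 : ((spB m F).orthogonal W : Set (Fin m ⊕ Fin m → F)).ncard = Fintype.card F ^ (2 * m - k) := by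
      have : ((spB m F).orthogonal W : Set (Fin m ⊕ Fin m → F)).ncard = Nat.card ((spB m F).orthogonal W) := rfl
      rw [this, natcard_space (F := F), horth]
    have h5 : (W : Set (Fin m ⊕ Fin m → F)).ncard = Fintype.card F ^ k := by
      have : (W : Set (Fin m ⊕ Fin m → F)).ncard = Nat.card W := rfl
      rw [this, natcard_space (F := F), hWk]
    rw [h4, h5]

/-- the product formula -/
lemma prod_TI (q k m : ℕ) (hk : k ≤ m) :
    q ^ (m ^ 2) * ∏ i ∈ Finset.range m, (q ^ (2 * (i + 1)) - 1) =
      (∏ i ∈ Finset.range k, (q ^ (2 * m - i) - q ^ i)) * (q ^ (k * (k + 1) / 2 + 2 * k * (m - k)) * (q ^ ((m - k) ^ 2) * ∏ i ∈ Finset.range (m - k), (q ^ (2 * (i + 1)) - 1))) := by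
  obtain ⟨l, rfl⟩ : ∃ l, m = l + k := ⟨m - k, by omega⟩
  rw [Nat.add_sub_cancel, Finset.prod_range_add]
  have e1 : ∏ i ∈ Finset.range k, (q ^ (2 * (l + k) - i) - q ^ i) = q ^ (k * (k - 1) / 2) * ∏ i ∈ Finset.range k, (q ^ (2 * (l + i + 1)) - 1) := by
    have e2 : ∀ i ∈ Finset.range k, q ^ (2 * (l + k) - i) - q ^ i = q ^ i * (q ^ (2 * (l + (k - 1 - i) + 1)) - 1) := by
      intro i hi
      rw [Finset.mem_range] at hi
      rw [Nat.mul_sub, mul_one, ← pow_add]
      congr 2
      omega
    rw [Finset.prod_congr rfl e2, Finset.prod_mul_distrib, Finset.prod_pow_eq_pow_sum, Finset.sum_range_id]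
    congr 1
    exact Finset.prod_range_reflect (fun i => q ^ (2 * (l + i + 1)) - 1) k
  rw [e1]
  have e3 : k * (k + 1) / 2 = k * (k - 1) / 2 + k := by
    rw [← Finset.sum_range_id, ← Finset.sum_range_succ, Finset.sum_range_id, Nat.add_sub_cancel, mul_comm]
  have e4 : 2 * (k * (k - 1) / 2) = k * (k - 1) := by
    rw [← Finset.sum_range_id, mul_comm]; exact Finset.sum_range_id_mul_two k
  have e5 : (l + k) ^ 2 = k * (k - 1) / 2 + (k * (k + 1) / 2 + 2 * k * l + l ^ 2) := by
    rw [e3]
    have : k * (k - 1) + k = k ^ 2 := by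
      rcases k with _ | k
      · rfl
      · rw [Nat.add_sub_cancel]; ring
    nlinarith
  rw [e5]
  ring

end

end Cfsg.Agent.H22
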