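import Cfsg.Agent.LibH22Sp1
import Cfsg.Agent.LibHerm27

set_option autoImplicit false

/-! Element orders in `PSU_3(q)`: existence (seat helper22). -/

namespace Cfsg.Agent.H22.Sp

open Matrix Polynomial

variable {F : Type*} [Field F] [Fintype F] {q : ℕ}

lemma exists_conj {σ : F →+* F} (hσ : ∀ x, σ x = x ^ q) {P P' J D : Matrix (Fin 3) (Fin 3) F} (h1 : P * P' = 1)
    (hJ : Pᵀ * P.map σ = J) (hD : Dᵀ * J * D.map σ = J) (hd : D.det = 1) :
    ∃ A : Cfsg.SU 3 F q, ∀ k : ℕ, (∃ c : F, mt A ^ k = Matrix.scalar (Fin 3) c) ↔ ∃ c : F, D ^ k = Matrix.scalar (Fin 3) c := by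
  have h2 : P' * P = 1 := mul_eq_one_comm.1 h1
  have hdet : (P * D * P').det = 1 := by
    rw [Matrix.det_mul, Matrix.det_mul, hd, mul_one, ← Matrix.det_mul, h1, Matrix.det_one]
  have h3 : P.map σ * P'.map σ = 1 := by
    rw [← Matrix.map_mul, h1, Matrix.map_one _ (map_zero σ) (map_one σ)]
  have hU : (P * D * P')ᵀ * (P * D * P').map σ = 1 := by
    rw [Matrix.transpose_mul, Matrix.transpose_mul, Matrix.map_mul, Matrix.map_mul]
    calc P'ᵀ * (Dᵀ * Pᵀ) * (P.map σ * D.map σ * P'.map σ) = P'ᵀ * (Dᵀ * (Pᵀ * P.map σ) * D.map σ) * P'.map σ := by simp only [Matrix.mul_assoc]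
      _ = P'ᵀ * (Pᵀ * P.map σ) * P'.map σ := by rw [hJ, hD]
      _ = (P * P')ᵀ * (P.map σ * P'.map σ) := by rw [Matrix.transpose_mul]; simp only [Matrix.mul_assoc]
      _ = 1 := by rw [h1, h3, Matrix.transpose_one, Matrix.one_mul]
  refine ⟨⟨⟨P * D * P', hdet⟩, (mem_SU_iff hσ _).2 hU⟩, ?_⟩
  intro k
  have h4 : ∀ k : ℕ, (P * D * P') ^ k = P * D ^ k * P' := by
    intro k
    induction k with
    | zero => rw [pow_zero, pow_zero, Matrix.mul_one, h1]
    | succ k ih =>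
      rw [pow_succ, ih, pow_succ]
      calc P * D ^ k * P' * (P * D * P') = P * D ^ k * (P' * P) * D * P' := by simp only [Matrix.mul_assoc]
        _ = P * (D ^ k * D) * P' := by rw [h2, Matrix.mul_one]; simp only [Matrix.mul_assoc]
  show (∃ c : F, (P * D * P') ^ k = Matrix.scalar (Fin 3) c) ↔ _
  rw [h4]
  refine exists_congr fun c => ⟨fun h => ?_, fun h => ?_⟩
  · calc D ^ k = (P' * P) * D ^ k * (P' * P) := by rw [h2, Matrix.one_mul, Matrix.mul_one]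
      _ = P' * (P * D ^ k * P') * P := by simp only [Matrix.mul_assoc]
      _ = Matrix.scalar (Fin 3) c := by
        rw [h, ← (Matrix.scalar_commute c (fun _ => mul_comm _ _) P').eq, Matrix.mul_assoc, h2, Matrix.mul_one]
  · rw [h, ← (Matrix.scalar_commute c (fun _ => mul_comm _ _) P).eq, Matrix.mul_assoc, h1, Matrix.mul_one]

lemma exists_gen (hF : Fintype.card F = q ^ 2) : ∃ g : F, g ≠ 0 ∧ ∀ k : ℕ, g ^ k = 1 ↔ (q ^ 2 - 1) ∣ k := by
  classical
  obtain ⟨g, hg⟩ := IsCyclic.exists_generator (α := Fˣ)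
  refine ⟨g, g.ne_zero, fun k => ?_⟩
  rw [← hF, ← Fintype.card_units, ← Nat.card_eq_fintype_card, ← orderOf_eq_card_of_forall_mem_zpowers hg, orderOf_dvd_iff_pow_eq_one]
  rw [← Units.val_pow_eq_pow_val, ← Units.val_one, Units.val_inj]

lemma sq_fac (hq : 1 ≤ q) : q ^ 2 - 1 = (q - 1) * (q + 1) := by
  obtain ⟨k, rfl⟩ : ∃ k, q = k + 1 := ⟨q - 1, by omega⟩
  rw [Nat.add_sub_cancel]
  have : (k + 1) ^ 2 = k * (k + 1 + 1) + 1 := by ring
  omega

lemma exists_mu (hF : Fintype.card F = q ^ 2) : ∃ l : F, l ≠ 0 ∧ l ^ (q + 1) = 1 ∧ ∀ k : ℕ, l ^ k = 1 ↔ (q + 1) ∣ k := by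
  have hq := two_le_of_card_sq hF
  obtain ⟨g, hg0, hg⟩ := exists_gen hF
  have h : ∀ k : ℕ, (g ^ (q - 1)) ^ k = 1 ↔ (q + 1) ∣ k := by
    intro k
    rw [← pow_mul, hg, sq_fac (by omega)]
    exact Nat.mul_dvd_mul_iff_left (by omega)
  exact ⟨g ^ (q - 1), pow_ne_zero _ hg0, (h _).2 dvd_rfl, h⟩

lemma diag_scalar (d : Fin 3 → F) (k : ℕ) : (∃ c : F, (Matrix.diagonal d) ^ k = Matrix.scalar (Fin 3) c) ↔ (d 0 ^ k = d 1 ^ k ∧ d 1 ^ k = d 2 ^ k) := by
  rw [Matrix.diagonal_pow]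
  constructor
  · rintro ⟨c, hc⟩
    have h : ∀ i, (d ^ k) i = c := by
      intro i
      have := congrFun (congrFun hc i) i
      rwa [Matrix.diagonal_apply_eq, Matrix.scalar_apply, Matrix.diagonal_apply_eq] at this
    exact ⟨(h 0).trans (h 1).symm, (h 1).trans (h 2).symm⟩
  · rintro ⟨h1, h2⟩
    refine ⟨d 0 ^ k, ?_⟩
    rw [Matrix.scalar_apply]
    congr 1
    ext i
    fin_cases i
    · rfl
    · exact h1.symm
    · exact (h1.trans h2).symm

/-- order `q + 1` -/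
theorem ex1 (hF : Fintype.card F = q ^ 2) : ∃ x : Cfsg.PSU 3 F q, orderOf x = q + 1 := by
  obtain ⟨σ, hσ, hσ2, hσi⟩ := exists_sigma hF
  obtain ⟨l, hl0, hl1, hl⟩ := exists_mu hF
  obtain ⟨A, hA⟩ := exists_conj (q := q) hσ (P := 1) (P' := 1) (J := 1) (D := Matrix.diagonal ![l, l⁻¹, 1]) (Matrix.one_mul _)
    (by rw [Matrix.transpose_one, Matrix.one_mul, Matrix.map_one _ (map_zero σ) (map_one σ)])
    (by
      rw [Matrix.mul_one]
      apply diag_unitary hσ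
      intro i
      fin_cases i
      · exact hl1
      · show l⁻¹ ^ (q + 1) = 1
        rw [inv_pow, hl1, inv_one]
      · exact one_pow _)
    (by rw [Matrix.det_diagonal, Fin.prod_univ_three]; simp [hl0])
  refine ⟨QuotientGroup.mk A, ord_eq hF A _ fun k => ?_⟩
  rw [hA, diag_scalar, ← hl]
  show (l ^ k = l⁻¹ ^ k ∧ l⁻¹ ^ k = (1 : F) ^ k) ↔ _
  rw [one_pow, inv_pow, inv_eq_one]
  exact ⟨fun h => h.2, fun h => ⟨by rw [h, inv_one], h⟩⟩

section hyp
variable {σ : F →+* F} {α : F}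

lemma hypP (hα : α * σ α = -1) : (!![1, 1, 0; α, -α, 0; 0, 0, 1] : Matrix (Fin 3) (Fin 3) F)ᵀ * (!![1, 1, 0; α, -α, 0; 0, 0, 1] : Matrix (Fin 3) (Fin 3) F).map σ =
    !![0, 2, 0; 2, 0, 0; 0, 0, 1] := by
  ext i j
  fin_cases i <;> fin_cases j <;> simp [Matrix.mul_apply, Fin.sum_univ_three, hα] <;> norm_num

lemma hypP' (h2 : (2 : F) ≠ 0) (hα : α ≠ 0) : (!![1, 1, 0; α, -α, 0; 0, 0, 1] : Matrix (Fin 3) (Fin 3) F) *
    !![1 / 2, 1 / (2 * α), 0; 1 / 2, -1 / (2 * α), 0; 0, 0, 1] = 1 := by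
  ext i j
  fin_cases i <;> fin_cases j <;> simp [Matrix.mul_apply, Fin.sum_univ_three] <;> field_simp <;> norm_num

end hyp

lemma div_dvd_iff' {N d k : ℕ} (h : d ∣ N) (hd : 0 < d) : N / d ∣ k ↔ N ∣ d * k := by
  obtain ⟨m, rfl⟩ := h
  rw [Nat.mul_div_cancel_left _ hd]
  exact (Nat.mul_dvd_mul_iff_left hd).symm

lemma arith1 (N k q : ℕ) : (N ∣ (q + 1) * k ∧ N ∣ 3 * k) ↔ N ∣ Nat.gcd 3 (q + 1) * k := by
  constructor
  · rintro ⟨h1, h2⟩
    rw [← Nat.gcd_mul_right]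
    exact Nat.dvd_gcd h2 h1
  · intro h
    exact ⟨h.trans (Nat.mul_dvd_mul_right (Nat.gcd_dvd_right _ _) _), h.trans (Nat.mul_dvd_mul_right (Nat.gcd_dvd_left _ _) _)⟩

/-- order `(q² - 1)/d` -/
theorem ex3 (hF : Fintype.card F = q ^ 2) (h2 : (2 : F) ≠ 0) : ∃ x : Cfsg.PSU 3 F q, orderOf x = (q ^ 2 - 1) / Nat.gcd 3 (q + 1) := by
  obtain ⟨σ, hσ, hσ2, hσi⟩ := exists_sigma hF
  have hq := two_le_of_card_sq hF
  obtain ⟨d3, d1, d2, d4, d5, dpos⟩ := d_dvd hq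
  obtain ⟨α, hα⟩ := CfsgLib.Herm27.exists_norm_eq σ hσi hσ2 (-1) (neg_ne_zero.2 one_ne_zero) (by rw [map_neg, map_one])
  have hα0 : α ≠ 0 := by rintro rfl; rw [zero_mul] at hα; exact (neg_ne_zero.2 one_ne_zero) hα.symm
  obtain ⟨g, hg0, hg⟩ := exists_gen hF
  have hs0 : σ g ≠ 0 := (map_ne_zero σ).2 hg0
  obtain ⟨A, hA⟩ := exists_conj (q := q) hσ (P := _) (P' := _) (J := _) (D := Matrix.diagonal ![g, (σ g)⁻¹, σ g * g⁻¹]) (hypP' h2 hα0)
    (hypP hα)
    (by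
      ext i j
      fin_cases i <;> fin_cases j <;> simp [Matrix.mul_apply, Fin.sum_univ_three, hσ2, hg0, hs0, Matrix.diagonal_apply] <;> field_simp)
    (by rw [Matrix.det_diagonal, Fin.prod_univ_three]; simp; field_simp)
  refine ⟨QuotientGroup.mk A, ord_eq hF A _ fun k => ?_⟩
  rw [hA, diag_scalar]
  show (g ^ k = (σ g)⁻¹ ^ k ∧ (σ g)⁻¹ ^ k = (σ g * g⁻¹) ^ k) ↔ _
  rw [hσ]
  have hgk : g ^ k ≠ 0 := pow_ne_zero _ hg0
  have hgqk : (g ^ q) ^ k ≠ 0 := pow_ne_zero _ (pow_ne_zero _ hg0)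
  have h1 : (g ^ k = (g ^ q)⁻¹ ^ k ∧ (g ^ q)⁻¹ ^ k = (g ^ q * g⁻¹) ^ k) ↔ (g ^ ((q + 1) * k) = 1 ∧ g ^ (3 * k) = 1) := by
    have e1 : g ^ ((q + 1) * k) = (g ^ q) ^ k * g ^ k := by rw [← pow_mul, ← pow_add]; congr 1; ring
    have e2 : g ^ (3 * k) = (g ^ k) ^ 3 := by rw [← pow_mul]; congr 1; ring
    rw [e1, e2, mul_pow, inv_pow, inv_pow]
    generalize (g ^ q) ^ k = Y at hgqk ⊢
    generalize g ^ k = Z at hgk ⊢
    constructor
    · rintro ⟨h1, h2⟩
      have h3 : Y * Z = 1 := by rw [h1]; exact mul_inv_cancel₀ hgqk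
      refine ⟨h3, ?_⟩
      rw [h1] at h2 ⊢
      rw [inv_inv] at h2
      have : Y * Y * Y = 1 := by rw [← h2]; exact inv_mul_cancel₀ hgqk
      rw [inv_pow, pow_succ, pow_two, this, inv_one]
    · rintro ⟨h1, h2⟩
      have h3 : Z = Y⁻¹ := eq_inv_of_mul_eq_one_right h1
      subst h3
      rw [inv_inv]
      refine ⟨rfl, ?_⟩
      have : Y ^ 3 = 1 := by
        have := congrArg (fun t => t⁻¹) h2
        simpa using this
      field_simp
      linear_combination -this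
  rw [h1, hg, hg, arith1, div_dvd_iff' d4 dpos]

/-- order `p(q+1)/d` -/
theorem ex2 (p : ℕ) [Fact p.Prime] [CharP F p] (hF : Fintype.card F = q ^ 2) (h2 : (2 : F) ≠ 0) : ∃ x : Cfsg.PSU 3 F q, orderOf x = p * (q + 1) / Nat.gcd 3 (q + 1) := by
  obtain ⟨σ, hσ, hσ2, hσi⟩ := exists_sigma hF
  have hq := two_le_of_card_sq hF
  obtain ⟨d3, d1, d2, d4, d5, dpos⟩ := d_dvd hq
  obtain ⟨α, hα⟩ := CfsgLib.Herm27.exists_norm_eq σ hσi hσ2 (-1) (neg_ne_zero.2 one_ne_zero) (by rw [map_neg, map_one])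
  have hα0 : α ≠ 0 := by rintro rfl; rw [zero_mul] at hα; exact (neg_ne_zero.2 one_ne_zero) hα.symm
  obtain ⟨l, hl0, hl1, hl⟩ := exists_mu hF
  have hsl : l * σ l = 1 := by rw [hσ, ← pow_succ']; exact hl1
  have hsl' : σ l = l⁻¹ := eq_inv_of_mul_eq_one_right hsl
  obtain ⟨c, hc0, hc⟩ : ∃ c : F, c ≠ 0 ∧ σ c = -c := by
    obtain ⟨x, hx⟩ : ∃ x, σ x ≠ x := by
      by_contra hcon
      push Not at hcon
      exact hσi (RingHom.ext hcon)
    exact ⟨σ x - x, sub_ne_zero.2 hx, by rw [map_sub, hσ2, neg_sub]⟩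
  obtain ⟨D, hD⟩ : ∃ D : Matrix (Fin 3) (Fin 3) F, D = !![l, l * c, 0; 0, l, 0; 0, 0, l⁻¹ * l⁻¹] := ⟨_, rfl⟩
  obtain ⟨A, hA⟩ := exists_conj (q := q) hσ (P := _) (P' := _) (J := _) (D := D) (hypP' h2 hα0)
    (hypP hα)
    (by
      rw [hD]
      ext i j
      fin_cases i <;> fin_cases j <;> simp [Matrix.mul_apply, Fin.sum_univ_three, hsl', hc] <;> field_simp <;> ring)
    (by rw [hD, Matrix.det_fin_three]; simp; field_simp)
  have hDk : ∀ k : ℕ, D ^ k = !![l ^ k, k * (l ^ k * c), 0; 0, l ^ k, 0; 0, 0, (l⁻¹ * l⁻¹) ^ k] := by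
    intro k
    induction k with
    | zero =>
      rw [pow_zero]
      ext i j
      fin_cases i <;> fin_cases j <;> simp
    | succ k ih =>
      rw [pow_succ, ih, hD]
      ext i j
      fin_cases i <;> fin_cases j <;> simp [Matrix.mul_apply, Fin.sum_univ_three] <;> ring
  refine ⟨QuotientGroup.mk A, ord_eq hF A _ fun k => ?_⟩
  rw [hA, hDk]
  have hlk : l ^ k ≠ 0 := pow_ne_zero _ hl0
  have h1 : (∃ z : F, (!![l ^ k, k * (l ^ k * c), 0; 0, l ^ k, 0; 0, 0, (l⁻¹ * l⁻¹) ^ k] : Matrix (Fin 3) (Fin 3) F) = Matrix.scalar (Fin 3) z) ↔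
      ((k : F) = 0 ∧ l ^ (3 * k) = 1) := by
    have e1 : (l⁻¹ * l⁻¹) ^ k * (l ^ k * l ^ k) = 1 := by
      rw [mul_pow, inv_pow]; field_simp
    have e2 : l ^ (3 * k) = l ^ k * (l ^ k * l ^ k) := by rw [← pow_add, ← pow_add]; congr 1; ring
    rw [e2]
    constructor
    · rintro ⟨z, hz⟩
      have z1 := congrFun (congrFun hz 0) 1
      have z2 := congrFun (congrFun hz 0) 0
      have z3 : (l⁻¹ * l⁻¹) ^ k = z := by simpa using congrFun (congrFun hz 2) 2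
      simp at z1 z2
      refine ⟨?_, ?_⟩
      · rcases z1 with h | h | h
        · exact h
        · exact absurd h.1 hl0
        · exact absurd h hc0
      · nth_rewrite 1 [z2.trans z3.symm]
        exact e1
    · rintro ⟨h3, h4⟩
      refine ⟨l ^ k, ?_⟩
      have h5 : (l⁻¹ * l⁻¹) ^ k = l ^ k := by
        apply mul_right_cancel₀ (mul_ne_zero hlk hlk)
        rw [e1, h4]
      rw [h5, h3]
      ext i j
      fin_cases i <;> fin_cases j <;> simp
  rw [h1, hl, CharP.cast_eq_zero_iff F p, Nat.mul_div_assoc _ d1]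
  have h3 : q + 1 ∣ 3 * k ↔ (q + 1) / Nat.gcd 3 (q + 1) ∣ k := by
    rw [div_dvd_iff' d1 dpos, ← arith1]
    exact ⟨fun h => ⟨dvd_mul_right _ _, h⟩, fun h => h.2⟩
  rw [h3]
  have hpq : p ∣ q := by
    obtain ⟨n, hp, hcd⟩ := FiniteField.card F p
    have : p ∣ q ^ 2 := by rw [← hF, hcd]; exact dvd_pow_self _ n.ne_zero
    exact hp.dvd_of_dvd_pow this
  have hcop : Nat.Coprime p ((q + 1) / Nat.gcd 3 (q + 1)) := by
    have h4 : Nat.Coprime p (q + 1) := by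
      rw [(Fact.out : p.Prime).coprime_iff_not_dvd]
      intro h5
      exact (Fact.out : p.Prime).one_lt.ne' (Nat.dvd_one.1 ((Nat.dvd_add_right hpq).1 h5))
    exact Nat.Coprime.coprime_dvd_right (Nat.div_dvd_of_dvd d1) h4
  exact ⟨fun h => hcop.mul_dvd_of_dvd_of_dvd h.1 h.2, fun h => ⟨(dvd_mul_right _ _).trans h, (dvd_mul_left _ _).trans h⟩⟩

/-! the irreducible torus -/

lemma exists_root_unity {E : Type*} [Field E] [Fintype E] {N : ℕ} (h : N ∣ Fintype.card E - 1) (hN : 0 < N) :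
    ∃ l : E, ∀ k : ℕ, l ^ k = 1 ↔ N ∣ k := by
  classical
  obtain ⟨g, hg⟩ := IsCyclic.exists_generator (α := Eˣ)
  have hg' : orderOf g = Fintype.card E - 1 := by
    rw [orderOf_eq_card_of_forall_mem_zpowers hg, Nat.card_eq_fintype_card, Fintype.card_units]
  obtain ⟨m, hm⟩ := h
  have hc : 0 < Fintype.card E - 1 := by
    have := Fintype.one_lt_card (α := E)
    omega
  have hm0 : m ≠ 0 := by rintro rfl; rw [mul_zero] at hm; omega
  refine ⟨((g ^ m : Eˣ) : E), fun k => ?_⟩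
  rw [← Units.val_pow_eq_pow_val, ← Units.val_one, Units.val_inj, ← orderOf_dvd_iff_pow_eq_one,
    orderOf_pow_of_dvd hm0 (by rw [hg', hm]; exact dvd_mul_left _ _), hg', hm, Nat.mul_div_cancel _ (Nat.pos_of_ne_zero hm0)]

lemma arith2 (hq : 2 ≤ q) : (q ^ 2 - q + 1) ∣ q ^ 6 - 1 ∧ (q ^ 2 - q + 1) ∣ q ^ 3 + 1 ∧ (q ^ 2 - q + 1) ∣ ∑ i ∈ Finset.range 3, (q ^ 2) ^ i ∧
    True ∧ ∀ k, (q ^ 2 - q + 1) ∣ (q ^ 2 - 1) * k ↔ (q ^ 2 - q + 1) ∣ Nat.gcd 3 (q + 1) * k := by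
  obtain ⟨m, rfl⟩ : ∃ m, q = m + 2 := ⟨q - 2, by omega⟩
  have e1 : (m + 2) ^ 2 - (m + 2) + 1 = m ^ 2 + 3 * m + 3 := by
    have : (m + 2) ^ 2 = (m ^ 2 + 3 * m + 2) + (m + 2) := by ring
    rw [this, Nat.add_sub_cancel]
  rw [e1]
  have e2 : (m + 2) ^ 3 + 1 = (m ^ 2 + 3 * m + 3) * (m + 3) := by ring
  have e3 : (m + 2) ^ 6 - 1 = ((m + 2) ^ 3 + 1) * ((m + 2) ^ 3 - 1) := by
    obtain ⟨x, hx⟩ : ∃ x, (m + 2) ^ 3 = x + 1 := ⟨(m + 2) ^ 3 - 1, by have := Nat.one_le_pow 3 (m + 2) (by omega); omega⟩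
    have : (m + 2) ^ 6 = ((m + 2) ^ 3) ^ 2 := by ring
    rw [this, hx, Nat.add_sub_cancel]
    have : (x + 1) ^ 2 = (x + 1 + 1) * x + 1 := by ring
    rw [this, Nat.add_sub_cancel]
  have e4 : (m + 2) ^ 2 - 1 = (m + 1) * (m + 3) := by
    have : (m + 2) ^ 2 = (m + 1) * (m + 3) + 1 := by ring
    rw [this, Nat.add_sub_cancel]
  refine ⟨?_, ?_, ?_, trivial, ?_⟩
  · rw [e3, e2]; exact Dvd.dvd.mul_right (dvd_mul_right _ _) _
  · rw [e2]; exact dvd_mul_right _ _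
  · refine ⟨m ^ 2 + 5 * m + 7, ?_⟩
    rw [Finset.sum_range_succ, Finset.sum_range_succ, Finset.sum_range_succ, Finset.sum_range_zero]; ring
  · intro k
    rw [e4]
    have hc1 : Nat.Coprime (m ^ 2 + 3 * m + 3) (m + 1) := by
      have : m ^ 2 + 3 * m + 3 = 1 + (m + 1) * (m + 2) := by ring
      rw [this, Nat.coprime_add_mul_left_left]
      exact Nat.coprime_one_left _
    have hg : Nat.gcd (m ^ 2 + 3 * m + 3) (m + 3) = Nat.gcd 3 (m + 2 + 1) := by
      have : m ^ 2 + 3 * m + 3 = 3 + (m + 3) * m := by ring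
      rw [this, Nat.gcd_add_mul_left_left]
    rw [mul_assoc, hc1.dvd_mul_left, ← hg, ← Nat.gcd_mul_right, Nat.dvd_gcd_iff]
    exact ⟨fun h => ⟨dvd_mul_right _ _, h⟩, fun h => h.2⟩

lemma E_facts (hF : Fintype.card F = q ^ 2) : ∃ (E : Type) (_ : Field E) (_ : Fintype E) (_ : Algebra F E), Fintype.card E = q ^ 6 ∧ Module.finrank F E = 3 := by
  obtain ⟨p, hp⟩ := CharP.exists F
  haveI : Fact p.Prime := ⟨CharP.char_is_prime F p⟩
  haveI : NeZero 3 := ⟨by norm_num⟩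
  letI : Fintype (FiniteField.Extension F p 3) := Fintype.ofFinite _
  refine ⟨FiniteField.Extension F p 3, inferInstance, inferInstance, inferInstance, ?_, FiniteField.finrank_extension F p 3⟩
  rw [← Nat.card_eq_fintype_card, FiniteField.natCard_extension F p 3, Nat.card_eq_fintype_card, hF, ← pow_mul]

/-- order `(q² - q + 1)/d` -/
theorem ex4 (hF : Fintype.card F = q ^ 2) : ∃ x : Cfsg.PSU 3 F q, orderOf x = (q ^ 2 - q + 1) / Nat.gcd 3 (q + 1) := by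
  classical
  obtain ⟨σ, hσ, hσ2, hσi⟩ := exists_sigma hF
  have hq := two_le_of_card_sq hF
  obtain ⟨d3, d1, d2, d4, d5, dpos⟩ := d_dvd hq
  obtain ⟨E, _, _, _, hE, hfr⟩ := E_facts hF
  haveI : FiniteDimensional F E := FiniteDimensional.of_finrank_pos (by rw [hfr]; norm_num)
  obtain ⟨p, hp⟩ := CharP.exists F
  haveI : Fact p.Prime := ⟨CharP.char_is_prime F p⟩
  obtain ⟨φ, hφ⟩ := exists_frob E p hF
  let Φ : E →+* E := (φ.comp φ).comp φ
  have hΦ : ∀ x, Φ x = x ^ (q ^ 3) := by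
    intro x
    show φ (φ (φ x)) = _
    rw [hφ, hφ, hφ, ← pow_mul, ← pow_mul]; congr 1; ring
  have hΦF : ∀ z : F, Φ (algebraMap F E z) = algebraMap F E (σ z) := by
    intro z
    rw [hΦ, hσ, ← map_pow]
    congr 1
    have : q ^ 3 = q ^ 2 * q := by ring
    rw [this, pow_mul, ← hF, FiniteField.pow_card]
  have hΦ2 : ∀ x, Φ (Φ x) = x := by
    intro x
    rw [hΦ, hΦ, ← pow_mul, ← pow_add, ← hE, FiniteField.pow_card]
  have htr : ∀ x : E, Algebra.trace F E (Φ x) = σ (Algebra.trace F E x) := by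
    intro x
    apply (algebraMap F E).injective
    rw [← hΦF, FiniteField.algebraMap_trace_eq_sum_pow, FiniteField.algebraMap_trace_eq_sum_pow, map_sum]
    exact Finset.sum_congr rfl fun i _ => by rw [map_pow]
  let B : E →ₛₗ[σ] E →ₗ[F] F := LinearMap.mk₂'ₛₗ σ (RingHom.id F) (fun x y => Algebra.trace F E (Φ x * y))
    (by intro a b c; rw [map_add, add_mul, map_add])
    (by
      intro a b c
      have : Φ (a • b) * c = σ a • (Φ b * c) := by rw [Algebra.smul_def, Algebra.smul_def, map_mul, hΦF, mul_assoc]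
      rw [this, map_smul])
    (by intro a b c; rw [mul_add, map_add])
    (by intro a b c; rw [mul_smul_comm, map_smul]; rfl)
  have hB : ∀ x y, B x y = Algebra.trace F E (Φ x * y) := fun x y => rfl
  have hbb := CfsgLib.Herm27.exists_orthonormal_basis hσi hσ2 B
    (by
      intro x y
      rw [hB, hB, ← htr, map_mul, hΦ2, mul_comm])
    (by
      intro v hv
      obtain ⟨z, hz⟩ := Algebra.trace_surjective F E 1
      have hv' : Φ v ≠ 0 := (map_ne_zero Φ).2 hv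
      refine ⟨(Φ v)⁻¹ * z, ?_⟩
      rw [hB, mul_inv_cancel_left₀ hv', hz]
      exact one_ne_zero)
  rw [hfr] at hbb
  obtain ⟨b, hb⟩ := hbb
  have hBr : ∀ x y, B x y = ∑ k, σ (b.repr x k) * b.repr y k := by
    intro x y
    conv_lhs => rw [← b.sum_repr x, ← b.sum_repr y]
    simp only [map_sum, LinearMap.sum_apply, LinearMap.map_smulₛₗ, LinearMap.smul_apply, map_smul, hb, smul_eq_mul, mul_ite, mul_one, mul_zero,
      Finset.sum_ite_eq, Finset.sum_ite_eq', Finset.mem_univ, if_true]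
    exact Finset.sum_congr rfl fun k _ => mul_comm _ _
  obtain ⟨f1, f2, f3, f4, f5⟩ := arith2 hq
  obtain ⟨l, hl⟩ : ∃ l : E, ∀ k : ℕ, l ^ k = 1 ↔ (q ^ 2 - q + 1) ∣ k := exists_root_unity (by rw [hE]; exact f1) (Nat.succ_pos _)
  have hl1 : Φ l * l = 1 := by
    rw [hΦ, ← pow_succ, hl]
    exact f2
  have hdet : (Algebra.leftMulMatrix b l).det = 1 := by
    rw [← Algebra.norm_eq_matrix_det]
    apply (algebraMap F E).injective
    rw [FiniteField.algebraMap_norm_eq_pow_sum, map_one, hl, hfr, Nat.card_eq_fintype_card, hF]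
    exact f3
  have hcoef : ∀ i j, Algebra.leftMulMatrix b l i j = b.repr (l * b j) i := by
    intro i j
    exact Algebra.leftMulMatrix_eq_repr_mul b l i j
  have hU : (Algebra.leftMulMatrix b l)ᵀ * (Algebra.leftMulMatrix b l).map σ = 1 := by
    ext i j
    rw [Matrix.mul_apply, Matrix.one_apply]
    simp only [Matrix.transpose_apply, Matrix.map_apply, hcoef]
    have h1 := hBr (l * b j) (l * b i)
    have h2 : B (l * b j) (l * b i) = B (b j) (b i) := by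
      have h3 : Φ (l * b j) * (l * b i) = Φ (b j) * b i := by
        rw [map_mul]; linear_combination (Φ (b j) * b i) * hl1
      rw [hB, hB, h3]
    rw [h2, hb] at h1
    rw [Finset.sum_congr rfl fun k _ => mul_comm _ _, ← h1]
    simp only [eq_comm]
  refine ⟨QuotientGroup.mk (⟨⟨Algebra.leftMulMatrix b l, hdet⟩, (mem_SU_iff hσ _).2 hU⟩ : Cfsg.SU 3 F q), ord_eq hF _ _ fun k => ?_⟩
  show (∃ c : F, (Algebra.leftMulMatrix b l) ^ k = Matrix.scalar (Fin 3) c) ↔ _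
  rw [← map_pow]
  have h1 : (∃ c : F, Algebra.leftMulMatrix b (l ^ k) = Matrix.scalar (Fin 3) c) ↔ l ^ k ∈ Set.range (algebraMap F E) := by
    refine exists_congr fun c => ?_
    have h3 : Algebra.leftMulMatrix b (algebraMap F E c) = Matrix.scalar (Fin 3) c := by
      rw [AlgHom.commutes]; rfl
    rw [← h3, (Algebra.leftMulMatrix_injective b).eq_iff, eq_comm]
  rw [h1, IsGalois.mem_range_algebraMap_iff_fixed]
  have h4 : (∀ f : Gal(E/F), f (l ^ k) = l ^ k) ↔ (l ^ k) ^ (q ^ 2) = l ^ k := by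
    constructor
    · intro h
      have := h (FiniteField.frobeniusAlgEquivOfAlgebraic F E)
      rwa [FiniteField.coe_frobeniusAlgEquivOfAlgebraic, hF] at this
    · intro h f
      obtain ⟨i, rfl⟩ := (FiniteField.bijective_frobeniusAlgEquivOfAlgebraic_pow F E).2 f
      have h5 : ∀ i : ℕ, (FiniteField.frobeniusAlgEquivOfAlgebraic F E ^ i) (l ^ k) = l ^ k := by
        intro i
        induction i with
        | zero => rfl
        | succ i ih =>
          rw [pow_succ, AlgEquiv.mul_apply]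
          have : FiniteField.frobeniusAlgEquivOfAlgebraic F E (l ^ k) = l ^ k := by
            rw [FiniteField.coe_frobeniusAlgEquivOfAlgebraic, hF]; exact h
          rw [this, ih]
      exact h5 _
  rw [h4, div_dvd_iff' d5 dpos, ← f5, ← hl]
  have hl0 : l ≠ 0 := by rintro rfl; rw [mul_zero] at hl1; exact zero_ne_one hl1
  have hlk : l ^ k ≠ 0 := pow_ne_zero _ hl0
  constructor
  · intro h
    apply mul_right_cancel₀ hlk
    rw [one_mul, ← pow_add]
    rw [← pow_mul] at h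
    rw [← h]; congr 1
    obtain ⟨m, hm⟩ : ∃ m, q ^ 2 = m + 1 := ⟨q ^ 2 - 1, by have := Nat.one_le_pow 2 q (by omega); omega⟩
    rw [hm, Nat.add_sub_cancel]; ring
  · intro h
    have h6 : (l ^ k) ^ (q ^ 2) = l ^ ((q ^ 2 - 1) * k) * l ^ k := by
      rw [← pow_add, ← pow_mul]; congr 1
      obtain ⟨m, hm⟩ : ∃ m, q ^ 2 = m + 1 := ⟨q ^ 2 - 1, by have := Nat.one_le_pow 2 q (by omega); omega⟩
      rw [hm, Nat.add_sub_cancel]; ring
    rw [h6, h, one_mul]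

end Cfsg.Agent.H22.Sp
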