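import Cfsg.Agent.LibH22Disc
import Cfsg.Agent.LibH22SpDec

set_option autoImplicit false

/-! Tensor products of bilinear forms (seat helper22). -/

namespace Cfsg.Agent.H22

open Module
open scoped TensorProduct

section
variable {F U W : Type*} [Field F] [AddCommGroup U] [Module F U] [FiniteDimensional F U] [AddCommGroup W] [Module F W] [FiniteDimensional F W]

lemma Dis_tmul {ι κ : Type*} [Fintype ι] [DecidableEq ι] [Fintype κ] [DecidableEq κ] (b : Basis ι F U) (c : Basis κ F W)
    (B₁ : LinearMap.BilinForm F U) (B₂ : LinearMap.BilinForm F W) :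
    Dis (b.tensorProduct c) (B₁.tmul B₂) = (Dis b B₁) ^ (Fintype.card κ) * (Dis c B₂) ^ (Fintype.card ι) := by
  unfold Dis
  rw [← Matrix.det_kronecker]
  congr 1
  ext ⟨i, j⟩ ⟨i', j'⟩
  rw [LinearMap.BilinForm.toMatrix_apply, Matrix.kroneckerMap_apply, LinearMap.BilinForm.toMatrix_apply, LinearMap.BilinForm.toMatrix_apply,
    Basis.tensorProduct_apply, Basis.tensorProduct_apply]
  show B₂ (c j) (c j') * B₁ (b i) (b i') = _
  ring

lemma nondeg_tmul {B₁ : LinearMap.BilinForm F U} {B₂ : LinearMap.BilinForm F W} (h₁ : B₁.Nondegenerate) (h₂ : B₂.Nondegenerate) : (B₁.tmul B₂).Nondegenerate := by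
  classical
  obtain ⟨b, -⟩ : ∃ b : Basis (Fin (finrank F U)) F U, True := ⟨finBasis F U, trivial⟩
  obtain ⟨c, -⟩ : ∃ c : Basis (Fin (finrank F W)) F W, True := ⟨finBasis F W, trivial⟩
  have h3 := Dis_tmul b c B₁ B₂
  unfold Dis at h3
  exact (LinearMap.BilinForm.nondegenerate_iff_det_ne_zero (B := (B₁.tmul B₂)) (b.tensorProduct c)).2 (by
    rw [h3]
    exact mul_ne_zero (pow_ne_zero _ (Dis_ne_zero b h₁)) (pow_ne_zero _ (Dis_ne_zero c h₂)))

/-- totally isotropic tensor subspace -/
lemma ti_tmul {B₁ : LinearMap.BilinForm F U} (B₂ : LinearMap.BilinForm F W) {k : ℕ} {X : Submodule F U} (hX : finrank F X = k) (hX0 : ∀ x ∈ X, ∀ y ∈ X, B₁ x y = 0) :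
    ∃ Y : Submodule F (U ⊗[F] W), finrank F Y = k * finrank F W ∧ ∀ x ∈ Y, ∀ y ∈ Y, (B₁.tmul B₂) x y = 0 := by
  have hinj : Function.Injective (LinearMap.rTensor W X.subtype) := Module.Flat.rTensor_preserves_injective_linearMap X.subtype X.injective_subtype
  refine ⟨LinearMap.range (LinearMap.rTensor W X.subtype), ?_, ?_⟩
  · rw [LinearMap.finrank_range_of_inj hinj, Module.finrank_tensorProduct, hX]
  · rintro _ ⟨x, rfl⟩ _ ⟨y, rfl⟩
    induction x using TensorProduct.induction_on with
    | zero => rw [map_zero, map_zero]; rfl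
    | add a b ha hb => rw [map_add, map_add, LinearMap.add_apply, ha, hb, add_zero]
    | tmul u w =>
      induction y using TensorProduct.induction_on with
      | zero => rw [map_zero, map_zero]
      | add a b ha hb => rw [map_add, map_add, ha, hb, add_zero]
      | tmul u' w' =>
        rw [LinearMap.rTensor_tmul, LinearMap.rTensor_tmul]
        show B₂ w w' * B₁ (u : U) (u' : U) = 0
        rw [hX0 _ u.2 _ u'.2, mul_zero]

/-- Lagrangian subspaces exist -/
lemma exists_lagrangian {B : LinearMap.BilinForm F U} (hA : B.IsAlt) (hB : B.Nondegenerate) {k : ℕ} (hk : finrank F U = 2 * k) :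
    ∃ X : Submodule F U, finrank F X = k ∧ ∀ x ∈ X, ∀ y ∈ X, B x y = 0 := by
  obtain ⟨φ, hφ⟩ := exists_sp_iso B hA (fun x hx => hB.1 x hx) hk
  obtain ⟨f, hf⟩ : ∃ f : (Fin k → F) →ₗ[F] (Fin k ⊕ Fin k → F), ∀ x, f x = Sum.elim x (fun _ => 0) := by
    refine ⟨{ toFun := fun x => Sum.elim x (fun _ => 0), map_add' := ?_, map_smul' := ?_ }, fun x => rfl⟩
    · intro x y
      funext k
      rcases k with k | k
      · rfl
      · exact (add_zero (0 : F)).symm
    · intro a x
      funext k
      rcases k with k | k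
      · rfl
      · exact (mul_zero a).symm
  have hfi : Function.Injective f := by
    intro x y h
    rw [hf, hf] at h
    funext k
    exact congrFun h (.inl k)
  refine ⟨LinearMap.range ((φ : (Fin k ⊕ Fin k → F) →ₗ[F] U).comp f), ?_, ?_⟩
  · rw [LinearMap.finrank_range_of_inj, finrank_fintype_fun_eq_card, Fintype.card_fin]
    exact φ.injective.comp hfi
  · rintro _ ⟨x, rfl⟩ _ ⟨y, rfl⟩
    show B (φ (f x)) (φ (f y)) = 0
    rw [hφ, spB_eq_sum, hf, hf]
    simp

end

end Cfsg.Agent.H22
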