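import Mathlib

/-! Sharply 4-transitive groups (seat helper22). -/

namespace CfsgLib.H22Tits

section
variable {G Ω : Type*} [Group G] [MulAction G Ω]

/-- four distinct points -/
def D4 (a b c d : Ω) : Prop := a ≠ b ∧ a ≠ c ∧ a ≠ d ∧ b ≠ c ∧ b ≠ d ∧ c ≠ d

/-- sharply 4-transitive -/
structure SH (G Ω : Type*) [Group G] [MulAction G Ω] : Prop where
  tr : ∀ a b c d a' b' c' d' : Ω, D4 a b c d → D4 a' b' c' d' → ∃ g : G, g • a = a' ∧ g • b = b' ∧ g • c = c' ∧ g • d = d'
  fx : ∀ (g : G) (a b c d : Ω), D4 a b c d → g • a = a → g • b = b → g • c = c → g • d = d → g = 1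

theorem SH.eq4 (h : SH G Ω) {g k : G} {a b c d : Ω} (hd : D4 a b c d) (h1 : g • a = k • a) (h2 : g • b = k • b) (h3 : g • c = k • c) (h4 : g • d = k • d) : g = k := by
  have := h.fx (k⁻¹ * g) a b c d hd (by rw [mul_smul, h1, inv_smul_smul]) (by rw [mul_smul, h2, inv_smul_smul])
    (by rw [mul_smul, h3, inv_smul_smul]) (by rw [mul_smul, h4, inv_smul_smul])
  rwa [inv_mul_eq_one, eq_comm] at this

/-- the basic configuration -/
structure Cf (x y : G) (p1 p2 p3 p4 : Ω) : Prop where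
  d : D4 p1 p2 p3 p4
  x1 : x • p1 = p1
  x2 : x • p2 = p2
  x3 : x • p3 = p4
  x4 : x • p4 = p3
  y1 : y • p1 = p2
  y2 : y • p2 = p1
  y3 : y • p3 = p3
  y4 : y • p4 = p4
  xx : x * x = 1
  yy : y * y = 1
  xy : x * y = y * x

theorem exists_cf (h : SH G Ω) {p1 p2 p3 p4 : Ω} (hd : D4 p1 p2 p3 p4) : ∃ x y : G, Cf x y p1 p2 p3 p4 := by
  obtain ⟨d12, d13, d14, d23, d24, d34⟩ := hd
  obtain ⟨x, x1, x2, x3, x4⟩ := h.tr p1 p2 p3 p4 p1 p2 p4 p3 ⟨d12, d13, d14, d23, d24, d34⟩ ⟨d12, d14, d13, d24, d23, d34.symm⟩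
  obtain ⟨y, y1, y2, y3, y4⟩ := h.tr p1 p2 p3 p4 p2 p1 p3 p4 ⟨d12, d13, d14, d23, d24, d34⟩ ⟨d12.symm, d23, d24, d13, d14, d34⟩
  refine ⟨x, y, ⟨⟨d12, d13, d14, d23, d24, d34⟩, x1, x2, x3, x4, y1, y2, y3, y4, ?_, ?_, ?_⟩⟩
  · apply h.fx _ p1 p2 p3 p4 ⟨d12, d13, d14, d23, d24, d34⟩ <;> simp only [mul_smul, x1, x2, x3, x4]
  · apply h.fx _ p1 p2 p3 p4 ⟨d12, d13, d14, d23, d24, d34⟩ <;> simp only [mul_smul, y1, y2, y3, y4]
  · apply h.eq4 ⟨d12, d13, d14, d23, d24, d34⟩ <;> simp only [mul_smul, x1, x2, x3, x4, y1, y2, y3, y4]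

variable {x y : G} {p1 p2 p3 p4 : Ω}

theorem Cf.xx' (c : Cf x y p1 p2 p3 p4) (a : Ω) : x • x • a = a := by rw [← mul_smul, c.xx, one_smul]
theorem Cf.yy' (c : Cf x y p1 p2 p3 p4) (a : Ω) : y • y • a = a := by rw [← mul_smul, c.yy, one_smul]
theorem Cf.xy' (c : Cf x y p1 p2 p3 p4) (a : Ω) : x • y • a = y • x • a := by rw [← mul_smul, c.xy, mul_smul]

theorem Cf.fixx (c : Cf x y p1 p2 p3 p4) (h : SH G Ω) (a : Ω) (ha : x • a = a) : a = p1 ∨ a = p2 ∨ y • a = a := by
  by_contra hcon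
  push Not at hcon
  obtain ⟨h1, h2, h3⟩ := hcon
  have h4 : y • a ≠ p1 := fun h5 => h2 (by rw [← c.yy' a, h5, c.y1])
  have h5 : y • a ≠ p2 := fun h5 => h1 (by rw [← c.yy' a, h5, c.y2])
  have h6 := h.fx x p1 p2 a (y • a) ⟨c.d.1, h1.symm, h4.symm, h2.symm, h5.symm, h3.symm⟩ c.x1 c.x2 ha (by rw [c.xy', ha])
  have h7 := c.x3
  rw [h6, one_smul] at h7
  exact c.d.2.2.2.2.2 h7

theorem Cf.fixy (c : Cf x y p1 p2 p3 p4) (h : SH G Ω) (a : Ω) (ha : y • a = a) : a = p3 ∨ a = p4 ∨ x • a = a := by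
  by_contra hcon
  push Not at hcon
  obtain ⟨h1, h2, h3⟩ := hcon
  have h4 : x • a ≠ p3 := fun h5 => h2 (by rw [← c.xx' a, h5, c.x3])
  have h5 : x • a ≠ p4 := fun h5 => h1 (by rw [← c.xx' a, h5, c.x4])
  have h6 := h.fx y p3 p4 a (x • a) ⟨c.d.2.2.2.2.2, h1.symm, h4.symm, h2.symm, h5.symm, h3.symm⟩ c.y3 c.y4 ha (by rw [← c.xy', ha])
  have h7 := c.y1
  rw [h6, one_smul] at h7
  exact c.d.1 h7

/-- at most one common fixed point -/
theorem Cf.fixI (c : Cf x y p1 p2 p3 p4) (h : SH G Ω) (a b : Ω) (ha : x • a = a) (ha' : y • a = a) (hb : x • b = b) (hb' : y • b = b) : a = b := by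
  by_contra hne
  have h1 : ∀ e : Ω, y • e = e → e ≠ p1 ∧ e ≠ p2 := by
    intro e he
    constructor
    · rintro rfl
      rw [c.y1] at he
      exact c.d.1 he.symm
    · rintro rfl
      rw [c.y2] at he
      exact c.d.1 he
  have h6 := h.fx x p1 p2 a b ⟨c.d.1, (h1 a ha').1.symm, (h1 b hb').1.symm, (h1 a ha').2.symm, (h1 b hb').2.symm, hne⟩ c.x1 c.x2 ha hb
  have h7 := c.x3
  rw [h6, one_smul] at h7
  exact c.d.2.2.2.2.2 h7

/-- fixed points of `xy` -/
theorem Cf.fixz (c : Cf x y p1 p2 p3 p4) (h : SH G Ω) (a b : Ω) (ha : x • y • a = a) (ha' : x • a ≠ a) (hb : x • y • b = b) (hb' : x • b ≠ b) :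
    b = a ∨ b = x • a := by
  by_contra hcon
  push Not at hcon
  obtain ⟨h1, h2⟩ := hcon
  have h3 : x • b ≠ a := fun h5 => h2 (by rw [← h5, c.xx'])
  have h4 : x • b ≠ x • a := fun h5 => h1 (smul_left_cancel x h5)
  have h6 := h.fx (x * y) a (x • a) b (x • b) ⟨ha'.symm, h1.symm, h3.symm, h2.symm, h4.symm, hb'.symm⟩
    (by rw [mul_smul, ha]) (by rw [mul_smul, ← c.xy', ha]) (by rw [mul_smul, hb]) (by rw [mul_smul, ← c.xy', hb])
  have h7 : (x * y) • p1 = p2 := by rw [mul_smul, c.y1, c.x2]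
  rw [h6, one_smul] at h7
  exact c.d.1 h7

/-- the centralizer of the Klein group -/
theorem Cf.cent (c : Cf x y p1 p2 p3 p4) (h : SH G Ω) (g : G) (hx : g * x = x * g) (hy : g * y = y * g) : g = 1 ∨ g = x ∨ g = y ∨ g = x * y := by
  have hx' : ∀ a : Ω, g • x • a = x • g • a := fun a => by rw [← mul_smul, hx, mul_smul]
  have hy' : ∀ a : Ω, g • y • a = y • g • a := fun a => by rw [← mul_smul, hy, mul_smul]
  have h1 : g • p1 = p1 ∨ g • p1 = p2 := by
    rcases c.fixx h (g • p1) (by rw [← hx', c.x1]) with h1 | h1 | h1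
    · exact Or.inl h1
    · exact Or.inr h1
    · exfalso
      rw [← hy', c.y1] at h1
      exact c.d.1 (smul_left_cancel g h1).symm
  have h3 : g • p3 = p3 ∨ g • p3 = p4 := by
    rcases c.fixy h (g • p3) (by rw [← hy', c.y3]) with h1 | h1 | h1
    · exact Or.inl h1
    · exact Or.inr h1
    · exfalso
      rw [← hx', c.x3] at h1
      exact c.d.2.2.2.2.2 (smul_left_cancel g h1).symm
  have h2 : g • p2 = y • g • p1 := by rw [← hy', c.y1]
  have h4 : g • p4 = x • g • p3 := by rw [← hx', c.x3]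
  rcases h1 with h1 | h1 <;> rcases h3 with h3 | h3 <;> rw [h1] at h2 <;> rw [h3] at h4
  · left
    apply h.eq4 c.d
    · rw [h1, one_smul]
    · rw [h2, one_smul, c.y1]
    · rw [h3, one_smul]
    · rw [h4, one_smul, c.x3]
  · right; left
    apply h.eq4 c.d
    · rw [h1, c.x1]
    · rw [h2, c.x2, c.y1]
    · rw [h3, c.x3]
    · rw [h4]
  · right; right; left
    apply h.eq4 c.d
    · rw [h1, c.y1]
    · rw [h2]
    · rw [h3, c.y3]
    · rw [h4, c.x3, c.y4]
  · right; right; right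
    apply h.eq4 c.d
    · rw [h1, mul_smul, c.y1, c.x2]
    · rw [h2, mul_smul, c.y2, c.x1]
    · rw [h3, mul_smul, c.y3, c.x3]
    · rw [h4, mul_smul, c.y4]

/-- a regular point -/
def Rg (x y : G) (a : Ω) : Prop := x • a ≠ a ∧ y • a ≠ a ∧ x • y • a ≠ a

theorem Rg.d4 (c : Cf x y p1 p2 p3 p4) {a : Ω} (ha : Rg x y a) : D4 a (x • a) (y • a) (x • y • a) := by
  obtain ⟨h1, h2, h3⟩ := ha
  refine ⟨h1.symm, h2.symm, h3.symm, ?_, ?_, ?_⟩
  · intro h4; apply h3; rw [← h4, c.xx']
  · intro h4; exact h2 (smul_left_cancel x h4).symm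
  · intro h4; apply h1; rw [c.xy'] at h4; exact (smul_left_cancel y h4).symm

/-- the transposition -/
structure Tr (t x y : G) (a : Ω) : Prop where
  t1 : t • a = a
  t2 : t • x • a = x • a
  t3 : t • y • a = x • y • a
  t4 : t • x • y • a = y • a
  tt : t * t = 1
  tx : t * x = x * t
  ty : t * y = x * y * t

theorem exists_tr (c : Cf x y p1 p2 p3 p4) (h : SH G Ω) {a : Ω} (ha : Rg x y a) : ∃ t : G, Tr t x y a := by
  have hd := ha.d4 c
  obtain ⟨d12, d13, d14, d23, d24, d34⟩ := hd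
  obtain ⟨t, t1, t2, t3, t4⟩ := h.tr a (x • a) (y • a) (x • y • a) a (x • a) (x • y • a) (y • a) ⟨d12, d13, d14, d23, d24, d34⟩ ⟨d12, d14, d13, d24, d23, d34.symm⟩
  refine ⟨t, ⟨t1, t2, t3, t4, ?_, ?_, ?_⟩⟩
  · apply h.fx _ a (x • a) (y • a) (x • y • a) ⟨d12, d13, d14, d23, d24, d34⟩ <;> simp only [mul_smul, t1, t2, t3, t4]
  · apply h.eq4 (a := a) (b := x • a) (c := y • a) (d := x • y • a) ⟨d12, d13, d14, d23, d24, d34⟩ <;> simp only [mul_smul, t1, t2, t3, t4, c.xx']
  · apply h.eq4 (a := a) (b := x • a) (c := y • a) (d := x • y • a) ⟨d12, d13, d14, d23, d24, d34⟩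
    · simp only [mul_smul, t1, t3]
    · rw [mul_smul, ← c.xy', t4, mul_smul, mul_smul, t2, ← c.xy', c.xx']
    · rw [mul_smul, c.yy', t1, mul_smul, mul_smul, t3, ← c.xy', c.yy', c.xx']
    · rw [mul_smul, ← c.xy', c.yy', t2, mul_smul, mul_smul, t4, c.yy']

/-- all regular points are in one orbit -/
theorem Cf.reg (c : Cf x y p1 p2 p3 p4) (h : SH G Ω) {a b : Ω} (ha : Rg x y a) (hb : Rg x y b) {t : G} (ht : Tr t x y a) :
    b = a ∨ b = x • a ∨ b = y • a ∨ b = x • y • a := by
  obtain ⟨t', ht'⟩ := exists_tr c h hb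
  by_contra hcon
  push Not at hcon
  obtain ⟨n1, n2, n3, n4⟩ := hcon
  have hx1 : x ≠ 1 := by
    rintro rfl
    exact ha.1 (one_smul _ _)
  have ht1 : t ≠ 1 := by
    rintro rfl
    have := ht.t3
    rw [one_smul] at this
    exact (ha.d4 c).2.2.2.2.2 this
  have hti : t⁻¹ = t := inv_eq_of_mul_eq_one_left ht.tt
  have hc := c.cent h (t⁻¹ * t') (by
    rw [mul_assoc, ht'.tx, ← mul_assoc, hti, ht.tx, mul_assoc]) (by
    rw [mul_assoc, ht'.ty, hti]
    have h1 : t * (x * y) = y * t := by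
      rw [← mul_assoc, ht.tx, mul_assoc, ht.ty, ← mul_assoc, ← mul_assoc, c.xx, one_mul]
    rw [← mul_assoc, h1, mul_assoc])
  have hv : ∀ v, t⁻¹ * t' = v → t' = t * v := fun v hv => by rw [← hv]; group
  rcases hc with h1 | h1 | h1 | h1
  · have h2 := hv _ h1
    rw [mul_one] at h2
    subst h2
    apply ht1
    apply h.fx t' a (x • a) b (x • b) ⟨(ha.d4 c).1, fun h => n1 h.symm, ?_, fun h => n2 h.symm, ?_, (hb.d4 c).1⟩ ht.t1 ht.t2 ht'.t1 ht'.t2
    · intro h3; apply n2; rw [h3, c.xx']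
    · intro h3; exact n1 (smul_left_cancel x h3).symm
  · have h2 := hv _ h1
    have h3 : t = t' * x := by rw [h2, mul_assoc, c.xx, mul_one]
    have h4 : t • y • b = y • b := by rw [h3, mul_smul, ht'.t4]
    have h5 : t • x • y • b = x • y • b := by rw [h3, mul_smul, c.xx', ht'.t3]
    apply ht1
    apply h.fx t a (x • a) (y • b) (x • y • b) ⟨(ha.d4 c).1, ?_, ?_, ?_, ?_, (hb.d4 c).2.2.2.2.2⟩ ht.t1 ht.t2 h4 h5
    · intro h3; apply n3; rw [h3, c.yy']
    · intro h3; apply n4; rw [h3, ← c.xy' (y • b), c.yy', c.xx']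
    · intro h3; apply n4; rw [c.xy', h3, c.yy']
    · intro h3; apply n3; rw [smul_left_cancel x h3, c.yy']
  · exfalso
    have h2 := hv _ h1
    have h3 := ht'.tt
    rw [h2] at h3
    have h4 : t * y * (t * y) = x := by
      calc t * y * (t * y) = x * y * t * (t * y) := by rw [ht.ty]
        _ = x * y * (t * t) * y := by group
        _ = x * (y * y) := by rw [ht.tt]; group
        _ = x := by rw [c.yy, mul_one]
    exact hx1 (h4.symm.trans h3)
  · exfalso
    have h2 := hv _ h1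
    have h3 := ht'.tt
    rw [h2] at h3
    have h5 : t * (x * y) = y * t := by
      rw [← mul_assoc, ht.tx, mul_assoc, ht.ty, ← mul_assoc, ← mul_assoc, c.xx, one_mul]
    have h4 : t * (x * y) * (t * (x * y)) = x := by
      calc t * (x * y) * (t * (x * y)) = y * t * (t * (x * y)) := by rw [h5]
        _ = y * (t * t) * (x * y) := by group
        _ = y * (x * y) := by rw [ht.tt]; group
        _ = x * (y * y) := by rw [← mul_assoc, ← c.xy]; group
        _ = x := by rw [c.yy, mul_one]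
    exact hx1 (h4.symm.trans h3)


/-- the even case has no regular points -/
theorem Cf.even [Fintype Ω] [DecidableEq Ω] (c : Cf x y p1 p2 p3 p4) (h : SH G Ω) (hI : ∀ a : Ω, ¬ (x • a = a ∧ y • a = a)) {a : Ω} (ha : Rg x y a) : False := by
  obtain ⟨t, ht⟩ := exists_tr c h ha
  have ht1 : t ≠ 1 := by
    rintro rfl
    have := ht.t3
    rw [one_smul] at this
    exact (ha.d4 c).2.2.2.2.2 this
  have hx1 : x ≠ 1 := by
    rintro rfl
    exact ha.1 (one_smul _ _)
  have hA : ∀ e : Ω, x • e = e → e = p1 ∨ e = p2 := by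
    intro e he
    rcases c.fixx h e he with h1 | h1 | h1
    · exact Or.inl h1
    · exact Or.inr h1
    · exact absurd ⟨he, h1⟩ (hI e)
  have ap1 : a ≠ p1 := by rintro rfl; exact ha.1 c.x1
  have ap2 : a ≠ p2 := by rintro rfl; exact ha.1 c.x2
  have xp1 : x • a ≠ p1 := by intro h1; apply ap1; rw [← c.xx' a, h1, c.x1]
  have xp2 : x • a ≠ p2 := by intro h1; apply ap2; rw [← c.xx' a, h1, c.x2]
  have t1 : t • p1 = p2 := by
    rcases hA (t • p1) (by rw [← mul_smul, ← ht.tx, mul_smul, c.x1]) with h1 | h1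
    · exfalso
      rcases hA (t • p2) (by rw [← mul_smul, ← ht.tx, mul_smul, c.x2]) with h2 | h2
      · exact c.d.1 (smul_left_cancel t (h1.trans h2.symm))
      · exact ht1 (h.fx t p1 p2 a (x • a) ⟨c.d.1, ap1.symm, xp1.symm, ap2.symm, xp2.symm, (ha.d4 c).1⟩ h1 h2 ht.t1 ht.t2)
    · exact h1
  have t2 : t • p2 = p1 := by rw [← t1, ← mul_smul, ht.tt, one_smul]
  -- the element of order four
  set f := t * y with hf
  have f1 : f • p1 = p1 := by rw [hf, mul_smul, c.y1, t2]
  have f2 : f • p2 = p2 := by rw [hf, mul_smul, c.y2, t1]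
  have ff : f * f = x := by
    calc t * y * (t * y) = x * y * t * (t * y) := by rw [ht.ty]
      _ = x * y * (t * t) * y := by group
      _ = x * (y * y) := by rw [ht.tt]; group
      _ = x := by rw [c.yy, mul_one]
  have ffix : ∀ e : Ω, f • e = e → e = p1 ∨ e = p2 := by
    intro e he
    apply hA
    rw [← ff, mul_smul, he, he]
  obtain ⟨d12, d13, d14, d23, d24, d34⟩ := c.d
  set q := f • p3 with hq
  have q1 : q ≠ p1 := by intro h1; rw [hq] at h1; exact d13 (smul_left_cancel f (f1.trans h1.symm))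
  have q2 : q ≠ p2 := by intro h1; rw [hq] at h1; exact d23 (smul_left_cancel f (f2.trans h1.symm))
  have q3 : q ≠ p3 := by
    intro h1
    rcases ffix p3 h1 with h2 | h2
    · exact d13 h2.symm
    · exact d23 h2.symm
  obtain ⟨g, g1, g2, g3, g4⟩ := h.tr p1 p2 p3 p4 p1 p2 p3 q c.d ⟨d12, d13, q1.symm, d23, q2.symm, q3.symm⟩
  set f' := g * x * g⁻¹ with hf'
  have gi : ∀ e e' : Ω, g • e = e' → g⁻¹ • e' = e := fun e e' he => by rw [← he, inv_smul_smul]
  have f1' : f' • p1 = p1 := by rw [hf', mul_smul, mul_smul, gi _ _ g1, c.x1, g1]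
  have f2' : f' • p2 = p2 := by rw [hf', mul_smul, mul_smul, gi _ _ g2, c.x2, g2]
  have f3' : f' • p3 = q := by rw [hf', mul_smul, mul_smul, gi _ _ g3, c.x3, g4]
  have ff' : f' * f' = 1 := by
    rw [hf']
    calc g * x * g⁻¹ * (g * x * g⁻¹) = g * (x * x) * g⁻¹ := by group
      _ = 1 := by rw [c.xx]; group
  have ffix' : ∀ e : Ω, f' • e = e → e = p1 ∨ e = p2 := by
    intro e he
    have h1 : x • g⁻¹ • e = g⁻¹ • e := by
      rw [hf', mul_smul, mul_smul] at he
      nth_rw 2 [← he]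
      rw [inv_smul_smul]
    rcases hA _ h1 with h2 | h2
    · left
      have h3 : e = g • p1 := by rw [← h2, smul_inv_smul]
      rw [h3, g1]
    · right
      have h3 : e = g • p2 := by rw [← h2, smul_inv_smul]
      rw [h3, g2]
  have hne : f ≠ f' := by
    intro h1
    rw [h1, ff'] at ff
    exact hx1 ff.symm
  -- elements with a fixed point
  have hex : ∀ e : {e : Ω // e ≠ p1 ∧ e ≠ p2 ∧ e ≠ p3 ∧ e ≠ q}, ∃ k : G, k • p1 = p1 ∧ k • p2 = p2 ∧ k • p3 = q ∧ k • (e : Ω) = e := by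
    rintro ⟨e, e1, e2, e3, e4⟩
    exact h.tr p1 p2 p3 e p1 p2 q e ⟨d12, d13, e1.symm, d23, e2.symm, e3.symm⟩ ⟨d12, q1.symm, e1.symm, q2.symm, e2.symm, e4.symm⟩
  choose k k1 k2 k3 k4 using hex
  have hval : ∀ m : G, m • p1 = p1 → m • p2 = p2 → m • p3 = q → m • p4 ≠ p1 ∧ m • p4 ≠ p2 ∧ m • p4 ≠ q := by
    intro m m1 m2 m3
    refine ⟨?_, ?_, ?_⟩
    · intro h1; exact d14 (smul_left_cancel m (m1.trans h1.symm))
    · intro h1; exact d24 (smul_left_cancel m (m2.trans h1.symm))
    · intro h1; exact d34 (smul_left_cancel m (m3.trans h1.symm))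
  let Ψ : {e : Ω // e ≠ p1 ∧ e ≠ p2 ∧ e ≠ p3 ∧ e ≠ q} ⊕ Bool → {e : Ω // e ≠ p1 ∧ e ≠ p2 ∧ e ≠ q} := fun s => match s with
    | Sum.inl e => ⟨k e • p4, hval _ (k1 e) (k2 e) (k3 e)⟩
    | Sum.inr true => ⟨f • p4, hval _ f1 f2 rfl⟩
    | Sum.inr false => ⟨f' • p4, hval _ f1' f2' f3'⟩
  have heq : ∀ m m' : G, m • p1 = p1 → m • p2 = p2 → m • p3 = q → m' • p1 = p1 → m' • p2 = p2 → m' • p3 = q → m • p4 = m' • p4 → m = m' := by
    intro m m' m1 m2 m3 m1' m2' m3' m4
    exact h.eq4 c.d (m1.trans m1'.symm) (m2.trans m2'.symm) (m3.trans m3'.symm) m4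
  have hinj : Function.Injective Ψ := by
    rintro (e | b) (e' | b') he
    · have h1 : k e = k e' := heq _ _ (k1 e) (k2 e) (k3 e) (k1 e') (k2 e') (k3 e') (congrArg Subtype.val he)
      by_contra hcon
      have hne' : (e : Ω) ≠ e' := fun h2 => hcon (by rw [Subtype.ext h2])
      have h2 := h.fx (k e) p1 p2 e e' ⟨d12, e.2.1.symm, e'.2.1.symm, e.2.2.1.symm, e'.2.2.1.symm, hne'⟩ (k1 e) (k2 e) (k4 e) (by rw [h1]; exact k4 e')
      have h3 := k3 e
      rw [h2, one_smul] at h3
      exact q3 h3.symm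
    · exfalso
      cases b'
      · have h1 : k e = f' := heq _ _ (k1 e) (k2 e) (k3 e) f1' f2' f3' (congrArg Subtype.val he)
        have h2 := k4 e
        rw [h1] at h2
        rcases ffix' _ h2 with h3 | h3
        · exact e.2.1 h3
        · exact e.2.2.1 h3
      · have h1 : k e = f := heq _ _ (k1 e) (k2 e) (k3 e) f1 f2 rfl (congrArg Subtype.val he)
        have h2 := k4 e
        rw [h1] at h2
        rcases ffix _ h2 with h3 | h3
        · exact e.2.1 h3
        · exact e.2.2.1 h3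
    · exfalso
      cases b
      · have h1 : k e' = f' := heq _ _ (k1 e') (k2 e') (k3 e') f1' f2' f3' (congrArg Subtype.val he).symm
        have h2 := k4 e'
        rw [h1] at h2
        rcases ffix' _ h2 with h3 | h3
        · exact e'.2.1 h3
        · exact e'.2.2.1 h3
      · have h1 : k e' = f := heq _ _ (k1 e') (k2 e') (k3 e') f1 f2 rfl (congrArg Subtype.val he).symm
        have h2 := k4 e'
        rw [h1] at h2
        rcases ffix _ h2 with h3 | h3
        · exact e'.2.1 h3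
        · exact e'.2.2.1 h3
    · cases b <;> cases b'
      · rfl
      · exact absurd (heq _ _ f1' f2' f3' f1 f2 rfl (congrArg Subtype.val he)).symm hne
      · exact absurd (heq _ _ f1 f2 rfl f1' f2' f3' (congrArg Subtype.val he)) hne
      · rfl
  have hcard := Fintype.card_le_of_injective Ψ hinj
  rw [Fintype.card_sum, Fintype.card_bool] at hcard
  have hc1 : Fintype.card {e : Ω // e ≠ p1 ∧ e ≠ p2 ∧ e ≠ p3 ∧ e ≠ q} = Fintype.card Ω - 4 := by
    have h1 : Fintype.card {e : Ω // e ≠ p1 ∧ e ≠ p2 ∧ e ≠ p3 ∧ e ≠ q} = (Finset.univ \ {p1, p2, p3, q} : Finset Ω).card := by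
      rw [Fintype.card_subtype]
      congr 1
      ext e
      simp
    rw [h1, Finset.card_sdiff_of_subset (Finset.subset_univ _), Finset.card_univ]
    congr 1
    rw [Finset.card_insert_of_notMem, Finset.card_insert_of_notMem, Finset.card_insert_of_notMem, Finset.card_singleton]
    · simpa using q3.symm
    · simp only [Finset.mem_insert, Finset.mem_singleton, not_or]; exact ⟨d23, q2.symm⟩
    · simp only [Finset.mem_insert, Finset.mem_singleton, not_or]; exact ⟨d12, d13, q1.symm⟩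
  have hc2 : Fintype.card {e : Ω // e ≠ p1 ∧ e ≠ p2 ∧ e ≠ q} = Fintype.card Ω - 3 := by
    have h1 : Fintype.card {e : Ω // e ≠ p1 ∧ e ≠ p2 ∧ e ≠ q} = (Finset.univ \ {p1, p2, q} : Finset Ω).card := by
      rw [Fintype.card_subtype]
      congr 1
      ext e
      simp
    rw [h1, Finset.card_sdiff_of_subset (Finset.subset_univ _), Finset.card_univ]
    congr 1
    rw [Finset.card_insert_of_notMem, Finset.card_insert_of_notMem, Finset.card_singleton]
    · simpa using q2.symm
    · simp only [Finset.mem_insert, Finset.mem_singleton, not_or]; exact ⟨d12, q1.symm⟩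
  have hbig : 4 ≤ Fintype.card Ω := by
    have : ({p1, p2, p3, q} : Finset Ω).card = 4 := by
      rw [Finset.card_insert_of_notMem, Finset.card_insert_of_notMem, Finset.card_insert_of_notMem, Finset.card_singleton]
      · simpa using q3.symm
      · simp only [Finset.mem_insert, Finset.mem_singleton, not_or]; exact ⟨d23, q2.symm⟩
      · simp only [Finset.mem_insert, Finset.mem_singleton, not_or]; exact ⟨d12, d13, q1.symm⟩
    rw [← this, ← Finset.card_univ]
    exact Finset.card_le_card (Finset.subset_univ _)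
  rw [hc1, hc2] at hcard
  omega

/-- sets of size two -/
theorem ncard_two {s : Set Ω} (a b : Ω) (h : s ⊆ {a, b}) : s.Finite ∧ s.ncard ≤ 2 := by
  have hf : ({a, b} : Set Ω).Finite := Set.toFinite _
  exact ⟨hf.subset h, (Set.ncard_le_ncard h hf).trans (Set.ncard_insert_le a {b} |>.trans (by rw [Set.ncard_singleton]))⟩

theorem main (h : SH G Ω) {p1 p2 p3 p4 : Ω} (hd : D4 p1 p2 p3 p4) : Finite Ω ∧ Nat.card Ω ≤ 11 ∧ (Even (Nat.card Ω) → Nat.card Ω ≤ 6) := by
  classical
  obtain ⟨x, y, c⟩ := exists_cf h hd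
  let I : Set Ω := {a | x • a = a ∧ y • a = a}
  let C : Set Ω := {a | x • y • a = a ∧ x • a ≠ a}
  let R : Set Ω := {a | Rg x y a}
  have hcov : (Set.univ : Set Ω) ⊆ ({p1, p2} ∪ {p3, p4}) ∪ (I ∪ (C ∪ R)) := by
    intro a _
    by_cases hx : x • a = a
    · rcases c.fixx h a hx with h1 | h1 | h1
      · left; left; left; exact h1
      · left; left; right; exact h1
      · right; left; exact ⟨hx, h1⟩
    · by_cases hy : y • a = a
      · rcases c.fixy h a hy with h1 | h1 | h1
        · left; right; left; exact h1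
        · left; right; right; exact h1
        · exact absurd h1 hx
      · by_cases hz : x • y • a = a
        · right; right; left; exact ⟨hz, hx⟩
        · right; right; right; exact ⟨hx, hy, hz⟩
  have hI : I.Finite ∧ I.ncard ≤ 1 := by
    rcases Set.eq_empty_or_nonempty I with h1 | ⟨e, he⟩
    · rw [h1]; exact ⟨Set.finite_empty, by simp⟩
    · have h2 : I ⊆ {e} := fun a ha => c.fixI h a e ha.1 ha.2 he.1 he.2
      exact ⟨(Set.finite_singleton e).subset h2, (Set.ncard_le_ncard h2 (Set.finite_singleton e)).trans (by rw [Set.ncard_singleton])⟩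
  have hC : C.Finite ∧ C.ncard ≤ 2 := by
    rcases Set.eq_empty_or_nonempty C with h1 | ⟨e, he⟩
    · rw [h1]; exact ⟨Set.finite_empty, by simp⟩
    · exact ncard_two e (x • e) (fun a ha => c.fixz h e a he.1 he.2 ha.1 ha.2)
  have hR : R.Finite ∧ R.ncard ≤ 4 := by
    rcases Set.eq_empty_or_nonempty R with h1 | ⟨e, he⟩
    · rw [h1]; exact ⟨Set.finite_empty, by simp⟩
    · obtain ⟨t, ht⟩ := exists_tr c h he
      have h2 : R ⊆ {e, x • e} ∪ {y • e, x • y • e} := by
        intro a ha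
        rcases c.reg h he ha ht with h1 | h1 | h1 | h1
        · left; left; exact h1
        · left; right; exact h1
        · right; left; exact h1
        · right; right; exact h1
      have hf : (({e, x • e} ∪ {y • e, x • y • e} : Set Ω)).Finite := Set.toFinite _
      refine ⟨hf.subset h2, (Set.ncard_le_ncard h2 hf).trans ((Set.ncard_union_le _ _).trans ?_)⟩
      have h3 := (ncard_two (s := ({e, x • e} : Set Ω)) e (x • e) le_rfl).2
      have h4 := (ncard_two (s := ({y • e, x • y • e} : Set Ω)) (y • e) (x • y • e) le_rfl).2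
      omega
  have h12 := ncard_two (s := ({p1, p2} : Set Ω)) p1 p2 le_rfl
  have h34 := ncard_two (s := ({p3, p4} : Set Ω)) p3 p4 le_rfl
  have hfin : Finite Ω := Set.finite_univ_iff.mp (((h12.1.union h34.1).union (hI.1.union (hC.1.union hR.1))).subset hcov)
  have hcard : Nat.card Ω ≤ (({p1, p2} : Set Ω).ncard + ({p3, p4} : Set Ω).ncard) + (I.ncard + (C.ncard + R.ncard)) := by
    rw [← Set.ncard_univ]
    refine (Set.ncard_le_ncard hcov (Set.toFinite _)).trans ?_
    refine (Set.ncard_union_le _ _).trans (Nat.add_le_add (Set.ncard_union_le _ _) ?_)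
    exact (Set.ncard_union_le _ _).trans (Nat.add_le_add le_rfl (Set.ncard_union_le _ _))
  refine ⟨hfin, by omega, ?_⟩
  intro heven
  haveI : Fintype Ω := Fintype.ofFinite Ω
  -- there is no common fixed point
  have hIe : ∀ a : Ω, ¬ (x • a = a ∧ y • a = a) := by
    rintro e ⟨hex, hey⟩
    have hA : Fintype.card {a : Ω // x • a = a} = 3 := by
      rw [Fintype.card_subtype]
      have : (Finset.univ.filter fun a : Ω => x • a = a) = {p1, p2, e} := by
        ext a
        simp only [Finset.mem_filter, Finset.mem_univ, true_and, Finset.mem_insert, Finset.mem_singleton]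
        constructor
        · intro ha
          rcases c.fixx h a ha with h1 | h1 | h1
          · exact Or.inl h1
          · exact Or.inr (Or.inl h1)
          · exact Or.inr (Or.inr (c.fixI h a e ha h1 hex hey))
        · rintro (rfl | rfl | rfl)
          · exact c.x1
          · exact c.x2
          · exact hex
      rw [this]
      have e1 : p1 ≠ e := by rintro rfl; rw [c.y1] at hey; exact c.d.1 hey.symm
      have e2 : p2 ≠ e := by rintro rfl; rw [c.y2] at hey; exact c.d.1 hey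
      rw [Finset.card_insert_of_notMem, Finset.card_insert_of_notMem, Finset.card_singleton]
      · simpa using e2
      · simp only [Finset.mem_insert, Finset.mem_singleton, not_or]; exact ⟨c.d.1, e1⟩
    have hinv : Function.Involutive (fun a : Ω => x • a) := c.xx'
    have h3 : Fintype.card Ω ≡ Fintype.card {a : Ω // x • a = a} [MOD 2] := by
      have h4 := Equiv.Perm.card_fixedPoints_modEq (n := 1) (p := 2) (f := fun a : Ω => x • a) (by
        funext a
        exact c.xx' a)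
      refine h4.trans ?_
      have : Fintype.card (Function.fixedPoints (fun a : Ω => x • a)) = Fintype.card {a : Ω // x • a = a} := Fintype.card_congr (Equiv.refl _)
      rw [this]
    rw [hA] at h3
    rw [Nat.card_eq_fintype_card] at heven
    rw [Nat.even_iff] at heven
    unfold Nat.ModEq at h3
    omega
  have hI0 : I.ncard = 0 := by
    have : I = ∅ := by
      ext a
      simp only [Set.mem_empty_iff_false, iff_false]
      exact hIe a
    rw [this, Set.ncard_empty]
  have hR0 : R.ncard = 0 := by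
    have : R = ∅ := by
      ext a
      simp only [Set.mem_empty_iff_false, iff_false]
      exact fun ha => c.even h hIe ha
    rw [this, Set.ncard_empty]
  omega

end

end CfsgLib.H22Tits
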