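import Cfsg.Agent.LibJor8H13
import Cfsg.Agent.LibDiscH13

set_option autoImplicit false

namespace Cfsg.Agent.H22Uj

open Module LinearMap CfsgLib.Jor CfsgLib.Disc Cfsg.Agent.H22

/-- realised on a given space -/
def Real {F V : Type*} [Field F] [AddCommGroup V] [Module F V] (Q : QuadraticForm F V) (S : Multiset ℕ) : Prop :=
  ∃ T : V ≃ₗ[F] V, (∀ x, Q (T x) = Q x) ∧ (∃ M, ((T : V →ₗ[F] V) - 1 : End F V) ^ M = 0) ∧
    ∀ k, nk (T : V →ₗ[F] V) k = sm S k

theorem real_transfer {F V V' : Type*} [Field F] [AddCommGroup V] [Module F V] [FiniteDimensional F V]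
    [AddCommGroup V'] [Module F V'] [FiniteDimensional F V']
    {Q : QuadraticForm F V} {Q' : QuadraticForm F V'} {S : Multiset ℕ} (h : Real Q S)
    (g : V ≃ₗ[F] V') (hg : ∀ v, Q' (g v) = Q v) : Real Q' S := by
  obtain ⟨T, hT, ⟨M, hM⟩, hS⟩ := h
  let T' : V' ≃ₗ[F] V' := (g.symm.trans T).trans g
  have hT' : ∀ v, g (T v) = T' (g v) := by
    intro v
    show _ = g (T (g.symm (g v)))
    rw [LinearEquiv.symm_apply_apply]
  have hnk : ∀ k, nk (T' : V' →ₗ[F] V') k = nk (T : V →ₗ[F] V) k := fun k => (nk_congr g hT' k).symm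
  refine ⟨T', ?_, ⟨M, ?_⟩, ?_⟩
  · intro x
    show Q' (g (T (g.symm x))) = Q' x
    rw [hg, hT, ← hg, LinearEquiv.apply_symm_apply]
  · apply nil_of_nk
    rw [hnk, nk_of_nil hM, g.finrank_eq]
  · intro k; rw [hnk, hS]

theorem prod_nondeg {F V V' : Type*} [Field F] [AddCommGroup V] [Module F V]
    [AddCommGroup V'] [Module F V']
    {Q : QuadraticForm F V} {Q' : QuadraticForm F V'} (hQ : (QuadraticMap.polarBilin Q).Nondegenerate)
    (hQ' : (QuadraticMap.polarBilin Q').Nondegenerate) : (QuadraticMap.polarBilin (Q.prod Q')).Nondegenerate := by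
  have hp : ∀ x y, QuadraticMap.polarBilin (Q.prod Q') x y = QuadraticMap.polarBilin Q x.1 y.1 + QuadraticMap.polarBilin Q' x.2 y.2 := by
    intro x y
    rw [QuadraticMap.polarBilin_apply_apply, QuadraticMap.polar_prod]; rfl
  constructor
  · intro x hx
    apply Prod.ext
    · apply hQ.1
      intro y
      have h1 := hx (y, 0)
      rw [hp, map_zero, add_zero] at h1
      exact h1
    · apply hQ'.1
      intro y
      have h1 := hx (0, y)
      rw [hp, map_zero, zero_add] at h1
      exact h1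
  · intro x hx
    apply Prod.ext
    · apply hQ.2
      intro y
      have h1 := hx (y, 0)
      rw [hp] at h1
      simpa using h1
    · apply hQ'.2
      intro y
      have h1 := hx (0, y)
      rw [hp] at h1
      simpa using h1

theorem smul_nondeg {F V : Type*} [Field F] [AddCommGroup V] [Module F V]
    {Q : QuadraticForm F V} (hQ : (QuadraticMap.polarBilin Q).Nondegenerate) {c : F} (hc : c ≠ 0) :
    (QuadraticMap.polarBilin (c • Q)).Nondegenerate := by
  have h3 : ∀ x y, QuadraticMap.polarBilin (c • Q) x y = c * QuadraticMap.polarBilin Q x y := by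
    intro x y
    rw [QuadraticMap.polarBilin_apply_apply, QuadraticMap.polarBilin_apply_apply]
    unfold QuadraticMap.polar
    simp only [QuadraticMap.smul_apply, smul_eq_mul]; ring
  constructor
  · intro x hx
    apply hQ.1
    intro y
    have := hx y
    rw [h3] at this
    exact (mul_eq_zero.1 this).resolve_left hc
  · intro x hx
    apply hQ.2
    intro y
    have := hx y
    rw [h3] at this
    exact (mul_eq_zero.1 this).resolve_left hc

theorem gram_ne' {F V : Type*} [Field F] [AddCommGroup V] [Module F V] {ι : Type*} [Fintype ι] [DecidableEq ι]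
    (R : QuadraticForm F V) (hR : (QuadraticMap.polarBilin R).Nondegenerate) (b : Basis ι F V) : (gram R b).det ≠ 0 := by
  rw [gram_eq]
  exact (LinearMap.BilinForm.nondegenerate_iff_det_ne_zero b).1 hR

/-- with an odd part every type is realised on every form -/
theorem real_odd {F : Type*} [Field F] [Fintype F] (h2 : (2 : F) ≠ 0) {V : Type*} [AddCommGroup V] [Module F V]
    [FiniteDimensional F V] (Q₀ : QuadraticForm F V) (hQ₀ : (QuadraticMap.polarBilin Q₀).Nondegenerate)
    (μ : Multiset ℕ) (hpos : ∀ a ∈ μ, 0 < a) (hev : ∀ a, Even a → Even (μ.count a)) (hsum : μ.sum = finrank F V)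
    (a : ℕ) (ha : a ∈ μ) (hodd : Odd a) : Real Q₀ μ := by
  classical
  obtain ⟨μ0, rfl⟩ := Multiset.exists_cons_of_mem ha
  obtain ⟨n1, Q1, T1, hQ1, hT1, ⟨M1, hM1⟩, hS1⟩ := ror_odd F h2 hodd
  have hR0 : ROr F μ0 := by
    refine build (ROr F) Odd ror_zero (fun S S' => ror_add) (fun a _ ho => ror_odd F h2 ho) (fun a _ => ror_pair F a) _ ?_ ?_
    · intro b hb
      exact hpos b (Multiset.mem_cons_of_mem hb)
    · intro b hb
      rw [Nat.not_odd_iff_even] at hb
      have h3 := hev b hb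
      rw [Multiset.count_cons_of_ne (by
        rintro rfl
        exact (Nat.not_even_iff_odd.mpr hodd) hb)] at h3
      exact h3
  obtain ⟨n2, Q2, T2, hQ2, hT2, ⟨M2, hM2⟩, hS2⟩ := hR0
  have hn1 : n1 = a := by
    have := dim_eq hM1 hS1
    rw [Module.finrank_fin_fun, Multiset.sum_singleton] at this
    exact this
  have hn2 : n2 = μ0.sum := by
    have := dim_eq hM2 hS2
    rw [Module.finrank_fin_fun] at this
    exact this
  let b1 := Pi.basisFun F (Fin n1)
  let b2 := Pi.basisFun F (Fin n2)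
  let b0 := Module.finBasis F V
  obtain ⟨c, hc⟩ : ∃ c, c = (gram Q1 b1).det * (gram Q2 b2).det * (gram Q₀ b0).det := ⟨_, rfl⟩
  have hc0 : c ≠ 0 := by
    rw [hc]
    exact mul_ne_zero (mul_ne_zero (gram_ne' _ hQ1 _) (gram_ne' _ hQ2 _)) (gram_ne' _ hQ₀ _)
  let Q' : QuadraticForm F ((Fin n1 → F) × (Fin n2 → F)) := QuadraticMap.prod (c • Q1) Q2
  have hQ' : (QuadraticMap.polarBilin Q').Nondegenerate := prod_nondeg (smul_nondeg hQ1 hc0) hQ2
  have hg : gram Q' (b1.prod b2) = Matrix.fromBlocks (c • gram Q1 b1) 0 0 (gram Q2 b2) := by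
    ext i j
    show QuadraticMap.polar Q' ((b1.prod b2) i) ((b1.prod b2) j) = _
    have hp : ∀ x y : (Fin n1 → F) × (Fin n2 → F), QuadraticMap.polar Q' x y = c * QuadraticMap.polar Q1 x.1 y.1 + QuadraticMap.polar Q2 x.2 y.2 := by
      intro x y
      show QuadraticMap.polar (QuadraticMap.prod (c • Q1) Q2) x y = _
      rw [QuadraticMap.polar_prod]
      congr 1
      unfold QuadraticMap.polar
      simp only [QuadraticMap.smul_apply, smul_eq_mul]; ring
    rw [hp]
    rcases i with i | i <;> rcases j with j | j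
    · rw [Basis.prod_apply_inl_fst, Basis.prod_apply_inl_fst, Basis.prod_apply_inl_snd, Basis.prod_apply_inl_snd]
      rw [QuadraticMap.polar_zero_left, add_zero]
      rfl
    · rw [Basis.prod_apply_inl_fst, Basis.prod_apply_inr_fst, Basis.prod_apply_inl_snd, Basis.prod_apply_inr_snd]
      rw [QuadraticMap.polar_zero_left, QuadraticMap.polar_zero_right]
      simp
    · rw [Basis.prod_apply_inl_fst, Basis.prod_apply_inr_fst, Basis.prod_apply_inl_snd, Basis.prod_apply_inr_snd]
      rw [QuadraticMap.polar_zero_left, QuadraticMap.polar_zero_right]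
      simp
    · rw [Basis.prod_apply_inr_fst, Basis.prod_apply_inr_fst, Basis.prod_apply_inr_snd, Basis.prod_apply_inr_snd]
      rw [QuadraticMap.polar_zero_left, mul_zero, zero_add]
      rfl
  have hsq : IsSquare ((gram Q' (b1.prod b2)).det * (gram Q₀ b0).det) := by
    rw [hg, Matrix.det_fromBlocks_zero₁₂, Matrix.det_smul, Fintype.card_fin]
    obtain ⟨l, hl⟩ : Odd n1 := by rw [hn1]; exact hodd
    have hpw : c ^ n1 = c ^ (2 * l + 1) := congrArg (fun t => c ^ t) hl
    refine ⟨c ^ (l + 1), ?_⟩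
    rw [hpw]
    calc c ^ (2 * l + 1) * (gram Q1 b1).det * (gram Q2 b2).det * (gram Q₀ b0).det
        = c ^ (2 * l + 1) * ((gram Q1 b1).det * (gram Q2 b2).det * (gram Q₀ b0).det) := by ring
      _ = c ^ (2 * l + 1) * c := by rw [← hc]
      _ = c ^ (l + 1) * c ^ (l + 1) := by ring
  have hfr : finrank F ((Fin n1 → F) × (Fin n2 → F)) = finrank F V := by
    rw [Module.finrank_prod, Module.finrank_fin_fun, Module.finrank_fin_fun, ← hsum, Multiset.sum_cons, hn1, hn2]
  obtain ⟨g, hgg⟩ := (isometric_iff h2 Q' Q₀ hQ' hQ₀ (b1.prod b2) b0 hfr).2 hsq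
  refine real_transfer (Q := Q') ⟨T1.prodCongr T2, ?_, ⟨_, prod_nil hM1 hM2⟩, ?_⟩ g hgg
  · intro x
    show c • Q1 (T1 x.1) + Q2 (T2 x.2) = c • Q1 x.1 + Q2 x.2
    rw [hT1, hT2]
  · intro k
    rw [nk_prod, hS1, hS2, ← sm_add, Multiset.singleton_add]

theorem halve (μ : Multiset ℕ) (hpos : ∀ a ∈ μ, 0 < a) (hev : ∀ a, Even (μ.count a)) : ∃ ν : Multiset ℕ, μ = ν + ν := by
  refine build (fun S => ∃ ν, S = ν + ν) (fun _ => False) ⟨0, rfl⟩ ?_ (fun a _ h => absurd h id) (fun a _ => ⟨{a}, rfl⟩) μ hpos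
    (fun a _ => hev a)
  rintro _ _ ⟨ν, rfl⟩ ⟨ν', rfl⟩
  exact ⟨ν + ν', by abel⟩

theorem exists_equiv_type (F : Type*) [Field F] (S : Multiset ℕ) {n : ℕ} (hn : S.sum = n) :
    ∃ A : (Fin n → F) ≃ₗ[F] (Fin n → F), (∃ M, ((A : (Fin n → F) →ₗ[F] (Fin n → F)) - 1 : End F (Fin n → F)) ^ M = 0) ∧
      ∀ k, nk (A : (Fin n → F) →ₗ[F] (Fin n → F)) k = sm S k := by
  obtain ⟨T, hT, hk⟩ := exists_type (F := F) S (n := n) (M := S.sum) hn (fun a ha => Multiset.le_sum_of_mem ha)
  have hu : IsUnit T := by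
    have : IsNilpotent (T - 1) := ⟨_, hT⟩
    have := this.isUnit_one_add
    rwa [add_sub_cancel] at this
  obtain ⟨u, hu⟩ := hu
  let A : (Fin n → F) ≃ₗ[F] (Fin n → F) := LinearMap.GeneralLinearGroup.toLinearEquiv u
  have hA : (A : (Fin n → F) →ₗ[F] (Fin n → F)) = T := by
    apply LinearMap.ext
    intro x
    rw [← hu]; rfl
  exact ⟨A, ⟨_, by rw [hA]; exact hT⟩, fun k => by rw [hA]; exact hk k⟩

/-- the plus form realises the types with all multiplicities even -/
theorem real_plus {F : Type*} [Field F] {d : ℕ} (μ : Multiset ℕ) (hpos : ∀ a ∈ μ, 0 < a)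
    (hev : ∀ a, Even (μ.count a)) (hsum : μ.sum = 2 * d) : Real (qPlus d F) μ := by
  obtain ⟨ν, rfl⟩ := halve μ hpos hev
  rw [Multiset.sum_add] at hsum
  obtain ⟨A, ⟨M, hM⟩, hk⟩ := exists_equiv_type F ν (n := d) (by omega)
  have h1 : Real (QuadraticForm.dualProd F (Fin d → F)) (ν + ν) :=
    ⟨lev A, lev_quad A, ⟨M, lev_nil hM⟩, fun k => by rw [nk_lev, hk, sm_add]⟩
  let f : (Dual F (Fin d → F) × (Fin d → F)) →ₗ[F] (Fin d ⊕ Fin d → F) :=
    { toFun := fun x => Sum.elim (fun i => x.1 (Pi.single i 1)) x.2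
      map_add' := fun x y => by
        funext i; rcases i with i | i <;> simp
      map_smul' := fun c x => by
        funext i; rcases i with i | i <;> simp }
  have hinj : Function.Injective f := by
    rw [injective_iff_map_eq_zero]
    intro x hx
    apply Prod.ext
    · apply LinearMap.pi_ext'
      intro i
      apply LinearMap.ext_ring
      show x.1 (Pi.single i 1) = _
      exact congrFun hx (Sum.inl i)
    · funext i
      exact congrFun hx (Sum.inr i)
  have hfr : finrank F (Dual F (Fin d → F) × (Fin d → F)) = finrank F (Fin d ⊕ Fin d → F) := by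
    rw [Module.finrank_prod, Subspace.dual_finrank_eq]; simp
  let g := LinearEquiv.ofInjectiveOfFinrankEq f hinj hfr
  refine real_transfer h1 g (fun v => ?_)
  show qPlus d F (f v) = v.1 v.2
  rw [coe_qPlus]
  unfold Cfsg.quadFormPlus
  have h3 : v.2 = ∑ i, v.2 i • (Pi.single i (1 : F) : Fin d → F) := by
    funext j
    simp [Finset.sum_apply, Pi.single_apply]
  conv_rhs => rw [h3, map_sum]
  refine Finset.sum_congr rfl (fun i _ => ?_)
  rw [map_smul, smul_eq_mul]
  show v.1 (Pi.single i 1) * v.2 i = _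
  ring

end Cfsg.Agent.H22Uj
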