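import Cfsg.Prelude
import Cfsg.Agent.LibH22Uj1
import Cfsg.Agent.LibInv2oH13
import Cfsg.Agent.LibH22Spin2

set_option autoImplicit false

namespace Cfsg.Agent.H22Uj

open Module LinearMap CfsgLib.Jor CfsgLib.Disc Cfsg.Agent.H22 CfsgLib.Inv2

section restr
variable {F V : Type*} [Field F] [AddCommGroup V] [Module F V] [FiniteDimensional F V]

theorem restrict_type (h2 : (2 : F) ≠ 0) {Q : QuadraticForm F V} {μ : Multiset ℕ}
    (T : V ≃ₗ[F] V) (hT : ∀ x, Q (T x) = Q x) {M : ℕ} (hM : ((T : V →ₗ[F] V) - 1 : End F V) ^ M = 0)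
    (hpos : ∀ a ∈ μ, 0 < a) (hS : ∀ k, nk (T : V →ₗ[F] V) k = sm μ k)
    (W : Submodule F V) (hW : ∀ x ∈ W, (∀ y ∈ W, QuadraticMap.polar Q x y = 0) → x = 0) (hTW : ∀ x ∈ W, T x ∈ W) :
    ∃ ν ≤ μ, ν.sum = finrank F W ∧ (∀ e, Even e → Even (ν.count e)) ∧
      ((∀ x ∈ W, T (T x) - T x - (T x - x) = 0) ∨ ∃ e ∈ ν, 3 ≤ e) ∧
      finrank F (LinearMap.ker (((T : V →ₗ[F] V) - 1).domRestrict W)) = Multiset.card ν := by
  set B : LinearMap.BilinForm F V := QuadraticMap.polarBilin Q with hB
  have hBs : ∀ x y, B x y = B y x := by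
    intro x y
    rw [hB, QuadraticMap.polarBilin_apply_apply, QuadraticMap.polarBilin_apply_apply, QuadraticMap.polar_comm]
  have hBT : ∀ x y, B (T x) (T y) = B x y := by
    intro x y
    rw [hB, QuadraticMap.polarBilin_apply_apply, QuadraticMap.polarBilin_apply_apply]
    unfold QuadraticMap.polar
    rw [← map_add, hT, hT, hT]
  have hnd : (B.restrict W).Nondegenerate := by
    constructor
    · intro x hx
      exact Subtype.ext (hW x.1 x.2 (fun y hy => hx ⟨y, hy⟩))
    · intro x hx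
      exact Subtype.ext (hW x.1 x.2 (fun y hy => by rw [QuadraticMap.polar_comm]; exact hx ⟨y, hy⟩))
  have hrefl : B.IsRefl := fun x y h => by rw [hBs, h]
  have hcompl : IsCompl W (B.orthogonal W) :=
    LinearMap.BilinForm.isCompl_orthogonal_of_restrict_nondegenerate hrefl hnd
  set W' := B.orthogonal W with hW'
  have hTWeq : W.map (T : V →ₗ[F] V) = W := by
    apply Submodule.eq_of_le_of_finrank_eq
    · rintro _ ⟨x, hx, rfl⟩; exact hTW x hx
    · exact LinearEquiv.finrank_map_eq T W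
  have hTW' : ∀ x ∈ W', T x ∈ W' := by
    intro x hx
    rw [hW', LinearMap.BilinForm.mem_orthogonal_iff] at hx ⊢
    intro y hy
    rw [← hTWeq] at hy
    obtain ⟨z, hz, rfl⟩ := hy
    show B (T z) (T x) = 0
    rw [hBT]
    exact hx z hz
  let R : W →ₗ[F] W := (T : V →ₗ[F] V).restrict hTW
  let R' : W' →ₗ[F] W' := (T : V →ₗ[F] V).restrict hTW'
  have hRi : Function.Injective R := by
    intro x y h
    exact Subtype.ext (T.injective (congrArg Subtype.val h))
  have hRi' : Function.Injective R' := by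
    intro x y h
    exact Subtype.ext (T.injective (congrArg Subtype.val h))
  let E : W ≃ₗ[F] W := LinearEquiv.ofInjectiveEndo R hRi
  let E' : W' ≃ₗ[F] W' := LinearEquiv.ofInjectiveEndo R' hRi'
  have hEv : ∀ x : W, ((E x : W) : V) = T x := fun x => rfl
  have hEv' : ∀ x : W', ((E' x : W') : V) = T x := fun x => rfl
  have hpow : ∀ k, ∀ x : W, (((((E : W →ₗ[F] W) - 1 : End F W) ^ k) x : W) : V) = (((T : V →ₗ[F] V) - 1 : End F V) ^ k) x := by
    intro k
    induction k with
    | zero => intro x; rfl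
    | succ k ih =>
      intro x
      rw [pow_succ, pow_succ, Module.End.mul_apply, Module.End.mul_apply, ih]
      rfl
  have hpow' : ∀ k, ∀ x : W', (((((E' : W' →ₗ[F] W') - 1 : End F W') ^ k) x : W') : V) = (((T : V →ₗ[F] V) - 1 : End F V) ^ k) x := by
    intro k
    induction k with
    | zero => intro x; rfl
    | succ k ih =>
      intro x
      rw [pow_succ, pow_succ, Module.End.mul_apply, Module.End.mul_apply, ih]
      rfl
  have hEM : ((E : W →ₗ[F] W) - 1 : End F W) ^ M = 0 := by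
    apply LinearMap.ext
    intro x
    apply Subtype.ext
    rw [hpow, hM]; rfl
  have hEM' : ((E' : W' →ₗ[F] W') - 1 : End F W') ^ M = 0 := by
    apply LinearMap.ext
    intro x
    apply Subtype.ext
    rw [hpow', hM]; rfl
  obtain ⟨ν, hν1, hν2, hν3⟩ := exists_parts hEM
  obtain ⟨ν', hν1', hν2', hν3'⟩ := exists_parts hEM'
  have hnk : ∀ k, nk (T : V →ₗ[F] V) k = sm (ν + ν') k := by
    intro k
    rw [sm_add, ← hν3, ← hν3', ← nk_prod]
    symm
    refine nk_congr (Submodule.prodEquivOfIsCompl W W' hcompl) (fun v => ?_) k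
    rw [Submodule.coe_prodEquivOfIsCompl', Submodule.coe_prodEquivOfIsCompl']
    show ((E v.1 : W) : V) + ((E' v.2 : W') : V) = T (_ + _)
    rw [hEv, hEv', map_add]
  have hμ : μ = ν + ν' := by
    refine sm_inj hpos ?_ (fun k => by rw [← hS, hnk])
    intro a ha
    rcases Multiset.mem_add.mp ha with h | h
    · exact (hν1 a h).1
    · exact (hν1' a h).1
  refine ⟨ν, by rw [hμ]; exact Multiset.le_add_right _ _, hν2, ?_, ?_, ?_⟩
  · intro e he
    rcases Nat.eq_zero_or_pos e with h0 | h0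
    · subst h0
      rw [Multiset.count_eq_zero_of_notMem (fun h => lt_irrefl 0 (hν1 0 h).1)]
      exact ⟨0, rfl⟩
    · exact even_count_orth (B.restrict W) hnd (E : W →ₗ[F] W) (fun x y => hBT x y) h2 (fun x y => hBs x y) hν3 he h0
  · by_cases h3 : ∃ e ∈ ν, 3 ≤ e
    · exact Or.inr h3
    left
    push Not at h3
    have h4 : ((E : W →ₗ[F] W) - 1 : End F W) ^ 2 = 0 := by
      apply nil_of_nk
      rw [hν3, ← hν2]
      unfold sm
      conv_rhs => rw [← Multiset.map_id ν]
      congr 1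
      apply Multiset.map_congr rfl
      intro a ha
      have := h3 a ha
      show min a 2 = a
      omega
    intro x hx
    have h5 := hpow 2 ⟨x, hx⟩
    rw [h4] at h5
    have h6 : (((T : V →ₗ[F] V) - 1 : End F V) ^ 2) x = T (T x) - T x - (T x - x) := by
      rw [pow_two, Module.End.mul_apply, LinearMap.sub_apply, LinearMap.sub_apply, map_sub]
      rfl
    rw [← h6]
    exact h5.symm
  · have h7 := hν3 1
    have h8 : sm ν 1 = Multiset.card ν := by
      unfold sm
      have : ν.map (fun a => min a 1) = ν.map (fun _ => 1) := by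
        apply Multiset.map_congr rfl
        intro a ha
        have := (hν1 a ha).1
        omega
      rw [this]; simp
    rw [← h8, ← h7]
    unfold nk
    rw [pow_one]
    refine LinearEquiv.finrank_eq (LinearEquiv.ofEq _ _ ?_)
    ext x
    rw [LinearMap.mem_ker, LinearMap.mem_ker]
    constructor
    · intro h
      apply Subtype.ext
      exact h
    · intro h
      exact congrArg Subtype.val h

end restr

section grp
variable {F : Type*} [Field F] [Fintype F] {p : ℕ} [Fact p.Prime] [CharP F p] {ι : Type} [Fintype ι] [DecidableEq ι]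

theorem mem_comm_of_odd {V : Type*} [AddCommGroup V] [Module F V] [FiniteDimensional F V] {Q : QuadraticForm F V}
    (h2 : (2 : F) ≠ 0) (hQ : (QuadraticMap.polarBilin Q).Nondegenerate) (h : 2 ≤ finrank F V)
    {r : ℕ} (hr : Odd r) (g : OGrp Q) (hg : g ^ r = 1) : g ∈ commutator (OGrp Q) := by
  obtain ⟨x, v', ν, hx, hv', -, -, -, -, hidx, -⟩ := omega_odd h2 hQ h
  have h4 : g ^ 4 ∈ commutator (OGrp Q) := by
    rw [← hidx]
    exact Subgroup.pow_index_mem _ g
  have hcop : Nat.Coprime 4 r := by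
    have : Nat.Coprime (2 ^ 2) r := Nat.Coprime.pow_left 2 hr.coprime_two_left
    exact this
  have h5 : IsCoprime (4 : ℤ) (r : ℤ) := by exact_mod_cast (Nat.isCoprime_iff_coprime.mpr hcop)
  obtain ⟨u, w, huw⟩ := h5
  have h6 : g = (g ^ 4) ^ u * (g ^ r) ^ w := by
    rw [← zpow_natCast g 4, ← zpow_natCast g r, ← zpow_mul, ← zpow_mul, ← zpow_add]
    have : ((4 : ℕ) : ℤ) * u + (r : ℤ) * w = 1 := by push_cast; linarith
    rw [this, zpow_one]
  rw [h6, hg, one_zpow, mul_one]
  exact Subgroup.zpow_mem _ h4 u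

theorem sm_full {μ : Multiset ℕ} {k : ℕ} (h : ∀ a ∈ μ, a ≤ k) : sm μ k = μ.sum := by
  unfold sm
  conv_rhs => rw [← Multiset.map_id μ]
  congr 1
  apply Multiset.map_congr rfl
  intro a ha
  have := h a ha
  show min a k = a
  omega

theorem sm_one_lt {μ : Multiset ℕ} (h : ∃ a ∈ μ, 2 ≤ a) : sm μ 1 < μ.sum := by
  obtain ⟨a, ha, h2⟩ := h
  obtain ⟨μ0, rfl⟩ := Multiset.exists_cons_of_mem ha
  have h1 : sm μ0 1 ≤ μ0.sum := by
    unfold sm
    conv_rhs => rw [← Multiset.map_id μ0]
    apply Multiset.sum_map_le_sum_map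
    intro b _
    exact min_le_left _ _
  have h3 : sm (a ::ₘ μ0) 1 = min a 1 + sm μ0 1 := by
    unfold sm
    rw [Multiset.map_cons, Multiset.sum_cons]
  rw [h3, Multiset.sum_cons]
  omega

/-- the group element attached to a realisation -/
theorem exists_elt (h2 : (2 : F) ≠ 0) {Q : QuadraticForm F (ι → F)} (hQ : (QuadraticMap.polarBilin Q).Nondegenerate)
    (hfr : 2 ≤ finrank F (ι → F)) {μ : Multiset ℕ} (hle : ∀ a ∈ μ, a ≤ p) (hge : ∃ a ∈ μ, 2 ≤ a)
    (hsum : μ.sum = finrank F (ι → F)) (T : (ι → F) ≃ₗ[F] (ι → F)) (hT : ∀ x, Q (T x) = Q x)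
    (hS : ∀ k, nk (T : (ι → F) →ₗ[F] (ι → F)) k = sm μ k) :
    ∃ x : GL ι F, x ∈ Cfsg.Geo.omegaGL ⇑Q ∧ x ^ p = 1 ∧ x ≠ 1 ∧ (∀ z : F, (x : Matrix ι ι F) ≠ z • (1 : Matrix ι ι F)) ∧
      ∀ v, Matrix.toLin' (x : Matrix ι ι F) v = T v := by
  have hp : p.Prime := Fact.out
  have hp2 : p ≠ 2 := by
    rintro rfl
    apply h2
    have := CharP.cast_eq_zero F 2
    exact_mod_cast this
  have hnil : ((T : (ι → F) →ₗ[F] (ι → F)) - 1 : End F (ι → F)) ^ p = 0 := by
    apply nil_of_nk
    rw [hS, sm_full hle, hsum]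
  haveI : Nontrivial (ι → F) := by
    apply Module.nontrivial_of_finrank_pos (R := F)
    omega
  haveI : CharP (Module.End F (ι → F)) p :=
    charP_of_injective_algebraMap (FaithfulSMul.algebraMap_injective F (Module.End F (ι → F))) p
  have hTp : ((T : (ι → F) →ₗ[F] (ι → F)) : End F (ι → F)) ^ p = 1 := by
    have h1 := sub_pow_char_of_commute (p := p) (Commute.one_right ((T : (ι → F) →ₗ[F] (ι → F)) : End F (ι → F)))
    rw [hnil, one_pow] at h1
    exact (sub_eq_zero.mp h1.symm)
  have hT1 : (T : (ι → F) →ₗ[F] (ι → F)) ≠ (1 : End F (ι → F)) := by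
    intro h
    have h3 := hS 1
    rw [h, nk_one] at h3
    have h4 := sm_one_lt hge
    rw [← h3, hsum] at h4
    simp at h4
  have hApow : ∀ n : ℕ, ∀ y, (T ^ n) y = (((T : (ι → F) →ₗ[F] (ι → F)) : End F (ι → F)) ^ n) y := by
    intro n
    induction n with
    | zero => intro y; rfl
    | succ n ih =>
      intro y
      rw [pow_succ, pow_succ, LinearEquiv.mul_apply, ih]
      rfl
  let A : OGrp Q := ⟨T, hT⟩
  have hA : A ^ p = 1 := by
    apply Subtype.ext
    show T ^ p = 1
    apply LinearEquiv.ext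
    intro x
    rw [hApow, hTp]; rfl
  have hAc := mem_comm_of_odd h2 hQ hfr (hp.odd_of_ne_two hp2) A hA
  set g := (oIso Q).symm A with hg
  have hgA : oIso Q g = A := by rw [hg]; simp
  have hgO : g ∈ Cfsg.Omega F ⇑Q := (mem_Omega_iff Q g).mpr (by rw [hgA]; exact hAc)
  have hgr : g ^ p = 1 := by
    apply (oIso Q).injective
    rw [map_pow, hgA, hA, map_one]
  have hact : ∀ v, Matrix.toLin' ((g : GL ι F) : Matrix ι ι F) v = T v := by
    intro v
    rw [Matrix.toLin'_apply, ← oIso_apply, hgA]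
  refine ⟨(g : GL ι F), ⟨g, hgO, rfl⟩, ?_, ?_, ?_, hact⟩
  · rw [← Subgroup.coe_pow, hgr]; rfl
  · intro h
    apply hT1
    apply LinearMap.ext
    intro v
    show T v = v
    rw [← hact, h]; simp
  · intro z hz
    have h5 : ∀ v, T v = z • v := by
      intro v
      rw [← hact, hz, map_smul, Matrix.toLin'_one]; rfl
    have h6 : ((T : (ι → F) →ₗ[F] (ι → F)) : End F (ι → F)) = z • (1 : End F (ι → F)) := LinearMap.ext h5
    rw [h6, smul_pow, one_pow] at hTp
    have h7 : z ^ p = 1 := by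
      obtain ⟨v, hv⟩ := exists_ne (0 : ι → F)
      have h8 := LinearMap.congr_fun hTp v
      have h9 : (z ^ p) • v = (1 : F) • v := by rw [one_smul]; exact h8
      exact smul_left_injective F hv h9
    have h10 : z = 1 := by
      have h11 := sub_pow_char_of_commute (p := p) (Commute.one_right z)
      rw [h7, one_pow, sub_self] at h11
      have := pow_eq_zero_iff hp.ne_zero |>.mp h11
      exact sub_eq_zero.mp this
    apply hT1
    rw [h6, h10, one_smul]

end grp

end Cfsg.Agent.H22Uj
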