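import Cfsg.Agent.LibH22Uj2

set_option autoImplicit false

namespace Cfsg.Agent.H22Uj

open Module LinearMap CfsgLib.Jor CfsgLib.Disc Cfsg.Agent.H22 CfsgLib.Inv2

section core
variable {F : Type*} [Field F] [Fintype F] {p : ℕ} [Fact p.Prime] [CharP F p] {ι : Type} [Fintype ι] [DecidableEq ι]

theorem core1 (h2 : (2 : F) ≠ 0) {Q : QuadraticForm F (ι → F)} (hQ : (QuadraticMap.polarBilin Q).Nondegenerate)
    (hfr : 2 ≤ finrank F (ι → F)) {m : ℕ} {PT : Submodule F (ι → F) → Prop}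
    (H : ∀ x : GL ι F, x ∈ Cfsg.Geo.omegaGL ⇑Q → x ^ p = 1 → x ≠ 1 → (∀ z : F, (x : Matrix ι ι F) ≠ z • (1 : Matrix ι ι F)) →
      ∃ W : Submodule F (ι → F), (finrank F W = m ∧ Cfsg.Geo.IsNondegenerateOn (QuadraticMap.polar ⇑Q) W ∧ PT W) ∧
        W.map (Matrix.toLin' (x : Matrix ι ι F)) ≤ W)
    {μ : Multiset ℕ} (hpos : ∀ a ∈ μ, 0 < a) (hle : ∀ a ∈ μ, a ≤ p) (hge : ∃ a ∈ μ, 2 ≤ a)
    (hsum : μ.sum = finrank F (ι → F)) (hreal : Real Q μ) :
    ∃ ν ≤ μ, ν.sum = m ∧ (∀ e, Even e → Even (ν.count e)) ∧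
      ((∀ e ∈ ν, e = 2) → ∃ W : Submodule F (ι → F), PT W ∧ Cfsg.Geo.IsPlusTypeOn ⇑Q W) := by
  obtain ⟨T, hT, ⟨M, hM⟩, hS⟩ := hreal
  obtain ⟨x, hx, hxp, hx1, hxz, hact⟩ := exists_elt h2 hQ hfr hle hge hsum T hT hS
  obtain ⟨W, ⟨hWm, hWn, hWP⟩, hWx⟩ := H x hx hxp hx1 hxz
  have hTW : ∀ v ∈ W, T v ∈ W := by
    intro v hv
    rw [← hact]
    exact hWx (Submodule.mem_map_of_mem hv)
  obtain ⟨ν, hν, hνs, hνe, hν3, hνc⟩ := restrict_type h2 T hT hM hpos hS W (fun v hv h => by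
    by_contra h0
    obtain ⟨y, hy, hy2⟩ := (hWn v hv h0).2
    exact hy2 (h y hy)) hTW
  refine ⟨ν, hν, by rw [hνs, hWm], hνe, fun hall => ⟨W, hWP, ?_⟩⟩
  have hN : ∀ x ∈ W, T (T x) - T x - (T x - x) = 0 := by
    rcases hν3 with h | ⟨e, he, h3⟩
    · exact h
    · have := hall e he
      omega
  have hcard : 2 * Multiset.card ν = ν.sum := by
    have : ν = Multiset.replicate (Multiset.card ν) 2 := Multiset.eq_replicate.mpr ⟨rfl, hall⟩
    conv_rhs => rw [this]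
    rw [Multiset.sum_replicate, smul_eq_mul, mul_comm]
  have hrn := LinearMap.finrank_range_add_finrank_ker (((T : (ι → F) →ₗ[F] (ι → F)) - 1).domRestrict W)
  rw [hνc] at hrn
  refine ⟨LinearMap.range (((T : (ι → F) →ₗ[F] (ι → F)) - 1).domRestrict W), ?_, ?_, by omega⟩
  · rintro _ ⟨w, rfl⟩
    exact W.sub_mem (hTW w.1 w.2) w.2
  · rintro _ ⟨w, rfl⟩
    show Q (T w.1 - w.1) = 0
    have h1 : QuadraticMap.polar Q (T w.1) w.1 = 2 * Q w.1 := by
      have e1 : QuadraticMap.polar Q (T (T w.1)) (T w.1) = QuadraticMap.polar Q (T w.1) w.1 := by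
        unfold QuadraticMap.polar
        rw [← map_add, hT, hT, hT]
      have e2 : T (T w.1) = (2 : F) • T w.1 - w.1 := by
        have := hN w.1 w.2
        rw [two_smul]
        linear_combination (exp := 1) this
      have e3 : QuadraticMap.polar Q (T (T w.1)) (T w.1) = 4 * Q w.1 - QuadraticMap.polar Q (T w.1) w.1 := by
        rw [e2, QuadraticMap.polar_sub_left, QuadraticMap.polar_smul_left, QuadraticMap.polar_self, hT, smul_eq_mul,
          QuadraticMap.polar_comm Q w.1]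
        simp only [smul_eq_mul, nsmul_eq_mul]
        push_cast
        ring
      have e4 : 2 * QuadraticMap.polar Q (T w.1) w.1 = 2 * (2 * Q w.1) := by
        linear_combination (-1 : F) * e1 + e3
      exact mul_left_cancel₀ h2 e4
    have h3 : Q (T w.1 - w.1) = Q (T w.1) + Q w.1 - QuadraticMap.polar Q (T w.1) w.1 := by
      rw [sub_eq_add_neg, QuadraticMap.map_add ⇑Q, QuadraticMap.map_neg, QuadraticMap.polar_neg_right]; ring
    rw [h3, h1, hT]; ring

theorem ones (μ : Multiset ℕ) {m : ℕ} (hm : m ≤ μ.sum) (hpos : ∀ a ∈ μ, 0 < a) (hge : ¬ ∃ a ∈ μ, 2 ≤ a) :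
    ∃ ν ≤ μ, ν.sum = m ∧ (∀ e, Even e → Even (ν.count e)) := by
  have h1 : μ = Multiset.replicate (Multiset.card μ) 1 := by
    refine Multiset.eq_replicate.mpr ⟨rfl, fun a ha => ?_⟩
    have := hpos a ha
    by_contra hcon
    exact hge ⟨a, ha, by omega⟩
  have h2 : μ.sum = Multiset.card μ := by
    conv_lhs => rw [h1]
    rw [Multiset.sum_replicate]; simp
  refine ⟨Multiset.replicate m 1, ?_, by simp, ?_⟩
  · rw [h1]
    exact Multiset.replicate_le_replicate 1 |>.mpr (by omega)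
  · intro e he
    rw [Multiset.count_replicate, if_neg]
    · exact ⟨0, rfl⟩
    · rintro rfl
      exact absurd he (by decide)

end core

end Cfsg.Agent.H22Uj
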