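import Cfsg.Agent.EqBase
import Cfsg.Agent.LibPCyc
import Cfsg.Agent.LibCycNorm
set_option autoImplicit false
namespace CfsgLib.H2Cyc
open Subgroup Cfsg

universe u
variable {G : Type u} [Group G]

theorem setup [Finite G] {p : ℕ} [hp : Fact p.Prime] {n : ℕ} (hn : 3 ≤ n) (hG : Nat.card G = p ^ n) (C : Subgroup G)
    (hC : IsCyclic C) (hCi : C.index = p) :
    ∃ a : G, zpowers a = C ∧ orderOf a = p ^ (n - 1) ∧ C.Normal ∧ ∀ b ∉ C, ∃ k : ℤ, b * a * b⁻¹ = a ^ k := by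
  obtain ⟨⟨a, ha⟩, hgen⟩ := hC.exists_generator
  have hz : zpowers a = C := by
    apply le_antisymm (zpowers_le.mpr ha)
    intro x hx
    obtain ⟨k, hk⟩ := mem_zpowers_iff.mp (hgen ⟨x, hx⟩)
    exact mem_zpowers_iff.mpr ⟨k, congrArg Subtype.val hk⟩
  have hcard : Nat.card C * p = p ^ n := by rw [← hG, ← hCi, C.card_mul_index]
  have ho : orderOf a = p ^ (n - 1) := by
    rw [← Nat.card_zpowers, hz]
    have h1 : p ^ n = p ^ (n - 1) * p := by rw [← pow_succ]; congr 1; omega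
    rw [h1] at hcard
    exact Nat.eq_of_mul_eq_mul_right hp.out.pos hcard
  have hGp : IsPGroup p G := IsPGroup.of_card hG
  have hCn : C.Normal := by
    apply normal_of_index_eq_minFac_card
    rw [hCi, hG, Nat.Prime.pow_minFac hp.out (by omega)]
  refine ⟨a, hz, ho, hCn, ?_⟩
  intro b _
  have h1 := hCn.conj_mem a ha b
  rw [← hz] at h1
  obtain ⟨k, hk⟩ := mem_zpowers_iff.mp h1
  exact ⟨k, hk.symm⟩

theorem conj_pow_iter {a b : G} {k : ℤ} (h : b * a * b⁻¹ = a ^ k) (j : ℕ) : b ^ j * a * (b ^ j)⁻¹ = a ^ (k ^ j) := by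
  induction j with
  | zero => simp
  | succ j ih =>
    calc b ^ (j + 1) * a * (b ^ (j + 1))⁻¹ = b * (b ^ j * a * (b ^ j)⁻¹) * b⁻¹ := by rw [pow_succ']; group
      _ = b * a ^ (k ^ j) * b⁻¹ := by rw [ih]
      _ = (b * a * b⁻¹) ^ (k ^ j) := by rw [conj_zpow]
      _ = a ^ (k ^ (j + 1)) := by rw [h, ← zpow_mul, pow_succ']

/-- a group generated by `C` of prime index and `b ∉ C` commuting with a generator is commutative. -/
theorem comm_of [Finite G] {p : ℕ} [hp : Fact p.Prime] {C : Subgroup G} (hCi : C.index = p) {a b : G}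
    (hz : zpowers a = C) (hb : b ∉ C) (hab : b * a = a * b) : ∀ x y : G, x * y = y * x := by
  have htop : C ⊔ zpowers b = ⊤ := by
    rw [← index_eq_one]
    have h1 : (C ⊔ zpowers b).index ∣ p := by rw [← hCi]; exact index_dvd_of_le le_sup_left
    rcases (Nat.dvd_prime hp.out).mp h1 with h | h
    · exact h
    · exfalso
      apply hb
      have h2 : C = C ⊔ zpowers b := by
        apply eq_of_le_of_card_ge le_sup_left
        have h3 := (C ⊔ zpowers b).card_mul_index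
        have h4 := C.card_mul_index
        rw [h] at h3
        rw [hCi] at h4
        exact (Nat.eq_of_mul_eq_mul_right hp.out.pos (h3.trans h4.symm)).le
      rw [h2]
      exact (le_sup_right : zpowers b ≤ _) (mem_zpowers b)
  have ha : ∀ x : G, a * x = x * a := by
    have h1 : C ⊔ zpowers b ≤ centralizer {a} := by
      apply sup_le
      · rw [← hz]
        exact zpowers_le.mpr (mem_centralizer_singleton_iff.mpr rfl)
      · exact zpowers_le.mpr (mem_centralizer_singleton_iff.mpr hab)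
    intro x
    exact (mem_centralizer_singleton_iff.mp (h1 (by rw [htop]; trivial))).symm
  have hbc : ∀ x : G, b * x = x * b := by
    have h1 : C ⊔ zpowers b ≤ centralizer {b} := by
      apply sup_le
      · rw [← hz]
        exact zpowers_le.mpr (mem_centralizer_singleton_iff.mpr hab.symm)
      · exact zpowers_le.mpr (mem_centralizer_singleton_iff.mpr rfl)
    intro x
    exact (mem_centralizer_singleton_iff.mp (h1 (by rw [htop]; trivial))).symm
  intro x y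
  have h1 : C ⊔ zpowers b ≤ centralizer {y} := by
    apply sup_le
    · rw [← hz]
      exact zpowers_le.mpr (mem_centralizer_singleton_iff.mpr (ha y))
    · exact zpowers_le.mpr (mem_centralizer_singleton_iff.mpr (hbc y))
  exact mem_centralizer_singleton_iff.mp (h1 (by rw [htop]; trivial))

theorem one_add_pow (x : ℤ) (j : ℕ) : x ^ 2 ∣ (1 + x) ^ j - (1 + j * x) := by
  induction j with
  | zero => simp
  | succ j ih =>
    obtain ⟨c, hc⟩ := ih
    refine ⟨c * (1 + x) + j, ?_⟩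
    have : (1 + x) ^ j = (1 + j * x) + x ^ 2 * c := by rw [← hc]; ring
    rw [pow_succ, this]
    push_cast
    ring

theorem odd_case [Finite G] {p : ℕ} [hp : Fact p.Prime] (hp2 : p ≠ 2) (n : ℕ) (hn : 3 ≤ n)
    (hG : Nat.card G = p ^ n) (C : Subgroup G) (hC : IsCyclic C) (hCi : C.index = p)
    (hna : ∃ x y : G, x * y ≠ y * x) :
    ∃ a b : G, orderOf a = p ^ (n - 1) ∧ orderOf b = p ∧ b ∉ zpowers a ∧ b * a * b⁻¹ = a ^ (1 + p ^ (n - 2)) := by
  obtain ⟨a, hz, ho, hCn, hk⟩ := setup hn hG C hC hCi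
  have hGp : IsPGroup p G := IsPGroup.of_card hG
  have hnc : ¬ IsCyclic G := by
    intro h
    obtain ⟨x, y, hxy⟩ := hna
    letI := IsCyclic.commGroup (α := G)
    exact hxy (mul_comm x y)
  obtain ⟨K, hK, hKc⟩ := CfsgLib.PCyc.omega_of_cyclic_maximal hp.out hp2 hGp hnc C hC hCi
  have hKC : ¬ K ≤ C := by
    intro h
    haveI : IsCyclic (K.subgroupOf C) := inferInstance
    have h1 : IsCyclic K := isCyclic_of_surjective (subgroupOfEquivOfLe h).toMonoidHom (subgroupOfEquivOfLe h).surjective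
    obtain ⟨g, hg⟩ := h1.exists_generator
    have h2 := orderOf_eq_card_of_forall_mem_zpowers hg
    have h3 : g ^ p = 1 := Subtype.ext ((hK g).mp g.2)
    have h4 := orderOf_dvd_of_pow_eq_one h3
    rw [h2, hKc] at h4
    have h5 := Nat.le_of_dvd hp.out.pos h4
    have h6 := hp.out.one_lt
    nlinarith
  obtain ⟨b₀, hb₀K, hb₀C⟩ := SetLike.not_le_iff_exists.mp hKC
  have hb₀p : b₀ ^ p = 1 := (hK b₀).mp hb₀K
  have hb₀1 : b₀ ≠ 1 := fun h => hb₀C (h ▸ one_mem C)
  have hb₀o : orderOf b₀ = p := orderOf_eq_prime hb₀p hb₀1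
  obtain ⟨k₀, hk₀⟩ := hk b₀ hb₀C
  -- make the exponent natural and positive
  obtain ⟨k, hk1, hkk⟩ : ∃ k : ℕ, 1 ≤ k ∧ b₀ * a * b₀⁻¹ = a ^ (k : ℤ) := by
    refine ⟨(k₀ % (orderOf a : ℤ)).toNat + orderOf a, ?_, ?_⟩
    · have := orderOf_pos a; omega
    · rw [hk₀]
      have h1 : 0 ≤ k₀ % (orderOf a : ℤ) := Int.emod_nonneg _ (by have := orderOf_pos a; omega)
      push_cast
      rw [Int.toNat_of_nonneg h1, zpow_add, zpow_natCast a (orderOf a), pow_orderOf_eq_one, mul_one]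
      exact (zpow_mod_orderOf a k₀).symm
  have h1 := conj_pow_iter hkk p
  rw [hb₀p, one_mul, inv_one, mul_one] at h1
  have h2 : p ^ (n - 1) ∣ k ^ p - 1 := by
    have h3 : a ^ (((k : ℤ) ^ p) - 1) = 1 := by rw [zpow_sub, ← h1, zpow_one, mul_inv_cancel]
    rw [← orderOf_dvd_iff_zpow_eq_one, ho] at h3
    have h4 : 1 ≤ k ^ p := Nat.one_le_pow _ _ hk1
    zify [h4]
    exact_mod_cast h3
  have h3 := CfsgLib.PCyc.lte_aux hp.out hp2 (by omega : 1 ≤ n - 1) hk1 h2
  have hn2 : n - 1 - 1 = n - 2 := by omega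
  rw [hn2] at h3
  obtain ⟨t, ht⟩ := h3
  have hkt : (k : ℤ) = 1 + (t : ℤ) * p ^ (n - 2) := by
    have : k = 1 + p ^ (n - 2) * t := by omega
    rw [this]; push_cast; ring
  have hpn : p ^ (n - 1) = p ^ (n - 2) * p := by rw [← pow_succ]; congr 1; omega
  have hpt : ¬ p ∣ t := by
    rintro ⟨c, rfl⟩
    obtain ⟨x, y, hxy⟩ := hna
    apply hxy
    apply comm_of hCi hz hb₀C
    have h4 : a ^ ((k : ℤ) - 1) = 1 := by
      rw [← orderOf_dvd_iff_zpow_eq_one, ho, hkt, hpn]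
      exact ⟨c, by push_cast; ring⟩
    have h5 : b₀ * a * b₀⁻¹ = a := by
      rw [hkk]
      calc a ^ (k : ℤ) = a ^ ((k : ℤ) - 1) * a := by rw [← zpow_add_one]; congr 1; ring
        _ = a := by rw [h4, one_mul]
    rw [mul_inv_eq_iff_eq_mul] at h5
    exact h5
  have hcop : IsCoprime (t : ℤ) p := by
    rw [Nat.isCoprime_iff_coprime]
    exact ((Nat.Prime.coprime_iff_not_dvd hp.out).mpr hpt).symm
  obtain ⟨u, v, huv⟩ := hcop
  -- j ≡ u mod p natural
  set j := (u % (p : ℤ)).toNat with hj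
  have hppos : (0 : ℤ) < p := by exact_mod_cast hp.out.pos
  have hjz : (j : ℤ) = u % p := by rw [hj, Int.toNat_of_nonneg (Int.emod_nonneg _ hppos.ne')]
  have hjt : ∃ w : ℤ, (j : ℤ) * t = 1 + p * w := by
    refine ⟨-(v + (u / p) * t), ?_⟩
    have h4 := Int.emod_add_mul_ediv u p
    rw [hjz]
    have : u % p = u - p * (u / p) := by linarith
    rw [this]
    linear_combination huv
  obtain ⟨w, hw⟩ := hjt
  have hjp : ¬ p ∣ j := by
    rintro ⟨c, hc⟩
    rw [hc] at hw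
    push_cast at hw
    have h4 : (p : ℤ) ∣ 1 := ⟨c * t - w, by linear_combination (-1 : ℤ) * hw⟩
    have h5 : p ∣ 1 := by exact_mod_cast h4
    exact hp.out.one_lt.ne' (Nat.dvd_one.mp h5)
  have hjc : (orderOf b₀).Coprime j := by
    rw [hb₀o]; exact (Nat.Prime.coprime_iff_not_dvd hp.out).mpr hjp
  refine ⟨a, b₀ ^ j, ho, ?_, ?_, ?_⟩
  · rw [Nat.Coprime.orderOf_pow hjc, hb₀o]
  · rw [hz]
    intro h
    apply hb₀C
    obtain ⟨m, hm⟩ := exists_pow_eq_self_of_coprime hjc.symm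
    rw [← hm]
    exact pow_mem h m
  · rw [conj_pow_iter hkk j]
    have h4 : (p : ℤ) ^ (n - 1) ∣ (k : ℤ) ^ j - (1 + p ^ (n - 2)) := by
      obtain ⟨c, hc⟩ := one_add_pow ((t : ℤ) * p ^ (n - 2)) j
      rw [← hkt] at hc
      have h5 : (k : ℤ) ^ j = (1 + j * (t * p ^ (n - 2))) + (t * p ^ (n - 2)) ^ 2 * c := by rw [← hc]; ring
      obtain ⟨e, he⟩ : ∃ e, n - 2 = e + 1 := ⟨n - 3, by omega⟩
      have hn1 : n - 1 = e + 2 := by omega
      rw [h5, he, hn1]
      rw [he] at *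
      refine ⟨w + t ^ 2 * p ^ e * c, ?_⟩
      have : (j : ℤ) * (t * (p : ℤ) ^ (e + 1)) = (1 + p * w) * (p : ℤ) ^ (e + 1) := by rw [← hw]; ring
      rw [this]
      ring
    have h5 : a ^ ((k : ℤ) ^ j - (1 + p ^ (n - 2))) = 1 := by
      rw [← orderOf_dvd_iff_zpow_eq_one, ho]
      exact_mod_cast h4
    rw [zpow_sub, mul_inv_eq_one] at h5
    rw [h5]
    exact_mod_cast zpow_natCast a (1 + p ^ (n - 2))

theorem two_case [Finite G] (n : ℕ) (hn : 3 ≤ n) (hG : Nat.card G = 2 ^ n) (C : Subgroup G) (hC : IsCyclic C)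
    (hCi : C.index = 2) (hna : ∃ x y : G, x * y ≠ y * x) :
    ∃ a b : G, orderOf a = 2 ^ (n - 1) ∧ b ∉ zpowers a ∧
      ((b ^ 2 = 1 ∧ b * a * b⁻¹ = a⁻¹) ∨ (b ^ 2 = a ^ (2 ^ (n - 2)) ∧ b * a * b⁻¹ = a⁻¹) ∨
      (4 ≤ n ∧ b ^ 2 = 1 ∧ b * a * b⁻¹ = a ^ (1 + 2 ^ (n - 2))) ∨
      (4 ≤ n ∧ b ^ 2 = 1 ∧ b * a * b⁻¹ = a ^ (2 ^ (n - 2) - 1))) := by
  haveI : Fact (Nat.Prime 2) := ⟨Nat.prime_two⟩
  obtain ⟨a, hz, ho, hCn, hk⟩ := setup hn hG C hC hCi
  obtain ⟨b, hb⟩ : ∃ b, b ∉ C := by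
    by_contra hcon
    push Not at hcon
    have : C = ⊤ := eq_top_iff.mpr fun x _ => hcon x
    rw [this, index_top] at hCi
    omega
  obtain ⟨k, hk⟩ := hk b hb
  obtain ⟨e, rfl⟩ : ∃ e, n = e + 3 := ⟨n - 3, by omega⟩
  have e1 : e + 3 - 1 = e + 2 := by omega
  have e2 : e + 3 - 2 = e + 1 := by omega
  rw [e1] at ho ⊢
  rw [e2]
  have hb2 : b ^ 2 ∈ C := by
    rw [← QuotientGroup.eq_one_iff, QuotientGroup.mk_pow]
    have h1 : Nat.card (G ⧸ C) = 2 := by rw [← hCi]; rfl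
    rw [← h1]
    exact pow_card_eq_one'
  rw [← hz] at hb2
  obtain ⟨s, hs⟩ := mem_zpowers_iff.mp hb2
  have hdvd : ∀ i : ℤ, a ^ i = 1 ↔ (2 : ℤ) ^ (e + 2) ∣ i := by
    intro i
    rw [← orderOf_dvd_iff_zpow_eq_one, ho]
    push_cast
    rfl
  have heq : ∀ i j : ℤ, a ^ i = a ^ j ↔ (2 : ℤ) ^ (e + 2) ∣ i - j := by
    intro i j
    rw [← hdvd, zpow_sub, mul_inv_eq_one]
  have hk2 : (2 : ℤ) ^ (e + 2) ∣ (k - 1) * (k + 1) := by
    have h1 := conj_pow_iter hk 2
    have h2 : b ^ 2 * a * (b ^ 2)⁻¹ = a := by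
      rw [← hs, mul_inv_eq_iff_eq_mul]
      exact ((Commute.refl a).zpow_left s).eq
    rw [h2] at h1
    have h3 : a ^ (k ^ 2) = a ^ (1 : ℤ) := by rw [← h1, zpow_one]
    rw [heq] at h3
    have : (k - 1) * (k + 1) = k ^ 2 - 1 := by ring
    rw [this]; exact h3
  have hks : (2 : ℤ) ^ (e + 2) ∣ s * (k - 1) := by
    have h1 : b * a ^ s * b⁻¹ = a ^ s := by
      rw [hs]; group
    have h2 : a ^ (k * s) = a ^ s := by
      rw [← conj_zpow, hk, ← zpow_mul] at h1
      exact h1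
    rw [heq] at h2
    have : s * (k - 1) = k * s - s := by ring
    rw [this]; exact h2
  have hk1 : ¬ (2 : ℤ) ^ (e + 2) ∣ k - 1 := by
    intro h
    obtain ⟨x, y, hxy⟩ := hna
    apply hxy
    apply comm_of hCi hz hb
    have h1 : a ^ k = a ^ (1 : ℤ) := (heq k 1).mpr h
    rw [zpow_one] at h1
    rw [h1, mul_inv_eq_iff_eq_mul] at hk
    exact hk
  have hinv : (2 : ℤ) ^ (e + 2) ∣ k + 1 → b * a * b⁻¹ = a⁻¹ := by
    intro h
    rw [hk]
    have h1 : a ^ k = a ^ (-1 : ℤ) := (heq k (-1)).mpr (by rwa [sub_neg_eq_add])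
    rw [h1, zpow_neg_one]
  -- the case of inversion
  have caseinv : (2 : ℤ) ^ (e + 2) ∣ k + 1 →
      ((b ^ 2 = 1 ∧ b * a * b⁻¹ = a⁻¹) ∨ (b ^ 2 = a ^ (2 ^ (e + 1)) ∧ b * a * b⁻¹ = a⁻¹)) := by
    intro h
    have h1 : (2 : ℤ) ^ (e + 2) ∣ 2 * s := by
      have h2 := dvd_sub (h.mul_left s) hks
      have : s * (k + 1) - s * (k - 1) = 2 * s := by ring
      rwa [this] at h2
    have h2 : (2 : ℤ) ^ (e + 1) ∣ s := by
      rw [pow_succ' 2 (e + 1)] at h1
      exact (mul_dvd_mul_iff_left (by norm_num : (2 : ℤ) ≠ 0)).mp h1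
    obtain ⟨c, hc⟩ := h2
    rcases Int.even_or_odd c with ⟨d, hd⟩ | ⟨d, hd⟩
    · left
      refine ⟨?_, hinv h⟩
      rw [← hs, hdvd, hc, hd]
      exact ⟨d, by ring⟩
    · right
      refine ⟨?_, hinv h⟩
      rw [← hs]
      have : a ^ (2 ^ (e + 1)) = a ^ ((2 : ℤ) ^ (e + 1)) := by
        rw [← zpow_natCast]; push_cast; rfl
      rw [this, heq, hc, hd]
      exact ⟨d, by ring⟩
  have hzp : ∀ {x : G}, x ∉ C → x ∉ zpowers a := fun h => by rwa [hz]
  rcases CfsgLib.CycNorm.int_aux k (by omega : 1 ≤ e + 2) hk2 with h | h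
  · have h' : (2 : ℤ) ^ (e + 1) ∣ k - 1 := h
    obtain ⟨c, hc⟩ := h'
    rcases Int.even_or_odd c with ⟨d, hd⟩ | ⟨d, hd⟩
    · exact absurd ⟨d, by rw [hc, hd]; ring⟩ hk1
    · -- k ≡ 1 + 2^(e+1)
      have hkk : b * a * b⁻¹ = a ^ (1 + 2 ^ (e + 1)) := by
        rw [hk]
        have : a ^ (1 + 2 ^ (e + 1)) = a ^ (1 + (2 : ℤ) ^ (e + 1)) := by
          rw [← zpow_natCast]; push_cast; rfl
        rw [this, heq]
        exact ⟨d, by
          have : k = 1 + (k - 1) := by ring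
          rw [this, hc, hd]; ring⟩
      rcases Nat.eq_zero_or_pos e with he | he
      · subst he
        have h1 := caseinv ⟨d + 1, by
          have : k = 1 + (k - 1) := by ring
          rw [this, hc, hd]; ring⟩
        rcases h1 with h1 | h1
        · exact ⟨a, b, ho, hzp hb, Or.inl h1⟩
        · exact ⟨a, b, ho, hzp hb, Or.inr (Or.inl h1)⟩
      · obtain ⟨f, rfl⟩ : ∃ f, e = f + 1 := ⟨e - 1, by omega⟩
        -- s is even
        have h1 : (2 : ℤ) ∣ s := by
          have h2 : (2 : ℤ) ^ (f + 1 + 2) ∣ s * (2 ^ (f + 1 + 1) * c) := by rw [← hc]; exact hks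
          have h3 : (2 : ℤ) ^ (f + 1 + 1) * 2 ∣ 2 ^ (f + 1 + 1) * (s * c) := by
            have e3 : (2 : ℤ) ^ (f + 1 + 1) * 2 = 2 ^ (f + 1 + 2) := by ring
            have e4 : (2 : ℤ) ^ (f + 1 + 1) * (s * c) = s * (2 ^ (f + 1 + 1) * c) := by ring
            rw [e3, e4]; exact h2
          have h4 : (2 : ℤ) ∣ s * c := (mul_dvd_mul_iff_left (by positivity)).mp h3
          have h5 : IsCoprime (2 : ℤ) c := ⟨-d, 1, by rw [hd]; ring⟩
          exact h5.dvd_of_dvd_mul_right h4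
        obtain ⟨t, ht⟩ := h1
        have h6 : IsCoprime ((2 : ℤ) ^ (f + 1 + 1)) (1 + 2 ^ (f + 1)) := by
          apply IsCoprime.pow_left
          exact ⟨-2 ^ f, 1, by ring⟩
        obtain ⟨x, y, hxy⟩ := h6
        refine ⟨a, b * a ^ (-t * y), ho, ?_, Or.inr (Or.inr (Or.inl ⟨by omega, ?_, ?_⟩))⟩
        · rw [hz]
          intro h7
          apply hb
          have h8 : a ^ (-t * y) ∈ C := by rw [← hz]; exact zpow_mem (mem_zpowers a) _
          have h9 := mul_mem h7 (inv_mem h8)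
          rwa [mul_inv_cancel_right] at h9
        · set i := -t * y with hi
          have h7 : (b * a ^ i) ^ 2 = a ^ (k * i + s + i) := by
            calc (b * a ^ i) ^ 2 = (b * a ^ i * b⁻¹) * b ^ 2 * a ^ i := by rw [pow_two, pow_two]; group
              _ = a ^ (k * i) * a ^ s * a ^ i := by rw [← conj_zpow, hk, ← zpow_mul, hs]
              _ = a ^ (k * i + s + i) := by rw [← zpow_add, ← zpow_add]
          rw [h7, hdvd]
          refine ⟨t * x + i * d, ?_⟩
          have hkv : k = 1 + 2 ^ (f + 1 + 1) * (2 * d + 1) := by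
            have : k = 1 + (k - 1) := by ring
            rw [this, hc, hd]
          rw [hkv, ht]
          have h8 : x * 2 ^ (f + 1 + 1) = 1 - y * (1 + 2 ^ (f + 1)) := by linear_combination hxy
          have : (2 : ℤ) ^ (f + 1 + 2) * (t * x + i * d) = 2 * t * (x * 2 ^ (f + 1 + 1)) + 2 ^ (f + 1 + 2) * (i * d) := by
            ring
          rw [this, h8, hi]
          ring
        · have h7 : b * a ^ (-t * y) * a * (b * a ^ (-t * y))⁻¹ = b * a * b⁻¹ := by
            group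
          rw [h7]; exact hkk
  · have h' : (2 : ℤ) ^ (e + 1) ∣ k + 1 := h
    obtain ⟨c, hc⟩ := h'
    rcases Int.even_or_odd c with ⟨d, hd⟩ | ⟨d, hd⟩
    · have h1 := caseinv ⟨d, by rw [hc, hd]; ring⟩
      rcases h1 with h1 | h1
      · exact ⟨a, b, ho, hzp hb, Or.inl h1⟩
      · exact ⟨a, b, ho, hzp hb, Or.inr (Or.inl h1)⟩
    · have hkv : k = -1 + 2 ^ (e + 1) * (2 * d + 1) := by
        have : k = -1 + (k + 1) := by ring
        rw [this, hc, hd]
      rcases Nat.eq_zero_or_pos e with he | he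
      · subst he
        exfalso
        apply hk1
        exact ⟨d, by rw [hkv]; ring⟩
      · obtain ⟨f, rfl⟩ : ∃ f, e = f + 1 := ⟨e - 1, by omega⟩
        have hkk : b * a * b⁻¹ = a ^ (2 ^ (f + 1 + 1) - 1) := by
          rw [hk]
          have h1 : 1 ≤ 2 ^ (f + 1 + 1) := Nat.one_le_two_pow
          have : a ^ (2 ^ (f + 1 + 1) - 1) = a ^ ((2 : ℤ) ^ (f + 1 + 1) - 1) := by
            rw [← zpow_natCast]; push_cast [h1]; rfl
          rw [this, heq]
          exact ⟨d, by rw [hkv]; ring⟩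
        have h1 : (2 : ℤ) ^ (f + 1 + 1) ∣ s := by
          have h2 : (2 : ℤ) ^ (f + 1 + 2) ∣ s * (2 * (-1 + 2 ^ (f + 1) * (2 * d + 1))) := by
            have : s * (2 * (-1 + 2 ^ (f + 1) * (2 * d + 1))) = s * (k - 1) := by rw [hkv]; ring
            rw [this]; exact hks
          have h3 : 2 * (2 : ℤ) ^ (f + 1 + 1) ∣ 2 * (s * (-1 + 2 ^ (f + 1) * (2 * d + 1))) := by
            have e3 : 2 * (2 : ℤ) ^ (f + 1 + 1) = 2 ^ (f + 1 + 2) := by ring
            have e4 : 2 * (s * (-1 + 2 ^ (f + 1) * (2 * d + 1))) = s * (2 * (-1 + 2 ^ (f + 1) * (2 * d + 1))) := by ring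
            rw [e3, e4]; exact h2
          have h4 := (mul_dvd_mul_iff_left (by norm_num : (2 : ℤ) ≠ 0)).mp h3
          have h5 : IsCoprime ((2 : ℤ) ^ (f + 1 + 1)) (-1 + 2 ^ (f + 1) * (2 * d + 1)) := by
            apply IsCoprime.pow_left
            exact ⟨2 ^ f * (2 * d + 1), -1, by ring⟩
          exact h5.dvd_of_dvd_mul_right h4
        obtain ⟨c', hc'⟩ := h1
        rcases Int.even_or_odd c' with ⟨d', hd'⟩ | ⟨d', hd'⟩
        · refine ⟨a, b, ho, hzp hb, Or.inr (Or.inr (Or.inr ⟨by omega, ?_, hkk⟩))⟩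
          rw [← hs, hdvd, hc', hd']
          exact ⟨d', by ring⟩
        · refine ⟨a, b * a, ho, ?_, Or.inr (Or.inr (Or.inr ⟨by omega, ?_, ?_⟩))⟩
          · rw [hz]
            intro h7
            apply hb
            have h8 : a ∈ C := by rw [← hz]; exact mem_zpowers a
            have h9 := mul_mem h7 (inv_mem h8)
            rwa [mul_inv_cancel_right] at h9
          · have h7 : (b * a) ^ 2 = a ^ (k + s + 1) := by
              calc (b * a) ^ 2 = (b * a * b⁻¹) * b ^ 2 * a := by rw [pow_two, pow_two]; group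
                _ = a ^ k * a ^ s * a := by rw [hk, hs]
                _ = a ^ (k + s + 1) := by rw [← zpow_add, zpow_add_one]
            rw [h7, hdvd, hkv, hc', hd']
            exact ⟨d + d' + 1, by ring⟩
          · have h7 : b * a * a * (b * a)⁻¹ = b * a * b⁻¹ := by group
            rw [h7]; exact hkk

end CfsgLib.H2Cyc
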