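import Cfsg.Agent.EqBase
import Cfsg.Agent.LibKQ2
import Cfsg.Agent.LibH22OForms
set_option autoImplicit false
namespace CfsgLib.H2Ell
open Matrix

theorem quad_zero {K : Type*} [Field K] {ι : Type} [Fintype ι] [DecidableEq ι]
    (D : QuadraticForm K (ι → K)) (h1 : ∀ i, D (Pi.single i 1) = 0)
    (h2 : ∀ i j, D (Pi.single i 1 + Pi.single j 1) = 0) (v : ι → K) : D v = 0 := by
  have h3 : QuadraticMap.polarBilin D = 0 := by
    apply LinearMap.BilinForm.ext_basis (Pi.basisFun K ι)
    intro i j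
    rw [Pi.basisFun_apply, Pi.basisFun_apply]
    change D _ - D _ - D _ = 0
    rw [h1, h1, h2]; simp
  have h4 : ∀ x y, D (x + y) = D x + D y := by
    intro x y
    have h5 := congrArg (fun B : LinearMap.BilinForm K (ι → K) => B x y) h3
    change D _ - D _ - D _ = 0 at h5
    linear_combination h5
  have h6 : v = ∑ i, v i • (Pi.single i 1 : ι → K) := by
    ext j
    simp [Pi.single_apply]
  have h7 : D v = ∑ i, D (v i • (Pi.single i 1 : ι → K)) := by
    conv_lhs => rw [h6]
    exact map_sum (AddMonoidHom.mk' D h4) _ _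
  rw [h7]
  apply Finset.sum_eq_zero
  intro i _
  rw [QuadraticMap.map_smul, h1, smul_zero]

theorem isometry_baseChange {F K : Type*} [Field F] [Field K] (f : F →+* K) {ι : Type} [Fintype ι] [DecidableEq ι]
    (QF : QuadraticForm F (ι → F)) (QK : QuadraticForm K (ι → K)) (hQ : ∀ v, QK (f ∘ v) = f (QF v))
    (g : Matrix ι ι F) (hg : ∀ v, QF (g.mulVec v) = QF v) (v : ι → K) : QK ((g.map f).mulVec v) = QK v := by
  have h0 : ∀ w : ι → F, (g.map f).mulVec (f ∘ w) = f ∘ (g.mulVec w) := fun w => by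
    ext i; exact (RingHom.map_mulVec f g w i).symm
  let D : QuadraticForm K (ι → K) := QK.comp (Matrix.toLin' (g.map f)) - QK
  have hD : ∀ w : ι → F, D (f ∘ w) = 0 := by
    intro w
    change QK ((g.map f).mulVec (f ∘ w)) - QK (f ∘ w) = 0
    rw [h0, hQ, hQ, hg, sub_self]
  have hs : ∀ i : ι, (Pi.single i 1 : ι → K) = f ∘ (Pi.single i 1 : ι → F) := by
    intro i
    ext j
    by_cases hij : j = i
    · subst hij; simp
    · simp [Pi.single_eq_of_ne hij]
  have h1 := quad_zero D (fun i => by rw [hs i]; exact hD _) (fun i j => by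
    rw [hs i, hs j]
    have : f ∘ (Pi.single i 1 : ι → F) + f ∘ (Pi.single j 1 : ι → F) = f ∘ ((Pi.single i 1 : ι → F) + Pi.single j 1) := by
      ext k; simp
    rw [this]; exact hD _) v
  exact sub_eq_zero.mp h1

/-- adjoining a root of an anisotropic quadratic over a finite field -/
theorem exists_root {F K : Type*} [Field F] [Fintype F] [Field K] [Fintype K] {q : ℕ} (hF : Fintype.card F = q)
    (hK : Fintype.card K = q ^ 2) (a c : F)
    (hac : ∀ z₁ z₂ : F, z₁ ^ 2 + a * z₁ * z₂ + c * z₂ ^ 2 = 0 → z₁ = 0 ∧ z₂ = 0) :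
    ∃ (f : F →+* K) (α : K), α ^ 2 + f a * α + f c = 0 := by
  classical
  let P : Polynomial F := Polynomial.X ^ 2 + Polynomial.C a * Polynomial.X + Polynomial.C c
  have hdeg : P.natDegree = 2 := by
    have : P = Polynomial.C 1 * Polynomial.X ^ 2 + Polynomial.C a * Polynomial.X + Polynomial.C c := by simp [P]
    rw [this]
    exact Polynomial.natDegree_quadratic one_ne_zero
  have hirr : Irreducible P := by
    rw [Polynomial.irreducible_iff_roots_eq_zero_of_degree_le_three (by rw [hdeg]) (by rw [hdeg]; norm_num)]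
    rw [Multiset.eq_zero_iff_forall_notMem]
    intro z hz
    have h1 := (Polynomial.mem_roots'.mp hz).2
    rw [Polynomial.IsRoot.def] at h1
    have h2 : z ^ 2 + a * z * 1 + c * 1 ^ 2 = 0 := by
      simpa [P] using h1
    exact one_ne_zero (hac z 1 h2).2
  haveI : Fact (Irreducible P) := ⟨hirr⟩
  have hP0 : P ≠ 0 := hirr.ne_zero
  haveI : Module.Finite F (AdjoinRoot P) := (AdjoinRoot.powerBasis hP0).finite
  haveI : Finite (AdjoinRoot P) := Module.finite_of_finite F
  letI : Fintype (AdjoinRoot P) := Fintype.ofFinite _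
  have hcard : Fintype.card (AdjoinRoot P) = Fintype.card K := by
    rw [Module.card_eq_pow_finrank (K := F) (V := AdjoinRoot P), hK, hF, (AdjoinRoot.powerBasis hP0).finrank,
      AdjoinRoot.powerBasis_dim, hdeg]
  let e := FiniteField.ringEquivOfCardEq hcard
  refine ⟨(e : AdjoinRoot P →+* K).comp (AdjoinRoot.of P), e (AdjoinRoot.root P), ?_⟩
  have h1 : Polynomial.eval₂ (AdjoinRoot.of P) (AdjoinRoot.root P) P = 0 := AdjoinRoot.eval₂_root P
  have h2 : AdjoinRoot.root P ^ 2 + AdjoinRoot.of P a * AdjoinRoot.root P + AdjoinRoot.of P c = 0 := by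
    simpa [P] using h1
  have h3 := congrArg e h2
  simpa using h3


/-- the change of variables splitting the binary part -/
def split {K : Type*} [Field K] (k : ℕ) (α β : K) (hαβ : α ≠ β) :
    ((Fin k ⊕ Fin k) ⊕ Fin 2 → K) ≃ₗ[K] (Fin (k + 1) ⊕ Fin (k + 1) → K) where
  toFun v := Sum.elim (Fin.cons (v (.inr 0) - α * v (.inr 1)) (fun i => v (.inl (.inl i))))
    (Fin.cons (v (.inr 0) - β * v (.inr 1)) (fun i => v (.inl (.inr i))))
  invFun w := Sum.elim (Sum.elim (fun i => w (.inl i.succ)) (fun i => w (.inr i.succ)))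
    ![w (.inl 0) + α * ((w (.inl 0) - w (.inr 0)) / (β - α)), (w (.inl 0) - w (.inr 0)) / (β - α)]
  map_add' v w := by
    ext i
    rcases i with i | i
    · refine Fin.cases ?_ (fun j => ?_) i
      · simp; ring
      · simp
    · refine Fin.cases ?_ (fun j => ?_) i
      · simp; ring
      · simp
  map_smul' c v := by
    ext i
    rcases i with i | i
    · refine Fin.cases ?_ (fun j => ?_) i
      · simp; ring
      · simp
    · refine Fin.cases ?_ (fun j => ?_) i
      · simp; ring
      · simp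
  left_inv v := by
    have hd : β - α ≠ 0 := sub_ne_zero.mpr hαβ.symm
    ext i
    rcases i with (i | i) | i
    · simp
    · simp
    · fin_cases i
      · simp; field_simp; ring
      · simp; field_simp
  right_inv w := by
    have hd : β - α ≠ 0 := sub_ne_zero.mpr hαβ.symm
    ext i
    rcases i with i | i
    · refine Fin.cases ?_ (fun j => ?_) i
      · simp
      · simp
    · refine Fin.cases ?_ (fun j => ?_) i
      · simp; field_simp; ring
      · simp

theorem split_form {K : Type*} [Field K] (k : ℕ) (α β : K) (hαβ : α ≠ β) (v) :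
    Cfsg.quadFormMinus k K (-(α + β)) (α * β) v = Cfsg.quadFormPlus (k + 1) K (split k α β hαβ v) := by
  unfold Cfsg.quadFormMinus Cfsg.quadFormPlus
  rw [Fin.sum_univ_succ]
  simp [split]
  ring


open Cfsg.Agent.H22 in
theorem exists_hom {F K : Type*} [Field F] [Field K] (f : F →+* K) {ι ι' : Type} [Fintype ι] [DecidableEq ι]
    [Fintype ι'] [DecidableEq ι'] (QF : QuadraticForm F (ι → F)) (QK : QuadraticForm K (ι → K))
    (hQ : ∀ v, QK (f ∘ v) = f (QF v)) (QF' : (ι → F) → F) (hQF' : ⇑QF = QF') (ψ : (ι → K) ≃ₗ[K] (ι' → K)) (Q' : (ι' → K) → K)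
    (hψ : ∀ v, QK v = Q' (ψ v)) :
    ∃ φ : ↥(Cfsg.isometryGroup F QF') →* ↥(Cfsg.isometryGroup K Q'), Function.Injective φ := by
  subst hQF'
  let ρ : ↥(Cfsg.isometryGroup F ⇑QF) →* ((ι → K) ≃ₗ[K] (ι → K)) :=
    ((glLin (F := K) (ι := ι)).toMonoidHom.comp (Matrix.GeneralLinearGroup.map f)).comp (Subgroup.subtype _)
  have hρ : ∀ g v, QK (ρ g v) = QK v := by
    intro g v
    refine isometry_baseChange f QF QK hQ (g.1.val) ?_ v
    intro w
    exact g.2 w w
  obtain ⟨φ, hφ⟩ := CfsgLib.KQ2.exists_hom ρ QK hρ ψ Q' hψ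
  refine ⟨φ, CfsgLib.KQ2.hom_injective hφ ?_⟩
  intro g h hgh
  apply Subtype.ext
  have h3 : Matrix.GeneralLinearGroup.map f g.1 = Matrix.GeneralLinearGroup.map f h.1 :=
    (glLin (F := K) (ι := ι)).injective hgh
  apply Units.ext
  ext i j
  apply f.injective
  have h4 := congrArg (fun u : Matrix.GeneralLinearGroup ι K => u.val i j) h3
  exact h4

end CfsgLib.H2Ell
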