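import Cfsg.Agent.EqBase

/-! Transfer computed orbit by orbit; preparation for Grün's first theorem. -/

set_option autoImplicit false

namespace CfsgLib.H6

open Subgroup MulAction
open scoped Pointwise

theorem transfer_eq_prod_repr {G A : Type*} [Group G] [CommGroup A] {H : Subgroup G}
    [H.FiniteIndex] [hF : Fintype (G ⧸ H)] (ϕ : H →* A) (α : G ⧸ H → G)
    (hα : ∀ q, ((α q : G) : G ⧸ H) = q) (g : G) (Φ : G → A)
    (hΦ : ∀ h : H, Φ (h : G) = ϕ h) :
    MonoidHom.transfer ϕ g = ∏ q : G ⧸ H, Φ ((α q)⁻¹ * (g * α (g⁻¹ • q))) := by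
  obtain rfl : hF = H.fintypeQuotientOfFiniteIndex := Subsingleton.elim _ _
  have hS : IsComplement (Set.range α) (H : Set G) := isComplement_range_left hα
  let T : H.LeftTransversal := ⟨Set.range α, hS⟩
  rw [MonoidHom.transfer_def ϕ T g]
  unfold leftTransversals.diff
  simp only
  refine Finset.prod_congr rfl fun q _ => ?_
  rw [← hΦ]
  congr 1
  simp only
  rw [smul_apply_eq_smul_apply_inv_smul]
  rw [IsComplement.leftQuotientEquiv_apply hα, IsComplement.leftQuotientEquiv_apply hα]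
  rfl

theorem pow_card_orbit_smul {P : Type*} [Group P] [Finite P] {p : ℕ} [hp : Fact p.Prime]
    (hP : IsPGroup p P) {X : Type*} [MulAction P X] (u : P) (r : X) :
    u ^ (Nat.card (orbit P r)) • r = r := by
  classical
  have hfin : Finite (orbit P r) := (Set.finite_range (fun g : P => g • r)).to_subtype
  obtain ⟨t, ht⟩ := hP.card_orbit r
  have hfu : Finite (orbit (Subgroup.zpowers u) r) :=
    (Set.finite_range (fun g : Subgroup.zpowers u => g • r)).to_subtype
  have := Fintype.ofFinite (orbit (Subgroup.zpowers u) r)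
  have h1 : Function.minimalPeriod (u • ·) r = Nat.card (orbit (Subgroup.zpowers u) r) := by
    rw [MulAction.minimalPeriod_eq_card, Nat.card_eq_fintype_card]
  have h2 : Function.minimalPeriod (u • ·) r ∣ orderOf u := by
    rw [← MulAction.pow_smul_eq_iff_minimalPeriod_dvd, pow_orderOf_eq_one, one_smul]
  obtain ⟨k, hk⟩ := (IsPGroup.iff_orderOf.mp hP) u
  rw [hk] at h2
  obtain ⟨s, -, hs⟩ := (Nat.dvd_prime_pow hp.out).mp h2
  have h3 : Nat.card (orbit (Subgroup.zpowers u) r) ≤ Nat.card (orbit P r) := by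
    refine Nat.card_le_card_of_injective
      (fun y : orbit (Subgroup.zpowers u) r => (⟨y.1, ?_⟩ : orbit P r)) ?_
    · obtain ⟨⟨g, hg⟩, hy⟩ := y.2
      exact ⟨g, hy⟩
    · intro a b hab
      exact Subtype.ext (congrArg (fun z : orbit P r => (z : X)) hab)
  rw [MulAction.pow_smul_eq_iff_minimalPeriod_dvd, hs, ht]
  refine pow_dvd_pow p ?_
  rw [← h1, hs, ht] at h3
  exact (Nat.pow_le_pow_iff_right hp.out.one_lt).mp h3

open Classical in
/-- extension by one of a homomorphism defined on a subgroup -/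
noncomputable def extOne {G A : Type*} [Group G] [CommGroup A] {H : Subgroup G} (ϕ : H →* A)
    (g : G) : A := if h : g ∈ H then ϕ ⟨g, h⟩ else 1

theorem extOne_of_mem {G A : Type*} [Group G] [CommGroup A] {H : Subgroup G} (ϕ : H →* A)
    {g : G} (h : g ∈ H) : extOne ϕ g = ϕ ⟨g, h⟩ := by
  unfold extOne; rw [dif_pos h]

theorem extOne_mul {G A : Type*} [Group G] [CommGroup A] {H : Subgroup G} (ϕ : H →* A)
    {a b : G} (ha : a ∈ H) (hb : b ∈ H) : extOne ϕ (a * b) = extOne ϕ a * extOne ϕ b := by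
  rw [extOne_of_mem ϕ (H.mul_mem ha hb), extOne_of_mem ϕ ha, extOne_of_mem ϕ hb, ← map_mul]
  rfl

theorem extOne_one {G A : Type*} [Group G] [CommGroup A] {H : Subgroup G} (ϕ : H →* A) :
    extOne ϕ (1 : G) = 1 := by
  rw [extOne_of_mem ϕ H.one_mem]
  exact map_one ϕ

theorem extOne_inv {G A : Type*} [Group G] [CommGroup A] {H : Subgroup G} (ϕ : H →* A)
    {a : G} (ha : a ∈ H) : extOne ϕ a⁻¹ = (extOne ϕ a)⁻¹ := by
  rw [extOne_of_mem ϕ (H.inv_mem ha), extOne_of_mem ϕ ha, ← map_inv]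
  rfl

theorem extOne_pow {G A : Type*} [Group G] [CommGroup A] {H : Subgroup G} (ϕ : H →* A)
    {a : G} (ha : a ∈ H) (n : ℕ) : extOne ϕ (a ^ n) = (extOne ϕ a) ^ n := by
  rw [extOne_of_mem ϕ (H.pow_mem ha n), extOne_of_mem ϕ ha, ← map_pow]
  rfl

theorem extOne_listProd {G A ι : Type*} [Group G] [CommGroup A] {H : Subgroup G} (ϕ : H →* A)
    (w : ι → G) (x : G) : ∀ L : List ι, (∀ q ∈ L, x⁻¹ * w q * x ∈ H) →
      x⁻¹ * (L.map w).prod * x ∈ H ∧
      extOne ϕ (x⁻¹ * (L.map w).prod * x) = (L.map fun q => extOne ϕ (x⁻¹ * w q * x)).prod := by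
  intro L
  induction L with
  | nil =>
    intro _
    simp only [List.map_nil, List.prod_nil, mul_one, inv_mul_cancel]
    exact ⟨H.one_mem, extOne_one ϕ⟩
  | cons q L ih =>
    intro h
    obtain ⟨h1, h2⟩ := ih fun q hq => h q (List.mem_cons_of_mem _ hq)
    have h3 := h q List.mem_cons_self
    have e : x⁻¹ * ((q :: L).map w).prod * x = (x⁻¹ * w q * x) * (x⁻¹ * (L.map w).prod * x) := by
      simp only [List.map_cons, List.prod_cons]; group
    rw [e]
    refine ⟨H.mul_mem h3 h1, ?_⟩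
    rw [extOne_mul ϕ h3 h1, h2]
    simp

theorem orbit_prod {G A : Type*} [Group G] [Finite G] [CommGroup A] {p : ℕ} [Fact p.Prime]
    (P : Subgroup G) (hPp : IsPGroup p P) (ϕ : P →* A)
    (hconj : ∀ (x c : G), c ∈ ⁅P, P⁆ → x⁻¹ * c * x ∈ P → extOne ϕ (x⁻¹ * c * x) = 1)
    (x u : G) (hu : u ∈ P) (O : Finset (G ⧸ P))
    (hO : ∀ q, q ∈ O ↔ q ∈ orbit P (x : G ⧸ P))
    (v : G ⧸ P → G) (hvP : ∀ q ∈ O, v q ∈ P) (hv : ∀ q ∈ O, ((v q * x : G) : G ⧸ P) = q) :
    x⁻¹ * u ^ O.card * x ∈ P ∧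
    ∏ q ∈ O, extOne ϕ ((v q * x)⁻¹ * (u * (v (u⁻¹ • q) * x))) =
      extOne ϕ (x⁻¹ * u ^ O.card * x) := by
  classical
  have hinv : ∀ g ∈ P, ∀ q ∈ O, g • q ∈ O := by
    intro g hg q hq
    rw [hO] at hq ⊢
    obtain ⟨a, ha⟩ := hq
    refine ⟨⟨g, hg⟩ * a, ?_⟩
    simp only at ha ⊢
    rw [mul_smul, ha]; rfl
  obtain ⟨w, hw⟩ : ∃ w : G ⧸ P → G, w = fun q => (v q)⁻¹ * (u * v (u⁻¹ • q)) := ⟨_, rfl⟩
  have hwq : ∀ q ∈ O, x⁻¹ * w q * x = (v q * x)⁻¹ * (u * (v (u⁻¹ • q) * x)) := by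
    intro q _
    rw [hw]; group
  have hwP : ∀ q ∈ O, w q ∈ P := by
    intro q hq
    rw [hw]
    exact P.mul_mem (P.inv_mem (hvP q hq))
      (P.mul_mem hu (hvP _ (hinv _ (P.inv_mem hu) q hq)))
  have hwx : ∀ q ∈ O, x⁻¹ * w q * x ∈ P := by
    intro q hq
    rw [hwq q hq, ← QuotientGroup.eq, hv q hq]
    have h1 := hv _ (hinv _ (P.inv_mem hu) q hq)
    have h2 : ((u * (v (u⁻¹ • q) * x) : G) : G ⧸ P) = u • ((v (u⁻¹ • q) * x : G) : G ⧸ P) := rfl
    rw [h2, h1, smul_inv_smul]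
  obtain ⟨W, hW⟩ : ∃ W, W = (O.toList.map w).prod := ⟨_, rfl⟩
  obtain ⟨h1, h2⟩ := extOne_listProd ϕ w x O.toList (fun q hq => hwx q (Finset.mem_toList.mp hq))
  rw [← hW] at h1 h2
  have h3 : ∏ q ∈ O, extOne ϕ ((v q * x)⁻¹ * (u * (v (u⁻¹ • q) * x))) =
      extOne ϕ (x⁻¹ * W * x) := by
    rw [h2, Finset.prod_map_toList]
    exact Finset.prod_congr rfl fun q hq => by rw [hwq q hq]
  -- in the abelianization
  obtain ⟨h4, h5⟩ := extOne_listProd (Abelianization.of (G := P)) w 1 O.toList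
    (fun q hq => by simpa using hwP q (Finset.mem_toList.mp hq))
  simp only [inv_one, one_mul, mul_one] at h4 h5
  rw [← hW, Finset.prod_map_toList] at h5
  rw [← hW] at h4
  have h6 : extOne (Abelianization.of (G := P)) W =
      (extOne (Abelianization.of (G := P)) u) ^ O.card := by
    rw [h5]
    have h7 : ∀ q ∈ O, extOne (Abelianization.of (G := P)) (w q) =
        (extOne (Abelianization.of (G := P)) (v q))⁻¹ *
          (extOne (Abelianization.of (G := P)) u *
            extOne (Abelianization.of (G := P)) (v (u⁻¹ • q))) := by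
      intro q hq
      have h8 := hvP _ (hinv _ (P.inv_mem hu) q hq)
      rw [hw]
      simp only
      rw [extOne_mul _ (P.inv_mem (hvP q hq)) (P.mul_mem hu h8), extOne_inv _ (hvP q hq),
        extOne_mul _ hu h8]
    rw [Finset.prod_congr rfl h7, Finset.prod_mul_distrib, Finset.prod_mul_distrib,
      Finset.prod_const, Finset.prod_inv_distrib]
    have h8 : ∏ q ∈ O, extOne (Abelianization.of (G := P)) (v (u⁻¹ • q)) =
        ∏ q ∈ O, extOne (Abelianization.of (G := P)) (v q) := by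
      refine Finset.prod_bij' (fun q _ => u⁻¹ • q) (fun q _ => u • q)
        (fun q hq => hinv _ (P.inv_mem hu) q hq) (fun q hq => hinv _ hu q hq) ?_ ?_ ?_
      · intro q _; simp
      · intro q _; simp
      · intro q _; rfl
    rw [h8, mul_comm, mul_assoc, mul_inv_cancel, mul_one]
  have h9 : W * (u ^ O.card)⁻¹ ∈ ⁅P, P⁆ := by
    have h10 : extOne (Abelianization.of (G := P)) (W * (u ^ O.card)⁻¹) = 1 := by
      rw [extOne_mul _ h4 (P.inv_mem (P.pow_mem hu _)), extOne_inv _ (P.pow_mem hu _),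
        extOne_pow _ hu, h6, mul_inv_cancel]
    have h11 : W * (u ^ O.card)⁻¹ ∈ P := P.mul_mem h4 (P.inv_mem (P.pow_mem hu _))
    rw [extOne_of_mem _ h11] at h10
    have h12 : (⟨W * (u ^ O.card)⁻¹, h11⟩ : P) ∈ _root_.commutator P := by
      have h13 := (QuotientGroup.eq_one_iff (N := _root_.commutator P)
        (⟨W * (u ^ O.card)⁻¹, h11⟩ : P)).mp h10
      exact h13
    rw [← Subgroup.map_subtype_commutator]
    exact ⟨_, h12, rfl⟩
  have h14 : x⁻¹ * u ^ O.card * x ∈ P := by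
    have h15 : Nat.card (orbit P (x : G ⧸ P)) = O.card := by
      have h16 : (orbit P (x : G ⧸ P)) = (O : Set (G ⧸ P)) := by
        ext q; rw [← hO]; rfl
      rw [h16]; simp
    have h17 := pow_card_orbit_smul hPp (⟨u, hu⟩ : P) (x : G ⧸ P)
    rw [h15] at h17
    have h18 : ((u ^ O.card * x : G) : G ⧸ P) = (x : G ⧸ P) := h17
    have h19 := QuotientGroup.eq.mp h18.symm
    rwa [← mul_assoc] at h19
  refine ⟨h14, ?_⟩
  rw [h3]
  have e : x⁻¹ * W * x = (x⁻¹ * (W * (u ^ O.card)⁻¹) * x) * (x⁻¹ * u ^ O.card * x) := by group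
  have h20 : x⁻¹ * (W * (u ^ O.card)⁻¹) * x ∈ P := by
    have := P.mul_mem h1 (P.inv_mem h14)
    have e2 : x⁻¹ * W * x * (x⁻¹ * u ^ O.card * x)⁻¹ = x⁻¹ * (W * (u ^ O.card)⁻¹) * x := by group
    rwa [e2] at this
  rw [e, extOne_mul _ h20 h14, hconj x _ h9 h20, one_mul]

/-- core of Grün's first theorem -/
theorem grun_first {G : Type*} [Group G] [Finite G] {p : ℕ} [hp : Fact p.Prime] (P : Sylow p G)
    (F : Subgroup G)
    (hFc : ∀ x c : G, c ∈ ⁅(P : Subgroup G), (P : Subgroup G)⁆ → x⁻¹ * c * x ∈ (P : Subgroup G) →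
      x⁻¹ * c * x ∈ F)
    (hFN : ∀ x ∈ normalizer ((P : Subgroup G) : Set G), ∀ c ∈ (P : Subgroup G),
      x⁻¹ * c * x * c⁻¹ ∈ F) :
    (P : Subgroup G) ⊓ _root_.commutator G ≤ F := by
  classical
  obtain ⟨Q, hQ⟩ : ∃ Q : Subgroup G, Q = (P : Subgroup G) := ⟨_, rfl⟩
  have hQp : IsPGroup p Q := by rw [hQ]; exact P.2
  have hQi : ¬ p ∣ Q.index := by rw [hQ]; exact P.not_dvd_index
  rw [← hQ] at hFc hFN ⊢
  -- the homomorphism
  let B : Subgroup (Abelianization Q) := (F.subgroupOf Q).map Abelianization.of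
  let ϕ : Q →* (Abelianization Q ⧸ B) := (QuotientGroup.mk' B).comp Abelianization.of
  have hϕ1 : ∀ c ∈ Q, c ∈ F → extOne ϕ c = 1 := by
    intro c hc hcF
    rw [extOne_of_mem ϕ hc]
    exact (QuotientGroup.eq_one_iff _).mpr ⟨⟨c, hc⟩, hcF, rfl⟩
  have hϕ2 : ∀ c ∈ Q, extOne ϕ c = 1 → c ∈ F := by
    intro c hc h1
    rw [extOne_of_mem ϕ hc] at h1
    obtain ⟨f, hf, hfc⟩ := (QuotientGroup.eq_one_iff (N := B)
      (Abelianization.of (⟨c, hc⟩ : Q))).mp h1
    have h2 : f⁻¹ * ⟨c, hc⟩ ∈ _root_.commutator Q := QuotientGroup.eq.mp hfc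
    have h3 : (f : G)⁻¹ * c ∈ ⁅Q, Q⁆ := by
      rw [← Subgroup.map_subtype_commutator]
      exact ⟨_, h2, rfl⟩
    have h4 : (f : G)⁻¹ * c ∈ F := by
      have h5 : (f : G)⁻¹ * c ∈ Q := Q.mul_mem (Q.inv_mem f.2) hc
      have := hFc 1 _ h3 (by simpa using h5)
      simpa using this
    have h5 := F.mul_mem (Subgroup.mem_subgroupOf.mp hf) h4
    rwa [mul_inv_cancel_left] at h5
  have hconj : ∀ (x c : G), c ∈ ⁅Q, Q⁆ → x⁻¹ * c * x ∈ Q → extOne ϕ (x⁻¹ * c * x) = 1 :=
    fun x c hc hx => hϕ1 _ hx (hFc x c hc hx)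
  -- orbits of `Q` on cosets
  let o : G ⧸ Q → orbitRel.Quotient Q (G ⧸ Q) := fun q => Quotient.mk _ q
  have hex : ∀ q : G ⧸ Q, ∃ g : Q, g • (o q).out = q := by
    intro q
    have h1 : (orbitRel Q (G ⧸ Q)) q (o q).out := Quotient.exact (Quotient.out_eq (o q)).symm
    exact h1
  choose g hg using hex
  obtain ⟨v, hv⟩ : ∃ v : G ⧸ Q → G, v = fun q => ((g q : Q) : G) := ⟨_, rfl⟩
  obtain ⟨α, hα⟩ : ∃ α : G ⧸ Q → G, α = fun q => v q * ((o q).out).out := ⟨_, rfl⟩
  have hαq : ∀ q, ((α q : G) : G ⧸ Q) = q := by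
    intro q
    have h1 : ((α q : G) : G ⧸ Q) = g q • (((o q).out).out : G ⧸ Q) := by rw [hα, hv]; rfl
    rw [h1, QuotientGroup.out_eq', hg]
  have := Fintype.ofFinite (G ⧸ Q)
  have := Fintype.ofFinite (orbitRel.Quotient Q (G ⧸ Q))
  have main : ∀ n : ℕ, ∀ u : G, orderOf u = n → u ∈ Q → u ∈ _root_.commutator G → u ∈ F := by
    intro n
    induction n using Nat.strong_induction_on with
    | _ n ih =>
    intro u hun huQ huG
    by_cases hu1 : u = 1
    · rw [hu1]; exact F.one_mem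
    have htr : MonoidHom.transfer ϕ u = 1 := Abelianization.commutator_subset_ker _ huG
    rw [transfer_eq_prod_repr ϕ α hαq u (extOne ϕ) (fun h => extOne_of_mem ϕ h.2)] at htr
    obtain ⟨f, hf⟩ : ∃ f : G ⧸ Q → (Abelianization Q ⧸ B),
      f = fun q => extOne ϕ ((α q)⁻¹ * (u * α (u⁻¹ • q))) := ⟨_, rfl⟩
    have htr' : ∏ q, f q = 1 := by rw [hf]; exact htr
    rw [← Finset.prod_filter_mul_prod_filter_not Finset.univ
      (fun q => q ∈ fixedPoints Q (G ⧸ Q))] at htr'
    -- the fixed points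
    have hfix : ∀ q ∈ Finset.univ.filter (fun q => q ∈ fixedPoints Q (G ⧸ Q)),
        f q = extOne ϕ u := by
      intro q hq
      have hq' : q ∈ fixedPoints Q (G ⧸ Q) := (Finset.mem_filter.mp hq).2
      have h1 : u⁻¹ • q = q := hq' ⟨u⁻¹, Q.inv_mem huQ⟩
      have h2 : ∀ c ∈ Q, (α q)⁻¹ * c * α q ∈ Q := by
        intro c hc
        have h3 : ((c * α q : G) : G ⧸ Q) = ((α q : G) : G ⧸ Q) := by
          have h4 : ((c * α q : G) : G ⧸ Q) = (⟨c, hc⟩ : Q) • ((α q : G) : G ⧸ Q) := rfl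
          rw [h4, hαq]; exact hq' _
        have h4 := QuotientGroup.eq.mp h3.symm
        rwa [← mul_assoc] at h4
      have hN : (α q) ∈ normalizer (Q : Set G) := by
        have h3 : (α q)⁻¹ ∈ normalizer (Q : Set G) := by
          refine Subgroup.mem_normalizer_fintype (fun c hc => ?_)
          simpa using h2 c hc
        simpa using inv_mem h3
      have h3 := hFN _ hN u huQ
      have h4 : f q = extOne ϕ (((α q)⁻¹ * u * α q * u⁻¹) * u) := by
        rw [hf]; simp only; rw [h1]; congr 1; group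
      rw [h4, extOne_mul ϕ (Q.mul_mem (h2 u huQ) (Q.inv_mem huQ)) huQ,
        hϕ1 _ (Q.mul_mem (h2 u huQ) (Q.inv_mem huQ)) h3, one_mul]
    rw [Finset.prod_congr rfl hfix, Finset.prod_const] at htr'
    -- the other points
    have hnon : ∏ q ∈ Finset.univ.filter (fun q => ¬ q ∈ fixedPoints Q (G ⧸ Q)), f q = 1 := by
      rw [← Finset.prod_fiberwise _ o f]
      refine Finset.prod_eq_one fun j _ => ?_
      by_cases hem : (Finset.filter (fun q => o q = j)
          (Finset.univ.filter (fun q => ¬ q ∈ fixedPoints Q (G ⧸ Q)))) = ∅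
      · rw [hem, Finset.prod_empty]
      obtain ⟨q0, hq0⟩ := Finset.nonempty_iff_ne_empty.mpr hem
      simp only [Finset.mem_filter, Finset.mem_univ, true_and] at hq0
      obtain ⟨O, hO⟩ : ∃ O : Finset (G ⧸ Q), O = Finset.univ.filter (fun q => o q = j) := ⟨_, rfl⟩
      have hOeq : (Finset.filter (fun q => o q = j)
          (Finset.univ.filter (fun q => ¬ q ∈ fixedPoints Q (G ⧸ Q)))) = O := by
        rw [hO]
        ext q
        simp only [Finset.mem_filter, Finset.mem_univ, true_and, and_iff_right_iff_imp]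
        intro hqj hqf
        apply hq0.1
        have h1 : (orbitRel Q (G ⧸ Q)) q0 q := Quotient.exact (hq0.2.trans hqj.symm)
        obtain ⟨a, ha⟩ := h1
        have h2 : a • q = q0 := ha
        rw [← h2, hqf a]
        exact hqf
      have hmem : ∀ q, q ∈ O ↔ q ∈ orbit Q ((j.out.out : G) : G ⧸ Q) := by
        intro q
        rw [hO, QuotientGroup.out_eq']
        simp only [Finset.mem_filter, Finset.mem_univ, true_and]
        constructor
        · intro h1
          have h2 : (Quotient.mk (orbitRel Q (G ⧸ Q)) q) = Quotient.mk (orbitRel Q (G ⧸ Q)) j.out := by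
            rw [Quotient.out_eq]; exact h1
          exact Quotient.exact h2
        · intro h1
          have h2 : (Quotient.mk (orbitRel Q (G ⧸ Q)) q) = Quotient.mk (orbitRel Q (G ⧸ Q)) j.out :=
            Quotient.sound h1
          rw [Quotient.out_eq] at h2
          exact h2
      have hoj : ∀ q ∈ O, o q = j := by
        intro q hq; rw [hO] at hq; exact (Finset.mem_filter.mp hq).2
      have hαj : ∀ q ∈ O, α q = v q * j.out.out := by
        intro q hq
        rw [hα]; simp only; rw [hoj q hq]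
      have hinv : ∀ q ∈ O, u⁻¹ • q ∈ O := by
        intro q hq
        rw [hmem] at hq ⊢
        obtain ⟨a, ha⟩ := hq
        refine ⟨⟨u⁻¹, Q.inv_mem huQ⟩ * a, ?_⟩
        simp only at ha ⊢
        rw [mul_smul, ha]; rfl
      obtain ⟨h1, h2⟩ := orbit_prod Q hQp ϕ hconj j.out.out u huQ O hmem v
        (fun q _ => by rw [hv]; exact (g q).2)
        (fun q hq => by rw [← hαj q hq]; exact hαq q)
      rw [hOeq]
      have h3 : ∏ q ∈ O, f q = ∏ q ∈ O, extOne ϕ ((v q * j.out.out)⁻¹ *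
          (u * (v (u⁻¹ • q) * j.out.out))) := by
        refine Finset.prod_congr rfl fun q hq => ?_
        rw [hf]; simp only
        rw [hαj q hq, hαj _ (hinv q hq)]
      rw [h3, h2]
      apply hϕ1 _ h1
      -- induction
      refine ih (orderOf ((j.out.out)⁻¹ * u ^ O.card * j.out.out)) ?_ _ rfl h1 ?_
      · have e1 : orderOf ((j.out.out)⁻¹ * u ^ O.card * j.out.out) = orderOf (u ^ O.card) := by
          have := orderOf_injective (MulAut.conj (j.out.out)⁻¹).toMonoidHom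
            (MulAut.conj (j.out.out)⁻¹).injective (u ^ O.card)
          simpa [mul_assoc] using this
        rw [e1, ← hun, orderOf_pow]
        have hcard : Nat.card (orbit Q ((j.out.out : G) : G ⧸ Q)) = O.card := by
          have h16 : (orbit Q ((j.out.out : G) : G ⧸ Q)) = (O : Set (G ⧸ Q)) := by
            ext q
            exact (hmem q).symm
          rw [h16]; simp
        have hfo : Finite (orbit Q ((j.out.out : G) : G ⧸ Q)) :=
          (Set.finite_range (fun g : Q => g • ((j.out.out : G) : G ⧸ Q))).to_subtype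
        obtain ⟨t, ht⟩ := hQp.card_orbit ((j.out.out : G) : G ⧸ Q)
        rw [hcard] at ht
        have ht0 : t ≠ 0 := by
          rintro rfl
          rw [pow_zero, Finset.card_eq_one] at ht
          obtain ⟨q1, hq1⟩ := ht
          apply hq0.1
          have hq0O : q0 ∈ O := by rw [hO]; simp [hq0.2]
          intro a
          have h4 : a • q0 ∈ O := by
            rw [hmem] at hq0O ⊢
            obtain ⟨b, hb⟩ := hq0O
            refine ⟨a * b, ?_⟩
            simp only at hb ⊢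
            rw [mul_smul, hb]
          rw [hq1, Finset.mem_singleton] at h4 hq0O
          rw [h4, hq0O]
        obtain ⟨k, hk⟩ := (IsPGroup.iff_orderOf.mp hQp) ⟨u, huQ⟩
        rw [Subgroup.orderOf_mk] at hk
        have hk0 : k ≠ 0 := by
          rintro rfl
          rw [pow_zero, orderOf_eq_one_iff] at hk
          exact hu1 hk
        refine Nat.div_lt_self (orderOf_pos u) ?_
        have h5 : p ∣ (orderOf u).gcd O.card := by
          refine Nat.dvd_gcd ?_ ?_
          · rw [hk]; exact dvd_pow_self p hk0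
          · rw [ht]; exact dvd_pow_self p ht0
        have h6 : 0 < (orderOf u).gcd O.card := Nat.gcd_pos_of_pos_left _ (orderOf_pos u)
        exact lt_of_lt_of_le hp.out.one_lt (Nat.le_of_dvd h6 h5)
      · have h5 := (inferInstance : (_root_.commutator G).Normal).conj_mem _
          ((_root_.commutator G).pow_mem huG O.card) (j.out.out)⁻¹
        simpa using h5
    rw [hnon, mul_one] at htr'
    -- conclusion
    obtain ⟨m, hm⟩ : ∃ m, m = (Finset.univ.filter (fun q => q ∈ fixedPoints Q (G ⧸ Q))).card :=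
      ⟨_, rfl⟩
    rw [← hm] at htr'
    have hmp : ¬ p ∣ m := by
      have h1 := hQp.card_modEq_card_fixedPoints (G ⧸ Q)
      have h2 : Nat.card (fixedPoints Q (G ⧸ Q)) = m := by
        rw [hm, Nat.card_eq_fintype_card, Fintype.card_subtype]
      rw [h2] at h1
      intro hpm
      apply hQi
      have h3 : Nat.card (G ⧸ Q) ≡ 0 [MOD p] := h1.trans ((Nat.modEq_zero_iff_dvd).mpr hpm)
      exact (Nat.modEq_zero_iff_dvd).mp h3
    obtain ⟨k, hk⟩ := (IsPGroup.iff_orderOf.mp hQp) ⟨u, huQ⟩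
    rw [Subgroup.orderOf_mk] at hk
    apply hϕ2 u huQ
    have h1 : (extOne ϕ u) ^ (p ^ k) = 1 := by
      rw [← extOne_pow ϕ huQ, ← hk, pow_orderOf_eq_one, extOne_one]
    have h2 : Nat.Coprime (p ^ k) m :=
      Nat.Coprime.pow_left k ((Nat.Prime.coprime_iff_not_dvd hp.out).mpr hmp)
    have h3 : orderOf (extOne ϕ u) ∣ Nat.gcd (p ^ k) m :=
      Nat.dvd_gcd (orderOf_dvd_of_pow_eq_one h1) (orderOf_dvd_of_pow_eq_one htr')
    rw [h2, Nat.dvd_one, orderOf_eq_one_iff] at h3
    exact h3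
  rintro u ⟨hu1, hu2⟩
  exact main _ u rfl hu1 hu2

end CfsgLib.H6
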