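import Cfsg.Agent.EqBase
import Cfsg.Agent.LibH6Grun
set_option autoImplicit false
set_option maxHeartbeats 400000
/-! Transfer of an involution which is central in a subgroup with a unique fixed coset.  Seat helper2. -/
namespace CfsgLib.H2JE
open Subgroup MulAction
open scoped Pointwise

/-- weighted fixed point congruence -/
theorem prod_eq_of_unique_fixed {P X A : Type*} [Group P] [Finite P] [MulAction P X] [Fintype X] [CommGroup A]
    (hP : IsPGroup 2 P) (F : X → A) (hF : ∀ (t : P) (q : X), F (t • q) = F q) (hF2 : ∀ q, F q * F q = 1)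
    (x0 : X) (hx0 : ∀ t : P, t • x0 = x0) (hu : ∀ q, (∀ t : P, t • q = q) → q = x0) : ∏ q, F q = F x0 := by
  classical
  haveI : Fact (Nat.Prime 2) := ⟨Nat.prime_two⟩
  have h1 : ∏ q, F q = ∏ b ∈ Finset.univ.image F, b ^ (Finset.card {q ∈ (Finset.univ : Finset X) | F q = b}) :=
    Finset.prod_comp (s := Finset.univ) id F
  rw [h1]
  have key : ∀ b : A, Finset.card {q ∈ (Finset.univ : Finset X) | F q = b} ≡ (if b = F x0 then 1 else 0) [MOD 2] := by
    intro b
    let Y : SubMulAction P X := { carrier := {q | F q = b}, smul_mem' := by intro t q hq; rw [Set.mem_setOf_eq, hF]; exact hq }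
    have h2 := hP.card_modEq_card_fixedPoints (α := Y)
    have h3 : Nat.card Y = Finset.card {q ∈ (Finset.univ : Finset X) | F q = b} := by
      have e : Nat.card Y = Nat.card {q // F q = b} := rfl
      rw [e, Nat.card_eq_fintype_card, Fintype.card_subtype]
    have h4 : Nat.card (fixedPoints P Y) = if b = F x0 then 1 else 0 := by
      split_ifs with h
      · rw [Nat.card_eq_one_iff_unique]
        constructor
        · constructor
          rintro ⟨⟨a, ha⟩, ha'⟩ ⟨⟨c, hc⟩, hc'⟩
          have e1 := hu a (fun t => congrArg Subtype.val (ha' t))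
          have e2 := hu c (fun t => congrArg Subtype.val (hc' t))
          simp only [e1, e2]
        · refine ⟨⟨⟨x0, h.symm⟩, fun t => Subtype.ext (hx0 t)⟩⟩
      · rw [Nat.card_eq_zero]
        left
        constructor
        rintro ⟨⟨a, ha⟩, ha'⟩
        have e1 := hu a (fun t => congrArg Subtype.val (ha' t))
        apply h
        rw [← e1]; exact ha.symm
    rw [h3, h4] at h2
    exact h2
  rw [Finset.prod_eq_single_of_mem (F x0) (Finset.mem_image_of_mem F (Finset.mem_univ x0))]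
  · have h2 := key (F x0)
    rw [if_pos rfl] at h2
    have h3 : Odd (Finset.card {q ∈ (Finset.univ : Finset X) | F q = F x0}) := Nat.odd_iff.mpr h2
    obtain ⟨k, hk⟩ := h3
    rw [hk, pow_succ, pow_mul, pow_two, hF2, one_pow, one_mul]
  · intro b hb hne
    have h2 := key b
    rw [if_neg hne] at h2
    have h3 : Even (Finset.card {q ∈ (Finset.univ : Finset X) | F q = b}) := Nat.even_iff.mpr h2
    obtain ⟨q, -, rfl⟩ := Finset.mem_image.mp hb
    obtain ⟨k, hk⟩ := h3
    rw [hk, pow_add, ← mul_pow, hF2, one_pow]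

variable {G : Type*} [Group G]

theorem transfer_val [Finite G] {A : Type*} [CommGroup A] {S T : Subgroup G} (hT : IsPGroup 2 T) (hTS : T ≤ S) {x : G} (hx : x ∈ T)
    (hxx : x * x = 1) (hxT : ∀ t ∈ T, t * x = x * t) (hkey : ∀ g : G, (∀ t ∈ T, g⁻¹ * t * g ∈ S) → g ∈ S) (ϕ : S →* A) :
    MonoidHom.transfer ϕ x = ϕ ⟨x, hTS hx⟩ := by
  classical
  haveI : Fintype (G ⧸ S) := Fintype.ofFinite _
  haveI : Fintype (Quotient (orbitRel (zpowers x) (G ⧸ S))) := Fintype.ofFinite _
  rw [MonoidHom.transfer_eq_prod_quotient_orbitRel_zpowers_quot]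
  let F : G ⧸ S → A := fun q => if x • q = q then CfsgLib.H6.extOne ϕ (q.out⁻¹ * x * q.out) else 1
  have hmem : ∀ g : G, x • (g : G ⧸ S) = g ↔ g⁻¹ * x * g ∈ S := by
    intro g
    have e : x • (g : G ⧸ S) = ((x * g : G) : G ⧸ S) := rfl
    rw [e, eq_comm, QuotientGroup.eq, ← mul_assoc]
  have hFg : ∀ g : G, g⁻¹ * x * g ∈ S → F (g : G ⧸ S) = CfsgLib.H6.extOne ϕ (g⁻¹ * x * g) := by
    intro g hg
    have h1 : x • (g : G ⧸ S) = g := (hmem g).mpr hg
    simp only [F]
    rw [if_pos h1]
    have h2 : ((g : G ⧸ S).out)⁻¹ * g ∈ S := by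
      rw [← QuotientGroup.eq]; simp
    set o := (g : G ⧸ S).out with ho
    have h3 : o⁻¹ * x * o ∈ S := by
      rw [← hmem, ho]; simpa using h1
    have e : g⁻¹ * x * g = (o⁻¹ * g)⁻¹ * (o⁻¹ * x * o) * (o⁻¹ * g) := by group
    rw [e, CfsgLib.H6.extOne_mul ϕ (S.mul_mem (S.inv_mem h2) h3) h2, CfsgLib.H6.extOne_mul ϕ (S.inv_mem h2) h3,
      CfsgLib.H6.extOne_inv ϕ h2, mul_comm (_⁻¹), inv_mul_cancel_right]
  have hF2 : ∀ q, F q * F q = 1 := by
    intro q
    by_cases h : x • q = q
    · have e : F q = CfsgLib.H6.extOne ϕ (q.out⁻¹ * x * q.out) := if_pos h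
      have h1 : q.out⁻¹ * x * q.out ∈ S := by
        rw [← hmem]; simpa using h
      rw [e, ← CfsgLib.H6.extOne_mul ϕ h1 h1]
      have e2 : q.out⁻¹ * x * q.out * (q.out⁻¹ * x * q.out) = 1 := by
        calc q.out⁻¹ * x * q.out * (q.out⁻¹ * x * q.out) = q.out⁻¹ * (x * x) * q.out := by group
          _ = 1 := by rw [hxx]; group
      rw [e2, CfsgLib.H6.extOne_one]
    · have e : F q = 1 := if_neg h
      rw [e, one_mul]
  have hFT : ∀ (t : T) (q : G ⧸ S), F (t • q) = F q := by
    intro t q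
    have e0 : t • q = (t : G) • q := rfl
    rw [e0]
    have hc : (t : G) * x = x * t := hxT t t.2
    by_cases h : x • q = q
    · obtain ⟨g, rfl⟩ := QuotientGroup.mk_surjective q
      have h1 : g⁻¹ * x * g ∈ S := (hmem g).mp h
      have e1 : (t : G) • (g : G ⧸ S) = (((t : G) * g : G) : G ⧸ S) := rfl
      have e2 : ((t : G) * g)⁻¹ * x * ((t : G) * g) = g⁻¹ * x * g := by
        calc ((t : G) * g)⁻¹ * x * ((t : G) * g) = g⁻¹ * (t : G)⁻¹ * (x * t) * g := by group
          _ = g⁻¹ * x * g := by rw [← hc]; group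
      rw [e1, hFg _ (by rw [e2]; exact h1), e2, hFg g h1]
    · have h1 : ¬ x • ((t : G) • q) = (t : G) • q := by
        intro h2
        apply h
        have h3 : (t : G) • (x • q) = (t : G) • q := by
          rw [← mul_smul, hc, mul_smul]; exact h2
        exact (smul_left_cancel_iff _).mp h3
      have e1 : F ((t : G) • q) = 1 := if_neg h1
      have e2 : F q = 1 := if_neg h
      rw [e1, e2]
  have hfix : ∀ q : G ⧸ S, (∀ t : T, t • q = q) → q = ((1 : G) : G ⧸ S) := by
    intro q hq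
    obtain ⟨g, rfl⟩ := QuotientGroup.mk_surjective q
    symm
    rw [QuotientGroup.eq, inv_one, one_mul]
    apply hkey
    intro t ht
    have h1 : ((t * g : G) : G ⧸ S) = (g : G ⧸ S) := hq ⟨t, ht⟩
    rw [eq_comm, QuotientGroup.eq, ← mul_assoc] at h1
    exact h1
  have h0 : ∀ t : T, t • ((1 : G) : G ⧸ S) = ((1 : G) : G ⧸ S) := by
    intro t
    have e : t • ((1 : G) : G ⧸ S) = (((t : G) * 1 : G) : G ⧸ S) := rfl
    rw [e, eq_comm, QuotientGroup.eq, inv_one, one_mul, mul_one]
    exact hTS t.2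
  have hprod := prod_eq_of_unique_fixed hT F hFT hF2 _ h0 hfix
  have h1S : (1 : G)⁻¹ * x * 1 ∈ S := by simpa using hTS hx
  have hF1 : F ((1 : G) : G ⧸ S) = ϕ ⟨x, hTS hx⟩ := by
    rw [hFg 1 h1S]
    have e : (1 : G)⁻¹ * x * 1 = x := by simp
    rw [e, CfsgLib.H6.extOne_of_mem ϕ (hTS hx)]
  rw [← hF1, ← hprod]
  symm
  -- compare the two products
  have hxx' : x ^ 2 = 1 := by rw [pow_two]; exact hxx
  have hval : ∀ b : Quotient (orbitRel (zpowers x) (G ⧸ S)),
      ϕ ⟨b.out.out⁻¹ * x ^ Function.minimalPeriod (x • ·) b.out * b.out.out,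
        QuotientGroup.out_conj_pow_minimalPeriod_mem S x b.out⟩ = F b.out := by
    intro b
    rw [← CfsgLib.H6.extOne_of_mem ϕ]
    by_cases h : x • b.out = b.out
    · have h1 : Function.minimalPeriod (x • ·) b.out = 1 := Function.minimalPeriod_eq_one_iff_isFixedPt.mpr h
      have e : F b.out = CfsgLib.H6.extOne ϕ (b.out.out⁻¹ * x * b.out.out) := if_pos h
      rw [h1, pow_one, e]
    · have h1 : Function.minimalPeriod (x • ·) b.out ∣ 2 := by
        rw [← MulAction.pow_smul_eq_iff_minimalPeriod_dvd, hxx', one_smul]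
      have h2 : Function.minimalPeriod (x • ·) b.out = 2 := by
        rcases (Nat.dvd_prime Nat.prime_two).mp h1 with h3 | h3
        · exact absurd (Function.minimalPeriod_eq_one_iff_isFixedPt.mp h3) h
        · exact h3
      have e : F b.out = 1 := if_neg h
      rw [h2, hxx', e, mul_one, inv_mul_cancel, CfsgLib.H6.extOne_one]
  have hFne : ∀ q : G ⧸ S, F q ≠ 1 → x • q = q := by
    intro q hq
    by_contra h
    exact hq (if_neg h)
  have horb : ∀ a c : G ⧸ S, x • c = c → (Quotient.mk'' a : Quotient (orbitRel (zpowers x) (G ⧸ S))) = Quotient.mk'' c → a = c := by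
    intro a c hc h
    rw [Quotient.eq'', orbitRel_apply] at h
    obtain ⟨⟨z, n, rfl⟩, hz⟩ := h
    rw [← hz]
    have h1 : x ∈ stabilizer G c := hc
    exact mem_stabilizer_iff.mp (Subgroup.zpow_mem _ h1 n)
  refine Finset.prod_bij_ne_one (fun q _ _ => (Quotient.mk'' q : Quotient (orbitRel (zpowers x) (G ⧸ S)))) (fun _ _ _ => Finset.mem_univ _) ?_ ?_ ?_
  · intro a _ ha c _ hc h
    exact horb a c (hFne c hc) h
  · intro b _ hb
    refine ⟨b.out, Finset.mem_univ _, ?_, Quotient.out_eq' b⟩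
    rw [← hval b]; exact hb
  · intro a _ ha
    rw [hval]
    have h1 : (Quotient.mk'' a : Quotient (orbitRel (zpowers x) (G ⧸ S))).out = a :=
      horb _ a (hFne a ha) (Quotient.out_eq' _)
    rw [h1]

/-- elements of odd order generate a subgroup missing `x` -/
theorem not_mem_closure_odd [Finite G] {S T : Subgroup G} (hS : IsPGroup 2 S) (hTS : T ≤ S) {x : G} (hx : x ∈ T)
    (hxx : x * x = 1) (hxT : ∀ t ∈ T, t * x = x * t) (hkey : ∀ g : G, (∀ t ∈ T, g⁻¹ * t * g ∈ S) → g ∈ S)
    (hc : (⟨x, hTS hx⟩ : S) ∉ commutator S) : x ∉ Subgroup.closure {g : G | Odd (orderOf g)} := by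
  intro h
  apply hc
  have h1 := transfer_val (hS.to_le hTS) hTS hx hxx hxT hkey (Abelianization.of : S →* Abelianization S)
  have h2 : x ∈ (MonoidHom.transfer (Abelianization.of : S →* Abelianization S)).ker := by
    refine (Subgroup.closure_le _).mpr ?_ h
    intro g hg
    rw [SetLike.mem_coe, MonoidHom.mem_ker]
    set y := (MonoidHom.transfer (Abelianization.of : S →* Abelianization S)) g with hy
    have h3 : orderOf y ∣ orderOf g := orderOf_map_dvd _ g
    have h4 : IsPGroup 2 (Abelianization S) := hS.to_quotient _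
    haveI : Fact (Nat.Prime 2) := ⟨Nat.prime_two⟩
    obtain ⟨n, hn⟩ := IsPGroup.iff_orderOf.mp h4 y
    have h5 : Odd (orderOf y) := Odd.of_dvd_nat hg h3
    rw [hn] at h5
    rcases Nat.eq_zero_or_pos n with rfl | hn0
    · rw [pow_zero, orderOf_eq_one_iff] at hn
      exact hn
    · exfalso
      have h6 : Even (2 ^ n) := (Nat.even_pow.mpr ⟨even_two, by omega⟩)
      exact (Nat.not_even_iff_odd.mpr h5) h6
  rw [MonoidHom.mem_ker, h1] at h2
  rwa [← Abelianization.ker_of, MonoidHom.mem_ker]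

end CfsgLib.H2JE
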