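import Cfsg.Agent.EqBase

set_option autoImplicit false
namespace CfsgLib.H2JI
open scoped commutatorElement

theorem det_trick {R E J : Type*} [CommRing R] [AddCommGroup E] [Module R E] [Fintype J] [DecidableEq J]
    (ε : R →+* ℤ) (δ : J → E) (r : J → R)
    (h : ∀ j, r j • δ j ∈ RingHom.ker ε • Submodule.span R (Set.range δ)) :
    ∃ D : R, ε D = ∏ j, ε (r j) ∧ ∀ j, D • δ j = 0 := by
  choose a ha hsum using fun j => (Submodule.mem_ideal_smul_span_iff_exists_sum _ δ _).mp (h j)
  let μ : Matrix J J R := Matrix.diagonal r - Matrix.of (fun j k => a j k)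
  have hμ : ∀ j, ∑ k, μ j k • δ k = 0 := by
    intro j
    have h1 : ∑ k, μ j k • δ k = ∑ k, (Matrix.diagonal r j k) • δ k - ∑ k, (a j k) • δ k := by
      rw [← Finset.sum_sub_distrib]
      refine Finset.sum_congr rfl (fun k _ => ?_)
      rw [← sub_smul]; rfl
    have h2 : ∑ k, (a j k) • δ k = r j • δ j := by
      rw [← hsum j, Finsupp.sum_fintype]
      intro i; exact zero_smul _ _
    have h3 : ∑ k, (Matrix.diagonal r j k) • δ k = r j • δ j := by
      rw [Finset.sum_eq_single j]
      · rw [Matrix.diagonal_apply_eq]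
      · intro k _ hk
        rw [Matrix.diagonal_apply_ne _ hk.symm, zero_smul]
      · intro h; exact absurd (Finset.mem_univ _) h
    rw [h1, h2, h3, sub_self]
  refine ⟨μ.det, ?_, ?_⟩
  · rw [RingHom.map_det]
    have h1 : ε.mapMatrix μ = Matrix.diagonal (fun j => ε (r j)) := by
      ext j k
      rw [RingHom.mapMatrix_apply, Matrix.map_apply]
      show ε (Matrix.diagonal r j k - a j k) = _
      rw [map_sub, (ha j k : ε (a j k) = 0), sub_zero]
      by_cases hjk : j = k
      · subst hjk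
        rw [Matrix.diagonal_apply_eq, Matrix.diagonal_apply_eq]
      · rw [Matrix.diagonal_apply_ne _ hjk, Matrix.diagonal_apply_ne _ hjk, map_zero]
    rw [h1, Matrix.det_diagonal]
  · intro i
    have h1 : μ.det • δ i = ∑ k, ((μ.adjugate * μ) i k) • δ k := by
      rw [Matrix.adjugate_mul, Finset.sum_eq_single i]
      · rw [Matrix.smul_apply, Matrix.one_apply_eq, smul_eq_mul, mul_one]
      · intro k _ hk
        rw [Matrix.smul_apply, Matrix.one_apply_ne hk.symm, smul_zero, zero_smul]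
      · intro h; exact absurd (Finset.mem_univ _) h
    have h2 : ∑ k, ((μ.adjugate * μ) i k) • δ k = ∑ j, μ.adjugate i j • ∑ k, μ j k • δ k := by
      simp_rw [Matrix.mul_apply, Finset.sum_smul, Finset.smul_sum, smul_smul]
      exact Finset.sum_comm
    rw [h1, h2]
    exact Finset.sum_eq_zero (fun j _ => by rw [hμ j, smul_zero])

section
variable {G Q E : Type*} [Group G] [CommGroup Q] [AddCommGroup E] [Module (MonoidAlgebra ℤ Q) E]

noncomputable def aug (Q : Type*) [CommGroup Q] : MonoidAlgebra ℤ Q →+* ℤ :=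
  (MonoidAlgebra.lift ℤ ℤ Q (1 : Q →* ℤ)).toRingHom

theorem aug_of (u : Q) : aug Q (MonoidAlgebra.of ℤ Q u) = 1 := by
  show (MonoidAlgebra.lift ℤ ℤ Q (1 : Q →* ℤ)) (MonoidAlgebra.of ℤ Q u) = 1
  rw [MonoidAlgebra.lift_of]; rfl

def Der (π : G →* Q) (d : G → E) : Prop :=
  ∀ g h, d (g * h) = MonoidAlgebra.of ℤ Q (π h) • d g + d h

variable {π : G →* Q} {d : G → E}

theorem Der.one (hd : Der π d) : d 1 = 0 := by
  have h := hd 1 1
  rw [mul_one, map_one, map_one, one_smul] at h
  exact left_eq_add.mp h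

theorem Der.inv (hd : Der π d) (g : G) : d g⁻¹ = -(MonoidAlgebra.of ℤ Q (π g⁻¹) • d g) := by
  have h := hd g g⁻¹
  rw [mul_inv_cancel, hd.one] at h
  exact (neg_eq_of_add_eq_zero_right h.symm).symm

theorem Der.pow (hd : Der π d) (g : G) (k : ℕ) :
    d (g ^ k) = (∑ j ∈ Finset.range k, (MonoidAlgebra.of ℤ Q (π g)) ^ j) • d g := by
  induction k with
  | zero => rw [pow_zero, hd.one, Finset.sum_range_zero, zero_smul]
  | succ k ih => rw [pow_succ, hd, ih, geom_sum_succ, add_smul, one_smul, mul_smul]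

theorem of_unit (u : Q) : MonoidAlgebra.of ℤ Q u⁻¹ * MonoidAlgebra.of ℤ Q u = 1 := by
  rw [← map_mul, inv_mul_cancel, map_one]

theorem of_sub_one_mem (u : Q) : MonoidAlgebra.of ℤ Q u - 1 ∈ RingHom.ker (aug Q) := by
  rw [RingHom.mem_ker, map_sub, aug_of, map_one, sub_self]

theorem Der.comm_mem (hd : Der π d) {a : G} (ha : a ∈ commutator G) :
    d a ∈ RingHom.ker (aug Q) • Submodule.span (MonoidAlgebra ℤ Q) (Set.range d) := by
  set S := Submodule.span (MonoidAlgebra ℤ Q) (Set.range d) with hS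
  have hdS : ∀ g, d g ∈ S := fun g => Submodule.subset_span ⟨g, rfl⟩
  let K : Subgroup G :=
    { carrier := {a | π a = 1 ∧ d a ∈ RingHom.ker (aug Q) • S}
      mul_mem' := fun {a b} ha hb => ⟨by rw [map_mul, ha.1, hb.1, one_mul], by
        rw [hd, hb.1, map_one, one_smul]; exact add_mem ha.2 hb.2⟩
      one_mem' := ⟨map_one π, by rw [hd.one]; exact zero_mem _⟩
      inv_mem' := fun {a} ha => ⟨by rw [map_inv, ha.1, inv_one], by
        rw [hd.inv]; exact neg_mem (Submodule.smul_mem _ _ ha.2)⟩ }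
  have hK : commutator G ≤ K := by
    rw [commutator_eq_closure, Subgroup.closure_le]
    rintro _ ⟨g, h, rfl⟩
    have h1 : ⁅g, h⁆ * (h * g) = g * h := by rw [commutatorElement_def]; group
    have h2 : MonoidAlgebra.of ℤ Q (π (h * g)) • d ⁅g, h⁆ =
        (MonoidAlgebra.of ℤ Q (π h) - 1) • d g - (MonoidAlgebra.of ℤ Q (π g) - 1) • d h := by
      have h3 := hd ⁅g, h⁆ (h * g)
      rw [h1, hd g h, hd h g] at h3
      rw [sub_smul, sub_smul, one_smul, one_smul]
      rw [← sub_eq_iff_eq_add] at h3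
      rw [← h3]; abel
    have h3 : MonoidAlgebra.of ℤ Q (π (h * g)) • d ⁅g, h⁆ ∈ RingHom.ker (aug Q) • S := by
      rw [h2]
      exact sub_mem (Submodule.smul_mem_smul (of_sub_one_mem _) (hdS g)) (Submodule.smul_mem_smul (of_sub_one_mem _) (hdS h))
    refine ⟨by rw [map_commutatorElement, commutatorElement_eq_one_iff_mul_comm]; exact mul_comm _ _, ?_⟩
    have h4 := Submodule.smul_mem _ (MonoidAlgebra.of ℤ Q (π (h * g))⁻¹) h3
    rw [smul_smul, of_unit, one_smul] at h4
    exact h4
  exact (hK ha).2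

theorem closure_pi {ι : Type} [Fintype ι] [DecidableEq ι] (n : ι → ℕ) [∀ i, NeZero (n i)] :
    Subgroup.closure (Set.range (fun i => (Pi.mulSingle i (Multiplicative.ofAdd 1) : (i : ι) → Multiplicative (ZMod (n i))))) = ⊤ := by
  rw [eq_top_iff]
  intro f _
  have h1 : f = ∏ i, Pi.mulSingle i (f i) := (Finset.univ_prod_mulSingle f).symm
  rw [h1]
  refine Subgroup.prod_mem _ (fun i _ => ?_)
  have h2 : (Pi.mulSingle i (f i) : (i : ι) → Multiplicative (ZMod (n i))) =
      (Pi.mulSingle i (Multiplicative.ofAdd 1)) ^ ((Multiplicative.toAdd (f i)).val) := by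
    rw [← Pi.mulSingle_pow]
    congr 1
    rw [← ofAdd_nsmul, nsmul_one, ZMod.natCast_zmod_val]
    rfl
  rw [h2]
  exact Subgroup.pow_mem _ (Subgroup.subset_closure (Set.mem_range_self i)) _

theorem Der.ann [Finite G] [Finite Q] (hd : Der π d) (hπ : Function.Surjective π) (hker : π.ker = commutator G) :
    ∃ D : MonoidAlgebra ℤ Q, aug Q D = Nat.card Q ∧ ∀ g, D • d g = 0 := by
  classical
  obtain ⟨ι, _, n, hn, ⟨e⟩⟩ := CommGroup.equiv_prod_multiplicative_zmod_of_finite Q
  haveI : ∀ i, NeZero (n i) := fun i => ⟨by have := hn i; omega⟩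
  choose x hx using fun i => hπ (e.symm (Pi.mulSingle i (Multiplicative.ofAdd 1)))
  haveI := Fintype.ofFinite (commutator G)
  let δ : ι ⊕ commutator G → E := Sum.elim (fun i => d (x i)) (fun a => d a)
  let r : ι ⊕ commutator G → MonoidAlgebra ℤ Q :=
    Sum.elim (fun i => ∑ j ∈ Finset.range (n i), (MonoidAlgebra.of ℤ Q (π (x i))) ^ j) (fun _ => 1)
  -- span
  have hspan : ∀ g, d g ∈ Submodule.span (MonoidAlgebra ℤ Q) (Set.range δ) := by
    set SS := Submodule.span (MonoidAlgebra ℤ Q) (Set.range δ) with hSS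
    let T : Subgroup G :=
      { carrier := {g | d g ∈ SS}
        mul_mem' := fun {a b} ha hb => by
          show d (a * b) ∈ SS
          rw [hd]; exact add_mem (Submodule.smul_mem _ _ ha) hb
        one_mem' := by
          show d 1 ∈ SS
          rw [hd.one]; exact zero_mem _
        inv_mem' := fun {a} ha => by
          show d a⁻¹ ∈ SS
          rw [hd.inv]; exact neg_mem (Submodule.smul_mem _ _ ha) }
    have hA : commutator G ≤ T := fun a ha => Submodule.subset_span ⟨Sum.inr ⟨a, ha⟩, rfl⟩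
    have hxT : ∀ i, x i ∈ T := fun i => Submodule.subset_span ⟨Sum.inl i, rfl⟩
    have hT : T.map π = ⊤ := by
      have h1 : (T.map π).map e.toMonoidHom = ⊤ := by
        rw [eq_top_iff, ← closure_pi n, Subgroup.closure_le]
        rintro _ ⟨i, rfl⟩
        refine ⟨π (x i), ⟨x i, hxT i, rfl⟩, ?_⟩
        show e (π (x i)) = _
        rw [hx, MulEquiv.apply_symm_apply]
      rw [eq_top_iff]
      intro u _
      have h2 : e u ∈ (T.map π).map e.toMonoidHom := by rw [h1]; exact Subgroup.mem_top _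
      obtain ⟨v, hv, hvu⟩ := h2
      have h3 : v = u := e.injective hvu
      rw [← h3]; exact hv
    intro g
    have h1 : π g ∈ T.map π := by rw [hT]; exact Subgroup.mem_top _
    obtain ⟨t, ht, htg⟩ := h1
    have h2 : t⁻¹ * g ∈ commutator G := by
      rw [← hker, MonoidHom.mem_ker, map_mul, map_inv, htg, inv_mul_cancel]
    have h3 := T.mul_mem ht (hA h2)
    rw [mul_inv_cancel_left] at h3
    exact h3
  have hspan2 : Submodule.span (MonoidAlgebra ℤ Q) (Set.range d) ≤ Submodule.span (MonoidAlgebra ℤ Q) (Set.range δ) :=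
    Submodule.span_le.mpr (by rintro _ ⟨g, rfl⟩; exact hspan g)
  have hmem : ∀ a ∈ commutator G, d a ∈ RingHom.ker (aug Q) • Submodule.span (MonoidAlgebra ℤ Q) (Set.range δ) :=
    fun a ha => Submodule.smul_mono le_rfl hspan2 (hd.comm_mem ha)
  have hrel : ∀ j, r j • δ j ∈ RingHom.ker (aug Q) • Submodule.span (MonoidAlgebra ℤ Q) (Set.range δ) := by
    rintro (i | a)
    · show (∑ j ∈ Finset.range (n i), (MonoidAlgebra.of ℤ Q (π (x i))) ^ j) • d (x i) ∈ _
      rw [← hd.pow]
      apply hmem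
      rw [← hker, MonoidHom.mem_ker, map_pow, hx, ← map_pow, ← Pi.mulSingle_pow, ← ofAdd_nsmul, nsmul_one,
        ZMod.natCast_self, ofAdd_zero, Pi.mulSingle_one, map_one]
    · show (1 : MonoidAlgebra ℤ Q) • d a ∈ _
      rw [one_smul]
      exact hmem a a.2
  obtain ⟨D, hD1, hD2⟩ := det_trick (aug Q) δ r hrel
  refine ⟨D, ?_, ?_⟩
  · rw [hD1, Fintype.prod_sum_type]
    have h1 : ∀ i, aug Q (r (Sum.inl i)) = n i := by
      intro i
      show aug Q (∑ j ∈ Finset.range (n i), (MonoidAlgebra.of ℤ Q (π (x i))) ^ j) = n i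
      rw [map_sum, Finset.sum_congr rfl (fun j _ => by rw [map_pow, aug_of, one_pow]), Finset.sum_const, Finset.card_range,
        nsmul_one]
    have h2 : ∀ a, aug Q (r (Sum.inr a)) = 1 := fun a => map_one _
    rw [Finset.prod_congr rfl (fun i _ => h1 i), Finset.prod_congr rfl (fun a _ => h2 a), Finset.prod_const_one, mul_one,
      Nat.card_congr e.toEquiv, Nat.card_pi]
    push_cast
    refine Finset.prod_congr rfl (fun i _ => ?_)
    rw [Nat.card_congr Multiplicative.toAdd, Nat.card_zmod]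
  · intro g
    have h1 := hspan g
    generalize d g = y at h1
    induction h1 using Submodule.span_induction with
    | mem y hy => obtain ⟨j, rfl⟩ := hy; exact hD2 j
    | zero => rw [smul_zero]
    | add y z _ _ hy hz => rw [smul_add, hy, hz, add_zero]
    | smul c y _ hy => rw [smul_comm, hy, smul_zero]

end
end CfsgLib.H2JI
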