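import Cfsg.Agent.LibH2JI1

set_option autoImplicit false
namespace CfsgLib.H2JI

variable {G Q X : Type*} [Group G] [CommGroup Q] [AddCommGroup X]

def VV (Q X : Type*) := Q → X
instance instVV (Q X : Type*) [AddCommGroup X] : AddCommGroup (VV Q X) := inferInstanceAs (AddCommGroup (Q → X))

def tr (Q X : Type*) [CommGroup Q] [AddCommGroup X] : Q →* Module.End ℤ (VV Q X) where
  toFun u :=
    { toFun := fun f t => f (u * t)
      map_add' := fun f g => rfl
      map_smul' := fun c f => rfl }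
  map_one' := by
    ext f
    funext t
    show f (1 * t) = f t
    rw [one_mul]
  map_mul' u v := by
    ext f
    funext t
    show f (u * v * t) = f (v * (u * t))
    congr 1
    rw [mul_comm u v, mul_assoc]

noncomputable def act (Q X : Type*) [CommGroup Q] [AddCommGroup X] : MonoidAlgebra ℤ Q →+* Module.End ℤ (VV Q X) :=
  (MonoidAlgebra.lift ℤ (Module.End ℤ (VV Q X)) Q (tr Q X)).toRingHom

noncomputable instance instModVV (Q X : Type*) [CommGroup Q] [AddCommGroup X] : Module (MonoidAlgebra ℤ Q) (VV Q X) :=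
  Module.compHom (VV Q X) (act Q X)

theorem of_smul_VV (u : Q) (f : VV Q X) (t : Q) : (MonoidAlgebra.of ℤ Q u • f : VV Q X) t = f (u * t) := by
  show (MonoidAlgebra.lift ℤ (Module.End ℤ (VV Q X)) Q (tr Q X)) (MonoidAlgebra.of ℤ Q u) f t = _
  rw [MonoidAlgebra.lift_of]; rfl

theorem smul_VV [Fintype Q] (D : MonoidAlgebra ℤ Q) (f : VV Q X) (t : Q) :
    (D • f : VV Q X) t = ∑ u : Q, D.coeff u • f (u * t) := by
  have h0 : (MonoidAlgebra.lift ℤ (Module.End ℤ (VV Q X)) Q (tr Q X)) D = ∑ u : Q, D.coeff u • tr Q X u := by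
    rw [MonoidAlgebra.lift_apply]
    exact Finsupp.sum_fintype _ _ (fun i => zero_smul _ _)
  have h2 : (D • f : VV Q X) = (∑ u : Q, D.coeff u • tr Q X u) f := by rw [← h0]; rfl
  rw [h2, LinearMap.sum_apply]
  have h1 : ∀ (F : Q → VV Q X) (t : Q), (∑ u, F u : VV Q X) t = ∑ u, F u t := fun F t => Finset.sum_apply t Finset.univ F
  rw [h1]
  rfl

theorem sum_zero [Finite G] [Fintype Q] {π : G →* Q} (hπ : Function.Surjective π) (hker : π.ker = commutator G)
    (s : Q → G) (hs : ∀ q, π (s q) = q) (Φ : G → X) (hΦ : ∀ a ∈ commutator G, ∀ b ∈ commutator G, Φ (a * b) = Φ a + Φ b)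
    (g : G) : ∑ u : Q, Φ ((s (π g * u))⁻¹ * (g * s u)) = 0 := by
  let d1 : G → VV Q X := fun g u => Φ ((s (π g * u))⁻¹ * (g * s u))
  let d : G → VV Q X × MonoidAlgebra ℤ Q := fun g => (d1 g, MonoidAlgebra.of ℤ Q (π g) - 1)
  have hd : Der π d := by
    intro g h
    refine Prod.ext ?_ ?_
    · show d1 (g * h) = MonoidAlgebra.of ℤ Q (π h) • d1 g + d1 h
      funext t
      have h1 : (MonoidAlgebra.of ℤ Q (π h) • d1 g + d1 h : VV Q X) t = d1 g (π h * t) + d1 h t := by
        rw [← of_smul_VV (π h) (d1 g) t]; rfl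
      rw [h1]
      show Φ ((s (π (g * h) * t))⁻¹ * (g * h * s t)) = Φ ((s (π g * (π h * t)))⁻¹ * (g * s (π h * t))) + Φ ((s (π h * t))⁻¹ * (h * s t))
      rw [← hΦ]
      · congr 1
        rw [map_mul, mul_assoc (π g)]; group
      · rw [← hker, MonoidHom.mem_ker, map_mul, map_inv, map_mul, hs, hs, inv_mul_cancel]
      · rw [← hker, MonoidHom.mem_ker, map_mul, map_inv, map_mul, hs, hs, inv_mul_cancel]
    · show MonoidAlgebra.of ℤ Q (π (g * h)) - 1 = MonoidAlgebra.of ℤ Q (π h) * (MonoidAlgebra.of ℤ Q (π g) - 1) + (MonoidAlgebra.of ℤ Q (π h) - 1)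
      rw [map_mul, map_mul]; ring
  obtain ⟨D, hD1, hD2⟩ := hd.ann hπ hker
  have hcoef : ∀ u : Q, D.coeff u = D.coeff 1 := by
    intro u
    obtain ⟨g, rfl⟩ := hπ u
    have h1 : D * (MonoidAlgebra.of ℤ Q (π g) - 1) = 0 := congrArg Prod.snd (hD2 g)
    rw [mul_sub, mul_one, sub_eq_zero] at h1
    have h2 : (D * MonoidAlgebra.of ℤ Q (π g)).coeff (π g) = D.coeff (π g * (π g)⁻¹) := by simp
    rw [h1, mul_inv_cancel] at h2
    exact h2
  have hone : D.coeff 1 = 1 := by
    have h1 : aug Q D = ∑ u : Q, D.coeff u := by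
      have h0 : (MonoidAlgebra.lift ℤ ℤ Q (1 : Q →* ℤ)) D = ∑ u : Q, D.coeff u • (1 : Q →* ℤ) u := by
        rw [MonoidAlgebra.lift_apply]
        exact Finsupp.sum_fintype _ _ (fun i => zero_smul _ _)
      refine Eq.trans h0 ?_
      refine Finset.sum_congr rfl (fun u _ => ?_)
      rw [MonoidHom.one_apply, smul_eq_mul, mul_one]
    rw [hD1, Finset.sum_congr rfl (fun u _ => hcoef u), Finset.sum_const, Finset.card_univ, nsmul_eq_mul,
      Nat.card_eq_fintype_card] at h1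
    have h2 : (Fintype.card Q : ℤ) ≠ 0 := by exact_mod_cast Fintype.card_ne_zero
    have h3 : (Fintype.card Q : ℤ) * (D.coeff 1) = (Fintype.card Q : ℤ) * 1 := by rw [mul_one]; exact h1.symm
    exact mul_left_cancel₀ h2 h3
  have h1 : D • d1 g = 0 := congrArg Prod.fst (hD2 g)
  have h2 : (D • d1 g : VV Q X) 1 = 0 := by rw [h1]; rfl
  rw [smul_VV] at h2
  rw [← h2]
  refine Finset.sum_congr rfl (fun u _ => ?_)
  rw [hcoef u, hone, one_smul, mul_one]

end CfsgLib.H2JI
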