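import Cfsg.Agent.EqBase

set_option autoImplicit false
open Polynomial
namespace CfsgLib.H2JL

section field
variable {F K : Type*} [Field F] [Fintype F] [Field K] [Algebra F K] [Finite K]

theorem pow_phi (i : ℕ) (x : K) :
    ((FiniteField.frobeniusAlgEquivOfAlgebraic F K) ^ i) x = x ^ (Fintype.card F ^ i) := by
  rw [AlgEquiv.coe_pow, FiniteField.coe_frobeniusAlgEquivOfAlgebraic_iterate]

theorem inv_conj {a : K} (ha : a ≠ 0) (B : LinearMap.BilinForm F K) (hB : B.Nondegenerate)
    (hinv : ∀ x y, B (a * x) (a * y) = B x y) : ∃ j : ℕ, a⁻¹ = a ^ (Fintype.card F ^ j) := by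
  haveI : FiniteDimensional F K := Module.Finite.of_finite
  have h0 : ∀ x y, B (a * x) y = B x (a⁻¹ * y) := by
    intro x y
    have h := hinv x (a⁻¹ * y)
    rwa [← mul_assoc, mul_inv_cancel₀ ha, one_mul] at h
  have h2 : ∀ (n : ℕ) x y, B (a ^ n * x) y = B x (a⁻¹ ^ n * y) := by
    intro n
    induction n with
    | zero => intro x y; simp
    | succ n ih =>
      intro x y
      rw [pow_succ', mul_assoc, h0, ih, pow_succ, mul_assoc]
  have h1 : ∀ (f : F[X]) x y, B (aeval a f * x) y = B x (aeval a⁻¹ f * y) := by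
    intro f
    induction f using Polynomial.induction_on' with
    | add p q hp hq =>
      intro x y
      rw [map_add, map_add, add_mul, add_mul, map_add, map_add, LinearMap.add_apply, hp, hq]
    | monomial n c =>
      intro x y
      rw [aeval_monomial, aeval_monomial, ← Algebra.smul_def, ← Algebra.smul_def, smul_mul_assoc, smul_mul_assoc,
        map_smul, map_smul, LinearMap.smul_apply, h2]
  have h3 : aeval a⁻¹ (minpoly F a) = 0 := by
    have h4 : aeval a⁻¹ (minpoly F a) * 1 = 0 := by
      apply hB.2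
      intro x
      rw [← h1, minpoly.aeval, zero_mul, map_zero, LinearMap.zero_apply]
    rwa [mul_one] at h4
  have hint : IsIntegral F a := Algebra.IsIntegral.isIntegral a
  have h4 : minpoly F a = minpoly F a⁻¹ :=
    minpoly.eq_of_irreducible_of_monic (minpoly.irreducible hint) h3 (minpoly.monic hint)
  have h5 : IsConjRoot F a⁻¹ a := h4.symm
  obtain ⟨σ, hσ⟩ := (isConjRoot_iff_exists_algEquiv (K := F) (L := K)).mp h5
  obtain ⟨⟨j, hj⟩, rfl⟩ := (FiniteField.bijective_frobeniusAlgEquivOfAlgebraic_pow F K).2 σ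
  refine ⟨j, ?_⟩
  rw [← hσ]
  exact pow_phi j a

theorem dvd_of_fix {a : K} (hgen : Algebra.adjoin F {a} = ⊤) {i : ℕ} (h : a ^ (Fintype.card F ^ i) = a) :
    Module.finrank F K ∣ i := by
  rw [← FiniteField.orderOf_frobeniusAlgEquivOfAlgebraic F K]
  apply orderOf_dvd_of_pow_eq_one
  have h1 : (((FiniteField.frobeniusAlgEquivOfAlgebraic F K) ^ i : Gal(K/F)) : K →ₐ[F] K) = AlgHom.id F K := by
    apply AlgHom.ext_of_adjoin_eq_top hgen
    intro x hx
    rw [Set.mem_singleton_iff] at hx
    subst hx
    show ((FiniteField.frobeniusAlgEquivOfAlgebraic F K) ^ i) x = x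
    rw [pow_phi, h]
  ext x
  exact AlgHom.congr_fun h1 x

theorem fix_of_dvd (a : K) {i : ℕ} (h : Module.finrank F K ∣ i) : a ^ (Fintype.card F ^ i) = a := by
  rw [← FiniteField.orderOf_frobeniusAlgEquivOfAlgebraic F K, orderOf_dvd_iff_pow_eq_one] at h
  rw [← pow_phi, h]
  rfl

theorem fwd {a : K} (ha : a ≠ 0) (hgen : Algebra.adjoin F {a} = ⊤) (B : LinearMap.BilinForm F K) (hB : B.Nondegenerate)
    (hinv : ∀ x y, B (a * x) (a * y) = B x y) :
    (Module.finrank F K = 1 → a ^ 2 = 1) ∧
    (2 ≤ Module.finrank F K → Even (Module.finrank F K) ∧ a ^ (Fintype.card F ^ (Module.finrank F K / 2) + 1) = 1) := by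
  obtain ⟨j, hj⟩ := inv_conj ha B hB hinv
  set r := Fintype.card F with hr
  set n := Module.finrank F K with hn
  have h2j : a ^ (r ^ (2 * j)) = a := by
    rw [two_mul, pow_add, pow_mul, ← hj, inv_pow, ← hj, inv_inv]
  have hdvd : n ∣ 2 * j := dvd_of_fix hgen h2j
  have hfix : n ∣ j → a ^ 2 = 1 := by
    intro h
    have h1 := fix_of_dvd (F := F) a h
    rw [← hr, ← hj] at h1
    rw [pow_two]
    nth_rewrite 1 [← h1]
    exact inv_mul_cancel₀ ha
  refine ⟨fun h1 => hfix (by rw [h1]; exact one_dvd _), fun h2 => ?_⟩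
  have hnj : ¬ n ∣ j := by
    intro h
    have h1 := hfix h
    have h3 : a ^ (r ^ 1) = a := by
      rw [← pow_phi]
      rw [pow_two] at h1
      rcases mul_self_eq_one_iff.mp h1 with h | h
      · rw [h, map_one]
      · rw [h, map_neg, map_one]
    have h4 := dvd_of_fix hgen h3
    have h5 : n ≤ 1 := Nat.le_of_dvd one_pos h4
    omega
  obtain ⟨c, hc⟩ := hdvd
  rcases Nat.even_or_odd c with ⟨d, hd⟩ | ⟨d, hd⟩
  · exfalso
    apply hnj
    refine ⟨d, ?_⟩
    subst hd
    have : 2 * j = 2 * (n * d) := by rw [hc]; ring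
    omega
  · have heven : Even n := by
      by_contra hodd
      rw [Nat.not_even_iff_odd] at hodd
      have h1 : Odd (n * c) := hodd.mul ⟨d, hd⟩
      rw [← hc] at h1
      exact (Nat.not_even_iff_odd.mpr h1) (even_two_mul j)
    refine ⟨heven, ?_⟩
    obtain ⟨m, hm⟩ := heven
    have hm2 : n / 2 = m := by omega
    rw [hm2]
    have hjm : j = n * d + m := by
      have h7 : 2 * j = 2 * (n * d) + n := by rw [hc, hd]; ring
      omega
    have h1 : a ^ (r ^ m) = a⁻¹ := by
      rw [hj, hjm, pow_add, pow_mul, fix_of_dvd (F := F) a (Dvd.intro d rfl)]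
    rw [pow_add, pow_one, h1, inv_mul_cancel₀ ha]

theorem bwd (i : ℕ) : ∃ B : LinearMap.BilinForm F K, B.Nondegenerate ∧ ∀ a : K, a ^ (Fintype.card F ^ i + 1) = 1 →
    ∀ x y, B (a * x) (a * y) = B x y := by
  haveI : FiniteDimensional F K := Module.Finite.of_finite
  let σ : Gal(K/F) := (FiniteField.frobeniusAlgEquivOfAlgebraic F K) ^ i
  have hσ : ∀ x, σ x = x ^ (Fintype.card F ^ i) := pow_phi i
  let B : LinearMap.BilinForm F K := (Algebra.traceForm F K).compl₂ σ.toLinearMap
  have hBdef : ∀ x y, B x y = Algebra.trace F K (x * σ y) := fun x y => rfl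
  have hnd := traceForm_nondegenerate F K
  refine ⟨B, ⟨?_, ?_⟩, ?_⟩
  · intro x hx
    apply hnd.1
    intro z
    have h1 := hx (σ.symm z)
    rw [hBdef, AlgEquiv.apply_symm_apply] at h1
    exact h1
  · intro y hy
    have h1 : σ y = 0 := hnd.2 (σ y) (fun x => hy x)
    exact (map_eq_zero σ).mp h1
  · intro a ha x y
    have h1 : a * σ a = 1 := by rw [hσ, ← pow_succ', ha]
    have h2 : a * x * σ (a * y) = x * σ y := by
      rw [map_mul]
      calc a * x * (σ a * σ y) = (a * σ a) * (x * σ y) := by ring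
        _ = x * σ y := by rw [h1, one_mul]
    rw [hBdef, hBdef, h2]

end field

section grp
variable {F K V H : Type*} [Field F] [Fintype F] [Field K] [Algebra F K] [Finite K]
  [AddCommGroup V] [Module F V] [CommGroup H] [Finite H]

theorem transfer (ρ : Representation F H V) (hf : Function.Injective ρ) (e : K ≃ₗ[F] V) (χ : H →* K)
    (he : ∀ h k, ρ h (e k) = e (χ h * k)) (hgen : Algebra.adjoin F (Set.range χ) = ⊤) :
    (Module.finrank F V = 1 → (∃ B : LinearMap.BilinForm F V, B.Nondegenerate ∧ ∀ h : H, ∀ x y : V, B (ρ h x) (ρ h y) = B x y) → Nat.card H ≤ 2) ∧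
    (2 ≤ Module.finrank F V → ((∃ B : LinearMap.BilinForm F V, B.Nondegenerate ∧ ∀ h : H, ∀ x y : V, B (ρ h x) (ρ h y) = B x y) ↔
      (Even (Module.finrank F V) ∧ Nat.card H ∣ Fintype.card F ^ (Module.finrank F V / 2) + 1))) := by
  have hχ : Function.Injective χ := by
    intro h h' hh
    apply hf
    ext v
    obtain ⟨k, rfl⟩ := e.surjective v
    rw [he, he, hh]
  haveI : IsCyclic H := isCyclic_of_injective_ringHom χ hχ
  obtain ⟨g, hg⟩ := IsCyclic.exists_generator (α := H)
  set a := χ g with ha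
  have hord : orderOf a = Nat.card H := by
    rw [ha, orderOf_injective χ hχ, orderOf_eq_card_of_forall_mem_zpowers hg]
  have ha0 : a ≠ 0 := by
    intro h
    have h1 : χ g * χ g⁻¹ = 1 := by rw [← map_mul, mul_inv_cancel, map_one]
    rw [← ha, h, zero_mul] at h1
    exact zero_ne_one h1
  have hgen' : Algebra.adjoin F {a} = ⊤ := by
    rw [eq_top_iff, ← hgen]
    apply Algebra.adjoin_le
    rintro _ ⟨h, rfl⟩
    have h1 : h ∈ Submonoid.powers g := by
      rw [mem_powers_iff_mem_zpowers]
      exact hg h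
    obtain ⟨n, rfl⟩ := h1
    show χ (g ^ n) ∈ _
    rw [map_pow]
    exact pow_mem (Algebra.subset_adjoin (Set.mem_singleton a)) n
  have hfr : Module.finrank F V = Module.finrank F K := e.finrank_eq.symm
  have key : (∃ B : LinearMap.BilinForm F V, B.Nondegenerate ∧ ∀ h : H, ∀ x y : V, B (ρ h x) (ρ h y) = B x y) →
      (Module.finrank F K = 1 → a ^ 2 = 1) ∧
      (2 ≤ Module.finrank F K → Even (Module.finrank F K) ∧ a ^ (Fintype.card F ^ (Module.finrank F K / 2) + 1) = 1) := by
    rintro ⟨B, hB, hinv⟩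
    let B' : LinearMap.BilinForm F K := B.compl₁₂ e.toLinearMap e.toLinearMap
    have hB'def : ∀ x y, B' x y = B (e x) (e y) := fun x y => rfl
    apply fwd ha0 hgen' B'
    · refine ⟨?_, ?_⟩
      · intro x hx
        have h1 : e x = 0 := by
          apply hB.1
          intro y
          obtain ⟨k, rfl⟩ := e.surjective y
          exact hx k
        exact (LinearEquiv.map_eq_zero_iff e).mp h1
      · intro y hy
        have h1 : e y = 0 := by
          apply hB.2
          intro x
          obtain ⟨k, rfl⟩ := e.surjective x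
          exact hy k
        exact (LinearEquiv.map_eq_zero_iff e).mp h1
    · intro x y
      rw [hB'def, hB'def, ha, ← he, ← he, hinv]
  rw [hfr]
  refine ⟨?_, ?_⟩
  · intro h1 hB
    have h2 := (key hB).1 h1
    rw [← hord]
    exact orderOf_le_of_pow_eq_one (by norm_num) h2
  · intro h2
    constructor
    · intro hB
      obtain ⟨h3, h4⟩ := (key hB).2 h2
      refine ⟨h3, ?_⟩
      rw [← hord]
      exact orderOf_dvd_of_pow_eq_one h4
    · rintro ⟨-, h4⟩
      obtain ⟨B, hB, hinv⟩ := bwd (F := F) (K := K) (Module.finrank F K / 2)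
      let B' : LinearMap.BilinForm F V := B.compl₁₂ e.symm.toLinearMap e.symm.toLinearMap
      have hB'def : ∀ x y, B' x y = B (e.symm x) (e.symm y) := fun x y => rfl
      refine ⟨B', ⟨?_, ?_⟩, ?_⟩
      · intro x hx
        have h1 : e.symm x = 0 := by
          apply hB.1
          intro y
          obtain ⟨k, rfl⟩ := e.symm.surjective y
          exact hx k
        exact (LinearEquiv.map_eq_zero_iff e.symm).mp h1
      · intro y hy
        have h1 : e.symm y = 0 := by
          apply hB.2
          intro x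
          obtain ⟨k, rfl⟩ := e.symm.surjective x
          exact hy k
        exact (LinearEquiv.map_eq_zero_iff e.symm).mp h1
      · intro h x y
        obtain ⟨k, rfl⟩ := e.surjective x
        obtain ⟨k', rfl⟩ := e.surjective y
        rw [he, he, hB'def, hB'def, LinearEquiv.symm_apply_apply, LinearEquiv.symm_apply_apply,
          LinearEquiv.symm_apply_apply, LinearEquiv.symm_apply_apply]
        apply hinv
        rw [← map_pow]
        obtain ⟨c, hc⟩ := h4
        rw [hc, pow_mul, pow_card_eq_one', one_pow, map_one]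

end grp

section mk
universe u
variable {F H : Type*} {V : Type u} [Field F] [Fintype F]
  [AddCommGroup V] [Module F V] [FiniteDimensional F V] [CommGroup H] [Finite H]

theorem exists_field [Nontrivial V] (ρ : Representation F H V)
    (hirr : ∀ U : Submodule F V, (∀ h : H, ∀ u ∈ U, ρ h u ∈ U) → U = ⊥ ∨ U = ⊤) :
    ∃ (K : Type u) (_ : Field K) (_ : Algebra F K) (_ : Finite K) (e : K ≃ₗ[F] V) (χ : H →* K),
      (∀ h k, ρ h (e k) = e (χ h * k)) ∧ Algebra.adjoin F (Set.range χ) = ⊤ := by
  classical
  haveI : Finite V := Module.finite_of_finite F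
  haveI : Finite (Module.End F V) := Finite.of_injective (fun f : Module.End F V => (f : V → V)) DFunLike.coe_injective
  have hcomm : ∀ a ∈ Set.range (fun h => (ρ h : Module.End F V)), ∀ b ∈ Set.range (fun h => (ρ h : Module.End F V)), a * b = b * a := by
    rintro _ ⟨h, rfl⟩ _ ⟨h', rfl⟩
    show ρ h * ρ h' = ρ h' * ρ h
    rw [← map_mul, ← map_mul, mul_comm]
  let S : Subalgebra F (Module.End F V) := Algebra.adjoin F (Set.range (fun h => (ρ h : Module.End F V)))
  letI : CommRing S := Algebra.adjoinCommRingOfComm F hcomm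
  have hρS : ∀ h, (ρ h : Module.End F V) ∈ S := fun h => Algebra.subset_adjoin ⟨h, rfl⟩
  obtain ⟨v₀, hv₀⟩ := exists_ne (0 : V)
  let f : S →ₗ[F] V :=
    { toFun := fun k => (k : Module.End F V) v₀
      map_add' := fun _ _ => rfl
      map_smul' := fun _ _ => rfl }
  have hfdef : ∀ k : S, f k = (k : Module.End F V) v₀ := fun _ => rfl
  have hsurj : Function.Surjective f := by
    rw [← LinearMap.range_eq_top]
    rcases hirr (LinearMap.range f) (by
      rintro h _ ⟨k, rfl⟩
      exact ⟨⟨ρ h, hρS h⟩ * k, rfl⟩) with h | h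
    · exfalso
      have h1 : v₀ ∈ LinearMap.range f := ⟨1, rfl⟩
      rw [h] at h1
      exact hv₀ ((Submodule.mem_bot F).mp h1)
    · exact h
  have hcommS : ∀ k k' : S, ∀ v, (k : Module.End F V) ((k' : Module.End F V) v) = (k' : Module.End F V) ((k : Module.End F V) v) := by
    intro k k' v
    have h1 : k * k' = k' * k := mul_comm k k'
    have h2 : ((k * k' : S) : Module.End F V) v = ((k' * k : S) : Module.End F V) v := by rw [h1]
    exact h2
  have hinj : Function.Injective f := by
    rw [← LinearMap.ker_eq_bot, LinearMap.ker_eq_bot']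
    intro k hk
    apply Subtype.ext
    ext v
    obtain ⟨k', rfl⟩ := hsurj v
    rw [hfdef, hcommS, ← hfdef k, hk, map_zero]
    rfl
  haveI : Nontrivial S := ⟨⟨0, 1, by
    intro h
    apply hv₀
    have h1 : f 0 = f 1 := by rw [h]
    rw [map_zero] at h1
    exact h1.symm⟩⟩
  haveI : NoZeroDivisors S := ⟨by
    intro k k' hkk
    rcases hirr (LinearMap.ker (k : Module.End F V)) (by
      intro h u hu
      rw [LinearMap.mem_ker] at hu ⊢
      have h1 := hcommS k ⟨ρ h, hρS h⟩ u
      rw [h1, hu, map_zero]) with h | h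
    · right
      apply Subtype.ext
      ext v
      have h1 : (k : Module.End F V) ((k' : Module.End F V) v) = 0 := by
        have h2 : ((k * k' : S) : Module.End F V) v = ((0 : S) : Module.End F V) v := by rw [hkk]
        exact h2
      have h2 : (k' : Module.End F V) v ∈ LinearMap.ker (k : Module.End F V) := h1
      rw [h] at h2
      exact (Submodule.mem_bot F).mp h2
    · left
      apply Subtype.ext
      exact LinearMap.ker_eq_top.mp h⟩
  haveI : IsDomain S := NoZeroDivisors.to_isDomain S
  have hF : IsField S := Finite.isField_of_domain S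
  let χ : H →* S :=
    { toFun := fun h => ⟨ρ h, hρS h⟩
      map_one' := Subtype.ext (map_one ρ)
      map_mul' := fun a b => Subtype.ext (map_mul ρ a b) }
  have hgen : Algebra.adjoin F (Set.range χ) = ⊤ := by
    rw [← Algebra.adjoin_adjoin_coe_preimage (R := F) (s := Set.range (fun h => (ρ h : Module.End F V)))]
    congr 1
    ext x
    constructor
    · rintro ⟨h, rfl⟩
      exact ⟨h, rfl⟩
    · rintro ⟨h, hh⟩
      exact ⟨h, Subtype.ext hh⟩
  exact ⟨S, hF.toField, S.algebra, inferInstance, LinearEquiv.ofBijective f ⟨hinj, hsurj⟩, χ, fun h k => rfl, hgen⟩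

end mk

end CfsgLib.H2JL
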