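import Cfsg.Agent.EqBase

set_option autoImplicit false
namespace CfsgLib.H2JM

variable {F : Type*} [Field F] {G : Type*} [Group G] [Finite G] {V : Type*} [AddCommGroup V] [Module F V]
  [FiniteDimensional F V]

def Inv (ρ : Representation F G V) (M : Submodule F V) : Prop := ∀ g : G, ∀ u ∈ M, ρ g u ∈ M

def NDL (B : LinearMap.BilinForm F V) (M : Submodule F V) : Prop := ∀ x ∈ M, (∀ y ∈ M, B x y = 0) → x = 0

def NDR (B : LinearMap.BilinForm F V) (M : Submodule F V) : Prop := ∀ x ∈ M, (∀ y ∈ M, B y x = 0) → x = 0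

def Fm (P : LinearMap.BilinForm F V → Prop) (ρ : Representation F G V) (U : Submodule F V) : Prop :=
  ∃ A : LinearMap.BilinForm F V, P A ∧ (∀ g : G, ∀ x ∈ U, ∀ y ∈ U, A (ρ g x) (ρ g y) = A x y) ∧ NDL A U

def Palt (A : LinearMap.BilinForm F V) : Prop := ∀ x, A x x = 0

def Psym (A : LinearMap.BilinForm F V) : Prop := ∀ x y, A x y = A y x

omit [FiniteDimensional F V] in
theorem exists_proj (N C : Submodule F V) (h : Disjoint N C) :
    ∃ π : V →ₗ[F] V, (∀ x ∈ N, π x = x) ∧ (∀ x ∈ C, π x = 0) ∧ (∀ x, π x ∈ N) := by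
  obtain ⟨C', hC', hcomp⟩ := h.symm.exists_isCompl
  refine ⟨LinearMap.ofIsCompl hcomp.symm N.subtype 0, ?_, ?_, ?_⟩
  · intro x hx
    exact LinearMap.ofIsCompl_left_apply hcomp.symm ⟨x, hx⟩
  · intro x hx
    exact LinearMap.ofIsCompl_right_apply hcomp.symm ⟨x, hC' hx⟩
  · intro x
    have hx : x ∈ N ⊔ C' := by rw [hcomp.symm.sup_eq_top]; exact Submodule.mem_top
    obtain ⟨a, ha, b, hb, rfl⟩ := Submodule.mem_sup.mp hx
    have h1 : LinearMap.ofIsCompl hcomp.symm N.subtype 0 a = a := LinearMap.ofIsCompl_left_apply hcomp.symm ⟨a, ha⟩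
    have h2 : LinearMap.ofIsCompl hcomp.symm N.subtype 0 b = 0 := LinearMap.ofIsCompl_right_apply hcomp.symm ⟨b, hb⟩
    rw [map_add, h1, h2, add_zero]
    exact ha

omit [FiniteDimensional F V] in
theorem maschke (hc : (Nat.card G : F) ≠ 0) (ρ : Representation F G V) {N M : Submodule F V} (hN : Inv ρ N) (hM : Inv ρ M)
    (hNM : N ≤ M) : ∃ T ≤ M, Inv ρ T ∧ N ⊓ T = ⊥ ∧ N ⊔ T = M := by
  classical
  haveI := Fintype.ofFinite G
  obtain ⟨π, hπ1, -, hπ2⟩ := exists_proj N ⊥ disjoint_bot_right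
  let Q : V →ₗ[F] V := (Nat.card G : F)⁻¹ • ∑ g : G, (ρ g) ∘ₗ π ∘ₗ (ρ g⁻¹)
  have hQ : ∀ x, Q x = (Nat.card G : F)⁻¹ • ∑ g : G, ρ g (π (ρ g⁻¹ x)) := by
    intro x
    show ((Nat.card G : F)⁻¹ • ∑ g : G, (ρ g) ∘ₗ π ∘ₗ (ρ g⁻¹)) x = _
    rw [LinearMap.smul_apply, LinearMap.sum_apply]
    rfl
  have hQN : ∀ x, Q x ∈ N := by
    intro x
    rw [hQ]
    exact N.smul_mem _ (N.sum_mem fun g _ => hN g _ (hπ2 _))
  have hρρ : ∀ g x, ρ g (ρ g⁻¹ x) = x := by
    intro g x
    rw [← Module.End.mul_apply, ← map_mul, mul_inv_cancel, map_one]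
    rfl
  have hQid : ∀ x ∈ N, Q x = x := by
    intro x hx
    rw [hQ]
    have : ∀ g ∈ (Finset.univ : Finset G), ρ g (π (ρ g⁻¹ x)) = x := by
      intro g _
      rw [hπ1 _ (hN _ _ hx), hρρ]
    rw [Finset.sum_congr rfl this, Finset.sum_const, Finset.card_univ, ← Nat.card_eq_fintype_card,
      ← Nat.cast_smul_eq_nsmul F, smul_smul, inv_mul_cancel₀ hc, one_smul]
  have hQc : ∀ h x, Q (ρ h x) = ρ h (Q x) := by
    intro h x
    rw [hQ, hQ, map_smul, map_sum]
    congr 1
    symm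
    refine Fintype.sum_equiv (Equiv.mulLeft h) _ _ ?_
    intro g
    show ρ h (ρ g (π (ρ g⁻¹ x))) = ρ (h * g) (π (ρ (h * g)⁻¹ (ρ h x)))
    have h1 : ρ (h * g)⁻¹ (ρ h x) = ρ g⁻¹ x := by
      rw [← Module.End.mul_apply, ← map_mul]
      congr 2
      group
    rw [h1, map_mul]
    rfl
  refine ⟨M ⊓ LinearMap.ker Q, inf_le_left, ?_, ?_, ?_⟩
  · intro g u hu
    refine ⟨hM g u hu.1, ?_⟩
    show Q (ρ g u) = 0
    rw [hQc, show Q u = 0 from hu.2, map_zero]
  · rw [eq_bot_iff]
    rintro x ⟨hx1, hx2, hx3⟩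
    rw [Submodule.mem_bot, ← hQid x hx1]
    exact LinearMap.mem_ker.mp hx3
  · apply le_antisymm
    · exact sup_le hNM inf_le_left
    · intro m hm
      rw [Submodule.mem_sup]
      refine ⟨Q m, hQN m, m - Q m, ⟨M.sub_mem hm (hNM (hQN m)), ?_⟩, by abel⟩
      show Q (m - Q m) = 0
      rw [map_sub, hQid _ (hQN m), sub_self]

/-- right perpendicular -/
def perpS (B : LinearMap.BilinForm F V) (D : Submodule F V) : Submodule F V where
  carrier := {y | ∀ d ∈ D, B d y = 0}
  add_mem' := by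
    intro a b ha hb d hd
    rw [map_add, ha d hd, hb d hd, add_zero]
  zero_mem' := by
    intro d _
    rw [map_zero]
  smul_mem' := by
    intro c x hx d hd
    rw [map_smul, hx d hd, smul_zero]

omit [Finite G] [FiniteDimensional F V] in
theorem perpS_inv (ρ : Representation F G V) (B : LinearMap.BilinForm F V) (hBinv : ∀ g : G, ∀ x y : V, B (ρ g x) (ρ g y) = B x y)
    {D : Submodule F V} (hD : Inv ρ D) : Inv ρ (perpS B D) := by
  intro g y hy d hd
  have h1 : d = ρ g (ρ g⁻¹ d) := by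
    rw [← Module.End.mul_apply, ← map_mul, mul_inv_cancel, map_one]
    rfl
  rw [h1, hBinv]
  exact hy _ (hD _ _ hd)

omit [Finite G] in
theorem perp (ρ : Representation F G V) (B : LinearMap.BilinForm F V) (hBinv : ∀ g : G, ∀ x y : V, B (ρ g x) (ρ g y) = B x y)
    {D M : Submodule F V} (hD : Inv ρ D) (hM : Inv ρ M) (hDM : D ≤ M) (hnd : NDR B D) (hndM : NDR B M) :
    Inv ρ (M ⊓ perpS B D) ∧ D ⊓ (M ⊓ perpS B D) = ⊥ ∧ D ⊔ (M ⊓ perpS B D) = M ∧ NDR B (M ⊓ perpS B D) := by
  have hsup : D ⊔ (M ⊓ perpS B D) = M := by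
    apply le_antisymm
    · exact sup_le hDM inf_le_left
    · intro v hv
      let ψ : V →ₗ[F] Module.Dual F D := B.flip.compl₂ D.subtype
      let φ : D →ₗ[F] Module.Dual F D := ψ ∘ₗ D.subtype
      have hφinj : Function.Injective φ := by
        rw [← LinearMap.ker_eq_bot, LinearMap.ker_eq_bot']
        intro d₀ h
        apply Subtype.ext
        apply hnd d₀ d₀.2
        intro y hy
        exact LinearMap.congr_fun h ⟨y, hy⟩
      have hφsurj : Function.Surjective φ :=
        (LinearMap.injective_iff_surjective_of_finrank_eq_finrank (Subspace.dual_finrank_eq).symm).mp hφinj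
      obtain ⟨d₀, hd₀⟩ := hφsurj (ψ v)
      rw [Submodule.mem_sup]
      refine ⟨d₀, d₀.2, v - d₀, ⟨M.sub_mem hv (hDM d₀.2), ?_⟩, by abel⟩
      intro d hd
      have h1 : B d d₀ = B d v := LinearMap.congr_fun hd₀ ⟨d, hd⟩
      rw [map_sub, h1, sub_self]
  refine ⟨?_, ?_, hsup, ?_⟩
  · intro g u hu
    exact ⟨hM g u hu.1, perpS_inv ρ B hBinv hD g u hu.2⟩
  · rw [eq_bot_iff]
    rintro x ⟨hx1, hx2, hx3⟩
    exact (Submodule.mem_bot F).mpr (hnd x hx1 hx3)
  · intro x hx h
    apply hndM x hx.1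
    intro y hy
    rw [← hsup, Submodule.mem_sup] at hy
    obtain ⟨d, hd, y', hy', rfl⟩ := hy
    rw [map_add, LinearMap.add_apply, hx.2 d hd, h y' hy', add_zero]

omit [Finite G] [FiniteDimensional F V] in
theorem addFm (P : LinearMap.BilinForm F V → Prop)
    (hP : ∀ (A1 A2 : LinearMap.BilinForm F V) (π₁ π₂ : V →ₗ[F] V), P A1 → P A2 → P (A1.compl₁₂ π₁ π₁ + A2.compl₁₂ π₂ π₂))
    (ρ : Representation F G V) {U1 U2 : Submodule F V} (h1 : Inv ρ U1) (h2 : Inv ρ U2) (hd : Disjoint U1 U2)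
    (f1 : Fm P ρ U1) (f2 : Fm P ρ U2) : Fm P ρ (U1 ⊔ U2) := by
  obtain ⟨A1, hA1, hi1, hn1⟩ := f1
  obtain ⟨A2, hA2, hi2, hn2⟩ := f2
  obtain ⟨π₁, p11, p12, -⟩ := exists_proj U1 U2 hd
  obtain ⟨π₂, p22, p21, -⟩ := exists_proj U2 U1 hd.symm
  have hev : ∀ x ∈ U1, ∀ x' ∈ U2, ∀ y ∈ U1, ∀ y' ∈ U2, (A1.compl₁₂ π₁ π₁ + A2.compl₁₂ π₂ π₂) (x + x') (y + y') = A1 x y + A2 x' y' := by
    intro x hx x' hx' y hy y' hy'
    show A1 (π₁ (x + x')) (π₁ (y + y')) + A2 (π₂ (x + x')) (π₂ (y + y')) = _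
    have e1 : π₁ (x + x') = x := by rw [map_add, p11 x hx, p12 x' hx', add_zero]
    have e2 : π₁ (y + y') = y := by rw [map_add, p11 y hy, p12 y' hy', add_zero]
    have e3 : π₂ (x + x') = x' := by rw [map_add, p21 x hx, p22 x' hx', zero_add]
    have e4 : π₂ (y + y') = y' := by rw [map_add, p21 y hy, p22 y' hy', zero_add]
    rw [e1, e2, e3, e4]
  refine ⟨_, hP A1 A2 π₁ π₂ hA1 hA2, ?_, ?_⟩
  · intro g x hx y hy
    obtain ⟨a, ha, a', ha', rfl⟩ := Submodule.mem_sup.mp hx
    obtain ⟨b, hb, b', hb', rfl⟩ := Submodule.mem_sup.mp hy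
    rw [map_add (ρ g), map_add (ρ g), hev _ (h1 g a ha) _ (h2 g a' ha') _ (h1 g b hb) _ (h2 g b' hb'),
      hev a ha a' ha' b hb b' hb', hi1 g a ha b hb, hi2 g a' ha' b' hb']
  · intro x hx h
    obtain ⟨a, ha, a', ha', rfl⟩ := Submodule.mem_sup.mp hx
    have e1 : a = 0 := by
      apply hn1 a ha
      intro y hy
      have h3 := h (y + 0) (Submodule.add_mem_sup hy U2.zero_mem)
      rw [hev a ha a' ha' y hy 0 U2.zero_mem, map_zero, add_zero] at h3
      exact h3
    have e2 : a' = 0 := by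
      apply hn2 a' ha'
      intro y hy
      have h3 := h (0 + y) (Submodule.add_mem_sup U1.zero_mem hy)
      rw [hev a ha a' ha' 0 U1.zero_mem y hy, map_zero, zero_add] at h3
      exact h3
    rw [e1, e2, add_zero]

omit [FiniteDimensional F V] in
theorem hPalt (A1 A2 : LinearMap.BilinForm F V) (π₁ π₂ : V →ₗ[F] V) (h1 : Palt A1) (h2 : Palt A2) :
    Palt (A1.compl₁₂ π₁ π₁ + A2.compl₁₂ π₂ π₂) := by
  intro x
  show A1 (π₁ x) (π₁ x) + A2 (π₂ x) (π₂ x) = 0
  rw [h1, h2, add_zero]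

/-- symmetric on an invariant subspace without fixed points, characteristic two, odd group: alternating. -/
theorem alt_char2 (h20 : (2 : F) = 0) (hc : (Nat.card G : F) ≠ 0) (ρ : Representation F G V) (B : LinearMap.BilinForm F V)
    (hBinv : ∀ g : G, ∀ x y : V, B (ρ g x) (ρ g y) = B x y) {R : Submodule F V} (hR : Inv ρ R)
    (hsk : ∀ x ∈ R, ∀ y ∈ R, B x y = - B y x) (hfix : ∀ x ∈ R, (∀ g : G, ρ g x = x) → x = 0) : ∀ x ∈ R, B x x = 0 := by
  classical
  haveI := Fintype.ofFinite G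
  intro x hx
  have hadd : ∀ s : Finset G, (∑ g ∈ s, ρ g x) ∈ R ∧ B (∑ g ∈ s, ρ g x) (∑ g ∈ s, ρ g x) = ∑ g ∈ s, B (ρ g x) (ρ g x) := by
    intro s
    induction s using Finset.induction_on with
    | empty => simp
    | insert a s ha ih =>
      rw [Finset.sum_insert ha, Finset.sum_insert ha]
      refine ⟨R.add_mem (hR a x hx) ih.1, ?_⟩
      have hB4 : ∀ u v w z, B (u + v) (w + z) = B u w + B u z + (B v w + B v z) := by
        intro u v w z
        simp only [map_add, LinearMap.add_apply]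
        ring
      rw [hB4, ih.2, hsk _ ih.1 _ (hR a x hx)]
      ring
  have h1 := hadd Finset.univ
  have h2 : (∑ g : G, ρ g x) = 0 := by
    apply hfix _ h1.1
    intro h
    rw [map_sum]
    refine Fintype.sum_equiv (Equiv.mulLeft h) _ _ ?_
    intro g
    show ρ h (ρ g x) = ρ (h * g) x
    rw [map_mul]
    rfl
  have h3 := h1.2
  rw [h2, map_zero] at h3
  have h4 : ∀ g ∈ (Finset.univ : Finset G), B (ρ g x) (ρ g x) = B x x := fun g _ => hBinv g x x
  rw [Finset.sum_congr rfl h4, Finset.sum_const, Finset.card_univ, ← Nat.card_eq_fintype_card, nsmul_eq_mul] at h3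
  rcases mul_eq_zero.mp h3.symm with h | h
  · exact absurd h hc
  · exact h

theorem main_ind (hc : (Nat.card G : F) ≠ 0) (ρ : Representation F G V) (B : LinearMap.BilinForm F V)
    (hBinv : ∀ g : G, ∀ x y : V, B (ρ g x) (ρ g y) = B x y) : ∀ (n : ℕ) (M : Submodule F V), Module.finrank F M = n → Inv ρ M →
    NDR B M → ((2 : F) ≠ 0 ∨ ∀ x ∈ M, (∀ g : G, ρ g x = x) → x = 0) →
    ∃ U W : Submodule F V, U ≤ M ∧ W ≤ M ∧ Inv ρ U ∧ Inv ρ W ∧ U ⊓ W = ⊥ ∧ U ⊔ W = M ∧ Fm Palt ρ U ∧ Fm Psym ρ W ∧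
      ((2 : F) = 0 → W = ⊥) := by
  intro n
  induction n using Nat.strong_induction_on with
  | _ n ih =>
  intro M hn hM hndM h2
  have hρρ : ∀ g x, ρ g (ρ g⁻¹ x) = x := by
    intro g x
    rw [← Module.End.mul_apply, ← map_mul, mul_inv_cancel, map_one]
    rfl
  let R : Submodule F V :=
    { carrier := {x | x ∈ M ∧ ∀ y ∈ M, B x y = - B y x}
      add_mem' := by
        rintro a b ⟨ha, ha'⟩ ⟨hb, hb'⟩
        refine ⟨M.add_mem ha hb, fun y hy => ?_⟩
        rw [map_add, LinearMap.add_apply, map_add, ha' y hy, hb' y hy]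
        ring
      zero_mem' := ⟨M.zero_mem, fun y _ => by rw [map_zero, map_zero, LinearMap.zero_apply, neg_zero]⟩
      smul_mem' := by
        rintro c x ⟨hx, hx'⟩
        refine ⟨M.smul_mem c hx, fun y hy => ?_⟩
        rw [map_smul, LinearMap.smul_apply, map_smul, hx' y hy, smul_neg] }
  have hRmem : ∀ x, x ∈ R ↔ x ∈ M ∧ ∀ y ∈ M, B x y = - B y x := fun x => Iff.rfl
  have hRM : R ≤ M := fun x hx => hx.1
  have hRinv : Inv ρ R := by
    intro g x hx
    refine ⟨hM g x hx.1, fun y hy => ?_⟩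
    rw [← hρρ g y, hBinv, hBinv]
    exact hx.2 _ (hM _ _ hy)
  by_cases hS : R ⊓ perpS B R = ⊥
  · have hndR : NDR B R := by
      intro x hx h
      have h1 : x ∈ R ⊓ perpS B R := ⟨hx, h⟩
      rw [hS] at h1
      exact (Submodule.mem_bot F).mp h1
    obtain ⟨hI, hdisj, hsup, hnd⟩ := perp ρ B hBinv hRinv hM hRM hndR hndM
    set R' := M ⊓ perpS B R with hR'
    have hall : ∀ x ∈ R, B x x = 0 := by
      by_cases h20 : (2 : F) = 0
      · rcases h2 with h2 | hfix
        · exact absurd h20 h2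
        · exact alt_char2 h20 hc ρ B hBinv hRinv (fun x hx y hy => hx.2 y hy.1) (fun x hx => hfix x hx.1)
      · intro x hx
        have h3 := hx.2 x hx.1
        have h4 : (2 : F) * B x x = 0 := by linear_combination h3
        rcases mul_eq_zero.mp h4 with h | h
        · exact absurd h h20
        · exact h
    have fR : Fm Palt ρ R := by
      obtain ⟨π, hπ1, -, hπ3⟩ := exists_proj R ⊥ disjoint_bot_right
      have hev : ∀ x ∈ R, ∀ y ∈ R, (B.compl₁₂ π π) x y = B x y := by
        intro x hx y hy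
        show B (π x) (π y) = B x y
        rw [hπ1 x hx, hπ1 y hy]
      refine ⟨B.compl₁₂ π π, fun x => hall _ (hπ3 x), ?_, ?_⟩
      · intro g x hx y hy
        rw [hev _ (hRinv g x hx) _ (hRinv g y hy), hev x hx y hy, hBinv]
      · intro x hx h
        apply hndR x hx
        intro y hy
        have h3 := h y hy
        rw [hev x hx y hy, hx.2 y hy.1, neg_eq_zero] at h3
        exact h3
    have hbb : ∀ x y, (B + B.flip) x y = B x y + B y x := fun x y => rfl
    have hinv' : ∀ g : G, ∀ x ∈ R', ∀ y ∈ R', (B + B.flip) (ρ g x) (ρ g y) = (B + B.flip) x y := by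
      intro g x _ y _
      rw [hbb, hbb, hBinv, hBinv]
    have hndl' : NDL (B + B.flip) R' := by
      intro x hx h
      have h3 : x ∈ R := by
        refine ⟨hx.1, fun y hy => ?_⟩
        rw [← hsup, Submodule.mem_sup] at hy
        obtain ⟨r, hr, r', hr', rfl⟩ := hy
        have e1 := hr.2 x hx.1
        have e2 := h r' hr'
        rw [hbb] at e2
        rw [map_add, map_add, LinearMap.add_apply, e1]
        linear_combination e2
      have h4 : x ∈ R ⊓ R' := ⟨h3, hx⟩
      rw [hdisj] at h4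
      exact (Submodule.mem_bot F).mp h4
    by_cases h20 : (2 : F) = 0
    · have fR' : Fm Palt ρ R' := ⟨B + B.flip, fun x => by
        rw [hbb, ← two_mul, h20, zero_mul], hinv', hndl'⟩
      have fU : Fm Palt ρ (R ⊔ R') := addFm Palt hPalt ρ hRinv hI (disjoint_iff.mpr hdisj) fR fR'
      rw [hsup] at fU
      refine ⟨M, ⊥, le_rfl, bot_le, hM, ?_, inf_bot_eq _, sup_bot_eq _, fU, ?_, fun _ => rfl⟩
      · intro g x hx
        rw [Submodule.mem_bot] at hx
        rw [hx, map_zero]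
        exact Submodule.zero_mem _
      · exact ⟨0, fun _ _ => rfl, fun _ _ _ _ _ => rfl, fun x hx _ => (Submodule.mem_bot F).mp hx⟩
    · refine ⟨R, R', hRM, inf_le_left, hRinv, hI, hdisj, hsup, fR, ?_, fun h => absurd h h20⟩
      refine ⟨B + B.flip, ?_, hinv', hndl'⟩
      intro x y
      rw [hbb, hbb, add_comm]
  · set S := R ⊓ perpS B R with hSdef
    have hSinv : Inv ρ S := fun g x hx => ⟨hRinv g x hx.1, perpS_inv ρ B hBinv hRinv g x hx.2⟩
    have hSM : S ≤ M := fun x hx => hx.1.1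
    set Sp := M ⊓ perpS B S with hSp
    have hSpinv : Inv ρ Sp := fun g x hx => ⟨hM g x hx.1, perpS_inv ρ B hBinv hSinv g x hx.2⟩
    have hSSp : S ≤ Sp := fun x hx => ⟨hSM hx, fun d hd => hx.2 d hd.1⟩
    obtain ⟨T, hTM, hTinv, hTdisj, hTsup⟩ := maschke hc ρ hSpinv hM inf_le_left
    have hST : Disjoint S T := by
      rw [disjoint_iff, eq_bot_iff, ← hTdisj]
      exact inf_le_inf_right T hSSp
    have hzero : ∀ s ∈ S, (∀ t ∈ T, B t s = 0) → s = 0 := by
      intro s hs h
      apply hndM s (hSM hs)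
      intro y hy
      rw [← hTsup, Submodule.mem_sup] at hy
      obtain ⟨a, ha, t, ht, rfl⟩ := hy
      have e1 := hs.1.2 a ha.1
      rw [ha.2 s hs] at e1
      rw [map_add, LinearMap.add_apply, h t ht, add_zero]
      exact neg_eq_zero.mp e1.symm
    have hzeroT : ∀ t ∈ T, (∀ s ∈ S, B s t = 0) → t = 0 := by
      intro t ht h
      have h1 : t ∈ Sp ⊓ T := ⟨⟨hTM ht, h⟩, ht⟩
      rw [hTdisj] at h1
      exact (Submodule.mem_bot F).mp h1
    set D := S ⊔ T with hD
    have hDM : D ≤ M := sup_le hSM hTM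
    have hDinv : Inv ρ D := by
      intro g x hx
      obtain ⟨s, hs, t, ht, rfl⟩ := Submodule.mem_sup.mp hx
      rw [map_add]
      exact Submodule.add_mem_sup (hSinv g s hs) (hTinv g t ht)
    have hndD : NDR B D := by
      intro x hx h
      obtain ⟨s, hs, t, ht, rfl⟩ := Submodule.mem_sup.mp hx
      have ht0 : t = 0 := by
        apply hzeroT t ht
        intro s' hs'
        have h3 := h s' (Submodule.mem_sup_left hs')
        rw [map_add, hs.2 s' hs'.1, zero_add] at h3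
        exact h3
      subst ht0
      rw [add_zero] at h ⊢
      exact hzero s hs fun t' ht' => h t' (Submodule.mem_sup_right ht')
    have fD : Fm Palt ρ D := by
      obtain ⟨π, p1, p2, -⟩ := exists_proj S T hST
      obtain ⟨κ, k1, k2, -⟩ := exists_proj T S hST.symm
      have hev0 : ∀ x y, (B.compl₁₂ π κ - (B.compl₁₂ π κ).flip) x y = B (π x) (κ y) - B (π y) (κ x) := fun x y => rfl
      have hev : ∀ s ∈ S, ∀ t ∈ T, ∀ s' ∈ S, ∀ t' ∈ T,
          (B.compl₁₂ π κ - (B.compl₁₂ π κ).flip) (s + t) (s' + t') = B s t' - B s' t := by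
        intro s hs t ht s' hs' t' ht'
        have e1 : π (s + t) = s := by rw [map_add, p1 s hs, p2 t ht, add_zero]
        have e2 : π (s' + t') = s' := by rw [map_add, p1 s' hs', p2 t' ht', add_zero]
        have e3 : κ (s + t) = t := by rw [map_add, k2 s hs, k1 t ht, zero_add]
        have e4 : κ (s' + t') = t' := by rw [map_add, k2 s' hs', k1 t' ht', zero_add]
        rw [hev0, e1, e2, e3, e4]
      refine ⟨B.compl₁₂ π κ - (B.compl₁₂ π κ).flip, fun x => by rw [hev0, sub_self], ?_, ?_⟩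
      · intro g x hx y hy
        obtain ⟨s, hs, t, ht, rfl⟩ := Submodule.mem_sup.mp hx
        obtain ⟨s', hs', t', ht', rfl⟩ := Submodule.mem_sup.mp hy
        rw [map_add (ρ g), map_add (ρ g), hev _ (hSinv g s hs) _ (hTinv g t ht) _ (hSinv g s' hs') _ (hTinv g t' ht'),
          hev s hs t ht s' hs' t' ht', hBinv, hBinv]
      · intro x hx h
        obtain ⟨s, hs, t, ht, rfl⟩ := Submodule.mem_sup.mp hx
        have e1 : s = 0 := by
          apply hzero s hs
          intro t' ht'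
          have h3 := h (0 + t') (Submodule.add_mem_sup S.zero_mem ht')
          rw [hev s hs t ht 0 S.zero_mem t' ht', map_zero, LinearMap.zero_apply, sub_zero, hs.1.2 t' (hTM ht'), neg_eq_zero] at h3
          exact h3
        have e2 : t = 0 := by
          apply hzeroT t ht
          intro s' hs'
          have h3 := h (s' + 0) (Submodule.add_mem_sup hs' T.zero_mem)
          rw [hev s hs t ht s' hs' 0 T.zero_mem, map_zero, zero_sub, neg_eq_zero] at h3
          exact h3
        rw [e1, e2, add_zero]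
    obtain ⟨hI, hdisj, hsup, hnd⟩ := perp ρ B hBinv hDinv hM hDM hndD hndM
    set D' := M ⊓ perpS B D with hD'
    have hDne : D ≠ ⊥ := by
      intro h
      apply hS
      rw [eq_bot_iff, ← h]
      exact le_sup_left
    have hlt : D' < M := by
      refine lt_of_le_of_ne inf_le_left ?_
      intro h
      apply hDne
      rw [h, inf_eq_left.mpr hDM] at hdisj
      exact hdisj
    obtain ⟨U, W, hUD, hWD, hUi, hWi, hUW, hUWs, fU, fW, hW2⟩ := ih (Module.finrank F D')
      (by rw [← hn]; exact Submodule.finrank_lt_finrank_of_lt hlt) D' rfl hI hnd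
      (h2.imp_right fun h x hx => h x hx.1)
    have hDU : Disjoint D U := by
      rw [disjoint_iff, eq_bot_iff, ← hdisj]
      exact inf_le_inf_left D hUD
    refine ⟨D ⊔ U, W, sup_le hDM (hUD.trans inf_le_left), hWD.trans inf_le_left, ?_, hWi, ?_, ?_, ?_, fW, hW2⟩
    · intro g x hx
      obtain ⟨d, hd, u, hu, rfl⟩ := Submodule.mem_sup.mp hx
      rw [map_add]
      exact Submodule.add_mem_sup (hDinv g d hd) (hUi g u hu)
    · rw [eq_bot_iff]
      rintro x ⟨hx, hxW⟩
      obtain ⟨d, hd, u, hu, rfl⟩ := Submodule.mem_sup.mp hx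
      have h3 : d ∈ D ⊓ D' := by
        refine ⟨hd, ?_⟩
        have h4 : d = (d + u) - u := by abel
        rw [h4]
        exact D'.sub_mem (hWD hxW) (hUD hu)
      rw [hdisj, Submodule.mem_bot] at h3
      subst h3
      rw [zero_add] at hxW ⊢
      rw [← hUW]
      exact ⟨hu, hxW⟩
    · rw [sup_assoc, hUWs, hsup]
    · exact addFm Palt hPalt ρ hDinv hUi hDU fD fU

theorem symW (W : Submodule F V) (ρ : Representation F G V) (hfix : ∀ g : G, ∀ w ∈ W, ρ g w = w) : Fm Psym ρ W := by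
  classical
  obtain ⟨W', hW'⟩ := Submodule.exists_isCompl W
  let b := Module.finBasis F W
  let π : V →ₗ[F] W := Submodule.linearProjOfIsCompl W W' hW'
  let A : LinearMap.BilinForm F V := ∑ i, (LinearMap.mul F F).compl₁₂ ((b.coord i) ∘ₗ π) ((b.coord i) ∘ₗ π)
  have hA : ∀ x y, A x y = ∑ i, b.coord i (π x) * b.coord i (π y) := by
    intro x y
    show (∑ i, (LinearMap.mul F F).compl₁₂ ((b.coord i) ∘ₗ π) ((b.coord i) ∘ₗ π)) x y = _
    rw [LinearMap.sum_apply, LinearMap.sum_apply]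
    rfl
  refine ⟨A, ?_, ?_, ?_⟩
  · intro x y
    rw [hA, hA]
    exact Finset.sum_congr rfl fun i _ => mul_comm _ _
  · intro g x hx y hy
    rw [hfix g x hx, hfix g y hy]
  · intro x hx h
    have hπ : ∀ w : W, π w = w := fun w => Submodule.linearProjOfIsCompl_apply_left hW' w
    have h1 : (⟨x, hx⟩ : W) = 0 := by
      apply b.ext_elem
      intro i
      have h2 := h (b i) (b i).2
      rw [hA, hπ (b i), hπ ⟨x, hx⟩, Finset.sum_eq_single i] at h2
      · simpa using h2
      · intro j _ hj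
        rw [Module.Basis.coord_apply, Module.Basis.coord_apply, Module.Basis.repr_self, Finsupp.single_apply, if_neg (Ne.symm hj),
          mul_zero]
      · intro hi
        exact absurd (Finset.mem_univ i) hi
    exact congrArg Subtype.val h1

theorem final_thm (p : ℕ) [Fact p.Prime] [CharP F p] (hcop : ¬ p ∣ Nat.card G) (ρ : Representation F G V)
    (B : LinearMap.BilinForm F V) (hB : B.Nondegenerate) (hBinv : ∀ g : G, ∀ x y : V, B (ρ g x) (ρ g y) = B x y) :
    ∃ U W : Submodule F V, IsCompl U W ∧ Inv ρ U ∧ Inv ρ W ∧ Fm Palt ρ U ∧ Fm Psym ρ W ∧ (p = 2 → ∀ g : G, ∀ w ∈ W, ρ g w = w) := by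
  classical
  haveI := Fintype.ofFinite G
  have hc : (Nat.card G : F) ≠ 0 := by
    intro h
    exact hcop ((CharP.cast_eq_zero_iff F p _).mp h)
  have htop : Inv ρ (⊤ : Submodule F V) := fun _ _ _ => Submodule.mem_top
  have hndtop : NDR B (⊤ : Submodule F V) := fun x _ h => hB.2 x fun y => h y Submodule.mem_top
  by_cases hp : p = 2
  · subst hp
    have h20 : (2 : F) = 0 := by
      have := (CharP.cast_eq_zero_iff F 2 2).mpr dvd_rfl
      exact_mod_cast this
    let N : Submodule F V :=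
      { carrier := {x | ∀ g : G, ρ g x = x}
        add_mem' := by
          intro a b ha hb g
          rw [map_add, ha g, hb g]
        zero_mem' := fun g => map_zero _
        smul_mem' := by
          intro c x hx g
          rw [map_smul, hx g] }
    have hNinv : Inv ρ N := by
      intro g x hx
      rw [hx g]
      exact hx
    obtain ⟨T, -, hTinv, hdisj, hsup⟩ := maschke hc ρ hNinv htop le_top
    have hfixT : ∀ x ∈ T, (∀ g : G, ρ g x = x) → x = 0 := by
      intro x hx h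
      have h1 : x ∈ N ⊓ T := ⟨h, hx⟩
      rw [hdisj] at h1
      exact (Submodule.mem_bot F).mp h1
    have hndT : NDR B T := by
      intro x hx h
      apply hB.2
      intro y
      have hy : y ∈ N ⊔ T := by rw [hsup]; exact Submodule.mem_top
      obtain ⟨a, ha, t, ht, rfl⟩ := Submodule.mem_sup.mp hy
      rw [map_add, LinearMap.add_apply, h t ht, add_zero]
      have h1 : (∑ g : G, ρ g x) = 0 := by
        apply hfixT _ (T.sum_mem fun g _ => hTinv g x hx)
        intro h
        rw [map_sum]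
        refine Fintype.sum_equiv (Equiv.mulLeft h) _ _ ?_
        intro g
        show ρ h (ρ g x) = ρ (h * g) x
        rw [map_mul]
        rfl
      have h2 : ∀ g ∈ (Finset.univ : Finset G), B a (ρ g x) = B a x := by
        intro g _
        nth_rewrite 1 [← ha g]
        exact hBinv g a x
      have h3 : ∑ g : G, B a (ρ g x) = 0 := by rw [← map_sum, h1, map_zero]
      rw [Finset.sum_congr rfl h2, Finset.sum_const, Finset.card_univ, ← Nat.card_eq_fintype_card, nsmul_eq_mul] at h3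
      rcases mul_eq_zero.mp h3 with h | h
      · exact absurd h hc
      · exact h
    obtain ⟨U, W, hUM, hWM, hUi, hWi, hUW, hUWs, fU, fW, hW2⟩ := main_ind hc ρ B hBinv _ T rfl hTinv hndT (Or.inr hfixT)
    have hW := hW2 h20
    rw [hW, sup_bot_eq] at hUWs
    rw [hUWs] at fU
    refine ⟨T, N, ⟨disjoint_iff.mpr (by rw [inf_comm]; exact hdisj), codisjoint_iff.mpr (by rw [sup_comm]; exact hsup)⟩, hTinv, hNinv, fU,
      symW N ρ fun g w hw => hw g, fun _ g w hw => hw g⟩
  · have h20 : (2 : F) ≠ 0 := by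
      intro h
      have h1 : ((2 : ℕ) : F) = 0 := by exact_mod_cast h
      have h2 := (CharP.cast_eq_zero_iff F p 2).mp h1
      have h3 : p ≤ 2 := Nat.le_of_dvd (by norm_num) h2
      have h4 := (Fact.out : p.Prime).two_le
      omega
    obtain ⟨U, W, hUM, hWM, hUi, hWi, hUW, hUWs, fU, fW, hW2⟩ := main_ind hc ρ B hBinv _ ⊤ rfl htop hndtop (Or.inl h20)
    exact ⟨U, W, ⟨disjoint_iff.mpr hUW, codisjoint_iff.mpr hUWs⟩, hUi, hWi, fU, fW, fun h => absurd h hp⟩

end CfsgLib.H2JM
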