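import Cfsg.Agent.EqBase
import Cfsg.Agent.LibCores
set_option autoImplicit false
set_option maxHeartbeats 400000
namespace CfsgLib.H2Keg
open Subgroup Cfsg
open scoped Pointwise

/-- permutability with all conjugates, with proper products -/
def Q {G : Type*} [Group G] (B A : Subgroup G) : Prop :=
  ∀ x : G, ∃ S : Subgroup G, S ≠ ⊤ ∧ (S : Set G) = (A : Set G) * ((MulAut.conj x • B : Subgroup G) : Set G)

theorem swap {G : Type*} [Group G] {A C S : Subgroup G} (h : (S : Set G) = (A : Set G) * (C : Set G))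
    {c a : G} (hc : c ∈ C) (ha : a ∈ A) : ∃ a' ∈ A, ∃ c' ∈ C, c * a = a' * c' := by
  have hcS : c ∈ S := by
    rw [← SetLike.mem_coe, h]; exact ⟨1, A.one_mem, c, hc, one_mul c⟩
  have haS : a ∈ S := by
    rw [← SetLike.mem_coe, h]; exact ⟨a, ha, 1, C.one_mem, mul_one a⟩
  have h1 : c * a ∈ S := mul_mem hcS haS
  rw [← SetLike.mem_coe, h] at h1
  obtain ⟨a', ha', c', hc', he⟩ := h1
  exact ⟨a', ha', c', hc', he.symm⟩

theorem kegel {G : Type*} [Group G] [Finite G] (A B : Subgroup G) (h : Q B A) :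
    ∃ N : Subgroup G, N.Normal ∧ N ≠ ⊤ ∧ (A ≤ N ∨ B ≤ N) := by
  have hfin : ({X : Subgroup G | A ≤ X ∧ Q B X}).Finite := Set.toFinite _
  obtain ⟨A₁, hA₁⟩ := hfin.exists_maximal ⟨A, le_rfl, h⟩
  obtain ⟨⟨hAA₁, hQ⟩, hmax⟩ := hA₁
  -- all conjugates of `B` normalize `A₁`
  have key : ∀ y b : G, b ∈ MulAut.conj y • B → MulAut.conj b • A₁ ≤ A₁ := by
    intro y b hb
    set A₂ := A₁ ⊔ MulAut.conj b • A₁ with hA₂
    have hcov : ∀ x : G, ∀ a ∈ A₂, ∀ c ∈ MulAut.conj x • B, ∃ a' ∈ A₂, ∃ c' ∈ MulAut.conj x • B, c * a = a' * c' := by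
      intro x a ha
      have hgen : A₂ = Subgroup.closure ((A₁ : Set G) ∪ ((MulAut.conj b • A₁ : Subgroup G) : Set G)) := by
        rw [Subgroup.closure_union, Subgroup.closure_eq, Subgroup.closure_eq]
      have hmul : ∀ a₁ a₂ : G, (∀ c ∈ MulAut.conj x • B, ∃ a' ∈ A₂, ∃ c' ∈ MulAut.conj x • B, c * a₁ = a' * c') →
          (∀ c ∈ MulAut.conj x • B, ∃ a' ∈ A₂, ∃ c' ∈ MulAut.conj x • B, c * a₂ = a' * c') →
          (∀ c ∈ MulAut.conj x • B, ∃ a' ∈ A₂, ∃ c' ∈ MulAut.conj x • B, c * (a₁ * a₂) = a' * c') := by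
        intro a₁ a₂ h1 h2 c hc
        obtain ⟨a', ha', c', hc', he⟩ := h1 c hc
        obtain ⟨a'', ha'', c'', hc'', he'⟩ := h2 c' hc'
        exact ⟨a' * a'', mul_mem ha' ha'', c'', hc'', by rw [← mul_assoc, he, mul_assoc, he', mul_assoc]⟩
      have hone : ∀ c ∈ MulAut.conj x • B, ∃ a' ∈ A₂, ∃ c' ∈ MulAut.conj x • B, c * 1 = a' * c' := fun c hc =>
        ⟨1, one_mem _, c, hc, by simp⟩
      have hpow : ∀ a₁ : G, (∀ c ∈ MulAut.conj x • B, ∃ a' ∈ A₂, ∃ c' ∈ MulAut.conj x • B, c * a₁ = a' * c') →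
          ∀ n : ℕ, (∀ c ∈ MulAut.conj x • B, ∃ a' ∈ A₂, ∃ c' ∈ MulAut.conj x • B, c * a₁ ^ n = a' * c') := by
        intro a₁ h1 n
        induction n with
        | zero => rw [pow_zero]; exact hone
        | succ n ih => rw [pow_succ]; exact hmul _ _ ih h1
      rw [hgen] at ha
      refine Subgroup.closure_induction (p := fun a _ => ∀ c ∈ MulAut.conj x • B,
        ∃ a' ∈ A₂, ∃ c' ∈ MulAut.conj x • B, c * a = a' * c') ?_ hone
        (fun a₁ a₂ _ _ h1 h2 => hmul a₁ a₂ h1 h2) ?_ ha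
      · rintro a₁ (ha₁ | ha₁) c hc
        · obtain ⟨S, -, hS⟩ := hQ x
          obtain ⟨a', ha', c', hc', he⟩ := swap hS hc ha₁
          exact ⟨a', (le_sup_left : A₁ ≤ A₂) ha', c', hc', he⟩
        · -- conjugate by `b`
          obtain ⟨S, -, hS⟩ := hQ (b⁻¹ * x)
          obtain ⟨a₀, ha₀, rfl⟩ := ha₁
          have hc₀ : b⁻¹ * c * b ∈ MulAut.conj (b⁻¹ * x) • B := by
            obtain ⟨d, hd, rfl⟩ := hc
            exact ⟨d, hd, by simp [MulAut.smul_def, mul_assoc]⟩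
          obtain ⟨a', ha', c', hc', he⟩ := swap hS hc₀ ha₀
          refine ⟨b * a' * b⁻¹, (le_sup_right : _ ≤ A₂) ⟨a', ha', rfl⟩, b * c' * b⁻¹, ?_, ?_⟩
          · obtain ⟨d, hd, rfl⟩ := hc'
            exact ⟨d, hd, by simp [MulAut.smul_def, mul_assoc]⟩
          · show c * (b * a₀ * b⁻¹) = b * a' * b⁻¹ * (b * c' * b⁻¹)
            calc c * (b * a₀ * b⁻¹) = b * ((b⁻¹ * c * b) * a₀) * b⁻¹ := by group
              _ = b * (a' * c') * b⁻¹ := by rw [he]
              _ = _ := by group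
      · intro a₁ _ h1
        have := hpow a₁ h1 (orderOf a₁ - 1)
        have e : a₁ ^ (orderOf a₁ - 1) = a₁⁻¹ := by
          rw [eq_inv_iff_mul_eq_one, ← pow_succ, Nat.sub_add_cancel (orderOf_pos a₁), pow_orderOf_eq_one]
        rwa [e] at this
    have hQ₂ : Q B A₂ := by
      intro x
      let T : Subgroup G :=
        { carrier := {g | ∃ a ∈ A₂, ∃ c ∈ MulAut.conj x • B, g = a * c}
          one_mem' := ⟨1, one_mem _, 1, one_mem _, by simp⟩
          mul_mem' := by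
            rintro _ _ ⟨a, ha, c, hc, rfl⟩ ⟨a', ha', c', hc', rfl⟩
            obtain ⟨a'', ha'', c'', hc'', he⟩ := hcov x a' ha' c hc
            exact ⟨a * a'', mul_mem ha ha'', c'' * c', mul_mem hc'' hc', by
              calc a * c * (a' * c') = a * (c * a') * c' := by group
                _ = a * (a'' * c'') * c' := by rw [he]
                _ = _ := by group⟩
          inv_mem' := by
            rintro _ ⟨a, ha, c, hc, rfl⟩
            obtain ⟨a'', ha'', c'', hc'', he⟩ := hcov x a⁻¹ (inv_mem ha) c⁻¹ (inv_mem hc)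
            exact ⟨a'', ha'', c'', hc'', by rw [mul_inv_rev, he]⟩ }
      have hTs : (T : Set G) = (A₂ : Set G) * ((MulAut.conj x • B : Subgroup G) : Set G) := by
        ext g
        constructor
        · rintro ⟨a, ha, c, hc, rfl⟩; exact ⟨a, ha, c, hc, rfl⟩
        · rintro ⟨a, ha, c, hc, rfl⟩; exact ⟨a, ha, c, hc, rfl⟩
      refine ⟨T, ?_, hTs⟩
      intro htop
      obtain ⟨H, hH1, hH2⟩ := hQ y
      have hA₁H : A₁ ≤ H := by
        intro a ha
        rw [← SetLike.mem_coe, hH2]; exact ⟨a, ha, 1, one_mem _, mul_one a⟩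
      have hByH : MulAut.conj y • B ≤ H := by
        intro c hc
        rw [← SetLike.mem_coe, hH2]; exact ⟨1, one_mem _, c, hc, one_mul c⟩
      have hA₂H : A₂ ≤ H := by
        refine sup_le hA₁H ?_
        rintro _ ⟨a, ha, rfl⟩
        show b * a * b⁻¹ ∈ H
        exact mul_mem (mul_mem (hByH hb) (hA₁H ha)) (inv_mem (hByH hb))
      have hcov2 : ∀ g : G, ∃ a ∈ H, ∃ c ∈ MulAut.conj x • B, g = a * c := by
        intro g
        have hg : g ∈ T := by rw [htop]; exact mem_top g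
        obtain ⟨a, ha, c, hc, he⟩ := hg
        exact ⟨a, hA₂H ha, c, hc, he⟩
      apply hH1
      rw [eq_top_iff]
      intro g _
      obtain ⟨a, ha, c, hc, rfl⟩ := hcov2 g
      refine mul_mem ha ?_
      -- `B ^ x ≤ H`
      obtain ⟨k, hk, d, hd, he⟩ := hcov2 (x * y⁻¹)⁻¹
      -- g = x y⁻¹ = d⁻¹ k⁻¹
      have e1 : x * y⁻¹ = d⁻¹ * k⁻¹ := by rw [← mul_inv_rev, ← he, inv_inv]
      have hc2 : d⁻¹ * c * d ∈ MulAut.conj x • B := mul_mem (mul_mem (inv_mem hd) hc) hd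
      obtain ⟨e, hee, hee'⟩ := hc2
      have hee'' : x * e * x⁻¹ = d⁻¹ * c * d := hee'
      have h3 : y * e * y⁻¹ ∈ H := hByH ⟨e, hee, rfl⟩
      have h4 : c = k⁻¹ * (y * e * y⁻¹) * k := by
        have h5 : x = d⁻¹ * k⁻¹ * y := by rw [← e1]; group
        have h6 : c = d * (x * e * x⁻¹) * d⁻¹ := by rw [hee'']; group
        rw [h6, h5]; group
      rw [h4]
      exact mul_mem (mul_mem (inv_mem hk) h3) hk
    have h1 : A₂ ≤ A₁ := hmax ⟨hAA₁.trans le_sup_left, hQ₂⟩ le_sup_left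
    exact le_sup_right.trans h1
  by_cases hBn : normalClosure (B : Set G) = ⊤
  · refine ⟨A₁, ?_, ?_, Or.inl hAA₁⟩
    · have h1 : normalClosure (B : Set G) ≤ normalizer (A₁ : Set G) := by
        rw [normalClosure, Subgroup.closure_le]
        intro g hg
        obtain ⟨b, hb, hg'⟩ := Group.mem_conjugatesOfSet_iff.mp hg
        obtain ⟨y, rfl⟩ := isConj_iff.mp hg'
        have hy : y * b * y⁻¹ ∈ MulAut.conj y • B := ⟨b, hb, rfl⟩
        have h2 := key y _ hy
        apply Subgroup.mem_normalizer_fintype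
        intro a ha
        exact h2 ⟨a, ha, rfl⟩
      rw [hBn, top_le_iff] at h1
      exact normalizer_eq_top_iff.mp h1
    · rintro rfl
      obtain ⟨S, hS, hS'⟩ := hQ 1
      apply hS
      rw [eq_top_iff]
      intro g _
      rw [← SetLike.mem_coe, hS']
      exact ⟨g, mem_top g, 1, one_mem _, mul_one g⟩
  · exact ⟨normalClosure (B : Set G), normalClosure_normal, hBn, Or.inr subset_normalClosure⟩

end CfsgLib.H2Keg
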