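import Cfsg.Agent.EqBase
set_option autoImplicit false
namespace CfsgLib.H2Lang
open Polynomial

section poly
variable {K : Type*} [Field K]

/-- the coefficients of a fixed vector as polynomials in the last one -/
noncomputable def cp (q : ℕ) (a : ℕ → K) : ℕ → K[X]
  | 0 => C (a 0) * X ^ q
  | i + 1 => cp q a i ^ q + C (a (i + 1)) * X ^ q

theorem dvd_cp {q : ℕ} (hq : 2 ≤ q) (a : ℕ → K) (i : ℕ) : X ^ q ∣ cp q a i := by
  induction i with
  | zero => exact dvd_mul_left _ _
  | succ i ih => exact dvd_add (ih.trans (dvd_pow_self _ (by omega))) (dvd_mul_left _ _)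

theorem cp_eq_zero {q : ℕ} (hq : 2 ≤ q) (a : ℕ → K) (i : ℕ) (h : cp q a i = 0) : ∀ j, j ≤ i → a j = 0 := by
  induction i with
  | zero =>
    intro j hj
    obtain rfl : j = 0 := by omega
    have h1 : C (a 0) * X ^ q = 0 := h
    rcases mul_eq_zero.mp h1 with h2 | h2
    · exact C_eq_zero.mp h2
    · exact absurd h2 (pow_ne_zero _ X_ne_zero)
  | succ i ih =>
    have h1 : cp q a i ^ q + C (a (i + 1)) * X ^ q = 0 := h
    obtain ⟨D, hD⟩ := dvd_cp hq a i
    have h2 : a (i + 1) = 0 := by
      have h3 := congrArg (fun P : K[X] => P.coeff q) h1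
      simp only [coeff_add, coeff_zero, coeff_C_mul, coeff_X_pow_self, mul_one] at h3
      have h4 : (cp q a i ^ q).coeff q = 0 := by
        rw [hD, mul_pow, ← pow_mul, coeff_X_pow_mul', if_neg]
        have : q * 2 ≤ q * q := Nat.mul_le_mul_left _ hq
        omega
      rwa [h4, zero_add] at h3
    intro j hj
    rcases Nat.lt_or_ge i j with h5 | h5
    · obtain rfl : j = i + 1 := by omega
      exact h2
    · apply ih _ j h5
      rw [h2, map_zero, zero_mul, add_zero] at h1
      exact pow_eq_zero_iff (by omega) |>.mp h1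

theorem exists_root [IsAlgClosed K] {q : ℕ} (hq : 2 ≤ q) (a : ℕ → K) (k : ℕ) (ha : ∃ j, j ≤ k ∧ a j ≠ 0) :
    ∃ t : K, t ≠ 0 ∧ (cp q a k).eval t = t := by
  obtain ⟨D, hD⟩ := dvd_cp hq a k
  have hD0 : D ≠ 0 := by
    rintro rfl
    rw [mul_zero] at hD
    obtain ⟨j, hj, hj'⟩ := ha
    exact hj' (cp_eq_zero hq a k hD j hj)
  have h1 : (X ^ (q - 1) * D - 1 : K[X]).degree ≠ 0 := by
    have h2 : (0 : WithBot ℕ) < (X ^ (q - 1) * D).degree := by
      rw [degree_mul, degree_X_pow, degree_eq_natDegree hD0]
      norm_cast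
      omega
    have h3 : (X ^ (q - 1) * D - 1 : K[X]).degree = (X ^ (q - 1) * D).degree := by
      apply degree_sub_eq_left_of_degree_lt
      rwa [degree_one]
    rw [h3]
    exact h2.ne'
  obtain ⟨t, ht⟩ := IsAlgClosed.exists_root _ h1
  rw [IsRoot.def, eval_sub, eval_mul, eval_pow, eval_X, eval_one, sub_eq_zero] at ht
  refine ⟨t, ?_, ?_⟩
  · rintro rfl
    rw [zero_pow (by omega), zero_mul] at ht
    exact zero_ne_one ht
  · rw [hD, eval_mul, eval_pow, eval_X]
    have : t ^ q = t * t ^ (q - 1) := by rw [← pow_succ']; congr 1; omega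
    rw [this, mul_assoc, ht, mul_one]

end poly

section semi
variable {K : Type*} [Field K] [IsAlgClosed K] (p : ℕ) [Fact p.Prime] [CharP K p] (f : ℕ)

theorem exists_fixed (hf : 1 ≤ f) {V : Type*} [AddCommGroup V] [Module K V] [FiniteDimensional K V] [Nontrivial V]
    (φ : V →ₛₗ[iterateFrobenius K p f] V) (hφ : Function.Injective φ) : ∃ w : V, w ≠ 0 ∧ φ w = w := by
  classical
  set q := p ^ f with hqdef
  have hq : 2 ≤ q := by
    have h1 := (Fact.out : p.Prime).two_le
    calc 2 ≤ p := h1
      _ = p ^ 1 := (pow_one p).symm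
      _ ≤ p ^ f := Nat.pow_le_pow_right (by omega) hf
  obtain ⟨v0, hv0⟩ := exists_ne (0 : V)
  let v : ℕ → V := fun i => φ^[i] v0
  have hvs : ∀ i, φ (v i) = v (i + 1) := fun i => (Function.iterate_succ_apply' φ i v0).symm
  have hv0' : ∀ i, v i ≠ 0 := by
    intro i
    induction i with
    | zero => exact hv0
    | succ i ih =>
      rw [← hvs]
      intro h
      apply ih
      apply hφ
      rw [h, map_zero]
  have hex : ∃ m, v m ∈ Submodule.span K (v '' {i | i < m}) := by
    by_contra hcon
    push Not at hcon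
    have hli : ∀ n : ℕ, LinearIndependent K (fun i : Fin n => v i) := by
      intro n
      induction n with
      | zero => exact linearIndependent_empty_type
      | succ n ih =>
        rw [linearIndependent_finSucc']
        refine ⟨ih, ?_⟩
        intro h
        apply hcon n
        refine Submodule.span_mono ?_ h
        rintro _ ⟨i, rfl⟩
        exact ⟨i, by simpa using i.2, rfl⟩
    have h1 := (hli (Module.finrank K V + 1)).fintype_card_le_finrank
    rw [Fintype.card_fin] at h1
    omega
  obtain ⟨m, hm, hmin⟩ : ∃ m, v m ∈ Submodule.span K (v '' {i | i < m}) ∧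
      ∀ n < m, v n ∉ Submodule.span K (v '' {i | i < n}) := ⟨Nat.find hex, Nat.find_spec hex, fun n hn => Nat.find_min hex hn⟩
  obtain ⟨k, rfl⟩ : ∃ k, m = k + 1 := by
    rcases m with _ | k
    · exfalso
      have : v '' {i | i < 0} = ∅ := by simp
      rw [this, Submodule.span_empty, Submodule.mem_bot] at hm
      exact hv0' 0 hm
    · exact ⟨k, rfl⟩
  have hset : v '' {i | i < k + 1} = v '' ((Finset.range (k + 1) : Finset ℕ) : Set ℕ) := by
    congr 1; ext i; simp
  rw [hset] at hm
  obtain ⟨a, ha⟩ := (Submodule.mem_span_image_finset_iff_exists_fun' K).mp hm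
  obtain ⟨t, ht0, ht⟩ := exists_root hq a k (by
    by_contra hcon
    push Not at hcon
    apply hv0' (k + 1)
    rw [← ha]
    apply Finset.sum_eq_zero
    intro i hi
    rw [hcon i (by simpa [Nat.lt_succ_iff] using hi), zero_smul])
  set c : ℕ → K := fun i => (cp q a i).eval t with hc
  have hc0 : c 0 = a 0 * t ^ q := by simp [hc, cp]
  have hcs : ∀ i, c (i + 1) = c i ^ q + a (i + 1) * t ^ q := by intro i; simp [hc, cp]
  have hck : c k = t := ht
  refine ⟨∑ i ∈ Finset.range (k + 1), c i • v i, ?_, ?_⟩
  · intro h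
    apply hmin k (Nat.lt_succ_self k)
    rw [Finset.sum_range_succ, hck] at h
    have h1 : v k = - (t⁻¹ • ∑ i ∈ Finset.range k, c i • v i) := by
      have h2 : t • v k = - ∑ i ∈ Finset.range k, c i • v i := eq_neg_of_add_eq_zero_right h
      rw [← smul_neg, ← h2, smul_smul, inv_mul_cancel₀ ht0, one_smul]
    rw [h1]
    apply Submodule.neg_mem
    apply Submodule.smul_mem
    apply Submodule.sum_mem
    intro i hi
    apply Submodule.smul_mem
    apply Submodule.subset_span
    exact ⟨i, by simpa using hi, rfl⟩
  · rw [map_sum]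
    have h1 : ∀ i, φ (c i • v i) = (c i ^ q) • v (i + 1) := by
      intro i
      rw [map_smulₛₗ, hvs, iterateFrobenius_def]
    simp only [h1]
    rw [Finset.sum_range_succ, hck, ← ha, Finset.sum_range_succ', Finset.sum_range_succ', smul_add, Finset.smul_sum,
      ← add_assoc, ← Finset.sum_add_distrib, hc0, smul_smul, mul_comm (t ^ q)]
    congr 1
    apply Finset.sum_congr rfl
    intro i _
    rw [hcs, smul_smul, ← add_smul, mul_comm (t ^ q)]


theorem span_fixed (hf : 1 ≤ f) (n : ℕ) : ∀ {V : Type*} [AddCommGroup V] [Module K V] [FiniteDimensional K V]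
    (φ : V →ₛₗ[iterateFrobenius K p f] V), Function.Injective φ → Module.finrank K V = n →
    Submodule.span K {v : V | φ v = v} = ⊤ := by
  have hq : 2 ≤ p ^ f := by
    have h1 := (Fact.out : p.Prime).two_le
    calc 2 ≤ p := h1
      _ = p ^ 1 := (pow_one p).symm
      _ ≤ p ^ f := Nat.pow_le_pow_right (by omega) hf
  induction n with
  | zero =>
    intro V _ _ _ φ hφ hn
    haveI : Subsingleton V := Module.finrank_zero_iff.mp hn
    exact Subsingleton.elim _ _
  | succ n ih =>
    intro V _ _ _ φ hφ hn
    haveI : Nontrivial V := Module.nontrivial_of_finrank_pos (R := K) (by omega)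
    obtain ⟨w, hw0, hw⟩ := exists_fixed p f hf φ hφ
    set W := Submodule.span K {w} with hW
    have hle : W ≤ W.comap φ := by
      rw [hW, Submodule.span_singleton_le_iff_mem, Submodule.mem_comap, hw]
      exact Submodule.mem_span_singleton_self w
    let φ' : (V ⧸ W) →ₛₗ[iterateFrobenius K p f] (V ⧸ W) := W.mapQ W φ hle
    have hφ' : ∀ v : V, φ' (Submodule.Quotient.mk v) = Submodule.Quotient.mk (φ v) := fun v => rfl
    have hinj : Function.Injective φ' := by
      rw [injective_iff_map_eq_zero]
      intro x hx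
      obtain ⟨v, rfl⟩ := Submodule.Quotient.mk_surjective W x
      rw [hφ', Submodule.Quotient.mk_eq_zero, hW, Submodule.mem_span_singleton] at hx
      obtain ⟨c, hc⟩ := hx
      obtain ⟨d, hd⟩ := IsAlgClosed.exists_pow_nat_eq c (n := p ^ f) (by omega)
      rw [Submodule.Quotient.mk_eq_zero, hW, Submodule.mem_span_singleton]
      refine ⟨d, ?_⟩
      apply hφ
      rw [map_smulₛₗ, hw, iterateFrobenius_def, hd, hc]
    have hfr : Module.finrank K (V ⧸ W) = n := by
      have h1 := Submodule.finrank_quotient_add_finrank W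
      have h0 : Module.finrank K W = 1 := finrank_span_singleton hw0
      omega
    have h2 := ih φ' hinj hfr
    set F := Submodule.span K {v : V | φ v = v} with hF
    have hWF : W ≤ F := by
      rw [hW, Submodule.span_singleton_le_iff_mem]
      exact Submodule.subset_span hw
    have h3 : F.map W.mkQ = ⊤ := by
      rw [eq_top_iff, ← h2, Submodule.span_le]
      intro x hx
      obtain ⟨u, rfl⟩ := Submodule.Quotient.mk_surjective W x
      have hx' : φ' (Submodule.Quotient.mk u) = Submodule.Quotient.mk u := hx
      rw [hφ', Submodule.Quotient.eq, hW, Submodule.mem_span_singleton] at hx'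
      obtain ⟨b, hb⟩ := hx'
      -- solve `s ^ q - s + b = 0`
      obtain ⟨s, hs⟩ := IsAlgClosed.exists_root (X ^ (p ^ f) - X + C b : K[X]) (by
        have h4 : (X ^ (p ^ f) - X + C b : K[X]).degree = (p ^ f : ℕ) := by
          rw [sub_add]
          rw [degree_sub_eq_left_of_degree_lt]
          · exact degree_X_pow _
          · rw [degree_X_pow]
            refine lt_of_le_of_lt (degree_sub_le _ _) ?_
            rw [max_lt_iff]
            constructor
            · rw [degree_X]; norm_cast
            · refine lt_of_le_of_lt degree_C_le ?_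
              norm_cast; omega
        rw [h4]
        norm_cast
        omega)
      rw [IsRoot.def, eval_add, eval_sub, eval_pow, eval_X, eval_C] at hs
      refine ⟨u + s • w, ?_, ?_⟩
      · apply Submodule.subset_span
        show φ (u + s • w) = u + s • w
        rw [map_add, map_smulₛₗ, hw, iterateFrobenius_def]
        have h5 : φ u = u + b • w := by rw [hb]; abel
        have h6 : s = b + s ^ p ^ f := by linear_combination -hs
        rw [h5]
        conv_rhs => rw [h6]
        rw [add_smul]; abel
      · rw [map_add, map_smul]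
        have h7 : W.mkQ w = 0 := by
          rw [Submodule.mkQ_apply, Submodule.Quotient.mk_eq_zero]
          exact Submodule.mem_span_singleton_self w
        rw [h7, smul_zero, add_zero]; rfl
    have h4 : F ⊔ W = ⊤ := by
      have h5 := congrArg (Submodule.comap W.mkQ) h3
      rwa [Submodule.comap_map_mkQ, Submodule.comap_top, sup_comm] at h5
    rwa [sup_eq_left.mpr hWF] at h4

theorem lang (hf : 1 ≤ f) (n : ℕ) (g : GL (Fin n) K) :
    ∃ x : GL (Fin n) K, g = x * (Matrix.GeneralLinearGroup.map (iterateFrobenius K p f) x)⁻¹ := by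
  let φ : (Fin n → K) →ₛₗ[iterateFrobenius K p f] (Fin n → K) :=
    { toFun := fun v => g.val.mulVec (iterateFrobenius K p f ∘ v)
      map_add' := fun v w => by
        rw [← Matrix.mulVec_add]
        congr 1
        ext i; simp
      map_smul' := fun c v => by
        rw [← Matrix.mulVec_smul]
        congr 1
        ext i; simp }
  have hφ : Function.Injective φ := by
    intro v w h
    have h1 : g.val.mulVec (iterateFrobenius K p f ∘ v) = g.val.mulVec (iterateFrobenius K p f ∘ w) := h
    have h2 := congrArg (fun u => g⁻¹.val.mulVec u) h1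
    simp only [Matrix.mulVec_mulVec] at h2
    have h3 : g⁻¹.val * g.val = 1 := by
      have := congrArg Units.val (inv_mul_cancel g)
      exact this
    rw [h3, Matrix.one_mulVec, Matrix.one_mulVec] at h2
    ext i
    exact (iterateFrobenius K p f).injective (congrFun h2 i)
  have h1 := span_fixed p f hf _ φ hφ rfl
  let b := Module.Basis.ofSpan h1.ge
  have hb : ∀ i, φ (b i) = b i := fun i => Module.Basis.ofSpan_subset h1.ge ⟨i, rfl⟩
  let b' := b.reindex (b.indexEquiv (Pi.basisFun K (Fin n)))
  have hb' : ∀ j, φ (b' j) = b' j := fun j => by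
    rw [Module.Basis.reindex_apply]; exact hb _
  let A : Matrix (Fin n) (Fin n) K := Matrix.of fun i j => b' j i
  have hA : IsUnit A := by
    rw [← Matrix.linearIndependent_cols_iff_isUnit]
    exact b'.linearIndependent
  refine ⟨hA.unit, ?_⟩
  rw [eq_mul_inv_iff_mul_eq]
  apply Units.ext
  ext i j
  exact congrFun (hb' j) i

end semi

end CfsgLib.H2Lang
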