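import Cfsg.Agent.EqBase
import Cfsg.Agent.LibPSolv19
import Cfsg.Agent.LibCores
set_option autoImplicit false
set_option maxHeartbeats 400000
namespace CfsgLib.H2Len
open Subgroup Cfsg CfsgLib.Cores CfsgLib.PSolv19
open scoped commutatorElement

variable {G : Type*} [Group G]

theorem core_bot_of_comap [Finite G] (p : ℕ) (U V : Subgroup G) [U.Normal] [V.Normal]
    (h : V = (pPrimeCore p (G ⧸ U)).comap (QuotientGroup.mk' U)) : pPrimeCore p (G ⧸ V) = ⊥ := by
  set M := (pPrimeCore p (G ⧸ V)).comap (QuotientGroup.mk' V) with hM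
  have hUV : U ≤ V := by
    intro u hu
    rw [h, mem_comap, QuotientGroup.mk'_apply, (QuotientGroup.eq_one_iff u).mpr hu]
    exact one_mem _
  have hVM : V ≤ M := by
    intro u hu
    rw [hM, mem_comap, QuotientGroup.mk'_apply, (QuotientGroup.eq_one_iff u).mpr hu]
    exact one_mem _
  haveI hMn : M.Normal := by rw [hM]; infer_instance
  have h1 : Nat.card M = Nat.card V * Nat.card (pPrimeCore p (G ⧸ V)) := by rw [hM, card_comap_mk]
  have h2 : Nat.card V = Nat.card U * Nat.card (pPrimeCore p (G ⧸ U)) := by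
    conv_lhs => rw [h]
    exact card_comap_mk U _
  have h3 : (M.map (QuotientGroup.mk' U)).comap (QuotientGroup.mk' U) = M := by
    rw [Subgroup.comap_map_eq, QuotientGroup.ker_mk', sup_eq_left.mpr (hUV.trans hVM)]
  have h4 : Nat.card M = Nat.card U * Nat.card (M.map (QuotientGroup.mk' U)) := by
    conv_lhs => rw [← h3]
    exact card_comap_mk U _
  have h5 : Nat.card (M.map (QuotientGroup.mk' U)) =
      Nat.card (pPrimeCore p (G ⧸ U)) * Nat.card (pPrimeCore p (G ⧸ V)) := by
    rw [h4, h2, mul_assoc] at h1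
    exact Nat.eq_of_mul_eq_mul_left Nat.card_pos h1
  have h6 : M.map (QuotientGroup.mk' U) ≤ pPrimeCore p (G ⧸ U) := by
    apply le_pPrimeCore (hMn.map _ (QuotientGroup.mk'_surjective U))
    rw [h5]
    exact Nat.Coprime.mul_left (pPrimeCore_coprime p) (pPrimeCore_coprime p)
  have h7 : M ≤ V := by rw [h, ← Subgroup.map_le_iff_le_comap]; exact h6
  have h8 := Subgroup.card_le_of_le h7
  rw [h1] at h8
  have h9 : Nat.card (pPrimeCore p (G ⧸ V)) ≤ 1 := by
    by_contra hlt
    rw [not_le] at hlt
    have : Nat.card V * 1 < Nat.card V * Nat.card (pPrimeCore p (G ⧸ V)) :=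
      Nat.mul_lt_mul_of_pos_left hlt Nat.card_pos
    omega
  apply card_eq_one.mp
  have : 0 < Nat.card (pPrimeCore p (G ⧸ V)) := Nat.card_pos
  omega

theorem upper_odd (p : ℕ) {n : ℕ} (hn : Even n) : (upperPSeries p G (n + 1)).1 =
    (pPrimeCore p (G ⧸ (upperPSeries p G n).1)).comap (QuotientGroup.mk' _) := by
  rw [upperPSeries]
  simp only [hn, if_true]

theorem upper_even (p : ℕ) {n : ℕ} (hn : ¬ Even n) : (upperPSeries p G (n + 1)).1 =
    (pCore p (G ⧸ (upperPSeries p G n).1)).comap (QuotientGroup.mk' _) := by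
  rw [upperPSeries]
  simp only [hn, if_false]

theorem core_upper [Finite G] (p k : ℕ) : pPrimeCore p (G ⧸ (upperPSeries p G (2 * k + 1)).1) = ⊥ :=
  core_bot_of_comap p _ _ (upper_odd p (even_two_mul k))

theorem not_even (k : ℕ) : ¬ Even (2 * k + 1) := by
  rw [Nat.not_even_iff_odd]; exact odd_two_mul_add_one k

theorem centralizer_upper [Finite G] {p : ℕ} [hp : Fact p.Prime] (hsol : IsPSolvable p G) (k : ℕ) :
    centralizer ((((upperPSeries p G (2 * k + 2)).1.map (QuotientGroup.mk' (upperPSeries p G (2 * k + 1)).1)) :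
      Subgroup (G ⧸ (upperPSeries p G (2 * k + 1)).1)) : Set (G ⧸ (upperPSeries p G (2 * k + 1)).1)) ≤
      (upperPSeries p G (2 * k + 2)).1.map (QuotientGroup.mk' (upperPSeries p G (2 * k + 1)).1) := by
  have h1 : (upperPSeries p G (2 * k + 2)).1.map (QuotientGroup.mk' (upperPSeries p G (2 * k + 1)).1) =
      pCore p (G ⧸ (upperPSeries p G (2 * k + 1)).1) := by
    have h2 : (upperPSeries p G (2 * k + 2)).1 = _ := upper_even p (not_even k)
    rw [h2]
    exact Subgroup.map_comap_eq_self_of_surjective (QuotientGroup.mk'_surjective _) _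
  rw [h1]
  exact hall_higman (psolv_quotient hp.out hsol _) (core_upper p k)

theorem step [Finite G] {p : ℕ} [hp : Fact p.Prime] (hsol : IsPSolvable p G) (S : Sylow p G) (V : Subgroup G) [V.Normal]
    (hV : pPrimeCore p (G ⧸ V) = ⊥) {A : Subgroup G} (hA : ⁅A, (S : Subgroup G)⁆ ≤ V) :
    A ≤ (pCore p (G ⧸ V)).comap (QuotientGroup.mk' V) := by
  have hf := QuotientGroup.mk'_surjective V
  haveI : Finite (G ⧸ V) := inferInstance
  have h1 : pCore p (G ⧸ V) ≤ (S : Subgroup G).map (QuotientGroup.mk' V) := by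
    have := pCore_le_sylow (Sylow.mapSurjective hf S)
    rwa [Sylow.coe_mapSurjective] at this
  intro a ha
  rw [mem_comap]
  apply hall_higman (psolv_quotient hp.out hsol V) hV
  rw [mem_centralizer_iff]
  intro x hx
  obtain ⟨s, hs, rfl⟩ := h1 hx
  have h2 := hA (commutator_mem_commutator ha hs)
  rw [← QuotientGroup.eq_one_iff] at h2
  have h3 : ⁅QuotientGroup.mk' V a, QuotientGroup.mk' V s⁆ = 1 := by
    rw [← map_commutatorElement]; exact h2
  rw [commutatorElement_eq_one_iff_mul_comm] at h3
  exact h3.symm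

theorem plength [Finite G] {p : ℕ} [hp : Fact p.Prime] (hsol : IsPSolvable p G) (S : Sylow p G) :
    PLengthLE p (Group.nilpotencyClass ↥(S : Subgroup G)) G := by
  set c := Group.nilpotencyClass ↥(S : Subgroup G) with hc
  haveI := S.isPGroup'.isNilpotent
  have h0 : (S : Subgroup G).lowerCentralSeries c = ⊥ := by
    have h1 := Subgroup.lowerCentralSeries_nilpotencyClass (G := ↥(S : Subgroup G))
    have h2 := congrArg (Subgroup.map (S : Subgroup G).subtype) h1
    rw [Subgroup.map_lowerCentralSeries, Subgroup.map_bot] at h2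
    have h3 : (⊤ : Subgroup ↥(S : Subgroup G)).map (S : Subgroup G).subtype = S := by
      rw [← MonoidHom.range_eq_map, range_subtype]
    rw [h3] at h2
    exact h2
  have key : ∀ k, k ≤ c → (S : Subgroup G).lowerCentralSeries (c - k) ≤ (upperPSeries p G (2 * k)).1 := by
    intro k
    induction k with
    | zero => intro _; rw [Nat.sub_zero, h0]; exact bot_le
    | succ k ih =>
      intro hk
      have h1 := ih (by omega)
      have h2 : (upperPSeries p G (2 * k)).1 ≤ (upperPSeries p G (2 * k + 1)).1 := by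
        rw [upper_odd p (even_two_mul k)]
        intro u hu
        rw [mem_comap, QuotientGroup.mk'_apply, (QuotientGroup.eq_one_iff u).mpr hu]
        exact one_mem _
      have h3 : ⁅(S : Subgroup G).lowerCentralSeries (c - (k + 1)), (S : Subgroup G)⁆ ≤
          (upperPSeries p G (2 * k + 1)).1 := by
        rw [← Subgroup.lowerCentralSeries_succ]
        have : c - (k + 1) + 1 = c - k := by omega
        rw [this]
        exact h1.trans h2
      have h4 := step hsol S _ (core_upper p k) h3
      have h5 : (upperPSeries p G (2 * (k + 1))).1 = _ := upper_even p (not_even k)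
      rw [h5]
      exact h4
  have h1 := key c le_rfl
  rw [Nat.sub_self, Subgroup.lowerCentralSeries_zero] at h1
  have h2 : (upperPSeries p G (2 * c + 1)).1 = _ := upper_odd p (even_two_mul c)
  show (upperPSeries p G (2 * c + 1)).1 = ⊤
  rw [h2]
  have h3 : pPrimeCore p (G ⧸ (upperPSeries p G (2 * c)).1) = ⊤ := by
    rw [eq_top_iff]
    apply le_pPrimeCore inferInstance
    rw [Subgroup.card_top, ← Subgroup.index_eq_card]
    have h4 : ¬ p ∣ ((upperPSeries p G (2 * c)).1).index := by
      intro h
      exact S.not_dvd_index (h.trans (Subgroup.index_dvd_of_le h1))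
    exact ((Nat.Prime.coprime_iff_not_dvd hp.out).mpr h4).symm
  rw [h3, comap_top]

end CfsgLib.H2Len
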