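import Cfsg.Agent.EqBase
import Cfsg.Agent.LibH6Regular
set_option autoImplicit false
set_option maxHeartbeats 400000
namespace CfsgLib.H2Reg
open Subgroup Cfsg CfsgLib.H6
open scoped commutatorElement

/-- regularity for `p ^ k`-th powers -/
def Rk (p k : ℕ) (G : Type*) [Group G] : Prop :=
  ∀ a b : G, ∃ c ∈ powerClosure p k ⁅closure ({a, b} : Set G), closure ({a, b} : Set G)⁆,
    (a * b) ^ (p ^ k) = a ^ (p ^ k) * b ^ (p ^ k) * c

theorem pow_eq_aux {G : Type*} [Group G] [Finite G] {p : ℕ} [Fact p.Prime] (hG : IsPGroup p G) (k : ℕ) (hR : Rk p k G) (n : ℕ) :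
    ∀ a b : G, Nat.card (closure ({a, b} : Set G)) = n → (a ^ p ^ k = b ^ p ^ k ↔ (a * b⁻¹) ^ p ^ k = 1) := by
  induction n using Nat.strong_induction_on with
  | _ n ih =>
  -- the multiplicativity step
  have mult : ∀ x y : G, Nat.card (closure ({x, y} : Set G)) = n → x * y ≠ y * x → ⁅x, y⁆ ^ p ^ k = 1 →
      ∀ u ∈ closure ({x, y} : Set G), ∀ v ∈ closure ({x, y} : Set G), (u * v) ^ p ^ k = u ^ p ^ k * v ^ p ^ k := by
    intro x y hn hxy hc u hu v hv
    set L := closure ({x, y} : Set G) with hL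
    have hlt : ⁅L, L⁆ < L := lt_of_le_of_lt le_sup_right (zpowers_sup_comm_lt hG hxy)
    have hcard : Nat.card ↥⁅L, L⁆ < n := by
      rw [← hn]
      by_contra hge
      push Not at hge
      exact hlt.ne (Subgroup.eq_of_le_of_card_ge hlt.le hge)
    -- the subgroup of elements of `⁅L,L⁆` killed by `p^k`
    let S : Subgroup G :=
      { carrier := {s | s ∈ ⁅L, L⁆ ∧ s ^ p ^ k = 1}
        one_mem' := ⟨one_mem _, one_pow _⟩
        mul_mem' := fun {s t} hs ht => by
          refine ⟨mul_mem hs.1 ht.1, ?_⟩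
          have hle : closure ({s, t⁻¹} : Set G) ≤ ⁅L, L⁆ := by
            rw [closure_le]
            rintro z (rfl | hz)
            · exact hs.1
            · rw [Set.mem_singleton_iff] at hz; subst hz; exact inv_mem ht.1
          have h1 := (ih _ (lt_of_le_of_lt (Subgroup.card_le_of_le hle) hcard) s t⁻¹ rfl).mp (by
            rw [hs.2, inv_pow, ht.2, inv_one])
          rwa [inv_inv] at h1
        inv_mem' := fun {s} hs => ⟨inv_mem hs.1, by rw [inv_pow, hs.2, inv_one]⟩ }
    have hSn : ∀ g ∈ L, ∀ s ∈ S, g * s * g⁻¹ ∈ S := by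
      intro g hg s hs
      refine ⟨?_, ?_⟩
      · have e : g * s * g⁻¹ = ⁅g, s⁆ * s := by rw [commutatorElement_def]; group
        rw [e]
        exact mul_mem (commutator_mem_commutator hg (hlt.le hs.1)) hs.1
      · rw [conj_pow, hs.2, mul_one, mul_inv_cancel]
    have hxL : x ∈ L := subset_closure (by simp)
    have hyL : y ∈ L := subset_closure (by simp)
    have hall : ⁅L, L⁆ ≤ S := comm_closure_pair_le hSn ⟨commutator_mem_commutator hxL hyL, hc⟩
    obtain ⟨c, hc1, hc2⟩ := hR u v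
    have hcS : c = 1 := by
      have huv : closure ({u, v} : Set G) ≤ L := by
        rw [closure_le]
        rintro z (rfl | hz)
        · exact hu
        · rw [Set.mem_singleton_iff] at hz; subst hz; exact hv
      have hle : ⁅closure ({u, v} : Set G), closure ({u, v} : Set G)⁆ ≤ S := (commutator_mono huv huv).trans hall
      have h1 : powerClosure p k ⁅closure ({u, v} : Set G), closure ({u, v} : Set G)⁆ ≤ ⊥ := by
        unfold powerClosure
        rw [closure_le]
        rintro z ⟨w, hw, rfl⟩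
        exact (hle hw).2
      exact Subgroup.mem_bot.mp (h1 hc1)
    rw [hc2, hcS, mul_one]
  -- commutator step
  have comm : ∀ x y : G, Nat.card (closure ({x, y} : Set G)) = n → x * y ≠ y * x → (y⁻¹ * x * y) ^ p ^ k = x ^ p ^ k →
      ⁅x, y⁆ ^ p ^ k = 1 := by
    intro x y hn hxy hpow
    have hlt := zpowers_sup_comm_lt hG hxy
    set L := closure ({x, y} : Set G) with hL
    have hxL : x ∈ L := subset_closure (by simp)
    have hyL : y ∈ L := subset_closure (by simp)
    -- use x and y⁻¹ x y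
    have hle : closure ({y⁻¹ * x * y, x} : Set G) ≤ zpowers x ⊔ ⁅L, L⁆ := by
      rw [closure_le]
      rintro z (rfl | hz)
      · have e : y⁻¹ * x * y = x * ⁅x⁻¹, y⁻¹⁆ := by rw [commutatorElement_def]; group
        rw [e]
        exact mul_mem (le_sup_left (a := zpowers x) (mem_zpowers x))
          (le_sup_right (a := zpowers x) (commutator_mem_commutator (inv_mem hxL) (inv_mem hyL)))
      · rw [Set.mem_singleton_iff] at hz; subst hz
        exact le_sup_left (a := zpowers z) (mem_zpowers z)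
    have hcard : Nat.card (closure ({y⁻¹ * x * y, x} : Set G)) < n := by
      refine lt_of_le_of_lt (Subgroup.card_le_of_le hle) ?_
      rw [← hn]
      by_contra hge
      push Not at hge
      exact hlt.ne (Subgroup.eq_of_le_of_card_ge hlt.le hge)
    have h1 := (ih _ hcard (y⁻¹ * x * y) x rfl).mp hpow
    have e : ⁅x, y⁆ = y * (y⁻¹ * x * y * x⁻¹) * y⁻¹ := by rw [commutatorElement_def]; group
    rw [e, conj_pow, h1, mul_one, mul_inv_cancel]
  intro a b hn
  by_cases hab : a * b = b * a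
  · have hc : Commute a b⁻¹ := (show Commute a b from hab).inv_right
    rw [hc.mul_pow, inv_pow, mul_inv_eq_one]
  have haL : a ∈ closure ({a, b} : Set G) := subset_closure (by simp)
  have hbL : b ∈ closure ({a, b} : Set G) := subset_closure (by simp)
  constructor
  · intro h
    have h1 : (b⁻¹ * a * b) ^ p ^ k = a ^ p ^ k := by
      have e : b⁻¹ * a * b = b⁻¹ * a * b⁻¹⁻¹ := by rw [inv_inv]
      rw [e, conj_pow, h, inv_inv]
      have : Commute b⁻¹ (b ^ p ^ k) := ((Commute.refl b).inv_left).pow_right _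
      rw [this.eq, inv_mul_cancel_right]
    have h2 := comm a b hn hab h1
    rw [mult a b hn hab h2 a haL b⁻¹ (inv_mem hbL), inv_pow, h, mul_inv_cancel]
  · intro h
    -- d = a b⁻¹
    set d := a * b⁻¹ with hd
    have hadb : a = d * b := by rw [hd]; group
    have hcl : closure ({d, b} : Set G) = closure ({a, b} : Set G) := by
      apply le_antisymm
      · rw [closure_le]
        rintro z (rfl | hz)
        · exact mul_mem haL (inv_mem hbL)
        · rw [Set.mem_singleton_iff] at hz; subst hz; exact hbL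
      · rw [closure_le]
        rintro z (rfl | hz)
        · rw [hadb]
          exact mul_mem (subset_closure (by simp)) (subset_closure (by simp))
        · rw [Set.mem_singleton_iff] at hz; subst hz
          exact subset_closure (by simp)
    have hn' : Nat.card (closure ({d, b} : Set G)) = n := by rw [hcl]; exact hn
    have hdb : d * b ≠ b * d := by
      intro hdb
      apply hab
      rw [hadb, hdb, mul_assoc, ← hdb]
    have h1 : (b⁻¹ * d * b) ^ p ^ k = d ^ p ^ k := by
      have e : b⁻¹ * d * b = b⁻¹ * d * b⁻¹⁻¹ := by rw [inv_inv]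
      rw [e, conj_pow, h, mul_one, mul_inv_cancel]
    have h2 := comm d b hn' hdb h1
    have h3 := mult d b hn' hdb h2 d (subset_closure (by simp)) b (subset_closure (by simp))
    rw [hadb, h3, h, one_mul]


section

variable {G : Type*} [Group G] {p : ℕ}

theorem pow_eq_iff [Finite G] [Fact p.Prime] (hG : IsPGroup p G) {k : ℕ} (hR : Rk p k G) (a b : G) :
    a ^ p ^ k = b ^ p ^ k ↔ (a * b⁻¹) ^ p ^ k = 1 := pow_eq_aux hG k hR _ a b rfl

theorem comm_pow_iff [Finite G] [Fact p.Prime] (hG : IsPGroup p G) {k : ℕ} (hR : Rk p k G) (a b : G) :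
    a ^ p ^ k * b = b * a ^ p ^ k ↔ (a⁻¹ * b⁻¹ * a * b) ^ p ^ k = 1 := by
  have h1 := pow_eq_iff hG hR a⁻¹ (b⁻¹ * a⁻¹ * b)
  have e1 : a⁻¹ * (b⁻¹ * a⁻¹ * b)⁻¹ = a⁻¹ * b⁻¹ * a * b := by group
  rw [e1] at h1
  rw [← h1]
  have e2 : (b⁻¹ * a⁻¹ * b) ^ p ^ k = b⁻¹ * (a ^ p ^ k)⁻¹ * b := by
    have e : b⁻¹ * a⁻¹ * b = b⁻¹ * a⁻¹ * b⁻¹⁻¹ := by rw [inv_inv]
    rw [e, conj_pow, inv_inv, inv_pow]
  rw [e2, inv_pow]
  set c := a ^ p ^ k with hc
  constructor
  · intro h
    have h2 : Commute c⁻¹ b := (show Commute c b from h).inv_left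
    rw [mul_assoc, h2.eq, inv_mul_cancel_left]
  · intro h
    have h2 : b * c⁻¹ = c⁻¹ * b := by
      nth_rewrite 1 [h]
      group
    have h3 : Commute c⁻¹ b := h2.symm
    have := h3.inv_left
    rw [inv_inv] at this
    exact this.eq

theorem powerClosure_mono {k : ℕ} {H K : Subgroup G} (h : H ≤ K) : powerClosure p k H ≤ powerClosure p k K := by
  refine closure_mono ?_
  rintro _ ⟨x, hx, rfl⟩
  exact ⟨x, h hx, rfl⟩

theorem powerClosure_le {k : ℕ} (H : Subgroup G) : powerClosure p k H ≤ H := by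
  refine (closure_le H).mpr ?_
  rintro _ ⟨x, hx, rfl⟩
  exact H.pow_mem hx _

theorem powerClosure_map {G' : Type*} [Group G'] (f : G →* G') (k : ℕ) (H : Subgroup G) :
    (powerClosure p k H).map f = powerClosure p k (H.map f) := by
  rw [powerClosure, powerClosure, MonoidHom.map_closure]
  congr 1
  ext y
  constructor
  · rintro ⟨_, ⟨x, hx, rfl⟩, rfl⟩
    exact ⟨f x, mem_map_of_mem _ hx, map_pow f x _⟩
  · rintro ⟨_, ⟨x, hx, rfl⟩, rfl⟩
    exact ⟨x ^ p ^ k, ⟨x, hx, rfl⟩, map_pow f x _⟩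

/-- an element of the normalizer of `H` normalizes the power closure -/
theorem powerClosure_conj {k : ℕ} {H : Subgroup G} {g : G} (hg : g ∈ normalizer (H : Set G)) {x : G}
    (hx : x ∈ powerClosure p k H) : g * x * g⁻¹ ∈ powerClosure p k H := by
  have h1 : H.map (MulAut.conj g).toMonoidHom ≤ H := by
    rintro _ ⟨h, hh, rfl⟩
    exact (mem_normalizer_iff.mp hg h).mp hh
  have h2 : (powerClosure p k H).map (MulAut.conj g).toMonoidHom ≤ powerClosure p k H := by
    rw [powerClosure_map]; exact powerClosure_mono h1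
  exact h2 ⟨x, hx, rfl⟩

theorem Rk.quotient {k : ℕ} (hR : Rk p k G) (N : Subgroup G) [N.Normal] : Rk p k (G ⧸ N) := by
  rintro ⟨a⟩ ⟨b⟩
  obtain ⟨c, hc, he⟩ := hR a b
  refine ⟨(c : G ⧸ N), ?_, ?_⟩
  · have h1 : (powerClosure p k ⁅closure ({a, b} : Set G), closure ({a, b} : Set G)⁆).map (QuotientGroup.mk' N) =
        powerClosure p k ⁅closure ({(a : G ⧸ N), (b : G ⧸ N)} : Set (G ⧸ N)),
          closure ({(a : G ⧸ N), (b : G ⧸ N)} : Set (G ⧸ N))⁆ := by
      rw [powerClosure_map, map_commutator, MonoidHom.map_closure, Set.image_pair]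
      rfl
    have h2 : (QuotientGroup.mk' N) c ∈ (powerClosure p k ⁅closure ({a, b} : Set G), closure ({a, b} : Set G)⁆).map
        (QuotientGroup.mk' N) := mem_map_of_mem _ hc
    rw [h1] at h2
    exact h2
  · show ((a : G ⧸ N) * (b : G ⧸ N)) ^ p ^ k = (a : G ⧸ N) ^ p ^ k * (b : G ⧸ N) ^ p ^ k * (c : G ⧸ N)
    rw [← QuotientGroup.mk_mul, ← QuotientGroup.mk_pow, he, QuotientGroup.mk_mul, QuotientGroup.mk_mul,
      QuotientGroup.mk_pow, QuotientGroup.mk_pow]

theorem Rk.subgroup {k : ℕ} (hR : Rk p k G) (H : Subgroup G) : Rk p k H := by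
  rintro ⟨a, ha⟩ ⟨b, hb⟩
  obtain ⟨c, hc, he⟩ := hR a b
  have h1 : (powerClosure p k ⁅closure ({(⟨a, ha⟩ : H), ⟨b, hb⟩} : Set H),
      closure ({(⟨a, ha⟩ : H), ⟨b, hb⟩} : Set H)⁆).map H.subtype =
        powerClosure p k ⁅closure ({a, b} : Set G), closure ({a, b} : Set G)⁆ := by
    rw [powerClosure_map, map_commutator, MonoidHom.map_closure, Set.image_pair]
    rfl
  rw [← h1] at hc
  obtain ⟨c', hc', rfl⟩ := hc
  exact ⟨c', hc', Subtype.ext he⟩

/-- products of powers are powers -/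
theorem pow_mul_pow [Finite G] [Fact p.Prime] (hG : IsPGroup p G) {k : ℕ} (hR : Rk p k G) (n : ℕ) :
    ∀ x y : G, Nat.card (closure ({x, y} : Set G)) = n →
      ∃ z ∈ closure ({x, y} : Set G), x ^ p ^ k * y ^ p ^ k = z ^ p ^ k := by
  induction n using Nat.strong_induction_on with
  | _ n ih =>
  intro x y hn
  set L := closure ({x, y} : Set G) with hL
  have hxL : x ∈ L := subset_closure (by simp)
  have hyL : y ∈ L := subset_closure (by simp)
  by_cases hxy : x * y = y * x
  · exact ⟨x * y, mul_mem hxL hyL, ((show Commute x y from hxy).mul_pow _).symm⟩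
  have hlt : ⁅L, L⁆ < L := lt_of_le_of_lt le_sup_right (zpowers_sup_comm_lt hG hxy)
  have hcard : ∀ {M : Subgroup G}, M < L → Nat.card M < n := by
    intro M hM
    rw [← hn]
    by_contra hge
    push Not at hge
    exact hM.ne (Subgroup.eq_of_le_of_card_ge hM.le hge)
  have hpair : ∀ {M : Subgroup G} {u v : G}, u ∈ M → v ∈ M → closure ({u, v} : Set G) ≤ M := by
    intro M u v hu hv
    rw [closure_le]
    rintro z (rfl | hz)
    · exact hu
    · rw [Set.mem_singleton_iff] at hz; subst hz; exact hv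
  -- elements of the power closure of `L'` are powers
  have hpc : ∀ c ∈ powerClosure p k ⁅L, L⁆, ∃ d ∈ ⁅L, L⁆, c = d ^ p ^ k := by
    intro c hc
    refine closure_induction (p := fun c _ => ∃ d ∈ ⁅L, L⁆, c = d ^ p ^ k) ?_ ?_ ?_ ?_ hc
    · rintro _ ⟨d, hd, rfl⟩; exact ⟨d, hd, rfl⟩
    · exact ⟨1, one_mem _, (one_pow _).symm⟩
    · rintro _ _ _ _ ⟨d, hd, rfl⟩ ⟨e, he, rfl⟩
      have hle := hpair hd he
      obtain ⟨z, hz, hz'⟩ := ih _ ((Subgroup.card_le_of_le hle).trans_lt (hcard hlt)) d e rfl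
      exact ⟨z, hle hz, hz'⟩
    · rintro _ _ ⟨d, hd, rfl⟩
      exact ⟨d⁻¹, inv_mem hd, (inv_pow d _).symm⟩
  obtain ⟨c, hc, he⟩ := hR x y
  obtain ⟨d, hd, rfl⟩ := hpc c hc
  -- now `x ^ q y ^ q = (x y) ^ q (d⁻¹) ^ q`
  have h1 : x ^ p ^ k * y ^ p ^ k = (x * y) ^ p ^ k * (d⁻¹) ^ p ^ k := by
    rw [he, inv_pow, mul_inv_cancel_right]
  have h2 : closure ({x * y, d⁻¹} : Set G) ≤ zpowers (x * y) ⊔ ⁅L, L⁆ :=
    hpair (le_sup_left (a := zpowers (x * y)) (mem_zpowers _))
      (le_sup_right (a := zpowers (x * y)) (inv_mem hd))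
  have hcl : closure ({x * y, y} : Set G) = L := by
    apply le_antisymm
    · exact hpair (mul_mem hxL hyL) hyL
    · refine hpair ?_ (subset_closure (by simp))
      have e : x = x * y * y⁻¹ := by group
      rw [e]
      exact mul_mem (subset_closure (by simp)) (inv_mem (subset_closure (by simp)))
  have h3 := zpowers_sup_comm_lt hG (a := x * y) (b := y) (by
    intro h
    apply hxy
    have : x * y = y⁻¹ * (y * (x * y)) := by group
    rw [mul_assoc] at h
    have h4 : x * y * y = y * x * y := by simpa [mul_assoc] using h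
    exact mul_right_cancel h4)
  rw [hcl] at h3
  obtain ⟨z, hz, hz'⟩ := ih _ ((Subgroup.card_le_of_le h2).trans_lt (hcard h3)) (x * y) d⁻¹ rfl
  refine ⟨z, ?_, by rw [h1, hz']⟩
  exact (h2.trans h3.le) hz

theorem mem_powerClosure [Finite G] [Fact p.Prime] (hG : IsPGroup p G) {k : ℕ} (hR : Rk p k G) {H : Subgroup G}
    {c : G} (hc : c ∈ powerClosure p k H) : ∃ d ∈ H, c = d ^ p ^ k := by
  refine closure_induction (p := fun c _ => ∃ d ∈ H, c = d ^ p ^ k) ?_ ?_ ?_ ?_ hc
  · rintro _ ⟨d, hd, rfl⟩; exact ⟨d, hd, rfl⟩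
  · exact ⟨1, one_mem _, (one_pow _).symm⟩
  · rintro _ _ _ _ ⟨d, hd, rfl⟩ ⟨e, he, rfl⟩
    obtain ⟨z, hz, hz'⟩ := pow_mul_pow hG hR _ d e rfl
    refine ⟨z, ?_, hz'⟩
    have : closure ({d, e} : Set G) ≤ H := by
      rw [closure_le]
      rintro z (rfl | hz)
      · exact hd
      · rw [Set.mem_singleton_iff] at hz; subst hz; exact he
    exact this hz
  · rintro _ _ ⟨d, hd, rfl⟩
    exact ⟨d⁻¹, inv_mem hd, (inv_pow d _).symm⟩

/-- `[℧(G), G] ≤ ℧(G')` -/
theorem comm_powerClosure_top [Finite G] [Fact p.Prime] (hG : IsPGroup p G) {k : ℕ} (hR : Rk p k G) :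
    ⁅powerClosure p k (⊤ : Subgroup G), (⊤ : Subgroup G)⁆ ≤ powerClosure p k ⁅(⊤ : Subgroup G), (⊤ : Subgroup G)⁆ := by
  set N := powerClosure p k ⁅(⊤ : Subgroup G), (⊤ : Subgroup G)⁆ with hN
  haveI hNn : N.Normal := ⟨fun x hx g => powerClosure_conj (by rw [normalizer_eq_top]; exact mem_top g) hx⟩
  rw [commutator_le]
  intro w hw b _
  obtain ⟨a, -, rfl⟩ := mem_powerClosure hG hR hw
  have h1 := comm_pow_iff (hG.to_quotient N) (hR.quotient N) (a : G ⧸ N) (b : G ⧸ N)
  have h2 : ((a : G ⧸ N)⁻¹ * (b : G ⧸ N)⁻¹ * (a : G ⧸ N) * (b : G ⧸ N)) ^ p ^ k = 1 := by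
    rw [← QuotientGroup.mk_inv, ← QuotientGroup.mk_inv, ← QuotientGroup.mk_mul, ← QuotientGroup.mk_mul,
      ← QuotientGroup.mk_mul, ← QuotientGroup.mk_pow, QuotientGroup.eq_one_iff]
    apply Subgroup.subset_closure
    refine ⟨_, ?_, rfl⟩
    have := commutator_mem_commutator (mem_top a⁻¹) (mem_top b⁻¹)
    rwa [commutatorElement_def, inv_inv, inv_inv] at this
  have h3 := h1.mpr h2
  rw [← QuotientGroup.eq_one_iff, commutatorElement_def]
  simp only [QuotientGroup.mk_mul, QuotientGroup.mk_inv, QuotientGroup.mk_pow]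
  rw [h3]; group

theorem comm_powerClosure [Finite G] [Fact p.Prime] (hG : IsPGroup p G) {k : ℕ} (hR : Rk p k G) (H : Subgroup G) :
    ⁅powerClosure p k H, H⁆ ≤ powerClosure p k ⁅H, H⁆ := by
  have h1 := comm_powerClosure_top (hG.to_subgroup H) (hR.subgroup H)
  have h2 := Subgroup.map_mono (f := H.subtype) h1
  rw [map_commutator, powerClosure_map, powerClosure_map, map_commutator] at h2
  have h3 : (⊤ : Subgroup H).map H.subtype = H := by rw [← MonoidHom.range_eq_map, range_subtype]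
  rwa [h3] at h2

theorem powerClosure_eq [Finite G] [Fact p.Prime] (hG : IsPGroup p G) {k : ℕ} (hR : Rk p k G) (H : Subgroup G) :
    {y : G | ∃ x ∈ H, y = x ^ (p ^ k)} = (powerClosure p k H : Set G) := by
  ext y
  exact ⟨fun h => Subgroup.subset_closure h, fun h => mem_powerClosure hG hR h⟩

/-- Kemhadze's criterion -/
theorem rk_of_kemhadze [Finite G] [Fact p.Prime] (hG : IsPGroup p G)
    (h : ∀ a b : G, ∃ c ∈ ⁅closure ({a, b} : Set G), closure ({a, b} : Set G)⁆,
      (a * b) ^ p = a ^ p * b ^ p * c ^ p) (k : ℕ) : Rk p k G := by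
  induction k with
  | zero =>
    intro a b
    exact ⟨1, one_mem _, by simp⟩
  | succ k ih =>
    intro a b
    set L := closure ({a, b} : Set G) with hL
    obtain ⟨c', hc', he⟩ := ih a b
    rw [← hL] at hc'
    obtain ⟨c, hc, rfl⟩ := mem_powerClosure hG ih hc'
    set x := a ^ p ^ k with hx
    set y := b ^ p ^ k with hy
    set z := c ^ p ^ k with hz
    set M := powerClosure p k ⁅L, L⁆ with hM
    set P := powerClosure p k L with hP
    have hLL : ⁅L, L⁆ ≤ L := by
      rw [commutator_le]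
      intro u hu v hv
      rw [commutatorElement_def]
      exact mul_mem (mul_mem (mul_mem hu hv) (inv_mem hu)) (inv_mem hv)
    have hMP : M ≤ P := powerClosure_mono hLL
    have hxP : x ∈ P := subset_closure ⟨a, subset_closure (by simp), rfl⟩
    have hyP : y ∈ P := subset_closure ⟨b, subset_closure (by simp), rfl⟩
    have hPP : ⁅P, P⁆ ≤ M := (commutator_mono le_rfl (powerClosure_le L)).trans (comm_powerClosure hG ih L)
    have hpair : ∀ {u v : G}, u ∈ P → v ∈ P → ⁅closure ({u, v} : Set G), closure ({u, v} : Set G)⁆ ≤ M := by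
      intro u v hu hv
      have : closure ({u, v} : Set G) ≤ P := by
        rw [closure_le]
        rintro z (rfl | hz)
        · exact hu
        · rw [Set.mem_singleton_iff] at hz; subst hz; exact hv
      exact (commutator_mono this this).trans hPP
    have hMp : ∀ m ∈ M, m ^ p ∈ powerClosure p (k + 1) ⁅L, L⁆ := by
      intro m hm
      obtain ⟨d, hd, rfl⟩ := mem_powerClosure hG ih hm
      apply Subgroup.subset_closure
      exact ⟨d, hd, by rw [← pow_mul, ← pow_succ]⟩
    have hzM : z ∈ M := hc'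
    obtain ⟨d, hd, hde⟩ := h x (y * z)
    obtain ⟨e, hee, hee'⟩ := h y z
    have hdM : d ∈ M := hpair hxP (mul_mem hyP (hMP hzM)) hd
    have heM : e ∈ M := hpair hyP (hMP hzM) hee
    refine ⟨z ^ p * e ^ p * d ^ p, mul_mem (mul_mem (hMp z hzM) (hMp e heM)) (hMp d hdM), ?_⟩
    rw [pow_succ, pow_mul, he, mul_assoc x y z, hde, hee', pow_mul a, pow_mul b]
    simp only [mul_assoc]
    rfl

end

end CfsgLib.H2Reg
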