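import Cfsg.Agent.EqBase
import Cfsg.Agent.LibH2Rk2
import Cfsg.Agent.LibSolvFrat
set_option autoImplicit false
set_option maxHeartbeats 400000
namespace CfsgLib.H2Rk3
open CfsgLib.SolvBasic CfsgLib.SolvMin CfsgLib.SolvCoprime
  CfsgLib.SolvNilp CfsgLib.SolvHall CfsgLib.SolvProd CfsgLib.SolvCrit CfsgLib.PCyc CfsgLib.H2Rk CfsgLib.H2Rk2
open scoped commutatorElement

universe u

/-- `x ↦ x ^ p` is a homomorphism on a central extension of a group of order `p ^ 3` and exponent `p` -/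
theorem powhom {H : Type*} [Group H] [Finite H] {p : ℕ} [hp : Fact p.Prime] (hp3 : 3 < p) (T : Subgroup H) [T.Normal]
    (hTZ : T ≤ Subgroup.center H) (hTe : ∀ t ∈ T, t ^ p = 1) (hq : Nat.card (H ⧸ T) = p ^ 3)
    (he : ∀ x : H, x ^ p ∈ T) (x y : H) : (x * y) ^ p = x ^ p * y ^ p := by
  have hZ := class_two_of_card (G := H ⧸ T) (p := p) (n := 3) le_rfl hq
  have hcen : ∀ t ∈ T, ∀ z : H, Commute t z := fun t ht z =>
    (Subgroup.mem_center_iff.mp (hTZ ht) z).symm
  set c := y⁻¹ * x⁻¹ * y * x with hc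
  have hcZ : ∀ z : H, c⁻¹ * z⁻¹ * c * z ∈ T := by
    intro z
    have h1 := hZ (y : H ⧸ T)⁻¹ (x : H ⧸ T)⁻¹
    have h2 := Subgroup.mem_center_iff.mp h1 (z : H ⧸ T)
    rw [← QuotientGroup.eq_one_iff]
    simp only [inv_inv] at h2
    have h3 : ((c : H) : H ⧸ T) = (y : H ⧸ T)⁻¹ * (x : H ⧸ T)⁻¹ * (y : H ⧸ T) * (x : H ⧸ T) := by
      rw [hc]; simp only [QuotientGroup.mk_mul, QuotientGroup.mk_inv]
    rw [← h3] at h2
    simp only [QuotientGroup.mk_mul, QuotientGroup.mk_inv]
    rw [mul_assoc, ← h2]; group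
  set u := c⁻¹ * x⁻¹ * c * x with hu
  set v := c⁻¹ * y⁻¹ * c * y with hv
  have h1 : y * x = x * y * c := by rw [hc]; group
  have h2 : c * x = x * c * u := by rw [hu]; group
  have h3 : c * y = y * c * v := by rw [hv]; group
  have huT : u ∈ T := hcZ x
  have hvT : v ∈ T := hcZ y
  have d1 : p ∣ p.choose 2 := hp.out.dvd_choose_self (by norm_num) (by omega)
  have hcp : c ^ p = 1 := by
    have e1 := (yc_pow h3 (hcen v hvT y) (hcen v hvT c) p).1
    have e2 : x⁻¹ * y * x = y * c := by rw [mul_assoc, h1]; group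
    have e3 : (y * c) ^ p = y ^ p := by
      rw [← e2]
      have := conj_pow (i := p) (a := x⁻¹) (b := y)
      rw [inv_inv] at this
      rw [this, mul_assoc, (hcen _ (he y) x).eq]; group
    obtain ⟨m, hm⟩ := d1
    rw [e3, hm, pow_mul, hTe v hvT, one_pow, mul_one] at e1
    have : y ^ p * 1 = y ^ p * c ^ p := by rw [mul_one]; exact e1
    exact (mul_left_cancel this).symm
  exact mul_pow_class3 hp.out hp3 h1 h2 h3 (hcen u huT x) (hcen u huT y) (hcen u huT c) (hcen u huT v)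
    (hcen v hvT x) (hcen v hvT y) (hcen v hvT c) hcp (hTe u huT) (hTe v hvT)

theorem omegaOne_card_equiv {G G' : Type*} [Group G] [Group G'] (p : ℕ) (e : G ≃* G') :
    Nat.card (Cfsg.omegaOne p (⊤ : Subgroup G)) = Nat.card (Cfsg.omegaOne p (⊤ : Subgroup G')) := by
  have h1 : (Cfsg.omegaOne p (⊤ : Subgroup G)).map e.toMonoidHom = Cfsg.omegaOne p (⊤ : Subgroup G') := by
    rw [Cfsg.omegaOne, Cfsg.omegaOne, MonoidHom.map_closure]
    congr 1
    ext y
    constructor
    · rintro ⟨x, ⟨hx, hxp⟩, rfl⟩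
      exact ⟨Subgroup.mem_top _, by rw [← map_pow, hxp, map_one]⟩
    · rintro ⟨-, hxp⟩
      refine ⟨e.symm y, ⟨Subgroup.mem_top _, ?_⟩, by simp⟩
      rw [← map_pow, hxp, map_one]
  rw [← h1, Subgroup.card_map_of_injective e.injective]


theorem quotient_step {R : Type*} [Group R] [Finite R] {p : ℕ} [hp : Fact p.Prime] (hp3 : 3 < p)
    (hR : IsPGroup p R) (hO : Nat.card ↥(Cfsg.omegaOne p (⊤ : Subgroup R)) ≤ p ^ 2) (T : Subgroup R) [hT : T.Normal]
    (hTc : Nat.card T = p) : Nat.card ↥(Cfsg.omegaOne p (⊤ : Subgroup (R ⧸ T))) ≤ p ^ 2 := by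
  by_contra hcon
  rw [not_le] at hcon
  obtain ⟨E, hE, hEe⟩ := exists_E (by omega) (hR.to_quotient T) hcon
  have hTZ := le_center_of_card_eq hp.out hR T hTc
  set H := E.comap (QuotientGroup.mk' T) with hH
  have hHc : Nat.card H = p ^ 3 * p := by rw [hH, card_comap_mk', hE, hTc]
  have hTH : T ≤ H := by
    intro t ht
    rw [hH, Subgroup.mem_comap, QuotientGroup.mk'_apply, (QuotientGroup.eq_one_iff t).mpr ht]
    exact one_mem _
  have hTe : ∀ t ∈ T, t ^ p = 1 := by
    intro t ht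
    have : (⟨t, ht⟩ : T) ^ p = 1 := by rw [← hTc]; exact pow_card_eq_one'
    exact congrArg Subtype.val this
  set T' := T.subgroupOf H with hT'
  have hT'c : Nat.card T' = p := by rw [hT', card_subgroupOf hTH, hTc]
  have hq : Nat.card (H ⧸ T') = p ^ 3 := by
    have := card_quotient_mul_card T'
    rw [hT'c, hHc] at this
    exact Nat.eq_of_mul_eq_mul_right hp.out.pos this
  have he : ∀ x : H, x ^ p ∈ T' := by
    intro x
    rw [hT', Subgroup.mem_subgroupOf]
    have h1 := hEe _ x.2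
    rw [← map_pow, QuotientGroup.mk'_apply, QuotientGroup.eq_one_iff] at h1
    exact h1
  have hT'Z : T' ≤ Subgroup.center H := by
    intro t ht
    rw [Subgroup.mem_center_iff]
    intro g
    exact Subtype.ext (Subgroup.mem_center_iff.mp (hTZ ht) g)
  have hT'e : ∀ t ∈ T', t ^ p = 1 := fun t ht => Subtype.ext (hTe t ht)
  let φ : H →* H :=
    { toFun := fun x => x ^ p
      map_one' := one_pow p
      map_mul' := powhom hp3 T' hT'Z hT'e hq he }
  have hr : φ.range ≤ T' := by rintro _ ⟨x, rfl⟩; exact he x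
  have h1 : Nat.card (H ⧸ φ.ker) * Nat.card φ.ker = Nat.card H := card_quotient_mul_card _
  rw [Nat.card_congr (QuotientGroup.quotientKerEquivRange φ).toEquiv, hHc] at h1
  have h2 := Subgroup.card_le_of_le hr
  rw [hT'c] at h2
  have h3 : p ^ 3 ≤ Nat.card φ.ker := by
    by_contra hlt
    rw [not_le] at hlt
    have h4 : Nat.card φ.range * Nat.card φ.ker ≤ p * Nat.card φ.ker := Nat.mul_le_mul_right _ h2
    have h5 : p * Nat.card φ.ker < p * p ^ 3 := Nat.mul_lt_mul_of_pos_left hlt hp.out.pos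
    rw [h1] at h4
    have h6 : p ^ 3 * p = p * p ^ 3 := mul_comm _ _
    omega
  have h4 : φ.ker.map H.subtype ≤ Cfsg.omegaOne p (⊤ : Subgroup R) := by
    rintro _ ⟨x, hx, rfl⟩
    apply Subgroup.subset_closure
    refine ⟨Subgroup.mem_top _, ?_⟩
    exact congrArg Subtype.val (MonoidHom.mem_ker.mp hx)
  have h5 := Subgroup.card_le_of_le h4
  rw [Subgroup.card_map_of_injective H.subtype_injective] at h5
  have h6 : p ^ 2 < p ^ 3 := Nat.pow_lt_pow_right hp.out.one_lt (by norm_num)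
  omega

theorem quotient {p : ℕ} [hp : Fact p.Prime] (hp3 : 3 < p) : ∀ (n : ℕ) (R : Type u) [Group R] [Finite R],
    Nat.card R ≤ n → IsPGroup p R → Nat.card ↥(Cfsg.omegaOne p (⊤ : Subgroup R)) ≤ p ^ 2 →
    ∀ (T : Subgroup R) [T.Normal], Nat.card ↥(Cfsg.omegaOne p (⊤ : Subgroup (R ⧸ T))) ≤ p ^ 2 := by
  intro n
  induction n with
  | zero =>
    intro R _ _ hn
    have : 0 < Nat.card R := Nat.card_pos
    omega
  | succ n ih =>
  intro R _ _ hn hR hO T _
  by_cases hT : T = ⊥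
  · subst hT
    rw [omegaOne_card_equiv p (QuotientGroup.quotientBot (G := R))]
    exact hO
  · obtain ⟨k, hk⟩ := IsPGroup.iff_card.mp (hR.to_subgroup T)
    have hk0 : k ≠ 0 := by
      rintro rfl
      rw [pow_zero] at hk
      exact hT (Subgroup.card_eq_one.mp hk)
    obtain ⟨S, hS, hST, hSc⟩ := exists_normal_card_eq hp.out _ R rfl hR T 1 (by
      rw [hk]; exact pow_dvd_pow p (Nat.one_le_iff_ne_zero.mpr hk0))
    rw [pow_one] at hSc
    have h1 := quotient_step hp3 hR hO S hSc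
    have hlt : Nat.card (R ⧸ S) ≤ n := by
      have h2 := card_quotient_mul_card S
      rw [hSc] at h2
      have h3 : 0 < Nat.card (R ⧸ S) := Nat.card_pos
      have h4 := hp.out.two_le
      nlinarith
    have h2 := ih (R ⧸ S) hlt (hR.to_quotient S) h1 (T.map (QuotientGroup.mk' S))
    rwa [omegaOne_card_equiv p (QuotientGroup.quotientQuotientEquivQuotient S T hST)] at h2

/-- quotients by cyclic normal subgroups outside the Frattini subgroup -/
theorem quot_cyclic {R : Type*} [Group R] [Finite R] {p : ℕ} [hp : Fact p.Prime] (hR : IsPGroup p R)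
    (M : Subgroup R) [M.Normal] (hMF : M ≤ frattini R) (hM : Nat.card (R ⧸ M) ≤ p ^ 2) {x : R} (hx : x ∉ M)
    [hN : (Subgroup.zpowers x).Normal] : IsCyclic (R ⧸ Subgroup.zpowers x) := by
  set L := M ⊔ Subgroup.zpowers x with hL
  haveI hLn : L.Normal := by rw [hL]; exact Subgroup.sup_normal _ _
  have h1 : IsCyclic (R ⧸ L) := by
    have e1 : Nat.card (R ⧸ L) * Nat.card L = Nat.card R := card_quotient_mul_card L
    have e2 : Nat.card (R ⧸ M) * Nat.card M = Nat.card R := card_quotient_mul_card M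
    obtain ⟨a, ha⟩ := IsPGroup.iff_card.mp (hR.to_quotient L)
    obtain ⟨b, hb⟩ := IsPGroup.iff_card.mp (hR.to_quotient M)
    obtain ⟨c, hc⟩ := IsPGroup.iff_card.mp (hR.to_subgroup L)
    obtain ⟨d, hd⟩ := IsPGroup.iff_card.mp (hR.to_subgroup M)
    have hML : M < L := lt_of_le_of_ne le_sup_left (by
      intro h
      exact hx (h ▸ (le_sup_right (a := M) (Subgroup.mem_zpowers x))))
    have e3 : Nat.card M < Nat.card L := by
      rcases Nat.lt_or_ge (Nat.card M) (Nat.card L) with h | h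
      · exact h
      · exact absurd (Subgroup.eq_of_le_of_card_ge hML.le h) hML.ne
    rw [hc, hd] at e3
    have e4 := (Nat.pow_lt_pow_iff_right hp.out.one_lt).mp e3
    rw [hb] at hM
    have e5 := (Nat.pow_le_pow_iff_right hp.out.one_lt).mp hM
    have e6 : a + c = b + d := by
      apply Nat.pow_right_injective hp.out.two_le
      show p ^ (a + c) = p ^ (b + d)
      rw [pow_add, pow_add, ← ha, ← hb, ← hc, ← hd, e1, e2]
    have e7 : a ≤ 1 := by omega
    interval_cases a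
    · have : Subsingleton (R ⧸ L) := (Nat.card_eq_one_iff_unique.mp (by simpa using ha)).1
      infer_instance
    · exact isCyclic_of_prime_card (p := p) (by simpa using ha)
  obtain ⟨⟨g⟩, hg⟩ := h1
  have h2 : (Subgroup.zpowers g ⊔ Subgroup.zpowers x) ⊔ frattini R = ⊤ := by
    rw [eq_top_iff]
    intro y _
    obtain ⟨k, hk⟩ := hg (y : R ⧸ L)
    have hk' : ((g ^ k : R) : R ⧸ L) = y := hk
    have h3 : (g ^ k)⁻¹ * y ∈ L := QuotientGroup.eq.mp hk'
    have h4 : L ≤ (Subgroup.zpowers g ⊔ Subgroup.zpowers x) ⊔ frattini R :=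
      sup_le (hMF.trans le_sup_right) (le_sup_right.trans le_sup_left)
    have h5 : g ^ k ∈ (Subgroup.zpowers g ⊔ Subgroup.zpowers x) ⊔ frattini R :=
      (le_sup_left.trans le_sup_left : Subgroup.zpowers g ≤ _) ⟨k, rfl⟩
    have := mul_mem h5 (h4 h3)
    rwa [mul_inv_cancel_left] at this
  have h3 := frattini_nongenerating h2
  refine ⟨(g : R ⧸ Subgroup.zpowers x), ?_⟩
  rintro ⟨y⟩
  have hy : y ∈ Subgroup.zpowers g ⊔ Subgroup.zpowers x := by rw [h3]; exact Subgroup.mem_top _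
  rw [Subgroup.mem_sup_of_normal_right] at hy
  obtain ⟨_, ⟨k, rfl⟩, z, hz, rfl⟩ := hy
  refine ⟨k, ?_⟩
  show ((g ^ k : R) : R ⧸ Subgroup.zpowers x) = ((g ^ k * z : R) : R ⧸ Subgroup.zpowers x)
  rw [QuotientGroup.mk_mul, (QuotientGroup.eq_one_iff z).mpr hz, mul_one]

end CfsgLib.H2Rk3
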