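import Cfsg.Agent.EqBase
import Cfsg.Agent.LibH2Rk3
set_option autoImplicit false
set_option maxHeartbeats 400000
namespace CfsgLib.H2Rk4
open CfsgLib.SolvBasic CfsgLib.SolvMin CfsgLib.SolvCoprime
  CfsgLib.SolvNilp CfsgLib.SolvHall CfsgLib.SolvProd CfsgLib.SolvCrit CfsgLib.PCyc CfsgLib.H2Rk CfsgLib.H2Rk2 CfsgLib.H2Rk3
open CfsgLib.SolvFrat (pow_mem_frattini commutator_le_frattini)
open scoped commutatorElement

universe u

theorem card_quot_le {R : Type u} [Group R] [Finite R] {p : ℕ} [hp : Fact p.Prime] (hp3 : 3 < p) (hR : IsPGroup p R)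
    (hO : Nat.card ↥(Cfsg.omegaOne p (⊤ : Subgroup R)) ≤ p ^ 2) (M : Subgroup R) [M.Normal] (hM : ∀ x : R, x ^ p ∈ M) :
    Nat.card (R ⧸ M) ≤ p ^ 2 := by
  have h1 := quotient hp3 _ R le_rfl hR hO M
  have h2 : Cfsg.omegaOne p (⊤ : Subgroup (R ⧸ M)) = ⊤ := by
    rw [eq_top_iff]
    rintro ⟨x⟩ _
    apply Subgroup.subset_closure
    refine ⟨Subgroup.mem_top _, ?_⟩
    show ((x : R) : R ⧸ M) ^ p = 1
    rw [← QuotientGroup.mk_pow, QuotientGroup.eq_one_iff]
    exact hM x
  rwa [h2, Subgroup.card_top] at h1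

theorem frattini_ne_top {R : Type*} [Group R] [Finite R] [Nontrivial R] : frattini R ≠ ⊤ := by
  intro h
  have := frattini_nongenerating (G := R) (K := ⊥) (by rw [h]; exact sup_top_eq _)
  exact bot_ne_top this

theorem metacyclic_of_comm {R : Type u} [Group R] [Finite R] {p : ℕ} [hp : Fact p.Prime] (hp3 : 3 < p)
    (hR : IsPGroup p R) (hO : Nat.card ↥(Cfsg.omegaOne p (⊤ : Subgroup R)) ≤ p ^ 2)
    (hc : ∀ x y : R, x * y = y * x) : Cfsg.IsMetacyclic R := by
  rcases subsingleton_or_nontrivial R with hs | hnt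
  · exact ⟨⊥, inferInstance, inferInstance, inferInstance⟩
  let φ : R →* R :=
    { toFun := fun x => x ^ p
      map_one' := one_pow p
      map_mul' := fun x y => (show Commute x y from hc x y).mul_pow p }
  have hnorm : ∀ X : Subgroup R, X.Normal := fun X => ⟨fun n hn g => by rw [hc g n]; simpa using hn⟩
  haveI := hnorm φ.range
  have hF : φ.range ≤ frattini R := by
    rintro _ ⟨x, rfl⟩
    exact pow_mem_frattini hp.out hR x
  have h1 := card_quot_le hp3 hR hO φ.range (fun x => ⟨x, rfl⟩)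
  have h2 : φ.range ≠ ⊤ := by
    intro h
    rw [h, top_le_iff] at hF
    exact frattini_ne_top hF
  obtain ⟨x, hx⟩ : ∃ x, x ∉ φ.range := by
    by_contra hcon
    push Not at hcon
    exact h2 (eq_top_iff.mpr fun x _ => hcon x)
  haveI := hnorm (Subgroup.zpowers x)
  exact ⟨Subgroup.zpowers x, inferInstance, inferInstance, quot_cyclic hR φ.range hF h1 hx⟩

theorem orderOf_mul_p {R : Type*} [Group R] [Finite R] {p : ℕ} [hp : Fact p.Prime] (hR : IsPGroup p R) {g : R}
    (hg : g ≠ 1) : orderOf (g ^ p) * p = orderOf g := by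
  obtain ⟨k, hk⟩ := IsPGroup.iff_orderOf.mp hR g
  have hk0 : k ≠ 0 := by
    rintro rfl
    rw [pow_zero, orderOf_eq_one_iff] at hk
    exact hg hk
  have h1 : p ∣ orderOf g := by rw [hk]; exact dvd_pow_self p hk0
  rw [orderOf_pow_of_dvd hp.out.ne_zero h1, Nat.div_mul_cancel h1]

/-- case where the derived group has order `p` -/
theorem metacyclic_of_T {R : Type u} [Group R] [Finite R] {p : ℕ} [hp : Fact p.Prime] (hp3 : 3 < p)
    (hR : IsPGroup p R) (hO : Nat.card ↥(Cfsg.omegaOne p (⊤ : Subgroup R)) ≤ p ^ 2)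
    (hc : ¬ ∀ x y : R, x * y = y * x) (T : Subgroup R) [T.Normal] (hTc : Nat.card T = p)
    (hT : commutator R ≤ T) : Cfsg.IsMetacyclic R := by
  have hTZ := le_center_of_card_eq hp.out hR T hTc
  have hTe : ∀ t ∈ T, t ^ p = 1 := by
    intro t ht
    have : (⟨t, ht⟩ : T) ^ p = 1 := by rw [← hTc]; exact pow_card_eq_one'
    exact congrArg Subtype.val this
  have hcm : ∀ x y : R, x * y * x⁻¹ * y⁻¹ ∈ T := fun x y => by
    have := hT (Subgroup.commutator_mem_commutator (Subgroup.mem_top x) (Subgroup.mem_top y))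
    rwa [commutatorElement_def] at this
  let φ : R →* R :=
    { toFun := fun x => x ^ p
      map_one' := one_pow p
      map_mul' := fun x y => mul_pow_of_central hp.out (by omega) (fun a b => hTZ (hcm a b))
        (fun a b => hTe _ (hcm a b)) x y }
  have hMn : (φ.range ⊔ T).Normal := by
    refine ⟨fun n hn g => ?_⟩
    have h1 : g * n * g⁻¹ * n⁻¹ ∈ φ.range ⊔ T := (le_sup_right : T ≤ _) (hcm g n)
    have := mul_mem h1 hn
    rwa [inv_mul_cancel_right] at this
  have hTF : T ≤ frattini R := by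
    -- `T ≤ commutator R` as `R` is not abelian
    have h1 : commutator R ≠ ⊥ := by
      intro h
      apply hc
      intro x y
      have h2 := Subgroup.commutator_mem_commutator (Subgroup.mem_top x) (Subgroup.mem_top y)
      have h3 : ⁅x, y⁆ ∈ commutator R := h2
      rw [h, Subgroup.mem_bot, commutatorElement_eq_one_iff_mul_comm] at h3
      exact h3
    have h2 : commutator R = T := by
      apply Subgroup.eq_of_le_of_card_ge hT
      have h3 := Subgroup.card_dvd_of_le hT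
      rw [hTc] at h3
      rcases (Nat.dvd_prime hp.out).mp h3 with h4 | h4
      · exact absurd (Subgroup.card_eq_one.mp h4) h1
      · rw [hTc, h4]
    rw [← h2]
    exact commutator_le_frattini hp.out hR
  have hF : φ.range ⊔ T ≤ frattini R := by
    refine sup_le ?_ hTF
    rintro _ ⟨x, rfl⟩
    exact pow_mem_frattini hp.out hR x
  have hMc := card_quot_le hp3 hR hO (φ.range ⊔ T) (fun x => (le_sup_left : φ.range ≤ _) ⟨x, rfl⟩)
  -- an element with `x ^ p ∈ T`, `x ^ p ≠ 1`
  obtain ⟨x₁, hx₁T, hx₁⟩ : ∃ x : R, x ^ p ∈ T ∧ x ^ p ≠ 1 := by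
    by_contra hcon
    push Not at hcon
    have hnc : ¬ IsCyclic (R ⧸ T) := by
      intro h
      apply hc
      have := commutative_of_cyclic_center_quotient (QuotientGroup.mk' T) (by
        rw [QuotientGroup.ker_mk']; exact hTZ)
      exact this
    obtain ⟨A, -, -, hAe, hAc⟩ := exists_normal_elem hp.out (by omega) (hR.to_quotient T) hnc
    have h1 : A.comap (QuotientGroup.mk' T) ≤ Cfsg.omegaOne p (⊤ : Subgroup R) := by
      intro x hx
      apply Subgroup.subset_closure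
      refine ⟨Subgroup.mem_top _, hcon x ?_⟩
      have := hAe _ hx
      rwa [← map_pow, QuotientGroup.mk'_apply, QuotientGroup.eq_one_iff] at this
    have h2 := Subgroup.card_le_of_le h1
    rw [card_comap_mk', hAc, hTc] at h2
    have h3 : p ^ 2 * 1 < p ^ 2 * p := Nat.mul_lt_mul_of_pos_left hp.out.one_lt (by positivity)
    omega
  have hx₁S : T ≤ Subgroup.zpowers (x₁ ^ p) := by
    have h1 : Subgroup.zpowers (x₁ ^ p) ≤ T := Subgroup.zpowers_le.mpr hx₁T
    have h2 : Subgroup.zpowers (x₁ ^ p) = T := by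
      apply Subgroup.eq_of_le_of_card_ge h1
      have h3 := Subgroup.card_dvd_of_le h1
      rw [hTc] at h3
      rcases (Nat.dvd_prime hp.out).mp h3 with h4 | h4
      · exact absurd (Subgroup.zpowers_eq_bot.mp (Subgroup.card_eq_one.mp h4)) hx₁
      · rw [hTc, h4]
    exact h2.ge
  obtain ⟨x, hxT, hxmax⟩ := Set.Finite.exists_maximalFor (fun x : R => orderOf x)
    {x : R | T ≤ Subgroup.zpowers (x ^ p)} (Set.toFinite _) ⟨x₁, hx₁S⟩
  have hxT' : T ≤ Subgroup.zpowers (x ^ p) := hxT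
  have hT1 : T ≠ ⊥ := by
    rintro rfl
    rw [Subgroup.card_bot] at hTc
    exact hp.out.one_lt.ne hTc
  have hxp : x ^ p ≠ 1 := by
    intro h
    rw [h, Subgroup.zpowers_one_eq_bot, le_bot_iff] at hxT'
    exact hT1 hxT'
  have hxM : x ∉ φ.range ⊔ T := by
    intro hx
    rw [Subgroup.mem_sup_of_normal_right] at hx
    obtain ⟨_, ⟨w, rfl⟩, t, ht, hwt⟩ := hx
    have hwt' : w ^ p * t = x := hwt
    have h1 : x ^ p = (w ^ p) ^ p := by
      have h2 := φ.map_mul (w ^ p) t
      have h3 : (w ^ p * t) ^ p = (w ^ p) ^ p * t ^ p := h2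
      rw [hwt', hTe t ht, mul_one] at h3
      exact h3
    have h2 : T ≤ Subgroup.zpowers (w ^ p) := by
      rw [h1] at hxT'
      exact hxT'.trans (Subgroup.zpowers_le.mpr (Subgroup.npow_mem_zpowers _ _))
    have h3 : w ^ p ≠ 1 := by
      intro h
      rw [h1, h, one_pow] at hxp
      exact hxp rfl
    have h4 : w ≠ 1 := by rintro rfl; exact h3 (one_pow p)
    have h5 : x ≠ 1 := by rintro rfl; exact hxp (one_pow p)
    have h6 := orderOf_mul_p hR h4
    have h7 := orderOf_mul_p hR h3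
    have h8 := orderOf_mul_p hR h5
    rw [← h1, h8] at h7
    rw [← h7] at h6
    have h9 := hxmax (j := w) h2
    have h10 : 0 < orderOf x := orderOf_pos x
    have h11 : orderOf x < orderOf w := by rw [← h6]; nlinarith [hp.out.two_le]
    exact absurd (h9 h11.le) (not_le.mpr h11)
  have hTx : T ≤ Subgroup.zpowers x := hxT'.trans (Subgroup.zpowers_le.mpr (Subgroup.npow_mem_zpowers _ _))
  haveI hNn : (Subgroup.zpowers x).Normal := by
    refine ⟨fun n hn g => ?_⟩
    have h1 : g * n * g⁻¹ * n⁻¹ ∈ Subgroup.zpowers x := hTx (hcm g n)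
    have := mul_mem h1 hn
    rwa [inv_mul_cancel_right] at this
  exact ⟨Subgroup.zpowers x, hNn, inferInstance, quot_cyclic hR (φ.range ⊔ T) hF hMc hxM⟩

/-- Huppert's criterion. -/
theorem huppert {p : ℕ} [hp : Fact p.Prime] (hp3 : 3 < p) : ∀ (n : ℕ) (R : Type u) [Group R] [Finite R],
    Nat.card R ≤ n → IsPGroup p R → Nat.card ↥(Cfsg.omegaOne p (⊤ : Subgroup R)) ≤ p ^ 2 →
    Cfsg.IsMetacyclic R := by
  intro n
  induction n with
  | zero =>
    intro R _ _ hn
    have : 0 < Nat.card R := Nat.card_pos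
    omega
  | succ n ih =>
  intro R _ _ hn hR hO
  by_cases hc : ∀ x y : R, x * y = y * x
  · exact metacyclic_of_comm hp3 hR hO hc
  have hR' : commutator R ≠ ⊥ := by
    intro h
    apply hc
    intro x y
    have h2 := Subgroup.commutator_mem_commutator (Subgroup.mem_top x) (Subgroup.mem_top y)
    have h3 : ⁅x, y⁆ ∈ commutator R := h2
    rw [h, Subgroup.mem_bot, commutatorElement_eq_one_iff_mul_comm] at h3
    exact h3
  obtain ⟨k, hk⟩ := IsPGroup.iff_card.mp (hR.to_subgroup (commutator R))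
  have hk0 : k ≠ 0 := by
    rintro rfl
    rw [pow_zero] at hk
    exact hR' (Subgroup.card_eq_one.mp hk)
  obtain ⟨T, hT, hTR, hTc⟩ := exists_normal_card_eq hp.out _ R rfl hR (commutator R) 1 (by
    rw [hk]; exact pow_dvd_pow p (Nat.one_le_iff_ne_zero.mpr hk0))
  rw [pow_one] at hTc
  have hTZ := le_center_of_card_eq hp.out hR T hTc
  have hlt : Nat.card (R ⧸ T) ≤ n := by
    have h2 := card_quotient_mul_card T
    rw [hTc] at h2
    have h3 : 0 < Nat.card (R ⧸ T) := Nat.card_pos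
    have h4 := hp.out.two_le
    nlinarith
  obtain ⟨K', hK'n, hK'c, hQ'⟩ := ih (R ⧸ T) hlt (hR.to_quotient T) (quotient hp3 _ R le_rfl hR hO T)
  set K := K'.comap (QuotientGroup.mk' T) with hK
  haveI hKn : K.Normal := hK'n.comap _
  have hKm : K.map (QuotientGroup.mk' T) = K' :=
    Subgroup.map_comap_eq_self_of_surjective (QuotientGroup.mk'_surjective T) K'
  have hTK : T ≤ K := by
    intro t ht
    rw [hK, Subgroup.mem_comap, QuotientGroup.mk'_apply, (QuotientGroup.eq_one_iff t).mpr ht]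
    exact one_mem _
  have hQ : IsCyclic (R ⧸ K) := by
    have e := QuotientGroup.quotientQuotientEquivQuotient T K hTK
    haveI : IsCyclic ((R ⧸ T) ⧸ K.map (QuotientGroup.mk' T)) := by
      have e2 : ((R ⧸ T) ⧸ K.map (QuotientGroup.mk' T)) ≃* (R ⧸ T) ⧸ K' :=
        QuotientGroup.quotientMulEquivOfEq hKm
      exact (MulEquiv.isCyclic e2).mpr hQ'
    exact (MulEquiv.isCyclic e).mp this
  by_cases hKc : IsCyclic K
  · exact ⟨K, hKn, hKc, hQ⟩
  obtain ⟨⟨a', ha'⟩, hgen⟩ := hK'c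
  obtain ⟨a, rfl⟩ := QuotientGroup.mk'_surjective T a'
  have haK : a ∈ K := ha'
  have hKgen : ∀ k ∈ K, ∃ i : ℤ, ∃ t ∈ T, k = a ^ i * t := by
    intro k hk
    obtain ⟨i, hi⟩ := hgen ⟨QuotientGroup.mk' T k, hk⟩
    have hi' : (QuotientGroup.mk' T a) ^ i = QuotientGroup.mk' T k := congrArg Subtype.val hi
    rw [← map_zpow, QuotientGroup.mk'_apply, QuotientGroup.mk'_apply, QuotientGroup.eq] at hi'
    exact ⟨i, (a ^ i)⁻¹ * k, hi', by group⟩
  have hcenT : ∀ t ∈ T, ∀ z : R, t * z = z * t := fun t ht z => (Subgroup.mem_center_iff.mp (hTZ ht) z).symm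
  have hKcomm : ∀ k ∈ K, ∀ l ∈ K, k * l = l * k := by
    intro k hk l hl
    obtain ⟨i, t, ht, rfl⟩ := hKgen k hk
    obtain ⟨j, s, hs, rfl⟩ := hKgen l hl
    calc a ^ i * t * (a ^ j * s) = a ^ i * (t * (a ^ j * s)) := by group
      _ = a ^ i * a ^ j * s * t := by rw [hcenT t ht]; group
      _ = a ^ j * a ^ i * (s * t) := by rw [← zpow_add, add_comm, zpow_add]; group
      _ = a ^ j * (a ^ i * s) * t := by group
      _ = a ^ j * (s * a ^ i) * t := by rw [hcenT s hs (a ^ i)]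
      _ = a ^ j * s * (a ^ i * t) := by group
  have hTa : ¬ T ≤ Subgroup.zpowers a := by
    intro h
    apply hKc
    have h1 : K ≤ Subgroup.zpowers a := by
      intro k hk
      obtain ⟨i, t, ht, rfl⟩ := hKgen k hk
      exact mul_mem ⟨i, rfl⟩ (h ht)
    have h2 : K = Subgroup.zpowers a := le_antisymm h1 (Subgroup.zpowers_le.mpr haK)
    rw [h2]; infer_instance
  obtain ⟨⟨b⟩, hb⟩ := hQ
  have hbgen : ∀ r : R, ∃ j : ℤ, ∃ k ∈ K, r = b ^ j * k := by
    intro r
    obtain ⟨j, hj⟩ := hb (r : R ⧸ K)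
    have hj' : ((b ^ j : R) : R ⧸ K) = r := hj
    exact ⟨j, (b ^ j)⁻¹ * r, QuotientGroup.eq.mp hj', by group⟩
  -- the map `θ`
  let θ : K →* R :=
    { toFun := fun k => (k : R)⁻¹ * b⁻¹ * k * b
      map_one' := by simp
      map_mul' := by
        rintro ⟨k, hk⟩ ⟨l, hl⟩
        show (k * l)⁻¹ * b⁻¹ * (k * l) * b = k⁻¹ * b⁻¹ * k * b * (l⁻¹ * b⁻¹ * l * b)
        have h1 : b⁻¹ * k * b ∈ K := by simpa using hKn.conj_mem k hk b⁻¹
        have h2 : k⁻¹ * (b⁻¹ * k * b) ∈ K := mul_mem (inv_mem hk) h1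
        calc (k * l)⁻¹ * b⁻¹ * (k * l) * b = l⁻¹ * (k⁻¹ * (b⁻¹ * k * b)) * (b⁻¹ * l * b) := by group
          _ = (k⁻¹ * (b⁻¹ * k * b)) * l⁻¹ * (b⁻¹ * l * b) := by rw [hKcomm _ (inv_mem hl) _ h2]
          _ = _ := by group }
  have hθK : θ.range ≤ K := by
    rintro _ ⟨⟨k, hk⟩, rfl⟩
    show k⁻¹ * b⁻¹ * k * b ∈ K
    have h1 : b⁻¹ * k * b ∈ K := by simpa using hKn.conj_mem k hk b⁻¹
    have := mul_mem (inv_mem hk) h1
    simpa [mul_assoc] using this
  have hθn : ∀ r : R, ∀ d ∈ θ.range, r⁻¹ * d * r ∈ θ.range := by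
    have h1 : ∀ k ∈ K, ∀ d ∈ θ.range, k⁻¹ * d * k ∈ θ.range := by
      intro k hk d hd
      rw [mul_assoc, hKcomm d (hθK hd) k hk, inv_mul_cancel_left]; exact hd
    have h2 : ∀ d ∈ θ.range, b⁻¹ * d * b ∈ θ.range := by
      rintro _ ⟨⟨k, hk⟩, rfl⟩
      refine ⟨⟨b⁻¹ * k * b, by simpa using hKn.conj_mem k hk b⁻¹⟩, ?_⟩
      show (b⁻¹ * k * b)⁻¹ * b⁻¹ * (b⁻¹ * k * b) * b = b⁻¹ * (k⁻¹ * b⁻¹ * k * b) * b
      group
    have h3 : b ∈ Subgroup.normalizer (θ.range : Set R) := by
      have h4 : b⁻¹ ∈ Subgroup.normalizer (θ.range : Set R) := by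
        apply Subgroup.mem_normalizer_fintype
        intro d hd
        simpa using h2 d hd
      simpa using inv_mem h4
    intro r d hd
    obtain ⟨j, k, hk, rfl⟩ := hbgen r
    have h4 : (b ^ j)⁻¹ * d * b ^ j ∈ θ.range := by
      have h5 := (Subgroup.mem_normalizer_iff.mp (inv_mem (zpow_mem h3 j)) d).mp hd
      simpa using h5
    have h5 := h1 k hk _ h4
    have e : (b ^ j * k)⁻¹ * d * (b ^ j * k) = k⁻¹ * ((b ^ j)⁻¹ * d * b ^ j) * k := by group
    rw [e]; exact h5
  haveI hθN : θ.range.Normal := ⟨fun d hd g => by simpa using hθn g⁻¹ d hd⟩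
  have hcomm' : commutator R ≤ θ.range := by
    have hbk : ∀ k ∈ K, ((k : R) : R ⧸ θ.range) * (b : R) = (b : R) * (k : R) := by
      intro k hk
      have h1 : k⁻¹ * b⁻¹ * k * b ∈ θ.range := ⟨⟨k, hk⟩, rfl⟩
      rw [← QuotientGroup.mk_mul, ← QuotientGroup.mk_mul, eq_comm, QuotientGroup.eq]
      simpa [mul_assoc] using h1
    have hall : ∀ r s : R, ((r : R) : R ⧸ θ.range) * (s : R) = (s : R) * (r : R) := by
      intro r s
      obtain ⟨i, k, hk, rfl⟩ := hbgen r
      obtain ⟨j, l, hl, rfl⟩ := hbgen s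
      have c1 : Commute ((k : R) : R ⧸ θ.range) (b : R) := hbk k hk
      have c2 : Commute ((l : R) : R ⧸ θ.range) (b : R) := hbk l hl
      have c3 : Commute ((k : R) : R ⧸ θ.range) (l : R) := by
        show ((k : R) : R ⧸ θ.range) * (l : R) = (l : R) * (k : R)
        rw [← QuotientGroup.mk_mul, hKcomm k hk l hl, QuotientGroup.mk_mul]
      have c4 : Commute (((b : R) : R ⧸ θ.range) ^ i) (((b : R) : R ⧸ θ.range) ^ j) :=
        (Commute.refl _).zpow_zpow i j
      simp only [QuotientGroup.mk_mul, QuotientGroup.mk_zpow]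
      exact ((c4.mul_right (c2.symm.zpow_left i)).mul_left ((c1.zpow_right j).mul_right c3)).eq
    rw [commutator_def, Subgroup.commutator_le]
    intro r _ s _
    rw [← QuotientGroup.eq_one_iff, commutatorElement_def]
    simp only [QuotientGroup.mk_mul, QuotientGroup.mk_inv]
    rw [hall r s]; group
  -- `θ.range = ⟨d⟩`
  set d := θ ⟨a, haK⟩ with hd
  have hdgen : ∀ z ∈ θ.range, ∃ i : ℤ, z = d ^ i := by
    rintro _ ⟨⟨k, hk⟩, rfl⟩
    obtain ⟨i, t, ht, rfl⟩ := hKgen k hk
    refine ⟨i, ?_⟩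
    have h1 : (⟨a ^ i * t, hk⟩ : K) = (⟨a, haK⟩ : K) ^ i * ⟨t, hTK ht⟩ := Subtype.ext (by simp)
    have h2 : θ ⟨t, hTK ht⟩ = 1 := by
      show t⁻¹ * b⁻¹ * t * b = 1
      rw [mul_assoc, hcenT t ht b]; group
    rw [h1, map_mul, map_zpow, h2, mul_one]
  have hdK : d ∈ K := hθK ⟨_, rfl⟩
  have hTd : T ≤ Subgroup.zpowers d := by
    intro t ht
    obtain ⟨i, hi⟩ := hdgen t (hcomm' (hTR ht))
    exact ⟨i, hi.symm⟩
  have hTe : ∀ t ∈ T, t ^ p = 1 := by
    intro t ht
    have : (⟨t, ht⟩ : T) ^ p = 1 := by rw [← hTc]; exact pow_card_eq_one'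
    exact congrArg Subtype.val this
  have hdp : d ^ p = 1 := by
    by_contra hne
    apply hTa
    obtain ⟨j, s, hs, hds⟩ := hKgen d hdK
    have h1 : d ^ p = (a ^ j) ^ p := by
      rw [hds, (show Commute (a ^ j) s from (hcenT s hs (a ^ j)).symm).mul_pow, hTe s hs, mul_one]
    have h2 : d ^ p ∈ Subgroup.zpowers a := by
      rw [h1]; exact pow_mem (zpow_mem (Subgroup.mem_zpowers a) j) p
    -- `T ≤ ⟨d ^ p⟩`
    have h3 : T ≤ Subgroup.zpowers (d ^ p) := by
      -- unique subgroup of order p in the cyclic group ⟨d⟩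
      obtain ⟨m, hm⟩ := IsPGroup.iff_orderOf.mp hR (d ^ p)
      have hm0 : m ≠ 0 := by
        rintro rfl
        rw [pow_zero, orderOf_eq_one_iff] at hm
        exact hne hm
      set e := (d ^ p) ^ (p ^ (m - 1)) with he
      have heo : orderOf e = p := by
        rw [he, orderOf_pow_of_dvd (pow_ne_zero _ hp.out.ne_zero) (by rw [hm]; exact pow_dvd_pow p (by omega)), hm,
          Nat.pow_div (by omega) hp.out.pos]
        have : m - (m - 1) = 1 := by omega
        rw [this, pow_one]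
      have hez : Subgroup.zpowers e ≤ Subgroup.zpowers d :=
        Subgroup.zpowers_le.mpr (pow_mem (pow_mem (Subgroup.mem_zpowers d) _) _)
      have h4 : Nat.card (T ⊔ Subgroup.zpowers e : Subgroup R) ≤ p := by
        have hle : T ⊔ Subgroup.zpowers e ≤ Subgroup.zpowers d := sup_le hTd hez
        haveI : IsCyclic (T ⊔ Subgroup.zpowers e : Subgroup R) :=
          isCyclic_of_injective (Subgroup.inclusion hle) (Subgroup.inclusion_injective _)
        refine card_le_of_cyclic hp.out inferInstance ?_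
        rintro ⟨x, hx⟩
        apply Subtype.ext
        show x ^ p = 1
        rw [Subgroup.mem_sup_of_normal_left] at hx
        obtain ⟨t, ht, z, ⟨i, rfl⟩, rfl⟩ := hx
        show (t * e ^ i) ^ p = 1
        rw [(show Commute t (e ^ i) from hcenT t ht _).mul_pow, hTe t ht, one_mul, ← zpow_natCast, ← zpow_mul,
          mul_comm, zpow_mul, zpow_natCast, ← heo, pow_orderOf_eq_one, one_zpow]
      have h5 : T = T ⊔ Subgroup.zpowers e := by
        apply Subgroup.eq_of_le_of_card_ge le_sup_left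
        rw [hTc]; exact h4
      have h6 : Subgroup.zpowers e ≤ T := by rw [h5]; exact le_sup_right
      have h7 : Subgroup.zpowers e = T := by
        apply Subgroup.eq_of_le_of_card_ge h6
        rw [hTc, Nat.card_zpowers, heo]
      rw [← h7]
      exact Subgroup.zpowers_le.mpr (pow_mem (Subgroup.mem_zpowers _) _)
    exact h3.trans (Subgroup.zpowers_le.mpr h2)
  have hRT : commutator R ≤ T := by
    have h1 : Subgroup.zpowers d ≤ T := by
      have h2 : T = Subgroup.zpowers d := by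
        apply Subgroup.eq_of_le_of_card_ge hTd
        rw [hTc, Nat.card_zpowers]
        exact Nat.le_of_dvd hp.out.pos (orderOf_dvd_of_pow_eq_one hdp)
      exact h2.ge
    refine le_trans ?_ h1
    intro z hz
    obtain ⟨i, hi⟩ := hdgen z (hcomm' hz)
    exact ⟨i, hi.symm⟩
  exact metacyclic_of_T hp3 hR hO hc T hTc hRT

end CfsgLib.H2Rk4
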