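import Cfsg.Agent.EqBase
import Cfsg.Agent.LibH2Rk3
set_option autoImplicit false
set_option maxHeartbeats 400000
namespace CfsgLib.H2Rk5
open CfsgLib.SolvBasic CfsgLib.SolvMin CfsgLib.SolvCoprime
  CfsgLib.SolvNilp CfsgLib.SolvHall CfsgLib.SolvProd CfsgLib.SolvCrit CfsgLib.PCyc CfsgLib.H2Rk CfsgLib.H2Rk2 CfsgLib.H2Rk3
open scoped commutatorElement

universe u

/-- automorphisms of prime order `q ≠ p` of groups of order dividing `p ^ 2` -/
theorem dvd_of_aut {X : Type*} [Group X] [Finite X] {p : ℕ} [hp : Fact p.Prime] {j : ℕ} (hj : j ≤ 2)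
    (hX : Nat.card X = p ^ j) {q : ℕ} [hq : Fact q.Prime] (hqp : q ≠ p) (a : MulAut X) (haq : a ^ q = 1)
    (ha : a ≠ 1) : q ∣ p ^ 2 - 1 := by
  let F : Subgroup X :=
    { carrier := {x | a x = x}
      one_mem' := map_one a
      mul_mem' := by intro x y hx hy; show a (x * y) = x * y; rw [map_mul, hx, hy]
      inv_mem' := by intro x hx; show a x⁻¹ = x⁻¹; rw [map_inv, hx] }
  have hF : F ≠ ⊤ := by
    intro h
    apply ha
    ext x
    have : x ∈ F := by rw [h]; exact Subgroup.mem_top x
    exact this
  have ho : orderOf a = q := orderOf_eq_prime haq ha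
  have hPz : IsPGroup q (Subgroup.zpowers a) := IsPGroup.of_card (n := 1) (by rw [Nat.card_zpowers, ho, pow_one])
  have h1 := hPz.card_modEq_card_fixedPoints X
  have h2 : Nat.card (MulAction.fixedPoints (Subgroup.zpowers a) X) = Nat.card F := by
    apply Nat.card_congr
    refine Equiv.subtypeEquivRight ?_
    intro x
    constructor
    · intro hx
      exact hx ⟨a, Subgroup.mem_zpowers a⟩
    · rintro hx ⟨_, i, rfl⟩
      show (a ^ i) x = x
      have hx' : a x = x := hx
      have h3 : ∀ b : MulAut X, b x = x → b⁻¹ x = x := by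
        intro b hb
        conv_lhs => rw [← hb]
        exact b.symm_apply_apply x
      have h4 : ∀ n : ℕ, (a ^ n) x = x := by
        intro n
        induction n with
        | zero => rfl
        | succ n ih => rw [pow_succ', MulAut.mul_apply, ih, hx']
      obtain ⟨n, rfl | rfl⟩ := i.eq_nat_or_neg
      · rw [zpow_natCast]; exact h4 n
      · rw [zpow_neg, zpow_natCast]; exact h3 _ (h4 n)
  rw [h2, hX] at h1
  have hXp : IsPGroup p X := IsPGroup.of_card hX
  obtain ⟨i, hi⟩ := IsPGroup.iff_card.mp (hXp.to_subgroup F)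
  have hij : i < j := by
    have h3 : Nat.card F < Nat.card X := by
      rcases Nat.lt_or_ge (Nat.card F) (Nat.card X) with h | h
      · exact h
      · exact absurd (Subgroup.eq_top_of_le_card F h) hF
    rw [hi, hX] at h3
    exact (Nat.pow_lt_pow_iff_right hp.out.one_lt).mp h3
  rw [hi] at h1
  have h3 : q ∣ p ^ j - p ^ i := (Nat.modEq_iff_dvd' (Nat.pow_le_pow_right hp.out.pos hij.le)).mp h1.symm
  have h4 : p ^ j - p ^ i = p ^ i * (p ^ (j - i) - 1) := by
    rw [Nat.mul_sub, mul_one, ← pow_add]
    congr 2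
    omega
  rw [h4] at h3
  have h5 : q ∣ p ^ (j - i) - 1 := by
    rcases hq.out.dvd_mul.mp h3 with h | h
    · have := hq.out.dvd_of_dvd_pow h
      exact absurd ((Nat.prime_dvd_prime_iff_eq hq.out hp.out).mp this) hqp
    · exact h
  refine h5.trans ?_
  have h6 : 1 ≤ j - i := by omega
  have h7 : j - i ≤ 2 := by omega
  interval_cases h8 : j - i
  · rw [pow_one]
    have := Nat.sub_dvd_pow_sub_pow p 1 2
    rwa [one_pow] at this
  · exact dvd_rfl

theorem lt_of_dvd {p q : ℕ} (hp : p.Prime) (hp2 : p ≠ 2) (hq : q.Prime) (h : q ∣ p ^ 2 - 1) : q < p := by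
  have hp3 : 3 ≤ p := by
    rcases hp.two_le.lt_or_eq with h | h
    · exact h
    · exact absurd h.symm hp2
  have h1 : p ^ 2 - 1 = (p - 1) * (p + 1) := by
    obtain ⟨m, rfl⟩ : ∃ m, p = m + 1 := ⟨p - 1, by omega⟩
    have : (m + 1) ^ 2 = m * (m + 2) + 1 := by ring
    rw [this, Nat.add_sub_cancel, Nat.add_sub_cancel]
  rw [h1] at h
  rcases hq.dvd_mul.mp h with h | h
  · have := Nat.le_of_dvd (by omega) h
    omega
  · have h2 : Odd p := hp.odd_of_ne_two hp2
    obtain ⟨k, hk⟩ := h2
    have h3 : p + 1 = 2 * (k + 1) := by omega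
    rw [h3] at h
    rcases hq.dvd_mul.mp h with h | h
    · have := Nat.le_of_dvd (by omega) h
      omega
    · have := Nat.le_of_dvd (by omega) h
      omega

/-- restriction of an automorphism to a characteristic subgroup -/
theorem restrict_aut {G : Type*} [Group G] [Finite G] (H : Subgroup G) [hH : H.Characteristic] (a : MulAut G) :
    ∃ b : MulAut H, (∀ x : H, ((b x : H) : G) = a x) ∧ ∀ n : ℕ, a ^ n = 1 → b ^ n = 1 := by
  have h1 : H.map (a : G ≃* G).toMonoidHom = H := Subgroup.characteristic_iff_map_eq.mp hH a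
  let b : MulAut H := ((a : G ≃* G).subgroupMap H).trans (MulEquiv.subgroupCongr h1)
  have hb : ∀ x : H, ((b x : H) : G) = a x := fun x => rfl
  refine ⟨b, hb, ?_⟩
  intro n hn
  have h2 : ∀ (m : ℕ) (x : H), (((b ^ m) x : H) : G) = (a ^ m) x := by
    intro m
    induction m with
    | zero => intro x; rfl
    | succ m ih =>
      intro x
      rw [pow_succ', pow_succ', MulAut.mul_apply, MulAut.mul_apply, hb, ih]
  ext x
  rw [h2 n x, hn]; rfl

theorem aut_bound {R : Type*} [Group R] [Finite R] {p : ℕ} [hp : Fact p.Prime] (hp2 : p ≠ 2) (hR : IsPGroup p R)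
    (hrk : Cfsg.PRankLE p 2 R) (q : ℕ) (hq : q.Prime) (hqp : q ≠ p) (hdvd : q ∣ Nat.card (MulAut R)) :
    q ∣ p ^ 2 - 1 := by
  haveI : Fact q.Prime := ⟨hq⟩
  obtain ⟨a, ha⟩ := exists_prime_orderOf_dvd_card' q hdvd
  have haq : a ^ q = 1 := by rw [← ha]; exact pow_orderOf_eq_one a
  have ha1 : a ≠ 1 := by
    rintro rfl
    rw [orderOf_one] at ha
    exact hq.one_lt.ne ha
  have hcop : Nat.Coprime (orderOf a) p := by rw [ha]; exact (Nat.coprime_primes hq hp.out).mpr hqp
  obtain ⟨H, hH, -, hHZ, hC, hHp⟩ := exists_critical hp.out hR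
  -- class two of `H`
  have hHc : ∀ x y : H, x * y * x⁻¹ * y⁻¹ ∈ Subgroup.center H := by
    intro x y
    have h1 : ⁅(x : R), (y : R)⁆ ∈ H ⊓ Subgroup.centralizer (H : Set R) :=
      hHZ (Subgroup.commutator_mem_commutator x.2 (Subgroup.mem_top _))
    rw [Subgroup.mem_center_iff]
    intro z
    apply Subtype.ext
    have := Subgroup.mem_centralizer_iff.mp h1.2 z z.2
    rw [commutatorElement_def] at this
    exact this
  obtain ⟨b, hb, hbn⟩ := restrict_aut H a
  -- the subgroup `C`
  let C : Subgroup H :=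
    { carrier := {x | x ^ p = 1}
      one_mem' := one_pow p
      mul_mem' := fun hx hy => mul_pow_one_of_class_two hp.out hp2 hHc hx hy
      inv_mem' := by intro x hx; show x⁻¹ ^ p = 1; rw [inv_pow, hx, inv_one] }
  have hCmem : ∀ x : H, x ∈ C ↔ x ^ p = 1 := fun x => Iff.rfl
  haveI hCchar : C.Characteristic := by
    rw [Subgroup.characteristic_iff_le_comap]
    intro φ x hx
    rw [Subgroup.mem_comap, hCmem]
    show (φ x) ^ p = 1
    rw [← map_pow, (hCmem x).mp hx, map_one]
  obtain ⟨c, hc, hcn⟩ := restrict_aut C b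
  have hcq : c ^ q = 1 := hcn q (hbn q haq)
  have hc1 : c ≠ 1 := by
    intro h
    apply ha1
    apply aut_eq_one_of_fix hR H hC a hcop
    have hb1 : b = 1 := by
      apply aut_eq_one_of_fix_omega hp.out hp2 (hR.to_subgroup H) b
      · have h1 : orderOf b ∣ q := orderOf_dvd_of_pow_eq_one (hbn q haq)
        exact Nat.Coprime.coprime_dvd_left h1 ((Nat.coprime_primes hq hp.out).mpr hqp)
      · intro x hx
        have := hc ⟨x, hx⟩
        rw [h] at this
        exact this.symm
    intro x hx
    have := hb ⟨x, hx⟩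
    rw [hb1] at this
    exact this.symm
  have hCp : IsPGroup p C := (hR.to_subgroup H).to_subgroup C
  have hCe : ∀ x : C, x ^ p = 1 := fun x => Subtype.ext x.2
  have hrkC : ∀ A : Subgroup C, IsMulCommutative A → Nat.card A ≤ p ^ 2 := by
    intro A hA
    have hinj : Function.Injective (H.subtype.comp C.subtype) := H.subtype_injective.comp C.subtype_injective
    have h1 := hrk (A.map (H.subtype.comp C.subtype)) ?_ ?_
    · rwa [Subgroup.card_map_of_injective hinj] at h1
    · refine ⟨⟨?_⟩⟩
      rintro ⟨_, x, hx, rfl⟩ ⟨_, y, hy, rfl⟩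
      apply Subtype.ext
      show (H.subtype.comp C.subtype) x * (H.subtype.comp C.subtype) y =
        (H.subtype.comp C.subtype) y * (H.subtype.comp C.subtype) x
      rw [← map_mul, ← map_mul]
      congr 1
      exact congrArg Subtype.val (hA.is_comm.comm (⟨x, hx⟩ : A) ⟨y, hy⟩)
    · rintro _ ⟨x, hx, rfl⟩
      rw [← map_pow, hCe, map_one]
  have hCc : ∀ x y : C, x * y * x⁻¹ * y⁻¹ ∈ Subgroup.center C := by
    intro x y
    rw [Subgroup.mem_center_iff]
    intro z
    exact Subtype.ext (Subgroup.mem_center_iff.mp (hHc x y) z)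
  -- action on the centre
  obtain ⟨d, hd, hdn⟩ := restrict_aut (Subgroup.center C) c
  have hZcomm : IsMulCommutative (Subgroup.center C) := inferInstance
  obtain ⟨k, hk⟩ := IsPGroup.iff_card.mp (hCp.to_subgroup (Subgroup.center C))
  have hk2 : k ≤ 2 := by
    have := hrkC _ hZcomm
    rw [hk] at this
    exact (Nat.pow_le_pow_iff_right hp.out.one_lt).mp this
  by_cases hd1 : d ≠ 1
  · exact dvd_of_aut hk2 hk hqp d (hdn q hcq) hd1
  · push Not at hd1
    have hfix : ∀ z ∈ Subgroup.center C, c z = z := by
      intro z hz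
      have := hd ⟨z, hz⟩
      rw [hd1] at this
      exact this.symm
    -- a noncentral element
    obtain ⟨x, hx⟩ : ∃ x : C, x ∉ Subgroup.center C := by
      by_contra hcon
      push Not at hcon
      apply hc1
      ext x
      exact congrArg _ (congrArg Subtype.val (hfix x (hcon x)))
    set Z := Subgroup.center C with hZ
    haveI : Nontrivial C := ⟨x, 1, by rintro rfl; exact hx (one_mem _)⟩
    have hk1 : 1 ≤ k := by
      by_contra hlt
      have : k = 0 := by omega
      rw [this, pow_zero] at hk
      haveI := hCp.center_nontrivial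
      have h2 := Finite.one_lt_card (α := Subgroup.center C)
      rw [hk] at h2
      exact absurd h2 (lt_irrefl 1)
    -- strict growth of subgroups
    have grow : ∀ A B : Subgroup C, A < B → Nat.card A * p ≤ Nat.card B := by
      intro A B hAB
      obtain ⟨s, hs⟩ := IsPGroup.iff_card.mp (hCp.to_subgroup A)
      obtain ⟨t, ht⟩ := IsPGroup.iff_card.mp (hCp.to_subgroup B)
      have h1 : Nat.card A < Nat.card B := by
        rcases Nat.lt_or_ge (Nat.card A) (Nat.card B) with h | h
        · exact h
        · exact absurd (Subgroup.eq_of_le_of_card_ge hAB.le h) hAB.ne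
      rw [hs, ht] at h1 ⊢
      have h2 := (Nat.pow_lt_pow_iff_right hp.out.one_lt).mp h1
      rw [← pow_succ]
      exact Nat.pow_le_pow_right hp.out.pos h2
    have hCZ : Nat.card (C ⧸ Z) ≤ p ^ 2 := by
      by_contra hcon
      rw [not_le] at hcon
      -- the commutator map with `x`
      let φ : C →* C :=
        { toFun := fun y => y * x * y⁻¹ * x⁻¹
          map_one' := by group
          map_mul' := by
            intro y z
            have h1 := Subgroup.mem_center_iff.mp (hCc z x)
            calc y * z * x * (y * z)⁻¹ * x⁻¹ = y * (z * x * z⁻¹ * x⁻¹) * (x * y⁻¹ * x⁻¹) := by group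
              _ = (z * x * z⁻¹ * x⁻¹) * y * (x * y⁻¹ * x⁻¹) := by rw [h1 y]
              _ = (z * x * z⁻¹ * x⁻¹) * (y * x * y⁻¹ * x⁻¹) := by group
              _ = _ := (h1 _).symm }
      have hr : φ.range ≤ Z := by rintro _ ⟨y, rfl⟩; exact hCc y x
      have hker : ∀ y, y ∈ φ.ker ↔ y * x = x * y := by
        intro y
        rw [MonoidHom.mem_ker]
        show y * x * y⁻¹ * x⁻¹ = 1 ↔ _
        constructor
        · intro h
          have : y * x = (y * x * y⁻¹ * x⁻¹) * (x * y) := by group
          rw [h, one_mul] at this; exact this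
        · intro h; rw [h]; group
      set Y := Z ⊔ Subgroup.zpowers x with hY
      have hzc : ∀ z ∈ Z, ∀ y : C, z * y = y * z := fun z hz y => (Subgroup.mem_center_iff.mp hz y).symm
      have hYmem : ∀ w ∈ Y, ∃ z ∈ Z, ∃ i : ℤ, w = z * x ^ i := by
        intro w hw
        rw [hY, Subgroup.mem_sup_of_normal_left] at hw
        obtain ⟨z, hz, _, ⟨i, rfl⟩, rfl⟩ := hw
        exact ⟨z, hz, i, rfl⟩
      have hYc : Y ≤ Subgroup.centralizer (φ.ker : Set C) := by
        intro w hw
        obtain ⟨z, hz, i, rfl⟩ := hYmem w hw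
        rw [Subgroup.mem_centralizer_iff]
        intro y hy
        have h1 : Commute y (x ^ i) := (show Commute y x from (hker y).mp hy).zpow_right i
        have h2 : Commute y z := (hzc z hz y).symm
        exact (h2.mul_right h1).eq
      have hYker : Y ≤ φ.ker := by
        refine sup_le ?_ (Subgroup.zpowers_le.mpr ?_)
        · intro z hz; rw [hker]; exact hzc z hz x
        · rw [hker]
      have hYab : IsMulCommutative Y := by
        rw [← Subgroup.le_centralizer_iff_isMulCommutative]
        exact hYc.trans (Subgroup.centralizer_le (SetLike.coe_subset_coe.mpr hYker))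
      have hZY : Z < Y := lt_of_le_of_ne le_sup_left (by
        intro h; exact hx (h ▸ (le_sup_right (a := Z) (Subgroup.mem_zpowers x))))
      have h1 := grow Z Y hZY
      have h2 := hrkC Y hYab
      have h3 : Nat.card φ.range ≤ Nat.card Z := Subgroup.card_le_of_le hr
      have h4 : Nat.card (C ⧸ φ.ker) * Nat.card φ.ker = Nat.card C := card_quotient_mul_card _
      rw [Nat.card_congr (QuotientGroup.quotientKerEquivRange φ).toEquiv] at h4
      have h5 : Nat.card (C ⧸ Z) * Nat.card Z = Nat.card C := card_quotient_mul_card _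
      -- so `|ker| > p ^ 2`
      have h6 : p ^ 2 < Nat.card φ.ker := by
        by_contra hle
        rw [not_lt] at hle
        have h7 : Nat.card C ≤ Nat.card Z * p ^ 2 := by rw [← h4]; exact Nat.mul_le_mul h3 hle
        rw [← h5, mul_comm] at h7
        exact absurd (Nat.le_of_mul_le_mul_left h7 Nat.card_pos) (not_le.mpr hcon)
      have hlt : Y < φ.ker := lt_of_le_of_ne hYker (by intro h; rw [← h] at h6; omega)
      obtain ⟨y, hyk, hyY⟩ := SetLike.exists_of_lt hlt
      set W := Y ⊔ Subgroup.zpowers y with hW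
      have hyY' : ∀ w ∈ Y, w * y = y * w := fun w hw =>
        (Subgroup.mem_centralizer_iff.mp (hYc hw) y hyk).symm
      have hyW : Subgroup.zpowers y ≤ Subgroup.centralizer (Y : Set C) := by
        rw [Subgroup.zpowers_le, Subgroup.mem_centralizer_iff]
        exact fun w hw => hyY' w hw
      have hWab : IsMulCommutative W := by
        rw [← Subgroup.le_centralizer_iff_isMulCommutative]
        have hY1 : Y ≤ Subgroup.centralizer (Y : Set C) := Subgroup.le_centralizer_iff_isMulCommutative.mpr hYab
        have e1 : W ≤ Subgroup.centralizer (Y : Set C) := sup_le hY1 hyW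
        have e2 : W ≤ Subgroup.centralizer (Subgroup.zpowers y : Set C) := by
          refine sup_le ?_ ?_
          · exact Subgroup.le_centralizer_iff.mp hyW
          · exact Subgroup.le_centralizer_iff_isMulCommutative.mpr inferInstance
        rw [Subgroup.le_centralizer_iff]
        exact sup_le (Subgroup.le_centralizer_iff.mp e1) (Subgroup.le_centralizer_iff.mp e2)
      have hYW : Y < W := lt_of_le_of_ne le_sup_left (by
        intro h; exact hyY (h ▸ (le_sup_right (a := Y) (Subgroup.mem_zpowers y))))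
      have h7 := grow Y W hYW
      have h8 := hrkC W hWab
      have h9 : p ^ 1 ≤ Nat.card Z := by rw [hk]; exact Nat.pow_le_pow_right hp.out.pos hk1
      rw [pow_one] at h9
      have h10 : p * p * p ≤ p ^ 2 :=
        ((Nat.mul_le_mul_right p ((Nat.mul_le_mul_right p h9).trans h1)).trans h7).trans h8
      have h11 : p * p * p = p ^ 2 * p := by ring
      have h12 : 0 < p ^ 2 := pow_pos hp.out.pos 2
      have h13 := hp.out.one_lt
      nlinarith
    -- action on the quotient
    obtain ⟨m, hm⟩ := IsPGroup.iff_card.mp (hCp.to_quotient Z)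
    have hm2 : m ≤ 2 := by
      rw [hm] at hCZ
      exact (Nat.pow_le_pow_iff_right hp.out.one_lt).mp hCZ
    have hmapZ : Z.map (c : C ≃* C).toMonoidHom = Z :=
      Subgroup.characteristic_iff_map_eq.mp inferInstance c
    let e : MulAut (C ⧸ Z) := QuotientGroup.congr Z Z c hmapZ
    have he : ∀ y : C, e (y : C ⧸ Z) = ((c y : C) : C ⧸ Z) := fun y => rfl
    have hen : ∀ (n : ℕ) (y : C), (e ^ n) (y : C ⧸ Z) = (((c ^ n) y : C) : C ⧸ Z) := by
      intro n
      induction n with
      | zero => intro y; rfl
      | succ n ih => intro y; rw [pow_succ', pow_succ', MulAut.mul_apply, MulAut.mul_apply, ih, he]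
    refine dvd_of_aut hm2 hm hqp e ?_ ?_
    · ext y
      obtain ⟨y, rfl⟩ := QuotientGroup.mk_surjective y
      rw [hen, hcq]; rfl
    · intro he1
      apply hc1
      ext y
      refine congrArg _ (congrArg Subtype.val ?_)
      have hcc : Nat.Coprime (orderOf c) p := by
        have h1 : orderOf c ∣ q := orderOf_dvd_of_pow_eq_one hcq
        exact Nat.Coprime.coprime_dvd_left h1 ((Nat.coprime_primes hq hp.out).mpr hqp)
      apply aut_fix_of_stable hCp c hcc
      apply hfix
      have h1 := he y
      rw [he1, MulAut.one_apply, QuotientGroup.eq] at h1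
      exact h1

end CfsgLib.H2Rk5
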