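import Cfsg.Agent.EqBase
set_option autoImplicit false
namespace CfsgLib.H2Shin

variable {X : Type*} [Group X] (σ : MulAut X)

theorem mem_fix {τ : MulAut X} {x : X} : x ∈ (MulEquiv.toMonoidHom τ).eqLocus (MonoidHom.id X) ↔ τ x = x :=
  Iff.rfl

theorem prod_eq {g a : X} (ha : g = a * (σ a)⁻¹) (d : ℕ) :
    ((List.range d).map (fun i => (σ ^ i) g)).prod = a * ((σ ^ d) a)⁻¹ := by
  induction d with
  | zero => simp
  | succ d ih =>
    rw [List.range_succ, List.map_append, List.prod_append, ih]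
    simp only [List.map_cons, List.map_nil, List.prod_cons, List.prod_nil, mul_one]
    rw [ha, map_mul, map_inv, pow_succ, MulAut.mul_apply]
    group

theorem comm_apply (e : ℕ) (a : X) : (σ ^ e) (σ a) = σ ((σ ^ e) a) := by
  rw [← MulAut.mul_apply, ← MulAut.mul_apply, ← pow_succ, ← pow_succ']

theorem pow_fix {x : X} (hx : σ x = x) (e : ℕ) : (σ ^ e) x = x := by
  induction e with
  | zero => rfl
  | succ e ih => rw [pow_succ, MulAut.mul_apply, hx, ih]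

theorem fix_x {e : ℕ} {g a : X} (hg : (σ ^ e) g = g) (ha : g = a * (σ a)⁻¹) :
    σ (((σ ^ e) a)⁻¹ * a) = ((σ ^ e) a)⁻¹ * a := by
  rw [ha, map_mul, map_inv, comm_apply] at hg
  rw [map_mul, map_inv]
  have h1 : (σ ((σ ^ e) a))⁻¹ = ((σ ^ e) a)⁻¹ * (a * (σ a)⁻¹) := by
    rw [← hg]; group
  rw [h1]; group

theorem apply_eq {e : ℕ} (a : X) : (σ ^ e) a = a * (((σ ^ e) a)⁻¹ * a)⁻¹ := by group

theorem iter_apply {e : ℕ} {g a : X} (hg : (σ ^ e) g = g) (ha : g = a * (σ a)⁻¹) (d : ℕ) :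
    ((σ ^ e) ^ d) a = a * ((((σ ^ e) a)⁻¹ * a) ^ d)⁻¹ := by
  have hx := pow_fix σ (fix_x σ hg ha) e
  induction d with
  | zero => simp
  | succ d ih =>
    rw [pow_succ', MulAut.mul_apply, ih, map_mul, map_inv, map_pow, hx]
    conv_lhs => rw [apply_eq σ (e := e) a]
    rw [pow_succ, mul_assoc, ← mul_inv_rev]
    congr 2
    have h2 : ((σ ^ e) a)⁻¹ * (a * (((σ ^ e) a)⁻¹ * a)⁻¹) = 1 := by group
    group

theorem shin_iff {e : ℕ} {g g' a b k : X} (ha : g = a * (σ a)⁻¹) (hb : g' = b * (σ b)⁻¹) :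
    ((σ ^ e) k = k ∧ g' = k * g * (σ k)⁻¹) ↔
      (σ (b⁻¹ * k * a) = b⁻¹ * k * a ∧
        ((σ ^ e) b)⁻¹ * b = (b⁻¹ * k * a) * (((σ ^ e) a)⁻¹ * a) * (b⁻¹ * k * a)⁻¹) := by
  constructor
  · rintro ⟨hk, hg⟩
    have h1 : σ (b⁻¹ * k * a) = b⁻¹ * k * a := by
      rw [map_mul, map_mul, map_inv]
      rw [ha, hb] at hg
      have h2 : (σ b)⁻¹ = b⁻¹ * (k * (a * (σ a)⁻¹) * (σ k)⁻¹) := by rw [← hg]; group
      rw [h2]; group
    refine ⟨h1, ?_⟩
    have h3 := pow_fix σ h1 e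
    rw [map_mul, map_mul, map_inv, hk] at h3
    have h4 : ((σ ^ e) b)⁻¹ = b⁻¹ * k * a * ((σ ^ e) a)⁻¹ * k⁻¹ := by rw [← h3]; group
    rw [h4]; group
  · rintro ⟨h1, h2⟩
    have h3 := pow_fix σ h1 e
    constructor
    · rw [map_mul, map_mul, map_inv] at h3
      have h5 : (σ ^ e) k = (σ ^ e) b * (b⁻¹ * k * a) * ((σ ^ e) a)⁻¹ := by rw [← h3]; group
      have h6 : (((σ ^ e) b)⁻¹ * b) * (b⁻¹ * k * a) = (b⁻¹ * k * a) * (((σ ^ e) a)⁻¹ * a) := by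
        rw [h2]; group
      have h7 : (b⁻¹ * k * a) * ((σ ^ e) a)⁻¹ = (((σ ^ e) b)⁻¹ * b) * (b⁻¹ * k * a) * a⁻¹ := by rw [h6]; group
      rw [h5, mul_assoc, h7]; group
    · rw [map_mul, map_mul, map_inv] at h1
      rw [ha, hb]
      have h5 : σ k = σ b * (b⁻¹ * k * a) * (σ a)⁻¹ := by rw [← h1]; group
      rw [h5]; group


theorem card_pairs {A B : Type*} [Group B] (K : Subgroup B) (p : A → Prop) (R : A → B → Prop)
    (hex : ∀ a, p a → ∃ b, R a b) (hp : ∀ a b, R a b → p a)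
    (hR : ∀ a b b', R a b → (R a b' ↔ b⁻¹ * b' ∈ K)) :
    Nat.card {x : A × B // R x.1 x.2} = Nat.card {a : A // p a} * Nat.card K := by
  classical
  rw [← Nat.card_prod]
  choose! f hf using hex
  refine Nat.card_congr
    { toFun := fun x => (⟨x.1.1, hp _ _ x.2⟩, ⟨(f x.1.1)⁻¹ * x.1.2, (hR _ _ _ (hf _ (hp _ _ x.2))).mp x.2⟩)
      invFun := fun y => ⟨(y.1.1, f y.1.1 * y.2.1), (hR _ _ _ (hf _ y.1.2)).mpr (by
        rw [inv_mul_cancel_left]; exact y.2.2)⟩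
      left_inv := fun x => Subtype.ext (Prod.ext rfl (by simp))
      right_inv := fun y => Prod.ext rfl (Subtype.ext (by simp)) }

end CfsgLib.H2Shin
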