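import Cfsg.Agent.EqBase
import Cfsg.Agent.LibForms27
import Cfsg.Agent.LibH22Sp
set_option autoImplicit false
namespace CfsgLib.H2SpE
open Matrix Cfsg.Agent.H22

/-- embedding into a symplectic group from an isometric action -/
theorem sp_hom {F V : Type*} [Field F] [AddCommGroup V] [Module F V] [FiniteDimensional F V] (B : LinearMap.BilinForm F V)
    (hB : B.IsAlt) (hnd : ∀ v : V, v ≠ 0 → ∃ w, B v w ≠ 0) {m : ℕ} (hd : Module.finrank F V = 2 * m) {G : Type*} [Group G]
    (ρ : G →* (V →ₗ[F] V)) (hρ : ∀ g v w, B (ρ g v) (ρ g w) = B v w) (hinj : Function.Injective ρ) :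
    ∃ φ : G →* ↥(Matrix.symplecticGroup (Fin m) F), Function.Injective φ := by
  obtain ⟨m', b, hm, h1, h2, h3, h4⟩ := CfsgLib.Forms27.exists_symplectic_basis B hB hnd
  obtain rfl : m = m' := by omega
  refine ⟨{ toFun := fun g => ⟨LinearMap.toMatrix b b (ρ g),
              (CfsgLib.Forms27.toMatrix_mem_symplectic_iff B b h1 h2 h3 h4 (ρ g)).mpr (hρ g)⟩
            map_one' := ?_
            map_mul' := ?_ }, ?_⟩
  · apply Subtype.ext
    show LinearMap.toMatrix b b (ρ 1) = 1
    rw [map_one]
    exact LinearMap.toMatrix_one b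
  · intro g h
    apply Subtype.ext
    show LinearMap.toMatrix b b (ρ (g * h)) = LinearMap.toMatrix b b (ρ g) * LinearMap.toMatrix b b (ρ h)
    rw [map_mul]
    exact LinearMap.toMatrix_mul b _ _
  · intro g h hgh
    apply hinj
    apply (LinearMap.toMatrix b b).injective
    exact congrArg Subtype.val hgh

theorem exists_ringHom {F K : Type*} [Field F] [Fintype F] [Field K] [Fintype K] {q : ℕ} (hF : Fintype.card F = q)
    (hK : Fintype.card K = q ^ 2) : Nonempty (F →+* K) := by
  obtain ⟨p, hc, n, hp, hn⟩ := FiniteField.card' F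
  haveI : Fact p.Prime := ⟨hp⟩
  have hK2 : Fintype.card K = p ^ ((n : ℕ) * 2) := by rw [hK, ← hF, hn, ← pow_mul]
  haveI : CharP K p := charP_of_card_eq_prime_pow hK2
  letI : Algebra (ZMod p) F := ZMod.algebra F p
  letI : Algebra (ZMod p) K := ZMod.algebra K p
  have h1 : Module.finrank (ZMod p) F = n := by
    have := Module.card_eq_pow_finrank (K := ZMod p) (V := F)
    rw [hn, ZMod.card] at this
    exact (Nat.pow_right_injective hp.two_le this).symm
  have h2 : Module.finrank (ZMod p) K = (n : ℕ) * 2 := by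
    have := Module.card_eq_pow_finrank (K := ZMod p) (V := K)
    rw [hK2, ZMod.card] at this
    exact (Nat.pow_right_injective hp.two_le this).symm
  obtain ⟨f⟩ := FiniteField.nonempty_algHom_of_finrank_dvd (F := ZMod p) (K := F) (L := K) (by
    rw [h1, h2]; exact dvd_mul_right _ _)
  exact ⟨f.toRingHom⟩

theorem sp_restrict {F K : Type*} [Field F] [Finite F] [Field K] [Finite K] [Algebra F K] (a d : ℕ)
    (hd : Module.finrank F K = d) :
    ∃ φ : ↥(Matrix.symplecticGroup (Fin a) K) →* ↥(Matrix.symplecticGroup (Fin (d * a)) F), Function.Injective φ := by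
  haveI : Module.Finite F K := Module.Finite.of_finite
  let B : LinearMap.BilinForm F (Fin a ⊕ Fin a → K) :=
    LinearMap.mk₂ F (fun v w => Algebra.trace F K (spB a K v w))
      (fun v v' w => by rw [map_add, LinearMap.add_apply, map_add])
      (fun c v w => by
        have : spB a K (c • v) w = c • spB a K v w := by
          rw [← algebraMap_smul K c v, map_smul, LinearMap.smul_apply, algebraMap_smul]
        rw [this, map_smul])
      (fun v w w' => by rw [map_add, map_add])
      (fun c v w => by
        have : spB a K v (c • w) = c • spB a K v w := by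
          rw [← algebraMap_smul K c w, map_smul, algebraMap_smul]
        rw [this, map_smul])
  have hBa : ∀ v w, B v w = Algebra.trace F K (spB a K v w) := fun _ _ => rfl
  let ρ : ↥(Matrix.symplecticGroup (Fin a) K) →* ((Fin a ⊕ Fin a → K) →ₗ[F] (Fin a ⊕ Fin a → K)) :=
    { toFun := fun g => LinearMap.restrictScalars F (spToLin g : (Fin a ⊕ Fin a → K) →ₗ[K] (Fin a ⊕ Fin a → K))
      map_one' := by ext v; simp
      map_mul' := fun g h => by ext v; simp }
  have hρa : ∀ g v, ρ g v = spToLin g v := fun _ _ => rfl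
  refine sp_hom B ?_ ?_ ?_ ρ ?_ ?_
  · intro v
    rw [hBa, spB_isAlt v, map_zero]
  · intro v hv
    obtain ⟨w, hw⟩ : ∃ w, spB a K v w ≠ 0 := by
      by_contra hcon
      push Not at hcon
      exact hv ((spB_nondeg (m := a) (F := K)).1 v hcon)
    obtain ⟨t, ht⟩ := Algebra.trace_surjective F K 1
    refine ⟨(t / spB a K v w) • w, ?_⟩
    rw [hBa, map_smul, smul_eq_mul, div_mul_cancel₀ _ hw, ht]
    exact one_ne_zero
  · rw [← Module.finrank_mul_finrank F K, hd, Module.finrank_fintype_fun_eq_card, Fintype.card_sum, Fintype.card_fin]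
    ring
  · intro g v w
    rw [hBa, hBa, hρa, hρa, spToLin_isometry]
  · intro g h hgh
    apply spToLin_injective
    apply LinearEquiv.ext
    intro v
    exact congrArg (fun T : (Fin a ⊕ Fin a → K) →ₗ[F] (Fin a ⊕ Fin a → K) => T v) hgh

end CfsgLib.H2SpE
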