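import Cfsg.Agent.EqBase
import Cfsg.Agent.LibCarter
import Cfsg.Agent.LibH2Schm
import Cfsg.Agent.LibCores
set_option autoImplicit false
set_option maxHeartbeats 400000
namespace CfsgLib.H2Sys
open Subgroup Cfsg CfsgLib.SolvBasic CfsgLib.SolvHall CfsgLib.Carter
open scoped Pointwise commutatorElement

universe u v

section basic
variable {G : Type u} [Group G] [Finite G] {p : ℕ}

theorem pcompl_iff (hp : p.Prime) {H : Subgroup G} : PCompl p H ↔ H.index = p ^ (Nat.card G).factorization p := by
  constructor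
  · rintro ⟨h1, k, hk⟩
    have h2 : (Nat.card G).factorization p = k := by
      rw [← H.card_mul_index, hk, Nat.factorization_mul Nat.card_pos.ne' (pow_pos hp.pos k).ne', Finsupp.add_apply,
        Nat.factorization_eq_zero_of_not_dvd h1, hp.factorization_pow, Finsupp.single_eq_same, zero_add]
    rw [h2, hk]
  · intro h
    refine ⟨?_, _, h⟩
    intro hd
    have h2 : (Nat.card G).factorization p = (Nat.card H).factorization p + (Nat.card G).factorization p := by
      conv_lhs => rw [← H.card_mul_index, h, Nat.factorization_mul Nat.card_pos.ne' (pow_pos hp.pos _).ne', Finsupp.add_apply,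
        hp.factorization_pow, Finsupp.single_eq_same]
    have h3 : (Nat.card H).factorization p = 0 := by omega
    exact (hp.factorization_pos_of_dvd Nat.card_pos.ne' hd).ne' h3

theorem eq_of_le (hp : p.Prime) {H M : Subgroup G} (h : PCompl p H) (hM : ¬ p ∣ Nat.card M) (hHM : H ≤ M) : H = M := by
  obtain ⟨k, hk⟩ := h.2
  have h1 : H.relIndex M ∣ p ^ k := by rw [← hk]; exact relIndex_dvd_index_of_le hHM
  obtain ⟨j, -, hj⟩ := (Nat.dvd_prime_pow hp).mp h1
  have h2 : H.relIndex M ∣ Nat.card M := relIndex_dvd_card H M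
  rcases Nat.eq_zero_or_pos j with h3 | h3
  · rw [h3, pow_zero, relIndex_eq_one] at hj
    exact le_antisymm hHM hj
  · exfalso
    apply hM
    exact ((dvd_pow_self p h3.ne').trans (dvd_of_eq hj.symm)).trans h2

theorem normal_le (hp : p.Prime) {H X : Subgroup G} (h : PCompl p H) [X.Normal] (hX : ¬ p ∣ Nat.card X) : X ≤ H := by
  have h1 : ¬ p ∣ Nat.card (H ⊔ X : Subgroup G) := by
    intro hd
    rcases hp.dvd_mul.mp (hd.trans (CfsgLib.Cores.card_sup_dvd_of_normal H X)) with h2 | h2
    · exact h.1 h2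
    · exact hX h2
  have := eq_of_le hp h h1 le_sup_left
  rw [this]; exact le_sup_right

theorem relIndex_of_normal (H N : Subgroup G) [N.Normal] : H.relIndex N = H.relIndex (N ⊔ H) := by
  have h1 := card_sup_of_normal N H
  have h2 := card_eq_card_mul_relIndex (le_sup_right : H ≤ N ⊔ H)
  have h3 := card_eq_card_mul_relIndex (inf_le_left : N ⊓ H ≤ N)
  rw [inf_comm, inf_relIndex_right] at h3
  rw [← h2, ← h3, inf_comm] at h1
  have h4 : 0 < Nat.card (H ⊓ N : Subgroup G) := Nat.card_pos
  have h5 : 0 < Nat.card H := Nat.card_pos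
  have h6 : (Nat.card H * Nat.card (H ⊓ N : Subgroup G)) * H.relIndex (N ⊔ H) =
    (Nat.card H * Nat.card (H ⊓ N : Subgroup G)) * H.relIndex N := by nlinarith
  exact (Nat.eq_of_mul_eq_mul_left (Nat.mul_pos h5 h4) h6).symm

theorem pcompl_subgroupOf_of_dvd (hp : p.Prime) {H L : Subgroup G} (h : PCompl p H) (hd : H.relIndex L ∣ H.index) :
    PCompl p (H.subgroupOf L) := by
  refine ⟨?_, ?_⟩
  · intro hd'
    apply h.1
    refine hd'.trans ?_
    have : Nat.card (H.subgroupOf L) = Nat.card (H ⊓ L : Subgroup G) := by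
      rw [← Subgroup.inf_subgroupOf_right]
      exact card_subgroupOf inf_le_right
    rw [this]
    exact card_dvd_of_le inf_le_left
  · obtain ⟨k, hk⟩ := h.2
    rw [hk] at hd
    obtain ⟨j, -, hj⟩ := (Nat.dvd_prime_pow hp).mp hd
    exact ⟨j, hj⟩

theorem pcompl_subgroupOf_normal (hp : p.Prime) {H : Subgroup G} (h : PCompl p H) (N : Subgroup G) [N.Normal] :
    PCompl p (H.subgroupOf N) := by
  apply pcompl_subgroupOf_of_dvd hp h
  rw [relIndex_of_normal]
  exact relIndex_dvd_index_of_le le_sup_right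

theorem pcompl_subgroupOf_normalizes (hp : p.Prime) {H L : Subgroup G} (h : PCompl p H)
    (hL : L ≤ normalizer (H : Set G)) : PCompl p (H.subgroupOf L) := by
  apply pcompl_subgroupOf_of_dvd hp h
  have h1 : (H.subgroupOf (normalizer (H : Set G))).Normal := normal_in_normalizer
  have h2 := relIndex_dvd_index_of_normal (H.subgroupOf (normalizer (H : Set G))) (L.subgroupOf (normalizer (H : Set G)))
  rw [Subgroup.relIndex_subgroupOf hL] at h2
  exact h2.trans (relIndex_dvd_index_of_le le_normalizer)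

theorem pcompl_map (hp : p.Prime) {H : Subgroup G} (h : PCompl p H) (N : Subgroup G) [N.Normal] :
    PCompl p (H.map (QuotientGroup.mk' N)) := by
  refine ⟨?_, ?_⟩
  · intro hd
    exact h.1 (hd.trans (card_map_dvd _ _))
  · obtain ⟨k, hk⟩ := h.2
    have h1 : (H.map (QuotientGroup.mk' N)).index ∣ H.index := index_map_dvd _ (QuotientGroup.mk'_surjective N)
    rw [hk] at h1
    obtain ⟨j, -, hj⟩ := (Nat.dvd_prime_pow hp).mp h1
    exact ⟨j, hj⟩

theorem pcompl_conj {H : Subgroup G} (h : PCompl p H) (g : G) : PCompl p (MulAut.conj g • H) := by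
  refine ⟨?_, ?_⟩
  · rw [card_conj_smul]; exact h.1
  · rw [index_conj_smul]; exact h.2

theorem pcompl_exists_ge (hp : p.Prime) [Group.IsSolvable G] {X : Subgroup G} (hX : ¬ p ∣ Nat.card X) :
    ∃ H, PCompl p H ∧ X ≤ H := by
  set e := (Nat.card G).factorization p
  obtain ⟨n, hn⟩ : p ^ e ∣ Nat.card G := Nat.ordProj_dvd _ _
  have hn' : ¬ p ∣ n := by
    intro hd
    have h1 : p ^ (e + 1) ∣ Nat.card G := by
      rw [hn, pow_succ]; exact Nat.mul_dvd_mul_left _ hd
    exact Nat.pow_succ_factorization_not_dvd Nat.card_pos.ne' hp h1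
  have hco : n.Coprime (p ^ e) := Nat.Coprime.pow_right _ ((Nat.Prime.coprime_iff_not_dvd hp).mpr hn').symm
  have hG : Nat.card G = n * p ^ e := by rw [hn, mul_comm]
  obtain ⟨H, hH⟩ := hall_exists _ G rfl n (p ^ e) hG hco
  have hXn : Nat.card X ∣ n := by
    have h1 : Nat.card X ∣ n * p ^ e := by rw [← hG]; exact card_subgroup_dvd_card X
    exact (Nat.Coprime.pow_right _ ((Nat.Prime.coprime_iff_not_dvd hp).mpr hX).symm).dvd_of_dvd_mul_right h1
  obtain ⟨g, hg⟩ := hall_dominance _ G rfl n (p ^ e) hG hco X H hXn hH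
  have hHc : PCompl p H := by
    refine ⟨by rw [hH]; exact hn', e, ?_⟩
    have h1 := H.card_mul_index
    rw [hH, hG] at h1
    have : 0 < n := Nat.pos_of_ne_zero (by rintro rfl; exact hn' (dvd_zero p))
    exact Nat.eq_of_mul_eq_mul_left this h1
  refine ⟨MulAut.conj g⁻¹ • H, pcompl_conj hHc _, ?_⟩
  intro x hx
  rw [mem_conj_smul, inv_inv]
  exact hg ⟨x, hx, rfl⟩

theorem pcompl_exists_conj (hp : p.Prime) [Group.IsSolvable G] {H K : Subgroup G} (hH : PCompl p H) (hK : PCompl p K) :
    ∃ g : G, MulAut.conj g • H = K := by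
  haveI : Fact p.Prime := ⟨hp⟩
  have h1 : Nat.card H = Nat.card K := Nat.dvd_antisymm (hH.card_dvd hK) (hK.card_dvd hH)
  obtain ⟨k, hk⟩ := hH.2
  exact hall_conj (Nat.card H) (p ^ k) (by rw [← hk, H.card_mul_index])
    (Nat.Coprime.pow_right _ ((Nat.Prime.coprime_iff_not_dvd hp).mpr hH.1).symm) H K rfl h1.symm

end basic

/-- Chinese remainder theorem for subgroups of coprime prime power indices -/
theorem crt {G : Type u} [Group G] [Finite G] (A : Nat.Primes → Subgroup G) (hA : ∀ p, ∃ k, (A p).index = (p : ℕ) ^ k)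
    (x : Nat.Primes → G) : ∃ g : G, ∀ p, (x p)⁻¹ * g ∈ A p := by
  classical
  let T := (Nat.card G).primeFactors
  let P : T → Nat.Primes := fun p => ⟨p, Nat.prime_of_mem_primeFactors p.2⟩
  let F := quotientiInfEmbedding (fun p : T => A (P p))
  have hle : Nat.card (∀ p : T, G ⧸ A (P p)) ≤ Nat.card (G ⧸ ⨅ p : T, A (P p)) := by
    rw [Nat.card_pi]
    change ∏ p : T, (A (P p)).index ≤ (⨅ p : T, A (P p)).index
    apply Nat.le_of_dvd (Nat.pos_of_ne_zero (index_ne_zero_of_finite))
    have h1 : ∀ p : T, (A (P p)).index ∣ (⨅ p : T, A (P p)).index := fun p => index_dvd_of_le (iInf_le _ p)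
    refine Fintype.prod_dvd_of_isRelPrime ?_ h1
    intro p q hpq
    obtain ⟨i, hi⟩ := hA (P p)
    obtain ⟨j, hj⟩ := hA (P q)
    show IsRelPrime (A (P p)).index (A (P q)).index
    rw [← Nat.coprime_iff_isRelPrime, hi, hj]
    apply Nat.Coprime.pow
    rw [Nat.coprime_primes (P p).2 (P q).2]
    intro h
    exact hpq (Subtype.ext h)
  have hbij := F.injective.bijective_of_nat_card_le hle
  obtain ⟨q, hq⟩ := hbij.2 (fun p => (x (P p) : G ⧸ A (P p)))
  obtain ⟨g, rfl⟩ := QuotientGroup.mk_surjective q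
  refine ⟨g, fun p => ?_⟩
  by_cases hp : (p : ℕ) ∈ T
  · have h1 := congrFun hq ⟨p, hp⟩
    rw [quotientiInfEmbedding_apply_mk] at h1
    exact QuotientGroup.eq.mp h1.symm
  · obtain ⟨k, hk⟩ := hA p
    have h1 : (A p).index ∣ Nat.card G := (A p).index_dvd_card
    have h2 : (A p).index = 1 := by
      rcases Nat.eq_zero_or_pos k with h3 | h3
      · rw [hk, h3, pow_zero]
      · exfalso
        apply hp
        refine Nat.mem_primeFactors.mpr ⟨p.2, ?_, Nat.card_pos.ne'⟩
        rw [hk] at h1
        exact (dvd_pow_self _ h3.ne').trans h1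
    rw [index_eq_one.mp h2]
    exact mem_top _


section sys
variable {G : Type u} [Group G] [Finite G]

theorem sys_iff {K : Nat.Primes → Subgroup G} : IsComplementSystem K ↔ ∀ p : Nat.Primes, PCompl p (K p) :=
  forall_congr' fun p => (pcompl_iff p.2).symm

theorem mem_sys {K : Nat.Primes → Subgroup G} {g : G} :
    g ∈ systemNormalizer K ↔ ∀ p, MulAut.conj g • K p = K p := by
  unfold systemNormalizer
  rw [mem_iInf]
  exact forall_congr' fun p => mem_normalizer_iff_conj_smul

theorem sys_conj (hs : Group.IsSolvable G) {K L : Nat.Primes → Subgroup G} (hK : ∀ p : Nat.Primes, PCompl p (K p))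
    (hL : ∀ p : Nat.Primes, PCompl p (L p)) : ∃ g : G, ∀ p, MulAut.conj g • K p = L p := by
  have h1 : ∀ p : Nat.Primes, ∃ g : G, MulAut.conj g • K p = L p := fun p => pcompl_exists_conj p.2 (hK p) (hL p)
  choose x hx using h1
  obtain ⟨g, hg⟩ := crt K (fun p => (hK p).2) x
  refine ⟨g, fun p => ?_⟩
  have h2 : g = x p * ((x p)⁻¹ * g) := by group
  rw [h2, conj_smul_mul, mem_normalizer_iff_conj_smul.mp (le_normalizer (hg p)), hx]

theorem sys_conj_normalizer {K L : Nat.Primes → Subgroup G} {g : G} (h : ∀ p, MulAut.conj g • K p = L p) :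
    systemNormalizer L = MulAut.conj g • systemNormalizer K := by
  ext x
  rw [mem_sys, mem_conj_smul, mem_sys]
  apply forall_congr'
  intro p
  rw [← h p, ← conj_smul_mul, conj_smul_mul (g⁻¹ * x) g, conj_smul_mul g⁻¹ x, conj_smul_mul x g]
  rw [← inv_smul_eq_iff, map_inv]

theorem sys_nilpotent {K : Nat.Primes → Subgroup G} (hK : ∀ p : Nat.Primes, PCompl p (K p)) :
    Group.IsNilpotent (systemNormalizer K) := by
  apply CfsgLib.H2Schm.isNilpotent_of_npc
  intro q hq
  haveI : Fact q.Prime := ⟨hq⟩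
  have h1 : systemNormalizer K ≤ normalizer (K ⟨q, hq⟩ : Set G) := iInf_le _ (⟨q, hq⟩ : Nat.Primes)
  have h2 := pcompl_subgroupOf_normalizes hq (hK ⟨q, hq⟩) h1
  rw [CfsgLib.TransPC.hasNPC_iff]
  have h3 : ((K ⟨q, hq⟩).subgroupOf (systemNormalizer K)).Normal := by
    constructor
    intro x hx g
    rw [mem_subgroupOf] at hx ⊢
    exact (mem_normalizer_iff.mp (h1 g.2) x).mp hx
  exact ⟨_, h3, h2.1, h2.2⟩

theorem sys_map {K : Nat.Primes → Subgroup G} (hK : ∀ p : Nat.Primes, PCompl p (K p)) (hs : Group.IsSolvable G)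
    (N : Subgroup G) [N.Normal] :
    systemNormalizer (fun p => (K p).map (QuotientGroup.mk' N)) = (systemNormalizer K).map (QuotientGroup.mk' N) := by
  apply le_antisymm
  · intro x hx
    obtain ⟨g, rfl⟩ := QuotientGroup.mk'_surjective N x
    rw [mem_sys] at hx
    have h1 : ∀ p : Nat.Primes, ∃ n ∈ N, g * n ∈ normalizer (K p : Set G) := by
      intro p
      have h2 := hx p
      change MulAut.conj (QuotientGroup.mk' N g) • (K p).map (QuotientGroup.mk' N) = _ at h2
      rw [conj_smul_map_mk'] at h2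
      have h3 := sup_eq_sup_of_map_mk'_eq N h2
      -- `K p ^ g` and `K p` are `p`-complements of `K p ⊔ N`
      have hle1 : MulAut.conj g • K p ≤ K p ⊔ N := by rw [← h3]; exact le_sup_left
      have hle2 : K p ≤ K p ⊔ N := le_sup_left
      have hpc := hK p
      have hcop : (Nat.card (K p)).Coprime ((K p).relIndex (K p ⊔ N)) := by
        obtain ⟨k, hk⟩ := hpc.2
        refine Nat.Coprime.coprime_dvd_right (relIndex_dvd_index_of_le hle2) ?_
        rw [hk]
        exact Nat.Coprime.pow_right _ ((Nat.Prime.coprime_iff_not_dvd p.2).mpr hpc.1).symm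
      obtain ⟨l, hl, hlc⟩ := hall_conj_in_subgroup (K p ⊔ N) inferInstance (K p) (MulAut.conj g • K p) hle2 hle1 hcop
        (card_conj_smul _ _).symm
      rw [sup_comm, mem_sup_of_normal_left] at hl
      obtain ⟨n, hn, k, hk, rfl⟩ := hl
      refine ⟨(g⁻¹ * n⁻¹ * g)⁻¹⁻¹, ?_, ?_⟩
      · rw [inv_inv]
        have := ‹N.Normal›.conj_mem n⁻¹ (inv_mem hn) g⁻¹
        rwa [inv_inv] at this
      · rw [mem_normalizer_iff_conj_smul, inv_inv]
        have h4 : g * (g⁻¹ * n⁻¹ * g) = n⁻¹ * g := by group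
        rw [h4, conj_smul_mul, ← hlc, ← conj_smul_mul, inv_mul_cancel_left]
        exact mem_normalizer_iff_conj_smul.mp (le_normalizer hk)
    choose n hn hn' using h1
    obtain ⟨m, hm⟩ := crt (G := N) (fun p => (normalizer (K p : Set G)).subgroupOf N) (by
      intro p
      obtain ⟨k, hk⟩ := (pcompl_subgroupOf_normal p.2 (hK p) N).2
      have h2 : ((normalizer (K p : Set G)).subgroupOf N).index ∣ ((K p).subgroupOf N).index :=
        index_dvd_of_le (comap_mono le_normalizer)
      rw [hk] at h2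
      obtain ⟨j, -, hj⟩ := (Nat.dvd_prime_pow p.2).mp h2
      exact ⟨j, hj⟩) (fun p => ⟨n p, hn p⟩)
    refine ⟨g * m, ?_, ?_⟩
    · rw [SetLike.mem_coe, mem_sys]
      intro p
      rw [← mem_normalizer_iff_conj_smul]
      have h3 : (n p)⁻¹ * (m : G) ∈ normalizer (K p : Set G) := hm p
      have h4 : g * (m : G) = (g * n p) * ((n p)⁻¹ * m) := by group
      rw [h4]
      exact mul_mem (hn' p) h3
    · rw [map_mul]
      have : QuotientGroup.mk' N (m : G) = 1 := (QuotientGroup.eq_one_iff _).mpr m.2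
      rw [this, mul_one]
  · rintro _ ⟨g, hg, rfl⟩
    rw [SetLike.mem_coe, mem_sys] at hg
    rw [mem_sys]
    intro p
    rw [conj_smul_map_mk', hg p]

theorem sys_normalClosure {K : Nat.Primes → Subgroup G} (hK : ∀ p : Nat.Primes, PCompl p (K p)) (hs : Group.IsSolvable G) :
    normalClosure ((systemNormalizer K : Subgroup G) : Set G) = ⊤ := by
  set M := normalClosure ((systemNormalizer K : Subgroup G) : Set G) with hM
  have hDM : systemNormalizer K ≤ M := subset_normalClosure
  set R := M ⊔ commutator G with hR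
  haveI : R.Normal := inferInstance
  have h1 := sys_map hK hs R
  have h2 : (systemNormalizer K).map (QuotientGroup.mk' R) = ⊥ := by
    rw [Subgroup.map_eq_bot_iff, QuotientGroup.ker_mk']
    exact hDM.trans le_sup_left
  have hcomm : ∀ a b : G ⧸ R, a * b = b * a := by
    intro a b
    obtain ⟨a, rfl⟩ := QuotientGroup.mk'_surjective R a
    obtain ⟨b, rfl⟩ := QuotientGroup.mk'_surjective R b
    rw [← commutatorElement_eq_one_iff_mul_comm, ← map_commutatorElement]
    apply (QuotientGroup.eq_one_iff _).mpr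
    exact mem_sup_right (commutator_mem_commutator (mem_top _) (mem_top _))
  have h3 : systemNormalizer (fun p => (K p).map (QuotientGroup.mk' R)) = ⊤ := by
    rw [eq_top_iff]
    intro x _
    rw [mem_sys]
    intro p
    ext y
    rw [mem_conj_smul, hcomm x⁻¹ y, inv_mul_cancel_right]
  rw [h2, h3] at h1
  have h4 : R = ⊤ := by
    rw [eq_top_iff]
    intro x _
    have : QuotientGroup.mk' R x ∈ (⊤ : Subgroup (G ⧸ R)) := mem_top _
    rw [h1, mem_bot] at this
    exact (QuotientGroup.eq_one_iff _).mp this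
  by_contra hne
  -- `G ⧸ M` is perfect and solvable
  have h5 : commutator (G ⧸ M) = ⊤ := by
    have h6 : (commutator G).map (QuotientGroup.mk' M) = commutator (G ⧸ M) := by
      rw [commutator_def, commutator_def, map_commutator, ← MonoidHom.range_eq_map,
        MonoidHom.range_eq_top.mpr (QuotientGroup.mk'_surjective M)]
    rw [← h6]
    have h7 := congrArg (Subgroup.map (QuotientGroup.mk' M)) h4
    rw [hR, Subgroup.map_sup, QuotientGroup.map_mk'_self, bot_sup_eq, ← MonoidHom.range_eq_map,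
        MonoidHom.range_eq_top.mpr (QuotientGroup.mk'_surjective M)] at h7
    exact h7
  haveI : Nontrivial (G ⧸ M) := by
    rw [← not_subsingleton_iff_nontrivial]
    intro h
    exact hne (QuotientGroup.subsingleton_iff.mp h)
  exact (Group.IsSolvable.commutator_lt_top_of_nontrivial (G ⧸ M)).ne h5

end sys

end CfsgLib.H2Sys
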