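import Cfsg.Agent.EqBase
import Cfsg.Agent.LibH2Sys
set_option autoImplicit false
set_option maxHeartbeats 400000
namespace CfsgLib.H2Sys2
open Subgroup Cfsg CfsgLib.SolvBasic CfsgLib.SolvHall CfsgLib.Carter CfsgLib.H2Sys CfsgLib.TransPC CfsgLib.TransNil
open scoped Pointwise commutatorElement

universe u v

variable {G : Type u} [Group G] [Finite G] {p : ℕ}

theorem noncentral_fix (hp : p.Prime) (hs : Group.IsSolvable G) {V : Subgroup G} [hVn : V.Normal] (hV0 : V ≠ ⊥)
    (hmin : ∀ K : Subgroup G, K.Normal → K ≤ V → K = ⊥ ∨ K = V) (hVp : IsPGroup p V) (hnc : ¬ V ≤ center G)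
    {H : Subgroup G} (hH : PCompl p H) : V ⊓ centralizer (H : Set G) = ⊥ := by
  haveI : Fact p.Prime := ⟨hp⟩
  set C := centralizer (V : Set G) with hC
  have hCt : C ≠ ⊤ := by
    intro h
    apply hnc
    intro v hv
    rw [mem_center_iff]
    intro g
    have : g ∈ C := by rw [h]; exact mem_top g
    exact (mem_centralizer_iff.mp this v hv).symm
  have key : ∀ X : Subgroup G, X.Normal → ¬ X ≤ C → V ⊓ centralizer (X : Set G) = ⊥ := by
    intro X hX hXC
    rcases hmin (V ⊓ centralizer (X : Set G)) inferInstance inf_le_left with h | h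
    · exact h
    · exfalso
      apply hXC
      rw [hC, le_centralizer_iff]
      exact inf_eq_left.mp h
  haveI : Nontrivial (G ⧸ C) := by
    rw [← not_subsingleton_iff_nontrivial]
    intro h
    exact hCt (QuotientGroup.subsingleton_iff.mp h)
  obtain ⟨M', hM'n, -, hM'0, hM'min⟩ := CfsgLib.Cores.exists_minimal_normal (⊤ : Subgroup (G ⧸ C)) top_ne_bot
  obtain ⟨r, hr, -, -, hM'r⟩ := CfsgLib.Cores.minimal_normal_elementary M' hM'0 hM'min inferInstance
  haveI : Fact r.Prime := ⟨hr⟩
  set M := M'.comap (QuotientGroup.mk' C) with hM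
  haveI hMn : M.Normal := hM'n.comap _
  have hMM' : M.map (QuotientGroup.mk' C) = M' := map_comap_eq_self_of_surjective (QuotientGroup.mk'_surjective C) _
  have hMC : ¬ M ≤ C := by
    intro h
    apply hM'0
    rw [← hMM', Subgroup.map_eq_bot_iff, QuotientGroup.ker_mk']
    exact h
  have hVM := key M hMn hMC
  by_cases hrp : r = p
  · exfalso
    subst hrp
    set φ : G →* MulAut V := MulAut.conjNormal with hφ
    have hφa : ∀ g : G, ∀ x : V, ((φ g x : V) : G) = g * x * g⁻¹ := fun g x => by rw [hφ]; simp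
    have h1 : IsPGroup r (M.map φ) := by
      rintro ⟨_, ⟨m, hm, rfl⟩⟩
      have hm' : QuotientGroup.mk' C m ∈ M' := hm
      obtain ⟨k, hk⟩ := hM'r ⟨_, hm'⟩
      refine ⟨k, ?_⟩
      apply Subtype.ext
      have h2 : m ^ r ^ k ∈ C := by
        have h3 := congrArg Subtype.val hk
        rw [← QuotientGroup.eq_one_iff]
        exact h3
      show φ m ^ r ^ k = 1
      rw [← map_pow]
      apply MulEquiv.ext
      intro x
      apply Subtype.ext
      rw [hφa, ← mem_centralizer_iff.mp h2 x x.2, mul_inv_cancel_right]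
      rfl
    have h2 : r ∣ Nat.card V := by
      obtain ⟨k, hk⟩ := IsPGroup.iff_card.mp hVp
      have h3 := one_lt_card_of_ne_bot hV0
      rw [hk] at h3 ⊢
      apply dvd_pow_self
      rintro rfl
      exact lt_irrefl _ h3
    obtain ⟨b, hb, hb1⟩ := h1.exists_fixed_point_of_prime_dvd_card_of_fixed_point V h2 (a := 1) (by
      intro g
      exact map_one (g : MulAut V))
    have h3 : (b : G) ∈ V ⊓ centralizer (M : Set G) := by
      refine ⟨b.2, mem_centralizer_iff.mpr fun m hm => ?_⟩
      have h4 := hb ⟨φ m, mem_map_of_mem _ hm⟩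
      have h5 := congrArg Subtype.val h4
      have h6 : ((φ m b : V) : G) = b := h5
      rw [hφa] at h6
      exact mul_inv_eq_iff_eq_mul.mp h6
    rw [hVM, mem_bot] at h3
    exact hb1 (Subtype.ext h3.symm)
  · have h1 : ¬ p ∣ Nat.card M' := by
      intro hd
      obtain ⟨k, hk⟩ := IsPGroup.iff_card.mp hM'r
      rw [hk] at hd
      exact hrp ((Nat.prime_dvd_prime_iff_eq hp hr).mp (hp.dvd_of_dvd_pow hd)).symm
    have h2 : M' ≤ H.map (QuotientGroup.mk' C) := normal_le hp (pcompl_map hp hH C) h1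
    have h3 : M ≤ H ⊔ C := by
      rw [hM]
      refine (comap_mono h2).trans ?_
      rw [comap_map_eq, QuotientGroup.ker_mk']
    rw [eq_bot_iff, ← hVM]
    refine le_inf inf_le_left ?_
    have h4 : V ⊓ centralizer (H : Set G) ≤ centralizer ((H ⊔ C : Subgroup G) : Set G) := by
      rw [le_centralizer_iff]
      refine sup_le ?_ ?_
      · rw [le_centralizer_iff]; exact inf_le_right
      · rw [le_centralizer_iff]
        refine inf_le_left.trans ?_
        rw [le_centralizer_iff]
    exact h4.trans (centralizer_le h3)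

/-- a system normalizer meets a noncentral minimal normal subgroup trivially -/
theorem inf_sys (hs : Group.IsSolvable G) {K : Nat.Primes → Subgroup G} (hK : ∀ p : Nat.Primes, PCompl p (K p))
    {V : Subgroup G} [hVn : V.Normal] (hV0 : V ≠ ⊥)
    (hmin : ∀ K : Subgroup G, K.Normal → K ≤ V → K = ⊥ ∨ K = V) (hnc : ¬ V ≤ center G) :
    V ⊓ systemNormalizer K = ⊥ := by
  obtain ⟨p, hp, -, -, hVp⟩ := CfsgLib.Cores.minimal_normal_elementary V hV0 hmin inferInstance
  haveI : Fact p.Prime := ⟨hp⟩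
  have h1 := noncentral_fix hp hs hV0 hmin hVp hnc (hK ⟨p, hp⟩)
  have h2 := inf_eq_bot hVp (hK ⟨p, hp⟩)
  rw [eq_bot_iff, ← h1]
  refine le_inf inf_le_left ?_
  rintro v ⟨hv, hv'⟩
  refine mem_centralizer_iff.mpr fun k hk => ?_
  have h3 : v ∈ normalizer (K ⟨p, hp⟩ : Set G) := (mem_iInf.mp hv') _
  have h4 : k * v * k⁻¹ * v⁻¹ ∈ V ⊓ K ⟨p, hp⟩ := by
    refine ⟨V.mul_mem (hVn.conj_mem v hv k) (V.inv_mem hv), ?_⟩
    have h5 := (mem_normalizer_iff.mp h3 _).mp (inv_mem hk)
    have h6 : k * v * k⁻¹ * v⁻¹ = k * (v * k⁻¹ * v⁻¹) := by group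
    rw [h6]
    exact mul_mem hk h5
  rw [h2, mem_bot] at h4
  calc k * v = (k * v * k⁻¹ * v⁻¹) * (v * k) := by group
    _ = v * k := by rw [h4, one_mul]

theorem cover_avoid (hs : Group.IsSolvable G) {K : Nat.Primes → Subgroup G} (hK : ∀ p : Nat.Primes, PCompl p (K p))
    (A B : Subgroup G) [A.Normal] [hBn : B.Normal] (hAB : A < B)
    (hchief : ∀ N : Subgroup G, N.Normal → A ≤ N → N ≤ B → N = A ∨ N = B) :
    (⁅B, (⊤ : Subgroup G)⁆ ≤ A → B ≤ A ⊔ systemNormalizer K) ∧
    (¬ ⁅B, (⊤ : Subgroup G)⁆ ≤ A → B ⊓ systemNormalizer K ≤ A) := by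
  have hmap := sys_map hK hs A
  constructor
  · intro h b hb
    have h1 : QuotientGroup.mk' A b ∈ systemNormalizer (fun p => (K p).map (QuotientGroup.mk' A)) := by
      rw [mem_sys]
      intro p
      rw [← mem_normalizer_iff_conj_smul]
      have h2 : QuotientGroup.mk' A b ∈ center (G ⧸ A) := by
        rw [mem_center_iff]
        intro g
        obtain ⟨g, rfl⟩ := QuotientGroup.mk'_surjective A g
        symm
        rw [← commutatorElement_eq_one_iff_mul_comm, ← map_commutatorElement]
        exact (QuotientGroup.eq_one_iff _).mpr (h (commutator_mem_commutator hb (mem_top g)))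
      exact center_le_normalizer _ h2
    rw [hmap] at h1
    have h2 : b ∈ ((systemNormalizer K).map (QuotientGroup.mk' A)).comap (QuotientGroup.mk' A) := h1
    rw [comap_map_eq, QuotientGroup.ker_mk', sup_comm] at h2
    exact h2
  · intro h
    set V := B.map (QuotientGroup.mk' A) with hV
    haveI : V.Normal := hBn.map _ (QuotientGroup.mk'_surjective A)
    have hV0 : V ≠ ⊥ := by
      intro h1
      rw [hV, Subgroup.map_eq_bot_iff, QuotientGroup.ker_mk'] at h1
      exact hAB.not_ge h1
    have hmin : ∀ K : Subgroup (G ⧸ A), K.Normal → K ≤ V → K = ⊥ ∨ K = V := by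
      intro L hL hLV
      have h1 : A ≤ L.comap (QuotientGroup.mk' A) := by
        intro a ha
        rw [mem_comap]
        have : QuotientGroup.mk' A a = 1 := (QuotientGroup.eq_one_iff _).mpr ha
        rw [this]; exact one_mem _
      have h2 : L.comap (QuotientGroup.mk' A) ≤ B := by
        have := comap_mono (f := QuotientGroup.mk' A) hLV
        rwa [hV, comap_map_eq, QuotientGroup.ker_mk', sup_eq_left.mpr hAB.le] at this
      rcases hchief _ (hL.comap _) h1 h2 with h3 | h3
      · left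
        rw [← map_comap_eq_self_of_surjective (QuotientGroup.mk'_surjective A) L, h3, QuotientGroup.map_mk'_self]
      · right
        rw [← map_comap_eq_self_of_surjective (QuotientGroup.mk'_surjective A) L, h3]
    have hnc : ¬ V ≤ center (G ⧸ A) := by
      intro h1
      apply h
      rw [commutator_le]
      intro b hb g _
      have h2 := mem_center_iff.mp (h1 (mem_map_of_mem (QuotientGroup.mk' A) hb)) (QuotientGroup.mk' A g)
      rw [← QuotientGroup.eq_one_iff]
      change QuotientGroup.mk' A ⁅b, g⁆ = 1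
      rw [map_commutatorElement, commutatorElement_eq_one_iff_mul_comm]
      exact h2.symm
    have h1 := inf_sys (G := G ⧸ A) inferInstance (fun p => pcompl_map p.2 (hK p) A) hV0 hmin hnc
    rw [hmap] at h1
    rintro x ⟨hx, hx'⟩
    have h2 : QuotientGroup.mk' A x ∈ V ⊓ (systemNormalizer K).map (QuotientGroup.mk' A) :=
      ⟨mem_map_of_mem _ hx, mem_map_of_mem _ hx'⟩
    rw [h1, mem_bot] at h2
    exact (QuotientGroup.eq_one_iff _).mp h2


theorem pcompl_subgroupOf' {H L : Subgroup G} (h : ¬ p ∣ Nat.card H) (hd : ∃ k, H.relIndex L = p ^ k) :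
    PCompl p (H.subgroupOf L) := by
  refine ⟨?_, hd⟩
  intro hd'
  apply h
  refine hd'.trans ?_
  have : Nat.card (H.subgroupOf L) = Nat.card (H ⊓ L : Subgroup G) := by
    rw [← Subgroup.inf_subgroupOf_right]
    exact card_subgroupOf inf_le_right
  rw [this]
  exact card_dvd_of_le inf_le_left

/-- a `p`-complement of a nilpotent group is normal -/
theorem pcompl_normal (hp : p.Prime) (hnil : Group.IsNilpotent G) {H : Subgroup G} (h : PCompl p H) : H.Normal := by
  haveI : Fact p.Prime := ⟨hp⟩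
  obtain ⟨N, hN⟩ := (hasNPC_iff p).mp (hasNPC_of_isNilpotent hnil p)
  haveI := hN.1
  have h1 := normal_le hp h hN.2.1
  have h2 : N = H := eq_of_le hp ⟨hN.2.1, hN.2.2⟩ h.1 h1
  rw [← h2]; exact hN.1

/-- the basic lemma: `G = C N`, `C` nilpotent, `N` a normal `p`-subgroup -/
theorem reduce_lemma (hp : p.Prime) {C N H : Subgroup G} (hC : Group.IsNilpotent C) [N.Normal] (hN : IsPGroup p N)
    (hCN : C ⊔ N = ⊤) (hH : PCompl p H) (hHC : PCompl p (H.subgroupOf C)) : H ≤ C ∧ C ≤ normalizer (H : Set G) := by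
  haveI : Fact p.Prime := ⟨hp⟩
  have h1 : ∃ k, (H ⊓ C).index = p ^ k := by
    obtain ⟨k, hk⟩ := hHC.2
    have h2 : (H ⊓ C).relIndex C = p ^ k := by rw [inf_relIndex_right]; exact hk
    have h3 : ∃ j, C.index = p ^ j := by
      have h4 : C.index = C.relIndex N := by
        rw [relIndex_of_normal, sup_comm, hCN, relIndex_top_right]
      rw [h4]
      obtain ⟨a, ha⟩ := IsPGroup.iff_card.mp hN
      have h5 : C.relIndex N ∣ p ^ a := by rw [← ha]; exact relIndex_dvd_card _ _
      obtain ⟨j, -, hj⟩ := (Nat.dvd_prime_pow hp).mp h5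
      exact ⟨j, hj⟩
    obtain ⟨j, hj⟩ := h3
    refine ⟨k + j, ?_⟩
    rw [← relIndex_mul_index (inf_le_right : H ⊓ C ≤ C), h2, hj, pow_add]
  have h2 : PCompl p (H ⊓ C) := ⟨fun hd => hH.1 (hd.trans (card_dvd_of_le inf_le_left)), h1⟩
  have h3 : H ⊓ C = H := eq_of_le hp h2 hH.1 inf_le_left
  have h4 : H ≤ C := inf_eq_left.mp h3
  refine ⟨h4, ?_⟩
  exact (normal_subgroupOf_iff_le_normalizer h4).mp (pcompl_normal hp hC hHC)

theorem reduce_map (hp : p.Prime) {C H : Subgroup G} (hH : PCompl p H) (hHC : PCompl p (H.subgroupOf C))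
    (N : Subgroup G) [N.Normal] :
    PCompl p ((H.map (QuotientGroup.mk' N)).subgroupOf (C.map (QuotientGroup.mk' N))) := by
  refine pcompl_subgroupOf' (pcompl_map hp hH N).1 ?_
  obtain ⟨k, hk⟩ := hHC.2
  have h1 : ((H.subgroupOf C).map ((QuotientGroup.mk' N).subgroupMap C)).index ∣ (H.subgroupOf C).index :=
    index_map_dvd _ (MonoidHom.subgroupMap_surjective _ _)
  have h2 : (H.subgroupOf C).map ((QuotientGroup.mk' N).subgroupMap C) ≤
      (H.map (QuotientGroup.mk' N)).subgroupOf (C.map (QuotientGroup.mk' N)) := by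
    rintro _ ⟨x, hx, rfl⟩
    exact ⟨x, hx, rfl⟩
  have h3 : (H.map (QuotientGroup.mk' N)).relIndex (C.map (QuotientGroup.mk' N)) ∣ p ^ k := by
    rw [← hk]; exact (index_dvd_of_le h2).trans h1
  obtain ⟨j, -, hj⟩ := (Nat.dvd_prime_pow hp).mp h3
  exact ⟨j, hj⟩

/-- existence of a system reducing into a Carter subgroup -/
theorem exists_reduce (hs : Group.IsSolvable G) {C : Subgroup G} (hC : Group.IsNilpotent C) :
    ∃ K : Nat.Primes → Subgroup G, (∀ p : Nat.Primes, PCompl p (K p)) ∧ ∀ p : Nat.Primes, PCompl p ((K p).subgroupOf C) := by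
  have h1 : ∀ p : Nat.Primes, ∃ H : Subgroup G, PCompl p H ∧ PCompl p (H.subgroupOf C) := by
    intro p
    haveI : Fact (p : ℕ).Prime := ⟨p.2⟩
    obtain ⟨N, hN⟩ := (hasNPC_iff (p : ℕ)).mp (hasNPC_of_isNilpotent hC (p : ℕ))
    have hX : ¬ (p : ℕ) ∣ Nat.card (N.map C.subtype) := by
      rw [card_map_of_injective C.subtype_injective]; exact hN.2.1
    obtain ⟨H, hH, hNH⟩ := pcompl_exists_ge p.2 hX
    refine ⟨H, hH, pcompl_subgroupOf' hH.1 ?_⟩
    obtain ⟨k, hk⟩ := hN.2.2
    have h2 : N ≤ H.subgroupOf C := by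
      intro x hx
      exact hNH ⟨x, hx, rfl⟩
    have h3 : H.relIndex C ∣ (p : ℕ) ^ k := by rw [← hk]; exact index_dvd_of_le h2
    obtain ⟨j, -, hj⟩ := (Nat.dvd_prime_pow p.2).mp h3
    exact ⟨j, hj⟩
  choose K hK using h1
  exact ⟨K, fun p => (hK p).1, fun p => (hK p).2⟩

theorem carter_conj (G : Type u) [Group G] [Finite G] (hs : Group.IsSolvable G) : ∀ H : Subgroup G, H ≠ ⊤ → ∀ C D : Subgroup H,
    IsCarter C → IsCarter D → ∃ g : H, MulAut.conj g • C = D :=
  fun H _ C D hC hD => (main _ H le_rfl).2 C D hC hD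

theorem sys_le_carter (n : ℕ) : ∀ (G : Type u) [Group G] [Finite G], Group.IsSolvable G → Nat.card G ≤ n →
    ∀ (K : Nat.Primes → Subgroup G) (C : Subgroup G), (∀ p : Nat.Primes, PCompl p (K p)) → IsCarter C →
    (∀ p : Nat.Primes, PCompl p ((K p).subgroupOf C)) → systemNormalizer K ≤ C := by
  induction n with
  | zero =>
    intro G _ _ _ hn
    have : 0 < Nat.card G := Nat.card_pos
    omega
  | succ n ih =>
    intro G _ _ hs hn K C hK hC hKC
    by_cases hCt : C = ⊤
    · rw [hCt]; exact le_top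
    haveI : Nontrivial G := by
      by_contra h
      rw [not_nontrivial_iff_subsingleton] at h
      exact hCt (Subsingleton.elim _ _)
    obtain ⟨N, hNn, -, hN0, hNmin⟩ := CfsgLib.Cores.exists_minimal_normal (⊤ : Subgroup G) top_ne_bot
    obtain ⟨r, hr, hNc, -, hNr⟩ := CfsgLib.Cores.minimal_normal_elementary N hN0 hNmin inferInstance
    haveI : Fact r.Prime := ⟨hr⟩
    have hC' := hC.map N (carter_conj G hs)
    have hq : Nat.card (G ⧸ N) ≤ n := by
      have := card_quotient_lt N hN0
      omega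
    have h1 := ih (G ⧸ N) inferInstance hq (fun p => (K p).map (QuotientGroup.mk' N)) (C.map (QuotientGroup.mk' N))
      (fun p => pcompl_map p.2 (hK p) N) hC' (fun p => reduce_map p.2 (hK p) (hKC p) N)
    rw [sys_map hK hs N] at h1
    have h2 := le_sup_of_map_mk'_le N h1
    by_cases hL : C ⊔ N = ⊤
    · -- `N` is not contained in `C`
      have hCN : C ⊓ N = ⊥ := by
        have h3 : (C ⊓ N).Normal := by
          rw [← normalizer_eq_top_iff, eq_top_iff, ← hL]
          refine sup_le ?_ ?_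
          · intro x hx
            apply Subgroup.mem_normalizer_fintype
            rintro y ⟨hy, hy'⟩
            exact ⟨C.mul_mem (C.mul_mem hx hy) (C.inv_mem hx), hNn.conj_mem y hy' x⟩
          · intro x hx
            apply Subgroup.mem_normalizer_fintype
            rintro y ⟨hy, hy'⟩
            have : x * y = y * x := congrArg Subtype.val (hNc.is_comm.comm ⟨x, hx⟩ ⟨y, hy'⟩)
            rw [this, mul_inv_cancel_right]
            exact ⟨hy, hy'⟩
        rcases hNmin _ h3 inf_le_right with h4 | h4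
        · exact h4
        · exfalso
          rw [inf_eq_right] at h4
          rw [sup_eq_left.mpr h4] at hL
          exact hCt hL
      have hnc : ¬ N ≤ center G := by
        intro h
        have h3 : N ≤ C := by
          rw [← hC.2]
          exact h.trans (center_le_normalizer _)
        rw [inf_eq_right.mpr h3] at hCN
        exact hN0 hCN
      set H := K ⟨r, hr⟩ with hH
      obtain ⟨hHC, hCH⟩ := reduce_lemma hr hC.1 hNr hL (hK ⟨r, hr⟩) (hKC ⟨r, hr⟩)
      have hfix := noncentral_fix hr hs hN0 hNmin hNr hnc (hK ⟨r, hr⟩)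
      have hNH := inf_eq_bot hNr (hK ⟨r, hr⟩)
      intro x hx
      have hx1 : x ∈ normalizer (H : Set G) := (mem_iInf.mp hx) _
      have hx2 : x ∈ C ⊔ N := by rw [hL]; exact mem_top x
      rw [sup_comm, mem_sup_of_normal_left] at hx2
      obtain ⟨y, hy, c, hc, rfl⟩ := hx2
      have hy1 : y ∈ normalizer (H : Set G) := by
        have := mul_mem hx1 (inv_mem (hCH hc))
        rwa [mul_inv_cancel_right] at this
      have hy2 : y ∈ N ⊓ centralizer (H : Set G) := by
        refine ⟨hy, ?_⟩
        refine mem_centralizer_iff.mpr fun k hk => ?_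
        have h4 : k * y * k⁻¹ * y⁻¹ ∈ N ⊓ H := by
          refine ⟨N.mul_mem (hNn.conj_mem y hy k) (N.inv_mem hy), ?_⟩
          have h5 := (mem_normalizer_iff.mp hy1 _).mp (H.inv_mem hk)
          have h6 : k * y * k⁻¹ * y⁻¹ = k * (y * k⁻¹ * y⁻¹) := by group
          rw [h6]
          exact H.mul_mem hk h5
        rw [hNH, mem_bot] at h4
        calc k * y = (k * y * k⁻¹ * y⁻¹) * (y * k) := by group
          _ = y * k := by rw [h4, one_mul]
      rw [hfix, mem_bot] at hy2
      rw [hy2, one_mul]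
      exact hc
    · have hcard : Nat.card (C ⊔ N : Subgroup G) ≤ n := by
        have := card_lt_of_ne_top hL
        omega
      have hrel : ∀ p : Nat.Primes, ∃ k, (K p).relIndex (C ⊔ N) = (p : ℕ) ^ k := by
        intro p
        by_cases hpr : (p : ℕ) = r
        · obtain ⟨k, hk⟩ := (hKC p).2
          have h3 : (K p ⊓ C).relIndex C = (p : ℕ) ^ k := by rw [inf_relIndex_right]; exact hk
          obtain ⟨a, ha⟩ := IsPGroup.iff_card.mp hNr
          have h4 : C.relIndex (C ⊔ N) ∣ (p : ℕ) ^ a := by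
            rw [hpr, ← ha, sup_comm, ← relIndex_of_normal]
            exact relIndex_dvd_card _ _
          have h5 : (K p).relIndex (C ⊔ N) ∣ (p : ℕ) ^ k * (p : ℕ) ^ a := by
            refine (relIndex_dvd_of_le_left (C ⊔ N) (inf_le_left : K p ⊓ C ≤ K p)).trans ?_
            rw [← relIndex_mul_relIndex (K p ⊓ C) C (C ⊔ N) inf_le_right le_sup_left, h3]
            exact Nat.mul_dvd_mul_left _ h4
          rw [← pow_add] at h5
          obtain ⟨j, -, hj⟩ := (Nat.dvd_prime_pow p.2).mp h5
          exact ⟨j, hj⟩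
        · have hNK : N ≤ K p := normal_le p.2 (hK p) (by
            intro hd
            obtain ⟨a, ha⟩ := IsPGroup.iff_card.mp hNr
            rw [ha] at hd
            exact hpr ((Nat.prime_dvd_prime_iff_eq p.2 hr).mp (p.2.dvd_of_dvd_pow hd)))
          obtain ⟨j, hj⟩ := (reduce_map p.2 (hK p) (hKC p) N).2
          refine ⟨j, ?_⟩
          have h3 : ((K p).map (QuotientGroup.mk' N)).comap (QuotientGroup.mk' N) = K p := by
            rw [comap_map_eq, QuotientGroup.ker_mk', sup_eq_left.mpr hNK]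
          have h4 : (C ⊔ N).map (QuotientGroup.mk' N) = C.map (QuotientGroup.mk' N) := by
            rw [Subgroup.map_sup, QuotientGroup.map_mk'_self, sup_bot_eq]
          rw [← h3, relIndex_comap, h4]
          exact hj
      have h3 := ih (C ⊔ N : Subgroup G) inferInstance hcard (fun p => (K p).subgroupOf (C ⊔ N)) (C.subgroupOf (C ⊔ N))
        (fun p => pcompl_subgroupOf' (hK p).1 (hrel p)) (hC.subgroupOf le_sup_left) (by
          intro p
          refine pcompl_subgroupOf' (pcompl_subgroupOf' (hK p).1 (hrel p)).1 ?_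
          rw [Subgroup.relIndex_subgroupOf le_sup_left]
          exact (hKC p).2)
      intro x hx
      have hxL := h2 hx
      have h4 : (⟨x, hxL⟩ : (C ⊔ N : Subgroup G)) ∈ systemNormalizer (fun p => (K p).subgroupOf (C ⊔ N)) := by
        refine mem_iInf.mpr fun p => ?_
        rw [mem_normalizer_iff]
        intro y
        exact (mem_normalizer_iff.mp ((mem_iInf.mp hx) p) y)
      exact h3 h4

theorem carter_sys (hs : Group.IsSolvable G) :
    (∀ C : Subgroup G, IsCarter C → ∃ K : Nat.Primes → Subgroup G, (∀ p : Nat.Primes, PCompl p (K p)) ∧ systemNormalizer K ≤ C) ∧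
    ∀ K : Nat.Primes → Subgroup G, (∀ p : Nat.Primes, PCompl p (K p)) → ∃ C : Subgroup G, IsCarter C ∧ systemNormalizer K ≤ C := by
  have h1 : ∀ C : Subgroup G, IsCarter C → ∃ K : Nat.Primes → Subgroup G, (∀ p : Nat.Primes, PCompl p (K p)) ∧ systemNormalizer K ≤ C := by
    intro C hC
    obtain ⟨K, hK, hKC⟩ := exists_reduce hs hC.1
    exact ⟨K, hK, sys_le_carter _ G hs le_rfl K C hK hC hKC⟩
  refine ⟨h1, ?_⟩
  intro K hK
  obtain ⟨C, hC⟩ := (main _ G le_rfl).1
  obtain ⟨L, hL, hLC⟩ := h1 C hC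
  obtain ⟨g, hg⟩ := sys_conj hs hL hK
  refine ⟨MulAut.conj g • C, hC.conj g, ?_⟩
  rw [sys_conj_normalizer hg]
  exact Subgroup.pointwise_smul_le_pointwise_smul_iff.mpr hLC

end CfsgLib.H2Sys2
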