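import Cfsg.Agent.EqBase
import Cfsg.Agent.LibH2Sys2
set_option autoImplicit false
set_option maxHeartbeats 400000
namespace CfsgLib.H2Sys3
open Subgroup Cfsg CfsgLib.SolvBasic CfsgLib.SolvHall CfsgLib.Carter CfsgLib.H2Sys CfsgLib.H2Sys2 CfsgLib.TransPC CfsgLib.TransNil
open scoped Pointwise commutatorElement

universe u v

variable {G : Type u} [Group G] [Finite G] {p : ℕ}

/-- nilpotent length two -/
theorem reduce_eq (hs : Group.IsSolvable G) (F : Subgroup G) [F.Normal] (hF : Group.IsNilpotent F)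
    (hGF : Group.IsNilpotent (G ⧸ F)) {K : Nat.Primes → Subgroup G} {C : Subgroup G} (hK : ∀ p : Nat.Primes, PCompl p (K p))
    (hC : IsCarter C) (hKC : ∀ p : Nat.Primes, PCompl p ((K p).subgroupOf C)) : C = systemNormalizer K := by
  apply hC.eq_of_le_nilpotent _ (sys_nilpotent hK)
  have hCF : C ⊔ F = ⊤ := by
    have h1 := eq_top_of_nilpotent hGF (hC.map F (carter_conj G hs)).2
    have h2 := congrArg (Subgroup.comap (QuotientGroup.mk' F)) h1
    rwa [comap_map_eq, QuotientGroup.ker_mk', comap_top] at h2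
  refine le_iInf fun p => ?_
  haveI : Fact (p : ℕ).Prime := ⟨p.2⟩
  obtain ⟨N₀, hN₀⟩ := (hasNPC_iff (p : ℕ)).mp (hasNPC_of_isNilpotent hF (p : ℕ))
  haveI := hN₀.characteristic
  obtain ⟨N, hN⟩ : ∃ N, N = N₀.map F.subtype := ⟨_, rfl⟩
  haveI : N.Normal := by rw [hN]; infer_instance
  have hNp : ¬ (p : ℕ) ∣ Nat.card N := by
    rw [hN, card_map_of_injective F.subtype_injective]; exact hN₀.2.1
  have hNK : N ≤ K p := normal_le p.2 (hK p) hNp
  have hNF : N ≤ F := by rw [hN]; exact map_subtype_le _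
  haveI : (F.map (QuotientGroup.mk' N)).Normal := ‹F.Normal›.map _ (QuotientGroup.mk'_surjective N)
  have hFp : IsPGroup p (F.map (QuotientGroup.mk' N)) := by
    obtain ⟨k, hk⟩ := hN₀.2.2
    have h1 := card_map_mk'_mul_card_of_le N F hNF
    have h2 : Nat.card F = Nat.card N * (p : ℕ) ^ k := by
      rw [hN, card_map_of_injective F.subtype_injective, ← hk, N₀.card_mul_index]
    rw [h2, mul_comm (Nat.card N)] at h1
    exact IsPGroup.of_card (n := k) (Nat.eq_of_mul_eq_mul_right Nat.card_pos h1)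
  have hCn : Group.IsNilpotent (C.map (QuotientGroup.mk' N)) := by
    haveI := hC.1
    exact Group.nilpotent_of_surjective _ ((QuotientGroup.mk' N).subgroupMap_surjective C)
  have hsup : C.map (QuotientGroup.mk' N) ⊔ F.map (QuotientGroup.mk' N) = ⊤ := by
    rw [← Subgroup.map_sup, hCF, ← MonoidHom.range_eq_map, MonoidHom.range_eq_top.mpr (QuotientGroup.mk'_surjective N)]
  have hp1 := pcompl_map p.2 (hK p) N
  have hp2 := reduce_map p.2 (hK p) (hKC p) N
  have h3 := (reduce_lemma (G := G ⧸ N) (N := F.map (QuotientGroup.mk' N)) p.2 hCn hFp hsup hp1 hp2).2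
  intro c hc
  have h4 := h3 (mem_map_of_mem (QuotientGroup.mk' N) hc)
  rw [mem_normalizer_iff_conj_smul, conj_smul_map_mk'] at h4
  have h5 := sup_eq_sup_of_map_mk'_eq N h4
  rw [sup_eq_left.mpr hNK] at h5
  rw [mem_normalizer_iff_conj_smul]
  have h6 : MulAut.conj c • K p ≤ K p := le_sup_left.trans h5.le
  exact Subgroup.eq_of_le_of_card_ge h6 (by rw [card_conj_smul])

end CfsgLib.H2Sys3
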