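import Mathlib

/-! Lifting representations modulo prime powers; the integrality property of groups with a
fixed-point-free representation. -/

set_option autoImplicit false

namespace CfsgLib.H6Lift

open Subgroup

theorem fst_ker_pgroup {q k d : ℕ} (hq : q.Prime) (hk : 0 < k) :
    IsPGroup q (Matrix.GeneralLinearGroup.map (n := Fin d) (ZMod.castHom (dvd_pow_self q hk.ne') (ZMod q))).ker := by
  classical
  haveI : Fact q.Prime := ⟨hq⟩
  haveI : NeZero (q ^ k) := ⟨pow_ne_zero _ hq.ne_zero⟩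
  set π : ZMod (q ^ k) →+* ZMod q := ZMod.castHom (dvd_pow_self q hk.ne') (ZMod q) with hπ
  let m : Matrix (Fin d) (Fin d) (ZMod (q ^ k)) →+* Matrix (Fin d) (Fin d) (ZMod q) := π.mapMatrix
  let A : AddSubgroup (Matrix (Fin d) (Fin d) (ZMod (q ^ k))) := m.toAddMonoidHom.ker
  -- elements in the kernel of `π` are multiples of `q`
  have hker : ∀ a : ZMod (q ^ k), π a = 0 → ∃ b : ZMod (q ^ k), a = (q : ZMod (q ^ k)) * b := by
    intro a ha
    have h1 : ((a.val : ℕ) : ZMod q) = 0 := by
      have h2 : π ((a.val : ℕ) : ZMod (q ^ k)) = 0 := by rw [ZMod.natCast_zmod_val]; exact ha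
      rwa [map_natCast] at h2
    rw [ZMod.natCast_eq_zero_iff] at h1
    obtain ⟨c, hc⟩ := h1
    refine ⟨(c : ZMod (q ^ k)), ?_⟩
    rw [← ZMod.natCast_zmod_val a, hc, Nat.cast_mul]
  have hnil : ∀ X ∈ A, X ^ k = 0 := by
    intro X hX
    have hX' : ∀ i j, π (X i j) = 0 := fun i j => congrFun (congrFun hX i) j
    choose Y hY using fun i j => hker (X i j) (hX' i j)
    have h1 : X = (q : ZMod (q ^ k)) • (Matrix.of Y) := by
      ext i j
      rw [Matrix.smul_apply, smul_eq_mul]
      exact hY i j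
    rw [h1, smul_pow]
    have h2 : (q : ZMod (q ^ k)) ^ k = 0 := by
      rw [← Nat.cast_pow]; exact ZMod.natCast_self _
    rw [h2, zero_smul]
  let e : (Matrix.GeneralLinearGroup.map (n := Fin d) π).ker ≃ A :=
    { toFun := fun M => ⟨M.1.1 - 1, by
        show m (M.1.1 - 1) = 0
        rw [map_sub, map_one, sub_eq_zero]
        have := M.2
        rw [MonoidHom.mem_ker] at this
        exact congrArg Units.val this⟩
      invFun := fun X => ⟨(IsNilpotent.isUnit_one_add (⟨k, hnil X.1 X.2⟩ : IsNilpotent X.1)).unit, by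
        rw [MonoidHom.mem_ker]
        apply Units.ext
        show m (1 + X.1) = 1
        have : m X.1 = 0 := X.2
        rw [map_add, map_one, this, add_zero]⟩
      left_inv := by
        intro M
        apply Subtype.ext
        apply Units.ext
        show 1 + (M.1.1 - 1) = M.1.1
        rw [add_sub_cancel]
      right_inv := by
        intro X
        apply Subtype.ext
        show 1 + X.1 - 1 = X.1
        rw [add_sub_cancel_left] }
  have hc : Nat.card (Matrix.GeneralLinearGroup.map (n := Fin d) π).ker ∣ q ^ (k * (d * d)) := by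
    rw [Nat.card_congr e]
    have h1 := AddSubgroup.card_addSubgroup_dvd_card A
    have h2 : Nat.card (Matrix (Fin d) (Fin d) (ZMod (q ^ k))) = q ^ (k * (d * d)) := by
      show Nat.card (Fin d → Fin d → ZMod (q ^ k)) = _
      rw [Nat.card_fun, Nat.card_fun, Nat.card_fin, Nat.card_zmod, ← pow_mul, ← pow_mul]
    rwa [h2] at h1
  exact IsPGroup.of_card_dvd_pow hc

theorem lift_rep {G : Type*} [Group G] [Finite G] {q k d : ℕ} (hq : q.Prime) (hk : 0 < k)
    (hqG : ¬ q ∣ Nat.card G) (ρ : G →* GL (Fin d) (ZMod q)) :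
    ∃ ρ' : G →* GL (Fin d) (ZMod (q ^ k)),
      ∀ g, Matrix.GeneralLinearGroup.map (n := Fin d) (ZMod.castHom (dvd_pow_self q hk.ne') (ZMod q)) (ρ' g) = ρ g := by
  classical
  haveI : Fact q.Prime := ⟨hq⟩
  haveI : NeZero (q ^ k) := ⟨pow_ne_zero _ hq.ne_zero⟩
  have hpg := fst_ker_pgroup (d := d) hq hk
  set π : ZMod (q ^ k) →+* ZMod q := ZMod.castHom (dvd_pow_self q hk.ne') (ZMod q) with hπ
  let Pm := Matrix.GeneralLinearGroup.map (n := Fin d) π
  let E : Subgroup (G × GL (Fin d) (ZMod (q ^ k))) :=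
    { carrier := {x | Pm x.2 = ρ x.1}
      one_mem' := by simp
      mul_mem' := by
        intro x y hx hy
        show Pm (x.2 * y.2) = ρ (x.1 * y.1)
        rw [map_mul, map_mul, hx, hy]
      inv_mem' := by
        intro x hx
        show Pm (x.2)⁻¹ = ρ (x.1)⁻¹
        rw [map_inv, map_inv, hx] }
  haveI : Finite (GL (Fin d) (ZMod (q ^ k))) := inferInstance
  let f : E →* G := (MonoidHom.fst _ _).comp E.subtype
  have hfs : Function.Surjective f := by
    intro g
    -- lift the entries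
    have hπs : Function.Surjective π := ZMod.castHom_surjective _
    choose a ha using fun i j => hπs ((ρ g : Matrix (Fin d) (Fin d) (ZMod q)) i j)
    let M : Matrix (Fin d) (Fin d) (ZMod (q ^ k)) := Matrix.of a
    have hM : π.mapMatrix M = (ρ g : Matrix (Fin d) (Fin d) (ZMod q)) := by
      ext i j
      exact ha i j
    have hdet : IsUnit M.det := by
      have h1 : π M.det = (ρ g : Matrix (Fin d) (Fin d) (ZMod q)).det := by
        rw [← hM]; exact π.map_det M
      have h2 : π M.det ≠ 0 := by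
        rw [h1]
        exact (Matrix.isUnit_iff_isUnit_det _ |>.mp (ρ g).isUnit).ne_zero
      have h3 : π ((M.det.val : ℕ) : ZMod (q ^ k)) ≠ 0 := by rw [ZMod.natCast_zmod_val]; exact h2
      rw [map_natCast, ne_eq, ZMod.natCast_eq_zero_iff] at h3
      rw [← ZMod.natCast_zmod_val M.det, ZMod.isUnit_iff_coprime]
      exact ((Nat.Prime.coprime_iff_not_dvd hq).mpr h3).symm.pow_right k
    have hMu : IsUnit M := (Matrix.isUnit_iff_isUnit_det M).mpr hdet
    refine ⟨⟨(g, hMu.unit), ?_⟩, rfl⟩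
    apply Units.ext
    exact hM
  have hker : IsPGroup q f.ker := by
    let j : f.ker →* Pm.ker :=
      { toFun := fun x => ⟨((x : E) : G × GL (Fin d) (ZMod (q ^ k))).2, by
          rw [MonoidHom.mem_ker]
          have h1 : Pm ((x : E) : G × GL (Fin d) (ZMod (q ^ k))).2 = ρ ((x : E) : G × GL (Fin d) (ZMod (q ^ k))).1 := (x : E).2
          have h2 : ((x : E) : G × GL (Fin d) (ZMod (q ^ k))).1 = 1 := x.2
          rw [h1, h2, map_one]⟩
        map_one' := rfl
        map_mul' := fun _ _ => rfl }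
    refine hpg.of_injective j ?_
    intro x y hxy
    apply Subtype.ext
    apply Subtype.ext
    have hx : ((x : E) : G × GL (Fin d) (ZMod (q ^ k))).1 = 1 := x.2
    have hy : ((y : E) : G × GL (Fin d) (ZMod (q ^ k))).1 = 1 := y.2
    exact Prod.ext (hx.trans hy.symm) (congrArg Subtype.val hxy)
  have hidx : f.ker.index = Nat.card G := by
    rw [index_ker, MonoidHom.range_eq_top.mpr hfs, card_top]
  have hcop : (Nat.card f.ker).Coprime f.ker.index := by
    rw [hidx]
    obtain ⟨n, hn⟩ := IsPGroup.iff_card.mp hker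
    rw [hn]
    exact Nat.Coprime.pow_left n ((Nat.Prime.coprime_iff_not_dvd hq).mpr hqG)
  obtain ⟨C, hC⟩ := Subgroup.exists_right_complement'_of_coprime hcop
  let g : C →* G := f.comp C.subtype
  have hg : Function.Bijective g := by
    constructor
    · rw [injective_iff_map_eq_one]
      intro x hx
      have h1 : (x : E) ∈ f.ker ⊓ C := ⟨hx, x.2⟩
      rw [hC.disjoint.eq_bot, mem_bot] at h1
      exact Subtype.ext h1
    · intro y
      obtain ⟨x, rfl⟩ := hfs y
      have hx : x ∈ f.ker ⊔ C := by rw [hC.sup_eq_top]; exact mem_top x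
      rw [Subgroup.mem_sup_of_normal_left] at hx
      obtain ⟨a, ha, b, hb, rfl⟩ := hx
      refine ⟨⟨b, hb⟩, ?_⟩
      show f b = f (a * b)
      rw [map_mul, MonoidHom.mem_ker.mp ha, one_mul]
  let eg : C ≃* G := MulEquiv.ofBijective g hg
  let ρ' : G →* GL (Fin d) (ZMod (q ^ k)) := (MonoidHom.snd _ _).comp (E.subtype.comp (C.subtype.comp eg.symm.toMonoidHom))
  refine ⟨ρ', fun y => ?_⟩
  have h1 := ((eg.symm y : C) : E).2
  have h2 : ((((eg.symm y : C) : E) : G × GL (Fin d) (ZMod (q ^ k)))).1 = y := eg.apply_symm_apply y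
  have h3 : Pm (ρ' y) = ρ ((((eg.symm y : C) : E) : G × GL (Fin d) (ZMod (q ^ k)))).1 := h1
  rw [h3, h2]

theorem nil_of_map {q k d : ℕ} (hq : q.Prime) (hk : 0 < k) (X : Matrix (Fin d) (Fin d) (ZMod (q ^ k)))
    (hX : (ZMod.castHom (dvd_pow_self q hk.ne') (ZMod q)).mapMatrix X = 0) : X ^ k = 0 := by
  haveI : Fact q.Prime := ⟨hq⟩
  haveI : NeZero (q ^ k) := ⟨pow_ne_zero _ hq.ne_zero⟩
  set π : ZMod (q ^ k) →+* ZMod q := ZMod.castHom (dvd_pow_self q hk.ne') (ZMod q) with hπ
  have hker : ∀ a : ZMod (q ^ k), π a = 0 → ∃ b : ZMod (q ^ k), a = (q : ZMod (q ^ k)) * b := by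
    intro a ha
    have h1 : ((a.val : ℕ) : ZMod q) = 0 := by
      have h2 : π ((a.val : ℕ) : ZMod (q ^ k)) = 0 := by rw [ZMod.natCast_zmod_val]; exact ha
      rwa [map_natCast] at h2
    rw [ZMod.natCast_eq_zero_iff] at h1
    obtain ⟨c, hc⟩ := h1
    refine ⟨(c : ZMod (q ^ k)), ?_⟩
    rw [← ZMod.natCast_zmod_val a, hc, Nat.cast_mul]
  have hX' : ∀ i j, π (X i j) = 0 := fun i j => congrFun (congrFun hX i) j
  choose Y hY using fun i j => hker (X i j) (hX' i j)
  have h1 : X = (q : ZMod (q ^ k)) • (Matrix.of Y) := by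
    ext i j
    rw [Matrix.smul_apply, smul_eq_mul]
    exact hY i j
  rw [h1, smul_pow]
  have h2 : (q : ZMod (q ^ k)) ^ k = 0 := by
    rw [← Nat.cast_pow]; exact ZMod.natCast_self _
  rw [h2, zero_smul]

end CfsgLib.H6Lift
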