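import Cfsg.Agent.LibH6LiftA

/-! The integral form of fixed-point-freeness. -/

set_option autoImplicit false

namespace CfsgLib.H6Lift

open Subgroup

section
variable {G : Type*} [Group G] [Finite G]

noncomputable def hs (H : Subgroup G) : Finset G := (Set.toFinite (H : Set G)).toFinset

theorem mem_hs {H : Subgroup G} {g : G} : g ∈ hs H ↔ g ∈ H := by
  unfold hs; rw [Set.Finite.mem_toFinset]; rfl

theorem sum_hs_mul {H : Subgroup G} {M : Type*} [AddCommMonoid M] (f : G → M) {a : G} (ha : a ∈ H) :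
    ∑ g ∈ hs H, f (a * g) = ∑ g ∈ hs H, f g := by
  apply Finset.sum_nbij' (fun g => a * g) (fun g => a⁻¹ * g)
  · intro g hg
    rw [mem_hs] at hg ⊢
    exact mul_mem ha hg
  · intro g hg
    rw [mem_hs] at hg ⊢
    exact mul_mem (inv_mem ha) hg
  · intro g _; simp
  · intro g _; simp
  · intro g _; rfl

theorem card_hs (H : Subgroup G) : (hs H).card = Nat.card H := by
  unfold hs
  rw [← Nat.card_eq_card_finite_toFinset]
  rfl

/-- the sum of the elements of a subgroup -/
noncomputable def nrm (R : Type*) [CommRing R] (H : Subgroup G) : MonoidAlgebra R G :=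
  ∑ g ∈ hs H, MonoidAlgebra.of R G g

/-- the ideal generated by the norm elements of the nontrivial subgroups -/
noncomputable def J (R : Type*) [CommRing R] (G : Type*) [Group G] [Finite G] : Ideal (MonoidAlgebra R G) :=
  Ideal.span {x | ∃ H : Subgroup G, H ≠ ⊥ ∧ ∃ g : G, x = nrm R H * MonoidAlgebra.of R G g}

theorem nrm_mul_mem (R : Type*) [CommRing R] {H : Subgroup G} (hH : H ≠ ⊥) (x : MonoidAlgebra R G) :
    nrm R H * x ∈ J R G := by
  induction x using MonoidAlgebra.induction_on with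
  | of g => exact Ideal.subset_span ⟨H, hH, g, rfl⟩
  | add x y hx hy => rw [mul_add]; exact (J R G).add_mem hx hy
  | smul r x hx =>
    rw [mul_smul_comm, Algebra.smul_def]
    exact (J R G).mul_mem_left _ hx

/-- the integral form of fixed-point-freeness -/
def Zf (G : Type*) [Group G] [Finite G] : Prop := ∀ N : ℤ, (N : MonoidAlgebra ℤ G) ∈ J ℤ G → N = 0

theorem not_dvd_card {q d : ℕ} (hq : q.Prime) (hd : 0 < d) (ρ : G →* GL (Fin d) (ZMod q))
    (hfix : ∀ g : G, g ≠ 1 → ∀ v : Fin d → ZMod q, (ρ g).1.mulVec v = v → v = 0) : ¬ q ∣ Nat.card G := by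
  classical
  intro hdvd
  haveI : Fact q.Prime := ⟨hq⟩
  obtain ⟨g, hg⟩ := exists_prime_orderOf_dvd_card' q hdvd
  have hg1 : g ≠ 1 := by
    rintro rfl; rw [orderOf_one] at hg; exact hq.one_lt.ne hg
  set A := (ρ g).1 with hA
  have hAq : A ^ q = 1 := by
    have h1 : g ^ q = 1 := by rw [← hg]; exact pow_orderOf_eq_one g
    have h2 : ρ (g ^ q) = 1 := by rw [h1, map_one]
    rw [map_pow] at h2
    exact congrArg Units.val h2
  haveI : NeZero d := ⟨hd.ne'⟩
  have hz : (A - 1) ^ q = 0 := by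
    rw [sub_pow_char_of_commute (Commute.one_right A) (p := q), hAq, one_pow, sub_self]
  have hinj : ∀ n : ℕ, ∀ v : Fin d → ZMod q, ((A - 1) ^ n).mulVec v = 0 → v = 0 := by
    intro n
    induction n with
    | zero => intro v hv; rwa [pow_zero, Matrix.one_mulVec] at hv
    | succ n ih =>
      intro v hv
      rw [pow_succ, ← Matrix.mulVec_mulVec] at hv
      have h1 := ih _ hv
      rw [Matrix.sub_mulVec, Matrix.one_mulVec, sub_eq_zero] at h1
      exact hfix g hg1 v h1
  have h1 := hinj q (fun _ => 1) (by rw [hz, Matrix.zero_mulVec])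
  have h2 := congrFun h1 ⟨0, hd⟩
  exact one_ne_zero h2

theorem zf_of_rep {q d : ℕ} (hq : q.Prime) (hd : 0 < d) (ρ : G →* GL (Fin d) (ZMod q))
    (hfix : ∀ g : G, g ≠ 1 → ∀ v : Fin d → ZMod q, (ρ g).1.mulVec v = v → v = 0) : Zf G := by
  classical
  intro N hN
  by_contra hN0
  haveI : Fact q.Prime := ⟨hq⟩
  have hqG := not_dvd_card hq hd ρ hfix
  -- choose a large power
  set k := N.natAbs + 1 with hkdef
  have hk : 0 < k := Nat.succ_pos _
  have hlt : N.natAbs < q ^ k := lt_trans (Nat.lt_succ_self _) (Nat.lt_pow_self hq.one_lt)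
  obtain ⟨ρ', hρ'⟩ := lift_rep hq hk hqG ρ
  haveI : NeZero (q ^ k) := ⟨pow_ne_zero _ hq.ne_zero⟩
  let f : G →* Matrix (Fin d) (Fin d) (ZMod (q ^ k)) := (Units.coeHom _).comp ρ'
  let Φ := MonoidAlgebra.lift ℤ (Matrix (Fin d) (Fin d) (ZMod (q ^ k))) G f
  have hΦof : ∀ g, Φ (MonoidAlgebra.of ℤ G g) = f g := fun g => MonoidAlgebra.lift_of _ _
  have hΦn : ∀ H : Subgroup G, H ≠ ⊥ → Φ (nrm ℤ H) = 0 := by
    intro H hH
    set E := Φ (nrm ℤ H) with hE
    have hEs : E = ∑ g ∈ hs H, f g := by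
      rw [hE, nrm, map_sum]
      exact Finset.sum_congr rfl fun g _ => hΦof g
    have hfE : ∀ h ∈ H, f h * E = E := by
      intro h hh
      rw [hEs, Finset.mul_sum]
      have : ∀ g ∈ hs H, f h * f g = f (h * g) := fun g _ => (map_mul f h g).symm
      rw [Finset.sum_congr rfl this]
      exact sum_hs_mul f hh
    have hEE : E * E = (Nat.card H) • E := by
      nth_rewrite 1 [hEs]
      rw [Finset.sum_mul]
      have : ∀ g ∈ hs H, f g * E = E := fun g hg => hfE g (mem_hs.mp hg)
      rw [Finset.sum_congr rfl this, Finset.sum_const, card_hs]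
    have hEp : ∀ n : ℕ, E ^ (n + 1) = (Nat.card H) ^ n • E := by
      intro n
      induction n with
      | zero => simp
      | succ n ih =>
        calc E ^ (n + 1 + 1) = E ^ (n + 1) * E := pow_succ _ _
          _ = ((Nat.card H) ^ n • E) * E := by rw [ih]
          _ = (Nat.card H) ^ n • (E * E) := smul_mul_assoc _ _ _
          _ = (Nat.card H) ^ n • ((Nat.card H) • E) := by rw [hEE]
          _ = ((Nat.card H) ^ n * (Nat.card H)) • E := smul_smul _ _ _
          _ = (Nat.card H) ^ (n + 1) • E := by rw [← pow_succ (Nat.card H) n]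
    have hE0 : (ZMod.castHom (dvd_pow_self q hk.ne') (ZMod q)).mapMatrix E = 0 := by
      have h1 : (ZMod.castHom (dvd_pow_self q hk.ne') (ZMod q)).mapMatrix E = ∑ g ∈ hs H, (ρ g).1 := by
        rw [hEs, map_sum]
        refine Finset.sum_congr rfl fun g _ => ?_
        rw [← hρ' g]; rfl
      rw [h1]
      obtain ⟨⟨a, haH⟩, ha⟩ := Subgroup.ne_bot_iff_exists_ne_one.mp hH
      have ha1 : a ≠ 1 := fun h => ha (Subtype.ext h)
      have key : ∀ v : Fin d → ZMod q, (∑ g ∈ hs H, (ρ g).1).mulVec v = 0 := by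
        intro v
        apply hfix a ha1
        rw [Matrix.mulVec_mulVec]
        congr 1
        rw [Finset.mul_sum]
        have : ∀ g ∈ hs H, (ρ a).1 * (ρ g).1 = (ρ (a * g)).1 := fun g _ => by rw [map_mul]; rfl
        rw [Finset.sum_congr rfl this]
        exact sum_hs_mul (fun g => (ρ g).1) haH
      ext i j
      have h2 := congrFun (key (Pi.single j 1)) i
      rw [Matrix.mulVec_single_one] at h2
      exact h2
    have h1 := nil_of_map hq hk E hE0
    have h2 := hEp (k - 1)
    rw [Nat.sub_add_cancel hk, h1] at h2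
    have hu : IsUnit ((Nat.card H : ℕ) : ZMod (q ^ k)) := by
      rw [ZMod.isUnit_iff_coprime]
      have : Nat.Coprime (Nat.card H) q := by
        rw [Nat.coprime_comm]
        exact (Nat.Prime.coprime_iff_not_dvd hq).mpr (fun h => hqG (h.trans (Subgroup.card_subgroup_dvd_card H)))
      exact this.pow_right k
    ext i j
    have h3 := congrFun (congrFun h2 i) j
    rw [Matrix.smul_apply, Matrix.zero_apply, nsmul_eq_mul, Nat.cast_pow] at h3
    exact ((hu.pow (k - 1)).mul_right_eq_zero.mp h3.symm)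
  have hJ : J ℤ G ≤ RingHom.ker Φ := by
    apply Ideal.span_le.mpr
    rintro _ ⟨H, hH, g, rfl⟩
    rw [SetLike.mem_coe, RingHom.mem_ker, map_mul, hΦn H hH, zero_mul]
  have h1 : Φ (N : MonoidAlgebra ℤ G) = 0 := hJ hN
  rw [map_intCast] at h1
  have h2 := congrFun (congrFun h1 ⟨0, hd⟩) ⟨0, hd⟩
  have h3 : ((N : Matrix (Fin d) (Fin d) (ZMod (q ^ k))) ⟨0, hd⟩ ⟨0, hd⟩) = (N : ZMod (q ^ k)) := by
    rw [Matrix.intCast_apply, if_pos rfl]
  rw [h3] at h2
  rw [Matrix.zero_apply, ZMod.intCast_zmod_eq_zero_iff_dvd] at h2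
  have h4 := Int.natAbs_dvd_natAbs.mpr h2
  rw [Int.natAbs_natCast] at h4
  have h5 := Nat.le_of_dvd (Int.natAbs_pos.mpr hN0) h4
  omega

end

end CfsgLib.H6Lift
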