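import Cfsg.Agent.LibH6P3B

/-! Elements of order three of `SL(3,4)`. -/

set_option autoImplicit false

namespace CfsgLib.H6P34

open Matrix

variable {F : Type*} [Field F] [Fintype F]

local notation "SL3" => Matrix.SpecialLinearGroup (Fin 3) F
local notation "PSL3" => Matrix.ProjectiveSpecialLinearGroup (Fin 3) F

theorem two_zero (hF : Fintype.card F = 4) : (2 : F) = 0 := by
  have h := FiniteField.cast_card_eq_zero F
  rw [hF] at h
  have h2 : (2 : F) * 2 = 0 := by exact_mod_cast h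
  rcases mul_eq_zero.mp h2 with h | h <;> exact h

theorem cube (hF : Fintype.card F = 4) (c : F) (hc : c ≠ 0) : c ^ 3 = 1 := by
  have h := FiniteField.pow_card_sub_one_eq_one c hc
  rwa [hF] at h

theorem exists_omega (hF : Fintype.card F = 4) : ∃ w : F, w ≠ 0 ∧ w ≠ 1 ∧ w ^ 2 + w + 1 = 0 := by
  classical
  obtain ⟨w, hw⟩ : ∃ w : F, w ∉ ({0, 1} : Finset F) := by
    by_contra hcon
    push Not at hcon
    have h1 : (Finset.univ : Finset F) ⊆ {0, 1} := fun x _ => hcon x
    have h2 := Finset.card_le_card h1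
    rw [Finset.card_univ, hF] at h2
    have h3 := Finset.card_le_two (a := (0 : F)) (b := 1)
    omega
  rw [Finset.mem_insert, Finset.mem_singleton, not_or] at hw
  refine ⟨w, hw.1, hw.2, ?_⟩
  have h3 := cube hF w hw.1
  have h4 : (w - 1) * (w ^ 2 + w + 1) = 0 := by linear_combination h3
  exact (mul_eq_zero.mp h4).resolve_left (sub_ne_zero.mpr hw.2)

theorem det_D (w : F) (hw : w ^ 3 = 1) : (!![1, 0, 0; 0, w, 0; 0, 0, w ^ 2] : Matrix (Fin 3) (Fin 3) F).det = 1 := by
  rw [Matrix.det_fin_three]; simp; linear_combination hw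

/-- the diagonal element -/
def Dm (w : F) (hw : w ^ 3 = 1) : SL3 := ⟨_, det_D w hw⟩

theorem mul33 (A B : Matrix (Fin 3) (Fin 3) F) (i j : Fin 3) :
    (A * B) i j = A i 0 * B 0 j + A i 1 * B 1 j + A i 2 * B 2 j := by
  rw [Matrix.mul_apply, Fin.sum_univ_three]

theorem conj_pow {G : Type*} [Group G] (P x : G) (n : ℕ) : (P⁻¹ * x * P) ^ n = P⁻¹ * x ^ n * P := by
  have := _root_.conj_pow (a := P⁻¹) (b := x) (i := n)
  rwa [inv_inv] at this

theorem cube_one (hF : Fintype.card F = 4) (x : SL3) (hx : x ∉ Subgroup.center SL3) (hc : x ^ 3 ∈ Subgroup.center SL3) :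
    x ^ 3 = 1 := by
  obtain ⟨P, h0, h1, h2⟩ := H6P3.first_col x hx
  obtain ⟨y, hy⟩ : ∃ y : SL3, y = P⁻¹ * x * P := ⟨_, rfl⟩
  rw [← hy] at h0 h1 h2
  have hy3 : y ^ 3 = x ^ 3 := by
    rw [hy, CfsgLib.H6P34.conj_pow, Subgroup.mem_center_iff.mp hc P⁻¹, mul_assoc, inv_mul_cancel, mul_one]
  rw [← hy3]
  rw [← hy3] at hc
  obtain ⟨c, hc1, hc2⟩ := Matrix.SpecialLinearGroup.mem_center_iff.mp hc
  have hc3 : c = 1 := by
    have hcube : ((y ^ 3 : SL3) : Matrix (Fin 3) (Fin 3) F) = y.1 * (y.1 * y.1) := by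
      rw [pow_succ', pow_succ', pow_one]; rfl
    rw [hcube] at hc2
    have hd := y.2
    rw [Matrix.det_fin_three, h0, h1, h2] at hd
    have e0 := congrFun (congrFun hc2 0) 0
    have e1 := congrFun (congrFun hc2 1) 0
    have e2 := congrFun (congrFun hc2 2) 0
    rw [mul33, mul33, mul33, mul33, h0, h1, h2] at e0 e1 e2
    simp at e0 e1 e2 hd
    have h20 := two_zero hF
    have hc0 : c ≠ 0 := by rintro rfl; simp at hc1
    by_cases he : y.1 2 1 = 0
    · rw [he] at e0 e1 e2
      simp at e0 e1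
      have hy11 : y.1 1 1 ≠ 0 := by
        intro h
        rw [h] at e0
        simp at e0
        exact hc0 e0
      have := cube hF _ hy11
      linear_combination e0 - (y.1 1 1) * e1 - this - h20
    · have hf : y.1 2 2 = - y.1 1 1 := by
        have : y.1 2 1 * (y.1 1 1 + y.1 2 2) = 0 := by linear_combination -e2
        have := (mul_eq_zero.mp this).resolve_left he
        linear_combination this
      rw [hf] at hd
      linear_combination e0 + hd
  rw [hc3] at hc2
  apply Subtype.ext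
  rw [← hc2]
  simp


/-- the idempotent for the eigenvalue `m` -/
def E (M : Matrix (Fin 3) (Fin 3) F) (m : F) : Matrix (Fin 3) (Fin 3) F := 1 + m ^ 2 • M + m • (M * M)

theorem E_ne (hF : Fintype.card F = 4) (x : SL3) (hx : x ∉ Subgroup.center SL3) (m : F) (hm : m ≠ 0) : E x.1 m ≠ 0 := by
  intro hE
  obtain ⟨P, h0, h1, h2⟩ := H6P3.first_col x hx
  obtain ⟨y, hy⟩ : ∃ y : SL3, y = P⁻¹ * x * P := ⟨_, rfl⟩
  rw [← hy] at h0 h1 h2
  have hm3 := cube hF m hm
  have hEy : E y.1 m = 0 := by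
    have hP : (P⁻¹).1 * P.1 = 1 := congrArg Subtype.val (inv_mul_cancel P)
    have hP' : P.1 * (P⁻¹).1 = 1 := congrArg Subtype.val (mul_inv_cancel P)
    have hy1 : y.1 = (P⁻¹).1 * x.1 * P.1 := by rw [hy]; rfl
    have hyy : y.1 * y.1 = (P⁻¹).1 * (x.1 * x.1) * P.1 := by
      rw [hy1]
      calc (P⁻¹).1 * x.1 * P.1 * ((P⁻¹).1 * x.1 * P.1) = (P⁻¹).1 * x.1 * (P.1 * (P⁻¹).1) * x.1 * P.1 := by
            simp only [mul_assoc]
        _ = _ := by rw [hP', mul_one]; simp only [mul_assoc]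
    have : E y.1 m = (P⁻¹).1 * E x.1 m * P.1 := by
      unfold E
      rw [hyy, hy1, mul_add, mul_add, add_mul, add_mul, mul_one, hP, mul_smul_comm, smul_mul_assoc, mul_smul_comm, smul_mul_assoc]
    rw [this, hE, mul_zero, zero_mul]
  have hd := y.2
  rw [Matrix.det_fin_three, h0, h1, h2] at hd
  have ent : ∀ i j, (1 : Matrix (Fin 3) (Fin 3) F) i j + m ^ 2 * y.1 i j + m * (y.1 * y.1) i j = 0 := by
    intro i j
    have := congrFun (congrFun hEy i) j
    simpa [E, Matrix.add_apply, Matrix.smul_apply] using this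
  have e0 := ent 0 0
  have e1 := ent 1 0
  have e2 := ent 2 0
  have e22 := ent 2 2
  rw [mul33, h0, h1, h2] at e0
  rw [mul33, h0, h1, h2] at e1
  rw [mul33, h0, h1, h2] at e2
  rw [mul33, h2] at e22
  simp [hm] at e0 e1 e2 e22 hd
  rw [e2] at e22 hd
  have h20 := two_zero hF
  have f1 : m ^ 2 * y.1 2 2 = 1 := by linear_combination hd + y.1 2 2 * m ^ 2 * e0 - y.1 2 2 * y.1 0 1 * hm3
  have f2 : y.1 2 2 = m := by linear_combination m * f1 - y.1 2 2 * hm3
  exact one_ne_zero (α := F) (by linear_combination e22 - f1 - (m * (y.1 2 2 + m) * f2 + hm3) - h20)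

/-- every element of order three modulo the centre is conjugate to the diagonal element -/
theorem conj_D (hF : Fintype.card F = 4) (x : SL3) (hx : x ∉ Subgroup.center SL3) (h3 : x ^ 3 = 1)
    (w : F) (hw0 : w ≠ 0) (hw : w ^ 2 + w + 1 = 0) : IsConj (Dm w (cube hF w hw0)) x := by
  classical
  have hw3 := cube hF w hw0
  have h20 := two_zero hF
  have hM3 : x.1 * (x.1 * x.1) = 1 := by
    have := congrArg Subtype.val h3
    rw [pow_succ', pow_succ', pow_one] at this
    exact this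
  -- eigenvectors
  have hev : ∀ m : F, m ≠ 0 → ∃ u : Fin 3 → F, u ≠ 0 ∧ ∀ i, x.1 i 0 * u 0 + x.1 i 1 * u 1 + x.1 i 2 * u 2 = m * u i := by
    intro m hm
    have hm3 := cube hF m hm
    have hne := E_ne hF x hx m hm
    obtain ⟨j, hj⟩ : ∃ j, (fun i => E x.1 m i j) ≠ 0 := by
      by_contra hcon
      push Not at hcon
      apply hne
      ext i j
      exact congrFun (hcon j) i
    refine ⟨fun i => E x.1 m i j, hj, ?_⟩
    intro i
    have h5 : x.1 * E x.1 m = m • E x.1 m := by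
      unfold E
      rw [mul_add, mul_add, mul_one, mul_smul_comm, mul_smul_comm, hM3, smul_add, smul_add, smul_smul, smul_smul,
        show m * m ^ 2 = 1 by linear_combination hm3, one_smul, show m * m = m ^ 2 by ring]
      abel
    have h6 := congrFun (congrFun h5 i) j
    rw [mul33] at h6
    exact h6
  obtain ⟨a, ha, ha'⟩ := hev 1 one_ne_zero
  obtain ⟨b, hb, hb'⟩ := hev w hw0
  obtain ⟨c, hc, hc'⟩ := hev (w ^ 2) (pow_ne_zero 2 hw0)
  obtain ⟨P, hP⟩ : ∃ P : Matrix (Fin 3) (Fin 3) F, P = !![a 0, b 0, c 0; a 1, b 1, c 1; a 2, b 2, c 2] := ⟨_, rfl⟩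
  have hPd : P.det ≠ 0 := by
    intro hd
    obtain ⟨v, hv, hPv⟩ := Matrix.exists_mulVec_eq_zero_iff.mpr hd
    have e : ∀ i, a i * v 0 + b i * v 1 + c i * v 2 = 0 := by
      intro i
      have := congrFun hPv i
      rw [hP] at this
      fin_cases i <;> simpa [Matrix.mulVec, dotProduct, Fin.sum_univ_three] using this
    have e2 : ∀ i, a i * v 0 + w * b i * v 1 + w ^ 2 * c i * v 2 = 0 := by
      intro i
      linear_combination x.1 i 0 * e 0 + x.1 i 1 * e 1 + x.1 i 2 * e 2 - v 0 * ha' i - v 1 * hb' i - v 2 * hc' i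
    have e3 : ∀ i, a i * v 0 + w ^ 2 * b i * v 1 + w * c i * v 2 = 0 := by
      intro i
      linear_combination x.1 i 0 * e2 0 + x.1 i 1 * e2 1 + x.1 i 2 * e2 2 - v 0 * ha' i - w * v 1 * hb' i - w ^ 2 * v 2 * hc' i
        - w * c i * v 2 * hw3
    apply hv
    have v0 : v 0 = 0 := by
      by_contra h
      apply ha
      funext i
      have : a i * v 0 = 0 := by
        linear_combination e i + e2 i + e3 i - (b i * v 1 + c i * v 2) * hw - a i * v 0 * h20
      exact (mul_eq_zero.mp this).resolve_right h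
    have v1 : v 1 = 0 := by
      by_contra h
      apply hb
      funext i
      have : b i * v 1 = 0 := by
        linear_combination e i + w ^ 2 * e2 i + w * e3 i - (a i * v 0) * hw - (c i * v 2) * (w ^ 2 - w + 1) * hw -
          2 * b i * v 1 * hw3 - b i * v 1 * h20
      exact (mul_eq_zero.mp this).resolve_right h
    have v2 : v 2 = 0 := by
      by_contra h
      apply hc
      funext i
      have := e i
      rw [v0, v1] at this
      simp at this
      exact this.resolve_right h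
    funext i
    fin_cases i
    · exact v0
    · exact v1
    · exact v2
  -- scale the last column
  obtain ⟨Q, hQ⟩ : ∃ Q : SL3, Q.1 = !![a 0, b 0, c 0 * P.det⁻¹; a 1, b 1, c 1 * P.det⁻¹; a 2, b 2, c 2 * P.det⁻¹] := by
    refine ⟨⟨!![a 0, b 0, c 0 * P.det⁻¹; a 1, b 1, c 1 * P.det⁻¹; a 2, b 2, c 2 * P.det⁻¹], ?_⟩, rfl⟩
    have h7 : (!![a 0, b 0, c 0 * P.det⁻¹; a 1, b 1, c 1 * P.det⁻¹; a 2, b 2, c 2 * P.det⁻¹] : Matrix (Fin 3) (Fin 3) F).det = P.det * P.det⁻¹ := by
      generalize P.det⁻¹ = t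
      rw [hP, Matrix.det_fin_three, Matrix.det_fin_three]
      simp
      ring
    rw [h7, mul_inv_cancel₀ hPd]
  rw [isConj_iff]
  refine ⟨Q, ?_⟩
  rw [mul_inv_eq_iff_eq_mul]
  apply Subtype.ext
  show Q.1 * !![1, 0, 0; 0, w, 0; 0, 0, w ^ 2] = x.1 * Q.1
  rw [hQ]
  ext i j
  rw [mul33, mul33]
  have a1 := ha' i
  have b1 := hb' i
  have c1 := hc' i
  fin_cases i <;> fin_cases j <;> simp at a1 b1 c1 ⊢
  all_goals first
    | linear_combination -a1
    | linear_combination -b1
    | linear_combination -P.det⁻¹ * c1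

end CfsgLib.H6P34
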