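import Cfsg.Agent.LibH6P34A

/-! `SL(3,4)`: centre, nonsplitness, and the subgroups of order three of `PSL(3,4)`. -/

set_option autoImplicit false

namespace CfsgLib.H6P34

open Matrix Pointwise

variable {F : Type*} [Field F] [Fintype F]

local notation "SL3" => Matrix.SpecialLinearGroup (Fin 3) F
local notation "PSL3" => Matrix.ProjectiveSpecialLinearGroup (Fin 3) F

theorem card_center (hF : Fintype.card F = 4) : Nat.card ↥(Subgroup.center SL3) = 3 := by
  rw [Nat.card_congr (Matrix.SpecialLinearGroup.center_equiv_rootsOfUnity' (0 : Fin 3)).toEquiv, Fintype.card_fin]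
  have h : rootsOfUnity 3 F = ⊤ := by
    rw [eq_top_iff]
    intro u _
    rw [mem_rootsOfUnity]
    apply Units.ext
    rw [Units.val_pow_eq_pow_val]
    exact cube hF _ u.ne_zero
  rw [h, Subgroup.card_top, Nat.card_units, Nat.card_eq_fintype_card, hF]

theorem no_complement (hF : Fintype.card F = 4) :
    ¬ ∃ K : Subgroup SL3, Subgroup.IsComplement' (Subgroup.center SL3) K := by
  rintro ⟨K, hK⟩
  obtain ⟨w, hw0, hw1, hw⟩ := exists_omega hF
  have hw3 := cube hF w hw0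
  obtain ⟨P, hP⟩ : ∃ P : SL3, P.1 = !![0, 1, 0; 0, 0, 1; 1, 0, 0] :=
    ⟨⟨!![0, 1, 0; 0, 0, 1; 1, 0, 0], by rw [Matrix.det_fin_three]; simp⟩, rfl⟩
  obtain ⟨z, hz⟩ : ∃ z : SL3, z.1 = !![w, 0, 0; 0, w, 0; 0, 0, w] :=
    ⟨⟨!![w, 0, 0; 0, w, 0; 0, 0, w], by rw [Matrix.det_fin_three]; simp; linear_combination hw3⟩, rfl⟩
  obtain ⟨D, hD⟩ : ∃ D : SL3, D = Dm w hw3 := ⟨_, rfl⟩
  have hrel : P * D = z * (D * P) := by
    apply Subtype.ext
    show P.1 * D.1 = z.1 * (D.1 * P.1)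
    have hD' : D.1 = !![1, 0, 0; 0, w, 0; 0, 0, w ^ 2] := by rw [hD]; rfl
    rw [hP, hD', hz]
    ext i j
    rw [mul33, mul33, mul33, mul33, mul33]
    fin_cases i <;> fin_cases j <;> simp
    · ring
    · linear_combination -hw3
  have hzc : z ∈ Subgroup.center SL3 := by
    rw [Matrix.SpecialLinearGroup.mem_center_iff]
    refine ⟨w, by rw [Fintype.card_fin]; exact hw3, ?_⟩
    rw [hz]
    ext i j
    fin_cases i <;> fin_cases j <;> simp
  obtain ⟨⟨z1, k1⟩, h1, -⟩ := hK.existsUnique D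
  obtain ⟨⟨z2, k2⟩, h2, -⟩ := hK.existsUnique P
  have c1 := fun g => Subgroup.mem_center_iff.mp z1.2 g
  have c2 := fun g => Subgroup.mem_center_iff.mp z2.2 g
  have cz := fun g => Subgroup.mem_center_iff.mp hzc g
  have h3 : k2.1 * k1.1 = z * (k1.1 * k2.1) := by
    have h4 : P * D = (z1.1 * z2.1) * (k2.1 * k1.1) := by
      rw [← h1, ← h2]
      show z2.1 * k2.1 * (z1.1 * k1.1) = _
      rw [← mul_assoc, mul_assoc z2.1 k2.1 z1.1, c1 k2.1, ← mul_assoc z2.1, c1 z2.1]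
      simp only [mul_assoc]
    have h5 : z * (D * P) = (z1.1 * z2.1) * (z * (k1.1 * k2.1)) := by
      rw [← h1, ← h2]
      show z * (z1.1 * k1.1 * (z2.1 * k2.1)) = _
      rw [← mul_assoc (z1.1 * k1.1), mul_assoc z1.1 k1.1 z2.1, c2 k1.1, ← mul_assoc z1.1, ← cz]
      simp only [mul_assoc]
      rw [← cz]
      simp only [mul_assoc]
    rw [hrel, h5] at h4
    exact (mul_left_cancel h4).symm
  have h6 : z ∈ K := by
    have : z = k2.1 * k1.1 * (k1.1 * k2.1)⁻¹ := by rw [h3, mul_inv_cancel_right]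
    rw [this]
    exact K.mul_mem (K.mul_mem k2.2 k1.2) (K.inv_mem (K.mul_mem k1.2 k2.2))
  have h7 : z = 1 := by
    have := hK.disjoint.le_bot (Subgroup.mem_inf.mpr ⟨hzc, h6⟩)
    exact Subgroup.mem_bot.mp this
  have h8 := congrFun (congrFun hz 0) 0
  rw [h7] at h8
  exact hw1 (by simpa using h8.symm)

theorem conj_order_three (hF : Fintype.card F = 4) (w : F) (hw0 : w ≠ 0) (hw : w ^ 2 + w + 1 = 0) (X : Subgroup PSL3)
    (hX : Nat.card X = 3) :
    ∃ g : PSL3, MulAut.conj g • Subgroup.zpowers (QuotientGroup.mk (Dm w (cube hF w hw0)) : PSL3) = X := by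
  haveI : Fact (Nat.Prime 3) := ⟨Nat.prime_three⟩
  haveI : IsCyclic X := isCyclic_of_prime_card hX
  obtain ⟨⟨g, hgX⟩, hg⟩ := IsCyclic.exists_generator (α := X)
  have hgz : Subgroup.zpowers g = X := by
    apply le_antisymm
    · rw [Subgroup.zpowers_le]; exact hgX
    · intro y hy
      obtain ⟨n, hn⟩ := Subgroup.mem_zpowers_iff.mp (hg ⟨y, hy⟩)
      exact Subgroup.mem_zpowers_iff.mpr ⟨n, congrArg Subtype.val hn⟩
  obtain ⟨x, rfl⟩ := QuotientGroup.mk_surjective g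
  have hne : (QuotientGroup.mk x : PSL3) ≠ 1 := by
    intro h
    rw [← hgz, h, Subgroup.zpowers_one_eq_bot, Subgroup.card_bot] at hX
    omega
  have hxc : x ∉ Subgroup.center SL3 := fun h => hne ((QuotientGroup.eq_one_iff x).mpr h)
  have h3 : (QuotientGroup.mk x : PSL3) ^ 3 = 1 := by
    have h4 : orderOf (QuotientGroup.mk x : PSL3) = 3 := by rw [← Nat.card_zpowers, hgz]; exact hX
    exact orderOf_dvd_iff_pow_eq_one.mp h4.dvd
  have h3c : x ^ 3 ∈ Subgroup.center SL3 := by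
    rw [← QuotientGroup.eq_one_iff, QuotientGroup.mk_pow]; exact h3
  have hx3 := cube_one hF x hxc h3c
  obtain ⟨c, hc⟩ := isConj_iff.mp (conj_D hF x hxc hx3 w hw0 hw)
  refine ⟨QuotientGroup.mk c, ?_⟩
  rw [← hgz, ← hc]
  exact (MonoidHom.map_zpowers (MulAut.conj (QuotientGroup.mk c : PSL3)).toMonoidHom (QuotientGroup.mk (Dm w (cube hF w hw0)) : PSL3))

theorem all_conj (hF : Fintype.card F = 4) (X Y : Subgroup PSL3) (hX : Nat.card ↥X = 3) (hY : Nat.card ↥Y = 3) :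
    ∃ g : PSL3, MulAut.conj g • X = Y := by
  obtain ⟨w, hw0, _, hw⟩ := exists_omega hF
  obtain ⟨g, hg⟩ := conj_order_three hF w hw0 hw X hX
  obtain ⟨h, hh⟩ := conj_order_three hF w hw0 hw Y hY
  refine ⟨h * g⁻¹, ?_⟩
  rw [← hg, ← hh, smul_smul, ← map_mul, inv_mul_cancel_right]

end CfsgLib.H6P34
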