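import Cfsg.Agent.LibPermAlg20c

set_option autoImplicit false
set_option linter.all false
set_option maxHeartbeats 1000000

/-! # Self-paired orbitals (helper20) -/

namespace CfsgLib.PermAlg20

open Cfsg CfsgLib.CharBasic
open scoped ComplexConjugate
open Representation (IntertwiningMap)

universe u v

variable {G : Type u} [Group G] [Fintype G] {Ω : Type v} [Fintype Ω] [MulAction G Ω]

theorem perm_char_eq : (permRep ℂ G Ω).character = pic G Ω := by
  funext g
  exact trace_perm g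

open Classical in
/-- matrix entries -/
noncomputable def tk (T : Module.End ℂ (Ω → ℂ)) (x y : Ω) : ℂ := T (Pi.single y 1) x

theorem perm_single [DecidableEq Ω] (g : G) (y : Ω) : permRep ℂ G Ω g (Pi.single y 1) = Pi.single (g • y) 1 := by
  funext x
  show (Pi.single y (1 : ℂ) : Ω → ℂ) (g⁻¹ • x) = (Pi.single (g • y) (1 : ℂ) : Ω → ℂ) x
  rw [Pi.single_apply, Pi.single_apply]
  have : g⁻¹ • x = y ↔ x = g • y := inv_smul_eq_iff
  simp only [this]

theorem tk_inv {T : Module.End ℂ (Ω → ℂ)} (hT : ∀ g : G, Commute T (permRep ℂ G Ω g)) : Inv G (tk T) := by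
  classical
  intro g x y
  unfold tk
  rw [← perm_single g y]
  have h1 := congrFun (LinearMap.congr_fun (hT g).eq (Pi.single y 1)) (g • x)
  have h2 : (permRep ℂ G Ω g) (T (Pi.single y 1)) (g • x) = T (Pi.single y 1) x := by
    show T (Pi.single y 1) (g⁻¹ • g • x) = _
    rw [inv_smul_smul]
  rw [← h2]
  exact h1

theorem tk_ext {S T : Module.End ℂ (Ω → ℂ)} (h : ∀ x y, tk S x y = tk T x y) : S = T := by
  classical
  apply (Pi.basisFun ℂ Ω).ext
  intro y
  rw [Pi.basisFun_apply]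
  funext x
  have := h x y
  unfold tk at this
  convert this

theorem tk_comp (S T : Module.End ℂ (Ω → ℂ)) (x y : Ω) : tk (S ∘ₗ T) x y = ∑ z, tk S x z * tk T z y := by
  classical
  unfold tk
  rw [LinearMap.comp_apply]
  have h1 : T (Pi.single y 1) = ∑ z, T (Pi.single y 1) z • (Pi.single z 1 : Ω → ℂ) := by
    funext w
    simp [Finset.sum_apply, Pi.single_apply]
  conv_lhs => rw [h1]
  rw [map_sum, Finset.sum_apply]
  apply Finset.sum_congr rfl
  intro z _
  rw [map_smul]
  simp [mul_comm]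

theorem tk_add (S T : Module.End ℂ (Ω → ℂ)) (x y : Ω) : tk (S + T) x y = tk S x y + tk T x y := rfl

theorem tk_smul (c : ℂ) (T : Module.End ℂ (Ω → ℂ)) (x y : Ω) : tk (c • T) x y = c * tk T x y := rfl

theorem tk_sum {ι : Type*} (s : Finset ι) (F : ι → Module.End ℂ (Ω → ℂ)) (x y : Ω) : tk (∑ i ∈ s, F i) x y = ∑ i ∈ s, tk (F i) x y := by
  classical
  unfold tk
  rw [LinearMap.sum_apply, Finset.sum_apply]

theorem tk_kop (K : Ω → Ω → ℂ) (x y : Ω) : tk (kop K) x y = K x y := by
  classical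
  unfold tk
  rw [kop_apply, Finset.sum_eq_single y]
  · simp
  · intro z _ hz; rw [Pi.single_eq_of_ne hz, mul_zero]
  · intro h; exact absurd (Finset.mem_univ _) h

theorem tk_perm [DecidableEq Ω] (g : G) (x y : Ω) : tk (permRep ℂ G Ω g) x y = if g • y = x then 1 else 0 := by
  unfold tk
  have : (permRep ℂ G Ω g) (Pi.single y 1) = (Pi.single (g • y) 1 : Ω → ℂ) := perm_single g y
  convert congrFun this x using 1
  · congr!
  · rw [Pi.single_apply]
    simp only [eq_comm]

theorem tk_E [DecidableEq Ω] (χ : IrrCharacter G) (x y : Ω) :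
    tk (E (permRep ℂ G Ω) χ) x y = ∑ g : G, ee (χ : G → ℂ) g * if g • y = x then 1 else 0 := by
  unfold E R
  rw [tk_sum]
  apply Finset.sum_congr rfl
  intro g _
  rw [tk_smul, tk_perm]

/-- the complex conjugate character -/
def bar (χ : IrrCharacter G) : IrrCharacter G := ⟨fun g => conj ((χ : G → ℂ) g), isIrrCharacter_conj χ.2⟩

theorem tk_E_symm (χ : IrrCharacter G) (x y : Ω) : tk (E (permRep ℂ G Ω) χ) y x = tk (E (permRep ℂ G Ω) (bar χ)) x y := by
  classical
  rw [tk_E, tk_E, ← Equiv.sum_comp (Equiv.inv G)]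
  apply Finset.sum_congr rfl
  intro g _
  rw [Equiv.inv_apply]
  have h1 : ee (χ : G → ℂ) g⁻¹ = ee (bar χ : G → ℂ) g := by
    unfold ee
    have h2 : (bar χ : G → ℂ) g = conj ((χ : G → ℂ) g) := rfl
    have h3 : (bar χ : G → ℂ) 1 = conj ((χ : G → ℂ) 1) := rfl
    rw [h2, h3, char_inv_eq_conj (CfsgLib.CharBasic.irr_isCharacter χ.2), CfsgLib.CharInt.irr_one_eq_charDegree χ.2, Complex.conj_natCast]
  have h4 : g⁻¹ • x = y ↔ g • y = x := by
    rw [inv_smul_eq_iff]; exact eq_comm
  rw [h1]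
  simp only [h4]

theorem selfpaired_mf (hsp : ∀ a b : Ω, ∃ g : G, g • a = b ∧ g • b = a) (χ : IrrCharacter G) :
    classInner (pic G Ω) (χ : G → ℂ) = 0 ∨ (classInner (pic G Ω) (χ : G → ℂ) = 1 ∧ ∀ g, conj ((χ : G → ℂ) g) = (χ : G → ℂ) g) := by
  classical
  have hsymm : ∀ T : Module.End ℂ (Ω → ℂ), (∀ g : G, Commute T (permRep ℂ G Ω g)) → ∀ x y, tk T x y = tk T y x := by
    intro T hT x y
    obtain ⟨g, h1, h2⟩ := hsp x y
    have := tk_inv hT g x y
    rw [h1, h2] at this
    exact this.symm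
  have hcomm : ∀ S T : Module.End ℂ (Ω → ℂ), (∀ g : G, Commute S (permRep ℂ G Ω g)) → (∀ g : G, Commute T (permRep ℂ G Ω g)) → Commute S T := by
    intro S T hS hT
    show S ∘ₗ T = T ∘ₗ S
    apply tk_ext
    intro x y
    have hTS : ∀ g : G, Commute (T ∘ₗ S) (permRep ℂ G Ω g) := fun g => Commute.mul_left (hT g) (hS g)
    rw [hsymm (T ∘ₗ S) hTS x y, tk_comp, tk_comp]
    apply Finset.sum_congr rfl
    intro z _
    rw [hsymm S hS x z, hsymm T hT z y, mul_comm]
  have h1 := comm_mf (permRep ℂ G Ω) hcomm χ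
  rw [perm_char_eq] at h1
  rcases h1 with h1 | h1
  · exact Or.inl h1
  · refine Or.inr ⟨h1, ?_⟩
    have hE : E (permRep ℂ G Ω) χ = E (permRep ℂ G Ω) (bar χ) := by
      apply tk_ext
      intro x y
      rw [hsymm _ (fun g => E_comm' _ χ g) x y, tk_E_symm]
    by_contra hcon
    have hne : χ ≠ bar χ := by
      intro h2
      apply hcon
      intro g
      exact (congrFun (congrArg Subtype.val h2) g).symm
    have h3 := E_comp (permRep ℂ G Ω) χ (bar χ)
    rw [if_neg hne, ← hE, E_comp, if_pos rfl] at h3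
    have h4 := E_trace (permRep ℂ G Ω) χ
    rw [h3, map_zero, perm_char_eq, h1, mul_one] at h4
    exact CfsgLib.CharInt.irr_one_ne_zero χ.2 h4.symm

theorem mf_selfpaired (hmf : ∀ χ : IrrCharacter G, classInner (pic G Ω) (χ : G → ℂ) = 0 ∨
    (classInner (pic G Ω) (χ : G → ℂ) = 1 ∧ ∀ g, conj ((χ : G → ℂ) g) = (χ : G → ℂ) g)) (a b : Ω) :
    ∃ g : G, g • a = b ∧ g • b = a := by
  classical
  obtain ⟨θ, hθ, hθ0⟩ := span_E (permRep ℂ G Ω) (fun χ => by
    rw [perm_char_eq]
    rcases hmf χ with h | h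
    · exact Or.inl h
    · exact Or.inr h.1) (T := kop (fun x y => (orbM G a b x y : ℂ))) (kop_comm (orb_inv a b))
  have hs : ∀ x y, tk (kop (fun x y => (orbM G a b x y : ℂ))) x y = tk (kop (fun x y => (orbM G a b x y : ℂ))) y x := by
    intro x y
    rw [hθ, tk_sum, tk_sum]
    apply Finset.sum_congr rfl
    intro χ _
    rw [tk_smul, tk_smul]
    rcases hmf χ with h | h
    · rw [hθ0 χ (by rw [perm_char_eq]; exact h)]; ring
    · rw [tk_E_symm χ x y]
      have : bar χ = χ := Subtype.ext (funext h.2)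
      rw [this]
  have h1 := hs a b
  rw [tk_kop, tk_kop] at h1
  have h2 : orbM G a b a b = 1 := by
    unfold orbM
    rw [if_pos ⟨1, one_smul _ _, one_smul _ _⟩]
  rw [h2] at h1
  by_contra hcon
  have h3 : orbM G a b b a = 0 := by
    unfold orbM
    rw [if_neg hcon]
  rw [h3] at h1
  simp at h1

end CfsgLib.PermAlg20
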