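import Cfsg.Agent.LibFS
import Cfsg.Agent.LibCharBasic3
import Cfsg.Agent.LibPermAlg20d
/-!
# The exterior square of a character; square roots in permutation groups (helper6)
-/
set_option autoImplicit false
set_option linter.all false
open Cfsg
open scoped ComplexConjugate Kronecker
namespace CfsgLib.H6Qa
open CfsgLib.CharBasic

universe u v

section Ext
variable {G : Type u} [Group G]

theorem char_proj {V : Type v} [AddCommGroup V] [Module ℂ V] [FiniteDimensional ℂ V] (ρ : Representation ℂ G V) (P : V →ₗ[ℂ] V)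
    (hP : P ∘ₗ P = P) (hc : ∀ g, P ∘ₗ ρ g = ρ g ∘ₗ P) : IsCharacter G (fun g => LinearMap.trace ℂ V (ρ g ∘ₗ P)) := by
  obtain ⟨W, hW⟩ : ∃ W : Submodule ℂ V, W = LinearMap.range P := ⟨_, rfl⟩
  have hPw : ∀ w : W, P (w : V) = w := by
    intro w
    obtain ⟨v, hv⟩ : ∃ v, P v = w := by
      have h0 := hW.le w.2
      exact h0
    rw [← hv]
    exact LinearMap.congr_fun hP v
  let π : V →ₗ[ℂ] W := LinearMap.codRestrict W P (fun v => by rw [hW]; exact ⟨v, rfl⟩)
  let ι : W →ₗ[ℂ] V := W.subtype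
  have hπι : π ∘ₗ ι = LinearMap.id := by
    ext w
    exact hPw w
  have hιπ : ι ∘ₗ π = P := by
    ext v; rfl
  have hPι : P ∘ₗ ι = ι := by
    ext w
    exact hPw w
  let σ : Representation ℂ G W :=
    { toFun := fun g => π ∘ₗ ρ g ∘ₗ ι
      map_one' := by
        rw [map_one]
        exact hπι
      map_mul' := by
        intro g h
        rw [map_mul]
        show π ∘ₗ (ρ g ∘ₗ ρ h) ∘ₗ ι = (π ∘ₗ ρ g ∘ₗ ι) ∘ₗ (π ∘ₗ ρ h ∘ₗ ι)
        calc π ∘ₗ (ρ g ∘ₗ ρ h) ∘ₗ ι = π ∘ₗ ρ g ∘ₗ ρ h ∘ₗ (P ∘ₗ ι) := by rw [hPι]; rfl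
          _ = π ∘ₗ ρ g ∘ₗ (ρ h ∘ₗ P) ∘ₗ ι := rfl
          _ = π ∘ₗ ρ g ∘ₗ (P ∘ₗ ρ h) ∘ₗ ι := by rw [hc]
          _ = π ∘ₗ ρ g ∘ₗ ((ι ∘ₗ π) ∘ₗ ρ h) ∘ₗ ι := by rw [hιπ]
          _ = _ := rfl }
  have h1 := isCharacter_character σ
  have h2 : (fun g => LinearMap.trace ℂ V (ρ g ∘ₗ P)) = σ.character := by
    funext g
    show LinearMap.trace ℂ V (ρ g ∘ₗ P) = LinearMap.trace ℂ W (π ∘ₗ ρ g ∘ₗ ι)
    have h3 := LinearMap.trace_comp_comm' π (ρ g ∘ₗ ι)
    rw [LinearMap.comp_assoc, hιπ] at h3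
    exact h3
  rw [h2]
  exact h1

/-- the exterior square is a character -/
theorem ext_sq {χ : G → ℂ} (hχ : IsCharacter G χ) : IsCharacter G (fun g => (χ g ^ 2 - χ (g * g)) / 2) := by
  classical
  obtain ⟨n, ρ, rfl⟩ := hχ
  let A : G → Matrix (Fin n) (Fin n) ℂ := fun g => LinearMap.toMatrix' (ρ g)
  have hAm : ∀ g h, A (g * h) = A g * A h := fun g h => by simp only [A, map_mul, LinearMap.toMatrix'_mul]
  have hA1 : A 1 = 1 := by simp only [A, map_one, LinearMap.toMatrix'_one]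
  have htr : ∀ g, (A g).trace = ρ.character g := by
    intro g
    rw [Representation.character, LinearMap.trace_eq_matrix_trace ℂ (Pi.basisFun ℂ (Fin n))]
    rfl
  let K : G → Matrix (Fin n × Fin n) (Fin n × Fin n) ℂ := fun g => A g ⊗ₖ A g
  have hKm : ∀ g h, K (g * h) = K g * K h := fun g h => by
    show A (g * h) ⊗ₖ A (g * h) = (A g ⊗ₖ A g) * (A h ⊗ₖ A h)
    rw [hAm, Matrix.mul_kronecker_mul]
  have hK1 : K 1 = 1 := by
    show A 1 ⊗ₖ A 1 = 1
    rw [hA1, Matrix.one_kronecker_one]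
  let S : Matrix (Fin n × Fin n) (Fin n × Fin n) ℂ := Matrix.of fun x y => if x = y.swap then 1 else 0
  have hSl : ∀ M : Matrix (Fin n × Fin n) (Fin n × Fin n) ℂ, ∀ x y, (S * M) x y = M x.swap y := by
    intro M x y
    rw [Matrix.mul_apply, Finset.sum_eq_single x.swap]
    · show (if x = x.swap.swap then (1 : ℂ) else 0) * _ = _
      rw [Prod.swap_swap, if_pos rfl, one_mul]
    · intro z _ hz
      show (if x = z.swap then (1 : ℂ) else 0) * _ = _
      rw [if_neg, zero_mul]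
      intro h
      apply hz
      rw [h, Prod.swap_swap]
    · intro h; exact absurd (Finset.mem_univ _) h
  have hSr : ∀ M : Matrix (Fin n × Fin n) (Fin n × Fin n) ℂ, ∀ x y, (M * S) x y = M x y.swap := by
    intro M x y
    rw [Matrix.mul_apply, Finset.sum_eq_single y.swap]
    · show _ * (if y.swap = y.swap then (1 : ℂ) else 0) = _
      rw [if_pos rfl, mul_one]
    · intro z _ hz
      show _ * (if z = y.swap then (1 : ℂ) else 0) = _
      rw [if_neg hz, mul_zero]
    · intro h; exact absurd (Finset.mem_univ _) h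
  have hSS : S * S = 1 := by
    ext x y
    rw [hSl]
    show (if x.swap = y.swap then (1 : ℂ) else 0) = _
    rw [Matrix.one_apply]
    simp only [Prod.swap_inj]
  have hKS : ∀ g, S * K g = K g * S := by
    intro g
    ext x y
    rw [hSl, hSr]
    show A g x.2 y.1 * A g x.1 y.2 = A g x.1 y.2 * A g x.2 y.1
    ring
  let σ : Representation ℂ G (Fin n × Fin n → ℂ) :=
    { toFun := fun g => Matrix.toLin' (K g)
      map_one' := by rw [hK1, Matrix.toLin'_one]; rfl
      map_mul' := by intro g h; rw [hKm, Matrix.toLin'_mul]; rfl }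
  obtain ⟨Q, hQ⟩ : ∃ Q : Matrix (Fin n × Fin n) (Fin n × Fin n) ℂ, Q = (2⁻¹ : ℂ) • (1 - S) := ⟨_, rfl⟩
  have hQQ : Q * Q = Q := by
    rw [hQ, Matrix.smul_mul, Matrix.mul_smul, smul_smul, sub_mul, mul_sub, mul_sub, hSS, one_mul, one_mul, mul_one]
    ext x y
    simp only [Matrix.smul_apply, Matrix.sub_apply, smul_eq_mul]
    ring
  have hQK : ∀ g, Q * K g = K g * Q := by
    intro g
    rw [hQ, Matrix.smul_mul, Matrix.mul_smul, sub_mul, mul_sub, hKS, one_mul, mul_one]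
  have h1 := char_proj σ (Matrix.toLin' Q) (by rw [← Matrix.toLin'_mul, hQQ]) (fun g => by
    show Matrix.toLin' Q ∘ₗ Matrix.toLin' (K g) = Matrix.toLin' (K g) ∘ₗ Matrix.toLin' Q
    rw [← Matrix.toLin'_mul, ← Matrix.toLin'_mul, hQK])
  have h2 : (fun g => (ρ.character g ^ 2 - ρ.character (g * g)) / 2) = fun g => LinearMap.trace ℂ (Fin n × Fin n → ℂ) (σ g ∘ₗ Matrix.toLin' Q) := by
    funext g
    show _ = LinearMap.trace ℂ (Fin n × Fin n → ℂ) (Matrix.toLin' (K g) ∘ₗ Matrix.toLin' Q)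
    rw [← Matrix.toLin'_mul, Matrix.trace_toLin'_eq]
    rw [hQ, Matrix.mul_smul, Matrix.trace_smul, mul_sub, Matrix.trace_sub, mul_one]
    have e1 : (K g).trace = ρ.character g ^ 2 := by
      show (A g ⊗ₖ A g).trace = _
      rw [Matrix.trace_kronecker, htr, pow_two]
    have e2 : (K g * S).trace = ρ.character (g * g) := by
      rw [← htr, hAm]
      unfold Matrix.trace
      rw [Fintype.sum_prod_type]
      apply Finset.sum_congr rfl
      intro i _
      rw [Matrix.diag_apply, Matrix.mul_apply]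
      apply Finset.sum_congr rfl
      intro j _
      rw [Matrix.diag_apply, hSr]
      rfl
    rw [e1, e2, smul_eq_mul]
    ring
  rw [h2]
  exact h1

end Ext

section Sq
open MulAction
variable {G : Type u} [Group G] [Fintype G] {Ω : Type v} [MulAction G Ω] [Fintype Ω]

theorem sum_sq (hsp : ∀ a b : Ω, ∃ g : G, g • a = b ∧ g • b = a) :
    ∑ g : G, Nat.card (fixedBy Ω (g * g)) = ∑ g : G, Nat.card (fixedBy Ω g) * Nat.card (fixedBy Ω g) := by
  classical
  have h1 : ∀ g : G, Nat.card (fixedBy Ω (g * g)) = ∑ x : Ω × Ω, if g • x.1 = x.2 ∧ g • x.2 = x.1 then 1 else 0 := by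
    intro g
    rw [Finset.sum_boole, Nat.cast_id, ← Fintype.card_subtype, Nat.card_eq_fintype_card]
    refine Fintype.card_congr ⟨fun a => ⟨(a, g • (a : Ω)), rfl, ?_⟩, fun x => ⟨x.1.1, ?_⟩, fun a => rfl, ?_⟩
    · have := a.2
      rw [mem_fixedBy, mul_smul] at this
      exact this
    · rw [mem_fixedBy, mul_smul, x.2.1, x.2.2]
    · intro x
      apply Subtype.ext
      exact Prod.ext rfl x.2.1
  have h2 : ∀ g : G, Nat.card (fixedBy Ω g) * Nat.card (fixedBy Ω g) = ∑ x : Ω × Ω, if g • x.1 = x.1 ∧ g • x.2 = x.2 then 1 else 0 := by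
    intro g
    rw [Finset.sum_boole, Nat.cast_id, ← Fintype.card_subtype, ← Nat.card_prod, Nat.card_eq_fintype_card]
    exact Fintype.card_congr ⟨fun a => ⟨(a.1, a.2), a.1.2, a.2.2⟩, fun x => (⟨x.1.1, x.2.1⟩, ⟨x.1.2, x.2.2⟩), fun a => rfl, fun x => rfl⟩
  rw [Finset.sum_congr rfl (fun g _ => h1 g), Finset.sum_congr rfl (fun g _ => h2 g), Finset.sum_comm]
  rw [Finset.sum_comm (f := fun (g : G) (x : Ω × Ω) => if g • x.1 = x.1 ∧ g • x.2 = x.2 then 1 else 0)]
  apply Finset.sum_congr rfl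
  rintro ⟨a, b⟩ _
  obtain ⟨h, h3, h4⟩ := hsp a b
  refine Fintype.sum_equiv (Equiv.mulLeft h) _ _ ?_
  intro g
  show (if g • a = b ∧ g • b = a then 1 else 0) = if (h * g) • a = a ∧ (h * g) • b = b then 1 else 0
  have e1 : (h * g) • a = a ↔ g • a = b := by
    rw [mul_smul]
    constructor
    · intro h5
      have : h • g • a = h • b := by rw [h5, h4]
      exact smul_left_cancel h this
    · intro h5; rw [h5, h4]
  have e2 : (h * g) • b = b ↔ g • b = a := by
    rw [mul_smul]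
    constructor
    · intro h5
      have : h • g • b = h • a := by rw [h5, h3]
      exact smul_left_cancel h this
    · intro h5; rw [h5, h3]
  simp only [e1, e2]

end Sq

end CfsgLib.H6Qa
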