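import Cfsg.Agent.LibPrimeDeg20b
import Cfsg.Agent.LibDegTwoP20h
import Cfsg.Agent.LibNpc9
import Cfsg.Agent.LibCores
/-!
# Primitive groups of degree `2p` with Sylow normalizer of order `2p`: set-up (helper6)
-/
set_option autoImplicit false
set_option linter.all false
open Cfsg
open scoped Pointwise
namespace CfsgLib.H6Qa
open MulAction CfsgLib.PrimeDeg20

universe u v

theorem simple_of {X : Type u} [Group X] [Finite X] {p : ℕ} [hp : Fact p.Prime]
    (hdv : ∀ N : Subgroup X, N.Normal → N ≠ ⊥ → p ∣ Nat.card N) (P : Sylow p X) (hP : Nat.card (P : Subgroup X) = p)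
    (hC : Subgroup.centralizer ((P : Subgroup X) : Set X) = (P : Subgroup X))
    (hN : Nat.card (Subgroup.normalizer ((P : Subgroup X) : Set X)) = 2 * p) (hnn : ¬ (P : Subgroup X).Normal) : IsSimpleGroup X := by
  have hp1 := hp.out.one_lt
  haveI : Nontrivial X := by
    rw [← Finite.one_lt_card_iff_nontrivial]
    exact lt_of_lt_of_le (by rw [hP]; exact hp1) (Subgroup.card_le_card_group (P : Subgroup X))
  refine ⟨fun N hNn => ?_⟩
  by_contra hcon
  rw [not_or] at hcon
  obtain ⟨hb, ht⟩ := hcon
  haveI := hNn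
  have hd := hdv N hNn hb
  -- `P ≤ N`
  have hPN : (P : Subgroup X) ≤ N := by
    obtain ⟨y, hy⟩ := exists_prime_orderOf_dvd_card' p hd
    have h2 : IsPGroup p (Subgroup.zpowers (y : X)) := IsPGroup.of_card (n := 1) (by
      rw [Nat.card_zpowers, Subgroup.orderOf_coe, hy, pow_one])
    obtain ⟨Q, hQ⟩ := h2.exists_le_sylow
    obtain ⟨k, rfl⟩ := MulAction.exists_smul_eq X P Q
    have h3 : Subgroup.zpowers (y : X) = ((k • P : Sylow p X) : Subgroup X) := by
      apply SetLike.coe_injective
      apply Set.eq_of_subset_of_ncard_le hQ _ (Set.toFinite _)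
      have e1 : Nat.card ((k • P : Sylow p X) : Subgroup X) = p :=
        (Nat.card_congr (Sylow.equiv (k • P) P).toEquiv).trans hP
      have e2 : Nat.card (Subgroup.zpowers (y : X)) = p := by
        rw [Nat.card_zpowers, Subgroup.orderOf_coe, hy]
      rw [← Nat.card_coe_set_eq, ← Nat.card_coe_set_eq]
      exact (e1.trans e2.symm).le
    intro z hz
    have h4 : k * z * k⁻¹ ∈ ((k • P : Sylow p X) : Subgroup X) := by
      rw [Sylow.coe_subgroup_smul]
      have h40 : MulAut.conj k • z = k * z * k⁻¹ := rfl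
      rw [← h40]
      exact Subgroup.smul_mem_pointwise_smul z _ _ hz
    rw [← h3] at h4
    have h5 : k * z * k⁻¹ ∈ N := (Subgroup.zpowers_le.2 y.2) h4
    have h6 := hNn.conj_mem _ h5 k⁻¹
    have h7 : k⁻¹ * (k * z * k⁻¹) * k⁻¹⁻¹ = z := by group
    rwa [h7] at h6
  have hfr : Subgroup.normalizer ((P : Subgroup X) : Set X) ⊔ N = ⊤ := Sylow.normalizer_sup_eq_top' P hPN
  -- the intersection
  have hI : N ⊓ Subgroup.normalizer ((P : Subgroup X) : Set X) = (P : Subgroup X) := by
    have h1 : (P : Subgroup X) ≤ N ⊓ Subgroup.normalizer ((P : Subgroup X) : Set X) := le_inf hPN Subgroup.le_normalizer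
    obtain ⟨c, hc⟩ := Subgroup.card_dvd_of_le h1
    rw [hP] at hc
    have h2 : p * c ∣ 2 * p := by
      rw [← hc, ← hN]; exact Subgroup.card_dvd_of_le inf_le_right
    rw [mul_comm p c] at h2
    have h3 : c ∣ 2 := Nat.dvd_of_mul_dvd_mul_right hp.out.pos h2
    rcases (Nat.dvd_prime Nat.prime_two).1 h3 with h4 | h4
    · symm
      apply SetLike.coe_injective
      apply Set.eq_of_subset_of_ncard_le h1 _ (Set.toFinite _)
      rw [← Nat.card_coe_set_eq, ← Nat.card_coe_set_eq]
      have e1 : Nat.card (N ⊓ Subgroup.normalizer ((P : Subgroup X) : Set X) : Subgroup X) = Nat.card (P : Subgroup X) := by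
        rw [hc, h4, mul_one, hP]
      exact e1.le
    · exfalso
      apply ht
      have h5 : Subgroup.normalizer ((P : Subgroup X) : Set X) ≤ N := by
        have h6 : N ⊓ Subgroup.normalizer ((P : Subgroup X) : Set X) = Subgroup.normalizer ((P : Subgroup X) : Set X) := by
          apply SetLike.coe_injective
          apply Set.eq_of_subset_of_ncard_le (inf_le_right (a := N)) _ (Set.toFinite _)
          rw [← Nat.card_coe_set_eq, ← Nat.card_coe_set_eq]
          have e1 : Nat.card (N ⊓ Subgroup.normalizer ((P : Subgroup X) : Set X) : Subgroup X) = Nat.card (Subgroup.normalizer ((P : Subgroup X) : Set X)) := by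
            rw [hc, h4, hN, mul_comm]
          exact e1.ge
        exact inf_eq_right.1 h6
      rw [sup_eq_right.2 h5] at hfr
      exact hfr
  -- normal complement
  let P' : Sylow p N := P.subtype hPN
  have hP' : (P' : Subgroup N) = (P : Subgroup X).subgroupOf N := P.coe_subtype hPN
  have hnc : Subgroup.normalizer ((P' : Subgroup N) : Set N) ≤ Subgroup.centralizer ((P' : Subgroup N) : Set N) := by
    intro n hn
    have h1 : (n : X) ∈ Subgroup.normalizer ((P : Subgroup X) : Set X) := by
      rw [Subgroup.mem_normalizer_iff] at hn ⊢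
      intro z
      constructor
      · intro hz
        have := (hn ⟨z, hPN hz⟩).1 (by rw [hP', Subgroup.mem_subgroupOf]; exact hz)
        rw [hP', Subgroup.mem_subgroupOf] at this
        exact this
      · intro hz
        have hzN : z ∈ N := by
          have h6 := hNn.conj_mem _ (hPN hz) (n : X)⁻¹
          have h7 : (n : X)⁻¹ * (n * z * (n : X)⁻¹) * (n : X)⁻¹⁻¹ = z := by group
          rwa [h7] at h6
        have := (hn ⟨z, hzN⟩).2 (by rw [hP', Subgroup.mem_subgroupOf]; exact hz)
        rw [hP', Subgroup.mem_subgroupOf] at this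
        exact this
    have h2 : (n : X) ∈ (P : Subgroup X) := by rw [← hI]; exact ⟨n.2, h1⟩
    rw [← hC, Subgroup.mem_centralizer_iff] at h2
    rw [Subgroup.mem_centralizer_iff]
    intro z hz
    apply Subtype.ext
    have hz' : (z : X) ∈ (P : Subgroup X) := by
      have hz2 : z ∈ (P' : Subgroup N) := hz
      rw [hP', Subgroup.mem_subgroupOf] at hz2
      exact hz2
    exact h2 z hz'
  have hnpc : HasNormalPComplement p N :=
    ⟨P', (MonoidHom.transferSylow P' hnc).ker, inferInstance, MonoidHom.ker_transferSylow_isComplement' P' hnc⟩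
  rw [CfsgLib.Npc9.hnpc_iff_pPrimeCore] at hnpc
  obtain ⟨k, hk⟩ := hnpc
  have hcore : pPrimeCore p X = ⊥ := by
    by_contra hne
    have h1 := hdv (pPrimeCore p X) inferInstance hne
    have h2 := CfsgLib.Cores.pPrimeCore_coprime (G := X) p
    exact (Nat.Prime.coprime_iff_not_dvd hp.out).1 h2.symm h1
  have hcoreN : pPrimeCore p N = ⊥ := by
    have h1 := CfsgLib.Cores.map_pPrimeCore_of_normal p N
    rw [hcore, bot_inf_eq] at h1
    exact (Subgroup.map_eq_bot_iff_of_injective _ N.subtype_injective).1 h1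
  rw [hcoreN, Subgroup.index_bot] at hk
  have hNp : IsPGroup p N := IsPGroup.of_card hk
  apply hnn
  have h8 : N = (P : Subgroup X) := P.is_maximal' hNp hPN
  rw [← h8]; exact hNn

theorem card_P {G : Type u} [Group G] [Finite G] {p : ℕ} [Fact p.Prime] (hp : 2 < p) (P : Sylow p G)
    (hN : Nat.card (Subgroup.normalizer ((P : Subgroup G) : Set G)) = 2 * p) : Nat.card P = p := by
  have hpp : p.Prime := Fact.out
  obtain ⟨n, hn⟩ := IsPGroup.iff_card.mp P.2
  have h1 : Nat.card P ∣ 2 * p := by
    rw [← hN]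
    exact Subgroup.card_dvd_of_le Subgroup.le_normalizer
  have h2 : n ≤ 1 := by
    by_contra h
    have h3 : p ^ 2 ∣ 2 * p := (pow_dvd_pow p (by omega)).trans (hn ▸ h1)
    rw [pow_two] at h3
    have h4 : p ∣ 2 := Nat.dvd_of_mul_dvd_mul_right hpp.pos h3
    have := Nat.le_of_dvd (by norm_num) h4
    omega
  have h3 : p ∣ Nat.card G := by
    have h4 := Subgroup.card_subgroup_dvd_card (Subgroup.normalizer ((P : Subgroup G) : Set G))
    rw [hN] at h4
    exact (Dvd.intro_left 2 rfl).trans h4
  have h4 : p ∣ Nat.card P := P.dvd_card_of_dvd_card h3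
  interval_cases n
  · rw [hn, pow_zero] at h4
    exact absurd (Nat.dvd_one.mp h4) hpp.ne_one
  · rw [hn, pow_one]


theorem dvd_of_normal {X : Type u} [Group X] [Finite X] {Ω : Type v} [MulAction X Ω] [Finite Ω] [FaithfulSMul X Ω]
    (hprim : IsPreprimitive X Ω) (hne : Nonempty Ω) (N : Subgroup X) [N.Normal] (hN : N ≠ ⊥) : Nat.card Ω ∣ Nat.card N := by
  haveI := Fintype.ofFinite N
  haveI := Fintype.ofFinite Ω
  have h1 : fixedPoints N Ω ≠ Set.univ := by
    intro h2
    apply hN
    rw [Subgroup.eq_bot_iff_forall]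
    intro n hn
    apply FaithfulSMul.eq_of_smul_eq_smul (α := Ω)
    intro y
    rw [one_smul]
    have : y ∈ fixedPoints N Ω := by rw [h2]; trivial
    exact this ⟨n, hn⟩
  haveI : IsPretransitive N Ω := IsQuasiPreprimitive.isPretransitive_of_normal h1
  obtain ⟨a⟩ := hne
  classical
  have h5 := MulAction.card_orbit_mul_card_stabilizer_eq_card_group N a
  have h6 : Nat.card (orbit N a) = Nat.card Ω := by
    rw [orbit_eq_univ]; exact Nat.card_congr (Equiv.Set.univ Ω)
  rw [← Nat.card_eq_fintype_card, ← Nat.card_eq_fintype_card, ← Nat.card_eq_fintype_card, h6] at h5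
  exact ⟨_, h5.symm⟩

theorem setup {α : Type u} [Fintype α] [DecidableEq α] {p : ℕ} [hpf : Fact p.Prime] (hp : 3 < p) (hα : Fintype.card α = 2 * p) (G : Subgroup (Equiv.Perm α))
    (hprim : IsPreprimitive G α) (hnot2 : ¬ IsMultiplyPretransitive G α 2) (P : Sylow p G)
    (hN : Nat.card (Subgroup.normalizer ((P : Subgroup G) : Set G)) = 2 * p) :
    IsSimpleGroup G ∧ (∃ x y : G, x * y ≠ y * x) ∧ (∀ x ∈ (P : Subgroup G), x ≠ 1 → ∀ a : α, x • a ≠ a) ∧ ∃ t : G, Hyp (P : Subgroup G) p t := by
  classical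
  have hpp : p.Prime := Fact.out
  haveI : Finite G := inferInstance
  letI : Fintype G := Fintype.ofFinite G
  have hPc := card_P (by omega) P hN
  have hPc' : Nat.card (P : Subgroup G) = p := hPc
  have hne : Nonempty α := by rw [← Fintype.card_pos_iff, hα]; omega
  have hdv : ∀ N : Subgroup G, N.Normal → N ≠ ⊥ → 2 * p ∣ Nat.card N := by
    intro N hNn hNb
    haveI := hNn
    have h1 := dvd_of_normal hprim hne N hNb
    rwa [Nat.card_eq_fintype_card, hα] at h1
  have hPb : (P : Subgroup G) ≠ ⊥ := by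
    intro h
    rw [h, Subgroup.card_bot] at hPc'
    omega
  have hPn : ¬ (P : Subgroup G).Normal := by
    intro h
    have h1 := hdv _ h hPb
    rw [hPc'] at h1
    have h2 := Nat.le_of_dvd hpp.pos h1
    omega
  have hgen : ∀ x ∈ (P : Subgroup G), x ≠ 1 → ∀ y ∈ (P : Subgroup G), ∃ i : ℕ, y = x ^ i := by
    intro x hx hx1 y hy
    have h1 : (⟨y, hy⟩ : (P : Subgroup G)) ∈ Subgroup.zpowers (⟨x, hx⟩ : (P : Subgroup G)) :=
      mem_zpowers_of_prime_card hPc' (fun h => hx1 (congrArg Subtype.val h))
    rw [mem_zpowers_iff_mem_range_orderOf, Finset.mem_image] at h1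
    obtain ⟨i, -, hi⟩ := h1
    exact ⟨i, (congrArg Subtype.val hi).symm⟩
  have hcomm : ∀ x ∈ (P : Subgroup G), ∀ y ∈ (P : Subgroup G), x * y = y * x := by
    intro x hx y hy
    by_cases hx1 : x = 1
    · rw [hx1, one_mul, mul_one]
    · obtain ⟨i, rfl⟩ := hgen x hx hx1 y hy
      exact ((Commute.refl x).pow_right i).eq
  have hfpf : ∀ x ∈ (P : Subgroup G), x ≠ 1 → ∀ a : α, x • a ≠ a := by
    intro x hx hx1 a ha
    apply hnot2
    have h1 : orderOf x = p := by
      have h2 : orderOf x ∣ p := by
        have := orderOf_dvd_natCard (⟨x, hx⟩ : (P : Subgroup G))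
        rw [hPc', Subgroup.orderOf_mk] at this
        exact this
      rcases (Nat.dvd_prime hpp).1 h2 with h3 | h3
      · exact absurd (orderOf_eq_one_iff.1 h3) hx1
      · exact h3
    exact CfsgLib.DegTwoP20.two_trans_of_cycle G hprim hpp (by omega) hα (g := (x : Equiv.Perm α)) x.2 (by rw [Subgroup.orderOf_coe, h1]) (x := a) ha
  -- the centralizer
  have hPle : (P : Subgroup G) ≤ Subgroup.centralizer ((P : Subgroup G) : Set G) := by
    intro x hx
    rw [Subgroup.mem_centralizer_iff]
    intro y hy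
    exact hcomm y hy x hx
  have hcle : Subgroup.centralizer ((P : Subgroup G) : Set G) ≤ Subgroup.normalizer ((P : Subgroup G) : Set G) :=
    Subgroup.centralizer_le_normalizer _
  have hGge : 2 * p ≤ Nat.card G := by rw [← hN]; exact Subgroup.card_le_card_group _
  have hC : Subgroup.centralizer ((P : Subgroup G) : Set G) = (P : Subgroup G) := by
    obtain ⟨c, hc⟩ := Subgroup.card_dvd_of_le hPle
    rw [hPc'] at hc
    have h2 : p * c ∣ 2 * p := by
      rw [← hc, ← hN]; exact Subgroup.card_dvd_of_le hcle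
    rw [mul_comm p c] at h2
    have h3 : c ∣ 2 := Nat.dvd_of_mul_dvd_mul_right hpp.pos h2
    rcases (Nat.dvd_prime Nat.prime_two).1 h3 with h4 | h4
    · symm
      apply Subgroup.eq_of_le_of_card_ge hPle
      rw [hc, h4, mul_one, hPc']
    · exfalso
      have h5 : Subgroup.normalizer ((P : Subgroup G) : Set G) ≤ Subgroup.centralizer ((P : Subgroup G) : Set G) := by
        apply le_of_eq
        symm
        apply Subgroup.eq_of_le_of_card_ge hcle
        rw [hc, h4, hN]; omega
      have h6 := MonoidHom.ker_transferSylow_isComplement' P h5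
      have h7 := h6.card_mul
      have h8 : (MonoidHom.transferSylow P h5).ker ≠ ⊥ := by
        intro h
        rw [h, Subgroup.card_bot, one_mul, hPc'] at h7
        omega
      have h9 := hdv _ inferInstance h8
      have h10 : p ∣ Nat.card (MonoidHom.transferSylow P h5).ker := (Dvd.intro_left 2 rfl).trans h9
      have h11 : p ^ 2 ∣ Nat.card G := by
        rw [← h7, hPc', pow_two]
        exact Nat.mul_dvd_mul_right h10 p
      have h12 : p ^ 2 ∣ Nat.card (P : Subgroup G) := P.pow_dvd_card_of_pow_dvd_card h11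
      rw [hPc'] at h12
      have h13 := Nat.le_of_dvd hpp.pos h12
      nlinarith
  have hsim : IsSimpleGroup G := simple_of (fun N h1 h2 => (Dvd.intro_left 2 rfl).trans (hdv N h1 h2)) P hPc' hC hN hPn
  have hna : ∃ x y : G, x * y ≠ y * x := by
    by_contra hcon
    push Not at hcon
    apply hPn
    refine ⟨fun n hn g => ?_⟩
    have : g * n * g⁻¹ = n := by rw [hcon g n]; group
    rwa [this]
  refine ⟨hsim, hna, hfpf, ?_⟩
  have hcenP : ∀ g : G, (∀ y ∈ (P : Subgroup G), g * y = y * g) → g ∈ (P : Subgroup G) := by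
    intro g hg
    rw [← hC, Subgroup.mem_centralizer_iff]
    intro y hy
    exact (hg y hy).symm
  have hcen : ∀ x ∈ (P : Subgroup G), x ≠ 1 → ∀ g : G, g * x = x * g → g ∈ (P : Subgroup G) := by
    intro x hx hx1 g hg
    apply hcenP
    intro y hy
    obtain ⟨i, rfl⟩ := hgen x hx hx1 y hy
    exact (Commute.pow_right (show Commute g x from hg) i).eq
  -- the normalizer
  obtain ⟨N, hNdef⟩ : ∃ N : Subgroup G, N = Subgroup.normalizer ((P : Subgroup G) : Set G) := ⟨_, rfl⟩
  rw [← hNdef] at hN
  have hPN : (P : Subgroup G) ≤ N := by rw [hNdef]; exact Subgroup.le_normalizer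
  have hidx : ((P : Subgroup G).subgroupOf N).index = 2 := by
    have h1 := ((P : Subgroup G).subgroupOf N).index_mul_card
    rw [hN, Nat.card_congr (Subgroup.subgroupOfEquivOfLe hPN).toEquiv, hPc'] at h1
    exact Nat.eq_of_mul_eq_mul_right hpp.pos h1
  obtain ⟨t, htN, htP⟩ : ∃ t ∈ N, t ∉ (P : Subgroup G) := by
    by_contra hcon
    push Not at hcon
    have h1 : N = (P : Subgroup G) := le_antisymm hcon hPN
    rw [h1, hPc'] at hN
    omega
  have htt : t * t ∈ (P : Subgroup G) := by
    have h1 := Subgroup.sq_mem_of_index_two hidx ⟨t, htN⟩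
    rw [pow_two] at h1
    exact h1
  have htconj : ∀ x ∈ (P : Subgroup G), t * x * t⁻¹ ∈ (P : Subgroup G) := by
    intro x hx
    rw [hNdef] at htN
    exact (Subgroup.mem_normalizer_iff.mp htN x).mp hx
  have hinv : ∀ x ∈ (P : Subgroup G), t * x * t⁻¹ = x⁻¹ := by
    intro x hx
    have h1 := htconj x hx
    have h2 : x * (t * x * t⁻¹) ∈ (P : Subgroup G) := (P : Subgroup G).mul_mem hx h1
    by_contra hcon
    have h3 : x * (t * x * t⁻¹) ≠ 1 := by
      intro h
      exact hcon (eq_inv_of_mul_eq_one_right h)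
    apply htP
    apply hcen _ h2 h3
    have h4 : (t * t) * x = x * (t * t) := hcomm _ htt _ hx
    have h5 : t * (t * x * t⁻¹) = x * t := by
      calc t * (t * x * t⁻¹) = (t * t) * x * t⁻¹ := by group
        _ = x * (t * t) * t⁻¹ := by rw [h4]
        _ = x * t := by group
    calc t * (x * (t * x * t⁻¹)) = (t * x * t⁻¹) * (t * (t * x * t⁻¹)) := by group
      _ = (t * x * t⁻¹) * (x * t) := by rw [h5]
      _ = ((t * x * t⁻¹) * x) * t := by group
      _ = (x * (t * x * t⁻¹)) * t := by rw [hcomm _ h1 _ hx]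
  have hnor : ∀ x ∈ (P : Subgroup G), x ≠ 1 → ∀ g : G, g⁻¹ * x * g ∈ (P : Subgroup G) → g ∈ (P : Subgroup G) ∨ g * t ∈ (P : Subgroup G) := by
    intro x hx hx1 g hg
    have hy1 : g⁻¹ * x * g ≠ 1 := by
      intro h
      apply hx1
      have : x = g * (g⁻¹ * x * g) * g⁻¹ := by group
      rw [this, h]; group
    have hgN : g⁻¹ ∈ N := by
      rw [hNdef, Subgroup.mem_normalizer_iff]
      intro y
      constructor
      · intro hy
        obtain ⟨i, rfl⟩ := hgen x hx hx1 y hy
        rw [inv_inv]
        have h1 : g⁻¹ * x ^ i * g = (g⁻¹ * x * g) ^ i := by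
          have := conj_pow (a := g⁻¹) (b := x) (i := i)
          rw [inv_inv] at this
          exact this.symm
        rw [h1]
        exact (P : Subgroup G).pow_mem hg i
      · intro hy
        rw [inv_inv] at hy
        obtain ⟨i, hi⟩ := hgen _ hg hy1 _ hy
        have h1 : g⁻¹ * x ^ i * g = (g⁻¹ * x * g) ^ i := by
          have := conj_pow (a := g⁻¹) (b := x) (i := i)
          rw [inv_inv] at this
          exact this.symm
        rw [← h1] at hi
        have h2 : y = x ^ i := by
          have h3 : g⁻¹ * y = g⁻¹ * x ^ i := mul_right_cancel hi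
          exact mul_left_cancel h3
        rw [h2]
        exact (P : Subgroup G).pow_mem hx i
    have hgN' : g ∈ N := by
      have := N.inv_mem hgN
      rwa [inv_inv] at this
    by_cases hgP : g ∈ (P : Subgroup G)
    · exact Or.inl hgP
    · right
      have h1 : (⟨g, hgN'⟩ : N) * ⟨t, htN⟩ ∈ (P : Subgroup G).subgroupOf N := by
        rw [Subgroup.mul_mem_iff_of_index_two hidx]
        exact ⟨fun h => absurd h hgP, fun h => absurd h htP⟩
      exact h1
  have h5 : 5 ≤ p := by
    by_contra hcon
    have h : p = 4 := by omega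
    rw [h] at hpp
    exact absurd hpp (by decide)
  exact ⟨t, { card := hPc', cen := hcen, inv := hinv, nor := hnor, five := h5, prime := hpp }⟩

end CfsgLib.H6Qa
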