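import Cfsg.Agent.LibPrimeDeg20a

set_option autoImplicit false
set_option linter.all false
set_option maxHeartbeats 2000000

/-! # Sylow subgroups of prime order inverted by an element (helper20): exceptional characters, main theorem -/

namespace CfsgLib.PrimeDeg20

open Cfsg CfsgLib.CharBasic CfsgLib.CharIndA CfsgLib.Exc
open scoped ComplexConjugate

universe u

variable {G : Type u} [Group G] [Fintype G] {P : Subgroup G} [Fintype P] {p : ℕ} {t : G}

namespace Hyp

variable (H : Hyp P p t)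
include H

theorem restr_ind {f : P → ℂ} (hf : f 1 = 0) : (fun h : P => indFun P f h) = fun h => f h + f h⁻¹ := by
  ext h
  by_cases hh : h = 1
  · subst hh
    rw [inv_one, hf, OneMemClass.coe_one, CharIndA.ind_one, hf, mul_zero, add_zero]
  · exact H.ind_apply_P f h.2 (fun h1 => hh (Subtype.ext h1))

theorem char_inv {φ : G → ℂ} (hφ : IsClassFunction G φ) (h : P) : φ (h⁻¹ : P) = φ h := by
  have h1 := hφ (h : G) t
  rw [H.inv h h.2] at h1
  exact h1

/-- representatives of the nonzero residues modulo sign -/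
theorem exists_kk : ∃ kk : Fin ((p - 1) / 2) → ZMod p, Function.Injective kk ∧ (∀ i j, kk i ≠ -kk j) ∧ (∀ i, kk i ≠ 0) ∧
    ∀ k : ZMod p, k ≠ 0 → ∃ i, k = kk i ∨ k = -kk i := by
  have h5 := H.five
  have hodd : p % 2 = 1 := by
    rcases H.prime.eq_two_or_odd with h | h
    · omega
    · exact h
  haveI : NeZero p := ⟨by omega⟩
  have hcast : ∀ a b : ℕ, a < p → b < p → ((a : ZMod p) = (b : ZMod p) ↔ a = b) := by
    intro a b ha hb
    rw [ZMod.natCast_eq_natCast_iff']
    rw [Nat.mod_eq_of_lt ha, Nat.mod_eq_of_lt hb]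
  refine ⟨fun i => (((i : ℕ) + 1 : ℕ) : ZMod p), ?_, ?_, ?_, ?_⟩
  · intro i j h
    have h1 := (hcast _ _ (by have := i.2; omega) (by have := j.2; omega)).mp h
    exact Fin.ext (by omega)
  · intro i j h
    have h1 : ((((i : ℕ) + 1) + ((j : ℕ) + 1) : ℕ) : ZMod p) = 0 := by
      rw [Nat.cast_add]
      beta_reduce at h
      rw [h, neg_add_cancel]
    rw [ZMod.natCast_eq_zero_iff] at h1
    have h2 := Nat.le_of_dvd (by omega) h1
    have := i.2
    have := j.2
    omega
  · intro i h
    beta_reduce at h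
    rw [ZMod.natCast_eq_zero_iff] at h
    have h2 := Nat.le_of_dvd (by omega) h
    have := i.2
    omega
  · intro k hk
    have hv : k.val < p := ZMod.val_lt k
    have hv0 : k.val ≠ 0 := by
      intro h
      exact hk ((ZMod.val_eq_zero k).mp h)
    have hkv : ((k.val : ℕ) : ZMod p) = k := by rw [ZMod.natCast_val, ZMod.cast_id]
    by_cases h : k.val ≤ (p - 1) / 2
    · refine ⟨⟨k.val - 1, by omega⟩, Or.inl ?_⟩
      beta_reduce
      rw [show ((⟨k.val - 1, by omega⟩ : Fin ((p-1)/2)) : ℕ) + 1 = k.val by show k.val - 1 + 1 = k.val; omega, hkv]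
    · refine ⟨⟨p - k.val - 1, by omega⟩, Or.inr ?_⟩
      beta_reduce
      rw [show ((⟨p - k.val - 1, by omega⟩ : Fin ((p-1)/2)) : ℕ) + 1 = p - k.val by show p - k.val - 1 + 1 = p - k.val; omega]
      rw [Nat.cast_sub hv.le, ZMod.natCast_self, hkv]
      ring

theorem main {χ : G → ℂ} (hχ : IsIrrCharacter G χ) (hχ1 : χ 1 = (p : ℂ) - 1) (hχP : ∀ x ∈ P, x ≠ 1 → χ x = -1) :
    ∃ μ : Fin ((p - 1) / 2) → (G → ℂ), (∀ j, IsIrrCharacter G (μ j)) ∧ Function.Injective μ ∧ (∀ j, μ j ≠ χ) ∧ (∀ j, μ j ≠ fun _ => 1) ∧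
      (∀ j g, (∀ x : G, x⁻¹ * g * x ∈ P → g = 1) → μ j g = χ g - 1) ∧
      (∀ Θ : G → ℂ, IsClassFunction G Θ → (∀ x ∈ P, x ≠ 1 → Θ x = 0) → ∀ j, classInner Θ (μ j) = classInner Θ χ - classInner Θ (fun _ => 1)) := by
  classical
  have h5 := H.five
  have hodd : p % 2 = 1 := by
    rcases H.prime.eq_two_or_odd with h | h
    · omega
    · exact h
  have hpC := H.p_ne
  have h2m : 2 * ((p - 1) / 2) = p - 1 := by omega
  obtain ⟨kk, hkinj, hkneg, hkne, hksurj⟩ := H.exists_kk
  obtain ⟨l, hl, hlinj, hl0, hlneg, hlsum, hl1⟩ := exists_lin H.prime H.card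
  haveI : NeZero p := ⟨by omega⟩
  have hlsum' : ∀ h : P, h ≠ 1 → ∑ k, l k h = 0 := by
    intro h hh
    rw [← finsum_eq_sum_of_fintype]
    exact hlsum h hh
  have hll : ∀ k j, classInner (l k) (l j) = if k = j then 1 else 0 := by
    intro k j
    rw [irr_inner_ite (hl k) (hl j)]
    by_cases h : k = j
    · rw [if_pos h, if_pos (by rw [h])]
    · rw [if_neg h, if_neg (fun h1 => h (hlinj h1))]
  let i0 : Fin ((p - 1) / 2) := ⟨0, by omega⟩
  have hfz : ∀ i, (l (kk i) - l (kk i0)) 1 = 0 := fun i => by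
    rw [Pi.sub_apply, hl1, hl1, sub_self]
  have hgram : ∀ i j, classInner (indFun P (l (kk i) - l (kk i0))) (indFun P (l (kk j) - l (kk i0))) =
      (if i = j then 1 else 0) - (if i = i0 then 1 else 0) - (if i0 = j then 1 else 0) + 1 := by
    intro i j
    rw [CharIndA.frobenius P _ (ind_classFun P _), H.restr_ind (hfz j)]
    have h1 : (fun h : P => (l (kk j) - l (kk i0)) h + (l (kk j) - l (kk i0)) h⁻¹) = (l (kk j) + l (-kk j)) - (l (kk i0) + l (-kk i0)) := by
      ext h
      simp only [Pi.sub_apply, Pi.add_apply, hlneg]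
      ring
    rw [h1, CharBasic.inner_sub_left, CharBasic.inner_sub_right, CharBasic.inner_sub_right, CharBasic.inner_add_right, CharBasic.inner_add_right, CharBasic.inner_add_right, CharBasic.inner_add_right,
      hll, hll, hll, hll, hll, hll, hll, hll]
    rw [if_neg (hkneg i j), if_neg (hkneg i i0), if_neg (hkneg i0 j), if_neg (hkneg i0 i0), if_pos rfl]
    have h2 : ∀ a b, (kk a = kk b) = (a = b) := fun a b => propext ⟨fun h => hkinj h, fun h => by rw [h]⟩
    simp only [h2]
    ring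
  obtain ⟨ε, hε, μ, hμ, hμinj, hτ⟩ := exceptional i0 (fun i => indFun P (l (kk i) - l (kk i0)))
    (by beta_reduce; rw [sub_self, ind_zero])
    (fun i => gen_ind P (gen_sub (gen_of_irr (hl _)) (gen_of_irr (hl _))))
    (fun i => by beta_reduce; rw [CharIndA.ind_one, hfz, mul_zero])
    (fun i hi => by beta_reduce; rw [hgram, if_pos rfl, if_neg hi, if_neg (Ne.symm hi)]; norm_num)
    (fun i j hi hj hij => by beta_reduce; rw [hgram, if_neg hij, if_neg hi, if_neg (Ne.symm hj)]; norm_num)
  have hε0 : ε ≠ 0 := by rcases hε with h | h <;> rw [h] <;> norm_num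
  have hεε : ε * ε = 1 := by rcases hε with h | h <;> rw [h] <;> norm_num
  have hεc : conj ε = ε := by rcases hε with h | h <;> rw [h] <;> simp
  have hμτ : ∀ i, μ i - μ i0 = ε • indFun P (l (kk i) - l (kk i0)) := by
    intro i
    have h1 : indFun P (l (kk i) - l (kk i0)) = ε • (μ i - μ i0) := hτ i
    rw [h1, smul_smul, hεε, one_smul]
  -- coefficients on `P`
  have hcard : (Nat.card P : ℂ) = p := by rw [H.card]
  have hrest : ∀ φ : G → ℂ, IsIrrCharacter G φ → ∀ i, classInner φ (μ i) - classInner φ (μ i0) =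
      ε * (classInner (fun h : P => φ h) (l (kk i)) - classInner (fun h : P => φ h) (l (kk i0))) := by
    intro φ hφ i
    rw [← CharBasic.inner_sub_right, hμτ, CharBasic.inner_smul_right, hεc, frobenius' P _ (irr_classFun hφ), CharBasic.inner_sub_right]
  have hneg : ∀ φ : G → ℂ, IsClassFunction G φ → ∀ k, classInner (fun h : P => φ h) (l (-k)) = classInner (fun h : P => φ h) (l k) := by
    intro φ hφ k
    unfold classInner
    congr 1
    refine Fintype.sum_equiv (Equiv.inv P) _ _ (fun h => ?_)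
    rw [Equiv.inv_apply, H.char_inv hφ, hlneg]
  have hsumk : ∀ φ : G → ℂ, ∑ k, classInner (fun h : P => φ h) (l k) = φ 1 := by
    intro φ
    rw [← CharBasic.inner_sum_right]
    unfold classInner
    rw [Finset.sum_eq_single (1 : P)]
    · rw [Finset.sum_apply]
      simp only [hl1]
      rw [hcard]
      simp only [Finset.sum_const, Finset.card_univ, ZMod.card, nsmul_eq_mul, mul_one, OneMemClass.coe_one, map_natCast]
      field_simp
    · intro h _ hh
      rw [Finset.sum_apply, hlsum' h hh, map_zero, mul_zero]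
    · intro h; exact absurd (Finset.mem_univ _) h
  -- the function `D`
  obtain ⟨f, hf⟩ : ∃ f : P → ℂ, ∀ h, f h = if h = 1 then 0 else 1 := ⟨_, fun h => rfl⟩
  have hf1 : f 1 = 0 := by rw [hf, if_pos rfl]
  have hfc : ∀ h, conj (f h) = f h := by
    intro h
    rw [hf]
    split_ifs <;> simp
  have hfinner : ∀ Θ : G → ℂ, classInner (fun h : P => Θ h) f = classInner (fun h : P => Θ h) (l 0) - Θ 1 / p := by
    intro Θ
    unfold classInner
    simp only [hfc, hl0, map_one, mul_one]
    rw [hcard]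
    have h1 : ∀ h : P, Θ h * f h = Θ h - (if h = 1 then Θ 1 else 0) := by
      intro h
      rw [hf]
      by_cases hh : h = 1
      · rw [if_pos hh, if_pos hh, hh]; simp
      · rw [if_neg hh, if_neg hh, mul_one, sub_zero]
    rw [Finset.sum_congr rfl fun h _ => h1 h, Finset.sum_sub_distrib, Finset.sum_ite_eq' Finset.univ (1 : P), if_pos (Finset.mem_univ _)]
    field_simp
  obtain ⟨D, hD⟩ : ∃ D : G → ℂ, D = indFun P f := ⟨_, rfl⟩
  have hDcf : IsClassFunction G D := by rw [hD]; exact ind_classFun P f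
  have hDin : ∀ Θ : G → ℂ, IsClassFunction G Θ → classInner Θ D = classInner (fun h : P => Θ h) (l 0) - Θ 1 / p := by
    intro Θ hΘ
    rw [hD, frobenius' P _ hΘ, hfinner]
  have hW : ∀ φ : IrrCharacter G, ∃ W : ℤ, classInner (φ : G → ℂ) D = (W : ℂ) / p ∧
      ((φ : G → ℂ) ∉ Set.range μ → ∃ c : ℤ, W = (p - 1) * c) := by
    intro φ
    have hφ := φ.2
    have hnat : ∀ k, ∃ n : ℕ, classInner (fun h : P => (φ : G → ℂ) h) (l k) = n :=
      fun k => char_mult (isCharacter_restrict (irr_isCharacter hφ) P) (irr_isCharacter (hl k))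
    choose a ha using hnat
    obtain ⟨d, hd⟩ := char_one_nat (irr_isCharacter hφ)
    refine ⟨p * a 0 - d, ?_, ?_⟩
    · rw [hDin _ (irr_classFun hφ), ha, hd]
      push_cast
      field_simp
    · intro hnr
      have h1 : ∀ i, a (kk i) = a (kk i0) := by
        intro i
        have h2 := hrest φ hφ i
        rw [irr_inner_ne hφ (hμ i) (fun h => hnr ⟨i, h.symm⟩), irr_inner_ne hφ (hμ i0) (fun h => hnr ⟨i0, h.symm⟩), sub_self, ha, ha] at h2
        have h3 := mul_eq_zero.mp h2.symm
        rcases h3 with h3 | h3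
        · exact absurd h3 hε0
        · exact_mod_cast sub_eq_zero.mp h3
      have h2 : ∀ k, k ≠ 0 → a k = a (kk i0) := by
        intro k hk
        obtain ⟨i, hi | hi⟩ := hksurj k hk
        · rw [hi, h1]
        · rw [hi, ← h1 i]
          have h3 := hneg φ (irr_classFun hφ) (kk i)
          rw [ha, ha] at h3
          exact_mod_cast h3
      have h3 : (d : ℤ) = a 0 + (p - 1) * a (kk i0) := by
        have h4 := hsumk φ
        rw [Finset.sum_congr rfl fun k _ => ha k, hd] at h4
        have h5 : ∑ k, a k = d := by exact_mod_cast h4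
        rw [← Finset.add_sum_erase Finset.univ a (Finset.mem_univ (0 : ZMod p)),
          Finset.sum_congr rfl (fun k hk => h2 k (Finset.ne_of_mem_erase hk)), Finset.sum_const, Finset.card_erase_of_mem (Finset.mem_univ _),
          Finset.card_univ, ZMod.card, smul_eq_mul] at h5
        rw [← h5]
        push_cast [Nat.cast_sub (show 1 ≤ p by omega)]
        ring
      refine ⟨a 0 - a (kk i0), ?_⟩
      rw [h3]; ring
  choose W hW1 hW2 using hW
  have hWD : ∀ φ : IrrCharacter G, classInner D (φ : G → ℂ) = (W φ : ℂ) / p := by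
    intro φ
    rw [← CharBasic.inner_conj_symm, hW1]
    simp
  -- special characters
  obtain ⟨one, hone⟩ : ∃ one : IrrCharacter G, (one : G → ℂ) = fun _ => 1 := ⟨⟨_, isIrrCharacter_one⟩, rfl⟩
  obtain ⟨chi, hchi⟩ : ∃ chi : IrrCharacter G, (chi : G → ℂ) = χ := ⟨⟨_, hχ⟩, rfl⟩
  obtain ⟨mu, hmu⟩ : ∃ mu : Fin ((p - 1) / 2) → IrrCharacter G, ∀ j, (mu j : G → ℂ) = μ j := ⟨fun j => ⟨μ j, hμ j⟩, fun j => rfl⟩
  have hmuinj : Function.Injective mu := by
    intro i j h
    apply hμinj
    rw [← hmu, ← hmu, h]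
  have hnonexc : ∀ φ : G → ℂ, IsIrrCharacter G φ → (∀ i, classInner (fun h : P => φ h) (l (kk i)) = classInner (fun h : P => φ h) (l (kk i0))) →
      φ ∉ Set.range μ := by
    rintro _ hφ hall ⟨j, rfl⟩
    have h1 : ∀ i, classInner (μ j) (μ i) = classInner (μ j) (μ i0) := by
      intro i
      have h2 := hrest (μ j) hφ i
      rw [hall i, sub_self, mul_zero] at h2
      exact sub_eq_zero.mp h2
    by_cases hj : j = i0
    · have h2 := h1 ⟨1, by omega⟩
      rw [hj, irr_inner_self (hμ i0), irr_inner_ne (hμ i0) (hμ _)] at h2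
      · exact zero_ne_one h2
      · intro h3
        have h4 := congrArg Fin.val (hμinj h3)
        have h6 : (0 : ℕ) = 1 := h4
        omega
    · have h2 := h1 j
      rw [irr_inner_self (hμ j), irr_inner_ne (hμ j) (hμ i0) (fun h => hj (hμinj h))] at h2
      exact one_ne_zero h2
  have hone_l : (fun h : P => (1 : ℂ)) = l 0 := by ext h; rw [hl0]
  have hone_nr : (one : G → ℂ) ∉ Set.range μ := by
    apply hnonexc _ one.2
    intro i
    have h1 : (fun h : P => (one : G → ℂ) h) = l 0 := by rw [hone]; exact hone_l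
    rw [h1, hll, hll, if_neg (fun h => hkne i h.symm), if_neg (fun h => hkne i0 h.symm)]
  have hχP' : ∀ k, classInner (fun h : P => χ h) (l k) = 1 - (if 0 = k then 1 else 0) := by
    intro k
    have h1 : (fun h : P => χ h) = (fun h : P => if h = 1 then (p : ℂ) else 0) - l 0 := by
      ext h
      rw [Pi.sub_apply, hl0]
      by_cases hh : h = 1
      · rw [hh, if_pos rfl]
        exact hχ1
      · rw [if_neg hh, zero_sub]
        exact hχP h h.2 (fun h1 => hh (Subtype.ext h1))
    rw [h1, CharBasic.inner_sub_left, hll]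
    congr 1
    unfold classInner
    rw [Finset.sum_eq_single (1 : P)]
    · rw [if_pos rfl, hl1, hcard, map_one, mul_one, inv_mul_cancel₀ hpC]
    · intro h _ hh
      rw [if_neg hh, zero_mul]
    · intro h; exact absurd (Finset.mem_univ _) h
  have hchi_nr : (chi : G → ℂ) ∉ Set.range μ := by
    apply hnonexc _ chi.2
    intro i
    rw [hchi, hχP', hχP', if_neg (fun h => hkne i h.symm), if_neg (fun h => hkne i0 h.symm)]
  have hne : one ≠ chi := by
    intro h
    obtain ⟨x, hx, hx1⟩ := H.exists_ne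
    have h1 := hχP x hx hx1
    rw [← hchi, ← h, hone] at h1
    norm_num at h1
  have hWone : W one = p - 1 := by
    have h1 := hW1 one
    rw [hDin _ (irr_classFun one.2), hone, hone_l, hll, if_pos rfl] at h1
    have h2 : (1 : ℂ) - 1 / p = ((p : ℂ) - 1) / p := by field_simp
    rw [h2, div_left_inj' hpC] at h1
    have h3 : (((p : ℤ) - 1 : ℤ) : ℂ) = (W one : ℂ) := by push_cast; exact h1
    exact (Int.cast_injective h3).symm
  have hWchi : W chi = -(p - 1) := by
    have h1 := hW1 chi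
    rw [hDin _ (irr_classFun chi.2), hchi, hχP', if_pos rfl, sub_self, hχ1, zero_sub, ← neg_div, div_left_inj' hpC] at h1
    have h3 : ((-((p : ℤ) - 1) : ℤ) : ℂ) = (W chi : ℂ) := by push_cast; exact h1
    exact (Int.cast_injective h3).symm
  have hτP : ∀ i, (fun h : P => indFun P (l (kk i) - l (kk i0)) h) = (l (kk i) + l (-kk i)) - (l (kk i0) + l (-kk i0)) := by
    intro i
    rw [H.restr_ind (hfz i)]
    ext h
    simp only [Pi.sub_apply, Pi.add_apply, hlneg]
    ring
  have hWmu : ∀ j, W (mu j) = W (mu i0) := by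
    intro j
    have h1 : classInner (indFun P (l (kk j) - l (kk i0))) D = 0 := by
      rw [hDin _ (ind_classFun P _), hτP, CharIndA.ind_one, hfz, mul_zero, zero_div, sub_zero, CharBasic.inner_sub_left, CharBasic.inner_add_left,
        CharBasic.inner_add_left, hll, hll, hll, hll, if_neg (hkne j), if_neg (hkne i0), if_neg (neg_ne_zero.mpr (hkne j)), if_neg (neg_ne_zero.mpr (hkne i0))]
      ring
    have h2 : classInner (μ j) D - classInner (μ i0) D = 0 := by
      rw [← CharBasic.inner_sub_left, hμτ, CharBasic.inner_smul_left, h1, mul_zero]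
    rw [← hmu, ← hmu, hW1, hW1, sub_eq_zero, div_left_inj' hpC] at h2
    exact_mod_cast h2
  have hDD : classInner D D = 2 * ((p : ℂ) - 1) / p := by
    rw [hDin D hDcf]
    have h1 : D 1 = 0 := by rw [hD, CharIndA.ind_one, hf1, mul_zero]
    have h2 : (fun h : P => D h) = fun h => 2 * f h := by
      rw [hD, H.restr_ind hf1]
      ext h
      have h3 : f h⁻¹ = f h := by
        rw [hf, hf]
        by_cases hh : h = 1
        · rw [hh, inv_one]
        · rw [if_neg hh, if_neg (fun h4 => hh (inv_eq_one.mp h4))]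
      rw [h3]; ring
    rw [h1, zero_div, sub_zero, h2]
    unfold classInner
    simp only [hl0, map_one, mul_one]
    rw [← Finset.mul_sum, hcard]
    have h3 : ∑ h : P, f h = (p : ℂ) - 1 := by
      have h4 : ∀ h : P, f h = 1 - (if h = 1 then 1 else 0) := by
        intro h
        rw [hf]
        by_cases hh : h = 1
        · rw [if_pos hh, if_pos hh, sub_self]
        · rw [if_neg hh, if_neg hh, sub_zero]
      rw [Finset.sum_congr rfl fun h _ => h4 h, Finset.sum_sub_distrib, Finset.sum_const, Finset.card_univ, ← Nat.card_eq_fintype_card, H.card,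
        nsmul_eq_mul, mul_one, Finset.sum_ite_eq' Finset.univ (1 : P), if_pos (Finset.mem_univ _)]
    rw [h3]
    field_simp
  have hsumW : ∑ φ : IrrCharacter G, W φ ^ 2 = 2 * p * (p - 1) := by
    have h1 := parseval hDcf hDcf
    rw [hDD, Finset.sum_congr rfl (fun (φ : IrrCharacter G) _ => show classInner D (φ : G → ℂ) * conj (classInner D (φ : G → ℂ)) = ((W φ : ℂ) ^ 2) / (p ^ 2) by
      rw [hWD, map_div₀, Complex.conj_natCast, map_intCast]; field_simp), ← Finset.sum_div, div_eq_div_iff hpC (pow_ne_zero 2 hpC)] at h1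
    have h2 : (2 * ((p : ℂ) - 1) * p) = ∑ φ : IrrCharacter G, (W φ : ℂ) ^ 2 := by
      have h3 : (2 * ((p : ℂ) - 1) * p) * p = (∑ φ : IrrCharacter G, (W φ : ℂ) ^ 2) * p := by rw [← h1]; ring
      exact mul_right_cancel₀ hpC h3
    have h3 : ((∑ φ : IrrCharacter G, W φ ^ 2 : ℤ) : ℂ) = ((2 * p * (p - 1) : ℤ) : ℂ) := by
      push_cast
      rw [← h2]; ring
    exact_mod_cast h3
  have hpZ : (5 : ℤ) ≤ p := by exact_mod_cast h5
  have hWzero : ∀ φ : IrrCharacter G, φ ≠ one → φ ≠ chi → (φ : G → ℂ) ∉ Set.range μ → W φ = 0 := by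
    intro φ h1 h2 h3
    obtain ⟨c, hc⟩ := hW2 φ h3
    by_contra hcon
    have hc0 : c ≠ 0 := by
      rintro rfl
      apply hcon
      rw [hc, mul_zero]
    have h4 : ∑ ψ ∈ ({one, chi, φ} : Finset (IrrCharacter G)), W ψ ^ 2 ≤ ∑ ψ : IrrCharacter G, W ψ ^ 2 :=
      Finset.sum_le_sum_of_subset_of_nonneg (Finset.subset_univ _) (fun _ _ _ => sq_nonneg _)
    rw [hsumW, Finset.sum_insert, Finset.sum_insert, Finset.sum_singleton, hWone, hWchi, hc] at h4
    · have h6 : 1 ≤ c ^ 2 := by
        have := Int.one_le_abs hc0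
        nlinarith [sq_abs c, abs_nonneg c]
      have h7 : (p - 1 : ℤ) ^ 2 ≤ ((p - 1) * c) ^ 2 := by
        rw [mul_pow]
        nlinarith [sq_nonneg (p - 1 : ℤ)]
      nlinarith
    · simp only [Finset.mem_singleton]
      exact fun h => h2 h.symm
    · simp only [Finset.mem_insert, Finset.mem_singleton, not_or]
      exact ⟨hne, fun h => h1 h.symm⟩
  have hone_mu : ∀ j, one ≠ mu j := fun j h => hone_nr ⟨j, by rw [← hmu, h]⟩
  have hchi_mu : ∀ j, chi ≠ mu j := fun j h => hchi_nr ⟨j, by rw [← hmu, h]⟩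
  have hsplit : ∀ F : IrrCharacter G → ℂ, (∀ φ, W φ = 0 → F φ = 0) → ∑ φ, F φ = F one + F chi + ∑ j, F (mu j) := by
    intro F hF
    have h1 : ∑ φ ∈ insert one (insert chi (Finset.univ.image mu)), F φ = ∑ φ, F φ := by
      apply Finset.sum_subset (Finset.subset_univ _)
      intro φ _ hφ
      simp only [Finset.mem_insert, Finset.mem_image, Finset.mem_univ, true_and, not_or, not_exists] at hφ
      apply hF
      apply hWzero φ hφ.1 hφ.2.1
      rintro ⟨j, hj⟩
      exact hφ.2.2 j (Subtype.ext (by rw [hmu, hj]))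
    rw [← h1, Finset.sum_insert, Finset.sum_insert, Finset.sum_image (fun i _ j _ h => hmuinj h), add_assoc]
    · simp only [Finset.mem_image, Finset.mem_univ, true_and, not_exists]
      exact fun j h => hchi_mu j h.symm
    · simp only [Finset.mem_insert, Finset.mem_image, Finset.mem_univ, true_and, not_or, not_exists]
      exact ⟨hne, fun j h => hone_mu j h.symm⟩
  -- the square of the common value
  have hmC : (2 : ℂ) * (((p - 1) / 2 : ℕ) : ℂ) = (p : ℂ) - 1 := by
    have h1 : ((2 * ((p - 1) / 2) : ℕ) : ℂ) = ((p - 1 : ℕ) : ℂ) := by rw [h2m]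
    rw [Nat.cast_sub (by omega)] at h1
    push_cast at h1
    exact h1
  have hp1 : (p : ℂ) - 1 ≠ 0 := by
    rw [← hmC]
    have : ((p - 1) / 2 : ℕ) ≠ 0 := by omega
    have h2 : (((p - 1) / 2 : ℕ) : ℂ) ≠ 0 := by exact_mod_cast this
    exact mul_ne_zero two_ne_zero h2
  have hDexp : ∀ g, (p : ℂ) * D g = ((p : ℂ) - 1) * (1 - χ g) + (W (mu i0) : ℂ) * ∑ j, μ j g := by
    intro g
    rw [classFun_expand_apply hDcf g, hsplit _ (fun φ h => by rw [hWD, h]; simp), hWD, hWD, hWone, hWchi, hone, hchi,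
      Finset.sum_congr rfl (fun j _ => show classInner D (mu j : G → ℂ) * (mu j : G → ℂ) g = (W (mu i0) : ℂ) / p * μ j g by rw [hWD, hWmu, hmu]),
      ← Finset.mul_sum]
    push_cast
    field_simp
    ring
  have hreg : ∀ g : G, (∀ x : G, x⁻¹ * g * x ∈ P → g = 1) → D g = 0 ∧ ∀ j, μ j g = μ i0 g := by
    intro g hg
    refine ⟨by rw [hD]; exact H.ind_zero_off hf1 hg, ?_⟩
    intro j
    have h1 := congrFun (hμτ j) g
    rw [Pi.sub_apply, Pi.smul_apply, H.ind_zero_off (hfz j) hg, smul_zero] at h1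
    exact sub_eq_zero.mp h1
  have hregsum : ∀ g : G, (∀ x : G, x⁻¹ * g * x ∈ P → g = 1) → 0 = ((p : ℂ) - 1) * (1 - χ g) + (W (mu i0) : ℂ) * ((((p - 1) / 2 : ℕ) : ℂ) * μ i0 g) := by
    intro g hg
    obtain ⟨h1, h2⟩ := hreg g hg
    have h3 := hDexp g
    rw [h1, mul_zero, Finset.sum_congr rfl fun j _ => h2 j, Finset.sum_const, Finset.card_univ, Fintype.card_fin, nsmul_eq_mul] at h3
    exact h3
  have hWsq : (W (mu i0)) ^ 2 = 4 := by
    have h1 := hsplit (fun φ => ((W φ ^ 2 : ℤ) : ℂ)) (fun φ h => by beta_reduce; rw [h]; simp)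
    rw [← Int.cast_sum, hsumW, hWone, hWchi, Finset.sum_congr rfl (fun j _ => show ((W (mu j) ^ 2 : ℤ) : ℂ) = ((W (mu i0) ^ 2 : ℤ) : ℂ) by rw [hWmu]),
      Finset.sum_const, Finset.card_univ, Fintype.card_fin, nsmul_eq_mul] at h1
    have h2 : (2 * (((p : ℂ)) - 1)) = (((p - 1) / 2 : ℕ) : ℂ) * ((W (mu i0) ^ 2 : ℤ) : ℂ) := by
      push_cast at h1 ⊢
      linear_combination h1
    have h3 : (((p : ℂ)) - 1) * 4 = (((p : ℂ)) - 1) * ((W (mu i0) ^ 2 : ℤ) : ℂ) := by
      linear_combination 2 * h2 + (((W (mu i0) ^ 2 : ℤ) : ℂ)) * hmC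
    have h4 := mul_left_cancel₀ hp1 h3
    exact_mod_cast h4.symm
  have hW2' : W (mu i0) = 2 := by
    obtain ⟨d, hd0, hd⟩ := irr_one_nat (hμ i0)
    have h1 := hregsum 1 (fun x _ => rfl)
    rw [hχ1, hd] at h1
    obtain ⟨mm, hmm⟩ : ∃ mm : ℕ, mm = (p - 1) / 2 := ⟨_, rfl⟩
    rw [← hmm] at h1
    -- `W m d = (p-1)(p-2)`
    have h2 : (W (mu i0)) * ((mm : ℤ) * d) = (p - 1) * (p - 2) := by
      have h3 : (((W (mu i0)) * ((mm : ℤ) * d) : ℤ) : ℂ) = (((p - 1) * (p - 2) : ℤ) : ℂ) := by
        push_cast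
        linear_combination -h1
      exact_mod_cast h3
    have h3 : W (mu i0) = 2 ∨ W (mu i0) = -2 := by
      have : (W (mu i0) - 2) * (W (mu i0) + 2) = 0 := by linear_combination hWsq
      rcases mul_eq_zero.mp this with h | h
      · left; linarith
      · right; linarith
    rcases h3 with h3 | h3
    · exact h3
    · exfalso
      rw [h3] at h2
      have h4 : (0 : ℤ) ≤ (mm : ℤ) * d := by positivity
      nlinarith
  refine ⟨μ, hμ, hμinj, fun j h => hchi_nr ⟨j, by rw [hchi, h]⟩, fun j h => hone_nr ⟨j, by rw [hone, h]⟩, ?_, ?_⟩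
  · intro j g hg
    have h1 := hregsum g hg
    rw [hW2'] at h1
    rw [(hreg g hg).2 j]
    have h2 : ((p : ℂ) - 1) * μ i0 g = ((p : ℂ) - 1) * (χ g - 1) := by
      push_cast at h1
      linear_combination -h1 - (μ i0 g) * hmC
    exact mul_left_cancel₀ hp1 h2
  · intro Θ hΘ hΘP
    have h1 : classInner Θ D = 0 := by
      rw [hDin Θ hΘ]
      have h2 : classInner (fun h : P => Θ h) (l 0) = Θ 1 / p := by
        unfold classInner
        rw [Finset.sum_eq_single (1 : P)]
        · rw [hl0, map_one, mul_one, hcard, OneMemClass.coe_one]; field_simp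
        · intro h _ hh
          rw [hΘP h h.2 (fun h1 => hh (Subtype.ext h1)), zero_mul]
        · intro h; exact absurd (Finset.mem_univ _) h
      rw [h2, sub_self]
    have h2 : ∀ j, classInner Θ (μ j) = classInner Θ (μ i0) := by
      intro j
      rw [← sub_eq_zero, ← CharBasic.inner_sub_right, hμτ, CharBasic.inner_smul_right, frobenius' P _ hΘ]
      unfold classInner
      rw [Finset.sum_eq_zero, mul_zero, mul_zero]
      intro h _
      by_cases hh : h = 1
      · rw [hh, hfz, map_zero, mul_zero]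
      · rw [hΘP h h.2 (fun h1 => hh (Subtype.ext h1)), zero_mul]
    have h3 := parseval hΘ hDcf
    rw [h1, hsplit _ (fun φ h => by rw [hWD, h]; simp), hWD, hWD, hWone, hWchi, hone, hchi,
      Finset.sum_congr rfl (fun j _ => show classInner Θ (mu j : G → ℂ) * conj (classInner D (mu j : G → ℂ)) = (2 / p : ℂ) * classInner Θ (μ i0) by
        rw [hWD, hWmu, hW2', hmu, h2, map_div₀, Complex.conj_natCast, map_intCast]; push_cast; ring), Finset.sum_const, Finset.card_univ, Fintype.card_fin, nsmul_eq_mul] at h3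
    have h4 : ((p : ℂ) - 1) * classInner Θ (μ i0) = ((p : ℂ) - 1) * (classInner Θ χ - classInner Θ (fun _ => 1)) := by
      have h6 : (0 : ℂ) = classInner Θ (fun _ => 1) * (((p : ℂ) - 1) / p) + classInner Θ χ * (-((p : ℂ) - 1) / p) + (((p - 1) / 2 : ℕ) : ℂ) * (2 / p * classInner Θ (μ i0)) := by
        convert h3 using 3
        · simp
        · simp
      field_simp at h6
      linear_combination -h6 - classInner Θ (μ i0) * hmC
    intro j
    rw [h2 j]
    exact mul_left_cancel₀ hp1 h4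

end Hyp

end CfsgLib.PrimeDeg20
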