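import Cfsg.Agent.LibH6QaA
import Cfsg.Agent.LibPrimeDeg20b
/-!
# Characters of degree `p - 1` of groups with Sylow normalizer of order `2p` (helper6)
-/
set_option autoImplicit false
set_option linter.all false
set_option maxHeartbeats 1000000
open Cfsg
open scoped ComplexConjugate
namespace CfsgLib.H6Qa
open CfsgLib.CharBasic CfsgLib.PrimeDeg20

universe u v

section Misc
variable {G : Type u} [Group G] [Fintype G]

theorem char_zero_of {χ : G → ℂ} (h : IsCharacter G χ) (h0 : χ 1 = 0) (g : G) : χ g = 0 := by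
  obtain ⟨n, ρ, rfl⟩ := h
  have h1 : n = 0 := by
    rw [Representation.char_one] at h0
    have h2 : Module.finrank ℂ (Fin n → ℂ) = n := by simp
    rw [h2] at h0
    exact_mod_cast h0
  subst h1
  rw [Representation.character, Subsingleton.elim (ρ g) 0, map_zero]

/-- the `3-4-1` inequality -/
theorem three_four_one {χ : G → ℂ} (h : IsCharacter G χ) (g : G) : 0 ≤ 3 * (χ 1).re - 4 * (χ g).re + (χ (g * g)).re := by
  obtain ⟨n, ρ, rfl⟩ := h
  obtain ⟨b, ω, h1, h2⟩ := exists_diag_rep ρ g
  have e1 : ρ.character g = ∑ i, ω i := by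
    rw [Representation.character, trace_of_diag b _ ω h2]
  have e2 : ρ.character (g * g) = ∑ i, ω i ^ 2 := by
    rw [← pow_two, Representation.character, trace_of_diag b _ (fun i => (ω i) ^ 2) (fun i => diag_pow ρ g (h2 i) 2)]
  have e3 : ρ.character 1 = ∑ i : Fin (Module.finrank ℂ (Fin n → ℂ)), (1 : ℂ) := by
    rw [Representation.char_one]; simp
  rw [e1, e2, e3, Complex.re_sum, Complex.re_sum, Complex.re_sum, Finset.mul_sum, Finset.mul_sum, ← Finset.sum_sub_distrib, ← Finset.sum_add_distrib]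
  apply Finset.sum_nonneg
  intro i _
  have h3 : ‖ω i‖ = 1 := by
    have h4 : ‖ω i‖ ^ orderOf g = 1 := by rw [← norm_pow, h1, norm_one]
    exact (pow_eq_one_iff_of_nonneg (norm_nonneg _) (orderOf_pos g).ne').1 h4
  have h4 : (ω i).re * (ω i).re + (ω i).im * (ω i).im = 1 := by
    have := Complex.normSq_eq_norm_sq (ω i)
    rw [h3, Complex.normSq_apply] at this
    linarith
  have h5 : (ω i ^ 2).re = (ω i).re * (ω i).re - (ω i).im * (ω i).im := by
    rw [pow_two, Complex.mul_re]
  rw [h5, Complex.one_re]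
  nlinarith [sq_nonneg ((ω i).re - 1)]

end Misc

/-- elements not conjugate into `P`, and the identity -/
def Reg {G : Type u} [Group G] (P : Subgroup G) (g : G) : Prop := ∀ x : G, x⁻¹ * g * x ∈ P → g = 1

structure CD {G : Type u} [Group G] [Fintype G] (P : Subgroup G) (p : ℕ) (t : G) (ψ : G → ℂ) (n : G → ℤ) : Prop where
  H : Hyp P p t
  irr : IsIrrCharacter G ψ
  int : ∀ g, ψ g = n g
  one : n 1 = p - 1
  sing : ∀ x ∈ P, x ≠ 1 → n x = -1
  fs : ∑ g : G, n (g * g) = Nat.card G

variable {G : Type u} [Group G] [Fintype G] {P : Subgroup G} {p : ℕ} {t : G} {ψ : G → ℂ} {n : G → ℤ}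

theorem CD.cls (h : CD P p t ψ n) (g x : G) : n (x⁻¹ * g * x) = n g := by
  have h1 := irr_classFun h.irr g x⁻¹
  rw [inv_inv] at h1
  rw [h.int, h.int] at h1
  exact_mod_cast h1

theorem CD.norm (h : CD P p t ψ n) : ∑ g : G, n g * n g = Nat.card G := by
  have h1 := irr_inner_self h.irr
  unfold classInner at h1
  have hG : (Nat.card G : ℂ) ≠ 0 := by exact_mod_cast (Nat.card_pos (α := G)).ne'
  rw [inv_mul_eq_one₀ hG] at h1
  have h2 : ∑ g : G, ψ g * conj (ψ g) = ((∑ g : G, n g * n g : ℤ) : ℂ) := by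
    push_cast
    apply Finset.sum_congr rfl
    intro g _
    rw [h.int]; simp
  rw [h2] at h1
  exact_mod_cast h1.symm

theorem CD.ne_one (h : CD P p t ψ n) : ψ ≠ fun _ => 1 := by
  intro h1
  have h2 := congrFun h1 1
  rw [h.int, h.one] at h2
  have h3 : ((p : ℤ) - 1 : ℤ) = 1 := by exact_mod_cast h2
  have := h.H.five
  omega

theorem CD.sum (h : CD P p t ψ n) : ∑ g : G, n g = 0 := by
  have h1 := irr_inner_ne h.irr isIrrCharacter_one h.ne_one
  unfold classInner at h1
  have hG : (Nat.card G : ℂ) ≠ 0 := by exact_mod_cast (Nat.card_pos (α := G)).ne'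
  rw [mul_eq_zero, or_iff_right (inv_ne_zero hG)] at h1
  have h2 : ∑ g : G, ψ g * conj ((fun _ => (1 : ℂ)) g) = ((∑ g : G, n g : ℤ) : ℂ) := by
    push_cast
    apply Finset.sum_congr rfl
    intro g _
    rw [h.int]; simp
  rw [h2] at h1
  exact_mod_cast h1

theorem CD.ext (h : CD P p t ψ n) : ∃ μ : G → ℂ, IsIrrCharacter G μ ∧ (∀ g, Reg P g → μ g = ψ g - 1) ∧
    ∀ g, Reg P g → n g * n g - n (g * g) = (p - 1) * (n g - 1) := by
  classical
  have h5 := h.H.five
  haveI : Fintype P := Fintype.ofFinite P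
  have hG : (Nat.card G : ℂ) ≠ 0 := by exact_mod_cast (Nat.card_pos (α := G)).ne'
  obtain ⟨μ, hμ, hinj, hne, hne1, hoff, hin⟩ := h.H.main h.irr (by rw [h.int, h.one]; push_cast; ring) (fun x hx hx1 => by
    rw [h.int, h.sing x hx hx1]; norm_num)
  obtain ⟨lam, hlam⟩ : ∃ lam : G → ℂ, lam = fun g => (ψ g ^ 2 - ψ (g * g)) / 2 := ⟨_, rfl⟩
  have hlc : IsCharacter G lam := by rw [hlam]; exact ext_sq (irr_isCharacter h.irr)
  have hlone : classInner lam (fun _ => 1) = 0 := by
    unfold classInner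
    have h1 : ∑ g : G, lam g * conj ((fun _ => (1 : ℂ)) g) = (((∑ g : G, n g * n g) - ∑ g : G, n (g * g) : ℤ) : ℂ) / 2 := by
      push_cast
      rw [← Finset.sum_sub_distrib, Finset.sum_div]
      apply Finset.sum_congr rfl
      intro g _
      rw [hlam]
      simp only [map_one, mul_one, h.int]
      ring
    rw [h1, h.norm, h.fs, sub_self]
    simp
  have hΘ : ∀ j, classInner lam (μ j) = classInner lam ψ + 1 := by
    intro j
    have h1 := hin (lam - fun _ => 1) (by
      intro g x
      rw [Pi.sub_apply, Pi.sub_apply, char_classFun hlc g x]) (by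
      intro x hx hx1
      rw [Pi.sub_apply, hlam]
      have h2 : x * x ∈ P := P.mul_mem hx hx
      simp only [h.int]
      rw [h.sing x hx hx1, h.sing (x * x) h2 (h.H.sq_ne hx hx1)]
      norm_num) j
    rw [CharBasic.inner_sub_left, CharBasic.inner_sub_left, CharBasic.inner_sub_left, hlone, irr_inner_ne isIrrCharacter_one (hμ j) (Ne.symm (hne1 j)),
      irr_inner_ne isIrrCharacter_one h.irr (Ne.symm h.ne_one), irr_inner_self isIrrCharacter_one] at h1
    rw [sub_zero, sub_zero, zero_sub, sub_neg_eq_add] at h1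
    exact h1
  -- the difference is a character
  have hD : IsCharacter G (lam - ∑ j, μ j) := by
    rw [isCharacter_iff]
    constructor
    · intro g x
      rw [Pi.sub_apply, Pi.sub_apply, char_classFun hlc g x, Finset.sum_apply, Finset.sum_apply]
      congr 1
      apply Finset.sum_congr rfl
      intro j _
      exact irr_classFun (hμ j) g x
    · intro φ hφ
      rw [CharBasic.inner_sub_left, CharBasic.inner_sum_left]
      by_cases hj : ∃ j, μ j = φ
      · obtain ⟨j, rfl⟩ := hj
        obtain ⟨m, hm⟩ := char_mult hlc (irr_isCharacter h.irr)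
        refine ⟨m, ?_⟩
        rw [hΘ, hm, Finset.sum_eq_single j, irr_inner_self (hμ j), add_sub_cancel_right]
        · intro i _ hij
          exact irr_inner_ne (hμ i) (hμ j) (fun h1 => hij (hinj h1))
        · intro h1; exact absurd (Finset.mem_univ _) h1
      · push Not at hj
        obtain ⟨m, hm⟩ := char_mult hlc (irr_isCharacter hφ)
        refine ⟨m, ?_⟩
        rw [hm, Finset.sum_eq_zero, sub_zero]
        intro i _
        exact irr_inner_ne (hμ i) hφ (hj i)
  have hodd : p % 2 = 1 := by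
    rcases h.H.prime.eq_two_or_odd with h | h
    · omega
    · exact h
  have hreg1 : Reg P (1 : G) := fun x _ => rfl
  have hcard : ∀ g, Reg P g → (∑ j, μ j) g = ((p : ℂ) - 1) / 2 * (ψ g - 1) := by
    intro g hg
    rw [Finset.sum_apply, Finset.sum_congr rfl fun j _ => hoff j g hg, Finset.sum_const, Finset.card_univ, Fintype.card_fin, nsmul_eq_mul]
    congr 1
    have h2 : ((2 * ((p - 1) / 2) : ℕ) : ℂ) = ((p - 1 : ℕ) : ℂ) := by
      congr 1; omega
    rw [Nat.cast_sub (by omega)] at h2
    push_cast at h2 ⊢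
    rw [eq_div_iff (by norm_num), mul_comm]
    exact h2
  have hD0 : (lam - ∑ j, μ j) 1 = 0 := by
    rw [Pi.sub_apply, hcard 1 hreg1, hlam]
    simp only [mul_one, h.int, h.one]
    push_cast
    ring
  have hall : ∀ g, Reg P g → lam g = ((p : ℂ) - 1) / 2 * (ψ g - 1) := by
    intro g hg
    have h1 := char_zero_of hD hD0 g
    rw [Pi.sub_apply, hcard g hg] at h1
    exact sub_eq_zero.1 h1
  refine ⟨μ ⟨0, by omega⟩, hμ _, fun g hg => hoff _ g hg, ?_⟩
  intro g hg
  have h1 := hall g hg
  rw [hlam] at h1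
  simp only [h.int] at h1
  have h2 : ((n g * n g - n (g * g) : ℤ) : ℂ) = (((p - 1) * (n g - 1) : ℤ) : ℂ) := by
    push_cast
    linear_combination 2 * h1
  exact_mod_cast h2

end CfsgLib.H6Qa
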