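import Cfsg.Agent.LibH6QaC
/-!
# Values of characters of degree `p - 1` (helper6)
-/
set_option autoImplicit false
set_option linter.all false
set_option maxHeartbeats 1000000
open Cfsg
open scoped ComplexConjugate
namespace CfsgLib.H6Qa
open CfsgLib.CharBasic CfsgLib.PrimeDeg20

universe u v

variable {G : Type u} [Group G] [Fintype G] {P : Subgroup G} {p : ℕ} {t : G} {ψ : G → ℂ} {n : G → ℤ}

theorem CD.not_reg (h : CD P p t ψ n) {g : G} (hg : ¬ Reg P g) : n g = -1 ∧ n (g * g) = -1 := by
  unfold Reg at hg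
  push Not at hg
  obtain ⟨x, hx, hg1⟩ := hg
  have hy1 : x⁻¹ * g * x ≠ 1 := by
    intro h1
    apply hg1
    have : g = x * (x⁻¹ * g * x) * x⁻¹ := by group
    rw [this, h1]; group
  constructor
  · rw [← h.cls g x]
    exact h.sing _ hx hy1
  · rw [← h.cls (g * g) x]
    have h2 : x⁻¹ * (g * g) * x = (x⁻¹ * g * x) * (x⁻¹ * g * x) := by group
    rw [h2]
    exact h.sing _ (P.mul_mem hx hx) (h.H.sq_ne hx hy1)

theorem CD.total (h : CD P p t ψ n) : (Nat.card G : ℤ) = ∑ g : G, (open Classical in if Reg P g then (p : ℤ) * (n g * (n g - 1)) else 0) := by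
  classical
  obtain ⟨-, -, -, hq⟩ := h.ext
  have h1 : ∀ g : G, (if Reg P g then (p : ℤ) * (n g * (n g - 1)) else 0) = (n g * n g - 1) * (p - 1) + (n (g * g) - n g) := by
    intro g
    by_cases hg : Reg P g
    · rw [if_pos hg]
      linear_combination hq g hg
    · rw [if_neg hg, (h.not_reg hg).1, (h.not_reg hg).2]; ring
  rw [Finset.sum_congr rfl fun g _ => h1 g, Finset.sum_add_distrib, ← Finset.sum_mul, Finset.sum_sub_distrib, Finset.sum_sub_distrib, h.norm, h.fs, h.sum,
    Finset.sum_const, Finset.card_univ, ← Nat.card_eq_fintype_card]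
  simp

theorem CD.ker [IsSimpleGroup G] (h : CD P p t ψ n) {g : G} (hg : n g = p - 1) : g = 1 := by
  obtain ⟨K, hK, hK2⟩ := exists_kernel (irr_isCharacter h.irr)
  have h5 := h.H.five
  have hgK : g ∈ K := by
    rw [hK2, h.int, h.int, hg, h.one]
  rcases hK.eq_bot_or_eq_top with h1 | h1
  · rw [h1] at hgK
    exact Subgroup.mem_bot.1 hgK
  · exfalso
    obtain ⟨x, hx, hx1⟩ := h.H.exists_ne
    have h2 : x ∈ K := by rw [h1]; trivial
    rw [hK2, h.int, h.int, h.one, h.sing x hx hx1] at h2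
    have h3 : ((-1 : ℤ)) = (p : ℤ) - 1 := by exact_mod_cast h2
    omega

theorem CD.odd [IsSimpleGroup G] (h : CD P p t ψ n) {g : G} (hg : Reg P g) (hg1 : g ≠ 1) (ho : Odd (orderOf g)) : n g = 1 := by
  obtain ⟨-, -, -, hq⟩ := h.ext
  have h1 := hq g hg
  obtain ⟨σ, hσ⟩ := CfsgLib.GalField.exists_ringEquiv_pow (orderOf g) 2 (orderOf_pos g) ((Nat.coprime_two_left).2 ho)
  have h2 := CfsgLib.GalChar.char_pow_eq_of_roots (irr_isCharacter h.irr) g 2 σ hσ
  rw [h.int, h.int, map_intCast, pow_two] at h2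
  have h3 : n (g * g) = n g := by exact_mod_cast h2
  rw [h3] at h1
  have h4 : (n g - 1) * (n g - (p - 1)) = 0 := by linear_combination h1
  rcases mul_eq_zero.1 h4 with h5 | h5
  · omega
  · exact absurd (h.ker (by omega)) hg1

theorem CD.invol [IsSimpleGroup G] (h : CD P p t ψ n) {g : G} (hg : Reg P g) (hg1 : g ≠ 1) (hgg : g * g = 1) : n g = 0 := by
  obtain ⟨-, -, -, hq⟩ := h.ext
  have h1 := hq g hg
  rw [hgg, h.one] at h1
  have h4 : n g * (n g - (p - 1)) = 0 := by linear_combination h1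
  rcases mul_eq_zero.1 h4 with h5 | h5
  · exact h5
  · exact absurd (h.ker (by omega)) hg1

theorem CD.reg_sq (h : CD P p t ψ n) {g : G} (hg : Reg P g) : Reg P (g * g) := by
  intro x hx
  by_contra hne
  have h1 : x⁻¹ * (g * g) * x ≠ 1 := by
    intro h1
    apply hne
    have : g * g = x * (x⁻¹ * (g * g) * x) * x⁻¹ := by group
    rw [this, h1]; group
  have h2 := h.H.cen _ hx h1 (x⁻¹ * g * x) (by group)
  have h3 := hg x h2
  apply hne
  rw [h3, one_mul]

theorem CD.vals [IsSimpleGroup G] (h : CD P p t ψ n) (h7 : 7 ≤ p) : ∀ k : ℕ, ∀ g : G, orderOf g = k → Reg P g → g ≠ 1 → n g = 0 ∨ n g = 1 := by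
  intro k
  induction k using Nat.strong_induction_on with
  | _ k ih =>
    intro g hk hg hg1
    obtain ⟨-, -, -, hq⟩ := h.ext
    by_cases hgg : g * g = 1
    · exact Or.inl (h.invol hg hg1 hgg)
    by_cases ho : Odd (orderOf g)
    · exact Or.inr (h.odd hg hg1 ho)
    rw [Nat.not_odd_iff_even] at ho
    have h1 := hq g hg
    have h2 : orderOf (g * g) < k := by
      rw [← pow_two, orderOf_pow' g (by norm_num)]
      obtain ⟨m, hm⟩ := ho
      have h3 : Nat.gcd (orderOf g) 2 = 2 := Nat.gcd_eq_right (by omega)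
      rw [h3, hk]
      have := orderOf_pos g
      exact Nat.div_lt_self (by omega) (by norm_num)
    rcases ih _ h2 (g * g) rfl (h.reg_sq hg) hgg with h3 | h3
    · exfalso
      rw [h3] at h1
      have h4 : (n g - 1) * ((p : ℤ) - 1 - (n g + 1)) = 1 := by linear_combination -h1
      rcases Int.isUnit_iff.1 (IsUnit.of_mul_eq_one _ h4) with h5 | h5
      · rw [h5] at h4; omega
      · rw [h5] at h4; omega
    · rw [h3] at h1
      have h4 : (n g - 1) * (n g - ((p : ℤ) - 2)) = 0 := by linear_combination h1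
      rcases mul_eq_zero.1 h4 with h5 | h5
      · right; omega
      · exfalso
        have h6 := three_four_one (irr_isCharacter h.irr) g
        rw [h.int, h.int, h.int, h.one, h3, show n g = (p : ℤ) - 2 by omega] at h6
        simp only [Complex.intCast_re] at h6
        push_cast at h6
        have : (7 : ℝ) ≤ p := by exact_mod_cast h7
        linarith

theorem CD.order [IsSimpleGroup G] (h : CD P p t ψ n) (h7 : 7 ≤ p) : Nat.card G = p * ((p - 1) * (p - 2)) := by
  classical
  have h1 := h.total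
  rw [Finset.sum_eq_single (1 : G)] at h1
  · rw [if_pos (show Reg P (1 : G) from fun x _ => rfl), h.one] at h1
    have h2 : ((p * ((p - 1) * (p - 2)) : ℕ) : ℤ) = (p : ℤ) * ((p - 1) * (p - 1 - 1)) := by
      rw [Nat.cast_mul, Nat.cast_mul, Nat.cast_sub (by omega), Nat.cast_sub (by omega)]
      push_cast; ring
    rw [← h2] at h1
    exact_mod_cast h1
  · intro g _ hg1
    by_cases hg : Reg P g
    · rw [if_pos hg]
      rcases h.vals h7 _ g rfl hg hg1 with h3 | h3 <;> rw [h3] <;> ring
    · rw [if_neg hg]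
  · intro h3; exact absurd (Finset.mem_univ _) h3

theorem CD.sylow [IsSimpleGroup G] (h : CD P p t ψ n) {q : ℕ} [Fact q.Prime] (hq2 : q ≠ 2) (hqp : q ≠ p) (Q : Sylow q G) :
    Nat.card (Q : Subgroup G) ∣ p - 2 := by
  classical
  obtain ⟨μ, hμ, hr, -⟩ := h.ext
  have h5 := h.H.five
  have hqq : q.Prime := Fact.out
  letI : Fintype (Q : Subgroup G) := Fintype.ofFinite _
  obtain ⟨m, hm⟩ := char_mult (isCharacter_restrict (irr_isCharacter hμ) (Q : Subgroup G)) isCharacter_one
  have hQ0 : (Nat.card (Q : Subgroup G) : ℂ) ≠ 0 := by exact_mod_cast (Nat.card_pos (α := (Q : Subgroup G))).ne'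
  unfold classInner at hm
  rw [Finset.sum_eq_single (1 : (Q : Subgroup G))] at hm
  · have h1 : μ ((1 : (Q : Subgroup G)) : G) = (p : ℂ) - 2 := by
      rw [OneMemClass.coe_one, hr 1 (fun x _ => rfl), h.int, h.one]; push_cast; ring
    rw [h1, map_one, mul_one, inv_mul_eq_iff_eq_mul₀ hQ0] at hm
    have h2 : ((p - 2 : ℕ) : ℂ) = ((Nat.card (Q : Subgroup G) * m : ℕ) : ℂ) := by
      rw [Nat.cast_sub (by omega)]; push_cast; exact hm
    exact ⟨m, by exact_mod_cast h2⟩
  · intro g _ hg1
    have hg1' : (g : G) ≠ 1 := fun h1 => hg1 (Subtype.ext h1)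
    obtain ⟨k, hk⟩ := (IsPGroup.iff_orderOf.1 Q.2) g
    rw [Subgroup.orderOf_coe g |>.symm] at hk
    have hcop : Nat.Coprime (orderOf (g : G)) p := by
      rw [hk]
      exact Nat.Coprime.pow_left _ ((Nat.coprime_primes hqq h.H.prime).2 hqp)
    have hreg : Reg P (g : G) := by
      intro x hx
      have h1 : orderOf (x⁻¹ * (g : G) * x) ∣ p := by
        have := orderOf_dvd_natCard (⟨_, hx⟩ : P)
        rw [h.H.card, Subgroup.orderOf_mk] at this
        exact this
      have h2 : orderOf (x⁻¹ * (g : G) * x) = orderOf (g : G) := by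
        have := (MulAut.conj x⁻¹).orderOf_eq (g : G)
        simpa using this
      rw [h2] at h1
      have h3 := hcop.eq_one_of_dvd h1
      exact orderOf_eq_one_iff.1 h3
    have hodd : Odd (orderOf (g : G)) := by
      rw [hk]; exact (hqq.odd_of_ne_two hq2).pow
    rw [hr _ hreg, h.int, h.odd hreg hg1' hodd]
    simp
  · intro h3; exact absurd (Finset.mem_univ _) h3

end CfsgLib.H6Qa
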