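import Cfsg.Agent.LibH6QaD
import Cfsg.Agent.LibDegTwoP20d
import Cfsg.Agent.LibFS
/-!
# The constituents of the permutation character of degree `2p` (helper6)
-/
set_option autoImplicit false
set_option linter.all false
set_option maxHeartbeats 1000000
open Cfsg
open scoped ComplexConjugate
namespace CfsgLib.H6Qa
open CfsgLib.CharBasic CfsgLib.PrimeDeg20 CfsgLib.PermAlg20 MulAction

universe u v

theorem linear_triv {G : Type u} [Group G] [Fintype G] [IsSimpleGroup G] (hna : ∃ x y : G, x * y ≠ y * x) {χ : G → ℂ} (h : IsCharacter G χ)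
    (h1 : χ 1 = 1) (g : G) : χ g = 1 := by
  obtain ⟨f, hf⟩ := exists_hom_of_linear h h1
  rcases (MonoidHom.normal_ker f).eq_bot_or_eq_top with h2 | h2
  · exfalso
    obtain ⟨x, y, hxy⟩ := hna
    apply hxy
    apply (MonoidHom.ker_eq_bot_iff f).1 h2
    rw [map_mul, map_mul, mul_comm]
  · have h3 : g ∈ f.ker := by rw [h2]; trivial
    rw [hf g, (MonoidHom.mem_ker).1 h3]; simp

theorem exists_cd {G : Type u} [Group G] [Fintype G] [IsSimpleGroup G] (hna : ∃ x y : G, x * y ≠ y * x) {Ω : Type v} [MulAction G Ω] [Fintype Ω]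
    [IsPretransitive G Ω] {P : Subgroup G} {p : ℕ} {t : G} (H : Hyp P p t) (hcard : Fintype.card Ω = 2 * p) (a : Ω)
    (hrank : Nat.card (orbitRel.Quotient (stabilizer G a) Ω) = 3) (hfpf : ∀ x ∈ P, x ≠ 1 → ∀ b : Ω, x • b ≠ b) :
    ∃ (ψ : G → ℂ) (n : G → ℤ), CD P p t ψ n := by
  classical
  have h5 := H.five
  have hp := H.prime
  obtain ⟨z, hz, hz1⟩ := H.exists_ne
  have hord : ∀ x ∈ P, x ≠ 1 → orderOf x = p := by
    intro x hx hx1
    have h2 : orderOf x ∣ p := by
      have := orderOf_dvd_natCard (⟨x, hx⟩ : P)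
      rw [H.card, Subgroup.orderOf_mk] at this
      exact this
    rcases (Nat.dvd_prime hp).1 h2 with h3 | h3
    · exact absurd (orderOf_eq_one_iff.1 h3) hx1
    · exact h3
  have hzp : z ^ p = 1 := by rw [← hord z hz hz1]; exact pow_orderOf_eq_one z
  have hfree : ∀ i : ℕ, ¬ p ∣ i → ∀ x : Ω, z ^ i • x ≠ x := by
    intro i hi
    apply hfpf _ (P.pow_mem hz i)
    intro h
    apply hi
    rw [← hord z hz hz1]
    exact orderOf_dvd_of_pow_eq_one h
  obtain ⟨χ₁, m, hχ1, hin, hm, b, hm1, hmz, hb⟩ := CfsgLib.DegTwoP20.exists_chi hp hcard hzp hz1 hfree a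
  obtain ⟨χ, hχe⟩ : ∃ χ : G → ℂ, χ = (χ₁ : G → ℂ) := ⟨_, rfl⟩
  have hχ : IsIrrCharacter G χ := by rw [hχe]; exact χ₁.2
  have hχne : χ ≠ fun _ => 1 := by
    intro h
    apply hχ1
    apply Subtype.ext
    rw [← hχe, h]; rfl
  rw [← hχe] at hin
  have hmm : ∀ g, χ g = m g := fun g => by rw [hχe]; exact hm g
  have hG : (Nat.card G : ℂ) ≠ 0 := by exact_mod_cast (Nat.card_pos (α := G)).ne'
  have hpc : IsCharacter G (pic G Ω) := pic_char
  have hone : IsIrrCharacter G (fun _ => 1 : G → ℂ) := isIrrCharacter_one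
  obtain ⟨one, hone1⟩ : ∃ one : G → ℂ, one = fun _ => 1 := ⟨_, rfl⟩
  rw [← hone1] at hone hχne
  have hp1 : classInner (pic G Ω) one = 1 := by rw [hone1]; exact inner_pic_one a
  have hpp : classInner (pic G Ω) (pic G Ω) = 3 := by rw [inner_pic_self a, hrank]; norm_num
  have hpic1 : pic G Ω 1 = 2 * (p : ℂ) := by rw [pic_deg, hcard]; push_cast; ring
  -- the remainder
  obtain ⟨ψ, hψ⟩ : ∃ ψ : G → ℂ, ψ = pic G Ω - one - χ := ⟨_, rfl⟩
  have hDc : IsCharacter G ψ := by
    rw [isCharacter_iff]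
    constructor
    · intro g x
      rw [hψ, Pi.sub_apply, Pi.sub_apply, Pi.sub_apply, Pi.sub_apply, char_classFun hpc g x, irr_classFun hone g x, irr_classFun hχ g x]
    · intro φ hφ
      rw [hψ, CharBasic.inner_sub_left, CharBasic.inner_sub_left]
      by_cases h1 : one = φ
      · subst h1
        refine ⟨0, ?_⟩
        rw [hp1, irr_inner_self hone, irr_inner_ne hχ hone hχne]; norm_num
      · by_cases h2 : χ = φ
        · subst h2
          refine ⟨0, ?_⟩
          rw [hin, irr_inner_self hχ, irr_inner_ne hone hχ (Ne.symm hχne)]; norm_num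
        · obtain ⟨k, hk⟩ := char_mult hpc (irr_isCharacter hφ)
          refine ⟨k, ?_⟩
          rw [hk, irr_inner_ne hone hφ h1, irr_inner_ne hχ hφ h2]; norm_num
  have hc1 : classInner one (pic G Ω) = 1 := by rw [← CharBasic.inner_conj_symm, hp1, map_one]
  have hc2 : classInner χ (pic G Ω) = 1 := by rw [← CharBasic.inner_conj_symm, hin, map_one]
  have hnorm : classInner ψ ψ = 1 := by
    rw [hψ]
    rw [CharBasic.inner_sub_left, CharBasic.inner_sub_left, CharBasic.inner_sub_right, CharBasic.inner_sub_right, CharBasic.inner_sub_right,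
      CharBasic.inner_sub_right, CharBasic.inner_sub_right, CharBasic.inner_sub_right]
    rw [hpp, hp1, hin, hc1, hc2, irr_inner_self hone, irr_inner_self hχ, irr_inner_ne hone hχ (Ne.symm hχne), irr_inner_ne hχ hone hχne]
    norm_num
  have hψi : IsIrrCharacter G ψ := irr_iff_norm_one.2 ⟨hDc, hnorm⟩
  -- the degree
  have hb1 : b = 1 := by
    have hb0 : b = 0 ∨ b = 1 ∨ b = 2 := by omega
    rcases hb0 with h | h | h
    · exfalso
      rw [h] at hm1
      have h1 : χ 1 = 1 := by rw [hmm, hm1]; simp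
      apply hχne
      rw [hone1]
      funext g
      exact linear_triv hna (irr_isCharacter hχ) h1 g
    · exact h
    · exfalso
      have h1 : ψ 1 = 0 := by
        rw [hψ, Pi.sub_apply, Pi.sub_apply, hpic1, hone1, hmm, hm1, h]
        push_cast; ring
      have h2 : ψ = 0 := by
        funext g
        exact char_zero_of hDc h1 g
      rw [h2] at hnorm
      unfold classInner at hnorm
      simp at hnorm
  subst hb1
  have hχP : ∀ x ∈ P, x ≠ 1 → χ x = 0 := by
    intro x hx hx1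
    have h1 : (⟨x, hx⟩ : P) ∈ Subgroup.zpowers (⟨z, hz⟩ : P) := by
      haveI := Fact.mk hp
      exact mem_zpowers_of_prime_card H.card (fun h => hz1 (congrArg Subtype.val h))
    rw [mem_zpowers_iff_mem_range_orderOf, Finset.mem_image] at h1
    obtain ⟨i, -, hi⟩ := h1
    have hi2 : x = z ^ i := (congrArg Subtype.val hi).symm
    have hpi : ¬ p ∣ i := by
      intro h
      apply hx1
      rw [hi2]
      obtain ⟨c, rfl⟩ := h
      rw [pow_mul, hzp, one_pow]
    obtain ⟨σ, hσ⟩ := CfsgLib.GalField.exists_ringEquiv_pow p i hp.pos ((Nat.Prime.coprime_iff_not_dvd hp).mpr hpi).symm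
    rw [hi2, CfsgLib.GalChar.char_pow_eq_of_roots (irr_isCharacter hχ) z i σ (by rw [hord z hz hz1]; exact hσ), hmm, hmz]
    simp
  obtain ⟨n, hn⟩ : ∃ n : G → ℤ, ∀ g, n g = (Nat.card (fixedBy Ω g) : ℤ) - 1 - m g := ⟨_, fun g => rfl⟩
  have hψn : ∀ g, ψ g = n g := by
    intro g
    rw [hψ, Pi.sub_apply, Pi.sub_apply, hone1, hmm, hn]
    push_cast
    rfl
  have hψ1 : n 1 = p - 1 := by
    have h1 : ψ 1 = (p : ℂ) - 1 := by
      rw [hψ, Pi.sub_apply, Pi.sub_apply, hpic1, hone1, hmm, hm1]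
      push_cast; ring
    rw [hψn] at h1
    have h2 : ((n 1 : ℤ) : ℂ) = ((p - 1 : ℤ) : ℂ) := by rw [h1]; push_cast; ring
    exact_mod_cast h2
  have hsing : ∀ x ∈ P, x ≠ 1 → n x = -1 := by
    intro x hx hx1
    have h1 : Nat.card (fixedBy Ω x) = 0 := by
      rw [Nat.card_eq_zero]
      left
      exact ⟨fun y => hfpf x hx hx1 _ y.2⟩
    have h2 : m x = 0 := by
      have := hχP x hx hx1
      rw [hmm] at this
      exact_mod_cast this
    rw [hn, h1, h2]; norm_num
  -- self-paired orbitals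
  have hsp : ∀ x y : Ω, ∃ g : G, g • x = y ∧ g • y = x := by
    apply mf_selfpaired
    intro φ
    have hdec : pic G Ω = one + χ + ψ := by rw [hψ]; ring
    have hψ1' : one ≠ ψ := by
      intro h
      have h1 := congrFun h 1
      rw [hone1, hψn, hψ1] at h1
      have h1' : (1 : ℂ) = (((p : ℤ) - 1 : ℤ) : ℂ) := h1
      have h2 : (1 : ℤ) = (p : ℤ) - 1 := Int.cast_injective (by rw [← h1']; norm_num)
      omega
    have hψχ : χ ≠ ψ := by
      intro h
      have h1 := congrFun h 1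
      rw [hmm, hm1, hψn, hψ1] at h1
      have h2 : (1 : ℤ) + ((p : ℤ) - 1) * ((1 : ℕ) : ℤ) = (p : ℤ) - 1 := by exact_mod_cast h1
      push_cast at h2
      omega
    by_cases h1 : one = (φ : G → ℂ)
    · right
      rw [← h1]
      refine ⟨hp1, fun g => ?_⟩
      rw [hone1]; simp
    by_cases h2 : χ = (φ : G → ℂ)
    · right
      rw [← h2]
      refine ⟨hin, fun g => ?_⟩
      rw [hmm]; simp
    by_cases h3 : ψ = (φ : G → ℂ)
    · right
      rw [← h3]
      refine ⟨?_, fun g => by rw [hψn]; simp⟩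
      rw [hdec, CharBasic.inner_add_left, CharBasic.inner_add_left, irr_inner_ne hone hψi hψ1', irr_inner_ne hχ hψi hψχ, hnorm]
      norm_num
    · left
      rw [hdec, CharBasic.inner_add_left, CharBasic.inner_add_left, irr_inner_ne hone φ.2 h1, irr_inner_ne hχ φ.2 h2, irr_inner_ne hψi φ.2 h3]
      norm_num
  -- the indicator
  have hfs : ∑ g : G, n (g * g) = Nat.card G := by
    have h1 : ∑ g : G, pic G Ω (g * g) = 3 * Nat.card G := by
      have h2 : classInner (pic G Ω) (pic G Ω) = (Nat.card G : ℂ)⁻¹ * ∑ g : G, ((Nat.card (fixedBy Ω g) * Nat.card (fixedBy Ω g) : ℕ) : ℂ) := by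
        unfold classInner
        congr 1
        apply Finset.sum_congr rfl
        intro g _
        unfold pic
        rw [Complex.conj_natCast]
        push_cast; ring
      rw [hpp, ← Nat.cast_sum, ← sum_sq hsp] at h2
      have h3 : ∑ g : G, pic G Ω (g * g) = ((∑ g : G, Nat.card (fixedBy Ω (g * g)) : ℕ) : ℂ) := by
        rw [Nat.cast_sum]; rfl
      rw [h3]
      rw [eq_inv_mul_iff_mul_eq₀ hG] at h2
      rw [← h2]; ring
    obtain ⟨e1, he1, he1'⟩ := CfsgLib.FS.fs_int hχ
    obtain ⟨e2, he2, he2'⟩ := CfsgLib.FS.fs_int hψi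
    rw [CfsgLib.FS.fsInd_eq, inv_mul_eq_iff_eq_mul₀ hG] at he1 he2
    have h2 : ∑ g : G, pic G Ω (g * g) = Nat.card G + ∑ g : G, χ (g * g) + ∑ g : G, ψ (g * g) := by
      have h3 : ∀ g : G, pic G Ω (g * g) = 1 + χ (g * g) + ψ (g * g) := by
        intro g
        rw [hψ, Pi.sub_apply, Pi.sub_apply, hone1]; ring
      rw [Finset.sum_congr rfl fun g _ => h3 g, Finset.sum_add_distrib, Finset.sum_add_distrib, Finset.sum_const, Finset.card_univ,
        ← Nat.card_eq_fintype_card]
      simp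
    rw [h1, he1, he2] at h2
    have h3 : (Nat.card G : ℂ) * (2 - e1 - e2) = 0 := by linear_combination h2
    rcases mul_eq_zero.1 h3 with h4 | h4
    · exact absurd h4 hG
    · have h6 : (2 : ℤ) - e1 - e2 = 0 := by exact_mod_cast h4
      have h7 : e2 = 1 := by omega
      rw [h7] at he2
      simp only [hψn] at he2
      push_cast at he2
      rw [mul_one] at he2
      exact_mod_cast he2
  exact ⟨ψ, n, H, hψi, hψn, hψ1, hsing, hfs⟩

end CfsgLib.H6Qa
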