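import Mathlib

set_option autoImplicit false

/-! One-point extensions of multiply transitive groups. -/

namespace CfsgLib.H7Ext

open Subgroup

variable {X : Type*}

theorem invself {α : Type*} (f : Equiv.Perm α) (x : α) : f⁻¹ (f x) = x := f.symm_apply_apply x

theorem two (G : Subgroup (Equiv.Perm (Option X))) (k : ℕ) (hk : 2 ≤ k)
    (hkX : Nonempty (Fin k ↪ X))
    (htrans : ∀ a b : Fin k ↪ X, ∃ f ∈ G, ∀ i, f (some (a i)) = some (b i))
    {p q r s : X} (hpq : p ≠ q) (hrs : r ≠ s) :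
    ∃ f ∈ G, f (some p) = some r ∧ f (some q) = some s := by
  classical
  obtain ⟨e⟩ := hkX
  set i0 : Fin k := ⟨0, by omega⟩
  set i1 : Fin k := ⟨1, by omega⟩
  have h01 : i0 ≠ i1 := by
    intro h
    have := congrArg Fin.val h
    simp [i0, i1] at this
  have ext : ∀ p q : X, p ≠ q → ∃ a : Fin k ↪ X, a i0 = p ∧ a i1 = q := by
    intro p q hpq
    have h1 : Equiv.swap (e i0) p (e i1) ≠ p := by
      intro h
      have h2 : Equiv.swap (e i0) p (e i1) = Equiv.swap (e i0) p (e i0) := by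
        rw [h, Equiv.swap_apply_left]
      exact h01 (e.injective ((Equiv.swap (e i0) p).injective h2)).symm
    refine ⟨(e.trans (Equiv.swap (e i0) p).toEmbedding).trans
      (Equiv.swap (Equiv.swap (e i0) p (e i1)) q).toEmbedding, ?_, ?_⟩
    · simp only [Function.Embedding.trans_apply, Equiv.coe_toEmbedding, Equiv.swap_apply_left]
      exact Equiv.swap_apply_of_ne_of_ne h1.symm hpq
    · simp only [Function.Embedding.trans_apply, Equiv.coe_toEmbedding, Equiv.swap_apply_left]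
  obtain ⟨a, ha0, ha1⟩ := ext p q hpq
  obtain ⟨b, hb0, hb1⟩ := ext r s hrs
  obtain ⟨f, hf, hfa⟩ := htrans a b
  refine ⟨f, hf, ?_, ?_⟩
  · rw [← ha0, hfa, hb0]
  · rw [← ha1, hfa, hb1]

theorem main (G : Subgroup (Equiv.Perm (Option X))) (hfix : ∀ f ∈ G, f none = none)
    (k : ℕ) (hk : 2 ≤ k) (hkX : Nonempty (Fin k ↪ X))
    (htrans : ∀ a b : Fin k ↪ X, ∃ f ∈ G, ∀ i, f (some (a i)) = some (b i))
    (h g : Equiv.Perm (Option X)) (hg : g ∈ G) (x y : X)
    (h1 : h none = some x) (h2 : h (some x) = none) (h3 : h (some y) = some y)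
    (h4 : g (some x) = some y) (h5 : g (some y) = some x)
    (h6 : (g * h) ^ 3 ∈ G) (h7 : h ^ 2 ∈ G)
    (h8 : ∀ f ∈ G, f (some x) = some x → h * f * h ∈ G ∧ (h * f * h) (some x) = some x) :
    (∀ f ∈ Subgroup.closure ((G : Set (Equiv.Perm (Option X))) ∪ {h}), f none = none ↔ f ∈ G) ∧
      MulAction.IsMultiplyPretransitive
        (Subgroup.closure ((G : Set (Equiv.Perm (Option X))) ∪ {h})) (Option X) (k + 1) := by
  have hxy : x ≠ y := by
    rintro rfl
    rw [h2] at h3
    exact absurd h3 (by simp)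
  have h2t : ∀ {p q r s : X}, p ≠ q → r ≠ s → ∃ f ∈ G, f (some p) = some r ∧ f (some q) = some s :=
    fun hpq hrs => two G k hk hkX htrans hpq hrs
  let P : Equiv.Perm (Option X) → Prop := fun l => l ∈ G ∨ ∃ f1 ∈ G, ∃ f2 ∈ G, l = f1 * h * f2
  have hPl : ∀ f ∈ G, ∀ l, P l → P (f * l) := by
    rintro f hf l (hl | ⟨f1, hf1, f2, hf2, rfl⟩)
    · exact Or.inl (mul_mem hf hl)
    · exact Or.inr ⟨f * f1, mul_mem hf hf1, f2, hf2, by group⟩
  have hPr : ∀ f ∈ G, ∀ l, P l → P (l * f) := by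
    rintro f hf l (hl | ⟨f1, hf1, f2, hf2, rfl⟩)
    · exact Or.inl (mul_mem hl hf)
    · exact Or.inr ⟨f1, hf1, f2 * f, mul_mem hf2 hf, by group⟩
  have hPh : P h := Or.inr ⟨1, one_mem _, 1, one_mem _, by group⟩
  have hhi : h⁻¹ = (h ^ 2)⁻¹ * h := by rw [pow_two]; group
  have hPhi : P h⁻¹ := by
    rw [hhi]; exact hPl _ (inv_mem h7) _ hPh
  have hgh : P (h⁻¹ * g * h⁻¹) := by
    have e : h⁻¹ * g * h⁻¹ = (h ^ 2)⁻¹ * g⁻¹ * (g * h) ^ 3 * h⁻¹ * (g⁻¹ * (h ^ 2)⁻¹) := by
      rw [pow_three, pow_two]; group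
    rw [e]
    exact hPr _ (mul_mem (inv_mem hg) (inv_mem h7)) _
      (hPl _ (mul_mem (mul_mem (inv_mem h7) (inv_mem hg)) h6) _ hPhi)
  have key : ∀ f ∈ G, P (h * f * h) := by
    intro f hf
    by_cases hfx : f (some x) = some x
    · exact Or.inl (h8 f hf hfx).1
    · obtain ⟨z, hz⟩ : ∃ z, f (some x) = some z := by
        cases hc : f (some x) with
        | none =>
          exfalso
          have := f.injective (hc.trans (hfix f hf).symm)
          exact absurd this (by simp)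
        | some z => exact ⟨z, rfl⟩
      have hzx : x ≠ z := by
        rintro rfl
        exact hfx hz
      obtain ⟨f1, hf1, hf1x, hf1y⟩ := h2t hxy hzx
      have hf2 : g⁻¹ * f1⁻¹ * f ∈ G := mul_mem (mul_mem (inv_mem hg) (inv_mem hf1)) hf
      have hf2x : (g⁻¹ * f1⁻¹ * f) (some x) = some x := by
        rw [Equiv.Perm.mul_apply, hz, Equiv.Perm.mul_apply, ← hf1y, invself, ← h4, invself]
      have e : h * f * h = (h * f1 * h) * (h⁻¹ * g * h⁻¹) * (h * (g⁻¹ * f1⁻¹ * f) * h) := by group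
      rw [e]
      exact hPr _ (h8 _ hf2 hf2x).1 _ (hPl _ (h8 _ hf1 hf1x).1 _ hgh)
  let K : Subgroup (Equiv.Perm (Option X)) :=
    { carrier := {l | P l}
      one_mem' := Or.inl (one_mem _)
      mul_mem' := by
        rintro a b (ha | ⟨f1, hf1, f2, hf2, rfl⟩) hb
        · exact hPl _ ha _ hb
        · rcases hb with hb | ⟨f3, hf3, f4, hf4, rfl⟩
          · exact hPr _ hb _ (Or.inr ⟨f1, hf1, f2, hf2, rfl⟩)
          · have e : f1 * h * f2 * (f3 * h * f4) = f1 * (h * (f2 * f3) * h) * f4 := by group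
            show P _
            rw [e]
            exact hPr _ hf4 _ (hPl _ hf1 _ (key _ (mul_mem hf2 hf3)))
      inv_mem' := by
        rintro a (ha | ⟨f1, hf1, f2, hf2, rfl⟩)
        · exact Or.inl (inv_mem ha)
        · have e : (f1 * h * f2)⁻¹ = f2⁻¹ * h⁻¹ * f1⁻¹ := by group
          show P _
          rw [e]
          exact hPr _ (inv_mem hf1) _ (hPl _ (inv_mem hf2) _ hPhi) }
  set L := Subgroup.closure ((G : Set (Equiv.Perm (Option X))) ∪ {h}) with hL
  have hLK : L ≤ K := by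
    rw [hL, closure_le]
    rintro l (hl | hl)
    · exact Or.inl hl
    · rw [Set.mem_singleton_iff] at hl
      rw [hl]; exact hPh
  have hGL : G ≤ L := fun f hf => Subgroup.subset_closure (Or.inl hf)
  have hhL : h ∈ L := Subgroup.subset_closure (Or.inr rfl)
  refine ⟨fun f hf => ⟨fun hfn => ?_, hfix f⟩, ?_⟩
  · rcases hLK hf with h' | ⟨f1, hf1, f2, hf2, rfl⟩
    · exact h'
    · exfalso
      rw [Equiv.Perm.mul_apply, Equiv.Perm.mul_apply, hfix f2 hf2, h1] at hfn
      have := f1.injective (hfn.trans (hfix f1 hf1).symm)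
      exact absurd this (by simp)
  · have htn : ∀ o : Option X, ∃ l ∈ L, l o = none := by
      intro o
      cases o with
      | none => exact ⟨1, one_mem _, rfl⟩
      | some p =>
        obtain ⟨q, hq⟩ : ∃ q, p ≠ q := by
          by_cases hp : p = x
          · exact ⟨y, by rw [hp]; exact hxy⟩
          · exact ⟨x, hp⟩
        obtain ⟨f, hf, hfp, -⟩ := h2t hq hxy
        exact ⟨h * f, mul_mem hhL (hGL hf), by rw [Equiv.Perm.mul_apply, hfp, h2]⟩
    have hred : ∀ u : Fin (k + 1) ↪ Option X, ∃ l ∈ L, ∃ a : Fin k ↪ X,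
        l (u (Fin.last k)) = none ∧ ∀ i : Fin k, l (u i.castSucc) = some (a i) := by
      intro u
      obtain ⟨l, hl, hlu⟩ := htn (u (Fin.last k))
      have hex : ∀ i : Fin k, ∃ z, l (u i.castSucc) = some z := by
        intro i
        cases hc : l (u i.castSucc) with
        | none =>
          exfalso
          have := u.injective (l.injective (hc.trans hlu.symm))
          exact absurd this (Fin.castSucc_lt_last i).ne
        | some z => exact ⟨z, rfl⟩
      choose a ha using hex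
      refine ⟨l, hl, ⟨a, ?_⟩, hlu, ha⟩
      intro i j hij
      have h9 : l (u i.castSucc) = l (u j.castSucc) := by rw [ha, ha, hij]
      exact Fin.castSucc_injective k (u.injective (l.injective h9))
    rw [MulAction.isMultiplyPretransitive_iff]
    intro u v
    obtain ⟨l, hl, a, hla, hlb⟩ := hred u
    obtain ⟨m, hm, b, hma, hmb⟩ := hred v
    obtain ⟨f, hf, hfa⟩ := htrans a b
    refine ⟨⟨m⁻¹ * f * l, mul_mem (mul_mem (inv_mem hm) (hGL hf)) hl⟩, ?_⟩
    ext1 i
    show (m⁻¹ * f * l) (u i) = v i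
    rw [Equiv.Perm.mul_apply, Equiv.Perm.mul_apply, Equiv.Perm.inv_eq_iff_eq]
    refine Fin.lastCases ?_ (fun j => ?_) i
    · rw [hla, hfix f hf, hma]
    · rw [hlb, hfa, hmb]

end CfsgLib.H7Ext
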