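import Mathlib
import Cfsg.Prelude.Def_Solvable

/-! Frobenius complements from fixed-point-free actions. -/

set_option autoImplicit false

namespace CfsgLib.H7

open Subgroup

open scoped Pointwise in
theorem mem_conj_smul {G : Type*} [Group G] (H : Subgroup G) (g x : G) :
    x ∈ MulAut.conj g • H ↔ g⁻¹ * x * g ∈ H := by
  rw [Subgroup.mem_pointwise_smul_iff_inv_smul_mem]
  simp

/-- semidirect product with a fixed-point-free action -/
theorem frob_semidirect {V : Type*} [Group V] [Nontrivial V] {C : Type*} [Group C]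
    [Nontrivial C] (φ : C →* MulAut V) (h : ∀ c, c ≠ 1 → ∀ v, φ c v = v → v = 1) :
    Cfsg.IsFrobeniusComplement (SemidirectProduct.inr : C →* V ⋊[φ] C).range := by
  refine ⟨?_, ?_, ?_⟩
  · intro hbot
    obtain ⟨c, hc⟩ := exists_ne (1 : C)
    have h1 : (SemidirectProduct.inr c : V ⋊[φ] C) ∈ (SemidirectProduct.inr : C →* V ⋊[φ] C).range :=
      ⟨c, rfl⟩
    rw [hbot, Subgroup.mem_bot] at h1
    apply hc
    have := congrArg SemidirectProduct.right h1
    simpa using this
  · intro htop
    obtain ⟨v, hv⟩ := exists_ne (1 : V)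
    have h1 : (SemidirectProduct.inl v : V ⋊[φ] C) ∈ (SemidirectProduct.inr : C →* V ⋊[φ] C).range := by
      rw [htop]; exact Subgroup.mem_top _
    obtain ⟨c, hc⟩ := h1
    apply hv
    have := congrArg SemidirectProduct.left hc
    simpa using this.symm
  · intro g hg
    rw [eq_bot_iff]
    rintro x ⟨hx1, hx2⟩
    rw [Subgroup.mem_bot]
    obtain ⟨c, rfl⟩ := hx1
    have hx2' : g⁻¹ * SemidirectProduct.inr c * g ∈ (SemidirectProduct.inr : C →* V ⋊[φ] C).range :=
      (mem_conj_smul _ _ _).mp hx2
    obtain ⟨d, hd⟩ := hx2'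
    by_contra hc
    have hc1 : c ≠ 1 := by
      rintro rfl
      exact hc (map_one _)
    apply hg
    -- `inr c * g = g * inr d`
    have e1 : (SemidirectProduct.inr c : V ⋊[φ] C) * g = g * SemidirectProduct.inr d := by
      rw [hd]; group
    have e2 := congrArg SemidirectProduct.left e1
    simp only [SemidirectProduct.mul_left, SemidirectProduct.left_inr, SemidirectProduct.right_inr,
      one_mul, map_one, mul_one] at e2
    have e3 := h c hc1 g.left e2
    refine ⟨g.right, ?_⟩
    apply SemidirectProduct.ext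
    · simp [e3]
    · simp

theorem frob_of_action_aux {V : Type} [Group V] [Finite V] [Nontrivial V] {C : Type*} [Group C]
    [Nontrivial C] (φ : C →* MulAut V) (h : ∀ c, c ≠ 1 → ∀ v, φ c v = v → v = 1) :
    ∃ (L : Type) (_ : Group L) (_ : Finite L) (H : Subgroup L),
      Cfsg.IsFrobeniusComplement H ∧ Nonempty (C ≃* H) := by
  have hinj : Function.Injective φ := by
    rw [injective_iff_map_eq_one]
    intro c hc
    by_contra hc1
    obtain ⟨v, hv⟩ := exists_ne (1 : V)
    exact hv (h c hc1 v (by rw [hc]; rfl))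
  let e : C ≃* φ.range := MonoidHom.ofInjective hinj
  haveI : Nontrivial φ.range := e.toEquiv.nontrivial_congr.mp inferInstance
  haveI : Finite (MulAut V) := Finite.of_injective (fun (f : MulAut V) => (f : V → V))
    DFunLike.coe_injective
  let ψ : φ.range →* MulAut V := φ.range.subtype
  have hψ : ∀ c, c ≠ 1 → ∀ v, ψ c v = v → v = 1 := by
    rintro ⟨_, c, rfl⟩ hc v hv
    apply h c _ v hv
    rintro rfl
    apply hc
    apply Subtype.ext
    simp
  haveI : Finite (V ⋊[ψ] φ.range) := Finite.of_equiv _ SemidirectProduct.equivProd.symm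
  refine ⟨V ⋊[ψ] φ.range, inferInstance, inferInstance, _, frob_semidirect ψ hψ, ⟨e.trans ?_⟩⟩
  exact MonoidHom.ofInjective SemidirectProduct.inr_injective

/-- A finite group acting fixed-point-freely on a nontrivial finite group is a Frobenius
complement. -/
theorem frob_of_action {V : Type*} [Group V] [Finite V] [Nontrivial V] {C : Type*} [Group C]
    [Nontrivial C] (φ : C →* MulAut V) (h : ∀ c, c ≠ 1 → ∀ v, φ c v = v → v = 1) :
    ∃ (L : Type) (_ : Group L) (_ : Finite L) (H : Subgroup L),
      Cfsg.IsFrobeniusComplement H ∧ Nonempty (C ≃* H) := by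
  let e : Shrink.{0} V ≃* V := Shrink.mulEquiv
  haveI : Nontrivial (Shrink.{0} V) := e.toEquiv.nontrivial_congr.mpr inferInstance
  haveI : Finite (Shrink.{0} V) := Finite.of_equiv _ e.toEquiv.symm
  apply frob_of_action_aux (V := Shrink.{0} V) ((MulAut.congr e.symm).toMonoidHom.comp φ)
  intro c hc v hv
  have h1 : e.symm (φ c (e v)) = v := hv
  have h2 : φ c (e v) = e v := e.symm.injective (by rw [h1]; simp)
  have h3 := h c hc _ h2
  simpa using h3

theorem frob_of_addAction {W : Type*} [AddGroup W] [Finite W] [Nontrivial W] {C : Type*} [Group C]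
    [Nontrivial C] [DistribMulAction C W] (h : ∀ c : C, c ≠ 1 → ∀ v : W, c • v = v → v = 0) :
    ∃ (L : Type) (_ : Group L) (_ : Finite L) (H : Subgroup L),
      Cfsg.IsFrobeniusComplement H ∧ Nonempty (C ≃* H) := by
  let φ : C →* MulAut (Multiplicative W) :=
    { toFun := fun c => AddEquiv.toMultiplicative (DistribMulAction.toAddEquiv W c)
      map_one' := by ext v; simp
      map_mul' := by intro a b; ext v; simp [mul_smul] }
  apply frob_of_action (V := Multiplicative W) φ
  intro c hc v hv
  exact h c hc (Multiplicative.toAdd v) hv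

/-- via matrices -/
theorem frob_of_matrix {F : Type*} [Field F] [Finite F] {k : ℕ} (hk : 0 < k) {C : Type*} [Group C]
    [Nontrivial C] (ρ : C →* Matrix (Fin k) (Fin k) F)
    (h : ∀ c : C, c ≠ 1 → (ρ c - 1).det ≠ 0) :
    ∃ (L : Type) (_ : Group L) (_ : Finite L) (H : Subgroup L),
      Cfsg.IsFrobeniusComplement H ∧ Nonempty (C ≃* H) := by
  haveI : Nonempty (Fin k) := ⟨⟨0, hk⟩⟩
  letI : DistribMulAction C (Fin k → F) :=
    { smul := fun c v => (ρ c).mulVec v
      one_smul := fun v => by change (ρ 1).mulVec v = v; rw [map_one, Matrix.one_mulVec]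
      mul_smul := fun a b v => by
        change (ρ (a * b)).mulVec v = (ρ a).mulVec ((ρ b).mulVec v)
        rw [map_mul, Matrix.mulVec_mulVec]
      smul_zero := fun c => Matrix.mulVec_zero _
      smul_add := fun c v w => Matrix.mulVec_add _ _ _ }
  apply frob_of_addAction (W := Fin k → F) (C := C)
  intro c hc v hv
  have h1 : (ρ c).mulVec v = v := hv
  apply Matrix.eq_zero_of_mulVec_eq_zero (h c hc)
  rw [Matrix.sub_mulVec, h1, Matrix.one_mulVec, sub_self]

end CfsgLib.H7
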