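import Cfsg.Agent.EqBase

set_option autoImplicit false

/-! Krull–Remak–Schmidt for finite groups (helper7). -/

namespace CfsgLib.H7KRS

universe u v

def Indec (A : Type u) [Group A] : Prop :=
  Nontrivial A ∧ ∀ H K : Subgroup A, H.Normal → K.Normal → H ⊓ K = ⊥ → H ⊔ K = ⊤ → H = ⊥ ∨ K = ⊥

def NEnd {A : Type u} [Group A] (φ : A →* A) : Prop := ∀ x a : A, φ (x * a * x⁻¹) = x * φ a * x⁻¹

theorem exists_idem {M : Type u} [Monoid M] [Finite M] (x : M) : ∃ n : ℕ, 1 ≤ n ∧ x ^ n * x ^ n = x ^ n := by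
  obtain ⟨i, j, hij, h⟩ : ∃ i j : ℕ, i < j ∧ x ^ i = x ^ j := by
    obtain ⟨i, j, hne, h⟩ := Finite.exists_ne_map_eq_of_infinite (fun n : ℕ => x ^ n)
    rcases lt_or_gt_of_ne hne with h1 | h1
    · exact ⟨i, j, h1, h⟩
    · exact ⟨j, i, h1, h.symm⟩
  obtain ⟨d, rfl⟩ : ∃ d, j = i + d := ⟨j - i, by omega⟩
  have hd : 1 ≤ d := by omega
  have h1 : ∀ m, i ≤ m → x ^ (m + d) = x ^ m := by
    intro m hm
    obtain ⟨l, rfl⟩ : ∃ l, m = l + i := ⟨m - i, by omega⟩
    rw [add_assoc, pow_add, ← h, ← pow_add]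
  have h2 : ∀ t m, i ≤ m → x ^ (m + t * d) = x ^ m := by
    intro t
    induction t with
    | zero => intro m _; rw [zero_mul, add_zero]
    | succ t ih =>
      intro m hm
      rw [Nat.succ_mul, ← add_assoc, h1 _ (by omega), ih m hm]
  refine ⟨(i + 1) * d, Nat.mul_pos (Nat.succ_pos i) hd, ?_⟩
  rw [← pow_add]
  exact h2 (i + 1) _ (by nlinarith)

theorem nend_iterate {A : Type u} [Group A] {φ : A →* A} (hφ : NEnd φ) (n : ℕ) (x a : A) :
    φ^[n] (x * a * x⁻¹) = x * φ^[n] a * x⁻¹ := by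
  induction n generalizing a with
  | zero => rfl
  | succ n ih => rw [Function.iterate_succ_apply, hφ, ih, Function.iterate_succ_apply]

theorem fitting {A : Type u} [Group A] [Finite A] (hA : Indec A) {φ : A →* A} (hφ : NEnd φ) :
    Function.Bijective φ ∨ ∃ n : ℕ, ∀ a, φ^[n] a = 1 := by
  haveI : Finite (Function.End A) := inferInstanceAs (Finite (A → A))
  obtain ⟨x, hx⟩ : ∃ x : Function.End A, ∀ a, x a = φ a := ⟨fun a => φ a, fun _ => rfl⟩
  obtain ⟨n, hn, hid⟩ := exists_idem x
  have happ : ∀ (k : ℕ) (a : A), (x ^ k : Function.End A) a = φ^[k] a := by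
    intro k
    induction k with
    | zero => intro a; rfl
    | succ k ih =>
      intro a
      rw [pow_succ, Function.iterate_succ_apply, ← ih, ← hx]
      rfl
  obtain ⟨ψ, hψ⟩ : ∃ ψ : A →* A, ∀ a, ψ a = φ^[n] a :=
    ⟨MonoidHom.mk' (φ^[n]) (fun a b => iterate_map_mul φ n a b), fun _ => rfl⟩
  have hidem : ∀ a, ψ (ψ a) = ψ a := by
    intro a
    have h1 := congrFun hid a
    rw [hψ, hψ, ← happ n, ← happ n]
    exact h1
  have hker : ψ.ker.Normal := inferInstance
  have hran : ψ.range.Normal := by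
    refine ⟨?_⟩
    rintro _ ⟨a, rfl⟩ x
    refine ⟨x * a * x⁻¹, ?_⟩
    rw [hψ, hψ, nend_iterate hφ]
  have hinf : ψ.ker ⊓ ψ.range = ⊥ := by
    rw [eq_bot_iff]
    rintro _ ⟨h1, ⟨a, rfl⟩⟩
    have h2 : ψ (ψ a) = 1 := h1
    rw [hidem] at h2
    rw [Subgroup.mem_bot]; exact h2
  have hsup : ψ.ker ⊔ ψ.range = ⊤ := by
    rw [eq_top_iff]
    intro a _
    have h1 : a = ψ a * ((ψ a)⁻¹ * a) := by group
    rw [h1]
    refine mul_mem (Subgroup.mem_sup_right ⟨a, rfl⟩) (Subgroup.mem_sup_left ?_)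
    rw [MonoidHom.mem_ker, map_mul, map_inv, hidem, inv_mul_cancel]
  rcases hA.2 _ _ hker hran hinf hsup with h | h
  · left
    rw [← Finite.injective_iff_bijective, injective_iff_map_eq_one]
    intro a ha
    have h1 : a ∈ ψ.ker := by
      rw [MonoidHom.mem_ker, hψ]
      obtain ⟨m, rfl⟩ : ∃ m, n = m + 1 := ⟨n - 1, by omega⟩
      rw [Function.iterate_succ_apply, ha, iterate_map_one]
    rw [h, Subgroup.mem_bot] at h1
    exact h1
  · right
    refine ⟨n, fun a => ?_⟩
    have h1 : ψ a ∈ ψ.range := ⟨a, rfl⟩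
    rw [h, Subgroup.mem_bot, hψ] at h1
    exact h1

theorem sum_lemma {A : Type u} [Group A] [Finite A] (hA : Indec A) {φ ψ θ : A →* A} (hφ : NEnd φ)
    (hθ : NEnd θ) (hb : Function.Bijective θ) (hs : ∀ a, φ a * ψ a = θ a) :
    Function.Bijective φ ∨ Function.Bijective ψ := by
  let t : A ≃* A := MulEquiv.ofBijective θ hb
  have ht : ∀ a, θ (t.symm a) = a := fun a => t.apply_symm_apply a
  have hts : ∀ a, t.symm (θ a) = a := fun a => t.symm_apply_apply a
  have hn : NEnd (t.symm.toMonoidHom.comp φ) := by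
    intro x a
    change t.symm (φ (x * a * x⁻¹)) = x * t.symm (φ a) * x⁻¹
    apply hb.1
    rw [ht, hφ, hθ, ht]
  rcases fitting hA hn with h | ⟨n, h⟩
  · left
    have h1 : (φ : A → A) = t ∘ (t.symm.toMonoidHom.comp φ : A →* A) := by
      funext a
      exact (t.apply_symm_apply (φ a)).symm
    rw [h1]
    exact t.bijective.comp h
  · right
    rw [← Finite.injective_iff_bijective, injective_iff_map_eq_one]
    intro a ha
    have h1 := hs a
    rw [ha, mul_one] at h1
    have h2 : (t.symm.toMonoidHom.comp φ) a = a := by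
      change t.symm (φ a) = a
      rw [h1, hts]
    have h3 : ∀ m : ℕ, (t.symm.toMonoidHom.comp φ)^[m] a = a := fun m => Function.iterate_fixed h2 m
    rw [← h3 n]; exact h a

section main

variable {m n : ℕ} {A : Fin (m + 1) → Type u} {B : Fin n → Type v} [∀ i, Group (A i)] [∀ j, Group (B j)]
  [∀ i, Finite (A i)] [∀ j, Finite (B j)]

def R (B : Fin n → Type v) [∀ j, Group (B j)] (s : Finset (Fin n)) : (∀ j, B j) →* (∀ j, B j) where
  toFun b j := if j ∈ s then b j else 1
  map_one' := by funext j; simp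
  map_mul' x y := by
    funext j
    by_cases h : j ∈ s
    · simp [h]
    · simp [h]

theorem R_conj (s : Finset (Fin n)) (g h : ∀ j, B j) : R B s (g * h * g⁻¹) = g * R B s h * g⁻¹ := by
  funext j
  by_cases hj : j ∈ s
  · simp [R, hj]
  · simp [R, hj]

/-- the endomorphisms of the first factor -/
def phi (e : ((i : Fin (m + 1)) → A i) ≃* ((j : Fin n) → B j)) (s : Finset (Fin n)) : A 0 →* A 0 :=
  (Pi.evalMonoidHom A 0).comp (e.symm.toMonoidHom.comp ((R B s).comp (e.toMonoidHom.comp (MonoidHom.mulSingle A 0))))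

theorem phi_apply (e : ((i : Fin (m + 1)) → A i) ≃* ((j : Fin n) → B j)) (s : Finset (Fin n)) (a : A 0) :
    phi e s a = e.symm (R B s (e (Pi.mulSingle 0 a))) 0 := rfl

theorem phi_nend (e : ((i : Fin (m + 1)) → A i) ≃* ((j : Fin n) → B j)) (s : Finset (Fin n)) :
    NEnd (phi e s) := by
  intro x a
  have h1 : e (Pi.mulSingle 0 (x * a * x⁻¹)) =
      e (Pi.mulSingle 0 x) * e (Pi.mulSingle 0 a) * (e (Pi.mulSingle 0 x))⁻¹ := by
    rw [← map_inv, ← map_mul, ← map_mul, ← Pi.mulSingle_inv, ← Pi.mulSingle_mul, ← Pi.mulSingle_mul]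
  rw [phi_apply, phi_apply, h1, R_conj, map_mul, map_mul, map_inv, MulEquiv.symm_apply_apply]
  simp

theorem phi_insert (e : ((i : Fin (m + 1)) → A i) ≃* ((j : Fin n) → B j)) (s : Finset (Fin n))
    {j : Fin n} (hj : j ∉ s) (a : A 0) : phi e {j} a * phi e s a = phi e (insert j s) a := by
  rw [phi_apply, phi_apply, phi_apply, ← Pi.mul_apply, ← map_mul]
  refine congrFun (congrArg e.symm ?_) 0
  funext k
  by_cases hk : k = j
  · subst hk
    simp [R, hj]
  · by_cases hks : k ∈ s
    · simp [R, hk, hks]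
    · simp [R, hk, hks]

theorem exists_bij (hA : Indec (A 0)) (e : ((i : Fin (m + 1)) → A i) ≃* ((j : Fin n) → B j)) :
    ∃ j : Fin n, Function.Bijective (phi e {j}) := by
  have key : ∀ s : Finset (Fin n), Function.Bijective (phi e s) → ∃ j : Fin n, Function.Bijective (phi e {j}) := by
    intro s
    induction s using Finset.induction_on with
    | empty =>
      intro h
      exfalso
      haveI := hA.1
      obtain ⟨a, ha⟩ := exists_ne (1 : A 0)
      apply ha
      apply h.1
      have h1 : ∀ a, phi e ∅ a = 1 := by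
        intro a
        rw [phi_apply]
        have h2 : R B ∅ (e (Pi.mulSingle 0 a)) = 1 := by
          funext k
          simp [R]
        rw [h2, map_one]; rfl
      rw [h1, h1]
    | insert j s hj ih =>
      intro h
      rcases sum_lemma hA (phi_nend e {j}) (phi_nend e (insert j s)) h (phi_insert e s hj) with h1 | h1
      · exact ⟨j, h1⟩
      · exact ih h1
  apply key Finset.univ
  have h1 : ∀ a, phi e Finset.univ a = a := by
    intro a
    rw [phi_apply]
    have h2 : R B Finset.univ (e (Pi.mulSingle 0 a)) = e (Pi.mulSingle 0 a) := by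
      funext k
      simp [R]
    rw [h2, MulEquiv.symm_apply_apply, Pi.mulSingle_eq_same]
  constructor
  · intro a b hab
    rwa [h1, h1] at hab
  · intro a; exact ⟨a, h1 a⟩

theorem exists_factor (hA : Indec (A 0)) (hB : ∀ j, Indec (B j))
    (e : ((i : Fin (m + 1)) → A i) ≃* ((j : Fin n) → B j)) :
    ∃ j : Fin n, Nonempty (A 0 ≃* B j) ∧ ∀ b : B j, e.symm (Pi.mulSingle j b) 0 = 1 → b = 1 := by
  obtain ⟨j, hj⟩ := exists_bij hA e
  let f : A 0 →* B j := (Pi.evalMonoidHom B j).comp (e.toMonoidHom.comp (MonoidHom.mulSingle A 0))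
  let g : B j →* A 0 := (Pi.evalMonoidHom A 0).comp (e.symm.toMonoidHom.comp (MonoidHom.mulSingle B j))
  have hf : ∀ a, f a = e (Pi.mulSingle 0 a) j := fun a => rfl
  have hg : ∀ b, g b = e.symm (Pi.mulSingle j b) 0 := fun b => rfl
  have hgf : ∀ a, g (f a) = phi e {j} a := by
    intro a
    rw [hg, hf, phi_apply]
    refine congrFun (congrArg e.symm ?_) 0
    funext k
    by_cases hk : k = j
    · subst hk
      simp [R]
    · simp [R, hk]
  have hfi : Function.Injective f := by
    intro a b hab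
    apply hj.1
    rw [← hgf, ← hgf, hab]
  have hran : f.range.Normal := by
    refine ⟨?_⟩
    rintro _ ⟨a, rfl⟩ y
    refine ⟨(e.symm (Pi.mulSingle j y) 0) * a * (e.symm (Pi.mulSingle j y) 0)⁻¹, ?_⟩
    have h1 : (Pi.mulSingle 0 ((e.symm (Pi.mulSingle j y) 0) * a * (e.symm (Pi.mulSingle j y) 0)⁻¹) : ∀ i, A i) =
        e.symm (Pi.mulSingle j y) * Pi.mulSingle 0 a * (e.symm (Pi.mulSingle j y))⁻¹ := by
      funext k
      by_cases hk : k = 0
      · subst hk
        simp
      · simp [hk]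
    rw [hf, h1, map_mul, map_mul, map_inv, MulEquiv.apply_symm_apply]
    simp [hf]
  have hker : g.ker.Normal := inferInstance
  have hinf : f.range ⊓ g.ker = ⊥ := by
    rw [eq_bot_iff]
    rintro _ ⟨⟨a, rfl⟩, h1⟩
    have h2 : g (f a) = 1 := h1
    rw [hgf] at h2
    have h3 : a = 1 := hj.1 (by rw [h2, map_one])
    rw [h3, Subgroup.mem_bot, map_one]
  have hsup : f.range ⊔ g.ker = ⊤ := by
    rw [eq_top_iff]
    intro b _
    obtain ⟨a, ha⟩ := hj.2 (g b)
    have h1 : b = f a * ((f a)⁻¹ * b) := by group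
    rw [h1]
    refine mul_mem (Subgroup.mem_sup_left ⟨a, rfl⟩) (Subgroup.mem_sup_right ?_)
    rw [MonoidHom.mem_ker, map_mul, map_inv, hgf, ha, inv_mul_cancel]
  rcases (hB j).2 _ _ hran hker hinf hsup with h | h
  · exfalso
    haveI := hA.1
    obtain ⟨a, ha⟩ := exists_ne (1 : A 0)
    apply ha
    apply hfi
    have h1 : f a ∈ f.range := ⟨a, rfl⟩
    rw [h, Subgroup.mem_bot] at h1
    rw [h1, map_one]
  · refine ⟨j, ⟨MulEquiv.ofBijective f ⟨hfi, ?_⟩⟩, ?_⟩
    · rw [h, sup_bot_eq] at hsup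
      exact MonoidHom.range_eq_top.mp hsup
    · intro b hb
      have h1 : b ∈ g.ker := hb
      rwa [h, Subgroup.mem_bot] at h1

end main

theorem krs : ∀ (m : ℕ) {n : ℕ} {A : Fin m → Type u} {B : Fin n → Type v} [∀ i, Group (A i)] [∀ j, Group (B j)]
    [∀ i, Finite (A i)] [∀ j, Finite (B j)] (_ : ∀ i, Indec (A i)) (_ : ∀ j, Indec (B j))
    (_ : ((i : Fin m) → A i) ≃* ((j : Fin n) → B j)), ∃ σ : Fin m ≃ Fin n, ∀ i, Nonempty (A i ≃* B (σ i)) := by
  intro m
  induction m with
  | zero =>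
    intro n A B _ _ _ _ hA hB e
    rcases n with _ | n
    · exact ⟨Equiv.refl _, fun i => i.elim0⟩
    · exfalso
      haveI := (hB 0).1
      obtain ⟨b, hb⟩ := exists_ne (1 : B 0)
      apply hb
      have h1 : e.symm (Pi.mulSingle 0 b) = e.symm 1 := Subsingleton.elim _ _
      have h2 := e.symm.injective h1
      have h3 := congrFun h2 0
      rwa [Pi.mulSingle_eq_same] at h3
  | succ m ih =>
    intro n A B _ _ _ _ hA hB e
    obtain ⟨j, ⟨e0⟩, hj⟩ := exists_factor (hA 0) hB e
    rcases n with _ | n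
    · exact j.elim0
    let Ψ : ((i : Fin m) → A i.succ) →* ((k : Fin n) → B (j.succAbove k)) :=
      MonoidHom.mk' (fun a k => e (Fin.cons 1 a) (j.succAbove k)) (by
        intro a b
        funext k
        have h1 : (Fin.cons (α := A) 1 (a * b)) = Fin.cons (α := A) 1 a * Fin.cons (α := A) 1 b := by
          funext i
          refine Fin.cases ?_ (fun i => ?_) i
          · simp
          · simp
        change e (Fin.cons 1 (a * b)) (j.succAbove k) = e (Fin.cons 1 a) (j.succAbove k) * e (Fin.cons 1 b) (j.succAbove k)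
        rw [h1, map_mul, Pi.mul_apply])
    have hΨ : ∀ a k, Ψ a k = e (Fin.cons 1 a) (j.succAbove k) := fun _ _ => rfl
    have hinj : Function.Injective Ψ := by
      rw [injective_iff_map_eq_one]
      intro a ha
      have h1 : e (Fin.cons 1 a) = Pi.mulSingle j (e (Fin.cons 1 a) j) := by
        funext k
        by_cases hk : k = j
        · subst hk
          rw [Pi.mulSingle_eq_same]
        · obtain ⟨l, rfl⟩ := Fin.exists_succAbove_eq hk
          rw [Pi.mulSingle_eq_of_ne hk, ← hΨ, ha]; rfl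
      have h2 : e (Fin.cons 1 a) j = 1 := by
        apply hj
        rw [← h1, MulEquiv.symm_apply_apply, Fin.cons_zero]
      rw [h2, Pi.mulSingle_one] at h1
      have h3 : (Fin.cons 1 a : ∀ i, A i) = 1 := e.injective (by rw [h1, map_one])
      funext i
      have h4 := congrFun h3 i.succ
      rwa [Fin.cons_succ] at h4
    have hcard : Nat.card ((i : Fin m) → A i.succ) = Nat.card ((k : Fin n) → B (j.succAbove k)) := by
      have h1 := Nat.card_congr e.toEquiv
      rw [Nat.card_pi, Nat.card_pi, Fin.prod_univ_succ, Fin.prod_univ_succAbove _ j,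
        Nat.card_congr e0.toEquiv] at h1
      rw [Nat.card_pi, Nat.card_pi]
      exact Nat.eq_of_mul_eq_mul_left Nat.card_pos h1
    have hbij : Function.Bijective Ψ := hinj.bijective_of_nat_card_le hcard.ge
    obtain ⟨σ, hσ⟩ := ih (A := fun i => A i.succ) (B := fun k => B (j.succAbove k))
      (fun i => hA i.succ) (fun k => hB _) (MulEquiv.ofBijective Ψ hbij)
    refine ⟨(finSuccEquiv m).trans ((Equiv.optionCongr σ).trans (finSuccEquiv' j).symm), ?_⟩
    intro i
    refine Fin.cases ?_ (fun i => ?_) i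
    · have h1 : ((finSuccEquiv m).trans ((Equiv.optionCongr σ).trans (finSuccEquiv' j).symm)) 0 = j := by
        simp
      rw [h1]
      exact ⟨e0⟩
    · have h1 : ((finSuccEquiv m).trans ((Equiv.optionCongr σ).trans (finSuccEquiv' j).symm)) i.succ =
          j.succAbove (σ i) := by
        simp
      rw [h1]
      exact hσ i

end CfsgLib.H7KRS
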