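import Cfsg.Agent.EqBase
import Mathlib

set_option autoImplicit false
set_option linter.unusedSectionVars false

/-!
Automorphisms of a doubly transitive group of prime degree centralising a `p`-cycle commute.
-/

namespace CfsgLib.H7Out

open Matrix

variable {G : Type*} [Group G] [Finite G] {Ω : Type*} [Fintype Ω] [DecidableEq Ω] {p : ℕ}

/-- permutation matrix of `g` -/
def pm (f : G →* Equiv.Perm Ω) (g : G) : Matrix Ω Ω ℚ := Matrix.of fun a b => if a = f g b then 1 else 0

theorem pm_inj {f : G →* Equiv.Perm Ω} (hf : Function.Injective f) {g h : G} (H : pm f g = pm f h) : g = h := by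
  apply hf
  ext b
  have h1 := congrFun (congrFun H (f g b)) b
  simp only [pm, Matrix.of_apply, if_true] at h1
  by_contra hne
  rw [if_neg hne] at h1
  exact one_ne_zero h1

/-- twisted invariance of a matrix -/
def TI (f : G →* Equiv.Perm Ω) (σ : MulAut G) (B : Matrix Ω Ω ℚ) : Prop :=
  ∀ (g : G) (a b : Ω), B (f (σ g) a) (f g b) = B a b

theorem TI.mul_pm {f : G →* Equiv.Perm Ω} {σ : MulAut G} {B : Matrix Ω Ω ℚ} (h : TI f σ B) (g : G) :
    B * pm f g = pm f (σ g) * B := by
  ext a b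
  rw [Matrix.mul_apply, Matrix.mul_apply]
  have h1 : ∑ c, B a c * pm f g c b = B a (f g b) := by
    simp only [pm, Matrix.of_apply, mul_ite, mul_one, mul_zero]
    rw [Finset.sum_ite_eq' Finset.univ (f g b) (fun c => B a c)]
    simp
  have h2 : ∑ c, pm f (σ g) a c * B c b = B ((f (σ g))⁻¹ a) b := by
    simp only [pm, Matrix.of_apply, ite_mul, one_mul, zero_mul]
    have : ∀ c, (a = f (σ g) c) ↔ (c = (f (σ g))⁻¹ a) := by
      intro c
      rw [Equiv.Perm.eq_inv_iff_eq, eq_comm]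
    simp only [this]
    rw [Finset.sum_ite_eq' Finset.univ ((f (σ g))⁻¹ a) (fun c => B c b)]
    simp
  rw [h1, h2]
  have h3 := h g ((f (σ g))⁻¹ a) b
  have h4 : f (σ g) ((f (σ g))⁻¹ a) = a := Equiv.apply_symm_apply (f (σ g)) a
  rw [h4] at h3
  exact h3

theorem exists_B (f : G →* Equiv.Perm Ω) (hΩ : Fintype.card Ω = p) (hp2 : ¬ p ^ 2 ∣ Nat.card G) [Nonempty Ω]
    (σ : MulAut G) : ∃ B : Matrix Ω Ω ℚ, TI f σ B ∧ (∀ a b, B a b = 0 ∨ B a b = 1) ∧ (∃ a b, B a b = 1) ∧
      ∃ a b, B a b = 0 := by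
  classical
  let φ : G →* Equiv.Perm (Ω × Ω) :=
    { toFun := fun g => Equiv.prodCongr (f (σ g)) (f g)
      map_one' := by ext x <;> simp
      map_mul' := by intro g h; ext x <;> simp }
  letI : MulAction G (Ω × Ω) := MulAction.compHom (Ω × Ω) φ
  have hsm : ∀ (g : G) (x : Ω × Ω), g • x = (f (σ g) x.1, f g x.2) := fun g x => rfl
  obtain ⟨ω⟩ := (inferInstance : Nonempty Ω)
  let O : Set (Ω × Ω) := MulAction.orbit G (ω, ω)
  refine ⟨Matrix.of fun a b => if (a, b) ∈ O then 1 else 0, ?_, ?_, ?_, ?_⟩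
  · intro g a b
    simp only [Matrix.of_apply]
    have h1 : (f (σ g) a, f g b) = g • (a, b) := rfl
    have h2 : (f (σ g) a, f g b) ∈ O ↔ (a, b) ∈ O := by
      rw [h1]
      constructor
      · rintro ⟨h, hh⟩
        have hh' : h • (ω, ω) = g • (a, b) := hh
        exact ⟨g⁻¹ * h, by
          change (g⁻¹ * h) • (ω, ω) = (a, b)
          rw [mul_smul, hh', inv_smul_smul]⟩
      · rintro ⟨h, hh⟩
        have hh' : h • (ω, ω) = (a, b) := hh
        exact ⟨g * h, by
          change (g * h) • (ω, ω) = g • (a, b)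
          rw [mul_smul, hh']⟩
    simp only [h2]
  · intro a b
    simp only [Matrix.of_apply]
    by_cases h : (a, b) ∈ O
    · right; rw [if_pos h]
    · left; rw [if_neg h]
  · refine ⟨ω, ω, ?_⟩
    simp only [Matrix.of_apply]
    rw [if_pos (MulAction.mem_orbit_self _)]
  · by_contra hcon
    push Not at hcon
    have hall : ∀ x : Ω × Ω, x ∈ O := by
      rintro ⟨a, b⟩
      by_contra h
      apply hcon a b
      simp only [Matrix.of_apply]
      rw [if_neg h]
    have htr : MulAction.IsPretransitive G (Ω × Ω) := by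
      refine ⟨fun x y => ?_⟩
      obtain ⟨g, hg⟩ := hall x
      obtain ⟨h, hh⟩ := hall y
      have hg' : g • (ω, ω) = x := hg
      have hh' : h • (ω, ω) = y := hh
      exact ⟨h * g⁻¹, by rw [mul_smul, ← hg', inv_smul_smul, hh']⟩
    have h1 := MulAction.index_stabilizer_of_transitive G (ω, ω)
    apply hp2
    have h2 := Subgroup.index_dvd_card (MulAction.stabilizer G (ω, ω))
    rw [h1, Nat.card_prod, Nat.card_eq_fintype_card, hΩ, ← pow_two] at h2
    exact h2

theorem isUnit_B {f : G →* Equiv.Perm Ω} (h2 : ∀ a b c d : Ω, a ≠ b → c ≠ d → ∃ g, f g a = c ∧ f g b = d)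
    (hnt : Nontrivial Ω) {σ : MulAut G} {B : Matrix Ω Ω ℚ} (hB : TI f σ B) (h01 : ∀ a b, B a b = 0 ∨ B a b = 1)
    (h1 : ∃ a b, B a b = 1) (h0 : ∃ a b, B a b = 0) : IsUnit B := by
  classical
  -- transitivity
  have htr : ∀ a c : Ω, ∃ g, f g a = c := by
    intro a c
    obtain ⟨b, hb⟩ := exists_ne a
    obtain ⟨d, hd⟩ := exists_ne c
    obtain ⟨g, hg, -⟩ := h2 a b c d hb.symm hd.symm
    exact ⟨g, hg⟩
  let D : Ω → Ω → ℚ := fun b b' => ∑ a, B a b * B a b'
  have hD : ∀ (g : G) (b b' : Ω), D (f g b) (f g b') = D b b' := by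
    intro g b b'
    change ∑ a, B a (f g b) * B a (f g b') = ∑ a, B a b * B a b'
    symm
    apply Fintype.sum_equiv (f (σ g))
    intro a
    rw [hB, hB]
  obtain ⟨u, v, huv⟩ := hnt.exists_pair_ne
  set δ := D u u with hδ
  set β := D u v with hβ
  have hDd : ∀ b, D b b = δ := by
    intro b
    obtain ⟨g, hg⟩ := htr u b
    rw [← hg, hD]
  have hDo : ∀ b b', b ≠ b' → D b b' = β := by
    intro b b' hbb
    obtain ⟨g, hg1, hg2⟩ := h2 u v b b' huv hbb
    rw [← hg1, ← hg2, hD]
  have hne : δ - β ≠ 0 := by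
    intro h
    -- all columns equal
    have hcol : ∀ b b', b ≠ b' → ∀ a, B a b = B a b' := by
      intro b b' hbb
      have hs : ∑ a, (B a b - B a b') ^ 2 = 0 := by
        have e : ∑ a, (B a b - B a b') ^ 2 = D b b - 2 * D b b' + D b' b' := by
          change _ = ∑ a, B a b * B a b - 2 * (∑ a, B a b * B a b') + ∑ a, B a b' * B a b'
          rw [Finset.mul_sum, ← Finset.sum_sub_distrib, ← Finset.sum_add_distrib]
          apply Finset.sum_congr rfl
          intro a _; ring
        rw [e, hDd, hDd, hDo b b' hbb]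
        linarith
      intro a
      have h3 := (Finset.sum_eq_zero_iff_of_nonneg (fun a _ => sq_nonneg _)).1 hs a (Finset.mem_univ a)
      exact sub_eq_zero.1 (pow_eq_zero_iff (two_ne_zero)|>.1 h3)
    have hcol' : ∀ b b' a, B a b = B a b' := by
      intro b b' a
      by_cases hbb : b = b'
      · rw [hbb]
      · exact hcol b b' hbb a
    obtain ⟨a1, b1, hab1⟩ := h1
    obtain ⟨a0, b0, hab0⟩ := h0
    obtain ⟨g, hg⟩ := htr a1 a0
    have h3 := hB (σ.symm g) a1 b1
    have h4 : σ (σ.symm g) = g := σ.apply_symm_apply g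
    rw [h4, hg, hcol' _ b0, hab0, hab1] at h3
    exact zero_ne_one h3
  rw [← Matrix.mulVec_injective_iff_isUnit]
  rw [← Matrix.coe_mulVecLin, ← LinearMap.ker_eq_bot, LinearMap.ker_eq_bot']
  intro w hw
  rw [Matrix.mulVecLin_apply] at hw
  set S := ∑ b, w b with hS
  have key : ∀ b, (δ - β) * w b + β * S = 0 := by
    intro b
    have h3 : ∑ a, B a b * (B.mulVec w) a = 0 := by
      rw [hw]; simp
    have h4 : ∑ a, B a b * (B.mulVec w) a = ∑ b', D b b' * w b' := by
      change ∑ a, B a b * (∑ b', B a b' * w b') = ∑ b', (∑ a, B a b * B a b') * w b'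
      simp only [Finset.mul_sum, Finset.sum_mul]
      rw [Finset.sum_comm]
      apply Finset.sum_congr rfl
      intro b' _
      apply Finset.sum_congr rfl
      intro a _
      ring
    have h5 : ∑ b', D b b' * w b' = (δ - β) * w b + β * S := by
      rw [hS, Finset.mul_sum, ← Finset.add_sum_erase _ _ (Finset.mem_univ b), ← Finset.add_sum_erase _ (fun b' => β * w b') (Finset.mem_univ b), hDd]
      have h6 : ∑ b' ∈ Finset.univ.erase b, D b b' * w b' = ∑ b' ∈ Finset.univ.erase b, β * w b' := by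
        apply Finset.sum_congr rfl
        intro b' hb'
        rw [hDo b b' (Finset.ne_of_mem_erase hb').symm]
      rw [h6]; ring
    rw [← h5, ← h4, h3]
  have hconst : ∀ b b', w b = w b' := by
    intro b b'
    have h3 := key b
    have h4 := key b'
    have h5 : (δ - β) * w b = (δ - β) * w b' := by linarith
    exact mul_left_cancel₀ hne h5
  obtain ⟨a1, b1, hab1⟩ := h1
  have h3 : (B.mulVec w) a1 = 0 := by rw [hw]; rfl
  have h4 : (B.mulVec w) a1 = (∑ b, B a1 b) * w b1 := by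
    change ∑ b, B a1 b * w b = _
    rw [Finset.sum_mul]
    apply Finset.sum_congr rfl
    intro b _
    rw [hconst b b1]
  have h5 : (0 : ℚ) < ∑ b, B a1 b := by
    apply Finset.sum_pos'
    · intro b _
      rcases h01 a1 b with h | h <;> rw [h]
      norm_num
    · exact ⟨b1, Finset.mem_univ _, by rw [hab1]; norm_num⟩
  rw [h4] at h3
  have h6 : w b1 = 0 := (mul_eq_zero.1 h3).resolve_left h5.ne'
  funext b
  rw [hconst b b1, h6]; rfl

theorem comm_circ [NeZero p] (e : ZMod p ≃ Ω) {B B' : Matrix Ω Ω ℚ}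
    (h : ∀ i j, B (e (i + 1)) (e (j + 1)) = B (e i) (e j))
    (h' : ∀ i j, B' (e (i + 1)) (e (j + 1)) = B' (e i) (e j)) : B * B' = B' * B := by
  have gen : ∀ {C : Matrix Ω Ω ℚ}, (∀ i j, C (e (i + 1)) (e (j + 1)) = C (e i) (e j)) →
      ∀ k i j : ZMod p, C (e (i + k)) (e (j + k)) = C (e i) (e j) := by
    intro C hC k
    obtain ⟨n, rfl⟩ : ∃ n : ℕ, (n : ZMod p) = k := ⟨k.val, by simp⟩
    induction n with
    | zero => intro i j; simp
    | succ n ih =>
      intro i j
      have e1 : i + ((n + 1 : ℕ) : ZMod p) = (i + n) + 1 := by push_cast; ring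
      have e2 : j + ((n + 1 : ℕ) : ZMod p) = (j + n) + 1 := by push_cast; ring
      rw [e1, e2, hC, ih]
  ext a b
  obtain ⟨i, rfl⟩ := e.surjective a
  obtain ⟨j, rfl⟩ := e.surjective b
  rw [Matrix.mul_apply, Matrix.mul_apply, ← e.sum_comp, ← e.sum_comp]
  apply Fintype.sum_equiv (Equiv.subLeft (i + j))
  intro k
  change B (e i) (e k) * B' (e k) (e j) = B' (e i) (e (i + j - k)) * B (e (i + j - k)) (e j)
  have h1 := gen h (j - k) i k
  have h2 := gen h' (i - k) k j
  have e1 : i + (j - k) = i + j - k := by ring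
  have e2 : k + (j - k) = j := by ring
  have e3 : k + (i - k) = i := by ring
  have e4 : j + (i - k) = i + j - k := by ring
  rw [e1, e2] at h1
  rw [e3, e4] at h2
  rw [h1, h2, mul_comm]

/-- Automorphisms fixing a `p`-cycle commute. -/
theorem aut_comm [hp : Fact p.Prime] {f : G →* Equiv.Perm Ω} (hf : Function.Injective f)
    (h2 : ∀ a b c d : Ω, a ≠ b → c ≠ d → ∃ g, f g a = c ∧ f g b = d) (hΩ : Fintype.card Ω = p)
    (hp2 : ¬ p ^ 2 ∣ Nat.card G) {x : G} (e : ZMod p ≃ Ω) (he : ∀ j, f x (e j) = e (j + 1)) {σ τ : MulAut G}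
    (hσ : σ x = x) (hτ : τ x = x) : σ * τ = τ * σ := by
  haveI : NeZero p := ⟨hp.out.ne_zero⟩
  haveI : Nontrivial Ω := by
    rw [← Fintype.one_lt_card_iff_nontrivial, hΩ]; exact hp.out.one_lt
  obtain ⟨B, hB, h01, h1, h0⟩ := exists_B f hΩ hp2 σ
  obtain ⟨C, hC, h01', h1', h0'⟩ := exists_B f hΩ hp2 τ
  have uB := isUnit_B h2 inferInstance hB h01 h1 h0
  have uC := isUnit_B h2 inferInstance hC h01' h1' h0'
  have cB : ∀ i j, B (e (i + 1)) (e (j + 1)) = B (e i) (e j) := by
    intro i j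
    have := hB x (e i) (e j)
    rwa [hσ, he, he] at this
  have cC : ∀ i j, C (e (i + 1)) (e (j + 1)) = C (e i) (e j) := by
    intro i j
    have := hC x (e i) (e j)
    rwa [hτ, he, he] at this
  have hBC := comm_circ e cB cC
  ext g
  apply pm_inj hf
  have e1 : (B * C) * pm f g = pm f ((σ * τ) g) * (B * C) := by
    rw [Matrix.mul_assoc, hC.mul_pm, ← Matrix.mul_assoc, hB.mul_pm, Matrix.mul_assoc]; rfl
  have e2 : (C * B) * pm f g = pm f ((τ * σ) g) * (C * B) := by
    rw [Matrix.mul_assoc, hB.mul_pm, ← Matrix.mul_assoc, hC.mul_pm, Matrix.mul_assoc]; rfl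
  rw [← hBC, e1] at e2
  exact (uB.mul uC).mul_right_cancel e2

end CfsgLib.H7Out
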