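import Cfsg.Agent.EqBase
import Cfsg.Agent.LibCoprime
import Cfsg.Agent.LibSolvMin
import Cfsg.Agent.LibSolvBasic
/-!
# Fixed-point-free actions of `S_3`, part A: quadratic operators of order 3 (helper7)
-/
set_option autoImplicit false
set_option linter.all false
open Cfsg Subgroup
open scoped commutatorElement
namespace CfsgLib.H7S3

universe u v w

section LinAlg
variable {k : Type v} [Field k] [IsAlgClosed k] {M : Type w} [AddCommGroup M] [Module k M] [Module.Finite k M]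

theorem exists_eigvec (T : Module.End k M) (E : Submodule k M) (hE : E ≠ ⊥) (hT : ∀ v ∈ E, T v ∈ E) :
    ∃ v ∈ E, v ≠ 0 ∧ ∃ μ : k, T v = μ • v := by
  haveI : Nontrivial E := Submodule.nontrivial_iff_ne_bot.mpr hE
  obtain ⟨μ, hμ⟩ := Module.End.exists_eigenvalue (T.restrict hT)
  obtain ⟨v, hv⟩ := hμ.exists_hasEigenvector
  refine ⟨v, v.2, fun h => hv.2 (Subtype.ext h), μ, ?_⟩
  have := hv.apply_eq_smul
  exact congrArg Subtype.val this

theorem eq_one_of_eigen (T : Module.End k M) {n : ℕ} (hn : (n : k) ≠ 0) (hT : T ^ n = 1)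
    (h : ∀ (μ : k) (v : M), v ≠ 0 → T v = μ • v → μ = 1) : T = 1 := by
  set N : Module.End k M := ∑ i ∈ Finset.range n, T ^ i with hN
  have h1 : (T - 1) * N = 0 := by rw [hN, mul_geom_sum, hT, sub_self]
  have h2 : N * (T - 1) = 0 := by rw [hN, geom_sum_mul, hT, sub_self]
  have hcomm : N * T = T * N := by
    have h3 : N * T = N := by rw [mul_sub, mul_one, sub_eq_zero] at h2; exact h2
    have h4 : T * N = N := by rw [sub_mul, one_mul, sub_eq_zero] at h1; exact h1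
    rw [h3, h4]
  have hker : LinearMap.ker N = ⊥ := by
    by_contra hne
    obtain ⟨v, hv, hv0, μ, hμ⟩ := exists_eigvec T (LinearMap.ker N) hne (fun v hv => by
      rw [LinearMap.mem_ker] at hv ⊢
      rw [← Module.End.mul_apply, hcomm, Module.End.mul_apply, hv, map_zero])
    have h3 := h μ v hv0 hμ
    rw [h3, one_smul] at hμ
    have h4 : ∀ i : ℕ, (T ^ i) v = v := by
      intro i
      induction i with
      | zero => rfl
      | succ i ih => rw [pow_succ, Module.End.mul_apply, hμ, ih]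
    rw [LinearMap.mem_ker, hN, LinearMap.sum_apply, Finset.sum_congr rfl (fun i _ => h4 i), Finset.sum_const,
      Finset.card_range, ← Nat.cast_smul_eq_nsmul k] at hv
    rcases smul_eq_zero.mp hv with h5 | h5
    · exact hn h5
    · exact hv0 h5
  apply LinearMap.ext
  intro v
  have h3 : (T - 1) v ∈ LinearMap.ker N := by
    rw [LinearMap.mem_ker, ← Module.End.mul_apply, h2]; rfl
  rw [hker, Submodule.mem_bot] at h3
  exact sub_eq_zero.mp h3

theorem inv_sum_eq {a b : k} (ha : a ≠ 0) (hb : b ≠ 0) (h : a + a⁻¹ = b + b⁻¹) : a = b ∨ a * b = 1 := by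
  have h1 : (a - b) * (a * b - 1) = 0 := by
    field_simp at h
    linear_combination h
  rcases mul_eq_zero.mp h1 with h2 | h2
  · exact Or.inl (sub_eq_zero.mp h2)
  · exact Or.inr (sub_eq_zero.mp h2)

theorem pow_eigen {T : Module.End k M} {μ : k} {v : M} (h : T v = μ • v) (n : ℕ) : (T ^ n) v = μ ^ n • v := by
  induction n with
  | zero => simp
  | succ n ih => rw [pow_succ, Module.End.mul_apply, h, map_smul, ih, smul_smul, pow_succ, mul_comm]

theorem pow_eq_one_of_eigen {T : Module.End k M} {μ : k} {v : M} (hv : v ≠ 0) (h : T v = μ • v) {n : ℕ} (hn : T ^ n = 1) :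
    μ ^ n = 1 := by
  have h1 := pow_eigen h n
  rw [hn] at h1
  have h2 : (μ ^ n - 1) • v = 0 := by
    rw [sub_smul, one_smul, ← h1]; simp
  rcases smul_eq_zero.mp h2 with h3 | h3
  · exact sub_eq_zero.mp h3
  · exact absurd h3 hv

theorem ne_zero_of_eigen {T T' : Module.End k M} {μ : k} {v : M} (hv : v ≠ 0) (h : T v = μ • v) (hT : T' * T = 1) : μ ≠ 0 := by
  rintro rfl
  apply hv
  have : (T' * T) v = 0 := by rw [Module.End.mul_apply, h, zero_smul, map_zero]
  rw [hT] at this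
  exact this

theorem inv_eigen {T T' : Module.End k M} {μ : k} {v : M} (hv : v ≠ 0) (h : T v = μ • v) (hT : T' * T = 1) : T' v = μ⁻¹ • v := by
  have hμ := ne_zero_of_eigen hv h hT
  have h1 : (T' * T) v = μ • T' v := by rw [Module.End.mul_apply, h, map_smul]
  rw [hT] at h1
  have h2 : v = μ • T' v := h1
  conv_rhs => rw [h2]
  rw [smul_smul, inv_mul_cancel₀ hμ, one_smul]

theorem smul_inj_vec {a b : k} {v : M} (hv : v ≠ 0) (h : a • v = b • v) : a = b := by
  have : (a - b) • v = 0 := by rw [sub_smul, h, sub_self]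
  rcases smul_eq_zero.mp this with h3 | h3
  · exact sub_eq_zero.mp h3
  · exact absurd h3 hv

/-- the commutator of `a`, `b` is trivial if it is central and `a + a⁻¹ = b + b⁻¹`. -/
theorem quad_w {a a' b b' W : Module.End k M} (ha : a' * a = 1) (ha2 : a * a' = 1) (hb : b' * b = 1) (hb2 : b * b' = 1)
    (hc : a + a' = b + b') (hW : a * b = W * b * a) (hWa : W * a = a * W) (hWb : W * b = b * W)
    {m : ℕ} (hm : (m : k) ≠ 0) (hodd : Odd m) (hWm : W ^ m = 1) : W = 1 := by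
  apply eq_one_of_eigen W hm hWm
  intro ν v hv hνv
  have hν := pow_eq_one_of_eigen hv hνv hWm
  have hWa' : W * a' = a' * W := by
    calc W * a' = a' * a * W * a' := by rw [ha, one_mul]
      _ = a' * (a * W) * a' := by rw [mul_assoc a' a W]
      _ = a' * (W * a) * a' := by rw [hWa]
      _ = a' * W * (a * a') := by simp only [mul_assoc]
      _ = a' * W := by rw [ha2, mul_one]
  set c := a + a' with hcdef
  have hca : c * a = a * c := by rw [hcdef, add_mul, mul_add, ha, ha2]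
  have hcb : c * b = b * c := by rw [hc, add_mul, mul_add, hb, hb2]
  have hcW : c * W = W * c := by rw [hcdef, add_mul, mul_add, hWa, hWa']
  set E : Submodule k M := LinearMap.ker (W - ν • 1) with hE
  have memE : ∀ u, u ∈ E ↔ W u = ν • u := by
    intro u
    rw [hE, LinearMap.mem_ker, LinearMap.sub_apply, sub_eq_zero]; rfl
  have hEne : E ≠ ⊥ := by
    intro h0
    have : v ∈ E := (memE v).mpr hνv
    rw [h0, Submodule.mem_bot] at this
    exact hv this
  obtain ⟨u, huE, hu0, γ, hγ⟩ := exists_eigvec c E hEne (fun u hu => by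
    rw [memE] at hu ⊢
    rw [← Module.End.mul_apply, ← hcW, Module.End.mul_apply, hu, map_smul])
  set E' : Submodule k M := E ⊓ LinearMap.ker (c - γ • 1) with hE'
  have memE' : ∀ u, u ∈ E' ↔ W u = ν • u ∧ c u = γ • u := by
    intro u
    rw [hE', Submodule.mem_inf, memE, LinearMap.mem_ker, LinearMap.sub_apply, sub_eq_zero]; rfl
  have hE'ne : E' ≠ ⊥ := by
    intro h0
    have : u ∈ E' := (memE' u).mpr ⟨(memE u).mp huE, hγ⟩
    rw [h0, Submodule.mem_bot] at this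
    exact hu0 this
  have haE' : ∀ u ∈ E', a u ∈ E' := by
    intro u hu
    rw [memE'] at hu ⊢
    constructor
    · rw [← Module.End.mul_apply, hWa, Module.End.mul_apply, hu.1, map_smul]
    · rw [← Module.End.mul_apply, hca, Module.End.mul_apply, hu.2, map_smul]
  have hbE' : ∀ u ∈ E', b u ∈ E' := by
    intro u hu
    rw [memE'] at hu ⊢
    constructor
    · rw [← Module.End.mul_apply, hWb, Module.End.mul_apply, hu.1, map_smul]
    · rw [← Module.End.mul_apply, hcb, Module.End.mul_apply, hu.2, map_smul]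
  obtain ⟨u, huE, hu0, μ, hμ⟩ := exists_eigvec a E' hE'ne haE'
  have hγμ : ∀ (μ : k) (u : M), u ∈ E' → u ≠ 0 → a u = μ • u → μ ≠ 0 ∧ μ + μ⁻¹ = γ := by
    intro μ u huE hu0 hμ
    have h1 := inv_eigen hu0 hμ ha
    have h2 : c u = (μ + μ⁻¹) • u := by
      rw [hcdef, LinearMap.add_apply, hμ, h1, add_smul]
    rw [((memE' u).mp huE).2] at h2
    exact ⟨ne_zero_of_eigen hu0 hμ ha, (smul_inj_vec hu0 h2).symm⟩
  have hstep : ∀ (μ : k) (u : M), u ∈ E' → a u = μ • u → a (b u) = (ν * μ) • b u := by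
    intro μ u huE hμ
    have h1 : a (b u) = (W * b * a) u := by rw [← Module.End.mul_apply, hW]
    rw [h1, Module.End.mul_apply, Module.End.mul_apply, hμ, map_smul, map_smul,
      ((memE' _).mp (hbE' u huE)).1, smul_smul, mul_comm]
  have hbne : ∀ u : M, u ≠ 0 → b u ≠ 0 := by
    intro u hu h0
    apply hu
    have : (b' * b) u = 0 := by rw [Module.End.mul_apply, h0, map_zero]
    rw [hb] at this
    exact this
  have e1 := hγμ μ u huE hu0 hμ
  have e2 := hγμ _ _ (hbE' u huE) (hbne u hu0) (hstep μ u huE hμ)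
  have e3 := hγμ _ _ (hbE' _ (hbE' u huE)) (hbne _ (hbne u hu0)) (hstep _ _ (hbE' u huE) (hstep μ u huE hμ))
  have f1 := inv_sum_eq e2.1 e1.1 (e2.2.trans e1.2.symm)
  have f2 := inv_sum_eq e3.1 e1.1 (e3.2.trans e1.2.symm)
  have hμ0 := e1.1
  have hν0 : ν ≠ 0 := left_ne_zero_of_mul e2.1
  rcases f1 with f1 | f1
  · exact mul_right_cancel₀ hμ0 (by rw [f1, one_mul])
  · rcases f2 with f2 | f2
    · -- ν² = 1
      have h3 : ν ^ 2 = 1 := mul_right_cancel₀ hμ0 (by rw [one_mul]; linear_combination f2)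
      obtain ⟨j, hj⟩ := hodd
      rw [hj, pow_succ, pow_mul, h3, one_pow, one_mul] at hν
      exact hν
    · have h3 : ν * (ν * μ * μ) = 1 := by linear_combination f2
      rw [f1, mul_one] at h3
      exact h3

/-- commuting case -/
theorem quad_comm {a a' b b' d' : Module.End k M} (ha : a' * a = 1) (hb : b' * b = 1)
    (hd : d' * (a * b) = 1)
    (hc : a + a' = b + b') (hc2 : a + a' = a * b + d') (hab : a * b = b * a)
    {m : ℕ} (hm : (m : k) ≠ 0) (h3m : m.Coprime 3) (ham : a ^ m = 1) : a = 1 := by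
  apply eq_one_of_eigen a hm ham
  intro μ v hv hμv
  have hμm := pow_eq_one_of_eigen hv hμv ham
  set E : Submodule k M := LinearMap.ker (a - μ • 1) with hE
  have memE : ∀ u, u ∈ E ↔ a u = μ • u := by
    intro u
    rw [hE, LinearMap.mem_ker, LinearMap.sub_apply, sub_eq_zero]; rfl
  have hEne : E ≠ ⊥ := by
    intro h0
    have : v ∈ E := (memE v).mpr hμv
    rw [h0, Submodule.mem_bot] at this
    exact hv this
  obtain ⟨u, huE, hu0, ν, hν⟩ := exists_eigvec b E hEne (fun u hu => by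
    rw [memE] at hu ⊢
    rw [← Module.End.mul_apply, hab, Module.End.mul_apply, hu, map_smul])
  have hau := (memE u).mp huE
  have hdu : (a * b) u = (μ * ν) • u := by
    rw [Module.End.mul_apply, hν, map_smul, hau, smul_smul, mul_comm]
  have h1 : (a + a') u = (μ + μ⁻¹) • u := by rw [LinearMap.add_apply, hau, inv_eigen hu0 hau ha, add_smul]
  have h2 : (a + a') u = (ν + ν⁻¹) • u := by rw [hc, LinearMap.add_apply, hν, inv_eigen hu0 hν hb, add_smul]
  have h3 : (a + a') u = (μ * ν + (μ * ν)⁻¹) • u := by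
    rw [hc2, LinearMap.add_apply, hdu, inv_eigen hu0 hdu hd, add_smul]
  have hμ0 := ne_zero_of_eigen hu0 hau ha
  have hν0 := ne_zero_of_eigen hu0 hν hb
  have f1 := inv_sum_eq hν0 hμ0 (smul_inj_vec hu0 (h2.symm.trans h1))
  have f2 := inv_sum_eq (mul_ne_zero hμ0 hν0) hμ0 (smul_inj_vec hu0 (h3.symm.trans h1))
  have hcube : μ ^ 3 = 1 → μ = 1 := by
    intro h
    have h4 : μ ^ (m.gcd 3) = 1 := by
      have h5 := orderOf_dvd_of_pow_eq_one hμm
      have h6 := orderOf_dvd_of_pow_eq_one h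
      exact orderOf_dvd_iff_pow_eq_one.mp (Nat.dvd_gcd h5 h6)
    rw [h3m.gcd_eq_one, pow_one] at h4
    exact h4
  rcases f2 with f2 | f2
  · have hν1 : ν = 1 := mul_left_cancel₀ hμ0 (by rw [f2, mul_one])
    rw [hν1] at f1
    rcases f1 with f1 | f1
    · exact f1.symm
    · rwa [one_mul] at f1
  · rcases f1 with f1 | f1
    · apply hcube
      rw [f1] at f2
      linear_combination f2
    · have h4 : μ * (ν * μ) = 1 := by linear_combination f2
      rw [f1, mul_one] at h4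
      exact h4

theorem quad_end {s t : Module.End k M} (hs : s * s = -1 - s) (ht : t * t = -1 - t) :
    (s * s * t + t * t * s) * s = s * (s * s * t + t * t * s) := by
  have e1 : ((-1 - s) * t + (-1 - t) * s) * s = -(s * t * s) - t * s - t * (s * s) - (s * s) := by
    noncomm_ring
  have e2 : s * ((-1 - s) * t + (-1 - t) * s) = -((s * s) * t) - s * t - s * s - s * t * s := by
    noncomm_ring
  rw [hs, ht, e1, e2, hs]
  noncomm_ring

section Grp
variable {Γ : Type u} [Group Γ] (ρ : Γ →* Module.End k M)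

theorem quad_group {σ x : Γ} (hσ3 : σ ^ 3 = 1) (hq : ∀ v, v + ρ σ v + ρ σ (ρ σ v) = 0)
    {y : Γ} (hy : y = σ⁻¹ * (x * σ * x⁻¹)) {m : ℕ} (hm : (m : k) ≠ 0) (hodd : Odd m) (h3 : m.Coprime 3)
    (hym : y ^ m = 1) (hwm : ⁅y, σ * y * σ⁻¹⁆ ^ m = 1)
    (hw0 : ⁅y, σ * y * σ⁻¹⁆ * y = y * ⁅y, σ * y * σ⁻¹⁆)
    (hw1 : ⁅y, σ * y * σ⁻¹⁆ * (σ * y * σ⁻¹) = (σ * y * σ⁻¹) * ⁅y, σ * y * σ⁻¹⁆) : ρ y = 1 := by
  set s := ρ σ with hs
  have hss : s * s = -1 - s := by
    apply LinearMap.ext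
    intro v
    have := hq v
    rw [Module.End.mul_apply, LinearMap.sub_apply, LinearMap.neg_apply]
    change s (s v) = - v - s v
    rw [eq_sub_iff_add_eq, eq_neg_iff_add_eq_zero, ← this]
    abel
  set t := ρ (x * σ * x⁻¹) with ht
  have htt : t * t = -1 - t := by
    have h1 : t = ρ x * s * ρ x⁻¹ := by rw [ht, map_mul, map_mul]
    have h2 : ρ x⁻¹ * ρ x = 1 := by rw [← map_mul, inv_mul_cancel, map_one]
    have h3 : ρ x * ρ x⁻¹ = 1 := by rw [← map_mul, mul_inv_cancel, map_one]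
    calc t * t = ρ x * s * (ρ x⁻¹ * ρ x) * s * ρ x⁻¹ := by rw [h1]; noncomm_ring
      _ = ρ x * (s * s) * ρ x⁻¹ := by rw [h2]; noncomm_ring
      _ = -(ρ x * ρ x⁻¹) - t := by rw [hss, h1]; noncomm_ring
      _ = -1 - t := by rw [h3]
  have hσi : σ⁻¹ = σ * σ := by
    rw [inv_eq_iff_mul_eq_one]
    rw [← hσ3]; simp [pow_succ, mul_assoc]
  have hσσσ : σ * (σ * σ) = 1 := by
    rw [← hσ3]; simp [pow_succ, mul_assoc]
  have hti : (x * σ * x⁻¹)⁻¹ = (x * σ * x⁻¹) * (x * σ * x⁻¹) := by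
    rw [inv_eq_iff_mul_eq_one]
    calc (x * σ * x⁻¹) * ((x * σ * x⁻¹) * (x * σ * x⁻¹)) = x * (σ * (σ * σ)) * x⁻¹ := by simp [mul_assoc]
      _ = 1 := by rw [hσσσ]; simp
  have hy0 : ρ y = s * s * t := by rw [hy, map_mul, hσi, map_mul]
  have hy0' : ρ y⁻¹ = t * t * s := by
    rw [hy, mul_inv_rev, hti, inv_inv, map_mul, map_mul]
  set c := ρ y + ρ y⁻¹ with hc
  have hcs : c * s = s * c := by rw [hc, hy0, hy0']; exact quad_end hss htt
  have hsinv : s * ρ σ⁻¹ = 1 := by rw [hs, ← map_mul, mul_inv_cancel, map_one]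
  have hsinv' : ρ σ⁻¹ * s = 1 := by rw [hs, ← map_mul, inv_mul_cancel, map_one]
  have hcy1 : c = ρ (σ * y * σ⁻¹) + ρ (σ * y * σ⁻¹)⁻¹ := by
    have e1 : (σ * y * σ⁻¹)⁻¹ = σ * y⁻¹ * σ⁻¹ := by group
    rw [e1, map_mul, map_mul, map_mul, map_mul]
    calc c = (s * c) * ρ σ⁻¹ := by rw [← hcs, mul_assoc, hsinv, mul_one]
      _ = _ := by rw [hc]; noncomm_ring
  have hcy2 : c = ρ (σ * (σ * y * σ⁻¹) * σ⁻¹) + ρ (σ * (σ * y * σ⁻¹) * σ⁻¹)⁻¹ := by
    have e1 : (σ * (σ * y * σ⁻¹) * σ⁻¹)⁻¹ = σ * (σ * y * σ⁻¹)⁻¹ * σ⁻¹ := by simp [mul_assoc]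
    rw [e1, map_mul ρ (σ * (σ * y * σ⁻¹)), map_mul ρ σ, map_mul ρ (σ * (σ * y * σ⁻¹)⁻¹), map_mul ρ σ]
    calc c = (s * c) * ρ σ⁻¹ := by rw [← hcs, mul_assoc, hsinv, mul_one]
      _ = _ := by rw [hcy1]; noncomm_ring
  have hprod : y * (σ * y * σ⁻¹) * (σ * (σ * y * σ⁻¹) * σ⁻¹) = 1 := by
    calc y * (σ * y * σ⁻¹) * (σ * (σ * y * σ⁻¹) * σ⁻¹) = σ⁻¹ * x * (σ * (σ * σ)) * x⁻¹ * σ⁻¹ * σ⁻¹ := by
          rw [hy]; simp [mul_assoc]
      _ = σ⁻¹ * σ⁻¹ * σ⁻¹ := by rw [hσσσ]; simp [mul_assoc]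
      _ = (σ * (σ * σ))⁻¹ := by simp [mul_assoc]
      _ = 1 := by rw [hσσσ, inv_one]
  set y1 := σ * y * σ⁻¹ with hy1
  have hy2 : (σ * y1 * σ⁻¹) = (y * y1)⁻¹ := by
    have := hprod
    rw [mul_eq_one_iff_eq_inv] at this
    rw [this, inv_inv]
  have i1 : ∀ g : Γ, ρ g⁻¹ * ρ g = 1 := fun g => by rw [← map_mul, inv_mul_cancel, map_one]
  have i2 : ∀ g : Γ, ρ g * ρ g⁻¹ = 1 := fun g => by rw [← map_mul, mul_inv_cancel, map_one]
  have hW : ρ ⁅y, y1⁆ = 1 := by
    apply quad_w (i1 y) (i2 y) (i1 y1) (i2 y1) hcy1 (W := ρ ⁅y, y1⁆) _ _ _ hm hodd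
    · rw [← map_pow, hwm, map_one]
    · rw [← map_mul, ← map_mul, ← map_mul]
      congr 1
      rw [commutatorElement_def]; group
    · rw [← map_mul, ← map_mul, hw0]
    · rw [← map_mul, ← map_mul, hw1]
  have hcomm : ρ y * ρ y1 = ρ y1 * ρ y := by
    have : y * y1 = ⁅y, y1⁆ * (y1 * y) := by rw [commutatorElement_def]; group
    rw [← map_mul, this, map_mul, hW, one_mul, map_mul]
  apply quad_comm (a := ρ y) (i1 y) (i1 y1) (d' := ρ (y * y1)⁻¹) _ hcy1 _ hcomm hm h3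
  · rw [← map_pow, hym, map_one]
  · rw [← map_mul, i1]
  · rw [← map_mul, ← hc, hcy2, hy2, inv_inv, add_comm]

theorem quad_aux [Finite Γ] {σ : Γ} (hσ3 : σ ^ 3 = 1) (hq : ∀ v, v + ρ σ v + ρ σ (ρ σ v) = 0)
    {q : ℕ} [hqp : Fact q.Prime] (hqk : (q : k) ≠ 0) (hq2 : q ≠ 2) (hq3 : q ≠ 3) :
    ∀ (n : ℕ) (Q : Subgroup Γ), Nat.card Q = n → IsPGroup q Q → (∀ x ∈ Q, ρ x = 1 → x = 1) →
      zpowers σ ≤ normalizer (Q : Set Γ) → ∀ x ∈ Q, x * σ = σ * x := by
  intro n
  induction n using Nat.strong_induction_on with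
  | _ n ih =>
  intro Q hn hQ hf hN x hx
  obtain ⟨e, he⟩ := IsPGroup.iff_card.mp hQ
  have hcard3 : (Nat.card (zpowers σ)).Coprime (Nat.card Q) := by
    rw [he, Nat.card_zpowers]
    apply Nat.Coprime.pow_right
    apply Nat.Coprime.coprime_dvd_left (orderOf_dvd_of_pow_eq_one hσ3)
    exact (Nat.coprime_primes Nat.prime_three hqp.out).mpr (Ne.symm hq3)
  haveI : Group.IsNilpotent Q := hQ.isNilpotent
  have hsol : Group.IsSolvable (zpowers σ) ∨ Group.IsSolvable Q := Or.inr inferInstance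
  have hQA : ⁅Q, zpowers σ⁆ ≤ Q := CfsgLib.Coprime.commutator_le_of_le_normalizer hN
  -- from `σ` centralizing a subgroup to a commutator
  have hbot : ∀ R : Subgroup Γ, (∀ y ∈ R, y * σ = σ * y) → ⁅R, zpowers σ⁆ = ⊥ := by
    intro R hR
    rw [eq_bot_iff, commutator_le]
    rintro y hy _ ⟨i, rfl⟩
    rw [mem_bot, commutatorElement_eq_one_iff_mul_comm]
    exact (Commute.zpow_right (show Commute y σ from hR y hy) i)
  have hof : ∀ R : Subgroup Γ, ⁅R, zpowers σ⁆ = ⊥ → ∀ y ∈ R, y * σ = σ * y := by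
    intro R hR y hy
    have h1 : ⁅y, σ⁆ ∈ ⁅R, zpowers σ⁆ := commutator_mem_commutator hy (mem_zpowers σ)
    rw [hR, mem_bot, commutatorElement_eq_one_iff_mul_comm] at h1
    exact h1
  have hIH : ∀ R : Subgroup Γ, R ≤ Q → R ≠ Q → zpowers σ ≤ normalizer (R : Set Γ) → ∀ y ∈ R, y * σ = σ * y := by
    intro R hRQ hne hRN
    apply ih (Nat.card R) _ R rfl (hQ.to_le hRQ) (fun x hx => hf x (hRQ hx)) hRN
    rw [← hn]
    exact CfsgLib.SolvBasic.card_lt_of_lt (lt_of_le_of_ne hRQ hne)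
  by_cases h1 : ⁅Q, zpowers σ⁆ = Q
  swap
  · have h2 := hIH _ hQA h1 (normalizer_commutator_ge_right Q (zpowers σ))
    exact hof Q (CfsgLib.Coprime.commutator_eq_bot_of_commutator_commutator hN hcard3 hsol (hbot _ h2)) x hx
  by_cases hQb : Q = ⊥
  · rw [hQb, mem_bot] at hx
    rw [hx, one_mul, mul_one]
  have h2 : ⁅Q, Q⁆ ≠ Q := (CfsgLib.SolvMin.commutator_lt_of_solvable Q hQb).ne
  have h3 : zpowers σ ≤ normalizer ((⁅Q, Q⁆ : Subgroup Γ) : Set Γ) := by
    intro g hg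
    rw [mem_normalizer_iff_map_conj_eq, map_commutator, mem_normalizer_iff_map_conj_eq.mp (hN hg)]
  have h4 := hbot _ (hIH _ (commutator_le_self Q) h2 h3)
  have h5 : ⁅⁅Q, zpowers σ⁆, ⁅Q, Q⁆⁆ = ⊥ := by
    apply commutator_commutator_eq_bot_of_rotate
    · rw [commutator_comm (zpowers σ), h4, commutator_bot_left]
    · rw [eq_bot_iff, ← h4]
      exact commutator_mono (commutator_le.mpr (fun a ha b hb => by
        exact commutator_mem_commutator (commutator_le_self Q ha) hb)) le_rfl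
  rw [h1] at h5
  -- the elements
  set y := σ⁻¹ * (x * σ * x⁻¹) with hy
  have hσN : ∀ z ∈ Q, σ * z * σ⁻¹ ∈ Q := fun z hz => (mem_normalizer_iff.mp (hN (mem_zpowers σ)) z).mp hz
  have hσN' : ∀ z ∈ Q, σ⁻¹ * z * σ ∈ Q := fun z hz => by
    have := (mem_normalizer_iff.mp (hN (inv_mem (mem_zpowers σ))) z).mp hz
    simpa using this
  have hyQ : y ∈ Q := by
    have : y = (σ⁻¹ * x * σ) * x⁻¹ := by rw [hy]; group
    rw [this]
    exact Q.mul_mem (hσN' x hx) (Q.inv_mem hx)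
  have hy1Q := hσN y hyQ
  have hwQ : ⁅y, σ * y * σ⁻¹⁆ ∈ ⁅Q, Q⁆ := commutator_mem_commutator hyQ hy1Q
  have hcen : ∀ z ∈ Q, ⁅y, σ * y * σ⁻¹⁆ * z = z * ⁅y, σ * y * σ⁻¹⁆ := by
    intro z hz
    have h6 : ⁅z, ⁅y, σ * y * σ⁻¹⁆⁆ ∈ ⁅Q, ⁅Q, Q⁆⁆ := commutator_mem_commutator hz hwQ
    rw [h5, mem_bot, commutatorElement_eq_one_iff_mul_comm] at h6
    exact h6.symm
  have hpow : ∀ z ∈ Q, z ^ (q ^ e) = 1 := by
    intro z hz
    have := pow_card_eq_one' (x := (⟨z, hz⟩ : Q))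
    rw [he] at this
    exact congrArg Subtype.val this
  have hρy : ρ y = 1 := by
    apply quad_group ρ hσ3 hq hy (m := q ^ e) _ _ _ (hpow y hyQ) (hpow _ (commutator_le_self Q hwQ)) (hcen y hyQ) (hcen _ hy1Q)
    · rw [Nat.cast_pow]; exact pow_ne_zero _ hqk
    · exact (hqp.out.odd_of_ne_two hq2).pow
    · exact Nat.Coprime.pow_left _ ((Nat.coprime_primes hqp.out Nat.prime_three).mpr hq3)
  have hy1 := hf y hyQ hρy
  rw [hy, inv_mul_eq_one] at hy1
  exact (eq_mul_inv_iff_mul_eq.mp hy1).symm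

end Grp

end LinAlg

end CfsgLib.H7S3
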