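import Cfsg.Agent.EqBase
import Cfsg.Agent.LibH7S3A
import Cfsg.Agent.LibCores
/-!
# Fixed-point-free actions of `S_3`, part B: weights of abelian normal subgroups (helper7)
-/
set_option autoImplicit false
set_option linter.all false
open Cfsg Subgroup
open scoped commutatorElement
namespace CfsgLib.H7S3

universe u v w

section Wt
variable {k : Type v} [Field k] {M : Type w} [AddCommGroup M] [Module k M]
  {Γ : Type u} [Group Γ] (ρ : Γ →* Module.End k M) (A : Subgroup Γ)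

/-- the weight space -/
def wt (l : A →* k) : Submodule k M where
  carrier := {v | ∀ a : A, ρ a v = l a • v}
  zero_mem' := fun a => by rw [map_zero, smul_zero]
  add_mem' := fun {u v} hu hv a => by rw [map_add, hu a, hv a, smul_add]
  smul_mem' := fun c v hv a => by rw [map_smul, hv a, smul_comm]

theorem mem_wt {l : A →* k} {v : M} : v ∈ wt ρ A l ↔ ∀ a : A, ρ a v = l a • v := Iff.rfl

/-- conjugation of weights -/
def cjw [A.Normal] (g : Γ) (l : A →* k) : A →* k := l.comp (MulAut.conjNormal g⁻¹ : MulAut A).toMonoidHom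

theorem cjw_apply [A.Normal] (g : Γ) (l : A →* k) (a : A) :
    cjw A g l a = l ⟨g⁻¹ * a * g, by
      have := (inferInstance : A.Normal).conj_mem a a.2 g⁻¹
      simpa using this⟩ := by
  unfold cjw
  rw [MonoidHom.comp_apply]
  congr 1
  apply Subtype.ext
  change ((MulAut.conjNormal g⁻¹ a : A) : Γ) = _
  rw [MulAut.conjNormal_apply]
  change g⁻¹ * (a : Γ) * g⁻¹⁻¹ = g⁻¹ * (a : Γ) * g
  rw [inv_inv]

theorem cjw_one [A.Normal] (l : A →* k) : cjw A 1 l = l := by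
  ext a; rw [cjw_apply]; congr 1; apply Subtype.ext; simp

theorem cjw_mul [A.Normal] (g h : Γ) (l : A →* k) : cjw A (g * h) l = cjw A g (cjw A h l) := by
  ext a; rw [cjw_apply, cjw_apply, cjw_apply]; congr 1; apply Subtype.ext; simp [mul_assoc]

theorem cjw_inv [A.Normal] {g : Γ} {l m : A →* k} (h : cjw A g l = m) : cjw A g⁻¹ m = l := by
  rw [← h, ← cjw_mul, inv_mul_cancel, cjw_one]

theorem map_wt [A.Normal] (g : Γ) {l : A →* k} {v : M} (hv : v ∈ wt ρ A l) : ρ g v ∈ wt ρ A (cjw A g l) := by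
  rw [mem_wt] at hv ⊢
  intro a
  have hmem : g⁻¹ * a * g ∈ A := by
    have := (inferInstance : A.Normal).conj_mem a a.2 g⁻¹
    simpa using this
  have h1 := hv ⟨g⁻¹ * a * g, hmem⟩
  rw [cjw_apply, ← map_smul, ← h1, ← Module.End.mul_apply, ← Module.End.mul_apply, ← map_mul, ← map_mul]
  congr 2
  simp [mul_assoc]

theorem rho_inj (g : Γ) {v : M} (h : ρ g v = 0) : v = 0 := by
  have h1 : ρ g⁻¹ (ρ g v) = v := by
    rw [← Module.End.mul_apply, ← map_mul, inv_mul_cancel, map_one]; rfl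
  rw [← h1, h, map_zero]

theorem wt_ne_bot [A.Normal] (g : Γ) {l : A →* k} (h : wt ρ A l ≠ ⊥) : wt ρ A (cjw A g l) ≠ ⊥ := by
  obtain ⟨v, hv, hv0⟩ := (Submodule.ne_bot_iff _).mp h
  exact (Submodule.ne_bot_iff _).mpr ⟨ρ g v, map_wt ρ A g hv, fun h0 => hv0 (rho_inj ρ g h0)⟩

/-- the projection to a weight space -/
noncomputable def pr [Finite A] (l : A →* k) : Module.End k M :=
  letI := Fintype.ofFinite A
  (Nat.card A : k)⁻¹ • ∑ a : A, l a⁻¹ • ρ a

theorem pr_eq [Finite A] (hA : (Nat.card A : k) ≠ 0) {l : A →* k} {v : M} (hv : v ∈ wt ρ A l) : pr ρ A l v = v := by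
  letI := Fintype.ofFinite A
  unfold pr
  rw [LinearMap.smul_apply, LinearMap.sum_apply]
  have h1 : ∀ a ∈ (Finset.univ : Finset A), (l a⁻¹ • ρ (a : Γ)) v = v := by
    intro a _
    rw [LinearMap.smul_apply, (mem_wt ρ A).mp hv a, smul_smul, ← map_mul, inv_mul_cancel, map_one, one_smul]
  rw [Finset.sum_congr rfl h1, Finset.sum_const, Finset.card_univ, ← Nat.card_eq_fintype_card,
    ← Nat.cast_smul_eq_nsmul k, smul_smul, inv_mul_cancel₀ hA, one_smul]

theorem pr_eq_zero [Finite A] {l m : A →* k} (hlm : l ≠ m) {v : M} (hv : v ∈ wt ρ A m) : pr ρ A l v = 0 := by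
  letI := Fintype.ofFinite A
  unfold pr
  rw [LinearMap.smul_apply, LinearMap.sum_apply]
  have h1 : ∀ a ∈ (Finset.univ : Finset A), (l a⁻¹ • ρ (a : Γ)) v = (l a⁻¹ * m a) • v := by
    intro a _
    rw [LinearMap.smul_apply, (mem_wt ρ A).mp hv a, smul_smul]
  rw [Finset.sum_congr rfl h1, ← Finset.sum_smul]
  have hinv : ∀ a b : A, l (a * b)⁻¹ = l a⁻¹ * l b⁻¹ := fun a b => by
    rw [mul_inv_rev, map_mul, mul_comm]
  set f : A →* k := ⟨⟨fun a => l a⁻¹ * m a, by simp⟩, fun a b => by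
    change l (a * b)⁻¹ * m (a * b) = (l a⁻¹ * m a) * (l b⁻¹ * m b)
    rw [hinv, map_mul]; ring⟩ with hf
  have hf1 : f ≠ 1 := by
    intro h
    apply hlm
    ext a
    have h2 : l a⁻¹ * m a = 1 := DFunLike.congr_fun h a
    have h3 : l a * l a⁻¹ = 1 := by rw [← map_mul, mul_inv_cancel, map_one]
    calc l a = l a * (l a⁻¹ * m a) := by rw [h2, mul_one]
      _ = m a := by rw [← mul_assoc, h3, one_mul]
  have h4 := sum_hom_units_eq_zero f hf1
  have h5 : ∑ a : A, l a⁻¹ * m a = 0 := h4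
  rw [h5, zero_smul, smul_zero]

/-- existence of weights -/
theorem exists_wt [IsAlgClosed k] [Module.Finite k M] [Nontrivial M] (hAc : ∀ a ∈ A, ∀ b ∈ A, a * b = b * a) :
    ∃ l : A →* k, wt ρ A l ≠ ⊥ := by
  haveI : IsArtinian k M := inferInstance
  have hne : {E : Submodule k M | E ≠ ⊥ ∧ ∀ a ∈ A, ∀ v ∈ E, ρ a v ∈ E}.Nonempty :=
    ⟨⊤, top_ne_bot, fun _ _ _ _ => Submodule.mem_top⟩
  obtain ⟨E, ⟨hE0, hEA⟩, hmin⟩ := wellFounded_lt.has_min _ hne
  have hscal : ∀ a ∈ A, ∃ μ : k, ∀ v ∈ E, ρ a v = μ • v := by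
    intro a ha
    obtain ⟨v, hvE, hv0, μ, hμ⟩ := exists_eigvec (ρ a) E hE0 (hEA a ha)
    refine ⟨μ, ?_⟩
    set E' : Submodule k M := E ⊓ LinearMap.ker (ρ a - μ • 1) with hE'
    have memE' : ∀ u, u ∈ E' ↔ u ∈ E ∧ ρ a u = μ • u := by
      intro u
      rw [hE', Submodule.mem_inf, LinearMap.mem_ker, LinearMap.sub_apply, sub_eq_zero]; rfl
    have h1 : E' ≠ ⊥ := (Submodule.ne_bot_iff _).mpr ⟨v, (memE' v).mpr ⟨hvE, hμ⟩, hv0⟩
    have h2 : ∀ b ∈ A, ∀ u ∈ E', ρ b u ∈ E' := by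
      intro b hb u hu
      rw [memE'] at hu ⊢
      refine ⟨hEA b hb u hu.1, ?_⟩
      rw [← Module.End.mul_apply, ← map_mul, hAc a ha b hb, map_mul, Module.End.mul_apply, hu.2, map_smul]
    have h3 : ¬ E' < E := hmin E' ⟨h1, h2⟩
    have h4 : E' = E := by
      by_contra hne
      exact h3 (lt_of_le_of_ne inf_le_left hne)
    intro u hu
    rw [← h4] at hu
    exact ((memE' u).mp hu).2
  choose! f hf using hscal
  obtain ⟨v, hvE, hv0⟩ := (Submodule.ne_bot_iff _).mp hE0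
  refine ⟨⟨⟨fun a => f a, ?_⟩, ?_⟩, (Submodule.ne_bot_iff _).mpr ⟨v, fun a => hf a a.2 v hvE, hv0⟩⟩
  · apply smul_inj_vec hv0
    change f ((1 : A) : Γ) • v = _
    rw [← hf _ (1 : A).2 v hvE, one_smul, OneMemClass.coe_one, map_one]; rfl
  · intro a b
    apply smul_inj_vec hv0
    change f ((a * b : A) : Γ) • v = (f a * f b) • v
    rw [← hf _ (a * b).2 v hvE, Subgroup.coe_mul, map_mul, Module.End.mul_apply, hf b b.2 v hvE, map_smul,
      hf a a.2 v hvE, smul_smul, mul_comm]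

end Wt

/-! ### the group theoretic setting -/

section SD
variable {Γ : Type u} [Group Γ]

/-- `H` is a solvable normal subgroup of order prime to 6, complemented by a group generated by `σ`, `τ`
with the relations of `S_3`, acting without fixed points on `H`. -/
structure SD (H : Subgroup Γ) (σ τ : Γ) : Prop where
  nor : H.Normal
  sol : Group.IsSolvable H
  cop : (Nat.card H).Coprime 6
  s3 : σ ^ 3 = 1
  t2 : τ ^ 2 = 1
  rel : τ * σ = σ * σ * τ
  gen : H ⊔ closure {σ, τ} = ⊤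
  fix : ∀ h ∈ H, σ * h = h * σ → τ * h = h * τ → h = 1

variable {H : Subgroup Γ} {σ τ : Γ}

theorem SD.sss (D : SD H σ τ) : σ * (σ * σ) = 1 := by
  rw [← D.s3]; simp [pow_succ, mul_assoc]

theorem SD.tt (D : SD H σ τ) : τ * τ = 1 := by rw [← D.t2, pow_two]

theorem SD.sinv (D : SD H σ τ) : σ⁻¹ = σ * σ := by
  rw [inv_eq_iff_mul_eq_one, D.sss]

theorem SD.tinv (D : SD H σ τ) : τ⁻¹ = τ := by
  rw [inv_eq_iff_mul_eq_one, D.tt]

/-- the elements of `S` -/
theorem SD.mem_S (D : SD H σ τ) {s : Γ} (hs : s ∈ closure ({σ, τ} : Set Γ)) :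
    s = 1 ∨ s = σ ∨ s = σ * σ ∨ s = τ ∨ s = σ * τ ∨ s = σ * σ * τ := by
  have hsss := D.sss
  have htt := D.tt
  have hsss' : ∀ x, σ * (σ * (σ * x)) = x := fun x => by
    have := congrArg (· * x) hsss
    simpa [mul_assoc] using this
  have htt' : ∀ x, τ * (τ * x) = x := fun x => by rw [← mul_assoc, htt, one_mul]
  have hrel := D.rel
  have hrel' : ∀ x, τ * (σ * x) = σ * (σ * (τ * x)) := fun x => by
    rw [← mul_assoc, hrel]; simp only [mul_assoc]
  rw [mul_assoc] at hrel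
  induction hs using closure_induction_left with
  | one => left; rfl
  | mul_left x hx y hy ih =>
    rcases hx with rfl | hx
    · rcases ih with rfl | rfl | rfl | rfl | rfl | rfl <;>
        simp only [mul_one, hsss, hsss', mul_assoc, true_or, or_true]
    · rw [Set.mem_singleton_iff] at hx
      subst hx
      rcases ih with rfl | rfl | rfl | rfl | rfl | rfl <;>
        simp only [mul_one, hsss, hsss', hrel, hrel', htt, htt', mul_assoc, true_or, or_true]
  | inv_mul_cancel x hx y hy ih =>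
    rcases hx with rfl | hx
    · rw [D.sinv]
      rcases ih with rfl | rfl | rfl | rfl | rfl | rfl <;>
        simp only [mul_one, hsss, hsss', mul_assoc, true_or, or_true]
    · rw [Set.mem_singleton_iff] at hx
      subst hx
      rw [D.tinv]
      rcases ih with rfl | rfl | rfl | rfl | rfl | rfl <;>
        simp only [mul_one, hsss, hsss', hrel, hrel', htt, htt', mul_assoc, true_or, or_true]

theorem SD.cop_S [Finite Γ] (D : SD H σ τ) : (Nat.card (closure ({σ, τ} : Set Γ))).Coprime (Nat.card H) := by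
  rw [Nat.coprime_iff_gcd_eq_one]
  by_contra hne
  obtain ⟨r, hr, hrd⟩ := Nat.exists_prime_and_dvd hne
  haveI : Fact r.Prime := ⟨hr⟩
  have h1 := hrd.trans (Nat.gcd_dvd_left _ _)
  have h2 := hrd.trans (Nat.gcd_dvd_right _ _)
  obtain ⟨s, hs⟩ := exists_prime_orderOf_dvd_card' r h1
  have hsss := D.sss
  have htt := D.tt
  have hsss' : ∀ x, σ * (σ * (σ * x)) = x := fun x => by
    have := congrArg (· * x) hsss
    simpa [mul_assoc] using this
  have htt' : ∀ x, τ * (τ * x) = x := fun x => by rw [← mul_assoc, htt, one_mul]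
  have hrel := D.rel
  have hrel' : ∀ x, τ * (σ * x) = σ * (σ * (τ * x)) := fun x => by
    rw [← mul_assoc, hrel]; simp only [mul_assoc]
  rw [mul_assoc] at hrel
  have h3 : (s : Γ) ^ 6 = 1 := by
    rcases D.mem_S s.2 with h | h | h | h | h | h <;> rw [h] <;>
      simp [pow_succ, mul_assoc, hsss, hsss', hrel, hrel', htt, htt']
  have h4 : s ^ 6 = 1 := Subtype.ext h3
  have h5 := orderOf_dvd_of_pow_eq_one h4
  rw [hs] at h5
  have h6 : r ∣ 1 := by
    rw [← D.cop.gcd_eq_one]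
    exact Nat.dvd_gcd h2 h5
  exact hr.one_lt.ne' (Nat.dvd_one.mp h6)

theorem SD.S_le (D : SD H σ τ) (N : Subgroup Γ) [N.Normal] : closure ({σ, τ} : Set Γ) ≤ normalizer (N : Set Γ) := by
  rw [normalizer_eq_top N]; exact le_top

theorem mem_centralizer_S {h : Γ} (h1 : h ∈ centralizer ((closure {σ, τ} : Subgroup Γ) : Set Γ)) :
    σ * h = h * σ ∧ τ * h = h * τ := by
  rw [mem_centralizer_iff] at h1
  exact ⟨h1 σ (subset_closure (by simp)), h1 τ (subset_closure (by simp))⟩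

/-- `N = [N, S]` for every normal subgroup of `Γ` inside `H`. -/
theorem SD.commutator_eq [Finite Γ] (D : SD H σ τ) {N : Subgroup Γ} [N.Normal] (hN : N ≤ H) :
    ⁅N, closure ({σ, τ} : Set Γ)⁆ = N := by
  have h1 := CfsgLib.Coprime.commutator_sup_centralizer (D.S_le N)
    (D.cop_S.coprime_dvd_right (card_dvd_of_le hN)) (Or.inr (CfsgLib.Coprime.isSolvable_of_le hN D.sol))
  have h2 : N ⊓ centralizer ((closure {σ, τ} : Subgroup Γ) : Set Γ) = ⊥ := by
    rw [eq_bot_iff]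
    rintro h ⟨h3, h4⟩
    have := mem_centralizer_S h4
    exact mem_bot.mpr (D.fix h (hN h3) this.1 this.2)
  rw [h2, sup_bot_eq] at h1
  exact h1

end SD

section Main
variable {k : Type v} [Field k] {M : Type w} [AddCommGroup M] [Module k M]
  {Γ : Type u} [Group Γ]

/-- an irreducible module, faithful on `H`, without fixed points of `S`. -/
structure Mod (ρ : Γ →* Module.End k M) (H : Subgroup Γ) (σ τ : Γ) : Prop where
  irr : ∀ E : Submodule k M, (∀ g, ∀ v ∈ E, ρ g v ∈ E) → E = ⊥ ∨ E = ⊤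
  faith : ∀ h ∈ H, ρ h = 1 → h = 1
  fixM : ∀ v, ρ σ v = v → ρ τ v = v → v = 0

variable {ρ : Γ →* Module.End k M} {H : Subgroup Γ} {σ τ : Γ}

theorem rho_mul (g h : Γ) (v : M) : ρ (g * h) v = ρ g (ρ h v) := by
  rw [map_mul]; rfl

theorem Mod.sum_eq (D : SD H σ τ) (R : Mod ρ H σ τ) (v : M) :
    (v + ρ σ v + ρ σ (ρ σ v)) + ρ τ (v + ρ σ v + ρ σ (ρ σ v)) = 0 := by
  set n := v + ρ σ v + ρ σ (ρ σ v) with hn
  have h3 : ρ σ (ρ σ (ρ σ v)) = v := by
    rw [← rho_mul, ← rho_mul, mul_assoc, D.sss, map_one]; rfl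
  have h1 : ρ σ n = n := by
    rw [hn, map_add, map_add, h3]; abel
  have h2 : ρ σ (ρ τ n) = ρ τ n := by
    have e : σ * τ = τ * (σ * σ) := by
      calc σ * τ = σ * (σ * σ) * σ * τ := by rw [D.sss, one_mul]
        _ = (σ * σ) * ((σ * σ) * τ) := by simp only [mul_assoc]
        _ = (σ * σ) * (τ * σ) := by rw [D.rel]
        _ = (σ * σ * τ) * σ := by simp only [mul_assoc]
        _ = τ * σ * σ := by rw [← D.rel]
        _ = τ * (σ * σ) := by rw [mul_assoc]
    rw [← rho_mul, e, rho_mul, rho_mul, h1, h1]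
  have h4 : ρ τ (ρ τ n) = n := by rw [← rho_mul, D.tt, map_one]; rfl
  apply R.fixM
  · rw [map_add, h1, h2]
  · rw [map_add, h4, add_comm]

variable (A : Subgroup Γ) [A.Normal]

/-- the span of the weight spaces in one `Γ`-orbit is everything -/
theorem Mod.iSup_wt (R : Mod ρ H σ τ) {l : A →* k} (hl : wt ρ A l ≠ ⊥) : ⨆ g : Γ, wt ρ A (cjw A g l) = ⊤ := by
  rcases R.irr (⨆ g : Γ, wt ρ A (cjw A g l)) (by
    intro g v hv
    have h1 : (⨆ g : Γ, wt ρ A (cjw A g l)) ≤ (⨆ g : Γ, wt ρ A (cjw A g l)).comap (ρ g) := by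
      apply iSup_le
      intro h u hu
      rw [Submodule.mem_comap]
      have := map_wt ρ A g hu
      rw [← cjw_mul] at this
      exact Submodule.mem_iSup_of_mem (g * h) this
    exact h1 hv) with h | h
  · exfalso
    apply hl
    rw [eq_bot_iff, ← h]
    calc wt ρ A l = wt ρ A (cjw A 1 l) := by rw [cjw_one]
      _ ≤ _ := le_iSup (fun g => wt ρ A (cjw A g l)) 1
  · exact h

theorem Mod.exists_cjw [Finite A] (R : Mod ρ H σ τ) (hA : (Nat.card A : k) ≠ 0) {l m : A →* k} (hl : wt ρ A l ≠ ⊥) (hm : wt ρ A m ≠ ⊥) :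
    ∃ g, cjw A g l = m := by
  by_contra hcon
  push Not at hcon
  obtain ⟨v, hv, hv0⟩ := (Submodule.ne_bot_iff _).mp hm
  apply hv0
  rw [← pr_eq ρ A hA hv]
  have h1 : (⨆ g : Γ, wt ρ A (cjw A g l)) ≤ LinearMap.ker (pr ρ A m) := by
    apply iSup_le
    intro g u hu
    rw [LinearMap.mem_ker]
    exact pr_eq_zero ρ A (Ne.symm (hcon g)) hu
  rw [R.iSup_wt A hl] at h1
  exact h1 Submodule.mem_top

/-- no weight is fixed by `S` -/
theorem Mod.not_fixed [Finite Γ] (D : SD H σ τ) (R : Mod ρ H σ τ) (hAH : A ≤ H) (hA0 : A ≠ ⊥) {l : A →* k} (hl : wt ρ A l ≠ ⊥)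
    (h : ∀ s ∈ closure ({σ, τ} : Set Γ), cjw A s l = l) : False := by
  have h1 : ∀ a : A, l a = 1 := by
    have h2 : ⁅A, closure ({σ, τ} : Set Γ)⁆ ≤ (l.ker).map A.subtype := by
      rw [commutator_le]
      intro a ha s hs
      have hmem : s * a⁻¹ * s⁻¹ ∈ A := (inferInstance : A.Normal).conj_mem _ (A.inv_mem ha) s
      refine ⟨⟨a, ha⟩ * ⟨s * a⁻¹ * s⁻¹, hmem⟩, ?_, ?_⟩
      · rw [SetLike.mem_coe, MonoidHom.mem_ker, map_mul]
        have h3 := h s⁻¹ (inv_mem hs)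
        have h4 : cjw A s⁻¹ l ⟨a⁻¹, A.inv_mem ha⟩ = l ⟨a⁻¹, A.inv_mem ha⟩ := by rw [h3]
        rw [cjw_apply] at h4
        have h5 : (⟨s⁻¹⁻¹ * a⁻¹ * s⁻¹, by simpa using hmem⟩ : A) = ⟨s * a⁻¹ * s⁻¹, hmem⟩ := by
          apply Subtype.ext; simp
        rw [h5] at h4
        rw [h4, ← map_mul]
        have : (⟨a, ha⟩ * ⟨a⁻¹, A.inv_mem ha⟩ : A) = 1 := by apply Subtype.ext; simp
        rw [this, map_one]
      · simp [commutatorElement_def, mul_assoc]
    rw [D.commutator_eq hAH] at h2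
    intro a
    obtain ⟨b, hb, hba⟩ := h2 a.2
    have : b = a := Subtype.ext hba
    rw [← this]
    exact hb
  rcases R.irr (wt ρ A l) (fun g v hv => by
    have h2 := map_wt ρ A g hv
    have h3 : cjw A g l = l := by
      ext a; rw [cjw_apply, h1, h1]
    rwa [h3] at h2) with h2 | h2
  · exact hl h2
  · apply hA0
    rw [eq_bot_iff]
    intro a ha
    rw [mem_bot]
    apply R.faith a (hAH ha)
    apply LinearMap.ext
    intro v
    have h3 : v ∈ wt ρ A l := by rw [h2]; exact Submodule.mem_top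
    have h4 := h3 ⟨a, ha⟩
    rw [h1, one_smul] at h4
    exact h4

/-- the stabilizer of the `H`-orbit of a weight -/
def orbS (hH : H.Normal) (m : A →* k) : Subgroup Γ where
  carrier := {g | ∃ h ∈ H, cjw A g m = cjw A h m}
  one_mem' := ⟨1, H.one_mem, rfl⟩
  mul_mem' := by
    rintro x y ⟨h, hh, e1⟩ ⟨h', hh', e2⟩
    refine ⟨(x * h' * x⁻¹) * h, H.mul_mem (hH.conj_mem h' hh' x) hh, ?_⟩
    rw [cjw_mul, e2, ← cjw_mul, cjw_mul A (x * h' * x⁻¹) h m, ← e1, ← cjw_mul]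
    congr 1; group
  inv_mem' := by
    rintro x ⟨h, hh, e1⟩
    refine ⟨x⁻¹ * h⁻¹ * x, by simpa using hH.conj_mem h⁻¹ (H.inv_mem hh) x⁻¹, ?_⟩
    have e2 : cjw A h⁻¹ (cjw A x m) = m := by rw [e1, ← cjw_mul, inv_mul_cancel, cjw_one]
    calc cjw A x⁻¹ m = cjw A x⁻¹ (cjw A h⁻¹ (cjw A x m)) := by rw [e2]
      _ = _ := by rw [← cjw_mul, ← cjw_mul]

theorem mem_orbS (hH : H.Normal) {m : A →* k} {g : Γ} : g ∈ orbS A hH m ↔ ∃ h ∈ H, cjw A g m = cjw A h m := Iff.rfl

theorem orbS_fix (hH : H.Normal) {m : A →* k} {g : Γ} (h : cjw A g m = m) : g ∈ orbS A hH m :=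
  ⟨1, H.one_mem, by rw [h, cjw_one]⟩

theorem orbS_H (hH : H.Normal) {m : A →* k} {g : Γ} (h : g ∈ H) : g ∈ orbS A hH m :=
  ⟨g, h, rfl⟩

/-- no `H`-orbit of weights is invariant under `S` -/
theorem Mod.not_orbit [Finite Γ] (D : SD H σ τ) (R : Mod ρ H σ τ) (hAH : A ≤ H) (hA0 : A ≠ ⊥) {l : A →* k} (hl : wt ρ A l ≠ ⊥)
    (hs : σ ∈ orbS A D.nor l) (ht : τ ∈ orbS A D.nor l) : False := by
  letI : MulAction Γ (A →* k) :=
    { smul := fun g l => cjw A g l
      one_smul := fun l => cjw_one A l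
      mul_smul := fun g h l => cjw_mul A g h l }
  have hsm : ∀ (g : Γ) (m : A →* k), g • m = cjw A g m := fun _ _ => rfl
  haveI := D.nor
  have hconj : ∀ g : Γ, ∀ h ∈ H, g * h * g⁻¹ ∈ H := fun g h hh => D.nor.conj_mem h hh g
  have hS : closure ({σ, τ} : Set Γ) ≤ orbS A D.nor l := by
    rw [closure_le]
    rintro x (rfl | hx)
    · exact hs
    · rw [Set.mem_singleton_iff] at hx
      rw [hx]; exact ht
  obtain ⟨m, ⟨h, hh, hm⟩, hfix⟩ := CfsgLib.Coprime.glauberman_exists_fixed (D.S_le H) D.cop_S (Or.inr D.sol)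
    (Ω := A →* k) {m | ∃ h ∈ H, cjw A h l = m} ⟨l, 1, H.one_mem, cjw_one A l⟩
    (by
      rintro s hs' _ ⟨h, hh, rfl⟩
      obtain ⟨h', hh', e⟩ := hS hs'
      refine ⟨(s * h * s⁻¹) * h', H.mul_mem (hconj s h hh) hh', ?_⟩
      rw [hsm, cjw_mul, ← e, ← cjw_mul, ← cjw_mul]
      congr 1; group)
    (by
      rintro h' hh' _ ⟨h, hh, rfl⟩
      exact ⟨h' * h, H.mul_mem hh' hh, cjw_mul A _ _ _⟩)
    (by
      rintro _ ⟨h, hh, rfl⟩ _ ⟨h', hh', rfl⟩
      refine ⟨h' * h⁻¹, H.mul_mem hh' (H.inv_mem hh), ?_⟩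
      change cjw A (h' * h⁻¹) (cjw A h l) = cjw A h' l
      rw [← cjw_mul]
      congr 1
      exact inv_mul_cancel_right _ _)
  exact R.not_fixed A D hAH hA0 (l := m) (by rw [← hm]; exact wt_ne_bot ρ A h hl) hfix

theorem pr_rho [Finite A] (hA : (Nat.card A : k) ≠ 0) {l : A →* k} {v : M} (hv : v ∈ wt ρ A l) (g : Γ) :
    (cjw A g l = l → pr ρ A l (ρ g v) = ρ g v) ∧ (cjw A g l ≠ l → pr ρ A l (ρ g v) = 0) := by
  constructor
  · intro h
    apply pr_eq ρ A hA
    have := map_wt ρ A g hv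
    rwa [h] at this
  · intro h
    exact pr_eq_zero ρ A (Ne.symm h) (map_wt ρ A g hv)

theorem Mod.wsum [Finite A] (hA : (Nat.card A : k) ≠ 0) (D : SD H σ τ) (R : Mod ρ H σ τ) {l : A →* k} {v : M} (hv : v ∈ wt ρ A l) :
    (v + pr ρ A l (ρ σ v) + pr ρ A l (ρ (σ * σ) v)) +
      (pr ρ A l (ρ τ v) + pr ρ A l (ρ (τ * σ) v) + pr ρ A l (ρ (τ * (σ * σ)) v)) = 0 := by
  have h1 := congrArg (pr ρ A l) (R.sum_eq D v)
  rw [map_zero] at h1
  rw [← h1]
  simp only [map_add, rho_mul]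
  rw [pr_eq ρ A hA hv]

theorem Mod.G1 [Finite A] (hA : (Nat.card A : k) ≠ 0) (D : SD H σ τ) (R : Mod ρ H σ τ) {l : A →* k} (hl : wt ρ A l ≠ ⊥) :
    cjw A σ l = l ∨ cjw A τ l = l ∨ cjw A (τ * σ) l = l ∨ cjw A (τ * (σ * σ)) l = l := by
  by_contra hcon
  push Not at hcon
  obtain ⟨c1, c2, c3, c4⟩ := hcon
  obtain ⟨v, hv, hv0⟩ := (Submodule.ne_bot_iff _).mp hl
  have h1 := R.wsum A hA D hv
  have c5 : cjw A (σ * σ) l ≠ l := by
    intro h
    apply c1
    calc cjw A σ l = cjw A σ (cjw A (σ * σ) l) := by rw [h]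
      _ = l := by rw [← cjw_mul, D.sss, cjw_one]
  rw [(pr_rho A hA hv σ).2 c1, (pr_rho A hA hv (σ * σ)).2 c5, (pr_rho A hA hv τ).2 c2,
    (pr_rho A hA hv (τ * σ)).2 c3, (pr_rho A hA hv (τ * (σ * σ))).2 c4] at h1
  apply hv0
  simpa using h1

theorem Mod.G2 [Finite A] (hA : (Nat.card A : k) ≠ 0) (D : SD H σ τ) (R : Mod ρ H σ τ) {l : A →* k}
    (h1 : cjw A σ l = l) (h2 : cjw A τ l ≠ l) {v : M} (hv : v ∈ wt ρ A l) : v + ρ σ v + ρ σ (ρ σ v) = 0 := by
  have h3 := R.wsum A hA D hv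
  have c5 : cjw A (σ * σ) l = l := by rw [cjw_mul, h1, h1]
  have c3 : cjw A (τ * σ) l ≠ l := by rw [cjw_mul, h1]; exact h2
  have c4 : cjw A (τ * (σ * σ)) l ≠ l := by rw [cjw_mul, c5]; exact h2
  rw [(pr_rho A hA hv σ).1 h1, (pr_rho A hA hv (σ * σ)).1 c5, (pr_rho A hA hv τ).2 h2,
    (pr_rho A hA hv (τ * σ)).2 c3, (pr_rho A hA hv (τ * (σ * σ))).2 c4, add_zero, add_zero, add_zero, rho_mul] at h3
  exact h3

theorem Mod.G3 [Finite A] (hA : (Nat.card A : k) ≠ 0) (D : SD H σ τ) (R : Mod ρ H σ τ) {l : A →* k}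
    (h1 : cjw A σ l ≠ l) (h2 : cjw A τ l = l) {v : M} (hv : v ∈ wt ρ A l) : ρ τ v = - v := by
  have h3 := R.wsum A hA D hv
  have c5 : cjw A (σ * σ) l ≠ l := by
    intro h
    apply h1
    calc cjw A σ l = cjw A σ (cjw A (σ * σ) l) := by rw [h]
      _ = l := by rw [← cjw_mul, D.sss, cjw_one]
  have htt : ∀ m : A →* k, cjw A τ (cjw A τ m) = m := fun m => by rw [← cjw_mul, D.tt, cjw_one]
  have c3 : cjw A (τ * σ) l ≠ l := by
    intro h
    apply h1
    rw [cjw_mul] at h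
    have := congrArg (cjw A τ) h
    rw [htt, h2] at this
    exact this
  have c4 : cjw A (τ * (σ * σ)) l ≠ l := by
    intro h
    apply c5
    rw [cjw_mul] at h
    have := congrArg (cjw A τ) h
    rw [htt, h2] at this
    exact this
  rw [(pr_rho A hA hv σ).2 h1, (pr_rho A hA hv (σ * σ)).2 c5, (pr_rho A hA hv τ).1 h2,
    (pr_rho A hA hv (τ * σ)).2 c3, (pr_rho A hA hv (τ * (σ * σ))).2 c4, add_zero, add_zero, add_zero, add_zero] at h3
  exact (neg_eq_of_add_eq_zero_right h3).symm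

theorem SD.conj_sigma (D : SD H σ τ) {s : Γ} (hs : s ∈ closure ({σ, τ} : Set Γ)) :
    σ * s = s * σ ∨ σ * s = s * (σ * σ) := by
  have hsss := D.sss
  have htt := D.tt
  have hsss' : ∀ x, σ * (σ * (σ * x)) = x := fun x => by
    have := congrArg (· * x) hsss
    simpa [mul_assoc] using this
  have hrel := D.rel
  have hrel' : ∀ x, τ * (σ * x) = σ * (σ * (τ * x)) := fun x => by
    rw [← mul_assoc, hrel]; simp only [mul_assoc]
  rw [mul_assoc] at hrel
  rcases D.mem_S hs with rfl | rfl | rfl | rfl | rfl | rfl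
  · left; simp
  · left; rfl
  · left; simp only [mul_assoc]
  · right; simp only [mul_assoc, hrel, hrel', hsss']
  · right; simp only [mul_assoc, hrel, hrel', hsss']
  · right; simp only [mul_assoc, hrel, hrel', hsss']

/-- the case distinction -/
theorem Mod.cases [Finite Γ] [IsAlgClosed k] [Module.Finite k M] [Nontrivial M]
    (hAc : ∀ a ∈ A, ∀ b ∈ A, a * b = b * a) (hA : (Nat.card A : k) ≠ 0)
    (D : SD H σ τ) (R : Mod ρ H σ τ) (hAH : A ≤ H) (hA0 : A ≠ ⊥) :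
    (∀ v, v + ρ σ v + ρ σ (ρ σ v) = 0) ∨
    (∃ L : Submodule k M, L ≠ ⊥ ∧ (∀ h ∈ H, ∀ v ∈ L, ρ h v ∈ L) ∧ ∀ v ∈ L, ρ τ v = - v) := by
  haveI := D.nor
  have hconj : ∀ g : Γ, ∀ h ∈ H, g * h * g⁻¹ ∈ H := fun g h hh => D.nor.conj_mem h hh g
  obtain ⟨l, hl⟩ := exists_wt ρ A hAc
  by_cases hcase : ∃ l₁ : A →* k, wt ρ A l₁ ≠ ⊥ ∧ cjw A σ l₁ = l₁
  · left
    obtain ⟨l₁, hl₁, hσ₁⟩ := hcase
    have key : ∀ g : Γ, cjw A σ (cjw A g l₁) = cjw A g l₁ ∧ cjw A τ (cjw A g l₁) ≠ cjw A g l₁ := by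
      intro g
      have hm := wt_ne_bot ρ A g hl₁
      have h2 : σ ∈ orbS A D.nor (cjw A g l₁) := by
        have hg : g ∈ H ⊔ closure ({σ, τ} : Set Γ) := by rw [D.gen]; exact mem_top g
        rw [mem_sup_of_normal_left] at hg
        obtain ⟨h, hh, s, hs, rfl⟩ := hg
        have h1 : cjw A σ (cjw A s l₁) = cjw A s l₁ := by
          rw [← cjw_mul]
          rcases D.conj_sigma hs with e | e
          · rw [e, cjw_mul, hσ₁]
          · rw [e, cjw_mul, cjw_mul A σ σ, hσ₁, hσ₁]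
        refine ⟨(σ * h * σ⁻¹) * h⁻¹, H.mul_mem (hconj σ h hh) (H.inv_mem hh), ?_⟩
        calc cjw A σ (cjw A (h * s) l₁) = cjw A (σ * h * σ⁻¹) (cjw A σ (cjw A s l₁)) := by
              rw [← cjw_mul A σ s, ← cjw_mul A (σ * h * σ⁻¹), ← cjw_mul A σ]; congr 1; group
          _ = cjw A (σ * h * σ⁻¹) (cjw A s l₁) := by rw [h1]
          _ = _ := by rw [← cjw_mul A _ s, ← cjw_mul A _ (h * s)]; congr 1; group
      generalize cjw A g l₁ = m at hm h2 ⊢
      have hno : τ ∉ orbS A D.nor m := fun e => R.not_orbit A D hAH hA0 hm h2 e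
      refine ⟨?_, fun e => hno (orbS_fix A _ e)⟩
      rcases R.G1 A hA D hm with e | e | e | e
      · exact e
      · exact absurd (orbS_fix A _ e) hno
      · exfalso
        apply hno
        have := (orbS A D.nor m).mul_mem (orbS_fix A D.nor e) ((orbS A D.nor m).inv_mem h2)
        rwa [mul_inv_cancel_right] at this
      · exfalso
        apply hno
        have := (orbS A D.nor m).mul_mem (orbS_fix A D.nor e) ((orbS A D.nor m).inv_mem ((orbS A D.nor m).mul_mem h2 h2))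
        rwa [mul_inv_cancel_right] at this
    have hker : (⨆ g : Γ, wt ρ A (cjw A g l₁)) ≤ LinearMap.ker (1 + ρ σ + ρ σ * ρ σ) := by
      apply iSup_le
      intro g v hv
      rw [LinearMap.mem_ker, LinearMap.add_apply, LinearMap.add_apply, Module.End.mul_apply]
      exact R.G2 A hA D (key g).1 (key g).2 hv
    rw [R.iSup_wt A hl₁] at hker
    intro v
    have := hker (Submodule.mem_top (x := v))
    rw [LinearMap.mem_ker, LinearMap.add_apply, LinearMap.add_apply, Module.End.mul_apply] at this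
    exact this
  · right
    push Not at hcase
    obtain ⟨l₀, hl₀, hτ₀⟩ : ∃ l₀ : A →* k, wt ρ A l₀ ≠ ⊥ ∧ cjw A τ l₀ = l₀ := by
      rcases R.G1 A hA D hl with e | e | e | e
      · exact absurd e (hcase l hl)
      · exact ⟨l, hl, e⟩
      · refine ⟨cjw A (σ * σ) l, wt_ne_bot ρ A _ hl, ?_⟩
        calc cjw A τ (cjw A (σ * σ) l) = cjw A (σ * σ) (cjw A (τ * σ) l) := by
              rw [← cjw_mul, ← cjw_mul]
              have : τ * (σ * σ) = σ * σ * (τ * σ) := by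
                rw [← mul_assoc, ← mul_assoc, D.rel]
              rw [this]
          _ = cjw A (σ * σ) l := by rw [e]
      · refine ⟨cjw A σ l, wt_ne_bot ρ A _ hl, ?_⟩
        rw [← cjw_mul]
        have e1 : τ * σ = σ * (τ * (σ * σ)) := by
          have e2 : τ * (σ * σ) = σ * σ * (σ * σ * τ) := by rw [← mul_assoc, D.rel, mul_assoc (σ * σ), D.rel]
          rw [e2, D.rel]
          calc σ * σ * τ = (σ * (σ * σ)) * (σ * σ * τ) := by rw [D.sss, one_mul]
            _ = _ := by simp only [mul_assoc]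
        rw [e1, cjw_mul, e]
    have key : ∀ h ∈ H, cjw A τ (cjw A h l₀) = cjw A h l₀ := by
      intro h hh
      have hm := wt_ne_bot ρ A h hl₀
      have h2 : τ ∈ orbS A D.nor (cjw A h l₀) := by
        refine ⟨(τ * h * τ⁻¹) * h⁻¹, H.mul_mem (hconj τ h hh) (H.inv_mem hh), ?_⟩
        calc cjw A τ (cjw A h l₀) = cjw A (τ * h * τ⁻¹) (cjw A τ l₀) := by
              rw [← cjw_mul, ← cjw_mul A (τ * h * τ⁻¹) τ, inv_mul_cancel_right]
          _ = cjw A (τ * h * τ⁻¹) l₀ := by rw [hτ₀]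
          _ = _ := by rw [← cjw_mul A ((τ * h * τ⁻¹) * h⁻¹) h, inv_mul_cancel_right]
      have hcm := hcase (cjw A h l₀) hm
      generalize cjw A h l₀ = m at hm h2 hcm ⊢
      rcases R.G1 A hA D hm with e | e | e | e
      · exact absurd e hcm
      · exact e
      · exfalso
        have h3 := (orbS A D.nor m).mul_mem ((orbS A D.nor m).inv_mem h2) (orbS_fix A D.nor e)
        rw [inv_mul_cancel_left] at h3
        exact R.not_orbit A D hAH hA0 hm h3 h2
      · exfalso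
        have h3 := (orbS A D.nor m).mul_mem ((orbS A D.nor m).inv_mem h2) (orbS_fix A D.nor e)
        rw [inv_mul_cancel_left, ← D.sinv] at h3
        exact R.not_orbit A D hAH hA0 hm (by simpa using (orbS A D.nor m).inv_mem h3) h2
    have hG3 : ∀ h ∈ H, ∀ u ∈ wt ρ A (cjw A h l₀), ρ τ u = - u := by
      intro h hh u hu
      exact R.G3 A hA D (hcase _ (wt_ne_bot ρ A h hl₀)) (key h hh) hu
    refine ⟨⨆ h : H, wt ρ A (cjw A h l₀), ?_, ?_, ?_⟩
    · intro h
      apply hl₀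
      rw [eq_bot_iff, ← h]
      calc wt ρ A l₀ = wt ρ A (cjw A ((1 : H) : Γ) l₀) := by rw [OneMemClass.coe_one, cjw_one]
        _ ≤ _ := le_iSup (fun h : H => wt ρ A (cjw A h l₀)) 1
    · intro g hg v hv
      have h1 : (⨆ h : H, wt ρ A (cjw A h l₀)) ≤ (⨆ h : H, wt ρ A (cjw A h l₀)).comap (ρ g) := by
        apply iSup_le
        intro h u hu
        rw [Submodule.mem_comap]
        have := map_wt ρ A g hu
        rw [← cjw_mul] at this
        have h3 : wt ρ A (cjw A (g * h) l₀) ≤ ⨆ h : H, wt ρ A (cjw A h l₀) := by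
          have h4 := le_iSup (fun h : H => wt ρ A (cjw A (h : Γ) l₀)) ⟨g * h, H.mul_mem hg h.2⟩
          exact h4
        exact h3 this
      exact h1 hv
    · intro v hv
      have h1 : (⨆ h : H, wt ρ A (cjw A h l₀)) ≤ LinearMap.ker (ρ τ + 1) := by
        apply iSup_le
        intro h u hu
        rw [LinearMap.mem_ker, LinearMap.add_apply, hG3 h h.2 u hu]
        simp
      have := h1 hv
      rw [LinearMap.mem_ker, LinearMap.add_apply] at this
      exact eq_neg_of_add_eq_zero_left this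

end Main

end CfsgLib.H7S3
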