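import Cfsg.Agent.EqBase
import Cfsg.Agent.LibH7S3B
import Cfsg.Agent.LibCores
/-!
# Fixed-point-free actions of `S_3`, part C: the group is abelian on irreducible modules (helper7)
-/
set_option autoImplicit false
set_option linter.all false
open Cfsg Subgroup
open scoped commutatorElement
namespace CfsgLib.H7S3

universe u v w

section Goursat
variable {H : Type u} {X : Type v} [Group H] [Group X]

theorem goursat_abs (π : H →* X) (s t : MulAut H) (hs : s * (s * s) = 1) (ht : t * t = 1) (hrel : t * s = s * s * t)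
    (hpt : ∀ h, π (t h) = π h) (hinj : ∀ h, π h = 1 → π (s h) = 1 → π (s (s h)) = 1 → h = 1)
    (hfix : ∀ h, s h = h → t h = h → h = 1)
    (hgen : ∀ P : Subgroup H, (∀ h, h * (s h)⁻¹ ∈ P) → (∀ h, h * (s (s h))⁻¹ ∈ P) → (∀ h, h * (t h)⁻¹ ∈ P) →
      (∀ h, h * (s (t h))⁻¹ ∈ P) → (∀ h, h * (s (s (t h)))⁻¹ ∈ P) → P = ⊤) :
    ∀ a b : H, a * b = b * a := by
  have sss : ∀ h, s (s (s h)) = h := fun h => by
    have := DFunLike.congr_fun hs h
    exact this
  have tt : ∀ h, t (t h) = h := fun h => DFunLike.congr_fun ht h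
  have ts : ∀ h, t (s h) = s (s (t h)) := fun h => DFunLike.congr_fun hrel h
  have st : ∀ h, s (t h) = t (s (s h)) := fun h => by
    rw [ts, ts, sss]
  have hinj' : ∀ a b, π a = π b → π (s a) = π (s b) → π (s (s a)) = π (s (s b)) → a = b := by
    intro a b h1 h2 h3
    rw [← mul_inv_eq_one]
    apply hinj
    · rw [map_mul, map_inv, h1, mul_inv_cancel]
    · rw [map_mul, map_mul, map_inv, map_inv, h2, mul_inv_cancel]
    · rw [map_mul, map_mul, map_mul, map_inv, map_inv, map_inv, h3, mul_inv_cancel]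
  -- coordinates of `t h`
  have t1 : ∀ h, π (s (t h)) = π (s (s h)) := fun h => by rw [st, hpt]
  have t2 : ∀ h, π (s (s (t h))) = π (s h) := fun h => by rw [← ts, hpt]
  set D : Set H := {d | π d = 1 ∧ π (s d) * π (s (s d)) = 1} with hD
  set U : Set X := {u | ∃ d ∈ D, π (s d) = u} with hU
  have hfD : ∀ h, h * (t h)⁻¹ ∈ D := by
    intro h
    refine ⟨by rw [map_mul, map_inv, hpt, mul_inv_cancel], ?_⟩
    simp only [map_mul, map_inv, t1, t2]
    group
  have hUmem : ∀ h, π (s h) * (π (s (s h)))⁻¹ ∈ U := by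
    intro h
    refine ⟨h * (t h)⁻¹, hfD h, ?_⟩
    rw [map_mul, map_mul, map_inv, map_inv, t1]
  have hcomm : ∀ x ∈ U, ∀ y ∈ U, x * y = y * x := by
    rintro _ ⟨d, hd, rfl⟩ _ ⟨e, he, rfl⟩
    obtain ⟨hd0, hd1⟩ := hd
    obtain ⟨he0, he1⟩ := he
    set u := π (s d) with hu
    set v := π (s e) with hv
    have hd2 : π (s (s d)) = u⁻¹ := eq_inv_of_mul_eq_one_right hd1
    have he2 : π (s (s e)) = v⁻¹ := eq_inv_of_mul_eq_one_right he1
    set g := d * s e * d⁻¹ * (s e)⁻¹ with hg
    have g0 : π g = 1 := by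
      rw [hg]; simp only [map_mul, map_inv, hd0]; group
    have g1 : π (s g) = u * v⁻¹ * u⁻¹ * v := by
      rw [hg]; simp only [map_mul, map_inv]; rw [← hu, he2]; group
    have g2 : π (s (s g)) = 1 := by
      rw [hg]; simp only [map_mul, map_inv, sss]; rw [he0]; group
    set c := u * v⁻¹ * u⁻¹ * v with hc
    set P := g * s g * s (s g) with hP
    have P0 : π P = c := by rw [hP]; simp only [map_mul, g0, g1, g2]; simp
    have P1 : π (s P) = c := by rw [hP]; simp only [map_mul, sss, g0, g1, g2]; simp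
    have P2 : π (s (s P)) = c := by rw [hP]; simp only [map_mul, sss, g0, g1, g2]; simp
    have hsP : s P = P := by
      apply hinj'
      · rw [P1, P0]
      · rw [P2, P1]
      · rw [sss, P0, P2]
    have htP : t P = P := by
      apply hinj'
      · rw [hpt]
      · rw [t1, P2, P1]
      · rw [t2, P1, P2]
    have hP1 := hfix P hsP htP
    rw [hP1, map_one] at P0
    have h3 : u * v⁻¹ * u⁻¹ * v = 1 := P0.symm
    have h4 : u * v⁻¹ = v⁻¹ * u := by
      calc u * v⁻¹ = (u * v⁻¹ * u⁻¹ * v) * (v⁻¹ * u) := by group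
        _ = v⁻¹ * u := by rw [h3, one_mul]
    calc u * v = v * (v⁻¹ * u) * v := by group
      _ = v * (u * v⁻¹) * v := by rw [h4]
      _ = v * u := by group
  have hcl : ∀ x ∈ closure U, ∀ y ∈ closure U, x * y = y * x := by
    have h1 : closure U ≤ centralizer U := by
      rw [closure_le]
      intro x hx
      rw [SetLike.mem_coe, mem_centralizer_iff]
      intro y hy
      exact hcomm y hy x hx
    have h2 : closure U ≤ centralizer (closure U : Set X) := by
      rw [closure_le]
      intro x hx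
      rw [SetLike.mem_coe, mem_centralizer_iff]
      intro y hy
      have := h1 hy
      rw [mem_centralizer_iff] at this
      exact (this x hx).symm
    intro x hx y hy
    have := h2 hy
    rw [mem_centralizer_iff] at this
    exact this x hx
  have htop := hgen ((closure U).comap π)
    (fun h => by
      rw [mem_comap, map_mul, map_inv]
      have := hUmem (s (s h))
      rw [sss] at this
      exact subset_closure this)
    (fun h => by
      rw [mem_comap, map_mul, map_inv]
      have := hUmem (t (s h))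
      rw [t1, t2, sss] at this
      exact subset_closure this)
    (fun h => by
      rw [mem_comap, map_mul, map_inv, hpt, mul_inv_cancel]
      exact one_mem _)
    (fun h => by
      rw [mem_comap, map_mul, map_inv, t1]
      have := hUmem (t (s h))
      rw [t1, t2, sss] at this
      exact subset_closure this)
    (fun h => by
      rw [mem_comap, map_mul, map_inv, t2]
      have := hUmem (s (s h))
      rw [sss] at this
      exact subset_closure this)
  have hπ : ∀ h, π h ∈ closure U := fun h => by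
    have : h ∈ (closure U).comap π := by rw [htop]; exact mem_top h
    exact this
  intro a b
  apply hinj'
  · rw [map_mul, map_mul]; exact hcl _ (hπ a) _ (hπ b)
  · simp only [map_mul]; exact hcl _ (hπ _) _ (hπ _)
  · simp only [map_mul]; exact hcl _ (hπ _) _ (hπ _)

end Goursat

section SDG
variable {Γ : Type u} [Group Γ] {H : Subgroup Γ} {σ τ : Γ}

theorem SD.goursat [Finite Γ] (D : SD H σ τ) (K : Subgroup Γ) (hKH : K ≤ H) (hKn : ∀ h ∈ H, ∀ x ∈ K, h * x * h⁻¹ ∈ K)
    (hKt : ∀ h ∈ H, τ * h * τ⁻¹ * h⁻¹ ∈ K)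
    (hK : ∀ h ∈ K, σ * h * σ⁻¹ ∈ K → σ * (σ * h * σ⁻¹) * σ⁻¹ ∈ K → h = 1) : ∀ a ∈ H, ∀ b ∈ H, a * b = b * a := by
  haveI := D.nor
  haveI hKN : (K.subgroupOf H).Normal := ⟨fun x hx h => by
    rw [mem_subgroupOf] at hx ⊢
    exact hKn h h.2 x hx⟩
  have key := goursat_abs (QuotientGroup.mk' (K.subgroupOf H)) (MulAut.conjNormal σ : MulAut H) (MulAut.conjNormal τ : MulAut H)
    (by rw [← map_mul, ← map_mul, D.sss, map_one])
    (by rw [← map_mul, D.tt, map_one])
    (by rw [← map_mul, ← map_mul, ← map_mul, D.rel])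
    (by
      intro h
      rw [QuotientGroup.mk'_apply, QuotientGroup.mk'_apply, QuotientGroup.eq_iff_div_mem, mem_subgroupOf, div_eq_mul_inv,
        Subgroup.coe_mul, MulAut.conjNormal_apply]
      exact hKt h h.2)
    (by
      intro h h1 h2 h3
      rw [← MonoidHom.mem_ker, QuotientGroup.ker_mk', mem_subgroupOf] at h1 h2 h3
      rw [MulAut.conjNormal_apply] at h2 h3
      rw [MulAut.conjNormal_apply] at h3
      exact Subtype.ext (hK h h1 h2 h3))
    (by
      intro h h1 h2
      apply Subtype.ext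
      apply D.fix h h.2
      · have := congrArg Subtype.val h1
        rw [MulAut.conjNormal_apply, mul_inv_eq_iff_eq_mul] at this
        exact this
      · have := congrArg Subtype.val h2
        rw [MulAut.conjNormal_apply, mul_inv_eq_iff_eq_mul] at this
        exact this)
    (by
      intro P h1 h2 h3 h4 h5
      have h6 : ⁅H, closure ({σ, τ} : Set Γ)⁆ ≤ P.map H.subtype := by
        rw [commutator_le]
        intro h hh x hx
        have hform : ∀ y : H, ∀ z : Γ, ((y : Γ) = z) → (⟨h, hh⟩ : H) * y⁻¹ ∈ P → h * z⁻¹ ∈ P.map H.subtype := by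
          intro y z hy hP
          exact ⟨_, hP, by rw [← hy]; rfl⟩
        have e : ⁅h, x⁆ = h * (x * h * x⁻¹)⁻¹ := by rw [commutatorElement_def]; group
        rw [e]
        rcases D.mem_S hx with rfl | rfl | rfl | rfl | rfl | rfl
        · simp
        · exact hform _ _ (by rw [MulAut.conjNormal_apply]) (h1 ⟨h, hh⟩)
        · exact hform _ _ (by rw [MulAut.conjNormal_apply, MulAut.conjNormal_apply]; group) (h2 ⟨h, hh⟩)
        · exact hform _ _ (by rw [MulAut.conjNormal_apply]) (h3 ⟨h, hh⟩)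
        · exact hform _ _ (by rw [MulAut.conjNormal_apply, MulAut.conjNormal_apply]; group) (h4 ⟨h, hh⟩)
        · exact hform _ _ (by rw [MulAut.conjNormal_apply, MulAut.conjNormal_apply, MulAut.conjNormal_apply]; group) (h5 ⟨h, hh⟩)
      rw [D.commutator_eq le_rfl] at h6
      rw [eq_top_iff]
      intro h _
      obtain ⟨y, hy, hyh⟩ := h6 h.2
      have : y = h := Subtype.ext hyh
      rwa [← this])
  intro a ha b hb
  exact congrArg Subtype.val (key ⟨a, ha⟩ ⟨b, hb⟩)

/-- if `σ` centralises `O_r(Γ) ∩ H` for all primes `r`, then it centralises `H` -/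
theorem SD.cent_of_pCore [Finite Γ] (D : SD H σ τ) (h : ∀ r : ℕ, r.Prime → ∀ x ∈ pCore r Γ ⊓ H, x * σ = σ * x) :
    ∀ x ∈ H, x * σ = σ * x := by
  haveI := D.nor
  haveI := D.sol
  have hF : ∀ y ∈ fittingSubgroup H, (y : Γ) * σ = σ * y := by
    have h1 : fittingSubgroup H ≤ (centralizer ({σ} : Set Γ)).subgroupOf H := by
      rw [CfsgLib.Cores.fittingSubgroup_eq_iSup_pCore]
      apply iSup_le
      rintro ⟨r, hr⟩ y hy
      rw [mem_subgroupOf, mem_centralizer_singleton_iff]
      apply h r hr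
      rw [← CfsgLib.Cores.map_pCore_of_normal]
      exact ⟨y, hy, rfl⟩
    intro y hy
    have := h1 hy
    rw [mem_subgroupOf, mem_centralizer_singleton_iff] at this
    exact this
  intro x hx
  have hxc : ∀ g : Γ, ∀ h ∈ H, g * h * g⁻¹ ∈ H := fun g h hh => D.nor.conj_mem h hh g
  set y : Γ := σ * x * σ⁻¹ * x⁻¹ with hy
  have hyH : y ∈ H := H.mul_mem (hxc σ x hx) (H.inv_mem hx)
  have hyF : (⟨y, hyH⟩ : H) ∈ fittingSubgroup H := by
    apply CfsgLib.Cores.centralizer_fittingSubgroup_le
    rw [mem_centralizer_iff]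
    intro f hf
    apply Subtype.ext
    change (f : Γ) * y = y * f
    have h1 : (⟨x, hx⟩ : H)⁻¹ * f * ⟨x, hx⟩ ∈ fittingSubgroup H := by
      have := (inferInstance : (fittingSubgroup H).Normal).conj_mem f hf (⟨x, hx⟩ : H)⁻¹
      simpa using this
    have h2 : (x⁻¹ * f * x) * σ = σ * (x⁻¹ * f * x) := hF _ h1
    have h3 := hF f hf
    calc (f : Γ) * y = (f * σ) * (x * σ⁻¹ * x⁻¹) := by rw [hy]; group
      _ = σ * f * (x * σ⁻¹ * x⁻¹) := by rw [h3]
      _ = σ * x * σ⁻¹ * (σ * (x⁻¹ * f * x)) * σ⁻¹ * x⁻¹ := by group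
      _ = σ * x * σ⁻¹ * ((x⁻¹ * f * x) * σ) * σ⁻¹ * x⁻¹ := by rw [h2]
      _ = y * f := by rw [hy]; group
  have hyσ := hF _ hyF
  change y * σ = σ * y at hyσ
  have h1 : σ * x = y * (x * σ) := by rw [hy]; group
  have h2 : σ * (σ * x) = y * y * (x * (σ * σ)) := by
    calc σ * (σ * x) = σ * y * (x * σ) := by rw [h1]; simp only [mul_assoc]
      _ = y * (σ * x) * σ := by rw [← hyσ]; simp only [mul_assoc]
      _ = _ := by rw [h1]; simp only [mul_assoc]
  have hyσ' : ∀ z, σ * (y * z) = y * (σ * z) := fun z => by rw [← mul_assoc, ← hyσ, mul_assoc]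
  have h3 : σ * (σ * (σ * x)) = y * y * y * (x * (σ * (σ * σ))) := by
    calc σ * (σ * (σ * x)) = σ * (y * (y * (x * (σ * σ)))) := by rw [h2]; simp only [mul_assoc]
      _ = y * (y * (σ * (x * (σ * σ)))) := by rw [hyσ', hyσ']
      _ = y * (y * ((σ * x) * (σ * σ))) := by simp only [mul_assoc]
      _ = _ := by rw [h1]; simp only [mul_assoc]
  have h4 : y * y * y = 1 := by
    rw [D.sss, mul_one] at h3
    have h5 : σ * (σ * (σ * x)) = x := by
      have := congrArg (· * x) D.sss
      simpa [mul_assoc] using this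
    rw [h5] at h3
    exact (mul_eq_right.mp h3.symm)
  have h5 : y = 1 := by
    have h6 : (⟨y, hyH⟩ : H) ^ 3 = 1 := by
      apply Subtype.ext
      simp [pow_succ, h4]
    have h7 := orderOf_dvd_of_pow_eq_one h6
    have h8 := orderOf_dvd_natCard (⟨y, hyH⟩ : H)
    have h9 : orderOf (⟨y, hyH⟩ : H) ∣ 1 := by
      rw [← D.cop.gcd_eq_one]
      exact Nat.dvd_gcd h8 (h7.trans (by norm_num))
    have := orderOf_eq_one_iff.mp (Nat.dvd_one.mp h9)
    exact congrArg Subtype.val this
  rw [h5, one_mul] at h1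
  exact h1.symm

/-- if `σ` centralises `H` then `H` is abelian -/
theorem SD.comm_of_cent [Finite Γ] (D : SD H σ τ) (h : ∀ x ∈ H, x * σ = σ * x) : ∀ a ∈ H, ∀ b ∈ H, a * b = b * a := by
  haveI := D.nor
  set φ : H →* H := (MulAut.conjNormal τ : MulAut H).toMonoidHom with hφ
  have h1 : MonoidHom.FixedPointFree φ := by
    intro x hx
    apply Subtype.ext
    apply D.fix x x.2 (h x x.2).symm
    have := congrArg Subtype.val hx
    change ((MulAut.conjNormal τ x : H) : Γ) = x at this
    rw [MulAut.conjNormal_apply, mul_inv_eq_iff_eq_mul] at this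
    exact this
  have h2 : Function.Involutive φ := by
    intro x
    change (MulAut.conjNormal τ : MulAut H) ((MulAut.conjNormal τ : MulAut H) x) = x
    rw [← MulAut.mul_apply, ← map_mul, D.tt, map_one]; rfl
  intro a ha b hb
  exact congrArg Subtype.val (h1.commute_all_of_involutive h2 ⟨a, ha⟩ ⟨b, hb⟩)

end SDG

section Fin
variable {k : Type v} [Field k] [IsAlgClosed k] {M : Type w} [AddCommGroup M] [Module k M] [Module.Finite k M] [Nontrivial M]
  {Γ : Type u} [Group Γ] [Finite Γ] {ρ : Γ →* Module.End k M} {H : Subgroup Γ} {σ τ : Γ}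

theorem Mod.charp (R : Mod ρ H σ τ) {q : ℕ} [hq : Fact q.Prime] (hqk : (q : k) = 0) (A : Subgroup Γ) [A.Normal] (hAH : A ≤ H)
    (hAc : ∀ a ∈ A, ∀ b ∈ A, a * b = b * a) (hAq : ∀ a ∈ A, a ^ q = 1) : A = ⊥ := by
  haveI : CharP k q := by
    obtain ⟨r, hr⟩ := CharP.exists k
    have h1 : r ∣ q := (CharP.cast_eq_zero_iff k r q).mp hqk
    rcases (Nat.dvd_prime hq.out).mp h1 with h2 | h2
    · subst h2
      exact absurd (CharP.ringChar_ne_one (R := k)) (by simp [ringChar.eq k 1])
    · rw [← h2]; exact hr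
  obtain ⟨l, hl⟩ := exists_wt ρ A hAc
  have h1 : ∀ a : A, l a = 1 := by
    intro a
    have h2 : (l a) ^ q = 1 := by
      rw [← map_pow]
      have : a ^ q = 1 := Subtype.ext (hAq a a.2)
      rw [this, map_one]
    have h3 : (l a - 1) ^ q = 0 := by
      rw [sub_pow_char, h2, one_pow, sub_self]
    exact sub_eq_zero.mp (pow_eq_zero_iff hq.out.ne_zero |>.mp h3)
  rcases R.irr (wt ρ A l) (fun g v hv => by
    have h2 := map_wt ρ A g hv
    have h3 : cjw A g l = l := by
      ext a; rw [cjw_apply, h1, h1]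
    rwa [h3] at h2) with h2 | h2
  · exact absurd h2 hl
  · rw [eq_bot_iff]
    intro a ha
    rw [mem_bot]
    apply R.faith a (hAH ha)
    apply LinearMap.ext
    intro v
    have h3 : v ∈ wt ρ A l := by rw [h2]; exact Submodule.mem_top
    have h4 := h3 ⟨a, ha⟩
    rw [h1, one_smul] at h4
    exact h4

theorem Mod.comm (D : SD H σ τ) (R : Mod ρ H σ τ) : ∀ a ∈ H, ∀ b ∈ H, a * b = b * a := by
  haveI := D.nor
  haveI := D.sol
  by_cases hH : H = ⊥
  · intro a ha b hb
    rw [hH, mem_bot] at ha hb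
    rw [ha, hb]
  obtain ⟨A, q, hq, hAmin, hAH, hAcomm, hAq, hApg⟩ := CfsgLib.SolvMin.exists_minNormal_pgroup_of_solvable' H hH
  haveI := hAmin.1
  haveI : Fact q.Prime := ⟨hq⟩
  have hAc : ∀ a ∈ A, ∀ b ∈ A, a * b = b * a := fun a ha b hb =>
    congrArg Subtype.val (hAcomm.is_comm.comm ⟨a, ha⟩ ⟨b, hb⟩)
  have hqk : (q : k) ≠ 0 := fun h => hAmin.2.1 (R.charp h A hAH hAc hAq)
  have hcardA : (Nat.card A : k) ≠ 0 := by
    obtain ⟨e, he⟩ := IsPGroup.iff_card.mp hApg
    rw [he, Nat.cast_pow]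
    exact pow_ne_zero _ hqk
  rcases R.cases A hAc hcardA D hAH hAmin.2.1 with hN | ⟨L, hL0, hLH, hLτ⟩
  · -- `σ` is quadratic
    apply D.comm_of_cent
    apply D.cent_of_pCore
    intro r hr x hx
    haveI : Fact r.Prime := ⟨hr⟩
    have hQn : (pCore r Γ ⊓ H).Normal := inferInstance
    have hQp : IsPGroup r (pCore r Γ ⊓ H : Subgroup Γ) := (CfsgLib.Cores.pCore_isPGroup r).to_inf_left
    by_cases hQ : pCore r Γ ⊓ H = ⊥
    · rw [hQ, mem_bot] at hx
      rw [hx, one_mul, mul_one]
    by_cases hrk : (r : k) = 0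
    · exfalso
      haveI : Group.IsSolvable (pCore r Γ ⊓ H : Subgroup Γ) := CfsgLib.Coprime.isSolvable_of_le inf_le_right D.sol
      obtain ⟨B, r', hr', hBmin, hBQ, hBcomm, hBr, hBpg⟩ :=
        CfsgLib.SolvMin.exists_minNormal_pgroup_of_solvable' (pCore r Γ ⊓ H) hQ
      haveI := hBmin.1
      have hrr : r' = r := by
        haveI : Fact r'.Prime := ⟨hr'⟩
        obtain ⟨e, he⟩ := IsPGroup.iff_card.mp hBpg
        obtain ⟨f, hf⟩ := IsPGroup.iff_card.mp (hQp.to_le hBQ)
        have he0 : e ≠ 0 := by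
          rintro rfl
          rw [pow_zero] at he
          exact hBmin.2.1 (card_eq_one.mp he)
        have h1 : r' ∣ r ^ f := by
          rw [← hf, he]; exact dvd_pow_self r' he0
        exact (Nat.prime_dvd_prime_iff_eq hr' hr).mp (hr'.dvd_of_dvd_pow h1)
      rw [hrr] at hBr
      exact hBmin.2.1 (R.charp hrk B (hBQ.trans inf_le_right) (fun a ha b hb =>
        congrArg Subtype.val (hBcomm.is_comm.comm ⟨a, ha⟩ ⟨b, hb⟩)) hBr)
    · have hrH : r ∣ Nat.card H := by
        obtain ⟨e, he⟩ := IsPGroup.iff_card.mp hQp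
        have h1 : Nat.card (pCore r Γ ⊓ H : Subgroup Γ) ∣ Nat.card H := card_dvd_of_le inf_le_right
        have h2 : e ≠ 0 := by
          rintro rfl
          rw [pow_zero] at he
          exact hQ (card_eq_one.mp he)
        rw [he] at h1
        exact (dvd_pow_self r h2).trans h1
      have hr2 : r ≠ 2 := by
        rintro rfl
        have : 2 ∣ 1 := by
          rw [← D.cop.gcd_eq_one]; exact Nat.dvd_gcd hrH (by norm_num)
        omega
      have hr3 : r ≠ 3 := by
        rintro rfl
        have : 3 ∣ 1 := by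
          rw [← D.cop.gcd_eq_one]; exact Nat.dvd_gcd hrH (by norm_num)
        omega
      exact quad_aux ρ D.s3 hN hrk hr2 hr3 _ _ rfl hQp (fun x hx => R.faith x hx.2)
        (by rw [normalizer_eq_top]; exact le_top) x hx
  · -- the second case
    set K : Subgroup Γ :=
      { carrier := {h | h ∈ H ∧ ∀ v ∈ L, ρ h v = v}
        one_mem' := ⟨H.one_mem, fun v _ => by rw [map_one]; rfl⟩
        mul_mem' := fun {a b} ha hb => ⟨H.mul_mem ha.1 hb.1, fun v hv => by rw [rho_mul, hb.2 v hv, ha.2 v hv]⟩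
        inv_mem' := fun {a} ha => ⟨H.inv_mem ha.1, fun v hv => by
          have h1 := ha.2 v hv
          have h2 : ρ a⁻¹ (ρ a v) = v := by rw [← rho_mul, inv_mul_cancel, map_one]; rfl
          rw [h1] at h2
          exact h2⟩ } with hKdef
    have memK : ∀ h, h ∈ K ↔ h ∈ H ∧ ∀ v ∈ L, ρ h v = v := fun h => Iff.rfl
    have hKn : ∀ h ∈ H, ∀ x ∈ K, h * x * h⁻¹ ∈ K := by
      intro h hh x hx
      rw [memK] at hx ⊢
      refine ⟨H.mul_mem (H.mul_mem hh hx.1) (H.inv_mem hh), fun v hv => ?_⟩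
      rw [rho_mul, rho_mul, hx.2 _ (hLH _ (H.inv_mem hh) v hv), ← rho_mul, mul_inv_cancel, map_one]; rfl
    have hconj : ∀ g : Γ, ∀ h ∈ H, g * h * g⁻¹ ∈ H := fun g h hh => D.nor.conj_mem h hh g
    have hKt : ∀ h ∈ H, τ * h * τ⁻¹ * h⁻¹ ∈ K := by
      intro h hh
      rw [memK]
      refine ⟨H.mul_mem (hconj τ h hh) (H.inv_mem hh), fun v hv => ?_⟩
      have h1 := hLH _ (H.inv_mem hh) v hv
      rw [rho_mul, rho_mul, rho_mul, D.tinv, hLτ _ h1, map_neg, map_neg, ← rho_mul h, mul_inv_cancel, map_one]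
      change -(ρ τ v) = v
      rw [hLτ v hv, neg_neg]
    have hcore : K.normalCore = ⊥ := by
      set E : Submodule k M := ⨅ x : K.normalCore, LinearMap.ker (ρ (x : Γ) - 1) with hE
      have memE : ∀ v, v ∈ E ↔ ∀ x ∈ K.normalCore, ρ x v = v := by
        intro v
        rw [hE, Submodule.mem_iInf]
        constructor
        · intro h x hx
          have := h ⟨x, hx⟩
          rw [LinearMap.mem_ker, LinearMap.sub_apply, sub_eq_zero] at this
          exact this
        · rintro h ⟨x, hx⟩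
          rw [LinearMap.mem_ker, LinearMap.sub_apply, sub_eq_zero]
          exact h x hx
      rcases R.irr E (fun g v hv => by
        rw [memE] at hv ⊢
        intro x hx
        have h1 := hv _ ((inferInstance : K.normalCore.Normal).conj_mem x hx g⁻¹)
        have e : x * g = g * (g⁻¹ * x * g⁻¹⁻¹) := by group
        rw [← rho_mul, e, rho_mul, h1]) with h1 | h1
      · exfalso
        obtain ⟨v, hv, hv0⟩ := (Submodule.ne_bot_iff _).mp hL0
        apply hv0
        have : v ∈ E := (memE v).mpr (fun x hx => (K.normalCore_le hx).2 v hv)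
        rwa [h1, Submodule.mem_bot] at this
      · rw [eq_bot_iff]
        intro x hx
        rw [mem_bot]
        apply R.faith x (K.normalCore_le hx).1
        apply LinearMap.ext
        intro v
        exact (memE v).mp (by rw [h1]; exact Submodule.mem_top) x hx
    apply D.goursat K (fun x hx => hx.1) hKn hKt
    intro h h0 h1 h2
    have hKτ : ∀ x ∈ K, τ * x * τ⁻¹ ∈ K := by
      intro x hx
      have h3 := K.mul_mem (hKt x hx.1) hx
      simpa using h3
    have h3 : h ∈ K.normalCore := by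
      intro g
      have hg : g ∈ H ⊔ closure ({σ, τ} : Set Γ) := by rw [D.gen]; exact mem_top g
      rw [mem_sup_of_normal_left] at hg
      obtain ⟨a, ha, s, hs, rfl⟩ := hg
      have h4 : s * h * s⁻¹ ∈ K := by
        have hst : σ * τ = τ * (σ * σ) := by
          calc σ * τ = (σ * (σ * σ)) * (σ * τ) := by rw [D.sss, one_mul]
            _ = (σ * σ) * (σ * σ * τ) := by simp only [mul_assoc]
            _ = (σ * σ) * (τ * σ) := by rw [← D.rel]
            _ = (σ * σ * τ) * σ := by simp only [mul_assoc]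
            _ = τ * σ * σ := by rw [← D.rel]
            _ = τ * (σ * σ) := by rw [mul_assoc]
        rcases D.mem_S hs with rfl | rfl | rfl | rfl | rfl | rfl
        · simpa using h0
        · exact h1
        · have e : σ * σ * h * (σ * σ)⁻¹ = σ * (σ * h * σ⁻¹) * σ⁻¹ := by group
          rw [e]; exact h2
        · exact hKτ h h0
        · rw [hst]
          have e : τ * (σ * σ) * h * (τ * (σ * σ))⁻¹ = τ * (σ * (σ * h * σ⁻¹) * σ⁻¹) * τ⁻¹ := by group
          rw [e]; exact hKτ _ h2
        · rw [← D.rel]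
          have e : τ * σ * h * (τ * σ)⁻¹ = τ * (σ * h * σ⁻¹) * τ⁻¹ := by group
          rw [e]; exact hKτ _ h1
      have h5 := hKn a ha _ h4
      have e : a * (s * h * s⁻¹) * a⁻¹ = (a * s) * h * (a * s)⁻¹ := by group
      rwa [e] at h5
    rw [hcore, mem_bot] at h3
    exact h3

end Fin

end CfsgLib.H7S3
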