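import Cfsg.Agent.EqBase
import Cfsg.Agent.LibH7S3C
/-!
# Fixed-point-free actions of `S_3`, part D: the derived subgroup is nilpotent (helper7)
-/
set_option autoImplicit false
set_option linter.all false
open Cfsg Subgroup
open scoped commutatorElement
namespace CfsgLib.H7S3

universe u v w

section Quot
variable {Γ : Type u} [Group Γ] [Finite Γ] {H : Subgroup Γ} {σ τ : Γ}

theorem SD.quot (D : SD H σ τ) (N : Subgroup Γ) [N.Normal] (hN : N ≤ H) :
    SD (H.map (QuotientGroup.mk' N)) (QuotientGroup.mk' N σ) (QuotientGroup.mk' N τ) := by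
  haveI := D.nor
  haveI := D.sol
  refine ⟨Subgroup.Normal.map D.nor _ (QuotientGroup.mk'_surjective N), CfsgLib.SolvBasic.isSolvable_map _ _, ?_, ?_, ?_, ?_, ?_, ?_⟩
  · exact Nat.Coprime.coprime_dvd_left (card_map_dvd _ _) D.cop
  · rw [← map_pow, D.s3, map_one]
  · rw [← map_pow, D.t2, map_one]
  · rw [← map_mul, ← map_mul, ← map_mul, D.rel]
  · have h1 : (⊤ : Subgroup (Γ ⧸ N)) = (H ⊔ closure ({σ, τ} : Set Γ)).map (QuotientGroup.mk' N) := by
      rw [D.gen, ← MonoidHom.range_eq_map, MonoidHom.range_eq_top.mpr (QuotientGroup.mk'_surjective N)]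
    rw [h1, Subgroup.map_sup, MonoidHom.map_closure, Set.image_pair]
  · rintro _ ⟨h, hh, rfl⟩ h1 h2
    have h3 : ∀ a ∈ closure ({σ, τ} : Set Γ), a * h * a⁻¹ * h⁻¹ ∈ N := by
      have h4 : closure ({σ, τ} : Set Γ) ≤ (centralizer ({QuotientGroup.mk' N h} : Set (Γ ⧸ N))).comap (QuotientGroup.mk' N) := by
        rw [closure_le]
        rintro x (rfl | hx)
        · rw [SetLike.mem_coe, mem_comap, mem_centralizer_singleton_iff]; exact h1
        · rw [Set.mem_singleton_iff] at hx
          rw [hx, SetLike.mem_coe, mem_comap, mem_centralizer_singleton_iff]; exact h2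
      intro a ha
      have h5 := h4 ha
      rw [mem_comap, mem_centralizer_singleton_iff] at h5
      rw [← QuotientGroup.ker_mk' N, MonoidHom.mem_ker, map_mul, map_mul, map_mul, h5, map_inv, map_inv]
      group
    obtain ⟨c, hc, hc2⟩ := CfsgLib.Coprime.exists_fixed_in_coset (D.S_le H) D.cop_S (Or.inr D.sol) hN (D.S_le N) hh
      (by rw [normalizer_eq_top N]; exact mem_top h) h3
    have h6 := mem_centralizer_S hc.2
    rw [D.fix c hc.1 h6.1 h6.2, mul_one] at hc2
    rw [← MonoidHom.mem_ker, QuotientGroup.ker_mk']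
    simpa using N.inv_mem hc2

end Quot

section HomMod
variable (k : Type v) [Field k] {Γ : Type u} [Group Γ] (V : Subgroup Γ) [V.Normal]

/-- additive maps `V → k` -/
def homMod : Submodule k (V → k) where
  carrier := {f | ∀ u v : V, f (u * v) = f u + f v}
  zero_mem' := fun u v => by simp
  add_mem' := fun {f g} hf hg u v => by
    simp only [Pi.add_apply]; rw [hf u v, hg u v]; ring
  smul_mem' := fun c f hf u v => by
    simp only [Pi.smul_apply, smul_eq_mul]; rw [hf u v]; ring

variable {k} in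
theorem homMod_one (f : homMod k V) : f.1 1 = 0 := by
  have := f.2 1 1
  rw [mul_one] at this
  exact left_eq_add.mp this

variable {k} in
theorem homMod_inv (f : homMod k V) (v : V) : f.1 v⁻¹ = - f.1 v := by
  have := f.2 v v⁻¹
  rw [mul_inv_cancel, homMod_one] at this
  exact eq_neg_of_add_eq_zero_right this.symm

/-- the representation on `homMod` -/
def homRep : Γ →* Module.End k (homMod k V) where
  toFun g :=
    { toFun := fun f => ⟨fun v => f.1 (MulAut.conjNormal g⁻¹ v), fun u v => by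
        change f.1 (MulAut.conjNormal g⁻¹ (u * v)) = f.1 (MulAut.conjNormal g⁻¹ u) + f.1 (MulAut.conjNormal g⁻¹ v)
        rw [map_mul]; exact f.2 _ _⟩
      map_add' := fun f f' => rfl
      map_smul' := fun c f => rfl }
  map_one' := by
    ext f v
    simp
  map_mul' := fun g h => by
    ext f v
    simp only [mul_inv_rev, map_mul]
    rfl

theorem homRep_apply (g : Γ) (f : homMod k V) (v : V) : (homRep k V g f).1 v = f.1 (MulAut.conjNormal g⁻¹ v) := rfl

theorem homMod_finite [Finite V] : Module.Finite k (homMod k V) := by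
  haveI := Fintype.ofFinite V
  haveI : Module.Finite k (V → k) := inferInstance
  infer_instance

theorem exists_addHom {W : Type u} [CommGroup W] {p : ℕ} [hp : Fact p.Prime] (hW : ∀ a : W, a ^ p = 1) {x : W} (hx : x ≠ 1) :
    ∃ φ : W → ZMod p, (∀ u v, φ (u * v) = φ u + φ v) ∧ φ x ≠ 0 := by
  letI : Module (ZMod p) (Additive W) := AddCommGroup.zmodModule (n := p) (G := Additive W) (fun y => hW y)
  have h1 : ¬ ∀ φ : (Additive W →ₗ[ZMod p] ZMod p), φ (Additive.ofMul x) = 0 := by
    intro h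
    apply hx
    exact (Module.forall_dual_apply_eq_zero_iff (ZMod p) (Additive.ofMul x)).mp h
  push Not at h1
  obtain ⟨φ, hφ⟩ := h1
  exact ⟨fun w => φ (Additive.ofMul w), fun u v => map_add φ (Additive.ofMul u) (Additive.ofMul v), hφ⟩

theorem homMod_nontrivial {p : ℕ} [hp : Fact p.Prime] [CharP k p] (hV : V ≠ ⊥) (hVc : ∀ a ∈ V, ∀ b ∈ V, a * b = b * a)
    (hVp : ∀ a ∈ V, a ^ p = 1) : Nontrivial (homMod k V) := by
  obtain ⟨x, hx⟩ := (Subgroup.ne_bot_iff_exists_ne_one).mp hV
  obtain ⟨φ, hφ1, hφ⟩ := @exists_addHom V { (inferInstance : Group V) with mul_comm := fun a b => Subtype.ext (hVc a a.2 b b.2) } p hp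
    (fun a => Subtype.ext (hVp a a.2)) x hx
  letI : Algebra (ZMod p) k := ZMod.algebra k p
  refine ⟨⟨⟨fun v => algebraMap (ZMod p) k (φ v), fun u v => ?_⟩, 0, ?_⟩⟩
  · rw [← map_add]
    exact congrArg _ (hφ1 u v)
  · intro h
    apply hφ
    have h2 := congrFun (congrArg Subtype.val h) x
    have h3 : algebraMap (ZMod p) k (φ x) = 0 := h2
    rwa [map_eq_zero] at h3

end HomMod

section Top
variable {Γ : Type u} [Group Γ] [Finite Γ] {H : Subgroup Γ} {σ τ : Γ}

/-- minimal invariant submodules -/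
theorem exists_irr {k : Type v} [Field k] {M : Type w} [AddCommGroup M] [Module k M] [Module.Finite k M] [Nontrivial M]
    {Γ : Type u} [Group Γ] (ρ : Γ →* Module.End k M) :
    ∃ E : Submodule k M, E ≠ ⊥ ∧ (∀ g, ∀ v ∈ E, ρ g v ∈ E) ∧
      ∀ F : Submodule k M, F ≤ E → (∀ g, ∀ v ∈ F, ρ g v ∈ F) → F = ⊥ ∨ F = E := by
  haveI : IsArtinian k M := inferInstance
  have hne : {E : Submodule k M | E ≠ ⊥ ∧ ∀ g, ∀ v ∈ E, ρ g v ∈ E}.Nonempty :=
    ⟨⊤, top_ne_bot, fun _ _ _ => Submodule.mem_top⟩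
  obtain ⟨E, ⟨hE0, hEA⟩, hmin⟩ := wellFounded_lt.has_min _ hne
  refine ⟨E, hE0, hEA, fun F hF hFi => ?_⟩
  by_cases h : F = ⊥
  · exact Or.inl h
  · right
    by_contra hne
    exact hmin F ⟨h, hFi⟩ (lt_of_le_of_ne hF hne)

/-- the action on a chief factor at the bottom -/
theorem SD.derived_centralizes (D : SD H σ τ) {V : Subgroup Γ} (hVmin : CfsgLib.SolvMin.IsMinNormal V) (hVH : V ≤ H)
    (hVc : ∀ a ∈ V, ∀ b ∈ V, a * b = b * a) {p : ℕ} [hp : Fact p.Prime] (hVp : ∀ a ∈ V, a ^ p = 1) :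
    ⁅H, H⁆ ≤ centralizer (V : Set Γ) := by
  haveI := hVmin.1
  haveI := D.nor
  haveI := D.sol
  let k := AlgebraicClosure (ZMod p)
  haveI : CharP k p := inferInstance
  haveI := homMod_finite k V
  haveI := homMod_nontrivial k V hVmin.2.1 hVc hVp
  obtain ⟨E, hE0, hEi, hEmin⟩ := exists_irr (homRep k V)
  haveI : Nontrivial E := Submodule.nontrivial_iff_ne_bot.mpr hE0
  let ρ : Γ →* Module.End k E :=
    { toFun := fun g => (homRep k V g).restrict (hEi g)
      map_one' := by
        ext v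
        simp
      map_mul' := fun g h => by
        ext v
        simp [map_mul] }
  have hρ : ∀ (g : Γ) (f : E), ((ρ g f : E) : homMod k V) = homRep k V g f := fun _ _ => rfl
  set C : Subgroup Γ := H ⊓ ρ.ker with hC
  haveI : C.Normal := inferInstance
  -- quotient
  let ρ' : Γ ⧸ C →* Module.End k E := QuotientGroup.lift C ρ (fun x hx => hx.2)
  have hρ' : ∀ g : Γ, ρ' (QuotientGroup.mk' C g) = ρ g := fun g => rfl
  have D' := D.quot C inf_le_left
  have R' : Mod (M := E) ρ' (H.map (QuotientGroup.mk' C)) (QuotientGroup.mk' C σ) (QuotientGroup.mk' C τ) := by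
    refine ⟨?_, ?_, ?_⟩
    · intro F hF
      rcases hEmin (F.map E.subtype) (Submodule.map_subtype_le _ _) (by
        rintro g _ ⟨f, hf, rfl⟩
        exact ⟨ρ g f, hF (QuotientGroup.mk' C g) f hf, rfl⟩) with h | h
      · left
        rw [eq_bot_iff]
        intro f hf
        have h1 : (f : homMod k V) ∈ F.map E.subtype := ⟨f, hf, rfl⟩
        rw [h, Submodule.mem_bot] at h1
        rw [Submodule.mem_bot]
        exact Subtype.ext h1
      · right
        rw [eq_top_iff]
        intro f _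
        have h1 : (f : homMod k V) ∈ F.map E.subtype := by rw [h]; exact f.2
        obtain ⟨f', hf', hff⟩ := h1
        have : f' = f := Subtype.ext hff
        rwa [← this]
    · rintro _ ⟨h, hh, rfl⟩ h1
      rw [hρ'] at h1
      rw [← MonoidHom.mem_ker, QuotientGroup.ker_mk']
      exact ⟨hh, h1⟩
    · intro f h1 h2
      rw [hρ'] at h1 h2
      -- `f` vanishes on `[V, S] = V`
      have hfix : ∀ s ∈ closure ({σ, τ} : Set Γ), ρ s f = f := by
        intro s hs
        induction hs using closure_induction with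
        | mem x hx =>
          rcases hx with rfl | hx
          · exact h1
          · rw [Set.mem_singleton_iff] at hx
            rw [hx]; exact h2
        | one => rw [map_one]; rfl
        | mul x y _ _ hx hy => rw [map_mul, Module.End.mul_apply, hy, hx]
        | inv x _ hx =>
          have h3 : ρ x⁻¹ (ρ x f) = f := by
            rw [← Module.End.mul_apply, ← map_mul, inv_mul_cancel, map_one]; rfl
          rw [hx] at h3
          exact h3
      have hV : ⁅V, closure ({σ, τ} : Set Γ)⁆ ≤ (⟨⟨⟨{v : V | f.1.1 v = 0}, fun {a b} ha hb => by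
          have h3 := f.1.2 a b
          rw [Set.mem_setOf_eq] at ha hb ⊢
          rw [h3, ha, hb, add_zero]⟩, homMod_one V f.1⟩, fun {a} ha => by
          rw [Set.mem_setOf_eq] at ha ⊢
          rw [homMod_inv, ha, neg_zero]⟩ : Subgroup V).map V.subtype := by
        rw [commutator_le]
        intro v hv s hs
        have hmem : s * v⁻¹ * s⁻¹ ∈ V := (inferInstance : V.Normal).conj_mem _ (V.inv_mem hv) s
        refine ⟨⟨v, hv⟩ * ⟨s * v⁻¹ * s⁻¹, hmem⟩, ?_, by simp [commutatorElement_def, mul_assoc]⟩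
        change f.1.1 (⟨v, hv⟩ * ⟨s * v⁻¹ * s⁻¹, hmem⟩) = 0
        have h3 := f.1.2 ⟨v, hv⟩ ⟨s * v⁻¹ * s⁻¹, hmem⟩
        have h4 := hfix s⁻¹ (inv_mem hs)
        have h5 := congrFun (congrArg (fun z : E => z.1.1) h4) (⟨v, hv⟩⁻¹)
        change f.1.1 (MulAut.conjNormal s⁻¹⁻¹ (⟨v, hv⟩⁻¹)) = f.1.1 (⟨v, hv⟩⁻¹) at h5
        have h6 : (MulAut.conjNormal s⁻¹⁻¹ ((⟨v, hv⟩ : V)⁻¹) : V) = ⟨s * v⁻¹ * s⁻¹, hmem⟩ := by
          apply Subtype.ext
          rw [MulAut.conjNormal_apply]
          simp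
        rw [h6, homMod_inv] at h5
        rw [h3, h5, add_neg_cancel]
      rw [D.commutator_eq hVH] at hV
      apply Subtype.ext
      apply Subtype.ext
      funext v
      obtain ⟨w, hw, hwv⟩ := hV v.2
      have h3 : w = v := Subtype.ext hwv
      rw [← h3]
      exact hw
  have hcomm := R'.comm D'
  -- hence `[H, H] ≤ C`
  have hHC : ⁅H, H⁆ ≤ C := by
    rw [commutator_le]
    intro a ha b hb
    rw [← QuotientGroup.ker_mk' C, MonoidHom.mem_ker, commutatorElement_def, map_mul, map_mul, map_mul,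
      hcomm _ (mem_map_of_mem _ ha) _ (mem_map_of_mem _ hb), map_inv, map_inv]
    group
  refine hHC.trans ?_
  -- `C` centralizes `V`
  obtain ⟨f, hf⟩ := exists_ne (0 : E)
  have hVC : ⁅V, C⁆ ≤ (⟨⟨⟨{v : V | f.1.1 v = 0}, fun {a b} ha hb => by
      have h3 := f.1.2 a b
      rw [Set.mem_setOf_eq] at ha hb ⊢
      rw [h3, ha, hb, add_zero]⟩, homMod_one V f.1⟩, fun {a} ha => by
      rw [Set.mem_setOf_eq] at ha ⊢
      rw [homMod_inv, ha, neg_zero]⟩ : Subgroup V).map V.subtype := by
    rw [commutator_le]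
    intro v hv s hs
    have hmem : s * v⁻¹ * s⁻¹ ∈ V := (inferInstance : V.Normal).conj_mem _ (V.inv_mem hv) s
    refine ⟨⟨v, hv⟩ * ⟨s * v⁻¹ * s⁻¹, hmem⟩, ?_, by simp [commutatorElement_def, mul_assoc]⟩
    change f.1.1 (⟨v, hv⟩ * ⟨s * v⁻¹ * s⁻¹, hmem⟩) = 0
    have h3 := f.1.2 ⟨v, hv⟩ ⟨s * v⁻¹ * s⁻¹, hmem⟩
    have h4 : ρ s⁻¹ f = f := by
      have : ρ s⁻¹ = 1 := (C.inv_mem hs).2
      rw [this]; rfl
    have h5 := congrFun (congrArg (fun z : E => z.1.1) h4) (⟨v, hv⟩⁻¹)
    change f.1.1 (MulAut.conjNormal s⁻¹⁻¹ (⟨v, hv⟩⁻¹)) = f.1.1 (⟨v, hv⟩⁻¹) at h5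
    have h6 : (MulAut.conjNormal s⁻¹⁻¹ ((⟨v, hv⟩ : V)⁻¹) : V) = ⟨s * v⁻¹ * s⁻¹, hmem⟩ := by
      apply Subtype.ext
      rw [MulAut.conjNormal_apply]
      simp
    rw [h6, homMod_inv] at h5
    rw [h3, h5, add_neg_cancel]
  rcases hVmin.2.2 ⁅V, C⁆ inferInstance (commutator_le_left V C) with h | h
  · rw [commutator_comm] at h
    exact commutator_eq_bot_iff_le_centralizer.mp h
  · exfalso
    apply hf
    rw [h] at hVC
    apply Subtype.ext
    apply Subtype.ext
    funext v
    obtain ⟨w, hw, hwv⟩ := hVC v.2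
    have h3 : w = v := Subtype.ext hwv
    rw [← h3]
    exact hw

end Top

section Ind

theorem main_aux : ∀ (n : ℕ) (Γ : Type u) [Group Γ] [Finite Γ] (H : Subgroup Γ) (σ τ : Γ), Nat.card H = n →
    SD H σ τ → Group.IsNilpotent (⁅H, H⁆ : Subgroup Γ) := by
  intro n
  induction n using Nat.strong_induction_on with
  | _ n ih =>
  intro Γ _ _ H σ τ hn D
  haveI := D.nor
  haveI := D.sol
  by_cases hH : H = ⊥
  · rw [hH, commutator_bot_left]
    infer_instance
  obtain ⟨V, p, hp, hVmin, hVH, hVcomm, hVp, -⟩ := CfsgLib.SolvMin.exists_minNormal_pgroup_of_solvable' H hH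
  haveI := hVmin.1
  haveI : Fact p.Prime := ⟨hp⟩
  have hVc : ∀ a ∈ V, ∀ b ∈ V, a * b = b * a := fun a ha b hb =>
    congrArg Subtype.val (hVcomm.is_comm.comm ⟨a, ha⟩ ⟨b, hb⟩)
  have h1 := D.derived_centralizes hVmin hVH hVc hVp
  have h2 : Group.IsNilpotent (⁅H.map (QuotientGroup.mk' V), H.map (QuotientGroup.mk' V)⁆ : Subgroup (Γ ⧸ V)) := by
    apply ih _ _ (Γ ⧸ V) _ _ _ rfl (D.quot V hVH)
    rw [← hn]
    have h3 := CfsgLib.SolvBasic.card_map_mk'_mul_card_of_le V H hVH
    have h4 := CfsgLib.SolvBasic.one_lt_card_of_ne_bot hVmin.2.1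
    have h5 : 0 < Nat.card (H.map (QuotientGroup.mk' V)) := Nat.card_pos
    nlinarith
  rw [← map_commutator] at h2
  haveI := h2
  refine Subgroup.isNilpotent_of_ker_le_center ((QuotientGroup.mk' V).subgroupMap ⁅H, H⁆) ?_
  intro x hx
  rw [MonoidHom.mem_ker] at hx
  have h3 : (x : Γ) ∈ V := by
    have h4 : QuotientGroup.mk' V (x : Γ) = 1 := congrArg Subtype.val hx
    rwa [← MonoidHom.mem_ker, QuotientGroup.ker_mk'] at h4
  rw [mem_center_iff]
  intro y
  have h4 := h1 y.2
  rw [mem_centralizer_iff] at h4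
  exact Subtype.ext (h4 x h3).symm

theorem main {G : Type u} [Group G] [Finite G] [Group.IsSolvable G]
    [MulDistribMulAction (Equiv.Perm (Fin 3)) G] (hcop : (Nat.card G).Coprime 6)
    (hfpf : ∀ g : G, (∀ a : Equiv.Perm (Fin 3), a • g = g) → g = 1) :
    Group.IsNilpotent ↥(commutator G) := by
  let φ : Equiv.Perm (Fin 3) →* MulAut G := MulDistribMulAction.toMulAut (Equiv.Perm (Fin 3)) G
  let Γ := G ⋊[φ] Equiv.Perm (Fin 3)
  let σ₀ : Equiv.Perm (Fin 3) := finRotate 3
  let τ₀ : Equiv.Perm (Fin 3) := Equiv.swap 0 1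
  have hall : ∀ g : Equiv.Perm (Fin 3), g = 1 ∨ g = σ₀ ∨ g = σ₀ * σ₀ ∨ g = τ₀ ∨ g = σ₀ * τ₀ ∨ g = σ₀ * σ₀ * τ₀ := by
    decide
  have hcl : ∀ g : Equiv.Perm (Fin 3), g ∈ closure ({σ₀, τ₀} : Set (Equiv.Perm (Fin 3))) := by
    intro g
    have h1 : σ₀ ∈ closure ({σ₀, τ₀} : Set (Equiv.Perm (Fin 3))) := subset_closure (by simp)
    have h2 : τ₀ ∈ closure ({σ₀, τ₀} : Set (Equiv.Perm (Fin 3))) := subset_closure (by simp)
    rcases hall g with h | h | h | h | h | h <;> rw [h]
    · exact one_mem _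
    · exact h1
    · exact mul_mem h1 h1
    · exact h2
    · exact mul_mem h1 h2
    · exact mul_mem (mul_mem h1 h1) h2
  haveI : Finite Γ := Finite.of_equiv _ (SemidirectProduct.equivProd (φ := φ)).symm
  let H : Subgroup Γ := (SemidirectProduct.inl : G →* Γ).range
  have hconj : ∀ (a : Equiv.Perm (Fin 3)) (g : G), (SemidirectProduct.inr a : Γ) * SemidirectProduct.inl g =
      SemidirectProduct.inl (a • g) * SemidirectProduct.inr a := by
    intro a g
    ext
    · simp [Γ]; rfl
    · simp [Γ]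
  have hcardH : Nat.card H = Nat.card G :=
    (Nat.card_congr (MonoidHom.ofInjective (SemidirectProduct.inl_injective (φ := φ))).toEquiv).symm
  have D : SD H (SemidirectProduct.inr σ₀) (SemidirectProduct.inr τ₀) := by
    refine ⟨?_, ?_, ?_, ?_, ?_, ?_, ?_, ?_⟩
    · rw [show H = (SemidirectProduct.rightHom : Γ →* Equiv.Perm (Fin 3)).ker from SemidirectProduct.range_inl_eq_ker_rightHom]
      infer_instance
    · exact CfsgLib.SolvBasic.isSolvable_of_mulEquiv (MonoidHom.ofInjective (SemidirectProduct.inl_injective (φ := φ)))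
    · rw [hcardH]; exact hcop
    · rw [← map_pow]
      have : σ₀ ^ 3 = 1 := by decide
      rw [this, map_one]
    · rw [← map_pow]
      have : τ₀ ^ 2 = 1 := by decide
      rw [this, map_one]
    · rw [← map_mul, ← map_mul, ← map_mul]
      have : τ₀ * σ₀ = σ₀ * σ₀ * τ₀ := by decide
      rw [this]
    · rw [eq_top_iff]
      intro x _
      have h1 : x = SemidirectProduct.inl x.left * SemidirectProduct.inr x.right := (SemidirectProduct.inl_left_mul_inr_right x).symm
      rw [h1]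
      apply mul_mem (mem_sup_left (show (SemidirectProduct.inl x.left : Γ) ∈ H from ⟨_, rfl⟩)) (mem_sup_right _)
      have h2 := mem_map_of_mem (SemidirectProduct.inr : _ →* Γ) (hcl x.right)
      rw [MonoidHom.map_closure, Set.image_pair] at h2
      exact h2
    · rintro _ ⟨g, rfl⟩ h1 h2
      rw [hconj] at h1 h2
      have h3 : ∀ a : Equiv.Perm (Fin 3), (SemidirectProduct.inl (a • g) : Γ) * SemidirectProduct.inr a =
          SemidirectProduct.inl g * SemidirectProduct.inr a → a • g = g := by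
        intro a h
        exact SemidirectProduct.inl_injective (mul_right_cancel h)
      have h4 := h3 _ h1
      have h5 := h3 _ h2
      have h6 : g = 1 := by
        apply hfpf
        have h7 : ∀ a ∈ closure ({σ₀, τ₀} : Set (Equiv.Perm (Fin 3))), a • g = g := by
          intro a ha
          have h8 : closure ({σ₀, τ₀} : Set (Equiv.Perm (Fin 3))) ≤ MulAction.stabilizer (Equiv.Perm (Fin 3)) g := by
            rw [closure_le]
            rintro x (rfl | hx)
            · exact h4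
            · rw [Set.mem_singleton_iff] at hx
              rw [hx]; exact h5
          exact h8 ha
        exact fun a => h7 a (hcl a)
      rw [h6, map_one]
  have key := main_aux _ Γ H _ _ rfl D
  have hmap : (commutator G).map (SemidirectProduct.inl : G →* Γ) = ⁅H, H⁆ := by
    rw [_root_.commutator_def, map_commutator, ← MonoidHom.range_eq_map]
  rw [← hmap] at key
  haveI := key
  refine Subgroup.isNilpotent_of_ker_le_center ((SemidirectProduct.inl : G →* Γ).subgroupMap (commutator G)) ?_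
  intro a ha
  rw [MonoidHom.mem_ker] at ha
  have h1 : (SemidirectProduct.inl (a : G) : Γ) = 1 := congrArg Subtype.val ha
  have h2 : (a : G) = 1 := SemidirectProduct.inl_injective (h1.trans (map_one _).symm)
  have h3 : a = 1 := Subtype.ext h2
  rw [h3]
  exact one_mem _

end Ind

end CfsgLib.H7S3
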