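import Cfsg.Agent.EqBase
import Mathlib
import Cfsg.Agent.LibPSolv19
import Cfsg.Agent.LibMinNonPC
import Cfsg.Agent.LibBGPi
import Cfsg.Agent.LibBGCop

set_option autoImplicit false

/-!
* `centralizer_pPrimeCore_le`: in a `p`-soluble group with `O_p = 1` the subgroup `O_{p'}` contains its centraliser.
* `frob_norm`: the norm argument for Frobenius-type actions.
-/

namespace CfsgLib.HHNorm

open Subgroup Cfsg CfsgLib.BGPi
open scoped commutatorElement

/-- in a `p`-closed normal subgroup the Sylow subgroup is normal in the whole group -/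
theorem exists_normal_sylow {G : Type*} [Group G] [Finite G] {p : ℕ} [Fact p.Prime] (K : Subgroup G)
    [K.Normal] (h : IsPClosed p K) : ∃ R : Subgroup G, R.Normal ∧ R ≤ K ∧ IsPGroup p R ∧ ¬ p ∣ R.relIndex K := by
  obtain ⟨Q⟩ : Nonempty (Sylow p K) := inferInstance
  haveI := Sylow.characteristic_of_normal Q (h Q)
  refine ⟨(Q : Subgroup K).map K.subtype, inferInstance, Subgroup.map_subtype_le _, ?_, ?_⟩
  · exact Q.isPGroup'.map _
  · have h2 : ((Q : Subgroup K).map K.subtype).relIndex K = (Q : Subgroup K).index := by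
      rw [Subgroup.relIndex, Subgroup.subgroupOf, Subgroup.comap_map_eq_self_of_injective K.subtype_injective]
    rw [h2]
    exact Q.not_dvd_index

theorem centralizer_pPrimeCore_le {p : ℕ} [hp : Fact p.Prime] {G : Type*} [Group G] [Finite G]
    (h : IsPSolvable p G) (hO : pCore p G = ⊥) :
    Subgroup.centralizer (pPrimeCore p G : Set G) ≤ pPrimeCore p G := by
  haveI : (pPrimeCore p G).Normal := inferInstance
  haveI : (Subgroup.centralizer (pPrimeCore p G : Set G)).Normal := inferInstance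
  by_contra hcon
  set O := pPrimeCore p G with hOdef
  set C := Subgroup.centralizer (O : Set G) with hC
  set Z := C ⊓ O with hZdef
  haveI : Z.Normal := inferInstance
  have hOc : (Nat.card O).Coprime p := CfsgLib.Cores.pPrimeCore_coprime p
  have hZc : (Nat.card Z).Coprime p := Nat.Coprime.coprime_dvd_left (Subgroup.card_dvd_of_le inf_le_right) hOc
  have hC' : C.map (QuotientGroup.mk' Z) ≠ ⊥ := by
    intro hb
    rw [Subgroup.map_eq_bot_iff, QuotientGroup.ker_mk'] at hb
    exact hcon (hb.trans inf_le_right)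
  haveI : (C.map (QuotientGroup.mk' Z)).Normal := Subgroup.Normal.map inferInstance _ (QuotientGroup.mk'_surjective Z)
  obtain ⟨K', hK'n, hK'0, hK'C, hmin⟩ := CfsgLib.PSolv19.exists_min (C.map (QuotientGroup.mk' Z)) hC'
  set K := K'.comap (QuotientGroup.mk' Z) with hKdef
  haveI hKn : K.Normal := hK'n.comap _
  have hZK : Z ≤ K := by
    intro z hz
    rw [hKdef, Subgroup.mem_comap]
    have : QuotientGroup.mk' Z z = 1 := (QuotientGroup.eq_one_iff z).2 hz
    rw [this]; exact one_mem _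
  have hKC : K ≤ C := by
    have h1 : K ≤ (C.map (QuotientGroup.mk' Z)).comap (QuotientGroup.mk' Z) := Subgroup.comap_mono hK'C
    rw [Subgroup.comap_map_eq, QuotientGroup.ker_mk'] at h1
    exact h1.trans (sup_le le_rfl inf_le_left)
  have hcardK : Nat.card K = Nat.card Z * Nat.card K' := CfsgLib.Cores.card_comap_mk Z K'
  have hmapK : K.map (QuotientGroup.mk' Z) = K' :=
    Subgroup.map_comap_eq_self_of_surjective (QuotientGroup.mk'_surjective Z) K'
  rcases CfsgLib.PSolv19.psolv_minNormal (CfsgLib.PSolv19.psolv_quotient hp.out h Z) hK'n hK'0 hmin with h1 | h1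
  · -- `K / Z` is a `p`-group, `Z` central in `K`
    have hcl : IsPClosed p K := by
      intro P
      have hidx : (Z.subgroupOf K).index = Nat.card K' := by
        have h2 := Subgroup.card_mul_index (Z.subgroupOf K)
        rw [Nat.card_congr (Subgroup.subgroupOfEquivOfLe hZK).toEquiv, hcardK] at h2
        exact Nat.eq_of_mul_eq_mul_left Nat.card_pos h2
      obtain ⟨n, hn⟩ := IsPGroup.iff_card.mp h1
      haveI : (Z.subgroupOf K).Normal := inferInstance
      have hPZ : (P : Subgroup K) ⊔ Z.subgroupOf K = ⊤ := by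
        have e1 : ((P : Subgroup K) ⊔ Z.subgroupOf K).index ∣ p ^ n := by
          rw [← hn, ← hidx]; exact Subgroup.index_dvd_of_le le_sup_right
        have e2 : ((P : Subgroup K) ⊔ Z.subgroupOf K).index ∣ (P : Subgroup K).index :=
          Subgroup.index_dvd_of_le le_sup_left
        rw [← Subgroup.index_eq_one]
        have e3 : Nat.Coprime (p ^ n) (P : Subgroup K).index :=
          Nat.Coprime.pow_left n ((hp.out.coprime_iff_not_dvd).mpr P.not_dvd_index)
        exact Nat.eq_one_of_dvd_coprimes e3 e1 e2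
      refine ⟨fun u hu g => ?_⟩
      have hg : g ∈ (P : Subgroup K) ⊔ Z.subgroupOf K := by rw [hPZ]; trivial
      obtain ⟨v, hv, m, hm, rfl⟩ := Subgroup.mem_sup_of_normal_right.mp hg
      have hmu : m * u = u * m := by
        apply Subtype.ext
        have e1 : (u : G) ∈ C := hKC u.2
        have e2 : (m : G) ∈ O := (Subgroup.mem_subgroupOf.mp hm).2
        exact (Subgroup.mem_centralizer_iff.mp e1 m e2)
      have h2 : v * m * u * (v * m)⁻¹ = v * u * v⁻¹ := by
        have : v * m * u * (v * m)⁻¹ = v * (m * u) * m⁻¹ * v⁻¹ := by group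
        rw [this, hmu]; group
      rw [h2]
      exact Subgroup.mul_mem _ (Subgroup.mul_mem _ hv hu) (Subgroup.inv_mem _ hv)
    obtain ⟨R, hR, hRK, hRp, hRi⟩ := exists_normal_sylow K hcl
    have hR1 : R = ⊥ := by
      rw [eq_bot_iff, ← hO]
      exact CfsgLib.Cores.le_pCore hR hRp
    rw [hR1, Subgroup.relIndex_bot_left, hcardK] at hRi
    apply hRi
    obtain ⟨n, hn⟩ := IsPGroup.iff_card.mp h1
    have hn0 : n ≠ 0 := by
      rintro rfl
      rw [pow_zero] at hn
      exact hK'0 (Subgroup.card_eq_one.mp hn)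
    rw [hn]
    exact (dvd_pow_self p hn0).trans (Dvd.intro_left _ rfl)
  · have h2 : (Nat.card K).Coprime p := by
      rw [hcardK]
      exact Nat.Coprime.mul_left hZc ((Nat.coprime_comm).mp ((hp.out.coprime_iff_not_dvd).mpr h1))
    have h3 : K ≤ O := CfsgLib.Cores.le_pPrimeCore hKn h2
    have h4 : K ≤ Z := le_inf hKC h3
    apply hK'0
    rw [← hmapK, Subgroup.map_eq_bot_iff, QuotientGroup.ker_mk']
    exact h4

/-- The norm argument. -/
theorem frob_norm {X B : Type*} [Group X] [CommGroup B] (ρ : X →* Monoid.End B) (A : Subgroup X) [Finite A]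
    (g : X) (m : ℕ) (hm : 0 < m) (hg : ∀ a ∈ A, g * a * g⁻¹ ∈ A)
    (hfree : ∀ i, 0 < i → i < m → ∀ a ∈ A, g ^ i * a = a * g ^ i → a = 1)
    (hnorm : ∀ v : B, ∏ i ∈ Finset.range m, ρ (g ^ i) v = 1) :
    ∀ a ∈ A, ∀ v : B, ρ a (v ^ Nat.card A) = v ^ Nat.card A := by
  classical
  haveI := Fintype.ofFinite A
  have hgi : ∀ i : ℕ, ∀ a ∈ A, g ^ i * a * (g ^ i)⁻¹ ∈ A := by
    intro i
    induction i with
    | zero => intro a ha; simpa using ha
    | succ n ih =>
      intro a ha
      have h1 := hg _ (ih a ha)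
      have h2 : g ^ (n + 1) * a * (g ^ (n + 1))⁻¹ = g * (g ^ n * a * (g ^ n)⁻¹) * g⁻¹ := by
        rw [pow_succ']; group
      rw [h2]; exact h1
  let S : B → B := fun w => ∏ a : A, ρ (a : X) w
  have hS : ∀ a ∈ A, ∀ w, ρ a (S w) = S w := by
    intro a ha w
    show ρ a (∏ b : A, ρ (b : X) w) = ∏ b : A, ρ (b : X) w
    rw [map_prod]
    rw [← Equiv.prod_comp (Equiv.mulLeft (⟨a, ha⟩ : A)) (fun b : A => ρ (b : X) w)]
    apply Finset.prod_congr rfl
    intro b _
    show ρ a (ρ (b : X) w) = ρ (a * (b : X)) w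
    rw [map_mul]; rfl
  -- bijection
  have hbij : ∀ i, 0 < i → i < m → Function.Bijective
      (fun f : A => (⟨(f : X) * (g ^ i * (f : X)⁻¹ * (g ^ i)⁻¹), A.mul_mem f.2 (hgi i _ (A.inv_mem f.2))⟩ : A)) := by
    intro i hi him
    apply Function.Injective.bijective_of_finite
    intro f f' hff
    have h1 : (f : X) * (g ^ i * (f : X)⁻¹ * (g ^ i)⁻¹) = (f' : X) * (g ^ i * (f' : X)⁻¹ * (g ^ i)⁻¹) :=
      congrArg Subtype.val hff
    have h2 := hfree i hi him ((f' : X)⁻¹ * f) (A.mul_mem (A.inv_mem f'.2) f.2) (by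
      have h3 : (f' : X)⁻¹ * ((f : X) * (g ^ i * (f : X)⁻¹ * (g ^ i)⁻¹)) * (g ^ i * f) =
          (f' : X)⁻¹ * ((f' : X) * (g ^ i * (f' : X)⁻¹ * (g ^ i)⁻¹)) * (g ^ i * f) := by rw [h1]
      have h4 : (f' : X)⁻¹ * ((f : X) * (g ^ i * (f : X)⁻¹ * (g ^ i)⁻¹)) * (g ^ i * f) = (f' : X)⁻¹ * f * g ^ i := by
        group
      have h5 : (f' : X)⁻¹ * ((f' : X) * (g ^ i * (f' : X)⁻¹ * (g ^ i)⁻¹)) * (g ^ i * f) =
          g ^ i * ((f' : X)⁻¹ * f) := by group
      rw [h4, h5] at h3
      exact h3.symm)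
    apply Subtype.ext
    exact (inv_mul_eq_one.mp h2).symm
  intro a ha v
  have h1 : ∏ f : A, ρ (f : X) (∏ i ∈ Finset.range m, ρ (g ^ i) (ρ ((f : X)⁻¹) v)) = 1 := by
    apply Finset.prod_eq_one
    intro f _
    rw [hnorm, map_one]
  have h2 : ∏ f : A, ρ (f : X) (∏ i ∈ Finset.range m, ρ (g ^ i) (ρ ((f : X)⁻¹) v)) =
      ∏ i ∈ Finset.range m, ∏ f : A, ρ ((f : X) * g ^ i * (f : X)⁻¹) v := by
    have h0 : ∏ f : A, ρ (f : X) (∏ i ∈ Finset.range m, ρ (g ^ i) (ρ ((f : X)⁻¹) v)) =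
        ∏ f : A, ∏ i ∈ Finset.range m, ρ ((f : X) * g ^ i * (f : X)⁻¹) v := by
      apply Finset.prod_congr rfl
      intro f _
      rw [map_prod]
      apply Finset.prod_congr rfl
      intro i _
      rw [map_mul, map_mul]; rfl
    rw [h0]
    exact Finset.prod_comm
  rw [h1] at h2
  obtain ⟨m', rfl⟩ : ∃ m', m = m' + 1 := ⟨m - 1, by omega⟩
  rw [Finset.prod_range_succ'] at h2
  have h3 : ∏ f : A, ρ ((f : X) * g ^ 0 * (f : X)⁻¹) v = v ^ Nat.card A := by
    have : ∀ f : A, ρ ((f : X) * g ^ 0 * (f : X)⁻¹) v = v := by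
      intro f
      rw [pow_zero, mul_one, mul_inv_cancel, map_one]; rfl
    rw [Finset.prod_congr rfl (fun f _ => this f), Finset.prod_const, Finset.card_univ, Nat.card_eq_fintype_card]
  have h4 : ∀ i ∈ Finset.range m', ∏ f : A, ρ ((f : X) * g ^ (i + 1) * (f : X)⁻¹) v =
      S (ρ (g ^ (i + 1)) v) := by
    intro i hi
    rw [Finset.mem_range] at hi
    have hb := hbij (i + 1) (by omega) (by omega)
    have h5 : ∀ f : A, ρ ((f : X) * g ^ (i + 1) * (f : X)⁻¹) v =
        ρ ((f : X) * (g ^ (i + 1) * (f : X)⁻¹ * (g ^ (i + 1))⁻¹)) (ρ (g ^ (i + 1)) v) := by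
      intro f
      have h6 : (f : X) * g ^ (i + 1) * (f : X)⁻¹ =
          ((f : X) * (g ^ (i + 1) * (f : X)⁻¹ * (g ^ (i + 1))⁻¹)) * g ^ (i + 1) := by group
      rw [h6, map_mul]; rfl
    rw [Finset.prod_congr rfl (fun f _ => h5 f)]
    exact Fintype.prod_bijective _ hb _ _ (fun f => rfl)
  rw [h3, Finset.prod_congr rfl h4] at h2
  have h7 : v ^ Nat.card A = (∏ i ∈ Finset.range m', S (ρ (g ^ (i + 1)) v))⁻¹ := by
    rw [eq_comm, inv_eq_iff_mul_eq_one]
    exact h2.symm
  rw [h7, map_inv, map_prod]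
  congr 1
  apply Finset.prod_congr rfl
  intro i _
  exact hS a ha _

end CfsgLib.HHNorm
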