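import Cfsg.Agent.LibHHBInd
import Cfsg.Agent.LibHHNorm
import Cfsg.Agent.LibCoprime

set_option autoImplicit false

/-!
Hall-Higman theorem B over arbitrary fields (helper4).
-/

namespace CfsgLib.HHB

open Module CfsgLib.HHBMain CfsgLib.HHBExt Cfsg
open scoped TensorProduct

theorem baseChange_inj {F : Type*} [Field F] {V : Type*} [AddCommGroup V] [Module F V] (K : Type*) [Field K]
    [Algebra F K] (f g : End F V) (h : Module.End.baseChangeHom F K V f = Module.End.baseChangeHom F K V g) : f = g := by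
  ext v
  have h1 := congrArg (fun k : End K (K ⊗[F] V) => k (1 ⊗ₜ v)) h
  have h2 : (1 : K) ⊗ₜ[F] (f v) = (1 : K) ⊗ₜ[F] (g v) := h1
  exact Module.Flat.tensorProduct_mk_injective F V K h2

/-- Theorem B, representation version -/
theorem thmB {F : Type*} [Field F] {p : ℕ} [hpf : Fact p.Prime] [CharP F p] {q : ℕ} [hqf : Fact q.Prime]
    (hqp : p.Coprime q) {V : Type*} [AddCommGroup V] [Module F V] [FiniteDimensional F V]
    {G : Type*} [Group G] (ρ : G →* End F V) (Q : Subgroup G) [Finite Q] (hQ : IsPGroup q Q) (g : G)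
    (hg : g ∈ Subgroup.normalizer (Q : Set G)) (n : ℕ) (hn : 1 ≤ n) (hgn : g ^ p ^ n = 1)
    (hnt : ∃ x ∈ Q, ρ (g ^ p ^ (n - 1) * x * (g ^ p ^ (n - 1))⁻¹) ≠ ρ x) (r : ℕ) (hr : (ρ g - 1) ^ r = 0) :
    Concl p q Q n r := by
  let K := AlgebraicClosure F
  haveI : CharP K p := charP_of_injective_algebraMap (algebraMap F K).injective p
  let ρ' : Q →* End K (K ⊗[F] V) := (Module.End.baseChangeHom F K V : End F V →* End K (K ⊗[F] V)).comp (ρ.comp Q.subtype)
  have hρ' : ∀ x : Q, ρ' x = Module.End.baseChangeHom F K V (ρ x) := fun x => rfl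
  have hgm := Subgroup.mem_normalizer_iff.1 hg
  let σ : MulAut Q :=
    { toFun := fun x => ⟨g * x * g⁻¹, (hgm x).1 x.2⟩
      invFun := fun x => ⟨g⁻¹ * x * g, by
        rw [hgm]
        have : g * (g⁻¹ * x * g) * g⁻¹ = x := by group
        rw [this]; exact x.2⟩
      left_inv := fun x => Subtype.ext (by show g⁻¹ * (g * x * g⁻¹) * g = x; group)
      right_inv := fun x => Subtype.ext (by show g * (g⁻¹ * x * g) * g⁻¹ = x; group)
      map_mul' := fun x y => Subtype.ext (by show g * (x * y) * g⁻¹ = (g * x * g⁻¹) * (g * y * g⁻¹); group) }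
  have hσ : ∀ (k : ℕ) (x : Q), (((σ ^ k) x : Q) : G) = g ^ k * x * (g ^ k)⁻¹ := by
    intro k
    induction k with
    | zero => intro x; simp
    | succ k ih =>
      intro x
      rw [pow_succ, MulAut.mul_apply, ih]
      show g ^ k * (g * x * g⁻¹) * (g ^ k)⁻¹ = _
      rw [pow_succ]; group
  have hcfg : Cfg p q ρ' σ (Module.End.baseChangeHom F K V (ρ g)) n r := by
    refine ⟨hn, ?_, ?_, hQ, ?_, ?_⟩
    · intro x
      rw [hρ', hρ', ← map_mul, ← map_mul, ← map_mul, ← map_mul]
      congr 2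
      show g * x = g * x * g⁻¹ * g
      group
    · rw [← map_pow, ← map_pow, hgn, map_one, map_one]
    · obtain ⟨x, hx, hxx⟩ := hnt
      refine ⟨⟨x, hx⟩, fun he => hxx ?_⟩
      rw [hρ', hρ', hσ] at he
      exact baseChange_inj K _ _ he
    · have h1 : Module.End.baseChangeHom F K V (ρ g) - 1 = Module.End.baseChangeHom F K V (ρ g - 1) := by
        show (ρ g).baseChange K - 1 = (ρ g - 1).baseChange K
        rw [LinearMap.baseChange_sub, LinearMap.baseChange_one]
      rw [h1, ← map_pow, hr, map_zero]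
  exact CfsgLib.HHBMain.main hqp (Nat.card Q + finrank K (K ⊗[F] V)) Q (K ⊗[F] V) ρ' σ _ n r hcfg le_rfl

/-- in a `p`-soluble group with `O_p = 1`, an element of order `p^n` has `x^(p^(n-1))` acting non-trivially on
an `x`-invariant Sylow subgroup of `O_{p'}` -/
theorem exists_q {H : Type*} [Group H] [Finite H] {p : ℕ} [hpf : Fact p.Prime] (hsol : IsPSolvable p H)
    (hOp : pCore p H = ⊥) (x : H) (n : ℕ) (hn : 1 ≤ n) (hx : orderOf x = p ^ n) :
    ∃ (q : ℕ) (Q : Subgroup H), q.Prime ∧ p ≠ q ∧ IsPGroup q Q ∧ Q ≤ pPrimeCore p H ∧ x ∈ Subgroup.normalizer (Q : Set H) ∧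
      ∃ y ∈ Q, x ^ p ^ (n - 1) * y * (x ^ p ^ (n - 1))⁻¹ ≠ y := by
  have hp := hpf.out
  set K := pPrimeCore p H with hK
  have hKc : (Nat.card K).Coprime p := CfsgLib.Cores.pPrimeCore_coprime p
  set x₁ := x ^ p ^ (n - 1) with hx₁
  have hx₁p : orderOf x₁ = p := by
    rw [hx₁, orderOf_pow, hx, Nat.gcd_eq_right (pow_dvd_pow p (Nat.sub_le _ _)), Nat.pow_div (Nat.sub_le _ _) hp.pos]
    have : n - (n - 1) = 1 := by omega
    rw [this, pow_one]
  have hncent : x₁ ∉ Subgroup.centralizer (K : Set H) := by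
    intro hc
    have h1 := CfsgLib.HHNorm.centralizer_pPrimeCore_le hsol hOp hc
    have h2 : orderOf x₁ ∣ Nat.card K := by
      rw [← Subgroup.orderOf_mk x₁ h1]
      exact orderOf_dvd_natCard _
    rw [hx₁p] at h2
    exact hp.one_lt.ne' (Nat.dvd_one.1 (hKc ▸ Nat.dvd_gcd h2 dvd_rfl))
  set A := Subgroup.zpowers x with hA
  have hAp : IsPGroup p A := by
    apply IsPGroup.of_card (n := n)
    rw [hA, Nat.card_zpowers, hx]
  have hcop : (Nat.card A).Coprime (Nat.card K) := by
    rw [hA, Nat.card_zpowers, hx]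
    exact Nat.Coprime.pow_left n hKc.symm
  haveI : K.Normal := inferInstance
  have hAK : A ≤ Subgroup.normalizer (K : Set H) := by
    rw [Subgroup.normalizer_eq_top]; exact le_top
  have hAs : Group.IsSolvable A := by
    haveI := hAp.isNilpotent
    infer_instance
  by_contra hcon
  push Not at hcon
  apply hncent
  -- K centralises x₁
  set C := (Subgroup.centralizer ({x₁} : Set H)).subgroupOf K with hC
  have hCtop : C = ⊤ := by
    rw [← Subgroup.index_eq_one]
    by_contra hne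
    obtain ⟨q, hq, hqd⟩ := Nat.exists_prime_and_dvd hne
    haveI : Fact q.Prime := ⟨hq⟩
    obtain ⟨P, hP⟩ := CfsgLib.Coprime.exists_invariant_sylow hAK hcop (Or.inl hAs) q
    have hpq : p ≠ q := by
      rintro rfl
      have h1 : p ∣ Nat.card K := hqd.trans (Subgroup.index_dvd_card _)
      exact hp.one_lt.ne' (Nat.dvd_one.1 (hKc ▸ Nat.dvd_gcd h1 dvd_rfl))
    have h1 := hcon q ((P : Subgroup K).map K.subtype) hq hpq (P.isPGroup'.map _) (Subgroup.map_subtype_le _)
      (hP (Subgroup.mem_zpowers x))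
    have h2 : (P : Subgroup K) ≤ C := by
      intro y hy
      rw [hC, Subgroup.mem_subgroupOf, Subgroup.mem_centralizer_iff]
      rintro _ rfl
      have h3 := h1 (y : H) ⟨y, hy, rfl⟩
      calc x₁ * (y : H) = (x₁ * y * x₁⁻¹) * x₁ := by group
        _ = _ := by rw [h3]
    exact P.not_dvd_index (hqd.trans (Subgroup.index_dvd_of_le h2))
  rw [Subgroup.mem_centralizer_iff]
  intro y hy
  have h3 : (⟨y, hy⟩ : K) ∈ C := hCtop ▸ Subgroup.mem_top _
  rw [hC, Subgroup.mem_subgroupOf, Subgroup.mem_centralizer_iff] at h3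
  exact (h3 x₁ rfl).symm

end CfsgLib.HHB
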