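import Cfsg.Agent.LibHHBLin

set_option autoImplicit false

/-!
The critical "extraspecial" case of the Hall-Higman theorem B (helper4).
-/

namespace CfsgLib.HHBExt

open Module
open scoped commutatorElement

section Orbits

variable {F : Type*} [Field F] {X : Type*} [Finite X]

theorem ker_le_orbits {E : Type*} [AddCommGroup E] [Module F E] (b : Basis X F E) (Φ : E →ₗ[F] E)
    (π : Equiv.Perm X) (μ : X → F) (h : ∀ c, Φ (b c) = μ c • b (π c)) :
    finrank F (LinearMap.ker (Φ - 1)) ≤ Nat.card (MulAction.orbitRel.Quotient (Subgroup.zpowers π) X) := by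
  classical
  haveI := Fintype.ofFinite X
  have h1 : ∀ e c, b.repr (Φ e) (π c) = μ c * b.repr e c := by
    intro e c
    have : (Finsupp.lapply (π c)).comp (b.repr.toLinearMap.comp Φ) = μ c • (Finsupp.lapply c).comp b.repr.toLinearMap := by
      apply b.ext
      intro i
      simp only [LinearMap.comp_apply, LinearEquiv.coe_coe, Finsupp.lapply_apply, h, map_smul, Basis.repr_self,
        LinearMap.smul_apply, Finsupp.smul_apply, smul_eq_mul, Finsupp.single_apply, π.injective.eq_iff]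
      by_cases hi : i = c
      · simp [hi]
      · simp [hi]
    exact congrArg (fun f => f e) this
  have h2 : ∀ e ∈ LinearMap.ker (Φ - 1), ∀ c, b.repr e c = 0 → ∀ k : ℕ, b.repr e ((π ^ k) c) = 0 := by
    intro e he c hc k
    rw [LinearMap.mem_ker, LinearMap.sub_apply, Module.End.one_apply, sub_eq_zero] at he
    induction k with
    | zero => simpa using hc
    | succ k ih =>
      rw [pow_succ', Equiv.Perm.mul_apply, ← he, h1, ih, mul_zero]
  let Ω := MulAction.orbitRel.Quotient (Subgroup.zpowers π) X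
  let Ψ : LinearMap.ker (Φ - 1) →ₗ[F] (Ω → F) :=
    { toFun := fun e o => b.repr e.1 (Quotient.out o)
      map_add' := by intro x y; funext o; simp
      map_smul' := by intro c x; funext o; simp }
  have hΨ : Function.Injective Ψ := by
    rw [injective_iff_map_eq_zero]
    rintro ⟨e, he⟩ hz
    apply Subtype.ext
    show e = 0
    apply b.repr.injective
    rw [map_zero]
    ext c
    rw [Finsupp.zero_apply]
    have h3 : b.repr e (Quotient.out (Quotient.mk'' c : Ω)) = 0 := congrFun hz (Quotient.mk'' c)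
    have h4 : Quotient.mk'' (Quotient.out (Quotient.mk'' c : Ω)) = (Quotient.mk'' c : Ω) := Quotient.out_eq' _
    have h5 : c ∈ MulAction.orbit (Subgroup.zpowers π) (Quotient.out (Quotient.mk'' c : Ω)) := by
      exact MulAction.orbitRel_apply.1 (Quotient.exact h4.symm)
    obtain ⟨⟨g, hg⟩, hgc⟩ := h5
    rw [← mem_powers_iff_mem_zpowers] at hg
    obtain ⟨k, rfl⟩ := hg
    have h6 := h2 e he _ h3 k
    have h7 : (π ^ k) (Quotient.out (Quotient.mk'' c : Ω)) = c := hgc
    rwa [h7] at h6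
  haveI : Fintype Ω := Fintype.ofFinite _
  have := LinearMap.finrank_le_finrank_of_injective hΨ
  rw [finrank_fintype_fun_eq_card, ← Nat.card_eq_fintype_card] at this
  exact this

theorem orbits_count (π : Equiv.Perm X) (x₀ : X) (d : ℕ) (hd : 0 < d) (hπ : π ^ d = 1) (hfix : π x₀ = x₀)
    (h : ∀ k, 0 < k → k < d → ∀ x, (π ^ k) x = x → x = x₀) (hX : ∃ x, x ≠ x₀) :
    Nat.card (MulAction.orbitRel.Quotient (Subgroup.zpowers π) X) * d = Nat.card X + (d - 1) := by
  classical
  haveI := Fintype.ofFinite X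
  have hord : orderOf π = d := by
    have h1 := orderOf_dvd_of_pow_eq_one hπ
    have h2 := Nat.le_of_dvd hd h1
    rcases h2.eq_or_lt with h3 | h3
    · exact h3
    · obtain ⟨x, hx⟩ := hX
      exact absurd (h (orderOf π) (orderOf_pos π) h3 x (by rw [pow_orderOf_eq_one]; rfl)) hx
  set Γ := Subgroup.zpowers π with hΓ
  haveI : Fintype Γ := Fintype.ofFinite _
  haveI : Fintype (MulAction.orbitRel.Quotient Γ X) := Fintype.ofFinite _
  have hcard : Fintype.card Γ = d := by
    rw [← Nat.card_eq_fintype_card, hΓ, Nat.card_zpowers, hord]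
  have key := MulAction.sum_card_fixedBy_eq_card_orbits_mul_card_group Γ X
  rw [hcard] at key
  have h1 : ∀ g : Γ, g ≠ 1 → Fintype.card (MulAction.fixedBy X g) = 1 := by
    intro g hg
    obtain ⟨g, hgm⟩ := g
    have hgm' := hgm
    rw [hΓ, ← mem_powers_iff_mem_zpowers] at hgm
    obtain ⟨k, hk⟩ := hgm
    have hk2 : π ^ (k % d) = g := by
      rw [← hk]
      show π ^ (k % d) = π ^ k
      rw [← hord, pow_mod_orderOf]
    have hpos : 0 < k % d := by
      rw [Nat.pos_iff_ne_zero]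
      intro h0
      rw [h0, pow_zero] at hk2
      exact hg (Subtype.ext hk2.symm)
    have hlt : k % d < d := Nat.mod_lt _ hd
    rw [Fintype.card_eq_one_iff]
    have hfixk : ∀ j : ℕ, (π ^ j) x₀ = x₀ := by
      intro j
      induction j with
      | zero => rfl
      | succ j ih => rw [pow_succ, Equiv.Perm.mul_apply, hfix, ih]
    refine ⟨⟨x₀, ?_⟩, ?_⟩
    · show g x₀ = x₀
      rw [← hk2]; exact hfixk _
    · rintro ⟨x, hx⟩
      apply Subtype.ext
      apply h _ hpos hlt x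
      rw [hk2]
      exact hx
  have h2 : ∑ g : Γ, Fintype.card (MulAction.fixedBy X g) = Nat.card X + (d - 1) := by
    rw [← Finset.add_sum_erase Finset.univ _ (Finset.mem_univ (1 : Γ))]
    congr 1
    · rw [← Nat.card_eq_fintype_card]
      apply Nat.card_congr
      exact (Equiv.subtypeUnivEquiv (fun x => by show (1 : Γ) • x = x; rw [one_smul]))
    · rw [Finset.sum_congr rfl (fun g hg => h1 g (Finset.ne_of_mem_erase hg)), Finset.sum_const, smul_eq_mul, mul_one,
        Finset.card_erase_of_mem (Finset.mem_univ _), Finset.card_univ, hcard]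
  rw [h2] at key
  rw [Nat.card_eq_fintype_card]
  exact key.symm

end Orbits

section Dat

variable {F : Type*} [Field F] {Q : Type*} [Group Q] {U : Type*} [AddCommGroup U] [Module F U]

/-- commutation data -/
structure Dat (ρ : Q →* End F U) (A : Subgroup Q) : Prop where
  sc : ∀ a ∈ A, ∃ c : F, ρ a = c • (1 : End F U)
  comm : ∀ x y : Q, ⁅x, y⁆ ∈ A
  nd : ∀ x, (∀ y, ρ (x * y) = ρ (y * x)) → x ∈ A

variable {ρ : Q →* End F U} {A : Subgroup Q}

open Classical in
/-- the scalar -/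
noncomputable def lam (ρ : Q →* End F U) (x : Q) : F := if h : ∃ c : F, ρ x = c • (1 : End F U) then h.choose else 0

theorem Dat.lam_spec (hD : Dat ρ A) {a : Q} (ha : a ∈ A) : ρ a = lam ρ a • (1 : End F U) := by
  have h := hD.sc a ha
  rw [lam, dif_pos h]
  exact h.choose_spec

theorem smul_rho_inj [Nontrivial U] {c c' : F} {x : Q} (h : c • ρ x = c' • ρ x) : c = c' := by
  have h1 := congrArg (fun f => f * ρ x⁻¹) h
  simp only [smul_mul_assoc, ← map_mul, mul_inv_cancel, map_one] at h1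
  obtain ⟨v, hv⟩ := exists_ne (0 : U)
  have h2 := congrArg (fun f : End F U => f v) h1
  simp only [LinearMap.smul_apply, Module.End.one_apply] at h2
  exact smul_left_injective F hv h2

theorem smul_one_inj [Nontrivial U] {c c' : F} (h : c • (1 : End F U) = c' • 1) : c = c' := by
  obtain ⟨v, hv⟩ := exists_ne (0 : U)
  have h2 := congrArg (fun f : End F U => f v) h
  simp only [LinearMap.smul_apply, Module.End.one_apply] at h2
  exact smul_left_injective F hv h2

theorem Dat.lam_ne [Nontrivial U] (hD : Dat ρ A) {a : Q} (ha : a ∈ A) : lam ρ a ≠ 0 := by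
  intro h
  have h1 := hD.lam_spec ha
  rw [h, zero_smul] at h1
  have h2 : ρ (a * a⁻¹) = 0 := by rw [map_mul, h1, zero_mul]
  rw [mul_inv_cancel, map_one] at h2
  exact one_ne_zero h2

/-- the commutator form -/
noncomputable def w (ρ : Q →* End F U) (x y : Q) : F := lam ρ ⁅x, y⁆

theorem Dat.w_spec (hD : Dat ρ A) (x y : Q) : ρ x * ρ y = w ρ x y • (ρ y * ρ x) := by
  have h1 : x * y = ⁅x, y⁆ * (y * x) := by rw [commutatorElement_def]; group
  rw [← map_mul, h1, map_mul, hD.lam_spec (hD.comm x y), smul_mul_assoc, one_mul, map_mul]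
  rfl

theorem Dat.w_mul [Nontrivial U] (hD : Dat ρ A) (x y z : Q) : w ρ (x * y) z = w ρ x z * w ρ y z := by
  have h1 := hD.w_spec (x * y) z
  have h2 : ρ (x * y) * ρ z = (w ρ x z * w ρ y z) • (ρ z * ρ (x * y)) := by
    rw [map_mul, mul_assoc, hD.w_spec y z, mul_smul_comm, ← mul_assoc, hD.w_spec x z, smul_mul_assoc, smul_smul,
      mul_comm (w ρ x z), mul_assoc]
  rw [h1, ← map_mul] at h2
  exact smul_rho_inj h2

theorem Dat.w_one [Nontrivial U] (hD : Dat ρ A) {z : Q} (hz : z ∈ A) (x : Q) : w ρ x z = 1 := by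
  have h1 := hD.w_spec x z
  rw [hD.lam_spec hz, mul_smul_comm, mul_one, smul_mul_assoc, one_mul, smul_smul] at h1
  have h2 := smul_rho_inj h1
  have h3 := hD.lam_ne hz
  field_simp at h2
  exact h2.symm

theorem Dat.w_one' [Nontrivial U] (hD : Dat ρ A) {z : Q} (hz : z ∈ A) (x : Q) : w ρ z x = 1 := by
  have h1 := hD.w_spec z x
  rw [hD.lam_spec hz, mul_smul_comm, mul_one, smul_mul_assoc, one_mul, smul_smul] at h1
  have h2 := smul_rho_inj h1
  have h3 := hD.lam_ne hz
  field_simp at h2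
  exact h2.symm

variable [Fintype Q]

theorem Dat.sum_w [Nontrivial U] (hD : Dat ρ A) {z : Q} (hz : z ∉ A) : ∑ y, w ρ y z = 0 := by
  have h1 : ∃ y, w ρ y z ≠ 1 := by
    by_contra hcon
    push Not at hcon
    apply hz
    apply hD.nd
    intro y
    rw [map_mul, map_mul, hD.w_spec y z, hcon, one_smul]
  obtain ⟨y₀, hy₀⟩ := h1
  have h2 : ∑ y, w ρ y z = w ρ y₀ z * ∑ y, w ρ y z := by
    rw [Finset.mul_sum]
    conv_lhs => rw [← Equiv.sum_comp (Equiv.mulLeft y₀)]
    refine Finset.sum_congr rfl fun y _ => ?_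
    rw [Equiv.coe_mulLeft, hD.w_mul]
  have h3 : (1 - w ρ y₀ z) * ∑ y, w ρ y z = 0 := by rw [sub_mul, one_mul, ← h2, sub_self]
  rcases mul_eq_zero.1 h3 with h4 | h4
  · exact absurd (sub_eq_zero.1 h4).symm hy₀
  · exact h4

theorem Dat.sum_w' [Nontrivial U] (hD : Dat ρ A) {z : Q} (hz : z ∉ A) : ∑ y, w ρ z y = 0 := by
  have h0 : ∀ x y, w ρ x y * w ρ y x = 1 := by
    intro x y
    have h1 := hD.w_spec x y
    rw [hD.w_spec y x, smul_smul] at h1
    have h2 : (1 : F) • (ρ (x * y)) = (w ρ x y * w ρ y x) • ρ (x * y) := by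
      rw [one_smul, map_mul]; exact h1
    exact (smul_rho_inj h2).symm
  have h1 : ∃ y, w ρ z y ≠ 1 := by
    by_contra hcon
    push Not at hcon
    apply hz
    apply hD.nd
    intro y
    rw [map_mul, map_mul, hD.w_spec z y, hcon, one_smul]
  have hm : ∀ x y, w ρ z (x * y) = w ρ z x * w ρ z y := by
    intro x y
    have h2 := h0 z (x * y)
    have h3 := h0 z x
    have h4 := h0 z y
    rw [hD.w_mul] at h2
    have h5 : w ρ z x ≠ 0 := left_ne_zero_of_mul (by rw [h3]; exact one_ne_zero)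
    have h6 : w ρ z y ≠ 0 := left_ne_zero_of_mul (by rw [h4]; exact one_ne_zero)
    have h7 : w ρ x z = (w ρ z x)⁻¹ := eq_inv_of_mul_eq_one_right h3
    have h8 : w ρ y z = (w ρ z y)⁻¹ := eq_inv_of_mul_eq_one_right h4
    rw [h7, h8] at h2
    field_simp at h2
    exact h2
  obtain ⟨y₀, hy₀⟩ := h1
  have h2 : ∑ y, w ρ z y = w ρ z y₀ * ∑ y, w ρ z y := by
    rw [Finset.mul_sum]
    conv_lhs => rw [← Equiv.sum_comp (Equiv.mulLeft y₀)]
    refine Finset.sum_congr rfl fun y _ => ?_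
    rw [Equiv.coe_mulLeft, hm]
  have h3 : (1 - w ρ z y₀) * ∑ y, w ρ z y = 0 := by rw [sub_mul, one_mul, ← h2, sub_self]
  rcases mul_eq_zero.1 h3 with h4 | h4
  · exact absurd (sub_eq_zero.1 h4).symm hy₀
  · exact h4

/-- averaging -/
noncomputable def P (ρ : Q →* End F U) : End F U →ₗ[F] End F U :=
  ∑ y, (LinearMap.mulLeft F (ρ y)) ∘ₗ (LinearMap.mulRight F (ρ y⁻¹))

theorem P_apply (f : End F U) : P ρ f = ∑ y, ρ y * f * ρ y⁻¹ := by
  simp [P, mul_assoc]

theorem Dat.P_rho (hD : Dat ρ A) (z : Q) : P ρ (ρ z) = (∑ y, w ρ y z) • ρ z := by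
  rw [P_apply, Finset.sum_smul]
  refine Finset.sum_congr rfl fun y _ => ?_
  rw [hD.w_spec y z, smul_mul_assoc, mul_assoc, ← map_mul, mul_inv_cancel, map_one, mul_one]

theorem Dat.P_not [Nontrivial U] (hD : Dat ρ A) {z : Q} (hz : z ∉ A) : P ρ (ρ z) = 0 := by
  rw [hD.P_rho, hD.sum_w hz, zero_smul]

theorem Dat.P_mem [Nontrivial U] (hD : Dat ρ A) {z : Q} (hz : z ∈ A) : P ρ (ρ z) = ((Fintype.card Q : F) * lam ρ z) • (1 : End F U) := by
  rw [hD.P_rho]
  simp only [hD.w_one hz]
  rw [Finset.sum_const, Finset.card_univ, nsmul_eq_mul, mul_one, hD.lam_spec hz, smul_smul]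

theorem Dat.linInd [Nontrivial U] (hD : Dat ρ A) (hQ : (Fintype.card Q : F) ≠ 0) :
    LinearIndependent F (fun c : Q ⧸ A => ρ (Quotient.out c)) := by
  classical
  haveI : Fintype (Q ⧸ A) := Fintype.ofFinite _
  rw [Fintype.linearIndependent_iff]
  intro g hg c₀
  have h1 : ∑ c, g c • ρ ((Quotient.out c₀)⁻¹ * Quotient.out c) = 0 := by
    have := congrArg (fun f => ρ (Quotient.out c₀)⁻¹ * f) hg
    simp only [Finset.mul_sum, mul_smul_comm, ← map_mul, mul_zero] at this
    exact this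
  have h2 := congrArg (P ρ) h1
  rw [map_sum, map_zero, Finset.sum_eq_single c₀] at h2
  · rw [map_smul, inv_mul_cancel, hD.P_mem (one_mem A)] at h2
    have h3 : lam ρ (1 : Q) ≠ 0 := hD.lam_ne (one_mem A)
    rcases smul_eq_zero.1 h2 with h4 | h4
    · exact h4
    · rcases smul_eq_zero.1 h4 with h5 | h5
      · exact absurd h5 (mul_ne_zero hQ h3)
      · exact absurd h5 one_ne_zero
  · intro c _ hc
    rw [map_smul, hD.P_not, smul_zero]
    intro h3
    apply hc
    have h4 := QuotientGroup.eq.2 h3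
    rw [QuotientGroup.out_eq', QuotientGroup.out_eq'] at h4
    exact h4.symm
  · intro h; exact absurd (Finset.mem_univ _) h

theorem schur [IsAlgClosed F] [FiniteDimensional F U] [Nontrivial U]
    (hirr : ∀ S : Submodule F U, (∀ x, S ≤ S.comap (ρ x)) → S = ⊥ ∨ S = ⊤)
    (f : End F U) (hf : ∀ x, ρ x * f = f * ρ x) : ∃ c : F, f = c • (1 : End F U) := by
  obtain ⟨c, hc⟩ := Module.End.exists_eigenvalue f
  refine ⟨c, ?_⟩
  rcases hirr (Module.End.eigenspace f c) (by
    intro x v hv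
    rw [Module.End.mem_eigenspace_iff] at hv
    rw [Submodule.mem_comap, Module.End.mem_eigenspace_iff]
    have := congrArg (fun g : End F U => g v) (hf x)
    simp only [Module.End.mul_apply] at this
    rw [← this, hv, map_smul]) with h | h
  · exact absurd h hc
  · apply LinearMap.ext
    intro v
    have : v ∈ Module.End.eigenspace f c := h ▸ Submodule.mem_top
    rw [Module.End.mem_eigenspace_iff] at this
    rw [this]; rfl

theorem Dat.span_top [IsAlgClosed F] [FiniteDimensional F U] [Nontrivial U] (hD : Dat ρ A) (hQ : (Fintype.card Q : F) ≠ 0)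
    (hA0 : (Nat.card A : F) ≠ 0)
    (hirr : ∀ S : Submodule F U, (∀ x, S ≤ S.comap (ρ x)) → S = ⊥ ∨ S = ⊤) :
    ⊤ ≤ Submodule.span F (Set.range (fun c : Q ⧸ A => ρ (Quotient.out c))) := by
  classical
  set S := Submodule.span F (Set.range (fun c : Q ⧸ A => ρ (Quotient.out c))) with hS
  have hmem : ∀ x, ρ x ∈ S := by
    intro x
    have h1 : (Quotient.out (x : Q ⧸ A))⁻¹ * x ∈ A := by
      apply QuotientGroup.eq.1
      rw [QuotientGroup.out_eq']
    have h2 : ρ x = lam ρ ((Quotient.out (x : Q ⧸ A))⁻¹ * x) • ρ (Quotient.out (x : Q ⧸ A)) := by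
      have h3 : x = Quotient.out (x : Q ⧸ A) * ((Quotient.out (x : Q ⧸ A))⁻¹ * x) := by group
      conv_lhs => rw [h3, map_mul, hD.lam_spec h1, mul_smul_comm, mul_one]
    rw [h2]
    exact Submodule.smul_mem _ _ (Submodule.subset_span ⟨_, rfl⟩)
  intro f _
  -- the coefficients
  have hP : ∀ g : End F U, ∃ c : F, P ρ g = c • (1 : End F U) := by
    intro g
    apply schur hirr
    intro x
    rw [P_apply, Finset.mul_sum, Finset.sum_mul]
    conv_rhs => rw [← Equiv.sum_comp (Equiv.mulLeft x)]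
    refine Finset.sum_congr rfl fun y _ => ?_
    have h1 : ρ x⁻¹ * ρ x = 1 := by rw [← map_mul, inv_mul_cancel, map_one]
    rw [Equiv.coe_mulLeft, mul_inv_rev, map_mul, map_mul]
    calc ρ x * (ρ y * g * ρ y⁻¹) = ρ x * ρ y * g * (ρ y⁻¹ * (ρ x⁻¹ * ρ x)) := by
          rw [h1, mul_one]; simp only [mul_assoc]
      _ = _ := by simp only [mul_assoc]
  choose a ha using hP
  have key : ∑ x, a (f * ρ x⁻¹) • ρ x = ((Fintype.card Q : F) * (Nat.card A : F)) • f := by
    have h1 : ∀ x, a (f * ρ x⁻¹) • ρ x = ∑ y, w ρ y x⁻¹ • (ρ y * f * ρ y⁻¹) := by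
      intro x
      have h2 : a (f * ρ x⁻¹) • ρ x = P ρ (f * ρ x⁻¹) * ρ x := by
        rw [ha, smul_mul_assoc, one_mul]
      rw [h2, P_apply, Finset.sum_mul]
      refine Finset.sum_congr rfl fun y _ => ?_
      have h3 : ρ x⁻¹ * ρ y⁻¹ * ρ x = w ρ y x⁻¹ • ρ y⁻¹ := by
        have h4 := hD.w_spec y x⁻¹
        have h5 := congrArg (fun g => ρ y⁻¹ * g * ρ (y⁻¹) * ρ x) h4
        simp only [mul_smul_comm, smul_mul_assoc, ← map_mul] at h5
        rw [← map_mul, ← map_mul]
        have h6 : y⁻¹ * (y * x⁻¹) * y⁻¹ * x = x⁻¹ * y⁻¹ * x := by group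
        have h7 : y⁻¹ * (x⁻¹ * y) * y⁻¹ * x = y⁻¹ := by group
        rw [h6, h7] at h5
        exact h5
      calc ρ y * (f * ρ x⁻¹) * ρ y⁻¹ * ρ x = ρ y * f * (ρ x⁻¹ * ρ y⁻¹ * ρ x) := by simp only [mul_assoc]
        _ = _ := by rw [h3, mul_smul_comm]
    rw [Finset.sum_congr rfl (fun x _ => h1 x), Finset.sum_comm]
    have h2 : ∀ y, ∑ x, w ρ y x⁻¹ • (ρ y * f * ρ y⁻¹) = if y ∈ A then (Fintype.card Q : F) • f else 0 := by
      intro y
      rw [← Finset.sum_smul]
      have h3 : ∑ x, w ρ y x⁻¹ = ∑ x, w ρ y x := Equiv.sum_comp (Equiv.inv Q) (fun x => w ρ y x)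
      rw [h3]
      by_cases hy : y ∈ A
      · rw [if_pos hy]
        simp only [hD.w_one' hy]
        rw [Finset.sum_const, Finset.card_univ, nsmul_eq_mul, mul_one]
        congr 1
        rw [hD.lam_spec hy, smul_mul_assoc, one_mul, smul_mul_assoc, hD.lam_spec (inv_mem hy), mul_smul_comm, mul_one, smul_smul]
        have h4 : lam ρ y * lam ρ y⁻¹ = 1 := by
          have h5 : ρ (y * y⁻¹) = (lam ρ y * lam ρ y⁻¹) • (1 : End F U) := by
            rw [map_mul, hD.lam_spec hy, hD.lam_spec (inv_mem hy), smul_mul_smul_comm, one_mul]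
          rw [mul_inv_cancel, map_one] at h5
          have h6 : (1 : F) • (1 : End F U) = (lam ρ y * lam ρ y⁻¹) • 1 := by rw [one_smul]; exact h5
          exact (smul_one_inj h6).symm
        rw [h4, one_smul]
      · rw [if_neg hy, hD.sum_w' hy, zero_smul]
    rw [Finset.sum_congr rfl (fun y _ => h2 y), Finset.sum_ite, Finset.sum_const_zero, add_zero, Finset.sum_const, ← Nat.cast_smul_eq_nsmul F, smul_smul,
      mul_comm]
    congr 2
    rw [Nat.card_eq_fintype_card, Fintype.card_subtype]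
  have h0 : ((Fintype.card Q : F) * (Nat.card A : F)) ≠ 0 := mul_ne_zero hQ hA0
  have h1 : f = ((Fintype.card Q : F) * (Nat.card A : F))⁻¹ • ∑ x, a (f * ρ x⁻¹) • ρ x := by
    rw [key, smul_smul, inv_mul_cancel₀ h0, one_smul]
  rw [h1]
  exact Submodule.smul_mem _ _ (Submodule.sum_mem _ fun x _ => Submodule.smul_mem _ _ (hmem x))

end Dat

section Inter

variable {F : Type*} [Field F] {Q : Type*} [Group Q] {U : Type*} [AddCommGroup U] [Module F U]
variable {ρ : Q →* End F U} {A : Subgroup Q} [Fintype Q]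

theorem Dat.exists_inter [FiniteDimensional F U] [Nontrivial U] (hD : Dat ρ A) (hQ : (Fintype.card Q : F) ≠ 0)
    (hA0 : (Nat.card A : F) ≠ 0)
    (hirr : ∀ S : Submodule F U, (∀ x, S ≤ S.comap (ρ x)) → S = ⊥ ∨ S = ⊤)
    (σ : MulAut Q) (hσA : ∀ x, σ x ∈ A ↔ x ∈ A) (hσ : ∀ a ∈ A, ρ (σ a) = ρ a) :
    ∃ u : End F U, Function.Injective u ∧ ∀ x, u * ρ x = ρ (σ x) * u := by
  classical
  have h1 : ∃ w : End F U, ∑ x, ρ (σ x) * w * ρ x⁻¹ ≠ 0 := by
    by_contra hcon
    push Not at hcon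
    obtain ⟨z, hz⟩ := exists_ne (0 : U)
    obtain ⟨φ, hφ⟩ : ∃ φ : Module.Dual F U, φ z ≠ 0 := by
      by_contra h
      push Not at h
      exact hz ((Module.forall_dual_apply_eq_zero_iff F z).1 h)
    have h2 : ∑ x, φ (ρ x⁻¹ z) • ρ (σ x) = 0 := by
      apply LinearMap.ext
      intro v
      have h3 := congrArg (fun f : End F U => f z) (hcon (φ.smulRight v))
      simp only [LinearMap.sum_apply, Module.End.mul_apply, LinearMap.smulRight_apply, map_smul, LinearMap.zero_apply] at h3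
      simp only [LinearMap.sum_apply, LinearMap.smul_apply, LinearMap.zero_apply]
      exact h3
    have h3 := congrArg (P ρ) h2
    rw [map_sum, map_zero] at h3
    have h4 : ∀ x, P ρ (φ (ρ x⁻¹ z) • ρ (σ x)) = if x ∈ A then ((Fintype.card Q : F) * φ z) • (1 : End F U) else 0 := by
      intro x
      rw [map_smul]
      by_cases hx : x ∈ A
      · rw [if_pos hx, hσ x hx, hD.P_mem hx, smul_smul]
        congr 1
        rw [hD.lam_spec (inv_mem hx), LinearMap.smul_apply, map_smul, smul_eq_mul, Module.End.one_apply]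
        have h5 : lam ρ x⁻¹ * lam ρ x = 1 := by
          have h6 : ρ (x⁻¹ * x) = (lam ρ x⁻¹ * lam ρ x) • (1 : End F U) := by
            rw [map_mul, hD.lam_spec hx, hD.lam_spec (inv_mem hx), smul_mul_smul_comm, one_mul]
          rw [inv_mul_cancel, map_one] at h6
          have h7 : (1 : F) • (1 : End F U) = (lam ρ x⁻¹ * lam ρ x) • 1 := by rw [one_smul]; exact h6
          exact (smul_one_inj h7).symm
        calc lam ρ x⁻¹ * φ z * ((Fintype.card Q : F) * lam ρ x) = (lam ρ x⁻¹ * lam ρ x) * ((Fintype.card Q : F) * φ z) := by ring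
          _ = _ := by rw [h5, one_mul]
      · rw [if_neg hx, hD.P_not (fun h => hx ((hσA x).1 h)), smul_zero]
    rw [Finset.sum_congr rfl (fun x _ => h4 x), Finset.sum_ite, Finset.sum_const_zero, add_zero, Finset.sum_const,
      ← Nat.cast_smul_eq_nsmul F, smul_smul] at h3
    have h5 : ((Finset.univ.filter (fun x => x ∈ A)).card : F) = (Nat.card A : F) := by
      rw [Nat.card_eq_fintype_card, Fintype.card_subtype]
    rw [h5] at h3
    rcases smul_eq_zero.1 h3 with h6 | h6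
    · exact (mul_ne_zero hA0 (mul_ne_zero hQ hφ)) h6
    · exact one_ne_zero h6
  obtain ⟨w, hw⟩ := h1
  set u := ∑ x, ρ (σ x) * w * ρ x⁻¹ with hu
  have hcom : ∀ y, u * ρ y = ρ (σ y) * u := by
    intro y
    rw [hu, Finset.sum_mul, Finset.mul_sum]
    conv_lhs => rw [← Equiv.sum_comp (Equiv.mulLeft y)]
    refine Finset.sum_congr rfl fun x _ => ?_
    rw [Equiv.coe_mulLeft, map_mul, map_mul, mul_inv_rev, map_mul]
    have h1 : ρ y⁻¹ * ρ y = 1 := by rw [← map_mul, inv_mul_cancel, map_one]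
    calc ρ (σ y) * ρ (σ x) * w * (ρ x⁻¹ * ρ y⁻¹) * ρ y = ρ (σ y) * ρ (σ x) * w * (ρ x⁻¹ * (ρ y⁻¹ * ρ y)) := by simp only [mul_assoc]
      _ = _ := by rw [h1, mul_one]; simp only [mul_assoc]
  refine ⟨u, ?_, hcom⟩
  rw [← LinearMap.ker_eq_bot]
  rcases hirr (LinearMap.ker u) (by
    intro x v hv
    rw [LinearMap.mem_ker] at hv
    rw [Submodule.mem_comap, LinearMap.mem_ker]
    have := congrArg (fun g : End F U => g v) (hcom x)
    simp only [Module.End.mul_apply] at this
    rw [this, hv, map_zero]) with h | h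
  · exact h
  · exfalso
    apply hw
    exact LinearMap.ker_eq_top.1 h

theorem num (D r d : ℕ) (h : D ^ 2 * d ≤ r * (D ^ 2 + (d - 1))) (hrD : r ≤ D) (hr1 : 2 ≤ r) :
    d ≤ r ∨ (r = d - 1 ∧ D = d - 1) := by
  by_contra hcon
  push Not at hcon
  obtain ⟨h1, h2⟩ := hcon
  obtain ⟨e, rfl⟩ : ∃ e, d = e + 1 := ⟨d - 1, by omega⟩
  rw [Nat.add_sub_cancel] at h h2
  have hre : r ≤ e := by omega
  obtain ⟨t, rfl⟩ : ∃ t, e = r + t := ⟨e - r, by omega⟩
  have h3 : D ^ 2 * (t + 1) ≤ r * (r + t) := by nlinarith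
  have h4 : r ^ 2 * (t + 1) ≤ D ^ 2 * (t + 1) := Nat.mul_le_mul_right _ (Nat.pow_le_pow_left hrD 2)
  have h5 : r * (t + 1) ≤ r + t := by
    have : r * (r * (t + 1)) ≤ r * (r + t) := by
      calc r * (r * (t + 1)) = r ^ 2 * (t + 1) := by ring
        _ ≤ _ := h4.trans h3
    exact Nat.le_of_mul_le_mul_left this (by omega)
  have h6 : t = 0 := by
    by_contra ht
    have : 1 ≤ t := Nat.pos_of_ne_zero ht
    nlinarith
  subst h6
  rw [Nat.add_zero] at h2 h3
  have h7 : D ≤ r := by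
    by_contra hh
    push Not at hh
    nlinarith
  exact h2 rfl (le_antisymm h7 hrD)

theorem Dat.main_irr [IsAlgClosed F] [FiniteDimensional F U] [Nontrivial U] (hD : Dat ρ A) (hQ : (Fintype.card Q : F) ≠ 0)
    (hA0 : (Nat.card A : F) ≠ 0) (hAt : A ≠ ⊤) [A.Normal]
    (hirr : ∀ S : Submodule F U, (∀ x, S ≤ S.comap (ρ x)) → S = ⊥ ∨ S = ⊤)
    (σ : MulAut Q) (hσA : ∀ x, σ x ∈ A ↔ x ∈ A) (d : ℕ) (hd : 2 ≤ d)
    (hfpf : ∀ k, 0 < k → k < d → ∀ x, (σ ^ k) x * x⁻¹ ∈ A → x ∈ A)
    (u : End F U) (hu : ∀ x, u * ρ x = ρ (σ x) * u) (hud : u ^ d = 1) (r : ℕ) (hr : (u - 1) ^ r = 0) :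
    (finrank F U) ^ 2 = Nat.card (Q ⧸ A) ∧ (d ≤ r ∨ (d - 1 ≤ r ∧ finrank F U = d - 1)) := by
  classical
  haveI : Fintype (Q ⧸ A) := Fintype.ofFinite _
  set D := finrank F U with hDD
  let b : Basis (Q ⧸ A) F (End F U) := Basis.mk (hD.linInd hQ) (hD.span_top hQ hA0 hirr)
  have hb : ∀ c, b c = ρ (Quotient.out c) := fun c => Basis.mk_apply _ _ c
  have hcard : D ^ 2 = Nat.card (Q ⧸ A) := by
    have h1 := finrank_eq_card_basis b
    rw [finrank_linearMap, ← Nat.card_eq_fintype_card] at h1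
    rw [pow_two]; exact h1
  refine ⟨hcard, ?_⟩
  -- inverse of u
  set ui := u ^ (d - 1) with hui
  have hu1 : u * ui = 1 := by rw [hui, ← pow_succ', Nat.sub_add_cancel (by omega), hud]
  have hu2 : ui * u = 1 := by rw [hui, ← pow_succ, Nat.sub_add_cancel (by omega), hud]
  let Φ : End F U →ₗ[F] End F U := (LinearMap.mulLeft F u) ∘ₗ (LinearMap.mulRight F ui)
  have hΦ : ∀ f, Φ f = u * f * ui := fun f => by
    show u * (f * ui) = _
    rw [mul_assoc]
  have hσle : A.map (σ : MulAut Q).toMonoidHom = A := by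
    ext x
    constructor
    · rintro ⟨y, hy, rfl⟩
      exact (hσA y).2 hy
    · intro hx
      exact ⟨σ⁻¹ x, (hσA _).1 (by rw [MulAut.apply_inv_self]; exact hx), by
        show σ (σ⁻¹ x) = x
        rw [MulAut.apply_inv_self]⟩
  let π : Equiv.Perm (Q ⧸ A) := (QuotientGroup.congr A A σ hσle).toEquiv
  have hπ : ∀ x : Q, π (x : Q ⧸ A) = ((σ x : Q) : Q ⧸ A) := fun x => rfl
  have hπk : ∀ (k : ℕ) (x : Q), (π ^ k) (x : Q ⧸ A) = (((σ ^ k) x : Q) : Q ⧸ A) := by
    intro k
    induction k with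
    | zero => intro x; rfl
    | succ k ih =>
      intro x
      rw [pow_succ, Equiv.Perm.mul_apply, hπ, ih, pow_succ, MulAut.mul_apply]
  have hΦb : ∀ c, ∃ μ : F, Φ (b c) = μ • b (π c) := by
    intro c
    have h1 : Φ (b c) = ρ (σ (Quotient.out c)) := by
      rw [hΦ, hb, hu, mul_assoc, hu1, mul_one]
    have h2 : (Quotient.out (π c))⁻¹ * σ (Quotient.out c) ∈ A := by
      apply QuotientGroup.eq.1
      rw [QuotientGroup.out_eq', ← hπ, QuotientGroup.out_eq']
    refine ⟨lam ρ ((Quotient.out (π c))⁻¹ * σ (Quotient.out c)), ?_⟩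
    rw [h1, hb]
    have h3 : σ (Quotient.out c) = Quotient.out (π c) * ((Quotient.out (π c))⁻¹ * σ (Quotient.out c)) := by group
    conv_lhs => rw [h3, map_mul, hD.lam_spec h2, mul_smul_comm, mul_one]
  choose μ hμ using hΦb
  have hle := ker_le_orbits b Φ π μ hμ
  -- the centralizer
  have hC : LinearMap.ker (LinearMap.mulLeft F (u - 1) - LinearMap.mulRight F (u - 1)) ≤ LinearMap.ker (Φ - 1) := by
    intro f hf
    rw [LinearMap.mem_ker, LinearMap.sub_apply, LinearMap.mulLeft_apply, LinearMap.mulRight_apply, sub_eq_zero,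
      sub_mul, mul_sub, one_mul, mul_one, sub_left_inj] at hf
    rw [LinearMap.mem_ker, LinearMap.sub_apply, hΦ, Module.End.one_apply, hf, mul_assoc, hu1, mul_one, sub_self]
  -- u ≠ 1
  have hne1 : u ≠ 1 := by
    intro h
    apply hAt
    rw [Subgroup.eq_top_iff']
    intro x
    apply hfpf 1 one_pos (by omega) x
    rw [pow_one]
    apply hD.nd
    intro y
    have h1 := hu x
    rw [h, one_mul, mul_one] at h1
    have h2 : ρ (σ x * x⁻¹) = 1 := by rw [map_mul, ← h1, ← map_mul, mul_inv_cancel, map_one]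
    rw [map_mul ρ (σ x * x⁻¹) y, map_mul ρ y, h2, one_mul, mul_one]
  have hπd : π ^ d = 1 := by
    ext c
    induction c using QuotientGroup.induction_on with
    | H x =>
      rw [hπk, Equiv.Perm.one_apply]
      symm
      rw [QuotientGroup.eq]
      apply hD.nd
      have h1 : ∀ k, u ^ k * ρ x = ρ ((σ ^ k) x) * u ^ k := by
        intro k
        induction k with
        | zero => simp
        | succ k ih =>
          rw [pow_succ', mul_assoc, ih, ← mul_assoc, hu, mul_assoc, pow_succ', MulAut.mul_apply]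
      have h2 := h1 d
      rw [hud, one_mul, mul_one] at h2
      intro y
      have h3 : ρ (x⁻¹ * (σ ^ d) x) = 1 := by rw [map_mul, ← h2, ← map_mul, inv_mul_cancel, map_one]
      rw [map_mul ρ (x⁻¹ * (σ ^ d) x) y, map_mul ρ y, h3, one_mul, mul_one]
  have horb := orbits_count π ((1 : Q) : Q ⧸ A) d (by omega) hπd (by rw [hπ, map_one]) (by
    intro k hk hkd c hc
    induction c using QuotientGroup.induction_on with
    | H x =>
      rw [hπk] at hc
      rw [QuotientGroup.mk_one, QuotientGroup.eq_one_iff]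
      apply hfpf k hk hkd x
      rw [← QuotientGroup.eq_one_iff, QuotientGroup.mk_mul, hc, ← QuotientGroup.mk_mul, mul_inv_cancel, QuotientGroup.mk_one]) (by
    by_contra hcon
    push Not at hcon
    apply hAt
    rw [Subgroup.eq_top_iff']
    intro x
    exact (QuotientGroup.eq_one_iff x).1 (hcon x))
  -- minimal r
  have hex : ∃ r, (u - 1) ^ r = 0 := ⟨r, hr⟩
  set r₀ := Nat.find hex with hr₀
  have hr₀s : (u - 1) ^ r₀ = 0 := Nat.find_spec hex
  have hr₀le : r₀ ≤ r := Nat.find_min' hex hr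
  have hr₀D : r₀ ≤ D := by
    apply Nat.find_min' hex
    rw [← LinearMap.ker_eq_top]
    rcases le_total D r with h | h
    · rw [← Module.End.ker_pow_eq_ker_pow_finrank_of_le h, hr, LinearMap.ker_zero]
    · obtain ⟨k, hk⟩ := Nat.exists_eq_add_of_le h
      rw [hk, pow_add, hr, zero_mul, LinearMap.ker_zero]
  have hr₀2 : 2 ≤ r₀ := by
    by_contra hcon
    have h1 : r₀ = 0 ∨ r₀ = 1 := by omega
    rcases h1 with h | h
    · rw [h, pow_zero] at hr₀s
      exact one_ne_zero hr₀s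
    · rw [h, pow_one, sub_eq_zero] at hr₀s
      exact hne1 hr₀s
  have hcd := CfsgLib.HHBLin.cent_dim (u - 1) r₀ hr₀s
  have hfin := (Submodule.finrank_mono hC).trans hle
  rw [← hDD] at hcd
  have hineq : D ^ 2 * d ≤ r₀ * (D ^ 2 + (d - 1)) := by
    rw [hcard, ← horb, ← hcard, ← mul_assoc]
    exact Nat.mul_le_mul_right d (hcd.trans (Nat.mul_le_mul_left _ hfin))
  rcases num D r₀ d hineq hr₀D hr₀2 with h | ⟨h1, h2⟩
  · exact Or.inl (h.trans hr₀le)
  · exact Or.inr ⟨h1 ▸ hr₀le, h2⟩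

end Inter

end CfsgLib.HHBExt
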