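import Cfsg.Agent.LibHHBExt

set_option autoImplicit false

/-!
The critical "extraspecial" case of the Hall-Higman theorem B, part 2 (helper4).
-/

namespace CfsgLib.HHBExt

open Module
open scoped commutatorElement

variable {F : Type*} [Field F] {Q : Type*} [Group Q] {W : Type*} [AddCommGroup W] [Module F W]
variable {ρ : Q →* End F W} {A : Subgroup Q}

/-- restriction -/
def rst (ρ : Q →* End F W) (S : Submodule F W) (hS : ∀ x, S ≤ S.comap (ρ x)) : Q →* End F S where
  toFun x := (ρ x).restrict (fun v hv => hS x hv)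
  map_one' := by ext v; simp
  map_mul' x y := by ext v; simp

theorem rst_apply (S : Submodule F W) (hS : ∀ x, S ≤ S.comap (ρ x)) (x : Q) (v : S) :
    ((rst ρ S hS x v : S) : W) = ρ x v := rfl

theorem exists_simple [FiniteDimensional F W] [Nontrivial W] (ρ : Q →* End F W) :
    ∃ (S : Submodule F W) (hS : ∀ x, S ≤ S.comap (ρ x)), S ≠ ⊥ ∧
      ∀ R : Submodule F S, (∀ x, R ≤ R.comap (rst ρ S hS x)) → R = ⊥ ∨ R = ⊤ := by
  obtain ⟨S, ⟨hS0, hSi⟩, hSmin⟩ := (wellFounded_lt (α := Submodule F W)).has_min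
    {S | S ≠ ⊥ ∧ ∀ x, S ≤ S.comap (ρ x)} ⟨⊤, top_ne_bot, fun x => fun v _ => Submodule.mem_top⟩
  refine ⟨S, hSi, hS0, ?_⟩
  intro R hR
  by_cases hR0 : R = ⊥
  · exact Or.inl hR0
  right
  have h1 : R.map S.subtype ≠ ⊥ := by
    intro h
    apply hR0
    rw [eq_bot_iff]
    intro v hv
    have h1 : (v : W) ∈ R.map S.subtype := ⟨v, hv, rfl⟩
    rw [h, Submodule.mem_bot] at h1
    rw [Submodule.mem_bot]
    exact Subtype.ext h1
  have h2 : ∀ x, R.map S.subtype ≤ (R.map S.subtype).comap (ρ x) := by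
    rintro x _ ⟨v, hv, rfl⟩
    exact ⟨rst ρ S hSi x v, hR x hv, rfl⟩
  have h3 : R.map S.subtype = S := by
    have h4 := hSmin _ ⟨h1, h2⟩
    exact (Submodule.map_subtype_le S R).eq_or_lt.resolve_right h4
  have h4 : R.map S.subtype = (⊤ : Submodule F S).map S.subtype := by rw [h3, Submodule.map_subtype_top]
  exact Submodule.map_injective_of_injective S.subtype_injective h4

theorem Dat.rst [Nontrivial W] (hD : Dat ρ A) (S : Submodule F W) (hS : ∀ x, S ≤ S.comap (ρ x)) (hS0 : S ≠ ⊥) :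
    Dat (rst ρ S hS) A := by
  haveI : Nontrivial S := Submodule.nontrivial_iff_ne_bot.2 hS0
  refine ⟨?_, hD.comm, ?_⟩
  · intro a ha
    obtain ⟨c, hc⟩ := hD.sc a ha
    refine ⟨c, ?_⟩
    ext v
    rw [rst_apply, hc]; rfl
  · intro x hx
    apply hD.nd
    intro y
    have h1 : CfsgLib.HHBExt.rst ρ S hS (x * y) = w ρ x y • CfsgLib.HHBExt.rst ρ S hS (y * x) := by
      ext v
      rw [rst_apply, map_mul, hD.w_spec]
      simp [rst_apply]
    have h2 : (1 : F) • CfsgLib.HHBExt.rst ρ S hS (y * x) = w ρ x y • CfsgLib.HHBExt.rst ρ S hS (y * x) := by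
      rw [← h1, one_smul, hx]
    rw [map_mul, map_mul, hD.w_spec, ← smul_rho_inj h2, one_smul]

theorem Dat.main [Fintype Q] [IsAlgClosed F] [FiniteDimensional F W] [Nontrivial W] (hD : Dat ρ A)
    (hQ : (Fintype.card Q : F) ≠ 0) (hA0 : (Nat.card A : F) ≠ 0) (hAt : A ≠ ⊤) [A.Normal]
    (σ : MulAut Q) (hσA : ∀ x, σ x ∈ A ↔ x ∈ A) (p : ℕ) [hp : Fact p.Prime] [CharP F p] (n : ℕ) (hn : 1 ≤ n)
    (hfpf : ∀ k, 0 < k → k < p ^ n → ∀ x, (σ ^ k) x * x⁻¹ ∈ A → x ∈ A)
    (T : End F W) (hT : ∀ x, T * ρ x = ρ (σ x) * T) (hTd : T ^ p ^ n = 1) (r : ℕ) (hr : (T - 1) ^ r = 0) :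
    ∃ D, D ^ 2 = Nat.card (Q ⧸ A) ∧ (p ^ n ≤ r ∨ (p ^ n - 1 ≤ r ∧ D = p ^ n - 1)) := by
  classical
  set d := p ^ n with hd
  have hd2 : 2 ≤ d := hp.out.two_le.trans (Nat.le_self_pow (by omega) p)
  obtain ⟨S, hS, hS0, hirr⟩ := exists_simple ρ
  haveI : Nontrivial S := Submodule.nontrivial_iff_ne_bot.2 hS0
  have hDS := hD.rst S hS hS0
  have hσ : ∀ a ∈ A, ρ (σ a) = ρ a := by
    intro a ha
    have h1 : T * T ^ (d - 1) = 1 := by rw [← pow_succ', Nat.sub_add_cancel (by omega), hTd]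
    have h2 : T * ρ a * T ^ (d - 1) = ρ (σ a) * T * T ^ (d - 1) := congrArg (fun f => f * T ^ (d - 1)) (hT a)
    rw [mul_assoc (ρ (σ a)), h1, mul_one, hD.lam_spec ha, mul_smul_comm, mul_one, smul_mul_assoc, h1] at h2
    rw [← h2, hD.lam_spec ha]
  obtain ⟨u, hui, hu⟩ := hDS.exists_inter hQ hA0 hirr σ hσA (by
    intro a ha
    ext v
    rw [rst_apply, rst_apply, hσ a ha])
  set ρS := CfsgLib.HHBExt.rst ρ S hS with hρS
  let ue : S ≃ₗ[F] S := LinearEquiv.ofInjectiveEndo u hui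
  have hue : ∀ v, ue v = u v := fun v => rfl
  have huesymm : ∀ v, u (ue.symm v) = v := fun v => by rw [← hue, ue.apply_symm_apply]
  have huesymm' : ∀ v, ue.symm (u v) = v := fun v => by rw [← hue, ue.symm_apply_apply]
  have hu' : ∀ x v, u (ρS x v) = ρS (σ x) (u v) := fun x v => congrArg (fun f : End F S => f v) (hu x)
  have hT' : ∀ x v, T (ρ x v) = ρ (σ x) (T v) := fun x v => congrArg (fun f : End F W => f v) (hT x)
  -- the space of homs
  let H : Submodule F (S →ₗ[F] W) :=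
    { carrier := {f | ∀ x v, f (ρS x v) = ρ x (f v)}
      add_mem' := by
        intro f g hf hg x v
        rw [LinearMap.add_apply, LinearMap.add_apply, map_add, hf, hg]
      zero_mem' := by intro x v; simp
      smul_mem' := by
        intro c f hf x v
        rw [LinearMap.smul_apply, LinearMap.smul_apply, map_smul, hf] }
  let Φ0 : (S →ₗ[F] W) →ₗ[F] (S →ₗ[F] W) :=
    { toFun := fun f => T ∘ₗ f ∘ₗ ue.symm.toLinearMap
      map_add' := by intro f g; ext v; simp
      map_smul' := by intro c f; ext v; simp }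
  have hΦ0 : ∀ f v, Φ0 f v = T (f (ue.symm v)) := fun f v => rfl
  have hΦH : ∀ f ∈ H, Φ0 f ∈ H := by
    intro f hf x v
    rw [hΦ0, hΦ0]
    have h1 : ue.symm (ρS x v) = ρS (σ⁻¹ x) (ue.symm v) := by
      apply ue.injective
      rw [ue.apply_symm_apply, hue, hu', huesymm, MulAut.apply_inv_self]
    rw [h1, hf, hT', MulAut.apply_inv_self]
  have hιH : S.subtype ∈ H := fun x v => rfl
  haveI : Nontrivial H := by
    refine ⟨⟨⟨S.subtype, hιH⟩, 0, ?_⟩⟩
    intro h
    obtain ⟨v, hv⟩ := exists_ne (0 : S)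
    apply hv
    apply Subtype.ext
    exact congrArg (fun f : H => f.1 v) h
  obtain ⟨μ, hμ⟩ := Module.End.exists_eigenvalue (Φ0.restrict hΦH)
  obtain ⟨f, hf⟩ := hμ.exists_hasEigenvector
  have hf1 : ∀ v, T (f.1 (ue.symm v)) = μ • f.1 v := by
    intro v
    have h1 := hf.apply_eq_smul
    exact congrArg (fun g : H => g.1 v) h1
  have hf0 : f.1 ≠ 0 := fun h => hf.2 (Subtype.ext h)
  have hf2 : ∀ v, T (f.1 v) = f.1 ((μ • u) v) := by
    intro v
    have h1 := hf1 (u v)
    rw [huesymm'] at h1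
    rw [h1, LinearMap.smul_apply, map_smul]
  have hfH : ∀ x v, f.1 (ρS x v) = ρ x (f.1 v) := f.2
  have hfinj : Function.Injective f.1 := by
    rw [← LinearMap.ker_eq_bot]
    rcases hirr (LinearMap.ker f.1) (by
      intro x v hv
      rw [LinearMap.mem_ker] at hv
      rw [Submodule.mem_comap, LinearMap.mem_ker, hfH, hv, map_zero]) with h | h
    · exact h
    · exact absurd (LinearMap.ker_eq_top.1 h) hf0
  have hpow : ∀ k v, f.1 (((μ • u) ^ k) v) = (T ^ k) (f.1 v) := by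
    intro k
    induction k with
    | zero => intro v; simp
    | succ k ih => intro v; rw [pow_succ, Module.End.mul_apply, ih, ← hf2, pow_succ, Module.End.mul_apply]
  have hpow' : ∀ (k : ℕ) (v : S), f.1 (((μ • u - 1 : End F S) ^ k) v) = ((T - 1 : End F W) ^ k) (f.1 v) := by
    intro k
    induction k with
    | zero => intro v; simp
    | succ k ih =>
      intro v
      rw [pow_succ, Module.End.mul_apply, ih, pow_succ, Module.End.mul_apply, LinearMap.sub_apply, map_sub, ← hf2]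
      rfl
  obtain ⟨h1, h2⟩ := hDS.main_irr hQ hA0 hAt hirr σ hσA d hd2 hfpf (μ • u) (by
    intro x
    rw [smul_mul_assoc, hu, mul_smul_comm]) (by
    ext v
    apply congrArg Subtype.val
    apply hfinj
    rw [hpow, hTd]; rfl) r (by
    ext v
    apply congrArg Subtype.val
    apply hfinj
    rw [hpow', hr]; simp)
  exact ⟨_, h1, h2⟩

end CfsgLib.HHBExt
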