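import Cfsg.Agent.LibHHBRed

set_option autoImplicit false

/-!
Hall-Higman theorem B over an algebraically closed field: the induction (helper4).
-/

namespace CfsgLib.HHBMain

open Module CfsgLib.HHBExt
open scoped commutatorElement

universe u v

section Ind

variable {F : Type*} [Field F] {p q : ℕ} {Q : Type*} [Group Q] {W : Type*} [AddCommGroup W] [Module F W]
    {ρ : Q →* End F W} {σ : MulAut Q} {T : End F W} {n r : ℕ}

theorem restrict_pow_apply (f : End F W) (R : Submodule F W) (h : ∀ x ∈ R, f x ∈ R) (k : ℕ) (v : R) :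
    ((((f.restrict h) ^ k) v : R) : W) = (f ^ k) v := by
  induction k generalizing v with
  | zero => rfl
  | succ k ih => rw [pow_succ, Module.End.mul_apply, ih, pow_succ, Module.End.mul_apply]; rfl

theorem restrict_sub_pow_apply (f : End F W) (R : Submodule F W) (h : ∀ x ∈ R, f x ∈ R) (k : ℕ) (v : R) :
    ((((f.restrict h - 1 : End F R) ^ k) v : R) : W) = ((f - 1 : End F W) ^ k) v := by
  induction k generalizing v with
  | zero => rfl
  | succ k ih => rw [pow_succ, Module.End.mul_apply, ih, pow_succ, Module.End.mul_apply]; rfl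

theorem Cfg.rstCfg (h : Cfg p q ρ σ T n r) (R : Submodule F W) (hR : ∀ x, R ≤ R.comap (ρ x)) (a : ℕ) (ha : a < n)
    (hRT : ∀ v ∈ R, (T ^ p ^ a) v ∈ R) (r₁ : ℕ) (hr₁ : ∀ v ∈ R, ((T ^ p ^ a - 1 : End F W) ^ r₁) v = 0)
    (hnt : ∃ x, ∃ v ∈ R, ρ ((σ ^ p ^ (n - 1)) x) v ≠ ρ x v) :
    Cfg p q (rst ρ R hR) (σ ^ p ^ a) ((T ^ p ^ a).restrict hRT) (n - a) r₁ := by
  refine ⟨by omega, ?_, ?_, h.hq, ?_, ?_⟩
  · intro x
    ext v
    have := congrArg (fun g : End F W => g (v : W)) (h.hTk (p ^ a) x)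
    simp only [Module.End.mul_apply] at this
    exact this
  · ext v
    rw [restrict_pow_apply, ← pow_mul, ← pow_add, Nat.add_sub_cancel' ha.le, h.hTn]
    rfl
  · obtain ⟨x, v, hv, hxv⟩ := hnt
    refine ⟨x, fun heq => hxv ?_⟩
    have h1 : (σ ^ p ^ a) ^ p ^ (n - a - 1) = σ ^ p ^ (n - 1) := by
      rw [← pow_mul, ← pow_add]; congr 2; omega
    rw [h1] at heq
    exact congrArg (fun g : End F R => ((g ⟨v, hv⟩ : R) : W)) heq
  · ext v
    rw [restrict_sub_pow_apply, hr₁ v v.2]; rfl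

/-- the commutator subgroup with the p-automorphism -/
def KK (s : MulAut Q) : Subgroup Q := Subgroup.closure (Set.range fun x => s x * x⁻¹)

theorem KK_mem (s : MulAut Q) (x : Q) : s x * x⁻¹ ∈ KK s := Subgroup.subset_closure ⟨x, rfl⟩

theorem KK_conj (s : MulAut Q) (y : Q) {k : Q} (hk : k ∈ KK s) : y * k * y⁻¹ ∈ KK s := by
  refine Subgroup.closure_induction (p := fun k _ => y * k * y⁻¹ ∈ KK s) ?_ ?_ ?_ ?_ hk
  · rintro _ ⟨x, rfl⟩
    have : y * (s x * x⁻¹) * y⁻¹ = (s y * y⁻¹)⁻¹ * (s (y * x) * (y * x)⁻¹) := by rw [map_mul]; group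
    show y * (s x * x⁻¹) * y⁻¹ ∈ KK s
    rw [this]
    exact mul_mem (inv_mem (KK_mem s y)) (KK_mem s _)
  · rw [mul_one, mul_inv_cancel]; exact one_mem _
  · intro a b _ _ ha hb
    have : y * (a * b) * y⁻¹ = (y * a * y⁻¹) * (y * b * y⁻¹) := by group
    rw [this]
    exact mul_mem ha hb
  · intro a _ ha
    have : y * a⁻¹ * y⁻¹ = (y * a * y⁻¹)⁻¹ := by group
    rw [this]
    exact inv_mem ha

theorem KK_map (s τ : MulAut Q) (hτ : ∀ x, τ (s x) = s (τ x)) {k : Q} (hk : k ∈ KK s) : τ k ∈ KK s := by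
  refine Subgroup.closure_induction (p := fun k _ => τ k ∈ KK s) ?_ ?_ ?_ ?_ hk
  · rintro _ ⟨x, rfl⟩
    show τ (s x * x⁻¹) ∈ KK s
    rw [map_mul, map_inv, hτ]
    exact KK_mem s _
  · rw [map_one]; exact one_mem _
  · intro a b _ _ ha hb
    rw [map_mul]; exact mul_mem ha hb
  · intro a _ ha
    rw [map_inv]; exact inv_mem ha

theorem KK_iff (σ : MulAut Q) (m : ℕ) (x : Q) : σ x ∈ KK (σ ^ m) ↔ x ∈ KK (σ ^ m) := by
  have hc : ∀ x, σ ((σ ^ m) x) = (σ ^ m) (σ x) := by
    intro x
    rw [← MulAut.mul_apply, ← MulAut.mul_apply, ← pow_succ, ← pow_succ']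
  constructor
  · intro h
    have := KK_map (σ ^ m) σ⁻¹ (by
      intro x
      have h1 := hc (σ⁻¹ x)
      rw [MulAut.apply_inv_self] at h1
      rw [← h1, MulAut.inv_apply_self]) h
    rwa [MulAut.inv_apply_self] at this
  · intro h
    exact KK_map (σ ^ m) σ hc h

open Classical in
/-- the averaging element -/
noncomputable def ee [Fintype Q] (ρ : Q →* End F W) (K : Subgroup Q) : End F W := ∑ x, if x ∈ K then ρ x else 0

theorem ee_mul [Fintype Q] (K : Subgroup Q) {k : Q} (hk : k ∈ K) : ρ k * ee ρ K = ee ρ K := by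
  classical
  rw [ee, Finset.mul_sum, ← Equiv.sum_comp (Equiv.mulLeft k) (fun x => if x ∈ K then ρ x else 0)]
  refine Finset.sum_congr rfl fun x _ => ?_
  rw [Equiv.coe_mulLeft]
  by_cases hx : x ∈ K
  · rw [if_pos hx, if_pos (mul_mem hk hx), map_mul]
  · rw [if_neg hx, if_neg (fun h => hx ((Subgroup.mul_mem_cancel_left K hk).1 h)), mul_zero]

theorem ee_comm [Fintype Q] (K : Subgroup Q) (hK : ∀ y, ∀ k ∈ K, y * k * y⁻¹ ∈ K) (y : Q) :
    ρ y * ee ρ K = ee ρ K * ρ y := by
  classical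
  rw [ee, Finset.mul_sum, Finset.sum_mul,
    ← Equiv.sum_comp (MulAut.conj y).toEquiv (fun x => (if x ∈ K then ρ x else 0) * ρ y)]
  refine Finset.sum_congr rfl fun x _ => ?_
  show ρ y * (if x ∈ K then ρ x else 0) = (if y * x * y⁻¹ ∈ K then ρ (y * x * y⁻¹) else 0) * ρ y
  by_cases hx : x ∈ K
  · rw [if_pos hx, if_pos (hK y x hx), ← map_mul, ← map_mul]
    congr 1; group
  · rw [if_neg hx, if_neg, mul_zero, zero_mul]
    intro h
    apply hx
    have := hK y⁻¹ _ h
    have h2 : y⁻¹ * (y * x * y⁻¹) * y⁻¹⁻¹ = x := by group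
    rwa [h2] at this

theorem ee_T [Fintype Q] (K : Subgroup Q) (hT : ∀ x, T * ρ x = ρ (σ x) * T) (hK : ∀ x, σ x ∈ K ↔ x ∈ K) :
    T * ee ρ K = ee ρ K * T := by
  classical
  rw [ee, Finset.mul_sum, Finset.sum_mul,
    ← Equiv.sum_comp σ.toEquiv (fun x => (if x ∈ K then ρ x else 0) * T)]
  refine Finset.sum_congr rfl fun x _ => ?_
  show T * (if x ∈ K then ρ x else 0) = (if σ x ∈ K then ρ (σ x) else 0) * T
  by_cases hx : x ∈ K
  · rw [if_pos hx, if_pos ((hK x).2 hx), hT]
  · rw [if_neg hx, if_neg (fun h => hx ((hK x).1 h)), mul_zero, zero_mul]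

theorem ee_fix [Fintype Q] (K : Subgroup Q) (v : W) (hv : ∀ k ∈ K, ρ k v = v) : ee ρ K v = (Nat.card K : F) • v := by
  classical
  rw [ee, LinearMap.sum_apply]
  have h1 : ∀ x, (if x ∈ K then ρ x else 0 : End F W) v = if x ∈ K then v else 0 := by
    intro x
    by_cases hx : x ∈ K
    · rw [if_pos hx, if_pos hx, hv x hx]
    · rw [if_neg hx, if_neg hx]; rfl
  simp only [h1]
  rw [Finset.sum_ite, Finset.sum_const_zero, add_zero, Finset.sum_const, ← Nat.cast_smul_eq_nsmul F]
  congr 1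
  rw [Nat.card_eq_fintype_card, Fintype.card_subtype]

/-- trivial action of the KK -/
theorem fix_of_triv (s : MulAut Q) (R : Submodule F W) (hR : ∀ x, R ≤ R.comap (ρ x))
    (h : ∀ x, ∀ v ∈ R, ρ (s x) v = ρ x v) : ∀ k ∈ KK s, ∀ v ∈ R, ρ k v = v := by
  intro k hk
  refine Subgroup.closure_induction (p := fun k _ => ∀ v ∈ R, ρ k v = v) ?_ ?_ ?_ ?_ hk
  · rintro _ ⟨x, rfl⟩ v hv
    show ρ (s x * x⁻¹) v = v
    rw [map_mul, Module.End.mul_apply, h x _ (hR x⁻¹ hv), ← Module.End.mul_apply, ← map_mul, mul_inv_cancel, map_one]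
    rfl
  · intro v _; rw [map_one]; rfl
  · intro a b _ _ ha hb v hv
    rw [map_mul, Module.End.mul_apply, hb v hv, ha v hv]
  · intro a _ ha v hv
    have h1 := ha v hv
    conv_lhs => rw [← h1]
    rw [← Module.End.mul_apply, ← map_mul, inv_mul_cancel, map_one]
    rfl

end Ind

theorem main {F : Type*} [Field F] [IsAlgClosed F] {p : ℕ} [hpf : Fact p.Prime] [CharP F p] {q : ℕ} [hqf : Fact q.Prime]
    (hqp : p.Coprime q) (N : ℕ) : ∀ (Q : Type u) [Group Q] [Finite Q] (W : Type v) [AddCommGroup W] [Module F W]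
      [FiniteDimensional F W] (ρ : Q →* End F W) (σ : MulAut Q) (T : End F W) (n r : ℕ),
      Cfg p q ρ σ T n r → Nat.card Q + finrank F W ≤ N → Concl p q Q n r := by
  have hp := hpf.out
  induction N with
  | zero =>
    intro Q _ _ W _ _ _ ρ σ T n r _ hN
    have : 0 < Nat.card Q := Nat.card_pos
    omega
  | succ N ih =>
    intro Q _ _ W _ _ _ ρ σ T n r h hN
    by_contra hcon
    haveI : Fintype Q := Fintype.ofFinite Q
    set s := σ ^ p ^ (n - 1) with hs
    haveI : Nontrivial W := by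
      by_contra hc
      rw [not_nontrivial_iff_subsingleton] at hc
      obtain ⟨x, hx⟩ := h.hnt
      apply hx
      ext v
      exact Subsingleton.elim _ _
    have hcardF : ∀ B : Subgroup Q, (Nat.card B : F) ≠ 0 := by
      intro B h0
      rw [CharP.cast_eq_zero_iff F p] at h0
      obtain ⟨l, hl⟩ := IsPGroup.iff_card.1 (h.hq.to_subgroup B)
      rw [hl] at h0
      have := (Nat.Prime.coprime_iff_not_dvd hp).1 (hqp.pow_right l)
      exact this h0
    -- step 1
    have hstar : ∀ Q₀ : Subgroup Q, (∀ x, σ x ∈ Q₀ ↔ x ∈ Q₀) → Q₀ ≠ ⊤ → ∀ x ∈ Q₀, ρ (s x) = ρ x := by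
      intro Q₀ hinv hne x hx
      by_contra hxx
      apply hcon
      let σ₀ : MulAut Q₀ :=
        { toFun := fun y => ⟨σ y, (hinv y).2 y.2⟩
          invFun := fun y => ⟨σ⁻¹ y, (hinv _).1 (by rw [MulAut.apply_inv_self]; exact y.2)⟩
          left_inv := fun y => Subtype.ext (MulAut.inv_apply_self _ _ _)
          right_inv := fun y => Subtype.ext (MulAut.apply_inv_self _ _ _)
          map_mul' := fun y z => Subtype.ext (map_mul σ _ _) }
      have hσ₀ : ∀ (k : ℕ) (y : Q₀), (((σ₀ ^ k) y : Q₀) : Q) = (σ ^ k) y := by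
        intro k
        induction k with
        | zero => intro y; rfl
        | succ k ihk => intro y; rw [pow_succ, MulAut.mul_apply, ihk, pow_succ, MulAut.mul_apply]; rfl
      have h0 : Cfg p q (ρ.comp Q₀.subtype) σ₀ T n r := by
        refine ⟨h.hn, fun y => h.hT y, h.hTn, h.hq.to_subgroup Q₀, ⟨⟨x, hx⟩, ?_⟩, h.hr⟩
        intro he
        apply hxx
        have : (ρ.comp Q₀.subtype) ((σ₀ ^ p ^ (n - 1)) ⟨x, hx⟩) = ρ (s x) := by
          show ρ (((σ₀ ^ p ^ (n - 1)) ⟨x, hx⟩ : Q₀) : Q) = _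
          rw [hσ₀]
        rw [this] at he
        exact he
      have hlt : Nat.card Q₀ < Nat.card Q := by
        refine lt_of_le_of_ne (Subgroup.card_le_card_group Q₀) ?_
        intro he
        exact hne (Subgroup.eq_top_of_card_eq Q₀ he)
      rcases ih Q₀ W (ρ.comp Q₀.subtype) σ₀ T n r h0 (by omega) with h1 | ⟨n₀, m, h1, h2, h3, h4, ⟨a, b, hab⟩, h5⟩
      · exact Or.inl h1
      · exact Or.inr ⟨n₀, m, h1, h2, h3, h4, ⟨a, b, fun he => hab (Subtype.ext he)⟩, h5⟩
    -- step 2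
    have hIH : ∀ (R : Submodule F W) (hR : ∀ x, R ≤ R.comap (ρ x)) (hRt : R ≠ ⊤) (a : ℕ) (ha : a < n)
      (hRT : ∀ v ∈ R, (T ^ p ^ a) v ∈ R) (r₁ : ℕ) (hr₁ : ∀ v ∈ R, ((T ^ p ^ a - 1 : End F W) ^ r₁) v = 0)
      (hnt : ∃ x, ∃ v ∈ R, ρ (s x) v ≠ ρ x v), Concl p q Q (n - a) r₁ := by
      intro R hR hRt a ha hRT r₁ hr₁ hnt
      have hlt : finrank F R < finrank F W := Submodule.finrank_lt hRt
      exact ih Q R _ _ _ _ _ (h.rstCfg R hR a ha hRT r₁ hr₁ hnt) (by omega)
    set K := KK s with hK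
    have he1 := fun k (hk : k ∈ K) => ee_mul (ρ := ρ) K hk
    have he2 := fun y => ee_comm (ρ := ρ) K (fun y k hk => KK_conj s y hk) y
    have he3 : T * ee ρ K = ee ρ K * T := ee_T K h.hT (fun x => KK_iff σ _ x)
    have hkerR : ∀ x, LinearMap.ker (ee ρ K) ≤ (LinearMap.ker (ee ρ K)).comap (ρ x) := by
      intro x v hv
      rw [LinearMap.mem_ker] at hv
      rw [Submodule.mem_comap, LinearMap.mem_ker]
      have := congrArg (fun g : End F W => g v) (he2 x)
      simp only [Module.End.mul_apply] at this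
      rw [← this, hv, map_zero]
    have hntR : ∃ x, ∃ v ∈ LinearMap.ker (ee ρ K), ρ (s x) v ≠ ρ x v := by
      by_contra hc
      push Not at hc
      have h1 := fix_of_triv s _ hkerR hc
      have h2 : LinearMap.ker (ee ρ K) = ⊥ := by
        rw [eq_bot_iff]
        intro v hv
        have h3 := ee_fix (ρ := ρ) K v (fun k hk => h1 k hk v hv)
        rw [LinearMap.mem_ker.1 hv] at h3
        exact (smul_eq_zero.1 h3.symm).resolve_left (hcardF K)
      obtain ⟨x, hx⟩ := h.hnt
      apply hx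
      have h3 : ∀ k ∈ K, ρ k = 1 := by
        intro k hk
        ext w
        have h4 : ρ k w - w ∈ LinearMap.ker (ee ρ K) := by
          rw [LinearMap.mem_ker, map_sub, sub_eq_zero]
          have h5 : ee ρ K * ρ k = ee ρ K := by rw [← he2, he1 k hk]
          exact congrArg (fun g : End F W => g w) h5
        rw [h2, Submodule.mem_bot, sub_eq_zero] at h4
        exact h4
      have h4 := h3 _ (KK_mem s x)
      have h5 : s x = (s x * x⁻¹) * x := by group
      rw [h5, map_mul, h4, one_mul]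
    have he0 : LinearMap.ker (ee ρ K) = ⊤ := by
      by_contra hne
      apply hcon
      have := hIH _ hkerR hne 0 (by have := h.hn; omega) (by
        intro v hv
        rw [pow_zero, pow_one]
        rw [LinearMap.mem_ker] at hv ⊢
        have := congrArg (fun g : End F W => g v) he3
        simp only [Module.End.mul_apply] at this
        rw [← this, hv, map_zero]) r (by
        intro v _
        rw [pow_zero, pow_one, h.hr]; rfl) hntR
      rwa [Nat.sub_zero] at this
    have hnt : ∀ (R : Submodule F W), (∀ x, R ≤ R.comap (ρ x)) → R ≠ ⊥ → ∃ x, ∃ v ∈ R, ρ (s x) v ≠ ρ x v := by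
      intro R hR hR0
      by_contra hc
      push Not at hc
      have h1 := fix_of_triv s _ hR hc
      apply hR0
      rw [eq_bot_iff]
      intro v hv
      have h3 := ee_fix (ρ := ρ) K v (fun k hk => h1 k hk v hv)
      have h4 : v ∈ LinearMap.ker (ee ρ K) := he0 ▸ Submodule.mem_top
      rw [LinearMap.mem_ker.1 h4] at h3
      exact (smul_eq_zero.1 h3.symm).resolve_left (hcardF K)
    have hirrT : ∀ R : Submodule F W, (∀ x, R ≤ R.comap (ρ x)) → R ≤ R.comap T → R = ⊥ ∨ R = ⊤ := by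
      intro R hR hRT
      by_contra hc
      push Not at hc
      apply hcon
      have := hIH R hR hc.2 0 (by have := h.hn; omega) (by
        intro v hv
        rw [pow_zero, pow_one]
        exact hRT hv) r (by
        intro v _
        rw [pow_zero, pow_one, h.hr]; rfl) (hnt R hR hc.1)
      rwa [Nat.sub_zero] at this
    rcases h.step3 hirrT with hsc | ⟨R, a, hR, ha1, han, hR0, hRt, hRT, hk⟩
    · exact hcon (h.step4 hqp hstar hsc)
    · apply hcon
      -- minimal r₁
      have hex : ∃ r₁, ∀ v ∈ R, ((T ^ p ^ a - 1 : End F W) ^ r₁) v = 0 := by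
        refine ⟨p ^ (n - a), fun v _ => ?_⟩
        rw [← sub_one_pow_char p T a, ← pow_mul, ← pow_add, Nat.add_sub_cancel' han, sub_one_pow_char, h.hTn, sub_self]
        rfl
      classical
      set r₁ := Nat.find hex with hr₁
      have hr₁s := Nat.find_spec hex
      have hr₁0 : r₁ ≠ 0 := by
        intro h0
        apply hR0
        rw [eq_bot_iff]
        intro v hv
        have := hr₁s v hv
        rw [← hr₁, h0, pow_zero] at this
        exact this
      have hmul : p ^ a * r₁ ≤ r := by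
        have h1 : ¬ ∀ v ∈ R, ((T ^ p ^ a - 1 : End F W) ^ (r₁ - 1)) v = 0 := Nat.find_min hex (by omega)
        push Not at h1
        have := hk (r₁ - 1) h1
        rwa [Nat.sub_add_cancel (by omega)] at this
      rcases han.eq_or_lt with hanE | hanL
      · left
        rw [← hanE]
        exact (Nat.le_mul_of_pos_right _ (by omega)).trans hmul
      · rcases hIH R hR hRt a hanL (fun v hv => hRT hv) r₁ hr₁s (hnt R hR hR0) with h1 | ⟨n₀, m, h1, h2, h3, h4, h5, h6⟩
        · left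
          refine le_trans ?_ hmul
          calc p ^ n = p ^ a * p ^ (n - a) := by rw [← pow_add, Nat.add_sub_cancel' han]
            _ ≤ _ := Nat.mul_le_mul_left _ h1
        · right
          refine ⟨n₀, m, h1, by omega, h3, h4, h5, ?_⟩
          refine le_trans ?_ hmul
          have h7 : p ^ (n - n₀) = p ^ a * p ^ (n - a - n₀) := by rw [← pow_add]; congr 1; omega
          rw [h7, mul_assoc]
          exact Nat.mul_le_mul_left _ h6

end CfsgLib.HHBMain
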