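import Mathlib

set_option autoImplicit false

/-!
Lower bound for the dimension of the centralizer of a nilpotent operator (helper4).
-/

namespace CfsgLib.HHBLin

open Module Polynomial

variable {F : Type*} [Field F]

variable (F) in
/-- the cyclic module -/
abbrev Cyc (a : ℕ) := F[X] ⧸ (Submodule.span F[X] {(X : F[X]) ^ a})

theorem cyc_finrank (a : ℕ) : finrank F (Cyc F a) = a := by
  have := finrank_quotient_span_eq_natDegree (K := F) (f := (X : F[X]) ^ a)
  rw [natDegree_X_pow] at this
  exact this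

theorem cyc_finite (a : ℕ) : Module.Finite F (Cyc F a) := by
  rcases Nat.eq_zero_or_pos a with h | h
  · have : Subsingleton (Cyc F a) := by
      rw [Submodule.Quotient.subsingleton_iff, h, pow_zero]
      exact Ideal.span_singleton_one
    infer_instance
  · exact FiniteDimensional.of_finrank_pos (by rw [cyc_finrank]; exact h)

theorem cyc_smul {a m : ℕ} (h : m ≤ a) (s : Cyc F m) : (X : F[X]) ^ a • s = 0 := by
  obtain ⟨f, rfl⟩ := Submodule.mkQ_surjective _ s
  rw [← map_smul, Submodule.mkQ_apply, Submodule.Quotient.mk_eq_zero, Submodule.mem_span_singleton]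
  refine ⟨X ^ (a - m) * f, ?_⟩
  rw [smul_eq_mul, smul_eq_mul]
  have : (X : F[X]) ^ a = X ^ (a - m) * X ^ m := by rw [← pow_add, Nat.sub_add_cancel h]
  rw [this]; ring

/-- the injection -/
noncomputable def io {m b : ℕ} (h : m ≤ b) : Cyc F m →ₗ[F[X]] Cyc F b :=
  Submodule.mapQ _ _ (LinearMap.lsmul F[X] F[X] (X ^ (b - m))) (by
    rw [Submodule.span_singleton_le_iff_mem, Submodule.mem_comap, LinearMap.lsmul_apply, smul_eq_mul,
      ← pow_add, Nat.sub_add_cancel h]
    exact Submodule.mem_span_singleton_self _)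

theorem io_inj {m b : ℕ} (h : m ≤ b) : Function.Injective (io (F := F) h) := by
  rw [injective_iff_map_eq_zero]
  intro x hx
  obtain ⟨f, rfl⟩ := Submodule.mkQ_surjective _ x
  have h1 : (Submodule.span F[X] {(X : F[X]) ^ b}).mkQ (X ^ (b - m) * f) = 0 := hx
  rw [Submodule.mkQ_apply, Submodule.Quotient.mk_eq_zero, Submodule.mem_span_singleton] at h1
  obtain ⟨g, hg⟩ := h1
  rw [Submodule.mkQ_apply, Submodule.Quotient.mk_eq_zero, Submodule.mem_span_singleton]
  refine ⟨g, ?_⟩
  have h2 : (X : F[X]) ^ b = X ^ (b - m) * X ^ m := by rw [← pow_add, Nat.sub_add_cancel h]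
  rw [smul_eq_mul, h2] at hg
  have h3 : (X : F[X]) ^ (b - m) * (g * X ^ m) = X ^ (b - m) * f := by rw [← hg]; ring
  exact mul_left_cancel₀ (pow_ne_zero _ X_ne_zero) h3

/-- homs -/
noncomputable def hm {m a b : ℕ} (h : m ≤ a) (h' : m ≤ b) : Cyc F m →ₗ[F] (Cyc F a →ₗ[F[X]] Cyc F b) where
  toFun s := Submodule.liftQ _ (LinearMap.toSpanSingleton F[X] (Cyc F b) (io h' s)) (by
    rw [Submodule.span_singleton_le_iff_mem, LinearMap.mem_ker, LinearMap.toSpanSingleton_apply,
      ← map_smul, cyc_smul h, map_zero])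
  map_add' x y := by
    apply Submodule.linearMap_qext
    rw [LinearMap.add_comp, Submodule.liftQ_mkQ, Submodule.liftQ_mkQ, Submodule.liftQ_mkQ]
    ext
    simp
  map_smul' c x := by
    apply Submodule.linearMap_qext
    rw [LinearMap.smul_comp, Submodule.liftQ_mkQ, Submodule.liftQ_mkQ]
    ext
    simp

theorem hm_one {m a b : ℕ} (h : m ≤ a) (h' : m ≤ b) (s : Cyc F m) :
    hm h h' s ((Submodule.span F[X] {(X : F[X]) ^ a}).mkQ 1) = io h' s := by
  show Submodule.liftQ _ _ _ _ = _
  rw [Submodule.mkQ_apply, Submodule.liftQ_apply, LinearMap.toSpanSingleton_apply, one_smul]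

theorem hm_inj {m a b : ℕ} (h : m ≤ a) (h' : m ≤ b) : Function.Injective (hm (F := F) h h') := by
  intro s t hst
  apply io_inj h'
  rw [← hm_one h h', ← hm_one h h', hst]

theorem exists_cyc {V : Type*} [AddCommGroup V] [Module F V] [FiniteDimensional F V] (N : End F V) (r : ℕ)
    (hr : N ^ r = 0) : ∃ (d : ℕ) (k : Fin d → ℕ), (∀ i, k i ≤ r) ∧
      Nonempty (AEval' N ≃ₗ[F[X]] ∀ i : Fin d, Cyc F (k i)) := by
  have hM : Module.IsTorsion' (AEval' N) (Submonoid.powers (X : F[X])) := by
    intro m
    refine ⟨⟨X ^ r, r, rfl⟩, ?_⟩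
    obtain ⟨v, rfl⟩ := (AEval'.of N).surjective m
    show (X ^ r : F[X]) • AEval'.of N v = 0
    rw [AEval'.X_pow_smul_of, hr]; simp
  classical
  obtain ⟨d, k, ⟨e⟩⟩ := Module.torsion_by_prime_power_decomposition (R := F[X]) (p := (X : F[X])) irreducible_X hM
  let e' : AEval' N ≃ₗ[F[X]] ∀ i : Fin d, Cyc F (k i) :=
    e.trans (DirectSum.linearEquivFunOnFintype F[X] (Fin d) (fun i => Cyc F (k i)))
  refine ⟨d, k, ?_, ⟨e'⟩⟩
  intro i
  have h1 : ∀ m : (∀ i : Fin d, Cyc F (k i)), (X ^ r : F[X]) • m = 0 := by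
    intro m
    obtain ⟨x, rfl⟩ := e'.surjective m
    obtain ⟨v, rfl⟩ := (AEval'.of N).surjective x
    rw [← map_smul, AEval'.X_pow_smul_of, hr]; simp
  have h2 := congrFun (h1 (fun i => (Submodule.span F[X] {(X : F[X]) ^ (k i)}).mkQ 1)) i
  rw [Pi.smul_apply, ← map_smul, Pi.zero_apply, Submodule.mkQ_apply, Submodule.Quotient.mk_eq_zero,
    smul_eq_mul, mul_one, Submodule.mem_span_singleton] at h2
  obtain ⟨g, hg⟩ := h2
  rw [smul_eq_mul] at hg
  have h3 : (X : F[X]) ^ (k i) ∣ X ^ r := ⟨g, by rw [← hg]; ring⟩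
  exact (pow_dvd_pow_iff X_ne_zero not_isUnit_X).1 h3

/-- the centralizer of a nilpotent operator is large -/
theorem cent_dim {V : Type*} [AddCommGroup V] [Module F V] [FiniteDimensional F V] (N : End F V) (r : ℕ)
    (hr : N ^ r = 0) : (finrank F V) ^ 2 ≤
      r * finrank F (LinearMap.ker (LinearMap.mulLeft F N - LinearMap.mulRight F N)) := by
  obtain ⟨d, k, hk, ⟨e⟩⟩ := exists_cyc N r hr
  haveI : ∀ a, Module.Finite F (Cyc F a) := cyc_finite
  have hfV : finrank F V = ∑ i, k i := by
    have e1 := (AEval'.of N).finrank_eq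
    have e2 := (e.restrictScalars F).finrank_eq
    rw [e1, e2, finrank_pi_fintype]
    simp only [cyc_finrank]
  -- the map
  let B : (∀ i j : Fin d, Cyc F (min (k j) (k i))) →ₗ[F] ((∀ i : Fin d, Cyc F (k i)) →ₗ[F[X]] (∀ i : Fin d, Cyc F (k i))) :=
    { toFun := fun G => LinearMap.pi (fun i => ∑ j, (hm (min_le_left (k j) (k i)) (min_le_right (k j) (k i)) (G i j)).comp (LinearMap.proj j))
      map_add' := by
        intro G H
        ext x i
        simp [Finset.sum_add_distrib]
      map_smul' := by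
        intro c G
        ext x i
        simp [Finset.smul_sum] }
  have hB : Function.Injective B := by
    rw [injective_iff_map_eq_zero]
    intro G hG
    funext i j
    have h1 := congrFun (congrArg (fun f => f (Pi.single j ((Submodule.span F[X] {(X : F[X]) ^ (k j)}).mkQ 1))) hG) i
    have h2 : (∑ l, (hm (min_le_left (k l) (k i)) (min_le_right (k l) (k i)) (G i l))
        ((Pi.single j ((Submodule.span F[X] {(X : F[X]) ^ (k j)}).mkQ 1) : ∀ i : Fin d, Cyc F (k i)) l)) = 0 := by
      simpa [B] using h1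
    rw [Finset.sum_eq_single j] at h2
    · rw [Pi.single_eq_same, hm_one] at h2
      exact (injective_iff_map_eq_zero _).1 (io_inj _) _ h2
    · intro l _ hl
      rw [Pi.single_eq_of_ne hl, map_zero]
    · intro h; exact absurd (Finset.mem_univ _) h
  let T : (∀ i j : Fin d, Cyc F (min (k j) (k i))) →ₗ[F] End F V :=
    { toFun := fun G => ((AEval'.of N).symm.toLinearMap ∘ₗ (e.symm.toLinearMap.restrictScalars F)) ∘ₗ ((B G).restrictScalars F) ∘ₗ
        ((e.toLinearMap.restrictScalars F) ∘ₗ (AEval'.of N).toLinearMap)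
      map_add' := by
        intro G H
        ext v
        simp
      map_smul' := by
        intro c G
        apply LinearMap.ext
        intro v
        rw [map_smul]
        show (AEval'.of N).symm ((e.symm.toLinearMap.restrictScalars F) (c • (B G (e (AEval'.of N v))))) = _
        rw [map_smul, map_smul]
        rfl }
  have hTv : ∀ G v, T G v = (AEval'.of N).symm (e.symm (B G (e (AEval'.of N v)))) := fun G v => rfl
  have hT : Function.Injective T := by
    rw [injective_iff_map_eq_zero]
    intro G hG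
    apply (injective_iff_map_eq_zero _).1 hB
    apply LinearMap.ext
    intro x
    obtain ⟨y, rfl⟩ := e.surjective x
    obtain ⟨v, rfl⟩ := (AEval'.of N).surjective y
    have h1 := congrArg (fun f => f v) hG
    simp only [hTv] at h1
    simpa using h1
  have hTN : ∀ G, T G ∈ LinearMap.ker (LinearMap.mulLeft F N - LinearMap.mulRight F N) := by
    intro G
    rw [LinearMap.mem_ker, LinearMap.sub_apply, LinearMap.mulLeft_apply, LinearMap.mulRight_apply, sub_eq_zero]
    apply LinearMap.ext
    intro v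
    show N (T G v) = T G (N v)
    rw [hTv, hTv, ← AEval'.X_smul_of, map_smul, map_smul, map_smul]
    have : ∀ m : AEval' N, (AEval'.of N).symm ((X : F[X]) • m) = N ((AEval'.of N).symm m) := by
      intro m
      exact AEval'.of_symm_X_smul N m
    rw [this]
  have hfin : finrank F (∀ i j : Fin d, Cyc F (min (k j) (k i))) ≤ finrank F (LinearMap.ker (LinearMap.mulLeft F N - LinearMap.mulRight F N)) := by
    refine LinearMap.finrank_le_finrank_of_injective (f := T.codRestrict _ hTN) ?_
    intro x y hxy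
    exact hT (congrArg Subtype.val hxy)
  rw [finrank_pi_fintype] at hfin
  simp only [finrank_pi_fintype, cyc_finrank] at hfin
  refine le_trans ?_ (Nat.mul_le_mul_left r hfin)
  rw [hfV, pow_two, Finset.sum_mul_sum, Finset.mul_sum]
  refine Finset.sum_le_sum fun i _ => ?_
  rw [Finset.mul_sum]
  refine Finset.sum_le_sum fun j _ => ?_
  rcases le_total (k i) (k j) with h | h
  · rw [min_eq_right h, mul_comm]
    exact Nat.mul_le_mul_right _ (hk j)
  · rw [min_eq_left h]
    exact Nat.mul_le_mul_right _ (hk i)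

end CfsgLib.HHBLin
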