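import Cfsg.Agent.LibHHBMain

set_option autoImplicit false

/-!
Hall-Higman theorem B: the reduction to the scalar case (helper4).
-/

namespace CfsgLib.HHBMain

open Module CfsgLib.HHBExt Polynomial
open scoped commutatorElement

universe u v

section Wt

variable {F : Type*} [Field F] {W : Type*} [AddCommGroup W] [Module F W]

theorem wt_indep {ι κ : Type*} (ops : ι → End F W) (χ : κ → (ι → F)) (J : Finset κ) :
    ∀ (v : κ → W), (∀ a ∈ J, ∀ b ∈ J, χ a = χ b → a = b) → (∀ k ∈ J, ∀ i, ops i (v k) = χ k i • v k) →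
      ∑ k ∈ J, v k = 0 → ∀ k ∈ J, v k = 0 := by
  classical
  induction J using Finset.induction_on with
  | empty => intro v _ _ _ k hk; exact absurd hk (Finset.notMem_empty k)
  | insert k₀ J' hk₀ ih =>
    intro v hinj hv hsum
    have h1 : ∀ k ∈ J', v k = 0 := by
      intro k hk
      have hne : χ k ≠ χ k₀ := by
        intro he
        have := hinj k (Finset.mem_insert_of_mem hk) k₀ (Finset.mem_insert_self _ _) he
        rw [this] at hk
        exact hk₀ hk
      obtain ⟨i, hi⟩ := Function.ne_iff.1 hne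
      have h2 : ∀ k' ∈ J', (χ k' i - χ k₀ i) • v k' = 0 := by
        apply ih (fun k' => (χ k' i - χ k₀ i) • v k')
        · intro a ha b hb hab
          exact hinj a (Finset.mem_insert_of_mem ha) b (Finset.mem_insert_of_mem hb) hab
        · intro k' hk' i'
          rw [map_smul, hv k' (Finset.mem_insert_of_mem hk') i', smul_comm]
        · have h3 := congrArg (ops i) hsum
          rw [map_sum, map_zero, Finset.sum_insert hk₀] at h3
          rw [Finset.sum_insert hk₀] at hsum
          have h4 : ∑ k' ∈ J', ops i (v k') = ∑ k' ∈ J', χ k' i • v k' :=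
            Finset.sum_congr rfl fun k' hk' => hv k' (Finset.mem_insert_of_mem hk') i
          rw [h4, hv k₀ (Finset.mem_insert_self _ _) i] at h3
          have h5 : v k₀ = - ∑ k' ∈ J', v k' := eq_neg_of_add_eq_zero_left hsum
          rw [h5, smul_neg, Finset.smul_sum] at h3
          simp only [sub_smul]
          rw [Finset.sum_sub_distrib]
          rw [neg_add_eq_sub] at h3
          exact h3
      exact (smul_eq_zero.1 (h2 k hk)).resolve_left (sub_ne_zero.2 hi)
    intro k hk
    rcases Finset.mem_insert.1 hk with rfl | hk'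
    · rw [Finset.sum_insert hk₀, Finset.sum_eq_zero h1, add_zero] at hsum
      exact hsum
    · exact h1 k hk'

theorem sub_one_pow_char (p : ℕ) [hp : Fact p.Prime] [CharP F p] (T : End F W) (a : ℕ) :
    (T - 1) ^ p ^ a = T ^ p ^ a - 1 := by
  have h1 : ((X : F[X]) - 1) ^ p ^ a = X ^ p ^ a - 1 := by
    rw [sub_pow_char_pow, one_pow]
  have h2 := congrArg (Polynomial.aeval T) h1
  simpa using h2

theorem sub_one_pow_sum (T : End F W) (m : ℕ) : ∃ c : ℕ → F, c m = 1 ∧ (T - 1) ^ m = ∑ i ∈ Finset.range (m + 1), c i • T ^ i := by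
  refine ⟨fun i => (((X : F[X]) - C 1) ^ m).coeff i, ?_, ?_⟩
  · have h1 : (((X : F[X]) - C 1) ^ m).Monic := (monic_X_sub_C 1).pow m
    have h2 : (((X : F[X]) - C 1) ^ m).natDegree = m := by
      rw [(monic_X_sub_C 1).natDegree_pow, natDegree_X_sub_C, mul_one]
    have h3 := h1.coeff_natDegree
    rw [h2] at h3
    exact h3
  · have h2 : (((X : F[X]) - C 1) ^ m).natDegree = m := by
      rw [(monic_X_sub_C 1).natDegree_pow, natDegree_X_sub_C, mul_one]
    have h3 := Polynomial.aeval_eq_sum_range (x := T) (p := ((X : F[X]) - C 1) ^ m)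
    rw [h2] at h3
    rw [← h3]
    simp

end Wt

section Red

variable {F : Type*} [Field F] {p q : ℕ} {Q : Type*} [Group Q] {W : Type*} [AddCommGroup W] [Module F W]
    {ρ : Q →* End F W} {σ : MulAut Q} {T : End F W} {n r : ℕ}

/-- weight spaces of the centre -/
def wt (ρ : Q →* End F W) (χ : cen ρ → F) : Submodule F W where
  carrier := {w | ∀ a : cen ρ, ρ a w = χ a • w}
  add_mem' := by
    intro v w hv hw a
    rw [map_add, hv a, hw a, smul_add]
  zero_mem' := by intro a; simp
  smul_mem' := by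
    intro c v hv a
    rw [map_smul, hv a, smul_comm]

theorem wt_inv (χ : cen ρ → F) (x : Q) : wt ρ χ ≤ (wt ρ χ).comap (ρ x) := by
  intro v hv a
  have h1 := a.2 x
  have h2 : ρ a (ρ x v) = ρ x (ρ a v) := congrArg (fun f : End F W => f v) h1.eq
  rw [h2, hv a, map_smul]

theorem exists_wt [Finite Q] [IsAlgClosed F] [FiniteDimensional F W] [Nontrivial W] (ρ : Q →* End F W) :
    ∃ χ : cen ρ → F, wt ρ χ ≠ ⊥ := by
  haveI : Fintype Q := Fintype.ofFinite Q
  obtain ⟨S, hS, hS0, hirr⟩ := exists_simple ρ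
  haveI : Nontrivial S := Submodule.nontrivial_iff_ne_bot.2 hS0
  have h1 : ∀ a : cen ρ, ∃ c : F, rst ρ S hS a = c • (1 : End F S) := by
    intro a
    apply schur hirr
    intro x
    rw [← map_mul, ← map_mul]
    ext v
    rw [rst_apply, rst_apply, map_mul, map_mul, (a.2 x).eq]
  choose χ hχ using h1
  refine ⟨χ, ?_⟩
  intro hbot
  apply hS0
  rw [eq_bot_iff, ← hbot]
  intro v hv a
  have := congrArg (fun f : End F S => ((f ⟨v, hv⟩ : S) : W)) (hχ a)
  simpa [rst_apply] using this

theorem Cfg.step3 [Finite Q] [IsAlgClosed F] [hpf : Fact p.Prime] [CharP F p] [FiniteDimensional F W] [Nontrivial W]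
    (h : Cfg p q ρ σ T n r)
    (hirrT : ∀ R : Submodule F W, (∀ x, R ≤ R.comap (ρ x)) → R ≤ R.comap T → R = ⊥ ∨ R = ⊤) :
    (∀ a ∈ cen ρ, ∃ c : F, ρ a = c • (1 : End F W)) ∨
    ∃ (R : Submodule F W) (a : ℕ), (∀ x, R ≤ R.comap (ρ x)) ∧ 1 ≤ a ∧ a ≤ n ∧ R ≠ ⊥ ∧ R ≠ ⊤ ∧
      (R ≤ R.comap (T ^ p ^ a)) ∧
      ∀ k, (∃ v ∈ R, ((T ^ p ^ a - 1) ^ k) v ≠ 0) → p ^ a * (k + 1) ≤ r := by
  classical
  have hp := hpf.out
  obtain ⟨χ, hχ⟩ := exists_wt ρ
  obtain ⟨w₀, hw₀, hw₀0⟩ := Submodule.exists_mem_ne_zero_of_ne_bot hχ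
  have hinvσ : ∀ x, x ∈ cen ρ → σ⁻¹ x ∈ cen ρ := by
    intro x hx
    rw [← h.cen_sigma hp, MulAut.apply_inv_self]; exact hx
  let f : (cen ρ → F) → (cen ρ → F) := fun χ a => χ ⟨σ⁻¹ (a : Q), hinvσ a a.2⟩
  have hTf : ∀ χ : cen ρ → F, wt ρ χ ≤ (wt ρ (f χ)).comap T := by
    intro χ v hv a
    have h1 : T (ρ (σ⁻¹ (a : Q)) v) = ρ a (T v) := by
      have := congrArg (fun g : End F W => g v) (h.hT (σ⁻¹ (a : Q)))
      simp only [Module.End.mul_apply, MulAut.apply_inv_self] at this
      exact this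
    rw [← h1]
    have h2 := hv ⟨σ⁻¹ (a : Q), hinvσ a a.2⟩
    rw [show ρ (σ⁻¹ (a : Q)) v = _ from h2, map_smul]
  have hTfk : ∀ k χ, ∀ v ∈ wt ρ χ, (T ^ k) v ∈ wt ρ (f^[k] χ) := by
    intro k
    induction k with
    | zero => intro χ v hv; exact hv
    | succ k ih =>
      intro χ v hv
      rw [pow_succ, Module.End.mul_apply, Function.iterate_succ_apply]
      exact ih _ _ (hTf _ hv)
  have huniq : ∀ χ χ' : cen ρ → F, ∀ v, v ≠ 0 → v ∈ wt ρ χ → v ∈ wt ρ χ' → χ = χ' := by
    intro χ χ' v hv h1 h2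
    funext a
    have := (h1 a).symm.trans (h2 a)
    exact smul_left_injective F hv this
  have hper : Function.IsPeriodicPt f (p ^ n) χ := by
    have h1 := hTfk (p ^ n) χ w₀ hw₀
    rw [h.hTn] at h1
    exact (huniq _ _ w₀ hw₀0 hw₀ h1).symm
  have hdvd := hper.minimalPeriod_dvd
  obtain ⟨a, han, ha⟩ := (Nat.dvd_prime_pow hp).1 hdvd
  obtain ⟨T', hT1, hT2⟩ := h.inv hp
  have hTinj : ∀ v, T v = 0 → v = 0 := by
    intro v hv
    have : T' (T v) = v := congrArg (fun g : End F W => g v) hT2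
    rw [← this, hv, map_zero]
  have hTkinj : ∀ k v, (T ^ k) v = 0 → v = 0 := by
    intro k
    induction k with
    | zero => intro v hv; exact hv
    | succ k ih => intro v hv; rw [pow_succ, Module.End.mul_apply] at hv; exact hTinj v (ih _ hv)
  rcases Nat.eq_zero_or_pos a with ha0 | ha0
  · left
    rw [ha0, pow_zero] at ha
    have hfix : f χ = χ := Function.minimalPeriod_eq_one_iff_isFixedPt.1 ha
    rcases hirrT (wt ρ χ) (wt_inv χ) (by
      have := hTf χ
      rwa [hfix] at this) with h1 | h1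
    · exact absurd h1 hχ
    · intro b hb
      refine ⟨χ ⟨b, hb⟩, ?_⟩
      ext v
      have hv : v ∈ wt ρ χ := h1 ▸ Submodule.mem_top
      exact hv ⟨b, hb⟩
  · right
    have hneq : f χ ≠ χ := by
      intro hfix
      have := Function.minimalPeriod_eq_one_iff_isFixedPt.2 hfix
      rw [this] at ha
      have : 1 < p ^ a := Nat.one_lt_pow (by omega) hp.one_lt
      omega
    have hfa : f^[p ^ a] χ = χ := by
      have := Function.iterate_minimalPeriod (f := f) (x := χ)
      rwa [ha] at this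
    have hRT : wt ρ χ ≤ (wt ρ χ).comap (T ^ p ^ a) := by
      intro v hv
      have := hTfk (p ^ a) χ v hv
      rwa [hfa] at this
    refine ⟨wt ρ χ, a, wt_inv χ, ha0, han, hχ, ?_, hRT, ?_⟩
    · intro htop
      apply hneq
      have h1 : T w₀ ∈ wt ρ χ := htop ▸ Submodule.mem_top
      exact huniq _ _ (T w₀) (fun h0 => hw₀0 (hTinj _ h0)) (hTf χ hw₀) h1
    · rintro k ⟨v, hv, hvk⟩
      by_contra hcon
      push Not at hcon
      set v' := ((T ^ p ^ a - 1) ^ k) v with hv'
      have hv'R : v' ∈ wt ρ χ := by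
        have : ∀ k : ℕ, ((T ^ p ^ a - 1 : End F W) ^ k) v ∈ wt ρ χ := by
          intro k
          induction k with
          | zero => exact hv
          | succ k ih =>
            rw [pow_succ', Module.End.mul_apply, LinearMap.sub_apply]
            exact Submodule.sub_mem _ (hRT ih) ih
        exact this k
      have hpa : 1 ≤ p ^ a := Nat.one_le_iff_ne_zero.2 (pow_ne_zero _ hp.ne_zero)
      have h1 : (T - 1) ^ ((p ^ a - 1) + p ^ a * k) = 0 := by
        have h2 : (p ^ a - 1) + p ^ a * k = ((p ^ a - 1) + p ^ a * k - r) + r := by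
          have : p ^ a * (k + 1) = p ^ a * k + p ^ a := by ring
          omega
        rw [h2, pow_add, h.hr, mul_zero]
      rw [pow_add, pow_mul, sub_one_pow_char] at h1
      obtain ⟨c, hc1, hc2⟩ := sub_one_pow_sum T (p ^ a - 1)
      have h3 := congrArg (fun g : End F W => g v) h1
      simp only [Module.End.mul_apply, LinearMap.zero_apply] at h3
      rw [← hv', hc2, LinearMap.sum_apply, Nat.sub_add_cancel hpa] at h3
      have h4 := wt_indep (fun b : cen ρ => ρ b) (fun i => f^[i] χ) (Finset.range (p ^ a))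
        (fun i => (c i • T ^ i) v') (by
          intro i hi j hj hij
          rw [Finset.mem_range] at hi hj
          exact Function.iterate_injOn_Iio_minimalPeriod (f := f) (x := χ) (by rw [ha]; exact hi) (by rw [ha]; exact hj) hij) (by
          intro i _ b
          have h5 := hTfk i χ v' hv'R
          have h6 := h5 b
          rw [LinearMap.smul_apply, map_smul, h6, smul_comm]) h3 (p ^ a - 1) (Finset.mem_range.2 (by omega))
      rw [hc1, one_smul] at h4
      exact hvk (hTkinj _ _ h4)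

end Red

end CfsgLib.HHBMain
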