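import Mathlib

/-! Kreknin's theorem and Higman's nilpotency bound for `ZMod n`-graded families of additive
subgroups of a Lie ring with trivial zero component. -/

namespace CfsgLib.Kreknin

variable {L : Type*} [LieRing L] {n : ℕ}

/-- A graded family of additive subgroups, with trivial zero component. -/
def IsGr (T : ZMod n → AddSubgroup L) : Prop :=
  (∀ i j x y, x ∈ T i → y ∈ T j → ⁅x, y⁆ ∈ T (i + j)) ∧ T 0 = ⊥

/-- product of two families -/
def br (S T : ZMod n → AddSubgroup L) (k : ZMod n) : AddSubgroup L :=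
  AddSubgroup.closure {z | ∃ i j x y, i + j = k ∧ x ∈ S i ∧ y ∈ T j ∧ z = ⁅x, y⁆}

/-- derived series of a family -/
def ds (T : ZMod n → AddSubgroup L) : ℕ → (ZMod n → AddSubgroup L)
  | 0 => T
  | m + 1 => br (ds T m) (ds T m)

/-- iterated bracketing with `T` -/
def it (S T : ZMod n → AddSubgroup L) : ℕ → (ZMod n → AddSubgroup L)
  | 0 => S
  | m + 1 => br (it S T m) T

theorem mem_br {S T : ZMod n → AddSubgroup L} {i j : ZMod n} {x y : L} (hx : x ∈ S i)
    (hy : y ∈ T j) : ⁅x, y⁆ ∈ br S T (i + j) :=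
  AddSubgroup.subset_closure ⟨i, j, x, y, rfl, hx, hy, rfl⟩

theorem br_le {S T : ZMod n → AddSubgroup L} {k : ZMod n} {M : AddSubgroup L}
    (h : ∀ i j x y, i + j = k → x ∈ S i → y ∈ T j → ⁅x, y⁆ ∈ M) : br S T k ≤ M := by
  rw [br, AddSubgroup.closure_le]
  rintro z ⟨i, j, x, y, hij, hx, hy, rfl⟩
  exact h i j x y hij hx hy

theorem br_mono {S S' T T' : ZMod n → AddSubgroup L} (h : ∀ i, S i ≤ S' i)
    (h' : ∀ i, T i ≤ T' i) (k : ZMod n) : br S T k ≤ br S' T' k :=
  br_le fun i j x y hij hx hy => hij ▸ mem_br (h i hx) (h' j hy)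

theorem ds_le {T : ZMod n → AddSubgroup L} (hT : IsGr T) (m : ℕ) : ∀ i, ds T m i ≤ T i := by
  induction m with
  | zero => exact fun i => le_rfl
  | succ m ih =>
    intro i
    exact br_le fun a b x y hab hx hy => hab ▸ hT.1 a b x y (ih a hx) (ih b hy)

theorem br_isGr {T : ZMod n → AddSubgroup L} (hT : IsGr T) : IsGr (br T T) := by
  have hle := ds_le hT 1
  refine ⟨fun i j x y hx hy => mem_br (hle i hx) (hle j hy), ?_⟩
  have := hle 0
  rw [hT.2] at this
  exact le_bot_iff.1 this

theorem ds_isGr {T : ZMod n → AddSubgroup L} (hT : IsGr T) (m : ℕ) : IsGr (ds T m) := by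
  induction m with
  | zero => exact hT
  | succ m ih => exact br_isGr ih

theorem ds_add (T : ZMod n → AddSubgroup L) (a b : ℕ) : ds (ds T a) b = ds T (a + b) := by
  induction b with
  | zero => rfl
  | succ b ih => rw [ds, ih, ← Nat.add_assoc, ds]

theorem it_add (S T : ZMod n → AddSubgroup L) (a b : ℕ) : it (it S T a) T b = it S T (a + b) := by
  induction b with
  | zero => rfl
  | succ b ih => rw [it, ih, ← Nat.add_assoc, it]

theorem it_mono {S S' T T' : ZMod n → AddSubgroup L} (h : ∀ i, S i ≤ S' i)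
    (h' : ∀ i, T i ≤ T' i) (m : ℕ) : ∀ k, it S T m k ≤ it S' T' m k := by
  induction m with
  | zero => exact h
  | succ m ih => exact fun k => br_mono ih h' k

/-! ### Kreknin -/

/-- homogeneous elements of the subring generated by the components of index `> k`. -/
inductive Gen (T : ZMod n → AddSubgroup L) (k : ℕ) : ZMod n → L → Prop
  | base {i x} : k < i.val → x ∈ T i → Gen T k i x
  | zero {i} : Gen T k i 0
  | add {i x y} : Gen T k i x → Gen T k i y → Gen T k i (x + y)
  | neg {i x} : Gen T k i x → Gen T k i (-x)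
  | brk {i j x y} : Gen T k i x → Gen T k j y → Gen T k (i + j) ⁅x, y⁆

theorem Gen.trans {T V : ZMod n → AddSubgroup L} {k k' : ℕ}
    (h : ∀ j x, k' < j.val → x ∈ V j → Gen T k j x) {i : ZMod n} {x : L} (hx : Gen V k' i x) :
    Gen T k i x := by
  induction hx with
  | base h1 h2 => exact h _ _ h1 h2
  | zero => exact .zero
  | add _ _ ih1 ih2 => exact .add ih1 ih2
  | neg _ ih => exact .neg ih
  | brk _ _ ih1 ih2 => exact .brk ih1 ih2

theorem Gen.mem {T : ZMod n → AddSubgroup L} (hT : IsGr T) {k : ℕ} {i : ZMod n} {x : L}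
    (hx : Gen T k i x) : x ∈ T i := by
  induction hx with
  | base h1 h2 => exact h2
  | zero => exact zero_mem _
  | add _ _ ih1 ih2 => exact add_mem ih1 ih2
  | neg _ ih => exact neg_mem ih
  | brk _ _ ih1 ih2 => exact hT.1 _ _ _ _ ih1 ih2

theorem Gen.of_closure {T : ZMod n → AddSubgroup L} {k : ℕ} {i : ZMod n} {s : Set L}
    (h : ∀ x ∈ s, Gen T k i x) {x : L} (hx : x ∈ AddSubgroup.closure s) : Gen T k i x := by
  induction hx using AddSubgroup.closure_induction with
  | mem x hx => exact h x hx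
  | zero => exact .zero
  | add x y _ _ h1 h2 => exact .add h1 h2
  | neg x _ h1 => exact .neg h1

theorem brk_gen_mem {T : ZMod n → AddSubgroup L} (hT : IsGr T) {k : ℕ} {j : ZMod n} {b : L}
    (hb : Gen T k j b) : ∀ i a, a ∈ T i → ⁅a, b⁆ ∈ AddSubgroup.closure
      {z | ∃ l l' u y, l + l' = i + j ∧ u ∈ T l ∧ k < l'.val ∧ y ∈ T l' ∧ z = ⁅u, y⁆} := by
  induction hb with
  | @base j b h1 h2 =>
    intro i a ha
    exact AddSubgroup.subset_closure ⟨i, j, a, b, rfl, ha, h1, h2, rfl⟩
  | zero => intro i a ha; rw [lie_zero]; exact zero_mem _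
  | add _ _ ih1 ih2 => intro i a ha; rw [lie_add]; exact add_mem (ih1 i a ha) (ih2 i a ha)
  | neg _ ih => intro i a ha; rw [lie_neg]; exact neg_mem (ih i a ha)
  | @brk j j' x y hx hy ih1 ih2 =>
    intro i a ha
    have e : ⁅a, ⁅x, y⁆⁆ = ⁅⁅a, x⁆, y⁆ - ⁅⁅a, y⁆, x⁆ := by
      rw [leibniz_lie a x y, ← lie_skew x ⁅a, y⁆]; abel
    rw [e]
    refine sub_mem ?_ ?_
    · have := ih2 (i + j) _ (hT.1 _ _ _ _ ha (hx.mem hT))
      rwa [add_assoc] at this
    · have := ih1 (i + j') _ (hT.1 _ _ _ _ ha (hy.mem hT))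
      rwa [add_assoc, add_comm j' j] at this

theorem kreknin_aux [NeZero n] (k : ℕ) : ∀ T : ZMod n → AddSubgroup L, IsGr T →
    ∀ i x, x ∈ ds T (2 ^ k - 1) i → Gen T k i x := by
  induction k with
  | zero =>
    intro T hT i x hx
    have hx' : x ∈ T i := hx
    by_cases hi : i = 0
    · subst hi
      rw [hT.2, AddSubgroup.mem_bot] at hx'
      subst hx'
      exact .zero
    · exact .base (Nat.pos_of_ne_zero fun h => hi ((ZMod.val_eq_zero i).1 h)) hx'
  | succ k ih =>
    intro T hT i x hx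
    have h1 : 1 ≤ 2 ^ k := Nat.one_le_two_pow
    have e : 2 ^ (k + 1) - 1 = (2 ^ k - 1 + 1) + (2 ^ k - 1) := by rw [pow_succ]; omega
    rw [e, ← ds_add] at hx
    have hV : IsGr (ds T (2 ^ k - 1 + 1)) := ds_isGr hT _
    refine (ih _ hV i x hx).trans ?_
    intro j y hj hy
    by_cases hjk : k + 1 < j.val
    · exact .base hjk (ds_le hT _ j hy)
    have hjk' : j.val = k + 1 := by omega
    refine Gen.of_closure (s := _) ?_ hy
    rintro z ⟨i1, i2, a, b, hab, ha, hb, rfl⟩
    have ha' : a ∈ T i1 := ds_le hT _ _ ha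
    have hb' := ih T hT i2 b hb
    refine Gen.of_closure ?_ (brk_gen_mem hT hb' i1 a ha')
    rintro z ⟨l, l', u, y, hll, hu, hl', hy', rfl⟩
    rw [hab] at hll
    by_cases hlj : l' = j
    · have : l = 0 := by
        have := hll
        rw [hlj] at this
        simpa using this
      subst this
      rw [hT.2, AddSubgroup.mem_bot] at hu
      rw [hu, zero_lie]
      exact .zero
    have h2 : k + 1 < l'.val := by
      rcases Nat.lt_or_ge (k + 1) l'.val with h | h
      · exact h
      · exact absurd (ZMod.val_injective n (by omega : l'.val = j.val)) hlj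
    have h3 : k + 1 < l.val := by
      have h4 : (l + l').val = (l.val + l'.val) % n := ZMod.val_add l l'
      rw [hll, hjk'] at h4
      have h5 := ZMod.val_lt l'
      have h6 := ZMod.val_lt l
      rcases Nat.lt_or_ge (l.val + l'.val) n with h | h
      · rw [Nat.mod_eq_of_lt h] at h4; omega
      · have : (l.val + l'.val) % n = l.val + l'.val - n := by
          rw [Nat.mod_eq_sub_mod h, Nat.mod_eq_of_lt (by omega)]
        omega
    rw [← hll]
    exact .brk (.base h3 hu) (.base h2 hy')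

/-- **Kreknin's theorem**. -/
theorem kreknin [NeZero n] {T : ZMod n → AddSubgroup L} (hT : IsGr T) (i : ZMod n) :
    ds T (2 ^ (n - 1) - 1) i = ⊥ := by
  rw [eq_bot_iff]
  intro x hx
  have h := kreknin_aux (n - 1) T hT i x hx
  rw [AddSubgroup.mem_bot]
  clear hx
  induction h with
  | @base i x h1 h2 =>
    have := ZMod.val_lt i
    omega
  | zero => rfl
  | add _ _ h1 h2 => rw [h1, h2, add_zero]
  | neg _ h1 => rw [h1, neg_zero]
  | brk _ _ h1 h2 => rw [h1, zero_lie]

/-! ### Higman -/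

/-- subset sums of a list -/
def sums : List (ZMod n) → Set (ZMod n)
  | [] => {0}
  | k :: ks => sums ks ∪ (fun x => k + x) '' sums ks

theorem sums_card {p : ℕ} [hp : Fact p.Prime] (ks : List (ZMod p)) (h : ∀ k ∈ ks, k ≠ 0) :
    min p (ks.length + 1) ≤ (sums ks).ncard := by
  induction ks with
  | nil => simp [sums]
  | cons k ks ih =>
    have hk : k ≠ 0 := h k (by simp)
    have ih' := ih fun x hx => h x (by simp [hx])
    have hfin : (sums ks).Finite := Set.toFinite _
    by_cases hu : sums ks = Set.univ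
    · have : sums (k :: ks) = Set.univ := by
        rw [sums, hu, Set.univ_union]
      rw [this, Set.ncard_univ, Nat.card_zmod]
      exact min_le_left _ _
    · have hne : ¬ ((fun x => k + x) '' sums ks ⊆ sums ks) := by
        intro hsub
        apply hu
        have hne : (sums ks).Nonempty := by
          rw [← Set.ncard_pos hfin]
          have : 0 < min p (ks.length + 1) := lt_min hp.out.pos (Nat.succ_pos _)
          omega
        obtain ⟨a, ha⟩ := hne
        have key : ∀ m : ℕ, a + m * k ∈ sums ks := by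
          intro m
          induction m with
          | zero => simpa using ha
          | succ m ihm =>
            have := hsub ⟨_, ihm, rfl⟩
            have e : k + (a + m * k) = a + ((m + 1 : ℕ) : ZMod p) * k := by push_cast; ring
            rw [← e]; exact this
        rw [Set.eq_univ_iff_forall]
        intro b
        have := key ((b - a) / k).val
        rw [ZMod.natCast_zmod_val, div_mul_cancel₀ _ hk] at this
        simpa using this
      have hlt : (sums ks).ncard < (sums (k :: ks)).ncard := by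
        apply Set.ncard_lt_ncard _ (Set.toFinite _)
        rw [sums]
        refine ⟨Set.subset_union_left, fun hh => hne (Set.subset_union_right.trans hh)⟩
      simp only [List.length_cons]
      omega

theorem sums_univ {p : ℕ} [hp : Fact p.Prime] (ks : List (ZMod p)) (h : ∀ k ∈ ks, k ≠ 0)
    (hl : ks.length + 1 = p) : sums ks = Set.univ := by
  have h1 := sums_card ks h
  rw [hl, min_self] at h1
  apply Set.eq_of_subset_of_ncard_le (Set.subset_univ _) _ (Set.toFinite _)
  rw [Set.ncard_univ, Nat.card_zmod]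
  exact h1

/-- iterated brackets -/
def D (ys : List (ZMod n × L)) (a : L) : L := ys.foldl (fun a y => ⁅a, y.2⁆) a

@[simp] theorem D_nil (a : L) : D ([] : List (ZMod n × L)) a = a := rfl
@[simp] theorem D_cons (y : ZMod n × L) (ys : List (ZMod n × L)) (a : L) :
    D (y :: ys) a = D ys ⁅a, y.2⁆ := rfl
theorem D_append (ys : List (ZMod n × L)) (y : ZMod n × L) (a : L) :
    D (ys ++ [y]) a = ⁅D ys a, y.2⁆ := by simp [D, List.foldl_append]

theorem D_sub (ys : List (ZMod n × L)) (a b : L) : D ys (a - b) = D ys a - D ys b := by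
  induction ys generalizing a b with
  | nil => rfl
  | cons y ys ih => rw [D_cons, D_cons, D_cons, sub_lie, ih]

theorem D_zero (ys : List (ZMod n × L)) : D ys (0 : L) = 0 := by
  have := D_sub ys (0 : L) 0
  simpa using this

theorem D_mem {S T : ZMod n → AddSubgroup L}
    (hS : ∀ i j x y, x ∈ S i → y ∈ T j → ⁅x, y⁆ ∈ S (i + j))
    (ys : List (ZMod n × L)) (hys : ∀ y ∈ ys, y.2 ∈ T y.1) (i : ZMod n) (a : L) (ha : a ∈ S i) :
    D ys a ∈ S (i + (ys.map Prod.fst).sum) := by
  induction ys generalizing i a with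
  | nil => simpa using ha
  | cons y ys ih =>
    rw [D_cons, List.map_cons, List.sum_cons, ← add_assoc]
    exact ih (fun z hz => hys z (by simp [hz])) _ _ (hS _ _ _ _ ha (hys y (by simp)))

theorem D_swap {S T M : ZMod n → AddSubgroup L}
    (hS : ∀ i j x y, x ∈ S i → y ∈ T j → ⁅x, y⁆ ∈ S (i + j))
    (hM : ∀ i j x y, x ∈ M i → y ∈ T j → ⁅x, y⁆ ∈ M (i + j))
    (hc : ∀ i j k a y z, a ∈ S i → y ∈ T j → z ∈ T k → ⁅a, ⁅y, z⁆⁆ ∈ M (i + j + k))
    (ys : List (ZMod n × L)) (hys : ∀ y ∈ ys, y.2 ∈ T y.1) (y : ZMod n × L) (hy : y.2 ∈ T y.1)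
    (i : ZMod n) (a : L) (ha : a ∈ S i) :
    D (y :: ys) a - D (ys ++ [y]) a ∈ M (i + y.1 + (ys.map Prod.fst).sum) := by
  induction ys generalizing i a with
  | nil => simp
  | cons z zs ih =>
    have hz := hys z (by simp)
    have hzs : ∀ y ∈ zs, y.2 ∈ T y.1 := fun y hy => hys y (by simp [hy])
    have h1 := ih hzs (i + z.1) ⁅a, z.2⁆ (hS _ _ _ _ ha hz)
    have h2 := D_mem hM zs hzs _ _ (hc i y.1 z.1 a y.2 z.2 ha hy hz)
    have e : ⁅a, ⁅y.2, z.2⁆⁆ = ⁅⁅a, y.2⁆, z.2⁆ - ⁅⁅a, z.2⁆, y.2⁆ := by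
      rw [leibniz_lie a y.2 z.2, ← lie_skew y.2 ⁅a, z.2⁆]; abel
    rw [e, D_sub] at h2
    rw [D_cons] at h1
    simp only [D_cons, List.cons_append, List.map_cons, List.sum_cons] at h1 h2 ⊢
    have e2 : D zs ⁅⁅a, y.2⁆, z.2⁆ - D (zs ++ [y]) ⁅a, z.2⁆
      = (D zs ⁅⁅a, y.2⁆, z.2⁆ - D zs ⁅⁅a, z.2⁆, y.2⁆) + (D zs ⁅⁅a, z.2⁆, y.2⁆ - D (zs ++ [y]) ⁅a, z.2⁆) := by
      abel
    rw [e2]
    refine add_mem ?_ ?_
    · rw [← add_assoc]; exact h2
    · have e3 : i + y.1 + (z.1 + (List.map Prod.fst zs).sum)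
        = i + z.1 + y.1 + (List.map Prod.fst zs).sum := by ring
      rw [e3]; exact h1

theorem D_mem_of_sums {S T M : ZMod n → AddSubgroup L}
    (hS : ∀ i j x y, x ∈ S i → y ∈ T j → ⁅x, y⁆ ∈ S (i + j))
    (hM : ∀ i j x y, x ∈ M i → y ∈ T j → ⁅x, y⁆ ∈ M (i + j))
    (hc : ∀ i j k a y z, a ∈ S i → y ∈ T j → z ∈ T k → ⁅a, ⁅y, z⁆⁆ ∈ M (i + j + k))
    (hS0 : S 0 = ⊥)
    (ys : List (ZMod n × L)) (hys : ∀ y ∈ ys, y.2 ∈ T y.1)
    (i : ZMod n) (a : L) (ha : a ∈ S i) (hi : -i ∈ sums (ys.map Prod.fst)) :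
    D ys a ∈ M (i + (ys.map Prod.fst).sum) := by
  induction ys generalizing i a with
  | nil =>
    have h0 : -i = 0 := hi
    have : i = 0 := neg_eq_zero.1 h0
    subst this
    rw [hS0, AddSubgroup.mem_bot] at ha
    subst ha
    simp
  | cons y zs ih =>
    have hy := hys y (by simp)
    have hzs : ∀ y ∈ zs, y.2 ∈ T y.1 := fun y hy => hys y (by simp [hy])
    rw [List.map_cons, sums] at hi
    rcases hi with hi | ⟨x, hx, hxi⟩
    · have h1 := ih hzs i a ha hi
      have h2 := hM _ _ _ _ h1 hy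
      rw [← D_append] at h2
      have h3 := D_swap hS hM hc zs hzs y hy i a ha
      have e : i + (List.map Prod.fst zs).sum + y.1 = i + (List.map Prod.fst (y :: zs)).sum := by
        rw [List.map_cons, List.sum_cons]; ring
      have e' : i + y.1 + (List.map Prod.fst zs).sum = i + (List.map Prod.fst (y :: zs)).sum := by
        rw [List.map_cons, List.sum_cons]; ring
      rw [e] at h2
      rw [e'] at h3
      have := add_mem h3 h2
      rwa [sub_add_cancel] at this
    · have hx' : x = -(i + y.1) := by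
        have : y.1 + x = -i := hxi
        rw [neg_add, ← this]; ring
      rw [hx'] at hx
      have := ih hzs (i + y.1) ⁅a, y.2⁆ (hS _ _ _ _ ha hy) hx
      rw [D_cons, List.map_cons, List.sum_cons, ← add_assoc]
      exact this

theorem it_mem_closure {S T : ZMod n → AddSubgroup L} (r : ℕ) : ∀ k, it S T r k ≤
    AddSubgroup.closure {z | ∃ (i : ZMod n) (a : L) (ys : List (ZMod n × L)), a ∈ S i ∧
      (∀ y ∈ ys, y.2 ∈ T y.1) ∧ ys.length = r ∧ i + (ys.map Prod.fst).sum = k ∧ z = D ys a} := by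
  induction r with
  | zero =>
    intro k x hx
    exact AddSubgroup.subset_closure ⟨k, x, [], hx, by simp, rfl, by simp, rfl⟩
  | succ r ih =>
    intro k
    refine br_le fun i j x y hij hx hy => ?_
    have hx' := ih i hx
    clear hx
    induction hx' using AddSubgroup.closure_induction with
    | mem x hx =>
      obtain ⟨i', a, ys, ha, hys, hl, hs, rfl⟩ := hx
      apply AddSubgroup.subset_closure
      refine ⟨i', a, ys ++ [(j, y)], ha, ?_, by simp [hl], ?_, (D_append ys (j, y) a).symm⟩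
      · intro z hz
        rw [List.mem_append, List.mem_singleton] at hz
        rcases hz with hz | hz
        · exact hys z hz
        · rw [hz]; exact hy
      · rw [List.map_append, List.sum_append, ← add_assoc, hs]; simpa using hij
    | zero => rw [zero_lie]; exact zero_mem _
    | add x y _ _ h1 h2 => rw [add_lie]; exact add_mem h1 h2
    | neg x _ h1 => rw [neg_lie]; exact neg_mem h1

theorem it_le {p : ℕ} [hp : Fact p.Prime] {S T M : ZMod p → AddSubgroup L}
    (hS : ∀ i j x y, x ∈ S i → y ∈ T j → ⁅x, y⁆ ∈ S (i + j))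
    (hM : ∀ i j x y, x ∈ M i → y ∈ T j → ⁅x, y⁆ ∈ M (i + j))
    (hc : ∀ i j k a y z, a ∈ S i → y ∈ T j → z ∈ T k → ⁅a, ⁅y, z⁆⁆ ∈ M (i + j + k))
    (hS0 : S 0 = ⊥) (hT0 : T 0 = ⊥) (k : ZMod p) : it S T (p - 1) k ≤ M k := by
  refine (it_mem_closure _ k).trans ?_
  rw [AddSubgroup.closure_le]
  rintro z ⟨i, a, ys, ha, hys, hl, hk, rfl⟩
  have hp1 : 1 ≤ p := hp.out.one_le
  by_cases h0 : ∀ k ∈ ys.map Prod.fst, k ≠ 0
  · have hu := sums_univ (ys.map Prod.fst) h0 (by rw [List.length_map, hl]; omega)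
    rw [← hk]
    exact D_mem_of_sums hS hM hc hS0 ys hys i a ha (by rw [hu]; trivial)
  · push Not at h0
    obtain ⟨k', hk', hk0⟩ := h0
    rw [List.mem_map] at hk'
    obtain ⟨y, hy, hyk⟩ := hk'
    have hy0 : y.2 = 0 := by
      have := hys y hy
      rw [hyk, hk0, hT0, AddSubgroup.mem_bot] at this
      exact this
    have : D ys a = 0 := by
      obtain ⟨s, t, rfl⟩ := List.append_of_mem hy
      rw [D, List.foldl_append, List.foldl_cons, hy0, lie_zero]
      exact D_zero t
    show D ys a ∈ M k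
    rw [this]
    exact zero_mem _

/-- the Higman bound -/
def hf (p : ℕ) : ℕ → ℕ
  | 0 => 0
  | s + 1 => 1 + (p - 1) * hf p s

theorem itK_ideal {T : ZMod n → AddSubgroup L} (hT : IsGr T) (m : ℕ) :
    ∀ i j x y, x ∈ it (br T T) (br T T) m i → y ∈ T j → ⁅x, y⁆ ∈ it (br T T) (br T T) m (i + j) := by
  have h0 : ∀ i j x y, x ∈ br T T i → y ∈ T j → ⁅x, y⁆ ∈ br T T (i + j) := by
    intro i j x y hx hy
    exact mem_br (ds_le hT 1 i hx) hy
  induction m with
  | zero => exact h0
  | succ m ih =>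
    intro i j x y hx hy
    induction hx using AddSubgroup.closure_induction with
    | mem x hx =>
      obtain ⟨a, b, u, v, hab, hu, hv, rfl⟩ := hx
      have e : ⁅⁅u, v⁆, y⁆ = ⁅⁅u, y⁆, v⁆ + ⁅u, ⁅v, y⁆⁆ := by
        rw [leibniz_lie u v y, ← lie_skew v ⁅u, y⁆]; abel
      rw [e, ← hab]
      refine add_mem ?_ ?_
      · have : a + b + j = (a + j) + b := by ring
        rw [this]
        exact mem_br (ih _ _ _ _ hu hy) hv
      · rw [add_assoc]
        exact mem_br hu (h0 _ _ _ _ hv hy)
    | zero => rw [zero_lie]; exact zero_mem _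
    | add x y _ _ h1 h2 => rw [add_lie]; exact add_mem h1 h2
    | neg x _ h1 => rw [neg_lie]; exact neg_mem h1

theorem it_self_zero {T : ZMod n → AddSubgroup L} (hT : IsGr T) (m : ℕ) : ∀ i, it T T m i ≤ T i := by
  induction m with
  | zero => exact fun i => le_rfl
  | succ m ih =>
    intro i
    exact br_le fun a b x y hab hx hy => hab ▸ hT.1 a b x y (ih a hx) hy

theorem it_T_le {p : ℕ} [hp : Fact p.Prime] {T : ZMod p → AddSubgroup L} (hT : IsGr T) (m : ℕ) :
    ∀ k, it T T (1 + (p - 1) * m) k ≤ it (br T T) (br T T) m k := by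
  induction m with
  | zero => intro k; exact le_rfl
  | succ m ih =>
    intro k
    have e : 1 + (p - 1) * (m + 1) = (1 + (p - 1) * m) + (p - 1) := by ring
    rw [e, ← it_add]
    refine (it_mono ih (fun i => le_rfl) (p - 1) k).trans ?_
    refine it_le (itK_ideal hT m) (itK_ideal hT (m + 1)) ?_ ?_ hT.2 k
    · intro i j k a y z ha hy hz
      rw [add_assoc]
      exact mem_br ha (mem_br hy hz)
    · have h1 := it_self_zero (br_isGr hT) m 0
      rw [(br_isGr hT).2] at h1
      exact le_bot_iff.1 h1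

theorem higman {p : ℕ} [hp : Fact p.Prime] (s : ℕ) : ∀ {T : ZMod p → AddSubgroup L}, IsGr T →
    (∀ i, ds T s i = ⊥) → ∀ i, it T T (hf p s) i = ⊥ := by
  induction s with
  | zero => intro T hT h i; exact h i
  | succ s ih =>
    intro T hT h i
    have hK := br_isGr hT
    have h1 : ∀ i, ds (br T T) s i = ⊥ := by
      intro i
      have := ds_add T 1 s
      have e : ds T 1 = br T T := rfl
      rw [e] at this
      rw [this, add_comm 1 s]
      exact h i
    have h2 := ih hK h1 i
    have h3 := it_T_le hT (hf p s) i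
    rw [h2] at h3
    exact le_bot_iff.1 h3

/-- **Higman–Kreknin–Kostrikin** for graded families. -/
theorem hkk {p : ℕ} [hp : Fact p.Prime] {T : ZMod p → AddSubgroup L} (hT : IsGr T) (i : ZMod p) :
    it T T (hf p (2 ^ (p - 1) - 1)) i = ⊥ :=
  higman _ hT (kreknin hT) i

theorem hf_eq (p s : ℕ) : hf p s = Finset.sum (Finset.range s) (fun i => (p - 1) ^ i) := by
  induction s with
  | zero => rfl
  | succ s ih =>
    rw [hf, ih, Finset.sum_range_succ', Finset.mul_sum, pow_zero, add_comm]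
    congr 1
    exact Finset.sum_congr rfl fun i _ => by rw [pow_succ, mul_comm]

end CfsgLib.Kreknin
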