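import Mathlib
import Cfsg.Agent.LibKreknin
import Cfsg.Agent.LibGrLie

/-! Higman–Kreknin–Kostrikin: class of a finite nilpotent group with a fixed-point-free
automorphism of prime order. -/

namespace CfsgLib.HKK

open CfsgLib.Kreknin CfsgLib.GrLie
open scoped commutatorElement TensorProduct

attribute [-instance] LieAlgebra.ExtendScalars.instBracketTensorProduct
  LieAlgebra.ExtendScalars.instLieRingModule LieAlgebra.ExtendScalars.instLieModule

theorem lie_iSup_mem {L : Type*} [LieRing L] {n : ℕ} {S T : ZMod n → AddSubgroup L} {a b : L}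
    (ha : a ∈ ⨆ k, S k) (hb : b ∈ ⨆ k, T k) : ⁅a, b⁆ ∈ ⨆ k, br S T k := by
  refine AddSubgroup.iSup_induction S (C := fun a => ⁅a, b⁆ ∈ ⨆ k, br S T k) ha ?_ ?_ ?_
  · intro i a ha
    refine AddSubgroup.iSup_induction T (C := fun b => ⁅a, b⁆ ∈ ⨆ k, br S T k) hb ?_ ?_ ?_
    · intro j b hb
      exact AddSubgroup.mem_iSup_of_mem (i + j) (mem_br ha hb)
    · show ⁅a, (0 : L)⁆ ∈ _
      rw [lie_zero]; exact zero_mem _
    · intro x y h1 h2
      show ⁅a, x + y⁆ ∈ _
      rw [lie_add]; exact add_mem h1 h2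
  · show ⁅(0 : L), b⁆ ∈ _
    rw [zero_lie]; exact zero_mem _
  · intro x y h1 h2
    show ⁅x + y, b⁆ ∈ _
    rw [add_lie]; exact add_mem h1 h2

theorem dec3 : ∀ i1 i2 l : ZMod 3, i1 + i2 ≠ 0 → i1 ≠ 0 → i2 ≠ 0 → l ≠ 0 → i1 + i2 + l ≠ 0 →
    i1 + l = 0 := by decide

theorem dec3' : ∀ i1 i2 l : ZMod 3, i1 + i2 ≠ 0 → i1 ≠ 0 → i2 ≠ 0 → l ≠ 0 → i1 + i2 + l ≠ 0 →
    i2 + l = 0 := by decide

/-- p = 3 -/
theorem three {L : Type*} [LieRing L] {T : ZMod 3 → AddSubgroup L} (hT : IsGr T) (i : ZMod 3) :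
    it T T 2 i = ⊥ := by
  have h0 : ∀ x, x ∈ T 0 → x = 0 := by
    intro x hx; rwa [hT.2, AddSubgroup.mem_bot] at hx
  rw [eq_bot_iff]
  refine br_le fun k l x c hkl hx hc => ?_
  rw [AddSubgroup.mem_bot]
  induction hx using AddSubgroup.closure_induction with
  | mem x hx =>
    obtain ⟨i1, i2, a, b, hab, ha, hb, rfl⟩ := hx
    have ha : a ∈ T i1 := ha
    by_cases h1 : i1 + i2 = 0
    · have := hT.1 _ _ _ _ ha hb
      rw [h1] at this
      rw [h0 _ this, zero_lie]
    by_cases h2 : i1 = 0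
    · subst h2; rw [h0 _ ha, zero_lie, zero_lie]
    by_cases h3 : i2 = 0
    · subst h3; rw [h0 _ hb, lie_zero, zero_lie]
    by_cases h4 : l = 0
    · subst h4; rw [h0 _ hc, lie_zero]
    by_cases h5 : i1 + i2 + l = 0
    · have := hT.1 _ _ _ _ (hT.1 _ _ _ _ ha hb) hc
      rw [h5] at this
      exact h0 _ this
    have h6 : i1 + l = 0 := dec3 i1 i2 l h1 h2 h3 h4 h5
    have h7 : i2 + l = 0 := dec3' i1 i2 l h1 h2 h3 h4 h5
    have e : ⁅⁅a, b⁆, c⁆ = ⁅⁅a, c⁆, b⁆ + ⁅a, ⁅b, c⁆⁆ := by
      rw [leibniz_lie a b c, ← lie_skew b ⁅a, c⁆]; abel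
    have e1 := hT.1 _ _ _ _ ha hc
    have e2 := hT.1 _ _ _ _ hb hc
    rw [h6] at e1
    rw [h7] at e2
    rw [e, h0 _ e1, h0 _ e2, zero_lie, lie_zero, add_zero]
  | zero => rw [zero_lie]
  | add x y _ _ h1 h2 => rw [add_lie, h1, h2, add_zero]
  | neg x _ h1 => rw [neg_lie, h1, neg_zero]

section R
open Polynomial

/-- the polynomial `1 + X + ⋯ + X^(p-1)` -/
noncomputable def gp (p : ℕ) : Polynomial ℤ := ∑ i ∈ Finset.range p, Polynomial.X ^ i

theorem gp_monic {p : ℕ} (hp : 1 ≤ p) : (gp p).Monic := by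
  obtain ⟨q, rfl⟩ : ∃ q, p = q + 1 := ⟨p - 1, by omega⟩
  exact monic_geom_sum_X (by omega)

theorem gp_natDegree {p : ℕ} (hp : 1 ≤ p) : (gp p).natDegree = p - 1 := by
  obtain ⟨q, rfl⟩ : ∃ q, p = q + 1 := ⟨p - 1, by omega⟩
  have h : (gp (q + 1)) = Polynomial.X ^ q + ∑ i ∈ Finset.range q, Polynomial.X ^ i := by
    rw [gp, Finset.sum_range_succ, add_comm]
  rw [h]
  rw [natDegree_add_eq_left_of_degree_lt]
  · simp
  · rw [degree_X_pow]
    refine lt_of_le_of_lt (degree_sum_le _ _) ?_
    refine (Finset.sup_lt_iff (WithBot.bot_lt_coe q)).2 ?_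
    intro i hi
    rw [degree_X_pow]
    exact WithBot.coe_lt_coe.2 (Finset.mem_range.1 hi)

/-- the ring `ℤ[ω]` -/
abbrev RR (p : ℕ) : Type := AdjoinRoot (gp p)

theorem root_sum (p : ℕ) : ∑ i ∈ Finset.range p, (AdjoinRoot.root (gp p)) ^ i = 0 := by
  calc ∑ i ∈ Finset.range p, (AdjoinRoot.root (gp p)) ^ i
      = eval₂ (AdjoinRoot.of (gp p)) (AdjoinRoot.root (gp p))
        (∑ i ∈ Finset.range p, Polynomial.X ^ i) := by
        rw [eval₂_finset_sum]
        exact Finset.sum_congr rfl fun i _ => by rw [eval₂_pow, eval₂_X]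
    _ = 0 := AdjoinRoot.eval₂_root (gp p)

theorem root_pow (p : ℕ) : (AdjoinRoot.root (gp p)) ^ p = 1 := by
  have h := geom_sum_mul (AdjoinRoot.root (gp p)) p
  rw [root_sum, zero_mul] at h
  exact (sub_eq_zero.1 h.symm)

/-- a functional with value `1` at `1` -/
theorem exists_coord {p : ℕ} (hp : 2 ≤ p) : ∃ c : RR p →ₗ[ℤ] ℤ, c 1 = 1 := by
  let B := AdjoinRoot.powerBasis' (gp_monic (p := p) (by omega))
  have hd : B.dim = p - 1 := by
    rw [AdjoinRoot.powerBasis'_dim]; exact gp_natDegree (by omega)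
  have h0 : 0 < B.dim := by omega
  refine ⟨B.basis.coord ⟨0, h0⟩, ?_⟩
  have : B.basis ⟨0, h0⟩ = 1 := by rw [B.basis_eq_pow]; simp
  rw [← this, Module.Basis.coord_apply, Module.Basis.repr_self, Finsupp.single_eq_same]

end R

section main

variable {G : Type*} [Group G]

/-- the extended Lie ring -/
abbrev MM (p : ℕ) (G : Type*) [Group G] : Type _ := RR p ⊗[ℤ] Lie G

theorem one_tmul_inj {p : ℕ} (hp : 2 ≤ p) {l : Lie G} (h : (1 : RR p) ⊗ₜ[ℤ] l = 0) : l = 0 := by
  obtain ⟨c, hc⟩ := exists_coord hp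
  have h1 := congrArg (TensorProduct.lid ℤ (Lie G)) (congrArg (TensorProduct.map c LinearMap.id) h)
  simpa [hc] using h1

theorem card_nsmul_Lie [Finite G] (x : Lie G) : Nat.card G • x = 0 := by
  induction x using ind with
  | h0 => rw [smul_zero]
  | hi i g hg =>
    rw [← io_pow]
    exact (io_congr _ _ rfl (pow_card_eq_one' (x := g))).trans (io_one i)
  | ha x y h1 h2 => rw [smul_add, h1, h2, add_zero]
  | hn x h1 => rw [smul_neg, h1, neg_zero]

theorem card_nsmul_MM [Finite G] {p : ℕ} (x : MM p G) : Nat.card G • x = 0 := by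
  induction x using TensorProduct.induction_on with
  | zero => rw [smul_zero]
  | tmul r l => rw [← TensorProduct.tmul_smul, card_nsmul_Lie, TensorProduct.tmul_zero]
  | add x y h1 h2 => rw [smul_add, h1, h2, add_zero]

theorem eq_zero_of_nsmul [Finite G] {p : ℕ} {q : ℕ} (hq : Nat.Coprime q (Nat.card G)) {x : MM p G}
    (h : q • x = 0) : x = 0 := by
  have h1 := addOrderOf_dvd_of_nsmul_eq_zero h
  have h2 := addOrderOf_dvd_of_nsmul_eq_zero (card_nsmul_MM x)
  have h3 := Nat.dvd_gcd h1 h2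
  rw [hq, Nat.dvd_one, AddMonoid.addOrderOf_eq_one_iff] at h3
  exact h3

/-- the linear extension -/
noncomputable def ph (p : ℕ) (α : G →* G) : MM p G →ₗ[RR p] MM p G :=
  LinearMap.baseChange (RR p) (mp α).toIntLinearMap

theorem ph_tmul {p : ℕ} (α : G →* G) (r : RR p) (l : Lie G) :
    ph p α (r ⊗ₜ[ℤ] l) = r ⊗ₜ[ℤ] (mp α l) := by
  rw [ph, LinearMap.baseChange_tmul]; rfl

theorem ph_lie {p : ℕ} (α : G →* G) (x y : MM p G) : ph p α ⁅x, y⁆ = ⁅ph p α x, ph p α y⁆ := by
  induction x using TensorProduct.induction_on with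
  | zero => rw [zero_lie, map_zero, zero_lie]
  | tmul r l =>
    induction y using TensorProduct.induction_on with
    | zero => rw [lie_zero, map_zero, lie_zero]
    | tmul s m =>
      rw [LieAlgebra.ExtendScalars.bracket_tmul, ph_tmul, ph_tmul, ph_tmul,
        LieAlgebra.ExtendScalars.bracket_tmul, mp_lie]
    | add x y h1 h2 => rw [lie_add, map_add, h1, h2, map_add, lie_add]
  | add x y h1 h2 => rw [add_lie, map_add, h1, h2, map_add, add_lie]

/-- partial norms -/
def nrm (α : G →* G) (g : G) : ℕ → G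
  | 0 => 1
  | m + 1 => nrm α g m * (α^[m] g)

theorem iter_mem {i : ℕ} (α : G →* G) {g : G} (hg : g ∈ lcs G i) (m : ℕ) : α^[m] g ∈ lcs G i := by
  induction m with
  | zero => exact hg
  | succ m ih => rw [Function.iterate_succ_apply']; exact map_mem α ih

theorem nrm_mem {i : ℕ} (α : G →* G) {g : G} (hg : g ∈ lcs G i) (m : ℕ) : nrm α g m ∈ lcs G i := by
  induction m with
  | zero => exact one_mem _
  | succ m ih => exact mul_mem ih (iter_mem α hg m)

theorem iter_mp_io {i : ℕ} (α : G →* G) {g : G} (hg : g ∈ lcs G i) (m : ℕ) :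
    (mp α)^[m] (io i g hg) = io i (α^[m] g) (iter_mem α hg m) := by
  induction m with
  | zero => rfl
  | succ m ih =>
    rw [Function.iterate_succ_apply', ih, mp_io]
    exact io_congr _ _ rfl (Function.iterate_succ_apply' _ _ _).symm

theorem io_nrm {i : ℕ} (α : G →* G) {g : G} (hg : g ∈ lcs G i) (m : ℕ) :
    io i (nrm α g m) (nrm_mem α hg m) = ∑ j ∈ Finset.range m, (mp α)^[j] (io i g hg) := by
  induction m with
  | zero => rw [Finset.sum_range_zero]; exact io_one i
  | succ m ih =>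
    rw [Finset.sum_range_succ, ← ih, iter_mp_io, ← io_mul]
    rfl

theorem nrm_eq_one [Finite G] {p : ℕ} (α : G →* G) (hα : ∀ g, α^[p] g = g)
    (hfpf : ∀ g, α g = g → g = 1) (g : G) : nrm α g p = 1 := by
  have hinj : Function.Injective (fun k : G => k⁻¹ * α k) := by
    intro a b hab
    have h1 : a⁻¹ * α a = b⁻¹ * α b := hab
    have h2 : α (b * a⁻¹) = b * a⁻¹ := by
      rw [map_mul, map_inv]
      have h3 : α a = a * (b⁻¹ * α b) := by rw [← h1]; group
      rw [h3]
      group
    have := hfpf _ h2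
    rw [mul_inv_eq_one] at this
    exact this.symm
  obtain ⟨k, hk⟩ := (Finite.injective_iff_surjective.1 hinj) g
  have key : ∀ m, nrm α g m = k⁻¹ * α^[m] k := by
    intro m
    induction m with
    | zero => simp [nrm]
    | succ m ih =>
      have hk' : g = k⁻¹ * α k := hk.symm
      have h4 : ∀ m (x y : G), α^[m] (x * y) = α^[m] x * α^[m] y := by
        intro m
        induction m with
        | zero => intro x y; rfl
        | succ m ihm =>
          intro x y
          rw [Function.iterate_succ_apply', Function.iterate_succ_apply',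
            Function.iterate_succ_apply', ihm, map_mul]
      have h5 : α^[m] g = (α^[m] k)⁻¹ * α^[m + 1] k := by
        have h6 : α^[m] (k * g) = α^[m + 1] k := by
          rw [hk', mul_inv_cancel_left, Function.iterate_succ_apply]
        rw [← h6, h4, inv_mul_cancel_left]
      rw [nrm, ih, h5]
      group
  rw [key, hα, inv_mul_cancel]

variable {p : ℕ} [hp : Fact p.Prime]

/-- powers of `ph` indexed by `ZMod p` -/
noncomputable def Ph (α : G →* G) (j : ZMod p) (x : MM p G) : MM p G := (ph p α)^[j.val] x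

theorem ph_iter (α : G →* G) (hα : ∀ g, α^[p] g = g) (x : MM p G) : (ph p α)^[p] x = x := by
  have key : ∀ m (r : RR p) (l : Lie G), (ph p α)^[m] (r ⊗ₜ[ℤ] l) = r ⊗ₜ[ℤ] ((mp α)^[m] l) := by
    intro m
    induction m with
    | zero => intro r l; rfl
    | succ m ih =>
      intro r l
      rw [Function.iterate_succ_apply', Function.iterate_succ_apply', ih, ph_tmul]
  have hadd : ∀ m (x y : MM p G), (ph p α)^[m] (x + y) = (ph p α)^[m] x + (ph p α)^[m] y := by
    intro m
    induction m with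
    | zero => intro x y; rfl
    | succ m ih =>
      intro x y
      rw [Function.iterate_succ_apply', Function.iterate_succ_apply',
        Function.iterate_succ_apply', ih, map_add]
  have hadd' : ∀ m (x y : Lie G), (mp α)^[m] (x + y) = (mp α)^[m] x + (mp α)^[m] y := by
    intro m
    induction m with
    | zero => intro x y; rfl
    | succ m ih =>
      intro x y
      rw [Function.iterate_succ_apply', Function.iterate_succ_apply',
        Function.iterate_succ_apply', ih, map_add]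
  have hneg' : ∀ m (x : Lie G), (mp α)^[m] (-x) = -(mp α)^[m] x := by
    intro m
    induction m with
    | zero => intro x; rfl
    | succ m ih =>
      intro x
      rw [Function.iterate_succ_apply', Function.iterate_succ_apply', ih, map_neg]
  have hL : ∀ l : Lie G, (mp α)^[p] l = l := by
    intro l
    induction l using ind with
    | h0 =>
      have := hadd' p 0 0
      rw [add_zero] at this
      exact (left_eq_add.1 this)
    | hi i g hg => rw [iter_mp_io]; exact io_congr _ _ rfl (hα g)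
    | ha x y h1 h2 => rw [hadd', h1, h2]
    | hn x h1 => rw [hneg', h1]
  induction x using TensorProduct.induction_on with
  | zero =>
    have := hadd p 0 0
    rw [add_zero] at this
    exact (left_eq_add.1 this)
  | tmul r l => rw [key, hL]
  | add x y h1 h2 => rw [hadd, h1, h2]

theorem Ph_succ (α : G →* G) (hα : ∀ g, α^[p] g = g) (j : ZMod p) (x : MM p G) :
    Ph α (j + 1) x = ph p α (Ph α j x) := by
  have hp1 : 1 < p := hp.out.one_lt
  rw [Ph, Ph, ← Function.iterate_succ_apply' (ph p α)]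
  have h := ZMod.val_lt j
  have hv : (j + 1).val = (j.val + 1) % p := by
    rw [ZMod.val_add]
    congr 1
    rw [ZMod.val_one]
  rcases Nat.lt_or_ge (j.val + 1) p with h1 | h1
  · rw [hv, Nat.mod_eq_of_lt h1]
  · have h2 : j.val + 1 = p := by omega
    rw [hv]
    show _ = (ph p α)^[j.val + 1] x
    rw [h2, Nat.mod_self]
    exact (ph_iter α hα x).symm

/-- character -/
noncomputable def ch : AddChar (ZMod p) (RR p) := AddChar.zmodChar p (root_pow p)

theorem sum_val {B : Type*} [AddCommMonoid B] (f : ℕ → B) :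
    ∑ j : ZMod p, f j.val = ∑ j ∈ Finset.range p, f j := by
  refine Finset.sum_bij (fun j _ => j.val) ?_ ?_ ?_ ?_
  · intro a _; exact Finset.mem_range.2 (ZMod.val_lt a)
  · intro a _ b _ h; exact ZMod.val_injective p h
  · intro b hb
    exact ⟨(b : ZMod p), Finset.mem_univ _, ZMod.val_cast_of_lt (Finset.mem_range.1 hb)⟩
  · intro a _; rfl

theorem ch_sum : ∑ j : ZMod p, (ch j : RR p) = 0 := by
  have h : ∀ j : ZMod p, (ch j : RR p) = (AdjoinRoot.root (gp p)) ^ j.val := by
    intro j; exact AddChar.zmodChar_apply (root_pow p) j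
  simp_rw [h]
  rw [sum_val (fun j => (AdjoinRoot.root (gp p)) ^ j)]
  exact root_sum p

/-- eigenspaces -/
noncomputable def TT (α : G →* G) (k : ZMod p) : AddSubgroup (MM p G) where
  carrier := {x | ph p α x = (ch k : RR p) • x}
  zero_mem' := by show _ = _; rw [map_zero, smul_zero]
  add_mem' := by
    intro a b ha hb
    show ph p α (a + b) = (ch k : RR p) • (a + b)
    rw [map_add, smul_add]
    exact congrArg₂ _ ha hb
  neg_mem' := by
    intro a ha
    show ph p α (-a) = (ch k : RR p) • (-a)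
    rw [map_neg, smul_neg]
    exact congrArg _ ha

theorem mem_TT {α : G →* G} {k : ZMod p} {x : MM p G} :
    x ∈ TT α k ↔ ph p α x = (ch k : RR p) • x := Iff.rfl

theorem sum_Ph_zero [Finite G] (α : G →* G) (hα : ∀ g, α^[p] g = g)
    (hfpf : ∀ g, α g = g → g = 1) (x : MM p G) : ∑ j : ZMod p, Ph α j x = 0 := by
  show ∑ j : ZMod p, (ph p α)^[j.val] x = 0
  rw [sum_val (fun j => (ph p α)^[j] x)]
  have key : ∀ m (r : RR p) (l : Lie G), (ph p α)^[m] (r ⊗ₜ[ℤ] l) = r ⊗ₜ[ℤ] ((mp α)^[m] l) := by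
    intro m
    induction m with
    | zero => intro r l; rfl
    | succ m ih =>
      intro r l
      rw [Function.iterate_succ_apply', Function.iterate_succ_apply', ih, ph_tmul]
  have hpow : ∀ m (x : MM p G), (ph p α)^[m] x = ((ph p α) ^ m) x := by
    intro m x; rw [Module.End.pow_apply]
  have hpow' : ∀ m (x : Lie G), (mp α)^[m] x = ((mp α).toIntLinearMap ^ m) x := by
    intro m x
    rw [Module.End.pow_apply]; rfl
  have hL : ∀ l : Lie G, ∑ j ∈ Finset.range p, (mp α)^[j] l = 0 := by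
    intro l
    induction l using ind with
    | h0 => simp_rw [hpow', map_zero]; exact Finset.sum_const_zero
    | hi i g hg =>
      rw [← io_nrm]
      exact (io_congr _ _ rfl (nrm_eq_one α hα hfpf g)).trans (io_one i)
    | ha x y h1 h2 =>
      simp_rw [hpow'] at h1 h2 ⊢
      simp_rw [map_add]
      rw [Finset.sum_add_distrib, h1, h2, add_zero]
    | hn x h1 =>
      simp_rw [hpow'] at h1 ⊢
      simp_rw [map_neg]
      rw [Finset.sum_neg_distrib, h1, neg_zero]
  induction x using TensorProduct.induction_on with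
  | zero => simp_rw [hpow, map_zero]; exact Finset.sum_const_zero
  | tmul r l => simp_rw [key]; rw [← TensorProduct.tmul_sum, hL, TensorProduct.tmul_zero]
  | add x y h1 h2 =>
    simp_rw [hpow] at h1 h2 ⊢
    simp_rw [map_add]
    rw [Finset.sum_add_distrib, h1, h2, add_zero]

theorem TT_isGr [Finite G] (α : G →* G) (hα : ∀ g, α^[p] g = g)
    (hfpf : ∀ g, α g = g → g = 1) (hcop : Nat.Coprime p (Nat.card G)) : IsGr (TT (p := p) α) := by
  refine ⟨?_, ?_⟩
  · intro i j x y hx hy
    rw [mem_TT] at hx hy ⊢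
    have e1 := smul_lie (ch i : RR p) x ((ch j : RR p) • y)
    have e2 := lie_smul (ch j : RR p) x y
    rw [ph_lie, hx, hy, e1, e2, AddChar.map_add_eq_mul, mul_smul]
  · rw [eq_bot_iff]
    intro x hx
    rw [mem_TT, AddChar.map_zero_eq_one, one_smul] at hx
    rw [AddSubgroup.mem_bot]
    have h1 : ∀ j : ZMod p, Ph α j x = x := by
      intro j
      rw [Ph]
      generalize j.val = m
      induction m with
      | zero => rfl
      | succ m ih => rw [Function.iterate_succ_apply', ih, hx]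
    have h2 := sum_Ph_zero (p := p) α hα hfpf x
    simp_rw [h1] at h2
    rw [Finset.sum_const, Finset.card_univ, ZMod.card] at h2
    exact eq_zero_of_nsmul hcop h2

theorem nsmul_mem_iSup (α : G →* G) (hα : ∀ g, α^[p] g = g) (x : MM p G) :
    p • x ∈ ⨆ k, TT (p := p) α k := by
  let E : ZMod p → MM p G := fun k => ∑ j : ZMod p, (ch (-(j * k)) : RR p) • Ph α j x
  have hE : ∀ k, E k ∈ TT α k := by
    intro k
    rw [mem_TT]
    show ph p α (∑ j : ZMod p, (ch (-(j * k)) : RR p) • Ph α j x) = _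
    rw [map_sum]
    simp_rw [map_smul, ← Ph_succ α hα]
    rw [← Equiv.sum_comp (Equiv.subRight (1 : ZMod p))]
    show _ = (ch k : RR p) • ∑ j : ZMod p, (ch (-(j * k)) : RR p) • Ph α j x
    rw [Finset.smul_sum]
    refine Finset.sum_congr rfl fun j _ => ?_
    rw [Equiv.subRight_apply, sub_add_cancel, smul_smul, ← AddChar.map_add_eq_mul]
    congr 2
    ring
  have hsum : ∑ k : ZMod p, E k = p • x := by
    show ∑ k : ZMod p, ∑ j : ZMod p, (ch (-(j * k)) : RR p) • Ph α j x = _
    rw [Finset.sum_comm]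
    simp_rw [← Finset.sum_smul]
    rw [Finset.sum_eq_single (0 : ZMod p)]
    · simp only [zero_mul, neg_zero, AddChar.map_zero_eq_one]
      rw [Finset.sum_const, Finset.card_univ, ZMod.card, Ph, ZMod.val_zero,
        Function.iterate_zero_apply]
      rw [nsmul_eq_mul, mul_one, Nat.cast_smul_eq_nsmul]
    · intro j _ hj
      have h1 : ∑ k : ZMod p, (ch (-(j * k)) : RR p) = ∑ k : ZMod p, (ch k : RR p) := by
        rw [← Equiv.sum_comp (Equiv.mulLeft₀ (-j) (neg_ne_zero.2 hj)) (fun k => (ch k : RR p))]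
        refine Finset.sum_congr rfl fun k _ => ?_
        show _ = (ch (-j * k) : RR p)
        rw [neg_mul]
      rw [h1, ch_sum, zero_smul]
    · intro h; exact absurd (Finset.mem_univ _) h
  rw [← hsum]
  exact sum_mem fun k _ => AddSubgroup.mem_iSup_of_mem k (hE k)

theorem chain (α : G →* G) (hα : ∀ g, α^[p] g = g) (m : ℕ) :
    ∀ (g : G) (hg : g ∈ lcs G m), p ^ (m + 1) • ((1 : RR p) ⊗ₜ[ℤ] io m g hg) ∈
      ⨆ k, it (TT (p := p) α) (TT (p := p) α) m k := by
  induction m with
  | zero => intro g hg; rw [Nat.zero_add, pow_one]; exact nsmul_mem_iSup α hα _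
  | succ m ih =>
    intro g hg
    have hg' : g ∈ Subgroup.closure {x | ∃ p ∈ lcs G m, ∃ q ∈ (⊤ : Subgroup G), ⁅p, q⁆ = x} := hg
    have hle : Subgroup.closure {x | ∃ p ∈ lcs G m, ∃ q ∈ (⊤ : Subgroup G), ⁅p, q⁆ = x}
      ≤ lcs G (m + 1) := le_rfl
    revert hg
    induction hg' using Subgroup.closure_induction with
    | mem x hx =>
      intro hg
      obtain ⟨a, ha, b, hb', rfl⟩ := hx
      have hb : b ∈ lcs G 0 := hb'
      have h1 := lie_iSup_mem (ih a ha) (nsmul_mem_iSup α hα ((1 : RR p) ⊗ₜ[ℤ] io 0 b hb))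
      have h2 : ⁅p ^ (m + 1) • ((1 : RR p) ⊗ₜ[ℤ] io m a ha), p • ((1 : RR p) ⊗ₜ[ℤ] io 0 b hb)⁆
          = p ^ (m + 1 + 1) • ((1 : RR p) ⊗ₜ[ℤ] io (m + 1) ⁅a, b⁆ hg) := by
        rw [nsmul_lie, lie_nsmul, LieAlgebra.ExtendScalars.bracket_tmul, one_mul, lie_io, smul_smul,
          ← pow_succ]
      rw [h2] at h1
      exact h1
    | one =>
      intro hg
      rw [io_one, TensorProduct.tmul_zero, smul_zero]; exact zero_mem _
    | mul x y hx hy h1 h2 =>
      intro hg
      rw [io_mul (hle hx) (hle hy), TensorProduct.tmul_add, smul_add]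
      exact add_mem (h1 _) (h2 _)
    | inv x hx h1 =>
      intro hg
      rw [io_inv (hle hx), TensorProduct.tmul_neg, smul_neg]
      exact neg_mem (h1 _)

theorem class_bound [Finite G] (α : G →* G) (hα : ∀ g, α^[p] g = g)
    (hfpf : ∀ g, α g = g → g = 1) (hcop : Nat.Coprime p (Nat.card G))
    (hnil : Group.IsNilpotent G) (m : ℕ)
    (hm : ∀ T : ZMod p → AddSubgroup (MM p G), IsGr T → ∀ i, it T T m i = ⊥) :
    lcs G m = ⊥ := by
  have h1 : lcs G m ≤ lcs G (m + 1) := by
    intro g hg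
    rw [← io_zero_iff hg]
    apply one_tmul_inj hp.out.two_le
    have h2 := chain α hα m g hg
    simp_rw [hm _ (TT_isGr α hα hfpf hcop)] at h2
    rw [iSup_bot, AddSubgroup.mem_bot] at h2
    exact eq_zero_of_nsmul (Nat.Coprime.pow_left _ hcop) h2
  have h3 : ∀ k, lcs G m ≤ lcs G (m + k) := by
    intro k
    induction k with
    | zero => exact le_rfl
    | succ k ih =>
      refine h1.trans ?_
      have := Subgroup.commutator_mono ih (le_refl (⊤ : Subgroup G))
      exact this
  obtain ⟨c, hc⟩ := Subgroup.nilpotent_iff_lowerCentralSeries.1 hnil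
  rw [eq_bot_iff, ← hc]
  exact (h3 c).trans (lcs_anti (Nat.le_add_left c m))

end main

end CfsgLib.HKK
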