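import Cfsg.Agent.EqBase
import Mathlib
import Cfsg.Agent.LibGraphC
import Cfsg.Agent.LibUniqAll

/-!
The graphs of an `S(3, 6, 22)` in coordinates.
-/

set_option autoImplicit false

namespace CfsgLib.HSG

open Cfsg CfsgLib.Golay CfsgLib.Uniq CfsgLib.GraphC

/-- adjacency of the block graph -/
def rows77 : List ℕ := [75945607896481483259904, 19356445021832522762240, 11812063921949378646016, 114666226684123722874880, 59334082356725372952576, 235845091398868566016, 106474609106911045615616, 94458597822270913118208, 123081892790351014936576, 94454517473039662186496, 79131962193696897908736, 78546886011259040301058, 76046893852487894302724, 80396675440765254631440, 23796662764978561877248, 101235732638566589661220, 28975233406841464815625, 29533887196878648389632, 5019478803288032347200, 22469467780478738104609, 85612649802700137971760, 23713436577806917044492, 47334563729858214528130, 1780619716884546199874, 120420802674828735873058, 57927676486526096906240, 60970228743187497048, 3325170339224945311880, 15500025644687172831377, 57406997817827216335877, 43114730907274035335360, 47399212890371675433472, 16878774486619515781800, 7831800864936183333633,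 43728584555217837621831, 3985361732108194750976, 38702719228471702324832, 40234078919501254087168, 40331536173322496016513, 11818184012628897095691, 21861985871117381021992, 80449133279646516314132, 70838974021991577689121, 5033961534026136815688, 39275604119930533931236, 68130455198210490688, 11004635765047461693952, 10480128534625015833728, 114012407590610088640518, 86222675874051585736754, 225252038985111538960, 1779534342367133847633, 19298176604873813918732, 8340306221991441011074, 2047588605925672616852, 14832046979442371204634, 9183122201922109, 1144042888630784, 37727647836422277, 42787134822025632, 3487865633513614, 17943754887397888, 2260872361748262, 396401869657264, 18070618628031491, 23116497606506496, 69031875651313761, 19283555708325994, 4741201647669523, 56718386382604288, 29924360312226824, 9009308235205716, 45051420862636032, 36807807723569476, 4509097758802642, 303967238095128, 846623971262409]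

/-- adjacency of the point-block graph -/
def rows100 : List ℕ := [8388606, 1267649995765319594182115852289, 1109658910687600102329552994305, 644353836675799281044461453313, 12728489599606688597871165441, 640056218201060056642829156353, 164037336044360639919738060801, 217921138101947075284543995905, 80059903479244788144371924993, 316940002594133437531918696449, 360859545372504375909232410625, 49684474662151949251694821377, 21201903246591114661806997505, 20815305035112197111616110593, 656137688388283513825157709825, 317040159883047311195290730497, 80790172822848350318242037761, 752745736990861821315450404865, 7664679460521968453317296129, 169694801680897465760559923201, 430803181282359372896591151105, 240164242640341561717404205057, 44895878754783742886401802241, 637077933965287742325902639232, 162373629561704475103513944584, 99086773912175933305003967500, 961890026492253734698007929216, 497730357930285317352966916392, 1978412020469280043837704196, 893173757751106852539525794320, 792376149360684359950709822736, 1032485750516280846705085659200, 792341920910480294534939225088, 663807011113743347372412438080, 658899036369135675541780204800, 637927582146130770050986019776,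 674416194775806941123338572288, 199620875643601283991978950920, 849226876697740802564827493120, 243061874758497566484070424072, 247748202410833804910458364960, 42106440045092414451982278948, 188487557179066186294228289312, 718170959036128798991010244240, 198922723784083726774763078192, 397071099980798457256388348064, 14936920802015439328632718724, 1010162908684489732374622175568, 485932570396284708716464787456, 511455348596932583238550592, 27893550508985090042799786500, 130023639123227975510672040516, 481564801150607929572868647184, 361672576606606231006486290440, 397613416445874959514630897880, 141589422688652363043334292072, 65697907390010587001982550812, 366821954228576794417194619232, 33431637308856659353599639876, 324661940141711549895704973704, 337507916296759576045657129008, 338325446995822476664091576392, 99138112953810867208090291316, 183391629574342231380130497560, 674856243022709003924861395024, 594240384192670724535582208056, 42227929996023923501176000588, 329467646925282236379837964512, 571519681519350107872429224, 92313575615763257545583497892, 87913690066583684822937413772, 956405394413852514450560587920, 723288228618476124524020798656,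 1889551056246818536613609620, 14927816020655677931327206404, 161884838653057314429187823648, 69963559496247177997025902628, 17176418160376944719107900032, 124420227948126110626162987028, 77033612368021419070034, 9596927327911310037002, 316482448461794606328354, 358924501465122793128586, 29258337556217370626114, 150523125798465027195650, 18965571980740364632498, 3325259895021883006978, 151587335988053989923078, 193915236753921248665622, 579081344343615826044234, 161762189683309100471330, 39772082071253744370706, 475788309756205396656226, 251023728310028435195930, 75575555136312551960706, 377918709459675523452034, 308766270332396698272002, 37825053532273915723974, 2549862005222696584710, 7101996618323614384174]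

theorem rows77_len : rows77.length = 77 := by decide +kernel
theorem rows100_len : rows100.length = 100 := by decide +kernel
theorem rows77_lt : ∀ r ∈ rows77, r < 2 ^ 77 := by decide +kernel
theorem rows100_lt : ∀ r ∈ rows100, r < 2 ^ 100 := by decide +kernel
theorem rows77_deg : (rows77.all fun r => Nat.beq (popw 4 r) 16) = true := by decide +kernel
theorem rows100_deg : (rows100.all fun r => Nat.beq (popw 5 r) 22) = true := by decide +kernel
theorem rows77_pairs : pairsAll 4 0 4 rows77 0 rows77 = true := by decide +kernel
theorem rows100_pairs : pairsAll 5 0 6 rows100 0 rows100 = true := by decide +kernel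

theorem rows77_adj : ((List.range 77).all fun i => (List.range 77).all fun j =>
    ((rows77.getD i 0).testBit j == (!(Nat.beq i j) && Nat.beq (Nat.land (V22.getD i 0) (V22.getD j 0)) 0))) = true := by
  decide +kernel

theorem rows100_0 : rows100.getD 0 0 = 8388606 := by decide +kernel

theorem rows100_pt : ((List.range 22).all fun i => and ((rows100.getD (i + 1) 0).testBit 0)
    (and ((List.range 22).all fun j => not ((rows100.getD (i + 1) 0).testBit (j + 1)))
      ((List.range 77).all fun j => ((rows100.getD (i + 1) 0).testBit (23 + j) == (V22.getD j 0).testBit i)))) = true := by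
  decide +kernel

theorem rows100_bl : ((List.range 77).all fun i => and (not ((rows100.getD (23 + i) 0).testBit 0))
    (and ((List.range 22).all fun j => (rows100.getD (23 + i) 0).testBit (j + 1) == (V22.getD i 0).testBit j)
      ((List.range 77).all fun j => ((rows100.getD (23 + i) 0).testBit (23 + j) ==
        (rows77.getD i 0).testBit j)))) = true := by
  decide +kernel

section blocks

variable {α : Type*} [DecidableEq α] {v : ℕ} {B : Set (Finset α)} {V : List ℕ} {e : Fin v ≃ α}

/-- the numbering of the blocks -/
noncomputable def blk (hB : B = (fun m => im e m) '' {m | m ∈ V}) (hV : V.Nodup) (hlt : ∀ m ∈ V, m < 2 ^ v) :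
    B ≃ Fin V.length :=
  (Equiv.ofBijective (fun j : Fin V.length => (⟨im e (V.get j), by rw [hB]; exact ⟨_, V.get_mem j, rfl⟩⟩ : B)) (by
    constructor
    · intro i j h
      have h1 := im_injective e (hlt _ (V.get_mem i)) (hlt _ (V.get_mem j)) (congrArg Subtype.val h)
      exact hV.get_inj_iff.1 h1
    · rintro ⟨b, hb⟩
      have hb' := hb
      rw [hB] at hb'
      obtain ⟨m, hm, hmb⟩ := hb'
      obtain ⟨j, hj⟩ := List.get_of_mem hm
      refine ⟨j, Subtype.ext ?_⟩
      change im e (V.get j) = b
      rw [hj]; exact hmb)).symm

theorem blk_spec (hB : B = (fun m => im e m) '' {m | m ∈ V}) (hV : V.Nodup) (hlt : ∀ m ∈ V, m < 2 ^ v) (b : B) :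
    (b : Finset α) = im e (V.getD (blk hB hV hlt b) 0) := by
  have h1 : (blk hB hV hlt).symm (blk hB hV hlt b) = b := Equiv.symm_apply_apply _ _
  have h2 : ((blk hB hV hlt).symm (blk hB hV hlt b) : Finset α) = im e (V.get (blk hB hV hlt b)) := rfl
  rw [h1] at h2
  rw [h2, List.getD_eq_getElem _ _ (blk hB hV hlt b).2]
  rfl

theorem disjoint_im {a b : ℕ} (ha : a < 2 ^ v) : Disjoint (im e a) (im e b) ↔ Nat.land a b = 0 := by
  rw [Finset.disjoint_iff_inter_eq_empty, ← im_and]
  have h0 : im e 0 = ∅ := by
    rw [im]
    have : fs v 0 = ∅ := by ext i; simp
    rw [this, Finset.image_empty]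
  constructor
  · intro h
    rw [← h0] at h
    exact im_injective e (lt_of_le_of_lt Nat.and_le_left ha) (Nat.two_pow_pos v) h
  · intro h
    have h' : a &&& b = 0 := h
    rw [h', h0]

end blocks

theorem V22_lt : ∀ m ∈ V22, m < 2 ^ 22 := by decide +kernel

section graphs

variable {α : Type*} [DecidableEq α] {B : Set (Finset α)} {e : Fin 22 ≃ α}

/-- the numbering of the blocks -/
noncomputable def bl (hB : B = (fun m => im e m) '' {m | m ∈ V22}) : B ≃ Fin 77 :=
  (blk hB V22_nodup V22_lt).trans (finCongr V22_length)

theorem bl_spec (hB : B = (fun m => im e m) '' {m | m ∈ V22}) (b : B) :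
    (b : Finset α) = im e (V22.getD (bl hB b) 0) := blk_spec hB V22_nodup V22_lt b

theorem getD_lt (b : Fin 77) : V22.getD b 0 < 2 ^ 22 := by
  have hb : (b : ℕ) < V22.length := by rw [V22_length]; exact b.2
  rw [List.getD_eq_getElem _ _ hb]
  exact V22_lt _ (List.getElem_mem hb)

theorem blockGraph_adj (hB : B = (fun m => im e m) '' {m | m ∈ V22}) (x y : B) :
    (blockGraph B).Adj x y ↔ (rows77.getD (bl hB x) 0).testBit (bl hB y) = true := by
  have h1 := List.all_eq_true.1 rows77_adj (bl hB x) (List.mem_range.2 (bl hB x).2)
  have h2 := List.all_eq_true.1 h1 (bl hB y) (List.mem_range.2 (bl hB y).2)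
  rw [beq_iff_eq] at h2
  rw [h2, Bool.and_eq_true, Bool.not_eq_true', blockGraph, SimpleGraph.fromRel_adj]
  have h3 : Disjoint (x : Finset α) (y : Finset α) ↔
      Nat.land (V22.getD (bl hB x) 0) (V22.getD (bl hB y) 0) = 0 := by
    rw [bl_spec hB x, bl_spec hB y]
    exact disjoint_im (getD_lt _)
  rw [beq_iff, ← h3, disjoint_comm (a := (y : Finset α)), or_self]
  constructor
  · rintro ⟨h4, h5⟩
    refine ⟨?_, h5⟩
    rw [← Bool.not_eq_true, beq_iff]
    intro h6
    exact h4 ((bl hB).injective (Fin.ext h6))
  · rintro ⟨h4, h5⟩
    refine ⟨?_, h5⟩
    rintro rfl
    rw [Nat.beq_refl] at h4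
    exact absurd h4 (by decide)

/-- the numbering of the vertices of the point-block graph -/
noncomputable def vx (hB : B = (fun m => im e m) '' {m | m ∈ V22}) : Option (α ⊕ B) ≃ Fin 100 :=
  (Equiv.optionCongr ((Equiv.sumCongr e.symm (bl hB)).trans finSumFinEquiv)).trans (finSuccEquiv 99).symm

theorem vx_none (hB : B = (fun m => im e m) '' {m | m ∈ V22}) : (vx hB none : ℕ) = 0 := rfl

theorem vx_inl (hB : B = (fun m => im e m) '' {m | m ∈ V22}) (a : α) :
    (vx hB (some (Sum.inl a)) : ℕ) = (e.symm a : ℕ) + 1 := by
  have : vx hB (some (Sum.inl a)) = (Fin.castAdd 77 (e.symm a)).succ := rfl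
  rw [this, Fin.val_succ, Fin.val_castAdd]

theorem vx_inr (hB : B = (fun m => im e m) '' {m | m ∈ V22}) (b : B) :
    (vx hB (some (Sum.inr b)) : ℕ) = 23 + (bl hB b : ℕ) := by
  have : vx hB (some (Sum.inr b)) = (Fin.natAdd 22 (bl hB b)).succ := rfl
  rw [this, Fin.val_succ, Fin.val_natAdd]
  omega

theorem pointBlock_adj (hB : B = (fun m => im e m) '' {m | m ∈ V22}) (x y : Option (α ⊕ B)) :
    (pointBlockGraph B).Adj x y ↔ (rows100.getD (vx hB x) 0).testBit (vx hB y) = true := by
  rw [pointBlockGraph, SimpleGraph.fromRel_adj]
  rcases x with _ | (a | b) <;> rcases y with _ | (a' | b')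
  · rw [vx_none, rows100_0]
    simp only [ne_eq, not_true_eq_false, false_and, false_iff]
    decide
  · rw [vx_none, rows100_0, vx_inl]
    simp only [pointBlockRel, ne_eq, reduceCtorEq, not_false_eq_true, true_or, and_self, true_iff]
    have : ∀ i : Fin 22, (8388606 : ℕ).testBit ((i : ℕ) + 1) = true := by decide
    exact this _
  · rw [vx_none, rows100_0, vx_inr]
    simp only [pointBlockRel, or_self, and_false, false_iff]
    have : ∀ i : Fin 77, ¬ (8388606 : ℕ).testBit (23 + (i : ℕ)) = true := by decide
    exact this _
  · have h1 := List.all_eq_true.1 rows100_pt (e.symm a) (List.mem_range.2 (e.symm a).2)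
    simp only [Bool.and_eq_true] at h1
    rw [vx_none, vx_inl]
    simp only [pointBlockRel, ne_eq, reduceCtorEq, not_false_eq_true, or_true, and_self, true_iff]
    exact h1.1
  · have h1 := List.all_eq_true.1 rows100_pt (e.symm a) (List.mem_range.2 (e.symm a).2)
    simp only [Bool.and_eq_true] at h1
    have h2 := List.all_eq_true.1 h1.2.1 (e.symm a') (List.mem_range.2 (e.symm a').2)
    rw [vx_inl, vx_inl]
    simp only [pointBlockRel, or_self, and_false, false_iff]
    rw [Bool.not_eq_true'] at h2
    rw [h2]; decide
  · have h1 := List.all_eq_true.1 rows100_pt (e.symm a) (List.mem_range.2 (e.symm a).2)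
    simp only [Bool.and_eq_true] at h1
    have h2 := List.all_eq_true.1 h1.2.2 (bl hB b') (List.mem_range.2 (bl hB b').2)
    rw [beq_iff_eq] at h2
    rw [vx_inl, vx_inr, h2]
    simp only [pointBlockRel, ne_eq, Option.some.injEq, reduceCtorEq, not_false_eq_true, or_false, true_and]
    rw [bl_spec hB b', ← mem_im e, Equiv.apply_symm_apply]
  · have h1 := List.all_eq_true.1 rows100_bl (bl hB b) (List.mem_range.2 (bl hB b).2)
    simp only [Bool.and_eq_true] at h1
    rw [vx_none, vx_inr]
    simp only [pointBlockRel, or_self, and_false, false_iff]
    rw [Bool.not_eq_true'] at h1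
    rw [h1.1]; decide
  · have h1 := List.all_eq_true.1 rows100_bl (bl hB b) (List.mem_range.2 (bl hB b).2)
    simp only [Bool.and_eq_true] at h1
    have h2 := List.all_eq_true.1 h1.2.1 (e.symm a') (List.mem_range.2 (e.symm a').2)
    rw [beq_iff_eq] at h2
    rw [vx_inl, vx_inr, h2]
    simp only [pointBlockRel, ne_eq, Option.some.injEq, reduceCtorEq, not_false_eq_true, false_or, true_and]
    rw [bl_spec hB b, ← mem_im e, Equiv.apply_symm_apply]
  · have h1 := List.all_eq_true.1 rows100_bl (bl hB b) (List.mem_range.2 (bl hB b).2)
    simp only [Bool.and_eq_true] at h1
    have h2 := List.all_eq_true.1 h1.2.2 (bl hB b') (List.mem_range.2 (bl hB b').2)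
    rw [beq_iff_eq] at h2
    rw [vx_inr, vx_inr, h2, ← blockGraph_adj hB, blockGraph, SimpleGraph.fromRel_adj]
    simp only [pointBlockRel, ne_eq, Option.some.injEq, Sum.inr.injEq]

theorem blockGraph_srg (hB : B = (fun m => im e m) '' {m | m ∈ V22}) [Fintype B]
    [DecidableRel (blockGraph B).Adj] : (blockGraph B).IsSRGWith 77 16 0 4 :=
  srg_of_rows (w := 4) _ (bl hB) rows77 rows77_len rows77_lt (blockGraph_adj hB) (by norm_num)
    (fun r hr => beq_iff.1 (List.all_eq_true.1 rows77_deg r hr)) rows77_pairs

theorem pointBlock_srg [Fintype α] (hB : B = (fun m => im e m) '' {m | m ∈ V22}) [Fintype B]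
    [DecidableRel (pointBlockGraph B).Adj] : (pointBlockGraph B).IsSRGWith 100 22 0 6 :=
  srg_of_rows (w := 5) _ (vx hB) rows100 rows100_len rows100_lt (pointBlock_adj hB) (by norm_num)
    (fun r hr => beq_iff.1 (List.all_eq_true.1 rows100_deg r hr)) rows100_pairs

end graphs

end CfsgLib.HSG
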