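import Cfsg.Agent.EqBase
import Mathlib
import Cfsg.Agent.LibHSG
import Cfsg.Agent.LibSteiner

/-!
Uniqueness of the strongly regular graph with parameters (100, 22, 0, 6).
-/

set_option autoImplicit false

namespace CfsgLib.SRG100

open Cfsg CfsgLib.Uniq CfsgLib.HSG

section

variable {V : Type*} [Fintype V] {G : SimpleGraph V} [DecidableRel G.Adj] (hG : G.IsSRGWith 100 22 0 6)

/-- common neighbours as a finset -/
def cn [DecidableEq V] (G : SimpleGraph V) [DecidableRel G.Adj] (x y : V) : Finset V :=
  Finset.univ.filter fun a => G.Adj x a ∧ G.Adj y a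

variable [DecidableEq V]

theorem mem_cn {x y a : V} : a ∈ cn G x y ↔ G.Adj x a ∧ G.Adj y a := by simp [cn]

theorem card_cn (x y : V) : (cn G x y).card = Fintype.card (G.commonNeighbors x y) := by
  rw [← Fintype.card_coe]
  apply Fintype.card_congr
  refine (Equiv.refl V).subtypeEquiv (fun z => ?_)
  rw [mem_cn, Equiv.refl_apply, SimpleGraph.mem_commonNeighbors]

include hG

theorem cn_adj {x y : V} (h : G.Adj x y) : (cn G x y).card = 0 := by
  rw [card_cn, ← hG.of_adj x y h]

theorem cn_not_adj {x y : V} (hne : x ≠ y) (h : ¬ G.Adj x y) : (cn G x y).card = 6 := by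
  rw [card_cn, ← hG.of_not_adj hne h]

theorem no_triangle {x y z : V} (h1 : G.Adj x y) (h2 : G.Adj x z) (h3 : G.Adj y z) : False := by
  have := cn_adj hG h1
  rw [Finset.card_eq_zero, Finset.eq_empty_iff_forall_notMem] at this
  exact this z (mem_cn.2 ⟨h2, h3⟩)

theorem card_nb (x : V) : (Finset.univ.filter fun a => G.Adj x a).card = 22 := by
  have := hG.regular x
  rw [← this, ← G.card_neighborFinset_eq_degree]
  congr 1
  ext a
  simp

end

section

variable {V : Type*} [Fintype V] {G : SimpleGraph V} [DecidableRel G.Adj] [DecidableEq V]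

/-- vertices at distance two -/
def far (G : SimpleGraph V) [DecidableRel G.Adj] (x : V) : Finset V :=
  Finset.univ.filter fun a => a ≠ x ∧ ¬ G.Adj x a

theorem mem_far {x a : V} : a ∈ far G x ↔ a ≠ x ∧ ¬ G.Adj x a := by simp [far]

variable (hG : G.IsSRGWith 100 22 0 6) (x : V)

include hG

theorem card_far : (far G x).card = 77 := by
  have h1 : (Finset.univ : Finset V).card = 100 := by rw [Finset.card_univ]; exact hG.card
  have h2 : (Finset.univ : Finset V) = insert x ((Finset.univ.filter fun a => G.Adj x a) ∪ far G x) := by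
    ext a
    simp only [Finset.mem_univ, Finset.mem_insert, Finset.mem_union, Finset.mem_filter, true_and, mem_far, true_iff]
    tauto
  have h3 : Disjoint (Finset.univ.filter fun a => G.Adj x a) (far G x) := by
    rw [Finset.disjoint_left]
    intro a ha ha'
    rw [Finset.mem_filter] at ha
    exact (mem_far.1 ha').2 ha.2
  rw [h2, Finset.card_insert_of_notMem, Finset.card_union_of_disjoint h3, card_nb hG x] at h1
  · omega
  · rw [Finset.mem_union, Finset.mem_filter, mem_far]
    rintro (⟨_, h⟩ | ⟨h, _⟩)
    · exact G.loopless.irrefl x h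
    · exact h rfl

theorem card_far_adj {a : V} (ha : G.Adj x a) : ((far G x).filter fun z => G.Adj z a).card = 21 := by
  have h1 := card_nb hG a
  have h2 : (Finset.univ.filter fun z => G.Adj a z) = insert x ((far G x).filter fun z => G.Adj z a) := by
    ext z
    simp only [Finset.mem_univ, Finset.mem_insert, Finset.mem_filter, true_and, mem_far]
    constructor
    · intro h
      by_cases hz : z = x
      · exact Or.inl hz
      · exact Or.inr ⟨⟨hz, fun hxz => no_triangle hG ha hxz h⟩, h.symm⟩
    · rintro (rfl | ⟨_, h⟩)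
      · exact ha.symm
      · exact h.symm
  rw [h2, Finset.card_insert_of_notMem] at h1
  · omega
  · rw [Finset.mem_filter, mem_far]
    rintro ⟨⟨h, _⟩, _⟩
    exact h rfl

theorem card_far_adj₂ {a b : V} (ha : G.Adj x a) (hb : G.Adj x b) (hab : a ≠ b) :
    ((far G x).filter fun z => G.Adj z a ∧ G.Adj z b).card = 5 := by
  have h1 := cn_not_adj hG hab (fun h => no_triangle hG ha hb h)
  have h2 : cn G a b = insert x ((far G x).filter fun z => G.Adj z a ∧ G.Adj z b) := by
    ext z
    simp only [mem_cn, Finset.mem_insert, Finset.mem_filter, mem_far]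
    constructor
    · rintro ⟨h, h'⟩
      by_cases hz : z = x
      · exact Or.inl hz
      · exact Or.inr ⟨⟨hz, fun hxz => no_triangle hG ha hxz h⟩, h.symm, h'.symm⟩
    · rintro (rfl | ⟨_, h, h'⟩)
      · exact ⟨ha.symm, hb.symm⟩
      · exact ⟨h.symm, h'.symm⟩
  rw [h2, Finset.card_insert_of_notMem] at h1
  · omega
  · rw [Finset.mem_filter, mem_far]
    rintro ⟨⟨h, _⟩, _⟩
    exact h rfl

/-- the fundamental count -/
theorem inter_eq {y z : V} (hy : y ∈ far G x) (hz : z ∈ far G x) (hyz : y ≠ z) :
    (cn G x y ∩ cn G x z).card = if G.Adj y z then 0 else 2 := by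
  have hA : (cn G x y).card = 6 := cn_not_adj hG (mem_far.1 hy).1.symm (mem_far.1 hy).2
  have hi : ∀ w, ((cn G x y ∩ cn G x w).card : ℤ) = ∑ a ∈ cn G x y, if G.Adj w a then 1 else 0 := by
    intro w
    rw [← Finset.sum_filter, Finset.sum_const, nsmul_eq_mul, mul_one]
    congr 2
    ext a
    rw [Finset.mem_inter, Finset.mem_filter, mem_cn, mem_cn]
    tauto
  have s1 : ∑ w ∈ far G x, ((cn G x y ∩ cn G x w).card : ℤ) = 126 := by
    rw [Finset.sum_congr rfl fun w _ => hi w, Finset.sum_comm]
    have : ∀ a ∈ cn G x y, ∑ w ∈ far G x, (if G.Adj w a then (1 : ℤ) else 0) = 21 := by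
      intro a ha
      rw [← Finset.sum_filter, Finset.sum_const, nsmul_eq_mul, mul_one, card_far_adj hG x (mem_cn.1 ha).1]
      rfl
    rw [Finset.sum_congr rfl this, Finset.sum_const, hA]
    norm_num
  have s2 : ∑ w ∈ far G x, ((cn G x y ∩ cn G x w).card : ℤ) ^ 2 = 276 := by
    have h1 : ∀ w ∈ far G x, ((cn G x y ∩ cn G x w).card : ℤ) ^ 2 =
        ∑ a ∈ cn G x y, ∑ b ∈ cn G x y, if (G.Adj w a ∧ G.Adj w b) then 1 else 0 := by
      intro w _
      rw [hi, sq, Finset.sum_mul_sum]
      apply Finset.sum_congr rfl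
      intro a _
      apply Finset.sum_congr rfl
      intro b _
      by_cases h1 : G.Adj w a <;> by_cases h2 : G.Adj w b <;> simp [h1, h2]
    rw [Finset.sum_congr rfl h1, Finset.sum_comm]
    have h2 : ∀ a ∈ cn G x y, ∑ w ∈ far G x, ∑ b ∈ cn G x y, (if (G.Adj w a ∧ G.Adj w b) then (1 : ℤ) else 0) =
        46 := by
      intro a ha
      rw [Finset.sum_comm]
      have h3 : ∀ b ∈ cn G x y, ∑ w ∈ far G x, (if (G.Adj w a ∧ G.Adj w b) then (1 : ℤ) else 0) =
          if b = a then 21 else 5 := by
        intro b hb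
        rw [← Finset.sum_filter, Finset.sum_const, nsmul_eq_mul, mul_one]
        split_ifs with hab
        · subst hab
          simp only [and_self]
          rw [card_far_adj hG x (mem_cn.1 ha).1]; rfl
        · rw [card_far_adj₂ hG x (mem_cn.1 ha).1 (mem_cn.1 hb).1 (fun h => hab h.symm)]; rfl
      rw [Finset.sum_congr rfl h3, ← Finset.add_sum_erase _ _ ha]
      have h4 : ∀ b ∈ (cn G x y).erase a, (if b = a then (21 : ℤ) else 5) = 5 := by
        intro b hb
        rw [if_neg (Finset.mem_erase.1 hb).1]
      rw [Finset.sum_congr rfl h4, Finset.sum_const, Finset.card_erase_of_mem ha, hA]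
      norm_num
    rw [Finset.sum_congr rfl h2, Finset.sum_const, hA]
    norm_num
  -- the sum of squares
  have s3 : ∑ w ∈ far G x, (((cn G x y ∩ cn G x w).card : ℤ) - 2) ^ 2 = 80 := by
    have h1 : ∀ w ∈ far G x, (((cn G x y ∩ cn G x w).card : ℤ) - 2) ^ 2 =
        ((cn G x y ∩ cn G x w).card : ℤ) ^ 2 - 4 * ((cn G x y ∩ cn G x w).card : ℤ) + 4 := by
      intro w _; ring
    rw [Finset.sum_congr rfl h1, Finset.sum_add_distrib, Finset.sum_sub_distrib, ← Finset.mul_sum, s1, s2,
      Finset.sum_const, card_far hG x]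
    norm_num
  have hadj0 : ∀ w, G.Adj y w → (cn G x y ∩ cn G x w).card = 0 := by
    intro w hw
    rw [Finset.card_eq_zero, Finset.eq_empty_iff_forall_notMem]
    intro a ha
    rw [Finset.mem_inter, mem_cn, mem_cn] at ha
    exact no_triangle hG hw ha.1.2 ha.2.2
  -- the neighbours of `y` in `far`
  have s4 : ((far G x).filter fun w => G.Adj y w).card = 16 := by
    have h1 := card_nb hG y
    have h2 : (Finset.univ.filter fun w => G.Adj y w) = cn G x y ∪ ((far G x).filter fun w => G.Adj y w) := by
      ext w
      simp only [Finset.mem_univ, Finset.mem_union, Finset.mem_filter, true_and, mem_far, mem_cn]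
      constructor
      · intro h
        by_cases h3 : G.Adj x w
        · exact Or.inl ⟨h3, h⟩
        · refine Or.inr ⟨⟨?_, h3⟩, h⟩
          rintro rfl
          exact (mem_far.1 hy).2 h.symm
      · rintro (h | h)
        · exact h.2
        · exact h.2
    have h3 : Disjoint (cn G x y) ((far G x).filter fun w => G.Adj y w) := by
      rw [Finset.disjoint_left]
      intro w hw hw'
      rw [Finset.mem_filter] at hw'
      exact (mem_far.1 hw'.1).2 (mem_cn.1 hw).1
    rw [h2, Finset.card_union_of_disjoint h3, hA] at h1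
    omega
  by_cases hadj : G.Adj y z
  · rw [if_pos hadj]
    exact hadj0 z hadj
  · rw [if_neg hadj]
    by_contra hne
    -- the partial sum is already too large
    have h1 : ∑ w ∈ insert z (insert y ((far G x).filter fun w => G.Adj y w)),
        (((cn G x y ∩ cn G x w).card : ℤ) - 2) ^ 2 ≤ 80 := by
      rw [← s3]
      apply Finset.sum_le_sum_of_subset_of_nonneg
      · intro w hw
        rw [Finset.mem_insert, Finset.mem_insert, Finset.mem_filter] at hw
        rcases hw with rfl | rfl | hw
        · exact hz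
        · exact hy
        · exact hw.1
      · intro w _ _; positivity
    rw [Finset.sum_insert, Finset.sum_insert] at h1
    · have h2 : ∀ w ∈ (far G x).filter fun w => G.Adj y w, (((cn G x y ∩ cn G x w).card : ℤ) - 2) ^ 2 = 4 := by
        intro w hw
        rw [hadj0 w (Finset.mem_filter.1 hw).2]; norm_num
      rw [Finset.sum_congr rfl h2, Finset.sum_const, s4, Finset.inter_self, hA] at h1
      have h3 : (((cn G x y ∩ cn G x z).card : ℤ) - 2) ≠ 0 := by
        intro h; apply hne; omega
      have h4 : 0 < (((cn G x y ∩ cn G x z).card : ℤ) - 2) ^ 2 := by positivity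
      have h5 : ((6 : ℕ) : ℤ) = 6 := rfl
      rw [h5] at h1
      have h6 : (16 : ℕ) • (4 : ℤ) = 64 := rfl
      rw [h6] at h1
      linarith
    · rw [Finset.mem_filter]
      rintro ⟨_, h⟩
      exact G.loopless.irrefl y h
    · rw [Finset.mem_insert, Finset.mem_filter]
      rintro (h | h)
      · exact hyz h.symm
      · exact hadj h.2

/-- the block of a far vertex, as a set of neighbours of `x` -/
def bk (G : SimpleGraph V) [DecidableRel G.Adj] (x y : V) : Finset {a : V // G.Adj x a} :=
  Finset.univ.filter fun a => G.Adj y a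

omit hG in
theorem mem_bk {y : V} {a : {a : V // G.Adj x a}} : a ∈ bk G x y ↔ G.Adj y a := by simp [bk]

omit hG in
theorem bk_map (y : V) : (bk G x y).map (Function.Embedding.subtype _) = cn G x y := by
  ext a
  rw [Finset.mem_map, mem_cn]
  constructor
  · rintro ⟨b, hb, rfl⟩
    exact ⟨b.2, (mem_bk x).1 hb⟩
  · rintro ⟨h1, h2⟩
    exact ⟨⟨a, h1⟩, (mem_bk x).2 h2, rfl⟩

omit hG in
theorem bk_inter (y z : V) : (bk G x y ∩ bk G x z).card = (cn G x y ∩ cn G x z).card := by
  rw [← bk_map, ← bk_map, ← Finset.map_inter, Finset.card_map]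

/-- the blocks -/
def BB (G : SimpleGraph V) [DecidableRel G.Adj] (x : V) : Set (Finset {a : V // G.Adj x a}) :=
  {b | ∃ y ∈ far G x, b = bk G x y}

theorem bk_card {y : V} (hy : y ∈ far G x) : (bk G x y).card = 6 := by
  rw [← Finset.card_map, bk_map]
  exact cn_not_adj hG (mem_far.1 hy).1.symm (mem_far.1 hy).2

theorem bk_inj {y z : V} (hy : y ∈ far G x) (hz : z ∈ far G x) (h : bk G x y = bk G x z) : y = z := by
  by_contra hne
  have h1 := inter_eq hG x hy hz hne
  rw [← bk_inter, h, Finset.inter_self, bk_card hG x hz] at h1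
  split_ifs at h1 <;> omega

theorem card_alpha : Fintype.card {a : V // G.Adj x a} = 22 := by
  rw [Fintype.card_subtype]; exact card_nb hG x

theorem BB_steiner : IsSteinerSystem 3 6 (BB G x) := by
  apply CfsgLib.Steiner.steiner_of_count
  · rintro b ⟨y, hy, rfl⟩
    exact bk_card hG x hy
  · rintro b ⟨y, hy, rfl⟩ c ⟨z, hz, rfl⟩ h
    by_contra hne
    have hyz : y ≠ z := by rintro rfl; exact hne rfl
    have h1 := inter_eq hG x hy hz hyz
    rw [← bk_inter] at h1
    split_ifs at h1 <;> omega
  · rw [card_alpha hG x]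
    have h1 : (BB G x).ncard = 77 := by
      have h2 : BB G x = (fun y => bk G x y) '' (far G x : Set V) := by
        ext b
        simp only [BB, Set.mem_image, Finset.mem_coe]
        constructor
        · rintro ⟨y, hy, rfl⟩; exact ⟨y, hy, rfl⟩
        · rintro ⟨y, hy, rfl⟩; exact ⟨y, hy, rfl⟩
      rw [h2, Set.InjOn.ncard_image, Set.ncard_coe_finset, card_far hG x]
      intro y hy z hz h
      exact bk_inj hG x hy hz h
    rw [h1]; decide

/-- the vertices of the graph as points and blocks -/
noncomputable def toV (G : SimpleGraph V) [DecidableRel G.Adj] (x : V) :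
    Option ({a : V // G.Adj x a} ⊕ BB G x) → V
  | none => x
  | some (Sum.inl a) => a
  | some (Sum.inr b) => Classical.choose b.2

omit hG in
theorem toV_inr (b : BB G x) : toV G x (some (Sum.inr b)) ∈ far G x ∧
    (b : Finset _) = bk G x (toV G x (some (Sum.inr b))) := Classical.choose_spec b.2

theorem toV_bij : Function.Bijective (toV G x) := by
  constructor
  · intro u v h
    rcases u with _ | (a | b) <;> rcases v with _ | (a' | b')
    · rfl
    · exfalso
      have h' : x = a' := h
      have := a'.2
      rw [← h'] at this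
      exact G.loopless.irrefl x this
    · exfalso
      have h1 := (toV_inr x b').1
      rw [← h] at h1
      exact (mem_far.1 h1).1 rfl
    · exfalso
      have h' : (a : V) = x := h
      have := a.2
      rw [h'] at this
      exact G.loopless.irrefl x this
    · have h' : (a : V) = a' := h
      rw [Subtype.ext h']
    · exfalso
      have h1 := (toV_inr x b').1
      rw [← h] at h1
      exact (mem_far.1 h1).2 a.2
    · exfalso
      have h1 := (toV_inr x b).1
      rw [h] at h1
      exact (mem_far.1 h1).1 rfl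
    · exfalso
      have h1 := (toV_inr x b).1
      rw [h] at h1
      exact (mem_far.1 h1).2 a'.2
    · have h1 := (toV_inr x b).2
      have h2 := (toV_inr x b').2
      rw [h, ← h2] at h1
      rw [Subtype.ext h1]
  · intro v
    by_cases hv : v = x
    · exact ⟨none, hv.symm⟩
    · by_cases hv2 : G.Adj x v
      · exact ⟨some (Sum.inl ⟨v, hv2⟩), rfl⟩
      · have hf : v ∈ far G x := mem_far.2 ⟨hv, hv2⟩
        refine ⟨some (Sum.inr ⟨bk G x v, v, hf, rfl⟩), ?_⟩
        obtain ⟨h1, h2⟩ := toV_inr x ⟨bk G x v, v, hf, rfl⟩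
        exact (bk_inj hG x hf h1 h2).symm

theorem toV_adj (u v : Option ({a : V // G.Adj x a} ⊕ BB G x)) :
    G.Adj (toV G x u) (toV G x v) ↔ (pointBlockGraph (BB G x)).Adj u v := by
  rw [pointBlockGraph, SimpleGraph.fromRel_adj]
  rcases u with _ | (a | b) <;> rcases v with _ | (a' | b')
  · simp [toV, pointBlockRel]
  · simp only [toV, pointBlockRel, ne_eq, reduceCtorEq, not_false_eq_true, true_or, and_self, iff_true]
    exact a'.2
  · have h1 := (toV_inr x b').1
    simp only [pointBlockRel, or_self, and_false, iff_false]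
    exact (mem_far.1 h1).2
  · simp only [toV, pointBlockRel, ne_eq, reduceCtorEq, not_false_eq_true, or_true, and_self, iff_true]
    exact a.2.symm
  · simp only [toV, pointBlockRel, or_self, and_false, iff_false]
    exact fun h => no_triangle hG a.2 a'.2 h
  · obtain ⟨h1, h2⟩ := toV_inr x b'
    simp only [pointBlockRel, ne_eq, Option.some.injEq, reduceCtorEq, not_false_eq_true, or_false, true_and]
    rw [h2, mem_bk]
    exact G.adj_comm _ _
  · have h1 := (toV_inr x b).1
    simp only [pointBlockRel, or_self, and_false, iff_false]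
    exact fun h => (mem_far.1 h1).2 h.symm
  · obtain ⟨h1, h2⟩ := toV_inr x b
    simp only [pointBlockRel, ne_eq, Option.some.injEq, reduceCtorEq, not_false_eq_true, false_or, true_and]
    rw [h2, mem_bk]
    exact Iff.rfl
  · obtain ⟨h1, h2⟩ := toV_inr x b
    obtain ⟨h3, h4⟩ := toV_inr x b'
    simp only [pointBlockRel, ne_eq, Option.some.injEq, Sum.inr.injEq]
    have hdc : Disjoint (b' : Finset {a : V // G.Adj x a}) (b : Finset {a : V // G.Adj x a}) ↔
        Disjoint (b : Finset {a : V // G.Adj x a}) (b' : Finset {a : V // G.Adj x a}) := disjoint_comm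
    rw [hdc, or_self, Finset.disjoint_iff_inter_eq_empty, ← Finset.card_eq_zero]
    constructor
    · intro h
      have hne : b ≠ b' := by
        rintro rfl
        exact G.loopless.irrefl _ h
      refine ⟨hne, ?_⟩
      have h5 : toV G x (some (Sum.inr b)) ≠ toV G x (some (Sum.inr b')) := h.ne
      have h6 := inter_eq hG x h1 h3 h5
      rw [if_pos h, ← bk_inter, ← h2, ← h4] at h6
      exact h6
    · rintro ⟨hne, h⟩
      by_contra hadj
      have h5 : toV G x (some (Sum.inr b)) ≠ toV G x (some (Sum.inr b')) := by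
        intro h5
        have := (toV_bij hG x).1 h5
        rw [Option.some.injEq, Sum.inr.injEq] at this
        exact hne this
      have h6 := inter_eq hG x h1 h3 h5
      rw [if_neg hadj, ← bk_inter, ← h2, ← h4, h] at h6
      omega

/-- the same, with a prescribed first vertex -/
theorem exists_rows' (x : V) : ∃ φ : V ≃ Fin 100, φ x = 0 ∧
    ∀ u v, G.Adj u v ↔ (rows100.getD (φ u) 0).testBit (φ v) = true := by
  obtain ⟨e, he⟩ := exists22 (card_alpha hG x) (BB_steiner hG x)
  let ψ := Equiv.ofBijective _ (toV_bij hG x)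
  refine ⟨ψ.symm.trans (vx he), ?_, fun u v => ?_⟩
  · have h1 : ψ.symm x = none := by rw [Equiv.symm_apply_eq]; rfl
    rw [Equiv.trans_apply, h1]
    exact Fin.ext (vx_none he)
  obtain ⟨u', rfl⟩ := ψ.surjective u
  obtain ⟨v', rfl⟩ := ψ.surjective v
  rw [Equiv.trans_apply, Equiv.trans_apply, Equiv.symm_apply_apply, Equiv.symm_apply_apply, ← pointBlock_adj he]
  exact toV_adj hG x u' v'

/-- every strongly regular graph with these parameters has the standard adjacency rows -/
theorem exists_rows : ∃ φ : V ≃ Fin 100, ∀ u v, G.Adj u v ↔ (rows100.getD (φ u) 0).testBit (φ v) = true := by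
  have hne : Nonempty V := by
    rw [← Fintype.card_pos_iff, hG.card]; norm_num
  obtain ⟨x⟩ := hne
  obtain ⟨e, he⟩ := exists22 (card_alpha hG x) (BB_steiner hG x)
  let ψ := Equiv.ofBijective _ (toV_bij hG x)
  refine ⟨ψ.symm.trans (vx he), fun u v => ?_⟩
  obtain ⟨u', rfl⟩ := ψ.surjective u
  obtain ⟨v', rfl⟩ := ψ.surjective v
  rw [Equiv.trans_apply, Equiv.trans_apply, Equiv.symm_apply_apply, Equiv.symm_apply_apply, ← pointBlock_adj he]
  exact toV_adj hG x u' v'

end

end CfsgLib.SRG100
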