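import Cfsg.Statements.S0414
import Mathlib
import Cfsg.Agent.LibAut22
import Cfsg.Agent.S0410

set_option autoImplicit false
open Cfsg

namespace Cfsg.Agent.S0414

open CfsgLib.AutD CfsgLib.M24 CfsgLib.Golay in
theorem aux {α : Type*} [Fintype α] [DecidableEq α] (hα : Fintype.card α = 22) {B : Set (Finset α)} (hB : Cfsg.IsSteinerSystem 3 6 B) : Nat.card (Cfsg.setSystemAut B) = 887040 ∧ MulAction.IsMultiplyPretransitive (Cfsg.setSystemAut B) α 3 ∧ ∃ H : Subgroup (Cfsg.setSystemAut B), H.index = 2 ∧ Cfsg.IsM22 H := by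
  have hiso : SetSystemIso B (res octads F2) := Cfsg.Agent.S0410.result hα (card_sub (by decide)) hB steiner22
  obtain ⟨e⟩ := nonempty_equiv hiso
  have hidx : (H22.map e.symm.toMonoidHom).index = 2 := by
    rw [← index_H22]
    exact Subgroup.index_map_equiv H22 e.symm
  have hM : IsM22 (H22.map e.symm.toMonoidHom) := by
    have f : H22 ≃* H22.map e.symm.toMonoidHom := H22.equivMapOfInjective _ e.symm.injective
    have hs := isM22_H22.1
    exact ⟨f.symm.isSimpleGroup, by rw [← Nat.card_congr f.toEquiv]; exact isM22_H22.2⟩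
  refine ⟨?_, ?_, _, hidx, hM⟩
  · rw [← Subgroup.card_mul_index (H22.map e.symm.toMonoidHom), hidx, hM.2]
  · rw [← multi_iff]
    exact multi_of_iso hiso multi22

/-- Aut of an S(3, 6, 22) has order 887040, is 3-transitive, and contains a simple subgroup of index 2. -/
theorem result {α : Type*} [Fintype α] [DecidableEq α] (hα : Fintype.card α = 22) {B : Set (Finset α)} (hB : Cfsg.IsSteinerSystem 3 6 B) : Nat.card (Cfsg.setSystemAut B) = 887040 ∧ MulAction.IsMultiplyPretransitive (Cfsg.setSystemAut B) α 3 ∧ ∃ H : Subgroup (Cfsg.setSystemAut B), H.index = 2 ∧ Cfsg.IsM22 H := by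
  exact aux hα hB

end Cfsg.Agent.S0414
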