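import Cfsg.Agent.EqBase
import Mathlib
import Cfsg.Agent.LibSRG100
import Cfsg.Agent.LibAut22
import Cfsg.Agent.LibQPSimple
import Cfsg.Agent.S0410
import Cfsg.Agent.S0414

/-!
The group of the point-block graph of an `S(3, 6, 22)`.
-/

set_option autoImplicit false

namespace CfsgLib.HS

open Cfsg CfsgLib.Golay CfsgLib.M24 CfsgLib.Uniq CfsgLib.AutD CfsgLib.HSG
open scoped Pointwise

/-! ### automorphisms of a graph as permutations -/

section autG

variable {V : Type*}

/-- automorphisms of a graph, as permutations of the vertices -/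
def autG (G : SimpleGraph V) : Subgroup (Equiv.Perm V) where
  carrier := {σ | ∀ x y, G.Adj (σ x) (σ y) ↔ G.Adj x y}
  one_mem' := fun x y => Iff.rfl
  mul_mem' := by
    intro a b ha hb x y
    rw [Equiv.Perm.mul_apply, Equiv.Perm.mul_apply, ha, hb]
  inv_mem' := by
    intro a ha x y
    rw [← ha]
    simp

theorem mem_autG {G : SimpleGraph V} {σ : Equiv.Perm V} : σ ∈ autG G ↔ ∀ x y, G.Adj (σ x) (σ y) ↔ G.Adj x y :=
  Iff.rfl

/-- graph automorphisms to permutations -/
def isoHom (G : SimpleGraph V) : (G ≃g G) →* Equiv.Perm V where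
  toFun φ := φ.toEquiv
  map_one' := rfl
  map_mul' _ _ := rfl

theorem isoHom_injective (G : SimpleGraph V) : Function.Injective (isoHom G) := by
  intro a b h
  ext x
  exact congrArg (fun σ : Equiv.Perm V => σ x) h

theorem mem_range_isoHom {G : SimpleGraph V} {σ : Equiv.Perm V} (h : σ ∈ autG G) : σ ∈ (isoHom G).range :=
  ⟨⟨σ, fun {a b} => h a b⟩, rfl⟩

theorem exists_lift {G : SimpleGraph V} {H : Subgroup (Equiv.Perm V)} (h : H ≤ autG G) :
    ∃ K : Subgroup (G ≃g G), Nonempty (K ≃* H) := by
  refine ⟨H.comap (isoHom G), ?_⟩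
  have h1 : (H.comap (isoHom G)).map (isoHom G) = H :=
    Subgroup.map_comap_eq_self (fun σ hσ => mem_range_isoHom (h hσ))
  exact ⟨((H.comap (isoHom G)).equivMapOfInjective _ (isoHom_injective G)).trans (MulEquiv.subgroupCongr h1)⟩

end autG

/-! ### the simple subgroup of the automorphism group of the design -/

/-- the simple subgroup -/
def K22 : Subgroup (Equiv.Perm {a : GolayPt // a ∉ F2}) := M24.comap Equiv.Perm.ofSubtype

theorem K22_le : K22 ≤ setSystemAut (res octads F2) := fun _ hσ => mem_aut22 rfl (Or.inl hσ)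

theorem map_K22 : K22.map Equiv.Perm.ofSubtype = M24 ⊓ St none ⊓ St (some 22) := by
  ext g
  rw [Subgroup.mem_map]
  constructor
  · rintro ⟨σ, hσ, rfl⟩
    exact ⟨⟨hσ, ofSubtype_fix _ none_mem_F2⟩, ofSubtype_fix _ q_mem_F2⟩
  · rintro ⟨⟨h1, h2⟩, h3⟩
    obtain ⟨σ, hσ⟩ := exists_ofSubtype (F := F2) (g := g) (by
      intro p hp
      rw [mem_F2] at hp
      rcases hp with rfl | rfl
      · exact h2
      · exact h3)
    refine ⟨σ, ?_, hσ⟩
    change Equiv.Perm.ofSubtype σ ∈ M24
    rw [hσ]; exact h1

theorem isM22_K22 : IsM22 K22 := by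
  have f : K22 ≃* ↥(M24 ⊓ St none ⊓ St (some 22)) :=
    (K22.equivMapOfInjective _ Equiv.Perm.ofSubtype_injective).trans (MulEquiv.subgroupCongr map_K22)
  have hne : (none : GolayPt) ≠ some 22 := by simp
  have hs := simple_M22 none (some 22) hne
  refine ⟨f.isSimpleGroup, ?_⟩
  rw [Nat.card_congr f.toEquiv, card_M22 _ _ hne]

theorem multi_K22 : Multi K22 3 := by
  intro x y
  have hcons : ∀ z : Fin 3 ↪ {a : GolayPt // a ∉ F2}, ∃ z' : Fin 5 ↪ GolayPt, z' 0 = none ∧ z' 1 = some 22 ∧
      ∀ i : Fin 3, z' i.succ.succ = z i := by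
    intro z
    refine ⟨⟨Fin.cons none (Fin.cons (some 22) (fun i => (z i : GolayPt))), ?_⟩, rfl, rfl, fun i => rfl⟩
    rw [Fin.cons_injective_iff]
    constructor
    · rintro ⟨i, hi⟩
      refine Fin.cases (fun hi => ?_) (fun j hj => ?_) i hi
      · exact absurd hi (by simp)
      · have hi' : (z j : GolayPt) = none := hj
        exact (z j).2 (by rw [hi']; exact none_mem_F2)
    · rw [Fin.cons_injective_iff]
      refine ⟨?_, fun i j h => z.injective (Subtype.ext h)⟩
      rintro ⟨i, hi⟩
      have hi' : (z i : GolayPt) = some 22 := hi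
      exact (z i).2 (by rw [hi']; exact q_mem_F2)
  obtain ⟨x', hx0, hx1, hx⟩ := hcons x
  obtain ⟨y', hy0, hy1, hy⟩ := hcons y
  obtain ⟨g, hg, hgxy⟩ := five_trans x' y'
  obtain ⟨σ, hσ⟩ := exists_ofSubtype (F := F2) (g := g) (by
    intro p hp
    rw [mem_F2] at hp
    rcases hp with rfl | rfl
    · have := hgxy 0
      rw [hx0, hy0] at this; exact this
    · have := hgxy 1
      rw [hx1, hy1] at this; exact this)
  refine ⟨σ, ?_, fun i => ?_⟩
  · change Equiv.Perm.ofSubtype σ ∈ M24
    rw [hσ]; exact hg
  have := hgxy i.succ.succ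
  rw [hx, hy, ← hσ, Equiv.Perm.ofSubtype_apply_coe] at this
  exact Subtype.ext this

/-- the simple subgroup of the automorphism group of any `S(3, 6, 22)` -/
theorem exists_K {α : Type*} [Fintype α] [DecidableEq α] (hα : Fintype.card α = 22) {B : Set (Finset α)}
    (hB : IsSteinerSystem 3 6 B) : ∃ K : Subgroup (Equiv.Perm α), K ≤ setSystemAut B ∧ IsM22 K ∧ Multi K 3 := by
  obtain ⟨e, he⟩ := Cfsg.Agent.S0410.result hα (card_sub (by decide)) hB steiner22
  refine ⟨K22.map (Equiv.permCongrHom e).symm.toMonoidHom, ?_, ?_, ?_⟩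
  · rintro _ ⟨σ, hσ, rfl⟩
    rw [mem_aut_iff he]
    have : e.permCongr ((Equiv.permCongrHom e).symm σ) = σ := (Equiv.permCongrHom e).apply_symm_apply σ
    change e.permCongr ((Equiv.permCongrHom e).symm σ) ∈ _
    rw [this]
    exact K22_le hσ
  · have f := K22.equivMapOfInjective (Equiv.permCongrHom e).symm.toMonoidHom (Equiv.permCongrHom e).symm.injective
    have hs := isM22_K22.1
    exact ⟨f.symm.isSimpleGroup, by rw [← Nat.card_congr f.toEquiv]; exact isM22_K22.2⟩
  · intro x y
    obtain ⟨g, hg, hgx⟩ := multi_K22 (x.trans e.toEmbedding) (y.trans e.toEmbedding)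
    refine ⟨(Equiv.permCongrHom e).symm g, ⟨g, hg, rfl⟩, fun i => ?_⟩
    have h1 : (Equiv.permCongrHom e).symm g = e.symm.permCongr g := rfl
    rw [h1, Equiv.permCongr_apply, Equiv.symm_symm]
    have := hgx i
    simp only [Function.Embedding.trans_apply, Equiv.coe_toEmbedding] at this
    rw [this, Equiv.symm_apply_apply]

/-! ### automorphisms fixing the extra vertex -/

section ext

variable {α : Type*} [Fintype α] [DecidableEq α] {B : Set (Finset α)}

/-- action on the blocks -/
def bperm (g : setSystemAut B) : Equiv.Perm B where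
  toFun b := ⟨(g : Equiv.Perm α) • (b : Finset α), mem_aut_iff_forall.1 g.2 b b.2⟩
  invFun b := ⟨(g : Equiv.Perm α)⁻¹ • (b : Finset α), mem_aut_iff_forall.1 (inv_mem g.2) b b.2⟩
  left_inv b := Subtype.ext (inv_smul_smul _ _)
  right_inv b := Subtype.ext (smul_inv_smul _ _)

/-- action on the vertices -/
def ext : setSystemAut B →* Equiv.Perm (Option (α ⊕ B)) where
  toFun g := Equiv.optionCongr (Equiv.sumCongr (g : Equiv.Perm α) (bperm g))
  map_one' := by
    ext1 x
    rcases x with _ | (a | b)
    · rfl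
    · rfl
    · change some (Sum.inr (bperm 1 b)) = some (Sum.inr b)
      congr 2
      exact Subtype.ext (one_smul _ _)
  map_mul' g h := by
    ext1 x
    rcases x with _ | (a | b)
    · rfl
    · rfl
    · change some (Sum.inr (bperm (g * h) b)) = some (Sum.inr (bperm g (bperm h b)))
      congr 2
      exact Subtype.ext (mul_smul _ _ _)

theorem ext_none (g : setSystemAut B) : ext g none = none := rfl
theorem ext_inl (g : setSystemAut B) (a : α) : ext g (some (Sum.inl a)) = some (Sum.inl ((g : Equiv.Perm α) a)) := rfl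
theorem ext_inr (g : setSystemAut B) (b : B) : ext g (some (Sum.inr b)) = some (Sum.inr (bperm g b)) := rfl

theorem ext_injective : Function.Injective (ext (B := B)) := by
  intro g h hgh
  apply Subtype.ext
  ext1 a
  have := congrArg (fun σ : Equiv.Perm (Option (α ⊕ B)) => σ (some (Sum.inl a))) hgh
  simp only [ext_inl, Option.some.injEq, Sum.inl.injEq] at this
  exact this

theorem mem_smul_iff (g : Equiv.Perm α) (b : Finset α) (a : α) : g a ∈ g • b ↔ a ∈ b := by
  rw [← Finset.inv_smul_mem_iff, Equiv.Perm.smul_def]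
  simp

theorem ext_mem (g : setSystemAut B) : ext g ∈ autG (pointBlockGraph B) := by
  intro x y
  rw [pointBlockGraph, SimpleGraph.fromRel_adj, SimpleGraph.fromRel_adj, (ext g).injective.ne_iff]
  have key : ∀ x y, pointBlockRel B (ext g x) (ext g y) ↔ pointBlockRel B x y := by
    intro x y
    rcases x with _ | (a | b) <;> rcases y with _ | (a' | b')
    · exact Iff.rfl
    · exact Iff.rfl
    · exact Iff.rfl
    · exact Iff.rfl
    · exact Iff.rfl
    · exact mem_smul_iff _ _ _
    · exact Iff.rfl
    · exact Iff.rfl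
    · change Disjoint ((g : Equiv.Perm α) • (b : Finset α)) ((g : Equiv.Perm α) • (b' : Finset α)) ↔
        Disjoint (b : Finset α) (b' : Finset α)
      rw [Finset.disjoint_iff_inter_eq_empty, Finset.disjoint_iff_inter_eq_empty, ← Finset.smul_finset_inter,
        Finset.smul_finset_eq_empty]
  rw [key, key]

/-- adjacency with the extra vertex -/
theorem adj_none {x : Option (α ⊕ B)} : (pointBlockGraph B).Adj none x ↔ ∃ a, x = some (Sum.inl a) := by
  rw [pointBlockGraph, SimpleGraph.fromRel_adj]
  rcases x with _ | (a | b)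
  · simp [pointBlockRel]
  · simp [pointBlockRel]
  · simp [pointBlockRel]

theorem adj_inl_inr {a : α} {b : B} : (pointBlockGraph B).Adj (some (Sum.inl a)) (some (Sum.inr b)) ↔
    a ∈ (b : Finset α) := by
  rw [pointBlockGraph, SimpleGraph.fromRel_adj]
  simp [pointBlockRel]

/-- graph automorphisms fixing the extra vertex come from automorphisms of the design -/
theorem exists_ext {σ : Equiv.Perm (Option (α ⊕ B))} (hσ : σ ∈ autG (pointBlockGraph B)) (h0 : σ none = none) :
    ∃ g : setSystemAut B, ext g = σ := by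
  have h1 : ∀ a : α, ∃ a' : α, σ (some (Sum.inl a)) = some (Sum.inl a') := by
    intro a
    rw [← adj_none (B := B), ← h0, hσ, adj_none]
    exact ⟨a, rfl⟩
  choose f hf using h1
  have hfi : Function.Injective f := by
    intro a a' h
    have h2 := hf a
    rw [h, ← hf a'] at h2
    have := σ.injective h2
    rw [Option.some.injEq, Sum.inl.injEq] at this
    exact this
  let g : Equiv.Perm α := Equiv.ofBijective f (Finite.injective_iff_bijective.1 hfi)
  have hg : ∀ a, g a = f a := fun a => rfl
  have h2 : ∀ b : B, ∃ b' : B, σ (some (Sum.inr b)) = some (Sum.inr b') := by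
    intro b
    rcases h : σ (some (Sum.inr b)) with _ | (a | b')
    · exfalso
      rw [← h0] at h
      exact absurd (σ.injective h) (by simp)
    · exfalso
      have h3 : (pointBlockGraph B).Adj none (σ (some (Sum.inr b))) := adj_none.2 ⟨a, h⟩
      rw [← h0, hσ, adj_none] at h3
      obtain ⟨a', ha'⟩ := h3
      exact absurd ha' (by simp)
    · exact ⟨b', rfl⟩
  choose k hk using h2
  have hkb : ∀ b : B, (k b : Finset α) = g • (b : Finset α) := by
    intro b
    ext a
    obtain ⟨a', rfl⟩ := g.surjective a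
    rw [mem_smul_iff, ← adj_inl_inr, ← adj_inl_inr, ← hσ (some (Sum.inl a')), hf, hk]
    rfl
  have hgB : g ∈ setSystemAut B := by
    rw [mem_aut_iff_forall]
    intro b hb
    rw [← hkb ⟨b, hb⟩]
    exact (k ⟨b, hb⟩).2
  refine ⟨⟨g, hgB⟩, ?_⟩
  ext1 x
  rcases x with _ | (a | b)
  · rw [ext_none, h0]
  · rw [ext_inl, hf]
    rfl
  · rw [ext_inr, hk]
    congr 2
    exact Subtype.ext (hkb b).symm

end ext

/-! ### an odd automorphism -/

/-- an involution of the graph, as a list of transpositions -/
def tauL : List (Fin 100 × Fin 100) := [(3, 10), (4, 16), (5, 20), (7, 21), (9, 14), (11, 12), (15, 17), (23, 60), (24, 40), (27, 30), (28, 69), (29, 48), (32, 65), (33, 54), (34, 59), (35, 57), (36, 45), (37, 42), (38, 52), (43, 53), (46, 56), (49, 55), (50, 78), (61, 72), (62, 66), (64, 67), (70, 74), (73, 76), (79, 83), (80, 95), (81, 94), (82, 91), (85, 96), (90, 93), (98, 99)]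

/-- its images -/
def tauP : List ℕ := [0, 1, 2, 10, 16, 20, 6, 21, 8, 14, 3, 12, 11, 13, 9, 17, 4, 15, 18, 19, 5, 7, 22, 60, 40, 25, 26, 30, 69, 48, 27, 31, 65, 54, 59, 57, 45, 42, 52, 39, 24, 41, 37, 53, 44, 36, 56, 47, 29, 55, 78, 51, 38, 43, 33, 49, 46, 35, 58, 34, 23, 72, 66, 63, 67, 32, 62, 64, 68, 28, 74, 71, 61, 76, 70, 75, 73, 77, 50, 83, 95, 94, 91, 79, 84, 96, 86, 87, 88, 89, 93, 82, 92, 90, 81, 80, 85, 97, 99, 98]

/-- the involution -/
def tau100 : Equiv.Perm (Fin 100) := (tauL.map fun p => Equiv.swap p.1 p.2).prod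

theorem tau100_apply : ∀ i : Fin 100, ((tau100 i : Fin 100) : ℕ) = tauP.getD i 0 := by decide +kernel

set_option maxRecDepth 100000 in
theorem tauL_ne : (tauL.all fun p => decide (p.1 ≠ p.2)) = true := by decide +kernel

theorem tau100_sign : Equiv.Perm.sign tau100 = -1 := by
  rw [tau100, Equiv.Perm.sign_prod_list_swap]
  · rw [List.length_map]
    have : tauL.length = 35 := by decide
    rw [this]; decide
  · intro g hg
    rw [List.mem_map] at hg
    obtain ⟨p, hp, rfl⟩ := hg
    exact ⟨p.1, p.2, by simpa using List.all_eq_true.1 tauL_ne p hp, rfl⟩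

theorem tau100_adj : ∀ i j : Fin 100, (rows100.getD (tauP.getD i 0) 0).testBit (tauP.getD j 0) =
    (rows100.getD i 0).testBit j := by
  have key : ((List.range 100).all fun i => (List.range 100).all fun j =>
      (rows100.getD (tauP.getD i 0) 0).testBit (tauP.getD j 0) == (rows100.getD i 0).testBit j) = true := by
    decide +kernel
  intro i j
  have h1 := List.all_eq_true.1 key i (List.mem_range.2 i.2)
  have h2 := List.all_eq_true.1 h1 j (List.mem_range.2 j.2)
  exact beq_iff_eq.1 h2

/-! ### the group -/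

section main

variable {α : Type*} [Fintype α] [DecidableEq α] {B : Set (Finset α)} [Fintype B]

theorem exists_odd {e : Fin 22 ≃ α} (he : B = (fun m => im e m) '' {m | m ∈ V22}) :
    ∃ g : setSystemAut B, Equiv.Perm.sign (ext g) = -1 := by
  have h1 : (vx he).symm.permCongr tau100 ∈ autG (pointBlockGraph B) := by
    intro x y
    rw [pointBlock_adj he, pointBlock_adj he, Equiv.permCongr_apply, Equiv.permCongr_apply, Equiv.symm_symm,
      Equiv.apply_symm_apply, Equiv.apply_symm_apply, tau100_apply, tau100_apply, tau100_adj]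
  have h2 : (vx he).symm.permCongr tau100 none = none := by
    rw [Equiv.permCongr_apply, Equiv.symm_symm, Equiv.symm_apply_eq]
    apply Fin.ext
    rw [tau100_apply, vx_none]
    decide
  obtain ⟨g, hg⟩ := exists_ext h1 h2
  refine ⟨g, ?_⟩
  rw [hg, Equiv.Perm.sign_permCongr, tau100_sign]

theorem card_V (hα : Fintype.card α = 22) (hB : IsSteinerSystem 3 6 B) :
    Fintype.card (Option (α ⊕ B)) = 100 := by
  classical
  obtain ⟨e, he⟩ := exists22 hα hB
  exact (pointBlock_srg he).card

/-- the graph is vertex transitive -/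
theorem graph_trans (hα : Fintype.card α = 22) (hB : IsSteinerSystem 3 6 B) (x y : Option (α ⊕ B)) :
    ∃ σ ∈ autG (pointBlockGraph B), σ x = y := by
  classical
  obtain ⟨e, he⟩ := exists22 hα hB
  have hG := pointBlock_srg he
  obtain ⟨φ, hφ0, hφ⟩ := SRG100.exists_rows' hG x
  obtain ⟨ψ, hψ0, hψ⟩ := SRG100.exists_rows' hG y
  refine ⟨φ.trans ψ.symm, fun u v => ?_, ?_⟩
  · rw [hψ, hφ u v, Equiv.trans_apply, Equiv.trans_apply, Equiv.apply_symm_apply, Equiv.apply_symm_apply]
  · rw [Equiv.trans_apply, hφ0, Equiv.symm_apply_eq, hψ0]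

/-- the even automorphisms -/
def HSg (B : Set (Finset α)) [Fintype B] : Subgroup (Equiv.Perm (Option (α ⊕ B))) :=
  autG (pointBlockGraph B) ⊓ (Equiv.Perm.sign).ker

theorem hs_trans (hα : Fintype.card α = 22) (hB : IsSteinerSystem 3 6 B) (x y : Option (α ⊕ B)) :
    ∃ σ ∈ HSg B, σ x = y := by
  obtain ⟨e, he⟩ := exists22 hα hB
  obtain ⟨g, hg⟩ := exists_odd he
  obtain ⟨σ, hσ, hxy⟩ := graph_trans hα hB x y
  rcases Int.units_eq_one_or (Equiv.Perm.sign σ) with h | h
  · exact ⟨σ, Subgroup.mem_inf.2 ⟨hσ, MonoidHom.mem_ker.2 h⟩, hxy⟩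
  · obtain ⟨ρ, hρ, hρy⟩ := graph_trans hα hB none y
    refine ⟨ρ * ext g * ρ⁻¹ * σ,
      Subgroup.mem_inf.2 ⟨mul_mem (mul_mem (mul_mem hρ (ext_mem g)) (inv_mem hρ)) hσ, ?_⟩, ?_⟩
    · rw [MonoidHom.mem_ker, map_mul, map_mul, map_mul, map_inv, hg, h]
      rcases Int.units_eq_one_or (Equiv.Perm.sign ρ) with h' | h' <;> rw [h'] <;> decide
    · rw [Equiv.Perm.mul_apply, hxy, Equiv.Perm.mul_apply, Equiv.Perm.mul_apply]
      have : ρ⁻¹ y = none := by rw [Equiv.Perm.inv_eq_iff_eq]; exact hρy.symm
      rw [this, ext_none, hρy]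

/-- the stabiliser of the extra vertex -/
theorem exists_stab (hα : Fintype.card α = 22) (hB : IsSteinerSystem 3 6 B) :
    ∃ K : Subgroup (Equiv.Perm α), ∃ hK : K ≤ setSystemAut B, IsM22 K ∧ Multi K 3 ∧
      (∀ k : K, ext ⟨k, hK k.2⟩ ∈ HSg B) ∧
      Nonempty (K ≃* MulAction.stabilizer (HSg B) (none : Option (α ⊕ B))) := by
  obtain ⟨e, he⟩ := exists22 hα hB
  obtain ⟨g, hg⟩ := exists_odd he
  obtain ⟨K, hK, hM, hmul⟩ := exists_K hα hB
  have hcard : Nat.card (setSystemAut B) = 887040 := (Cfsg.Agent.S0414.result hα hB).1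
  -- the sign on the design group
  let s : setSystemAut B →* ℤˣ := Equiv.Perm.sign.comp ext
  have hs1 : ∀ k : K, s ⟨k, hK k.2⟩ = 1 := by
    have hsimple := hM.1
    let f : K →* ℤˣ := s.comp (Subgroup.inclusion hK)
    rcases hsimple.eq_bot_or_eq_top_of_normal f.ker inferInstance with h | h
    · exfalso
      have h1 : Function.Injective f := (MonoidHom.ker_eq_bot_iff f).1 h
      have h2 := Nat.card_le_card_of_injective f h1
      rw [hM.2, Nat.card_eq_fintype_card] at h2
      have h3 : Fintype.card ℤˣ = 2 := rfl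
      omega
    · intro k
      have : k ∈ f.ker := by rw [h]; exact Subgroup.mem_top k
      exact this
  have hmem : ∀ k : K, ext ⟨k, hK k.2⟩ ∈ HSg B :=
    fun k => Subgroup.mem_inf.2 ⟨ext_mem _, MonoidHom.mem_ker.2 (hs1 k)⟩
  -- the kernel of the sign is `K`
  have hker : Nat.card s.ker = 443520 := by
    have h1 : Function.Surjective s := by
      intro u
      rcases Int.units_eq_one_or u with rfl | rfl
      · exact ⟨1, map_one s⟩
      · exact ⟨g, hg⟩
    have h2 : s.ker.index = 2 := by
      rw [Subgroup.index_ker, MonoidHom.range_eq_top.2 h1, Subgroup.card_top, Nat.card_eq_fintype_card]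
      rfl
    have h3 := s.ker.card_mul_index
    rw [h2, hcard] at h3
    omega
  have hKker : K.subgroupOf (setSystemAut B) = s.ker := by
    haveI : Finite s.ker := Nat.finite_of_card_ne_zero (by rw [hker]; norm_num)
    apply Subgroup.eq_of_le_of_card_ge
    · intro x hx
      exact hs1 ⟨x, hx⟩
    · rw [hker, Nat.card_congr (Subgroup.subgroupOfEquivOfLe hK).toEquiv, hM.2]
  let F : K →* MulAction.stabilizer (HSg B) (none : Option (α ⊕ B)) :=
    { toFun := fun k => ⟨⟨ext ⟨k, hK k.2⟩, hmem k⟩, ext_none _⟩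
      map_one' := Subtype.ext (Subtype.ext (map_one ext))
      map_mul' := fun a b => Subtype.ext (Subtype.ext (map_mul ext ⟨a, hK a.2⟩ ⟨b, hK b.2⟩)) }
  have hFi : Function.Injective F := by
    intro a b h
    have h1 : ext ⟨a, hK a.2⟩ = ext ⟨b, hK b.2⟩ :=
      congrArg (fun x : MulAction.stabilizer (HSg B) (none : Option (α ⊕ B)) =>
        ((x : HSg B) : Equiv.Perm (Option (α ⊕ B)))) h
    have h2 := ext_injective h1
    have h3 := congrArg (fun z : setSystemAut B => (z : Equiv.Perm α)) h2
    exact Subtype.ext h3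
  have hFs : Function.Surjective F := by
    rintro ⟨⟨σ, hσσ⟩, h0⟩
    obtain ⟨hσ, hσ'⟩ := Subgroup.mem_inf.1 hσσ
    obtain ⟨x, hx⟩ := exists_ext hσ h0
    have h1 : x ∈ s.ker := by
      rw [MonoidHom.mem_ker] at hσ' ⊢
      change Equiv.Perm.sign (ext x) = 1
      rw [hx]; exact hσ'
    rw [← hKker, Subgroup.mem_subgroupOf] at h1
    exact ⟨⟨x, h1⟩, Subtype.ext (Subtype.ext hx)⟩
  exact ⟨K, hK, hM, hmul, hmem, ⟨MulEquiv.ofBijective F ⟨hFi, hFs⟩⟩⟩

theorem isHS (hα : Fintype.card α = 22) (hB : IsSteinerSystem 3 6 B) : IsHS (HSg B) := by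
  obtain ⟨K, hK, hM, hmul, hmem, ⟨F⟩⟩ := exists_stab hα hB
  have hV : Nat.card (Option (α ⊕ B)) = 100 := by rw [Nat.card_eq_fintype_card, card_V hα hB]
  have htr : ∀ x y : Option (α ⊕ B), ∃ g : HSg B, g • x = y := by
    intro x y
    obtain ⟨σ, hσ, h⟩ := hs_trans hα hB x y
    exact ⟨⟨σ, hσ⟩, h⟩
  constructor
  · haveI : Fact (Nat.Prime 5) := ⟨by norm_num⟩
    have hS : IsSimpleGroup (MulAction.stabilizer (HSg B) (none : Option (α ⊕ B))) := by
      have := hM.1
      exact F.symm.isSimpleGroup
    refine QPS.isSimple htr none ?_ hS 5 (by rw [hV]; norm_num) ?_ ?_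
    · intro T hT hinv hdvd
      rw [hV] at hdvd
      have hpt : ∀ a a' : α, some (Sum.inl a) ∈ T → some (Sum.inl a') ∈ T := by
        intro a a' ha
        have hcard : ∀ z : α, ∃ x : Fin 3 ↪ α, x 0 = z := by
          intro z
          have h1 : 2 ≤ (Finset.univ.erase z).card := by
            rw [Finset.card_erase_of_mem (Finset.mem_univ _), Finset.card_univ, hα]; norm_num
          obtain ⟨y, hy⟩ := Finset.exists_subset_card_eq h1
          obtain ⟨u, v, huv, hyuv⟩ := Finset.card_eq_two.1 hy.2
          have hu : u ≠ z := (Finset.mem_erase.1 (hy.1 (by rw [hyuv]; simp))).1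
          have hv : v ≠ z := (Finset.mem_erase.1 (hy.1 (by rw [hyuv]; simp))).1
          refine ⟨⟨![z, u, v], ?_⟩, rfl⟩
          intro i j hij
          fin_cases i <;> fin_cases j <;> simp_all
        obtain ⟨x, hx⟩ := hcard a
        obtain ⟨y, hy⟩ := hcard a'
        obtain ⟨k, hk, hkxy⟩ := hmul x y
        have h1 := hinv ⟨_, hmem ⟨k, hk⟩⟩ (ext_none _) _ ha
        have h2 : (⟨ext ⟨k, hK hk⟩, hmem ⟨k, hk⟩⟩ : HSg B) • (some (Sum.inl a) : Option (α ⊕ B)) =
            some (Sum.inl a') := by
          change ext ⟨k, hK hk⟩ (some (Sum.inl a)) = _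
          rw [ext_inl, ← hx, ← hy]
          change some (Sum.inl (k (x 0))) = _
          rw [hkxy]
        rw [h2] at h1
        exact h1
      have hbl : ∀ b b' : B, some (Sum.inr b) ∈ T → some (Sum.inr b') ∈ T := by
        intro b b' hb
        have hemb : ∀ c : B, ∃ x : Fin 3 ↪ α, ∀ i, x i ∈ (c : Finset α) := by
          intro c
          have h1 : 3 ≤ Fintype.card {a : α // a ∈ (c : Finset α)} := by
            rw [Fintype.card_coe, hB.1 c c.2]; norm_num
          obtain ⟨x⟩ := Function.Embedding.nonempty_of_card_le (α := Fin 3) (β := {a : α // a ∈ (c : Finset α)})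
            (by rw [Fintype.card_fin]; exact h1)
          exact ⟨x.trans (Function.Embedding.subtype _), fun i => (x i).2⟩
        obtain ⟨x, hx⟩ := hemb b
        obtain ⟨y, hy⟩ := hemb b'
        obtain ⟨k, hk, hkxy⟩ := hmul x y
        have h1 := hinv ⟨_, hmem ⟨k, hk⟩⟩ (ext_none _) _ hb
        have h2 : (⟨ext ⟨k, hK hk⟩, hmem ⟨k, hk⟩⟩ : HSg B) • (some (Sum.inr b) : Option (α ⊕ B)) =
            some (Sum.inr b') := by
          change ext ⟨k, hK hk⟩ (some (Sum.inr b)) = _
          rw [ext_inr]
          congr 2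
          apply Subtype.ext
          change k • (b : Finset α) = b'
          apply CfsgLib.Steiner.eq_of_card_inter hB (mem_aut_iff_forall.1 (hK hk) b b.2) b'.2
          have h3 : (Finset.univ.map y) ⊆ k • (b : Finset α) ∩ (b' : Finset α) := by
            intro p hp
            rw [Finset.mem_map] at hp
            obtain ⟨i, _, rfl⟩ := hp
            rw [Finset.mem_inter]
            refine ⟨?_, hy i⟩
            rw [← hkxy, mem_smul_iff]
            exact hx i
          refine le_trans ?_ (Finset.card_le_card h3)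
          rw [Finset.card_map, Finset.card_univ, Fintype.card_fin]
        rw [h2] at h1
        exact h1
      -- sizes
      have hBc : Fintype.card B = 77 := by
        have := card_V hα hB
        rw [Fintype.card_option, Fintype.card_sum, hα] at this
        omega
      by_cases hp : ∃ a : α, some (Sum.inl a) ∈ T <;> by_cases hb : ∃ b : B, some (Sum.inr b) ∈ T
      · right
        obtain ⟨a, ha⟩ := hp
        obtain ⟨b, hb⟩ := hb
        rw [Set.eq_univ_iff_forall]
        intro x
        rcases x with _ | (a' | b')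
        · exact hT
        · exact hpt a a' ha
        · exact hbl b b' hb
      · exfalso
        obtain ⟨a, ha⟩ := hp
        have h1 : T = insert none (Set.range fun a : α => (some (Sum.inl a) : Option (α ⊕ B))) := by
          ext x
          rw [Set.mem_insert_iff, Set.mem_range]
          rcases x with _ | (a' | b')
          · simp [hT]
          · simp [hpt a a' ha]
          · constructor
            · intro h; exact absurd ⟨b', h⟩ hb
            · rintro (h | ⟨a', h⟩)
              · exact absurd h (by simp)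
              · exact absurd h (by simp)
        have h2 : T.ncard = 23 := by
          rw [h1, Set.ncard_insert_of_notMem (by simp) (Set.toFinite _), ← Set.image_univ,
            Set.ncard_image_of_injective _ (fun a b h => by simpa using h), Set.ncard_univ,
            Nat.card_eq_fintype_card, hα]
        rw [h2] at hdvd
        exact absurd hdvd (by norm_num)
      · exfalso
        obtain ⟨b, hb⟩ := hb
        have h1 : T = insert none (Set.range fun b : B => (some (Sum.inr b) : Option (α ⊕ B))) := by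
          ext x
          rw [Set.mem_insert_iff, Set.mem_range]
          rcases x with _ | (a' | b')
          · simp [hT]
          · constructor
            · intro h; exact absurd ⟨a', h⟩ hp
            · rintro (h | ⟨a', h⟩)
              · exact absurd h (by simp)
              · exact absurd h (by simp)
          · simp only [reduceCtorEq, Option.some.injEq, Sum.inr.injEq, exists_eq, or_true, iff_true]
            exact hbl b b' hb
        have h2 : T.ncard = 78 := by
          rw [h1, Set.ncard_insert_of_notMem (by simp) (Set.toFinite _), ← Set.image_univ,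
            Set.ncard_image_of_injective _ (fun a b h => by simpa using h), Set.ncard_univ,
            Nat.card_eq_fintype_card, hBc]
        rw [h2] at hdvd
        exact absurd hdvd (by norm_num)
      · left
        rw [Set.ncard_eq_one]
        refine ⟨none, ?_⟩
        ext x
        rw [Set.mem_singleton_iff]
        rcases x with _ | (a' | b')
        · simp [hT]
        · constructor
          · intro h; exact absurd ⟨a', h⟩ hp
          · intro h; exact absurd h (by simp)
        · constructor
          · intro h; exact absurd ⟨b', h⟩ hb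
          · intro h; exact absurd h (by simp)
    · intro k hk
      rw [hV] at hk
      have h2 : 2 ∣ 5 ^ k := by rw [← hk]; norm_num
      have h3 := Nat.prime_two.dvd_of_dvd_pow h2
      exact absurd h3 (by norm_num)
    · intro n hn h1 h2
      rw [hV] at hn
      have h3 : n ∣ 4 := by
        have h4 : n ∣ 4 * 5 ^ 2 := hn
        exact (Nat.Coprime.pow_right 2 h2).dvd_of_dvd_mul_right h4
      have h5 := Nat.le_of_dvd (by norm_num) h3
      have h6 : n % 5 = 1 := h1
      omega
  · have h1 := (MulAction.stabilizer (HSg B) (none : Option (α ⊕ B))).card_mul_index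
    have h2 : MulAction.orbit (HSg B) (none : Option (α ⊕ B)) = Set.univ := by
      rw [Set.eq_univ_iff_forall]
      intro x
      obtain ⟨g, hg⟩ := htr none x
      exact ⟨g, hg⟩
    rw [MulAction.index_stabilizer, h2, Set.ncard_univ, hV, ← Nat.card_congr F.toEquiv, hM.2] at h1
    rw [← h1]

end main

end CfsgLib.HS
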