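import Cfsg.Agent.LibSolvMin

/-! group part of the homogeneous restriction theorem -/

set_option autoImplicit false
set_option linter.all false

namespace Cfsg.Agent.LibHSP1

open CfsgLib.SolvMin

variable {G : Type*} [Group G] [Finite G]

theorem chief (K : Subgroup G) [hK : K.Normal] (hKt : K ≠ ⊤) (hs : Group.IsSolvable (G ⧸ K)) :
    ∃ (M : Subgroup G) (p a : ℕ), M.Normal ∧ K ≤ M ∧ p.Prime ∧ Nat.card M = Nat.card K * p ^ a ∧ a ≠ 0 ∧
      (∀ x ∈ M, ∀ y ∈ M, x * y * x⁻¹ * y⁻¹ ∈ K) := by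
  have hnt : (⊤ : Subgroup (G ⧸ K)) ≠ ⊥ := by
    intro h
    apply hKt
    rw [eq_top_iff]
    intro x _
    have : (x : G ⧸ K) ∈ (⊥ : Subgroup (G ⧸ K)) := by rw [← h]; exact Subgroup.mem_top _
    rw [Subgroup.mem_bot] at this
    exact (QuotientGroup.eq_one_iff x).mp this
  obtain ⟨N, p, hp, hN, -, hc, hpow, hpg⟩ := exists_minNormal_pgroup_of_solvable (G := G ⧸ K) ⊤ hnt
  haveI : Fact p.Prime := ⟨hp⟩
  haveI := hN.1
  obtain ⟨a, ha⟩ := IsPGroup.iff_card.mp hpg
  refine ⟨N.comap (QuotientGroup.mk' K), p, a, inferInstance, ?_, hp, ?_, ?_, ?_⟩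
  · intro x hx
    show (QuotientGroup.mk' K) x ∈ N
    have : (QuotientGroup.mk' K) x = 1 := (QuotientGroup.eq_one_iff x).mpr hx
    rw [this]; exact N.one_mem
  · rw [← ha]
    exact QuotientGroup.card_preimage_mk K (N : Set (G ⧸ K))
  · rintro rfl
    apply hN.2.1
    rw [pow_zero] at ha
    exact Subgroup.card_eq_one.mp ha
  · intro x hx y hy
    rw [← QuotientGroup.eq_one_iff]
    have h1 : (QuotientGroup.mk' K x) * (QuotientGroup.mk' K y) = (QuotientGroup.mk' K y) * (QuotientGroup.mk' K x) :=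
      congrArg Subtype.val (hc.is_comm.comm (⟨_, hx⟩ : N) ⟨_, hy⟩)
    show (QuotientGroup.mk' K) (x * y * x⁻¹ * y⁻¹) = 1
    rw [map_mul, map_mul, map_mul, h1, map_inv, map_inv]
    group

theorem solv_quot (L K : Subgroup G) [L.Normal] [K.Normal] (hLK : L ≤ K) (hs : Group.IsSolvable (G ⧸ L)) :
    Group.IsSolvable (G ⧸ K) := by
  have hf : Function.Surjective (QuotientGroup.map L K (MonoidHom.id G) hLK) := by
    intro x
    obtain ⟨g, rfl⟩ := QuotientGroup.mk_surjective x
    exact ⟨(g : G ⧸ L), rfl⟩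
  exact Group.isSolvable_of_surjective hf

theorem normal_of (H M X : Subgroup G) (hHM : H ⊔ M = ⊤) (h1 : H ≤ Subgroup.normalizer (X : Set G))
    (h2 : M ≤ Subgroup.normalizer (X : Set G)) : X.Normal := by
  have h3 : Subgroup.normalizer (X : Set G) = ⊤ := by
    rw [eq_top_iff, ← hHM]; exact sup_le h1 h2
  exact Subgroup.normalizer_eq_top_iff.mp h3

theorem card_eq (H X : Subgroup G) [X.Normal] (h : H ⊔ X = ⊤) : Nat.card G * Nat.card (X ⊓ H : Subgroup G) = Nat.card X * Nat.card H := by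
  have h1 : X.relIndex (H ⊔ X) = X.relIndex H := Subgroup.relIndex_sup_right H X
  rw [h, Subgroup.relIndex_top_right] at h1
  have h2 := Subgroup.card_mul_index X
  have h3 := Subgroup.card_mul_index (X.subgroupOf H)
  have h4 : Nat.card (X.subgroupOf H) = Nat.card (X ⊓ H : Subgroup G) := by
    rw [← Subgroup.inf_subgroupOf_right]
    exact Nat.card_congr (Subgroup.subgroupOfEquivOfLe inf_le_right).toEquiv
  have h5 : (X.subgroupOf H).index = X.relIndex H := rfl
  rw [h4, h5, ← h1] at h3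
  rw [← h2, ← h3]
  ring

theorem norm_inf (H X : Subgroup G) [X.Normal] : H ≤ Subgroup.normalizer ((X ⊓ H : Subgroup G) : Set G) := by
  intro h hh
  rw [Subgroup.mem_normalizer_iff]
  intro x
  constructor
  · rintro ⟨h1, h2⟩
    exact ⟨(inferInstance : X.Normal).conj_mem x h1 h, H.mul_mem (H.mul_mem hh h2) (H.inv_mem hh)⟩
  · rintro ⟨h1, h2⟩
    refine ⟨?_, ?_⟩
    · have := (inferInstance : X.Normal).conj_mem _ h1 h⁻¹
      have h3 : h⁻¹ * (h * x * h⁻¹) * h⁻¹⁻¹ = x := by group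
      rw [h3] at this; exact this
    · have := H.mul_mem (H.mul_mem (H.inv_mem hh) h2) hh
      have h3 : h⁻¹ * (h * x * h⁻¹) * h = x := by group
      rw [h3] at this; exact this

/-- the intersection of `H` with the chief factor -/
theorem inf_eq (H : Subgroup G) (hmax : IsCoatom H) (M : Subgroup G) [M.Normal] (hKM : H.normalCore ≤ M)
    (hne : M ≠ H.normalCore) (hcomm : ∀ x ∈ M, ∀ y ∈ M, x * y * x⁻¹ * y⁻¹ ∈ H.normalCore) :
    H ⊔ M = ⊤ ∧ M ⊓ H = H.normalCore := by
  have h1 : ¬ M ≤ H := by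
    intro h
    exact hne (le_antisymm (Subgroup.normal_le_normalCore.mpr h) hKM)
  have h2 : H ⊔ M = ⊤ := by
    apply hmax.2
    refine lt_of_le_of_ne le_sup_left ?_
    intro h
    exact h1 (h ▸ le_sup_right)
  refine ⟨h2, ?_⟩
  apply le_antisymm
  · have h3 : M ≤ Subgroup.normalizer ((M ⊓ H : Subgroup G) : Set G) := by
      have hK : H.normalCore ≤ M ⊓ H := le_inf hKM H.normalCore_le
      have key : ∀ m ∈ M, ∀ x ∈ M ⊓ H, m * x * m⁻¹ ∈ M ⊓ H := by
        intro m hm x hx
        have h4 := hK (hcomm m hm x hx.1)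
        have h5 := (M ⊓ H).mul_mem h4 hx
        have h6 : m * x * m⁻¹ * x⁻¹ * x = m * x * m⁻¹ := by group
        rw [h6] at h5; exact h5
      intro m hm
      rw [Subgroup.mem_normalizer_iff]
      intro x
      refine ⟨key m hm x, fun h => ?_⟩
      have := key m⁻¹ (M.inv_mem hm) _ h
      have h3 : m⁻¹ * (m * x * m⁻¹) * m⁻¹⁻¹ = x := by group
      rw [h3] at this; exact this
    have h4 : (M ⊓ H).Normal := normal_of H M _ h2 (norm_inf H M) h3
    exact Subgroup.normal_le_normalCore.mpr inf_le_right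
  · exact le_inf hKM H.normalCore_le

/-- the primes are different -/
theorem prime_ne (H : Subgroup G) (hmax : IsCoatom H) (X : Subgroup G) [X.Normal] (hKX : H.normalCore ≤ X)
    {p c : ℕ} (hp : p.Prime) (hc : Nat.card X = Nat.card H.normalCore * p ^ c) (hXH : ¬ X ≤ H) :
    X ⊓ H = H.normalCore := by
  haveI : Fact p.Prime := ⟨hp⟩
  by_contra hne
  set K := H.normalCore with hKdef
  let π := QuotientGroup.mk' (K.subgroupOf X)
  have hπ : Function.Surjective π := QuotientGroup.mk'_surjective _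
  have hcard : Nat.card (X ⧸ K.subgroupOf X) = p ^ c := by
    have h1 := Subgroup.card_eq_card_quotient_mul_card_subgroup (K.subgroupOf X)
    rw [Nat.card_congr (Subgroup.subgroupOfEquivOfLe hKX).toEquiv, hc] at h1
    have h2 : 0 < Nat.card K := Nat.card_pos
    nlinarith [Nat.eq_of_mul_eq_mul_right h2 (by rw [← h1]; ring : p ^ c * Nat.card K = Nat.card (X ⧸ K.subgroupOf X) * Nat.card K)]
  have hpg : IsPGroup p (X ⧸ K.subgroupOf X) := IsPGroup.of_card hcard
  have hnil : Group.IsNilpotent (X ⧸ K.subgroupOf X) := hpg.isNilpotent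
  have hnc := Group.normalizerCondition_of_isNilpotent (G := X ⧸ K.subgroupOf X)
  let Q1 : Subgroup X := (X ⊓ H).subgroupOf X
  have hKQ : K.subgroupOf X ≤ Q1 := by
    intro x hx
    exact ⟨x.2, H.normalCore_le hx⟩
  have hcm : (Q1.map π).comap π = Q1 := by
    rw [Subgroup.comap_map_eq, QuotientGroup.ker_mk', sup_eq_left]
    exact hKQ
  have hQt : Q1.map π < ⊤ := by
    rw [lt_top_iff_ne_top]
    intro h
    rw [h, Subgroup.comap_top] at hcm
    apply hXH
    intro x hx
    have h1 : (⟨x, hx⟩ : X) ∈ Q1 := by rw [← hcm]; exact Subgroup.mem_top _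
    exact (Subgroup.mem_subgroupOf.mp h1).2
  have h1 := hnc _ hQt
  have h2 : Q1 < Subgroup.normalizer (Q1 : Set X) := by
    have h3 := Subgroup.comap_lt_comap_of_surjective hπ |>.mpr h1
    rw [hcm] at h3
    refine h3.trans_le ?_
    rw [Subgroup.comap_normalizer_eq_of_surjective _ hπ, hcm]
  obtain ⟨-, y, hy, hyQ⟩ := SetLike.lt_iff_le_and_exists.mp h2
  have hyH : (y : G) ∉ H := by
    intro h
    exact hyQ ⟨y.2, h⟩
  have hyN : (y : G) ∈ Subgroup.normalizer ((X ⊓ H : Subgroup G) : Set G) := by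
    rw [Subgroup.mem_normalizer_iff] at hy ⊢
    intro x
    constructor
    · intro hx
      exact (hy ⟨x, hx.1⟩).mp hx
    · intro hx
      have h4 : x ∈ X := by
        have := (inferInstance : X.Normal).conj_mem _ hx.1 (y : G)⁻¹
        have h3 : (y : G)⁻¹ * ((y : G) * x * (y : G)⁻¹) * (y : G)⁻¹⁻¹ = x := by group
        rw [h3] at this; exact this
      exact (hy ⟨x, h4⟩).mpr hx
  have h5 : Subgroup.normalizer ((X ⊓ H : Subgroup G) : Set G) = ⊤ := by
    apply hmax.2
    refine lt_of_le_of_ne (norm_inf H X) ?_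
    intro h
    rw [← h] at hyN
    exact hyH hyN
  have h6 : (X ⊓ H).Normal := Subgroup.normalizer_eq_top_iff.mp h5
  apply hne
  exact le_antisymm (Subgroup.normal_le_normalCore.mpr inf_le_right) (le_inf hKX H.normalCore_le)

end Cfsg.Agent.LibHSP1
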