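import Cfsg.Agent.LibHSP1
import Cfsg.Agent.LibExtend5
import Cfsg.Agent.LibCharIndA
import Cfsg.Agent.LibCharMore

/-! character part of the homogeneous restriction theorem -/

set_option autoImplicit false
set_option linter.all false

namespace Cfsg.Agent.LibHSP2

open Cfsg CfsgLib CfsgLib.CharBasic CfsgLib.CharIndA CfsgLib.Clifford CfsgLib.Extend Cfsg.Agent.LibHSP1
open scoped ComplexConjugate

universe u

variable {G : Type u} [Group G] [Fintype G]

open Classical in
theorem sum_sub (Y : Subgroup G) [Fintype Y] (F : G → ℂ) : ∑ y : Y, F y = ∑ g : G, if g ∈ Y then F g else 0 := by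
  have h := sum_ext Y (fun _ => (1 : ℂ)) F
  simp only [one_mul] at h
  rw [← h]
  refine Finset.sum_congr rfl fun g _ => ?_
  by_cases hg : g ∈ Y
  · rw [ext_mem Y _ hg, one_mul, if_pos hg]
  · rw [ext_not_mem Y _ hg, zero_mul, if_neg hg]

/-- extraction of a multiple -/
theorem extract {θ : G → ℂ} (hθ : IsIrrCharacter G θ) (n : ℕ) : ∀ χ : G → ℂ, IsCharacter G χ → classInner χ θ = n →
    ∃ ψ : G → ℂ, IsCharacter G ψ ∧ χ = (n : ℂ) • θ + ψ := by
  induction n with
  | zero => intro χ hχ _; exact ⟨χ, hχ, by simp⟩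
  | succ n ih =>
    intro χ hχ h
    obtain ⟨ψ, hψ, rfl⟩ := CfsgLib.CharMore.split_off hχ hθ (by rw [h]; exact_mod_cast Nat.succ_ne_zero n)
    rw [CharBasic.inner_add_left, irr_inner_self hθ] at h
    obtain ⟨ψ', hψ', rfl⟩ := ih ψ hψ (by push_cast at h; linear_combination h)
    refine ⟨ψ', hψ', ?_⟩
    push_cast
    module

theorem eq_of_degree {θ χ : G → ℂ} (hθ : IsIrrCharacter G θ) (hχ : IsCharacter G χ) (n : ℕ) (h : classInner χ θ = n)
    (hd : χ 1 = n * θ 1) : χ = (n : ℂ) • θ := by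
  obtain ⟨ψ, hψ, h1⟩ := extract hθ n χ hχ h
  have h2 : ψ = 0 := by
    funext g
    have h3 := congrFun h1 1
    rw [hd] at h3
    have h5 : ψ 1 = 0 := by
      simp only [Pi.add_apply, Pi.smul_apply, smul_eq_mul] at h3
      linear_combination -h3
    have h6 := char_norm_le hψ g
    rw [h5] at h6
    exact norm_le_zero_iff.1 (by simpa using h6)
  rw [h1, h2, add_zero]

section
variable (H : Subgroup G) (ϑ : H → ℂ)

local notation "E" => extendByZero H ϑ
local notation "χ" => indFun H ϑ

theorem res_char (hϑ : IsIrrCharacter H ϑ) (Y : Subgroup G) (hYH : Y ≤ H) : IsCharacter Y (fun y : Y => E (y : G)) := by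
  have h := isCharacter_comp (irr_isCharacter hϑ) (Subgroup.inclusion hYH)
  convert h using 1
  funext y
  rw [ext_mem H ϑ (hYH y.2)]
  rfl

theorem res_irr (hϑ : IsIrrCharacter H ϑ) (L Y : Subgroup G) (hLY : L ≤ Y) (hYH : Y ≤ H)
    (hL : IsIrrCharacter L (fun x : L => E (x : G))) : IsIrrCharacter Y (fun y : Y => E (y : G)) := by
  haveI := Fintype.ofFinite Y
  apply irr_of_restrict (res_char H ϑ hϑ Y hYH) (L.subgroupOf Y)
  exact (toSub_irr (θ := fun x : L => E (x : G)) hLY).mpr hL

open Classical in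
/-- Frobenius reciprocity for a normal supplement -/
theorem lemB (hϑ : IsIrrCharacter H ϑ) (X : Subgroup G) [X.Normal] (hHX : H ⊔ X = ⊤) [Fintype X] [Fintype (X ⊓ H : Subgroup G)]
    {φ : X → ℂ} (hφ : IsIrrCharacter X φ) (e : ℕ) (hχ : (fun x : X => χ (x : G)) = (e : ℂ) • φ) :
    ((e : ℂ)) ^ 2 = classInner (fun y : (X ⊓ H : Subgroup G) => E (y : G)) (fun y => χ (y : G)) := by
  haveI := Fintype.ofFinite H
  have hcl : IsClassFunction G χ := ind_classFun H ϑ
  let f : G → ℂ := fun y => if y ∈ X then χ y else 0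
  have hf : IsClassFunction G f := by
    intro g h
    show (if h * g * h⁻¹ ∈ X then χ (h * g * h⁻¹) else 0) = if g ∈ X then χ g else 0
    rw [hcl]
    by_cases hg : g ∈ X
    · rw [if_pos hg, if_pos ((inferInstance : X.Normal).conj_mem g hg h)]
    · rw [if_neg hg, if_neg]
      intro h1
      apply hg
      have := (inferInstance : X.Normal).conj_mem _ h1 h⁻¹
      have h3 : h⁻¹ * (h * g * h⁻¹) * h⁻¹⁻¹ = g := by group
      rw [h3] at this; exact this
  have hF := frobenius H ϑ hf
  have h1 : classInner (fun x : X => χ (x : G)) (fun x : X => χ (x : G)) = (e : ℂ) ^ 2 := by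
    rw [hχ, CharBasic.inner_smul_left, CharBasic.inner_smul_right, irr_inner_self hφ]
    simp [sq]
  have h2 : ∑ y : G, χ y * conj (f y) = (Nat.card X : ℂ) * (e : ℂ) ^ 2 := by
    rw [← h1, classInner, ← mul_assoc, mul_inv_cancel₀ (by exact_mod_cast Nat.card_pos.ne'), one_mul,
      sum_sub X (fun g => χ g * conj (χ g))]
    refine Finset.sum_congr rfl fun g _ => ?_
    by_cases hg : g ∈ X
    · show χ g * conj (if g ∈ X then χ g else 0) = _
      rw [if_pos hg, if_pos hg]
    · show χ g * conj (if g ∈ X then χ g else 0) = _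
      rw [if_neg hg, if_neg hg, map_zero, mul_zero]
  have h3 : ∑ h : H, ϑ h * conj (f h) = (Nat.card (X ⊓ H : Subgroup G) : ℂ) *
      classInner (fun y : (X ⊓ H : Subgroup G) => E (y : G)) (fun y => χ (y : G)) := by
    rw [classInner, ← mul_assoc, mul_inv_cancel₀ (by exact_mod_cast Nat.card_pos.ne'), one_mul,
      sum_sub (X ⊓ H) (fun g => E g * conj (χ g)), ← sum_ext H ϑ (fun g => conj (f g))]
    refine Finset.sum_congr rfl fun g _ => ?_
    by_cases hg : g ∈ H
    · by_cases hx : g ∈ X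
      · rw [if_pos (show g ∈ X ⊓ H from ⟨hx, hg⟩)]
        show E g * conj (if g ∈ X then χ g else 0) = _
        rw [if_pos hx]
      · rw [if_neg (fun h : g ∈ X ⊓ H => hx h.1)]
        show E g * conj (if g ∈ X then χ g else 0) = _
        rw [if_neg hx, map_zero, mul_zero]
    · rw [if_neg (fun h : g ∈ X ⊓ H => hg h.2), ext_not_mem H ϑ hg, zero_mul]
  rw [classInner, classInner, h2, h3] at hF
  have hc := card_eq H X hHX
  have hc' : (Nat.card G : ℂ) * Nat.card (X ⊓ H : Subgroup G) = Nat.card X * Nat.card H := by exact_mod_cast hc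
  have hG : (Nat.card G : ℂ) ≠ 0 := by exact_mod_cast Nat.card_pos.ne'
  have hH : (Nat.card H : ℂ) ≠ 0 := by exact_mod_cast Nat.card_pos.ne'
  have hX : (Nat.card X : ℂ) ≠ 0 := by exact_mod_cast Nat.card_pos.ne'
  have h4 : (Nat.card H : ℂ) * (Nat.card X * (e : ℂ) ^ 2) = Nat.card G * (Nat.card (X ⊓ H : Subgroup G) *
      classInner (fun y : (X ⊓ H : Subgroup G) => E (y : G)) (fun y => χ (y : G))) := by
    field_simp at hF
    linear_combination hF
  have h5 : ((Nat.card X : ℂ) * Nat.card H) * (e : ℂ) ^ 2 = (Nat.card X * Nat.card H) *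
      classInner (fun y : (X ⊓ H : Subgroup G) => E (y : G)) (fun y => χ (y : G)) := by
    linear_combination h4 + (classInner (fun y : (X ⊓ H : Subgroup G) => E (y : G)) (fun y => χ (y : G))) * hc'
  exact mul_left_cancel₀ (mul_ne_zero hX hH) h5

/-- invariance on the core -/
theorem core_inv (hϑ : IsIrrCharacter H ϑ) (hind : IsIrrCharacter G χ) (K : Subgroup G) [K.Normal] [Fintype K] (hKH : K ≤ H)
    (hK : IsIrrCharacter K (fun x : K => E (x : G))) {φ : K → ℂ} (hφ : IsIrrCharacter K φ) (e : ℕ)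
    (hχ : (fun x : K => χ (x : G)) = (e : ℂ) • φ) (x : G) (hx : x ∈ K) : χ x = (H.index : ℂ) * E x := by
  haveI := Fintype.ofFinite H
  have hcl : IsClassFunction G χ := ind_classFun H ϑ
  -- `χ_H` contains `ϑ`
  have h1 : classInner (fun h : H => χ (h : G)) ϑ = 1 := by
    rw [← frobenius' H ϑ hcl, irr_inner_self hind]
  obtain ⟨ψ, hψ, h2⟩ := CfsgLib.CharMore.split_off (isCharacter_restrict (irr_isCharacter hind) H) hϑ (by rw [h1]; exact one_ne_zero)
  have h3 : (fun x : K => χ (x : G)) = (fun x : K => E (x : G)) + (ψ ∘ Subgroup.inclusion hKH) := by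
    funext x
    have := congrFun h2 (Subgroup.inclusion hKH x)
    show χ (x : G) = E (x : G) + ψ (Subgroup.inclusion hKH x)
    rw [ext_mem H ϑ (hKH x.2)]
    exact this
  have hφeq : φ = fun x : K => E (x : G) := by
    by_contra hne
    obtain ⟨m, hm⟩ := char_mult (isCharacter_comp hψ (Subgroup.inclusion hKH)) (irr_isCharacter hK)
    have h4 : classInner (fun x : K => χ (x : G)) (fun x : K => E (x : G)) =
        classInner ((fun x : K => E (x : G)) + (ψ ∘ Subgroup.inclusion hKH)) (fun x : K => E (x : G)) := by rw [h3]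
    rw [hχ, CharBasic.inner_smul_left, irr_inner_ne hφ hK hne, CharBasic.inner_add_left, irr_inner_self hK, hm] at h4
    have h5 : (0 : ℂ) = ((1 + m : ℕ) : ℂ) := by push_cast; linear_combination h4
    have h6 : (0 : ℕ) = 1 + m := by exact_mod_cast h5
    omega
  have hval : ∀ y ∈ K, χ y = (e : ℂ) * E y := by
    intro y hy
    have := congrFun hχ ⟨y, hy⟩
    rw [hφeq] at this
    exact this
  have hH0 : (Nat.card H : ℂ) ≠ 0 := by exact_mod_cast Nat.card_pos.ne'
  have hidx : (Nat.card H : ℂ) * (H.index : ℂ) = Nat.card G := by exact_mod_cast Subgroup.card_mul_index H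
  have he0 : (e : ℂ) ≠ 0 := by
    intro h0
    have h6 := hval 1 K.one_mem
    rw [h0, zero_mul, ind_one] at h6
    have h7 : ϑ 1 ≠ 0 := irr_one_ne_zero hϑ
    have h8 : (H.index : ℂ) ≠ 0 := by exact_mod_cast Subgroup.index_ne_zero_of_finite
    exact (mul_ne_zero h8 h7) h6
  have hinv : ∀ g : G, E (g⁻¹ * x * g) = E x := by
    intro g
    have h6 := hcl x g⁻¹
    rw [inv_inv] at h6
    have h7 : g⁻¹ * x * g ∈ K := by
      have := (inferInstance : K.Normal).conj_mem x hx g⁻¹
      rwa [inv_inv] at this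
    rw [hval _ h7, hval x hx] at h6
    exact mul_left_cancel₀ he0 h6
  rw [ind_apply, Finset.sum_congr rfl fun g _ => hinv g, Finset.sum_const, nsmul_eq_mul, Finset.card_univ,
    ← Nat.card_eq_fintype_card, ← hidx]
  field_simp

end

end Cfsg.Agent.LibHSP2
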