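import Mathlib

/-! Number theory for the Hall subgroups of symmetric groups (helper10). -/

set_option autoImplicit false

namespace CfsgLib.HSn

open Nat

/-- Kummer: a carry forces divisibility. -/
theorem dvd_choose_of_carry {p m t i : ℕ} (hp : p.Prime) (hi : 1 ≤ i)
    (h : p ^ i ≤ m % p ^ i + t % p ^ i) : p ∣ (m + t).choose t := by
  have := Fact.mk hp
  have h1 := padicValNat_choose' (p := p) (n := m) (k := t) (b := i + Nat.log p (m + t) + 1) (by omega)
  have h2 : i ∈ Finset.filter (fun j => p ^ j ≤ t % p ^ j + m % p ^ j)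
      (Finset.Ico 1 (i + Nat.log p (m + t) + 1)) := by
    rw [Finset.mem_filter, Finset.mem_Ico]
    exact ⟨⟨hi, by omega⟩, by rw [add_comm]; exact h⟩
  have h3 : 0 < (Finset.filter (fun j => p ^ j ≤ t % p ^ j + m % p ^ j)
      (Finset.Ico 1 (i + Nat.log p (m + t) + 1))).card := Finset.card_pos.2 ⟨i, h2⟩
  exact dvd_of_one_le_padicValNat (by omega)

theorem choose_desc {n k s : ℕ} (hs : s ≤ k) :
    n.choose k * k.descFactorial s = n.descFactorial s * (n - s).choose (k - s) := by
  rw [descFactorial_eq_factorial_mul_choose, descFactorial_eq_factorial_mul_choose]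
  have := Nat.choose_mul (n := n) hs
  calc n.choose k * (s ! * k.choose s) = s ! * (n.choose k * k.choose s) := by ring
    _ = _ := by rw [this]; ring

/-- composite numbers up to `2m` have all prime factors at most `m`. -/
theorem le_of_dvd_comp {x m p : ℕ} (hx : ¬ x.Prime) (hx0 : x ≠ 0) (hxm : x ≤ 2 * m) (hp : p.Prime)
    (hd : p ∣ x) : p ≤ m := by
  obtain ⟨y, rfl⟩ := hd
  have hy : y ≠ 1 := by rintro rfl; rw [mul_one] at hx; exact hx hp
  have hy0 : y ≠ 0 := by rintro rfl; simp at hx0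
  have : 2 ≤ y := by omega
  have : p * 2 ≤ p * y := Nat.mul_le_mul_left p this
  omega

theorem not_prime_of_even {x : ℕ} (h : 2 ∣ x) (h2 : 2 < x) : ¬ x.Prime := by
  intro hx
  rcases (Nat.dvd_prime hx).1 h with h3 | h3 <;> omega

theorem final_check_aux : ((List.range 6161).all fun e => (6160 % e != 0) ||
    (List.range (e / 2 + 1)).all fun f => decide (3 * f * f + e * f ≤ e * e) || decide (5 * e ≤ 11 * f) ||
      ((5 * e - 11 * f) % (3 * f * f + e * f - e * e) != 0) || (e == 16 && f == 7)) = true := by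
  decide +kernel

theorem final_check (e f : ℕ) (he : e ∣ 6160) (hf : 2 * f ≤ e) (h1 : e * e < 3 * f * f + e * f)
    (h2 : 11 * f < 5 * e) (h3 : (3 * f * f + e * f - e * e) ∣ (5 * e - 11 * f)) : e = 16 ∧ f = 7 := by
  have h := final_check_aux
  rw [List.all_eq_true] at h
  have he1 : e < 6161 := Nat.lt_succ_of_le (Nat.le_of_dvd (by norm_num) he)
  have h4 := h e (List.mem_range.2 he1)
  rw [Bool.or_eq_true] at h4
  rcases h4 with h4 | h4
  · rw [Nat.mod_eq_zero_of_dvd he] at h4
    simp at h4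
  · rw [List.all_eq_true] at h4
    have h5 := h4 f (List.mem_range.2 (by omega))
    rw [Nat.mod_eq_zero_of_dvd h3] at h5
    simp only [Bool.or_eq_true, decide_eq_true_eq, bne_self_eq_false, Bool.false_eq_true, or_false,
      Bool.and_eq_true, beq_iff_eq] at h5
    rcases h5 with (h5 | h5) | h5
    · omega
    · omega
    · exact h5


theorem case_one {m t : ℕ} (ht5 : 5 ≤ t) (hmt' : t + 1 ≤ m) (hto : t % 2 = 1) (h3t : 3 ∣ t)
    (h : ∀ p, p.Prime → p ≤ m → ¬ p ∣ (m + t).choose t)
    (hk : (m + t - 1) * (m + 2) = 6 * (t * (t - 1))) : False := by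
  have hmt : m = 2 * t - 2 := by
    obtain ⟨t', rfl⟩ : ∃ t', t = t' + 5 := ⟨t - 5, by omega⟩
    obtain ⟨m', rfl⟩ : ∃ m', m = m' + t' + 6 := ⟨m - t' - 6, by omega⟩
    rw [show m' + t' + 6 + (t' + 5) - 1 = m' + 2 * t' + 10 by omega, show t' + 5 - 1 = t' + 4 by omega] at hk
    have h1 : ((m' : ℤ) - (t' + 2)) * (m' + 4 * t' + 20) = 0 := by
      have hk' : ((m' : ℤ) + 2 * t' + 10) * (m' + t' + 6 + 2) = 6 * ((t' + 5) * (t' + 4)) := by exact_mod_cast hk
      linarith
    rcases mul_eq_zero.1 h1 with h2 | h2 <;> omega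
  have hpow : ∃ j, t + 1 = 2 ^ j := by
    have : ∀ p, p.Prime → p ∣ t + 1 → p = 2 := by
      intro p hp hpd
      by_contra hp2
      have hp3 : p ≠ 3 := by rintro rfl; omega
      have hp5 : 5 ≤ p := by
        have := hp.two_le
        by_contra h5
        have : p = 4 := by omega
        subst this; revert hp; norm_num
      have hpt : p ≤ m := by
        have := Nat.le_of_dvd (by omega) hpd
        omega
      refine h p hp hpt ?_
      refine dvd_choose_of_carry (i := 1) hp le_rfl ?_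
      rw [pow_one]
      obtain ⟨k, hk⟩ := hpd
      have hk1 : 1 ≤ k := by
        rcases Nat.eq_zero_or_pos k with rfl | h0
        · omega
        · exact h0
      obtain ⟨k', rfl⟩ : ∃ k', k = k' + 1 := ⟨k - 1, by omega⟩
      have e0 : p * (k' + 1) = p * k' + p := by ring
      have ht1 : t = p * k' + (p - 1) := by omega
      have hm1 : m = p * (2 * k' + 1) + (p - 4) := by
        have : p * (2 * k' + 1) = 2 * (p * k') + p := by ring
        omega
      rw [ht1, hm1, Nat.mul_add_mod, Nat.mul_add_mod, Nat.mod_eq_of_lt (by omega), Nat.mod_eq_of_lt (by omega)]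
      omega
    refine ⟨(t + 1).primeFactorsList.length, ?_⟩
    exact Nat.eq_prime_pow_of_unique_prime_dvd (by omega) (fun {d} hd hdd => this d hd hdd)
  obtain ⟨j, hj⟩ := hpow
  have hj3 : 3 ≤ j := by
    by_contra hj3
    have : 2 ^ j ≤ 2 ^ 2 := Nat.pow_le_pow_right (by norm_num) (by omega)
    omega
  obtain ⟨j', rfl⟩ : ∃ j', j = j' + 3 := ⟨j - 3, by omega⟩
  refine h 2 Nat.prime_two (by omega) ?_
  refine dvd_choose_of_carry (i := 3) Nat.prime_two (by norm_num) ?_
  have hp : 2 ^ (j' + 3) = 8 * 2 ^ j' := by rw [pow_add]; ring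
  rw [hp] at hj
  have : 0 < 2 ^ j' := by positivity
  have e1 : t % 2 ^ 3 = 7 := by norm_num; omega
  have e2 : m % 2 ^ 3 = 4 := by norm_num; omega
  rw [e1, e2]; norm_num

theorem case_two {m t : ℕ} (ht5 : 5 ≤ t) (hmt' : t + 1 ≤ m)
    (h : ∀ p, p.Prime → p ≤ m → ¬ p ∣ (m + t).choose t)
    (hk : (m + t - 1) * (m + 2) = 3 * (t * (t - 1)))
    (h4 : (m + t - 3) ∣ t * (t - 1) * (t - 2) * (t - 3)) : False := by
  obtain ⟨y, hy⟩ : ∃ y, y = m + t - 3 := ⟨_, rfl⟩
  rw [← hy] at h4
  obtain ⟨w, hw⟩ : ∃ w, w = t - 2 := ⟨_, rfl⟩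
  have hw' : t = w + 2 := by omega
  have hm' : m = y + 1 - w := by omega
  have hyw : 2 * w + 2 ≤ y := by omega
  have hk' : ((y : ℤ) + 2) * (y + 3 - w) = 3 * ((w + 2) * (w + 1)) := by
    have e1 : ((m + t - 1 : ℕ) : ℤ) = y + 2 := by omega
    have e2 : ((m + 2 : ℕ) : ℤ) = y + 3 - w := by omega
    have e3 : ((t : ℕ) : ℤ) = w + 2 := by omega
    have e4 : ((t - 1 : ℕ) : ℤ) = w + 1 := by omega
    rw [← e1, ← e2, ← e3, ← e4]
    exact_mod_cast hk
  have hfac : (y : ℤ) * (y + 5 - w) = (3 * w + 11) * w := by linarith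
  -- gcd
  have hwpos : 0 < w := by omega
  obtain ⟨d, e, f, hcop, hye, hwf⟩ : ∃ d e f : ℕ, e.Coprime f ∧ y = d * e ∧ w = d * f := by
    obtain ⟨e, f, hcop, h1, h2⟩ := Nat.exists_coprime y w
    exact ⟨Nat.gcd y w, e, f, hcop, by rw [mul_comm]; exact h1, by rw [mul_comm]; exact h2⟩
  have hd0 : 0 < d := by
    rcases Nat.eq_zero_or_pos d with h0 | h0
    · rw [h0] at hwf; omega
    · exact h0
  have hf0 : 0 < f := by
    rcases Nat.eq_zero_or_pos f with h0 | h0
    · rw [h0] at hwf; omega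
    · exact h0
  have hef : 2 * f < e := by
    rw [hye, hwf] at hyw
    by_contra hcon
    have : d * e ≤ d * (2 * f) := Nat.mul_le_mul_left d (by omega)
    have : d * (2 * f) = 2 * (d * f) := by ring
    omega
  have hdZ : (0 : ℤ) < d := by exact_mod_cast hd0
  have hfZ : (0 : ℤ) < f := by exact_mod_cast hf0
  have h5 : (e : ℤ) * (y + 5 - w) = (3 * w + 11) * f := by
    have : (d : ℤ) * (e * (y + 5 - w)) = d * ((3 * w + 11) * f) := by
      have e1 : (y : ℤ) = d * e := by exact_mod_cast hye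
      have e2 : (w : ℤ) = d * f := by exact_mod_cast hwf
      calc (d : ℤ) * (e * (y + 5 - w)) = (d * e) * (y + 5 - w) := by ring
        _ = (3 * w + 11) * w := by rw [← e1]; exact hfac
        _ = (3 * w + 11) * (d * f) := by rw [← e2]
        _ = _ := by ring
    exact mul_left_cancel₀ hdZ.ne' this
  have h6 : (e : ℤ) ∣ 3 * w + 11 := by
    have hc : IsCoprime (e : ℤ) (f : ℤ) := Nat.isCoprime_iff_coprime.2 hcop
    exact hc.dvd_of_dvd_mul_right (h5 ▸ Dvd.intro _ rfl)
  have h7 : (e : ℤ) ∣ ((w + 2) * (w + 1) * w * (w - 1) : ℤ) := by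
    have h8 : (y : ℤ) ∣ ((t * (t - 1) * (t - 2) * (t - 3) : ℕ) : ℤ) := by exact_mod_cast h4
    have e1 : ((t * (t - 1) * (t - 2) * (t - 3) : ℕ) : ℤ) = ((w + 2) * (w + 1) * w * (w - 1) : ℤ) := by
      rw [show t - 3 = w - 1 by omega, show t - 2 = w by omega, show t - 1 = w + 1 by omega, hw']
      push_cast [Nat.cast_sub (show 1 ≤ w by omega)]
      ring
    rw [e1] at h8
    exact (Dvd.intro_left (d : ℤ) (by exact_mod_cast hye.symm)).trans h8
  have h8 : (e : ℤ) ∣ 6160 := by
    have hid : (6160 : ℤ) = 81 * ((w + 2) * (w + 1) * w * (w - 1)) - (3 * w + 11) *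
        ((3 * w + 6) ^ 3 - 23 * (3 * w + 6) ^ 2 + 214 * (3 * w + 6) - 1232) := by ring
    rw [hid]
    exact dvd_sub (h7.mul_left _) (h6.mul_right _)
  have h9 : e ∣ 6160 := by exact_mod_cast h8
  have h10 : (d : ℤ) * (e ^ 2 - e * f - 3 * f ^ 2) = 11 * f - 5 * e := by
    have e1 : (y : ℤ) = d * e := by exact_mod_cast hye
    have e2 : (w : ℤ) = d * f := by exact_mod_cast hwf
    rw [e1, e2] at h5
    linarith
  have hefZ : (2 : ℤ) * f < e := by exact_mod_cast hef
  have h11 : (e : ℤ) ^ 2 - e * f - 3 * f ^ 2 < 0 := by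
    by_contra hcon
    push Not at hcon
    have h12 : 0 ≤ (11 : ℤ) * f - 5 * e := by
      rw [← h10]; exact mul_nonneg hdZ.le hcon
    nlinarith
  have h12 : (11 : ℤ) * f < 5 * e := by
    have := mul_neg_of_pos_of_neg hdZ h11
    linarith
  have h13 := final_check e f h9 (by omega)
    (by
      have : (e : ℤ) * e < 3 * f * f + e * f := by linear_combination h11
      exact_mod_cast this)
    (by exact_mod_cast h12)
    (by
      refine ⟨d, ?_⟩
      have ha : e * e ≤ 3 * f * f + e * f := by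
        have : (e : ℤ) * e ≤ 3 * f * f + e * f := by linear_combination h11.le
        exact_mod_cast this
      have hb : 11 * f ≤ 5 * e := by
        have : (11 : ℤ) * f ≤ 5 * e := h12.le
        exact_mod_cast this
      have : ((5 * e - 11 * f : ℕ) : ℤ) = ((3 * f * f + e * f - e * e : ℕ) : ℤ) * d := by
        push_cast [Nat.cast_sub ha, Nat.cast_sub hb]
        linarith
      exact_mod_cast this)
  obtain ⟨rfl, rfl⟩ := h13
  have hd1 : d = 1 := by
    have : (d : ℤ) = 1 := by
      norm_num at h10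
      linarith
    exact_mod_cast this
  subst hd1
  have ht9 : t = 9 := by omega
  have hm10 : m = 10 := by omega
  subst ht9; subst hm10
  refine h 2 Nat.prime_two (by norm_num) ?_
  refine dvd_choose_of_carry (i := 4) Nat.prime_two (by norm_num) ?_
  norm_num

/-- If no prime `p ≤ m` divides `C(m+t, t)`, `2 ≤ t ≤ m`, then `m = 4`, `t = 3`. -/
theorem nt_choose {m t : ℕ} (ht : 2 ≤ t) (htm : t ≤ m)
    (h : ∀ p, p.Prime → p ≤ m → ¬ p ∣ (m + t).choose t) : m = 4 ∧ t = 3 := by
  obtain ⟨C, hC⟩ : ∃ C, C = (m + t).choose t := ⟨_, rfl⟩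
  have cop : ∀ x, x ≠ 0 → x ≤ 2 * m → ¬ x.Prime → x.Coprime C := by
    intro x hx0 hxm hx
    refine Nat.coprime_of_dvd ?_
    intro p hp hpx hpC
    exact h p hp (le_of_dvd_comp hx hx0 hxm hp hpx) (hC ▸ hpC)
  -- n is prime
  have e1 : C * t = (m + t) * (m + t - 1).choose (t - 1) := by
    have := choose_desc (n := m + t) (k := t) (s := 1) (by omega)
    rw [hC]
    simpa using this
  have hn : (m + t).Prime := by
    by_contra hn
    have h1 : (m + t) ∣ t := (cop _ (by omega) (by omega) hn).dvd_of_dvd_mul_left (e1 ▸ Dvd.intro _ rfl)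
    have := Nat.le_of_dvd (by omega) h1
    omega
  have e2 : C * t = (m + t).choose (t - 1) * (m + 1) := by
    have := Nat.choose_succ_right_eq (m + t) (t - 1)
    rw [show t - 1 + 1 = t by omega, show m + t - (t - 1) = m + 1 by omega] at this
    rw [hC]
    exact this
  have hm1 : (m + 1).Prime := by
    by_contra hn
    have h1 : (m + 1) ∣ t := (cop _ (by omega) (by omega) hn).dvd_of_dvd_mul_left (e2 ▸ Dvd.intro_left _ rfl)
    have := Nat.le_of_dvd (by omega) h1
    omega
  have hme : m % 2 = 0 := by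
    rcases hm1.eq_two_or_odd with h1 | h1
    · omega
    · omega
  have hno : (m + t) % 2 = 1 := by
    rcases hn.eq_two_or_odd with h1 | h1
    · omega
    · exact h1
  have hto : t % 2 = 1 := by omega
  have d2 : t.descFactorial 2 = t * (t - 1) := by
    simp [Nat.descFactorial_succ]; ring
  have dn2 : (m + t).descFactorial 2 = (m + t) * (m + t - 1) := by
    simp [Nat.descFactorial_succ]; ring
  have h4 : (m + t - 1) ∣ t * (t - 1) := by
    have e3 := choose_desc (n := m + t) (k := t) (s := 2) ht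
    rw [d2, dn2, ← hC] at e3
    have hc : (m + t - 1).Coprime C := cop _ (by omega) (by omega) (not_prime_of_even (by omega) (by omega))
    refine hc.dvd_of_dvd_mul_left ?_
    rw [e3]
    exact Dvd.dvd.mul_right (Dvd.intro_left _ rfl) _
  have h5 : (m + 2) ∣ t * (t - 1) := by
    have e3 := Nat.choose_succ_right_eq (m + t) (t - 2)
    rw [show t - 2 + 1 = t - 1 by omega, show m + t - (t - 2) = m + 2 by omega] at e3
    have hc : (m + 2).Coprime C := cop _ (by omega) (by omega) (not_prime_of_even (by omega) (by omega))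
    refine hc.dvd_of_dvd_mul_left ?_
    have : C * (t * (t - 1)) = (m + 1) * ((m + t).choose (t - 2)) * (m + 2) := by
      calc C * (t * (t - 1)) = (C * t) * (t - 1) := by ring
        _ = (m + 1) * ((m + t).choose (t - 1) * (t - 1)) := by rw [e2]; ring
        _ = _ := by rw [e3]; ring
    rw [this]
    exact Dvd.intro_left _ rfl
  rcases Nat.lt_or_ge t 4 with ht4 | ht4
  · have : t = 3 := by omega
    subst this
    have h6 := Nat.le_of_dvd (by norm_num) h5
    norm_num at h6
    exact ⟨by omega, rfl⟩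
  exfalso
  have ht5 : 5 ≤ t := by omega
  have hmt1 : t + 1 ≤ m := by omega
  obtain ⟨g, hg⟩ : ∃ g, g = Nat.gcd (m + t - 1) (m + 2) := ⟨_, rfl⟩
  have hg1 : g ∣ t - 3 := by
    have := Nat.dvd_sub (Nat.gcd_dvd_left (m + t - 1) (m + 2)) (Nat.gcd_dvd_right (m + t - 1) (m + 2))
    rwa [show m + t - 1 - (m + 2) = t - 3 by omega, ← hg] at this
  have hg2 : g ∣ t * (t - 1) := hg ▸ (Nat.gcd_dvd_left _ _).trans h4
  have hg6 : g ∣ 6 := by
    have e : t * (t - 1) = (t - 3) * (t + 2) + 6 := by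
      obtain ⟨t', rfl⟩ : ∃ t', t = t' + 3 := ⟨t - 3, by omega⟩
      rw [show t' + 3 - 1 = t' + 2 by omega, show t' + 3 - 3 = t' by omega]; ring
    rw [e] at hg2
    exact (Nat.dvd_add_right (hg1.mul_right _)).1 hg2
  have hg0 : 2 ∣ g := hg ▸ Nat.dvd_gcd (by omega) (by omega)
  obtain ⟨c, hc⟩ : Nat.lcm (m + t - 1) (m + 2) ∣ t * (t - 1) := Nat.lcm_dvd h4 h5
  have hgl : g * Nat.lcm (m + t - 1) (m + 2) = (m + t - 1) * (m + 2) := hg ▸ Nat.gcd_mul_lcm _ _
  have key : (m + t - 1) * (m + 2) * c = g * (t * (t - 1)) := by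
    rw [hc, ← hgl]; ring
  have hle : g ≤ 6 := Nat.le_of_dvd (by norm_num) hg6
  have hg26 : g = 2 ∨ g = 6 := by
    clear hg key hgl
    interval_cases g <;> omega
  have hpos : 0 < t * (t - 1) := Nat.mul_pos (by omega) (by omega)
  rcases Nat.eq_zero_or_pos c with hc0 | hc0
  · rw [hc0, mul_zero] at key
    have : 0 < g * (t * (t - 1)) := Nat.mul_pos (by omega) hpos
    omega
  have hbig : 2 * (t * (t - 1)) < (m + t - 1) * (m + 2) := by
    have h1 : 2 * t ≤ m + t - 1 := by omega
    have h2 : t - 1 < m + 2 := by omega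
    calc 2 * (t * (t - 1)) = 2 * t * (t - 1) := by ring
      _ < 2 * t * (m + 2) := Nat.mul_lt_mul_of_pos_left h2 (by omega)
      _ ≤ _ := Nat.mul_le_mul_right _ h1
  rcases hg26 with hg26 | hg26
  · rw [hg26] at key
    have : (m + t - 1) * (m + 2) * 1 ≤ (m + t - 1) * (m + 2) * c :=
      Nat.mul_le_mul_left _ hc0
    omega
  rw [hg26] at key
  have hc3 : c ≤ 2 := by
    by_contra hcc
    have : (m + t - 1) * (m + 2) * 3 ≤ (m + t - 1) * (m + 2) * c :=
      Nat.mul_le_mul_left _ (by omega)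
    omega
  have h3t : 3 ∣ t := by
    have : 3 ∣ t - 3 := (show 3 ∣ 6 by norm_num).trans (hg26 ▸ hg1)
    omega
  have hcc : c = 1 ∨ c = 2 := by omega
  rcases hcc with rfl | rfl
  · exact case_one ht5 hmt1 hto h3t h (by rw [mul_one] at key; exact key)
  · refine case_two ht5 hmt1 h (by omega) ?_
    have e3 := choose_desc (n := m + t) (k := t) (s := 4) ht4
    have hc : (m + t - 3).Coprime C := cop _ (by omega) (by omega) (not_prime_of_even (by omega) (by omega))
    refine hc.dvd_of_dvd_mul_left ?_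
    have d4 : t.descFactorial 4 = t * (t - 1) * (t - 2) * (t - 3) := by
      simp [Nat.descFactorial_succ]; ring
    have dn4 : (m + t).descFactorial 4 = (m + t - 3) * ((m + t) * (m + t - 1) * (m + t - 2)) := by
      simp only [Nat.descFactorial_succ, Nat.descFactorial_zero, Nat.sub_zero, mul_one]; ring
    rw [d4, dn4, ← hC] at e3
    rw [e3]
    exact Dvd.dvd.mul_right (Dvd.intro _ rfl) _

end CfsgLib.HSn
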