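import Mathlib
import Cfsg.Agent.LibHSn1

/-! Number theory for the Hall subgroups of symmetric groups, II (helper10). -/

set_option autoImplicit false

namespace CfsgLib.HSn

open Nat

/-- digit sum -/
def ds (p x : ℕ) : ℕ := (Nat.digits p x).sum

theorem ds_eq {p : ℕ} (hp : 1 < p) (x : ℕ) : ds p x = x % p + ds p (x / p) := by
  unfold ds
  rcases Nat.eq_zero_or_pos x with rfl | hx
  · simp
  · rw [Nat.digits_def' hp hx, List.sum_cons]

theorem ds_of_lt {p : ℕ} (hp : 1 < p) {x : ℕ} (hx : x < p) : ds p x = x := by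
  rw [ds_eq hp, Nat.mod_eq_of_lt hx, Nat.div_eq_of_lt hx]
  simp [ds]

theorem ds_le {p : ℕ} (x : ℕ) : ds p x ≤ x := Nat.digit_sum_le p x

theorem ds_succ {p : ℕ} (hp : 1 < p) : ∀ x, ds p (x + 1) ≤ ds p x + 1 := by
  intro x
  induction x using Nat.strong_induction_on with
  | _ x ih =>
    rcases Nat.lt_or_ge x p with h | h
    · rcases Nat.lt_or_ge (x + 1) p with h1 | h1
      · rw [ds_of_lt hp h1, ds_of_lt hp h]
      · have : x + 1 = p := by omega
        rw [this, ds_eq hp, Nat.mod_self, Nat.div_self (by omega), ds_of_lt hp hp]; omega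
    · rw [ds_eq hp (x + 1), ds_eq hp x]
      have e1 := Nat.div_add_mod x p
      have hr := Nat.mod_lt x (show 0 < p by omega)
      rcases Nat.lt_or_ge (x % p + 1) p with h1 | h1
      · have e2 : (x + 1) / p = x / p := by
          rw [← e1, add_assoc, Nat.mul_add_div (by omega), Nat.mul_add_div (by omega), Nat.div_eq_of_lt h1,
            Nat.div_eq_of_lt hr]
        have e3 : (x + 1) % p = x % p + 1 := by
          have := Nat.div_add_mod (x + 1) p
          rw [e2] at this
          omega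
        rw [e2, e3]; omega
      · have e2 : (x + 1) / p = x / p + 1 := by
          have : x + 1 = p * (x / p + 1) := by rw [mul_add, mul_one]; omega
          rw [this, Nat.mul_div_cancel_left _ (by omega)]
        have e3 : (x + 1) % p = 0 := by
          have := Nat.div_add_mod (x + 1) p
          rw [e2, mul_add, mul_one] at this
          omega
        rw [e2, e3]
        have := ih (x / p) (Nat.div_lt_self (by omega) hp)
        omega

theorem ds_add {p : ℕ} (hp : 1 < p) : ∀ x y, ds p (x + y) ≤ ds p x + ds p y := by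
  intro x
  induction x using Nat.strong_induction_on with
  | _ x ih =>
    intro y
    rcases Nat.eq_zero_or_pos x with rfl | hx
    · simp
    rw [ds_eq hp (x + y), ds_eq hp x, ds_eq hp y]
    have e1 := Nat.div_add_mod x p
    have e2 := Nat.div_add_mod y p
    have e3 := Nat.div_add_mod (x + y) p
    have hr := Nat.mod_lt x (show 0 < p by omega)
    have hs := Nat.mod_lt y (show 0 < p by omega)
    have ht := Nat.mod_lt (x + y) (show 0 < p by omega)
    have hlt : x / p < x := Nat.div_lt_self (by omega) hp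
    rcases Nat.lt_or_ge (x % p + y % p) p with h1 | h1
    · have e4 : (x + y) / p = x / p + y / p := Nat.add_div_eq_of_add_mod_lt h1
      rw [e4, mul_add] at e3
      rw [e4]
      have := ih _ hlt (y / p)
      omega
    · have e4 : (x + y) / p = x / p + y / p + 1 := Nat.add_div_eq_of_le_mod_add_mod h1 (by omega)
      rw [e4, mul_add, mul_add, mul_one] at e3
      rw [e4]
      have h5 := ih _ hlt (y / p)
      have h6 := ds_succ hp (x / p + y / p)
      omega

theorem ds_mul_self {p : ℕ} (hp : 1 < p) (x : ℕ) : ds p (p * x) = ds p x := by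
  rw [ds_eq hp, Nat.mul_mod_right, Nat.mul_div_cancel_left _ (by omega), zero_add]

theorem ds_mul_le {p : ℕ} (hp : 1 < p) (x : ℕ) : ∀ k, ds p (x * k) ≤ k * ds p x := by
  intro k
  induction k with
  | zero => simp [ds]
  | succ k ih =>
    rw [mul_add, mul_one, add_mul, one_mul]
    exact (ds_add hp _ _).trans (Nat.add_le_add_right ih _)

theorem ds_mul {p : ℕ} (hp : 1 < p) (x : ℕ) : ∀ y, ds p (x * y) ≤ ds p x * ds p y := by
  intro y
  induction y using Nat.strong_induction_on with
  | _ y ih =>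
    rcases Nat.eq_zero_or_pos y with rfl | hy
    · simp [ds]
    have e1 := Nat.div_add_mod y p
    have e2 : x * y = p * (x * (y / p)) + x * (y % p) := by
      conv_lhs => rw [← e1]
      ring
    rw [e2, ds_eq hp y, mul_add]
    refine (ds_add hp _ _).trans ?_
    rw [ds_mul_self hp]
    have h1 := ih (y / p) (Nat.div_lt_self hy hp)
    have h2 := ds_mul_le hp x (y % p)
    rw [mul_comm (y % p)] at h2
    omega

theorem ds_pos {p : ℕ} (hp : 1 < p) : ∀ x, 0 < x → 0 < ds p x := by
  intro x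
  induction x using Nat.strong_induction_on with
  | _ x ih =>
    intro hx
    rcases Nat.lt_or_ge x p with h | h
    · rw [ds_of_lt hp h]; exact hx
    · rw [ds_eq hp]
      have := ih (x / p) (Nat.div_lt_self (by omega) hp) (Nat.div_pos h (by omega))
      omega

theorem ds_lt {p : ℕ} (hp : 1 < p) {x : ℕ} (hx : p ≤ x) : ds p x < x := by
  rw [ds_eq hp]
  have h1 := ds_le (p := p) (x / p)
  have e1 := Nat.div_add_mod x p
  have h2 : 0 < x / p := Nat.div_pos hx (by omega)
  have h3 : 2 * (x / p) ≤ p * (x / p) := Nat.mul_le_mul_right _ hp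
  omega

theorem eq_pow_of_ds {p : ℕ} (hp : 1 < p) : ∀ x, ds p x = 1 → ∃ k, x = p ^ k := by
  intro x
  induction x using Nat.strong_induction_on with
  | _ x ih =>
    intro hx
    rcases Nat.lt_or_ge x p with h | h
    · rw [ds_of_lt hp h] at hx; exact ⟨0, by simp [hx]⟩
    · rw [ds_eq hp] at hx
      have h1 := ds_pos hp (x / p) (Nat.div_pos h (by omega))
      obtain ⟨k, hk⟩ := ih (x / p) (Nat.div_lt_self (by omega) hp) (by omega)
      refine ⟨k + 1, ?_⟩
      have e1 := Nat.div_add_mod x p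
      rw [← e1, hk, pow_succ]
      have : x % p = 0 := by omega
      rw [this]; ring

/-- Legendre -/
theorem leg {p : ℕ} (hp : p.Prime) (n : ℕ) : (p - 1) * padicValNat p (n !) + ds p n = n := by
  have := Fact.mk hp
  rw [sub_one_mul_padicValNat_factorial]
  have := ds_le (p := p) n
  unfold ds at *
  omega

theorem ds_blocks {p a b I : ℕ} (hp : p.Prime) (hI : I * ((a !) ^ b * b !) = (a * b)!) (h : ¬ p ∣ I) :
    ds p (a * b) + b = b * ds p a + ds p b := by
  have := Fact.mk hp
  have hI0 : I ≠ 0 := by rintro rfl; exact h (dvd_zero p)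
  have h1 : padicValNat p ((a * b)!) = b * padicValNat p (a !) + padicValNat p (b !) := by
    have e0 : padicValNat p (a ! ^ b) = b * padicValNat p (a !) := padicValNat.pow (p := p) _ _
    rw [← hI, padicValNat.mul hI0 (by positivity), padicValNat.mul (by positivity) (by positivity),
      e0, padicValNat.eq_zero_of_not_dvd h, zero_add]
  have l1 := leg hp (a * b)
  have l2 := leg hp a
  have l3 := leg hp b
  rw [h1] at l1
  have l4 : b * ((p - 1) * padicValNat p (a !)) + b * ds p a = b * a := by rw [← mul_add, l2]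
  have e : (p - 1) * (b * padicValNat p (a !) + padicValNat p (b !)) =
    b * ((p - 1) * padicValNat p (a !)) + (p - 1) * padicValNat p (b !) := by ring
  rw [e] at l1
  have e2 : a * b = b * a := mul_comm _ _
  omega

theorem blocks_le {p a b I : ℕ} (hp : p.Prime) (ha : 0 < a) (hI : I * ((a !) ^ b * b !) = (a * b)!)
    (h : ¬ p ∣ I) (hpb : p ≤ b) : ∃ k, a = p ^ k := by
  have h1 := ds_blocks hp hI h
  have h2 := ds_mul hp.one_lt a b
  have h3 := ds_lt hp.one_lt hpb
  have h4 := ds_pos hp.one_lt a ha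
  refine eq_pow_of_ds hp.one_lt a ?_
  by_contra hne
  obtain ⟨x, hx⟩ : ∃ x, ds p a = x + 2 := ⟨ds p a - 2, by omega⟩
  obtain ⟨y, hy⟩ : ∃ y, b = ds p b + 1 + y := ⟨b - ds p b - 1, by omega⟩
  rw [hx] at h1 h2
  generalize ds p b = z at *
  generalize ds p (a * b) = w at *
  subst hy
  nlinarith

theorem blocks_lt {p a b I : ℕ} (hp : p.Prime) (hI : I * ((a !) ^ b * b !) = (a * b)!)
    (h : ¬ p ∣ I) (hpb : b < p) (hab : p ≤ a * b) : p ≤ a := by
  by_contra hlt
  push Not at hlt
  have h1 := ds_blocks hp hI h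
  rw [ds_of_lt hp.one_lt hlt, ds_of_lt hp.one_lt hpb] at h1
  have h2 := ds_lt hp.one_lt hab
  have : a * b = b * a := mul_comm _ _
  omega

/-- the case `a = 2 ^ k`, two blocks. -/
theorem nt_pow {k : ℕ} (hk : 3 ≤ k)
    (h : ∀ p, p.Prime → p ≠ 2 → p ≤ 2 ^ k → ¬ p ∣ (2 ^ k + 2 ^ k).choose (2 ^ k)) : False := by
  have h8 : 8 ≤ 2 ^ k := by
    calc 8 = 2 ^ 3 := by norm_num
      _ ≤ 2 ^ k := Nat.pow_le_pow_right (by norm_num) hk
  obtain ⟨x, y, hxy, hy⟩ : ∃ x y, k = 6 * x + y ∧ y < 6 := ⟨k / 6, k % 6, by omega, Nat.mod_lt _ (by norm_num)⟩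
  have c64 : ∀ z, (2 ^ (6 * x)) % z = (64 ^ x) % z := by intro z; rw [pow_mul]; norm_num
  have m9 : (2 ^ k) % 9 = (2 ^ y) % 9 := by
    rw [hxy, pow_add, Nat.mul_mod, c64, Nat.pow_mod]; norm_num
  have m3 : (2 ^ k) % 3 = (2 ^ y) % 3 := by
    rw [hxy, pow_add, Nat.mul_mod, c64, Nat.pow_mod]; norm_num
  have m7 : (2 ^ k) % 7 = (2 ^ y) % 7 := by
    rw [hxy, pow_add, Nat.mul_mod, c64, Nat.pow_mod]; norm_num
  have h3 : ¬ 3 ≤ (2 ^ k) % 3 + (2 ^ k) % 3 := fun hc =>
    h 3 Nat.prime_three (by norm_num) (by omega) (dvd_choose_of_carry (i := 1) Nat.prime_three le_rfl (by rwa [pow_one]))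
  have h9 : ¬ 9 ≤ (2 ^ k) % 9 + (2 ^ k) % 9 := fun hc =>
    h 3 Nat.prime_three (by norm_num) (by omega)
      (dvd_choose_of_carry (i := 2) Nat.prime_three (by norm_num) (by norm_num; exact hc))
  have h7 : ¬ 7 ≤ (2 ^ k) % 7 + (2 ^ k) % 7 := fun hc =>
    h 7 (by norm_num) (by norm_num) (by omega) (dvd_choose_of_carry (i := 1) (by norm_num) le_rfl (by rwa [pow_one]))
  rw [m3] at h3
  rw [m9] at h9
  rw [m7] at h7
  have hy0 : y = 0 := by
    interval_cases y <;> simp_all
  subst hy0
  have hx1 : 1 ≤ x := by omega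
  -- 3 ∣ k
  obtain ⟨q, hq, hqd⟩ := Nat.exists_prime_and_dvd (n := 2 ^ (2 * x) + 1) (by
    have : 0 < 2 ^ (2 * x) := by positivity
    omega)
  have hq2 : q ≠ 2 := by
    rintro rfl
    have : 2 ∣ 2 ^ (2 * x) := dvd_pow_self 2 (by omega)
    omega
  have hle : 2 ^ (2 * x) + 1 ≤ 2 ^ k := by
    have : 2 ^ (2 * x) < 2 ^ k := Nat.pow_lt_pow_right (by norm_num) (by omega)
    omega
  have hqk : q ≤ 2 ^ k := (Nat.le_of_dvd (by positivity) hqd).trans hle
  have hqd2 : q ∣ 2 ^ k + 1 := by
    refine hqd.trans ?_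
    have e : 2 ^ k + 1 = (2 ^ (2 * x)) ^ 3 + 1 ^ 3 := by
      rw [hxy, ← pow_mul]; ring_nf
    rw [e]
    exact Odd.nat_add_dvd_pow_add_pow _ _ (by decide)
  refine h q hq hq2 hqk (dvd_choose_of_carry (i := 1) hq le_rfl ?_)
  rw [pow_one]
  have hq3 : 3 ≤ q := by
    have := hq.two_le
    omega
  have hm : (2 ^ k) % q = q - 1 := by
    obtain ⟨c, hc⟩ := hqd2
    have hc1 : 1 ≤ c := by
      rcases Nat.eq_zero_or_pos c with rfl | h0
      · omega
      · exact h0
    obtain ⟨c', rfl⟩ : ∃ c', c = c' + 1 := ⟨c - 1, by omega⟩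
    have e0 : q * (c' + 1) = q * c' + q := by ring
    have : 2 ^ k = q * c' + (q - 1) := by omega
    rw [this, Nat.mul_add_mod, Nat.mod_eq_of_lt (by omega)]
  rw [hm]; omega

/-- the conclusion of the classification of Hall subgroups -/
def Concl (π : Set ℕ) (n : ℕ) : Prop :=
  (∀ p, p.Prime → p ≤ n → p ∈ π) ∨ (n.Prime ∧ ∀ r : ℕ, r.Prime → r ≤ n → (r ∈ π ↔ r < n)) ∨
    ((n = 7 ∨ n = 8) ∧ ∀ r : ℕ, r.Prime → r ≤ n → (r ∈ π ↔ (r = 2 ∨ r = 3)))

/-- at least two primes of `π` are at most `n` -/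
def Two (π : Set ℕ) (n : ℕ) : Prop :=
  ∃ r s : ℕ, r.Prime ∧ s.Prime ∧ r ≠ s ∧ r ∈ π ∧ s ∈ π ∧ r ≤ n ∧ s ≤ n

theorem nt_imprim {π : Set ℕ} {a b I : ℕ} (ha : 2 ≤ a) (hb : 2 ≤ b)
    (hI : I * ((a !) ^ b * b !) = (a * b)!) (h : ∀ p, p.Prime → p ∈ π → ¬ p ∣ I)
    (hd : ∀ p, p.Prime → p ∣ a * b → p ∈ π) (h2 : Two π (a * b)) (IH : Two π a → Concl π a) :
    a = 4 ∧ b = 2 ∧ ∀ r : ℕ, r.Prime → r ≤ 8 → (r ∈ π ↔ (r = 2 ∨ r = 3)) := by
  obtain ⟨l, hl, hlb⟩ := Nat.exists_prime_and_dvd (n := b) (by omega)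
  have hlπ : l ∈ π := hd l hl (hlb.mul_left a)
  have hlb' : l ≤ b := Nat.le_of_dvd (by omega) hlb
  obtain ⟨k, hk⟩ := blocks_le hl (by omega) hI (h l hl hlπ) hlb'
  have hk0 : k ≠ 0 := by rintro rfl; rw [pow_zero] at hk; omega
  have hoth : ∀ p, p.Prime → p ∈ π → p ≤ a * b → p ≠ l → b < p ∧ p < a := by
    intro p hp hpπ hpn hpl
    have h1 : b < p := by
      by_contra hcon
      push Not at hcon
      obtain ⟨j, hj⟩ := blocks_le hp (by omega) hI (h p hp hpπ) hcon
      have hj0 : j ≠ 0 := by rintro rfl; rw [pow_zero] at hj; omega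
      have : p ∣ l ^ k := by rw [← hk, hj]; exact dvd_pow_self p hj0
      exact hpl ((Nat.prime_dvd_prime_iff_eq hp hl).1 (hp.dvd_of_dvd_pow this))
    have h2 := blocks_lt hp hI (h p hp hpπ) h1 hpn
    refine ⟨h1, lt_of_le_of_ne h2 ?_⟩
    rintro rfl
    have : l ∣ p := by rw [hk]; exact dvd_pow_self l hk0
    exact hpl ((Nat.prime_dvd_prime_iff_eq hl hp).1 this).symm
  obtain ⟨r, s, hr, hs, hrs, hrπ, hsπ, hrn, hsn⟩ := h2
  obtain ⟨p, hp, hpπ, hpn, hpl⟩ : ∃ p, p.Prime ∧ p ∈ π ∧ p ≤ a * b ∧ p ≠ l := by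
    by_cases hrl : r = l
    · exact ⟨s, hs, hsπ, hsn, fun hc => hrs (hrl.trans hc.symm)⟩
    · exact ⟨r, hr, hrπ, hrn, hrl⟩
  obtain ⟨hbp, hpa⟩ := hoth p hp hpπ hpn hpl
  have hla : l ≤ a := by rw [hk]; exact Nat.le_self_pow hk0 l
  have hconc := IH ⟨l, p, hl, hp, fun hc => hpl hc.symm, hlπ, hpπ, hla, hpa.le⟩
  have hall : ∀ q, q.Prime → q ≤ a → q ∈ π := by
    rcases hconc with hc | ⟨hap, hc⟩ | ⟨h78, hc⟩
    · exact hc
    · exfalso
      have : l = a := by
        have h1 : l ∣ a := by rw [hk]; exact dvd_pow_self l hk0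
        exact (Nat.prime_dvd_prime_iff_eq hl hap).1 h1
      have := (hc l hl hla).1 hlπ
      omega
    · exfalso
      rcases h78 with rfl | rfl
      · have : l = 7 := by
          have h1 : l ∣ 7 := by rw [hk]; exact dvd_pow_self l hk0
          exact (Nat.prime_dvd_prime_iff_eq hl (by norm_num)).1 h1
        have := (hc l hl hla).1 hlπ
        omega
      · have hl2 : l = 2 := by
          have h1 : l ∣ 2 ^ 3 := by
            have : l ∣ 8 := by rw [hk]; exact dvd_pow_self l hk0
            exact this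
          exact (Nat.prime_dvd_prime_iff_eq hl (by norm_num)).1 (hl.dvd_of_dvd_pow h1)
        have h3 : 3 ∈ π := (hc 3 (by norm_num) (by norm_num)).2 (Or.inr rfl)
        have h4 := hoth 3 (by norm_num) h3 (by nlinarith) (by omega)
        have hb2 : b = 2 := by omega
        subst hb2
        have h5 := ds_blocks (p := 3) (by norm_num) hI (h 3 (by norm_num) h3)
        revert h5
        simp [ds]
  have h2π : 2 ∈ π := hall 2 Nat.prime_two ha
  have hl2 : l = 2 := by
    by_contra hne
    have := hoth 2 Nat.prime_two h2π (by nlinarith) (fun hc => hne hc.symm)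
    omega
  subst hl2
  have hp3 : 3 ≤ p := by
    have := hp.two_le
    omega
  have h3π : 3 ∈ π := hall 3 Nat.prime_three (by omega)
  have h3 := hoth 3 Nat.prime_three h3π (by nlinarith) (by norm_num)
  have hb2 : b = 2 := by omega
  subst hb2
  -- k = 2
  have hk2 : k = 2 := by
    by_contra hk2
    have hk1 : k ≠ 1 := by rintro rfl; omega
    refine nt_pow (k := k) (by omega) ?_
    intro q hq hq2 hqa hdq
    rw [← hk] at hqa hdq
    have hqπ := hall q hq hqa
    refine h q hq hqπ ?_
    have := Fact.mk hq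
    have e1 := Nat.add_choose_mul_factorial_mul_factorial a a
    have e2 : I * 2 = (a + a).choose a := by
      have e3 : (a * 2)! = (a + a)! := by rw [mul_two]
      rw [← e3, ← hI] at e1
      have h0 : 0 < a ! * a ! := by positivity
      refine (Nat.eq_of_mul_eq_mul_right h0 ?_).symm
      simp only [Nat.factorial] at e1 ⊢
      linarith
    rw [← e2] at hdq
    exact (Nat.Coprime.dvd_mul_right ((Nat.coprime_primes hq Nat.prime_two).2 hq2)).1 hdq
  subst hk2
  norm_num at hk
  refine ⟨hk, rfl, ?_⟩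
  intro r hr hr8
  constructor
  · intro hrπ
    by_cases h : r = 2
    · exact Or.inl h
    · have := hoth r hr hrπ (by omega) h
      right; omega
  · rintro (rfl | rfl)
    · exact h2π
    · exact h3π

theorem nt_intrans {π : Set ℕ} {a b : ℕ} (hb : 1 ≤ b) (hba : b ≤ a)
    (h : ∀ p, p.Prime → p ∈ π → ¬ p ∣ (a + b).choose b) (h2 : Two π (a + b)) (IH : Two π a → Concl π a) :
    (b = 1 ∧ (a + 1).Prime ∧ ∀ r, r.Prime → r ≤ a + 1 → (r ∈ π ↔ r < a + 1)) ∨
    (a = 4 ∧ b = 3 ∧ ∀ r : ℕ, r.Prime → r ≤ 7 → (r ∈ π ↔ (r = 2 ∨ r = 3))) := by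
  have hle : ∀ r, r.Prime → r ∈ π → r ≤ a + b → r ≤ a := by
    intro r hr hrπ hrn
    by_contra hcon
    push Not at hcon
    refine h r hr hrπ (dvd_choose_of_carry (i := 1) hr le_rfl ?_)
    rw [pow_one, Nat.mod_eq_of_lt hcon, Nat.mod_eq_of_lt (by omega)]
    exact hrn
  obtain ⟨r, s, hr, hs, hrs, hrπ, hsπ, hrn, hsn⟩ := h2
  have hra := hle r hr hrπ hrn
  have hsa := hle s hs hsπ hsn
  have hconc := IH ⟨r, s, hr, hs, hrs, hrπ, hsπ, hra, hsa⟩
  -- primes of π up to n
  rcases hconc with hc | ⟨hap, hc⟩ | ⟨h78, hc⟩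
  · rcases Nat.lt_or_ge b 2 with hb2 | hb2
    · have hb1 : b = 1 := by omega
      subst hb1
      left
      have hprime : (a + 1).Prime := by
        by_contra hn
        obtain ⟨q, hq, hqd⟩ := Nat.exists_prime_and_dvd (n := a + 1) (by have := hr.two_le; omega)
        have hqa := le_of_dvd_comp (m := a) hn (by omega) (by have := hr.two_le; omega) hq hqd
        refine h q hq (hc q hq hqa) ?_
        rw [Nat.choose_one_right]; exact hqd
      refine ⟨rfl, hprime, fun q hq hqn => ⟨fun hqπ => ?_, fun hlt => hc q hq (by omega)⟩⟩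
      have := hle q hq hqπ hqn
      omega
    · right
      obtain ⟨ha4, hb3⟩ := nt_choose hb2 hba (fun p hp hpa => h p hp (hc p hp hpa))
      subst ha4; subst hb3
      refine ⟨rfl, rfl, fun q hq hq7 => ⟨fun hqπ => ?_, fun hq23 => hc q hq (by omega)⟩⟩
      have h4 := hle q hq hqπ hq7
      have := hq.two_le
      by_contra hcon
      have : q = 4 := by omega
      subst this; revert hq; norm_num
  · exfalso
    have ha3 : 3 ≤ a := by
      have h1 := hr.two_le
      have h2 := hs.two_le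
      have h3 := (hc r hr hra).1 hrπ
      have h4 := (hc s hs hsa).1 hsπ
      omega
    have haodd : a % 2 = 1 := by
      rcases hap.eq_two_or_odd with h1 | h1
      · omega
      · exact h1
    have h2π : 2 ∈ π := (hc 2 Nat.prime_two (by omega)).2 (by omega)
    rcases Nat.lt_or_ge b 2 with hb2 | hb2
    · have hb1 : b = 1 := by omega
      subst hb1
      refine h 2 Nat.prime_two h2π ?_
      rw [Nat.choose_one_right]; omega
    · rcases Nat.lt_or_ge b a with hblt | hbge
      · obtain ⟨ha4, hb3⟩ := nt_choose hb2 hba (fun p hp hpa => by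
          rcases lt_or_eq_of_le hpa with h1 | h1
          · exact h p hp ((hc p hp hpa).2 h1)
          · subst h1
            intro hd
            have := Fact.mk hp
            have e1 := Nat.add_choose_mul_factorial_mul_factorial p b
            -- p ∤ since p² ∤ (p+b)!
            have l1 := leg hp (p + b)
            have l2 := leg hp p
            have l3 := leg hp b
            rw [ds_of_lt hp.one_lt hblt] at l3
            have d1 : ds p p = 1 := by
              rw [ds_eq hp.one_lt, Nat.mod_self, Nat.div_self hp.pos, ds_of_lt hp.one_lt hp.one_lt]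
            have d2 : ds p (p + b) = b + 1 := by
              rw [ds_eq hp.one_lt, Nat.add_mod_left, Nat.mod_eq_of_lt hblt, Nat.add_div_left _ hp.pos,
                Nat.div_eq_of_lt hblt, ds_of_lt hp.one_lt]
              exact hp.one_lt
            rw [d1] at l2
            rw [d2] at l1
            have hv : padicValNat p ((p + b)!) = padicValNat p ((p + b).choose b) +
                padicValNat p (p !) + padicValNat p (b !) := by
              rw [← e1]
              have hcp : (p + b).choose b ≠ 0 := (Nat.choose_pos (Nat.le_add_left b p)).ne'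
              rw [padicValNat.mul (mul_ne_zero hcp (Nat.factorial_ne_zero _)) (Nat.factorial_ne_zero _),
                padicValNat.mul hcp (Nat.factorial_ne_zero _)]
            have hpos : 1 ≤ padicValNat p ((p + b).choose b) :=
              one_le_padicValNat_of_dvd (Nat.choose_pos (Nat.le_add_left b p)).ne' hd
            rw [hv, mul_add, mul_add] at l1
            have : (p - 1) * 1 ≤ (p - 1) * padicValNat p ((p + b).choose b) := Nat.mul_le_mul_left _ hpos
            omega)
        omega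
      · have hab : b = a := by omega
        subst hab
        refine h 2 Nat.prime_two h2π (dvd_choose_of_carry (i := 1) Nat.prime_two le_rfl ?_)
        rw [pow_one]; omega
  · exfalso
    have h2π : 2 ∈ π := (hc 2 Nat.prime_two (by omega)).2 (Or.inl rfl)
    have h3π : 3 ∈ π := (hc 3 Nat.prime_three (by omega)).2 (Or.inr rfl)
    rcases h78 with rfl | rfl
    · have e : b % 2 ^ 1 ≠ 0 ∨ b % 2 ^ 2 ≥ 2 ∨ b % 2 ^ 3 ≥ 4 := by norm_num; omega
      rcases e with e | e | e
      · exact h 2 Nat.prime_two h2π (dvd_choose_of_carry (i := 1) Nat.prime_two (by norm_num) (by norm_num at e ⊢; omega))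
      · exact h 2 Nat.prime_two h2π (dvd_choose_of_carry (i := 2) Nat.prime_two (by norm_num) (by norm_num at e ⊢; omega))
      · exact h 2 Nat.prime_two h2π (dvd_choose_of_carry (i := 3) Nat.prime_two (by norm_num) (by norm_num at e ⊢; omega))
    · have e : b % 3 ^ 1 ≠ 0 ∨ b % 3 ^ 2 ≥ 3 := by norm_num; omega
      rcases e with e | e
      · exact h 3 Nat.prime_three h3π (dvd_choose_of_carry (i := 1) Nat.prime_three (by norm_num) (by norm_num at e ⊢; omega))
      · exact h 3 Nat.prime_three h3π (dvd_choose_of_carry (i := 2) Nat.prime_three (by norm_num) (by norm_num at e ⊢; omega))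

end CfsgLib.HSn
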