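import Mathlib
import Cfsg.Agent.LibHSn2
import Cfsg.Agent.LibBGPi

/-! Hall subgroups of symmetric groups: restriction to fibres (helper10). -/

set_option autoImplicit false

namespace CfsgLib.HSn

open Nat Equiv Cfsg CfsgLib.BGPi

universe u v

theorem ais {α : Type*} (g : Perm α) (x : α) : g (g⁻¹ x) = x := by simp

section fib

variable {Ω : Type u} {ι : Type v}

/-- permutations preserving all fibres of `f` -/
def Kf (f : Ω → ι) : Subgroup (Perm Ω) where
  carrier := {g | ∀ x, f (g x) = f x}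
  mul_mem' := by
    intro a b ha hb x
    rw [Perm.mul_apply, ha, hb]
  one_mem' := fun _ => rfl
  inv_mem' := by
    intro a ha x
    have := ha (a⁻¹ x)
    rw [ais] at this
    exact this.symm

/-- permutations permuting the fibres of `f` -/
def Lb (f : Ω → ι) : Subgroup (Perm Ω) where
  carrier := {g | ∃ σ : Perm ι, ∀ x, f (g x) = σ (f x)}
  mul_mem' := by
    rintro a b ⟨σ, hσ⟩ ⟨τ, hτ⟩
    exact ⟨σ * τ, fun x => by rw [Perm.mul_apply, hσ, hτ, Perm.mul_apply]⟩
  one_mem' := ⟨1, fun _ => rfl⟩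
  inv_mem' := by
    rintro a ⟨σ, hσ⟩
    refine ⟨σ⁻¹, fun x => ?_⟩
    rw [Perm.eq_inv_iff_eq, ← hσ, ais]

theorem mem_Kf {f : Ω → ι} {g : Perm Ω} : g ∈ Kf f ↔ ∀ x, f (g x) = f x := Iff.rfl
theorem mem_Lb {f : Ω → ι} {g : Perm Ω} : g ∈ Lb f ↔ ∃ σ : Perm ι, ∀ x, f (g x) = σ (f x) := Iff.rfl

theorem Kf_le_Lb (f : Ω → ι) : Kf f ≤ Lb f := fun _ hg => ⟨1, fun x => hg x⟩

theorem Lb_le_normalizer (f : Ω → ι) : Lb f ≤ Subgroup.normalizer (Kf f : Set (Perm Ω)) := by
  intro g hg
  rw [Subgroup.mem_normalizer_iff]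
  have key : ∀ g ∈ Lb f, ∀ h ∈ Kf f, g * h * g⁻¹ ∈ Kf f := by
    rintro g ⟨σ, hσ⟩ h hh x
    rw [Perm.mul_apply, Perm.mul_apply, hσ, hh, ← hσ, ais]
  intro h
  constructor
  · exact fun hh => key g hg h hh
  · intro hh
    have := key g⁻¹ ((Lb f).inv_mem hg) _ hh
    simpa [mul_assoc] using this

/-- restriction to a fibre -/
def res (f : Ω → ι) (i : ι) : Kf f →* Perm {x // f x = i} where
  toFun g := (g : Perm Ω).subtypePerm (fun x => by rw [g.2 x])
  map_one' := rfl
  map_mul' _ _ := rfl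

theorem res_apply (f : Ω → ι) (i : ι) (g : Kf f) (x : {x // f x = i}) : ((res f i g x : {x // f x = i}) : Ω) = (g : Perm Ω) x := rfl

end fib

section card

variable {Ω : Type u} [Fintype Ω] [DecidableEq Ω] {ι : Type v} [Fintype ι] [DecidableEq ι]

theorem card_Kf (f : Ω → ι) : Nat.card (Kf f) = ∏ i, (Fintype.card {x // f x = i})! := by
  rw [← DomMulAct.stabilizer_card f, ← Nat.card_eq_fintype_card]
  refine Nat.card_congr (Equiv.subtypeEquivRight fun g => ?_)
  rw [mem_Kf, funext_iff]; rfl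

theorem card_Kf_of_card {f : Ω → ι} {a : ℕ} (hf : ∀ i, Fintype.card {x // f x = i} = a) :
    Nat.card (Kf f) = (a !) ^ (Fintype.card ι) := by
  rw [card_Kf, Finset.prod_congr rfl (fun i _ => by rw [hf i])]
  simp

/-- a lift of a permutation of the fibres -/
theorem exists_lift {f : Ω → ι} {a : ℕ} (hf : ∀ i, Fintype.card {x // f x = i} = a) (σ : Perm ι) :
    ∃ g : Perm Ω, ∀ x, f (g x) = σ (f x) := by
  have he : ∀ i, Nonempty ({x // f x = i} ≃ Fin a) := fun i =>
    ⟨Fintype.equivFinOfCardEq (hf i)⟩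
  let e : ∀ i, {x // f x = i} ≃ Fin a := fun i => Classical.choice (he i)
  let E : Ω ≃ ι × Fin a :=
    { toFun := fun x => (f x, e (f x) ⟨x, rfl⟩)
      invFun := fun y => ((e y.1).symm y.2 : {x // f x = y.1})
      left_inv := fun x => by simp
      right_inv := fun y => by
        obtain ⟨i, j⟩ := y
        have h1 : f ((e i).symm j : {x // f x = i}) = i := ((e i).symm j).2
        have h2 : ∀ (i' : ι) (h : f ((e i).symm j : {x // f x = i}) = i'),
            e i' ⟨((e i).symm j : {x // f x = i}), h⟩ = j := by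
          intro i' h
          have : i' = i := h.symm.trans h1
          subst this
          simp
        exact Prod.ext h1 (h2 _ rfl) }
  have hE : ∀ x, f x = (E x).1 := fun x => rfl
  refine ⟨(E.trans (σ.prodCongr (Equiv.refl _))).trans E.symm, fun x => ?_⟩
  rw [hE]
  simp [hE]

theorem card_Lb {f : Ω → ι} {a : ℕ} (ha : 0 < a) (hf : ∀ i, Fintype.card {x // f x = i} = a) :
    Nat.card (Lb f) = (Fintype.card ι)! * (a !) ^ (Fintype.card ι) := by
  rw [← card_Kf_of_card hf, ← Fintype.card_perm, ← Nat.card_eq_fintype_card, ← Nat.card_prod]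
  choose l hl using fun σ : Perm ι => exists_lift hf σ
  have hsurj : ∀ i, ∃ x, f x = i := by
    intro i
    have : 0 < Fintype.card {x // f x = i} := by rw [hf]; exact ha
    obtain ⟨x⟩ := Fintype.card_pos_iff.1 this
    exact ⟨x, x.2⟩
  symm
  refine Nat.card_congr (Equiv.ofBijective (fun y : Perm ι × Kf f => (⟨l y.1 * y.2, y.1, fun x => by
    rw [Perm.mul_apply, hl, y.2.2 x]⟩ : Lb f)) ⟨?_, ?_⟩)
  · rintro ⟨σ, k⟩ ⟨τ, k'⟩ h
    have h1 : l σ * (k : Perm Ω) = l τ * (k' : Perm Ω) := congrArg Subtype.val h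
    have h2 : σ = τ := by
      ext i
      obtain ⟨x, rfl⟩ := hsurj i
      have h3 := congrArg (fun g : Perm Ω => f (g x)) h1
      simp only [Perm.mul_apply, hl] at h3
      rw [k.2 x, k'.2 x] at h3
      exact h3
    subst h2
    exact Prod.ext rfl (Subtype.ext (mul_left_cancel h1))
  · rintro ⟨g, σ, hσ⟩
    refine ⟨(σ, ⟨(l σ)⁻¹ * g, fun x => ?_⟩), Subtype.ext ?_⟩
    · have h1 : σ (f ((l σ)⁻¹ (g x))) = σ (f x) := by
        rw [← hl, ais, hσ]
      exact σ.injective h1
    · simp

theorem card_fib_add {S : Finset Ω} : Fintype.card {x // (decide (x ∈ S)) = true} = S.card ∧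
    Fintype.card {x // (decide (x ∈ S)) = false} = Fintype.card Ω - S.card := by
  constructor
  · rw [Fintype.card_subtype]
    congr 1
    ext x; simp
  · rw [Fintype.card_subtype, ← Finset.card_compl]
    congr 1
    ext x; simp

end card

section alt

variable {Ω : Type u} [Fintype Ω] [DecidableEq Ω]

theorem card_stab (S : Finset Ω) : Nat.card (Kf (fun x => decide (x ∈ S))) =
    (S.card)! * (Fintype.card Ω - S.card)! := by
  rw [card_Kf, Fintype.prod_bool, card_fib_add.1, card_fib_add.2]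

theorem index_stab (S : Finset Ω) : (Kf (fun x => decide (x ∈ S))).index = (Fintype.card Ω).choose S.card := by
  have h1 := Subgroup.card_mul_index (Kf (fun x => decide (x ∈ S)))
  rw [card_stab, Nat.card_perm, Nat.card_eq_fintype_card] at h1
  have h2 := Nat.choose_mul_factorial_mul_factorial (Finset.card_le_univ S)
  rw [← h1] at h2
  have h0 : 0 < (S.card)! * (Fintype.card Ω - S.card)! := by positivity
  refine Nat.eq_of_mul_eq_mul_left h0 ?_
  rw [← h2]
  ring

theorem index_Lb {ι : Type v} [Fintype ι] [DecidableEq ι] {f : Ω → ι} {a : ℕ} (ha : 0 < a)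
    (hf : ∀ i, Fintype.card {x // f x = i} = a) :
    (Lb f).index * ((a !) ^ (Fintype.card ι) * (Fintype.card ι)!) = (Fintype.card Ω)! := by
  have h1 := Subgroup.card_mul_index (Lb f)
  rw [card_Lb ha hf, Nat.card_perm, Nat.card_eq_fintype_card] at h1
  rw [← h1]; ring

theorem alt_or_top {K : Subgroup (Perm Ω)} (hK : alternatingGroup Ω ≤ K) : K = alternatingGroup Ω ∨ K = ⊤ := by
  by_cases h : ∃ g ∈ K, Perm.sign g = -1
  · right
    obtain ⟨g, hg, hs⟩ := h
    rw [eq_top_iff]
    intro x _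
    rcases Int.units_eq_one_or (Perm.sign x) with h1 | h1
    · exact hK (Perm.mem_alternatingGroup.2 h1)
    · have : x * g ∈ K := hK (Perm.mem_alternatingGroup.2 (by rw [Perm.sign_mul, h1, hs]; norm_num))
      have := K.mul_mem this (K.inv_mem hg)
      simpa using this
  · left
    push Not at h
    refine le_antisymm (fun x hx => Perm.mem_alternatingGroup.2 ?_) hK
    exact (Int.units_eq_one_or _).resolve_right (h x hx)

theorem relIndex_eq {K L : Subgroup (Perm Ω)} (hK : alternatingGroup Ω ≤ K)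
    (h : ∃ g ∈ L, Perm.sign g = -1) : L.relIndex K = L.index := by
  obtain ⟨g, hg, hs⟩ := h
  rcases alt_or_top hK with rfl | rfl
  · have hn : L ≤ Subgroup.normalizer (alternatingGroup Ω : Set (Perm Ω)) := by
      rw [Subgroup.normalizer_eq_top]; exact le_top
    have h1 := card_sup_mul_card_inf hn
    have h2 : L ⊔ alternatingGroup Ω = ⊤ := by
      rcases alt_or_top (K := L ⊔ alternatingGroup Ω) le_sup_right with h3 | h3
      · exfalso
        have : g ∈ L ⊔ alternatingGroup Ω := (le_sup_left : L ≤ _) hg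
        rw [h3, Perm.mem_alternatingGroup, hs] at this
        revert this; decide
      · exact h3
    rw [h2, Subgroup.card_top] at h1
    have h3 := Subgroup.card_mul_index L
    have h4 := card_mul_relIndex (H := L ⊓ alternatingGroup Ω) (K := alternatingGroup Ω) inf_le_right
    rw [Subgroup.inf_relIndex_right] at h4
    rw [← h3, ← h4] at h1
    have p1 := card_pos' L
    have p2 := card_pos' (L ⊓ alternatingGroup Ω)
    have h5 : (Nat.card L * Nat.card ↥(L ⊓ alternatingGroup Ω)) * L.index =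
        (Nat.card L * Nat.card ↥(L ⊓ alternatingGroup Ω)) * L.relIndex (alternatingGroup Ω) := by
      calc _ = Nat.card L * L.index * Nat.card ↥(L ⊓ alternatingGroup Ω) := by ring
        _ = _ := by rw [h1]; ring
    exact (Nat.eq_of_mul_eq_mul_left (Nat.mul_pos p1 p2) h5).symm
  · rw [Subgroup.relIndex_top_right]

theorem alt_le_map_res {ι : Type v} [DecidableEq ι] (f : Ω → ι) (i : ι) {K : Subgroup (Perm Ω)}
    (hK : alternatingGroup Ω ≤ K) :
    alternatingGroup {x // f x = i} ≤ (K.subgroupOf (Kf f)).map (res f i) := by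
  intro h hh
  rw [Perm.mem_alternatingGroup] at hh
  have hmem : Perm.ofSubtype h ∈ Kf f := by
    intro x
    by_cases hx : f x = i
    · rw [Perm.ofSubtype_apply_of_mem h hx, (h ⟨x, hx⟩).2, hx]
    · rw [Perm.ofSubtype_apply_of_not_mem h hx]
  refine ⟨⟨Perm.ofSubtype h, hmem⟩, ?_, ?_⟩
  · rw [SetLike.mem_coe, Subgroup.mem_subgroupOf]
    refine hK (Perm.mem_alternatingGroup.2 ?_)
    change Perm.sign (Perm.ofSubtype h) = 1
    rw [Perm.sign_ofSubtype, hh]
  · ext x
    rw [res_apply]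
    change (Perm.ofSubtype h (x : Ω)) = _
    rw [Perm.ofSubtype_apply_of_mem h x.2]

theorem hall_res {ι : Type v} {π : Set ℕ} (f : Ω → ι) (i : ι) {H N : Subgroup (Perm Ω)} (h : IsPiHallOf π H N)
    (hN : N ≤ Kf f) : IsPiHallOf π ((H.subgroupOf (Kf f)).map (res f i)) ((N.subgroupOf (Kf f)).map (res f i)) := by
  classical
  refine hall_map ?_ (res f i)
  rw [← hall_map_inj (f := (Kf f).subtype) (Kf f).subtype_injective, Subgroup.subgroupOf_map_subtype,
    Subgroup.subgroupOf_map_subtype, inf_eq_left.2 hN, inf_eq_left.2 (h.1.trans hN)]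
  exact h

theorem conj_of_pgroup {G : Type u} [Group G] [Finite G] {π : Set ℕ} {H K Q : Subgroup G} (h : IsPiHallOf π H K)
    {p : ℕ} (hp : p.Prime) (hpπ : p ∈ π) (hQ : IsPGroup p Q) (hQK : Q ≤ K) :
    ∃ m ∈ K, Q ^ᵍ m ≤ H := by
  obtain ⟨S, hS⟩ := exists_syl hp H
  have h1 : IsPiHallOf {p} S K := hall_trans hS h (by simpa using hpπ)
  obtain ⟨m, hm, hle⟩ := syl_subj hp h1 (isPi_of_isPGroup hp hQ) hQK
  exact ⟨m, hm, hle.trans hS.1⟩

end alt

end CfsgLib.HSn
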