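import Mathlib
import Cfsg.Agent.LibHSn3

/-! Hall subgroups of symmetric groups: the primitive case (helper10). -/

set_option autoImplicit false

namespace CfsgLib.HSn

open Nat Equiv Cfsg CfsgLib.BGPi

open scoped Pointwise

universe u v

variable {Ω : Type u} [Fintype Ω] [DecidableEq Ω]

theorem conj_swap2 (m : Perm Ω) (a b c d : Ω) :
    m * (swap a b * swap c d) * m⁻¹ = swap (m a) (m b) * swap (m c) (m d) := by
  have h1 := Equiv.mul_swap_eq_swap_mul m a b
  have h2 := Equiv.mul_swap_eq_swap_mul m c d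
  rw [← mul_assoc, h1, mul_assoc (swap (m a) (m b)), h2]
  simp [mul_assoc]

theorem v4_mul {a b c d : Ω} (hab : a ≠ b) (hac : a ≠ c) (had : a ≠ d) (hbc : b ≠ c) (hbd : b ≠ d)
    (hcd : c ≠ d) : (swap a b * swap c d) * (swap a c * swap b d) = swap a d * swap b c := by
  ext x
  simp only [Perm.mul_apply, swap_apply_def]
  split_ifs <;> simp_all

theorem swap2_comm {a b c d : Ω} (hac : a ≠ c) (had : a ≠ d) (hbc : b ≠ c) (hbd : b ≠ d) :
    swap a b * swap c d = swap c d * swap a b := by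
  ext x
  simp only [Perm.mul_apply, swap_apply_def]
  split_ifs <;> simp_all

theorem swap2_sq {a b c d : Ω} (hac : a ≠ c) (had : a ≠ d) (hbc : b ≠ c) (hbd : b ≠ d) :
    (swap a b * swap c d) * (swap a b * swap c d) = 1 := by
  rw [mul_assoc, ← mul_assoc (swap c d), ← swap2_comm hac had hbc hbd]
  simp [mul_assoc]

/-- a 4-set supporting a Klein four group in `H` -/
def Good (H : Subgroup (Perm Ω)) (D : Finset Ω) : Prop :=
  ∀ x ∈ D, ∀ y ∈ D, ∀ z ∈ D, ∀ w ∈ D, x ≠ y → x ≠ z → x ≠ w → y ≠ z → y ≠ w → z ≠ w →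
    swap x y * swap z w ∈ H

theorem good_of {H : Subgroup (Perm Ω)} {a b c d : Ω} (hab : a ≠ b) (hac : a ≠ c) (had : a ≠ d)
    (hbc : b ≠ c) (hbd : b ≠ d) (hcd : c ≠ d) (h1 : swap a b * swap c d ∈ H)
    (h2 : swap a c * swap b d ∈ H) : Good H {a, b, c, d} := by
  have h3 : swap a d * swap b c ∈ H := by
    rw [← v4_mul hab hac had hbc hbd hcd]
    exact H.mul_mem h1 h2
  have h1' : swap c d * swap a b ∈ H := by rw [← swap2_comm hac had hbc hbd]; exact h1
  have h2' : swap b d * swap a c ∈ H := by rw [← swap2_comm hab had hbc.symm hcd]; exact h2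
  have h3' : swap b c * swap a d ∈ H := by rw [← swap2_comm hab hac hbd.symm hcd.symm]; exact h3
  have v : ∀ {x y z w : Ω}, swap x y * swap z w ∈ H →
      swap y x * swap z w ∈ H ∧ swap x y * swap w z ∈ H ∧ swap y x * swap w z ∈ H := by
    intro x y z w h
    refine ⟨?_, ?_, ?_⟩
    · rwa [swap_comm y x]
    · rwa [swap_comm w z]
    · rwa [swap_comm w z, swap_comm y x]
  obtain ⟨a1, a2, a3⟩ := v h1
  obtain ⟨b1, b2, b3⟩ := v h2
  obtain ⟨c1, c2, c3⟩ := v h3
  obtain ⟨a4, a5, a6⟩ := v h1'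
  obtain ⟨b4, b5, b6⟩ := v h2'
  obtain ⟨c4, c5, c6⟩ := v h3'
  clear v
  intro x hx y hy z hz w hw
  simp only [Finset.mem_insert, Finset.mem_singleton] at hx hy hz hw
  rcases hx with rfl | rfl | rfl | rfl <;> rcases hy with rfl | rfl | rfl | rfl <;>
    (try (intro h; exact absurd rfl h)) <;>
    rcases hz with rfl | rfl | rfl | rfl <;>
    (try (intro _ h; exact absurd rfl h)) <;> (try (intro _ _ _ h; exact absurd rfl h)) <;>
    rcases hw with rfl | rfl | rfl | rfl <;>
    (try (intro _ _ h; exact absurd rfl h)) <;> (try (intro _ _ _ _ h; exact absurd rfl h)) <;>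
    (try (intro _ _ _ _ _ h; exact absurd rfl h)) <;> intro _ _ _ _ _ _ <;> assumption

theorem orderOf_ne {x : Perm Ω} {H : Subgroup (Perm Ω)} (h3 : ¬ 3 ∣ Nat.card H) (hx : x ∈ H)
    (h : x ^ 3 = 1) : x = 1 := by
  by_contra hne
  have h1 : orderOf x = 3 := orderOf_eq_prime h hne
  exact h3 (h1 ▸ (Subgroup.orderOf_dvd_natCard H hx))

/-- two such sets are equal or disjoint if `3 ∤ |H|` -/
theorem good_disjoint {H : Subgroup (Perm Ω)} (h3 : ¬ 3 ∣ Nat.card H) {D E : Finset Ω} (hD : Good H D)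
    (hE : Good H E) (hDc : D.card = 4) (hEc : E.card = 4) (hne : D ≠ E) (hI : (D ∩ E).Nonempty) : False := by
  have hcardI : (D ∩ E).card < 4 := by
    by_contra hcon
    push Not at hcon
    have h1 : D ∩ E = D := Finset.eq_of_subset_of_card_le Finset.inter_subset_left (by omega)
    have h2 : D ∩ E = E := Finset.eq_of_subset_of_card_le Finset.inter_subset_right (by omega)
    exact hne (h1.symm.trans h2)
  have hpos := Finset.card_pos.2 hI
  have hDE : (D \ E).card + (D ∩ E).card = 4 := by rw [Finset.card_sdiff_add_card_inter, hDc]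
  have hED : (E \ D).card + (D ∩ E).card = 4 := by
    rw [Finset.inter_comm, Finset.card_sdiff_add_card_inter, hEc]
  have hc : (D ∩ E).card = 1 ∨ (D ∩ E).card = 2 ∨ (D ∩ E).card = 3 := by omega
  rcases hc with hc | hc | hc
  · obtain ⟨a, ha⟩ := Finset.card_eq_one.1 hc
    obtain ⟨b, c, d, hbc, hbd, hcd, hb⟩ := Finset.card_eq_three.1 (show (D \ E).card = 3 by omega)
    obtain ⟨b', c', d', hbc', hbd', hcd', hb'⟩ := Finset.card_eq_three.1 (show (E \ D).card = 3 by omega)
    have ma : a ∈ D ∩ E := by rw [ha]; simp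
    have mb : b ∈ D \ E := by rw [hb]; simp
    have mc : c ∈ D \ E := by rw [hb]; simp
    have md : d ∈ D \ E := by rw [hb]; simp
    have mb' : b' ∈ E \ D := by rw [hb']; simp
    have mc' : c' ∈ E \ D := by rw [hb']; simp
    have md' : d' ∈ E \ D := by rw [hb']; simp
    rw [Finset.mem_inter] at ma
    rw [Finset.mem_sdiff] at mb mc md mb' mc' md'
    have nn : ∀ x y, x ∈ D → y ∉ D → x ≠ y := fun x y hx hy h => hy (h ▸ hx)
    have nn' : ∀ x y, x ∈ E → y ∉ E → x ≠ y := fun x y hx hy h => hy (h ▸ hx)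
    have q1 := nn' a b ma.2 mb.2
    have q2 := nn' a c ma.2 mc.2
    have q3 := nn' a d ma.2 md.2
    have q4 := nn a b' ma.1 mb'.2
    have q5 := nn a c' ma.1 mc'.2
    have q6 := nn a d' ma.1 md'.2
    have r1 := nn b b' mb.1 mb'.2
    have r2 := nn b c' mb.1 mc'.2
    have r3 := nn b d' mb.1 md'.2
    have r4 := nn c b' mc.1 mb'.2
    have r5 := nn c c' mc.1 mc'.2
    have r6 := nn c d' mc.1 md'.2
    have r7 := nn d b' md.1 mb'.2
    have r8 := nn d c' md.1 mc'.2
    have r9 := nn d d' md.1 md'.2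
    have m1 : swap a b * swap c d ∈ H := hD a ma.1 b mb.1 c mc.1 d md.1 q1 q2 q3 hbc hbd hcd
    have m2 : swap a b' * swap c' d' ∈ H := hE a ma.2 b' mb'.1 c' mc'.1 d' md'.1 q4 q5 q6 hbc' hbd' hcd'
    have m3 := H.mul_mem m1 m2
    have m4 := H.mul_mem m3 m3
    have cm : ∀ {x y z w : Ω}, x ≠ z → x ≠ w → y ≠ z → y ≠ w → Commute (swap x y) (swap z w) :=
      fun h1 h2 h3 h4 => swap2_comm h1 h2 h3 h4
    have hT := (Perm.isThreeCycle_swap_mul_swap_same q1 q4 r1).orderOf
    have e1 : swap a b * swap c d * (swap a b' * swap c' d') =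
        (swap a b * swap a b') * (swap c d * swap c' d') := by
      have := (cm q2.symm r4 q3.symm r7 : Commute (swap c d) (swap a b')).eq
      rw [mul_assoc, ← mul_assoc (swap c d), this]; simp only [mul_assoc]
    have hI2 : (swap c d * swap c' d') * (swap c d * swap c' d') = 1 := swap2_sq r5 r6 r8 r9
    have hco : Commute (swap a b * swap a b') (swap c d * swap c' d') := by
      refine Commute.mul_left (Commute.mul_right ?_ ?_) (Commute.mul_right ?_ ?_)
      · exact cm q2 q3 hbc hbd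
      · exact cm q5 q6 r2 r3
      · exact cm q2 q3 r4.symm r7.symm
      · exact cm q5 q6 hbc' hbd'
    have e2 : (swap a b * swap c d * (swap a b' * swap c' d')) * (swap a b * swap c d * (swap a b' * swap c' d')) =
        (swap a b * swap a b') ^ 2 := by
      rw [e1, mul_assoc, ← mul_assoc (swap c d * swap c' d'), ← hco.eq, mul_assoc (swap a b * swap a b'), hI2,
        mul_one, pow_two]
    rw [e2] at m4
    have h1 := orderOf_ne h3 m4 (by
      rw [← pow_mul, mul_comm, pow_mul]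
      have : (swap a b * swap a b') ^ 3 = 1 := by rw [← hT]; exact pow_orderOf_eq_one _
      rw [this, one_pow])
    have := orderOf_dvd_of_pow_eq_one h1
    rw [hT] at this
    omega
  · obtain ⟨a, b, hab, ha⟩ := Finset.card_eq_two.1 hc
    obtain ⟨c, d, hcd, hb⟩ := Finset.card_eq_two.1 (show (D \ E).card = 2 by omega)
    obtain ⟨c', d', hcd', hb'⟩ := Finset.card_eq_two.1 (show (E \ D).card = 2 by omega)
    have ma : a ∈ D ∩ E := by rw [ha]; simp
    have mb : b ∈ D ∩ E := by rw [ha]; simp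
    have mc : c ∈ D \ E := by rw [hb]; simp
    have md : d ∈ D \ E := by rw [hb]; simp
    have mc' : c' ∈ E \ D := by rw [hb']; simp
    have md' : d' ∈ E \ D := by rw [hb']; simp
    rw [Finset.mem_inter] at ma mb
    rw [Finset.mem_sdiff] at mc md mc' md'
    have nn : ∀ x y, x ∈ D → y ∉ D → x ≠ y := fun x y hx hy h => hy (h ▸ hx)
    have nn' : ∀ x y, x ∈ E → y ∉ E → x ≠ y := fun x y hx hy h => hy (h ▸ hx)
    have q1 := nn' a c ma.2 mc.2
    have q2 := nn' a d ma.2 md.2
    have q3 := nn a c' ma.1 mc'.2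
    have q4 := nn a d' ma.1 md'.2
    have q5 := nn' b c mb.2 mc.2
    have q6 := nn' b d mb.2 md.2
    have q7 := nn b c' mb.1 mc'.2
    have q8 := nn b d' mb.1 md'.2
    have r1 := nn c c' mc.1 mc'.2
    have r2 := nn c d' mc.1 md'.2
    have r3 := nn d c' md.1 mc'.2
    have r4 := nn d d' md.1 md'.2
    have m1 : swap a c * swap b d ∈ H := hD a ma.1 c mc.1 b mb.1 d md.1 q1 hab q2 q5.symm hcd q6
    have m2 : swap a c' * swap b d' ∈ H := hE a ma.2 c' mc'.1 b mb.2 d' md'.1 q3 hab q4 q7.symm hcd' q8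
    have m3 := H.mul_mem m1 m2
    have cm : ∀ {x y z w : Ω}, x ≠ z → x ≠ w → y ≠ z → y ≠ w → Commute (swap x y) (swap z w) :=
      fun h1 h2 h3 h4 => swap2_comm h1 h2 h3 h4
    have hT := (Perm.isThreeCycle_swap_mul_swap_same q1 q3 r1).orderOf
    have hT' := (Perm.isThreeCycle_swap_mul_swap_same q6 q8 r4).orderOf
    have e1 : swap a c * swap b d * (swap a c' * swap b d') =
        (swap a c * swap a c') * (swap b d * swap b d') := by
      have := (cm hab.symm q7 q2.symm r3 : Commute (swap b d) (swap a c')).eq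
      rw [mul_assoc, ← mul_assoc (swap b d), this]; simp only [mul_assoc]
    have hco : Commute (swap a c * swap a c') (swap b d * swap b d') := by
      refine Commute.mul_left (Commute.mul_right ?_ ?_) (Commute.mul_right ?_ ?_)
      · exact cm hab q2 q5.symm hcd
      · exact cm hab q4 q5.symm r2
      · exact cm hab q2 q7.symm r3.symm
      · exact cm hab q4 q7.symm hcd'
    rw [e1] at m3
    have h1 := orderOf_ne h3 m3 (by
      rw [hco.mul_pow]
      have h4 : (swap a c * swap a c') ^ 3 = 1 := by rw [← hT]; exact pow_orderOf_eq_one _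
      have h5 : (swap b d * swap b d') ^ 3 = 1 := by rw [← hT']; exact pow_orderOf_eq_one _
      rw [h4, h5, one_mul])
    have h2 := congrArg (fun g : Perm Ω => g c) h1
    simp only [Perm.mul_apply, Perm.one_apply] at h2
    rw [swap_apply_of_ne_of_ne q5.symm r2, swap_apply_of_ne_of_ne q5.symm hcd,
      swap_apply_of_ne_of_ne q1.symm r1, swap_apply_right] at h2
    exact q1 h2
  · obtain ⟨a, b, c, hab, hac, hbc, ha⟩ := Finset.card_eq_three.1 hc
    obtain ⟨d, hd⟩ := Finset.card_eq_one.1 (show (D \ E).card = 1 by omega)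
    obtain ⟨d', hd'⟩ := Finset.card_eq_one.1 (show (E \ D).card = 1 by omega)
    have ma : a ∈ D ∩ E := by rw [ha]; simp
    have mb : b ∈ D ∩ E := by rw [ha]; simp
    have mc : c ∈ D ∩ E := by rw [ha]; simp
    have md : d ∈ D \ E := by rw [hd]; simp
    have md' : d' ∈ E \ D := by rw [hd']; simp
    rw [Finset.mem_inter] at ma mb mc
    rw [Finset.mem_sdiff] at md md'
    have nn : ∀ x y, x ∈ D → y ∉ D → x ≠ y := fun x y hx hy h => hy (h ▸ hx)
    have nn' : ∀ x y, x ∈ E → y ∉ E → x ≠ y := fun x y hx hy h => hy (h ▸ hx)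
    have q1 := nn' a d ma.2 md.2
    have q2 := nn' b d mb.2 md.2
    have q3 := nn' c d mc.2 md.2
    have q4 := nn a d' ma.1 md'.2
    have q5 := nn b d' mb.1 md'.2
    have q6 := nn c d' mc.1 md'.2
    have q7 := nn d d' md.1 md'.2
    have m1 : swap a b * swap c d ∈ H := hD a ma.1 b mb.1 c mc.1 d md.1 hab hac q1 hbc q2 q3
    have m2 : swap a b * swap c d' ∈ H := hE a ma.2 b mb.2 c mc.2 d' md'.1 hab hac q4 hbc q5 q6
    have m3 := H.mul_mem m1 m2
    have hT := (Perm.isThreeCycle_swap_mul_swap_same q3 q6 q7).orderOf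
    have e1 : swap a b * swap c d * (swap a b * swap c d') = swap c d * swap c d' := by
      rw [swap2_comm hac q1 hbc q2, mul_assoc, ← mul_assoc (swap a b)]; simp
    rw [e1] at m3
    have h1 := orderOf_ne h3 m3 (by rw [← hT]; exact pow_orderOf_eq_one _)
    rw [h1, orderOf_one] at hT
    omega


theorem exists_good {π : Set ℕ} {K H : Subgroup (Perm Ω)} (hK : alternatingGroup Ω ≤ K)
    (h : IsPiHallOf π H K) (h2 : 2 ∈ π) (hn : 4 ≤ Fintype.card Ω) : ∃ D : Finset Ω, D.card = 4 ∧ Good H D := by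
  obtain ⟨u⟩ : Nonempty (Fin 4 ↪ Ω) := Function.Embedding.nonempty_of_card_le (by simpa using hn)
  have hu : ∀ i j : Fin 4, i ≠ j → u i ≠ u j := fun i j hij hc => hij (u.injective hc)
  obtain ⟨a, ha⟩ : ∃ a, a = u 0 := ⟨_, rfl⟩
  obtain ⟨b, hb⟩ : ∃ b, b = u 1 := ⟨_, rfl⟩
  obtain ⟨c, hc⟩ : ∃ c, c = u 2 := ⟨_, rfl⟩
  obtain ⟨d, hd⟩ : ∃ d, d = u 3 := ⟨_, rfl⟩
  have hab : a ≠ b := by rw [ha, hb]; exact hu _ _ (by decide)
  have hac : a ≠ c := by rw [ha, hc]; exact hu _ _ (by decide)
  have had : a ≠ d := by rw [ha, hd]; exact hu _ _ (by decide)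
  have hbc : b ≠ c := by rw [hb, hc]; exact hu _ _ (by decide)
  have hbd : b ≠ d := by rw [hb, hd]; exact hu _ _ (by decide)
  have hcd : c ≠ d := by rw [hc, hd]; exact hu _ _ (by decide)
  clear ha hb hc hd
  have hs : ∀ {x y z w : Ω}, x ≠ y → z ≠ w → swap x y * swap z w ∈ alternatingGroup Ω := by
    intro x y z w h1 h2
    rw [Perm.mem_alternatingGroup, Perm.sign_mul, Perm.sign_swap h1, Perm.sign_swap h2]; norm_num
  set t1 := swap a b * swap c d with ht1
  set t2 := swap a c * swap b d with ht2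
  have o1 : t1 ^ 2 = 1 := by rw [pow_two]; exact swap2_sq hac had hbc hbd
  have o2 : t2 ^ 2 = 1 := by rw [pow_two]; exact swap2_sq hab had hbc.symm hcd
  have e12 : t1 * t2 = t2 * t1 := by
    rw [ht1, ht2, v4_mul hab hac had hbc hbd hcd, v4_mul hac hab had hbc.symm hcd hbd, swap_comm c b]
  have pg : ∀ t : Perm Ω, t ^ 2 = 1 → IsPGroup 2 (Subgroup.zpowers t) := by
    intro t ht
    refine IsPGroup.of_card (n := (Nat.log 2 (orderOf t))) ?_
    rw [Nat.card_zpowers]
    have : orderOf t ∣ 2 := orderOf_dvd_of_pow_eq_one ht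
    rcases (Nat.dvd_prime Nat.prime_two).1 this with h | h <;> rw [h] <;> rfl
  have hQ : IsPGroup 2 (Subgroup.zpowers t1 ⊔ Subgroup.zpowers t2 : Subgroup (Perm Ω)) := by
    refine IsPGroup.to_sup_of_normal_right' (pg t1 o1) (pg t2 o2) ?_
    rw [Subgroup.zpowers_le, Subgroup.mem_normalizer_iff]
    intro x
    have key : ∀ x, x ∈ Subgroup.zpowers t2 → t1 * x * t1⁻¹ = x := by
      rintro _ ⟨k, rfl⟩
      have : Commute t1 (t2 ^ k) := (show Commute t1 t2 from e12).zpow_right k
      simp only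
      rw [this.eq, mul_inv_cancel_right]
    constructor
    · intro hx; rw [key x hx]; exact hx
    · intro hx
      have : t1⁻¹ * (t1 * x * t1⁻¹) * t1 ∈ Subgroup.zpowers t2 := by
        have h3 := key _ hx
        have h4 : t1⁻¹ * (t1 * x * t1⁻¹) * t1 = t1 * x * t1⁻¹ := by
          conv_lhs => rw [← h3]
          simp [mul_assoc]
        rw [h4]; exact hx
      simpa [mul_assoc] using this
  have hQK : (Subgroup.zpowers t1 ⊔ Subgroup.zpowers t2 : Subgroup (Perm Ω)) ≤ K := by
    refine le_trans (sup_le ?_ ?_) hK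
    · rw [Subgroup.zpowers_le]; exact hs hab hcd
    · rw [Subgroup.zpowers_le]; exact hs hac hbd
  obtain ⟨m, _, hm⟩ := conj_of_pgroup h Nat.prime_two h2 hQ hQK
  have m1 : swap (m a) (m b) * swap (m c) (m d) ∈ H := by
    rw [← conj_swap2]
    exact hm (conj_mem_cj (le_sup_left (a := Subgroup.zpowers t1) (Subgroup.mem_zpowers t1)))
  have m2 : swap (m a) (m c) * swap (m b) (m d) ∈ H := by
    rw [← conj_swap2]
    exact hm (conj_mem_cj ((le_sup_right : Subgroup.zpowers t2 ≤ Subgroup.zpowers t1 ⊔ Subgroup.zpowers t2)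
      (Subgroup.mem_zpowers t2)))
  have mi : ∀ {x y : Ω}, x ≠ y → m x ≠ m y := fun hxy hc => hxy (m.injective hc)
  refine ⟨{m a, m b, m c, m d}, ?_, good_of (mi hab) (mi hac) (mi had) (mi hbc) (mi hbd) (mi hcd) m1 m2⟩
  rw [Finset.card_insert_of_notMem, Finset.card_insert_of_notMem, Finset.card_insert_of_notMem,
    Finset.card_singleton]
  · simpa using hcd
  · simp [hbc, hbd]
  · simp [hab, hac, had]

theorem Good.smul {H : Subgroup (Perm Ω)} {D : Finset Ω} (hD : Good H D) {g : Perm Ω} (hg : g ∈ H) :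
    Good H (D.map g.toEmbedding) := by
  intro x hx y hy z hz w hw hxy hxz hxw hyz hyw hzw
  rw [Finset.mem_map] at hx hy hz hw
  obtain ⟨x, hx, rfl⟩ := hx
  obtain ⟨y, hy, rfl⟩ := hy
  obtain ⟨z, hz, rfl⟩ := hz
  obtain ⟨w, hw, rfl⟩ := hw
  have ne : ∀ {p q : Ω}, g.toEmbedding p ≠ g.toEmbedding q → p ≠ q := fun h hc => h (hc ▸ rfl)
  have := hD x hx y hy z hz w hw (ne hxy) (ne hxz) (ne hxw) (ne hyz) (ne hyw) (ne hzw)
  have h2 := H.mul_mem (H.mul_mem hg this) (H.inv_mem hg)
  rw [conj_swap2] at h2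
  exact h2

open MulAction in
/-- if `2 ∈ π`, `3 ∉ π`, a Hall subgroup of degree at least 5 is not primitive -/
theorem not_prim_two {π : Set ℕ} {K H : Subgroup (Perm Ω)} (hK : alternatingGroup Ω ≤ K)
    (h : IsPiHallOf π H K) (h2 : 2 ∈ π) (h3 : 3 ∉ π) (hn : 5 ≤ Fintype.card Ω)
    (hprim : IsPreprimitive H Ω) : False := by
  obtain ⟨D, hDc, hD⟩ := exists_good hK h h2 (by omega)
  have h3' : ¬ 3 ∣ Nat.card H := fun hc => h3 (h.2.1 3 Nat.prime_three hc)
  have hsm : ∀ g : H, g • (D : Set Ω) = ((D.map (g : Perm Ω).toEmbedding : Finset Ω) : Set Ω) := by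
    intro g
    ext x
    rw [Set.mem_smul_set]
    simp only [Finset.coe_map, Set.mem_image, Finset.mem_coe]
    rfl
  have hB : IsBlock H (D : Set Ω) := by
    rw [isBlock_iff_smul_eq_or_disjoint]
    intro g
    by_contra hcon
    push Not at hcon
    obtain ⟨hne, hnd⟩ := hcon
    rw [hsm] at hne hnd
    refine good_disjoint h3' (hD.smul g.2) hD (by rw [Finset.card_map, hDc]) hDc ?_ ?_
    · intro he
      exact hne (by rw [he])
    · rw [Finset.disjoint_coe, Finset.disjoint_iff_inter_eq_empty] at hnd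
      exact Finset.nonempty_iff_ne_empty.2 hnd
  rcases hprim.isTrivialBlock_of_isBlock hB with h4 | h4
  · have := Finset.card_le_one.2 (fun a ha b hb => h4 (Finset.mem_coe.2 ha) (Finset.mem_coe.2 hb))
    omega
  · have h5 : D = Finset.univ := by
      rw [← Finset.coe_eq_univ]; exact h4
    rw [h5, Finset.card_univ] at hDc
    omega

/-- a cycle of prime order `p` -/
theorem exists_cycle {p : ℕ} (hp : p.Prime) (hn : p ≤ Fintype.card Ω) :
    ∃ g : Perm Ω, g.IsCycle ∧ g.support.card = p ∧ orderOf g = p := by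
  obtain ⟨S, hS⟩ := Finset.exists_subset_card_eq (s := (Finset.univ : Finset Ω)) (n := p)
    (by rw [Finset.card_univ]; exact hn)
  have e : Fin p ≃ {x // x ∈ S} := (Fintype.equivFinOfCardEq (by simp [hS.2])).symm
  have hc : (finRotate p).IsCycle := isCycle_finRotate_of_le hp.two_le
  have h1 := hc.extendDomain e
  have h2 : ((finRotate p).extendDomain e).support.card = p := by
    rw [Perm.card_support_extend_domain]
    obtain ⟨q, rfl⟩ : ∃ q, p = q + 2 := ⟨p - 2, by have := hp.two_le; omega⟩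
    rw [support_finRotate]; simp
  exact ⟨_, h1, h2, by rw [h1.orderOf, h2]⟩

open MulAction in
theorem not_prim_odd {π : Set ℕ} {K H : Subgroup (Perm Ω)} (hK : alternatingGroup Ω ≤ K)
    (h : IsPiHallOf π H K) (h2 : 2 ∉ π) {p : ℕ} (hp : p.Prime) (hpπ : p ∈ π)
    (hn : p < Fintype.card Ω) (hprim : IsPreprimitive H Ω) : False := by
  obtain ⟨c, hc, hcs, hco⟩ := exists_cycle hp hn.le
  have hp2 : p ≠ 2 := by rintro rfl; exact h2 hpπ
  have hcA : c ∈ alternatingGroup Ω := by
    rw [Perm.mem_alternatingGroup, hc.sign, hcs]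
    rcases hp.eq_two_or_odd' with h4 | h4
    · exact absurd h4 hp2
    · rw [h4.neg_one_pow]; norm_num
  have hQ : IsPGroup p (Subgroup.zpowers c) := by
    refine IsPGroup.of_card (n := 1) ?_
    rw [Nat.card_zpowers, hco, pow_one]
  obtain ⟨m, _, hm⟩ := conj_of_pgroup h hp hpπ hQ (by rw [Subgroup.zpowers_le]; exact hK hcA)
  have hcm : m * c * m⁻¹ ∈ H := hm (conj_mem_cj (Subgroup.mem_zpowers c))
  have hc' : (m * c * m⁻¹).IsCycle := hc.conj
  have hcs' : (m * c * m⁻¹).support.card = p := by rw [Perm.card_support_conj, hcs]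
  have htr := Perm.isPretransitive_of_isCycle_mem hc' hcm
  have hcompl : (((m * c * m⁻¹).support : Set Ω)ᶜ).ncard = Fintype.card Ω - p := by
    rw [← Finset.coe_compl, Set.ncard_coe_finset, Finset.card_compl, hcs']
  have h2t := hprim.is_two_pretransitive (s := (((m * c * m⁻¹).support : Set Ω)ᶜ)) (n := Fintype.card Ω - p - 1)
    (by rw [hcompl]; omega) (by rw [Nat.card_eq_fintype_card]; have := hp.two_le; omega) htr
  rw [is_two_pretransitive_iff] at h2t
  obtain ⟨x, y, hxy⟩ := Fintype.exists_pair_of_one_lt_card (α := Ω) (by have := hp.two_le; omega)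
  obtain ⟨g, hg1, hg2⟩ := h2t hxy hxy.symm
  have hodd : ¬ 2 ∣ Nat.card H := fun hc => h2 (h.2.1 2 Nat.prime_two hc)
  have hog : ¬ 2 ∣ orderOf g := fun hc => hodd (hc.trans (orderOf_dvd_natCard g))
  have hp2 : ∀ k : ℕ, (g ^ (2 * k)) • x = x := by
    intro k
    induction k with
    | zero => simp
    | succ k ih =>
      rw [mul_add, mul_one, pow_add, mul_smul, pow_two, mul_smul, hg1, hg2]; exact ih
  have h5 := hp2 (orderOf g / 2)
  have h6 : (g ^ (orderOf g)) • x = y := by
    have : orderOf g = 1 + 2 * (orderOf g / 2) := by omega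
    rw [this, pow_add, mul_smul, h5, pow_one, hg1]
  rw [pow_orderOf_eq_one, one_smul] at h6
  exact hxy h6

open MulAction in
theorem prim_case {π : Set ℕ} {K H : Subgroup (Perm Ω)} (hK : alternatingGroup Ω ≤ K)
    (h : IsPiHallOf π H K) (h2 : Two π (Fintype.card Ω)) (hprim : IsPreprimitive H Ω) :
    alternatingGroup Ω ≤ H := by
  obtain ⟨r, s, hr, hs, hrs, hrπ, hsπ, hrn, hsn⟩ := h2
  by_cases h3 : 3 ∈ π
  · have hn : 3 ≤ Fintype.card Ω := by
      have := hr.two_le
      have := hs.two_le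
      omega
    obtain ⟨c, hc, hcs, hco⟩ := exists_cycle (Ω := Ω) Nat.prime_three hn
    have h3c : c.IsThreeCycle := card_support_eq_three_iff.1 hcs
    have hQ : IsPGroup 3 (Subgroup.zpowers c) := by
      refine IsPGroup.of_card (n := 1) ?_
      rw [Nat.card_zpowers, hco, pow_one]
    obtain ⟨m, _, hm⟩ := conj_of_pgroup h Nat.prime_three h3 hQ
      (by rw [Subgroup.zpowers_le]; exact hK h3c.mem_alternatingGroup)
    have hcm : m * c * m⁻¹ ∈ H := hm (conj_mem_cj (Subgroup.mem_zpowers c))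
    have h3c' : (m * c * m⁻¹).IsThreeCycle := by
      rw [← card_support_eq_three_iff, Perm.card_support_conj, hcs]
    exact Perm.alternatingGroup_le_of_isPreprimitive_of_isThreeCycle_mem hprim h3c' hcm
  · exfalso
    have np : ∀ q, q.Prime → q ∈ π → q ≠ 2 → 5 ≤ q := by
      intro q hq hqπ hq2
      have := hq.two_le
      have h3' : q ≠ 3 := by rintro rfl; exact h3 hqπ
      by_contra hcon
      have : q = 4 := by omega
      subst this; revert hq; norm_num
    by_cases h2 : 2 ∈ π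
    · refine not_prim_two hK h h2 h3 ?_ hprim
      by_cases hr2 : r = 2
      · have := np s hs hsπ (by omega); omega
      · have := np r hr hrπ hr2; omega
    · rcases lt_or_gt_of_ne hrs with hlt | hlt
      · exact not_prim_odd hK h h2 hr hrπ (by omega) hprim
      · exact not_prim_odd hK h h2 hs hsπ (by omega) hprim

end CfsgLib.HSn
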