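import Mathlib
import Cfsg.Agent.LibHSn4

/-! Hall subgroups of symmetric groups: the classification (helper10). -/

set_option autoImplicit false

namespace CfsgLib.HSn

open Nat Equiv Cfsg CfsgLib.BGPi
open scoped Pointwise

universe u v

variable {Ω : Type u} [Fintype Ω] [DecidableEq Ω]

/-- structure of the Hall subgroups -/
def Str (π : Set ℕ) (H : Subgroup (Perm Ω)) : Prop :=
  (∀ p, p.Prime → p ≤ Fintype.card Ω → p ∈ π) ∨
  (((Fintype.card Ω).Prime ∧ ∀ r : ℕ, r.Prime → r ≤ Fintype.card Ω → (r ∈ π ↔ r < Fintype.card Ω)) ∧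
    ∃ x, ∀ h ∈ H, h x = x) ∨
  ((Fintype.card Ω = 7 ∧ ∀ r : ℕ, r.Prime → r ≤ Fintype.card Ω → (r ∈ π ↔ (r = 2 ∨ r = 3))) ∧
    ∃ S : Finset Ω, S.card = 4 ∧ H ≤ Kf (fun x => decide (x ∈ S))) ∨
  ((Fintype.card Ω = 8 ∧ ∀ r : ℕ, r.Prime → r ≤ Fintype.card Ω → (r ∈ π ↔ (r = 2 ∨ r = 3))) ∧
    ∃ f : Ω → Fin 2, (∀ i, Fintype.card {x // f x = i} = 4) ∧ H ≤ Lb f)

theorem Str.concl {π : Set ℕ} {H : Subgroup (Perm Ω)} (h : Str π H) : Concl π (Fintype.card Ω) := by
  rcases h with h | ⟨h, _⟩ | ⟨h, _⟩ | ⟨h, _⟩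
  · exact Or.inl h
  · exact Or.inr (Or.inl h)
  · exact Or.inr (Or.inr ⟨Or.inl h.1, h.2⟩)
  · exact Or.inr (Or.inr ⟨Or.inr h.1, h.2⟩)

theorem not_dvd_index {π : Set ℕ} {K H L : Subgroup (Perm Ω)} (hK : alternatingGroup Ω ≤ K)
    (h : IsPiHallOf π H K) (hH : H ≤ L) (hodd : ∃ g ∈ L, Perm.sign g = -1) {p : ℕ} (hp : p.Prime)
    (hpπ : p ∈ π) : ¬ p ∣ L.index := by
  rw [← relIndex_eq hK hodd]
  intro hd
  refine h.2.2 p hp hpπ ?_
  rw [← Subgroup.relIndex_mul_relIndex H (L ⊓ K) K (le_inf hH h.1) inf_le_right]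
  rw [Subgroup.inf_relIndex_right]
  exact hd.mul_left _

theorem three_le {π : Set ℕ} {n : ℕ} (h2 : Two π n) : 3 ≤ n := by
  obtain ⟨r, s, hr, hs, hrs, _, _, hrn, hsn⟩ := h2
  have := hr.two_le
  have := hs.two_le
  omega

theorem intrans {π : Set ℕ} {K H : Subgroup (Perm Ω)} {S : Finset Ω} (hK : alternatingGroup Ω ≤ K)
    (h : IsPiHallOf π H K) (hS : S ≠ Finset.univ) (hSc : Fintype.card Ω ≤ 2 * S.card)
    (hH : H ≤ Kf (fun x => decide (x ∈ S))) (h2 : Two π (Fintype.card Ω))
    (IH : Two π S.card → Concl π S.card) : Str π H := by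
  have hn3 := three_le h2
  have hlt : S.card < Fintype.card Ω := Finset.card_lt_univ_of_notMem
    (Classical.choose_spec (not_forall.1 (fun hc => hS (Finset.eq_univ_iff_forall.2 hc))))
  obtain ⟨b, hb⟩ : ∃ b, Fintype.card Ω = S.card + b := ⟨Fintype.card Ω - S.card, by omega⟩
  have hodd : ∃ g ∈ Kf (fun x => decide (x ∈ S)), Perm.sign g = -1 := by
    obtain ⟨x, hx, y, hy, hxy⟩ := Finset.one_lt_card.1 (show 1 < S.card by omega)
    refine ⟨swap x y, fun z => ?_, Perm.sign_swap hxy⟩
    by_cases hzx : z = x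
    · subst hzx; rw [swap_apply_left]; simp [hx, hy]
    · by_cases hzy : z = y
      · subst hzy; rw [swap_apply_right]; simp [hx, hy]
      · rw [swap_apply_of_ne_of_ne hzx hzy]
  have hidx : ∀ p, p.Prime → p ∈ π → ¬ p ∣ (S.card + b).choose b := by
    intro p hp hpπ hd
    refine not_dvd_index hK h hH hodd hp hpπ ?_
    rw [index_stab, hb, Nat.choose_symm_add]
    exact hd
  rw [hb] at h2
  rcases nt_intrans (by omega) (by omega) hidx h2 IH with ⟨h1, h3, h4⟩ | ⟨h1, h3, h4⟩
  · right; left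
    rw [h1] at hb
    refine ⟨⟨hb ▸ h3, hb ▸ h4⟩, ?_⟩
    have hc : (Sᶜ : Finset Ω).card = 1 := by rw [Finset.card_compl]; omega
    obtain ⟨x, hx⟩ := Finset.card_eq_one.1 hc
    refine ⟨x, fun g hg => ?_⟩
    have h5 := hH hg x
    have h6 : x ∉ S := by
      have : x ∈ Sᶜ := by rw [hx]; simp
      simpa using this
    simp only [h6, decide_false, decide_eq_false_iff_not] at h5
    have h7 : g x ∈ Sᶜ := by simpa using h5
    rw [hx] at h7
    simpa using h7
  · right; right; left
    have : Fintype.card Ω = 7 := by omega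
    exact ⟨⟨this, this ▸ h4⟩, S, h1, hH⟩


open MulAction in
/-- blocks as fibres -/
theorem exists_fib {H : Subgroup (Perm Ω)} (ht : IsPretransitive H Ω) (hnp : ¬ IsPreprimitive H Ω) :
    ∃ (a b : ℕ) (f : Ω → Fin b), 2 ≤ a ∧ 2 ≤ b ∧ a * b = Fintype.card Ω ∧
      (∀ i, Fintype.card {x // f x = i} = a) ∧ H ≤ Lb f := by
  have hB : ∃ B : Set Ω, IsBlock H B ∧ ¬ IsTrivialBlock B := by
    by_contra hcon
    push Not at hcon
    exact hnp ⟨fun {B} hB => hcon B hB⟩
  obtain ⟨B, hB, hnt⟩ := hB
  rw [IsTrivialBlock, not_or, Set.not_subsingleton_iff] at hnt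
  obtain ⟨hns, hnu⟩ := hnt
  have hne : B.Nonempty := hns.nonempty
  obtain ⟨hpart, _⟩ := hB.isBlockSystem hne
  have hch : ∀ x : Ω, ∃ b : (Set.range fun g : H => g • B), x ∈ (b : Set Ω) := by
    intro x
    obtain ⟨b, ⟨hb, hx⟩, _⟩ := hpart.2 x
    exact ⟨⟨b, hb⟩, hx⟩
  choose F hF using hch
  have huniq : ∀ x (b : (Set.range fun g : H => g • B)), x ∈ (b : Set Ω) → F x = b := by
    intro x b hb
    obtain ⟨c, _, hc⟩ := hpart.2 x
    have h1 := hc _ ⟨(F x).2, hF x⟩
    have h2 := hc _ ⟨b.2, hb⟩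
    exact Subtype.ext (h1.trans h2.symm)
  have : Finite (Set.range fun g : H => g • B) := inferInstance
  have := Fintype.ofFinite (Set.range fun g : H => g • B)
  let ι := (Set.range fun g : H => g • B)
  have hact : ∀ g : H, ∀ b : (Set.range fun g : H => g • B), (g • (b : Set Ω)) ∈ Set.range fun g : H => g • B := by
    rintro g ⟨_, k, rfl⟩
    exact ⟨g * k, by simp [mul_smul]⟩
  let σ : H → Perm ι := fun g =>
    { toFun := fun b => ⟨g • (b : Set Ω), hact g b⟩
      invFun := fun b => ⟨g⁻¹ • (b : Set Ω), hact g⁻¹ b⟩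
      left_inv := fun b => Subtype.ext (by simp)
      right_inv := fun b => Subtype.ext (by simp) }
  have hσ : ∀ (g : H) x, F ((g : Perm Ω) x) = σ g (F x) := by
    intro g x
    refine huniq _ _ ?_
    exact Set.smul_mem_smul_set (a := g) (hF x)
  let e : ι ≃ Fin (Fintype.card ι) := Fintype.equivFin ι
  classical
  have hfib : ∀ i, Fintype.card {x // e (F x) = i} = B.ncard := by
    intro i
    obtain ⟨⟨b, g, hg⟩, rfl⟩ := e.surjective i
    have h1 : ∀ x, e (F x) = e ⟨b, g, hg⟩ ↔ x ∈ b := by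
      intro x
      rw [e.apply_eq_iff_eq]
      constructor
      · intro h2
        have := hF x
        rw [h2] at this
        exact this
      · intro hx
        exact huniq x ⟨b, g, hg⟩ hx
    rw [← Nat.card_eq_fintype_card, Nat.card_congr (Equiv.subtypeEquivRight h1)]
    change Nat.card (b : Set Ω) = _
    rw [Nat.card_coe_set_eq]
    simp only at hg
    rw [← hg, Set.ncard_smul_set]
  have hsum : B.ncard * Fintype.card ι = Fintype.card Ω := by
    have h1 : Fintype.card Ω = ∑ i, Fintype.card {x // e (F x) = i} := by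
      rw [← Fintype.card_sigma]
      exact Fintype.card_congr (Equiv.sigmaFiberEquiv (fun x => e (F x))).symm
    rw [h1, Finset.sum_congr rfl (fun i _ => hfib i)]
    simp [mul_comm]
  have ha2 : 2 ≤ B.ncard := by
    rw [← Set.one_lt_ncard_iff_nontrivial] at hns
    exact hns
  have hblt : B.ncard < Fintype.card Ω := by
    rw [← Nat.card_eq_fintype_card, ← Set.ncard_univ]
    refine Set.ncard_lt_ncard ?_
    exact (Set.ssubset_univ_iff).2 hnu
  refine ⟨B.ncard, Fintype.card ι, fun x => e (F x), ha2, ?_, hsum, hfib, ?_⟩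
  · by_contra hcon
    have h1 : Fintype.card ι ≤ 1 := by omega
    have h2 : B.ncard * Fintype.card ι ≤ B.ncard * 1 := Nat.mul_le_mul_left _ h1
    omega
  · intro g hg
    refine ⟨(e.symm.trans (σ ⟨g, hg⟩)).trans e, fun x => ?_⟩
    have := hσ ⟨g, hg⟩ x
    simp only [Equiv.trans_apply, Equiv.symm_apply_apply]
    rw [← this]

open MulAction in
theorem dvd_card_of_trans {H : Subgroup (Perm Ω)} (ht : IsPretransitive H Ω) [Nonempty Ω] :
    Fintype.card Ω ∣ Nat.card H := by
  obtain ⟨x⟩ := ‹Nonempty Ω›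
  have h1 : Nat.card (orbit H x) = Fintype.card Ω := by
    rw [orbit_eq_univ, Nat.card_univ, Nat.card_eq_fintype_card]
  rw [← h1]
  rw [Nat.card_congr (orbitEquivQuotientStabilizer H x)]
  exact Subgroup.card_quotient_dvd_card _

theorem classification (π : Set ℕ) : ∀ n : ℕ, ∀ (Ω : Type u) [Fintype Ω] [DecidableEq Ω], Fintype.card Ω = n →
    ∀ K H : Subgroup (Perm Ω), alternatingGroup Ω ≤ K → IsPiHallOf π H K → Two π n → Str π H := by
  intro n
  induction n using Nat.strong_induction_on with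
  | _ n ih =>
  intro Ω _ _ hcard K H hK h h2
  subst hcard
  have hn3 := three_le h2
  have hnon : Nonempty Ω := Fintype.card_pos_iff.1 (by omega)
  -- induction hypothesis for fibres
  have IH : ∀ {ι : Type} [Fintype ι] [DecidableEq ι] (f : Ω → ι) (i : ι) (N : Subgroup (Perm Ω)),
      N ≤ Kf f → (∀ g ∈ K, g ∈ Kf f → g ∈ N) → (∃ x, f x ≠ i) → IsPiHallOf π (H ⊓ N) N →
      Two π (Fintype.card {x // f x = i}) → Concl π (Fintype.card {x // f x = i}) := by
    intro ι _ _ f i N hN hKN hx hHN h2'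
    refine Str.concl (H := ((H ⊓ N).subgroupOf (Kf f)).map (res f i)) ?_
    refine ih _ ?_ _ rfl ((N.subgroupOf (Kf f)).map (res f i)) _ ?_ (hall_res f i hHN hN) h2'
    · exact Fintype.card_subtype_lt (p := fun x => f x = i) hx.choose_spec
    · refine (alt_le_map_res f i hK).trans (Subgroup.map_mono ?_)
      intro g hg
      rw [Subgroup.mem_subgroupOf] at hg ⊢
      exact hKN _ hg g.2
  by_cases ht : MulAction.IsPretransitive H Ω
  · by_cases hp : MulAction.IsPreprimitive H Ω
    · left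
      have h4 := prim_case hK h h2 hp
      intro p hp hpn
      by_cases hc3 : Fintype.card Ω = 3
      · obtain ⟨r, s, hr, hs, hrs, hrπ, hsπ, hrn, hsn⟩ := h2
        have e1 := hr.two_le
        have e2 := hs.two_le
        have e3 := hp.two_le
        have : p = r ∨ p = s := by omega
        rcases this with rfl | rfl
        · exact hrπ
        · exact hsπ
      · refine h.2.1 p hp (dvd_trans ?_ (Subgroup.card_dvd_of_le h4))
        have : Nontrivial Ω := Fintype.one_lt_card_iff_nontrivial.1 (by omega)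
        have h5 := two_mul_nat_card_alternatingGroup (α := Ω)
        rw [Nat.card_perm, (Nat.card_eq_fintype_card : Nat.card Ω = Fintype.card Ω)] at h5
        rcases Nat.eq_or_lt_of_le hp.two_le with hp2 | hp2
        · have h6 : 4 ! ∣ (Fintype.card Ω)! := Nat.factorial_dvd_factorial (by omega)
          rw [← h5] at h6
          rw [← hp2]
          have h7 : 4 ! = 2 * 12 := rfl
          rw [h7] at h6
          have := Nat.dvd_of_mul_dvd_mul_left (by norm_num) h6
          exact (show 2 ∣ 12 by norm_num).trans this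
        · have h6 : p ∣ (Fintype.card Ω)! := (hp.dvd_factorial).2 hpn
          rw [← h5] at h6
          exact (Nat.Coprime.dvd_mul_left ((Nat.coprime_primes hp Nat.prime_two).2 (by omega))).1 h6
    · -- imprimitive
      obtain ⟨a, b, f, ha, hb, hab, hf, hHL⟩ := exists_fib ht hp
      have hbf : Fintype.card (Fin b) = b := Fintype.card_fin b
      have hodd : ∃ g ∈ Lb f, Perm.sign g = -1 := by
        have i : Fin b := ⟨0, by omega⟩
        obtain ⟨x, y, hxy⟩ := Fintype.exists_pair_of_one_lt_card (α := {x // f x = i}) (by rw [hf]; omega)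
        refine ⟨swap (x : Ω) (y : Ω), Kf_le_Lb f (fun z => ?_), Perm.sign_swap (fun hc => hxy (Subtype.ext hc))⟩
        by_cases hzx : z = x
        · subst hzx; rw [swap_apply_left, x.2, y.2]
        · by_cases hzy : z = y
          · subst hzy; rw [swap_apply_right, x.2, y.2]
          · rw [swap_apply_of_ne_of_ne hzx hzy]
      have hI := index_Lb (f := f) (a := a) (by omega) hf
      rw [hbf, ← hab] at hI
      have hdvd : ∀ p, p.Prime → p ∣ a * b → p ∈ π := by
        intro p hp hd
        rw [hab] at hd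
        exact h.2.1 p hp (hd.trans (dvd_card_of_trans ht))
      have hM : IsPiHallOf π H (Lb f ⊓ K) := hall_le_of_le h (le_inf hHL h.1) inf_le_right
      have hnorm : (Lb f ⊓ K) ≤ 𝓝(Kf f ⊓ K) := by
        intro g hg
        have h1 := Lb_le_normalizer f hg.1
        rw [Subgroup.mem_normalizer_iff] at h1 ⊢
        intro x
        constructor
        · intro hx
          exact ⟨(h1 x).1 hx.1, K.mul_mem (K.mul_mem hg.2 hx.2) (K.inv_mem hg.2)⟩
        · intro hx
          refine ⟨(h1 x).2 hx.1, ?_⟩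
          have := K.mul_mem (K.mul_mem (K.inv_mem hg.2) hx.2) hg.2
          simpa [mul_assoc] using this
      have hN : IsPiHallOf π (H ⊓ (Kf f ⊓ K)) (Kf f ⊓ K) :=
        hall_inf_normal hM (inf_le_inf_right K (Kf_le_Lb f)) hnorm
      have i : Fin b := ⟨0, by omega⟩
      have hx : ∃ x, f x ≠ i := by
        by_contra hcon
        push Not at hcon
        have h1 : Fintype.card {x // f x = i} = Fintype.card Ω :=
          Fintype.card_congr (Equiv.subtypeUnivEquiv hcon)
        rw [hf, ← hab] at h1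
        have : a * 2 ≤ a * b := Nat.mul_le_mul_left a hb
        omega
      have IHa := IH f i (Kf f ⊓ K) inf_le_left (fun g h1 h2 => ⟨h2, h1⟩) hx hN
      rw [hf] at IHa
      rw [← hab] at h2
      obtain ⟨h3, h4, h5⟩ := nt_imprim ha hb hI (fun p hp hpπ => not_dvd_index hK h hHL hodd hp hpπ) hdvd h2 IHa
      subst h3; subst h4
      right; right; right
      have h8 : Fintype.card Ω = 8 := by omega
      exact ⟨⟨h8, by rw [h8]; exact h5⟩, f, hf, hHL⟩
  · -- intransitive
    have hS : ∃ S : Finset Ω, S ≠ Finset.univ ∧ S ≠ ∅ ∧ H ≤ Kf (fun x => decide (x ∈ S)) := by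
      obtain ⟨x⟩ := hnon
      classical
      refine ⟨Finset.univ.filter (fun y => y ∈ MulAction.orbit H x), ?_, ?_, ?_⟩
      · intro hc
        apply ht
        rw [MulAction.isPretransitive_iff_orbit_eq_univ x]
        ext y
        have : y ∈ Finset.univ.filter (fun y => y ∈ MulAction.orbit H x) := by rw [hc]; simp
        simpa using this
      · intro hc
        have : x ∈ Finset.univ.filter (fun y => y ∈ MulAction.orbit H x) := by simp
        rw [hc] at this
        simp at this
      · intro g hg y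
        simp only [Finset.mem_filter, Finset.mem_univ, true_and]
        congr 1
        rw [eq_iff_iff]
        constructor
        · rintro ⟨k, hk⟩
          refine ⟨(⟨g, hg⟩ : H)⁻¹ * k, ?_⟩
          simp only at hk ⊢
          rw [mul_smul, hk]
          change g⁻¹ (g y) = y
          simp
        · rintro ⟨k, hk⟩
          refine ⟨(⟨g, hg⟩ : H) * k, ?_⟩
          simp only at hk ⊢
          rw [mul_smul, hk]
          rfl
    obtain ⟨S, hS1, hS2, hS3⟩ := hS
    have hcase : ∀ S : Finset Ω, S ≠ Finset.univ → H ≤ Kf (fun x => decide (x ∈ S)) →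
        Fintype.card Ω ≤ 2 * S.card → Str π H := by
      intro S hS1 hS3 hc
      refine intrans hK h hS1 hc hS3 h2 ?_
      have hM : IsPiHallOf π H (Kf (fun x => decide (x ∈ S)) ⊓ K) :=
        hall_le_of_le h (le_inf hS3 h.1) inf_le_right
      have hN : IsPiHallOf π (H ⊓ (Kf (fun x => decide (x ∈ S)) ⊓ K)) (Kf (fun x => decide (x ∈ S)) ⊓ K) := by
        rw [inf_eq_left.2 (le_inf hS3 h.1)]; exact hM
      have hx : ∃ x, (fun x => decide (x ∈ S)) x ≠ true := by
        obtain ⟨x, hx⟩ := not_forall.1 (fun hc => hS1 (Finset.eq_univ_iff_forall.2 hc))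
        exact ⟨x, by simpa using hx⟩
      have := IH (fun x => decide (x ∈ S)) true _ inf_le_left (fun g h1 h2 => ⟨h2, h1⟩) hx hN
      rw [card_fib_add.1] at this
      exact this
    rcases le_total (Fintype.card Ω) (2 * S.card) with hc | hc
    · exact hcase S hS1 hS3 hc
    · refine hcase Sᶜ ?_ ?_ ?_
      · intro he
        rw [Finset.compl_eq_univ_iff] at he
        exact hS2 he
      · intro g hg x
        have := hS3 hg x
        simp only [Finset.mem_compl, decide_not] at this ⊢
        rw [this]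
      · rw [Finset.card_compl]; omega

end CfsgLib.HSn
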