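import Mathlib
import Cfsg.Agent.LibHSn5
import Cfsg.Prelude.Def_HallClasses

/-! Hall subgroups of symmetric groups: conjugacy etc (helper10). -/

set_option autoImplicit false

namespace CfsgLib.HSn

open Nat Equiv Cfsg CfsgLib.BGPi
open scoped Pointwise

universe u v

variable {Ω : Type u} [Fintype Ω] [DecidableEq Ω]

omit [DecidableEq Ω] in
theorem prime_le_of_dvd {H : Subgroup (Perm Ω)} {p : ℕ} (hp : p.Prime) (hd : p ∣ Nat.card H) :
    p ≤ Fintype.card Ω := by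
  classical
  have h1 : Nat.card H ∣ Nat.card (Perm Ω) := Subgroup.card_subgroup_dvd_card H
  rw [Nat.card_perm, (Nat.card_eq_fintype_card : Nat.card Ω = Fintype.card Ω)] at h1
  exact (hp.dvd_factorial).1 (hd.trans h1)

omit [DecidableEq Ω] in
theorem prime_le_of_dvd_relIndex {H K : Subgroup (Perm Ω)} {p : ℕ} (hp : p.Prime) (hd : p ∣ H.relIndex K) :
    p ≤ Fintype.card Ω :=
  prime_le_of_dvd hp (hd.trans (by
    rw [← Subgroup.inf_relIndex_right]
    exact Dvd.intro_left _ (card_mul_relIndex (inf_le_right : H ⊓ K ≤ K))))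

omit [DecidableEq Ω] in
theorem hall_congr {π π' : Set ℕ} {H K : Subgroup (Perm Ω)}
    (h : ∀ q : ℕ, q.Prime → q ≤ Fintype.card Ω → (q ∈ π ↔ q ∈ π')) :
    IsPiHallOf π H K ↔ IsPiHallOf π' H K := by
  constructor
  · rintro ⟨h1, h2, h3⟩
    refine ⟨h1, fun p hp hd => (h p hp (prime_le_of_dvd hp hd)).1 (h2 p hp hd), fun p hp hpπ hd => ?_⟩
    exact h3 p hp ((h p hp (prime_le_of_dvd_relIndex hp hd)).2 hpπ) hd
  · rintro ⟨h1, h2, h3⟩
    refine ⟨h1, fun p hp hd => (h p hp (prime_le_of_dvd hp hd)).2 (h2 p hp hd), fun p hp hpπ hd => ?_⟩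
    exact h3 p hp ((h p hp (prime_le_of_dvd_relIndex hp hd)).1 hpπ) hd

theorem not_two {π : Set ℕ} {n : ℕ} (h : ¬ Two π n) :
    ∃ p, p.Prime ∧ ∀ q : ℕ, q.Prime → q ≤ n → (q ∈ π ↔ q ∈ ({p} : Set ℕ)) := by
  by_cases h1 : ∃ p, p.Prime ∧ p ∈ π ∧ p ≤ n
  · obtain ⟨p, hp, hpπ, hpn⟩ := h1
    refine ⟨p, hp, fun q hq hqn => ⟨fun hqπ => ?_, ?_⟩⟩
    · by_contra hne
      exact h ⟨q, p, hq, hp, hne, hqπ, hpπ, hqn, hpn⟩
    · rintro rfl; exact hpπ
  · push Not at h1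
    obtain ⟨p, hpn, hp⟩ := Nat.exists_infinite_primes (n + 1)
    refine ⟨p, hp, fun q hq hqn => ⟨fun hqπ => ?_, ?_⟩⟩
    · exact absurd hqn (not_le.2 (h1 q hq hqπ))
    · rintro rfl; omega

/-- points -/
theorem card_point (x : Ω) : Nat.card (Kf (fun y => decide (y ∈ ({x} : Finset Ω)))) = (Fintype.card Ω - 1)! := by
  rw [card_stab]; simp

/-- three model subgroups -/
def Model (π : Set ℕ) (L : Subgroup (Perm Ω)) : Prop :=
  (((Fintype.card Ω).Prime ∧ ∀ r : ℕ, r.Prime → r ≤ Fintype.card Ω → (r ∈ π ↔ r < Fintype.card Ω)) ∧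
    ∃ x, L = Kf (fun y => decide (y ∈ ({x} : Finset Ω)))) ∨
  ((Fintype.card Ω = 7 ∧ ∀ r : ℕ, r.Prime → r ≤ Fintype.card Ω → (r ∈ π ↔ (r = 2 ∨ r = 3))) ∧
    ∃ S : Finset Ω, S.card = 4 ∧ L = Kf (fun x => decide (x ∈ S))) ∨
  ((Fintype.card Ω = 8 ∧ ∀ r : ℕ, r.Prime → r ≤ Fintype.card Ω → (r ∈ π ↔ (r = 2 ∨ r = 3))) ∧
    ∃ f : Ω → Fin 2, (∀ i, Fintype.card {x // f x = i} = 4) ∧ L = Lb f)

theorem hall_of_card {π : Set ℕ} {L : Subgroup (Perm Ω)} (h1 : ∀ p, p.Prime → p ∣ Nat.card L → p ∈ π)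
    (h2 : ∀ p, p.Prime → p ∈ π → ¬ p ∣ L.index) : IsPiHallOf π L ⊤ :=
  hall_top.2 ⟨h1, h2⟩

theorem prime_dvd_35 {p : ℕ} (hp : p.Prime) (h : p ∣ 35) : p = 5 ∨ p = 7 := by
  have : p ∣ 5 * 7 := h
  rcases hp.dvd_mul.1 this with h1 | h1
  · exact Or.inl ((Nat.prime_dvd_prime_iff_eq hp (by norm_num)).1 h1)
  · exact Or.inr ((Nat.prime_dvd_prime_iff_eq hp (by norm_num)).1 h1)

theorem Model.hall {π : Set ℕ} {L : Subgroup (Perm Ω)} (h : Model π L) : IsPiHallOf π L ⊤ := by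
  rcases h with ⟨⟨hn, hπ⟩, x, rfl⟩ | ⟨⟨hn, hπ⟩, S, hS, rfl⟩ | ⟨⟨hn, hπ⟩, f, hf, rfl⟩
  · refine hall_of_card (fun p hp hd => ?_) (fun p hp hpπ hd => ?_)
    · rw [card_point, hp.dvd_factorial] at hd
      have := hn.two_le
      exact (hπ p hp (by omega)).2 (by omega)
    · rw [index_stab] at hd
      simp only [Finset.card_singleton, Nat.choose_one_right] at hd
      have : p = Fintype.card Ω := (Nat.prime_dvd_prime_iff_eq hp hn).1 hd
      have := (hπ p hp this.le).1 hpπ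
      omega
  · refine hall_of_card (fun p hp hd => ?_) (fun p hp hpπ hd => ?_)
    · rw [card_stab, hS, hn] at hd
      have h4 : p ≤ 4 := by
        rcases hp.dvd_mul.1 hd with h | h
        · exact (hp.dvd_factorial).1 h
        · exact ((hp.dvd_factorial).1 h).trans (by norm_num)
      refine (hπ p hp (by omega)).2 ?_
      have := hp.two_le
      by_contra hc
      have : p = 4 := by omega
      subst this; revert hp; norm_num
    · rw [index_stab, hS, hn] at hd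
      have h35 : p = 5 ∨ p = 7 := prime_dvd_35 hp hd
      have := (hπ p hp (by omega)).1 hpπ
      omega
  · refine hall_of_card (fun p hp hd => ?_) (fun p hp hpπ hd => ?_)
    · rw [card_Lb (by norm_num) hf, Fintype.card_fin] at hd
      have h4 : p ≤ 4 := by
        rcases hp.dvd_mul.1 hd with h | h
        · exact ((hp.dvd_factorial).1 h).trans (by norm_num)
        · exact (hp.dvd_factorial).1 (hp.dvd_of_dvd_pow h)
      refine (hπ p hp (by omega)).2 ?_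
      have := hp.two_le
      by_contra hc
      have : p = 4 := by omega
      subst this; revert hp; norm_num
    · have h1 := index_Lb (f := f) (a := 4) (by norm_num) hf
      rw [hn, Fintype.card_fin] at h1
      have h2 : (Lb f).index = 35 := by
        have : (Lb f).index * 1152 = 35 * 1152 := h1
        omega
      rw [h2] at hd
      have h35 : p = 5 ∨ p = 7 := prime_dvd_35 hp hd
      have := (hπ p hp (by omega)).1 hpπ
      omega

theorem Model.odd {π : Set ℕ} {L : Subgroup (Perm Ω)} (h : Model π L) (h3 : 3 ≤ Fintype.card Ω) :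
    ∃ g ∈ L, Perm.sign g = -1 := by
  have key : ∀ {ι : Type} [DecidableEq ι] (f : Ω → ι) (x y : Ω), x ≠ y → f x = f y →
      ∃ g ∈ Kf f, Perm.sign g = -1 := by
    intro ι _ f x y hxy hf
    refine ⟨swap x y, fun z => ?_, Perm.sign_swap hxy⟩
    by_cases hzx : z = x
    · subst hzx; rw [swap_apply_left, hf]
    · by_cases hzy : z = y
      · subst hzy; rw [swap_apply_right, hf]
      · rw [swap_apply_of_ne_of_ne hzx hzy]
  rcases h with ⟨⟨hn, hπ⟩, x, rfl⟩ | ⟨⟨hn, hπ⟩, S, hS, rfl⟩ | ⟨⟨hn, hπ⟩, f, hf, rfl⟩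
  · have : 1 < (({x} : Finset Ω)ᶜ).card := by rw [Finset.card_compl, Finset.card_singleton]; omega
    obtain ⟨a, ha, b, hb, hab⟩ := Finset.one_lt_card.1 this
    refine key _ a b hab ?_
    simp at ha hb
    simp [ha, hb]
  · obtain ⟨a, ha, b, hb, hab⟩ := Finset.one_lt_card.1 (show 1 < S.card by omega)
    exact key _ a b hab (by simp [ha, hb])
  · obtain ⟨x, y, hxy⟩ := Fintype.exists_pair_of_one_lt_card (α := {x // f x = 0}) (by rw [hf]; norm_num)
    obtain ⟨g, hg, hs⟩ := key f x y (fun hc => hxy (Subtype.ext hc)) (by rw [x.2, y.2])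
    exact ⟨g, Kf_le_Lb f hg, hs⟩

/-- the structure of Hall subgroups when at least two primes of `π`, but not all, are `≤ n` -/
theorem exists_model {π : Set ℕ} {K H : Subgroup (Perm Ω)} (hK : alternatingGroup Ω ≤ K)
    (h : IsPiHallOf π H K) (h2 : Two π (Fintype.card Ω)) (hns : ∃ p, p.Prime ∧ p ≤ Fintype.card Ω ∧ p ∉ π) :
    ∃ L, Model π L ∧ H = L ⊓ K := by
  have hc := classification π _ Ω rfl K H hK h h2
  have key : ∀ L, Model π L → H ≤ L → ∃ L, Model π L ∧ H = L ⊓ K := fun L hL hHL =>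
    ⟨L, hL, hall_eq_of_le h ((hall_isPi hL.hall).le inf_le_left) inf_le_right (le_inf hHL h.1)⟩
  rcases hc with hc | ⟨hc, x, hx⟩ | ⟨hc, S, hS, hS2⟩ | ⟨hc, f, hf, hf2⟩
  · obtain ⟨p, hp, hpn, hpπ⟩ := hns
    exact absurd (hc p hp hpn) hpπ
  · refine key _ (Or.inl ⟨hc, x, rfl⟩) (fun g hg y => ?_)
    have h1 := hx g hg
    simp only [Finset.mem_singleton]
    congr 1
    rw [eq_iff_iff]
    constructor
    · intro h2
      rw [← h1] at h2
      exact g.injective h2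
    · rintro rfl; exact h1
  · exact key _ (Or.inr (Or.inl ⟨hc, S, hS, rfl⟩)) hS2
  · exact key _ (Or.inr (Or.inr ⟨hc, f, hf, rfl⟩)) hf2

omit [Fintype Ω] [DecidableEq Ω] in
theorem conj_Kf {ι : Type v} {f f' : Ω → ι} {g : Perm Ω} (h : ∀ x, f' (g x) = f x) : Kf f' = (Kf f) ^ᵍ g := by
  ext x
  rw [mem_cj, mem_Kf, mem_Kf]
  constructor
  · intro hx y
    rw [← h, Perm.mul_apply, Perm.mul_apply, ais, hx, h]
  · intro hx y
    have := hx (g⁻¹ y)
    rw [← h, ← h (g⁻¹ y), Perm.mul_apply, Perm.mul_apply, ais, ais] at this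
    exact this

omit [Fintype Ω] [DecidableEq Ω] in
theorem conj_Lb {ι : Type v} {f f' : Ω → ι} {g : Perm Ω} (h : ∀ x, f' (g x) = f x) : Lb f' = (Lb f) ^ᵍ g := by
  ext x
  rw [mem_cj, mem_Lb, mem_Lb]
  constructor
  · rintro ⟨σ, hσ⟩
    refine ⟨σ, fun y => ?_⟩
    rw [← h, Perm.mul_apply, Perm.mul_apply, ais, hσ, h]
  · rintro ⟨σ, hσ⟩
    refine ⟨σ, fun y => ?_⟩
    have := hσ (g⁻¹ y)
    rw [← h, ← h (g⁻¹ y), Perm.mul_apply, Perm.mul_apply, ais, ais] at this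
    exact this

theorem exists_transport {ι : Type v} [DecidableEq ι] (f f' : Ω → ι)
    (h : ∀ i, Fintype.card {x // f x = i} = Fintype.card {x // f' x = i}) : ∃ g : Perm Ω, ∀ x, f' (g x) = f x := by
  have he : ∀ i, Nonempty ({x // f x = i} ≃ {x // f' x = i}) := fun i => ⟨Fintype.equivOfCardEq (h i)⟩
  let e : ∀ i, {x // f x = i} ≃ {x // f' x = i} := fun i => Classical.choice (he i)
  refine ⟨((Equiv.sigmaFiberEquiv f).symm.trans (Equiv.sigmaCongrRight e)).trans (Equiv.sigmaFiberEquiv f'), fun x => ?_⟩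
  exact (e (f x) ⟨x, rfl⟩).2

theorem Model.conj {π : Set ℕ} {L L' : Subgroup (Perm Ω)} (h : Model π L) (h' : Model π L')
    (h3 : 3 ≤ Fintype.card Ω) :
    ∃ g ∈ alternatingGroup Ω, L' = L ^ᵍ g := by
  have h1 : ∃ g : Perm Ω, L' = L ^ᵍ g := by
    rcases h with ⟨⟨hn, hπ⟩, x, rfl⟩ | ⟨⟨hn, hπ⟩, S, hS, rfl⟩ | ⟨⟨hn, hπ⟩, f, hf, rfl⟩
    · rcases h' with ⟨_, x', rfl⟩ | ⟨⟨hn', hπ'⟩, S', hS', rfl⟩ | ⟨⟨hn', hπ'⟩, f', hf', rfl⟩
      · obtain ⟨g, hg⟩ := exists_transport (fun y => decide (y ∈ ({x} : Finset Ω)))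
          (fun y => decide (y ∈ ({x'} : Finset Ω))) (by
            intro i
            cases i
            · rw [card_fib_add.2, card_fib_add.2]; simp
            · rw [card_fib_add.1, card_fib_add.1]; simp)
        exact ⟨g, conj_Kf hg⟩
      · have h5 := (hπ 5 (by norm_num) (by omega)).2 (by omega)
        have := (hπ' 5 (by norm_num) (by omega)).1 h5
        omega
      · rw [hn'] at hn; revert hn; norm_num
    · rcases h' with ⟨⟨hn', hπ'⟩, x', rfl⟩ | ⟨⟨hn', hπ'⟩, S', hS', rfl⟩ | ⟨⟨hn', hπ'⟩, f', hf', rfl⟩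
      · have h5 := (hπ' 5 (by norm_num) (by omega)).2 (by omega)
        have := (hπ 5 (by norm_num) (by omega)).1 h5
        omega
      · obtain ⟨g, hg⟩ := exists_transport (fun y => decide (y ∈ S))
          (fun y => decide (y ∈ S')) (by
            intro i
            cases i
            · rw [card_fib_add.2, card_fib_add.2, hS, hS']
            · rw [card_fib_add.1, card_fib_add.1, hS, hS'])
        exact ⟨g, conj_Kf hg⟩
      · omega
    · rcases h' with ⟨⟨hn', hπ'⟩, x', rfl⟩ | ⟨⟨hn', hπ'⟩, S', hS', rfl⟩ | ⟨⟨hn', hπ'⟩, f', hf', rfl⟩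
      · rw [hn] at hn'; revert hn'; norm_num
      · omega
      · obtain ⟨g, hg⟩ := exists_transport f f' (fun i => by rw [hf, hf'])
        exact ⟨g, conj_Lb hg⟩
  obtain ⟨g, hg⟩ := h1
  rcases Int.units_eq_one_or (Perm.sign g) with hs | hs
  · exact ⟨g, Perm.mem_alternatingGroup.2 hs, hg⟩
  · obtain ⟨l, hl, hls⟩ := h.odd h3
    refine ⟨g * l, Perm.mem_alternatingGroup.2 (by rw [Perm.sign_mul, hs, hls]; norm_num), ?_⟩
    rw [hg]
    ext x
    rw [mem_cj, mem_cj]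
    have e : (g * l)⁻¹ * x * (g * l) = l⁻¹ * (g⁻¹ * x * g) * l := by group
    rw [e]
    constructor
    · intro hx; exact L.mul_mem (L.mul_mem (L.inv_mem hl) hx) hl
    · intro hx
      have := L.mul_mem (L.mul_mem hl hx) (L.inv_mem hl)
      simpa [mul_assoc] using this

theorem all_eq {π : Set ℕ} {K H : Subgroup (Perm Ω)} (h : IsPiHallOf π H K)
    (hall : ∀ p, p.Prime → p ≤ Fintype.card Ω → p ∈ π) : H = K :=
  hall_eq_of_le h (fun p hp hd => hall p hp (prime_le_of_dvd hp hd)) le_rfl h.1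

/-- conjugacy of Hall subgroups -/
theorem hall_conj {π : Set ℕ} {K H H' : Subgroup (Perm Ω)} (hK : alternatingGroup Ω ≤ K)
    (h : IsPiHallOf π H K) (h' : IsPiHallOf π H' K) : ∃ g ∈ K, H' = H ^ᵍ g := by
  by_cases h2 : Two π (Fintype.card Ω)
  · by_cases hns : ∃ p, p.Prime ∧ p ≤ Fintype.card Ω ∧ p ∉ π
    · obtain ⟨L, hL, rfl⟩ := exists_model hK h h2 hns
      obtain ⟨L', hL', rfl⟩ := exists_model hK h' h2 hns
      obtain ⟨g, hg, rfl⟩ := hL.conj hL' (three_le h2)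
      refine ⟨g, hK hg, ?_⟩
      ext x
      rw [mem_cj, Subgroup.mem_inf, Subgroup.mem_inf, mem_cj]
      have hgK := hK hg
      constructor
      · rintro ⟨h1, h2⟩
        exact ⟨h1, K.mul_mem (K.mul_mem (K.inv_mem hgK) h2) hgK⟩
      · rintro ⟨h1, h2⟩
        refine ⟨h1, ?_⟩
        have := K.mul_mem (K.mul_mem hgK h2) (K.inv_mem hgK)
        simpa [mul_assoc] using this
    · push Not at hns
      refine ⟨1, K.one_mem, ?_⟩
      rw [all_eq h hns, all_eq h' hns]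
      ext x; rw [mem_cj]; simp
  · obtain ⟨p, hp, hpp⟩ := not_two h2
    rw [hall_congr hpp] at h h'
    obtain ⟨m, hm, e⟩ := syl_conj hp h h'
    exact ⟨m, hm, e.symm⟩

/-- Hall subgroups of the alternating group extend -/
theorem hall_extend {π : Set ℕ} {H : Subgroup (Perm Ω)} (h : IsPiHallOf π H (alternatingGroup Ω)) :
    ∃ L, IsPiHallOf π L ⊤ ∧ H = L ⊓ alternatingGroup Ω := by
  by_cases h2 : Two π (Fintype.card Ω)
  · by_cases hns : ∃ p, p.Prime ∧ p ≤ Fintype.card Ω ∧ p ∉ π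
    · obtain ⟨L, hL, hH⟩ := exists_model le_rfl h h2 hns
      exact ⟨L, hL.hall, hH⟩
    · push Not at hns
      refine ⟨⊤, hall_self (fun p hp hd => hns p hp (prime_le_of_dvd hp hd)), ?_⟩
      rw [top_inf_eq]
      exact all_eq h hns
  · obtain ⟨p, hp, hpp⟩ := not_two h2
    have h' := (hall_congr hpp).1 h
    obtain ⟨S, hS, hle⟩ := exists_syl_ge hp h'.2.1 (le_top : H ≤ ⊤)
    refine ⟨S, (hall_congr hpp).2 hS, ?_⟩
    have hn : (⊤ : Subgroup (Perm Ω)) ≤ 𝓝(alternatingGroup Ω) := by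
      rw [Subgroup.normalizer_eq_top]
    exact hall_eq_of_le h' ((hall_isPi hS).le inf_le_left) inf_le_right (le_inf hle h'.1)

theorem hall_inf_alt {π : Set ℕ} {L : Subgroup (Perm Ω)} (h : IsPiHallOf π L ⊤) :
    IsPiHallOf π (L ⊓ alternatingGroup Ω) (alternatingGroup Ω) := by
  refine hall_inf_normal h le_top ?_
  rw [Subgroup.normalizer_eq_top]

/-! ### the statements -/

theorem s2538 (n : ℕ) (π : Set ℕ)
    (M : Subgroup ↥(alternatingGroup (Fin n))) :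
    Cfsg.IsPiHall π M ↔ ∃ M₀ : Subgroup (Equiv.Perm (Fin n)), Cfsg.IsPiHall π M₀ ∧ M = M₀.subgroupOf (alternatingGroup (Fin n)) := by
  rw [← hall_subtype]
  constructor
  · intro h
    obtain ⟨L, hL, hM⟩ := hall_extend h
    refine ⟨L, hall_top.1 hL, ?_⟩
    have h1 : (M.map (alternatingGroup (Fin n)).subtype).subgroupOf (alternatingGroup (Fin n)) = M :=
      Subgroup.comap_map_eq_self_of_injective (alternatingGroup (Fin n)).subtype_injective M
    rw [← h1, hM, Subgroup.inf_subgroupOf_right]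
  · rintro ⟨L, hL, rfl⟩
    rw [Subgroup.subgroupOf_map_subtype]
    exact hall_inf_alt (hall_top.2 hL)

theorem e_iff (n : ℕ) (π : Set ℕ) :
    Cfsg.IsEPiGroup π (Equiv.Perm (Fin n)) ↔ Cfsg.IsEPiGroup π ↥(alternatingGroup (Fin n)) := by
  constructor
  · rintro ⟨H, hH⟩
    exact ⟨_, (s2538 n π _).2 ⟨H, hH, rfl⟩⟩
  · rintro ⟨M, hM⟩
    obtain ⟨L, hL, _⟩ := (s2538 n π M).1 hM
    exact ⟨L, hL⟩

theorem s2535 (n : ℕ) (π : Set ℕ) :
    (Cfsg.IsEPiGroup π (Equiv.Perm (Fin n)) ↔ Cfsg.IsCPiGroup π (Equiv.Perm (Fin n))) ∧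
    (Cfsg.IsEPiGroup π (Equiv.Perm (Fin n)) ↔ Cfsg.IsEPiGroup π ↥(alternatingGroup (Fin n))) ∧
    (Cfsg.IsEPiGroup π ↥(alternatingGroup (Fin n)) ↔ Cfsg.IsCPiGroup π ↥(alternatingGroup (Fin n))) := by
  refine ⟨⟨fun h => ⟨h, fun H K hH hK => ?_⟩, fun h => h.1⟩, e_iff n π, ⟨fun h => ⟨h, fun H K hH hK => ?_⟩, fun h => h.1⟩⟩
  · obtain ⟨g, _, hg⟩ := hall_conj le_top (hall_top.2 hH) (hall_top.2 hK)
    exact ⟨g, hg⟩
  · obtain ⟨g, hg, he⟩ := hall_conj le_rfl (hall_subtype.2 hH) (hall_subtype.2 hK)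
    refine ⟨⟨g, hg⟩, ?_⟩
    have h1 : ∀ M : Subgroup ↥(alternatingGroup (Fin n)),
        (M.map (alternatingGroup (Fin n)).subtype).subgroupOf (alternatingGroup (Fin n)) = M :=
      fun M => Subgroup.comap_map_eq_self_of_injective (alternatingGroup (Fin n)).subtype_injective M
    rw [← h1 K, he]
    ext x
    rw [Subgroup.mem_subgroupOf, mem_cj, mem_cj]
    constructor
    · rintro ⟨y, hy, hyx⟩
      have : y = (⟨g, hg⟩ : alternatingGroup (Fin n))⁻¹ * x * ⟨g, hg⟩ := Subtype.ext hyx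
      rw [← this]; exact hy
    · intro hx
      exact ⟨_, hx, rfl⟩

theorem s2536 (n : ℕ) (π : Set ℕ)
    (h2 : ∃ r s : ℕ, r.Prime ∧ s.Prime ∧ r ≠ s ∧ r ∈ π ∧ s ∈ π ∧ r ≤ n ∧ s ≤ n)
    (hns : ∃ r : ℕ, r.Prime ∧ r ≤ n ∧ r ∉ π) :
    Cfsg.IsEPiGroup π (Equiv.Perm (Fin n)) ↔
      ((n.Prime ∧ ∀ r : ℕ, r.Prime → r ≤ n → (r ∈ π ↔ r < n)) ∨
       ((n = 7 ∨ n = 8) ∧ ∀ r : ℕ, r.Prime → r ≤ n → (r ∈ π ↔ (r = 2 ∨ r = 3)))) := by
  have hcard : Fintype.card (Fin n) = n := Fintype.card_fin n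
  constructor
  · rintro ⟨H, hH⟩
    have h1 := classification π n (Fin n) hcard ⊤ H le_top (hall_top.2 hH) h2
    have h3 := h1.concl
    rw [hcard] at h3
    rcases h3 with h3 | h3 | h3
    · obtain ⟨r, hr, hrn, hrπ⟩ := hns
      exact absurd (h3 r hr hrn) hrπ
    · exact Or.inl h3
    · exact Or.inr h3
  · intro h
    have hM : ∃ L : Subgroup (Perm (Fin n)), Model π L := by
      rcases h with h | ⟨rfl | rfl, h⟩
      · have := h.1.two_le
        exact ⟨_, Or.inl ⟨by rw [hcard]; exact h, ⟨0, by omega⟩, rfl⟩⟩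
      · exact ⟨_, Or.inr (Or.inl ⟨⟨by simp, by rw [hcard]; exact h⟩, {0, 1, 2, 3}, by decide, rfl⟩)⟩
      · refine ⟨_, Or.inr (Or.inr ⟨⟨by simp, by rw [hcard]; exact h⟩,
          fun x => if x.val < 4 then 0 else 1, ?_, rfl⟩)⟩
        decide
    obtain ⟨L, hL⟩ := hM
    exact ⟨L, hall_top.1 hL.hall⟩

end CfsgLib.HSn
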