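import Mathlib
import Cfsg.Agent.LibHSn6

/-! `D_π` for alternating groups (helper10). -/

set_option autoImplicit false

namespace CfsgLib.HSn

open Nat Equiv Cfsg CfsgLib.BGPi
open scoped Pointwise

universe u v

/-- consequences of `D_π` -/
theorem dpi_hall {G : Type u} [Group G] [Finite G] {π : Set ℕ} (hD : IsDPiGroup π G) {U : Subgroup G}
    (hU : IsPiSubgroup π U) : ∃ H : Subgroup G, IsPiHall π H ∧ U ≤ H := by
  have hmax : ∀ U : Subgroup G, IsPiSubgroup π U → ∃ H, Maximal (IsPiSubgroup π) H ∧ U ≤ H := by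
    intro U hU
    have hfin : Set.Finite {H : Subgroup G | IsPiSubgroup π H} := Set.toFinite _
    obtain ⟨H, h1, h2⟩ := hfin.exists_le_maximal hU
    exact ⟨H, h2, h1⟩
  obtain ⟨H, hH, hUH⟩ := hmax U hU
  refine ⟨H, ⟨hH.1, fun p hp hpπ hd => ?_⟩, hUH⟩
  have := Fact.mk hp
  obtain ⟨P⟩ : Nonempty (Sylow p G) := inferInstance
  have hP : IsPiSubgroup π (P : Subgroup G) := by
    intro q hq hqd
    obtain ⟨k, hk⟩ := (IsPGroup.iff_card).1 P.2
    rw [hk] at hqd
    have := (Nat.prime_dvd_prime_iff_eq hq hp).1 (hq.dvd_of_dvd_pow hqd)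
    rw [this]; exact hpπ
  obtain ⟨H', hH', hPH'⟩ := hmax _ hP
  obtain ⟨g, hg⟩ := hD H' H hH' hH
  have hc : Nat.card H = Nat.card H' := by
    rw [hg]
    exact Nat.card_congr (H'.equivMapOfInjective _ (MulAut.conj g).injective).symm.toEquiv
  have h1 : H'.index = H.index := by
    have e1 := Subgroup.card_mul_index H
    have e2 := Subgroup.card_mul_index H'
    rw [← hc] at e2
    exact Nat.eq_of_mul_eq_mul_left (card_pos' H) (e2.trans e1.symm)
  have h2 : H'.index ∣ (P : Subgroup G).index := Subgroup.index_dvd_of_le hPH'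
  rw [← h1] at hd
  exact P.not_dvd_index (hd.trans h2)

variable {Ω : Type u} [Fintype Ω] [DecidableEq Ω]

theorem prime_dvd_alt (hn : 4 ≤ Fintype.card Ω) {p : ℕ} (hp : p.Prime) :
    p ∣ Nat.card (alternatingGroup Ω) ↔ p ≤ Fintype.card Ω := by
  refine ⟨prime_le_of_dvd hp, fun hpn => ?_⟩
  have : Nontrivial Ω := Fintype.one_lt_card_iff_nontrivial.1 (by omega)
  have h5 := two_mul_nat_card_alternatingGroup (α := Ω)
  rw [Nat.card_perm, (Nat.card_eq_fintype_card : Nat.card Ω = Fintype.card Ω)] at h5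
  rcases Nat.eq_or_lt_of_le hp.two_le with hp2 | hp2
  · have h6 : 4 ! ∣ (Fintype.card Ω)! := Nat.factorial_dvd_factorial (by omega)
    rw [← h5] at h6
    rw [← hp2]
    have h7 : 4 ! = 2 * 12 := rfl
    rw [h7] at h6
    have := Nat.dvd_of_mul_dvd_mul_left (by norm_num) h6
    exact (show 2 ∣ 12 by norm_num).trans this
  · have h6 : p ∣ (Fintype.card Ω)! := (hp.dvd_factorial).2 hpn
    rw [← h5] at h6
    exact (Nat.Coprime.dvd_mul_left ((Nat.coprime_primes hp Nat.prime_two).2 (by omega))).1 h6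

/-- an alternating group of degree four acting on six points -/
theorem exists_U (hn : 6 ≤ Fintype.card Ω) : ∃ (U : Subgroup (Perm Ω)) (T : Finset Ω), U ≤ alternatingGroup Ω ∧
    T.card = 6 ∧ (∀ u ∈ U, ∀ x, x ∉ T → u x = x) ∧ (∀ x ∈ T, ∀ y ∈ T, ∃ u ∈ U, u x = y) ∧ Nat.card U ∣ 12 := by
  let G0 := alternatingGroup (Fin 4)
  let d : G0 := ⟨swap 0 1 * swap 2 3, by
    rw [Perm.mem_alternatingGroup]; decide⟩
  have hd : orderOf d = 2 := by
    apply orderOf_eq_prime
    · decide
    · decide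
  let H0 : Subgroup G0 := Subgroup.zpowers d
  have hG0 : Nat.card G0 = 12 := by
    rw [Nat.card_eq_fintype_card]; decide
  have hX : Nat.card (G0 ⧸ H0) = 6 := by
    have h1 := Subgroup.card_eq_card_quotient_mul_card_subgroup H0
    rw [hG0, Nat.card_zpowers, hd] at h1
    omega
  have : Fintype (G0 ⧸ H0) := Fintype.ofFinite _
  classical
  obtain ⟨T, _, hT⟩ := Finset.exists_subset_card_eq (s := (Finset.univ : Finset Ω)) (n := 6)
    (by rw [Finset.card_univ]; exact hn)
  have e : (G0 ⧸ H0) ≃ {x // x ∈ T} := Fintype.equivOfCardEq (by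
    rw [← Nat.card_eq_fintype_card, hX]; simp [hT])
  let ph : G0 →* Perm Ω := (Perm.extendDomainHom e).comp (MulAction.toPermHom G0 (G0 ⧸ H0))
  have hph : ∀ g, ph g = (MulAction.toPermHom G0 (G0 ⧸ H0) g).extendDomain e := fun g => rfl
  refine ⟨ph.range, T, ?_, hT, ?_, ?_, ?_⟩
  · rintro _ ⟨g, rfl⟩
    have key : ∀ g : G0, ∃ a b : G0, a ^ 3 = 1 ∧ b ^ 3 = 1 ∧ g = a * b := by decide +kernel
    obtain ⟨a, b, ha, hb, rfl⟩ := key g
    have h3 : ∀ a : G0, a ^ 3 = 1 → Perm.sign (ph a) = 1 := by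
      intro a ha
      have h1 : Perm.sign (ph a) ^ 3 = 1 := by rw [← map_pow, ← map_pow, ha, map_one, map_one]
      rcases Int.units_eq_one_or (Perm.sign (ph a)) with h | h
      · exact h
      · rw [h] at h1
        exact absurd h1 (by decide)
    rw [Perm.mem_alternatingGroup, map_mul, map_mul, h3 a ha, h3 b hb, one_mul]
  · rintro _ ⟨g, rfl⟩ x hx
    rw [hph]
    exact Perm.extendDomain_apply_not_subtype _ e hx
  · intro x hx y hy
    obtain ⟨g, hg⟩ := MulAction.exists_smul_eq G0 (e.symm ⟨x, hx⟩) (e.symm ⟨y, hy⟩)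
    refine ⟨ph g, ⟨g, rfl⟩, ?_⟩
    rw [hph, Perm.extendDomain_apply_subtype _ e hx]
    change ((e (g • (e.symm ⟨x, hx⟩)) : {x // x ∈ T}) : Ω) = y
    rw [hg, Equiv.apply_symm_apply]
  · rw [← hG0]
    exact Subgroup.card_range_dvd ph

/-- not every `π`-subgroup lies in a Hall subgroup -/
theorem exists_bad {π : Set ℕ} (hn : 5 ≤ Fintype.card Ω)
    {L₀ : Subgroup (Perm Ω)} (h₀ : Model π L₀) :
    ∃ U : Subgroup (Perm Ω), U ≤ alternatingGroup Ω ∧ IsPi π U ∧ ∀ L, Model π L → ¬ U ≤ L := by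
  rcases h₀ with ⟨⟨hp, hπ⟩, _, _⟩ | h₀
  · obtain ⟨T, _, hT⟩ := Finset.exists_subset_card_eq (s := (Finset.univ : Finset Ω)) (n := 3)
      (by rw [Finset.card_univ]; omega)
    refine ⟨Kf (fun x => decide (x ∈ T)) ⊓ alternatingGroup Ω, inf_le_right, ?_, ?_⟩
    · intro p hpp hd
      have h1 := hd.trans (Subgroup.card_dvd_of_le (inf_le_left : Kf (fun x => decide (x ∈ T)) ⊓ alternatingGroup Ω ≤ _))
      rw [card_stab, hT] at h1
      have h2 : p < Fintype.card Ω := by
        rcases hpp.dvd_mul.1 h1 with h | h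
        · have := (hpp.dvd_factorial).1 h; omega
        · have := (hpp.dvd_factorial).1 h; omega
      exact (hπ p hpp h2.le).2 h2
    · rintro L (⟨_, x, rfl⟩ | ⟨⟨hn7, hπ7⟩, S, hS, rfl⟩ | ⟨⟨hn8, hπ8⟩, f, hf, rfl⟩) hUL
      · -- a moving element
        have hx : ∃ x' a b, x' ≠ x ∧ a ≠ b ∧ (x' ∈ T ↔ x ∈ T) ∧ (a ∈ T ↔ x ∉ T) ∧ (b ∈ T ↔ x ∉ T) := by
          have hTc : (Tᶜ : Finset Ω).card = Fintype.card Ω - 3 := by rw [Finset.card_compl, hT]
          by_cases hxT : x ∈ T
          · obtain ⟨x', hx', hne⟩ := Finset.exists_mem_ne (show 1 < T.card by omega) x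
            obtain ⟨a, ha, b, hb, hab⟩ := Finset.one_lt_card.1 (show 1 < (Tᶜ : Finset Ω).card by omega)
            rw [Finset.mem_compl] at ha hb
            exact ⟨x', a, b, hne, hab, by simp [hx', hxT], by simp [ha, hxT], by simp [hb, hxT]⟩
          · obtain ⟨x', hx', hne⟩ := Finset.exists_mem_ne (show 1 < (Tᶜ : Finset Ω).card by omega) x
            obtain ⟨a, ha, b, hb, hab⟩ := Finset.one_lt_card.1 (show 1 < T.card by omega)
            rw [Finset.mem_compl] at hx'
            exact ⟨x', a, b, hne, hab, by simp [hx', hxT], by simp [ha, hxT], by simp [hb, hxT]⟩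
        obtain ⟨x', a, b, hne, hab, h1, h2, h3⟩ := hx
        have hsw : ∀ y z : Ω, (y ∈ T ↔ z ∈ T) → swap y z ∈ Kf (fun x => decide (x ∈ T)) := by
          intro y z hyz w
          by_cases hzx : w = y
          · subst hzx; rw [swap_apply_left]; simp [hyz]
          · by_cases hzy : w = z
            · subst hzy; rw [swap_apply_right]; simp [hyz]
            · rw [swap_apply_of_ne_of_ne hzx hzy]
        have hu : swap x x' * swap a b ∈ Kf (fun x => decide (x ∈ T)) ⊓ alternatingGroup Ω := by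
          refine ⟨(Kf _).mul_mem (hsw _ _ h1.symm) (hsw _ _ (h2.trans h3.symm)), ?_⟩
          change swap x x' * swap a b ∈ alternatingGroup Ω
          rw [Perm.mem_alternatingGroup, Perm.sign_mul, Perm.sign_swap hne.symm, Perm.sign_swap hab]; norm_num
        have h4 := hUL hu x
        have hxa : x ≠ a := by rintro rfl; tauto
        have hxb : x ≠ b := by rintro rfl; tauto
        rw [Perm.mul_apply, swap_apply_of_ne_of_ne hxa hxb, swap_apply_left] at h4
        simp only [Finset.mem_singleton, decide_true, decide_eq_true_eq] at h4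
        exact hne h4
      · have h5 := (hπ 5 (by norm_num) (by omega)).2 (by omega)
        have := (hπ7 5 (by norm_num) (by omega)).1 h5
        omega
      · rw [hn8] at hp; revert hp; norm_num
  · have hn6 : 7 ≤ Fintype.card Ω ∧ Fintype.card Ω ≤ 8 ∧
        ∀ r : ℕ, r.Prime → r ≤ Fintype.card Ω → (r ∈ π ↔ (r = 2 ∨ r = 3)) := by
      rcases h₀ with ⟨⟨h1, h2⟩, _⟩ | ⟨⟨h1, h2⟩, _⟩
      · exact ⟨by omega, by omega, h2⟩
      · exact ⟨by omega, by omega, h2⟩
    obtain ⟨U, T, hUA, hT, hfix, htr, hcard⟩ := exists_U (Ω := Ω) (by omega)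
    refine ⟨U, hUA, ?_, ?_⟩
    · intro p hp hd
      have h12 : p ∣ 2 ^ 2 * 3 := hd.trans hcard
      have h23 : p = 2 ∨ p = 3 := by
        rcases hp.dvd_mul.1 h12 with h | h
        · exact Or.inl ((Nat.prime_dvd_prime_iff_eq hp (by norm_num)).1 (hp.dvd_of_dvd_pow h))
        · exact Or.inr ((Nat.prime_dvd_prime_iff_eq hp (by norm_num)).1 h)
      exact (hn6.2.2 p hp (by omega)).2 h23
    · have hTne : T.Nonempty := Finset.card_pos.1 (by omega)
      obtain ⟨t, ht⟩ := hTne
      have hfib : ∀ {ι : Type} [DecidableEq ι] (f : Ω → ι), U ≤ Kf f → 6 ≤ Fintype.card {x // f x = f t} := by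
        intro ι _ f hU
        rw [← hT, ← Fintype.card_coe]
        refine Fintype.card_le_of_injective (fun y => ⟨y.1, ?_⟩) ?_
        · obtain ⟨u, hu, hut⟩ := htr t ht y y.2
          rw [← hut]; exact hU hu t
        · intro y z hyz
          exact Subtype.ext (by simpa using hyz)
      rintro L (⟨⟨hp, hπ⟩, x, rfl⟩ | ⟨⟨hn7, hπ7⟩, S, hS, rfl⟩ | ⟨⟨hn8, hπ8⟩, f, hf, rfl⟩) hUL
      · have h5 := (hπ 5 (by norm_num) (by omega)).2 (by omega)
        have := (hn6.2.2 5 (by norm_num) (by omega)).1 h5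
        omega
      · have h6 : 6 ≤ Fintype.card {x // decide (x ∈ S) = decide (t ∈ S)} := hfib _ hUL
        cases h7 : decide (t ∈ S)
        · rw [h7, card_fib_add.2] at h6; omega
        · rw [h7, card_fib_add.1] at h6; omega
      · have h7 : U ≤ Kf f := by
          intro u hu
          obtain ⟨σ, hσ⟩ := hUL hu
          obtain ⟨z, hz⟩ : ∃ z, z ∉ T := by
            by_contra hcon
            push Not at hcon
            have := Finset.eq_univ_iff_forall.2 hcon
            rw [this, Finset.card_univ] at hT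
            omega
          have h8 := hσ z
          rw [hfix u hu z hz] at h8
          have h9 : ∀ (σ : Perm (Fin 2)) (i : Fin 2), i = σ i → ∀ j, σ j = j := by decide
          intro x
          rw [hσ x, h9 σ _ h8]
        have h6 := hfib _ h7
        rw [hf] at h6
        omega

theorem s2534 (n : ℕ) (hn : 5 ≤ n) (π : Set ℕ) :
    Cfsg.IsDPiGroup π ↥(alternatingGroup (Fin n)) ↔
      ((∀ r s : ℕ, r.Prime → s.Prime → r ∈ π → s ∈ π → r ∣ Nat.card ↥(alternatingGroup (Fin n)) → s ∣ Nat.card ↥(alternatingGroup (Fin n)) → r = s) ∨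
        ∀ r : ℕ, r.Prime → r ∣ Nat.card ↥(alternatingGroup (Fin n)) → r ∈ π) := by
  have hcard : Fintype.card (Fin n) = n := Fintype.card_fin n
  have hdv : ∀ p : ℕ, p.Prime → (p ∣ Nat.card ↥(alternatingGroup (Fin n)) ↔ p ≤ n) := by
    intro p hp
    rw [prime_dvd_alt (by rw [hcard]; omega) hp, hcard]
  constructor
  · intro hD
    by_contra hcon
    push Not at hcon
    obtain ⟨⟨r, s, hr, hs, hrπ, hsπ, hrd, hsd, hrs⟩, t, ht, htd, htπ⟩ := hcon
    have h2 : Two π (Fintype.card (Fin n)) := by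
      rw [hcard]
      exact ⟨r, s, hr, hs, hrs, hrπ, hsπ, (hdv r hr).1 hrd, (hdv s hs).1 hsd⟩
    have hns : ∃ p, p.Prime ∧ p ≤ Fintype.card (Fin n) ∧ p ∉ π := ⟨t, ht, by rw [hcard]; exact (hdv t ht).1 htd, htπ⟩
    have key : ∀ U : Subgroup (Perm (Fin n)), U ≤ alternatingGroup (Fin n) → IsPi π U →
        ∃ L, Model π L ∧ U ≤ L := by
      intro U hU hUπ
      have h1 : IsPiSubgroup π (U.subgroupOf (alternatingGroup (Fin n))) := by
        intro p hp hd
        refine hUπ p hp ?_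
        rwa [Nat.card_congr (Subgroup.subgroupOfEquivOfLe hU).toEquiv] at hd
      obtain ⟨H, hH, hUH⟩ := dpi_hall hD h1
      obtain ⟨L, hL, hHL⟩ := exists_model le_rfl (hall_subtype.2 hH) h2 hns
      refine ⟨L, hL, ?_⟩
      have h3 := Subgroup.map_mono (f := (alternatingGroup (Fin n)).subtype) hUH
      rw [Subgroup.subgroupOf_map_subtype, inf_eq_left.2 hU, hHL] at h3
      exact h3.trans inf_le_left
    obtain ⟨L₀, hL₀, _⟩ := key ⊥ bot_le (IsPi.bot _)
    obtain ⟨U, hUA, hUπ, hbad⟩ := exists_bad (by rw [hcard]; exact hn) hL₀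
    obtain ⟨L, hL, hUL⟩ := key U hUA hUπ
    exact hbad L hL hUL
  · rintro (h | h)
    · have h1 : ∃ p, p.Prime ∧ ∀ q : ℕ, q.Prime → q ∣ Nat.card ↥(alternatingGroup (Fin n)) → (q ∈ π ↔ q = p) := by
        by_cases h2 : ∃ p, p.Prime ∧ p ∈ π ∧ p ∣ Nat.card ↥(alternatingGroup (Fin n))
        · obtain ⟨p, hp, hpπ, hpd⟩ := h2
          refine ⟨p, hp, fun q hq hqd => ⟨fun hqπ => h q p hq hp hqπ hpπ hqd hpd, ?_⟩⟩
          rintro rfl; exact hpπ
        · push Not at h2
          obtain ⟨p, hpn, hp⟩ := Nat.exists_infinite_primes (n + 1)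
          refine ⟨p, hp, fun q hq hqd => ⟨fun hqπ => absurd hqd (h2 q hq hqπ), ?_⟩⟩
          rintro rfl
          have := (hdv q hq).1 hqd
          omega
      obtain ⟨p, hp, hpp⟩ := h1
      have := Fact.mk hp
      have hiff : ∀ M : Subgroup ↥(alternatingGroup (Fin n)), IsPiSubgroup π M ↔ IsPGroup p M := by
        intro M
        constructor
        · intro hM
          have h3 : IsPi {p} M := by
            intro q hq hd
            exact (hpp q hq (hd.trans (Subgroup.card_subgroup_dvd_card M))).1 (hM q hq hd)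
          exact h3.isPGroup hp
        · intro hM q hq hd
          have h3 := isPi_of_isPGroup hp hM q hq hd
          exact (hpp q hq (hd.trans (Subgroup.card_subgroup_dvd_card M))).2 h3
      intro H K hH hK
      have hsyl : ∀ M : Subgroup ↥(alternatingGroup (Fin n)), Maximal (IsPiSubgroup π) M →
          ∃ P : Sylow p ↥(alternatingGroup (Fin n)), (P : Subgroup _) = M := by
        intro M hM
        obtain ⟨P, hP⟩ := ((hiff M).1 hM.1).exists_le_sylow
        exact ⟨P, le_antisymm (hM.2 ((hiff _).2 P.2) hP) hP⟩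
      obtain ⟨P, rfl⟩ := hsyl H hH
      obtain ⟨Q, rfl⟩ := hsyl K hK
      obtain ⟨g, hg⟩ := MulAction.exists_smul_eq ↥(alternatingGroup (Fin n)) P Q
      exact ⟨g, by rw [← hg]; rfl⟩
    · intro H K hH hK
      have htop : IsPiSubgroup π (⊤ : Subgroup ↥(alternatingGroup (Fin n))) := by
        intro p hp hd
        rw [Subgroup.card_top] at hd
        exact h p hp hd
      have h1 := top_le_iff.1 (hH.2 htop le_top)
      have h2 := top_le_iff.1 (hK.2 htop le_top)
      refine ⟨1, ?_⟩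
      rw [h1, h2]
      ext x
      simp

end CfsgLib.HSn
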