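import Mathlib
import Cfsg.Agent.LibSolvCoprime3
import Cfsg.Agent.LibPCyc
import Cfsg.Agent.LibFusionH12

/-! Half-transitive linear actions of odd `p`-groups. -/

set_option autoImplicit false

namespace CfsgLib.HalfH12

open Subgroup CfsgLib.FusionH12 CfsgLib.SolvCoprime

section Basic

variable {P V : Type*} [Group P] [CommGroup V] [MulDistribMulAction P V]

open Classical in
/-- the norm of a subgroup -/
noncomputable def NB [Finite P] (B : Subgroup P) (v : V) : V :=
  ∏ b ∈ (Set.toFinite (B : Set P)).toFinset, b • v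

theorem mem_tf [Finite P] {B : Subgroup P} {b : P} : b ∈ (Set.toFinite (B : Set P)).toFinset ↔ b ∈ B := by
  simp

theorem card_tf [Finite P] (B : Subgroup P) : (Set.toFinite (B : Set P)).toFinset.card = Nat.card B := by
  rw [← Set.ncard_eq_toFinset_card]
  rfl

theorem NB_fixed [Finite P] (B : Subgroup P) {b : P} (hb : b ∈ B) (v : V) : b • NB B v = NB B v := by
  unfold NB
  rw [Finset.smul_prod']
  refine Finset.prod_bij (fun a _ => b * a) ?_ ?_ ?_ ?_
  · intro a ha
    rw [mem_tf] at ha ⊢
    exact mul_mem hb ha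
  · intro a _ a' _ h
    exact mul_left_cancel h
  · intro a ha
    rw [mem_tf] at ha
    exact ⟨b⁻¹ * a, mem_tf.2 (mul_mem (inv_mem hb) ha), by simp⟩
  · intro a _
    rw [mul_smul]

theorem NB_of_fixed [Finite P] (B : Subgroup P) {v : V} (h : ∀ b ∈ B, b • v = v) :
    NB B v = v ^ Nat.card B := by
  unfold NB
  rw [Finset.prod_congr rfl (fun b hb => h b (mem_tf.1 hb)), Finset.prod_const, card_tf]

theorem NB_mul [Finite P] (B : Subgroup P) (v w : V) : NB B (v * w) = NB B v * NB B w := by
  unfold NB
  rw [← Finset.prod_mul_distrib]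
  exact Finset.prod_congr rfl (fun b _ => smul_mul' _ _ _)

theorem NB_inv [Finite P] (B : Subgroup P) (v : V) : NB B v⁻¹ = (NB B v)⁻¹ := by
  unfold NB
  rw [← Finset.prod_inv_distrib]
  exact Finset.prod_congr rfl (fun b _ => smul_inv' _ _)

theorem NB_one [Finite P] (B : Subgroup P) : NB B (1 : V) = 1 := by
  unfold NB
  simp

theorem NB_smul_mem [Finite P] (B : Subgroup P) {b : P} (hb : b ∈ B) (v : V) : NB B (b • v) = NB B v := by
  unfold NB
  refine Finset.prod_bij (fun a _ => a * b) ?_ ?_ ?_ ?_
  · intro a ha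
    rw [mem_tf] at ha ⊢
    exact mul_mem ha hb
  · intro a _ a' _ h
    exact mul_right_cancel h
  · intro a ha
    rw [mem_tf] at ha
    exact ⟨a * b⁻¹, mem_tf.2 (mul_mem ha (inv_mem hb)), by simp⟩
  · intro a _
    rw [mul_smul]

theorem smul_NB [Finite P] (B : Subgroup P) (g : P) (v : V) : g • NB B v = NB (cj g B) (g • v) := by
  unfold NB
  rw [Finset.smul_prod']
  refine Finset.prod_bij (fun a _ => g * a * g⁻¹) ?_ ?_ ?_ ?_
  · intro a ha
    rw [mem_tf] at ha ⊢
    exact conj_mem_cj ha
  · intro a _ a' _ h
    exact mul_left_cancel (mul_right_cancel h)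
  · intro a ha
    rw [mem_tf, mem_cj] at ha
    exact ⟨g⁻¹ * a * g, mem_tf.2 ha, by group⟩
  · intro a _
    rw [smul_smul, smul_smul]
    congr 1
    group

theorem pow_cancel [Finite V] {n : ℕ} (hn : n.Coprime (Nat.card V)) {x y : V} (h : x ^ n = y ^ n) : x = y := by
  have h1 : (x / y) ^ n = 1 := by rw [div_pow, h, div_self']
  have h2 : (x / y) ^ Nat.card V = 1 := pow_card_eq_one'
  have h3 : x / y = 1 := by
    rw [← orderOf_eq_one_iff]
    exact Nat.eq_one_of_dvd_coprimes hn (orderOf_dvd_of_pow_eq_one h1) (orderOf_dvd_of_pow_eq_one h2)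
  exact div_eq_one.1 h3

end Basic

section Half

variable {P V : Type*} [Group P] [CommGroup V] [MulDistribMulAction P V] [Finite P] [Finite V]
  [FaithfulSMul P V]

/-- a nontrivial normal subgroup of coprime order has no fixed points -/
theorem case1 (hst : ∀ a b : V, a ≠ 1 → b ≠ 1 → Nat.card (MulAction.stabilizer P a) =
      Nat.card (MulAction.stabilizer P b)) (hnt : ∀ a : V, a ≠ 1 → MulAction.stabilizer P a ≠ ⊥)
    {N : Subgroup P} [hN : N.Normal] (hN1 : N ≠ ⊥) (hco : (Nat.card N).Coprime (Nat.card V)) {v : V}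
    (hv : ∀ n ∈ N, n • v = v) : v = 1 := by
  by_contra hv1
  have hcj : ∀ g : P, cj g N = N := fun g => cj_of_normal g N
  -- the stabilizers of elements of the two blocks coincide
  have key : ∀ a b : V, (∀ n ∈ N, n • a = a) → NB N b = 1 → a ≠ 1 → b ≠ 1 →
      MulAction.stabilizer P a = MulAction.stabilizer P b := by
    intro a b ha hb ha1 hb1
    have hab : a * b ≠ 1 := by
      intro h
      have h1 : NB N (a * b) = 1 := by rw [h, NB_one]
      rw [NB_mul, hb, mul_one, NB_of_fixed N ha, ← one_pow (Nat.card N)] at h1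
      exact ha1 (pow_cancel hco h1)
    have hle : MulAction.stabilizer P (a * b) ≤
        MulAction.stabilizer P a ⊓ MulAction.stabilizer P b := by
      intro g hg
      rw [MulAction.mem_stabilizer_iff, smul_mul'] at hg
      have hga : ∀ n ∈ N, n • (g • a) = g • a := by
        intro n hn
        have h1 : g⁻¹ * n * g ∈ N := by
          have := hN.conj_mem n hn g⁻¹
          rwa [inv_inv] at this
        calc n • g • a = g • (g⁻¹ * n * g) • a := by rw [smul_smul, smul_smul]; congr 1; group
          _ = g • a := by rw [ha _ h1]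
      have hgb : NB N (g • b) = 1 := by
        have := smul_NB N g b
        rw [hcj, hb, smul_one] at this
        exact this.symm
      have h2 : NB N (g • a * g • b) = NB N (a * b) := by rw [hg]
      rw [NB_mul, NB_mul, hgb, hb, mul_one, mul_one, NB_of_fixed N hga, NB_of_fixed N ha] at h2
      have h3 := pow_cancel hco h2
      rw [h3] at hg
      exact mem_inf.2 ⟨MulAction.mem_stabilizer_iff.2 h3,
        MulAction.mem_stabilizer_iff.2 (mul_left_cancel hg)⟩
    have h1 : MulAction.stabilizer P (a * b) = MulAction.stabilizer P a :=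
      eq_of_le_of_card_ge (hle.trans inf_le_left) (hst a (a * b) ha1 hab).le
    have h2 : MulAction.stabilizer P (a * b) = MulAction.stabilizer P b :=
      eq_of_le_of_card_ge (hle.trans inf_le_right) (hst b (a * b) hb1 hab).le
    rw [← h1, h2]
  -- a nontrivial element of the second block
  obtain ⟨⟨n, hn⟩, hn1⟩ := Subgroup.ne_bot_iff_exists_ne_one.1 hN1
  have hn1' : n ≠ 1 := fun h => hn1 (Subtype.ext h)
  obtain ⟨e, he⟩ : ∃ e : V, n • e ≠ e := by
    by_contra hall
    push Not at hall
    apply hn1'
    apply FaithfulSMul.eq_of_smul_eq_smul (α := V)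
    intro e
    rw [hall, one_smul]
  set b0 : V := (n • e) * e⁻¹ with hb0
  have hb0N : NB N b0 = 1 := by
    rw [hb0, NB_mul, NB_inv, NB_smul_mem N hn, mul_inv_cancel]
  have hb01 : b0 ≠ 1 := fun h => he (mul_inv_eq_one.1 h)
  have hK := key v b0 hv hb0N hv1 hb01
  apply hnt v hv1
  rw [eq_bot_iff]
  intro g hg
  rw [mem_bot]
  apply FaithfulSMul.eq_of_smul_eq_smul (α := V)
  intro x
  rw [one_smul]
  -- decompose x
  have hg1 : ∀ a : V, (∀ n ∈ N, n • a = a) → g • a = a := by
    intro a ha
    by_cases h : a = 1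
    · rw [h, smul_one]
    · have h1 := key a b0 ha hb0N h hb01
      rw [← MulAction.mem_stabilizer_iff, h1, ← hK]; exact hg
  have hg2 : ∀ b : V, NB N b = 1 → g • b = b := by
    intro b hb
    by_cases h : b = 1
    · rw [h, smul_one]
    · have h1 := key v b hv hb hv1 h
      rw [← MulAction.mem_stabilizer_iff, ← h1]; exact hg
  have h3 : g • (NB N x) = NB N x := hg1 _ (fun n hn => NB_fixed N hn x)
  have h4 : g • (x ^ Nat.card N * (NB N x)⁻¹) = x ^ Nat.card N * (NB N x)⁻¹ := by
    apply hg2
    rw [NB_mul, NB_inv, NB_of_fixed N (fun n hn => NB_fixed N hn x)]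
    have : NB N (x ^ Nat.card N) = (NB N x) ^ Nat.card N := by
      unfold NB
      rw [← Finset.prod_pow]
      exact Finset.prod_congr rfl (fun b _ => smul_pow' _ _ _)
    rw [this, mul_inv_cancel]
  rw [smul_mul', smul_inv', h3, smul_pow'] at h4
  exact pow_cancel hco (mul_right_cancel h4)

/-- no such action for a noncyclic odd `p`-group -/
theorem case2 {p : ℕ} [hp : Fact p.Prime] (hp2 : p ≠ 2) (hP : IsPGroup p P)
    (hst : ∀ a b : V, a ≠ 1 → b ≠ 1 → Nat.card (MulAction.stabilizer P a) =
      Nat.card (MulAction.stabilizer P b)) (hnt : ∀ a : V, a ≠ 1 → MulAction.stabilizer P a ≠ ⊥)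
    {A : Subgroup P} [hA : A.Normal] (hAc : IsMulCommutative A) (hexp : ∀ a ∈ A, a ^ p = 1)
    (hcard : Nat.card A = p ^ 2) (hco : p.Coprime (Nat.card V)) : False := by
  classical
  have hA1 : A ≠ ⊥ := by
    intro h
    rw [h, card_bot] at hcard
    have := hp.out.one_lt
    nlinarith [Nat.one_lt_pow (n := 2) (by norm_num) hp.out.one_lt]
  have hAfix : ∀ v : V, (∀ a ∈ A, a • v = v) → v = 1 := fun v hv =>
    case1 hst hnt hA1 (by rw [hcard]; exact Nat.Coprime.pow_left 2 hco) hv
  have hcomm : ∀ a ∈ A, ∀ b ∈ A, a * b = b * a := fun a ha b hb =>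
    congrArg Subtype.val (hAc.is_comm.comm ⟨a, ha⟩ ⟨b, hb⟩)
  -- two distinct subgroups of order p generate A
  have hgen : ∀ B C : Subgroup P, B ≤ A → C ≤ A → Nat.card B = p → Nat.card C = p → B ≠ C →
      A ≤ B ⊔ C := by
    intro B C hB hC hBc hCc hne
    have h1 : B ⊔ C = A := by
      apply eq_of_le_of_card_ge (sup_le hB hC)
      have h2 : B < B ⊔ C := by
        refine lt_of_le_of_ne le_sup_left ?_
        intro h
        have h3 : C ≤ B := by rw [h]; exact le_sup_right
        exact hne (eq_of_le_of_card_ge h3 (by rw [hBc, hCc])).symm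
      have h3 : Nat.card B ∣ Nat.card (B ⊔ C : Subgroup P) := card_dvd_of_le h2.le
      have h4 : Nat.card (B ⊔ C : Subgroup P) ∣ p ^ 2 := by rw [← hcard]; exact card_dvd_of_le (sup_le hB hC)
      obtain ⟨k, hk, hk'⟩ := (Nat.dvd_prime_pow hp.out).1 h4
      have h5 : Nat.card B < Nat.card (B ⊔ C : Subgroup P) := by
        apply lt_of_le_of_ne (Nat.le_of_dvd Nat.card_pos h3)
        intro h
        exact h2.ne (eq_of_le_of_card_ge h2.le h.ge)
      rw [hk', hBc] at h5
      have h6 : k = 2 := by
        rcases k with _ | _ | _ | k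
        · simp at h5; have := hp.out.one_lt; omega
        · simp at h5
        · rfl
        · omega
      rw [hk', h6, hcard]
    exact h1.ge
  -- vanishing of norms
  have hvan : ∀ B C : Subgroup P, B ≤ A → C ≤ A → Nat.card B = p → Nat.card C = p → B ≠ C →
      ∀ v : V, (∀ b ∈ B, b • v = v) → NB C v = 1 := by
    intro B C hB hC hBc hCc hne v hv
    apply hAfix
    have h1 : B ⊔ C ≤ MulAction.stabilizer P (NB C v) := by
      apply sup_le
      · intro b hb
        rw [MulAction.mem_stabilizer_iff, smul_NB]
        have h2 : cj b C = C := by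
          apply cj_of_mem_centralizer
          rw [mem_centralizer_iff]
          intro c hc
          exact hcomm c (hC hc) b (hB hb)
        rw [h2, hv b hb]
      · intro c hc
        exact NB_fixed C hc v
    intro a ha
    exact h1 (hgen B C hB hC hBc hCc hne ha)
  have hcjA : ∀ (g : P) (B : Subgroup P), B ≤ A → cj g B ≤ A := by
    intro g B hB
    rw [← cj_of_normal g A]; exact cj_mono hB
  have hpB : ∀ B : Subgroup P, Nat.card B = p → (Nat.card B).Coprime (Nat.card V) := by
    intro B hB; rw [hB]; exact hco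
  -- stabilizers of elements of different blocks
  have key : ∀ B C : Subgroup P, B ≤ A → C ≤ A → Nat.card B = p → Nat.card C = p → B ≠ C →
      ∀ a b : V, (∀ x ∈ B, x • a = a) → (∀ x ∈ C, x • b = b) → a ≠ 1 → b ≠ 1 →
      MulAction.stabilizer P a = MulAction.stabilizer P b := by
    intro B C hB hC hBc hCc hne a b ha hb ha1 hb1
    have hmeet : ∀ v : V, (∀ x ∈ B, x • v = v) → (∀ x ∈ C, x • v = v) → v = 1 := by
      intro v h1 h2
      apply hAfix
      have h3 : B ⊔ C ≤ MulAction.stabilizer P v := sup_le (fun x hx => h1 x hx) (fun x hx => h2 x hx)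
      intro x hx
      exact h3 (hgen B C hB hC hBc hCc hne hx)
    have hab : a * b ≠ 1 := by
      intro h
      have h1 : a = b⁻¹ := eq_inv_of_mul_eq_one_left h
      apply ha1
      apply hmeet a ha
      intro x hx
      rw [h1, smul_inv', hb x hx]
    have hle : MulAction.stabilizer P (a * b) ≤
        MulAction.stabilizer P a ⊓ MulAction.stabilizer P b := by
      intro g hg
      rw [MulAction.mem_stabilizer_iff, smul_mul'] at hg
      have hfixcj : ∀ (B : Subgroup P) (a : V), (∀ x ∈ B, x • a = a) → ∀ x ∈ cj g B, x • (g • a) = g • a := by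
        intro B a ha x hx
        rw [mem_cj] at hx
        calc x • g • a = g • (g⁻¹ * x * g) • a := by rw [smul_smul, smul_smul]; congr 1; group
          _ = g • a := by rw [ha _ hx]
      have hga := hfixcj B a ha
      have hgb := hfixcj C b hb
      have hgne : cj g B ≠ cj g C := fun h => hne (cj_inj.1 h)
      have hgBc : Nat.card (cj g B) = p := by rw [card_cj, hBc]
      have hgCc : Nat.card (cj g C) = p := by rw [card_cj, hCc]
      have hgBA := hcjA g B hB
      have hgCA := hcjA g C hC
      have hga1 : g • a ≠ 1 := fun h => ha1 (by rw [← smul_one g] at h; exact smul_left_cancel g h)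
      -- apply the norm of `cj g B`
      have h1 : NB (cj g B) (g • a * g • b) = (g • a) ^ p := by
        rw [NB_mul, NB_of_fixed _ hga, hvan _ _ hgCA hgBA hgCc hgBc hgne.symm _ hgb, mul_one, hgBc]
      rw [hg, NB_mul] at h1
      by_cases hB' : cj g B = B
      · rw [hB', NB_of_fixed B ha, hvan C B hC hB hCc hBc hne.symm b hb, mul_one, hBc] at h1
        have h2 : a = g • a := pow_cancel hco h1
        rw [← h2] at hg
        exact mem_inf.2 ⟨MulAction.mem_stabilizer_iff.2 h2.symm,
          MulAction.mem_stabilizer_iff.2 (mul_left_cancel hg)⟩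
      · by_cases hC' : cj g B = C
        · -- then g • a = b and g • b = a
          exfalso
          rw [hC', NB_of_fixed C hb, hvan B C hB hC hBc hCc hne a ha, one_mul, hCc] at h1
          have h2 : b = g • a := pow_cancel hco h1
          have h3 : g • b = a := by
            rw [← h2, mul_comm a b] at hg
            exact mul_left_cancel hg
          have h4 : (g ^ 2) • a = a := by rw [pow_two, mul_smul, ← h2, h3]
          -- g has odd order
          have ho : Odd (orderOf g) := by
            obtain ⟨k, hk⟩ := (IsPGroup.iff_orderOf.1 hP) g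
            rw [hk]
            exact (hp.out.odd_of_ne_two hp2).pow
          obtain ⟨m, hm⟩ := ho
          have h5 : g • a = a := by
            have h6 : ∀ n : ℕ, (g ^ 2) ^ n • a = a := by
              intro n
              induction n with
              | zero => simp
              | succ n ih => rw [pow_succ, mul_smul, h4, ih]
            have h7 : g ^ (2 * m + 1) • a = a := by rw [← hm, pow_orderOf_eq_one, one_smul]
            rw [pow_succ', pow_mul, mul_smul, h6] at h7
            exact h7
          rw [h5] at h2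
          subst h2
          exact ha1 (hmeet _ ha hb)
        · exfalso
          rw [hvan B _ hB hgBA hBc hgBc (Ne.symm hB') a ha, hvan C _ hC hgBA hCc hgBc (Ne.symm hC') b hb,
            one_mul] at h1
          apply hga1
          exact (pow_cancel hco (by rw [one_pow]; exact h1)).symm
    have h1 : MulAction.stabilizer P (a * b) = MulAction.stabilizer P a :=
      eq_of_le_of_card_ge (hle.trans inf_le_left) (hst a (a * b) ha1 hab).le
    have h2 : MulAction.stabilizer P (a * b) = MulAction.stabilizer P b :=
      eq_of_le_of_card_ge (hle.trans inf_le_right) (hst b (a * b) hb1 hab).le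
    rw [← h1, h2]
  -- generation
  have hcardA : Nat.card A = p ^ 2 := hcard
  have hGen : ∀ W : Subgroup V, (∀ B : Subgroup P, B ≤ A → Nat.card B = p → ∀ v : V,
      (∀ b ∈ B, b • v = v) → v ∈ W) → W = ⊤ := by
    intro W hW
    apply eq_top_of_fixed_mem (A := A) hp.out hcardA (fun a => Subtype.ext (hexp a a.2)) hco W
    intro a ha v hav
    have ha1 : (a : P) ≠ 1 := fun h => ha (Subtype.ext h)
    have hord : orderOf (a : P) = p := orderOf_eq_prime (hexp a a.2) ha1
    apply hW (zpowers (a : P)) (by rw [zpowers_le]; exact a.2) (by rw [Nat.card_zpowers, hord])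
    intro b hb
    have h1 : zpowers (a : P) ≤ MulAction.stabilizer P v := by
      rw [zpowers_le]; exact hav
    exact h1 hb
  have hVnt : ∃ v : V, v ≠ 1 := by
    by_contra hall
    push Not at hall
    apply hA1
    rw [eq_bot_iff]
    intro a _
    rw [mem_bot]
    apply FaithfulSMul.eq_of_smul_eq_smul (α := V)
    intro e
    rw [hall (a • e), hall ((1 : P) • e)]
  -- first block
  obtain ⟨B1, hB1, hB1c, v1, hv1, hv11⟩ : ∃ B : Subgroup P, B ≤ A ∧ Nat.card B = p ∧ ∃ v : V,
      (∀ b ∈ B, b • v = v) ∧ v ≠ 1 := by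
    by_contra hall
    push Not at hall
    have h1 := hGen ⊥ (fun B hB hBc v hv => by rw [mem_bot]; exact hall B hB hBc v hv)
    obtain ⟨v, hv⟩ := hVnt
    have : v ∈ (⊥ : Subgroup V) := by rw [h1]; exact mem_top v
    exact hv (mem_bot.1 this)
  -- second block
  obtain ⟨B2, hB2, hB2c, hne, v2, hv2, hv21⟩ : ∃ B : Subgroup P, B ≤ A ∧ Nat.card B = p ∧ B ≠ B1 ∧
      ∃ v : V, (∀ b ∈ B, b • v = v) ∧ v ≠ 1 := by
    by_contra hall
    push Not at hall
    -- B1 acts trivially
    let W : Subgroup V :=
      { carrier := {v | ∀ b ∈ B1, b • v = v}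
        mul_mem' := fun {x y} hx hy b hb => by rw [smul_mul', hx b hb, hy b hb]
        one_mem' := fun b _ => smul_one b
        inv_mem' := fun {x} hx b hb => by rw [smul_inv', hx b hb] }
    have h1 := hGen W (fun B hB hBc v hv => by
      by_cases h : B = B1
      · subst h; exact hv
      · rw [hall B hB hBc h v hv]; exact W.one_mem)
    have h2 : B1 = ⊥ := by
      rw [eq_bot_iff]
      intro b hb
      rw [mem_bot]
      apply FaithfulSMul.eq_of_smul_eq_smul (α := V)
      intro e
      have : e ∈ W := by rw [h1]; exact mem_top e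
      rw [one_smul]; exact this b hb
    rw [h2, card_bot] at hB1c
    exact hp.out.one_lt.ne hB1c
  have hK := key B1 B2 hB1 hB2 hB1c hB2c hne.symm v1 v2 hv1 hv2 hv11 hv21
  apply hnt v1 hv11
  rw [eq_bot_iff]
  intro g hg
  rw [mem_bot]
  apply FaithfulSMul.eq_of_smul_eq_smul (α := V)
  let W : Subgroup V :=
      { carrier := {v | g • v = v}
        mul_mem' := fun {x y} hx hy => by
          change g • (x * y) = x * y
          rw [smul_mul', hx, hy]
        one_mem' := smul_one g
        inv_mem' := fun {x} hx => by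
          change g • x⁻¹ = x⁻¹
          rw [smul_inv', hx] }
  have hW := hGen W (fun B hB hBc v hv => by
    change g • v = v
    by_cases hv1' : v = 1
    · rw [hv1', smul_one]
    · by_cases h : B = B1
      · subst h
        have := key B B2 hB hB2 hBc hB2c hne.symm v v2 hv hv2 hv1' hv21
        rw [← MulAction.mem_stabilizer_iff, this, ← hK]; exact hg
      · have := key B B1 hB hB1 hBc hB1c h v v1 hv hv1 hv1' hv11
        rw [← MulAction.mem_stabilizer_iff, this]; exact hg)
  intro e
  have : e ∈ W := by rw [hW]; exact mem_top e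
  rw [one_smul]; exact this

end Half

end CfsgLib.HalfH12
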