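import Cfsg.Prelude.Def_SporadicCombinatorics
import Mathlib

/-! The hexacode: words, weights, monomial group. -/

open Cfsg

namespace CfsgLib.Hex28

theorem beq_iff {a b : ℕ} : Nat.beq a b = true ↔ a = b := by
  simp [Nat.beq_eq_true_eq]

/-- multiplication of codes -/
def mc (a b : ℕ) : ℕ := cond (or (Nat.beq a 0) (Nat.beq b 0)) 0 (Nat.add (Nat.mod (Nat.sub (Nat.add a b) 2) 3) 1)

/-- addition of codes -/
def ac (a b : ℕ) : ℕ := Nat.xor a b

/-- generators -/
def G (j i : ℕ) : ℕ := ([[2, 3, 3, 2, 3, 2], [3, 2, 2, 3, 3, 2], [3, 2, 3, 2, 2, 3]].getD j []).getD i 0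

/-- words -/
def W (k i : ℕ) : ℕ := ac (ac (mc (k / 16) (G 0 i)) (mc (k / 4 % 4) (G 1 i))) (mc (k % 4) (G 2 i))

/-- systematic conditions -/
def A (j t : ℕ) : ℕ := ([[1, 3, 2], [1, 2, 3], [1, 1, 1]].getD j []).getD t 0

/-- membership test -/
def tst (x : ℕ → ℕ) : Bool := (List.range 3).all fun t =>
  Nat.beq (x (t + 3)) (ac (ac (mc (x 0) (A 0 t)) (mc (x 1) (A 1 t))) (mc (x 2) (A 2 t)))

variable {F : Type*} [Field F] [Fintype F] [DecidableEq F]

section
variable (hF : Fintype.card F = 4) {ω : F} (hω : ω ^ 2 + ω + 1 = 0)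

/-- the value of a code -/
def vl (ω : F) (a : ℕ) : F := cond (Nat.beq a 0) 0 (cond (Nat.beq a 1) 1 (cond (Nat.beq a 2) ω (ω ^ 2)))

include hF in
theorem two_eq : (2 : F) = 0 := by
  have hp : ∃ p, CharP F p := ⟨ringChar F, inferInstance⟩
  obtain ⟨p, hp⟩ := hp
  haveI : Fact p.Prime := ⟨CharP.char_is_prime F p⟩
  obtain ⟨n, hn⟩ := FiniteField.card F p
  have h1 : p ∣ 4 := by
    rw [← hF, hn.2]
    exact dvd_pow_self p (PNat.ne_zero n)
  have h2 : p ∣ 2 := by
    have : p ∣ 2 ^ 2 := by simpa using h1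
    exact (Nat.Prime.dvd_of_dvd_pow Fact.out this)
  have h3 : ((2 : ℕ) : F) = 0 := (CharP.cast_eq_zero_iff F p 2).2 h2
  exact_mod_cast h3

include hF in
theorem add_self (x : F) : x + x = 0 := by
  have := two_eq hF
  rw [← two_mul, this, zero_mul]

include hω in
theorem cube : ω ^ 3 = 1 := by
  linear_combination (ω - 1) * hω

include hF hω in
theorem w_ne0 : ω ≠ 0 := by
  rintro rfl
  simp at hω

include hF hω in
theorem w_ne1 : ω ≠ 1 := by
  rintro rfl
  have h := two_eq hF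
  have : (1 : F) = 0 := by linear_combination hω - h
  exact one_ne_zero this

include hF hω in
theorem vl_mul {a b : ℕ} (ha : a < 4) (hb : b < 4) : vl ω (mc a b) = vl ω a * vl ω b := by
  have h3 := cube hω
  interval_cases a <;> interval_cases b <;> first
    | exact (zero_mul _).symm
    | exact (mul_zero _).symm
    | exact (one_mul _).symm
    | exact (mul_one _).symm
    | (show ω ^ 2 = ω * ω; ring)
    | (show (1 : F) = ω * ω ^ 2; linear_combination - h3)
    | (show (1 : F) = ω ^ 2 * ω; linear_combination - h3)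
    | (show ω = ω ^ 2 * ω ^ 2; linear_combination - ω * h3)

include hF hω in
theorem vl_add {a b : ℕ} (ha : a < 4) (hb : b < 4) : vl ω (ac a b) = vl ω a + vl ω b := by
  have h2 := two_eq hF
  interval_cases a <;> interval_cases b <;> first
    | exact (zero_add _).symm
    | exact (add_zero _).symm
    | exact (add_self hF _).symm
    | (show ω ^ 2 = 1 + ω; linear_combination hω - (1 + ω) * h2)
    | (show ω ^ 2 = ω + 1; linear_combination hω - (1 + ω) * h2)
    | (show ω = 1 + ω ^ 2; linear_combination hω - (1 + ω ^ 2) * h2)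
    | (show ω = ω ^ 2 + 1; linear_combination hω - (1 + ω ^ 2) * h2)
    | (show (1 : F) = ω + ω ^ 2; linear_combination hω - (ω + ω ^ 2) * h2)
    | (show (1 : F) = ω ^ 2 + ω; linear_combination hω - (ω + ω ^ 2) * h2)

include hF hω in
theorem vl_eq_zero {a : ℕ} (ha : a < 4) : vl ω a = 0 ↔ a = 0 := by
  constructor
  · intro h
    interval_cases a
    · rfl
    · exact absurd (show (1 : F) = 0 from h) one_ne_zero
    · exact absurd (show ω = 0 from h) (w_ne0 hF hω)
    · exact absurd (show ω ^ 2 = 0 from h) (pow_ne_zero _ (w_ne0 hF hω))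
  · rintro rfl; rfl

theorem ac_lt {a b : ℕ} (ha : a < 4) (hb : b < 4) : ac a b < 4 := by
  interval_cases a <;> interval_cases b <;> decide

theorem mc_lt (a b : ℕ) : mc a b < 4 := by
  unfold mc
  cases (or (Nat.beq a 0) (Nat.beq b 0))
  · have := Nat.mod_lt ((a + b) - 2) (show 3 > 0 by norm_num)
    show (a + b - 2) % 3 + 1 < 4
    omega
  · show 0 < 4
    norm_num

include hF hω in
theorem vl_inj {a b : ℕ} (ha : a < 4) (hb : b < 4) (h : vl ω a = vl ω b) : a = b := by
  have h1 : vl ω (ac a b) = 0 := by rw [vl_add hF hω ha hb, h, add_self hF]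
  have h2 := (vl_eq_zero hF hω (ac_lt ha hb)).1 h1
  exact Nat.xor_eq_zero_iff.1 h2

include hF hω in
theorem vl_surj (x : F) : ∃ a < 4, vl ω a = x := by
  have hinj : Function.Injective (fun a : Fin 4 => vl ω a.val) := fun a b h => Fin.ext (vl_inj hF hω a.2 b.2 h)
  have hb : Function.Bijective (fun a : Fin 4 => vl ω a.val) := by
    rw [Fintype.bijective_iff_injective_and_card]
    exact ⟨hinj, by rw [hF, Fintype.card_fin]⟩
  obtain ⟨a, ha⟩ := hb.2 x
  exact ⟨a.val, a.2, ha⟩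

/-! ### the code -/

theorem G_lt (j i : ℕ) : G j i < 4 := by
  unfold G
  rcases Nat.lt_or_ge j 3 with hj | hj
  · rcases Nat.lt_or_ge i 6 with hi | hi
    · interval_cases j <;> interval_cases i <;> decide
    · rw [List.getD_eq_default _ _ (by interval_cases j <;> simpa using hi)]; norm_num
  · have e : ([[2, 3, 3, 2, 3, 2], [3, 2, 2, 3, 3, 2], [3, 2, 3, 2, 2, 3]] : List (List ℕ)).getD j [] = [] := List.getD_eq_default _ _ (by simpa using hj)
    rw [e]; simp

theorem A_lt (j i : ℕ) : A j i < 4 := by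
  unfold A
  rcases Nat.lt_or_ge j 3 with hj | hj
  · rcases Nat.lt_or_ge i 3 with hi | hi
    · interval_cases j <;> interval_cases i <;> decide
    · rw [List.getD_eq_default _ _ (by interval_cases j <;> simpa using hi)]; norm_num
  · have e : ([[1, 3, 2], [1, 2, 3], [1, 1, 1]] : List (List ℕ)).getD j [] = [] := List.getD_eq_default _ _ (by simpa using hj)
    rw [e]; simp

theorem W_lt (k i : ℕ) : W k i < 4 := ac_lt (ac_lt (mc_lt _ _) (mc_lt _ _)) (mc_lt _ _)

/-- generators in the field -/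
def gv (ω : F) (j : ℕ) (i : Fin 6) : F := vl ω (G j i.val)

/-- words in the field -/
def wv (ω : F) (k : ℕ) (i : Fin 6) : F := vl ω (W k i.val)

theorem hex_eq : hexacode F ω = Submodule.span F {gv ω 0, gv ω 1, gv ω 2} := by
  have e0 : gv ω 0 = ![ω, ω ^ 2, ω ^ 2, ω, ω ^ 2, ω] := by funext i; fin_cases i <;> rfl
  have e1 : gv ω 1 = ![ω ^ 2, ω, ω, ω ^ 2, ω ^ 2, ω] := by funext i; fin_cases i <;> rfl
  have e2 : gv ω 2 = ![ω ^ 2, ω, ω ^ 2, ω, ω, ω ^ 2] := by funext i; fin_cases i <;> rfl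
  rw [e0, e1, e2]; rfl

include hF hω in
theorem wv_eq (k : ℕ) (hk : k < 64) : wv ω k = vl ω (k / 16) • gv ω 0 + vl ω (k / 4 % 4) • gv ω 1 + vl ω (k % 4) • gv ω 2 := by
  funext i
  show vl ω (W k i) = vl ω (k / 16) * gv ω 0 i + vl ω (k / 4 % 4) * gv ω 1 i + vl ω (k % 4) * gv ω 2 i
  unfold W gv
  rw [vl_add hF hω (ac_lt (mc_lt _ _) (mc_lt _ _)) (mc_lt _ _), vl_add hF hω (mc_lt _ _) (mc_lt _ _),
    vl_mul hF hω (by omega) (G_lt _ _), vl_mul hF hω (by omega) (G_lt _ _), vl_mul hF hω (by omega) (G_lt _ _)]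

include hF hω in
theorem mem_hex {x : Fin 6 → F} : x ∈ hexacode F ω ↔ ∃ k < 64, x = wv ω k := by
  rw [hex_eq, Submodule.mem_span_triple]
  constructor
  · rintro ⟨a, b, c, rfl⟩
    obtain ⟨a', ha, rfl⟩ := vl_surj hF hω a
    obtain ⟨b', hb, rfl⟩ := vl_surj hF hω b
    obtain ⟨c', hc, rfl⟩ := vl_surj hF hω c
    refine ⟨16 * a' + 4 * b' + c', by omega, ?_⟩
    rw [wv_eq hF hω _ (by omega)]
    have h1 : (16 * a' + 4 * b' + c') / 16 = a' := by omega
    have h2 : (16 * a' + 4 * b' + c') / 4 % 4 = b' := by omega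
    have h3 : (16 * a' + 4 * b' + c') % 4 = c' := by omega
    rw [h1, h2, h3]
  · rintro ⟨k, hk, rfl⟩
    exact ⟨_, _, _, (wv_eq hF hω k hk).symm⟩

/-- equality of words -/
def eqw (x y : ℕ → ℕ) : Bool := (List.range 6).all fun i => Nat.beq (x i) (y i)

theorem eqw_iff {x y : ℕ → ℕ} : eqw x y = true ↔ ∀ i < 6, x i = y i := by
  unfold eqw
  simp only [List.all_eq_true, List.mem_range, beq_iff]

theorem W_inj_chk : ((List.range 64).all fun k => (List.range 64).all fun l => or (Nat.beq k l) (not (eqw (W k) (W l)))) = true := by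
  decide +kernel

include hF hω in
theorem wv_inj {k l : ℕ} (hk : k < 64) (hl : l < 64) (h : wv ω k = wv ω l) : k = l := by
  have h1 := List.all_eq_true.1 (List.all_eq_true.1 W_inj_chk k (List.mem_range.2 hk)) l (List.mem_range.2 hl)
  rw [Bool.or_eq_true, beq_iff] at h1
  rcases h1 with h1 | h1
  · exact h1
  · exfalso
    rw [Bool.not_eq_true', ← Bool.not_eq_true, eqw_iff] at h1
    exact h1 fun i hi => vl_inj hF hω (W_lt _ _) (W_lt _ _) (congrFun h ⟨i, hi⟩)

/-- the code as a type -/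
noncomputable def wEquiv (hF : Fintype.card F = 4) (hω : ω ^ 2 + ω + 1 = 0) : Fin 64 ≃ hexacode F ω :=
  Equiv.ofBijective (fun k => ⟨wv ω k.val, (mem_hex hF hω).2 ⟨k.val, k.2, rfl⟩⟩)
    ⟨fun a b h => Fin.ext (wv_inj hF hω a.2 b.2 (congrArg Subtype.val h)),
      fun x => by
        obtain ⟨k, hk, h⟩ := (mem_hex hF hω).1 x.2
        exact ⟨⟨k, hk⟩, Subtype.ext h.symm⟩⟩

include hF hω in
theorem card_hex : Nat.card (hexacode F ω) = 64 := by
  rw [← Nat.card_congr (wEquiv hF hω), Nat.card_eq_fintype_card, Fintype.card_fin]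

/-- weight -/
def wtc (x : ℕ → ℕ) : ℕ := cond (Nat.beq (x 0) 0) 0 1 + cond (Nat.beq (x 1) 0) 0 1 + cond (Nat.beq (x 2) 0) 0 1 +
  cond (Nat.beq (x 3) 0) 0 1 + cond (Nat.beq (x 4) 0) 0 1 + cond (Nat.beq (x 5) 0) 0 1

include hF hω in
theorem wt_eq (k : ℕ) : (Finset.univ.filter fun i => wv ω k i ≠ 0).card = wtc (W k) := by
  have h0 : ∀ i : Fin 6, (if wv ω k i ≠ 0 then 1 else 0) = cond (Nat.beq (W k i.val) 0) 0 1 := by
    intro i
    have h1 : wv ω k i = 0 ↔ W k i.val = 0 := vl_eq_zero hF hω (W_lt _ _)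
    by_cases h : W k i.val = 0
    · rw [if_neg (not_not.2 (h1.2 h)), h]; rfl
    · rw [if_pos (fun h2 => h (h1.1 h2))]
      have h3 : Nat.beq (W k i.val) 0 = false := by
        rw [← Bool.not_eq_true, beq_iff]; exact h
      rw [h3]; rfl
  rw [Finset.card_filter, Fin.sum_univ_six]
  simp only [h0]
  rfl

theorem wt_chk : ((List.range 64).all fun k => or (Nat.beq k 0) (or (Nat.beq (wtc (W k)) 4) (Nat.beq (wtc (W k)) 6))) = true := by
  decide +kernel

theorem cnt4 : ((List.range 64).filter fun k => Nat.beq (wtc (W k)) 4).length = 45 := by decide +kernel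

theorem cnt6 : ((List.range 64).filter fun k => Nat.beq (wtc (W k)) 6).length = 18 := by decide +kernel

include hF hω in
theorem ncard_wt (n : ℕ) : {x : Fin 6 → F | x ∈ hexacode F ω ∧ (Finset.univ.filter fun i => x i ≠ 0).card = n}.ncard =
    ((List.range 64).filter fun k => Nat.beq (wtc (W k)) n).length := by
  have h1 : {x : Fin 6 → F | x ∈ hexacode F ω ∧ (Finset.univ.filter fun i => x i ≠ 0).card = n} =
      (fun k : ℕ => wv ω k) '' (((Finset.range 64).filter fun k => Nat.beq (wtc (W k)) n = true : Finset ℕ) : Set ℕ) := by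
    ext x
    simp only [Set.mem_setOf_eq, Set.mem_image, Finset.coe_filter, Finset.mem_range, beq_iff]
    constructor
    · rintro ⟨hx, hn⟩
      obtain ⟨k, hk, rfl⟩ := (mem_hex hF hω).1 hx
      exact ⟨k, ⟨hk, by rw [← wt_eq hF hω]; exact hn⟩, rfl⟩
    · rintro ⟨k, ⟨hk, hn⟩, rfl⟩
      exact ⟨(mem_hex hF hω).2 ⟨k, hk, rfl⟩, by rw [wt_eq hF hω]; exact hn⟩
  rw [h1, Set.InjOn.ncard_image, Set.ncard_coe_finset]
  · show (List.filter (fun k => decide ((wtc (W k)).beq n = true)) (List.range 64)).length = _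
    simp only [Bool.decide_eq_true]
  · intro a ha b hb hab
    simp only [Finset.coe_filter, Finset.mem_range, Set.mem_setOf_eq] at ha hb
    exact wv_inj hF hω ha.1 hb.1 hab

end

end CfsgLib.Hex28
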