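import Cfsg.Agent.LibHex28

/-! The monomial group of the hexacode. -/

open Cfsg

namespace CfsgLib.Hex28

variable {F : Type*} [Field F] [Fintype F] [DecidableEq F]

/-- the pair preserves the code -/
def Pres (ω : F) (σ : Equiv.Perm (Fin 6)) (c : Fin 6 → Fˣ) : Prop :=
  ∀ x ∈ hexacode F ω, monomialMap σ c x ∈ hexacode F ω

theorem pres_mul {ω : F} {σ τ : Equiv.Perm (Fin 6)} {c d : Fin 6 → Fˣ} (h1 : Pres ω σ c) (h2 : Pres ω τ d) :
    Pres ω (σ * τ) (fun i => c i * d (σ.symm i)) := by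
  intro x hx
  have h3 := h1 _ (h2 x hx)
  have : monomialMap (σ * τ) (fun i => c i * d (σ.symm i)) x = monomialMap σ c (monomialMap τ d x) := by
    funext i
    show ((c i * d (σ.symm i) : Fˣ) : F) * x _ = (c i : F) * ((d (σ.symm i) : F) * x _)
    rw [Units.val_mul, mul_assoc]; rfl
  rw [this]; exact h3

theorem mono_inj (σ : Equiv.Perm (Fin 6)) (c : Fin 6 → Fˣ) : Function.Injective (monomialMap (F := F) σ c) := by
  intro x y h
  funext i
  have h1 := congrFun h (σ i)
  have h2 : (c (σ i) : F) * x (σ.symm (σ i)) = (c (σ i) : F) * y (σ.symm (σ i)) := h1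
  rw [Equiv.symm_apply_apply] at h2
  exact mul_left_cancel₀ (Units.ne_zero _) h2

theorem pres_surj {ω : F} {σ : Equiv.Perm (Fin 6)} {c : Fin 6 → Fˣ} (h : Pres ω σ c) {x : Fin 6 → F}
    (hx : x ∈ hexacode F ω) : ∃ y ∈ hexacode F ω, monomialMap σ c y = x := by
  have h1 : Function.Injective (fun y : hexacode F ω => (⟨monomialMap σ c y.1, h _ y.2⟩ : hexacode F ω)) :=
    fun a b hab => Subtype.ext (mono_inj σ c (congrArg Subtype.val hab))
  obtain ⟨y, hy⟩ := (Finite.injective_iff_surjective.1 h1) ⟨x, hx⟩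
  exact ⟨y.1, y.2, congrArg Subtype.val hy⟩

theorem pres_inv {ω : F} {σ : Equiv.Perm (Fin 6)} {c : Fin 6 → Fˣ} (h : Pres ω σ c) :
    Pres ω σ⁻¹ (fun i => (c (σ i))⁻¹) := by
  intro x hx
  obtain ⟨y, hy, rfl⟩ := pres_surj h hx
  have : monomialMap σ⁻¹ (fun i => (c (σ i))⁻¹) (monomialMap σ c y) = y := by
    funext i
    show (((c (σ i))⁻¹ : Fˣ) : F) * ((c (σ⁻¹.symm i) : F) * y (σ.symm (σ⁻¹.symm i))) = y i
    have e : σ⁻¹.symm i = σ i := rfl
    rw [e, Equiv.symm_apply_apply, ← mul_assoc, ← Units.val_mul, inv_mul_cancel, Units.val_one, one_mul]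
  rw [this]; exact hy

theorem pres_one (ω : F) : Pres ω 1 (fun _ => 1) := by
  intro x hx
  have : monomialMap (1 : Equiv.Perm (Fin 6)) (fun _ => (1 : Fˣ)) x = x := by
    funext i
    show ((1 : Fˣ) : F) * x i = x i
    rw [Units.val_one, one_mul]
  rw [this]; exact hx

theorem pres_smul {ω : F} {σ : Equiv.Perm (Fin 6)} {c : Fin 6 → Fˣ} (h : Pres ω σ c) (u : Fˣ) :
    Pres ω σ (fun i => u * c i) := by
  intro x hx
  have : monomialMap σ (fun i => u * c i) x = (u : F) • monomialMap σ c x := by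
    funext i
    show ((u * c i : Fˣ) : F) * x _ = (u : F) * ((c i : F) * x _)
    rw [Units.val_mul, mul_assoc]
  rw [this]; exact Submodule.smul_mem _ _ (h x hx)

/-- the test on codes -/
def okc (p : ℕ → ℕ) (c : ℕ → ℕ) : Bool := (List.range 3).all fun j => tst fun i => mc (c i) (G j (p i))

section
variable (hF : Fintype.card F = 4) {ω : F} (hω : ω ^ 2 + ω + 1 = 0)

theorem tst_W : ((List.range 64).all fun k => tst (W k)) = true := by decide +kernel

theorem tst_conv : ((List.range 64).all fun n => (List.range 64).any fun k =>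
    and (Nat.beq (W k 0) (n / 16)) (and (Nat.beq (W k 1) (n / 4 % 4)) (Nat.beq (W k 2) (n % 4)))) = true := by decide +kernel

theorem tst_iff {x : ℕ → ℕ} : tst x = true ↔ ∀ t < 3, x (t + 3) = ac (ac (mc (x 0) (A 0 t)) (mc (x 1) (A 1 t))) (mc (x 2) (A 2 t)) := by
  unfold tst
  simp only [List.all_eq_true, List.mem_range, beq_iff]

include hF hω in
theorem mem_iff_tst {x : ℕ → ℕ} (hx : ∀ i, x i < 4) : (fun i : Fin 6 => vl ω (x i.val)) ∈ hexacode F ω ↔ tst x = true := by
  rw [mem_hex hF hω]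
  constructor
  · rintro ⟨k, hk, h⟩
    have h1 : ∀ i < 6, x i = W k i := fun i hi => vl_inj hF hω (hx i) (W_lt _ _) (congrFun h ⟨i, hi⟩)
    have h2 := tst_iff.1 (List.all_eq_true.1 tst_W k (List.mem_range.2 hk))
    rw [tst_iff]
    intro t ht
    rw [h1 _ (by omega), h1 0 (by omega), h1 1 (by omega), h1 2 (by omega)]
    exact h2 t ht
  · intro h
    have h0 := hx 0
    have h1 := hx 1
    have h2 := hx 2
    have h3 := List.all_eq_true.1 tst_conv (16 * x 0 + 4 * x 1 + x 2) (List.mem_range.2 (by omega))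
    rw [List.any_eq_true] at h3
    obtain ⟨k, hk, h3⟩ := h3
    rw [List.mem_range] at hk
    rw [Bool.and_eq_true, Bool.and_eq_true, beq_iff, beq_iff, beq_iff] at h3
    have e1 : (16 * x 0 + 4 * x 1 + x 2) / 16 = x 0 := by omega
    have e2 : (16 * x 0 + 4 * x 1 + x 2) / 4 % 4 = x 1 := by omega
    have e3 : (16 * x 0 + 4 * x 1 + x 2) % 4 = x 2 := by omega
    rw [e1, e2, e3] at h3
    obtain ⟨a0, a1, a2⟩ := h3
    refine ⟨k, hk, ?_⟩
    have hW := tst_iff.1 (List.all_eq_true.1 tst_W k (List.mem_range.2 hk))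
    rw [tst_iff] at h
    funext i
    show vl ω (x i) = vl ω (W k i)
    congr 1
    rcases Nat.lt_or_ge i.val 3 with hi | hi
    · have : i.val = 0 ∨ i.val = 1 ∨ i.val = 2 := by omega
      rcases this with e | e | e <;> rw [e]
      · exact a0.symm
      · exact a1.symm
      · exact a2.symm
    · obtain ⟨t, ht⟩ : ∃ t, i.val = t + 3 := ⟨i.val - 3, by omega⟩
      have := i.2
      rw [ht, h t (by omega), hW t (by omega), a0, a1, a2]

include hF hω in
theorem pres_iff {σ : Equiv.Perm (Fin 6)} {c : Fin 6 → Fˣ} {p c' : ℕ → ℕ} (hp : ∀ i : Fin 6, p i.val = (σ.symm i).val)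
    (hc : ∀ i : Fin 6, vl ω (c' i.val) = (c i : F)) (hc4 : ∀ i : Fin 6, c' i.val < 4) : Pres ω σ c ↔ okc p c' = true := by
  have key : ∀ j, monomialMap σ c (gv ω j) = fun i : Fin 6 => vl ω (mc (c' i.val) (G j (p i.val))) := by
    intro j
    funext i
    show (c i : F) * gv ω j (σ.symm i) = _
    rw [vl_mul hF hω (hc4 i) (G_lt _ _), hc, hp]; rfl
  have key2 : ∀ j, monomialMap σ c (gv ω j) ∈ hexacode F ω ↔ (tst fun i => mc (c' i) (G j (p i))) = true := by
    intro j
    rw [key, ← mem_iff_tst hF hω (fun i => mc_lt _ _)]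
  have hmem : ∀ j < 3, gv ω j ∈ hexacode F ω := by
    intro j hj
    rw [hex_eq]
    apply Submodule.subset_span
    interval_cases j <;> simp
  unfold okc
  simp only [List.all_eq_true, List.mem_range]
  constructor
  · intro h j hj
    exact (key2 j).1 (h _ (hmem j hj))
  · intro h x hx
    rw [hex_eq, Submodule.mem_span_triple] at hx
    obtain ⟨a, b, d, rfl⟩ := hx
    have : monomialMap σ c (a • gv ω 0 + b • gv ω 1 + d • gv ω 2) =
        a • monomialMap σ c (gv ω 0) + b • monomialMap σ c (gv ω 1) + d • monomialMap σ c (gv ω 2) := by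
      funext i
      show (c i : F) * (a * gv ω 0 _ + b * gv ω 1 _ + d * gv ω 2 _) = a * ((c i : F) * gv ω 0 _) + b * ((c i : F) * gv ω 1 _) + d * ((c i : F) * gv ω 2 _)
      ring
    rw [this]
    exact add_mem (add_mem (Submodule.smul_mem _ _ ((key2 0).2 (h 0 (by norm_num)))) (Submodule.smul_mem _ _ ((key2 1).2 (h 1 (by norm_num)))))
      (Submodule.smul_mem _ _ ((key2 2).2 (h 2 (by norm_num))))

/-- code function from six digits -/
def six (a b c d e f : ℕ) (i : ℕ) : ℕ := cond (Nat.beq i 0) a (cond (Nat.beq i 1) b (cond (Nat.beq i 2) c (cond (Nat.beq i 3) d (cond (Nat.beq i 4) e f))))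

/-- all six-digit codes -/
def all6 (P : (ℕ → ℕ) → Bool) : Bool := [1, 2, 3].all fun a => [1, 2, 3].all fun b => [1, 2, 3].all fun c => [1, 2, 3].all fun d =>
  [1, 2, 3].all fun e => [1, 2, 3].all fun f => P (six a b c d e f)

include hF hω in
theorem of_all6 {P : (ℕ → ℕ) → Bool} (h : all6 P = true) (c : Fin 6 → Fˣ) :
    ∃ c' : ℕ → ℕ, P c' = true ∧ (∀ i : Fin 6, vl ω (c' i.val) = (c i : F)) ∧ (∀ i : Fin 6, c' i.val < 4) := by
  have hch : ∀ i : Fin 6, ∃ a, a ∈ [1, 2, 3] ∧ vl ω a = (c i : F) := by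
    intro i
    obtain ⟨a, ha, h1⟩ := vl_surj hF hω (c i : F)
    have h2 : a ≠ 0 := by
      rintro rfl
      exact (c i).ne_zero h1.symm
    refine ⟨a, ?_, h1⟩
    have : a = 1 ∨ a = 2 ∨ a = 3 := by omega
    rcases this with rfl | rfl | rfl <;> simp
  choose u hu hv using hch
  have h1 := List.all_eq_true.1 (List.all_eq_true.1 (List.all_eq_true.1 (List.all_eq_true.1 (List.all_eq_true.1
    (List.all_eq_true.1 h _ (hu 0)) _ (hu 1)) _ (hu 2)) _ (hu 3)) _ (hu 4)) _ (hu 5)
  have hlt : ∀ i, u i < 4 := by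
    intro i
    have := hu i
    simp only [List.mem_cons, List.not_mem_nil, or_false] at this
    omega
  refine ⟨_, h1, ?_, ?_⟩
  · intro i; fin_cases i
    · exact hv 0
    · exact hv 1
    · exact hv 2
    · exact hv 3
    · exact hv 4
    · exact hv 5
  · intro i; fin_cases i
    · exact hlt 0
    · exact hlt 1
    · exact hlt 2
    · exact hlt 3
    · exact hlt 4
    · exact hlt 5

theorem diag_chk : (all6 fun c => or (not (okc (fun i => i) c))
    ((List.range 6).all fun i => Nat.beq (c i) (c 0))) = true := by decide +kernel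

include hF hω in
theorem diag {c : Fin 6 → Fˣ} (h : Pres ω 1 c) (i j : Fin 6) : c i = c j := by
  obtain ⟨c', h1, h2, h3⟩ := of_all6 hF hω diag_chk c
  rw [Bool.or_eq_true] at h1
  rcases h1 with h1 | h1
  · exfalso
    rw [Bool.not_eq_true', ← Bool.not_eq_true] at h1
    exact h1 ((pres_iff hF hω (p := fun i => i) (fun i => rfl) h2 h3).1 h)
  · have h4 : ∀ i : Fin 6, c' i.val = c' 0 := fun i => beq_iff.1 (List.all_eq_true.1 h1 i.val (List.mem_range.2 i.2))
    apply Units.ext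
    rw [← h2, ← h2, h4, h4]

/-- transposition on codes -/
def swc (a b i : ℕ) : ℕ := cond (Nat.beq i a) b (cond (Nat.beq i b) a i)

theorem swc_eq (a b i : Fin 6) : swc a.val b.val i.val = (Equiv.swap a b i).val := by
  revert a b i; decide

theorem odd_chk : (all6 fun c => not (okc (swc 0 1) c)) = true := by decide +kernel

include hF hω in
theorem no_swap {c : Fin 6 → Fˣ} (h : Pres ω (Equiv.swap 0 1) c) : False := by
  obtain ⟨c', h1, h2, h3⟩ := of_all6 hF hω odd_chk c
  rw [Bool.not_eq_true', ← Bool.not_eq_true] at h1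
  exact h1 ((pres_iff hF hω (σ := Equiv.swap 0 1) (p := swc 0 1) (fun i => by rw [Equiv.symm_swap]; exact swc_eq 0 1 i) h2 h3).1 h)

theorem pair_chk : ((List.range 6).all fun x => (List.range 6).all fun y => or (Nat.beq x y)
    (not (all6 fun c => not (okc (fun i => swc 0 1 (swc x y i)) c)))) = true := by decide +kernel

theorem not_all6 {P : (ℕ → ℕ) → Bool} (h : all6 (fun c => not (P c)) = false) :
    ∃ a ∈ [1, 2, 3], ∃ b ∈ [1, 2, 3], ∃ c ∈ [1, 2, 3], ∃ d ∈ [1, 2, 3], ∃ e ∈ [1, 2, 3], ∃ f ∈ [1, 2, 3], P (six a b c d e f) = true := by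
  by_contra hn
  push Not at hn
  rw [← Bool.not_eq_true] at h
  apply h
  unfold all6
  simp only [List.all_eq_true]
  intro a ha b hb c hc d hd e he f hf
  rw [Bool.not_eq_true', ← Bool.not_eq_true]
  exact hn a ha b hb c hc d hd e he f hf

include hF hω in
theorem pair_pres {x y : Fin 6} (hxy : x ≠ y) : ∃ c, Pres ω (Equiv.swap x y * Equiv.swap 0 1) c := by
  have h1 := List.all_eq_true.1 (List.all_eq_true.1 pair_chk x.val (List.mem_range.2 x.2)) y.val (List.mem_range.2 y.2)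
  rw [Bool.or_eq_true, beq_iff] at h1
  rcases h1 with h1 | h1
  · exact absurd (Fin.ext h1) hxy
  rw [Bool.not_eq_true'] at h1
  obtain ⟨a, ha, b, hb, c, hc, d, hd, e, he, f, hf, h2⟩ := not_all6 h1
  have hu : ∀ a ∈ [1, 2, 3], ∃ u : Fˣ, (u : F) = vl ω a ∧ a < 4 := by
    intro a ha
    simp only [List.mem_cons, List.not_mem_nil, or_false] at ha
    have h4 : a < 4 := by omega
    have h0 : vl ω a ≠ 0 := by
      rw [Ne, vl_eq_zero hF hω h4]; omega
    exact ⟨Units.mk0 _ h0, rfl, h4⟩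
  obtain ⟨u0, k0, l0⟩ := hu a ha
  obtain ⟨u1, k1, l1⟩ := hu b hb
  obtain ⟨u2, k2, l2⟩ := hu c hc
  obtain ⟨u3, k3, l3⟩ := hu d hd
  obtain ⟨u4, k4, l4⟩ := hu e he
  obtain ⟨u5, k5, l5⟩ := hu f hf
  refine ⟨![u0, u1, u2, u3, u4, u5], (pres_iff hF hω (p := fun i => swc 0 1 (swc x.val y.val i)) ?_ ?_ ?_).2 h2⟩
  · intro i
    show swc 0 1 (swc x.val y.val i.val) = ((Equiv.swap x y * Equiv.swap 0 1).symm i).val
    rw [swc_eq x y i]
    exact swc_eq 0 1 _
  · intro i; fin_cases i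
    · exact k0.symm
    · exact k1.symm
    · exact k2.symm
    · exact k3.symm
    · exact k4.symm
    · exact k5.symm
  · intro i; fin_cases i
    · exact l0
    · exact l1
    · exact l2
    · exact l3
    · exact l4
    · exact l5

include hF hω in
theorem perm_cases (σ : Equiv.Perm (Fin 6)) : (∃ c, Pres ω σ c) ∧ Equiv.Perm.sign σ = 1 ∨
    (∃ c, Pres ω (Equiv.swap 0 1 * σ) c) ∧ Equiv.Perm.sign σ = -1 := by
  induction σ using Equiv.Perm.swap_induction_on with
  | one => exact Or.inl ⟨⟨_, pres_one ω⟩, Equiv.Perm.sign_one⟩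
  | swap_mul f x y hxy ih =>
    obtain ⟨c, hc⟩ := pair_pres hF hω hxy
    have hc2 := pres_inv hc
    rw [mul_inv_rev, Equiv.swap_inv, Equiv.swap_inv] at hc2
    rcases ih with ⟨⟨d, hd⟩, hs⟩ | ⟨⟨d, hd⟩, hs⟩
    · have h := pres_mul hc2 hd
      rw [mul_assoc] at h
      exact Or.inr ⟨⟨_, h⟩, by rw [Equiv.Perm.sign_mul, Equiv.Perm.sign_swap hxy, hs]; rfl⟩
    · have h := pres_mul hc hd
      rw [mul_assoc, ← mul_assoc (Equiv.swap 0 1), Equiv.swap_mul_self, one_mul] at h
      exact Or.inl ⟨⟨_, h⟩, by rw [Equiv.Perm.sign_mul, Equiv.Perm.sign_swap hxy, hs]; rfl⟩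

include hF hω in
theorem perm_iff (σ : Equiv.Perm (Fin 6)) : (∃ c, Pres ω σ c) ↔ σ ∈ alternatingGroup (Fin 6) := by
  rw [Equiv.Perm.mem_alternatingGroup]
  rcases perm_cases hF hω σ with ⟨h1, h2⟩ | ⟨h1, h2⟩
  · exact ⟨fun _ => h2, fun _ => h1⟩
  · constructor
    · rintro ⟨c, hc⟩
      exfalso
      obtain ⟨d, hd⟩ := h1
      have := pres_mul hd (pres_inv hc)
      rw [mul_inv_cancel_right] at this
      exact no_swap hF hω this
    · intro h
      rw [h] at h2
      exact absurd h2 (by decide)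

include hF hω in
theorem pres_unique {σ : Equiv.Perm (Fin 6)} {c d : Fin 6 → Fˣ} (h1 : Pres ω σ c) (h2 : Pres ω σ d) :
    ∃ u : Fˣ, d = fun i => u * c i := by
  have h3 := pres_mul h2 (pres_inv h1)
  rw [mul_inv_cancel] at h3
  have h4 := diag hF hω h3
  refine ⟨d 0 * (c 0)⁻¹, ?_⟩
  funext i
  have h5 := h4 i 0
  simp only [Equiv.apply_symm_apply] at h5
  rw [← h5, inv_mul_cancel_right]

include hF hω in
theorem card_mono : Nat.card {f : Equiv.Perm (Fin 6) × (Fin 6 → Fˣ) // Pres ω f.1 f.2} = 1080 := by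
  have hch : ∀ σ : alternatingGroup (Fin 6), ∃ c, Pres ω (σ : Equiv.Perm (Fin 6)) c := fun σ => (perm_iff hF hω σ.1).2 σ.2
  choose c0 hc0 using hch
  let Φ : alternatingGroup (Fin 6) × Fˣ → {f : Equiv.Perm (Fin 6) × (Fin 6 → Fˣ) // Pres ω f.1 f.2} :=
    fun t => ⟨(t.1.1, fun i => t.2 * c0 t.1 i), pres_smul (hc0 t.1) t.2⟩
  have hb : Function.Bijective Φ := by
    constructor
    · rintro ⟨σ, u⟩ ⟨τ, v⟩ h
      have h1 : σ.1 = τ.1 := congrArg (fun t => t.1.1) h
      have h2 : σ = τ := Subtype.ext h1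
      subst h2
      have h3 : (fun i => u * c0 σ i) = fun i => v * c0 σ i := congrArg (fun t => t.1.2) h
      have h4 := congrFun h3 0
      rw [mul_left_inj] at h4
      rw [h4]
    · rintro ⟨⟨σ, c⟩, h⟩
      have hσ : σ ∈ alternatingGroup (Fin 6) := (perm_iff hF hω σ).1 ⟨c, h⟩
      obtain ⟨u, hu⟩ := pres_unique hF hω (hc0 ⟨σ, hσ⟩) h
      exact ⟨(⟨σ, hσ⟩, u), Subtype.ext (Prod.ext rfl hu.symm)⟩
  rw [← Nat.card_eq_of_bijective Φ hb, Nat.card_prod, nat_card_alternatingGroup, Nat.card_fin, Nat.card_units, Nat.card_eq_fintype_card, hF]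
  decide

end

end CfsgLib.Hex28
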