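import Mathlib
import Cfsg.Agent.LibClassAlg

set_option autoImplicit false
set_option linter.all false

/-! Constituents of a permutation character and the centre of its centraliser algebra -/

open scoped ComplexConjugate ComplexOrder

namespace CfsgLib.Hk

open Cfsg CfsgLib.CharBasic Matrix

universe u v

variable {G : Type u} [Group G] [Fintype G] {Ω : Type v} [MulAction G Ω] [Fintype Ω] [DecidableEq Ω]

/-- permutation matrices -/
def R (g : G) : Matrix Ω Ω ℂ := fun x y => if x = g • y then 1 else 0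

theorem mul_R (M : Matrix Ω Ω ℂ) (g : G) (x y : Ω) : (M * (R g : Matrix Ω Ω ℂ)) x y = M x (g • y) := by
  rw [mul_apply]
  simp [R]

theorem R_mul_apply (M : Matrix Ω Ω ℂ) (g : G) (x y : Ω) : ((R g : Matrix Ω Ω ℂ) * M) x y = M (g⁻¹ • x) y := by
  rw [mul_apply, Finset.sum_eq_single (g⁻¹ • x)]
  · simp [R]
  · intro u _ hu
    rw [R, if_neg, zero_mul]
    intro h; apply hu; rw [h, inv_smul_smul]
  · intro h; exact absurd (Finset.mem_univ _) h

theorem R_mul (g h : G) : (R (g * h) : Matrix Ω Ω ℂ) = R g * R h := by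
  ext x y
  rw [mul_R, R, R, mul_smul]

theorem R_star (g : G) : (R g : Matrix Ω Ω ℂ)ᴴ = R g⁻¹ := by
  ext x y
  rw [conjTranspose_apply, R, R]
  by_cases h : y = g • x
  · have : x = g⁻¹ • y := by rw [h, inv_smul_smul]
    rw [if_pos h, if_pos this]; simp
  · have : x ≠ g⁻¹ • y := by intro h'; apply h; rw [h', smul_inv_smul]
    rw [if_neg h, if_neg this]; simp

theorem trace_R (g : G) : trace (R g : Matrix Ω Ω ℂ) = (Nat.card (MulAction.fixedBy Ω g) : ℂ) := by
  rw [trace]
  simp only [diag_apply, R]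
  rw [Finset.sum_boole, Nat.card_eq_fintype_card, ← Fintype.card_subtype]
  have : Fintype.card {x : Ω // x = g • x} = Fintype.card (MulAction.fixedBy Ω g) :=
    Fintype.card_congr (Equiv.subtypeEquivRight fun x => eq_comm)
  rw [this]

/-- the image of a function in the permutation algebra -/
noncomputable def th (f : G → ℂ) : Matrix Ω Ω ℂ := ∑ g, f g • R g

theorem th_comm {f : G → ℂ} (hf : IsClassFunction G f) (h : G) : (th f : Matrix Ω Ω ℂ) * R h = R h * th f := by
  rw [th, Finset.sum_mul, Finset.mul_sum]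
  refine Fintype.sum_equiv (MulAut.conj h⁻¹).toEquiv _ _ fun g => ?_
  simp only [MulEquiv.toEquiv_eq_coe, EquivLike.coe_coe, MulAut.conj_apply, inv_inv]
  have h1 : f (h⁻¹ * g * h) = f g := by simpa using hf g h⁻¹
  rw [h1, smul_mul_assoc, mul_smul_comm, ← R_mul, ← R_mul]
  congr 2
  group

theorem th_comm' (f : G → ℂ) {M : Matrix Ω Ω ℂ} (hM : ∀ g : G, M * R g = R g * M) : th f * M = M * th f := by
  rw [th, Finset.sum_mul, Finset.mul_sum]
  refine Finset.sum_congr rfl fun g _ => ?_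
  rw [smul_mul_assoc, mul_smul_comm, hM]

noncomputable def E (χ : G → ℂ) : Matrix Ω Ω ℂ := th (fun g => conj (χ g))

theorem E_star {χ : G → ℂ} (hχ : IsIrrCharacter G χ) : (E χ : Matrix Ω Ω ℂ)ᴴ = E χ := by
  rw [E, th, conjTranspose_sum]
  refine Fintype.sum_equiv (Equiv.inv G) _ _ fun g => ?_
  rw [conjTranspose_smul, R_star]
  simp only [Equiv.inv_apply]
  rw [char_inv_eq_conj (irr_isCharacter hχ)]
  simp

theorem conv_irr {χ ψ : G → ℂ} (hχ : IsIrrCharacter G χ) (hψ : IsIrrCharacter G ψ) (x : G) :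
    ∑ g : G, χ g * ψ (g⁻¹ * x) = (Nat.card G : ℂ) * classInner χ ψ / χ 1 * χ x := by
  have hcl : IsClassFunction G (fun g => conj (ψ g)) := irr_classFun (isIrrCharacter_conj hψ)
  have h1 := CfsgLib.CharInt.irr_sum_mul hχ hcl x
  have h2 : ∑ g : G, χ g * ψ (g⁻¹ * x) = ∑ k : G, conj (ψ k) * χ (k * x) := by
    refine Fintype.sum_equiv (Equiv.mulRight x⁻¹) _ _ fun g => ?_
    simp only [Equiv.coe_mulRight]
    rw [← char_inv_eq_conj (irr_isCharacter hψ), inv_mul_cancel_right, _root_.mul_inv_rev, inv_inv]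
    have : ψ (g⁻¹ * x) = ψ (x * g⁻¹) := by
      have := irr_classFun hψ (g⁻¹ * x) x
      rw [← this]; congr 1; group
    rw [this, mul_comm]
  rw [h2, h1]
  congr 2
  rw [classInner, ← mul_assoc, mul_inv_cancel₀, one_mul]
  · exact Finset.sum_congr rfl fun g _ => mul_comm _ _
  · exact_mod_cast Nat.card_pos.ne'

theorem E_mul {χ ψ : G → ℂ} (hχ : IsIrrCharacter G χ) (hψ : IsIrrCharacter G ψ) :
    (E χ * E ψ : Matrix Ω Ω ℂ) = (conj ((Nat.card G : ℂ) * classInner χ ψ / χ 1)) • E χ := by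
  have h1 : (E χ * E ψ : Matrix Ω Ω ℂ) = ∑ x : G, (∑ g : G, conj (χ g) * conj (ψ (g⁻¹ * x))) • R x := by
    rw [E, E, th, th, Finset.sum_mul]
    simp only [Finset.mul_sum, Finset.sum_smul]
    rw [Finset.sum_comm]
    conv_rhs => rw [Finset.sum_comm]
    rw [Finset.sum_comm]
    refine Finset.sum_congr rfl fun g _ => ?_
    refine Fintype.sum_equiv (Equiv.mulLeft g) _ _ fun h => ?_
    simp only [Equiv.coe_mulLeft]
    rw [inv_mul_cancel_left, smul_mul_assoc, mul_smul_comm, ← R_mul, smul_smul]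
  rw [h1, E, th, Finset.smul_sum]
  refine Finset.sum_congr rfl fun x _ => ?_
  rw [smul_smul]
  congr 1
  rw [← map_mul, ← conv_irr hχ hψ x, map_sum]
  exact Finset.sum_congr rfl fun g _ => (map_mul _ _ _).symm

/-- the permutation character -/
noncomputable def pc (G : Type u) [Group G] (Ω : Type v) [MulAction G Ω] : G → ℂ :=
  fun g => (Nat.card (MulAction.fixedBy Ω g) : ℂ)

theorem trace_E {χ : G → ℂ} : trace (E χ : Matrix Ω Ω ℂ) = (Nat.card G : ℂ) * classInner (pc G Ω) χ := by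
  rw [E, th, trace_sum, classInner, ← mul_assoc, mul_inv_cancel₀ (by exact_mod_cast Nat.card_pos.ne'), one_mul]
  refine Finset.sum_congr rfl fun g _ => ?_
  rw [trace_smul, trace_R, smul_eq_mul, mul_comm, pc]

/-- constituents -/
def Con (G : Type u) [Group G] [Fintype G] (Ω : Type v) [MulAction G Ω] : Type u :=
  {χ : IrrCharacter G // classInner (pc G Ω) (χ : G → ℂ) ≠ 0}

theorem E_zero {χ : G → ℂ} (hχ : IsIrrCharacter G χ) (h : classInner (pc G Ω) χ = 0) :
    (E χ : Matrix Ω Ω ℂ) = 0 := by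
  have h1 := E_mul (Ω := Ω) hχ hχ
  have h2 : trace (E χ * (E χ)ᴴ : Matrix Ω Ω ℂ) = 0 := by
    rw [E_star hχ, h1, trace_smul, trace_E, h, mul_zero, smul_zero]
  exact Matrix.trace_mul_conjTranspose_self_eq_zero_iff.1 h2

theorem E_li : LinearIndependent ℂ (fun χ : Con G Ω => (E (χ.1 : G → ℂ) : Matrix Ω Ω ℂ)) := by
  rw [linearIndependent_iff']
  intro s c hc ψ hψ
  have h1 : (∑ χ ∈ s, c χ • (E (χ.1 : G → ℂ) : Matrix Ω Ω ℂ)) * E (ψ.1 : G → ℂ) = 0 := by rw [hc, zero_mul]
  rw [Finset.sum_mul, Finset.sum_eq_single ψ] at h1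
  · rw [smul_mul_assoc, E_mul ψ.1.2 ψ.1.2, smul_smul, irr_inner_self ψ.1.2] at h1
    rcases smul_eq_zero.1 h1 with h2 | h2
    · rcases mul_eq_zero.1 h2 with h3 | h3
      · exact h3
      · exfalso
        rw [map_eq_zero, mul_one, div_eq_zero_iff] at h3
        rcases h3 with h3 | h3
        · exact (by exact_mod_cast Nat.card_pos.ne' : (Nat.card G : ℂ) ≠ 0) h3
        · exact irr_one_ne_zero ψ.1.2 h3
    · exfalso
      have h3 := trace_E (Ω := Ω) (χ := (ψ.1 : G → ℂ))
      rw [h2, trace_zero] at h3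
      rcases mul_eq_zero.1 h3.symm with h4 | h4
      · exact (by exact_mod_cast Nat.card_pos.ne' : (Nat.card G : ℂ) ≠ 0) h4
      · exact ψ.2 h4
  · intro χ _ hne
    rw [smul_mul_assoc, E_mul χ.1.2 ψ.1.2, irr_inner_ne χ.1.2 ψ.1.2 (fun h => hne (Subtype.ext (Subtype.ext h)))]
    simp
  · intro h; exact absurd hψ h

/-- the image of the class functions -/
noncomputable def Im (G : Type u) [Group G] [Fintype G] (Ω : Type v) [MulAction G Ω] [Fintype Ω] [DecidableEq Ω] :
    Submodule ℂ (Matrix Ω Ω ℂ) where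
  carrier := {M | ∃ f : G → ℂ, IsClassFunction G f ∧ M = th f}
  add_mem' := by
    rintro _ _ ⟨f, hf, rfl⟩ ⟨f', hf', rfl⟩
    refine ⟨f + f', classFun_add hf hf', ?_⟩
    simp only [th, Pi.add_apply, add_smul, Finset.sum_add_distrib]
  zero_mem' := ⟨0, fun _ _ => rfl, by simp [th]⟩
  smul_mem' := by
    rintro c _ ⟨f, hf, rfl⟩
    refine ⟨c • f, classFun_smul c hf, ?_⟩
    simp only [th, Pi.smul_apply, Finset.smul_sum, smul_smul, smul_eq_mul]

theorem Im_eq : Im G Ω = Submodule.span ℂ (Set.range (fun χ : Con G Ω => (E (χ.1 : G → ℂ) : Matrix Ω Ω ℂ))) := by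
  apply le_antisymm
  · rintro _ ⟨f, hf, rfl⟩
    have h1 : (th f : Matrix Ω Ω ℂ) = ∑ χ : IrrCharacter G, conj (classInner (fun g => conj (f g)) χ) • E (χ : G → ℂ) := by
      have hf' : IsClassFunction G (fun g => conj (f g)) := fun g h => by show conj (f _) = conj (f _); rw [hf g h]
      have h2 : ∀ g, f g = ∑ χ : IrrCharacter G, conj (classInner (fun g => conj (f g)) χ) * conj ((χ : G → ℂ) g) := by
        intro g
        have := classFun_expand_apply hf' g
        have h3 := congrArg conj this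
        rw [Complex.conj_conj, map_sum] at h3
        rw [h3]
        exact Finset.sum_congr rfl fun χ _ => map_mul _ _ _
      simp only [E, th, Finset.smul_sum, smul_smul]
      rw [Finset.sum_comm]
      refine Finset.sum_congr rfl fun g _ => ?_
      rw [← Finset.sum_smul, ← h2]
    rw [h1]
    apply Submodule.sum_mem
    intro χ _
    apply Submodule.smul_mem
    by_cases h : classInner (pc G Ω) (χ : G → ℂ) = 0
    · rw [E_zero χ.2 h]; exact Submodule.zero_mem _
    · exact Submodule.subset_span ⟨⟨χ, h⟩, rfl⟩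
  · rw [Submodule.span_le]
    rintro _ ⟨χ, rfl⟩
    exact ⟨_, irr_classFun (isIrrCharacter_conj χ.1.2), rfl⟩

theorem finrank_Im : Module.finrank ℂ (Im G Ω) = Nat.card (Con G Ω) := by
  haveI : Finite (Con G Ω) := by unfold Con; infer_instance
  haveI := Fintype.ofFinite (Con G Ω)
  rw [Im_eq, finrank_span_eq_card E_li, Nat.card_eq_fintype_card]

theorem card_Con : Nat.card (Con G Ω) = Nat.card {χ : IrrCharacter G //
    ∃ φ : G → ℂ, IsCharacter G φ ∧ pc G Ω = (χ : G → ℂ) + φ} := by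
  apply Nat.card_congr
  apply Equiv.subtypeEquivRight
  intro χ
  have hpc : IsCharacter G (pc G Ω) := isCharacter_perm
  constructor
  · intro h
    refine ⟨pc G Ω - (χ : G → ℂ), ?_, by simp⟩
    rw [isCharacter_iff]
    refine ⟨classFun_sub (char_classFun hpc) (irr_classFun χ.2), ?_⟩
    intro ψ hψ
    obtain ⟨n, hn⟩ := char_mult hpc (irr_isCharacter hψ)
    rw [CharBasic.inner_sub_left, hn]
    by_cases hχψ : (χ : G → ℂ) = ψ
    · rw [hχψ, irr_inner_self hψ]
      rw [← hχψ] at hn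
      have : n ≠ 0 := by rintro rfl; apply h; rw [hn]; simp
      exact ⟨n - 1, by rw [Nat.cast_sub (by omega)]; simp⟩
    · rw [irr_inner_ne χ.2 hψ hχψ, sub_zero]
      exact ⟨n, rfl⟩
  · rintro ⟨φ, hφ, h⟩ h0
    rw [h, CharBasic.inner_add_left, irr_inner_self χ.2] at h0
    obtain ⟨n, hn⟩ := char_mult hφ (irr_isCharacter χ.2)
    rw [hn] at h0
    have : ((1 + n : ℕ) : ℂ) = 0 := by push_cast; exact h0
    rw [Nat.cast_eq_zero] at this
    omega

end CfsgLib.Hk
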