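import Mathlib
import Cfsg.Agent.LibHk1

set_option autoImplicit false
set_option linter.all false

/-! The centre of the commutant of a permutation representation is the image of the centre of the group algebra -/

open scoped ComplexConjugate ComplexOrder

namespace CfsgLib.Hk

open Cfsg CfsgLib.CharBasic Matrix

universe u v

variable {G : Type u} [Group G] [Fintype G] {Ω : Type v} [MulAction G Ω] [Fintype Ω] [DecidableEq Ω]

theorem R_one : (R (1 : G) : Matrix Ω Ω ℂ) = 1 := by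
  ext x y
  rw [R, one_apply, one_smul]

theorem R_inv_mul (g : G) : (R g⁻¹ : Matrix Ω Ω ℂ) * R g = 1 := by rw [← R_mul, inv_mul_cancel, R_one]

theorem R_mul_inv (g : G) : (R g : Matrix Ω Ω ℂ) * R g⁻¹ = 1 := by rw [← R_mul, mul_inv_cancel, R_one]

variable (G) in
/-- averaging -/
noncomputable def Av (M : Matrix Ω Ω ℂ) : Matrix Ω Ω ℂ := ∑ g : G, (R g : Matrix Ω Ω ℂ) * M * R g⁻¹

theorem Av_comm (M : Matrix Ω Ω ℂ) (h : G) : Av G M * R h = R h * Av G M := by
  rw [Av, Finset.sum_mul, Finset.mul_sum]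
  refine Fintype.sum_equiv (Equiv.mulLeft h⁻¹) _ _ fun g => ?_
  simp only [Equiv.coe_mulLeft]
  rw [_root_.mul_inv_rev, inv_inv, R_mul h⁻¹ g, R_mul g⁻¹ h]
  calc (R g : Matrix Ω Ω ℂ) * M * R g⁻¹ * R h = 1 * (R g * M * R g⁻¹ * R h) := by rw [one_mul]
    _ = (R h * R h⁻¹) * (R g * M * R g⁻¹ * R h) := by rw [R_mul_inv]
    _ = _ := by simp only [mul_assoc]

theorem Av_star (M : Matrix Ω Ω ℂ) : (Av G M)ᴴ = Av G Mᴴ := by
  rw [Av, conjTranspose_sum, Av]
  refine Finset.sum_congr rfl fun g _ => ?_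
  rw [conjTranspose_mul, conjTranspose_mul, R_star, R_star, inv_inv, mul_assoc]

theorem Av_one : Av G (1 : Matrix Ω Ω ℂ) = (Fintype.card G : ℂ) • 1 := by
  rw [Av]
  have : ∀ g : G, (R g : Matrix Ω Ω ℂ) * 1 * R g⁻¹ = 1 := fun g => by rw [mul_one, R_mul_inv]
  rw [Finset.sum_congr rfl fun g _ => this g, Finset.sum_const, Finset.card_univ]
  rw [← Nat.cast_smul_eq_nsmul ℂ]

theorem Av_sum {ι : Type*} (s : Finset ι) (M : ι → Matrix Ω Ω ℂ) : Av G (∑ i ∈ s, M i) = ∑ i ∈ s, Av G (M i) := by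
  simp only [Av, Finset.mul_sum, Finset.sum_mul]
  rw [Finset.sum_comm]

theorem sum_single_mul (M : Matrix Ω Ω ℂ) :
    ∑ p : Ω × Ω, single p.1 p.2 (1 : ℂ) * M * (single p.1 p.2 (1 : ℂ))ᴴ = trace M • (1 : Matrix Ω Ω ℂ) := by
  ext x y
  rw [Matrix.sum_apply, Matrix.smul_apply, one_apply, Fintype.sum_prod_type, smul_eq_mul]
  simp only [conjTranspose_single, star_one]
  have h1 : ∀ a b : Ω, (single a b (1 : ℂ) * M * single b a (1 : ℂ)) x y = if a = x ∧ a = y then M b b else 0 := by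
    intro a b
    rw [single_mul_mul_single, single_apply]
    simp
  simp only [h1]
  by_cases hxy : x = y
  · subst hxy
    rw [Finset.sum_eq_single x]
    · simp [trace]
    · intro a _ ha; simp [ha]
    · intro h; exact absurd (Finset.mem_univ _) h
  · rw [if_neg hxy, mul_zero]
    apply Finset.sum_eq_zero
    intro a _
    apply Finset.sum_eq_zero
    intro b _
    rw [if_neg]
    rintro ⟨rfl, rfl⟩; exact hxy rfl

theorem key (z : Matrix Ω Ω ℂ) :
    ∑ p : Ω × Ω, Av G (single p.1 p.2 (1 : ℂ)) * z * (Av G (single p.1 p.2 (1 : ℂ)))ᴴ =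
      (Fintype.card G : ℂ) • th (fun g : G => trace (z * R g⁻¹)) := by
  have h1 : ∀ p : Ω × Ω, Av G (single p.1 p.2 (1 : ℂ)) * z * (Av G (single p.1 p.2 (1 : ℂ)))ᴴ =
      ∑ g : G, ∑ h : G, (R g : Matrix Ω Ω ℂ) * (single p.1 p.2 (1 : ℂ) * (R g⁻¹ * z * R h) *
        (single p.1 p.2 (1 : ℂ))ᴴ) * R h⁻¹ := by
    intro p
    rw [Av_star, Av, Av, Finset.sum_mul, Finset.sum_mul]
    refine Finset.sum_congr rfl fun g _ => ?_
    rw [Finset.mul_sum]
    refine Finset.sum_congr rfl fun h _ => ?_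
    simp only [mul_assoc]
  rw [Finset.sum_congr rfl fun p _ => h1 p, Finset.sum_comm]
  have h2 : ∀ g : G, ∑ p : Ω × Ω, ∑ h : G, (R g : Matrix Ω Ω ℂ) * (single p.1 p.2 (1 : ℂ) * (R g⁻¹ * z * R h) *
        (single p.1 p.2 (1 : ℂ))ᴴ) * R h⁻¹ = th (fun g : G => trace (z * R g⁻¹)) := by
    intro g
    rw [Finset.sum_comm, th]
    refine Fintype.sum_equiv ((Equiv.inv G).trans (Equiv.mulLeft g)) _ _ fun h => ?_
    rw [← Finset.sum_mul, ← Finset.mul_sum, sum_single_mul]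
    simp only [Equiv.trans_apply, Equiv.inv_apply, Equiv.coe_mulLeft]
    rw [mul_smul_comm, smul_mul_assoc, mul_one, ← R_mul, _root_.mul_inv_rev, inv_inv]
    congr 1
    rw [trace_mul_comm, ← mul_assoc, ← R_mul, trace_mul_comm]
  rw [Finset.sum_congr rfl fun g _ => h2 g, Finset.sum_const, Finset.card_univ, ← Nat.cast_smul_eq_nsmul ℂ]

theorem classFun_trace {z : Matrix Ω Ω ℂ} (hz : ∀ g : G, z * R g = R g * z) :
    IsClassFunction G (fun g : G => trace (z * R g⁻¹)) := by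
  intro g h
  show trace (z * R (h * g * h⁻¹)⁻¹) = trace (z * R g⁻¹)
  have e : (h * g * h⁻¹)⁻¹ = h * g⁻¹ * h⁻¹ := by group
  rw [e, R_mul, R_mul, ← mul_assoc, ← mul_assoc, hz h, trace_mul_comm, ← mul_assoc, ← mul_assoc, ← R_mul,
    inv_mul_cancel, R_one, one_mul]

variable (G Ω) in
/-- the commutant -/
def Cm : Submodule ℂ (Matrix Ω Ω ℂ) where
  carrier := {X | ∀ g : G, X * R g = R g * X}
  add_mem' := by
    intro X Y hX hY g
    rw [add_mul, mul_add, hX, hY]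
  zero_mem' := by intro g; rw [zero_mul, mul_zero]
  smul_mem' := by
    intro c X hX g
    rw [smul_mul_assoc, mul_smul_comm, hX]

theorem mem_Cm {X : Matrix Ω Ω ℂ} : X ∈ Cm G Ω ↔ ∀ g : G, X * R g = R g * X := Iff.rfl

variable (G Ω) in
/-- the centre of the commutant -/
def ZC : Submodule ℂ (Matrix Ω Ω ℂ) where
  carrier := {z | z ∈ Cm G Ω ∧ ∀ X ∈ Cm G Ω, z * X = X * z}
  add_mem' := by
    rintro X Y ⟨hX, hX'⟩ ⟨hY, hY'⟩
    refine ⟨Submodule.add_mem _ hX hY, fun Z hZ => ?_⟩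
    rw [add_mul, mul_add, hX' Z hZ, hY' Z hZ]
  zero_mem' := ⟨Submodule.zero_mem _, fun X _ => by rw [zero_mul, mul_zero]⟩
  smul_mem' := by
    rintro c X ⟨hX, hX'⟩
    refine ⟨Submodule.smul_mem _ _ hX, fun Z hZ => ?_⟩
    rw [smul_mul_assoc, mul_smul_comm, hX' Z hZ]

theorem mem_ZC {z : Matrix Ω Ω ℂ} : z ∈ ZC G Ω ↔ z ∈ Cm G Ω ∧ ∀ X ∈ Cm G Ω, z * X = X * z := Iff.rfl

theorem Im_le_ZC : Im G Ω ≤ ZC G Ω := by
  rintro _ ⟨f, hf, rfl⟩
  exact ⟨fun g => th_comm hf g, fun X hX => th_comm' f hX⟩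

variable (G Ω) in
/-- the Casimir-like matrix -/
noncomputable def kap : Matrix Ω Ω ℂ := ∑ p : Ω × Ω, Av G (single p.1 p.2 (1 : ℂ)) * (Av G (single p.1 p.2 (1 : ℂ)))ᴴ

theorem Av_mem (M : Matrix Ω Ω ℂ) : Av G M ∈ Cm G Ω := fun h => Av_comm M h

theorem kap_inj {z : Matrix Ω Ω ℂ} (h : z * kap G Ω = 0) : z = 0 := by
  have h1 : ∑ p : Ω × Ω, trace ((z * Av G (single p.1 p.2 (1 : ℂ))) * (z * Av G (single p.1 p.2 (1 : ℂ)))ᴴ) = 0 := by
    have h2 : trace (z * kap G Ω * zᴴ) = 0 := by rw [h, zero_mul, trace_zero]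
    rw [kap, Finset.mul_sum, Finset.sum_mul, trace_sum] at h2
    rw [← h2]
    refine Finset.sum_congr rfl fun p _ => ?_
    rw [conjTranspose_mul]
    simp only [mul_assoc]
  have h3 := (Finset.sum_eq_zero_iff_of_nonneg (fun p _ => (Matrix.posSemidef_self_mul_conjTranspose _).trace_nonneg)).1 h1
  have h4 : ∀ p : Ω × Ω, z * Av G (single p.1 p.2 (1 : ℂ)) = 0 := fun p =>
    Matrix.trace_mul_conjTranspose_self_eq_zero_iff.1 (h3 p (Finset.mem_univ _))
  have h5 : z * Av G (1 : Matrix Ω Ω ℂ) = 0 := by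
    rw [matrix_eq_sum_single (1 : Matrix Ω Ω ℂ), Av_sum, Finset.mul_sum]
    apply Finset.sum_eq_zero
    intro i _
    rw [Av_sum, Finset.mul_sum]
    apply Finset.sum_eq_zero
    intro j _
    by_cases hij : i = j
    · subst hij
      rw [one_apply_eq]
      exact h4 (i, i)
    · rw [one_apply_ne hij, single_zero]
      have : Av G (0 : Matrix Ω Ω ℂ) = 0 := by simp [Av]
      rw [this, mul_zero]
  rw [Av_one, mul_smul_comm, mul_one] at h5
  rcases smul_eq_zero.1 h5 with h6 | h6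
  · exact absurd h6 (by exact_mod_cast Fintype.card_ne_zero)
  · exact h6

theorem mul_kap {z : Matrix Ω Ω ℂ} (hz : z ∈ ZC G Ω) : z * kap G Ω =
    (Fintype.card G : ℂ) • th (fun g : G => trace (z * R g⁻¹)) := by
  rw [← key, kap, Finset.mul_sum]
  refine Finset.sum_congr rfl fun p _ => ?_
  rw [← mul_assoc, hz.2 _ (Av_mem _)]

theorem Im_eq_ZC : Im G Ω = ZC G Ω := by
  have h1 : ∀ z ∈ ZC G Ω, z * kap G Ω ∈ Im G Ω := by
    intro z hz
    rw [mul_kap hz]
    exact Submodule.smul_mem _ _ ⟨_, classFun_trace hz.1, rfl⟩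
  let f : ZC G Ω →ₗ[ℂ] Im G Ω :=
    { toFun := fun z => ⟨z.1 * kap G Ω, h1 z.1 z.2⟩
      map_add' := fun x y => Subtype.ext (add_mul _ _ _)
      map_smul' := fun c x => Subtype.ext (smul_mul_assoc _ _ _) }
  have hf : Function.Injective f := by
    rw [injective_iff_map_eq_zero]
    intro z hz
    exact Subtype.ext (kap_inj (congrArg Subtype.val hz))
  exact Submodule.eq_of_le_of_finrank_le Im_le_ZC (LinearMap.finrank_le_finrank_of_injective hf)

/-- the class function trick, surjectively -/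
theorem exists_ZC {y : Matrix Ω Ω ℂ} (hy : y ∈ ZC G Ω) : ∃ z ∈ ZC G Ω, y = th (fun g : G => trace (z * R g⁻¹)) := by
  have h1 : ∀ z ∈ ZC G Ω, th (fun g : G => trace (z * R g⁻¹)) ∈ ZC G Ω := by
    intro z hz
    rw [← Im_eq_ZC]
    exact ⟨_, classFun_trace hz.1, rfl⟩
  let f : ZC G Ω →ₗ[ℂ] ZC G Ω :=
    { toFun := fun z => ⟨th (fun g : G => trace (z.1 * R g⁻¹)), h1 z.1 z.2⟩
      map_add' := fun x y => Subtype.ext (by
        simp only [Submodule.coe_add, add_mul, trace_add, th, add_smul, Finset.sum_add_distrib])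
      map_smul' := fun c x => Subtype.ext (by
        simp only [Submodule.coe_smul, smul_mul_assoc, trace_smul, th, smul_eq_mul, ← smul_smul, ← Finset.smul_sum,
          RingHom.id_apply]) }
  have hf : Function.Injective f := by
    rw [injective_iff_map_eq_zero]
    intro z hz
    have h2 : th (fun g : G => trace (z.1 * R g⁻¹)) = (0 : Matrix Ω Ω ℂ) := congrArg Subtype.val hz
    apply Subtype.ext
    apply kap_inj (G := G)
    rw [mul_kap z.2, h2, smul_zero]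
  obtain ⟨z, hz⟩ := LinearMap.injective_iff_surjective.1 hf ⟨y, hy⟩
  exact ⟨z.1, z.2, (congrArg Subtype.val hz).symm⟩

end CfsgLib.Hk
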