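import Mathlib
import Cfsg.Agent.LibHk2
import Cfsg.Agent.LibFH7

set_option autoImplicit false
set_option linter.all false

/-! Hecke matrices on a Weyl group -/

open scoped ComplexConjugate ComplexOrder

namespace CfsgLib.Hk

open Cfsg Matrix CfsgLib.BN

section W

variable {ι W : Type*} [Group W] (σ : ι → W)

/-- word length -/
noncomputable def ell (w : W) : ℕ := sInf {k | ∃ l : List ι, l.length = k ∧ (l.map σ).prod = w}

/-- reduced words -/
noncomputable def red (w : W) : List ι := Classical.epsilon (fun l => l.length = ell σ w ∧ (l.map σ).prod = w)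

theorem ell_le (l : List ι) : ell σ (l.map σ).prod ≤ l.length := Nat.sInf_le ⟨l, rfl, rfl⟩

theorem exists_red (hg : ∀ w : W, ∃ l : List ι, (l.map σ).prod = w) (w : W) :
    ∃ l : List ι, l.length = ell σ w ∧ (l.map σ).prod = w := by
  obtain ⟨l, hl⟩ := hg w
  have := Nat.sInf_mem (s := {k | ∃ l : List ι, l.length = k ∧ (l.map σ).prod = w}) ⟨l.length, l, rfl, hl⟩
  exact this

theorem red_spec (hg : ∀ w : W, ∃ l : List ι, (l.map σ).prod = w) (w : W) :
    (red σ w).length = ell σ w ∧ ((red σ w).map σ).prod = w :=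
  Classical.epsilon_spec (exists_red σ hg w)

open Classical in
/-- left multiplication matrices -/
noncomputable def Lm {R : Type*} [CommRing R] (t : R) (i : ι) : Matrix W W R := fun w v =>
  (if w = σ i * v then (if ell σ v < ell σ (σ i * v) then 1 else t) else 0) +
    (if w = v then (if ell σ v < ell σ (σ i * v) then 0 else t - 1) else 0)

/-- right multiplication matrices -/
noncomputable def Rm {R : Type*} [CommRing R] (t : R) (i : ι) : Matrix W W R := fun w v => Lm σ t i w⁻¹ v⁻¹

theorem Lm_map {R S : Type*} [CommRing R] [CommRing S] (f : R →+* S) (t : R) (i : ι) :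
    (Lm σ t i).map f = Lm σ (f t) i := by
  ext w v
  rw [Matrix.map_apply, Lm, Lm]
  split_ifs <;> simp

theorem Rm_map {R S : Type*} [CommRing R] [CommRing S] (f : R →+* S) (t : R) (i : ι) :
    (Rm σ t i).map f = Rm σ (f t) i := by
  ext w v
  rw [Matrix.map_apply, Rm, Rm, ← Lm_map σ f t i, Matrix.map_apply]

variable [Fintype W]

/-- the equations of the centre -/
noncomputable def Mm {R : Type*} [CommRing R] (t : R) : Matrix (ι × W) W R := fun p v =>
  Lm σ t p.1 p.2 v - Rm σ t p.1 p.2 v

theorem Mm_map {R S : Type*} [CommRing R] [CommRing S] (f : R →+* S) (t : R) :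
    (Mm σ t).map f = Mm σ (f t) := by
  ext w v
  rw [Matrix.map_apply, Mm, Mm, map_sub, ← Lm_map σ f t, ← Rm_map σ f t, Matrix.map_apply, Matrix.map_apply]

theorem Mm_mulVec {R : Type*} [CommRing R] (t : R) (ζ : W → R) :
    Mm σ t *ᵥ ζ = 0 ↔ ∀ i, Lm σ t i *ᵥ ζ = Rm σ t i *ᵥ ζ := by
  constructor
  · intro h i
    ext w
    have := congrFun h (i, w)
    simp only [mulVec, dotProduct, Mm, sub_mul, Finset.sum_sub_distrib, Pi.zero_apply] at this
    exact sub_eq_zero.1 this
  · intro h
    ext ⟨i, w⟩
    have := congrFun (h i) w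
    simp only [mulVec, dotProduct, Mm, sub_mul, Finset.sum_sub_distrib, Pi.zero_apply] at this ⊢
    exact sub_eq_zero.2 this

variable [DecidableEq W]

/-- the symmetrising operator -/
noncomputable def Ph {R : Type*} [CommRing R] (t : R) : Matrix W W R :=
  ∑ w : W, t ^ ((∑ v : W, ell σ v) - ell σ w) • ((red σ w).map (fun i => Lm σ t i * Rm σ t i)).prod

theorem map_list_prod {R S : Type*} [CommRing R] [CommRing S] (f : R →+* S) (t : R) (l : List ι) :
    ((l.map (fun i => Lm σ t i * Rm σ t i)).prod).map f = (l.map (fun i => Lm σ (f t) i * Rm σ (f t) i)).prod := by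
  induction l with
  | nil =>
    rw [List.map_nil, List.prod_nil, List.map_nil, List.prod_nil]
    exact Matrix.map_one f (map_zero f) (map_one f)
  | cons i l ih =>
    rw [List.map_cons, List.prod_cons, List.map_cons, List.prod_cons, Matrix.map_mul, Matrix.map_mul, ih,
      Lm_map, Rm_map]

theorem Ph_map {R S : Type*} [CommRing R] [CommRing S] (f : R →+* S) (t : R) :
    (Ph σ t).map f = Ph σ (f t) := by
  ext w v
  rw [Matrix.map_apply, Ph, Ph, Matrix.sum_apply, Matrix.sum_apply, map_sum]
  refine Finset.sum_congr rfl fun x _ => ?_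
  rw [Matrix.smul_apply, Matrix.smul_apply, smul_eq_mul, smul_eq_mul, map_mul, map_pow, ← map_list_prod σ f t,
    Matrix.map_apply]

end W

end CfsgLib.Hk
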