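import Mathlib
import Cfsg.Agent.LibHk3

set_option autoImplicit false
set_option linter.all false

/-! The Hecke algebra of a BN-pair as the commutant -/

open scoped ComplexConjugate ComplexOrder

namespace CfsgLib.Hk

open Cfsg Matrix CfsgLib.BN CfsgLib.FH

universe u

/-- a BN-pair with Weyl group `W` and constant parameter `t` -/
structure WDat {Γ : Type u} [Group Γ] [Finite Γ] (P : BNPair Γ) {ι W : Type*} [Group W] (σ : ι → W) (t : ℕ) where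
  φ : ↥P.N →* W
  surj : Function.Surjective φ
  ker : ∀ n : ↥P.N, φ n = 1 ↔ (n : Γ) ∈ P.B
  rep : ∀ i, ∃ s : ↥P.N, (s : Γ) ∈ P.S ∧ φ s = σ i
  mem : ∀ s : ↥P.N, (s : Γ) ∈ P.S → ∃ i, φ s = σ i
  par : ∀ s ∈ P.S, q P s = t

namespace WDat

variable {Γ : Type u} [Group Γ] [Finite Γ] {P : BNPair Γ} {ι W : Type*} [Group W] {σ : ι → W} {t : ℕ}
  (d : WDat P σ t)
include d

theorem sq (i : ι) : σ i * σ i = 1 := by
  obtain ⟨s, hs, he⟩ := d.rep i
  rw [← he, ← map_mul, d.ker]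
  exact P.sq_mem _ hs

omit d in
theorem phi_mul (d : WDat P σ t) {a b : Γ} (ha : a ∈ P.N) (hb : b ∈ P.N) :
    d.φ ⟨a * b, P.N.mul_mem ha hb⟩ = d.φ ⟨a, ha⟩ * d.φ ⟨b, hb⟩ := map_mul d.φ ⟨a, ha⟩ ⟨b, hb⟩

theorem phi_eq {n n' : Γ} (hn : n ∈ P.N) (hn' : n' ∈ P.N) : d.φ ⟨n, hn⟩ = d.φ ⟨n', hn'⟩ ↔ n⁻¹ * n' ∈ P.B := by
  rw [← inv_mul_eq_one, ← map_inv, ← map_mul, d.ker]
  rfl

/-- lifting words -/
theorem lift_word (l : List ι) : ∃ l' : List Γ, IsW P l' ∧ l'.length = l.length ∧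
    ∃ h : l'.prod ∈ P.N, d.φ ⟨l'.prod, h⟩ = (l.map σ).prod := by
  induction l with
  | nil => exact ⟨[], IsW_nil P, rfl, P.N.one_mem, map_one d.φ⟩
  | cons i l ih =>
    obtain ⟨l', h1, h2, h3, h4⟩ := ih
    obtain ⟨s, hs, he⟩ := d.rep i
    refine ⟨(s : Γ) :: l', (IsW_cons P).2 ⟨hs, h1⟩, by simp [h2], ?_, ?_⟩
    · rw [List.prod_cons]; exact P.N.mul_mem s.2 h3
    · have e : ((i :: l).map σ).prod = σ i * (l.map σ).prod := by simp
      rw [e, ← he, ← h4, ← map_mul]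
      rfl

theorem drop_word (l' : List Γ) (hl : IsW P l') : ∃ l : List ι, l.length = l'.length ∧
    ∀ h : l'.prod ∈ P.N, d.φ ⟨l'.prod, h⟩ = (l.map σ).prod := by
  induction l' with
  | nil => exact ⟨[], rfl, fun h => map_one d.φ⟩
  | cons s l' ih =>
    obtain ⟨hs, hl'⟩ := (IsW_cons P).1 hl
    obtain ⟨l, h1, h2⟩ := ih hl'
    obtain ⟨i, hi⟩ := d.mem ⟨s, S_N P hs⟩ hs
    refine ⟨i :: l, by simp [h1], fun h => ?_⟩
    have e : ((i :: l).map σ).prod = σ i * (l.map σ).prod := by simp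
    rw [e, ← hi, ← h2 (hl'.prod_N), ← map_mul]
    rfl

theorem gen (w : W) : ∃ l : List ι, (l.map σ).prod = w := by
  obtain ⟨n, rfl⟩ := d.surj w
  obtain ⟨l', h1, h2⟩ := exists_word P n.2
  obtain ⟨l, _, h3⟩ := d.drop_word l' h1
  refine ⟨l, ?_⟩
  rw [← h3 h1.prod_N, d.phi_eq h1.prod_N n.2]
  exact h2

theorem len_eq {n : Γ} (hn : n ∈ P.N) : len P n = ell σ (d.φ ⟨n, hn⟩) := by
  apply le_antisymm
  · obtain ⟨l, h1, h2⟩ := exists_red σ d.gen (d.φ ⟨n, hn⟩)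
    obtain ⟨l', h3, h4, h5, h6⟩ := d.lift_word l
    rw [← h1, ← h4]
    apply len_le P h3
    rw [← d.phi_eq h5 hn, h6, h2]
  · obtain ⟨l', h1, h2, h3⟩ := exists_len P hn
    obtain ⟨l, h4, h5⟩ := d.drop_word l' h1
    rw [← h2, ← h4]
    have : d.φ ⟨n, hn⟩ = (l.map σ).prod := by
      rw [← h5 h1.prod_N]
      exact ((d.phi_eq h1.prod_N hn).2 h3).symm
    rw [this]
    exact ell_le σ l

/-- representatives -/
noncomputable def r (w : W) : Γ := ((d.surj w).choose : Γ)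

theorem r_mem (w : W) : d.r w ∈ P.N := (d.surj w).choose.2

theorem phi_r (w : W) : d.φ ⟨d.r w, d.r_mem w⟩ = w := (d.surj w).choose_spec

theorem len_r (w : W) : len P (d.r w) = ell σ w := by rw [d.len_eq (d.r_mem w), phi_r]

/-- the basis matrices -/
noncomputable def Tw (w : W) : Matrix (Γ ⧸ P.B) (Γ ⧸ P.B) ℂ := T P ℂ (d.r w)

theorem Tw_eq {n : Γ} (hn : n ∈ P.N) {w : W} (h : d.φ ⟨n, hn⟩ = w) : T P ℂ n = d.Tw w := by
  apply T_congr
  rw [← d.phi_eq hn (d.r_mem w), h, phi_r]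

theorem ell_cases (i : ι) (w : W) : ell σ (σ i * w) = ell σ w + 1 ∨ ell σ w = ell σ (σ i * w) + 1 := by
  obtain ⟨s, hs, he⟩ := d.rep i
  have h1 := len_mul_cases P hs (d.r_mem w)
  have h2 : len P ((s : Γ) * d.r w) = ell σ (σ i * w) := by
    rw [d.len_eq (P.N.mul_mem s.2 (d.r_mem w)), d.phi_mul s.2 (d.r_mem w), d.phi_r, ← he]
  rw [h2, d.len_r] at h1
  omega

theorem ell_inv (w : W) : ell σ w⁻¹ = ell σ w := by
  have h := len_inv P (d.r_mem w)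
  rw [d.len_r] at h
  rw [← h, d.len_eq (P.N.inv_mem (d.r_mem w))]
  congr 1
  have e : (⟨(d.r w)⁻¹, P.N.inv_mem (d.r_mem w)⟩ : ↥P.N) = (⟨d.r w, d.r_mem w⟩ : ↥P.N)⁻¹ := rfl
  rw [e, map_inv, d.phi_r]

theorem Tw_mul (i : ι) (w : W) (h : ell σ (σ i * w) = ell σ w + 1) : d.Tw (σ i) * d.Tw w = d.Tw (σ i * w) := by
  obtain ⟨s, hs, he⟩ := d.rep i
  have h0 : d.φ ⟨(s : Γ) * d.r w, P.N.mul_mem s.2 (d.r_mem w)⟩ = σ i * w := by
    rw [d.phi_mul s.2 (d.r_mem w), d.phi_r, ← he]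
  have h2 : len P ((s : Γ) * d.r w) = ell σ (σ i * w) := by
    rw [d.len_eq (P.N.mul_mem s.2 (d.r_mem w)), h0]
  rw [← d.Tw_eq s.2 he, Tw, T_mul P ℂ hs (d.r_mem w) (by rw [h2, d.len_r, h]), d.Tw_eq _ h0]

theorem Tw_sq (i : ι) : d.Tw (σ i) * d.Tw (σ i) = (t : ℂ) • (1 : Matrix (Γ ⧸ P.B) (Γ ⧸ P.B) ℂ) + ((t : ℂ) - 1) • d.Tw (σ i) := by
  obtain ⟨s, hs, he⟩ := d.rep i
  rw [← d.Tw_eq s.2 he, T_sq P ℂ hs, d.par _ hs]

theorem Tw_transpose (w : W) : (d.Tw w)ᵀ = d.Tw w⁻¹ := by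
  rw [Tw, T_transpose, d.Tw_eq (P.N.inv_mem (d.r_mem w))]
  have e : (⟨(d.r w)⁻¹, P.N.inv_mem (d.r_mem w)⟩ : ↥P.N) = (⟨d.r w, d.r_mem w⟩ : ↥P.N)⁻¹ := rfl
  rw [e, map_inv, d.phi_r]

theorem Tw_star (w : W) : (d.Tw w)ᴴ = (d.Tw w)ᵀ := by
  ext x y
  rw [conjTranspose_apply, transpose_apply, Tw, T]
  split_ifs <;> simp

theorem sigma_inv (i : ι) : (σ i)⁻¹ = σ i := inv_eq_of_mul_eq_one_right (d.sq i)

theorem Tw_symm (i : ι) : (d.Tw (σ i))ᵀ = d.Tw (σ i) := by rw [Tw_transpose, d.sigma_inv]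

theorem Tw_mul' (i : ι) (w : W) (h : ell σ w = ell σ (σ i * w) + 1) :
    d.Tw (σ i) * d.Tw w = (t : ℂ) • d.Tw (σ i * w) + ((t : ℂ) - 1) • d.Tw w := by
  have h1 : σ i * (σ i * w) = w := by rw [← mul_assoc, d.sq, one_mul]
  have h2 := d.Tw_mul i (σ i * w) (by rw [h1, h])
  rw [h1] at h2
  nth_rw 1 [← h2]
  rw [← mul_assoc, d.Tw_sq, add_mul, smul_mul_assoc, smul_mul_assoc, one_mul, h2]

/-! the relations -/

theorem rel_ex (x y : Γ ⧸ P.B) : ∃ w, Rel P (d.r w) x y := by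
  obtain ⟨n, hn, h⟩ := bruhat P ((x.out)⁻¹ * y.out)
  refine ⟨d.φ ⟨n, hn⟩, ?_⟩
  rw [← Rel_congr P (n := n)]
  · exact h
  · rw [← d.phi_eq hn (d.r_mem _), d.phi_r]

theorem rel_uniq {w v : W} {x y : Γ ⧸ P.B} (h : Rel P (d.r w) x y) (h' : Rel P (d.r v) x y) : w = v := by
  have := uniq' P (d.r_mem w) (d.r_mem v) h h'
  rw [← d.phi_eq (d.r_mem w) (d.r_mem v), d.phi_r, d.phi_r] at this
  exact this

theorem Tw_comm (w : W) (g : Γ) [Fintype Γ] : d.Tw w * R g = R g * d.Tw w := by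
  ext x y
  rw [mul_R, R_mul_apply, Tw, T, T]
  have : Rel P (d.r w) x (g • y) ↔ Rel P (d.r w) (g⁻¹ • x) y := by
    rw [← Rel_smul P (d.r w) g⁻¹, inv_smul_smul]
  by_cases h : Rel P (d.r w) x (g • y)
  · rw [if_pos h, if_pos (this.1 h)]
  · rw [if_neg h, if_neg (fun h' => h (this.2 h'))]

variable [Fintype W]

/-- coordinates -/
noncomputable def J (ζ : W → ℂ) : Matrix (Γ ⧸ P.B) (Γ ⧸ P.B) ℂ := ∑ w, ζ w • d.Tw w

theorem J_apply (ζ : W → ℂ) {w : W} {x y : Γ ⧸ P.B} (h : Rel P (d.r w) x y) : d.J ζ x y = ζ w := by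
  classical
  rw [J, Matrix.sum_apply, Finset.sum_eq_single w]
  · rw [Matrix.smul_apply, Tw, T, if_pos h, smul_eq_mul, mul_one]
  · intro v _ hv
    rw [Matrix.smul_apply, Tw, T, if_neg (fun h' => hv (d.rel_uniq h' h)), smul_zero]
  · intro h; exact absurd (Finset.mem_univ _) h

theorem rel_r (w : W) : Rel P (d.r w) (QuotientGroup.mk 1) (QuotientGroup.mk (d.r w)) := by
  rw [Rel_mk, inv_one, one_mul]; exact self_mem_C P _

theorem J_inj {ζ η : W → ℂ} (h : d.J ζ = d.J η) : ζ = η := by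
  ext w
  rw [← d.J_apply ζ (d.rel_r w), h, d.J_apply η (d.rel_r w)]

theorem J_surj [Fintype Γ] {X : Matrix (Γ ⧸ P.B) (Γ ⧸ P.B) ℂ} (hX : X ∈ Cm Γ (Γ ⧸ P.B)) : ∃ ζ, X = d.J ζ := by
  refine ⟨fun w => X (QuotientGroup.mk 1) (QuotientGroup.mk (d.r w)), ?_⟩
  have hX' : ∀ (g : Γ) x y, X (g • x) (g • y) = X x y := by
    intro g x y
    have := congrFun (congrFun (hX g) (g • x)) y
    rw [mul_R, R_mul_apply, inv_smul_smul] at this
    exact this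
  ext x y
  obtain ⟨w, hw⟩ := d.rel_ex x y
  rw [d.J_apply _ hw]
  induction x using QuotientGroup.induction_on with
  | H a =>
  induction y using QuotientGroup.induction_on with
  | H c =>
  rw [Rel_mk] at hw
  obtain ⟨b, hb, b', hb', he⟩ := hw
  have h1 : (QuotientGroup.mk a : Γ ⧸ P.B) = (a * b) • (QuotientGroup.mk 1 : Γ ⧸ P.B) := by
    rw [MulAction.Quotient.smul_mk, QuotientGroup.eq]
    simpa using hb
  have h2 : (QuotientGroup.mk c : Γ ⧸ P.B) = (a * b) • (QuotientGroup.mk (d.r w) : Γ ⧸ P.B) := by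
    rw [MulAction.Quotient.smul_mk, QuotientGroup.eq, smul_eq_mul]
    have : c = a * (b * d.r w * b') := by rw [← he]; group
    rw [this]
    have e : (a * (b * d.r w * b'))⁻¹ * (a * b * d.r w) = b'⁻¹ := by group
    rw [e]
    exact P.B.inv_mem hb'
  rw [h1, h2, hX']

theorem J_mem [Fintype Γ] (ζ : W → ℂ) : d.J ζ ∈ Cm Γ (Γ ⧸ P.B) := by
  rw [J]
  apply Submodule.sum_mem
  intro w _
  exact Submodule.smul_mem _ _ (fun g => d.Tw_comm w g)

theorem J_Lm (i : ι) (ζ : W → ℂ) : d.J (Lm σ (t : ℂ) i *ᵥ ζ) = d.Tw (σ i) * d.J ζ := by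
  classical
  have h1 : ∀ v, ∑ w, Lm σ (t : ℂ) i w v • d.Tw w = d.Tw (σ i) * d.Tw v := by
    intro v
    simp only [Lm, add_smul, Finset.sum_add_distrib, ite_smul, zero_smul, Finset.sum_ite_eq', Finset.mem_univ, if_true]
    rcases d.ell_cases i v with h | h
    · rw [if_pos (by omega), if_pos (by omega), one_smul, add_zero, d.Tw_mul i v h]
    · rw [if_neg (by omega), if_neg (by omega), d.Tw_mul' i v h]
  rw [J, J, Finset.mul_sum]
  simp only [mulVec, dotProduct, Finset.sum_smul]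
  rw [Finset.sum_comm]
  refine Finset.sum_congr rfl fun v _ => ?_
  rw [mul_smul_comm, ← h1 v, Finset.smul_sum]
  refine Finset.sum_congr rfl fun w _ => ?_
  rw [mul_comm, mul_smul]

theorem J_inv (ζ : W → ℂ) : (d.J ζ)ᵀ = d.J (fun w => ζ w⁻¹) := by
  rw [J, J, transpose_sum]
  refine Fintype.sum_equiv (Equiv.inv W) _ _ fun w => ?_
  simp only [Equiv.inv_apply, inv_inv, transpose_smul, d.Tw_transpose]

theorem Rm_mulVec (i : ι) (ζ : W → ℂ) :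
    Rm σ (t : ℂ) i *ᵥ ζ = fun w => (Lm σ (t : ℂ) i *ᵥ (fun v => ζ v⁻¹)) w⁻¹ := by
  ext w
  simp only [mulVec, dotProduct, Rm]
  exact Fintype.sum_equiv (Equiv.inv W) _ _ fun v => by simp

theorem J_Rm (i : ι) (ζ : W → ℂ) : d.J (Rm σ (t : ℂ) i *ᵥ ζ) = d.J ζ * d.Tw (σ i) := by
  rw [d.Rm_mulVec, ← d.J_inv, d.J_Lm, transpose_mul, ← d.J_inv, transpose_transpose, d.Tw_symm]

theorem Tw_comm_all {z : Matrix (Γ ⧸ P.B) (Γ ⧸ P.B) ℂ} (hz : ∀ i, z * d.Tw (σ i) = d.Tw (σ i) * z) (w : W) :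
    z * d.Tw w = d.Tw w * z := by
  have key : ∀ (k : ℕ) (w : W), ell σ w = k → z * d.Tw w = d.Tw w * z := by
    intro k
    induction k with
    | zero =>
      intro w hw
      obtain ⟨l, h1, h2⟩ := exists_red σ d.gen w
      rw [hw] at h1
      have h3 : w = 1 := by rw [← h2, List.length_eq_zero_iff.1 h1]; rfl
      subst h3
      have : d.Tw 1 = 1 := by
        rw [← d.Tw_eq P.N.one_mem (map_one d.φ)]
        exact T_one P ℂ
      rw [this, mul_one, one_mul]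
    | succ k ih =>
      intro w hw
      obtain ⟨l, h1, h2⟩ := exists_red σ d.gen w
      cases l with
      | nil => simp at h1; omega
      | cons i l =>
        rw [List.map_cons, List.prod_cons] at h2
        have h3 := ell_le σ l
        rw [List.length_cons] at h1
        have h4 := d.ell_cases i (l.map σ).prod
        rw [h2] at h4
        have h5 : ell σ (l.map σ).prod = k := by omega
        rw [← h2, ← d.Tw_mul i _ (by rw [h2]; omega), ← mul_assoc, hz, mul_assoc, ih _ h5, ← mul_assoc]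
  exact key _ w rfl

theorem mem_ZC_iff [Fintype Γ] (ζ : W → ℂ) : d.J ζ ∈ ZC Γ (Γ ⧸ P.B) ↔ Mm σ (t : ℂ) *ᵥ ζ = 0 := by
  rw [Mm_mulVec]
  constructor
  · rintro ⟨h1, h2⟩ i
    apply d.J_inj
    rw [d.J_Lm, d.J_Rm]
    exact (h2 _ (fun g => d.Tw_comm _ g)).symm
  · intro h
    refine ⟨d.J_mem ζ, fun X hX => ?_⟩
    have h3 : ∀ w, d.J ζ * d.Tw w = d.Tw w * d.J ζ := by
      apply d.Tw_comm_all
      intro i
      rw [← d.J_Lm, ← d.J_Rm, h i]
    obtain ⟨η, rfl⟩ := d.J_surj hX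
    conv_lhs => rw [J.eq_1 d η]
    conv_rhs => rw [J.eq_1 d η]
    rw [Finset.mul_sum, Finset.sum_mul]
    refine Finset.sum_congr rfl fun w _ => ?_
    rw [mul_smul_comm, smul_mul_assoc, h3]

end WDat

end CfsgLib.Hk
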