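import Mathlib
import Cfsg.Agent.LibHk4

set_option autoImplicit false
set_option linter.all false

/-! Counting in the Hecke algebra -/

open scoped ComplexConjugate ComplexOrder

namespace CfsgLib.Hk

open Cfsg Matrix CfsgLib.BN CfsgLib.FH

universe u

namespace WDat

variable {Γ : Type u} [Group Γ] [Finite Γ] {P : BNPair Γ} {ι W : Type*} [Group W] {σ : ι → W} {t : ℕ}
  (d : WDat P σ t) [Fintype W]
include d

theorem J_list [DecidableEq W] (ζ : W → ℂ) (l : List ι) (hl : ell σ (l.map σ).prod = l.length) :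
    d.J ((l.map (fun i => Lm σ (t : ℂ) i * Rm σ (t : ℂ) i)).prod *ᵥ ζ) =
      d.Tw (l.map σ).prod * d.J ζ * (d.Tw (l.map σ).prod)ᵀ := by
  have T1 : d.Tw 1 = 1 := by
    rw [← d.Tw_eq P.N.one_mem (map_one d.φ)]
    exact T_one P ℂ
  induction l with
  | nil => simp [T1]
  | cons i l ih =>
    have h1 : ((i :: l).map σ).prod = σ i * (l.map σ).prod := by simp
    rw [h1, List.length_cons] at hl
    have h3 := ell_le σ l
    have h4 := d.ell_cases i (l.map σ).prod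
    have h5 : ell σ (l.map σ).prod = l.length := by omega
    rw [h1, List.map_cons, List.prod_cons, mul_assoc, ← mulVec_mulVec, d.J_Lm, ← mulVec_mulVec, d.J_Rm, ih h5,
      ← d.Tw_mul i _ (by omega), transpose_mul, d.Tw_symm]
    simp only [mul_assoc]

theorem J_add (ζ η : W → ℂ) : d.J (ζ + η) = d.J ζ + d.J η := by
  simp only [J, Pi.add_apply, add_smul, Finset.sum_add_distrib]

theorem J_smul (c : ℂ) (ζ : W → ℂ) : d.J (c • ζ) = c • d.J ζ := by
  simp only [J, Pi.smul_apply, smul_eq_mul, mul_smul, Finset.smul_sum]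

theorem J_zero : d.J 0 = 0 := by simp [J]

theorem J_sum {κ : Type*} (s : Finset κ) (f : κ → W → ℂ) : d.J (∑ k ∈ s, f k) = ∑ k ∈ s, d.J (f k) := by
  classical
  induction s using Finset.induction_on with
  | empty => simp [d.J_zero]
  | insert a s ha ih => rw [Finset.sum_insert ha, Finset.sum_insert ha, d.J_add, ih]

theorem J_Ph [DecidableEq W] (ζ : W → ℂ) : d.J (Ph σ (t : ℂ) *ᵥ ζ) =
    ∑ w : W, (t : ℂ) ^ ((∑ v : W, ell σ v) - ell σ w) • (d.Tw w * d.J ζ * (d.Tw w)ᵀ) := by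
  rw [Ph, sum_mulVec, d.J_sum]
  refine Finset.sum_congr rfl fun w _ => ?_
  obtain ⟨h1, h2⟩ := red_spec σ d.gen w
  rw [smul_mulVec, d.J_smul, d.J_list ζ (red σ w) (by rw [h2, h1]), h2]

/-- the sum of all entries -/
def sE {Ω : Type*} [Fintype Ω] (M : Matrix Ω Ω ℂ) : ℂ := ∑ x, ∑ y, M x y

omit d in
theorem sE_smul {Ω : Type*} [Fintype Ω] (c : ℂ) (M : Matrix Ω Ω ℂ) : sE (c • M) = c * sE M := by
  simp only [sE, Matrix.smul_apply, smul_eq_mul, Finset.mul_sum]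

theorem q_r (w : W) : (q P (d.r w) : ℂ) = (t : ℂ) ^ ell σ w := by
  have key : ∀ (k : ℕ) (w : W), ell σ w = k → (d.Tw w) *ᵥ (fun _ => (1 : ℂ)) = fun _ => (t : ℂ) ^ k := by
    intro k
    induction k with
    | zero =>
      intro w hw
      obtain ⟨l, h1, h2⟩ := exists_red σ d.gen w
      rw [hw] at h1
      have h3 : w = 1 := by rw [← h2, List.length_eq_zero_iff.1 h1]; rfl
      subst h3
      have T1 : d.Tw 1 = 1 := by
        rw [← d.Tw_eq P.N.one_mem (map_one d.φ)]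
        exact T_one P ℂ
      rw [T1, one_mulVec, pow_zero]
    | succ k ih =>
      intro w hw
      obtain ⟨l, h1, h2⟩ := exists_red σ d.gen w
      cases l with
      | nil => simp at h1; omega
      | cons i l =>
        rw [List.map_cons, List.prod_cons] at h2
        have h3 := ell_le σ l
        rw [List.length_cons] at h1
        have h4 := d.ell_cases i (l.map σ).prod
        rw [h2] at h4
        have h5 : ell σ (l.map σ).prod = k := by omega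
        rw [← h2, ← d.Tw_mul i _ (by rw [h2]; omega), ← mulVec_mulVec, ih _ h5]
        have e : (fun _ => (t : ℂ) ^ k : (Γ ⧸ P.B) → ℂ) = (t : ℂ) ^ k • (fun _ => (1 : ℂ)) := by ext; simp
        obtain ⟨s, hs, he⟩ := d.rep i
        rw [e, mulVec_smul, ← d.Tw_eq s.2 he, T_mulVec, d.par _ hs]
        ext
        simp [pow_succ]
  have h := key _ w rfl
  rw [Tw, T_mulVec] at h
  exact congrFun h (QuotientGroup.mk 1)

theorem sE_Tw (w : W) : sE (d.Tw w) = (Fintype.card (Γ ⧸ P.B) : ℂ) * (t : ℂ) ^ ell σ w := by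
  have h := T_mulVec P ℂ (d.r w)
  rw [sE]
  have h1 : ∀ x, ∑ y, d.Tw w x y = (t : ℂ) ^ ell σ w := by
    intro x
    have := congrFun h x
    simp only [mulVec, dotProduct, mul_one] at this
    rw [Tw, this, d.q_r]
  rw [Finset.sum_congr rfl fun x _ => h1 x, Finset.sum_const, nsmul_eq_mul, Finset.card_univ]

variable [Fintype Γ]

omit d in
theorem Av_single (a b x y : Γ ⧸ P.B) : Av Γ (single a b (1 : ℂ)) x y =
    ∑ g : Γ, if g • a = x ∧ g • b = y then 1 else 0 := by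
  rw [Av, Matrix.sum_apply]
  refine Finset.sum_congr rfl fun g _ => ?_
  rw [mul_R, R_mul_apply, single_apply]
  congr 1
  rw [eq_inv_smul_iff, eq_inv_smul_iff]

omit d in
theorem sE_Av (a b : Γ ⧸ P.B) : sE (Av Γ (single a b (1 : ℂ))) = (Fintype.card Γ : ℂ) := by
  rw [sE]
  simp only [Av_single]
  have h1 : ∀ x : Γ ⧸ P.B, ∑ y, ∑ g : Γ, (if g • a = x ∧ g • b = y then (1 : ℂ) else 0) =
      ∑ g : Γ, ∑ y, (if g • a = x ∧ g • b = y then (1 : ℂ) else 0) := fun x => Finset.sum_comm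
  rw [Finset.sum_congr rfl fun x _ => h1 x, Finset.sum_comm]
  have h2 : ∀ g : Γ, ∑ x, ∑ y, (if g • a = x ∧ g • b = y then (1 : ℂ) else 0) = 1 := by
    intro g
    rw [Finset.sum_eq_single (g • a), Finset.sum_eq_single (g • b)]
    · simp
    · intro y _ hy; rw [if_neg]; rintro ⟨_, h⟩; exact hy h.symm
    · intro h; exact absurd (Finset.mem_univ _) h
    · intro x _ hx
      apply Finset.sum_eq_zero
      intro y _
      rw [if_neg]; rintro ⟨h, _⟩; exact hx h.symm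
    · intro h; exact absurd (Finset.mem_univ _) h
  rw [Finset.sum_congr rfl fun g _ => h2 g]
  simp

theorem Av_eq (ht : (t : ℂ) ≠ 0) {w : W} {a b : Γ ⧸ P.B} (h : Rel P (d.r w) a b) :
    Av Γ (single a b (1 : ℂ)) = ((Fintype.card Γ : ℂ) / ((Fintype.card (Γ ⧸ P.B) : ℂ) * (t : ℂ) ^ ell σ w)) • d.Tw w := by
  classical
  obtain ⟨ζ, hζ⟩ := d.J_surj (Av_mem (G := Γ) (single a b (1 : ℂ)))
  have h1 : ∀ v, v ≠ w → ζ v = 0 := by
    intro v hv
    rw [← d.J_apply ζ (d.rel_r v), ← hζ, Av_single]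
    apply Finset.sum_eq_zero
    intro g _
    rw [if_neg]
    rintro ⟨h2, h3⟩
    apply hv
    apply d.rel_uniq (x := a) (y := b) _ h
    rw [← Rel_smul P _ g, h2, h3]
    exact d.rel_r v
  have h2 : Av Γ (single a b (1 : ℂ)) = ζ w • d.Tw w := by
    rw [hζ, J, Finset.sum_eq_single w]
    · intro v _ hv; rw [h1 v hv, zero_smul]
    · intro h; exact absurd (Finset.mem_univ _) h
  have h3 := sE_Av (Γ := Γ) a b
  rw [h2, sE_smul, d.sE_Tw] at h3
  have h4 : (Fintype.card (Γ ⧸ P.B) : ℂ) ≠ 0 := by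
    haveI : Nonempty (Γ ⧸ P.B) := ⟨QuotientGroup.mk 1⟩
    exact_mod_cast Fintype.card_ne_zero
  rw [h2]
  congr 1
  rw [eq_div_iff (mul_ne_zero h4 (pow_ne_zero _ ht))]
  exact h3

theorem sum_rel (w : W) : ∑ p : (Γ ⧸ P.B) × (Γ ⧸ P.B), d.Tw w p.1 p.2 =
    (Fintype.card (Γ ⧸ P.B) : ℂ) * (t : ℂ) ^ ell σ w := by
  rw [Fintype.sum_prod_type, ← d.sE_Tw, sE]

theorem key_sum (ht : (t : ℂ) ≠ 0) (z : Matrix (Γ ⧸ P.B) (Γ ⧸ P.B) ℂ) :
    ∑ w : W, ((t : ℂ) ^ ell σ w)⁻¹ • (d.Tw w * z * (d.Tw w)ᵀ) =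
      ((Fintype.card (Γ ⧸ P.B) : ℂ) / Fintype.card Γ) • th (fun g : Γ => trace (z * R g⁻¹)) := by
  classical
  have hΩ : (Fintype.card (Γ ⧸ P.B) : ℂ) ≠ 0 := by
    haveI : Nonempty (Γ ⧸ P.B) := ⟨QuotientGroup.mk 1⟩
    exact_mod_cast Fintype.card_ne_zero
  have hΓ : (Fintype.card Γ : ℂ) ≠ 0 := by exact_mod_cast Fintype.card_ne_zero
  have h1 : ∀ p : (Γ ⧸ P.B) × (Γ ⧸ P.B), Av Γ (single p.1 p.2 (1 : ℂ)) * z * (Av Γ (single p.1 p.2 (1 : ℂ)))ᴴ =
      ∑ w : W, d.Tw w p.1 p.2 • ((((Fintype.card Γ : ℂ) / ((Fintype.card (Γ ⧸ P.B) : ℂ) * (t : ℂ) ^ ell σ w)) ^ 2) •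
        (d.Tw w * z * (d.Tw w)ᵀ)) := by
    intro p
    obtain ⟨w, hw⟩ := d.rel_ex p.1 p.2
    rw [Finset.sum_eq_single w]
    · rw [d.Av_eq ht hw, conjTranspose_smul, d.Tw_star, smul_mul_assoc, smul_mul_assoc, mul_smul_comm, smul_smul]
      rw [show d.Tw w p.1 p.2 = 1 by rw [Tw, T, if_pos hw], one_smul]
      congr 1
      rw [pow_two]
      congr 1
      simp
    · intro v _ hv
      rw [show d.Tw v p.1 p.2 = 0 by rw [Tw, T, if_neg (fun h => hv (d.rel_uniq h hw))], zero_smul]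
    · intro h; exact absurd (Finset.mem_univ _) h
  have h2 := key (G := Γ) z
  rw [Finset.sum_congr rfl fun p _ => h1 p, Finset.sum_comm] at h2
  simp only [← Finset.sum_smul, d.sum_rel] at h2
  have h3 : ((Fintype.card (Γ ⧸ P.B) : ℂ) / Fintype.card Γ) • (th (fun g : Γ => trace (z * R g⁻¹)) : Matrix (Γ ⧸ P.B) (Γ ⧸ P.B) ℂ) =
      ((Fintype.card (Γ ⧸ P.B) : ℂ) / (Fintype.card Γ) ^ 2) • ((Fintype.card Γ : ℂ) • (th (fun g : Γ => trace (z * R g⁻¹)) : Matrix (Γ ⧸ P.B) (Γ ⧸ P.B) ℂ)) := by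
    rw [smul_smul]
    congr 1
    field_simp
  rw [h3, ← h2, Finset.smul_sum]
  refine Finset.sum_congr rfl fun w _ => ?_
  rw [smul_smul, smul_smul]
  congr 1
  have := pow_ne_zero (ell σ w) ht
  field_simp

theorem J_Ph' [DecidableEq W] (ht : (t : ℂ) ≠ 0) (ζ : W → ℂ) : d.J (Ph σ (t : ℂ) *ᵥ ζ) =
    ((t : ℂ) ^ (∑ v : W, ell σ v) * ((Fintype.card (Γ ⧸ P.B) : ℂ) / Fintype.card Γ)) •
      th (fun g : Γ => trace (d.J ζ * R g⁻¹)) := by
  rw [mul_smul, ← d.key_sum ht, d.J_Ph, Finset.smul_sum]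
  refine Finset.sum_congr rfl fun w _ => ?_
  rw [smul_smul]
  congr 1
  rw [← pow_sub₀ _ ht (Finset.single_le_sum (f := fun v => ell σ v) (fun _ _ => Nat.zero_le _) (Finset.mem_univ w))]

theorem range_Ph [DecidableEq W] (ht : (t : ℂ) ≠ 0) :
    LinearMap.range (Ph σ (t : ℂ)).mulVecLin = LinearMap.ker (Mm σ (t : ℂ)).mulVecLin := by
  have hΩ : (Fintype.card (Γ ⧸ P.B) : ℂ) ≠ 0 := by
    haveI : Nonempty (Γ ⧸ P.B) := ⟨QuotientGroup.mk 1⟩
    exact_mod_cast Fintype.card_ne_zero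
  have hΓ : (Fintype.card Γ : ℂ) ≠ 0 := by exact_mod_cast Fintype.card_ne_zero
  ext η
  rw [LinearMap.mem_range, LinearMap.mem_ker, mulVecLin_apply, ← d.mem_ZC_iff]
  constructor
  · rintro ⟨ζ, rfl⟩
    rw [mulVecLin_apply, d.J_Ph' ht]
    apply Submodule.smul_mem
    rw [← Im_eq_ZC]
    exact ⟨_, classFun_trace (d.J_mem ζ), rfl⟩
  · intro h
    obtain ⟨z, hz, he⟩ := exists_ZC h
    obtain ⟨ζ, rfl⟩ := d.J_surj hz.1
    set c := ((t : ℂ) ^ (∑ v : W, ell σ v) * ((Fintype.card (Γ ⧸ P.B) : ℂ) / Fintype.card Γ)) with hc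
    have hc0 : c ≠ 0 := mul_ne_zero (pow_ne_zero _ ht) (div_ne_zero hΩ hΓ)
    refine ⟨c⁻¹ • ζ, ?_⟩
    rw [mulVecLin_apply]
    apply d.J_inj
    rw [mulVec_smul, d.J_smul, d.J_Ph' ht, ← hc, smul_smul, inv_mul_cancel₀ hc0, one_smul, ← he]

theorem finrank_ker : Module.finrank ℂ (LinearMap.ker (Mm σ (t : ℂ)).mulVecLin) = Nat.card (Con Γ (Γ ⧸ P.B)) := by
  rw [← finrank_Im, Im_eq_ZC]
  let f : LinearMap.ker (Mm σ (t : ℂ)).mulVecLin →ₗ[ℂ] ZC Γ (Γ ⧸ P.B) :=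
    { toFun := fun ζ => ⟨d.J ζ.1, (d.mem_ZC_iff ζ.1).2 (by
        have := ζ.2
        rw [LinearMap.mem_ker, mulVecLin_apply] at this
        exact this)⟩
      map_add' := fun x y => Subtype.ext (d.J_add _ _)
      map_smul' := fun c x => Subtype.ext (d.J_smul _ _) }
  have hf : Function.Bijective f := by
    constructor
    · intro x y h
      exact Subtype.ext (d.J_inj (congrArg Subtype.val h))
    · rintro ⟨z, hz⟩
      obtain ⟨ζ, rfl⟩ := d.J_surj hz.1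
      refine ⟨⟨ζ, ?_⟩, rfl⟩
      rw [LinearMap.mem_ker, mulVecLin_apply]
      exact (d.mem_ZC_iff ζ).1 hz
  exact (LinearEquiv.ofBijective f hf).finrank_eq

end WDat

end CfsgLib.Hk
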