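import Mathlib
import Cfsg.Agent.LibHk5

set_option autoImplicit false
set_option linter.all false

/-! Specialisation at 1, semicontinuity, and the main theorem -/

open scoped ComplexConjugate ComplexOrder

namespace CfsgLib.Hk

open Cfsg Matrix CfsgLib.BN CfsgLib.FH Polynomial

universe u

/-! ### semicontinuity of the rank -/

theorem exists_rank_fact {m n : Type*} [Fintype m] [Fintype n] [DecidableEq m] [DecidableEq n] (A : Matrix m n ℂ)
    {r : ℕ} (hA : r = A.rank) :
    ∃ (P : Matrix (Fin r) m ℂ) (Q : Matrix n (Fin r) ℂ), P * A * Q = 1 := by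
  let f := Matrix.toLin' A
  have hr : Module.finrank ℂ (LinearMap.range f) = Module.finrank ℂ (Fin r → ℂ) := by
    rw [Module.finrank_fin_fun, hA]; rfl
  let e : LinearMap.range f ≃ₗ[ℂ] (Fin r → ℂ) := LinearEquiv.ofFinrankEq _ _ hr
  have h1 : LinearMap.range (e.toLinearMap.comp f.rangeRestrict) = ⊤ := by
    rw [LinearMap.range_eq_top]
    exact e.surjective.comp f.surjective_rangeRestrict
  obtain ⟨v, hv⟩ := LinearMap.exists_rightInverse_of_surjective _ h1
  obtain ⟨g0, hg0⟩ := LinearMap.exists_leftInverse_of_injective (LinearMap.range f).subtype (Submodule.ker_subtype _)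
  refine ⟨LinearMap.toMatrix' (e.toLinearMap.comp g0), LinearMap.toMatrix' v, ?_⟩
  have h2 : A = LinearMap.toMatrix' f := (LinearMap.toMatrix'_toLin' A).symm
  have h6 : LinearMap.toMatrix' (e.toLinearMap.comp g0) * A * LinearMap.toMatrix' v =
      LinearMap.toMatrix' (((e.toLinearMap.comp g0).comp f).comp v) := by
    rw [LinearMap.toMatrix'_comp, LinearMap.toMatrix'_comp, ← h2]
  rw [h6, ← LinearMap.toMatrix'_id]
  congr 1
  apply LinearMap.ext
  intro x
  have h3 := LinearMap.congr_fun hv x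
  have h4 := LinearMap.congr_fun hg0 (f.rangeRestrict (v x))
  simp only [LinearMap.comp_apply, Submodule.subtype_apply, LinearMap.id_apply, LinearEquiv.coe_coe] at h3 h4 ⊢
  have h5 : (f.rangeRestrict (v x) : m → ℂ) = f (v x) := rfl
  rw [h5] at h4
  rw [h4, h3]

theorem semicont {m n : Type*} [Fintype m] [Fintype n] [DecidableEq m] [DecidableEq n] (A : Matrix m n ℂ[X]) (t₀ : ℂ) :
    ∃ d : ℂ[X], d ≠ 0 ∧ ∀ t : ℂ, d.eval t ≠ 0 →
      (A.map (Polynomial.evalRingHom t₀)).rank ≤ (A.map (Polynomial.evalRingHom t)).rank := by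
  obtain ⟨r, hr⟩ : ∃ r, r = (A.map (Polynomial.evalRingHom t₀)).rank := ⟨_, rfl⟩
  obtain ⟨P, Q, hPQ⟩ := exists_rank_fact (A.map (Polynomial.evalRingHom t₀)) hr
  let d : ℂ[X] := det (P.map C * A * Q.map C)
  have hd : ∀ t, d.eval t = det (P * A.map (Polynomial.evalRingHom t) * Q) := by
    intro t
    have h1 : d.eval t = Polynomial.evalRingHom t d := rfl
    rw [h1, RingHom.map_det]
    congr 1
    rw [RingHom.mapMatrix_apply, Matrix.map_mul, Matrix.map_mul]
    have h3 : (P.map C).map (Polynomial.evalRingHom t) = P := by ext i j; simp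
    have h4 : (Q.map C).map (Polynomial.evalRingHom t) = Q := by ext i j; simp
    rw [h3, h4]
  refine ⟨d, ?_, ?_⟩
  · intro h0
    have := hd t₀
    rw [h0, hPQ, det_one, eval_zero] at this
    exact zero_ne_one this
  · intro t ht
    rw [hd] at ht
    have h1 : (P * A.map (Polynomial.evalRingHom t) * Q).rank = r := by
      rw [rank_of_isUnit _ ((isUnit_iff_isUnit_det _).2 (isUnit_iff_ne_zero.2 ht)), Fintype.card_fin]
    rw [← hr, ← h1]
    exact (rank_mul_le_left _ _).trans (rank_mul_le_right _ _)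

/-! ### specialisation at one -/

section one

variable {ι W : Type*} [Group W] (σ : ι → W) [Fintype W] [DecidableEq W]
  (hs : ∀ i, σ i * σ i = 1) (hg : ∀ w : W, ∃ l : List ι, (l.map σ).prod = w)

omit [DecidableEq W] in
include hs in
theorem Lm_one (i : ι) (ζ : W → ℂ) : Lm σ (1 : ℂ) i *ᵥ ζ = fun w => ζ (σ i * w) := by
  ext w
  rw [mulVec, dotProduct, Finset.sum_eq_single (σ i * w)]
  · simp only [Lm, sub_self, ite_self, add_zero]
    rw [if_pos, one_mul]
    rw [← mul_assoc, hs, one_mul]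
  · intro v _ hv
    simp only [Lm, sub_self, ite_self, add_zero]
    rw [if_neg, zero_mul]
    rintro rfl
    apply hv
    rw [← mul_assoc, hs, one_mul]
  · intro h; exact absurd (Finset.mem_univ _) h

omit [DecidableEq W] in
include hs in
theorem Rm_one (i : ι) (ζ : W → ℂ) : Rm σ (1 : ℂ) i *ᵥ ζ = fun w => ζ (w * σ i) := by
  have h1 : Rm σ (1 : ℂ) i *ᵥ ζ = fun w => (Lm σ (1 : ℂ) i *ᵥ (fun v => ζ v⁻¹)) w⁻¹ := by
    ext w
    simp only [mulVec, dotProduct, Rm]
    exact Fintype.sum_equiv (Equiv.inv W) _ _ fun v => by simp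
  rw [h1, Lm_one σ hs]
  ext w
  have h2 : (σ i)⁻¹ = σ i := inv_eq_of_mul_eq_one_right (hs i)
  simp [h2]

include hs in
theorem list_one (ζ : W → ℂ) (l : List ι) :
    (l.map (fun i => Lm σ (1 : ℂ) i * Rm σ (1 : ℂ) i)).prod *ᵥ ζ =
      fun w => ζ ((l.map σ).prod⁻¹ * w * (l.map σ).prod) := by
  induction l with
  | nil => ext; simp
  | cons i l ih =>
    rw [List.map_cons, List.prod_cons, mul_assoc, ← mulVec_mulVec, ← mulVec_mulVec, ih, Rm_one σ hs, Lm_one σ hs]
    ext w
    have h2 : (σ i)⁻¹ = σ i := inv_eq_of_mul_eq_one_right (hs i)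
    simp [mul_assoc, h2]

include hs hg in
theorem Ph_one (ζ : W → ℂ) : Ph σ (1 : ℂ) *ᵥ ζ = fun v => ∑ w : W, ζ (w⁻¹ * v * w) := by
  rw [Ph, sum_mulVec]
  ext v
  rw [Finset.sum_apply]
  refine Finset.sum_congr rfl fun w _ => ?_
  rw [one_pow, one_smul, list_one σ hs, (red_spec σ hg w).2]

include hs hg in
theorem ker_one (ζ : W → ℂ) : ζ ∈ LinearMap.ker (Mm σ (1 : ℂ)).mulVecLin ↔ ∀ v w, ζ (w⁻¹ * v * w) = ζ v := by
  rw [LinearMap.mem_ker, mulVecLin_apply, Mm_mulVec]
  constructor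
  · intro h v w
    have h1 : ∀ i v, ζ (σ i * v * σ i) = ζ v := by
      intro i v
      have := congrFun (h i) (v * σ i)
      rw [Lm_one σ hs, Rm_one σ hs] at this
      simp only at this
      rw [mul_assoc, this, mul_assoc, hs, mul_one]
    obtain ⟨l, rfl⟩ := hg w
    induction l generalizing v with
    | nil => simp
    | cons i l ih =>
      have h2 : (σ i)⁻¹ = σ i := inv_eq_of_mul_eq_one_right (hs i)
      rw [List.map_cons, List.prod_cons, _root_.mul_inv_rev, h2]
      have e : (l.map σ).prod⁻¹ * σ i * v * (σ i * (l.map σ).prod) = (l.map σ).prod⁻¹ * (σ i * v * σ i) * (l.map σ).prod := by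
        group
      rw [e, ih, h1]
  · intro h i
    rw [Lm_one σ hs, Rm_one σ hs]
    ext w
    have h2 : (σ i)⁻¹ = σ i := inv_eq_of_mul_eq_one_right (hs i)
    have := h (w * σ i) (σ i)
    rw [h2, mul_assoc, mul_assoc, hs, mul_one] at this
    exact this

include hs hg in
theorem range_one : LinearMap.range (Ph σ (1 : ℂ)).mulVecLin = LinearMap.ker (Mm σ (1 : ℂ)).mulVecLin := by
  ext η
  rw [ker_one σ hs hg, LinearMap.mem_range]
  constructor
  · rintro ⟨ζ, rfl⟩ v w
    rw [mulVecLin_apply, Ph_one σ hs hg]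
    refine Fintype.sum_equiv (Equiv.mulLeft w) _ _ fun x => ?_
    simp only [Equiv.coe_mulLeft]
    congr 1
    group
  · intro h
    refine ⟨(Fintype.card W : ℂ)⁻¹ • η, ?_⟩
    rw [mulVecLin_apply, mulVec_smul, Ph_one σ hs hg]
    ext v
    simp only [h, Finset.sum_const, Finset.card_univ, Pi.smul_apply, nsmul_eq_mul, smul_eq_mul]
    rw [← mul_assoc, inv_mul_cancel₀ (by exact_mod_cast Fintype.card_ne_zero), one_mul]

include hs hg in
theorem finrank_one : Module.finrank ℂ (LinearMap.ker (Mm σ (1 : ℂ)).mulVecLin) = Nat.card (ConjClasses W) := by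
  haveI : Finite (ConjClasses W) := inferInstance
  haveI := Fintype.ofFinite (ConjClasses W)
  let f : (ConjClasses W → ℂ) →ₗ[ℂ] LinearMap.ker (Mm σ (1 : ℂ)).mulVecLin :=
    { toFun := fun φ => ⟨fun w => φ (ConjClasses.mk w), by
        rw [ker_one σ hs hg]
        intro v w
        congr 1
        rw [ConjClasses.mk_eq_mk_iff_isConj, isConj_iff]
        exact ⟨w, by group⟩⟩
      map_add' := fun x y => rfl
      map_smul' := fun c x => rfl }
  have hf : Function.Bijective f := by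
    constructor
    · intro x y h
      ext c
      induction c using Quotient.inductionOn with
      | h w => exact congrFun (congrArg Subtype.val h) w
    · rintro ⟨ζ, hζ⟩
      rw [ker_one σ hs hg] at hζ
      refine ⟨fun c => Quotient.lift ζ (fun a b hab => ?_) c, ?_⟩
      · have hab' : IsConj a b := hab
        obtain ⟨c, hc⟩ := isConj_iff.1 hab'
        have := hζ b c
        rw [← this, ← hc]
        congr 1
        group
      · rfl
  rw [← (LinearEquiv.ofBijective f hf).finrank_eq, Module.finrank_fintype_fun_eq_card, Nat.card_eq_fintype_card]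

end one

/-! ### the main theorem -/

theorem rank_add {m n : Type*} [Fintype m] [Fintype n] [DecidableEq n] (A : Matrix m n ℂ) :
    A.rank + Module.finrank ℂ (LinearMap.ker A.mulVecLin) = Fintype.card n := by
  have := LinearMap.finrank_range_add_finrank_ker A.mulVecLin
  rw [Module.finrank_fintype_fun_eq_card] at this
  exact this

/-- ranks of the two matrices at a good point -/
def GoodPt {ι W : Type*} [Group W] (σ : ι → W) [Fintype W] [DecidableEq W] (t : ℂ) : Prop :=
  LinearMap.range (Ph σ t).mulVecLin = LinearMap.ker (Mm σ t).mulVecLin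

theorem good_eq {ι W : Type*} [Fintype ι] [Group W] (σ : ι → W) [Fintype W] [DecidableEq W]
    (hgen : ∀ d : ℂ[X], d ≠ 0 → ∃ t : ℂ, d.eval t ≠ 0 ∧ GoodPt σ t) {t₀ t₁ : ℂ} (h0 : GoodPt σ t₀) (h1 : GoodPt σ t₁) :
    Module.finrank ℂ (LinearMap.ker (Mm σ t₀).mulVecLin) = Module.finrank ℂ (LinearMap.ker (Mm σ t₁).mulVecLin) := by
  classical
  obtain ⟨d1, n1, H1⟩ := semicont (Mm σ (X : ℂ[X])) t₀
  obtain ⟨d2, n2, H2⟩ := semicont (Mm σ (X : ℂ[X])) t₁
  obtain ⟨d3, n3, H3⟩ := semicont (Ph σ (X : ℂ[X])) t₀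
  obtain ⟨d4, n4, H4⟩ := semicont (Ph σ (X : ℂ[X])) t₁
  obtain ⟨t, ht, hgd⟩ := hgen (d1 * d2 * d3 * d4) (mul_ne_zero (mul_ne_zero (mul_ne_zero n1 n2) n3) n4)
  simp only [eval_mul, mul_ne_zero_iff] at ht
  obtain ⟨⟨⟨e1, e2⟩, e3⟩, e4⟩ := ht
  have H1' := H1 t e1
  have H2' := H2 t e2
  have H3' := H3 t e3
  have H4' := H4 t e4
  rw [Mm_map, Mm_map] at H1' H2'
  rw [Ph_map, Ph_map] at H3' H4'
  simp only [coe_evalRingHom, eval_X] at H1' H2' H3' H4'
  have k : ∀ s : ℂ, GoodPt σ s → (Ph σ s).rank = Module.finrank ℂ (LinearMap.ker (Mm σ s).mulVecLin) := by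
    intro s hs
    rw [← hs]; rfl
  have k0 := k _ h0
  have k1 := k _ h1
  have k2 := k _ hgd
  have a0 := rank_add (Mm σ t₀)
  have a1 := rank_add (Mm σ t₁)
  have a2 := rank_add (Mm σ t)
  omega

theorem main {ι W : Type*} [Fintype ι] [Group W] [Finite W] (σ : ι → W)
    {Γ : Type u} [Group Γ] [Fintype Γ] {P : BNPair Γ} {t : ℕ} (ht : t ≠ 0) (d : WDat P σ t)
    (hk : ∀ k : ℕ, k ≠ 0 → ∃ (Γ' : Type) (_ : Group Γ') (_ : Finite Γ') (P' : BNPair Γ'), Nonempty (WDat P' σ (2 ^ k))) :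
    Nat.card (Con Γ (Γ ⧸ P.B)) = Nat.card (ConjClasses W) := by
  classical
  haveI := Fintype.ofFinite W
  have hgen : ∀ p : ℂ[X], p ≠ 0 → ∃ t : ℂ, p.eval t ≠ 0 ∧ GoodPt σ t := by
    intro p hp
    have h1 : ∃ k : ℕ, k ≠ 0 ∧ p.eval ((2 : ℂ) ^ k) ≠ 0 := by
      by_contra hcon
      push Not at hcon
      apply hp
      apply Polynomial.eq_zero_of_infinite_isRoot
      apply Set.infinite_of_injective_forall_mem (f := fun k : ℕ => (2 : ℂ) ^ (k + 1))
      · intro a b hab
        have h3 : (2 : ℂ) ^ (a + 1) = 2 ^ (b + 1) := hab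
        have h2 : (2 : ℕ) ^ (a + 1) = 2 ^ (b + 1) := by exact_mod_cast h3
        have := Nat.pow_right_injective le_rfl h2
        omega
      · intro k
        exact hcon (k + 1) (by omega)
    obtain ⟨k, hk0, hk1⟩ := h1
    obtain ⟨Γ', i1, i2, P', ⟨d'⟩⟩ := hk k hk0
    refine ⟨(2 : ℂ) ^ k, hk1, ?_⟩
    haveI := Fintype.ofFinite Γ'
    have := d'.range_Ph (by push_cast; exact pow_ne_zero _ two_ne_zero)
    rw [GoodPt]
    push_cast at this
    exact this
  have h1 : GoodPt σ (t : ℂ) := d.range_Ph (by exact_mod_cast ht)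
  have h2 : GoodPt σ (1 : ℂ) := range_one σ d.sq d.gen
  rw [← d.finrank_ker, ← finrank_one σ d.sq d.gen]
  exact good_eq σ hgen h1 h2

end CfsgLib.Hk
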