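import Mathlib
import Cfsg.Agent.LibHk6
import Cfsg.Agent.LibChevBP
import Cfsg.Agent.LibChevCox2

set_option autoImplicit false
set_option linter.all false

/-! Chevalley groups -/

namespace CfsgLib.Hk

open Cfsg Matrix CfsgLib.BN CfsgLib.FH CfsgLib.Chev Cfsg.Lie

section

variable {D : ChevalleyDatum} {T : Tb} (g : Good3 D T) {F : Type*} [Field F]
include g

theorem Up_nn' {i : ℕ} (hi : i < T.l) {y : GL D.Idx F} (hy : y ∈ g.Up i) : (g.nn i)⁻¹ * y * g.nn i ∈ g.Up i := by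
  have h1 := g.Up_H (Subgroup.inv_mem _ (g.nn_sq_mem (F := F) hi)) hy
  have h2 := g.Up_nn hi h1
  have e : g.nn i * ((g.nn i * g.nn i)⁻¹ * y * (g.nn i * g.nn i)⁻¹⁻¹) * (g.nn i)⁻¹ = (g.nn i)⁻¹ * y * g.nn i := by group
  rwa [e] at h2

/-- `B` modulo `B ∩ sBs⁻¹` -/
theorem B_cos {i : ℕ} (hi : i < T.l) {b : GL D.Idx F} (hb : b ∈ D.borelSubgroup F) :
    ∃ t : F, (g.nn i)⁻¹ * (g.X (T.sim i) t)⁻¹ * b * g.nn i ∈ D.borelSubgroup F := by
  obtain ⟨u, hu, h, hh, rfl⟩ := g.mem_B.1 hb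
  obtain ⟨y, hy, t, rfl⟩ := (g.U_decomp hi).1 hu
  refine ⟨t, ?_⟩
  have h1 := g.Up_norm hi (Or.inl rfl) (-t) hy
  rw [g.X_neg, inv_inv] at h1
  have h2 := Up_nn' g hi h1
  have h3 := g.nn_H' hi hh
  have e : (g.nn i)⁻¹ * (g.X (T.sim i) t)⁻¹ * (y * g.X (T.sim i) t * h) * g.nn i =
      ((g.nn i)⁻¹ * ((g.X (T.sim i) t)⁻¹ * y * g.X (T.sim i) t) * g.nn i) * ((g.nn i)⁻¹ * h * g.nn i) := by group
  rw [e]
  exact Subgroup.mul_mem _ (Good3.U_le_B (g.Up_le_U i h2)) (Good3.H_le_B h3)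

theorem X_cos {i : ℕ} (hi : i < T.l) {a b : F}
    (h : (g.X (T.sim i) a * g.nn i)⁻¹ * (g.X (T.sim i) b * g.nn i) ∈ D.borelSubgroup F) : a = b := by
  have hev := g.even
  have hsl := g.sim_lt hi
  have hsp := g.sim_pos hi
  have e : (g.X (T.sim i) a * g.nn i)⁻¹ * (g.X (T.sim i) b * g.nn i) =
      (g.nn i)⁻¹ * g.X (T.sim i) (-a + b) * g.nn i := by
    rw [g.X_add, g.X_neg]; group
  rw [e, g.nn_X_conj' hi hsl, g.w_sim hi] at h
  have h1 := g.B_inf_V h (g.X_mem_V (by omega) _)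
  rw [g.X_eq_one (by omega)] at h1
  rcases mul_eq_zero.1 h1 with h2 | h2
  · exfalso
    have h3 : ((T.eta i (T.n - 1 - T.sim i) : ℤ) : F) * ((T.eta i (T.n - 1 - T.sim i) : ℤ) : F) = 1 :=
      Good.eta_cast_mul_self ..
    rw [h2, mul_zero] at h3
    exact zero_ne_one h3
  · rw [neg_add_eq_zero] at h2
    exact h2

theorem q_eq_card [Finite (D.group F)] [Fintype F] {P : BNPair ↥(D.group F)} (hB : P.B = (D.borelSubgroup F).subgroupOf (D.group F))
    (hS : P.S = {n : ↥(D.group F) | ∃ i < T.l, (n : GL D.Idx F) = g.nn i}) (s : ↥(D.group F)) (hs : s ∈ P.S) :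
    q P s = Fintype.card F := by
  classical
  have hs' := hs
  rw [hS] at hs'
  obtain ⟨i, hi, he⟩ := hs'
  rw [q, ← Finset.card_univ (α := F)]
  symm
  let x : F → ↥(D.group F) := fun a => ⟨g.X (T.sim i) a, g.X_mem_G _ _⟩
  have hxB : ∀ a, x a ∈ P.B := by
    intro a
    rw [hB, Subgroup.mem_subgroupOf]
    exact Good3.U_le_B (g.X_mem_U (g.sim_pos hi) (g.sim_lt hi) a)
  refine Finset.card_bij (fun a _ => QuotientGroup.mk (x a * s)) ?_ ?_ ?_
  · intro a _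
    simp only [Finset.mem_filter, Finset.mem_univ, true_and]
    rw [Rel_mk, inv_one, one_mul, C_mul_left P (hxB a)]
    exact self_mem_C P s
  · intro a _ b _ h
    rw [QuotientGroup.eq, hB, Subgroup.mem_subgroupOf] at h
    apply X_cos g hi
    have e : (((x a * s)⁻¹ * (x b * s) : ↥(D.group F)) : GL D.Idx F) =
        (g.X (T.sim i) a * g.nn i)⁻¹ * (g.X (T.sim i) b * g.nn i) := by
      rw [← he]; rfl
    rw [← e]; exact h
  · intro y hy
    simp only [Finset.mem_filter, Finset.mem_univ, true_and] at hy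
    induction y using QuotientGroup.induction_on with
    | H c =>
    rw [Rel_mk, inv_one, one_mul] at hy
    obtain ⟨b, hb, b', hb', hc⟩ := hy
    have hb2 := hb
    rw [hB, Subgroup.mem_subgroupOf] at hb2
    obtain ⟨t, ht⟩ := B_cos g hi hb2
    refine ⟨t, Finset.mem_univ _, ?_⟩
    rw [QuotientGroup.eq, hc]
    have e : (x t * s)⁻¹ * (b * s * b') = (s⁻¹ * (x t)⁻¹ * b * s) * b' := by group
    rw [e]
    apply P.B.mul_mem _ hb'
    rw [hB, Subgroup.mem_subgroupOf]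
    have e2 : ((s⁻¹ * (x t)⁻¹ * b * s : ↥(D.group F)) : GL D.Idx F) =
        (g.nn i)⁻¹ * (g.X (T.sim i) t)⁻¹ * (b : GL D.Idx F) * g.nn i := by
      rw [← he]; rfl
    rw [e2]; exact ht

theorem exists_WDat [Finite (D.group F)] [Fintype F] {M : CoxeterMatrix (Fin T.l)}
    (hM : ∀ i j : Fin T.l, chkOrd T [(i : ℕ), (j : ℕ)] (M i j) = true) :
    ∃ P : BNPair ↥(D.group F), P.B = (D.borelSubgroup F).subgroupOf (D.group F) ∧
      Nonempty (WDat P M.simple (Fintype.card F)) := by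
  obtain ⟨P, hB, hN, hS⟩ := g.exists_BN (F := F)
  obtain ⟨φ, h1, h2, h3⟩ := g.exists_NW (F := F) hM
  have hmem : ∀ n : ↥P.N, ((n : ↥(D.group F)) : GL D.Idx F) ∈ D.monomialSubgroup F := by
    rintro ⟨n, hn⟩
    have := hn
    rw [hN, Subgroup.mem_subgroupOf] at this
    exact this
  let ψ : ↥P.N →* ↥(D.monomialSubgroup F) :=
    { toFun := fun n => ⟨((n : ↥(D.group F)) : GL D.Idx F), hmem n⟩
      map_one' := rfl
      map_mul' := fun _ _ => rfl }
  refine ⟨P, hB, ⟨{ φ := φ.comp ψ, surj := ?_, ker := ?_, rep := ?_, mem := ?_, par := ?_ }⟩⟩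
  · apply h1.comp
    intro y
    refine ⟨⟨⟨(y : GL D.Idx F), g.N_le_G y.2⟩, ?_⟩, rfl⟩
    rw [hN, Subgroup.mem_subgroupOf]
    exact y.2
  · intro n
    rw [MonoidHom.comp_apply, ← MonoidHom.mem_ker, h2, Subgroup.mem_subgroupOf, hB, Subgroup.mem_subgroupOf]
    show ((n : ↥(D.group F)) : GL D.Idx F) ∈ D.diagonalSubgroup F ↔ _
    rw [← g.B_inf_N]
    exact ⟨fun h => h.1, fun h => ⟨h, hmem n⟩⟩
  · intro i
    have hi : (i : ℕ) < T.l := i.2
    have h4 : (⟨g.nn (F := F) i, g.Ng_mem_G _ _⟩ : ↥(D.group F)) ∈ P.S := by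
      rw [hS]; exact ⟨i, hi, rfl⟩
    refine ⟨⟨⟨g.nn (F := F) i, g.Ng_mem_G _ _⟩, P.subset h4⟩, h4, ?_⟩
    rw [MonoidHom.comp_apply]
    apply h3
    rw [g.simple i hi, g.nMat_iff (g.sim_lt hi)]
    rfl
  · intro s hs
    rw [hS] at hs
    obtain ⟨i, hi, he⟩ := hs
    refine ⟨⟨i, hi⟩, ?_⟩
    rw [MonoidHom.comp_apply]
    apply h3
    rw [g.simple i hi, g.nMat_iff (g.sim_lt hi)]
    exact he
  · intro s hs
    exact q_eq_card g hB hS s hs

end

theorem chev_card {D : ChevalleyDatum} {T : Tb} (g : Good3 D T) {F : Type*} [Field F] [Fintype F] {M : CoxeterMatrix (Fin T.l)}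
    (hM : ∀ i j : Fin T.l, chkOrd T [(i : ℕ), (j : ℕ)] (M i j) = true) :
    Nat.card {χ : Cfsg.IrrCharacter ↥(D.group F) //
      ∃ φ : ↥(D.group F) → ℂ, Cfsg.IsCharacter ↥(D.group F) φ ∧
        Cfsg.fixedPointCharacter ((D.borelSubgroup F).subgroupOf (D.group F)) = (χ : ↥(D.group F) → ℂ) + φ} =
      Nat.card (ConjClasses M.Group) := by
  haveI : Finite ↥(D.group F) := inferInstance
  haveI := Fintype.ofFinite ↥(D.group F)
  haveI : Finite M.Group := Nat.finite_of_card_ne_zero (by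
    rw [g.card_cox hM]
    exact Nat.card_pos.ne')
  obtain ⟨P, hB, ⟨d⟩⟩ := exists_WDat g (F := F) hM
  rw [← hB]
  have h1 := card_Con (G := ↥(D.group F)) (Ω := ↥(D.group F) ⧸ P.B)
  have h2 : pc ↥(D.group F) (↥(D.group F) ⧸ P.B) = Cfsg.fixedPointCharacter P.B := rfl
  rw [h2] at h1
  rw [← h1]
  apply main M.simple _ d
  · intro k hk
    haveI : Fact (Nat.Prime 2) := ⟨Nat.prime_two⟩
    haveI := Fintype.ofFinite (GaloisField 2 k)
    haveI : Finite ↥(D.group (GaloisField 2 k)) := inferInstance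
    obtain ⟨P', _, h4⟩ := exists_WDat g (F := GaloisField 2 k) hM
    refine ⟨_, inferInstance, inferInstance, P', ?_⟩
    have : Fintype.card (GaloisField 2 k) = 2 ^ k := by
      rw [← Nat.card_eq_fintype_card, GaloisField.card 2 k hk]
    rw [← this]; exact h4
  · exact Fintype.card_ne_zero

end CfsgLib.Hk
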