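import Mathlib

/-!
# Homocyclic Sylow 2-subgroups of rank 2: combinatorics and arithmetic (helper17)
-/

set_option autoImplicit false
set_option linter.unusedSectionVars false
set_option linter.style.haveILetI false
set_option linter.unusedSimpArgs false

namespace CfsgLib.Homo

theorem arith_pos {a b : ℤ} (ha : 0 < a) (hb : 0 < b)
    (h : (1 + a + b) * (a * b + a + b) = 9 * (a * b)) : a = 1 ∧ b = 1 := by
  by_cases hab : a = b
  · subst hab
    have h1 : a * ((2 * a + 1) * (a + 2) - 9 * a) = 0 := by linear_combination h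
    rcases mul_eq_zero.1 h1 with h2 | h2
    · omega
    · have h3 : 2 * ((a - 1) * (a - 1)) = 0 := by linear_combination h2
      have h5 : (a - 1) * (a - 1) = 0 := by omega
      have h4 : a - 1 = 0 := by simpa using h5
      omega
  · exfalso
    have h1 : 0 < (a - b) ^ 2 := by positivity
    have h2 : 0 ≤ a * (b - 1) ^ 2 := by positivity
    have h3 : 0 ≤ b * (a - 1) ^ 2 := by positivity
    nlinarith

theorem arith_neg {a b : ℤ} (ha : a ≤ -15) (hb : b ≤ -15)
    (h : (1 + a + b) * (a * b + a + b) = 9 * (a * b)) : False := by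
  have h1 : 0 < a * b := by nlinarith
  have h2 : 0 < a * b + a + b := by nlinarith
  have h3 : (1 + a + b) * (a * b + a + b) < 0 := by nlinarith
  linarith

theorem arith_mix {a b : ℤ} (ha : a ≤ -15) (hb : 0 < b) (hw : (16 : ℤ) ∣ (1 + a + b) - 3)
    (h : (1 + a + b) * (a * b + a + b) = 9 * (a * b)) : False := by
  obtain ⟨c, rfl⟩ : ∃ c, a = -c := ⟨-a, by ring⟩
  have hc : 15 ≤ c := by linarith
  have h' : (1 - c + b) * (c * b + c - b) = 9 * (c * b) := by linear_combination -h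
  have h1 : 0 < c * b + c - b := by nlinarith
  have h2 : 0 < c * b := by positivity
  have h3 : 0 < 1 - c + b := by
    by_contra hcon
    push Not at hcon
    have : (1 - c + b) * (c * b + c - b) ≤ 0 := mul_nonpos_of_nonpos_of_nonneg hcon h1.le
    linarith
  obtain ⟨k, hk⟩ := hw
  have h4 : 1 - c + b = 3 + 16 * k := by linarith
  have hk0 : 0 ≤ k := by omega
  rcases Nat.eq_zero_or_pos k.toNat with hk1 | hk1
  · have hk2 : k = 0 := by omega
    rw [hk2] at h4
    have h5 : 1 - c + b = 3 := by linarith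
    rw [h5] at h'
    nlinarith
  · have hk2 : 1 ≤ k := by omega
    have h5 : 19 ≤ 1 - c + b := by linarith
    have h6 : 19 * (c * b + c - b) ≤ 9 * (c * b) := by
      rw [← h']
      exact mul_le_mul_of_nonneg_right h5 h1.le
    nlinarith

theorem arith {a b : ℤ} (ha : (16 : ℤ) ∣ a - 1) (hb : (16 : ℤ) ∣ b - 1)
    (h : (1 + a + b) * (a * b + a + b) = 9 * (a * b)) : a = 1 ∧ b = 1 := by
  obtain ⟨k, hk⟩ := ha
  obtain ⟨l, hl⟩ := hb
  rcases lt_or_ge 0 a with h1 | h1 <;> rcases lt_or_ge 0 b with h2 | h2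
  · exact arith_pos h1 h2 h
  · exact (arith_mix (a := b) (b := a) (by omega) h1 ⟨k + l, by linarith⟩
      (by linear_combination h)).elim
  · exact (arith_mix (a := a) (b := b) (by omega) h2 ⟨k + l, by linarith⟩ h).elim
  · exact (arith_neg (by omega) (by omega) h).elim

/-! ### Vectors of norm 4 with mutual inner products 3 -/

section Sun
variable {I L : Type*} [DecidableEq I] (B : Finset I) (c : I → L → ℤ)

theorem sq_small {n : ℤ} (h : n * n ≤ 3) : n = 0 ∨ n = 1 ∨ n = -1 := by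
  have h1 : n ≤ 1 := by nlinarith
  have h2 : -1 ≤ n := by nlinarith
  omega

/-- support -/
def supp (l : L) : Finset I := B.filter (fun i => c i l ≠ 0)

theorem mem_supp {l : L} {i : I} : i ∈ supp B c l ↔ i ∈ B ∧ c i l ≠ 0 := Finset.mem_filter

variable {B c}

theorem entry (h3 : ∀ l, ∑ i ∈ B, c i l * c i l = 3) {i : I} (hi : i ∈ B) (l : L) :
    c i l = 0 ∨ c i l = 1 ∨ c i l = -1 := by
  apply sq_small
  rw [← h3 l]
  exact Finset.single_le_sum (f := fun i => c i l * c i l) (fun j _ => mul_self_nonneg _) hi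

theorem card_supp (h3 : ∀ l, ∑ i ∈ B, c i l * c i l = 3) (l : L) : (supp B c l).card = 3 := by
  have h1 : ((supp B c l).card : ℤ) = ∑ i ∈ B, c i l * c i l := by
    rw [supp, Finset.card_filter]
    push_cast
    refine Finset.sum_congr rfl fun i hi => ?_
    rcases entry h3 hi l with h | h | h <;> simp [h]
  rw [h3 l] at h1
  exact_mod_cast h1

theorem inter_card (h3 : ∀ l, ∑ i ∈ B, c i l * c i l = 3) {l l' : L}
    (h2 : ∑ i ∈ B, c i l * c i l' = 2) :
    (supp B c l ∩ supp B c l').card = 2 ∧ ∀ i ∈ supp B c l ∩ supp B c l', c i l = c i l' := by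
  have e1 : ∑ i ∈ B, c i l * c i l' = ∑ i ∈ supp B c l ∩ supp B c l', c i l * c i l' := by
    symm
    apply Finset.sum_subset
    · intro i hi
      exact ((mem_supp B c).1 (Finset.mem_inter.1 hi).1).1
    · intro i hi hn
      rw [Finset.mem_inter, mem_supp, mem_supp] at hn
      by_contra hne
      exact hn ⟨⟨hi, left_ne_zero_of_mul hne⟩, ⟨hi, right_ne_zero_of_mul hne⟩⟩
  have hval : ∀ i ∈ supp B c l ∩ supp B c l', c i l * c i l' = 1 ∨ c i l * c i l' = -1 := by
    intro i hi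
    obtain ⟨h4, h5⟩ := Finset.mem_inter.1 hi
    rw [mem_supp] at h4 h5
    rcases entry h3 h4.1 l with h | h | h <;> rcases entry h3 h4.1 l' with h' | h' | h' <;>
      simp_all
  rw [e1] at h2
  -- the number of +1 and -1 entries
  have hsum : ∑ i ∈ supp B c l ∩ supp B c l', (1 - c i l * c i l') =
      (supp B c l ∩ supp B c l').card - 2 := by
    rw [Finset.sum_sub_distrib, h2]; simp
  have hcard : (supp B c l ∩ supp B c l').card ≤ 3 := by
    rw [← card_supp h3 l]
    exact Finset.card_le_card Finset.inter_subset_left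
  have hdvd : (2 : ℤ) ∣ ∑ i ∈ supp B c l ∩ supp B c l', (1 - c i l * c i l') := by
    refine Finset.dvd_sum fun i hi => ?_
    rcases hval i hi with h | h <;> rw [h] <;> norm_num
  have hnn : ∀ i ∈ supp B c l ∩ supp B c l', 0 ≤ 1 - c i l * c i l' := by
    intro i hi
    rcases hval i hi with h | h <;> rw [h] <;> norm_num
  have hge : 0 ≤ ∑ i ∈ supp B c l ∩ supp B c l', (1 - c i l * c i l') := Finset.sum_nonneg hnn
  have hc2 : (supp B c l ∩ supp B c l').card = 2 := by
    rw [hsum] at hdvd hge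
    omega
  refine ⟨hc2, fun i hi => ?_⟩
  rw [hsum, hc2] at hge
  have h0 : ∑ i ∈ supp B c l ∩ supp B c l', (1 - c i l * c i l') = 0 := by rw [hsum, hc2]; norm_num
  have h6 := (Finset.sum_eq_zero_iff_of_nonneg hnn).1 h0 i hi
  obtain ⟨h4, h5⟩ := Finset.mem_inter.1 hi
  rw [mem_supp] at h4 h5
  rcases entry h3 h4.1 l with h | h | h <;> rcases entry h3 h4.1 l' with h' | h' | h' <;>
    simp_all

/-- a family of 3-sets pairwise meeting in 2 points, with at least 5 members, is a sunflower -/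
theorem sunflower_sets {S : L → Finset I} (r : L → L → Prop) (hS : ∀ l, (S l).card = 3)
    (hr : ∀ l l', r l l' → S l = S l')
    (hn : ∀ l l', ¬ r l l' → (S l ∩ S l').card = 2)
    (h5 : ∀ l1 l2 l3 l4, ∃ l5, ¬ r l1 l5 ∧ ¬ r l2 l5 ∧ ¬ r l3 l5 ∧ ¬ r l4 l5) [Nonempty L] :
    ∃ a b, a ≠ b ∧ ∀ l, a ∈ S l ∧ b ∈ S l := by
  obtain ⟨l1⟩ := ‹Nonempty L›
  obtain ⟨l2, h12, -⟩ := h5 l1 l1 l1 l1
  obtain ⟨a, b, hab, hI⟩ := Finset.card_eq_two.1 (hn l1 l2 h12)
  have ha1 : a ∈ S l1 ∩ S l2 := by rw [hI]; simp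
  have hb1 : b ∈ S l1 ∩ S l2 := by rw [hI]; simp
  rw [Finset.mem_inter] at ha1 hb1
  obtain ⟨x, hx, hx1⟩ : ∃ x, (x ≠ a ∧ x ≠ b) ∧ S l1 = {a, b, x} := by
    have h1 : ((S l1).erase a |>.erase b).card = 1 := by
      rw [Finset.card_erase_of_mem, Finset.card_erase_of_mem ha1.1, hS]
      exact Finset.mem_erase.2 ⟨hab.symm, hb1.1⟩
    obtain ⟨x, hx⟩ := Finset.card_eq_one.1 h1
    have h2 : x ∈ ((S l1).erase a).erase b := by rw [hx]; simp
    simp only [Finset.mem_erase] at h2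
    refine ⟨x, ⟨h2.2.1, h2.1⟩, ?_⟩
    symm
    apply Finset.eq_of_subset_of_card_le
    · intro t ht
      simp only [Finset.mem_insert, Finset.mem_singleton] at ht
      rcases ht with rfl | rfl | rfl
      exacts [ha1.1, hb1.1, h2.2.2]
    · rw [hS, Finset.card_eq_three.2 ⟨a, b, x, hab, h2.2.1.symm, h2.1.symm, rfl⟩]
  obtain ⟨y, hy, hy1⟩ : ∃ x, (x ≠ a ∧ x ≠ b) ∧ S l2 = {a, b, x} := by
    have h1 : ((S l2).erase a |>.erase b).card = 1 := by
      rw [Finset.card_erase_of_mem, Finset.card_erase_of_mem ha1.2, hS]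
      exact Finset.mem_erase.2 ⟨hab.symm, hb1.2⟩
    obtain ⟨x, hx⟩ := Finset.card_eq_one.1 h1
    have h2 : x ∈ ((S l2).erase a).erase b := by rw [hx]; simp
    simp only [Finset.mem_erase] at h2
    refine ⟨x, ⟨h2.2.1, h2.1⟩, ?_⟩
    symm
    apply Finset.eq_of_subset_of_card_le
    · intro t ht
      simp only [Finset.mem_insert, Finset.mem_singleton] at ht
      rcases ht with rfl | rfl | rfl
      exacts [ha1.2, hb1.2, h2.2.2]
    · rw [hS, Finset.card_eq_three.2 ⟨a, b, x, hab, h2.2.1.symm, h2.1.symm, rfl⟩]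
  have hxy : x ≠ y := by
    rintro rfl
    have h1 := hn l1 l2 h12
    rw [hx1, hy1, Finset.inter_self, Finset.card_eq_three.2 ⟨a, b, x, hab, hx.1.symm, hx.2.symm, rfl⟩] at h1
    norm_num at h1
  -- the number of elements of a three-element set in another set
  have cnt : ∀ (T : Finset I) (u v w : I), u ≠ v → u ≠ w → v ≠ w → ({u, v, w} ∩ T).card =
      (if u ∈ T then 1 else 0) + (if v ∈ T then 1 else 0) + (if w ∈ T then 1 else 0) := by
    intro T u v w h1 h2 h3
    rw [← Finset.filter_mem_eq_inter, Finset.card_filter, Finset.sum_insert, Finset.sum_insert,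
      Finset.sum_singleton]
    · ring
    · simpa using h3
    · simp [h1, h2]
  have key : ∀ l, ¬ r l1 l → ¬ r l2 l → (a ∈ S l ∧ b ∈ S l ∧ x ∉ S l ∧ y ∉ S l) ∨ S l = {a, x, y} ∨
      S l = {b, x, y} := by
    intro l hl1 hl2
    have h1 := hn _ _ hl1
    have h2 := hn _ _ hl2
    rw [hx1, cnt _ _ _ _ hab hx.1.symm hx.2.symm] at h1
    rw [hy1, cnt _ _ _ _ hab hy.1.symm hy.2.symm] at h2
    have heq : ∀ u v w : I, u ≠ v → u ≠ w → v ≠ w → u ∈ S l → v ∈ S l → w ∈ S l → S l = {u, v, w} := by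
      intro u v w e1 e2 e3 m1 m2 m3
      symm
      apply Finset.eq_of_subset_of_card_le
      · intro t ht
        simp only [Finset.mem_insert, Finset.mem_singleton] at ht
        rcases ht with rfl | rfl | rfl
        exacts [m1, m2, m3]
      · rw [hS, Finset.card_eq_three.2 ⟨u, v, w, e1, e2, e3, rfl⟩]
    by_cases pa : a ∈ S l <;> by_cases pb : b ∈ S l <;> by_cases px : x ∈ S l <;>
      by_cases py : y ∈ S l <;> simp [pa, pb, px, py] at h1 h2 ⊢
    · left; exact heq a x y hx.1.symm hy.1.symm hxy pa px py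
    · right; exact heq b x y hx.2.symm hy.2.symm hxy pb px py
  refine ⟨a, b, hab, ?_⟩
  -- the exceptional triples do not occur
  have hexc : ∀ l3, ¬ r l1 l3 → ¬ r l2 l3 → (a ∈ S l3 ∧ b ∈ S l3 ∧ x ∉ S l3 ∧ y ∉ S l3) := by
    intro l3 h13 h23
    obtain ⟨l4, h14, h24, h34, -⟩ := h5 l1 l2 l3 l3
    obtain ⟨l5, h15, h25, h35, h45⟩ := h5 l1 l2 l3 l4
    by_contra hcon
    have k3 := (key l3 h13 h23).resolve_left hcon
    have k4 := key l4 h14 h24
    have k5 := key l5 h15 h25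
    have n34 := hn _ _ h34
    have n35 := hn _ _ h35
    have n45 := hn _ _ h45
    rcases k3 with k3 | k3
    · rw [k3, cnt _ _ _ _ hx.1.symm hy.1.symm hxy] at n34 n35
      rcases k4 with k4 | k4 | k4
      · simp [k4] at n34
      · rw [k4] at n34; simp at n34
      · rcases k5 with k5 | k5 | k5
        · simp [k5] at n35
        · rw [k5] at n35; simp at n35
        · rw [k4, k5, cnt _ _ _ _ hx.2.symm hy.2.symm hxy] at n45; simp at n45
    · rw [k3, cnt _ _ _ _ hx.2.symm hy.2.symm hxy] at n34 n35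
      rcases k4 with k4 | k4 | k4
      · simp [k4] at n34
      · rcases k5 with k5 | k5 | k5
        · simp [k5] at n35
        · rw [k4, k5, cnt _ _ _ _ hx.1.symm hy.1.symm hxy] at n45; simp at n45
        · rw [k5] at n35; simp at n35
      · rw [k4] at n34; simp at n34
  intro l
  by_cases h1 : r l1 l
  · rw [← hr _ _ h1]; exact ⟨ha1.1, hb1.1⟩
  · by_cases h2 : r l2 l
    · rw [← hr _ _ h2]; exact ⟨ha1.2, hb1.2⟩
    · exact ⟨(hexc l h1 h2).1, (hexc l h1 h2).2.1⟩

/-- the structure of the family of vectors -/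
theorem sunflower (r : L → L → Prop)
    (hr : ∀ l l', r l l' → ∑ i ∈ B, c i l * c i l' = 3)
    (hrefl : ∀ l, r l l)
    (hn : ∀ l l', ¬ r l l' → ∑ i ∈ B, c i l * c i l' = 2)
    (h5 : ∀ l1 l2 l3 l4, ∃ l5, ¬ r l1 l5 ∧ ¬ r l2 l5 ∧ ¬ r l3 l5 ∧ ¬ r l4 l5) [Nonempty L] :
    ∃ a ∈ B, ∃ b ∈ B, a ≠ b ∧ ∃ e f : ℤ, (e = 1 ∨ e = -1) ∧ (f = 1 ∨ f = -1) ∧
      (∀ l, c a l = e ∧ c b l = f) ∧
      (∀ l, ∃ x ∈ B, x ≠ a ∧ x ≠ b ∧ (c x l = 1 ∨ c x l = -1) ∧
        (∀ y ∈ B, y ≠ a → y ≠ b → y ≠ x → c y l = 0) ∧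
        (∀ l', ¬ r l l' → c x l' = 0) ∧ (∀ l', r l l' → c x l' = c x l)) := by
  have h3 : ∀ l, ∑ i ∈ B, c i l * c i l = 3 := fun l => hr l l (hrefl l)
  have hreq : ∀ l l', r l l' → ∀ i ∈ B, c i l = c i l' := by
    intro l l' h i hi
    have h1 : ∑ i ∈ B, (c i l - c i l') * (c i l - c i l') = 0 := by
      have e : ∀ i ∈ B, (c i l - c i l') * (c i l - c i l') =
          c i l * c i l - 2 * (c i l * c i l') + c i l' * c i l' := fun i _ => by ring
      rw [Finset.sum_congr rfl e, Finset.sum_add_distrib, Finset.sum_sub_distrib, ← Finset.mul_sum,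
        h3, h3, hr _ _ h]
      norm_num
    have h2 := (Finset.sum_eq_zero_iff_of_nonneg (fun i _ => mul_self_nonneg _)).1 h1 i hi
    have h4 := mul_self_eq_zero.1 h2
    linarith
  have hS : ∀ l, (supp B c l).card = 3 := card_supp h3
  obtain ⟨a, b, hab, hmem⟩ := sunflower_sets (S := supp B c) r hS (by
    intro l l' h
    ext i
    rw [mem_supp, mem_supp]
    constructor
    · rintro ⟨h1, h2⟩; exact ⟨h1, by rwa [← hreq _ _ h i h1]⟩
    · rintro ⟨h1, h2⟩; exact ⟨h1, by rwa [hreq _ _ h i h1]⟩)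
    (fun l l' h => (inter_card h3 (hn l l' h)).1) h5
  have l0 : L := Classical.arbitrary L
  have haB : a ∈ B := ((mem_supp B c).1 (hmem l0).1).1
  have hbB : b ∈ B := ((mem_supp B c).1 (hmem l0).2).1
  have hconst : ∀ i, (∀ l, i ∈ supp B c l) → ∀ l l', c i l = c i l' := by
    intro i hi l l'
    by_cases h : r l l'
    · exact hreq _ _ h i ((mem_supp B c).1 (hi l)).1
    · exact (inter_card h3 (hn l l' h)).2 i (Finset.mem_inter.2 ⟨hi l, hi l'⟩)
  have hpm : ∀ i, ∀ l, i ∈ supp B c l → (c i l = 1 ∨ c i l = -1) := by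
    intro i l hi
    obtain ⟨h1, h2⟩ := (mem_supp B c).1 hi
    exact (entry h3 h1 l).resolve_left h2
  refine ⟨a, haB, b, hbB, hab, c a l0, c b l0, hpm a l0 (hmem l0).1, hpm b l0 (hmem l0).2,
    fun l => ⟨hconst a (fun l => (hmem l).1) l l0, hconst b (fun l => (hmem l).2) l l0⟩, ?_⟩
  intro l
  have h1 : ((supp B c l).erase a |>.erase b).card = 1 := by
    rw [Finset.card_erase_of_mem, Finset.card_erase_of_mem (hmem l).1, hS]
    exact Finset.mem_erase.2 ⟨hab.symm, (hmem l).2⟩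
  obtain ⟨x, hx⟩ := Finset.card_eq_one.1 h1
  have h2 : x ∈ ((supp B c l).erase a).erase b := by rw [hx]; simp
  simp only [Finset.mem_erase] at h2
  refine ⟨x, ((mem_supp B c).1 h2.2.2).1, h2.2.1, h2.1, hpm x l h2.2.2, ?_, ?_, ?_⟩
  · intro y hy h3 h4 h5
    by_contra hne
    have h6 : y ∈ ((supp B c l).erase a).erase b := by
      simp only [Finset.mem_erase]
      exact ⟨h4, h3, (mem_supp B c).2 ⟨hy, hne⟩⟩
    rw [hx, Finset.mem_singleton] at h6
    exact h5 h6
  · intro l' hl'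
    by_contra hne
    have h6 := (inter_card h3 (hn l l' hl')).1
    have h7 : ({a, b, x} : Finset I) ⊆ supp B c l ∩ supp B c l' := by
      intro t ht
      simp only [Finset.mem_insert, Finset.mem_singleton] at ht
      rw [Finset.mem_inter]
      rcases ht with rfl | rfl | rfl
      · exact ⟨(hmem _).1, (hmem _).1⟩
      · exact ⟨(hmem _).2, (hmem _).2⟩
      · exact ⟨h2.2.2, (mem_supp B c).2 ⟨((mem_supp B c).1 h2.2.2).1, hne⟩⟩
    have h8 := Finset.card_le_card h7
    rw [h6, Finset.card_eq_three.2 ⟨a, b, x, hab, h2.2.1.symm, h2.1.symm, rfl⟩] at h8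
    norm_num at h8
  · intro l' hl'
    exact (hreq _ _ hl' x ((mem_supp B c).1 h2.2.2).1).symm

end Sun

end CfsgLib.Homo
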