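import Mathlib
import Cfsg.Agent.EqBase
import Cfsg.Agent.LibHomo1
import Cfsg.Agent.LibKlein
import Cfsg.Agent.LibBrauerInd

/-!
# Homocyclic Sylow 2-subgroups of rank 2: the isometry (helper17)
-/

set_option autoImplicit false
set_option linter.unusedSectionVars false
set_option linter.style.haveILetI false
set_option linter.unusedSimpArgs false

namespace CfsgLib.Homo

open Cfsg CfsgLib.CharBasic
open scoped ComplexConjugate

universe u v

section Dual
variable {P : Type u} [Group P] [Fintype P]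

/-- twist of a character by an automorphism -/
noncomputable def tw (φ : P ≃* P) (l : IrrCharacter P) : IrrCharacter P := irrEquiv φ l

theorem tw_apply (φ : P ≃* P) (l : IrrCharacter P) (x : P) : (tw φ l : P → ℂ) x = (l : P → ℂ) (φ x) := rfl

theorem ext_irr {l m : IrrCharacter P} (h : ∀ x, (l : P → ℂ) x = (m : P → ℂ) x) : l = m :=
  Subtype.ext (funext h)

theorem lmul (hab : ∀ a b : P, a * b = b * a) (l : IrrCharacter P) (x y : P) :
    (l : P → ℂ) (x * y) = (l : P → ℂ) x * (l : P → ℂ) y :=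
  linear_mul (irr_isCharacter l.2) (irr_degree_one_of_comm hab l.2) x y

theorem lone (hab : ∀ a b : P, a * b = b * a) (l : IrrCharacter P) : (l : P → ℂ) 1 = 1 :=
  irr_degree_one_of_comm hab l.2

theorem lsum (hab : ∀ a b : P, a * b = b * a) {x : P} (hx : x ≠ 1) :
    ∑ l : IrrCharacter P, (l : P → ℂ) x = 0 := by
  classical
  have h := BrauerInd.sum_irr_comm hab x 1
  rw [if_neg hx] at h
  rw [← h]
  exact Finset.sum_congr rfl fun l _ => by rw [lone hab l, map_one, mul_one]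

theorem lcard (hab : ∀ a b : P, a * b = b * a) : Fintype.card (IrrCharacter P) = Nat.card P := by
  classical
  have h := BrauerInd.sum_irr_comm hab (1 : P) 1
  rw [if_pos rfl] at h
  have h2 : ∑ l : IrrCharacter P, (l : P → ℂ) 1 * conj ((l : P → ℂ) 1) = (Fintype.card (IrrCharacter P) : ℂ) := by
    rw [Finset.sum_congr rfl (fun l _ => by rw [lone hab l, map_one, mul_one])]
    simp
  rw [h2] at h
  exact_mod_cast h

variable {φ : P ≃* P}

theorem tw3 (h3 : ∀ x, φ (φ (φ x)) = x) (l : IrrCharacter P) : tw φ (tw φ (tw φ l)) = l :=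
  ext_irr fun x => by rw [tw_apply, tw_apply, tw_apply, h3]

theorem tw_fix (hab : ∀ a b : P, a * b = b * a) (hfix : ∀ x, φ x = x → x = 1) {l : IrrCharacter P}
    (h : tw φ l = l) : l = Klein.one P := by
  apply ext_irr
  have hinj : Function.Injective (fun x : P => x⁻¹ * φ x) := by
    intro x y hxy
    simp only at hxy
    have h1 : φ (x * y⁻¹) = x * y⁻¹ := by
      rw [map_mul, map_inv]
      calc φ x * (φ y)⁻¹ = x * (x⁻¹ * φ x) * (φ y)⁻¹ := by group
        _ = x * (y⁻¹ * φ y) * (φ y)⁻¹ := by rw [hxy]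
        _ = x * y⁻¹ := by group
    have h2 := hfix _ h1
    rwa [mul_inv_eq_one] at h2
  have hsurj : Function.Surjective (fun x : P => x⁻¹ * φ x) := Finite.injective_iff_surjective.1 hinj
  intro x
  obtain ⟨y, rfl⟩ := hsurj x
  simp only
  rw [lmul hab, ← tw_apply, h, ← lmul hab, inv_mul_cancel, lone hab]
  rfl

/-- relation: same orbit -/
def Rel (φ : P ≃* P) (l m : IrrCharacter P) : Prop := l = m ∨ l = tw φ m ∨ l = tw φ (tw φ m)

theorem tw_ne_one {l : IrrCharacter P} (h : l ≠ Klein.one P) : tw φ l ≠ Klein.one P := by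
  intro h1
  apply h
  apply ext_irr
  intro x
  have h2 : (tw φ l : P → ℂ) (φ.symm x) = 1 := by rw [h1]; rfl
  rw [tw_apply, MulEquiv.apply_symm_apply] at h2
  rw [h2]; rfl

end Dual

section Main
variable {G : Type u} [Group G] [Fintype G]

/-- The data extracted from the principal 2-block -/
structure Dat (P : Subgroup G) [Fintype P] (φ : P ≃* P) (B : Finset (IrrCharacter G)) : Prop where
  ab : ∀ a b : P, a * b = b * a
  phi3 : ∀ x, φ (φ (φ x)) = x
  fix : ∀ x, φ x = x → x = 1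
  one_mem : Klein.one G ∈ B
  orth : ∀ x y : P, x ≠ 1 → y ≠ 1 → (y = x ∨ y = φ x ∨ y = φ (φ x)) →
    ∑ χ ∈ B, (χ : G → ℂ) x * conj ((χ : G → ℂ) y) = (Nat.card P : ℂ)
  orth' : ∀ x y : P, x ≠ 1 → y ≠ 1 → ¬ (y = x ∨ y = φ x ∨ y = φ (φ x)) →
    ∑ χ ∈ B, (χ : G → ℂ) x * conj ((χ : G → ℂ) y) = 0
  deg : ∀ x : P, x ≠ 1 → ∑ χ ∈ B, (χ : G → ℂ) 1 * (χ : G → ℂ) x = 0
  alg : ∀ t x : P, t ≠ 1 → t * t = 1 → x * x ≠ 1 →
    ∑ χ ∈ B, (χ : G → ℂ) t ^ 2 * (χ : G → ℂ) x / (χ : G → ℂ) 1 = 0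
  c16 : 16 ∣ Nat.card P

variable {P : Subgroup G} [Fintype P] {φ : P ≃* P} {B : Finset (IrrCharacter G)}

/-- restriction to P -/
abbrev rs (P : Subgroup G) (f : G → ℂ) : P → ℂ := fun x => f x

/-- multiplicities -/
noncomputable def mu (P : Subgroup G) [Fintype P] (χ : IrrCharacter G) : IrrCharacter P → ℕ :=
  (char_expand (isCharacter_restrict (irr_isCharacter χ.2) P)).choose

theorem mu_spec (P : Subgroup G) [Fintype P] (χ : IrrCharacter G) (l : IrrCharacter P) :
    classInner (rs P (χ : G → ℂ)) l = mu P χ l :=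
  (char_expand (isCharacter_restrict (irr_isCharacter χ.2) P)).choose_spec.1 l

theorem mu_expand (P : Subgroup G) [Fintype P] (χ : IrrCharacter G) (x : P) :
    (χ : G → ℂ) x = ∑ l : IrrCharacter P, (mu P χ l : ℂ) * (l : P → ℂ) x := by
  have h := (char_expand (isCharacter_restrict (irr_isCharacter χ.2) P)).choose_spec.2.1
  have h2 := congrFun h x
  rw [Finset.sum_apply] at h2
  exact h2

/-- the integral vectors -/
noncomputable def cc (P : Subgroup G) [Fintype P] (χ : IrrCharacter G) (l : IrrCharacter P) : ℤ :=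
  (mu P χ (Klein.one P) : ℤ) - mu P χ l

theorem cc_eq (χ : IrrCharacter G) (l : IrrCharacter P) :
    (cc P χ l : ℂ) = (Nat.card P : ℂ)⁻¹ * ∑ x : P, (χ : G → ℂ) x * (1 - conj ((l : P → ℂ) x)) := by
  rw [cc]
  push_cast
  have h1 : (mu P χ (Klein.one P) : ℂ) = (Nat.card P : ℂ)⁻¹ * ∑ x : P, (χ : G → ℂ) x := by
    rw [← mu_spec]
    exact inner_one_right _
  rw [h1, ← mu_spec, classInner, ← mul_sub, ← Finset.sum_sub_distrib]
  congr 1
  exact Finset.sum_congr rfl fun x _ => by ring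

theorem cc_one (χ : IrrCharacter G) : cc P χ (Klein.one P) = 0 := sub_self _

theorem cc_real (χ : IrrCharacter G) (l : IrrCharacter P) : conj (cc P χ l : ℂ) = (cc P χ l : ℂ) := by
  rw [map_intCast]

theorem one_cc {l : IrrCharacter P} (hl : l ≠ Klein.one P) : cc P (Klein.one G) l = 1 := by
  have h1 : (mu P (Klein.one G) (Klein.one P) : ℂ) = 1 := by
    rw [← mu_spec]
    exact irr_inner_self (Klein.one P).2
  have h2 : (mu P (Klein.one G) l : ℂ) = 0 := by
    rw [← mu_spec]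
    exact irr_inner_ne (Klein.one P).2 l.2 (fun h => hl (Subtype.ext h.symm))
  have h1' : mu P (Klein.one G) (Klein.one P) = 1 := by exact_mod_cast h1
  have h2' : mu P (Klein.one G) l = 0 := by exact_mod_cast h2
  rw [cc, h1', h2']; norm_num

theorem val_ne (hab : ∀ a b : P, a * b = b * a) (χ : IrrCharacter G) {x : P} (hx : x ≠ 1) :
    (χ : G → ℂ) x = - ∑ l : IrrCharacter P, (cc P χ l : ℂ) * (l : P → ℂ) x := by
  rw [mu_expand]
  have h1 : ∀ l : IrrCharacter P, (cc P χ l : ℂ) * (l : P → ℂ) x =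
      (mu P χ (Klein.one P) : ℂ) * (l : P → ℂ) x - (mu P χ l : ℂ) * (l : P → ℂ) x := by
    intro l; rw [cc]; push_cast; ring
  rw [Finset.sum_congr rfl (fun l _ => h1 l), Finset.sum_sub_distrib, ← Finset.mul_sum, lsum hab hx]
  ring

theorem val_one (hab : ∀ a b : P, a * b = b * a) (χ : IrrCharacter G) :
    (χ : G → ℂ) 1 = (Nat.card P : ℂ) * mu P χ (Klein.one P) -
      ∑ l : IrrCharacter P, (cc P χ l : ℂ) := by
  have h0 : (χ : G → ℂ) 1 = (χ : G → ℂ) ((1 : P) : G) := rfl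
  rw [h0, mu_expand]
  have h1 : ∀ l : IrrCharacter P, (cc P χ l : ℂ) =
      (mu P χ (Klein.one P) : ℂ) - (mu P χ l : ℂ) * (l : P → ℂ) 1 := by
    intro l; rw [cc, lone hab]; push_cast; ring
  rw [Finset.sum_congr rfl (fun l _ => h1 l), Finset.sum_sub_distrib, Finset.sum_const,
    Finset.card_univ, lcard hab]
  simp

theorem Dat.phi2 (h : Dat P φ B) {x : P} (hx : x ≠ 1) : φ x ≠ x ∧ φ (φ x) ≠ x ∧ φ (φ x) ≠ φ x := by
  have h1 : φ x ≠ x := fun e => hx (h.fix x e)
  refine ⟨h1, fun e => h1 ?_, fun e => h1 (φ.injective e)⟩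
  have h2 := h.phi3 x
  rwa [e] at h2

theorem Dat.inner_eq (h : Dat P φ B) {l m : IrrCharacter P} (hl : l ≠ Klein.one P)
    (hm : m ≠ Klein.one P) : ∑ x : P, (1 - conj ((l : P → ℂ) x)) * (1 - (m : P → ℂ) x) =
      (Nat.card P : ℂ) * (1 + (if l = m then 1 else 0)) := by
  classical
  have hc : (Nat.card P : ℂ) ≠ 0 := by exact_mod_cast Nat.card_pos.ne'
  have e : ∀ a : IrrCharacter P, ∀ b : IrrCharacter P,
      ∑ x : P, (a : P → ℂ) x * conj ((b : P → ℂ) x) = (Nat.card P : ℂ) * (if b = a then 1 else 0) := by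
    intro a b
    have h1 := irr_inner a.2 b.2
    rw [classInner] at h1
    rw [inv_mul_eq_iff_eq_mul₀ hc] at h1
    rw [h1]
    congr 1
    by_cases hab : b = a
    · rw [if_pos hab, if_pos (by rw [hab])]
    · rw [if_neg hab, if_neg (fun h => hab (Subtype.ext h.symm))]
  have e1 : ∀ x : P, (1 - conj ((l : P → ℂ) x)) * (1 - (m : P → ℂ) x) =
      (Klein.one P : P → ℂ) x * conj ((Klein.one P : P → ℂ) x) -
      (m : P → ℂ) x * conj ((Klein.one P : P → ℂ) x) - (Klein.one P : P → ℂ) x * conj ((l : P → ℂ) x) +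
      (m : P → ℂ) x * conj ((l : P → ℂ) x) := by
    intro x
    rw [Klein.one_apply, map_one]; ring
  rw [Finset.sum_congr rfl (fun x _ => e1 x), Finset.sum_add_distrib, Finset.sum_sub_distrib,
    Finset.sum_sub_distrib, e, e, e, e, if_pos rfl, if_neg (fun h => hm h.symm), if_neg hl]
  ring

theorem Dat.cross (h : Dat P φ B) {l m : IrrCharacter P} (hl : l ≠ Klein.one P)
    (hm : m ≠ Klein.one P) [Decidable (l = m)] [Decidable (l = tw φ m)] [Decidable (l = tw φ (tw φ m))] :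
    ∑ χ ∈ B, cc P χ l * cc P χ m =
      3 + ((if l = m then 1 else 0) + (if l = tw φ m then 1 else 0) +
        (if l = tw φ (tw φ m) then 1 else 0)) := by
  classical
  have hc : (Nat.card P : ℂ) ≠ 0 := by exact_mod_cast Nat.card_pos.ne'
  have key : ((∑ χ ∈ B, cc P χ l * cc P χ m : ℤ) : ℂ) =
      3 + ((if l = m then 1 else 0) + (if l = tw φ m then 1 else 0) +
        (if l = tw φ (tw φ m) then 1 else 0)) := by
    push_cast
    have e1 : ∀ χ ∈ B, (cc P χ l : ℂ) * (cc P χ m : ℂ) = (Nat.card P : ℂ)⁻¹ * (Nat.card P : ℂ)⁻¹ *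
        ∑ x : P, ∑ y : P, (1 - conj ((l : P → ℂ) x)) * (1 - (m : P → ℂ) y) *
          ((χ : G → ℂ) x * conj ((χ : G → ℂ) y)) := by
      intro χ _
      rw [← cc_real χ m, cc_eq χ l, cc_eq χ m, map_mul, map_inv₀, Complex.conj_natCast, map_sum,
        mul_mul_mul_comm, Finset.sum_mul_sum]
      congr 1
      refine Finset.sum_congr rfl fun x _ => Finset.sum_congr rfl fun y _ => ?_
      rw [map_mul, map_sub, map_one, Complex.conj_conj]
      ring
    rw [Finset.sum_congr rfl e1, ← Finset.mul_sum, Finset.sum_comm]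
    have e2 : ∀ x : P, ∑ χ ∈ B, ∑ y : P, (1 - conj ((l : P → ℂ) x)) * (1 - (m : P → ℂ) y) *
          ((χ : G → ℂ) x * conj ((χ : G → ℂ) y)) = (Nat.card P : ℂ) *
          ((1 - conj ((l : P → ℂ) x)) * (1 - (m : P → ℂ) x) +
            (1 - conj ((l : P → ℂ) x)) * (1 - (tw φ m : P → ℂ) x) +
            (1 - conj ((l : P → ℂ) x)) * (1 - (tw φ (tw φ m) : P → ℂ) x)) := by
      intro x
      rw [Finset.sum_comm]
      by_cases hx : x = 1
      · rw [hx, lone h.ab, map_one, sub_self]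
        simp
      · have e3 : ∀ y : P, ∑ χ ∈ B, (1 - conj ((l : P → ℂ) x)) * (1 - (m : P → ℂ) y) *
          ((χ : G → ℂ) x * conj ((χ : G → ℂ) y)) = if y ∈ ({x, φ x, φ (φ x)} : Finset P) then
            (Nat.card P : ℂ) * ((1 - conj ((l : P → ℂ) x)) * (1 - (m : P → ℂ) y)) else 0 := by
          intro y
          rw [← Finset.mul_sum]
          by_cases hy : y = 1
          · rw [hy, lone h.ab, sub_self, mul_zero, zero_mul, mul_zero, ite_self]
          · by_cases hyx : y = x ∨ y = φ x ∨ y = φ (φ x)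
            · rw [h.orth x y hx hy hyx, if_pos (by simpa using hyx)]; ring
            · rw [h.orth' x y hx hy hyx, if_neg (by simpa using hyx), mul_zero]
        rw [Finset.sum_congr rfl (fun y _ => e3 y), Finset.sum_ite_mem, Finset.univ_inter,
          Finset.sum_insert, Finset.sum_insert, Finset.sum_singleton]
        · rw [tw_apply, tw_apply, tw_apply]; ring
        · rw [Finset.mem_singleton]; exact (h.phi2 hx).2.2.symm
        · simp only [Finset.mem_insert, Finset.mem_singleton, not_or]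
          exact ⟨(h.phi2 hx).1.symm, (h.phi2 hx).2.1.symm⟩
    rw [Finset.sum_congr rfl (fun x _ => e2 x), ← Finset.mul_sum, Finset.sum_add_distrib,
      Finset.sum_add_distrib, h.inner_eq hl hm, h.inner_eq hl (tw_ne_one hm),
      h.inner_eq hl (tw_ne_one (tw_ne_one hm))]
    field_simp
    ring
  exact_mod_cast key

theorem Dat.tw_distinct (h : Dat P φ B) {m : IrrCharacter P} (hm : m ≠ Klein.one P) :
    m ≠ tw φ m ∧ m ≠ tw φ (tw φ m) ∧ tw φ m ≠ tw φ (tw φ m) := by
  have h1 : ∀ l : IrrCharacter P, l ≠ Klein.one P → l ≠ tw φ l := fun l hl e =>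
    hl (tw_fix h.ab h.fix e.symm)
  refine ⟨h1 m hm, fun e => ?_, h1 _ (tw_ne_one hm)⟩
  have h2 : tw φ m = m := by
    conv_lhs => rw [e, tw3 h.phi3]
  exact h1 m hm h2.symm

theorem Dat.cross_rel (h : Dat P φ B) {l m : IrrCharacter P} (hl : l ≠ Klein.one P)
    (hm : m ≠ Klein.one P) (hr : Rel φ l m) : ∑ χ ∈ B, cc P χ l * cc P χ m = 4 := by
  classical
  rw [h.cross hl hm]
  obtain ⟨h1, h2, h3⟩ := h.tw_distinct hm
  rcases hr with r | r | r
  · rw [r, if_pos rfl, if_neg h1, if_neg h2]; norm_num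
  · rw [r, if_neg h1.symm, if_pos rfl, if_neg h3]; norm_num
  · rw [r, if_neg h2.symm, if_neg h3.symm, if_pos rfl]; norm_num

theorem Dat.cross_not (h : Dat P φ B) {l m : IrrCharacter P} (hl : l ≠ Klein.one P)
    (hm : m ≠ Klein.one P) (hr : ¬ Rel φ l m) : ∑ χ ∈ B, cc P χ l * cc P χ m = 3 := by
  classical
  rw [h.cross hl hm]
  rw [Rel, not_or, not_or] at hr
  rw [if_neg hr.1, if_neg hr.2.1, if_neg hr.2.2]; norm_num

theorem Dat.deg_zero (h : Dat P φ B) (l : IrrCharacter P) :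
    ∑ χ ∈ B, (cc P χ l : ℂ) * (χ : G → ℂ) 1 = 0 := by
  have e1 : ∀ χ ∈ B, (cc P χ l : ℂ) * (χ : G → ℂ) 1 = (Nat.card P : ℂ)⁻¹ *
      ∑ x : P, (1 - conj ((l : P → ℂ) x)) * ((χ : G → ℂ) 1 * (χ : G → ℂ) x) := by
    intro χ _
    rw [cc_eq, mul_assoc, Finset.sum_mul]
    congr 1
    exact Finset.sum_congr rfl fun x _ => by ring
  rw [Finset.sum_congr rfl e1, ← Finset.mul_sum, Finset.sum_comm]
  rw [Finset.sum_eq_zero, mul_zero]
  intro x _
  rw [← Finset.mul_sum]
  by_cases hx : x = 1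
  · rw [hx, lone h.ab, map_one, sub_self, zero_mul]
  · rw [h.deg x hx, mul_zero]

end Main

end CfsgLib.Homo
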