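import Mathlib
import Cfsg.Agent.LibHomo2

/-!
# Homocyclic Sylow 2-subgroups of rank 2: the linear character (helper17)
-/

set_option autoImplicit false
set_option linter.unusedSectionVars false
set_option linter.style.haveILetI false
set_option linter.unusedSimpArgs false

namespace CfsgLib.Homo

open Cfsg CfsgLib.CharBasic
open scoped ComplexConjugate

universe u v

variable {G : Type u} [Group G] [Fintype G]
variable {P : Subgroup G} [Fintype P] {φ : P ≃* P} {B : Finset (IrrCharacter G)}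

section Const

theorem const_val (hab : ∀ a b : P, a * b = b * a) {χ : IrrCharacter G} {e : ℤ}
    (h : ∀ l : IrrCharacter P, l ≠ Klein.one P → cc P χ l = e) {y : P} (hy : y ≠ 1) :
    (χ : G → ℂ) y = e := by
  classical
  rw [val_ne hab χ hy]
  have e1 : ∀ l : IrrCharacter P, (cc P χ l : ℂ) * (l : P → ℂ) y =
      (e : ℂ) * (l : P → ℂ) y - (if l = Klein.one P then (e : ℂ) else 0) := by
    intro l
    by_cases hl : l = Klein.one P
    · rw [hl, cc_one, if_pos rfl, Klein.one_apply]; simp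
    · rw [h l hl, if_neg hl]; ring
  rw [Finset.sum_congr rfl (fun l _ => e1 l), Finset.sum_sub_distrib, ← Finset.mul_sum, lsum hab hy,
    Finset.sum_ite_eq' Finset.univ (Klein.one P), if_pos (Finset.mem_univ _)]
  ring

theorem const_one (hab : ∀ a b : P, a * b = b * a) {χ : IrrCharacter G} {e : ℤ}
    (h : ∀ l : IrrCharacter P, l ≠ Klein.one P → cc P χ l = e) :
    (χ : G → ℂ) 1 = (((Nat.card P : ℤ) * ((mu P χ (Klein.one P) : ℤ) - e) + e : ℤ) : ℂ) := by
  classical
  rw [val_one hab χ]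
  have e1 : ∀ l : IrrCharacter P, (cc P χ l : ℂ) =
      (e : ℂ) - (if l = Klein.one P then (e : ℂ) else 0) := by
    intro l
    by_cases hl : l = Klein.one P
    · rw [hl, cc_one, if_pos rfl]; simp
    · rw [h l hl, if_neg hl]; ring
  rw [Finset.sum_congr rfl (fun l _ => e1 l), Finset.sum_sub_distrib, Finset.sum_const,
    Finset.card_univ, lcard hab,
    Finset.sum_ite_eq' Finset.univ (Klein.one P), if_pos (Finset.mem_univ _)]
  push_cast
  rw [nsmul_eq_mul]
  ring

end Const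

theorem rel_iff (h3 : ∀ x, φ (φ (φ x)) = x) {l m : IrrCharacter P} :
    Rel φ l m ↔ m = l ∨ m = tw φ l ∨ m = tw φ (tw φ l) := by
  constructor
  · rintro (r | r | r)
    · exact Or.inl r.symm
    · exact Or.inr (Or.inr (by rw [r, tw3 h3]))
    · exact Or.inr (Or.inl (by rw [r, tw3 h3]))
  · rintro (r | r | r)
    · exact Or.inl r.symm
    · exact Or.inr (Or.inr (by rw [r, tw3 h3]))
    · exact Or.inr (Or.inl (by rw [r, tw3 h3]))

theorem Dat.exists_five (h : Dat P φ B) (l1 l2 l3 l4 : IrrCharacter P) :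
    ∃ l5, l5 ≠ Klein.one P ∧ ¬ Rel φ l1 l5 ∧ ¬ Rel φ l2 l5 ∧ ¬ Rel φ l3 l5 ∧ ¬ Rel φ l4 l5 := by
  classical
  let orb : IrrCharacter P → Finset (IrrCharacter P) := fun l => {l, tw φ l, tw φ (tw φ l)}
  have ho : ∀ l, (orb l).card ≤ 3 := fun l => Finset.card_le_three
  have hm : ∀ l m, Rel φ l m → m ∈ orb l := by
    intro l m hr
    rw [rel_iff h.phi3] at hr
    simpa [orb] using hr
  have h1 : (insert (Klein.one P) (orb l1 ∪ orb l2 ∪ orb l3 ∪ orb l4)).card ≤ 13 := by
    have e1 := Finset.card_insert_le (Klein.one P) (orb l1 ∪ orb l2 ∪ orb l3 ∪ orb l4)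
    have e2 := Finset.card_union_le (orb l1 ∪ orb l2 ∪ orb l3) (orb l4)
    have e3 := Finset.card_union_le (orb l1 ∪ orb l2) (orb l3)
    have e4 := Finset.card_union_le (orb l1) (orb l2)
    have := ho l1
    have := ho l2
    have := ho l3
    have := ho l4
    omega
  have h2 : 16 ≤ Fintype.card (IrrCharacter P) := by
    rw [lcard h.ab]
    exact Nat.le_of_dvd Nat.card_pos h.c16
  obtain ⟨l5, hl5⟩ : ∃ l5, l5 ∉ insert (Klein.one P) (orb l1 ∪ orb l2 ∪ orb l3 ∪ orb l4) := by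
    by_contra hcon
    push Not at hcon
    have h3 : (Finset.univ : Finset (IrrCharacter P)) ⊆
      insert (Klein.one P) (orb l1 ∪ orb l2 ∪ orb l3 ∪ orb l4) := fun l _ => hcon l
    have h4 := Finset.card_le_card h3
    rw [Finset.card_univ] at h4
    omega
  simp only [Finset.mem_insert, Finset.mem_union, not_or] at hl5
  exact ⟨l5, hl5.1, fun r => hl5.2.1.1.1 (hm _ _ r), fun r => hl5.2.1.1.2 (hm _ _ r),
    fun r => hl5.2.1.2 (hm _ _ r), fun r => hl5.2.2 (hm _ _ r)⟩

/-- the sum over the dual -/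
theorem Dat.nine (h : Dat P φ B) {t x : P} (ht2 : t * t = 1) (hx : x * x ≠ 1) :
    ∑ l : IrrCharacter P, (if l = Klein.one P then 0 else
      (l : P → ℂ) x * ((l : P → ℂ) t + (tw φ l : P → ℂ) t + (tw φ (tw φ l) : P → ℂ) t) ^ 2) = -9 := by
  classical
  have e0 : ∀ l : IrrCharacter P, (if l = Klein.one P then 0 else
      (l : P → ℂ) x * ((l : P → ℂ) t + (tw φ l : P → ℂ) t + (tw φ (tw φ l) : P → ℂ) t) ^ 2) =
      (l : P → ℂ) x * ((l : P → ℂ) t + (tw φ l : P → ℂ) t + (tw φ (tw φ l) : P → ℂ) t) ^ 2 -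
      (if l = Klein.one P then 9 else 0) := by
    intro l
    by_cases hl : l = Klein.one P
    · have e1 : (tw φ l : P → ℂ) t = 1 := by rw [tw_apply, hl]; rfl
      have e2 : (tw φ (tw φ l) : P → ℂ) t = 1 := by rw [tw_apply, tw_apply, hl]; rfl
      rw [if_pos hl, if_pos hl, e1, e2, hl, Klein.one_apply, Klein.one_apply]; norm_num
    · rw [if_neg hl, if_neg hl, sub_zero]
  rw [Finset.sum_congr rfl (fun l _ => e0 l), Finset.sum_sub_distrib,
    Finset.sum_ite_eq' Finset.univ (Klein.one P), if_pos (Finset.mem_univ _)]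
  have key : ∀ s s' : P, s * s = 1 → s' * s' = 1 → ∑ l : IrrCharacter P, (l : P → ℂ) (x * s * s') = 0 := by
    intro s s' hs hs'
    apply lsum h.ab
    intro hc
    apply hx
    have e1 : x = s'⁻¹ * s⁻¹ := by
      rw [← mul_inv_rev]
      rw [mul_assoc] at hc
      exact eq_inv_of_mul_eq_one_left hc
    rw [e1, inv_eq_of_mul_eq_one_left hs, inv_eq_of_mul_eq_one_left hs']
    calc s' * s * (s' * s) = (s' * s') * (s * s) := by
          rw [mul_assoc, mul_assoc, ← mul_assoc s s' s, h.ab s s', mul_assoc]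
      _ = 1 := by rw [hs, hs', mul_one]
  have hs1 : φ t * φ t = 1 := by rw [← map_mul, ht2, map_one]
  have hs2 : φ (φ t) * φ (φ t) = 1 := by rw [← map_mul, hs1, map_one]
  have e3 : ∀ l : IrrCharacter P,
      (l : P → ℂ) x * ((l : P → ℂ) t + (tw φ l : P → ℂ) t + (tw φ (tw φ l) : P → ℂ) t) ^ 2 =
      (l : P → ℂ) (x * t * t) + (l : P → ℂ) (x * t * φ t) + (l : P → ℂ) (x * t * φ (φ t)) +
      ((l : P → ℂ) (x * φ t * t) + (l : P → ℂ) (x * φ t * φ t) + (l : P → ℂ) (x * φ t * φ (φ t))) +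
      ((l : P → ℂ) (x * φ (φ t) * t) + (l : P → ℂ) (x * φ (φ t) * φ t) +
        (l : P → ℂ) (x * φ (φ t) * φ (φ t))) := by
    intro l
    simp only [tw_apply, lmul h.ab]
    ring
  rw [Finset.sum_congr rfl (fun l _ => e3 l)]
  simp only [Finset.sum_add_distrib]
  rw [key _ _ ht2 ht2, key _ _ ht2 hs1, key _ _ ht2 hs2, key _ _ hs1 ht2, key _ _ hs1 hs1,
    key _ _ hs1 hs2, key _ _ hs2 ht2, key _ _ hs2 hs1, key _ _ hs2 hs2]
  norm_num

theorem Dat.main (h : Dat P φ B) (t x : P) (ht : t ≠ 1) (ht2 : t * t = 1) (hx : x * x ≠ 1) :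
    ∃ χ ∈ B, χ ≠ Klein.one G ∧ (χ : G → ℂ) 1 = 1 ∧ ∀ y : P, (χ : G → ℂ) y = 1 := by
  classical
  have hx1 : x ≠ 1 := by rintro rfl; exact hx (mul_one 1)
  let L := {l : IrrCharacter P // l ≠ Klein.one P}
  haveI : Nonempty L := by
    obtain ⟨l, hl, -⟩ := h.exists_five (Klein.one P) (Klein.one P) (Klein.one P) (Klein.one P)
    exact ⟨⟨l, hl⟩⟩
  have hsp1 : ∀ F : IrrCharacter G → ℤ, ∑ χ ∈ B, F χ = F (Klein.one G) + ∑ χ ∈ B.erase (Klein.one G), F χ :=
    fun F => (Finset.add_sum_erase _ _ h.one_mem).symm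
  obtain ⟨a, ha, b, hb, hab, e, f, he, hf, hef, hX⟩ := sunflower (B := B.erase (Klein.one G))
    (c := fun χ (l : L) => cc P χ l.1) (fun l m => Rel φ l.1 m.1)
    (fun l m hr => by
      have h1 := h.cross_rel l.2 m.2 hr
      rw [hsp1, one_cc l.2, one_cc m.2] at h1
      linarith)
    (fun l => Or.inl rfl)
    (fun l m hr => by
      have h1 := h.cross_not l.2 m.2 hr
      rw [hsp1, one_cc l.2, one_cc m.2] at h1
      linarith)
    (fun l1 l2 l3 l4 => by
      obtain ⟨l5, h0, h1, h2, h3, h4⟩ := h.exists_five l1.1 l2.1 l3.1 l4.1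
      exact ⟨⟨l5, h0⟩, h1, h2, h3, h4⟩)
  have hea : ∀ l : IrrCharacter P, l ≠ Klein.one P → cc P a l = e := fun l hl => (hef ⟨l, hl⟩).1
  have hfb : ∀ l : IrrCharacter P, l ≠ Klein.one P → cc P b l = f := fun l hl => (hef ⟨l, hl⟩).2
  obtain ⟨ha1, haB⟩ := Finset.mem_erase.1 ha
  obtain ⟨hb1, hbB⟩ := Finset.mem_erase.1 hb
  obtain ⟨da, hda0, hda⟩ := irr_one_nat a.2
  obtain ⟨db, hdb0, hdb⟩ := irr_one_nat b.2
  have hee : e * e = 1 := by rcases he with r | r <;> rw [r] <;> norm_num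
  have hff : f * f = 1 := by rcases hf with r | r <;> rw [r] <;> norm_num
  -- congruences
  have hca : (16 : ℤ) ∣ e * da - 1 := by
    have h1 := const_one h.ab hea
    rw [hda] at h1
    have h2 : (da : ℤ) = (Nat.card P : ℤ) * ((mu P a (Klein.one P) : ℤ) - e) + e := by exact_mod_cast h1
    rw [h2]
    obtain ⟨k, hk⟩ := h.c16
    refine ⟨k * ((mu P a (Klein.one P) : ℤ) - e) * e, ?_⟩
    rw [hk]; push_cast
    linear_combination hee
  have hcb : (16 : ℤ) ∣ f * db - 1 := by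
    have h1 := const_one h.ab hfb
    rw [hdb] at h1
    have h2 : (db : ℤ) = (Nat.card P : ℤ) * ((mu P b (Klein.one P) : ℤ) - f) + f := by exact_mod_cast h1
    rw [h2]
    obtain ⟨k, hk⟩ := h.c16
    refine ⟨k * ((mu P b (Klein.one P) : ℤ) - f) * f, ?_⟩
    rw [hk]; push_cast
    linear_combination hff
  -- splitting
  set B2 := ((B.erase (Klein.one G)).erase a).erase b with hB2
  have hsp : ∀ F : IrrCharacter G → ℂ, ∑ χ ∈ B, F χ = F (Klein.one G) + F a + F b + ∑ χ ∈ B2, F χ := by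
    intro F
    rw [← Finset.add_sum_erase _ F h.one_mem, ← Finset.add_sum_erase _ F ha,
      ← Finset.add_sum_erase _ F (Finset.mem_erase.2 ⟨hab.symm, hb⟩)]
    ring
  choose X hXB hXa hXb hXpm hX0 hXn hXr using hX
  have hXB2 : ∀ l, X l ∈ B2 := fun l =>
    Finset.mem_erase.2 ⟨hXb l, Finset.mem_erase.2 ⟨hXa l, hXB l⟩⟩
  have hone : ∀ (l : L) (F : IrrCharacter G → ℂ), ∑ χ ∈ B2, (cc P χ l.1 : ℂ) * F χ =
      (cc P (X l) l.1 : ℂ) * F (X l) := by
    intro l F
    apply Finset.sum_eq_single_of_mem _ (hXB2 l)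
    intro y hy hyX
    obtain ⟨h1, h2⟩ := Finset.mem_erase.1 hy
    obtain ⟨h3, h4⟩ := Finset.mem_erase.1 h2
    rw [hX0 l y h4 h3 h1 hyX]; simp
  set ξ : ℤ := 1 + e * da + f * db with hξ
  have hdeg : ∀ l : L, (cc P (X l) l.1 : ℂ) * ((X l : IrrCharacter G) : G → ℂ) 1 = -(ξ : ℂ) := by
    intro l
    have h1 := h.deg_zero l.1
    rw [hsp, hone l (fun χ => (χ : G → ℂ) 1), one_cc l.2, hea l.1 l.2, hfb l.1 l.2, hda, hdb,
      Klein.one_apply] at h1
    rw [hξ]; push_cast
    linear_combination h1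
  have hXne : ∀ l : L, ((X l : IrrCharacter G) : G → ℂ) 1 ≠ 0 := fun l => irr_one_ne_zero (X l).2
  have hccsq : ∀ l : L, (cc P (X l) l.1 : ℂ) * (cc P (X l) l.1 : ℂ) = 1 := by
    intro l
    rcases hXpm l with r | r <;> rw [r] <;> norm_num
  have hξ0 : (ξ : ℂ) ≠ 0 := by
    obtain ⟨l⟩ := ‹Nonempty L›
    intro h0
    have h1 := hdeg l
    rw [h0, neg_zero] at h1
    rcases mul_eq_zero.1 h1 with h2 | h2
    · have h3 := hccsq l
      rw [h2] at h3; norm_num at h3
    · exact hXne l h2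
  have hXt : ∀ l : L, ((X l : IrrCharacter G) : G → ℂ) t ^ 2 =
      ((l.1 : P → ℂ) t + (tw φ l.1 : P → ℂ) t + (tw φ (tw φ l.1) : P → ℂ) t) ^ 2 := by
    intro l
    have h1 : ((X l : IrrCharacter G) : G → ℂ) t = -((cc P (X l) l.1 : ℂ) *
        ((l.1 : P → ℂ) t + (tw φ l.1 : P → ℂ) t + (tw φ (tw φ l.1) : P → ℂ) t)) := by
      rw [val_ne h.ab _ ht]
      congr 1
      have e1 : ∀ m : IrrCharacter P, (cc P (X l) m : ℂ) * (m : P → ℂ) t =
          if m ∈ ({l.1, tw φ l.1, tw φ (tw φ l.1)} : Finset (IrrCharacter P)) then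
            (cc P (X l) l.1 : ℂ) * (m : P → ℂ) t else 0 := by
        intro m
        by_cases hm1 : m = Klein.one P
        · rw [hm1, cc_one, if_neg]
          · simp
          · simp only [Finset.mem_insert, Finset.mem_singleton, not_or]
            exact ⟨fun r => l.2 r.symm, fun r => tw_ne_one l.2 r.symm,
              fun r => tw_ne_one (tw_ne_one l.2) r.symm⟩
        · by_cases hr : Rel φ l.1 m
          · have h2 := hXr l ⟨m, hm1⟩ hr
            simp only at h2
            rw [h2, if_pos]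
            rw [rel_iff h.phi3] at hr
            simpa using hr
          · have h2 := hXn l ⟨m, hm1⟩ hr
            simp only at h2
            rw [h2, if_neg]
            · simp
            · rw [rel_iff h.phi3] at hr
              simpa using hr
      obtain ⟨n1, n2, n3⟩ := h.tw_distinct l.2
      rw [Finset.sum_congr rfl (fun m _ => e1 m), Finset.sum_ite_mem, Finset.univ_inter,
        Finset.sum_insert, Finset.sum_insert, Finset.sum_singleton]
      · ring
      · rw [Finset.mem_singleton]; exact n3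
      · simp only [Finset.mem_insert, Finset.mem_singleton, not_or]
        exact ⟨n1, n2⟩
    rw [h1, neg_sq, mul_pow, sq (cc P (X l) l.1 : ℂ), hccsq, one_mul]
  -- the sum over B2
  have hrest : ∑ χ ∈ B2, (χ : G → ℂ) t ^ 2 * (χ : G → ℂ) x / (χ : G → ℂ) 1 = -9 / (ξ : ℂ) := by
    have e1 : ∀ χ ∈ B2, (χ : G → ℂ) t ^ 2 * (χ : G → ℂ) x / (χ : G → ℂ) 1 =
        - ∑ l : IrrCharacter P, (l : P → ℂ) x * ((cc P χ l : ℂ) * ((χ : G → ℂ) t ^ 2 / (χ : G → ℂ) 1)) := by
      intro χ _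
      rw [val_ne h.ab χ hx1, mul_neg, neg_div, Finset.mul_sum, Finset.sum_div]
      congr 1
      exact Finset.sum_congr rfl fun l _ => by ring
    rw [Finset.sum_congr rfl e1, Finset.sum_neg_distrib, Finset.sum_comm]
    have e2 : ∀ l : IrrCharacter P, ∑ χ ∈ B2, (l : P → ℂ) x * ((cc P χ l : ℂ) *
        ((χ : G → ℂ) t ^ 2 / (χ : G → ℂ) 1)) = -(ξ : ℂ)⁻¹ * (if l = Klein.one P then 0 else
      (l : P → ℂ) x * ((l : P → ℂ) t + (tw φ l : P → ℂ) t + (tw φ (tw φ l) : P → ℂ) t) ^ 2) := by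
      intro l
      rw [← Finset.mul_sum]
      by_cases hl : l = Klein.one P
      · rw [if_pos hl, mul_zero, Finset.sum_eq_zero, mul_zero]
        intro χ _
        rw [hl, cc_one]; simp
      · rw [if_neg hl]
        have h1 := hone ⟨l, hl⟩ (fun χ => (χ : G → ℂ) t ^ 2 / (χ : G → ℂ) 1)
        simp only at h1
        rw [h1, hXt ⟨l, hl⟩]
        have h2 := hdeg ⟨l, hl⟩
        have h3 := hccsq ⟨l, hl⟩
        have h4 := hXne ⟨l, hl⟩
        simp only at h2 h3 ⊢
        have h5 : (cc P (X ⟨l, hl⟩) l : ℂ) * (ξ : ℂ) = -((X ⟨l, hl⟩ : IrrCharacter G) : G → ℂ) 1 := by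
          linear_combination (cc P (X ⟨l, hl⟩) l : ℂ) * h2 - ((X ⟨l, hl⟩ : IrrCharacter G) : G → ℂ) 1 * h3
        have h6 : (cc P (X ⟨l, hl⟩) l : ℂ) / ((X ⟨l, hl⟩ : IrrCharacter G) : G → ℂ) 1 = -(ξ : ℂ)⁻¹ := by
          rw [div_eq_iff h4, eq_comm, neg_mul, neg_eq_iff_eq_neg, inv_mul_eq_iff_eq_mul₀ hξ0]
          linear_combination h5
        rw [← h6]
        ring
    rw [Finset.sum_congr rfl (fun l _ => e2 l), ← Finset.mul_sum, h.nine ht2 hx]
    ring
  have halg := h.alg t x ht ht2 hx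
  rw [hsp, hrest, Klein.one_apply, Klein.one_apply, Klein.one_apply,
    const_val h.ab hea ht, const_val h.ab hea hx1, const_val h.ab hfb ht, const_val h.ab hfb hx1,
    hda, hdb] at halg
  have hda' : (da : ℂ) ≠ 0 := by exact_mod_cast hda0.ne'
  have hdb' : (db : ℂ) ≠ 0 := by exact_mod_cast hdb0.ne'
  have heC : (e : ℂ) * e = 1 := by exact_mod_cast hee
  have hfC : (f : ℂ) * f = 1 := by exact_mod_cast hff
  have hfin : (1 + (e : ℤ) * da + f * db) * ((e * da) * (f * db) + e * da + f * db) =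
      9 * ((e * da) * (f * db)) := by
    have h1 : ((1 + (e : ℤ) * da + f * db) * ((e * da) * (f * db) + e * da + f * db) : ℂ) =
      9 * ((e * da) * (f * db)) := by
      have hξ' : (ξ : ℂ) = 1 + e * da + f * db := by rw [hξ]; push_cast; ring
      have h2 : (e : ℂ) ^ 2 = 1 := by rw [sq]; exact heC
      have h3 : (f : ℂ) ^ 2 = 1 := by rw [sq]; exact hfC
      rw [h2, h3, one_pow, one_mul, one_mul, one_mul, div_one] at halg
      have h4 : (ξ : ℂ) * (da * db + e * db + f * da) - 9 * (da * db) = 0 := by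
        have h5 : ((1 : ℂ) + e / da + f / db + -9 / ξ) * (da * db * ξ) =
          (ξ : ℂ) * (da * db + e * db + f * da) - 9 * (da * db) := by
          field_simp
          ring
        rw [← h5, halg, zero_mul]
      rw [← hξ']
      linear_combination ((e : ℂ) * f) * h4 + (ξ * (da : ℂ) * f) * (1 - heC) * 0 +
        (-(ξ : ℂ) * f * db) * heC + (-(ξ : ℂ) * e * da) * hfC
    exact_mod_cast h1
  obtain ⟨hA, hBB⟩ := arith hca hcb hfin
  have he1 : e = 1 ∧ da = 1 := by
    rcases he with r | r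
    · rw [r] at hA
      exact ⟨r, by omega⟩
    · rw [r] at hA
      omega
  refine ⟨a, haB, ha1, by rw [hda, he1.2]; norm_num, fun y => ?_⟩
  by_cases hy : y = 1
  · rw [hy, Subgroup.coe_one, hda, he1.2]; norm_num
  · rw [const_val h.ab hea hy, he1.1]; norm_num

end CfsgLib.Homo
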