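import Cfsg.Statements.S0840
import Cfsg.Agent.LibClassAlg

set_option autoImplicit false
set_option linter.all false
open scoped ComplexConjugate
open Cfsg

namespace Cfsg.Agent.S0840

open CfsgLib.CharBasic

/-- Class multiplication coefficients from the character table: for elements a, b, c of a finite group G, the number of ordered pairs (x, y) with x conjugate to a, y conjugate to b and x * y = c equals the product of the sizes of the conjugacy classes of a and b, divided by the order of G, times the sum over the irreducible characters χ of χ a * χ b * conj (χ c) / χ 1. -/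
theorem result {G : Type*} [Group G] [Finite G] (a b c : G) : (Nat.card {p : G × G // IsConj a p.1 ∧ IsConj b p.2 ∧ p.1 * p.2 = c} : ℂ) = (Nat.card {x : G // IsConj a x} : ℂ) * (Nat.card {x : G // IsConj b x} : ℂ) / (Nat.card G : ℂ) * ∑ᶠ χ : Cfsg.IrrCharacter G, (χ : G → ℂ) a * (χ : G → ℂ) b * conj ((χ : G → ℂ) c) / (χ : G → ℂ) 1 := by
  haveI := Fintype.ofFinite G
  rw [CfsgLib.ClassAlg.card_pairs, finsum_eq_sum_of_fintype, card_class_eq_index, card_class_eq_index,
    Finset.mul_sum, Finset.mul_sum]
  refine Finset.sum_congr rfl fun χ _ => ?_
  have hne : (χ : G → ℂ) 1 ≠ 0 := irr_one_ne_zero χ.2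
  unfold centralChar
  field_simp

end Cfsg.Agent.S0840
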