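import Mathlib
import Cfsg.Agent.LibHomo3
import Cfsg.Agent.LibHomoSyl
import Cfsg.Agent.LibBlockSec3
import Cfsg.Agent.LibBlockOrth2
import Cfsg.Agent.LibBlockReg2
import Cfsg.Agent.LibCores
import Cfsg.Agent.S0840

/-!
# Homocyclic Sylow 2-subgroups of rank 2: Brauer's theorem S0949 (helper17)
-/

set_option autoImplicit false
set_option linter.unusedSectionVars false
set_option linter.style.haveILetI false
set_option linter.unusedSimpArgs false

namespace CfsgLib.Homo

open Cfsg CfsgLib.CharBasic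
open scoped ComplexConjugate

universe u v

section Grp
variable {G : Type u} [Group G] [Finite G]

/-- Burnside transfer, in terms of the cores -/
theorem core_index (Q : Sylow 2 G)
    (hN : Subgroup.normalizer ((Q : Subgroup G) : Set G) ≤ Subgroup.centralizer (Q : Set G)) :
    (pPrimeCore 2 G).index = Nat.card Q := by
  haveI : Fact (Nat.Prime 2) := ⟨Nat.prime_two⟩
  have hcomp := MonoidHom.ker_transferSylow_isComplement' Q hN
  have hnd := MonoidHom.not_dvd_card_ker_transferSylow Q hN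
  have hle : (MonoidHom.transferSylow Q hN).ker ≤ pPrimeCore 2 G :=
    CfsgLib.Cores.le_pPrimeCore inferInstance (by
      rw [Nat.coprime_comm]
      exact (Nat.Prime.coprime_iff_not_dvd Nat.prime_two).2 hnd)
  have hidx : (MonoidHom.transferSylow Q hN).ker.index = Nat.card Q := hcomp.symm.index_eq_card
  have h1 := Subgroup.index_dvd_of_le hle
  rw [hidx] at h1
  refine Nat.dvd_antisymm h1 ?_
  -- Q has odd intersection with the core
  have h2 : (Nat.card (Q : Subgroup G)) ∣ Nat.card (pPrimeCore 2 G) * (pPrimeCore 2 G).index := by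
    rw [Subgroup.card_mul_index]
    exact Subgroup.card_subgroup_dvd_card _
  refine Nat.Coprime.dvd_of_dvd_mul_left ?_ h2
  obtain ⟨k, hk⟩ := (IsPGroup.iff_card (p := 2)).1 Q.isPGroup'
  show Nat.Coprime (Nat.card (Q : Subgroup G)) _
  rw [show Nat.card (Q : Subgroup G) = 2 ^ k from hk]
  exact Nat.Coprime.pow_left _ (CfsgLib.Cores.pPrimeCore_coprime 2).symm

theorem collapse (P : Sylow 2 G) (G1 : Subgroup G) [G1.Normal]
    (hO : ∀ N : Subgroup G, N.Normal → Odd (Nat.card N) → N = ⊥) (hPG : (P : Subgroup G) ≤ G1)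
    (h : ∀ n ∈ Subgroup.normalizer ((P : Subgroup G) : Set G), n ∈ G1 →
      n ∈ Subgroup.centralizer (P : Set G)) : (P : Subgroup G) = G1 := by
  haveI : Fact (Nat.Prime 2) := ⟨Nat.prime_two⟩
  obtain ⟨Q, hQ⟩ : ∃ Q : Sylow 2 G1, Q = P.subtype hPG := ⟨_, rfl⟩
  have hQm : ∀ x : G1, x ∈ Q ↔ (x : G) ∈ P := by
    intro x; rw [hQ]; exact Iff.rfl
  have hQc : Nat.card (Q : Subgroup G1) = Nat.card P := by
    have e : (Q : Subgroup G1) = (P : Subgroup G).subgroupOf G1 := by rw [hQ]; rfl
    rw [e, Nat.card_congr (Subgroup.subgroupOfEquivOfLe hPG).toEquiv]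
  have hN : Subgroup.normalizer ((Q : Subgroup G1) : Set G1) ≤ Subgroup.centralizer (Q : Set G1) := by
    intro n hn
    have hn' : (n : G) ∈ Subgroup.normalizer ((P : Subgroup G) : Set G) := by
      rw [Subgroup.mem_normalizer_iff] at hn ⊢
      intro y
      constructor
      · intro hy
        have := (hn ⟨y, hPG hy⟩).1 ((hQm _).2 hy)
        exact (hQm _).1 this
      · intro hy
        have hy1 : y ∈ G1 := by
          have h3 : (n : G) * y * (n : G)⁻¹ ∈ G1 := hPG hy
          have h4 := G1.mul_mem (G1.mul_mem (G1.inv_mem n.2) h3) n.2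
          have e : (n : G)⁻¹ * ((n : G) * y * (n : G)⁻¹) * n = y := by group
          rwa [e] at h4
        have := (hn ⟨y, hy1⟩).2 ((hQm _).2 hy)
        exact (hQm _).1 this
    have hc := h n hn' n.2
    rw [Subgroup.mem_centralizer_iff] at hc ⊢
    intro y hy
    exact Subtype.ext (hc y ((hQm _).1 hy))
  have h1 := core_index Q hN
  have h2 : (pPrimeCore 2 G1).map G1.subtype = ⊥ := by
    apply hO _ inferInstance
    rw [Nat.card_congr ((pPrimeCore 2 G1).equivMapOfInjective _ G1.subtype_injective).symm.toEquiv]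
    exact Nat.coprime_two_right.1 (CfsgLib.Cores.pPrimeCore_coprime 2)
  have h3 : pPrimeCore 2 G1 = ⊥ := (Subgroup.map_eq_bot_iff_of_injective _ G1.subtype_injective).1 h2
  rw [h3, Subgroup.index_bot] at h1
  apply Subgroup.eq_of_le_of_card_ge hPG
  rw [h1]
  exact hQc.le

end Grp

section Fus
variable {G : Type u} [Group G] [Finite G] {P : Sylow 2 G}

/-- conjugation by an element of the normalizer -/
def cj (P : Subgroup G) {n : G} (hn : n ∈ Subgroup.normalizer (P : Set G)) : P ≃* P where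
  toFun x := ⟨n * x * n⁻¹, (Subgroup.mem_normalizer_iff.1 hn x).1 x.2⟩
  invFun x := ⟨n⁻¹ * x * n, by
    have h := (Subgroup.mem_normalizer_iff.1 (inv_mem hn) x).1 x.2
    rwa [inv_inv] at h⟩
  left_inv x := Subtype.ext (by simp [mul_assoc])
  right_inv x := Subtype.ext (by simp [mul_assoc])
  map_mul' x y := Subtype.ext (by simp [mul_assoc])

theorem cj_coe (P : Subgroup G) {n : G} (hn : n ∈ Subgroup.normalizer (P : Set G)) (x : P) :
    ((cj P hn x : P) : G) = n * x * n⁻¹ := rfl

theorem cent_core (hab : ∀ a ∈ (P : Subgroup G), ∀ b ∈ (P : Subgroup G), a * b = b * a)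
    {x : G} (hx : x ∈ (P : Subgroup G))
    (hc : Subgroup.centralizer ({x} : Set G) ⊓ Subgroup.normalizer (P : Set G) ≤
      Subgroup.centralizer (P : Set G)) :
    (∃ k : ℕ, (pPrimeCore 2 (Subgroup.centralizer ({x} : Set G))).index = 2 ^ k) ∧
      (2 ^ (Nat.card (Subgroup.centralizer ({x} : Set G))).factorization 2 = Nat.card P) ∧
      (P : Subgroup G) ≤ Subgroup.centralizer ({x} : Set G) ∧
      ∀ c ∈ Subgroup.centralizer ({x} : Set G), ∃ y ∈ (P : Subgroup G), ∃ v ∈ centralizerPPrimeCore 2 x,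
        c = y * v := by
  haveI : Fact (Nat.Prime 2) := ⟨Nat.prime_two⟩
  have hPC : (P : Subgroup G) ≤ Subgroup.centralizer ({x} : Set G) := by
    intro y hy
    rw [Subgroup.mem_centralizer_singleton_iff]
    exact hab _ hy _ hx
  have hcore : centralizerPPrimeCore 2 x =
    (pPrimeCore 2 ↥(Subgroup.centralizer ({x} : Set G))).map (Subgroup.centralizer ({x} : Set G)).subtype := rfl
  rw [hcore]
  generalize Subgroup.centralizer ({x} : Set G) = C at hPC hc ⊢
  obtain ⟨Q, hQ⟩ : ∃ Q : Sylow 2 C, Q = P.subtype hPC := ⟨_, rfl⟩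
  have hQm : ∀ x : C, x ∈ Q ↔ (x : G) ∈ P := by
    intro x; rw [hQ]; exact Iff.rfl
  have hQc : Nat.card (Q : Subgroup C) = Nat.card P := by
    have e : (Q : Subgroup C) = (P : Subgroup G).subgroupOf C := by rw [hQ]; rfl
    rw [e, Nat.card_congr (Subgroup.subgroupOfEquivOfLe hPC).toEquiv]
  have hN : Subgroup.normalizer ((Q : Subgroup C) : Set C) ≤ Subgroup.centralizer (Q : Set C) := by
    intro n hn
    have hn' : (n : G) ∈ Subgroup.normalizer ((P : Subgroup G) : Set G) := by
      rw [Subgroup.mem_normalizer_iff] at hn ⊢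
      intro y
      constructor
      · intro hy
        have := (hn ⟨y, hPC hy⟩).1 ((hQm _).2 hy)
        exact (hQm _).1 this
      · intro hy
        have hy1 : y ∈ C := by
          have h3 : (n : G) * y * (n : G)⁻¹ ∈ C := hPC hy
          have h4 := C.mul_mem (C.mul_mem (C.inv_mem n.2) h3) n.2
          have e : (n : G)⁻¹ * ((n : G) * y * (n : G)⁻¹) * n = y := by group
          rwa [e] at h4
        have := (hn ⟨y, hy1⟩).2 ((hQm _).2 hy)
        exact (hQm _).1 this
    have hc' := hc ⟨n.2, hn'⟩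
    rw [Subgroup.mem_centralizer_iff] at hc' ⊢
    intro y hy
    exact Subtype.ext (hc' y ((hQm _).1 hy))
  have h1 := core_index Q hN
  have h2 : Nat.card (Q : Subgroup C) = 2 ^ (Nat.card C).factorization 2 := Sylow.card_eq_multiplicity Q
  have h1' : (pPrimeCore 2 C).index = Nat.card (Q : Subgroup C) := h1
  refine ⟨⟨_, h1'.trans h2⟩, h2.symm.trans hQc, hPC, ?_⟩
  -- generation
  have htop : (Q : Subgroup C) ⊔ pPrimeCore 2 C = ⊤ := by
    rw [← Subgroup.index_eq_one]
    have e1 : ((Q : Subgroup C) ⊔ pPrimeCore 2 C).index ∣ (Q : Subgroup C).index :=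
      Subgroup.index_dvd_of_le le_sup_left
    have e2 : ((Q : Subgroup C) ⊔ pPrimeCore 2 C).index ∣ Nat.card (Q : Subgroup C) := by
      rw [← h1']; exact Subgroup.index_dvd_of_le le_sup_right
    have e3 : Nat.Coprime (Nat.card (Q : Subgroup C)) (Q : Subgroup C).index := by
      rw [h2]
      exact Nat.Coprime.pow_left _ ((Nat.Prime.coprime_iff_not_dvd Nat.prime_two).2 Q.not_dvd_index)
    exact Nat.eq_one_of_dvd_coprimes e3 e2 e1
  intro c hcC
  have hmem : (⟨c, hcC⟩ : C) ∈ (Q : Subgroup C) ⊔ pPrimeCore 2 C := by rw [htop]; trivial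
  obtain ⟨y, hy, v, hv, hyv⟩ := Subgroup.mem_sup_of_normal_right.1 hmem
  exact ⟨y, (hQm y).1 hy, v, ⟨v, hv, rfl⟩, (congrArg Subtype.val hyv).symm⟩

end Fus


section Fin
variable {G : Type u} [Group G] [Fintype G] {P : Sylow 2 G}

/-- the standing hypotheses -/
structure Ctx (P : Sylow 2 G) (n : G) : Prop where
  ab : ∀ a ∈ (P : Subgroup G), ∀ b ∈ (P : Subgroup G), a * b = b * a
  nm : n ∈ Subgroup.normalizer ((P : Subgroup G) : Set G)
  nc : n ∉ Subgroup.centralizer ((P : Subgroup G) : Set G)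
  rel : (Subgroup.centralizer (P : Set G)).relIndex (Subgroup.normalizer (P : Set G)) = 3
  fpf : ∀ z ∈ (P : Subgroup G), z ≠ 1 →
    Subgroup.centralizer ({z} : Set G) ⊓ Subgroup.normalizer (P : Set G) = Subgroup.centralizer (P : Set G)

variable {n : G}

theorem Ctx.coset (h : Ctx P n) {g : G} (hg : g ∈ Subgroup.normalizer ((P : Subgroup G) : Set G)) :
    ∃ k : ℤ, ∃ c ∈ Subgroup.centralizer ((P : Subgroup G) : Set G), g = n ^ k * c := by
  set N := Subgroup.normalizer ((P : Subgroup G) : Set G) with hN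
  set K := (Subgroup.centralizer ((P : Subgroup G) : Set G)).subgroupOf N with hK
  have hrel : K.index = 3 := h.rel
  haveI hnor : K.Normal := Subgroup.normal_subgroupOf_centralizer_normalizer _
  haveI : Fact (Nat.Prime 3) := ⟨Nat.prime_three⟩
  have hcard : Nat.card (N ⧸ K) = 3 := hrel
  have hne : (QuotientGroup.mk (⟨n, h.nm⟩ : N) : N ⧸ K) ≠ 1 := by
    rw [Ne, QuotientGroup.eq_one_iff]
    intro hc
    exact h.nc hc
  have hmem : (QuotientGroup.mk (⟨g, hg⟩ : N) : N ⧸ K) ∈
      Subgroup.zpowers (QuotientGroup.mk (⟨n, h.nm⟩ : N) : N ⧸ K) :=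
    mem_zpowers_of_prime_card hcard hne
  obtain ⟨k, hk⟩ := Subgroup.mem_zpowers_iff.1 hmem
  rw [← QuotientGroup.mk_zpow, QuotientGroup.eq] at hk
  refine ⟨k, n⁻¹ ^ k * g, ?_, by rw [inv_zpow, mul_inv_cancel_left]⟩
  have h2 : ((((⟨n, h.nm⟩ : N) ^ k)⁻¹ * (⟨g, hg⟩ : N) : N) : G) ∈
    Subgroup.centralizer ((P : Subgroup G) : Set G) := hk
  rw [Subgroup.coe_mul, Subgroup.coe_inv, Subgroup.coe_zpow] at h2
  rw [inv_zpow]
  exact h2

theorem Ctx.cube (h : Ctx P n) : n ^ 3 ∈ Subgroup.centralizer ((P : Subgroup G) : Set G) := by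
  set N := Subgroup.normalizer ((P : Subgroup G) : Set G) with hN
  set K := (Subgroup.centralizer ((P : Subgroup G) : Set G)).subgroupOf N with hK
  have hrel : K.index = 3 := h.rel
  haveI hnor : K.Normal := Subgroup.normal_subgroupOf_centralizer_normalizer _
  have h1 := Subgroup.pow_index_mem K (⟨n, h.nm⟩ : N)
  rw [hrel] at h1
  exact h1

/-- the automorphism of order 3 of `P` -/
def Ctx.ph (h : Ctx P n) : (P : Subgroup G) ≃* (P : Subgroup G) := cj (P : Subgroup G) h.nm

theorem Ctx.ph_coe (h : Ctx P n) (x : (P : Subgroup G)) : (h.ph x : G) = n * x * n⁻¹ := rfl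

theorem Ctx.phi3 (h : Ctx P n) (x : (P : Subgroup G)) :
    h.ph (h.ph (h.ph x)) = x := by
  apply Subtype.ext
  rw [h.ph_coe, h.ph_coe, h.ph_coe]
  have h1 := Subgroup.mem_centralizer_iff.1 h.cube x x.2
  calc n * (n * (n * x * n⁻¹) * n⁻¹) * n⁻¹ = (n ^ 3 * x) * (n ^ 3)⁻¹ := by
        rw [show (3 : ℕ) = 2 + 1 from rfl, pow_succ, pow_two]; group
    _ = x := by rw [← h1]; group

theorem Ctx.fix (h : Ctx P n) (x : (P : Subgroup G)) (hx : h.ph x = x) : x = 1 := by
  by_contra hne
  have h1 : (x : G) ≠ 1 := fun e => hne (Subtype.ext e)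
  apply h.nc
  have h2 := congrArg Subtype.val hx
  rw [h.ph_coe] at h2
  exact (h.fpf x x.2 h1).le
    ⟨Subgroup.mem_centralizer_singleton_iff.2 (mul_inv_eq_iff_eq_mul.1 h2), h.nm⟩

theorem Ctx.fusion (h : Ctx P n) {x y : (P : Subgroup G)} (hc : IsConj (x : G) (y : G)) :
    y = x ∨ y = h.ph x ∨ y = h.ph (h.ph x) := by
  haveI : Fact (Nat.Prime 2) := ⟨Nat.prime_two⟩
  haveI : IsMulCommutative (P : Subgroup G) := ⟨⟨fun a b => Subtype.ext (h.ab a a.2 b b.2)⟩⟩
  obtain ⟨g, hg⟩ := isConj_iff.1 hc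
  obtain ⟨m, hm, hm2⟩ := Sylow.conj_eq_normalizer_conj_of_mem_centralizer P (x : G) g⁻¹
    (Subgroup.mem_centralizer_iff.2 fun z hz => h.ab z hz x x.2)
    (by rw [inv_inv, hg]; exact Subgroup.mem_centralizer_iff.2 fun z hz => h.ab z hz y y.2)
  rw [inv_inv, hg] at hm2
  obtain ⟨k, c, hcc, hk⟩ := h.coset (g := m⁻¹) (inv_mem hm)
  have h1 : (y : G) = n ^ k * x * (n ^ k)⁻¹ := by
    rw [hm2]
    have e : m = (m⁻¹)⁻¹ := (inv_inv m).symm
    have hcx : c * x = x * c := (Subgroup.mem_centralizer_iff.1 hcc x x.2).symm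
    calc m⁻¹ * x * m = m⁻¹ * x * (m⁻¹)⁻¹ := by rw [inv_inv]
      _ = n ^ k * (c * x) * c⁻¹ * (n ^ k)⁻¹ := by rw [hk]; group
      _ = _ := by rw [hcx]; group
  have h3 : ∀ j : ℤ, n ^ (3 * j) ∈ Subgroup.centralizer ((P : Subgroup G) : Set G) := by
    intro j
    rw [zpow_mul]
    exact zpow_mem (by exact_mod_cast h.cube) j
  obtain ⟨q, r, hr, hqr⟩ : ∃ q : ℤ, ∃ r : ℕ, r < 3 ∧ k = r + 3 * q :=
    ⟨k / 3, (k % 3).toNat, by omega, by omega⟩
  have h4 : (y : G) = n ^ r * x * (n ^ r)⁻¹ := by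
    rw [h1, hqr, zpow_add, zpow_natCast]
    have hcx := Subgroup.mem_centralizer_iff.1 (h3 q) x x.2
    calc n ^ r * n ^ (3 * q) * x * (n ^ r * n ^ (3 * q))⁻¹ =
        n ^ r * (n ^ (3 * q) * x) * (n ^ (3 * q))⁻¹ * (n ^ r)⁻¹ := by
          rw [mul_inv_rev]; simp only [mul_assoc]
      _ = _ := by rw [← hcx]; simp only [mul_assoc, mul_inv_cancel_left]
  interval_cases r
  · left; apply Subtype.ext; rw [h4]; simp
  · right; left; apply Subtype.ext; rw [h4, h.ph_coe, pow_one]
  · right; right; apply Subtype.ext; rw [h4, h.ph_coe, h.ph_coe, pow_two]; group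

theorem Ctx.conj_of (h : Ctx P n) {x y : (P : Subgroup G)}
    (hy : y = x ∨ y = h.ph x ∨ y = h.ph (h.ph x)) : IsConj (x : G) (y : G) := by
  rcases hy with r | r | r
  · rw [r]
  · rw [r, isConj_iff]; exact ⟨n, rfl⟩
  · rw [r, isConj_iff]; exact ⟨n * n, by rw [h.ph_coe, h.ph_coe]; group⟩

theorem Ctx.two_elem (h : Ctx P n) (x : (P : Subgroup G)) : ∃ k : ℕ, orderOf (x : G) = 2 ^ k := by
  haveI : Fact (Nat.Prime 2) := ⟨Nat.prime_two⟩
  obtain ⟨k, hk⟩ := (IsPGroup.iff_orderOf.1 P.isPGroup') x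
  exact ⟨k, by rw [Subgroup.orderOf_coe]; exact hk⟩

open Classical in
theorem Ctx.dat (h : Ctx P n) [Fintype (P : Subgroup G)] (h16 : 16 ∣ Nat.card P)
    {M : Ideal AlgInt} (hM : IsPModular 2 M) :
    Dat (P : Subgroup G) (h.ph) (Set.toFinite (principalBlock M G)).toFinset := by
  haveI : Fact (Nat.Prime 2) := ⟨Nat.prime_two⟩
  have hM' := BlockR.isPrime_of_modular hM
  have hB : IsPBlock M (principalBlock M G) := ⟨⟨_, isIrrCharacter_one⟩, rfl⟩
  have hsum : ∀ F : IrrCharacter G → ℂ, ∑ χ ∈ (Set.toFinite (principalBlock M G)).toFinset, F χ =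
      ∑ᶠ χ ∈ principalBlock M G, F χ := fun F =>
    (finsum_mem_eq_finite_toFinset_sum _ (Set.toFinite (principalBlock M G))).symm
  have heven : ∀ y : (P : Subgroup G), y ≠ 1 → 2 ∣ orderOf (y : G) := by
    intro y hy
    obtain ⟨k, hk⟩ := h.two_elem y
    rcases Nat.eq_zero_or_pos k with r | r
    · rw [r, pow_zero, orderOf_eq_one_iff] at hk
      exact absurd (Subtype.ext hk) hy
    · rw [hk]; exact dvd_pow_self 2 r.ne'
  have hdeg : ∀ x : (P : Subgroup G), x ≠ 1 →
      ∑ χ ∈ (Set.toFinite (principalBlock M G)).toFinset, (χ : G → ℂ) 1 * (χ : G → ℂ) x = 0 := by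
    intro x hx
    rw [hsum]
    have h1 := BlockOrth.weak_block_orth hM hB (x := 1) (y := ((x : G))⁻¹)
      (by rw [orderOf_one]; norm_num) (by rw [orderOf_inv]; exact heven x hx)
    rw [← h1]
    refine finsum_mem_congr rfl fun χ _ => ?_
    rw [char_inv_eq_conj (irr_isCharacter χ.2), Complex.conj_conj]
  refine ⟨fun a b => Subtype.ext (h.ab a a.2 b b.2), h.phi3, h.fix, ?_, ?_, ?_, hdeg, ?_, h16⟩
  · rw [Set.Finite.mem_toFinset]
    exact BlockIdem.sameBlock_refl hM' _
  · intro x y hx hy hxy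
    have hcl : ∀ χ : IrrCharacter G, (χ : G → ℂ) y = (χ : G → ℂ) x := fun χ =>
      ((isClassFunction_iff_mem.1 (irr_classFun χ.2)) _ _ (h.conj_of hxy)).symm
    rw [hsum]
    have hx1 : (x : G) ≠ 1 := fun e => hx (Subtype.ext e)
    have hcc := cent_core h.ab x.2 (h.fpf x x.2 hx1).le
    letI : Fintype (Subgroup.centralizer ({(x : G)} : Set G)) := Fintype.ofFinite _
    have h1 := BlockSec2.principal_sum hM (h.two_elem x)
      (y := (1 : Subgroup.centralizer ({(x : G)} : Set G))) (by rw [orderOf_one]; norm_num)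
    have h2 := BlockSec2.principal_sum_nilpotent hM hcc.1
      (y := (1 : Subgroup.centralizer ({(x : G)} : Set G))) (by rw [orderOf_one]; norm_num)
    rw [h2, hcc.2.1, Subgroup.coe_one, mul_one] at h1
    have h3 := BlockSec2.finsum_norm_eq (principalBlock M G) (x : G)
    rw [h1, BlockOrth.sum_ind] at h3
    have h4 : ∑ᶠ χ ∈ principalBlock M G, (χ : G → ℂ) x * conj ((χ : G → ℂ) y) =
      ∑ᶠ χ ∈ principalBlock M G, (χ : G → ℂ) x * conj ((χ : G → ℂ) x) :=
      finsum_mem_congr rfl fun χ _ => by rw [hcl χ]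
    rw [h4, ← h3]
    push_cast
    rfl
  · intro x y hx hy hxy
    rw [hsum]
    exact BlockOrth.block_orth_conj hM hB (BlockOrth.isPPart_self (h.two_elem x))
      (BlockOrth.isPPart_self (h.two_elem y)) (fun hc => hxy (h.fusion hc))
  · intro t x ht ht2 hxx
    -- the class function of the class algebra constants
    set c : IrrCharacter G → ℂ := fun χ => (χ : G → ℂ) t ^ 2 / (χ : G → ℂ) 1 with hc
    set th : G → ℂ := ∑ χ : IrrCharacter G, c χ • (χ : G → ℂ) with hth
    have hvan : ∀ w y : G, IsPPart 2 w y → IsConj (x : G) y → th w = 0 := by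
      intro w y hwy hxy
      have h1 := Cfsg.Agent.S0840.result (t : G) (t : G) w⁻¹
      have h0 : Nat.card {p : G × G // IsConj (t : G) p.1 ∧ IsConj (t : G) p.2 ∧ p.1 * p.2 = w⁻¹} = 0 := by
        rw [Nat.card_eq_zero]
        left
        constructor
        rintro ⟨⟨s1, s2⟩, hs1, hs2, h12⟩
        simp only at hs1 hs2 h12
        have hinv : ∀ s : G, IsConj (t : G) s → s * s = 1 := by
          intro s hs
          obtain ⟨g, rfl⟩ := isConj_iff.1 hs
          have : (t : G) * t = 1 := congrArg Subtype.val ht2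
          calc g * t * g⁻¹ * (g * t * g⁻¹) = g * (t * t) * g⁻¹ := by group
            _ = 1 := by rw [this]; group
        have e1 := hinv s1 hs1
        have e2 := hinv s2 hs2
        have e1' : s1⁻¹ = s1 := inv_eq_of_mul_eq_one_left e1
        have e2' : s2⁻¹ = s2 := inv_eq_of_mul_eq_one_left e2
        have e3 : s1 * w⁻¹ * s1⁻¹ = w := by
          rw [← h12, e1']
          have e4 : w = s2 * s1 := by
            rw [← inv_inv w, ← h12, mul_inv_rev, e1', e2']
          rw [e4, ← mul_assoc, e1, one_mul]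
        have h5 := BlockOrth.isPPart_conj (BlockOrth.isPPart_inv hwy) s1
        rw [e3] at h5
        have h6 := BlockOrth.isPPart_unique h5 hwy
        have hx1 : x ≠ 1 := by rintro rfl; exact hxx (mul_one 1)
        have hne2 : h.ph (h.ph x) ≠ x := by
          intro e
          have e5 := h.phi3 x
          rw [e] at e5
          exact hx1 (h.fix x e5)
        have h7 : IsConj (y⁻¹) y := isConj_iff.2 ⟨s1, h6⟩
        have h8 : IsConj ((x⁻¹ : (P : Subgroup G)) : G) (x : G) := by
          obtain ⟨g, hg⟩ := isConj_iff.1 hxy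
          have h9 : IsConj ((x : G)⁻¹) y⁻¹ := isConj_iff.2 ⟨g, by rw [← hg]; group⟩
          exact (h9.trans h7).trans hxy.symm
        rcases h.fusion h8 with r | r | r
        · apply hxx
          have : x * x = x⁻¹ * x := by rw [← r]
          rw [this, inv_mul_cancel]
        · rw [map_inv] at r
          have r3 : h.ph x = x⁻¹ := by
            calc h.ph x = ((h.ph x)⁻¹)⁻¹ := (inv_inv _).symm
              _ = x⁻¹ := by rw [← r]
          exact hne2 (by rw [r3, map_inv, r3, inv_inv])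
        · have r3 : h.ph x = x⁻¹ := by
            calc h.ph x = h.ph (h.ph (h.ph x⁻¹)) := by rw [← r]
              _ = x⁻¹ := h.phi3 _
          exact hne2 (by rw [r3, map_inv, r3, inv_inv])
      rw [h0, Nat.cast_zero] at h1
      have h2 : ∑ᶠ χ : IrrCharacter G, (χ : G → ℂ) t * (χ : G → ℂ) t * conj ((χ : G → ℂ) w⁻¹) / (χ : G → ℂ) 1 = 0 := by
        rcases mul_eq_zero.1 h1.symm with h3 | h3
        · exfalso
          have hpos : (Nat.card {x : G // IsConj (t : G) x} : ℂ) ≠ 0 := by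
            haveI : Nonempty {x : G // IsConj (t : G) x} := ⟨⟨t, IsConj.refl _⟩⟩
            exact_mod_cast Nat.card_pos.ne'
          have hG : (Nat.card G : ℂ) ≠ 0 := by exact_mod_cast Nat.card_pos.ne'
          exact (div_ne_zero (mul_ne_zero hpos hpos) hG) h3
        · exact h3
      rw [finsum_eq_sum_of_fintype] at h2
      rw [hth, Finset.sum_apply, ← h2]
      refine Finset.sum_congr rfl fun χ _ => ?_
      rw [char_inv_eq_conj (irr_isCharacter χ.2), Complex.conj_conj, Pi.smul_apply, smul_eq_mul, hc]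
      ring
    have h3 := BlockOrth.blockPart_eq_zero hM hB (ϑ := th) (BlockOrth.isPPart_self (h.two_elem x)) hvan
    rw [BlockOrth.blockPart_expand, BlockOrth.sum_ind] at h3
    rw [hsum, ← h3]
    refine finsum_mem_congr rfl fun χ _ => ?_
    rw [hth, inner_comb, hc]
    ring

/-- **Brauer**: Sylow 2-subgroups of type `(2^m, 2^m)`, `m ≥ 2` -/
theorem s0949 (P : Sylow 2 G) (m : ℕ) (hm : 2 ≤ m)
    (e : (P : Subgroup G) ≃* Multiplicative (ZMod (2 ^ m) × ZMod (2 ^ m)))
    (hO : ∀ N : Subgroup G, N.Normal → Odd (Nat.card N) → N = ⊥) :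
    (P : Subgroup G).Normal ∧ Subgroup.centralizer (P : Set G) = (P : Subgroup G) ∧
      ((P : Subgroup G).index = 1 ∨ (P : Subgroup G).index = 3) := by
  classical
  haveI : Fact (Nat.Prime 2) := ⟨Nat.prime_two⟩
  have hab := HomoSyl.comm_of_equiv e
  have hPC : (P : Subgroup G) ≤ Subgroup.centralizer (P : Set G) := fun x hx =>
    Subgroup.mem_centralizer_iff.2 fun y hy => hab y hy x hx
  by_cases h1 : (Subgroup.centralizer (P : Set G)).relIndex (Subgroup.normalizer (P : Set G)) = 1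
  · have hNC : Subgroup.normalizer ((P : Subgroup G) : Set G) ≤ Subgroup.centralizer (P : Set G) :=
      Subgroup.relIndex_eq_one.1 h1
    have h2 : (P : Subgroup G) = ⊤ := collapse P ⊤ hO le_top (fun n hn _ => hNC hn)
    refine ⟨by rw [h2]; infer_instance, le_antisymm (by rw [h2]; exact le_top) hPC, ?_⟩
    left; rw [h2, Subgroup.index_top]
  · have h3 := (HomoSyl.relIndex_cases P (by omega) e).resolve_left h1
    obtain ⟨n, hn, hnc⟩ : ∃ n ∈ Subgroup.normalizer ((P : Subgroup G) : Set G),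
        n ∉ Subgroup.centralizer ((P : Subgroup G) : Set G) := by
      by_contra hcon
      push Not at hcon
      exact h1 (Subgroup.relIndex_eq_one.2 hcon)
    have hctx : Ctx P n := ⟨hab, hn, hnc, h3, fun z hz hz1 => HomoSyl.s0945 P (by omega) e h1 hz hz1⟩
    obtain ⟨M, hM⟩ := CfsgLib.BlockReg2.exists_modular 2 Nat.prime_two
    letI : Fintype (P : Subgroup G) := Fintype.ofFinite _
    haveI : NeZero (2 ^ m) := ⟨by positivity⟩
    have hcard : Nat.card (P : Subgroup G) = 2 ^ m * 2 ^ m := by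
      rw [Nat.card_congr e.toEquiv, Nat.card_congr Multiplicative.toAdd, Nat.card_prod, Nat.card_zmod]
    have h16 : 16 ∣ Nat.card (P : Subgroup G) := by
      rw [hcard]
      obtain ⟨k, rfl⟩ := Nat.exists_eq_add_of_le hm
      exact ⟨2 ^ k * 2 ^ k, by rw [pow_add]; ring⟩
    have hdat := hctx.dat h16 hM
    obtain ⟨t, ht⟩ := exists_prime_orderOf_dvd_card' (G := (P : Subgroup G)) 2
      ((by norm_num : (2 : ℕ) ∣ 16).trans h16)
    have ht1 : t ≠ 1 := by
      rintro rfl; rw [orderOf_one] at ht; norm_num at ht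
    have ht2 : t * t = 1 := by
      have h9 := pow_orderOf_eq_one t
      rwa [ht, pow_two] at h9
    obtain ⟨x, hx⟩ : ∃ x : (P : Subgroup G), x * x ≠ 1 := by
      refine ⟨e.symm (Multiplicative.ofAdd (1, 0)), fun hc => ?_⟩
      rw [← map_mul, MulEquiv.symm_apply_eq, map_one, ← ofAdd_add] at hc
      have h4 : ((1, 0) + (1, 0) : ZMod (2 ^ m) × ZMod (2 ^ m)) = 0 := Multiplicative.ofAdd.injective hc
      have h5 := congrArg Prod.fst h4
      have h6 : ((2 : ℕ) : ZMod (2 ^ m)) = 0 := by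
        have : (1 : ZMod (2 ^ m)) + 1 = 0 := h5
        push_cast
        rw [← this]; norm_num
      rw [ZMod.natCast_eq_zero_iff] at h6
      have h7 := Nat.le_of_dvd (by norm_num) h6
      have h8 : 2 ^ 2 ≤ 2 ^ m := Nat.pow_le_pow_right (by norm_num) hm
      omega
    obtain ⟨A, hAB, hA1, hAdeg, hAP⟩ := hdat.main t x ht1 ht2 hx
    have hAprin : A ∈ principalBlock M G := (Set.Finite.mem_toFinset _).1 hAB
    obtain ⟨f, hf⟩ := exists_hom_of_linear (irr_isCharacter A.2) hAdeg
    have hker : ∀ g : G, g ∈ f.ker ↔ (A : G → ℂ) g = 1 := by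
      intro g
      rw [MonoidHom.mem_ker, hf, Units.val_eq_one]
    have hPk : (P : Subgroup G) ≤ f.ker := fun y hy => (hker y).2 (hAP ⟨y, hy⟩)
    -- the centralizer of an involution lies in the kernel
    have hxt : (t : G) ≠ 1 := fun h => ht1 (Subtype.ext h)
    have hcc := cent_core hab t.2 (hctx.fpf t t.2 hxt).le
    have hCk : Subgroup.centralizer (P : Set G) ≤ f.ker := by
      intro c hc
      have hc' : c ∈ Subgroup.centralizer ({(t : G)} : Set G) := by
        rw [Subgroup.mem_centralizer_singleton_iff]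
        exact (Subgroup.mem_centralizer_iff.1 hc t t.2).symm
      obtain ⟨y, hy, v, hv, rfl⟩ := hcc.2.2.2 c hc'
      refine f.ker.mul_mem (hPk hy) ?_
      obtain ⟨w, hw, rfl⟩ := hv
      have h5 := BlockSec2.principal_const hM (hctx.two_elem t) hw hAprin
      rw [hker]
      have h6 : (A : G → ℂ) (t * (w : G)) = (A : G → ℂ) t * (A : G → ℂ) w :=
        linear_mul (irr_isCharacter A.2) hAdeg _ _
      rw [h6, hAP t, one_mul] at h5
      exact h5
    have hPeq : (P : Subgroup G) = f.ker := by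
      apply collapse P f.ker hO hPk
      intro g hg hgk
      by_contra hgc
      -- then the normalizer lies in the kernel
      have hNk : Subgroup.normalizer ((P : Subgroup G) : Set G) ≤ f.ker := by
        have hctx' : Ctx P g := ⟨hab, hg, hgc, h3, fun z hz hz1 => HomoSyl.s0945 P (by omega) e h1 hz hz1⟩
        intro z hz
        obtain ⟨k, c, hc, rfl⟩ := hctx'.coset hz
        exact f.ker.mul_mem (f.ker.zpow_mem hgk k) (hCk hc)
      have h5 := Sylow.normalizer_sup_eq_top' P hPk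
      have h6 : f.ker = ⊤ := by
        rw [eq_top_iff, ← h5]
        exact sup_le hNk le_rfl
      apply hA1
      apply Subtype.ext
      funext g
      exact (hker g).1 (by rw [h6]; trivial)
    have hnor : (P : Subgroup G).Normal := by rw [hPeq]; infer_instance
    refine ⟨hnor, le_antisymm (by rw [hPeq]; exact hCk) hPC, Or.inr ?_⟩
    have hCP : Subgroup.centralizer (P : Set G) = (P : Subgroup G) :=
      le_antisymm (by rw [hPeq]; exact hCk) hPC
    have hNt : Subgroup.normalizer ((P : Subgroup G) : Set G) = ⊤ := Subgroup.normalizer_eq_top_iff.2 hnor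
    have h7 : (Subgroup.centralizer (P : Set G)).relIndex
      (Subgroup.normalizer ((P : Subgroup G) : Set G)) = 3 := h3
    rw [hNt, Subgroup.relIndex_top_right, hCP] at h7
    exact h7

end Fin

end CfsgLib.Homo
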