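import Mathlib
import Cfsg.Agent.LibChevSyl

set_option autoImplicit false
set_option linter.all false
set_option maxRecDepth 100000

/-! exponent of U via heights (seat helper23) -/

namespace CfsgLib.Chev

open Cfsg.Lie Matrix

/-- height -/
noncomputable def hgt (T : Tb) (s : ℕ) : ℤ := ((List.range T.l).map fun j => T.v s j).sum

noncomputable def lvH (D : ChevalleyDatum) (T : Tb) : D.Idx → ℤ := Sum.elim (fun _ => 0) (fun s => hgt T s)

theorem sum_lin (L : List ℕ) (f f1 f2 : ℕ → ℤ) (a : ℤ) (h : ∀ j ∈ L, f j = f1 j + a * f2 j) :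
    (L.map f).sum = (L.map f1).sum + a * (L.map f2).sum := by
  induction L with
  | nil => simp
  | cons x L ih =>
    simp only [List.map_cons, List.sum_cons]
    rw [ih fun j hj => h j (List.mem_cons_of_mem _ hj), h x List.mem_cons_self]
    ring

namespace Good3

variable {D : ChevalleyDatum} {T : Tb} (g : Good3 D T)
include g

theorem hgt_neg {s : ℕ} (hs : s < T.n) : hgt T (T.n - 1 - s) = - hgt T s := by
  unfold hgt
  have := sum_lin (List.range T.l) (fun j => T.v (T.n - 1 - s) j) (fun _ => 0) (fun j => T.v s j) (-1)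
    (fun j hj => by rw [g.v_neg hs (List.mem_range.1 hj)]; ring)
  rw [this]; simp

theorem hgt_pos {s : ℕ} (hs : s < T.n) (hp : T.n / 2 ≤ s) : 1 ≤ hgt T s := by
  obtain ⟨j, hj, hne⟩ := g.v_ne_zero hs
  have h0 : ∀ j ∈ List.range T.l, 0 ≤ T.v s j := fun j hj => g.v_nonneg hs (List.mem_range.1 hj) hp
  have h1 : T.v s j ∈ (List.range T.l).map (fun j => T.v s j) := List.mem_map.2 ⟨j, List.mem_range.2 hj, rfl⟩
  have h2 : T.v s j ≤ hgt T s := by
    apply List.single_le_sum _ _ h1
    intro x hx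
    rw [List.mem_map] at hx
    obtain ⟨k, hk, rfl⟩ := hx
    exact h0 k hk
  have h3 := h0 j (List.mem_range.2 hj)
  omega

theorem ent_hgt {r s : ℕ} (hr : r < T.n) (hs : s < T.n) (h1 : s ≠ r) (h2 : s ≠ T.n - 1 - r) :
    ∀ q ∈ (T.ent r s).zipIdx, hgt T q.1.1 = hgt T s + ((q.2 : ℤ) + 1) * hgt T r := by
  intro q hq
  exact sum_lin _ _ _ _ _ fun j hj => g.ent_v hr hs h1 h2 q hq j (List.mem_range.1 hj)

section Mat
variable {F : Type*} [Field F]

theorem x_uniH {r : ℕ} (hr : r < T.n) (hrp : T.n / 2 ≤ r) (t : F) :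
    UniL (lvH D T) 1 (D.x F r t) := by
  have hev := g.even
  have hr1 := g.hgt_pos hr hrp
  intro row col hlt
  cases col with
  | inl i =>
    have hiD := i.isLt
    have hi : i.val < T.l := by rw [← g.hl]; exact hiD
    have e1 : D.x F r t row (Sum.inl i) = (D.x F r t *ᵥ hV D F i.val) row := by
      rw [mulVec_hV _ hiD]
    have e2 : (1 : Matrix D.Idx D.Idx F) row (Sum.inl i) = ((1 : Matrix D.Idx D.Idx F) *ᵥ hV D F i.val) row := by
      rw [mulVec_hV _ hiD]
    rw [e1, e2, Matrix.one_mulVec, g.x_h' hr hi]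
    cases row with
    | inl j => rw [Pi.add_apply, Pi.smul_apply, eV_inl, smul_zero, add_zero]
    | inr u =>
      rw [Pi.add_apply, Pi.smul_apply, eV_inr]
      have hlt : hgt T u.val < 0 + 1 := hlt
      have : u.val ≠ r := by
        intro hur; rw [hur] at hlt; omega
      rw [if_neg this, smul_zero, add_zero]
  | inr s =>
    have hsD := s.isLt
    have hs : s.val < T.n := by rw [← g.hn]; exact hsD
    have e1 : D.x F r t row (Sum.inr s) = (D.x F r t *ᵥ eV D F s.val) row := by
      rw [mulVec_eV _ hsD]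
    have e2 : (1 : Matrix D.Idx D.Idx F) row (Sum.inr s) = ((1 : Matrix D.Idx D.Idx F) *ᵥ eV D F s.val) row := by
      rw [mulVec_eV _ hsD]
    rw [e1, e2, Matrix.one_mulVec]
    by_cases h1 : s.val = r
    · rw [h1, g.x_self' hr]
    · by_cases h2 : s.val = T.n - 1 - r
      · rw [h2, g.x_neg' hr]
        cases row with
        | inl j =>
          exfalso
          have hlt : (0 : ℤ) < hgt T s.val + 1 := hlt
          rw [h2, g.hgt_neg hr] at hlt
          omega
        | inr u =>
          have hlt : hgt T u.val < hgt T s.val + 1 := hlt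
          rw [h2, g.hgt_neg hr] at hlt
          have hur : u.val ≠ r := by
            intro hur; rw [hur] at hlt; omega
          rw [Pi.add_apply, Pi.add_apply, Pi.smul_apply, eV_inr (s := r), if_neg hur]
          simp [hV_inr]
      · rw [g.x_e' hr hs h1 h2, Pi.add_apply]
        have : ((List.map (fun q => (((q.1.2 : ℤ) : F) * t ^ (q.2 + 1)) • eV D F q.1.1) (T.ent r s).zipIdx).sum) row = 0 := by
          have hq : ∀ q ∈ (T.ent r s).zipIdx, eV D F q.1.1 row = 0 := by
            intro q hq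
            cases row with
            | inl j => exact eV_inl _
            | inr u =>
              rw [eV_inr, if_neg]
              intro hu
              have h3 := g.ent_hgt hr hs h1 h2 q hq
              have hlt : hgt T u.val < hgt T s.val + 1 := hlt
              rw [hu, h3] at hlt
              have h4 : (0 : ℤ) ≤ (q.2 : ℤ) := Int.natCast_nonneg _
              nlinarith
          revert hq
          generalize (T.ent r s).zipIdx = L
          intro hq
          induction L with
          | nil => simp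
          | cons a L ih =>
            rw [List.map_cons, List.sum_cons, Pi.add_apply, Pi.smul_apply, hq a List.mem_cons_self, ih (fun q hq' => hq q (List.mem_cons_of_mem _ hq'))]
            simp
        rw [this, add_zero]

theorem U_uniH {u : GL D.Idx F} (hu : u ∈ D.posUnipotent F) : UniL (lvH D T) 1 (u : Matrix D.Idx D.Idx F) := by
  have hle : D.posUnipotent F ≤ UGL (F := F) (lvH D T) 1 one_pos := by
    rw [g.U_eq]
    unfold Uge
    rw [Subgroup.closure_le]
    rintro x ⟨r, t, h1, h2, rfl⟩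
    refine ⟨g.x_uniH h2 h1 t, ?_⟩
    rw [← g.X_neg]
    exact g.x_uniH h2 h1 (-t)
  exact (hle hu).1

omit g in
theorem sub_pow_zero {I : Type*} [Fintype I] [DecidableEq I] {L : I → ℤ} {M : Matrix I I F} (h : UniL L 1 M) :
    ∀ (k : ℕ) (row col : I), L row < L col + k → ((M - 1) ^ k) row col = 0 := by
  intro k
  induction k with
  | zero =>
    intro row col h1
    rw [pow_zero]
    apply Matrix.one_apply_ne
    rintro rfl
    simp at h1
  | succ k ih =>
    intro row col h1
    rw [pow_succ, Matrix.mul_apply]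
    apply Finset.sum_eq_zero
    intro x _
    push_cast at h1
    by_cases hx : L row < L x + k
    · rw [ih row x hx, zero_mul]
    · have : (M - 1) x col = 0 := by
        rw [Matrix.sub_apply, h x col (by omega), sub_self]
      rw [this, mul_zero]

theorem U_exp {p : ℕ} [Fact p.Prime] [CharP F p] {B : ℤ} (hB : ∀ s < T.n, hgt T s ≤ B) (hB0 : 0 ≤ B) {k : ℕ} (hk : 2 * B < p ^ k)
    {u : GL D.Idx F} (hu : u ∈ D.posUnipotent F) : u ^ (p ^ k) = 1 := by
  have hev := g.even
  apply Units.ext
  rw [Units.val_pow_eq_pow_val, Units.val_one]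
  have h1 := g.U_uniH hu
  have hlv : ∀ a : D.Idx, lvH D T a ≤ B ∧ -B ≤ lvH D T a := by
    intro a
    cases a with
    | inl i => exact ⟨hB0, by show -B ≤ 0; omega⟩
    | inr s =>
      have hs : s.val < T.n := by rw [← g.hn]; exact s.isLt
      refine ⟨hB s hs, ?_⟩
      have := hB (T.n - 1 - s.val) (by omega)
      rw [g.hgt_neg hs] at this
      show -B ≤ hgt T s.val
      omega
  have h2 : ((u : Matrix D.Idx D.Idx F) - 1) ^ (p ^ k) = 0 := by
    ext row col
    apply sub_pow_zero h1
    have := (hlv row).1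
    have := (hlv col).2
    push_cast
    omega
  by_cases hI : IsEmpty D.Idx
  · ext i; exact hI.elim i
  rw [not_isEmpty_iff] at hI
  haveI : CharP (Matrix D.Idx D.Idx F) p := Matrix.charP p
  haveI : ExpChar (Matrix D.Idx D.Idx F) p := ExpChar.prime (Fact.out)
  have h4 : ((u : Matrix D.Idx D.Idx F) - 1) ^ p ^ k = (u : Matrix D.Idx D.Idx F) ^ p ^ k - 1 := by
    rw [sub_pow_expChar_pow_of_commute p k (Commute.one_right (u : Matrix D.Idx D.Idx F)), one_pow]
  rw [h4] at h2
  exact sub_eq_zero.1 h2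

/-- p-elements of the Chevalley group -/
theorem pow_of_pgroup [Fintype F] {p : ℕ} [Fact p.Prime] [CharP F p] {B : ℤ} (hB : ∀ s < T.n, hgt T s ≤ B) (hB0 : 0 ≤ B) {k : ℕ}
    (hk : 2 * B < p ^ k) {x : GL D.Idx F} (hx : x ∈ D.group F) {j : ℕ} (hj : orderOf x = p ^ j) : x ^ (p ^ k) = 1 := by
  obtain ⟨P, hP⟩ := g.exists_sylow (F := F) (p := p)
  have h1 : IsPGroup p (Subgroup.zpowers (⟨x, hx⟩ : ↥(D.group F))) := by
    rw [IsPGroup.iff_card]
    refine ⟨j, ?_⟩
    rw [Nat.card_zpowers, ← hj, ← Subgroup.orderOf_coe]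
  obtain ⟨Q, hQ⟩ := h1.exists_le_sylow
  obtain ⟨c, hc⟩ := MulAction.exists_smul_eq ↥(D.group F) Q P
  have h2 : (⟨x, hx⟩ : ↥(D.group F)) ∈ (Q : Subgroup ↥(D.group F)) := hQ (Subgroup.mem_zpowers _)
  have h3 : c * ⟨x, hx⟩ * c⁻¹ ∈ (P : Subgroup ↥(D.group F)) := by
    rw [← hc]
    rw [Sylow.coe_subgroup_smul]
    exact Subgroup.smul_mem_pointwise_smul _ (MulAut.conj c) _ h2
  rw [hP, Subgroup.mem_subgroupOf] at h3
  have h4 := g.U_exp hB hB0 hk h3
  have h5 : ((c * ⟨x, hx⟩ * c⁻¹ : ↥(D.group F)) : GL D.Idx F) = (c : GL D.Idx F) * x * (c : GL D.Idx F)⁻¹ := rfl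
  rw [h5, conj_pow] at h4
  have h6 : x ^ (p ^ k) = (c : GL D.Idx F)⁻¹ * ((c : GL D.Idx F) * x ^ (p ^ k) * (c : GL D.Idx F)⁻¹) * c := by group
  rw [h6, h4]; group

end Mat

end Good3

end CfsgLib.Chev
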