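import Mathlib
import Cfsg.Agent.EqBase
import Cfsg.Agent.LibTri28
import Cfsg.Agent.LibEltF28
import Cfsg.Agent.LibM24f

set_option autoImplicit false

/-! Subgroups of small index in the Mathieu groups (helper28). -/

namespace CfsgLib.Idx28

open Cfsg CfsgLib.Golay CfsgLib.M24 CfsgLib.Restr28 CfsgLib.Blk28 CfsgLib.EltE28 CfsgLib.EltF28 CfsgLib.OrbG28 MulAction
open scoped Pointwise

/-- a subgroup of odd index contains the pointwise stabiliser of an octad -/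
theorem exists_fx {S Y : Subgroup ↥M24} (hodd : ¬ 2 ∣ Y.relIndex S) {o : Finset GolayPt} (ho : o ∈ octads)
    (hS : fx o ≤ S) : ∃ g ∈ S, fx (g • o) ≤ Y := by
  haveI : Fact (Nat.Prime 2) := ⟨Nat.prime_two⟩
  have hP : IsPGroup 2 ↥((fx o).subgroupOf S) :=
    IsPGroup.of_equiv (IsPGroup.of_card (n := 4) (by rw [card_fx ho]; norm_num)) (Subgroup.subgroupOfEquivOfLe hS).symm
  obtain ⟨q, hq⟩ := hP.nonempty_fixed_point_of_prime_not_dvd_card (↥S ⧸ Y.subgroupOf S) hodd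
  obtain ⟨g, rfl⟩ := QuotientGroup.mk_surjective q
  refine ⟨(g⁻¹ : ↥S), (g⁻¹ : ↥S).2, ?_⟩
  intro f hf
  have h1 := fx_conj (g := (g : ↥M24)) hf
  have e : (g : ↥M24) • ((g⁻¹ : ↥S) : ↥M24) • o = o := by
    rw [Subgroup.coe_inv, smul_inv_smul]
  rw [e] at h1
  have h2 := hq ⟨⟨_, hS h1⟩, h1⟩
  have h3 : (QuotientGroup.mk ((⟨(g : ↥M24) * f * (g : ↥M24)⁻¹, hS h1⟩ : ↥S) * g) : ↥S ⧸ Y.subgroupOf S) = QuotientGroup.mk g := h2
  rw [QuotientGroup.eq, Subgroup.mem_subgroupOf] at h3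
  have h4 : (((((⟨(g : ↥M24) * f * (g : ↥M24)⁻¹, hS h1⟩ : ↥S) * g)⁻¹ * g : ↥S)) : ↥M24) = f⁻¹ := by
    show ((g : ↥M24) * f * (g : ↥M24)⁻¹ * (g : ↥M24))⁻¹ * (g : ↥M24) = f⁻¹
    group
  rw [h4] at h3
  exact (inv_mem_iff).1 h3

open Classical in
/-- orbits as finsets -/
noncomputable def orb (Y : Subgroup ↥M24) (y : GolayPt) : Finset GolayPt := Finset.univ.filter fun q => ∃ g ∈ Y, (g : Equiv.Perm GolayPt) y = q

theorem mem_orb {Y : Subgroup ↥M24} {y q : GolayPt} : q ∈ orb Y y ↔ ∃ g ∈ Y, (g : Equiv.Perm GolayPt) y = q := by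
  classical
  rw [orb, Finset.mem_filter]
  exact ⟨fun h => h.2, fun h => ⟨Finset.mem_univ _, h⟩⟩

theorem self_orb (Y : Subgroup ↥M24) (y : GolayPt) : y ∈ orb Y y := mem_orb.2 ⟨1, one_mem _, rfl⟩

theorem orb_inv {Y : Subgroup ↥M24} {y : GolayPt} {g : ↥M24} (hg : g ∈ Y) (q : GolayPt) :
    (g : Equiv.Perm GolayPt) q ∈ orb Y y ↔ q ∈ orb Y y := by
  rw [mem_orb, mem_orb]
  constructor
  · rintro ⟨k, hk, h⟩
    refine ⟨g⁻¹ * k, mul_mem (inv_mem hg) hk, ?_⟩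
    show ((g : Equiv.Perm GolayPt)⁻¹ * (k : Equiv.Perm GolayPt)) y = q
    rw [Equiv.Perm.mul_apply, h]; simp
  · rintro ⟨k, hk, h⟩
    refine ⟨g * k, mul_mem hg hk, ?_⟩
    show ((g : Equiv.Perm GolayPt) * (k : Equiv.Perm GolayPt)) y = _
    rw [Equiv.Perm.mul_apply, h]

theorem smul_of_inv {g : ↥M24} {s : Finset GolayPt} (h : ∀ q, (g : Equiv.Perm GolayPt) q ∈ s ↔ q ∈ s) : g • s = s := by
  ext q
  rw [show q = (g : Equiv.Perm GolayPt) ((g : Equiv.Perm GolayPt)⁻¹ q) by simp]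
  rw [h]
  show (g : Equiv.Perm GolayPt) • ((g : Equiv.Perm GolayPt)⁻¹ q) ∈ (g : Equiv.Perm GolayPt) • s ↔ _
  rw [Finset.smul_mem_smul_finset_iff]

theorem orb_smul {Y : Subgroup ↥M24} {y : GolayPt} {g : ↥M24} (hg : g ∈ Y) : g • orb Y y = orb Y y :=
  smul_of_inv (orb_inv hg)

theorem card_orb (Y : Subgroup ↥M24) (y : GolayPt) : Nat.card ↥(Y ⊓ stabilizer ↥M24 y) * (orb Y y).card = Nat.card ↥Y := by
  have h1 := card_inf_stabilizer Y y
  have h2 : (MulAction.orbit ↥Y y).ncard = (orb Y y).card := by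
    rw [← Set.ncard_coe_finset]
    congr 1
    ext q
    rw [Finset.mem_coe, mem_orb]
    constructor
    · rintro ⟨g, rfl⟩; exact ⟨g, g.2, rfl⟩
    · rintro ⟨g, hg, rfl⟩; exact ⟨⟨g, hg⟩, rfl⟩
  rw [h2] at h1
  exact h1

/-- the complement of the octad is inside an orbit -/
theorem compl_sub {Y : Subgroup ↥M24} {o : Finset GolayPt} (ho : o ∈ octads) (h : fx o ≤ Y) {y : GolayPt} (hy : y ∉ o) : oᶜ ⊆ orb Y y := by
  intro q hq
  rw [Finset.mem_compl] at hq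
  obtain ⟨e, he, heo, hep⟩ := ptw_trans ho hy hq
  exact mem_orb.2 ⟨⟨e, he⟩, h heo, hep⟩

theorem exists_elt {Y : Subgroup ↥M24} {p : ℕ} (hp : p.Prime) (h : p ∣ Nat.card ↥Y) : ∃ g ∈ Y, (g : Equiv.Perm GolayPt) ^ p = 1 ∧ (g : Equiv.Perm GolayPt) ≠ 1 := by
  haveI : Fact p.Prime := ⟨hp⟩
  obtain ⟨g, hg⟩ := exists_prime_orderOf_dvd_card' p h
  refine ⟨g, g.2, ?_, ?_⟩
  · have h1 := pow_orderOf_eq_one g
    rw [hg] at h1
    exact congrArg (fun x : ↥Y => ((x : ↥M24) : Equiv.Perm GolayPt)) h1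
  · intro h1
    have h2 : g = 1 := Subtype.ext (Subtype.ext h1)
    rw [h2, orderOf_one] at hg
    exact hp.one_lt.ne hg

theorem fix_le {g : Equiv.Perm GolayPt} (hg : g ∈ M24) (h1 : g ≠ 1) : (fixPts g).card ≤ 8 := by
  by_contra hcon
  push Not at hcon
  exact h1 (eq_one_of_nine hg hcon)

theorem fix7 {g : Equiv.Perm GolayPt} (hg : g ∈ M24) (h1 : g ≠ 1) (h7 : g ^ 7 = 1) : (fixPts g).card = 3 := by
  have h2 := fix_le hg h1
  have h3 := card_fix_modp (by norm_num) h7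
  omega

theorem fix5 {g : Equiv.Perm GolayPt} (hg : g ∈ M24) (h1 : g ≠ 1) (h5 : g ^ 5 = 1) : (fixPts g).card = 4 := by
  have h2 := fix_le hg h1
  have h3 := card_fix_modp (by norm_num) h5
  omega

theorem fix11 {g : Equiv.Perm GolayPt} (hg : g ∈ M24) (h1 : g ≠ 1) (h11 : g ^ 11 = 1) : (fixPts g).card = 2 := by
  have h2 := fix_le hg h1
  have h3 := card_fix_modp (by norm_num) h11
  omega

/-- residues of invariant sets -/
theorem res_on {g : ↥M24} {p : ℕ} (hp : p.Prime) (h : (g : Equiv.Perm GolayPt) ^ p = 1) {A : Finset GolayPt} (hA : g • A = A) {B : Finset GolayPt}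
    (hB : ∀ x ∈ A, (g : Equiv.Perm GolayPt) x = x → x ∈ B) : ∃ k ≤ B.card, A.card % p = k % p := by
  refine ⟨(A.filter fun a => (g : Equiv.Perm GolayPt) a = a).card, Finset.card_le_card ?_, (card_fix_on hp h hA).symm⟩
  intro x hx
  rw [Finset.mem_filter] at hx
  exact hB x hx.1 hx.2

theorem card_st (p : GolayPt) : Nat.card ↥(stabilizer ↥M24 p) = 10200960 := by
  rw [card_of_map (map_stab p), card_M23]

theorem card_M21' {p q r : GolayPt} (hpq : p ≠ q) (hpr : p ≠ r) (hqr : q ≠ r) :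
    Nat.card ↥(stabilizer ↥M24 p ⊓ stabilizer ↥M24 q ⊓ stabilizer ↥M24 r) = 20160 := by
  rw [card_of_map (map_stab3 p q r), card_M21 p q r hpq hpr hqr]

/-- the stabiliser of a point and a pair -/
theorem card_pair_le {x : GolayPt} {s : Finset GolayPt} (hs : s.card = 2) (hx : x ∉ s) :
    Nat.card ↥(stabilizer ↥M24 x ⊓ stabilizer ↥M24 s) ≤ 40320 := by
  obtain ⟨a, b, hab, rfl⟩ := Finset.card_eq_two.1 hs
  rw [Finset.mem_insert, Finset.mem_singleton, not_or] at hx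
  have h1 := card_orb (stabilizer ↥M24 x ⊓ stabilizer ↥M24 ({a, b} : Finset GolayPt)) a
  have hsm : ∀ g : ↥M24, g ∈ stabilizer ↥M24 ({a, b} : Finset GolayPt) → ∀ q, (g : Equiv.Perm GolayPt) q ∈ ({a, b} : Finset GolayPt) ↔ q ∈ ({a, b} : Finset GolayPt) := by
    intro g hg q
    have h3 : (g : Equiv.Perm GolayPt) • ({a, b} : Finset GolayPt) = {a, b} := hg
    conv_lhs => rw [← h3]
    show (g : Equiv.Perm GolayPt) • q ∈ (g : Equiv.Perm GolayPt) • ({a, b} : Finset GolayPt) ↔ _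
    rw [Finset.smul_mem_smul_finset_iff]
  have h2 : (orb (stabilizer ↥M24 x ⊓ stabilizer ↥M24 ({a, b} : Finset GolayPt)) a).card ≤ 2 := by
    rw [← hs]
    apply Finset.card_le_card
    intro q hq
    obtain ⟨g, hg, rfl⟩ := mem_orb.1 hq
    exact (hsm g hg.2 a).2 (by simp)
  have h3 : Nat.card ↥(stabilizer ↥M24 x ⊓ stabilizer ↥M24 ({a, b} : Finset GolayPt) ⊓ stabilizer ↥M24 a) ≤ 20160 := by
    rw [← card_M21' hx.1 hx.2 hab]
    apply Subgroup.card_le_of_le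
    intro g hg
    obtain ⟨⟨hgx, hgs⟩, hga⟩ := hg
    have hga' : (g : Equiv.Perm GolayPt) a = a := hga
    refine ⟨⟨hgx, hga⟩, ?_⟩
    have h4 := (hsm g hgs b).2 (by simp)
    rw [Finset.mem_insert, Finset.mem_singleton] at h4
    rcases h4 with h4 | h4
    · exfalso
      exact hab ((g : Equiv.Perm GolayPt).injective (hga'.trans h4.symm))
    · exact h4
  calc Nat.card ↥(stabilizer ↥M24 x ⊓ stabilizer ↥M24 ({a, b} : Finset GolayPt)) = _ := h1.symm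
    _ ≤ 20160 * 2 := Nat.mul_le_mul h3 h2
    _ = 40320 := by norm_num

end CfsgLib.Idx28
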