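import Mathlib
import Cfsg.Agent.EqBase
import Cfsg.Agent.LibIdx28

set_option autoImplicit false

/-! Subgroups of index 253 in `M23` (helper28). -/

namespace CfsgLib.Idx28

open Cfsg CfsgLib.Golay CfsgLib.M24 CfsgLib.Restr28 CfsgLib.Blk28 CfsgLib.EltE28 CfsgLib.EltF28 CfsgLib.OrbG28 MulAction
open scoped Pointwise

theorem le_stab_of_inv {Y : Subgroup ↥M24} {s : Finset GolayPt} (h : ∀ g ∈ Y, ∀ q, (g : Equiv.Perm GolayPt) q ∈ s ↔ q ∈ s) : Y ≤ stabilizer ↥M24 s :=
  fun g hg => smul_of_inv (h g hg)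

theorem chk18 : ∀ d, 17 ≤ d → d ≤ 23 → d ∣ 40320 → d = 18 ∨ d = 20 ∨ d = 21 := by
  intro d h1 h2 h3
  interval_cases d <;> first | (right; right; rfl) | (right; left; rfl) | (left; rfl) | (exfalso; revert h3; decide)

/-- subgroups of order 40320 fixing a point -/
theorem idx253 {x : GolayPt} {Y : Subgroup ↥M24} (hY : Y ≤ stabilizer ↥M24 x) (hc : Nat.card ↥Y = 40320) :
    (∃ s : Finset GolayPt, s.card = 2 ∧ x ∉ s ∧ Y = stabilizer ↥M24 x ⊓ stabilizer ↥M24 s) ∨
    ∃ o ∈ octads, x ∈ o ∧ Y = stabilizer ↥M24 x ⊓ stabilizer ↥M24 o := by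
  have hidx : Y.relIndex (stabilizer ↥M24 x) = 253 := by
    have h1 : Nat.card ↥(Y.subgroupOf (stabilizer ↥M24 x)) * Y.relIndex (stabilizer ↥M24 x) = Nat.card ↥(stabilizer ↥M24 x) :=
      Subgroup.card_mul_index _
    rw [Nat.card_congr (Subgroup.subgroupOfEquivOfLe hY).toEquiv, card_st, hc] at h1
    omega
  obtain ⟨o0, ho0, hx0⟩ : ∃ o ∈ octads, x ∈ o := by
    obtain ⟨s, hs⟩ : ∃ s : Finset GolayPt, s.card = 5 ∧ x ∈ s := by
      obtain ⟨s, hs1, hs2⟩ := Finset.exists_superset_card_eq (s := ({x} : Finset GolayPt)) (n := 5) (by simp) (by rw [card_pt]; norm_num)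
      exact ⟨s, hs2, hs1 (Finset.mem_singleton_self x)⟩
    obtain ⟨o, ⟨ho, hso⟩, -⟩ := octads_steiner.2 s hs.1
    exact ⟨o, ho, hso hs.2⟩
  obtain ⟨g, hg, hfx⟩ := exists_fx (S := stabilizer ↥M24 x) (Y := Y) (by rw [hidx]; norm_num) ho0 (fun f hf => hf x hx0)
  have ho := octads_inv g o0 ho0
  have hgx : (g : Equiv.Perm GolayPt) x = x := hg
  have hx : x ∈ g • o0 := by
    have : (g : Equiv.Perm GolayPt) • x ∈ (g : Equiv.Perm GolayPt) • o0 := Finset.smul_mem_smul_finset hx0
    rw [show (g : Equiv.Perm GolayPt) • x = x from hgx] at this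
    exact this
  generalize g • o0 = o at hfx ho hx
  obtain ⟨y, hy⟩ : ∃ y, y ∉ o := by
    by_contra hcon
    push Not at hcon
    have h1 : o = Finset.univ := Finset.eq_univ_iff_forall.2 hcon
    have h2 : o.card = 8 := ho.2
    rw [h1, Finset.card_univ, card_pt] at h2
    omega
  have hsub := compl_sub ho hfx hy
  have hxorb : x ∉ orb Y y := by
    intro h1
    obtain ⟨k, hk, hkx⟩ := mem_orb.1 h1
    have h2 : (k : Equiv.Perm GolayPt) x = x := hY hk
    have h3 : y = x := (k : Equiv.Perm GolayPt).injective (hkx.trans h2.symm)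
    exact hy (h3 ▸ hx)
  have hcompl : (oᶜ : Finset GolayPt).card = 16 := by rw [Finset.card_compl, card_pt, show o.card = 8 from ho.2]
  have hdvd : (orb Y y).card ∣ 40320 := by
    rw [← hc, ← card_orb Y y]; exact dvd_mul_left _ _
  have hge : 16 ≤ (orb Y y).card := by rw [← hcompl]; exact Finset.card_le_card hsub
  have hle : (orb Y y).card ≤ 23 := by
    have h1 : orb Y y ⊆ ({x}ᶜ : Finset GolayPt) := by
      intro q hq
      rw [Finset.mem_compl, Finset.mem_singleton]
      intro h2
      exact hxorb (h2 ▸ hq)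
    have h2 := Finset.card_le_card h1
    rw [Finset.card_compl, card_pt, Finset.card_singleton] at h2
    exact h2
  by_cases h16 : (orb Y y).card = 16
  · -- an octad
    right
    have h1 : oᶜ = orb Y y := Finset.eq_of_subset_of_card_le hsub (by rw [hcompl, h16])
    have h2 : Y ≤ stabilizer ↥M24 o := by
      apply le_stab_of_inv
      intro k hk q
      have h3 := orb_inv (y := y) hk q
      rw [← h1, Finset.mem_compl, Finset.mem_compl, not_iff_not] at h3
      exact h3
    refine ⟨o, ho, hx, ?_⟩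
    apply Subgroup.eq_of_le_of_card_ge (le_inf hY h2)
    rw [hc]
    have h4 : Nat.card ↥(stabilizer ↥M24 x ⊓ stabilizer ↥M24 o) ∣ 322560 := by
      rw [← card_stab_octad' ho]; exact Subgroup.card_dvd_of_le inf_le_right
    have h5 : Nat.card ↥(stabilizer ↥M24 x ⊓ stabilizer ↥M24 o) ∣ 10200960 := by
      rw [← card_st x]; exact Subgroup.card_dvd_of_le inf_le_left
    have h6 := Nat.dvd_gcd h4 h5
    exact Nat.le_of_dvd (by norm_num) (by simpa using h6)
  · left
    have h21 : (orb Y y).card = 21 := by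
      have h7 : 7 ∣ Nat.card ↥Y := by rw [hc]; norm_num
      obtain ⟨k, hk, hk7, hk1⟩ := exists_elt (by norm_num) h7
      obtain ⟨m, hm, hm2⟩ := res_on (p := 7) (by norm_num) hk7 (orb_smul (y := y) hk) (B := (fixPts (k : Equiv.Perm GolayPt)).erase x)
        (by
          intro q hq hkq
          rw [Finset.mem_erase, mem_fixPts]
          exact ⟨fun h2 => hxorb (h2 ▸ hq), hkq⟩)
      have hxk : (k : Equiv.Perm GolayPt) x = x := hY hk
      rw [Finset.card_erase_of_mem (mem_fixPts.2 hxk), fix7 k.2 hk1 hk7] at hm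
      rcases chk18 _ (by omega) hle hdvd with h3 | h3 | h3
      · rw [h3] at hm2; omega
      · rw [h3] at hm2; omega
      · exact h3
    have hs : ((insert x (orb Y y))ᶜ : Finset GolayPt).card = 2 := by
      rw [Finset.card_compl, card_pt, Finset.card_insert_of_notMem hxorb, h21]
    have hxs : x ∉ ((insert x (orb Y y))ᶜ : Finset GolayPt) := by
      rw [Finset.mem_compl, not_not]; exact Finset.mem_insert_self _ _
    refine ⟨(insert x (orb Y y))ᶜ, hs, hxs, ?_⟩
    have h2 : Y ≤ stabilizer ↥M24 ((insert x (orb Y y))ᶜ : Finset GolayPt) := by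
      apply le_stab_of_inv
      intro k hk q
      rw [Finset.mem_compl, Finset.mem_compl, not_iff_not, Finset.mem_insert, Finset.mem_insert, orb_inv hk]
      have hxk : (k : Equiv.Perm GolayPt) x = x := hY hk
      have h3 : (k : Equiv.Perm GolayPt) q = x ↔ q = x := by
        constructor
        · intro h4; exact (k : Equiv.Perm GolayPt).injective (h4.trans hxk.symm)
        · rintro rfl; exact hxk
      rw [h3]
    apply Subgroup.eq_of_le_of_card_ge (le_inf hY h2)
    rw [hc]
    exact card_pair_le hs hxs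

end CfsgLib.Idx28
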