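import Mathlib
import Cfsg.Agent.EqBase
import Cfsg.Agent.LibIdxB28
import Cfsg.Agent.LibSix28

set_option autoImplicit false

/-! Orbits and blocks of subgroups of `M24` (helper28). -/

namespace CfsgLib.Idx28

open Cfsg CfsgLib.Golay CfsgLib.M24 CfsgLib.Restr28 CfsgLib.Blk28 CfsgLib.EltE28 CfsgLib.EltF28 CfsgLib.OrbG28 CfsgLib.Six28 MulAction
open scoped Pointwise

/-- a multiply transitive group -/
theorem fx_trans {D : Finset GolayPt} (hD : D.card ≤ 4) {p q : GolayPt} (hp : p ∉ D) (hq : q ∉ D) :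
    ∃ g ∈ fx D, (g : Equiv.Perm GolayPt) p = q := by
  obtain ⟨g, hg, h⟩ := agree5 (Equiv.swap p q) (F := insert p D) (by rw [Finset.card_insert_of_notMem hp]; omega)
  refine ⟨⟨g, hg⟩, ?_, ?_⟩
  · intro x hx
    show g x = x
    rw [h x (Finset.mem_insert_of_mem hx)]
    apply Equiv.swap_apply_of_ne_of_ne
    · rintro rfl; exact hp hx
    · rintro rfl; exact hq hx
  · show g p = q
    rw [h p (Finset.mem_insert_self _ _), Equiv.swap_apply_left]

theorem fx_insert (D : Finset GolayPt) (q : GolayPt) : fx (insert q D) = fx D ⊓ stabilizer ↥M24 q := by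
  ext g
  rw [Subgroup.mem_inf]
  constructor
  · intro h
    exact ⟨fun x hx => h x (Finset.mem_insert_of_mem hx), h q (Finset.mem_insert_self _ _)⟩
  · rintro ⟨h1, h2⟩ x hx
    rcases Finset.mem_insert.1 hx with rfl | hx
    · exact h2
    · exact h1 x hx

theorem orb_fx {D : Finset GolayPt} (hD : D.card ≤ 4) {q : GolayPt} (hq : q ∉ D) : orb (fx D) q = Dᶜ := by
  ext r
  rw [mem_orb, Finset.mem_compl]
  constructor
  · rintro ⟨g, hg, rfl⟩ h1
    have h2 := hg _ h1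
    have h3 : (g : Equiv.Perm GolayPt) q = q := (g : Equiv.Perm GolayPt).injective h2
    rw [h3] at h1
    exact hq h1
  · intro hr
    exact fx_trans hD hq hr

theorem card_fx_insert {D : Finset GolayPt} (hD : D.card ≤ 4) {q : GolayPt} (hq : q ∉ D) :
    Nat.card ↥(fx (insert q D)) * (24 - D.card) = Nat.card ↥(fx D) := by
  have h1 := card_orb (fx D) q
  rw [orb_fx hD hq, Finset.card_compl, card_pt, ← fx_insert] at h1
  exact h1

theorem card_fx3 {D : Finset GolayPt} (hD : D.card = 3) : Nat.card ↥(fx D) = 20160 := by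
  obtain ⟨a, b, c, hab, hac, hbc, rfl⟩ := Finset.card_eq_three.1 hD
  rw [← card_M21' hab hac hbc]
  congr 2
  ext g
  rw [Subgroup.mem_inf, Subgroup.mem_inf]
  constructor
  · intro h
    exact ⟨⟨h a (by simp), h b (by simp)⟩, h c (by simp)⟩
  · rintro ⟨⟨h1, h2⟩, h3⟩ x hx
    simp only [Finset.mem_insert, Finset.mem_singleton] at hx
    rcases hx with rfl | rfl | rfl
    · exact h1
    · exact h2
    · exact h3

theorem card_fx4 {D : Finset GolayPt} (hD : D.card = 4) : Nat.card ↥(fx D) = 960 := by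
  obtain ⟨q, hq⟩ : D.Nonempty := Finset.card_pos.1 (by omega)
  have h1 : (D.erase q).card = 3 := by rw [Finset.card_erase_of_mem hq, hD]
  have h2 := card_fx_insert (D := D.erase q) (by omega) (Finset.notMem_erase q D)
  rw [Finset.insert_erase hq, card_fx3 h1, h1] at h2
  omega

theorem card_fx5 {D : Finset GolayPt} (hD : D.card = 5) : Nat.card ↥(fx D) = 48 := by
  obtain ⟨q, hq⟩ : D.Nonempty := Finset.card_pos.1 (by omega)
  have h1 : (D.erase q).card = 4 := by rw [Finset.card_erase_of_mem hq, hD]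
  have h2 := card_fx_insert (D := D.erase q) (by omega) (Finset.notMem_erase q D)
  rw [Finset.insert_erase hq, card_fx4 h1, h1] at h2
  omega

theorem fx_mono {D E : Finset GolayPt} (h : D ⊆ E) : fx E ≤ fx D := fun _ hg x hx => hg x (h hx)

theorem mem_of_stab {g : ↥M24} {s : Finset GolayPt} (hg : g • s = s) (q : GolayPt) : (g : Equiv.Perm GolayPt) q ∈ s ↔ q ∈ s := by
  have h3 : (g : Equiv.Perm GolayPt) • s = s := hg
  conv_lhs => rw [← h3]
  show (g : Equiv.Perm GolayPt) • q ∈ (g : Equiv.Perm GolayPt) • s ↔ _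
  rw [Finset.smul_mem_smul_finset_iff]

/-- the restriction homomorphism -/
def rs (s : Finset GolayPt) : ↥(stabilizer ↥M24 s) →* Equiv.Perm ↥s where
  toFun g := ((g : ↥M24) : Equiv.Perm GolayPt).subtypePerm (fun q => mem_of_stab g.2 q)
  map_one' := by ext q; rfl
  map_mul' a b := by ext q; rfl

theorem card_stab_le (s : Finset GolayPt) : Nat.card ↥(stabilizer ↥M24 s) ≤ Nat.card ↥(fx s) * s.card.factorial := by
  have h1 := Subgroup.card_mul_index (rs s).ker
  rw [Subgroup.index_ker] at h1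
  rw [← h1]
  apply Nat.mul_le_mul
  · refine Nat.card_le_card_of_injective (fun g => (⟨((g : ↥(stabilizer ↥M24 s)) : ↥M24), ?_⟩ : ↥(fx s))) ?_
    · intro x hx
      have h2 := g.2
      rw [MonoidHom.mem_ker] at h2
      exact congrArg (fun σ : Equiv.Perm ↥s => ((σ ⟨x, hx⟩ : ↥s) : GolayPt)) h2
    · intro a b hab
      apply Subtype.ext
      apply Subtype.ext
      exact congrArg (fun x : ↥(fx s) => (x : ↥M24)) hab
  · have h2 : Nat.card (Equiv.Perm ↥s) = s.card.factorial := by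
      rw [Nat.card_perm, Nat.card_eq_fintype_card, Fintype.card_coe]
    rw [← h2]
    exact Subgroup.card_le_card_group _

theorem orb_eq {Y : Subgroup ↥M24} {y z : GolayPt} (hz : z ∈ orb Y y) : orb Y z = orb Y y := by
  obtain ⟨g, hg, rfl⟩ := mem_orb.1 hz
  ext q
  rw [mem_orb, mem_orb]
  constructor
  · rintro ⟨k, hk, rfl⟩
    exact ⟨k * g, mul_mem hk hg, rfl⟩
  · rintro ⟨k, hk, rfl⟩
    refine ⟨k * g⁻¹, mul_mem hk (inv_mem hg), ?_⟩
    show ((k : Equiv.Perm GolayPt) * (g : Equiv.Perm GolayPt)⁻¹) ((g : Equiv.Perm GolayPt) y) = _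
    simp

theorem orb_mono {Y Z : Subgroup ↥M24} (h : Y ≤ Z) (y : GolayPt) : orb Y y ⊆ orb Z y := by
  intro q hq
  obtain ⟨g, hg, rfl⟩ := mem_orb.1 hq
  exact mem_orb.2 ⟨g, h hg, rfl⟩

/-- point stabilisers -/
def pst (Y : Subgroup ↥M24) (p : GolayPt) : Subgroup ↥M24 := Y ⊓ stabilizer ↥M24 p

theorem orb_conj {Y : Subgroup ↥M24} {g : ↥M24} (hg : g ∈ Y) (p y : GolayPt) :
    orb (pst Y ((g : Equiv.Perm GolayPt) p)) ((g : Equiv.Perm GolayPt) y) = g • orb (pst Y p) y := by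
  have key : ∀ {g : ↥M24} (_ : g ∈ Y) (p y : GolayPt),
      g • orb (pst Y p) y ⊆ orb (pst Y ((g : Equiv.Perm GolayPt) p)) ((g : Equiv.Perm GolayPt) y) := by
    intro g hg p y q hq
    rw [Finset.mem_smul_finset] at hq
    obtain ⟨r, hr, rfl⟩ := hq
    obtain ⟨k, ⟨hk1, hk2⟩, rfl⟩ := mem_orb.1 hr
    have hk2' : (k : Equiv.Perm GolayPt) p = p := hk2
    refine mem_orb.2 ⟨g * k * g⁻¹, Subgroup.mem_inf.2 ⟨Y.mul_mem (Y.mul_mem hg hk1) (Y.inv_mem hg), ?_⟩, ?_⟩
    · show ((g : Equiv.Perm GolayPt) * (k : Equiv.Perm GolayPt) * (g : Equiv.Perm GolayPt)⁻¹) ((g : Equiv.Perm GolayPt) p) = _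
      simp [hk2']
    · show ((g : Equiv.Perm GolayPt) * (k : Equiv.Perm GolayPt) * (g : Equiv.Perm GolayPt)⁻¹) ((g : Equiv.Perm GolayPt) y) = (g : Equiv.Perm GolayPt) ((k : Equiv.Perm GolayPt) y)
      simp
  apply Finset.Subset.antisymm _ (key hg p y)
  have h1 := key (inv_mem hg) ((g : Equiv.Perm GolayPt) p) ((g : Equiv.Perm GolayPt) y)
  have e : ∀ x : GolayPt, ((g⁻¹ : ↥M24) : Equiv.Perm GolayPt) ((g : Equiv.Perm GolayPt) x) = x := by
    intro x
    show (g : Equiv.Perm GolayPt)⁻¹ ((g : Equiv.Perm GolayPt) x) = x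
    simp
  rw [e, e] at h1
  have h2 := Finset.smul_finset_subset_smul_finset (a := g) h1
  rw [smul_inv_smul] at h2
  exact h2

theorem self_notin {Y : Subgroup ↥M24} {p y : GolayPt} (hy : y ≠ p) : p ∉ orb (pst Y p) y := by
  intro h
  obtain ⟨k, ⟨-, hk⟩, hkp⟩ := mem_orb.1 h
  have hk' : (k : Equiv.Perm GolayPt) p = p := hk
  exact hy ((k : Equiv.Perm GolayPt).injective (hkp.trans hk'.symm))

/-- a family of large suborbits -/
structure Fam (Y : Subgroup ↥M24) (k : ℕ) (Δ : GolayPt → Finset GolayPt) : Prop where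
  card : ∀ p, (Δ p).card = k
  big : 12 ≤ k
  orb : ∀ p, ∃ y, y ≠ p ∧ orb (pst Y p) y = Δ p

section
variable {Y : Subgroup ↥M24} {k : ℕ} {Δ : GolayPt → Finset GolayPt}

theorem Fam.notin (h : Fam Y k Δ) (p : GolayPt) : p ∉ Δ p := by
  obtain ⟨y, hy, he⟩ := h.orb p
  rw [← he]; exact self_notin hy

theorem Fam.orb' (h : Fam Y k Δ) {p y : GolayPt} (hy : y ∈ Δ p) : Idx28.orb (pst Y p) y = Δ p := by
  obtain ⟨z, hz, he⟩ := h.orb p
  rw [← he] at hy ⊢
  exact orb_eq hy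

theorem Fam.uniq (h : Fam Y k Δ) {p y : GolayPt} (hy : y ≠ p) (hc : k ≤ (Idx28.orb (pst Y p) y).card) :
    Idx28.orb (pst Y p) y = Δ p := by
  have h1 : ¬ Disjoint (Idx28.orb (pst Y p) y) (Δ p) := by
    intro hd
    have h2 : Idx28.orb (pst Y p) y ∪ Δ p ⊆ ({p}ᶜ : Finset GolayPt) := by
      intro q hq
      rw [Finset.mem_compl, Finset.mem_singleton]
      rintro rfl
      rcases Finset.mem_union.1 hq with h3 | h3
      · exact self_notin hy h3
      · exact h.notin _ h3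
    have h3 := Finset.card_le_card h2
    rw [Finset.card_union_of_disjoint hd, Finset.card_compl, card_pt, Finset.card_singleton, h.card] at h3
    have := h.big
    omega
  rw [Finset.not_disjoint_iff] at h1
  obtain ⟨z, hz1, hz2⟩ := h1
  rw [← orb_eq hz1, h.orb' hz2]

theorem Fam.equiv (h : Fam Y k Δ) {g : ↥M24} (hg : g ∈ Y) (p : GolayPt) : Δ ((g : Equiv.Perm GolayPt) p) = g • Δ p := by
  obtain ⟨y, hy, he⟩ := h.orb p
  have h1 := orb_conj hg p y
  rw [he] at h1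
  rw [← h1]
  symm
  apply h.uniq
  · intro h2; exact hy ((g : Equiv.Perm GolayPt).injective h2)
  · rw [h1, Finset.card_smul_finset, h.card]

/-- the blocks -/
def Fam.t (_h : Fam Y k Δ) (p : GolayPt) : Finset GolayPt := (Δ p)ᶜ

theorem Fam.mem_t (h : Fam Y k Δ) {p q : GolayPt} : q ∈ h.t p ↔ q ∉ Δ p := Finset.mem_compl

theorem Fam.self_t (h : Fam Y k Δ) (p : GolayPt) : p ∈ h.t p := h.mem_t.2 (h.notin p)

theorem Fam.card_t (h : Fam Y k Δ) (p : GolayPt) : (h.t p).card = 24 - k := by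
  rw [Fam.t, Finset.card_compl, card_pt, h.card]

theorem Fam.t_equiv (h : Fam Y k Δ) {g : ↥M24} (hg : g ∈ Y) (p : GolayPt) : h.t ((g : Equiv.Perm GolayPt) p) = g • h.t p := by
  rw [Fam.t, Fam.t, h.equiv hg]
  ext q
  have e : q = (g : Equiv.Perm GolayPt) • ((g : Equiv.Perm GolayPt)⁻¹ q) := by
    show q = (g : Equiv.Perm GolayPt) ((g : Equiv.Perm GolayPt)⁻¹ q)
    simp
  rw [Finset.mem_compl, e]
  show (g : Equiv.Perm GolayPt) • _ ∉ (g : Equiv.Perm GolayPt) • Δ p ↔ (g : Equiv.Perm GolayPt) • _ ∈ (g : Equiv.Perm GolayPt) • (Δ p)ᶜ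
  rw [Finset.smul_mem_smul_finset_iff, Finset.smul_mem_smul_finset_iff, Finset.mem_compl]

/-- the block criterion -/
theorem Fam.blk (h : Fam Y k Δ) {p a : GolayPt} (ha : a ∈ h.t p) {K : Subgroup ↥M24} (hK : K ≤ pst Y a)
    {y : GolayPt} (hy : y ∈ Δ p) (hKy : Δ p ⊆ Idx28.orb K y) : h.t a = h.t p := by
  have h1 : Δ p ⊆ Idx28.orb (pst Y a) y := hKy.trans (orb_mono hK y)
  have hya : y ≠ a := by
    rintro rfl
    exact h.mem_t.1 ha hy
  have h2 := h.uniq hya (by rw [← h.card p]; exact Finset.card_le_card h1)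
  rw [h2] at h1
  have h3 : Δ p = Δ a := Finset.eq_of_subset_of_card_le h1 (by rw [h.card, h.card])
  rw [Fam.t, Fam.t, h3]

/-- fixed points are unions of blocks -/
theorem Fam.fix (h : Fam Y k Δ) {g : ↥M24} (hg : g ∈ Y) {ℓ : ℕ} (hℓ : ℓ.Prime) (hgl : (g : Equiv.Perm GolayPt) ^ ℓ = 1)
    (hb : 24 - k < ℓ) {p : GolayPt} (hp : p ∈ fixPts (g : Equiv.Perm GolayPt)) : h.t p ⊆ fixPts (g : Equiv.Perm GolayPt) := by
  have h1 : g • h.t p = h.t p := by
    rw [← h.t_equiv hg, mem_fixPts.1 hp]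
  have h2 := card_fix_on hℓ hgl h1
  rw [h.card_t] at h2
  have h3 : ((h.t p).filter fun a => (g : Equiv.Perm GolayPt) a = a).card ≤ 24 - k := by
    rw [← h.card_t p]; exact Finset.card_le_card (Finset.filter_subset _ _)
  rw [Nat.mod_eq_of_lt hb, Nat.mod_eq_of_lt (by omega)] at h2
  have h4 : (h.t p).filter (fun a => (g : Equiv.Perm GolayPt) a = a) = h.t p :=
    Finset.eq_of_subset_of_card_le (Finset.filter_subset _ _) (by rw [h.card_t, h2])
  intro q hq
  rw [← h4, Finset.mem_filter] at hq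
  exact mem_fixPts.2 hq.2

/-- contradiction from a fixed point count -/
theorem Fam.absurd (h : Fam Y k Δ) (hblk : ∀ p, ∀ a ∈ h.t p, h.t a = h.t p) {g : ↥M24} (hg : g ∈ Y) {ℓ : ℕ} (hℓ : ℓ.Prime)
    (hgl : (g : Equiv.Perm GolayPt) ^ ℓ = 1) (hb : 24 - k < ℓ) (h1 : 24 - k < (fixPts (g : Equiv.Perm GolayPt)).card)
    (h2 : (fixPts (g : Equiv.Perm GolayPt)).card < 2 * (24 - k)) : False := by
  obtain ⟨p, hp⟩ : (fixPts (g : Equiv.Perm GolayPt)).Nonempty := Finset.card_pos.1 (by omega)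
  have h3 := h.fix hg hℓ hgl hb hp
  obtain ⟨r, hr, hrp⟩ : ∃ r ∈ fixPts (g : Equiv.Perm GolayPt), r ∉ h.t p := by
    by_contra hcon
    push Not at hcon
    have h4 : fixPts (g : Equiv.Perm GolayPt) ⊆ h.t p := hcon
    have h5 := Finset.card_le_card h4
    rw [h.card_t] at h5
    omega
  have h4 := h.fix hg hℓ hgl hb hr
  have h5 : Disjoint (h.t p) (h.t r) := by
    rw [Finset.disjoint_left]
    intro x hx hx'
    have h6 := (hblk p x hx).symm.trans (hblk r x hx')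
    exact hrp (h6 ▸ h.self_t r)
  have h6 := Finset.card_le_card (Finset.union_subset h3 h4)
  rw [Finset.card_union_of_disjoint h5, h.card_t, h.card_t] at h6
  omega

end

end CfsgLib.Idx28
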