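import Mathlib
import Cfsg.Agent.EqBase
import Cfsg.Agent.LibIdxC28
import Cfsg.Agent.LibTrio28

set_option autoImplicit false

/-! Blocks of octads and tetrads (helper28). -/

namespace CfsgLib.Idx28

open Cfsg CfsgLib.Golay CfsgLib.M24 CfsgLib.Restr28 CfsgLib.Blk28 CfsgLib.EltE28 CfsgLib.EltF28 CfsgLib.OrbG28 CfsgLib.Six28 CfsgLib.Trio28 MulAction
open scoped Pointwise

theorem card_le_rs {Z : Subgroup ↥M24} {s : Finset GolayPt} (hZ : Z ≤ stabilizer ↥M24 s) :
    Nat.card ↥Z ≤ Nat.card ↥(Z ⊓ fx s) * s.card.factorial := by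
  have h1 := Subgroup.card_mul_index ((rs s).comp (Subgroup.inclusion hZ)).ker
  rw [Subgroup.index_ker] at h1
  rw [← h1]
  apply Nat.mul_le_mul
  · refine Nat.card_le_card_of_injective (fun g => (⟨((g : ↥Z) : ↥M24), ?_⟩ : ↥(Z ⊓ fx s))) ?_
    · refine Subgroup.mem_inf.2 ⟨(g : ↥Z).2, ?_⟩
      intro x hx
      have h2 := g.2
      rw [MonoidHom.mem_ker] at h2
      exact congrArg (fun σ : Equiv.Perm ↥s => ((σ ⟨x, hx⟩ : ↥s) : GolayPt)) h2
    · intro a b hab
      apply Subtype.ext
      apply Subtype.ext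
      exact congrArg (fun x : ↥(Z ⊓ fx s) => (x : ↥M24)) hab
  · have h2 : Nat.card (Equiv.Perm ↥s) = s.card.factorial := by
      rw [Nat.card_perm, Nat.card_eq_fintype_card, Fintype.card_coe]
    rw [← h2]
    exact Subgroup.card_le_card_group _

section
variable {Y : Subgroup ↥M24} {Δ : GolayPt → Finset GolayPt}

theorem Fam.disj {k : ℕ} (h : Fam Y k Δ) (hblk : ∀ p, ∀ a ∈ h.t p, h.t a = h.t p) {p q : GolayPt} (hq : h.t p ≠ h.t q) : Disjoint (h.t p) (h.t q) := by
  rw [Finset.disjoint_left]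
  intro x hx hx'
  exact hq ((hblk p x hx).symm.trans (hblk q x hx'))

theorem Fam.smul_image {k : ℕ} (h : Fam Y k Δ) {g : ↥M24} (hg : g ∈ Y) : g • (Finset.univ.image h.t) = Finset.univ.image h.t := by
  apply Finset.eq_of_subset_of_card_le
  · intro b hb
    rw [Finset.mem_smul_finset] at hb
    obtain ⟨c, hc, rfl⟩ := hb
    obtain ⟨x, -, rfl⟩ := Finset.mem_image.1 hc
    rw [← h.t_equiv hg]
    exact Finset.mem_image_of_mem _ (Finset.mem_univ _)
  · rw [Finset.card_smul_finset]

theorem Fam.card_image {k : ℕ} (h : Fam Y k Δ) (hblk : ∀ p, ∀ a ∈ h.t p, h.t a = h.t p) : (Finset.univ.image h.t).card * (24 - k) = 24 := by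
  have h1 : (Finset.univ.image h.t).biUnion id = Finset.univ := by
    rw [Finset.eq_univ_iff_forall]
    intro x
    rw [Finset.mem_biUnion]
    exact ⟨h.t x, Finset.mem_image_of_mem _ (Finset.mem_univ _), h.self_t x⟩
  have h2 := Finset.card_biUnion (s := Finset.univ.image h.t) (t := id) (by
    intro a ha b hb hab
    obtain ⟨x, -, rfl⟩ := Finset.mem_image.1 ha
    obtain ⟨y, -, rfl⟩ := Finset.mem_image.1 hb
    exact h.disj hblk hab)
  rw [h1, Finset.card_univ, card_pt] at h2
  have h3 : ∑ u ∈ Finset.univ.image h.t, (id u).card = ∑ u ∈ Finset.univ.image h.t, (24 - k) := by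
    apply Finset.sum_congr rfl
    intro b hb
    obtain ⟨x, -, rfl⟩ := Finset.mem_image.1 hb
    exact h.card_t x
  rw [h3, Finset.sum_const, smul_eq_mul] at h2
  exact h2.symm

theorem trio_case (h : Fam Y 16 Δ) (ho : ∀ p, h.t p ∈ octads) (hf : ∀ p, fx (h.t p) ≤ Y) : Nat.card ↥Y ≤ 64512 := by
  have hblk : ∀ p, ∀ a ∈ h.t p, h.t a = h.t p := by
    intro p a ha
    obtain ⟨y, hy⟩ : (Δ p).Nonempty := Finset.card_pos.1 (by rw [h.card]; norm_num)
    have hy' : y ∉ h.t p := fun h1 => h.mem_t.1 h1 hy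
    apply h.blk ha (K := fx (h.t p)) (fun g hg => ⟨hf p hg, hg a ha⟩) hy
    have h1 := compl_sub (ho p) (le_refl (fx (h.t p))) hy'
    rw [Fam.t, compl_compl] at h1
    exact h1
  have hT : Finset.univ.image h.t ∈ trios := by
    refine ⟨?_, ?_, ?_⟩
    · have := h.card_image hblk
      omega
    · intro b hb
      obtain ⟨x, -, rfl⟩ := Finset.mem_image.1 hb
      exact ho x
    · intro a ha b hb hab
      obtain ⟨x, -, rfl⟩ := Finset.mem_image.1 ha
      obtain ⟨y, -, rfl⟩ := Finset.mem_image.1 hb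
      exact h.disj hblk hab
  rw [← card_stab_trio hT]
  apply Subgroup.card_le_of_le
  intro g hg
  exact h.smul_image hg

theorem sextet_case (h : Fam Y 20 Δ) (hf : ∀ p, fx (h.t p) ≤ Y) : ∃ S ∈ sextets, Y ≤ stabilizer ↥M24 S := by
  have hblk : ∀ p, ∀ a ∈ h.t p, h.t a = h.t p := by
    intro p a ha
    obtain ⟨y, hy⟩ : (Δ p).Nonempty := Finset.card_pos.1 (by rw [h.card]; norm_num)
    have hy' : y ∉ h.t p := fun h1 => h.mem_t.1 h1 hy
    apply h.blk ha (K := fx (h.t p)) (fun g hg => ⟨hf p hg, hg a ha⟩) hy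
    rw [orb_fx (by rw [h.card_t]) hy', Fam.t, compl_compl]
  have hoct : ∀ p q, h.t p ≠ h.t q → h.t p ∪ h.t q ∈ octads := by
    intro p q hpq
    have hd := h.disj hblk hpq
    have hq : q ∉ h.t p := fun h1 => Finset.disjoint_left.1 hd h1 (h.self_t q)
    have hD : (insert q (h.t p)).card = 5 := by rw [Finset.card_insert_of_notMem hq, h.card_t]
    obtain ⟨O, ⟨hO, hDO⟩, huO⟩ := octads_steiner.2 _ hD
    have hstab : ∀ g ∈ fx (insert q (h.t p)), g • h.t q = h.t q := by
      intro g hg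
      have hgY : g ∈ Y := hf p (fx_mono (Finset.subset_insert _ _) hg)
      rw [← h.t_equiv hgY, hg q (Finset.mem_insert_self _ _)]
    have hsub : h.t q ⊆ O := by
      intro x hx
      by_contra hxO
      have hnsp : ∀ y, y ∉ O → ¬ Special (insert y (insert q (h.t p))) := by
        rintro y hy ⟨O', hO', hs⟩
        have h1 := huO O' ⟨hO', (Finset.subset_insert _ _).trans hs⟩
        rw [h1] at hs
        exact hy (hs (Finset.mem_insert_self _ _))
      have h1 : Oᶜ ⊆ h.t q := by
        intro y hy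
        rw [Finset.mem_compl] at hy
        obtain ⟨k, hk, hkD, hkx⟩ := fix5_trans hD (p := x) (q := y) (fun h2 => hxO (hDO h2)) (fun h2 => hy (hDO h2))
          ⟨fun h2 => absurd h2 (hnsp x hxO), fun h2 => absurd h2 (hnsp y hy)⟩
        have h2 := hstab ⟨k, hk⟩ hkD
        have h3 := (mem_of_stab h2 x).2 hx
        rw [← hkx]; exact h3
      have h2 := Finset.card_le_card h1
      rw [Finset.card_compl, card_pt, show O.card = 8 from hO.2, h.card_t] at h2
      omega
    have h1 : h.t p ∪ h.t q = O := by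
      apply Finset.eq_of_subset_of_card_le
      · exact Finset.union_subset ((Finset.subset_insert _ _).trans hDO) hsub
      · rw [Finset.card_union_of_disjoint hd, h.card_t, h.card_t, show O.card = 8 from hO.2]
    rw [h1]; exact hO
  refine ⟨Finset.univ.image h.t, ⟨?_, ?_, ?_⟩, fun g hg => h.smul_image hg⟩
  · have := h.card_image hblk
    omega
  · intro b hb
    obtain ⟨x, -, rfl⟩ := Finset.mem_image.1 hb
    exact h.card_t x
  · intro a ha b hb hab
    obtain ⟨x, -, rfl⟩ := Finset.mem_image.1 ha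
    obtain ⟨y, -, rfl⟩ := Finset.mem_image.1 hb
    exact hoct x y hab

theorem pst_stab {k : ℕ} (h : Fam Y k Δ) {g : ↥M24} {p : GolayPt} (hg : g ∈ pst Y p) : g • h.t p = h.t p := by
  rw [← h.t_equiv hg.1, show (g : Equiv.Perm GolayPt) p = p from hg.2]

theorem case22 (h : Fam Y 22 Δ) (h7 : 7 ∣ Nat.card ↥Y) : False := by
  have hblk : ∀ p, ∀ a ∈ h.t p, h.t a = h.t p := by
    intro p a ha
    obtain ⟨y, hy⟩ : (Δ p).Nonempty := Finset.card_pos.1 (by rw [h.card]; norm_num)
    have hK : pst Y p ≤ pst Y a := by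
      intro g hg
      refine ⟨hg.1, ?_⟩
      have h1 := (mem_of_stab (pst_stab h hg) a).2 ha
      show (g : Equiv.Perm GolayPt) a = a
      have hgp : (g : Equiv.Perm GolayPt) p = p := hg.2
      by_contra hne
      have hap : a ≠ p := by rintro rfl; exact hne hgp
      have hgap : (g : Equiv.Perm GolayPt) a ≠ p := by
        intro h2
        exact hap ((g : Equiv.Perm GolayPt).injective (h2.trans hgp.symm))
      have h2 : ({p, a, (g : Equiv.Perm GolayPt) a} : Finset GolayPt) ⊆ h.t p := by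
        intro x hx
        simp only [Finset.mem_insert, Finset.mem_singleton] at hx
        rcases hx with rfl | rfl | rfl
        · exact h.self_t _
        · exact ha
        · exact h1
      have h3 := Finset.card_le_card h2
      rw [Finset.card_eq_three.2 ⟨p, a, _, hap.symm, hgap.symm, Ne.symm hne, rfl⟩, h.card_t] at h3
      omega
    apply h.blk ha hK hy
    rw [h.orb' hy]
  obtain ⟨g, hg, hg7, hg1⟩ := exists_elt (by norm_num) h7
  have hf := fix7 g.2 hg1 hg7
  exact h.absurd hblk hg (by norm_num) hg7 (by norm_num) (by rw [hf]; norm_num) (by rw [hf]; norm_num)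

theorem case21 (h : Fam Y 21 Δ) (h35 : ∀ p, 35 ∣ Nat.card ↥(pst Y p)) : False := by
  have hblk : ∀ p, ∀ a ∈ h.t p, h.t a = h.t p := by
    intro p a ha
    by_cases hap : a = p
    · rw [hap]
    obtain ⟨y, hy⟩ : (Δ p).Nonempty := Finset.card_pos.1 (by rw [h.card]; norm_num)
    have hK : pst (pst Y p) a ≤ pst Y a := fun g hg => ⟨hg.1.1, hg.2⟩
    apply h.blk ha hK hy
    -- the orbit of the two point stabiliser
    have ho1 := card_orb (pst Y p) a
    have ho2 : (orb (pst Y p) a).card ≤ 2 := by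
      have h1 : orb (pst Y p) a ⊆ (h.t p).erase p := by
        intro q hq
        obtain ⟨g, hg, rfl⟩ := mem_orb.1 hq
        rw [Finset.mem_erase]
        have hgp : (g : Equiv.Perm GolayPt) p = p := hg.2
        exact ⟨fun h2 => hap ((g : Equiv.Perm GolayPt).injective (h2.trans hgp.symm)), (mem_of_stab (pst_stab h hg) a).2 ha⟩
      have h2 := Finset.card_le_card h1
      rw [Finset.card_erase_of_mem (h.self_t p), h.card_t] at h2
      exact h2
    have ho3 : 0 < (orb (pst Y p) a).card := Finset.card_pos.2 ⟨a, self_orb _ _⟩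
    have h35' : 35 ∣ Nat.card ↥(pst (pst Y p) a) := by
      have h1 := h35 p
      rw [← ho1] at h1
      apply Nat.Coprime.dvd_of_dvd_mul_right _ h1
      have : (orb (pst Y p) a).card = 1 ∨ (orb (pst Y p) a).card = 2 := by omega
      rcases this with h2 | h2 <;> rw [h2] <;> norm_num
    have hsubΔ : orb (pst (pst Y p) a) y ⊆ Δ p := by
      rw [← h.orb' hy]
      exact orb_mono inf_le_left y
    obtain ⟨g, hg, hg7, hg1⟩ := exists_elt (p := 7) (by norm_num) ((by norm_num : 7 ∣ 35).trans h35')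
    obtain ⟨k, hk, hk5, hk1⟩ := exists_elt (p := 5) (by norm_num) ((by norm_num : 5 ∣ 35).trans h35')
    have hgp : p ∈ fixPts (g : Equiv.Perm GolayPt) := mem_fixPts.2 hg.1.2
    have hkp : p ∈ fixPts (k : Equiv.Perm GolayPt) := mem_fixPts.2 hk.1.2
    have hgt := h.fix hg.1.1 (by norm_num) hg7 (by norm_num) hgp
    have hkt := h.fix hk.1.1 (by norm_num) hk5 (by norm_num) hkp
    obtain ⟨m, hm, hm2⟩ := res_on (p := 7) (by norm_num) hg7 (orb_smul (y := y) hg) (B := fixPts (g : Equiv.Perm GolayPt) \ h.t p) (by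
      intro q hq hgq
      rw [Finset.mem_sdiff]
      exact ⟨mem_fixPts.2 hgq, fun h2 => h.mem_t.1 h2 (hsubΔ hq)⟩)
    obtain ⟨n, hn, hn2⟩ := res_on (p := 5) (by norm_num) hk5 (orb_smul (y := y) hk) (B := fixPts (k : Equiv.Perm GolayPt) \ h.t p) (by
      intro q hq hgq
      rw [Finset.mem_sdiff]
      exact ⟨mem_fixPts.2 hgq, fun h2 => h.mem_t.1 h2 (hsubΔ hq)⟩)
    rw [Finset.card_sdiff_of_subset hgt, h.card_t, fix7 g.2 hg1 hg7] at hm
    rw [Finset.card_sdiff_of_subset hkt, h.card_t, fix5 k.2 hk1 hk5] at hn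
    have hc1 := Finset.card_le_card hsubΔ
    rw [h.card] at hc1
    have hc0 : 0 < (orb (pst (pst Y p) a) y).card := Finset.card_pos.2 ⟨y, self_orb _ _⟩
    have hc2 : (orb (pst (pst Y p) a) y).card = 21 := by
      generalize (orb (pst (pst Y p) a) y).card = c at hm2 hn2 hc1 hc0 ⊢
      have hm' : m = 0 := by omega
      have hn' : n = 0 ∨ n = 1 := by omega
      subst hm'
      rcases hn' with rfl | rfl <;> interval_cases c <;> omega
    have h6 := Finset.eq_of_subset_of_card_le hsubΔ (by rw [h.card, hc2])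
    rw [h6]
  have h5 : 5 ∣ Nat.card ↥Y :=
    ((by norm_num : 5 ∣ 35).trans (h35 (none : GolayPt))).trans (Subgroup.card_dvd_of_le inf_le_left)
  obtain ⟨g, hg, hg5, hg1⟩ := exists_elt (by norm_num) h5
  have hf := fix5 g.2 hg1 hg5
  exact h.absurd hblk hg (by norm_num) hg5 (by norm_num) (by rw [hf]; norm_num) (by rw [hf]; norm_num)

end

end CfsgLib.Idx28
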