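import Mathlib
import Cfsg.Agent.EqBase
import Cfsg.Agent.LibIdxD28

set_option autoImplicit false

/-! Subgroups of `M24` of index 759, 276, 1771, 253 (helper28). -/

namespace CfsgLib.Idx28

open Cfsg CfsgLib.Golay CfsgLib.M24 CfsgLib.Restr28 CfsgLib.Blk28 CfsgLib.EltE28 CfsgLib.EltF28 CfsgLib.OrbG28 CfsgLib.Six28 CfsgLib.Trio28 MulAction
open scoped Pointwise

theorem exists_oct (x : GolayPt) : ∃ o ∈ octads, x ∈ o := by
  obtain ⟨s, hs1, hs2⟩ := Finset.exists_superset_card_eq (s := ({x} : Finset GolayPt)) (n := 5) (by simp) (by rw [card_pt]; norm_num)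
  obtain ⟨o, ⟨ho, hso⟩, -⟩ := octads_steiner.2 s hs2
  exact ⟨o, ho, hso (hs1 (Finset.mem_singleton_self x))⟩

theorem exists_out {o : Finset GolayPt} (ho : o ∈ octads) : ∃ y, y ∉ o := by
  by_contra hcon
  push Not at hcon
  have h1 : o = Finset.univ := Finset.eq_univ_iff_forall.2 hcon
  have h2 : o.card = 8 := ho.2
  rw [h1, Finset.card_univ, card_pt] at h2
  omega

/-- the local analysis -/
theorem loc {Y : Subgroup ↥M24} {p : GolayPt} (hodd : ¬ 2 ∣ (pst Y p).relIndex (stabilizer ↥M24 p)) :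
    ∃ o ∈ octads, p ∈ o ∧ fx o ≤ pst Y p ∧ ∃ y, y ∉ o ∧ y ≠ p ∧ oᶜ ⊆ orb (pst Y p) y ∧ 16 ≤ (orb (pst Y p) y).card ∧
      (orb (pst Y p) y).card ≤ 23 ∧ (orb (pst Y p) y).card ∣ Nat.card ↥(pst Y p) := by
  obtain ⟨o0, ho0, hx0⟩ := exists_oct p
  obtain ⟨g, hg, hfx⟩ := exists_fx hodd ho0 (fun f hf => hf p hx0)
  have ho := octads_inv g o0 ho0
  have hgx : (g : Equiv.Perm GolayPt) p = p := hg
  have hx : p ∈ g • o0 := by
    have : (g : Equiv.Perm GolayPt) • p ∈ (g : Equiv.Perm GolayPt) • o0 := Finset.smul_mem_smul_finset hx0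
    rw [show (g : Equiv.Perm GolayPt) • p = p from hgx] at this
    exact this
  generalize g • o0 = o at hfx ho hx
  obtain ⟨y, hy⟩ := exists_out ho
  have hyp : y ≠ p := by rintro rfl; exact hy hx
  have hsub := compl_sub ho hfx hy
  have hcompl : (oᶜ : Finset GolayPt).card = 16 := by rw [Finset.card_compl, card_pt, show o.card = 8 from ho.2]
  refine ⟨o, ho, hx, hfx, y, hy, hyp, hsub, ?_, ?_, ?_⟩
  · rw [← hcompl]; exact Finset.card_le_card hsub
  · have h1 : orb (pst Y p) y ⊆ ({p}ᶜ : Finset GolayPt) := by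
      intro q hq
      rw [Finset.mem_compl, Finset.mem_singleton]
      rintro rfl
      exact self_notin hyp hq
    have h2 := Finset.card_le_card h1
    rw [Finset.card_compl, card_pt, Finset.card_singleton] at h2
    exact h2
  · rw [← card_orb (pst Y p) y]; exact dvd_mul_left _ _

/-- the global analysis -/
theorem glob {Y : Subgroup ↥M24} (hodd : ¬ 2 ∣ Y.index) : ∃ o ∈ octads, fx o ≤ Y ∧ ∃ y, y ∉ o ∧ oᶜ ⊆ orb Y y ∧ 16 ≤ (orb Y y).card ∧
      (orb Y y).card ≤ 24 ∧ (orb Y y).card ∣ Nat.card ↥Y := by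
  obtain ⟨o0, ho0, hx0⟩ := exists_oct (none : GolayPt)
  obtain ⟨g, hg, hfx⟩ := exists_fx (S := ⊤) (Y := Y) (by rw [Subgroup.relIndex_top_right]; exact hodd) ho0 le_top
  have ho := octads_inv g o0 ho0
  generalize g • o0 = o at hfx ho
  obtain ⟨y, hy⟩ := exists_out ho
  have hsub := compl_sub ho hfx hy
  have hcompl : (oᶜ : Finset GolayPt).card = 16 := by rw [Finset.card_compl, card_pt, show o.card = 8 from ho.2]
  refine ⟨o, ho, hfx, y, hy, hsub, ?_, ?_, ?_⟩
  · rw [← hcompl]; exact Finset.card_le_card hsub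
  · rw [← card_pt, ← Finset.card_univ]; exact Finset.card_le_card (Finset.subset_univ _)
  · rw [← card_orb Y y]; exact dvd_mul_left _ _

theorem le_stab_compl {Y : Subgroup ↥M24} {y : GolayPt} : Y ≤ stabilizer ↥M24 ((orb Y y)ᶜ) := by
  apply le_stab_of_inv
  intro k hk q
  rw [Finset.mem_compl, Finset.mem_compl, not_iff_not, orb_inv hk]

/-- transitivity -/
def Tr (Y : Subgroup ↥M24) : Prop := ∀ p q : GolayPt, ∃ g ∈ Y, (g : Equiv.Perm GolayPt) p = q

theorem tr_of {Y : Subgroup ↥M24} {y : GolayPt} (h : (orb Y y).card = 24) : Tr Y := by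
  have h1 : orb Y y = Finset.univ := by
    apply Finset.eq_univ_of_card
    rw [h, card_pt]
  intro p q
  obtain ⟨g, hg, hgp⟩ := mem_orb.1 (show p ∈ orb Y y by rw [h1]; exact Finset.mem_univ _)
  obtain ⟨k, hk, hkq⟩ := mem_orb.1 (show q ∈ orb Y y by rw [h1]; exact Finset.mem_univ _)
  refine ⟨k * g⁻¹, mul_mem hk (inv_mem hg), ?_⟩
  show ((k : Equiv.Perm GolayPt) * (g : Equiv.Perm GolayPt)⁻¹) p = q
  rw [← hgp, ← hkq]; simp

theorem Tr.card {Y : Subgroup ↥M24} (h : Tr Y) (p : GolayPt) : Nat.card ↥(pst Y p) * 24 = Nat.card ↥Y := by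
  have h1 := card_orb Y p
  have h2 : orb Y p = Finset.univ := by
    rw [Finset.eq_univ_iff_forall]
    intro q
    obtain ⟨g, hg, he⟩ := h p q
    exact mem_orb.2 ⟨g, hg, he⟩
  rw [h2, Finset.card_univ, card_pt] at h1
  exact h1

theorem Tr.fam {Y : Subgroup ↥M24} (h : Tr Y) {k : ℕ} (hk : 12 ≤ k) {p0 : GolayPt} (hp : ∃ y, y ≠ p0 ∧ (orb (pst Y p0) y).card = k) :
    ∃ Δ, Fam Y k Δ := by
  have h1 : ∀ p, ∃ y, y ≠ p ∧ (orb (pst Y p) y).card = k := by
    intro p
    obtain ⟨g, hg, rfl⟩ := h p0 p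
    obtain ⟨y, hy, he⟩ := hp
    refine ⟨(g : Equiv.Perm GolayPt) y, fun h2 => hy ((g : Equiv.Perm GolayPt).injective h2), ?_⟩
    rw [orb_conj hg, Finset.card_smul_finset, he]
  choose f hf1 hf2 using h1
  exact ⟨fun p => orb (pst Y p) (f p), ⟨hf2, hk, fun p => ⟨f p, hf1 p, rfl⟩⟩⟩

theorem relIndex_pst {Y : Subgroup ↥M24} {p : GolayPt} {n i : ℕ} (h : Nat.card ↥(pst Y p) = n) (hn : n * i = 10200960) (hn0 : 0 < n) :
    (pst Y p).relIndex (stabilizer ↥M24 p) = i := by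
  have h1 : Nat.card ↥((pst Y p).subgroupOf (stabilizer ↥M24 p)) * (pst Y p).relIndex (stabilizer ↥M24 p) = Nat.card ↥(stabilizer ↥M24 p) :=
    Subgroup.card_mul_index _
  rw [Nat.card_congr (Subgroup.subgroupOfEquivOfLe (show pst Y p ≤ stabilizer ↥M24 p from inf_le_right)).toEquiv, card_st, h, ← hn] at h1
  exact Nat.eq_of_mul_eq_mul_left hn0 h1

/-- type 16 is impossible for large groups -/
theorem Fam.case16 {Y : Subgroup ↥M24} {Δ : GolayPt → Finset GolayPt} (h : Fam Y 16 Δ)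
    (hodd : ∀ p, ¬ 2 ∣ (pst Y p).relIndex (stabilizer ↥M24 p)) : Nat.card ↥Y ≤ 64512 := by
  have key : ∀ p, ∃ o ∈ octads, fx o ≤ Y ∧ h.t p = o := by
    intro p
    obtain ⟨o, ho, hpo, hfx, y, hy, hyp, hsub, h16, -, -⟩ := loc (hodd p)
    refine ⟨o, ho, hfx.trans inf_le_left, ?_⟩
    have h1 := h.uniq hyp h16
    rw [h1] at hsub
    have hcompl : (oᶜ : Finset GolayPt).card = 16 := by rw [Finset.card_compl, card_pt, show o.card = 8 from ho.2]
    have h2 : oᶜ = Δ p := Finset.eq_of_subset_of_card_le hsub (by rw [h.card, hcompl])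
    rw [Fam.t, ← h2, compl_compl]
  apply trio_case h
  · intro p
    obtain ⟨o, ho, -, he⟩ := key p
    rw [he]; exact ho
  · intro p
    obtain ⟨o, -, hf, he⟩ := key p
    rw [he]; exact hf

/-- no transitive subgroups of order 322560 or 967680 -/
theorem no_tr {Y : Subgroup ↥M24} (hY : Nat.card ↥Y = 322560 ∨ Nat.card ↥Y = 967680) (h : Tr Y) : False := by
  have hc : ∀ p, Nat.card ↥(pst Y p) = 13440 ∨ Nat.card ↥(pst Y p) = 40320 := by
    intro p
    have := h.card p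
    omega
  have hodd : ∀ p, ¬ 2 ∣ (pst Y p).relIndex (stabilizer ↥M24 p) := by
    intro p
    rcases hc p with h1 | h1
    · rw [relIndex_pst (i := 759) h1 (by norm_num) (by norm_num)]; norm_num
    · rw [relIndex_pst (i := 253) h1 (by norm_num) (by norm_num)]; norm_num
  obtain ⟨o, ho, hpo, hfx, y, hy, hyp, hsub, h16, h23, hdvd⟩ := loc (hodd (none : GolayPt))
  have h7 : 7 ∣ Nat.card ↥(pst Y (none : GolayPt)) := by
    rcases hc none with h1 | h1 <;> rw [h1] <;> norm_num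
  obtain ⟨k, hk, hk7, hk1⟩ := exists_elt (by norm_num) h7
  obtain ⟨m, hm, hm2⟩ := res_on (p := 7) (by norm_num) hk7 (orb_smul (y := y) hk) (B := (fixPts (k : Equiv.Perm GolayPt)).erase none)
    (by
      intro q hq hkq
      rw [Finset.mem_erase, mem_fixPts]
      refine ⟨?_, hkq⟩
      rintro rfl
      exact self_notin hyp hq)
  rw [Finset.card_erase_of_mem (mem_fixPts.2 hk.2), fix7 k.2 hk1 hk7] at hm
  have hd : (orb (pst Y none) y).card ∣ 40320 := by
    refine hdvd.trans ?_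
    rcases hc none with h1 | h1 <;> rw [h1]
    norm_num
  have hsz : (orb (pst Y none) y).card = 16 ∨ (orb (pst Y none) y).card = 21 := by
    by_cases h17 : (orb (pst Y none) y).card = 16
    · exact Or.inl h17
    · right
      rcases chk18 _ (by omega) h23 hd with h3 | h3 | h3
      · rw [h3] at hm2; omega
      · rw [h3] at hm2; omega
      · exact h3
  rcases hsz with h3 | h3
  · obtain ⟨Δ, hΔ⟩ := h.fam (k := 16) (by norm_num) ⟨y, hyp, h3⟩
    have := hΔ.case16 hodd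
    omega
  · obtain ⟨Δ, hΔ⟩ := h.fam (k := 21) (by norm_num) ⟨y, hyp, h3⟩
    apply case21 hΔ
    intro p
    rcases hc p with h1 | h1 <;> rw [h1] <;> norm_num

theorem chk24 : ∀ d, 17 ≤ d → d ≤ 24 → d ∣ 967680 → d = 18 ∨ d = 20 ∨ d = 21 ∨ d = 24 := by
  intro d h1 h2 h3
  interval_cases d <;> first | omega | (exfalso; revert h3; decide)

/-- subgroups of odd index divisible by 35 -/
theorem odd35 {Y : Subgroup ↥M24} (hY : Nat.card ↥Y = 322560 ∨ Nat.card ↥Y = 967680) : ∃ o ∈ octads, Y ≤ stabilizer ↥M24 o := by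
  have hodd : ¬ 2 ∣ Y.index := by
    have h1 := Subgroup.card_mul_index Y
    rw [M24_card] at h1
    rcases hY with h2 | h2 <;> rw [h2] at h1 <;> omega
  obtain ⟨o, ho, hfx, y, hy, hsub, h16, h24, hdvd⟩ := glob hodd
  have h7 : 7 ∣ Nat.card ↥Y := by
    rcases hY with h1 | h1 <;> rw [h1] <;> norm_num
  obtain ⟨k, hk, hk7, hk1⟩ := exists_elt (by norm_num) h7
  obtain ⟨m, hm, hm2⟩ := res_on (p := 7) (by norm_num) hk7 (orb_smul (y := y) hk) (B := fixPts (k : Equiv.Perm GolayPt))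
    (fun q _ hkq => mem_fixPts.2 hkq)
  rw [fix7 k.2 hk1 hk7] at hm
  have hd : (orb Y y).card ∣ 967680 := by
    refine hdvd.trans ?_
    rcases hY with h1 | h1 <;> rw [h1]
    norm_num
  have hcompl : (oᶜ : Finset GolayPt).card = 16 := by rw [Finset.card_compl, card_pt, show o.card = 8 from ho.2]
  by_cases h17 : (orb Y y).card = 16
  · refine ⟨o, ho, ?_⟩
    have h1 : oᶜ = orb Y y := Finset.eq_of_subset_of_card_le hsub (by rw [hcompl, h17])
    have h2 := le_stab_compl (Y := Y) (y := y)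
    rw [← h1, compl_compl] at h2
    exact h2
  · exfalso
    rcases chk24 _ (by omega) h24 hd with h3 | h3 | h3 | h3
    · rw [h3] at hm2; omega
    · rw [h3] at hm2; omega
    · have h4 := card_stab_le ((orb Y y)ᶜ)
      have h5 : ((orb Y y)ᶜ : Finset GolayPt).card = 3 := by rw [Finset.card_compl, card_pt, h3]
      rw [card_fx3 h5, h5] at h4
      have h6 := Subgroup.card_le_of_le (le_stab_compl (Y := Y) (y := y))
      have h7 : Nat.factorial 3 = 6 := rfl
      rw [h7] at h4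
      omega
    · exact no_tr hY (tr_of h3)

theorem idx759 {Y : Subgroup ↥M24} (hY : Nat.card ↥Y = 322560) : ∃ o ∈ octads, Y = stabilizer ↥M24 o := by
  obtain ⟨o, ho, h1⟩ := odd35 (Or.inl hY)
  exact ⟨o, ho, Subgroup.eq_of_le_of_card_ge h1 (by rw [card_stab_octad' ho, hY])⟩

theorem no253 {Y : Subgroup ↥M24} (hY : Nat.card ↥Y = 967680) : False := by
  obtain ⟨o, ho, h1⟩ := odd35 (Or.inr hY)
  have h2 := Subgroup.card_le_of_le h1
  rw [card_stab_octad' ho, hY] at h2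
  omega

end CfsgLib.Idx28
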