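import Mathlib
import Cfsg.Agent.EqBase
import Cfsg.Agent.LibIdxE28

set_option autoImplicit false

/-! Subgroups of `M24` of index 276, 1771 (helper28). -/

namespace CfsgLib.Idx28

open Cfsg CfsgLib.Golay CfsgLib.M24 CfsgLib.Restr28 CfsgLib.Blk28 CfsgLib.EltE28 CfsgLib.EltF28 CfsgLib.OrbG28 CfsgLib.Six28 CfsgLib.Trio28 MulAction
open scoped Pointwise

theorem card_fx2 {D : Finset GolayPt} (hD : D.card = 2) : Nat.card ↥(fx D) = 443520 := by
  obtain ⟨q, hq⟩ : ∃ q, q ∉ D := by
    by_contra hcon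
    push Not at hcon
    have h1 : D = Finset.univ := Finset.eq_univ_iff_forall.2 hcon
    rw [h1, Finset.card_univ, card_pt] at hD
    omega
  have h1 : (insert q D).card = 3 := by rw [Finset.card_insert_of_notMem hq, hD]
  have h2 := card_fx_insert (D := D) (by omega) hq
  rw [card_fx3 h1, hD] at h2
  omega

/-- the orbit of a point moved by an element of order 11 -/
theorem orb11 {Y : Subgroup ↥M24} {B : Finset GolayPt} {b : ℕ} (hb : B.card ≤ b) (hb2 : b ≤ 2)
    (h11 : 11 ∣ Nat.card ↥Y) (hB : ∀ g ∈ Y, (g : Equiv.Perm GolayPt) ^ 11 = 1 → (g : Equiv.Perm GolayPt) ≠ 1 → True) :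
    ∃ g ∈ Y, (g : Equiv.Perm GolayPt) ^ 11 = 1 ∧ (g : Equiv.Perm GolayPt) ≠ 1 ∧ (fixPts (g : Equiv.Perm GolayPt)).card = 2 ∧
      ∃ y, (g : Equiv.Perm GolayPt) y ≠ y := by
  obtain ⟨g, hg, hg11, hg1⟩ := exists_elt (by norm_num) h11
  refine ⟨g, hg, hg11, hg1, fix11 g.2 hg1 hg11, ?_⟩
  by_contra hcon
  push Not at hcon
  exact hg1 (Equiv.ext hcon)

theorem sz11 {Y : Subgroup ↥M24} {g : ↥M24} (hg : g ∈ Y) (hg11 : (g : Equiv.Perm GolayPt) ^ 11 = 1) {y : GolayPt}
    (hy : (g : Equiv.Perm GolayPt) y ≠ y) {B : Finset GolayPt} (hB : ∀ x ∈ orb Y y, (g : Equiv.Perm GolayPt) x = x → x ∈ B) :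
    ∃ k ≤ B.card, (orb Y y).card % 11 = k % 11 ∧ k < (orb Y y).card := by
  refine ⟨((orb Y y).filter fun a => (g : Equiv.Perm GolayPt) a = a).card, Finset.card_le_card ?_,
    (card_fix_on (by norm_num) hg11 (orb_smul (y := y) hg)).symm, ?_⟩
  · intro x hx
    rw [Finset.mem_filter] at hx
    exact hB x hx.1 hx.2
  · apply Finset.card_lt_card
    refine ⟨Finset.filter_subset _ _, fun h => ?_⟩
    exact hy (Finset.mem_filter.1 (h (self_orb Y y))).2

theorem chk276 : ∀ d, d ≤ 24 → 11 ≤ d → (d % 11 ≤ 2) → (d % 7 ≤ 3) → d ∣ 887040 → d = 22 ∨ d = 24 := by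
  intro d h1 h2 h3 h4 h5
  interval_cases d <;> first | omega | (exfalso; revert h5; decide)

theorem chk36960 : ∀ d, d ≤ 24 → 11 ≤ d → (d % 11 ≤ 1) → (d % 7 ≤ 2) → d ∣ 36960 → d = 22 := by
  intro d h1 h2 h3 h4 h5
  interval_cases d <;> first | omega | (exfalso; revert h5; decide)

theorem orb_le (Y : Subgroup ↥M24) (y : GolayPt) : (orb Y y).card ≤ 24 := by
  rw [← card_pt, ← Finset.card_univ]; exact Finset.card_le_card (Finset.subset_univ _)

theorem orb_dvd (Y : Subgroup ↥M24) (y : GolayPt) : (orb Y y).card ∣ Nat.card ↥Y := by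
  rw [← card_orb Y y]; exact dvd_mul_left _ _

theorem idx276 {Y : Subgroup ↥M24} (hY : Nat.card ↥Y = 887040) : ∃ s : Finset GolayPt, s.card = 2 ∧ Y = stabilizer ↥M24 s := by
  obtain ⟨g, hg, hg11, hg1⟩ := exists_elt (p := 11) (Y := Y) (by norm_num) (by rw [hY]; norm_num)
  obtain ⟨k, hk, hk7, hk1⟩ := exists_elt (p := 7) (Y := Y) (by norm_num) (by rw [hY]; norm_num)
  obtain ⟨y, hy⟩ : ∃ y, (g : Equiv.Perm GolayPt) y ≠ y := by
    by_contra hcon
    push Not at hcon
    exact hg1 (Equiv.ext hcon)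
  obtain ⟨a, ha, ha2, ha3⟩ := sz11 hg hg11 hy (B := fixPts (g : Equiv.Perm GolayPt)) (fun x _ hx => mem_fixPts.2 hx)
  obtain ⟨b, hb, hb2⟩ := res_on (p := 7) (by norm_num) hk7 (orb_smul (y := y) hk) (B := fixPts (k : Equiv.Perm GolayPt))
    (fun q _ hkq => mem_fixPts.2 hkq)
  rw [fix11 g.2 hg1 hg11] at ha
  rw [fix7 k.2 hk1 hk7] at hb
  have hd : (orb Y y).card ∣ 887040 := hY ▸ orb_dvd Y y
  have h24 := orb_le Y y
  rcases chk276 _ h24 (by omega) (by omega) (by omega) hd with h1 | h1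
  · have hs : ((orb Y y)ᶜ : Finset GolayPt).card = 2 := by rw [Finset.card_compl, card_pt, h1]
    refine ⟨_, hs, Subgroup.eq_of_le_of_card_ge le_stab_compl ?_⟩
    have h2 := card_stab_le ((orb Y y)ᶜ)
    rw [card_fx2 hs, hs] at h2
    have h3 : Nat.factorial 2 = 2 := rfl
    rw [h3] at h2
    rw [hY]; omega
  · exfalso
    have hT := tr_of h1
    have hc := hT.card (none : GolayPt)
    rw [hY] at hc
    have hc' : Nat.card ↥(pst Y (none : GolayPt)) = 36960 := by omega
    obtain ⟨g, hg, hg11, hg1⟩ := exists_elt (p := 11) (Y := pst Y none) (by norm_num) (by rw [hc']; norm_num)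
    obtain ⟨k, hk, hk7, hk1⟩ := exists_elt (p := 7) (Y := pst Y none) (by norm_num) (by rw [hc']; norm_num)
    obtain ⟨y, hy⟩ : ∃ y, (g : Equiv.Perm GolayPt) y ≠ y := by
      by_contra hcon
      push Not at hcon
      exact hg1 (Equiv.ext hcon)
    have hyp : y ≠ none := by
      rintro rfl
      exact hy hg.2
    have hno : ∀ q ∈ orb (pst Y none) y, q ≠ none := by
      rintro q hq rfl
      exact self_notin hyp hq
    obtain ⟨a, ha, ha2, ha3⟩ := sz11 hg hg11 hy (B := (fixPts (g : Equiv.Perm GolayPt)).erase none)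
      (fun x hx hx' => Finset.mem_erase.2 ⟨hno x hx, mem_fixPts.2 hx'⟩)
    obtain ⟨b, hb, hb2⟩ := res_on (p := 7) (by norm_num) hk7 (orb_smul (y := y) hk) (B := (fixPts (k : Equiv.Perm GolayPt)).erase none)
      (fun q hq hkq => Finset.mem_erase.2 ⟨hno q hq, mem_fixPts.2 hkq⟩)
    rw [Finset.card_erase_of_mem (mem_fixPts.2 hg.2), fix11 g.2 hg1 hg11] at ha
    rw [Finset.card_erase_of_mem (mem_fixPts.2 hk.2), fix7 k.2 hk1 hk7] at hb
    have hd : (orb (pst Y none) y).card ∣ 36960 := hc' ▸ orb_dvd _ y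
    have h24 := orb_le (pst Y none) y
    have h22 := chk36960 _ h24 (by omega) (by omega) (by omega) hd
    obtain ⟨Δ, hΔ⟩ := hT.fam (k := 22) (by norm_num) ⟨y, hyp, h22⟩
    exact case22 hΔ (by rw [hY]; norm_num)

theorem chk1771 : ∀ d, 17 ≤ d → d ≤ 24 → d ∣ 138240 → d = 18 ∨ d = 20 ∨ d = 24 := by
  intro d h1 h2 h3
  interval_cases d <;> first | omega | (exfalso; revert h3; decide)

theorem chk5760 : ∀ d, 17 ≤ d → d ≤ 23 → d ∣ 5760 → d = 18 ∨ d = 20 := by
  intro d h1 h2 h3
  interval_cases d <;> first | omega | (exfalso; revert h3; decide)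

theorem tr1771 {Y : Subgroup ↥M24} (hY : Nat.card ↥Y = 138240) (h : Tr Y) : ∃ S ∈ sextets, Y ≤ stabilizer ↥M24 S := by
  have hc : ∀ p, Nat.card ↥(pst Y p) = 5760 := by
    intro p
    have := h.card p
    omega
  have hodd : ∀ p, ¬ 2 ∣ (pst Y p).relIndex (stabilizer ↥M24 p) := by
    intro p
    rw [relIndex_pst (i := 1771) (hc p) (by norm_num) (by norm_num)]; norm_num
  obtain ⟨o, ho, hpo, hfx, y, hy, hyp, hsub, h16, h23, hdvd⟩ := loc (hodd (none : GolayPt))
  rw [hc] at hdvd
  by_cases h17 : (orb (pst Y none) y).card = 16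
  · exfalso
    obtain ⟨Δ, hΔ⟩ := h.fam (k := 16) (by norm_num) ⟨y, hyp, h17⟩
    have := hΔ.case16 hodd
    omega
  rcases chk5760 _ (by omega) h23 hdvd with h3 | h3
  · -- a set of five points
    exfalso
    have hF : ((insert none (orb (pst Y none) y))ᶜ : Finset GolayPt).card = 5 := by
      rw [Finset.card_compl, card_pt, Finset.card_insert_of_notMem (self_notin hyp), h3]
    obtain ⟨O, ⟨hO, hFO⟩, huO⟩ := octads_steiner.2 _ hF
    have hst : ∀ g ∈ pst Y none, g • O = O := by
      intro g hg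
      apply huO
      refine ⟨octads_inv g O hO, ?_⟩
      have h4 : g • ((insert none (orb (pst Y none) y))ᶜ : Finset GolayPt) = (insert none (orb (pst Y none) y))ᶜ := by
        apply smul_of_inv
        intro q
        rw [Finset.mem_compl, Finset.mem_compl, not_iff_not, Finset.mem_insert, Finset.mem_insert, orb_inv hg]
        have hxk : (g : Equiv.Perm GolayPt) none = none := hg.2
        have h3 : (g : Equiv.Perm GolayPt) q = none ↔ q = none := by
          constructor
          · intro h4; exact (g : Equiv.Perm GolayPt).injective (h4.trans hxk.symm)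
          · rintro rfl; exact hxk
        rw [h3]
      rw [← h4]
      exact Finset.smul_finset_subset_smul_finset hFO
    have hnot : ∀ z ∈ O, z ∉ orb (pst Y none) y := by
      intro z hz hzo
      have h4 : orb (pst Y none) y ⊆ O := by
        rw [← orb_eq hzo]
        intro q hq
        obtain ⟨g, hg, rfl⟩ := mem_orb.1 hq
        exact (mem_of_stab (hst g hg) z).2 hz
      have h5 := Finset.card_le_card h4
      rw [h3, show O.card = 8 from hO.2] at h5
      omega
    have h4 : O ⊆ insert none ((insert none (orb (pst Y none) y))ᶜ : Finset GolayPt) := by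
      intro z hz
      rw [Finset.mem_insert, Finset.mem_compl, Finset.mem_insert]
      have := hnot z hz
      tauto
    have h5 := Finset.card_le_card h4
    have h6 := Finset.card_insert_le (none : GolayPt) ((insert none (orb (pst Y none) y))ᶜ : Finset GolayPt)
    rw [hF] at h6
    rw [show O.card = 8 from hO.2] at h5
    omega
  · obtain ⟨Δ, hΔ⟩ := h.fam (k := 20) (by norm_num) ⟨y, hyp, h3⟩
    apply sextet_case hΔ
    intro p
    -- full stabiliser
    have hle : pst Y p ≤ stabilizer ↥M24 p ⊓ stabilizer ↥M24 (hΔ.t p) := fun g hg => ⟨hg.2, pst_stab hΔ hg⟩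
    have hs : stabilizer ↥M24 p ⊓ stabilizer ↥M24 (hΔ.t p) ≤ stabilizer ↥M24 ((hΔ.t p).erase p) := by
      intro g hg
      have hgp : (g : Equiv.Perm GolayPt) p = p := hg.1
      apply smul_of_inv
      intro q
      rw [Finset.mem_erase, Finset.mem_erase, mem_of_stab hg.2 q]
      have h3 : (g : Equiv.Perm GolayPt) q = p ↔ q = p := by
        constructor
        · intro h4; exact (g : Equiv.Perm GolayPt).injective (h4.trans hgp.symm)
        · rintro rfl; exact hgp
      rw [Ne, h3]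
    have h4 := card_le_rs hs
    have h5 : ((hΔ.t p).erase p).card = 3 := by rw [Finset.card_erase_of_mem (hΔ.self_t p), hΔ.card_t]
    have h6 : Nat.card ↥(stabilizer ↥M24 p ⊓ stabilizer ↥M24 (hΔ.t p) ⊓ fx ((hΔ.t p).erase p)) ≤ 960 := by
      rw [← card_fx4 (D := hΔ.t p) (by rw [hΔ.card_t])]
      apply Subgroup.card_le_of_le
      rintro g ⟨⟨hg1, -⟩, hg2⟩ x hx
      by_cases hxp : x = p
      · rw [hxp]; exact hg1
      · exact hg2 x (Finset.mem_erase.2 ⟨hxp, hx⟩)
    have h7 : Nat.factorial 3 = 6 := rfl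
    rw [h5, h7] at h4
    have h8 : pst Y p = stabilizer ↥M24 p ⊓ stabilizer ↥M24 (hΔ.t p) := by
      apply Subgroup.eq_of_le_of_card_ge hle
      rw [hc]; omega
    have h9 : fx (hΔ.t p) ≤ pst Y p := by
      rw [h8]
      intro g hg
      refine ⟨hg p (hΔ.self_t p), ?_⟩
      apply smul_of_inv
      intro q
      constructor
      · intro hq
        have h10 := hg _ hq
        have h11 : (g : Equiv.Perm GolayPt) q = q := (g : Equiv.Perm GolayPt).injective h10
        rwa [h11] at hq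
      · intro hq
        rw [hg q hq]; exact hq
    exact h9.trans inf_le_left

theorem idx1771 {Y : Subgroup ↥M24} (hY : Nat.card ↥Y = 138240) : ∃ S ∈ sextets, Y = stabilizer ↥M24 S := by
  have hodd : ¬ 2 ∣ Y.index := by
    have h1 := Subgroup.card_mul_index Y
    rw [M24_card, hY] at h1
    omega
  obtain ⟨o, ho, hfx, y, hy, hsub, h16, h24, hdvd⟩ := glob hodd
  rw [hY] at hdvd
  have hst := Subgroup.card_le_of_le (le_stab_compl (Y := Y) (y := y))
  rw [hY] at hst
  have hb := card_stab_le ((orb Y y)ᶜ)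
  by_cases h17 : (orb Y y).card = 16
  · exfalso
    have hcompl : (oᶜ : Finset GolayPt).card = 16 := by rw [Finset.card_compl, card_pt, show o.card = 8 from ho.2]
    have h1 : oᶜ = orb Y y := Finset.eq_of_subset_of_card_le hsub (by rw [hcompl, h17])
    have h2 := le_stab_compl (Y := Y) (y := y)
    rw [← h1, compl_compl] at h2
    have h3 := Subgroup.card_dvd_of_le h2
    rw [hY, card_stab_octad' ho] at h3
    revert h3; norm_num
  rcases chk1771 _ (by omega) h24 hdvd with h3 | h3 | h3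
  · exfalso
    have h5 : ((orb Y y)ᶜ : Finset GolayPt).card = 6 := by rw [Finset.card_compl, card_pt, h3]
    obtain ⟨F, hF, hF5⟩ := Finset.exists_subset_card_eq (s := ((orb Y y)ᶜ : Finset GolayPt)) (n := 5) (by rw [h5]; norm_num)
    have h6 := Subgroup.card_le_of_le (fx_mono hF)
    rw [card_fx5 hF5] at h6
    have h7 : Nat.factorial 6 = 720 := rfl
    rw [h5, h7] at hb
    omega
  · exfalso
    have h5 : ((orb Y y)ᶜ : Finset GolayPt).card = 4 := by rw [Finset.card_compl, card_pt, h3]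
    have h7 : Nat.factorial 4 = 24 := rfl
    rw [h5, h7, card_fx4 h5] at hb
    omega
  · obtain ⟨S, hS, hle⟩ := tr1771 hY (tr_of h3)
    exact ⟨S, hS, Subgroup.eq_of_le_of_card_ge hle (by rw [card_stab_sextet hS, hY])⟩

end CfsgLib.Idx28
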