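import Mathlib
import Cfsg.Agent.EqBase

set_option autoImplicit false

/-! Sylow subgroups of prime order: normaliser and centraliser (helper28). -/

namespace CfsgLib.SylN28

open scoped Pointwise
open Subgroup

variable {G : Type*} [Group G] [Finite G] {p : ℕ}

theorem isP {S : Subgroup G} (hS : Nat.card S = p) : IsPGroup p S :=
  IsPGroup.of_card (n := 1) (by rw [hS, pow_one])

/-- conjugacy of the subgroups of order `p` -/
theorem conj_of_card (hp : p.Prime) {S T : Subgroup G} (hS : Nat.card S = p) (hT : Nat.card T = p)
    (hi : ¬ p * p ∣ Nat.card G) : ∃ h : G, MulAut.conj h • S = T := by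
  haveI : Fact p.Prime := ⟨hp⟩
  have key : ∀ S : Subgroup G, Nat.card S = p → ¬ p ∣ S.index := by
    intro S hS h
    apply hi
    rw [← Subgroup.card_mul_index S, hS]
    exact mul_dvd_mul_left p h
  obtain ⟨h, hh⟩ := MulAction.exists_smul_eq G ((isP hS).toSylow (key S hS)) ((isP hT).toSylow (key T hT))
  refine ⟨h, ?_⟩
  have := congrArg (fun Q : Sylow p G => (Q : Subgroup G)) hh
  exact this

/-- the normaliser of a Sylow subgroup of prime order -/
theorem normalizer_arith (hp : p.Prime) {S : Subgroup G} (hS : Nat.card S = p) (hi : ¬ p * p ∣ Nat.card G) :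
    (∃ j, j ∣ p - 1 ∧ Nat.card (normalizer (S : Set G)) = j * Nat.card (centralizer (S : Set G))) ∧
      (normalizer (S : Set G)).index ≡ 1 [MOD p] := by
  haveI : Fact p.Prime := ⟨hp⟩
  have hidx : ¬ p ∣ S.index := by
    intro h
    apply hi
    rw [← Subgroup.card_mul_index S, hS]
    exact mul_dvd_mul_left p h
  constructor
  · haveI : IsCyclic S := isCyclic_of_prime_card hS
    have key := card_dvd_of_injective _ (QuotientGroup.kerLift_injective S.normalizerMonoidHom)
    rw [normalizerMonoidHom_ker, ← index, ← relIndex, IsCyclic.card_mulAut, hS, Nat.totient_prime hp] at key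
    refine ⟨_, key, ?_⟩
    have hle : centralizer (S : Set G) ≤ normalizer (S : Set G) := by
      intro x hx
      rw [mem_normalizer_iff]
      intro y
      have hxm := mem_centralizer_iff.1 hx
      constructor
      · intro hy
        have h1 := hxm y hy
        rw [← h1, mul_inv_cancel_right]; exact hy
      · intro hy
        have h1 := hxm _ hy
        have h2 : x * y * x⁻¹ = y := by
          calc x * y * x⁻¹ = x⁻¹ * (x * (x * y * x⁻¹)) := by group
            _ = x⁻¹ * ((x * y * x⁻¹) * x) := by rw [h1]
            _ = y := by group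
        rwa [h2] at hy
    have h1 := Subgroup.card_mul_index ((centralizer (S : Set G)).subgroupOf (normalizer (S : Set G)))
    rw [← h1, mul_comm]
    congr 1
    exact Nat.card_congr (Subgroup.subgroupOfEquivOfLe hle).toEquiv
  · have h1 := card_sylow_modEq_one p G
    rw [Sylow.card_eq_index_normalizer ((isP hS).toSylow hidx)] at h1
    exact h1

end CfsgLib.SylN28
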