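import Mathlib
import Cfsg.Agent.EqBase
import Cfsg.Agent.LibIdxF28
import Cfsg.Agent.LibSylN28

set_option autoImplicit false

/-! Subgroups of `M22` of order 7920 and 2112 (helper28). -/

namespace CfsgLib.Idx28

open Cfsg CfsgLib.Golay CfsgLib.M24 CfsgLib.Restr28 CfsgLib.Blk28 CfsgLib.EltE28 CfsgLib.EltF28 CfsgLib.OrbG28 CfsgLib.Six28 CfsgLib.Trio28 MulAction
open scoped Pointwise

open Classical in
/-- points fixed by a subgroup -/
noncomputable def Fx (E : Subgroup ↥M24) : Finset GolayPt := Finset.univ.filter fun q => ∀ g ∈ E, (g : Equiv.Perm GolayPt) q = q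

theorem mem_Fx {E : Subgroup ↥M24} {q : GolayPt} : q ∈ Fx E ↔ ∀ g ∈ E, (g : Equiv.Perm GolayPt) q = q := by
  classical
  rw [Fx, Finset.mem_filter]
  exact ⟨fun h => h.2, fun h => ⟨Finset.mem_univ _, h⟩⟩

/-- fixed points of a `p`-group modulo `p` -/
theorem card_Fx_mod {E : Subgroup ↥M24} {p : ℕ} (hp : p.Prime) (hE : IsPGroup p ↥E) {A : Finset GolayPt}
    (hA : ∀ g ∈ E, g • A = A) : (A ∩ Fx E).card % p = A.card % p := by
  haveI : Fact p.Prime := ⟨hp⟩
  letI : MulAction ↥E ↥A :=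
    { smul := fun g x => ⟨((g : ↥M24) : Equiv.Perm GolayPt) x, (mem_of_stab (hA g g.2) x).2 x.2⟩
      one_smul := fun x => Subtype.ext rfl
      mul_smul := fun g h x => Subtype.ext rfl }
  have h1 := hE.card_modEq_card_fixedPoints ↥A
  have h2 : Nat.card ↥A = A.card := by rw [Nat.card_eq_fintype_card, Fintype.card_coe]
  have h3 : Nat.card ↥(MulAction.fixedPoints ↥E ↥A) = (A ∩ Fx E).card := by
    rw [← Fintype.card_coe, ← Nat.card_eq_fintype_card]
    refine Nat.card_congr ⟨fun x => ⟨((x : ↥A) : GolayPt), Finset.mem_inter.2 ⟨(x : ↥A).2, mem_Fx.2 fun g hg => ?_⟩⟩,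
      fun x => ⟨⟨x, (Finset.mem_inter.1 x.2).1⟩, fun g => ?_⟩, fun x => rfl, fun x => rfl⟩
    · exact congrArg Subtype.val (x.2 ⟨g, hg⟩)
    · exact Subtype.ext (mem_Fx.1 (Finset.mem_inter.1 x.2).2 g g.2)
  rw [h2, h3] at h1
  exact h1.symm

theorem Fx_le {E : Subgroup ↥M24} (hE : Nat.card ↥E = 9) : (Fx E).card ≤ 4 := by
  by_contra hcon
  push Not at hcon
  obtain ⟨F, hF, hF5⟩ := Finset.exists_subset_card_eq (s := Fx E) (n := 5) (by omega)
  have h1 : E ≤ fx F := fun g hg x hx => mem_Fx.1 (hF hx) g hg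
  have h2 := Subgroup.card_dvd_of_le h1
  rw [hE, card_fx5 hF5] at h2
  revert h2; norm_num

theorem exists_nine {Y : Subgroup ↥M24} (h : 9 ∣ Nat.card ↥Y) : ∃ E ≤ Y, Nat.card ↥E = 9 := by
  haveI : Fact (Nat.Prime 3) := ⟨by norm_num⟩
  obtain ⟨K, hK⟩ := Sylow.exists_subgroup_card_pow_prime 3 (n := 2) (G := ↥Y) (by rw [show 3 ^ 2 = 9 by norm_num]; exact h)
  refine ⟨K.map Y.subtype, Subgroup.map_subtype_le K, ?_⟩
  rw [Nat.card_congr (Subgroup.equivMapOfInjective K _ (Subgroup.subtype_injective _)).toEquiv.symm, hK]; norm_num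

theorem isP9 {E : Subgroup ↥M24} (hE : Nat.card ↥E = 9) : IsPGroup 3 ↥E := IsPGroup.of_card (n := 2) (by rw [hE]; norm_num)

/-- no subgroup of order 2112 in `M22` -/
theorem no2112 {p q : GolayPt} (hpq : p ≠ q) {Y : Subgroup ↥M24} (hYp : Y ≤ stabilizer ↥M24 p) (hYq : Y ≤ stabilizer ↥M24 q)
    (hY : Nat.card ↥Y = 2112) : False := by
  haveI : Fact (Nat.Prime 11) := ⟨by norm_num⟩
  obtain ⟨g, hg⟩ := exists_prime_orderOf_dvd_card' (G := ↥Y) 11 (by rw [hY]; norm_num)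
  have hS : Nat.card ↥(Subgroup.zpowers g) = 11 := by rw [Nat.card_zpowers, hg]
  obtain ⟨⟨j, hj, hj2⟩, hidx⟩ := CfsgLib.SylN28.normalizer_arith (p := 11) (by norm_num) hS (by rw [hY]; norm_num)
  have h1 := Subgroup.card_mul_index (Subgroup.normalizer (Subgroup.zpowers g : Set ↥Y))
  rw [hY, hj2] at h1
  have h11 : 11 ∣ Nat.card ↥(Subgroup.centralizer (Subgroup.zpowers g : Set ↥Y)) := by
    rw [← hS]
    apply Subgroup.card_dvd_of_le
    intro x hx
    rw [Subgroup.mem_centralizer_iff]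
    intro y hy
    obtain ⟨a, rfl⟩ := hx
    obtain ⟨b, rfl⟩ := hy
    show g ^ b * g ^ a = g ^ a * g ^ b
    rw [← zpow_add, ← zpow_add, add_comm]
  have hodd : ¬ 2 ∣ Nat.card ↥(Subgroup.centralizer (Subgroup.zpowers g : Set ↥Y)) := by
    intro h2
    haveI : Fact (Nat.Prime 2) := ⟨Nat.prime_two⟩
    obtain ⟨t, ht⟩ := exists_prime_orderOf_dvd_card' (G := ↥(Subgroup.centralizer (Subgroup.zpowers g : Set ↥Y))) 2 h2
    have ht2 : t * t = 1 := by rw [← pow_two, ← ht]; exact pow_orderOf_eq_one t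
    have ht1 : t ≠ 1 := by
      rintro rfl
      rw [orderOf_one] at ht; omega
    let τ : Equiv.Perm GolayPt := (((t : ↥Y) : ↥M24) : Equiv.Perm GolayPt)
    have hτM : τ ∈ M24 := ((t : ↥Y) : ↥M24).2
    have hτ2 : τ * τ = 1 := congrArg (fun x : ↥(Subgroup.centralizer (Subgroup.zpowers g : Set ↥Y)) => (((x : ↥Y) : ↥M24) : Equiv.Perm GolayPt)) ht2
    have hτ1 : τ ≠ 1 := fun h3 => ht1 (Subtype.ext (Subtype.ext (Subtype.ext h3)))
    have hτp : τ p = p := hYp (t : ↥Y).2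
    have hf : (fixPts τ).card = 8 := by
      have h3 := fix_le hτM hτ1
      rcases inv_dich hτM hτ2 hτ1 with h4 | h4
      · exfalso
        rw [Finset.card_eq_zero, Finset.eq_empty_iff_forall_notMem] at h4
        exact h4 p (mem_fixPts.2 hτp)
      · exact h4
    have hcomm : (((g : ↥Y) : ↥M24) : Equiv.Perm GolayPt) * τ = τ * (((g : ↥Y) : ↥M24) : Equiv.Perm GolayPt) := by
      have h3 := Subgroup.mem_centralizer_iff.1 t.2 g (Subgroup.mem_zpowers g)
      exact congrArg (fun x : ↥Y => ((x : ↥M24) : Equiv.Perm GolayPt)) h3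
    have hst : ((g : ↥Y) : ↥M24) • fixPts τ = fixPts τ := by
      apply smul_of_inv
      intro x
      rw [mem_fixPts, mem_fixPts]
      have h4 : τ ((((g : ↥Y) : ↥M24) : Equiv.Perm GolayPt) x) = (((g : ↥Y) : ↥M24) : Equiv.Perm GolayPt) (τ x) := by
        have := congrArg (fun σ : Equiv.Perm GolayPt => σ x) hcomm
        exact this.symm
      rw [h4]
      exact (((g : ↥Y) : ↥M24) : Equiv.Perm GolayPt).injective.eq_iff
    have hg11 : (((g : ↥Y) : ↥M24) : Equiv.Perm GolayPt) ^ 11 = 1 := by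
      have h3 := pow_orderOf_eq_one g
      rw [hg] at h3
      exact congrArg (fun x : ↥Y => ((x : ↥M24) : Equiv.Perm GolayPt)) h3
    have hg1 : (((g : ↥Y) : ↥M24) : Equiv.Perm GolayPt) ≠ 1 := by
      intro h3
      have : g = 1 := Subtype.ext (Subtype.ext h3)
      rw [this, orderOf_one] at hg; omega
    have h5 := card_fix_on (by norm_num) hg11 hst
    rw [hf] at h5
    have h6 : ((fixPts τ).filter fun a => (((g : ↥Y) : ↥M24) : Equiv.Perm GolayPt) a = a).card ≤ (fixPts (((g : ↥Y) : ↥M24) : Equiv.Perm GolayPt)).card := by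
      apply Finset.card_le_card
      intro x hx
      exact mem_fixPts.2 (Finset.mem_filter.1 hx).2
    rw [fix11 ((g : ↥Y) : ↥M24).2 hg1 hg11] at h6
    omega
  obtain ⟨c, hc⟩ := h11
  rw [hc] at h1 hodd
  have hc2 : c % 2 = 1 := by
    by_contra h3
    apply hodd
    have : c % 2 = 0 := by omega
    omega
  have hj10 : j ∣ 10 := hj
  have hjle : j ≤ 10 := Nat.le_of_dvd (by norm_num) hj10
  generalize (Subgroup.normalizer (Subgroup.zpowers g : Set ↥Y)).index = i at h1 hidx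
  have hi : i % 11 = 1 := hidx
  have h2 : j * c * i = 192 := by
    have h3 : 11 * (j * c * i) = 11 * 192 := by rw [← show (2112 : ℕ) = 11 * 192 by norm_num, ← h1]; ring
    exact Nat.eq_of_mul_eq_mul_left (by norm_num) h3
  have hid : i ∣ 192 := ⟨j * c, by rw [← h2]; ring⟩
  have hile : i ≤ 192 := Nat.le_of_dvd (by norm_num) hid
  have hi2 : i = 1 ∨ i = 12 := by
    have key : ∀ i, i ≤ 192 → i ∣ 192 → i % 11 = 1 → i = 1 ∨ i = 12 := by decide +kernel
    exact key i hile hid hi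
  have hj2 : j = 1 ∨ j = 2 ∨ j = 5 ∨ j = 10 := by
    have key : ∀ j, j ≤ 10 → j ∣ 10 → j = 0 ∨ j = 1 ∨ j = 2 ∨ j = 5 ∨ j = 10 := by decide
    rcases key j hjle hj10 with h3 | h3
    · rw [h3] at h2; omega
    · exact h3
  rcases hi2 with rfl | rfl <;> rcases hj2 with rfl | rfl | rfl | rfl <;> omega

end CfsgLib.Idx28
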