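import Mathlib
import Cfsg.Agent.EqBase
import Cfsg.Agent.LibIdxG28

set_option autoImplicit false

/-! Subgroups of `M22` of order 7920 (helper28). -/

namespace CfsgLib.Idx28

open Cfsg CfsgLib.Golay CfsgLib.M24 CfsgLib.Restr28 CfsgLib.Blk28 CfsgLib.EltE28 CfsgLib.EltF28 CfsgLib.OrbG28 CfsgLib.Six28 CfsgLib.Trio28 MulAction
open scoped Pointwise

/-- the hypothesis -/
structure H56 (p q : GolayPt) (Y : Subgroup ↥M24) : Prop where
  pq : p ≠ q
  hp : Y ≤ stabilizer ↥M24 p
  hq : Y ≤ stabilizer ↥M24 q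
  card : Nat.card ↥Y = 7920

section
variable {p q : GolayPt} {Y : Subgroup ↥M24}

theorem fix_notin {Z : Subgroup ↥M24} {r y : GolayPt} (hZ : ∀ g ∈ Z, (g : Equiv.Perm GolayPt) r = r) (hy : y ≠ r) : r ∉ orb Z y := by
  intro h
  obtain ⟨k, hk, hkp⟩ := mem_orb.1 h
  exact hy ((k : Equiv.Perm GolayPt).injective (hkp.trans (hZ k hk).symm))

theorem H56.fp (h : H56 p q Y) : ∀ g ∈ Y, (g : Equiv.Perm GolayPt) p = p := fun _ hg => h.hp hg
theorem H56.fq (h : H56 p q Y) : ∀ g ∈ Y, (g : Equiv.Perm GolayPt) q = q := fun _ hg => h.hq hg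

theorem disj_orb {Z : Subgroup ↥M24} {y y' : GolayPt} (h : y' ∉ orb Z y) : Disjoint (orb Z y) (orb Z y') := by
  rw [Finset.disjoint_left]
  intro x hx hx'
  apply h
  rw [← orb_eq hx, orb_eq hx']
  exact self_orb _ _

theorem H56.sz (h : H56 p q Y) {y : GolayPt} (hyp : y ≠ p) (hyq : y ≠ q) : (orb Y y).card = 11 ∨ (orb Y y).card = 22 := by
  obtain ⟨g, hg, hg11, hg1⟩ := exists_elt (p := 11) (Y := Y) (by norm_num) (by rw [h.card]; norm_num)
  have hf : fixPts (g : Equiv.Perm GolayPt) = {p, q} := by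
    symm
    apply Finset.eq_of_subset_of_card_le
    · intro x hx
      rw [Finset.mem_insert, Finset.mem_singleton] at hx
      rcases hx with rfl | rfl
      · exact mem_fixPts.2 (h.fp g hg)
      · exact mem_fixPts.2 (h.fq g hg)
    · rw [Finset.card_pair h.pq, fix11 g.2 hg1 hg11]
  have hgy : (g : Equiv.Perm GolayPt) y ≠ y := by
    intro h1
    have h2 := mem_fixPts.2 h1
    rw [hf, Finset.mem_insert, Finset.mem_singleton] at h2
    rcases h2 with h2 | h2
    · exact hyp h2
    · exact hyq h2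
  obtain ⟨a, ha, ha2, ha3⟩ := sz11 hg hg11 hgy (B := ∅) (by
    intro x hx hgx
    exfalso
    have h2 := mem_fixPts.2 hgx
    rw [hf, Finset.mem_insert, Finset.mem_singleton] at h2
    rcases h2 with rfl | rfl
    · exact fix_notin h.fp hyp hx
    · exact fix_notin h.fq hyq hx)
  rw [Finset.card_empty] at ha
  have h3 : orb Y y ⊆ ({p, q}ᶜ : Finset GolayPt) := by
    intro x hx
    rw [Finset.mem_compl, Finset.mem_insert, Finset.mem_singleton, not_or]
    constructor
    · rintro rfl; exact fix_notin h.fp hyp hx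
    · rintro rfl; exact fix_notin h.fq hyq hx
  have h4 := Finset.card_le_card h3
  rw [Finset.card_compl, card_pt, Finset.card_pair h.pq] at h4
  omega

theorem H56.orb22 (h : H56 p q Y) {y : GolayPt} (hyp : y ≠ p) (hyq : y ≠ q) : orb Y y = {p, q}ᶜ := by
  have h3 : ∀ {y}, y ≠ p → y ≠ q → orb Y y ⊆ ({p, q}ᶜ : Finset GolayPt) := by
    intro y hyp hyq x hx
    rw [Finset.mem_compl, Finset.mem_insert, Finset.mem_singleton, not_or]
    constructor
    · rintro rfl; exact fix_notin h.fp hyp hx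
    · rintro rfl; exact fix_notin h.fq hyq hx
  have hc : ({p, q}ᶜ : Finset GolayPt).card = 22 := by rw [Finset.card_compl, card_pt, Finset.card_pair h.pq]
  rcases h.sz hyp hyq with h1 | h1
  · exfalso
    obtain ⟨y', hy'⟩ : ∃ y', y' ∉ insert p (insert q (orb Y y)) := by
      by_contra hcon
      push Not at hcon
      have h4 : insert p (insert q (orb Y y)) = Finset.univ := Finset.eq_univ_iff_forall.2 hcon
      have h5 := Finset.card_insert_le p (insert q (orb Y y))
      have h6 := Finset.card_insert_le q (orb Y y)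
      rw [h4, Finset.card_univ, card_pt] at h5
      omega
    rw [Finset.mem_insert, Finset.mem_insert, not_or, not_or] at hy'
    have hd := disj_orb hy'.2.2
    have h2 : (orb Y y').card = 11 := by
      rcases h.sz hy'.1 hy'.2.1 with h2 | h2
      · exact h2
      · have h4 := Finset.card_le_card (Finset.union_subset (h3 hyp hyq) (h3 hy'.1 hy'.2.1))
        rw [Finset.card_union_of_disjoint hd, hc, h1, h2] at h4
        omega
    obtain ⟨E, hEY, hE⟩ := exists_nine (Y := Y) (by rw [h.card]; norm_num)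
    have e1 := card_Fx_mod (by norm_num) (isP9 hE) (A := orb Y y) (fun g hg => orb_smul (hEY hg))
    have e2 := card_Fx_mod (by norm_num) (isP9 hE) (A := orb Y y') (fun g hg => orb_smul (hEY hg))
    rw [h1] at e1
    rw [h2] at e2
    have e3 : ({p, q} : Finset GolayPt) ∪ ((orb Y y ∩ Fx E) ∪ (orb Y y' ∩ Fx E)) ⊆ Fx E := by
      apply Finset.union_subset
      · intro x hx
        rw [Finset.mem_insert, Finset.mem_singleton] at hx
        rcases hx with rfl | rfl
        · exact mem_Fx.2 fun g hg => h.fp g (hEY hg)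
        · exact mem_Fx.2 fun g hg => h.fq g (hEY hg)
      · exact Finset.union_subset Finset.inter_subset_right Finset.inter_subset_right
    have e4 := Finset.card_le_card e3
    have d1 : Disjoint (orb Y y ∩ Fx E) (orb Y y' ∩ Fx E) := hd.mono Finset.inter_subset_left Finset.inter_subset_left
    have d2 : Disjoint ({p, q} : Finset GolayPt) ((orb Y y ∩ Fx E) ∪ (orb Y y' ∩ Fx E)) := by
      rw [Finset.disjoint_left]
      intro x hx hx'
      have h5 : x ∈ orb Y y ∨ x ∈ orb Y y' := by
        rcases Finset.mem_union.1 hx' with h6 | h6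
        · exact Or.inl (Finset.mem_inter.1 h6).1
        · exact Or.inr (Finset.mem_inter.1 h6).1
      have h6 : x ∈ ({p, q}ᶜ : Finset GolayPt) := by
        rcases h5 with h5 | h5
        · exact h3 hyp hyq h5
        · exact h3 hy'.1 hy'.2.1 h5
      exact Finset.mem_compl.1 h6 hx
    rw [Finset.card_union_of_disjoint d2, Finset.card_union_of_disjoint d1, Finset.card_pair h.pq] at e4
    have e5 := Fx_le hE
    omega
  · exact Finset.eq_of_subset_of_card_le (h3 hyp hyq) (by rw [hc, h1])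

theorem H56.card_pst (h : H56 p q Y) {x : GolayPt} (hxp : x ≠ p) (hxq : x ≠ q) : Nat.card ↥(pst Y x) = 360 := by
  have h1 := card_orb Y x
  rw [h.orb22 hxp hxq, Finset.card_compl, card_pt, Finset.card_pair h.pq, h.card] at h1
  have h2 : Nat.card ↥(pst Y x) * 22 = 7920 := h1
  omega

theorem chk360 : ∀ d, d ≤ 21 → 0 < d → d % 3 = 0 → d % 5 ≤ 1 → d ∣ 360 → d = 6 ∨ d = 15 := by
  intro d h1 h2 h3 h4 h5
  interval_cases d <;> first | omega | (exfalso; revert h5; decide)

/-- the local structure -/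
theorem H56.local (h : H56 p q Y) {x : GolayPt} (hxp : x ≠ p) (hxq : x ≠ q) : ∃ f : GolayPt, f ∉ ({p, q, x} : Finset GolayPt) ∧
    ∀ y, y ∉ ({p, q, x} : Finset GolayPt) → ((orb (pst Y x) y).card = 6 ∧ f ∈ orb (pst Y x) y) ∨ (orb (pst Y x) y).card = 15 := by
  have hc3 : ({p, q, x} : Finset GolayPt).card = 3 := Finset.card_eq_three.2 ⟨p, q, x, h.pq, hxp.symm, hxq.symm, rfl⟩
  have hfix : ∀ g ∈ pst Y x, ∀ r ∈ ({p, q, x} : Finset GolayPt), (g : Equiv.Perm GolayPt) r = r := by
    intro g hg r hr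
    simp only [Finset.mem_insert, Finset.mem_singleton] at hr
    rcases hr with rfl | rfl | rfl
    · exact h.fp g hg.1
    · exact h.fq g hg.1
    · exact hg.2
  obtain ⟨E, hEY, hE⟩ := exists_nine (Y := pst Y x) (by rw [h.card_pst hxp hxq]; norm_num)
  have hFE : Fx E = {p, q, x} := by
    symm
    apply Finset.eq_of_subset_of_card_le
    · intro r hr
      exact mem_Fx.2 fun g hg => hfix g (hEY hg) r hr
    · have e1 := card_Fx_mod (by norm_num) (isP9 hE) (A := Finset.univ) (fun g hg => by rw [Finset.smul_finset_univ])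
      rw [Finset.univ_inter, Finset.card_univ, card_pt] at e1
      have e2 := Fx_le hE
      rw [hc3]; omega
  obtain ⟨k, hk, hk5, hk1⟩ := exists_elt (p := 5) (Y := pst Y x) (by norm_num) (by rw [h.card_pst hxp hxq]; norm_num)
  have hk4 := fix5 k.2 hk1 hk5
  have hsub3 : ({p, q, x} : Finset GolayPt) ⊆ fixPts (k : Equiv.Perm GolayPt) := fun r hr => mem_fixPts.2 (hfix k hk r hr)
  have h1 : (fixPts (k : Equiv.Perm GolayPt) \ {p, q, x}).card = 1 := by
    rw [Finset.card_sdiff_of_subset hsub3, hk4, hc3]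
  obtain ⟨f, hf⟩ := Finset.card_eq_one.1 h1
  have hf' : f ∈ fixPts (k : Equiv.Perm GolayPt) \ {p, q, x} := by rw [hf]; exact Finset.mem_singleton_self _
  refine ⟨f, (Finset.mem_sdiff.1 hf').2, ?_⟩
  intro y hy
  have hno : ∀ z ∈ orb (pst Y x) y, z ∉ ({p, q, x} : Finset GolayPt) := by
    intro z hz hz3
    obtain ⟨g, hg, hgy⟩ := mem_orb.1 hz
    have h2 := hfix g hg z hz3
    have h3 : y = z := (g : Equiv.Perm GolayPt).injective (hgy.trans h2.symm)
    exact hy (h3 ▸ hz3)
  have e1 := card_Fx_mod (by norm_num) (isP9 hE) (A := orb (pst Y x) y) (fun g hg => orb_smul (hEY hg))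
  have e2 : orb (pst Y x) y ∩ Fx E = ∅ := by
    rw [hFE, Finset.eq_empty_iff_forall_notMem]
    intro z hz
    exact hno z (Finset.mem_inter.1 hz).1 (Finset.mem_inter.1 hz).2
  rw [e2, Finset.card_empty] at e1
  have e3 := card_fix_on (by norm_num) hk5 (orb_smul (y := y) hk)
  have e4 : ((orb (pst Y x) y).filter fun a => (k : Equiv.Perm GolayPt) a = a) ⊆ {f} := by
    intro z hz
    rw [Finset.mem_filter] at hz
    rw [← hf, Finset.mem_sdiff]
    exact ⟨mem_fixPts.2 hz.2, hno z hz.1⟩
  have e5 := Finset.card_le_card e4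
  rw [Finset.card_singleton] at e5
  have e6 : (orb (pst Y x) y).card ≤ 21 := by
    have h2 : orb (pst Y x) y ⊆ ({p, q, x}ᶜ : Finset GolayPt) := fun z hz => Finset.mem_compl.2 (hno z hz)
    have h3 := Finset.card_le_card h2
    rw [Finset.card_compl, card_pt, hc3] at h3
    exact h3
  have e7 : 0 < (orb (pst Y x) y).card := Finset.card_pos.2 ⟨y, self_orb _ _⟩
  have e8 := orb_dvd (pst Y x) y
  rw [h.card_pst hxp hxq] at e8
  have e9 : (orb (pst Y x) y).card % 5 ≤ 1 := by
    rw [← e3]
    exact (Nat.mod_le _ _).trans e5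
  rcases chk360 _ e6 e7 (by omega) e9 e8 with h2 | h2
  · left
    refine ⟨h2, ?_⟩
    rw [h2] at e3
    have h3 : 0 < ((orb (pst Y x) y).filter fun a => (k : Equiv.Perm GolayPt) a = a).card := by omega
    obtain ⟨z, hz⟩ := Finset.card_pos.1 h3
    have h4 := Finset.mem_singleton.1 (e4 hz)
    rw [← h4]
    exact (Finset.mem_filter.1 hz).1
  · exact Or.inr h2

/-- the six neighbours -/
theorem H56.exG (h : H56 p q Y) {x : GolayPt} (hxp : x ≠ p) (hxq : x ≠ q) : ∃ G : Finset GolayPt, G.card = 6 ∧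
    (∀ y ∈ G, y ∉ ({p, q, x} : Finset GolayPt) ∧ orb (pst Y x) y = G) ∧
    ∀ y, y ∉ ({p, q, x} : Finset GolayPt) → y ∉ G → orb (pst Y x) y = (({p, q, x} : Finset GolayPt) ∪ G)ᶜ := by
  have hc3 : ({p, q, x} : Finset GolayPt).card = 3 := Finset.card_eq_three.2 ⟨p, q, x, h.pq, hxp.symm, hxq.symm, rfl⟩
  have hfix : ∀ g ∈ pst Y x, ∀ r ∈ ({p, q, x} : Finset GolayPt), (g : Equiv.Perm GolayPt) r = r := by
    intro g hg r hr
    simp only [Finset.mem_insert, Finset.mem_singleton] at hr
    rcases hr with rfl | rfl | rfl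
    · exact h.fp g hg.1
    · exact h.fq g hg.1
    · exact hg.2
  have hno : ∀ y, y ∉ ({p, q, x} : Finset GolayPt) → ∀ z ∈ orb (pst Y x) y, z ∉ ({p, q, x} : Finset GolayPt) := by
    intro y hy z hz hz3
    obtain ⟨g, hg, hgy⟩ := mem_orb.1 hz
    have h2 := hfix g hg z hz3
    have h3 : y = z := (g : Equiv.Perm GolayPt).injective (hgy.trans h2.symm)
    exact hy (h3 ▸ hz3)
  obtain ⟨f, hf3, hloc⟩ := h.local hxp hxq
  have ex6 : ∃ y, y ∉ ({p, q, x} : Finset GolayPt) ∧ (orb (pst Y x) y).card = 6 := by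
    rcases hloc f hf3 with h1 | h1
    · exact ⟨f, hf3, h1.1⟩
    · obtain ⟨y', hy'⟩ : ∃ y', y' ∉ ({p, q, x} : Finset GolayPt) ∪ orb (pst Y x) f := by
        by_contra hcon
        push Not at hcon
        have h4 := Finset.eq_univ_iff_forall.2 hcon
        have h5 := Finset.card_union_le ({p, q, x} : Finset GolayPt) (orb (pst Y x) f)
        rw [h4, Finset.card_univ, card_pt, hc3, h1] at h5
        omega
      rw [Finset.mem_union, not_or] at hy'
      refine ⟨y', hy'.1, ?_⟩
      rcases hloc y' hy'.1 with h2 | h2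
      · exact h2.1
      · exfalso
        have hd := disj_orb hy'.2
        have h3 : orb (pst Y x) f ∪ orb (pst Y x) y' ⊆ ({p, q, x}ᶜ : Finset GolayPt) :=
          Finset.union_subset (fun z hz => Finset.mem_compl.2 (hno f hf3 z hz)) (fun z hz => Finset.mem_compl.2 (hno y' hy'.1 z hz))
        have h4 := Finset.card_le_card h3
        rw [Finset.card_union_of_disjoint hd, Finset.card_compl, card_pt, hc3, h1, h2] at h4
        omega
  obtain ⟨y0, hy0, hy06⟩ := ex6
  refine ⟨orb (pst Y x) y0, hy06, fun y hy => ⟨hno y0 hy0 y hy, orb_eq hy⟩, ?_⟩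
  intro y hy hyG
  have h15 : (orb (pst Y x) y).card = 15 := by
    rcases hloc y hy with h1 | h1
    · exfalso
      rcases hloc y0 hy0 with h2 | h2
      · have h3 := disj_orb hyG
        exact Finset.disjoint_left.1 h3 h2.2 h1.2
      · omega
    · exact h1
  apply Finset.eq_of_subset_of_card_le
  · intro z hz
    rw [Finset.mem_compl, Finset.mem_union, not_or]
    exact ⟨hno y hy z hz, fun h2 => Finset.disjoint_left.1 (disj_orb hyG) h2 hz⟩
  · have hd : Disjoint ({p, q, x} : Finset GolayPt) (orb (pst Y x) y0) := by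
      rw [Finset.disjoint_left]
      intro z hz hz'
      exact hno y0 hy0 z hz' hz
    rw [Finset.card_compl, card_pt, Finset.card_union_of_disjoint hd, hc3, hy06, h15]

end

end CfsgLib.Idx28
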