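import Mathlib
import Cfsg.Agent.EqBase
import Cfsg.Agent.LibIdxH28

set_option autoImplicit false

/-! The rank 3 graph on 22 points (helper28). -/

namespace CfsgLib.Idx28

open Cfsg CfsgLib.Golay CfsgLib.M24 CfsgLib.Restr28 CfsgLib.Blk28 CfsgLib.EltE28 CfsgLib.EltF28 CfsgLib.OrbG28 CfsgLib.Six28 CfsgLib.Trio28 MulAction
open scoped Pointwise

/-- there is no strongly regular graph with parameters (22, 6, 0, 2) -/
theorem no_srg {ι : Type*} [Fintype ι] [DecidableEq ι] (hι : Fintype.card ι = 22) (R : ι → ι → Prop) [DecidableRel R]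
    (hs : ∀ x y, R x y → R y x) (hir : ∀ x, ¬ R x x) (h6 : ∀ x, (Finset.univ.filter fun y => R x y).card = 6)
    (h0 : ∀ x y, R x y → (Finset.univ.filter fun z => R x z ∧ R z y).card = 0)
    (h2 : ∀ x y, x ≠ y → ¬ R x y → (Finset.univ.filter fun z => R x z ∧ R z y).card = 2) : False := by
  let A : Matrix ι ι (ZMod 3) := fun x y => if R x y then 1 else 0
  have hAA : ∀ x y, (A * A) x y = ((Finset.univ.filter fun z => R x z ∧ R z y).card : ZMod 3) := by
    intro x y
    rw [Matrix.mul_apply, Finset.card_filter, Nat.cast_sum]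
    apply Finset.sum_congr rfl
    intro z _
    show (if R x z then (1 : ZMod 3) else 0) * (if R z y then 1 else 0) = _
    by_cases h1 : R x z <;> by_cases h3 : R z y <;> simp [h1, h3]
  have hxx : ∀ x, (Finset.univ.filter fun z => R x z ∧ R z x).card = 6 := by
    intro x
    rw [← h6 x]
    congr 1
    ext z
    simp only [Finset.mem_filter, Finset.mem_univ, true_and]
    exact ⟨fun h => h.1, fun h => ⟨h, hs _ _ h⟩⟩
  let J : Matrix ι ι (ZMod 3) := Matrix.replicateCol Unit (fun _ : ι => (1 : ZMod 3)) * Matrix.replicateRow Unit (fun _ : ι => (1 : ZMod 3))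
  have hJ : ∀ x y, J x y = 1 := by
    intro x y
    show (Matrix.replicateCol Unit (fun _ : ι => (1 : ZMod 3)) * Matrix.replicateRow Unit (fun _ : ι => (1 : ZMod 3))) x y = 1
    rw [Matrix.mul_apply]
    simp
  have key : (A + 1) * (A + 1) = -(1 + J) := by
    ext x y
    rw [Matrix.neg_apply, Matrix.add_apply, hJ]
    have e : (A + 1) * (A + 1) = A * A + A + A + 1 := by
      rw [add_mul, mul_add, mul_one, one_mul]; abel
    rw [e, Matrix.add_apply, Matrix.add_apply, Matrix.add_apply, hAA]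
    by_cases hxy : x = y
    · subst hxy
      rw [hxx, Matrix.one_apply_eq, show A x x = 0 from if_neg (hir x)]
      decide
    · rw [Matrix.one_apply_ne hxy]
      by_cases hR : R x y
      · rw [h0 x y hR, show A x y = 1 from if_pos hR]
        decide
      · rw [h2 x y hxy hR, show A x y = 0 from if_neg hR]
        decide
  have hd := congrArg Matrix.det key
  rw [Matrix.det_mul, Matrix.det_neg, hι, Matrix.det_one_add_replicateCol_mul_replicateRow] at hd
  have h22 : ((fun _ => (1 : ZMod 3)) : ι → ZMod 3) ⬝ᵥ (fun _ => (1 : ZMod 3)) = 22 := by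
    rw [dotProduct]
    simp [hι]
  rw [h22] at hd
  have hdec : ∀ d : ZMod 3, ¬ d * d = (-1) ^ 22 * (1 + 22) := by decide
  exact hdec _ hd

section
variable {p q : GolayPt} {Y : Subgroup ↥M24}

/-- adjacency -/
def RR (p q : GolayPt) (Y : Subgroup ↥M24) (x y : GolayPt) : Prop :=
  x ∉ ({p, q} : Finset GolayPt) ∧ y ∉ ({p, q, x} : Finset GolayPt) ∧ (orb (pst Y x) y).card = 6

theorem nin2 {x : GolayPt} : x ∉ ({p, q} : Finset GolayPt) ↔ x ≠ p ∧ x ≠ q := by
  rw [Finset.mem_insert, Finset.mem_singleton, not_or]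

theorem nin3 {x y : GolayPt} : y ∉ ({p, q, x} : Finset GolayPt) ↔ y ≠ p ∧ y ≠ q ∧ y ≠ x := by
  rw [Finset.mem_insert, Finset.mem_insert, Finset.mem_singleton, not_or, not_or]

open Classical in
/-- neighbours -/
noncomputable def Nb (p q : GolayPt) (Y : Subgroup ↥M24) (x : GolayPt) : Finset GolayPt := Finset.univ.filter (RR p q Y x)

theorem mem_Nb {x y : GolayPt} : y ∈ Nb p q Y x ↔ RR p q Y x y := by
  classical
  rw [Nb, Finset.mem_filter]
  exact ⟨fun h => h.2, fun h => ⟨Finset.mem_univ _, h⟩⟩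

theorem H56.nb (h : H56 p q Y) {x : GolayPt} (hx : x ∉ ({p, q} : Finset GolayPt)) : (Nb p q Y x).card = 6 ∧
    (∀ y ∈ Nb p q Y x, orb (pst Y x) y = Nb p q Y x) ∧
    ∀ y, y ∉ ({p, q, x} : Finset GolayPt) → y ∉ Nb p q Y x → orb (pst Y x) y = (({p, q, x} : Finset GolayPt) ∪ Nb p q Y x)ᶜ := by
  obtain ⟨hxp, hxq⟩ := nin2.1 hx
  obtain ⟨G, hG6, hG1, hG2⟩ := h.exG hxp hxq
  have hc3 : ({p, q, x} : Finset GolayPt).card = 3 := Finset.card_eq_three.2 ⟨p, q, x, h.pq, hxp.symm, hxq.symm, rfl⟩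
  have hN : Nb p q Y x = G := by
    ext y
    rw [mem_Nb]
    constructor
    · rintro ⟨-, h1, h2⟩
      by_contra h3
      rw [hG2 y h1 h3, Finset.card_compl, card_pt] at h2
      have h4 := Finset.card_union_le ({p, q, x} : Finset GolayPt) G
      rw [hc3, hG6] at h4
      omega
    · intro hy
      refine ⟨hx, (hG1 y hy).1, ?_⟩
      rw [(hG1 y hy).2, hG6]
  rw [hN]
  exact ⟨hG6, fun y hy => (hG1 y hy).2, hG2⟩

theorem H56.mem2 (h : H56 p q Y) {g : ↥M24} (hg : g ∈ Y) (x : GolayPt) : (g : Equiv.Perm GolayPt) x ∉ ({p, q} : Finset GolayPt) ↔ x ∉ ({p, q} : Finset GolayPt) := by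
  rw [nin2, nin2]
  have h1 : (g : Equiv.Perm GolayPt) x = p ↔ x = p := by
    constructor
    · intro h2; exact (g : Equiv.Perm GolayPt).injective (h2.trans (h.fp g hg).symm)
    · rintro rfl; exact h.fp g hg
  have h2 : (g : Equiv.Perm GolayPt) x = q ↔ x = q := by
    constructor
    · intro h2; exact (g : Equiv.Perm GolayPt).injective (h2.trans (h.fq g hg).symm)
    · rintro rfl; exact h.fq g hg
  rw [Ne, Ne, h1, h2]

theorem H56.mem3 (h : H56 p q Y) {g : ↥M24} (hg : g ∈ Y) (x y : GolayPt) :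
    (g : Equiv.Perm GolayPt) y ∉ ({p, q, (g : Equiv.Perm GolayPt) x} : Finset GolayPt) ↔ y ∉ ({p, q, x} : Finset GolayPt) := by
  have h1 := h.mem2 hg y
  rw [nin2, nin2] at h1
  rw [nin3, nin3]
  have h2 : (g : Equiv.Perm GolayPt) y = (g : Equiv.Perm GolayPt) x ↔ y = x := (g : Equiv.Perm GolayPt).injective.eq_iff
  rw [← and_assoc, ← and_assoc, h1]
  exact and_congr_right fun _ => not_congr h2

theorem H56.requiv (h : H56 p q Y) {g : ↥M24} (hg : g ∈ Y) (x y : GolayPt) :
    RR p q Y ((g : Equiv.Perm GolayPt) x) ((g : Equiv.Perm GolayPt) y) ↔ RR p q Y x y := by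
  rw [RR, RR, h.mem2 hg, h.mem3 hg, orb_conj hg, Finset.card_smul_finset]

theorem H56.symm' (h : H56 p q Y) {x y : GolayPt} (hR : RR p q Y x y) : RR p q Y y x := by
  obtain ⟨hx, hy, hc⟩ := hR
  have hx' := nin2.1 hx
  have hy' := nin3.1 hy
  refine ⟨nin2.2 ⟨hy'.1, hy'.2.1⟩, nin3.2 ⟨hx'.1, hx'.2, Ne.symm hy'.2.2⟩, ?_⟩
  have h1 := card_orb (pst Y x) y
  have h2 := card_orb (pst Y y) x
  rw [h.card_pst hx'.1 hx'.2, hc] at h1
  rw [h.card_pst hy'.1 hy'.2.1] at h2
  have h3 : pst Y x ⊓ stabilizer ↥M24 y = pst Y y ⊓ stabilizer ↥M24 x := by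
    show Y ⊓ stabilizer ↥M24 x ⊓ stabilizer ↥M24 y = Y ⊓ stabilizer ↥M24 y ⊓ stabilizer ↥M24 x
    exact inf_right_comm _ _ _
  rw [← h3] at h2
  have h4 : 0 < Nat.card ↥(pst Y x ⊓ stabilizer ↥M24 y) := Nat.card_pos
  exact Nat.eq_of_mul_eq_mul_left h4 (h2.trans h1.symm)

/-- common neighbours -/
noncomputable def cm (p q : GolayPt) (Y : Subgroup ↥M24) (x y : GolayPt) : ℕ := (Nb p q Y x ∩ Nb p q Y y).card

theorem H56.nb_smul (h : H56 p q Y) {g : ↥M24} (hg : g ∈ Y) (x : GolayPt) : g • Nb p q Y x = Nb p q Y ((g : Equiv.Perm GolayPt) x) := by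
  ext z
  have e : z = (g : Equiv.Perm GolayPt) ((g : Equiv.Perm GolayPt)⁻¹ z) := by simp
  rw [e]
  constructor
  · intro h1
    have h2 : (g : Equiv.Perm GolayPt) • ((g : Equiv.Perm GolayPt)⁻¹ z) ∈ (g : Equiv.Perm GolayPt) • Nb p q Y x := h1
    rw [Finset.smul_mem_smul_finset_iff, mem_Nb] at h2
    rw [mem_Nb, h.requiv hg]; exact h2
  · intro h1
    rw [mem_Nb, h.requiv hg] at h1
    show (g : Equiv.Perm GolayPt) • ((g : Equiv.Perm GolayPt)⁻¹ z) ∈ (g : Equiv.Perm GolayPt) • Nb p q Y x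
    rw [Finset.smul_mem_smul_finset_iff, mem_Nb]; exact h1

theorem H56.cm_smul (h : H56 p q Y) {g : ↥M24} (hg : g ∈ Y) (x y : GolayPt) :
    cm p q Y ((g : Equiv.Perm GolayPt) x) ((g : Equiv.Perm GolayPt) y) = cm p q Y x y := by
  rw [cm, cm, ← h.nb_smul hg, ← h.nb_smul hg, ← Finset.smul_finset_inter, Finset.card_smul_finset]

theorem H56.tr (h : H56 p q Y) {x y : GolayPt} (hx : x ∉ ({p, q} : Finset GolayPt)) (hy : y ∉ ({p, q} : Finset GolayPt)) :
    ∃ g ∈ Y, (g : Equiv.Perm GolayPt) x = y := by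
  have hx' := nin2.1 hx
  rw [← mem_orb, h.orb22 hx'.1 hx'.2, Finset.mem_compl]
  exact hy

theorem H56.cm1 (h : H56 p q Y) {x y x' y' : GolayPt} (h1 : RR p q Y x y) (h2 : RR p q Y x' y') : cm p q Y x y = cm p q Y x' y' := by
  obtain ⟨g, hg, rfl⟩ := h.tr h1.1 h2.1
  have h3 := (h.requiv hg x y).2 h1
  have h4 := (h.nb h2.1).2.1 _ (mem_Nb.2 h3)
  have h5 : y' ∈ orb (pst Y ((g : Equiv.Perm GolayPt) x)) ((g : Equiv.Perm GolayPt) y) := by
    rw [h4]; exact mem_Nb.2 h2
  obtain ⟨k, hk, rfl⟩ := mem_orb.1 h5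
  have hkx : (k : Equiv.Perm GolayPt) ((g : Equiv.Perm GolayPt) x) = (g : Equiv.Perm GolayPt) x := hk.2
  rw [← h.cm_smul hg x y, ← h.cm_smul hk.1 ((g : Equiv.Perm GolayPt) x) ((g : Equiv.Perm GolayPt) y), hkx]

/-- non adjacency -/
def NN (p q : GolayPt) (Y : Subgroup ↥M24) (x y : GolayPt) : Prop :=
  x ∉ ({p, q} : Finset GolayPt) ∧ y ∉ ({p, q, x} : Finset GolayPt) ∧ ¬ RR p q Y x y

theorem H56.cm2 (h : H56 p q Y) {x y x' y' : GolayPt} (h1 : NN p q Y x y) (h2 : NN p q Y x' y') : cm p q Y x y = cm p q Y x' y' := by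
  obtain ⟨g, hg, rfl⟩ := h.tr h1.1 h2.1
  have h3 : ¬ RR p q Y ((g : Equiv.Perm GolayPt) x) ((g : Equiv.Perm GolayPt) y) := fun h4 => h1.2.2 ((h.requiv hg x y).1 h4)
  have h4 := (h.nb h2.1).2.2 _ ((h.mem3 hg x y).2 h1.2.1) (fun h5 => h3 (mem_Nb.1 h5))
  have h5 : y' ∈ orb (pst Y ((g : Equiv.Perm GolayPt) x)) ((g : Equiv.Perm GolayPt) y) := by
    rw [h4, Finset.mem_compl, Finset.mem_union, not_or]
    exact ⟨h2.2.1, fun h6 => h2.2.2 (mem_Nb.1 h6)⟩
  obtain ⟨k, hk, rfl⟩ := mem_orb.1 h5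
  have hkx : (k : Equiv.Perm GolayPt) ((g : Equiv.Perm GolayPt) x) = (g : Equiv.Perm GolayPt) x := hk.2
  rw [← h.cm_smul hg x y, ← h.cm_smul hk.1 ((g : Equiv.Perm GolayPt) x) ((g : Equiv.Perm GolayPt) y), hkx]

theorem H56.nb_sub (_h : H56 p q Y) (x : GolayPt) : Nb p q Y x ⊆ ({p, q, x}ᶜ : Finset GolayPt) := by
  intro y hy
  rw [Finset.mem_compl]
  exact (mem_Nb.1 hy).2.1

theorem H56.count (h : H56 p q Y) {x : GolayPt} (hx : x ∉ ({p, q} : Finset GolayPt)) :
    ∑ z ∈ ({p, q}ᶜ : Finset GolayPt), cm p q Y x z = 36 := by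
  classical
  have h1 : ∀ z, cm p q Y x z = ∑ y ∈ Nb p q Y x, if y ∈ Nb p q Y z then 1 else 0 := by
    intro z
    rw [cm, ← Finset.card_filter, Finset.filter_mem_eq_inter]
  rw [Finset.sum_congr rfl (fun z _ => h1 z), Finset.sum_comm]
  have h2 : ∀ y ∈ Nb p q Y x, ∑ z ∈ ({p, q}ᶜ : Finset GolayPt), (if y ∈ Nb p q Y z then 1 else 0) = 6 := by
    intro y hy
    rw [← Finset.card_filter]
    have hy' := nin3.1 (mem_Nb.1 hy).2.1
    rw [← (h.nb (nin2.2 ⟨hy'.1, hy'.2.1⟩)).1]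
    congr 1
    ext z
    rw [Finset.mem_filter, Finset.mem_compl, mem_Nb, mem_Nb]
    constructor
    · rintro ⟨-, h3⟩; exact h.symm' h3
    · intro h3
      exact ⟨(h.symm' h3).1, h.symm' h3⟩
  rw [Finset.sum_congr rfl h2, Finset.sum_const, (h.nb hx).1]
  rfl

theorem H56.count2 (h : H56 p q Y) {x : GolayPt} (hx : x ∉ ({p, q} : Finset GolayPt)) {a b : ℕ}
    (ha : ∀ y, RR p q Y x y → cm p q Y x y = a) (hb : ∀ y, NN p q Y x y → cm p q Y x y = b) : 6 + 6 * a + 15 * b = 36 := by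
  classical
  have hxx : cm p q Y x x = 6 := by rw [cm, Finset.inter_self, (h.nb hx).1]
  have hx' := nin2.1 hx
  have hc3 : ({p, q, x} : Finset GolayPt).card = 3 := Finset.card_eq_three.2 ⟨p, q, x, h.pq, hx'.1.symm, hx'.2.symm, rfl⟩
  have e1 : ({p, q}ᶜ : Finset GolayPt) = insert x ({p, q, x}ᶜ : Finset GolayPt) := by
    ext z
    simp only [Finset.mem_compl, Finset.mem_insert, Finset.mem_singleton]
    constructor
    · intro h1
      by_cases hzx : z = x
      · exact Or.inl hzx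
      · right; tauto
    · rintro (rfl | h1)
      · exact fun h2 => hx (by simpa using h2)
      · tauto
  rw [← h.count hx, e1, Finset.sum_insert (by simp), hxx]
  have e2 := Finset.sum_filter_add_sum_filter_not ({p, q, x}ᶜ : Finset GolayPt) (fun z => z ∈ Nb p q Y x) (fun z => cm p q Y x z)
  rw [← e2]
  have e3 : ({p, q, x}ᶜ : Finset GolayPt).filter (fun z => z ∈ Nb p q Y x) = Nb p q Y x := by
    ext z
    rw [Finset.mem_filter]
    exact ⟨fun h1 => h1.2, fun h1 => ⟨h.nb_sub x h1, h1⟩⟩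
  have e4 : (({p, q, x}ᶜ : Finset GolayPt).filter (fun z => z ∉ Nb p q Y x)).card = 15 := by
    have h1 := Finset.card_filter_add_card_filter_not (s := ({p, q, x}ᶜ : Finset GolayPt)) (fun z => z ∈ Nb p q Y x)
    rw [e3, (h.nb hx).1, Finset.card_compl, card_pt, hc3] at h1
    omega
  rw [e3, Finset.sum_congr rfl (fun z hz => ha z (mem_Nb.1 hz)), Finset.sum_const, (h.nb hx).1]
  rw [Finset.sum_congr rfl (g := fun _ => b) (s₁ := ({p, q, x}ᶜ : Finset GolayPt).filter (fun z => z ∉ Nb p q Y x)) (fun z hz => by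
    rw [Finset.mem_filter, Finset.mem_compl] at hz
    exact hb z ⟨hx, hz.1, fun h5 => hz.2 (mem_Nb.2 h5)⟩), Finset.sum_const, e4]
  simp only [smul_eq_mul]
  ring

theorem H56.false (h : H56 p q Y) : False := by
  classical
  obtain ⟨x, hx⟩ : ∃ x, x ∉ ({p, q} : Finset GolayPt) := by
    by_contra hcon
    push Not at hcon
    have h1 : ({p, q} : Finset GolayPt) = Finset.univ := Finset.eq_univ_iff_forall.2 hcon
    have h2 := Finset.card_pair h.pq
    rw [h1, Finset.card_univ, card_pt] at h2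
    omega
  have hx' := nin2.1 hx
  have hc3 : ({p, q, x} : Finset GolayPt).card = 3 := Finset.card_eq_three.2 ⟨p, q, x, h.pq, hx'.1.symm, hx'.2.symm, rfl⟩
  obtain ⟨y, hy⟩ : (Nb p q Y x).Nonempty := Finset.card_pos.1 (by rw [(h.nb hx).1]; norm_num)
  rw [mem_Nb] at hy
  obtain ⟨z, hz⟩ : ∃ z, NN p q Y x z := by
    have h1 : (({p, q, x} : Finset GolayPt) ∪ Nb p q Y x).card < 24 := by
      have := Finset.card_union_le ({p, q, x} : Finset GolayPt) (Nb p q Y x)
      rw [hc3, (h.nb hx).1] at this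
      omega
    obtain ⟨z, hz⟩ : ∃ z, z ∉ ({p, q, x} : Finset GolayPt) ∪ Nb p q Y x := by
      by_contra hcon
      push Not at hcon
      rw [Finset.eq_univ_iff_forall.2 hcon, Finset.card_univ, card_pt] at h1
      omega
    rw [Finset.mem_union, not_or] at hz
    exact ⟨z, hx, hz.1, fun h2 => hz.2 (mem_Nb.2 h2)⟩
  have ha : ∀ x' y', RR p q Y x' y' → cm p q Y x' y' = cm p q Y x y := fun x' y' h1 => h.cm1 h1 hy
  have hb : ∀ x' y', NN p q Y x' y' → cm p q Y x' y' = cm p q Y x z := fun x' y' h1 => h.cm2 h1 hz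
  have hcount := h.count2 hx (a := cm p q Y x y) (b := cm p q Y x z) (ha x) (hb x)
  generalize cm p q Y x y = a at ha hcount
  generalize cm p q Y x z = b at hb hcount
  have hab : (a = 5 ∧ b = 0) ∨ (a = 0 ∧ b = 2) := by omega
  rcases hab with ⟨rfl, rfl⟩ | ⟨rfl, rfl⟩
  · -- blocks of size seven
    have hblk : ∀ w, RR p q Y x w → insert w (Nb p q Y w) = insert x (Nb p q Y x) := by
      intro w hw
      have hw' := h.symm' hw
      have h1 := ha x w hw
      rw [cm] at h1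
      symm
      apply Finset.eq_of_subset_of_card_le
      · intro v hv
        rcases Finset.mem_insert.1 hv with rfl | hv
        · exact Finset.mem_insert_of_mem (mem_Nb.2 hw')
        · by_cases hvw : v = w
          · rw [hvw]; exact Finset.mem_insert_self _ _
          · apply Finset.mem_insert_of_mem
            -- Nb x \ {w} = Nb x ∩ Nb w
            have h2 : Nb p q Y x ∩ Nb p q Y w = (Nb p q Y x).erase w := by
              apply Finset.eq_of_subset_of_card_le
              · intro u hu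
                rw [Finset.mem_inter] at hu
                rw [Finset.mem_erase]
                refine ⟨?_, hu.1⟩
                rintro rfl
                exact (nin3.1 (mem_Nb.1 hu.2).2.1).2.2 rfl
              · rw [Finset.card_erase_of_mem (mem_Nb.2 hw), (h.nb hx).1, h1]
            have h3 : v ∈ (Nb p q Y x).erase w := Finset.mem_erase.2 ⟨hvw, hv⟩
            rw [← h2] at h3
            exact (Finset.mem_inter.1 h3).2
      · have h2 : x ∉ Nb p q Y x := fun h3 => (nin3.1 (mem_Nb.1 h3).2.1).2.2 rfl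
        have h3 : w ∉ Nb p q Y w := fun h3 => (nin3.1 (mem_Nb.1 h3).2.1).2.2 rfl
        rw [Finset.card_insert_of_notMem h2, Finset.card_insert_of_notMem h3, (h.nb hx).1, (h.nb hw'.1).1]
    have horb : orb (Y ⊓ stabilizer ↥M24 (insert x (Nb p q Y x))) x = insert x (Nb p q Y x) := by
      apply Finset.Subset.antisymm
      · intro w hw
        obtain ⟨g, hg, rfl⟩ := mem_orb.1 hw
        exact (mem_of_stab hg.2 x).2 (Finset.mem_insert_self _ _)
      · intro w hw
        rcases Finset.mem_insert.1 hw with rfl | hw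
        · exact self_orb _ _
        · rw [mem_Nb] at hw
          obtain ⟨g, hg, hgx⟩ := h.tr hx (h.symm' hw).1
          refine mem_orb.2 ⟨g, ⟨hg, ?_⟩, hgx⟩
          show g • insert x (Nb p q Y x) = insert x (Nb p q Y x)
          rw [Finset.smul_finset_insert, h.nb_smul hg]
          show insert ((g : Equiv.Perm GolayPt) x) (Nb p q Y ((g : Equiv.Perm GolayPt) x)) = _
          rw [hgx]
          exact hblk w hw
    have h1 := orb_dvd (Y ⊓ stabilizer ↥M24 (insert x (Nb p q Y x))) x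
    have h2 : x ∉ Nb p q Y x := fun h3 => (nin3.1 (mem_Nb.1 h3).2.1).2.2 rfl
    rw [horb, Finset.card_insert_of_notMem h2, (h.nb hx).1] at h1
    have h3 := h1.trans (Subgroup.card_dvd_of_le (inf_le_left : Y ⊓ stabilizer ↥M24 (insert x (Nb p q Y x)) ≤ Y))
    rw [h.card] at h3
    revert h3; norm_num
  · -- the strongly regular graph
    have hcm : ∀ x' y' : {v // v ∉ ({p, q} : Finset GolayPt)},
        (Finset.univ.filter fun w : {v // v ∉ ({p, q} : Finset GolayPt)} => RR p q Y x' w ∧ RR p q Y w y').card = cm p q Y x' y' := by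
      intro x' y'
      rw [cm]
      refine Finset.card_bij (fun w _ => (w : GolayPt)) ?_ (fun a _ b _ hab => Subtype.ext hab) ?_
      · intro w hw
        rw [Finset.mem_filter] at hw
        exact Finset.mem_inter.2 ⟨mem_Nb.2 hw.2.1, mem_Nb.2 (h.symm' hw.2.2)⟩
      · intro w hw
        rw [Finset.mem_inter, mem_Nb, mem_Nb] at hw
        exact ⟨⟨w, (h.symm' hw.1).1⟩, Finset.mem_filter.2 ⟨Finset.mem_univ _, hw.1, h.symm' hw.2⟩, rfl⟩
    apply no_srg (ι := {v // v ∉ ({p, q} : Finset GolayPt)}) (R := fun a b => RR p q Y a b)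
    · rw [Fintype.card_subtype_compl, card_pt, Fintype.card_coe, Finset.card_pair h.pq]
    · exact fun x y hxy => h.symm' hxy
    · exact fun x hxx => (nin3.1 hxx.2.1).2.2 rfl
    · intro x'
      rw [← (h.nb x'.2).1]
      refine Finset.card_bij (fun w _ => (w : GolayPt)) ?_ (fun a _ b _ hab => Subtype.ext hab) ?_
      · intro w hw
        rw [Finset.mem_filter] at hw
        exact mem_Nb.2 hw.2
      · intro w hw
        rw [mem_Nb] at hw
        exact ⟨⟨w, (h.symm' hw).1⟩, Finset.mem_filter.2 ⟨Finset.mem_univ _, hw⟩, rfl⟩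
    · intro x' y' hR
      rw [hcm, ha _ _ hR]
    · intro x' y' hne hR
      rw [hcm, hb _ _ ⟨x'.2, ?_, hR⟩]
      rw [nin3]
      have := nin2.1 y'.2
      exact ⟨this.1, this.2, fun h5 => hne (Subtype.ext h5.symm)⟩

end

end CfsgLib.Idx28
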