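import Mathlib
import Cfsg.Agent.LibExtend9
import Cfsg.Agent.LibCoprime
import Cfsg.Agent.LibGlaubG
import Cfsg.Agent.LibGlaub5
import Cfsg.Agent.LibCycCorr2

/-!
# Invariant characters above invariant characters, relative version (helper20)
-/

set_option autoImplicit false
set_option linter.all false

namespace CfsgLib.InvAbove

open Cfsg CfsgLib.CharBasic CfsgLib.Clifford CfsgLib.Extend
open scoped Pointwise ComplexConjugate

universe u v w

/-- split off the part of `a` prime to `m` -/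
theorem split_coprime (m : ℕ) (a : ℕ) (ha : a ≠ 0) : ∃ b c, a = b * c ∧ c.Coprime m ∧ ∀ p, p.Prime → p ∣ b → p ∣ m := by
  induction a using Nat.strong_induction_on with
  | _ a ih =>
    by_cases hc : a.Coprime m
    · exact ⟨1, a, (one_mul a).symm, hc, fun p hp h => absurd (Nat.dvd_one.mp h) hp.one_lt.ne'⟩
    · obtain ⟨p, hp, hpa, hpm⟩ := Nat.Prime.not_coprime_iff_dvd.mp hc
      obtain ⟨a', rfl⟩ := hpa
      have ha' : a' ≠ 0 := by rintro rfl; exact ha rfl
      obtain ⟨b, c, h1, h2, h3⟩ := ih a' (lt_mul_of_one_lt_left (Nat.pos_of_ne_zero ha') hp.one_lt) ha'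
      refine ⟨p * b, c, by rw [h1]; ring, h2, fun q hq hqb => ?_⟩
      rcases hq.dvd_mul.mp hqb with h | h
      · rw [(Nat.prime_dvd_prime_iff_eq hq hp).mp h]; exact hpm
      · exact h3 q hq h

section Pow
variable {Y : Type u} [Group Y] [Finite Y] (H : Subgroup Y) (hH : H ≤ Subgroup.center Y)

open scoped IsMulCommutative in
include hH in
theorem mul_pow_index (a b : Y) : (a * b) ^ H.index = a ^ H.index * b ^ H.index := by
  let ϕ : H →* Subgroup.center Y := Subgroup.inclusion hH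
  have key : ∀ g : Y, ((MonoidHom.transfer ϕ g : Subgroup.center Y) : Y) = g ^ H.index := by
    intro g
    rw [MonoidHom.transfer_eq_pow ϕ g (fun k g₀ h => by
      have h1 := Subgroup.mem_center_iff.mp (hH h) g₀
      calc g₀⁻¹ * g ^ k * g₀ = g₀⁻¹ * (g₀ * (g₀⁻¹ * g ^ k * g₀)) := by group
        _ = g₀⁻¹ * ((g₀⁻¹ * g ^ k * g₀) * g₀) := by rw [h1]
        _ = g₀ * (g₀⁻¹ * ((g₀⁻¹ * g ^ k * g₀) * g₀)) * g₀⁻¹ := by
            have h2 : g₀⁻¹ * ((g₀⁻¹ * g ^ k * g₀) * g₀) = g₀⁻¹ * g ^ k * g₀ := by rw [← h1]; group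
            rw [h2]; rw [h1]; group
        _ = g ^ k := by
            have h2 : g₀⁻¹ * ((g₀⁻¹ * g ^ k * g₀) * g₀) = g₀⁻¹ * g ^ k * g₀ := by rw [← h1]; group
            rw [h2]; group)]
    rfl
  rw [← key, map_mul, Subgroup.coe_mul, key, key]

end Pow

section Central
variable {X : Type u} [Group X] [Finite X] (Y Z : Subgroup X) [hY : Y.Normal] (hZY : Z ≤ Y) (hZc : ∀ z ∈ Z, ∀ x, z * x = x * z)

include hZY hZc in
/-- the central case -/
theorem central_case (hcop : Y.index.Coprime (Z.relIndex Y)) (hsolv : Group.IsSolvable (X ⧸ Y)) (lam : Z →* ℂˣ) :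
    ∃ η : Y → ℂ, IsIrrCharacter Y η ∧ Inv Y η ∧ ∀ (z : Z) (y : Y), η (⟨z, hZY z.2⟩ * y) = lam z * η y := by
  classical
  set m := Z.relIndex Y with hm
  obtain ⟨z₁, z₂, hz, hz2, hz1⟩ := split_coprime m (Nat.card Z) Nat.card_pos.ne'
  have hcop2 : z₂.Coprime (m * z₁) := by
    apply Nat.Coprime.mul_right hz2
    apply Nat.Coprime.symm
    apply Nat.Coprime.symm
    rw [Nat.coprime_iff_gcd_eq_one]
    by_contra hne
    obtain ⟨p, hp, hpd⟩ := Nat.exists_prime_and_dvd hne
    have h1 := hz1 p hp (hpd.trans (Nat.gcd_dvd_right _ _))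
    have h2 := hpd.trans (Nat.gcd_dvd_left _ _)
    have h3 := Nat.dvd_gcd h2 h1
    rw [hz2] at h3
    exact hp.one_lt.ne' (Nat.dvd_one.mp h3)
  obtain ⟨n, hn1, hn0⟩ := Nat.chineseRemainder hcop2 1 0
  obtain ⟨t, ht⟩ := (Nat.modEq_zero_iff_dvd).mp hn0
  -- powers
  have hHc : Z.subgroupOf Y ≤ Subgroup.center Y := by
    intro y hy
    rw [Subgroup.mem_center_iff]
    intro g
    apply Subtype.ext
    exact (hZc y (Subgroup.mem_subgroupOf.mp hy) g).symm
  haveI hHn : (Z.subgroupOf Y).Normal := by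
    refine ⟨fun y hy g => ?_⟩
    have h1 := Subgroup.mem_center_iff.mp (hHc hy) g
    rw [h1, mul_inv_cancel_right]; exact hy
  have hmul : ∀ a b : Y, (a * b) ^ m = a ^ m * b ^ m := fun a b => mul_pow_index (Z.subgroupOf Y) hHc a b
  have hmZ : ∀ a : Y, ((a ^ m : Y) : X) ∈ Z := fun a => Subgroup.mem_subgroupOf.mp (Subgroup.pow_index_mem (Z.subgroupOf Y) a)
  have hnZ : ∀ a : Y, ((a ^ n : Y) : X) ∈ Z := by
    intro a
    have : a ^ n = (a ^ m) ^ (z₁ * t) := by rw [← pow_mul, ht]; congr 1; ring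
    rw [this, Subgroup.coe_pow]
    exact Z.pow_mem (hmZ a) _
  let e : Y →* Y :=
    { toFun := fun y => y ^ n
      map_one' := one_pow n
      map_mul' := by
        intro a b
        have h1 : ∀ y : Y, y ^ n = (y ^ m) ^ (z₁ * t) := by intro y; rw [← pow_mul, ht]; congr 1; ring
        rw [h1, h1, h1, hmul]
        have h2 : Commute (a ^ m) (b ^ m) := by
          have := hZc _ (hmZ a) ((b ^ m : Y) : X)
          exact Subtype.ext this
        exact h2.mul_pow _ }
  have he : ∀ y, e y = y ^ n := fun y => rfl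
  have hcardZ : ∀ z ∈ Z, z ^ (z₁ * z₂) = 1 := by
    intro z hz'
    rw [← hz]
    calc z ^ Nat.card Z = (((⟨z, hz'⟩ : Z) ^ Nat.card Z : Z) : X) := rfl
      _ = 1 := by rw [pow_card_eq_one']; rfl
  have hez2 : ∀ y : Y, (y ^ n) ^ z₂ = 1 := by
    intro y
    have h1 : (y ^ n) ^ z₂ = (y ^ m) ^ (z₁ * z₂ * t) := by
      rw [← pow_mul, ← pow_mul, ht]; congr 1; ring
    rw [h1, pow_mul]
    have h2 : (y ^ m) ^ (z₁ * z₂) = 1 := Subtype.ext (hcardZ _ (hmZ y))
    rw [h2, one_pow]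
  have hidem : ∀ w : Y, w ^ z₂ = 1 → w ^ n = w := by
    intro w hw
    conv_rhs => rw [← pow_one w]
    rw [pow_eq_pow_iff_modEq]
    exact hn1.of_dvd (orderOf_dvd_of_pow_eq_one hw)
  -- K
  set K : Subgroup X := e.ker.map Y.subtype with hK
  have hKmem : ∀ x, x ∈ K ↔ ∃ h : x ∈ Y, (⟨x, h⟩ : Y) ^ n = 1 := by
    intro x
    rw [hK, Subgroup.mem_map]
    constructor
    · rintro ⟨y, hy, rfl⟩
      exact ⟨y.2, hy⟩
    · rintro ⟨h, h1⟩
      exact ⟨⟨x, h⟩, h1, rfl⟩
  have hKY : K ≤ Y := fun x hx => ((hKmem x).mp hx).1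
  haveI hKn : K.Normal := by
    refine ⟨fun k hk x => ?_⟩
    obtain ⟨h1, h2⟩ := (hKmem k).mp hk
    refine (hKmem _).mpr ⟨hY.conj_mem k h1 x, ?_⟩
    apply Subtype.ext
    have h3 : k ^ n = 1 := by
      calc k ^ n = (((⟨k, h1⟩ : Y) ^ n : Y) : X) := rfl
        _ = 1 := by rw [h2]; rfl
    show (x * k * x⁻¹) ^ n = 1
    rw [conj_pow, h3]; group
  have hKidx : K.relIndex Y = Nat.card e.range := by
    rw [← Subgroup.index_ker]
    have : K.subgroupOf Y = e.ker := by
      ext y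
      rw [Subgroup.mem_subgroupOf, hKmem, MonoidHom.mem_ker]
      constructor
      · rintro ⟨h1, h2⟩; exact h2
      · intro h; exact ⟨y.2, h⟩
    rw [← this]; rfl
  have hprimeZ2 : ∀ p : ℕ, p.Prime → p ∣ z₂ → ¬ p ∣ m := by
    intro p hp h1 h2
    have h3 := Nat.dvd_gcd h1 h2
    rw [hz2] at h3
    exact hp.one_lt.ne' (Nat.dvd_one.mp h3)
  have hcopK : (Nat.card K).Coprime K.index := by
    rw [Nat.coprime_iff_gcd_eq_one]
    by_contra hne
    obtain ⟨p, hp, hpd⟩ := Nat.exists_prime_and_dvd hne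
    haveI : Fact p.Prime := ⟨hp⟩
    have hpK := hpd.trans (Nat.gcd_dvd_left _ _)
    have hpI := hpd.trans (Nat.gcd_dvd_right _ _)
    have hpm : p ∣ m := by
      obtain ⟨y, hy⟩ := exists_prime_orderOf_dvd_card' p hpK
      obtain ⟨h1, h2⟩ := (hKmem y).mp y.2
      have h3 : p ∣ n := by
        rw [← hy]
        apply orderOf_dvd_of_pow_eq_one
        apply Subtype.ext
        have := congrArg (fun z : Y => (z : X)) h2
        exact this
      have h4 : p ∣ m * Nat.card Z := by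
        have h5 : Nat.card Z * m = Nat.card Y := card_mul_relIndex hZY
        rw [mul_comm, h5]
        exact hpK.trans (Subgroup.card_dvd_of_le hKY)
      rcases hp.dvd_mul.mp h4 with h5 | h5
      · exact h5
      · rw [hz] at h5
        rcases hp.dvd_mul.mp h5 with h6 | h6
        · exact hz1 p hp h6
        · exfalso
          have h7 : n ≡ 1 [MOD p] := hn1.of_dvd h6
          have h8 : n ≡ 0 [MOD p] := (Nat.modEq_zero_iff_dvd).mpr h3
          have h9 := h7.symm.trans h8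
          have h10 := (Nat.modEq_zero_iff_dvd).mp h9
          exact hp.one_lt.ne' (Nat.dvd_one.mp h10)
    rw [← Subgroup.relIndex_mul_index hKY, hKidx] at hpI
    rcases hp.dvd_mul.mp hpI with h1 | h1
    · obtain ⟨y, hy⟩ := exists_prime_orderOf_dvd_card' p h1
      obtain ⟨w, hw⟩ := y.2
      have h2 : p ∣ z₂ := by
        rw [← hy]
        apply orderOf_dvd_of_pow_eq_one
        apply Subtype.ext
        rw [Subgroup.coe_pow, ← hw]
        exact hez2 w
      exact hprimeZ2 p hp h2 hpm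
    · have h2 := Nat.dvd_gcd h1 hpm
      rw [hcop] at h2
      exact hp.one_lt.ne' (Nat.dvd_one.mp h2)
  -- the complement
  obtain ⟨S, hS⟩ := Subgroup.exists_right_complement'_of_coprime hcopK
  have hKS : K ⊓ S = ⊥ := disjoint_iff.mp hS.disjoint
  have hcardS : Nat.card S = K.index := by
    have h1 := hS.card_mul
    rw [← Subgroup.card_mul_index K] at h1
    exact Nat.eq_of_mul_eq_mul_left Nat.card_pos h1
  have hSsolv : Group.IsSolvable S := by
    let f : S →* X ⧸ Y := (QuotientGroup.mk' Y).comp S.subtype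
    have hker : ∀ a ∈ f.ker, ∀ b ∈ f.ker, a * b = b * a := by
      intro a ha b hb
      have ha' : (a : X) ∈ Y := (QuotientGroup.eq_one_iff (a : X)).mp ha
      have hb' : (b : X) ∈ Y := (QuotientGroup.eq_one_iff (b : X)).mp hb
      have h1 : (a : X) * b * (a : X)⁻¹ * (b : X)⁻¹ ∈ K ⊓ S := by
        refine Subgroup.mem_inf.mpr ⟨(hKmem _).mpr ⟨Y.mul_mem (Y.mul_mem (Y.mul_mem ha' hb') (Y.inv_mem ha')) (Y.inv_mem hb'), ?_⟩,
          S.mul_mem (S.mul_mem (S.mul_mem a.2 b.2) (S.inv_mem a.2)) (S.inv_mem b.2)⟩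
        have h2 : (⟨(a : X) * b * (a : X)⁻¹ * (b : X)⁻¹, Y.mul_mem (Y.mul_mem (Y.mul_mem ha' hb') (Y.inv_mem ha')) (Y.inv_mem hb')⟩ : Y) =
          ⟨a, ha'⟩ * ⟨b, hb'⟩ * (⟨a, ha'⟩ : Y)⁻¹ * (⟨b, hb'⟩ : Y)⁻¹ := rfl
        rw [h2, ← he, map_mul, map_mul, map_mul, map_inv, map_inv]
        have h3 : Commute (e ⟨a, ha'⟩) (e ⟨b, hb'⟩) := by
          have := hZc _ (hnZ ⟨a, ha'⟩) ((e ⟨b, hb'⟩ : Y) : X)
          exact Subtype.ext this
        rw [h3.eq]; group
      rw [hKS, Subgroup.mem_bot] at h1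
      apply Subtype.ext
      show (a : X) * b = b * a
      calc (a : X) * b = ((a : X) * b * (a : X)⁻¹ * (b : X)⁻¹) * (b * a) := by group
        _ = b * a := by rw [h1, one_mul]
    haveI : Group.IsSolvable f.ker := Group.isSolvable_of_comm (fun a b => Subtype.ext (hker a a.2 b b.2))
    exact Group.isSolvable_of_ker_le_range f.ker.subtype f (by rw [Subgroup.range_subtype])
  haveI := Fintype.ofFinite K
  haveI := Fintype.ofFinite (Z.subgroupOf K)
  -- apply the coprime theorem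
  have hnorm : ∀ s ∈ S, ∀ g ∈ K, s * g * s⁻¹ ∈ K := fun s _ g hg => hKn.conj_mem g hg s
  have hnormZ : ∀ s ∈ S, ∀ g ∈ Z, s * g * s⁻¹ ∈ Z := by
    intro s _ g hg
    rw [← hZc g hg s, mul_inv_cancel_right]; exact hg
  let θ₀ : Z.subgroupOf K →* ℂˣ := lam.comp
    { toFun := fun x => (⟨(x : K), Subgroup.mem_subgroupOf.mp x.2⟩ : Z)
      map_one' := rfl
      map_mul' := fun _ _ => rfl }
  haveI : (Z.subgroupOf K).Normal := by
    refine ⟨fun n hn g => ?_⟩
    rw [Subgroup.mem_subgroupOf] at hn ⊢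
    show (g : X) * n * (g : X)⁻¹ ∈ Z
    rw [← hZc _ hn g, mul_inv_cancel_right]; exact hn
  obtain ⟨ηK, hηK, hηne, hηinv⟩ := CfsgLib.Glaub5.exists_inv_above_solvable (CfsgLib.GlaubG.conjHom K S hnorm) (Z.subgroupOf K)
    (CfsgLib.Glaub4.conj_mem_subgroupOf K S Z hnorm hnormZ) (by rw [hcardS]; exact hcopK.symm) hSsolv
    (θ := fun x => (θ₀ x : ℂ)) (isIrrCharacter_hom θ₀) (by
      intro s x
      have : CfsgLib.Glaub2.resHom (CfsgLib.GlaubG.conjHom K S hnorm) (Z.subgroupOf K) (CfsgLib.Glaub4.conj_mem_subgroupOf K S Z hnorm hnormZ) s x = x := by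
        apply Subtype.ext
        apply Subtype.ext
        show (s : X) * ((x : K) : X) * (s : X)⁻¹ = ((x : K) : X)
        rw [← hZc _ (Subgroup.mem_subgroupOf.mp x.2) s, mul_inv_cancel_right]
      show (θ₀ _ : ℂ) = θ₀ x
      rw [this])
  have hηinv' := (CfsgLib.GlaubG.inv_iff K S hnorm ηK).mp hηinv
  have htop : K ⊔ S = ⊤ := hS.sup_eq_top
  haveI := Fintype.ofFinite X
  have hηInv : Inv K ηK := CfsgLib.CycCorr.inv_of htop (irr_classFun hηK) hηinv'
  -- central elements of K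
  have hcen : ∀ (w : K) (hw : (w : X) ∈ Z) (k : K), ηK (w * k) = lam ⟨w, hw⟩ * ηK k := by
    intro w hw k
    have hη1 := CfsgLib.CharInt.irr_one_ne_zero hηK
    have hwc : w ∈ Subgroup.center K := by
      rw [Subgroup.mem_center_iff]
      intro g
      apply Subtype.ext
      exact (hZc w hw g).symm
    rw [char_mul_of_scalar (irr_isCharacter hηK) hη1 (irr_center hηK hwc) k]
    congr 1
    have h1 := restrict_of_invariant (‹(Z.subgroupOf K).Normal›) hηK (isIrrCharacter_hom θ₀) (fun g => by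
      ext x
      show (θ₀ _ : ℂ) = θ₀ x
      congr 2
      apply Subtype.ext
      apply Subtype.ext
      show (g : X) * ((x : K) : X) * (g : X)⁻¹ = ((x : K) : X)
      rw [← hZc _ (Subgroup.mem_subgroupOf.mp x.2) g, mul_inv_cancel_right]) hηne
    have h2 := congrFun h1 1
    have h3 := congrFun h1 ⟨w, Subgroup.mem_subgroupOf.mpr hw⟩
    simp only [Pi.smul_apply, smul_eq_mul, map_one, Units.val_one, mul_one] at h2 h3
    have h4 : ηK 1 = classInner (fun h : Z.subgroupOf K => ηK h) (fun g => (θ₀ g : ℂ)) := h2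
    have h5 : ηK w = classInner (fun h : Z.subgroupOf K => ηK h) (fun g => (θ₀ g : ℂ)) * lam ⟨w, hw⟩ := h3
    rw [h5, ← h4, mul_div_cancel_left₀ _ hη1]
  -- the projection
  have hpmem : ∀ y : Y, ((y * (e y)⁻¹ : Y) : X) ∈ K := by
    intro y
    refine (hKmem _).mpr ⟨(y * (e y)⁻¹ : Y).2, ?_⟩
    show (y * (e y)⁻¹) ^ n = 1
    rw [← he, map_mul, map_inv]
    have : e (e y) = e y := hidem _ (hez2 y)
    rw [this, mul_inv_cancel]
  let p : Y →* K :=
    { toFun := fun y => ⟨_, hpmem y⟩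
      map_one' := by apply Subtype.ext; simp
      map_mul' := by
        intro a b
        apply Subtype.ext
        show ((a * b * (e (a * b))⁻¹ : Y) : X) = ((a * (e a)⁻¹ : Y) : X) * ((b * (e b)⁻¹ : Y) : X)
        rw [map_mul, mul_inv_rev, ← Subgroup.coe_mul]
        congr 1
        have h1 : (e a)⁻¹ * (b * (e b)⁻¹) = (b * (e b)⁻¹) * (e a)⁻¹ := by
          apply Subtype.ext
          exact hZc _ (Z.inv_mem (hnZ a)) _
        calc a * b * ((e b)⁻¹ * (e a)⁻¹) = a * ((b * (e b)⁻¹) * (e a)⁻¹) := by group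
          _ = a * (e a)⁻¹ * (b * (e b)⁻¹) := by rw [← h1]; group }
  let ε : Y →* Z :=
    { toFun := fun y => ⟨_, hnZ y⟩
      map_one' := by apply Subtype.ext; simp
      map_mul' := by
        intro a b
        apply Subtype.ext
        show ((e (a * b) : Y) : X) = ((e a : Y) : X) * ((e b : Y) : X)
        rw [map_mul]; rfl }
  let μ : Y →* ℂˣ := lam.comp ε
  set η : Y → ℂ := fun y => ηK (p y) * μ y with hη
  have hηc : IsCharacter Y η := isCharacter_mul (isCharacter_comp (irr_isCharacter hηK) p) (isCharacter_hom μ)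
  have hηirr : IsIrrCharacter Y η := by
    apply irr_of_restrict hηc (K.subgroupOf Y)
    have h1 : (fun k : K.subgroupOf Y => η k) = toSub Y ηK := by
      ext k
      have hk := (hKmem ((k : Y) : X)).mp (Subgroup.mem_subgroupOf.mp k.2)
      obtain ⟨h2, h3⟩ := hk
      have h4 : e (k : Y) = 1 := h3
      show ηK (p k) * μ k = ηK ⟨_, _⟩
      have h5 : p (k : Y) = ⟨((k : Y) : X), Subgroup.mem_subgroupOf.mp k.2⟩ := by
        apply Subtype.ext
        show (((k : Y) * (e (k : Y))⁻¹ : Y) : X) = _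
        rw [h4, inv_one, mul_one]
      have h6 : μ (k : Y) = 1 := by
        show lam (ε k) = 1
        have : ε (k : Y) = 1 := Subtype.ext (congrArg (fun y : Y => (y : X)) h4)
        rw [this, map_one]
      rw [h5, h6, Units.val_one, mul_one]
    rw [h1]
    exact (toSub_irr hKY).mpr hηK
  refine ⟨η, hηirr, ?_, ?_⟩
  · intro x y
    set y' : Y := ⟨x * y * x⁻¹, hY.conj_mem (y : X) y.2 x⟩ with hy'
    have h1 : ((e y' : Y) : X) = ((e y : Y) : X) := by
      show (x * (y : X) * x⁻¹) ^ n = (y : X) ^ n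
      rw [conj_pow]
      have : (y : X) ^ n ∈ Z := hnZ y
      rw [← hZc _ this x, mul_inv_cancel_right]
    have h2 : p y' = ⟨x * (p y) * x⁻¹, hKn.conj_mem (p y : X) (p y).2 x⟩ := by
      apply Subtype.ext
      show x * (y : X) * x⁻¹ * ((e y' : Y) : X)⁻¹ = x * ((y : X) * ((e y : Y) : X)⁻¹) * x⁻¹
      rw [h1]
      have h3 := hZc _ (Z.inv_mem (hnZ y)) x⁻¹
      have h4 : (((e y : Y) : X))⁻¹ * x⁻¹ = x⁻¹ * ((e y : Y) : X)⁻¹ := h3
      calc x * (y : X) * x⁻¹ * ((e y : Y) : X)⁻¹ = x * (y : X) * (x⁻¹ * ((e y : Y) : X)⁻¹) := by group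
        _ = x * (y : X) * (((e y : Y) : X)⁻¹ * x⁻¹) := by rw [h4]
        _ = _ := by group
    have h3 : μ y' = μ y := by
      show lam (ε y') = lam (ε y)
      congr 1
      exact Subtype.ext h1
    show ηK (p y') * μ y' = ηK (p y) * μ y
    rw [h2, h3, hηInv x (p y)]
  · intro z y
    set z' : Y := ⟨z, hZY z.2⟩ with hz'
    have hpz : ((p z' : K) : X) ∈ Z := by
      show (z : X) * ((e z' : Y) : X)⁻¹ ∈ Z
      exact Z.mul_mem z.2 (Z.inv_mem (hnZ z'))
    show ηK (p (z' * y)) * μ (z' * y) = lam z * (ηK (p y) * μ y)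
    rw [map_mul, hcen _ hpz, map_mul]
    have h1 : lam ⟨_, hpz⟩ * μ z' = lam z := by
      show lam ⟨_, hpz⟩ * lam (ε z') = lam z
      rw [← map_mul]
      congr 1
      apply Subtype.ext
      show (z : X) * ((e z' : Y) : X)⁻¹ * ((e z' : Y) : X) = z
      group
    have h2 : (lam ⟨_, hpz⟩ : ℂ) * μ z' = lam z := by rw [← Units.val_mul, h1]
    rw [← h2]
    push_cast
    ring

end Central

end CfsgLib.InvAbove
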