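import Mathlib
import Cfsg.Agent.LibInvAbove

/-!
# Invariant characters above invariant characters, relative version, part 2 (helper20)
-/

set_option autoImplicit false
set_option linter.all false

namespace CfsgLib.InvAbove

open Cfsg CfsgLib.CharBasic CfsgLib.Clifford CfsgLib.Extend
open scoped Pointwise ComplexConjugate

universe u v w

section A
variable {Γ : Type u} [Group Γ] [Fintype Γ] (G N : Subgroup Γ) [hG : G.Normal] [hN : N.Normal] [Fintype G] [Fintype N] (hNG : N ≤ G)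

include hNG in
theorem exists_suppl (hcop : G.index.Coprime (N.relIndex G)) : ∃ S : Subgroup Γ, N ≤ S ∧ G ⊓ S = N ∧ G ⊔ S = ⊤ := by
  have hsurj := QuotientGroup.mk'_surjective N
  have hker : (QuotientGroup.mk' N).ker = N := QuotientGroup.ker_mk' N
  haveI : (G.map (QuotientGroup.mk' N)).Normal := hG.map _ hsurj
  have h1 : (G.map (QuotientGroup.mk' N)).index = G.index := by
    rw [Subgroup.index_map, hker, sup_eq_left.mpr hNG, MonoidHom.range_eq_top.mpr hsurj, Subgroup.index_top, mul_one]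
  have h2 : Nat.card (G.map (QuotientGroup.mk' N)) = N.relIndex G := by
    rw [← Subgroup.relIndex_ker, hker]
  obtain ⟨H, hH⟩ := Subgroup.exists_right_complement'_of_coprime (N := G.map (QuotientGroup.mk' N)) (by rw [h1, h2]; exact hcop.symm)
  have hc : (G.map (QuotientGroup.mk' N)).comap (QuotientGroup.mk' N) = G := by
    rw [Subgroup.comap_map_eq, hker, sup_eq_left.mpr hNG]
  refine ⟨H.comap (QuotientGroup.mk' N), ?_, ?_, ?_⟩
  · intro n hn
    rw [Subgroup.mem_comap]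
    have : QuotientGroup.mk' N n = 1 := by rw [← MonoidHom.mem_ker, hker]; exact hn
    rw [this]; exact H.one_mem
  · conv_lhs => rw [← hc]
    rw [← Subgroup.comap_inf, hH.disjoint.eq_bot]
    exact hker
  · rw [eq_top_iff]
    intro x _
    have h3 : QuotientGroup.mk' N x ∈ (G.map (QuotientGroup.mk' N)) ⊔ H := by rw [hH.sup_eq_top]; trivial
    obtain ⟨y, hy, z, hz, hyz⟩ := Subgroup.mem_sup_of_normal_left.mp h3
    obtain ⟨g, hg, rfl⟩ := hy
    have h4 : x = g * (g⁻¹ * x) := by group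
    rw [h4]
    apply Subgroup.mul_mem_sup hg
    rw [Subgroup.mem_comap, map_mul, ← hyz, map_inv, inv_mul_cancel_left]
    exact hz

theorem caseA (hcop : G.index.Coprime (N.relIndex G)) (hs : Group.IsSolvable (G ⧸ N.subgroupOf G)) {θ : N → ℂ}
    (hθ : IsIrrCharacter N θ) (hinv : Inv N θ) :
    ∃ χ : G → ℂ, IsIrrCharacter G χ ∧ classInner (resT hNG χ) θ ≠ 0 ∧ Inv G χ := by
  classical
  obtain ⟨S, hNS, hGS, htop⟩ := exists_suppl G N hNG hcop
  haveI : (N.subgroupOf G).Normal := inferInstance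
  haveI : (N.subgroupOf S).Normal := inferInstance
  haveI := Fintype.ofFinite (N.subgroupOf G)
  have hnorm : ∀ s ∈ S, ∀ g ∈ G, s * g * s⁻¹ ∈ G := fun s _ g hg => hG.conj_mem g hg s
  have hnorm' : ∀ s ∈ S, ∀ g ∈ N, s * g * s⁻¹ ∈ N := fun s _ g hg => hN.conj_mem g hg s
  have hidx : (N.subgroupOf S).index = G.index := by
    show N.relIndex S = G.index
    rw [← hGS, Subgroup.inf_relIndex_right, ← Subgroup.relIndex_sup_right, sup_comm, htop, Subgroup.relIndex_top_right]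
  obtain ⟨χ, h1, h2, h3⟩ := CfsgLib.Glaub4.exists_inv_above (CfsgLib.GlaubG.conjHom G S hnorm) (N.subgroupOf G)
    (CfsgLib.Glaub4.conj_mem_subgroupOf G S N hnorm hnorm') (N.subgroupOf S) (by rw [hidx]; exact hcop) hs
    (fun a ha => ⟨⟨(a : Γ), hNG (Subgroup.mem_subgroupOf.mp ha)⟩, Subgroup.mem_subgroupOf.mpr (Subgroup.mem_subgroupOf.mp ha), fun g => Subtype.ext rfl⟩)
    (θ := toSub G θ) ((toSub_irr hNG).mpr hθ) ((CfsgLib.Glaub4.inv_toSub_iff G S N hnorm hnorm' hNG θ).mpr (fun s _ g g' hg => by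
      have := hinv s g
      rw [← this]
      congr 1
      exact Subtype.ext hg))
  refine ⟨χ, h1, ?_, CfsgLib.CycCorr.inv_of htop (irr_classFun h1) ((CfsgLib.GlaubG.inv_iff G S hnorm χ).mp h3)⟩
  rw [← ci_toSub hNG]
  exact h2


theorem caseB_abs (hcop : G.index.Coprime (N.relIndex G)) (hs : Group.IsSolvable (Γ ⧸ G)) {θ : N → ℂ}
    (hθ : IsIrrCharacter N θ) {E : Type v} [Group E] [Finite E] (π : E →* Γ) (hπ : Function.Surjective π)
    (σ : N →* E) (hσ : ∀ n, π (σ n) = n) (hσn : σ.range.Normal) (hcen : ∀ k ∈ π.ker, ∀ x, k * x = x * k)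
    {T : E → ℂ} (hT : IsCharacter E T) (hTθ : ∀ n, T (σ n) = θ n) (c : π.ker →* ℂˣ)
    (hc : ∀ (k : π.ker) x, T (k * x) = c k * T x) :
    ∃ χ : G → ℂ, IsIrrCharacter G χ ∧ classInner (resT hNG χ) θ ≠ 0 ∧ Inv G χ := by
  classical
  set M : Subgroup E := σ.range with hM
  haveI := hσn
  set q := QuotientGroup.mk' M with hq
  have hqs : Function.Surjective q := QuotientGroup.mk'_surjective M
  have hqk : q.ker = M := QuotientGroup.ker_mk' M
  set Gt := G.comap π with hGt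
  set Nt := N.comap π with hNt
  have hMN : M ≤ Nt := by
    rintro _ ⟨n, rfl⟩
    rw [hNt, Subgroup.mem_comap, hσ]
    exact n.2
  have hNGt : Nt ≤ Gt := Subgroup.comap_mono hNG
  haveI : Gt.Normal := inferInstance
  set Y := Gt.map q with hYd
  set Z := Nt.map q with hZd
  haveI hYn : Y.Normal := Subgroup.Normal.map inferInstance _ hqs
  have hZY : Z ≤ Y := Subgroup.map_mono hNGt
  have hYi : Y.index = G.index := by
    rw [hYd, Subgroup.index_map_eq _ hqs (by rw [hqk]; exact hMN.trans hNGt), hGt, Subgroup.index_comap_of_surjective _ hπ]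
  have hZi : Z.relIndex Y = N.relIndex G := by
    rw [hYd, hZd, Subgroup.relIndex_map_map, hqk, sup_eq_left.mpr hMN, sup_eq_left.mpr (hMN.trans hNGt), hNt,
      Subgroup.relIndex_comap, hGt, Subgroup.map_comap_eq_self_of_surjective hπ]
  have hsol : Group.IsSolvable ((E ⧸ M) ⧸ Y) := by
    let f : E →* Γ ⧸ G := (QuotientGroup.mk' G).comp π
    have hf : Function.Surjective f := (QuotientGroup.mk'_surjective G).comp hπ
    let f' : E →* (E ⧸ M) ⧸ Y := (QuotientGroup.mk' Y).comp q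
    have hf' : Function.Surjective f' := (QuotientGroup.mk'_surjective Y).comp hqs
    have hker : f.ker ≤ f'.ker := by
      intro x hx
      rw [MonoidHom.mem_ker] at hx ⊢
      have h1 : π x ∈ G := (QuotientGroup.eq_one_iff _).mp hx
      exact (QuotientGroup.eq_one_iff _).mpr (Subgroup.mem_map_of_mem q h1)
    let F := MonoidHom.liftOfSurjective f hf ⟨f', hker⟩
    have hF : Function.Surjective F := by
      intro y
      obtain ⟨x, rfl⟩ := hf' y
      exact ⟨f x, MonoidHom.liftOfRightInverse_comp_apply _ _ _ _ _⟩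
    exact Group.isSolvable_of_surjective hF
  -- elements of Z
  have hKM : ∀ k ∈ π.ker, k ∈ M → k = 1 := by
    rintro _ hk ⟨n, rfl⟩
    rw [MonoidHom.mem_ker, hσ] at hk
    have : n = 1 := Subtype.ext hk
    rw [this, map_one]
  have hZex : ∀ z : Z, ∃ k : π.ker, q k = z := by
    rintro ⟨_, w, hw, rfl⟩
    refine ⟨⟨w * (σ ⟨π w, hw⟩)⁻¹, ?_⟩, ?_⟩
    · rw [MonoidHom.mem_ker, map_mul, map_inv, hσ, mul_inv_cancel]
    · show q (w * (σ ⟨π w, hw⟩)⁻¹) = q w
      have : q (σ ⟨π w, hw⟩) = 1 := by rw [← MonoidHom.mem_ker, hqk]; exact ⟨_, rfl⟩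
      rw [map_mul, map_inv, this, inv_one, mul_one]
  have huq : ∀ k k' : π.ker, q k = q k' → k = k' := by
    intro k k' h
    have h1 : ((k'⁻¹ * k : π.ker) : E) ∈ q.ker := by
      rw [MonoidHom.mem_ker]
      show q ((k' : E)⁻¹ * k) = 1
      rw [map_mul, map_inv, h, inv_mul_cancel]
    rw [hqk] at h1
    have h2 := hKM _ (k'⁻¹ * k).2 h1
    have h3 : k'⁻¹ * k = 1 := Subtype.ext h2
    exact (inv_mul_eq_one.mp h3).symm
  choose kF hqF using hZex
  have hZc : ∀ z ∈ Z, ∀ x, z * x = x * z := by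
    intro z hz x
    obtain ⟨y, rfl⟩ := hqs x
    have h2 : q (kF ⟨z, hz⟩) = z := hqF ⟨z, hz⟩
    rw [← h2, ← map_mul, ← map_mul, hcen _ (kF ⟨z, hz⟩).2]
  let κ : Z →* π.ker :=
    { toFun := kF
      map_one' := huq _ _ (by rw [hqF]; exact (map_one q).symm)
      map_mul' := fun a b => huq _ _ (by
        rw [hqF]
        show (a : E ⧸ M) * b = q (kF a * kF b)
        rw [map_mul, hqF, hqF]) }
  have hκ : ∀ z : Z, q (κ z) = z := hqF
  obtain ⟨η, hη, hηinv, hηZ⟩ := central_case Y Z hZY hZc (by rw [hYi, hZi]; exact hcop) hsol ((c.comp κ)⁻¹)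
  -- pull back
  let qY : Gt →* Y :=
    { toFun := fun g => ⟨q g, Subgroup.mem_map_of_mem q g.2⟩
      map_one' := Subtype.ext (map_one q)
      map_mul' := fun a b => Subtype.ext (map_mul q _ _) }
  have hqYs : Function.Surjective qY := by
    rintro ⟨_, w, hw, rfl⟩
    exact ⟨⟨w, hw⟩, rfl⟩
  let πG : Gt →* G :=
    { toFun := fun g => ⟨π g, g.2⟩
      map_one' := Subtype.ext (map_one π)
      map_mul' := fun a b => Subtype.ext (map_mul π _ _) }
  have hπGs : Function.Surjective πG := by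
    rintro ⟨g, hg⟩
    obtain ⟨w, rfl⟩ := hπ g
    exact ⟨⟨w, hg⟩, rfl⟩
  have h1 : IsIrrCharacter Gt (η ∘ qY) := (CfsgLib.CharMore.irr_comp_surj_iff qY hqYs (irr_isCharacter hη)).mpr hη
  have hTG : IsCharacter Gt (fun g : Gt => T g) := isCharacter_restrict hT Gt
  have hMG : M ≤ Gt := hMN.trans hNGt
  haveI : (M.subgroupOf Gt).Normal := inferInstance
  let j : N →* M.subgroupOf Gt :=
    { toFun := fun n => ⟨⟨σ n, hMG ⟨n, rfl⟩⟩, Subgroup.mem_subgroupOf.mpr ⟨n, rfl⟩⟩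
      map_one' := Subtype.ext (Subtype.ext (map_one σ))
      map_mul' := fun a b => Subtype.ext (Subtype.ext (map_mul σ a b)) }
  have hj : Function.Surjective j := by
    rintro ⟨⟨m, hm⟩, hm'⟩
    obtain ⟨n, hn⟩ := Subgroup.mem_subgroupOf.mp hm'
    exact ⟨n, Subtype.ext (Subtype.ext hn)⟩
  have hTM : IsIrrCharacter (M.subgroupOf Gt) (fun m : M.subgroupOf Gt => T ((m : Gt) : E)) := by
    rw [← CfsgLib.CharMore.irr_comp_surj_iff j hj (isCharacter_restrict hTG (M.subgroupOf Gt))]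
    have : (fun m : M.subgroupOf Gt => T ((m : Gt) : E)) ∘ j = θ := by
      ext n
      exact hTθ n
    rw [this]; exact hθ
  have hTGi : IsIrrCharacter Gt (fun g : Gt => T g) := irr_of_restrict hTG (M.subgroupOf Gt) hTM
  haveI := Fintype.ofFinite Gt
  haveI := Fintype.ofFinite (M.subgroupOf Gt)
  have hq1 : ∀ m ∈ M, q m = 1 := fun m hm => by rw [← MonoidHom.mem_ker, hqk]; exact hm
  have h2 : IsIrrCharacter Gt ((η ∘ qY) * (fun g : Gt => T g)) :=
    CfsgLib.Gallagher.gallagher_irr (N := M.subgroupOf Gt) hTGi hTM h1 (fun m hm => by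
      show η (qY m) = η (qY 1)
      congr 1
      apply Subtype.ext
      show q (m : E) = q 1
      rw [hq1 _ (Subgroup.mem_subgroupOf.mp hm), map_one])
  have hval : ∀ (k : π.ker) (hk : (k : E) ∈ Gt) (g : Gt), ((η ∘ qY) * (fun g : Gt => T g)) (⟨k, hk⟩ * g) =
      ((η ∘ qY) * (fun g : Gt => T g)) g := by
    intro k hk g
    show η (qY (⟨k, hk⟩ * g)) * T (k * g) = η (qY g) * T g
    have hkZ : q k ∈ Z := Subgroup.mem_map_of_mem q (by rw [hNt, Subgroup.mem_comap, MonoidHom.mem_ker.mp k.2]; exact N.one_mem)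
    have h3 := hηZ ⟨q k, hkZ⟩ (qY g)
    have h4 : κ ⟨q k, hkZ⟩ = k := huq _ _ (hκ _)
    have h5 : ((c.comp κ)⁻¹ ⟨q k, hkZ⟩ : ℂˣ) = (c k)⁻¹ := by
      show (c (κ ⟨q k, hkZ⟩))⁻¹ = _
      rw [h4]
    rw [h5] at h3
    have h6 : qY (⟨k, hk⟩ * g) = (⟨q k, hZY hkZ⟩ : Y) * qY g := by rw [map_mul]; rfl
    rw [h6]
    rw [h3, hc]
    have h7 : ((c k)⁻¹ : ℂˣ) * (c k : ℂ) = 1 := by rw [← Units.val_mul, inv_mul_cancel, Units.val_one]
    calc _ = (((c k)⁻¹ : ℂˣ) * (c k : ℂ)) * (η (qY g) * T g) := by ring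
      _ = _ := by rw [h7, one_mul]
  obtain ⟨χ, hχ, hχe⟩ := CfsgLib.CharMore.deflate_irr πG hπGs h2 (fun g hg => by
    have hgk : (g : E) ∈ π.ker := by
      have := congrArg Subtype.val (MonoidHom.mem_ker.mp hg)
      exact this
    have := hval ⟨(g : E), hgk⟩ g.2 1
    rw [mul_one] at this
    exact this)
  have hχv : ∀ g : Gt, χ (πG g) = η (qY g) * T g := fun g => (congrFun hχe g).symm
  have hη1 : η 1 ≠ 0 := CfsgLib.CharInt.irr_one_ne_zero hη
  refine ⟨χ, hχ, ?_, ?_⟩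
  · have h3 : resT hNG χ = η 1 • θ := by
      ext n
      have h4 := hχv ⟨σ n, hMG ⟨n, rfl⟩⟩
      have h5 : πG ⟨σ n, hMG ⟨n, rfl⟩⟩ = ⟨(n : Γ), hNG n.2⟩ := Subtype.ext (hσ n)
      have h6 : qY ⟨σ n, hMG ⟨n, rfl⟩⟩ = 1 := Subtype.ext (hq1 _ ⟨n, rfl⟩)
      rw [h5, h6] at h4
      show χ ⟨(n : Γ), _⟩ = η 1 * θ n
      rw [h4, ← hTθ n]
    rw [h3, CfsgLib.CharBasic.inner_smul_left, irr_inner_self hθ, mul_one]
    exact hη1
  · intro x g
    obtain ⟨y, rfl⟩ := hπ x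
    obtain ⟨w, rfl⟩ := hπGs g
    have h3 : (⟨π y * (πG w : G) * (π y)⁻¹, hG.conj_mem _ (πG w).2 (π y)⟩ : G) = πG ⟨y * w * y⁻¹, ‹Gt.Normal›.conj_mem _ w.2 y⟩ := by
      apply Subtype.ext
      show π y * π w * (π y)⁻¹ = π (y * w * y⁻¹)
      rw [map_mul, map_mul, map_inv]
    rw [h3, hχv, hχv]
    haveI := Fintype.ofFinite E
    have h4 : T (y * w * y⁻¹) = T w := char_classFun hT w y
    have h5 : η (qY ⟨y * w * y⁻¹, ‹Gt.Normal›.conj_mem _ w.2 y⟩) = η (qY w) := by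
      rw [← hηinv (q y) (qY w)]
      congr 1
    show η (qY _) * T (y * w * y⁻¹) = _
    rw [h4, h5]

theorem caseB (hcop : G.index.Coprime (N.relIndex G)) (hs : Group.IsSolvable (Γ ⧸ G)) {θ : N → ℂ}
    (hθ : IsIrrCharacter N θ) (hinv : Inv N θ) :
    ∃ χ : G → ℂ, IsIrrCharacter G χ ∧ classInner (resT hNG χ) θ ≠ 0 ∧ Inv G χ := by
  classical
  have hθ' := hθ
  obtain ⟨d, ρ, hρ, rfl⟩ := hθ
  haveI := finite_gamF ρ hinv
  have hsurj := prF_surjective ρ hinv
  haveI : Nontrivial (Fin d → ℂ) := irr_nontrivial ρ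
  have hex : ∀ k : (prF ρ).ker, ∃ c : ℂˣ, ((k : GamF ρ) : Gam N ρ) = ia N ρ c := by
    intro k
    obtain ⟨c, hc1, hc2⟩ := schurF ρ (x := (k : GamF ρ)) (y := 1) (by rw [MonoidHom.mem_ker.mp k.2, map_one])
    exact ⟨c, by rw [hc2]; exact mul_one _⟩
  choose c hc using hex
  have hinj : ∀ a b : ℂˣ, ia N ρ a = ia N ρ b → a = b := fun a b h => sc_injective (congrArg (mat N ρ) h)
  let cH : (prF ρ).ker →* ℂˣ :=
    { toFun := c
      map_one' := hinj _ _ (by rw [← hc, map_one]; rfl)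
      map_mul' := fun a b => hinj _ _ (by rw [map_mul, ← hc, ← hc, ← hc]; rfl) }
  refine caseB_abs G N hNG hcop hs hθ' (prF ρ) hsurj (ntF ρ) (prF_ntF ρ) inferInstance ?_ (T := (repF ρ).character) ?_ ?_ cH ?_
  · intro k hk x
    apply Subtype.ext
    show (k : Gam N ρ) * x = x * k
    rw [hc ⟨k, hk⟩, ia_comm]
  · exact ⟨d, repF ρ, rfl⟩
  · intro n
    show LinearMap.trace ℂ _ (repF ρ (ntF ρ n)) = LinearMap.trace ℂ _ (ρ n)
    rw [repF_ntF]
  · intro k x
    show LinearMap.trace ℂ _ (repF ρ (k * x)) = c k * LinearMap.trace ℂ _ (repF ρ x)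
    have h1 : repF ρ k = (c k : ℂ) • LinearMap.id := by
      show ((mat N ρ ((k : GamF ρ) : Gam N ρ) : _) : (Fin d → ℂ) →ₗ[ℂ] (Fin d → ℂ)) = _
      rw [hc k, mat_ia, sc_val]
    rw [map_mul, h1]
    have h2 : ((c k : ℂ) • (LinearMap.id : (Fin d → ℂ) →ₗ[ℂ] (Fin d → ℂ))) * repF ρ x = (c k : ℂ) • repF ρ x := by
      ext v; rfl
    rw [h2, map_smul, smul_eq_mul]

/-- S4450 -/
theorem main (hcop : G.index.Coprime (N.relIndex G))
    (hs : Group.IsSolvable (Γ ⧸ G) ∨ Group.IsSolvable (G ⧸ N.subgroupOf G)) {θ : N → ℂ}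
    (hθ : IsIrrCharacter N θ) (hinv : Inv N θ) :
    ∃ χ : G → ℂ, IsIrrCharacter G χ ∧ classInner (resT hNG χ) θ ≠ 0 ∧ Inv G χ := by
  rcases hs with h | h
  · exact caseB G N hNG hcop h hθ hinv
  · exact caseA G N hNG hcop h hθ hinv

end A

end CfsgLib.InvAbove
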