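import Mathlib

/-! Involutions permuting the members of a decomposition: the combinatorial part (seat helper29). -/

namespace CfsgLib.Invo29

lemma exists_inv_subset {ι : Type*} [DecidableEq ι] (τ : ι → ι) (hτ : ∀ i, τ (τ i) = i) :
    ∀ k : ℕ, ∀ S : Finset ι, (∀ i ∈ S, τ i ∈ S) → k ≤ S.card → (Even k ∨ ∃ i ∈ S, τ i = i) →
    ∃ A ⊆ S, (∀ i ∈ A, τ i ∈ A) ∧ A.card = k := by
  intro k
  induction k using Nat.strong_induction_on with
  | _ k ih =>
    intro S hS hk hor
    by_cases hall : ∀ i ∈ S, τ i = i
    · obtain ⟨A, hA, hc⟩ := Finset.exists_subset_card_eq hk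
      exact ⟨A, hA, fun i hi => by rw [hall i (hA hi)]; exact hi, hc⟩
    · push Not at hall
      obtain ⟨i, hi, hne⟩ := hall
      rcases Nat.lt_or_ge k 2 with h2 | h2
      · rcases Nat.eq_zero_or_pos k with h0 | h0
        · exact ⟨∅, Finset.empty_subset _, by simp, by simp [h0]⟩
        · have hk1 : k = 1 := by omega
          subst hk1
          rcases hor with h | ⟨j, hj, hjj⟩
          · exact absurd h (by decide)
          · exact ⟨{j}, by simpa using hj, by simp [hjj], by simp⟩
      · obtain ⟨B, hB, hBi, hBc⟩ := ih (k - 2) (by omega) (S \ {i, τ i}) (by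
          intro j hj
          simp only [Finset.mem_sdiff, Finset.mem_insert, Finset.mem_singleton, not_or] at hj ⊢
          refine ⟨hS j hj.1, fun h => hj.2.2 ?_, fun h => hj.2.1 ?_⟩
          · rw [← h, hτ]
          · rw [← hτ j, h, hτ]) (by
          rw [Finset.card_sdiff_of_subset (by
            intro j hj
            simp only [Finset.mem_insert, Finset.mem_singleton] at hj
            rcases hj with rfl | rfl
            · exact hi
            · exact hS _ hi), Finset.card_pair (Ne.symm hne)]
          omega) (by
          rcases hor with h | ⟨j, hj, hjj⟩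
          · left
            obtain ⟨r, hr⟩ := h
            exact ⟨r - 1, by omega⟩
          · right
            refine ⟨j, ?_, hjj⟩
            simp only [Finset.mem_sdiff, Finset.mem_insert, Finset.mem_singleton, not_or]
            refine ⟨hj, fun h => hne (h ▸ hjj), fun h => hne ?_⟩
            rw [h, hτ] at hjj
            exact hjj.symm)
        have hiB : i ∉ B := fun h => by
          have := hB h
          simp at this
        have htB : τ i ∉ B := fun h => by
          have := hB h
          simp at this
        refine ⟨insert i (insert (τ i) B), ?_, ?_, ?_⟩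
        · intro j hj
          simp only [Finset.mem_insert] at hj
          rcases hj with rfl | rfl | hj
          · exact hi
          · exact hS _ hi
          · exact (Finset.mem_sdiff.1 (hB hj)).1
        · intro j hj
          simp only [Finset.mem_insert] at hj ⊢
          rcases hj with rfl | rfl | hj
          · right; left; rfl
          · left; exact hτ i
          · right; right; exact hBi j hj
        · rw [Finset.card_insert_of_notMem, Finset.card_insert_of_notMem htB, hBc]
          · omega
          · simp only [Finset.mem_insert, not_or]
            exact ⟨Ne.symm hne, hiB⟩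

lemma exists_free_subset {ι : Type*} [DecidableEq ι] (τ : ι → ι) (hτ : ∀ i, τ (τ i) = i) :
    ∀ k : ℕ, ∀ S : Finset ι, (∀ i ∈ S, τ i ∈ S) → 2 * k ≤ S.card → (∀ i ∈ S, τ i ≠ i) →
    ∃ A ⊆ S, (∀ i ∈ A, τ i ∉ A) ∧ A.card = k := by
  intro k
  induction k with
  | zero => exact fun S _ _ _ => ⟨∅, Finset.empty_subset _, by simp, by simp⟩
  | succ k ih =>
    intro S hS hk hf
    have hne : S.Nonempty := Finset.card_pos.1 (by omega)
    obtain ⟨i, hi⟩ := hne
    obtain ⟨B, hB, hBi, hBc⟩ := ih (S \ {i, τ i}) (by
          intro j hj
          simp only [Finset.mem_sdiff, Finset.mem_insert, Finset.mem_singleton, not_or] at hj ⊢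
          refine ⟨hS j hj.1, fun h => hj.2.2 ?_, fun h => hj.2.1 ?_⟩
          · rw [← h, hτ]
          · rw [← hτ j, h, hτ]) (by
          rw [Finset.card_sdiff_of_subset (by
            intro j hj
            simp only [Finset.mem_insert, Finset.mem_singleton] at hj
            rcases hj with rfl | rfl
            · exact hi
            · exact hS _ hi), Finset.card_pair (Ne.symm (hf i hi))]
          omega) (fun j hj => hf j (Finset.mem_sdiff.1 hj).1)
    have hiB : i ∉ B := fun h => by
      have := hB h
      simp at this
    have htB : τ i ∉ B := fun h => by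
      have := hB h
      simp at this
    refine ⟨insert i B, ?_, ?_, ?_⟩
    · intro j hj
      simp only [Finset.mem_insert] at hj
      rcases hj with rfl | hj
      · exact hi
      · exact (Finset.mem_sdiff.1 (hB hj)).1
    · intro j hj
      simp only [Finset.mem_insert, not_or] at hj ⊢
      rcases hj with rfl | hj
      · exact ⟨hf j hi, htB⟩
      · refine ⟨fun h => ?_, hBi j hj⟩
        have : j = τ i := by rw [← h, hτ]
        exact htB (this ▸ hj)
    · rw [Finset.card_insert_of_notMem hiB, hBc]

/-- An involution on a set of size `a * t` permutes the fibres of a map onto `t` points with fibres of size `a`. -/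
theorem exists_boxes {ι : Type*} [DecidableEq ι] (τ : ι → ι) (hτ : ∀ i, τ (τ i) = i) (a : ℕ) :
    ∀ t : ℕ, ∀ S : Finset ι, (∀ i ∈ S, τ i ∈ S) → S.card = a * t →
    ∃ (h : ι → ℕ) (σ : ℕ → ℕ), (∀ k < t, (S.filter (fun i => h i = k)).card = a) ∧ (∀ i ∈ S, h i < t) ∧
      (∀ i ∈ S, h (τ i) = σ (h i)) ∧ (∀ k, σ (σ k) = k) ∧ (∀ k < t, σ k < t) ∧ (∀ k, t ≤ k → σ k = k) := by
  intro t
  induction t using Nat.strong_induction_on with
  | _ t ih =>
    intro S hS hc
    rcases Nat.eq_zero_or_pos t with ht0 | ht0
    · subst ht0
      have hSe : S = ∅ := by
        rw [← Finset.card_eq_zero, hc, mul_zero]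
      subst hSe
      exact ⟨fun _ => 0, id, by simp, by simp, by simp, by simp, by simp, by simp⟩
    by_cases hA : ∃ A ⊆ S, (∀ i ∈ A, τ i ∈ A) ∧ A.card = a
    · obtain ⟨A, hAS, hAi, hAc⟩ := hA
      obtain ⟨t, rfl⟩ : ∃ s, t = s + 1 := ⟨t - 1, by omega⟩
      have hAi' : ∀ i, τ i ∈ A ↔ i ∈ A := fun i => ⟨fun h => by rw [← hτ i]; exact hAi _ h, hAi i⟩
      obtain ⟨h, σ, h1, h2, h3, h4, h5, h6⟩ := ih t (by omega) (S \ A) (by
        intro i hi
        rw [Finset.mem_sdiff] at hi ⊢
        exact ⟨hS i hi.1, fun hh => hi.2 ((hAi' i).1 hh)⟩) (by
        rw [Finset.card_sdiff_of_subset hAS, hc, hAc, Nat.mul_succ]; omega)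
      refine ⟨fun i => if i ∈ A then t else h i, σ, ?_, ?_, ?_, h4, ?_, ?_⟩
      · intro k hk
        rcases Nat.lt_or_ge k t with hkt | hkt
        · rw [← h1 k hkt]
          congr 1
          ext i
          simp only [Finset.mem_filter, Finset.mem_sdiff]
          by_cases hiA : i ∈ A
          · simp only [hiA, if_true, not_true, and_false, false_and, iff_false, not_and]
            intro _; omega
          · simp [hiA]
        · have hkt' : k = t := by omega
          rw [← hAc]
          congr 1
          ext i
          simp only [Finset.mem_filter]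
          by_cases hiA : i ∈ A
          · simp [hiA, hAS hiA, hkt']
          · simp only [hiA, if_false, iff_false, not_and]
            intro hiS
            have := h2 i (Finset.mem_sdiff.2 ⟨hiS, hiA⟩)
            omega
      · intro i hi
        by_cases hiA : i ∈ A
        · simp [hiA]
        · have := h2 i (Finset.mem_sdiff.2 ⟨hi, hiA⟩)
          simp only [hiA, if_false]
          omega
      · intro i hi
        by_cases hiA : i ∈ A
        · simp only [hiA, hAi i hiA, if_true]
          exact (h6 t le_rfl).symm
        · have h7 : τ i ∉ A := fun hh => hiA ((hAi' i).1 hh)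
          simp only [hiA, h7, if_false]
          exact h3 i (Finset.mem_sdiff.2 ⟨hi, hiA⟩)
      · intro k hk
        rcases Nat.lt_or_ge k t with hkt | hkt
        · have := h5 k hkt; omega
        · rw [h6 k hkt]; exact hk
      · intro k hk
        exact h6 k (by omega)
    · have hnf : ∀ i ∈ S, τ i ≠ i := by
        intro i hi he
        apply hA
        exact exists_inv_subset τ hτ a S hS (by rw [hc]; exact Nat.le_mul_of_pos_right _ ht0) (Or.inr ⟨i, hi, he⟩)
      have ht2 : 2 ≤ t := by
        by_contra hlt
        have : t = 1 := by omega
        subst this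
        exact hA ⟨S, subset_rfl, hS, by rw [hc, mul_one]⟩
      obtain ⟨t, rfl⟩ : ∃ s, t = s + 2 := ⟨t - 2, by omega⟩
      obtain ⟨A, hAS, hAi, hAc⟩ := exists_free_subset τ hτ a S hS (by rw [hc]; nlinarith) hnf
      have hsub : A ∪ A.image τ ⊆ S := by
        intro i hi
        rcases Finset.mem_union.1 hi with hi | hi
        · exact hAS hi
        · obtain ⟨j, hj, rfl⟩ := Finset.mem_image.1 hi
          exact hS _ (hAS hj)
      have himg : ∀ i, i ∈ A.image τ ↔ τ i ∈ A := by
        intro i
        rw [Finset.mem_image]
        constructor
        · rintro ⟨j, hj, rfl⟩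
          rw [hτ]; exact hj
        · intro h
          exact ⟨τ i, h, hτ i⟩
      have hdisj : Disjoint A (A.image τ) := by
        rw [Finset.disjoint_left]
        intro i hi hi2
        exact hAi i hi ((himg i).1 hi2)
      have hcu : (A ∪ A.image τ).card = 2 * a := by
        rw [Finset.card_union_of_disjoint hdisj, Finset.card_image_of_injective _ (fun i j h => by
          rw [← hτ i, h, hτ]), hAc]
        ring
      obtain ⟨h, σ, h1, h2, h3, h4, h5, h6⟩ := ih t (by omega) (S \ (A ∪ A.image τ)) (by
        intro i hi
        rw [Finset.mem_sdiff, Finset.mem_union, himg, not_or] at hi ⊢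
        rw [hτ]
        exact ⟨hS i hi.1, hi.2.2, hi.2.1⟩) (by
        rw [Finset.card_sdiff_of_subset hsub, hc, hcu, Nat.mul_add]; omega)
      refine ⟨fun i => if i ∈ A then t else if τ i ∈ A then t + 1 else h i,
        fun k => if k = t then t + 1 else if k = t + 1 then t else σ k, ?_, ?_, ?_, ?_, ?_, ?_⟩
      · intro k hk
        rcases Nat.lt_or_ge k t with hkt | hkt
        · rw [← h1 k hkt]
          congr 1
          ext i
          simp only [Finset.mem_filter, Finset.mem_sdiff, Finset.mem_union, himg, not_or]
          by_cases hiA : i ∈ A
          · simp only [hiA, if_true, not_true, false_and, and_false, iff_false, not_and]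
            intro _; omega
          · by_cases htA : τ i ∈ A
            · simp only [hiA, htA, if_true, if_false, not_true, and_false, false_and, iff_false, not_and]
              intro _; omega
            · simp [hiA, htA]
        · rcases Nat.lt_or_ge k (t + 1) with hkt1 | hkt1
          · have hkt' : k = t := by omega
            rw [← hAc]
            congr 1
            ext i
            simp only [Finset.mem_filter]
            by_cases hiA : i ∈ A
            · simp [hiA, hAS hiA, hkt']
            · by_cases htA : τ i ∈ A
              · simp only [hiA, htA, if_true, if_false, iff_false, not_and]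
                intro _; omega
              · simp only [hiA, htA, if_false, iff_false, not_and]
                intro hiS
                have := h2 i (Finset.mem_sdiff.2 ⟨hiS, by
                  rw [Finset.mem_union, himg, not_or]; exact ⟨hiA, htA⟩⟩)
                omega
          · have hkt' : k = t + 1 := by omega
            have : (A.image τ).card = a := by
              rw [Finset.card_image_of_injective _ (fun i j h => by
                rw [← hτ i, h, hτ]), hAc]
            rw [← this]
            congr 1
            ext i
            rw [himg]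
            simp only [Finset.mem_filter]
            by_cases hiA : i ∈ A
            · simp only [hiA, if_true, hAi i hiA, iff_false, not_and]
              intro _; omega
            · by_cases htA : τ i ∈ A
              · simp only [hiA, htA, if_true, if_false, iff_true]
                refine ⟨?_, hkt'.symm⟩
                rw [← hτ i]; exact hS _ (hAS htA)
              · simp only [hiA, htA, if_false, iff_false, not_and]
                intro hiS
                have := h2 i (Finset.mem_sdiff.2 ⟨hiS, by
                  rw [Finset.mem_union, himg, not_or]; exact ⟨hiA, htA⟩⟩)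
                omega
      · intro i hi
        by_cases hiA : i ∈ A
        · simp [hiA]
        · by_cases htA : τ i ∈ A
          · simp [hiA, htA]
          · have := h2 i (Finset.mem_sdiff.2 ⟨hi, by
                  rw [Finset.mem_union, himg, not_or]; exact ⟨hiA, htA⟩⟩)
            simp only [hiA, htA, if_false]
            omega
      · intro i hi
        simp only [hτ]
        by_cases hiA : i ∈ A
        · simp [hiA, hAi i hiA]
        · by_cases htA : τ i ∈ A
          · simp [hiA, htA]
          · have hm := Finset.mem_sdiff.2 ⟨hi, show i ∉ A ∪ A.image τ by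
                  rw [Finset.mem_union, himg, not_or]; exact ⟨hiA, htA⟩⟩
            have := h2 i hm
            simp only [hiA, htA, if_false]
            rw [if_neg (by omega), if_neg (by omega)]
            exact h3 i hm
      · intro k
        by_cases hk1 : k = t
        · simp [hk1]
        · by_cases hk2 : k = t + 1
          · simp [hk2]
          · simp only [hk1, hk2, if_false]
            rcases Nat.lt_or_ge k t with hkt | hkt
            · have := h5 k hkt
              rw [if_neg (by omega), if_neg (by omega)]
              exact h4 k
            · rw [h6 k hkt, if_neg hk1, if_neg hk2]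
              exact h6 k hkt
      · intro k hk
        show (if k = t then t + 1 else if k = t + 1 then t else σ k) < t + 2
        split_ifs with h7 h8
        · omega
        · omega
        · have := h5 k (by omega)
          omega
      · intro k hk
        show (if k = t then t + 1 else if k = t + 1 then t else σ k) = k
        rw [if_neg (by omega), if_neg (by omega)]
        exact h6 k (by omega)

/-- Version with `Fin t`. -/
theorem exists_boxes_fin {ι : Type*} [Fintype ι] [DecidableEq ι] (τ : ι → ι) (hτ : ∀ i, τ (τ i) = i) (a t : ℕ)
    (hc : Fintype.card ι = a * t) :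
    ∃ (h : ι → Fin t) (σ : Equiv.Perm (Fin t)), (∀ k, (Finset.univ.filter (fun i => h i = k)).card = a) ∧
      (∀ i, h (τ i) = σ (h i)) := by
  obtain ⟨h, σ, h1, h2, h3, h4, h5, -⟩ := exists_boxes τ hτ a t Finset.univ (by simp) (by simpa using hc)
  refine ⟨fun i => ⟨h i, h2 i (Finset.mem_univ _)⟩, ⟨fun k => ⟨σ k, h5 k k.2⟩, fun k => ⟨σ k, h5 k k.2⟩, ?_, ?_⟩, ?_, ?_⟩
  · intro k; exact Fin.ext (h4 k)
  · intro k; exact Fin.ext (h4 k)
  · intro k
    rw [← h1 k k.2]
    congr 1
    ext i
    simp [Fin.ext_iff]
  · intro i
    exact Fin.ext (h3 i (Finset.mem_univ _))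

end CfsgLib.Invo29
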