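import Cfsg.Agent.LibInvo29a

/-! Involutions permuting the members of a decomposition: linear algebra (seat helper29). -/

namespace CfsgLib.Invo29

open Module

variable {F V : Type*} [Field F] [AddCommGroup V] [Module F V]

/-- `W` is spanned by linearly independent blocks of `e` vectors which are pairwise orthogonal for `f` and which are
permuted by `x` through an involution. -/
def Str (f : V →ₗ[F] V →ₗ[F] F) (x : V →ₗ[F] V) (e : ℕ) (W : Submodule F V) : Prop :=
  ∃ (ι : Type) (_ : Fintype ι) (b : ι × Fin e → V) (τ : ι → ι), (∀ i, τ (τ i) = i) ∧ LinearIndependent F b ∧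
    Submodule.span F (Set.range b) = W ∧ (∀ i j, i ≠ j → ∀ k l, f (b (i, k)) (b (j, l)) = 0) ∧
    ∀ i k, x (b (i, k)) ∈ Submodule.span F (Set.range fun l => b (τ i, l))

lemma Str.bot (f : V →ₗ[F] V →ₗ[F] F) (x : V →ₗ[F] V) (e : ℕ) : Str f x e ⊥ := by
  refine ⟨Empty, inferInstance, fun p => p.1.elim, id, fun i => i.elim, ?_, ?_, fun i => i.elim, fun i => i.elim⟩
  · exact linearIndependent_empty_type
  · rw [Set.range_eq_empty, Submodule.span_empty]

lemma Str.sup {f : V →ₗ[F] V →ₗ[F] F} {x : V →ₗ[F] V} {e : ℕ} {W W' : Submodule F V} (h : Str f x e W)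
    (h' : Str f x e W') (hd : Disjoint W W') (ho : ∀ u ∈ W, ∀ v ∈ W', f u v = 0 ∧ f v u = 0) :
    Str f x e (W ⊔ W') := by
  obtain ⟨ι, _, b, τ, h1, h2, h3, h4, h5⟩ := h
  obtain ⟨ι', _, b', τ', h1', h2', h3', h4', h5'⟩ := h'
  have hbW : ∀ p, b p ∈ W := fun p => by rw [← h3]; exact Submodule.subset_span ⟨p, rfl⟩
  have hbW' : ∀ p, b' p ∈ W' := fun p => by rw [← h3']; exact Submodule.subset_span ⟨p, rfl⟩
  refine ⟨ι ⊕ ι', inferInstance, fun p => Sum.elim (fun i => b (i, p.2)) (fun i => b' (i, p.2)) p.1,
    Sum.map τ τ', ?_, ?_, ?_, ?_, ?_⟩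
  · rintro (i | i)
    · simp [h1]
    · simp [h1']
  · have hs : LinearIndependent F (Sum.elim b b') := h2.sum_type h2' (by rw [h3, h3']; exact hd)
    have := hs.comp (Equiv.sumProdDistrib ι ι' (Fin e)) (Equiv.injective _)
    convert this using 1
    ext ⟨i | i, k⟩ <;> rfl
  · apply le_antisymm
    · rw [Submodule.span_le]
      rintro _ ⟨⟨i | i, k⟩, rfl⟩
      · exact (le_sup_left : W ≤ W ⊔ W') (hbW _)
      · exact (le_sup_right : W' ≤ W ⊔ W') (hbW' _)
    · refine sup_le ?_ ?_
      · rw [← h3, Submodule.span_le]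
        rintro _ ⟨⟨i, k⟩, rfl⟩
        exact Submodule.subset_span ⟨(Sum.inl i, k), rfl⟩
      · rw [← h3', Submodule.span_le]
        rintro _ ⟨⟨i, k⟩, rfl⟩
        exact Submodule.subset_span ⟨(Sum.inr i, k), rfl⟩
  · rintro (i | i) (j | j) hij k l
    · exact h4 i j (fun h => hij (by rw [h])) k l
    · exact (ho _ (hbW _) _ (hbW' _)).1
    · exact (ho _ (hbW _) _ (hbW' _)).2
    · exact h4' i j (fun h => hij (by rw [h])) k l
  · rintro (i | i) k
    · exact h5 i k
    · exact h5' i k

lemma Str.boxes [FiniteDimensional F V] {f : V →ₗ[F] V →ₗ[F] F} {x : V →ₗ[F] V} {e : ℕ} (h : Str f x e ⊤)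
    (hx : Function.Injective x) (a t : ℕ) (he : 0 < e) (hdim : finrank F V = (a * t) * e) :
    ∃ (D : Fin t → Submodule F V) (σ : Equiv.Perm (Fin t)), (∀ k, finrank F (D k) = a * e) ∧ iSupIndep D ∧
      iSup D = ⊤ ∧ (∀ k, (D k).map x = D (σ k)) ∧ (∀ j k, j ≠ k → ∀ u ∈ D j, ∀ v ∈ D k, f u v = 0) := by
  classical
  obtain ⟨ι, _, b, τ, h1, h2, h3, h4, h5⟩ := h
  have hcard : Fintype.card ι = a * t := by
    have hb := finrank_span_eq_card h2
    rw [h3, finrank_top, Fintype.card_prod, Fintype.card_fin, hdim] at hb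
    exact (Nat.eq_of_mul_eq_mul_right he hb).symm
  obtain ⟨h, σ, hfib, hσ⟩ := exists_boxes_fin τ h1 a t hcard
  let D : Fin t → Submodule F V := fun k => Submodule.span F (b '' {p | h p.1 = k})
  have hmemD : ∀ p, b p ∈ D (h p.1) := fun p => Submodule.subset_span ⟨p, rfl, rfl⟩
  have hrank : ∀ k, finrank F (D k) = a * e := by
    intro k
    have hli : LinearIndependent F (fun p : {p : ι × Fin e // h p.1 = k} => b p.1) :=
      h2.comp _ Subtype.val_injective
    have e1 : D k = Submodule.span F (Set.range (fun p : {p : ι × Fin e // h p.1 = k} => b p.1)) := by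
      refine congrArg (Submodule.span F) ?_
      ext v
      constructor
      · rintro ⟨p, hp, rfl⟩
        exact ⟨⟨p, hp⟩, rfl⟩
      · rintro ⟨p, rfl⟩
        exact ⟨p.1, p.2, rfl⟩
    rw [e1, finrank_span_eq_card hli, Fintype.card_subtype]
    have e2 : (Finset.univ.filter (fun p : ι × Fin e => h p.1 = k)) =
        (Finset.univ.filter (fun i => h i = k)) ×ˢ (Finset.univ : Finset (Fin e)) := by
      ext p
      simp
    rw [e2, Finset.card_product, hfib k, Finset.card_univ, Fintype.card_fin]
  refine ⟨D, σ, hrank, ?_, ?_, ?_, ?_⟩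
  · intro k
    have e3 : (⨆ j, ⨆ (_ : j ≠ k), D j) ≤ Submodule.span F (b '' {p | h p.1 ≠ k}) := by
      refine iSup₂_le fun j hj => Submodule.span_mono ?_
      rintro _ ⟨p, hp, rfl⟩
      exact ⟨p, by
        have : h p.1 = j := hp
        show h p.1 ≠ k
        rw [this]; exact hj, rfl⟩
    refine Disjoint.mono_right e3 (h2.disjoint_span_image ?_)
    rw [Set.disjoint_left]
    intro p hp hp2
    exact hp2 hp
  · rw [eq_top_iff, ← h3, Submodule.span_le]
    rintro _ ⟨p, rfl⟩
    exact (le_iSup D (h p.1)) (hmemD p)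
  · intro k
    have hle : (D k).map x ≤ D (σ k) := by
      show (Submodule.span F (b '' {p | h p.1 = k})).map x ≤ _
      rw [Submodule.map_span, Submodule.span_le]
      rintro _ ⟨_, ⟨p, hp, rfl⟩, rfl⟩
      have hp' : h p.1 = k := hp
      have hmem := h5 p.1 p.2
      refine (Submodule.span_le.2 ?_ : Submodule.span F (Set.range fun l => b (τ p.1, l)) ≤ D (σ k)) hmem
      rintro _ ⟨l, rfl⟩
      refine Submodule.subset_span ⟨(τ p.1, l), ?_, rfl⟩
      show h (τ p.1) = σ k
      rw [hσ, hp']
    refine Submodule.eq_of_le_of_finrank_eq hle ?_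
    rw [hrank, ← (Submodule.equivMapOfInjective x hx (D k)).finrank_eq, hrank]
  · intro j k hjk u hu v hv
    have h6 : ∀ p, h p.1 = j → ∀ q, h q.1 = k → f (b p) (b q) = 0 := by
      intro p hp q hq
      exact h4 p.1 q.1 (fun hh => hjk (by rw [← hp, ← hq, hh])) p.2 q.2
    have h7 : ∀ p, h p.1 = j → ∀ v ∈ D k, f (b p) v = 0 := by
      intro p hp v hv
      have : D k ≤ LinearMap.ker (f (b p)) := by
        refine Submodule.span_le.2 ?_
        rintro _ ⟨q, hq, rfl⟩
        exact h6 p hp q hq
      exact this hv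
    have h8 : D j ≤ LinearMap.ker (f.flip v) := by
      refine Submodule.span_le.2 ?_
      rintro _ ⟨p, hp, rfl⟩
      show f (b p) v = 0
      exact h7 p hp v hv
    exact h8 hu

/-- Structure of `x` with `x² = z`, linear case. -/
theorem str_linear [FiniteDimensional F V] (x : V →ₗ[F] V) (z : F) (hx2 : ∀ v, x (x v) = z • v) :
    ∀ n, ∀ W : Submodule F V, finrank F W = n → (∀ w ∈ W, x w ∈ W) → Str (0 : V →ₗ[F] V →ₗ[F] F) x 1 W := by
  intro n
  induction n using Nat.strong_induction_on with
  | _ n ih =>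
    intro W hn hW
    by_cases hsc : ∀ v ∈ W, x v ∈ Submodule.span F {v}
    · let b := finBasis F W
      refine ⟨Fin (finrank F W), inferInstance, fun p => (b p.1 : V), id, fun _ => rfl, ?_, ?_, fun _ _ _ _ _ => rfl, ?_⟩
      · have h1 : LinearIndependent F (fun i => (b i : V)) :=
          b.linearIndependent.map' W.subtype (Submodule.ker_subtype W)
        exact h1.comp (fun p : Fin (finrank F W) × Fin 1 => p.1) (by
          rintro ⟨i, k⟩ ⟨j, l⟩ h
          have hk : k = l := Subsingleton.elim _ _
          exact Prod.ext h hk)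
      · have e1 : Set.range (fun p : Fin (finrank F W) × Fin 1 => (b p.1 : V)) = W.subtype '' Set.range b := by
          ext v
          constructor
          · rintro ⟨p, rfl⟩
            exact ⟨b p.1, ⟨p.1, rfl⟩, rfl⟩
          · rintro ⟨_, ⟨i, rfl⟩, rfl⟩
            exact ⟨(i, 0), rfl⟩
        rw [e1, ← Submodule.map_span, b.span_eq, Submodule.map_top, Submodule.range_subtype]
      · intro i k
        have := hsc (b i : V) (b i).2
        refine Submodule.span_mono ?_ this
        rintro _ rfl
        exact ⟨0, rfl⟩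
    · push Not at hsc
      obtain ⟨v, hvW, hv⟩ := hsc
      have hv0 : v ≠ 0 := by
        rintro rfl
        exact hv (by simp)
      have hli : LinearIndependent F ![v, x v] := by
        rw [LinearIndependent.pair_iff]
        intro s t hst
        have ht : t = 0 := by
          by_contra ht
          apply hv
          rw [Submodule.mem_span_singleton]
          refine ⟨-(t⁻¹ * s), ?_⟩
          have : t • x v = -(s • v) := by
            rw [eq_neg_iff_add_eq_zero, add_comm]; exact hst
          calc (-(t⁻¹ * s)) • v = t⁻¹ • (-(s • v)) := by rw [smul_neg, smul_smul, neg_smul]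
            _ = x v := by rw [← this, smul_smul, inv_mul_cancel₀ ht, one_smul]
        subst ht
        rw [zero_smul, add_zero] at hst
        exact ⟨(smul_eq_zero.1 hst).resolve_right hv0, rfl⟩
      obtain ⟨φ, hφ1, hφ2⟩ : ∃ φ : V →ₗ[F] F, φ v = 0 ∧ φ (x v) = 1 := by
        obtain ⟨φ, hφ⟩ := Submodule.exists_le_ker_of_notMem (p := Submodule.span F {v}) hv
        refine ⟨(φ (x v))⁻¹ • φ, ?_, ?_⟩
        · have : φ v = 0 := hφ.2 (Submodule.mem_span_singleton_self v)
          simp [this]
        · simp [hφ.1]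
      let C : Submodule F V := W ⊓ (LinearMap.ker φ ⊓ LinearMap.ker (φ ∘ₗ x))
      let R : Submodule F V := Submodule.span F {v, x v}
      have hRW : R ≤ W := by
        rw [Submodule.span_le]
        rintro _ (rfl | rfl)
        · exact hvW
        · exact hW _ hvW
      have hCinv : ∀ w ∈ C, x w ∈ C := by
        rintro w ⟨h1, h2, h3⟩
        refine ⟨hW w h1, h3, ?_⟩
        show φ (x (x w)) = 0
        rw [hx2, map_smul]
        have : φ w = 0 := h2
        rw [this, smul_zero]
      have hdisj : Disjoint R C := by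
        rw [Submodule.disjoint_def]
        intro u hu hC
        obtain ⟨α, β, rfl⟩ := Submodule.mem_span_pair.1 hu
        have h1 : φ (α • v + β • x v) = 0 := hC.2.1
        have h2 : φ (x (α • v + β • x v)) = 0 := hC.2.2
        rw [map_add, map_smul, map_smul, hφ1, hφ2] at h1
        rw [map_add, map_smul, map_smul, hx2, map_add, map_smul, map_smul, map_smul, hφ1, hφ2] at h2
        have hβ : β = 0 := by simpa using h1
        have hα : α = 0 := by simpa using h2
        rw [hα, hβ]; simp
      have hsup : R ⊔ C = W := by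
        apply le_antisymm (sup_le hRW inf_le_left)
        intro w hw
        have e1 : w = ((φ (x w)) • v + (φ w) • x v) + (w - ((φ (x w)) • v + (φ w) • x v)) := by abel
        rw [e1]
        refine Submodule.add_mem_sup (Submodule.mem_span_pair.2 ⟨_, _, rfl⟩) ⟨?_, ?_, ?_⟩
        · refine W.sub_mem hw (W.add_mem (W.smul_mem _ hvW) (W.smul_mem _ (hW _ hvW)))
        · show φ _ = 0
          simp [hφ1, hφ2]
        · show φ (x _) = 0
          simp [hφ1, hφ2, hx2]
      have hRstr : Str (0 : V →ₗ[F] V →ₗ[F] F) x 1 R := by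
        refine ⟨Fin 2, inferInstance, fun p => ![v, x v] p.1, ![1, 0], ?_, ?_, ?_, fun _ _ _ _ _ => rfl, ?_⟩
        · intro i; fin_cases i <;> rfl
        · exact hli.comp (fun p : Fin 2 × Fin 1 => p.1) (by
            rintro ⟨i, k⟩ ⟨j, l⟩ h
            have hk : k = l := Subsingleton.elim _ _
            exact Prod.ext h hk)
        · congr 1
          ext u
          constructor
          · rintro ⟨⟨i, k⟩, rfl⟩
            fin_cases i
            · left; rfl
            · right; rfl
          · rintro (rfl | rfl)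
            · exact ⟨(0, 0), rfl⟩
            · exact ⟨(1, 0), rfl⟩
        · intro i k
          fin_cases i
          · exact Submodule.subset_span ⟨0, rfl⟩
          · show x (x v) ∈ _
            rw [hx2]
            exact Submodule.smul_mem _ _ (Submodule.subset_span ⟨0, rfl⟩)
      have hlt : finrank F C < n := by
        rw [← hn]
        refine Submodule.finrank_lt_finrank_of_lt (lt_of_le_of_ne inf_le_left ?_)
        intro h
        have hvC : v ∈ C := by
          rw [h]; exact hvW
        have : φ (x v) = 0 := hvC.2.2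
        rw [hφ2] at this
        exact one_ne_zero this
      rw [← hsup]
      exact hRstr.sup (ih _ hlt C rfl hCinv) hdisj (fun _ _ _ _ => ⟨rfl, rfl⟩)

end CfsgLib.Invo29
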