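import Cfsg.Agent.LibInvo29b

/-! Involutions in symplectic groups: orthogonal decompositions (seat helper29). -/

namespace CfsgLib.Invo29

open Module

variable {F V : Type*} [Field F] [AddCommGroup V] [Module F V]

/-- nondegenerate on a subspace -/
def NDon (f : V →ₗ[F] V →ₗ[F] F) (W : Submodule F V) : Prop := ∀ u ∈ W, (∀ v ∈ W, f u v = 0) → u = 0

lemma skew_of_alt (f : V →ₗ[F] V →ₗ[F] F) (halt : ∀ v, f v v = 0) (u v : V) : f u v = - f v u := by
  have h := halt (u + v)
  simp only [map_add, LinearMap.add_apply, halt, zero_add, add_zero] at h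
  rw [add_comm] at h
  exact eq_neg_of_add_eq_zero_left h

/-- Induction principle over nondegenerate invariant subspaces. -/
theorem ind_nondeg [FiniteDimensional F V] (f : V →ₗ[F] V →ₗ[F] F) (hrefl : ∀ u v, f u v = 0 → f v u = 0)
    (x : V →ₗ[F] V) (z μ : F) (hz : z ≠ 0) (hx2 : ∀ v, x (x v) = z • v) (hiso : ∀ u v, f (x u) (x v) = μ * f u v)
    (P : Submodule F V → Prop) (h0 : P ⊥)
    (hstep : ∀ W : Submodule F V, (∀ w ∈ W, x w ∈ W) → NDon f W → W ≠ ⊥ → ∃ R ≤ W, R ≠ ⊥ ∧ (∀ w ∈ R, x w ∈ R) ∧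
      NDon f R ∧ P R)
    (hglue : ∀ R C : Submodule F V, P R → P C → Disjoint R C → (∀ u ∈ R, ∀ v ∈ C, f u v = 0 ∧ f v u = 0) → P (R ⊔ C)) :
    ∀ n, ∀ W : Submodule F V, finrank F W = n → (∀ w ∈ W, x w ∈ W) → NDon f W → P W := by
  intro n
  induction n using Nat.strong_induction_on with
  | _ n ih =>
    intro W hn hW hND
    by_cases hb : W = ⊥
    · rw [hb]; exact h0
    obtain ⟨R, hRW, hR0, hRx, hRN, hPR⟩ := hstep W hW hND hb
    let B : LinearMap.BilinForm F V := f
    have hBr : B.IsRefl := fun u v h => hrefl u v h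
    have hdis : Disjoint R (B.orthogonal R) := by
      rw [Submodule.disjoint_def]
      intro u hu hu2
      refine hRN u hu fun v hv => hrefl _ _ ?_
      exact (LinearMap.BilinForm.mem_orthogonal_iff.1 hu2) v hv
    have hcom : IsCompl R (B.orthogonal R) := (LinearMap.BilinForm.isCompl_orthogonal_iff_disjoint hBr).2 hdis
    let C : Submodule F V := W ⊓ B.orthogonal R
    have hC1 : ∀ c ∈ C, ∀ r ∈ R, f r c = 0 := fun c hc r hr => (LinearMap.BilinForm.mem_orthogonal_iff.1 hc.2) r hr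
    have hdis2 : Disjoint R C := hdis.mono_right inf_le_right
    have hsup : R ⊔ C = W := by
      apply le_antisymm (sup_le hRW inf_le_left)
      intro w hw
      have : w ∈ R ⊔ B.orthogonal R := by rw [hcom.sup_eq_top]; exact Submodule.mem_top
      obtain ⟨r, hr, c, hc, rfl⟩ := Submodule.mem_sup.1 this
      refine Submodule.add_mem_sup hr ⟨?_, hc⟩
      have := W.sub_mem hw (hRW hr)
      simpa using this
    have hCx : ∀ c ∈ C, x c ∈ C := by
      intro c hc
      refine ⟨hW c hc.1, ?_⟩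
      refine LinearMap.BilinForm.mem_orthogonal_iff.2 fun r hr => ?_
      show f r (x c) = 0
      have e1 : f r (x c) = z⁻¹ * f (x (x r)) (x c) := by
        rw [hx2, map_smul, LinearMap.smul_apply, smul_eq_mul, ← mul_assoc, inv_mul_cancel₀ hz, one_mul]
      rw [e1, hiso, hC1 c hc _ (hRx r hr)]
      simp
    have hCN : NDon f C := by
      intro u hu huv
      refine hND u hu.1 fun w hw => ?_
      rw [← hsup] at hw
      obtain ⟨r, hr, c, hc, rfl⟩ := Submodule.mem_sup.1 hw
      rw [map_add, huv c hc, hrefl _ _ (hC1 u hu r hr), add_zero]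
    have hlt : finrank F C < n := by
      rw [← hn]
      refine Submodule.finrank_lt_finrank_of_lt (lt_of_le_of_ne inf_le_left ?_)
      intro h
      apply hR0
      rw [Submodule.eq_bot_iff]
      intro r hr
      have hrC : r ∈ C := by rw [h]; exact hRW hr
      exact (Submodule.disjoint_def.1 hdis2) r hr hrC
    rw [← hsup]
    exact hglue R C hPR (ih _ hlt C rfl hCx hCN) hdis2 (fun u hu v hv => ⟨hC1 v hv u hu, hrefl _ _ (hC1 v hv u hu)⟩)

/-- hyperbolic blocks are linearly independent and span a nondegenerate subspace -/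
lemma hyp_li (f : V →ₗ[F] V →ₗ[F] F) (halt : ∀ v, f v v = 0) {ι : Type} [Fintype ι] (b : ι × Fin 2 → V)
    (hne : ∀ i, f (b (i, 0)) (b (i, 1)) ≠ 0) (ho : ∀ i j, i ≠ j → ∀ k l, f (b (i, k)) (b (j, l)) = 0) :
    LinearIndependent F b ∧ NDon f (Submodule.span F (Set.range b)) := by
  classical
  have key : ∀ c : ι × Fin 2 → F, (∀ p, f (∑ q, c q • b q) (b p) = 0) → ∀ p, c p = 0 := by
    intro c hc
    have e : ∀ i (l : Fin 2), f (∑ q, c q • b q) (b (i, l)) = c (i, 0) * f (b (i, 0)) (b (i, l)) +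
        c (i, 1) * f (b (i, 1)) (b (i, l)) := by
      intro i l
      rw [map_sum, LinearMap.sum_apply, Fintype.sum_prod_type, Finset.sum_eq_single i]
      · rw [Fin.sum_univ_two]
        simp
      · intro j _ hj
        refine Finset.sum_eq_zero fun k _ => ?_
        rw [map_smul, LinearMap.smul_apply, ho j i hj k l, smul_zero]
      · intro h; exact absurd (Finset.mem_univ _) h
    rintro ⟨i, k⟩
    fin_cases k
    · have h1 := hc (i, 1)
      rw [e, halt, mul_zero, add_zero] at h1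
      exact (mul_eq_zero.1 h1).resolve_right (hne i)
    · have h1 := hc (i, 0)
      rw [e, halt, mul_zero, zero_add] at h1
      refine (mul_eq_zero.1 h1).resolve_right ?_
      rw [skew_of_alt f halt]
      exact neg_ne_zero.2 (hne i)
  refine ⟨Fintype.linearIndependent_iff.2 fun c hc p => key c (fun q => by rw [hc]; simp) p, ?_⟩
  intro u hu huv
  obtain ⟨c, rfl⟩ := (Submodule.mem_span_range_iff_exists_fun F).1 hu
  have := key c fun p => huv _ (Submodule.subset_span ⟨p, rfl⟩)
  refine Finset.sum_eq_zero fun p _ => ?_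
  rw [this p, zero_smul]

/-- Local structure. -/
theorem symp_step [FiniteDimensional F V] (f : V →ₗ[F] V →ₗ[F] F) (halt : ∀ v, f v v = 0)
    (x : V →ₗ[F] V) (z μ : F) (hz : z ≠ 0) (hμ : μ ≠ 0) (hx2 : ∀ v, x (x v) = z • v)
    (hiso : ∀ u v, f (x u) (x v) = μ * f u v) (W : Submodule F V) (hW : ∀ w ∈ W, x w ∈ W) (hND : NDon f W)
    (hb : W ≠ ⊥) : ∃ R ≤ W, R ≠ ⊥ ∧ (∀ w ∈ R, x w ∈ R) ∧ NDon f R ∧ Str f x 2 R := by
  have hskew := skew_of_alt f halt
  have hfin : ∀ (ι : Type) (_ : Fintype ι) (_ : Nonempty ι) (b : ι × Fin 2 → V) (τ : ι → ι), (∀ i, τ (τ i) = i) →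
      (∀ p, b p ∈ W) →
      (∀ i, f (b (i, 0)) (b (i, 1)) ≠ 0) → (∀ i j, i ≠ j → ∀ k l, f (b (i, k)) (b (j, l)) = 0) →
      (∀ i k, x (b (i, k)) ∈ Submodule.span F (Set.range fun l => b (τ i, l))) →
      ∃ R ≤ W, R ≠ ⊥ ∧ (∀ w ∈ R, x w ∈ R) ∧ NDon f R ∧ Str f x 2 R := by
    intro ι _ hne b τ hτ hbW h1 h2 h3
    obtain ⟨h4, h5⟩ := hyp_li f halt b h1 h2
    refine ⟨Submodule.span F (Set.range b), ?_, ?_, ?_, h5, ⟨ι, inferInstance, b, τ, hτ, h4, rfl, h2, h3⟩⟩
    · rw [Submodule.span_le]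
      rintro _ ⟨p, rfl⟩
      exact hbW p
    · intro h
      obtain ⟨i⟩ := hne
      have : b (i, 0) = 0 := by
        have : b (i, 0) ∈ Submodule.span F (Set.range b) := Submodule.subset_span ⟨_, rfl⟩
        rw [h] at this
        exact this
      apply h1 i
      rw [this, map_zero, LinearMap.zero_apply]
    · intro w hw
      have : Submodule.span F (Set.range b) ≤ (Submodule.span F (Set.range b)).comap x := by
        rw [Submodule.span_le]
        rintro _ ⟨⟨i, k⟩, rfl⟩
        refine (Submodule.span_mono ?_) (h3 i k)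
        rintro _ ⟨l, rfl⟩
        exact ⟨_, rfl⟩
      exact this hw
  by_cases hc1 : ∃ v ∈ W, f v (x v) ≠ 0
  · obtain ⟨v, hv, hvx⟩ := hc1
    refine hfin (Fin 1) inferInstance inferInstance (fun p => ![v, x v] p.2) id (fun _ => rfl) ?_ ?_ ?_ ?_
    · rintro ⟨i, k⟩
      fin_cases k
      · exact hv
      · exact hW v hv
    · intro i; exact hvx
    · intro i j hij; exact absurd (Subsingleton.elim i j) hij
    · intro i k
      fin_cases k
      · exact Submodule.subset_span ⟨1, rfl⟩
      · show x (x v) ∈ _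
        rw [hx2]
        exact Submodule.smul_mem _ _ (Submodule.subset_span ⟨0, rfl⟩)
  · push Not at hc1
    by_cases hsc : ∀ v ∈ W, x v ∈ Submodule.span F {v}
    · obtain ⟨v, hv, hv0⟩ := (Submodule.ne_bot_iff W).1 hb
      have : ∃ w ∈ W, f v w ≠ 0 := by
        by_contra hcon
        push Not at hcon
        exact hv0 (hND v hv hcon)
      obtain ⟨w, hw, hvw⟩ := this
      refine hfin (Fin 1) inferInstance inferInstance (fun p => ![v, w] p.2) id (fun _ => rfl) ?_ ?_ ?_ ?_
      · rintro ⟨i, k⟩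
        fin_cases k
        · exact hv
        · exact hw
      · intro i; exact hvw
      · intro i j hij; exact absurd (Subsingleton.elim i j) hij
      · intro i k
        fin_cases k
        · refine Submodule.span_mono ?_ (hsc v hv)
          rintro _ rfl
          exact ⟨0, rfl⟩
        · refine Submodule.span_mono ?_ (hsc w hw)
          rintro _ rfl
          exact ⟨1, rfl⟩
    · push Not at hsc
      obtain ⟨v, hvW, hv⟩ := hsc
      have hv0 : v ≠ 0 := by
        rintro rfl
        exact hv (by simp)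
      have hxv0 : x v ≠ 0 := by
        intro h
        have := hx2 v
        rw [h, map_zero] at this
        exact hv0 ((smul_eq_zero.1 this.symm).resolve_left hz)
      have hex : ∃ w ∈ W, f (x v) w = 0 ∧ f v w ≠ 0 := by
        by_contra hcon
        push Not at hcon
        have : ∃ w0 ∈ W, f (x v) w0 ≠ 0 := by
          by_contra hcon2
          push Not at hcon2
          exact hxv0 (hND _ (hW v hvW) hcon2)
        obtain ⟨w0, hw0, hw0x⟩ := this
        have hall : ∀ w ∈ W, f (v - (f v w0 / f (x v) w0) • x v) w = 0 := by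
          intro w hw
          have h1 := hcon (w - (f (x v) w / f (x v) w0) • w0) (W.sub_mem hw (W.smul_mem _ hw0)) (by
            rw [map_sub, map_smul, smul_eq_mul, div_mul_cancel₀ _ hw0x, sub_self])
          rw [map_sub, map_smul, smul_eq_mul] at h1
          rw [map_sub, map_smul, LinearMap.sub_apply, LinearMap.smul_apply, smul_eq_mul]
          rw [← h1]; ring
        have h2 := hND _ (W.sub_mem hvW (W.smul_mem _ (hW v hvW))) hall
        rw [sub_eq_zero] at h2
        generalize f v w0 / f (x v) w0 = c at h2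
        by_cases hc : c = 0
        · rw [hc, zero_smul] at h2
          exact hv0 h2
        · apply hv
          rw [Submodule.mem_span_singleton]
          refine ⟨c⁻¹, ?_⟩
          have h3 : c⁻¹ • v = c⁻¹ • (c • x v) := congrArg _ h2
          rw [h3, smul_smul, inv_mul_cancel₀ hc, one_smul]
      obtain ⟨w, hwW, hw1, hw2⟩ := hex
      have hvxw : f v (x w) = 0 := by
        have e1 : f v (x w) = z⁻¹ * f (x (x v)) (x w) := by
          rw [hx2, map_smul, LinearMap.smul_apply, smul_eq_mul, ← mul_assoc, inv_mul_cancel₀ hz, one_mul]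
        rw [e1, hiso, hw1]; simp
      refine hfin (Fin 2) inferInstance inferInstance (fun p => ![![v, w], ![x v, x w]] p.1 p.2) ![1, 0] ?_ ?_ ?_ ?_ ?_
      · intro i; fin_cases i <;> rfl
      · rintro ⟨i, k⟩
        fin_cases i <;> fin_cases k
        · exact hvW
        · exact hwW
        · exact hW v hvW
        · exact hW w hwW
      · intro i
        fin_cases i
        · exact hw2
        · show f (x v) (x w) ≠ 0
          rw [hiso]
          exact mul_ne_zero hμ hw2
      · intro i j hij k l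
        fin_cases i <;> fin_cases j
        · exact absurd rfl hij
        · fin_cases k <;> fin_cases l
          · exact hc1 v hvW
          · exact hvxw
          · show f w (x v) = 0
            rw [hskew, hw1, neg_zero]
          · exact hc1 w hwW
        · fin_cases k <;> fin_cases l
          · show f (x v) v = 0
            rw [hskew, hc1 v hvW, neg_zero]
          · exact hw1
          · show f (x w) v = 0
            rw [hskew, hvxw, neg_zero]
          · show f (x w) w = 0
            rw [hskew, hc1 w hwW, neg_zero]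
        · exact absurd rfl hij
      · intro i k
        fin_cases i <;> fin_cases k
        · exact Submodule.subset_span ⟨0, rfl⟩
        · exact Submodule.subset_span ⟨1, rfl⟩
        · show x (x v) ∈ _
          rw [hx2]
          exact Submodule.smul_mem _ _ (Submodule.subset_span ⟨0, rfl⟩)
        · show x (x w) ∈ _
          rw [hx2]
          exact Submodule.smul_mem _ _ (Submodule.subset_span ⟨1, rfl⟩)

theorem str_symp [FiniteDimensional F V] (f : V →ₗ[F] V →ₗ[F] F) (halt : ∀ v, f v v = 0)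
    (x : V →ₗ[F] V) (z μ : F) (hz : z ≠ 0) (hμ : μ ≠ 0) (hx2 : ∀ v, x (x v) = z • v)
    (hiso : ∀ u v, f (x u) (x v) = μ * f u v) (W : Submodule F V) (hW : ∀ w ∈ W, x w ∈ W) (hND : NDon f W) :
    Str f x 2 W :=
  ind_nondeg f (fun u v h => by rw [skew_of_alt f halt, h, neg_zero]) x z μ hz hx2 hiso (Str f x 2) (Str.bot f x 2)
    (fun W hW hND hb => symp_step f halt x z μ hz hμ hx2 hiso W hW hND hb)
    (fun _ _ h1 h2 h3 h4 => h1.sup h2 h3 h4) _ W rfl hW hND

/-- A complementary pair of isotropic subspaces, fixed (`s = true`) or interchanged (`s = false`) by `x`. -/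
def Pol (f : V →ₗ[F] V →ₗ[F] F) (x : V →ₗ[F] V) (s : Bool) (W : Submodule F V) : Prop :=
  ∃ U U' : Submodule F V, Disjoint U U' ∧ U ⊔ U' = W ∧ (∀ u ∈ U, ∀ v ∈ U, f u v = 0) ∧ (∀ u ∈ U', ∀ v ∈ U', f u v = 0) ∧
    (s = true → (∀ u ∈ U, x u ∈ U) ∧ (∀ u ∈ U', x u ∈ U')) ∧ (s = false → (∀ u ∈ U, x u ∈ U') ∧ (∀ u ∈ U', x u ∈ U))

lemma Pol.sup {f : V →ₗ[F] V →ₗ[F] F} {x : V →ₗ[F] V} {s : Bool} {W W' : Submodule F V} (h : Pol f x s W)
    (h' : Pol f x s W') (hd : Disjoint W W') (ho : ∀ u ∈ W, ∀ v ∈ W', f u v = 0 ∧ f v u = 0) : Pol f x s (W ⊔ W') := by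
  obtain ⟨U, U', h1, h2, h3, h4, h5, h6⟩ := h
  obtain ⟨T, T', h1', h2', h3', h4', h5', h6'⟩ := h'
  have hUW : U ≤ W := h2 ▸ le_sup_left
  have hUW' : U' ≤ W := h2 ▸ le_sup_right
  have hTW : T ≤ W' := h2' ▸ le_sup_left
  have hTW' : T' ≤ W' := h2' ▸ le_sup_right
  have hiso : ∀ (A B : Submodule F V), A ≤ W → B ≤ W' → (∀ u ∈ A, ∀ v ∈ A, f u v = 0) →
      (∀ u ∈ B, ∀ v ∈ B, f u v = 0) → ∀ u ∈ A ⊔ B, ∀ v ∈ A ⊔ B, f u v = 0 := by
    intro A B hA hB hA2 hB2 u hu v hv
    obtain ⟨a, ha, b, hb, rfl⟩ := Submodule.mem_sup.1 hu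
    obtain ⟨a', ha', b', hb', rfl⟩ := Submodule.mem_sup.1 hv
    simp only [map_add, LinearMap.add_apply]
    rw [hA2 a ha a' ha', hB2 b hb b' hb',
      (ho a (hA ha) b' (hB hb')).1, (ho a' (hA ha') b (hB hb)).2]
    simp
  have hinv : ∀ (A B A' B' : Submodule F V), (∀ u ∈ A, x u ∈ A') → (∀ u ∈ B, x u ∈ B') → ∀ u ∈ A ⊔ B, x u ∈ A' ⊔ B' := by
    intro A B A' B' hA hB u hu
    obtain ⟨a, ha, b, hb, rfl⟩ := Submodule.mem_sup.1 hu
    rw [map_add]
    exact Submodule.add_mem_sup (hA a ha) (hB b hb)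
  refine ⟨U ⊔ T, U' ⊔ T', ?_, ?_, hiso U T hUW hTW h3 h3', hiso U' T' hUW' hTW' h4 h4', ?_, ?_⟩
  · rw [Submodule.disjoint_def]
    intro u hu hu'
    obtain ⟨a, ha, b, hb, rfl⟩ := Submodule.mem_sup.1 hu
    obtain ⟨a', ha', b', hb', he⟩ := Submodule.mem_sup.1 hu'
    have e1 : a - a' = b' - b := by
      rw [sub_eq_sub_iff_add_eq_add, add_comm b' a', he]
    have e2 : a - a' = 0 := (Submodule.disjoint_def.1 hd) _ (W.sub_mem (hUW ha) (hUW' ha'))
      (e1 ▸ W'.sub_mem (hTW' hb') (hTW hb))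
    have e3 : b' - b = 0 := by rw [← e1, e2]
    have e4 : a = 0 := (Submodule.disjoint_def.1 h1) a ha (by rw [sub_eq_zero.1 e2]; exact ha')
    have e5 : b = 0 := (Submodule.disjoint_def.1 h1') b hb (by rw [← sub_eq_zero.1 e3]; exact hb')
    rw [e4, e5, add_zero]
  · rw [← h2, ← h2']
    exact sup_sup_sup_comm U T U' T'
  · intro hs
    exact ⟨hinv U T U T (h5 hs).1 (h5' hs).1, hinv U' T' U' T' (h5 hs).2 (h5' hs).2⟩
  · intro hs
    exact ⟨hinv U T U' T' (h6 hs).1 (h6' hs).1, hinv U' T' U T (h6 hs).2 (h6' hs).2⟩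

end CfsgLib.Invo29
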