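import Cfsg.Agent.LibInvo29c
import Cfsg.Agent.LibH22Sp

/-! Involutions in symplectic groups: polar pairs (seat helper29). -/

namespace CfsgLib.Invo29

open Module

variable {F V : Type*} [Field F] [AddCommGroup V] [Module F V]

lemma hyp_pair (f : V →ₗ[F] V →ₗ[F] F) (halt : ∀ v, f v v = 0) (v w : V) (h : f v w ≠ 0) :
    Disjoint (Submodule.span F {v}) (Submodule.span F {w}) ∧ NDon f (Submodule.span F {v} ⊔ Submodule.span F {w}) := by
  have hskew := skew_of_alt f halt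
  refine ⟨?_, ?_⟩
  · rw [Submodule.disjoint_def]
    intro u hu hu'
    obtain ⟨a, rfl⟩ := Submodule.mem_span_singleton.1 hu
    obtain ⟨b, hb⟩ := Submodule.mem_span_singleton.1 hu'
    have h1 : f (a • v) w = 0 := by rw [← hb]; simp [halt]
    rw [map_smul, LinearMap.smul_apply, smul_eq_mul] at h1
    rw [(mul_eq_zero.1 h1).resolve_right h, zero_smul]
  · intro u hu huv
    obtain ⟨_, h1, _, h2, rfl⟩ := Submodule.mem_sup.1 hu
    obtain ⟨a, rfl⟩ := Submodule.mem_span_singleton.1 h1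
    obtain ⟨b, rfl⟩ := Submodule.mem_span_singleton.1 h2
    have h3 := huv w ((le_sup_right : Submodule.span F {w} ≤ _) (Submodule.mem_span_singleton_self w))
    have h4 := huv v ((le_sup_left : Submodule.span F {v} ≤ _) (Submodule.mem_span_singleton_self v))
    simp only [map_add, LinearMap.add_apply, map_smul, LinearMap.smul_apply, smul_eq_mul, halt, mul_zero,
      add_zero, zero_add] at h3 h4
    rw [hskew w v, mul_neg, neg_eq_zero] at h4
    rw [(mul_eq_zero.1 h3).resolve_right h, (mul_eq_zero.1 h4).resolve_right h]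
    simp

/-- `x² = 1` -/
theorem pol_true [FiniteDimensional F V] (h2 : (2 : F) ≠ 0) (f : V →ₗ[F] V →ₗ[F] F) (halt : ∀ v, f v v = 0)
    (x : V →ₗ[F] V) (hx2 : ∀ v, x (x v) = v)
    (hiso : ∀ u v, f (x u) (x v) = f u v) (W : Submodule F V) (hW : ∀ w ∈ W, x w ∈ W) (hND : NDon f W) :
    Pol f x true W := by
  refine ind_nondeg f (fun u v h => by rw [skew_of_alt f halt, h, neg_zero]) x 1 1 one_ne_zero
    (fun v => by rw [hx2, one_smul]) (fun u v => by rw [hiso, one_mul]) (Pol f x true)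
    ⟨⊥, ⊥, disjoint_bot_left, by simp, by simp, by simp, fun _ => by simp, fun _ => by simp⟩ ?_
    (fun _ _ h1 h2 h3 h4 => h1.sup h2 h3 h4) _ W rfl hW hND
  intro W hW hND hb
  obtain ⟨v0, hv0W, hv0⟩ := (Submodule.ne_bot_iff W).1 hb
  obtain ⟨v, ε, hvW, hv, hε, hxv⟩ : ∃ (v : V) (ε : F), v ∈ W ∧ v ≠ 0 ∧ ε * ε = 1 ∧ x v = ε • v := by
    by_cases h : v0 + x v0 = 0
    · refine ⟨v0, -1, hv0W, hv0, by ring, ?_⟩
      rw [neg_one_smul]
      exact (neg_eq_of_add_eq_zero_right h).symm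
    · refine ⟨v0 + x v0, 1, W.add_mem hv0W (hW _ hv0W), h, by ring, ?_⟩
      rw [map_add, hx2, one_smul, add_comm]
  obtain ⟨w0, hw0W, hvw0⟩ : ∃ w ∈ W, f v w ≠ 0 := by
    by_contra hcon
    push Not at hcon
    exact hv (hND v hvW hcon)
  have h5 : f v (x w0) = ε * f v w0 := by
    rw [← hiso, hx2, hxv, map_smul, LinearMap.smul_apply, smul_eq_mul]
  have hvw : f v (w0 + ε • x w0) ≠ 0 := by
    rw [map_add, map_smul, smul_eq_mul, h5, ← mul_assoc, hε, one_mul, ← two_mul]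
    exact mul_ne_zero h2 hvw0
  obtain ⟨h6, h7⟩ := hyp_pair f halt v _ hvw
  set w := w0 + ε • x w0 with hw
  have hxw : x w = ε • w := by
    rw [hw, map_add, map_smul, hx2, smul_add, smul_smul, hε, one_smul, add_comm]
  have hwW : w ∈ W := W.add_mem hw0W (W.smul_mem _ (hW _ hw0W))
  have hinv : ∀ (y : V), x y = ε • y → ∀ u ∈ Submodule.span F {y}, x u ∈ Submodule.span F {y} := by
    intro y hy u hu
    obtain ⟨a, rfl⟩ := Submodule.mem_span_singleton.1 hu
    rw [map_smul, hy]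
    exact Submodule.smul_mem _ _ (Submodule.smul_mem _ _ (Submodule.mem_span_singleton_self y))
  have hisot : ∀ (y : V), ∀ u ∈ Submodule.span F {y}, ∀ u' ∈ Submodule.span F {y}, f u u' = 0 := by
    intro y u hu u' hu'
    obtain ⟨a, rfl⟩ := Submodule.mem_span_singleton.1 hu
    obtain ⟨b, rfl⟩ := Submodule.mem_span_singleton.1 hu'
    simp [halt]
  refine ⟨Submodule.span F {v} ⊔ Submodule.span F {w}, ?_, ?_, ?_, h7, ?_⟩
  · refine sup_le ?_ ?_
    · rw [Submodule.span_singleton_le_iff_mem]; exact hvW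
    · rw [Submodule.span_singleton_le_iff_mem]; exact hwW
  · intro h
    have : v ∈ (Submodule.span F {v} ⊔ Submodule.span F {w} : Submodule F V) :=
      (le_sup_left : Submodule.span F {v} ≤ _) (Submodule.mem_span_singleton_self v)
    rw [h] at this
    exact hv this
  · intro u hu
    obtain ⟨a, ha, b, hb, rfl⟩ := Submodule.mem_sup.1 hu
    rw [map_add]
    exact Submodule.add_mem_sup (hinv v hxv a ha) (hinv w hxw b hb)
  · exact ⟨_, _, h6, rfl, hisot v, hisot w, fun _ => ⟨hinv v hxv, hinv w hxw⟩, fun h => absurd h (by decide)⟩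

/-- `x² = -1` -/
theorem pol_false [FiniteDimensional F V] (h2 : (2 : F) ≠ 0) (f : V →ₗ[F] V →ₗ[F] F) (halt : ∀ v, f v v = 0)
    (x : V →ₗ[F] V) (hx2 : ∀ v, x (x v) = - v)
    (hiso : ∀ u v, f (x u) (x v) = f u v) (W : Submodule F V) (hW : ∀ w ∈ W, x w ∈ W) (hND : NDon f W) :
    Pol f x false W := by
  have hskew := skew_of_alt f halt
  refine ind_nondeg f (fun u v h => by rw [skew_of_alt f halt, h, neg_zero]) x (-1) 1 (by simp)
    (fun v => by rw [hx2, neg_one_smul]) (fun u v => by rw [hiso, one_mul]) (Pol f x false)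
    ⟨⊥, ⊥, disjoint_bot_left, by simp, by simp, by simp, fun _ => by simp, fun _ => by simp⟩ ?_
    (fun _ _ h1 h2 h3 h4 => h1.sup h2 h3 h4) _ W rfl hW hND
  intro W hW hND hb
  obtain ⟨v, hvW, hvx⟩ : ∃ v ∈ W, f v (x v) ≠ 0 := by
    by_contra hcon
    push Not at hcon
    obtain ⟨u, huW, hu⟩ := (Submodule.ne_bot_iff W).1 hb
    apply hu
    refine hND u huW fun v hv => ?_
    have h3 : ∀ v ∈ W, f u (x v) = 0 := by
      intro v hv
      have h4 := hcon (u + v) (W.add_mem huW hv)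
      simp only [map_add, LinearMap.add_apply, hcon u huW, hcon v hv, zero_add, add_zero] at h4
      have h5 : f v (x u) = f u (x v) := by
        rw [hskew, ← hiso (x u) v, hx2, map_neg, LinearMap.neg_apply, neg_neg]
      rw [h5, ← two_mul] at h4
      exact (mul_eq_zero.1 h4).resolve_left h2
    have h6 := h3 (x v) (hW v hv)
    rwa [hx2, map_neg, neg_eq_zero] at h6
  obtain ⟨h6, h7⟩ := hyp_pair f halt v _ hvx
  have hinv : ∀ (y y' : V), (∃ c : F, x y = c • y') → ∀ u ∈ Submodule.span F {y}, x u ∈ Submodule.span F {y'} := by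
    rintro y y' ⟨c, hy⟩ u hu
    obtain ⟨a, rfl⟩ := Submodule.mem_span_singleton.1 hu
    rw [map_smul, hy]
    exact Submodule.smul_mem _ _ (Submodule.smul_mem _ _ (Submodule.mem_span_singleton_self y'))
  have hisot : ∀ (y : V), ∀ u ∈ Submodule.span F {y}, ∀ u' ∈ Submodule.span F {y}, f u u' = 0 := by
    intro y u hu u' hu'
    obtain ⟨a, rfl⟩ := Submodule.mem_span_singleton.1 hu
    obtain ⟨b, rfl⟩ := Submodule.mem_span_singleton.1 hu'
    simp [halt]
  have hi1 := hinv v (x v) ⟨1, by rw [one_smul]⟩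
  have hi2 := hinv (x v) v ⟨-1, by rw [hx2, neg_one_smul]⟩
  refine ⟨Submodule.span F {v} ⊔ Submodule.span F {x v}, ?_, ?_, ?_, h7, ?_⟩
  · refine sup_le ?_ ?_
    · rw [Submodule.span_singleton_le_iff_mem]; exact hvW
    · rw [Submodule.span_singleton_le_iff_mem]; exact hW v hvW
  · intro h
    have : v ∈ (Submodule.span F {v} ⊔ Submodule.span F {x v} : Submodule F V) :=
      (le_sup_left : Submodule.span F {v} ≤ _) (Submodule.mem_span_singleton_self v)
    rw [h] at this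
    have hv0 : v = 0 := this
    apply hvx
    rw [hv0, map_zero, LinearMap.zero_apply]
  · intro u hu
    obtain ⟨a, ha, b, hb, rfl⟩ := Submodule.mem_sup.1 hu
    rw [map_add, add_comm]
    exact Submodule.add_mem_sup (hi2 b hb) (hi1 a ha)
  · exact ⟨_, _, h6, rfl, hisot v, hisot (x v), fun h => absurd h (by decide), fun _ => ⟨hi1, hi2⟩⟩

/-- data of a symplectic matrix whose square is scalar -/
lemma symp_data {d : ℕ} (hd : 1 ≤ d) (x : ↥(Matrix.symplecticGroup (Fin d) F))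
    (hx1 : ∃ z : F, ((x ^ 2 : ↥(Matrix.symplecticGroup (Fin d) F)) : Matrix (Fin d ⊕ Fin d) (Fin d ⊕ Fin d) F) = z • (1 : Matrix (Fin d ⊕ Fin d) (Fin d ⊕ Fin d) F)) :
    ∃ z : F, z * z = 1 ∧ (∀ v, Matrix.toLin' (x : Matrix (Fin d ⊕ Fin d) (Fin d ⊕ Fin d) F)
      (Matrix.toLin' (x : Matrix (Fin d ⊕ Fin d) (Fin d ⊕ Fin d) F) v) = z • v) ∧
      Function.Injective (Matrix.toLin' (x : Matrix (Fin d ⊕ Fin d) (Fin d ⊕ Fin d) F)) ∧
      ∀ u v, (Cfsg.Agent.H22.spB d F : (Fin d ⊕ Fin d → F) →ₗ[F] (Fin d ⊕ Fin d → F) →ₗ[F] F)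
        (Matrix.toLin' (x : Matrix (Fin d ⊕ Fin d) (Fin d ⊕ Fin d) F) u)
        (Matrix.toLin' (x : Matrix (Fin d ⊕ Fin d) (Fin d ⊕ Fin d) F) v) = Cfsg.Agent.H22.spB d F u v := by
  obtain ⟨z, hz⟩ := hx1
  have hxx : ∀ v, Matrix.toLin' (x : Matrix (Fin d ⊕ Fin d) (Fin d ⊕ Fin d) F)
      (Matrix.toLin' (x : Matrix (Fin d ⊕ Fin d) (Fin d ⊕ Fin d) F) v) = z • v := by
    intro v
    rw [Matrix.toLin'_apply, Matrix.toLin'_apply, Matrix.mulVec_mulVec]
    have e1 : (x : Matrix (Fin d ⊕ Fin d) (Fin d ⊕ Fin d) F) * (x : Matrix (Fin d ⊕ Fin d) (Fin d ⊕ Fin d) F) =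
        z • (1 : Matrix (Fin d ⊕ Fin d) (Fin d ⊕ Fin d) F) := by
      rw [← hz, pow_two]; rfl
    rw [e1, Matrix.smul_mulVec, Matrix.one_mulVec]
  have hiso : ∀ u v, (Cfsg.Agent.H22.spB d F : (Fin d ⊕ Fin d → F) →ₗ[F] (Fin d ⊕ Fin d → F) →ₗ[F] F)
        (Matrix.toLin' (x : Matrix (Fin d ⊕ Fin d) (Fin d ⊕ Fin d) F) u)
        (Matrix.toLin' (x : Matrix (Fin d ⊕ Fin d) (Fin d ⊕ Fin d) F) v) = Cfsg.Agent.H22.spB d F u v := by
    intro u v
    exact Cfsg.Agent.H22.spToLin_isometry x u v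
  have hinj : Function.Injective (Matrix.toLin' (x : Matrix (Fin d ⊕ Fin d) (Fin d ⊕ Fin d) F)) :=
    (Cfsg.Agent.H22.spToLin x).injective
  refine ⟨z, ?_, hxx, hinj, hiso⟩
  obtain ⟨u, v, huv⟩ : ∃ u v, Cfsg.Agent.H22.spB d F u v ≠ 0 := by
    by_contra hcon
    push Not at hcon
    have h1 : (Pi.single (Sum.inl ⟨0, by omega⟩) (1 : F) : Fin d ⊕ Fin d → F) = 0 :=
      Cfsg.Agent.H22.spB_nondeg.1 _ (fun v => hcon _ v)
    have h2 := congrFun h1 (Sum.inl ⟨0, by omega⟩)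
    simp at h2
  have h3 := hiso (Matrix.toLin' (x : Matrix (Fin d ⊕ Fin d) (Fin d ⊕ Fin d) F) u)
    (Matrix.toLin' (x : Matrix (Fin d ⊕ Fin d) (Fin d ⊕ Fin d) F) v)
  rw [hxx, hxx, hiso] at h3
  simp only [map_smul, LinearMap.smul_apply, smul_eq_mul, ← mul_assoc] at h3
  exact mul_right_cancel₀ huv (by rw [h3, one_mul])

end CfsgLib.Invo29
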