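import Cfsg.Agent.LibInvo29d

/-! Maps with scalar square: blocks of size two with prescribed determinant (seat helper29). -/

namespace CfsgLib.Invo29

open Module

variable {F V : Type*} [Field F] [AddCommGroup V] [Module F V]

lemma scalar_on (x : V →ₗ[F] V) (W : Submodule F V) (h : ∀ v ∈ W, x v ∈ Submodule.span F {v}) :
    ∃ c : F, ∀ v ∈ W, x v = c • v := by
  by_cases hb : W = ⊥
  · exact ⟨0, fun v hv => by
      rw [hb] at hv
      rw [(Submodule.mem_bot F).1 hv]; simp⟩
  obtain ⟨v0, hv0W, hv0⟩ := (Submodule.ne_bot_iff W).1 hb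
  obtain ⟨c, hc⟩ := Submodule.mem_span_singleton.1 (h v0 hv0W)
  refine ⟨c, fun w hw => ?_⟩
  by_cases hw0 : ∃ a : F, a • v0 = w
  · obtain ⟨a, rfl⟩ := hw0
    rw [map_smul, ← hc, smul_comm]
  · push Not at hw0
    obtain ⟨d, hd⟩ := Submodule.mem_span_singleton.1 (h w hw)
    obtain ⟨e, he⟩ := Submodule.mem_span_singleton.1 (h (v0 + w) (W.add_mem hv0W hw))
    rw [map_add, ← hc, ← hd, smul_add] at he
    have h1 : (d - e) • w = (e - c) • v0 := by
      rw [sub_smul, sub_smul, sub_eq_sub_iff_add_eq_add, add_comm, ← he]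
    have h2 : d = e := by
      by_contra hne
      apply hw0 ((d - e)⁻¹ * (e - c))
      rw [mul_smul, ← h1, smul_smul, inv_mul_cancel₀ (sub_ne_zero.2 hne), one_smul]
    rw [h2, sub_self, zero_smul] at h1
    have h3 : e = c := sub_eq_zero.1 ((smul_eq_zero.1 h1.symm).resolve_right hv0)
    rw [← hd, h2, h3]

/-- peeling off a cyclic block of size two -/
lemma peel2 (x : V →ₗ[F] V) (z : F) (hx2 : ∀ v, x (x v) = z • v) (W : Submodule F V)
    (hW : ∀ w ∈ W, x w ∈ W) (v : V) (hvW : v ∈ W) (hv : x v ∉ Submodule.span F {v}) :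
    LinearIndependent F ![v, x v] ∧ ∃ C ≤ W, (∀ w ∈ C, x w ∈ C) ∧ Disjoint (Submodule.span F {v, x v}) C ∧
      Submodule.span F {v, x v} ⊔ C = W := by
  have hv0 : v ≠ 0 := by
    rintro rfl
    exact hv (by simp)
  have hli : LinearIndependent F ![v, x v] := by
    rw [LinearIndependent.pair_iff]
    intro s t hst
    have ht : t = 0 := by
      by_contra ht
      apply hv
      rw [Submodule.mem_span_singleton]
      refine ⟨-(t⁻¹ * s), ?_⟩
      have : t • x v = -(s • v) := by
        rw [eq_neg_iff_add_eq_zero, add_comm]; exact hst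
      calc (-(t⁻¹ * s)) • v = t⁻¹ • (-(s • v)) := by rw [smul_neg, smul_smul, neg_smul]
        _ = x v := by rw [← this, smul_smul, inv_mul_cancel₀ ht, one_smul]
    subst ht
    rw [zero_smul, add_zero] at hst
    exact ⟨(smul_eq_zero.1 hst).resolve_right hv0, rfl⟩
  obtain ⟨φ, hφ1, hφ2⟩ : ∃ φ : V →ₗ[F] F, φ v = 0 ∧ φ (x v) = 1 := by
    obtain ⟨φ, hφ⟩ := Submodule.exists_le_ker_of_notMem (p := Submodule.span F {v}) hv
    refine ⟨(φ (x v))⁻¹ • φ, ?_, ?_⟩
    · have : φ v = 0 := hφ.2 (Submodule.mem_span_singleton_self v)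
      simp [this]
    · simp [hφ.1]
  refine ⟨hli, W ⊓ (LinearMap.ker φ ⊓ LinearMap.ker (φ ∘ₗ x)), inf_le_left, ?_, ?_, ?_⟩
  · rintro w ⟨h1, h2, h3⟩
    refine ⟨hW w h1, h3, ?_⟩
    show φ (x (x w)) = 0
    rw [hx2, map_smul]
    have : φ w = 0 := h2
    rw [this, smul_zero]
  · rw [Submodule.disjoint_def]
    intro u hu hC
    obtain ⟨α, β, rfl⟩ := Submodule.mem_span_pair.1 hu
    have h1 : φ (α • v + β • x v) = 0 := hC.2.1
    have h2 : φ (x (α • v + β • x v)) = 0 := hC.2.2
    rw [map_add, map_smul, map_smul, hφ1, hφ2] at h1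
    rw [map_add, map_smul, map_smul, hx2, map_add, map_smul, map_smul, map_smul, hφ1, hφ2] at h2
    have hβ : β = 0 := by simpa using h1
    have hα : α = 0 := by simpa using h2
    rw [hα, hβ]; simp
  · apply le_antisymm
    · refine sup_le ?_ inf_le_left
      rw [Submodule.span_le]
      rintro _ (rfl | rfl)
      · exact hvW
      · exact hW _ hvW
    · intro w hw
      have e1 : w = ((φ (x w)) • v + (φ w) • x v) + (w - ((φ (x w)) • v + (φ w) • x v)) := by abel
      rw [e1]
      refine Submodule.add_mem_sup (Submodule.mem_span_pair.2 ⟨_, _, rfl⟩) ⟨?_, ?_, ?_⟩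
      · refine W.sub_mem hw (W.add_mem (W.smul_mem _ hvW) (W.smul_mem _ (hW _ hvW)))
      · show φ _ = 0
        simp [hφ1, hφ2]
      · show φ (x _) = 0
        simp [hφ1, hφ2, hx2]

/-- `W` has a basis made of blocks of size two, each invariant under `x` with determinant `μ`. -/
def StrM (x : V →ₗ[F] V) (μ : F) (W : Submodule F V) : Prop :=
  ∃ (ι : Type) (_ : Fintype ι) (b : ι × Fin 2 → V) (α β γ δ : ι → F), LinearIndependent F b ∧
    Submodule.span F (Set.range b) = W ∧ (∀ i, x (b (i, 0)) = α i • b (i, 0) + γ i • b (i, 1)) ∧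
    (∀ i, x (b (i, 1)) = β i • b (i, 0) + δ i • b (i, 1)) ∧ ∀ i, α i * δ i - β i * γ i = μ

lemma StrM.bot (x : V →ₗ[F] V) (μ : F) : StrM x μ ⊥ := by
  refine ⟨Empty, inferInstance, fun p => p.1.elim, fun i => i.elim, fun i => i.elim, fun i => i.elim,
    fun i => i.elim, linearIndependent_empty_type, ?_, fun i => i.elim, fun i => i.elim, fun i => i.elim⟩
  rw [Set.range_eq_empty, Submodule.span_empty]

lemma StrM.sup {x : V →ₗ[F] V} {μ : F} {W W' : Submodule F V} (h : StrM x μ W)
    (h' : StrM x μ W') (hd : Disjoint W W') : StrM x μ (W ⊔ W') := by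
  obtain ⟨ι, _, b, α, β, γ, δ, h2, h3, h4, h5, h6⟩ := h
  obtain ⟨ι', _, b', α', β', γ', δ', h2', h3', h4', h5', h6'⟩ := h'
  have hbW : ∀ p, b p ∈ W := fun p => by rw [← h3]; exact Submodule.subset_span ⟨p, rfl⟩
  have hbW' : ∀ p, b' p ∈ W' := fun p => by rw [← h3']; exact Submodule.subset_span ⟨p, rfl⟩
  refine ⟨ι ⊕ ι', inferInstance, fun p => Sum.elim (fun i => b (i, p.2)) (fun i => b' (i, p.2)) p.1,
    Sum.elim α α', Sum.elim β β', Sum.elim γ γ', Sum.elim δ δ', ?_, ?_, ?_, ?_, ?_⟩
  · have hs : LinearIndependent F (Sum.elim b b') := h2.sum_type h2' (by rw [h3, h3']; exact hd)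
    have := hs.comp (Equiv.sumProdDistrib ι ι' (Fin 2)) (Equiv.injective _)
    convert this using 1
    ext ⟨i | i, k⟩ <;> rfl
  · apply le_antisymm
    · rw [Submodule.span_le]
      rintro _ ⟨⟨i | i, k⟩, rfl⟩
      · exact (le_sup_left : W ≤ W ⊔ W') (hbW _)
      · exact (le_sup_right : W' ≤ W ⊔ W') (hbW' _)
    · refine sup_le ?_ ?_
      · rw [← h3, Submodule.span_le]
        rintro _ ⟨⟨i, k⟩, rfl⟩
        exact Submodule.subset_span ⟨(Sum.inl i, k), rfl⟩
      · rw [← h3', Submodule.span_le]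
        rintro _ ⟨⟨i, k⟩, rfl⟩
        exact Submodule.subset_span ⟨(Sum.inr i, k), rfl⟩
  · rintro (i | i)
    · exact h4 i
    · exact h4' i
  · rintro (i | i)
    · exact h5 i
    · exact h5' i
  · rintro (i | i)
    · exact h6 i
    · exact h6' i

lemma strM_scalar [FiniteDimensional F V] (x : V →ₗ[F] V) (c : F) (W : Submodule F V) (h : ∀ v ∈ W, x v = c • v)
    (he : Even (finrank F W)) : StrM x (c * c) W := by
  obtain ⟨k, hk⟩ := he
  let b := finBasisOfFinrankEq F W (n := k * 2) (by omega)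
  refine ⟨Fin k, inferInstance, fun p => (b (finProdFinEquiv p) : V), fun _ => c, fun _ => 0, fun _ => 0,
    fun _ => c, ?_, ?_, ?_, ?_, ?_⟩
  · have h1 : LinearIndependent F (fun i => (b i : V)) :=
      b.linearIndependent.map' W.subtype (Submodule.ker_subtype W)
    exact h1.comp finProdFinEquiv finProdFinEquiv.injective
  · have e1 : Set.range (fun p : Fin k × Fin 2 => (b (finProdFinEquiv p) : V)) = W.subtype '' Set.range b := by
      ext v
      constructor
      · rintro ⟨p, rfl⟩
        exact ⟨b _, ⟨_, rfl⟩, rfl⟩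
      · rintro ⟨_, ⟨i, rfl⟩, rfl⟩
        exact ⟨finProdFinEquiv.symm i, congrArg (fun j => (b j : V)) (finProdFinEquiv.apply_symm_apply i)⟩
    rw [e1, ← Submodule.map_span, b.span_eq, Submodule.map_top, Submodule.range_subtype]
  · intro i
    rw [h _ (b _).2]; simp
  · intro i
    rw [h _ (b _).2]; simp
  · intro i; ring

lemma finrank_pair {v w : V} (h : LinearIndependent F ![v, w]) : finrank F (Submodule.span F {v, w}) = 2 := by
  have h1 := finrank_span_eq_card h
  rw [Matrix.range_cons_cons_empty] at h1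
  simpa using h1

/-- blocks of determinant `-z` -/
theorem strM_neg [FiniteDimensional F V] (x : V →ₗ[F] V) (z : F) (hx2 : ∀ v, x (x v) = z • v)
    (hsc : ∀ c : F, c * c = z → z = -z) :
    ∀ n, ∀ W : Submodule F V, finrank F W = n → (∀ w ∈ W, x w ∈ W) → Even (finrank F W) → StrM x (-z) W := by
  intro n
  induction n using Nat.strong_induction_on with
  | _ n ih =>
    intro W hn hW he
    by_cases hall : ∀ v ∈ W, x v ∈ Submodule.span F {v}
    · obtain ⟨c, hc⟩ := scalar_on x W hall
      by_cases hb : W = ⊥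
      · rw [hb]; exact StrM.bot x _
      obtain ⟨v, hvW, hv⟩ := (Submodule.ne_bot_iff W).1 hb
      have hcc : c * c = z := by
        have h1 := hx2 v
        rw [hc v hvW, map_smul, hc v hvW, smul_smul] at h1
        have h2 : (c * c - z) • v = 0 := by rw [sub_smul, h1, sub_self]
        exact sub_eq_zero.1 ((smul_eq_zero.1 h2).resolve_right hv)
      rw [← hsc c hcc, ← hcc]
      exact strM_scalar x c W hc he
    · push Not at hall
      obtain ⟨v, hvW, hv⟩ := hall
      obtain ⟨hli, C, hCW, hCx, hd, hs⟩ := peel2 x z hx2 W hW v hvW hv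
      have hfr : finrank F W = 2 + finrank F C := by
        have h1 := Submodule.finrank_sup_add_finrank_inf_eq (Submodule.span F {v, x v}) C
        rw [hd.eq_bot, finrank_bot, add_zero, hs, finrank_pair hli] at h1
        exact h1
      rw [← hs]
      refine StrM.sup ?_ (ih (finrank F C) (by omega) C rfl hCx ?_) hd
      · refine ⟨Fin 1, inferInstance, fun p => ![v, x v] p.2, fun _ => 0, fun _ => z, fun _ => 1, fun _ => 0, ?_, ?_, ?_, ?_, ?_⟩
        · exact hli.comp (fun p : Fin 1 × Fin 2 => p.2) (by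
            rintro ⟨i, k⟩ ⟨j, l⟩ h
            have hk : i = j := Subsingleton.elim _ _
            exact Prod.ext hk h)
        · refine congrArg (Submodule.span F) ?_
          ext u
          constructor
          · rintro ⟨⟨i, k⟩, rfl⟩
            fin_cases k
            · left; rfl
            · right; rfl
          · rintro (rfl | rfl)
            · exact ⟨(0, 0), rfl⟩
            · exact ⟨(0, 1), rfl⟩
        · intro i
          show x v = (0 : F) • v + (1 : F) • x v
          rw [zero_smul, one_smul, zero_add]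
        · intro i
          show x (x v) = z • v + (0 : F) • x v
          rw [zero_smul, add_zero, hx2]
        · intro i; ring
      · rw [hfr] at he
        rcases he with ⟨k, hk⟩
        exact ⟨k - 1, by omega⟩

/-- A hyperbolic basis. -/
theorem exists_hyp [FiniteDimensional F V] (f : V →ₗ[F] V →ₗ[F] F) (halt : ∀ v, f v v = 0) (hND : NDon f ⊤) :
    ∃ (ι : Type) (_ : Fintype ι) (e : Basis (ι × Fin 2) F V), (∀ i, f (e (i, 0)) (e (i, 1)) = 1) ∧
      ∀ i j, i ≠ j → ∀ k l, f (e (i, k)) (e (j, l)) = 0 := by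
  obtain ⟨ι, _, b, τ, -, h2, h3, h4, -⟩ := str_symp f halt LinearMap.id 1 1 one_ne_zero one_ne_zero (fun v => by simp)
    (fun u v => by simp) ⊤ (fun _ _ => Submodule.mem_top) hND
  let B : Basis (ι × Fin 2) F V := Basis.mk h2 h3.ge
  have hB : ∀ p, B p = b p := fun p => Basis.mk_apply _ _ _
  have hne : ∀ i, f (b (i, 0)) (b (i, 1)) ≠ 0 := by
    intro i hi
    have hz : b (i, 0) = 0 := by
      refine hND _ Submodule.mem_top fun v _ => ?_
      have : f (b (i, 0)) = 0 := by
        refine B.ext fun p => ?_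
        rw [hB]
        obtain ⟨j, k⟩ := p
        by_cases hij : i = j
        · subst hij
          fin_cases k
          · simpa using halt _
          · simpa using hi
        · simpa using h4 i j hij 0 k
      rw [this]; rfl
    exact h2.ne_zero (i, 0) hz
  let w : ι × Fin 2 → Fˣ := fun p => if p.2 = 0 then 1 else (Units.mk0 _ (hne p.1))⁻¹
  refine ⟨ι, inferInstance, B.unitsSMul w, ?_, ?_⟩
  · intro i
    rw [Basis.unitsSMul_apply, Basis.unitsSMul_apply, hB, hB]
    simp only [w, Units.smul_def]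
    simp [hne i]
  · intro i j hij k l
    rw [Basis.unitsSMul_apply, Basis.unitsSMul_apply, hB, hB]
    simp only [Units.smul_def, map_smul, LinearMap.smul_apply, h4 i j hij k l, smul_zero]

/-- Transport of `x` into the similarity group of `f`. -/
theorem exists_simil [FiniteDimensional F V] (f : V →ₗ[F] V →ₗ[F] F) (halt : ∀ v, f v v = 0) (hND : NDon f ⊤)
    (x : V →ₗ[F] V) (μ : F) (hx : StrM x μ ⊤) :
    ∃ P : V ≃ₗ[F] V, ∀ u v, f (P.symm (x (P u))) (P.symm (x (P v))) = μ * f u v := by
  have hskew := skew_of_alt f halt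
  obtain ⟨ι, _, e, he1, he2⟩ := exists_hyp f halt hND
  obtain ⟨ι', _, b, α, β, γ, δ, h2, h3, h4, h5, h6⟩ := hx
  let B : Basis (ι' × Fin 2) F V := Basis.mk h2 h3.ge
  have hB : ∀ p, B p = b p := fun p => Basis.mk_apply _ _ _
  have hcard : Fintype.card ι = Fintype.card ι' := by
    have h7 := finrank_eq_card_basis e
    have h8 := finrank_eq_card_basis B
    rw [Fintype.card_prod, Fintype.card_fin] at h7 h8
    omega
  let E : ι ≃ ι' := Fintype.equivOfCardEq hcard
  let P : V ≃ₗ[F] V := e.equiv B (E.prodCongr (Equiv.refl _))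
  have hP : ∀ i k, P (e (i, k)) = b (E i, k) := by
    intro i k
    show e.equiv B _ (e (i, k)) = _
    rw [Basis.equiv_apply, hB]; rfl
  have hPs : ∀ i k, P.symm (b (E i, k)) = e (i, k) := by
    intro i k
    rw [← hP, LinearEquiv.symm_apply_apply]
  refine ⟨P, ?_⟩
  let y : V →ₗ[F] V := (P.symm : V →ₗ[F] V) ∘ₗ x ∘ₗ (P : V →ₗ[F] V)
  have hy0 : ∀ i, y (e (i, 0)) = α (E i) • e (i, 0) + γ (E i) • e (i, 1) := by
    intro i
    show P.symm (x (P (e (i, 0)))) = _
    rw [hP, h4, map_add, map_smul, map_smul, hPs, hPs]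
  have hy1 : ∀ i, y (e (i, 1)) = β (E i) • e (i, 0) + δ (E i) • e (i, 1) := by
    intro i
    show P.symm (x (P (e (i, 1)))) = _
    rw [hP, h5, map_add, map_smul, map_smul, hPs, hPs]
  have key : (f.compl₁₂ y y) = μ • f := by
    refine e.ext fun p => e.ext fun q => ?_
    obtain ⟨i, k⟩ := p
    obtain ⟨j, l⟩ := q
    rw [LinearMap.compl₁₂_apply, LinearMap.smul_apply, LinearMap.smul_apply, smul_eq_mul]
    by_cases hij : i = j
    · subst hij
      have h01 : f (y (e (i, 0))) (y (e (i, 1))) = μ := by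
        rw [hy0, hy1]
        simp only [map_add, LinearMap.add_apply, map_smul, LinearMap.smul_apply, smul_eq_mul, halt, he1,
          hskew (e (i, 1)) (e (i, 0))]
        rw [← h6 (E i)]; ring
      fin_cases k <;> fin_cases l
      · simp [halt]
      · show f (y (e (i, 0))) (y (e (i, 1))) = μ * f (e (i, 0)) (e (i, 1))
        rw [h01, he1, mul_one]
      · show f (y (e (i, 1))) (y (e (i, 0))) = μ * f (e (i, 1)) (e (i, 0))
        rw [hskew, h01, hskew (e (i, 1)), he1]; ring
      · simp [halt]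
    · rw [he2 i j hij k l, mul_zero]
      have hall : ∀ (k : Fin 2), ∃ a c : F, y (e (i, k)) = a • e (i, 0) + c • e (i, 1) := by
        intro k; fin_cases k
        · exact ⟨_, _, hy0 i⟩
        · exact ⟨_, _, hy1 i⟩
      have hall' : ∀ (k : Fin 2), ∃ a c : F, y (e (j, k)) = a • e (j, 0) + c • e (j, 1) := by
        intro k; fin_cases k
        · exact ⟨_, _, hy0 j⟩
        · exact ⟨_, _, hy1 j⟩
      obtain ⟨a, c, h7⟩ := hall k
      obtain ⟨a', c', h8⟩ := hall' l
      rw [h7, h8]
      simp [he2 i j hij]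
  intro u v
  have := LinearMap.congr_fun (LinearMap.congr_fun key u) v
  rw [LinearMap.compl₁₂_apply, LinearMap.smul_apply, LinearMap.smul_apply, smul_eq_mul] at this
  exact this

end CfsgLib.Invo29
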