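import Cfsg.Agent.LibInvo29e

/-! Determinants of maps commuting with `x` (seat helper29). -/

namespace CfsgLib.Invo29

open Module Matrix

section field
variable {F : Type*} [Field F] [Fintype F]

/-- the binary form `a² - z b²` is universal -/
lemma universal_binary (z : F) (hz : z ≠ 0) (δ : F) : ∃ a b : F, a * a - z * (b * b) = δ := by
  by_cases h2 : (2 : F) = 0
  · have hchar : ringChar F = 2 := by
      have h3 : ((2 : ℕ) : F) = 0 := by exact_mod_cast h2
      have h4 := (ringChar.spec F 2).1 h3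
      rcases (Nat.dvd_prime Nat.prime_two).1 h4 with h5 | h5
      · exact absurd h5 (CharP.ringChar_ne_one)
      · exact h5
    obtain ⟨a, ha⟩ := FiniteField.isSquare_of_char_two hchar δ
    exact ⟨a, 0, by rw [← ha]; ring⟩
  · have hchar : ringChar F ≠ 2 := by
      intro h
      apply h2
      have := ringChar.Nat.cast_ringChar (R := F)
      rw [h] at this
      exact_mod_cast this
    have hodd : Fintype.card F % 2 = 1 := FiniteField.odd_card_of_char_ne_two hchar
    obtain ⟨a, b, hab⟩ := FiniteField.exists_root_sum_quadratic (f := (Polynomial.X ^ 2 : Polynomial F))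
      (g := Polynomial.C (-z) * Polynomial.X ^ 2 + Polynomial.C 0 * Polynomial.X + Polynomial.C (-δ))
      (by rw [Polynomial.degree_X_pow]; rfl) (Polynomial.degree_quadratic (neg_ne_zero.2 hz)) hodd
    refine ⟨a, b, ?_⟩
    simp at hab
    linear_combination hab

end field

section adj
variable {F : Type*} [Field F] [Fintype F] {n : ℕ}

lemma exists_nonscalar_vec (x : Matrix (Fin n) (Fin n) F) (hns : ∀ c : F, x ≠ c • (1 : Matrix (Fin n) (Fin n) F)) :
    ∃ v : Fin n → F, x *ᵥ v ∉ Submodule.span F {v} := by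
  by_contra hcon
  push Not at hcon
  obtain ⟨c, hc⟩ := scalar_on (Matrix.toLin' x) ⊤ (fun v _ => by rw [Matrix.toLin'_apply]; exact hcon v)
  apply hns c
  apply Matrix.toLin'.injective
  refine LinearMap.ext fun v => ?_
  rw [hc v Submodule.mem_top, Matrix.toLin'_apply, Matrix.smul_mulVec, Matrix.one_mulVec]

/-- any determinant is realised in the centraliser of a nonscalar `x` with `x² = z` -/
theorem adjust (x : Matrix (Fin n) (Fin n) F) (z : F) (hz : z ≠ 0) (hxx : x * x = z • (1 : Matrix (Fin n) (Fin n) F))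
    (hns : ∀ c : F, x ≠ c • (1 : Matrix (Fin n) (Fin n) F)) (δ : F) :
    ∃ c : Matrix (Fin n) (Fin n) F, c * x = x * c ∧ c.det = δ := by
  obtain ⟨v, hv⟩ := exists_nonscalar_vec x hns
  obtain ⟨a, b, hab⟩ := universal_binary z hz δ
  obtain ⟨φ, hφ1, hφ2⟩ : ∃ φ : (Fin n → F) →ₗ[F] F, φ v = 0 ∧ φ (x *ᵥ v) = 1 := by
    obtain ⟨φ, hφ⟩ := Submodule.exists_le_ker_of_notMem (p := Submodule.span F {v}) hv
    refine ⟨(φ (x *ᵥ v))⁻¹ • φ, ?_, ?_⟩
    · have : φ v = 0 := hφ.2 (Submodule.mem_span_singleton_self v)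
      simp [this]
    · simp [hφ.1]
  have hx2 : ∀ u, x *ᵥ (x *ᵥ u) = z • u := by
    intro u
    rw [Matrix.mulVec_mulVec, hxx, Matrix.smul_mulVec, Matrix.one_mulVec]
  -- the row vector of `φ`
  let r : Fin n → F := fun i => φ (Pi.single i 1)
  have hr : ∀ u, r ⬝ᵥ u = φ u := by
    intro u
    rw [LinearMap.pi_apply_eq_sum_univ φ u]
    unfold dotProduct
    refine Finset.sum_congr rfl fun i _ => ?_
    have e1 : (Pi.single i 1 : Fin n → F) = fun j => if i = j then 1 else 0 := by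
      ext j; simp [Pi.single_apply, eq_comm]
    show φ (Pi.single i 1) * u i = _
    rw [smul_eq_mul, mul_comm, e1]
  let U : Matrix (Fin n) (Fin 2) F := Matrix.of fun i k => ![(a - 1) * v i + b * (x *ᵥ v) i, (a - 1) * (x *ᵥ v) i + b * z * v i] k
  let N : Matrix (Fin 2) (Fin n) F := Matrix.of fun k i => ![(r ᵥ* x) i, r i] k
  have hact : ∀ u, (1 + U * N) *ᵥ u = u + (φ (x *ᵥ u)) • ((a - 1) • v + b • (x *ᵥ v)) +
      (φ u) • ((a - 1) • (x *ᵥ v) + (b * z) • v) := by
    intro u
    have hN : N *ᵥ u = ![φ (x *ᵥ u), φ u] := by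
      ext k
      fin_cases k
      · show (r ᵥ* x) ⬝ᵥ u = _
        rw [← Matrix.dotProduct_mulVec, hr]; rfl
      · show r ⬝ᵥ u = _
        rw [hr]; rfl
    rw [Matrix.add_mulVec, Matrix.one_mulVec, ← Matrix.mulVec_mulVec, hN, add_assoc]
    congr 1
    ext i
    simp only [U, Matrix.mulVec, dotProduct, Matrix.of_apply, Fin.sum_univ_two, Pi.add_apply, Pi.smul_apply, smul_eq_mul]
    simp
    ring
  refine ⟨1 + U * N, ?_, ?_⟩
  · apply Matrix.toLin'.injective
    refine LinearMap.ext fun u => ?_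
    rw [Matrix.toLin'_mul_apply, Matrix.toLin'_mul_apply]
    simp only [Matrix.toLin'_apply]
    rw [hact, hact]
    simp only [Matrix.mulVec_add, Matrix.mulVec_smul, hx2, map_smul, smul_eq_mul]
    module
  · rw [Matrix.det_one_add_mul_comm]
    have hNU : N * U = !![a - 1, b * z; b, a - 1] := by
      have hcol0 : U.col 0 = (a - 1) • v + b • (x *ᵥ v) := by
        ext i; simp [U, Matrix.col_apply]
      have hcol1 : U.col 1 = (a - 1) • (x *ᵥ v) + (b * z) • v := by
        ext i; simp [U, Matrix.col_apply]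
      have e0 : ∀ w, (r ᵥ* x) ⬝ᵥ w = φ (x *ᵥ w) := by
        intro w; rw [← Matrix.dotProduct_mulVec, hr]
      ext k l
      fin_cases k <;> fin_cases l
      · show (r ᵥ* x) ⬝ᵥ (U.col 0) = _
        rw [hcol0, e0]
        simp [Matrix.mulVec_add, Matrix.mulVec_smul, hx2, hφ1, hφ2]
      · show (r ᵥ* x) ⬝ᵥ (U.col 1) = _
        rw [hcol1, e0]
        simp [Matrix.mulVec_add, Matrix.mulVec_smul, hx2, hφ1, hφ2]
      · show r ⬝ᵥ (U.col 0) = _
        rw [hcol0, hr]
        simp [hφ1, hφ2]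
      · show r ⬝ᵥ (U.col 1) = _
        rw [hcol1, hr]
        simp [hφ1, hφ2]
    rw [hNU]
    rw [Matrix.det_fin_two]
    simp
    linear_combination hab

/-- conjugating by a matrix of determinant 1 -/
theorem adjust_conj (x : Matrix.SpecialLinearGroup (Fin n) F) (z : F)
    (hxx : ((x ^ 2 : Matrix.SpecialLinearGroup (Fin n) F) : Matrix (Fin n) (Fin n) F) = z • (1 : Matrix (Fin n) (Fin n) F))
    (hns : ∀ c : F, (x : Matrix (Fin n) (Fin n) F) ≠ c • (1 : Matrix (Fin n) (Fin n) F))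
    (hn : 1 ≤ n) (P0 : GL (Fin n) F) : ∃ P : Matrix.SpecialLinearGroup (Fin n) F,
      Matrix.SpecialLinearGroup.toGL (P⁻¹ * x * P) = P0⁻¹ * Matrix.SpecialLinearGroup.toGL x * P0 := by
  have hxx' : (x : Matrix (Fin n) (Fin n) F) * (x : Matrix (Fin n) (Fin n) F) = z • (1 : Matrix (Fin n) (Fin n) F) := by
    rw [← hxx, pow_two]; rfl
  have hz : z ≠ 0 := by
    rintro rfl
    rw [zero_smul] at hxx'
    have h1 := congrArg Matrix.det hxx'
    haveI : Nonempty (Fin n) := ⟨⟨0, by omega⟩⟩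
    rw [Matrix.det_mul, x.2, Matrix.det_zero] at h1
    · simp at h1
  have hdP : (P0 : Matrix (Fin n) (Fin n) F).det ≠ 0 := by
    intro h
    have h1 := P0.isUnit
    rw [Matrix.isUnit_iff_isUnit_det, h] at h1
    exact not_isUnit_zero h1
  obtain ⟨c, hc1, hc2⟩ := adjust (x : Matrix (Fin n) (Fin n) F) z hz hxx' hns ((P0 : Matrix (Fin n) (Fin n) F).det)⁻¹
  let C : GL (Fin n) F := Matrix.GeneralLinearGroup.mkOfDetNeZero c (by rw [hc2]; exact inv_ne_zero hdP)
  have hC : (C : Matrix (Fin n) (Fin n) F) = c := rfl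
  have hcomm : C * Matrix.SpecialLinearGroup.toGL x = Matrix.SpecialLinearGroup.toGL x * C := by
    apply Units.ext
    exact hc1
  let P : Matrix.SpecialLinearGroup (Fin n) F := ⟨((C * P0 : GL (Fin n) F) : Matrix (Fin n) (Fin n) F), by
    rw [Units.val_mul, Matrix.det_mul, hC, hc2, inv_mul_cancel₀ hdP]⟩
  have hP : Matrix.SpecialLinearGroup.toGL P = C * P0 := Units.ext rfl
  refine ⟨P, ?_⟩
  rw [map_mul, map_mul, map_inv, hP, _root_.mul_inv_rev]
  have : C⁻¹ * Matrix.SpecialLinearGroup.toGL x * C = Matrix.SpecialLinearGroup.toGL x := by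
    rw [mul_assoc, ← hcomm, inv_mul_cancel_left]
  calc P0⁻¹ * C⁻¹ * Matrix.SpecialLinearGroup.toGL x * (C * P0) =
      P0⁻¹ * (C⁻¹ * Matrix.SpecialLinearGroup.toGL x * C) * P0 := by group
    _ = _ := by rw [this]

end adj

end CfsgLib.Invo29
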