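import Cfsg.Agent.LibInvo29f
import Cfsg.Prelude.Def_GeometricClasses

/-! Eigenspaces, powers equal to `-1`, and forms (seat helper29). -/

namespace CfsgLib.Invo29

open Module Matrix

section eig
variable {F V : Type*} [Field F] [AddCommGroup V] [Module F V]

theorem eig_split [FiniteDimensional F V] (h2 : (2 : F) ≠ 0) (x : V →ₗ[F] V) (w : F) (hw : w ≠ 0)
    (hx2 : ∀ v, x (x v) = (w * w) • v) : ∃ A B : Submodule F V, IsCompl A B ∧ (∀ v ∈ A, x v = w • v) ∧
      (∀ v ∈ B, x v = (-w) • v) ∧ LinearMap.det x = w ^ (finrank F A) * (-w) ^ (finrank F B) ∧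
      finrank F A + finrank F B = finrank F V := by
  classical
  let A : Submodule F V := LinearMap.ker (x - w • LinearMap.id)
  let B : Submodule F V := LinearMap.ker (x + w • LinearMap.id)
  have hA : ∀ v, v ∈ A ↔ x v = w • v := by
    intro v
    show (x - w • LinearMap.id : V →ₗ[F] V) v = 0 ↔ _
    rw [LinearMap.sub_apply, LinearMap.smul_apply, LinearMap.id_apply, sub_eq_zero]
  have hB : ∀ v, v ∈ B ↔ x v = (-w) • v := by
    intro v
    show (x + w • LinearMap.id : V →ₗ[F] V) v = 0 ↔ _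
    rw [LinearMap.add_apply, LinearMap.smul_apply, LinearMap.id_apply, neg_smul, add_eq_zero_iff_eq_neg]
  have h2w : 2 * w ≠ 0 := mul_ne_zero h2 hw
  have hcompl : IsCompl A B := by
    constructor
    · rw [Submodule.disjoint_def]
      intro v h1 h3
      rw [hA] at h1
      rw [hB, h1, neg_smul] at h3
      have h4 : (2 * w) • v = 0 := by
        rw [two_mul, add_smul]
        nth_rw 1 [h3]
        simp
      exact (smul_eq_zero.1 h4).resolve_left h2w
    · rw [codisjoint_iff, eq_top_iff]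
      intro v _
      have e1 : v = ((2 * w)⁻¹ • (w • v + x v)) + ((2 * w)⁻¹ • (w • v - x v)) := by
        rw [← smul_add]
        have : w • v + x v + (w • v - x v) = (2 * w) • v := by
          rw [two_mul, add_smul]; abel
        rw [this, smul_smul, inv_mul_cancel₀ h2w, one_smul]
      rw [e1]
      refine Submodule.add_mem_sup (A.smul_mem _ ((hA _).2 ?_)) (B.smul_mem _ ((hB _).2 ?_))
      · rw [map_add, map_smul, hx2, smul_add, smul_smul]; abel
      · rw [map_sub, map_smul, hx2, smul_sub, smul_smul, neg_smul, neg_mul, neg_smul]; abel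
  refine ⟨A, B, hcompl, fun v hv => (hA v).1 hv, fun v hv => (hB v).1 hv, ?_, Submodule.finrank_add_eq_of_isCompl hcompl⟩
  let bb : Basis (Fin (finrank F A) ⊕ Fin (finrank F B)) F V :=
    ((finBasis F A).prod (finBasis F B)).map (Submodule.prodEquivOfIsCompl A B hcompl)
  let d : Fin (finrank F A) ⊕ Fin (finrank F B) → F := Sum.elim (fun _ => w) (fun _ => -w)
  have hbb : ∀ j, x (bb j) = d j • bb j := by
    rintro (j | j)
    · have : bb (Sum.inl j) = (finBasis F A j : V) := by
        simp [bb]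
      rw [this]
      exact (hA _).1 (finBasis F A j).2
    · have : bb (Sum.inr j) = (finBasis F B j : V) := by
        simp [bb]
      rw [this]
      exact (hB _).1 (finBasis F B j).2
  have hmat : LinearMap.toMatrix bb bb x = Matrix.diagonal d := by
    ext i j
    rw [LinearMap.toMatrix_apply, hbb, map_smul, Basis.repr_self]
    by_cases hij : i = j
    · subst hij
      simp
    · simp [hij]
  rw [← LinearMap.det_toMatrix bb, hmat, Matrix.det_diagonal, Fintype.prod_sum_type]
  simp [d]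

theorem strM_sq [FiniteDimensional F V] (x : V →ₗ[F] V) (w : F) (A B : Submodule F V) (hc : IsCompl A B)
    (hA : ∀ v ∈ A, x v = w • v) (hB : ∀ v ∈ B, x v = (-w) • v) (hAe : Even (finrank F A)) (hBe : Even (finrank F B)) :
    StrM x (w * w) ⊤ := by
  rw [← hc.sup_eq_top]
  refine StrM.sup (strM_scalar x w A hA hAe) ?_ hc.disjoint
  have := strM_scalar x (-w) B hB hBe
  rwa [neg_mul_neg] at this

end eig

section nt
variable {F : Type*} [Field F] [Fintype F]

lemma not_pow_eq_neg_one (h2 : (2 : F) ≠ 0) (n : ℕ) (hn : n ≠ 0)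
    (h : padicValNat 2 (Fintype.card F - 1) ≤ padicValNat 2 n) (w : F) : w ^ n ≠ -1 := by
  intro hw
  have hw0 : w ≠ 0 := by
    rintro rfl
    rw [zero_pow hn] at hw
    have : (1 : F) = 0 := by rw [← neg_neg (1 : F), ← hw, neg_zero]
    exact one_ne_zero this
  have hq1 : Fintype.card F - 1 ≠ 0 := by
    have := Fintype.one_lt_card (α := F)
    omega
  obtain ⟨u, hu⟩ := (pow_padicValNat_dvd : 2 ^ padicValNat 2 (Fintype.card F - 1) ∣ Fintype.card F - 1)
  have hodd : Odd u := by
    by_contra hne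
    rw [Nat.not_odd_iff_even] at hne
    obtain ⟨r, hr⟩ := hne
    have h3 : 2 ^ (padicValNat 2 (Fintype.card F - 1) + 1) ∣ Fintype.card F - 1 := by
      refine ⟨r, ?_⟩
      rw [pow_succ, mul_assoc]
      conv_lhs => rw [hu]
      rw [hr]; ring
    exact pow_succ_padicValNat_not_dvd hq1 h3
  obtain ⟨m, hm⟩ := (Nat.pow_dvd_pow 2 h).trans pow_padicValNat_dvd
  have h4 : (w ^ n) ^ u = 1 := by
    rw [← pow_mul]
    have : n * u = (Fintype.card F - 1) * m := by
      conv_lhs => rw [hm]
      conv_rhs => rw [hu]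
      ring
    rw [this, pow_mul, FiniteField.pow_card_sub_one_eq_one w hw0, one_pow]
  rw [hw, hodd.neg_one_pow] at h4
  apply h2
  have : (1 : F) + 1 = 0 := by
    nth_rw 1 [← h4]
    simp
  rw [← one_add_one_eq_two]; exact this

lemma exists_pow_eq_neg_one (h2 : (2 : F) ≠ 0) (n : ℕ) (hn : n ≠ 0)
    (h : padicValNat 2 n < padicValNat 2 (Fintype.card F - 1)) : ∃ w : F, w ≠ 0 ∧ w ^ n = -1 := by
  have hq1 : Fintype.card F - 1 ≠ 0 := by
    have := Fintype.one_lt_card (α := F)
    omega
  obtain ⟨m, hm⟩ := (pow_padicValNat_dvd : 2 ^ padicValNat 2 n ∣ n)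
  have hodd : Odd m := by
    by_contra hne
    rw [Nat.not_odd_iff_even] at hne
    obtain ⟨r, hr⟩ := hne
    have h3 : 2 ^ (padicValNat 2 n + 1) ∣ n := by
      refine ⟨r, ?_⟩
      rw [pow_succ, mul_assoc]
      conv_lhs => rw [hm]
      rw [hr]; ring
    exact pow_succ_padicValNat_not_dvd hn h3
  obtain ⟨u, hu⟩ := (Nat.pow_dvd_pow 2 (show padicValNat 2 n + 1 ≤ padicValNat 2 (Fintype.card F - 1) from h)).trans
    pow_padicValNat_dvd
  obtain ⟨g, hg⟩ := IsCyclic.exists_ofOrder_eq_natCard (α := Fˣ)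
  have hcard : Nat.card Fˣ = Fintype.card F - 1 := by
    rw [Nat.card_units, Nat.card_eq_fintype_card]
  have hu0 : u ≠ 0 := by
    rintro rfl
    rw [mul_zero] at hu
    exact hq1 hu
  set k := padicValNat 2 n with hk
  have hhalf : g ^ (2 ^ k * u) = -1 := by
    have h5 : (g ^ (2 ^ k * u)) ^ 2 = 1 := by
      rw [← pow_mul]
      have : 2 ^ k * u * 2 = Nat.card Fˣ := by
        rw [hcard, hu, pow_succ]; ring
      rw [this, pow_card_eq_one']
    have h6 : g ^ (2 ^ k * u) ≠ 1 := by
      intro h7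
      have h8 := orderOf_dvd_of_pow_eq_one h7
      rw [hg, hcard, hu] at h8
      have h9 := Nat.le_of_dvd (Nat.pos_of_ne_zero (mul_ne_zero (pow_ne_zero _ two_ne_zero) hu0)) h8
      have h10 : 0 < 2 ^ k * u := Nat.pos_of_ne_zero (mul_ne_zero (pow_ne_zero _ two_ne_zero) hu0)
      have : 2 ^ (k + 1) * u = 2 * (2 ^ k * u) := by rw [pow_succ]; ring
      omega
    have h7 : ((g ^ (2 ^ k * u) : Fˣ) : F) * ((g ^ (2 ^ k * u) : Fˣ) : F) = 1 := by
      rw [← Units.val_mul, ← pow_two, h5, Units.val_one]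
    rcases mul_self_eq_one_iff.1 h7 with h8 | h8
    · exact absurd (Units.ext h8) h6
    · exact Units.ext (by rw [h8]; simp)
  refine ⟨((g ^ u : Fˣ) : F), Units.ne_zero _, ?_⟩
  rw [← Units.val_pow_eq_pow_val, ← pow_mul]
  have : u * n = (2 ^ k * u) * m := by
    conv_lhs => rw [hm]
    ring
  rw [this, pow_mul, hhalf, hodd.neg_one_pow]
  simp

end nt

section form
variable {F : Type*} [Field F] {n : ℕ}

/-- the bilinear map of a symplectic form -/
def bil (f : (Fin n → F) → (Fin n → F) → F) (hf : Cfsg.Geo.IsSymplecticForm f) :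
    (Fin n → F) →ₗ[F] (Fin n → F) →ₗ[F] F :=
  LinearMap.mk₂ F f (fun x y v => hf.bilinear.add_left x y v) (fun c x v => hf.bilinear.smul_left c x v)
    (fun v x y => hf.bilinear.add_right v x y) (fun c v x => hf.bilinear.smul_right c v x)

@[simp] lemma bil_apply (f : (Fin n → F) → (Fin n → F) → F) (hf : Cfsg.Geo.IsSymplecticForm f) (u v : Fin n → F) :
    bil f hf u v = f u v := rfl

lemma z_ne_zero (hn : 1 ≤ n) (x : Matrix.SpecialLinearGroup (Fin n) F) (z : F)
    (hxx : ((x ^ 2 : Matrix.SpecialLinearGroup (Fin n) F) : Matrix (Fin n) (Fin n) F) = z • (1 : Matrix (Fin n) (Fin n) F)) :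
    z ≠ 0 := by
  rintro rfl
  rw [zero_smul] at hxx
  have h1 := congrArg Matrix.det hxx
  haveI : Nonempty (Fin n) := ⟨⟨0, by omega⟩⟩
  rw [(x ^ 2).2, Matrix.det_zero] at h1
  exact one_ne_zero h1

lemma two_ne_zero_of_odd [Fintype F] (h : Odd (Fintype.card F)) : (2 : F) ≠ 0 := by
  intro h2
  have h3 : ((2 : ℕ) : F) = 0 := by exact_mod_cast h2
  have h4 := (ringChar.spec F 2).1 h3
  have h5 : ringChar F ∣ Fintype.card F := by
    rw [← ringChar.spec F]
    exact Nat.cast_card_eq_zero F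
  rcases (Nat.dvd_prime Nat.prime_two).1 h4 with h6 | h6
  · exact CharP.ringChar_ne_one h6
  · rw [h6] at h5
    exact (Nat.not_even_iff_odd.2 h) (even_iff_two_dvd.2 h5)

end form

end CfsgLib.Invo29
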