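import Cfsg.Agent.LibInvo29g

/-! Maps with a quadratic relation and no eigenvectors; degree two field subalgebras (seat helper29). -/

namespace CfsgLib.Invo29

open Module Matrix

section cyc
variable {F V : Type*} [Field F] [AddCommGroup V] [Module F V]

/-- `W` has a basis made of pairs `v, x v`. -/
def StrC (x : V →ₗ[F] V) (W : Submodule F V) : Prop :=
  ∃ (ι : Type) (_ : Fintype ι) (b : ι × Fin 2 → V), LinearIndependent F b ∧
    Submodule.span F (Set.range b) = W ∧ ∀ i, b (i, 1) = x (b (i, 0))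

lemma StrC.sup {x : V →ₗ[F] V} {W W' : Submodule F V} (h : StrC x W)
    (h' : StrC x W') (hd : Disjoint W W') : StrC x (W ⊔ W') := by
  obtain ⟨ι, _, b, h2, h3, h4⟩ := h
  obtain ⟨ι', _, b', h2', h3', h4'⟩ := h'
  have hbW : ∀ p, b p ∈ W := fun p => by rw [← h3]; exact Submodule.subset_span ⟨p, rfl⟩
  have hbW' : ∀ p, b' p ∈ W' := fun p => by rw [← h3']; exact Submodule.subset_span ⟨p, rfl⟩
  refine ⟨ι ⊕ ι', inferInstance, fun p => Sum.elim (fun i => b (i, p.2)) (fun i => b' (i, p.2)) p.1, ?_, ?_, ?_⟩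
  · have hs : LinearIndependent F (Sum.elim b b') := h2.sum_type h2' (by rw [h3, h3']; exact hd)
    have := hs.comp (Equiv.sumProdDistrib ι ι' (Fin 2)) (Equiv.injective _)
    convert this using 1
    ext ⟨i | i, k⟩ <;> rfl
  · apply le_antisymm
    · rw [Submodule.span_le]
      rintro _ ⟨⟨i | i, k⟩, rfl⟩
      · exact (le_sup_left : W ≤ W ⊔ W') (hbW _)
      · exact (le_sup_right : W' ≤ W ⊔ W') (hbW' _)
    · refine sup_le ?_ ?_
      · rw [← h3, Submodule.span_le]
        rintro _ ⟨⟨i, k⟩, rfl⟩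
        exact Submodule.subset_span ⟨(Sum.inl i, k), rfl⟩
      · rw [← h3', Submodule.span_le]
        rintro _ ⟨⟨i, k⟩, rfl⟩
        exact Submodule.subset_span ⟨(Sum.inr i, k), rfl⟩
  · rintro (i | i)
    · exact h4 i
    · exact h4' i

/-- peeling off a cyclic block of size two, general quadratic relation -/
lemma peel2' (x : V →ₗ[F] V) (t s : F) (hx2 : ∀ v, x (x v) = t • x v + s • v) (W : Submodule F V)
    (hW : ∀ w ∈ W, x w ∈ W) (v : V) (hvW : v ∈ W) (hv : x v ∉ Submodule.span F {v}) :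
    LinearIndependent F ![v, x v] ∧ ∃ C ≤ W, (∀ w ∈ C, x w ∈ C) ∧ Disjoint (Submodule.span F {v, x v}) C ∧
      Submodule.span F {v, x v} ⊔ C = W := by
  have hv0 : v ≠ 0 := by
    rintro rfl
    exact hv (by simp)
  have hli : LinearIndependent F ![v, x v] := by
    rw [LinearIndependent.pair_iff]
    intro s t hst
    have ht : t = 0 := by
      by_contra ht
      apply hv
      rw [Submodule.mem_span_singleton]
      refine ⟨-(t⁻¹ * s), ?_⟩
      have : t • x v = -(s • v) := by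
        rw [eq_neg_iff_add_eq_zero, add_comm]; exact hst
      calc (-(t⁻¹ * s)) • v = t⁻¹ • (-(s • v)) := by rw [smul_neg, smul_smul, neg_smul]
        _ = x v := by rw [← this, smul_smul, inv_mul_cancel₀ ht, one_smul]
    subst ht
    rw [zero_smul, add_zero] at hst
    exact ⟨(smul_eq_zero.1 hst).resolve_right hv0, rfl⟩
  obtain ⟨φ, hφ1, hφ2⟩ : ∃ φ : V →ₗ[F] F, φ v = 0 ∧ φ (x v) = 1 := by
    obtain ⟨φ, hφ⟩ := Submodule.exists_le_ker_of_notMem (p := Submodule.span F {v}) hv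
    refine ⟨(φ (x v))⁻¹ • φ, ?_, ?_⟩
    · have : φ v = 0 := hφ.2 (Submodule.mem_span_singleton_self v)
      simp [this]
    · simp [hφ.1]
  refine ⟨hli, W ⊓ (LinearMap.ker φ ⊓ LinearMap.ker (φ ∘ₗ x)), inf_le_left, ?_, ?_, ?_⟩
  · rintro w ⟨h1, h2, h3⟩
    refine ⟨hW w h1, h3, ?_⟩
    show φ (x (x w)) = 0
    have h2' : φ w = 0 := h2
    have h3' : φ (x w) = 0 := h3
    rw [hx2, map_add, map_smul, map_smul, h2', h3']
    simp
  · rw [Submodule.disjoint_def]
    intro u hu hC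
    obtain ⟨α, β, rfl⟩ := Submodule.mem_span_pair.1 hu
    have h1 : φ (α • v + β • x v) = 0 := hC.2.1
    have h2 : φ (x (α • v + β • x v)) = 0 := hC.2.2
    rw [map_add, map_smul, map_smul, hφ1, hφ2] at h1
    have hβ : β = 0 := by simpa using h1
    rw [hβ, zero_smul, add_zero, map_smul, map_smul, hφ2] at h2
    have hα : α = 0 := by simpa using h2
    rw [hα, hβ]; simp
  · apply le_antisymm
    · refine sup_le ?_ inf_le_left
      rw [Submodule.span_le]
      rintro _ (rfl | rfl)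
      · exact hvW
      · exact hW _ hvW
    · intro w hw
      have e1 : w = ((φ (x w) - φ w * t) • v + (φ w) • x v) + (w - ((φ (x w) - φ w * t) • v + (φ w) • x v)) := by abel
      rw [e1]
      refine Submodule.add_mem_sup (Submodule.mem_span_pair.2 ⟨_, _, rfl⟩) ⟨?_, ?_, ?_⟩
      · refine W.sub_mem hw (W.add_mem (W.smul_mem _ hvW) (W.smul_mem _ (hW _ hvW)))
      · show φ _ = 0
        simp [hφ1, hφ2]
      · show φ (x _) = 0
        simp only [map_sub, map_add, map_smul, hx2, hφ1, hφ2, smul_eq_mul]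
        ring

lemma strC_pair {x : V →ₗ[F] V} {v : V} (hli : LinearIndependent F ![v, x v]) : StrC x (Submodule.span F {v, x v}) := by
  refine ⟨Fin 1, inferInstance, fun p => ![v, x v] p.2, ?_, ?_, ?_⟩
  · exact hli.comp (fun p : Fin 1 × Fin 2 => p.2) (by
      rintro ⟨i, k⟩ ⟨j, l⟩ h
      have hk : i = j := Subsingleton.elim _ _
      exact Prod.ext hk h)
  · refine congrArg (Submodule.span F) ?_
    ext u
    constructor
    · rintro ⟨⟨i, k⟩, rfl⟩
      fin_cases k
      · left; rfl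
      · right; rfl
    · rintro (rfl | rfl)
      · exact ⟨(0, 0), rfl⟩
      · exact ⟨(0, 1), rfl⟩
  · intro i; rfl

theorem strC_of_no_eig [FiniteDimensional F V] (x : V →ₗ[F] V) (t s : F) (hx2 : ∀ v, x (x v) = t • x v + s • v)
    (hno : ∀ v, v ≠ 0 → x v ∉ Submodule.span F {v}) :
    ∀ n, ∀ W : Submodule F V, finrank F W = n → (∀ w ∈ W, x w ∈ W) → StrC x W := by
  intro n
  induction n using Nat.strong_induction_on with
  | _ n ih =>
    intro W hn hW
    by_cases hb : W = ⊥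
    · rw [hb]
      refine ⟨Empty, inferInstance, fun p => p.1.elim, linearIndependent_empty_type, ?_, fun i => i.elim⟩
      rw [Set.range_eq_empty, Submodule.span_empty]
    obtain ⟨v, hvW, hv⟩ := (Submodule.ne_bot_iff W).1 hb
    obtain ⟨hli, C, hCW, hCx, hd, hs⟩ := peel2' x t s hx2 W hW v hvW (hno v hv)
    have hfr : finrank F W = 2 + finrank F C := by
      have h1 := Submodule.finrank_sup_add_finrank_inf_eq (Submodule.span F {v, x v}) C
      rw [hd.eq_bot, finrank_bot, add_zero, hs, finrank_pair hli] at h1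
      exact h1
    rw [← hs]
    exact (strC_pair hli).sup (ih (finrank F C) (by omega) C rfl hCx) hd

theorem conj_of_strC [FiniteDimensional F V] (x g : V →ₗ[F] V) (t s : F) (hx2 : ∀ v, x (x v) = t • x v + s • v)
    (hg2 : ∀ v, g (g v) = t • g v + s • v) (hx : StrC x ⊤) (hg : StrC g ⊤) :
    ∃ P : V ≃ₗ[F] V, ∀ v, P.symm (x (P v)) = g v := by
  obtain ⟨ι, _, b, h2, h3, h4⟩ := hx
  obtain ⟨ι', _, b', h2', h3', h4'⟩ := hg
  let B : Basis (ι × Fin 2) F V := Basis.mk h2 h3.ge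
  have hB : ∀ p, B p = b p := fun p => Basis.mk_apply _ _ _
  let B' : Basis (ι' × Fin 2) F V := Basis.mk h2' h3'.ge
  have hB' : ∀ p, B' p = b' p := fun p => Basis.mk_apply _ _ _
  have hcard : Fintype.card ι' = Fintype.card ι := by
    have h7 := finrank_eq_card_basis B
    have h8 := finrank_eq_card_basis B'
    rw [Fintype.card_prod, Fintype.card_fin] at h7 h8
    omega
  let E : ι' ≃ ι := Fintype.equivOfCardEq hcard
  let P : V ≃ₗ[F] V := B'.equiv B (E.prodCongr (Equiv.refl _))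
  have hP : ∀ i k, P (b' (i, k)) = b (E i, k) := by
    intro i k
    rw [← hB']
    show B'.equiv B _ (B' (i, k)) = _
    rw [Basis.equiv_apply, hB]; rfl
  have key : x ∘ₗ (P : V →ₗ[F] V) = (P : V →ₗ[F] V) ∘ₗ g := by
    refine B'.ext fun p => ?_
    obtain ⟨i, k⟩ := p
    rw [hB']
    show x (P (b' (i, k))) = P (g (b' (i, k)))
    rw [hP]
    fin_cases k
    · show x (b (E i, 0)) = P (g (b' (i, 0)))
      rw [← h4', ← h4, hP]
    · show x (b (E i, 1)) = P (g (b' (i, 1)))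
      rw [h4', hg2, h4, hx2, map_add, map_smul, map_smul, ← h4', ← h4, hP, hP]
  refine ⟨P, fun v => ?_⟩
  have := LinearMap.congr_fun key v
  show P.symm (x (P v)) = g v
  have h5 : x (P v) = P (g v) := this
  rw [h5, LinearEquiv.symm_apply_apply]

end cyc

section sub
variable {F : Type*} [Field F] {n : ℕ} {K : Subalgebra F (Matrix (Fin n) (Fin n) F)} {r : ℕ}

lemma K_eig (hK : Cfsg.Geo.IsFieldSubalgebra r K) {k : Matrix (Fin n) (Fin n) F} (hk : k ∈ K) {u : Fin n → F} (hu : u ≠ 0)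
    {c : F} (h : k *ᵥ u = c • u) : k = c • (1 : Matrix (Fin n) (Fin n) F) := by
  by_contra hne
  have h1 : k - c • (1 : Matrix (Fin n) (Fin n) F) ∈ K := K.sub_mem hk (K.smul_mem K.one_mem c)
  obtain ⟨y, hy, hy1⟩ := hK.inv _ h1 (sub_ne_zero.2 hne)
  have h2 : y * (k - c • (1 : Matrix (Fin n) (Fin n) F)) = 1 := by rw [hK.comm y hy _ h1, hy1]
  apply hu
  have h3 : (y * (k - c • (1 : Matrix (Fin n) (Fin n) F))) *ᵥ u = 0 := by
    rw [← Matrix.mulVec_mulVec, Matrix.sub_mulVec, h, Matrix.smul_mulVec, Matrix.one_mulVec, sub_self, Matrix.mulVec_zero]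
  rw [h2, Matrix.one_mulVec] at h3
  exact h3

lemma K_nonscalar (hK : Cfsg.Geo.IsFieldSubalgebra 2 K) : ∃ k ∈ K, ∀ c : F, k ≠ c • (1 : Matrix (Fin n) (Fin n) F) := by
  by_contra hcon
  push Not at hcon
  have h1 : Module.finrank F K ≤ 1 := by
    refine finrank_le_one (⟨1, K.one_mem⟩ : K) fun w => ?_
    obtain ⟨c, hc⟩ := hcon w.1 w.2
    exact ⟨c, Subtype.ext hc.symm⟩
  have h2 := hK.finrank_eq
  omega

lemma K_repr (hn : 1 ≤ n) (hK : Cfsg.Geo.IsFieldSubalgebra 2 K) {k : Matrix (Fin n) (Fin n) F} (hk : k ∈ K)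
    (hns : ∀ c : F, k ≠ c • (1 : Matrix (Fin n) (Fin n) F)) {y : Matrix (Fin n) (Fin n) F} (hy : y ∈ K) :
    ∃ a b : F, y = a • k + b • (1 : Matrix (Fin n) (Fin n) F) := by
  haveI : Nonempty (Fin n) := ⟨⟨0, by omega⟩⟩
  have hli : LinearIndependent F ![(⟨k, hk⟩ : K), (⟨1, K.one_mem⟩ : K)] := by
    rw [LinearIndependent.pair_iff]
    intro s t hst
    have h1 : s • k + t • (1 : Matrix (Fin n) (Fin n) F) = 0 := congrArg Subtype.val hst
    have hs : s = 0 := by
      by_contra hs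
      apply hns (-(s⁻¹ * t))
      have h2 : s • k = -(t • (1 : Matrix (Fin n) (Fin n) F)) := eq_neg_of_add_eq_zero_left h1
      calc k = s⁻¹ • (s • k) := by rw [smul_smul, inv_mul_cancel₀ hs, one_smul]
        _ = _ := by rw [h2, smul_neg, smul_smul, neg_smul]
    subst hs
    rw [zero_smul, zero_add] at h1
    exact ⟨rfl, (smul_eq_zero.1 h1).resolve_right one_ne_zero⟩
  have hsp := hli.span_eq_top_of_card_eq_finrank (by rw [hK.finrank_eq]; rfl)
  have hy' : (⟨y, hy⟩ : K) ∈ Submodule.span F (Set.range ![(⟨k, hk⟩ : K), (⟨1, K.one_mem⟩ : K)]) := by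
    rw [hsp]; exact Submodule.mem_top
  rw [Matrix.range_cons_cons_empty] at hy'
  obtain ⟨a, b, hab⟩ := Submodule.mem_span_pair.1 hy'
  exact ⟨a, b, (congrArg Subtype.val hab).symm⟩

/-- an element conjugating a generator into `K` normalises `K` -/
lemma mem_normalizer (hn : 1 ≤ n) (hK : Cfsg.Geo.IsFieldSubalgebra 2 K) {k : Matrix (Fin n) (Fin n) F} (hk : k ∈ K)
    (hns : ∀ c : F, k ≠ c • (1 : Matrix (Fin n) (Fin n) F)) (g : GL (Fin n) F)
    (hg : (g : Matrix (Fin n) (Fin n) F) * k * ((g⁻¹ : GL (Fin n) F) : Matrix (Fin n) (Fin n) F) ∈ K) :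
    g ∈ Cfsg.Geo.subalgebraNormalizer K := by
  have hgg : (g : Matrix (Fin n) (Fin n) F) * ((g⁻¹ : GL (Fin n) F) : Matrix (Fin n) (Fin n) F) = 1 := by
    rw [← Units.val_mul, mul_inv_cancel, Units.val_one]
  have hgg' : ((g⁻¹ : GL (Fin n) F) : Matrix (Fin n) (Fin n) F) * (g : Matrix (Fin n) (Fin n) F) = 1 := by
    rw [← Units.val_mul, inv_mul_cancel, Units.val_one]
  have hcancel : ∀ y : Matrix (Fin n) (Fin n) F, ((g⁻¹ : GL (Fin n) F) : Matrix (Fin n) (Fin n) F) *
      ((g : Matrix (Fin n) (Fin n) F) * y * ((g⁻¹ : GL (Fin n) F) : Matrix (Fin n) (Fin n) F)) * (g : Matrix (Fin n) (Fin n) F) = y := by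
    intro y
    calc _ = (((g⁻¹ : GL (Fin n) F) : Matrix (Fin n) (Fin n) F) * (g : Matrix (Fin n) (Fin n) F)) * y *
        (((g⁻¹ : GL (Fin n) F) : Matrix (Fin n) (Fin n) F) * (g : Matrix (Fin n) (Fin n) F)) := by
          simp only [Matrix.mul_assoc]
      _ = y := by rw [hgg', Matrix.one_mul, Matrix.mul_one]
  intro y
  constructor
  · intro hy
    obtain ⟨a, b, rfl⟩ := K_repr hn hK hk hns hy
    have : (g : Matrix (Fin n) (Fin n) F) * (a • k + b • (1 : Matrix (Fin n) (Fin n) F)) * ((g⁻¹ : GL (Fin n) F) : Matrix (Fin n) (Fin n) F) =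
        a • ((g : Matrix (Fin n) (Fin n) F) * k * ((g⁻¹ : GL (Fin n) F) : Matrix (Fin n) (Fin n) F)) + b • (1 : Matrix (Fin n) (Fin n) F) := by
      rw [Matrix.mul_add, Matrix.add_mul, Matrix.mul_smul, Matrix.smul_mul, Matrix.mul_smul, Matrix.mul_one,
        Matrix.smul_mul, hgg]
    rw [this]
    exact K.add_mem (K.smul_mem hg a) (K.smul_mem K.one_mem b)
  · intro hy
    have hns' : ∀ c : F, (g : Matrix (Fin n) (Fin n) F) * k * ((g⁻¹ : GL (Fin n) F) : Matrix (Fin n) (Fin n) F) ≠ c • (1 : Matrix (Fin n) (Fin n) F) := by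
      intro c hc
      apply hns c
      rw [← hcancel k, hc, Matrix.mul_smul, Matrix.mul_one, Matrix.smul_mul, hgg']
    obtain ⟨a, b, hab⟩ := K_repr hn hK hg hns' hy
    have : y = a • k + b • (1 : Matrix (Fin n) (Fin n) F) := by
      rw [← hcancel y, hab, Matrix.mul_add, Matrix.add_mul, Matrix.mul_smul, Matrix.smul_mul, hcancel, Matrix.mul_smul,
        Matrix.mul_one, Matrix.smul_mul, hgg']
    rw [this]
    exact K.add_mem (K.smul_mem hk a) (K.smul_mem K.one_mem b)

end sub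

end CfsgLib.Invo29
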