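import Cfsg.Agent.LibInvo29h

/-! Involutions normalising a degree two field subalgebra (seat helper29). -/

namespace CfsgLib.Invo29

open Module Matrix

section sub
variable {F : Type*} [Field F] {n : ℕ} {K : Subalgebra F (Matrix (Fin n) (Fin n) F)}

lemma K_no_sq (hn : 1 ≤ n) (hK : Cfsg.Geo.IsFieldSubalgebra 2 K) {k : Matrix (Fin n) (Fin n) F} (hk : k ∈ K)
    (hns : ∀ c : F, k ≠ c • (1 : Matrix (Fin n) (Fin n) F)) (r : F) (h : k * k = (r * r) • (1 : Matrix (Fin n) (Fin n) F)) :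
    False := by
  let u : Fin n → F := Pi.single ⟨0, by omega⟩ 1
  have hu : u ≠ 0 := by
    intro h0
    have := congrFun h0 ⟨0, by omega⟩
    simp [u] at this
  have hkk : k *ᵥ (k *ᵥ u) = (r * r) • u := by
    rw [Matrix.mulVec_mulVec, h, Matrix.smul_mulVec, Matrix.one_mulVec]
  by_cases h1 : k *ᵥ u - r • u = 0
  · exact hns r (K_eig hK hk hu (sub_eq_zero.1 h1))
  · refine hns (-r) (K_eig hK hk h1 ?_)
    rw [Matrix.mulVec_sub, hkk, Matrix.mulVec_smul, smul_sub, smul_smul, neg_smul, neg_mul, neg_smul]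
    abel

lemma K_sqrt [Fintype F] (hn : 1 ≤ n) (h2 : (2 : F) ≠ 0) (hK : Cfsg.Geo.IsFieldSubalgebra 2 K) (ν : F) (hν : ¬ IsSquare ν) :
    ∃ k ∈ K, (∀ c : F, k ≠ c • (1 : Matrix (Fin n) (Fin n) F)) ∧ k * k = ν • (1 : Matrix (Fin n) (Fin n) F) := by
  classical
  obtain ⟨k0, hk0, hns⟩ := K_nonscalar hK
  obtain ⟨a, b, hab⟩ := K_repr hn hK hk0 hns (K.mul_mem hk0 hk0)
  let k' := k0 - (a / 2) • (1 : Matrix (Fin n) (Fin n) F)
  have hk' : k' ∈ K := K.sub_mem hk0 (K.smul_mem K.one_mem _)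
  have hns' : ∀ c : F, k' ≠ c • (1 : Matrix (Fin n) (Fin n) F) := by
    intro c hc
    apply hns (c + a / 2)
    rw [add_smul, ← hc]
    exact (sub_add_cancel _ _).symm
  have h4 : (4 : F) ≠ 0 := by
    have : (4 : F) = 2 * 2 := by norm_num
    rw [this]; exact mul_ne_zero h2 h2
  have hD : k' * k' = (b + a * a / 4) • (1 : Matrix (Fin n) (Fin n) F) := by
    show (k0 - (a / 2) • (1 : Matrix (Fin n) (Fin n) F)) * (k0 - (a / 2) • (1 : Matrix (Fin n) (Fin n) F)) = _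
    rw [Matrix.sub_mul, Matrix.mul_sub, Matrix.mul_sub, hab]
    simp only [Matrix.smul_mul, Matrix.mul_smul, Matrix.one_mul, Matrix.mul_one, smul_smul]
    match_scalars <;> field_simp <;> ring
  set D := b + a * a / 4 with hDdef
  have hDns : ¬ IsSquare D := by
    rintro ⟨r, hr⟩
    rw [hr] at hD
    exact K_no_sq hn hK hk' hns' r hD
  have hD0 : D ≠ 0 := by
    intro h
    rw [h] at hDns
    exact hDns ⟨0, by simp⟩
  have hsq : IsSquare (ν * D) := by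
    have e1 := quadraticChar_neg_one_iff_not_isSquare.2 hν
    have e2 := quadraticChar_neg_one_iff_not_isSquare.2 hDns
    have hν0 : ν ≠ 0 := by
      rintro rfl
      exact hν ⟨0, by simp⟩
    rw [← quadraticChar_one_iff_isSquare (mul_ne_zero hν0 hD0), map_mul, e1, e2]; ring
  obtain ⟨e, he⟩ := hsq
  have he0 : e ≠ 0 := by
    rintro rfl
    have hν0 : ν ≠ 0 := by
      rintro rfl
      exact hν ⟨0, by simp⟩
    exact (mul_ne_zero hν0 hD0) (by rw [he, mul_zero])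
  refine ⟨(e / D) • k', K.smul_mem hk' _, ?_, ?_⟩
  · intro c hc
    apply hns' ((e / D)⁻¹ * c)
    rw [mul_smul, ← hc, smul_smul, inv_mul_cancel₀ (div_ne_zero he0 hD0), one_smul]
  · rw [Matrix.smul_mul, Matrix.mul_smul, hD, smul_smul, smul_smul]
    congr 1
    field_simp
    linear_combination -he

lemma K_as (hn : 1 ≤ n) [Fintype F] (h2 : (2 : F) = 0) (hK : Cfsg.Geo.IsFieldSubalgebra 2 K) :
    ∃ k ∈ K, ∃ c : F, (∀ c : F, k ≠ c • (1 : Matrix (Fin n) (Fin n) F)) ∧ k * k = k + c • (1 : Matrix (Fin n) (Fin n) F) := by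
  obtain ⟨k0, hk0, hns⟩ := K_nonscalar hK
  obtain ⟨a, b, hab⟩ := K_repr hn hK hk0 hns (K.mul_mem hk0 hk0)
  have ha : a ≠ 0 := by
    rintro rfl
    rw [zero_smul, zero_add] at hab
    have hchar : ringChar F = 2 := by
      have h3 : ((2 : ℕ) : F) = 0 := by exact_mod_cast h2
      have h4 := (ringChar.spec F 2).1 h3
      rcases (Nat.dvd_prime Nat.prime_two).1 h4 with h5 | h5
      · exact absurd h5 (CharP.ringChar_ne_one)
      · exact h5
    obtain ⟨r, hr⟩ := FiniteField.isSquare_of_char_two hchar b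
    rw [hr] at hab
    exact K_no_sq hn hK hk0 hns r hab
  refine ⟨a⁻¹ • k0, K.smul_mem hk0 _, a⁻¹ * a⁻¹ * b, ?_, ?_⟩
  · intro c hc
    apply hns (a * c)
    rw [mul_smul, ← hc, smul_smul, mul_inv_cancel₀ ha, one_smul]
  · rw [Matrix.smul_mul, Matrix.mul_smul, hab]
    match_scalars <;> field_simp

/-- finishing step -/
theorem fin_conj [Fintype F] (hn : 1 ≤ n) (hK : Cfsg.Geo.IsFieldSubalgebra 2 K) (x : Matrix.SpecialLinearGroup (Fin n) F) (z : F)
    (hxx : ((x ^ 2 : Matrix.SpecialLinearGroup (Fin n) F) : Matrix (Fin n) (Fin n) F) = z • (1 : Matrix (Fin n) (Fin n) F))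
    (hns : ∀ c : F, (x : Matrix (Fin n) (Fin n) F) ≠ c • (1 : Matrix (Fin n) (Fin n) F))
    (k k' : Matrix (Fin n) (Fin n) F) (hk : k ∈ K) (hk' : k' ∈ K) (hkns : ∀ c : F, k ≠ c • (1 : Matrix (Fin n) (Fin n) F))
    (P : (Fin n → F) ≃ₗ[F] (Fin n → F)) (g : (Fin n → F) →ₗ[F] (Fin n → F))
    (hP : ∀ v, P.symm (Matrix.toLin' (x : Matrix (Fin n) (Fin n) F) (P v)) = g v)
    (hg : ∀ v, g (k *ᵥ v) = k' *ᵥ (g v)) :
    ∃ P : Matrix.SpecialLinearGroup (Fin n) F, Matrix.SpecialLinearGroup.toGL (P⁻¹ * x * P) ∈ Cfsg.Geo.subalgebraNormalizer K := by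
  have hPP : (P : (Fin n → F) →ₗ[F] (Fin n → F)) ∘ₗ (P.symm : (Fin n → F) →ₗ[F] (Fin n → F)) = LinearMap.id := by
    ext; simp
  have hPP' : (P.symm : (Fin n → F) →ₗ[F] (Fin n → F)) ∘ₗ (P : (Fin n → F) →ₗ[F] (Fin n → F)) = LinearMap.id := by
    ext; simp
  let P0 : GL (Fin n) F := ⟨LinearMap.toMatrix' (P : (Fin n → F) →ₗ[F] (Fin n → F)),
    LinearMap.toMatrix' (P.symm : (Fin n → F) →ₗ[F] (Fin n → F)), by
      rw [← LinearMap.toMatrix'_comp, hPP, LinearMap.toMatrix'_id], by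
      rw [← LinearMap.toMatrix'_comp, hPP', LinearMap.toMatrix'_id]⟩
  obtain ⟨P1, hP1⟩ := adjust_conj x z hxx hns hn P0
  refine ⟨P1, ?_⟩
  rw [hP1]
  have hval : ∀ u, ((P0⁻¹ * Matrix.SpecialLinearGroup.toGL x * P0 : GL (Fin n) F) : Matrix (Fin n) (Fin n) F) *ᵥ u = g u := by
    intro u
    have e1 : ((P0⁻¹ * Matrix.SpecialLinearGroup.toGL x * P0 : GL (Fin n) F) : Matrix (Fin n) (Fin n) F) =
      LinearMap.toMatrix' (P.symm : (Fin n → F) →ₗ[F] (Fin n → F)) * (x : Matrix (Fin n) (Fin n) F) *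
        LinearMap.toMatrix' (P : (Fin n → F) →ₗ[F] (Fin n → F)) := rfl
    rw [e1, ← Matrix.mulVec_mulVec, ← Matrix.mulVec_mulVec, LinearMap.toMatrix'_mulVec, LinearMap.toMatrix'_mulVec,
      ← hP]
    rfl
  set G : GL (Fin n) F := P0⁻¹ * Matrix.SpecialLinearGroup.toGL x * P0 with hG
  refine mem_normalizer hn hK hk hkns G ?_
  have hcomm : (G : Matrix (Fin n) (Fin n) F) * k = k' * (G : Matrix (Fin n) (Fin n) F) := by
    apply Matrix.toLin'.injective
    refine LinearMap.ext fun v => ?_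
    rw [Matrix.toLin'_mul_apply, Matrix.toLin'_mul_apply]
    simp only [Matrix.toLin'_apply]
    rw [hval, hval, hg]
  rw [hcomm, Matrix.mul_assoc, ← Units.val_mul, mul_inv_cancel, Units.val_one, Matrix.mul_one]
  exact hk'

/-- rank one perturbations of scalars do not normalise `K` -/
theorem not_normal (hn : 3 ≤ n) (hK : Cfsg.Geo.IsFieldSubalgebra 2 K) (Y : GL (Fin n) F) (w : F) (hw : w ≠ 0)
    (φ : (Fin n → F) →ₗ[F] F) (u0 : Fin n → F) (hφ : φ ≠ 0) (hu0 : u0 ≠ 0)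
    (hY : ∀ v, (Y : Matrix (Fin n) (Fin n) F) *ᵥ v = w • v + φ v • u0) (hmem : Y ∈ Cfsg.Geo.subalgebraNormalizer K) : False := by
  obtain ⟨k, hk, hns⟩ := K_nonscalar hK
  have hk' := (hmem k).1 hk
  set k' := (Y : Matrix (Fin n) (Fin n) F) * k * ((Y⁻¹ : GL (Fin n) F) : Matrix (Fin n) (Fin n) F) with hk'def
  have hcomm : k' * (Y : Matrix (Fin n) (Fin n) F) = (Y : Matrix (Fin n) (Fin n) F) * k := by
    rw [hk'def, Matrix.mul_assoc, ← Units.val_mul, inv_mul_cancel, Units.val_one, Matrix.mul_one]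
  have hrel : ∀ v, w • (k' *ᵥ v) + φ v • (k' *ᵥ u0) = w • (k *ᵥ v) + φ (k *ᵥ v) • u0 := by
    intro v
    have h1 := congrArg (fun M => M *ᵥ v) hcomm
    simp only [← Matrix.mulVec_mulVec] at h1
    rw [hY, hY, Matrix.mulVec_add, Matrix.mulVec_smul, Matrix.mulVec_smul] at h1
    exact h1
  -- a common kernel vector
  obtain ⟨v, hv0, hv1, hv2⟩ : ∃ v : Fin n → F, v ≠ 0 ∧ φ v = 0 ∧ φ (k *ᵥ v) = 0 := by
    let L : (Fin n → F) →ₗ[F] (F × F) := φ.prod (φ ∘ₗ Matrix.toLin' k)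
    have hker : LinearMap.ker L ≠ ⊥ := by
      apply LinearMap.ker_ne_bot_of_finrank_lt
      simp
      omega
    obtain ⟨v, hv, hv0⟩ := (Submodule.ne_bot_iff _).1 hker
    have hv' : (φ v, φ (k *ᵥ v)) = (0, 0) := hv
    exact ⟨v, hv0, congrArg Prod.fst hv', congrArg Prod.snd hv'⟩
  have hkk : k' = k := by
    have h1 := hrel v
    rw [hv1, hv2, zero_smul, zero_smul, add_zero, add_zero] at h1
    have h2 : (k' - k) *ᵥ v = (0 : F) • v := by
      rw [Matrix.sub_mulVec, zero_smul, sub_eq_zero]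
      exact smul_right_injective _ hw h1
    have h3 := K_eig hK (K.sub_mem hk' hk) hv0 h2
    rw [zero_smul] at h3
    exact sub_eq_zero.1 h3
  obtain ⟨v1, hv1⟩ : ∃ v, φ v ≠ 0 := by
    by_contra hcon
    push Not at hcon
    exact hφ (LinearMap.ext hcon)
  have h1 := hrel v1
  rw [hkk] at h1
  have h2 : φ v1 • (k *ᵥ u0) = φ (k *ᵥ v1) • u0 := add_left_cancel h1
  have h3 : k *ᵥ u0 = ((φ v1)⁻¹ * φ (k *ᵥ v1)) • u0 := by
    rw [mul_smul, ← h2, smul_smul, inv_mul_cancel₀ hv1, one_smul]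
  exact hns _ (K_eig hK hk hu0 h3)

end sub

end CfsgLib.Invo29
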