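import Cfsg.Agent.LibInvo29i

/-! Involutions normalising a degree two field subalgebra: existence (seat helper29). -/

namespace CfsgLib.Invo29

open Module Matrix

section sub
variable {F : Type*} [Field F] {n : ℕ} {K : Subalgebra F (Matrix (Fin n) (Fin n) F)}

lemma strC_K (hn : 1 ≤ n) (hK : Cfsg.Geo.IsFieldSubalgebra 2 K) (k : Matrix (Fin n) (Fin n) F) (hk : k ∈ K)
    (hkns : ∀ c : F, k ≠ c • (1 : Matrix (Fin n) (Fin n) F)) : StrC (Matrix.toLin' k) ⊤ := by
  obtain ⟨a, b, hab⟩ := K_repr hn hK hk hkns (K.mul_mem hk hk)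
  refine strC_of_no_eig (Matrix.toLin' k) a b ?_ ?_ _ ⊤ rfl (fun _ _ => Submodule.mem_top)
  · intro v
    rw [Matrix.toLin'_apply, Matrix.toLin'_apply, Matrix.mulVec_mulVec, hab, Matrix.add_mulVec, Matrix.smul_mulVec,
      Matrix.smul_mulVec, Matrix.one_mulVec]
  · intro v hv hmem
    obtain ⟨c, hc⟩ := Submodule.mem_span_singleton.1 hmem
    exact hkns c (K_eig hK hk hv hc.symm)

/-- the eigenspaces have even dimension -/
theorem pos_split [Fintype F] (hn : 1 ≤ n) (hK : Cfsg.Geo.IsFieldSubalgebra 2 K) (x : Matrix.SpecialLinearGroup (Fin n) F) (z : F)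
    (hxx : ((x ^ 2 : Matrix.SpecialLinearGroup (Fin n) F) : Matrix (Fin n) (Fin n) F) = z • (1 : Matrix (Fin n) (Fin n) F))
    (hns : ∀ c : F, (x : Matrix (Fin n) (Fin n) F) ≠ c • (1 : Matrix (Fin n) (Fin n) F))
    (w : F) (A B : Submodule F (Fin n → F)) (hc : IsCompl A B)
    (hA : ∀ v ∈ A, Matrix.toLin' (x : Matrix (Fin n) (Fin n) F) v = w • v)
    (hB : ∀ v ∈ B, Matrix.toLin' (x : Matrix (Fin n) (Fin n) F) v = (-w) • v)
    (hAe : Even (finrank F A)) (hBe : Even (finrank F B)) :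
    ∃ P : Matrix.SpecialLinearGroup (Fin n) F, Matrix.SpecialLinearGroup.toGL (P⁻¹ * x * P) ∈ Cfsg.Geo.subalgebraNormalizer K := by
  obtain ⟨k, hk, hkns⟩ := K_nonscalar hK
  obtain ⟨a, b, hab⟩ := K_repr hn hK hk hkns (K.mul_mem hk hk)
  obtain ⟨ι, _, e0, h2, h3, h4⟩ := strC_K hn hK k hk hkns
  let e : Basis (ι × Fin 2) F (Fin n → F) := Basis.mk h2 h3.ge
  have he : ∀ p, e p = e0 p := fun p => Basis.mk_apply _ _ _
  obtain ⟨p, hp⟩ := hAe
  obtain ⟨r, hr⟩ := hBe
  let bA : Basis (Fin p × Fin 2) F A := (finBasisOfFinrankEq F A (n := p * 2) (by omega)).reindex finProdFinEquiv.symm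
  let bB : Basis (Fin r × Fin 2) F B := (finBasisOfFinrankEq F B (n := r * 2) (by omega)).reindex finProdFinEquiv.symm
  let bb : Basis ((Fin p × Fin 2) ⊕ (Fin r × Fin 2)) F (Fin n → F) :=
    (bA.prod bB).map (Submodule.prodEquivOfIsCompl A B hc)
  have hcard : Fintype.card ι = Fintype.card (Fin p ⊕ Fin r) := by
    have h7 := finrank_eq_card_basis e
    have h8 := finrank_eq_card_basis bb
    simp only [Fintype.card_prod, Fintype.card_fin, Fintype.card_sum] at h7 h8 ⊢
    omega
  let E : ι ≃ Fin p ⊕ Fin r := Fintype.equivOfCardEq hcard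
  let c : Fin p ⊕ Fin r → F := Sum.elim (fun _ => w) (fun _ => -w)
  have hbb : ∀ (s : Fin p ⊕ Fin r) (l : Fin 2), Matrix.toLin' (x : Matrix (Fin n) (Fin n) F)
      (bb (Equiv.sumProdDistrib (Fin p) (Fin r) (Fin 2) (s, l))) = c s • bb (Equiv.sumProdDistrib (Fin p) (Fin r) (Fin 2) (s, l)) := by
    rintro (s | s) l
    · have e1 : bb (Equiv.sumProdDistrib (Fin p) (Fin r) (Fin 2) (Sum.inl s, l)) = (bA (s, l) : Fin n → F) := by
        show bb (Sum.inl (s, l)) = _
        simp [bb]
      rw [e1]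
      exact hA _ (bA (s, l)).2
    · have e1 : bb (Equiv.sumProdDistrib (Fin p) (Fin r) (Fin 2) (Sum.inr s, l)) = (bB (s, l) : Fin n → F) := by
        show bb (Sum.inr (s, l)) = _
        simp [bb]
      rw [e1]
      exact hB _ (bB (s, l)).2
  let P : (Fin n → F) ≃ₗ[F] (Fin n → F) := e.equiv bb ((E.prodCongr (Equiv.refl _)).trans (Equiv.sumProdDistrib (Fin p) (Fin r) (Fin 2)))
  have hP : ∀ i l, P (e0 (i, l)) = bb (Equiv.sumProdDistrib (Fin p) (Fin r) (Fin 2) (E i, l)) := by
    intro i l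
    rw [← he]
    show e.equiv bb _ (e (i, l)) = _
    rw [Basis.equiv_apply]; rfl
  let g : (Fin n → F) →ₗ[F] (Fin n → F) := (P.symm : (Fin n → F) →ₗ[F] (Fin n → F)) ∘ₗ
    Matrix.toLin' (x : Matrix (Fin n) (Fin n) F) ∘ₗ (P : (Fin n → F) →ₗ[F] (Fin n → F))
  have hg : ∀ i l, g (e0 (i, l)) = c (E i) • e0 (i, l) := by
    intro i l
    show P.symm (Matrix.toLin' (x : Matrix (Fin n) (Fin n) F) (P (e0 (i, l)))) = _
    rw [hP, hbb, map_smul, ← hP, LinearEquiv.symm_apply_apply]
  refine fin_conj hn hK x z hxx hns k k hk hk hkns P g (fun _ => rfl) ?_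
  have key : g ∘ₗ Matrix.toLin' k = Matrix.toLin' k ∘ₗ g := by
    refine e.ext fun q => ?_
    obtain ⟨i, l⟩ := q
    rw [he]
    show g (Matrix.toLin' k (e0 (i, l))) = Matrix.toLin' k (g (e0 (i, l)))
    rw [hg, map_smul]
    fin_cases l
    · show g (Matrix.toLin' k (e0 (i, 0))) = c (E i) • Matrix.toLin' k (e0 (i, 0))
      rw [← h4, hg]
    · show g (Matrix.toLin' k (e0 (i, 1))) = c (E i) • Matrix.toLin' k (e0 (i, 1))
      have e2 : Matrix.toLin' k (e0 (i, 1)) = a • e0 (i, 1) + b • e0 (i, 0) := by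
        rw [h4, Matrix.toLin'_apply, Matrix.toLin'_apply, Matrix.mulVec_mulVec, hab, Matrix.add_mulVec, Matrix.smul_mulVec,
          Matrix.smul_mulVec, Matrix.one_mulVec]
      rw [e2, map_add, map_smul, map_smul, hg, hg, smul_add, smul_comm, smul_comm b]
  intro v
  exact LinearMap.congr_fun key v

/-- `z` is not a square -/
theorem pos_nonsquare [Fintype F] (hn : 1 ≤ n) (h2 : (2 : F) ≠ 0) (hK : Cfsg.Geo.IsFieldSubalgebra 2 K)
    (x : Matrix.SpecialLinearGroup (Fin n) F) (z : F)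
    (hxx : ((x ^ 2 : Matrix.SpecialLinearGroup (Fin n) F) : Matrix (Fin n) (Fin n) F) = z • (1 : Matrix (Fin n) (Fin n) F))
    (hns : ∀ c : F, (x : Matrix (Fin n) (Fin n) F) ≠ c • (1 : Matrix (Fin n) (Fin n) F))
    (hz : ¬ IsSquare z) :
    ∃ P : Matrix.SpecialLinearGroup (Fin n) F, Matrix.SpecialLinearGroup.toGL (P⁻¹ * x * P) ∈ Cfsg.Geo.subalgebraNormalizer K := by
  obtain ⟨k, hk, hkns, hkk⟩ := K_sqrt hn h2 hK z hz
  have hxx' : (x : Matrix (Fin n) (Fin n) F) * (x : Matrix (Fin n) (Fin n) F) = z • (1 : Matrix (Fin n) (Fin n) F) := by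
    rw [← hxx, pow_two]; rfl
  have hsq : ∀ (M : Matrix (Fin n) (Fin n) F), M * M = z • (1 : Matrix (Fin n) (Fin n) F) → ∀ v,
      Matrix.toLin' M (Matrix.toLin' M v) = (0 : F) • Matrix.toLin' M v + z • v := by
    intro M hM v
    rw [Matrix.toLin'_apply, Matrix.toLin'_apply, Matrix.mulVec_mulVec, hM, Matrix.smul_mulVec, Matrix.one_mulVec,
      zero_smul, zero_add]
  have hstr : StrC (Matrix.toLin' (x : Matrix (Fin n) (Fin n) F)) ⊤ := by
    refine strC_of_no_eig _ 0 z (hsq _ hxx') ?_ _ ⊤ rfl (fun _ _ => Submodule.mem_top)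
    intro v hv hmem
    obtain ⟨c, hc⟩ := Submodule.mem_span_singleton.1 hmem
    apply hz
    refine ⟨c, ?_⟩
    have h1 := hsq _ hxx' v
    rw [← hc, map_smul, ← hc, smul_smul, smul_smul, zero_mul, zero_smul, zero_add] at h1
    have h3 : (z - c * c) • v = 0 := by rw [sub_smul, h1, sub_self]
    exact sub_eq_zero.1 ((smul_eq_zero.1 h3).resolve_right hv)
  obtain ⟨P, hP⟩ := conj_of_strC _ _ 0 z (hsq _ hxx') (hsq _ hkk) hstr (strC_K hn hK k hk hkns)
  exact fin_conj hn hK x z hxx hns k k hk hk hkns P _ hP (fun v => by rw [Matrix.toLin'_apply, Matrix.toLin'_apply])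

end sub

section two
variable {F : Type*} [Field F] {K : Subalgebra F (Matrix (Fin 2) (Fin 2) F)}

lemma strC_two (x : (Fin 2 → F) →ₗ[F] (Fin 2 → F)) (v : Fin 2 → F) (hv : x v ∉ Submodule.span F {v}) : StrC x ⊤ := by
  have hv0 : v ≠ 0 := by
    rintro rfl
    exact hv (by simp)
  have hli : LinearIndependent F ![v, x v] := by
    rw [LinearIndependent.pair_iff]
    intro s t hst
    have ht : t = 0 := by
      by_contra ht
      apply hv
      rw [Submodule.mem_span_singleton]
      refine ⟨-(t⁻¹ * s), ?_⟩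
      have : t • x v = -(s • v) := by
        rw [eq_neg_iff_add_eq_zero, add_comm]; exact hst
      calc (-(t⁻¹ * s)) • v = t⁻¹ • (-(s • v)) := by rw [smul_neg, smul_smul, neg_smul]
        _ = x v := by rw [← this, smul_smul, inv_mul_cancel₀ ht, one_smul]
    subst ht
    rw [zero_smul, add_zero] at hst
    exact ⟨(smul_eq_zero.1 hst).resolve_right hv0, rfl⟩
  have htop : Submodule.span F {v, x v} = ⊤ := by
    apply Submodule.eq_top_of_finrank_eq
    rw [finrank_pair hli]; simp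
  rw [← htop]
  exact strC_pair hli

theorem pos_two [Fintype F] (hK : Cfsg.Geo.IsFieldSubalgebra 2 K)
    (x : Matrix.SpecialLinearGroup (Fin 2) F) (z : F)
    (hxx : ((x ^ 2 : Matrix.SpecialLinearGroup (Fin 2) F) : Matrix (Fin 2) (Fin 2) F) = z • (1 : Matrix (Fin 2) (Fin 2) F))
    (hns : ∀ c : F, (x : Matrix (Fin 2) (Fin 2) F) ≠ c • (1 : Matrix (Fin 2) (Fin 2) F)) :
    ∃ P : Matrix.SpecialLinearGroup (Fin 2) F, Matrix.SpecialLinearGroup.toGL (P⁻¹ * x * P) ∈ Cfsg.Geo.subalgebraNormalizer K := by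
  have hz0 := z_ne_zero (by norm_num) x z hxx
  have hxx' : (x : Matrix (Fin 2) (Fin 2) F) * (x : Matrix (Fin 2) (Fin 2) F) = z • (1 : Matrix (Fin 2) (Fin 2) F) := by
    rw [← hxx, pow_two]; rfl
  have hxsq : ∀ v, Matrix.toLin' (x : Matrix (Fin 2) (Fin 2) F) (Matrix.toLin' (x : Matrix (Fin 2) (Fin 2) F) v) =
      (0 : F) • Matrix.toLin' (x : Matrix (Fin 2) (Fin 2) F) v + z • v := by
    intro v
    rw [Matrix.toLin'_apply, Matrix.toLin'_apply, Matrix.mulVec_mulVec, hxx', Matrix.smul_mulVec, Matrix.one_mulVec,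
      zero_smul, zero_add]
  obtain ⟨v, hv⟩ := exists_nonscalar_vec _ hns
  have hxstr := strC_two (Matrix.toLin' (x : Matrix (Fin 2) (Fin 2) F)) v hv
  let u : Fin 2 → F := Pi.single 0 1
  have hu : u ≠ 0 := by
    intro h0
    have := congrFun h0 0
    simp [u] at this
  have hbas : ∀ k ∈ K, (∀ c : F, k ≠ c • (1 : Matrix (Fin 2) (Fin 2) F)) → LinearIndependent F ![u, k *ᵥ u] := by
    intro k hk hkns
    rw [LinearIndependent.pair_iff]
    intro s t hst
    have ht : t = 0 := by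
      by_contra ht
      apply hkns (-(t⁻¹ * s))
      apply K_eig hK hk hu
      have : t • (k *ᵥ u) = -(s • u) := by
        rw [eq_neg_iff_add_eq_zero, add_comm]; exact hst
      calc k *ᵥ u = t⁻¹ • (t • (k *ᵥ u)) := by rw [smul_smul, inv_mul_cancel₀ ht, one_smul]
        _ = (-(t⁻¹ * s)) • u := by rw [this, smul_neg, smul_smul, neg_smul]
    subst ht
    rw [zero_smul, add_zero] at hst
    exact ⟨(smul_eq_zero.1 hst).resolve_right hu, rfl⟩
  by_cases h2 : (2 : F) = 0
  · obtain ⟨k, hk, c, hkns, hkk⟩ := K_as (by norm_num) h2 hK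
    have hchar : ringChar F = 2 := by
      have h3 : ((2 : ℕ) : F) = 0 := by exact_mod_cast h2
      have h4 := (ringChar.spec F 2).1 h3
      rcases (Nat.dvd_prime Nat.prime_two).1 h4 with h5 | h5
      · exact absurd h5 (CharP.ringChar_ne_one)
      · exact h5
    obtain ⟨w, hw⟩ := FiniteField.isSquare_of_char_two hchar z
    let B : Basis (Fin 2) F (Fin 2 → F) := basisOfLinearIndependentOfCardEqFinrank (hbas k hk hkns) (by simp)
    have hB0 : B 0 = u := by simp [B]
    have hB1 : B 1 = k *ᵥ u := by simp [B]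
    let g : (Fin 2 → F) →ₗ[F] (Fin 2 → F) := B.constr F ![w • u, w • (k *ᵥ u + u)]
    have hg0 : g u = w • u := by
      rw [← hB0, Basis.constr_basis]; simp [hB0]
    have hg1 : g (k *ᵥ u) = w • (k *ᵥ u + u) := by
      rw [← hB1, Basis.constr_basis]; simp [hB1]
    have hkku : k *ᵥ (k *ᵥ u) = k *ᵥ u + c • u := by
      rw [Matrix.mulVec_mulVec, hkk, Matrix.add_mulVec, Matrix.smul_mulVec, Matrix.one_mulVec]
    have hgg : ∀ v, g (g v) = (0 : F) • g v + z • v := by
      have : g ∘ₗ g = z • LinearMap.id := by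
        refine B.ext fun i => ?_
        fin_cases i
        · show g (g (B 0)) = z • B 0
          rw [hB0, hg0, map_smul, hg0, smul_smul, hw]
        · show g (g (B 1)) = z • B 1
          rw [hB1, hg1, map_smul, map_add, hg0, hg1, hw]
          have : w • (w • (k *ᵥ u + u) + w • u) = (w * w) • (k *ᵥ u) + ((2 : F) * (w * w)) • u := by
            module
          rw [this, h2, zero_mul, zero_smul, add_zero]
      intro v
      rw [zero_smul, zero_add]
      exact LinearMap.congr_fun this v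
    have hgstr : StrC g ⊤ := by
      refine strC_two g (k *ᵥ u) fun hmem => ?_
      obtain ⟨d, hd⟩ := Submodule.mem_span_singleton.1 hmem
      have hw0 : w ≠ 0 := by
        rintro rfl
        exact hz0 (by rw [hw, mul_zero])
      have h5 := (LinearIndependent.pair_iff.1 (hbas k hk hkns)) w (w - d) (by
        rw [hg1] at hd
        rw [sub_smul, hd]; module)
      exact hw0 h5.1
    obtain ⟨P, hP⟩ := conj_of_strC _ g 0 z hxsq hgg hxstr hgstr
    refine fin_conj (by norm_num) hK x z hxx hns k (k + 1) hk (K.add_mem hk K.one_mem) hkns P g hP ?_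
    have key : g ∘ₗ Matrix.toLin' k = Matrix.toLin' (k + 1) ∘ₗ g := by
      refine B.ext fun i => ?_
      fin_cases i
      · show g (k *ᵥ (B 0)) = (k + 1) *ᵥ (g (B 0))
        rw [hB0, hg1, hg0, Matrix.mulVec_smul, Matrix.add_mulVec, Matrix.one_mulVec]
      · show g (k *ᵥ (B 1)) = (k + 1) *ᵥ (g (B 1))
        rw [hB1, hkku, map_add, map_smul, hg1, hg0, Matrix.mulVec_smul, Matrix.add_mulVec, Matrix.one_mulVec,
          Matrix.mulVec_add, hkku]
        have : w • (k *ᵥ u + c • u + k *ᵥ u + (k *ᵥ u + u)) =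
          w • (k *ᵥ u + u) + c • w • u + (2 * w) • (k *ᵥ u) := by module
        rw [this, h2, zero_mul, zero_smul, add_zero]
    intro v
    exact LinearMap.congr_fun key v
  · obtain ⟨ν, hν⟩ : ∃ ν : F, ¬ IsSquare ν := by
      have hchar : ringChar F ≠ 2 := by
        intro h
        apply h2
        have := ringChar.Nat.cast_ringChar (R := F)
        rw [h] at this
        exact_mod_cast this
      exact FiniteField.exists_nonsquare hchar
    have hν0 : ν ≠ 0 := by
      rintro rfl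
      exact hν ⟨0, by simp⟩
    obtain ⟨k, hk, hkns, hkk⟩ := K_sqrt (by norm_num) h2 hK ν hν
    obtain ⟨a, b, hab⟩ := universal_binary ν hν0 z
    let B : Basis (Fin 2) F (Fin 2 → F) := basisOfLinearIndependentOfCardEqFinrank (hbas k hk hkns) (by simp)
    have hB0 : B 0 = u := by simp [B]
    have hB1 : B 1 = k *ᵥ u := by simp [B]
    let g : (Fin 2 → F) →ₗ[F] (Fin 2 → F) := B.constr F ![a • u + b • (k *ᵥ u), (-a) • (k *ᵥ u) - (b * ν) • u]
    have hg0 : g u = a • u + b • (k *ᵥ u) := by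
      rw [← hB0, Basis.constr_basis]; simp [hB0]
    have hg1 : g (k *ᵥ u) = (-a) • (k *ᵥ u) - (b * ν) • u := by
      rw [← hB1, Basis.constr_basis]; simp [hB1]
    have hkku : k *ᵥ (k *ᵥ u) = ν • u := by
      rw [Matrix.mulVec_mulVec, hkk, Matrix.smul_mulVec, Matrix.one_mulVec]
    have hgg : ∀ v, g (g v) = (0 : F) • g v + z • v := by
      have : g ∘ₗ g = z • LinearMap.id := by
        refine B.ext fun i => ?_
        fin_cases i
        · show g (g (B 0)) = z • B 0
          rw [hB0, hg0, map_add, map_smul, map_smul, hg0, hg1, ← hab]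
          module
        · show g (g (B 1)) = z • B 1
          rw [hB1, hg1, map_sub, map_smul, map_smul, hg0, hg1, ← hab]
          module
      intro v
      rw [zero_smul, zero_add]
      exact LinearMap.congr_fun this v
    have hgstr : StrC g ⊤ := by
      by_contra hcon
      have hall : ∀ v ∈ (⊤ : Submodule F (Fin 2 → F)), g v ∈ Submodule.span F {v} := by
        intro v _
        by_contra hv
        exact hcon (strC_two g v hv)
      obtain ⟨c, hc⟩ := scalar_on g ⊤ hall
      have h5 := (LinearIndependent.pair_iff.1 (hbas k hk hkns)) (a - c) b (by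
        rw [sub_smul, ← hc u Submodule.mem_top, hg0]; module)
      have h6 := (LinearIndependent.pair_iff.1 (hbas k hk hkns)) (- (b * ν)) (-a - c) (by
        rw [sub_smul, ← hc (k *ᵥ u) Submodule.mem_top, hg1]; module)
      have h7 : 2 * a = 0 := by linear_combination h5.1 - h6.2
      have h8 : a = 0 := (mul_eq_zero.1 h7).resolve_left h2
      apply hz0
      rw [← hab, h8, h5.2]; ring
    obtain ⟨P, hP⟩ := conj_of_strC _ g 0 z hxsq hgg hxstr hgstr
    refine fin_conj (by norm_num) hK x z hxx hns k (-k) hk (K.neg_mem hk) hkns P g hP ?_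
    have key : g ∘ₗ Matrix.toLin' k = Matrix.toLin' (-k) ∘ₗ g := by
      refine B.ext fun i => ?_
      fin_cases i
      · show g (k *ᵥ (B 0)) = (-k) *ᵥ (g (B 0))
        rw [hB0, hg1, hg0, Matrix.neg_mulVec, Matrix.mulVec_add, Matrix.mulVec_smul, Matrix.mulVec_smul, hkku]
        module
      · show g (k *ᵥ (B 1)) = (-k) *ᵥ (g (B 1))
        rw [hB1, hkku, map_smul, hg1, hg0, Matrix.neg_mulVec, Matrix.mulVec_sub, Matrix.mulVec_smul, Matrix.mulVec_smul, hkku]
        module
    intro v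
    exact LinearMap.congr_fun key v

end two

end CfsgLib.Invo29
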