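import Cfsg.Agent.LibInvo29j
import Cfsg.Agent.LibH22Lin

/-! Matrices over a subfield (seat helper29). -/

namespace CfsgLib.Invo29

open Module Matrix

section strf
variable {F V : Type*} [Field F] [AddCommGroup V] [Module F V]

/-- `W` has a basis in which the matrix of `y` has entries in `F₀`. -/
def StrF (F₀ : Subfield F) (y : V →ₗ[F] V) (W : Submodule F V) : Prop :=
  ∃ (ι : Type) (_ : Fintype ι) (b : ι → V) (M : Matrix ι ι F₀), LinearIndependent F b ∧
    Submodule.span F (Set.range b) = W ∧ ∀ j, y (b j) = ∑ i, (M i j : F) • b i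

lemma StrF.bot (F₀ : Subfield F) (y : V →ₗ[F] V) : StrF F₀ y ⊥ := by
  refine ⟨Empty, inferInstance, fun i => i.elim, fun i => i.elim, linearIndependent_empty_type, ?_, fun i => i.elim⟩
  rw [Set.range_eq_empty, Submodule.span_empty]

lemma StrF.sup {F₀ : Subfield F} {y : V →ₗ[F] V} {W W' : Submodule F V} (h : StrF F₀ y W)
    (h' : StrF F₀ y W') (hd : Disjoint W W') : StrF F₀ y (W ⊔ W') := by
  obtain ⟨ι, _, b, M, h2, h3, h4⟩ := h
  obtain ⟨ι', _, b', M', h2', h3', h4'⟩ := h'
  refine ⟨ι ⊕ ι', inferInstance, Sum.elim b b', Matrix.fromBlocks M 0 0 M', ?_, ?_, ?_⟩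
  · exact h2.sum_type h2' (by rw [h3, h3']; exact hd)
  · rw [Set.Sum.elim_range, Submodule.span_union, h3, h3']
  · rintro (j | j)
    · rw [Fintype.sum_sum_type]
      simp only [Sum.elim_inl, Sum.elim_inr, Matrix.fromBlocks_apply₁₁, Matrix.fromBlocks_apply₂₁, Matrix.zero_apply]
      simp [h4]
    · rw [Fintype.sum_sum_type]
      simp only [Sum.elim_inl, Sum.elim_inr, Matrix.fromBlocks_apply₁₂, Matrix.fromBlocks_apply₂₂, Matrix.zero_apply]
      simp [h4']

lemma strF_scalar [FiniteDimensional F V] (F₀ : Subfield F) (y : V →ₗ[F] V) (c : F₀) (W : Submodule F V)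
    (h : ∀ v ∈ W, y v = (c : F) • v) : StrF F₀ y W := by
  classical
  let b := finBasis F W
  refine ⟨Fin (finrank F W), inferInstance, fun i => (b i : V), Matrix.diagonal fun _ => c, ?_, ?_, ?_⟩
  · exact b.linearIndependent.map' W.subtype (Submodule.ker_subtype W)
  · have e1 : Set.range (fun i => (b i : V)) = W.subtype '' Set.range b := by
      ext v
      constructor
      · rintro ⟨p, rfl⟩
        exact ⟨b _, ⟨_, rfl⟩, rfl⟩
      · rintro ⟨_, ⟨i, rfl⟩, rfl⟩
        exact ⟨i, rfl⟩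
    rw [e1, ← Submodule.map_span, b.span_eq, Submodule.map_top, Submodule.range_subtype]
  · intro j
    rw [h _ (b j).2, Finset.sum_eq_single j]
    · simp
    · intro i _ hij
      rw [Matrix.diagonal_apply_ne _ hij]; simp
    · intro h; exact absurd (Finset.mem_univ _) h

lemma strF_pair {F₀ : Subfield F} {x : V →ₗ[F] V} {v : V} (hli : LinearIndependent F ![v, x v]) (t s : F₀)
    (hx : x (x v) = (t : F) • x v + (s : F) • v) : StrF F₀ x (Submodule.span F {v, x v}) := by
  refine ⟨Fin 2, inferInstance, ![v, x v], !![0, s; 1, t], hli, ?_, ?_⟩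
  · rw [Matrix.range_cons_cons_empty]
  · intro j
    rw [Fin.sum_univ_two]
    fin_cases j
    · simp
    · simp [hx, add_comm]

/-- `y² = s` with `s ∈ F₀`, all square roots of `s` in `F₀` -/
theorem strF_sq [FiniteDimensional F V] (F₀ : Subfield F) (y : V →ₗ[F] V) (s : F₀) (hy : ∀ v, y (y v) = (s : F) • v)
    (hs : ∀ c : F, c * c = s → c ∈ F₀) :
    ∀ n, ∀ W : Submodule F V, finrank F W = n → (∀ w ∈ W, y w ∈ W) → StrF F₀ y W := by
  intro n
  induction n using Nat.strong_induction_on with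
  | _ n ih =>
    intro W hn hW
    by_cases hall : ∀ v ∈ W, y v ∈ Submodule.span F {v}
    · obtain ⟨c, hc⟩ := scalar_on y W hall
      by_cases hb : W = ⊥
      · rw [hb]; exact StrF.bot F₀ _
      obtain ⟨v, hvW, hv⟩ := (Submodule.ne_bot_iff W).1 hb
      have hcc : c * c = s := by
        have h1 := hy v
        rw [hc v hvW, map_smul, hc v hvW, smul_smul] at h1
        have h2 : (c * c - s) • v = 0 := by rw [sub_smul, h1, sub_self]
        exact sub_eq_zero.1 ((smul_eq_zero.1 h2).resolve_right hv)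
      exact strF_scalar F₀ y ⟨c, hs c hcc⟩ W hc
    · push Not at hall
      obtain ⟨v, hvW, hv⟩ := hall
      obtain ⟨hli, C, hCW, hCx, hd, hsup⟩ := peel2 y (s : F) hy W hW v hvW hv
      have hfr : finrank F W = 2 + finrank F C := by
        have h1 := Submodule.finrank_sup_add_finrank_inf_eq (Submodule.span F {v, y v}) C
        rw [hd.eq_bot, finrank_bot, add_zero, hsup, finrank_pair hli] at h1
        exact h1
      rw [← hsup]
      exact (strF_pair hli 0 s (by rw [hy]; simp)).sup (ih (finrank F C) (by omega) C rfl hCx) hd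

end strf

section mat
variable {F : Type*} [Field F] {n : ℕ}

lemma mem_subfield_of (F₀ : Subfield F) (g : GL (Fin n) F) (A : GL (Fin n) F₀) (c : Fˣ)
    (h : (g : Matrix (Fin n) (Fin n) F) = (c : F) • (A : Matrix (Fin n) (Fin n) F₀).map F₀.subtype) :
    g ∈ Cfsg.Geo.subfieldSubgroup F₀ (1 : GL (Fin n) F) := by
  unfold Cfsg.Geo.subfieldSubgroup
  refine ⟨g, ?_, by simp⟩
  have e1 : g = (Matrix.GeneralLinearGroup.map (F₀.subtype : F₀ →+* F)) A *
      (Units.map (Matrix.scalar (Fin n) : F →+* Matrix (Fin n) (Fin n) F).toMonoidHom) c := by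
    apply Units.ext
    rw [h]
    simp [Matrix.smul_eq_mul_diagonal]
  rw [e1]
  exact Subgroup.mul_mem_sup ⟨A, rfl⟩ ⟨c, rfl⟩

lemma of_mem_subfield (F₀ : Subfield F) (g : GL (Fin n) F)
    (h : g ∈ Cfsg.Geo.subfieldSubgroup F₀ (1 : GL (Fin n) F)) :
    ∃ (A : GL (Fin n) F₀) (c : Fˣ), (g : Matrix (Fin n) (Fin n) F) = (c : F) • (A : Matrix (Fin n) (Fin n) F₀).map F₀.subtype := by
  unfold Cfsg.Geo.subfieldSubgroup at h
  obtain ⟨g', h, h1⟩ := h
  have hgg : g' = g := by simpa using h1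
  subst hgg
  haveI : (Cfsg.Geo.scalars (Fin n) F).Normal := by
    constructor
    intro x hx y
    obtain ⟨c, hc⟩ := (Cfsg.Geo.mem_scalars_iff x).1 hx
    refine (Cfsg.Geo.mem_scalars_iff _).2 ⟨c, ?_⟩
    rw [Units.val_mul, Units.val_mul, hc, Matrix.mul_smul, Matrix.mul_one, Matrix.smul_mul, ← Units.val_mul,
      mul_inv_cancel, Units.val_one]
  have h2 : g' ∈ (((Matrix.GeneralLinearGroup.map (F₀.subtype : F₀ →+* F)).range ⊔ Cfsg.Geo.scalars (Fin n) F : Subgroup (GL (Fin n) F)) : Set (GL (Fin n) F)) := h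
  rw [Subgroup.mul_normal] at h2
  obtain ⟨_, ⟨A, rfl⟩, x, hx, rfl⟩ := h2
  obtain ⟨c, hc⟩ := (Cfsg.Geo.mem_scalars_iff x).1 hx
  refine ⟨A, c, ?_⟩
  show ((Matrix.GeneralLinearGroup.map (F₀.subtype : F₀ →+* F)) A : Matrix (Fin n) (Fin n) F) * (x : Matrix (Fin n) (Fin n) F) = _
  rw [hc, Matrix.mul_smul, Matrix.mul_one]
  rfl

/-- transport into the subfield group -/
theorem exists_sub [Fintype F] (F₀ : Subfield F) (y : (Fin n → F) →ₗ[F] (Fin n → F)) (hinj : Function.Injective y)
    (h : StrF F₀ y ⊤) : ∃ (P : (Fin n → F) ≃ₗ[F] (Fin n → F)) (A : GL (Fin n) F₀),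
      ∀ v, P.symm (y (P v)) = ((A : Matrix (Fin n) (Fin n) F₀).map F₀.subtype) *ᵥ v := by
  classical
  obtain ⟨ι, _, b, M, h2, h3, h4⟩ := h
  let B : Basis ι F (Fin n → F) := Basis.mk h2 h3.ge
  have hB : ∀ p, B p = b p := fun p => Basis.mk_apply _ _ _
  have hcard : Fintype.card (Fin n) = Fintype.card ι := by
    have h7 := finrank_eq_card_basis B
    simp at h7 ⊢
    exact h7
  let E : Fin n ≃ ι := Fintype.equivOfCardEq hcard
  let P : (Fin n → F) ≃ₗ[F] (Fin n → F) := (Pi.basisFun F (Fin n)).equiv B E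
  let M' : Matrix (Fin n) (Fin n) F₀ := M.submatrix E E
  have hP : ∀ i, P (Pi.single i 1) = b (E i) := by
    intro i
    have : P (Pi.basisFun F (Fin n) i) = B (E i) := Basis.equiv_apply _ _ _ _
    rwa [Pi.basisFun_apply, hB] at this
  have key : y ∘ₗ (P : (Fin n → F) →ₗ[F] (Fin n → F)) = (P : (Fin n → F) →ₗ[F] (Fin n → F)) ∘ₗ Matrix.toLin' (M'.map F₀.subtype) := by
    refine (Pi.basisFun F (Fin n)).ext fun j => ?_
    rw [Pi.basisFun_apply]
    show y (P (Pi.single j 1)) = P (Matrix.toLin' (M'.map F₀.subtype) (Pi.single j 1))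
    rw [hP, h4, Matrix.toLin'_apply, Matrix.mulVec_single_one]
    have e1 : (M'.map F₀.subtype).col j = ∑ i, (M (E i) (E j) : F) • (Pi.single i 1 : Fin n → F) := by
      ext l
      simp [M', Matrix.col_apply, Finset.sum_apply, Pi.single_apply]
    rw [e1, map_sum]
    simp only [map_smul, hP]
    exact (Equiv.sum_comp E (fun i => (M i (E j) : F) • b i)).symm
  have hdet : M'.det ≠ 0 := by
    intro h0
    have h1 : (M'.map F₀.subtype).det = 0 := by
      have := RingHom.map_det F₀.subtype M'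
      rw [h0, map_zero] at this
      exact this.symm
    obtain ⟨v, hv, hv2⟩ := Matrix.exists_mulVec_eq_zero_iff.2 h1
    apply hv
    have h5 := LinearMap.congr_fun key v
    simp only [LinearMap.comp_apply, Matrix.toLin'_apply, hv2, map_zero] at h5
    have h6 : y (P v) = y 0 := by rw [map_zero]; exact h5
    have h7 := hinj h6
    exact (LinearEquiv.map_eq_zero_iff P).1 h7
  refine ⟨P, Matrix.GeneralLinearGroup.mkOfDetNeZero M' hdet, fun v => ?_⟩
  have h5 : y (P v) = P (Matrix.toLin' (M'.map F₀.subtype) v) := LinearMap.congr_fun key v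
  rw [h5, LinearEquiv.symm_apply_apply, Matrix.toLin'_apply]
  rfl

end mat

end CfsgLib.Invo29
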