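import Cfsg.Agent.LibInvo29k

/-! Subfield subgroups: index, squares, determinants (seat helper29). -/

namespace CfsgLib.Invo29

open Module Matrix

section idx
variable {F : Type*} [Field F] [Fintype F]

lemma odd_factor (a k : ℕ) (ha : Odd a) (hk : Odd k) : ∃ R, Odd R ∧ a ^ k - 1 = (a - 1) * R := by
  refine ⟨∑ l ∈ Finset.range k, a ^ l, ?_, ?_⟩
  · have h1 : ((∑ l ∈ Finset.range k, a ^ l : ℕ) : ZMod 2) = 1 := by
      have ha1 : ((a : ℕ) : ZMod 2) = 1 := by
        rw [ZMod.natCast_eq_one_iff_odd]; exact ha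
      have hk1 : ((k : ℕ) : ZMod 2) = 1 := by
        rw [ZMod.natCast_eq_one_iff_odd]; exact hk
      push_cast
      rw [ha1]
      simp [hk1]
    rwa [ZMod.natCast_eq_one_iff_odd] at h1
  · have ha1 : 1 ≤ a := ha.pos
    have ha2 : 1 ≤ a ^ k := Nat.one_le_pow _ _ ha1
    zify [ha1, ha2]
    rw [mul_comm]
    exact (geom_sum_mul (a : ℤ) k).symm

lemma odd_prod (n : ℕ) (q₀ k : ℕ) (hq : Odd q₀) (hk : Odd k) : ∃ R, Odd R ∧
    ∏ i : Fin n, ((q₀ ^ k) ^ n - (q₀ ^ k) ^ (i : ℕ)) = (∏ i : Fin n, (q₀ ^ n - q₀ ^ (i : ℕ))) * R := by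
  have hfac : ∀ i : Fin n, ∃ R, Odd R ∧ (q₀ ^ k) ^ n - (q₀ ^ k) ^ (i : ℕ) = (q₀ ^ n - q₀ ^ (i : ℕ)) * R := by
    intro i
    obtain ⟨R, hR, hR2⟩ := odd_factor (q₀ ^ (n - i)) k hq.pow hk
    refine ⟨q₀ ^ ((k - 1) * i) * R, (hq.pow).mul hR, ?_⟩
    have hin : (i : ℕ) + (n - i) = n := by have := i.2; omega
    have hk1 : k = 1 + (k - 1) := by have := hk.pos; omega
    have e1 : (q₀ ^ k) ^ n - (q₀ ^ k) ^ (i : ℕ) = (q₀ ^ k) ^ (i : ℕ) * ((q₀ ^ (n - i)) ^ k - 1) := by
      rw [Nat.mul_sub, mul_one]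
      congr 1
      rw [← pow_mul, ← pow_mul, ← pow_mul, ← pow_add]
      congr 1
      conv_lhs => rw [← hin]
      ring
    have e2 : q₀ ^ n - q₀ ^ (i : ℕ) = q₀ ^ (i : ℕ) * (q₀ ^ (n - i) - 1) := by
      rw [Nat.mul_sub, mul_one, ← pow_add, hin]
    rw [e1, e2, hR2]
    have e3 : (q₀ ^ k) ^ (i : ℕ) = q₀ ^ (i : ℕ) * q₀ ^ ((k - 1) * i) := by
      rw [← pow_mul, ← pow_add]
      congr 1
      conv_lhs => rw [hk1]
      ring
    rw [e3]; ring
  choose R hR hR2 using hfac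
  refine ⟨∏ i, R i, ?_, ?_⟩
  · rw [← ZMod.natCast_eq_one_iff_odd]
    push_cast
    refine Finset.prod_eq_one fun i _ => ?_
    rw [ZMod.natCast_eq_one_iff_odd]
    exact hR i
  · rw [← Finset.prod_mul_distrib]
    exact Finset.prod_congr rfl fun i _ => hR2 i

theorem index_odd (F₀ : Subfield F) (n : ℕ) (hn : 1 ≤ n) (k q₀ : ℕ) (hF₀ : Nat.card F₀ = q₀)
    (hqk : Fintype.card F = q₀ ^ k) (hk : Odd k) (hodd : Odd (Fintype.card F)) :
    Odd ((Cfsg.Geo.subfieldSubgroup F₀ 1).comap (Matrix.SpecialLinearGroup.toGL : Matrix.SpecialLinearGroup (Fin n) F →* GL (Fin n) F)).index := by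
  classical
  let S0 : Subgroup (Matrix.SpecialLinearGroup (Fin n) F) := (Matrix.SpecialLinearGroup.map (F₀.subtype : F₀ →+* F)).range
  have hle : S0 ≤ (Cfsg.Geo.subfieldSubgroup F₀ 1).comap (Matrix.SpecialLinearGroup.toGL : Matrix.SpecialLinearGroup (Fin n) F →* GL (Fin n) F) := by
    rintro _ ⟨A, rfl⟩
    show Matrix.SpecialLinearGroup.toGL (Matrix.SpecialLinearGroup.map (F₀.subtype : F₀ →+* F) A) ∈ Cfsg.Geo.subfieldSubgroup F₀ (1 : GL (Fin n) F)
    refine mem_subfield_of F₀ _ (Matrix.SpecialLinearGroup.toGL A) 1 ?_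
    rw [Units.val_one, one_smul]
    rfl
  have hdvd := Subgroup.index_dvd_of_le hle
  refine Odd.of_dvd_nat ?_ hdvd
  have hq₀odd : Odd q₀ := by
    rw [hqk] at hodd
    by_contra h
    rw [Nat.not_odd_iff_even] at h
    exact (Nat.not_even_iff_odd.2 hodd) (h.pow_of_ne_zero hk.pos.ne')
  haveI : Fintype F₀ := Fintype.ofFinite _
  have hinj : Function.Injective (Matrix.SpecialLinearGroup.map (F₀.subtype : F₀ →+* F) : Matrix.SpecialLinearGroup (Fin n) F₀ →* _) := by
    intro A B h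
    apply Subtype.ext
    have h1 : (A : Matrix (Fin n) (Fin n) F₀).map F₀.subtype = (B : Matrix (Fin n) (Fin n) F₀).map F₀.subtype := congrArg Subtype.val h
    exact Matrix.map_injective (Subtype.val_injective) h1
  have hcardS : Nat.card S0 = Nat.card (Matrix.SpecialLinearGroup (Fin n) F₀) :=
    (Nat.card_congr (MonoidHom.ofInjective hinj).toEquiv).symm
  have h1 := Subgroup.index_mul_card S0
  rw [hcardS] at h1
  have hc0 : Fintype.card F₀ = q₀ := by rw [← hF₀, Nat.card_eq_fintype_card]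
  have h2 := Cfsg.Agent.H22.card_SL (F := F₀) hc0 n hn
  have h3 := Cfsg.Agent.H22.card_SL (F := F) hqk n hn
  obtain ⟨R, hR, hR2⟩ := odd_prod n q₀ k hq₀odd hk
  obtain ⟨C, hC, hC2⟩ := odd_factor q₀ k hq₀odd hk
  rw [hR2, ← h2, ← h1, hC2] at h3
  have hpos : (q₀ - 1) * Nat.card (Matrix.SpecialLinearGroup (Fin n) F₀) ≠ 0 := by
    refine mul_ne_zero ?_ Nat.card_pos.ne'
    have := Fintype.one_lt_card (α := F₀)
    omega
  have h4 : C * S0.index = R := by
    apply Nat.eq_of_mul_eq_mul_left (Nat.pos_of_ne_zero hpos)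
    calc _ = (q₀ - 1) * C * (S0.index * Nat.card (Matrix.SpecialLinearGroup (Fin n) F₀)) := by ring
      _ = _ := h3
  rw [← h4] at hR
  exact (Nat.odd_mul.1 hR).2

lemma sq_of_mem (F₀ : Subfield F) (q₀ : ℕ) (hF₀ : Nat.card F₀ = q₀) (hqk : Fintype.card F = q₀ ^ 2)
    (h2 : (2 : F) ≠ 0) (a : F) (ha : a ∈ F₀) : IsSquare a := by
  by_cases h0 : a = 0
  · rw [h0]; exact ⟨0, by simp⟩
  have hchar : ringChar F ≠ 2 := by
    intro h
    apply h2
    have := ringChar.Nat.cast_ringChar (R := F)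
    rw [h] at this
    exact_mod_cast this
  rw [FiniteField.isSquare_iff hchar h0]
  have hodd : Odd (Fintype.card F) := Nat.odd_iff.2 (FiniteField.odd_card_of_char_ne_two hchar)
  have hq₀odd : Odd q₀ := by
    rw [hqk] at hodd
    by_contra h
    rw [Nat.not_odd_iff_even] at h
    exact (Nat.not_even_iff_odd.2 hodd) (h.pow_of_ne_zero two_ne_zero)
  haveI : Fintype F₀ := Fintype.ofFinite _
  have hc0 : Fintype.card F₀ = q₀ := by rw [← hF₀, Nat.card_eq_fintype_card]
  have h3 : (⟨a, ha⟩ : F₀) ^ (q₀ - 1) = 1 := by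
    rw [← hc0]
    exact FiniteField.pow_card_sub_one_eq_one _ (fun h => h0 (congrArg Subtype.val h))
  have h4 : a ^ (q₀ - 1) = 1 := congrArg Subtype.val h3
  obtain ⟨m, hm⟩ := hq₀odd
  have h5 : Fintype.card F / 2 = (q₀ - 1) * (m + 1) := by
    rw [hqk, hm]
    have : (2 * m + 1) ^ 2 = 2 * (2 * m * (m + 1)) + 1 := by ring
    rw [this]
    simp
    omega
  rw [h5, pow_mul, h4, one_pow]

end idx

section det
variable {F : Type*} [Field F] {n : ℕ}

theorem det_nonsquare (x : Matrix (Fin n) (Fin n) F) (z : F) (hxx : x * x = z • (1 : Matrix (Fin n) (Fin n) F))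
    (hz : ¬ IsSquare z) : ∃ m, n = 2 * m ∧ x.det = (-z) ^ m := by
  classical
  have hsq : ∀ v, Matrix.toLin' x (Matrix.toLin' x v) = (0 : F) • Matrix.toLin' x v + z • v := by
    intro v
    rw [Matrix.toLin'_apply, Matrix.toLin'_apply, Matrix.mulVec_mulVec, hxx, Matrix.smul_mulVec, Matrix.one_mulVec,
      zero_smul, zero_add]
  have hstr : StrC (Matrix.toLin' x) ⊤ := by
    refine strC_of_no_eig _ 0 z hsq ?_ _ ⊤ rfl (fun _ _ => Submodule.mem_top)
    intro v hv hmem
    obtain ⟨c, hc⟩ := Submodule.mem_span_singleton.1 hmem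
    apply hz
    refine ⟨c, ?_⟩
    have h1 := hsq v
    rw [← hc, map_smul, ← hc, smul_smul, smul_smul, zero_mul, zero_smul, zero_add] at h1
    have h3 : (z - c * c) • v = 0 := by rw [sub_smul, h1, sub_self]
    exact sub_eq_zero.1 ((smul_eq_zero.1 h3).resolve_right hv)
  obtain ⟨ι, _, b, h2, h3, h4⟩ := hstr
  let B : Basis (ι × Fin 2) F (Fin n → F) := Basis.mk h2 h3.ge
  have hB : ∀ p, B p = b p := fun p => Basis.mk_apply _ _ _
  let B' : Basis (Fin 2 × ι) F (Fin n → F) := B.reindex (Equiv.prodComm _ _)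
  have hB' : ∀ k i, B' (k, i) = b (i, k) := by
    intro k i
    rw [Basis.reindex_apply, hB]; rfl
  refine ⟨Fintype.card ι, ?_, ?_⟩
  · have h7 := finrank_eq_card_basis B'
    simp at h7
    exact h7
  · have hmat : LinearMap.toMatrix B' B' (Matrix.toLin' x) = Matrix.blockDiagonal (fun _ : ι => !![0, z; 1, 0]) := by
      ext ⟨k, i⟩ ⟨l, j⟩
      rw [LinearMap.toMatrix_apply, hB']
      fin_cases l
      · show B'.repr (Matrix.toLin' x (b (j, 0))) (k, i) = _
        rw [← h4, ← hB', Basis.repr_self]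
        by_cases hij : j = i
        · subst hij
          fin_cases k <;> simp [Matrix.blockDiagonal_apply, Finsupp.single_apply]
        · rw [Matrix.blockDiagonal_apply_ne _ _ _ (Ne.symm hij)]
          simp [Finsupp.single_apply, hij]
      · show B'.repr (Matrix.toLin' x (b (j, 1))) (k, i) = _
        rw [h4, hsq, zero_smul, zero_add, ← hB', map_smul, Basis.repr_self]
        by_cases hij : j = i
        · subst hij
          fin_cases k <;> simp [Matrix.blockDiagonal_apply, Finsupp.single_apply]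
        · rw [Matrix.blockDiagonal_apply_ne _ _ _ (Ne.symm hij)]
          simp [Finsupp.single_apply, hij]
    have := LinearMap.det_toMatrix B' (Matrix.toLin' x)
    rw [hmat, Matrix.det_blockDiagonal, LinearMap.det_toLin'] at this
    rw [← this]
    simp

theorem exists_nonsquare_mat (m : ℕ) (z : F) (hz : (-z) ^ m = 1) :
    ∃ x : Matrix.SpecialLinearGroup (Fin (2 * m)) F, ((x ^ 2 : Matrix.SpecialLinearGroup (Fin (2 * m)) F) : Matrix (Fin (2 * m)) (Fin (2 * m)) F) =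
      z • (1 : Matrix (Fin (2 * m)) (Fin (2 * m)) F) := by
  let e : Fin 2 × Fin m ≃ Fin (2 * m) := finProdFinEquiv
  let Y : Matrix (Fin 2 × Fin m) (Fin 2 × Fin m) F := Matrix.blockDiagonal (fun _ : Fin m => !![0, z; 1, 0])
  have hYY : Y * Y = z • 1 := by
    show Matrix.blockDiagonal _ * Matrix.blockDiagonal _ = _
    rw [← Matrix.blockDiagonal_mul]
    have : (fun _ : Fin m => (!![0, z; 1, 0] : Matrix (Fin 2) (Fin 2) F) * !![0, z; 1, 0]) = z • (1 : Fin m → Matrix (Fin 2) (Fin 2) F) := by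
      funext i
      ext a b
      fin_cases a <;> fin_cases b <;> simp [Matrix.mul_apply, Fin.sum_univ_two]
    rw [this, Matrix.blockDiagonal_smul, Matrix.blockDiagonal_one]
  have hYd : Y.det = (-z) ^ m := by
    show (Matrix.blockDiagonal _).det = _
    rw [Matrix.det_blockDiagonal]
    simp
  let X := Matrix.reindexAlgEquiv F F e Y
  have hXd : X.det = 1 := by
    show (Matrix.reindexAlgEquiv F F e Y).det = 1
    rw [Matrix.det_reindexAlgEquiv, hYd, hz]
  have hXX : X * X = z • 1 := by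
    show Matrix.reindexAlgEquiv F F e Y * Matrix.reindexAlgEquiv F F e Y = _
    rw [← map_mul, hYY, map_smul, map_one]
  let x : Matrix.SpecialLinearGroup (Fin (2 * m)) F := ⟨X, hXd⟩
  refine ⟨x, ?_⟩
  rw [Matrix.SpecialLinearGroup.coe_pow, pow_two]
  exact hXX

end det

end CfsgLib.Invo29
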