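import Mathlib

/-!
A simplicity criterion for transitive groups of degree one hundred and order 604800.
-/

set_option autoImplicit false
set_option linter.all false

namespace CfsgLib.J2P

open MulAction Subgroup
open scoped Pointwise

/-- Sylow subgroups of prime order are conjugate -/
theorem sylow_conj' {K : Type*} [Group K] [Finite K] {p m : ℕ} [hp : Fact p.Prime] {X Y : Subgroup K} (hX : Nat.card X = p)
    (hY : Nat.card Y = p) (hK : Nat.card K = p * m) (hm : ¬ p ∣ m) : ∃ g : K, X.map (MulAut.conj g).toMonoidHom = Y := by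
  have hm0 : m ≠ 0 := by rintro rfl; exact hm (dvd_zero _)
  have hf : (Nat.card K).factorization p = 1 := by
    rw [hK, Nat.factorization_mul hp.out.ne_zero hm0, Finsupp.add_apply, hp.out.factorization_self,
      Nat.factorization_eq_zero_of_not_dvd hm]
  let P : Sylow p K := Sylow.ofCard X (by rw [hf, hX, pow_one])
  let Q : Sylow p K := Sylow.ofCard Y (by rw [hf, hY, pow_one])
  obtain ⟨g, hg⟩ := MulAction.exists_smul_eq K P Q
  refine ⟨g, ?_⟩
  have h1 := congrArg (fun S : Sylow p K => (S : Subgroup K)) hg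
  exact h1

variable {Γ : Type*} [Group Γ] [Finite Γ]

theorem conj7 (hcard : Nat.card Γ = 604800) {u w : Γ} (hu : orderOf u = 7) (hw : orderOf w = 7) :
    ∃ g : Γ, ∃ k : ℤ, w = g * u ^ k * g⁻¹ := by
  haveI : Fact (Nat.Prime 7) := ⟨by norm_num⟩
  obtain ⟨g, hg⟩ := sylow_conj' (m := 86400) (X := zpowers u) (Y := zpowers w) (by rw [Nat.card_zpowers, hu])
    (by rw [Nat.card_zpowers, hw]) (by rw [hcard]) (by norm_num)
  have h1 : w ∈ (zpowers u).map (MulAut.conj g).toMonoidHom := by rw [hg]; exact mem_zpowers w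
  obtain ⟨v, ⟨k, rfl⟩, hv⟩ := h1
  exact ⟨g, k, hv.symm⟩

theorem orb7 [MulAction Γ (Fin 100)] {z : Γ} (hz : orderOf z = 7) (c : Fin 100) (hc : z • c ≠ c) :
    (orbit (zpowers z) c).ncard = 7 := by
  rw [← index_stabilizer]
  have h1 : (stabilizer (zpowers z) c).index ∣ 7 := by
    have := Subgroup.index_dvd_card (stabilizer (zpowers z) c)
    rwa [Nat.card_zpowers, hz] at this
  rcases (Nat.dvd_prime (by norm_num)).1 h1 with h | h
  · exfalso
    rw [Subgroup.index_eq_one] at h
    have : (⟨z, mem_zpowers z⟩ : zpowers z) ∈ stabilizer (zpowers z) c := by rw [h]; exact mem_top _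
    exact hc this
  · exact h

/-- a nontrivial element of a subgroup of order 5 or 25 centralised by a normalising element of order seven -/
theorem exists_comm {Q : Subgroup Γ} (hQ : Nat.card Q = 5 ∨ Nat.card Q = 25) {z : Γ} (hz : orderOf z = 7)
    (hn : z ∈ normalizer (Q : Set Γ)) : ∃ q ∈ Q, q ≠ 1 ∧ z * q * z⁻¹ = q := by
  haveI : Fact (Nat.Prime 7) := ⟨by norm_num⟩
  set φ : MulAut Q := Q.normalizerMonoidHom ⟨z, hn⟩ with hφ
  have hφ7 : φ ^ 7 = 1 := by
    rw [hφ, ← map_pow]
    have : (⟨z, hn⟩ : normalizer (Q : Set Γ)) ^ 7 = 1 := by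
      apply Subtype.ext
      show z ^ 7 = 1
      rw [← hz]; exact pow_orderOf_eq_one z
    rw [this, map_one]
  have hP : IsPGroup 7 (zpowers φ) := by
    rintro ⟨w, k, rfl⟩
    refine ⟨1, ?_⟩
    apply Subtype.ext
    show (φ ^ k) ^ (7 ^ 1) = 1
    rw [pow_one, ← zpow_natCast, ← zpow_mul, mul_comm, zpow_mul, zpow_natCast, hφ7, one_zpow]
  have h1 := hP.card_modEq_card_fixedPoints Q
  by_contra hcon
  push Not at hcon
  have h2 : fixedPoints (zpowers φ) Q = {1} := by
    ext q
    rw [Set.mem_singleton_iff]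
    constructor
    · intro hq
      by_contra hq1
      apply hcon q q.2 (fun h => hq1 (Subtype.ext h))
      have h3 : (⟨φ, mem_zpowers φ⟩ : zpowers φ) • q = q := hq _
      exact congrArg Subtype.val h3
    · rintro rfl w
      show (w : MulAut Q) 1 = 1
      exact map_one _
  rw [h2, Nat.card_eq_fintype_card (α := ({1} : Set Q)), Fintype.card_unique] at h1
  rcases hQ with h | h <;> rw [h] at h1 <;> exact absurd h1 (by decide)

theorem simple_crit [MulAction Γ (Fin 100)] [FaithfulSMul Γ (Fin 100)] [IsPretransitive Γ (Fin 100)]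
    (hcard : Nat.card Γ = 604800) (z y : Γ) (hz : orderOf z = 7) (hy : orderOf y = 7)
    (hgen : Subgroup.closure {z, y} = ⊤) (a b : Fin 100) (hfix : ∀ i, z • i = i → i = a ∨ i = b) (ha : z • a = a)
    (m : Γ) (hm : m • a = a) (hmb : m • b ≠ b) : IsSimpleGroup Γ := by
  haveI : Fact (Nat.Prime 7) := ⟨by norm_num⟩
  haveI : Fact (Nat.Prime 5) := ⟨by norm_num⟩
  haveI : Nontrivial Γ := ⟨⟨z, 1, by rintro rfl; simp at hz⟩⟩
  refine ⟨fun N hN => ?_⟩
  rw [or_iff_not_imp_left]
  intro hne
  have hsub7 : 7 ∣ Nat.card N → N = ⊤ := by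
    intro h7
    obtain ⟨n, hn⟩ := exists_prime_orderOf_dvd_card' 7 h7
    have hn' : orderOf (n : Γ) = 7 := by rw [Subgroup.orderOf_coe, hn]
    rw [← top_le_iff, ← hgen, closure_le]
    intro w hw
    have hw7 : orderOf w = 7 := by
      rcases hw with rfl | hw
      · exact hz
      · rw [Set.mem_singleton_iff.1 hw]; exact hy
    obtain ⟨g, k, rfl⟩ := conj7 hcard hn' hw7
    exact hN.conj_mem _ (N.zpow_mem n.2 k) g
  by_contra hntop
  have h7 : ¬ 7 ∣ Nat.card N := fun h => hntop (hsub7 h)
  have h5 : 5 ∣ Nat.card N := by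
    by_contra h5
    set O : Set (Fin 100) := orbit N a with hOdef
    have hO1 : O.ncard ∣ Nat.card N := by
      rw [hOdef, ← index_stabilizer]
      exact Subgroup.index_dvd_card _
    have hO2 : O.ncard ∣ 100 := by
      have := (IsBlock.orbit_of_normal (G := Γ) (N := N) a).ncard_dvd_card (nonempty_orbit a)
      rwa [Nat.card_eq_fintype_card, Fintype.card_fin] at this
    have hO3 : O.ncard ≤ 4 := by
      have h6 : ¬ 5 ∣ O.ncard := fun h => h5 (h.trans hO1)
      have hcop : Nat.Coprime O.ncard 25 := by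
        rw [show 25 = 5 ^ 2 by norm_num]
        exact Nat.Coprime.pow_right 2 ((Nat.Prime.coprime_iff_not_dvd (by norm_num)).2 h6).symm
      exact Nat.le_of_dvd (by norm_num) (hcop.dvd_of_dvd_mul_right (show O.ncard ∣ 4 * 25 from hO2))
    have hzO : ∀ g : Γ, g • a = a → ∀ c ∈ O, g • c ∈ O := by
      rintro g hg _ ⟨n, rfl⟩
      refine ⟨⟨g * n * g⁻¹, hN.conj_mem _ n.2 g⟩, ?_⟩
      show (g * n * g⁻¹) • a = g • ((n : Γ) • a)
      rw [mul_smul, mul_smul, show g⁻¹ • a = a from inv_smul_eq_iff.2 hg.symm]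
    have hcb : ∀ c ∈ O, c ≠ a → c = b := by
      intro c hc hca
      have hzc : z • c = c := by
        by_contra hzc
        have h8 := orb7 hz c hzc
        have hsub : orbit (zpowers z) c ⊆ O := by
          rintro _ ⟨⟨w, hw⟩, rfl⟩
          have hle : zpowers z ≤ stabilizer Γ a := by rw [zpowers_le]; exact ha
          exact hzO w (hle hw) c hc
        have := Set.ncard_le_ncard hsub (Set.toFinite _)
        omega
      exact (hfix c hzc).resolve_left hca
    have hex : ∃ c ∈ O, c ≠ a := by
      by_contra hc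
      push Not at hc
      apply hne
      rw [eq_bot_iff]
      intro n hn
      rw [mem_bot]
      apply FaithfulSMul.eq_of_smul_eq_smul (α := Fin 100)
      intro i
      obtain ⟨g, rfl⟩ := exists_smul_eq Γ a i
      have hmem : g⁻¹ * n * g ∈ N := by simpa using hN.conj_mem n hn g⁻¹
      have h9 : (g⁻¹ * n * g) • a = a := hc _ ⟨⟨g⁻¹ * n * g, hmem⟩, rfl⟩
      rw [mul_smul, mul_smul, inv_smul_eq_iff] at h9
      rw [one_smul, h9]
    obtain ⟨c, hc, hca⟩ := hex
    have hcb' := hcb c hc hca
    have hbO : b ∈ O := by rw [← hcb']; exact hc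
    have hba : b ≠ a := by rw [← hcb']; exact hca
    have h1 := hzO m hm b hbO
    have h2 : m • b ≠ a := by
      intro h
      apply hba
      have h3 : m • b = m • a := by rw [h, hm]
      exact smul_left_cancel m h3
    exact hmb (hcb _ h1 h2)
  -- the Frattini argument
  let Q : Sylow 5 N := default
  set Q' := (Q : Subgroup N).map N.subtype with hQ'
  have hfr := Sylow.normalizer_sup_eq_top Q
  have hM7 : 7 ∣ Nat.card ↥(normalizer (Q' : Set Γ)) := by
    have h1 : N.relIndex (normalizer (Q' : Set Γ) ⊔ N) = N.relIndex (normalizer (Q' : Set Γ)) := relIndex_sup_right _ _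
    rw [hfr, relIndex_top_right] at h1
    have h2 := N.card_mul_index
    rw [hcard, h1] at h2
    have h3 : 7 ∣ Nat.card N * N.relIndex (normalizer (Q' : Set Γ)) := by rw [h2]; norm_num
    exact (((Nat.Prime.dvd_mul (by norm_num)).1 h3).resolve_left h7).trans (relIndex_dvd_card _ _)
  obtain ⟨z', hz'⟩ := exists_prime_orderOf_dvd_card' 7 hM7
  have hz'' : orderOf (z' : Γ) = 7 := by rw [Subgroup.orderOf_coe, hz']
  have hcQ : Nat.card Q' = Nat.card Q :=
    (Nat.card_congr ((Q : Subgroup N).equivMapOfInjective N.subtype N.subtype_injective).toEquiv).symm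
  have hQ5 : Nat.card Q' = 5 ∨ Nat.card Q' = 25 := by
    obtain ⟨n, hn⟩ := (IsPGroup.iff_card).1 Q.2
    have hn0 : n ≠ 0 := by
      rintro rfl
      have h1 := Q.card_eq_multiplicity
      rw [hn, pow_zero] at h1
      have h2 : 0 < (Nat.card N).factorization 5 := Nat.Prime.factorization_pos_of_dvd (by norm_num) Nat.card_pos.ne' h5
      have h3 : 1 < 5 ^ (Nat.card N).factorization 5 := Nat.one_lt_pow h2.ne' (by norm_num)
      omega
    have hdv : 5 ^ n ∣ 604800 := by
      rw [← hn, ← hcard, ← hcQ]; exact Subgroup.card_subgroup_dvd_card _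
    have hn2 : n ≤ 2 := by
      by_contra hlt
      have : 5 ^ 3 ∣ 604800 := (pow_dvd_pow 5 (by omega : 3 ≤ n)).trans hdv
      revert this; norm_num
    rw [hcQ, hn]
    have : n = 1 ∨ n = 2 := by omega
    rcases this with rfl | rfl
    · left; norm_num
    · right; norm_num
  obtain ⟨q, hqQ, hq1, hqz⟩ := exists_comm hQ5 hz'' z'.2
  obtain ⟨g, k, hgk⟩ := conj7 hcard hz hz''
  -- transport to `z`
  have hq25 : q ^ 25 = 1 := by
    have h1 : orderOf q ∣ 25 := by
      have h2 := Subgroup.orderOf_dvd_natCard Q' hqQ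
      rcases hQ5 with h | h <;> rw [h] at h2
      · exact h2.trans (by norm_num)
      · exact h2
    exact orderOf_dvd_iff_pow_eq_one.1 h1
  set r := g⁻¹ * q * g with hr
  have hr25 : r ^ 25 = 1 := by
    have : r = MulAut.conj g⁻¹ q := by rw [hr, MulAut.conj_apply, inv_inv]
    rw [this, ← map_pow, hq25, map_one]
  have hr1 : r ≠ 1 := by
    intro h
    apply hq1
    have : q = g * r * g⁻¹ := by rw [hr]; group
    rw [this, h]; group
  have hck : Commute (z ^ k) r := by
    have h1 : (z' : Γ) * q = q * z' := by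
      have := congrArg (· * (z' : Γ)) hqz
      simpa [mul_assoc] using this
    rw [hgk] at h1
    show z ^ k * r = r * z ^ k
    have h2 : g * (z ^ k * r) * g⁻¹ = g * (r * z ^ k) * g⁻¹ := by
      rw [hr]
      calc g * (z ^ k * (g⁻¹ * q * g)) * g⁻¹ = g * z ^ k * g⁻¹ * q := by group
        _ = q * (g * z ^ k * g⁻¹) := h1
        _ = g * (g⁻¹ * q * g * z ^ k) * g⁻¹ := by group
    exact mul_left_cancel (mul_right_cancel h2)
  have hzk : z ∈ zpowers (z ^ k) := by
    have h1 : orderOf (z ^ k) = 7 := by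
      have h2 : (z' : Γ) = MulAut.conj g (z ^ k) := by rw [MulAut.conj_apply]; exact hgk
      rw [← hz'', h2]
      exact (MulEquiv.orderOf_eq (MulAut.conj g) (z ^ k)).symm
    have h2 : zpowers (z ^ k) = zpowers z := by
      apply Subgroup.eq_of_le_of_card_ge
      · rw [zpowers_le]; exact zpow_mem (mem_zpowers z) k
      · rw [Nat.card_zpowers, Nat.card_zpowers, h1, hz]
    rw [h2]; exact mem_zpowers z
  have hcz : Commute z r := by
    obtain ⟨l, hl⟩ := hzk
    have hl' : (z ^ k) ^ l = z := hl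
    rw [← hl']
    exact hck.zpow_left l
  have hpow : ∀ i : ℕ, (r ^ i) • a = a ∨ (r ^ i) • a = b := by
    intro i
    apply hfix
    have h1 : z * r ^ i = r ^ i * z := (hcz.pow_right i)
    rw [← mul_smul, h1, mul_smul, ha]
  have hr2 : (r ^ 2) • a = a := by
    have h1 := hpow 1
    have h2 := hpow 2
    rw [pow_one] at h1
    rcases h1 with h1 | h1
    · rw [pow_two, mul_smul, h1, h1]
    · rcases h2 with h2 | h2
      · exact h2
      · exfalso
        rw [pow_two, mul_smul] at h2
        have h3 : r • a = a := by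
          have : r • (r • a) = r • a := by rw [h2, h1]
          exact smul_left_cancel r this
        apply hr1
        have h4 : r ∈ stabilizer Γ a := h3
        have h5' := Subgroup.orderOf_dvd_natCard _ h4
        have h6 : orderOf r ∣ 25 := orderOf_dvd_of_pow_eq_one hr25
        have h8 := (stabilizer Γ a).card_mul_index
        rw [index_stabilizer_of_transitive, hcard, Nat.card_eq_fintype_card (α := Fin 100), Fintype.card_fin] at h8
        have h9 : Nat.card ↥(stabilizer Γ a) = 6048 := by omega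
        rw [h9] at h5'
        have h10 : orderOf r ∣ 1 := by
          have := Nat.dvd_gcd h5' h6
          exact this
        exact orderOf_eq_one_iff.1 (Nat.dvd_one.1 h10)
  have h4 : r ^ 2 ∈ stabilizer Γ a := hr2
  have h5' := Subgroup.orderOf_dvd_natCard _ h4
  have h6 : orderOf (r ^ 2) ∣ 25 := orderOf_dvd_of_pow_eq_one (by rw [← pow_mul, mul_comm, pow_mul, hr25, one_pow])
  have h8 := (stabilizer Γ a).card_mul_index
  rw [index_stabilizer_of_transitive, hcard, Nat.card_eq_fintype_card (α := Fin 100), Fintype.card_fin] at h8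
  have h9 : Nat.card ↥(stabilizer Γ a) = 6048 := by omega
  rw [h9] at h5'
  have h10 : orderOf (r ^ 2) ∣ 1 := Nat.dvd_gcd h5' h6
  have h11 : r ^ 2 = 1 := orderOf_eq_one_iff.1 (Nat.dvd_one.1 h10)
  apply hr1
  have : r ^ 25 = (r ^ 2) ^ 12 * r := by rw [← pow_mul, ← pow_succ]
  rw [hr25, h11, one_pow, one_mul] at this
  exact this.symm

end CfsgLib.J2P
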