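import Mathlib
import Cfsg.Agent.LibJ2D
import Cfsg.Agent.LibJ2S

/-!
Existence of a simple group of order 604800.
-/

set_option autoImplicit false
set_option linter.all false

namespace CfsgLib.J2P

open MulAction Subgroup

theorem trans_ok : ((List.range 100).all fun j => U0.any fun u => Nat.beq (ap u 23) j) = true := by decide +kernel

theorem x7 : eqc (fun i => ap gx (ap gx (ap gx (ap gx (ap gx (ap gx (ap gx i))))))) id = true := by decide +kernel
theorem y7 : eqc (fun i => ap gy (ap gy (ap gy (ap gy (ap gy (ap gy (ap gy i))))))) id = true := by decide +kernel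
theorem xne : (Nat.beq (ap gx 0) 0) = false := by decide +kernel
theorem yne : ((List.range 100).all fun i => Nat.beq (ap gy i) i) = false := by decide +kernel
theorem xfix : ((List.range 100).all fun i => or (not (Nat.beq (ap gx i) i)) (or (Nat.beq i 23) (Nat.beq i 60))) = true := by
  decide +kernel
theorem xa : Nat.beq (ap gx 23) 23 = true := by decide +kernel
theorem mv : (S1.any fun s => and (Nat.beq (ap s 23) 23) (not (Nat.beq (ap s 60) 60))) = true := by decide +kernel

theorem order7 {g : Equiv.Perm (Fin 100)} {N : ℕ} (hg : Rep g N)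
    (h : eqc (fun i => ap N (ap N (ap N (ap N (ap N (ap N (ap N i))))))) id = true) (hne : g ≠ 1) : orderOf g = 7 := by
  haveI : Fact (Nat.Prime 7) := ⟨by norm_num⟩
  refine orderOf_eq_prime ?_ hne
  apply Equiv.ext
  intro i
  apply Fin.ext
  have h1 := eqc_spec h i i.2
  have hg' : ∀ i : Fin 100, ((g i : Fin 100) : ℕ) = ap N i := hg
  simp only [← hg', id] at h1
  show ((g (g (g (g (g (g (g i)))))) : Fin 100) : ℕ) = i
  exact h1

theorem simple_K0 : IsSimpleGroup K0 := by
  obtain ⟨z, hzK, hz⟩ := s0 gx (by simp [S0])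
  obtain ⟨y, hyK, hy⟩ := s0 gy (by simp [S0])
  have hz1 : z ≠ 1 := by
    rintro rfl
    have h1 : Nat.beq (ap gx 0) 0 = true := by
      rw [show ap gx 0 = 0 from (hz 0).symm]; rfl
    rw [xne] at h1; exact absurd h1 (by decide)
  have hy1 : y ≠ 1 := by
    rintro rfl
    have h1 : ((List.range 100).all fun i => Nat.beq (ap gy i) i) = true := by
      rw [List.all_eq_true]
      intro i hi
      rw [show ap gy i = i from (hy ⟨i, List.mem_range.1 hi⟩).symm]
      exact Nat.beq_refl i
    rw [yne] at h1; exact absurd h1 (by decide)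
  have oz := order7 hz x7 hz1
  have oy := order7 hy y7 hy1
  haveI : IsPretransitive K0 (Fin 100) := by
    have hb : ∀ j : Fin 100, ∃ g : K0, g • (23 : Fin 100) = j := by
      intro j
      obtain ⟨u, hu, h1⟩ := List.any_eq_true.1 (List.all_eq_true.1 trans_ok j (List.mem_range.2 j.2))
      obtain ⟨g, hgK, hg⟩ := u0 u hu
      refine ⟨⟨g, hgK⟩, ?_⟩
      apply Fin.ext
      show ((g 23 : Fin 100) : ℕ) = j
      rw [hg]; exact Nat.eq_of_beq_eq_true h1
    refine ⟨fun i j => ?_⟩
    obtain ⟨g, hg⟩ := hb i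
    obtain ⟨h, hh⟩ := hb j
    exact ⟨h * g⁻¹, by rw [mul_smul, ← hg, inv_smul_smul, hh]⟩
  have hgen : Subgroup.closure ({⟨z, hzK⟩, ⟨y, hyK⟩} : Set K0) = ⊤ := by
    have h1 : Subgroup.closure ((Subtype.val : K0 → Equiv.Perm (Fin 100)) ⁻¹' (UU S0)) = ⊤ :=
      Subgroup.closure_closure_coe_preimage
    rw [← h1]
    congr 1
    ext w
    simp only [Set.mem_insert_iff, Set.mem_singleton_iff, Set.mem_preimage]
    constructor
    · rintro (rfl | rfl)
      · exact ⟨gx, by simp [S0], hz⟩
      · exact ⟨gy, by simp [S0], hy⟩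
    · rintro ⟨N, hN, hw⟩
      rcases List.mem_cons.1 hN with rfl | hN
      · left; exact Subtype.ext (hw.eq hz)
      · right
        rw [List.mem_singleton.1 hN] at hw
        exact Subtype.ext (hw.eq hy)
  obtain ⟨s, hs, h1⟩ := List.any_eq_true.1 mv
  rw [Bool.and_eq_true] at h1
  obtain ⟨m, hmK, hm⟩ := ss1 s hs
  refine simple_crit (Γ := K0) card_K0 ⟨z, hzK⟩ ⟨y, hyK⟩ ?_ ?_ hgen 23 60 ?_ ?_ ⟨m, hmK⟩ ?_ ?_
  · rw [← oz]; exact (Subgroup.orderOf_mk z hzK)
  · rw [← oy]; exact (Subgroup.orderOf_mk y hyK)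
  · intro i hi
    have h2 : ap gx i = i := by rw [← hz i]; exact congrArg Fin.val hi
    have h3 := List.all_eq_true.1 xfix i (List.mem_range.2 i.2)
    rw [h2, Nat.beq_refl, Bool.not_true, Bool.false_or, Bool.or_eq_true] at h3
    rcases h3 with h3 | h3
    · left; exact Fin.ext (Nat.eq_of_beq_eq_true h3)
    · right; exact Fin.ext (Nat.eq_of_beq_eq_true h3)
  · apply Fin.ext
    show ((z 23 : Fin 100) : ℕ) = 23
    rw [hz]; exact Nat.eq_of_beq_eq_true xa
  · apply Fin.ext
    show ((m 23 : Fin 100) : ℕ) = 23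
    rw [hm]; exact Nat.eq_of_beq_eq_true h1.1
  · intro h4
    have h5 : ap s 60 = 60 := by
      have := congrArg Fin.val h4
      rw [show (60 : ℕ) = ((60 : Fin 100) : ℕ) from rfl, ← hm 60]; exact this
    have h6 := h1.2
    rw [h5] at h6
    revert h6; decide

end CfsgLib.J2P
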