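import Mathlib

/-!
Verified stabiliser chains for permutation groups of degree one hundred.
-/

set_option autoImplicit false
set_option linter.all false

namespace CfsgLib.J2P

open scoped Pointwise

/-- decoding -/
def ap (N i : ℕ) : ℕ := Nat.land (Nat.shiftRight N (Nat.mul 7 i)) 127

/-- pointwise equality -/
def eqc (f h : ℕ → ℕ) : Bool := (List.range 100).all fun i => Nat.beq (f i) (h i)

theorem eqc_spec {f h : ℕ → ℕ} (e : eqc f h = true) (i : ℕ) (hi : i < 100) : f i = h i :=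
  Nat.eq_of_beq_eq_true (List.all_eq_true.1 e i (List.mem_range.2 hi))

/-- the code represents the permutation -/
def Rep (g : Equiv.Perm (Fin 100)) (N : ℕ) : Prop := ∀ i : Fin 100, ((g i : Fin 100) : ℕ) = ap N i

theorem Rep.eq {g h : Equiv.Perm (Fin 100)} {N : ℕ} (hg : Rep g N) (hh : Rep h N) : g = h :=
  Equiv.ext fun i => Fin.ext ((hg i).trans (hh i).symm)

theorem Rep.mul {g h : Equiv.Perm (Fin 100)} {N M L : ℕ} (hg : Rep g N) (hh : Rep h M)
    (e : eqc (ap L) (fun i => ap N (ap M i)) = true) : Rep (g * h) L := by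
  intro i
  rw [Equiv.Perm.mul_apply, hg, hh]; exact (eqc_spec e i i.2).symm

/-- check of a quotient -/
def dv (h u' u1 u2 : ℕ) : Bool := and (eqc (fun i => ap u' (ap h i)) (fun i => ap u1 (ap u2 i)))
  ((List.range 100).all fun i => Nat.blt (ap h i) 100)

theorem dv_spec {K : Subgroup (Equiv.Perm (Fin 100))} {h u' u1 u2 : ℕ} (e : dv h u' u1 u2 = true)
    (h0 : ∃ g ∈ K, Rep g u') (h1 : ∃ g ∈ K, Rep g u1) (h2 : ∃ g ∈ K, Rep g u2) : ∃ g ∈ K, Rep g h := by
  obtain ⟨g0, m0, r0⟩ := h0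
  obtain ⟨g1, m1, r1⟩ := h1
  obtain ⟨g2, m2, r2⟩ := h2
  rw [dv, Bool.and_eq_true] at e
  refine ⟨g0⁻¹ * (g1 * g2), K.mul_mem (K.inv_mem m0) (K.mul_mem m1 m2), fun i => ?_⟩
  have hlt : ap h i < 100 := by
    have := List.all_eq_true.1 e.2 i (List.mem_range.2 i.2)
    simpa [Nat.blt_eq] using this
  have h3 : g0 ⟨ap h i, hlt⟩ = g1 (g2 i) := by
    apply Fin.ext
    rw [r0, r1, r2]
    exact eqc_spec e.1 i i.2
  rw [Equiv.Perm.mul_apply, Equiv.Perm.mul_apply, ← h3]
  show ((g0.symm (g0 ⟨ap h i, hlt⟩) : Fin 100) : ℕ) = _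
  rw [Equiv.symm_apply_apply]

/-- check of a generator with its inverse -/
def gn (N M : ℕ) : Bool := (List.range 100).all fun i => and (and (Nat.blt (ap N i) 100) (Nat.blt (ap M i) 100))
  (and (Nat.beq (ap M (ap N i)) i) (Nat.beq (ap N (ap M i)) i))

theorem gn_spec {N M : ℕ} (e : gn N M = true) : ∃ g, Rep g N := by
  have h : ∀ i : Fin 100, (ap N i < 100 ∧ ap M i < 100) ∧ (ap M (ap N i) = i ∧ ap N (ap M i) = i) := by
    intro i
    have := List.all_eq_true.1 e i (List.mem_range.2 i.2)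
    rw [Bool.and_eq_true, Bool.and_eq_true, Bool.and_eq_true] at this
    exact ⟨⟨by simpa [Nat.blt_eq] using this.1.1, by simpa [Nat.blt_eq] using this.1.2⟩,
      Nat.eq_of_beq_eq_true this.2.1, Nat.eq_of_beq_eq_true this.2.2⟩
  exact ⟨⟨fun i => ⟨ap N i, (h i).1.1⟩, fun i => ⟨ap M i, (h i).1.2⟩, fun i => Fin.ext (h i).2.1,
    fun i => Fin.ext (h i).2.2⟩, fun i => rfl⟩

/-- represented permutations -/
def UU (U : List ℕ) : Set (Equiv.Perm (Fin 100)) := {g | ∃ N ∈ U, Rep g N}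

/-- product of transversals -/
def XX : List (List ℕ) → Set (Equiv.Perm (Fin 100))
  | [] => {1}
  | U :: L => {g | ∃ u ∈ UU U, ∃ h ∈ XX L, g = u * h}

/-- sifting -/
def sft (t : ℕ → ℕ) : List (ℕ × List ℕ) → (ℕ → ℕ) → Bool
  | [], f => eqc f t
  | (b, U) :: L, f => U.any fun v => and (Nat.beq (f (ap v b)) (t b)) (sft t L (fun i => f (ap v i)))

theorem sft_spec (t : ℕ → ℕ) : ∀ (L : List (ℕ × List ℕ)) (f : ℕ → ℕ) (g : Equiv.Perm (Fin 100)),
    (∀ i : Fin 100, ((g i : Fin 100) : ℕ) = f i) → (∀ p ∈ L, ∀ v ∈ p.2, ∃ u, Rep u v) → sft t L f = true →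
    ∃ x ∈ XX (L.map Prod.snd), ∀ i : Fin 100, t i = (((g * x) i : Fin 100) : ℕ)
  | [], f, g, hg, _, h => ⟨1, rfl, fun i => by
      rw [mul_one, hg]; exact (eqc_spec h i i.2).symm⟩
  | (b, U) :: L, f, g, hg, hL, h => by
    rw [sft] at h
    obtain ⟨v, hv, h1⟩ := List.any_eq_true.1 h
    rw [Bool.and_eq_true] at h1
    obtain ⟨u, hu⟩ := hL (b, U) List.mem_cons_self v hv
    obtain ⟨x, hx, h2⟩ := sft_spec t L (fun i => f (ap v i)) (g * u)
      (fun i => by rw [Equiv.Perm.mul_apply, hg, hu]) (fun p hp => hL p (List.mem_cons_of_mem _ hp)) h1.2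
    exact ⟨u * x, ⟨u, ⟨v, hv, hu⟩, x, hx, rfl⟩, fun i => by rw [h2, mul_assoc]⟩

theorem level {L : List (ℕ × List ℕ)} {b : ℕ} {U S : List ℕ} {K H : Subgroup (Equiv.Perm (Fin 100))}
    (hK : K = Subgroup.closure (UU S)) (hH : (H : Set (Equiv.Perm (Fin 100))) = XX (L.map Prod.snd)) (hHK : H ≤ K)
    (hU : ∀ u ∈ U, ∃ g ∈ K, Rep g u) (hL : ∀ p ∈ L, ∀ v ∈ p.2, ∃ u, Rep u v) (h1 : ∃ u ∈ U, Rep 1 u)
    (hchk : (S.all fun s => U.all fun u => sft (fun i => ap s (ap u i)) ((b, U) :: L) id) = true) :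
    (K : Set (Equiv.Perm (Fin 100))) = XX (((b, U) :: L).map Prod.snd) := by
  have hXH : ∀ x, x ∈ XX (L.map Prod.snd) ↔ x ∈ H := fun x => by rw [← hH]; rfl
  set Y := XX (((b, U) :: L).map Prod.snd) with hY
  have hYm : ∀ g, g ∈ Y ↔ ∃ u ∈ UU U, ∃ h ∈ H, g = u * h := by
    intro g
    constructor
    · rintro ⟨u, hu, h, hh, rfl⟩; exact ⟨u, hu, h, (hXH h).1 hh, rfl⟩
    · rintro ⟨u, hu, h, hh, rfl⟩; exact ⟨u, hu, h, (hXH h).2 hh, rfl⟩
  apply Set.Subset.antisymm
  · intro g hg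
    have hg' : g ∈ Subgroup.closure (UU S) := by rw [← hK]; exact hg
    have hle : Subgroup.closure (UU S) ≤ MulAction.stabilizer (Equiv.Perm (Fin 100)) Y := by
      rw [Subgroup.closure_le]
      rintro s ⟨ns, hns, hs⟩
      have hsub : s • Y ⊆ Y := by
        rintro _ ⟨y, hy, rfl⟩
        obtain ⟨u, ⟨nu, hnu, hu⟩, h, hh, rfl⟩ := (hYm y).1 hy
        have h3 := List.all_eq_true.1 (List.all_eq_true.1 hchk ns hns) nu hnu
        obtain ⟨x, hx, h4⟩ := sft_spec _ ((b, U) :: L) id 1 (fun i => rfl) (by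
          intro p hp
          rcases List.mem_cons.1 hp with rfl | hp
          · intro v hv; obtain ⟨g, _, hg⟩ := hU v hv; exact ⟨g, hg⟩
          · exact hL p hp) h3
        have h5 : s * u = x := by
          apply Equiv.ext
          intro i
          apply Fin.ext
          rw [Equiv.Perm.mul_apply, hs, hu, h4, one_mul]
        obtain ⟨u', hu', h', hh', h6⟩ := (hYm x).1 hx
        rw [hYm]
        refine ⟨u', hu', h' * h, H.mul_mem hh' hh, ?_⟩
        show s * (u * h) = u' * (h' * h)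
        rw [← mul_assoc, h5, h6, mul_assoc]
      show s • Y = Y
      apply Set.eq_of_subset_of_ncard_le hsub _ (Set.toFinite _)
      have : (s • Y).ncard = Y.ncard := Set.ncard_image_of_injective _ (MulAction.injective s)
      rw [this]
    have h7 : g • Y = Y := hle hg'
    have h8 : (1 : Equiv.Perm (Fin 100)) ∈ Y := by
      rw [hYm]
      obtain ⟨u, hu, hu1⟩ := h1
      exact ⟨1, ⟨u, hu, hu1⟩, 1, H.one_mem, by rw [mul_one]⟩
    rw [← h7]
    exact ⟨1, h8, by show g * 1 = g; rw [mul_one]⟩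
  · intro g hg
    obtain ⟨u, ⟨nu, hnu, hu⟩, h, hh, rfl⟩ := (hYm g).1 hg
    obtain ⟨g', hg', hr⟩ := hU nu hnu
    rw [hu.eq hr]
    exact K.mul_mem hg' (hHK hh)

theorem card_level {L : List (ℕ × List ℕ)} {b : Fin 100} {b' : ℕ} {U : List ℕ} {K H : Subgroup (Equiv.Perm (Fin 100))}
    (hK : (K : Set (Equiv.Perm (Fin 100))) = XX (((b', U) :: L).map Prod.snd))
    (hH : (H : Set (Equiv.Perm (Fin 100))) = XX (L.map Prod.snd)) (hHK : H ≤ K)
    (hU : ∀ u ∈ U, ∃ g ∈ K, Rep g u) (hfix : ∀ h ∈ H, h b = b) (hnd : (U.map fun v => ap v b).Nodup) :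
    Nat.card K = U.length * Nat.card H := by
  have hr : ∀ i : Fin U.length, ∃ g ∈ K, Rep g U[i] := fun i => hU _ (List.getElem_mem i.2)
  choose r hrK hr using hr
  let f : Fin U.length × H → K := fun p => ⟨r p.1 * p.2, K.mul_mem (hrK _) (hHK p.2.2)⟩
  have hf : Function.Bijective f := by
    constructor
    · rintro ⟨i, h⟩ ⟨j, h'⟩ e
      have e1 : r i * h = r j * h' := congrArg Subtype.val e
      have e2 : r i b = r j b := by
        have := congrArg (fun g : Equiv.Perm (Fin 100) => g b) e1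
        simp only [Equiv.Perm.mul_apply, hfix h h.2, hfix h' h'.2] at this
        exact this
      have e3 : ap U[i] b = ap U[j] b := by rw [← hr i b, ← hr j b, e2]
      have e4 : i = j := by
        apply Fin.ext
        have h5 : (U.map fun v => ap v b)[(i : ℕ)]'(by rw [List.length_map]; exact i.2) =
            (U.map fun v => ap v b)[(j : ℕ)]'(by rw [List.length_map]; exact j.2) := by
          rw [List.getElem_map, List.getElem_map]; exact e3
        exact (List.Nodup.getElem_inj_iff hnd).1 h5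
      subst e4
      rw [Prod.mk.injEq]
      exact ⟨rfl, Subtype.ext (mul_left_cancel e1)⟩
    · rintro ⟨g, hg⟩
      have hg2 : g ∈ XX (((b', U) :: L).map Prod.snd) := by rw [← hK]; exact hg
      obtain ⟨u, ⟨nu, hnu, hu⟩, h, hh, rfl⟩ := hg2
      obtain ⟨i, hi, rfl⟩ := List.getElem_of_mem hnu
      have hh' : h ∈ H := by
        have : h ∈ (H : Set (Equiv.Perm (Fin 100))) := by rw [hH]; exact hh
        exact this
      refine ⟨(⟨i, hi⟩, ⟨h, hh'⟩), ?_⟩
      apply Subtype.ext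
      show r ⟨i, hi⟩ * h = u * h
      rw [(hr ⟨i, hi⟩).eq hu]
  rw [← Nat.card_congr (Equiv.ofBijective f hf), Nat.card_prod, Nat.card_eq_fintype_card, Fintype.card_fin]

/-- check of a tree -/
def okTree (S : List ℕ) : List ℕ → List ℕ → Bool
  | [], _ => true
  | u :: r, done => and (S.any fun s => done.any fun p => eqc (ap u) (fun i => ap s (ap p i))) (okTree S r (u :: done))

theorem tree_spec {K : Subgroup (Equiv.Perm (Fin 100))} {S : List ℕ} (hS : ∀ s ∈ S, ∃ g ∈ K, Rep g s) :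
    ∀ (rem done : List ℕ), okTree S rem done = true → (∀ u ∈ done, ∃ g ∈ K, Rep g u) →
      ∀ u ∈ rem, ∃ g ∈ K, Rep g u
  | [], _, _, _, u, hu => absurd hu (List.not_mem_nil)
  | v :: r, done, h, hd, u, hu => by
    rw [okTree, Bool.and_eq_true] at h
    obtain ⟨s, hs, h1⟩ := List.any_eq_true.1 h.1
    obtain ⟨p, hp, h2⟩ := List.any_eq_true.1 h1
    obtain ⟨g1, m1, r1⟩ := hS s hs
    obtain ⟨g2, m2, r2⟩ := hd p hp
    have hv : ∃ g ∈ K, Rep g v := ⟨g1 * g2, K.mul_mem m1 m2, r1.mul r2 h2⟩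
    rcases List.mem_cons.1 hu with rfl | hu
    · exact hv
    · refine tree_spec hS r (v :: done) h.2 (fun u' hu' => ?_) u hu
      rcases List.mem_cons.1 hu' with rfl | hu'
      · exact hv
      · exact hd u' hu'

theorem fix_of {S : List ℕ} {b : Fin 100} (h : (S.all fun s => Nat.beq (ap s b) b) = true) :
    ∀ g ∈ Subgroup.closure (UU S), g b = b := by
  intro g hg
  have hle : Subgroup.closure (UU S) ≤ MulAction.stabilizer (Equiv.Perm (Fin 100)) b := by
    rw [Subgroup.closure_le]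
    rintro s ⟨ns, hns, hs⟩
    have h3 := Nat.eq_of_beq_eq_true (List.all_eq_true.1 h ns hns)
    show s b = b
    apply Fin.ext
    rw [hs, h3]
  exact hle hg

end CfsgLib.J2P
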