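import Mathlib
import Cfsg.Agent.LibJor5H13
import Cfsg.Agent.LibRegH13
import Cfsg.Agent.LibInvCH13

/-! Single blocks (seat helper13). -/

namespace CfsgLib.Jor

open Module CfsgLib.Reg

/-- the model: the shift is skew for an alternating form -/
theorem exists_model (F : Type*) [Field F] (k : ℕ) : ∃ (B : LinearMap.BilinForm F (Fin (k + 1) → F)) (N : End F (Fin (k + 1) → F)),
    (∀ x y, B x y = (-1) ^ k * B y x) ∧ B.Nondegenerate ∧ Regular N (k + 1) ∧ ∀ x y, B (N x) y = - B x (N y) := by
  classical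
  let N : End F (Fin (k + 1) → F) :=
    { toFun := fun v i => if h : (i : ℕ) + 1 < k + 1 then v ⟨i + 1, h⟩ else 0
      map_add' := fun u v => by
        funext i
        by_cases h : (i : ℕ) + 1 < k + 1
        · simp only [dif_pos h, Pi.add_apply]
        · simp only [dif_neg h, Pi.add_apply, add_zero]
      map_smul' := fun c v => by
        funext i
        by_cases h : (i : ℕ) + 1 < k + 1
        · simp only [dif_pos h, Pi.smul_apply, RingHom.id_apply]
        · simp only [dif_neg h, Pi.smul_apply, smul_zero, RingHom.id_apply] }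
  have hNc : ∀ v (i : Fin k), N v i.castSucc = v i.succ := by
    intro v i
    show (if h : (i.castSucc : ℕ) + 1 < k + 1 then v ⟨i.castSucc + 1, h⟩ else 0) = v i.succ
    rw [dif_pos (by simp)]
    rfl
  have hNl : ∀ v, N v (Fin.last k) = 0 := by
    intro v
    show (if h : ((Fin.last k : Fin (k + 1)) : ℕ) + 1 < k + 1 then v ⟨_, h⟩ else 0) = 0
    rw [dif_neg (by simp)]
  let B : LinearMap.BilinForm F (Fin (k + 1) → F) := LinearMap.mk₂ F (fun x y => ∑ i : Fin (k + 1), (-1) ^ (i : ℕ) * x i * y i.rev)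
    (fun x x' y => by rw [← Finset.sum_add_distrib]; refine Finset.sum_congr rfl fun i _ => ?_; simp only [Pi.add_apply]; ring)
    (fun c x y => by rw [smul_eq_mul, Finset.mul_sum]; refine Finset.sum_congr rfl fun i _ => ?_; simp only [Pi.smul_apply, smul_eq_mul]; ring)
    (fun x y y' => by rw [← Finset.sum_add_distrib]; refine Finset.sum_congr rfl fun i _ => ?_; simp only [Pi.add_apply]; ring)
    (fun c x y => by rw [smul_eq_mul, Finset.mul_sum]; refine Finset.sum_congr rfl fun i _ => ?_; simp only [Pi.smul_apply, smul_eq_mul]; ring)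
  have hB : ∀ x y, B x y = ∑ i : Fin (k + 1), (-1) ^ (i : ℕ) * x i * y i.rev := fun x y => rfl
  have hskew : ∀ x y, B x y = (-1) ^ k * B y x := by
    intro x y
    rw [hB, hB, Finset.mul_sum, ← Equiv.sum_comp Fin.revPerm]
    refine Finset.sum_congr rfl fun i _ => ?_
    simp only [Fin.revPerm_apply, Fin.rev_rev]
    have h1 : ((-1 : F)) ^ ((i.rev : Fin (k + 1)) : ℕ) = (-1) ^ k * (-1) ^ (i : ℕ) := by
      rw [Fin.val_rev]
      have hi := i.2
      have h3 : (-1 : F) ^ k = (-1) ^ (k + 1 - ((i : ℕ) + 1)) * (-1) ^ (i : ℕ) := by rw [← pow_add]; congr 1; omega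
      rw [h3, mul_assoc, ← mul_pow, neg_one_mul, neg_neg, one_pow, mul_one]
    rw [h1]; ring
  have hNB : ∀ x y, B (N x) y = - B x (N y) := by
    intro x y
    rw [hB, hB, Fin.sum_univ_castSucc, Fin.sum_univ_succ (f := fun i : Fin (k + 1) => (-1) ^ (i : ℕ) * x i * N y i.rev)]
    have h1 : N y (Fin.rev 0) = 0 := by
      rw [Fin.rev_zero]; exact hNl y
    rw [hNl, h1, mul_zero, zero_mul, mul_zero, add_zero, zero_add, ← Finset.sum_neg_distrib]
    refine Finset.sum_congr rfl fun i _ => ?_
    rw [hNc]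
    have h2 : N y (Fin.rev i.succ) = y (Fin.rev i.castSucc) := by
      have e1 : Fin.rev i.succ = (Fin.rev i).castSucc := by
        apply Fin.ext; simp [Fin.val_rev]
      have e2 : Fin.rev i.castSucc = (Fin.rev i).succ := by
        apply Fin.ext
        simp only [Fin.val_rev, Fin.val_castSucc, Fin.val_succ]
        omega
      rw [e1, e2, hNc]
    rw [h2, Fin.val_castSucc, Fin.val_succ, pow_succ]
    ring
  have hNpow : ∀ j v (i : Fin (k + 1)), (N ^ j) v i = if h : (i : ℕ) + j < k + 1 then v ⟨i + j, h⟩ else 0 := by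
    intro j
    induction j with
    | zero => intro v i; rw [dif_pos (by omega)]; simp
    | succ j ih =>
      intro v i
      rw [pow_succ', Module.End.mul_apply]
      show (if h : (i : ℕ) + 1 < k + 1 then (N ^ j) v ⟨i + 1, h⟩ else 0) = _
      by_cases h : (i : ℕ) + 1 < k + 1
      · rw [dif_pos h, ih]
        simp only [show (i : ℕ) + 1 + j = i + (j + 1) by omega]
      · rw [dif_neg h, dif_neg (by omega)]
  have hnil : N ^ (k + 1) = 0 := by
    apply LinearMap.ext
    intro v
    funext i
    rw [hNpow, dif_neg (by omega)]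
    rfl
  have hker : finrank F (LinearMap.ker N) ≤ 1 := by
    let ev : LinearMap.ker N →ₗ[F] F := (LinearMap.proj (0 : Fin (k + 1))).comp (LinearMap.ker N).subtype
    have hev : Function.Injective ev := by
      rw [← LinearMap.ker_eq_bot, LinearMap.ker_eq_bot']
      rintro ⟨v, hv⟩ hv0
      apply Subtype.ext
      funext i
      rw [LinearMap.mem_ker] at hv
      refine Fin.cases ?_ (fun j => ?_) i
      · exact hv0
      · show v j.succ = 0
        rw [← hNc v j, hv]; rfl
    have := LinearMap.finrank_le_finrank_of_injective hev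
    simpa using this
  have hrank : finrank F (LinearMap.range N) = k + 1 - 1 := by
    have h1 := LinearMap.finrank_range_add_finrank_ker N
    rw [Module.finrank_fintype_fun_eq_card, Fintype.card_fin] at h1
    have h2 : finrank F (LinearMap.ker N) ≠ 0 := by
      intro h
      rw [Submodule.finrank_eq_zero] at h
      have hinj : Function.Injective N := LinearMap.ker_eq_bot.mp h
      have : Function.Injective (N ^ (k + 1)) := by
        rw [Module.End.coe_pow]; exact hinj.iterate (k + 1)
      rw [hnil] at this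
      have h3 := @this (fun _ => 1) 0 rfl
      have := congrFun h3 0
      exact one_ne_zero this
    omega
  refine ⟨B, N, hskew, ?_, ⟨hnil, hrank, by simp⟩, hNB⟩
  have key : ∀ x, (∀ y, B x y = 0) → x = 0 := by
    intro x hx
    funext i
    have h3 := hx (Pi.single i.rev 1)
    rw [hB, Finset.sum_eq_single i] at h3
    · rw [Pi.single_eq_same, mul_one] at h3
      exact (mul_eq_zero.mp h3).resolve_left (pow_ne_zero _ (neg_ne_zero.mpr one_ne_zero))
    · intro j _ hj
      rw [Pi.single_eq_of_ne (fun h => hj (Fin.rev_injective h)), mul_zero]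
    · intro hh; exact absurd (Finset.mem_univ i) hh
  exact ⟨key, fun x hx => key x (fun y => by rw [hskew, hx, mul_zero])⟩

/-- Cayley transform -/
theorem cayley {F V : Type*} [Field F] [AddCommGroup V] [Module F V] [FiniteDimensional F V] (h2 : (2 : F) ≠ 0) (B : LinearMap.BilinForm F V) {N : End F V} {n : ℕ} (hN : Regular N n)
    (hskew : ∀ x y, B (N x) y = - B x (N y)) : ∃ T : V ≃ₗ[F] V, (∀ x y, B (T x) (T y) = B x y) ∧ Regular ((T : V →ₗ[F] V) - 1) n := by
  classical
  have hNn : IsNilpotent N := ⟨_, hN.nil⟩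
  obtain ⟨P, hP⟩ : IsUnit (1 - N) := hNn.isUnit_one_sub
  obtain ⟨M, hM⟩ : IsUnit (1 + N) := hNn.isUnit_one_add
  let U : (End F V)ˣ := M * P⁻¹
  have hUv : (U : End F V) * (1 - N) = 1 + N := by
    show (M : End F V) * ((P⁻¹ : (End F V)ˣ) : End F V) * (1 - N) = 1 + N
    rw [← hP, mul_assoc, Units.inv_mul, mul_one, hM]
  have hiso : ∀ x y, B ((U : End F V) x) ((U : End F V) y) = B x y := by
    have hPs : Function.Surjective (P : End F V) := ((Module.End.isUnit_iff _).mp P.isUnit).2
    intro x y
    obtain ⟨x, rfl⟩ := hPs x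
    obtain ⟨y, rfl⟩ := hPs y
    rw [← Module.End.mul_apply, ← Module.End.mul_apply, hP, hUv]
    show B (x + N x) (y + N y) = B (x - N x) (y - N y)
    simp only [map_add, map_sub, LinearMap.add_apply, LinearMap.sub_apply]
    rw [hskew x y]
    ring
  have hU1 : (U : End F V) - 1 = ((2 : F) • ((P⁻¹ : (End F V)ˣ) : End F V)) * N := by
    have hc : Commute (((P⁻¹ : (End F V)ˣ) : End F V)) N := by
      apply Commute.units_inv_left
      rw [hP]
      exact (Commute.one_left N).sub_left (Commute.refl N)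
    have h3 : ((U : End F V) - 1) * (1 - N) = (((2 : F) • ((P⁻¹ : (End F V)ˣ) : End F V)) * N) * (1 - N) := by
      rw [sub_mul, hUv, one_mul, smul_mul_assoc, smul_mul_assoc, hc.eq, mul_assoc, ← hP, Units.inv_mul, mul_one, two_smul, hP]
      abel
    have hu : IsUnit (1 - N) := by rw [← hP]; exact P.isUnit
    exact hu.mul_right_cancel h3
  have hUreg : Regular ((U : End F V) - 1) n := by
    have hc : Commute ((2 : F) • ((P⁻¹ : (End F V)ˣ) : End F V)) N := by
      apply Commute.smul_left
      apply Commute.units_inv_left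
      rw [hP]
      exact (Commute.one_left N).sub_left (Commute.refl N)
    have hu : IsUnit ((2 : F) • ((P⁻¹ : (End F V)ˣ) : End F V)) := by
      have : (2 : F) • ((P⁻¹ : (End F V)ˣ) : End F V) = ((2 : F) • 1) * ((P⁻¹ : (End F V)ˣ) : End F V) := by
        rw [smul_mul_assoc, one_mul]
      rw [this]
      refine IsUnit.mul ?_ (P⁻¹).isUnit
      refine isUnit_iff_exists.mpr ⟨(2 : F)⁻¹ • 1, ?_, ?_⟩
      · rw [smul_mul_smul_comm, mul_one, mul_inv_cancel₀ h2, one_smul]
      · rw [smul_mul_smul_comm, mul_one, inv_mul_cancel₀ h2, one_smul]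
    refine ⟨?_, ?_, hN.dim⟩
    · rw [hU1, hc.mul_pow, hN.nil, mul_zero]
    · rw [hU1]
      have hinj := ((Module.End.isUnit_iff _).mp hu).1
      rw [← hN.rank]
      have : LinearMap.range (((2 : F) • ((P⁻¹ : (End F V)ˣ) : End F V)) * N) = (LinearMap.range N).map ((2 : F) • ((P⁻¹ : (End F V)ˣ) : End F V)) := LinearMap.range_comp _ _
      rw [this]
      exact (Submodule.equivMapOfInjective _ hinj _).finrank_eq.symm
  exact ⟨LinearEquiv.ofBijective (U : End F V) ((Module.End.isUnit_iff _).mp U.isUnit), hiso, hUreg⟩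


theorem nk_regular {F V : Type*} [Field F] [AddCommGroup V] [Module F V] [FiniteDimensional F V] {T : V →ₗ[F] V} {n : ℕ} (h : Regular (T - 1) n) (k : ℕ) : nk T k = sm {n} k := by
  have e : sm {n} k = min n k := by unfold sm; simp
  rw [e]
  unfold nk
  rcases le_total k n with hk | hk
  · rw [h.ker_pow hk, min_eq_right hk]
  · have h1 : (T - 1) ^ k = 0 := by
      obtain ⟨c, rfl⟩ := Nat.exists_eq_add_of_le hk
      rw [pow_add, h.nil, zero_mul]
    rw [h1, LinearMap.ker_zero, finrank_top, h.dim, min_eq_left hk]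

theorem rsp_even_odd (F : Type*) [Field F] (h2 : (2 : F) ≠ 0) {a : ℕ} (ha : 0 < a) (he : Even a) : RSp F {a} := by
  obtain ⟨k, rfl⟩ : ∃ k, a = k + 1 := ⟨a - 1, by omega⟩
  obtain ⟨B, N, hs, hB, hN, hsk⟩ := exists_model F k
  have hk : Odd k := by rw [Nat.even_add_one, Nat.not_even_iff_odd] at he; exact he
  obtain ⟨T, hT, hTr⟩ := cayley h2 B hN hsk
  refine rsp_of (B := B) (T := T) ?_ hB hT hTr.nil (nk_regular hTr)
  intro x
  have h3 := hs x x
  rw [hk.neg_one_pow] at h3
  have : 2 * B x x = 0 := by linear_combination h3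
  exact (mul_eq_zero.mp this).resolve_left h2

theorem ror_odd (F : Type*) [Field F] (h2 : (2 : F) ≠ 0) {a : ℕ} (ho : Odd a) : ROr F {a} := by
  obtain ⟨k, rfl⟩ : ∃ k, a = k + 1 := ⟨a - 1, by have := ho.pos; omega⟩
  obtain ⟨B, N, hs, hB, hN, hsk⟩ := exists_model F k
  have hk : Even k := by rw [Nat.odd_add_one, Nat.not_odd_iff_even] at ho; exact ho
  obtain ⟨T, hT, hTr⟩ := cayley h2 B hN hsk
  have hs' : ∀ x y, B x y = B y x := fun x y => by rw [hs, hk.neg_one_pow, one_mul]
  have hp : ∀ x y, QuadraticMap.polarBilin B.toQuadraticMap x y = 2 * B x y := by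
    intro x y
    rw [QuadraticMap.polarBilin_apply_apply]
    unfold QuadraticMap.polar
    rw [LinearMap.BilinMap.toQuadraticMap_apply, LinearMap.BilinMap.toQuadraticMap_apply, LinearMap.BilinMap.toQuadraticMap_apply, map_add, map_add, LinearMap.add_apply, LinearMap.add_apply, hs' y x]
    ring
  refine ror_of (Q := B.toQuadraticMap) (T := T) ?_ ?_ hTr.nil (nk_regular hTr)
  · constructor
    · intro x hx
      apply hB.1
      intro y
      have h3 := hx y
      rw [hp] at h3
      exact (mul_eq_zero.mp h3).resolve_left h2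
    · intro x hx
      apply hB.2
      intro y
      have h3 := hx y
      rw [hp] at h3
      exact (mul_eq_zero.mp h3).resolve_left h2
  · intro x
    rw [LinearMap.BilinMap.toQuadraticMap_apply, LinearMap.BilinMap.toQuadraticMap_apply, hT]

theorem rsp_of_ror (F : Type*) [Field F] [CharP F 2] {S : Multiset ℕ} (h : ROr F S) : RSp F S := by
  obtain ⟨n, Q, T, hQ, hT, ⟨M, hM⟩, hS⟩ := h
  refine ⟨n, QuadraticMap.polarBilin Q, T, CfsgLib.InvC.polar_alt Q, hQ, ?_, ⟨M, hM⟩, hS⟩
  intro x y
  rw [QuadraticMap.polarBilin_apply_apply, QuadraticMap.polarBilin_apply_apply]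
  unfold QuadraticMap.polar
  rw [← map_add, hT, hT, hT]

end CfsgLib.Jor
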