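import Mathlib
import Cfsg.Agent.LibJor6H13

/-! Single even blocks in orthogonal groups of characteristic two (seat helper13). -/

namespace CfsgLib.Jor

open Module CfsgLib.Reg

theorem single_of_nk {F V : Type*} [Field F] [AddCommGroup V] [Module F V] [FiniteDimensional F V] {T : End F V} {M n : ℕ} (hT : (T - 1) ^ M = 0) (hn : finrank F V = n) (hn0 : 0 < n)
    (h1 : nk T 1 ≤ 1) (k : ℕ) : nk T k = sm {n} k := by
  obtain ⟨S, hS1, hS2, hS3⟩ := exists_parts hT
  have h2 : sm S 1 = Multiset.card S := by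
    unfold sm
    rw [Multiset.map_congr rfl (g := fun _ => 1) (fun a ha => by have := (hS1 a ha).1; omega), Multiset.map_const', Multiset.sum_replicate, smul_eq_mul, mul_one]
  have h3 : Multiset.card S ≤ 1 := by rw [← h2, ← hS3]; exact h1
  have h4 : Multiset.card S = 1 := by
    rcases Nat.eq_zero_or_pos (Multiset.card S) with h | h
    · rw [Multiset.card_eq_zero] at h
      rw [h, Multiset.sum_zero] at hS2
      omega
    · omega
  rw [Multiset.card_eq_one] at h4
  obtain ⟨a, rfl⟩ := h4
  rw [Multiset.sum_singleton] at hS2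
  rw [hS3, hS2, hn]

theorem ror_even_two (F : Type*) [Field F] [CharP F 2] {l : ℕ} (hl : 1 ≤ l) : ROr F {2 * l} := by
  classical
  obtain ⟨A, hA, hk⟩ := exists_single F l
  have h2 : ∀ x : F, x + x = 0 := fun x => CharTwo.add_self_eq_zero x
  have hnk1 : nk (A : (Fin l → F) →ₗ[F] (Fin l → F)) 1 = 1 := by
    rw [hk]; unfold sm; simp [hl]
  have hker1 : finrank F (LinearMap.ker ((A : (Fin l → F) →ₗ[F] (Fin l → F)) - 1)) = 1 := by
    have := hnk1; unfold nk at this; rwa [pow_one] at this
  have hran := LinearMap.finrank_range_add_finrank_ker ((A : (Fin l → F) →ₗ[F] (Fin l → F)) - 1)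
  rw [hker1, Module.finrank_fin_fun] at hran
  have hlt : LinearMap.range ((A : (Fin l → F) →ₗ[F] (Fin l → F)) - 1) < ⊤ := by
    rw [lt_top_iff_ne_top]
    intro h
    rw [h, finrank_top, Module.finrank_fin_fun] at hran
    omega
  obtain ⟨φ, hφ0, hφ⟩ := Submodule.exists_le_ker_of_lt_top _ hlt
  obtain ⟨e0, he0⟩ : ∃ e0, φ e0 ≠ 0 := by
    by_contra hcon
    push Not at hcon
    exact hφ0 (LinearMap.ext hcon)
  obtain ⟨e, he⟩ : ∃ e, φ e = 1 := ⟨(φ e0)⁻¹ • e0, by rw [map_smul, smul_eq_mul, inv_mul_cancel₀ he0]⟩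
  have hφN : ∀ x, φ (((A : (Fin l → F) →ₗ[F] (Fin l → F)) - 1) x) = 0 := fun x => hφ ⟨x, rfl⟩
  have hφA : ∀ x, φ (A x) = φ x := by
    intro x
    have h := hφN x
    rw [LinearMap.sub_apply, map_sub, sub_eq_zero] at h
    exact h
  have hφA' : ∀ x, φ (A.symm x) = φ x := by
    intro x
    rw [← hφA, LinearEquiv.apply_symm_apply]
  have hkerφ : LinearMap.range ((A : (Fin l → F) →ₗ[F] (Fin l → F)) - 1) = LinearMap.ker φ := by
    apply Submodule.eq_of_le_of_finrank_eq hφ
    have h3 := LinearMap.finrank_range_add_finrank_ker φ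
    have h4 : LinearMap.range φ = ⊤ := LinearMap.range_eq_top.2 (fun c => ⟨c • e, by rw [map_smul, he, smul_eq_mul, mul_one]⟩)
    rw [h4, finrank_top, Module.finrank_self, Module.finrank_fin_fun] at h3
    omega
  -- the form and the map
  let Q := QuadraticForm.dualProd F (Fin l → F)
  let v : Dual F (Fin l → F) × (Fin l → F) := (φ, e)
  have hQv : Q v = 1 := he
  let c : Dual F (Fin l → F) × (Fin l → F) → F := fun z => z.1 (A.symm e) + φ z.2
  have hc : ∀ z, QuadraticMap.polarBilin Q (lev A z) v = c z := by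
    intro z
    rw [dual_polar, lev_apply]
    show z.1 (A.symm e) + φ (A z.2) = _
    rw [hφA]
  let r : (Dual F (Fin l → F) × (Fin l → F)) →ₗ[F] (Dual F (Fin l → F) × (Fin l → F)) :=
    LinearMap.id + ((QuadraticMap.polarBilin Q).flip v).smulRight v
  have hr : ∀ z, r z = z + QuadraticMap.polarBilin Q z v • v := fun z => rfl
  have hvv : QuadraticMap.polarBilin Q v v = 0 := by
    rw [dual_polar]; exact h2 _
  have hrr : ∀ z, r (r z) = z := by
    intro z
    rw [hr (r z), hr z, map_add, LinearMap.add_apply, map_smul, LinearMap.smul_apply, hvv, smul_zero, add_zero, add_assoc, ← add_smul, h2, zero_smul, add_zero]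
  let re : (Dual F (Fin l → F) × (Fin l → F)) ≃ₗ[F] (Dual F (Fin l → F) × (Fin l → F)) := LinearEquiv.ofInvolutive r hrr
  have hQr : ∀ z, Q (r z) = Q z := by
    intro z
    have h3 : Q (z + QuadraticMap.polarBilin Q z v • v) = Q z + Q (QuadraticMap.polarBilin Q z v • v) + QuadraticMap.polar Q z (QuadraticMap.polarBilin Q z v • v) := by
      unfold QuadraticMap.polar; ring
    rw [hr, h3, QuadraticMap.map_smul, hQv, QuadraticMap.polar_smul_right, smul_eq_mul, smul_eq_mul, mul_one]
    show Q z + _ + QuadraticMap.polarBilin Q z v * QuadraticMap.polarBilin Q z v = Q z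
    rw [add_assoc, h2, add_zero]
  let T : (Dual F (Fin l → F) × (Fin l → F)) ≃ₗ[F] (Dual F (Fin l → F) × (Fin l → F)) := (lev A).trans re
  have hT : ∀ z, T z = lev A z + c z • v := by
    intro z
    show r (lev A z) = _
    rw [hr, hc]
  have hTQ : ∀ z, Q (T z) = Q z := by
    intro z
    show Q (r (lev A z)) = _
    rw [hQr]; exact lev_quad A z
  let D : End F (Dual F (Fin l → F) × (Fin l → F)) := (T : (Dual F (Fin l → F) × (Fin l → F)) →ₗ[F] (Dual F (Fin l → F) × (Fin l → F))) - 1
  let N : End F (Fin l → F) := (A : (Fin l → F) →ₗ[F] (Fin l → F)) - 1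
  let Nd : End F (Dual F (Fin l → F)) := ((A.symm.dualMap : Dual F (Fin l → F) ≃ₗ[F] Dual F (Fin l → F)) : Dual F (Fin l → F) →ₗ[F] Dual F (Fin l → F)) - 1
  have hD : ∀ z, D z = (Nd z.1 + c z • φ, N z.2 + c z • e) := by
    intro z
    show T z - z = _
    rw [hT, lev_apply]
    apply Prod.ext
    · show z.1 ∘ₗ (A.symm : (Fin l → F) →ₗ[F] (Fin l → F)) + c z • φ - z.1 = (z.1 ∘ₗ (A.symm : (Fin l → F) →ₗ[F] (Fin l → F)) - z.1) + c z • φ
      abel
    · show A z.2 + c z • e - z.2 = (A z.2 - z.2) + c z • e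
      abel
  have hNdφ : Nd φ = 0 := by
    apply LinearMap.ext
    intro x
    show φ (A.symm x) - φ x = 0
    rw [hφA', sub_self]
  have hNd : Nd ^ l = 0 := by
    apply nil_of_nk
    rw [nk_dual, nk_inv, nk_of_nil hA, Subspace.dual_finrank_eq]
  have hNl : N ^ l = 0 := hA
  have hφN' : ∀ x, φ (N x) = 0 := hφN
  -- step one
  have hi : ∀ (j : ℕ) (z : Dual F (Fin l → F) × (Fin l → F)), ∃ b : F, ((D ^ j) z).1 = (Nd ^ j) z.1 + b • φ := by
    intro j z
    induction j with
    | zero => exact ⟨0, by rw [zero_smul, add_zero]; rfl⟩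
    | succ j ih =>
      obtain ⟨b, hb⟩ := ih
      refine ⟨c ((D ^ j) z), ?_⟩
      rw [pow_succ', Module.End.mul_apply, hD]
      show Nd ((D ^ j) z).1 + _ = _
      rw [hb, map_add, map_smul, hNdφ, smul_zero, add_zero, pow_succ', Module.End.mul_apply]
  -- step two
  have hii : ∀ (b : F) (x : Fin l → F), ∃ y, D (D (b • φ, x)) = (0, y) ∧ φ y = 0 := by
    intro b x
    have h3 : D (b • φ, x) = ((c (b • φ, x)) • φ, N x + (c (b • φ, x)) • e) := by
      rw [hD]
      show (Nd (b • φ) + _, _) = _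
      rw [map_smul, hNdφ, smul_zero, zero_add]
    have h4 : c ((c (b • φ, x)) • φ, N x + (c (b • φ, x)) • e) = 0 := by
      show ((c (b • φ, x)) • φ) (A.symm e) + φ (N x + (c (b • φ, x)) • e) = 0
      rw [LinearMap.smul_apply, hφA', he, map_add, hφN', zero_add, map_smul, he, h2]
    refine ⟨N (N x + (c (b • φ, x)) • e), ?_, hφN' _⟩
    rw [h3, hD, h4]
    show (Nd ((c (b • φ, x)) • φ) + (0 : F) • φ, _) = _
    rw [map_smul, hNdφ, smul_zero, zero_smul, zero_smul, add_zero, add_zero]
  -- step three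
  have hiii : ∀ (j : ℕ) (y : Fin l → F), φ y = 0 → (D ^ j) (0, y) = (0, (N ^ j) y) := by
    intro j y hy
    induction j with
    | zero => rfl
    | succ j ih =>
      rw [pow_succ', Module.End.mul_apply, ih, hD]
      have h5 : c (0, (N ^ j) y) = 0 := by
        show (0 : Dual F (Fin l → F)) (A.symm e) + φ ((N ^ j) y) = 0
        rw [LinearMap.zero_apply, zero_add]
        rcases j with _ | j
        · exact hy
        · rw [pow_succ', Module.End.mul_apply, hφN']
      rw [h5]
      show (Nd 0 + (0 : F) • φ, N ((N ^ j) y) + (0 : F) • e) = _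
      rw [map_zero, zero_smul, zero_smul, add_zero, add_zero, pow_succ', Module.End.mul_apply]
  have hDnil : D ^ (l + (2 + l)) = 0 := by
    apply LinearMap.ext
    intro z
    rw [pow_add, pow_add, Module.End.mul_apply, Module.End.mul_apply]
    obtain ⟨b, hb⟩ := hi l z
    rw [hNd, LinearMap.zero_apply, zero_add] at hb
    have h6 : (D ^ l) z = (b • φ, ((D ^ l) z).2) := Prod.ext hb rfl
    obtain ⟨y, hy1, hy2⟩ := hii b ((D ^ l) z).2
    rw [h6, pow_two, Module.End.mul_apply, hy1, hiii l y hy2, hNl]; rfl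
  have hker : ∀ z, D z = 0 → c z = 0 ∧ N z.2 = 0 ∧ Nd z.1 = 0 := by
    intro z hz
    rw [hD] at hz
    have h7 : N z.2 + c z • e = 0 := (Prod.ext_iff.1 hz).2
    have h8 : Nd z.1 + c z • φ = 0 := (Prod.ext_iff.1 hz).1
    have h9 : c z = 0 := by
      have := congrArg φ h7
      rw [map_add, hφN', zero_add, map_smul, he, smul_eq_mul, mul_one, map_zero] at this
      exact this
    rw [h9, zero_smul, add_zero] at h7
    rw [h9, zero_smul, add_zero] at h8
    exact ⟨h9, h7, h8⟩
  have hfr : finrank F (LinearMap.ker D) ≤ 1 := by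
    rw [← hker1]
    let L : LinearMap.ker D →ₗ[F] LinearMap.ker ((A : (Fin l → F) →ₗ[F] (Fin l → F)) - 1) :=
      { toFun := fun z => ⟨z.1.2, (hker z.1 z.2).2.1⟩
        map_add' := fun _ _ => rfl
        map_smul' := fun _ _ => rfl }
    apply LinearMap.finrank_le_finrank_of_injective (f := L)
    rw [injective_iff_map_eq_zero]
    rintro ⟨⟨f, x⟩, hz⟩ h0
    have hx : x = 0 := congrArg Subtype.val h0
    subst hx
    obtain ⟨h10, -, h11⟩ := hker _ hz
    have h12 : ∀ w, f (A.symm w) = f w := by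
      intro w
      have h13 : Nd f w = 0 := by rw [h11]; rfl
      exact sub_eq_zero.1 h13
    have h14 : f e = 0 := by
      have h15 : f (A.symm e) + φ 0 = 0 := h10
      rw [map_zero, add_zero, h12] at h15
      exact h15
    have h16 : f = 0 := by
      apply LinearMap.ext
      intro w
      have h17 : w - φ w • e ∈ LinearMap.ker φ := by
        rw [LinearMap.mem_ker, map_sub, map_smul, he, smul_eq_mul, mul_one, sub_self]
      rw [← hkerφ] at h17
      obtain ⟨y, hy⟩ := h17
      have h18 : f (w - φ w • e) = 0 := by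
        rw [← hy]
        show f (A y - y) = 0
        rw [map_sub, sub_eq_zero, ← h12 (A y), LinearEquiv.symm_apply_apply]
      rw [map_sub, map_smul, h14, smul_zero, sub_zero] at h18
      rw [h18]; rfl
    subst h16
    rfl
  refine ror_of (Q := Q) dual_nondeg (T := T) hTQ hDnil (fun k => ?_)
  refine single_of_nk hDnil ?_ (by omega) ?_ k
  · rw [Module.finrank_prod, Subspace.dual_finrank_eq, Module.finrank_fin_fun]; ring
  · unfold nk
    rw [pow_one]
    exact hfr

end CfsgLib.Jor
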