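import Mathlib
import Cfsg.Agent.LibJor5H13
import Cfsg.Agent.LibJor7H13
import Cfsg.Agent.LibCen2H13

/-! Centralisers of unipotent operators in the general linear group (seat helper13). -/

namespace CfsgLib.JCen

open Module CfsgLib.Jor

section shift
variable {F : Type*} [Field F] {m : ℕ}

/-- the shift -/
def sh (F : Type*) [Field F] (m : ℕ) : End F (Fin m → F) where
  toFun v i := if h : (i : ℕ) + 1 < m then v ⟨i + 1, h⟩ else 0
  map_add' u v := by
    funext i
    by_cases h : (i : ℕ) + 1 < m <;> simp [h]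
  map_smul' c v := by
    funext i
    by_cases h : (i : ℕ) + 1 < m <;> simp [h]

theorem sh_pow (j : ℕ) (v : Fin m → F) (i : Fin m) : ((sh F m) ^ j) v i = if h : (i : ℕ) + j < m then v ⟨i + j, h⟩ else 0 := by
  induction j generalizing i with
  | zero => rw [dif_pos (show (i : ℕ) + 0 < m by have := i.2; omega)]; rfl
  | succ j ih =>
    rw [pow_succ', Module.End.mul_apply]
    show (if h : (i : ℕ) + 1 < m then ((sh F m) ^ j) v ⟨i + 1, h⟩ else 0) = _
    by_cases h : (i : ℕ) + 1 < m
    · rw [dif_pos h, ih]
      simp only [show (i : ℕ) + 1 + j = i + (j + 1) by omega]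
    · rw [dif_neg h, dif_neg (by omega)]

theorem sh_nil : (sh F m) ^ m = 0 := by
  apply LinearMap.ext
  intro v
  funext i
  rw [sh_pow, dif_neg (by omega)]; rfl

theorem finrank_ker_sh (k : ℕ) : finrank F (LinearMap.ker ((sh F m) ^ k)) = min m k := by
  classical
  rw [finrank_coord (fun i : Fin m => (i : ℕ) < k)]
  · have e2 : {j : Fin m // (j : ℕ) < k} ≃ Fin (min m k) :=
      { toFun := fun j => ⟨j.1, by have := j.1.2; have := j.2; omega⟩
        invFun := fun j => ⟨⟨j, by have := j.2; omega⟩, by have := j.2; simp only; omega⟩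
        left_inv := fun j => rfl
        right_inv := fun j => rfl }
    rw [Fintype.card_congr e2, Fintype.card_fin]
  · intro v
    rw [LinearMap.mem_ker]
    constructor
    · intro h i hi
      have h1 := congrFun h ⟨i - k, by have := i.2; omega⟩
      rw [sh_pow, dif_pos (show ((⟨i - k, by have := i.2; omega⟩ : Fin m) : ℕ) + k < m by have := i.2; simp only; omega)] at h1
      have h2 : (⟨((⟨i - k, by have := i.2; omega⟩ : Fin m) : ℕ) + k, by have := i.2; simp only; omega⟩ : Fin m) = i := by
        apply Fin.ext; simp only; omega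
      rw [h2] at h1
      exact h1
    · intro h
      funext i
      rw [sh_pow]
      split_ifs with h1
      · exact h _ (by simp only; omega)
      · rfl

/-- the unipotent operator of the shift -/
def TU (F : Type*) [Field F] (m : ℕ) : End F (Fin m → F) := 1 + sh F m

theorem TU_sub : TU F m - 1 = sh F m := by unfold TU; abel

theorem nk_TU (k : ℕ) : nk (TU F m) k = min m k := by
  unfold nk
  rw [TU_sub, finrank_ker_sh]

end shift

section homs
variable {F : Type*} [Field F] {V V' : Type*} [AddCommGroup V] [Module F V] [AddCommGroup V'] [Module F V'] {m : ℕ}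

/-- commuting automorphisms -/
def Au (T : End F V) : Type _ := {g : V ≃ₗ[F] V // ∀ v, g (T v) = T (g v)}

/-- intertwining homomorphisms -/
def Ho (T : End F V) (T' : End F V') : Type _ := {h : V →ₗ[F] V' // ∀ v, h (T v) = T' (h v)}

theorem card_Au_congr {T : End F V} {T' : End F V'} (ψ : V ≃ₗ[F] V') (hψ : ∀ v, ψ (T v) = T' (ψ v)) : Nat.card (Au T) = Nat.card (Au T') := by
  have hψ' : ∀ v, ψ.symm (T' v) = T (ψ.symm v) := by
    intro v
    apply ψ.injective
    rw [LinearEquiv.apply_symm_apply, hψ, LinearEquiv.apply_symm_apply]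
  refine Nat.card_congr
    { toFun := fun g => ⟨(ψ.symm.trans g.1).trans ψ, fun v => by
        show ψ (g.1 (ψ.symm (T' v))) = T' (ψ (g.1 (ψ.symm v)))
        rw [hψ', g.2, hψ]⟩
      invFun := fun g => ⟨(ψ.trans g.1).trans ψ.symm, fun v => by
        show ψ.symm (g.1 (ψ (T v))) = T (ψ.symm (g.1 (ψ v)))
        rw [hψ, g.2, hψ']⟩
      left_inv := fun g => by
        apply Subtype.ext
        ext1 v
        show ψ.symm (ψ (g.1 (ψ.symm (ψ v)))) = g.1 v
        rw [LinearEquiv.symm_apply_apply, LinearEquiv.symm_apply_apply]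
      right_inv := fun g => by
        apply Subtype.ext
        ext1 v
        show ψ (ψ.symm (g.1 (ψ (ψ.symm v)))) = g.1 v
        rw [LinearEquiv.apply_symm_apply, LinearEquiv.apply_symm_apply] }

/-- the homomorphism to the shift module attached to a functional -/
def toU (T : End F V) (m : ℕ) (lam : Dual F V) : V →ₗ[F] (Fin m → F) where
  toFun v i := lam (((T - 1) ^ (i : ℕ)) v)
  map_add' u v := by funext i; simp
  map_smul' c v := by funext i; simp

theorem toU_comm {T : End F V} (hT : (T - 1) ^ m = 0) (lam : Dual F V) (v : V) : toU T m lam (T v) = TU F m (toU T m lam v) := by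
  have h1 : toU T m lam ((T - 1) v) = sh F m (toU T m lam v) := by
    funext i
    show lam (((T - 1) ^ (i : ℕ)) ((T - 1) v)) = if h : (i : ℕ) + 1 < m then lam (((T - 1) ^ ((i : ℕ) + 1)) v) else 0
    rw [← Module.End.mul_apply, ← pow_succ]
    split_ifs with h
    · rfl
    · have : (i : ℕ) + 1 = m := by have := i.2; omega
      rw [this, hT]; exact map_zero lam
  have h2 : T v = (T - 1) v + v := by rw [LinearMap.sub_apply, Module.End.one_apply, sub_add_cancel]
  rw [h2, map_add, h1]
  show _ = (1 + sh F m) _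
  rw [LinearMap.add_apply, Module.End.one_apply, add_comm]

theorem comm_pow {T : End F V} {T' : End F V'} {h : V →ₗ[F] V'} (hh : ∀ v, h (T v) = T' (h v)) (k : ℕ) (v : V) : h (((T - 1) ^ k) v) = ((T' - 1) ^ k) (h v) := by
  induction k with
  | zero => rfl
  | succ k ih =>
    rw [pow_succ', Module.End.mul_apply, pow_succ', Module.End.mul_apply, LinearMap.sub_apply, LinearMap.sub_apply, map_sub, hh, ih, Module.End.one_apply, Module.End.one_apply, ih]

theorem card_Ho [FiniteDimensional F V] [Finite F] (hm : 1 ≤ m) {T : End F V} (hT : (T - 1) ^ m = 0) : Nat.card (Ho T (TU F m)) = Nat.card F ^ finrank F V := by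
  haveI : Module.Finite F (Dual F V) := inferInstance
  have e : Ho T (TU F m) ≃ Dual F V :=
    { toFun := fun h => (LinearMap.proj (⟨0, by omega⟩ : Fin m)) ∘ₗ h.1
      invFun := fun lam => ⟨toU T m lam, toU_comm hT lam⟩
      left_inv := fun h => by
        apply Subtype.ext
        apply LinearMap.ext
        intro v
        funext i
        show h.1 (((T - 1) ^ (i : ℕ)) v) ⟨0, by omega⟩ = h.1 v i
        rw [comm_pow h.2, TU_sub, sh_pow, dif_pos (show ((⟨0, by omega⟩ : Fin m) : ℕ) + (i : ℕ) < m by have := i.2; simp only; omega)]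
        have e0 : (⟨((⟨0, by omega⟩ : Fin m) : ℕ) + (i : ℕ), by have := i.2; simp only; omega⟩ : Fin m) = i := by apply Fin.ext; simp
        rw [e0]
      right_inv := fun lam => by
        apply LinearMap.ext
        intro v
        show lam (((T - 1 : End F V) ^ 0) v) = lam v
        rw [pow_zero]; rfl }
  rw [Nat.card_congr e, Module.natCard_eq_pow_finrank (K := F), Subspace.dual_finrank_eq]

/-- the section attached to a vector -/
def fromU (T : End F V) (m : ℕ) (w : V) : (Fin m → F) →ₗ[F] V := ∑ i : Fin m, (LinearMap.toSpanSingleton F V (((T - 1) ^ (m - 1 - (i : ℕ))) w)) ∘ₗ LinearMap.proj i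

theorem fromU_apply (T : End F V) (w : V) (u : Fin m → F) : fromU T m w u = ∑ i : Fin m, u i • ((T - 1) ^ (m - 1 - (i : ℕ))) w := by
  unfold fromU
  rw [LinearMap.sum_apply]; rfl

/-- the functional detecting the top -/
theorem exists_lam {T : End F V} {w : V} (hm : 1 ≤ m) (hT : (T - 1) ^ m = 0) (hw : ((T - 1) ^ (m - 1)) w ≠ 0) :
    ∃ lam : Dual F V, ∀ k, lam (((T - 1) ^ k) w) = if k = m - 1 then 1 else 0 := by
  -- linear independence
  have hli : LinearIndependent F (fun i : Fin m => (((T - 1 : End F V) ^ (i : ℕ)) w : V)) := by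
    rw [Fintype.linearIndependent_iff]
    intro c hc
    by_contra hcon
    push Not at hcon
    obtain ⟨i0, hi0⟩ := hcon
    -- smallest index
    have hex : ∃ k : ℕ, ∃ h : k < m, c ⟨k, h⟩ ≠ 0 := ⟨i0, i0.2, hi0⟩
    classical
    let k := Nat.find hex
    obtain ⟨hk, hck⟩ := Nat.find_spec hex
    have hmin : ∀ j : Fin m, (j : ℕ) < k → c j = 0 := by
      intro j hj
      by_contra h
      exact Nat.find_min hex hj ⟨j.2, h⟩
    have h1 : ((T - 1 : End F V) ^ (m - 1 - k)) (∑ i : Fin m, c i • (((T - 1 : End F V) ^ (i : ℕ)) w)) = 0 := by rw [hc, map_zero]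
    rw [map_sum, Finset.sum_eq_single (⟨k, hk⟩ : Fin m)] at h1
    · rw [map_smul, ← Module.End.mul_apply, ← pow_add] at h1
      have h2 : m - 1 - k + ((⟨k, hk⟩ : Fin m) : ℕ) = m - 1 := by simp only; omega
      rw [h2] at h1
      rcases smul_eq_zero.1 h1 with h3 | h3
      · exact hck h3
      · exact hw h3
    · intro j _ hj
      rcases lt_or_gt_of_ne (show (j : ℕ) ≠ k from fun h => hj (Fin.ext h)) with h3 | h3
      · rw [hmin j h3, zero_smul, map_zero]
      · rw [map_smul, ← Module.End.mul_apply, ← pow_add]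
        have h4 : (T - 1) ^ (m - 1 - k + (j : ℕ)) = 0 := by
          have : m - 1 - k + (j : ℕ) = m + ((j : ℕ) - 1 - k) := by omega
          rw [this, pow_add, hT, zero_mul]
        rw [h4, LinearMap.zero_apply, smul_zero]
    · intro h; exact absurd (Finset.mem_univ _) h
  let b := Basis.span hli
  obtain ⟨lam, hlam⟩ := LinearMap.exists_extend (b.constr F (fun i : Fin m => if (i : ℕ) = m - 1 then (1 : F) else 0))
  refine ⟨lam, fun k => ?_⟩
  by_cases hk : k < m
  · have h1 : lam (b ⟨k, hk⟩) = if k = m - 1 then 1 else 0 := by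
      have := LinearMap.congr_fun hlam (b ⟨k, hk⟩)
      rw [Basis.constr_basis] at this
      exact this
    rw [Basis.span_apply] at h1
    exact h1
  · have h1 : (T - 1) ^ k = 0 := by
      obtain ⟨c, rfl⟩ := Nat.exists_eq_add_of_le (not_lt.1 hk)
      rw [pow_add, hT, zero_mul]
    rw [h1, if_neg (by omega), LinearMap.zero_apply, map_zero]

/-- the top vector -/
def u0 (F : Type*) [Field F] (m : ℕ) (hm : 1 ≤ m) : Fin m → F := Pi.single ⟨m - 1, by omega⟩ 1

theorem sh_u0 (hm : 1 ≤ m) (u : Fin m → F) : ∑ i : Fin m, u i • ((sh F m) ^ (m - 1 - (i : ℕ))) (u0 F m hm) = u := by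
  classical
  funext j
  rw [Finset.sum_apply, Finset.sum_eq_single j]
  · rw [Pi.smul_apply, sh_pow, dif_pos (show (j : ℕ) + (m - 1 - j) < m by have := j.2; omega)]
    unfold u0
    have e0 : (⟨(j : ℕ) + (m - 1 - j), by have := j.2; omega⟩ : Fin m) = ⟨m - 1, by omega⟩ := by apply Fin.ext; have := j.2; simp only; omega
    rw [e0, Pi.single_eq_same, smul_eq_mul, mul_one]
  · intro i _ hij
    rw [Pi.smul_apply, sh_pow]
    split_ifs with h
    · unfold u0
      rw [Pi.single_eq_of_ne, smul_zero]
      intro h1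
      have := congrArg Fin.val h1
      simp only at this
      apply hij
      apply Fin.ext
      have := i.2
      omega
    · rw [smul_zero]
  · intro h; exact absurd (Finset.mem_univ _) h

theorem fromU_u0 (hm : 1 ≤ m) (T : End F V) (w : V) : fromU T m w (u0 F m hm) = w := by
  classical
  rw [fromU_apply, Finset.sum_eq_single (⟨m - 1, by omega⟩ : Fin m)]
  · unfold u0
    rw [Pi.single_eq_same, one_smul]
    simp
  · intro i _ hi
    unfold u0
    rw [Pi.single_eq_of_ne hi, zero_smul]
  · intro h; exact absurd (Finset.mem_univ _) h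

/-- intertwining maps from the shift module are determined by the image of the top vector -/
theorem eq_fromU (hm : 1 ≤ m) {T : End F V} {h : (Fin m → F) →ₗ[F] V} (hh : ∀ u, h (TU F m u) = T (h u)) (u : Fin m → F) : h u = fromU T m (h (u0 F m hm)) u := by
  conv_lhs => rw [← sh_u0 hm u]
  rw [map_sum, fromU_apply]
  refine Finset.sum_congr rfl fun i _ => ?_
  rw [map_smul, ← TU_sub, comm_pow hh]

theorem toU_fromU (hm : 1 ≤ m) {T : End F V} {w : V} {lam : Dual F V} (hlam : ∀ k, lam (((T - 1) ^ k) w) = if k = m - 1 then 1 else 0) (u : Fin m → F) :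
    toU T m lam (fromU T m w u) = u := by
  classical
  funext j
  rw [fromU_apply]
  show lam (((T - 1) ^ (j : ℕ)) (∑ i : Fin m, u i • ((T - 1) ^ (m - 1 - (i : ℕ))) w)) = u j
  rw [map_sum, map_sum, Finset.sum_eq_single j]
  · rw [map_smul, map_smul, ← Module.End.mul_apply, ← pow_add, hlam, if_pos (by have := j.2; omega), smul_eq_mul, mul_one]
  · intro i _ hij
    rw [map_smul, map_smul, ← Module.End.mul_apply, ← pow_add, hlam, if_neg, smul_zero]
    intro h
    apply hij
    apply Fin.ext
    have := i.2
    have := j.2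
    omega
  · intro h; exact absurd (Finset.mem_univ _) h

theorem fromU_comm {T : End F V} (hT : (T - 1) ^ m = 0) (w : V) (u : Fin m → F) : fromU T m w (TU F m u) = T (fromU T m w u) := by
  classical
  have h1 : fromU T m w (sh F m u) = (T - 1) (fromU T m w u) := by
    rcases Nat.eq_zero_or_pos m with h0 | h0
    · subst h0
      rw [Subsingleton.elim (sh F 0 u) 0, Subsingleton.elim u 0, map_zero, map_zero]
    obtain ⟨n, rfl⟩ : ∃ n, m = n + 1 := ⟨m - 1, by omega⟩
    rw [fromU_apply, fromU_apply, map_sum, Fin.sum_univ_castSucc, Fin.sum_univ_succ (f := fun i : Fin (n + 1) => (T - 1) (u i • ((T - 1) ^ (n + 1 - 1 - (i : ℕ))) w))]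
    have h2 : sh F (n + 1) u (Fin.last n) = 0 := by
      show (if h : ((Fin.last n : Fin (n + 1)) : ℕ) + 1 < n + 1 then _ else _) = _
      rw [dif_neg (by simp)]
    have h3 : (T - 1) (u 0 • ((T - 1) ^ (n + 1 - 1 - ((0 : Fin (n + 1)) : ℕ))) w) = 0 := by
      rw [map_smul, ← Module.End.mul_apply, ← pow_succ', show n + 1 - 1 - ((0 : Fin (n + 1)) : ℕ) + 1 = n + 1 by simp, hT, LinearMap.zero_apply, smul_zero]
    rw [h2, zero_smul, add_zero, h3, zero_add]
    refine Finset.sum_congr rfl fun i _ => ?_
    have h4 : sh F (n + 1) u i.castSucc = u i.succ := by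
      show (if h : ((i.castSucc : Fin (n + 1)) : ℕ) + 1 < n + 1 then u ⟨_, h⟩ else _) = _
      rw [dif_pos (by simp)]; rfl
    rw [h4, map_smul, ← Module.End.mul_apply, ← pow_succ']
    congr 3
    have := i.2
    simp only [Fin.val_castSucc, Fin.val_succ]
    omega
  have h2 : ∀ v, T v = (T - 1) v + v := fun v => by rw [LinearMap.sub_apply, Module.End.one_apply, sub_add_cancel]
  rw [h2, ← h1, ← map_add]
  congr 1
  show (1 + sh F m) u = _
  rw [LinearMap.add_apply, Module.End.one_apply, add_comm]

theorem nk_prodMap [FiniteDimensional F V] [FiniteDimensional F V'] (T : End F V) (T' : End F V') (k : ℕ) :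
    nk (LinearMap.prodMap T T') k = nk T k + nk T' k := by
  have h : ∀ (k : ℕ) (v : V × V'), (((LinearMap.prodMap T T' : End F (V × V')) - 1) ^ k) v = (((T - 1) ^ k) v.1, ((T' - 1) ^ k) v.2) := by
    intro k
    induction k with
    | zero => intro v; rfl
    | succ k ih => intro v; rw [pow_succ', Module.End.mul_apply, ih, pow_succ', pow_succ']; rfl
  unfold nk
  let e : LinearMap.ker (((LinearMap.prodMap T T' : End F (V × V')) - 1) ^ k) ≃ₗ[F] LinearMap.ker ((T - 1) ^ k) × LinearMap.ker ((T' - 1) ^ k) :=
    { toFun := fun v => (⟨v.1.1, by have h1 := v.2; rw [LinearMap.mem_ker, h] at h1; exact (Prod.ext_iff.1 h1).1⟩, ⟨v.1.2, by have h1 := v.2; rw [LinearMap.mem_ker, h] at h1; exact (Prod.ext_iff.1 h1).2⟩)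
      invFun := fun v => ⟨(v.1, v.2), by rw [LinearMap.mem_ker, h]; exact Prod.ext v.1.2 v.2.2⟩
      left_inv := fun v => rfl
      right_inv := fun v => rfl
      map_add' := fun u v => rfl
      map_smul' := fun c v => rfl }
  rw [e.finrank_eq, Module.finrank_prod]

/-- splitting off a maximal block through a given vector -/
theorem split [FiniteDimensional F V] [FiniteDimensional F V'] (hm : 1 ≤ m) {T : End F V} {T' : End F V'} (hT : (T - 1) ^ m = 0) (hT' : (T' - 1) ^ m = 0)
    (hnk : ∀ k, nk T k = min m k + nk T' k) {w : V} (hw : ((T - 1) ^ (m - 1)) w ≠ 0) :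
    ∃ Ψ : V ≃ₗ[F] ((Fin m → F) × V'), (∀ v, Ψ (T v) = LinearMap.prodMap (TU F m) T' (Ψ v)) ∧ Ψ w = (u0 F m hm, 0) := by
  obtain ⟨lam, hlam⟩ := exists_lam hm hT hw
  let α := toU T m lam
  let s := fromU T m w
  have hαs : ∀ u, α (s u) = u := toU_fromU hm hlam
  have hαT : ∀ v, α (T v) = TU F m (α v) := toU_comm hT lam
  have hsT : ∀ u, s (TU F m u) = T (s u) := fromU_comm hT w
  let K := LinearMap.ker α
  have hK : ∀ v ∈ K, T v ∈ K := by
    intro v hv
    rw [LinearMap.mem_ker] at hv ⊢
    rw [hαT, hv, map_zero]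
  let TK : End F K := T.restrict hK
  let e1 : V ≃ₗ[F] (Fin m → F) × K :=
    { toFun := fun v => (α v, ⟨v - s (α v), by rw [LinearMap.mem_ker, map_sub, hαs, sub_self]⟩)
      invFun := fun x => s x.1 + x.2
      left_inv := fun v => by show s (α v) + (v - s (α v)) = v; abel
      right_inv := fun x => by
        have hx : α x.2 = 0 := x.2.2
        apply Prod.ext
        · show α (s x.1 + x.2) = x.1
          rw [map_add, hαs, hx, add_zero]
        · apply Subtype.ext
          show s x.1 + x.2 - s (α (s x.1 + x.2)) = x.2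
          rw [map_add, hαs, hx, add_zero]; abel
      map_add' := fun u v => by
        apply Prod.ext
        · exact map_add α u v
        · apply Subtype.ext
          show u + v - s (α (u + v)) = (u - s (α u)) + (v - s (α v))
          rw [map_add, map_add]; abel
      map_smul' := fun c v => by
        apply Prod.ext
        · exact map_smul α c v
        · apply Subtype.ext
          show c • v - s (α (c • v)) = c • (v - s (α v))
          rw [map_smul, map_smul, smul_sub] }
  have he1 : ∀ v, e1 (T v) = LinearMap.prodMap (TU F m) TK (e1 v) := by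
    intro v
    apply Prod.ext
    · exact hαT v
    · apply Subtype.ext
      show T v - s (α (T v)) = T (v - s (α v))
      rw [hαT, hsT, map_sub]
  have hTK : ∀ k, nk TK k = nk T' k := by
    intro k
    have h1 := nk_congr e1 he1 k
    rw [nk_prodMap, nk_TU, hnk] at h1
    omega
  have hTKn : (TK - 1) ^ m = 0 := by
    have h1 : ∀ (k : ℕ) (x : K), ((((TK - 1) ^ k) x : K) : V) = ((T - 1) ^ k) x := by
      intro k
      induction k with
      | zero => intro x; rfl
      | succ k ih =>
        intro x
        rw [pow_succ', Module.End.mul_apply, pow_succ', Module.End.mul_apply, ← ih]; rfl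
    apply LinearMap.ext
    intro x
    apply Subtype.ext
    rw [h1, hT]; rfl
  obtain ⟨χ, hχ⟩ := conj_of_nk hTKn hT' hTK
  refine ⟨e1.trans ((LinearEquiv.refl F (Fin m → F)).prodCongr χ), fun v => ?_, ?_⟩
  · show (((e1 (T v)).1, χ (e1 (T v)).2) : (Fin m → F) × V') = (TU F m (e1 v).1, T' (χ (e1 v).2))
    rw [he1, ← hχ]; rfl
  · show (((e1 w).1, χ (e1 w).2) : (Fin m → F) × V') = _
    have h1 : α w = u0 F m hm := by
      conv_lhs => rw [← fromU_u0 (F := F) hm T w]
      exact hαs _
    have h2 : e1 w = (u0 F m hm, 0) := by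
      apply Prod.ext
      · exact h1
      · apply Subtype.ext
        show w - s (α w) = 0
        rw [h1]
        show w - fromU T m w (u0 F m hm) = 0
        rw [fromU_u0, sub_self]
    rw [h2, map_zero]

end homs

end CfsgLib.JCen
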