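import Mathlib
import Cfsg.Agent.LibJCenH13

/-! Orders of centralisers of unipotent operators (seat helper13). -/

namespace CfsgLib.JCen

open Module CfsgLib.Jor

section count
variable {F : Type*} [Field F] [Finite F] {V V' : Type*} [AddCommGroup V] [Module F V] [FiniteDimensional F V] [AddCommGroup V'] [Module F V'] [FiniteDimensional F V'] {m : ℕ}

instance finite_Au (T : End F V) : Finite (Au T) := by
  haveI : Finite V := Module.finite_of_finite F
  exact Finite.of_injective (fun g : Au T => (g.1 : V → V)) (fun g h hgh => Subtype.ext (DFunLike.coe_injective hgh))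

instance finite_Ho (T : End F V) (T' : End F V') : Finite (Ho T T') := by
  haveI : Finite V := Module.finite_of_finite F
  haveI : Finite V' := Module.finite_of_finite F
  exact Finite.of_injective (fun g : Ho T T' => (g.1 : V → V')) (fun g h hgh => Subtype.ext (DFunLike.coe_injective hgh))

omit [Finite F] in
/-- the stabiliser of the top vector -/
theorem card_stab (hm : 1 ≤ m) (T' : End F V') :
    Nat.card {g : Au (LinearMap.prodMap (TU F m) T') // g.1 (u0 F m hm, (0 : V')) = (u0 F m hm, 0)} = Nat.card (Ho T' (TU F m)) * Nat.card (Au T') := by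
  let S : End F ((Fin m → F) × V') := LinearMap.prodMap (TU F m) T'
  have hS : ∀ u v, S (u, v) = (TU F m u, T' v) := fun u v => rfl
  have hfix : ∀ g : {g : Au S // g.1 (u0 F m hm, (0 : V')) = (u0 F m hm, 0)}, ∀ u, g.1.1 (u, 0) = (u, 0) := by
    rintro ⟨g, hg⟩ u
    have h1 := eq_fromU hm (T := S) (h := (g.1 : ((Fin m → F) × V') →ₗ[F] ((Fin m → F) × V')) ∘ₗ LinearMap.inl F (Fin m → F) V') (fun u => by
      show g.1 (TU F m u, 0) = S (g.1 (u, 0))
      rw [← g.2, hS, map_zero]) u
    have h2 := eq_fromU hm (T := S) (h := LinearMap.inl F (Fin m → F) V') (fun u => by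
      show (TU F m u, (0 : V')) = S (u, 0)
      rw [hS, map_zero]) u
    have h3 : g.1 (u, 0) = fromU S m (g.1 (u0 F m hm, 0)) u := h1
    have h4 : ((u, 0) : (Fin m → F) × V') = fromU S m (u0 F m hm, 0) u := h2
    rw [h3, hg, ← h4]
  rw [← Nat.card_prod]
  refine Nat.card_congr
    { toFun := fun g => (⟨LinearMap.fst F _ _ ∘ₗ (g.1.1 : ((Fin m → F) × V') →ₗ[F] ((Fin m → F) × V')) ∘ₗ LinearMap.inr F (Fin m → F) V', fun v => by
          show (g.1.1 (0, T' v)).1 = TU F m (g.1.1 (0, v)).1
          have h1 := g.1.2 (0, v)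
          have h2 : (LinearMap.prodMap (TU F m) T') (0, v) = (0, T' v) := by show (TU F m 0, T' v) = _; rw [map_zero]
          rw [h2] at h1
          rw [h1]; rfl⟩,
        ⟨LinearEquiv.ofInjectiveEndo (LinearMap.snd F _ _ ∘ₗ (g.1.1 : ((Fin m → F) × V') →ₗ[F] ((Fin m → F) × V')) ∘ₗ LinearMap.inr F (Fin m → F) V') (by
          rw [injective_iff_map_eq_zero]
          intro v hv
          have hv' : (g.1.1 (0, v)).2 = 0 := hv
          have h1 : g.1.1 (0, v) = g.1.1 ((g.1.1 (0, v)).1, 0) := by
            rw [hfix g]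
            exact Prod.ext rfl hv'
          have h2 := g.1.1.injective h1
          exact (Prod.ext_iff.1 h2).2), fun v => by
          show (g.1.1 (0, T' v)).2 = T' (g.1.1 (0, v)).2
          have h1 := g.1.2 (0, v)
          have h2 : (LinearMap.prodMap (TU F m) T') (0, v) = (0, T' v) := by show (TU F m 0, T' v) = _; rw [map_zero]
          rw [h2] at h1
          rw [h1]; rfl⟩)
      invFun := fun x => ⟨⟨
        { toFun := fun z => (z.1 + x.1.1 z.2, x.2.1 z.2)
          invFun := fun z => (z.1 - x.1.1 (x.2.1.symm z.2), x.2.1.symm z.2)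
          map_add' := fun z z' => by
            apply Prod.ext
            · show z.1 + z'.1 + x.1.1 (z.2 + z'.2) = (z.1 + x.1.1 z.2) + (z'.1 + x.1.1 z'.2)
              rw [map_add]; abel
            · exact map_add _ _ _
          map_smul' := fun c z => by
            apply Prod.ext
            · show c • z.1 + x.1.1 (c • z.2) = c • (z.1 + x.1.1 z.2)
              rw [map_smul, smul_add]
            · exact map_smul _ _ _
          left_inv := fun z => by
            apply Prod.ext
            · show z.1 + x.1.1 z.2 - x.1.1 (x.2.1.symm (x.2.1 z.2)) = z.1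
              rw [LinearEquiv.symm_apply_apply]; abel
            · exact LinearEquiv.symm_apply_apply _ _
          right_inv := fun z => by
            apply Prod.ext
            · show z.1 - x.1.1 (x.2.1.symm z.2) + x.1.1 (x.2.1.symm z.2) = z.1
              abel
            · exact LinearEquiv.apply_symm_apply _ _ }, fun z => by
            show (TU F m z.1 + x.1.1 (T' z.2), x.2.1 (T' z.2)) = (TU F m (z.1 + x.1.1 z.2), T' (x.2.1 z.2))
            rw [x.1.2, x.2.2, map_add]⟩, by
            show (u0 F m hm + x.1.1 0, x.2.1 0) = _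
            rw [map_zero, map_zero, add_zero]⟩
      left_inv := fun g => by
        apply Subtype.ext
        apply Subtype.ext
        ext1 z
        show ((z.1 + (g.1.1 (0, z.2)).1, (g.1.1 (0, z.2)).2) : (Fin m → F) × V') = g.1.1 z
        have h1 : z = (z.1, 0) + (0, z.2) := by simp
        conv_rhs => rw [h1, map_add, hfix g]
        apply Prod.ext
        · rfl
        · show _ = (0 : V') + _
          rw [zero_add]
      right_inv := fun x => by
        apply Prod.ext
        · apply Subtype.ext
          apply LinearMap.ext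
          intro v
          show 0 + x.1.1 v = x.1.1 v
          rw [zero_add]
        · apply Subtype.ext
          ext1 v
          rfl }

theorem card_ne_zero_set (f : End F V) : Nat.card {w : V // f w ≠ 0} = Nat.card F ^ finrank F V - Nat.card F ^ finrank F (LinearMap.ker f) := by
  classical
  haveI : Finite V := Module.finite_of_finite F
  have h1 : Nat.card {w : V // f w ≠ 0} + Nat.card {w : V // ¬ f w ≠ 0} = Nat.card V := by
    rw [← Nat.card_sum]
    exact Nat.card_congr (Equiv.sumCompl _)
  have h2 : Nat.card {w : V // ¬ f w ≠ 0} = Nat.card (LinearMap.ker f) := Nat.card_congr (Equiv.subtypeEquivRight fun w => by rw [not_not, LinearMap.mem_ker])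
  rw [h2, Module.natCard_eq_pow_finrank (K := F) (V := V), Module.natCard_eq_pow_finrank (K := F) (V := LinearMap.ker f)] at h1
  omega

theorem card_step (hm : 1 ≤ m) {T : End F V} {T' : End F V'} (hT : (T - 1) ^ m = 0) (hT' : (T' - 1) ^ m = 0) (hnk : ∀ k, nk T k = min m k + nk T' k) :
    Nat.card (Au T) = (Nat.card F ^ finrank F V - Nat.card F ^ nk T (m - 1)) * (Nat.card F ^ finrank F V' * Nat.card (Au T')) := by
  classical
  have hV : finrank F V = m + finrank F V' := by
    rw [← nk_of_nil hT, hnk, nk_of_nil hT', min_self]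
  obtain ⟨w, hw⟩ : ∃ w, ((T - 1) ^ (m - 1)) w ≠ 0 := by
    by_contra hcon
    push Not at hcon
    have h1 : (T - 1) ^ (m - 1) = 0 := LinearMap.ext hcon
    have h2 := nk_of_nil h1
    rw [hnk, hV] at h2
    have h3 : nk T' (m - 1) ≤ finrank F V' := Submodule.finrank_le _
    omega
  obtain ⟨Ψ0, hΨ0, -⟩ := split hm hT hT' hnk hw
  let S : End F ((Fin m → F) × V') := LinearMap.prodMap (TU F m) T'
  have hSnk : ∀ k, nk S k = nk T k := fun k => (nk_congr Ψ0 hΨ0 k).symm
  have hPV : finrank F ((Fin m → F) × V') = finrank F V := Ψ0.finrank_eq.symm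
  have hSn : (S - 1) ^ m = 0 := nil_of_nk (by rw [hSnk, nk_of_nil hT, hPV])
  rw [card_Au_congr Ψ0 hΨ0]
  have key : ∀ x : {w : (Fin m → F) × V' // ((S - 1) ^ (m - 1)) w ≠ 0}, ∃ Ψ : Au S, Ψ.1 x.1 = (u0 F m hm, 0) := by
    intro x
    obtain ⟨Ψ, h1, h2⟩ := split hm hSn hT' (fun k => by rw [hSnk, hnk]) x.2
    exact ⟨⟨Ψ, h1⟩, h2⟩
  choose Ψ hΨ using key
  have hu : ((S - 1) ^ (m - 1)) (u0 F m hm, (0 : V')) ≠ 0 := by
    intro h
    have h1 := comm_pow (T := TU F m) (T' := S) (h := LinearMap.inl F (Fin m → F) V') (fun u => by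
      show (TU F m u, (0 : V')) = (TU F m u, T' 0)
      rw [map_zero]) (m - 1) (u0 F m hm)
    have h2 : ((S - 1) ^ (m - 1)) (LinearMap.inl F (Fin m → F) V' (u0 F m hm)) = 0 := h
    rw [h2, TU_sub] at h1
    have h3 : (((sh F m) ^ (m - 1)) (u0 F m hm)) ⟨0, by omega⟩ = 0 := congrFun (Prod.ext_iff.1 h1).1 _
    rw [sh_pow, dif_pos (show ((⟨0, by omega⟩ : Fin m) : ℕ) + (m - 1) < m by simp only; omega)] at h3
    unfold u0 at h3
    have e0 : (⟨((⟨0, by omega⟩ : Fin m) : ℕ) + (m - 1), by simp only; omega⟩ : Fin m) = ⟨m - 1, by omega⟩ := by apply Fin.ext; simp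
    rw [e0, Pi.single_eq_same] at h3
    exact one_ne_zero h3
  let f : Au S → {w : (Fin m → F) × V' // ((S - 1) ^ (m - 1)) w ≠ 0} := fun g => ⟨g.1 (u0 F m hm, 0), by
    intro h
    apply hu
    apply g.1.injective
    rw [map_zero]
    exact (comm_pow (T := S) (T' := S) (h := (g.1 : ((Fin m → F) × V') →ₗ[F] ((Fin m → F) × V'))) g.2 (m - 1) (u0 F m hm, 0)).trans h⟩
  have hfib : ∀ x, Nat.card {g : Au S // f g = x} = Nat.card (Ho T' (TU F m)) * Nat.card (Au T') := by
    intro x
    rw [← card_stab hm T']
    refine Nat.card_congr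
      { toFun := fun g => ⟨⟨g.1.1.trans (Ψ x).1, fun v => by
            show (Ψ x).1 (g.1.1 (S v)) = S ((Ψ x).1 (g.1.1 v))
            rw [g.1.2, (Ψ x).2]⟩, by
            show (Ψ x).1 (g.1.1 (u0 F m hm, 0)) = _
            have h1 : g.1.1 (u0 F m hm, 0) = x.1 := congrArg Subtype.val g.2
            rw [h1, hΨ]⟩
        invFun := fun g => ⟨⟨g.1.1.trans (Ψ x).1.symm, fun v => by
            apply (Ψ x).1.injective
            show (Ψ x).1 ((Ψ x).1.symm (g.1.1 (S v))) = (Ψ x).1 (S ((Ψ x).1.symm (g.1.1 v)))
            rw [(Ψ x).2, LinearEquiv.apply_symm_apply, LinearEquiv.apply_symm_apply]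
            exact g.1.2 v⟩, by
            apply Subtype.ext
            show (Ψ x).1.symm (g.1.1 (u0 F m hm, 0)) = x.1
            rw [g.2, ← hΨ x, LinearEquiv.symm_apply_apply]⟩
        left_inv := fun g => by
          apply Subtype.ext
          apply Subtype.ext
          ext1 v
          show (Ψ x).1.symm ((Ψ x).1 (g.1.1 v)) = g.1.1 v
          rw [LinearEquiv.symm_apply_apply]
        right_inv := fun g => by
          apply Subtype.ext
          apply Subtype.ext
          ext1 v
          show (Ψ x).1 ((Ψ x).1.symm (g.1.1 v)) = g.1.1 v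
          rw [LinearEquiv.apply_symm_apply] }
  haveI : Finite ((Fin m → F) × V') := Module.finite_of_finite F
  rw [← Nat.card_congr (Equiv.sigmaFiberEquiv f), CfsgLib.Cen2.card_sigma_const _ hfib, card_ne_zero_set, hPV, card_Ho hm hT']
  have e1 : finrank F (LinearMap.ker ((S - 1) ^ (m - 1))) = nk T (m - 1) := hSnk (m - 1)
  rw [e1]

end count

section form

/-- order of the general linear group -/
def G (q c : ℕ) : ℕ := ∏ j : Fin c, (q ^ c - q ^ (j : ℕ))

theorem G_succ (q c : ℕ) : G q (c + 1) = (q ^ (c + 1) - 1) * q ^ c * G q c := by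
  unfold G
  rw [Fin.prod_univ_succ]
  have h : ∀ j : Fin c, q ^ (c + 1) - q ^ ((j.succ : Fin (c + 1)) : ℕ) = q * (q ^ c - q ^ (j : ℕ)) := by
    intro j
    rw [Fin.val_succ, Nat.mul_sub, pow_succ', pow_succ']
  rw [Finset.prod_congr rfl fun j _ => h j, Finset.prod_mul_distrib, Finset.prod_const, Finset.card_univ, Fintype.card_fin]
  simp only [Fin.val_zero, pow_zero]
  ring

theorem pow_sub_aux (q x y : ℕ) : q ^ (x + y) - q ^ x = q ^ x * (q ^ y - 1) := by
  rw [pow_add, Nat.mul_sub, mul_one]

theorem sm_replicate' (c m k : ℕ) : sm (Multiset.replicate c m) k = c * min m k := by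
  unfold sm
  rw [Multiset.map_replicate, Multiset.sum_replicate, smul_eq_mul]

theorem sm_eq_sum {S : Multiset ℕ} {k : ℕ} (h : ∀ a ∈ S, a ≤ k) : sm S k = S.sum := by
  unfold sm
  conv_rhs => rw [← Multiset.map_id S]
  congr 1
  apply Multiset.map_congr rfl
  intro a ha
  have := h a ha
  simp only [id]
  omega

variable {F : Type*} [Field F] [Finite F]

theorem card_block {m : ℕ} (hm : 1 ≤ m) (S' : Multiset ℕ) (hS' : ∀ a ∈ S', a < m) (A0 : ℕ)
    (hA0 : ∀ (n : ℕ) (T : End F (Fin n → F)) (M : ℕ), (T - 1) ^ M = 0 → (∀ k, nk T k = sm S' k) → Nat.card (Au T) = A0) (c : ℕ) :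
    ∀ (n : ℕ) (T : End F (Fin n → F)) (M : ℕ), (T - 1) ^ M = 0 → (∀ k, nk T k = sm (S' + Multiset.replicate c m) k) →
      Nat.card (Au T) = Nat.card F ^ (2 * (c * S'.sum) + (m - 1) * c ^ 2) * G (Nat.card F) c * A0 := by
  induction c with
  | zero =>
    intro n T M hT hk
    rw [Multiset.replicate_zero, add_zero] at hk
    rw [hA0 n T M hT hk]
    unfold G
    simp
  | succ c ih =>
    intro n T M hT hk
    have hSle : ∀ a ∈ S' + Multiset.replicate c m, a ≤ m := by
      intro a ha
      rw [Multiset.mem_add] at ha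
      rcases ha with h | h
      · exact (hS' a h).le
      · rw [Multiset.eq_of_mem_replicate h]
    have hS'le : ∀ a ∈ S', a ≤ m - 1 := fun a ha => by have := hS' a ha; omega
    obtain ⟨T', hT', hk'⟩ := exists_type (F := F) (S' + Multiset.replicate c m) (n := S'.sum + c * m) (M := m) (by
      rw [Multiset.sum_add, Multiset.sum_replicate, smul_eq_mul]) hSle
    have hn : n = S'.sum + (c + 1) * m := by
      have h1 := nk_of_nil (M := M + m) (show (T - 1) ^ (M + m) = 0 by rw [pow_add, hT, zero_mul])
      rw [Module.finrank_fin_fun, hk, sm_add, sm_replicate', sm_eq_sum (fun a ha => by have := hS' a ha; omega)] at h1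
      rw [← h1, min_eq_left (by omega)]
    have hTm : (T - 1) ^ m = 0 := by
      apply nil_of_nk
      rw [Module.finrank_fin_fun, hk, sm_add, sm_replicate', min_self, sm_eq_sum (fun a ha => (hS' a ha).le), hn]
    have hstep := card_step hm hTm hT' (fun k => by
      rw [hk, hk', sm_add, sm_add, sm_replicate', sm_replicate']; ring)
    rw [hstep, ih _ T' m hT' hk', Module.finrank_fin_fun, Module.finrank_fin_fun, hk, sm_add, sm_replicate', sm_eq_sum hS'le, min_eq_right (by omega), G_succ]
    have e1 : Nat.card F ^ n - Nat.card F ^ (S'.sum + (c + 1) * (m - 1)) = Nat.card F ^ (S'.sum + (c + 1) * (m - 1)) * (Nat.card F ^ (c + 1) - 1) := by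
      have e0 : n = (S'.sum + (c + 1) * (m - 1)) + (c + 1) := by
        rw [hn]
        obtain ⟨k, rfl⟩ : ∃ k, m = k + 1 := ⟨m - 1, by omega⟩
        simp only [Nat.add_sub_cancel]
        ring
      conv_lhs => rw [e0]
      exact pow_sub_aux _ _ _
    rw [e1]
    obtain ⟨k, rfl⟩ : ∃ k, m = k + 1 := ⟨m - 1, by omega⟩
    simp only [Nat.add_sub_cancel]
    ring

/-- the exponent -/
def Ex (a : ℕ → ℕ) (m : ℕ) : ℕ := 2 * (∑ j ∈ Finset.range m, a j * ∑ i ∈ Finset.range j, i * a i) + ∑ i ∈ Finset.range m, (i - 1) * a i ^ 2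

theorem card_type (m : ℕ) : ∀ (S : Multiset ℕ), (∀ a ∈ S, 0 < a ∧ a < m) → ∀ (n : ℕ) (T : End F (Fin n → F)) (M : ℕ), (T - 1) ^ M = 0 → (∀ k, nk T k = sm S k) →
    Nat.card (Au T) = Nat.card F ^ (Ex (fun j => S.count j) m) * ∏ i ∈ Finset.range m, G (Nat.card F) (S.count i) := by
  induction m with
  | zero =>
    intro S hS n T M hT hk
    have hS0 : S = 0 := Multiset.eq_zero_of_forall_notMem (fun a ha => by have := hS a ha; omega)
    subst hS0
    have hn := nk_of_nil hT
    rw [hk, Module.finrank_fin_fun] at hn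
    have hn' : n = 0 := by rw [← hn]; rfl
    subst hn'
    unfold Ex
    simp only [Finset.range_zero, Finset.sum_empty, Finset.prod_empty, mul_zero, add_zero, pow_zero, mul_one]
    rw [Nat.card_eq_one_iff_unique]
    exact ⟨⟨fun g h => Subtype.ext (by ext1 v; exact Subsingleton.elim _ _)⟩, ⟨⟨LinearEquiv.refl F _, fun v => rfl⟩⟩⟩
  | succ m ih =>
    intro S hS n T M hT hk
    let S' := S.filter (fun a => a ≠ m)
    have hS'0 : ∀ a ∈ S', 0 < a ∧ a < m := by
      intro a ha
      rw [Multiset.mem_filter] at ha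
      have := hS a ha.1
      omega
    have hSS' : S = S' + Multiset.replicate (S.count m) m := by
      have h1 := Multiset.filter_add_not (fun a => a = m) S
      rw [Multiset.filter_eq'] at h1
      rw [add_comm]
      exact h1.symm
    have hcount : ∀ i, i < m → S'.count i = S.count i := by
      intro i hi
      rw [Multiset.count_filter, if_pos (by omega)]
    have hEx : Ex (fun j => S.count j) (m + 1) = Ex (fun j => S'.count j) m + (2 * (S.count m * S'.sum) + (m - 1) * S.count m ^ 2) := by
      have hsum : S'.sum = ∑ i ∈ Finset.range m, i * S.count i := by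
        rw [Finset.sum_multiset_count_of_subset S' (Finset.range m) (fun a ha => by
          rw [Multiset.mem_toFinset] at ha
          rw [Finset.mem_range]; exact (hS'0 a ha).2)]
        refine Finset.sum_congr rfl fun i hi => ?_
        rw [Finset.mem_range] at hi
        rw [hcount i hi, smul_eq_mul, mul_comm]
      unfold Ex
      rw [Finset.sum_range_succ, Finset.sum_range_succ (f := fun i => (i - 1) * (fun j => S.count j) i ^ 2), ← hsum]
      have h1 : ∑ j ∈ Finset.range m, S.count j * ∑ i ∈ Finset.range j, i * S.count i = ∑ j ∈ Finset.range m, S'.count j * ∑ i ∈ Finset.range j, i * S'.count i := by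
        refine Finset.sum_congr rfl fun j hj => ?_
        rw [Finset.mem_range] at hj
        rw [hcount j hj]
        congr 1
        refine Finset.sum_congr rfl fun i hi => ?_
        rw [Finset.mem_range] at hi
        rw [hcount i (by omega)]
      have h2 : ∑ j ∈ Finset.range m, (j - 1) * S.count j ^ 2 = ∑ j ∈ Finset.range m, (j - 1) * S'.count j ^ 2 := by
        refine Finset.sum_congr rfl fun j hj => ?_
        rw [Finset.mem_range] at hj
        rw [hcount j hj]
      simp only
      rw [h1, h2]
      ring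
    have hprod : ∏ i ∈ Finset.range (m + 1), G (Nat.card F) (S.count i) = (∏ i ∈ Finset.range m, G (Nat.card F) (S'.count i)) * G (Nat.card F) (S.count m) := by
      rw [Finset.prod_range_succ]
      congr 1
      refine Finset.prod_congr rfl fun i hi => ?_
      rw [Finset.mem_range] at hi
      rw [hcount i hi]
    rw [hEx, hprod]
    rcases Nat.eq_zero_or_pos m with hm0 | hm0
    · subst hm0
      have hc0 : S.count 0 = 0 := Multiset.count_eq_zero_of_notMem (fun h => by have := hS 0 h; omega)
      have hS'' : S = S' := by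
        have := hSS'
        rw [hc0, Multiset.replicate_zero, add_zero] at this
        exact this
      rw [hc0]
      rw [ih S' hS'0 n T M hT (by rw [← hS'']; exact hk)]
      unfold G
      simp
    · have h1 := card_block (F := F) hm0 S' (fun a ha => (hS'0 a ha).2) _ (ih S' hS'0) (S.count m) n T M hT (by rw [← hSS']; exact hk)
      rw [h1, pow_add]
      ring

end form

end CfsgLib.JCen
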