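import Mathlib
import Cfsg.Agent.LibJor3H13
import Cfsg.Agent.LibForms27

/-! Jordan types of isometries: parity of the multiplicities (seat helper13). -/

namespace CfsgLib.Jor

open Module Matrix

section alt
variable {F U : Type*} [Field F] [AddCommGroup U] [Module F U] [FiniteDimensional F U]

/-- alternating forms have even rank -/
theorem even_alt (β : LinearMap.BilinForm F U) (hA : β.IsAlt) : Even (finrank F U - finrank F (LinearMap.ker β)) := by
  obtain ⟨W, hW⟩ := Submodule.exists_isCompl (LinearMap.ker β)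
  have hsk : ∀ x y, β x y = - β y x := fun x y => by
    have h := LinearMap.IsAlt.neg hA x y
    rw [← h, neg_neg]
  have hnd : ∀ v : W, v ≠ 0 → ∃ w : W, (β.restrict W) v w ≠ 0 := by
    intro v hv
    by_contra hcon
    push Not at hcon
    apply hv
    apply Subtype.ext
    have h1 : (v : U) ∈ LinearMap.ker β := by
      rw [LinearMap.mem_ker]
      apply LinearMap.ext
      intro z
      have hz : z ∈ LinearMap.ker β ⊔ W := by rw [hW.sup_eq_top]; exact Submodule.mem_top
      obtain ⟨a, ha, b, hb, rfl⟩ := Submodule.mem_sup.1 hz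
      rw [map_add, hsk _ a]
      rw [LinearMap.mem_ker] at ha
      have h2 : β v b = 0 := hcon ⟨b, hb⟩
      rw [ha, h2]; simp
    exact (Submodule.disjoint_def.1 hW.disjoint) _ h1 v.2
  obtain ⟨m, b, hm, -⟩ := CfsgLib.Forms27.exists_symplectic_basis (β.restrict W) (fun x => hA x) hnd
  have h3 := Submodule.finrank_add_eq_of_isCompl hW
  rw [hm] at h3
  exact ⟨m, by omega⟩

end alt

section rad
variable {F V : Type*} [Field F] [AddCommGroup V] [Module F V] [FiniteDimensional F V]

theorem finrank_map_ge (f : End F V) (R : Submodule F V) (h : LinearMap.ker f ≤ R) : finrank F (R.map f) + finrank F (LinearMap.ker f) = finrank F R := by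
  have h1 := LinearMap.finrank_range_add_finrank_ker (f.domRestrict R)
  rw [LinearMap.range_domRestrict, LinearMap.ker_domRestrict] at h1
  rw [(Submodule.comapSubtypeEquivOfLe h).finrank_eq] at h1
  exact h1

variable (B : LinearMap.BilinForm F V) (hB : B.Nondegenerate) (T : End F V) (hT : ∀ x y, B (T x) (T y) = B x y)
include hT

omit [FiniteDimensional F V] in
theorem adj_N (j : ℕ) (x y : V) : B (((T - 1) ^ j) x) y = (-1) ^ j * B ((T ^ j) x) (((T - 1) ^ j) y) := by
  have h1 : ∀ x y, B ((T - 1) x) y = - B (T x) ((T - 1) y) := by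
    intro x y
    rw [LinearMap.sub_apply, LinearMap.sub_apply, map_sub, LinearMap.sub_apply, Module.End.one_apply, Module.End.one_apply, map_sub, hT]
    ring
  induction j generalizing x y with
  | zero => simp
  | succ j ih =>
    have hc : Commute T (T - 1) := (Commute.refl T).sub_right (Commute.one_right T)
    have h2 : T (((T - 1) ^ j) x) = ((T - 1) ^ j) (T x) := by
      rw [← Module.End.mul_apply, (hc.pow_right j).eq]; rfl
    have e1 : ((T - 1) ^ (j + 1)) x = (T - 1) (((T - 1) ^ j) x) := by rw [pow_succ']; rfl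
    have e2 : ((T - 1) ^ (j + 1)) y = ((T - 1) ^ j) ((T - 1) y) := by rw [pow_succ]; rfl
    have e3 : (T ^ (j + 1)) x = (T ^ j) (T x) := by rw [pow_succ]; rfl
    rw [e1, e2, e3, h1, h2, ih, pow_succ (-1 : F)]
    ring

omit [FiniteDimensional F V] in
theorem adj_N' {j : ℕ} (x : V) {y : V} (hy : ((T - 1) ^ (j + 1)) y = 0) : B (((T - 1) ^ j) x) y = (-1) ^ j * B x (((T - 1) ^ j) y) := by
  have hfix : ∀ k, (T ^ k) (((T - 1) ^ j) y) = ((T - 1) ^ j) y := by
    have h0 : T (((T - 1) ^ j) y) = ((T - 1) ^ j) y := by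
      rw [pow_succ', Module.End.mul_apply, LinearMap.sub_apply, Module.End.one_apply, sub_eq_zero] at hy
      exact hy
    intro k
    induction k with
    | zero => rfl
    | succ k ih => rw [pow_succ', Module.End.mul_apply, ih, h0]
  have hTk : ∀ k x y, B ((T ^ k) x) ((T ^ k) y) = B x y := by
    intro k
    induction k with
    | zero => intro x y; rfl
    | succ k ih => intro x y; rw [pow_succ', Module.End.mul_apply, Module.End.mul_apply, hT, ih]
  rw [adj_N B T hT]
  congr 1
  conv_lhs => rw [← hfix j]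
  rw [hTk]

include hB in
/-- the orthogonal complement of `ker N^k` -/
theorem perp_ker (hr : B.IsRefl) (k : ℕ) {w : V} (hw : ∀ y, ((T - 1) ^ k) y = 0 → B w y = 0) : w ∈ LinearMap.range ((T - 1) ^ k) := by
  have h1 : LinearMap.range ((T - 1) ^ k) ≤ B.orthogonal (LinearMap.ker ((T - 1) ^ k)) := by
    rintro _ ⟨z, rfl⟩
    rw [LinearMap.BilinForm.mem_orthogonal_iff]
    intro y hy
    rw [LinearMap.mem_ker] at hy
    apply hr
    rw [adj_N B T hT, hy, map_zero, mul_zero]
  have h2 := LinearMap.BilinForm.finrank_orthogonal hB (LinearMap.ker ((T - 1) ^ k))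
  have h3 := LinearMap.finrank_range_add_finrank_ker ((T - 1) ^ k)
  have h4 : LinearMap.range ((T - 1) ^ k) = B.orthogonal (LinearMap.ker ((T - 1) ^ k)) := by
    apply Submodule.eq_of_le_of_finrank_eq h1
    omega
  rw [h4, LinearMap.BilinForm.mem_orthogonal_iff]
  intro y hy
  exact hr _ _ (hw y hy)

include hB in
/-- parity of a multiplicity -/
theorem even_count_of_alt (hr : B.IsRefl) {S : Multiset ℕ} (hS : ∀ k, nk T k = sm S k) (j : ℕ)
    (halt : ∀ x, ((T - 1) ^ (j + 1)) x = 0 → B x (((T - 1) ^ j) x) = 0) : Even (S.count (j + 1)) := by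
  let N := T - 1
  let K : Submodule F V := LinearMap.ker (N ^ (j + 1))
  let β : LinearMap.BilinForm F K := (B.compl₂ (N ^ j)).domRestrict₁₂ K K
  have hβ : ∀ x y : K, β x y = B x ((N ^ j) y) := fun x y => rfl
  have hmemK : ∀ x, x ∈ K ↔ (N ^ (j + 1)) x = 0 := fun x => Iff.rfl
  have hA : β.IsAlt := fun x => by rw [hβ]; exact halt x x.2
  have h1 := even_alt β hA
  -- the radical
  let R : Submodule F V := K ⊓ (LinearMap.range (N ^ (j + 1))).comap (N ^ j)
  have hker : LinearMap.ker β = R.comap K.subtype := by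
    ext x
    rw [LinearMap.mem_ker, Submodule.mem_comap]
    constructor
    · intro h
      refine ⟨x.2, ?_⟩
      rw [SetLike.mem_coe, Submodule.mem_comap]
      apply perp_ker B hB T hT hr
      intro y hy
      rw [adj_N' B T hT _ hy]
      have h2 : β x ⟨y, hy⟩ = 0 := by rw [h]; rfl
      rw [hβ] at h2
      rw [show B (K.subtype x) (((T - 1) ^ j) y) = 0 from h2, mul_zero]
    · rintro ⟨-, h⟩
      rw [SetLike.mem_coe, Submodule.mem_comap] at h
      obtain ⟨z, hz⟩ := h
      apply LinearMap.ext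
      intro y
      rw [hβ, LinearMap.zero_apply]
      have h3 := adj_N' B T hT (j := j) (x : V) (y := (y : V)) y.2
      have h4 : ((T - 1) ^ j) (x : V) = ((T - 1) ^ (j + 1)) z := hz.symm
      have h5 : B (((T - 1) ^ (j + 1)) z) (y : V) = 0 := by
        rw [adj_N B T hT]
        have : ((T - 1) ^ (j + 1)) (y : V) = 0 := y.2
        rw [this, map_zero, mul_zero]
      rw [h4, h5] at h3
      exact (mul_eq_zero.1 h3.symm).resolve_left (pow_ne_zero _ (neg_ne_zero.2 one_ne_zero))
  have hRK : R ≤ K := inf_le_left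
  have hfr : finrank F (LinearMap.ker β) = finrank F R := by
    rw [hker]; exact (Submodule.comapSubtypeEquivOfLe hRK).finrank_eq
  -- dimension of the radical
  have hkj : LinearMap.ker (N ^ j) ≤ R := by
    intro x hx
    rw [LinearMap.mem_ker] at hx
    refine ⟨?_, ?_⟩
    · rw [SetLike.mem_coe, hmemK, pow_succ', Module.End.mul_apply, hx, map_zero]
    · rw [SetLike.mem_coe, Submodule.mem_comap, hx]; exact Submodule.zero_mem _
  have h5 := finrank_map_ge (N ^ j) R hkj
  have h6 := finrank_map_ge (N ^ (j + 1)) (LinearMap.ker (N ^ (j + 2))) (by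
    intro x hx
    rw [LinearMap.mem_ker] at hx ⊢
    rw [pow_succ', Module.End.mul_apply, hx, map_zero])
  have h7 : R.map (N ^ j) = (LinearMap.ker (N ^ (j + 2))).map (N ^ (j + 1)) := by
    ext w
    rw [Submodule.mem_map, Submodule.mem_map]
    constructor
    · rintro ⟨x, ⟨hx1, hx2⟩, rfl⟩
      rw [SetLike.mem_coe, Submodule.mem_comap] at hx2
      obtain ⟨z, hz⟩ := hx2
      refine ⟨z, ?_, hz⟩
      rw [LinearMap.mem_ker, pow_succ', Module.End.mul_apply, hz, ← Module.End.mul_apply, ← pow_succ']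
      exact hx1
    · rintro ⟨z, hz, rfl⟩
      rw [LinearMap.mem_ker] at hz
      have h8 : (N ^ j) (N z) = (N ^ (j + 1)) z := by rw [pow_succ]; rfl
      refine ⟨N z, ⟨?_, ?_⟩, h8⟩
      · rw [SetLike.mem_coe, hmemK]
        have : (N ^ (j + 2)) z = (N ^ (j + 1)) (N z) := by rw [pow_succ]; rfl
        rw [← this, hz]
      · rw [SetLike.mem_coe, Submodule.mem_comap, h8]
        exact ⟨z, rfl⟩
  rw [h7] at h5
  have e0 : finrank F (LinearMap.ker (N ^ j)) = sm S j := hS j
  have e1 : finrank F (LinearMap.ker (N ^ (j + 1))) = sm S (j + 1) := hS (j + 1)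
  have e2 : finrank F (LinearMap.ker (N ^ (j + 2))) = sm S (j + 2) := hS (j + 2)
  have e3 : finrank F K = sm S (j + 1) := e1
  have h9 := sm_step S (j := j + 1) (by omega)
  rw [Nat.add_sub_cancel, show j + 1 + 1 = j + 2 from rfl] at h9
  rw [hfr, e3] at h1
  rw [e0] at h5
  rw [e1, e2] at h6
  obtain ⟨c, hc⟩ := h1
  exact ⟨c, by omega⟩

include hB in
/-- alternating forms: odd sizes have even multiplicity -/
theorem even_count_sp (hA : B.IsAlt) {S : Multiset ℕ} (hS : ∀ k, nk T k = sm S k) {k : ℕ} (hk : Odd k) : Even (S.count k) := by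
  obtain ⟨l, rfl⟩ := hk
  refine even_count_of_alt B hB T hT hA.isRefl hS (2 * l) (fun x hx => ?_)
  have h1 := adj_N B T hT l x (((T - 1) ^ l) x)
  rw [hA, ← Module.End.mul_apply, ← pow_add, ← two_mul] at h1
  have hfix : (T ^ l) (((T - 1) ^ (2 * l)) x) = ((T - 1) ^ (2 * l)) x := by
    have h0 : T (((T - 1) ^ (2 * l)) x) = ((T - 1) ^ (2 * l)) x := by
      rw [pow_succ', Module.End.mul_apply, LinearMap.sub_apply, Module.End.one_apply, sub_eq_zero] at hx
      exact hx
    have : ∀ k, (T ^ k) (((T - 1) ^ (2 * l)) x) = ((T - 1) ^ (2 * l)) x := by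
      intro k
      induction k with
      | zero => rfl
      | succ k ih => rw [pow_succ', Module.End.mul_apply, ih, h0]
    exact this l
  have hTk : ∀ k x y, B ((T ^ k) x) ((T ^ k) y) = B x y := by
    intro k
    induction k with
    | zero => intro x y; rfl
    | succ k ih => intro x y; rw [pow_succ', Module.End.mul_apply, Module.End.mul_apply, hT, ih]
  rw [← hfix, hTk] at h1
  exact (mul_eq_zero.1 h1.symm).resolve_left (pow_ne_zero _ (neg_ne_zero.2 one_ne_zero))

include hB in
/-- symmetric forms in odd characteristic: even sizes have even multiplicity -/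
theorem even_count_orth (h2 : (2 : F) ≠ 0) (hs : ∀ x y, B x y = B y x) {S : Multiset ℕ} (hS : ∀ k, nk T k = sm S k) {k : ℕ} (hk : Even k) (hk0 : 0 < k) : Even (S.count k) := by
  obtain ⟨j, rfl⟩ : ∃ j, k = j + 1 := ⟨k - 1, by omega⟩
  refine even_count_of_alt B hB T hT (fun x y h => by rw [hs, h]) hS j (fun x hx => ?_)
  have h1 := adj_N' B T hT x hx
  have hj : Odd j := by rw [Nat.even_add_one, Nat.not_even_iff_odd] at hk; exact hk
  rw [hj.neg_one_pow, hs] at h1
  have h3 : 2 * B x (((T - 1) ^ j) x) = 0 := by linear_combination h1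
  exact (mul_eq_zero.1 h3).resolve_left h2

end rad

end CfsgLib.Jor
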