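import Mathlib
import Cfsg.Agent.LibJor4H13
import Cfsg.Agent.LibJor7H13

/-! Matrices of given Jordan type (seat helper13). -/

namespace CfsgLib.Jor

open Module Matrix

section
variable {F : Type*} [Field F]

theorem nk_reindex {ι κ : Type*} [Fintype ι] [DecidableEq ι] [Fintype κ] [DecidableEq κ] (e : ι ≃ κ) (M : Matrix ι ι F) (k : ℕ) :
    nk (Matrix.toLin' (Matrix.reindex e e M)) k = nk (Matrix.toLin' M) k := by
  symm
  refine nk_congr (LinearEquiv.funCongrLeft F F e.symm) (fun v => ?_) k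
  rw [Matrix.toLin'_apply, Matrix.toLin'_apply, Matrix.reindex_apply, Matrix.submatrix_mulVec_equiv]
  funext i
  show (M *ᵥ v) (e.symm i) = (M *ᵥ (fun j => v (e.symm (e j)))) (e.symm i)
  simp only [Equiv.symm_apply_apply]

theorem isConj_mat' {ι : Type*} [Fintype ι] [DecidableEq ι] {A B : Matrix ι ι F} {M : ℕ} (hA : (Matrix.toLin' A - 1) ^ M = 0) (h : ∀ k, nk (Matrix.toLin' A) k = nk (Matrix.toLin' B) k) : IsConj A B := by
  have hB : (Matrix.toLin' B - 1) ^ M = 0 := nil_of_nk (by rw [← h]; exact nk_of_nil hA)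
  obtain ⟨ψ, hψ⟩ := conj_of_nk hA hB h
  obtain ⟨G, -, hG⟩ := CfsgLib.Cls.exists_GL_conj ψ (fun v => hψ v)
  exact ⟨G, hG⟩

theorem nk_of_isConj {ι : Type*} [Fintype ι] [DecidableEq ι] {A B : Matrix ι ι F} (h : IsConj A B) (k : ℕ) : nk (Matrix.toLin' A) k = nk (Matrix.toLin' B) k := by
  obtain ⟨c, hc⟩ := h
  have hc' : (c : Matrix ι ι F) * A = B * (c : Matrix ι ι F) := hc
  let ψ : (ι → F) ≃ₗ[F] (ι → F) := LinearEquiv.ofLinear (Matrix.toLin' (c : Matrix ι ι F)) (Matrix.toLin' ((c⁻¹ : (Matrix ι ι F)ˣ) : Matrix ι ι F))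
    (by rw [← Matrix.toLin'_mul, ← Units.val_mul, mul_inv_cancel, Units.val_one, Matrix.toLin'_one]) (by rw [← Matrix.toLin'_mul, ← Units.val_mul, inv_mul_cancel, Units.val_one, Matrix.toLin'_one])
  refine nk_congr ψ (fun v => ?_) k
  show Matrix.toLin' (c : Matrix ι ι F) (Matrix.toLin' A v) = Matrix.toLin' B (Matrix.toLin' (c : Matrix ι ι F) v)
  rw [← LinearMap.comp_apply, ← LinearMap.comp_apply, ← Matrix.toLin'_mul, ← Matrix.toLin'_mul, hc']

variable {t : ℕ} (d : Fin t → ℕ)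

theorem sm_d (k : ℕ) : sm (Finset.univ.val.map d) k = ∑ i, min (d i) k := by
  unfold sm
  rw [Multiset.map_map]; rfl

theorem count_d (j : ℕ) : (Finset.univ.val.map d).count j = (Finset.univ.filter (fun k : Fin t => d k = j)).card := by
  rw [Multiset.count_map, ← Finset.filter_val, Finset.card_val]
  congr 1
  ext k
  simp [eq_comm]

theorem card_sig : Fintype.card (Σ k : Fin t, Fin (d k)) = ∑ k, d k := by
  rw [Fintype.card_sigma]; simp

theorem nk_J {κ : Type*} [Fintype κ] [DecidableEq κ] (e : (Σ k : Fin t, Fin (d k)) ≃ κ) (k : ℕ) :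
    nk (Matrix.toLin' (Matrix.reindex e e (Cfsg.jordanTypeMatrix d F))) k = sm (Finset.univ.val.map d) k := by
  rw [nk_reindex, nk_jordan, sm_d]

theorem sm_large (S : Multiset ℕ) {k : ℕ} (hk : S.sum ≤ k) : sm S k = S.sum := by
  unfold sm
  conv_rhs => rw [← Multiset.map_id S]
  congr 1
  apply Multiset.map_congr rfl
  intro a ha
  have := Multiset.le_sum_of_mem ha
  simp only [id]
  omega

theorem J_nil {κ : Type*} [Fintype κ] [DecidableEq κ] (e : (Σ k : Fin t, Fin (d k)) ≃ κ) : (Matrix.toLin' (Matrix.reindex e e (Cfsg.jordanTypeMatrix d F)) - 1) ^ (∑ k, d k) = 0 := by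
  apply nil_of_nk
  rw [nk_J, Module.finrank_fintype_fun_eq_card, ← Fintype.card_congr e, card_sig]
  exact sm_large _ le_rfl

theorem dim_eq {V : Type*} [AddCommGroup V] [Module F V] [FiniteDimensional F V] {T : End F V} {M : ℕ} (hM : (T - 1) ^ M = 0) {S : Multiset ℕ} (hS : ∀ k, nk T k = sm S k) : finrank F V = S.sum := by
  rw [← sm_large S (k := M + S.sum) (by omega), ← hS]
  symm
  apply nk_of_nil
  rw [pow_add, hM, zero_mul]

/-- orthogonal realisation -/
theorem orth_iff (P : ℕ → Prop) (hex : ∀ a, 0 < a → P a → ROr F {a}) (hnec : ∀ (n : ℕ) (Q : QuadraticForm F (Fin n → F)), (QuadraticMap.polarBilin Q).Nondegenerate →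
      ∀ T : (Fin n → F) ≃ₗ[F] (Fin n → F), (∀ x, Q (T x) = Q x) → ∀ S : Multiset ℕ, (∀ k, nk (T : (Fin n → F) →ₗ[F] (Fin n → F)) k = sm S k) → ∀ k, 0 < k → ¬ P k → Even (S.count k))
    (hd : ∀ k, 1 ≤ d k) {n : ℕ} (hsum : ∑ k, d k = n) :
    (∃ Q : QuadraticForm F (Fin n → F), (QuadraticMap.polarBilin Q).Nondegenerate ∧ ∃ e : ((k : Fin t) × Fin (d k)) ≃ Fin n, ∃ A : ↥(Cfsg.isometryGroup F ⇑Q), IsConj (Matrix.reindex e e (Cfsg.jordanTypeMatrix d F)) ((A : Matrix.GeneralLinearGroup (Fin n) F) : Matrix (Fin n) (Fin n) F)) ↔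
      ∀ j : ℕ, 0 < j → ¬ P j → Even (Finset.univ.filter (fun k : Fin t => d k = j)).card := by
  constructor
  · rintro ⟨Q, hQ, e, A, hA⟩ j hj hP
    rw [← count_d]
    refine hnec n Q hQ (Cfsg.Agent.H22.oIso Q A : (Fin n → F) ≃ₗ[F] (Fin n → F)) (Cfsg.Agent.H22.oIso Q A).2 _ (fun k => ?_) j hj hP
    have h1 := nk_of_isConj hA k
    rw [nk_J] at h1
    rw [h1]
    congr 1
  · intro h
    have hR : ROr F (Finset.univ.val.map d) := by
      refine build (ROr F) P ror_zero (fun S S' => ror_add) hex (fun a _ => ror_pair F a) _ ?_ ?_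
      · intro a ha
        rw [Multiset.mem_map] at ha
        obtain ⟨i, -, rfl⟩ := ha
        exact hd i
      · intro a ha
        rw [count_d]
        rcases Nat.eq_zero_or_pos a with h0 | h0
        · have : Finset.univ.filter (fun k : Fin t => d k = a) = ∅ := by
            apply Finset.filter_eq_empty_iff.2
            intro k _ hk
            have := hd k
            omega
          rw [this]; exact ⟨0, rfl⟩
        · exact h a h0 ha
    obtain ⟨n', Q, T, hQ, hT, ⟨M, hM⟩, hS⟩ := hR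
    have hn : n' = n := by
      have := dim_eq hM hS
      rw [Module.finrank_fin_fun] at this
      rw [this, ← hsum]; rfl
    subst hn
    obtain ⟨e⟩ : Nonempty (((k : Fin t) × Fin (d k)) ≃ Fin n') := ⟨Fintype.equivOfCardEq (by rw [card_sig, hsum, Fintype.card_fin])⟩
    refine ⟨Q, hQ, e, (Cfsg.Agent.H22.oIso Q).symm ⟨T, hT⟩, isConj_mat' (J_nil d e) (fun k => ?_)⟩
    rw [nk_J, ← hS]
    congr 1
    apply LinearMap.ext
    intro x
    rw [Matrix.toLin'_apply, ← Cfsg.Agent.H22.oIso_apply, MulEquiv.apply_symm_apply]; rfl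

end

end CfsgLib.Jor
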