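import Mathlib

/-! The (2,3,5) presentation of A_5 and counting of subgroups isomorphic to A_5 (seat helper10). -/

set_option autoImplicit false
set_option linter.all false

namespace CfsgLib.KA5

/-- the (2,3,5) group has order at most 60 -/
theorem card_le_sixty {G : Type*} [Group G] (x y : G) (hx : x * x = 1) (hy : y * y * y = 1) (hc : (x * y) ^ 5 = 1)
    (hgen : Subgroup.closure {x, y} = ⊤) : Finite G ∧ Nat.card G ≤ 60 := by
  classical
  set C := Subgroup.zpowers (x * y) with hC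
  let X := G ⧸ C
  have R : ∀ p : X, x • y • x • y • x • y • x • y • x • y • p = p := by
    intro p
    have : (x * y) ^ 5 • p = p := by rw [hc, one_smul]
    simpa only [pow_succ, pow_zero, one_mul, mul_smul] using this
  have ix : ∀ p : X, x • x • p = p := fun p => by rw [← mul_smul, hx, one_smul]
  have iy : ∀ p : X, y • y • y • p = p := fun p => by rw [← mul_smul, ← mul_smul, hy, one_smul]
  have jx : ∀ {p q : X}, x • p = q → p = x • q := fun {p q} h => by rw [← h, ix]
  have jy : ∀ {p q : X}, y • p = q → p = y • y • q := fun {p q} h => by rw [← h, iy]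
  obtain ⟨p0, hp0⟩ : ∃ p0 : X, p0 = ((1 : G) : G ⧸ C) := ⟨_, rfl⟩
  have h0 : x • y • p0 = p0 := by
    rw [hp0]
    change ((x * (y * 1) : G) : G ⧸ C) = _
    rw [QuotientGroup.eq, mul_one, mul_one]
    exact C.inv_mem (Subgroup.mem_zpowers _)
  obtain ⟨p1, hp1⟩ : ∃ p, p = y • p0 := ⟨_, rfl⟩
  obtain ⟨p2, hp2⟩ : ∃ p, p = y • p1 := ⟨_, rfl⟩
  obtain ⟨p3, hp3⟩ : ∃ p, p = x • p2 := ⟨_, rfl⟩
  obtain ⟨p4, hp4⟩ : ∃ p, p = y • p3 := ⟨_, rfl⟩
  obtain ⟨p5, hp5⟩ : ∃ p, p = x • p4 := ⟨_, rfl⟩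
  obtain ⟨p6, hp6⟩ : ∃ p, p = y • p4 := ⟨_, rfl⟩
  obtain ⟨p7, hp7⟩ : ∃ p, p = y • p5 := ⟨_, rfl⟩
  obtain ⟨p8, hp8⟩ : ∃ p, p = y • p7 := ⟨_, rfl⟩
  obtain ⟨p9, hp9⟩ : ∃ p, p = x • p8 := ⟨_, rfl⟩
  obtain ⟨p10, hp10⟩ : ∃ p, p = y • p9 := ⟨_, rfl⟩
  obtain ⟨p11, hp11⟩ : ∃ p, p = x • p10 := ⟨_, rfl⟩
  have x1 : x • p1 = p0 := by rw [hp1]; exact h0
  have x0 : x • p0 = p1 := (jx x1).symm
  have y0 := hp1.symm
  have y1 := hp2.symm
  have y2 : y • p2 = p0 := by rw [hp2, hp1, iy]
  have x2 := hp3.symm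
  have x3 : x • p3 = p2 := (jx x2).symm
  have y3 := hp4.symm
  have x4 := hp5.symm
  have x5 : x • p5 = p4 := (jx x4).symm
  have y4 := hp6.symm
  have y6 : y • p6 = p3 := by rw [hp6, hp4, iy]
  have y5 := hp7.symm
  have y7 := hp8.symm
  have y8 : y • p8 = p5 := by rw [hp8, hp7, iy]
  have x7 : x • p7 = p6 := by
    have h := R p1
    rw [y1, x2, y3, x4, y5] at h
    have h2 := jx h
    rw [x1] at h2
    have h3 := jy h2
    rw [y0, y1] at h3
    have h4 := jx h3
    rw [x2] at h4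
    have h5 := jy h4
    rw [y3, y4] at h5
    exact h5
  have x6 : x • p6 = p7 := (jx x7).symm
  have x8 := hp9.symm
  have x9 : x • p9 = p8 := (jx x8).symm
  have y9 := hp10.symm
  have x10 := hp11.symm
  have x11 : x • p11 = p10 := (jx x10).symm
  have y11 : y • p11 = p9 := by
    have h := R p4
    rw [y4, x6, y7, x8, y9, x10] at h
    have h2 := jx h
    rw [x4] at h2
    have h3 := jy h2
    rw [y5, y7] at h3
    have h4 := jx h3
    rw [x8] at h4
    exact h4
  have y10 : y • p10 = p11 := by rw [hp10, ← y11, iy]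
  let f : Fin 12 → X := ![p0, p1, p2, p3, p4, p5, p6, p7, p8, p9, p10, p11]
  have fx : ∀ i, x • f i ∈ Set.range f := by
    intro i
    fin_cases i
    · exact ⟨1, x0.symm⟩
    · exact ⟨0, x1.symm⟩
    · exact ⟨3, x2.symm⟩
    · exact ⟨2, x3.symm⟩
    · exact ⟨5, x4.symm⟩
    · exact ⟨4, x5.symm⟩
    · exact ⟨7, x6.symm⟩
    · exact ⟨6, x7.symm⟩
    · exact ⟨9, x8.symm⟩
    · exact ⟨8, x9.symm⟩
    · exact ⟨11, x10.symm⟩
    · exact ⟨10, x11.symm⟩
  have fy : ∀ i, y • f i ∈ Set.range f := by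
    intro i
    fin_cases i
    · exact ⟨1, y0.symm⟩
    · exact ⟨2, y1.symm⟩
    · exact ⟨0, y2.symm⟩
    · exact ⟨4, y3.symm⟩
    · exact ⟨6, y4.symm⟩
    · exact ⟨7, y5.symm⟩
    · exact ⟨3, y6.symm⟩
    · exact ⟨8, y7.symm⟩
    · exact ⟨5, y8.symm⟩
    · exact ⟨10, y9.symm⟩
    · exact ⟨11, y10.symm⟩
    · exact ⟨9, y11.symm⟩
  have cx : ∀ p ∈ Set.range f, x • p ∈ Set.range f := by rintro _ ⟨i, rfl⟩; exact fx i
  have cy : ∀ p ∈ Set.range f, y • p ∈ Set.range f := by rintro _ ⟨i, rfl⟩; exact fy i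
  have hinvx : x⁻¹ = x := inv_eq_of_mul_eq_one_left hx
  have hinvy : y⁻¹ = y * y := inv_eq_of_mul_eq_one_left hy
  let T : Subgroup G :=
    { carrier := {g | (∀ p ∈ Set.range f, g • p ∈ Set.range f) ∧ ∀ p ∈ Set.range f, g⁻¹ • p ∈ Set.range f}
      mul_mem' := by
        rintro a b ⟨ha, ha'⟩ ⟨hb, hb'⟩
        refine ⟨fun p hp => by rw [mul_smul]; exact ha _ (hb _ hp), fun p hp => by rw [mul_inv_rev, mul_smul]; exact hb' _ (ha' _ hp)⟩
      one_mem' := ⟨fun p hp => by rwa [one_smul], fun p hp => by rwa [inv_one, one_smul]⟩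
      inv_mem' := by
        rintro a ⟨ha, ha'⟩
        exact ⟨ha', by rw [inv_inv]; exact ha⟩ }
  have hT : T = ⊤ := by
    rw [eq_top_iff, ← hgen, Subgroup.closure_le]
    rintro g (rfl | hg)
    · exact ⟨cx, by rw [hinvx]; exact cx⟩
    · rw [Set.mem_singleton_iff] at hg
      subst hg
      exact ⟨cy, fun p hp => by rw [hinvy, mul_smul]; exact cy _ (cy _ hp)⟩
  have hsur : Function.Surjective f := by
    intro q
    obtain ⟨g, rfl⟩ := QuotientGroup.mk_surjective q
    have h1 : g ∈ T := by rw [hT]; trivial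
    have h2 := h1.1 p0 ⟨0, rfl⟩
    have h3 : g • p0 = (g : G ⧸ C) := by
      rw [hp0]
      change ((g * 1 : G) : G ⧸ C) = _
      rw [mul_one]
    rw [h3] at h2
    exact h2
  haveI : Finite (G ⧸ C) := Finite.of_surjective f hsur
  have hX : Nat.card (G ⧸ C) ≤ 12 := by
    have := Nat.card_le_card_of_surjective f hsur
    simpa using this
  have hCfin : IsOfFinOrder (x * y) := isOfFinOrder_iff_pow_eq_one.2 ⟨5, by norm_num, hc⟩
  have hC5 : Nat.card C ≤ 5 := by
    rw [Nat.card_zpowers]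
    exact Nat.le_of_dvd (by norm_num) (orderOf_dvd_of_pow_eq_one hc)
  haveI : Finite C := Nat.finite_of_card_ne_zero (by
    rw [Nat.card_zpowers]; exact (orderOf_pos_iff.2 hCfin).ne')
  haveI : Finite G := Nat.finite_of_card_ne_zero (by
    rw [Subgroup.card_eq_card_quotient_mul_card_subgroup C]
    exact Nat.mul_ne_zero Nat.card_pos.ne' Nat.card_pos.ne')
  refine ⟨inferInstance, ?_⟩
  rw [Subgroup.card_eq_card_quotient_mul_card_subgroup C]
  calc Nat.card (G ⧸ C) * Nat.card C ≤ 12 * 5 := Nat.mul_le_mul hX hC5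
    _ = 60 := rfl

/-- generators of `A_5` -/
def a5 : alternatingGroup (Fin 5) := ⟨Equiv.swap 0 1 * Equiv.swap 2 3, by rw [Equiv.Perm.mem_alternatingGroup]; decide⟩
def b5 : alternatingGroup (Fin 5) := ⟨Equiv.swap 0 2 * Equiv.swap 2 4, by rw [Equiv.Perm.mem_alternatingGroup]; decide⟩

theorem a5_sq : a5 * a5 = 1 := by apply Subtype.ext; decide
theorem a5_ne : a5 ≠ 1 := by intro h; have := congrArg Subtype.val h; revert this; decide
theorem b5_cu : b5 * b5 * b5 = 1 := by apply Subtype.ext; decide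
theorem b5_ne : b5 ≠ 1 := by intro h; have := congrArg Subtype.val h; revert this; decide
theorem ab_five : (a5 * b5) ^ 5 = 1 := by apply Subtype.ext; decide
theorem ab_ne : a5 * b5 ≠ 1 := by intro h; have := congrArg Subtype.val h; revert this; decide

theorem card_a5 : Nat.card (alternatingGroup (Fin 5)) = 60 := by
  rw [nat_card_alternatingGroup, Nat.card_fin]; rfl

theorem simple_a5 : IsSimpleGroup (alternatingGroup (Fin 5)) := alternatingGroup.isSimpleGroup (by simp)

/-- elements with the relations of the presentation -/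
def Rel {G : Type*} [Group G] (x y : G) : Prop := x * x = 1 ∧ x ≠ 1 ∧ y * y * y = 1 ∧ (x * y) ^ 5 = 1

theorem Rel.y_ne {G : Type*} [Group G] {x y : G} (h : Rel x y) : y ≠ 1 := by
  rintro rfl
  obtain ⟨h1, h2, -, h4⟩ := h
  rw [mul_one] at h4
  apply h2
  calc x = x ^ 5 * (x * x)⁻¹ * (x * x)⁻¹ := by group
    _ = 1 := by rw [h4, h1]; simp

theorem Rel.xy_ne {G : Type*} [Group G] {x y : G} (h : Rel x y) : x * y ≠ 1 := by
  intro h0
  obtain ⟨h1, h2, h3, -⟩ := h
  have hyx : y = x := by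
    have := eq_inv_of_mul_eq_one_right h0
    rw [this]; exact inv_eq_of_mul_eq_one_left h1
  apply h2
  rw [hyx, h1, one_mul] at h3
  exact h3

theorem closure_a5 : Subgroup.closure ({a5, b5} : Set (alternatingGroup (Fin 5))) = ⊤ := by
  haveI := simple_a5
  set H := Subgroup.closure ({a5, b5} : Set (alternatingGroup (Fin 5))) with hH
  have ha : a5 ∈ H := Subgroup.subset_closure (by simp)
  have hb : b5 ∈ H := Subgroup.subset_closure (by simp)
  have h2 : 2 ∣ Nat.card H := by
    have : orderOf a5 = 2 := orderOf_eq_prime (by rw [sq]; exact a5_sq) a5_ne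
    rw [← this, ← Subgroup.orderOf_mk a5 ha]
    exact orderOf_dvd_natCard _
  have h3 : 3 ∣ Nat.card H := by
    have : orderOf b5 = 3 := orderOf_eq_prime (by rw [pow_succ, sq]; exact b5_cu) b5_ne
    rw [← this, ← Subgroup.orderOf_mk b5 hb]
    exact orderOf_dvd_natCard _
  have h5 : 5 ∣ Nat.card H := by
    haveI : Fact (Nat.Prime 5) := ⟨by norm_num⟩
    have h50 : orderOf (a5 * b5) = 5 := orderOf_eq_prime ab_five ab_ne
    have h51 : orderOf (⟨a5 * b5, H.mul_mem ha hb⟩ : H) ∣ Nat.card H := orderOf_dvd_natCard _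
    rw [Subgroup.orderOf_mk, h50] at h51
    exact h51
  have h30 : 30 ∣ Nat.card H := by
    have h6 : 2 * 3 ∣ Nat.card H := Nat.Coprime.mul_dvd_of_dvd_of_dvd (by norm_num) h2 h3
    exact Nat.Coprime.mul_dvd_of_dvd_of_dvd (m := 6) (n := 5) (by norm_num) h6 h5
  have hmul := H.card_mul_index
  rw [card_a5] at hmul
  obtain ⟨c, hc⟩ := h30
  have hci : c * H.index = 2 := by
    rw [hc] at hmul
    have : 30 * (c * H.index) = 30 * 2 := by rw [← mul_assoc]; exact hmul
    exact Nat.eq_of_mul_eq_mul_left (by norm_num) this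
  have hidx : H.index = 1 ∨ H.index = 2 := by
    have : H.index ∣ 2 := ⟨c, by rw [mul_comm]; exact hci.symm⟩
    exact (Nat.dvd_prime Nat.prime_two).1 this
  rcases hidx with h | h
  · exact Subgroup.index_eq_one.1 h
  · exfalso
    haveI : H.Normal := Subgroup.normal_of_index_eq_two h
    rcases (inferInstance : H.Normal).eq_bot_or_eq_top with h' | h'
    · rw [h'] at ha
      exact a5_ne (Subgroup.mem_bot.1 ha)
    · rw [h', Subgroup.index_top] at h
      omega

/-- groups generated by `x, y` with the relations are isomorphic to `A_5` -/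
theorem iso_of_rel {G : Type*} [Group G] {x y : G} (h : Rel x y) :
    Nonempty (Subgroup.closure ({x, y} : Set G) ≃* alternatingGroup (Fin 5)) := by
  haveI := simple_a5
  obtain ⟨h1, h2, h3, h4⟩ := h
  let X : G × alternatingGroup (Fin 5) := (x, a5)
  let Y : G × alternatingGroup (Fin 5) := (y, b5)
  let D := Subgroup.closure ({X, Y} : Set (G × alternatingGroup (Fin 5)))
  have hX : X ∈ D := Subgroup.subset_closure (by simp)
  have hY : Y ∈ D := Subgroup.subset_closure (by simp)
  have hDgen : Subgroup.closure ({⟨X, hX⟩, ⟨Y, hY⟩} : Set D) = ⊤ := by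
    have := Subgroup.closure_closure_coe_preimage (k := ({X, Y} : Set (G × alternatingGroup (Fin 5))))
    rw [← this]
    congr 1
    ext z
    simp only [Set.mem_insert_iff, Set.mem_singleton_iff, Set.mem_preimage]
    constructor
    · rintro (rfl | rfl)
      · exact Or.inl rfl
      · exact Or.inr rfl
    · rintro (h | h)
      · exact Or.inl (Subtype.ext h)
      · exact Or.inr (Subtype.ext h)
  obtain ⟨hfin, hcard⟩ := card_le_sixty (G := D) ⟨X, hX⟩ ⟨Y, hY⟩
    (Subtype.ext (Prod.ext h1 a5_sq)) (Subtype.ext (Prod.ext h3 b5_cu)) (Subtype.ext (Prod.ext h4 ab_five)) hDgen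
  let π1 : D →* G := (MonoidHom.fst G (alternatingGroup (Fin 5))).comp D.subtype
  let π2 : D →* alternatingGroup (Fin 5) := (MonoidHom.snd G (alternatingGroup (Fin 5))).comp D.subtype
  have hsur2 : Function.Surjective π2 := by
    rw [← MonoidHom.range_eq_top, eq_top_iff, ← closure_a5, Subgroup.closure_le]
    rintro z (rfl | hz)
    · exact ⟨⟨X, hX⟩, rfl⟩
    · rw [Set.mem_singleton_iff] at hz
      subst hz
      exact ⟨⟨Y, hY⟩, rfl⟩
  have hinj2 : Function.Injective π2 := by
    have hge : 60 ≤ Nat.card D := by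
      rw [← card_a5]; exact Nat.card_le_card_of_surjective π2 hsur2
    have : Function.Bijective π2 := (Nat.bijective_iff_surjective_and_card π2).2 ⟨hsur2, by rw [card_a5]; omega⟩
    exact this.1
  let e : D ≃* alternatingGroup (Fin 5) := MulEquiv.ofBijective π2 ⟨hinj2, hsur2⟩
  haveI : Nontrivial D := e.toEquiv.nontrivial
  haveI : IsSimpleGroup D := IsSimpleGroup.isSimpleGroup_of_surjective e.symm.toMonoidHom e.symm.surjective
  have hinj1 : Function.Injective π1 := by
    rw [← MonoidHom.ker_eq_bot_iff]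
    rcases (inferInstance : π1.ker.Normal).eq_bot_or_eq_top with h | h
    · exact h
    · exfalso
      apply h2
      have : (⟨X, hX⟩ : D) ∈ π1.ker := by rw [h]; trivial
      exact this
  have hrange : π1.range = Subgroup.closure ({x, y} : Set G) := by
    have h5 : D.map (MonoidHom.fst G (alternatingGroup (Fin 5))) = Subgroup.closure ({x, y} : Set G) := by
      simp only [D]
      rw [MonoidHom.map_closure, Set.image_pair]
      rfl
    rw [← h5]
    ext z
    constructor
    · rintro ⟨w, rfl⟩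
      exact ⟨w.1, w.2, rfl⟩
    · rintro ⟨w, hw, rfl⟩
      exact ⟨⟨w, hw⟩, rfl⟩
  rw [← hrange]
  exact ⟨(MonoidHom.ofInjective hinj1).symm.trans e⟩

theorem Rel.map {G H : Type*} [Group G] [Group H] (f : G →* H) (hf : Function.Injective f) {x y : G} : Rel (f x) (f y) ↔ Rel x y := by
  unfold Rel
  rw [← map_mul, ← map_mul, ← map_mul, ← map_mul, ← map_pow, map_eq_one_iff f hf, map_eq_one_iff f hf, map_eq_one_iff f hf, Ne, map_eq_one_iff f hf]

/-- number of pairs in `A_5` -/
theorem cnt5 : (((Finset.univ : Finset (Equiv.Perm (Fin 5))).filter (fun a => Equiv.Perm.sign a = 1 ∧ a * a = 1 ∧ a ≠ 1)) ×ˢ ((Finset.univ : Finset (Equiv.Perm (Fin 5))).filter (fun b => Equiv.Perm.sign b = 1 ∧ b * b * b = 1)) |>.filter (fun p => (p.1*p.2)^5=1)).card = 120 := by decide +kernel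

theorem card_rel_a5 : Nat.card {p : alternatingGroup (Fin 5) × alternatingGroup (Fin 5) // Rel p.1 p.2} = 120 := by
  classical
  rw [← cnt5, ← Fintype.card_coe, ← Nat.card_eq_fintype_card]
  refine Nat.card_congr
    { toFun := fun p => ⟨((p.1.1 : Equiv.Perm (Fin 5)), (p.1.2 : Equiv.Perm (Fin 5))), ?_⟩
      invFun := fun p => ⟨(⟨p.1.1, ?_⟩, ⟨p.1.2, ?_⟩), ?_⟩
      left_inv := fun p => rfl
      right_inv := fun p => rfl }
  · obtain ⟨⟨a, b⟩, h1, h2, h3, h4⟩ := p
    simp only [Finset.mem_filter, Finset.mem_product, Finset.mem_univ, true_and]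
    exact ⟨⟨⟨Equiv.Perm.mem_alternatingGroup.1 a.2, congrArg Subtype.val h1, fun h => h2 (Subtype.ext h)⟩, Equiv.Perm.mem_alternatingGroup.1 b.2, congrArg Subtype.val h3⟩, congrArg Subtype.val h4⟩
  · have := p.2
    simp only [Finset.mem_filter, Finset.mem_product, Finset.mem_univ, true_and] at this
    exact Equiv.Perm.mem_alternatingGroup.2 this.1.1.1
  · have := p.2
    simp only [Finset.mem_filter, Finset.mem_product, Finset.mem_univ, true_and] at this
    exact Equiv.Perm.mem_alternatingGroup.2 this.1.2.1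
  · have := p.2
    simp only [Finset.mem_filter, Finset.mem_product, Finset.mem_univ, true_and] at this
    exact ⟨Subtype.ext this.1.1.2.1, fun h => this.1.1.2.2 (congrArg Subtype.val h), Subtype.ext this.1.2.2, Subtype.ext this.2⟩

/-- the main counting formula -/
theorem count {G : Type*} [Group G] [Finite G] :
    Nat.card {p : G × G // Rel p.1 p.2} = Nat.card {H : Subgroup G // Nonempty (H ≃* alternatingGroup (Fin 5))} * 120 := by
  classical
  have key : ∀ (H : Subgroup G) (x y : H), Nonempty (H ≃* alternatingGroup (Fin 5)) → Rel x y → Subgroup.closure ({(x : G), (y : G)} : Set G) = H := by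
    rintro H x y ⟨e⟩ h
    have hle : Subgroup.closure ({(x : G), (y : G)} : Set G) ≤ H := by
      rw [Subgroup.closure_le]
      rintro z (rfl | hz)
      · exact x.2
      · rw [Set.mem_singleton_iff] at hz
        subst hz
        exact y.2
    obtain ⟨e'⟩ := iso_of_rel ((Rel.map H.subtype H.subtype_injective).2 h)
    apply Subgroup.eq_of_le_of_card_ge hle
    have h1 : Nat.card H = 60 := by rw [Nat.card_congr e.toEquiv, card_a5]
    have h2 : Nat.card (Subgroup.closure ({(x : G), (y : G)} : Set G)) = 60 := (Nat.card_congr e'.toEquiv).trans card_a5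
    rw [h1, h2]
  let g : (Σ H : {H : Subgroup G // Nonempty (H ≃* alternatingGroup (Fin 5))}, {p : H.1 × H.1 // Rel p.1 p.2}) → {p : G × G // Rel p.1 p.2} :=
    fun q => ⟨((q.2.1.1 : G), (q.2.1.2 : G)), (Rel.map q.1.1.subtype q.1.1.subtype_injective).2 q.2.2⟩
  have hg : Function.Bijective g := by
    constructor
    · rintro ⟨⟨H, hH⟩, ⟨⟨x, y⟩, hxy⟩⟩ ⟨⟨H', hH'⟩, ⟨⟨x', y'⟩, hxy'⟩⟩ h
      have hx : (x : G) = x' := congrArg (fun p => p.1.1) h
      have hy : (y : G) = y' := congrArg (fun p => p.1.2) h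
      have h1 := key H x y hH hxy
      have h2 := key H' x' y' hH' hxy'
      rw [hx, hy, h2] at h1
      subst h1
      have hx' : x = x' := Subtype.ext hx
      have hy' : y = y' := Subtype.ext hy
      subst hx'
      subst hy'
      rfl
    · rintro ⟨⟨x, y⟩, h⟩
      exact ⟨⟨⟨Subgroup.closure {x, y}, iso_of_rel h⟩,
        ⟨(⟨x, Subgroup.subset_closure (by simp)⟩, ⟨y, Subgroup.subset_closure (by simp)⟩), by
          rw [← Rel.map (Subgroup.subtype _) (Subgroup.subtype_injective _)]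
          exact h⟩⟩, rfl⟩
  haveI : Fintype {H : Subgroup G // Nonempty (H ≃* alternatingGroup (Fin 5))} := Fintype.ofFinite _
  rw [← Nat.card_congr (Equiv.ofBijective g hg), Nat.card_sigma]
  have h120 : ∀ H : {H : Subgroup G // Nonempty (H ≃* alternatingGroup (Fin 5))}, Nat.card {p : H.1 × H.1 // Rel p.1 p.2} = 120 := by
    rintro ⟨H, ⟨e⟩⟩
    rw [← card_rel_a5]
    refine Nat.card_congr ((Equiv.prodCongr e.toEquiv e.toEquiv).subtypeEquiv ?_)
    rintro ⟨x, y⟩
    exact (Rel.map e.toMonoidHom e.injective).symm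
  simp only [h120]
  rw [Finset.sum_const, Finset.card_univ, smul_eq_mul, Nat.card_eq_fintype_card]

end CfsgLib.KA5
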