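import Mathlib

/-! Centralizers of small subgroups of large alternating groups (seat helper10). -/

namespace CfsgLib.KS4

open MulAction

theorem hom_units_alternating {r : ℕ} (f : Equiv.Perm (Fin r) →* ℤˣ) (σ : Equiv.Perm (Fin r)) (hσ : σ ∈ alternatingGroup (Fin r)) :
    f σ = 1 := by
  have : alternatingGroup (Fin r) ≤ f.ker := by
    rw [← Equiv.Perm.closure_three_cycles_eq_alternating, Subgroup.closure_le]
    intro τ hτ
    have h3 : τ ^ 3 = 1 := by
      rw [← hτ.orderOf]; exact pow_orderOf_eq_one τ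
    have h1 : f τ ^ 3 = 1 := by rw [← map_pow, h3, map_one]
    have h2 : f τ ^ 2 = 1 := Int.units_sq _
    change f τ = 1
    calc f τ = f τ ^ 3 * (f τ ^ 2)⁻¹ := by group
      _ = 1 := by rw [h1, h2]; simp
  exact this hσ

variable {H : Type*} [Group H] [Finite H] {m : ℕ} [MulAction H (Fin m)]

theorem exists_fiber (r : ℕ) (hm : Nat.card H * (2 ^ Nat.card H * r) ≤ m) :
    ∃ (S : Subgroup H) (x : Fin r → Fin m), (∀ i, stabilizer H (x i) = S) ∧ ∀ i j, i ≠ j → x i ∉ orbit H (x j) := by
  classical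
  haveI : Fintype H := Fintype.ofFinite H
  haveI : Fintype (Subgroup H) := Fintype.ofFinite _
  let Ω := orbitRel.Quotient H (Fin m)
  haveI : Fintype Ω := Fintype.ofFinite _
  let rep : Ω → Fin m := Quotient.out
  have hsur : Function.Surjective (fun p : Ω × H => p.2 • rep p.1) := by
    intro y
    have h1 : (Quotient.mk'' y : Ω).out ∈ orbit H y := by
      have : (Quotient.mk'' ((Quotient.mk'' y : Ω).out) : Ω) = Quotient.mk'' y := Quotient.out_eq' _
      rw [Quotient.eq''] at this
      exact orbitRel_apply.1 this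
    obtain ⟨h, hh⟩ := h1
    refine ⟨(Quotient.mk'' y, h⁻¹), ?_⟩
    simp only [rep]
    rw [← hh]; simp
  have hcard : m ≤ Fintype.card Ω * Fintype.card H := by
    have := Fintype.card_le_of_surjective _ hsur
    simpa using this
  have hn : 0 < Fintype.card H := Fintype.card_pos
  rw [Nat.card_eq_fintype_card] at hm
  have hΩ : 2 ^ Fintype.card H * r ≤ Fintype.card Ω := by
    have : Fintype.card H * (2 ^ Fintype.card H * r) ≤ Fintype.card H * Fintype.card Ω := by
      rw [mul_comm (Fintype.card H) (Fintype.card Ω)]; exact hm.trans hcard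
    exact Nat.le_of_mul_le_mul_left this hn
  have hsub : Fintype.card (Subgroup H) ≤ 2 ^ Fintype.card H := by
    rw [← Fintype.card_set]
    exact Fintype.card_le_of_injective (fun K : Subgroup H => (K : Set H)) SetLike.coe_injective
  obtain ⟨S, -, hS⟩ := Finset.exists_le_card_fiber_of_mul_le_card_of_maps_to (s := (Finset.univ : Finset Ω)) (t := (Finset.univ : Finset (Subgroup H)))
    (f := fun ω => stabilizer H (rep ω)) (n := r) (fun _ _ => Finset.mem_univ _) ⟨⊤, Finset.mem_univ _⟩
    (by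
      rw [Finset.card_univ, Finset.card_univ]
      exact (Nat.mul_le_mul_right r hsub).trans hΩ)
  obtain ⟨e⟩ : Nonempty (Fin r ↪ {ω // ω ∈ (Finset.univ : Finset Ω).filter (fun ω => stabilizer H (rep ω) = S)}) := by
    rw [Function.Embedding.nonempty_iff_card_le, Fintype.card_fin, Fintype.card_coe]
    exact hS
  refine ⟨S, fun i => rep (e i).1, fun i => ?_, fun i j hij h => ?_⟩
  · exact (Finset.mem_filter.1 (e i).2).2
  · apply hij
    apply e.injective
    apply Subtype.ext
    have h1 : (Quotient.mk'' (rep (e i).1) : Ω) = Quotient.mk'' (rep (e j).1) := by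
      rw [Quotient.eq'']; exact orbitRel_apply.2 h
    simp only [rep] at h1
    rwa [Quotient.out_eq', Quotient.out_eq'] at h1

section emb
variable {r : ℕ} {S : Subgroup H} {x : Fin r → Fin m} (hx : ∀ i, stabilizer H (x i) = S)
  (hd : ∀ i j, i ≠ j → x i ∉ orbit H (x j))

/-- the embedding -/
def emb (hx : ∀ i, stabilizer H (x i) = S)
  (hd : ∀ i j, i ≠ j → x i ∉ orbit H (x j)) : Fin r × (H ⧸ S) ↪ Fin m where
  toFun p := Quotient.liftOn' p.2 (fun h => h • x p.1) (by
    intro a b hab
    rw [QuotientGroup.leftRel_apply] at hab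
    rw [← hx p.1, mem_stabilizer_iff, mul_smul, inv_smul_eq_iff] at hab
    exact hab.symm)
  inj' := by
    rintro ⟨i, a⟩ ⟨j, b⟩ h
    induction a using Quotient.inductionOn' with | h a => ?_
    induction b using Quotient.inductionOn' with | h b => ?_
    simp only [Quotient.liftOn'_mk''] at h
    have hij : i = j := by
      by_contra hne
      apply hd i j hne
      refine ⟨a⁻¹ * b, ?_⟩
      simp only [mul_smul]
      rw [← h]; simp
    subst hij
    refine Prod.ext rfl ?_
    simp only
    rw [Quotient.eq'', QuotientGroup.leftRel_apply, ← hx i, mem_stabilizer_iff, mul_smul, ← h]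
    simp

theorem emb_mk (i : Fin r) (h : H) : emb hx hd (i, (h : H ⧸ S)) = h • x i := rfl

/-- the action on blocks -/
def blk (r : ℕ) (Q : Type*) : Equiv.Perm (Fin r) →* Equiv.Perm (Fin r × Q) where
  toFun σ := Equiv.prodCongr σ (Equiv.refl _)
  map_one' := by ext <;> rfl
  map_mul' _ _ := by ext <;> rfl

theorem blk_injective (r : ℕ) (Q : Type*) [Nonempty Q] : Function.Injective (blk r Q) := by
  intro σ τ h
  obtain ⟨q⟩ := ‹Nonempty Q›
  ext i
  have := congrArg (fun ρ : Equiv.Perm (Fin r × Q) => (ρ (i, q)).1) h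
  exact congrArg Fin.val this

theorem comm_smul (σ : Equiv.Perm (Fin r)) (g : H) (y : Fin m) :
    Equiv.Perm.viaEmbedding (blk r (H ⧸ S) σ) (emb hx hd) (g • y) = g • Equiv.Perm.viaEmbedding (blk r (H ⧸ S) σ) (emb hx hd) y := by
  classical
  by_cases hy : y ∈ Set.range (emb hx hd)
  · obtain ⟨⟨i, a⟩, rfl⟩ := hy
    induction a using Quotient.inductionOn' with | h a => ?_
    have e1 : emb hx hd (i, Quotient.mk'' a) = a • x i := rfl
    have e2 : g • (a • x i) = emb hx hd (i, ((g * a : H) : H ⧸ S)) := by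
      rw [emb_mk, mul_smul]
    have e3 : a • x i = emb hx hd (i, ((a : H) : H ⧸ S)) := rfl
    rw [e1, e2, Equiv.Perm.viaEmbedding_apply]
    rw [e3, Equiv.Perm.viaEmbedding_apply]
    simp only [blk, MonoidHom.coe_mk, OneHom.coe_mk, Equiv.prodCongr_apply, Prod.map_apply, Equiv.refl_apply]
    rw [emb_mk, emb_mk, mul_smul]
  · rw [Equiv.Perm.viaEmbedding_apply_of_notMem _ _ _ hy, Equiv.Perm.viaEmbedding_apply_of_notMem]
    rintro ⟨⟨i, a⟩, hia⟩
    apply hy
    induction a using Quotient.inductionOn' with | h a => ?_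
    refine ⟨(i, ((g⁻¹ * a : H) : H ⧸ S)), ?_⟩
    rw [emb_mk, mul_smul]
    have e1 : emb hx hd (i, Quotient.mk'' a) = a • x i := rfl
    rw [← e1, hia]; simp

end emb

theorem s2532 :
    ∃ f : ℕ → ℕ → ℕ, ∀ (m r : ℕ) (H : Subgroup ↥(alternatingGroup (Fin m))), f (Nat.card H) r ≤ m →
      ∃ K : Subgroup ↥(alternatingGroup (Fin m)), Nonempty (↥K ≃* ↥(alternatingGroup (Fin r))) ∧
        K ≤ Subgroup.centralizer (H : Set ↥(alternatingGroup (Fin m))) := by
  classical
  refine ⟨fun n r => n * (2 ^ n * r), fun m r H hm => ?_⟩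
  obtain ⟨S, x, hx, hd⟩ := exists_fiber (H := H) r hm
  let φ : Equiv.Perm (Fin r) →* Equiv.Perm (Fin m) :=
    (Equiv.Perm.viaEmbeddingHom (emb hx hd)).comp (blk r (H ⧸ S))
  have hφinj : Function.Injective φ :=
    (Equiv.Perm.viaEmbeddingHom_injective _).comp (blk_injective r (H ⧸ S))
  have hφalt : ∀ σ ∈ alternatingGroup (Fin r), φ σ ∈ alternatingGroup (Fin m) := by
    intro σ hσ
    rw [Equiv.Perm.mem_alternatingGroup]
    exact hom_units_alternating (Equiv.Perm.sign.comp φ) σ hσ
  let ψ : ↥(alternatingGroup (Fin r)) →* ↥(alternatingGroup (Fin m)) :=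
    (φ.comp (alternatingGroup (Fin r)).subtype).codRestrict _ (fun σ => hφalt σ σ.2)
  have hψinj : Function.Injective ψ := by
    intro σ τ h
    have : φ σ = φ τ := congrArg Subtype.val h
    exact Subtype.ext (hφinj this)
  refine ⟨ψ.range, ⟨(MonoidHom.ofInjective hψinj).symm⟩, ?_⟩
  rintro _ ⟨σ, rfl⟩
  rw [Subgroup.mem_centralizer_iff]
  intro h hh
  apply Subtype.ext
  apply Equiv.ext
  intro y
  have := comm_smul hx hd (σ : Equiv.Perm (Fin r)) (⟨h, hh⟩ : H) y
  exact this.symm

end CfsgLib.KS4
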