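import Mathlib
import Cfsg.Agent.LibKA8
import Cfsg.Agent.LibKS4

/-! Subgroups of GL_4(2) of order divisible by 70 are 2-transitive (seat helper10). -/

set_option autoImplicit false
set_option linter.all false

namespace CfsgLib.KA8

open Matrix MulAction

/-- an abstract criterion: a group acting transitively on 15 points with point stabilizers having no fixed
point-orbits of size other than 7 or 14 on the rest is 2-transitive as soon as it has an involution -/
theorem two_trans {H X : Type*} [Group H] [Finite H] [Finite X] [MulAction H X] [FaithfulSMul H X]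
    (hX : Nat.card X = 15) (htr : ∀ a b : X, ∃ g : H, g • a = b)
    (h7 : ∀ v w : X, v ≠ w → 7 ∣ Nat.card (orbit (stabilizer H v) w)) (h2 : 2 ∣ Nat.card H) :
    ∀ a b a' b' : X, a ≠ b → a' ≠ b' → ∃ g : H, g • a = a' ∧ g • b = b' := by
  classical
  haveI : Fintype X := Fintype.ofFinite X
  -- fixed first point
  suffices h : ∀ v w w' : X, v ≠ w → v ≠ w' → ∃ g : H, g • v = v ∧ g • w = w' by
    intro a b a' b' hab hab'
    obtain ⟨g, hg⟩ := htr a a'
    obtain ⟨k, hk1, hk2⟩ := h a' (g • b) b' (by rw [← hg]; exact fun h => hab (smul_left_cancel g h)) hab'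
    exact ⟨k * g, by rw [mul_smul, hg, hk1], by rw [mul_smul, hk2]⟩
  intro v w w' hvw hvw'
  by_contra hcon
  push Not at hcon
  -- the two orbits of the stabilizer
  set O := orbit (stabilizer H v) w with hO
  set O' := orbit (stabilizer H v) w' with hO'
  have hdisj : Disjoint O O' := by
    rw [Set.disjoint_iff]
    rintro x ⟨⟨g, hg⟩, ⟨g', hg'⟩⟩
    refine hcon ((g'⁻¹ * g : stabilizer H v) : H) (g'⁻¹ * g).2 ?_
    have h1 : (g : H) • w = x := hg
    have h2 : (g' : H) • w' = x := hg'
    rw [Subgroup.coe_mul, Subgroup.coe_inv, mul_smul, h1, inv_smul_eq_iff, h2]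
  have hsub : O ∪ O' ⊆ {v}ᶜ := by
    rintro x (⟨g, hg⟩ | ⟨g, hg⟩) hx
    · rw [Set.mem_singleton_iff] at hx
      have h1 : (g : H) • w = v := (show (g : H) • w = x from hg).trans hx
      have h2 : (g : H) • v = v := g.2
      exact hvw (smul_left_cancel (g : H) (h2.trans h1.symm))
    · rw [Set.mem_singleton_iff] at hx
      have h1 : (g : H) • w' = v := (show (g : H) • w' = x from hg).trans hx
      have h2 : (g : H) • v = v := g.2
      exact hvw' (smul_left_cancel (g : H) (h2.trans h1.symm))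
  have hcardc : ({v}ᶜ : Set X).ncard = 14 := by
    rw [Set.ncard_compl, hX, Set.ncard_singleton]
  have hOpos : 0 < Nat.card O := Nat.card_pos_iff.2 ⟨⟨w, mem_orbit_self w⟩, inferInstance⟩
  have hOpos' : 0 < Nat.card O' := Nat.card_pos_iff.2 ⟨⟨w', mem_orbit_self w'⟩, inferInstance⟩
  have hsum : O.ncard + O'.ncard ≤ 14 := by
    rw [← Set.ncard_union_eq hdisj, ← hcardc]
    exact Set.ncard_le_ncard hsub
  have hO7 : Nat.card O = 7 := by
    have h1 := h7 v w hvw
    have h2 := h7 v w' hvw'
    rw [← hO] at h1; rw [← hO'] at h2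
    rw [← Nat.card_coe_set_eq, ← Nat.card_coe_set_eq] at hsum
    omega
  have hO7' : Nat.card O' = 7 := by
    have h1 := h7 v w hvw
    have h2 := h7 v w' hvw'
    rw [← hO] at h1; rw [← hO'] at h2
    rw [← Nat.card_coe_set_eq, ← Nat.card_coe_set_eq] at hsum
    omega
  have hcover : O ∪ O' = {v}ᶜ := by
    apply Set.eq_of_subset_of_ncard_le hsub
    rw [hcardc, Set.ncard_union_eq hdisj, ← Nat.card_coe_set_eq, ← Nat.card_coe_set_eq, hO7, hO7']
  -- orbitals
  let D : Set (X × X) := orbit H (v, w)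
  let D' : Set (X × X) := orbit H (v, w')
  have hDD' : Disjoint D D' := by
    rw [Set.disjoint_iff]
    rintro x ⟨⟨g, hg⟩, ⟨g', hg'⟩⟩
    have e : g • (v, w) = g' • (v, w') := hg.trans hg'.symm
    have e1 : g • v = g' • v := congrArg Prod.fst e
    have e2 : g • w = g' • w' := congrArg Prod.snd e
    exact hcon (g'⁻¹ * g) (by rw [mul_smul, e1, inv_smul_smul]) (by rw [mul_smul, e2, inv_smul_smul])
  have hmem : ∀ a b : X, a ≠ b → (a, b) ∈ D ∨ (a, b) ∈ D' := by
    intro a b hab
    obtain ⟨g, hg⟩ := htr a v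
    have h1 : g • b ∈ ({v}ᶜ : Set X) := by
      intro h
      rw [Set.mem_singleton_iff, ← hg] at h
      exact hab (smul_left_cancel g h).symm
    rw [← hcover] at h1
    rcases h1 with ⟨k, hk⟩ | ⟨k, hk⟩
    · left
      refine ⟨g⁻¹ * k, ?_⟩
      have hk' : (k : H) • w = g • b := hk
      have hkv : (k : H) • v = v := k.2
      change (g⁻¹ * (k : H)) • (v, w) = (a, b)
      rw [Prod.smul_mk, mul_smul, mul_smul, hk', hkv, inv_smul_smul, ← hg, inv_smul_smul]
    · right
      refine ⟨g⁻¹ * k, ?_⟩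
      have hk' : (k : H) • w' = g • b := hk
      have hkv : (k : H) • v = v := k.2
      change (g⁻¹ * (k : H)) • (v, w') = (a, b)
      rw [Prod.smul_mk, mul_smul, mul_smul, hk', hkv, inv_smul_smul, ← hg, inv_smul_smul]
  have hne : ∀ x ∈ D, x.1 ≠ x.2 := by
    rintro _ ⟨g, rfl⟩ h
    exact hvw (smul_left_cancel g h)
  have hDsm : ∀ (g : H) x, x ∈ D → g • x ∈ D := by
    rintro g _ ⟨k, rfl⟩
    exact ⟨g * k, mul_smul g k _⟩
  have hDsm' : ∀ (g : H) x, x ∈ D' → g • x ∈ D' := by
    rintro g _ ⟨k, rfl⟩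
    exact ⟨g * k, mul_smul g k _⟩
  -- size of D is 105
  have hDcard : Nat.card D = 105 := by
    have h1 : Nat.card D * Nat.card (stabilizer H (v, w)) = Nat.card H := by
      rw [← Nat.card_prod]
      exact Nat.card_congr (orbitProdStabilizerEquivGroup H (v, w))
    have h2 : Nat.card O * Nat.card (stabilizer (stabilizer H v) w) = Nat.card (stabilizer H v) := by
      rw [← Nat.card_prod]
      exact Nat.card_congr (orbitProdStabilizerEquivGroup (stabilizer H v) w)
    have h3 : Nat.card (orbit H v) * Nat.card (stabilizer H v) = Nat.card H := by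
      rw [← Nat.card_prod]
      exact Nat.card_congr (orbitProdStabilizerEquivGroup H v)
    have h4 : Nat.card (orbit H v) = 15 := by
      have : orbit H v = Set.univ := by
        rw [Set.eq_univ_iff_forall]
        intro b
        obtain ⟨g, hg⟩ := htr v b
        exact ⟨g, hg⟩
      rw [this, Nat.card_univ, hX]
    have h5 : Nat.card (stabilizer H (v, w)) = Nat.card (stabilizer (stabilizer H v) w) := by
      refine Nat.card_congr ⟨fun g => ⟨⟨g.1, congrArg Prod.fst g.2⟩, congrArg Prod.snd g.2⟩, fun g => ⟨g.1.1, Prod.ext g.1.2 g.2⟩, fun g => rfl, fun g => rfl⟩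
    have h6 : 0 < Nat.card (stabilizer (stabilizer H v) w) := Nat.card_pos
    rw [h5, ← h3, h4, ← h2, hO7] at h1
    have : Nat.card D * Nat.card (stabilizer (stabilizer H v) w) = 105 * Nat.card (stabilizer (stabilizer H v) w) := by
      rw [h1]; ring
    exact Nat.eq_of_mul_eq_mul_right h6 this
  by_cases hswap : (w, v) ∈ D
  · -- D is symmetric
    have hsym : ∀ x ∈ D, x.swap ∈ D := by
      rintro _ ⟨g, rfl⟩
      have := hDsm g _ hswap
      exact this
    have hinv : Even (Nat.card D) := by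
      haveI : Fintype D := Fintype.ofFinite D
      rw [Nat.card_eq_fintype_card]
      let σ : Function.End D := fun x => ⟨x.1.swap, hsym _ x.2⟩
      have hσ : σ ^ 2 ^ 1 = 1 := by
        rw [pow_one, sq]
        funext x
        change σ (σ x) = x
        exact Subtype.ext (Prod.swap_swap _)
      have hfix : ∀ x, σ x ≠ x := by
        intro x hx
        have h1 : x.1.swap = x.1 := congrArg Subtype.val hx
        exact hne _ x.2 (congrArg Prod.fst h1).symm
      have h3 := Equiv.Perm.card_fixedPoints_modEq (p := 2) (n := 1) (f := σ) hσ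
      have h4 : Fintype.card (Function.fixedPoints σ) = 0 := by
        rw [Fintype.card_eq_zero_iff]
        exact ⟨fun x => hfix x.1 x.2⟩
      rw [h4] at h3
      rw [Nat.even_iff]
      exact h3
    rw [hDcard] at hinv
    exact absurd hinv (by decide)
  · -- D is a tournament
    have hwv : (w, v) ∈ D' := (hmem w v hvw.symm).resolve_left hswap
    obtain ⟨t, ht⟩ := exists_prime_orderOf_dvd_card' 2 h2
    have ht1 : t ≠ 1 := by rintro rfl; rw [orderOf_one] at ht; omega
    have htt : t * t = 1 := by rw [← sq, ← ht]; exact pow_orderOf_eq_one t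
    obtain ⟨a, ha⟩ : ∃ a : X, t • a ≠ a := by
      by_contra hno
      push Not at hno
      exact ht1 (eq_of_smul_eq_smul fun a : X => by rw [hno, one_smul])
    have hDswap : ∀ x ∈ D, x.swap ∈ D' := by
      rintro _ ⟨g, rfl⟩
      exact hDsm' g _ hwv
    rcases hmem a (t • a) (Ne.symm ha) with h | h
    · have h1 := hDsm t _ h
      have h2 : t • (a, t • a) = (t • a, a) := by rw [Prod.smul_mk, ← mul_smul, htt, one_smul]
      rw [h2] at h1
      have h3 := hDswap _ h
      exact Set.disjoint_iff.1 hDD' ⟨h1, h3⟩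
    · have h1 := hDsm' t _ h
      have h2 : t • (a, t • a) = (t • a, a) := by rw [Prod.smul_mk, ← mul_smul, htt, one_smul]
      rw [h2] at h1
      -- (v,w) = swap of an element of D
      obtain ⟨g, hg⟩ := h
      have hvw_swap : ∀ x ∈ D', x.swap ∈ D := by
        intro x hx
        obtain ⟨k, hk⟩ := hx
        obtain ⟨l, hl⟩ := hwv
        have hl' : l • (v, w') = (w, v) := hl
        have hk' : k • (v, w') = x := hk
        refine ⟨k * l⁻¹, ?_⟩
        have e1 : l⁻¹ • (w, v) = (v, w') := by rw [← hl', inv_smul_smul]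
        have e2 : l⁻¹ • w = v := congrArg Prod.fst e1
        have e3 : l⁻¹ • v = w' := congrArg Prod.snd e1
        change (k * l⁻¹) • (v, w) = x.swap
        rw [← hk', Prod.smul_mk, mul_smul, mul_smul, e2, e3]
        rfl
      have h3 := hvw_swap _ ⟨g, hg⟩
      exact Set.disjoint_iff.1 hDD' ⟨h3, h1⟩

section gl4
variable {F : Type*} [Field F] [Fintype F] (hF : Fintype.card F = 2)

/-- nonzero vectors -/
abbrev NZ (F : Type*) [Field F] := {v : Fin 4 → F // v ≠ 0}

instance actNZ : MulAction (GL (Fin 4) F) (NZ F) where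
  smul g v := ⟨(g : Matrix (Fin 4) (Fin 4) F).mulVec v.1, fun h => v.2 (by
    have h1 : ((g⁻¹ : GL (Fin 4) F) : Matrix (Fin 4) (Fin 4) F).mulVec ((g : Matrix (Fin 4) (Fin 4) F).mulVec v.1) = v.1 := by
      rw [Matrix.mulVec_mulVec, ← Units.val_mul, inv_mul_cancel, Units.val_one, Matrix.one_mulVec]
    rw [← h1, h, Matrix.mulVec_zero])⟩
  one_smul v := Subtype.ext (Matrix.one_mulVec _)
  mul_smul g h v := Subtype.ext (by
    change ((g * h : GL (Fin 4) F) : Matrix (Fin 4) (Fin 4) F).mulVec v.1 = _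
    rw [Units.val_mul, ← Matrix.mulVec_mulVec]; rfl)

theorem smul_val (g : GL (Fin 4) F) (v : NZ F) : ((g • v : NZ F) : Fin 4 → F) = (g : Matrix (Fin 4) (Fin 4) F).mulVec v.1 := rfl

include hF in
theorem card_NZ : Nat.card (NZ F) = 15 := by
  classical
  have h1 : Fintype.card (Fin 4 → F) = 16 := by rw [Fintype.card_fun, hF]; rfl
  rw [Nat.card_eq_fintype_card, Fintype.card_subtype_compl, h1]
  simp

instance faithfulNZ : FaithfulSMul (GL (Fin 4) F) (NZ F) := by
  refine ⟨fun {g h} H => ?_⟩
  apply Units.ext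
  apply Cfsg.Agent.H22.mat_ext
  intro x
  by_cases hx : x = 0
  · rw [hx, Matrix.mulVec_zero, Matrix.mulVec_zero]
  · exact congrArg Subtype.val (H ⟨x, hx⟩)

include hF in
/-- the number of fixed vectors is a power of two -/
theorem card_fixed (x : GL (Fin 4) F) : ∃ k, k ≤ 4 ∧ Nat.card {v : Fin 4 → F // (x : Matrix (Fin 4) (Fin 4) F).mulVec v = v} = 2 ^ k ∧ (k = 4 → x = 1) := by
  classical
  let S : Submodule F (Fin 4 → F) :=
    { carrier := {v | (x : Matrix (Fin 4) (Fin 4) F).mulVec v = v}
      zero_mem' := Matrix.mulVec_zero _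
      add_mem' := fun {a b} ha hb => by
        change _ = _ at ha; change _ = _ at hb; change _ = _
        rw [Matrix.mulVec_add, ha, hb]
      smul_mem' := fun c a ha => by
        change _ = _ at ha; change _ = _
        rw [Matrix.mulVec_smul, ha] }
  refine ⟨Module.finrank F S, ?_, ?_, ?_⟩
  · have := Submodule.finrank_le S
    simpa using this
  · have h1 : Nat.card S = Nat.card F ^ Module.finrank F S := Module.natCard_eq_pow_finrank
    rw [Nat.card_eq_fintype_card (α := F), hF] at h1
    exact h1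
  · intro h
    have hS : S = ⊤ := Submodule.eq_top_of_finrank_eq (by rw [h]; simp)
    apply Units.ext
    apply Cfsg.Agent.H22.mat_ext
    intro v
    have : v ∈ S := by rw [hS]; trivial
    rw [Units.val_one, Matrix.one_mulVec]
    exact this

/-- fixed points of an element of prime order on an invariant set of vectors -/
theorem modEq_fixed {p : ℕ} [Fact p.Prime] {X : Type*} [Finite X] {H : Type*} [Group H] [MulAction H X] (x : H) (hx : x ^ p = 1) :
    Nat.card X ≡ Nat.card {a : X // x • a = a} [MOD p] := by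
  classical
  haveI : Fintype X := Fintype.ofFinite X
  let f : Function.End X := fun a => x • a
  have hf : ∀ n : ℕ, f ^ n = fun a => x ^ n • a := by
    intro n
    induction n with
    | zero => funext a; rw [pow_zero, pow_zero, one_smul]; rfl
    | succ n ih =>
      funext a
      rw [pow_succ, ih]
      change x ^ n • (x • a) = _
      rw [← mul_smul, ← pow_succ]
  have h := Equiv.Perm.card_fixedPoints_modEq (p := p) (n := 1) (f := f) (by
    rw [pow_one, hf, hx]
    funext a
    exact one_smul _ _)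
  rw [Nat.card_eq_fintype_card, Nat.card_eq_fintype_card]
  refine h.trans ?_
  have : Fintype.card (Function.fixedPoints f) = Fintype.card {a : X // x • a = a} :=
    Fintype.card_congr (Equiv.refl _)
  rw [this]

include hF in
theorem fixed_nz (x : GL (Fin 4) F) : Nat.card {v : NZ F // x • v = v} + 1 = Nat.card {v : Fin 4 → F // (x : Matrix (Fin 4) (Fin 4) F).mulVec v = v} := by
  classical
  have e : {v : Fin 4 → F // (x : Matrix (Fin 4) (Fin 4) F).mulVec v = v} ≃ Option {v : NZ F // x • v = v} :=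
    { toFun := fun v => if h : v.1 = 0 then none else some ⟨⟨v.1, h⟩, Subtype.ext v.2⟩
      invFun := fun o => match o with
        | none => ⟨0, Matrix.mulVec_zero _⟩
        | some v => ⟨v.1.1, congrArg Subtype.val v.2⟩
      left_inv := fun v => by
        by_cases h : v.1 = 0
        · simp only [dif_pos h]; exact Subtype.ext h.symm
        · simp only [dif_neg h]
      right_inv := fun o => by
        match o with
        | none => simp
        | some v =>
          have : v.1.1 ≠ 0 := v.1.2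
          simp only [dif_neg this] }
  rw [Nat.card_congr e, Nat.card_eq_fintype_card, Nat.card_eq_fintype_card, Fintype.card_option]

include hF in
theorem fixed_five (x : GL (Fin 4) F) (hx : orderOf x = 5) : Nat.card {v : NZ F // x • v = v} = 0 := by
  haveI : Fact (Nat.Prime 5) := ⟨by norm_num⟩
  obtain ⟨k, hk, h1, h2⟩ := card_fixed hF x
  have h3 := fixed_nz hF x
  have h4 := modEq_fixed (p := 5) (X := NZ F) x (by rw [← hx]; exact pow_orderOf_eq_one x)
  rw [card_NZ hF] at h4
  have hk4 : k ≠ 4 := by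
    intro h
    rw [h2 h, orderOf_one] at hx
    omega
  rw [h1] at h3
  have h5 : k < 4 := by omega
  unfold Nat.ModEq at h4
  interval_cases k <;> omega

include hF in
theorem fixed_seven (x : GL (Fin 4) F) (hx : orderOf x = 7) : Nat.card {v : NZ F // x • v = v} = 1 := by
  haveI : Fact (Nat.Prime 7) := ⟨by norm_num⟩
  obtain ⟨k, hk, h1, h2⟩ := card_fixed hF x
  have h3 := fixed_nz hF x
  have h4 := modEq_fixed (p := 7) (X := NZ F) x (by rw [← hx]; exact pow_orderOf_eq_one x)
  rw [card_NZ hF] at h4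
  have hk4 : k ≠ 4 := by
    intro h
    rw [h2 h, orderOf_one] at hx
    omega
  rw [h1] at h3
  have h5 : k < 4 := by omega
  unfold Nat.ModEq at h4
  interval_cases k <;> omega

include hF in
theorem transitive15 (H : Subgroup (GL (Fin 4) F)) (h5 : 5 ∣ Nat.card H) (h7 : 7 ∣ Nat.card H) :
    ∀ a b : NZ F, ∃ g : H, g • a = b := by
  classical
  intro a b
  haveI : Fact (Nat.Prime 5) := ⟨by norm_num⟩
  haveI : Fact (Nat.Prime 7) := ⟨by norm_num⟩
  obtain ⟨x, hx⟩ := exists_prime_orderOf_dvd_card' 5 h5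
  obtain ⟨y, hy⟩ := exists_prime_orderOf_dvd_card' 7 h7
  have hx' : orderOf (x : GL (Fin 4) F) = 5 := by rw [Subgroup.orderOf_coe, hx]
  have hy' : orderOf (y : GL (Fin 4) F) = 7 := by rw [Subgroup.orderOf_coe, hy]
  have hX := card_NZ hF
  -- the orbit of a
  have h1 : Nat.card (orbit H a) ≡ 0 [MOD 5] := by
    have := modEq_fixed (p := 5) (X := orbit H a) x (by rw [← hx]; exact pow_orderOf_eq_one x)
    have h0 : Nat.card {c : orbit H a // x • c = c} = 0 := by
      have h00 := fixed_five hF _ hx'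
      rw [Nat.card_eq_zero] at h00 ⊢
      left
      rcases h00 with h00 | h00
      · exact ⟨fun c => h00.elim ⟨c.1.1, congrArg Subtype.val c.2⟩⟩
      · exact absurd h00 (by rw [not_infinite_iff_finite]; infer_instance)
    rwa [h0] at this
  have h2 : ∃ r, r ≤ 1 ∧ Nat.card (orbit H a) ≡ r [MOD 7] := by
    have := modEq_fixed (p := 7) (X := orbit H a) y (by rw [← hy]; exact pow_orderOf_eq_one y)
    refine ⟨_, ?_, this⟩
    rw [← fixed_seven hF _ hy']
    refine Nat.card_le_card_of_injective (fun c : {c : orbit H a // y • c = c} => (⟨c.1.1, congrArg Subtype.val c.2⟩ : {v : NZ F // (y : GL (Fin 4) F) • v = v})) ?_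
    intro c d h
    apply Subtype.ext; apply Subtype.ext
    exact congrArg (fun z : {v : NZ F // (y : GL (Fin 4) F) • v = v} => z.1) h
  obtain ⟨r, hr, h2⟩ := h2
  have h3 : 0 < Nat.card (orbit H a) := Nat.card_pos_iff.2 ⟨⟨a, mem_orbit_self a⟩, inferInstance⟩
  have h4 : Nat.card (orbit H a) ≤ 15 := by
    rw [← hX]
    exact Nat.card_le_card_of_injective _ Subtype.val_injective
  have h6 : Nat.card (orbit H a) = 15 := by
    unfold Nat.ModEq at h1 h2
    interval_cases r <;> omega
  have h8 : orbit H a = Set.univ := by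
    apply Set.eq_of_subset_of_ncard_le (Set.subset_univ _)
    rw [← Nat.card_coe_set_eq (orbit H a), h6, Set.ncard_univ, hX]
  have : b ∈ orbit H a := by rw [h8]; trivial
  exact this

include hF in
theorem two_trans_gl4 (H : Subgroup (GL (Fin 4) F)) (h2 : 2 ∣ Nat.card H) (h5 : 5 ∣ Nat.card H) (h7 : 7 ∣ Nat.card H) :
    ∀ a b a' b' : NZ F, a ≠ b → a' ≠ b' → ∃ g : H, g • a = a' ∧ g • b = b' := by
  classical
  haveI : Fact (Nat.Prime 7) := ⟨by norm_num⟩
  have htr := transitive15 hF H h5 h7
  haveI : FaithfulSMul H (NZ F) := ⟨fun {g h} hgh => Subtype.ext ((faithfulNZ (F := F)).eq_of_smul_eq_smul hgh)⟩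
  refine two_trans (card_NZ hF) htr ?_ h2
  intro v w hvw
  obtain ⟨y, hy⟩ := exists_prime_orderOf_dvd_card' 7 h7
  have hy' : orderOf (y : GL (Fin 4) F) = 7 := by rw [Subgroup.orderOf_coe, hy]
  -- y fixes some vector, conjugate to fix v
  have h1 := fixed_seven hF _ hy'
  obtain ⟨⟨u, hu⟩⟩ : Nonempty {v : NZ F // (y : GL (Fin 4) F) • v = v} := by
    by_contra h
    rw [not_nonempty_iff] at h
    rw [Nat.card_of_isEmpty] at h1
    omega
  obtain ⟨g, hg⟩ := htr u v
  let z : H := g * y * g⁻¹
  have hz : orderOf z = 7 := (MulEquiv.orderOf_eq (MulAut.conj g) y).trans hy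
  have hzv : z • v = v := by
    change (g * y * g⁻¹) • v = v
    rw [← hg, mul_smul, inv_smul_smul, mul_smul]
    have : y • u = u := hu
    rw [this]
  have hz' : orderOf (z : GL (Fin 4) F) = 7 := by rw [Subgroup.orderOf_coe, hz]
  let zs : stabilizer H v := ⟨z, hzv⟩
  have hzs : zs ^ 7 = 1 := by
    apply Subtype.ext
    change z ^ 7 = 1
    rw [← hz]; exact pow_orderOf_eq_one z
  have h3 := modEq_fixed (p := 7) (X := orbit (stabilizer H v) w) zs hzs
  have h4 : Nat.card {a : orbit (stabilizer H v) w // zs • a = a} = 0 := by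
    rw [Nat.card_eq_zero]
    left
    constructor
    rintro ⟨⟨a, ⟨k, hk⟩⟩, ha⟩
    have ha' : (z : GL (Fin 4) F) • a = a := congrArg Subtype.val ha
    have h5 := fixed_seven hF _ hz'
    have h6 : Subsingleton {v : NZ F // (z : GL (Fin 4) F) • v = v} := (Nat.card_eq_one_iff_unique.1 h5).1
    have h7 : a = v := congrArg Subtype.val (h6.elim ⟨a, ha'⟩ ⟨v, hzv⟩)
    have h8 : (k : H) • w = v := (show (k : H) • w = a from hk).trans h7
    have h9 : (k : H) • v = v := k.2
    exact hvw (smul_left_cancel (k : H) (h9.trans h8.symm))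
  rw [h4] at h3
  exact (Nat.modEq_zero_iff_dvd).1 h3

end gl4

theorem card_alt (n : ℕ) [Nontrivial (Fin n)] : Nat.card (alternatingGroup (Fin n)) = n.factorial / 2 := by
  rw [nat_card_alternatingGroup, Nat.card_fin]

/-- `A_7` embeds in `A_8` -/
theorem exists_alt_hom (r : ℕ) : ∃ φ : alternatingGroup (Fin r) →* alternatingGroup (Fin (r + 1)), Function.Injective φ := by
  classical
  let f : Equiv.Perm (Fin r) →* Equiv.Perm (Fin (r + 1)) := Equiv.Perm.viaEmbeddingHom Fin.castSuccEmb
  have hf : Function.Injective f := Equiv.Perm.viaEmbeddingHom_injective _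
  refine ⟨(f.comp (alternatingGroup (Fin r)).subtype).codRestrict _ (fun σ => ?_), ?_⟩
  · rw [Equiv.Perm.mem_alternatingGroup]
    exact CfsgLib.KS4.hom_units_alternating (Equiv.Perm.sign.comp f) σ σ.2
  · intro σ τ h
    have : f σ = f τ := congrArg Subtype.val h
    exact Subtype.ext (hf this)

theorem s2551 {F : Type*} [Field F] [Fintype F] (hF : Fintype.card F = 2) : (∃ H : Subgroup (Matrix.GeneralLinearGroup (Fin 4) F), Nonempty (H ≃* alternatingGroup (Fin 7))) ∧ ∀ H : Subgroup (Matrix.GeneralLinearGroup (Fin 4) F), Nonempty (H ≃* alternatingGroup (Fin 7)) → ∀ v w v' w' : Fin 4 → F, v ≠ 0 → w ≠ 0 → v ≠ w → v' ≠ 0 → w' ≠ 0 → v' ≠ w' → ∃ g ∈ H, (g : Matrix (Fin 4) (Fin 4) F).mulVec v = v' ∧ (g : Matrix (Fin 4) (Fin 4) F).mulVec w = w' := by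
  constructor
  · obtain ⟨e⟩ := gl4 hF
    obtain ⟨φ, hφ⟩ := exists_alt_hom 7
    let ψ := e.symm.toMonoidHom.comp φ
    have hψ : Function.Injective ψ := e.symm.injective.comp hφ
    exact ⟨ψ.range, ⟨(MonoidHom.ofInjective hψ).symm⟩⟩
  · rintro H ⟨e⟩ v w v' w' hv hw hvw hv' hw' hvw'
    have hc : Nat.card H = 2520 := by
      rw [Nat.card_congr e.toEquiv, card_alt 7]; rfl
    obtain ⟨g, h1, h2⟩ := two_trans_gl4 hF H (by rw [hc]; norm_num) (by rw [hc]; norm_num) (by rw [hc]; norm_num) ⟨v, hv⟩ ⟨w, hw⟩ ⟨v', hv'⟩ ⟨w', hw'⟩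
      (fun h => hvw (congrArg Subtype.val h)) (fun h => hvw' (congrArg Subtype.val h))
    exact ⟨g, g.2, congrArg Subtype.val h1, congrArg Subtype.val h2⟩

end CfsgLib.KA8
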