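import Cfsg.Agent.EqBase
import Cfsg.Agent.LibSig
import Cfsg.Agent.LibBenderMax

set_option autoImplicit false

/-! `k`-balance and components. -/

namespace CfsgLib.KBal

open Subgroup Cfsg CfsgLib.Comp CfsgLib.Comp2 CfsgLib.Comp3 CfsgLib.PComp CfsgLib.PQ CfsgLib.PQ2
  CfsgLib.PQ3 CfsgLib.PQ4 CfsgLib.Sig
open scoped commutatorElement Pointwise

universe u
variable {G : Type u} [Group G] [Finite G] {p : ℕ} [Fact p.Prime]

theorem core_cop (x : G) : (Nat.card (centralizerPPrimeCore p x)).Coprime p := by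
  unfold centralizerPPrimeCore
  rw [card_map_of_injective (subtype_injective _)]
  exact CfsgLib.Cores.pPrimeCore_coprime p

theorem core_le (x : G) : centralizerPPrimeCore p x ≤ centralizer ({x} : Set G) :=
  map_subtype_le _

theorem centralizer_le_normalizer_core (x : G) :
    centralizer ({x} : Set G) ≤ normalizer (centralizerPPrimeCore p x : Set G) :=
  CfsgLib.BenderMax.le_normalizer_map (pPrimeCore p ↥(centralizer ({x} : Set G)))

/-- A normal `p'`-subgroup of `C(x)`. -/
theorem le_core {x : G} {Y : Subgroup G} (hY : Y ≤ centralizer ({x} : Set G))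
    (hn : centralizer ({x} : Set G) ≤ normalizer (Y : Set G)) (hc : (Nat.card Y).Coprime p) :
    Y ≤ centralizerPPrimeCore p x := by
  haveI : (Y.subgroupOf (centralizer ({x} : Set G))).Normal :=
    (normal_subgroupOf_iff_le_normalizer hY).2 hn
  have h4 : Y.subgroupOf (centralizer ({x} : Set G)) ≤ pPrimeCore p _ := by
    apply CfsgLib.Cores.le_pPrimeCore inferInstance
    rwa [Nat.card_congr (subgroupOfEquivOfLe hY).toEquiv]
  have h5 := map_mono (f := (centralizer ({x} : Set G)).subtype) h4
  rwa [map_subgroupOf_eq_of_le hY] at h5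

/-- A subnormal `p'`-subgroup of `C(x)`. -/
theorem le_core_of_subnormal {x : G} {Y : Subgroup G} (hY : Y ≤ centralizer ({x} : Set G))
    (hn : (Y.subgroupOf (centralizer ({x} : Set G))).IsSubnormal) (hc : (Nat.card Y).Coprime p) :
    Y ≤ centralizerPPrimeCore p x := by
  have h4 : Y.subgroupOf (centralizer ({x} : Set G)) ≤ pPrimeCore p _ := by
    apply le_pPrimeCore_of_subnormal hn
    rwa [Nat.card_congr (subgroupOfEquivOfLe hY).toEquiv]
  have h5 := map_mono (f := (centralizer ({x} : Set G)).subtype) h4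
  rwa [map_subgroupOf_eq_of_le hY] at h5

/-- restriction to a subgroup -/
theorem core_subgroupOf_le (H : Subgroup G) (a : H) :
    (centralizerPPrimeCore p (a : G)).subgroupOf H ≤ centralizerPPrimeCore p a := by
  apply le_core
  · intro y hy
    rw [mem_centralizer_one]
    exact Subtype.ext (mem_centralizer_one.1 (core_le (a : G) (mem_subgroupOf.1 hy)))
  · intro c hc
    have hc' : (c : G) ∈ centralizer ({(a : G)} : Set G) := by
      rw [mem_centralizer_one] at hc ⊢
      exact congrArg Subtype.val hc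
    rw [mem_normalizer_iff]
    intro z
    rw [mem_subgroupOf, mem_subgroupOf]
    exact mem_normalizer_iff.1 (centralizer_le_normalizer_core (p := p) (a : G) hc') z
  · exact Nat.Coprime.coprime_dvd_left
      (card_comap_dvd_of_injective _ _ (subtype_injective _)) (core_cop (a : G))

/-- passing to the quotient by a normal `p'`-subgroup -/
theorem map_core_le_quot {G' : Type*} [Group G'] (f : G →* G') (hf : Function.Surjective f)
    (hk : (Nat.card f.ker).Coprime p) {x : G} (hx : orderOf x = p) :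
    (centralizerPPrimeCore p x).map f ≤ centralizerPPrimeCore p (f x) := by
  haveI : Finite G' := Finite.of_surjective f hf
  have hxp : IsPGroup p (zpowers x) := IsPGroup.of_card (n := 1) (by
    rw [Nat.card_zpowers, hx, pow_one])
  have hcop : (Nat.card (zpowers x)).Coprime (Nat.card f.ker) := by
    rw [Nat.card_zpowers, hx]; exact hk.symm
  have hC := map_centralizer_of_coprime f hf (solvable_of_pgroup hxp) hcop
  rw [MonoidHom.map_zpowers, centralizer_zpowers, centralizer_zpowers] at hC
  apply le_core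
  · rw [← hC]
    exact map_mono (core_le x)
  · rw [← hC]
    rintro _ ⟨c, hc, rfl⟩
    rw [← CfsgLib.PSub.map_conj_eq_iff_mem_normalizer, ← map_conj_map]
    congr 1
    rw [CfsgLib.PSub.map_conj_eq_iff_mem_normalizer]
    exact centralizer_le_normalizer_core x hc
  · exact Nat.Coprime.coprime_dvd_left (card_map_dvd _ f) (core_cop x)

theorem mem_delta {A : Subgroup G} {x : G} :
    x ∈ signalizerDelta p A ↔ ∀ a ∈ A, a ≠ 1 → x ∈ centralizerPPrimeCore p a := by
  unfold signalizerDelta
  rw [mem_iInf]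
  constructor
  · intro h b hb h1; exact h ⟨b, hb, h1⟩
  · rintro h ⟨b, hb, h1⟩; exact h b hb h1

/-- The key step: the image of `Δ(E)` in the automizer of a component. -/
theorem delta_image_le (hO : pPrimeCore p G = ⊥) {E L : Subgroup G}
    (hE : IsElementaryAbelian p E) (hE1 : E ≠ ⊥) (hL : IsComponent L)
    (hEL : ∀ e ∈ E, e ≠ 1 → ⁅L, zpowers e⁆ = L) :
    ∃ H : Subgroup G, L ≤ H ∧ E ≤ H ∧ signalizerDelta p E ≤ H ∧ H ≤ normalizer (L : Set G) ∧
      ∀ (Hb : Type u) [Group Hb] (f : H →* Hb), Function.Surjective f →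
        (∀ h : H, f h = 1 ↔ (h : G) ∈ centralizer (L : Set G)) →
        ((signalizerDelta p E).subgroupOf H).map f ≤
          signalizerDelta p ((E.subgroupOf H).map f) := by
  obtain ⟨⟨e0, he0⟩, he01'⟩ := ne_bot_iff_exists_ne_one.1 hE1
  have he01 : e0 ≠ 1 := fun h => he01' (Subtype.ext h)
  have hxp : ∀ e ∈ E, IsPGroup p (zpowers e) := fun e he =>
    (ea_pgroup hE).to_le (by rwa [zpowers_le])
  have hYle : ∀ e ∈ E, centralizerPPrimeCore p e ≤ _ :=
    fun e _ => centralizerPPrimeCore_le_preLayer (G := G) p e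
  have hYV : ∀ e ∈ E, ⁅pCore p G, centralizerPPrimeCore p e⁆ = ⊥ := by
    intro e he
    rw [eq_bot_iff, ← preLayer_normalizer_commute_pCore (G := G) (hxp e he)]
    exact commutator_mono le_rfl (hYle e he)
  have hYL : ∀ e ∈ E, centralizerPPrimeCore p e ≤ normalizer (L : Set G) := fun e he =>
    (hYle e he).trans (preLayer_le_normalizer_component hO (hxp e he) hL)
  have hEn : ∀ e ∈ E, e ∈ normalizer (L : Set G) := by
    intro e he
    by_cases h1 : e = 1
    · rw [h1]; exact one_mem _
    · have := normalizer_commutator_ge_right L (zpowers e)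
      rw [hEL e he h1] at this
      exact this (mem_zpowers e)
  obtain ⟨Y, hY⟩ : ∃ Y, Y = signalizerDelta p E := ⟨_, rfl⟩
  have hYe : ∀ e ∈ E, e ≠ 1 → Y ≤ centralizerPPrimeCore p e := by
    intro e he h1 y hy
    rw [hY] at hy
    exact mem_delta.1 hy e he h1
  rw [← hY]
  obtain ⟨B, hB⟩ : ∃ B, B = E ⊔ Y := ⟨_, rfl⟩
  have hEB : E ≤ B := hB ▸ le_sup_left
  have hYB : Y ≤ B := hB ▸ le_sup_right
  have hBC : ∀ e ∈ E, B ≤ centralizer ({e} : Set G) := by
    intro e he
    rw [hB]
    apply sup_le
    · intro e' he'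
      rw [mem_centralizer_one]
      exact ea_comm hE he he'
    · by_cases h1 : e = 1
      · intro y _
        rw [mem_centralizer_one, h1, one_mul, mul_one]
      · exact (hYe e he h1).trans (core_le e)
  have hBL : B ≤ normalizer (L : Set G) := by
    rw [hB]
    exact sup_le hEn ((hYe e0 he0 he01).trans (hYL e0 he0))
  obtain ⟨H, hH⟩ : ∃ H, H = B ⊔ L := ⟨_, rfl⟩
  have hLH : L ≤ H := hH ▸ le_sup_right
  have hBH : B ≤ H := hH ▸ le_sup_left
  have hHL : H ≤ normalizer (L : Set G) := hH ▸ sup_le hBL le_normalizer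
  refine ⟨H, hLH, hEB.trans hBH, hYB.trans hBH, hHL, ?_⟩
  intro Hb _ f hfs hfk
  haveI : Finite Hb := Finite.of_surjective f hfs
  -- fix a nontrivial element of the image of E
  intro yb hyb
  rw [mem_delta]
  rintro _ ⟨⟨x, hxH⟩, hxE', rfl⟩ hx1
  have hxE : x ∈ E := mem_subgroupOf.1 hxE'
  have hxne : x ≠ 1 := by
    rintro rfl
    apply hx1
    exact map_one f
  have hxL := hEn x hxE
  obtain ⟨Z, hZ⟩ : ∃ Z, Z = centralizerPPrimeCore p x := ⟨_, rfl⟩
  have hYZ : Y ≤ Z := hZ ▸ hYe x hxE hxne
  have hZC : Z ≤ centralizer ({x} : Set G) := hZ ▸ core_le x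
  have hZL : Z ≤ normalizer (L : Set G) := hZ ▸ hYL x hxE
  have hCZ : centralizer ({x} : Set G) ≤ normalizer (Z : Set G) :=
    hZ ▸ centralizer_le_normalizer_core x
  have hZV : ⁅pCore p G, Z⁆ = ⊥ := hZ ▸ hYV x hxE
  have hZcop : (Nat.card Z).Coprime p := hZ ▸ core_cop x
  obtain ⟨X, hX⟩ : ∃ X, X = Z ⊔ (L ⊓ centralizer ({x} : Set G)) := ⟨_, rfl⟩
  have hZX : Z ≤ X := hX ▸ le_sup_left
  have hXC : X ≤ centralizer ({x} : Set G) := hX ▸ sup_le hZC inf_le_right
  have hXZ : X ≤ normalizer (Z : Set G) := hXC.trans hCZ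
  obtain ⟨M, hM⟩ : ∃ M, M = centralizer ({f ⟨x, hxH⟩} : Set Hb) := ⟨_, rfl⟩
  have hXM : (X.subgroupOf H).map f ≤ M := by
    rintro _ ⟨y, hy, rfl⟩
    rw [hM, mem_centralizer_one, ← map_mul, ← map_mul]
    congr 1
    exact Subtype.ext (mem_centralizer_one.1 (hXC (mem_subgroupOf.1 hy)))
  have hMX : M ≤ normalizer (((X.subgroupOf H).map f : Subgroup Hb) : Set Hb) := by
    intro mb hmb
    obtain ⟨m, rfl⟩ := hfs mb
    rw [hM, mem_centralizer_one, ← map_mul, ← map_mul] at hmb
    -- `m` normalizes `X`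
    have hmX : (m : G) ∈ normalizer (X : Set G) := by
      have hm2 : (m : G) ∈ B ⊔ L := hH ▸ m.2
      rw [sup_comm] at hm2
      have hm3 : (m : G) ∈ L ⊔ B := hm2
      rw [← SetLike.mem_coe, coe_mul_of_right_le_normalizer_left L B hBL] at hm3
      obtain ⟨l, hl, b, hb', hlb⟩ := hm3
      change l * b = m at hlb
      have hxb : x * b = b * x := mem_centralizer_one.1 (hBC x hxE hb')
      have hbx : b ∈ normalizer (X : Set G) := by
        apply CfsgLib.Coprime.mem_normalizer_of_conj_smul_eq
        rw [hX, Subgroup.smul_sup, Subgroup.smul_inf,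
          CfsgLib.Coprime.conj_smul_eq_of_mem_normalizer (hCZ (hBC x hxE hb')),
          CfsgLib.Coprime.conj_smul_eq_of_mem_normalizer (hBL hb'),
          CfsgLib.Coprime.conj_smul_eq_of_mem_normalizer (le_normalizer (hBC x hxE hb'))]
      obtain ⟨z, hz⟩ : ∃ z, z = x * l * x⁻¹ * l⁻¹ := ⟨_, rfl⟩
      have hzL : z ∈ L := by
        rw [hz]
        exact mul_mem ((mem_normalizer_iff.1 hxL l).1 hl) (inv_mem hl)
      have hzC : z ∈ centralizer (L : Set G) := by
        have h1 : f (⟨x, hxH⟩ * m * (m * ⟨x, hxH⟩)⁻¹) = 1 := by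
          rw [map_mul, hmb, ← map_mul, mul_inv_cancel, map_one]
        have h2 := (hfk _).1 h1
        have h3 : ((⟨x, hxH⟩ * m * (m * ⟨x, hxH⟩)⁻¹ : H) : G) = z := by
          change x * (m : G) * ((m : G) * x)⁻¹ = z
          rw [← hlb, hz]
          calc x * (l * b) * (l * b * x)⁻¹ = x * l * (b * x⁻¹ * b⁻¹) * l⁻¹ := by group
            _ = x * l * x⁻¹ * l⁻¹ := by
              have : b * x⁻¹ * b⁻¹ = x⁻¹ := by
                have hc : Commute x b := hxb
                rw [← hc.inv_left.eq, mul_inv_cancel_right]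
              rw [this]
        rwa [h3] at h2
      have hzz : z ∈ zLayer G := by
        apply mem_zLayer_of (component_le_layer hL hzL)
        intro K hK k hk
        by_cases hKL : K = L
        · rw [hKL] at hk
          exact mem_centralizer_iff.1 hzC k hk
        · exact commute_of_commutator_eq_bot (components_commute hK hL hKL) hk hzL
      have hzY : ∀ y ∈ Z, z * y = y * z := by
        intro y hy
        exact commute_of_commutator_eq_bot hZV (zLayer_le_pCore hO hzz) hy
      have hzl : ∀ k ∈ L, k * z = z * k := fun k hk => mem_centralizer_iff.1 hzC k hk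
      have hxl : x * l = z * l * x := by rw [hz]; group
      have hlX : ∀ w ∈ X, l * w * l⁻¹ ∈ X := by
        have h1 : X ≤ X.comap (MulAut.conj l).toMonoidHom := by
          conv_lhs => rw [hX]
          apply sup_le
          · intro y hy
            rw [mem_comap]
            change l * y * l⁻¹ ∈ X
            have hyL : y * l⁻¹ * y⁻¹ ∈ L := (mem_normalizer_iff.1 (hZL hy) _).1 (inv_mem hl)
            have e : l * y * l⁻¹ = (l * (y * l⁻¹ * y⁻¹)) * y := by group
            rw [e]
            refine mul_mem ?_ (hZX hy)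
            rw [hX]
            apply mem_sup_right
            refine mem_inf.2 ⟨mul_mem hl hyL, ?_⟩
            rw [mem_centralizer_one]
            have hxy : x * y = y * x := mem_centralizer_one.1 (hZC hy)
            have hxy' : x * y⁻¹ = y⁻¹ * x := (show Commute x y from hxy).inv_right.eq
            have hxl' : x * l⁻¹ = l⁻¹ * z⁻¹ * x := by
              have : x * l⁻¹ = l⁻¹ * z⁻¹ * (z * l * x) * l⁻¹ := by group
              rw [this, ← hxl]; group
            have hzy := hzY y hy
            have hzy' : z⁻¹ * y⁻¹ = y⁻¹ * z⁻¹ :=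
              ((show Commute z y from hzy).inv_inv).eq
            calc x * (l * (y * l⁻¹ * y⁻¹)) = (x * l) * y * l⁻¹ * y⁻¹ := by group
              _ = z * l * (x * y) * l⁻¹ * y⁻¹ := by rw [hxl]; group
              _ = z * l * y * (x * l⁻¹) * y⁻¹ := by rw [hxy]; group
              _ = z * l * y * l⁻¹ * z⁻¹ * (x * y⁻¹) := by rw [hxl']; group
              _ = z * l * y * l⁻¹ * (z⁻¹ * y⁻¹) * x := by rw [hxy']; group
              _ = z * (l * (y * l⁻¹ * y⁻¹)) * z⁻¹ * x := by rw [hzy']; group
              _ = (l * (y * l⁻¹ * y⁻¹)) * z * z⁻¹ * x := by rw [hzl _ (mul_mem hl hyL)]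
              _ = l * (y * l⁻¹ * y⁻¹) * x := by group
          · intro w hw
            rw [mem_comap]
            change l * w * l⁻¹ ∈ X
            obtain ⟨hwL, hwC⟩ := mem_inf.1 hw
            rw [mem_centralizer_one] at hwC
            rw [hX]
            apply mem_sup_right
            have hlw : l * w * l⁻¹ ∈ L := mul_mem (mul_mem hl hwL) (inv_mem hl)
            refine mem_inf.2 ⟨hlw, ?_⟩
            rw [mem_centralizer_one]
            have hxl' : x * l⁻¹ = l⁻¹ * z⁻¹ * x := by
              have : x * l⁻¹ = l⁻¹ * z⁻¹ * (z * l * x) * l⁻¹ := by group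
              rw [this, ← hxl]; group
            calc x * (l * w * l⁻¹) = (x * l) * w * l⁻¹ := by group
              _ = z * l * (x * w) * l⁻¹ := by rw [hxl]; group
              _ = z * l * w * (x * l⁻¹) := by rw [hwC]; group
              _ = z * (l * w * l⁻¹) * z⁻¹ * x := by rw [hxl']; group
              _ = (l * w * l⁻¹) * z * z⁻¹ * x := by rw [hzl _ hlw]
              _ = l * w * l⁻¹ * x := by group
        intro w hw
        exact h1 hw
      have hlN : l ∈ normalizer (X : Set G) := by
        rw [← CfsgLib.PSub.map_conj_eq_iff_mem_normalizer]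
        apply eq_of_le_of_card_ge
        · rintro _ ⟨w, hw, rfl⟩
          exact hlX w hw
        · exact (card_map_of_injective (MulAut.conj l).injective).ge
      rw [← hlb]
      exact mul_mem hlN hbx
    rw [← CfsgLib.PSub.map_conj_eq_iff_mem_normalizer, ← map_conj_map]
    congr 1
    rw [CfsgLib.PSub.map_conj_eq_iff_mem_normalizer, mem_normalizer_iff]
    intro w
    rw [mem_subgroupOf, mem_subgroupOf]
    exact mem_normalizer_iff.1 hmX w
  -- subnormality
  have hZXb : (Z.subgroupOf H).map f ≤ (X.subgroupOf H).map f :=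
    map_mono (subgroupOf_mono _ hZX)
  have hXZb : (X.subgroupOf H).map f ≤
      normalizer (((Z.subgroupOf H).map f : Subgroup Hb) : Set Hb) := by
    rintro _ ⟨y, hy, rfl⟩
    rw [← CfsgLib.PSub.map_conj_eq_iff_mem_normalizer, ← map_conj_map]
    congr 1
    rw [CfsgLib.PSub.map_conj_eq_iff_mem_normalizer, mem_normalizer_iff]
    intro w
    rw [mem_subgroupOf, mem_subgroupOf]
    exact mem_normalizer_iff.1 (hXZ (mem_subgroupOf.1 hy)) w
  have hsub : (((Z.subgroupOf H).map f).subgroupOf M).IsSubnormal := by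
    have h1 : (((X.subgroupOf H).map f).subgroupOf M).Normal :=
      (normal_subgroupOf_iff_le_normalizer hXM).2 hMX
    apply IsSubnormal.step _ (((X.subgroupOf H).map f).subgroupOf M)
      (subgroupOf_mono _ hZXb) h1.isSubnormal
    rw [normal_subgroupOf_iff_le_normalizer (subgroupOf_mono _ hZXb)]
    intro w hw
    rw [mem_normalizer_iff]
    intro v
    rw [mem_subgroupOf, mem_subgroupOf]
    exact mem_normalizer_iff.1 (hXZb (mem_subgroupOf.1 hw)) v
  have hcop : (Nat.card ((Z.subgroupOf H).map f)).Coprime p := by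
    apply Nat.Coprime.coprime_dvd_left _ hZcop
    refine (card_map_dvd (Z.subgroupOf H) f).trans ?_
    exact card_comap_dvd_of_injective _ _ (subtype_injective _)
  have h9 := le_core_of_subnormal (p := p) (x := f ⟨x, hxH⟩)
    (hZXb.trans (hXM.trans hM.le)) (hM ▸ hsub) hcop
  apply h9
  exact map_mono (subgroupOf_mono _ hYZ) hyb


/-- automorphisms act on the central quotient -/
noncomputable def autQuot (K : Type*) [Group K] : MulAut K →* MulAut (K ⧸ center K) where
  toFun φ := QuotientGroup.congr (center K) (center K) φ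
    ((characteristic_iff_map_eq.1 inferInstance) φ)
  map_one' := by
    ext x
    obtain ⟨x, rfl⟩ := QuotientGroup.mk_surjective x
    rfl
  map_mul' φ ψ := by
    ext x
    obtain ⟨x, rfl⟩ := QuotientGroup.mk_surjective x
    rfl

theorem autQuot_mk {K : Type*} [Group K] (φ : MulAut K) (x : K) :
    autQuot K φ (x : K ⧸ center K) = ((φ x : K) : K ⧸ center K) := rfl

/-- for perfect `K` the map is injective -/
theorem autQuot_injective {K : Type*} [Group K] (hK : commutator K = ⊤) :
    Function.Injective (autQuot K) := by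
  rw [injective_iff_map_eq_one]
  intro φ hφ
  have h1 : ∀ x : K, φ x * x⁻¹ ∈ center K := by
    intro x
    have h2 : autQuot K φ (x : K ⧸ center K) = (x : K ⧸ center K) := by rw [hφ]; rfl
    rw [autQuot_mk, QuotientGroup.eq] at h2
    have h3 := inv_mem h2
    rw [mul_inv_rev, inv_inv] at h3
    have h4 := Normal.conj_mem (inferInstance : (center K).Normal) _ h3 x
    have e : x * (x⁻¹ * φ x) * x⁻¹ = φ x * x⁻¹ := by group
    rwa [e] at h4
  let d : K →* center K := MonoidHom.mk' (fun x => ⟨φ x * x⁻¹, h1 x⟩) (fun a b => by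
    apply Subtype.ext
    change φ (a * b) * (a * b)⁻¹ = (φ a * a⁻¹) * (φ b * b⁻¹)
    have hb := mem_center_iff.1 (h1 b)
    rw [map_mul]
    calc φ a * φ b * (a * b)⁻¹ = φ a * ((φ b * b⁻¹) * a⁻¹) := by group
      _ = φ a * (a⁻¹ * (φ b * b⁻¹)) := by rw [← hb a⁻¹]
      _ = _ := by group)
  have hd : d.ker = ⊤ := by
    rw [eq_top_iff, ← hK, commutator_def, commutator_le]
    intro a _ b _
    rw [MonoidHom.mem_ker, map_commutatorElement, commutatorElement_eq_one_iff_mul_comm]
    exact Subtype.ext (mem_center_iff.1 (d b).2 _)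
  have hdx : ∀ x, ((d x : center K) : K) = φ x * x⁻¹ := fun x => rfl
  apply MulEquiv.ext
  intro x
  have hx : x ∈ d.ker := hd ▸ mem_top x
  rw [MonoidHom.mem_ker] at hx
  have h5 := hdx x
  rw [hx, OneMemClass.coe_one] at h5
  rw [MulAut.one_apply]
  exact (mul_inv_eq_one.1 h5.symm)

/-- The core theorem on `k`-balance. -/
theorem delta_eq_bot (hO : pPrimeCore p G = ⊥) {k : ℕ} (hk : 1 ≤ k)
    (h : ∀ L : Subgroup G, IsComponent L → IsLocallyKBalanced p k (L ⧸ center L))
    {E : Subgroup G} (hE : IsElementaryAbelian p E) (hEk : Nat.card E = p ^ k) :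
    signalizerDelta p E = ⊥ := by
  have hp : p.Prime := Fact.out
  have hE1 : E ≠ ⊥ := by
    rintro rfl
    rw [card_bot] at hEk
    exact absurd hEk.symm (Nat.one_lt_pow (by omega) hp.one_lt).ne'
  obtain ⟨⟨e0, he0⟩, he01'⟩ := ne_bot_iff_exists_ne_one.1 hE1
  have he01 : e0 ≠ 1 := fun h => he01' (Subtype.ext h)
  have hle0 : signalizerDelta p E ≤ centralizerPPrimeCore p e0 :=
    fun y hy => mem_delta.1 hy e0 he0 he01
  have hxp : ∀ e ∈ E, IsPGroup p (zpowers e) := fun e he =>
    (ea_pgroup hE).to_le (by rwa [zpowers_le])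
  apply eq_bot_of_centralizes hO
  · exact Nat.Coprime.coprime_dvd_left (card_dvd_of_le hle0) (core_cop e0)
  · rw [eq_bot_iff, ← preLayer_normalizer_commute_pCore (G := G) (hxp e0 he0)]
    exact commutator_mono le_rfl (hle0.trans (centralizerPPrimeCore_le_preLayer (G := G) p e0))
  · intro L hL
    by_cases hall : ∀ e ∈ E, e ≠ 1 → ⁅L, zpowers e⁆ = L
    swap
    · push Not at hall
      obtain ⟨e, he, he1, hne⟩ := hall
      rw [eq_bot_iff, ← component_centralizes_core hO (ea_orderOf hE he he1) hL hne]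
      exact commutator_mono le_rfl (fun y hy => mem_delta.1 hy e he he1)
    obtain ⟨H, hLH, hEH, hDH, hHL, hmain⟩ := delta_image_le hO hE hE1 hL hall
    have hLp : commutator L = ⊤ := hL.2.1.commutator_eq_top
    let act : H →* MulAut (L ⧸ center L) :=
      (autQuot L).comp ((normalizerMonoidHom L).comp (inclusion hHL))
    have hact : ∀ h : H, act h = 1 ↔ (h : G) ∈ centralizer (L : Set G) := by
      intro h
      change autQuot L _ = 1 ↔ _
      rw [(injective_iff_map_eq_one' _).1 (autQuot_injective hLp)]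
      rw [MonoidHom.comp_apply, ← MonoidHom.mem_ker, normalizerMonoidHom_ker, mem_subgroupOf]
      rfl
    let Hb := act.range
    let f : H →* Hb := act.rangeRestrict
    have hfs : Function.Surjective f := act.rangeRestrict_surjective
    have hf : ∀ h : H, f h = 1 ↔ (h : G) ∈ centralizer (L : Set G) := by
      intro h
      rw [← hact]
      exact Subtype.ext_iff
    have h1 := hmain Hb f hfs hf
    have hInn : (MulAut.conj : L ⧸ center L →* MulAut (L ⧸ center L)).range ≤ Hb := by
      rintro _ ⟨x, rfl⟩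
      obtain ⟨x, rfl⟩ := QuotientGroup.mk_surjective x
      refine ⟨⟨x, hLH x.2⟩, ?_⟩
      apply MulEquiv.ext
      intro y
      obtain ⟨y, rfl⟩ := QuotientGroup.mk_surjective y
      rfl
    have hcap : ∀ e ∈ E, e ∈ centralizer (L : Set G) → e = 1 := by
      intro e he hc
      by_contra h1
      have h2 := hall e he h1
      have h3 : ⁅L, zpowers e⁆ = ⊥ := by
        rw [commutator_comm, commutator_eq_bot_iff_le_centralizer, zpowers_le]
        exact hc
      rw [h3] at h2
      exact component_ne_bot hL h2.symm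
    have hEinj : Function.Injective (f.comp (inclusion hEH)) := by
      rw [injective_iff_map_eq_one]
      intro e he
      rw [MonoidHom.comp_apply, hf] at he
      exact Subtype.ext (hcap e e.2 he)
    have hEeq : (E.subgroupOf H).map f = (f.comp (inclusion hEH)).range := by
      rw [MonoidHom.range_comp, inclusion_range]
    have hcardE : Nat.card ((E.subgroupOf H).map f) = p ^ k := by
      rw [hEeq, ← hEk]
      exact (Nat.card_congr (MonoidHom.ofInjective hEinj).toEquiv).symm
    have hEea : IsElementaryAbelian p ((E.subgroupOf H).map f) := by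
      refine ⟨⟨⟨?_⟩⟩, ?_⟩
      · rintro ⟨_, ⟨a, ha, rfl⟩⟩ ⟨_, ⟨b, hb, rfl⟩⟩
        apply Subtype.ext
        change f a * f b = f b * f a
        rw [← map_mul, ← map_mul]
        congr 1
        exact Subtype.ext (ea_comm hE (mem_subgroupOf.1 ha) (mem_subgroupOf.1 hb))
      · rintro _ ⟨a, ha, rfl⟩
        rw [← map_pow, show a ^ p = 1 from Subtype.ext (hE.2 a (mem_subgroupOf.1 ha)), map_one]
    have h2 := h L hL Hb hInn _ hEea hcardE
    rw [h2] at h1
    rw [commutator_comm, commutator_eq_bot_iff_le_centralizer]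
    intro y hy
    have h3 := h1 (mem_map_of_mem f (mem_subgroupOf.2 hy : (⟨y, hDH hy⟩ : H) ∈ _))
    rw [mem_bot, hf] at h3
    exact h3


omit [Finite G] [Fact p.Prime] in
theorem ea_map {G' : Type*} [Group G'] (f : G →* G') {A : Subgroup G}
    (hA : IsElementaryAbelian p A) : IsElementaryAbelian p (A.map f) := by
  refine ⟨⟨⟨?_⟩⟩, ?_⟩
  · rintro ⟨_, ⟨a, ha, rfl⟩⟩ ⟨_, ⟨b, hb, rfl⟩⟩
    apply Subtype.ext
    change f a * f b = f b * f a
    rw [← map_mul, ← map_mul]
    congr 1
    exact congrArg Subtype.val (hA.1.1.1 ⟨a, ha⟩ ⟨b, hb⟩)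
  · rintro _ ⟨a, ha, rfl⟩
    rw [← map_pow, hA.2 a ha, map_one]

omit [Finite G] [Fact p.Prime] in
theorem ea_subgroupOf {A H : Subgroup G} (hA : IsElementaryAbelian p A) :
    IsElementaryAbelian p (A.subgroupOf H) := by
  refine ⟨⟨⟨?_⟩⟩, ?_⟩
  · rintro ⟨a, ha⟩ ⟨b, hb⟩
    apply Subtype.ext
    apply Subtype.ext
    have := congrArg Subtype.val (hA.1.1.1 ⟨a, mem_subgroupOf.1 ha⟩ ⟨b, mem_subgroupOf.1 hb⟩)
    exact this
  · intro a ha
    exact Subtype.ext (hA.2 a (mem_subgroupOf.1 ha))

/-- `k`-balance at `b` from the components of `C(b)/O_{p'}(C(b))`. -/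
theorem kbalanced_at {k : ℕ} (hk : 1 ≤ k) {b : G} (_hb : orderOf b = p)
    (h : ∀ K : Subgroup (↥(centralizer ({b} : Set G)) ⧸ pPrimeCore p ↥(centralizer ({b} : Set G))),
      IsComponent K → IsLocallyKBalanced p k (↥K ⧸ center ↥K))
    {A : Subgroup G} (hA : IsElementaryAbelian p A) (hAk : Nat.card A = p ^ k)
    (hAb : ∀ a ∈ A, a * b = b * a) :
    signalizerDelta p A ⊓ centralizer ({b} : Set G) ≤ centralizerPPrimeCore p b := by
  obtain ⟨H, hH⟩ : ∃ H, H = centralizer ({b} : Set G) := ⟨_, rfl⟩
  have hAH : A ≤ H := by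
    intro a ha
    rw [hH, mem_centralizer_one]
    exact (hAb a ha).symm
  unfold centralizerPPrimeCore
  rw [← hH] at h ⊢
  have hq : Function.Surjective (QuotientGroup.mk' (pPrimeCore p H)) :=
    QuotientGroup.mk'_surjective _
  have hker : (Nat.card (QuotientGroup.mk' (pPrimeCore p H)).ker).Coprime p := by
    rw [QuotientGroup.ker_mk']
    exact CfsgLib.Cores.pPrimeCore_coprime p
  have hEea : IsElementaryAbelian p ((A.subgroupOf H).map (QuotientGroup.mk' (pPrimeCore p H))) :=
    ea_map _ (ea_subgroupOf hA)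
  have hEk : Nat.card ((A.subgroupOf H).map (QuotientGroup.mk' (pPrimeCore p H))) = p ^ k := by
    have h1 : Nat.card (A.subgroupOf H) = p ^ k := by
      rw [Nat.card_congr (subgroupOfEquivOfLe hAH).toEquiv, hAk]
    rw [← h1]
    have hinj : Function.Injective ((QuotientGroup.mk' (pPrimeCore p H)).comp
        (A.subgroupOf H).subtype) := by
      rw [injective_iff_map_eq_one]
      intro a ha
      rw [MonoidHom.comp_apply, ← MonoidHom.mem_ker] at ha
      have h2 : A.subgroupOf H ⊓ (QuotientGroup.mk' (pPrimeCore p H)).ker = ⊥ := by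
        apply inf_eq_bot_of_coprime
        rw [h1]
        exact Nat.Coprime.pow_left _ hker.symm
      have h3 : (a : H) ∈ (⊥ : Subgroup H) := h2 ▸ mem_inf.2 ⟨a.2, ha⟩
      exact Subtype.ext (mem_bot.1 h3)
    have h4 : (A.subgroupOf H).map (QuotientGroup.mk' (pPrimeCore p H)) =
        ((QuotientGroup.mk' (pPrimeCore p H)).comp (A.subgroupOf H).subtype).range := by
      rw [MonoidHom.range_comp, range_subtype]
    rw [h4]
    exact (Nat.card_congr (MonoidHom.ofInjective hinj).toEquiv).symm
  have hbot := delta_eq_bot (pPrimeCore_quotient_eq_bot p) hk h hEea hEk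
  have hW : ((signalizerDelta p A).subgroupOf H).map (QuotientGroup.mk' (pPrimeCore p H)) ≤
      signalizerDelta p ((A.subgroupOf H).map (QuotientGroup.mk' (pPrimeCore p H))) := by
    intro w hw
    rw [mem_delta]
    rintro _ ⟨a, ha, rfl⟩ h1
    have ha1 : a ≠ 1 := by rintro rfl; exact h1 (map_one _)
    have haA : (a : G) ∈ A := mem_subgroupOf.1 ha
    have ha1' : (a : G) ≠ 1 := fun h => ha1 (Subtype.ext h)
    have hord : orderOf a = p := by
      rw [← Subgroup.orderOf_coe]; exact ea_orderOf hA haA ha1'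
    apply map_core_le_quot _ hq hker hord
    refine map_mono ?_ hw
    refine le_trans ?_ (core_subgroupOf_le H a)
    exact subgroupOf_mono _ (fun y hy => mem_delta.1 hy a haA ha1')
  rw [hbot, le_bot_iff, Subgroup.map_eq_bot_iff, QuotientGroup.ker_mk'] at hW
  have h5 := map_mono (f := H.subtype) hW
  rwa [subgroupOf_map_subtype] at h5

theorem delta_zpowers_two {x : G} (hx : orderOf x = 2) :
    signalizerDelta 2 (zpowers x) = centralizerPPrimeCore 2 x := by
  have hx1 : x ≠ 1 := by rintro rfl; simp at hx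
  ext y
  rw [mem_delta]
  constructor
  · intro h; exact h x (mem_zpowers x) hx1
  · intro h a ha ha1
    classical
    obtain ⟨n, hn, rfl⟩ := (mem_zpowers_iff_mem_range_orderOf.1 ha : _) |> Finset.mem_image.1
    rw [hx] at hn
    have : n = 0 ∨ n = 1 := by have := Finset.mem_range.1 hn; omega
    rcases this with rfl | rfl
    · exact absurd (pow_zero x) ha1
    · change y ∈ centralizerPPrimeCore 2 (x ^ 1)
      rwa [pow_one]

omit [Finite G] in
theorem ea_zpowers {x : G} (hx : orderOf x = p) : IsElementaryAbelian p (zpowers x) := by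
  refine ⟨inferInstance, ?_⟩
  rintro _ ⟨n, rfl⟩
  change (x ^ n) ^ p = 1
  rw [← zpow_natCast, zpow_comm, zpow_natCast, ← hx, pow_orderOf_eq_one, one_zpow]

theorem locally_one_of_locally {K : Type*} [Group K] [Finite K] (h : IsLocallyBalanced K) :
    IsLocallyKBalanced 2 1 K := by
  intro H hH A hA hA1
  rw [pow_one] at hA1
  -- `A` is cyclic of order 2
  have hne : A ≠ ⊥ := by
    rintro rfl
    rw [card_bot] at hA1; omega
  obtain ⟨⟨a, ha⟩, ha1'⟩ := ne_bot_iff_exists_ne_one.1 hne
  have ha1 : a ≠ 1 := fun h => ha1' (Subtype.ext h)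
  have hord : orderOf a = 2 := orderOf_eq_prime (hA.2 a ha) ha1
  rw [eq_bot_iff, ← h H hH a hord]
  intro y hy
  exact mem_delta.1 hy a ha ha1

end CfsgLib.KBal
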