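import Mathlib
import Cfsg.Agent.LibGlaub2

/-! Counting classes of split extensions `V ⋊ A` with `V` abelian of coprime order (seat helper20). -/

set_option autoImplicit false
set_option linter.all false

namespace CfsgLib.KGV20

universe u v

section Fix
variable {V : Type u} {A : Type v} [CommGroup V] [Group A] (φ : A →* MulAut V)

/-- `v ↦ v / φ a v` -/
def dd (a : A) : V →* V where
  toFun v := v / φ a v
  map_one' := by simp
  map_mul' x y := by rw [map_mul]; exact mul_div_mul_comm _ _ _ _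

theorem dd_apply (a : A) (v : V) : dd φ a v = v / φ a v := rfl

/-- `(v, w) ↦ (v / φ b v) (w / φ a w)⁻¹` -/
def DD (a b : A) : V × V →* V := MonoidHom.coprod (dd φ b) (dd φ a)⁻¹

theorem DD_apply (a b : A) (p : V × V) : DD φ a b p = (p.1 / φ b p.1) * (p.2 / φ a p.2)⁻¹ := rfl

theorem mem_ker_DD (a b : A) (p : V × V) : p ∈ (DD φ a b).ker ↔ p.1 * φ a p.2 = p.2 * φ b p.1 := by
  rw [MonoidHom.mem_ker, DD_apply, inv_div, div_mul_div_comm, div_eq_one, mul_comm (φ b p.1)]

/-- common fixed points -/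
def CC (a b : A) : Subgroup V where
  carrier := {v | φ a v = v ∧ φ b v = v}
  one_mem' := ⟨map_one _, map_one _⟩
  mul_mem' := fun {x y} hx hy => ⟨by rw [map_mul, hx.1, hy.1], by rw [map_mul, hx.2, hy.2]⟩
  inv_mem' := fun {x} hx => ⟨by rw [map_inv, hx.1], by rw [map_inv, hx.2]⟩

theorem mem_CC (a b : A) (v : V) : v ∈ CC φ a b ↔ φ a v = v ∧ φ b v = v := Iff.rfl

variable [Finite V] [Finite A]

theorem card_ker (hcop : (Nat.card V).Coprime (Nat.card A)) (a b : A) :
    Nat.card (DD φ a b).ker = Nat.card V * Nat.card (CC φ a b) := by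
  classical
  set R : Subgroup V := (DD φ a b).range with hR
  set Γ : Subgroup A := Subgroup.closure {a, b} with hΓ
  haveI := Fintype.ofFinite Γ
  have haΓ : a ∈ Γ := Subgroup.subset_closure (by simp)
  have hbΓ : b ∈ Γ := Subgroup.subset_closure (by simp)
  have hcopΓ : (Nat.card V).Coprime (Nat.card Γ) := Nat.Coprime.coprime_dvd_right (Subgroup.card_subgroup_dvd_card Γ) hcop
  -- (1)
  have h1 : ∀ x ∈ Γ, ∀ v, v / φ x v ∈ R := by
    intro x hx
    induction hx using Subgroup.closure_induction with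
    | mem x hx =>
      intro v
      rcases hx with rfl | hx
      · refine ⟨(1, v⁻¹), ?_⟩
        rw [DD_apply]; simp [div_eq_mul_inv, mul_comm]
      · have hx' : x = b := hx
        subst hx'
        refine ⟨(v, 1), ?_⟩
        rw [DD_apply]; simp
    | one => intro v; rw [map_one, MulAut.one_apply, div_self']; exact one_mem _
    | mul x y _ _ hx hy =>
      intro v
      have h2 : v / φ (x * y) v = (v / φ y v) * (φ y v / φ x (φ y v)) := by
        rw [map_mul, MulAut.mul_apply, div_mul_div_cancel]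
      rw [h2]
      exact mul_mem (hy v) (hx _)
    | inv x _ hx =>
      intro v
      have h2 := hx (φ x⁻¹ v)
      have h3 : φ x (φ x⁻¹ v) = v := by rw [← MulAut.mul_apply, ← map_mul, mul_inv_cancel, map_one, MulAut.one_apply]
      rw [h3] at h2
      rw [← inv_div]
      exact inv_mem h2
  -- the norm
  let N : V →* V := ∏ x : Γ, (φ x).toMonoidHom
  have hN : ∀ v, N v = ∏ x : Γ, φ x v := by
    intro v
    show (∏ x : Γ, (φ x).toMonoidHom) v = _
    rw [MonoidHom.finset_prod_apply]; rfl
  have hN1 : ∀ y ∈ Γ, ∀ v, N (φ y v) = N v := by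
    intro y hy v
    rw [hN, hN]
    refine Fintype.prod_equiv (Equiv.mulRight (⟨y, hy⟩ : Γ)) _ _ fun x => ?_
    show φ x (φ y v) = φ (x * y) v
    rw [map_mul, MulAut.mul_apply]
  have hN2 : ∀ y ∈ Γ, ∀ v, φ y (N v) = N v := by
    intro y hy v
    rw [hN, map_prod]
    refine Fintype.prod_equiv (Equiv.mulLeft (⟨y, hy⟩ : Γ)) _ _ fun x => ?_
    show φ y (φ x v) = φ (y * x) v
    rw [map_mul, MulAut.mul_apply]
  have hN3 : ∀ v, v ^ Nat.card Γ / N v ∈ R := by
    intro v
    have h2 : v ^ Nat.card Γ / N v = ∏ x : Γ, (v / φ x v) := by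
      rw [hN, Finset.prod_div_distrib, Finset.prod_const, Finset.card_univ, Nat.card_eq_fintype_card]
    rw [h2]
    exact prod_mem fun x _ => h1 x x.2 v
  have hRN : R ≤ N.ker := by
    rintro _ ⟨p, rfl⟩
    rw [MonoidHom.mem_ker, DD_apply, map_mul, map_inv, map_div, map_div, hN1 b hbΓ, hN1 a haΓ]
    simp
  have hfix : ∀ v ∈ CC φ a b, ∀ x ∈ Γ, φ x v = v := by
    intro v hv x hx
    induction hx using Subgroup.closure_induction with
    | mem x hx =>
      rcases hx with rfl | hx
      · exact hv.1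
      · have hx' : x = b := hx
        subst hx'
        exact hv.2
    | one => rw [map_one, MulAut.one_apply]
    | mul x y _ _ hx hy => rw [map_mul, MulAut.mul_apply, hy, hx]
    | inv x _ hx =>
      calc φ x⁻¹ v = φ x⁻¹ (φ x v) := by rw [hx]
        _ = v := by rw [← MulAut.mul_apply, ← map_mul, inv_mul_cancel, map_one, MulAut.one_apply]
  have hpow : ∀ v : V, v ^ Nat.card Γ = 1 → v = 1 := by
    intro v hv
    have h2 : orderOf v ∣ Nat.card Γ := orderOf_dvd_of_pow_eq_one hv
    have h3 : orderOf v ∣ Nat.card V := orderOf_dvd_natCard v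
    have h4 := Nat.dvd_gcd h3 h2
    rw [hcopΓ.gcd_eq_one] at h4
    exact orderOf_eq_one_iff.mp (Nat.dvd_one.mp h4)
  have hdisj : Disjoint R (CC φ a b) := by
    rw [Subgroup.disjoint_def]
    intro v hv1 hv2
    apply hpow
    have h2 : N v = v ^ Nat.card Γ := by
      rw [hN, Finset.prod_congr rfl fun (x : Γ) _ => hfix v hv2 x x.2, Finset.prod_const, Finset.card_univ, Nat.card_eq_fintype_card]
    rw [← h2]
    exact hRN hv1
  have hsup : R ⊔ CC φ a b = ⊤ := by
    rw [eq_top_iff]
    intro v _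
    have h2 : v ^ Nat.card Γ ∈ R ⊔ CC φ a b := by
      have h3 : v ^ Nat.card Γ = (v ^ Nat.card Γ / N v) * N v := by rw [div_mul_cancel]
      rw [h3]
      exact mul_mem (Subgroup.mem_sup_left (hN3 v)) (Subgroup.mem_sup_right ⟨hN2 a haΓ v, hN2 b hbΓ v⟩)
    -- coprimality
    have h3 : v ∈ Subgroup.zpowers (v ^ Nat.card Γ) := by
      rw [mem_zpowers_pow_iff]
      exact Nat.Coprime.coprime_dvd_right (orderOf_dvd_natCard v) hcopΓ.symm
    exact (Subgroup.zpowers_le.mpr h2) h3
  have hcompl : Nat.card R * Nat.card (CC φ a b) = Nat.card V := by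
    apply Subgroup.IsComplement'.card_mul_card
    apply Subgroup.isComplement'_of_disjoint_and_mul_eq_univ hdisj
    rw [← Subgroup.mul_normal, hsup, Subgroup.coe_top]
  have hrange : Nat.card (DD φ a b).ker * Nat.card R = Nat.card (V × V) := by
    rw [hR, ← Subgroup.index_ker, Subgroup.card_mul_index]
  rw [Nat.card_prod] at hrange
  have hRpos : 0 < Nat.card R := Nat.card_pos
  apply Nat.eq_of_mul_eq_mul_right hRpos
  rw [hrange, mul_assoc, mul_comm (Nat.card (CC φ a b)), hcompl]

end Fix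

section Count
variable {V : Type u} {A : Type v} [CommGroup V] [Group A] (φ : A →* MulAut V)

/-- stabilizer of a vector -/
def stab (v : V) : Subgroup A where
  carrier := {a | φ a v = v}
  one_mem' := by simp
  mul_mem' := fun {a b} ha hb => by
    show φ (a * b) v = v
    rw [map_mul, MulAut.mul_apply, show φ b v = v from hb, show φ a v = v from ha]
  inv_mem' := fun {a} ha => by
    show φ a⁻¹ v = v
    calc φ a⁻¹ v = φ a⁻¹ (φ a v) := by rw [show φ a v = v from ha]
      _ = v := by rw [← MulAut.mul_apply, ← map_mul, inv_mul_cancel, map_one, MulAut.one_apply]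

theorem mem_stab (v : V) (a : A) : a ∈ stab φ v ↔ φ a v = v := Iff.rfl

theorem commute_semi (x y : SemidirectProduct V A φ) : Commute x y ↔ Commute x.right y.right ∧ (x.left, y.left) ∈ (DD φ x.right y.right).ker := by
  rw [mem_ker_DD]
  constructor
  · intro h
    exact ⟨congrArg SemidirectProduct.right h.eq, congrArg SemidirectProduct.left h.eq⟩
  · rintro ⟨h1, h2⟩
    exact SemidirectProduct.ext h2 h1

/-- commuting pairs -/
def pairEquiv : {p : SemidirectProduct V A φ × SemidirectProduct V A φ // Commute p.1 p.2} ≃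
    Σ q : {q : A × A // Commute q.1 q.2}, (DD φ q.1.1 q.1.2).ker where
  toFun p := ⟨⟨(p.1.1.right, p.1.2.right), ((commute_semi φ _ _).mp p.2).1⟩, ⟨(p.1.1.left, p.1.2.left), ((commute_semi φ _ _).mp p.2).2⟩⟩
  invFun r := ⟨(⟨r.2.1.1, r.1.1.1⟩, ⟨r.2.1.2, r.1.1.2⟩), (commute_semi φ _ _).mpr ⟨r.1.2, r.2.2⟩⟩
  left_inv p := rfl
  right_inv r := rfl

/-- commuting pairs fixing a vector -/
def fixEquiv : (Σ q : {q : A × A // Commute q.1 q.2}, CC φ q.1.1 q.1.2) ≃
    Σ v : V, {q : stab φ v × stab φ v // Commute q.1 q.2} where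
  toFun r := ⟨r.2.1, ⟨(⟨r.1.1.1, r.2.2.1⟩, ⟨r.1.1.2, r.2.2.2⟩), Subtype.ext r.1.2.eq⟩⟩
  invFun r := ⟨⟨(r.2.1.1, r.2.1.2), congrArg Subtype.val r.2.2.eq⟩, ⟨r.1, r.2.1.1.2, r.2.1.2.2⟩⟩
  left_inv p := rfl
  right_inv r := rfl

variable [Finite V] [Finite A]

instance : Finite (SemidirectProduct V A φ) := Finite.of_equiv _ SemidirectProduct.equivProd.symm

theorem kGV [Fintype V] (hcop : (Nat.card V).Coprime (Nat.card A)) :
    Nat.card (ConjClasses (SemidirectProduct V A φ)) * Nat.card A = ∑ v : V, Nat.card (ConjClasses (stab φ v)) * Nat.card (stab φ v) := by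
  classical
  haveI := Fintype.ofFinite A
  have h1 := card_comm_eq_card_conjClasses_mul_card (SemidirectProduct V A φ)
  rw [Nat.card_congr (pairEquiv φ), Nat.card_sigma, SemidirectProduct.card] at h1
  have h2 : ∀ q : {q : A × A // Commute q.1 q.2}, Nat.card (DD φ q.1.1 q.1.2).ker = Nat.card V * Nat.card (CC φ q.1.1 q.1.2) := fun q => card_ker φ hcop _ _
  simp only [h2, ← Finset.mul_sum] at h1
  have h3 : ∑ q : {q : A × A // Commute q.1 q.2}, Nat.card (CC φ q.1.1 q.1.2) = ∑ v : V, Nat.card (ConjClasses (stab φ v)) * Nat.card (stab φ v) := by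
    rw [← Nat.card_sigma, Nat.card_congr (fixEquiv φ), Nat.card_sigma]
    exact Finset.sum_congr rfl fun v _ => card_comm_eq_card_conjClasses_mul_card _
  rw [h3] at h1
  have hpos : 0 < Nat.card V := Nat.card_pos
  apply Nat.eq_of_mul_eq_mul_left hpos
  rw [h1]; ring

end Count

section Orbit
variable {α : Type u} {G : Type v} [Group G] [MulAction G α]

theorem orbit_sum [Finite G] [Fintype α] (S : Finset α) (hS : ∀ a : α, ∃! s, s ∈ S ∧ ∃ g : G, g • a = s) (k : α → ℕ)
    (hk : ∀ (g : G) a, k (g • a) = k a) :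
    ∑ a : α, k a * Nat.card (MulAction.stabilizer G a) = Nat.card G * ∑ s ∈ S, k s := by
  classical
  haveI := Fintype.ofFinite G
  have h1 : Nat.card G * ∑ s ∈ S, k s = ∑ s ∈ S, ∑ g : G, k (g • s) := by
    simp only [hk, Finset.sum_const, Finset.card_univ, smul_eq_mul, Finset.mul_sum, Nat.card_eq_fintype_card]
  have h2 : ∀ s : α, ∑ g : G, k (g • s) = ∑ a : α, k a * (Finset.univ.filter fun g : G => g • s = a).card := by
    intro s
    rw [← Finset.sum_fiberwise (s := Finset.univ) (g := fun g : G => g • s)]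
    refine Finset.sum_congr rfl fun a _ => ?_
    rw [Finset.sum_congr rfl fun g hg => by rw [(Finset.mem_filter.mp hg).2], Finset.sum_const, smul_eq_mul, mul_comm]
  rw [h1, Finset.sum_congr rfl fun s _ => h2 s, Finset.sum_comm]
  refine Finset.sum_congr rfl fun a _ => ?_
  rw [← Finset.mul_sum]
  congr 1
  obtain ⟨s, ⟨hs, g, hg⟩, huniq⟩ := hS a
  rw [Finset.sum_eq_single s]
  · rw [Nat.card_eq_fintype_card, Fintype.card_subtype]
    refine Finset.card_bij' (fun h _ => h * g⁻¹) (fun h _ => h * g) ?_ ?_ ?_ ?_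
    · intro h hh
      have h3 : h • a = a := by simpa using hh
      simp only [Finset.mem_filter, Finset.mem_univ, true_and]
      rw [← hg, mul_smul, inv_smul_smul, h3]
    · intro h hh
      have h3 : h • s = a := by simpa using hh
      simp only [Finset.mem_filter, Finset.mem_univ, true_and, MulAction.mem_stabilizer_iff]
      rw [mul_smul, hg, h3]
    · intro h _; simp
    · intro h _; simp
  · intro t ht hne
    rw [Finset.card_eq_zero, Finset.filter_eq_empty_iff]
    intro h _ hh
    apply hne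
    exact huniq t ⟨ht, h⁻¹, by rw [← hh, inv_smul_smul]⟩
  · intro h; exact absurd hs h

end Orbit

end CfsgLib.KGV20
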