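import Mathlib
import Cfsg.Agent.LibKA5
import Cfsg.Agent.LibKA8

/-! PSL_2(11) and its subgroups isomorphic to A_5 (seat helper10). -/

set_option autoImplicit false
set_option linter.all false
set_option maxRecDepth 100000

namespace CfsgLib.KL11

open Matrix CfsgLib.KA5

theorem cntX : ((Finset.univ : Finset (Fin 11 × Fin 11 × Fin 11)).filter (fun t => t.1 * t.1 + t.2.1 * t.2.2 = -1)).card = 110 := by decide +kernel

theorem cntY : ∀ a b c : Fin 11, a * a + b * c = -1 →
    ((Finset.univ : Finset (Fin 11 × Fin 11 × Fin 11)).filter (fun t => t.1*t.1+t.1+t.2.1*t.2.2 = -1 ∧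
      (2*a*t.1+a+b*t.2.2+c*t.2.1 = 3 ∨ 2*a*t.1+a+b*t.2.2+c*t.2.1 = 4))).card = 24 := by
  decide +kernel

end CfsgLib.KL11
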