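import Mathlib
import Cfsg.Agent.LibKL11

/-! PSL_2(11) and its subgroups isomorphic to A_5, part 2 (seat helper10). -/

set_option autoImplicit false
set_option linter.all false

namespace CfsgLib.KL11

open Matrix CfsgLib.KA5

abbrev K := ZMod 11
instance : Fact (Nat.Prime 11) := ⟨by norm_num⟩
abbrev S := Matrix.SpecialLinearGroup (Fin 2) K
abbrev mk (A : S) : Matrix.ProjectiveSpecialLinearGroup (Fin 2) K := QuotientGroup.mk A

/-- trace -/
def tr (A : S) : K := A 0 0 + A 1 1

theorem det_eq (A : S) : A 0 0 * A 1 1 - A 0 1 * A 1 0 = 1 := by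
  have := A.det_coe
  rwa [Matrix.det_fin_two] at this

theorem sq_eq (A : S) : (A : Matrix (Fin 2) (Fin 2) K) * A = tr A • (A : Matrix (Fin 2) (Fin 2) K) - 1 := by
  have h := det_eq A
  ext i j
  fin_cases i <;> fin_cases j <;> simp [Matrix.mul_apply, Fin.sum_univ_two, tr]
  · linear_combination -h
  · ring
  · ring
  · linear_combination -h

theorem cube_eq (A : S) : (A : Matrix (Fin 2) (Fin 2) K) * A * A = (tr A ^ 2 - 1) • (A : Matrix (Fin 2) (Fin 2) K) - tr A • 1 := by
  rw [sq_eq, sub_mul, smul_mul_assoc, sq_eq, one_mul, smul_sub, smul_smul]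
  rw [sub_smul, one_smul, sq]
  abel

theorem four_eq (A : S) : (A : Matrix (Fin 2) (Fin 2) K) * A * A * A = (tr A ^ 3 - 2 * tr A) • (A : Matrix (Fin 2) (Fin 2) K) - (tr A ^ 2 - 1) • 1 := by
  rw [cube_eq, sub_mul, smul_mul_assoc, sq_eq, smul_mul_assoc, one_mul, smul_sub, smul_smul]
  have : (tr A ^ 3 - 2 * tr A) = (tr A ^ 2 - 1) * tr A - tr A := by ring
  rw [this, sub_smul ((tr A ^ 2 - 1) * tr A) (tr A)]
  abel

theorem five_eq (A : S) : (A : Matrix (Fin 2) (Fin 2) K) * A * A * A * A = (tr A ^ 4 - 3 * tr A ^ 2 + 1) • (A : Matrix (Fin 2) (Fin 2) K) - (tr A ^ 3 - 2 * tr A) • 1 := by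
  rw [four_eq, sub_mul, smul_mul_assoc, sq_eq, smul_mul_assoc, one_mul, smul_sub, smul_smul]
  have : (tr A ^ 4 - 3 * tr A ^ 2 + 1) = (tr A ^ 3 - 2 * tr A) * tr A - (tr A ^ 2 - 1) := by ring
  rw [this, sub_smul ((tr A ^ 3 - 2 * tr A) * tr A) (tr A ^ 2 - 1)]
  abel

theorem coe_one_S : ((1 : S) : Matrix (Fin 2) (Fin 2) K) = 1 := rfl
theorem coe_neg_one_S : ((-1 : S) : Matrix (Fin 2) (Fin 2) K) = -1 := rfl

/-- scalars in SL -/
theorem scalar_cases (A : S) (r : K) (h : (A : Matrix (Fin 2) (Fin 2) K) = r • 1) : A = 1 ∨ A = -1 := by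
  have h1 : A 0 0 = r := by have := congrFun (congrFun h 0) 0; simpa using this
  have h2 : A 1 1 = r := by have := congrFun (congrFun h 1) 1; simpa using this
  have h3 : A 0 1 = 0 := by have := congrFun (congrFun h 0) 1; simpa using this
  have hd := det_eq A
  rw [h1, h2, h3, zero_mul, sub_zero] at hd
  rcases mul_self_eq_one_iff.1 hd with hr | hr
  · left; apply Subtype.ext; rw [h, hr, one_smul]; rfl
  · right; apply Subtype.ext; rw [h, hr, neg_smul, one_smul]; rfl

theorem scalar_of_smul (A : S) (s r : K) (hs : s ≠ 0) (h : s • (A : Matrix (Fin 2) (Fin 2) K) = r • 1) : A = 1 ∨ A = -1 := by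
  apply scalar_cases A (s⁻¹ * r)
  rw [← smul_smul, ← h, smul_smul, inv_mul_cancel₀ hs, one_smul]

theorem mk_eq_one (A : S) : mk A = 1 ↔ A = 1 ∨ A = -1 := by
  change (QuotientGroup.mk A : S ⧸ Subgroup.center S) = 1 ↔ _
  rw [QuotientGroup.eq_one_iff, Matrix.SpecialLinearGroup.mem_center_iff]
  constructor
  · rintro ⟨r, -, hr⟩
    apply scalar_cases A r
    rw [← hr]
    ext i j
    simp [Matrix.scalar_apply, Matrix.diagonal_apply, Matrix.one_apply]
  · rintro (rfl | rfl)
    · refine ⟨1, by simp, by simp⟩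
    · refine ⟨-1, by simp, ?_⟩
      rw [coe_neg_one_S]
      ext i j; fin_cases i <;> fin_cases j <;> simp

theorem mk_eq_iff (A B : S) : mk A = mk B ↔ A = B ∨ A = -B := by
  have h : mk A = mk B ↔ mk (B⁻¹ * A) = 1 := by
    change (QuotientGroup.mk A : S ⧸ Subgroup.center S) = QuotientGroup.mk B ↔ (QuotientGroup.mk (B⁻¹ * A) : S ⧸ Subgroup.center S) = 1
    rw [QuotientGroup.mk_mul, QuotientGroup.mk_inv, inv_mul_eq_one, eq_comm]
  rw [h, mk_eq_one]
  constructor
  · rintro (h | h)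
    · left; exact (inv_mul_eq_one.1 h).symm
    · right
      have : A = B * (B⁻¹ * A) := by group
      rw [this, h, mul_neg, mul_one]
  · rintro (rfl | rfl)
    · left; group
    · right; rw [mul_neg, inv_mul_cancel]

theorem tr_neg (A : S) : tr (-A) = - tr A := by
  unfold tr
  change -(A 0 0) + -(A 1 1) = _
  ring

theorem neg_ne (A : S) : A ≠ -A := by
  intro h
  have h1 := det_eq A
  have e : ∀ i j, A i j = 0 := by
    intro i j
    have := congrArg (fun B : S => B i j) h
    change A i j = -(A i j) at this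
    have h2 : (2 : K) * A i j = 0 := by linear_combination this
    exact (mul_eq_zero.1 h2).resolve_left (by decide)
  rw [e, e, e, e] at h1
  simp at h1

theorem roots : ∀ t : K, t ^ 4 - 3 * t ^ 2 + 1 = 0 → (t = 3 ∨ t = 4) ∨ (-t = 3 ∨ -t = 4) := by decide

theorem one_add_smul' (s : K) : (1 + s) • (1 : Matrix (Fin 2) (Fin 2) K) = 1 + s • 1 := by rw [add_smul, one_smul]
theorem neg_one_add_smul' (s : K) : (-1 + s) • (1 : Matrix (Fin 2) (Fin 2) K) = -1 + s • 1 := by rw [add_smul, neg_smul, one_smul]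

/-- the parametrizing set -/
def M : Type := {p : S × S // tr p.1 = 0 ∧ tr p.2 = -1 ∧ (tr (p.1 * p.2) = 3 ∨ tr (p.1 * p.2) = 4)}

theorem mul_S (A B : S) : ((A * B : S) : Matrix (Fin 2) (Fin 2) K) = (A : Matrix (Fin 2) (Fin 2) K) * B := rfl

theorem mk_sq (A : S) : mk A * mk A = mk (A * A) := rfl

theorem rel_of_M (X Y : S) (h1 : tr X = 0) (h2 : tr Y = -1) (h3 : tr (X * Y) = 3 ∨ tr (X * Y) = 4) : Rel (mk X) (mk Y) := by
  refine ⟨?_, ?_, ?_, ?_⟩
  · change mk (X * X) = 1
    rw [mk_eq_one]; right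
    apply Subtype.ext
    change (X : Matrix (Fin 2) (Fin 2) K) * X = -1
    rw [sq_eq, h1, zero_smul, zero_sub]
  · intro h
    rw [mk_eq_one] at h
    rcases h with rfl | rfl
    · unfold tr at h1
      change (1 : K) + 1 = 0 at h1
      exact absurd h1 (by decide)
    · unfold tr at h1
      change (-1 : K) + -1 = 0 at h1
      exact absurd h1 (by decide)
  · change mk (Y * Y * Y) = 1
    rw [mk_eq_one]; left
    apply Subtype.ext
    change (Y : Matrix (Fin 2) (Fin 2) K) * Y * Y = 1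
    rw [cube_eq, h2]
    have : ((-1 : K) ^ 2 - 1) = 0 := by ring
    rw [this, zero_smul, neg_smul, one_smul]
    simp
  · have e : (mk X * mk Y) ^ 5 = mk ((X * Y) * (X * Y) * (X * Y) * (X * Y) * (X * Y)) := by
      change (mk (X * Y)) ^ 5 = _
      simp only [pow_succ, pow_zero, one_mul]
      rfl
    rw [e, mk_eq_one]
    set Z := X * Y with hZ
    rcases h3 with h3 | h3
    · left
      apply Subtype.ext
      change (Z : Matrix (Fin 2) (Fin 2) K) * Z * Z * Z * Z = 1
      rw [five_eq, h3]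
      have e1 : ((3 : K) ^ 4 - 3 * 3 ^ 2 + 1) = 0 := by decide
      have e2 : ((3 : K) ^ 3 - 2 * 3) = -1 := by decide
      rw [e1, e2, zero_smul, neg_smul, one_smul]; simp
    · right
      apply Subtype.ext
      change (Z : Matrix (Fin 2) (Fin 2) K) * Z * Z * Z * Z = -1
      rw [five_eq, h3]
      have e1 : ((4 : K) ^ 4 - 3 * 4 ^ 2 + 1) = 0 := by decide
      have e2 : ((4 : K) ^ 3 - 2 * 4) = 1 := by decide
      rw [e1, e2, zero_smul, one_smul]; simp

/-- the map to pairs -/
def toRel (m : M) : {p : Matrix.ProjectiveSpecialLinearGroup (Fin 2) K × Matrix.ProjectiveSpecialLinearGroup (Fin 2) K // Rel p.1 p.2} :=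
  ⟨(mk m.1.1, mk m.1.2), rel_of_M _ _ m.2.1 m.2.2.1 m.2.2.2⟩

theorem toRel_bij : Function.Bijective toRel := by
  constructor
  · rintro ⟨⟨X, Y⟩, h1, h2, h3⟩ ⟨⟨X', Y'⟩, h1', h2', h3'⟩ h
    have hX : mk X = mk X' := congrArg (fun p => p.1.1) h
    have hY : mk Y = mk Y' := congrArg (fun p => p.1.2) h
    simp only at h1 h2 h3 h1' h2' h3'
    have hY' : Y = Y' := by
      rcases (mk_eq_iff _ _).1 hY with h | h
      · exact h
      · exfalso
        rw [h, tr_neg, h2'] at h2
        exact absurd h2 (by decide)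
    subst hY'
    have hX' : X = X' := by
      rcases (mk_eq_iff _ _).1 hX with h | h
      · exact h
      · exfalso
        rw [h, neg_mul, tr_neg] at h3
        rcases h3 with h3 | h3 <;> rcases h3' with h3' | h3' <;> rw [h3'] at h3 <;> exact absurd h3 (by decide)
    subst hX'
    rfl
  · rintro ⟨⟨x, y⟩, hr⟩
    have hy1 := hr.y_ne
    have hxy1 := hr.xy_ne
    obtain ⟨h1, h2, h3, h4⟩ := hr
    obtain ⟨X, rfl⟩ := QuotientGroup.mk_surjective x
    obtain ⟨Y, rfl⟩ := QuotientGroup.mk_surjective y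
    simp only at h1 h2 h3 h4
    change mk (X * X) = 1 at h1
    change mk X ≠ 1 at h2
    change mk (Y * Y * Y) = 1 at h3
    change mk Y ≠ 1 at hy1
    change mk (X * Y) ≠ 1 at hxy1
    rw [Ne, mk_eq_one] at h2 hy1 hxy1
    rw [mk_eq_one] at h1 h3
    -- trace of X
    have hX : tr X = 0 := by
      by_contra h0
      apply h2
      rcases h1 with h1 | h1
      · have e := sq_eq X
        have e' : (X : Matrix (Fin 2) (Fin 2) K) * X = 1 := congrArg Subtype.val h1
        rw [e'] at e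
        apply scalar_of_smul X (tr X) 2 h0
        have : tr X • (X : Matrix (Fin 2) (Fin 2) K) = 1 + 1 := by
          rw [eq_sub_iff_add_eq] at e; exact e.symm
        rw [this, two_smul]
      · have e := sq_eq X
        have e' : (X : Matrix (Fin 2) (Fin 2) K) * X = -1 := congrArg Subtype.val h1
        rw [e'] at e
        apply scalar_of_smul X (tr X) 0 h0
        rw [zero_smul]
        have := sub_eq_neg_self.1 e.symm
        exact this
    -- trace of Y
    have hY : tr Y = 1 ∨ tr Y = -1 := by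
      have key : tr Y ^ 2 - 1 = 0 := by
        by_contra h0
        apply hy1
        rcases h3 with h3 | h3
        · have e := cube_eq Y
          have e' : (Y : Matrix (Fin 2) (Fin 2) K) * Y * Y = 1 := congrArg Subtype.val h3
          rw [e'] at e
          apply scalar_of_smul Y _ (1 + tr Y) h0
          rw [add_smul, one_smul]
          rw [eq_sub_iff_add_eq] at e; exact e.symm
        · have e := cube_eq Y
          have e' : (Y : Matrix (Fin 2) (Fin 2) K) * Y * Y = -1 := congrArg Subtype.val h3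
          rw [e'] at e
          apply scalar_of_smul Y _ (-1 + tr Y) h0
          rw [add_smul, neg_smul, one_smul]
          rw [eq_sub_iff_add_eq] at e; exact e.symm
      exact mul_self_eq_one_iff.1 (by rw [← sq]; exact sub_eq_zero.1 key)
    have hZ : (tr (X * Y) = 3 ∨ tr (X * Y) = 4) ∨ (-tr (X * Y) = 3 ∨ -tr (X * Y) = 4) := by
      apply roots
      by_contra h0
      apply hxy1
      have e : mk ((X * Y) * (X * Y) * (X * Y) * (X * Y) * (X * Y)) = 1 := by
        rw [← h4]
        change _ = (mk (X * Y)) ^ 5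
        simp only [pow_succ, pow_zero, one_mul]
        rfl
      rw [mk_eq_one] at e
      set Z := X * Y with hZ
      rcases e with e | e
      · have e1 := five_eq Z
        have e' : (Z : Matrix (Fin 2) (Fin 2) K) * Z * Z * Z * Z = 1 := congrArg Subtype.val e
        rw [e'] at e1
        apply scalar_of_smul Z _ (1 + (tr Z ^ 3 - 2 * tr Z)) h0
        rw [one_add_smul']
        rw [eq_sub_iff_add_eq] at e1; exact e1.symm
      · have e1 := five_eq Z
        have e' : (Z : Matrix (Fin 2) (Fin 2) K) * Z * Z * Z * Z = -1 := congrArg Subtype.val e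
        rw [e'] at e1
        apply scalar_of_smul Z _ (-1 + (tr Z ^ 3 - 2 * tr Z)) h0
        rw [neg_one_add_smul']
        rw [eq_sub_iff_add_eq] at e1; exact e1.symm
    -- normalize Y
    obtain ⟨Y', hY', hmkY, hZ'⟩ : ∃ Y' : S, tr Y' = -1 ∧ mk Y' = mk Y ∧ ((tr (X * Y') = 3 ∨ tr (X * Y') = 4) ∨ (-tr (X * Y') = 3 ∨ -tr (X * Y') = 4)) := by
      rcases hY with h | h
      · refine ⟨-Y, by rw [tr_neg, h], (mk_eq_iff _ _).2 (Or.inr rfl), ?_⟩
        rw [mul_neg, tr_neg, neg_neg]
        exact hZ.symm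
      · exact ⟨Y, h, rfl, hZ⟩
    rcases hZ' with h | h
    · exact ⟨⟨(X, Y'), hX, hY', h⟩, Subtype.ext (Prod.ext rfl hmkY)⟩
    · refine ⟨⟨(-X, Y'), by rw [tr_neg, hX, neg_zero], hY', by rw [neg_mul, tr_neg]; exact h⟩, Subtype.ext (Prod.ext ((mk_eq_iff _ _).2 (Or.inr rfl)) hmkY)⟩

/-- the matrices -/
def Xm (t : K × K × K) (h : t.1 * t.1 + t.2.1 * t.2.2 = -1) : S := ⟨!![t.1, t.2.1; t.2.2, -t.1], by
  rw [Matrix.det_fin_two_of]; linear_combination -h⟩
def Ym (t : K × K × K) (h : t.1 * t.1 + t.1 + t.2.1 * t.2.2 = -1) : S := ⟨!![t.1, t.2.1; t.2.2, -1 - t.1], by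
  rw [Matrix.det_fin_two_of]; linear_combination -h⟩

theorem tr_mul (X Y : S) : tr (X * Y) = X 0 0 * Y 0 0 + X 0 1 * Y 1 0 + (X 1 0 * Y 0 1 + X 1 1 * Y 1 1) := by
  unfold tr
  change ((X : Matrix (Fin 2) (Fin 2) K) * Y) 0 0 + ((X : Matrix (Fin 2) (Fin 2) K) * Y) 1 1 = _
  rw [Matrix.mul_apply, Matrix.mul_apply, Fin.sum_univ_two, Fin.sum_univ_two]

theorem ext_S (A B : S) (h00 : A 0 0 = B 0 0) (h01 : A 0 1 = B 0 1) (h10 : A 1 0 = B 1 0) (h11 : A 1 1 = B 1 1) : A = B := by
  apply Subtype.ext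
  ext i j
  fin_cases i <;> fin_cases j
  · exact h00
  · exact h01
  · exact h10
  · exact h11

theorem card_M : Nat.card M = 2640 := by
  classical
  let A := {t : K × K × K // t.1 * t.1 + t.2.1 * t.2.2 = -1}
  let B : A → Type := fun s => {t : K × K × K // t.1 * t.1 + t.1 + t.2.1 * t.2.2 = -1 ∧
    (2 * s.1.1 * t.1 + s.1.1 + s.1.2.1 * t.2.2 + s.1.2.2 * t.2.1 = 3 ∨ 2 * s.1.1 * t.1 + s.1.1 + s.1.2.1 * t.2.2 + s.1.2.2 * t.2.1 = 4)}
  let f : (Σ s : A, B s) → M := fun q => ⟨(Xm q.1.1 q.1.2, Ym q.2.1 q.2.2.1), by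
    change q.1.1.1 + -q.1.1.1 = 0
    ring, by
    change q.2.1.1 + (-1 - q.2.1.1) = -1
    ring, by
    rw [tr_mul]
    change q.1.1.1 * q.2.1.1 + q.1.1.2.1 * q.2.1.2.2 + (q.1.1.2.2 * q.2.1.2.1 + -q.1.1.1 * (-1 - q.2.1.1)) = 3 ∨
      q.1.1.1 * q.2.1.1 + q.1.1.2.1 * q.2.1.2.2 + (q.1.1.2.2 * q.2.1.2.1 + -q.1.1.1 * (-1 - q.2.1.1)) = 4
    rcases q.2.2.2 with h | h
    · left; linear_combination h
    · right; linear_combination h⟩
  have hf : Function.Bijective f := by
    constructor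
    · rintro ⟨⟨⟨a, b, c⟩, h1⟩, ⟨⟨d, e, g⟩, h2⟩⟩ ⟨⟨⟨a', b', c'⟩, h1'⟩, ⟨⟨d', e', g'⟩, h2'⟩⟩ h
      have hX : Xm (a, b, c) h1 = Xm (a', b', c') h1' := congrArg (fun m => m.1.1) h
      have hY : Ym (d, e, g) h2.1 = Ym (d', e', g') h2'.1 := congrArg (fun m => m.1.2) h
      have ha : a = a' := congrArg (fun A : S => A 0 0) hX
      have hb : b = b' := congrArg (fun A : S => A 0 1) hX
      have hc : c = c' := congrArg (fun A : S => A 1 0) hX
      have hd : d = d' := congrArg (fun A : S => A 0 0) hY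
      have he : e = e' := congrArg (fun A : S => A 0 1) hY
      have hg : g = g' := congrArg (fun A : S => A 1 0) hY
      subst ha hb hc hd he hg
      rfl
    · rintro ⟨⟨X, Y⟩, h1, h2, h3⟩
      simp only at h1 h2 h3
      unfold tr at h1 h2
      have hX11 : X 1 1 = - X 0 0 := by linear_combination h1
      have hY11 : Y 1 1 = -1 - Y 0 0 := by linear_combination h2
      have dX := det_eq X
      have dY := det_eq Y
      rw [hX11] at dX
      rw [hY11] at dY
      rw [tr_mul, hX11, hY11] at h3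
      refine ⟨⟨⟨(X 0 0, X 0 1, X 1 0), by linear_combination -dX⟩, ⟨(Y 0 0, Y 0 1, Y 1 0), by linear_combination -dY, ?_⟩⟩, ?_⟩
      · rcases h3 with h | h
        · left; simp only; linear_combination h
        · right; simp only; linear_combination h
      · apply Subtype.ext
        refine Prod.ext ?_ ?_
        · exact ext_S _ _ rfl rfl rfl hX11.symm
        · exact ext_S _ _ rfl rfl rfl hY11.symm
  rw [← Nat.card_congr (Equiv.ofBijective f hf)]
  haveI : Fintype A := Fintype.ofFinite _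
  haveI : ∀ s, Finite (B s) := fun s => inferInstance
  rw [Nat.card_sigma]
  have hB : ∀ s : A, Nat.card (B s) = 24 := by
    rintro ⟨⟨a, b, c⟩, hs⟩
    have := cntY a b c hs
    rw [← this, ← Fintype.card_coe, ← Nat.card_eq_fintype_card]
    refine Nat.card_congr (Equiv.subtypeEquivRight fun t => ?_)
    exact ⟨fun h => Finset.mem_filter.2 ⟨Finset.mem_univ _, h⟩, fun h => (Finset.mem_filter.1 h).2⟩
  simp only [hB]
  rw [Finset.sum_const, smul_eq_mul, Finset.card_univ, ← Nat.card_eq_fintype_card]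
  have hA : Nat.card A = 110 := by
    have := cntX
    rw [← this, ← Fintype.card_coe, ← Nat.card_eq_fintype_card]
    refine Nat.card_congr (Equiv.subtypeEquivRight fun t => ?_)
    exact ⟨fun h => Finset.mem_filter.2 ⟨Finset.mem_univ _, h⟩, fun h => (Finset.mem_filter.1 h).2⟩
  rw [hA]

/-- there are 22 subgroups isomorphic to `A_5` -/
theorem card_22 : Nat.card {H : Subgroup (Matrix.ProjectiveSpecialLinearGroup (Fin 2) K) // Nonempty (H ≃* alternatingGroup (Fin 5))} = 22 := by
  have h := count (G := Matrix.ProjectiveSpecialLinearGroup (Fin 2) K)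
  rw [← Nat.card_congr (Equiv.ofBijective toRel toRel_bij), card_M] at h
  omega

end CfsgLib.KL11
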