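import Mathlib
import Cfsg.Agent.LibKL11b
import Cfsg.Agent.S0675
import Cfsg.Agent.LibH22PSL2

/-! PSL_2(11) and its subgroups isomorphic to A_5, part 3 (seat helper10). -/

set_option autoImplicit false
set_option linter.all false

namespace CfsgLib.KL11

open Matrix CfsgLib.KA5 MulAction
open scoped Pointwise

section general
variable {G : Type*} [Group G] [Finite G]

/-- invariance of the number of subgroups isomorphic to `A_5` -/
theorem card_sub_congr {G' : Type*} [Group G'] (e : G ≃* G') :
    Nat.card {H : Subgroup G // Nonempty (H ≃* alternatingGroup (Fin 5))} = Nat.card {H : Subgroup G' // Nonempty (H ≃* alternatingGroup (Fin 5))} := by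
  refine Nat.card_congr ((MulEquiv.mapSubgroup e).toEquiv.subtypeEquiv ?_)
  intro H
  constructor
  · rintro ⟨f⟩
    exact ⟨(e.subgroupMap H).symm.trans f⟩
  · rintro ⟨f⟩
    exact ⟨(e.subgroupMap H).trans f⟩

variable (hs : IsSimpleGroup G) (hc : Nat.card G = 660) {H : Subgroup G} (hH : Nonempty (H ≃* alternatingGroup (Fin 5)))
include hs hc hH

omit hs in
theorem index_eq : H.index = 11 := by
  obtain ⟨e⟩ := hH
  have h1 : Nat.card H = 60 := by rw [Nat.card_congr e.toEquiv, card_a5]
  have h2 := H.card_mul_index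
  rw [h1, hc] at h2
  omega

theorem normalizer_eq : Subgroup.normalizer (H : Set G) = H := by
  have hidx := index_eq hc hH
  have h1 := Subgroup.relIndex_mul_index (Subgroup.le_normalizer (H := H))
  rw [hidx] at h1
  have h2 : (Subgroup.normalizer (H : Set G)).index ∣ 11 := ⟨_, by rw [mul_comm]; exact h1.symm⟩
  rcases (Nat.dvd_prime (by norm_num : Nat.Prime 11)).1 h2 with h | h
  · exfalso
    have h3 : H.Normal := Subgroup.normalizer_eq_top_iff.1 (Subgroup.index_eq_one.1 h)
    rcases h3.eq_bot_or_eq_top with h4 | h4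
    · rw [h4, Subgroup.index_bot, hc] at hidx; omega
    · rw [h4, Subgroup.index_top] at hidx; omega
  · rw [h] at h1
    have h3 : H.relIndex (Subgroup.normalizer (H : Set G)) = 1 := by omega
    exact le_antisymm (Subgroup.relIndex_eq_one.1 h3) Subgroup.le_normalizer

theorem card_class : (Set.range (fun g : G => MulAut.conj g • H)).ncard = 11 := by
  letI : MulAction G (Subgroup G) := MulAction.compHom (Subgroup G) (MulAut.conj : G →* MulAut G)
  have h1 : Set.range (fun g : G => MulAut.conj g • H) = orbit G H := rfl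
  rw [h1, ← MulAction.index_stabilizer, ← index_eq hc hH]
  congr 1
  ext g
  rw [mem_stabilizer_iff]
  change MulAut.conj g • H = H ↔ g ∈ H
  constructor
  · intro h
    rw [← normalizer_eq hs hc hH, Subgroup.mem_normalizer_iff]
    intro x
    constructor
    · intro hx
      have : MulAut.conj g • x ∈ MulAut.conj g • H := Subgroup.smul_mem_pointwise_smul _ _ _ hx
      rw [h] at this
      exact this
    · intro hx
      have hx' : MulAut.conj g • x ∈ MulAut.conj g • H := by rw [h]; exact hx
      exact (Subgroup.smul_mem_pointwise_smul_iff).1 hx'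
  · intro h
    exact Subgroup.conj_smul_eq_self_of_mem h

theorem two_classes (h22 : Nat.card {H : Subgroup G // Nonempty (H ≃* alternatingGroup (Fin 5))} = 22) :
    ∃ K : Subgroup G, Nonempty (K ≃* alternatingGroup (Fin 5)) ∧ (∀ g : G, MulAut.conj g • H ≠ K) ∧
      ∀ L : Subgroup G, Nonempty (L ≃* alternatingGroup (Fin 5)) → ∃ g : G, MulAut.conj g • L = H ∨ MulAut.conj g • L = K := by
  classical
  let A : Set (Subgroup G) := {H | Nonempty (H ≃* alternatingGroup (Fin 5))}
  have hA : A.ncard = 22 := by rw [← Nat.card_coe_set_eq]; exact h22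
  have hcls : ∀ L : Subgroup G, Nonempty (L ≃* alternatingGroup (Fin 5)) → Set.range (fun g : G => MulAut.conj g • L) ⊆ A := by
    rintro L ⟨e⟩ _ ⟨g, rfl⟩
    exact ⟨(Subgroup.equivSMul (MulAut.conj g) L).symm.trans e⟩
  have h1 := card_class hs hc hH
  obtain ⟨K, hKA, hK⟩ : ∃ K ∈ A, K ∉ Set.range (fun g : G => MulAut.conj g • H) := by
    by_contra hcon
    push Not at hcon
    have := Set.ncard_le_ncard (show A ⊆ Set.range (fun g : G => MulAut.conj g • H) from hcon) (Set.toFinite _)
    omega
  have h2 := card_class hs hc hKA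
  have hdisj : Disjoint (Set.range (fun g : G => MulAut.conj g • H)) (Set.range (fun g : G => MulAut.conj g • K)) := by
    rw [Set.disjoint_iff]
    rintro L ⟨⟨g, hg⟩, ⟨k, hk⟩⟩
    apply hK
    refine ⟨k⁻¹ * g, ?_⟩
    simp only at hg hk ⊢
    rw [map_mul, mul_smul, hg, ← hk, map_inv, inv_smul_smul]
  have hunion : Set.range (fun g : G => MulAut.conj g • H) ∪ Set.range (fun g : G => MulAut.conj g • K) = A := by
    apply Set.eq_of_subset_of_ncard_le (Set.union_subset (hcls H hH) (hcls K hKA))
    rw [Set.ncard_union_eq hdisj, h1, h2, hA]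
  refine ⟨K, hKA, fun g hg => hK ⟨g, hg⟩, ?_⟩
  intro L hL
  have hL' : L ∈ A := hL
  rw [← hunion] at hL'
  rcases hL' with ⟨g, hg⟩ | ⟨g, hg⟩
  · refine ⟨g⁻¹, Or.inl ?_⟩
    simp only at hg
    rw [← hg, map_inv, inv_smul_smul]
  · refine ⟨g⁻¹, Or.inr ?_⟩
    simp only at hg
    rw [← hg, map_inv, inv_smul_smul]

theorem two_trans_coset : IsMultiplyPretransitive G (G ⧸ H) 2 := by
  classical
  have hidx := index_eq hc hH
  haveI : Fintype (G ⧸ H) := Fintype.ofFinite _
  have hcard : Fintype.card (G ⧸ H) = 11 := by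
    rw [← Nat.card_eq_fintype_card]; exact hidx
  let φ := MulAction.toPermHom G (G ⧸ H)
  haveI : IsPretransitive φ.range (G ⧸ H) := by
    constructor
    intro a b
    obtain ⟨g, hg⟩ := MulAction.exists_smul_eq G a b
    exact ⟨⟨φ g, ⟨g, rfl⟩⟩, hg⟩
  have hinj : Function.Injective φ := by
    rw [← MonoidHom.ker_eq_bot_iff]
    rcases (inferInstance : φ.ker.Normal).eq_bot_or_eq_top with h | h
    · exact h
    · exfalso
      have h1 : ∀ g : G, g ∈ H := by
        intro g
        have : g ∈ φ.ker := by rw [h]; trivial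
        have h2 : φ g = 1 := this
        have h3 : φ g ((1 : G) : G ⧸ H) = ((1 : G) : G ⧸ H) := by rw [h2]; rfl
        have h4 : ((g * 1 : G) : G ⧸ H) = ((1 : G) : G ⧸ H) := h3
        rw [mul_one, QuotientGroup.eq, mul_one] at h4
        exact H.inv_mem_iff.1 h4
      have : H = ⊤ := by rw [eq_top_iff]; exact fun g _ => h1 g
      rw [this, Subgroup.index_top] at hidx
      omega
  rcases Cfsg.Agent.S0675.result (by rw [hcard]; norm_num) φ.range with h | h
  · exfalso
    have h1 : Group.IsSolvable G := by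
      have e : G ≃* φ.range := MonoidHom.ofInjective hinj
      exact solvable_of_solvable_injective (f := e.toMonoidHom) e.injective
    obtain ⟨e⟩ := hH
    haveI : Group.IsSolvable H := inferInstance
    have h2 : Group.IsSolvable (alternatingGroup (Fin 5)) := solvable_of_surjective (f := e.toMonoidHom) e.surjective
    have h3 : commutator (alternatingGroup (Fin 5)) = ⊤ := commutator_alternatingGroup_eq_top (by simp)
    haveI : Nontrivial (alternatingGroup (Fin 5)) := simple_a5.toNontrivial
    have h4 := Group.IsSolvable.commutator_lt_top_of_nontrivial (alternatingGroup (Fin 5))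
    rw [h3] at h4
    exact lt_irrefl _ h4
  · rw [is_two_pretransitive_iff] at h ⊢
    intro a b c d hab hcd
    obtain ⟨⟨_, ⟨g, rfl⟩⟩, h1, h2⟩ := h hab hcd
    exact ⟨g, h1, h2⟩

end general

theorem card_psl {F : Type*} [Field F] [Fintype F] (hF : Fintype.card F = 11) : Nat.card (Matrix.ProjectiveSpecialLinearGroup (Fin 2) F) = 660 := by
  have h1 := Cfsg.Agent.H22.card_PSL2 (F := F)
  rw [hF] at h1
  norm_num at h1
  omega

theorem simple_psl {F : Type*} [Field F] [Fintype F] (hF : Fintype.card F = 11) : IsSimpleGroup (Matrix.ProjectiveSpecialLinearGroup (Fin 2) F) :=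
  Matrix.ProjectiveSpecialLinearGroup.rank_two_simple (by rw [Nat.card_eq_fintype_card, hF]; norm_num)

theorem card_22' {F : Type*} [Field F] [Fintype F] (hF : Fintype.card F = 11) :
    Nat.card {H : Subgroup (Matrix.ProjectiveSpecialLinearGroup (Fin 2) F) // Nonempty (H ≃* alternatingGroup (Fin 5))} = 22 := by
  rw [← card_22]
  exact card_sub_congr (CfsgLib.KA8.pslCongr 2 (ZMod.ringEquivOfPrime F (by norm_num : Nat.Prime 11) hF).symm)

theorem exists_A5 {F : Type*} [Field F] [Fintype F] (hF : Fintype.card F = 11) :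
    ∃ H : Subgroup (Matrix.ProjectiveSpecialLinearGroup (Fin 2) F), Nonempty (H ≃* alternatingGroup (Fin 5)) := by
  have h := card_22' hF
  have : Nonempty {H : Subgroup (Matrix.ProjectiveSpecialLinearGroup (Fin 2) F) // Nonempty (H ≃* alternatingGroup (Fin 5))} := by
    by_contra hcon
    rw [not_nonempty_iff] at hcon
    rw [Nat.card_of_isEmpty] at h
    omega
  obtain ⟨H, hH⟩ := this
  exact ⟨H, hH⟩

theorem s2542 {F : Type*} [Field F] [Fintype F] (hF : Fintype.card F = 11) : ∃ H : Subgroup (Matrix.ProjectiveSpecialLinearGroup (Fin 2) F), H.index = 11 ∧ Nonempty (H ≃* alternatingGroup (Fin 5)) ∧ MulAction.IsMultiplyPretransitive (Matrix.ProjectiveSpecialLinearGroup (Fin 2) F) ((Matrix.ProjectiveSpecialLinearGroup (Fin 2) F) ⧸ H) 2 := by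
  obtain ⟨H, hH⟩ := exists_A5 hF
  exact ⟨H, index_eq (card_psl hF) hH, hH, two_trans_coset (simple_psl hF) (card_psl hF) hH⟩

theorem s2543 {F : Type*} [Field F] [Fintype F] (hF : Fintype.card F = 11) : Nat.card {H : Subgroup (Matrix.ProjectiveSpecialLinearGroup (Fin 2) F) // Nonempty (H ≃* alternatingGroup (Fin 5))} = 22 ∧ ∃ H K : Subgroup (Matrix.ProjectiveSpecialLinearGroup (Fin 2) F), Nonempty (H ≃* alternatingGroup (Fin 5)) ∧ Nonempty (K ≃* alternatingGroup (Fin 5)) ∧ (∀ g : Matrix.ProjectiveSpecialLinearGroup (Fin 2) F, MulAut.conj g • H ≠ K) ∧ ∀ L : Subgroup (Matrix.ProjectiveSpecialLinearGroup (Fin 2) F), Nonempty (L ≃* alternatingGroup (Fin 5)) → ∃ g : Matrix.ProjectiveSpecialLinearGroup (Fin 2) F, MulAut.conj g • L = H ∨ MulAut.conj g • L = K := by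
  refine ⟨card_22' hF, ?_⟩
  obtain ⟨H, hH⟩ := exists_A5 hF
  obtain ⟨K, hK, h1, h2⟩ := two_classes (simple_psl hF) (card_psl hF) hH (card_22' hF)
  exact ⟨H, K, hH, hK, h1, h2⟩

end CfsgLib.KL11
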