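import Mathlib
import Cfsg.Agent.LibKA8

/-! PSL_3(4) is not isomorphic to A_8 (seat helper10). -/

set_option autoImplicit false
set_option linter.all false

namespace CfsgLib.KL34

open Matrix

variable {K : Type*} [Field K]

/-- the standard transvection -/
def t0 : Matrix.SpecialLinearGroup (Fin 3) K := ⟨!![1, 0, 1; 0, 1, 0; 0, 0, 1], by
  rw [Matrix.det_fin_three]; simp⟩

/-- every involution of `SL_3(K)` in characteristic two is conjugate to the standard transvection -/
theorem conj_t0 [CharP K 2] (h : Matrix.SpecialLinearGroup (Fin 3) K) (h1 : h * h = 1) (hne : h ≠ 1) :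
    ∃ g : Matrix.SpecialLinearGroup (Fin 3) K, h * g = g * t0 := by
  classical
  have htwo : (2 : K) = 0 := CharP.cast_eq_zero K 2
  set N : Matrix (Fin 3) (Fin 3) K := (h : Matrix (Fin 3) (Fin 3) K) - 1 with hN
  have hhh : (h : Matrix (Fin 3) (Fin 3) K) * h = 1 := by
    rw [← Matrix.SpecialLinearGroup.coe_mul, h1, Matrix.SpecialLinearGroup.coe_one]
  have hNN : N * N = 0 := by
    have h2 : N * N = (h : Matrix (Fin 3) (Fin 3) K) * h - h - h + 1 := by rw [hN]; noncomm_ring
    rw [h2, hhh]
    have h3 : (1 : Matrix (Fin 3) (Fin 3) K) - h - h + 1 = (2 : K) • (1 - (h : Matrix (Fin 3) (Fin 3) K)) := by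
      rw [two_smul]; abel
    rw [h3, htwo, zero_smul]
  have hN0 : N ≠ 0 := by
    intro h0
    apply hne
    apply Subtype.ext
    have : (h : Matrix (Fin 3) (Fin 3) K) - 1 = 0 := h0
    exact sub_eq_zero.1 this
  let L : (Fin 3 → K) →ₗ[K] (Fin 3 → K) := N.mulVecLin
  have hLL : ∀ x, L (L x) = 0 := by
    intro x
    change N.mulVec (N.mulVec x) = 0
    rw [Matrix.mulVec_mulVec, hNN, Matrix.zero_mulVec]
  obtain ⟨w, hw⟩ : ∃ w, L w ≠ 0 := by
    by_contra hcon
    push Not at hcon
    apply hN0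
    apply Cfsg.Agent.H22.mat_ext
    intro x
    rw [Matrix.zero_mulVec]; exact hcon x
  have hrk : LinearMap.range L ≤ LinearMap.ker L := by
    rintro _ ⟨x, rfl⟩
    exact hLL x
  have hdim := LinearMap.finrank_range_add_finrank_ker L
  have hle := Submodule.finrank_mono hrk
  rw [Module.finrank_fin_fun] at hdim
  have hker : 2 ≤ Module.finrank K (LinearMap.ker L) := by omega
  obtain ⟨u, hu, hu'⟩ : ∃ u ∈ LinearMap.ker L, u ∉ Submodule.span K {L w} := by
    by_contra hcon
    push Not at hcon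
    have h3 : LinearMap.ker L ≤ Submodule.span K {L w} := hcon
    have h4 := Submodule.finrank_mono h3
    rw [finrank_span_singleton hw] at h4
    omega
  have hLu : L u = 0 := hu
  have hind : LinearIndependent K ![L w, u, w] := by
    rw [Fintype.linearIndependent_iff]
    intro g hg
    rw [Fin.sum_univ_three] at hg
    simp only [Matrix.cons_val_zero, Matrix.cons_val_one, Matrix.cons_val_two, Matrix.head_cons, Matrix.tail_cons, Matrix.cons_val] at hg
    have e1 := congrArg L hg
    rw [map_add, map_add, map_smul, map_smul, map_smul, hLL, hLu, smul_zero, smul_zero, zero_add, zero_add, map_zero] at e1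
    have h2 : g 2 = 0 := (smul_eq_zero.1 e1).resolve_right hw
    rw [h2, zero_smul, add_zero] at hg
    have h3 : g 1 = 0 := by
      by_contra h3
      apply hu'
      rw [Submodule.mem_span_singleton]
      refine ⟨-(g 1)⁻¹ * g 0, ?_⟩
      have : g 1 • u = -(g 0 • L w) := by rw [add_comm] at hg; exact eq_neg_of_add_eq_zero_left hg
      have h4 : u = (g 1)⁻¹ • (g 1 • u) := by rw [smul_smul, inv_mul_cancel₀ h3, one_smul]
      rw [h4, this, smul_neg, smul_smul, ← neg_smul, neg_mul]
    rw [h3, zero_smul, add_zero] at hg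
    have h0 : g 0 = 0 := (smul_eq_zero.1 hg).resolve_right hw
    intro i
    fin_cases i
    · exact h0
    · exact h3
    · exact h2
  have hdet0 : (Matrix.of ![L w, u, w] : Matrix (Fin 3) (Fin 3) K).det ≠ 0 := by
    have := (Matrix.linearIndependent_rows_iff_isUnit (A := (Matrix.of ![L w, u, w] : Matrix (Fin 3) (Fin 3) K))).1 hind
    exact ((Matrix.isUnit_iff_isUnit_det _).1 this).ne_zero
  set d := (Matrix.of ![L w, u, w] : Matrix (Fin 3) (Fin 3) K).det with hd
  let P : Matrix (Fin 3) (Fin 3) K := (Matrix.of ![L w, d⁻¹ • u, w] : Matrix (Fin 3) (Fin 3) K).transpose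
  have hP : P.det = 1 := by
    simp only [P]
    rw [Matrix.det_transpose]
    have : (Matrix.of ![L w, d⁻¹ • u, w] : Matrix (Fin 3) (Fin 3) K).det = d⁻¹ * d := by
      rw [hd, Matrix.det_fin_three, Matrix.det_fin_three]
      simp
      ring
    rw [this, inv_mul_cancel₀ hdet0]
  obtain ⟨g, hg⟩ : ∃ g : Matrix.SpecialLinearGroup (Fin 3) K, (g : Matrix (Fin 3) (Fin 3) K) = P := ⟨⟨P, hP⟩, rfl⟩
  refine ⟨g, ?_⟩
  apply Subtype.ext
  change (h : Matrix (Fin 3) (Fin 3) K) * (g : Matrix (Fin 3) (Fin 3) K) = (g : Matrix (Fin 3) (Fin 3) K) * (t0 : Matrix.SpecialLinearGroup (Fin 3) K).1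
  rw [hg]
  have hh : (h : Matrix (Fin 3) (Fin 3) K) = N + 1 := by rw [hN, sub_add_cancel]
  have hcol : ∀ x : Fin 3 → K, (h : Matrix (Fin 3) (Fin 3) K).mulVec x = L x + x := by
    intro x
    rw [hh, Matrix.add_mulVec, Matrix.one_mulVec]; rfl
  -- compare columns
  have hcols : ∀ j, (fun i => ((h : Matrix (Fin 3) (Fin 3) K) * P) i j) = (h : Matrix (Fin 3) (Fin 3) K).mulVec (fun i => P i j) := by
    intro j; rfl
  have c0 : (fun i => P i 0) = L w := by funext i; rfl
  have c1 : (fun i => P i 1) = d⁻¹ • u := by funext i; rfl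
  have c2 : (fun i => P i 2) = w := by funext i; rfl
  have hd0 : (h : Matrix (Fin 3) (Fin 3) K).mulVec (L w) = L w := by rw [hcol, hLL, zero_add]
  have hd1 : (h : Matrix (Fin 3) (Fin 3) K).mulVec (d⁻¹ • u) = d⁻¹ • u := by rw [hcol, map_smul, hLu, smul_zero, zero_add]
  have hd2 : (h : Matrix (Fin 3) (Fin 3) K).mulVec w = L w + w := hcol w
  ext i j
  fin_cases j
  · have e1 := congrFun (hcols 0) i
    rw [c0, hd0] at e1
    have e2 : (P * (t0 : Matrix.SpecialLinearGroup (Fin 3) K).1) i 0 = P i 0 := by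
      rw [Matrix.mul_apply, Fin.sum_univ_three]; simp [t0]
    exact e1.trans ((congrFun c0 i).symm.trans e2.symm)
  · have e1 := congrFun (hcols 1) i
    rw [c1, hd1] at e1
    have e2 : (P * (t0 : Matrix.SpecialLinearGroup (Fin 3) K).1) i 1 = P i 1 := by
      rw [Matrix.mul_apply, Fin.sum_univ_three]; simp [t0]
    exact e1.trans ((congrFun c1 i).symm.trans e2.symm)
  · have e1 := congrFun (hcols 2) i
    rw [c2, hd2] at e1
    have e2 : (P * (t0 : Matrix.SpecialLinearGroup (Fin 3) K).1) i 2 = P i 0 + P i 2 := by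
      rw [Matrix.mul_apply, Fin.sum_univ_three]; simp [t0]
    refine e1.trans ?_
    rw [Pi.add_apply]
    exact (e2.trans (congrArg₂ (· + ·) (congrFun c0 i) (congrFun c2 i))).symm

theorem card_sl34 [Fintype K] (hK : Fintype.card K = 4) : Nat.card (Matrix.SpecialLinearGroup (Fin 3) K) = 60480 := by
  have h := Cfsg.Agent.H22.card_SL hK 3 (by norm_num)
  rw [Fin.prod_univ_three] at h
  norm_num at h
  omega

theorem card_psl34 [Fintype K] (hK : Fintype.card K = 4) : Nat.card (Matrix.ProjectiveSpecialLinearGroup (Fin 3) K) = 20160 := by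
  have h1 := card_sl34 hK
  have h2 := Cfsg.Agent.H22.card_center_SL (F := K) 3 (by norm_num)
  rw [hK] at h2
  rw [Subgroup.card_eq_card_quotient_mul_card_subgroup (Subgroup.center (Matrix.SpecialLinearGroup (Fin 3) K)), h2] at h1
  have h3 : Nat.gcd 3 (4 - 1) = 3 := rfl
  rw [h3] at h1
  change Nat.card (Matrix.SpecialLinearGroup (Fin 3) K ⧸ Subgroup.center (Matrix.SpecialLinearGroup (Fin 3) K)) = _
  omega

/-- all involutions of `PSL_3(4)` are conjugate -/
theorem conj_psl34 [Fintype K] (hK : Fintype.card K = 4) (x y : Matrix.ProjectiveSpecialLinearGroup (Fin 3) K)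
    (hx : orderOf x = 2) (hy : orderOf y = 2) : IsConj x y := by
  haveI : CharP K 2 := by
    obtain ⟨p, hp⟩ := CharP.exists K
    haveI := hp
    haveI : Fact p.Prime := ⟨CharP.char_is_prime K p⟩
    obtain ⟨n, hn⟩ := FiniteField.card K p
    rw [hK] at hn
    have h2 : p ∣ 4 := by rw [hn.2]; exact dvd_pow_self p n.pos.ne'
    have : p ∣ 2 ^ 2 := by simpa using h2
    have h3 := (Nat.prime_dvd_prime_iff_eq (Fact.out : p.Prime) Nat.prime_two).1 ((Fact.out : p.Prime).dvd_of_dvd_pow this)
    rw [← h3]; exact hp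
  have h2 := Cfsg.Agent.H22.card_center_SL (F := K) 3 (by norm_num)
  rw [hK] at h2
  have hz3 : ∀ z ∈ Subgroup.center (Matrix.SpecialLinearGroup (Fin 3) K), z ^ 3 = 1 := by
    intro z hz
    have := pow_card_eq_one' (x := (⟨z, hz⟩ : Subgroup.center (Matrix.SpecialLinearGroup (Fin 3) K)))
    rw [h2] at this
    exact congrArg Subtype.val this
  have key : ∀ x : Matrix.ProjectiveSpecialLinearGroup (Fin 3) K, orderOf x = 2 →
      ∃ g : Matrix.SpecialLinearGroup (Fin 3) K, x = QuotientGroup.mk (g * t0 * g⁻¹) := by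
    intro x hx
    obtain ⟨g, rfl⟩ := QuotientGroup.mk_surjective x
    have hg : g * g ∈ Subgroup.center (Matrix.SpecialLinearGroup (Fin 3) K) := by
      rw [← QuotientGroup.eq_one_iff]
      have := pow_orderOf_eq_one (QuotientGroup.mk g : Matrix.SpecialLinearGroup (Fin 3) K ⧸ Subgroup.center (Matrix.SpecialLinearGroup (Fin 3) K))
      rw [hx, sq] at this
      exact this
    set z := g * g with hz
    have hcom := Subgroup.mem_center_iff.1 hg
    have hh : (g * z) * (g * z) = 1 := by
      calc (g * z) * (g * z) = g * (z * g) * z := by group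
        _ = g * (g * z) * z := by rw [hcom g]
        _ = (g * g) * (z * z) := by simp only [mul_assoc]
        _ = z * (z * z) := rfl
        _ = z ^ 3 := by rw [pow_succ, sq]; exact (mul_assoc z z z).symm
        _ = 1 := hz3 z hg
    have hne : g * z ≠ 1 := by
      intro h
      have : (QuotientGroup.mk g : Matrix.SpecialLinearGroup (Fin 3) K ⧸ Subgroup.center (Matrix.SpecialLinearGroup (Fin 3) K)) = 1 := by
        rw [QuotientGroup.eq_one_iff]
        have : g = z⁻¹ := eq_inv_of_mul_eq_one_left h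
        rw [this]; exact Subgroup.inv_mem _ hg
      rw [this, orderOf_one] at hx
      omega
    obtain ⟨k, hk⟩ := conj_t0 (g * z) hh hne
    refine ⟨k, ?_⟩
    have : k * t0 * k⁻¹ = g * z := by rw [← hk]; group
    rw [this]
    apply QuotientGroup.eq.2
    rw [inv_mul_cancel_left]; exact hg
  obtain ⟨g, rfl⟩ := key x hx
  obtain ⟨k, rfl⟩ := key y hy
  rw [isConj_iff]
  refine ⟨QuotientGroup.mk (k * g⁻¹), ?_⟩
  rw [← QuotientGroup.mk_inv, ← QuotientGroup.mk_mul, ← QuotientGroup.mk_mul]
  congr 1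
  group

/-- product of two transpositions -/
def a8 : alternatingGroup (Fin 8) := ⟨Equiv.swap 0 1 * Equiv.swap 2 3, by rw [Equiv.Perm.mem_alternatingGroup]; decide⟩
/-- product of four transpositions -/
def b8 : alternatingGroup (Fin 8) := ⟨Equiv.swap 0 1 * Equiv.swap 2 3 * (Equiv.swap 4 5 * Equiv.swap 6 7), by rw [Equiv.Perm.mem_alternatingGroup]; decide⟩

theorem ord_a8 : orderOf a8 = 2 := orderOf_eq_prime (by apply Subtype.ext; decide) (by intro h; have := congrArg Subtype.val h; revert this; decide)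
theorem ord_b8 : orderOf b8 = 2 := orderOf_eq_prime (by apply Subtype.ext; decide) (by intro h; have := congrArg Subtype.val h; revert this; decide)
theorem supp_ne : (a8 : Equiv.Perm (Fin 8)).support.card ≠ (b8 : Equiv.Perm (Fin 8)).support.card := by decide

theorem s2550 {F K : Type*} [Field F] [Fintype F] [Field K] [Fintype K] (hF : Fintype.card F = 2) (hK : Fintype.card K = 4) : Nat.card (Matrix.ProjectiveSpecialLinearGroup (Fin 4) F) = Nat.card (Matrix.ProjectiveSpecialLinearGroup (Fin 3) K) ∧ ¬ Nonempty (Matrix.ProjectiveSpecialLinearGroup (Fin 4) F ≃* Matrix.ProjectiveSpecialLinearGroup (Fin 3) K) := by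
  obtain ⟨e⟩ := CfsgLib.KA8.s0256 hF
  constructor
  · rw [card_psl34 hK, Nat.card_congr e.toEquiv, nat_card_alternatingGroup, Nat.card_fin]
    rfl
  · rintro ⟨f⟩
    let j : alternatingGroup (Fin 8) ≃* Matrix.ProjectiveSpecialLinearGroup (Fin 3) K := e.symm.trans f
    have hc := conj_psl34 hK (j a8) (j b8) (by rw [MulEquiv.orderOf_eq, ord_a8]) (by rw [MulEquiv.orderOf_eq, ord_b8])
    obtain ⟨c, hc⟩ := isConj_iff.1 hc
    have h1 : (j.symm c) * a8 * (j.symm c)⁻¹ = b8 := by
      apply j.injective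
      rw [map_mul, map_mul, map_inv, MulEquiv.apply_symm_apply, hc]
    have h2 : IsConj (a8 : Equiv.Perm (Fin 8)) (b8 : Equiv.Perm (Fin 8)) := by
      rw [isConj_iff]
      exact ⟨(j.symm c : alternatingGroup (Fin 8)), congrArg Subtype.val h1⟩
    rw [Equiv.Perm.isConj_iff_cycleType_eq] at h2
    have h3 := congrArg Multiset.sum h2
    rw [Equiv.Perm.sum_cycleType, Equiv.Perm.sum_cycleType] at h3
    exact supp_ne h3

end CfsgLib.KL34
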