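import Cfsg.Agent.LibLE13

/-! The trace lemma `V = [V,O^p(H)] C_V(O^p(H))` (seat helper10). -/

set_option autoImplicit false
set_option linter.all false

namespace CfsgLib.KTr

open Subgroup Cfsg CfsgLib.LE
open scoped commutatorElement

variable {G : Type*} [Group G]

theorem trace_lemma [Finite G] {V R : Subgroup G} (hV : ∀ x ∈ V, ∀ y ∈ V, x * y = y * x) (hRV : R ≤ normalizer (V : Set G)) (S : Subgroup ↥R)
    {v : G} (hv : v ∈ V) (hvS : ∀ s ∈ S, (s : G) * v * (s : G)⁻¹ = v) :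
    ∃ w ∈ V ⊓ centralizer (R : Set G), w⁻¹ * v ^ S.index ∈ ⁅V, R⁆ := by
  classical
  letI : CommGroup ↥V := { (inferInstance : Group ↥V) with mul_comm := fun a b => Subtype.ext (hV a a.2 b b.2) }
  haveI : Fintype (↥R ⧸ S) := Fintype.ofFinite _
  have hc : ∀ (r : ↥R) (x : G), x ∈ V → (r : G) * x * (r : G)⁻¹ ∈ V := fun r x hx =>
    (Subgroup.mem_normalizer_iff.1 (hRV r.2) x).1 hx
  let f : ↥R ⧸ S → ↥V := Quotient.lift (fun r : ↥R => (⟨(r : G) * v * (r : G)⁻¹, hc r v hv⟩ : ↥V)) (by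
    intro a b hab
    have h1 : a⁻¹ * b ∈ S := QuotientGroup.leftRel_apply.1 hab
    have h2 := hvS _ h1
    apply Subtype.ext
    change (a : G) * v * (a : G)⁻¹ = (b : G) * v * (b : G)⁻¹
    have h3 : ((a⁻¹ * b : ↥R) : G) = (a : G)⁻¹ * b := rfl
    rw [h3] at h2
    calc (a : G) * v * (a : G)⁻¹ = a * ((a : G)⁻¹ * b * v * ((a : G)⁻¹ * b)⁻¹) * (a : G)⁻¹ := by rw [h2]
      _ = (b : G) * v * (b : G)⁻¹ := by group)
  have hf : ∀ r : ↥R, ((f (QuotientGroup.mk r) : ↥V) : G) = (r : G) * v * (r : G)⁻¹ := fun r => rfl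
  let w : ↥V := ∏ q, f q
  -- conjugation as an automorphism
  let cj : ↥R → (↥V →* ↥V) := fun r =>
    { toFun := fun x => ⟨(r : G) * x * (r : G)⁻¹, hc r x x.2⟩
      map_one' := Subtype.ext (by change (r : G) * 1 * (r : G)⁻¹ = 1; group)
      map_mul' := fun x y => Subtype.ext (by
        change (r : G) * ((x : G) * y) * (r : G)⁻¹ = ((r : G) * x * (r : G)⁻¹) * ((r : G) * y * (r : G)⁻¹)
        group) }
  have hcw : ∀ r : ↥R, cj r w = w := by
    intro r
    change cj r (∏ q, f q) = ∏ q, f q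
    rw [map_prod]
    refine Fintype.prod_equiv (MulAction.toPerm r) _ _ ?_
    intro q
    obtain ⟨a, rfl⟩ := QuotientGroup.mk_surjective q
    apply Subtype.ext
    change (r : G) * ((f (QuotientGroup.mk a) : ↥V) : G) * (r : G)⁻¹ = ((f (QuotientGroup.mk (r * a)) : ↥V) : G)
    rw [hf, hf]
    change (r : G) * ((a : G) * v * (a : G)⁻¹) * (r : G)⁻¹ = ((r : G) * a) * v * ((r : G) * a)⁻¹
    group
  refine ⟨w, ⟨w.2, ?_⟩, ?_⟩
  · change (w : G) ∈ centralizer (R : Set G)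
    rw [Subgroup.mem_centralizer_iff]
    intro r hr
    have h1 := congrArg Subtype.val (hcw ⟨r, hr⟩)
    have h2 : r * (w : G) * r⁻¹ = w := h1
    exact mul_inv_eq_iff_eq_mul.1 h2
  · -- work in `V`
    let K : Subgroup ↥V := ⁅V, R⁆.subgroupOf V
    have hle : ⁅V, R⁆ ≤ V := le_normalizer_iff_commutator_le_left.1 hRV
    have h1 : ∀ q : ↥R ⧸ S, (f q)⁻¹ * ⟨v, hv⟩ ∈ K := by
      intro q
      obtain ⟨a, rfl⟩ := QuotientGroup.mk_surjective q
      rw [Subgroup.mem_subgroupOf]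
      change ((f (QuotientGroup.mk a) : ↥V) : G)⁻¹ * v ∈ ⁅V, R⁆
      rw [hf]
      have h2 : ⁅v, (a : G)⁆ ∈ ⁅V, R⁆ := Subgroup.commutator_mem_commutator hv a.2
      have h3 : ((a : G) * v * (a : G)⁻¹)⁻¹ * v = ⁅v, (a : G)⁆ := by
        rw [commutatorElement_def]
        have h4 := hV _ (V.inv_mem (hc a v hv)) v hv
        rw [h4]; group
      rw [h3]; exact h2
    have h2 : ∏ q, ((f q)⁻¹ * ⟨v, hv⟩ : ↥V) ∈ K := Subgroup.prod_mem K (fun q _ => h1 q)
    rw [Finset.prod_mul_distrib, Finset.prod_inv_distrib, Finset.prod_const, Finset.card_univ] at h2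
    have h3 : Fintype.card (↥R ⧸ S) = S.index := by rw [← Nat.card_eq_fintype_card]; rfl
    rw [h3, Subgroup.mem_subgroupOf] at h2
    exact h2

theorem s2781 {G : Type*} [Group G] [Finite G] {p : ℕ} [Fact p.Prime] (V H : Subgroup G) (hV : Cfsg.IsElementaryAbelian p V) (hHV : H ≤ Subgroup.normalizer (V : Set G)) (hf : H ⊓ Subgroup.centralizer (V : Set G) = ⊥) (R : Subgroup G) (hR : R = (Cfsg.pResidual p ↥H).map H.subtype) (S : Sylow p ↥R) (T : Subgroup G) (hT : T = ((S : Subgroup ↥R).map R.subtype)) (hgen : ∀ W : Subgroup G, H ≤ Subgroup.normalizer (W : Set G) → (V ⊓ Subgroup.centralizer ((T : Subgroup G) : Set G)) ≤ W → V ≤ W) : ⁅V, R⁆ ⊔ (V ⊓ Subgroup.centralizer ((R : Subgroup G) : Set G)) = V := by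
  have hcomm : ∀ x ∈ V, ∀ y ∈ V, x * y = y * x := by
    intro x hx y hy
    have := hV.1.is_comm.comm (⟨x, hx⟩ : ↥V) ⟨y, hy⟩
    exact congrArg Subtype.val this
  have hRH : R ≤ H := by rw [hR]; exact Subgroup.map_subtype_le _
  have hRV : R ≤ normalizer (V : Set G) := hRH.trans hHV
  have hHR : H ≤ normalizer (R : Set G) := by rw [hR]; exact le_normalizer_resOf H
  have hle : ⁅V, R⁆ ≤ V := le_normalizer_iff_commutator_le_left.1 hRV
  apply le_antisymm (sup_le hle inf_le_left)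
  apply hgen
  · apply le_normalizer_sup
    · exact le_normalizer_commutator hHV hHR
    · exact le_normalizer_inf hHV (le_normalizer_centralizer hHR)
  · intro v hv
    obtain ⟨w, hw, hwv⟩ := trace_lemma hcomm hRV (S : Subgroup ↥R) hv.1 (by
      intro s hs
      have h1 := Subgroup.mem_centralizer_iff.1 hv.2 (s : G) (by rw [hT]; exact ⟨s, hs, rfl⟩)
      rw [mul_inv_eq_iff_eq_mul]; exact h1)
    set W := ⁅V, R⁆ ⊔ (V ⊓ Subgroup.centralizer ((R : Subgroup G) : Set G)) with hW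
    have h1 : v ^ (S : Subgroup ↥R).index ∈ W := by
      have : v ^ (S : Subgroup ↥R).index = w * (w⁻¹ * v ^ (S : Subgroup ↥R).index) := by group
      rw [this]
      exact W.mul_mem (Subgroup.mem_sup_right hw) (Subgroup.mem_sup_left hwv)
    have h2 : v ^ p = 1 := hV.2 v hv.1
    have h3 : ((S : Subgroup ↥R).index).Coprime p := by
      rw [coprime_iff_not_dvd']; exact S.not_dvd_index
    have h4 : ((S : Subgroup ↥R).index).Coprime (orderOf v) := h3.coprime_dvd_right (orderOf_dvd_of_pow_eq_one h2)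
    obtain ⟨m, hm⟩ := exists_pow_eq_self_of_coprime h4
    rw [← hm]
    exact W.pow_mem h1 m

end CfsgLib.KTr
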