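import Mathlib
import Cfsg.Agent.LibExc
import Cfsg.Agent.LibCharBasic3

/-! Knörr's inequality for abelian groups, combinatorial part (seat helper20). -/

set_option autoImplicit false
set_option linter.all false

namespace CfsgLib.Knorr20

open Cfsg CfsgLib.CharBasic
open scoped ComplexConjugate

universe u v

section Comb
variable {D : Type u} [CommGroup D] [Fintype D]

/-- the combinatorial inequality -/
theorem comb (M : Subgroup D) [Fintype M] (z t : D → ℝ) (hz : ∀ x, z x = 0 ∨ z x = 1)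
    (ht : ∀ x, t x = 0 ∨ (t x = 1 ∧ ∃ μ : M, z (x * μ) = 1)) :
    ∑ x, t x ≤ ∑ x, z x + (1 / 2) * ∑ μ : M, ∑ x, (z x - z (x * μ)) ^ 2 := by
  classical
  set n : ℝ := (Fintype.card M : ℝ) with hn
  have hnpos : 0 < n := by rw [hn]; exact_mod_cast Fintype.card_pos
  set s : D → ℝ := fun x => ∑ μ : M, z (x * μ) with hs
  have hz2 : ∀ x, z x ^ 2 = z x := by intro x; rcases hz x with h | h <;> rw [h] <;> norm_num
  have hz0 : ∀ x, 0 ≤ z x := by intro x; rcases hz x with h | h <;> rw [h] <;> norm_num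
  have hz1 : ∀ x, z x ≤ 1 := by intro x; rcases hz x with h | h <;> rw [h] <;> norm_num
  have hs1 : ∑ x, s x = n * ∑ x, z x := by
    rw [hs, Finset.sum_comm]
    have : ∀ μ : M, ∑ x, z (x * μ) = ∑ x, z x := fun μ => Fintype.sum_equiv (Equiv.mulRight (μ : D)) _ _ fun x => rfl
    simp only [this, Finset.sum_const, Finset.card_univ, nsmul_eq_mul]
    rfl
  have hs2 : ∑ x, s x ^ 2 = n * ∑ x, z x * s x := by
    have h1 : ∀ x, s x ^ 2 = ∑ μ : M, z (x * μ) * s (x * μ) := by
      intro x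
      have h2 : ∀ μ : M, s (x * μ) = s x := by
        intro μ
        rw [hs]
        refine Fintype.sum_equiv (Equiv.mulLeft μ) _ _ fun ν => ?_
        show z (x * μ * ν) = z (x * (μ * ν : M))
        rw [Subgroup.coe_mul, mul_assoc]
      simp only [h2, ← Finset.sum_mul]
      rw [pow_two]
    simp only [h1]
    rw [Finset.sum_comm]
    have : ∀ μ : M, ∑ x, z (x * μ) * s (x * μ) = ∑ x, z x * s x := fun μ => Fintype.sum_equiv (Equiv.mulRight (μ : D)) _ _ fun x => rfl
    simp only [this, Finset.sum_const, Finset.card_univ, nsmul_eq_mul]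
    rfl
  have hd : ∑ μ : M, ∑ x, (z x - z (x * μ)) ^ 2 = 2 * n * ∑ x, z x - 2 * ∑ x, z x * s x := by
    have h1 : ∀ μ : M, ∑ x, (z x - z (x * μ)) ^ 2 = 2 * ∑ x, z x - 2 * ∑ x, z x * z (x * μ) := by
      intro μ
      have h2 : ∀ x, (z x - z (x * μ)) ^ 2 = z x + z (x * μ) - 2 * (z x * z (x * μ)) := by
        intro x
        have h3 := hz2 x
        have h4 := hz2 (x * μ)
        nlinarith
      simp only [h2]
      rw [Finset.sum_sub_distrib, Finset.sum_add_distrib, ← Finset.mul_sum]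
      have h5 : ∑ x, z (x * μ) = ∑ x, z x := Fintype.sum_equiv (Equiv.mulRight (μ : D)) _ _ fun x => rfl
      rw [h5]; ring
    simp only [h1]
    rw [Finset.sum_sub_distrib, Finset.sum_const, Finset.card_univ, nsmul_eq_mul, ← Finset.mul_sum, Finset.sum_comm]
    have h6 : ∀ x, ∑ μ : M, z x * z (x * μ) = z x * s x := fun x => by rw [hs, ← Finset.mul_sum]
    simp only [h6]
    rw [← hn]; ring
  rw [hd]
  have hkey : ∀ x, n * t x ≤ s x * (1 + n - s x) := by
    intro x
    have hs0 : 0 ≤ s x := Finset.sum_nonneg fun μ _ => hz0 _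
    have hsn : s x ≤ n := by
      have : s x ≤ ∑ μ : M, (1 : ℝ) := Finset.sum_le_sum fun μ _ => hz1 _
      simpa [hn] using this
    rcases ht x with h | ⟨h, μ, hμ⟩
    · rw [h, mul_zero]
      exact mul_nonneg hs0 (by linarith)
    · rw [h, mul_one]
      have h1 : 1 ≤ s x := by
        rw [← hμ]
        exact Finset.single_le_sum (f := fun μ : M => z (x * μ)) (fun μ _ => hz0 _) (Finset.mem_univ μ)
      nlinarith
  have hfin : n * ∑ x, t x ≤ n * (∑ x, z x + (1 / 2) * (2 * n * ∑ x, z x - 2 * ∑ x, z x * s x)) := by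
    calc n * ∑ x, t x = ∑ x, n * t x := by rw [Finset.mul_sum]
      _ ≤ ∑ x, s x * (1 + n - s x) := Finset.sum_le_sum fun x _ => hkey x
      _ = (1 + n) * ∑ x, s x - ∑ x, s x ^ 2 := by
          rw [Finset.mul_sum, ← Finset.sum_sub_distrib]
          exact Finset.sum_congr rfl fun x _ => by ring
      _ = _ := by rw [hs1, hs2]; ring
  exact le_of_mul_le_mul_left hfin hnpos

end Comb

section Quad
variable {H : Type u} [CommGroup H] [Finite H]

/-- characters trivial on `K` -/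
noncomputable def ann (K : Subgroup H) : Subgroup (H →* ℂˣ) := (CommGroup.subgroupOrderIsoSubgroupMonoidHom H ℂ K).ofDual

theorem mem_ann {K : Subgroup H} {μ : H →* ℂˣ} : μ ∈ ann K ↔ ∀ y ∈ K, μ y = 1 :=
  CommGroup.mem_subgroupOrderIsoSubgroupMonoidHom_iff _ _ _

theorem card_ann (K : Subgroup H) : Nat.card (ann K) = K.index := CommGroup.card_subgroupOrderIsoSubgroupMonoidHom _ _

theorem ann_inf (K L : Subgroup H) : ann (K ⊓ L) = ann K ⊔ ann L := by
  unfold ann
  rw [OrderIso.map_inf]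
  rfl

theorem ann_top : ann (⊤ : Subgroup H) = ⊥ := by
  rw [eq_bot_iff]
  intro μ hμ
  rw [mem_ann] at hμ
  rw [Subgroup.mem_bot]
  apply MonoidHom.ext
  intro y
  exact hμ y trivial

theorem ann_bot : ann (⊥ : Subgroup H) = ⊤ := by
  rw [eq_top_iff]
  intro μ _
  rw [mem_ann]
  intro y hy
  rw [Subgroup.mem_bot.mp hy, map_one]

theorem exists_ann {K : Subgroup H} {y : H} (hy : y ∉ K) : ∃ μ ∈ ann K, μ y ≠ 1 := by
  by_contra hcon
  push Not at hcon
  exact hy ((CommGroup.forall_monoidHom_apply_eq_one_iff ℂ K y).mp fun φ hφ => hcon φ (mem_ann.mpr hφ))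

theorem norm_hom (μ : H →* ℂˣ) (y : H) : ‖(μ y : ℂ)‖ = 1 := by
  have h1 : (μ y : ℂ) ^ Nat.card H = 1 := by
    rw [← Units.val_pow_eq_pow_val, ← map_pow, pow_card_eq_one', map_one, Units.val_one]
  exact Complex.norm_eq_one_of_pow_eq_one h1 Nat.card_pos.ne'

/-- `∑_{μ ∈ ann K} |1 - μ(y)|² = 2 |ann K|` off `K` -/
theorem sum_ann (K : Subgroup H) [Fintype (ann K)] (y : H) [Decidable (y ∈ K)] :
    ∑ μ : ann K, ‖1 - ((μ : H →* ℂˣ) y : ℂ)‖ ^ 2 = if y ∈ K then 0 else 2 * (Fintype.card (ann K) : ℝ) := by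
  classical
  split_ifs with hy
  · apply Finset.sum_eq_zero
    intro μ _
    rw [mem_ann.mp μ.2 y hy]; simp
  · have h0 : ∑ μ : ann K, ((μ : H →* ℂˣ) y : ℂ) = 0 := by
      obtain ⟨ν, hν, hνy⟩ := exists_ann hy
      have h1 : (ν y : ℂ) * ∑ μ : ann K, ((μ : H →* ℂˣ) y : ℂ) = ∑ μ : ann K, ((μ : H →* ℂˣ) y : ℂ) := by
        rw [Finset.mul_sum]
        refine Fintype.sum_equiv (Equiv.mulLeft (⟨ν, hν⟩ : ann K)) _ _ fun μ => ?_
        show (ν y : ℂ) * ((μ : H →* ℂˣ) y : ℂ) = (((ν * μ : H →* ℂˣ)) y : ℂ)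
        rw [MonoidHom.mul_apply, Units.val_mul]
      have h2 : ((ν y : ℂ) - 1) * ∑ μ : ann K, ((μ : H →* ℂˣ) y : ℂ) = 0 := by rw [sub_mul, one_mul, h1, sub_self]
      rcases mul_eq_zero.mp h2 with h3 | h3
      · exfalso
        apply hνy
        apply Units.ext
        rw [Units.val_one]
        exact sub_eq_zero.mp h3
      · exact h3
    have h1 : ∀ μ : ann K, ‖1 - ((μ : H →* ℂˣ) y : ℂ)‖ ^ 2 = 2 - 2 * ((μ : H →* ℂˣ) y : ℂ).re := by
      intro μ
      have h2 := norm_hom (μ : H →* ℂˣ) y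
      rw [← Complex.normSq_eq_norm_sq, Complex.normSq_sub, Complex.normSq_one, Complex.normSq_eq_norm_sq, h2]
      simp; ring
    simp only [h1]
    rw [Finset.sum_sub_distrib, ← Finset.mul_sum, ← Complex.re_sum, h0]
    simp; ring

end Quad

section Form
variable {H : Type u} [CommGroup H] [Fintype H] [Fintype (H →* ℂˣ)] {ι : Type v} [Fintype ι]

/-- Fourier synthesis -/
noncomputable def A (b : (H →* ℂˣ) → ι → ℂ) (k : ι) (y : H) : ℂ := ∑ l : H →* ℂˣ, b l k * (l y : ℂ)

/-- weighted norm -/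
noncomputable def Q (w : H → ℝ) (b : (H →* ℂˣ) → ι → ℂ) : ℝ := ∑ k, ∑ y, w y * ‖A b k y‖ ^ 2

theorem parseval_A (b : (H →* ℂˣ) → ι → ℂ) (k : ι) :
    ∑ y, ‖A b k y‖ ^ 2 = (Fintype.card H : ℝ) * ∑ l : H →* ℂˣ, ‖b l k‖ ^ 2 := by
  classical
  have h1 : ∀ l m : H →* ℂˣ, ∑ y, (l y : ℂ) * conj (m y : ℂ) = if l = m then (Fintype.card H : ℂ) else 0 := by
    intro l m
    have h2 := CfsgLib.Exc.irr_inner_ite (isIrrCharacter_hom l) (isIrrCharacter_hom m)
    unfold classInner at h2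
    have hcard : (Nat.card H : ℂ) ≠ 0 := by exact_mod_cast Nat.card_pos.ne'
    rw [inv_mul_eq_iff_eq_mul₀ hcard] at h2
    rw [h2, Nat.card_eq_fintype_card]
    have h3 : ((fun g => (l g : ℂ)) = fun g => (m g : ℂ)) ↔ l = m := by
      constructor
      · intro h
        apply MonoidHom.ext
        intro y
        exact Units.ext (congrFun h y)
      · rintro rfl; rfl
    simp only [h3, mul_ite, mul_one, mul_zero]
  have h2 : ((∑ y, ‖A b k y‖ ^ 2 : ℝ) : ℂ) = (((Fintype.card H : ℝ) * ∑ l : H →* ℂˣ, ‖b l k‖ ^ 2 : ℝ) : ℂ) := by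
    push_cast
    have h3 : ∀ z : ℂ, ((‖z‖ : ℝ) : ℂ) ^ 2 = z * conj z := fun z => by
      rw [Complex.mul_conj, Complex.normSq_eq_norm_sq]; push_cast; rfl
    simp only [h3]
    have h4 : ∀ y, A b k y * conj (A b k y) = ∑ l : H →* ℂˣ, ∑ m : H →* ℂˣ, (b l k * conj (b m k)) * ((l y : ℂ) * conj (m y : ℂ)) := by
      intro y
      unfold A
      rw [map_sum, Finset.sum_mul_sum]
      refine Finset.sum_congr rfl fun l _ => Finset.sum_congr rfl fun m _ => ?_
      rw [map_mul]; ring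
    simp only [h4]
    rw [Finset.sum_comm, Finset.mul_sum]
    refine Finset.sum_congr rfl fun l _ => ?_
    rw [Finset.sum_comm, Finset.sum_eq_single l]
    · rw [← Finset.mul_sum, h1, if_pos rfl]; ring
    · intro m _ hm
      rw [← Finset.mul_sum, h1, if_neg (Ne.symm hm), mul_zero]
    · intro h; exact absurd (Finset.mem_univ _) h
  exact_mod_cast h2

theorem hmul_one (l : H →* ℂˣ) : l * 1 = l := MonoidHom.ext fun y => by simp

theorem hmul_right_comm (a b c : H →* ℂˣ) : a * b * c = a * c * b := MonoidHom.ext fun y => by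
  simp only [MonoidHom.mul_apply]; exact mul_right_comm _ _ _

/-- translation -/
def T (μ : H →* ℂˣ) (b : (H →* ℂˣ) → ι → ℂ) : (H →* ℂˣ) → ι → ℂ := fun l => b (l * μ)

theorem A_T (μ : H →* ℂˣ) (b : (H →* ℂˣ) → ι → ℂ) (k : ι) (y : H) : A (T μ b) k y = ((μ y)⁻¹ : ℂˣ) * A b k y := by
  unfold A T
  rw [Finset.mul_sum]
  refine Fintype.sum_equiv (Equiv.mulRight μ) _ _ fun l => ?_
  show b (l * μ) k * (l y : ℂ) = (((μ y)⁻¹ : ℂˣ) : ℂ) * (b (l * μ) k * ((l * μ : H →* ℂˣ) y : ℂ))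
  rw [MonoidHom.mul_apply, Units.val_mul, Units.val_inv_eq_inv_val]
  have := Units.ne_zero (μ y)
  field_simp

theorem A_sub (b c : (H →* ℂˣ) → ι → ℂ) (k : ι) (y : H) : A (b - c) k y = A b k y - A c k y := by
  unfold A
  rw [← Finset.sum_sub_distrib]
  refine Finset.sum_congr rfl fun l _ => ?_
  rw [Pi.sub_apply, Pi.sub_apply, sub_mul]

theorem norm_A_sub (μ : H →* ℂˣ) (b : (H →* ℂˣ) → ι → ℂ) (k : ι) (y : H) :
    ‖A (b - T μ b) k y‖ ^ 2 = ‖1 - (μ y : ℂ)‖ ^ 2 * ‖A b k y‖ ^ 2 := by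
  rw [A_sub, A_T]
  have h1 : A b k y - ((μ y)⁻¹ : ℂˣ) * A b k y = -((μ y)⁻¹ : ℂˣ) * (1 - (μ y : ℂ)) * A b k y := by
    rw [Units.val_inv_eq_inv_val]
    have := Units.ne_zero (μ y)
    field_simp
    ring
  rw [h1, norm_mul, norm_mul, norm_neg, Units.val_inv_eq_inv_val, norm_inv, norm_hom, inv_one, one_mul, mul_pow]

theorem Q_step (w : H → ℝ) (K : Subgroup H) [DecidablePred (· ∈ K)] [Fintype (ann K)] (m : ℝ) (b : (H →* ℂˣ) → ι → ℂ) :
    Q (fun y => w y * (if y ∈ K then 1 else 1 + m)) b =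
      Q w b + m / (2 * (Fintype.card (ann K) : ℝ)) * ∑ μ : ann K, Q w (b - T (μ : H →* ℂˣ) b) := by
  classical
  have hn : (Fintype.card (ann K) : ℝ) ≠ 0 := by exact_mod_cast Fintype.card_ne_zero
  have h1 : ∑ μ : ann K, Q w (b - T (μ : H →* ℂˣ) b) = ∑ k, ∑ y, w y * (if y ∈ K then 0 else 2 * (Fintype.card (ann K) : ℝ)) * ‖A b k y‖ ^ 2 := by
    unfold Q
    rw [Finset.sum_comm]
    refine Finset.sum_congr rfl fun k _ => ?_
    rw [Finset.sum_comm]
    refine Finset.sum_congr rfl fun y _ => ?_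
    simp only [norm_A_sub]
    rw [← sum_ann K y, Finset.mul_sum, Finset.sum_mul]
    exact Finset.sum_congr rfl fun μ _ => by ring
  rw [h1]
  unfold Q
  rw [Finset.mul_sum, ← Finset.sum_add_distrib]
  refine Finset.sum_congr rfl fun k _ => ?_
  rw [Finset.mul_sum, ← Finset.sum_add_distrib]
  refine Finset.sum_congr rfl fun y _ => ?_
  by_cases hy : y ∈ K
  · simp only [hy, if_true]; ring
  · simp only [hy, if_false]
    field_simp

open Classical in
/-- the weight attached to a list of subgroups and multiplicities -/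
noncomputable def wt (L : List (Subgroup H × ℕ)) (y : H) : ℝ := (L.map fun q => if y ∈ q.1 then (1 : ℝ) else 1 + q.2).prod

/-- the intersection -/
def KL (L : List (Subgroup H × ℕ)) : Subgroup H := (L.map fun q => q.1).foldr (· ⊓ ·) ⊤

theorem KL_cons (q : Subgroup H × ℕ) (L : List (Subgroup H × ℕ)) : KL (q :: L) = q.1 ⊓ KL L := rfl

theorem wt_nonneg (L : List (Subgroup H × ℕ)) (y : H) : 0 ≤ wt L y := by
  classical
  unfold wt
  apply List.prod_nonneg
  intro a ha
  obtain ⟨q, -, rfl⟩ := List.mem_map.mp ha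
  split_ifs
  · norm_num
  · positivity

theorem Q_nonneg {w : H → ℝ} (hw : ∀ y, 0 ≤ w y) (b : (H →* ℂˣ) → ι → ℂ) : 0 ≤ Q w b :=
  Finset.sum_nonneg fun k _ => Finset.sum_nonneg fun y _ => mul_nonneg (hw y) (by positivity)

open Classical in
/-- the saturated support -/
noncomputable def sup (M : Subgroup (H →* ℂˣ)) (b : (H →* ℂˣ) → ι → ℂ) (l : H →* ℂˣ) : ℝ := if ∃ μ ∈ M, b (l * μ) ≠ 0 then 1 else 0

/-- **the main inequality** -/
theorem main_ineq (R : AddSubgroup (ι → ℂ)) (hR : ∀ f ∈ R, f ≠ 0 → (Fintype.card ι : ℝ) ≤ ∑ k, ‖f k‖ ^ 2)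
    (L : List (Subgroup H × ℕ)) (hL : ∀ q ∈ L, q.1.index ≤ q.2) :
    ∀ b : (H →* ℂˣ) → ι → ℂ, (∀ l, b l ∈ R) → (Fintype.card H : ℝ) * Fintype.card ι * ∑ l, sup (ann (KL L)) b l ≤ Q (wt L) b := by
  classical
  induction L with
  | nil =>
    intro b hb
    have h1 : KL ([] : List (Subgroup H × ℕ)) = ⊤ := rfl
    have h2 : Q (wt ([] : List (Subgroup H × ℕ))) b = (Fintype.card H : ℝ) * ∑ l, ∑ k, ‖b l k‖ ^ 2 := by
      have h3 : wt ([] : List (Subgroup H × ℕ)) = fun _ => (1 : ℝ) := by funext y; simp [wt]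
      rw [h3]
      unfold Q
      simp only [one_mul]
      simp only [parseval_A]
      rw [← Finset.mul_sum, Finset.sum_comm]
    rw [h1, ann_top, h2, mul_assoc]
    apply mul_le_mul_of_nonneg_left _ (by positivity)
    rw [Finset.mul_sum]
    apply Finset.sum_le_sum
    intro l _
    unfold sup
    split_ifs with h
    · obtain ⟨μ, hμ, hne⟩ := h
      rw [Subgroup.mem_bot.mp hμ, hmul_one] at hne
      rw [mul_one]
      exact hR _ (hb l) hne
    · rw [mul_zero]
      exact Finset.sum_nonneg fun k _ => by positivity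
  | cons q L ih =>
    intro b hb
    have ih' := ih (fun q' hq' => hL q' (List.mem_cons_of_mem _ hq'))
    have hq := hL q (List.mem_cons_self ..)
    haveI := Fintype.ofFinite (ann q.1)
    have hw : wt (q :: L) = fun y => wt L y * (if y ∈ q.1 then 1 else 1 + (q.2 : ℝ)) := by
      funext y
      unfold wt
      rw [List.map_cons, List.prod_cons, mul_comm]
    rw [hw, Q_step]
    set n : ℝ := (Fintype.card (ann q.1) : ℝ) with hn
    have hnpos : 0 < n := by rw [hn]; exact_mod_cast Fintype.card_pos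
    have hnq : n ≤ q.2 := by
      rw [hn, ← Nat.card_eq_fintype_card, card_ann]
      exact_mod_cast hq
    set S : ℝ := ∑ μ : ann q.1, Q (wt L) (b - T (μ : H →* ℂˣ) b) with hS
    have hS0 : 0 ≤ S := Finset.sum_nonneg fun μ _ => Q_nonneg (wt_nonneg L) _
    have h1 : (1 / 2) * S ≤ (q.2 : ℝ) / (2 * n) * S := by
      apply mul_le_mul_of_nonneg_right _ hS0
      rw [div_le_div_iff₀ (by norm_num) (by positivity)]
      linarith
    have h2 := ih' b hb
    set z : (H →* ℂˣ) → ℝ := sup (ann (KL L)) b with hz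
    have h3 : ∀ μ : ann q.1, (Fintype.card H : ℝ) * Fintype.card ι * ∑ l, (z l - z (l * μ)) ^ 2 ≤ Q (wt L) (b - T (μ : H →* ℂˣ) b) := by
      intro μ
      refine le_trans ?_ (ih' (b - T (μ : H →* ℂˣ) b) (fun l => R.sub_mem (hb l) (hb _)))
      apply mul_le_mul_of_nonneg_left _ (by positivity)
      apply Finset.sum_le_sum
      intro l _
      rw [hz]
      unfold sup
      by_cases ha : ∃ ν ∈ ann (KL L), b (l * ν) ≠ 0 <;> by_cases hb' : ∃ ν ∈ ann (KL L), b (l * μ * ν) ≠ 0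
      · rw [if_pos ha, if_pos hb']
        split_ifs <;> norm_num
      · rw [if_pos ha, if_neg hb', if_pos]
        · norm_num
        · obtain ⟨ν, hν, hne⟩ := ha
          push Not at hb'
          refine ⟨ν, hν, ?_⟩
          rw [Pi.sub_apply]
          unfold T
          have := hb' ν hν
          rw [hmul_right_comm] at this
          rw [this, sub_zero]
          exact hne
      · rw [if_neg ha, if_pos hb', if_pos]
        · norm_num
        · obtain ⟨ν, hν, hne⟩ := hb'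
          push Not at ha
          refine ⟨ν, hν, ?_⟩
          rw [Pi.sub_apply]
          unfold T
          rw [ha ν hν, zero_sub, hmul_right_comm]
          exact neg_ne_zero.mpr hne
      · rw [if_neg ha, if_neg hb']
        split_ifs <;> norm_num
    have h4 : (Fintype.card H : ℝ) * Fintype.card ι * ∑ μ : ann q.1, ∑ l, (z l - z (l * μ)) ^ 2 ≤ S := by
      rw [Finset.mul_sum]
      exact Finset.sum_le_sum fun μ _ => h3 μ
    have h5 := comb (ann q.1) z (sup (ann (KL (q :: L))) b) (by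
      intro l
      rw [hz]; unfold sup
      split_ifs <;> simp) (by
      intro l
      unfold sup
      split_ifs with h
      · right
        refine ⟨rfl, ?_⟩
        obtain ⟨μ, hμ, hne⟩ := h
        rw [KL_cons, ann_inf, Subgroup.mem_sup] at hμ
        obtain ⟨α, hα, β, hβ, rfl⟩ := hμ
        refine ⟨⟨α, hα⟩, ?_⟩
        rw [hz]
        unfold sup
        rw [if_pos]
        exact ⟨β, hβ, by rw [← mul_assoc] at hne; exact hne⟩
      · left; rfl)
    have hc : (0 : ℝ) ≤ (Fintype.card H : ℝ) * Fintype.card ι := by positivity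
    calc (Fintype.card H : ℝ) * Fintype.card ι * ∑ l, sup (ann (KL (q :: L))) b l
        ≤ (Fintype.card H : ℝ) * Fintype.card ι * (∑ l, z l + (1 / 2) * ∑ μ : ann q.1, ∑ l, (z l - z (l * μ)) ^ 2) :=
          mul_le_mul_of_nonneg_left h5 hc
      _ = (Fintype.card H : ℝ) * Fintype.card ι * ∑ l, z l + (1 / 2) * ((Fintype.card H : ℝ) * Fintype.card ι * ∑ μ : ann q.1, ∑ l, (z l - z (l * μ)) ^ 2) := by ring
      _ ≤ Q (wt L) b + (1 / 2) * S := add_le_add h2 (mul_le_mul_of_nonneg_left h4 (by norm_num))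
      _ ≤ _ := by linarith

end Form

end CfsgLib.Knorr20
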