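import Cfsg.Agent.LibKnorr20
import Cfsg.Agent.LibKGV20

/-! Fixed points of an abelian group acting coprimely on an abelian group (seat helper20). -/

set_option autoImplicit false
set_option linter.all false

namespace CfsgLib.Knorr20

open Cfsg CfsgLib.CharBasic CfsgLib.KGV20
open scoped ComplexConjugate

universe u v

section Struct
variable {V : Type u} [CommGroup V] [Finite V] {H : Type v} [CommGroup H] [Finite H] (φ : H →* MulAut V)

/-- fixed points of `z` -/
def Cz (z : H) : Subgroup V where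
  carrier := {v | φ z v = v}
  one_mem' := map_one _
  mul_mem' := fun {x y} hx hy => by
    show φ z (x * y) = x * y
    rw [map_mul, show φ z x = x from hx, show φ z y = y from hy]
  inv_mem' := fun {x} hx => by
    show φ z x⁻¹ = x⁻¹
    rw [map_inv, show φ z x = x from hx]

theorem mem_Cz {z : H} {v : V} : v ∈ Cz φ z ↔ φ z v = v := Iff.rfl

theorem disj (hcop : (Nat.card V).Coprime (Nat.card H)) (y : H) (v : V) (h : φ y (v / φ y v) = v / φ y v) : v / φ y v = 1 := by
  set c := v / φ y v with hc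
  have h1 : ∀ k : ℕ, φ (y ^ k) v = v * (c ^ k)⁻¹ := by
    intro k
    induction k with
    | zero => simp
    | succ k ih =>
      have h2 : φ (y ^ (k + 1)) v = φ (y ^ k) (φ y v) := by rw [pow_succ, map_mul, MulAut.mul_apply]
      have h3 : φ y v = v * c⁻¹ := by rw [hc]; simp
      have h4 : ∀ j : ℕ, φ (y ^ j) c = c := by
        intro j
        induction j with
        | zero => simp
        | succ j ihj => rw [pow_succ, map_mul, MulAut.mul_apply, h, ihj]
      rw [h2, h3, map_mul, map_inv, h4, ih, pow_succ, mul_inv, mul_assoc]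
  have h2 := h1 (orderOf y)
  rw [pow_orderOf_eq_one, map_one, MulAut.one_apply] at h2
  have h3 : c ^ orderOf y = 1 := by
    have h4 : (c ^ orderOf y)⁻¹ = 1 := by
      have := (mul_eq_left (a := v)).mp h2.symm
      exact this
    exact inv_eq_one.mp h4
  have h4 : orderOf c ∣ Nat.card H := (orderOf_dvd_of_pow_eq_one h3).trans (orderOf_dvd_natCard y)
  have h5 := Nat.dvd_gcd (orderOf_dvd_natCard c) h4
  rw [hcop.gcd_eq_one] at h5
  exact orderOf_eq_one_iff.mp (Nat.dvd_one.mp h5)

theorem exists_list (hcop : (Nat.card V).Coprime (Nat.card H)) (n : ℕ) :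
    ∀ U : Subgroup V, Nat.card U = n → (∀ z : H, ∀ u ∈ U, φ z u ∈ U) →
      ∃ L : List (Subgroup H × ℕ), (∀ q ∈ L, q.1.index ≤ q.2) ∧ ∀ z : H, (Nat.card U : ℝ) = (Nat.card ↥(U ⊓ Cz φ z) : ℝ) * wt L z := by
  classical
  induction n using Nat.strong_induction_on with
  | _ n ih =>
  intro U hU hinv
  by_cases h1 : U = ⊥
  · refine ⟨[], by simp, fun z => ?_⟩
    subst h1
    rw [bot_inf_eq]; simp [wt]
  by_cases h2 : ∃ y : H, U ⊓ Cz φ y ≠ ⊥ ∧ ¬ U ≤ Cz φ y
  · obtain ⟨y, hy1, hy2⟩ := h2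
    set U1 := U ⊓ Cz φ y with hU1
    set U2 := U.map (dd φ y) with hU2
    have hcomm : ∀ z : H, ∀ v, φ z (φ y v) = φ y (φ z v) := fun z v => by
      rw [← MulAut.mul_apply, ← map_mul, mul_comm, map_mul, MulAut.mul_apply]
    have hinv1 : ∀ z : H, ∀ u ∈ U1, φ z u ∈ U1 := by
      rintro z u ⟨hu1, hu2⟩
      refine ⟨hinv z u hu1, ?_⟩
      show φ y (φ z u) = φ z u
      rw [← hcomm, show φ y u = u from hu2]
    have hinv2 : ∀ z : H, ∀ u ∈ U2, φ z u ∈ U2 := by
      rintro z _ ⟨u, hu, rfl⟩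
      refine ⟨φ z u, hinv z u hu, ?_⟩
      rw [dd_apply, dd_apply, map_div, hcomm]
    have hU2U : U2 ≤ U := by
      rintro _ ⟨u, hu, rfl⟩
      rw [dd_apply]
      exact div_mem hu (hinv y u hu)
    have hdisj : ∀ c, c ∈ U1 → c ∈ U2 → c = 1 := by
      rintro c ⟨-, hc1⟩ ⟨v, hv, rfl⟩
      exact disj φ hcop y v hc1
    have hcard : Nat.card U1 * Nat.card U2 = Nat.card U := by
      set f : U →* V := (dd φ y).comp U.subtype with hf
      have h3 : Nat.card f.ker * Nat.card f.range = Nat.card U := by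
        rw [← Subgroup.index_ker, Subgroup.card_mul_index]
      have h4 : f.range = U2 := by
        rw [hf, MonoidHom.range_comp, Subgroup.range_subtype]
      have h5 : Nat.card f.ker = Nat.card U1 := by
        apply Nat.card_congr
        refine ⟨fun x => ⟨x.1, x.1.2, ?_⟩, fun x => ⟨⟨x.1, x.2.1⟩, ?_⟩, fun x => rfl, fun x => rfl⟩
        · have h6 : (x.1 : V) / φ y x.1 = 1 := x.2
          exact (div_eq_one.mp h6).symm
        · show (x.1 : V) / φ y x.1 = 1
          rw [div_eq_one]; exact x.2.2.symm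
      rw [← h3, h4, h5]
    have hpos1 : 0 < Nat.card U1 := Nat.card_pos
    have hpos2 : 0 < Nat.card U2 := Nat.card_pos
    have hne1 : Nat.card U1 ≠ 1 := fun h => hy1 (Subgroup.card_eq_one.mp h)
    have hne2 : Nat.card U2 ≠ 1 := by
      intro h
      apply hy2
      intro u hu
      have h3 : dd φ y u ∈ U2 := ⟨u, hu, rfl⟩
      rw [Subgroup.card_eq_one.mp h, Subgroup.mem_bot, dd_apply, div_eq_one] at h3
      exact h3.symm
    have hlt1 : Nat.card U1 < n := by rw [← hU, ← hcard]; nlinarith [Nat.lt_of_le_of_ne hpos2 (Ne.symm hne2)]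
    have hlt2 : Nat.card U2 < n := by rw [← hU, ← hcard]; nlinarith [Nat.lt_of_le_of_ne hpos1 (Ne.symm hne1)]
    obtain ⟨L1, hL1, hw1⟩ := ih _ hlt1 U1 rfl hinv1
    obtain ⟨L2, hL2, hw2⟩ := ih _ hlt2 U2 rfl hinv2
    -- unique decomposition
    have hinj : ∀ a ∈ U1, ∀ b ∈ U2, ∀ a' ∈ U1, ∀ b' ∈ U2, a * b = a' * b' → a = a' ∧ b = b' := by
      intro a ha b hb a' ha' b' hb' h
      have h3 : a'⁻¹ * a = b' * b⁻¹ := by
        rw [inv_mul_eq_iff_eq_mul, ← mul_assoc, ← h, mul_inv_cancel_right]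
      have h4 : a'⁻¹ * a = 1 := hdisj _ (mul_mem (inv_mem ha') ha) (by rw [h3]; exact mul_mem hb' (inv_mem hb))
      have h5 : b' * b⁻¹ = 1 := by rw [← h3]; exact h4
      exact ⟨(inv_mul_eq_one.mp h4).symm, (mul_inv_eq_one.mp h5).symm⟩
    let F : U1 × U2 → U := fun q => ⟨q.1 * q.2, mul_mem q.1.2.1 (hU2U q.2.2)⟩
    have hFinj : Function.Injective F := by
      intro q q' h
      obtain ⟨h3, h4⟩ := hinj _ q.1.2 _ q.2.2 _ q'.1.2 _ q'.2.2 (congrArg Subtype.val h)
      exact Prod.ext (Subtype.ext h3) (Subtype.ext h4)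
    have hFbij : Function.Bijective F := by
      rw [Nat.bijective_iff_injective_and_card]
      exact ⟨hFinj, by rw [Nat.card_prod, hcard]⟩
    have hcz : ∀ z : H, Nat.card ↥(U ⊓ Cz φ z) = Nat.card ↥(U1 ⊓ Cz φ z) * Nat.card ↥(U2 ⊓ Cz φ z) := by
      intro z
      rw [← Nat.card_prod]
      symm
      apply Nat.card_eq_of_bijective (fun q : ↥(U1 ⊓ Cz φ z) × ↥(U2 ⊓ Cz φ z) =>
        (⟨q.1 * q.2, mul_mem q.1.2.1.1 (hU2U q.2.2.1), mul_mem q.1.2.2 q.2.2.2⟩ : ↥(U ⊓ Cz φ z)))
      constructor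
      · intro q q' h
        obtain ⟨h3, h4⟩ := hinj _ q.1.2.1 _ q.2.2.1 _ q'.1.2.1 _ q'.2.2.1 (congrArg Subtype.val h)
        exact Prod.ext (Subtype.ext h3) (Subtype.ext h4)
      · rintro ⟨x, hx1, hx2⟩
        obtain ⟨⟨a, b⟩, hab⟩ := hFbij.2 ⟨x, hx1⟩
        have hab' : (a : V) * b = x := congrArg Subtype.val hab
        have h3 : φ z a * φ z b = a * b := by rw [← map_mul, hab']; exact hx2
        obtain ⟨h4, h5⟩ := hinj _ (hinv1 z a a.2) _ (hinv2 z b b.2) _ a.2 _ b.2 h3
        exact ⟨(⟨a, a.2, h4⟩, ⟨b, b.2, h5⟩), Subtype.ext hab'⟩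
    refine ⟨L1 ++ L2, ?_, fun z => ?_⟩
    · intro q hq
      rcases List.mem_append.mp hq with h | h
      · exact hL1 q h
      · exact hL2 q h
    · have h3 : wt (L1 ++ L2) z = wt L1 z * wt L2 z := by
        unfold wt
        rw [List.map_append, List.prod_append]
      rw [h3, hcz z, ← hcard]
      push_cast
      rw [hw1 z, hw2 z]; ring
  · push Not at h2
    let K : Subgroup H :=
      { carrier := {y | U ≤ Cz φ y}
        one_mem' := fun u _ => by show φ 1 u = u; simp
        mul_mem' := fun {a b} ha hb u hu => by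
          show φ (a * b) u = u
          rw [map_mul, MulAut.mul_apply, show φ b u = u from hb hu, show φ a u = u from ha hu]
        inv_mem' := fun {a} ha u hu => by
          show φ a⁻¹ u = u
          calc φ a⁻¹ u = φ a⁻¹ (φ a u) := by rw [show φ a u = u from ha hu]
            _ = u := by rw [← MulAut.mul_apply, ← map_mul, inv_mul_cancel, map_one, MulAut.one_apply] }
    have hKmem : ∀ y, y ∈ K ↔ U ≤ Cz φ y := fun y => Iff.rfl
    refine ⟨[(K, Nat.card U - 1)], ?_, fun z => ?_⟩
    · intro q hq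
      rw [List.mem_singleton] at hq
      subst hq
      show K.index ≤ Nat.card U - 1
      obtain ⟨u, hu, hu1⟩ := (Subgroup.ne_bot_iff_exists_ne_one.mp h1 : ∃ u : U, u ≠ 1) |> fun ⟨u, hu⟩ => (⟨u.1, u.2, fun h => hu (Subtype.ext h)⟩ : ∃ u : V, u ∈ U ∧ u ≠ 1)
      -- the orbit of `u`
      let O : H → {x : U // x ≠ 1} := fun y => ⟨⟨φ y u, hinv y u hu⟩, fun h => hu1 (by
        have h3 : φ y u = 1 := congrArg Subtype.val h
        exact (map_eq_one_iff (φ y) (φ y).injective).mp h3)⟩
      have hO : ∀ y y', O y = O y' → y⁻¹ * y' ∈ K := by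
        intro y y' h
        have h3 : φ y u = φ y' u := congrArg (fun x => ((x.1 : U) : V)) h
        rw [hKmem]
        apply h2
        intro h4
        have h5 : u ∈ U ⊓ Cz φ (y⁻¹ * y') := by
          refine ⟨hu, ?_⟩
          show φ (y⁻¹ * y') u = u
          rw [map_mul, MulAut.mul_apply, ← h3, ← MulAut.mul_apply, ← map_mul, inv_mul_cancel, map_one, MulAut.one_apply]
        rw [h4, Subgroup.mem_bot] at h5
        exact hu1 h5
      have h6 : Nat.card {x : U // x ≠ 1} = Nat.card U - 1 := by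
        haveI := Fintype.ofFinite U
        rw [Nat.card_eq_fintype_card, Nat.card_eq_fintype_card, Fintype.card_subtype_compl, Fintype.card_subtype_eq]
      rw [← h6, Subgroup.index_eq_card]
      refine Nat.card_le_card_of_injective (fun q : H ⧸ K => O q.out) ?_
      intro q q' h
      have h7 := hO _ _ h
      rw [← QuotientGroup.out_eq' q, ← QuotientGroup.out_eq' q']
      exact QuotientGroup.eq.mpr h7
    · have hpos : 0 < Nat.card U := Nat.card_pos
      by_cases hz : z ∈ K
      · have h3 : U ⊓ Cz φ z = U := inf_eq_left.mpr hz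
        rw [h3]
        simp [wt, hz]
      · have h3 : U ⊓ Cz φ z = ⊥ := by
          by_contra h
          exact hz (h2 z h)
        rw [h3]
        have h4 : (1 : ℝ) + ((Nat.card U - 1 : ℕ) : ℝ) = Nat.card U := by
          rw [Nat.cast_sub hpos]; push_cast; ring
        simp only [wt, List.map_cons, List.map_nil, List.prod_cons, List.prod_nil, hz, if_false, h4]
        simp

end Struct

end CfsgLib.Knorr20
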