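import Mathlib
import Cfsg.Agent.EqBase
import Cfsg.Agent.LibExtraH28

/-! extraspecial 2-groups: the `ZMod 2`-valued commutator form, square map and the automorphisms
`y ↦ y` or `x * y` attached to an element `x` of order 4; nonsplitting of `Aut(Q)` over `Inn(Q)`. -/

set_option autoImplicit false
open Subgroup

namespace CfsgLib.LE11Ex2

open CfsgLib.ExtraH28

variable {Q : Type*} [Group Q] [Finite Q]

/-- basic data: the central involution -/
theorem exists_z (hQ : Cfsg.IsExtraspecial 2 Q) : ∃ z : Q, z ≠ 1 ∧ z * z = 1 ∧ (∀ g, g * z = z * g) ∧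
    (∀ c ∈ center Q, c = 1 ∨ c = z) := by
  have h2 : Nat.card (center Q) = 2 := hQ.2
  obtain ⟨a, b, hab, huniv⟩ := Nat.card_eq_two_iff.1 h2
  obtain ⟨z, hz1, hz⟩ : ∃ z : center Q, z ≠ 1 ∧ ∀ c : center Q, c = 1 ∨ c = z := by
    have hmem : ∀ c : center Q, c = a ∨ c = b := by
      intro c
      have : c ∈ ({a, b} : Set (center Q)) := by rw [huniv]; trivial
      simpa using this
    rcases hmem 1 with h | h
    · exact ⟨b, fun hb => hab (by rw [← h, hb]), fun c => by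
        rcases hmem c with h' | h'
        · exact Or.inl (by rw [h', h])
        · exact Or.inr h'⟩
    · exact ⟨a, fun ha => hab (by rw [← h, ha]), fun c => by
        rcases hmem c with h' | h'
        · exact Or.inr h'
        · exact Or.inl (by rw [h', h])⟩
  refine ⟨z, fun h => hz1 (Subtype.ext h), ?_, fun g => (mem_center_iff.1 z.2 g), ?_⟩
  · rcases hz (z * z) with h | h
    · exact congrArg Subtype.val h
    · exfalso; apply hz1
      exact mul_left_cancel (h.trans (mul_one z).symm)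
  · intro c hc
    rcases hz ⟨c, hc⟩ with h | h
    · exact Or.inl (congrArg Subtype.val h)
    · exact Or.inr (congrArg Subtype.val h)

open Classical in
/-- commutator form -/
noncomputable def b (x y : Q) : ZMod 2 := if x * y = y * x then 0 else 1

omit [Finite Q] in
theorem b_eq_zero {x y : Q} : b x y = 0 ↔ x * y = y * x := by
  unfold b; split_ifs with h <;> simp [h]

omit [Finite Q] in
theorem b_comm (x y : Q) : b x y = b y x := by
  unfold b
  by_cases h : x * y = y * x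
  · rw [if_pos h, if_pos h.symm]
  · rw [if_neg h, if_neg (fun h' => h h'.symm)]

omit [Finite Q] in
theorem b_self (x : Q) : b x x = 0 := b_eq_zero.2 rfl

variable {z : Q}

/-- the standing data on the central involution -/
structure Z2 (z : Q) : Prop where
  ex : Cfsg.IsExtraspecial 2 Q
  ne : z ≠ 1
  sq : z * z = 1
  cen : ∀ g, g * z = z * g
  dich : ∀ c ∈ center Q, c = 1 ∨ c = z

theorem Z2.cases (h : Z2 z) (x y : Q) : x * y = y * x ∨ x * y = z * (y * x) := by
  rcases h.dich _ (comm_mem_center h.ex x y) with h1 | h1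
  · left
    exact comm_eq_one_iff.1 h1
  · right
    calc x * y = (x * y * x⁻¹ * y⁻¹) * (y * x) := by group
      _ = z * (y * x) := by rw [h1]

theorem Z2.b_one (h : Z2 z) {x y : Q} : b x y = 1 ↔ x * y = z * (y * x) := by
  unfold b
  split_ifs with h1
  · constructor
    · intro h2; exact absurd h2 (by decide)
    · intro h2
      exfalso; apply h.ne
      rw [h1] at h2
      exact (mul_eq_right.1 h2.symm)
  · constructor
    · intro _; exact (h.cases x y).resolve_left h1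
    · intro _; rfl

omit [Finite Q] in
theorem zmod2 (a : ZMod 2) : a = 0 ∨ a = 1 := by
  revert a; decide

theorem Z2.b_mul_right (h : Z2 z) (x y y' : Q) : b x (y * y') = b x y + b x y' := by
  rcases zmod2 (b x y) with h1 | h1 <;> rcases zmod2 (b x y') with h2 | h2 <;> rw [h1, h2]
  · rw [b_eq_zero] at h1 h2
    rw [show (0 : ZMod 2) + 0 = 0 from rfl, b_eq_zero, ← mul_assoc, h1, mul_assoc, h2, mul_assoc]
  · rw [b_eq_zero] at h1; rw [h.b_one] at h2
    rw [show (0 : ZMod 2) + 1 = 1 from rfl, h.b_one, ← mul_assoc, h1, mul_assoc, h2, ← mul_assoc, h.cen y,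
      mul_assoc, mul_assoc]
  · rw [b_eq_zero] at h2; rw [h.b_one] at h1
    rw [show (1 : ZMod 2) + 0 = 1 from rfl, h.b_one, ← mul_assoc, h1, mul_assoc, mul_assoc, h2, mul_assoc]
  · rw [h.b_one] at h1 h2
    rw [show (1 : ZMod 2) + 1 = 0 from rfl, b_eq_zero, ← mul_assoc, h1, mul_assoc, mul_assoc, h2, ← mul_assoc y,
      h.cen y, mul_assoc z y, ← mul_assoc z z, h.sq, one_mul, mul_assoc]

theorem Z2.b_mul_left (h : Z2 z) (x x' y : Q) : b (x * x') y = b x y + b x' y := by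
  rw [b_comm, h.b_mul_right, b_comm y x, b_comm y x']

theorem Z2.b_one_left (h : Z2 z) (y : Q) : b 1 y = 0 := b_eq_zero.2 (by simp)

theorem Z2.b_inv (h : Z2 z) (x y : Q) : b x y⁻¹ = b x y := by
  have h1 := h.b_mul_right x y y⁻¹
  rw [mul_inv_cancel, b_comm, h.b_one_left] at h1
  revert h1
  generalize b x y = c
  generalize b x y⁻¹ = d
  revert c d; decide

theorem Z2.b_center (h : Z2 z) {c : Q} (hc : c ∈ center Q) (y : Q) : b y c = 0 :=
  b_eq_zero.2 (mem_center_iff.1 hc y)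

theorem Z2.sq_cases (h : Z2 z) (x : Q) : x * x = 1 ∨ x * x = z := by
  have := pow_mem_center h.ex x
  rw [pow_two] at this
  exact h.dich _ this

/-- the "transvection" automorphism of an element of order four -/
noncomputable def Tfun (x y : Q) : Q := if b x y = 0 then y else x * y

theorem Z2.Tfun_mul (h : Z2 z) {x : Q} (hx : x * x = z) (y y' : Q) :
    Tfun x (y * y') = Tfun x y * Tfun x y' := by
  unfold Tfun
  rw [h.b_mul_right]
  rcases zmod2 (b x y) with h1 | h1 <;> rcases zmod2 (b x y') with h2 | h2 <;> rw [h1, h2]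
  · simp
  · rw [b_eq_zero] at h1
    simp only [zero_add, one_ne_zero, if_false, if_true]
    rw [← mul_assoc, h1, mul_assoc]
  · simp only [add_zero, one_ne_zero, if_false, if_true]
    rw [mul_assoc]
  · rw [h.b_one] at h1
    rw [show (1 : ZMod 2) + 1 = 0 from rfl]
    simp only [one_ne_zero, if_false, if_true]
    -- x y x y' = x (y x) y' 
    have h3 : y * x = z * (x * y) := by
      rw [h1, ← mul_assoc, h.sq, one_mul]
    calc y * y' = (z * z) * (y * y') := by rw [h.sq, one_mul]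
      _ = z * (x * x) * (y * y') := by rw [hx]
      _ = (z * x) * (x * y) * y' := by simp only [mul_assoc]
      _ = (x * z) * (x * y) * y' := by rw [h.cen x]
      _ = x * (z * (x * y)) * y' := by simp only [mul_assoc]
      _ = x * (y * x) * y' := by rw [h3]
      _ = x * y * (x * y') := by simp only [mul_assoc]

theorem Z2.b_Tfun (h : Z2 z) (w x y : Q) : b w (Tfun x y) = b w y + b x y * b w x := by
  unfold Tfun
  rcases zmod2 (b x y) with h1 | h1 <;> rw [h1]
  · simp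
  · simp only [one_ne_zero, if_false, one_mul]
    rw [h.b_mul_right, add_comm]

theorem Z2.Tfun_Tfun (h : Z2 z) {x : Q} (y : Q) : Tfun x (Tfun x y) = if b x y = 0 then y else x * (x * y) := by
  have h1 := h.b_Tfun x x y
  rw [b_self, mul_zero, add_zero] at h1
  rw [Tfun, h1]
  unfold Tfun
  split_ifs <;> rfl

theorem Z2.Tfun_sq (h : Z2 z) {x : Q} (hx : x * x = z) (y : Q) : Tfun x (Tfun x y) = x * y * x⁻¹ := by
  rw [h.Tfun_Tfun]
  rcases zmod2 (b x y) with h1 | h1 <;> rw [h1]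
  · rw [b_eq_zero] at h1
    simp [h1]
  · rw [h.b_one] at h1
    simp only [one_ne_zero, if_false]
    have h2 : x * y * x⁻¹ = z * y := by rw [h1]; group
    rw [h2, ← mul_assoc, hx]

theorem Z2.Tfun_comm (h : Z2 z) {x x' : Q} (hxx : b x x' = 0) (y : Q) :
    Tfun x (Tfun x' y) = Tfun x' (Tfun x y) := by
  have h1 := h.b_Tfun x x' y
  have h2 := h.b_Tfun x' x y
  rw [hxx, mul_zero, add_zero] at h1
  rw [b_comm x' x, hxx, mul_zero, add_zero] at h2
  have hc : x * x' = x' * x := b_eq_zero.1 hxx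
  rw [Tfun, h1, Tfun, Tfun, h2, Tfun]
  split_ifs
  · rfl
  · rfl
  · rfl
  · rw [← mul_assoc, hc, mul_assoc]

/-- the automorphism -/
noncomputable def T (h : Z2 z) {x : Q} (hx : x * x = z) : MulAut Q :=
  MulEquiv.ofBijective (MonoidHom.mk' (Tfun x) (h.Tfun_mul hx)) (by
    rw [Finite.injective_iff_bijective.symm]
    intro y y' hyy
    have h1 : Tfun x (Tfun x y) = Tfun x (Tfun x y') := congrArg (Tfun x) hyy
    rw [h.Tfun_sq hx, h.Tfun_sq hx] at h1
    exact mul_left_cancel (mul_right_cancel h1))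

theorem T_apply (h : Z2 z) {x : Q} (hx : x * x = z) (y : Q) : T h hx y = Tfun x y := rfl

theorem half (h : Z2 z) (E : Subgroup Q) {y : Q} (hy : y ∉ center Q) :
    Nat.card E ≤ 2 * Nat.card ↥(E ⊓ centralizer ({y} : Set Q)) := by
  have h1 := index_centralizer_singleton h.ex hy
  have h2 := Subgroup.card_mul_index ((centralizer ({y} : Set Q)).subgroupOf E)
  have h3 : Nat.card ((centralizer ({y} : Set Q)).subgroupOf E) = Nat.card ↥(E ⊓ centralizer ({y} : Set Q)) := by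
    rw [← Subgroup.card_map_of_injective E.subtype_injective, Subgroup.subgroupOf_map_subtype, inf_comm]
  have h4 : ((centralizer ({y} : Set Q)).subgroupOf E).index ≤ 2 := by
    have h5 : (centralizer ({y} : Set Q)).relIndex E ≤ (centralizer ({y} : Set Q)).relIndex ⊤ :=
      Subgroup.relIndex_le_of_le_right le_top (by rw [Subgroup.relIndex_top_right, h1]; decide)
    rw [Subgroup.relIndex_top_right, h1] at h5; exact h5
  rw [h3] at h2
  calc Nat.card E = Nat.card ↥(E ⊓ centralizer ({y} : Set Q)) * ((centralizer ({y} : Set Q)).subgroupOf E).index := h2.symm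
    _ ≤ Nat.card ↥(E ⊓ centralizer ({y} : Set Q)) * 2 := Nat.mul_le_mul_left _ h4
    _ = _ := mul_comm _ _

theorem exists_noncentral (h : Z2 z) (A : Subgroup Q) (hA : 2 < Nat.card A) : ∃ e ∈ A, e ∉ center Q := by
  by_contra hcon
  push Not at hcon
  have h1 := Subgroup.card_le_of_le (fun x hx => hcon x hx : A ≤ center Q)
  have h2 : Nat.card (center Q) = 2 := h.ex.2
  omega

theorem Z2.b_one' (h : Z2 z) {e : Q} (he : e ∉ center Q) : ∃ y, b e y = 1 := by
  have hz : z ∈ center Q := mem_center_iff.2 h.cen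
  obtain ⟨y, hy⟩ := exists_comm_eq h.ex he hz
  refine ⟨y, h.b_one.2 ?_⟩
  calc e * y = (e * y * e⁻¹ * y⁻¹) * (y * e) := by group
    _ = z * (y * e) := by rw [hy]

omit [Finite Q] in
theorem notMem_center_of_b {x y : Q} (hb : b x y = 1) : y ∉ center Q := by
  intro hc
  have : b x y = 0 := b_eq_zero.2 (mem_center_iff.1 hc x)
  rw [this] at hb
  exact absurd hb (by decide)

theorem exists_triple (h : Z2 z) (E : Subgroup Q) (hE1 : ∀ x ∈ E, x * x = 1)
    (hE2 : ∀ x ∈ E, ∀ y ∈ E, b x y = 0) (hcard : 16 ≤ Nat.card E) :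
    ∃ e1 e2 e3 x1 x2 x3 : Q, b e1 x1 = 1 ∧ b e1 x2 = 0 ∧ b e1 x3 = 0 ∧ b e2 x1 = 0 ∧ b e2 x2 = 1 ∧
      b e2 x3 = 0 ∧ b e3 x1 = 0 ∧ b e3 x2 = 0 ∧ b e3 x3 = 1 ∧ b x1 x2 = 0 ∧ b x1 x3 = 0 ∧ b x2 x3 = 0 ∧
      x1 * x1 = z ∧ x2 * x2 = z ∧ x3 * x3 = z := by
  obtain ⟨e1, he1, he1c⟩ := exists_noncentral h E (by omega)
  obtain ⟨y1, h11⟩ := h.b_one' he1c
  have hA1 := half h E (notMem_center_of_b h11)
  set A1 := E ⊓ centralizer ({y1} : Set Q) with hA1d
  obtain ⟨e2, he2, he2c⟩ := exists_noncentral h A1 (by omega)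
  have h21 : b e2 y1 = 0 := b_eq_zero.2 (mem_centralizer_singleton_iff.1 he2.2)
  obtain ⟨y2, h12, h22⟩ : ∃ y2, b e1 y2 = 0 ∧ b e2 y2 = 1 := by
    obtain ⟨y, hy⟩ := h.b_one' he2c
    rcases zmod2 (b e1 y) with h1 | h1
    · exact ⟨y, h1, hy⟩
    · exact ⟨y * y1, by rw [h.b_mul_right, h1, h11]; decide, by rw [h.b_mul_right, hy, h21]; decide⟩
  have hA2 := half h A1 (notMem_center_of_b h22)
  set A2 := A1 ⊓ centralizer ({y2} : Set Q) with hA2d
  obtain ⟨e3, he3, he3c⟩ := exists_noncentral h A2 (by omega)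
  have h31 : b e3 y1 = 0 := b_eq_zero.2 (mem_centralizer_singleton_iff.1 he3.1.2)
  have h32 : b e3 y2 = 0 := b_eq_zero.2 (mem_centralizer_singleton_iff.1 he3.2)
  obtain ⟨y3, h13, h23, h33⟩ : ∃ y3, b e1 y3 = 0 ∧ b e2 y3 = 0 ∧ b e3 y3 = 1 := by
    obtain ⟨y, hy⟩ := h.b_one' he3c
    rcases zmod2 (b e1 y) with h1 | h1 <;> rcases zmod2 (b e2 y) with h2 | h2
    · exact ⟨y, h1, h2, hy⟩
    · exact ⟨y * y2, by rw [h.b_mul_right, h1, h12]; decide, by rw [h.b_mul_right, h2, h22]; decide,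
        by rw [h.b_mul_right, hy, h32]; decide⟩
    · exact ⟨y * y1, by rw [h.b_mul_right, h1, h11]; decide, by rw [h.b_mul_right, h2, h21]; decide,
        by rw [h.b_mul_right, hy, h31]; decide⟩
    · exact ⟨y * y1 * y2, by rw [h.b_mul_right, h.b_mul_right, h1, h11, h12]; decide,
        by rw [h.b_mul_right, h.b_mul_right, h2, h21, h22]; decide,
        by rw [h.b_mul_right, h.b_mul_right, hy, h31, h32]; decide⟩
  have he1E : e1 ∈ E := he1
  have he2E : e2 ∈ E := he2.1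
  have he3E : e3 ∈ E := he3.1.1
  have c11 := hE2 e1 he1E e1 he1E
  have c12 := hE2 e1 he1E e2 he2E
  have c13 := hE2 e1 he1E e3 he3E
  have c21 := hE2 e2 he2E e1 he1E
  have c22 := hE2 e2 he2E e2 he2E
  have c23 := hE2 e2 he2E e3 he3E
  have c31 := hE2 e3 he3E e1 he1E
  have c32 := hE2 e3 he3E e2 he2E
  have c33 := hE2 e3 he3E e3 he3E
  -- make them commute
  obtain ⟨w2, k12, k22, k32, kc12⟩ : ∃ w2, b e1 w2 = 0 ∧ b e2 w2 = 1 ∧ b e3 w2 = 0 ∧ b y1 w2 = 0 := by
    rcases zmod2 (b y1 y2) with h1 | h1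
    · exact ⟨y2, h12, h22, h32, h1⟩
    · exact ⟨y2 * e1, by rw [h.b_mul_right, h12, c11]; decide, by rw [h.b_mul_right, h22, c21]; decide,
        by rw [h.b_mul_right, h32, c31]; decide, by rw [h.b_mul_right, h1, b_comm y1 e1, h11]; decide⟩
  obtain ⟨w3, k13, k23, k33, kc13, kc23⟩ : ∃ w3, b e1 w3 = 0 ∧ b e2 w3 = 0 ∧ b e3 w3 = 1 ∧ b y1 w3 = 0 ∧
      b w2 w3 = 0 := by
    have m1 : b y1 e1 = 1 := by rw [b_comm]; exact h11
    have m2 : b y1 e2 = 0 := by rw [b_comm]; exact h21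
    have m3 : b w2 e1 = 0 := by rw [b_comm]; exact k12
    have m4 : b w2 e2 = 1 := by rw [b_comm]; exact k22
    rcases zmod2 (b y1 y3) with h1 | h1 <;> rcases zmod2 (b w2 y3) with h2 | h2
    · exact ⟨y3, h13, h23, h33, h1, h2⟩
    · refine ⟨y3 * e2, ?_, ?_, ?_, ?_, ?_⟩ <;>
        simp only [h.b_mul_right, h13, h23, h33, h1, h2, c12, c22, c32, m1, m2, m3, m4] <;> decide
    · refine ⟨y3 * e1, ?_, ?_, ?_, ?_, ?_⟩ <;>
        simp only [h.b_mul_right, h13, h23, h33, h1, h2, c11, c21, c31, m1, m2, m3, m4] <;> decide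
    · refine ⟨y3 * e1 * e2, ?_, ?_, ?_, ?_, ?_⟩ <;>
        simp only [h.b_mul_right, h13, h23, h33, h1, h2, c11, c21, c31, c12, c22, c32, m1, m2, m3, m4] <;> decide
  -- make the squares equal to z
  have hsq : ∀ e w : Q, e * e = 1 → b e w = 1 → w * w = 1 → (w * e) * (w * e) = z := by
    intro e w he hew hw
    rw [h.b_one] at hew
    calc (w * e) * (w * e) = w * (e * w) * e := by simp only [mul_assoc]
      _ = w * (z * (w * e)) * e := by rw [hew]
      _ = (w * z) * (w * (e * e)) := by simp only [mul_assoc]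
      _ = (z * w) * w := by rw [he, mul_one, h.cen w]
      _ = z := by rw [mul_assoc, hw, mul_one]
  obtain ⟨x1, a1, a2, a3, a4, a5, a6⟩ : ∃ x1, b e1 x1 = 1 ∧ b e2 x1 = 0 ∧ b e3 x1 = 0 ∧ b x1 w2 = 0 ∧ b x1 w3 = 0 ∧
      x1 * x1 = z := by
    rcases h.sq_cases y1 with h1 | h1
    · refine ⟨y1 * e1, ?_, ?_, ?_, ?_, ?_, hsq e1 y1 (hE1 e1 he1E) h11 h1⟩ <;>
        simp only [h.b_mul_right, h.b_mul_left, h11, h21, h31, kc12, kc13, c11, c21, c31, k12, k13] <;> decide
    · exact ⟨y1, h11, h21, h31, kc12, kc13, h1⟩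
  obtain ⟨x2, d1, d2, d3, d4, d5, d6⟩ : ∃ x2, b e1 x2 = 0 ∧ b e2 x2 = 1 ∧ b e3 x2 = 0 ∧ b x1 x2 = 0 ∧ b x2 w3 = 0 ∧
      x2 * x2 = z := by
    have m1 : b x1 e2 = 0 := by rw [b_comm]; exact a2
    rcases h.sq_cases w2 with h1 | h1
    · refine ⟨w2 * e2, ?_, ?_, ?_, ?_, ?_, hsq e2 w2 (hE1 e2 he2E) k22 h1⟩ <;>
        simp only [h.b_mul_right, h.b_mul_left, k12, k22, k32, a4, kc23, c12, c22, c32, k23, m1] <;> decide
    · exact ⟨w2, k12, k22, k32, a4, kc23, h1⟩
  obtain ⟨x3, f1, f2, f3, f4, f5, f6⟩ : ∃ x3, b e1 x3 = 0 ∧ b e2 x3 = 0 ∧ b e3 x3 = 1 ∧ b x1 x3 = 0 ∧ b x2 x3 = 0 ∧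
      x3 * x3 = z := by
    have m1 : b x1 e3 = 0 := by rw [b_comm]; exact a3
    have m2 : b x2 e3 = 0 := by rw [b_comm]; exact d3
    rcases h.sq_cases w3 with h1 | h1
    · refine ⟨w3 * e3, ?_, ?_, ?_, ?_, ?_, hsq e3 w3 (hE1 e3 he3E) k33 h1⟩ <;>
        simp only [h.b_mul_right, h.b_mul_left, k13, k23, k33, a5, d5, c13, c23, c33, m1, m2] <;> decide
    · exact ⟨w3, k13, k23, k33, a5, d5, h1⟩
  exact ⟨e1, e2, e3, x1, x2, x3, a1, d1, f1, a2, d2, f2, a3, d3, f3, d4, f4, f5, a6, d6, f6⟩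

end CfsgLib.LE11Ex2
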