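import Mathlib

/-! Multiply transitive groups: parity tools (for the Livingstone-Wagner lemmas). -/

set_option autoImplicit false
set_option linter.all false

namespace CfsgLib.LW20

variable {α : Type*} [Fintype α] [DecidableEq α]

/-- every injective map on a `k`-set is realized -/
def TF (G : Subgroup (Equiv.Perm α)) (k : ℕ) : Prop :=
  ∀ (s : Finset α) (f : α → α), s.card = k → Set.InjOn f s → ∃ g ∈ G, ∀ x ∈ s, g x = f x

theorem tf_of {G : Subgroup (Equiv.Perm α)} {k : ℕ} (h : MulAction.IsMultiplyPretransitive G α k) :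
    TF G k := by
  intro s f hs hf
  haveI := h
  let e : Fin k ≃ s := (s.equivFinOfCardEq hs).symm
  let x : Fin k ↪ α := ⟨fun i => (e i : α), fun i j hij => e.injective (Subtype.ext hij)⟩
  let y : Fin k ↪ α := ⟨fun i => f (e i), fun i j hij =>
    e.injective (Subtype.ext (hf (e i).2 (e j).2 hij))⟩
  obtain ⟨g, hg⟩ := MulAction.exists_smul_eq G x y
  refine ⟨g, g.2, fun z hz => ?_⟩
  have h1 : (g • x) (e.symm ⟨z, hz⟩) = y (e.symm ⟨z, hz⟩) := by rw [hg]
  have h2 : (g • x) (e.symm ⟨z, hz⟩) = (g : Equiv.Perm α) z := by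
    change (g : Equiv.Perm α) (e (e.symm ⟨z, hz⟩) : α) = _
    rw [Equiv.apply_symm_apply]
  have h3 : y (e.symm ⟨z, hz⟩) = f z := by
    change f (e (e.symm ⟨z, hz⟩) : α) = _
    rw [Equiv.apply_symm_apply]
  rw [← h2, h1, h3]

/-- a fixed-point-free involution on a finite set: even cardinality -/
theorem even_of_inv {β : Type*} (s : Finset β) (f : β → β) (hf : ∀ x ∈ s, f x ∈ s)
    (hff : ∀ x ∈ s, f (f x) = x) (hne : ∀ x ∈ s, f x ≠ x) : Even s.card := by
  classical
  have h : ∑ x ∈ s, (1 : ZMod 2) = 0 := by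
    apply Finset.sum_involution (fun x _ => f x)
    · intro x hx; decide
    · intro x hx _; exact hne x hx
    · intro x hx; exact hf x hx
    · intro x hx; exact hff x hx
  rw [Finset.sum_const, nsmul_eq_mul, mul_one] at h
  exact (ZMod.natCast_eq_zero_iff_even).1 h

/-- the fixed points of an involution on an odd set: an odd number -/
theorem odd_fix_of_inv {β : Type*} [DecidableEq β] (s : Finset β) (f : β → β) (hf : ∀ x ∈ s, f x ∈ s)
    (hff : ∀ x ∈ s, f (f x) = x) (hs : Odd s.card) : Odd (s.filter (fun x => f x = x)).card := by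
  have h1 : Even (s.filter (fun x => ¬ f x = x)).card := by
    apply even_of_inv _ f
    · intro x hx
      rw [Finset.mem_filter] at hx ⊢
      refine ⟨hf x hx.1, fun h => hx.2 ?_⟩
      rw [hff x hx.1] at h
      exact h.symm
    · intro x hx; rw [Finset.mem_filter] at hx; exact hff x hx.1
    · intro x hx; rw [Finset.mem_filter] at hx; exact hx.2
  have h2 := Finset.card_filter_add_card_filter_not (s := s) (fun x => f x = x)
  rw [← h2] at hs
  exact (Nat.odd_add.1 hs).2 h1

theorem exists_fix_of_inv {β : Type*} [DecidableEq β] (s : Finset β) (f : β → β) (hf : ∀ x ∈ s, f x ∈ s)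
    (hff : ∀ x ∈ s, f (f x) = x) (hs : Odd s.card) : ∃ x ∈ s, f x = x := by
  have h := odd_fix_of_inv s f hf hff hs
  obtain ⟨x, hx⟩ := Finset.card_pos.1 h.pos
  rw [Finset.mem_filter] at hx
  exact ⟨x, hx.1, hx.2⟩

/-- fixed points of a permutation -/
def Fx (g : Equiv.Perm α) : Finset α := Finset.univ.filter (fun x => g x = x)

theorem mem_Fx {g : Equiv.Perm α} {x : α} : x ∈ Fx g ↔ g x = x := by
  unfold Fx; rw [Finset.mem_filter]; exact ⟨fun h => h.2, fun h => ⟨Finset.mem_univ _, h⟩⟩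

/-- parity of the number of fixed points of an involution -/
theorem Fx_parity {t : Equiv.Perm α} (ht : t * t = 1) : Even (Fintype.card α - (Fx t).card) := by
  have h1 : Even (Finset.univ.filter (fun x => ¬ t x = x)).card := by
    have htt : ∀ x, t (t x) = x := fun x => by
      have := congrArg (fun g : Equiv.Perm α => g x) ht
      exact this
    apply even_of_inv _ t
    · intro x hx
      rw [Finset.mem_filter] at hx ⊢
      refine ⟨Finset.mem_univ _, fun h => hx.2 ?_⟩
      rw [htt x] at h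
      exact h.symm
    · intro x hx; exact htt x
    · intro x hx; rw [Finset.mem_filter] at hx; exact hx.2
  have h2 := Finset.card_filter_add_card_filter_not (s := (Finset.univ : Finset α)) (fun x => t x = x)
  rw [Finset.card_univ] at h2
  unfold Fx
  rw [← h2, Nat.add_sub_cancel_left]
  exact h1

section grp

open Classical in
/-- elements of `G` agreeing with `f` on `s` -/
noncomputable def M (G : Subgroup (Equiv.Perm α)) (s : Finset α) (f : α → α) : Finset (Equiv.Perm α) :=
  Finset.univ.filter (fun g => g ∈ G ∧ ∀ x ∈ s, g x = f x)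

theorem mem_M {G : Subgroup (Equiv.Perm α)} {s : Finset α} {f : α → α} {g : Equiv.Perm α} :
    g ∈ M G s f ↔ g ∈ G ∧ ∀ x ∈ s, g x = f x := by
  simp only [M, Finset.mem_filter, Finset.mem_univ, true_and]

/-- no involution fixes `s` pointwise -/
def NoInv (G : Subgroup (Equiv.Perm α)) (s : Finset α) : Prop :=
  ∀ g ∈ G, (∀ x ∈ s, g x = x) → g * g = 1 → g = 1

theorem odd_E {G : Subgroup (Equiv.Perm α)} {s : Finset α} (h : NoInv G s) : Odd (M G s id).card := by
  have h1 : Even ((M G s id).erase 1).card := by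
    apply even_of_inv _ (fun g => g⁻¹)
    · intro g hg
      rw [Finset.mem_erase, mem_M] at hg ⊢
      refine ⟨fun h => hg.1 (inv_eq_one.1 h), G.inv_mem hg.2.1, fun x hx => ?_⟩
      rw [Equiv.Perm.inv_eq_iff_eq]; exact (hg.2.2 x hx).symm
    · intro g _; exact inv_inv g
    · intro g hg h2
      rw [Finset.mem_erase, mem_M] at hg
      exact hg.1 (h g hg.2.1 hg.2.2 (by nth_rw 1 [← h2]; exact inv_mul_cancel g))
  have h2 : (1 : Equiv.Perm α) ∈ M G s id := mem_M.2 ⟨G.one_mem, fun x _ => rfl⟩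
  rw [Finset.card_erase_of_mem h2] at h1
  have h3 : 0 < (M G s id).card := Finset.card_pos.2 ⟨_, h2⟩
  obtain ⟨r, hr⟩ := h1
  exact ⟨r, by omega⟩

theorem odd_M {G : Subgroup (Equiv.Perm α)} {s : Finset α} (h : NoInv G s) {f : α → α}
    {g₀ : Equiv.Perm α} (hg₀ : g₀ ∈ M G s f) : Odd (M G s f).card := by
  have h1 : (M G s f).card = (M G s id).card := by
    symm
    apply Finset.card_bij (fun g _ => g₀ * g)
    · intro g hg
      rw [mem_M] at hg hg₀ ⊢
      refine ⟨G.mul_mem hg₀.1 hg.1, fun x hx => ?_⟩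
      rw [Equiv.Perm.mul_apply, hg.2 x hx]; exact hg₀.2 x hx
    · intro g _ g' _ h; exact mul_left_cancel h
    · intro g hg
      rw [mem_M] at hg hg₀
      refine ⟨g₀⁻¹ * g, mem_M.2 ⟨G.mul_mem (G.inv_mem hg₀.1) hg.1, fun x hx => ?_⟩, by group⟩
      rw [Equiv.Perm.mul_apply, hg.2 x hx, ← hg₀.2 x hx, Equiv.Perm.inv_eq_iff_eq]; rfl
  rw [h1]; exact odd_E h

/-- realize an involutive pattern by an involution commuting with `w` -/
theorem exists_inv {G : Subgroup (Equiv.Perm α)} {s : Finset α} (h : NoInv G s) {f : α → α}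
    (hfs : ∀ x ∈ s, f x ∈ s) (hff : ∀ x ∈ s, f (f x) = x)
    {g₀ : Equiv.Perm α} (hg₀ : g₀ ∈ M G s f) {w : Equiv.Perm α} (hw : w ∈ G) (hww : w * w = 1)
    (hws : ∀ x ∈ s, w x ∈ s) (hwf : ∀ x ∈ s, w (f (w x)) = f x) :
    ∃ g ∈ M G s f, g * g = 1 ∧ g * w = w * g := by
  have hwx : ∀ x, w (w x) = x := fun x => congrArg (fun g : Equiv.Perm α => g x) hww
  have hwi : w⁻¹ = w := inv_eq_of_mul_eq_one_left hww
  have h1 := odd_M h hg₀
  have h2 := odd_fix_of_inv (M G s f) (fun g => w * g * w) (by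
    intro g hg
    rw [mem_M] at hg ⊢
    refine ⟨G.mul_mem (G.mul_mem hw hg.1) hw, fun x hx => ?_⟩
    rw [Equiv.Perm.mul_apply, Equiv.Perm.mul_apply, hg.2 _ (hws x hx)]
    exact hwf x hx) (by
    intro g _
    calc w * (w * g * w) * w = (w * w) * g * (w * w) := by group
      _ = g := by rw [hww]; group) h1
  obtain ⟨g, hg, hgg⟩ := exists_fix_of_inv _ (fun g : Equiv.Perm α => g⁻¹) (by
    intro g hg
    rw [Finset.mem_filter, mem_M] at hg ⊢
    refine ⟨⟨G.inv_mem hg.1.1, fun x hx => ?_⟩, ?_⟩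
    · rw [Equiv.Perm.inv_eq_iff_eq, hg.1.2 _ (hfs x hx), hff x hx]
    · have h3 := congrArg (fun z : Equiv.Perm α => z⁻¹) hg.2
      simp only [mul_inv_rev, hwi] at h3
      rw [← mul_assoc] at h3
      exact h3) (by intro g _; exact inv_inv g) h2
  rw [Finset.mem_filter] at hg
  refine ⟨g, hg.1, ?_, ?_⟩
  · nth_rw 1 [← hgg]; exact inv_mul_cancel g
  · nth_rw 1 [← hg.2]
    calc w * g * w * w = w * g * (w * w) := by group
      _ = w * g := by rw [hww, mul_one]

end grp

/-- connectivity of the Kneser graph -/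
theorem kneser (Γ : Finset α) (h5 : 5 ≤ Γ.card) (R : α → α → Prop) {a b : α} (ha : a ∈ Γ) (hb : b ∈ Γ)
    (hab : a ≠ b) (h0 : R a b)
    (hstep : ∀ p ∈ Γ, ∀ q ∈ Γ, ∀ i ∈ Γ, ∀ j ∈ Γ, p ≠ q → i ≠ j → i ≠ p → i ≠ q → j ≠ p → j ≠ q →
      R p q → R i j) {p q : α} (hp : p ∈ Γ) (hq : q ∈ Γ) (hpq : p ≠ q) : R p q := by
  by_cases hdis : p ≠ a ∧ p ≠ b ∧ q ≠ a ∧ q ≠ b
  · exact hstep a ha b hb p hp q hq hab hpq hdis.1 hdis.2.1 hdis.2.2.1 hdis.2.2.2 h0
  · have h1 : (({a, b, p, q} : Finset α)).card ≤ 3 := by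
      by_cases h1 : p = a
      · subst h1
        refine (Finset.card_le_card (t := {p, b, q}) ?_).trans Finset.card_le_three
        intro x hx; simp only [Finset.mem_insert, Finset.mem_singleton] at hx ⊢; tauto
      by_cases h2 : p = b
      · subst h2
        refine (Finset.card_le_card (t := {a, p, q}) ?_).trans Finset.card_le_three
        intro x hx; simp only [Finset.mem_insert, Finset.mem_singleton] at hx ⊢; tauto
      by_cases h3 : q = a
      · subst h3
        refine (Finset.card_le_card (t := {q, b, p}) ?_).trans Finset.card_le_three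
        intro x hx; simp only [Finset.mem_insert, Finset.mem_singleton] at hx ⊢; tauto
      by_cases h4 : q = b
      · subst h4
        refine (Finset.card_le_card (t := {a, q, p}) ?_).trans Finset.card_le_three
        intro x hx; simp only [Finset.mem_insert, Finset.mem_singleton] at hx ⊢; tauto
      exact absurd ⟨h1, h2, h3, h4⟩ hdis
    have h2 : 2 ≤ (Γ \ {a, b, p, q}).card := by
      have := Finset.le_card_sdiff ({a, b, p, q} : Finset α) Γ
      omega
    obtain ⟨i, hi, j, hj, hij⟩ := Finset.one_lt_card.1 (show 1 < (Γ \ {a, b, p, q}).card by omega)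
    simp only [Finset.mem_sdiff, Finset.mem_insert, Finset.mem_singleton, not_or] at hi hj
    have h3 := hstep a ha b hb i hi.1 j hj.1 hab hij hi.2.1 hi.2.2.1 hj.2.1 hj.2.2.1 h0
    exact hstep i hi.1 j hj.1 p hp q hq hij hpq (Ne.symm hi.2.2.2.1) (Ne.symm hj.2.2.2.1)
      (Ne.symm hi.2.2.2.2) (Ne.symm hj.2.2.2.2) h3

end CfsgLib.LW20
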