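import Mathlib
import Cfsg.Agent.LibLW20a

/-! Multiply transitive groups: the cases with many transpositions. -/

set_option autoImplicit false
set_option linter.all false

namespace CfsgLib.LW20

variable {α : Type*} [Fintype α] [DecidableEq α]

/-- `t` acts on `Γ` as the transposition `(p q)` -/
def Tr (G : Subgroup (Equiv.Perm α)) (Γ : Finset α) (p q : α) : Prop :=
  ∃ t ∈ G, t * t = 1 ∧ t p = q ∧ t q = p ∧ ∀ x ∈ Γ, x ≠ p → x ≠ q → t x = x

def C3 (G : Subgroup (Equiv.Perm α)) (Δ : Finset α) (a b c : α) : Prop :=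
  ∃ g ∈ G, g a = b ∧ g b = c ∧ g c = a ∧ ∀ x ∈ Δ, x ≠ a → x ≠ b → x ≠ c → g x = x

def Good (G : Subgroup (Equiv.Perm α)) (Δ : Finset α) : Prop :=
  ∀ a ∈ Δ, ∀ b ∈ Δ, ∀ c ∈ Δ, a ≠ b → a ≠ c → b ≠ c → C3 G Δ a b c

theorem good_of_tr {G : Subgroup (Equiv.Perm α)} {Γ Δ : Finset α} (hsub : Δ ⊆ Γ)
    (h : ∀ p ∈ Γ, ∀ q ∈ Γ, p ≠ q → Tr G Γ p q) : Good G Δ := by
  intro a ha b hb c hc hab hac hbc
  obtain ⟨s, hs, -, s1, s2, s3⟩ := h a (hsub ha) b (hsub hb) hab
  obtain ⟨u, hu, -, u1, u2, u3⟩ := h b (hsub hb) c (hsub hc) hbc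
  refine ⟨s * u, G.mul_mem hs hu, ?_, ?_, ?_, fun x hx h1 h2 h3 => ?_⟩
  · rw [Equiv.Perm.mul_apply, u3 a (hsub ha) hab hac, s1]
  · rw [Equiv.Perm.mul_apply, u1, s3 c (hsub hc) hac.symm hbc.symm]
  · rw [Equiv.Perm.mul_apply, u2, s2]
  · rw [Equiv.Perm.mul_apply, u3 x (hsub hx) h2 h3, s3 x (hsub hx) h1 h2]

theorem TF.move {G : Subgroup (Equiv.Perm α)} {k : ℕ} (hT : TF G k) {s s' : Finset α}
    (hs : s.card = k) (hs' : s'.card = k) :
    ∃ g ∈ G, (∀ x ∈ s, g x ∈ s') ∧ ∀ y ∈ s', g⁻¹ y ∈ s := by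
  let e : s ≃ s' := Finset.equivOfCardEq (hs.trans hs'.symm)
  let f : α → α := fun x => if h : x ∈ s then (e ⟨x, h⟩ : α) else x
  have hf : ∀ x (h : x ∈ s), f x = e ⟨x, h⟩ := fun x h => dif_pos h
  obtain ⟨g, hg, hgf⟩ := hT s f hs (by
    intro x hx y hy hxy
    rw [hf x hx, hf y hy] at hxy
    have := e.injective (Subtype.ext hxy)
    exact congrArg Subtype.val this)
  refine ⟨g, hg, fun x hx => by rw [hgf x hx, hf x hx]; exact (e _).2, fun y hy => ?_⟩
  have h1 : g (e.symm ⟨y, hy⟩ : α) = y := by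
    rw [hgf _ (e.symm ⟨y, hy⟩).2, hf _ (e.symm ⟨y, hy⟩).2]
    simp
  rw [Equiv.Perm.inv_eq_iff_eq.2 h1.symm]
  exact (e.symm ⟨y, hy⟩).2

theorem card_sdiff_pair {Γ : Finset α} {p q : α} (hp : p ∈ Γ) (hq : q ∈ Γ) (hpq : p ≠ q) :
    (Γ \ {p, q}).card + 2 = Γ.card := by
  have h : ({p, q} : Finset α) ⊆ Γ := by
    intro x hx
    rw [Finset.mem_insert, Finset.mem_singleton] at hx
    rcases hx with rfl | rfl <;> assumption
  have h1 := Finset.card_sdiff_add_card_eq_card h
  rw [Finset.card_pair hpq] at h1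
  exact h1

theorem invol_apply {t : Equiv.Perm α} (h : t * t = 1) (x : α) : t (t x) = x :=
  congrArg (fun g : Equiv.Perm α => g x) h

theorem caseB {G : Subgroup (Equiv.Perm α)} {k : ℕ} (hk : 4 ≤ k) (hT : TF G k)
    (hfix : ∀ g ∈ G, g ≠ 1 → (Fx g).card ≤ k) (hm : k + 2 ≤ Fintype.card α) {Λ : Finset α}
    (hΛ : Λ.card = k) {t : Equiv.Perm α} (ht : t ∈ G) (htt : t * t = 1) (ht1 : t ≠ 1)
    (htΛ : ∀ x ∈ Λ, t x = x) : ∃ Δ : Finset α, Δ.card = k + 1 ∧ Good G Δ := by
  -- every `k`-set is fixed by an involution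
  have hall : ∀ Λ' : Finset α, Λ'.card = k → ∃ u ∈ G, u * u = 1 ∧ u ≠ 1 ∧ ∀ x ∈ Λ', u x = x := by
    intro Λ' hΛ'
    obtain ⟨g, hg, h1, h2⟩ := hT.move hΛ hΛ'
    refine ⟨g * t * g⁻¹, G.mul_mem (G.mul_mem hg ht) (G.inv_mem hg), ?_, ?_, fun x hx => ?_⟩
    · calc g * t * g⁻¹ * (g * t * g⁻¹) = g * (t * t) * g⁻¹ := by group
        _ = 1 := by rw [htt]; group
    · intro h
      apply ht1
      calc t = g⁻¹ * (g * t * g⁻¹) * g := by group
        _ = 1 := by rw [h]; group
    · rw [Equiv.Perm.mul_apply, Equiv.Perm.mul_apply, htΛ _ (h2 x hx)]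
      exact Equiv.apply_symm_apply g x
  have hstep : ∀ Γ : Finset α, Γ.card = k + 2 → ∀ p ∈ Γ, ∀ q ∈ Γ, ∀ i ∈ Γ, ∀ j ∈ Γ, p ≠ q → i ≠ j →
      i ≠ p → i ≠ q → j ≠ p → j ≠ q → Tr G Γ p q → Tr G Γ i j := by
    intro Γ hΓ p hp q hq i hi j hj hpq hij hip hiq hjp hjq ⟨t, ht, htt, tp, tq, tf⟩
    have c1 := card_sdiff_pair hp hq hpq
    have c2 := card_sdiff_pair hi hj hij
    have ht1 : t ≠ 1 := by
      rintro rfl
      exact hpq tp
    obtain ⟨u, hu, huu, hu1, huf⟩ := hall (Γ \ {i, j}) (by omega)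
    have hFt : Γ \ {p, q} = Fx t := by
      apply Finset.eq_of_subset_of_card_le
      · intro x hx
        simp only [Finset.mem_sdiff, Finset.mem_insert, Finset.mem_singleton, not_or] at hx
        exact mem_Fx.2 (tf x hx.1 hx.2.1 hx.2.2)
      · have := hfix t ht ht1; omega
    have e1 : Even (M G (Γ \ {i, j}) id).card := by
      apply even_of_inv _ (fun g => g * u)
      · intro g hg
        rw [mem_M] at hg ⊢
        refine ⟨G.mul_mem hg.1 hu, fun x hx => ?_⟩
        rw [Equiv.Perm.mul_apply, huf x hx, hg.2 x hx]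
      · intro g _
        rw [mul_assoc, huu, mul_one]
      · intro g _ h
        exact hu1 (mul_eq_left.1 h)
    have e2 : Even ((M G (Γ \ {i, j}) id).filter (fun g => ¬ g⁻¹ = g)).card := by
      apply even_of_inv _ (fun g => g⁻¹)
      · intro g hg
        rw [Finset.mem_filter, mem_M] at hg ⊢
        refine ⟨⟨G.inv_mem hg.1.1, fun x hx => ?_⟩, fun h => hg.2 (by rw [inv_inv] at h; exact h.symm)⟩
        rw [Equiv.Perm.inv_eq_iff_eq]; exact (hg.1.2 x hx).symm
      · intro g _; exact inv_inv g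
      · intro g hg; rw [Finset.mem_filter] at hg; exact hg.2
    have e3 := Finset.card_filter_add_card_filter_not (s := M G (Γ \ {i, j}) id) (fun g => g⁻¹ = g)
    have e4 : (1 : Equiv.Perm α) ∈ (M G (Γ \ {i, j}) id).filter (fun g => g⁻¹ = g) := by
      rw [Finset.mem_filter, mem_M]
      exact ⟨⟨G.one_mem, fun x _ => rfl⟩, inv_one⟩
    have e5 : Odd (((M G (Γ \ {i, j}) id).filter (fun g => g⁻¹ = g)).erase 1).card := by
      rw [Finset.card_erase_of_mem e4]
      have h0 := Finset.card_pos.2 ⟨_, e4⟩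
      obtain ⟨r, hr⟩ := e1
      obtain ⟨r', hr'⟩ := e2
      exact ⟨r - r' - 1, by omega⟩
    have htx := invol_apply htt
    have hti : t⁻¹ = t := inv_eq_of_mul_eq_one_left htt
    have htm : ∀ x ∈ Γ \ {i, j}, t x ∈ Γ \ {i, j} := by
      intro x hx
      simp only [Finset.mem_sdiff, Finset.mem_insert, Finset.mem_singleton, not_or] at hx ⊢
      by_cases h1 : x = p
      · subst h1; rw [tp]; exact ⟨hq, hiq.symm, hjq.symm⟩
      by_cases h2 : x = q
      · subst h2; rw [tq]; exact ⟨hp, hip.symm, hjp.symm⟩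
      rw [tf x hx.1 h1 h2]; exact hx
    obtain ⟨s, hs, hst⟩ := exists_fix_of_inv _ (fun g : Equiv.Perm α => t * g * t) (by
      intro g hg
      rw [Finset.mem_erase, Finset.mem_filter, mem_M] at hg ⊢
      refine ⟨fun h => hg.1 ?_, ⟨G.mul_mem (G.mul_mem ht hg.2.1.1) ht, fun x hx => ?_⟩, ?_⟩
      · calc g = (t * t) * g * (t * t) := by rw [htt]; group
          _ = t * (t * g * t) * t := by group
          _ = 1 := by rw [h, mul_one, htt]
      · rw [Equiv.Perm.mul_apply, Equiv.Perm.mul_apply, hg.2.1.2 _ (htm x hx)]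
        exact htx x
      · rw [mul_inv_rev, mul_inv_rev, hg.2.2, hti, ← mul_assoc]) (by
      intro g _
      calc t * (t * g * t) * t = (t * t) * g * (t * t) := by group
        _ = g := by rw [htt]; group) e5
    rw [Finset.mem_erase, Finset.mem_filter, mem_M] at hs
    obtain ⟨hs1, ⟨hsG, hsf⟩, hsi⟩ := hs
    have hss : s * s = 1 := by nth_rw 1 [← hsi]; exact inv_mul_cancel s
    have hsx := invol_apply hss
    have hcomm : ∀ x, t (s x) = s (t x) := by
      intro x
      have h1 : t * s = s * t := by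
        calc t * s = t * s * (t * t) := by rw [htt, mul_one]
          _ = (t * s * t) * t := by group
          _ = s * t := by rw [hst]
      exact congrArg (fun g : Equiv.Perm α => g x) h1
    have hsi1 : s i ∈ Γ \ {p, q} := by
      rw [hFt, mem_Fx, hcomm, tf i hi hip hiq]
    have hsi2 : s i ≠ i := by
      intro h
      have h1 : insert i (Γ \ {i, j}) ⊆ Fx s := by
        intro x hx
        rw [Finset.mem_insert] at hx
        rcases hx with rfl | hx
        · exact mem_Fx.2 h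
        · exact mem_Fx.2 (hsf x hx)
      have h2 := Finset.card_le_card h1
      rw [Finset.card_insert_of_notMem (by simp)] at h2
      have := hfix s hsG hs1
      omega
    have hsij : s i = j := by
      by_contra hne
      have h1 : s i ∈ Γ \ {i, j} := by
        simp only [Finset.mem_sdiff, Finset.mem_insert, Finset.mem_singleton, not_or] at hsi1 ⊢
        exact ⟨hsi1.1, hsi2, hne⟩
      have h2 := hsf _ h1
      rw [hsx] at h2
      exact hsi2 h2.symm
    refine ⟨s, hsG, hss, hsij, by rw [← hsij]; exact hsx i, fun x hx h1 h2 => ?_⟩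
    apply hsf
    simp only [Finset.mem_sdiff, Finset.mem_insert, Finset.mem_singleton, not_or]
    exact ⟨hx, h1, h2⟩
  -- start
  have hFt : Λ = Fx t := by
    apply Finset.eq_of_subset_of_card_le
    · intro x hx; exact mem_Fx.2 (htΛ x hx)
    · rw [hΛ]; exact hfix t ht ht1
  obtain ⟨a, ha⟩ : ∃ a, a ∉ Λ := by
    by_contra hne
    push Not at hne
    have : Λ = Finset.univ := Finset.eq_univ_iff_forall.2 hne
    rw [this, Finset.card_univ] at hΛ
    omega
  have hta : t a ≠ a := by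
    intro h; apply ha; rw [hFt]; exact mem_Fx.2 h
  have htb : t a ∉ Λ := by
    intro h
    apply hta
    have := htΛ _ h
    rw [invol_apply htt] at this
    exact this.symm
  set Γ : Finset α := insert a (insert (t a) Λ) with hΓ
  have hΓc : Γ.card = k + 2 := by
    rw [hΓ, Finset.card_insert_of_notMem, Finset.card_insert_of_notMem htb, hΛ]
    rw [Finset.mem_insert]; push Not
    exact ⟨hta.symm, ha⟩
  have haΓ : a ∈ Γ := Finset.mem_insert_self _ _
  have hbΓ : t a ∈ Γ := Finset.mem_insert_of_mem (Finset.mem_insert_self _ _)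
  have h0 : Tr G Γ a (t a) := by
    refine ⟨t, ht, htt, rfl, invol_apply htt a, fun x hx h1 h2 => ?_⟩
    rw [hΓ, Finset.mem_insert, Finset.mem_insert] at hx
    rcases hx with h | h | h
    · exact absurd h h1
    · exact absurd h h2
    · exact htΛ x h
  refine ⟨Γ.erase a, by rw [Finset.card_erase_of_mem haΓ, hΓc]; omega, ?_⟩
  apply good_of_tr (Finset.erase_subset a Γ)
  intro p hp q hq hpq
  exact kneser Γ (by omega) (Tr G Γ) haΓ hbΓ hta.symm h0 (hstep Γ hΓc) hp hq hpq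

theorem caseAodd {G : Subgroup (Equiv.Perm α)} {k : ℕ} (hk : 4 ≤ k) (hT : TF G k)
    (hE : ∀ s : Finset α, s.card = k → NoInv G s) (hkn : k < Fintype.card α)
    (hodd : Odd (Fintype.card α - k)) : ∃ Δ : Finset α, Δ.card = k + 1 ∧ Good G Δ := by
  obtain ⟨Λ, -, hΛ⟩ := Finset.exists_subset_card_eq (s := (Finset.univ : Finset α)) (n := k)
    (by rw [Finset.card_univ]; omega)
  obtain ⟨a, ha, b, hb, hab⟩ := Finset.one_lt_card.1 (show 1 < Λ.card by omega)
  have hswap : ∀ (s : Finset α) (i j : α), i ∈ s → j ∈ s → ∀ x ∈ s, Equiv.swap i j x ∈ s := by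
    intro s i j hi hj x hx
    by_cases h1 : x = i
    · subst h1; rw [Equiv.swap_apply_left]; exact hj
    by_cases h2 : x = j
    · subst h2; rw [Equiv.swap_apply_right]; exact hi
    rw [Equiv.swap_apply_of_ne_of_ne h1 h2]; exact hx
  have hswap2 : ∀ (i j x : α), Equiv.swap i j (Equiv.swap i j x) = x := fun i j x =>
    Equiv.swap_apply_self i j x
  obtain ⟨g₀, hg₀, hg₁⟩ := hT Λ (Equiv.swap a b) hΛ (Equiv.injective _).injOn
  obtain ⟨τ, hτ, hττ, -⟩ := exists_inv (hE Λ hΛ) (hswap Λ a b ha hb) (fun x _ => hswap2 a b x)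
    (mem_M.2 ⟨hg₀, hg₁⟩) G.one_mem (mul_one 1) (fun x hx => hx) (fun x _ => rfl)
  rw [mem_M] at hτ
  have hτx := invol_apply hττ
  obtain ⟨x, hx, hxf⟩ := exists_fix_of_inv Λᶜ τ (by
    intro y hy
    rw [Finset.mem_compl] at hy ⊢
    intro h
    apply hy
    have h1 := hτ.2 _ h
    rw [hτx] at h1
    rw [h1]; exact hswap Λ a b ha hb _ h) (fun y _ => hτx y) (by rw [Finset.card_compl, hΛ]; exact hodd)
  rw [Finset.mem_compl] at hx
  have hΔc : (insert x Λ).card = k + 1 := by rw [Finset.card_insert_of_notMem hx, hΛ]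
  refine ⟨insert x Λ, hΔc, ?_⟩
  set Δ : Finset α := insert x Λ with hΔ
  have haΔ : a ∈ Δ := Finset.mem_insert_of_mem ha
  have hbΔ : b ∈ Δ := Finset.mem_insert_of_mem hb
  apply good_of_tr (Finset.Subset.refl Δ)
  intro p hp q hq hpq
  refine kneser Δ (by omega) (Tr G Δ) haΔ hbΔ hab ?_ ?_ hp hq hpq
  · refine ⟨τ, hτ.1, hττ, by rw [hτ.2 a ha, Equiv.swap_apply_left], by
      rw [hτ.2 b hb, Equiv.swap_apply_right], fun y hy h1 h2 => ?_⟩
    rw [hΔ, Finset.mem_insert] at hy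
    rcases hy with rfl | hy
    · exact hxf
    · rw [hτ.2 y hy, Equiv.swap_apply_of_ne_of_ne h1 h2]
  · intro p hp q hq i hi j hj hpq hij hip hiq hjp hjq ⟨t, ht, htt, tp, tq, tf⟩
    have htx := invol_apply htt
    obtain ⟨l, hl⟩ : (Δ \ {p, q, i, j}).Nonempty := by
      rw [← Finset.card_pos]
      have h1 := Finset.le_card_sdiff ({p, q, i, j} : Finset α) Δ
      have h2 : ({p, q, i, j} : Finset α).card ≤ 4 := Finset.card_le_four
      omega
    simp only [Finset.mem_sdiff, Finset.mem_insert, Finset.mem_singleton, not_or] at hl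
    obtain ⟨hlΔ, hlp, hlq, hli, hlj⟩ := hl
    have hΛ' : (Δ.erase l).card = k := by rw [Finset.card_erase_of_mem hlΔ]; omega
    have hmem : ∀ y, y ∈ Δ.erase l ↔ y ≠ l ∧ y ∈ Δ := fun y => Finset.mem_erase
    obtain ⟨g₂, hg₂, hg₃⟩ := hT (Δ.erase l) (Equiv.swap i j) hΛ' (Equiv.injective _).injOn
    have hi' : i ∈ Δ.erase l := (hmem i).2 ⟨Ne.symm hli, hi⟩
    have hj' : j ∈ Δ.erase l := (hmem j).2 ⟨Ne.symm hlj, hj⟩
    obtain ⟨μ, hμ, hμμ, hμt⟩ := exists_inv (hE _ hΛ') (hswap _ i j hi' hj') (fun x _ => hswap2 i j x)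
      (mem_M.2 ⟨hg₂, hg₃⟩) ht htt (by
        intro y hy
        rw [hmem] at hy ⊢
        by_cases h1 : y = p
        · subst h1; rw [tp]; exact ⟨Ne.symm hlq, hq⟩
        by_cases h2 : y = q
        · subst h2; rw [tq]; exact ⟨Ne.symm hlp, hp⟩
        rw [tf y hy.2 h1 h2]; exact hy) (by
        intro y hy
        rw [hmem] at hy
        by_cases h1 : y = p
        · subst h1
          rw [tp, Equiv.swap_apply_of_ne_of_ne hiq.symm hjq.symm, tq,
            Equiv.swap_apply_of_ne_of_ne hip.symm hjp.symm]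
        by_cases h2 : y = q
        · subst h2
          rw [tq, Equiv.swap_apply_of_ne_of_ne hip.symm hjp.symm, tp,
            Equiv.swap_apply_of_ne_of_ne hiq.symm hjq.symm]
        rw [tf y hy.2 h1 h2]
        by_cases h3 : y = i
        · subst h3; rw [Equiv.swap_apply_left, tf j hj hjp hjq]
        by_cases h4 : y = j
        · subst h4; rw [Equiv.swap_apply_right, tf i hi hip hiq]
        rw [Equiv.swap_apply_of_ne_of_ne h3 h4, tf y hy.2 h1 h2])
    rw [mem_M] at hμ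
    have hμx := invol_apply hμμ
    have hFt : Δ \ {p, q} = Fx t := by
      apply Finset.eq_of_subset_of_card_le
      · intro x hx
        simp only [Finset.mem_sdiff, Finset.mem_insert, Finset.mem_singleton, not_or] at hx
        exact mem_Fx.2 (tf x hx.1 hx.2.1 hx.2.2)
      · have h1 := card_sdiff_pair hp hq hpq
        by_contra hlt
        obtain ⟨s, hs1, hs2⟩ := Finset.exists_subset_card_eq (s := Fx t) (n := k) (by omega)
        have h2 := hE s hs2 t ht (fun x hx => mem_Fx.1 (hs1 hx)) htt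
        subst h2
        exact hpq tp
    have hμl : μ l = l := by
      have h1 : t (μ l) = μ (t l) := by
        have := congrArg (fun g : Equiv.Perm α => g l) hμt
        exact this.symm
      rw [tf l hlΔ hlp hlq] at h1
      have h2 : μ l ∈ Δ \ {p, q} := by rw [hFt]; exact mem_Fx.2 h1
      by_contra hne
      have h3 : μ l ∈ Δ.erase l := (hmem _).2 ⟨hne, (Finset.mem_sdiff.1 h2).1⟩
      have h4 := hμ.2 _ h3
      rw [hμx] at h4
      have h5 := hswap _ i j hi' hj' _ h3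
      rw [← h4] at h5
      exact ((hmem _).1 h5).1 rfl
    refine ⟨μ, hμ.1, hμμ, by rw [hμ.2 i hi', Equiv.swap_apply_left], by
      rw [hμ.2 j hj', Equiv.swap_apply_right], fun y hy h1 h2 => ?_⟩
    by_cases h3 : y = l
    · rw [h3]; exact hμl
    · rw [hμ.2 y ((hmem y).2 ⟨h3, hy⟩), Equiv.swap_apply_of_ne_of_ne h1 h2]

end CfsgLib.LW20
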