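import Mathlib
import Cfsg.Agent.LibLW20b
import Cfsg.Agent.LibInvol

/-! Multiply transitive groups: the remaining case. -/

set_option autoImplicit false
set_option linter.all false

namespace CfsgLib.LW20

variable {α : Type*} [Fintype α] [DecidableEq α]

theorem Fx_conj_card (g t : Equiv.Perm α) : (Fx (g * t * g⁻¹)).card = (Fx t).card := by
  symm
  apply Finset.card_bij (fun x _ => g x)
  · intro x hx
    rw [mem_Fx] at hx ⊢
    rw [Equiv.Perm.mul_apply, Equiv.Perm.mul_apply]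
    have : g⁻¹ (g x) = x := by rw [Equiv.Perm.inv_eq_iff_eq]
    rw [this, hx]
  · intro x _ y _ h; exact g.injective h
  · intro y hy
    rw [mem_Fx, Equiv.Perm.mul_apply, Equiv.Perm.mul_apply] at hy
    refine ⟨g⁻¹ y, ?_, Equiv.apply_symm_apply g y⟩
    rw [mem_Fx]
    rw [Equiv.Perm.eq_inv_iff_eq]
    exact hy

theorem dsw {a b c d : α} (hab : a ≠ b) (hac : a ≠ c) (had : a ≠ d) (hbc : b ≠ c) (hbd : b ≠ d)
    (hcd : c ≠ d) : (Equiv.swap a b * Equiv.swap c d) a = b ∧ (Equiv.swap a b * Equiv.swap c d) b = a ∧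
    (Equiv.swap a b * Equiv.swap c d) c = d ∧ (Equiv.swap a b * Equiv.swap c d) d = c ∧
    ∀ x, x ≠ a → x ≠ b → x ≠ c → x ≠ d → (Equiv.swap a b * Equiv.swap c d) x = x := by
  refine ⟨?_, ?_, ?_, ?_, fun x h1 h2 h3 h4 => ?_⟩
  · rw [Equiv.Perm.mul_apply, Equiv.swap_apply_of_ne_of_ne hac had, Equiv.swap_apply_left]
  · rw [Equiv.Perm.mul_apply, Equiv.swap_apply_of_ne_of_ne hbc hbd, Equiv.swap_apply_right]
  · rw [Equiv.Perm.mul_apply, Equiv.swap_apply_left, Equiv.swap_apply_of_ne_of_ne had.symm hbd.symm]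
  · rw [Equiv.Perm.mul_apply, Equiv.swap_apply_right, Equiv.swap_apply_of_ne_of_ne hac.symm hbc.symm]
  · rw [Equiv.Perm.mul_apply, Equiv.swap_apply_of_ne_of_ne h3 h4, Equiv.swap_apply_of_ne_of_ne h1 h2]

/-- `w ∈ G` acts on `Λ` as `(a b)(c d)` -/
def DT (G : Subgroup (Equiv.Perm α)) (Λ : Finset α) (w : Equiv.Perm α) (a b c d : α) : Prop :=
  w ∈ G ∧ w a = b ∧ w b = a ∧ w c = d ∧ w d = c ∧
    ∀ x ∈ Λ, x ≠ a → x ≠ b → x ≠ c → x ≠ d → w x = x

/-- four distinct points -/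
structure D4 (Λ : Finset α) (a b c d : α) : Prop where
  ha : a ∈ Λ
  hb : b ∈ Λ
  hc : c ∈ Λ
  hd : d ∈ Λ
  hab : a ≠ b
  hac : a ≠ c
  had : a ≠ d
  hbc : b ≠ c
  hbd : b ≠ d
  hcd : c ≠ d

theorem D4.swap {Λ : Finset α} {a b c d : α} (h : D4 Λ a b c d) : D4 Λ a c b d :=
  ⟨h.ha, h.hc, h.hb, h.hd, h.hac, h.hab, h.had, h.hbc.symm, h.hcd, h.hbd⟩

theorem D4.rot {Λ : Finset α} {a b c d : α} (h : D4 Λ a b c d) : D4 Λ a d b c :=
  ⟨h.ha, h.hd, h.hb, h.hc, h.had, h.hab, h.hac, h.hbd.symm, h.hcd.symm, h.hbc⟩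

theorem D4.card {Λ : Finset α} {a b c d : α} (h : D4 Λ a b c d) :
    (Λ \ {a, b, c, d}).card + 4 = Λ.card := by
  have h1 : ({a, b, c, d} : Finset α) ⊆ Λ := by
    intro x hx
    simp only [Finset.mem_insert, Finset.mem_singleton] at hx
    rcases hx with rfl | rfl | rfl | rfl
    exacts [h.ha, h.hb, h.hc, h.hd]
  have h2 := Finset.card_sdiff_add_card_eq_card h1
  have h3 : ({a, b, c, d} : Finset α).card = 4 := by
    rw [Finset.card_insert_of_notMem, Finset.card_insert_of_notMem, Finset.card_pair h.hcd]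
    · simp [h.hbc, h.hbd]
    · simp [h.hab, h.hac, h.had]
  omega

theorem exists_D4 {Λ : Finset α} (h : 4 ≤ Λ.card) : ∃ a b c d, D4 Λ a b c d := by
  obtain ⟨s, hs, hs4⟩ := Finset.exists_subset_card_eq h
  obtain ⟨a, b, c, d, hab, hac, had, hbc, hbd, hcd, rfl⟩ := Finset.card_eq_four.1 hs4
  exact ⟨a, b, c, d, hs (by simp), hs (by simp), hs (by simp), hs (by simp), hab, hac, had, hbc, hbd, hcd⟩

theorem exists_DT {G : Subgroup (Equiv.Perm α)} {k : ℕ} (hT : TF G k) {Λ : Finset α}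
    (hE : NoInv G Λ) (hΛ : Λ.card = k) {a b c d : α} (h : D4 Λ a b c d) {w : Equiv.Perm α}
    (hw : w ∈ G) (hww : w * w = 1) (hws : ∀ x ∈ Λ, w x ∈ Λ)
    (hwf : ∀ x ∈ Λ, w ((Equiv.swap a b * Equiv.swap c d) (w x)) = (Equiv.swap a b * Equiv.swap c d) x) :
    ∃ g, DT G Λ g a b c d ∧ g * g = 1 ∧ g * w = w * g := by
  obtain ⟨d1, d2, d3, d4, d5⟩ := dsw h.hab h.hac h.had h.hbc h.hbd h.hcd
  obtain ⟨g₀, hg₀, hg₁⟩ := hT Λ (Equiv.swap a b * Equiv.swap c d) hΛ (Equiv.injective _).injOn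
  have hcases : ∀ x : α, x = a ∨ x = b ∨ x = c ∨ x = d ∨ (x ≠ a ∧ x ≠ b ∧ x ≠ c ∧ x ≠ d) := by
    intro x; tauto
  obtain ⟨g, hg, h1, h2⟩ := exists_inv hE (f := (Equiv.swap a b * Equiv.swap c d)) (by
    intro x hx
    rcases hcases x with rfl | rfl | rfl | rfl | ⟨h1, h2, h3, h4⟩
    · rw [d1]; exact h.hb
    · rw [d2]; exact h.ha
    · rw [d3]; exact h.hd
    · rw [d4]; exact h.hc
    · rw [d5 x h1 h2 h3 h4]; exact hx) (by
    intro x hx
    rcases hcases x with rfl | rfl | rfl | rfl | ⟨h1, h2, h3, h4⟩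
    · rw [d1, d2]
    · rw [d2, d1]
    · rw [d3, d4]
    · rw [d4, d3]
    · rw [d5 x h1 h2 h3 h4, d5 x h1 h2 h3 h4]) (mem_M.2 ⟨hg₀, hg₁⟩) hw hww hws hwf
  rw [mem_M] at hg
  refine ⟨g, ⟨hg.1, ?_, ?_, ?_, ?_, fun x hx h1 h2 h3 h4 => ?_⟩, h1, h2⟩
  · rw [hg.2 a h.ha, d1]
  · rw [hg.2 b h.hb, d2]
  · rw [hg.2 c h.hc, d3]
  · rw [hg.2 d h.hd, d4]
  · rw [hg.2 x hx, d5 x h1 h2 h3 h4]

theorem exists_DT1 {G : Subgroup (Equiv.Perm α)} {k : ℕ} (hT : TF G k) {Λ : Finset α}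
    (hE : NoInv G Λ) (hΛ : Λ.card = k) {a b c d : α} (h : D4 Λ a b c d) :
    ∃ g, DT G Λ g a b c d ∧ g * g = 1 := by
  obtain ⟨g, h1, h2, -⟩ := exists_DT hT hE hΛ h G.one_mem (mul_one 1) (fun x hx => hx) (fun x _ => rfl)
  exact ⟨g, h1, h2⟩

/-- involutions have at most `k - 2` fixed points -/
theorem inv_fix {G : Subgroup (Equiv.Perm α)} {k : ℕ} (hk : 4 ≤ k) (hE : ∀ s : Finset α, s.card = k → NoInv G s)
    (hev : Even (Fintype.card α - k)) (hm : k + 2 ≤ Fintype.card α) {t : Equiv.Perm α} (ht : t ∈ G)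
    (htt : t * t = 1) (ht1 : t ≠ 1) : (Fx t).card ≤ k - 2 := by
  by_contra hlt
  have h1 : (Fx t).card < k := by
    by_contra h2
    obtain ⟨s, hs1, hs2⟩ := Finset.exists_subset_card_eq (s := Fx t) (n := k) (by omega)
    exact ht1 (hE s hs2 t ht (fun x hx => mem_Fx.1 (hs1 hx)) htt)
  have h2 := Fx_parity htt
  obtain ⟨r, hr⟩ := hev
  obtain ⟨r', hr'⟩ := h2
  omega

/-- the number of fixed points of an involution acting as a double transposition -/
theorem cardW {G : Subgroup (Equiv.Perm α)} {k : ℕ} (hk : 4 ≤ k) (hT : TF G k)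
    (hE : ∀ s : Finset α, s.card = k → NoInv G s)
    (hev : Even (Fintype.card α - k)) (hm : k + 2 ≤ Fintype.card α) {Λ : Finset α} (hΛ : Λ.card = k)
    {a b c d : α} (h : D4 Λ a b c d) {w : Equiv.Perm α} (hw : DT G Λ w a b c d) (hww : w * w = 1) :
    (Fx w).card = k - 2 := by
  -- a reference involution
  obtain ⟨g₀, hg₀, hg₁⟩ := hT Λ (Equiv.swap a b) hΛ (Equiv.injective _).injOn
  obtain ⟨t, ht, htt, -⟩ := exists_inv (hE Λ hΛ) (f := Equiv.swap a b) (by
      intro x hx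
      by_cases h1 : x = a
      · subst h1; rw [Equiv.swap_apply_left]; exact h.hb
      by_cases h2 : x = b
      · subst h2; rw [Equiv.swap_apply_right]; exact h.ha
      rw [Equiv.swap_apply_of_ne_of_ne h1 h2]; exact hx) (fun x _ => Equiv.swap_apply_self a b x)
    (mem_M.2 ⟨hg₀, hg₁⟩) G.one_mem (mul_one 1) (fun x hx => hx) (fun x _ => rfl)
  rw [mem_M] at ht
  have htx := invol_apply htt
  have hta : t a = b := by rw [ht.2 a h.ha, Equiv.swap_apply_left]
  have htb : t b = a := by rw [ht.2 b h.hb, Equiv.swap_apply_right]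
  have ht1 : t ≠ 1 := by rintro rfl; exact h.hab hta
  have c1 := card_sdiff_pair h.ha h.hb h.hab
  have hFt : Λ \ {a, b} = Fx t := by
    apply Finset.eq_of_subset_of_card_le
    · intro x hx
      simp only [Finset.mem_sdiff, Finset.mem_insert, Finset.mem_singleton, not_or] at hx
      rw [mem_Fx, ht.2 x hx.1, Equiv.swap_apply_of_ne_of_ne hx.2.1 hx.2.2]
    · have := inv_fix hk hE hev hm ht.1 htt ht1; omega
  -- a further point
  obtain ⟨p, hp⟩ : ∃ p, p ∉ Λ := by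
    by_contra hne
    push Not at hne
    have : Λ = Finset.univ := Finset.eq_univ_iff_forall.2 hne
    rw [this, Finset.card_univ] at hΛ
    omega
  have hpF : p ∉ Fx t := by rw [← hFt]; intro h1; exact hp (Finset.mem_sdiff.1 h1).1
  have hqF : t p ∉ Fx t := by
    intro h1; apply hpF
    rw [mem_Fx] at h1 ⊢
    rw [htx] at h1; exact h1.symm
  have hpq : p ≠ t p := fun h1 => hpF (mem_Fx.2 h1.symm)
  have hpa : p ≠ a := fun h1 => hp (h1 ▸ h.ha)
  have hpb : p ≠ b := fun h1 => hp (h1 ▸ h.hb)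
  have hqa : t p ≠ a := by intro h1; apply hpb; rw [← hta, ← h1, htx]
  have hqb : t p ≠ b := by intro h1; apply hpa; rw [← htb, ← h1, htx]
  obtain ⟨B, hB1, hB2⟩ := Finset.exists_subset_card_eq (s := Fx t) (n := k - 4) (by rw [← hFt]; omega)
  have hBF : ∀ x ∈ B, t x = x := fun x hx => mem_Fx.1 (hB1 hx)
  have hBa : a ∉ B := fun h1 => h.hab ((hBF a h1).symm.trans hta)
  have hBb : b ∉ B := fun h1 => h.hab (htb.symm.trans (hBF b h1))
  have hBp : p ∉ B := fun h1 => hpF (hB1 h1)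
  have hBq : t p ∉ B := fun h1 => hqF (hB1 h1)
  set Λ₂ : Finset α := insert a (insert b (insert p (insert (t p) B))) with hΛ₂
  have hΛ₂c : Λ₂.card = k := by
    rw [hΛ₂, Finset.card_insert_of_notMem, Finset.card_insert_of_notMem, Finset.card_insert_of_notMem,
      Finset.card_insert_of_notMem hBq, hB2]
    · omega
    · rw [Finset.mem_insert]; push Not; exact ⟨hpq, hBp⟩
    · simp only [Finset.mem_insert, not_or]; exact ⟨hpb.symm, hqb.symm, hBb⟩
    · simp only [Finset.mem_insert, not_or]; exact ⟨h.hab, hpa.symm, hqa.symm, hBa⟩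
  have memΛ₂ : ∀ y, y ∈ Λ₂ → y = a ∨ y = b ∨ y = p ∨ y = t p ∨ y ∈ B := by
    intro y hy; rw [hΛ₂] at hy; simpa only [Finset.mem_insert] using hy
  have ma : a ∈ Λ₂ := by rw [hΛ₂]; simp
  have mb : b ∈ Λ₂ := by rw [hΛ₂]; simp
  have mp : p ∈ Λ₂ := by rw [hΛ₂]; simp
  have mq : t p ∈ Λ₂ := by rw [hΛ₂]; simp
  let f₀ : Λ₂ → α := fun x => if (x : α) = a then a else if (x : α) = b then b else
    if (x : α) = p then c else d
  have f1 : f₀ ⟨a, ma⟩ = a := by simp [f₀]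
  have f2 : f₀ ⟨b, mb⟩ = b := by simp [f₀, h.hab.symm]
  have f3 : f₀ ⟨p, mp⟩ = c := by simp [f₀, hpa, hpb]
  have f4 : f₀ ⟨t p, mq⟩ = d := by simp [f₀, hqa, hqb, hpq.symm]
  obtain ⟨e, he⟩ := Finset.exists_equiv_extend_of_card_eq (α := Λ₂) (t := Λ)
    (by rw [Fintype.card_coe, hΛ₂c, hΛ]) (s := {⟨a, ma⟩, ⟨b, mb⟩, ⟨p, mp⟩, ⟨t p, mq⟩}) (f := f₀) (by
      intro y hy
      rw [Finset.mem_image] at hy
      obtain ⟨x, hx, rfl⟩ := hy
      simp only [Finset.mem_insert, Finset.mem_singleton] at hx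
      rcases hx with rfl | rfl | rfl | rfl
      · rw [f1]; exact h.ha
      · rw [f2]; exact h.hb
      · rw [f3]; exact h.hc
      · rw [f4]; exact h.hd) (by
      intro x hx y hy hxy
      simp only [Finset.coe_insert, Finset.coe_singleton, Set.mem_insert_iff, Set.mem_singleton_iff] at hx hy
      rcases hx with rfl | rfl | rfl | rfl <;> rcases hy with rfl | rfl | rfl | rfl <;>
        simp only [f1, f2, f3, f4] at hxy <;>
        first
        | rfl
        | exact absurd hxy h.hab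
        | exact absurd hxy h.hac
        | exact absurd hxy h.had
        | exact absurd hxy h.hbc
        | exact absurd hxy h.hbd
        | exact absurd hxy h.hcd
        | exact absurd hxy.symm h.hab
        | exact absurd hxy.symm h.hac
        | exact absurd hxy.symm h.had
        | exact absurd hxy.symm h.hbc
        | exact absurd hxy.symm h.hbd
        | exact absurd hxy.symm h.hcd)
  have e1 : (e ⟨a, ma⟩ : α) = a := (he _ (by simp)).trans f1
  have e2 : (e ⟨b, mb⟩ : α) = b := (he _ (by simp)).trans f2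
  have e3 : (e ⟨p, mp⟩ : α) = c := (he _ (by simp)).trans f3
  have e4 : (e ⟨t p, mq⟩ : α) = d := (he _ (by simp)).trans f4
  let F : α → α := fun x => if hx : x ∈ Λ₂ then (e ⟨x, hx⟩ : α) else x
  have hF : ∀ x (hx : x ∈ Λ₂), F x = e ⟨x, hx⟩ := fun x hx => dif_pos hx
  obtain ⟨g, hg, hgF⟩ := hT Λ₂ F hΛ₂c (by
    intro x hx y hy hxy
    rw [hF x hx, hF y hy] at hxy
    exact congrArg Subtype.val (e.injective (Subtype.ext hxy)))
  have g1 : g a = a := by rw [hgF a ma, hF a ma, e1]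
  have g2 : g b = b := by rw [hgF b mb, hF b mb, e2]
  have g3 : g p = c := by rw [hgF p mp, hF p mp, e3]
  have g4 : g (t p) = d := by rw [hgF _ mq, hF _ mq, e4]
  have gi : ∀ x y, g x = y → g⁻¹ y = x := fun x y hxy => by
    rw [Equiv.Perm.inv_eq_iff_eq]; exact hxy.symm
  set w' := g * t * g⁻¹ with hw'
  have hw'G : w' ∈ G := G.mul_mem (G.mul_mem hg ht.1) (G.inv_mem hg)
  have w1 : w' a = b := by
    rw [hw', Equiv.Perm.mul_apply, Equiv.Perm.mul_apply, gi a a g1, hta, g2]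
  have w2 : w' b = a := by
    rw [hw', Equiv.Perm.mul_apply, Equiv.Perm.mul_apply, gi b b g2, htb, g1]
  have w3 : w' c = d := by
    rw [hw', Equiv.Perm.mul_apply, Equiv.Perm.mul_apply, gi p c g3, g4]
  have w4 : w' d = c := by
    rw [hw', Equiv.Perm.mul_apply, Equiv.Perm.mul_apply, gi (t p) d g4, htx, g3]
  have w5 : ∀ x ∈ Λ, x ≠ a → x ≠ b → x ≠ c → x ≠ d → w' x = x := by
    intro x hx h1 h2 h3 h4
    have k1 : g (e.symm ⟨x, hx⟩ : α) = x := by
      rw [hgF _ (e.symm ⟨x, hx⟩).2, hF _ (e.symm ⟨x, hx⟩).2]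
      simp
    have k2 : (e.symm ⟨x, hx⟩ : α) ∈ B := by
      have k3 := memΛ₂ _ (e.symm ⟨x, hx⟩).2
      rcases k3 with k3 | k3 | k3 | k3 | k3
      · rw [k3, g1] at k1; exact absurd k1.symm h1
      · rw [k3, g2] at k1; exact absurd k1.symm h2
      · rw [k3, g3] at k1; exact absurd k1.symm h3
      · rw [k3, g4] at k1; exact absurd k1.symm h4
      · exact k3
    rw [hw', Equiv.Perm.mul_apply, Equiv.Perm.mul_apply, gi _ _ k1, hBF _ k2, k1]
  have hww' : w' * w' = 1 := by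
    calc g * t * g⁻¹ * (g * t * g⁻¹) = g * (t * t) * g⁻¹ := by group
      _ = 1 := by rw [htt]; group
  have hcard' : (Fx w').card = k - 2 := by
    rw [hw', Fx_conj_card, ← hFt]; omega
  -- conjugate
  obtain ⟨hwG, v1, v2, v3, v4, v5⟩ := hw
  have hw1 : w ≠ 1 := by rintro rfl; exact h.hab v1
  have hw1' : w' ≠ 1 := by intro h1; rw [h1] at w1; exact h.hab w1
  have hfixe : ∀ x ∈ Λ, (w * w') x = x := by
    intro x hx
    rw [Equiv.Perm.mul_apply]
    by_cases h1 : x = a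
    · rw [h1, w1, v2]
    by_cases h2 : x = b
    · rw [h2, w2, v1]
    by_cases h3 : x = c
    · rw [h3, w3, v4]
    by_cases h4 : x = d
    · rw [h4, w4, v3]
    rw [w5 x hx h1 h2 h3 h4, v5 x hx h1 h2 h3 h4]
  have hpow : ∀ n : ℕ, ∀ x ∈ Λ, ((w * w') ^ n) x = x := by
    intro n
    induction n with
    | zero => intro x _; rfl
    | succ n ih => intro x hx; rw [pow_succ, Equiv.Perm.mul_apply, hfixe x hx, ih x hx]
  have hodd : Odd (orderOf (w * w')) := by
    rw [← Nat.not_even_iff_odd]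
    rintro ⟨r, hr⟩
    have hpos : 0 < orderOf (w * w') := orderOf_pos _
    have h1 := hE Λ hΛ ((w * w') ^ r) (G.pow_mem (G.mul_mem hwG hw'G) r) (hpow r) (by
      rw [← pow_add, ← hr, pow_orderOf_eq_one])
    have h2 := orderOf_dvd_of_pow_eq_one h1
    have h3 := Nat.le_of_dvd (by omega) h2
    omega
  obtain ⟨dd, -, hdd⟩ := CfsgLib.Invol.conj_of_odd (x := w) (y := w')
    (orderOf_eq_prime (by rw [pow_two]; exact hww) hw1)
    (orderOf_eq_prime (by rw [pow_two]; exact hww') hw1') hodd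
  rw [← hcard', ← hdd, Fx_conj_card]

end CfsgLib.LW20
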