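import Mathlib
import Cfsg.Agent.LibLW20c

/-! Multiply transitive groups: the remaining case, continued. -/

set_option autoImplicit false
set_option linter.all false

namespace CfsgLib.LW20

variable {α : Type*} [Fintype α] [DecidableEq α]

/-- hypotheses of the last case -/
structure Ctx (G : Subgroup (Equiv.Perm α)) (k : ℕ) : Prop where
  hk : 4 ≤ k
  hT : TF G k
  hE : ∀ s : Finset α, s.card = k → NoInv G s
  hev : Even (Fintype.card α - k)
  hm : k + 2 ≤ Fintype.card α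
  hfix : ∀ g ∈ G, g ≠ 1 → (Fx g).card ≤ k

variable {G : Subgroup (Equiv.Perm α)} {k : ℕ}

theorem Fx_sdiff_card (C : Ctx G k) {Λ : Finset α} (hΛ : Λ.card = k) {a b c d : α} (h : D4 Λ a b c d)
    {w : Equiv.Perm α} (hw : DT G Λ w a b c d) (hww : w * w = 1) : (Fx w \ Λ).card = 2 := by
  have h1 := cardW C.hk C.hT C.hE C.hev C.hm hΛ h hw hww
  have h2 : Fx w ∩ Λ = Λ \ {a, b, c, d} := by
    obtain ⟨-, w1, w2, w3, w4, w5⟩ := hw
    ext x
    simp only [Finset.mem_inter, mem_Fx, Finset.mem_sdiff, Finset.mem_insert, Finset.mem_singleton, not_or]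
    constructor
    · rintro ⟨hx, hxΛ⟩
      refine ⟨hxΛ, ?_, ?_, ?_, ?_⟩
      · rintro rfl; exact h.hab (hx.symm.trans w1)
      · rintro rfl; exact h.hab (w2.symm.trans hx)
      · rintro rfl; exact h.hcd (hx.symm.trans w3)
      · rintro rfl; exact h.hcd (w4.symm.trans hx)
    · rintro ⟨hxΛ, h1, h2, h3, h4⟩
      exact ⟨w5 x hxΛ h1 h2 h3 h4, hxΛ⟩
  have h3 := Finset.card_sdiff_add_card_inter (Fx w) Λ
  rw [h2] at h3
  have h4 := h.card
  have := C.hk
  omega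

/-- an element preserving a two-element set and fixing nothing in it swaps -/
theorem two_set {P : Finset α} (hP : P.card = 2) {g : Equiv.Perm α} (hg : ∀ x ∈ P, g x ∈ P) {x : α}
    (hx : x ∈ P) : g (g x) = x := by
  obtain ⟨p, q, hpq, rfl⟩ := Finset.card_eq_two.1 hP
  have hp := hg p (by simp)
  have hq := hg q (by simp)
  simp only [Finset.mem_insert, Finset.mem_singleton] at hp hq hx
  rcases hp with hp | hp
  · rcases hq with hq | hq
    · exact absurd (g.injective (hp.trans hq.symm)) hpq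
    · rcases hx with rfl | rfl
      · rw [hp, hp]
      · rw [hq, hq]
  · rcases hq with hq | hq
    · rcases hx with rfl | rfl
      · rw [hp, hq]
      · rw [hq, hp]
    · exact absurd (g.injective (hp.trans hq.symm)) hpq

theorem centE (C : Ctx G k) {Λ : Finset α} (hΛ : Λ.card = k) {a b c d : α} (h : D4 Λ a b c d)
    {w : Equiv.Perm α} (hw : DT G Λ w a b c d) (hww : w * w = 1) {e : Equiv.Perm α} (he : e ∈ G)
    (hef : ∀ x ∈ Λ, e x = x) (hc : e * w = w * e) : e = 1 := by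
  have h1 := Fx_sdiff_card C hΛ h hw hww
  have hpres : ∀ x ∈ Fx w \ Λ, e x ∈ Fx w \ Λ := by
    intro x hx
    rw [Finset.mem_sdiff, mem_Fx] at hx ⊢
    constructor
    · have h2 := congrArg (fun g : Equiv.Perm α => g x) hc
      simp only [Equiv.Perm.mul_apply] at h2
      rw [hx.1] at h2; exact h2.symm
    · intro h2
      have h3 := hef _ h2
      have h4 := e.injective h3
      rw [h4] at h2; exact hx.2 h2
  have h2 : e * e = 1 := by
    by_contra hne
    have h3 := C.hfix (e * e) (G.mul_mem he he) hne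
    have h4 : Λ ∪ (Fx w \ Λ) ⊆ Fx (e * e) := by
      intro x hx
      rw [mem_Fx, Equiv.Perm.mul_apply]
      rw [Finset.mem_union] at hx
      rcases hx with hx | hx
      · rw [hef x hx, hef x hx]
      · exact two_set h1 hpres hx
    have h5 := Finset.card_le_card h4
    rw [Finset.card_union_of_disjoint Finset.disjoint_sdiff, h1] at h5
    omega
  exact C.hE Λ hΛ e he hef h2

theorem invE (C : Ctx G k) {Λ : Finset α} (hΛ : Λ.card = k) {a b c d : α} (h : D4 Λ a b c d)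
    {w : Equiv.Perm α} (hw : DT G Λ w a b c d) (hww : w * w = 1) {x : Equiv.Perm α} (hx : x ∈ G)
    (hxf : ∀ y ∈ Λ, x y = y) : w * x * w = x⁻¹ := by
  have hwi : w⁻¹ = w := inv_eq_of_mul_eq_one_left hww
  have hwm : ∀ y ∈ Λ, w y ∈ Λ := by
    obtain ⟨-, w1, w2, w3, w4, w5⟩ := hw
    intro y hy
    by_cases h1 : y = a
    · rw [h1, w1]; exact h.hb
    by_cases h2 : y = b
    · rw [h2, w2]; exact h.ha
    by_cases h3 : y = c
    · rw [h3, w3]; exact h.hd
    by_cases h4 : y = d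
    · rw [h4, w4]; exact h.hc
    rw [w5 y hy h1 h2 h3 h4]; exact hy
  have hwx := invol_apply hww
  have hmaps : ∀ e ∈ M G Λ id, e⁻¹ * (w * e * w) ∈ M G Λ id := by
    intro e he
    rw [mem_M] at he ⊢
    refine ⟨G.mul_mem (G.inv_mem he.1) (G.mul_mem (G.mul_mem hw.1 he.1) hw.1), fun y hy => ?_⟩
    simp only [Equiv.Perm.mul_apply]
    rw [he.2 _ (hwm y hy)]
    change e⁻¹ (w (w y)) = y
    rw [hwx, Equiv.Perm.inv_eq_iff_eq]
    exact (he.2 y hy).symm
  have himg : (M G Λ id).image (fun e => e⁻¹ * (w * e * w)) = M G Λ id := by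
    apply Finset.eq_of_subset_of_card_le
    · intro y hy
      rw [Finset.mem_image] at hy
      obtain ⟨e, he, rfl⟩ := hy
      exact hmaps e he
    · rw [Finset.card_image_of_injOn]
      intro e he f hf hef
      rw [Finset.mem_coe, mem_M] at he hf
      have hef' : e⁻¹ * (w * e * w) = f⁻¹ * (w * f * w) := hef
      have h1 : f * e⁻¹ = 1 := by
        apply centE C hΛ h hw hww (G.mul_mem hf.1 (G.inv_mem he.1))
        · intro y hy
          rw [Equiv.Perm.mul_apply]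
          have : e⁻¹ y = y := by rw [Equiv.Perm.inv_eq_iff_eq]; exact (he.2 y hy).symm
          rw [this]; exact hf.2 y hy
        · have h2 : f * e⁻¹ * w * e = w * f := by
            calc f * e⁻¹ * w * e = f * (e⁻¹ * (w * e * w)) * w⁻¹ := by group
              _ = f * (f⁻¹ * (w * f * w)) * w⁻¹ := by rw [hef']
              _ = w * f := by group
          calc f * e⁻¹ * w = f * e⁻¹ * w * e * e⁻¹ := by group
            _ = w * (f * e⁻¹) := by rw [h2]; group
      rw [mul_inv_eq_one] at h1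
      exact h1.symm
  have hxM : x ∈ M G Λ id := mem_M.2 ⟨hx, hxf⟩
  rw [← himg, Finset.mem_image] at hxM
  obtain ⟨e, -, rfl⟩ := hxM
  rw [mul_inv_rev, mul_inv_rev, mul_inv_rev, inv_inv, hwi]
  calc w * (e⁻¹ * (w * e * w)) * w = w * e⁻¹ * w * e * (w * w) := by group
    _ = w * (e⁻¹ * w) * e := by rw [hww]; group

/-- the pointwise stabilizer of `k` points is trivial -/
theorem triv (C : Ctx G k) {Λ : Finset α} (hΛ : Λ.card = k) {x : Equiv.Perm α} (hx : x ∈ G)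
    (hxf : ∀ y ∈ Λ, x y = y) : x = 1 := by
  obtain ⟨a, b, c, d, h⟩ := exists_D4 (by rw [hΛ]; exact C.hk : 4 ≤ Λ.card)
  obtain ⟨w₁, hw₁, hww₁⟩ := exists_DT1 C.hT (C.hE Λ hΛ) hΛ h
  obtain ⟨d1, d2, d3, d4, d5⟩ := dsw h.swap.hab h.swap.hac h.swap.had h.swap.hbc h.swap.hbd h.swap.hcd
  obtain ⟨hw₁G, v1, v2, v3, v4, v5⟩ := id hw₁
  obtain ⟨w₂, hw₂, hww₂, hcomm⟩ := exists_DT C.hT (C.hE Λ hΛ) hΛ h.swap hw₁.1 hww₁ (by
    intro y hy
    by_cases h1 : y = a
    · rw [h1, v1]; exact h.hb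
    by_cases h2 : y = b
    · rw [h2, v2]; exact h.ha
    by_cases h3 : y = c
    · rw [h3, v3]; exact h.hd
    by_cases h4 : y = d
    · rw [h4, v4]; exact h.hc
    rw [v5 y hy h1 h2 h3 h4]; exact hy) (by
    intro y hy
    by_cases h1 : y = a
    · rw [h1, v1, d3, v4, d1]
    by_cases h2 : y = b
    · rw [h2, v2, d1, v3, d3]
    by_cases h3 : y = c
    · rw [h3, v3, d4, v2, d2]
    by_cases h4 : y = d
    · rw [h4, v4, d2, v1, d4]
    rw [v5 y hy h1 h2 h3 h4, d5 y h1 h3 h2 h4, v5 y hy h1 h2 h3 h4])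
  obtain ⟨hw₂G, u1, u2, u3, u4, u5⟩ := id hw₂
  have e1 := invE C hΛ h hw₁ hww₁ hx hxf
  have e2 := invE C hΛ h.swap hw₂ hww₂ hx hxf
  have hw1i : w₁⁻¹ = w₁ := inv_eq_of_mul_eq_one_left hww₁
  have hw2i : w₂⁻¹ = w₂ := inv_eq_of_mul_eq_one_left hww₂
  have hD3 : DT G Λ (w₁ * w₂) a d b c := by
    refine ⟨G.mul_mem hw₁G hw₂G, ?_, ?_, ?_, ?_, fun y hy h1 h2 h3 h4 => ?_⟩
    · rw [Equiv.Perm.mul_apply, u1, v3]
    · rw [Equiv.Perm.mul_apply, u4, v2]
    · rw [Equiv.Perm.mul_apply, u3, v4]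
    · rw [Equiv.Perm.mul_apply, u2, v1]
    · rw [Equiv.Perm.mul_apply, u5 y hy h1 h4 h3 h2, v5 y hy h1 h3 h4 h2]
  have h33 : w₁ * w₂ * (w₁ * w₂) = 1 := by
    calc w₁ * w₂ * (w₁ * w₂) = w₁ * (w₂ * w₁) * w₂ := by group
      _ = w₁ * (w₁ * w₂) * w₂ := by rw [hcomm]
      _ = (w₁ * w₁) * (w₂ * w₂) := by group
      _ = 1 := by rw [hww₁, hww₂, mul_one]
  apply centE C hΛ h.rot hD3 h33 hx hxf
  have e3 : w₁ * x⁻¹ * w₁ = x := by
    have := congrArg (fun z => z⁻¹) e1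
    simp only [mul_inv_rev, inv_inv, hw1i] at this
    rw [← mul_assoc] at this
    exact this
  calc x * (w₁ * w₂) = (w₁ * x⁻¹ * w₁) * (w₁ * w₂) := by rw [e3]
    _ = w₁ * x⁻¹ * (w₁ * w₁) * w₂ := by group
    _ = w₁ * x⁻¹ * w₂ := by rw [hww₁]; group
    _ = w₁ * (w₂ * x * w₂) * w₂ := by rw [e2]
    _ = w₁ * w₂ * x * (w₂ * w₂) := by group
    _ = w₁ * w₂ * x := by rw [hww₂, mul_one]

theorem eqS (C : Ctx G k) {Λ : Finset α} (hΛ : Λ.card = k) {g h : Equiv.Perm α} (hg : g ∈ G) (hh : h ∈ G)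
    (hgh : ∀ x ∈ Λ, g x = h x) : g = h := by
  have h1 : h⁻¹ * g = 1 := by
    apply triv C hΛ (G.mul_mem (G.inv_mem hh) hg)
    intro y hy
    rw [Equiv.Perm.mul_apply, hgh y hy, Equiv.Perm.inv_eq_iff_eq]
  rw [inv_mul_eq_one] at h1
  exact h1.symm

theorem eq4 (C : Ctx G k) {Λ : Finset α} (hΛ : Λ.card = k) {g h : Equiv.Perm α} (hg : g ∈ G) (hh : h ∈ G)
    (a b c d : α) (ha : g a = h a) (hb : g b = h b) (hc : g c = h c) (hd : g d = h d)
    (ho : ∀ x ∈ Λ, x ≠ a → x ≠ b → x ≠ c → x ≠ d → g x = h x) : g = h := by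
  apply eqS C hΛ hg hh
  intro x hx
  by_cases h1 : x = a
  · rw [h1]; exact ha
  by_cases h2 : x = b
  · rw [h2]; exact hb
  by_cases h3 : x = c
  · rw [h3]; exact hc
  by_cases h4 : x = d
  · rw [h4]; exact hd
  exact ho x hx h1 h2 h3 h4

theorem few_fix (C : Ctx G k) {g : Equiv.Perm α} (hg : g ∈ G) (hg1 : g ≠ 1) : (Fx g).card < k := by
  by_contra h2
  obtain ⟨s, hs1, hs2⟩ := Finset.exists_subset_card_eq (s := Fx g) (n := k) (by omega)
  exact hg1 (triv C hs2 hg (fun x hx => mem_Fx.1 (hs1 hx)))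

end CfsgLib.LW20
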