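import Mathlib
import Cfsg.Agent.LibLW20d

/-! Multiply transitive groups: the remaining case, end. -/

set_option autoImplicit false
set_option linter.all false

namespace CfsgLib.LW20

variable {α : Type*} [Fintype α] [DecidableEq α]

variable {G : Subgroup (Equiv.Perm α)} {k : ℕ}

theorem DT.sq (C : Ctx G k) {Λ : Finset α} (hΛ : Λ.card = k) {a b c d : α} {w : Equiv.Perm α}
    (hw : DT G Λ w a b c d) : w * w = 1 := by
  obtain ⟨hwG, w1, w2, w3, w4, w5⟩ := hw
  apply eq4 C hΛ (G.mul_mem hwG hwG) G.one_mem a b c d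
  · rw [Equiv.Perm.mul_apply, w1, w2]; rfl
  · rw [Equiv.Perm.mul_apply, w2, w1]; rfl
  · rw [Equiv.Perm.mul_apply, w3, w4]; rfl
  · rw [Equiv.Perm.mul_apply, w4, w3]; rfl
  · intro x hx h1 h2 h3 h4
    rw [Equiv.Perm.mul_apply, w5 x hx h1 h2 h3 h4, w5 x hx h1 h2 h3 h4]; rfl

theorem DT.maps {Λ : Finset α} {a b c d : α} (h : D4 Λ a b c d) {w : Equiv.Perm α}
    (hw : DT G Λ w a b c d) : ∀ x ∈ Λ, w x ∈ Λ := by
  obtain ⟨hwG, w1, w2, w3, w4, w5⟩ := hw
  intro y hy
  by_cases h1 : y = a
  · rw [h1, w1]; exact h.hb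
  by_cases h2 : y = b
  · rw [h2, w2]; exact h.ha
  by_cases h3 : y = c
  · rw [h3, w3]; exact h.hd
  by_cases h4 : y = d
  · rw [h4, w4]; exact h.hc
  rw [w5 y hy h1 h2 h3 h4]; exact hy

theorem claimV (C : Ctx G k) {Λ : Finset α} (hΛ : Λ.card = k) {a b c d : α} (h : D4 Λ a b c d)
    {w₁ w₂ : Equiv.Perm α} (hw₁ : DT G Λ w₁ a b c d) (hw₂ : DT G Λ w₂ a c b d) {x : α}
    (hx : x ∈ Fx w₁ \ Λ) : w₂ x = x := by
  have hk := C.hk
  have s1 := hw₁.sq C hΛ
  have s2 := hw₂.sq C hΛ
  have hm1 := hw₁.maps h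
  have hm2 := hw₂.maps h.swap
  have hP := Fx_sdiff_card C hΛ h hw₁ s1
  have hFw := cardW C.hk C.hT C.hE C.hev C.hm hΛ h hw₁ s1
  obtain ⟨hG1, v1, v2, v3, v4, v5⟩ := id hw₁
  obtain ⟨hG2, u1, u2, u3, u4, u5⟩ := id hw₂
  have x1 := invol_apply s1
  have x2 := invol_apply s2
  by_contra hne
  obtain ⟨t, ht, htf⟩ := C.hT Λ (Equiv.swap a b) hΛ (Equiv.injective _).injOn
  have ta : t a = b := by rw [htf a h.ha, Equiv.swap_apply_left]
  have tb : t b = a := by rw [htf b h.hb, Equiv.swap_apply_right]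
  have tO : ∀ y ∈ Λ, y ≠ a → y ≠ b → t y = y := fun y hy h1 h2 => by
    rw [htf y hy, Equiv.swap_apply_of_ne_of_ne h1 h2]
  have tc : t c = c := tO c h.hc h.hac.symm h.hbc.symm
  have td : t d = d := tO d h.hd h.had.symm h.hbd.symm
  have st : t * t = 1 := by
    apply eq4 C hΛ (G.mul_mem ht ht) G.one_mem a b c d
    · rw [Equiv.Perm.mul_apply, ta, tb]; rfl
    · rw [Equiv.Perm.mul_apply, tb, ta]; rfl
    · rw [Equiv.Perm.mul_apply, tc, tc]; rfl
    · rw [Equiv.Perm.mul_apply, td, td]; rfl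
    · intro y hy h1 h2 _ _
      rw [Equiv.Perm.mul_apply, tO y hy h1 h2, tO y hy h1 h2]; rfl
  have xt := invol_apply st
  have ht1 : t ≠ 1 := by rintro rfl; exact h.hab ta
  have hFt : Fx t ⊆ Λ := by
    have c1 := card_sdiff_pair h.ha h.hb h.hab
    have : Λ \ {a, b} = Fx t := by
      apply Finset.eq_of_subset_of_card_le
      · intro y hy
        simp only [Finset.mem_sdiff, Finset.mem_insert, Finset.mem_singleton, not_or] at hy
        exact mem_Fx.2 (tO y hy.1 hy.2.1 hy.2.2)
      · have := inv_fix hk C.hE C.hev C.hm ht st ht1; omega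
    rw [← this]; exact Finset.sdiff_subset
  have c1t : t * w₁ = w₁ * t := by
    apply eq4 C hΛ (G.mul_mem ht hG1) (G.mul_mem hG1 ht) a b c d
    · rw [Equiv.Perm.mul_apply, Equiv.Perm.mul_apply, v1, tb, ta, v2]
    · rw [Equiv.Perm.mul_apply, Equiv.Perm.mul_apply, v2, ta, tb, v1]
    · rw [Equiv.Perm.mul_apply, Equiv.Perm.mul_apply, v3, td, tc, v3]
    · rw [Equiv.Perm.mul_apply, Equiv.Perm.mul_apply, v4, tc, td, v4]
    · intro y hy h1 h2 h3 h4
      rw [Equiv.Perm.mul_apply, Equiv.Perm.mul_apply, v5 y hy h1 h2 h3 h4, tO y hy h1 h2,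
        v5 y hy h1 h2 h3 h4]
  have c12 : w₂ * w₁ = w₁ * w₂ := by
    apply eq4 C hΛ (G.mul_mem hG2 hG1) (G.mul_mem hG1 hG2) a b c d
    · rw [Equiv.Perm.mul_apply, Equiv.Perm.mul_apply, v1, u3, u1, v3]
    · rw [Equiv.Perm.mul_apply, Equiv.Perm.mul_apply, v2, u1, u3, v4]
    · rw [Equiv.Perm.mul_apply, Equiv.Perm.mul_apply, v3, u4, u2, v1]
    · rw [Equiv.Perm.mul_apply, Equiv.Perm.mul_apply, v4, u2, u4, v2]
    · intro y hy h1 h2 h3 h4
      rw [Equiv.Perm.mul_apply, Equiv.Perm.mul_apply, v5 y hy h1 h2 h3 h4, u5 y hy h1 h3 h2 h4,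
        v5 y hy h1 h2 h3 h4]
  have hpres : ∀ g : Equiv.Perm α, g * g = 1 → (∀ y ∈ Λ, g y ∈ Λ) → g * w₁ = w₁ * g →
      ∀ y ∈ Fx w₁ \ Λ, g y ∈ Fx w₁ \ Λ := by
    intro g hg hgm hgc y hy
    rw [Finset.mem_sdiff, mem_Fx] at hy ⊢
    constructor
    · have h2 := congrArg (fun g : Equiv.Perm α => g y) hgc
      simp only [Equiv.Perm.mul_apply] at h2
      rw [hy.1] at h2; exact h2.symm
    · intro h2
      apply hy.2
      have := hgm _ h2
      rwa [invol_apply hg] at this
  have htm : ∀ y ∈ Λ, t y ∈ Λ := by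
    intro y hy
    by_cases h1 : y = a
    · rw [h1, ta]; exact h.hb
    by_cases h2 : y = b
    · rw [h2, tb]; exact h.ha
    rw [tO y hy h1 h2]; exact hy
  have hxΛ : x ∉ Λ := (Finset.mem_sdiff.1 hx).2
  have p1 := hpres w₂ s2 hm2 c12 x hx
  have p2 := hpres t st htm c1t x hx
  have htx : t x ≠ x := fun h1 => hxΛ (hFt (mem_Fx.2 h1))
  have heq : t x = w₂ x := by
    obtain ⟨p, q, hpq, hPe⟩ := Finset.card_eq_two.1 hP
    rw [hPe, Finset.mem_insert, Finset.mem_singleton] at hx p1 p2
    rcases hx with hx | hx <;> rcases p1 with p1 | p1 <;> rcases p2 with p2 | p2 <;>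
      first
      | exact p2.trans p1.symm
      | exact absurd (p1.trans hx.symm) hne
      | exact absurd (p2.trans hx.symm) htx
  set y := w₂ x with hy
  have hyΛ : y ∉ Λ := (Finset.mem_sdiff.1 p1).2
  have hyF : w₁ y = y := mem_Fx.1 (Finset.mem_sdiff.1 p1).1
  have hxF : w₁ x = x := mem_Fx.1 (Finset.mem_sdiff.1 hx).1
  set r := t * w₂ with hr
  have hrG : r ∈ G := G.mul_mem ht hG2
  have rx : r x = x := by rw [hr, Equiv.Perm.mul_apply, ← hy, ← heq, xt]
  have ry : r y = y := by
    rw [hr, Equiv.Perm.mul_apply]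
    have : w₂ y = x := by rw [hy, x2]
    rw [this, heq]
  have ra : r a = c := by rw [hr, Equiv.Perm.mul_apply, u1, tc]
  have rc : r c = b := by rw [hr, Equiv.Perm.mul_apply, u2, ta]
  have rb : r b = d := by rw [hr, Equiv.Perm.mul_apply, u3, td]
  have rd : r d = a := by rw [hr, Equiv.Perm.mul_apply, u4, tb]
  have ro : ∀ z ∈ Λ, z ≠ a → z ≠ b → z ≠ c → z ≠ d → r z = z := by
    intro z hz h1 h2 h3 h4
    rw [hr, Equiv.Perm.mul_apply, u5 z hz h1 h3 h2 h4, tO z hz h1 h2]
  have rr : r * r = w₁ := by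
    apply eq4 C hΛ (G.mul_mem hrG hrG) hG1 a b c d
    · rw [Equiv.Perm.mul_apply, ra, rc, v1]
    · rw [Equiv.Perm.mul_apply, rb, rd, v2]
    · rw [Equiv.Perm.mul_apply, rc, rb, v3]
    · rw [Equiv.Perm.mul_apply, rd, ra, v4]
    · intro z hz h1 h2 h3 h4
      rw [Equiv.Perm.mul_apply, ro z hz h1 h2 h3 h4, ro z hz h1 h2 h3 h4, v5 z hz h1 h2 h3 h4]
  set B : Finset α := insert x (insert y (Λ \ {a, b, c, d})) with hB
  have hxy : x ≠ y := fun h1 => hne h1.symm
  have hmemB : ∀ z, z ∈ B ↔ z = x ∨ z = y ∨ (z ∈ Λ ∧ z ≠ a ∧ z ≠ b ∧ z ≠ c ∧ z ≠ d) := by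
    intro z
    rw [hB]
    simp only [Finset.mem_insert, Finset.mem_sdiff, Finset.mem_singleton, not_or]
  have hBc : B.card = k - 2 := by
    rw [hB, Finset.card_insert_of_notMem, Finset.card_insert_of_notMem]
    · have := h.card; omega
    · intro h1; exact hyΛ (Finset.mem_sdiff.1 h1).1
    · rw [Finset.mem_insert]; push Not
      exact ⟨hxy, fun h1 => hxΛ (Finset.mem_sdiff.1 h1).1⟩
  have hBw : ∀ z ∈ B, w₁ z = z := by
    intro z hz
    rcases (hmemB z).1 hz with rfl | rfl | ⟨h0, h1, h2, h3, h4⟩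
    · exact hxF
    · exact hyF
    · exact v5 z h0 h1 h2 h3 h4
  have hBr : ∀ z ∈ B, r z = z := by
    intro z hz
    rcases (hmemB z).1 hz with h0 | h0 | ⟨h0, h1, h2, h3, h4⟩
    · rw [h0]; exact rx
    · rw [h0]; exact ry
    · exact ro z h0 h1 h2 h3 h4
  have hBF : B = Fx w₁ := by
    apply Finset.eq_of_subset_of_card_le
    · intro z hz; exact mem_Fx.2 (hBw z hz)
    · rw [hFw, hBc]
  have hrB : ∀ z, r z = z → z ∈ B := by
    intro z hz
    rw [hBF, mem_Fx, ← rr, Equiv.Perm.mul_apply, hz, hz]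
  have haB : a ∉ B := fun h1 => h.hac ((hBr a h1).symm.trans ra)
  have hbB : b ∉ B := fun h1 => h.hbd ((hBr b h1).symm.trans rb)
  have hcB : c ∉ B := fun h1 => h.hbc.symm ((hBr c h1).symm.trans rc)
  -- the elements g_s
  have hex : ∀ s, s ≠ a → s ≠ c → s ∉ B → ∃ g ∈ G, g s = s ∧ g a = c ∧ ∀ z ∈ B, g z = z := by
    intro s hsa hsc hsB
    have hcard : (insert s (insert a B)).card = k := by
      rw [Finset.card_insert_of_notMem, Finset.card_insert_of_notMem haB, hBc]
      · omega
      · rw [Finset.mem_insert]; push Not; exact ⟨hsa, hsB⟩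
    obtain ⟨g, hg, hgf⟩ := C.hT (insert s (insert a B)) (fun z => if z = a then c else z) hcard (by
      intro z hz z' hz' hzz
      simp only [Finset.coe_insert, Set.mem_insert_iff, Finset.mem_coe] at hz hz'
      by_cases h1 : z = a
      · by_cases h2 : z' = a
        · rw [h1, h2]
        · simp only [h1, h2, if_true, if_false] at hzz
          rcases hz' with h3 | h3 | h3
          · exact absurd (h3.symm.trans hzz.symm) hsc
          · exact absurd h3 h2
          · rw [← hzz] at h3; exact absurd h3 hcB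
      · by_cases h2 : z' = a
        · simp only [h1, h2, if_true, if_false] at hzz
          rcases hz with h3 | h3 | h3
          · exact absurd (h3.symm.trans hzz) hsc
          · exact absurd h3 h1
          · rw [hzz] at h3; exact absurd h3 hcB
        · simp only [h1, h2, if_false] at hzz
          exact hzz)
    refine ⟨g, hg, ?_, ?_, fun z hz => ?_⟩
    · rw [hgf s (by simp)]; simp [hsa]
    · rw [hgf a (by simp)]; simp
    · rw [hgf z (by simp [hz])]
      have : z ≠ a := fun h1 => haB (h1 ▸ hz)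
      simp [this]
  choose! g hg using hex
  set S : Finset α := Finset.univ \ (insert a (insert c B)) with hS
  have hmemS : ∀ s, s ∈ S ↔ s ≠ a ∧ s ≠ c ∧ s ∉ B := by
    intro s; rw [hS]
    simp only [Finset.mem_sdiff, Finset.mem_univ, true_and, Finset.mem_insert, not_or]
  have hg1 : ∀ s ∈ S, g s ≠ 1 := by
    intro s hs h1
    obtain ⟨h2, h3, h4⟩ := (hmemS s).1 hs
    have h5 := (hg s h2 h3 h4).2.2.1
    rw [h1] at h5; exact h.hac h5
  have himg : S.image (fun s => g s c) = S := by
    apply Finset.eq_of_subset_of_card_le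
    · intro z hz
      rw [Finset.mem_image] at hz
      obtain ⟨s, hs, rfl⟩ := hz
      obtain ⟨h2, h3, h4⟩ := (hmemS s).1 hs
      obtain ⟨k1, k2, k3, k4⟩ := hg s h2 h3 h4
      rw [hmemS]
      refine ⟨?_, ?_, ?_⟩
      · intro h5
        have h6 : g s * g s = 1 := by
          by_contra hne1
          have h7 := few_fix C (G.mul_mem k1 k1) hne1
          have h8 : insert a (insert c B) ⊆ Fx (g s * g s) := by
            intro z hz
            rw [mem_Fx, Equiv.Perm.mul_apply]
            simp only [Finset.mem_insert] at hz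
            rcases hz with rfl | rfl | hz
            · rw [k3, h5]
            · rw [h5, k3]
            · rw [k4 z hz, k4 z hz]
          have h9 := Finset.card_le_card h8
          rw [Finset.card_insert_of_notMem, Finset.card_insert_of_notMem hcB, hBc] at h9
          · omega
          · rw [Finset.mem_insert]; push Not; exact ⟨h.hac, haB⟩
        have h7 := inv_fix hk C.hE C.hev C.hm k1 h6 (hg1 s hs)
        have h8 : insert s B ⊆ Fx (g s) := by
          intro z hz
          rw [mem_Fx]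
          rw [Finset.mem_insert] at hz
          rcases hz with rfl | hz
          · exact k2
          · exact k4 z hz
        have h9 := Finset.card_le_card h8
        rw [Finset.card_insert_of_notMem h4, hBc] at h9
        omega
      · intro h5
        exact h.hac ((g s).injective (k3.trans h5.symm))
      · intro h5
        have h6 := k4 _ h5
        have h7 := (g s).injective h6
        exact h.hac ((g s).injective (k3.trans h7.symm))
    · rw [Finset.card_image_of_injOn]
      intro s hs s' hs' hss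
      have hss' : g s c = g s' c := hss
      obtain ⟨h2, h3, h4⟩ := (hmemS s).1 hs
      obtain ⟨k1, k2, k3, k4⟩ := hg s h2 h3 h4
      obtain ⟨h2', h3', h4'⟩ := (hmemS s').1 hs'
      obtain ⟨k1', k2', k3', k4'⟩ := hg s' h2' h3' h4'
      have hgg : g s = g s' := by
        apply eqS C (Λ := insert a (insert c B)) ?_ k1 k1'
        · intro z hz
          simp only [Finset.mem_insert] at hz
          rcases hz with rfl | rfl | hz
          · rw [k3, k3']
          · exact hss'
          · rw [k4 z hz, k4' z hz]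
        · rw [Finset.card_insert_of_notMem, Finset.card_insert_of_notMem hcB, hBc]
          · omega
          · rw [Finset.mem_insert]; push Not; exact ⟨h.hac, haB⟩
      by_contra hne2
      have h7 := few_fix C k1 (hg1 s hs)
      have h8 : insert s (insert s' B) ⊆ Fx (g s) := by
        intro z hz
        rw [mem_Fx]
        simp only [Finset.mem_insert] at hz
        rcases hz with rfl | rfl | hz
        · exact k2
        · rw [hgg]; exact k2'
        · exact k4 z hz
      have h9 := Finset.card_le_card h8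
      rw [Finset.card_insert_of_notMem, Finset.card_insert_of_notMem h4', hBc] at h9
      · omega
      · rw [Finset.mem_insert]; push Not; exact ⟨hne2, h4⟩
  have hbS : b ∈ S := (hmemS b).2 ⟨h.hab.symm, h.hbc, hbB⟩
  rw [← himg, Finset.mem_image] at hbS
  obtain ⟨s, hs, hsb⟩ := hbS
  obtain ⟨h2, h3, h4⟩ := (hmemS s).1 hs
  obtain ⟨k1, k2, k3, k4⟩ := hg s h2 h3 h4
  have hsr : g s = r := by
    apply eqS C (Λ := insert a (insert c B)) ?_ k1 hrG
    · intro z hz
      simp only [Finset.mem_insert] at hz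
      rcases hz with rfl | rfl | hz
      · rw [k3, ra]
      · rw [rc]; exact hsb
      · rw [k4 z hz, hBr z hz]
    · rw [Finset.card_insert_of_notMem, Finset.card_insert_of_notMem hcB, hBc]
      · omega
      · rw [Finset.mem_insert]; push Not; exact ⟨h.hac, haB⟩
  rw [hsr] at k2
  exact h4 (hrB s k2)

end CfsgLib.LW20
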