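import Mathlib
import Cfsg.Agent.LibLW20e

/-! Multiply transitive groups: the core lemma. -/

set_option autoImplicit false
set_option linter.all false

namespace CfsgLib.LW20

variable {α : Type*} [Fintype α] [DecidableEq α]

variable {G : Subgroup (Equiv.Perm α)} {k : ℕ}

theorem claimQ (C : Ctx G k) {Λ : Finset α} (hΛ : Λ.card = k) {a b c d : α} (h : D4 Λ a b c d)
    {u : Equiv.Perm α} (hu : u ∈ G) (ua : u a = b) (ub : u b = c) (uc : u c = a)
    (uo : ∀ x ∈ Λ, x ≠ a → x ≠ b → x ≠ c → u x = x) {w : Equiv.Perm α} (hw : DT G Λ w a b c d)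
    {x : α} (hx : x ∈ Fx w \ Λ) : u x = x := by
  obtain ⟨w₂, hw₂, s2⟩ := exists_DT1 C.hT (C.hE Λ hΛ) hΛ h.swap
  have s1 := hw.sq C hΛ
  obtain ⟨hG1, v1, v2, v3, v4, v5⟩ := id hw
  obtain ⟨hG2, u1, u2, u3, u4, u5⟩ := id hw₂
  have ud : u d = d := uo d h.hd h.had.symm h.hbd.symm h.hcd.symm
  have hD3 : DT G Λ (w * w₂) a d b c := by
    refine ⟨G.mul_mem hG1 hG2, ?_, ?_, ?_, ?_, fun y hy h1 h2 h3 h4 => ?_⟩
    · rw [Equiv.Perm.mul_apply, u1, v3]
    · rw [Equiv.Perm.mul_apply, u4, v2]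
    · rw [Equiv.Perm.mul_apply, u3, v4]
    · rw [Equiv.Perm.mul_apply, u2, v1]
    · rw [Equiv.Perm.mul_apply, u5 y hy h1 h4 h3 h2, v5 y hy h1 h3 h4 h2]
  have hP := Fx_sdiff_card C hΛ h hw s1
  have hP' := Fx_sdiff_card C hΛ h.rot hD3 (hD3.sq C hΛ)
  have hPP : Fx w \ Λ = Fx (w * w₂) \ Λ := by
    apply Finset.eq_of_subset_of_card_le
    · intro y hy
      have h1 := claimV C hΛ h hw hw₂ hy
      rw [Finset.mem_sdiff, mem_Fx] at hy ⊢
      refine ⟨?_, hy.2⟩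
      rw [Equiv.Perm.mul_apply, h1, hy.1]
    · rw [hP, hP']
  have hrel : u * w = (w * w₂) * u := by
    apply eq4 C hΛ (G.mul_mem hu hG1) (G.mul_mem (G.mul_mem hG1 hG2) hu) a b c d
    · rw [Equiv.Perm.mul_apply, Equiv.Perm.mul_apply, Equiv.Perm.mul_apply, v1, ub, ua, u3, v4]
    · rw [Equiv.Perm.mul_apply, Equiv.Perm.mul_apply, Equiv.Perm.mul_apply, v2, ua, ub, u2, v1]
    · rw [Equiv.Perm.mul_apply, Equiv.Perm.mul_apply, Equiv.Perm.mul_apply, v3, ud, uc, u1, v3]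
    · rw [Equiv.Perm.mul_apply, Equiv.Perm.mul_apply, Equiv.Perm.mul_apply, v4, uc, ud, u4, v2]
    · intro y hy h1 h2 h3 h4
      rw [Equiv.Perm.mul_apply, Equiv.Perm.mul_apply, Equiv.Perm.mul_apply, v5 y hy h1 h2 h3 h4,
        uo y hy h1 h2 h3, u5 y hy h1 h3 h2 h4, v5 y hy h1 h2 h3 h4]
  have hu3 : u * u * u = 1 := by
    apply eq4 C hΛ (G.mul_mem (G.mul_mem hu hu) hu) G.one_mem a b c d
    · rw [Equiv.Perm.mul_apply, Equiv.Perm.mul_apply, ua, ub, uc]; rfl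
    · rw [Equiv.Perm.mul_apply, Equiv.Perm.mul_apply, ub, uc, ua]; rfl
    · rw [Equiv.Perm.mul_apply, Equiv.Perm.mul_apply, uc, ua, ub]; rfl
    · rw [Equiv.Perm.mul_apply, Equiv.Perm.mul_apply, ud, ud, ud]; rfl
    · intro y hy h1 h2 h3 h4
      rw [Equiv.Perm.mul_apply, Equiv.Perm.mul_apply, uo y hy h1 h2 h3, uo y hy h1 h2 h3,
        uo y hy h1 h2 h3]; rfl
  have hu3x : ∀ y, u (u (u y)) = y := fun y => congrArg (fun g : Equiv.Perm α => g y) hu3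
  have hum : ∀ y ∈ Λ, u y ∈ Λ := by
    intro y hy
    by_cases h1 : y = a
    · rw [h1, ua]; exact h.hb
    by_cases h2 : y = b
    · rw [h2, ub]; exact h.hc
    by_cases h3 : y = c
    · rw [h3, uc]; exact h.ha
    rw [uo y hy h1 h2 h3]; exact hy
  have hpres : ∀ y ∈ Fx w \ Λ, u y ∈ Fx w \ Λ := by
    intro y hy
    rw [hPP]
    rw [Finset.mem_sdiff, mem_Fx] at hy ⊢
    constructor
    · have h2 := congrArg (fun g : Equiv.Perm α => g y) hrel
      have h3 : u (w y) = (w * w₂) (u y) := h2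
      rw [← h3, hy.1]
    · intro h2
      apply hy.2
      have := hum _ (hum _ h2)
      rwa [hu3x] at this
  have h1 := two_set hP hpres hx
  have h2 := hu3x x
  rw [h1] at h2
  exact h2

theorem C3.rot {Γ : Finset α} {x y z : α} (h : C3 G Γ x y z) : C3 G Γ y z x := by
  obtain ⟨g, hg, h1, h2, h3, h4⟩ := h
  exact ⟨g, hg, h2, h3, h1, fun w hw a b c => h4 w hw c a b⟩

theorem C3.inv {Γ : Finset α} {x y z : α} (h : C3 G Γ x y z) : C3 G Γ x z y := by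
  obtain ⟨g, hg, h1, h2, h3, h4⟩ := h
  refine ⟨g⁻¹, G.inv_mem hg, ?_, ?_, ?_, fun w hw a b c => ?_⟩
  · rw [Equiv.Perm.inv_eq_iff_eq]; exact h3.symm
  · rw [Equiv.Perm.inv_eq_iff_eq]; exact h2.symm
  · rw [Equiv.Perm.inv_eq_iff_eq]; exact h1.symm
  · rw [Equiv.Perm.inv_eq_iff_eq]; exact (h4 w hw a c b).symm

theorem C3.conj3 {Γ : Finset α} {p q l : α} (hp : p ∈ Γ) (hq : q ∈ Γ) (hl : l ∈ Γ)
    (h : C3 G Γ p q l) : ∃ u : Equiv.Perm α, u p = q ∧ u q = l ∧ u l = p ∧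
      (∀ w ∈ Γ, w ≠ p → w ≠ q → w ≠ l → u w = w) ∧
      ∀ x y z, C3 G Γ x y z → C3 G Γ (u x) (u y) (u z) := by
  obtain ⟨u, hu, h1, h2, h3, h4⟩ := h
  refine ⟨u, h1, h2, h3, h4, ?_⟩
  have hi : ∀ w ∈ Γ, u⁻¹ w ∈ Γ := by
    intro w hw
    by_cases e1 : w = q
    · rw [e1, Equiv.Perm.inv_eq_iff_eq.2 h1.symm]; exact hp
    by_cases e2 : w = l
    · rw [e2, Equiv.Perm.inv_eq_iff_eq.2 h2.symm]; exact hq
    by_cases e3 : w = p
    · rw [e3, Equiv.Perm.inv_eq_iff_eq.2 h3.symm]; exact hl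
    rw [Equiv.Perm.inv_eq_iff_eq.2 (h4 w hw e3 e1 e2).symm]; exact hw
  rintro x y z ⟨g, hg, g1, g2, g3, g4⟩
  have hux : ∀ t, u⁻¹ (u t) = t := fun t => by rw [Equiv.Perm.inv_eq_iff_eq]
  refine ⟨u * g * u⁻¹, G.mul_mem (G.mul_mem hu hg) (G.inv_mem hu), ?_, ?_, ?_, fun w hw a b c => ?_⟩
  · rw [Equiv.Perm.mul_apply, Equiv.Perm.mul_apply, hux, g1]
  · rw [Equiv.Perm.mul_apply, Equiv.Perm.mul_apply, hux, g2]
  · rw [Equiv.Perm.mul_apply, Equiv.Perm.mul_apply, hux, g3]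
  · have huu : u (u⁻¹ w) = w := Equiv.apply_symm_apply u w
    rw [Equiv.Perm.mul_apply, Equiv.Perm.mul_apply, g4 (u⁻¹ w) (hi w hw), huu]
    · intro e; apply a; rw [← huu, e]
    · intro e; apply b; rw [← huu, e]
    · intro e; apply c; rw [← huu, e]

theorem good_of_C3 {Γ : Finset α} {p q : α} (hp : p ∈ Γ) (hq : q ∈ Γ) (hpq : p ≠ q)
    (h : ∀ j ∈ Γ, j ≠ p → j ≠ q → C3 G Γ p q j) : Good G Γ := by
  -- q l j
  have hA : ∀ l ∈ Γ, ∀ j ∈ Γ, l ≠ p → l ≠ q → j ≠ p → j ≠ q → l ≠ j → C3 G Γ q l j := by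
    intro l hl j hj l1 l2 j1 j2 hlj
    obtain ⟨u, u1, u2, u3, u4, u5⟩ := C3.conj3 hp hq hl (h l hl l1 l2)
    have := u5 _ _ _ (h j hj j1 j2)
    rwa [u1, u2, u4 j hj j1 j2 hlj.symm] at this
  -- l p j
  have hB : ∀ l ∈ Γ, ∀ j ∈ Γ, l ≠ p → l ≠ q → j ≠ p → j ≠ q → l ≠ j → C3 G Γ l p j := by
    intro l hl j hj l1 l2 j1 j2 hlj
    obtain ⟨u, u1, u2, u3, u4, u5⟩ := C3.conj3 hp hl hq (h l hl l1 l2).inv
    have := u5 _ _ _ (h j hj j1 j2)
    rwa [u1, u3, u4 j hj j1 hlj.symm j2] at this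
  have hCc : ∀ r ∈ Γ, ∀ l ∈ Γ, ∀ j ∈ Γ, r ≠ p → r ≠ q → l ≠ p → l ≠ q → j ≠ p → j ≠ q → r ≠ l → r ≠ j →
      l ≠ j → C3 G Γ r l j := by
    intro r hr l hl j hj r1 r2 l1 l2 j1 j2 hrl hrj hlj
    obtain ⟨u, u1, u2, u3, u4, u5⟩ := C3.conj3 hp hq hr (h r hr r1 r2)
    have := u5 _ _ _ (hA l hl j hj l1 l2 j1 j2 hlj)
    rwa [u2, u4 l hl l1 l2 hrl.symm, u4 j hj j1 j2 hrj.symm] at this
  intro x hx y hy z hz hxy hxz hyz
  by_cases x1 : x = p
  · subst x1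
    by_cases y1 : y = q
    · subst y1; exact h z hz hxz.symm hyz.symm
    by_cases z1 : z = q
    · subst z1; exact (h y hy hxy.symm hyz).inv
    exact (hB z hz y hy hxz.symm z1 hxy.symm y1 hyz.symm).rot
  by_cases x2 : x = q
  · subst x2
    by_cases y1 : y = p
    · subst y1; exact (h z hz hyz.symm hxz.symm).inv.rot.rot
    by_cases z1 : z = p
    · subst z1; exact (h y hy hyz hxy.symm).rot
    exact hA y hy z hz y1 hxy.symm z1 hxz.symm hyz
  by_cases y1 : y = p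
  · subst y1
    by_cases z1 : z = q
    · subst z1; exact (h x hx x1 x2).rot.rot
    exact hB x hx z hz x1 x2 hyz.symm z1 hxz
  by_cases y2 : y = q
  · subst y2
    by_cases z1 : z = p
    · subst z1; exact (h x hx x1 x2).inv.rot
    exact (hA z hz x hx z1 hyz.symm x1 x2 hxz.symm).rot.rot
  by_cases z1 : z = p
  · subst z1
    exact (hB y hy x hx y1 y2 x1 x2 hxy.symm).rot.rot
  by_cases z2 : z = q
  · subst z2
    exact (hA x hx y hy x1 x2 y1 y2 hxy).rot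
  exact hCc x hx y hy z hz x1 x2 y1 y2 z1 z2 hxy hxz hyz

theorem Good.mono {Γ Δ : Finset α} (h : Good G Γ) (hs : Δ ⊆ Γ) : Good G Δ := by
  intro a ha b hb c hc hab hac hbc
  obtain ⟨g, hg, h1, h2, h3, h4⟩ := h a (hs ha) b (hs hb) c (hs hc) hab hac hbc
  exact ⟨g, hg, h1, h2, h3, fun x hx => h4 x (hs hx)⟩

theorem caseAeven (C : Ctx G k) : ∃ Δ : Finset α, Δ.card = k + 1 ∧ Good G Δ := by
  have hk := C.hk
  have hm := C.hm
  obtain ⟨Λ, -, hΛ⟩ := Finset.exists_subset_card_eq (s := (Finset.univ : Finset α)) (n := k)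
    (by rw [Finset.card_univ]; omega)
  obtain ⟨a, b, c, d, h⟩ := exists_D4 (by rw [hΛ]; exact hk : 4 ≤ Λ.card)
  obtain ⟨u, hu, huf⟩ := C.hT Λ (Equiv.swap a b * Equiv.swap b c) hΛ (Equiv.injective _).injOn
  have ua : u a = b := by
    rw [huf a h.ha, Equiv.Perm.mul_apply, Equiv.swap_apply_of_ne_of_ne h.hab h.hac, Equiv.swap_apply_left]
  have ub : u b = c := by
    rw [huf b h.hb, Equiv.Perm.mul_apply, Equiv.swap_apply_left,
      Equiv.swap_apply_of_ne_of_ne h.hac.symm h.hbc.symm]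
  have uc : u c = a := by
    rw [huf c h.hc, Equiv.Perm.mul_apply, Equiv.swap_apply_right, Equiv.swap_apply_right]
  have uo : ∀ x ∈ Λ, x ≠ a → x ≠ b → x ≠ c → u x = x := by
    intro x hx h1 h2 h3
    rw [huf x hx, Equiv.Perm.mul_apply, Equiv.swap_apply_of_ne_of_ne h2 h3,
      Equiv.swap_apply_of_ne_of_ne h1 h2]
  have hu1 : u ≠ 1 := by rintro rfl; exact h.hab ua
  obtain ⟨w, hw, s1⟩ := exists_DT1 C.hT (C.hE Λ hΛ) hΛ h
  have hP := Fx_sdiff_card C hΛ h hw s1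
  have haΦ : a ∉ Fx u := fun h1 => h.hab ((mem_Fx.1 h1).symm.trans ua)
  have hbΦ : b ∉ Fx u := fun h1 => h.hbc ((mem_Fx.1 h1).symm.trans ub)
  have hcΦ : c ∉ Fx u := fun h1 => h.hac.symm ((mem_Fx.1 h1).symm.trans uc)
  have hΦ : (Fx u).card = k - 1 := by
    have h1 := few_fix C hu hu1
    have h2 : (Λ \ {a, b, c}) ∪ (Fx w \ Λ) ⊆ Fx u := by
      intro x hx
      rw [Finset.mem_union] at hx
      rcases hx with hx | hx
      · simp only [Finset.mem_sdiff, Finset.mem_insert, Finset.mem_singleton, not_or] at hx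
        exact mem_Fx.2 (uo x hx.1 hx.2.1 hx.2.2.1 hx.2.2.2)
      · exact mem_Fx.2 (claimQ C hΛ h hu ua ub uc uo hw hx)
    have h3 := Finset.card_le_card h2
    rw [Finset.card_union_of_disjoint, hP] at h3
    · have h4 := Finset.le_card_sdiff ({a, b, c} : Finset α) Λ
      have h5 : ({a, b, c} : Finset α).card ≤ 3 := Finset.card_le_three
      omega
    · rw [Finset.disjoint_left]
      intro x hx hx'
      exact (Finset.mem_sdiff.1 hx').2 (Finset.mem_sdiff.1 hx).1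
  set Γ : Finset α := insert a (insert b (insert c (Fx u))) with hΓ
  have hΓc : Γ.card = k + 2 := by
    rw [hΓ, Finset.card_insert_of_notMem, Finset.card_insert_of_notMem, Finset.card_insert_of_notMem hcΦ,
      hΦ]
    · omega
    · rw [Finset.mem_insert]; push Not; exact ⟨h.hbc, hbΦ⟩
    · simp only [Finset.mem_insert, not_or]; exact ⟨h.hab, h.hac, haΦ⟩
  have hmemΓ : ∀ x, x ∈ Γ ↔ x = a ∨ x = b ∨ x = c ∨ x ∈ Fx u := by
    intro x; rw [hΓ]; simp only [Finset.mem_insert]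
  have key : ∀ j ∈ Fx u, ∃ v ∈ G, v a = b ∧ v b = a ∧ v c = j ∧ v j = c ∧
      ∀ x ∈ Fx u, x ≠ j → v x = x := by
    intro j hj
    have hja : j ≠ a := fun h1 => haΦ (h1 ▸ hj)
    have hjb : j ≠ b := fun h1 => hbΦ (h1 ▸ hj)
    have hjc : j ≠ c := fun h1 => hcΦ (h1 ▸ hj)
    obtain ⟨B, hB1, hB2⟩ := Finset.exists_subset_card_eq (s := (Fx u).erase j) (n := k - 4)
      (by rw [Finset.card_erase_of_mem hj]; omega)
    have hBj : j ∉ B := fun h1 => (Finset.mem_erase.1 (hB1 h1)).1 rfl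
    have hBΦ : ∀ x ∈ B, x ∈ Fx u := fun x hx => (Finset.mem_erase.1 (hB1 hx)).2
    set Λ' : Finset α := insert a (insert b (insert c (insert j B))) with hΛ'
    have hmem' : ∀ x, x ∈ Λ' ↔ x = a ∨ x = b ∨ x = c ∨ x = j ∨ x ∈ B := by
      intro x; rw [hΛ']; simp only [Finset.mem_insert]
    have hΛ'c : Λ'.card = k := by
      rw [hΛ', Finset.card_insert_of_notMem, Finset.card_insert_of_notMem,
        Finset.card_insert_of_notMem, Finset.card_insert_of_notMem hBj, hB2]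
      · omega
      · rw [Finset.mem_insert]; push Not; exact ⟨hjc.symm, fun h1 => hcΦ (hBΦ _ h1)⟩
      · simp only [Finset.mem_insert, not_or]; exact ⟨h.hbc, hjb.symm, fun h1 => hbΦ (hBΦ _ h1)⟩
      · simp only [Finset.mem_insert, not_or]
        exact ⟨h.hab, h.hac, hja.symm, fun h1 => haΦ (hBΦ _ h1)⟩
    have hD : D4 Λ' a b c j := ⟨(hmem' a).2 (by tauto), (hmem' b).2 (by tauto), (hmem' c).2 (by tauto),
      (hmem' j).2 (by tauto), h.hab, h.hac, hja.symm, h.hbc, hjb.symm, hjc.symm⟩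
    have uo' : ∀ x ∈ Λ', x ≠ a → x ≠ b → x ≠ c → u x = x := by
      intro x hx h1 h2 h3
      rcases (hmem' x).1 hx with h4 | h4 | h4 | h4 | h4
      · exact absurd h4 h1
      · exact absurd h4 h2
      · exact absurd h4 h3
      · rw [h4]; exact mem_Fx.1 hj
      · exact mem_Fx.1 (hBΦ x h4)
    obtain ⟨v, hv, sv⟩ := exists_DT1 C.hT (C.hE Λ' hΛ'c) hΛ'c hD
    have hPv := Fx_sdiff_card C hΛ'c hD hv sv
    have hsub : Fx v \ Λ' = Fx u \ Λ' := by
      apply Finset.eq_of_subset_of_card_le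
      · intro x hx
        rw [Finset.mem_sdiff]
        exact ⟨mem_Fx.2 (claimQ C hΛ'c hD hu ua ub uc uo' hv hx), (Finset.mem_sdiff.1 hx).2⟩
      · rw [hPv]
        have h1 : insert j B ⊆ Fx u ∩ Λ' := by
          intro x hx
          rw [Finset.mem_inter, hmem']
          rw [Finset.mem_insert] at hx
          rcases hx with rfl | hx
          · exact ⟨hj, by tauto⟩
          · exact ⟨hBΦ x hx, by tauto⟩
        have h2 := Finset.card_le_card h1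
        rw [Finset.card_insert_of_notMem hBj, hB2] at h2
        have h3 := Finset.card_sdiff_add_card_inter (Fx u) Λ'
        omega
    obtain ⟨hvG, v1, v2, v3, v4, v5⟩ := id hv
    refine ⟨v, hvG, v1, v2, v3, v4, fun x hx hxj => ?_⟩
    by_cases hxΛ : x ∈ Λ'
    · exact v5 x hxΛ (fun e => haΦ (e ▸ hx)) (fun e => hbΦ (e ▸ hx)) (fun e => hcΦ (e ▸ hx)) hxj
    · have : x ∈ Fx v \ Λ' := by rw [hsub]; exact Finset.mem_sdiff.2 ⟨hx, hxΛ⟩
      exact mem_Fx.1 (Finset.mem_sdiff.1 this).1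
  have hgood : Good G Γ := by
    apply good_of_C3 (p := b) (q := a) ((hmemΓ b).2 (by tauto)) ((hmemΓ a).2 (by tauto)) h.hab.symm
    intro j hj hjb hja
    have gi : ∀ (g : Equiv.Perm α) x y, g x = y → g⁻¹ y = x := fun g x y hxy => by
      rw [Equiv.Perm.inv_eq_iff_eq]; exact hxy.symm
    by_cases hjc : j = c
    · subst hjc
      refine ⟨u⁻¹, G.inv_mem hu, gi u _ _ ua, gi u _ _ uc, gi u _ _ ub, fun x hx h1 h2 h3 => ?_⟩
      rcases (hmemΓ x).1 hx with h4 | h4 | h4 | h4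
      · exact absurd h4 h2
      · exact absurd h4 h1
      · exact absurd h4 h3
      · exact gi u _ _ (mem_Fx.1 h4)
    · have hjΦ : j ∈ Fx u := by
        rcases (hmemΓ j).1 hj with h4 | h4 | h4 | h4
        · exact absurd h4 hja
        · exact absurd h4 hjb
        · exact absurd h4 hjc
        · exact h4
      obtain ⟨v, hv, v1, v2, v3, v4, v5⟩ := key j hjΦ
      refine ⟨v * u * v⁻¹, G.mul_mem (G.mul_mem hv hu) (G.inv_mem hv), ?_, ?_, ?_,
        fun x hx h1 h2 h3 => ?_⟩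
      · rw [Equiv.Perm.mul_apply, Equiv.Perm.mul_apply, gi v _ _ v1, ua, v2]
      · rw [Equiv.Perm.mul_apply, Equiv.Perm.mul_apply, gi v _ _ v2, ub, v3]
      · rw [Equiv.Perm.mul_apply, Equiv.Perm.mul_apply, gi v _ _ v3, uc, v1]
      · rcases (hmemΓ x).1 hx with h4 | h4 | h4 | h4
        · exact absurd h4 h2
        · exact absurd h4 h1
        · rw [Equiv.Perm.mul_apply, Equiv.Perm.mul_apply, h4, gi v _ _ v4, mem_Fx.1 hjΦ, v4]
        · rw [Equiv.Perm.mul_apply, Equiv.Perm.mul_apply, gi v _ _ (v5 x h4 h3), mem_Fx.1 h4,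
            v5 x h4 h3]
  have haΓ : a ∈ Γ := (hmemΓ a).2 (by tauto)
  exact ⟨Γ.erase a, by rw [Finset.card_erase_of_mem haΓ, hΓc]; omega, hgood.mono (Finset.erase_subset a Γ)⟩

/-- the core lemma -/
theorem core (hk : 4 ≤ k) (hT : TF G k) (hm : k + 2 ≤ Fintype.card α)
    (hfix : ∀ g ∈ G, g ≠ 1 → (Fx g).card ≤ k) : ∃ Δ : Finset α, Δ.card = k + 1 ∧ Good G Δ := by
  by_cases hE : ∀ s : Finset α, s.card = k → NoInv G s
  · by_cases hev : Even (Fintype.card α - k)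
    · exact caseAeven ⟨hk, hT, hE, hev, hm, hfix⟩
    · exact caseAodd hk hT hE (by omega) (Nat.not_even_iff_odd.1 hev)
  · push Not at hE
    obtain ⟨s, hs, hE⟩ := hE
    unfold NoInv at hE
    push Not at hE
    obtain ⟨t, ht, htf, htt, ht1⟩ := hE
    exact caseB hk hT hfix hm hs ht htt ht1 htf

end CfsgLib.LW20
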