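import Mathlib
import Cfsg.Agent.LibPermBasic

/-! Homogeneous actions (seat helper15). -/

set_option autoImplicit false

namespace CfsgLib.PermHomog

open MulAction
open scoped Pointwise

/-- `k`-homogeneity in terms of finsets. -/
theorem homog_iff {G α : Type*} [Group G] [MulAction G α] [DecidableEq α] {k : ℕ} :
    IsPretransitive G (Set.powersetCard α k) ↔
      ∀ s t : Finset α, s.card = k → t.card = k → ∃ g : G, g • s = t := by
  constructor
  · intro h s t hs ht
    obtain ⟨g, hg⟩ := h.exists_smul_eq (⟨s, hs⟩ : Set.powersetCard α k) ⟨t, ht⟩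
    refine ⟨g, ?_⟩
    have := congrArg Subtype.val hg
    exact this
  · intro h
    constructor
    rintro ⟨s, hs⟩ ⟨t, ht⟩
    obtain ⟨g, hg⟩ := h s t hs ht
    exact ⟨g, Subtype.ext hg⟩

/-- `k`-homogeneity of a permutation group in terms of finsets. -/
theorem homog_iff_perm {α : Type*} [DecidableEq α] {G : Subgroup (Equiv.Perm α)} {k : ℕ} :
    IsPretransitive G (Set.powersetCard α k) ↔
      ∀ s t : Finset α, s.card = k → t.card = k → ∃ g : G, s.image (fun x => g • x) = t := by
  constructor
  · intro h s t hs ht
    obtain ⟨g, hg⟩ := h.exists_smul_eq (⟨s, hs⟩ : Set.powersetCard α k) ⟨t, ht⟩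
    refine ⟨g, ?_⟩
    have := congrArg Subtype.val hg
    exact this
  · intro h
    constructor
    rintro ⟨s, hs⟩ ⟨t, ht⟩
    obtain ⟨g, hg⟩ := h s t hs ht
    exact ⟨g, Subtype.ext hg⟩

/-- If the pointwise stabiliser of every `j`-set is transitive on the complement, and `j + 1` is
less than the degree, then the group is `(j+1)`-transitive. -/
theorem mt_of_fixing_all {G α : Type*} [Group G] [MulAction G α] [Fintype α] [DecidableEq α]
    {j : ℕ} (hj : j + 1 < Fintype.card α)
    (h : ∀ t : Finset α, t.card = j → ∀ x y : α, x ∉ t → y ∉ t →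
      ∃ g : G, (∀ a ∈ t, g • a = a) ∧ g • x = y) :
    IsMultiplyPretransitive G α (j + 1) := by
  have key : ∀ i : ℕ, i ≤ j + 1 → IsMultiplyPretransitive G α i := by
    intro i
    induction i with
    | zero => intro _; exact is_zero_pretransitive
    | succ i ih =>
      intro hi
      obtain ⟨s, -, hs⟩ := Finset.exists_subset_card_eq
        (show i ≤ (Finset.univ : Finset α).card by rw [Finset.card_univ]; omega)
      refine CfsgLib.PermBasic.mt_of_fixing (ih (by omega)) (s : Set α) s.finite_toSet
        (by rw [Set.ncard_coe_finset, hs]) ?_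
      intro x y _ _ hx hy
      have hx0 : x 0 ∉ s := by simpa using hx 0
      have hy0 : y 0 ∉ s := by simpa using hy 0
      -- enlarge `s` to a `j`-set avoiding `x 0`, `y 0`
      have hsub : s ⊆ ((Finset.univ : Finset α).erase (x 0)).erase (y 0) := by
        intro a ha
        simp only [Finset.mem_erase, Finset.mem_univ, and_true]
        exact ⟨fun e => hy0 (e ▸ ha), fun e => hx0 (e ▸ ha)⟩
      have hcard : j ≤ (((Finset.univ : Finset α).erase (x 0)).erase (y 0)).card := by
        have h1 := Finset.pred_card_le_card_erase (s := (Finset.univ : Finset α).erase (x 0)) (a := y 0)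
        have h2 := Finset.pred_card_le_card_erase (s := (Finset.univ : Finset α)) (a := x 0)
        rw [Finset.card_univ] at h2
        omega
      obtain ⟨t, hst, htu, htc⟩ := Finset.exists_subsuperset_card_eq hsub (by omega) hcard
      have hxt : x 0 ∉ t := fun e => by
        have := htu e
        simp at this
      have hyt : y 0 ∉ t := fun e => by
        have := htu e
        simp at this
      obtain ⟨g, hg, hg'⟩ := h t htc (x 0) (y 0) hxt hyt
      refine ⟨g, fun a ha => hg a (hst (by simpa using ha)), fun i => ?_⟩
      rw [Subsingleton.elim i 0]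
      exact hg'
  exact key _ le_rfl

end CfsgLib.PermHomog
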