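import Cfsg.Statements.S0743
import Mathlib
import Cfsg.Agent.LibPermHomog
-- import your own Cfsg.Agent.* helpers here

set_option autoImplicit false
open Cfsg

namespace Cfsg.Agent.S0743



/-- Gleason's Lemma: let `p` be a prime and `1 ≤ k < n`; if every `k`-subset of the `n` points is exactly the fixed-point set of some `p`-subgroup of `G`, then `G` is `k`-transitive. -/
theorem result {α : Type*} [Fintype α] [DecidableEq α] (G : Subgroup (Equiv.Perm α)) {p k : ℕ} (hp : p.Prime) (hk : 1 ≤ k) (hkn : k < Fintype.card α) (h : ∀ s : Finset α, s.card = k → ∃ P : Subgroup G, IsPGroup p P ∧ MulAction.fixedPoints P α = (s : Set α)) : MulAction.IsMultiplyPretransitive G α k := by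
  classical
  haveI : Fact p.Prime := ⟨hp⟩
  obtain ⟨j, rfl⟩ : ∃ j, k = j + 1 := ⟨k - 1, by omega⟩
  refine CfsgLib.PermHomog.mt_of_fixing_all hkn ?_
  intro t ht x y hx hy
  -- the pointwise stabiliser of `t`
  let H : Subgroup G := fixingSubgroup G (t : Set α)
  have hmem : ∀ g : G, g ∈ H ↔ ∀ a ∈ t, g • a = a := by
    intro g
    rw [mem_fixingSubgroup_iff]
    rfl
  -- for z outside t, a p-subgroup of H with fixed points t ∪ {z}
  have hP : ∀ z : α, z ∉ t → ∃ P : Subgroup G, IsPGroup p P ∧ P ≤ H ∧ ∀ w : α, (∀ g ∈ P, g • w = w) ↔ w = z ∨ w ∈ t := by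
    intro z hz
    obtain ⟨P, hPp, hPf⟩ := h (insert z t) (by rw [Finset.card_insert_of_notMem hz, ht])
    have hfix : ∀ w : α, (∀ g ∈ P, g • w = w) ↔ w = z ∨ w ∈ t := by
      intro w
      have h1 : w ∈ MulAction.fixedPoints P α ↔ w ∈ ((insert z t : Finset α) : Set α) := by rw [hPf]
      rw [MulAction.mem_fixedPoints] at h1
      simp only [Finset.coe_insert, Set.mem_insert_iff, Finset.mem_coe] at h1
      rw [← h1]
      constructor
      · intro h2 g
        exact h2 g g.2
      · intro h2 g hg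
        exact h2 ⟨g, hg⟩
    refine ⟨P, hPp, ?_, hfix⟩
    intro g hg
    rw [hmem]
    intro a ha
    exact (hfix a).mpr (Or.inr ha) g hg
  -- orbit counting
  have horb : ∀ (P : Subgroup G), IsPGroup p P → P ≤ H → ∀ z w : α,
      (∀ v : α, v ∈ MulAction.orbit H w → (∀ g ∈ P, g • v = v) → v = z) →
      Nat.card (MulAction.orbit H w) ≡ (if z ∈ MulAction.orbit H w ∧ (∀ g ∈ P, g • z = z) then 1 else 0) [MOD p] := by
    intro P hPp hPH z w hv
    let P' : Subgroup H := P.subgroupOf H
    have hP' : IsPGroup p P' := by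
      have e := Subgroup.subgroupOfEquivOfLe hPH
      exact hPp.of_equiv e.symm
    have h1 := hP'.card_modEq_card_fixedPoints (MulAction.orbit H w)
    refine h1.trans ?_
    have h2 : ∀ v : MulAction.orbit H w, v ∈ MulAction.fixedPoints P' (MulAction.orbit H w) ↔ ∀ g ∈ P, g • (v : α) = v := by
      intro v
      rw [MulAction.mem_fixedPoints]
      constructor
      · intro h3 g hg
        have := congrArg Subtype.val (h3 ⟨⟨g, hPH hg⟩, hg⟩)
        exact this
      · intro h3 g
        apply Subtype.ext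
        exact h3 ((g : H) : G) g.2
    split_ifs with hz
    · have : Nat.card (MulAction.fixedPoints P' (MulAction.orbit H w)) = 1 := by
        rw [Nat.card_eq_one_iff_unique]
        refine ⟨⟨?_⟩, ⟨⟨⟨z, hz.1⟩, (h2 _).mpr hz.2⟩⟩⟩
        rintro ⟨v, hv'⟩ ⟨u, hu'⟩
        apply Subtype.ext
        apply Subtype.ext
        rw [hv v v.2 ((h2 v).mp hv'), hv u u.2 ((h2 u).mp hu')]
      rw [this]
    · have : Nat.card (MulAction.fixedPoints P' (MulAction.orbit H w)) = 0 := by
        rw [Finite.card_eq_zero_iff]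
        refine ⟨?_⟩
        rintro ⟨v, hv'⟩
        have h4 := hv v v.2 ((h2 v).mp hv')
        apply hz
        rw [← h4]
        exact ⟨v.2, (h2 v).mp hv'⟩
      rw [this]
  have htinv : ∀ w : α, w ∉ t → ∀ v ∈ MulAction.orbit H w, v ∉ t := by
    rintro w hw _ ⟨g, rfl⟩ hv
    have hg := (hmem (g : G)).mp g.2
    have h1 : (g : G) • (g : G) • w = (g : G) • w := hg _ hv
    have h2 : (g : G) • w = w := MulAction.injective (g : G) h1
    apply hw
    have hv' : (g : G) • w ∈ t := hv
    rwa [h2] at hv'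
  by_contra hcon
  have hyx : y ∉ MulAction.orbit H x := by
    rintro ⟨g, hg⟩
    exact hcon ⟨g, (hmem _).mp g.2, hg⟩
  obtain ⟨P, hPp, hPH, hPf⟩ := hP x hx
  obtain ⟨Q, hQp, hQH, hQf⟩ := hP y hy
  have e1 := horb P hPp hPH x x (fun v hv hfv => ((hPf v).mp hfv).resolve_right (htinv x hx v hv))
  rw [if_pos ⟨MulAction.mem_orbit_self x, (hPf x).mpr (Or.inl rfl)⟩] at e1
  have e2 := horb Q hQp hQH y x (fun v hv hfv => ((hQf v).mp hfv).resolve_right (htinv x hx v hv))
  rw [if_neg (fun hc => hyx hc.1)] at e2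
  have e3 : 1 ≡ 0 [MOD p] := e1.symm.trans e2
  have := (Nat.modEq_zero_iff_dvd.mp e3)
  exact hp.one_lt.ne' (Nat.dvd_one.mp this)

end Cfsg.Agent.S0743
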