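import Mathlib
import Cfsg.Agent.LibLW20f
import Cfsg.Agent.S0743

/-! Multiply transitive groups: reduction to few fixed points. -/

set_option autoImplicit false
set_option linter.all false

namespace CfsgLib.LW20

universe v

section red

variable {α : Type v} [Fintype α] [DecidableEq α]

open Classical in
/-- points fixed by a subgroup -/
noncomputable def FS (R : Subgroup (Equiv.Perm α)) : Finset α :=
  Finset.univ.filter (fun x => ∀ r ∈ R, r x = x)

theorem mem_FS {R : Subgroup (Equiv.Perm α)} {x : α} : x ∈ FS R ↔ ∀ r ∈ R, r x = x := by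
  simp only [FS, Finset.mem_filter, Finset.mem_univ, true_and]

/-- pointwise stabilizer -/
def L (G : Subgroup (Equiv.Perm α)) (s : Finset α) : Subgroup (Equiv.Perm α) where
  carrier := {g | g ∈ G ∧ ∀ x ∈ s, g x = x}
  mul_mem' := by
    intro g h hg hh
    exact ⟨G.mul_mem hg.1 hh.1, fun x hx => by rw [Equiv.Perm.mul_apply, hh.2 x hx, hg.2 x hx]⟩
  one_mem' := ⟨G.one_mem, fun x _ => rfl⟩
  inv_mem' := by
    intro g hg
    exact ⟨G.inv_mem hg.1, fun x hx => by rw [Equiv.Perm.inv_eq_iff_eq]; exact (hg.2 x hx).symm⟩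

theorem mem_L {G : Subgroup (Equiv.Perm α)} {s : Finset α} {g : Equiv.Perm α} :
    g ∈ L G s ↔ g ∈ G ∧ ∀ x ∈ s, g x = x := Iff.rfl

/-- group induced on `F` by the elements of `N` -/
def ind (N : Subgroup (Equiv.Perm α)) (F : Finset α) : Subgroup (Equiv.Perm F) where
  carrier := {σ | ∃ g ∈ N, ∀ x : F, g (x : α) = (σ x : α)}
  mul_mem' := by
    rintro σ τ ⟨g, hg, h1⟩ ⟨h, hh, h2⟩
    exact ⟨g * h, N.mul_mem hg hh, fun x => by rw [Equiv.Perm.mul_apply, h2, h1]; rfl⟩
  one_mem' := ⟨1, N.one_mem, fun x => rfl⟩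
  inv_mem' := by
    rintro σ ⟨g, hg, h1⟩
    refine ⟨g⁻¹, N.inv_mem hg, fun x => ?_⟩
    rw [Equiv.Perm.inv_eq_iff_eq, h1]
    exact (congrArg Subtype.val (Equiv.apply_symm_apply σ x)).symm

theorem mem_ind {N : Subgroup (Equiv.Perm α)} {F : Finset α} {σ : Equiv.Perm F} :
    σ ∈ ind N F ↔ ∃ g ∈ N, ∀ x : F, g (x : α) = (σ x : α) := Iff.rfl

theorem card_cjm (K : Subgroup (Equiv.Perm α)) (h : Equiv.Perm α) :
    Nat.card (K.map (MulAut.conj h).toMonoidHom) = Nat.card K :=
  (Nat.card_congr (K.equivMapOfInjective _ (MulAut.conj h).injective).toEquiv).symm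

theorem mem_cjm {K : Subgroup (Equiv.Perm α)} {h x : Equiv.Perm α} :
    x ∈ K.map (MulAut.conj h).toMonoidHom ↔ h⁻¹ * x * h ∈ K := by
  rw [Subgroup.mem_map]
  constructor
  · rintro ⟨y, hy, rfl⟩
    have : h⁻¹ * ((MulAut.conj h).toMonoidHom y) * h = y := by
      simp only [MulEquiv.coe_toMonoidHom, MulAut.conj_apply]; group
    rwa [this]
  · intro hx
    refine ⟨_, hx, ?_⟩
    simp only [MulEquiv.coe_toMonoidHom, MulAut.conj_apply]; group

theorem card_L {G : Subgroup (Equiv.Perm α)} {s t : Finset α} {h : Equiv.Perm α} (hh : h ∈ G)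
    (h1 : ∀ x ∈ s, h x ∈ t) (h2 : ∀ y ∈ t, h⁻¹ y ∈ s) : Nat.card (L G t) = Nat.card (L G s) := by
  rw [← card_cjm (L G s) h]
  congr 2
  ext x
  have hinv : ∀ y, h (h⁻¹ y) = y := fun y => Equiv.apply_symm_apply h y
  have : x ∈ L G t ↔ x ∈ (L G s).map (MulAut.conj h).toMonoidHom := by
    rw [mem_cjm, mem_L, mem_L]
    constructor
    · rintro ⟨k1, k2⟩
      refine ⟨G.mul_mem (G.mul_mem (G.inv_mem hh) k1) hh, fun y hy => ?_⟩
      rw [Equiv.Perm.mul_apply, Equiv.Perm.mul_apply, k2 _ (h1 y hy), Equiv.Perm.inv_eq_iff_eq]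
    · rintro ⟨k1, k2⟩
      constructor
      · have := G.mul_mem (G.mul_mem hh k1) (G.inv_mem hh)
        have e : h * (h⁻¹ * x * h) * h⁻¹ = x := by group
        rwa [e] at this
      · intro y hy
        have := k2 _ (h2 y hy)
        rw [Equiv.Perm.mul_apply, Equiv.Perm.mul_apply, hinv, Equiv.Perm.inv_eq_iff_eq, hinv] at this
        exact this
  rw [this]

/-- transitivity of the normalizer on the fixed points -/
theorem tf_norm {G : Subgroup (Equiv.Perm α)} {k p : ℕ} (hk : 1 ≤ k) (hp : p.Prime) (hT : TF G k)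
    {R : Subgroup (Equiv.Perm α)} (hRG : R ≤ G) (hRp : IsPGroup p R) (hRF : k < (FS R).card)
    (hmax : ∀ T : Subgroup (Equiv.Perm α), T ≤ G → IsPGroup p T → R < T → (FS T).card ≤ k) :
    TF (ind (G ⊓ Subgroup.normalizer (R : Set (Equiv.Perm α))) (FS R)) k := by
  haveI : Fact p.Prime := ⟨hp⟩
  set N := G ⊓ Subgroup.normalizer (R : Set (Equiv.Perm α)) with hN
  have hNF : ∀ g ∈ N, ∀ x, x ∈ FS R ↔ g x ∈ FS R := by
    have h1 : ∀ g ∈ N, ∀ x, x ∈ FS R → g x ∈ FS R := by
      intro g hg x hx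
      rw [mem_FS] at hx ⊢
      intro r hr
      have h2 := (Subgroup.mem_normalizer_iff.1 (Subgroup.inv_mem _ (Subgroup.mem_inf.1 hg).2) r).1 hr
      rw [inv_inv] at h2
      have h3 := hx _ h2
      rw [Equiv.Perm.mul_apply, Equiv.Perm.mul_apply, Equiv.Perm.inv_eq_iff_eq] at h3
      exact h3
    intro g hg x
    refine ⟨h1 g hg x, fun hx => ?_⟩
    have h2 := h1 g⁻¹ (N.inv_mem hg) _ hx
    rwa [show g⁻¹ (g x) = x by rw [Equiv.Perm.inv_eq_iff_eq]] at h2
  by_cases hSyl : ∃ s₀ : Finset α, s₀.card = k ∧ Nat.card R = p ^ ((Nat.card (L G s₀)).factorization p)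
  · -- Witt
    obtain ⟨s₀, hs₀, hc₀⟩ := hSyl
    intro s f hs hf
    -- transfer to `α`
    let F : α → α := fun x => if hx : x ∈ FS R then (f ⟨x, hx⟩ : α) else x
    have hF : ∀ x : FS R, F (x : α) = (f x : α) := fun x => by
      simp only [F, x.2, dif_pos]
    set s' : Finset α := s.map (Function.Embedding.subtype _) with hs'
    have hs'c : s'.card = k := by rw [hs', Finset.card_map, hs]
    have hmem' : ∀ x, x ∈ s' ↔ ∃ hx : x ∈ FS R, (⟨x, hx⟩ : FS R) ∈ s := by
      intro x
      rw [hs', Finset.mem_map]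
      constructor
      · rintro ⟨y, hy, rfl⟩
        exact ⟨y.2, hy⟩
      · rintro ⟨hx, hy⟩
        exact ⟨_, hy, rfl⟩
    obtain ⟨h, hhG, hhF⟩ := hT s' F hs'c (by
      intro x hx y hy hxy
      rw [Finset.mem_coe, hmem'] at hx hy
      obtain ⟨hx1, hx2⟩ := hx
      obtain ⟨hy1, hy2⟩ := hy
      have e1 := hF ⟨x, hx1⟩
      have e2 := hF ⟨y, hy1⟩
      simp only at e1 e2
      rw [e1, e2] at hxy
      have := hf hx2 hy2 (Subtype.ext hxy)
      exact congrArg Subtype.val this)
    set t : Finset α := s'.image h with ht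
    have htF : t ⊆ FS R := by
      intro y hy
      rw [ht, Finset.mem_image] at hy
      obtain ⟨x, hx, rfl⟩ := hy
      have hx' := hx
      rw [hmem'] at hx
      obtain ⟨hx1, hx2⟩ := hx
      rw [hhF x hx', hF ⟨x, hx1⟩]
      exact (f ⟨x, hx1⟩).2
    have htc : t.card = k := by rw [ht, Finset.card_image_of_injective _ h.injective, hs'c]
    have hcard : Nat.card (L G t) = Nat.card (L G s₀) := by
      obtain ⟨m, hm, m1, m2⟩ := hT.move hs₀ htc
      exact card_L hm m1 m2
    have hR1 : R ≤ L G t := fun r hr => mem_L.2 ⟨hRG hr, fun x hx => mem_FS.1 (htF hx) r hr⟩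
    have hR2 : R.map (MulAut.conj h).toMonoidHom ≤ L G t := by
      intro r hr
      rw [mem_cjm] at hr
      refine mem_L.2 ⟨?_, fun y hy => ?_⟩
      · have := G.mul_mem (G.mul_mem hhG (hRG hr)) (G.inv_mem hhG)
        have e : h * (h⁻¹ * r * h) * h⁻¹ = r := by group
        rwa [e] at this
      · rw [ht, Finset.mem_image] at hy
        obtain ⟨x, hx, rfl⟩ := hy
        rw [hmem'] at hx
        have := mem_FS.1 hx.1 _ hr
        rw [Equiv.Perm.mul_apply, Equiv.Perm.mul_apply, Equiv.Perm.inv_eq_iff_eq] at this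
        exact this
    let P₁ : Sylow p (L G t) := Sylow.ofCard (R.subgroupOf (L G t)) (by
      rw [Nat.card_congr (Subgroup.subgroupOfEquivOfLe hR1).toEquiv, hc₀, hcard])
    let P₂ : Sylow p (L G t) := Sylow.ofCard ((R.map (MulAut.conj h).toMonoidHom).subgroupOf (L G t)) (by
      rw [Nat.card_congr (Subgroup.subgroupOfEquivOfLe hR2).toEquiv, card_cjm, hc₀, hcard])
    obtain ⟨l, hl⟩ := MulAction.exists_smul_eq (L G t) P₂ P₁
    have hl' : ∀ x : L G t, x ∈ (R.map (MulAut.conj h).toMonoidHom).subgroupOf (L G t) →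
        l * x * l⁻¹ ∈ R.subgroupOf (L G t) := by
      intro x hx
      have h1 : l * x * l⁻¹ ∈ ((l • P₂ : Sylow p (L G t)) : Subgroup (L G t)) := by
        rw [Sylow.coe_subgroup_smul]
        exact Subgroup.smul_mem_pointwise_smul x (MulAut.conj l) _ hx
      rw [hl] at h1
      exact h1
    have hln : ∀ r ∈ R, ((l : Equiv.Perm α) * h) * r * ((l : Equiv.Perm α) * h)⁻¹ ∈ R := by
      intro r hr
      have h1 : h * r * h⁻¹ ∈ R.map (MulAut.conj h).toMonoidHom := by
        rw [mem_cjm]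
        have e : h⁻¹ * (h * r * h⁻¹) * h = r := by group
        rwa [e]
      have h2 := hl' ⟨_, hR2 h1⟩ (Subgroup.mem_subgroupOf.2 h1)
      rw [Subgroup.mem_subgroupOf] at h2
      have e : ((l : Equiv.Perm α) * h) * r * ((l : Equiv.Perm α) * h)⁻¹ =
          (l : Equiv.Perm α) * (h * r * h⁻¹) * (l : Equiv.Perm α)⁻¹ := by group
      rw [e]; exact h2
    have hnorm : (l : Equiv.Perm α) * h ∈ Subgroup.normalizer (R : Set (Equiv.Perm α)) := by
      rw [Subgroup.mem_normalizer_iff]
      intro r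
      refine ⟨hln r, fun hr => ?_⟩
      -- finite: conj is a bijection of R
      have hsub : R.map (MulAut.conj ((l : Equiv.Perm α) * h)).toMonoidHom ≤ R := by
        rintro _ ⟨y, hy, rfl⟩
        exact hln y hy
      have heq := Subgroup.eq_of_le_of_card_ge hsub (by rw [card_cjm])
      have hr' : (l : Equiv.Perm α) * h * r * ((l : Equiv.Perm α) * h)⁻¹ ∈
          R.map (MulAut.conj ((l : Equiv.Perm α) * h)).toMonoidHom := by rw [heq]; exact hr
      rw [mem_cjm] at hr'
      have e : ((l : Equiv.Perm α) * h)⁻¹ * ((l : Equiv.Perm α) * h * r * ((l : Equiv.Perm α) * h)⁻¹) *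
          ((l : Equiv.Perm α) * h) = r := by group
      rwa [e] at hr'
    have hgN : (l : Equiv.Perm α) * h ∈ N :=
      Subgroup.mem_inf.2 ⟨G.mul_mem (mem_L.1 l.2).1 hhG, hnorm⟩
    refine ⟨Equiv.Perm.subtypePerm ((l : Equiv.Perm α) * h) (fun x => (hNF _ hgN x).symm),
      ⟨_, hgN, fun x => rfl⟩, fun x hx => ?_⟩
    apply Subtype.ext
    have hx' : (x : α) ∈ s' := (hmem' _).2 ⟨x.2, hx⟩
    change (l : Equiv.Perm α) (h x) = f x
    rw [(mem_L.1 l.2).2 (h x) (Finset.mem_image_of_mem h hx'), hhF _ hx', hF]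
  · -- Gleason
    push Not at hSyl
    apply tf_of
    refine Cfsg.Agent.S0743.result (ind N (FS R)) hp hk (by rw [Fintype.card_coe]; exact hRF) ?_
    intro s hs
    set s' : Finset α := s.map (Function.Embedding.subtype _) with hs'
    have hs'c : s'.card = k := by rw [hs', Finset.card_map, hs]
    have hmem' : ∀ x, x ∈ s' ↔ ∃ hx : x ∈ FS R, (⟨x, hx⟩ : FS R) ∈ s := by
      intro x
      rw [hs', Finset.mem_map]
      constructor
      · rintro ⟨y, hy, rfl⟩
        exact ⟨y.2, hy⟩
      · rintro ⟨hx, hy⟩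
        exact ⟨_, hy, rfl⟩
    have hRL : R ≤ L G s' := fun r hr => mem_L.2 ⟨hRG hr, fun x hx => by
      obtain ⟨hx1, -⟩ := (hmem' x).1 hx
      exact mem_FS.1 hx1 r hr⟩
    have hRp' : IsPGroup p (R.subgroupOf (L G s')) :=
      hRp.of_equiv (Subgroup.subgroupOfEquivOfLe hRL).symm
    obtain ⟨Q, hQ⟩ := hRp'.exists_le_sylow
    set S : Subgroup (Equiv.Perm α) := (Q : Subgroup (L G s')).map (L G s').subtype with hS
    have hSL : S ≤ L G s' := Subgroup.map_subtype_le _
    have hSp : IsPGroup p S := Q.isPGroup'.map _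
    have hRS : R ≤ S := by
      intro r hr
      exact ⟨⟨r, hRL hr⟩, hQ (Subgroup.mem_subgroupOf.2 hr), rfl⟩
    have hcS : Nat.card S = p ^ ((Nat.card (L G s')).factorization p) := by
      rw [← Q.card_eq_multiplicity]
      exact (Nat.card_congr ((Q : Subgroup (L G s')).equivMapOfInjective _
        (Subgroup.subtype_injective _)).toEquiv).symm
    have hne : R ≠ S := by
      intro h; apply hSyl s' hs'c; rw [← hcS, ← h]
    -- normalizer condition
    set T := S ⊓ Subgroup.normalizer (R : Set (Equiv.Perm α)) with hTdef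
    have hRT : R < T := by
      refine lt_of_le_of_ne (le_inf hRS Subgroup.le_normalizer) ?_
      intro hEq
      haveI : Group.IsNilpotent S := hSp.isNilpotent
      have hlt : R.subgroupOf S < ⊤ := by
        rw [lt_top_iff_ne_top]
        intro h1
        rw [Subgroup.subgroupOf_eq_top] at h1
        exact hne (le_antisymm hRS h1)
      have h2 := Group.normalizerCondition_of_isNilpotent (G := S) _ hlt
      obtain ⟨-, x, hx1, hx2⟩ := SetLike.lt_iff_le_and_exists.1 h2
      apply hx2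
      rw [Subgroup.mem_subgroupOf, hEq]
      refine Subgroup.mem_inf.2 ⟨x.2, ?_⟩
      rw [Subgroup.mem_normalizer_iff] at hx1 ⊢
      intro r
      constructor
      · intro hr
        have := (hx1 ⟨r, hRS hr⟩).1 (Subgroup.mem_subgroupOf.2 hr)
        exact Subgroup.mem_subgroupOf.1 this
      · intro hr
        have hrS : r ∈ S := by
          have h3 := S.mul_mem (S.mul_mem (S.inv_mem x.2) (hRS hr)) x.2
          have e : (x : Equiv.Perm α)⁻¹ * ((x : Equiv.Perm α) * r * (x : Equiv.Perm α)⁻¹) * (x : Equiv.Perm α) = r := by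
            group
          rwa [e] at h3
        have := (hx1 ⟨r, hrS⟩).2 (Subgroup.mem_subgroupOf.2 hr)
        exact Subgroup.mem_subgroupOf.1 this
    have hTp : IsPGroup p T := hSp.to_le inf_le_left
    have hTG : T ≤ G := fun x hx => (mem_L.1 (hSL (Subgroup.mem_inf.1 hx).1)).1
    have hTN : T ≤ N := le_inf hTG inf_le_right
    have hFT : s' = FS T := by
      apply Finset.eq_of_subset_of_card_le
      · intro x hx
        rw [mem_FS]
        intro r hr
        exact (mem_L.1 (hSL (Subgroup.mem_inf.1 hr).1)).2 x hx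
      · rw [hs'c]; exact hmax T hTG hTp hRT
    have hlift : ∀ g ∈ T, ∃ σ ∈ ind N (FS R), ∀ x : FS R, g (x : α) = (σ x : α) := by
      intro g hg
      exact ⟨Equiv.Perm.subtypePerm g (fun x => (hNF g (hTN hg) x).symm), ⟨g, hTN hg, fun x => rfl⟩,
        fun x => rfl⟩
    let P : Subgroup (ind N (FS R)) :=
      { carrier := {σ | ∃ g ∈ T, ∀ x : FS R, g (x : α) = ((σ : Equiv.Perm (FS R)) x : α)}
        mul_mem' := by
          rintro σ τ ⟨g, hg, h1⟩ ⟨h, hh, h2⟩
          exact ⟨g * h, T.mul_mem hg hh, fun x => by rw [Equiv.Perm.mul_apply, h2, h1]; rfl⟩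
        one_mem' := ⟨1, T.one_mem, fun x => rfl⟩
        inv_mem' := by
          rintro σ ⟨g, hg, h1⟩
          refine ⟨g⁻¹, T.inv_mem hg, fun x => ?_⟩
          rw [Equiv.Perm.inv_eq_iff_eq, h1]
          exact (congrArg Subtype.val (Equiv.apply_symm_apply (σ : Equiv.Perm (FS R)) x)).symm }
    refine ⟨P, ?_, ?_⟩
    · rintro ⟨σ, g, hg, h1⟩
      obtain ⟨m, hm⟩ := hTp ⟨g, hg⟩
      refine ⟨m, ?_⟩
      have hgm : g ^ (p ^ m) = 1 := congrArg Subtype.val hm
      have hpow : ∀ n : ℕ, ∀ x : FS R, (g ^ n) (x : α) = (((σ : Equiv.Perm (FS R)) ^ n) x : α) := by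
        intro n
        induction n with
        | zero => intro x; rfl
        | succ n ih =>
          intro x
          rw [pow_succ', pow_succ', Equiv.Perm.mul_apply, Equiv.Perm.mul_apply, ih x, h1]
      apply Subtype.ext
      apply Subtype.ext
      ext x
      have := hpow (p ^ m) x
      rw [hgm] at this
      exact this.symm
    · ext x
      rw [MulAction.mem_fixedPoints, Finset.mem_coe]
      constructor
      · intro hx
        have h1 : (x : α) ∈ FS T := by
          rw [mem_FS]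
          intro r hr
          obtain ⟨σ, hσ, h2⟩ := hlift r hr
          have h3 := hx ⟨⟨σ, hσ⟩, r, hr, h2⟩
          rw [h2 x]
          exact congrArg Subtype.val h3
        rw [← hFT, hmem'] at h1
        exact h1.2
      · rintro hx ⟨σ, g, hg, h1⟩
        have h2 : (x : α) ∈ FS T := by rw [← hFT, hmem']; exact ⟨x.2, hx⟩
        apply Subtype.ext
        have h3 := mem_FS.1 h2 g hg
        rw [h1 x] at h3
        exact h3

end red

end CfsgLib.LW20
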