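import Mathlib
import Cfsg.Agent.LibLW20g

/-! Multiply transitive groups: alternating groups on some `k+1` points. -/

set_option autoImplicit false
set_option linter.all false

namespace CfsgLib.LW20

universe v

theorem main : ∀ (n : ℕ) (α : Type v) [Fintype α] [DecidableEq α] (G : Subgroup (Equiv.Perm α)) (k : ℕ),
    Fintype.card α = n → 4 ≤ k → k < n → TF G k → ∃ Δ : Finset α, Δ.card = k + 1 ∧ Good G Δ := by
  intro n
  induction n using Nat.strong_induction_on with
  | _ n ih =>
  intro α _ _ G k hn hk hkn hT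
  by_cases hn1 : n = k + 1
  · refine ⟨Finset.univ, by rw [Finset.card_univ, hn, hn1], ?_⟩
    intro a _ b _ c _ hab hac hbc
    obtain ⟨g, hg, hgf⟩ := hT (Finset.univ.erase a) (Equiv.swap a b * Equiv.swap b c)
      (by rw [Finset.card_erase_of_mem (Finset.mem_univ a), Finset.card_univ]; omega)
      (Equiv.injective _).injOn
    have hga : g a = (Equiv.swap a b * Equiv.swap b c) a := by
      by_contra hne
      obtain ⟨y, hy⟩ := (Equiv.swap a b * Equiv.swap b c).surjective (g a)
      have hya : y ≠ a := by rintro rfl; exact hne hy.symm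
      have h1 := hgf y (Finset.mem_erase.2 ⟨hya, Finset.mem_univ y⟩)
      rw [hy] at h1
      exact hya (g.injective h1)
    have hall : ∀ x, g x = (Equiv.swap a b * Equiv.swap b c) x := by
      intro x
      by_cases h1 : x = a
      · rw [h1]; exact hga
      · exact hgf x (Finset.mem_erase.2 ⟨h1, Finset.mem_univ x⟩)
    refine ⟨g, hg, ?_, ?_, ?_, fun x _ h1 h2 h3 => ?_⟩
    · rw [hall, Equiv.Perm.mul_apply, Equiv.swap_apply_of_ne_of_ne hab hac, Equiv.swap_apply_left]
    · rw [hall, Equiv.Perm.mul_apply, Equiv.swap_apply_left,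
        Equiv.swap_apply_of_ne_of_ne hac.symm hbc.symm]
    · rw [hall, Equiv.Perm.mul_apply, Equiv.swap_apply_right, Equiv.swap_apply_right]
    · rw [hall, Equiv.Perm.mul_apply, Equiv.swap_apply_of_ne_of_ne h2 h3,
        Equiv.swap_apply_of_ne_of_ne h1 h2]
  by_cases hfix : ∀ g ∈ G, g ≠ 1 → (Fx g).card ≤ k
  · exact core hk hT (by omega) hfix
  push Not at hfix
  obtain ⟨g, hg, hg1, hgk⟩ := hfix
  -- a prime
  have hord : orderOf g ≠ 1 := fun h => hg1 (orderOf_eq_one_iff.1 h)
  set p := (orderOf g).minFac with hp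
  have hpp : p.Prime := Nat.minFac_prime hord
  haveI : Fact p.Prime := ⟨hpp⟩
  have hpd : p ∣ orderOf g := Nat.minFac_dvd _
  set g' := g ^ (orderOf g / p) with hg'
  have hog' : orderOf g' = p := by
    rw [hg', orderOf_pow' g (Nat.div_pos (Nat.le_of_dvd (orderOf_pos g) hpd) hpp.pos).ne']
    obtain ⟨m, hm⟩ := hpd
    rw [hm, Nat.mul_div_cancel_left _ hpp.pos, Nat.gcd_eq_right (Dvd.intro_left p rfl)]
    have hm0 : 0 < m := by
      rcases Nat.eq_zero_or_pos m with h | h
      · rw [h, mul_zero] at hm; exact absurd hm (orderOf_pos g).ne'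
      · exact h
    exact Nat.mul_div_cancel _ hm0
  have hg'fix : ∀ x, g x = x → g' x = x := by
    intro x hx
    rw [hg']
    generalize orderOf g / p = m
    induction m with
    | zero => rfl
    | succ m ihm => rw [pow_succ, Equiv.Perm.mul_apply, hx, ihm]
  have hzfix : ∀ x, g x = x → ∀ r ∈ Subgroup.zpowers g', r x = x := by
    intro x hx r hr
    obtain ⟨m, rfl⟩ := Subgroup.mem_zpowers_iff.1 hr
    exact Equiv.Perm.zpow_apply_eq_self_of_apply_eq_self (hg'fix x hx) m
  let SS : Set (Subgroup (Equiv.Perm α)) := {R | R ≤ G ∧ IsPGroup p R ∧ R ≠ ⊥ ∧ k < (FS R).card}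
  have hne : SS.Nonempty := by
    refine ⟨Subgroup.zpowers g', ?_, ?_, ?_, ?_⟩
    · rw [Subgroup.zpowers_le]; exact G.pow_mem hg _
    · apply IsPGroup.of_card (n := 1)
      rw [Nat.card_zpowers, hog', pow_one]
    · intro h
      rw [Subgroup.zpowers_eq_bot] at h
      rw [h, orderOf_one] at hog'
      exact hpp.one_lt.ne hog'
    · refine lt_of_lt_of_le hgk (Finset.card_le_card ?_)
      intro x hx
      exact mem_FS.2 (hzfix x (mem_Fx.1 hx))
  obtain ⟨R, ⟨hRG, hRp, hR1, hRF⟩, hmax⟩ := Set.exists_max_image SS (fun R => Nat.card R) (Set.toFinite _) hne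
  have htf := tf_norm (by omega) hpp hT hRG hRp hRF (by
    intro T hTG hTp hRT
    by_contra hlt
    have hTS : T ∈ SS := ⟨hTG, hTp, fun h => by rw [h] at hRT; exact not_lt_bot hRT, by omega⟩
    have h1 := hmax T hTS
    exact hRT.ne (Subgroup.eq_of_le_of_card_ge hRT.le h1))
  have hlt : (FS R).card < n := by
    rw [← hn, ← Finset.card_univ]
    apply Finset.card_lt_card
    rw [Finset.ssubset_univ_iff]
    intro h
    apply hR1
    rw [Subgroup.eq_bot_iff_forall]
    intro r hr
    ext x
    have hx : x ∈ FS R := by rw [h]; exact Finset.mem_univ x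
    exact mem_FS.1 hx r hr
  obtain ⟨Δ, hΔ, hgood⟩ := ih (FS R).card hlt (FS R)
    (ind (G ⊓ Subgroup.normalizer (R : Set (Equiv.Perm α))) (FS R)) k (Fintype.card_coe _) hk hRF htf
  refine ⟨Δ.map (Function.Embedding.subtype _), by rw [Finset.card_map, hΔ], ?_⟩
  intro a ha b hb c hc hab hac hbc
  rw [Finset.mem_map] at ha hb hc
  obtain ⟨a', ha', rfl⟩ := ha
  obtain ⟨b', hb', rfl⟩ := hb
  obtain ⟨c', hc', rfl⟩ := hc
  obtain ⟨σ, ⟨h, hh, hσ⟩, s1, s2, s3, s4⟩ := hgood a' ha' b' hb' c' hc' (fun e => hab (by rw [e]))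
    (fun e => hac (by rw [e])) (fun e => hbc (by rw [e]))
  refine ⟨h, (Subgroup.mem_inf.1 hh).1, ?_, ?_, ?_, fun x hx h1 h2 h3 => ?_⟩
  · change h (a' : α) = b'
    rw [hσ a', s1]
  · change h (b' : α) = c'
    rw [hσ b', s2]
  · change h (c' : α) = a'
    rw [hσ c', s3]
  · rw [Finset.mem_map] at hx
    obtain ⟨x', hx', rfl⟩ := hx
    change h (x' : α) = x'
    rw [hσ x', s4 x' hx' (fun e => h1 (by rw [e])) (fun e => h2 (by rw [e])) (fun e => h3 (by rw [e]))]

variable {α : Type*} [Fintype α] [DecidableEq α]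

theorem alt_of_good {G : Subgroup (Equiv.Perm α)} {Δ : Finset α} (hgood : Good G Δ) :
    ∀ σ : Equiv.Perm Δ, σ ∈ alternatingGroup Δ → ∃ g ∈ G, ∀ x : Δ, g (x : α) = (σ x : α) := by
  have h1 : alternatingGroup Δ ≤ ind G Δ := by
    rw [← Equiv.Perm.closure_three_cycles_eq_alternating, Subgroup.closure_le]
    intro σ hσ
    have hσ' : σ.IsThreeCycle := hσ
    have hc := hσ'.card_support
    obtain ⟨a, ha⟩ := Finset.card_pos.1 (show 0 < σ.support.card by omega)
    have hba : σ a ≠ a := Equiv.Perm.mem_support.1 ha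
    have hcb : σ (σ a) ≠ σ a := fun h => hba (σ.injective h)
    have ho := hσ'.orderOf
    have h3 : σ (σ (σ a)) = a := by
      have h4 := pow_orderOf_eq_one σ
      rw [ho] at h4
      have h5 := congrArg (fun g : Equiv.Perm Δ => g a) h4
      exact h5
    have hca : σ (σ a) ≠ a := by
      intro h
      rw [h] at h3
      exact hba h3
    have hsupp : ({a, σ a, σ (σ a)} : Finset Δ) = σ.support := by
      apply Finset.eq_of_subset_of_card_le
      · intro x hx
        simp only [Finset.mem_insert, Finset.mem_singleton] at hx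
        rw [Equiv.Perm.mem_support]
        rcases hx with rfl | rfl | rfl
        · exact hba
        · exact hcb
        · rw [h3]; exact hca.symm
      · rw [hc, Finset.card_insert_of_notMem, Finset.card_pair hcb.symm]
        simp only [Finset.mem_insert, Finset.mem_singleton, not_or]
        exact ⟨hba.symm, hca.symm⟩
    obtain ⟨g, hg, g1, g2, g3, g4⟩ := hgood (a : α) a.2 (σ a : α) (σ a).2 (σ (σ a) : α) (σ (σ a)).2
      (fun e => hba (Subtype.ext e.symm)) (fun e => hca (Subtype.ext e.symm))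
      (fun e => hcb (Subtype.ext e.symm))
    refine ⟨g, hg, fun x => ?_⟩
    by_cases x1 : x = a
    · subst x1; exact g1
    by_cases x2 : x = σ a
    · subst x2; exact g2
    by_cases x3 : x = σ (σ a)
    · subst x3; rw [h3]; exact g3
    have hx : σ x = x := by
      rw [← Equiv.Perm.notMem_support, ← hsupp]
      simp only [Finset.mem_insert, Finset.mem_singleton, not_or]
      exact ⟨x1, x2, x3⟩
    rw [hx]
    exact g4 x x.2 (fun e => x1 (Subtype.ext e)) (fun e => x2 (Subtype.ext e)) (fun e => x3 (Subtype.ext e))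
  intro σ hσ
  exact h1 hσ

end CfsgLib.LW20
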