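import Cfsg.Agent.EqBase
import Cfsg.Agent.LibCharBasic2
/-!
# Landau's theorem: the order is bounded in terms of the number of classes (helper19)
-/
set_option autoImplicit false
set_option linter.all false
open Cfsg
namespace CfsgLib.Landau19

universe u

/-- unit fractions: `∑ 1/n = a/b` with `k` terms bounds every term in terms of `k` and `b` -/
theorem unit_fractions (k : ℕ) : ∀ b : ℕ, ∃ N : ℕ, ∀ (s : Multiset ℕ) (a : ℕ), s.card = k → (∀ n ∈ s, 0 < n) →
    (s.map (fun n : ℕ => (1 : ℚ) / n)).sum = (a : ℚ) / b → ∀ n ∈ s, n ≤ N := by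
  induction k with
  | zero =>
    intro b
    refine ⟨0, fun s a hs _ _ n hn => ?_⟩
    rw [Multiset.card_eq_zero] at hs
    rw [hs] at hn
    exact absurd hn (Multiset.notMem_zero n)
  | succ k ih =>
    choose f hf using ih
    intro b
    refine ⟨(k + 1) * b + ∑ b' ∈ Finset.range ((k + 1) * b * b + 1), f b', fun s a hs hpos hsum => ?_⟩
    -- a minimal element
    have hne : s ≠ 0 := by
      intro h; rw [h] at hs; simp at hs
    obtain ⟨n1, hn1, hmin⟩ : ∃ n1 ∈ s, ∀ n ∈ s, n1 ≤ n := by
      have h1 : (s.toFinset).Nonempty := by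
        obtain ⟨x, hx⟩ := Multiset.exists_mem_of_ne_zero hne
        exact ⟨x, Multiset.mem_toFinset.2 hx⟩
      refine ⟨s.toFinset.min' h1, Multiset.mem_toFinset.1 (Finset.min'_mem _ _), fun n hn => Finset.min'_le _ _ (Multiset.mem_toFinset.2 hn)⟩
    have hn1pos := hpos n1 hn1
    have hn1q : (0 : ℚ) < n1 := by exact_mod_cast hn1pos
    have hsumpos : 0 < (s.map (fun n : ℕ => (1 : ℚ) / n)).sum := by
      obtain ⟨t, rfl⟩ := Multiset.exists_cons_of_mem hn1
      rw [Multiset.map_cons, Multiset.sum_cons]
      have : 0 ≤ (t.map (fun n : ℕ => (1 : ℚ) / n)).sum := by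
        apply Multiset.sum_nonneg
        intro x hx
        obtain ⟨n, -, rfl⟩ := Multiset.mem_map.1 hx
        positivity
      have h2 : (0 : ℚ) < 1 / n1 := by positivity
      linarith
    have hb : 0 < b := by
      rcases Nat.eq_zero_or_pos b with h | h
      · exfalso; rw [hsum, h] at hsumpos; simp at hsumpos
      · exact h
    have hbq : (0 : ℚ) < b := by exact_mod_cast hb
    have ha : 0 < a := by
      rcases Nat.eq_zero_or_pos a with h | h
      · exfalso; rw [hsum, h] at hsumpos; simp at hsumpos
      · exact h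
    -- n1 ≤ (k+1) b
    have hn1le : n1 ≤ (k + 1) * b := by
      have h1 : (s.map (fun n : ℕ => (1 : ℚ) / n)).sum ≤ (s.map (fun _ : ℕ => (1 : ℚ) / n1)).sum := by
        apply Multiset.sum_map_le_sum_map
        intro n hn
        have := hmin n hn
        have h2 : (n1 : ℚ) ≤ n := by exact_mod_cast this
        exact one_div_le_one_div_of_le hn1q h2
      rw [Multiset.map_const', Multiset.sum_replicate, hs, hsum, nsmul_eq_mul] at h1
      have h3 : (1 : ℚ) / b ≤ a / b := by
        gcongr
        exact_mod_cast ha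
      have h4 : (1 : ℚ) / b ≤ ((k + 1 : ℕ) : ℚ) * (1 / n1) := h3.trans h1
      rw [div_le_iff₀ hbq] at h4
      have h5 : (n1 : ℚ) ≤ ((k + 1 : ℕ) : ℚ) * b := by
        calc (n1 : ℚ) = 1 * n1 := by ring
          _ ≤ (((k + 1 : ℕ) : ℚ) * (1 / n1) * b) * n1 := by gcongr
          _ = ((k + 1 : ℕ) : ℚ) * b := by field_simp
      exact_mod_cast h5
    obtain ⟨t, rfl⟩ := Multiset.exists_cons_of_mem hn1
    rw [Multiset.card_cons] at hs
    rw [Multiset.map_cons, Multiset.sum_cons] at hsum
    have htsum : (t.map (fun n : ℕ => (1 : ℚ) / n)).sum = ((a * n1 - b : ℕ) : ℚ) / ((b * n1 : ℕ) : ℚ) := by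
      have h2 : (t.map (fun n : ℕ => (1 : ℚ) / n)).sum = (a : ℚ) / b - 1 / n1 := by linarith
      have h3 : 0 ≤ (t.map (fun n : ℕ => (1 : ℚ) / n)).sum := by
        apply Multiset.sum_nonneg
        intro x hx
        obtain ⟨n, -, rfl⟩ := Multiset.mem_map.1 hx
        positivity
      have h4 : b ≤ a * n1 := by
        rw [h2, sub_nonneg, div_le_div_iff₀ hn1q hbq] at h3
        have : (b : ℚ) ≤ a * n1 := by linarith
        exact_mod_cast this
      rw [h2, Nat.cast_sub h4]
      push_cast
      field_simp
    intro n hn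
    rcases Multiset.mem_cons.1 hn with h | h
    · rw [h]; exact hn1le.trans (Nat.le_add_right _ _)
    · have h5 := hf (b * n1) t (a * n1 - b) (by omega) (fun n hn => hpos n (Multiset.mem_cons_of_mem hn)) htsum n h
      have h6 : b * n1 ∈ Finset.range ((k + 1) * b * b + 1) := by
        rw [Finset.mem_range]
        calc b * n1 ≤ b * ((k + 1) * b) := Nat.mul_le_mul_left _ hn1le
          _ = (k + 1) * b * b := by ring
          _ < _ := Nat.lt_succ_self _
      have h7 : f (b * n1) ≤ ∑ b' ∈ Finset.range ((k + 1) * b * b + 1), f b' :=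
        Finset.single_le_sum (fun _ _ => Nat.zero_le _) h6
      omega

/-- Landau: the order of a finite group is bounded in terms of the number of its classes -/
theorem landau (k : ℕ) : ∃ N : ℕ, ∀ (G : Type u) [Group G] [Finite G], Nat.card (ConjClasses G) = k → Nat.card G ≤ N := by
  classical
  obtain ⟨N, hN⟩ := unit_fractions k 1
  refine ⟨N, ?_⟩
  intro G _ _ hk
  haveI : Fintype G := Fintype.ofFinite G
  haveI : Fintype (ConjClasses G) := Fintype.ofFinite _
  let c : ConjClasses G → ℕ := fun C => Nat.card (Subgroup.centralizer ({C.out} : Set G))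
  have hc : ∀ C : ConjClasses G, (Nat.card C.carrier : ℚ) = Nat.card G * (1 / (c C : ℚ)) := by
    intro C
    have h1 := CfsgLib.CharBasic.card_class_mul_card_centralizer C.out
    have h2 : ConjClasses.mk C.out = C := Quotient.out_eq C
    have h3 : (c C : ℚ) ≠ 0 := by
      have : c C ≠ 0 := Nat.card_pos.ne'
      exact_mod_cast this
    have h4 : (Nat.card C.carrier : ℚ) * c C = Nat.card G := by
      have h5 : Nat.card C.carrier * c C = Nat.card G := by
        rw [← h1]
        congr 1
        apply Nat.card_congr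
        refine Equiv.subtypeEquivRight fun x => ?_
        rw [ConjClasses.mem_carrier_iff_mk_eq, isConj_comm, ← ConjClasses.mk_eq_mk_iff_isConj, h2]
      exact_mod_cast h5
    field_simp
    linarith
  have hsum := hN (Finset.univ.val.map c) 1 (by rw [Multiset.card_map, Finset.card_val, Finset.card_univ, ← Nat.card_eq_fintype_card, hk])
    (by
      intro n hn
      obtain ⟨C, -, rfl⟩ := Multiset.mem_map.1 hn
      exact Nat.card_pos) (by
      rw [Multiset.map_map]
      change ∑ C : ConjClasses G, (1 : ℚ) / (c C) = _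
      have h1 : ∑ C : ConjClasses G, (Nat.card C.carrier : ℚ) = Nat.card G := by
        have := Group.sum_card_conj_classes_eq_card G
        rw [finsum_eq_sum_of_fintype] at this
        rw [← this]; push_cast
        exact Finset.sum_congr rfl fun C _ => by rw [Nat.card_coe_set_eq]
      have h2 : (Nat.card G : ℚ) * ∑ C : ConjClasses G, (1 : ℚ) / (c C) = Nat.card G := by
        rw [Finset.mul_sum]
        refine Eq.trans ?_ h1
        exact Finset.sum_congr rfl fun C _ => (hc C).symm
      have h3 : (Nat.card G : ℚ) ≠ 0 := by exact_mod_cast Nat.card_pos.ne'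
      have h4 : ∑ C : ConjClasses G, (1 : ℚ) / (c C) = 1 := mul_left_cancel₀ h3 (by rw [h2, mul_one])
      rw [h4]; simp)
  apply hsum
  rw [Multiset.mem_map]
  refine ⟨ConjClasses.mk 1, Finset.mem_univ _, ?_⟩
  have h1 : (ConjClasses.mk (1 : G)).out = 1 := by
    have : ConjClasses.mk (ConjClasses.mk (1 : G)).out = ConjClasses.mk 1 := Quotient.out_eq _
    exact isConj_one_left.1 (ConjClasses.mk_eq_mk_iff_isConj.1 this)
  simp only [c, h1]
  have h2 : Subgroup.centralizer ({(1 : G)} : Set G) = ⊤ := by
    rw [eq_top_iff]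
    intro x _
    rw [Subgroup.mem_centralizer_singleton_iff]; simp
  rw [h2, Subgroup.card_top]

end CfsgLib.Landau19
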