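import Mathlib
import Cfsg.Agent.LibLargeExtraH28
import Cfsg.Agent.LibCores

set_option autoImplicit false

/-! Two orthogonal large extraspecial 2-subgroups and the group they generate (helper28). -/

namespace CfsgLib.LargePairH28

open Subgroup
open CfsgLib.LargeExtraH28

variable {G : Type*} [Group G]

/-! ### The action on the three involutions of a four-group -/

def tpl (z x : G) : Fin 3 → G := ![z, x, z * x]

theorem tpl_mem {z x : G} (i : Fin 3) : tpl z x i = z ∨ tpl z x i = x ∨ tpl z x i = z * x := by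
  fin_cases i <;> simp [tpl]

theorem exists_perm3 {z x : G} (z1 : z ≠ 1) (x1 : x ≠ 1) (xz : x ≠ z) (N : Subgroup G)
    (hN : ∀ n ∈ N, ∀ v, (v = z ∨ v = x ∨ v = z * x) →
      (n * v * n⁻¹ = z ∨ n * v * n⁻¹ = x ∨ n * v * n⁻¹ = z * x)) :
    ∃ f : N →* Equiv.Perm (Fin 3), ∀ (n : N) (i : Fin 3),
      tpl z x (f n i) = n * tpl z x i * (n : G)⁻¹ := by
  let A := {v : G // v = z ∨ v = x ∨ v = z * x}
  letI act : MulAction N A :=
    { smul := fun n v => ⟨n * v.1 * (n : G)⁻¹, hN n n.2 v.1 v.2⟩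
      one_smul := fun v => Subtype.ext (by show ((1 : N) : G) * v.1 * ((1 : N) : G)⁻¹ = v.1; simp)
      mul_smul := fun a b v => Subtype.ext (by
        show ((a * b : N) : G) * v.1 * ((a * b : N) : G)⁻¹ = a * (b * v.1 * (b : G)⁻¹) * (a : G)⁻¹
        rw [Subgroup.coe_mul]; group) }
  have hinj : Function.Injective (fun i : Fin 3 => (⟨tpl z x i, tpl_mem i⟩ : A)) := by
    intro i j hij
    have hij' : tpl z x i = tpl z x j := congrArg Subtype.val hij
    fin_cases i <;> fin_cases j <;> simp [tpl] at hij' ⊢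
    · exact xz hij'.symm
    · exact x1 hij'
    · exact xz hij'
    · exact z1 hij'
    · exact x1 hij'
    · exact z1 hij'
  have hsurj : Function.Surjective (fun i : Fin 3 => (⟨tpl z x i, tpl_mem i⟩ : A)) := by
    rintro ⟨v, hv⟩
    rcases hv with rfl | rfl | rfl
    · exact ⟨0, rfl⟩
    · exact ⟨1, rfl⟩
    · exact ⟨2, rfl⟩
  let e : Fin 3 ≃ A := Equiv.ofBijective _ ⟨hinj, hsurj⟩
  refine ⟨(e.permCongrHom.symm.toMonoidHom).comp (MulAction.toPermHom N A), ?_⟩
  intro n i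
  have h1 : e (((e.permCongrHom.symm.toMonoidHom).comp (MulAction.toPermHom N A)) n i) =
      n • e i := by
    show e (e.symm (n • e i)) = n • e i
    simp
  exact congrArg Subtype.val h1

theorem tpl_injective {z x : G} (z1 : z ≠ 1) (x1 : x ≠ 1) (xz : x ≠ z) :
    Function.Injective (tpl z x) := by
  intro i j hij'
  fin_cases i <;> fin_cases j <;> simp [tpl] at hij' ⊢
  · exact xz hij'.symm
  · exact x1 hij'
  · exact xz hij'
  · exact z1 hij'
  · exact x1 hij'
  · exact z1 hij'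

/-- kernel of the action -/
theorem perm3_eq_one_iff {z x : G} (z1 : z ≠ 1) (x1 : x ≠ 1) (xz : x ≠ z) {N : Subgroup G}
    {f : N →* Equiv.Perm (Fin 3)}
    (hf : ∀ (n : N) (i : Fin 3), tpl z x (f n i) = n * tpl z x i * (n : G)⁻¹) (n : N) :
    f n = 1 ↔ (n : G) * z = z * n ∧ (n : G) * x = x * n := by
  constructor
  · intro h
    have h0 := hf n 0
    have h1 := hf n 1
    rw [h] at h0 h1
    simp only [Equiv.Perm.coe_one, id_eq] at h0 h1
    have e0 : z = n * z * (n : G)⁻¹ := h0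
    have e1 : x = n * x * (n : G)⁻¹ := h1
    constructor
    · nth_rw 2 [e0]; group
    · nth_rw 2 [e1]; group
  · rintro ⟨h0, h1⟩
    have e0 : (n : G) * z * (n : G)⁻¹ = z := by rw [h0]; group
    have e1 : (n : G) * x * (n : G)⁻¹ = x := by rw [h1]; group
    ext i
    have h := hf n i
    have : tpl z x (f n i) = tpl z x i := by
      rw [h]
      fin_cases i
      · exact e0
      · exact e1
      · show (n : G) * (z * x) * (n : G)⁻¹ = z * x
        calc (n : G) * (z * x) * (n : G)⁻¹ = (n * z * (n : G)⁻¹) * (n * x * (n : G)⁻¹) := by group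
          _ = z * x := by rw [e0, e1]
    rw [tpl_injective z1 x1 xz this]; rfl

theorem fin3_perm_cases (σ : Equiv.Perm (Fin 3)) :
    σ = 1 ∨ σ = Equiv.swap 1 2 ∨ σ = Equiv.swap 0 2 ∨ σ = Equiv.swap 1 2 * Equiv.swap 0 2 ∨
    σ = Equiv.swap 0 2 * Equiv.swap 1 2 ∨ σ = Equiv.swap 1 2 * (Equiv.swap 0 2 * Equiv.swap 1 2) := by
  revert σ; decide

theorem perm3_swap12 {z x : G} (z1 : z ≠ 1) (x1 : x ≠ 1) (xz : x ≠ z) (zz : z * z = 1)
    {N : Subgroup G} {f : N →* Equiv.Perm (Fin 3)}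
    (hf : ∀ (n : N) (i : Fin 3), tpl z x (f n i) = n * tpl z x i * (n : G)⁻¹) (n : N)
    (h0 : (n : G) * z = z * n) (h1 : (n : G) * x = z * (x * n)) : f n = Equiv.swap 1 2 := by
  have e0 : (n : G) * z * (n : G)⁻¹ = z := by rw [h0]; group
  have e1 : (n : G) * x * (n : G)⁻¹ = z * x := by rw [h1]; group
  ext i
  have h := hf n i
  have : tpl z x (f n i) = tpl z x (Equiv.swap 1 2 i) := by
    rw [h]
    fin_cases i
    · exact e0
    · exact e1
    · show (n : G) * (z * x) * (n : G)⁻¹ = x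
      calc (n : G) * (z * x) * (n : G)⁻¹ = (n * z * (n : G)⁻¹) * (n * x * (n : G)⁻¹) := by group
        _ = z * (z * x) := by rw [e0, e1]
        _ = x := by rw [← mul_assoc, zz, one_mul]
  rw [tpl_injective z1 x1 xz this]

theorem perm3_swap02 {z x : G} (z1 : z ≠ 1) (x1 : x ≠ 1) (xz : x ≠ z) (xx : x * x = 1)
    {N : Subgroup G} {f : N →* Equiv.Perm (Fin 3)}
    (hf : ∀ (n : N) (i : Fin 3), tpl z x (f n i) = n * tpl z x i * (n : G)⁻¹) (n : N)
    (h0 : (n : G) * x = x * n) (h1 : (n : G) * z = z * (x * n)) : f n = Equiv.swap 0 2 := by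
  have e0 : (n : G) * x * (n : G)⁻¹ = x := by rw [h0]; group
  have e1 : (n : G) * z * (n : G)⁻¹ = z * x := by rw [h1]; group
  ext i
  have h := hf n i
  have : tpl z x (f n i) = tpl z x (Equiv.swap 0 2 i) := by
    rw [h]
    fin_cases i
    · exact e1
    · exact e0
    · show (n : G) * (z * x) * (n : G)⁻¹ = z
      calc (n : G) * (z * x) * (n : G)⁻¹ = (n * z * (n : G)⁻¹) * (n * x * (n : G)⁻¹) := by group
        _ = z * x * x := by rw [e0, e1]
        _ = z := by rw [mul_assoc, xx, mul_one]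
  rw [tpl_injective z1 x1 xz this]

/-! ### Odd-order subgroups -/

theorem odd_pow4 [Finite G] {K : Subgroup G} (hK : Odd (Nat.card K)) {k : G} (hk : k ∈ K)
    (h4 : k ^ 4 = 1) : k = 1 := by
  have h1 : orderOf k ∣ 4 := orderOf_dvd_of_pow_eq_one h4
  have h2 : orderOf k ∣ Nat.card K := by
    have := orderOf_dvd_natCard (⟨k, hk⟩ : K)
    rwa [Subgroup.orderOf_mk] at this
  have h3 : Nat.Coprime 4 (Nat.card K) := by
    have : Nat.Coprime (2 ^ 2) (Nat.card K) := Nat.Coprime.pow_left 2 (Nat.coprime_two_left.mpr hK)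
    exact this
  have h5 : orderOf k ∣ Nat.gcd 4 (Nat.card K) := Nat.dvd_gcd h1 h2
  rw [h3] at h5
  exact orderOf_eq_one_iff.mp (Nat.dvd_one.mp h5)

theorem pow4 {Q : Subgroup G} {z : G} (h : ESet Q z) {q : G} (hq : q ∈ Q) : q ^ 4 = 1 := by
  have : q ^ 4 = (q * q) * (q * q) := by simp [pow_succ, mul_assoc]
  rw [this]
  rcases h.sq q hq with h1 | h1
  · rw [h1, one_mul]
  · rw [h1, h.zz]

/-- An odd-order subgroup normalized by `Q` and centralizing `z` is trivial. -/
theorem odd_eq_bot_of_comm [Finite G] {Q : Subgroup G} {z : G} (h : LSet Q z) {K : Subgroup G}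
    (hK : Odd (Nat.card K)) (hQK : Q ≤ normalizer (K : Set G))
    {k : G} (hk : k ∈ K) (hkz : k * z = z * k) : k = 1 := by
  have h1 : k ∈ Q := by
    apply h.CQ
    intro q hq
    have h2 : k * q * k⁻¹ * q⁻¹ ∈ Q := mul_mem (h.NQ k hkz q hq) (inv_mem hq)
    have h3 : k * q * k⁻¹ * q⁻¹ ∈ K := by
      have : k * q * k⁻¹ * q⁻¹ = k * (q * k⁻¹ * q⁻¹) := by group
      rw [this]
      exact mul_mem hk ((mem_normalizer_iff.mp (hQK hq) _).mp (inv_mem hk))
    exact ExtraH28.comm_eq_one_iff.mp (odd_pow4 hK h3 (pow4 h.toESet h2))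
  exact odd_pow4 hK hk (pow4 h.toESet h1)

/-- Fixed-point-free involutory conjugation inverts. -/
theorem inverts [Finite G] {K : Subgroup G} {t : G} (ht : t * t = 1)
    (htK : t ∈ normalizer (K : Set G)) (hfp : ∀ k ∈ K, k * t = t * k → k = 1) :
    ∀ k ∈ K, t * k * t⁻¹ = k⁻¹ := by
  have hm : ∀ k ∈ K, t * k * t⁻¹ ∈ K := fun k hk => (mem_normalizer_iff.mp htK k).mp hk
  let φ : K →* K := MonoidHom.mk' (fun k => ⟨t * k * t⁻¹, hm k k.2⟩) (by
    intro a b; apply Subtype.ext; simp)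
  have h1 : MonoidHom.FixedPointFree φ := by
    intro k hk
    have h2 : t * (k : G) * t⁻¹ = k := congrArg Subtype.val hk
    apply Subtype.ext
    apply hfp k k.2
    nth_rw 1 [← h2]; group
  have h2 : Function.Involutive φ := by
    intro k
    apply Subtype.ext
    show t * (t * (k : G) * t⁻¹) * t⁻¹ = k
    calc t * (t * (k : G) * t⁻¹) * t⁻¹ = (t * t) * k * (t * t)⁻¹ := by group
      _ = k := by rw [ht]; group
  have h3 := h1.coe_eq_inv_of_involutive h2
  intro k hk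
  have := congrFun h3 ⟨k, hk⟩
  exact congrArg Subtype.val this

/-- Criterion for no odd-order subgroup to be normalized by `Q` (S5421). -/
theorem odd_eq_bot_of_core [Finite G] {Q : Subgroup G} {z : G} (h : LSet Q z) {b : G} (hb : b ∈ Q)
    (hb1 : b ≠ 1) (hbz : b ≠ z) (hbb : b * b = 1)
    (hZ : ∀ k, k * b = b * k → k * z * k⁻¹ * z⁻¹ = 1 ∨ ∀ K : Subgroup G, Odd (Nat.card K) →
      k * z * k⁻¹ * z⁻¹ ∉ K)
    {K : Subgroup G} (hK : Odd (Nat.card K)) (hQK : Q ≤ normalizer (K : Set G)) : K = ⊥ := by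
  have hcz : ∀ k ∈ K, k * z = z * k → k = 1 := fun k hk hkz =>
    odd_eq_bot_of_comm h hK hQK hk hkz
  have hcomm : ∀ k ∈ K, ∀ q ∈ Q, k * q * k⁻¹ * q⁻¹ ∈ K := by
    intro k hk q hq
    have : k * q * k⁻¹ * q⁻¹ = k * (q * k⁻¹ * q⁻¹) := by group
    rw [this]
    exact mul_mem hk ((mem_normalizer_iff.mp (hQK hq) _).mp (inv_mem hk))
  have hcb : ∀ k ∈ K, k * b = b * k → k = 1 := by
    intro k hk hkb
    apply hcz k hk
    rcases hZ k hkb with h1 | h1
    · exact ExtraH28.comm_eq_one_iff.mp h1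
    · exact absurd (hcomm k hk z h.zQ) (h1 K hK)
  obtain ⟨y, hy, hyb⟩ := h.noncentral hb hb1 hbz
  have hyb' : y * b * y⁻¹ = z * b := by rw [hyb]; group
  have hbz' : b * z = z * b := h.zc b hb
  have hczb : ∀ k ∈ K, k * (z * b) = (z * b) * k → k = 1 := by
    intro k hk hkb
    have h1 : y⁻¹ * k * y ∈ K := by
      have := (mem_normalizer_iff.mp (hQK (inv_mem hy)) k).mp hk
      simpa using this
    have h2 : y⁻¹ * k * y = 1 := by
      apply hcb _ h1
      calc y⁻¹ * k * y * b = y⁻¹ * (k * (y * b * y⁻¹)) * y := by group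
        _ = y⁻¹ * ((y * b * y⁻¹) * k) * y := by rw [hyb', hkb]
        _ = _ := by group
    calc k = y * (y⁻¹ * k * y) * y⁻¹ := by group
      _ = 1 := by rw [h2]; group
  have i1 := inverts h.zz (hQK h.zQ) hcz
  have i2 := inverts hbb (hQK hb) hcb
  rw [Subgroup.eq_bot_iff_forall]
  intro k hk
  apply hczb k hk
  have e1 := i2 k hk
  have e2 := i1 (k⁻¹) (inv_mem hk)
  rw [inv_inv] at e2
  have e3 : z * b * k * (z * b)⁻¹ = k := by
    calc z * b * k * (z * b)⁻¹ = z * (b * k * b⁻¹) * z⁻¹ := by group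
      _ = k := by rw [e1, e2]
  nth_rw 1 [← e3]; group

theorem not_mem_odd_of_pgroup [Finite G] {P : Subgroup G} (hP : IsPGroup 2 P) {t : G} (ht : t ∈ P) :
    t = 1 ∨ ∀ K : Subgroup G, Odd (Nat.card K) → t ∉ K := by
  by_cases h1 : t = 1
  · exact Or.inl h1
  right
  intro K hK htK
  apply h1
  obtain ⟨k, hk⟩ := hP ⟨t, ht⟩
  have hk' : t ^ 2 ^ k = 1 := by simpa using congrArg Subtype.val hk
  have h2 : orderOf t ∣ 2 ^ k := orderOf_dvd_of_pow_eq_one hk'
  have h3 : orderOf t ∣ Nat.card K := by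
    have := orderOf_dvd_natCard (⟨t, htK⟩ : K)
    rwa [Subgroup.orderOf_mk] at this
  have h4 : Nat.Coprime (2 ^ k) (Nat.card K) :=
    Nat.Coprime.pow_left k (Nat.coprime_two_left.mpr hK)
  have h5 := Nat.dvd_gcd h2 h3
  rw [h4] at h5
  exact orderOf_eq_one_iff.mp (Nat.dvd_one.mp h5)

/-- Transfer of the hypotheses of the statements. -/
theorem lset_of [Finite G] {Q : Subgroup G} (hL1 : Cfsg.IsExtraspecial 2 ↥Q)
    (hL2 : Subgroup.centralizer (Q : Set G) = ((Subgroup.center ↥Q).map Q.subtype))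
    (hL3 : Subgroup.centralizer (((Subgroup.center ↥Q).map Q.subtype : Subgroup G) : Set G) ≤
      Subgroup.normalizer (Q : Set G)) {z : G}
    (hz : (center Q).map Q.subtype = zpowers z) : LSet Q z := by
  refine { ESet.of_center hL1 hz with CQ := ?_, NQ := ?_ }
  · intro c hc
    have h1 : c ∈ centralizer (Q : Set G) := by
      rw [mem_centralizer_iff]; intro q hq; exact (hc q hq).symm
    rw [hL2] at h1
    exact (map_subtype_le _) h1
  · intro c hc q hq
    have h1 : c ∈ centralizer (((Subgroup.center ↥Q).map Q.subtype : Subgroup G) : Set G) := by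
      rw [hz, mem_centralizer_iff]
      rintro _ ⟨n, rfl⟩
      have : Commute c z := hc
      exact ((this.zpow_right n).eq).symm
    exact (mem_normalizer_iff.mp (hL3 h1) q).mp hq

/-- Two orthogonal large extraspecial subgroups. -/
structure Pair (Q P : Subgroup G) (z x : G) : Prop where
  hQ : LSet Q z
  hP : LSet P x
  xQ : x ∈ Q
  zP : z ∈ P
  ne : x ≠ z

namespace Pair

variable {Q P : Subgroup G} {z x : G}

theorem symm (h : Pair Q P z x) : Pair P Q x z := ⟨h.hP, h.hQ, h.zP, h.xQ, h.ne.symm⟩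

theorem xz (h : Pair Q P z x) : x * z = z * x := h.hQ.zc x h.xQ

theorem Q_le (h : Pair Q P z x) {q : G} (hq : q ∈ Q) {v : G} (hv : v = z ∨ v = x ∨ v = z * x) :
    (q * v * q⁻¹ = z ∨ q * v * q⁻¹ = x ∨ q * v * q⁻¹ = z * x) := by
  have hzq : q * z * q⁻¹ = z := by rw [h.hQ.zc q hq]; group
  have hzx : z * (z * x) = x := h.hQ.zz' x
  have hx : q * x * q⁻¹ = x ∨ q * x * q⁻¹ = z * x := by
    rcases h.hQ.cm q hq x h.xQ with h1 | h1
    · left; rw [h1]; group
    · right; rw [h1]; group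
  rcases hv with rfl | rfl | rfl
  · exact Or.inl hzq
  · exact Or.inr hx
  · have : q * (z * x) * q⁻¹ = (q * z * q⁻¹) * (q * x * q⁻¹) := by group
    rw [this, hzq]
    rcases hx with h1 | h1
    · rw [h1]; exact Or.inr (Or.inr rfl)
    · rw [h1, hzx]; exact Or.inr (Or.inl rfl)

/-- `V` -/
theorem mem_V_iff (h : Pair Q P z x) {a : G} : a ∈ closure ({z, x} : Set G) ↔
    (a = 1 ∨ a = z ∨ a = x ∨ a = z * x) :=
  mem_closure_pair_iff h.hQ.zz h.xz (Or.inl h.hP.zz)

theorem zx_ne_one (h : Pair Q P z x) : z * x ≠ 1 := by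
  intro hc
  apply h.ne
  have := h.hQ.zz
  rw [← this] at hc
  exact mul_left_cancel hc

/-- elements of the normalizer of `V` permute its involutions -/
theorem norm_V (h : Pair Q P z x) {n : G}
    (hn : n ∈ normalizer ((closure ({z, x} : Set G) : Subgroup G) : Set G)) {v : G}
    (hv : v = z ∨ v = x ∨ v = z * x) :
    (n * v * n⁻¹ = z ∨ n * v * n⁻¹ = x ∨ n * v * n⁻¹ = z * x) := by
  have h1 : v ∈ closure ({z, x} : Set G) := by rw [h.mem_V_iff]; exact Or.inr hv
  have h2 := (mem_normalizer_iff.mp hn v).mp h1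
  rw [h.mem_V_iff] at h2
  rcases h2 with h2 | h2
  · exfalso
    have h3 : v = 1 := by
      calc v = n⁻¹ * (n * v * n⁻¹) * n := by group
        _ = 1 := by rw [h2]; group
    rcases hv with rfl | rfl | rfl
    · exact h.hQ.z1 h3
    · exact h.hP.z1 h3
    · exact h.zx_ne_one h3
  · exact h2

theorem mem_norm_of (h : Pair Q P z x) {n : G}
    (hn : ∀ v, (v = z ∨ v = x ∨ v = z * x) →
      (n * v * n⁻¹ = z ∨ n * v * n⁻¹ = x ∨ n * v * n⁻¹ = z * x))
    (hn' : ∀ v, (v = z ∨ v = x ∨ v = z * x) →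
      (n⁻¹ * v * n = z ∨ n⁻¹ * v * n = x ∨ n⁻¹ * v * n = z * x)) :
    n ∈ normalizer ((closure ({z, x} : Set G) : Subgroup G) : Set G) := by
  rw [mem_normalizer_iff]
  intro v
  rw [h.mem_V_iff, h.mem_V_iff]
  constructor
  · rintro (rfl | h1)
    · left; group
    · exact Or.inr (hn v h1)
  · rintro (h1 | h1)
    · left
      calc v = n⁻¹ * (n * v * n⁻¹) * n := by group
        _ = 1 := by rw [h1]; group
    · right
      have := hn' _ h1
      have e : n⁻¹ * (n * v * n⁻¹) * n = v := by group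
      rwa [e] at this

theorem Q_le_norm (h : Pair Q P z x) :
    Q ≤ normalizer ((closure ({z, x} : Set G) : Subgroup G) : Set G) := by
  intro q hq
  apply h.mem_norm_of
  · intro v hv; exact h.Q_le hq hv
  · intro v hv
    have := h.Q_le (inv_mem hq) hv
    simpa using this

theorem closure_comm (z x : G) : closure ({z, x} : Set G) = closure ({x, z} : Set G) := by
  rw [Set.pair_comm]

theorem P_le_norm (h : Pair Q P z x) :
    P ≤ normalizer ((closure ({z, x} : Set G) : Subgroup G) : Set G) := by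
  rw [closure_comm]; exact h.symm.Q_le_norm

theorem exists_u (h : Pair Q P z x) : ∃ u ∈ Q, u * x = z * (x * u) :=
  h.hQ.noncentral h.xQ h.hP.z1 h.ne

theorem exists_y (h : Pair Q P z x) : ∃ y ∈ P, y * z = z * (x * y) := by
  obtain ⟨y, hy, h1⟩ := h.hP.noncentral h.zP h.hQ.z1 h.ne.symm
  exact ⟨y, hy, by rw [h1, ← mul_assoc, h.xz, mul_assoc]⟩

/-- centralizer of `V` elementwise -/
theorem mem_cV_iff (h : Pair Q P z x) {c : G} :
    c ∈ centralizer ((closure ({z, x} : Set G) : Subgroup G) : Set G) ↔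
      c * z = z * c ∧ c * x = x * c := by
  rw [mem_centralizer_iff]
  constructor
  · intro hc
    exact ⟨(hc z (subset_closure (by simp))).symm, (hc x (subset_closure (by simp))).symm⟩
  · rintro ⟨h1, h2⟩ v hv
    rw [SetLike.mem_coe, h.mem_V_iff] at hv
    rcases hv with rfl | rfl | rfl | rfl
    · simp
    · exact h1.symm
    · exact h2.symm
    · rw [mul_assoc, ← h2, ← mul_assoc, ← h1, mul_assoc]

theorem exists_f (h : Pair Q P z x) :
    ∃ f : normalizer ((closure ({z, x} : Set G) : Subgroup G) : Set G) →* Equiv.Perm (Fin 3),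
      ∀ (n : normalizer ((closure ({z, x} : Set G) : Subgroup G) : Set G)) (i : Fin 3),
      tpl z x (f n i) = n * tpl z x i * (n : G)⁻¹ :=
  exists_perm3 h.hQ.z1 h.hP.z1 h.ne _ (fun _ hn _ hv => h.norm_V hn hv)

/-- any subgroup of `N(V)` containing `u` and `y` maps onto `S₃` -/
theorem surj_of (h : Pair Q P z x) {N : Subgroup G} {f : N →* Equiv.Perm (Fin 3)}
    (hf : ∀ (n : N) (i : Fin 3), tpl z x (f n i) = n * tpl z x i * (n : G)⁻¹)
    (hQ : Q ≤ N) (hP : P ≤ N) : Function.Surjective f := by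
  obtain ⟨u, hu, hux⟩ := h.exists_u
  obtain ⟨y, hy, hyz⟩ := h.exists_y
  have e1 : f ⟨u, hQ hu⟩ = Equiv.swap 1 2 :=
    perm3_swap12 h.hQ.z1 h.hP.z1 h.ne h.hQ.zz hf _ (h.hQ.zc u hu) hux
  have e2 : f ⟨y, hP hy⟩ = Equiv.swap 0 2 :=
    perm3_swap02 h.hQ.z1 h.hP.z1 h.ne h.hP.zz hf _ (h.hP.zc y hy) hyz
  intro σ
  rcases fin3_perm_cases σ with rfl | rfl | rfl | rfl | rfl | rfl
  · exact ⟨1, map_one f⟩
  · exact ⟨_, e1⟩
  · exact ⟨_, e2⟩
  · exact ⟨⟨u, hQ hu⟩ * ⟨y, hP hy⟩, by rw [map_mul, e1, e2]⟩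
  · exact ⟨⟨y, hP hy⟩ * ⟨u, hQ hu⟩, by rw [map_mul, e1, e2]⟩
  · exact ⟨⟨u, hQ hu⟩ * (⟨y, hP hy⟩ * ⟨u, hQ hu⟩), by rw [map_mul, map_mul, e1, e2]⟩

theorem relIndex_six (h : Pair Q P z x) :
    (centralizer ((closure ({z, x} : Set G) : Subgroup G) : Set G)).relIndex
      (normalizer ((closure ({z, x} : Set G) : Subgroup G) : Set G)) = 6 := by
  obtain ⟨f, hf⟩ := h.exists_f
  have hs := h.surj_of hf h.Q_le_norm h.P_le_norm
  have hk : f.ker = (centralizer ((closure ({z, x} : Set G) : Subgroup G) : Set G)).subgroupOf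
      (normalizer ((closure ({z, x} : Set G) : Subgroup G) : Set G)) := by
    ext n
    rw [MonoidHom.mem_ker, perm3_eq_one_iff h.hQ.z1 h.hP.z1 h.ne hf, mem_subgroupOf, h.mem_cV_iff]
  rw [Subgroup.relIndex, ← hk, Subgroup.index_ker, MonoidHom.range_eq_top.mpr hs,
    Subgroup.card_top, Nat.card_perm, Nat.card_fin]
  rfl

end Pair

theorem pair_of {Q : Subgroup G} {z : G} (h : LSet Q z) {g : G} (hxQ : g * z * g⁻¹ ∈ Q)
    (hxz : g * z * g⁻¹ ≠ z) :
    Pair Q (Q.map (MulAut.conj g).toMonoidHom) z (g * z * g⁻¹) :=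
  ⟨h, h.conj g, hxQ, h.sym hxQ hxz, hxz⟩

/-- No odd-order subgroup is normalized by `Q` when a pair exists. -/
theorem Pair.odd [Finite G] {Q P : Subgroup G} {z x : G} (h : Pair Q P z x)
    (hP2 : IsPGroup 2 P) {K : Subgroup G} (hK : Odd (Nat.card K))
    (hQK : Q ≤ normalizer (K : Set G)) : K = ⊥ := by
  refine odd_eq_bot_of_core h.hQ h.xQ h.hP.z1 h.ne h.hP.zz ?_ hK hQK
  intro k hk
  exact not_mem_odd_of_pgroup hP2 (mul_mem (h.hP.NQ k hk z h.zP) (inv_mem h.zP))

end CfsgLib.LargePairH28
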