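import Mathlib
import Cfsg.Agent.LibLargePairH28
import Cfsg.Agent.LibCoprime

set_option autoImplicit false

/-! Recognizing extraspecial subgroups of an extraspecial 2-group (helper28). -/

namespace CfsgLib.LargeExtra3H28

open Subgroup
open CfsgLib.LargeExtraH28

variable {G : Type*} [Group G]

theorem eq_of_central {Q : Subgroup G} {z : G} (h : ESet Q z) {c : G} (hc : c ∈ Q)
    (hcc : ∀ q ∈ Q, c * q = q * c) : c = 1 ∨ c = z := by
  by_contra hne
  push Not at hne
  obtain ⟨e, he, hec⟩ := h.noncentral hc hne.1 hne.2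
  rw [← hcc e he] at hec
  exact h.z1 (mul_eq_right.mp hec.symm)

/-- A nonabelian subgroup `B` of `Q` with `Z(B) ≤ Z(Q)` is extraspecial. -/
theorem isExtraspecial_sub [Finite G] {Q B : Subgroup G} {z : G} (h : ESet Q z)
    (hQ2 : IsPGroup 2 Q) (hBQ : B ≤ Q)
    (hZ : ∀ b ∈ B, (∀ b' ∈ B, b * b' = b' * b) → b = 1 ∨ b = z)
    (hna : ∃ b ∈ B, ∃ b' ∈ B, b * b' ≠ b' * b) : Cfsg.IsExtraspecial 2 B := by
  haveI : Fact (Nat.Prime 2) := ⟨Nat.prime_two⟩
  have hzB : z ∈ B := by
    obtain ⟨b, hb, b', hb', hne⟩ := hna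
    rcases h.cm b (hBQ hb) b' (hBQ hb') with h1 | h1
    · exact absurd h1 hne
    · have : z = (b * b') * (b' * b)⁻¹ := by rw [h1]; group
      rw [this]
      exact mul_mem (mul_mem hb hb') (inv_mem (mul_mem hb' hb))
  have hzc : (⟨z, hzB⟩ : B) ∈ center B := by
    rw [mem_center_iff]
    intro g
    exact Subtype.ext (h.zc g (hBQ g.2))
  have hcent : ∀ x : B, x ∈ center B ↔ (x : G) = 1 ∨ (x : G) = z := by
    intro x
    constructor
    · intro hx
      apply hZ x x.2
      intro b' hb'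
      exact (congrArg Subtype.val ((mem_center_iff.mp hx) ⟨b', hb'⟩)).symm
    · rintro (h1 | h1)
      · have : x = 1 := Subtype.ext h1
        rw [this]; exact one_mem _
      · have : x = ⟨z, hzB⟩ := Subtype.ext h1
        rw [this]; exact hzc
  refine ExtraH28.isExtraspecial_of (hQ2.to_le hBQ) ?_ ?_ ?_ ?_
  · rw [Nat.card_eq_two_iff' (1 : center B)]
    refine ⟨⟨⟨z, hzB⟩, hzc⟩, ?_, ?_⟩
    · intro hc
      exact h.z1 (congrArg (fun t : center B => ((t : B) : G)) hc)
    · rintro ⟨y, hy⟩ hy1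
      rcases (hcent y).mp hy with h1 | h1
      · exact absurd (Subtype.ext (Subtype.ext h1)) hy1
      · exact Subtype.ext (Subtype.ext h1)
  · intro x
    rw [hcent]
    have := h.sq x (hBQ x.2)
    simpa [pow_two] using this
  · intro x y
    rw [hcent]
    rcases h.cm x (hBQ x.2) y (hBQ y.2) with h1 | h1
    · left
      show (x : G) * y * (x : G)⁻¹ * (y : G)⁻¹ = 1
      rw [h1]; group
    · right
      show (x : G) * y * (x : G)⁻¹ * (y : G)⁻¹ = z
      rw [h1]; group
  · obtain ⟨b, hb, b', hb', hne⟩ := hna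
    exact ⟨⟨b, hb⟩, ⟨b', hb'⟩, fun hc => hne (congrArg Subtype.val hc)⟩

/-- elements normalizing `Q` fix `z`. -/
theorem norm_fix {Q : Subgroup G} {z : G} (h : ESet Q z) {a : G}
    (ha : a ∈ normalizer (Q : Set G)) : a * z * a⁻¹ = z := by
  have h1 : a * z * a⁻¹ ∈ Q := (mem_normalizer_iff.mp ha z).mp h.zQ
  rcases eq_of_central h h1 (by
    intro q hq
    have h2 : a⁻¹ * q * a ∈ Q := by
      have := (mem_normalizer_iff.mp (inv_mem ha) q).mp hq
      simpa using this
    have h3 := h.zc _ h2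
    calc a * z * a⁻¹ * q = a * (z * (a⁻¹ * q * a)) * a⁻¹ := by group
      _ = a * ((a⁻¹ * q * a) * z) * a⁻¹ := by rw [h3]
      _ = _ := by group) with h2 | h2
  · exfalso
    apply h.z1
    calc z = a⁻¹ * (a * z * a⁻¹) * a := by group
      _ = 1 := by rw [h2]; group
  · exact h2

/-- The odd-automorphism decomposition. -/
theorem odd_decomp [Finite G] {Q : Subgroup G} {z : G} (h : ESet Q z) (hQ2 : IsPGroup 2 Q)
    (hQe : (center Q).map Q.subtype = zpowers z)
    {A : Subgroup G} (hA : A ≤ normalizer (Q : Set G)) (hAodd : Odd (Nat.card ↥A))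
    (hAQ : ∃ a ∈ A, ∃ q ∈ Q, a * q ≠ q * a) :
    (Q ⊓ centralizer (A : Set G)) ⊔ ⁅Q, A⁆ = Q ∧
    (∀ x ∈ Q ⊓ centralizer (A : Set G), ∀ y ∈ ⁅Q, A⁆, x * y = y * x) ∧
    Cfsg.IsExtraspecial 2 ↥⁅Q, A⁆ ∧
    (Q ⊓ centralizer (A : Set G) = ((center ↥Q).map Q.subtype) ∨
      Cfsg.IsExtraspecial 2 ↥(Q ⊓ centralizer (A : Set G))) := by
  haveI : Fact (Nat.Prime 2) := ⟨Nat.prime_two⟩
  have hcop : (Nat.card A).Coprime (Nat.card Q) := by
    obtain ⟨n, hn⟩ := IsPGroup.iff_card.mp hQ2
    rw [hn]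
    exact Nat.Coprime.pow_right n (Nat.coprime_two_right.mpr hAodd)
  have hsolv : Group.IsSolvable A ∨ Group.IsSolvable Q := by
    right
    haveI := hQ2.isNilpotent
    infer_instance
  have hsup := Coprime.commutator_sup_centralizer hA hcop hsolv
  have hBQ : ⁅Q, A⁆ ≤ Q := Coprime.commutator_le_of_le_normalizer hA
  have hcomm : ∀ x ∈ Q ⊓ centralizer (A : Set G), ∀ y ∈ ⁅Q, A⁆, x * y = y * x := by
    intro c hc y hy
    have hle : ⁅Q, A⁆ ≤ centralizer ({c} : Set G) := by
      rw [commutator_le]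
      intro q hq a ha
      rw [mem_centralizer_singleton_iff]
      have hac : a * c = c * a := (mem_centralizer_iff.mp hc.2) a ha
      have hza := norm_fix h (hA ha)
      have hza' : a * z = z * a := by
        calc a * z = (a * z * a⁻¹) * a := by group
          _ = z * a := by rw [hza]
      obtain ⟨ε, hε, h1⟩ := LSet.pm (h.cm c hc.1 q hq)
      have h2 : c * q⁻¹ = ε * (q⁻¹ * c) := by
        have h3 : ε * (q * (c * q⁻¹)) = c := by
          calc ε * (q * (c * q⁻¹)) = (ε * (q * c)) * q⁻¹ := by group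
            _ = c := by rw [← h1]; group
        have h4 : q * (c * q⁻¹) = ε * c := by
          have := LSet.pm_sq h.zz hε (q * (c * q⁻¹))
          rw [h3] at this
          exact this.symm
        calc c * q⁻¹ = q⁻¹ * (q * (c * q⁻¹)) := by group
          _ = q⁻¹ * (ε * c) := by rw [h4]
          _ = ε * (q⁻¹ * c) := LSet.pm_comm hε (h.zc _ (inv_mem hq)) c
      have hqz := h.zc q hq
      show q * a * q⁻¹ * a⁻¹ * c = c * (q * a * q⁻¹ * a⁻¹)
      have hac' : a⁻¹ * c = c * a⁻¹ := by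
        calc a⁻¹ * c = a⁻¹ * (c * a) * a⁻¹ := by group
          _ = a⁻¹ * (a * c) * a⁻¹ := by rw [hac]
          _ = c * a⁻¹ := by group
      symm
      calc c * (q * a * q⁻¹ * a⁻¹) = (c * q) * (a * q⁻¹ * a⁻¹) := by group
        _ = ε * (q * (c * a) * (q⁻¹ * a⁻¹)) := by rw [h1]; group
        _ = ε * (q * a * (c * q⁻¹) * a⁻¹) := by rw [← hac]; group
        _ = ε * (q * (a * (ε * (q⁻¹ * c))) * a⁻¹) := by rw [h2]; group
        _ = ε * (ε * (q * a * q⁻¹ * (c * a⁻¹))) := by
            rw [LSet.pm_comm hε hza', LSet.pm_comm hε hqz]; group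
        _ = q * a * q⁻¹ * (c * a⁻¹) := LSet.pm_sq h.zz hε _
        _ = _ := by rw [← hac']; group
    exact ((mem_centralizer_singleton_iff.mp (hle hy))).symm
  have hsup' : (Q ⊓ centralizer (A : Set G)) ⊔ ⁅Q, A⁆ = Q := by rw [sup_comm]; exact hsup
  -- elements commuting with both factors are central
  have hboth : ∀ t ∈ Q, (∀ c ∈ Q ⊓ centralizer (A : Set G), t * c = c * t) →
      (∀ b ∈ ⁅Q, A⁆, t * b = b * t) → t = 1 ∨ t = z := by
    intro t ht h1 h2
    apply eq_of_central h ht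
    have hle : Q ≤ centralizer ({t} : Set G) := by
      rw [← hsup']
      refine sup_le ?_ ?_
      · intro c hc; rw [mem_centralizer_singleton_iff]; exact (h1 c hc).symm
      · intro c hc; rw [mem_centralizer_singleton_iff]; exact (h2 c hc).symm
    intro q hq
    exact (mem_centralizer_singleton_iff.mp (hle hq)).symm
  have hBna : ∃ b ∈ ⁅Q, A⁆, ∃ b' ∈ ⁅Q, A⁆, b * b' ≠ b' * b := by
    by_contra hcon
    push Not at hcon
    have hBZ : ∀ b ∈ ⁅Q, A⁆, b = 1 ∨ b = z := fun b hb =>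
      hboth b (hBQ hb) (fun c hc => (hcomm c hc b hb).symm) (fun b' hb' => hcon b hb b' hb')
    have h1 : ⁅⁅Q, A⁆, A⁆ = ⊥ := by
      rw [eq_bot_iff, commutator_le]
      intro b hb a ha
      rw [mem_bot]
      rw [commutatorElement_eq_one_iff_mul_comm]
      rcases hBZ b hb with rfl | rfl
      · simp
      · have hza := norm_fix h (hA ha)
        calc b * a = (a * b * a⁻¹) * a := by rw [hza]
          _ = a * b := by group
    have h2 := Coprime.commutator_eq_bot_of_commutator_commutator hA hcop hsolv h1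
    obtain ⟨a, ha, q, hq, hne⟩ := hAQ
    apply hne
    have h3 : q * a * q⁻¹ * a⁻¹ ∈ ⁅Q, A⁆ := commutator_mem_commutator hq ha
    rw [h2, mem_bot] at h3
    exact (ExtraH28.comm_eq_one_iff.mp h3).symm
  refine ⟨hsup', hcomm, ?_, ?_⟩
  · refine isExtraspecial_sub h hQ2 hBQ ?_ hBna
    intro b hb hb'
    exact hboth b (hBQ hb) (fun c hc => (hcomm c hc b hb).symm) hb'
  · by_cases hC : ∃ b ∈ Q ⊓ centralizer (A : Set G), ∃ b' ∈ Q ⊓ centralizer (A : Set G),
        b * b' ≠ b' * b
    · right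
      refine isExtraspecial_sub h hQ2 inf_le_left ?_ hC
      intro b hb hb'
      exact hboth b hb.1 hb' (fun c hc => hcomm b hb c hc)
    · left
      push Not at hC
      rw [hQe]
      apply le_antisymm
      · intro c hc
        rw [h.mem_zpowers]
        exact hboth c hc.1 (fun c' hc' => hC c hc c' hc') (fun b hb => hcomm c hc b hb)
      · rw [zpowers_le]
        refine mem_inf.mpr ⟨h.zQ, ?_⟩
        rw [mem_centralizer_iff]
        intro a ha
        have hza := norm_fix h (hA ha)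
        calc a * z = (a * z * a⁻¹) * a := by group
          _ = z * a := by rw [hza]

end CfsgLib.LargeExtra3H28
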