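import Mathlib
import Cfsg.Agent.LibLargePairH28

set_option autoImplicit false

/-! The group generated by two orthogonal large extraspecial 2-subgroups (helper28). -/

namespace CfsgLib.LargePair2H28

open Subgroup
open CfsgLib.LargeExtraH28 CfsgLib.LargePairH28

variable {G : Type*} [Group G]

/-- The subgroup `R = C_P(z) C_Q(x)`. -/
def RR (Q P : Subgroup G) (z x : G) : Subgroup G :=
  (P ⊓ centralizer ({z} : Set G)) ⊔ (Q ⊓ centralizer ({x} : Set G))

theorem RR_symm (Q P : Subgroup G) (z x : G) : RR P Q x z = RR Q P z x := sup_comm _ _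

/-- A conjugate pair. -/
structure CPair (Q P : Subgroup G) (z x : G) : Prop extends Pair Q P z x where
  cj : ∀ m, m * z = x * m → ∀ q ∈ Q, m * q * m⁻¹ ∈ P
  cj' : ∀ m, m * x = z * m → ∀ p ∈ P, m * p * m⁻¹ ∈ Q

theorem cpair_of {Q : Subgroup G} {z : G} (h : LSet Q z) {g : G} (hxQ : g * z * g⁻¹ ∈ Q)
    (hxz : g * z * g⁻¹ ≠ z) :
    CPair Q (Q.map (MulAut.conj g).toMonoidHom) z (g * z * g⁻¹) where
  toPair := pair_of h hxQ hxz
  cj := by
    intro m hm q hq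
    rw [mem_map_conj]
    have h1 : (g⁻¹ * m) * z = z * (g⁻¹ * m) := by rw [mul_assoc, hm]; group
    have h2 := h.NQ _ h1 q hq
    have h3 : g⁻¹ * m * q * (g⁻¹ * m)⁻¹ = g⁻¹ * (m * q * m⁻¹) * g := by group
    rwa [h3] at h2
  cj' := by
    intro m hm p hp
    rw [mem_map_conj] at hp
    have h1 : (m * g) * z = z * (m * g) := by
      calc (m * g) * z = (m * (g * z * g⁻¹)) * g := by group
        _ = _ := by rw [hm]; group
    have h2 := h.NQ _ h1 _ hp
    have h3 : m * g * (g⁻¹ * p * g) * (m * g)⁻¹ = m * p * m⁻¹ := by group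
    rwa [h3] at h2

namespace CPair

variable {Q P : Subgroup G} {z x : G}

theorem symm (h : CPair Q P z x) : CPair P Q x z := ⟨h.toPair.symm, h.cj', h.cj⟩

theorem mem_A {Q : Subgroup G} {x a : G} : a ∈ Q ⊓ centralizer ({x} : Set G) ↔ a ∈ Q ∧ a * x = x * a := by
  rw [mem_inf, mem_centralizer_singleton_iff]

theorem A_le (Q P : Subgroup G) (z x : G) : Q ⊓ centralizer ({x} : Set G) ≤ RR Q P z x := le_sup_right
theorem D_le (Q P : Subgroup G) (z x : G) : P ⊓ centralizer ({z} : Set G) ≤ RR Q P z x := le_sup_left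

/-- normalizer of V acts on the centralizer of V -/
theorem cV_conj (h : CPair Q P z x) {n c : G}
    (hn : n ∈ normalizer ((closure ({z, x} : Set G) : Subgroup G) : Set G))
    (hc : c ∈ centralizer ((closure ({z, x} : Set G) : Subgroup G) : Set G)) :
    n * c * n⁻¹ ∈ centralizer ((closure ({z, x} : Set G) : Subgroup G) : Set G) := by
  rw [mem_centralizer_iff] at hc ⊢
  intro v hv
  have h1 : n⁻¹ * v * n ∈ closure ({z, x} : Set G) := by
    have := (mem_normalizer_iff.mp (inv_mem hn) v).mp hv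
    simpa using this
  have h2 := hc _ h1
  calc v * (n * c * n⁻¹) = n * ((n⁻¹ * v * n) * c) * n⁻¹ := by group
    _ = n * (c * (n⁻¹ * v * n)) * n⁻¹ := by rw [h2]
    _ = _ := by group

theorem RR_le_cV (h : CPair Q P z x) :
    RR Q P z x ≤ centralizer ((closure ({z, x} : Set G) : Subgroup G) : Set G) := by
  refine sup_le ?_ ?_
  · intro d hd
    rw [mem_A] at hd
    rw [h.mem_cV_iff]
    exact ⟨hd.2, h.hP.zc d hd.1⟩
  · intro a ha
    rw [mem_A] at ha
    rw [h.mem_cV_iff]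
    exact ⟨h.hQ.zc a ha.1, ha.2⟩

theorem RR_conj_Q (h : CPair Q P z x) {q : G} (hq : q ∈ Q) {r : G} (hr : r ∈ RR Q P z x) :
    q * r * q⁻¹ ∈ RR Q P z x := by
  have hle : RR Q P z x ≤ (RR Q P z x).comap (MulAut.conj q).toMonoidHom := by
    refine sup_le ?_ ?_
    · intro d hd
      have hd' := hd
      rw [mem_A] at hd'
      have hdV : d ∈ centralizer ((closure ({z, x} : Set G) : Subgroup G) : Set G) :=
        h.RR_le_cV (D_le Q P z x hd)
      show q * d * q⁻¹ ∈ RR Q P z x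
      have e : q * d * q⁻¹ = (q * (d * q⁻¹ * d⁻¹)) * d := by group
      rw [e]
      refine mul_mem ?_ (D_le Q P z x hd)
      apply A_le Q P z x
      have h1 : q * (d * q⁻¹ * d⁻¹) = (q * d * q⁻¹) * d⁻¹ := by group
      have h2 : q * (d * q⁻¹ * d⁻¹) ∈ centralizer ((closure ({z, x} : Set G) : Subgroup G) : Set G) := by
        rw [h1]
        exact mul_mem (h.cV_conj (h.Q_le_norm hq) hdV) (inv_mem hdV)
      rw [mem_A]
      exact ⟨mul_mem hq (h.hQ.NQ d hd'.2 _ (inv_mem hq)), (h.mem_cV_iff.mp h2).2⟩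
    · intro a ha
      have ha' := ha
      rw [mem_A] at ha'
      have haV : a ∈ centralizer ((closure ({z, x} : Set G) : Subgroup G) : Set G) :=
        h.RR_le_cV (A_le Q P z x ha)
      show q * a * q⁻¹ ∈ RR Q P z x
      apply A_le Q P z x
      rw [mem_A]
      exact ⟨mul_mem (mul_mem hq ha'.1) (inv_mem hq),
        (h.mem_cV_iff.mp (h.cV_conj (h.Q_le_norm hq) haV)).2⟩
  exact hle hr

theorem RR_conj_P (h : CPair Q P z x) {q : G} (hq : q ∈ P) {r : G} (hr : r ∈ RR Q P z x) :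
    q * r * q⁻¹ ∈ RR Q P z x := by
  rw [← RR_symm] at hr ⊢
  exact h.symm.RR_conj_Q hq hr

theorem RR_conj (h : CPair Q P z x) {s : G} (hs : s ∈ Q ⊔ P) {r : G} (hr : r ∈ RR Q P z x) :
    s * r * s⁻¹ ∈ RR Q P z x := by
  have hle : Q ⊔ P ≤ normalizer ((RR Q P z x : Subgroup G) : Set G) := by
    refine sup_le ?_ ?_
    · intro q hq
      rw [mem_normalizer_iff]
      intro r
      refine ⟨fun hr => h.RR_conj_Q hq hr, fun hr => ?_⟩
      have := h.RR_conj_Q (inv_mem hq) hr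
      have e : q⁻¹ * (q * r * q⁻¹) * q⁻¹⁻¹ = r := by group
      rwa [e] at this
    · intro q hq
      rw [mem_normalizer_iff]
      intro r
      refine ⟨fun hr => h.RR_conj_P hq hr, fun hr => ?_⟩
      have := h.RR_conj_P (inv_mem hq) hr
      have e : q⁻¹ * (q * r * q⁻¹) * q⁻¹⁻¹ = r := by group
      rwa [e] at this
  exact (mem_normalizer_iff.mp (hle hs) r).mp hr

theorem V_le_RR (h : CPair Q P z x) : closure ({z, x} : Set G) ≤ RR Q P z x := by
  rw [closure_le]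
  rintro v (rfl | rfl)
  · apply A_le Q P _ x; rw [mem_A]; exact ⟨h.hQ.zQ, h.xz.symm⟩
  · apply A_le Q P z _; rw [mem_A]; exact ⟨h.xQ, rfl⟩

theorem sq_mem_Q (h : CPair Q P z x) {q : G} (hq : q ∈ Q) : q * q ∈ RR Q P z x := by
  apply h.V_le_RR
  rcases h.hQ.sq q hq with h1 | h1
  · rw [h1]; exact one_mem _
  · rw [h1]; exact subset_closure (by simp)

theorem sq_mem_P (h : CPair Q P z x) {q : G} (hq : q ∈ P) : q * q ∈ RR Q P z x := by
  rw [← RR_symm]; exact h.symm.sq_mem_Q hq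

/-- The centralizer of `V` in `⟨Q, P⟩` is `R`. -/
theorem inf_cV_le (h : CPair Q P z x) :
    (Q ⊔ P) ⊓ centralizer ((closure ({z, x} : Set G) : Subgroup G) : Set G) ≤ RR Q P z x := by
  obtain ⟨u, hu, hux⟩ := h.exists_u
  obtain ⟨y, hy, hyz⟩ := h.exists_y
  obtain ⟨f, hf⟩ := h.exists_f
  have hz1 := h.hQ.z1
  have hx1 := h.hP.z1
  have hne := h.ne
  have fu : f ⟨u, h.Q_le_norm hu⟩ = Equiv.swap 1 2 :=
    perm3_swap12 hz1 hx1 hne h.hQ.zz hf _ (h.hQ.zc u hu) hux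
  have fy : f ⟨y, h.P_le_norm hy⟩ = Equiv.swap 0 2 :=
    perm3_swap02 hz1 hx1 hne h.hP.zz hf _ (h.hP.zc y hy) hyz
  obtain ⟨R, hRdef⟩ : ∃ R, R = RR Q P z x := ⟨_, rfl⟩
  have hRc : ∀ s ∈ Q ⊔ P, ∀ r ∈ R, s * r * s⁻¹ ∈ R := by
    intro s hs r hr; rw [hRdef] at hr ⊢; exact h.RR_conj hs hr
  have huX : u ∈ Q ⊔ P := le_sup_left (α := Subgroup G) hu
  have hyX : y ∈ Q ⊔ P := le_sup_right (α := Subgroup G) hy
  have huu : u * u ∈ R := by rw [hRdef]; exact h.sq_mem_Q hu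
  have hyy : y * y ∈ R := by rw [hRdef]; exact h.sq_mem_P hy
  -- the braid relation modulo R
  have hbraid : ∃ ρ ∈ R, y * (u * y) = ρ * (u * (y * u)) := by
    -- m = y⁻¹ u maps x to z
    have hm : (y⁻¹ * u) * x = z * (y⁻¹ * u) := by
      have h1 : y * z * y⁻¹ = z * x := by rw [hyz]; group
      calc (y⁻¹ * u) * x = y⁻¹ * (u * x) := by group
        _ = y⁻¹ * (z * x) * u := by rw [hux]; group
        _ = y⁻¹ * (y * z * y⁻¹) * u := by rw [h1]
        _ = _ := by group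
    have hmQ : (y⁻¹ * u) * y⁻¹ * (y⁻¹ * u)⁻¹ ∈ Q := h.cj' _ hm _ (inv_mem hy)
    obtain ⟨ρ₀, hρ₀⟩ : ∃ ρ₀, ρ₀ = u * ((y⁻¹ * u) * y⁻¹ * (y⁻¹ * u)⁻¹) := ⟨_, rfl⟩
    have hρ₀Q : ρ₀ ∈ Q := by rw [hρ₀]; exact mul_mem hu hmQ
    have hρ₀V : ρ₀ ∈ centralizer ((closure ({z, x} : Set G) : Subgroup G) : Set G) := by
      have e : f ⟨ρ₀, h.Q_le_norm hρ₀Q⟩ = 1 := by
        have e1 : (⟨ρ₀, h.Q_le_norm hρ₀Q⟩ :
            normalizer ((closure ({z, x} : Set G) : Subgroup G) : Set G)) =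
            ⟨u, h.Q_le_norm hu⟩ * (((⟨y, h.P_le_norm hy⟩)⁻¹ * ⟨u, h.Q_le_norm hu⟩) *
            (⟨y, h.P_le_norm hy⟩)⁻¹ * ((⟨y, h.P_le_norm hy⟩)⁻¹ * ⟨u, h.Q_le_norm hu⟩)⁻¹) :=
          Subtype.ext hρ₀
        rw [e1]
        simp only [map_mul, map_inv, fu, fy]
        decide
      rw [perm3_eq_one_iff hz1 hx1 hne hf] at e
      rw [h.mem_cV_iff]; exact e
    have hρ₀R : ρ₀ ∈ R := by
      rw [hRdef]; apply A_le Q P z x
      rw [mem_A]; exact ⟨hρ₀Q, (h.mem_cV_iff.mp hρ₀V).2⟩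
    have hρ'R : y * ρ₀ * y⁻¹ ∈ R := hRc y hyX ρ₀ hρ₀R
    -- y u y⁻¹ = (y ρ₀ y⁻¹) (u y u⁻¹)
    have e1 : y * u * y⁻¹ = (y * ρ₀ * y⁻¹) * (u * y * u⁻¹) := by rw [hρ₀]; group
    have ht : (u * u)⁻¹ * (y * y) ∈ R := mul_mem (inv_mem huu) hyy
    refine ⟨(y * ρ₀ * y⁻¹) * ((u * (y * u)) * ((u * u)⁻¹ * (y * y)) * (u * (y * u))⁻¹), ?_, ?_⟩
    · exact mul_mem hρ'R (hRc _ (mul_mem huX (mul_mem hyX huX)) _ ht)
    · calc y * (u * y) = (y * u * y⁻¹) * (y * y) := by group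
        _ = (y * ρ₀ * y⁻¹) * (u * y * u⁻¹) * (y * y) := by rw [e1]
        _ = _ := by group
  obtain ⟨ρ, hρ, hbr⟩ := hbraid
  -- the set S
  let W : Set G := {w | w = 1 ∨ w = u ∨ w = y ∨ w = u * y ∨ w = y * u ∨ w = u * (y * u)}
  let S : Set G := {s | ∃ r ∈ R, ∃ w ∈ W, s = r * w}
  have hWX : ∀ w ∈ W, w ∈ Q ⊔ P := by
    rintro w (rfl | rfl | rfl | rfl | rfl | rfl)
    · exact one_mem _
    · exact huX
    · exact hyX
    · exact mul_mem huX hyX
    · exact mul_mem hyX huX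
    · exact mul_mem huX (mul_mem hyX huX)
  have hSR : ∀ r ∈ R, ∀ s ∈ S, r * s ∈ S := by
    rintro r hr s ⟨r', hr', w, hw, rfl⟩
    exact ⟨r * r', mul_mem hr hr', w, hw, by group⟩
  have hWS : ∀ w ∈ W, w ∈ S := fun w hw => ⟨1, one_mem _, w, hw, by group⟩
  have hSu : ∀ s ∈ S, u * s ∈ S := by
    rintro s ⟨r, hr, w, hw, rfl⟩
    have e : u * (r * w) = (u * r * u⁻¹) * (u * w) := by group
    rw [e]
    apply hSR _ (hRc u huX r hr)
    rcases hw with rfl | rfl | rfl | rfl | rfl | rfl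
    · rw [mul_one]; exact hWS _ (Or.inr (Or.inl rfl))
    · have := hSR _ huu _ (hWS 1 (Or.inl rfl)); simpa using this
    · exact hWS _ (Or.inr (Or.inr (Or.inr (Or.inl rfl))))
    · have := hSR _ huu _ (hWS y (Or.inr (Or.inr (Or.inl rfl)))); rwa [mul_assoc] at this
    · exact hWS _ (Or.inr (Or.inr (Or.inr (Or.inr (Or.inr rfl)))))
    · have := hSR _ huu _ (hWS (y * u) (Or.inr (Or.inr (Or.inr (Or.inr (Or.inl rfl))))))
      rwa [mul_assoc] at this
  have hSy : ∀ s ∈ S, y * s ∈ S := by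
    rintro s ⟨r, hr, w, hw, rfl⟩
    have e : y * (r * w) = (y * r * y⁻¹) * (y * w) := by group
    rw [e]
    apply hSR _ (hRc y hyX r hr)
    rcases hw with rfl | rfl | rfl | rfl | rfl | rfl
    · rw [mul_one]; exact hWS _ (Or.inr (Or.inr (Or.inl rfl)))
    · exact hWS _ (Or.inr (Or.inr (Or.inr (Or.inr (Or.inl rfl)))))
    · have := hSR _ hyy _ (hWS 1 (Or.inl rfl)); simpa using this
    · rw [hbr]
      exact hSR _ hρ _ (hWS _ (Or.inr (Or.inr (Or.inr (Or.inr (Or.inr rfl))))))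
    · have := hSR _ hyy _ (hWS u (Or.inr (Or.inl rfl))); rwa [mul_assoc] at this
    · have e2 : y * (u * (y * u)) = ρ * (((u * y) * (u * u) * (u * y)⁻¹) * (u * y)) := by
        calc y * (u * (y * u)) = (y * (u * y)) * u := by group
          _ = _ := by rw [hbr]; group
      rw [e2]
      apply hSR _ hρ
      exact hSR _ (hRc _ (mul_mem huX hyX) _ huu) _
        (hWS _ (Or.inr (Or.inr (Or.inr (Or.inl rfl)))))
  have hSQ : ∀ q ∈ Q, ∀ s ∈ S, q * s ∈ S := by
    intro q hq s hs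
    rcases h.hQ.cm q hq x h.xQ with h1 | h1
    · apply hSR _ _ _ hs
      rw [hRdef]; apply A_le Q P z x; rw [mem_A]; exact ⟨hq, h1⟩
    · have h2 : (q * u⁻¹) * x = x * (q * u⁻¹) := by
        have h3 : u⁻¹ * x = z * (x * u⁻¹) := by
          have h4 : u⁻¹ * z = z * u⁻¹ := h.hQ.zc _ (inv_mem hu)
          calc u⁻¹ * x = u⁻¹ * (z * (z * x * u)) * u⁻¹ := by
                rw [mul_assoc z x u, h.hQ.zz']; group
            _ = u⁻¹ * (z * (u * x)) * u⁻¹ := by rw [hux, mul_assoc z x u]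
            _ = (u⁻¹ * z) * (u * x * u⁻¹) := by group
            _ = z * (x * u⁻¹) := by rw [h4]; group
        calc q * u⁻¹ * x = q * (u⁻¹ * x) := by group
          _ = (q * z) * (x * u⁻¹) := by rw [h3]; group
          _ = z * (q * x * u⁻¹) := by rw [h.hQ.zc q hq]; group
          _ = z * (z * (x * q) * u⁻¹) := by rw [h1]
          _ = x * (q * u⁻¹) := by rw [mul_assoc z, h.hQ.zz']; group
      have e : q * s = (q * u⁻¹) * (u * s) := by group
      rw [e]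
      apply hSR _ _ _ (hSu s hs)
      rw [hRdef]; apply A_le Q P z x; rw [mem_A]; exact ⟨mul_mem hq (inv_mem hu), h2⟩
  have hSP : ∀ q ∈ P, ∀ s ∈ S, q * s ∈ S := by
    intro q hq s hs
    have hyz' : y * z = x * (z * y) := by rw [hyz, ← mul_assoc, ← h.xz, mul_assoc]
    rcases h.hP.cm q hq z h.zP with h1 | h1
    · apply hSR _ _ _ hs
      rw [hRdef]; apply D_le Q P z x; rw [mem_A]; exact ⟨hq, h1⟩
    · have h2 : (q * y⁻¹) * z = z * (q * y⁻¹) := by
        have h3 : y⁻¹ * z = x * (z * y⁻¹) := by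
          have h4 : y⁻¹ * x = x * y⁻¹ := h.hP.zc _ (inv_mem hy)
          calc y⁻¹ * z = y⁻¹ * (x * (x * z * y)) * y⁻¹ := by
                rw [mul_assoc x z y, h.hP.zz']; group
            _ = y⁻¹ * (x * (y * z)) * y⁻¹ := by rw [hyz', mul_assoc x z y]
            _ = (y⁻¹ * x) * (y * z * y⁻¹) := by group
            _ = x * (z * y⁻¹) := by rw [h4]; group
        calc q * y⁻¹ * z = q * (y⁻¹ * z) := by group
          _ = (q * x) * (z * y⁻¹) := by rw [h3]; group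
          _ = x * (q * z * y⁻¹) := by rw [h.hP.zc q hq]; group
          _ = x * (x * (z * q) * y⁻¹) := by rw [h1]
          _ = z * (q * y⁻¹) := by rw [mul_assoc x, h.hP.zz']; group
      have e : q * s = (q * y⁻¹) * (y * s) := by group
      rw [e]
      apply hSR _ _ _ (hSy s hs)
      rw [hRdef]; apply D_le Q P z x; rw [mem_A]; exact ⟨mul_mem hq (inv_mem hy), h2⟩
  -- conclude
  let K : Subgroup G :=
    { carrier := {g | ∀ s, g * s ∈ S ↔ s ∈ S}
      one_mem' := by intro s; rw [one_mul]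
      mul_mem' := by
        intro a b ha hb s
        rw [mul_assoc, ha, hb]
      inv_mem' := by
        intro a ha s
        rw [← ha (a⁻¹ * s)]
        simp }
  have hK : Q ⊔ P ≤ K := by
    refine sup_le ?_ ?_
    · intro q hq s
      refine ⟨fun hs => ?_, hSQ q hq s⟩
      have := hSQ q⁻¹ (inv_mem hq) _ hs
      simpa using this
    · intro q hq s
      refine ⟨fun hs => ?_, hSP q hq s⟩
      have := hSP q⁻¹ (inv_mem hq) _ hs
      simpa using this
  rintro t ⟨htX, htV⟩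
  have h1 : t * 1 ∈ S := (hK htX 1).mpr (hWS 1 (Or.inl rfl))
  rw [mul_one] at h1
  obtain ⟨r, hr, w, hw, rfl⟩ := h1
  rw [← hRdef]
  have hrV : r ∈ centralizer ((closure ({z, x} : Set G) : Subgroup G) : Set G) := by
    rw [hRdef] at hr; exact h.RR_le_cV hr
  have hwV : w ∈ centralizer ((closure ({z, x} : Set G) : Subgroup G) : Set G) := by
    have : w = r⁻¹ * (r * w) := by group
    rw [this]; exact mul_mem (inv_mem hrV) htV
  -- w = 1
  have hXN : Q ⊔ P ≤ normalizer ((closure ({z, x} : Set G) : Subgroup G) : Set G) :=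
    sup_le h.Q_le_norm h.P_le_norm
  have fw : f ⟨w, hXN (hWX w hw)⟩ = 1 := by
    rw [perm3_eq_one_iff hz1 hx1 hne hf]
    exact h.mem_cV_iff.mp hwV
  have hw1 : w = 1 := by
    rcases hw with rfl | rfl | rfl | rfl | rfl | rfl
    · rfl
    · exfalso; rw [fu] at fw; revert fw; decide
    · exfalso; rw [fy] at fw; revert fw; decide
    · exfalso
      have e : (⟨u * y, hXN (hWX _ (Or.inr (Or.inr (Or.inr (Or.inl rfl)))))⟩ :
          normalizer ((closure ({z, x} : Set G) : Subgroup G) : Set G)) =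
          ⟨u, h.Q_le_norm hu⟩ * ⟨y, h.P_le_norm hy⟩ := rfl
      rw [e, map_mul, fu, fy] at fw
      revert fw; decide
    · exfalso
      have e : (⟨y * u, hXN (hWX _ (Or.inr (Or.inr (Or.inr (Or.inr (Or.inl rfl))))))⟩ :
          normalizer ((closure ({z, x} : Set G) : Subgroup G) : Set G)) =
          ⟨y, h.P_le_norm hy⟩ * ⟨u, h.Q_le_norm hu⟩ := rfl
      rw [e, map_mul, fu, fy] at fw
      revert fw; decide
    · exfalso
      have e : (⟨u * (y * u), hXN (hWX _ (Or.inr (Or.inr (Or.inr (Or.inr (Or.inr rfl))))))⟩ :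
          normalizer ((closure ({z, x} : Set G) : Subgroup G) : Set G)) =
          ⟨u, h.Q_le_norm hu⟩ * (⟨y, h.P_le_norm hy⟩ * ⟨u, h.Q_le_norm hu⟩) := rfl
      rw [e, map_mul, map_mul, fu, fy] at fw
      revert fw; decide
  rw [hw1, mul_one]; exact hr

theorem inf_cV (h : CPair Q P z x) :
    (Q ⊔ P) ⊓ centralizer ((closure ({z, x} : Set G) : Subgroup G) : Set G) = RR Q P z x := by
  apply le_antisymm h.inf_cV_le
  refine le_inf ?_ h.RR_le_cV
  exact sup_le (inf_le_left.trans le_sup_right) (inf_le_left.trans le_sup_left)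

theorem D_le_norm_A (h : CPair Q P z x) : P ⊓ centralizer ({z} : Set G) ≤
    normalizer ((Q ⊓ centralizer ({x} : Set G) : Subgroup G) : Set G) := by
  have key : ∀ d ∈ P ⊓ centralizer ({z} : Set G), ∀ a ∈ Q ⊓ centralizer ({x} : Set G),
      d * a * d⁻¹ ∈ Q ⊓ centralizer ({x} : Set G) := by
    intro d hd a ha
    rw [mem_A] at hd ha ⊢
    refine ⟨h.hQ.NQ d hd.2 a ha.1, ?_⟩
    have hdx := h.hP.zc d hd.1
    calc d * a * d⁻¹ * x = d * a * (x⁻¹ * d)⁻¹ := by group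
      _ = d * a * (d * x⁻¹)⁻¹ := by
          congr 2
          calc x⁻¹ * d = x⁻¹ * (d * x) * x⁻¹ := by group
            _ = d * x⁻¹ := by rw [hdx]; group
      _ = d * (a * x) * d⁻¹ := by group
      _ = (d * x) * a * d⁻¹ := by rw [ha.2]; group
      _ = _ := by rw [hdx]; group
  intro d hd
  rw [mem_normalizer_iff]
  intro a
  refine ⟨fun ha => key d hd a ha, fun ha => ?_⟩
  have := key d⁻¹ (inv_mem hd) _ ha
  have e : d⁻¹ * (d * a * d⁻¹) * d⁻¹⁻¹ = a := by group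
  rwa [e] at this

theorem RR_pgroup [Finite G] (h : CPair Q P z x) (hQ2 : IsPGroup 2 Q) (hP2 : IsPGroup 2 P) :
    IsPGroup 2 (RR Q P z x) := by
  haveI : Fact (Nat.Prime 2) := ⟨Nat.prime_two⟩
  have h1 := Cores.card_sup_dvd_of_le_normalizer _ _ h.D_le_norm_A
  have h2 : IsPGroup 2 ↥(P ⊓ centralizer ({z} : Set G)) := hP2.to_le inf_le_left
  have h3 : IsPGroup 2 ↥(Q ⊓ centralizer ({x} : Set G)) := hQ2.to_le inf_le_left
  obtain ⟨n, hn⟩ := IsPGroup.iff_card.mp h2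
  obtain ⟨m, hm⟩ := IsPGroup.iff_card.mp h3
  rw [hn, hm, ← pow_add] at h1
  obtain ⟨k, _, hk⟩ := (Nat.dvd_prime_pow Nat.prime_two).mp h1
  exact IsPGroup.of_card hk

theorem RR_le_X (Q P : Subgroup G) (z x : G) : RR Q P z x ≤ Q ⊔ P :=
  sup_le (inf_le_left.trans le_sup_right) (inf_le_left.trans le_sup_left)

theorem RR_normal (h : CPair Q P z x) : ((RR Q P z x).subgroupOf (Q ⊔ P)).Normal := by
  refine ⟨fun n hn g => ?_⟩
  rw [mem_subgroupOf] at hn ⊢
  exact h.RR_conj g.2 hn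

theorem s3_comm : ∀ σ : Equiv.Perm (Fin 3), σ ≠ 1 → ∃ τ : Equiv.Perm (Fin 3),
    σ * τ * σ⁻¹ * τ⁻¹ ≠ 1 ∧ (σ * τ * σ⁻¹ * τ⁻¹) ^ 3 = 1 := by decide +kernel

theorem exists_fX (h : CPair Q P z x) : ∃ f : ↥(Q ⊔ P) →* Equiv.Perm (Fin 3),
    Function.Surjective f ∧ f.ker = (RR Q P z x).subgroupOf (Q ⊔ P) := by
  obtain ⟨f, hf⟩ := exists_perm3 h.hQ.z1 h.hP.z1 h.ne (Q ⊔ P)
    (fun n hn v hv => h.norm_V ((sup_le h.Q_le_norm h.P_le_norm : Q ⊔ P ≤ _) hn) hv)
  refine ⟨f, h.surj_of hf le_sup_left le_sup_right, ?_⟩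
  ext n
  rw [MonoidHom.mem_ker, perm3_eq_one_iff h.hQ.z1 h.hP.z1 h.ne hf, mem_subgroupOf, ← h.inf_cV,
    mem_inf, h.mem_cV_iff]
  simp

theorem core_eq [Finite G] (h : CPair Q P z x) (hQ2 : IsPGroup 2 Q) (hP2 : IsPGroup 2 P) :
    RR Q P z x = (Cfsg.pCore 2 ↥(Q ⊔ P)).map (Q ⊔ P).subtype := by
  apply le_antisymm
  · intro r hr
    refine ⟨⟨r, RR_le_X Q P z x hr⟩, ?_, rfl⟩
    apply Cores.le_pCore h.RR_normal _ (show _ ∈ (RR Q P z x).subgroupOf (Q ⊔ P) from ?_)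
    · exact (h.RR_pgroup hQ2 hP2).comap_subtype
    · rw [mem_subgroupOf]; exact hr
  · rintro _ ⟨c, hc, rfl⟩
    obtain ⟨f, hfs, hfk⟩ := h.exists_fX
    have hcf : f c = 1 := by
      by_contra hne
      obtain ⟨τ, hτ, hτ3⟩ := s3_comm _ hne
      obtain ⟨t, rfl⟩ := hfs τ
      haveI : Fact (Nat.Prime 2) := ⟨Nat.prime_two⟩
      have hn : (Cfsg.pCore 2 ↥(Q ⊔ P)).Normal := inferInstance
      have he : c * t * c⁻¹ * t⁻¹ ∈ Cfsg.pCore 2 ↥(Q ⊔ P) := by
        have : c * t * c⁻¹ * t⁻¹ = c * (t * c⁻¹ * t⁻¹) := by group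
        rw [this]
        exact mul_mem hc (hn.conj_mem _ (inv_mem hc) t)
      obtain ⟨k, hk⟩ := (Cores.pCore_isPGroup (G := ↥(Q ⊔ P)) 2) ⟨_, he⟩
      have hk' : (c * t * c⁻¹ * t⁻¹) ^ 2 ^ k = 1 := by simpa using congrArg Subtype.val hk
      have h1 : (f c * f t * (f c)⁻¹ * (f t)⁻¹) ^ 2 ^ k = 1 := by
        rw [← map_inv, ← map_inv, ← map_mul, ← map_mul, ← map_mul, ← map_pow, hk', map_one]
      apply hτ
      have h2 : orderOf (f c * f t * (f c)⁻¹ * (f t)⁻¹) ∣ Nat.gcd 3 (2 ^ k) :=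
        Nat.dvd_gcd (orderOf_dvd_of_pow_eq_one hτ3) (orderOf_dvd_of_pow_eq_one h1)
      have h3 : Nat.gcd 3 (2 ^ k) = 1 := Nat.Coprime.pow_right k (by norm_num)
      rw [h3] at h2
      exact orderOf_eq_one_iff.mp (Nat.dvd_one.mp h2)
    have : c ∈ f.ker := hcf
    rw [hfk, mem_subgroupOf] at this
    exact this

theorem quot_equiv (h : CPair Q P z x) : ∃ hn : ((RR Q P z x).subgroupOf (Q ⊔ P)).Normal,
    Nonempty (↥(Q ⊔ P) ⧸ (RR Q P z x).subgroupOf (Q ⊔ P) ≃* Equiv.Perm (Fin 3)) := by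
  obtain ⟨f, hfs, hfk⟩ := h.exists_fX
  refine ⟨h.RR_normal, ?_⟩
  have := h.RR_normal
  exact ⟨(QuotientGroup.quotientMulEquivOfEq hfk.symm).trans
    (QuotientGroup.quotientKerEquivOfSurjective f hfs)⟩

theorem norm_eq (h : CPair Q P z x) :
    normalizer ((closure ({z, x} : Set G) : Subgroup G) : Set G) =
      (Q ⊔ P) ⊔ (centralizer ({z} : Set G) ⊓
        centralizer ((closure ({z, x} : Set G) : Subgroup G) : Set G)) := by
  apply le_antisymm
  · intro n hn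
    obtain ⟨f, hf⟩ := h.exists_f
    have hX : Q ⊔ P ≤ normalizer ((closure ({z, x} : Set G) : Subgroup G) : Set G) :=
      sup_le h.Q_le_norm h.P_le_norm
    obtain ⟨t, ht⟩ := h.surj_of (f := f.comp (inclusion hX)) (fun n i => hf _ i)
      le_sup_left le_sup_right (f ⟨n, hn⟩)
    have h1 : f ((inclusion hX t)⁻¹ * ⟨n, hn⟩) = 1 := by
      rw [map_mul, map_inv, ← ht]; simp
    rw [perm3_eq_one_iff h.hQ.z1 h.hP.z1 h.ne hf] at h1
    have h2 : ((t : G)⁻¹ * n) ∈ centralizer ((closure ({z, x} : Set G) : Subgroup G) : Set G) :=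
      h.mem_cV_iff.mpr h1
    have h3 : n = (t : G) * ((t : G)⁻¹ * n) := by group
    rw [h3]
    refine mul_mem (le_sup_left (α := Subgroup G) t.2) (le_sup_right (α := Subgroup G) ?_)
    rw [mem_inf, mem_centralizer_singleton_iff]
    exact ⟨h1.1, h2⟩
  · refine sup_le (sup_le h.Q_le_norm h.P_le_norm) (inf_le_right.trans ?_)
    intro c hc
    rw [mem_centralizer_iff] at hc
    rw [mem_normalizer_iff]
    intro v
    constructor
    · intro hv
      have := hc v hv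
      have e : c * v * c⁻¹ = v := by rw [← this]; group
      rwa [e]
    · intro hv
      have := hc _ hv
      have e : v = c * v * c⁻¹ := by
        have e2 : c * v * c⁻¹ * c = c * (c * v * c⁻¹) := this
        have e3 : c * v = c * (c * v * c⁻¹) := by rw [← e2]; group
        exact mul_left_cancel e3
      rwa [← e] at hv

theorem cV_conj_X (h : CPair Q P z x) {c : G}
    (hc : c ∈ centralizer ((closure ({z, x} : Set G) : Subgroup G) : Set G)) {s : G}
    (hs : s ∈ Q ⊔ P) : c * s * c⁻¹ ∈ Q ⊔ P := by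
  have hc' := h.mem_cV_iff.mp hc
  have hle : Q ⊔ P ≤ (Q ⊔ P).comap (MulAut.conj c).toMonoidHom := by
    refine sup_le ?_ ?_
    · intro q hq
      exact le_sup_left (α := Subgroup G) (h.hQ.NQ c hc'.1 q hq)
    · intro q hq
      exact le_sup_right (α := Subgroup G) (h.hP.NQ c hc'.2 q hq)
  exact hle hs

theorem X_normal (h : CPair Q P z x) {y : G}
    (hy : y ∈ normalizer ((closure ({z, x} : Set G) : Subgroup G) : Set G)) {s : G}
    (hs : s ∈ Q ⊔ P) : y * s * y⁻¹ ∈ Q ⊔ P := by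
  rw [h.norm_eq] at hy
  have hle : (Q ⊔ P) ⊔ (centralizer ({z} : Set G) ⊓
        centralizer ((closure ({z, x} : Set G) : Subgroup G) : Set G)) ≤
        normalizer ((Q ⊔ P : Subgroup G) : Set G) := by
    refine sup_le le_normalizer (inf_le_right.trans ?_)
    intro c hc
    rw [mem_normalizer_iff]
    intro s
    refine ⟨fun hs => h.cV_conj_X hc hs, fun hs => ?_⟩
    have := h.cV_conj_X (inv_mem hc) hs
    have e : c⁻¹ * (c * s * c⁻¹) * c⁻¹⁻¹ = s := by group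
    rwa [e] at this
  exact (mem_normalizer_iff.mp (hle hy) s).mp hs

/-! ### the structure of `R` -/

/-- `E = Q ∩ P`: elementwise facts. -/
theorem E_V (h : CPair Q P z x) {e : G} (he : e ∈ Q ⊓ P) : e * z = z * e ∧ e * x = x * e :=
  ⟨h.hQ.zc e he.1, h.hP.zc e he.2⟩

theorem E_eq (h : CPair Q P z x) : (P ⊓ centralizer ({z} : Set G)) ⊓
    (Q ⊓ centralizer ({x} : Set G)) = Q ⊓ P := by
  ext e
  simp only [mem_inf, mem_centralizer_singleton_iff]
  constructor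
  · rintro ⟨⟨h1, _⟩, h2, _⟩; exact ⟨h2, h1⟩
  · rintro ⟨h1, h2⟩
    exact ⟨⟨h2, h.hQ.zc e h1⟩, h1, h.hP.zc e h2⟩

theorem E_sq (h : CPair Q P z x) {e : G} (he : e ∈ Q ⊓ P) : e * e = 1 := by
  rcases h.hQ.sq e he.1 with h1 | h1
  · exact h1
  · rcases h.hP.sq e he.2 with h2 | h2
    · exact h2
    · exact absurd (h2.symm.trans h1) h.ne

theorem E_comm (h : CPair Q P z x) {e f : G} (he : e ∈ Q ⊓ P) (hf : f ∈ Q ⊓ P) :
    e * f = f * e := by
  rcases h.hQ.cm e he.1 f hf.1 with h1 | h1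
  · exact h1
  · rcases h.hP.cm e he.2 f hf.2 with h2 | h2
    · exact h2
    · exact absurd (mul_right_cancel (h2.symm.trans h1)) h.ne

theorem V_le_E (h : CPair Q P z x) : closure ({z, x} : Set G) ≤ Q ⊓ P := by
  rw [closure_le]
  rintro v (rfl | rfl)
  · exact ⟨h.hQ.zQ, h.zP⟩
  · exact ⟨h.xQ, h.hP.zQ⟩

theorem comm_XE (h : CPair Q P z x) {s : G} (hs : s ∈ Q ⊔ P) {e : G} (he : e ∈ Q ⊓ P) :
    s * e * s⁻¹ * e⁻¹ ∈ closure ({z, x} : Set G) := by
  let N : Subgroup G :=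
    { carrier := {g | g ∈ normalizer ((closure ({z, x} : Set G) : Subgroup G) : Set G) ∧
        ∀ e ∈ Q ⊓ P, g * e * g⁻¹ * e⁻¹ ∈ closure ({z, x} : Set G)}
      one_mem' := ⟨one_mem _, fun x _ => by simp⟩
      mul_mem' := by
        rintro a b ⟨ha, ha'⟩ ⟨hb, hb'⟩
        refine ⟨mul_mem ha hb, ?_⟩
        intro x hx
        have h1 : a * b * x * (a * b)⁻¹ * x⁻¹ =
            (a * (b * x * b⁻¹ * x⁻¹) * a⁻¹) * (a * x * a⁻¹ * x⁻¹) := by group
        rw [h1]
        exact mul_mem ((mem_normalizer_iff.mp ha _).mp (hb' x hx)) (ha' x hx)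
      inv_mem' := by
        rintro a ⟨ha, ha'⟩
        refine ⟨inv_mem ha, ?_⟩
        intro x hx
        have h1 : a⁻¹ * x * a⁻¹⁻¹ * x⁻¹ = a⁻¹ * (a * x * a⁻¹ * x⁻¹)⁻¹ * a⁻¹⁻¹ := by group
        rw [h1]
        exact (mem_normalizer_iff.mp (inv_mem ha) _).mp (inv_mem (ha' x hx)) }
  have hN : Q ⊔ P ≤ N := by
    refine sup_le ?_ ?_
    · intro q hq
      refine ⟨h.Q_le_norm hq, ?_⟩
      intro e he
      rcases h.hQ.cm q hq e he.1 with h1 | h1
      · rw [h1]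
        have : e * q * q⁻¹ * e⁻¹ = 1 := by group
        rw [this]; exact one_mem _
      · rw [h1]
        have : z * (e * q) * q⁻¹ * e⁻¹ = z := by group
        rw [this]; exact subset_closure (by simp)
    · intro q hq
      refine ⟨h.P_le_norm hq, ?_⟩
      intro e he
      rcases h.hP.cm q hq e he.2 with h1 | h1
      · rw [h1]
        have : e * q * q⁻¹ * e⁻¹ = 1 := by group
        rw [this]; exact one_mem _
      · rw [h1]
        have : x * (e * q) * q⁻¹ * e⁻¹ = x := by group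
        rw [this]; exact subset_closure (by simp)
  exact (hN hs).2 e he

/-- `E` is normal in `X`. -/
theorem E_conj (h : CPair Q P z x) {s : G} (hs : s ∈ Q ⊔ P) {e : G} (he : e ∈ Q ⊓ P) :
    s * e * s⁻¹ ∈ Q ⊓ P := by
  have e1 : s * e * s⁻¹ = (s * e * s⁻¹ * e⁻¹) * e := by group
  rw [e1]
  exact mul_mem (h.V_le_E (h.comm_XE hs he)) he

theorem comm_RR (h : CPair Q P z x) {r s : G} (hr : r ∈ RR Q P z x) (hs : s ∈ RR Q P z x) :
    r * s * r⁻¹ * s⁻¹ ∈ Q ⊓ P := by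
  -- generators commute modulo E
  have gen : ∀ a ∈ ((P ⊓ centralizer ({z} : Set G) : Subgroup G) : Set G) ∪
      ((Q ⊓ centralizer ({x} : Set G) : Subgroup G) : Set G),
      ∀ b ∈ ((P ⊓ centralizer ({z} : Set G) : Subgroup G) : Set G) ∪
      ((Q ⊓ centralizer ({x} : Set G) : Subgroup G) : Set G),
      a * b * a⁻¹ * b⁻¹ ∈ Q ⊓ P := by
    rintro a (ha | ha) b (hb | hb)
    · rw [SetLike.mem_coe, mem_A] at ha hb
      refine h.V_le_E ?_
      rw [h.mem_V_iff]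
      rcases h.hP.cm a ha.1 b hb.1 with h1 | h1
      · left; rw [h1]; group
      · right; right; left; rw [h1]; group
    · rw [SetLike.mem_coe, mem_A] at ha hb
      refine mem_inf.mpr ⟨mul_mem (h.hQ.NQ a ha.2 b hb.1) (inv_mem hb.1), ?_⟩
      have e : a * b * a⁻¹ * b⁻¹ = a * (b * a⁻¹ * b⁻¹) := by group
      rw [e]; exact mul_mem ha.1 (h.hP.NQ b hb.2 _ (inv_mem ha.1))
    · rw [SetLike.mem_coe, mem_A] at ha hb
      refine mem_inf.mpr ⟨?_, mul_mem (h.hP.NQ a ha.2 b hb.1) (inv_mem hb.1)⟩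
      have e : a * b * a⁻¹ * b⁻¹ = a * (b * a⁻¹ * b⁻¹) := by group
      rw [e]; exact mul_mem ha.1 (h.hQ.NQ b hb.2 _ (inv_mem ha.1))
    · rw [SetLike.mem_coe, mem_A] at ha hb
      refine h.V_le_E ?_
      rw [h.mem_V_iff]
      rcases h.hQ.cm a ha.1 b hb.1 with h1 | h1
      · left; rw [h1]; group
      · right; left; rw [h1]; group
  have hX := RR_le_X Q P z x
  have hcl : RR Q P z x = closure (((P ⊓ centralizer ({z} : Set G) : Subgroup G) : Set G) ∪
      ((Q ⊓ centralizer ({x} : Set G) : Subgroup G) : Set G)) := by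
    rw [Subgroup.closure_union, Subgroup.closure_eq, Subgroup.closure_eq]; rfl
  -- first fix generator b, induct on r
  have step1 : ∀ b ∈ ((P ⊓ centralizer ({z} : Set G) : Subgroup G) : Set G) ∪
      ((Q ⊓ centralizer ({x} : Set G) : Subgroup G) : Set G), ∀ r ∈ RR Q P z x,
      r * b * r⁻¹ * b⁻¹ ∈ Q ⊓ P := by
    intro b hb r hr
    rw [hcl] at hr
    induction hr using closure_induction with
    | mem a ha => exact gen a ha b hb
    | one => simp [one_mem]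
    | mul a c ha hc iha ihc =>
      have e : a * c * b * (a * c)⁻¹ * b⁻¹ = (a * (c * b * c⁻¹ * b⁻¹) * a⁻¹) *
        (a * b * a⁻¹ * b⁻¹) := by group
      rw [e]
      rw [← hcl] at ha
      exact mul_mem (h.E_conj (hX ha) ihc) iha
    | inv a ha iha =>
      have e : a⁻¹ * b * a⁻¹⁻¹ * b⁻¹ = a⁻¹ * (a * b * a⁻¹ * b⁻¹)⁻¹ * a⁻¹⁻¹ := by group
      rw [e]
      rw [← hcl] at ha
      exact h.E_conj (inv_mem (hX ha)) (inv_mem iha)
  have hs' := hs
  rw [hcl] at hs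
  induction hs using closure_induction with
  | mem b hb => exact step1 b hb r hr
  | one => simp [one_mem]
  | mul a c ha hc iha ihc =>
    rw [← hcl] at ha hc
    have e : r * (a * c) * r⁻¹ * (a * c)⁻¹ = (r * a * r⁻¹ * a⁻¹) *
      (a * (r * c * r⁻¹ * c⁻¹) * a⁻¹) := by group
    rw [e]
    exact mul_mem (iha ha) (h.E_conj (hX ha) (ihc hc))
  | inv a ha iha =>
    rw [← hcl] at ha
    have e : r * a⁻¹ * r⁻¹ * a⁻¹⁻¹ = a⁻¹ * (r * a * r⁻¹ * a⁻¹)⁻¹ * a⁻¹⁻¹ := by group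
    rw [e]
    exact h.E_conj (inv_mem (hX ha)) (inv_mem (iha ha))

theorem sq_RR (h : CPair Q P z x) {r : G} (hr : r ∈ RR Q P z x) : r * r ∈ Q ⊓ P := by
  have hX := RR_le_X Q P z x
  have hcl : RR Q P z x = closure (((P ⊓ centralizer ({z} : Set G) : Subgroup G) : Set G) ∪
      ((Q ⊓ centralizer ({x} : Set G) : Subgroup G) : Set G)) := by
    rw [Subgroup.closure_union, Subgroup.closure_eq, Subgroup.closure_eq]; rfl
  rw [hcl] at hr
  induction hr using closure_induction with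
  | mem a ha =>
    apply h.V_le_E
    rw [h.mem_V_iff]
    rcases ha with ha | ha
    · rw [SetLike.mem_coe, mem_A] at ha
      rcases h.hP.sq a ha.1 with h1 | h1
      · exact Or.inl h1
      · exact Or.inr (Or.inr (Or.inl h1))
    · rw [SetLike.mem_coe, mem_A] at ha
      rcases h.hQ.sq a ha.1 with h1 | h1
      · exact Or.inl h1
      · exact Or.inr (Or.inl h1)
  | one => simp [one_mem]
  | mul a c ha hc iha ihc =>
    rw [← hcl] at ha hc
    have e : a * c * (a * c) = (a * c * a⁻¹ * c⁻¹) * (c * (a * a) * c⁻¹) * (c * c) := by group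
    rw [e]
    exact mul_mem (mul_mem (h.comm_RR ha hc) (h.E_conj (hX hc) iha)) ihc
  | inv a ha iha =>
    have e : a⁻¹ * a⁻¹ = (a * a)⁻¹ := by group
    rw [e]; exact inv_mem iha

theorem center_RR (h : CPair Q P z x) {c : G} (hc : c ∈ RR Q P z x)
    (hcc : ∀ r ∈ RR Q P z x, r * c = c * r) : c ∈ closure ({z, x} : Set G) := by
  have hcV := h.mem_cV_iff.mp (h.RR_le_cV hc)
  have hcQ : c ∈ Q := by
    refine h.hQ.lemT hcV.1 h.xQ h.hP.zz h.hP.z1 h.ne ?_
    intro a ha hax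
    left
    exact (hcc a (A_le Q P z x (by rw [mem_A]; exact ⟨ha, hax⟩))).symm
  rw [h.mem_V_iff]
  apply h.hQ.dual h.xQ hcQ
  intro y hy hyx
  exact hcc y (A_le Q P z x (by rw [mem_A]; exact ⟨hy, hyx⟩))

end CPair

end CfsgLib.LargePair2H28
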