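import Mathlib
import Cfsg.Agent.LibLargePair2H28
import Cfsg.Agent.LibComp
import Cfsg.Agent.LibComp3
import Cfsg.Agent.LibSolvNilp

set_option autoImplicit false

/-! Involution centralizers with extraspecial generalized Fitting subgroup (helper28). -/

namespace CfsgLib.LargeGFH28

open Subgroup
open CfsgLib.LargeExtraH28 CfsgLib.LargePairH28 CfsgLib.LargePair2H28

variable {G : Type*} [Group G]

theorem zpowers_normal_centralizer (z : G) (hzC : z ∈ centralizer ({z} : Set G)) :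
    (zpowers (⟨z, hzC⟩ : centralizer ({z} : Set G))).Normal := by
  refine ⟨fun n hn g => ?_⟩
  obtain ⟨k, rfl⟩ := hn
  have h1 : g * (⟨z, hzC⟩ : centralizer ({z} : Set G)) ^ k * g⁻¹ =
      (⟨z, hzC⟩ : centralizer ({z} : Set G)) ^ k := by
    have h2 : Commute g (⟨z, hzC⟩ : centralizer ({z} : Set G)) :=
      Subtype.ext (mem_centralizer_singleton_iff.mp g.2)
    rw [(h2.zpow_right k).eq]; group
  show g * (⟨z, hzC⟩ : centralizer ({z} : Set G)) ^ k * g⁻¹ ∈ _
  rw [h1]; exact zpow_mem (Subgroup.mem_zpowers _) _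

theorem lset_of_gF [Finite G] {z : G} (hz : orderOf z = 2)
    (hQ : Cfsg.IsExtraspecial 2 ↥((Cfsg.generalizedFittingSubgroup
      ↥(centralizer ({z} : Set G))).map (centralizer ({z} : Set G)).subtype)) :
    LSet ((Cfsg.generalizedFittingSubgroup
      ↥(centralizer ({z} : Set G))).map (centralizer ({z} : Set G)).subtype) z := by
  set C := centralizer ({z} : Set G) with hC
  set F := Cfsg.generalizedFittingSubgroup ↥C with hF
  have hzC : z ∈ C := by rw [hC, mem_centralizer_singleton_iff]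
  have hzF : (⟨z, hzC⟩ : C) ∈ F := by
    have hn := zpowers_normal_centralizer z hzC
    have h1 : zpowers (⟨z, hzC⟩ : C) ≤ Cfsg.fittingSubgroup C :=
      Cores.le_fittingSubgroup hn (Comp3.nilpotent_of_comm (fun a b => by
        obtain ⟨i, hi⟩ := a.2
        obtain ⟨j, hj⟩ := b.2
        apply Subtype.ext
        show (a : C) * b = b * a
        rw [← hi, ← hj]
        exact ((Commute.refl (⟨z, hzC⟩ : C)).zpow_zpow i j).eq))
    exact Comp.fitting_le_gfitting (h1 (Subgroup.mem_zpowers _))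
  have hzQ : z ∈ F.map C.subtype := ⟨⟨z, hzC⟩, hzF, rfl⟩
  have hz1 : z ≠ 1 := by rintro rfl; simp at hz
  have hzc : ∀ q ∈ F.map C.subtype, q * z = z * q := by
    rintro _ ⟨q, _, rfl⟩
    exact mem_centralizer_singleton_iff.mp q.2
  refine { ESet.of_extraspecial hQ hzQ hz1 hzc with CQ := ?_, NQ := ?_ }
  · intro c hc
    have hcz := hc z hzQ
    have hcC : c ∈ C := mem_centralizer_singleton_iff.mpr hcz
    have h1 : (⟨c, hcC⟩ : C) ∈ centralizer (F : Set C) := by
      rw [mem_centralizer_iff]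
      intro q hq
      exact Subtype.ext (hc q ⟨q, hq, rfl⟩).symm
    exact ⟨⟨c, hcC⟩, Comp.centralizer_gfitting_le h1, rfl⟩
  · intro c hc q hq
    obtain ⟨q, hq, rfl⟩ := hq
    have hcC : c ∈ C := mem_centralizer_singleton_iff.mpr hc
    have hn : F.Normal := by
      rw [hF]
      exact normal_of_characteristic _
    exact ⟨⟨c, hcC⟩ * q * ⟨c, hcC⟩⁻¹, hn.conj_mem q hq _, rfl⟩

/-- version with `Q : Subgroup C(z)`. -/
theorem lset_of_gF' [Finite G] {z : G} (hz : orderOf z = 2)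
    {Q : Subgroup ↥(centralizer ({z} : Set G))}
    (hF : Cfsg.generalizedFittingSubgroup ↥(centralizer ({z} : Set G)) = Q)
    (hQ : Cfsg.IsExtraspecial 2 ↥Q) :
    LSet (Q.map (centralizer ({z} : Set G)).subtype) z := by
  haveI : Fact (Nat.Prime 2) := ⟨Nat.prime_two⟩
  subst hF
  apply lset_of_gF hz
  exact ExtraH28.isExtraspecial_congr
    ((Cfsg.generalizedFittingSubgroup ↥(centralizer ({z} : Set G))).equivMapOfInjective _
      (centralizer ({z} : Set G)).subtype_injective) hQ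

theorem extraspecial_map {z : G} {Q : Subgroup ↥(centralizer ({z} : Set G))} [Finite G]
    (hQ : Cfsg.IsExtraspecial 2 ↥Q) :
    Cfsg.IsExtraspecial 2 ↥(Q.map (centralizer ({z} : Set G)).subtype) := by
  haveI : Fact (Nat.Prime 2) := ⟨Nat.prime_two⟩
  exact ExtraH28.isExtraspecial_congr
    (Q.equivMapOfInjective _ (centralizer ({z} : Set G)).subtype_injective) hQ

/-- A Sylow argument: any nontrivial normal subgroup of even order contains `z`. -/
theorem z_mem_of_normal [Finite G] {Q : Subgroup G} {z : G} (h : LSet Q z) (hQ2 : IsPGroup 2 Q)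
    (N : Subgroup G) [N.Normal] (hN : ¬ Odd (Nat.card N)) : z ∈ N := by
  haveI : Fact (Nat.Prime 2) := ⟨Nat.prime_two⟩
  obtain ⟨T, hT⟩ := hQ2.exists_le_sylow
  -- Q acts on Sylow of N ... use the 2-group T acting on N ⊓ T
  have hnt : Nontrivial ↥(N ⊓ (T : Subgroup G)) := by
    have hdvd : 2 ∣ Nat.card N := by
      rw [Nat.not_odd_iff_even] at hN
      exact hN.two_dvd
    obtain ⟨⟨t, htN⟩, ht⟩ := exists_prime_orderOf_dvd_card' 2 hdvd
    have ht' : orderOf t = 2 := by rwa [Subgroup.orderOf_mk] at ht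
    have h1 : IsPGroup 2 (zpowers t) := by
      apply IsPGroup.of_card (n := 1)
      rw [Nat.card_zpowers, ht', pow_one]
    obtain ⟨S, hS⟩ := h1.exists_le_sylow
    obtain ⟨g, hg⟩ := MulAction.exists_smul_eq G S T
    have h2 : g * t * g⁻¹ ∈ (T : Subgroup G) := by
      rw [← hg]
      exact ⟨t, hS (Subgroup.mem_zpowers t), rfl⟩
    have h3 : g * t * g⁻¹ ∈ N := (inferInstance : N.Normal).conj_mem t htN g
    refine ⟨⟨⟨g * t * g⁻¹, h3, h2⟩, 1, ?_⟩⟩
    intro hc
    have hc' : g * t * g⁻¹ = 1 := congrArg Subtype.val hc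
    have : t = 1 := by
      calc t = g⁻¹ * (g * t * g⁻¹) * g := by group
        _ = 1 := by rw [hc']; group
    rw [this, orderOf_one] at ht'
    norm_num at ht'
  -- N ⊓ T normal in T, so meets Z(T)
  have hn : ((N ⊓ (T : Subgroup G)).subgroupOf T).Normal := by
    refine ⟨fun n hn g => ?_⟩
    rw [mem_subgroupOf] at hn ⊢
    refine mem_inf.mpr ⟨(inferInstance : N.Normal).conj_mem _ (mem_inf.mp hn).1 _, ?_⟩
    exact mul_mem (mul_mem g.2 n.2) (inv_mem g.2)
  haveI := hn
  have hTp : IsPGroup 2 T := T.isPGroup'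
  obtain ⟨a, b, hab⟩ := hnt
  have hnt2 : Nontrivial ↥((N ⊓ (T : Subgroup G)).subgroupOf T) := by
    refine ⟨⟨⟨⟨a, (mem_inf.mp a.2).2⟩, mem_subgroupOf.mpr a.2⟩,
      ⟨⟨b, (mem_inf.mp b.2).2⟩, mem_subgroupOf.mpr b.2⟩, ?_⟩⟩
    intro hc
    apply hab
    apply Subtype.ext
    exact congrArg (fun t : ↥((N ⊓ (T : Subgroup G)).subgroupOf T) => ((t : T) : G)) hc
  haveI := hTp.isNilpotent
  have h1 := SolvNilp.inf_center_ne_bot ((N ⊓ (T : Subgroup G)).subgroupOf T)
    ((Subgroup.nontrivial_iff_ne_bot _).mp hnt2)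
  obtain ⟨c, hc, hc1⟩ := (Subgroup.ne_bot_iff_exists_ne_one).mp h1 |>.elim (fun c hc => (⟨c.1, c.2,
    fun h => hc (Subtype.ext h)⟩ : ∃ c : T, c ∈ (N ⊓ (T : Subgroup G)).subgroupOf T ⊓ center T ∧ c ≠ 1))
  obtain ⟨hcN, hcZ⟩ := mem_inf.mp hc
  have hcz : (c : G) = z := by
    have hcc : ∀ q ∈ Q, (c : G) * q = q * c := by
      intro q hq
      exact (congrArg Subtype.val ((mem_center_iff.mp hcZ) ⟨q, hT hq⟩)).symm
    have hcQ := h.CQ c hcc
    by_contra hne
    have hc1' : (c : G) ≠ 1 := fun h2 => hc1 (Subtype.ext h2)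
    obtain ⟨e, he, hec⟩ := h.noncentral hcQ hc1' hne
    rw [← hcc e he] at hec
    exact h.z1 (mul_eq_right.mp hec.symm)
  rw [← hcz]
  exact (mem_inf.mp (mem_subgroupOf.mp hcN)).1

/-- Assemble `IsLargeExtraspecial`. -/
theorem large_of [Finite G] {Q : Subgroup G} {z : G} (h : LSet Q z) (hE : Cfsg.IsExtraspecial 2 Q)
    (hodd : ∀ K : Subgroup G, Odd (Nat.card K) → Q ≤ normalizer (K : Set G) → K = ⊥) :
    Cfsg.IsLargeExtraspecial Q := by
  have hc := center_map_eq hE h.zQ h.z1 h.zc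
  have hz : (center Q).map Q.subtype = zpowers z := by
    ext x
    rw [h.mem_zpowers]
    constructor
    · rintro ⟨y, hy, rfl⟩
      exact (hc y).mp hy
    · rintro (rfl | rfl)
      · exact one_mem _
      · exact ⟨⟨x, h.zQ⟩, (hc _).mpr (Or.inr rfl), rfl⟩
  refine ⟨hE, ?_, ?_, hodd⟩
  · rw [hz]
    ext c
    rw [mem_centralizer_iff, h.mem_zpowers]
    constructor
    · intro hcc
      have hcc' : ∀ q ∈ Q, c * q = q * c := fun q hq => (hcc q hq).symm
      have hcQ := h.CQ c hcc'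
      by_contra hne
      push Not at hne
      obtain ⟨e, he, hec⟩ := h.noncentral hcQ hne.1 hne.2
      rw [← hcc' e he] at hec
      exact h.z1 (mul_eq_right.mp hec.symm)
    · rintro (rfl | rfl)
      · intro q _; simp
      · intro q hq; exact h.zc q hq
  · rw [hz]
    have key : ∀ c : G, c * z = z * c → ∀ q, q ∈ Q ↔ c * q * c⁻¹ ∈ Q := by
      intro c hcz q
      refine ⟨fun hq => h.NQ c hcz q hq, fun hq => ?_⟩
      have := h.NQ' hcz hq
      have e : c⁻¹ * (c * q * c⁻¹) * c = q := by group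
      rwa [e] at this
    intro c hcc
    rw [mem_centralizer_iff] at hcc
    rw [mem_normalizer_iff]
    exact key c (hcc z (Subgroup.mem_zpowers z)).symm

theorem center_map_zpowers [Finite G] {Q : Subgroup G} {z : G} (h : LSet Q z)
    (hE : Cfsg.IsExtraspecial 2 Q) : (center Q).map Q.subtype = zpowers z := by
  have hc := center_map_eq hE h.zQ h.z1 h.zc
  ext x
  rw [h.mem_zpowers]
  constructor
  · rintro ⟨y, hy, rfl⟩
    exact (hc y).mp hy
  · rintro (rfl | rfl)
    · exact one_mem _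
    · exact ⟨⟨x, h.zQ⟩, (hc _).mpr (Or.inr rfl), rfl⟩

end CfsgLib.LargeGFH28
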