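import Mathlib
import Cfsg.Agent.LibLargeGFH28
import Cfsg.Agent.LibLargeExtra3H28
import Cfsg.Agent.LibCores

set_option autoImplicit false

/-! Large extraspecial subgroups in `C(A)A/A` for `A` of odd order (helper28). -/

namespace CfsgLib.LargeOddA28

open Subgroup
open CfsgLib.LargeExtraH28 CfsgLib.LargePairH28 CfsgLib.LargeGFH28 CfsgLib.LargeExtra3H28

variable {G : Type*} [Group G]

/-- `X` with a central involution `z` and `4 ∤ |X|` is `O(X)⟨z⟩`. -/
theorem split_two {X : Type*} [Group X] [Finite X] {z : X} (hz : orderOf z = 2)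
    (hzc : ∀ x : X, x * z = z * x) (h4 : ¬ 4 ∣ Nat.card X) (x : X) :
    x ∈ Cfsg.pPrimeCore 2 X ∨ z * x ∈ Cfsg.pPrimeCore 2 X := by
  have hzn : (zpowers z).Normal := by
    refine ⟨?_⟩
    rintro _ ⟨k, rfl⟩ g
    have h1 : Commute g z := hzc g
    have h2 : g * z ^ k * g⁻¹ = z ^ k := by rw [(h1.zpow_right k).eq]; group
    show g * z ^ k * g⁻¹ ∈ _
    rw [h2]; exact zpow_mem (Subgroup.mem_zpowers _) _
  have hc : Nat.card (zpowers z) = 2 := by rw [Nat.card_zpowers, hz]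
  have hidx : Odd (zpowers z).index := by
    rw [← Nat.not_even_iff_odd]
    intro he
    apply h4
    have := (zpowers z).card_mul_index
    rw [← this, hc]
    obtain ⟨k, hk⟩ := he
    exact ⟨k, by rw [hk]; ring⟩
  have hcop : (Nat.card (zpowers z)).Coprime (zpowers z).index := by
    rw [hc]; exact Nat.coprime_two_left.mpr hidx
  obtain ⟨H, hH⟩ := exists_right_complement'_of_coprime hcop
  have hHc : Nat.card H = (zpowers z).index := by
    have h1 := hH.card_mul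
    rw [← (zpowers z).card_mul_index] at h1
    exact Nat.eq_of_mul_eq_mul_left Nat.card_pos h1
  have hdec : ∀ y : X, y ∈ H ∨ z * y ∈ H := by
    intro y
    obtain ⟨⟨⟨a, ha⟩, ⟨b, hb⟩⟩, hab⟩ := hH.2 y
    change a * b = y at hab
    have hzz : z * z = 1 := by
      have := pow_orderOf_eq_one z
      rwa [hz, pow_two] at this
    obtain ⟨k, hk⟩ := ha
    change z ^ k = a at hk
    rw [← zpow_mod_orderOf, hz] at hk
    rcases Int.emod_two_eq_zero_or_one k with h2 | h2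
    · left
      change z ^ (k % (2 : ℤ)) = a at hk
      rw [h2, zpow_zero] at hk
      rw [← hab, ← hk, one_mul]; exact hb
    · right
      change z ^ (k % (2 : ℤ)) = a at hk
      rw [h2, zpow_one] at hk
      rw [← hab, ← hk, ← mul_assoc, hzz, one_mul]; exact hb
  have hHn : H.Normal := by
    refine ⟨fun h hh g => ?_⟩
    rcases hdec g with h1 | h1
    · exact mul_mem (mul_mem h1 hh) (inv_mem h1)
    · have h2 := mul_mem (mul_mem h1 hh) (inv_mem h1)
      have h3 : z * g * h * (z * g)⁻¹ = g * h * g⁻¹ := by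
        rw [← hzc g]
        calc g * z * h * (g * z)⁻¹ = g * (z * h) * z⁻¹ * g⁻¹ := by group
          _ = g * (h * z) * z⁻¹ * g⁻¹ := by rw [hzc h]
          _ = _ := by group
      rwa [h3] at h2
  have hle : H ≤ Cfsg.pPrimeCore 2 X := by
    apply Cores.le_pPrimeCore hHn
    rw [hHc]
    exact Nat.coprime_two_right.mpr hidx
  rcases hdec x with h1 | h1
  · exact Or.inl (hle h1)
  · exact Or.inr (hle h1)

/-- Noncentral elements of `C_Q(A)` are noncentral in `C_Q(A)`. -/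
theorem exists_sub [Finite G] {Q : Subgroup G} {z : G} (h : ESet Q z) (hQ2 : IsPGroup 2 Q)
    (hQe : (center Q).map Q.subtype = zpowers z)
    {A : Subgroup G} (hA : A ≤ normalizer (Q : Set G)) (hAodd : Odd (Nat.card ↥A))
    {x : G} (hx : x ∈ Q ⊓ centralizer (A : Set G)) (hx1 : x ≠ 1) (hxz : x ≠ z) :
    ∃ e ∈ Q ⊓ centralizer (A : Set G), e * x = z * (x * e) := by
  by_contra hcon
  push Not at hcon
  have hc : ∀ c ∈ Q ⊓ centralizer (A : Set G), x * c = c * x := by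
    intro c hc
    rcases h.cm c hc.1 x hx.1 with h1 | h1
    · exact h1.symm
    · exact absurd h1 (hcon c hc)
  by_cases hAQ : ∃ a ∈ A, ∃ q ∈ Q, a * q ≠ q * a
  · obtain ⟨h1, h2, _, _⟩ := odd_decomp h hQ2 hQe hA hAodd hAQ
    have hle : Q ≤ centralizer ({x} : Set G) := by
      rw [← h1]
      refine sup_le ?_ ?_
      · intro c hc'; rw [mem_centralizer_singleton_iff]; exact (hc c hc').symm
      · intro c hc'; rw [mem_centralizer_singleton_iff]; exact (h2 x hx c hc').symm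
    rcases eq_of_central h hx.1 (fun q hq => (mem_centralizer_singleton_iff.mp (hle hq)).symm)
      with h3 | h3
    · exact hx1 h3
    · exact hxz h3
  · push Not at hAQ
    rcases eq_of_central h hx.1 (fun q hq => hc q (mem_inf.mpr ⟨hq, by
      rw [mem_centralizer_iff]; intro a ha; exact hAQ a ha q hq⟩)) with h3 | h3
    · exact hx1 h3
    · exact hxz h3

structure Da (Q A : Subgroup G) (z g : G) : Prop where
  h : LSet Q z
  hE : Cfsg.IsExtraspecial 2 Q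
  Q2 : IsPGroup 2 Q
  Az : ∀ a ∈ A, a * z = z * a
  Aodd : Odd (Nat.card A)
  sQ : g * z * g⁻¹ ∈ Q
  sA : ∀ a ∈ A, a * (g * z * g⁻¹) = (g * z * g⁻¹) * a
  sz : g * z * g⁻¹ ≠ z
  X : ∀ x, (∀ a ∈ A, x * a = a * x) → (∀ r ∈ Q, (∀ a ∈ A, a * r = r * a) → x * r = r * x) →
    x ∈ A ∨ z * x ∈ A

namespace Da

variable {Q A : Subgroup G} {z g : G}

theorem mem_R {r : G} : r ∈ Q ⊓ centralizer (A : Set G) ↔ r ∈ Q ∧ ∀ a ∈ A, a * r = r * a := by
  rw [mem_inf, mem_centralizer_iff]; rfl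

theorem A_norm (d : Da Q A z g) : A ≤ normalizer (Q : Set G) := by
  intro a ha
  rw [mem_normalizer_iff]
  intro q
  refine ⟨fun hq => d.h.NQ a (d.Az a ha) q hq, fun hq => ?_⟩
  have := d.h.NQ' (d.Az a ha) hq
  have e : a⁻¹ * (a * q * a⁻¹) * a = q := by group
  rwa [e] at this

theorem A_norm' (d : Da Q A z g) :
    A ≤ normalizer ((Q.map (MulAut.conj g).toMonoidHom : Subgroup G) : Set G) := by
  have h' := d.h.conj g
  intro a ha
  rw [mem_normalizer_iff]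
  intro q
  refine ⟨fun hq => h'.NQ a (d.sA a ha) q hq, fun hq => ?_⟩
  have := h'.NQ' (d.sA a ha) hq
  have e : a⁻¹ * (a * q * a⁻¹) * a = q := by group
  rwa [e] at this

theorem exists_e [Finite G] (d : Da Q A z g) : ∃ e ∈ Q ⊓ centralizer (A : Set G),
    e * (g * z * g⁻¹) = z * ((g * z * g⁻¹) * e) :=
  exists_sub d.h.toESet d.Q2 (center_map_zpowers d.h d.hE) d.A_norm d.Aodd
    (mem_R.mpr ⟨d.sQ, d.sA⟩) (d.h.conj g).z1 d.sz

theorem zQ' (d : Da Q A z g) : z ∈ Q.map (MulAut.conj g).toMonoidHom := d.h.sym d.sQ d.sz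

theorem exists_f [Finite G] (d : Da Q A z g) :
    ∃ e ∈ Q.map (MulAut.conj g).toMonoidHom ⊓ centralizer (A : Set G),
    e * z = (g * z * g⁻¹) * (z * e) := by
  haveI : Fact (Nat.Prime 2) := ⟨Nat.prime_two⟩
  have hE' : Cfsg.IsExtraspecial 2 ↥(Q.map (MulAut.conj g).toMonoidHom) :=
    ExtraH28.isExtraspecial_congr
      (Q.equivMapOfInjective _ (MulAut.conj g).injective) d.hE
  exact exists_sub (d.h.conj g).toESet (d.Q2.map _) (center_map_zpowers (d.h.conj g) hE')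
    d.A_norm' d.Aodd (mem_R.mpr ⟨d.zQ', d.Az⟩) d.h.z1 d.sz.symm

theorem fuse [Finite G] (d : Da Q A z g) : ∃ x ∈ (Q ⊓ centralizer (A : Set G)) ⊔
    (Q.map (MulAut.conj g).toMonoidHom ⊓ centralizer (A : Set G)),
      x * (g * z * g⁻¹) * x⁻¹ = z := by
  obtain ⟨e, he, hes⟩ := d.exists_e
  obtain ⟨f, hf, hfz⟩ := d.exists_f
  have hsz := d.h.zc _ d.sQ
  refine ⟨f⁻¹ * e, mul_mem (inv_mem (mem_sup_right hf)) (mem_sup_left he), ?_⟩
  generalize g * z * g⁻¹ = s at *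
  calc f⁻¹ * e * s * (f⁻¹ * e)⁻¹ = f⁻¹ * (e * s) * e⁻¹ * f := by group
      _ = f⁻¹ * (z * s) * f := by rw [hes]; group
      _ = f⁻¹ * (s * z) * f := by rw [hsz]
      _ = f⁻¹ * ((s * (z * f)) * f⁻¹) * f := by group
      _ = z := by rw [← hfz]; group

theorem R_extra [Finite G] (d : Da Q A z g) :
    Cfsg.IsExtraspecial 2 ↥(Q ⊓ centralizer (A : Set G)) := by
  obtain ⟨e, he, hes⟩ := d.exists_e
  refine isExtraspecial_sub d.h.toESet d.Q2 inf_le_left ?_ ?_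
  · intro b hb hbc
    by_contra hne
    push Not at hne
    obtain ⟨e, he, heb⟩ := exists_sub d.h.toESet d.Q2 (center_map_zpowers d.h d.hE) d.A_norm d.Aodd
      hb hne.1 hne.2
    rw [← hbc e he] at heb
    exact d.h.z1 (mul_eq_right.mp heb.symm)
  · refine ⟨e, he, _, mem_R.mpr ⟨d.sQ, d.sA⟩, ?_⟩
    intro hc
    rw [hc] at hes
    exact d.h.z1 (mul_eq_right.mp hes.symm)

section

variable {W : Type*} [Group W] {M : Subgroup G} (π : M →* W)

theorem mem_R' (hRM : Q ⊓ centralizer (A : Set G) ≤ M) {w : W} :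
    w ∈ ((Q ⊓ centralizer (A : Set G)).subgroupOf M).map π ↔ ∃ r, ∃ hr : r ∈ M,
      r ∈ Q ∧ (∀ a ∈ A, a * r = r * a) ∧ π ⟨r, hr⟩ = w := by
  constructor
  · rintro ⟨⟨p, hp⟩, hp2, rfl⟩
    obtain ⟨h1, h2⟩ := mem_R.mp (mem_subgroupOf.mp hp2)
    exact ⟨p, hp, h1, h2, rfl⟩
  · rintro ⟨p, hp, hp2, hp3, rfl⟩
    exact ⟨⟨p, hp⟩, mem_subgroupOf.mpr (mem_R.mpr ⟨hp2, hp3⟩), rfl⟩

theorem eq_one_of [Finite G] (d : Da Q A z g) {r : G} (hr : r ∈ Q) (hrA : r ∈ A) : r = 1 :=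
  odd_pow4 d.Aodd hrA (pow4 d.h.toESet hr)

/-- `[c, r] ∈ A`, `c, r ∈ C(A)`, `r^4 = 1` implies `[c,r]=1`. -/
theorem comm_of [Finite G] (d : Da Q A z g) {c r : G} (hcA : ∀ a ∈ A, a * c = c * a)
    (hrA : ∀ a ∈ A, a * r = r * a) (hr : r ^ 4 = 1) (hcr : (r * c)⁻¹ * (c * r) ∈ A) :
    c * r = r * c := by
  obtain ⟨a, ha⟩ : ∃ a, a = (r * c)⁻¹ * (c * r) := ⟨_, rfl⟩
  rw [← ha] at hcr
  have h1 : c * r * c⁻¹ = r * a := by
    have h2 : c * r = r * c * a := by rw [ha]; group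
    rw [h2, mul_assoc r c a, ← hcA a hcr]; group
  have h4 : (c * r * c⁻¹) ^ 4 = 1 := by rw [conj_pow, hr]; group
  have h5 : (r * a) ^ 4 = r ^ 4 * a ^ 4 := by
    have : Commute r a := (hrA a hcr).symm
    exact this.mul_pow 4
  rw [h1, h5, hr, one_mul] at h4
  have h6 := odd_pow4 d.Aodd hcr h4
  rw [h6, mul_one] at h1
  calc c * r = (c * r * c⁻¹) * c := by group
    _ = r * c := by rw [h1]

theorem eq_iff (hk : ∀ c : M, π c = 1 ↔ (c : G) ∈ A) {a b : M} :
    π a = π b ↔ (b : G)⁻¹ * a ∈ A := by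
  have h1 : π a = π b ↔ π (b⁻¹ * a) = 1 := by
    rw [map_mul, map_inv, inv_mul_eq_one, eq_comm]
  rw [h1, hk]; rfl

theorem extra [Finite G] (d : Da Q A z g) (hRM : Q ⊓ centralizer (A : Set G) ≤ M)
    (hk : ∀ c : M, π c = 1 ↔ (c : G) ∈ A) :
    Cfsg.IsExtraspecial 2 ↥(((Q ⊓ centralizer (A : Set G)).subgroupOf M).map π) := by
  haveI : Fact (Nat.Prime 2) := ⟨Nat.prime_two⟩
  have h1 := d.R_extra
  have e1 := subgroupOfEquivOfLe hRM
  have e2 : ((Q ⊓ centralizer (A : Set G)).subgroupOf M) ≃*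
      (((Q ⊓ centralizer (A : Set G)).subgroupOf M).map π) := by
    refine MulEquiv.ofBijective (π.subgroupMap ((Q ⊓ centralizer (A : Set G)).subgroupOf M))
      ⟨?_, MonoidHom.subgroupMap_surjective _ _⟩
    rw [injective_iff_map_eq_one]
    rintro ⟨⟨r, hr⟩, hr2⟩ hr3
    have hr4 := (hk ⟨r, hr⟩).mp (congrArg Subtype.val hr3)
    obtain ⟨h1, h2⟩ := mem_R.mp (mem_subgroupOf.mp hr2)
    have := d.eq_one_of h1 hr4
    apply Subtype.ext
    apply Subtype.ext
    exact this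
  exact ExtraH28.isExtraspecial_congr (e1.symm.trans e2) h1

/-- every element of `W` comes from `C(A)` -/
theorem lift (hπ : Function.Surjective π) (hk : ∀ c : M, π c = 1 ↔ (c : G) ∈ A)
    (hM : M = centralizer (A : Set G) ⊔ A) (w : W) :
    ∃ c, ∃ hc : c ∈ M, (∀ a ∈ A, a * c = c * a) ∧ π ⟨c, hc⟩ = w := by
  subst hM
  obtain ⟨⟨m, hm⟩, rfl⟩ := hπ w
  have hn : A ≤ normalizer ((centralizer (A : Set G) : Subgroup G) : Set G) := by
    intro a ha
    have key : ∀ b ∈ A, ∀ c ∈ centralizer (A : Set G), b * c * b⁻¹ ∈ centralizer (A : Set G) := by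
      intro b hb c hc
      rw [mem_centralizer_iff] at hc ⊢
      have h1 : b * c * b⁻¹ = c := by rw [hc b hb]; group
      rw [h1]; exact hc
    rw [mem_normalizer_iff]
    intro c
    refine ⟨key a ha c, fun hc => ?_⟩
    have := key a⁻¹ (inv_mem ha) _ hc
    have e : a⁻¹ * (a * c * a⁻¹) * a⁻¹⁻¹ = c := by group
    rwa [e] at this
  have hm' := hm
  rw [← SetLike.mem_coe, Subgroup.coe_mul_of_right_le_normalizer_left _ _ hn] at hm'
  obtain ⟨c, hc, a, ha, hca⟩ := hm'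
  have hcM : c ∈ centralizer (A : Set G) ⊔ A := mem_sup_left hc
  refine ⟨c, hcM, mem_centralizer_iff.mp hc, ?_⟩
  rw [eq_iff π hk]
  show m⁻¹ * c ∈ A
  have : m⁻¹ * c = a⁻¹ := by
    rw [← hca]
    show (c * a)⁻¹ * c = a⁻¹
    group
  rw [this]; exact inv_mem ha

theorem zR (d : Da Q A z g) : z ∈ Q ⊓ centralizer (A : Set G) := mem_R.mpr ⟨d.h.zQ, d.Az⟩

theorem lset [Finite G] [Finite W] (d : Da Q A z g) (hRM : Q ⊓ centralizer (A : Set G) ≤ M)
    (hπ : Function.Surjective π)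
    (hk : ∀ c : M, π c = 1 ↔ (c : G) ∈ A)
    (hM : M = centralizer (A : Set G) ⊔ A) :
    LSet (((Q ⊓ centralizer (A : Set G)).subgroupOf M).map π) (π ⟨z, hRM d.zR⟩) := by
  have hz1 : π ⟨z, hRM d.zR⟩ ≠ 1 := by
    intro hc
    exact d.h.z1 (d.eq_one_of d.h.zQ ((hk _).mp hc))
  have hzc : ∀ q ∈ ((Q ⊓ centralizer (A : Set G)).subgroupOf M).map π,
      q * π ⟨z, hRM d.zR⟩ = π ⟨z, hRM d.zR⟩ * q := by
    intro q hq
    obtain ⟨p, hp, hpQ, _, rfl⟩ := (mem_R' π hRM).mp hq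
    rw [← map_mul, ← map_mul]
    congr 1
    exact Subtype.ext (d.h.zc p hpQ)
  refine { ESet.of_extraspecial (d.extra π hRM hk)
    ((mem_R' π hRM).mpr ⟨z, hRM d.zR, d.h.zQ, d.Az, rfl⟩) hz1 hzc with
    CQ := ?_, NQ := ?_ }
  · intro c hc
    obtain ⟨c, hcM, hcA, rfl⟩ := lift π hπ hk hM c
    have h1 : ∀ r ∈ Q, (∀ a ∈ A, a * r = r * a) → c * r = r * c := by
      intro r hr hrA
      have hrM := hRM (mem_R.mpr ⟨hr, hrA⟩)
      have h2 := hc (π ⟨r, hrM⟩) ((mem_R' π hRM).mpr ⟨r, hrM, hr, hrA, rfl⟩)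
      rw [← map_mul, ← map_mul, eq_iff π hk] at h2
      exact d.comm_of hcA hrA (pow4 d.h.toESet hr) h2
    rcases d.X c (fun a ha => (hcA a ha).symm) h1 with h2 | h2
    · rw [(hk ⟨c, hcM⟩).mpr h2]; exact one_mem _
    · refine (mem_R' π hRM).mpr ⟨z, hRM d.zR, d.h.zQ, d.Az, ?_⟩
      rw [eq_iff π hk]
      show c⁻¹ * z ∈ A
      have h3 := inv_mem h2
      rwa [mul_inv_rev, d.h.toESet.zinv] at h3
  · intro c hc q hq
    obtain ⟨c, hcM, hcA, rfl⟩ := lift π hπ hk hM c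
    obtain ⟨p, hp, hpQ, hpA, rfl⟩ := (mem_R' π hRM).mp hq
    rw [← map_mul, ← map_mul, eq_iff π hk] at hc
    have hcz : c * z = z * c := d.comm_of hcA d.Az (pow4 d.h.toESet d.h.zQ) hc
    refine (mem_R' π hRM).mpr ⟨c * p * c⁻¹, mul_mem (mul_mem hcM hp) (inv_mem hcM),
      d.h.NQ c hcz p hpQ, ?_, ?_⟩
    · intro a ha
      have h1 : a * c⁻¹ = c⁻¹ * a := by
        calc a * c⁻¹ = c⁻¹ * (c * a) * c⁻¹ := by group
          _ = c⁻¹ * (a * c) * c⁻¹ := by rw [hcA a ha]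
          _ = _ := by group
      calc a * (c * p * c⁻¹) = (a * c) * p * c⁻¹ := by group
        _ = c * (a * p) * c⁻¹ := by rw [hcA a ha]; group
        _ = c * p * (a * c⁻¹) := by rw [hpA a ha]; group
        _ = _ := by rw [h1]; group
    · rw [← map_mul, ← map_inv, ← map_mul]; rfl

theorem large [Finite G] [Finite W] (d : Da Q A z g) (hRM : Q ⊓ centralizer (A : Set G) ≤ M)
    (hπ : Function.Surjective π)
    (hk : ∀ c : M, π c = 1 ↔ (c : G) ∈ A)
    (hM : M = centralizer (A : Set G) ⊔ A) :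
    Cfsg.IsLargeExtraspecial (((Q ⊓ centralizer (A : Set G)).subgroupOf M).map π) := by
  have hL := d.lset π hRM hπ hk hM
  have hsR : g * z * g⁻¹ ∈ Q ⊓ centralizer (A : Set G) := mem_R.mpr ⟨d.sQ, d.sA⟩
  refine large_of hL (d.extra π hRM hk) ?_
  intro K hK hQK
  refine odd_eq_bot_of_core hL (b := π ⟨g * z * g⁻¹, hRM hsR⟩)
    ((mem_R' π hRM).mpr ⟨_, hRM hsR, d.sQ, d.sA, rfl⟩)
    ?_ ?_ ?_ ?_ hK hQK
  · intro hc
    exact (d.h.conj g).z1 (d.eq_one_of d.sQ ((hk _).mp hc))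
  · intro hc
    have h1 := (eq_iff π hk).mp hc
    change z⁻¹ * (g * z * g⁻¹) ∈ A at h1
    have h2 := d.eq_one_of (mul_mem (inv_mem d.h.zQ) d.sQ) h1
    rw [inv_mul_eq_one] at h2
    exact d.sz h2.symm
  · rw [← map_mul]
    refine (hk _).mpr ?_
    show (g * z * g⁻¹) * (g * z * g⁻¹) ∈ A
    rw [(d.h.conj g).zz]; exact one_mem _
  · intro k hks
    obtain ⟨k, hkM, hkA, rfl⟩ := lift π hπ hk hM k
    rw [← map_mul, ← map_mul, eq_iff π hk] at hks
    have hks' := d.comm_of hkA d.sA (pow4 d.h.toESet d.sQ) hks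
    have hP2 : IsPGroup 2 ↥(((Q.map (MulAut.conj g).toMonoidHom ⊓
        centralizer (A : Set G)).subgroupOf M).map π) := by
      have h1 : IsPGroup 2 ↥(Q.map (MulAut.conj g).toMonoidHom ⊓ centralizer (A : Set G)) :=
        (d.Q2.map _).to_le inf_le_left
      have h2 : IsPGroup 2 ↥((Q.map (MulAut.conj g).toMonoidHom ⊓
        centralizer (A : Set G)).subgroupOf M) := by
        have h3 : ((Q.map (MulAut.conj g).toMonoidHom ⊓
          centralizer (A : Set G)).subgroupOf M) ≃* ↥((Q.map (MulAut.conj g).toMonoidHom ⊓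
          centralizer (A : Set G)) ⊓ M) := by
          rw [← inf_subgroupOf_right]
          exact subgroupOfEquivOfLe inf_le_right
        exact (h1.to_le inf_le_left).of_equiv h3.symm
      exact h2.map π
    refine not_mem_odd_of_pgroup hP2 ?_
    have hzM := hRM d.zR
    refine ⟨⟨k * z * k⁻¹ * z⁻¹, mul_mem (mul_mem (mul_mem hkM hzM)
      (inv_mem hkM)) (inv_mem hzM)⟩, ?_, ?_⟩
    · refine mem_subgroupOf.mpr (mem_inf.mpr ⟨?_, ?_⟩)
      · exact mul_mem ((d.h.conj g).NQ k hks' z d.zQ') (inv_mem d.zQ')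
      · have h1 : k ∈ centralizer (A : Set G) := mem_centralizer_iff.mpr hkA
        have h2 : z ∈ centralizer (A : Set G) := mem_centralizer_iff.mpr d.Az
        exact mul_mem (mul_mem (mul_mem h1 h2) (inv_mem h1)) (inv_mem h2)
    · rw [← map_mul, ← map_inv, ← map_mul, ← map_inv, ← map_mul]
      rfl

end

end Da

end CfsgLib.LargeOddA28
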