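import Mathlib
import Cfsg.Agent.LibLargeGFH28

set_option autoImplicit false

/-! Large extraspecial subgroups in `C(t)/⟨t⟩` (helper28). -/

namespace CfsgLib.LargeQuot28

open Subgroup
open CfsgLib.LargeExtraH28 CfsgLib.LargePairH28 CfsgLib.LargeGFH28

variable {G : Type*} [Group G]

structure Dt (Q Q' : Subgroup G) (z s t : G) : Prop where
  h : LSet Q z
  h' : LSet Q' s
  sQ : s ∈ Q
  zQ' : z ∈ Q'
  tQ : t ∈ Q
  tQ' : t ∈ Q'
  tt : t * t = 1
  t1 : t ≠ 1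
  Q2 : IsPGroup 2 Q
  Q2' : IsPGroup 2 Q'
  sz : s ≠ z
  cj : IsConj z s
  nc : ¬ IsConj z t

variable {Q Q' : Subgroup G} {z s t : G}

namespace Dt

theorem tz (d : Dt Q Q' z s t) : t ≠ z := fun e => d.nc (e ▸ IsConj.refl _)
theorem ts (d : Dt Q Q' z s t) : t ≠ s := fun e => d.nc (e ▸ d.cj)

theorem symm (d : Dt Q Q' z s t) : Dt Q' Q s z t where
  h := d.h'
  h' := d.h
  sQ := d.zQ'
  zQ' := d.sQ
  tQ := d.tQ'
  tQ' := d.tQ
  tt := d.tt
  t1 := d.t1
  Q2 := d.Q2'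
  Q2' := d.Q2
  sz := d.sz.symm
  cj := d.cj.symm
  nc := fun e => d.nc (d.cj.trans e)

theorem zt_nc (d : Dt Q Q' z s t) : ¬ IsConj z (z * t) := by
  obtain ⟨e, he, h1⟩ := d.h.noncentral d.tQ d.t1 d.tz
  intro hc
  apply d.nc
  apply hc.trans
  apply IsConj.symm
  rw [isConj_iff]
  exact ⟨e, by rw [h1]; group⟩

theorem st_nc (d : Dt Q Q' z s t) : ¬ IsConj z (s * t) := fun e =>
  d.symm.zt_nc (d.cj.symm.trans e)

theorem szt (d : Dt Q Q' z s t) : s ≠ z * t := fun e => d.zt_nc (e ▸ d.cj)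

/-- centralizer of `t` fixing `z` modulo `t` fixes `z`. -/
theorem fix (d : Dt Q Q' z s t) {c : G} (hc : c * z * c⁻¹ = z ∨ c * z * c⁻¹ = z * t) :
    c * z = z * c := by
  rcases hc with h1 | h1
  · nth_rw 2 [← h1]; group
  · exfalso
    apply d.zt_nc
    rw [isConj_iff]
    exact ⟨c, h1⟩

theorem exists_e (d : Dt Q Q' z s t) : ∃ e ∈ Q, e * t = t * e ∧ e * s = z * (s * e) := by
  by_contra hcon
  push Not at hcon
  have := d.h.dual d.tQ d.sQ (by
    intro y hy hyt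
    rcases d.h.cm y hy s d.sQ with h1 | h1
    · exact h1
    · exact absurd h1 (hcon y hy hyt))
  rcases this with h1 | h1 | h1 | h1
  · exact d.h'.z1 h1
  · exact d.sz h1
  · exact d.ts h1.symm
  · exact d.szt h1

section
variable {W : Type*} [Group W] (π : centralizer ({t} : Set G) →* W)

theorem mem_P' {w : W} : w ∈ ((Q ⊓ centralizer ({t} : Set G)).subgroupOf
    (centralizer ({t} : Set G))).map π ↔ ∃ p, ∃ hp : p ∈ centralizer ({t} : Set G), p ∈ Q ∧
      π ⟨p, hp⟩ = w := by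
  constructor
  · rintro ⟨⟨p, hp⟩, hp2, rfl⟩
    exact ⟨p, hp, (mem_inf.mp (mem_subgroupOf.mp hp2)).1, rfl⟩
  · rintro ⟨p, hp, hp2, rfl⟩
    exact ⟨⟨p, hp⟩, mem_subgroupOf.mpr (mem_inf.mpr ⟨hp2, hp⟩), rfl⟩

theorem eq_iff (hk : ∀ c : centralizer ({t} : Set G), π c = 1 ↔ (c : G) = 1 ∨ (c : G) = t)
    {a b : centralizer ({t} : Set G)} :
    π a = π b ↔ (a : G) = b ∨ (a : G) = b * t := by
  have h1 : π a = π b ↔ π (b⁻¹ * a) = 1 := by
    rw [map_mul, map_inv, inv_mul_eq_one, eq_comm]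
  rw [h1, hk]
  show (b : G)⁻¹ * a = 1 ∨ (b : G)⁻¹ * a = t ↔ _
  rw [inv_mul_eq_one, inv_mul_eq_iff_eq_mul, eq_comm (a := (b : G))]

theorem zC (d : Dt Q Q' z s t) : z ∈ centralizer ({t} : Set G) :=
  mem_centralizer_singleton_iff.mpr (d.h.zc t d.tQ).symm

theorem extra [Finite W] (d : Dt Q Q' z s t)
    (hk : ∀ c : centralizer ({t} : Set G), π c = 1 ↔ (c : G) = 1 ∨ (c : G) = t) :
    Cfsg.IsExtraspecial 2 ↥(((Q ⊓ centralizer ({t} : Set G)).subgroupOf
      (centralizer ({t} : Set G))).map π) := by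
  haveI : Fact (Nat.Prime 2) := ⟨Nat.prime_two⟩
  set P' := ((Q ⊓ centralizer ({t} : Set G)).subgroupOf
      (centralizer ({t} : Set G))).map π with hP'
  have hzC := d.zC
  have hzP : π ⟨z, hzC⟩ ∈ P' := (mem_P' π).mpr ⟨z, hzC, d.h.zQ, rfl⟩
  have hz1 : π ⟨z, hzC⟩ ≠ 1 := by
    intro hc
    rcases (hk _).mp hc with h1 | h1
    · exact d.h.z1 h1
    · exact d.tz h1.symm
  have hzc : (⟨π ⟨z, hzC⟩, hzP⟩ : P') ∈ center P' := by
    rw [mem_center_iff]
    rintro ⟨w, hw⟩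
    obtain ⟨p, hp, hpQ, rfl⟩ := (mem_P' π).mp hw
    apply Subtype.ext
    show π _ * π _ = π _ * π _
    rw [← map_mul, ← map_mul]
    congr 1
    exact Subtype.ext (d.h.zc p hpQ)
  have hcent : ∀ x : P', x ∈ center P' ↔ (x : W) = 1 ∨ (x : W) = π ⟨z, hzC⟩ := by
    rintro ⟨w, hw⟩
    constructor
    · intro hx
      obtain ⟨p, hp, hpQ, rfl⟩ := (mem_P' π).mp hw
      have key : ∀ y ∈ Q, y * t = t * y → y * p = p * y := by
        intro y hy hyt
        have hyC : y ∈ centralizer ({t} : Set G) := mem_centralizer_singleton_iff.mpr hyt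
        have h1 := congrArg Subtype.val ((mem_center_iff.mp hx)
          ⟨π ⟨y, hyC⟩, (mem_P' π).mpr ⟨y, hyC, hy, rfl⟩⟩)
        have h2 : π (⟨y, hyC⟩ * ⟨p, hp⟩) = π (⟨p, hp⟩ * ⟨y, hyC⟩) := by
          rw [map_mul, map_mul]; exact h1
        rw [eq_iff π hk] at h2
        rcases h2 with h2 | h2
        · exact h2
        · change y * p = p * y * t at h2
          rcases d.h.cm y hy p hpQ with h3 | h3
          · exact h3
          · exfalso
            apply d.tz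
            rw [h3, ← d.h.zc (p * y) (mul_mem hpQ hy)] at h2
            exact (mul_left_cancel h2).symm
      rcases d.h.dual d.tQ hpQ key with h1 | h1 | h1 | h1
      · left; exact (hk _).mpr (Or.inl h1)
      · right; exact (eq_iff π hk).mpr (Or.inl h1)
      · left; exact (hk _).mpr (Or.inr h1)
      · right; exact (eq_iff π hk).mpr (Or.inr h1)
    · rintro (h1 | h1)
      · have : (⟨w, hw⟩ : P') = 1 := Subtype.ext h1
        rw [this]; exact one_mem _
      · have : (⟨w, hw⟩ : P') = ⟨π ⟨z, hzC⟩, hzP⟩ := Subtype.ext h1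
        rw [this]; exact hzc
  refine ExtraH28.isExtraspecial_of ?_ ?_ ?_ ?_ ?_
  · have h1 : IsPGroup 2 ↥(Q ⊓ centralizer ({t} : Set G)) := d.Q2.to_le inf_le_left
    have h2 : IsPGroup 2 ↥((Q ⊓ centralizer ({t} : Set G)).subgroupOf
      (centralizer ({t} : Set G))) :=
      h1.of_equiv (subgroupOfEquivOfLe inf_le_right).symm
    exact h2.map π
  · rw [Nat.card_eq_two_iff' (1 : center P')]
    refine ⟨⟨⟨π ⟨z, hzC⟩, hzP⟩, hzc⟩, ?_, ?_⟩
    · intro hc
      exact hz1 (congrArg (fun t : center P' => ((t : P') : W)) hc)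
    · rintro ⟨y, hy⟩ hy1
      rcases (hcent y).mp hy with h1 | h1
      · exact absurd (Subtype.ext (Subtype.ext h1)) hy1
      · exact Subtype.ext (Subtype.ext h1)
  · rintro ⟨w, hw⟩
    rw [hcent]
    obtain ⟨p, hp, hpQ, rfl⟩ := (mem_P' π).mp hw
    show (π ⟨p, hp⟩) ^ 2 = 1 ∨ (π ⟨p, hp⟩) ^ 2 = π ⟨z, hzC⟩
    rw [pow_two, ← map_mul]
    rcases d.h.sq p hpQ with h1 | h1
    · left; exact (hk _).mpr (Or.inl h1)
    · right; exact (eq_iff π hk).mpr (Or.inl h1)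
  · rintro ⟨w, hw⟩ ⟨w', hw'⟩
    rw [hcent]
    obtain ⟨p, hp, hpQ, rfl⟩ := (mem_P' π).mp hw
    obtain ⟨r, hr, hrQ, rfl⟩ := (mem_P' π).mp hw'
    show (π ⟨p, hp⟩) * (π ⟨r, hr⟩) * (π ⟨p, hp⟩)⁻¹ * (π ⟨r, hr⟩)⁻¹ = 1 ∨
      (π ⟨p, hp⟩) * (π ⟨r, hr⟩) * (π ⟨p, hp⟩)⁻¹ * (π ⟨r, hr⟩)⁻¹ = π ⟨z, hzC⟩
    rw [← map_mul, ← map_inv, ← map_inv, ← map_mul, ← map_mul]
    rcases d.h.cm p hpQ r hrQ with h1 | h1
    · left
      refine (hk _).mpr (Or.inl ?_)
      show p * r * p⁻¹ * r⁻¹ = 1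
      rw [h1]; group
    · right
      refine (eq_iff π hk).mpr (Or.inl ?_)
      show p * r * p⁻¹ * r⁻¹ = z
      rw [h1]; group
  · obtain ⟨e, he, het, hes⟩ := d.exists_e
    have heC : e ∈ centralizer ({t} : Set G) := mem_centralizer_singleton_iff.mpr het
    have hsC : s ∈ centralizer ({t} : Set G) :=
      mem_centralizer_singleton_iff.mpr (d.h'.zc t d.tQ').symm
    refine ⟨⟨π ⟨e, heC⟩, (mem_P' π).mpr ⟨e, heC, he, rfl⟩⟩,
      ⟨π ⟨s, hsC⟩, (mem_P' π).mpr ⟨s, hsC, d.sQ, rfl⟩⟩, ?_⟩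
    intro hc
    have h1 := congrArg Subtype.val hc
    change π ⟨e, heC⟩ * π ⟨s, hsC⟩ = π ⟨s, hsC⟩ * π ⟨e, heC⟩ at h1
    rw [← map_mul, ← map_mul, eq_iff π hk] at h1
    change e * s = s * e ∨ e * s = s * e * t at h1
    rw [hes] at h1
    rcases h1 with h1 | h1
    · exact d.h.z1 (mul_eq_right.mp h1)
    · rw [← d.h.zc (s * e) (mul_mem d.sQ he)] at h1
      exact d.tz (mul_left_cancel h1).symm

theorem lset [Finite W] (d : Dt Q Q' z s t) (hπ : Function.Surjective π)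
    (hk : ∀ c : centralizer ({t} : Set G), π c = 1 ↔ (c : G) = 1 ∨ (c : G) = t)
    (hCP : ∀ c : G, c * z = z * c → c * t = t * c →
      (∀ x ∈ Q, x * t = t * x → ∃ y : G, (y = 1 ∨ y = t) ∧ c * x * c⁻¹ = x * y) → c ∈ Q) :
    LSet (((Q ⊓ centralizer ({t} : Set G)).subgroupOf
      (centralizer ({t} : Set G))).map π) (π ⟨z, d.zC⟩) := by
  have hzC := d.zC
  have hz1 : π ⟨z, hzC⟩ ≠ 1 := by
    intro hc
    rcases (hk _).mp hc with h1 | h1
    · exact d.h.z1 h1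
    · exact d.tz h1.symm
  have hzc : ∀ q ∈ ((Q ⊓ centralizer ({t} : Set G)).subgroupOf
      (centralizer ({t} : Set G))).map π, q * π ⟨z, hzC⟩ = π ⟨z, hzC⟩ * q := by
    intro q hq
    obtain ⟨p, hp, hpQ, rfl⟩ := (mem_P' π).mp hq
    rw [← map_mul, ← map_mul]
    congr 1
    exact Subtype.ext (d.h.zc p hpQ)
  refine { ESet.of_extraspecial (d.extra π hk) ((mem_P' π).mpr ⟨z, hzC, d.h.zQ, rfl⟩) hz1 hzc with
    CQ := ?_, NQ := ?_ }
  · intro c hc
    obtain ⟨c, rfl⟩ := hπ c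
    have hct : (c : G) * t = t * c := mem_centralizer_singleton_iff.mp c.2
    have h1 : ∀ p ∈ Q, ∀ hp : p ∈ centralizer ({t} : Set G), (c : G) * p = p * c ∨
        (c : G) * p = p * c * t := by
      intro p hpQ hp
      have h2 := hc (π ⟨p, hp⟩) ((mem_P' π).mpr ⟨p, hp, hpQ, rfl⟩)
      rw [← map_mul, ← map_mul, eq_iff π hk] at h2
      exact h2
    have hcz : (c : G) * z = z * c := by
      apply d.fix
      rcases h1 z d.h.zQ hzC with h2 | h2
      · left; rw [h2]; group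
      · right
        rw [h2]
        calc z * c * t * (c : G)⁻¹ = z * (c * t) * (c : G)⁻¹ := by group
          _ = z * (t * c) * (c : G)⁻¹ := by rw [hct]
          _ = _ := by group
    refine (mem_P' π).mpr ⟨c, c.2, hCP c hcz hct ?_, rfl⟩
    intro x hx hxt
    rcases h1 x hx (mem_centralizer_singleton_iff.mpr hxt) with h2 | h2
    · exact ⟨1, Or.inl rfl, by rw [h2]; group⟩
    · refine ⟨t, Or.inr rfl, ?_⟩
      rw [h2]
      calc x * c * t * (c : G)⁻¹ = x * (c * t) * (c : G)⁻¹ := by group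
        _ = x * (t * c) * (c : G)⁻¹ := by rw [hct]
        _ = _ := by group
  · intro c hc q hq
    obtain ⟨c, rfl⟩ := hπ c
    obtain ⟨p, hp, hpQ, rfl⟩ := (mem_P' π).mp hq
    have hct : (c : G) * t = t * c := mem_centralizer_singleton_iff.mp c.2
    rw [← map_mul, ← map_mul, eq_iff π hk] at hc
    have hcz : (c : G) * z = z * c := by
      apply d.fix
      change (c : G) * z = z * c ∨ (c : G) * z = z * c * t at hc
      rcases hc with h2 | h2
      · left; rw [h2]; group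
      · right
        rw [h2]
        calc z * c * t * (c : G)⁻¹ = z * (c * t) * (c : G)⁻¹ := by group
          _ = z * (t * c) * (c : G)⁻¹ := by rw [hct]
          _ = _ := by group
    refine (mem_P' π).mpr ⟨c * p * (c : G)⁻¹, mul_mem (mul_mem c.2 hp) (inv_mem c.2),
      d.h.NQ c hcz p hpQ, ?_⟩
    rw [← map_mul, ← map_inv, ← map_mul]
    rfl

theorem large [Finite W] (d : Dt Q Q' z s t) (hπ : Function.Surjective π)
    (hk : ∀ c : centralizer ({t} : Set G), π c = 1 ↔ (c : G) = 1 ∨ (c : G) = t)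
    (hCP : ∀ c : G, c * z = z * c → c * t = t * c →
      (∀ x ∈ Q, x * t = t * x → ∃ y : G, (y = 1 ∨ y = t) ∧ c * x * c⁻¹ = x * y) → c ∈ Q) :
    Cfsg.IsLargeExtraspecial (((Q ⊓ centralizer ({t} : Set G)).subgroupOf
      (centralizer ({t} : Set G))).map π) := by
  have hL := d.lset π hπ hk hCP
  have hsC : s ∈ centralizer ({t} : Set G) :=
    mem_centralizer_singleton_iff.mpr (d.h'.zc t d.tQ').symm
  have hzC := d.zC
  refine large_of hL (d.extra π hk) ?_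
  intro K hK hQK
  refine odd_eq_bot_of_core hL (b := π ⟨s, hsC⟩) ((mem_P' π).mpr ⟨s, hsC, d.sQ, rfl⟩)
    ?_ ?_ ?_ ?_ hK hQK
  · intro hc
    rcases (hk _).mp hc with h1 | h1
    · exact d.h'.z1 h1
    · exact d.ts h1.symm
  · intro hc
    rcases (eq_iff π hk).mp hc with h1 | h1
    · exact d.sz h1
    · exact d.szt h1
  · rw [← map_mul]
    exact (hk _).mpr (Or.inl d.h'.zz)
  · intro k hks
    obtain ⟨k, rfl⟩ := hπ k
    have hct : (k : G) * t = t * k := mem_centralizer_singleton_iff.mp k.2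
    rw [← map_mul, ← map_mul, eq_iff π hk] at hks
    change (k : G) * s = s * k ∨ (k : G) * s = s * k * t at hks
    have hks' : (k : G) * s = s * k := by
      apply d.symm.fix
      rcases hks with h2 | h2
      · left; rw [h2]; group
      · right
        rw [h2]
        calc s * k * t * (k : G)⁻¹ = s * (k * t) * (k : G)⁻¹ := by group
          _ = s * (t * k) * (k : G)⁻¹ := by rw [hct]
          _ = _ := by group
    have hP2 : IsPGroup 2 ↥(((Q' ⊓ centralizer ({t} : Set G)).subgroupOf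
        (centralizer ({t} : Set G))).map π) := by
      have h1 : IsPGroup 2 ↥(Q' ⊓ centralizer ({t} : Set G)) := d.Q2'.to_le inf_le_left
      have h2 : IsPGroup 2 ↥((Q' ⊓ centralizer ({t} : Set G)).subgroupOf
        (centralizer ({t} : Set G))) :=
        h1.of_equiv (subgroupOfEquivOfLe inf_le_right).symm
      exact h2.map π
    refine not_mem_odd_of_pgroup hP2 ?_
    refine (mem_P' π).mpr ⟨k * z * (k : G)⁻¹ * z⁻¹, mul_mem (mul_mem (mul_mem k.2 hzC)
      (inv_mem k.2)) (inv_mem hzC), mul_mem (d.h'.NQ k hks' z d.zQ') (inv_mem d.zQ'), ?_⟩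
    rw [← map_mul, ← map_inv, ← map_mul, ← map_inv, ← map_mul]
    rfl

end

theorem fuse (d : Dt Q Q' z s t) :
    ∃ x ∈ (Q ⊓ centralizer ({t} : Set G)) ⊔ (Q' ⊓ centralizer ({t} : Set G)),
      x * s * x⁻¹ = z := by
  obtain ⟨e, he, het, hes⟩ := d.exists_e
  obtain ⟨f, hf, hft, hfz⟩ := d.symm.exists_e
  refine ⟨f⁻¹ * e, mul_mem (inv_mem ?_) ?_, ?_⟩
  · exact mem_sup_right (mem_inf.mpr ⟨hf, mem_centralizer_singleton_iff.mpr hft⟩)
  · exact mem_sup_left (mem_inf.mpr ⟨he, mem_centralizer_singleton_iff.mpr het⟩)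
  · calc f⁻¹ * e * s * (f⁻¹ * e)⁻¹ = f⁻¹ * (e * s) * e⁻¹ * f := by group
      _ = f⁻¹ * (z * s) * f := by rw [hes]; group
      _ = f⁻¹ * (s * z) * f := by rw [d.h.zc s d.sQ]
      _ = f⁻¹ * ((s * (z * f)) * f⁻¹) * f := by group
      _ = z := by rw [← hfz]; group

end Dt

end CfsgLib.LargeQuot28
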