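import Mathlib
import Cfsg.Agent.LibLargeGFH28
import Cfsg.Agent.LibComp
import Cfsg.Agent.LibComp3
import Cfsg.Agent.LibPQ

set_option autoImplicit false

/-! Structure of groups with a large extraspecial 2-subgroup (helper28). -/

namespace CfsgLib.LargeStr28

open Subgroup
open CfsgLib.LargeExtraH28 CfsgLib.LargePairH28 CfsgLib.LargeGFH28

variable {G : Type*} [Group G]

structure LG (Q : Subgroup G) (z : G) (M : Subgroup G) : Prop where
  h : LSet Q z
  Q2 : IsPGroup 2 Q
  Mn : M.Normal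
  zM : z ∈ M
  min : ∀ N : Subgroup G, N.Normal → N ≠ ⊥ → M ≤ N
  odd : ∀ K : Subgroup G, Odd (Nat.card K) → Q ≤ normalizer (K : Set G) → K = ⊥

namespace LG

variable {Q : Subgroup G} {z : G} {M : Subgroup G}

theorem of_large [Finite G] (h : LSet Q z) (Q2 : IsPGroup 2 Q)
    (hodd : ∀ K : Subgroup G, Odd (Nat.card K) → Q ≤ normalizer (K : Set G) → K = ⊥) :
    LG Q z (normalClosure ({z} : Set G)) where
  h := h
  Q2 := Q2
  Mn := normalClosure_normal
  zM := subset_normalClosure (by simp)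
  odd := hodd
  min := by
    intro N hN hne
    haveI := hN
    have : z ∈ N := by
      apply z_mem_of_normal h Q2
      intro ho
      apply hne
      apply hodd N ho
      rw [normalizer_eq_top]; exact le_top
    exact normalClosure_le_normal (by simpa using this)

/-- no component centralizes `z`. -/
theorem no_comp [Finite G] (d : LG Q z M) {K : Subgroup G} (hK : Cfsg.IsComponent K)
    (hKz : ∀ k ∈ K, k * z = z * k) : False := by
  haveI : Fact (Nat.Prime 2) := ⟨Nat.prime_two⟩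
  have hQs : Group.IsSolvable Q := by
    haveI := d.Q2.isNilpotent
    infer_instance
  have hKQ : K ≤ normalizer (Q : Set G) := by
    intro k hk
    rw [mem_normalizer_iff]
    intro q
    refine ⟨fun hq => d.h.NQ k (hKz k hk) q hq, fun hq => ?_⟩
    have := d.h.NQ' (hKz k hk) hq
    have e : k⁻¹ * (k * q * k⁻¹) * k = q := by group
    rwa [e] at this
  have h1 := Comp.component_commute_solvable hK hQs hKQ
  have h2 : K ≤ Q := by
    intro k hk
    apply d.h.CQ
    intro q hq
    exact Comp2.commute_of_commutator_eq_bot h1 hk hq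
  haveI := hQs
  exact Comp.quasisimple_not_solvable hK.2 (Group.isSolvable_of_isSolvable_injective
    (inclusion_injective h2))

/-- `M` abelian. -/
theorem abelian_case [Finite G] (d : LG Q z M) (hM : ∀ a ∈ M, ∀ b ∈ M, a * b = b * a) :
    Cfsg.generalizedFittingSubgroup G = Cfsg.pCore 2 G := by
  haveI : Fact (Nat.Prime 2) := ⟨Nat.prime_two⟩
  apply PQ.gfitting_eq_pCore_of
  · apply d.odd
    · exact Nat.coprime_two_right.1 (Cores.pPrimeCore_coprime (G := G) 2)
    · rw [normalizer_eq_top]; exact le_top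
  · rw [Cfsg.layer, sSup_eq_bot]
    intro K hK
    exfalso
    have hMs : Group.IsSolvable M := by
      letI : CommGroup M := { (inferInstance : Group M) with
        mul_comm := fun a b => Subtype.ext (hM a a.2 b b.2) }
      infer_instance
    have hn : K ≤ normalizer (M : Set G) := by
      haveI := d.Mn
      rw [normalizer_eq_top]; exact le_top
    have h1 := Comp.component_commute_solvable hK hMs hn
    exact d.no_comp hK (fun k hk => Comp2.commute_of_commutator_eq_bot h1 hk d.zM)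

end LG

/-- minimal `M`-invariant subgroups of `M`. -/
structure MI (M N : Subgroup G) : Prop where
  ne : N ≠ ⊥
  le : N ≤ M
  inv : ∀ m ∈ M, ∀ n ∈ N, m * n * m⁻¹ ∈ N
  min : ∀ N' : Subgroup G, N' ≠ ⊥ → N' ≤ N → (∀ m ∈ M, ∀ n ∈ N', m * n * m⁻¹ ∈ N') → N' = N

theorem exists_MI [Finite G] {M : Subgroup G} (hM : M ≠ ⊥) : ∃ N, MI M N := by
  have hfin : {N : Subgroup G | N ≠ ⊥ ∧ N ≤ M ∧ ∀ m ∈ M, ∀ n ∈ N, m * n * m⁻¹ ∈ N}.Finite :=
    Set.toFinite _
  obtain ⟨N, _, hN⟩ := hfin.exists_le_minimal (a := M)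
    ⟨hM, le_rfl, fun m hm n hn => mul_mem (mul_mem hm hn) (inv_mem hm)⟩
  obtain ⟨⟨h1, h2, h3⟩, hmin⟩ := hN
  refine ⟨N, h1, h2, h3, ?_⟩
  intro N' h1' h2' h3'
  exact le_antisymm h2' (hmin (y := N') ⟨h1', h2'.trans h2, h3'⟩ h2')

/-- conjugate subgroup -/
abbrev cj (g : G) (K : Subgroup G) : Subgroup G := K.map (MulAut.conj g).toMonoidHom

theorem mem_cj {g x : G} {K : Subgroup G} : x ∈ cj g K ↔ g⁻¹ * x * g ∈ K := mem_map_conj

theorem conj_mem_cj {g x : G} {K : Subgroup G} (hx : x ∈ K) : g * x * g⁻¹ ∈ cj g K := ⟨x, hx, rfl⟩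

theorem cj_cj (g h : G) (K : Subgroup G) : cj g (cj h K) = cj (g * h) K := by
  ext x
  rw [mem_cj, mem_cj, mem_cj]
  have : h⁻¹ * (g⁻¹ * x * g) * h = (g * h)⁻¹ * x * (g * h) := by group
  rw [this]

theorem cj_one (K : Subgroup G) : cj 1 K = K := by
  ext x; rw [mem_cj]; simp

theorem MI.cj {M N : Subgroup G} (hM : M.Normal) (h : MI M N) (g : G) : MI M (cj g N) where
  ne := by
    intro hc
    apply h.ne
    rw [eq_bot_iff_forall]
    intro x hx
    have h1 : g * x * g⁻¹ ∈ LargeStr28.cj g N := conj_mem_cj hx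
    rw [hc, mem_bot] at h1
    calc x = g⁻¹ * (g * x * g⁻¹) * g := by group
      _ = 1 := by rw [h1]; group
  le := by
    rintro _ ⟨x, hx, rfl⟩
    exact hM.conj_mem x (h.le hx) g
  inv := by
    intro m hm n hn
    rw [mem_cj] at hn ⊢
    have h1 := h.inv (g⁻¹ * m * g) (by
      have := hM.conj_mem m hm g⁻¹
      simpa using this) _ hn
    have e : g⁻¹ * m * g * (g⁻¹ * n * g) * (g⁻¹ * m * g)⁻¹ = g⁻¹ * (m * n * m⁻¹) * g := by group
    rwa [e] at h1
  min := by
    intro N' h1 h2 h3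
    have h4 : LargeStr28.cj g⁻¹ N' = N := by
      apply h.min
      · intro hc
        apply h1
        rw [eq_bot_iff_forall]
        intro x hx
        have h1 : g⁻¹ * x * g⁻¹⁻¹ ∈ LargeStr28.cj g⁻¹ N' := conj_mem_cj hx
        rw [hc, mem_bot] at h1
        calc x = g * (g⁻¹ * x * g⁻¹⁻¹) * g⁻¹ := by group
          _ = 1 := by rw [h1]; group
      · rintro _ ⟨x, hx, rfl⟩
        have h5 := mem_cj.mp (h2 hx)
        show g⁻¹ * x * g⁻¹⁻¹ ∈ N
        rw [inv_inv]; exact h5
      · intro m hm n hn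
        rw [mem_cj] at hn ⊢
        rw [inv_inv] at hn ⊢
        have h5 := h3 (g * m * g⁻¹) (hM.conj_mem m hm g) _ hn
        have e : g * m * g⁻¹ * (g * n * g⁻¹) * (g * m * g⁻¹)⁻¹ = g * (m * n * m⁻¹) * g⁻¹ := by group
        rwa [e] at h5
    rw [← h4, cj_cj, mul_inv_cancel, cj_one]

theorem MI.comm {M N N' : Subgroup G} (h : MI M N) (h' : MI M N') (hne : N ≠ N') :
    ∀ a ∈ N, ∀ b ∈ N', a * b = b * a := by
  have hbot : N ⊓ N' = ⊥ := by
    by_contra hb
    have hinv : ∀ m ∈ M, ∀ n ∈ N ⊓ N', m * n * m⁻¹ ∈ N ⊓ N' := fun m hm n hn =>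
      mem_inf.mpr ⟨h.inv m hm n hn.1, h'.inv m hm n hn.2⟩
    have h1 := h.min _ hb inf_le_left hinv
    have h2 := h'.min _ hb inf_le_right hinv
    exact hne (h1.symm.trans h2)
  intro a ha b hb
  have h1 : a * b * a⁻¹ * b⁻¹ ∈ N ⊓ N' := by
    refine mem_inf.mpr ⟨?_, ?_⟩
    · have : a * b * a⁻¹ * b⁻¹ = a * (b * a⁻¹ * b⁻¹) := by group
      rw [this]
      exact mul_mem ha (h.inv b (h'.le hb) _ (inv_mem ha))
    · exact mul_mem (h'.inv a (h.le ha) b hb) (inv_mem hb)
  rw [hbot, mem_bot] at h1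
  exact ExtraH28.comm_eq_one_iff.mp h1

/-- The nonabelian case: `L` a simple factor. -/
structure NA (Q : Subgroup G) (z : G) (M L : Subgroup G) : Prop extends LG Q z M where
  mi : MI M L
  na : ¬ ∀ a ∈ M, ∀ b ∈ M, a * b = b * a

namespace NA

variable {Q : Subgroup G} {z : G} {M L : Subgroup G}

theorem mig (d : NA Q z M L) (g : G) : MI M (cj g L) := d.mi.cj d.Mn g

/-- the group generated by the conjugates of `L` -/
theorem M_le (d : NA Q z M L) {X : Subgroup G} (hX : ∀ g, cj g L ≤ X) : M ≤ X := by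
  have h1 : M ≤ ⨆ g : G, cj g L := by
    apply d.min
    · refine ⟨fun n hn g => ?_⟩
      have h2 : (⨆ g : G, cj g L) ≤ (⨆ g : G, cj g L).comap (MulAut.conj g).toMonoidHom := by
        apply iSup_le
        intro k x hx
        show g * x * g⁻¹ ∈ (⨆ g : G, cj g L)
        apply mem_iSup_of_mem (g * k)
        rw [← cj_cj]
        exact conj_mem_cj hx
      exact h2 hn
    · intro hc
      apply d.mi.ne
      rw [eq_bot_iff]
      calc L = cj 1 L := (cj_one L).symm
        _ ≤ ⨆ g : G, cj g L := le_iSup (fun g => cj g L) 1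
        _ = ⊥ := hc
        _ ≤ ⊥ := le_rfl
  exact h1.trans (iSup_le hX)

theorem L_na (d : NA Q z M L) : ¬ ∀ a ∈ L, ∀ b ∈ L, a * b = b * a := by
  intro hc
  apply d.na
  have h1 : ∀ g h : G, ∀ a ∈ cj g L, ∀ b ∈ cj h L, a * b = b * a := by
    intro g h a ha b hb
    by_cases hne : cj g L = cj h L
    · rw [hne] at ha
      rw [mem_cj] at ha hb
      have h1 := hc _ ha _ hb
      calc a * b = h * ((h⁻¹ * a * h) * (h⁻¹ * b * h)) * h⁻¹ := by group
        _ = h * ((h⁻¹ * b * h) * (h⁻¹ * a * h)) * h⁻¹ := by rw [h1]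
        _ = b * a := by group
    · exact (d.mig g).comm (d.mig h) hne a ha b hb
  have h2 : ∀ g, ∀ a ∈ cj g L, M ≤ centralizer ({a} : Set G) := by
    intro g a ha
    apply d.M_le
    intro h b hb
    rw [mem_centralizer_singleton_iff]
    exact h1 h g b hb a ha
  intro a ha b hb
  have h3 : M ≤ centralizer ({b} : Set G) := by
    apply d.M_le
    intro g x hx
    rw [mem_centralizer_singleton_iff]
    exact (mem_centralizer_singleton_iff.mp (h2 g x hx hb)).symm
  exact mem_centralizer_singleton_iff.mp (h3 ha)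

theorem g_na (d : NA Q z M L) (g : G) : ¬ ∀ a ∈ cj g L, ∀ b ∈ cj g L, a * b = b * a := by
  intro hc
  apply d.L_na
  intro a ha b hb
  have h1 := hc _ (conj_mem_cj (g := g) ha) _ (conj_mem_cj (g := g) hb)
  calc a * b = g⁻¹ * ((g * a * g⁻¹) * (g * b * g⁻¹)) * g := by group
    _ = g⁻¹ * ((g * b * g⁻¹) * (g * a * g⁻¹)) * g := by rw [h1]
    _ = b * a := by group

/-- conjugating the data -/
theorem cjL (d : NA Q z M L) (g : G) : NA Q z M (cj g L) where
  toLG := d.toLG
  mi := d.mig g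
  na := d.na

theorem inf_cent (d : NA Q z M L) {a : G} (ha : a ∈ L) (hc : ∀ b ∈ L, a * b = b * a) : a = 1 := by
  by_contra hne
  have h1 : L ⊓ centralizer (L : Set G) = L := by
    apply d.mi.min
    · intro hb
      apply hne
      have h0 : a ∈ L ⊓ centralizer (L : Set G) := by
        refine mem_inf.mpr ⟨ha, ?_⟩
        rw [mem_centralizer_iff]
        intro b hb
        exact (hc b hb).symm
      rw [hb, mem_bot] at h0
      exact h0
    · exact inf_le_left
    · intro m hm n hn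
      refine mem_inf.mpr ⟨d.mi.inv m hm n hn.1, ?_⟩
      rw [mem_centralizer_iff]
      intro b hb
      have h2 : m⁻¹ * b * m ∈ L := by
        have := d.mi.inv m⁻¹ (inv_mem hm) b hb
        simpa using this
      have h3 := (mem_centralizer_iff.mp hn.2) _ h2
      calc b * (m * n * m⁻¹) = m * ((m⁻¹ * b * m) * n) * m⁻¹ := by group
        _ = m * (n * (m⁻¹ * b * m)) * m⁻¹ := by rw [h3]
        _ = _ := by group
  apply d.L_na
  intro a ha b hb
  have h2 : a ∈ L ⊓ centralizer (L : Set G) := by rw [h1]; exact ha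
  exact ((mem_centralizer_iff.mp h2.2) b hb).symm

theorem C_M (d : NA Q z M L) {x : G} (hx : ∀ m ∈ M, x * m = m * x) : x = 1 := by
  by_contra hne
  have h1 : (centralizer (M : Set G)) ≠ ⊥ := by
    intro hb
    apply hne
    have : x ∈ centralizer (M : Set G) := by
      rw [mem_centralizer_iff]; intro m hm; exact (hx m hm).symm
    rw [hb, mem_bot] at this
    exact this
  have hn : (centralizer (M : Set G)).Normal := by
    haveI := d.Mn
    infer_instance
  have h2 := d.min _ hn h1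
  apply d.na
  intro a ha b hb
  exact ((mem_centralizer_iff.mp (h2 ha)) b hb).symm

/-- projection relation -/
def Pr (L : Subgroup G) (x a : G) : Prop := a ∈ L ∧ ∀ b ∈ L, (a⁻¹ * x) * b = b * (a⁻¹ * x)

theorem exists_pr (d : NA Q z M L) {x : G} (hx : x ∈ M) : ∃ a, Pr L x a := by
  have hn : centralizer (L : Set G) ≤ normalizer (L : Set G) := centralizer_le_normalizer _
  have h1 : M ≤ L ⊔ centralizer (L : Set G) := by
    apply d.M_le
    intro g
    by_cases hne : cj g L = L
    · rw [hne]; exact le_sup_left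
    · refine le_trans ?_ le_sup_right
      intro a ha
      rw [mem_centralizer_iff]
      intro b hb
      exact ((d.mig g).comm d.mi hne a ha b hb).symm
  have h2 := h1 hx
  rw [← SetLike.mem_coe, Subgroup.coe_mul_of_right_le_normalizer_left _ _ hn] at h2
  obtain ⟨a, ha, c, hc, hac⟩ := h2
  refine ⟨a, ha, ?_⟩
  intro b hb
  have : a⁻¹ * x = c := by rw [← hac]; show a⁻¹ * (a * c) = c; group
  rw [this]
  exact ((mem_centralizer_iff.mp hc) b hb).symm

theorem pr_unique (d : NA Q z M L) {x a b : G} (ha : Pr L x a) (hb : Pr L x b) : a = b := by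
  have h1 : b⁻¹ * a = 1 := by
    apply d.inf_cent (mul_mem (inv_mem hb.1) ha.1)
    intro c hc
    have h2 := ha.2 c hc
    have h3 := hb.2 c hc
    -- b⁻¹ a = (b⁻¹ x) (a⁻¹ x)⁻¹
    have e : b⁻¹ * a = (b⁻¹ * x) * (a⁻¹ * x)⁻¹ := by group
    have h4 : (a⁻¹ * x)⁻¹ * c = c * (a⁻¹ * x)⁻¹ := by
      calc (a⁻¹ * x)⁻¹ * c = (a⁻¹ * x)⁻¹ * (c * (a⁻¹ * x)) * (a⁻¹ * x)⁻¹ := by group
        _ = (a⁻¹ * x)⁻¹ * ((a⁻¹ * x) * c) * (a⁻¹ * x)⁻¹ := by rw [h2]
        _ = _ := by group
    rw [e, mul_assoc, h4, ← mul_assoc, h3, mul_assoc]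
  rw [inv_mul_eq_one] at h1
  exact h1.symm

theorem pr_mul {x y a b : G} (ha : Pr L x a) (hb : Pr L y b) : Pr L (x * y) (a * b) := by
  refine ⟨mul_mem ha.1 hb.1, ?_⟩
  intro c hc
  have h1 := ha.2 b hb.1
  have e : (a * b)⁻¹ * (x * y) = (a⁻¹ * x) * (b⁻¹ * y) := by
    calc (a * b)⁻¹ * (x * y) = b⁻¹ * ((a⁻¹ * x) * b) * (b⁻¹ * y) := by group
      _ = b⁻¹ * (b * (a⁻¹ * x)) * (b⁻¹ * y) := by rw [h1]
      _ = _ := by group
  rw [e, mul_assoc, hb.2 c hc, ← mul_assoc, ha.2 c hc, mul_assoc]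

theorem pr_self {a : G} (ha : a ∈ L) : Pr L a a := ⟨ha, fun b _ => by rw [inv_mul_cancel]; simp⟩

theorem pr_one_of {x : G} (hx : ∀ b ∈ L, x * b = b * x) : Pr L x 1 :=
  ⟨one_mem _, fun b hb => by rw [inv_one, one_mul]; exact hx b hb⟩

theorem comm_of_pr_one {x : G} (hx : Pr L x 1) : ∀ b ∈ L, x * b = b * x := fun b hb => by
  have := hx.2 b hb
  rwa [inv_one, one_mul] at this

theorem pr_conj {x a : G} (g : G) (ha : Pr L x a) : Pr (cj g L) (g * x * g⁻¹) (g * a * g⁻¹) := by
  refine ⟨conj_mem_cj ha.1, ?_⟩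
  intro b hb
  rw [mem_cj] at hb
  have h1 := ha.2 _ hb
  calc (g * a * g⁻¹)⁻¹ * (g * x * g⁻¹) * b = g * ((a⁻¹ * x) * (g⁻¹ * b * g)) * g⁻¹ := by group
    _ = g * ((g⁻¹ * b * g) * (a⁻¹ * x)) * g⁻¹ := by rw [h1]
    _ = _ := by group

/-- commuting with an element of `L` is commuting with its projection -/
theorem comm_iff {x a b : G} (ha : Pr L x a) (hb : b ∈ L) : b * x = x * b ↔ b * a = a * b := by
  have h1 := ha.2 b hb
  have hx : x = a * (a⁻¹ * x) := by group
  constructor
  · intro h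
    have h2 : b * a * (a⁻¹ * x) = a * b * (a⁻¹ * x) := by
      calc b * a * (a⁻¹ * x) = b * x := by group
        _ = x * b := h
        _ = a * ((a⁻¹ * x) * b) := by group
        _ = _ := by rw [h1]; group
    exact mul_right_cancel h2
  · intro h
    calc b * x = (b * a) * (a⁻¹ * x) := by group
      _ = a * (b * (a⁻¹ * x)) := by rw [h]; group
      _ = a * ((a⁻¹ * x) * b) := by rw [h1]
      _ = _ := by group

/-- equality is tested on projections -/
theorem ext_pr (d : NA Q z M L) {x y : G} (hxy : ∀ g : G, ∃ a, Pr (cj g L) x a ∧ Pr (cj g L) y a) :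
    x = y := by
  have h1 : y⁻¹ * x = 1 := by
    apply d.C_M
    have h2 : M ≤ centralizer ({y⁻¹ * x} : Set G) := by
      apply d.M_le
      intro g b hb
      rw [mem_centralizer_singleton_iff]
      obtain ⟨a, ha, ha'⟩ := hxy g
      have h2 := ha.2 b hb
      have h3 := ha'.2 b hb
      have h4 : (a⁻¹ * y)⁻¹ * b = b * (a⁻¹ * y)⁻¹ := by
        calc (a⁻¹ * y)⁻¹ * b = (a⁻¹ * y)⁻¹ * (b * (a⁻¹ * y)) * (a⁻¹ * y)⁻¹ := by group
          _ = (a⁻¹ * y)⁻¹ * ((a⁻¹ * y) * b) * (a⁻¹ * y)⁻¹ := by rw [h3]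
          _ = _ := by group
      have e : y⁻¹ * x = (a⁻¹ * y)⁻¹ * (a⁻¹ * x) := by group
      rw [e]
      symm
      rw [mul_assoc, h2, ← mul_assoc, h4, mul_assoc]
    intro m hm
    exact (mem_centralizer_singleton_iff.mp (h2 hm)).symm
  rw [inv_mul_eq_one] at h1
  exact h1.symm

theorem simple (d : NA Q z M L) : IsSimpleGroup L := by
  haveI : Nontrivial L := (nontrivial_iff_ne_bot L).mpr d.mi.ne
  refine { eq_bot_or_eq_top_of_normal := ?_ }
  intro N hN
  by_cases hb : N = ⊥
  · exact Or.inl hb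
  right
  have h1 : N.map L.subtype = L := by
    apply d.mi.min
    · intro hc
      apply hb
      rw [eq_bot_iff_forall]
      intro x hx
      have : (x : G) ∈ N.map L.subtype := ⟨x, hx, rfl⟩
      rw [hc, mem_bot] at this
      exact Subtype.ext this
    · exact map_subtype_le _
    · intro m hm n hn
      obtain ⟨n, hn, rfl⟩ := hn
      obtain ⟨a, ha⟩ := d.exists_pr hm
      have h2 := ha.2 n n.2
      have h3 : m * n * m⁻¹ = a * n * a⁻¹ := by
        calc m * n * m⁻¹ = a * ((a⁻¹ * m) * n) * m⁻¹ := by group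
          _ = a * (n * (a⁻¹ * m)) * m⁻¹ := by rw [h2]
          _ = _ := by group
      refine ⟨⟨a, ha.1⟩ * n * ⟨a, ha.1⟩⁻¹, hN.conj_mem n hn _, ?_⟩
      rw [L.subtype_apply]
      exact h3.symm
  rw [eq_top_iff]
  intro x _
  have : (x : G) ∈ N.map L.subtype := by rw [h1]; exact x.2
  obtain ⟨y, hy, hyx⟩ := this
  have : y = x := Subtype.ext hyx
  rwa [← this]

theorem not_comm (d : NA Q z M L) : ¬ IsMulCommutative L := by
  intro hc
  apply d.L_na
  intro a ha b hb
  have := hc.is_comm.comm (⟨a, ha⟩ : L) ⟨b, hb⟩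
  exact congrArg Subtype.val this

theorem component [Finite G] (d : NA Q z M L) : Cfsg.IsComponent L := by
  refine ⟨?_, ?_⟩
  · haveI := d.Mn
    apply IsSubnormal.step _ M d.mi.le d.Mn.isSubnormal
    refine ⟨fun n hn g => ?_⟩
    exact d.mi.inv g g.2 n hn
  · have hs := d.simple
    have hp := Comp.simple_nonabelian_perfect hs d.not_comm
    exact Comp.quasisimple_of_surjective (MonoidHom.id L) Function.surjective_id (by
      intro x hx
      have : x = 1 := hx
      rw [this]; exact one_mem _) hs hp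

theorem gF [Finite G] (d : NA Q z M L) : M = Cfsg.generalizedFittingSubgroup G := by
  have hL := d.component
  apply le_antisymm
  · apply d.min
    · exact (inferInstance : (Cfsg.generalizedFittingSubgroup G).Normal)
    · intro hc
      apply d.mi.ne
      rw [eq_bot_iff, ← hc]
      exact (Comp.component_le_layer hL).trans Comp.layer_le_gfitting
  · rw [Cfsg.generalizedFittingSubgroup]
    apply sup_le
    · rw [Cfsg.layer]
      apply sSup_le
      intro K hK
      haveI := d.Mn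
      rcases Comp.component_le_or_commute hK d.Mn.isSubnormal with h1 | h1
      · exact h1
      · intro k hk
        rw [d.C_M (fun m hm => Comp2.commute_of_commutator_eq_bot h1 hk hm)]
        exact one_mem _
    · by_cases hb : Cfsg.fittingSubgroup G = ⊥
      · rw [hb]; exact bot_le
      · exfalso
        have h1 := d.min _ (inferInstance : (Cfsg.fittingSubgroup G).Normal) hb
        have h2 : L ≤ Cfsg.fittingSubgroup G := d.mi.le.trans h1
        haveI := CfsgLib.Cores.fittingSubgroup_isNilpotent (G := G)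
        exact Comp.quasisimple_not_solvable hL.2 (Group.isSolvable_of_isSolvable_injective
          (inclusion_injective h2))

/-- `z` has nontrivial projections -/
theorem zpr_ne [Finite G] (d : NA Q z M L) {z1 : G} (hz1 : Pr L z z1) : z1 ≠ 1 := by
  rintro rfl
  exact d.no_comp d.component (fun k hk => (comm_of_pr_one hz1 k hk).symm)

end NA

end CfsgLib.LargeStr28
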