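import Mathlib
import Cfsg.Agent.LibLargeStr28
import Cfsg.Agent.LibThompTr

set_option autoImplicit false

/-! Structure of groups with a large extraspecial 2-subgroup, II (helper28). -/

namespace CfsgLib.LargeStr28

open Subgroup
open CfsgLib.LargeExtraH28 CfsgLib.LargePairH28 CfsgLib.LargeGFH28

theorem simple_no_two {K : Type*} [Group K] [Finite K] [IsSimpleGroup K]
    (hna : ¬ IsMulCommutative K) : ∀ N : Subgroup K, N.Normal → N.index ≠ 2 := by
  haveI : Fact (Nat.Prime 2) := ⟨Nat.prime_two⟩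
  intro N hN hN2
  haveI := hN
  rcases (IsSimpleGroup.eq_bot_or_eq_top_of_normal N hN) with h1 | h1
  · apply hna
    rw [h1, Subgroup.index_bot] at hN2
    haveI : IsCyclic K := isCyclic_of_prime_card hN2
    letI := IsCyclic.commGroup (α := K)
    exact ⟨⟨fun a b => mul_comm a b⟩⟩
  · rw [h1, Subgroup.index_top] at hN2
    norm_num at hN2

theorem simple_small {K : Type*} [Group K] [Finite K] [IsSimpleGroup K]
    (hna : ¬ IsMulCommutative K) {t : K} (tt : t * t = 1) (t1 : t ≠ 1)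
    (hc : ∀ x, x * t = t * x → x = 1 ∨ x = t) : False := by
  haveI : Fact (Nat.Prime 2) := ⟨Nat.prime_two⟩
  have hord : orderOf t = 2 := by
    rw [orderOf_eq_prime_iff]; exact ⟨by rw [pow_two]; exact tt, t1⟩
  have h1 : IsPGroup 2 (zpowers t) := IsPGroup.of_card (n := 1) (by
    rw [Nat.card_zpowers, hord, pow_one])
  obtain ⟨S, hS⟩ := h1.exists_le_sylow
  have htS : t ∈ (S : Subgroup K) := hS (mem_zpowers t)
  haveI : Nontrivial (S : Subgroup K) := ⟨⟨⟨t, htS⟩, 1, fun h => t1 (congrArg Subtype.val h)⟩⟩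
  have hcn := S.2.center_nontrivial
  obtain ⟨c, hc1⟩ := exists_ne (1 : center (S : Subgroup K))
  have hct : ∀ s ∈ (S : Subgroup K), s * (c : (S : Subgroup K)) = (c : (S : Subgroup K)) * s := by
    intro s hs
    exact congrArg Subtype.val ((mem_center_iff.mp c.2) ⟨s, hs⟩)
  have hceq : ((c : (S : Subgroup K)) : K) = t := by
    rcases hc _ (hct t htS).symm with h2 | h2
    · exact absurd (Subtype.ext (Subtype.ext h2)) hc1
    · exact h2
  rw [hceq] at hct
  have hSt : (S : Subgroup K) = zpowers t := by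
    apply le_antisymm _ hS
    intro s hs
    rcases hc s (hct s hs) with h2 | h2
    · rw [h2]; exact one_mem _
    · rw [h2]; exact mem_zpowers t
  have hcard : Nat.card (S : Subgroup K) = 2 := by rw [hSt, Nat.card_zpowers, hord]
  have hi : ((⊥ : Subgroup K).index / 2) % 2 = 1 := by
    rw [index_bot, ← (S : Subgroup K).card_mul_index, hcard, Nat.mul_div_cancel_left _ (by norm_num)]
    have := S.not_dvd_index
    omega
  obtain ⟨N, hN, hN2, _⟩ := ThompTr.exists_index_two ⊥ hi t (by rw [pow_two]; exact tt) (by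
    intro g hg
    rw [mem_bot] at hg
    apply t1
    calc t = g⁻¹ * (g * t * g⁻¹) * g := by group
      _ = 1 := by rw [hg]; group)
  exact simple_no_two hna N hN hN2

variable {G : Type*} [Group G]

theorem cj_inj {g : G} {A B : Subgroup G} (h : cj g A = cj g B) : A = B := by
  ext x
  have h1 : g * x * g⁻¹ ∈ cj g A ↔ g * x * g⁻¹ ∈ cj g B := by rw [h]
  rw [mem_cj, mem_cj] at h1
  have e : g⁻¹ * (g * x * g⁻¹) * g = x := by group
  rwa [e] at h1

structure TW (Q : Subgroup G) (z : G) (M L : Subgroup G) (u z1 : G) : Prop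
    extends NA Q z M L where
  uQ : u ∈ Q
  ne : cj u L ≠ L
  pz : NA.Pr L z z1

namespace TW

open NA

variable {Q : Subgroup G} {z : G} {M L : Subgroup G} {u z1 : G}

theorem z1L (d : TW Q z M L u z1) : z1 ∈ L := d.pz.1

theorem z1ne [Finite G] (d : TW Q z M L u z1) : z1 ≠ 1 := d.toNA.zpr_ne d.pz

theorem z1z1 (d : TW Q z M L u z1) : z1 * z1 = 1 := by
  have h1 := pr_mul d.pz d.pz
  rw [d.h.zz] at h1
  exact d.toNA.pr_unique h1 (pr_self (one_mem _))

theorem z1i (d : TW Q z M L u z1) : z1⁻¹ = z1 := inv_eq_of_mul_eq_one_left d.z1z1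

theorem z1z (d : TW Q z M L u z1) : z1 * z = z * z1 := (comm_iff d.pz d.z1L).mpr rfl

theorem uz (d : TW Q z M L u z1) {q : G} (hq : q ∈ Q) : q * z * q⁻¹ = z := by
  rw [d.h.zc q hq]; group

theorem pz2 (d : TW Q z M L u z1) : Pr (cj u L) z (u * z1 * u⁻¹) := by
  have := pr_conj u d.pz
  rwa [d.uz d.uQ] at this

theorem cm (d : TW Q z M L u z1) {a b : G} (ha : a ∈ L) (hb : b ∈ cj u L) : a * b = b * a :=
  d.mi.comm (d.toNA.mig u) d.ne.symm a ha b hb

theorem cmg (d : TW Q z M L u z1) {g h : G} (hgh : cj g L ≠ cj h L) {a b : G} (ha : a ∈ cj g L)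
    (hb : b ∈ cj h L) : a * b = b * a :=
  (d.toNA.mig g).comm (d.toNA.mig h) hgh a ha b hb

theorem pr_of_ne (d : TW Q z M L u z1) {g h : G} (hgh : cj g L ≠ cj h L) {a : G}
    (ha : a ∈ cj g L) : Pr (cj h L) a 1 :=
  pr_one_of (fun _ hb => d.cmg hgh ha hb)

/-- the elements `x⁻¹ x^u` -/
theorem q_mem (d : TW Q z M L u z1) {x : G} (hx : x * z = z * x) :
    x⁻¹ * (u * x * u⁻¹) ∈ Q := by
  have h1 := mul_mem (d.h.NQ' hx d.uQ) (inv_mem d.uQ)
  have e : x⁻¹ * u * x * u⁻¹ = x⁻¹ * (u * x * u⁻¹) := by group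
  rwa [e] at h1

theorem q_pr (d : TW Q z M L u z1) {x : G} (hx : x ∈ L) : Pr L (x⁻¹ * (u * x * u⁻¹)) x⁻¹ := by
  have h1 : Pr L (u * x * u⁻¹) 1 := pr_one_of (fun b hb => (d.cm hb (conj_mem_cj hx)).symm)
  have := pr_mul (pr_self (inv_mem hx)) h1
  rwa [mul_one] at this

theorem q_pr2 (d : TW Q z M L u z1) {x : G} (hx : x ∈ L) :
    Pr (cj u L) (x⁻¹ * (u * x * u⁻¹)) (u * x * u⁻¹) := by
  have h1 : Pr (cj u L) x⁻¹ 1 := pr_one_of (fun b hb => d.cm (inv_mem hx) hb)
  have := pr_mul h1 (pr_self (conj_mem_cj (g := u) hx))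
  rwa [one_mul] at this

theorem czL (d : TW Q z M L u z1) {x : G} (hx : x ∈ L) : x * z = z * x ↔ x * z1 = z1 * x :=
  comm_iff d.pz hx

theorem two [Finite G] (d : TW Q z M L u z1) (g : G) : cj g L = L ∨ cj g L = cj u L := by
  by_contra hcon
  push Not at hcon
  obtain ⟨hg1, hg2⟩ := hcon
  have hne1 := d.z1ne
  have h1L : cj 1 L = L := cj_one L
  -- q₁
  obtain ⟨q, hq⟩ : ∃ q, q = z1⁻¹ * (u * z1 * u⁻¹) := ⟨_, rfl⟩
  have hqQ : q ∈ Q := by rw [hq]; exact d.q_mem d.z1z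
  have hqp : Pr L q z1⁻¹ := by rw [hq]; exact d.q_pr d.z1L
  have hqp2 : Pr (cj u L) q (u * z1 * u⁻¹) := by rw [hq]; exact d.q_pr2 d.z1L
  have hqg : Pr (cj g L) q 1 := by
    rw [hq]
    have e1 : Pr (cj g L) z1⁻¹ 1 := by
      apply d.pr_of_ne (g := 1)
      · rw [h1L]; exact hg1.symm
      · rw [h1L]; exact inv_mem d.z1L
    have e2 : Pr (cj g L) (u * z1 * u⁻¹) 1 := d.pr_of_ne (Ne.symm hg2) (conj_mem_cj d.z1L)
    have := pr_mul e1 e2
    rwa [mul_one] at this
  have hq1 : q ≠ 1 := by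
    intro hc
    rw [hc] at hqp
    have := d.toNA.pr_unique hqp (pr_self (one_mem _))
    exact hne1 (inv_eq_one.mp this)
  have hqz : q ≠ z := by
    intro hc
    rw [hc] at hqg
    exact (d.toNA.cjL g).zpr_ne hqg rfl
  obtain ⟨v, hv, hvq⟩ := d.h.noncentral hqQ hq1 hqz
  have hvq' : v * q * v⁻¹ = z * q := by rw [hvq]; group
  have hzq : Pr L (z * q) 1 := by
    have := pr_mul d.pz hqp
    rwa [mul_inv_cancel] at this
  have hA : cj v L ≠ L := by
    intro hc
    have h1 := pr_conj v hqp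
    rw [hc, hvq'] at h1
    have h2 := d.toNA.pr_unique h1 hzq
    apply hne1
    have h3 : z1⁻¹ = 1 := by
      calc z1⁻¹ = v⁻¹ * (v * z1⁻¹ * v⁻¹) * v := by group
        _ = 1 := by rw [h2]; group
    exact inv_eq_one.mp h3
  have hB : cj v (cj u L) ≠ L := by
    intro hc
    have h1 := pr_conj v hqp2
    rw [hc, hvq'] at h1
    have h2 := d.toNA.pr_unique h1 hzq
    apply hne1
    calc z1 = (v * u)⁻¹ * (v * (u * z1 * u⁻¹) * v⁻¹) * (v * u) := by group
      _ = 1 := by rw [h2]; group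
  haveI := d.toNA.simple
  refine simple_small (K := L) d.toNA.not_comm (t := ⟨z1, d.z1L⟩) (Subtype.ext d.z1z1)
    (fun h => hne1 (congrArg Subtype.val h)) ?_
  rintro ⟨x, hxL⟩ hx
  have hxz1 : x * z1 = z1 * x := congrArg Subtype.val hx
  have hxz := (d.czL hxL).mpr hxz1
  have hQx := d.q_mem hxz
  have h1 : Pr L (v * (x⁻¹ * (u * x * u⁻¹)) * v⁻¹) 1 := by
    have e1 : Pr L (v * x⁻¹ * v⁻¹) 1 := by
      have := d.pr_of_ne (g := v) (h := 1) (by rw [h1L]; exact hA) (conj_mem_cj (inv_mem hxL))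
      rwa [h1L] at this
    have e2 : Pr L (v * (u * x * u⁻¹) * v⁻¹) 1 := by
      have := d.pr_of_ne (g := v * u) (h := 1) (by rw [h1L, ← cj_cj]; exact hB)
        (a := v * (u * x * u⁻¹) * v⁻¹) (by
          rw [← cj_cj]; exact conj_mem_cj (conj_mem_cj hxL))
      rwa [h1L] at this
    have e3 := pr_mul e1 e2
    rw [mul_one] at e3
    have e : v * x⁻¹ * v⁻¹ * (v * (u * x * u⁻¹) * v⁻¹) = v * (x⁻¹ * (u * x * u⁻¹)) * v⁻¹ := by group
    rwa [e] at e3
  rcases d.h.cm v hv _ hQx with h2 | h2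
  · left
    apply Subtype.ext
    show x = 1
    rw [h2] at h1
    have e : x⁻¹ * (u * x * u⁻¹) * v * v⁻¹ = x⁻¹ * (u * x * u⁻¹) := by group
    rw [e] at h1
    exact inv_eq_one.mp (d.toNA.pr_unique (d.q_pr hxL) h1)
  · right
    apply Subtype.ext
    show x = z1
    rw [h2] at h1
    have e : z * (x⁻¹ * (u * x * u⁻¹) * v) * v⁻¹ = z * (x⁻¹ * (u * x * u⁻¹)) := by group
    rw [e] at h1
    have h3 := d.toNA.pr_unique (pr_mul d.pz (d.q_pr hxL)) h1
    rw [mul_inv_eq_one] at h3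
    exact h3.symm

theorem two_one (d : TW Q z M L u z1) : cj (1 : G) L = L := cj_one L

theorem M_le2 [Finite G] (d : TW Q z M L u z1) : L ⊔ cj u L = M := by
  apply le_antisymm
  · exact sup_le d.mi.le (d.toNA.mig u).le
  · apply d.toNA.M_le
    intro g
    rcases d.two g with h1 | h1
    · rw [h1]; exact le_sup_left
    · rw [h1]; exact le_sup_right

theorem inf2 (d : TW Q z M L u z1) : L ⊓ cj u L = ⊥ := by
  rw [eq_bot_iff]
  intro a ha
  rw [mem_bot]
  exact d.toNA.inf_cent ha.1 (fun b hb => (d.cm hb ha.2).symm)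

theorem ext2 [Finite G] (d : TW Q z M L u z1) {x y a b : G} (h1 : Pr L x a) (h2 : Pr L y a)
    (h3 : Pr (cj u L) x b) (h4 : Pr (cj u L) y b) : x = y := by
  apply d.toNA.ext_pr
  intro g
  rcases d.two g with h | h
  · rw [h]; exact ⟨a, h1, h2⟩
  · rw [h]; exact ⟨b, h3, h4⟩

theorem z_eq [Finite G] (d : TW Q z M L u z1) : z = z1 * (u * z1 * u⁻¹) := by
  refine d.ext2 d.pz ?_ d.pz2 ?_
  · have h1 := d.q_pr d.z1L
    rw [d.z1i] at h1
    exact h1
  · have h1 := d.q_pr2 d.z1L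
    rw [d.z1i] at h1
    exact h1

theorem sq (d : TW Q z M L u z1) {x : G} (hx : x ∈ L) (hxz : x * z = z * x) :
    x * x = 1 ∨ x * x = z1 := by
  have h1 := pr_mul (d.q_pr hx) (d.q_pr hx)
  rcases d.h.sq _ (d.q_mem hxz) with h2 | h2
  · left
    rw [h2] at h1
    have h3 := d.toNA.pr_unique h1 (pr_self (one_mem _))
    calc x * x = (x⁻¹ * x⁻¹)⁻¹ := by rw [mul_inv_rev, inv_inv]
      _ = 1 := by rw [h3, inv_one]
  · right
    rw [h2] at h1
    have h3 := d.toNA.pr_unique h1 d.pz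
    calc x * x = (x⁻¹ * x⁻¹)⁻¹ := by rw [mul_inv_rev, inv_inv]
      _ = z1 := by rw [h3, d.z1i]

theorem pow4 (d : TW Q z M L u z1) {x : G} (hx : x ∈ L) (hxz : x * z = z * x) : x ^ 4 = 1 := by
  have e : x ^ 4 = (x * x) * (x * x) := by simp [pow_succ, mul_assoc]
  rw [e]
  rcases d.sq hx hxz with h1 | h1
  · rw [h1, one_mul]
  · rw [h1, d.z1z1]

theorem comm' (d : TW Q z M L u z1) {a b : G} (ha : a ∈ L) (haz : a * z = z * a) (hb : b ∈ L)
    (hbz : b * z = z * b) : a * b = b * a ∨ a * b = z1 * (b * a) := by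
  have hi : ∀ a : G, a * z = z * a → a⁻¹ * z = z * a⁻¹ := by
    intro a ha
    calc a⁻¹ * z = a⁻¹ * (z * a) * a⁻¹ := by group
      _ = a⁻¹ * (a * z) * a⁻¹ := by rw [ha]
      _ = _ := by group
  have pa := d.q_pr (inv_mem ha)
  have pb := d.q_pr (inv_mem hb)
  rw [inv_inv] at pa pb
  have qa := d.q_mem (hi a haz)
  have qb := d.q_mem (hi b hbz)
  rw [inv_inv] at qa qb
  rcases d.h.cm _ qa _ qb with h1 | h1
  · left
    have h2 := pr_mul pa pb
    rw [h1] at h2
    exact d.toNA.pr_unique h2 (pr_mul pb pa)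
  · right
    have h2 := pr_mul pa pb
    rw [h1] at h2
    exact d.toNA.pr_unique h2 (pr_mul d.pz (pr_mul pb pa))

theorem fix_z1 (d : TW Q z M L u z1) {e : G} (he : e ∈ Q) (heL : cj e L = L) :
    e * z1 * e⁻¹ = z1 := by
  have h1 := pr_conj e d.pz
  rw [heL, d.uz he] at h1
  exact d.toNA.pr_unique h1 d.pz

theorem exists_e [Finite G] (d : TW Q z M L u z1) {y : G} (hy : y ∈ L) (hyz : y * z = z * y)
    (hyy : y * y = 1) (hy1 : y ≠ 1) (hyz1 : y ≠ z1) :
    ∃ e ∈ Q, cj e L = L ∧ e * y * e⁻¹ = z1 * y := by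
  have hyi : y⁻¹ = y := inv_eq_of_mul_eq_one_left hyy
  obtain ⟨q, hq⟩ : ∃ q, q = y⁻¹ * (u * y * u⁻¹) := ⟨_, rfl⟩
  have hqQ : q ∈ Q := by rw [hq]; exact d.q_mem hyz
  have hqp : Pr L q y⁻¹ := by rw [hq]; exact d.q_pr hy
  have hq1 : q ≠ 1 := by
    intro hc
    rw [hc] at hqp
    exact hy1 (inv_eq_one.mp (d.toNA.pr_unique hqp (pr_self (one_mem _))))
  have hqz : q ≠ z := by
    intro hc
    rw [hc] at hqp
    have := d.toNA.pr_unique hqp d.pz
    rw [hyi] at this
    exact hyz1 this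
  obtain ⟨v, hv, hvq⟩ := d.h.noncentral hqQ hq1 hqz
  have hvq' : v * q * v⁻¹ = z * q := by rw [hvq]; group
  have key : ∀ e : G, cj e L = L → e * q * e⁻¹ = z * q → e * y * e⁻¹ = z1 * y := by
    intro e heL heq
    have h1 := pr_conj e hqp
    rw [heL, heq] at h1
    have h2 := d.toNA.pr_unique h1 (pr_mul d.pz hqp)
    rwa [hyi] at h2
  rcases d.two v with h1 | h1
  · exact ⟨v, hv, h1, key v h1 hvq'⟩
  · refine ⟨v * u, mul_mem hv d.uQ, ?_, ?_⟩
    · rcases d.two (v * u) with h2 | h2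
      · exact h2
      · exfalso
        apply d.ne
        rw [← h1, ← cj_cj] at h2
        exact cj_inj h2
    · apply key
      · rcases d.two (v * u) with h2 | h2
        · exact h2
        · exfalso
          apply d.ne
          rw [← h1, ← cj_cj] at h2
          exact cj_inj h2
      · have huq : u * q * u⁻¹ = q := by
          have h2 : u * u * y * (u * u)⁻¹ = y := by
            rcases d.h.sq u d.uQ with h3 | h3
            · rw [h3]; group
            · rw [h3, ← hyz]; group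
          calc u * q * u⁻¹ = (u * y⁻¹ * u⁻¹) * (u * u * y * (u * u)⁻¹) := by rw [hq]; group
            _ = (u * y * u⁻¹) * y := by rw [h2, hyi]
            _ = y * (u * y * u⁻¹) := (d.cm hy (conj_mem_cj hy)).symm
            _ = q := by rw [hq, hyi]
        calc v * u * q * (v * u)⁻¹ = v * (u * q * u⁻¹) * v⁻¹ := by group
          _ = z * q := by rw [huq, hvq']

/-- the key step: `C_L(z₁)` is not properly normalized by a square root -/
theorem no_t [Finite G] (d : TW Q z M L u z1) {t : G} (htL : t ∈ L)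
    (hn : ∀ x ∈ L, x * z1 = z1 * x → (t * x * t⁻¹) * z1 = z1 * (t * x * t⁻¹))
    (ht2 : (t * t) * z1 = z1 * (t * t)) : t * z1 = z1 * t := by
  by_contra hcon
  obtain ⟨y, hy⟩ : ∃ y, y = t * z1 * t⁻¹ := ⟨_, rfl⟩
  have hyL : y ∈ L := by rw [hy]; exact mul_mem (mul_mem htL d.z1L) (inv_mem htL)
  have hyz1 : y * z1 = z1 * y := by rw [hy]; exact hn z1 d.z1L rfl
  have hyz := (d.czL hyL).mpr hyz1
  have hyy : y * y = 1 := by
    rw [hy]
    calc t * z1 * t⁻¹ * (t * z1 * t⁻¹) = t * (z1 * z1) * t⁻¹ := by group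
      _ = 1 := by rw [d.z1z1]; group
  have hy1 : y ≠ 1 := by
    intro hc
    apply d.z1ne
    calc z1 = t⁻¹ * (t * z1 * t⁻¹) * t := by group
      _ = 1 := by rw [← hy, hc]; group
  have hyne : y ≠ z1 := by
    intro hc
    apply hcon
    calc t * z1 = (t * z1 * t⁻¹) * t := by group
      _ = z1 * t := by rw [← hy, hc]
  obtain ⟨e, he, heL, hey⟩ := d.exists_e hyL hyz hyy hy1 hyne
  have hez := d.fix_z1 he heL
  have hty : t * y * t⁻¹ = z1 := by
    calc t * y * t⁻¹ = ((t * t) * z1) * (t * t)⁻¹ := by rw [hy]; group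
      _ = z1 := by rw [ht2]; group
  have h1 : t * (z1 * y) = (z1 * y) * t := by
    calc t * (z1 * y) = (t * z1 * t⁻¹) * (t * y * t⁻¹) * t := by group
      _ = (y * z1) * t := by rw [hty, ← hy]
      _ = _ := by rw [hyz1]
  rw [← hey] at h1
  obtain ⟨s, hs⟩ : ∃ s, s = e⁻¹ * t * e := ⟨_, rfl⟩
  have hsL : s ∈ L := by
    have h2 : t ∈ cj e L := by rw [heL]; exact htL
    rw [mem_cj] at h2
    rw [hs]; exact h2
  have h2 : s * y = y * s := by
    rw [hs]
    calc e⁻¹ * t * e * y = e⁻¹ * (t * (e * y * e⁻¹)) * e := by group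
      _ = e⁻¹ * ((e * y * e⁻¹) * t) * e := by rw [h1]
      _ = _ := by group
  have h3 : (t⁻¹ * s * t) * z1 = z1 * (t⁻¹ * s * t) := by
    rw [hy] at h2
    calc (t⁻¹ * s * t) * z1 = t⁻¹ * (s * (t * z1 * t⁻¹)) * t := by group
      _ = t⁻¹ * ((t * z1 * t⁻¹) * s) * t := by rw [h2]
      _ = _ := by group
  have h4 := hn _ (mul_mem (mul_mem (inv_mem htL) hsL) htL) h3
  have e1 : t * (t⁻¹ * s * t) * t⁻¹ = s := by group
  rw [e1] at h4
  apply hcon
  have e2 : e * s * e⁻¹ = t := by rw [hs]; group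
  calc t * z1 = (e * s * e⁻¹) * (e * z1 * e⁻¹) := by rw [e2, hez]
    _ = e * (s * z1) * e⁻¹ := by group
    _ = e * (z1 * s) * e⁻¹ := by rw [h4]
    _ = (e * z1 * e⁻¹) * (e * s * e⁻¹) := by group
    _ = z1 * t := by rw [e2, hez]

theorem sylow [Finite G] (d : TW Q z M L u z1) :
    ∃ R : Sylow 2 L, (R : Subgroup L) = (centralizer ({z1} : Set G)).subgroupOf L := by
  haveI : Fact (Nat.Prime 2) := ⟨Nat.prime_two⟩
  set C := (centralizer ({z1} : Set G)).subgroupOf L with hC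
  have hCm : ∀ x : L, x ∈ C ↔ (x : G) * z1 = z1 * x := by
    intro x
    rw [hC, mem_subgroupOf, mem_centralizer_singleton_iff]
  have hC2 : IsPGroup 2 C := by
    intro x
    refine ⟨2, ?_⟩
    apply Subtype.ext
    apply Subtype.ext
    show ((x : L) : G) ^ (2 ^ 2) = 1
    have h1 := (hCm x).mp x.2
    exact d.pow4 (x : L).2 ((d.czL (x : L).2).mpr h1)
  obtain ⟨S, hS⟩ := hC2.exists_le_sylow
  refine ⟨S, ?_⟩
  by_contra hne
  have hlt : C.subgroupOf (S : Subgroup L) < ⊤ := by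
    rw [lt_top_iff_ne_top]
    intro hc
    apply hne
    exact le_antisymm (subgroupOf_eq_top.mp hc) hS
  haveI : Group.IsNilpotent (S : Subgroup L) := S.2.isNilpotent
  have h1 := Group.normalizerCondition_of_isNilpotent (G := (S : Subgroup L))
    _ hlt
  obtain ⟨⟨s, hsS⟩, hsN, hsC⟩ := SetLike.exists_of_lt h1
  rw [mem_subgroupOf] at hsC
  change s ∉ C at hsC
  have hsn : ∀ x, x ∈ C ↔ s * x * s⁻¹ ∈ C := by
    intro x
    constructor
    · intro hx
      have := (mem_normalizer_iff.mp hsN ⟨x, hS hx⟩).mp hx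
      exact this
    · intro hx
      have hxS : x ∈ (S : Subgroup L) := by
        have := mul_mem (mul_mem (inv_mem hsS) (hS hx)) hsS
        have e : s⁻¹ * (s * x * s⁻¹) * s = x := by group
        rwa [e] at this
      exact (mem_normalizer_iff.mp hsN ⟨x, hxS⟩).mpr hx
  have hspow : ∀ n : ℕ, ∀ x ∈ C, s ^ n * x * (s ^ n)⁻¹ ∈ C := by
    intro n
    induction n with
    | zero => intro x hx; simpa using hx
    | succ k ih =>
      intro x hx
      have e : s ^ (k + 1) * x * (s ^ (k + 1))⁻¹ = s * (s ^ k * x * (s ^ k)⁻¹) * s⁻¹ := by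
        rw [pow_succ']; group
      rw [e]
      exact (hsn _).mp (ih x hx)
  obtain ⟨n, hn⟩ := S.2 ⟨s, hsS⟩
  have hn' : s ^ 2 ^ n = 1 := congrArg Subtype.val hn
  have hex : ∃ n, s ^ 2 ^ n ∈ C := ⟨n, by rw [hn']; exact one_mem _⟩
  classical
  obtain ⟨m, hm⟩ : ∃ m, m = Nat.find hex := ⟨_, rfl⟩
  have hm1 : s ^ 2 ^ m ∈ C := by rw [hm]; exact Nat.find_spec hex
  have hm0 : m ≠ 0 := by
    intro h0
    rw [h0, pow_zero, pow_one] at hm1
    exact hsC hm1
  obtain ⟨k, hk⟩ := Nat.exists_eq_succ_of_ne_zero hm0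
  have hk1 : s ^ 2 ^ k ∉ C := by
    apply Nat.find_min hex
    omega
  apply hk1
  rw [hCm]
  have hval : ((s ^ 2 ^ k : L) : G) = ((s ^ 2 ^ k : L) : G) := rfl
  apply d.no_t (s ^ 2 ^ k).2
  · intro x hx hxz
    have h2 := hspow (2 ^ k) ⟨x, hx⟩ ((hCm _).mpr hxz)
    exact (hCm _).mp h2
  · rw [hk, pow_succ, mul_comm, two_mul, pow_add] at hm1
    exact (hCm _).mp hm1

theorem ne_core [Finite G] (d : TW Q z M L u z1) :
    Q ≠ (Cfsg.pCore 2 ↥(centralizer ({z} : Set G))).map (centralizer ({z} : Set G)).subtype := by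
  haveI : Fact (Nat.Prime 2) := ⟨Nat.prime_two⟩
  intro hQ
  have h4 : ∀ x ∈ M, x * z = z * x → x ^ 4 = 1 := by
    intro x hx hxz
    obtain ⟨a, ha⟩ := d.toNA.exists_pr hx
    obtain ⟨b, hb⟩ := (d.toNA.cjL u).exists_pr hx
    have haz1 : a * z1 = z1 * a := by
      have h1 := pr_mul ha d.pz
      rw [hxz] at h1
      exact d.toNA.pr_unique h1 (pr_mul d.pz ha)
    have hbz2 : b * (u * z1 * u⁻¹) = (u * z1 * u⁻¹) * b := by
      have h1 := pr_mul hb d.pz2
      rw [hxz] at h1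
      exact (d.toNA.cjL u).pr_unique h1 (pr_mul d.pz2 hb)
    have ha4 : a ^ 4 = 1 := d.pow4 ha.1 ((d.czL ha.1).mpr haz1)
    have hb4 : b ^ 4 = 1 := by
      have hbL : u⁻¹ * b * u ∈ L := mem_cj.mp hb.1
      have h1 : (u⁻¹ * b * u) * z1 = z1 * (u⁻¹ * b * u) := by
        calc (u⁻¹ * b * u) * z1 = u⁻¹ * (b * (u * z1 * u⁻¹)) * u := by group
          _ = u⁻¹ * ((u * z1 * u⁻¹) * b) * u := by rw [hbz2]
          _ = _ := by group
      have h2 := d.pow4 hbL ((d.czL hbL).mpr h1)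
      have h3 : b = u * (u⁻¹ * b * u) * u⁻¹ := by group
      rw [h3, conj_pow, h2]; group
    have hpow : ∀ {K : Subgroup G} {x a : G}, Pr K x a → ∀ n : ℕ, Pr K (x ^ n) (a ^ n) := by
      intro K x a h n
      induction n with
      | zero => rw [pow_zero, pow_zero]; exact pr_self (one_mem _)
      | succ k ih => rw [pow_succ, pow_succ]; exact pr_mul ih h
    have p1 := hpow ha 4
    have p2 := hpow hb 4
    rw [ha4] at p1
    rw [hb4] at p2
    exact d.ext2 p1 (pr_self (one_mem _)) p2 (pr_self (one_mem _))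
  -- `M ∩ C(z) ≤ Q`
  have hD : ∀ x ∈ M, x * z = z * x → x ∈ Q := by
    have hn : (M.subgroupOf (centralizer ({z} : Set G))).Normal := by
      haveI := d.Mn
      infer_instance
    have h2 : IsPGroup 2 (M.subgroupOf (centralizer ({z} : Set G))) := by
      intro x
      refine ⟨2, ?_⟩
      apply Subtype.ext
      apply Subtype.ext
      exact h4 _ (mem_subgroupOf.mp x.2) (mem_centralizer_singleton_iff.mp (x : ↥(centralizer ({z} : Set G))).2)
    have h3 := Cores.le_pCore hn h2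
    intro x hx hxz
    rw [hQ]
    exact ⟨⟨x, mem_centralizer_singleton_iff.mpr hxz⟩, h3 (mem_subgroupOf.mpr hx), rfl⟩
  haveI := d.toNA.simple
  refine simple_small (K := L) d.toNA.not_comm (t := ⟨z1, d.z1L⟩) (Subtype.ext d.z1z1)
    (fun h => d.z1ne (congrArg Subtype.val h)) ?_
  rintro ⟨a, haL⟩ ha
  have haz1 : a * z1 = z1 * a := congrArg Subtype.val ha
  have haz := (d.czL haL).mpr haz1
  have haQ := hD a (d.mi.le haL) haz
  have hp : Pr L (u * a * u⁻¹) 1 := pr_one_of (fun b hb => (d.cm hb (conj_mem_cj haL)).symm)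
  rcases d.h.cm u d.uQ a haQ with h1 | h1
  · left
    apply Subtype.ext
    show a = 1
    rw [h1] at hp
    have e : a * u * u⁻¹ = a := by group
    rw [e] at hp
    exact d.toNA.pr_unique (pr_self haL) hp
  · right
    apply Subtype.ext
    show a = z1
    rw [h1] at hp
    have e : z * (a * u) * u⁻¹ = z * a := by group
    rw [e] at hp
    have h2 := d.toNA.pr_unique (pr_mul d.pz (pr_self haL)) hp
    have h3 : a = z1⁻¹ := eq_inv_of_mul_eq_one_right h2
    rw [h3, d.z1i]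

end TW

theorem NA.exists_u [Finite G] {Q : Subgroup G} {z : G} {M L : Subgroup G} (d : NA Q z M L)
    (hne : ∃ g : G, cj g L ≠ L) : ∃ u ∈ Q, cj u L ≠ L := by
  by_contra hcon
  push Not at hcon
  obtain ⟨g, hg⟩ := hne
  obtain ⟨z1, pz⟩ := d.exists_pr d.zM
  have hz1 := d.zpr_ne pz
  have hzL : z ∉ L := by
    intro hc
    have h1 : NA.Pr (cj g L) z 1 := NA.pr_one_of (fun b hb => d.mi.comm (d.mig g) hg.symm z hc b hb)
    exact (d.cjL g).zpr_ne h1 rfl
  have hQL : ∀ a ∈ Q, a ∈ L → a = 1 := by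
    intro a haQ haL
    by_contra ha1
    by_cases haz : a = z
    · exact hzL (haz ▸ haL)
    · obtain ⟨e, he, hea⟩ := d.h.noncentral haQ ha1 haz
      have h1 : e * a * e⁻¹ ∈ L := by
        have := conj_mem_cj (g := e) haL
        rwa [hcon e he] at this
      rw [hea] at h1
      apply hzL
      have e1 : z = (z * (a * e) * e⁻¹) * a⁻¹ := by group
      rw [e1]
      exact mul_mem h1 (inv_mem haL)
  have hz1z : z1 * z = z * z1 := (NA.comm_iff pz pz.1).mpr rfl
  have hcomm : ∀ q ∈ Q, z1 * q = q * z1 := by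
    intro q hq
    have h1 : z1 * q * z1⁻¹ * q⁻¹ ∈ Q := mul_mem (d.h.NQ z1 hz1z q hq) (inv_mem hq)
    have h2 : z1 * q * z1⁻¹ * q⁻¹ ∈ L := by
      have h3 : q * z1⁻¹ * q⁻¹ ∈ L := by
        have := conj_mem_cj (g := q) (inv_mem pz.1)
        rwa [hcon q hq] at this
      have e : z1 * q * z1⁻¹ * q⁻¹ = z1 * (q * z1⁻¹ * q⁻¹) := by group
      rw [e]; exact mul_mem pz.1 h3
    exact ExtraH28.comm_eq_one_iff.mp (hQL _ h1 h2)
  exact hz1 (hQL z1 (d.h.CQ z1 hcomm) pz.1)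

end CfsgLib.LargeStr28
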