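import Mathlib
import Cfsg.Agent.LibLargeStr28B
import Cfsg.Agent.LibExtraH28

set_option autoImplicit false

/-! Structure of groups with a large extraspecial 2-subgroup, III (helper28). -/

namespace CfsgLib.LargeStr28

open Subgroup
open CfsgLib.LargeExtraH28 CfsgLib.LargePairH28 CfsgLib.LargeGFH28

variable {G : Type*} [Group G]

theorem TW.frat [Finite G] {Q : Subgroup G} {z : G} {M L : Subgroup G} {u z1 : G}
    (d : TW Q z M L u z1) (R : Sylow 2 L)
    (hR : (R : Subgroup L) = (centralizer ({z1} : Set G)).subgroupOf L) :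
    (frattini ↥(R : Subgroup ↥L)).map ((L.subtype).comp (R : Subgroup ↥L).subtype) ≤
      zpowers z1 := by
  haveI : Fact (Nat.Prime 2) := ⟨Nat.prime_two⟩
  have hRm : ∀ x : (R : Subgroup L), ((x : L) : G) * z1 = z1 * ((x : L) : G) := by
    intro x
    have h1 : (x : L) ∈ (centralizer ({z1} : Set G)).subgroupOf L := by rw [← hR]; exact x.2
    rw [mem_subgroupOf, mem_centralizer_singleton_iff] at h1
    exact h1
  set f : (R : Subgroup L) →* G := (L.subtype).comp (R : Subgroup ↥L).subtype with hf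
  have hfx : ∀ x, f x = ((x : L) : G) := fun x => rfl
  set N : Subgroup (R : Subgroup L) := (zpowers z1).comap f with hN
  haveI : N.Normal := by
    refine ⟨fun n hn x => ?_⟩
    rw [hN, mem_comap] at hn ⊢
    rw [map_mul, map_mul, map_inv]
    obtain ⟨k, hk⟩ := hn
    have hc : Commute (f x) z1 := hRm x
    have h1 : f x * f n * (f x)⁻¹ = f n := by
      rw [← hk]
      show f x * z1 ^ k * (f x)⁻¹ = z1 ^ k
      rw [(hc.zpow_right k).eq]; group
    rw [h1, ← hk]
    exact ⟨k, rfl⟩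
  have hz1mem : z1 ∈ zpowers z1 := Subgroup.mem_zpowers z1
  have h1 : frattini ↥(R : Subgroup ↥L) ≤ N := by
    apply ExtraH28.frattini_le_of_elem (p := 2)
    · intro x
      rw [hN, mem_comap, map_pow, pow_two]
      rcases d.sq (x : L).2 ((d.czL (x : L).2).mpr (hRm x)) with h1 | h1
      · rw [hfx, h1]; exact one_mem _
      · rw [hfx, h1]; exact hz1mem
    · intro x y
      rw [hN, mem_comap, map_mul, map_mul, map_mul, map_inv, map_inv]
      rcases d.comm' (x : L).2 ((d.czL (x : L).2).mpr (hRm x)) (y : L).2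
        ((d.czL (y : L).2).mpr (hRm y)) with h1 | h1
      · rw [hfx, hfx, h1]
        have e : ((y : L) : G) * ((x : L) : G) * ((x : L) : G)⁻¹ * ((y : L) : G)⁻¹ = 1 := by group
        rw [e]; exact one_mem _
      · rw [hfx, hfx, h1]
        have e : z1 * (((y : L) : G) * ((x : L) : G)) * ((x : L) : G)⁻¹ * ((y : L) : G)⁻¹ = z1 := by
          group
        rw [e]; exact hz1mem
  rw [map_le_iff_le_comap]
  exact h1

theorem main [Finite G] {Q : Subgroup G} {z : G} {M : Subgroup G} (d : LG Q z M) :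
    Q.Normal ∨ (IsMulCommutative ↥M ∧ Cfsg.generalizedFittingSubgroup G = Cfsg.pCore 2 G) ∨ (M = Cfsg.generalizedFittingSubgroup G ∧ IsSimpleGroup ↥M ∧ ¬ IsMulCommutative ↥M) ∨ (M = Cfsg.generalizedFittingSubgroup G ∧ ∃ (L : Subgroup G) (u : G), u ∈ Q ∧ IsSimpleGroup ↥L ∧ ¬ IsMulCommutative ↥L ∧ L ⊓ (L).map (MulAut.conj u).toMonoidHom = ⊥ ∧ (∀ x ∈ L, ∀ y ∈ (L).map (MulAut.conj u).toMonoidHom, x * y = y * x) ∧ L ⊔ (L).map (MulAut.conj u).toMonoidHom = M ∧ ∃ z₁ ∈ L, z = z₁ * (u * z₁ * u⁻¹) ∧ (∃ R : Sylow 2 ↥L, (R : Subgroup ↥L) = (Subgroup.centralizer ({z₁} : Set G)).subgroupOf L ∧ (frattini ↥(R : Subgroup ↥L)).map ((L.subtype).comp (R : Subgroup ↥L).subtype) ≤ Subgroup.zpowers z₁) ∧ Q ≠ (Cfsg.pCore 2 ↥(Subgroup.centralizer ({z} : Set G))).map (Subgroup.centralizer ({z} : Set G)).subtype) := by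
  right
  by_cases hab : ∀ a ∈ M, ∀ b ∈ M, a * b = b * a
  · left
    exact ⟨⟨⟨fun a b => Subtype.ext (hab a a.2 b b.2)⟩⟩, d.abelian_case hab⟩
  right
  have hM : M ≠ ⊥ := by
    intro hc
    have := d.zM
    rw [hc, mem_bot] at this
    exact d.h.z1 this
  obtain ⟨L, hL⟩ := exists_MI hM
  have n : NA Q z M L := { toLG := d, mi := hL, na := hab }
  by_cases hall : ∃ g : G, cj g L ≠ L
  · right
    obtain ⟨u, hu, hne⟩ := n.exists_u hall
    obtain ⟨z1, pz⟩ := n.exists_pr d.zM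
    have w : TW Q z M L u z1 := { toNA := n, uQ := hu, ne := hne, pz := pz }
    obtain ⟨R, hR⟩ := w.sylow
    exact ⟨n.gF, L, u, hu, n.simple, n.not_comm, w.inf2, fun x hx y hy => w.cm hx hy, w.M_le2,
      z1, w.z1L, w.z_eq, ⟨R, hR, w.frat R hR⟩, w.ne_core⟩
  · left
    push Not at hall
    have h1 : M = L := le_antisymm (n.M_le (fun g => (hall g).le)) hL.le
    refine ⟨n.gF, ?_, ?_⟩
    · rw [h1]; exact n.simple
    · rw [h1]; exact n.not_comm

end CfsgLib.LargeStr28
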