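import Cfsg.Agent.LibSGLz
import Cfsg.Agent.LibCores

set_option autoImplicit false

/-!
Fixed-point-free automorphisms of `p`-power order: group-theoretic reduction (helper4).
-/

namespace CfsgLib.SGGrp

open CfsgLib.SGProp1 CfsgLib.SGLz Cfsg
open scoped commutatorElement

universe u v

section Basic

variable {G : Type u} [Group G]

/-- the commutator subgroup `[G, s]` -/
def cm (s : MulAut G) : Subgroup G := Subgroup.closure (Set.range fun g => s g * g⁻¹)

theorem mem_cm (s : MulAut G) (g : G) : s g * g⁻¹ ∈ cm s := Subgroup.subset_closure ⟨g, rfl⟩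

theorem cm_le {s : MulAut G} {H : Subgroup G} (h : ∀ g, s g * g⁻¹ ∈ H) : cm s ≤ H :=
  (Subgroup.closure_le H).2 (by rintro _ ⟨g, rfl⟩; exact h g)

theorem cm_normal (s : MulAut G) : (cm s).Normal := by
  constructor
  intro x hx y
  refine Subgroup.closure_induction (p := fun x _ => y * x * y⁻¹ ∈ cm s) ?_ ?_ ?_ ?_ hx
  · rintro _ ⟨g, rfl⟩
    have h1 : y * (s g * g⁻¹) * y⁻¹ = (s y * y⁻¹)⁻¹ * (s (y * g) * (y * g)⁻¹) := by
      rw [map_mul]; group
    show y * (s g * g⁻¹) * y⁻¹ ∈ cm s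
    rw [h1]
    exact mul_mem (inv_mem (mem_cm s y)) (mem_cm s (y * g))
  · simp
  · intro a b _ _ ha hb
    have h1 : y * (a * b) * y⁻¹ = (y * a * y⁻¹) * (y * b * y⁻¹) := by group
    rw [h1]; exact mul_mem ha hb
  · intro a _ ha
    have h1 : y * a⁻¹ * y⁻¹ = (y * a * y⁻¹)⁻¹ := by group
    rw [h1]; exact inv_mem ha

/-- quotient automorphism -/
def qs (σ : MulAut G) (N : Subgroup G) [N.Normal] (hN : ∀ x, σ x ∈ N ↔ x ∈ N) : MulAut (G ⧸ N) :=
  QuotientGroup.congr N N σ (by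
    ext x
    constructor
    · rintro ⟨y, hy, rfl⟩
      exact (hN y).2 hy
    · intro hx
      exact ⟨σ⁻¹ x, (hN _).1 (by rw [MulAut.apply_inv_self]; exact hx), MulAut.apply_inv_self _ _ _⟩)

theorem qs_mk (σ : MulAut G) (N : Subgroup G) [N.Normal] (hN : ∀ x, σ x ∈ N ↔ x ∈ N) (x : G) :
    qs σ N hN (x : G ⧸ N) = ((σ x : G) : G ⧸ N) := rfl

theorem qs_pow (σ : MulAut G) (N : Subgroup G) [N.Normal] (hN : ∀ x, σ x ∈ N ↔ x ∈ N) (k : ℕ) (x : G) :
    ((qs σ N hN) ^ k) (x : G ⧸ N) = (((σ ^ k) x : G) : G ⧸ N) := by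
  induction k with
  | zero => rfl
  | succ k ih => rw [pow_succ', MulAut.mul_apply, ih, pow_succ', MulAut.mul_apply, qs_mk]

theorem qs_fpf [Finite G] {σ : MulAut G} (hσ : ∀ x, σ x = x → x = 1) (N : Subgroup G) [N.Normal] (hN : ∀ x, σ x ∈ N ↔ x ∈ N) :
    ∀ x, qs σ N hN x = x → x = 1 := by
  intro x hx
  obtain ⟨x, rfl⟩ := QuotientGroup.mk_surjective x
  rw [qs_mk] at hx
  let g : N → N := fun a => a⁻¹ * ⟨σ (a : G), (hN _).2 a.2⟩
  have hg : Function.Injective g := by
    intro a b hab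
    have h1 : (a : G)⁻¹ * σ (a : G) = (b : G)⁻¹ * σ (b : G) := congrArg Subtype.val hab
    have h2 : σ ((b : G) * (a : G)⁻¹) = (b : G) * (a : G)⁻¹ := by
      rw [map_mul, map_inv]
      calc σ (b : G) * (σ (a : G))⁻¹ = b * ((b : G)⁻¹ * σ (b : G)) * (σ (a : G))⁻¹ := by group
        _ = b * ((a : G)⁻¹ * σ (a : G)) * (σ (a : G))⁻¹ := by rw [h1]
        _ = _ := by group
    exact Subtype.ext (mul_inv_eq_one.1 (hσ _ h2)).symm
  obtain ⟨y, hy⟩ := Finite.surjective_of_injective hg ⟨x⁻¹ * σ x, QuotientGroup.eq.1 hx.symm⟩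
  have h1 : (y : G)⁻¹ * σ (y : G) = x⁻¹ * σ x := congrArg Subtype.val hy
  have h2 : σ (x * (y : G)⁻¹) = x * (y : G)⁻¹ := by
    rw [map_mul, map_inv]
    calc σ x * (σ (y : G))⁻¹ = x * (x⁻¹ * σ x) * (σ (y : G))⁻¹ := by group
      _ = x * ((y : G)⁻¹ * σ (y : G)) * (σ (y : G))⁻¹ := by rw [h1]
      _ = _ := by group
  have h3 : x = y := mul_inv_eq_one.1 (hσ _ h2)
  exact (QuotientGroup.eq_one_iff _).2 (h3 ▸ y.2)

theorem map_cm (s : MulAut G) (N : Subgroup G) [N.Normal] (hN : ∀ x, s x ∈ N ↔ x ∈ N) :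
    (cm s).map (QuotientGroup.mk' N) = cm (qs s N hN) := by
  rw [cm, cm, MonoidHom.map_closure]
  congr 1
  ext x
  constructor
  · rintro ⟨_, ⟨g, rfl⟩, rfl⟩
    exact ⟨(g : G ⧸ N), rfl⟩
  · rintro ⟨g, rfl⟩
    obtain ⟨g, rfl⟩ := QuotientGroup.mk_surjective g
    exact ⟨_, ⟨g, rfl⟩, rfl⟩

theorem lcs_le_of_map (M N : Subgroup G) [N.Normal] (k : ℕ) (h : (M.map (QuotientGroup.mk' N)).lowerCentralSeries k = ⊥) :
    M.lowerCentralSeries k ≤ N := by
  rw [← Subgroup.map_lowerCentralSeries, Subgroup.map_eq_bot_iff, QuotientGroup.ker_mk'] at h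
  exact h

/-- coprimality of the order -/
theorem coprime_of_fpf [Finite G] {p n : ℕ} [hpf : Fact p.Prime] {σ : MulAut G} (hσn : ∀ x, (σ ^ p ^ n) x = x)
    (hσ : ∀ x, σ x = x → x = 1) : p.Coprime (Nat.card G) := by
  have hp := hpf.out
  have h1 : σ ^ p ^ n = 1 := by
    ext x; rw [hσn]; rfl
  have h2 : IsPGroup p (Subgroup.zpowers σ) := by
    obtain ⟨b, _, hb⟩ := (Nat.dvd_prime_pow hp).1 (orderOf_dvd_of_pow_eq_one h1)
    apply IsPGroup.of_card (n := b)
    rw [Nat.card_zpowers, hb]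
  have h3 := h2.card_modEq_card_fixedPoints G
  have h4 : MulAction.fixedPoints (Subgroup.zpowers σ) G = {1} := by
    ext x
    rw [MulAction.mem_fixedPoints, Set.mem_singleton_iff]
    constructor
    · intro h
      exact hσ x (h ⟨σ, Subgroup.mem_zpowers σ⟩)
    · rintro rfl m
      exact map_one (m : MulAut G)
  rw [h4] at h3
  rw [Nat.Prime.coprime_iff_not_dvd hp]
  intro hd
  have h5 : Nat.card ({1} : Set G) = 1 := by simp
  rw [h5] at h3
  have h6 := (Nat.modEq_zero_iff_dvd.2 hd).symm.trans h3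
  exact hp.one_lt.ne' (Nat.dvd_one.1 ((Nat.modEq_zero_iff_dvd).1 h6.symm))

theorem tel' {p : ℕ} (hpG : p.Coprime (Nat.card G)) (s : MulAut G) (hs : ∀ x, (s ^ p) x = x) (y : G)
    (hz : s (y⁻¹ * s y) = y⁻¹ * s y) : s y = y := by
  set z := y⁻¹ * s y with hzdef
  have h8 : s y = y * z := by rw [hzdef, mul_inv_cancel_left]
  have h1 : ∀ i : ℕ, (s ^ i) y = y * z ^ i := by
    intro i
    induction i with
    | zero => simp
    | succ i ih => rw [pow_succ', MulAut.mul_apply, ih, map_mul, map_pow, hz, h8, pow_succ', mul_assoc]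
  have h2 := h1 p
  rw [hs] at h2
  have h3 : z ^ p = 1 := (mul_eq_left.1 h2.symm)
  have h7 : orderOf z = 1 :=
    Nat.eq_one_of_dvd_coprimes hpG (orderOf_dvd_of_pow_eq_one h3) (orderOf_dvd_natCard z)
  rw [h8, orderOf_eq_one_iff.1 h7, mul_one]

/-- an automorphism of order prime to the order of a soluble group which is trivial on all `O_q` is trivial -/
theorem triv_of_cores [Finite G] (hG : Group.IsSolvable G) {p : ℕ} (hpG : p.Coprime (Nat.card G)) (s : MulAut G)
    (hs : ∀ x, (s ^ p) x = x) (h : ∀ q : ℕ, q.Prime → ∀ x ∈ pCore q G, s x = x) : ∀ x, s x = x := by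
  haveI := hG
  let C : Subgroup G :=
    { carrier := {x | s x = x}
      mul_mem' := by
        intro a b ha hb
        show s (a * b) = a * b
        rw [map_mul, ha, hb]
      one_mem' := map_one s
      inv_mem' := by
        intro a ha
        show s a⁻¹ = a⁻¹
        rw [map_inv, ha] }
  have hF : fittingSubgroup G ≤ C := by
    rw [CfsgLib.Cores.fittingSubgroup_eq_iSup_pCore]
    exact iSup_le fun q => fun x hx => h q q.2 x hx
  intro x
  have h1 : s x * x⁻¹ ∈ Subgroup.centralizer (fittingSubgroup G : Set G) := by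
    rw [Subgroup.mem_centralizer_iff]
    intro f hf
    have h5 : x⁻¹ * f * x ∈ fittingSubgroup G := by
      have := (CfsgLib.Cores.fittingSubgroup_normal (G := G)).conj_mem f hf x⁻¹
      rwa [inv_inv] at this
    have h6 : s (x⁻¹ * f * x) = x⁻¹ * f * x := hF h5
    have h7 : s f = f := hF hf
    rw [map_mul, map_mul, map_inv, h7] at h6
    calc f * (s x * x⁻¹) = s x * ((s x)⁻¹ * f * s x) * x⁻¹ := by group
      _ = s x * (x⁻¹ * f * x) * x⁻¹ := by rw [h6]
      _ = _ := by group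
  have h2 : s (s x * x⁻¹) = s x * x⁻¹ := hF (CfsgLib.Cores.centralizer_fittingSubgroup_le h1)
  have h3 := tel' hpG s hs x⁻¹ (by
    have h4 : (x⁻¹)⁻¹ * s x⁻¹ = (s x * x⁻¹)⁻¹ := by rw [map_inv]; group
    rw [h4, map_inv, h2])
  rw [map_inv] at h3
  exact inv_injective h3

end Basic

section Irr

variable {G : Type u} [Group G] [Finite G]

/-- a minimal invariant normal subgroup -/
theorem exists_min (σ : MulAut G) [Nontrivial G] : ∃ V : Subgroup G, V ≠ ⊥ ∧ V.Normal ∧ (∀ x, σ x ∈ V ↔ x ∈ V) ∧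
    ∀ U ≤ V, U.Normal → (∀ x, σ x ∈ U ↔ x ∈ U) → U = ⊥ ∨ U = V := by
  classical
  obtain ⟨V, hV⟩ := (Set.toFinite {V : Subgroup G | V ≠ ⊥ ∧ V.Normal ∧ (∀ x, σ x ∈ V ↔ x ∈ V)}).exists_minimal
    ⟨⊤, top_ne_bot, inferInstance, fun x => by simp⟩
  refine ⟨V, hV.1.1, hV.1.2.1, hV.1.2.2, ?_⟩
  intro U hU hUn hUσ
  by_cases h : U = ⊥
  · exact Or.inl h
  · exact Or.inr (le_antisymm hU (hV.2 ⟨h, hUn, hUσ⟩ hU))

variable {σ : MulAut G} {V : Subgroup G}

theorem irr1 (hG : Group.IsSolvable G) (hV0 : V ≠ ⊥) [hVn : V.Normal] (hVσ : ∀ x, σ x ∈ V ↔ x ∈ V)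
    (hmin : ∀ U ≤ V, U.Normal → (∀ x, σ x ∈ U ↔ x ∈ U) → U = ⊥ ∨ U = V) :
    ∃ r : ℕ, r.Prime ∧ (∀ x ∈ V, x ^ r = 1) ∧ (∀ x ∈ V, ∀ y ∈ V, x * y = y * x) ∧
      pCore r (G ⧸ Subgroup.centralizer (V : Set G)) = ⊥ := by
  haveI := hG
  -- abelian
  have hab : ⁅V, V⁆ = ⊥ := by
    rcases hmin ⁅V, V⁆ (Subgroup.commutator_le_self V) inferInstance (by
      apply inv_iff
      intro x hx
      have h1 : (⁅V, V⁆).map σ.toMonoidHom ≤ ⁅V, V⁆ := by
        rw [Subgroup.map_commutator]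
        have h2 : V.map σ.toMonoidHom ≤ V := by
          rintro _ ⟨y, hy, rfl⟩
          exact (hVσ y).2 hy
        exact Subgroup.commutator_mono h2 h2
      exact h1 ⟨x, hx, rfl⟩) with h | h
    · exact h
    · exfalso
      haveI : Nontrivial V := (Subgroup.nontrivial_iff_ne_bot V).2 hV0
      have h2 := (Group.IsSolvable.commutator_lt_top_of_nontrivial V).ne
      apply h2
      have h3 := Subgroup.map_subtype_commutator V
      rw [h] at h3
      apply Subgroup.map_injective V.subtype_injective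
      rw [h3, ← MonoidHom.range_eq_map, Subgroup.range_subtype]
  have hcomm : ∀ x ∈ V, ∀ y ∈ V, x * y = y * x := by
    intro x hx y hy
    have h1 : ⁅x, y⁆ ∈ ⁅V, V⁆ := Subgroup.commutator_mem_commutator hx hy
    rw [hab, Subgroup.mem_bot, commutatorElement_eq_one_iff_mul_comm] at h1
    exact h1
  have hcard1 : Nat.card V ≠ 1 := fun h => hV0 (Subgroup.card_eq_one.1 h)
  obtain ⟨r, hr, hrd⟩ := Nat.exists_prime_and_dvd hcard1
  haveI : Fact r.Prime := ⟨hr⟩
  let U : Subgroup G :=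
    { carrier := {x | x ∈ V ∧ x ^ r = 1}
      mul_mem' := by
        rintro a b ⟨ha, ha'⟩ ⟨hb, hb'⟩
        refine ⟨mul_mem ha hb, ?_⟩
        rw [(show Commute a b from hcomm a ha b hb).mul_pow, ha', hb', one_mul]
      one_mem' := ⟨one_mem _, one_pow _⟩
      inv_mem' := by
        rintro a ⟨ha, ha'⟩
        exact ⟨inv_mem ha, by rw [inv_pow, ha', inv_one]⟩ }
  have hUV : U = V := by
    rcases hmin U (fun x hx => hx.1) ⟨by
      rintro x ⟨hx, hx'⟩ g
      refine ⟨hVn.conj_mem x hx g, ?_⟩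
      rw [conj_pow, hx', mul_one, mul_inv_cancel]⟩ (by
      intro x
      show (σ x ∈ V ∧ (σ x) ^ r = 1) ↔ (x ∈ V ∧ x ^ r = 1)
      rw [hVσ, ← map_pow, map_eq_one_iff σ σ.injective]) with h | h
    · exfalso
      obtain ⟨x, hx⟩ := exists_prime_orderOf_dvd_card' r hrd
      have h1 : (x : G) ∈ U := by
        refine ⟨x.2, ?_⟩
        have := pow_orderOf_eq_one x
        rw [hx] at this
        exact congrArg Subtype.val this
      rw [h, Subgroup.mem_bot] at h1
      have h2 : x = 1 := Subtype.ext h1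
      rw [h2, orderOf_one] at hx
      exact hr.one_lt.ne hx
    · exact h
  have hexp : ∀ x ∈ V, x ^ r = 1 := by
    intro x hx
    rw [← hUV] at hx
    exact hx.2
  refine ⟨r, hr, hexp, hcomm, ?_⟩
  set C := Subgroup.centralizer (V : Set G) with hC
  have hCσ : ∀ x, σ x ∈ C ↔ x ∈ C := by
    apply inv_iff
    intro x hx
    rw [hC, Subgroup.mem_centralizer_iff] at hx ⊢
    intro c hc
    have h4 : σ⁻¹ c ∈ V := (hVσ _).1 (by rw [MulAut.apply_inv_self]; exact hc)
    have h5 := congrArg σ (hx _ h4)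
    rw [map_mul, map_mul, MulAut.apply_inv_self] at h5
    exact h5
  -- the preimage of the core
  set N := (pCore r (G ⧸ C)).comap (QuotientGroup.mk' C) with hN
  haveI hNn : N.Normal := by rw [hN]; infer_instance
  have hNσ : ∀ x, σ x ∈ N ↔ x ∈ N := by
    apply inv_iff
    intro x hx
    have h1 : QuotientGroup.mk' C x ∈ pCore r (G ⧸ C) := hx
    have h2 : qs σ C hCσ (QuotientGroup.mk' C x) ∈ pCore r (G ⧸ C) :=
      Subgroup.characteristic_iff_map_le.1 (CfsgLib.Cores.pCore_characteristic (G := G ⧸ C) r) (qs σ C hCσ) ⟨_, h1, rfl⟩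
    exact h2
  -- the action of the core on `V`
  let a : G ⧸ C →* MulAut V := QuotientGroup.lift C MulAut.conjNormal (by
    intro x hx
    ext v
    rw [MulAut.conjNormal_apply, MulAut.one_apply]
    rw [hC, Subgroup.mem_centralizer_iff] at hx
    rw [← hx v v.2, mul_inv_cancel_right])
  letI act : MulAction (pCore r (G ⧸ C)) V := MulAction.compHom V (a.comp (pCore r (G ⧸ C)).subtype)
  have hact : ∀ (x : G) (hx : QuotientGroup.mk' C x ∈ pCore r (G ⧸ C)) (v : V),
      (((⟨QuotientGroup.mk' C x, hx⟩ : pCore r (G ⧸ C)) • v : V) : G) = x * v * x⁻¹ := fun x hx v => rfl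
  have h3 := (CfsgLib.Cores.pCore_isPGroup (G := G ⧸ C) r).card_modEq_card_fixedPoints V
  have h4 : r ∣ Nat.card (MulAction.fixedPoints (pCore r (G ⧸ C)) V) := by
    rw [← Nat.modEq_zero_iff_dvd] at hrd ⊢
    exact h3.symm.trans hrd
  have h5 : ∃ v : V, v ∈ MulAction.fixedPoints (pCore r (G ⧸ C)) V ∧ v ≠ 1 := by
    by_contra hcon
    push Not at hcon
    have h6 : MulAction.fixedPoints (pCore r (G ⧸ C)) V = {1} := by
      ext v
      rw [Set.mem_singleton_iff]
      constructor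
      · exact hcon v
      · rintro rfl m
        exact map_one ((a.comp (pCore r (G ⧸ C)).subtype) m)
    rw [h6] at h4
    have h7 : Nat.card ({1} : Set V) = 1 := by simp
    rw [h7] at h4
    exact hr.one_lt.ne' (Nat.dvd_one.1 h4)
  obtain ⟨v, hv, hv1⟩ := h5
  have hVN : V ⊓ Subgroup.centralizer (N : Set G) = V := by
    rcases hmin (V ⊓ Subgroup.centralizer (N : Set G)) inf_le_left inferInstance (by
      apply inv_iff
      rintro x ⟨hx1, hx2⟩
      refine ⟨(hVσ x).2 hx1, ?_⟩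
      have hx2' : x ∈ Subgroup.centralizer (N : Set G) := hx2
      show σ x ∈ Subgroup.centralizer (N : Set G)
      rw [Subgroup.mem_centralizer_iff] at hx2' ⊢
      intro c hc
      have h4 : σ⁻¹ c ∈ N := (hNσ _).1 (by rw [MulAut.apply_inv_self]; exact hc)
      have h5 := congrArg σ (hx2' _ h4)
      rw [map_mul, map_mul, MulAut.apply_inv_self] at h5
      exact h5) with h | h
    · exfalso
      apply hv1
      have h6 : (v : G) ∈ V ⊓ Subgroup.centralizer (N : Set G) := by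
        refine ⟨v.2, ?_⟩
        show (v : G) ∈ Subgroup.centralizer (N : Set G)
        rw [Subgroup.mem_centralizer_iff]
        intro x hx
        have h7 := hact x hx v
        rw [hv ⟨QuotientGroup.mk' C x, hx⟩] at h7
        exact (eq_mul_inv_iff_mul_eq.1 h7).symm
      rw [h, Subgroup.mem_bot] at h6
      exact Subtype.ext h6
    · exact h
  have hNC : N ≤ C := by
    intro x hx
    rw [hC, Subgroup.mem_centralizer_iff]
    intro v hv
    have h6 : v ∈ Subgroup.centralizer (N : Set G) := by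
      rw [← hVN] at hv
      exact hv.2
    exact (Subgroup.mem_centralizer_iff.1 h6 x hx).symm
  rw [eq_bot_iff]
  intro x hx
  obtain ⟨x, rfl⟩ := QuotientGroup.mk'_surjective C x
  exact (QuotientGroup.eq_one_iff _).2 (hNC hx)

theorem cent_inv (hVσ : ∀ x, σ x ∈ V ↔ x ∈ V) (x : G) : σ x ∈ Subgroup.centralizer (V : Set G) ↔ x ∈ Subgroup.centralizer (V : Set G) := by
  revert x
  apply inv_iff
  intro x hx
  rw [Subgroup.mem_centralizer_iff] at hx ⊢
  intro c hc
  have h4 : σ⁻¹ c ∈ V := (hVσ _).1 (by rw [MulAut.apply_inv_self]; exact hc)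
  have h5 := congrArg σ (hx _ h4)
  rw [map_mul, map_mul, MulAut.apply_inv_self] at h5
  exact h5

/-- the faithful module attached to an invariant normal elementary abelian subgroup -/
theorem irr_mod {p n r : ℕ} (hr : r.Prime) [hVn : V.Normal] (hVσ : ∀ x, σ x ∈ V ↔ x ∈ V) (hexp : ∀ x ∈ V, x ^ r = 1)
    (hab : ∀ x ∈ V, ∀ y ∈ V, x * y = y * x) (hσ : ∀ x, σ x = x → x = 1) (hσn : ∀ x, (σ ^ p ^ n) x = x) :
    ∃ (F : Type) (_ : Field F) (_ : IsAlgClosed F) (_ : CharP F r) (W : Type u) (_ : AddCommGroup W) (_ : Module F W)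
      (_ : FiniteDimensional F W) (ρ : (G ⧸ Subgroup.centralizer (V : Set G)) →* Module.End F W) (T : Module.End F W),
      Function.Injective ρ ∧ T ^ p ^ n = 1 ∧ (∀ v, T v = v → v = 0) ∧
      (∀ x, T * ρ x = ρ (qs σ _ (cent_inv hVσ) x) * T) := by
  haveI : Fact r.Prime := ⟨hr⟩
  letI : CommGroup V := { (inferInstance : Group V) with mul_comm := fun a b => Subtype.ext (hab a a.2 b b.2) }
  obtain ⟨F, i1, i2, i3, W, i4, i5, i6, ρ₀, hinj, hfix, _⟩ := linearize (r := r) (V := V) (fun x => Subtype.ext (hexp x x.2))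
  set C := Subgroup.centralizer (V : Set G) with hC
  let a : G ⧸ C →* MulAut V := QuotientGroup.lift C MulAut.conjNormal (by
    intro x hx
    ext v
    rw [MulAut.conjNormal_apply, MulAut.one_apply]
    rw [hC, Subgroup.mem_centralizer_iff] at hx
    rw [← hx v v.2, mul_inv_cancel_right])
  have ha : Function.Injective a := by
    rw [injective_iff_map_eq_one]
    intro x hx
    obtain ⟨x, rfl⟩ := QuotientGroup.mk_surjective x
    rw [QuotientGroup.eq_one_iff, hC, Subgroup.mem_centralizer_iff]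
    intro v hv
    have h1 : MulAut.conjNormal x = (1 : MulAut V) := hx
    have h2 : ((MulAut.conjNormal x (⟨v, hv⟩ : V) : V) : G) = v := by rw [h1]; rfl
    rw [MulAut.conjNormal_apply] at h2
    exact (mul_inv_eq_iff_eq_mul.1 h2).symm
  refine ⟨F, i1, i2, i3, W, i4, i5, i6, ρ₀.comp a, ρ₀ (rs σ V hVσ), hinj.comp ha, ?_, ?_, ?_⟩
  · rw [← map_pow]
    have h1 : (rs σ V hVσ) ^ p ^ n = 1 := by
      ext v
      rw [rs_pow, hσn]; rfl
    rw [h1, map_one]
  · apply hfix
    intro v hv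
    exact Subtype.ext (hσ _ (congrArg Subtype.val hv))
  · intro x
    obtain ⟨x, rfl⟩ := QuotientGroup.mk_surjective x
    rw [qs_mk]
    show ρ₀ _ * ρ₀ _ = ρ₀ _ * ρ₀ _
    rw [← map_mul, ← map_mul]
    congr 1
    ext v
    show σ (x * v * x⁻¹) = σ x * σ v * (σ x)⁻¹
    rw [map_mul, map_mul, map_inv]

end Irr

end CfsgLib.SGGrp
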