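import Cfsg.Agent.LibSGLz2
import Cfsg.Agent.LibSGGrp

set_option autoImplicit false

/-!
Applications of the eigenvalue theorem to coprime actions (helper4).
-/

namespace CfsgLib.SGApp

open Module CfsgLib.HHBExt CfsgLib.SGLin CfsgLib.SGExt CfsgLib.SGMain CfsgLib.SGWt CfsgLib.SGProp CfsgLib.SGProp1
open CfsgLib.SGLz CfsgLib.SGLz2 CfsgLib.SGGrp
open CfsgLib.HHBMain (wt_indep restrict_pow_apply)
open scoped commutatorElement

universe u v

section Conj

variable {G : Type u} [Group G]

/-- conjugation on a normalized subgroup -/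
def cnj (V : Subgroup G) : Subgroup.normalizer (V : Set G) →* MulAut V where
  toFun x :=
    { toFun := fun v => ⟨x * v * (x : G)⁻¹, (Subgroup.mem_normalizer_iff.1 x.2 v).1 v.2⟩
      invFun := fun v => ⟨(x : G)⁻¹ * v * x, (Subgroup.mem_normalizer_iff.1 x.2 _).2 (by
        have h1 : (x : G) * ((x : G)⁻¹ * v * x) * (x : G)⁻¹ = v := by group
        rw [h1]; exact v.2)⟩
      left_inv := fun v => Subtype.ext (by show (x : G)⁻¹ * (x * v * (x : G)⁻¹) * x = v; group)
      right_inv := fun v => Subtype.ext (by show (x : G) * ((x : G)⁻¹ * v * x) * (x : G)⁻¹ = v; group)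
      map_mul' := fun v w => Subtype.ext (by
        show (x : G) * (v * w) * (x : G)⁻¹ = (x * v * (x : G)⁻¹) * (x * w * (x : G)⁻¹); group) }
  map_one' := by
    ext v
    show (1 : G) * v * (1 : G)⁻¹ = v
    group
  map_mul' := by
    intro x y
    ext v
    show ((x * y : G)) * v * ((x * y : G))⁻¹ = x * (y * v * (y : G)⁻¹) * (x : G)⁻¹
    group

theorem cnj_apply (V : Subgroup G) (x : Subgroup.normalizer (V : Set G)) (v : V) : ((cnj V x v : V) : G) = x * v * (x : G)⁻¹ := rfl

theorem cnj_eq_iff (V : Subgroup G) (x y : Subgroup.normalizer (V : Set G)) : cnj V x = cnj V y ↔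
    ∀ v ∈ V, (x : G) * v * (x : G)⁻¹ = y * v * (y : G)⁻¹ := by
  constructor
  · intro h v hv
    have h1 := congrArg (fun f : MulAut V => ((f ⟨v, hv⟩ : V) : G)) h
    exact h1
  · intro h
    ext v
    exact h v v.2

variable [Finite G]

/-- prime-order automorphism without fixed points on the module acts trivially -/
theorem prime_fix {p q r : ℕ} (hp : p.Prime) (hq : q.Prime) (hr : r.Prime) (hpq : p ≠ q) (hpr : p ≠ r) (hqr : q ≠ r)
    (V Q : Subgroup G) (x : G) (hxr : x ^ r = 1) (hVp : ∀ v ∈ V, v ^ p = 1) (hVc : ∀ v ∈ V, ∀ w ∈ V, v * w = w * v)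
    (hxV : x ∈ Subgroup.normalizer (V : Set G)) (hQV : Q ≤ Subgroup.normalizer (V : Set G))
    (hxQ : x ∈ Subgroup.normalizer (Q : Set G)) (hQ : IsPGroup q Q)
    (hexc : q = 2 → (∃ n : ℕ, r = 2 ^ n + 1) → ∀ a ∈ Q, ∀ b ∈ Q, a * b = b * a)
    (hfix : ∀ v ∈ V, x * v = v * x → v = 1) : ∀ y ∈ Q, ∀ v ∈ V, (x * y * x⁻¹) * v * (x * y * x⁻¹)⁻¹ = y * v * y⁻¹ := by
  haveI : Fact p.Prime := ⟨hp⟩
  haveI : Fact q.Prime := ⟨hq⟩
  haveI : Fact r.Prime := ⟨hr⟩
  letI : CommGroup V := { (inferInstance : Group V) with mul_comm := fun a b => Subtype.ext (hVc a a.2 b b.2) }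
  obtain ⟨F, i1, i2, i3, W, i4, i5, i6, ρ₀, hinj, hfx, _⟩ := linearize (r := p) (V := V) (fun x => Subtype.ext (hVp x x.2))
  set t := cnj V ⟨x, hxV⟩ with ht
  let ρ : Q →* End F W := (ρ₀.comp (cnj V)).comp (Subgroup.inclusion hQV)
  have hρ : ∀ y : Q, ρ y = ρ₀ (cnj V ⟨y, hQV y.2⟩) := fun y => rfl
  let σ : MulAut Q := cnj Q ⟨x, hxQ⟩
  have hσ : ∀ y : Q, ((σ y : Q) : G) = x * y * x⁻¹ := fun y => rfl
  have hrF : (r : F) ≠ 0 := by
    intro h
    rw [CharP.cast_eq_zero_iff F p] at h
    exact hpr ((Nat.prime_dvd_prime_iff_eq hp hr).1 h)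
  have hqF : (q : F) ≠ 0 := by
    intro h
    rw [CharP.cast_eq_zero_iff F p] at h
    exact hpq ((Nat.prime_dvd_prime_iff_eq hp hq).1 h)
  have hTr : (ρ₀ t) ^ r ^ 1 = 1 := by
    rw [pow_one, ← map_pow, ht, ← map_pow]
    have h1 : (⟨x, hxV⟩ : Subgroup.normalizer (V : Set G)) ^ r = 1 := Subtype.ext hxr
    rw [h1, map_one, map_one]
  have hT1 : ∀ w, ρ₀ t w = w → w = 0 := by
    apply hfx
    intro v hv
    have h1 : x * v * x⁻¹ = v := congrArg Subtype.val hv
    exact Subtype.ext (hfix v v.2 (mul_inv_eq_iff_eq_mul.1 h1))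
  have key : ∀ y : Q, ρ (σ y) = ρ y := by
    by_contra hcon
    push Not at hcon
    have hcfg : Cfg r q ρ σ (ρ₀ t) 1 := by
      refine ⟨le_rfl, ?_, hTr, hQ, ?_⟩
      · intro y
        rw [hρ, hρ, ← map_mul, ← map_mul, ht, ← map_mul, ← map_mul]
        congr 2
        apply Subtype.ext
        show x * y = x * y * x⁻¹ * x
        group
      · obtain ⟨y, hy⟩ := hcon
        refine ⟨y, ?_⟩
        have h1 : (σ ^ r ^ (1 - 1)) y = σ y := by rw [Nat.sub_self, pow_zero, pow_one]
        rw [h1]; exact hy
    have hconcl := CfsgLib.SGMain.main hrF hqF ((Nat.coprime_primes hr hq).2 (Ne.symm hqr)) _ Q W _ σ _ 1 hcfg le_rfl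
    have hrF' : ((r ^ 1 : ℕ) : F) ≠ 0 := by rw [pow_one]; exact hrF
    rcases hconcl with h2 | ⟨n₀, m, hn₀, hn₀1, hm, he, ⟨a, b, hab⟩, _⟩
    · obtain ⟨hmuf, hmuc⟩ := mu_ncard (F := F) (d := r ^ 1) (pow_pos hr.pos 1) hrF'
      have h3 : eig (ρ₀ t) = mu F (r ^ 1) := Set.eq_of_subset_of_ncard_le (eig_sub_mu hTr) (by rw [hmuc]; exact h2) hmuf
      have h4 : (1 : F) ∈ eig (ρ₀ t) := by rw [h3]; exact one_pow _
      obtain ⟨v, hv0, hv⟩ := mem_eig.1 h4
      rw [one_smul] at hv
      exact hv0 (hT1 v hv)
    · have h5 : n₀ = 1 := le_antisymm hn₀1 hn₀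
      subst h5
      rw [pow_one] at he
      have hm0 : m ≠ 0 := by omega
      have hr2 : r ≠ 2 := by
        rintro rfl
        have h6 : q ^ m = 1 := by omega
        rcases Nat.pow_eq_one.1 h6 with h7 | h7
        · exact hq.ne_one h7
        · exact hm0 h7
      obtain ⟨k, hk⟩ := hr.odd_of_ne_two hr2
      have hq2 : q = 2 := by
        have h6 : 2 ∣ q ^ m := by rw [← he]; exact ⟨k, by omega⟩
        exact ((Nat.prime_dvd_prime_iff_eq Nat.prime_two hq).1 (Nat.prime_two.dvd_of_dvd_pow h6)).symm
      subst hq2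
      exact hab (Subtype.ext (hexc rfl ⟨m, by have := hr.two_le; omega⟩ a a.2 b b.2))
  intro y hy v hv
  have h1 := hinj (key ⟨y, hy⟩)
  exact (cnj_eq_iff V _ _).1 h1 v hv

end Conj

section One

variable {F : Type*} [Field F] [IsAlgClosed F] {p q : ℕ} {Q : Type u} [Group Q] [Finite Q]

/-- if the fixed space is at most one-dimensional then commutators act trivially -/
theorem one_dim [hpf : Fact p.Prime] [hqf : Fact q.Prime] (hqF : (q : F) ≠ 0) (hQ : IsPGroup q Q) (σ : MulAut Q)
    (hσ : ∀ x, σ x = x → x = 1) : ∀ (N : ℕ) (W : Type v) [AddCommGroup W] [Module F W] [FiniteDimensional F W], finrank F W ≤ N →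
    ∀ (ρ : Q →* End F W) (T : End F W), (∀ x, T * ρ x = ρ (σ x) * T) → T ^ p = 1 → finrank F (LinearMap.ker (T - 1)) ≤ 1 →
    ∀ x y : Q, ρ ⁅x, y⁆ = 1 := by
  have hp := hpf.out
  have hcardF : (Nat.card Q : F) ≠ 0 := by
    obtain ⟨l, hl⟩ := IsPGroup.iff_card.1 hQ
    rw [hl, Nat.cast_pow]
    exact pow_ne_zero l hqF
  intro N
  induction N with
  | zero =>
    intro W _ _ _ hN ρ T _ _ _ x y
    haveI : Subsingleton W := Module.finrank_zero_iff.1 (Nat.le_zero.1 hN)
    ext v
    exact Subsingleton.elim _ _
  | succ N ih =>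
    intro W _ _ _ hN ρ T hT hTp hdim x y
    set A := cen ρ with hA
    have hgT : T ^ (p - 1) * T = 1 := by rw [← pow_succ, Nat.sub_add_cancel hp.pos, hTp]
    have hTg : T * T ^ (p - 1) = 1 := by rw [← pow_succ', Nat.sub_add_cancel hp.pos, hTp]
    have hAσ : ∀ x, σ x ∈ A ↔ x ∈ A := by
      apply inv_iff
      intro x hx y
      have h1 : T * ρ (σ⁻¹ y) = ρ y * T := by rw [hT, MulAut.apply_inv_self]
      have h2 : (ρ (σ x) * ρ y) * T = (ρ y * ρ (σ x)) * T := by
        calc (ρ (σ x) * ρ y) * T = ρ (σ x) * T * ρ (σ⁻¹ y) := by rw [mul_assoc, ← h1, ← mul_assoc]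
          _ = T * (ρ x * ρ (σ⁻¹ y)) := by rw [← hT, mul_assoc]
          _ = T * (ρ (σ⁻¹ y) * ρ x) := by rw [(hx (σ⁻¹ y)).eq]
          _ = _ := by rw [← mul_assoc, h1, mul_assoc, hT, mul_assoc]
      have h3 := congrArg (fun f => f * T ^ (p - 1)) h2
      show ρ (σ x) * ρ y = ρ y * ρ (σ x)
      simpa only [mul_assoc, hTg, mul_one] using h3
    have htop := wtA_top ρ A le_rfl hcardF
    have h2 : (⊤ : Submodule F W) ≤ LinearMap.eqLocus (ρ ⁅x, y⁆) 1 := by
      rw [← htop]
      apply iSup_le
      intro χ v hv
      rw [LinearMap.mem_eqLocus]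
      by_cases hv0 : v = 0
      · rw [hv0, map_zero, map_zero]
      have hχne : wtA ρ A χ ≠ ⊥ := fun hb => hv0 (by rw [hb] at hv; exact (Submodule.mem_bot F).1 hv)
      have hχ1 : χ 1 = 1 := by
        have h2 := hv 1
        rw [Subgroup.coe_one, map_one, Module.End.one_apply] at h2
        exact smul_left_injective F hv0 (by show χ 1 • v = (1 : F) • v; rw [one_smul]; exact h2.symm)
      have hχm : ∀ a b, χ (a * b) = χ a * χ b := by
        intro a b
        have h2 := hv (a * b)
        rw [Subgroup.coe_mul, map_mul, Module.End.mul_apply, hv b, map_smul, hv a, smul_smul] at h2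
        rw [mul_comm]
        exact smul_left_injective F hv0 h2.symm
      set R := wtA ρ A χ with hR
      have hRρ : ∀ x, R ≤ R.comap (ρ x) := wtA_inv le_rfl χ
      have hper : (tw σ A hAσ)^[p] χ = χ := by
        have h1 := tw_map_pow hT hAσ p χ hv
        rw [hTp] at h1
        exact (wtA_uniq hv0 hv h1).symm
      by_cases hfx : tw σ A hAσ χ = χ
      · -- the trivial weight
        have hχt : ∀ a, χ a = 1 := by
          apply char_triv σ hσ A hAσ χ hχ1 hχm
          intro a ha
          have h1 := tw_iter (F := F) hAσ 1 χ a (by simpa using ha)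
          rw [Function.iterate_one, hfx] at h1
          rw [← h1]
          congr 1
        by_cases hRt : R = ⊤
        · -- everything is trivial
          have hAtriv : ∀ a ∈ A, ρ a = 1 := by
            intro a ha
            ext w
            have hw : w ∈ R := hRt ▸ Submodule.mem_top
            have := hw ⟨a, ha⟩
            rw [hχt, one_smul] at this
            exact this
          have hall : ∀ z : Q, ρ z = 1 := by
            by_contra hcon
            push Not at hcon
            obtain ⟨z, hz⟩ := hcon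
            haveI : Nontrivial (Q ⧸ ρ.ker) := by
              refine ⟨⟨(z : Q ⧸ ρ.ker), 1, fun h => hz ?_⟩⟩
              rw [QuotientGroup.eq_one_iff, MonoidHom.mem_ker] at h
              exact h
            have hQk : IsPGroup q (Q ⧸ ρ.ker) := hQ.of_surjective (QuotientGroup.mk' _) (QuotientGroup.mk'_surjective _)
            haveI := hQk.center_nontrivial
            obtain ⟨c, hc⟩ := exists_ne (1 : Subgroup.center (Q ⧸ ρ.ker))
            obtain ⟨a, ha⟩ := QuotientGroup.mk_surjective (c : Q ⧸ ρ.ker)
            apply hc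
            apply Subtype.ext
            rw [← ha]
            apply (QuotientGroup.eq_one_iff a).2
            rw [MonoidHom.mem_ker]
            apply hAtriv
            rw [hA, mem_cen']
            intro y
            have h1 := Subgroup.mem_center_iff.1 c.2 (y : Q ⧸ ρ.ker)
            rw [← ha, ← QuotientGroup.mk_mul, ← QuotientGroup.mk_mul, QuotientGroup.eq, MonoidHom.mem_ker] at h1
            have h2 : ρ (a * y) = ρ (y * a) * ρ ((y * a)⁻¹ * (a * y)) := by rw [← map_mul]; congr 1; group
            rw [h2, h1, mul_one]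
          rw [hall]
        · have hRT : ∀ w ∈ R, T w ∈ R := by
            intro w hw
            have := tw_map hT hAσ χ hw
            rwa [hfx] at this
          have hlt : finrank F R < finrank F W := Submodule.finrank_lt hRt
          have hk : finrank F (LinearMap.ker (T.restrict hRT - 1)) ≤ 1 := by
            refine le_trans ?_ hdim
            have hinc : ∀ w : LinearMap.ker (T.restrict hRT - 1), ((w : R) : W) ∈ LinearMap.ker (T - 1) := by
              intro w
              have h1 := w.2
              rw [LinearMap.mem_ker, LinearMap.sub_apply, Module.End.one_apply, sub_eq_zero] at h1 ⊢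
              exact congrArg Subtype.val h1
            let f : LinearMap.ker (T.restrict hRT - 1) →ₗ[F] LinearMap.ker (T - 1) :=
              (R.subtype.comp (Submodule.subtype _)).codRestrict _ hinc
            apply LinearMap.finrank_le_finrank_of_injective (f := f)
            intro a b hab
            have h1 : ((a : R) : W) = ((b : R) : W) := congrArg (fun z : LinearMap.ker (T - 1) => (z : W)) hab
            exact Subtype.ext (Subtype.ext h1)
          have h3 := ih R (by omega) (rst ρ R hRρ) (T.restrict hRT) (by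
            intro z
            ext w
            have := congrArg (fun g : End F W => g (w : W)) (hT z)
            simp only [Module.End.mul_apply] at this
            exact this) (by
            ext w
            rw [restrict_pow_apply, hTp]; rfl) hk x y
          have h4 := congrArg (fun f : End F R => ((f ⟨v, hv⟩ : R) : W)) h3
          simp only [rst_apply] at h4
          exact h4
      · -- a moved weight: one-dimensional
        have hmin : Function.minimalPeriod (tw σ A hAσ) χ = p := by
          have h1 : Function.IsPeriodicPt (tw σ A hAσ) p χ := hper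
          rcases (Nat.dvd_prime hp).1 h1.minimalPeriod_dvd with h2 | h2
          · exfalso
            apply hfx
            exact Function.minimalPeriod_eq_one_iff_isFixedPt.1 h2
          · exact h2
        let f : R →ₗ[F] LinearMap.ker (T - 1) := ((∑ i ∈ Finset.range p, T ^ i : End F W) ∘ₗ R.subtype).codRestrict _ (by
          intro w
          rw [LinearMap.mem_ker, LinearMap.comp_apply, LinearMap.sub_apply, Module.End.one_apply, sub_eq_zero,
            ← Module.End.mul_apply]
          have h5 : T * (∑ i ∈ Finset.range p, T ^ i) = ∑ i ∈ Finset.range p, T ^ i := by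
            rw [Finset.mul_sum]
            simp only [← pow_succ']
            have h6 := Finset.sum_range_succ (fun i => T ^ i) p
            have h7 := Finset.sum_range_succ' (fun i => T ^ i) p
            rw [h6, hTp, pow_zero] at h7
            exact (add_right_cancel h7).symm
          rw [h5])
        have hf : Function.Injective f := by
          rw [injective_iff_map_eq_zero]
          intro w hw
          have h5 : ∑ i ∈ Finset.range p, (T ^ i) (w : W) = 0 := by
            have := congrArg Subtype.val hw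
            have h6 : (∑ i ∈ Finset.range p, T ^ i : End F W) (w : W) = 0 := this
            rw [LinearMap.sum_apply] at h6
            exact h6
          have h4 := wt_indep (fun b : A => ρ b) (fun i => (tw σ A hAσ)^[i] χ) (Finset.range p)
            (fun i => (T ^ i) (w : W)) (by
              intro i hi k hk hik
              rw [Finset.mem_range] at hi hk
              exact Function.iterate_injOn_Iio_minimalPeriod (f := tw σ A hAσ) (x := χ) (by rw [hmin]; exact hi) (by rw [hmin]; exact hk) hik) (by
              intro i _ b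
              exact tw_map_pow hT hAσ i χ w.2 b) h5 0 (Finset.mem_range.2 hp.pos)
          exact Subtype.ext h4
        have hR1 : finrank F R ≤ 1 := (LinearMap.finrank_le_finrank_of_injective hf).trans hdim
        -- the action on `R` is commutative
        have hcomm : ∀ a b : End F R, a * b = b * a := by
          intro a b
          obtain ⟨u, hu⟩ := finrank_le_one_iff.1 hR1
          ext w
          obtain ⟨c, hc⟩ := hu w
          obtain ⟨ca, hca⟩ := hu (a u)
          obtain ⟨cb, hcb⟩ := hu (b u)
          rw [← hc, Module.End.mul_apply, Module.End.mul_apply, map_smul, map_smul, map_smul, map_smul, ← hca, ← hcb, map_smul, map_smul,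
            ← hca, ← hcb, smul_smul ca cb, smul_smul cb ca, mul_comm ca cb]
        have h3 : (rst ρ R hRρ) ⁅x, y⁆ = 1 := by
          rw [commutatorElement_def, map_mul, map_mul, map_mul, hcomm (rst ρ R hRρ x), mul_assoc, mul_assoc, ← mul_assoc ((rst ρ R hRρ) x),
            ← map_mul, mul_inv_cancel, map_one, one_mul, ← map_mul, mul_inv_cancel, map_one]
        have h4 := congrArg (fun f : End F R => ((f ⟨v, hv⟩ : R) : W)) h3
        simp only [rst_apply] at h4
        exact h4
    ext v
    exact h2 (Submodule.mem_top (x := v))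

end One

end CfsgLib.SGApp
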