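import Cfsg.Agent.LibSGExt

set_option autoImplicit false

/-!
The critical "extraspecial" case in characteristic different from `p`, reducible modules (helper4).
-/

namespace CfsgLib.SGExt

open Module CfsgLib.HHBExt CfsgLib.SGLin
open scoped commutatorElement

variable {F : Type*} [Field F] {Q : Type*} [Group Q] {W : Type*} [AddCommGroup W] [Module F W]
variable {ρ : Q →* End F W} {A : Subgroup Q}

/-- the set of `d`-th roots of unity -/
def mu (F : Type*) [Field F] (d : ℕ) : Set F := {x | x ^ d = 1}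

theorem mu_ncard [IsAlgClosed F] {d : ℕ} (hd : 0 < d) (hdF : (d : F) ≠ 0) : (mu F d).Finite ∧ (mu F d).ncard = d := by
  classical
  haveI : NeZero (d : F) := ⟨hdF⟩
  haveI : NeZero d := ⟨hd.ne'⟩
  obtain ⟨ζ, hζ⟩ := HasEnoughRootsOfUnity.exists_primitiveRoot F d
  have h1 : mu F d = ((Polynomial.nthRootsFinset d (1 : F) : Finset F) : Set F) := by
    ext x
    rw [Finset.mem_coe, Polynomial.mem_nthRootsFinset hd]
    rfl
  constructor
  · rw [h1]; exact Finset.finite_toSet _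
  · rw [h1, Set.ncard_coe_finset]
    exact hζ.card_nthRootsFinset

theorem eig_sub_mu {V : Type*} [AddCommGroup V] [Module F V] {T : End F V} {d : ℕ} (hT : T ^ d = 1) : eig T ⊆ mu F d := by
  intro μ hμ
  obtain ⟨v, hv, h⟩ := mem_eig.1 hμ
  have h1 : ∀ k : ℕ, (T ^ k) v = μ ^ k • v := by
    intro k
    induction k with
    | zero => simp
    | succ k ih => rw [pow_succ, Module.End.mul_apply, h, map_smul, ih, smul_smul, pow_succ, mul_comm]
  have h2 := h1 d
  rw [hT, Module.End.one_apply] at h2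
  have h3 : (1 : F) • v = μ ^ d • v := by rw [one_smul]; exact h2
  exact (smul_left_injective F hv h3).symm

theorem main_ss [Fintype Q] [IsAlgClosed F] [FiniteDimensional F W] [Nontrivial W] (hD : Dat ρ A)
    (hQ : (Fintype.card Q : F) ≠ 0) (hA0 : (Nat.card A : F) ≠ 0) (hAt : A ≠ ⊤) [A.Normal]
    (σ : MulAut Q) (hσA : ∀ x, σ x ∈ A ↔ x ∈ A) (d : ℕ) (hd2 : 2 ≤ d) (hdF : (d : F) ≠ 0)
    (hfpf : ∀ k, 0 < k → k < d → ∀ x, (σ ^ k) x * x⁻¹ ∈ A → x ∈ A)
    (T : End F W) (hT : ∀ x, T * ρ x = ρ (σ x) * T) (hTd : T ^ d = 1) :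
    ∃ D, D ^ 2 = Nat.card (Q ⧸ A) ∧ (d ≤ (eig T).ncard ∨ (d - 1 ≤ (eig T).ncard ∧ D = d - 1 ∧
      ∃ S : Submodule F W, S ≠ ⊥ ∧ ∀ g : End F W, (∀ x, g * ρ x = ρ x * g) → ∀ s ∈ S, T (g s) = g (T s))) := by
  classical
  obtain ⟨S, hS, hS0, hirr⟩ := exists_simple ρ
  haveI : Nontrivial S := Submodule.nontrivial_iff_ne_bot.2 hS0
  have hDS := hD.rst S hS hS0
  have hσ : ∀ a ∈ A, ρ (σ a) = ρ a := by
    intro a ha
    have h1 : T * T ^ (d - 1) = 1 := by rw [← pow_succ', Nat.sub_add_cancel (by omega), hTd]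
    have h2 : T * ρ a * T ^ (d - 1) = ρ (σ a) * T * T ^ (d - 1) := congrArg (fun f => f * T ^ (d - 1)) (hT a)
    rw [mul_assoc (ρ (σ a)), h1, mul_one, hD.lam_spec ha, mul_smul_comm, mul_one, smul_mul_assoc, h1] at h2
    rw [← h2, hD.lam_spec ha]
  obtain ⟨u, hui, hu⟩ := hDS.exists_inter hQ hA0 hirr σ hσA (by
    intro a ha
    ext v
    rw [rst_apply, rst_apply, hσ a ha])
  set ρS := CfsgLib.HHBExt.rst ρ S hS with hρS
  let ue : S ≃ₗ[F] S := LinearEquiv.ofInjectiveEndo u hui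
  have hue : ∀ v, ue v = u v := fun v => rfl
  have huesymm : ∀ v, u (ue.symm v) = v := fun v => by rw [← hue, ue.apply_symm_apply]
  have huesymm' : ∀ v, ue.symm (u v) = v := fun v => by rw [← hue, ue.symm_apply_apply]
  have hu' : ∀ x v, u (ρS x v) = ρS (σ x) (u v) := fun x v => congrArg (fun f : End F S => f v) (hu x)
  have hT' : ∀ x v, T (ρ x v) = ρ (σ x) (T v) := fun x v => congrArg (fun f : End F W => f v) (hT x)
  -- the space of homs
  let H : Submodule F (S →ₗ[F] W) :=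
    { carrier := {f | ∀ x v, f (ρS x v) = ρ x (f v)}
      add_mem' := by
        intro f g hf hg x v
        rw [LinearMap.add_apply, LinearMap.add_apply, map_add, hf, hg]
      zero_mem' := by intro x v; simp
      smul_mem' := by
        intro c f hf x v
        rw [LinearMap.smul_apply, LinearMap.smul_apply, map_smul, hf] }
  let Φ0 : (S →ₗ[F] W) →ₗ[F] (S →ₗ[F] W) :=
    { toFun := fun f => T ∘ₗ f ∘ₗ ue.symm.toLinearMap
      map_add' := by intro f g; ext v; simp
      map_smul' := by intro c f; ext v; simp }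
  have hΦ0 : ∀ f v, Φ0 f v = T (f (ue.symm v)) := fun f v => rfl
  have hΦH : ∀ f ∈ H, Φ0 f ∈ H := by
    intro f hf x v
    rw [hΦ0, hΦ0]
    have h1 : ue.symm (ρS x v) = ρS (σ⁻¹ x) (ue.symm v) := by
      apply ue.injective
      rw [ue.apply_symm_apply, hue, hu', huesymm, MulAut.apply_inv_self]
    rw [h1, hf, hT', MulAut.apply_inv_self]
  have hιH : S.subtype ∈ H := fun x v => rfl
  haveI : Nontrivial H := by
    refine ⟨⟨⟨S.subtype, hιH⟩, 0, ?_⟩⟩
    intro h
    obtain ⟨v, hv⟩ := exists_ne (0 : S)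
    apply hv
    apply Subtype.ext
    exact congrArg (fun f : H => f.1 v) h
  have hinj : ∀ f ∈ H, f ≠ 0 → Function.Injective f := by
    intro f hf hf0
    rw [← LinearMap.ker_eq_bot]
    rcases hirr (LinearMap.ker f) (by
      intro x v hv
      rw [LinearMap.mem_ker] at hv
      rw [Submodule.mem_comap, LinearMap.mem_ker, hf, hv, map_zero]) with h | h
    · exact h
    · exact absurd (LinearMap.ker_eq_top.1 h) hf0
  obtain ⟨μ, hμ⟩ := Module.End.exists_eigenvalue (Φ0.restrict hΦH)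
  obtain ⟨f, hf⟩ := hμ.exists_hasEigenvector
  have hf1 : ∀ v, T (f.1 (ue.symm v)) = μ • f.1 v := by
    intro v
    have h1 := hf.apply_eq_smul
    exact congrArg (fun g : H => g.1 v) h1
  have hf0 : f.1 ≠ 0 := fun h => hf.2 (Subtype.ext h)
  have hf2 : ∀ v, T (f.1 v) = f.1 ((μ • u) v) := by
    intro v
    have h1 := hf1 (u v)
    rw [huesymm'] at h1
    rw [h1, LinearMap.smul_apply, map_smul]
  have hfinj : Function.Injective f.1 := hinj f.1 f.2 hf0
  have hpow : ∀ k v, f.1 (((μ • u) ^ k) v) = (T ^ k) (f.1 v) := by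
    intro k
    induction k with
    | zero => intro v; simp
    | succ k ih => intro v; rw [pow_succ, Module.End.mul_apply, ih, ← hf2, pow_succ, Module.End.mul_apply]
  -- the normalised intertwiner
  set u₁ : End F S := μ • u with hu₁
  have hu₁d : u₁ ^ d = 1 := by
    ext v
    apply congrArg Subtype.val
    apply hfinj
    rw [hpow, hTd]; rfl
  have hu₁c : ∀ x, u₁ * ρS x = ρS (σ x) * u₁ := by
    intro x
    rw [hu₁, smul_mul_assoc, hu, mul_smul_comm]
  have hu₁c' : ∀ x v, u₁ (ρS x v) = ρS (σ x) (u₁ v) := fun x v => congrArg (fun f : End F S => f v) (hu₁c x)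
  obtain ⟨h1, h2⟩ := main_irr_ss hDS hQ hA0 hAt hirr σ hσA d hd2 hfpf u₁ hu₁c hu₁d hdF
  refine ⟨_, h1, ?_⟩
  have hsub : eig u₁ ⊆ eig T := by
    intro η hη
    obtain ⟨v, hv, h⟩ := mem_eig.1 hη
    refine mem_eig.2 ⟨f.1 v, fun h0 => hv (hfinj (by rw [h0, map_zero])), ?_⟩
    rw [hf2, h, map_smul]
  have hle : (eig u₁).ncard ≤ (eig T).ncard := Set.ncard_le_ncard hsub (eig_finite T)
  by_cases hfull : d ≤ (eig T).ncard
  · exact Or.inl hfull
  right
  have h2' : d - 1 ≤ (eig u₁).ncard ∧ finrank F S = d - 1 := by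
    rcases h2 with h | h
    · exact absurd (h.trans hle) hfull
    · exact h
  refine ⟨h2'.1.trans hle, h2'.2, S, hS0, ?_⟩
  obtain ⟨hmuf, hmuc⟩ := mu_ncard (F := F) (d := d) (by omega) hdF
  -- a missing root
  obtain ⟨ν, hν1, hν2⟩ : ∃ ν ∈ mu F d, ν ∉ eig T := by
    by_contra hcon
    push Not at hcon
    apply hfull
    rw [← hmuc]
    exact Set.ncard_le_ncard hcon (eig_finite T)
  have hν0 : ν ≠ 0 := by
    rintro rfl
    have : (0 : F) ^ d = 1 := hν1
    rw [zero_pow (by omega)] at this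
    exact zero_ne_one this
  -- the operator on H
  let ui : End F S := u₁ ^ (d - 1)
  have hui1 : ∀ v, u₁ (ui v) = v := by
    intro v
    have : (u₁ * ui) v = v := by
      rw [show u₁ * ui = 1 from by rw [← pow_succ', Nat.sub_add_cancel (by omega), hu₁d]]; rfl
    exact this
  have hui2 : ∀ v, ui (u₁ v) = v := by
    intro v
    have : (ui * u₁) v = v := by
      rw [show ui * u₁ = 1 from by rw [← pow_succ, Nat.sub_add_cancel (by omega), hu₁d]]; rfl
    exact this
  have hu₁inj : Function.Injective u₁ := fun a b hab => by rw [← hui2 a, hab, hui2]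
  let Φ1 : (S →ₗ[F] W) →ₗ[F] (S →ₗ[F] W) :=
    { toFun := fun f => T ∘ₗ f ∘ₗ ui
      map_add' := by intro f g; ext v; simp
      map_smul' := by intro c f; ext v; simp }
  have hΦ1 : ∀ f v, Φ1 f v = T (f (ui v)) := fun f v => rfl
  have hΦ1H : ∀ f ∈ H, Φ1 f ∈ H := by
    intro f hf x v
    rw [hΦ1, hΦ1]
    have h1 : ui (ρS x v) = ρS (σ⁻¹ x) (ui v) := by
      apply hu₁inj
      rw [hui1, hu₁c', hui1, MulAut.apply_inv_self]
    rw [h1, hf, hT', MulAut.apply_inv_self]
  let Ψ : End F H := Φ1.restrict hΦ1H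
  have hΨ : ∀ (f : H) v, (Ψ f).1 v = T (f.1 (ui v)) := fun f v => rfl
  have hΨk : ∀ (k : ℕ) (f : H) v, ((Ψ ^ k) f).1 v = (T ^ k) (f.1 ((ui ^ k) v)) := by
    intro k
    induction k with
    | zero => intro f v; rfl
    | succ k ih =>
      intro f v
      rw [pow_succ', Module.End.mul_apply, hΨ, ih, pow_succ' T, Module.End.mul_apply, pow_succ ui, Module.End.mul_apply]
  have hΨd : Ψ ^ d = 1 := by
    apply LinearMap.ext
    intro f
    apply Subtype.ext
    apply LinearMap.ext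
    intro v
    rw [hΨk, hTd]
    have : ui ^ d = 1 := by
      show (u₁ ^ (d - 1)) ^ d = 1
      rw [← pow_mul, mul_comm, pow_mul, hu₁d, one_pow]
    rw [this]; rfl
  have hΨeig : ∀ η ∈ eig Ψ, ν * η⁻¹ ∈ mu F d ∧ ν * η⁻¹ ∉ eig u₁ ∧ η ≠ 0 := by
    intro η hη
    have hημ := eig_sub_mu hΨd hη
    have hη0 : η ≠ 0 := by
      rintro rfl
      have : (0 : F) ^ d = 1 := hημ
      rw [zero_pow (by omega)] at this
      exact zero_ne_one this
    refine ⟨?_, ?_, hη0⟩
    · show (ν * η⁻¹) ^ d = 1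
      rw [mul_pow, inv_pow, show ν ^ d = 1 from hν1, show η ^ d = 1 from hημ, inv_one, mul_one]
    · intro hcon
      obtain ⟨g, hg0, hg⟩ := mem_eig.1 hη
      obtain ⟨v, hv0, hv⟩ := mem_eig.1 hcon
      apply hν2
      have hginj := hinj g.1 g.2 (fun h => hg0 (Subtype.ext h))
      refine mem_eig.2 ⟨g.1 v, fun h0 => hv0 (hginj (by rw [h0, map_zero])), ?_⟩
      have h3 : T (g.1 (ui (u₁ v))) = η • g.1 (u₁ v) := congrArg (fun g : H => g.1 (u₁ v)) hg
      rw [hui2, hv, map_smul, smul_smul] at h3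
      rw [h3]
      congr 1
      field_simp
  have hmiss : ∀ a ∈ mu F d, a ∉ eig u₁ → ∀ b ∈ mu F d, b ∉ eig u₁ → a = b := by
    intro a ha ha' b hb hb'
    by_contra hab
    have h3 : insert a (insert b (eig u₁)) ⊆ mu F d := by
      intro x hx
      rcases hx with rfl | rfl | hx
      · exact ha
      · exact hb
      · exact eig_sub_mu hu₁d hx
    have h4 := Set.ncard_le_ncard h3 hmuf
    rw [Set.ncard_insert_of_notMem (by
      intro h
      rcases h with h | h
      · exact hab h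
      · exact ha' h) ((eig_finite u₁).insert b), Set.ncard_insert_of_notMem hb' (eig_finite u₁), hmuc] at h4
    omega
  obtain ⟨b, c, hbc⟩ := exists_eigenbasis Ψ (sup_eig Ψ d hdF hΨd)
  have hpos : 0 < finrank F H := finrank_pos
  set η := c ⟨0, hpos⟩ with hη
  have hΨsc : ∀ f : H, Ψ f = η • f := by
    have h3 : Ψ = η • (1 : End F H) := by
      apply b.ext
      intro i
      rw [hbc, LinearMap.smul_apply, Module.End.one_apply]
      congr 1
      obtain ⟨h4, h5, h6⟩ := hΨeig (c i) (mem_eig.2 ⟨_, b.ne_zero i, hbc i⟩)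
      obtain ⟨h7, h8, h9⟩ := hΨeig η (mem_eig.2 ⟨_, b.ne_zero _, hbc _⟩)
      have h10 := mul_left_cancel₀ hν0 (hmiss _ h4 h5 _ h7 h8)
      exact inv_injective h10
    intro f
    rw [h3]; rfl
  intro g hg s hs
  have hgH : g ∘ₗ S.subtype ∈ H := by
    intro x v
    exact congrArg (fun f : End F W => f v.1) (hg x)
  have h3 : T (g ((ui (u₁ ⟨s, hs⟩) : S) : W)) = η • g ((u₁ ⟨s, hs⟩ : S) : W) :=
    congrArg (fun f : H => f.1 (u₁ ⟨s, hs⟩)) (hΨsc ⟨_, hgH⟩)
  have h4 : T ((ui (u₁ ⟨s, hs⟩) : S) : W) = η • ((u₁ ⟨s, hs⟩ : S) : W) :=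
    congrArg (fun f : H => f.1 (u₁ ⟨s, hs⟩)) (hΨsc ⟨_, hιH⟩)
  rw [hui2] at h3 h4
  show T (g s) = g (T s)
  rw [show T (g s) = _ from h3, show T s = _ from h4, map_smul]

end CfsgLib.SGExt
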