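import Cfsg.Agent.LibSGInd
import Cfsg.Agent.LibSGExt2
import Cfsg.Agent.LibSGApp
import Cfsg.Agent.LibHHB
import Cfsg.Agent.LibPSolv19
import Cfsg.Agent.LibCharBasic
import Cfsg.Agent.LibCharInt
import Cfsg.Agent.LibCharInt2

set_option autoImplicit false

/-!
Faithful characters of small degree of `p`-soluble groups (helper4).
-/

namespace CfsgLib.LowDeg

open Module Cfsg CfsgLib.HHBExt CfsgLib.SGLin CfsgLib.SGExt CfsgLib.SGMain CfsgLib.SGApp
open scoped commutatorElement

universe u v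

section Rep

variable {G : Type u} [Group G] [Finite G] {V : Type v} [AddCommGroup V] [Module ℂ V] [FiniteDimensional ℂ V]

theorem eig_ncard_le (T : End ℂ V) : (eig T).ncard ≤ finrank ℂ V := by
  classical
  have h1 : eig T ⊆ (T.charpoly.roots.toFinset : Set ℂ) := by
    intro μ hμ
    have h2 := (Module.End.hasEigenvalue_iff_isRoot_charpoly T μ).1 hμ
    simpa [Polynomial.mem_roots (LinearMap.charpoly_monic T).ne_zero] using h2
  calc (eig T).ncard ≤ (T.charpoly.roots.toFinset : Set ℂ).ncard := Set.ncard_le_ncard h1 (Finset.finite_toSet _)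
    _ = T.charpoly.roots.toFinset.card := Set.ncard_coe_finset _
    _ ≤ Multiset.card T.charpoly.roots := Multiset.toFinset_card_le _
    _ ≤ T.charpoly.natDegree := Polynomial.card_roots' _
    _ = finrank ℂ V := LinearMap.charpoly_natDegree T

theorem core (ρ : Representation ℂ G V) {p q : ℕ} [hpf : Fact p.Prime] [hqf : Fact q.Prime] (hpq : p ≠ q)
    (Q : Subgroup G) (x : G) (hQ : IsPGroup q Q) (hx : x ∈ Subgroup.normalizer (Q : Set G))
    (hxp : ∀ y ∈ Q, x ^ p * y = y * x ^ p) (hnt : ∃ y ∈ Q, ρ (x * y * x⁻¹) ≠ ρ y) :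
    p ≤ finrank ℂ V ∨ (∃ m, 1 ≤ m ∧ p - 1 = q ^ m ∧ p - 1 ≤ finrank ℂ V) := by
  classical
  have hp := hpf.out
  have hq := hqf.out
  obtain ⟨y₀, hy₀, hne⟩ := hnt
  obtain ⟨b, ω, hω, hb⟩ := CfsgLib.CharBasic.exists_diag_rep ρ (x ^ p)
  obtain ⟨i, hi⟩ : ∃ i, ρ (x * y₀ * x⁻¹) (b i) ≠ ρ y₀ (b i) := by
    by_contra hcon
    push Not at hcon
    exact hne (b.ext hcon)
  set S : Submodule ℂ V := LinearMap.ker (ρ (x ^ p) - ω i • (1 : End ℂ V)) with hSdef
  have hmemS : ∀ v, v ∈ S ↔ ρ (x ^ p) v = ω i • v := by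
    intro v
    rw [hSdef, LinearMap.mem_ker, LinearMap.sub_apply, sub_eq_zero]
    rfl
  have hω0 : ω i ≠ 0 := by
    intro h0
    have h1 := hω i
    rw [h0, zero_pow (orderOf_pos _).ne'] at h1
    exact zero_ne_one h1
  obtain ⟨μ, hμ⟩ := IsAlgClosed.exists_pow_nat_eq (ω i) hp.pos
  have hμ0 : μ ≠ 0 := by
    rintro rfl
    rw [zero_pow hp.ne_zero] at hμ
    exact hω0 hμ.symm
  have hcomm : ∀ g : G, x ^ p * g = g * x ^ p → ∀ v ∈ S, ρ g v ∈ S := by
    intro g hg v hv
    rw [hmemS] at hv ⊢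
    rw [← Module.End.mul_apply, ← map_mul, hg, map_mul, Module.End.mul_apply, hv, map_smul]
  set ρ' : Q →* End ℂ V := (ρ : G →* End ℂ V).comp Q.subtype with hρ'
  have hSρ : ∀ y : Q, S ≤ S.comap (ρ' y) := fun y v hv => hcomm y (hxp y y.2) v hv
  have hSx : ∀ v ∈ S, (μ⁻¹ • ρ x) v ∈ S := by
    intro v hv
    rw [LinearMap.smul_apply]
    exact S.smul_mem _ (hcomm x (by rw [← pow_succ, ← pow_succ']) v hv)
  set T : End ℂ S := (μ⁻¹ • ρ x).restrict hSx with hT
  set σ : MulAut Q := cnj Q ⟨x, hx⟩ with hσ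
  have hTpow : ∀ (k : ℕ) (v : S), (((T ^ k) v : S) : V) = (μ⁻¹ ^ k) • ρ (x ^ k) v := by
    intro k
    induction k with
    | zero => intro v; simp
    | succ k ih =>
      intro v
      rw [pow_succ', Module.End.mul_apply]
      show (μ⁻¹ • ρ x) (((T ^ k) v : S) : V) = _
      rw [ih, LinearMap.smul_apply, map_smul, smul_smul, ← Module.End.mul_apply, ← map_mul, ← pow_succ', ← pow_succ']
  have hcfg : Cfg p q (rst ρ' S hSρ) σ T 1 := by
    refine ⟨le_rfl, ?_, ?_, hQ, ?_⟩
    · intro y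
      ext v
      show (μ⁻¹ • ρ x) (ρ y v) = ρ ((σ y : Q) : G) ((μ⁻¹ • ρ x) v)
      rw [LinearMap.smul_apply, LinearMap.smul_apply, map_smul, ← Module.End.mul_apply, ← Module.End.mul_apply,
        ← map_mul, ← map_mul]
      congr 2
      rw [hσ, cnj_apply]
      congr 1
      group
    · ext v
      rw [pow_one, hTpow, (hmemS v).1 v.2, smul_smul, ← hμ, inv_pow, inv_mul_cancel₀ (pow_ne_zero _ hμ0), one_smul]
      rfl
    · refine ⟨⟨y₀, hy₀⟩, fun heq => hi ?_⟩
      have hσ1 : σ ^ p ^ (1 - 1) = σ := by rw [Nat.sub_self, pow_zero, pow_one]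
      rw [hσ1] at heq
      exact congrArg (fun f : End ℂ S => ((f ⟨b i, (hmemS _).2 (hb i)⟩ : S) : V)) heq
  have hpF : (p : ℂ) ≠ 0 := by exact_mod_cast hp.ne_zero
  have hqF : (q : ℂ) ≠ 0 := by exact_mod_cast hq.ne_zero
  have h1 := SGMain.main hpF hqF ((Nat.coprime_primes hp hq).2 hpq) _ Q S (rst ρ' S hSρ) σ T 1 hcfg le_rfl
  have h2 : (eig T).ncard ≤ finrank ℂ V := (eig_ncard_le T).trans (Submodule.finrank_le S)
  rcases h1 with h1 | ⟨n₀, m, hn1, hn2, hm, hpm, -, hle⟩
  · left
    rw [pow_one] at h1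
    exact h1.trans h2
  · right
    have hn₀ : n₀ = 1 := le_antisymm hn2 hn1
    subst hn₀
    rw [pow_one] at hpm
    refine ⟨m, hm, hpm, ?_⟩
    rw [Nat.sub_self, pow_zero, one_mul, pow_one] at hle
    exact hle.trans h2

end Rep

section Grp

variable {G : Type u} [Group G] [Finite G]

/-- an element normalizing but not centralizing some `q`-subgroup -/
theorem exists_xq {p : ℕ} [hpf : Fact p.Prime] (hsolv : IsPSolvable p G) (P : Sylow p G)
    (hab : ∀ a ∈ P, ∀ b ∈ P, a * b = b * a) (hP : ¬ (P : Subgroup G).Normal) :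
    ∃ (q : ℕ) (Q : Subgroup G) (x : G), q.Prime ∧ p ≠ q ∧ IsPGroup q Q ∧ x ∈ Subgroup.normalizer (Q : Set G) ∧
      (∀ y ∈ Q, x ^ p * y = y * x ^ p) ∧ ∃ y ∈ Q, x * y ≠ y * x := by
  have hp := hpf.out
  by_contra hcon
  push Not at hcon
  -- elements of `P` centralize `q`-subgroups that they normalize
  have hA : ∀ x ∈ P, ∀ (q : ℕ) (Q : Subgroup G), q.Prime → p ≠ q → IsPGroup q Q → x ∈ Subgroup.normalizer (Q : Set G) →
      ∀ y ∈ Q, x * y = y * x := by
    classical
    intro x hxP q Q hq hpq hQ hxQ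
    by_contra hne
    obtain ⟨k₀, hk₀⟩ := P.isPGroup' ⟨x, hxP⟩
    have hk₀' : x ^ p ^ k₀ = 1 := congrArg Subtype.val hk₀
    have hex : ∃ k : ℕ, ∀ y ∈ Q, x ^ p ^ k * y = y * x ^ p ^ k := ⟨k₀, fun y _ => by rw [hk₀', one_mul, mul_one]⟩
    have hk := Nat.find_spec hex
    rcases Nat.eq_zero_or_pos (Nat.find hex) with h0 | h0
    · rw [h0] at hk
      simp only [pow_zero, pow_one] at hk
      exact hne hk
    · have hmin := Nat.find_min hex (m := Nat.find hex - 1) (by omega)
      apply hmin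
      apply hcon q Q (x ^ p ^ (Nat.find hex - 1)) hq hpq hQ (Subgroup.pow_mem _ hxQ _)
      intro y hy
      rw [← pow_mul, ← pow_succ, Nat.sub_add_cancel h0]
      exact hk y hy
  set K := pPrimeCore p G with hK
  have hKc : (Nat.card K).Coprime p := CfsgLib.Cores.pPrimeCore_coprime p
  -- elements of `P` centralize `K`
  have hB : ∀ x ∈ P, ∀ k ∈ K, x * k = k * x := by
    intro x hxP
    set A := Subgroup.zpowers x with hA'
    have hAP : A ≤ P := by rw [hA', Subgroup.zpowers_le]; exact hxP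
    have hAp : IsPGroup p A := P.isPGroup'.to_le hAP
    obtain ⟨n, hn⟩ := IsPGroup.iff_card.1 hAp
    have hcop : (Nat.card A).Coprime (Nat.card K) := by
      rw [hn]
      exact Nat.Coprime.pow_left n hKc.symm
    haveI : K.Normal := inferInstance
    have hAK : A ≤ Subgroup.normalizer (K : Set G) := by
      rw [Subgroup.normalizer_eq_top]; exact le_top
    have hAs : Group.IsSolvable A := by
      haveI := hAp.isNilpotent
      infer_instance
    set C := (Subgroup.centralizer ({x} : Set G)).subgroupOf K with hC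
    have hCtop : C = ⊤ := by
      rw [← Subgroup.index_eq_one]
      by_contra hne
      obtain ⟨q, hq, hqd⟩ := Nat.exists_prime_and_dvd hne
      haveI : Fact q.Prime := ⟨hq⟩
      obtain ⟨R, hR⟩ := CfsgLib.Coprime.exists_invariant_sylow hAK hcop (Or.inl hAs) q
      have hpq : p ≠ q := by
        rintro rfl
        have h1 : p ∣ Nat.card K := hqd.trans (Subgroup.index_dvd_card _)
        exact hp.one_lt.ne' (Nat.dvd_one.1 (hKc ▸ Nat.dvd_gcd h1 dvd_rfl))
      have h1 := hA x hxP q ((R : Subgroup K).map K.subtype) hq hpq (R.isPGroup'.map _)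
        (hR (Subgroup.mem_zpowers x))
      have h2 : (R : Subgroup K) ≤ C := by
        intro y hy
        rw [hC, Subgroup.mem_subgroupOf, Subgroup.mem_centralizer_iff]
        rintro _ rfl
        exact h1 (y : G) ⟨y, hy, rfl⟩
      exact R.not_dvd_index (hqd.trans (Subgroup.index_dvd_of_le h2))
    intro k hk
    have h3 : (⟨k, hk⟩ : K) ∈ C := hCtop ▸ Subgroup.mem_top _
    rw [hC, Subgroup.mem_subgroupOf, Subgroup.mem_centralizer_iff] at h3
    exact h3 x rfl
  -- pass to the centralizer of `R = O_p(G)`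
  set R := pCore p G with hR
  have hRP : R ≤ (P : Subgroup G) := CfsgLib.Cores.pCore_le_sylow P
  set C := Subgroup.centralizer (R : Set G) with hC
  haveI : R.Normal := inferInstance
  haveI hCn : C.Normal := inferInstance
  have hPC : (P : Subgroup G) ≤ C := by
    intro x hx
    rw [hC, Subgroup.mem_centralizer_iff]
    intro r hr
    exact hab r (hRP hr) x hx
  have hRC : R ≤ C := hRP.trans hPC
  set R' := R.subgroupOf C with hR'
  have hR'core : pCore p C = R' := by
    apply le_antisymm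
    · intro r hr
      rw [hR', Subgroup.mem_subgroupOf]
      have h1 : (pCore p C).map C.subtype ≤ R :=
        CfsgLib.Cores.le_pCore inferInstance ((CfsgLib.Cores.pCore_isPGroup p (G := C)).map _)
      exact h1 ⟨r, hr, rfl⟩
    · apply CfsgLib.Cores.le_pCore inferInstance
      exact ((CfsgLib.Cores.pCore_isPGroup p (G := G)).comap_subtype)
  have hq0' : ∀ N : Subgroup C, ∀ hN : N.Normal, pCore p C = N → pCore p (C ⧸ N) = ⊥ := by
    rintro N hN rfl
    exact CfsgLib.Cores.pCore_quotient_pCore (G := C) p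
  have hq0 : pCore p (C ⧸ R') = ⊥ := hq0' R' _ hR'core
  have hqs : IsPSolvable p (C ⧸ R') := CfsgLib.PSolv19.psolv_quotient hp (CfsgLib.PSolv19.psolv_subgroup hp hsolv C) R'
  have hcen := CfsgLib.HHNorm.centralizer_pPrimeCore_le hqs hq0
  set L := (pPrimeCore p (C ⧸ R')).comap (QuotientGroup.mk' R') with hL
  haveI : L.Normal := inferInstance
  have hR'L : R' ≤ L := by
    intro r hr
    rw [hL, Subgroup.mem_comap]
    have h1 : QuotientGroup.mk' R' r = 1 := (QuotientGroup.eq_one_iff r).2 hr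
    rw [h1]; exact one_mem _
  have hcentR : ∀ z ∈ R', ∀ k : C, z * k = k * z := by
    intro z hz k
    apply Subtype.ext
    exact (Subgroup.mem_centralizer_iff.1 k.2 z (Subgroup.mem_subgroupOf.1 hz))
  obtain ⟨M, hMn, hMp, hML, hdec⟩ := CfsgLib.PSolv19.exists_normal_compl (p := p) (Z := R') (K := L) hR'L
    ((CfsgLib.Cores.pCore_isPGroup p (G := G)).comap_subtype) (fun z hz k _ => hcentR z hz k) (by
      intro hd
      have h1 : R'.relIndex L = Nat.card (pPrimeCore p (C ⧸ R')) := by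
        have h2 := CfsgLib.Cores.card_comap_mk R' (pPrimeCore p (C ⧸ R'))
        have h3 : Nat.card R' * R'.relIndex L = Nat.card L := CfsgLib.Coprime.card_mul_relIndex hR'L
        rw [← hL] at h2
        rw [h2] at h3
        exact Nat.eq_of_mul_eq_mul_left Nat.card_pos h3
      rw [h1] at hd
      have h4 : (Nat.card (pPrimeCore p (C ⧸ R'))).Coprime p := CfsgLib.Cores.pPrimeCore_coprime p
      exact hp.one_lt.ne' (Nat.dvd_one.1 (h4 ▸ Nat.dvd_gcd hd dvd_rfl)))
  -- `M` maps into `K`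
  have hMK : ∀ m ∈ M, (m : G) ∈ K := by
    intro m hm
    have h1 : M ≤ pPrimeCore p C := CfsgLib.Cores.le_pPrimeCore hMn
      (Nat.coprime_comm.1 ((Nat.Prime.coprime_iff_not_dvd hp).2 hMp))
    have h2 : (pPrimeCore p C).map C.subtype ≤ K := by
      apply CfsgLib.Cores.le_pPrimeCore inferInstance
      rw [Subgroup.card_map_of_injective C.subtype_injective]
      exact CfsgLib.Cores.pPrimeCore_coprime p
    exact h2 ⟨m, h1 hm, rfl⟩
  apply hP
  have hPR : (P : Subgroup G) ≤ R := by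
    intro x hx
    set x' : C := ⟨x, hPC hx⟩ with hx'
    have h1 : QuotientGroup.mk' R' x' ∈ Subgroup.centralizer (pPrimeCore p (C ⧸ R') : Set (C ⧸ R')) := by
      rw [Subgroup.mem_centralizer_iff]
      intro y hy
      obtain ⟨l, rfl⟩ := QuotientGroup.mk'_surjective R' y
      obtain ⟨m, hm, z, hz, rfl⟩ := hdec l hy
      have h2 : x' * m = m * x' := Subtype.ext (hB x hx m (hMK m hm))
      have h3 := hcentR z hz x'
      rw [← map_mul, ← map_mul]
      congr 1
      calc m * z * x' = m * (z * x') := by group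
        _ = (m * x') * z := by rw [h3]; group
        _ = _ := by rw [← h2]; group
    have h2 := hcen h1
    have h3 : orderOf (QuotientGroup.mk' R' x') ∣ Nat.card (pPrimeCore p (C ⧸ R')) := by
      rw [← Subgroup.orderOf_mk _ h2]
      exact orderOf_dvd_natCard _
    obtain ⟨k, hk⟩ := P.isPGroup' ⟨x, hx⟩
    have hk' : x ^ p ^ k = 1 := congrArg Subtype.val hk
    have h4 : orderOf (QuotientGroup.mk' R' x') ∣ p ^ k := by
      apply orderOf_dvd_of_pow_eq_one
      rw [← map_pow]
      have : x' ^ p ^ k = 1 := Subtype.ext hk'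
      rw [this, map_one]
    have h5 : (Nat.card (pPrimeCore p (C ⧸ R'))).Coprime p := CfsgLib.Cores.pPrimeCore_coprime p
    have h6 : orderOf (QuotientGroup.mk' R' x') = 1 :=
      Nat.dvd_one.1 ((Nat.Coprime.pow_right k h5) ▸ Nat.dvd_gcd h3 h4)
    have h7 : QuotientGroup.mk' R' x' = 1 := orderOf_eq_one_iff.1 h6
    have h8 : x' ∈ R' := (QuotientGroup.eq_one_iff x').1 h7
    exact Subgroup.mem_subgroupOf.1 h8
  have h9 : (P : Subgroup G) = R := le_antisymm hPR hRP
  rw [h9]
  infer_instance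

end Grp

end CfsgLib.LowDeg
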