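import Mathlib
import Cfsg.Agent.EqBase

/-! Witt's transitive extension lemma -/

set_option autoImplicit false

namespace CfsgLib.WittH12

open Equiv

variable {α : Type*}

/-- one extension step -/
theorem step_mem (L M : Subgroup (Perm α)) (x y : Perm α)
    (hML : ∀ g ∈ M, g ∈ L ∨ ∃ l ∈ L, ∃ l' ∈ L, g = l * y * l') (hLM : L ≤ M)
    (hn : ∀ l ∈ L, x * l * x⁻¹ ∈ L) (hx2 : x ^ 2 ∈ L)
    (hxyx : ∃ m ∈ M, ∃ m' ∈ M, x * y * x = m * x * m') :
    ∀ z ∈ Subgroup.closure ((M : Set (Perm α)) ∪ {x}),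
      z ∈ M ∨ ∃ m ∈ M, ∃ m' ∈ M, z = m * x * m' := by
  have hx2' : (x ^ 2)⁻¹ ∈ L := L.inv_mem hx2
  have hn' : ∀ l ∈ L, x⁻¹ * l * x ∈ L := by
    intro l hl
    have : x⁻¹ * l * x = (x ^ 2)⁻¹ * (x * l * x⁻¹) * x ^ 2 := by group
    rw [this]
    exact L.mul_mem (L.mul_mem hx2' (hn l hl)) hx2
  -- left multiplication by M
  have cM : ∀ g ∈ M, ∀ z, (z ∈ M ∨ ∃ m ∈ M, ∃ m' ∈ M, z = m * x * m') →
      (g * z ∈ M ∨ ∃ m ∈ M, ∃ m' ∈ M, g * z = m * x * m') := by
    rintro g hg z (hz | ⟨m, hm, m', hm', rfl⟩)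
    · exact Or.inl (M.mul_mem hg hz)
    · exact Or.inr ⟨g * m, M.mul_mem hg hm, m', hm', by group⟩
  have cx : ∀ z, (z ∈ M ∨ ∃ m ∈ M, ∃ m' ∈ M, z = m * x * m') →
      (x * z ∈ M ∨ ∃ m ∈ M, ∃ m' ∈ M, x * z = m * x * m') := by
    rintro z (hz | ⟨m, hm, m', hm', rfl⟩)
    · exact Or.inr ⟨1, M.one_mem, z, hz, by group⟩
    · rcases hML m hm with h | ⟨l, hl, l', hl', rfl⟩
      · left
        have : x * (m * x * m') = (x * m * x⁻¹) * x ^ 2 * m' := by group
        rw [this]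
        exact M.mul_mem (hLM (L.mul_mem (hn m h) hx2)) hm'
      · right
        obtain ⟨n, hn1, n', hn2, he⟩ := hxyx
        refine ⟨(x * l * x⁻¹) * n, M.mul_mem (hLM (hn l hl)) hn1,
          n' * (x⁻¹ * l' * x) * m', M.mul_mem (M.mul_mem hn2 (hLM (hn' l' hl'))) hm', ?_⟩
        calc x * (l * y * l' * x * m')
            = (x * l * x⁻¹) * (x * y * x) * (x⁻¹ * l' * x) * m' := by group
          _ = (x * l * x⁻¹) * (n * x * n') * (x⁻¹ * l' * x) * m' := by rw [he]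
          _ = _ := by group
  have cxi : ∀ z, (z ∈ M ∨ ∃ m ∈ M, ∃ m' ∈ M, z = m * x * m') →
      (x⁻¹ * z ∈ M ∨ ∃ m ∈ M, ∃ m' ∈ M, x⁻¹ * z = m * x * m') := by
    intro z hz
    have : x⁻¹ * z = (x ^ 2)⁻¹ * (x * z) := by group
    rw [this]
    exact cM _ (hLM hx2') _ (cx z hz)
  have key : ∀ g ∈ Subgroup.closure ((M : Set (Perm α)) ∪ {x}), ∀ z,
      (z ∈ M ∨ ∃ m ∈ M, ∃ m' ∈ M, z = m * x * m') →
      ((g * z ∈ M ∨ ∃ m ∈ M, ∃ m' ∈ M, g * z = m * x * m') ∧
       (g⁻¹ * z ∈ M ∨ ∃ m ∈ M, ∃ m' ∈ M, g⁻¹ * z = m * x * m')) := by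
    intro g hg
    induction hg using Subgroup.closure_induction with
    | mem g hg =>
      intro z hz
      rcases hg with hg | hg
      · exact ⟨cM g hg z hz, cM _ (M.inv_mem hg) z hz⟩
      · rw [Set.mem_singleton_iff] at hg
        subst hg
        exact ⟨cx z hz, cxi z hz⟩
    | one => intro z hz; simpa using hz
    | mul a b _ _ iha ihb =>
      intro z hz
      refine ⟨?_, ?_⟩
      · rw [mul_assoc]; exact (iha _ (ihb z hz).1).1
      · rw [mul_inv_rev, mul_assoc]; exact (ihb _ (iha z hz).2).2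
    | inv a _ ih =>
      intro z hz
      exact ⟨(ih z hz).2, by rw [inv_inv]; exact (ih z hz).1⟩
  intro z hz
  have := (key z hz 1 (Or.inl M.one_mem)).1
  rwa [mul_one] at this

theorem step_stab (L M : Subgroup (Perm α)) (x y : Perm α) (a o : α) (hao : a ≠ o)
    (hfix : ∀ g ∈ M, g o = o) (hxo : x o = a)
    (hML : ∀ g ∈ M, g ∈ L ∨ ∃ l ∈ L, ∃ l' ∈ L, g = l * y * l') (hLM : L ≤ M)
    (hn : ∀ l ∈ L, x * l * x⁻¹ ∈ L) (hx2 : x ^ 2 ∈ L)
    (hxyx : ∃ m ∈ M, ∃ m' ∈ M, x * y * x = m * x * m') :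
    ∀ z ∈ Subgroup.closure ((M : Set (Perm α)) ∪ {x}), z o = o → z ∈ M := by
  intro z hz hzo
  rcases step_mem L M x y hML hLM hn hx2 hxyx z hz with h | ⟨m, hm, m', hm', rfl⟩
  · exact h
  · exfalso
    rw [Perm.mul_apply, Perm.mul_apply, hfix m' hm', hxo] at hzo
    apply hao
    have := hfix m hm
    exact m.injective (hzo.trans this.symm)

/-- the data of Witt's lemma -/
structure WData (t : ℕ) (q : ℕ → α) (G : Subgroup (Perm α)) (s : ℕ → Perm α)
    (H : Subgroup (Perm α)) : Prop where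
  ht : 2 ≤ t
  hq : ∀ i j : ℕ, 1 ≤ i → i ≤ t → 1 ≤ j → j ≤ t → q i = q j → i = j
  hfix : ∀ g ∈ G, ∀ i : ℕ, 3 ≤ i → i ≤ t → g (q i) = q i
  h2 : ∀ a b c d : α, (∀ i, 3 ≤ i → i ≤ t → a ≠ q i ∧ b ≠ q i ∧ c ≠ q i ∧ d ≠ q i) →
    a ≠ b → c ≠ d → ∃ g ∈ G, g a = c ∧ g b = d
  hs1 : s 1 ∈ G
  hs1q : s 1 (q 1) = q 2 ∧ s 1 (q 2) = q 1
  hsq : ∀ i : ℕ, 2 ≤ i → i + 1 ≤ t → s i (q i) = q (i + 1) ∧ s i (q (i + 1)) = q i ∧
    ∀ j : ℕ, 1 ≤ j → j ≤ t → j ≠ i → j ≠ i + 1 → s i (q j) = q j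
  hH : H = G ⊓ MulAction.stabilizer (Perm α) (q 1) ⊓ MulAction.stabilizer (Perm α) (q 2)
  hsq2 : ∀ i : ℕ, 1 ≤ i → i + 1 ≤ t → s i ^ 2 ∈ H
  hbraid : ∀ i : ℕ, 1 ≤ i → i + 2 ≤ t → (s i * s (i + 1)) ^ 3 ∈ H
  hcomm : ∀ i j : ℕ, 1 ≤ i → i + 2 ≤ j → j + 1 ≤ t → (s i * s j) ^ 2 ∈ H ∧ (s j * s i) ^ 2 ∈ H
  hnorm : ∀ i : ℕ, 2 ≤ i → i + 1 ≤ t → ∀ g ∈ G ⊓ MulAction.stabilizer (Perm α) (q 2),
    s i * g * (s i)⁻¹ ∈ G ⊓ MulAction.stabilizer (Perm α) (q 2)

/-- the chain -/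
def Lc (q : ℕ → α) (G : Subgroup (Perm α)) (s : ℕ → Perm α) (k : ℕ) : Subgroup (Perm α) :=
  if k ≤ 1 then G ⊓ MulAction.stabilizer (Perm α) (q 2)
  else Subgroup.closure ((G : Set (Perm α)) ∪ {x | ∃ i : ℕ, 2 ≤ i ∧ i + 1 ≤ k ∧ x = s i})

section
variable {t : ℕ} {q : ℕ → α} {G : Subgroup (Perm α)} {s : ℕ → Perm α} {H : Subgroup (Perm α)}

theorem Lc_one : Lc q G s 1 = G ⊓ MulAction.stabilizer (Perm α) (q 2) := by simp [Lc]

theorem Lc_two : Lc q G s 2 = G := by
  unfold Lc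
  rw [if_neg (by omega)]
  have : {x : Perm α | ∃ i : ℕ, 2 ≤ i ∧ i + 1 ≤ 2 ∧ x = s i} = ∅ := by
    ext x
    simp only [Set.mem_ofPred_eq, Set.mem_empty_iff_false, iff_false]
    rintro ⟨i, h1, h2, -⟩
    omega
  rw [this, Set.union_empty, Subgroup.closure_eq]

theorem Lc_ge (k : ℕ) (hk : 2 ≤ k) : Lc q G s k =
    Subgroup.closure ((G : Set (Perm α)) ∪ {x | ∃ i : ℕ, 2 ≤ i ∧ i + 1 ≤ k ∧ x = s i}) := by
  unfold Lc; rw [if_neg (by omega)]

theorem Lc_succ (k : ℕ) (hk : 2 ≤ k) : Lc q G s (k + 1) =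
    Subgroup.closure ((Lc q G s k : Set (Perm α)) ∪ {s k}) := by
  rw [Lc_ge (k + 1) (by omega), Lc_ge k hk]
  apply le_antisymm
  · rw [Subgroup.closure_le]
    rintro x (hx | ⟨i, h1, h2, rfl⟩)
    · exact Subgroup.subset_closure (Or.inl (Subgroup.subset_closure (Or.inl hx)))
    · by_cases hi : i = k
      · subst hi; exact Subgroup.subset_closure (Or.inr rfl)
      · exact Subgroup.subset_closure (Or.inl (Subgroup.subset_closure
          (Or.inr ⟨i, h1, by omega, rfl⟩)))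
  · rw [Subgroup.closure_le]
    rintro x (hx | hx)
    · refine Subgroup.closure_mono ?_ hx
      rintro y (hy | ⟨i, h1, h2, h3⟩)
      · exact Or.inl hy
      · exact Or.inr ⟨i, h1, by omega, h3⟩
    · rw [Set.mem_singleton_iff] at hx
      subst hx
      exact Subgroup.subset_closure (Or.inr ⟨k, hk, le_rfl, rfl⟩)

theorem G_le_Lc (k : ℕ) (hk : 2 ≤ k) : G ≤ Lc q G s k := by
  rw [Lc_ge k hk]
  exact fun g hg => Subgroup.subset_closure (Or.inl hg)

theorem s_mem_Lc (k i : ℕ) (hk : 2 ≤ k) (h1 : 2 ≤ i) (h2 : i + 1 ≤ k) : s i ∈ Lc q G s k := by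
  rw [Lc_ge k hk]
  exact Subgroup.subset_closure (Or.inr ⟨i, h1, h2, rfl⟩)

theorem Lc_mono (k : ℕ) (hk : 1 ≤ k) : Lc q G s k ≤ Lc q G s (k + 1) := by
  rcases Nat.eq_or_lt_of_le hk with h | h
  · subst h
    rw [Lc_one, Lc_two]
    exact inf_le_left
  · rw [Lc_succ k h]
    exact fun g hg => Subgroup.subset_closure (Or.inl hg)

variable (D : WData t q G s H)
include D

theorem H_le : H ≤ G ⊓ MulAction.stabilizer (Perm α) (q 2) := by
  rw [D.hH]
  exact inf_le_inf inf_le_left le_rfl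

theorem H_le_Lc (k : ℕ) (hk : 1 ≤ k) : H ≤ Lc q G s k := by
  induction k, hk using Nat.le_induction with
  | base => rw [Lc_one]; exact H_le D
  | succ k hk ih => exact ih.trans (Lc_mono k hk)

theorem s_mem' (k i : ℕ) (h1 : 1 ≤ i) (h2 : i + 1 ≤ k) : s i ∈ Lc q G s k := by
  rcases Nat.eq_or_lt_of_le h1 with h | h
  · subst h
    exact G_le_Lc k h2 D.hs1
  · exact s_mem_Lc k i (by omega) h h2

theorem G_split : ∀ g ∈ G, g ∈ Lc q G s 1 ∨ ∃ l ∈ Lc q G s 1, ∃ l' ∈ Lc q G s 1,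
    g = l * s 1 * l' := by
  intro g hg
  rw [Lc_one]
  by_cases h : g (q 2) = q 2
  · exact Or.inl ⟨hg, h⟩
  · right
    have ht := D.ht
    have h12 : q 1 ≠ q 2 := fun he => by
      have := D.hq 1 2 le_rfl (by omega) (by omega) ht he
      omega
    obtain ⟨l, hl, hl1, hl2⟩ := D.h2 (q 1) (q 2) (g (q 2)) (q 2) (by
      intro i hi hit
      refine ⟨fun he => ?_, fun he => ?_, fun he => ?_, fun he => ?_⟩
      · have := D.hq 1 i le_rfl (by omega) (by omega) hit he; omega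
      · have := D.hq 2 i (by omega) ht (by omega) hit he; omega
      · have h5 := D.hfix g hg i hi hit
        have := g.injective (he.trans h5.symm)
        have := D.hq 2 i (by omega) ht (by omega) hit this; omega
      · have := D.hq 2 i (by omega) ht (by omega) hit he; omega) h12 h
    refine ⟨l, ⟨hl, hl2⟩, (l * s 1)⁻¹ * g, ⟨G.mul_mem (G.inv_mem (G.mul_mem hl D.hs1)) hg, ?_⟩,
      by group⟩
    change ((l * s 1)⁻¹ * g) (q 2) = q 2
    rw [Perm.mul_apply, Perm.inv_eq_iff_eq, Perm.mul_apply, D.hs1q.2, hl1]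

theorem chain (i : ℕ) (h2 : 2 ≤ i) (hit : i ≤ t) :
    (∀ g ∈ Lc q G s i, ∀ j, i < j → j ≤ t → g (q j) = q j) ∧
    (∀ g ∈ Lc q G s i, g (q i) = q i → g ∈ Lc q G s (i - 1)) ∧
    (∀ g ∈ Lc q G s i, g ∈ Lc q G s (i - 1) ∨ ∃ l ∈ Lc q G s (i - 1),
      ∃ l' ∈ Lc q G s (i - 1), g = l * s (i - 1) * l') ∧
    (∀ p : α, (∀ j, i < j → j ≤ t → p ≠ q j) → ∃ g ∈ Lc q G s i, g p = q i) := by
  induction i, h2 using Nat.le_induction with
  | base =>
    rw [Lc_two, show 2 - 1 = 1 by norm_num]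
    refine ⟨fun g hg j h1 h2 => D.hfix g hg j (by omega) h2, ?_, G_split D, ?_⟩
    · intro g hg h
      rw [Lc_one]
      exact ⟨hg, h⟩
    · intro p hp
      by_cases h : p = q 2
      · exact ⟨1, G.one_mem, by rw [h]; rfl⟩
      · have h12 : q 2 ≠ q 1 := fun he => by
          have := D.hq 2 1 (by omega) hit le_rfl (by omega) he
          omega
        obtain ⟨g, hg, hg1, -⟩ := D.h2 p (q 2) (q 2) (q 1) (by
          intro i hi hit'
          refine ⟨hp i (by omega) hit', fun he => ?_, fun he => ?_, fun he => ?_⟩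
          · have := D.hq 2 i (by omega) hit (by omega) hit' he; omega
          · have := D.hq 2 i (by omega) hit (by omega) hit' he; omega
          · have := D.hq 1 i (by omega) (by omega) (by omega) hit' he; omega) h h12
        exact ⟨g, hg, hg1⟩
  | succ i hi ih =>
    obtain ⟨ia, ib, ic, id⟩ := ih (by omega)
    rw [show i + 1 - 1 = i by omega]
    have hne : q i ≠ q (i + 1) := fun he => by
      have := D.hq i (i + 1) (by omega) (by omega) (by omega) hit he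
      omega
    obtain ⟨hs1, hs2, hs3⟩ := D.hsq i hi hit
    have hx2 : s i ^ 2 ∈ Lc q G s (i - 1) := H_le_Lc D _ (by omega) (D.hsq2 i (by omega) hit)
    have hLM : Lc q G s (i - 1) ≤ Lc q G s i := by
      have := Lc_mono (q := q) (G := G) (s := s) (i - 1) (by omega)
      rwa [show i - 1 + 1 = i by omega] at this
    have hn : ∀ l ∈ Lc q G s (i - 1), s i * l * (s i)⁻¹ ∈ Lc q G s (i - 1) := by
      by_cases h3 : i = 2
      · subst h3
        rw [show 2 - 1 = 1 by norm_num, Lc_one]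
        exact D.hnorm 2 le_rfl hit
      · -- conjugation of s j for j + 2 ≤ i
        have hsj : ∀ j, 1 ≤ j → j + 2 ≤ i → s i * s j * (s i)⁻¹ ∈ Lc q G s (i - 1) := by
          intro j hj hji
          have h5 := (D.hcomm j i hj hji hit).2
          have h6 : s i * s j * (s i)⁻¹ = (s i * s j) ^ 2 * (s j)⁻¹ * (s i ^ 2)⁻¹ := by
            rw [pow_two, pow_two]; group
          rw [h6]
          exact Subgroup.mul_mem _ (Subgroup.mul_mem _ (H_le_Lc D _ (by omega) h5)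
            (Subgroup.inv_mem _ (s_mem' D _ j hj (by omega)))) (Subgroup.inv_mem _ hx2)
        have hK : ∀ l ∈ Lc q G s 1, s i * l * (s i)⁻¹ ∈ Lc q G s (i - 1) := by
          intro l hl
          rw [Lc_one] at hl
          exact G_le_Lc _ (by omega) (D.hnorm i hi hit l hl).1
        have hG : ∀ l ∈ G, s i * l * (s i)⁻¹ ∈ Lc q G s (i - 1) := by
          intro l hl
          rcases G_split D l hl with h | ⟨a, ha, b, hb, rfl⟩
          · exact hK l h
          · have : s i * (a * s 1 * b) * (s i)⁻¹ =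
                (s i * a * (s i)⁻¹) * (s i * s 1 * (s i)⁻¹) * (s i * b * (s i)⁻¹) := by group
            rw [this]
            exact Subgroup.mul_mem _ (Subgroup.mul_mem _ (hK a ha) (hsj 1 le_rfl (by omega)))
              (hK b hb)
        intro l hl
        rw [Lc_ge (i - 1) (by omega)] at hl
        induction hl using Subgroup.closure_induction with
        | mem l hl =>
          rcases hl with hl | ⟨j, h1, h2, rfl⟩
          · exact hG l hl
          · exact hsj j (by omega) (by omega)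
        | one => rw [mul_one, mul_inv_cancel]; exact Subgroup.one_mem _
        | mul a b _ _ iha ihb =>
          have : s i * (a * b) * (s i)⁻¹ = (s i * a * (s i)⁻¹) * (s i * b * (s i)⁻¹) := by group
          rw [this]; exact Subgroup.mul_mem _ iha ihb
        | inv a _ iha =>
          have : s i * a⁻¹ * (s i)⁻¹ = (s i * a * (s i)⁻¹)⁻¹ := by group
          rw [this]; exact Subgroup.inv_mem _ iha
    have hxyx : ∃ m ∈ Lc q G s i, ∃ m' ∈ Lc q G s i,
        s i * s (i - 1) * s i = m * s i * m' := by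
      have hb := D.hbraid (i - 1) (by omega) (by omega)
      rw [show i - 1 + 1 = i by omega] at hb
      have hy : s (i - 1) ∈ Lc q G s i := s_mem' D i (i - 1) (by omega) (by omega)
      refine ⟨(s (i - 1))⁻¹ * (s (i - 1) * s i) ^ 3 * (s i ^ 2)⁻¹,
        Subgroup.mul_mem _ (Subgroup.mul_mem _ (Subgroup.inv_mem _ hy)
          (H_le_Lc D _ (by omega) hb)) (Subgroup.inv_mem _ (hLM hx2)),
        (s (i - 1))⁻¹, Subgroup.inv_mem _ hy, ?_⟩
      rw [pow_succ, pow_two, pow_two]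
      group
    have hst := step_stab (Lc q G s (i - 1)) (Lc q G s i) (s i) (s (i - 1)) (q i) (q (i + 1)) hne
      (fun g hg => ia g hg (i + 1) (by omega) hit) hs2 ic hLM hn hx2 hxyx
    have hmm := step_mem (Lc q G s (i - 1)) (Lc q G s i) (s i) (s (i - 1)) ic hLM hn hx2 hxyx
    rw [← Lc_succ i hi] at hst hmm
    refine ⟨?_, hst, hmm, ?_⟩
    · intro g hg j h1 h2
      rcases hmm g hg with h | ⟨m, hm, m', hm', rfl⟩
      · exact ia g h j (by omega) h2
      · rw [Perm.mul_apply, Perm.mul_apply, ia m' hm' j (by omega) h2,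
          hs3 j (by omega) h2 (by omega) (by omega), ia m hm j (by omega) h2]
    · intro p hp
      have hsi : s i ∈ Lc q G s (i + 1) := s_mem' D (i + 1) i (by omega) le_rfl
      by_cases h : p = q (i + 1)
      · exact ⟨1, Subgroup.one_mem _, by rw [h]; rfl⟩
      · obtain ⟨g, hg, hgp⟩ := id p (by
          intro j h1 h2
          rcases Nat.eq_or_lt_of_le (show i + 1 ≤ j from h1) with h3 | h3
          · rw [← h3]; exact h
          · exact hp j h3 h2)
        refine ⟨s i * g, Subgroup.mul_mem _ hsi (Lc_mono i (by omega) hg), ?_⟩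
        rw [Perm.mul_apply, hgp, hs1]

theorem one_trans : ∀ p : α, (∀ j, 1 < j → j ≤ t → p ≠ q j) → ∃ g ∈ Lc q G s 1, g p = q 1 := by
  intro p hp
  have ht := D.ht
  have h12 : q 1 ≠ q 2 := fun he => by
    have := D.hq 1 2 (by omega) (by omega) (by omega) ht he
    omega
  obtain ⟨g, hg, hg1, hg2⟩ := D.h2 p (q 2) (q 1) (q 2) (by
    intro i hi hit'
    refine ⟨hp i (by omega) hit', fun he => ?_, fun he => ?_, fun he => ?_⟩
    · have := D.hq 2 i (by omega) ht (by omega) hit' he; omega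
    · have := D.hq 1 i (by omega) (by omega) (by omega) hit' he; omega
    · have := D.hq 2 i (by omega) ht (by omega) hit' he; omega) (hp 2 (by omega) ht) h12
  rw [Lc_one]
  exact ⟨g, ⟨hg, hg2⟩, hg1⟩

theorem fix_gt (i : ℕ) (h1 : 1 ≤ i) (hit : i ≤ t) :
    ∀ g ∈ Lc q G s i, ∀ j, i < j → j ≤ t → g (q j) = q j := by
  rcases Nat.eq_or_lt_of_le h1 with h | h
  · subst h
    intro g hg j hj hjt
    rw [Lc_one] at hg
    rcases Nat.eq_or_lt_of_le (show 2 ≤ j from hj) with h3 | h3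
    · rw [← h3]; exact hg.2
    · exact D.hfix g hg.1 j h3 hjt
  · exact (chain D i h hit).1

theorem multi (i : ℕ) (h1 : 1 ≤ i) (hit : i ≤ t) : ∀ p : ℕ → α,
    (∀ j k, 1 ≤ j → j ≤ i → 1 ≤ k → k ≤ i → p j = p k → j = k) →
    (∀ k, 1 ≤ k → k ≤ i → ∀ j, i < j → j ≤ t → p k ≠ q j) →
    ∃ g ∈ Lc q G s i, ∀ k, 1 ≤ k → k ≤ i → g (p k) = q k := by
  induction i, h1 using Nat.le_induction with
  | base =>
    intro p _ hp
    obtain ⟨g, hg, hgp⟩ := one_trans D (p 1) (hp 1 le_rfl le_rfl)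
    refine ⟨g, hg, fun k h1 h2 => ?_⟩
    have : k = 1 := by omega
    subst this; exact hgp
  | succ i hi ih =>
    intro p hinj hp
    obtain ⟨-, -, -, hd⟩ := chain D (i + 1) (by omega) hit
    obtain ⟨g, hg, hgp⟩ := hd (p (i + 1)) (hp (i + 1) (by omega) le_rfl)
    obtain ⟨g', hg', hgp'⟩ := ih (by omega) (fun k => g (p k))
      (fun j k h1 h2 h3 h4 h5 => hinj j k h1 (by omega) h3 (by omega) (g.injective h5)) (by
        intro k h1 h2 j h3 h4 he
        rcases Nat.eq_or_lt_of_le (show i + 1 ≤ j from h3) with h5 | h5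
        · rw [← h5, ← hgp] at he
          have := hinj k (i + 1) h1 (by omega) (by omega) le_rfl (g.injective he)
          omega
        · have h6 := fix_gt D (i + 1) (by omega) hit g hg j h5 h4
          have h7 : p k = q j := g.injective (he.trans h6.symm)
          exact hp k h1 (by omega) j h5 h4 h7)
    refine ⟨g' * g, Subgroup.mul_mem _ (Lc_mono i hi hg') hg, fun k h1 h2 => ?_⟩
    rw [Perm.mul_apply]
    by_cases hk : k = i + 1
    · subst hk
      rw [hgp]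
      exact fix_gt D i hi (by omega) g' hg' (i + 1) (by omega) hit
    · exact hgp' k h1 (by omega)

theorem fix_all (i : ℕ) (h1 : 1 ≤ i) (hit : i ≤ t) : ∀ g ∈ Lc q G s i,
    (∀ k, 1 ≤ k → k ≤ i → g (q k) = q k) → g ∈ H := by
  induction i, h1 using Nat.le_induction with
  | base =>
    intro g hg h
    rw [Lc_one] at hg
    rw [D.hH]
    exact ⟨⟨hg.1, h 1 le_rfl le_rfl⟩, hg.2⟩
  | succ i hi ih =>
    intro g hg h
    obtain ⟨-, hb, -, -⟩ := chain D (i + 1) (by omega) hit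
    exact ih (by omega) g (hb g hg (h (i + 1) (by omega) le_rfl))
      (fun k h1 h2 => h k h1 (by omega))

theorem t_trans : MulAction.IsMultiplyPretransitive (Lc q G s t) α t := by
  have ht := D.ht
  have key : ∀ x : Fin t ↪ α, ∃ g ∈ Lc q G s t, ∀ k : Fin t, g (x k) = q (k.val + 1) := by
    intro x
    obtain ⟨g, hg, hgp⟩ := multi D t (by omega) le_rfl
      (fun k => if h : k - 1 < t then x ⟨k - 1, h⟩ else q 1) (by
        intro j k h1 h2 h3 h4 he
        rw [dif_pos (by omega), dif_pos (by omega)] at he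
        have := congrArg Fin.val (x.injective he)
        simp only at this
        omega) (fun k h1 h2 j h3 h4 => by omega)
    refine ⟨g, hg, fun k => ?_⟩
    have := hgp (k.val + 1) (by omega) (by omega)
    rw [dif_pos (by omega)] at this
    exact this
  refine ⟨fun x y => ?_⟩
  obtain ⟨g, hg, hgx⟩ := key x
  obtain ⟨g', hg', hgy⟩ := key y
  refine ⟨⟨g'⁻¹ * g, Subgroup.mul_mem _ (Subgroup.inv_mem _ hg') hg⟩, ?_⟩
  ext k
  change (g'⁻¹ * g) (x k) = y k
  rw [Perm.mul_apply, Perm.inv_eq_iff_eq, hgx, hgy]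

end

end CfsgLib.WittH12
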