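import Mathlib
import Cfsg.Agent.EqBase
import Cfsg.Agent.LibWittH12
import Cfsg.Agent.LibM12DatH12

/-! the Mathieu groups of degree 11 and 12 through Witt's lemma -/

set_option autoImplicit false

namespace CfsgLib.M12H12

open Equiv CfsgLib.WittH12 CfsgLib.M12DatH12

def G9 : Subgroup (Perm (Fin 12)) := Subgroup.closure {S, T, U, V, W}

theorem S_mem : S ∈ G9 := Subgroup.subset_closure (by simp)
theorem T_mem : T ∈ G9 := Subgroup.subset_closure (by simp)
theorem U_mem : U ∈ G9 := Subgroup.subset_closure (by simp)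
theorem V_mem : V ∈ G9 := Subgroup.subset_closure (by simp)
theorem W_mem : W ∈ G9 := Subgroup.subset_closure (by simp)

theorem E_mem (i j : Fin 3) : E i j ∈ G9 := by
  unfold E
  refine G9.mul_mem ?_ ?_
  · fin_cases i
    · exact G9.one_mem
    · exact S_mem
    · exact G9.mul_mem S_mem S_mem
  · fin_cases j
    · exact G9.one_mem
    · exact T_mem
    · exact G9.mul_mem T_mem T_mem

theorem Q_mem (k : Fin 8) : Q k ∈ G9 := by
  fin_cases k
  · exact G9.one_mem
  · exact G9.mul_mem U_mem U_mem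
  · exact U_mem
  · exact G9.mul_mem (G9.mul_mem U_mem U_mem) U_mem
  · exact V_mem
  · exact G9.mul_mem (G9.mul_mem V_mem V_mem) V_mem
  · exact W_mem
  · exact G9.mul_mem (G9.mul_mem W_mem W_mem) W_mem

def Form (g : Perm (Fin 12)) : Prop := ∃ i j : Fin 3, ∃ k : Fin 8, g = E i j * Q k

theorem form_S (g : Perm (Fin 12)) (h : Form g) : Form (S * g) := by
  obtain ⟨i, j, k, rfl⟩ := h
  obtain ⟨i', j', h'⟩ := SE i j
  exact ⟨i', j', k, by rw [← mul_assoc, h']⟩

theorem form_T (g : Perm (Fin 12)) (h : Form g) : Form (T * g) := by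
  obtain ⟨i, j, k, rfl⟩ := h
  obtain ⟨i', j', h'⟩ := TE i j
  exact ⟨i', j', k, by rw [← mul_assoc, h']⟩

theorem form_U (g : Perm (Fin 12)) (h : Form g) : Form (U * g) := by
  obtain ⟨i, j, k, rfl⟩ := h
  obtain ⟨i', j', h'⟩ := US i j
  obtain ⟨k', hk⟩ := UQ k
  exact ⟨i', j', k', by rw [← mul_assoc, h', mul_assoc, hk]⟩

theorem form_V (g : Perm (Fin 12)) (h : Form g) : Form (V * g) := by
  obtain ⟨i, j, k, rfl⟩ := h
  obtain ⟨i', j', h'⟩ := VS i j
  obtain ⟨k', hk⟩ := VQ k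
  exact ⟨i', j', k', by rw [← mul_assoc, h', mul_assoc, hk]⟩

theorem form_W (g : Perm (Fin 12)) (h : Form g) : Form (W * g) := by
  obtain ⟨i, j, k, rfl⟩ := h
  obtain ⟨i', j', h'⟩ := WS i j
  obtain ⟨k', hk⟩ := WQ k
  exact ⟨i', j', k', by rw [← mul_assoc, h', mul_assoc, hk]⟩

theorem form_of_mem (g : Perm (Fin 12)) (hg : g ∈ G9) : Form g := by
  have key : ∀ g ∈ Submonoid.closure ({S, T, U, V, W} : Set (Perm (Fin 12))),
      ∀ z, Form z → Form (g * z) := by
    intro g hg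
    induction hg using Submonoid.closure_induction with
    | mem x hx =>
      intro z hz
      rcases hx with rfl | rfl | rfl | rfl | hx
      · exact form_S z hz
      · exact form_T z hz
      · exact form_U z hz
      · exact form_V z hz
      · rw [Set.mem_singleton_iff] at hx
        subst hx
        exact form_W z hz
    | one => intro z hz; rwa [one_mul]
    | mul a b _ _ iha ihb => intro z hz; rw [mul_assoc]; exact iha _ (ihb z hz)
  have hg' : g ∈ Submonoid.closure ({S, T, U, V, W} : Set (Perm (Fin 12))) := by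
    rw [← Subgroup.closure_toSubmonoid_of_finite]
    exact hg
  have := key g hg' 1 ⟨0, 0, 0, by simp [E, Q]⟩
  rwa [mul_one] at this

def q (i : ℕ) : Fin 12 := match i with
  | 1 => 4
  | 2 => 3
  | 3 => 0
  | 4 => 1
  | 5 => 2
  | _ => 0

def sg (i : ℕ) : Perm (Fin 12) := match i with
  | 1 => S * (U * U)
  | 2 => X1
  | 3 => X2
  | 4 => X3
  | _ => 1

theorem stab3 (g : Perm (Fin 12)) (hg : g ∈ G9) (h3 : g 3 = 3) : ∃ k, g = Q k := by
  obtain ⟨i, j, k, rfl⟩ := form_of_mem g hg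
  rw [Perm.mul_apply, Qfix3] at h3
  obtain ⟨rfl, rfl⟩ := fix3 i j h3
  exact ⟨k, by simp [E]⟩

theorem stab34 (g : Perm (Fin 12)) (hg : g ∈ G9) (h3 : g 3 = 3) (h4 : g 4 = 4) : g = 1 := by
  obtain ⟨k, rfl⟩ := stab3 g hg h3
  have := fix4 k h4
  subst this
  rfl

theorem move (a b : Fin 12) (ha : a ≠ 0 ∧ a ≠ 1 ∧ a ≠ 2) (hb : b ≠ 0 ∧ b ≠ 1 ∧ b ≠ 2)
    (hab : a ≠ b) : ∃ g ∈ G9, g a = 3 ∧ g b = 4 := by
  obtain ⟨i, j, hij⟩ := trE a ha.1 ha.2.1 ha.2.2
  obtain ⟨e0, e1, e2⟩ := Efix i j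
  obtain ⟨k, hk⟩ := trQ (E i j b)
    (fun h => hb.1 ((E i j).injective (h.trans e0.symm)))
    (fun h => hb.2.1 ((E i j).injective (h.trans e1.symm)))
    (fun h => hb.2.2 ((E i j).injective (h.trans e2.symm)))
    (fun h => hab ((E i j).injective (hij.trans h.symm)))
  refine ⟨Q k * E i j, G9.mul_mem (Q_mem k) (E_mem i j), ?_, ?_⟩
  · rw [Perm.mul_apply, hij, Qfix3]
  · rw [Perm.mul_apply, hk]

theorem two (a b c d : Fin 12) (ha : a ≠ 0 ∧ a ≠ 1 ∧ a ≠ 2) (hb : b ≠ 0 ∧ b ≠ 1 ∧ b ≠ 2)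
    (hc : c ≠ 0 ∧ c ≠ 1 ∧ c ≠ 2) (hd : d ≠ 0 ∧ d ≠ 1 ∧ d ≠ 2) (hab : a ≠ b) (hcd : c ≠ d) :
    ∃ g ∈ G9, g a = c ∧ g b = d := by
  obtain ⟨g, hg, h1, h2⟩ := move a b ha hb hab
  obtain ⟨g', hg', h1', h2'⟩ := move c d hc hd hcd
  refine ⟨g'⁻¹ * g, G9.mul_mem (G9.inv_mem hg') hg, ?_, ?_⟩
  · rw [Perm.mul_apply, Perm.inv_eq_iff_eq, h1, h1']
  · rw [Perm.mul_apply, Perm.inv_eq_iff_eq, h2, h2']

theorem fix012 (g : Perm (Fin 12)) (hg : g ∈ G9) : g 0 = 0 ∧ g 1 = 1 ∧ g 2 = 2 := by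
  obtain ⟨i, j, k, rfl⟩ := form_of_mem g hg
  obtain ⟨e0, e1, e2⟩ := Efix i j
  obtain ⟨f0, f1, f2⟩ := Qfix k
  refine ⟨?_, ?_, ?_⟩
  · rw [Perm.mul_apply, f0, e0]
  · rw [Perm.mul_apply, f1, e1]
  · rw [Perm.mul_apply, f2, e2]

theorem conjQ {x : Perm (Fin 12)} (hx3 : x 3 = 3 ∨ True) (hQ : ∀ k : Fin 8, ∃ k' : Fin 8, x * Q k * x⁻¹ = Q k') :
    ∀ g ∈ G9 ⊓ MulAction.stabilizer (Perm (Fin 12)) (3 : Fin 12),
      x * g * x⁻¹ ∈ G9 ⊓ MulAction.stabilizer (Perm (Fin 12)) (3 : Fin 12) := by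
  rintro g ⟨hg, h3⟩
  obtain ⟨k, rfl⟩ := stab3 g hg h3
  obtain ⟨k', hk'⟩ := hQ k
  rw [hk']
  exact ⟨Q_mem k', Qfix3 k'⟩

theorem wdata : WData 5 q G9 sg ⊥ := by
  refine ⟨by norm_num, ?_, ?_, ?_, ?_, ?_, ?_, ?_, ?_, ?_, ?_, ?_⟩
  · intro i j h1 h2 h3 h4 h
    interval_cases i <;> interval_cases j <;> first | rfl | (exact absurd h (by decide))
  · intro g hg i h1 h2
    obtain ⟨f0, f1, f2⟩ := fix012 g hg
    interval_cases i
    · exact f0
    · exact f1
    · exact f2
  · intro a b c d h hab hcd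
    have e3 := h 3 (by norm_num) (by norm_num)
    have e4 := h 4 (by norm_num) (by norm_num)
    have e5 := h 5 (by norm_num) (by norm_num)
    exact two a b c d ⟨e3.1, e4.1, e5.1⟩ ⟨e3.2.1, e4.2.1, e5.2.1⟩
      ⟨e3.2.2.1, e4.2.2.1, e5.2.2.1⟩ ⟨e3.2.2.2, e4.2.2.2, e5.2.2.2⟩ hab hcd
  · exact G9.mul_mem S_mem (G9.mul_mem U_mem U_mem)
  · exact S1sw
  · intro i h1 h2
    obtain ⟨a1, a2, a3, a4, a5⟩ := x1q
    obtain ⟨b1, b2, b3, b4, b5⟩ := x2q
    obtain ⟨c1, c2, c3, c4, c5⟩ := x3q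
    have : i ≤ 4 := by omega
    interval_cases i
    · refine ⟨a1, a2, fun j h3 h4 h5 h6 => ?_⟩
      interval_cases j
      · exact a3
      · exact absurd rfl h5
      · exact absurd rfl h6
      · exact a4
      · exact a5
    · refine ⟨b1, b2, fun j h3 h4 h5 h6 => ?_⟩
      interval_cases j
      · exact b3
      · exact b4
      · exact absurd rfl h5
      · exact absurd rfl h6
      · exact b5
    · refine ⟨c1, c2, fun j h3 h4 h5 h6 => ?_⟩
      interval_cases j
      · exact c3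
      · exact c4
      · exact c5
      · exact absurd rfl h5
      · exact absurd rfl h6
  · symm
    rw [eq_bot_iff]
    rintro g ⟨⟨hg, h4⟩, h3⟩
    exact Subgroup.mem_bot.mpr (stab34 g hg h3 h4)
  · intro i h1 h2
    have : i ≤ 4 := by omega
    rw [Subgroup.mem_bot]
    interval_cases i
    · exact r1
    · exact r2
    · exact r3
    · exact r4
  · intro i h1 h2
    have : i ≤ 3 := by omega
    rw [Subgroup.mem_bot]
    interval_cases i
    · exact b1
    · exact b2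
    · exact b3
  · intro i j h1 h2 h3
    have : j ≤ 4 := by omega
    rw [Subgroup.mem_bot, Subgroup.mem_bot]
    have hj3 : 3 ≤ j := by omega
    interval_cases j
    · have hi1 : i ≤ 1 := by omega
      interval_cases i
      exact ⟨c13, c31⟩
    · have hi1 : i ≤ 2 := by omega
      interval_cases i
      · exact ⟨c14, c41⟩
      · exact ⟨c24, c42⟩
  · intro i h1 h2
    have : i ≤ 4 := by omega
    interval_cases i
    · exact conjQ (Or.inr trivial) X1Q
    · exact conjQ (Or.inr trivial) X2Q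
    · exact conjQ (Or.inr trivial) X3Q

theorem L5_eq : Subgroup.closure {S, T, U, V, W, X1, X2, X3} = Lc q G9 sg 5 := by
  rw [Lc_ge 5 (by norm_num)]
  apply le_antisymm
  · rw [Subgroup.closure_le]
    rintro x (rfl | rfl | rfl | rfl | rfl | rfl | rfl | hx)
    · exact Subgroup.subset_closure (Or.inl S_mem)
    · exact Subgroup.subset_closure (Or.inl T_mem)
    · exact Subgroup.subset_closure (Or.inl U_mem)
    · exact Subgroup.subset_closure (Or.inl V_mem)
    · exact Subgroup.subset_closure (Or.inl W_mem)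
    · exact Subgroup.subset_closure (Or.inr ⟨2, by norm_num, by norm_num, rfl⟩)
    · exact Subgroup.subset_closure (Or.inr ⟨3, by norm_num, by norm_num, rfl⟩)
    · rw [Set.mem_singleton_iff] at hx
      subst hx
      exact Subgroup.subset_closure (Or.inr ⟨4, by norm_num, by norm_num, rfl⟩)
  · rw [Subgroup.closure_le]
    rintro x (hx | ⟨i, h1, h2, rfl⟩)
    · refine Subgroup.closure_mono ?_ hx
      rintro y (rfl | rfl | rfl | rfl | hy)
      · simp
      · simp
      · simp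
      · simp
      · rw [Set.mem_singleton_iff] at hy
        subst hy; simp
    · have : i ≤ 4 := by omega
      interval_cases i
      · exact Subgroup.subset_closure (by simp [sg])
      · exact Subgroup.subset_closure (by simp [sg])
      · exact Subgroup.subset_closure (by simp [sg])

theorem L4_eq : Subgroup.closure {S, T, U, V, W, X1, X2} = Lc q G9 sg 4 := by
  rw [Lc_ge 4 (by norm_num)]
  apply le_antisymm
  · rw [Subgroup.closure_le]
    rintro x (rfl | rfl | rfl | rfl | rfl | rfl | hx)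
    · exact Subgroup.subset_closure (Or.inl S_mem)
    · exact Subgroup.subset_closure (Or.inl T_mem)
    · exact Subgroup.subset_closure (Or.inl U_mem)
    · exact Subgroup.subset_closure (Or.inl V_mem)
    · exact Subgroup.subset_closure (Or.inl W_mem)
    · exact Subgroup.subset_closure (Or.inr ⟨2, by norm_num, by norm_num, rfl⟩)
    · rw [Set.mem_singleton_iff] at hx
      subst hx
      exact Subgroup.subset_closure (Or.inr ⟨3, by norm_num, by norm_num, rfl⟩)
  · rw [Subgroup.closure_le]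
    rintro x (hx | ⟨i, h1, h2, rfl⟩)
    · refine Subgroup.closure_mono ?_ hx
      rintro y (rfl | rfl | rfl | rfl | hy)
      · simp
      · simp
      · simp
      · simp
      · rw [Set.mem_singleton_iff] at hy
        subst hy; simp
    · have : i ≤ 3 := by omega
      interval_cases i
      · exact Subgroup.subset_closure (by simp [sg])
      · exact Subgroup.subset_closure (by simp [sg])

theorem trans5 : MulAction.IsMultiplyPretransitive (Lc q G9 sg 5) (Fin 12) 5 := t_trans wdata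

theorem stab5 (y : Fin 5 ↪ Fin 12) : MulAction.stabilizer (Lc q G9 sg 5) y = ⊥ := by
  rw [eq_bot_iff]
  intro g hg
  rw [Subgroup.mem_bot]
  have hgy : ∀ k, (g : Perm (Fin 12)) (y k) = y k := by
    intro k
    exact congrArg (fun f : Fin 5 ↪ Fin 12 => f k) hg
  have hq : Function.Injective (fun k : Fin 5 => q (k.val + 1)) := by decide
  obtain ⟨m, hm⟩ := trans5.exists_smul_eq y ⟨_, hq⟩
  have hmy : ∀ k : Fin 5, (m : Perm (Fin 12)) (y k) = q (k.val + 1) := fun k =>
    congrArg (fun f : Fin 5 ↪ Fin 12 => f k) hm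
  have h1 : (m : Perm (Fin 12)) * g * (m : Perm (Fin 12))⁻¹ ∈ (⊥ : Subgroup (Perm (Fin 12))) := by
    apply fix_all wdata 5 (by norm_num) le_rfl _
      (Subgroup.mul_mem _ (Subgroup.mul_mem _ m.2 g.2) (Subgroup.inv_mem _ m.2))
    intro k h1 h2
    have h3 := hmy ⟨k - 1, by omega⟩
    simp only at h3
    rw [show k - 1 + 1 = k by omega] at h3
    rw [← h3, Perm.mul_apply, Perm.mul_apply]
    have h4 : (m : Perm (Fin 12))⁻¹ ((m : Perm (Fin 12)) (y ⟨k - 1, by omega⟩)) =
        y ⟨k - 1, by omega⟩ := (m : Perm (Fin 12)).symm_apply_apply _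
    rw [h4, hgy]
  rw [Subgroup.mem_bot] at h1
  apply Subtype.ext
  have h5 : (g : Perm (Fin 12)) = (m : Perm (Fin 12))⁻¹ *
      ((m : Perm (Fin 12)) * g * (m : Perm (Fin 12))⁻¹) * (m : Perm (Fin 12)) := by group
  rw [h5, h1]
  simp

theorem card5 : Nat.card (Lc q G9 sg 5) = 95040 := by
  obtain ⟨y0, -⟩ : ∃ y : Fin 5 ↪ Fin 12, True :=
    ⟨⟨(fun k : Fin 5 => q (k.val + 1)), by decide⟩, trivial⟩
  have h3 : Nat.card (MulAction.stabilizer (Lc q G9 sg 5) y0) = 1 := by
    rw [stab5 y0]; exact Subgroup.card_bot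
  have horb : MulAction.orbit (Lc q G9 sg 5) y0 = Set.univ := by
    rw [Set.eq_univ_iff_forall]
    intro z
    obtain ⟨g, hg⟩ := trans5.exists_smul_eq y0 z
    exact ⟨g, hg⟩
  have h4 : Nat.card (MulAction.orbit (Lc q G9 sg 5) y0) = 95040 := by
    rw [horb, Nat.card_univ, Nat.card_eq_fintype_card, Fintype.card_embedding_eq]
    rfl
  have h4' : Nat.card ((Lc q G9 sg 5) ⧸ MulAction.stabilizer (Lc q G9 sg 5) y0) = 95040 :=
    (Nat.card_congr (MulAction.orbitEquivQuotientStabilizer (Lc q G9 sg 5) y0)).symm.trans h4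
  have h5 := Subgroup.card_eq_card_quotient_mul_card_subgroup
    (MulAction.stabilizer (Lc q G9 sg 5) y0)
  rw [h4', h3] at h5
  exact h5

theorem L4_stab : Lc q G9 sg 4 = Lc q G9 sg 5 ⊓ MulAction.stabilizer (Perm (Fin 12)) (2 : Fin 12) := by
  apply le_antisymm
  · intro g hg
    exact ⟨Lc_mono 4 (by norm_num) hg, fix_gt wdata 4 (by norm_num) (by norm_num) g hg 5
      (by norm_num) (by norm_num)⟩
  · rintro g ⟨hg, h2⟩
    obtain ⟨-, hb, -, -⟩ := chain wdata 5 (by norm_num) le_rfl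
    exact hb g hg h2

theorem card4 : Nat.card (Lc q G9 sg 4) = 7920 := by
  have h5 := card5
  have hidx : (MulAction.stabilizer (Lc q G9 sg 5) (2 : Fin 12)).index = 12 := by
    rw [Subgroup.index, Nat.card_congr (MulAction.orbitEquivQuotientStabilizer _ _).symm]
    have : MulAction.orbit (Lc q G9 sg 5) (2 : Fin 12) = Set.univ := by
      rw [Set.eq_univ_iff_forall]
      intro p
      obtain ⟨-, -, -, hd⟩ := chain wdata 5 (by norm_num) le_rfl
      obtain ⟨g, hg, hgp⟩ := hd p (fun j h1 h2 => by omega)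
      refine ⟨⟨g⁻¹, Subgroup.inv_mem _ hg⟩, ?_⟩
      change g⁻¹ 2 = p
      rw [Perm.inv_eq_iff_eq]
      exact hgp.symm
    rw [this, Nat.card_univ, Nat.card_eq_fintype_card, Fintype.card_fin]
  have h6 := (MulAction.stabilizer (Lc q G9 sg 5) (2 : Fin 12)).card_mul_index
  rw [hidx, h5] at h6
  have h7 : (MulAction.stabilizer (Lc q G9 sg 5) (2 : Fin 12)).map (Lc q G9 sg 5).subtype =
      Lc q G9 sg 4 := by
    rw [L4_stab]
    ext g
    constructor
    · rintro ⟨a, ha, rfl⟩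
      exact ⟨a.2, ha⟩
    · rintro ⟨h1, h2⟩
      exact ⟨⟨g, h1⟩, h2, rfl⟩
  rw [← h7, Subgroup.card_map_of_injective (Subgroup.subtype_injective _)]
  omega

end CfsgLib.M12H12
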