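import Mathlib
import Cfsg.Agent.LibM24b
import Cfsg.Agent.LibM24f
import Cfsg.Agent.LibKL34

/-!
The stabiliser of three points in the Mathieu group of degree 24 is the projective special linear
group of dimension three over the field with four elements.
-/

set_option autoImplicit false
set_option linter.all false

namespace CfsgLib.M21P

open Cfsg CfsgLib.Golay CfsgLib.M24 Matrix
open scoped LinearAlgebra.Projectivization

/-- addition of codes -/
def ad (a b : ℕ) : ℕ := Nat.xor a b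

/-- multiplication of codes -/
def ml (a b : ℕ) : ℕ := cond (Nat.beq a 0) 0 (cond (Nat.beq b 0) 0 ((a + b + 1) % 3 + 1))

/-- coordinates of the points -/
def tab : List (List ℕ) := [[0, 0, 0], [0, 0, 0], [1, 0, 0], [0, 1, 0], [0, 0, 1], [1, 2, 0], [1, 1, 1], [1, 2, 2], [1, 2, 1], [1, 1, 2], [1, 3, 1], [0, 1, 3], [1, 1, 3], [1, 0, 1], [1, 3, 0], [1, 2, 3], [1, 0, 2], [1, 1, 0], [1, 3, 2], [0, 1, 1], [0, 1, 2], [1, 3, 3], [1, 0, 3], [0, 0, 0]]

/-- the permutations -/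
def perms : List (List ℕ) :=
  [[0, 1, 2, 3, 4, 5, 6, 7, 8, 9, 10, 11, 12, 13, 14, 15, 16, 17, 18, 19, 20, 21, 22, 23],
   [0, 1, 2, 17, 4, 14, 19, 21, 18, 20, 15, 12, 11, 13, 5, 10, 16, 3, 8, 6, 9, 7, 22, 23],
   [0, 1, 2, 14, 4, 17, 7, 6, 12, 15, 20, 18, 8, 13, 3, 9, 16, 5, 11, 21, 10, 19, 22, 23],
   [0, 1, 2, 5, 4, 3, 21, 19, 11, 10, 9, 8, 18, 13, 17, 20, 16, 14, 12, 7, 15, 6, 22, 23],
   [0, 1, 2, 3, 13, 5, 19, 21, 11, 15, 20, 8, 18, 4, 14, 9, 22, 17, 12, 6, 10, 7, 16, 23],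
   [0, 1, 2, 3, 22, 5, 7, 6, 18, 10, 9, 12, 11, 16, 14, 20, 13, 17, 8, 21, 15, 19, 4, 23],
   [0, 1, 2, 3, 16, 5, 21, 19, 12, 20, 15, 18, 8, 22, 14, 10, 4, 17, 11, 7, 9, 6, 13, 23],
   [0, 1, 17, 3, 4, 14, 13, 18, 10, 16, 8, 11, 22, 6, 5, 21, 9, 2, 7, 19, 20, 15, 12, 23],
   [0, 1, 5, 3, 4, 2, 10, 16, 13, 18, 6, 11, 21, 8, 17, 22, 7, 14, 9, 19, 20, 12, 15, 23],
   [0, 1, 14, 3, 4, 17, 8, 9, 6, 7, 13, 11, 15, 10, 2, 12, 18, 5, 16, 19, 20, 22, 21, 23],
   [0, 1, 2, 3, 19, 5, 13, 16, 10, 18, 8, 20, 15, 6, 14, 12, 7, 17, 9, 4, 11, 22, 21, 23],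
   [0, 1, 2, 3, 11, 5, 10, 9, 13, 7, 6, 4, 22, 8, 14, 21, 18, 17, 16, 20, 19, 15, 12, 23],
   [0, 1, 2, 3, 20, 5, 8, 18, 6, 16, 13, 19, 21, 10, 14, 22, 9, 17, 7, 11, 4, 12, 15, 23],
   [0, 1, 13, 3, 4, 8, 17, 15, 5, 12, 14, 11, 9, 2, 10, 7, 22, 6, 21, 19, 20, 18, 16, 23],
   [0, 1, 16, 3, 4, 7, 12, 5, 15, 17, 21, 11, 6, 22, 18, 8, 2, 9, 14, 19, 20, 10, 13, 23],
   [0, 1, 22, 3, 4, 15, 9, 8, 7, 6, 18, 11, 17, 16, 21, 5, 13, 12, 10, 19, 20, 14, 2, 23],
   [0, 1, 2, 19, 4, 7, 17, 5, 15, 12, 18, 20, 9, 13, 21, 8, 16, 6, 10, 3, 11, 14, 22, 23],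
   [0, 1, 2, 20, 4, 15, 12, 8, 7, 17, 14, 19, 6, 13, 10, 5, 16, 9, 21, 11, 3, 18, 22, 23],
   [0, 1, 2, 11, 4, 8, 9, 15, 5, 6, 21, 3, 17, 13, 18, 7, 16, 12, 14, 20, 19, 10, 22, 23],
   [0, 1, 2, 3, 4, 14, 15, 10, 21, 8, 12, 19, 7, 22, 17, 18, 13, 5, 6, 20, 11, 9, 16, 23],
   [0, 1, 2, 3, 4, 17, 18, 12, 9, 21, 7, 20, 10, 16, 5, 6, 22, 14, 15, 11, 19, 8, 13, 23]]

/-- coordinate -/
def vec (x k : ℕ) : ℕ := (tab.getD x []).getD k 0

/-- the 21 points -/
def isG (x : ℕ) : Bool := not (or (Nat.beq x 23) (or (Nat.beq x 0) (Nat.beq x 1)))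

theorem vec_lt : ∀ x < 24, ∀ k < 3, vec x k < 4 := by decide +kernel

theorem vec_nz : ∀ x < 24, isG x = true → ∃ k < 3, vec x k ≠ 0 := by decide +kernel

set_option synthInstance.maxHeartbeats 4000000 in
set_option synthInstance.maxSize 4096 in
theorem vec_inj : ∀ x < 24, ∀ y < 24, isG x = true → isG y = true → ∀ l < 4,
    (∀ k < 3, ml l (vec y k) = vec x k) → x = y := by decide +kernel

theorem vec_surj0 : ((List.range 4).all fun a => (List.range 4).all fun b => (List.range 4).all fun c =>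
    or (and (Nat.beq a 0) (and (Nat.beq b 0) (Nat.beq c 0))) ((List.range 24).any fun x => and (isG x)
      ([1, 2, 3].any fun l => and (Nat.beq (ml l (vec x 0)) a) (and (Nat.beq (ml l (vec x 1)) b)
        (Nat.beq (ml l (vec x 2)) c))))) = true := by
  decide +kernel

theorem vec_surj (a : ℕ) (ha : a < 4) (b : ℕ) (hb : b < 4) (c : ℕ) (hc : c < 4) (h : ¬ (a = 0 ∧ b = 0 ∧ c = 0)) :
    ∃ x < 24, isG x = true ∧ ∃ l < 4, l ≠ 0 ∧ ml l (vec x 0) = a ∧ ml l (vec x 1) = b ∧ ml l (vec x 2) = c := by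
  have h1 := List.all_eq_true.1 (List.all_eq_true.1 (List.all_eq_true.1 vec_surj0 a (List.mem_range.2 ha)) b
    (List.mem_range.2 hb)) c (List.mem_range.2 hc)
  rw [Bool.or_eq_true, Bool.and_eq_true, Bool.and_eq_true, beq_iff, beq_iff, beq_iff] at h1
  obtain ⟨x, hx, h2⟩ := List.any_eq_true.1 (h1.resolve_left h)
  rw [Bool.and_eq_true] at h2
  obtain ⟨l, hl, h3⟩ := List.any_eq_true.1 h2.2
  rw [Bool.and_eq_true, Bool.and_eq_true, beq_iff, beq_iff, beq_iff] at h3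
  refine ⟨x, List.mem_range.1 hx, h2.1, l, ?_, ?_, h3⟩
  · simp only [List.mem_cons, List.not_mem_nil, or_false] at hl; omega
  · simp only [List.mem_cons, List.not_mem_nil, or_false] at hl; omega

theorem ml_lt : ∀ a < 4, ∀ b < 4, ml a b < 4 := by decide +kernel
theorem ad_lt : ∀ a < 4, ∀ b < 4, ad a b < 4 := by decide +kernel
theorem ad_zero : ∀ a < 4, ∀ b < 4, ad a b = 0 → a = b := by decide +kernel

/-- coordinate of the image -/
def rowv (m : ℕ → ℕ → ℕ) (x k : ℕ) : ℕ :=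
  ad (ad (ml (m k 0) (vec x 0)) (ml (m k 1) (vec x 1))) (ml (m k 2) (vec x 2))

/-- the matrix induces the permutation -/
def chk (m : ℕ → ℕ → ℕ) (P : List ℕ) : Bool :=
  (List.range 24).all fun x => or (not (isG x)) (and (isG (P.getD x 0))
    ([1, 2, 3].any fun l => (List.range 3).all fun k => Nat.beq (rowv m x k) (ml l (vec (P.getD x 0) k))))

/-- transvection -/
def tv (i j b : ℕ) (k l : ℕ) : ℕ := cond (Nat.beq k l) 1 (cond (and (Nat.beq k i) (Nat.beq l j)) b 0)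

/-- diagonal -/
def dg (a b c : ℕ) (k l : ℕ) : ℕ := cond (Nat.beq k l) (cond (Nat.beq k 0) a (cond (Nat.beq k 1) b c)) 0

theorem perms_ok : (perms.all fun P => and (isM24 P) (and (Nat.beq (P.getD 23 0) 23)
    (and (Nat.beq (P.getD 0 0) 0) (Nat.beq (P.getD 1 0) 1)))) = true := by decide +kernel

theorem tv_ok : ∀ i < 3, ∀ j < 3, i ≠ j → ∀ b < 4, perms.any (chk (tv i j b)) = true := by decide +kernel

theorem dg_ok : ∀ a < 4, ∀ b < 4, ∀ c < 4, ml (ml a b) c = 1 → perms.any (chk (dg a b c)) = true := by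
  decide +kernel

theorem tv_lt : ∀ i < 3, ∀ j < 3, ∀ b < 4, ∀ k < 3, ∀ l < 3, tv i j b k l < 4 := by decide +kernel

theorem dg_lt : ∀ a < 4, ∀ b < 4, ∀ c < 4, ∀ k < 3, ∀ l < 3, dg a b c k l < 4 := by decide +kernel

/-- decoding -/
def cF {F : Type*} [Field F] (w : F) : ℕ → F
  | 0 => 0
  | 1 => 1
  | 2 => w
  | _ => w + 1

theorem cF_ad {F : Type*} [Field F] {w : F} (h2 : (1 : F) + 1 = 0) :
    ∀ a b, a < 4 → b < 4 → cF w (ad a b) = cF w a + cF w b
  | 0, 0, _, _ => by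
    show (0 : F) = 0 + 0
    linear_combination (-((0 : F) + 0 * w)) * h2
  | 0, 1, _, _ => by
    show (1 : F) = 0 + 1
    linear_combination (-((0 : F) + 0 * w)) * h2
  | 0, 2, _, _ => by
    show (w : F) = 0 + w
    linear_combination (-((0 : F) + 0 * w)) * h2
  | 0, 3, _, _ => by
    show ((w + 1) : F) = 0 + (w + 1)
    linear_combination (-((0 : F) + 0 * w)) * h2
  | 1, 0, _, _ => by
    show (1 : F) = 1 + 0
    linear_combination (-((0 : F) + 0 * w)) * h2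
  | 1, 1, _, _ => by
    show (0 : F) = 1 + 1
    linear_combination (-((1 : F) + 0 * w)) * h2
  | 1, 2, _, _ => by
    show ((w + 1) : F) = 1 + w
    linear_combination (-((0 : F) + 0 * w)) * h2
  | 1, 3, _, _ => by
    show (w : F) = 1 + (w + 1)
    linear_combination (-((1 : F) + 0 * w)) * h2
  | 2, 0, _, _ => by
    show (w : F) = w + 0
    linear_combination (-((0 : F) + 0 * w)) * h2
  | 2, 1, _, _ => by
    show ((w + 1) : F) = w + 1
    linear_combination (-((0 : F) + 0 * w)) * h2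
  | 2, 2, _, _ => by
    show (0 : F) = w + w
    linear_combination (-((0 : F) + 1 * w)) * h2
  | 2, 3, _, _ => by
    show (1 : F) = w + (w + 1)
    linear_combination (-((0 : F) + 1 * w)) * h2
  | 3, 0, _, _ => by
    show ((w + 1) : F) = (w + 1) + 0
    linear_combination (-((0 : F) + 0 * w)) * h2
  | 3, 1, _, _ => by
    show (w : F) = (w + 1) + 1
    linear_combination (-((1 : F) + 0 * w)) * h2
  | 3, 2, _, _ => by
    show (1 : F) = (w + 1) + w
    linear_combination (-((0 : F) + 1 * w)) * h2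
  | 3, 3, _, _ => by
    show (0 : F) = (w + 1) + (w + 1)
    linear_combination (-((1 : F) + 1 * w)) * h2
  | _ + 4, _, h, _ => by omega
  | _, _ + 4, _, h => by omega

theorem cF_ml {F : Type*} [Field F] {w : F} (h2 : (1 : F) + 1 = 0) (hw : w * w = w + 1) :
    ∀ a b, a < 4 → b < 4 → cF w (ml a b) = cF w a * cF w b
  | 0, 0, _, _ => by
    show (0 : F) = 0 * 0
    linear_combination (-((0 : F) + 0 * w)) * h2 - (0 : F) * hw
  | 0, 1, _, _ => by
    show (0 : F) = 0 * 1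
    linear_combination (-((0 : F) + 0 * w)) * h2 - (0 : F) * hw
  | 0, 2, _, _ => by
    show (0 : F) = 0 * w
    linear_combination (-((0 : F) + 0 * w)) * h2 - (0 : F) * hw
  | 0, 3, _, _ => by
    show (0 : F) = 0 * (w + 1)
    linear_combination (-((0 : F) + 0 * w)) * h2 - (0 : F) * hw
  | 1, 0, _, _ => by
    show (0 : F) = 1 * 0
    linear_combination (-((0 : F) + 0 * w)) * h2 - (0 : F) * hw
  | 1, 1, _, _ => by
    show (1 : F) = 1 * 1
    linear_combination (-((0 : F) + 0 * w)) * h2 - (0 : F) * hw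
  | 1, 2, _, _ => by
    show (w : F) = 1 * w
    linear_combination (-((0 : F) + 0 * w)) * h2 - (0 : F) * hw
  | 1, 3, _, _ => by
    show ((w + 1) : F) = 1 * (w + 1)
    linear_combination (-((0 : F) + 0 * w)) * h2 - (0 : F) * hw
  | 2, 0, _, _ => by
    show (0 : F) = w * 0
    linear_combination (-((0 : F) + 0 * w)) * h2 - (0 : F) * hw
  | 2, 1, _, _ => by
    show (w : F) = w * 1
    linear_combination (-((0 : F) + 0 * w)) * h2 - (0 : F) * hw
  | 2, 2, _, _ => by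
    show ((w + 1) : F) = w * w
    linear_combination (-((0 : F) + 0 * w)) * h2 - (1 : F) * hw
  | 2, 3, _, _ => by
    show (1 : F) = w * (w + 1)
    linear_combination (-((0 : F) + 1 * w)) * h2 - (1 : F) * hw
  | 3, 0, _, _ => by
    show (0 : F) = (w + 1) * 0
    linear_combination (-((0 : F) + 0 * w)) * h2 - (0 : F) * hw
  | 3, 1, _, _ => by
    show ((w + 1) : F) = (w + 1) * 1
    linear_combination (-((0 : F) + 0 * w)) * h2 - (0 : F) * hw
  | 3, 2, _, _ => by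
    show (1 : F) = (w + 1) * w
    linear_combination (-((0 : F) + 1 * w)) * h2 - (1 : F) * hw
  | 3, 3, _, _ => by
    show (w : F) = (w + 1) * (w + 1)
    linear_combination (-((1 : F) + 1 * w)) * h2 - (1 : F) * hw
  | _ + 4, _, h, _ => by omega
  | _, _ + 4, _, h => by omega

theorem cF_ne {F : Type*} [Field F] {w : F} (hw : w * w = w + 1) : ∀ a, a < 4 → a ≠ 0 → cF w a ≠ 0
  | 0, _, h => absurd rfl h
  | 1, _, _ => one_ne_zero
  | 2, _, _ => by
    show w ≠ 0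
    intro h; rw [h] at hw; simp at hw
  | 3, _, _ => by
    show w + 1 ≠ 0
    intro h
    rw [h] at hw
    have : w = 0 := by simpa using hw
    rw [this] at h; simp at h
  | _ + 4, h, _ => by omega

theorem cF_inj {F : Type*} [Field F] {w : F} (h2 : (1 : F) + 1 = 0) (hw : w * w = w + 1) {a b : ℕ} (ha : a < 4)
    (hb : b < 4) (h : cF w a = cF w b) : a = b := by
  apply ad_zero a ha b hb
  by_contra h0
  apply cF_ne hw _ (ad_lt a ha b hb) h0
  rw [cF_ad h2 a b ha hb, h]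
  linear_combination (cF w b) * h2

theorem cF_surj {F : Type*} [Field F] [Fintype F] (hF : Fintype.card F = 4) {w : F} (h2 : (1 : F) + 1 = 0)
    (hw : w * w = w + 1) (x : F) : ∃ a < 4, cF w a = x := by
  have hb : Function.Bijective (fun i : Fin 4 => cF w i.1) := by
    rw [Fintype.bijective_iff_injective_and_card]
    refine ⟨fun i j h => Fin.ext (cF_inj h2 hw i.2 j.2 h), by rw [Fintype.card_fin, hF]⟩
  obtain ⟨i, hi⟩ := hb.2 x
  exact ⟨i.1, i.2, hi⟩

theorem exists_w {F : Type*} [Field F] [Fintype F] (hF : Fintype.card F = 4) :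
    (1 : F) + 1 = 0 ∧ ∃ w : F, w * w = w + 1 := by
  classical
  have h4 : (4 : F) = 0 := by
    have := FiniteField.cast_card_eq_zero F
    rw [hF] at this
    exact_mod_cast this
  have h2 : (1 : F) + 1 = 0 := by
    have : ((1 : F) + 1) * (1 + 1) = 0 := by linear_combination h4
    exact mul_self_eq_zero.1 this
  refine ⟨h2, ?_⟩
  obtain ⟨w, hw⟩ : ∃ w : F, w ∉ ({0, 1} : Finset F) := by
    by_contra hc
    push Not at hc
    have h3 : (Finset.univ : Finset F) ⊆ {0, 1} := fun x _ => hc x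
    have h5 := Finset.card_le_card h3
    rw [Finset.card_univ, hF] at h5
    have := Finset.card_le_two (a := (0 : F)) (b := 1)
    omega
  rw [Finset.mem_insert, Finset.mem_singleton, not_or] at hw
  refine ⟨w, ?_⟩
  have h6 : w ^ 4 = w := by rw [← hF]; exact FiniteField.pow_card w
  have h7 : w * ((w - 1) * (w * w - (w + 1))) = 0 := by
    linear_combination h6 - (w ^ 3) * h2 + w * h2
  have h8 := (mul_eq_zero.1 ((mul_eq_zero.1 h7).resolve_left hw.1)).resolve_left (sub_ne_zero.2 hw.2)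
  exact sub_eq_zero.1 h8

end CfsgLib.M21P
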