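import Mathlib
import Cfsg.Agent.LibM21PSL
import Cfsg.Agent.LibM24f
import Cfsg.Agent.LibKL34

/-!
The isomorphism between a three point stabiliser and the projective special linear group.
-/

set_option autoImplicit false
set_option linter.all false

namespace CfsgLib.M21P

open Cfsg CfsgLib.Golay CfsgLib.M24 Matrix
open scoped LinearAlgebra.Projectivization

variable {F : Type} [Field F]

/-- the vector of a point -/
def fv (w : F) (p : GolayPt) : Fin 3 → F := fun k => cF w (vec (idx p) k)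

theorem fv_ne {w : F} (hw : w * w = w + 1) {p : GolayPt} (hp : isG (idx p) = true) : fv w p ≠ 0 := by
  obtain ⟨k, hk, h⟩ := vec_nz (idx p) (idx_lt p) hp
  intro h0
  exact cF_ne hw _ (vec_lt _ (idx_lt p) k hk) h (congrFun h0 ⟨k, hk⟩)

/-- the 21 points -/
abbrev X0 := {p : GolayPt // isG (idx p) = true}

/-- the projective point -/
def toP (w : F) (hw : w * w = w + 1) (x : X0) : ℙ F (Fin 3 → F) := Projectivization.mk F (fv w x.1) (fv_ne hw x.2)

theorem toP_bij [Fintype F] (hF : Fintype.card F = 4) {w : F} (h2 : (1 : F) + 1 = 0) (hw : w * w = w + 1) :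
    Function.Bijective (toP w hw) := by
  constructor
  · rintro ⟨x, hx⟩ ⟨y, hy⟩ h
    rw [toP, toP, Projectivization.mk_eq_mk_iff'] at h
    obtain ⟨a, ha⟩ := h
    obtain ⟨l, hl, rfl⟩ := cF_surj hF h2 hw a
    apply Subtype.ext
    apply idx_injective
    apply vec_inj (idx x) (idx_lt x) (idx y) (idx_lt y) hx hy l hl
    intro k hk
    apply cF_inj h2 hw (ml_lt _ hl _ (vec_lt _ (idx_lt y) k hk)) (vec_lt _ (idx_lt x) k hk)
    rw [cF_ml h2 hw _ _ hl (vec_lt _ (idx_lt y) k hk)]
    exact congrFun ha ⟨k, hk⟩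
  · intro v
    induction v using Projectivization.ind with
    | h v hv =>
      obtain ⟨a, ha, ha2⟩ := cF_surj hF h2 hw (v 0)
      obtain ⟨b, hb, hb2⟩ := cF_surj hF h2 hw (v 1)
      obtain ⟨c, hc, hc2⟩ := cF_surj hF h2 hw (v 2)
      obtain ⟨x, hx, hg, l, hl, hl0, e1, e2, e3⟩ := vec_surj a ha b hb c hc (by
        rintro ⟨rfl, rfl, rfl⟩
        apply hv
        funext k
        fin_cases k
        · exact ha2.symm
        · exact hb2.symm
        · exact hc2.symm)
      refine ⟨⟨pt x, by rw [idx_pt x hx]; exact hg⟩, ?_⟩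
      rw [toP, Projectivization.mk_eq_mk_iff']
      refine ⟨(cF w l)⁻¹, ?_⟩
      rw [inv_smul_eq_iff₀ (cF_ne hw l hl hl0)]
      have hkey : ∀ k : Fin 3, cF w l * cF w (vec x k) = cF w (ml l (vec x k)) := fun k =>
        (cF_ml h2 hw _ _ hl (vec_lt x hx k k.2)).symm
      funext k
      show v k = cF w l * cF w (vec (idx (pt x)) k)
      rw [idx_pt x hx, hkey k]
      fin_cases k
      · show v 0 = cF w (ml l (vec x 0)); rw [e1]; exact ha2.symm
      · show v 1 = cF w (ml l (vec x 1)); rw [e2]; exact hb2.symm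
      · show v 2 = cF w (ml l (vec x 2)); rw [e3]; exact hc2.symm

section
variable [Fintype F] (hF : Fintype.card F = 4) {w : F} (h2 : (1 : F) + 1 = 0) (hw : w * w = w + 1)

/-- the identification of the points -/
noncomputable def eqv : X0 ≃ ℙ F (Fin 3 → F) := Equiv.ofBijective _ (toP_bij hF h2 hw)

/-- the action on the points -/
noncomputable def phi : ProjectiveSpecialLinearGroup (Fin 3) F →* Equiv.Perm GolayPt :=
  (Equiv.Perm.ofSubtype (p := fun p : GolayPt => isG (idx p) = true)).comp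
    (((eqv hF h2 hw).symm.permCongrHom.toMonoidHom).comp (Projectivization.PSLAction.toPermHom (K := F) (ι := Fin 3)))

theorem phi_injective : Function.Injective (phi hF h2 hw) := by
  unfold phi
  rw [MonoidHom.coe_comp, MonoidHom.coe_comp]
  exact (Equiv.Perm.ofSubtype_injective).comp (((eqv hF h2 hw).symm.permCongrHom.injective).comp
    Matrix.ProjectiveSpecialLinearGroup.toPermHom_injective)

include hF h2 hw in
theorem smul_fv (g : SpecialLinearGroup (Fin 3) F) (m : ℕ → ℕ → ℕ) (hm : ∀ k < 3, ∀ l < 3, m k l < 4)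
    (hg : ∀ k l : Fin 3, g.1 k l = cF w (m k l)) (p : GolayPt) (k : Fin 3) :
    (g • fv w p) k = cF w (rowv m (idx p) k) := by
  have e : (g • fv w p) k = (g.1 *ᵥ fv w p) k := rfl
  have v0 := vec_lt _ (idx_lt p) 0 (by norm_num)
  have v1 := vec_lt _ (idx_lt p) 1 (by norm_num)
  have v2 := vec_lt _ (idx_lt p) 2 (by norm_num)
  have m0 := hm k k.2 0 (by norm_num)
  have m1 := hm k k.2 1 (by norm_num)
  have m2 := hm k k.2 2 (by norm_num)
  rw [e, rowv, cF_ad h2 _ _ (ad_lt _ (ml_lt _ m0 _ v0) _ (ml_lt _ m1 _ v1)) (ml_lt _ m2 _ v2),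
    cF_ad h2 _ _ (ml_lt _ m0 _ v0) (ml_lt _ m1 _ v1), cF_ml h2 hw _ _ m0 v0, cF_ml h2 hw _ _ m1 v1,
    cF_ml h2 hw _ _ m2 v2, Matrix.mulVec, dotProduct, Fin.sum_univ_three, hg, hg, hg]
  rfl

theorem phi_mk (g : SpecialLinearGroup (Fin 3) F) (m : ℕ → ℕ → ℕ) (hm : ∀ k < 3, ∀ l < 3, m k l < 4)
    (hg : ∀ k l : Fin 3, g.1 k l = cF w (m k l)) (P : List ℕ) (hP : P ∈ perms) (hc : chk m P = true) :
    phi hF h2 hw (g : ProjectiveSpecialLinearGroup (Fin 3) F) = mkPerm P := by
  have hok := List.all_eq_true.1 perms_ok P hP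
  rw [Bool.and_eq_true, Bool.and_eq_true, Bool.and_eq_true, beq_iff, beq_iff, beq_iff] at hok
  obtain ⟨hM, h23, h0, h1⟩ := hok
  have hv : valid P = true := by
    have := hM
    rw [isM24, Bool.and_eq_true] at this
    exact this.1
  apply Equiv.ext
  intro p
  by_cases hp : isG (idx p) = true
  · have h5 := List.all_eq_true.1 hc (idx p) (List.mem_range.2 (idx_lt p))
    rw [hp, Bool.not_true, Bool.false_or, Bool.and_eq_true] at h5
    obtain ⟨l, hl, h6⟩ := List.any_eq_true.1 h5.2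
    have hl4 : l < 4 := by
      simp only [List.mem_cons, List.not_mem_nil, or_false] at hl; omega
    have hq : isG (idx (mkPerm P p)) = true := by rw [idx_mkPerm hv]; exact h5.1
    have key : (g : ProjectiveSpecialLinearGroup (Fin 3) F) • (eqv hF h2 hw ⟨p, hp⟩) =
        eqv hF h2 hw ⟨mkPerm P p, hq⟩ := by
      rw [Matrix.ProjectiveSpecialLinearGroup.smul_proj_mk]
      show g • Projectivization.mk F (fv w p) (fv_ne hw hp) = Projectivization.mk F (fv w (mkPerm P p)) (fv_ne hw hq)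
      rw [Projectivization.smul_mk, Projectivization.mk_eq_mk_iff']
      refine ⟨cF w l, ?_⟩
      funext k
      have h7 := List.all_eq_true.1 h6 k (List.mem_range.2 k.2)
      rw [beq_iff] at h7
      rw [smul_fv hF h2 hw g m hm hg, h7, Pi.smul_apply, smul_eq_mul,
        cF_ml h2 hw _ _ hl4 (vec_lt _ (by rw [← idx_mkPerm hv]; exact idx_lt _) k k.2), fv, idx_mkPerm hv]
    show (Equiv.Perm.ofSubtype (p := fun p : GolayPt => isG (idx p) = true) _) p = _
    rw [Equiv.Perm.ofSubtype_apply_of_mem (p := fun p : GolayPt => isG (idx p) = true) (a := p) _ hp]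
    show (((eqv hF h2 hw).symm ((g : ProjectiveSpecialLinearGroup (Fin 3) F) • (eqv hF h2 hw ⟨p, hp⟩)) : X0) : GolayPt) = _
    rw [key, Equiv.symm_apply_apply]
  · show (Equiv.Perm.ofSubtype (p := fun p : GolayPt => isG (idx p) = true) _) p = _
    rw [Equiv.Perm.ofSubtype_apply_of_not_mem (p := fun p : GolayPt => isG (idx p) = true) (a := p) _ hp]
    apply idx_injective
    rw [idx_mkPerm hv]
    have h8 : idx p = 23 ∨ idx p = 0 ∨ idx p = 1 := by
      by_contra hcc
      rw [not_or, not_or] at hcc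
      apply hp
      rw [isG, Bool.not_eq_true', Bool.or_eq_false_iff, Bool.or_eq_false_iff, ← Bool.not_eq_true, ← Bool.not_eq_true,
        ← Bool.not_eq_true, beq_iff, beq_iff, beq_iff]
      exact hcc
    rcases h8 with h | h | h <;> rw [h]
    · exact h23.symm
    · exact h0.symm
    · exact h1.symm

/-- the three point stabiliser -/
def S3 : Subgroup (Equiv.Perm GolayPt) := M24 ⊓ St (pt 23) ⊓ St (pt 0) ⊓ St (pt 1)

theorem mem_S3 {P : List ℕ} (hP : P ∈ perms) : mkPerm P ∈ S3 := by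
  have hok := List.all_eq_true.1 perms_ok P hP
  rw [Bool.and_eq_true, Bool.and_eq_true, Bool.and_eq_true, beq_iff, beq_iff, beq_iff] at hok
  obtain ⟨hM, h23, h0, h1⟩ := hok
  have hv : valid P = true := by
    have := hM
    rw [isM24, Bool.and_eq_true] at this
    exact this.1
  refine ⟨⟨⟨isM24_spec hM, ?_⟩, ?_⟩, ?_⟩
  · apply idx_injective
    show idx (mkPerm P (pt 23)) = _
    rw [idx_mkPerm hv, idx_pt 23 (by norm_num)]; exact h23
  · apply idx_injective
    show idx (mkPerm P (pt 0)) = _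
    rw [idx_mkPerm hv, idx_pt 0 (by norm_num)]; exact h0
  · apply idx_injective
    show idx (mkPerm P (pt 1)) = _
    rw [idx_mkPerm hv, idx_pt 1 (by norm_num)]; exact h1

theorem good_of_any (g : SpecialLinearGroup (Fin 3) F) (m : ℕ → ℕ → ℕ) (hm : ∀ k < 3, ∀ l < 3, m k l < 4)
    (hg : ∀ k l : Fin 3, g.1 k l = cF w (m k l)) (h : perms.any (chk m) = true) :
    phi hF h2 hw (g : ProjectiveSpecialLinearGroup (Fin 3) F) ∈ S3 := by
  obtain ⟨P, hP, hc⟩ := List.any_eq_true.1 h
  rw [phi_mk hF h2 hw g m hm hg P hP hc]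
  exact mem_S3 hP

theorem phi_transvection {i j : Fin 3} (hij : i ≠ j) (b : F) :
    phi hF h2 hw ((SpecialLinearGroup.transvection hij b : SpecialLinearGroup (Fin 3) F) :
      ProjectiveSpecialLinearGroup (Fin 3) F) ∈ S3 := by
  obtain ⟨β, hβ, rfl⟩ := cF_surj hF h2 hw b
  refine good_of_any hF h2 hw _ (tv i j β) (tv_lt i i.2 j j.2 β hβ) ?_ (tv_ok i i.2 j j.2 (fun h => hij (Fin.ext h)) β hβ)
  intro k l
  show ((1 : Matrix (Fin 3) (Fin 3) F) + single i j (cF w β)) k l = _
  rw [Matrix.add_apply, Matrix.one_apply, Matrix.single_apply, tv]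
  by_cases hkl : k = l
  · subst hkl
    have h3 : ¬ (i = k ∧ j = k) := fun h => hij (h.1.trans h.2.symm)
    rw [if_pos rfl, if_neg h3, Nat.beq_refl, cond_true, add_zero]; rfl
  · have h4 : Nat.beq k l = false := by
      rw [← Bool.not_eq_true, beq_iff]; exact fun h => hkl (Fin.ext h)
    rw [if_neg hkl, h4, cond_false, zero_add]
    by_cases h5 : i = k ∧ j = l
    · obtain ⟨rfl, rfl⟩ := h5
      rw [if_pos ⟨rfl, rfl⟩, Nat.beq_refl, Nat.beq_refl]; rfl
    · rw [if_neg h5]
      have h6 : (Nat.beq k i && Nat.beq l j) = false := by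
        rw [← Bool.not_eq_true, Bool.and_eq_true, beq_iff, beq_iff]
        exact fun h => h5 ⟨(Fin.ext h.1).symm, (Fin.ext h.2).symm⟩
      rw [h6, cond_false]; rfl

theorem phi_diagonal (g : SpecialLinearGroup (Fin 3) F) (D : Fin 3 → F) (hD : g.1 = diagonal D) :
    phi hF h2 hw (g : ProjectiveSpecialLinearGroup (Fin 3) F) ∈ S3 := by
  have hdet : D 0 * D 1 * D 2 = 1 := by
    have := g.2
    rw [hD, Matrix.det_diagonal, Fin.prod_univ_three] at this
    exact this
  obtain ⟨a, ha, ha2⟩ := cF_surj hF h2 hw (D 0)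
  obtain ⟨b, hb, hb2⟩ := cF_surj hF h2 hw (D 1)
  obtain ⟨c, hc, hc2⟩ := cF_surj hF h2 hw (D 2)
  have h1 : ml (ml a b) c = 1 := by
    apply cF_inj h2 hw (ml_lt _ (ml_lt _ ha _ hb) _ hc) (by norm_num)
    rw [cF_ml h2 hw _ _ (ml_lt _ ha _ hb) hc, cF_ml h2 hw _ _ ha hb, ha2, hb2, hc2, hdet]; rfl
  refine good_of_any hF h2 hw g (dg a b c) (dg_lt a ha b hb c hc) ?_ (dg_ok a ha b hb c hc h1)
  intro k l
  rw [hD]
  by_cases hkl : k = l
  · subst hkl
    rw [diagonal_apply_eq, dg, Nat.beq_refl, cond_true]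
    fin_cases k
    · exact ha2.symm
    · exact hb2.symm
    · exact hc2.symm
  · have h4 : Nat.beq k l = false := by
      rw [← Bool.not_eq_true, beq_iff]; exact fun h => hkl (Fin.ext h)
    rw [diagonal_apply_ne _ hkl, dg, h4, cond_false]; rfl

/-- the preimage in the special linear group -/
noncomputable def HH : Subgroup (SpecialLinearGroup (Fin 3) F) :=
  S3.comap ((phi hF h2 hw).comp (QuotientGroup.mk' _))

theorem list_mem (L : List (TransvectionStruct (Fin 3) F)) :
    (L.map TransvectionStruct.toSpecialLinearGroup).prod ∈ HH hF h2 hw := by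
  apply Subgroup.list_prod_mem
  intro x hx
  obtain ⟨t, -, rfl⟩ := List.mem_map.1 hx
  exact phi_transvection hF h2 hw t.hij t.c

theorem coe_list (L : List (TransvectionStruct (Fin 3) F)) :
    ((L.map TransvectionStruct.toSpecialLinearGroup).prod : SpecialLinearGroup (Fin 3) F).1 =
      (L.map TransvectionStruct.toMatrix).prod := by
  induction L with
  | nil => rfl
  | cons t L ih =>
    rw [List.map_cons, List.prod_cons, List.map_cons, List.prod_cons, ← ih]; rfl

theorem phi_mem (M : SpecialLinearGroup (Fin 3) F) : phi hF h2 hw (M : ProjectiveSpecialLinearGroup (Fin 3) F) ∈ S3 := by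
  obtain ⟨L, L', D, h⟩ := Matrix.Pivot.exists_list_transvec_mul_diagonal_mul_list_transvec M.1
  set A := (L.map TransvectionStruct.toSpecialLinearGroup).prod with hA
  set B := (L'.map TransvectionStruct.toSpecialLinearGroup).prod with hB
  rw [← coe_list, ← coe_list, ← hA, ← hB] at h
  have hd : (A⁻¹ * M * B⁻¹).1 = diagonal D := by
    have h3 : (A⁻¹ * M * B⁻¹).1 = A⁻¹.1 * M.1 * B⁻¹.1 := rfl
    have h4 : A⁻¹.1 * A.1 = 1 := by
      have : (A⁻¹ * A).1 = 1 := by rw [inv_mul_cancel]; rfl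
      exact this
    have h5 : B.1 * B⁻¹.1 = 1 := by
      have : (B * B⁻¹).1 = 1 := by rw [mul_inv_cancel]; rfl
      exact this
    rw [h3, h]
    calc A⁻¹.1 * (A.1 * diagonal D * B.1) * B⁻¹.1 = (A⁻¹.1 * A.1) * diagonal D * (B.1 * B⁻¹.1) := by
          simp only [Matrix.mul_assoc]
      _ = diagonal D := by rw [h4, h5, Matrix.one_mul, Matrix.mul_one]
  have h6 : A⁻¹ * M * B⁻¹ ∈ HH hF h2 hw := phi_diagonal hF h2 hw _ D hd
  have h7 := (HH hF h2 hw).mul_mem ((HH hF h2 hw).mul_mem (list_mem hF h2 hw L) h6) (list_mem hF h2 hw L')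
  have h8 : A * (A⁻¹ * M * B⁻¹) * B = M := by group
  rw [← hA, ← hB, h8] at h7
  exact h7

theorem phi_mem' (x : ProjectiveSpecialLinearGroup (Fin 3) F) : phi hF h2 hw x ∈ S3 := by
  induction x using QuotientGroup.induction_on with
  | H M => exact phi_mem hF h2 hw M

end

/-- the theorem -/
theorem main [Fintype F] (hF : Fintype.card F = 4) (p q r : GolayPt) (hpq : p ≠ q) (hpr : p ≠ r) (hqr : q ≠ r) :
    Nonempty (↥(MulAction.stabilizer M24 p ⊓ MulAction.stabilizer M24 q ⊓ MulAction.stabilizer M24 r) ≃*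
      ProjectiveSpecialLinearGroup (Fin 3) F) := by
  obtain ⟨h2, w, hw⟩ := exists_w hF
  -- move the three points
  obtain ⟨u, hu, hu23, hu0, hu1⟩ : ∃ u ∈ M24, u (pt 23) = p ∧ u (pt 0) = q ∧ u (pt 1) = r := by
    obtain ⟨a, ha⟩ : ∃ a : GolayPt, a ∉ ({p, q, r} : Finset GolayPt) := by
      by_contra hc
      push Not at hc
      have h3 := Finset.card_le_card (fun x _ => hc x : (Finset.univ : Finset GolayPt) ⊆ {p, q, r})
      rw [Finset.card_univ, card_pt] at h3
      have := Finset.card_le_three (a := p) (b := q) (c := r)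
      omega
    obtain ⟨b, hb⟩ : ∃ b : GolayPt, b ∉ ({a, p, q, r} : Finset GolayPt) := by
      by_contra hc
      push Not at hc
      have h3 := Finset.card_le_card (fun x _ => hc x : (Finset.univ : Finset GolayPt) ⊆ {a, p, q, r})
      rw [Finset.card_univ, card_pt] at h3
      have := Finset.card_le_four (a := a) (b := p) (c := q) (d := r)
      omega
    simp only [Finset.mem_insert, Finset.mem_singleton, not_or] at ha hb
    obtain ⟨g, hg, h⟩ := move_five p q r a b hpq hpr (Ne.symm ha.1) (Ne.symm hb.2.1) hqr (Ne.symm ha.2.1)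
      (Ne.symm hb.2.2.1) (Ne.symm ha.2.2) (Ne.symm hb.2.2.2) (Ne.symm hb.1)
    refine ⟨g⁻¹, M24.inv_mem hg, ?_, ?_, ?_⟩
    · rw [Equiv.Perm.inv_eq_iff_eq]; exact h.1.symm
    · rw [Equiv.Perm.inv_eq_iff_eq]; exact h.2.1.symm
    · rw [Equiv.Perm.inv_eq_iff_eq]; exact h.2.2.1.symm
  -- the homomorphism into M24
  let ψ : ProjectiveSpecialLinearGroup (Fin 3) F →* ↥M24 :=
    { toFun := fun x => ⟨u * phi hF h2 hw x * u⁻¹, M24.mul_mem (M24.mul_mem hu (phi_mem' hF h2 hw x).1.1.1) (M24.inv_mem hu)⟩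
      map_one' := by apply Subtype.ext; show u * phi hF h2 hw 1 * u⁻¹ = 1; rw [map_one]; group
      map_mul' := fun x y => by
        apply Subtype.ext
        show u * phi hF h2 hw (x * y) * u⁻¹ = (u * phi hF h2 hw x * u⁻¹) * (u * phi hF h2 hw y * u⁻¹)
        rw [map_mul]; group }
  have hψ : ∀ x, (ψ x : Equiv.Perm GolayPt) = u * phi hF h2 hw x * u⁻¹ := fun _ => rfl
  have hmem : ∀ x, ψ x ∈ (MulAction.stabilizer M24 p ⊓ MulAction.stabilizer M24 q ⊓ MulAction.stabilizer M24 r) := by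
    intro x
    have h3 := phi_mem' hF h2 hw x
    refine ⟨⟨?_, ?_⟩, ?_⟩
    · show (u * phi hF h2 hw x * u⁻¹) p = p
      have h9 : u⁻¹ (u (pt 23)) = pt 23 := Equiv.symm_apply_apply u _
      rw [← hu23, Equiv.Perm.mul_apply, Equiv.Perm.mul_apply, h9]
      exact congrArg u h3.1.1.2
    · show (u * phi hF h2 hw x * u⁻¹) q = q
      have h9 : u⁻¹ (u (pt 0)) = pt 0 := Equiv.symm_apply_apply u _
      rw [← hu0, Equiv.Perm.mul_apply, Equiv.Perm.mul_apply, h9]
      exact congrArg u h3.1.2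
    · show (u * phi hF h2 hw x * u⁻¹) r = r
      have h9 : u⁻¹ (u (pt 1)) = pt 1 := Equiv.symm_apply_apply u _
      rw [← hu1, Equiv.Perm.mul_apply, Equiv.Perm.mul_apply, h9]
      exact congrArg u h3.2
  let χ := ψ.codRestrict _ hmem
  have hinj : Function.Injective χ := by
    intro x y hxy
    have h4 : ψ x = ψ y := congrArg Subtype.val hxy
    have h5 : u * phi hF h2 hw x * u⁻¹ = u * phi hF h2 hw y * u⁻¹ := by rw [← hψ, ← hψ, h4]
    exact phi_injective hF h2 hw (mul_left_cancel (mul_right_cancel h5))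
  have hcard : Nat.card (ProjectiveSpecialLinearGroup (Fin 3) F) =
      Nat.card ↥(MulAction.stabilizer M24 p ⊓ MulAction.stabilizer M24 q ⊓ MulAction.stabilizer M24 r) := by
    rw [CfsgLib.KL34.card_psl34 hF, card_of_map (map_stab3 p q r), card_M21 p q r hpq hpr hqr]
  have hbij : Function.Bijective χ := (Nat.bijective_iff_injective_and_card χ).2 ⟨hinj, hcard⟩
  exact ⟨(MulEquiv.ofBijective χ hbij).symm⟩

end CfsgLib.M21P
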