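import Mathlib
import Cfsg.Agent.LibM24b

/-!
The three standard permutations generate the Mathieu group of degree 24: a straight-line program
for the transversals of the stabiliser chain.
-/

set_option autoImplicit false
open Cfsg CfsgLib.M24 CfsgLib.Golay

namespace CfsgLib.M24Gen

/-- composition of coded permutations -/
def compL (P Q : List ℕ) : List ℕ := Q.map fun a => P.getD a 0

/-- boolean equality of lists of numbers -/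
def eqL : List ℕ → List ℕ → Bool
  | [], [] => true
  | a :: l, b :: m => and (Nat.beq a b) (eqL l m)
  | _, _ => false

theorem eqL_spec : ∀ {P Q : List ℕ}, eqL P Q = true → P = Q
  | [], [], _ => rfl
  | a :: l, b :: m, h => by
    rw [eqL, Bool.and_eq_true] at h
    rw [Nat.eq_of_beq_eq_true h.1, eqL_spec h.2]
  | [], b :: m, h => by simp [eqL] at h
  | a :: l, [], h => by simp [eqL] at h

/-- the list codes a permutation lying in `K` -/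
def Good (K : Subgroup (Equiv.Perm GolayPt)) (P : List ℕ) : Prop := valid P = true ∧ mkPerm P ∈ K

theorem mkPerm_comp {P Q N : List ℕ} (hP : valid P = true) (hQ : valid Q = true) (hN : valid N = true)
    (h : compL P Q = N) : mkPerm P * mkPerm Q = mkPerm N := by
  apply Equiv.ext
  intro p
  apply idx_injective
  rw [Equiv.Perm.mul_apply, idx_mkPerm hP, idx_mkPerm hQ, idx_mkPerm hN, ← h, compL]
  have hi : idx p < Q.length := by rw [(valid_spec hQ).1]; exact idx_lt p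
  have hi2 : idx p < (Q.map fun a => P.getD a 0).length := by rw [List.length_map]; exact hi
  rw [List.getD_eq_getElem _ _ hi2, List.getElem_map, List.getD_eq_getElem _ _ hi]

/-- check of a straight-line program -/
def okRun (T : List (List ℕ)) : List (ℕ × ℕ × ℕ) → ℕ → Bool
  | [], _ => true
  | (k, i, j) :: l, n => and (Nat.blt i n) (and (Nat.blt j n) (and (valid (T.getD n []))
      (and (cond (Nat.beq k 0) (eqL (compL (T.getD i []) (T.getD j [])) (T.getD n []))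
        (eqL (compL (T.getD i []) (T.getD n [])) (T.getD j []))) (okRun T l (n + 1)))))

theorem okRun_spec {K : Subgroup (Equiv.Perm GolayPt)} {T : List (List ℕ)} :
    ∀ (l : List (ℕ × ℕ × ℕ)) (n : ℕ), okRun T l n = true → (∀ m < n, Good K (T.getD m [])) →
      ∀ m < n + l.length, Good K (T.getD m [])
  | [], n, _, h => by simpa using h
  | (k, i, j) :: l, n, hr, h => by
    rw [okRun, Bool.and_eq_true, Bool.and_eq_true, Bool.and_eq_true, Bool.and_eq_true] at hr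
    obtain ⟨h1, h2, h3, h4, h5⟩ := hr
    have hi := h i (by simpa [Nat.blt_eq] using h1)
    have hj := h j (by simpa [Nat.blt_eq] using h2)
    have hn : Good K (T.getD n []) := by
      refine ⟨h3, ?_⟩
      by_cases hk : Nat.beq k 0 = true
      · rw [hk, cond_true] at h4
        rw [← mkPerm_comp hi.1 hj.1 h3 (eqL_spec h4)]
        exact K.mul_mem hi.2 hj.2
      · rw [Bool.not_eq_true] at hk
        rw [hk, cond_false] at h4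
        have h6 := mkPerm_comp hi.1 h3 hj.1 (eqL_spec h4)
        rw [← inv_mul_eq_iff_eq_mul.2 h6.symm]
        exact K.mul_mem (K.inv_mem hi.2) hj.2
    intro m hm
    refine okRun_spec l (n + 1) h5 (fun m' hm' => ?_) m (by rw [List.length_cons] at hm; omega)
    rcases Nat.lt_succ_iff_lt_or_eq.1 hm' with h' | h'
    · exact h m' h'
    · rw [h']; exact hn

/-- the table of permutations -/
def T : List (List ℕ) :=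
  [[0, 1, 2, 3, 4, 5, 6, 7, 8, 9, 10, 11, 12, 13, 14, 15, 16, 17, 18, 19, 20, 21, 22, 23],
   [1, 2, 3, 4, 5, 6, 7, 8, 9, 10, 11, 12, 13, 14, 15, 16, 17, 18, 19, 20, 21, 22, 0, 23],
   [23, 22, 11, 15, 17, 9, 19, 13, 20, 5, 16, 2, 21, 7, 18, 3, 10, 4, 14, 6, 8, 12, 1, 0],
   [0, 18, 6, 3, 2, 21, 1, 5, 16, 12, 7, 19, 8, 9, 17, 15, 13, 11, 4, 22, 10, 20, 14, 23],
   [23, 0, 12, 16, 18, 10, 20, 14, 21, 6, 17, 3, 22, 8, 19, 4, 11, 5, 15, 7, 9, 13, 2, 1],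
   [0, 23, 21, 10, 14, 16, 8, 18, 12, 19, 4, 15, 1, 20, 6, 17, 2, 9, 3, 13, 5, 7, 11, 22],
   [23, 1, 13, 17, 19, 11, 21, 15, 22, 7, 18, 4, 0, 9, 20, 5, 12, 6, 16, 8, 10, 14, 3, 2],
   [23, 0, 8, 13, 4, 7, 10, 17, 20, 1, 11, 3, 14, 16, 22, 2, 19, 21, 15, 5, 12, 9, 6, 18],
   [0, 23, 20, 7, 17, 13, 16, 4, 8, 22, 2, 15, 18, 10, 1, 11, 6, 12, 3, 9, 21, 5, 19, 14],
   [0, 22, 7, 4, 6, 2, 12, 3, 1, 13, 14, 17, 23, 5, 8, 9, 21, 19, 10, 20, 16, 18, 15, 11],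
   [23, 2, 14, 18, 20, 12, 22, 16, 0, 8, 19, 5, 1, 10, 21, 6, 13, 7, 17, 9, 11, 15, 4, 3],
   [23, 18, 9, 11, 22, 19, 20, 15, 14, 5, 4, 2, 0, 12, 10, 21, 8, 1, 13, 16, 7, 17, 3, 6],
   [23, 1, 9, 14, 5, 8, 11, 18, 21, 2, 12, 4, 15, 17, 0, 3, 20, 22, 16, 6, 13, 10, 7, 19],
   [23, 0, 16, 9, 2, 5, 7, 11, 10, 18, 19, 3, 17, 13, 14, 6, 22, 20, 15, 21, 8, 12, 1, 4],
   [1, 23, 21, 8, 18, 14, 17, 5, 9, 0, 3, 16, 19, 11, 2, 12, 7, 13, 4, 10, 22, 6, 20, 15],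
   [0, 23, 10, 5, 11, 9, 13, 2, 16, 14, 6, 15, 4, 7, 18, 19, 1, 8, 3, 12, 20, 21, 22, 17],
   [1, 0, 8, 5, 7, 3, 13, 4, 2, 14, 15, 18, 23, 6, 9, 10, 22, 20, 11, 21, 17, 19, 16, 12],
   [23, 19, 10, 12, 0, 20, 21, 16, 15, 6, 5, 3, 1, 13, 11, 22, 9, 2, 14, 17, 8, 18, 4, 7],
   [23, 2, 10, 15, 6, 9, 12, 19, 22, 3, 13, 5, 16, 18, 1, 4, 21, 0, 17, 7, 14, 11, 8, 20],
   [23, 1, 17, 10, 3, 6, 8, 12, 11, 19, 20, 4, 18, 14, 15, 7, 0, 21, 16, 22, 9, 13, 2, 5],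
   [2, 23, 22, 9, 19, 15, 18, 6, 10, 1, 4, 17, 20, 12, 3, 13, 8, 14, 5, 11, 0, 7, 21, 16],
   [22, 23, 20, 9, 13, 15, 7, 17, 11, 18, 3, 14, 0, 19, 5, 16, 1, 8, 2, 12, 4, 6, 10, 21],
   [2, 1, 9, 6, 8, 4, 14, 5, 3, 15, 16, 19, 23, 7, 10, 11, 0, 21, 12, 22, 18, 20, 17, 13],
   [18, 0, 16, 21, 5, 3, 9, 2, 6, 17, 15, 4, 23, 1, 12, 7, 14, 10, 19, 20, 11, 22, 13, 8],
   [23, 6, 7, 15, 1, 12, 8, 22, 14, 3, 9, 21, 13, 4, 18, 2, 20, 0, 11, 5, 17, 19, 16, 10],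
   [0, 22, 4, 16, 15, 19, 20, 21, 2, 6, 8, 17, 14, 18, 3, 13, 23, 12, 10, 1, 5, 7, 11, 9],
   [2, 3, 4, 5, 6, 7, 8, 9, 10, 11, 12, 13, 14, 15, 16, 17, 18, 19, 20, 21, 22, 0, 1, 23],
   [18, 6, 3, 2, 21, 1, 5, 16, 12, 7, 19, 8, 9, 17, 15, 13, 11, 4, 22, 10, 20, 14, 0, 23],
   [3, 4, 5, 6, 7, 8, 9, 10, 11, 12, 13, 14, 15, 16, 17, 18, 19, 20, 21, 22, 0, 1, 2, 23],
   [6, 3, 2, 21, 1, 5, 16, 12, 7, 19, 8, 9, 17, 15, 13, 11, 4, 22, 10, 20, 14, 0, 18, 23],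
   [19, 7, 4, 3, 22, 2, 6, 17, 13, 8, 20, 9, 10, 18, 16, 14, 12, 5, 0, 11, 21, 15, 1, 23],
   [4, 1, 3, 6, 20, 18, 21, 13, 8, 5, 22, 16, 12, 11, 15, 9, 19, 2, 14, 7, 10, 17, 0, 23],
   [7, 4, 3, 22, 2, 6, 17, 13, 8, 20, 9, 10, 18, 16, 14, 12, 5, 0, 11, 21, 15, 1, 19, 23],
   [20, 8, 5, 4, 0, 3, 7, 18, 14, 9, 21, 10, 11, 19, 17, 15, 13, 6, 1, 12, 22, 16, 2, 23],
   [22, 5, 2, 3, 14, 6, 1, 11, 9, 16, 10, 12, 7, 4, 13, 17, 8, 21, 0, 19, 20, 15, 18, 23],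
   [5, 2, 4, 7, 21, 19, 22, 14, 9, 6, 0, 17, 13, 12, 16, 10, 20, 3, 15, 8, 11, 18, 1, 23],
   [8, 5, 4, 0, 3, 7, 18, 14, 9, 21, 10, 11, 19, 17, 15, 13, 6, 1, 12, 22, 16, 2, 20, 23],
   [21, 9, 6, 5, 1, 4, 8, 19, 15, 10, 22, 11, 12, 20, 18, 16, 14, 7, 2, 13, 0, 17, 3, 23],
   [10, 16, 21, 2, 0, 3, 5, 4, 17, 12, 20, 7, 19, 22, 11, 15, 9, 1, 18, 8, 14, 13, 6, 23],
   [14, 21, 6, 3, 17, 1, 18, 19, 12, 13, 7, 8, 5, 2, 9, 11, 16, 20, 0, 22, 10, 15, 4, 23],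
   [9, 6, 5, 1, 4, 8, 19, 15, 10, 22, 11, 12, 20, 18, 16, 14, 7, 2, 13, 0, 17, 3, 21, 23],
   [16, 21, 2, 0, 3, 5, 4, 17, 12, 20, 7, 19, 22, 11, 15, 9, 1, 18, 8, 14, 13, 6, 10, 23],
   [11, 17, 22, 3, 1, 4, 6, 5, 18, 13, 21, 8, 20, 0, 12, 16, 10, 2, 19, 9, 15, 14, 7, 23],
   [15, 22, 7, 4, 18, 2, 19, 20, 13, 14, 8, 9, 6, 3, 10, 12, 17, 21, 1, 0, 11, 16, 5, 23],
   [17, 20, 1, 3, 11, 18, 4, 22, 8, 9, 5, 16, 21, 6, 12, 19, 13, 10, 0, 14, 7, 15, 2, 23],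
   [12, 1, 21, 18, 2, 16, 22, 15, 7, 14, 19, 8, 10, 4, 13, 17, 5, 6, 9, 0, 11, 3, 20, 23],
   [13, 20, 6, 0, 3, 21, 2, 11, 8, 10, 5, 22, 14, 19, 15, 12, 18, 4, 16, 17, 9, 1, 7, 23],
   [0, 4, 1, 3, 6, 20, 18, 21, 13, 8, 5, 22, 16, 12, 11, 15, 9, 19, 2, 14, 7, 10, 17, 23],
   [0, 2, 18, 3, 1, 10, 4, 20, 9, 16, 21, 14, 13, 8, 19, 15, 12, 22, 6, 17, 5, 7, 11, 23],
   [0, 6, 4, 3, 18, 7, 2, 10, 12, 13, 20, 17, 9, 16, 22, 15, 8, 14, 1, 11, 21, 5, 19, 23],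
   [18, 22, 5, 2, 3, 14, 6, 1, 11, 9, 16, 10, 12, 7, 4, 13, 17, 8, 21, 0, 19, 20, 15, 23],
   [11, 15, 17, 9, 19, 13, 20, 5, 16, 2, 21, 7, 18, 3, 10, 4, 14, 6, 8, 12, 1, 23, 22, 0],
   [21, 6, 2, 5, 20, 22, 14, 17, 12, 1, 0, 11, 9, 8, 13, 7, 10, 3, 15, 16, 19, 4, 18, 23],
   [0, 2, 18, 3, 13, 10, 16, 21, 12, 4, 20, 11, 1, 6, 19, 17, 9, 22, 8, 15, 7, 5, 14, 23],
   [0, 1, 2, 3, 12, 5, 9, 10, 16, 6, 7, 22, 4, 18, 14, 19, 8, 17, 13, 15, 21, 20, 11, 23],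
   [0, 13, 9, 3, 2, 20, 1, 5, 8, 4, 10, 15, 16, 6, 17, 19, 18, 22, 12, 11, 7, 21, 14, 23],
   [0, 12, 1, 3, 9, 21, 13, 20, 18, 16, 5, 11, 8, 4, 22, 19, 6, 15, 2, 14, 10, 7, 17, 23],
   [0, 9, 12, 3, 6, 10, 18, 21, 16, 2, 7, 15, 13, 1, 11, 22, 4, 14, 8, 19, 5, 20, 17, 23],
   [0, 8, 18, 3, 12, 20, 9, 10, 4, 13, 21, 19, 16, 2, 14, 22, 1, 15, 6, 17, 7, 5, 11, 23],
   [0, 16, 4, 3, 8, 10, 12, 7, 2, 9, 20, 22, 13, 6, 17, 14, 18, 15, 1, 11, 5, 21, 19, 23],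
   [4, 5, 6, 7, 8, 9, 10, 11, 12, 13, 14, 15, 16, 17, 18, 19, 20, 21, 22, 0, 1, 2, 3, 23],
   [0, 9, 3, 19, 8, 15, 20, 13, 12, 7, 18, 14, 11, 21, 5, 16, 4, 6, 10, 22, 1, 17, 2, 23],
   [0, 1, 3, 19, 18, 11, 21, 12, 2, 10, 6, 17, 14, 7, 20, 8, 16, 4, 5, 15, 13, 22, 9, 23],
   [0, 5, 21, 19, 3, 22, 1, 11, 16, 14, 12, 15, 2, 10, 4, 8, 7, 17, 18, 9, 6, 13, 20, 23],
   [0, 21, 20, 22, 3, 14, 18, 19, 13, 17, 8, 15, 6, 7, 2, 16, 5, 11, 4, 12, 1, 9, 10, 23],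
   [0, 11, 22, 15, 19, 9, 1, 17, 16, 20, 14, 8, 3, 6, 18, 2, 12, 4, 5, 10, 21, 7, 13, 23],
   [0, 7, 10, 19, 3, 13, 1, 11, 2, 18, 6, 8, 16, 21, 4, 15, 5, 9, 14, 17, 12, 22, 20, 23],
   [0, 3, 5, 19, 1, 6, 18, 13, 10, 16, 22, 20, 7, 2, 15, 8, 14, 9, 21, 4, 11, 12, 17, 23],
   [0, 14, 1, 19, 10, 22, 7, 13, 5, 16, 11, 17, 2, 18, 9, 15, 21, 8, 3, 20, 6, 12, 4, 23],
   [0, 20, 10, 14, 3, 17, 4, 22, 9, 11, 16, 15, 1, 5, 6, 13, 21, 19, 2, 8, 18, 12, 7, 23],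
   [0, 22, 13, 9, 19, 20, 5, 15, 7, 4, 2, 8, 21, 12, 3, 16, 11, 17, 18, 14, 1, 10, 6, 23],
   [0, 19, 14, 15, 22, 12, 18, 11, 13, 10, 17, 16, 3, 1, 4, 6, 8, 2, 21, 7, 20, 5, 9, 23],
   [0, 17, 9, 8, 15, 10, 1, 4, 16, 13, 20, 2, 19, 21, 5, 3, 14, 18, 11, 6, 22, 12, 7, 23],
   [0, 10, 14, 19, 21, 6, 5, 22, 16, 3, 12, 8, 7, 1, 17, 9, 18, 20, 2, 15, 11, 13, 4, 23],
   [0, 15, 20, 8, 9, 14, 5, 17, 7, 6, 4, 16, 19, 1, 18, 21, 2, 3, 22, 12, 13, 11, 10, 23],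
   [0, 1, 19, 15, 5, 17, 22, 14, 3, 6, 21, 4, 20, 12, 13, 2, 16, 18, 11, 8, 7, 9, 10, 23],
   [0, 1, 15, 8, 11, 4, 9, 20, 19, 21, 22, 18, 13, 14, 7, 3, 16, 5, 17, 2, 12, 10, 6, 23],
   [15, 14, 5, 2, 4, 6, 22, 10, 9, 17, 16, 12, 1, 3, 7, 8, 11, 20, 18, 0, 19, 13, 21, 23],
   [0, 9, 22, 5, 3, 12, 1, 14, 11, 16, 21, 15, 18, 13, 2, 10, 20, 7, 4, 19, 6, 8, 17, 23],
   [0, 1, 15, 20, 3, 2, 13, 17, 14, 8, 7, 11, 6, 12, 9, 5, 21, 10, 16, 19, 4, 18, 22, 23],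
   [0, 1, 2, 7, 15, 19, 12, 18, 13, 3, 14, 4, 22, 20, 6, 17, 9, 21, 16, 8, 5, 11, 10, 23],
   [0, 1, 7, 8, 16, 4, 11, 22, 2, 14, 12, 21, 6, 18, 5, 13, 9, 15, 19, 17, 20, 10, 3, 23],
   [0, 1, 8, 17, 19, 21, 10, 6, 7, 12, 11, 15, 5, 22, 20, 2, 9, 16, 4, 13, 18, 3, 14, 23],
   [0, 1, 12, 2, 16, 18, 17, 9, 3, 20, 14, 22, 21, 5, 11, 7, 10, 8, 15, 4, 13, 6, 19, 23],
   [0, 1, 18, 13, 9, 15, 4, 10, 2, 6, 22, 11, 12, 16, 19, 20, 3, 17, 8, 21, 5, 14, 7, 23],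
   [0, 1, 10, 16, 8, 12, 22, 11, 2, 14, 4, 20, 9, 13, 5, 18, 6, 19, 15, 17, 21, 7, 3, 23],
   [0, 1, 17, 13, 4, 15, 3, 5, 8, 11, 10, 16, 20, 6, 18, 7, 9, 19, 21, 2, 22, 14, 12, 23],
   [0, 1, 13, 21, 8, 11, 14, 12, 18, 22, 4, 17, 19, 10, 5, 2, 3, 9, 15, 20, 16, 7, 6, 23],
   [0, 1, 16, 17, 15, 20, 7, 9, 10, 4, 22, 19, 5, 11, 21, 2, 6, 8, 12, 18, 13, 3, 14, 23],
   [0, 1, 14, 3, 16, 5, 4, 10, 19, 13, 20, 9, 22, 11, 17, 12, 6, 2, 8, 18, 7, 21, 15, 23],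
   [0, 1, 22, 2, 9, 16, 21, 3, 7, 5, 6, 10, 11, 19, 4, 18, 14, 13, 17, 15, 20, 12, 8, 23],
   [0, 1, 4, 2, 8, 13, 17, 6, 3, 21, 14, 11, 20, 5, 22, 10, 7, 16, 19, 12, 18, 9, 15, 23],
   [0, 1, 5, 7, 10, 8, 18, 6, 3, 21, 9, 17, 14, 16, 15, 13, 19, 4, 2, 22, 11, 20, 12, 23],
   [0, 1, 6, 16, 2, 14, 9, 17, 3, 20, 18, 13, 10, 7, 11, 5, 21, 15, 8, 4, 22, 12, 19, 23],
   [0, 1, 21, 20, 15, 17, 7, 19, 13, 4, 14, 9, 5, 12, 16, 18, 3, 8, 11, 2, 10, 6, 22, 23],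
   [0, 1, 20, 11, 13, 4, 6, 22, 16, 10, 15, 21, 8, 14, 19, 2, 7, 3, 17, 5, 9, 18, 12, 23],
   [0, 1, 9, 21, 17, 5, 18, 3, 14, 15, 10, 8, 19, 4, 11, 2, 12, 13, 22, 16, 20, 7, 6, 23],
   [0, 1, 11, 2, 6, 8, 20, 3, 10, 5, 9, 7, 22, 15, 12, 13, 14, 18, 17, 19, 21, 4, 16, 23],
   [0, 1, 2, 18, 17, 8, 22, 16, 20, 7, 6, 15, 10, 5, 12, 21, 3, 11, 9, 13, 19, 4, 14, 23],
   [0, 1, 2, 10, 19, 15, 4, 13, 18, 3, 14, 12, 11, 21, 9, 17, 6, 20, 8, 16, 5, 22, 7, 23],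
   [0, 1, 2, 16, 21, 13, 10, 9, 5, 18, 12, 17, 14, 19, 22, 11, 7, 4, 3, 20, 8, 15, 6, 23],
   [0, 1, 2, 13, 17, 16, 11, 8, 21, 10, 9, 19, 7, 5, 4, 20, 3, 22, 6, 18, 15, 12, 14, 23],
   [0, 1, 2, 14, 8, 17, 15, 20, 16, 7, 6, 22, 4, 11, 3, 21, 12, 5, 13, 9, 19, 10, 18, 23],
   [0, 1, 2, 9, 11, 20, 14, 3, 19, 16, 22, 21, 6, 8, 10, 4, 18, 15, 7, 5, 13, 17, 12, 23],
   [0, 1, 2, 8, 20, 18, 7, 6, 5, 13, 4, 17, 14, 15, 11, 22, 10, 12, 3, 21, 16, 19, 9, 23],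
   [0, 1, 2, 20, 21, 9, 4, 13, 11, 14, 3, 8, 18, 19, 15, 5, 7, 10, 12, 16, 17, 22, 6, 23],
   [0, 1, 2, 6, 13, 21, 17, 5, 9, 18, 12, 10, 15, 4, 7, 11, 22, 19, 20, 3, 8, 14, 16, 23],
   [0, 1, 2, 5, 11, 3, 15, 20, 4, 6, 7, 13, 16, 8, 17, 19, 18, 14, 22, 9, 21, 10, 12, 23],
   [0, 1, 2, 21, 20, 6, 12, 18, 22, 14, 3, 16, 13, 15, 19, 5, 10, 7, 4, 8, 17, 11, 9, 23],
   [0, 1, 2, 12, 20, 11, 21, 19, 3, 16, 22, 14, 17, 15, 18, 4, 10, 8, 5, 7, 13, 6, 9, 23],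
   [0, 1, 2, 19, 4, 7, 17, 5, 15, 12, 18, 20, 9, 13, 21, 8, 16, 6, 10, 3, 11, 14, 22, 23],
   [0, 1, 2, 11, 5, 12, 22, 16, 10, 6, 7, 9, 20, 17, 8, 19, 14, 18, 15, 13, 21, 4, 3, 23],
   [0, 1, 2, 22, 5, 4, 11, 8, 7, 9, 10, 6, 21, 17, 16, 15, 14, 13, 19, 18, 20, 12, 3, 23],
   [0, 1, 2, 4, 21, 22, 20, 15, 3, 8, 11, 14, 17, 19, 13, 12, 7, 16, 5, 10, 18, 9, 6, 23],
   [0, 1, 2, 15, 12, 10, 17, 5, 19, 4, 13, 21, 6, 18, 20, 16, 8, 9, 7, 3, 22, 14, 11, 23],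
   [0, 1, 2, 17, 22, 14, 21, 19, 8, 15, 20, 11, 12, 16, 5, 9, 13, 3, 18, 7, 10, 6, 4, 23],
   [19, 13, 20, 5, 16, 2, 21, 7, 18, 3, 10, 4, 14, 6, 8, 12, 1, 23, 22, 11, 15, 17, 9, 0],
   [6, 7, 8, 9, 10, 11, 12, 13, 14, 15, 16, 17, 18, 19, 20, 21, 22, 0, 1, 2, 3, 4, 5, 23],
   [0, 8, 10, 11, 18, 15, 7, 14, 20, 13, 6, 12, 22, 9, 19, 3, 17, 21, 4, 2, 1, 16, 5, 23],
   [0, 1, 7, 22, 2, 17, 20, 14, 5, 9, 18, 4, 15, 6, 11, 3, 19, 10, 8, 13, 16, 12, 21, 23],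
   [0, 1, 2, 7, 8, 19, 20, 9, 14, 16, 13, 5, 17, 12, 6, 22, 18, 21, 3, 15, 4, 10, 11, 23],
   [0, 1, 2, 3, 19, 5, 13, 16, 10, 18, 8, 20, 15, 6, 14, 12, 7, 17, 9, 4, 11, 22, 21, 23],
   [0, 1, 2, 3, 15, 5, 18, 8, 7, 13, 16, 21, 19, 9, 14, 4, 10, 17, 6, 12, 22, 11, 20, 23],
   [19, 18, 9, 6, 8, 10, 3, 14, 13, 21, 20, 16, 5, 7, 11, 12, 15, 1, 22, 4, 0, 17, 2, 23],
   [0, 13, 11, 6, 9, 12, 3, 15, 8, 20, 10, 14, 17, 1, 19, 16, 21, 22, 4, 2, 18, 7, 5, 23],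
   [0, 1, 19, 13, 2, 18, 3, 11, 8, 5, 10, 22, 14, 6, 15, 12, 21, 17, 9, 4, 16, 20, 7, 23],
   [0, 1, 2, 14, 15, 17, 8, 18, 19, 4, 22, 6, 7, 9, 3, 13, 10, 5, 21, 11, 16, 12, 20, 23],
   [0, 1, 2, 3, 6, 5, 4, 22, 20, 12, 11, 10, 9, 19, 14, 18, 21, 17, 15, 13, 8, 16, 7, 23],
   [0, 1, 2, 3, 9, 5, 12, 11, 21, 4, 22, 7, 6, 15, 14, 13, 20, 17, 19, 18, 16, 8, 10, 23],
   [0, 1, 2, 3, 13, 5, 19, 21, 11, 15, 20, 8, 18, 4, 14, 9, 22, 17, 12, 6, 10, 7, 16, 23],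
   [0, 1, 2, 3, 18, 5, 15, 20, 22, 19, 21, 16, 13, 12, 14, 6, 11, 17, 4, 9, 7, 10, 8, 23],
   [11, 22, 3, 21, 18, 10, 5, 8, 6, 17, 15, 1, 2, 7, 4, 14, 12, 13, 9, 16, 19, 23, 20, 0],
   [2, 1, 15, 12, 14, 16, 9, 20, 19, 4, 3, 22, 11, 13, 17, 18, 21, 7, 5, 10, 6, 0, 8, 23],
   [0, 22, 13, 10, 12, 14, 7, 18, 17, 2, 1, 20, 9, 11, 15, 16, 19, 5, 3, 8, 4, 21, 6, 23],
   [0, 1, 2, 21, 13, 19, 8, 18, 17, 10, 20, 5, 3, 16, 7, 15, 4, 6, 14, 11, 9, 12, 22, 23],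
   [0, 1, 2, 3, 12, 14, 19, 7, 20, 16, 4, 15, 10, 11, 17, 13, 18, 5, 9, 21, 22, 6, 8, 23],
   [0, 1, 2, 3, 10, 17, 21, 7, 22, 18, 12, 13, 4, 15, 5, 11, 9, 14, 16, 6, 8, 19, 20, 23],
   [4, 22, 10, 7, 6, 2, 5, 9, 20, 16, 11, 0, 12, 13, 21, 19, 17, 15, 8, 3, 14, 1, 18, 23],
   [0, 10, 20, 19, 3, 17, 9, 15, 4, 11, 13, 22, 12, 7, 6, 16, 21, 14, 8, 2, 18, 1, 5, 23],
   [0, 1, 17, 3, 9, 14, 15, 19, 22, 20, 21, 7, 10, 12, 5, 8, 4, 2, 11, 18, 16, 13, 6, 23],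
   [0, 1, 2, 6, 16, 21, 5, 17, 20, 12, 18, 15, 10, 22, 7, 8, 4, 19, 9, 14, 11, 3, 13, 23],
   [0, 1, 2, 3, 22, 5, 7, 6, 18, 10, 9, 12, 11, 16, 14, 20, 13, 17, 8, 21, 15, 19, 4, 23],
   [0, 1, 2, 3, 11, 5, 10, 9, 13, 7, 6, 4, 22, 8, 14, 21, 18, 17, 16, 20, 19, 15, 12, 23],
   [0, 1, 2, 3, 21, 5, 16, 13, 9, 8, 18, 15, 20, 7, 14, 11, 6, 17, 10, 22, 12, 4, 19, 23],
   [0, 1, 2, 3, 7, 5, 22, 4, 15, 11, 12, 9, 10, 21, 14, 8, 19, 17, 20, 16, 18, 13, 6, 23],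
   [0, 1, 2, 3, 20, 5, 8, 18, 6, 16, 13, 19, 21, 10, 14, 22, 9, 17, 7, 11, 4, 12, 15, 23],
   [0, 1, 2, 3, 10, 5, 11, 12, 19, 22, 4, 6, 7, 20, 14, 16, 15, 17, 21, 8, 13, 18, 9, 23],
   [0, 1, 2, 3, 16, 5, 21, 19, 12, 20, 15, 18, 8, 22, 14, 10, 4, 17, 11, 7, 9, 6, 13, 23],
   [0, 1, 2, 3, 8, 5, 20, 15, 4, 21, 19, 13, 16, 11, 14, 7, 12, 17, 22, 10, 6, 9, 18, 23]]

/-- the straight-line program -/
def prog : List (ℕ × ℕ × ℕ) :=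
  [(0, 1, 2), (0, 2, 4), (0, 1, 4), (0, 3, 4), (0, 3, 5), (0, 2, 6), (0, 1, 6), (0, 3, 6), (0, 1, 7), (0, 3, 7), (0, 1, 8), (0, 3, 8), (0, 1, 9), (0, 1, 11), (0, 1, 12), (0, 1, 13), (0, 1, 14), (0, 2, 16), (0, 1, 16), (0, 3, 16), (0, 3, 18), (0, 2, 19), (0, 1, 1), (0, 3, 1), (0, 1, 26), (0, 3, 26), (0, 1, 27), (0, 3, 27), (0, 1, 29), (0, 1, 30), (0, 3, 30), (0, 1, 31), (0, 1, 32), (0, 1, 33), (0, 3, 33), (0, 3, 34), (0, 1, 36), (0, 3, 36), (0, 1, 38), (0, 1, 39), (0, 3, 39), (0, 3, 40), (0, 3, 41), (0, 3, 3), (0, 3, 47), (0, 3, 48), (0, 27, 3), (0, 2, 26), (0, 50, 27), (1, 37, 52), (1, 48, 53), (0, 54, 3), (0, 54, 47), (0, 3, 55), (0, 3, 56), (0, 3, 58), (0, 26, 26), (1, 31, 60), (1, 57, 61), (0, 62, 3), (0, 3, 63), (0, 62, 63), (0, 62, 55), (0, 62, 48), (0, 62, 56), (0, 3, 64), (0, 62, 64), (0, 3, 65), (0,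 62, 65), (0, 62, 57), (0, 62, 71), (0, 62, 62), (0, 62, 75), (0, 52, 27), (1, 43, 77), (1, 57, 78), (1, 76, 79), (0, 80, 62), (0, 80, 75), (0, 62, 81), (0, 80, 81), (0, 54, 81), (0, 80, 76), (0, 80, 82), (0, 54, 82), (0, 62, 83), (0, 80, 83), (0, 54, 83), (0, 62, 84), (0, 62, 85), (0, 80, 86), (0, 80, 87), (0, 80, 88), (0, 54, 90), (0, 80, 80), (0, 54, 80), (0, 80, 98), (0, 54, 98), (0, 80, 99), (0, 80, 100), (0, 54, 100), (0, 80, 101), (0, 80, 102), (0, 80, 105), (0, 54, 105), (0, 80, 106), (0, 80, 107), (0, 80, 108), (0, 80, 109), (0, 54, 109), (0, 54, 110), (0, 80, 114), (0, 51, 60), (1, 2, 116), (1, 29, 117), (1, 58, 118), (1, 81, 119), (1, 80, 120), (0, 121, 54), (0, 60, 77), (1, 30, 123), (1, 55, 124), (1, 75, 125), (1, 102, 126), (0, 127, 54), (0, 127, 121), (0, 127, 122), (0, 116, 123), (1, 2, 131),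 (1, 26, 132), (1, 70, 133), (1, 108, 134), (0, 135, 135), (0, 60, 3), (1, 31, 137), (1, 73, 138), (1, 86, 139), (1, 106, 140), (0, 141, 54), (0, 141, 121), (0, 141, 127), (0, 141, 122), (0, 141, 128), (0, 141, 129), (0, 141, 130)]

theorem prog_ok : okRun T prog 4 = true := by decide +kernel

theorem T_length : T.length = 4 + prog.length := by decide +kernel

/-- check of one level of the stabiliser chain -/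
def lev (prev : List ℕ) (b : ℕ) (orb : ℕ) : Bool :=
  (List.range 24).all fun j => or (not (orb.testBit j)) (T.any fun P =>
    and (Nat.beq (P.getD b 0) j) (prev.all fun i => Nat.beq (P.getD i 0) i))

theorem lv0 : lev [] 23 16777215 = true := by decide +kernel
theorem lv1 : lev [23] 0 8388607 = true := by decide +kernel
theorem lv2 : lev [23, 0] 1 8388606 = true := by decide +kernel
theorem lv3 : lev [23, 0, 1] 2 8388604 = true := by decide +kernel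
theorem lv4 : lev [23, 0, 1, 2] 3 8388600 = true := by decide +kernel
theorem lv5 : lev [23, 0, 1, 2, 3] 5 147488 = true := by decide +kernel
theorem lv6 : lev [23, 0, 1, 2, 3, 5] 4 8241104 = true := by decide +kernel

theorem good_of_mem {K : Subgroup (Equiv.Perm GolayPt)} (h : ∀ m < 4, Good K (T.getD m [])) :
    ∀ P ∈ T, Good K P := by
  intro P hP
  obtain ⟨i, hi, hip⟩ := List.getElem_of_mem hP
  have h1 := okRun_spec prog 4 prog_ok h i (by rw [← T_length]; exact hi)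
  rw [List.getD_eq_getElem _ _ hi, hip] at h1
  exact h1

theorem sift {K : Subgroup (Equiv.Perm GolayPt)} (hK : K ≤ M24) (hT : ∀ P ∈ T, Good K P)
    {prev : List ℕ} {b orb : ℕ} (hl : lev prev b orb = true)
    (hprev : ∀ i ∈ prev, i < 24) (hb : b < 24)
    (horb : ∀ g ∈ fixL prev, g (pt b) ∈ fset orb)
    (hnext : fixL (prev ++ [b]) ≤ K) : fixL prev ≤ K := by
  intro g hg
  have hp := horb g hg
  rw [mem_fset] at hp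
  rw [lev, List.all_eq_true] at hl
  have h2 := hl (idx (g (pt b))) (List.mem_range.2 (idx_lt _))
  rw [hp, Bool.not_true, Bool.false_or, List.any_eq_true] at h2
  obtain ⟨P, hP, h3⟩ := h2
  rw [Bool.and_eq_true, List.all_eq_true] at h3
  have hG := hT P hP
  have hu1 : mkPerm P (pt b) = g (pt b) := by
    apply idx_injective
    rw [idx_mkPerm hG.1, idx_pt b hb]
    exact beq_iff.1 h3.1
  have hu2 : ∀ i ∈ prev, mkPerm P (pt i) = pt i := by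
    intro i hi
    apply idx_injective
    rw [idx_mkPerm hG.1, idx_pt i (hprev i hi)]
    exact beq_iff.1 (h3.2 i hi)
  have hmem : (mkPerm P)⁻¹ * g ∈ fixL (prev ++ [b]) := by
    refine ⟨M24.mul_mem (M24.inv_mem (hK hG.2)) hg.1, fun i hi => ?_⟩
    rw [Equiv.Perm.mul_apply, Equiv.Perm.inv_eq_iff_eq]
    rcases List.mem_append.1 hi with hi | hi
    · rw [hg.2 i hi, hu2 i hi]
    · rw [List.mem_singleton.1 hi, hu1]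
  have := K.mul_mem hG.2 (hnext hmem)
  rwa [mul_inv_cancel_left] at this

theorem M24_le {K : Subgroup (Equiv.Perm GolayPt)} (hK : K ≤ M24) (h : ∀ m < 4, Good K (T.getD m [])) :
    M24 ≤ K := by
  have hT := good_of_mem h
  have h7 : fixL [23, 0, 1, 2, 3, 5, 4] ≤ K := by rw [fixL_base]; exact bot_le
  have h6 : fixL [23, 0, 1, 2, 3, 5] ≤ K := sift hK hT lv6 (by decide) (by decide) orb6 h7
  have h5 : fixL [23, 0, 1, 2, 3] ≤ K := sift hK hT lv5 (by decide) (by decide) orb5 h6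
  have h4 : fixL [23, 0, 1, 2] ≤ K := sift hK hT lv4 (by decide) (by decide) orb4 h5
  have h3 : fixL [23, 0, 1] ≤ K := sift hK hT lv3 (by decide) (by decide) orb3 h4
  have h2 : fixL [23, 0] ≤ K := sift hK hT lv2 (by decide) (by decide) orb2 h3
  have h1 : fixL [23] ≤ K := sift hK hT lv1 (by decide) (by decide) orb1 h2
  have h0 : fixL [] ≤ K := sift hK hT lv0 (by decide) (by decide) (fun g _ => by
    generalize g (pt 23) = p; revert p; decide +kernel) h1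
  rwa [fixL_nil] at h0

end CfsgLib.M24Gen
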