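import Cfsg.Statements.S1570
import Mathlib
import Cfsg.Agent.LibFrameC

set_option autoImplicit false
open Cfsg

namespace Cfsg.Agent.S1570

/-- Every congruence class of the lattice modulo twice the lattice contains a vector of customary norm at most 8. -/
theorem result (x : Cfsg.GolayPt → ℤ) (hx : x ∈ Cfsg.leechLattice) : ∃ y ∈ Cfsg.leechLattice, Cfsg.sqNorm y ≤ 64 ∧ ∃ z ∈ Cfsg.leechLattice, x - y = 2 • z := by
  rw [CfsgLib.Leech.leechLattice_eq] at hx ⊢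
  obtain ⟨⟨y, hy⟩, h1, ⟨z, hz⟩, h2⟩ := (CfsgLib.Frame.counting CfsgLib.Frame.hyp_Lam).2 ⟨x, hx⟩
  refine ⟨y, hy, ?_, z, hz, ?_⟩
  · have := CfsgLib.Frame.BL_self ⟨y, hy⟩
    change sqNorm ((⟨y, hy⟩ : CfsgLib.Leech.Lam) : CfsgLib.Leech.E) ≤ 64
    omega
  · rw [two_nsmul]; exact congrArg Subtype.val h2

end Cfsg.Agent.S1570
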