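import Cfsg.Statements.S5552
import Mathlib
import Cfsg.Agent.LibCoG
import Cfsg.Agent.S1570

set_option autoImplicit false
open Cfsg

namespace Cfsg.Agent.S5552

open CfsgLib.Co CfsgLib.Leech CfsgLib.Golay

/-- an octad word -/
def ow : Cfsg.GolayPt → ZMod 2 := word (cw 2075)

theorem ow_mem : ow ∈ Cfsg.golayCode := word_cw_mem 2075
theorem ow_none : ow none = 1 := by decide +kernel
theorem ow_pz : ow pz = 0 := by decide +kernel
theorem ow_po : ow po = 1 := by decide +kernel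
theorem ow_sum : ∑ k, lf (ow k) = 8 := by decide +kernel

/-- twice the octad -/
def wv : LL := ⟨fun k => 2 * lf (ow k), mem_LL.2 (even_mem ow_mem (y := 0) (by simp) (fun k => by rw [Pi.zero_apply]; ring))⟩

theorem wv_apply (k : Cfsg.GolayPt) : (wv : Cfsg.GolayPt → ℤ) k = 2 * lf (ow k) := rfl

theorem wv_norm : Cfsg.sqNorm (wv : Cfsg.GolayPt → ℤ) = 32 := by
  have h : ∀ k, (wv : Cfsg.GolayPt → ℤ) k ^ 2 = 4 * lf (ow k) := by
    intro k
    rw [wv_apply]
    rcases lf_cases (ow k) with e | e <;> rw [e] <;> norm_num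
  rw [Cfsg.sqNorm, Finset.sum_congr rfl fun k _ => h k, ← Finset.mul_sum, ow_sum]; norm_num

/-- the point `2` -/
abbrev p2 : Cfsg.GolayPt := some 2

theorem h4 : (4 : ℤ) = 4 ∨ (4 : ℤ) = -4 := Or.inl rfl
theorem h4' : (-4 : ℤ) = 4 ∨ (-4 : ℤ) = -4 := Or.inr rfl

/-- the vectors -/
def vx : LL := PL none pz h4 h4
def vy : LL := PL none pz h4 h4'
def vz : LL := PL po p2 h4 h4
def vu : LL := PL po pz h4 h4'
def vx' : LL := PL none po h4 h4

theorem nx : Cfsg.sqNorm (vx : Cfsg.GolayPt → ℤ) = 32 := norm_PL nz _ _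
theorem ny : Cfsg.sqNorm (vy : Cfsg.GolayPt → ℤ) = 32 := norm_PL nz _ _
theorem nzz : Cfsg.sqNorm (vz : Cfsg.GolayPt → ℤ) = 32 := norm_PL (by decide) _ _
theorem nu : Cfsg.sqNorm (vu : Cfsg.GolayPt → ℤ) = 32 := norm_PL (by decide) _ _
theorem nx' : Cfsg.sqNorm (vx' : Cfsg.GolayPt → ℤ) = 32 := norm_PL no _ _

theorem e1 : vx + vy + vz = (PL po p2 h4 h4' : LL) + (PL none p2 h4 h4 + PL none p2 h4 h4) := by
  apply Subtype.ext
  funext k
  change P none pz 4 4 k + P none pz 4 (-4) k + P po p2 4 4 k = P po p2 4 (-4) k + (P none p2 4 4 k + P none p2 4 4 k)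
  simp only [P_apply]
  split_ifs <;> norm_num

theorem e2 : vx + vu = vx' := by
  apply Subtype.ext
  funext k
  change P none pz 4 4 k + P po pz 4 (-4) k = P none po 4 4 k
  simp only [P_apply]
  split_ifs <;> norm_num

theorem d1 : Cfsg.sqNorm ((vx + vy : LL) : Cfsg.GolayPt → ℤ) = 64 := by
  rw [AddSubgroup.coe_add, sqNorm_add, nx, ny]
  change 32 + 32 + 2 * Cfsg.dotInt (P none pz 4 4) (P none pz 4 (-4)) = 64
  rw [dot_P_left, P_left nz, P_right nz]; norm_num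

theorem d2 : Cfsg.sqNorm ((vx + vz : LL) : Cfsg.GolayPt → ℤ) = 64 := by
  rw [AddSubgroup.coe_add, sqNorm_add, nx, nzz]
  change 32 + 32 + 2 * Cfsg.dotInt (P none pz 4 4) (P po p2 4 4) = 64
  rw [dot_P_left, P_other (by decide) (by decide), P_other (by decide) (by decide)]; norm_num

theorem d3 : Cfsg.sqNorm ((vy + vz : LL) : Cfsg.GolayPt → ℤ) = 64 := by
  rw [AddSubgroup.coe_add, sqNorm_add, ny, nzz]
  change 32 + 32 + 2 * Cfsg.dotInt (P none pz 4 (-4)) (P po p2 4 4) = 64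
  rw [dot_P_left, P_other (by decide) (by decide), P_other (by decide) (by decide)]; norm_num

theorem d4 : Cfsg.sqNorm ((vx' - wv : LL) : Cfsg.GolayPt → ℤ) = 32 := by
  rw [AddSubgroup.coe_sub, sqNorm_sub, nx', wv_norm]
  change 32 + 32 - 2 * Cfsg.dotInt (P none po 4 4) wv = 32
  rw [dot_P_left, wv_apply, wv_apply, ow_none, ow_po, lf_one]; norm_num

theorem d5 : Cfsg.sqNorm ((vx - wv : LL) : Cfsg.GolayPt → ℤ) = 48 := by
  rw [AddSubgroup.coe_sub, sqNorm_sub, nx, wv_norm]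
  change 32 + 32 - 2 * Cfsg.dotInt (P none pz 4 4) wv = 48
  rw [dot_P_left, wv_apply, wv_apply, ow_none, ow_pz, lf_one, lf_zero]; norm_num

theorem d6 : Cfsg.sqNorm ((vu - wv : LL) : Cfsg.GolayPt → ℤ) = 48 := by
  rw [AddSubgroup.coe_sub, sqNorm_sub, nu, wv_norm]
  change 32 + 32 - 2 * Cfsg.dotInt (P po pz 4 (-4)) wv = 48
  rw [dot_P_left, wv_apply, wv_apply, ow_po, ow_pz, lf_one, lf_zero]; norm_num

/-- On the Leech lattice of the definitions, let Q be a function to the field with two elements that is constant on cosets of twice the lattice, is a quadratic form there (Q(u+v+w) + Q(u) + Q(v) + Q(w) = Q(u+v) + Q(u+w) + Q(v+w) for all u, v, w), is invariant under every lattice automorphism, and is not identically zero. Then Q(v) is the squared length of v divided by 16, reduced modulo 2, for every lattice vector v (squared lengths of lattice vectors are multiples of 16). -/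
theorem result (Q : ↥Cfsg.leechLattice → ZMod 2) (hcoset : ∀ v w : ↥Cfsg.leechLattice, Q (v + (w + w)) = Q v) (hquad : ∀ u v w : ↥Cfsg.leechLattice, Q (u + v + w) + Q u + Q v + Q w = Q (u + v) + Q (u + w) + Q (v + w)) (hinv : ∀ (g : ↥Cfsg.Co0) (v : ↥Cfsg.leechLattice), Q (g • v) = Q v) (hne : ∃ v : ↥Cfsg.leechLattice, Q v ≠ 0) (v : ↥Cfsg.leechLattice) : Q v = ((Cfsg.sqNorm (v : Cfsg.GolayPt → ℤ) / 16 : ℤ) : ZMod 2) := by
  have hz0 : Q 0 = 0 := by
    have h := hquad 0 0 0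
    simp only [add_zero] at h
    have key : ∀ t : ZMod 2, t + t + t + t = t + t + t → t = 0 := by decide
    exact key _ h
  have t32 : ∀ v w : LL, Cfsg.sqNorm (v : Cfsg.GolayPt → ℤ) = 32 → Cfsg.sqNorm (w : Cfsg.GolayPt → ℤ) = 32 → Q v = Q w := by
    intro v w hv hw
    obtain ⟨g, hg⟩ := tr32 v hv
    obtain ⟨g', hg'⟩ := tr32 w hw
    rw [← hinv g v, ← hinv g' w, Subtype.ext (hg.trans hg'.symm)]
  have t48 : ∀ v w : LL, Cfsg.sqNorm (v : Cfsg.GolayPt → ℤ) = 48 → Cfsg.sqNorm (w : Cfsg.GolayPt → ℤ) = 48 → Q v = Q w := by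
    intro v w hv hw
    obtain ⟨g, hg⟩ := tr48 v hv
    obtain ⟨g', hg'⟩ := tr48 w hw
    rw [← hinv g v, ← hinv g' w, Subtype.ext (hg.trans hg'.symm)]
  have t64 : ∀ v w : LL, Cfsg.sqNorm (v : Cfsg.GolayPt → ℤ) = 64 → Cfsg.sqNorm (w : Cfsg.GolayPt → ℤ) = 64 → Q v = Q w := by
    intro v w hv hw
    obtain ⟨g, hg⟩ : v ∈ MulAction.orbit ↥Cfsg.Co0 (e8 none) := by rw [orbit_e8]; exact hv
    obtain ⟨g', hg'⟩ : w ∈ MulAction.orbit ↥Cfsg.Co0 (e8 none) := by rw [orbit_e8]; exact hw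
    have hg1 : g • e8 none = v := hg
    have hg2 : g' • e8 none = w := hg'
    rw [← hg1, ← hg2, hinv, hinv]
  have h64 : ∀ v : LL, Cfsg.sqNorm (v : Cfsg.GolayPt → ℤ) = 64 → Q v = 0 := by
    have h := hquad vx vy vz
    rw [e1, hcoset, t32 _ vx (norm_PL (by decide) _ _) nx, t32 vy vx ny nx, t32 vz vx nzz nx, t64 _ _ d2 d1, t64 _ _ d3 d1] at h
    have key : ∀ a c : ZMod 2, a + a + a + a = c + c + c → c = 0 := by decide
    intro v hv
    rw [t64 v _ hv d1]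
    exact key _ _ h
  have flip : ∀ v w : LL, Q (v + w) = Q (v - w) := by
    intro v w
    rw [← hcoset (v - w) w]
    congr 1
    abel
  have h32 : ∀ v : LL, Cfsg.sqNorm (v : Cfsg.GolayPt → ℤ) = 32 → Q v = 0 := by
    have h := hquad vx vu wv
    rw [e2, flip vx' wv, flip vx wv, flip vu wv, t32 _ vx d4 nx, t32 vu vx nu nx, t32 wv vx wv_norm nx, t32 vx' vx nx' nx, t48 _ _ d6 d5] at h
    have key : ∀ a b : ZMod 2, a + a + a + a = a + b + b → a = 0 := by decide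
    intro v hv
    rw [t32 v _ hv nx]
    exact key _ _ h
  have hrep : ∀ v : LL, ∃ y z : LL, v = y + (z + z) ∧ Cfsg.sqNorm (y : Cfsg.GolayPt → ℤ) ≤ 64 := by
    intro v
    obtain ⟨y, hy, hn, z, hz, h⟩ := Cfsg.Agent.S1570.result v v.2
    refine ⟨⟨y, hy⟩, ⟨z, hz⟩, Subtype.ext ?_, hn⟩
    change (v : Cfsg.GolayPt → ℤ) = y + (z + z)
    rw [← two_nsmul, ← h]; abel
  have hcases : ∀ y : LL, Cfsg.sqNorm (y : Cfsg.GolayPt → ℤ) ≤ 64 → y = 0 ∨ Cfsg.sqNorm (y : Cfsg.GolayPt → ℤ) = 32 ∨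
      Cfsg.sqNorm (y : Cfsg.GolayPt → ℤ) = 48 ∨ Cfsg.sqNorm (y : Cfsg.GolayPt → ℤ) = 64 := by
    intro y hy
    by_cases h0 : y = 0
    · exact Or.inl h0
    · have h1 := min_norm (mem_LL.1 y.2) (fun h' => h0 (Subtype.ext h'))
      have h2 := dvd_sqNorm (mem_LL.1 y.2)
      omega
  have h48 : ∀ v : LL, Cfsg.sqNorm (v : Cfsg.GolayPt → ℤ) = 48 → Q v = 1 := by
    by_contra hcon
    push Not at hcon
    obtain ⟨v, hv, hv1⟩ := hcon
    obtain ⟨x, hx⟩ := hne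
    obtain ⟨y, z, rfl, hy⟩ := hrep x
    rw [hcoset] at hx
    apply hx
    rcases hcases y hy with rfl | h | h | h
    · exact hz0
    · exact h32 y h
    · rw [t48 y v h hv]
      have key : ∀ a : ZMod 2, a ≠ 1 → a = 0 := by decide
      exact key _ hv1
    · exact h64 y h
  obtain ⟨y, z, rfl, hy⟩ := hrep v
  rw [hcoset]
  have hn : Cfsg.sqNorm ((y + (z + z) : LL) : Cfsg.GolayPt → ℤ) = Cfsg.sqNorm (y : Cfsg.GolayPt → ℤ) +
      4 * Cfsg.sqNorm (z : Cfsg.GolayPt → ℤ) + 4 * Cfsg.dotInt (y : Cfsg.GolayPt → ℤ) (z : Cfsg.GolayPt → ℤ) := by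
    rw [AddSubgroup.coe_add, AddSubgroup.coe_add, sqNorm_add, sqNorm_add, dot_add_right, ← sqNorm_dot]; ring
  obtain ⟨p, hp⟩ := dvd_sqNorm (mem_LL.1 z.2)
  obtain ⟨q, hq⟩ := dvd8 y z
  obtain ⟨r, hr⟩ := dvd_sqNorm (mem_LL.1 y.2)
  rw [hn, hp, hq]
  have e3 : (Cfsg.sqNorm (y : Cfsg.GolayPt → ℤ) + 4 * (16 * p) + 4 * (8 * q)) / 16 = r + 2 * (2 * p + q) := by omega
  rw [e3]
  push_cast
  have h2 : (2 : ZMod 2) = 0 := by decide
  rw [h2, zero_mul, add_zero]
  rcases hcases y hy with rfl | h | h | h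
  · have : r = 0 := by
      have : Cfsg.sqNorm ((0 : LL) : Cfsg.GolayPt → ℤ) = 0 := by simp [Cfsg.sqNorm]
      omega
    rw [hz0, this, Int.cast_zero]
  · have : r = 2 := by omega
    rw [h32 y h, this]; decide
  · have : r = 3 := by omega
    rw [h48 y h, this]; decide
  · have : r = 4 := by omega
    rw [h64 y h, this]; decide

end Cfsg.Agent.S5552
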