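import Cfsg.Agent.EqBase
import Mathlib
import Cfsg.Prelude.Def_MonsterType
import Cfsg.Agent.LibLargeGFH28
import Cfsg.Agent.LibLargePair2H28
import Cfsg.Agent.LibCoG
import Cfsg.Agent.S5552

/-!
The centralizer setting with the lattice modulo two.
-/

set_option autoImplicit false
set_option linter.constructorNameAsVariable false

namespace CfsgLib.MT

open Cfsg CfsgLib.Co CfsgLib.Leech CfsgLib.LargeExtraH28 Subgroup

variable {G : Type*} [Group G]

/-- the setting in relational form -/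
structure MT (Q : Subgroup G) (z : G) (R : LL → G → Prop) (π : centralizer ({z} : Set G) →* Co0 ⧸ center Co0) : Prop
    extends LSet Q z where
  card : Nat.card Q = 2 ^ 25
  surj : Function.Surjective π
  ker : ∀ c : centralizer ({z} : Set G), π c = 1 ↔ (c : G) ∈ Q
  Rmem : ∀ v q, R v q → q ∈ Q
  Rex : ∀ v, ∃ q, R v q
  Rex' : ∀ q ∈ Q, ∃ v, R v q
  R2 : ∀ v q q', R v q → R v q' → q' = q ∨ q' = z * q
  Rz : ∀ v q, R v q → R v (z * q)
  Radd : ∀ v w q r, R v q → R w r → R (v + w) (q * r)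
  R0 : ∀ v, R v 1 ↔ ∃ u, v = u + u
  RK : ∀ (c : centralizer ({z} : Set G)) (g : Co0), π c = (g : Co0 ⧸ center Co0) → ∀ v q, R v q →
    R (g • v) ((c : G) * q * (c : G)⁻¹)

section mk

variable {z : G} {Q : Subgroup (centralizer ({z} : Set G))} [Q.Normal]
  (e : (centralizer ({z} : Set G)) ⧸ Q ≃* Spor.Co1) (ψ : leechLattice → Q ⧸ center Q)

/-- the relation -/
def Rel (v : LL) (q : G) : Prop :=
  ∃ (hc : q ∈ centralizer ({z} : Set G)) (hq : (⟨q, hc⟩ : centralizer ({z} : Set G)) ∈ Q), ψ v = QuotientGroup.mk ⟨⟨q, hc⟩, hq⟩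

/-- the projection -/
def pr : centralizer ({z} : Set G) →* Co0 ⧸ center Co0 := e.toMonoidHom.comp (QuotientGroup.mk' Q)

theorem pr_apply (c : centralizer ({z} : Set G)) : pr e c = e (QuotientGroup.mk c) := rfl

theorem mt_of [Finite G] (hS : IsExtraspecialCentralizerSetting z Q 12) (hψ : IsLeechModTwoIso Q e ψ) :
    MT (Q.map (centralizer ({z} : Set G)).subtype) z (Rel ψ) (pr e) := by
  obtain ⟨h1, h2, h3, h4, h5⟩ := hS
  obtain ⟨k1, k2, k3, k4⟩ := hψ
  have hL := CfsgLib.LargeGFH28.lset_of_gF' h1 h2 h3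
  have hzC : z ∈ centralizer ({z} : Set G) := by rw [mem_centralizer_singleton_iff]
  have hzQ : (⟨z, hzC⟩ : centralizer ({z} : Set G)) ∈ Q := by
    obtain ⟨y, hy, hyz⟩ := hL.zQ
    have : y = ⟨z, hzC⟩ := Subtype.ext hyz
    rwa [this] at hy
  have hc := center_map_eq (z := (⟨z, hzC⟩ : centralizer ({z} : Set G))) h3 hzQ (fun h => hL.z1 (congrArg Subtype.val h))
    (fun q _ => Subtype.ext (mem_centralizer_singleton_iff.1 q.2))
  refine { hL with card := ?_, surj := ?_, ker := ?_, Rmem := ?_, Rex := ?_, Rex' := ?_, R2 := ?_, Rz := ?_, Radd := ?_, R0 := ?_, RK := ?_ }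
  · rw [← h4]
    exact (Nat.card_congr (Q.equivMapOfInjective _ (centralizer ({z} : Set G)).subtype_injective).toEquiv).symm
  · intro x
    obtain ⟨c, hc⟩ := QuotientGroup.mk_surjective (e.symm x)
    exact ⟨c, by rw [pr_apply, hc, e.apply_symm_apply]⟩
  · intro c
    rw [pr_apply, EmbeddingLike.map_eq_one_iff, QuotientGroup.eq_one_iff]
    constructor
    · exact fun h => ⟨c, h, rfl⟩
    · rintro ⟨y, hy, hyc⟩
      have : y = c := Subtype.ext hyc
      rwa [this] at hy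
  · rintro v q ⟨hc, hq, -⟩
    exact ⟨_, hq, rfl⟩
  · intro v
    obtain ⟨q, hq⟩ := QuotientGroup.mk_surjective (ψ v)
    exact ⟨q, q.1.2, q.2, hq.symm⟩
  · rintro _ ⟨q, hq, rfl⟩
    obtain ⟨v, hv⟩ := k2 (QuotientGroup.mk ⟨q, hq⟩)
    exact ⟨v, q.2, hq, hv⟩
  · rintro v q q' ⟨a1, a2, a3⟩ ⟨b1, b2, b3⟩
    have h6 := QuotientGroup.eq.1 (a3.symm.trans b3)
    rw [hc] at h6
    rcases h6 with h6 | h6
    · left
      have h7 : q⁻¹ * q' = 1 := congrArg Subtype.val h6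
      exact (inv_mul_eq_one.1 h7).symm
    · right
      have h7 : q⁻¹ * q' = z := congrArg Subtype.val h6
      have h8 : q' = q * z := by rw [← h7]; group
      rw [h8]
      exact mem_centralizer_singleton_iff.1 a1
  · rintro v q ⟨a1, a2, a3⟩
    refine ⟨mul_mem hzC a1, mul_mem hzQ a2, ?_⟩
    rw [a3]
    apply QuotientGroup.eq.2
    rw [hc]
    right
    apply Subtype.ext
    change q⁻¹ * (z * q) = z
    rw [← mem_centralizer_singleton_iff.1 a1]; group
  · rintro v w q r ⟨a1, a2, a3⟩ ⟨b1, b2, b3⟩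
    refine ⟨mul_mem a1 b1, mul_mem a2 b2, ?_⟩
    rw [k1, a3, b3]; rfl
  · intro v
    constructor
    · rintro ⟨a1, a2, a3⟩
      exact (k3 v).1 a3
    · intro h
      exact ⟨one_mem _, one_mem _, (k3 v).2 h⟩
  · rintro c g hcg v q ⟨a1, a2, a3⟩
    have := k4 c g (by rw [← pr_apply]; exact hcg.symm) v ⟨⟨q, a1⟩, a2⟩ a3
    exact ⟨mul_mem (mul_mem c.2 a1) (inv_mem c.2), _, this⟩

end mk

namespace MT

variable {Q : Subgroup G} {z : G} {R : LL → G → Prop} {π : centralizer ({z} : Set G) →* Co0 ⧸ center Co0}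

theorem Rcos (h : MT Q z R π) {v w : LL} {q : G} (hv : R v q) (hw : R w q) : ∃ u, v = w + (u + u) := by
  obtain ⟨q', hq'⟩ := h.Rex (-w)
  have h1 := h.Radd _ _ _ _ hw hq'
  rw [add_neg_cancel] at h1
  have h0 : R 0 1 := (h.R0 0).2 ⟨0, (add_zero _).symm⟩
  have hzz : z * z = 1 := h.zz
  have h2 := h.Radd _ _ _ _ hv hq'
  have h3 : R (v + -w) 1 := by
    rcases h.R2 _ _ _ h0 h1 with h4 | h4
    · rwa [h4] at h2
    · rw [h4, mul_one] at h2
      have := h.Rz _ _ h2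
      rwa [hzz] at this
  obtain ⟨u, hu⟩ := (h.R0 _).1 h3
  exact ⟨u, by rw [← hu]; abel⟩

theorem Rcos' (h : MT Q z R π) {v w u : LL} {q : G} (hw : R w q) (e : v = w + (u + u)) : R v q := by
  rw [e]
  have := h.Radd _ _ _ _ hw ((h.R0 (u + u)).2 ⟨u, rfl⟩)
  rwa [mul_one] at this

theorem R2' (h : MT Q z R π) {v : LL} {q q' : G} (hv : R v q) (hq : q' = q ∨ q' = z * q) : R v q' := by
  rcases hq with rfl | rfl
  · exact hv
  · exact h.Rz _ _ hv

open Classical in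
/-- the exponent of the square -/
noncomputable def sx (q : G) : ZMod 2 := if q * q = 1 then 0 else 1

open Classical in
/-- the exponent of the commutator -/
noncomputable def cx (q r : G) : ZMod 2 := if q * r = r * q then 0 else 1

theorem sq_eq (h : MT Q z R π) {q : G} (hq : q ∈ Q) : (sx q = 0 ∧ q * q = 1) ∨ (sx q = 1 ∧ q * q = z) := by
  rw [sx]
  rcases h.sq q hq with e | e
  · exact Or.inl ⟨if_pos e, e⟩
  · exact Or.inr ⟨if_neg (by rw [e]; exact h.z1), e⟩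

theorem cm_eq (h : MT Q z R π) {q r : G} (hq : q ∈ Q) (hr : r ∈ Q) : (cx q r = 0 ∧ q * r = r * q) ∨ (cx q r = 1 ∧ q * r = z * (r * q)) := by
  rw [cx]
  by_cases e : q * r = r * q
  · exact Or.inl ⟨if_pos e, e⟩
  · exact Or.inr ⟨if_neg e, (h.cm q hq r hr).resolve_left e⟩

theorem z_ne (h : MT Q z R π) {a : G} : ¬ (z * a = a) := by
  intro e
  exact h.z1 (mul_eq_right.1 e)

theorem sx_mul (h : MT Q z R π) {q r : G} (hq : q ∈ Q) (hr : r ∈ Q) : sx (q * r) = sx q + sx r + cx q r := by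
  have hz : ∀ t : G, z * (z * t) = t := fun t => by rw [← mul_assoc, h.zz, one_mul]
  have hqz := h.zc q hq
  have hrz := h.zc r hr
  have key : (q * r) * (q * r) = q * (r * q) * r := by group
  have e3 : ∀ t : ZMod 2, t + t = 0 := by decide
  rcases h.sq_eq hq with ⟨a, a'⟩ | ⟨a, a'⟩ <;> rcases h.sq_eq hr with ⟨b, b'⟩ | ⟨b, b'⟩ <;>
    rcases h.cm_eq hq hr with ⟨c, c'⟩ | ⟨c, c'⟩ <;> rcases h.sq_eq (mul_mem hq hr) with ⟨d, d'⟩ | ⟨d, d'⟩ <;>
    rw [a, b, c, d] <;> try decide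
  all_goals exfalso
  all_goals
    first
      | (have e1 : q * (r * q) * r = (q * q) * (r * r) := by rw [← c']; simp only [mul_assoc]
         rw [key, e1, a', b'] at d'
         first
           | exact h.z1 (by simpa using d')
           | exact h.z1 (by simpa using d'.symm)
           | exact h.z1 (by rw [← d', h.zz]))
      | (have e1 : q * (r * q) * r = z * ((q * q) * (r * r)) := by
           have : r * q = z * (q * r) := by rw [c', hz]
           rw [this]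
           calc q * (z * (q * r)) * r = (q * z) * (q * r) * r := by group
             _ = _ := by rw [hqz]; group
         rw [key, e1, a', b'] at d'
         first
           | exact h.z1 (by simpa using d')
           | exact h.z1 (by simpa using d'.symm)
           | exact h.z1 (by simpa [h.zz] using d')
           | exact h.z1 (by simpa [h.zz] using d'.symm))

theorem cx_mul (h : MT Q z R π) {q r t : G} (hq : q ∈ Q) (hr : r ∈ Q) (ht : t ∈ Q) : cx (q * r) t = cx q t + cx r t := by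
  have e3 : ∀ t : ZMod 2, t + t = 0 := by decide
  have hqz := h.zc q hq
  have htz := h.zc t ht
  rcases h.cm_eq hq ht with ⟨a, a'⟩ | ⟨a, a'⟩ <;> rcases h.cm_eq hr ht with ⟨b, b'⟩ | ⟨b, b'⟩
  · have : (q * r) * t = t * (q * r) := by
      calc q * r * t = q * (r * t) := by group
        _ = (q * t) * r := by rw [b']; group
        _ = _ := by rw [a']; group
    rw [a, b, cx, if_pos this, add_zero]
  · have : (q * r) * t = z * (t * (q * r)) := by
      calc q * r * t = q * (r * t) := by group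
        _ = (q * z) * (t * r) := by rw [b']; group
        _ = z * ((q * t) * r) := by rw [hqz]; group
        _ = _ := by rw [a']; group
    rw [a, b, cx, if_neg (by rw [this]; exact h.z_ne), zero_add]
  · have : (q * r) * t = z * (t * (q * r)) := by
      calc q * r * t = q * (r * t) := by group
        _ = (q * t) * r := by rw [b']; group
        _ = _ := by rw [a']; group
    rw [a, b, cx, if_neg (by rw [this]; exact h.z_ne), add_zero]
  · have : (q * r) * t = t * (q * r) := by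
      calc q * r * t = q * (r * t) := by group
        _ = (q * z) * (t * r) := by rw [b']; group
        _ = z * ((q * t) * r) := by rw [hqz]; group
        _ = (z * z) * (t * (q * r)) := by rw [a']; group
        _ = _ := by rw [h.zz, one_mul]
    rw [a, b, cx, if_pos this, e3]

theorem sx_z (h : MT Q z R π) {q : G} (hq : q ∈ Q) : sx (z * q) = sx q := by
  have h1 : sx z = 0 := if_pos h.zz
  have h2 : cx z q = 0 := if_pos (h.zc q hq).symm
  rw [h.sx_mul h.zQ hq, h1, h2, zero_add, add_zero]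

theorem sx_congr (h : MT Q z R π) {v : LL} {q r : G} (hq : R v q) (hr : R v r) : sx q = sx r := by
  rcases h.R2 _ _ _ hq hr with e | e
  · rw [e]
  · rw [e, h.sx_z (h.Rmem _ _ hq)]

theorem sx_conj (c q : G) : sx (c * q * c⁻¹) = sx q := by
  have h1 : (c * q * c⁻¹) * (c * q * c⁻¹) = 1 ↔ q * q = 1 := by
    have : (c * q * c⁻¹) * (c * q * c⁻¹) = c * (q * q) * c⁻¹ := by group
    rw [this]
    constructor
    · intro e
      calc q * q = c⁻¹ * (c * (q * q) * c⁻¹) * c := by group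
        _ = 1 := by rw [e]; group
    · intro e; rw [e]; group
  rw [sx, sx]
  by_cases e : q * q = 1
  · rw [if_pos e, if_pos (h1.2 e)]
  · rw [if_neg e, if_neg (fun e' => e (h1.1 e'))]

/-- the quadratic form -/
noncomputable def Qf (h : MT Q z R π) (v : LL) : ZMod 2 := sx (h.Rex v).choose

theorem Qf_eq (h : MT Q z R π) {v : LL} {q : G} (hq : R v q) : h.Qf v = sx q := h.sx_congr (h.Rex v).choose_spec hq

theorem exists_K (h : MT Q z R π) (g : Co0) : ∃ c : centralizer ({z} : Set G), π c = (g : Co0 ⧸ center Co0) := h.surj _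

theorem exists_nc (h : MT Q z R π) : ∃ q ∈ Q, q ≠ 1 ∧ q ≠ z := by
  by_contra hcon
  push Not at hcon
  have hsub : (Q : Set G) ⊆ {1, z} := by
    intro q hq
    by_cases h1 : q = 1
    · exact Or.inl h1
    · exact Or.inr (hcon q hq h1)
  have h1 : (Q : Set G).ncard ≤ ({1, z} : Set G).ncard := Set.ncard_le_ncard hsub
  have h2 : ({1, z} : Set G).ncard ≤ 2 := Set.ncard_insert_le _ _ |>.trans (by rw [Set.ncard_singleton])
  have h3 : (Q : Set G).ncard = 2 ^ 25 := h.card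
  rw [h3] at h1
  omega

theorem exists_sq (h : MT Q z R π) : ∃ q ∈ Q, sx q = 1 := by
  by_contra hcon
  push Not at hcon
  have h1 : ∀ q ∈ Q, q * q = 1 := by
    intro q hq
    rcases h.sq_eq hq with ⟨_, e⟩ | ⟨e, _⟩
    · exact e
    · exact absurd e (hcon q hq)
  obtain ⟨q, hq, q1, q2⟩ := h.exists_nc
  obtain ⟨e, he, hec⟩ := h.noncentral hq q1 q2
  have h2 : e * q = q * e := by
    have a1 := h1 _ (mul_mem he hq)
    have a2 := h1 _ he
    have a3 := h1 _ hq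
    have a4 : (e * q)⁻¹ = e * q := inv_eq_of_mul_eq_one_left a1
    have a5 : e⁻¹ = e := inv_eq_of_mul_eq_one_left a2
    have a6 : q⁻¹ = q := inv_eq_of_mul_eq_one_left a3
    rw [← a4, mul_inv_rev, a5, a6]
  rw [h2] at hec
  exact h.z_ne hec.symm

theorem Qf_norm (h : MT Q z R π) (v : LL) : h.Qf v = ((Cfsg.sqNorm (v : Cfsg.GolayPt → ℤ) / 16 : ℤ) : ZMod 2) := by
  refine Cfsg.Agent.S5552.result h.Qf ?_ ?_ ?_ ?_ v
  · intro v w
    obtain ⟨q, hq⟩ := h.Rex v
    rw [h.Qf_eq hq, h.Qf_eq (h.Rcos' hq rfl)]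
  · intro u v w
    obtain ⟨q, hq⟩ := h.Rex u
    obtain ⟨r, hr⟩ := h.Rex v
    obtain ⟨t, ht⟩ := h.Rex w
    have mq := h.Rmem _ _ hq
    have mr := h.Rmem _ _ hr
    have mt := h.Rmem _ _ ht
    rw [h.Qf_eq hq, h.Qf_eq hr, h.Qf_eq ht, h.Qf_eq (h.Radd _ _ _ _ hq hr), h.Qf_eq (h.Radd _ _ _ _ hq ht),
      h.Qf_eq (h.Radd _ _ _ _ hr ht), h.Qf_eq (h.Radd _ _ _ _ (h.Radd _ _ _ _ hq hr) ht),
      h.sx_mul (mul_mem mq mr) mt, h.cx_mul mq mr mt, h.sx_mul mq mr, h.sx_mul mq mt, h.sx_mul mr mt]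
    generalize sx q = a
    generalize sx r = b
    generalize sx t = c
    generalize cx q r = d
    generalize cx q t = e
    generalize cx r t = f
    revert a b c d e f
    decide
  · intro g v
    obtain ⟨c, hc⟩ := h.exists_K g
    obtain ⟨q, hq⟩ := h.Rex v
    rw [h.Qf_eq hq, h.Qf_eq (h.RK c g hc v q hq), sx_conj]
  · obtain ⟨q, hq, hs⟩ := h.exists_sq
    obtain ⟨v, hv⟩ := h.Rex' q hq
    refine ⟨v, ?_⟩
    rw [h.Qf_eq hv, hs]
    decide

/-- squares -/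
theorem sq_iff (h : MT Q z R π) {v : LL} {q : G} (hq : R v q) : q * q = 1 ↔ (32 : ℤ) ∣ Cfsg.sqNorm (v : Cfsg.GolayPt → ℤ) := by
  have h1 := h.Qf_norm v
  rw [h.Qf_eq hq] at h1
  obtain ⟨p, hp⟩ := dvd_sqNorm (mem_LL.1 v.2)
  have h2 : Cfsg.sqNorm (v : Cfsg.GolayPt → ℤ) / 16 = p := by omega
  rw [h2] at h1
  have h3 : (32 : ℤ) ∣ Cfsg.sqNorm (v : Cfsg.GolayPt → ℤ) ↔ (2 : ℤ) ∣ p := by rw [hp]; omega
  have h4 : (p : ZMod 2) = 0 ↔ (2 : ℤ) ∣ p := ZMod.intCast_zmod_eq_zero_iff_dvd p 2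
  rw [h3, ← h4, ← h1, sx]
  by_cases e : q * q = 1
  · simp [e]
  · simp [e]

/-- commutators -/
theorem cm_iff (h : MT Q z R π) {v w : LL} {q r : G} (hq : R v q) (hr : R w r) :
    q * r = r * q ↔ (16 : ℤ) ∣ Cfsg.dotInt (v : Cfsg.GolayPt → ℤ) (w : Cfsg.GolayPt → ℤ) := by
  have mq := h.Rmem _ _ hq
  have mr := h.Rmem _ _ hr
  have h1 := h.sx_mul mq mr
  rw [← h.Qf_eq hq, ← h.Qf_eq hr, ← h.Qf_eq (h.Radd _ _ _ _ hq hr), h.Qf_norm, h.Qf_norm, h.Qf_norm] at h1
  obtain ⟨a, ha⟩ := dvd_sqNorm (mem_LL.1 v.2)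
  obtain ⟨b, hb⟩ := dvd_sqNorm (mem_LL.1 w.2)
  obtain ⟨c, hc⟩ := dvd8 v w
  have e1 : Cfsg.sqNorm ((v + w : LL) : Cfsg.GolayPt → ℤ) / 16 = a + b + c := by
    rw [AddSubgroup.coe_add, sqNorm_add, ha, hb, hc]; omega
  have e2 : Cfsg.sqNorm (v : Cfsg.GolayPt → ℤ) / 16 = a := by omega
  have e3 : Cfsg.sqNorm (w : Cfsg.GolayPt → ℤ) / 16 = b := by omega
  rw [e1, e2, e3] at h1
  push_cast at h1
  have h2 : (c : ZMod 2) = cx q r := add_left_cancel h1
  have h3 : (16 : ℤ) ∣ Cfsg.dotInt (v : Cfsg.GolayPt → ℤ) (w : Cfsg.GolayPt → ℤ) ↔ (2 : ℤ) ∣ c := by rw [hc]; omega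
  have h4 : (c : ZMod 2) = 0 ↔ (2 : ℤ) ∣ c := ZMod.intCast_zmod_eq_zero_iff_dvd c 2
  rw [h3, ← h4, h2, cx]
  by_cases e : q * r = r * q
  · simp [e]
  · simp [e]

/-- short representatives -/
theorem rep (h : MT Q z R π) {q : G} (hq : q ∈ Q) (h1 : q ≠ 1) (hz : q ≠ z) :
    ∃ v : LL, R v q ∧ (Cfsg.sqNorm (v : Cfsg.GolayPt → ℤ) = 32 ∨ Cfsg.sqNorm (v : Cfsg.GolayPt → ℤ) = 48 ∨
      Cfsg.sqNorm (v : Cfsg.GolayPt → ℤ) = 64) := by
  obtain ⟨v, hv⟩ := h.Rex' q hq
  obtain ⟨y, hy, hn, u, hu, huv⟩ := Cfsg.Agent.S1570.result v v.2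
  have e1 : v = (⟨y, hy⟩ : LL) + (⟨u, hu⟩ + ⟨u, hu⟩) := by
    apply Subtype.ext
    change (v : Cfsg.GolayPt → ℤ) = y + (u + u)
    rw [← two_nsmul, ← huv]; abel
  have e2 : (⟨y, hy⟩ : LL) = v + (-⟨u, hu⟩ + -⟨u, hu⟩) := by rw [e1]; abel
  have hR := h.Rcos' hv e2
  refine ⟨⟨y, hy⟩, hR, ?_⟩
  have hy0 : y ≠ 0 := by
    rintro rfl
    have h3 : R 0 q := hR
    have h4 : R 0 1 := (h.R0 0).2 ⟨0, (add_zero _).symm⟩
    rcases h.R2 _ _ _ h4 h3 with h5 | h5
    · exact h1 h5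
    · exact hz (by rw [h5, mul_one])
  have h3 := min_norm (mem_LL.1 hy) hy0
  have h4 := dvd_sqNorm (mem_LL.1 hy)
  change Cfsg.sqNorm y = 32 ∨ Cfsg.sqNorm y = 48 ∨ Cfsg.sqNorm y = 64
  omega

theorem ne_of (h : MT Q z R π) {v : LL} {q : G} (hq : R v q) (h0 : Cfsg.sqNorm (v : Cfsg.GolayPt → ℤ) = 32 ∨
    Cfsg.sqNorm (v : Cfsg.GolayPt → ℤ) = 48 ∨ Cfsg.sqNorm (v : Cfsg.GolayPt → ℤ) = 64) : q ≠ 1 ∧ q ≠ z := by
  have hnot : ¬ ∃ u, v = u + u := by
    rintro ⟨u, rfl⟩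
    rw [AddSubgroup.coe_add, sqNorm_add, ← sqNorm_dot] at h0
    have h1 : (u : Cfsg.GolayPt → ℤ) ≠ 0 := by
      intro hu
      have : Cfsg.sqNorm (u : Cfsg.GolayPt → ℤ) = 0 := by rw [hu]; simp [Cfsg.sqNorm]
      omega
    have h2 := min_norm (mem_LL.1 u.2) h1
    omega
  constructor
  · rintro rfl
    exact hnot ((h.R0 v).1 hq)
  · rintro rfl
    have := h.Rz _ _ hq
    rw [h.zz] at this
    exact hnot ((h.R0 v).1 this)

/-- conjugacy in the centralizer -/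
theorem conj_of (h : MT Q z R π) {v w : LL} {q r : G} (hq : R v q) (hr : R w r) (g : Co0) (hg : g • v = w) (hr1 : r ≠ 1)
    (hrz : r ≠ z) : ∃ c : centralizer ({z} : Set G), π c = (g : Co0 ⧸ center Co0) ∧ (c : G) * q * (c : G)⁻¹ = r := by
  obtain ⟨c, hc⟩ := h.exists_K g
  have h1 := h.RK c g hc v q hq
  rw [hg] at h1
  rcases h.R2 _ _ _ hr h1 with h2 | h2
  · exact ⟨c, hc, h2⟩
  · obtain ⟨e, he, hec⟩ := h.noncentral (h.Rmem _ _ hr) hr1 hrz
    have heC : e ∈ centralizer ({z} : Set G) := mem_centralizer_singleton_iff.2 (h.zc e he)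
    refine ⟨⟨e, heC⟩ * c, ?_, ?_⟩
    · rw [map_mul, (h.ker ⟨e, heC⟩).2 he, one_mul, hc]
    · change (e * c) * q * (e * c)⁻¹ = r
      have e1 : (e * (c : G)) * q * (e * c)⁻¹ = e * ((c : G) * q * (c : G)⁻¹) * e⁻¹ := by group
      have hez := h.zc e he
      rw [e1, h2]
      calc e * (z * r) * e⁻¹ = (e * z) * r * e⁻¹ := by group
        _ = z * (e * r) * e⁻¹ := by rw [hez]; group
        _ = (z * z) * r := by rw [hec]; group
        _ = r := by rw [h.zz, one_mul]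

end MT

end CfsgLib.MT
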