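import Cfsg.Statements.S5592
import Mathlib
import Cfsg.Agent.LibCoD

set_option autoImplicit false
open Cfsg

namespace Cfsg.Agent.S5592

/-- In the Leech lattice (integer coordinates, sum of squares equal to 8 times the customary norm, so the shortest non-zero vectors have sum of squares 32): if two distinct vectors of sum of squares at most 64 are congruent modulo twice the lattice, then either they are negatives of each other, or both have sum of squares 64 and they are orthogonal. -/
theorem result (x y : Cfsg.GolayPt → ℤ) (hx : x ∈ Cfsg.leechLattice) (hy : y ∈ Cfsg.leechLattice) (hxy : x ≠ y) (hxn : Cfsg.sqNorm x ≤ 64) (hyn : Cfsg.sqNorm y ≤ 64) (hc : (∃ z ∈ Cfsg.leechLattice, x - y = 2 • z)) :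
    x = -y ∨ (Cfsg.sqNorm x = 64 ∧ Cfsg.sqNorm y = 64 ∧ Cfsg.dotInt x y = 0) := by
  rw [CfsgLib.Co.mem_LL] at hx hy
  obtain ⟨z, hz, hz'⟩ := hc
  rw [CfsgLib.Co.mem_LL] at hz
  by_cases h0 : x = -y
  · exact Or.inl h0
  right
  have e1 : x - y = z + z := by rw [hz', two_nsmul]
  have e2 : x + y = (z + y) + (z + y) := by
    have : x = y + (z + z) := by rw [← e1]; abel
    rw [this]; abel
  have z0 : z ≠ 0 := by
    rintro rfl
    exact hxy (sub_eq_zero.1 (by rw [e1, add_zero]))
  have z1 : z + y ≠ 0 := by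
    intro h
    exact h0 (eq_neg_of_add_eq_zero_left (by rw [e2, h, add_zero]))
  have m1 := CfsgLib.Leech.min_norm hz z0
  have m2 := CfsgLib.Leech.min_norm (CfsgLib.Leech.Lam.add_mem hz hy) z1
  have n1 := CfsgLib.Co.sqNorm_sub x y
  have n2 := CfsgLib.Co.sqNorm_add x y
  rw [e1, CfsgLib.Co.sqNorm_add, ← CfsgLib.Co.sqNorm_dot] at n1
  rw [e2, CfsgLib.Co.sqNorm_add, ← CfsgLib.Co.sqNorm_dot] at n2
  refine ⟨?_, ?_, ?_⟩ <;> omega

end Cfsg.Agent.S5592
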