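import Cfsg.Agent.EqBase
import Mathlib
import Cfsg.Agent.LibMTA
import Cfsg.Agent.LibCoH
import Cfsg.Agent.S5551

/-!
Conjugates of the central involution.
-/

set_option autoImplicit false
set_option linter.constructorNameAsVariable false

namespace CfsgLib.MT

open Cfsg CfsgLib.Co CfsgLib.Leech CfsgLib.LargeExtraH28 Subgroup MulAction

variable {G : Type*} [Group G]

/-- the automorphisms induced by a subgroup -/
def NB {z : G} (π : centralizer ({z} : Set G) →* Co0 ⧸ center Co0) (P : Subgroup G) : Subgroup Co0 :=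
  ((P.subgroupOf (centralizer ({z} : Set G))).map π).comap (QuotientGroup.mk' (center Co0))

theorem mem_NB {z : G} {π : centralizer ({z} : Set G) →* Co0 ⧸ center Co0} {P : Subgroup G} {n : Co0} :
    n ∈ NB π P ↔ ∃ c : centralizer ({z} : Set G), (c : G) ∈ P ∧ π c = (n : Co0 ⧸ center Co0) := Iff.rfl

/-- the stabilizer of a class modulo two -/
def Sv (v : LL) : Subgroup Co0 where
  carrier := {g | ∃ u, g • v = v + (u + u)}
  one_mem' := ⟨0, by rw [one_smul]; simp⟩
  mul_mem' := by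
    rintro g k ⟨u, hu⟩ ⟨w, hw⟩
    exact ⟨u + g • w, by rw [mul_smul, hw, act_add, act_add, hu]; abel⟩
  inv_mem' := by
    rintro g ⟨u, hu⟩
    refine ⟨-(g⁻¹ • u), ?_⟩
    have : g⁻¹ • (g • v) = g⁻¹ • v + (g⁻¹ • u + g⁻¹ • u) := by rw [hu, act_add, act_add]
    rw [inv_smul_smul] at this
    nth_rewrite 2 [this]
    abel

theorem mem_Sv {v : LL} {g : Co0} : g ∈ Sv v ↔ ∃ u, g • v = v + (u + u) := Iff.rfl

theorem mk_eq_iff {a b : Co0} : (a : Co0 ⧸ center Co0) = (b : Co0 ⧸ center Co0) ↔ b = a ∨ b = a * negCo := by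
  rw [QuotientGroup.eq]
  constructor
  · intro h
    rcases center_cases h with h | h
    · exact Or.inl (inv_mul_eq_one.1 h).symm
    · exact Or.inr (by rw [← h, mul_inv_cancel_left])
  · rintro (rfl | rfl)
    · rw [inv_mul_cancel]; exact one_mem _
    · rw [inv_mul_cancel_left]; exact negCo_mem

theorem negCo_sq : negCo * negCo = 1 := by
  apply co_ext
  intro v
  rw [mul_smul, negCo_apply, negCo_apply, neg_neg, one_smul]

namespace MT

variable {Q : Subgroup G} {z : G} {R : LL → G → Prop} {π : centralizer ({z} : Set G) →* Co0 ⧸ center Co0}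

theorem fix_class (h : MT Q z R π) {v : LL} {x : G} (hx : R v x) {c : centralizer ({z} : Set G)} {g : Co0}
    (hc : π c = (g : Co0 ⧸ center Co0)) (hcx : (c : G) * x = x * c ∨ (c : G) * x = z * (x * c)) : g ∈ Sv v := by
  have h1 := h.RK c g hc v x hx
  have h2 : (c : G) * x * (c : G)⁻¹ = x ∨ (c : G) * x * (c : G)⁻¹ = z * x := by
    rcases hcx with e | e
    · left; rw [e]; group
    · right; rw [e]; group
  have h3 : R v ((c : G) * x * (c : G)⁻¹) := h.R2' hx h2
  exact h.Rcos h1 h3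

theorem exists_cent (h : MT Q z R π) {v : LL} {x : G} (hx : R v x) (x1 : x ≠ 1) (xz : x ≠ z) {g : Co0} (hg : g ∈ Sv v) :
    ∃ c : centralizer ({z} : Set G), π c = (g : Co0 ⧸ center Co0) ∧ (c : G) * x * (c : G)⁻¹ = x := by
  obtain ⟨u, hu⟩ := hg
  exact h.conj_of hx (h.Rcos' hx hu) g rfl x1 xz

theorem NB_le (h : MT Q z R π) {P : Subgroup G} {v : LL} {x : G} (hP : LSet P x) (hx : R v x) : NB π P ≤ Sv v := by
  rintro n ⟨c, hc, hcn⟩
  exact h.fix_class hx hcn (Or.inl (hP.zc _ hc))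

theorem NB_conj (h : MT Q z R π) {P : Subgroup G} {v : LL} {x : G} (hP : LSet P x) (hx : R v x) (xz : x ≠ z) {g n : Co0}
    (hg : g ∈ Sv v) (hn : n ∈ NB π P) : g * n * g⁻¹ ∈ NB π P := by
  obtain ⟨c, hc, hcx⟩ := h.exists_cent hx hP.z1 xz hg
  obtain ⟨b, hb, hbn⟩ := mem_NB.1 hn
  refine mem_NB.2 ⟨c * b * c⁻¹, ?_, ?_⟩
  · exact hP.NQ c (by rw [← mul_inv_eq_iff_eq_mul]; exact hcx) b hb
  · rw [map_mul, map_mul, map_inv, hc, hbn]; rfl

theorem NB_two (h : MT Q z R π) {P : Subgroup G} (hP : Nat.card P = 2 ^ 25) {n : Co0} (hn : n ∈ NB π P) : n ^ (2 ^ 26) = 1 := by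
  obtain ⟨b, hb, hbn⟩ := mem_NB.1 hn
  have h1 : (⟨(b : G), hb⟩ : P) ^ (2 ^ 25) = 1 := by rw [← hP]; exact pow_card_eq_one'
  have h2 : b ^ (2 ^ 25) = 1 := by
    apply Subtype.ext
    have := congrArg Subtype.val h1
    exact this
  have h3 : ((n ^ (2 ^ 25) : Co0) : Co0 ⧸ center Co0) = 1 := by
    rw [QuotientGroup.mk_pow, ← hbn, ← map_pow, h2, map_one]
  rw [QuotientGroup.eq_one_iff] at h3
  have h4 : n ^ (2 ^ 26) = n ^ (2 ^ 25) * n ^ (2 ^ 25) := by rw [← pow_add]; norm_num
  rcases center_cases h3 with h5 | h5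
  · rw [h4, h5, one_mul]
  · rw [h4, h5, negCo_sq]

/-- the conjugate is not contained -/
theorem not_le (_ : MT Q z R π) {P : Subgroup G} {x : G} (hP : LSet P x) (hc : Nat.card P = 2 ^ 25) (hpair : CfsgLib.LargePair2H28.CPair Q P z x)
    (hle : ∀ b ∈ P, b * z = z * b → b ∈ Q) : False := by
  -- an element of `P` outside `⟨z, x⟩` commuting with `z`
  have hsub : ∃ b ∈ P, b * z = z * b ∧ b ∉ closure ({z, x} : Set G) := by
    by_contra hcon
    push Not at hcon
    -- P is covered by two translates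
    obtain ⟨e, he, hez⟩ := hP.noncentral hpair.zP (fun h1 => hpair.hQ.z1 h1) (fun h1 => hpair.ne h1.symm)
    have hmem : ∀ p ∈ P, p ∈ ({1, z, x, z * x, e, z * e, x * e, z * x * e} : Set G) := by
      intro p hp
      have key : ∀ q ∈ P, q * z = z * q → q = 1 ∨ q = z ∨ q = x ∨ q = z * x := by
        intro q hq hqz
        have := hcon q hq hqz
        rwa [hpair.mem_V_iff] at this
      rcases hP.cm p hp z hpair.zP with h1 | h1
      · rcases key p hp h1 with r | r | r | r <;> rw [r] <;> simp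
      · have hpe : (p * e⁻¹) * z = z * (p * e⁻¹) := by
          have hpx := hP.zc p hp
          have h2 : e⁻¹ * z = (x * z) * e⁻¹ := by
            have hex := hP.zc e he
            have hxz := hpair.xz
            have h6 : e * (x * z) = z * e := by
              calc e * (x * z) = (e * x) * z := by group
                _ = x * (e * z) := by rw [hex]; group
                _ = (x * x) * (z * e) := by rw [hez]; group
                _ = z * e := by rw [hP.zz, one_mul]
            calc e⁻¹ * z = e⁻¹ * (z * e) * e⁻¹ := by group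
              _ = e⁻¹ * (e * (x * z)) * e⁻¹ := by rw [h6]
              _ = (x * z) * e⁻¹ := by group
          calc (p * e⁻¹) * z = p * (e⁻¹ * z) := by group
            _ = (p * x) * z * e⁻¹ := by rw [h2]; group
            _ = x * (p * z) * e⁻¹ := by rw [hpx]; group
            _ = (x * x) * (z * p) * e⁻¹ := by rw [h1]; group
            _ = z * (p * e⁻¹) := by rw [hP.zz]; group
        have hp' : p = (p * e⁻¹) * e := by group
        rcases key _ (mul_mem hp (inv_mem he)) hpe with r | r | r | r <;> rw [hp', r] <;> simp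
    have h1 : (P : Set G).ncard ≤ ({1, z, x, z * x, e, z * e, x * e, z * x * e} : Set G).ncard := Set.ncard_le_ncard hmem
    have h2 : ({1, z, x, z * x, e, z * e, x * e, z * x * e} : Set G).ncard ≤ 8 := by
      classical
      have : ({1, z, x, z * x, e, z * e, x * e, z * x * e} : Set G) = (({1, z, x, z * x, e, z * e, x * e, z * x * e} : Finset G) : Set G) := by simp
      rw [this, Set.ncard_coe_finset]
      exact (Finset.card_insert_le _ _).trans (Nat.succ_le_succ ((Finset.card_insert_le _ _).trans (Nat.succ_le_succ Finset.card_le_six)))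
    have h3 : (P : Set G).ncard = 2 ^ 25 := hc
    rw [h3] at h1
    omega
  obtain ⟨b, hb, hbz, hbV⟩ := hsub
  have hVP : closure ({z, x} : Set G) ≤ P := by
    rw [closure_le]
    rintro y (rfl | rfl)
    · exact hpair.zP
    · exact hP.zQ
  obtain ⟨e, he, hec, heb⟩ := hP.dc _ (subset_closure (Or.inr rfl)) hVP b hb hbV
  have hez : e * z = z * e := hec z (subset_closure (Or.inl rfl))
  have h1 := hle b hb hbz
  have h2 := hle e he hez
  have h3 := hpair.E_comm ⟨h2, he⟩ ⟨h1, hb⟩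
  rw [h3] at heb
  exact hP.z1 (mul_eq_right.1 heb.symm)

theorem pair_of (h : MT Q z R π) {g : G} (hx : g * z * g⁻¹ ∈ Q) (hne : g * z * g⁻¹ ≠ z) :
    CfsgLib.LargePair2H28.CPair Q (Q.map (MulAut.conj g).toMonoidHom) z (g * z * g⁻¹) :=
  CfsgLib.LargePair2H28.cpair_of h.toLSet hx hne

theorem card_conj (h : MT Q z R π) (g : G) : Nat.card (Q.map (MulAut.conj g).toMonoidHom) = 2 ^ 25 := by
  rw [← h.card]
  exact (Nat.card_congr (Q.equivMapOfInjective _ (MulAut.conj g).injective).toEquiv).symm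

theorem not_p2_stab (v : LL) (hv : Cfsg.sqNorm (v : Cfsg.GolayPt → ℤ) = 32) : ¬ IsPGroup 2 (stabilizer Co0 v) := by
  intro hp
  obtain ⟨n, hn⟩ := IsPGroup.iff_card.1 hp
  rw [card_Co2 v hv] at hn
  have h1 : 3 ∣ 2 ^ n := by rw [← hn]; norm_num
  have h2 := Nat.Prime.dvd_of_dvd_pow Nat.prime_three h1
  omega

theorem simple_stab (v : LL) (hv : Cfsg.sqNorm (v : Cfsg.GolayPt → ℤ) = 32) : IsSimpleGroup (stabilizer Co0 v) := (isCo2 v hv).1

/-- the conjugates are not of minimal type -/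
theorem not_min (h : MT Q z R π) {g : G} (hx : g * z * g⁻¹ ∈ Q) (hne : g * z * g⁻¹ ≠ z) {v : LL} (hv : R v (g * z * g⁻¹)) :
    Cfsg.sqNorm (v : Cfsg.GolayPt → ℤ) ≠ 32 := by
  intro hn
  have hpair := h.pair_of hx hne
  have hcard := h.card_conj g
  generalize hPP : Q.map (MulAut.conj g).toMonoidHom = P at hpair hcard
  generalize hxx : g * z * g⁻¹ = x at hpair hv hx hne
  have hP := hpair.hP
  have hpm : ∀ n ∈ Sv v, n • v = v ∨ n • v = -v := by
    rintro n ⟨u, hu⟩
    have hv0 : (v : Cfsg.GolayPt → ℤ) ≠ 0 := by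
      intro h0
      rw [h0] at hn
      simp [Cfsg.sqNorm] at hn
    have hn' : Cfsg.sqNorm ((n • v : LL) : Cfsg.GolayPt → ℤ) = 32 := by rw [act_norm, hn]
    have hv0' : ((n • v : LL) : Cfsg.GolayPt → ℤ) ≠ 0 := by
      intro h0
      rw [h0] at hn'
      simp [Cfsg.sqNorm] at hn'
    obtain ⟨-, h2⟩ := Cfsg.Agent.S5551.result (v : Cfsg.GolayPt → ℤ) ((n • v : LL) : Cfsg.GolayPt → ℤ) v.2 (n • v).2 hv0 hv0' (by rw [hn]; norm_num)
      (by rw [hn']; norm_num) ⟨((-u : LL) : Cfsg.GolayPt → ℤ), (-u).2, by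
        rw [hu]
        change (v : Cfsg.GolayPt → ℤ) - (v + (u + u)) = 2 • (-u)
        rw [two_nsmul]; abel⟩
    rcases h2 (by rw [hn]; norm_num) with h3 | h3
    · exact Or.inl (Subtype.ext h3)
    · exact Or.inr (Subtype.ext h3)
  have hsimp := simple_stab v hn
  let N1 : Subgroup (stabilizer Co0 v) := (NB π P).subgroupOf (stabilizer Co0 v)
  have hN1 : N1.Normal := by
    refine ⟨fun n hn' k => ?_⟩
    have hk : (k : Co0) ∈ Sv v := ⟨0, by rw [k.2]; simp⟩
    exact h.NB_conj hP hv hne hk hn'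
  have hbot : N1 = ⊥ := by
    rcases hsimp.eq_bot_or_eq_top_of_normal N1 hN1 with h1 | h1
    · exact h1
    · exfalso
      apply not_p2_stab v hn
      intro k
      have hk : k ∈ N1 := by rw [h1]; trivial
      exact ⟨26, Subtype.ext (h.NB_two hcard hk)⟩
  refine h.not_le hP hcard hpair ?_
  intro b hb hbz
  have hbC : b ∈ centralizer ({z} : Set G) := mem_centralizer_singleton_iff.2 hbz
  rw [← h.ker ⟨b, hbC⟩]
  obtain ⟨n, hn'⟩ := QuotientGroup.mk_surjective (π ⟨b, hbC⟩)
  have hnB : n ∈ NB π P := mem_NB.2 ⟨⟨b, hbC⟩, hb, hn'.symm⟩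
  have hnB' : n * negCo ∈ NB π P := mem_NB.2 ⟨⟨b, hbC⟩, hb, hn'.symm.trans (mk_eq_iff.2 (Or.inr rfl))⟩
  have key : ∀ m ∈ NB π P, m • v = v → m = 1 := by
    intro m hm hmv
    have : (⟨m, hmv⟩ : stabilizer Co0 v) ∈ N1 := hm
    rw [hbot, mem_bot] at this
    exact congrArg Subtype.val this
  rcases hpm n (h.NB_le hP hv hnB) with h1 | h1
  · rw [← hn', key n hnB h1]; rfl
  · have h2 : (n * negCo) • v = v := by
      rw [mul_smul, negCo_apply, act_neg, h1, neg_neg]
    have h3 := key _ hnB' h2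
    rw [← hn', mk_eq_iff.2 (Or.inr rfl : n * negCo = n ∨ n * negCo = n * negCo), h3]; rfl

end MT

end CfsgLib.MT
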