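import Cfsg.Agent.EqBase
import Mathlib
import Cfsg.Agent.LibMTB

/-!
Orbits on the involutions.
-/

set_option autoImplicit false
set_option linter.constructorNameAsVariable false

namespace CfsgLib.MT

open Cfsg CfsgLib.Co CfsgLib.Leech CfsgLib.LargeExtraH28 Subgroup MulAction

variable {G : Type*} [Group G]

namespace MT

variable {Q : Subgroup G} {z : G} {R : LL → G → Prop} {π : centralizer ({z} : Set G) →* Co0 ⧸ center Co0}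

theorem sq_conj (h : MT Q z R π) (g : G) : (g * z * g⁻¹) * (g * z * g⁻¹) = 1 := by
  calc (g * z * g⁻¹) * (g * z * g⁻¹) = g * (z * z) * g⁻¹ := by group
    _ = 1 := by rw [h.zz]; group

theorem conj_ne_one (h : MT Q z R π) (g : G) : g * z * g⁻¹ ≠ 1 := by
  intro e
  apply h.z1
  calc z = g⁻¹ * (g * z * g⁻¹) * g := by group
    _ = 1 := by rw [e]; group

theorem rep_conj (h : MT Q z R π) {g : G} (hx : g * z * g⁻¹ ∈ Q) (hne : g * z * g⁻¹ ≠ z) :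
    ∃ v : LL, R v (g * z * g⁻¹) ∧ Cfsg.sqNorm (v : Cfsg.GolayPt → ℤ) = 64 := by
  obtain ⟨v, hv, hn⟩ := h.rep hx (h.conj_ne_one g) hne
  refine ⟨v, hv, ?_⟩
  have h1 := h.not_min hx hne hv
  have h2 := (h.sq_iff hv).1 (h.sq_conj g)
  omega

theorem tr64 {v w : LL} (hv : Cfsg.sqNorm (v : Cfsg.GolayPt → ℤ) = 64) (hw : Cfsg.sqNorm (w : Cfsg.GolayPt → ℤ) = 64) :
    ∃ g : Co0, g • v = w := by
  obtain ⟨g, hg⟩ : v ∈ MulAction.orbit ↥Cfsg.Co0 (e8 none) := by rw [orbit_e8]; exact hv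
  obtain ⟨g', hg'⟩ : w ∈ MulAction.orbit ↥Cfsg.Co0 (e8 none) := by rw [orbit_e8]; exact hw
  refine ⟨g' * g⁻¹, ?_⟩
  have h1 : g • e8 none = v := hg
  have h2 : g' • e8 none = w := hg'
  rw [← h1, ← h2, mul_smul, inv_smul_smul]

theorem tr32' {v w : LL} (hv : Cfsg.sqNorm (v : Cfsg.GolayPt → ℤ) = 32) (hw : Cfsg.sqNorm (w : Cfsg.GolayPt → ℤ) = 32) :
    ∃ g : Co0, g • v = w := by
  obtain ⟨g, hg⟩ := tr32 v hv
  obtain ⟨g', hg'⟩ := tr32 w hw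
  refine ⟨g'⁻¹ * g, ?_⟩
  rw [mul_smul, inv_smul_eq_iff]
  exact Subtype.ext (hg.trans hg'.symm)

/-- conjugacy of the elements of the same type -/
theorem conj_64 (h : MT Q z R π) {v w : LL} {q r : G} (hq : R v q) (hr : R w r) (hv : Cfsg.sqNorm (v : Cfsg.GolayPt → ℤ) = 64)
    (hw : Cfsg.sqNorm (w : Cfsg.GolayPt → ℤ) = 64) : ∃ c ∈ centralizer ({z} : Set G), c * q * c⁻¹ = r := by
  obtain ⟨g, hg⟩ := tr64 hv hw
  obtain ⟨h1, h2⟩ := h.ne_of hr (Or.inr (Or.inr hw))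
  obtain ⟨c, -, hc⟩ := h.conj_of hq hr g hg h1 h2
  exact ⟨c, c.2, hc⟩

theorem conj_32 (h : MT Q z R π) {v w : LL} {q r : G} (hq : R v q) (hr : R w r) (hv : Cfsg.sqNorm (v : Cfsg.GolayPt → ℤ) = 32)
    (hw : Cfsg.sqNorm (w : Cfsg.GolayPt → ℤ) = 32) : ∃ c ∈ centralizer ({z} : Set G), c * q * c⁻¹ = r := by
  obtain ⟨g, hg⟩ := tr32' hv hw
  obtain ⟨h1, h2⟩ := h.ne_of hr (Or.inl hw)
  obtain ⟨c, -, hc⟩ := h.conj_of hq hr g hg h1 h2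
  exact ⟨c, c.2, hc⟩

theorem isConj_of_64 (h : MT Q z R π) {g : G} (hx : g * z * g⁻¹ ∈ Q) (hne : g * z * g⁻¹ ≠ z) {v : LL} {q : G} (hq : R v q)
    (hv : Cfsg.sqNorm (v : Cfsg.GolayPt → ℤ) = 64) : IsConj z q := by
  obtain ⟨w, hw, hn⟩ := h.rep_conj hx hne
  obtain ⟨c, -, hc⟩ := h.conj_64 hw hq hn hv
  rw [isConj_iff]
  refine ⟨c * g, ?_⟩
  rw [← hc]; group

theorem rep_nc (h : MT Q z R π) {g : G} (hx : g * z * g⁻¹ ∈ Q) (hne : g * z * g⁻¹ ≠ z) {s : G} (hs : s ∈ Q) (hs2 : orderOf s = 2)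
    (hsz : ¬ IsConj z s) : ∃ v : LL, R v s ∧ Cfsg.sqNorm (v : Cfsg.GolayPt → ℤ) = 32 := by
  have s1 : s ≠ 1 := by rintro rfl; simp at hs2
  have s2 : s ≠ z := by rintro rfl; exact hsz (IsConj.refl _)
  obtain ⟨v, hv, hn⟩ := h.rep hs s1 s2
  refine ⟨v, hv, ?_⟩
  have h2 : s * s = 1 := by
    have := pow_orderOf_eq_one s
    rwa [hs2, sq] at this
  have h3 := (h.sq_iff hv).1 h2
  have h4 : Cfsg.sqNorm (v : Cfsg.GolayPt → ℤ) ≠ 64 := fun e => hsz (h.isConj_of_64 hx hne hv e)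
  omega

end MT

/-- the conjugate supplied by the setting -/
theorem exists_conj {z : G} {Q : Subgroup (centralizer ({z} : Set G))} (hS : IsExtraspecialCentralizerSetting z Q 12) :
    ∃ g : G, g * z * g⁻¹ ∈ Q.map (centralizer ({z} : Set G)).subtype ∧ g * z * g⁻¹ ≠ z := by
  obtain ⟨-, -, -, -, g, ⟨hq, hq'⟩, hne⟩ := hS
  exact ⟨g, ⟨⟨_, hq⟩, hq', rfl⟩, hne⟩

theorem mem_map_of {z : G} {Q : Subgroup (centralizer ({z} : Set G))} {s : G}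
    (hsQ : ∃ hsc : s ∈ centralizer ({z} : Set G), (⟨s, hsc⟩ : centralizer ({z} : Set G)) ∈ Q) :
    s ∈ Q.map (centralizer ({z} : Set G)).subtype := by
  obtain ⟨h1, h2⟩ := hsQ
  exact ⟨⟨s, h1⟩, h2, rfl⟩

end CfsgLib.MT
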