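import Cfsg.Agent.EqBase
import Mathlib
import Cfsg.Agent.LibMTC

/-!
The intersection with a conjugate.
-/

set_option autoImplicit false
set_option linter.constructorNameAsVariable false

namespace CfsgLib.MT

open Cfsg CfsgLib.Co CfsgLib.Leech CfsgLib.LargeExtraH28 Subgroup MulAction

/-! ### the frame stabilizer as an extension -/

/-- sign changes -/
def sgn : Multiplicative golayCode →* Co0 where
  toFun c := mono 1 M24.one_mem (Multiplicative.toAdd c : golayCode) (Multiplicative.toAdd c).2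
  map_one' := by
    apply co_ext; intro v; apply Subtype.ext; funext i
    rw [mono_apply, one_smul]
    change (1 - 2 * lf (0 : ZMod 2)) * _ = _
    rw [lf_zero]; simp
  map_mul' c d := by
    apply co_ext; intro v; apply Subtype.ext; funext i
    rw [mul_smul, mono_apply, mono_apply, mono_apply]
    have key : ∀ a b : ZMod 2, (1 - 2 * lf (a + b)) = (1 - 2 * lf a) * (1 - 2 * lf b) := by decide
    change (1 - 2 * lf (((Multiplicative.toAdd c : golayCode) : GolayPt → ZMod 2) i + ((Multiplicative.toAdd d : golayCode) : GolayPt → ZMod 2) i)) * _ = _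
    rw [key]
    simp only [Equiv.Perm.one_apply]
    ring

theorem sgn_apply (c : Multiplicative golayCode) (v : LL) (i : GolayPt) :
    ((sgn c • v : LL) : E) i = (1 - 2 * lf (((Multiplicative.toAdd c : golayCode) : GolayPt → ZMod 2) i)) * (v : E) i := rfl

theorem mono_dec {σ : Equiv.Perm GolayPt} (hσ : σ ∈ M24) {c : GolayPt → ZMod 2} (hc : c ∈ golayCode) :
    mono σ hσ c hc = sgn (Multiplicative.ofAdd ⟨c, hc⟩) * pmHom (⟨σ, hσ⟩⁻¹ : M24) := by
  apply co_ext; intro v; apply Subtype.ext; funext i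
  rw [mono_apply, mul_smul, sgn_apply, pmHom_apply, pm_apply]
  simp

theorem dec_mono (c : Multiplicative golayCode) (τ : M24) :
    sgn c * pmHom τ = mono (τ⁻¹ : M24) (τ⁻¹ : M24).2 (Multiplicative.toAdd c : golayCode) (Multiplicative.toAdd c).2 := by
  rw [mono_dec]
  congr 2

theorem dec_inj {c d : Multiplicative golayCode} {τ υ : M24} (h : sgn c * pmHom τ = sgn d * pmHom υ) : c = d ∧ τ = υ := by
  rw [dec_mono, dec_mono] at h
  obtain ⟨h1, h2⟩ := mono_inj h
  exact ⟨Multiplicative.toAdd.injective (Subtype.ext h2), inv_injective (Subtype.ext h1)⟩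

theorem exists_dec {g : Co0} (hg : g ∈ NN) : ∃ (c : Multiplicative golayCode) (τ : M24), g = sgn c * pmHom τ := by
  obtain ⟨σ, hσ, c, hc, rfl⟩ := exists_of_NN hg
  exact ⟨_, _, mono_dec hσ hc⟩

theorem dec_mem (c : Multiplicative golayCode) (τ : M24) : sgn c * pmHom τ ∈ NN := by
  rw [dec_mono]; exact mono_mem_NN _ _

theorem sgn_mem (c : Multiplicative golayCode) : sgn c ∈ NN := by
  have := dec_mem c 1
  rwa [map_one, mul_one] at this
theorem pm_mem (τ : M24) : pmHom τ ∈ NN := by
  have := dec_mem 1 τ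
  rwa [map_one, one_mul] at this

theorem pm_sgn (τ : M24) (c : Multiplicative golayCode) : ∃ d : Multiplicative golayCode, pmHom τ * sgn c = sgn d * pmHom τ := by
  obtain ⟨d, υ, h⟩ := exists_dec (mul_mem (pm_mem τ) (sgn_mem c))
  refine ⟨d, ?_⟩
  rw [h]
  congr 1
  -- compare the permutations
  have h1 : (pmHom τ * sgn c : Co0) = mono (τ⁻¹ : M24) (τ⁻¹ : M24).2
      (fun i => ((Multiplicative.toAdd c : golayCode) : GolayPt → ZMod 2) (((τ⁻¹ : M24) : Equiv.Perm GolayPt) i)) (comp_mem (τ⁻¹ : M24).2 (Multiplicative.toAdd c).2) := by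
    apply co_ext; intro v; apply Subtype.ext; funext i
    rw [mul_smul, pmHom_apply, pm_apply, sgn_apply, mono_apply]; rfl
  rw [h1, mono_dec] at h
  obtain ⟨-, h2⟩ := dec_inj h
  rw [← h2]
  congr 1

theorem exists_dec' (g : NN) : ∃ (τ : M24) (c : Multiplicative golayCode), (g : Co0) = sgn c * pmHom τ := by
  obtain ⟨c, τ, h⟩ := exists_dec g.2
  exact ⟨τ, c, h⟩

/-- the permutation part -/
noncomputable def rhoF (g : NN) : M24 := (exists_dec' g).choose

theorem rhoF_spec (g : NN) : ∃ c : Multiplicative golayCode, (g : Co0) = sgn c * pmHom (rhoF g) := (exists_dec' g).choose_spec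

/-- the projection to the permutation group -/
noncomputable def rho : NN →* M24 := MonoidHom.mk' rhoF (by
  intro a b
  obtain ⟨c, h1⟩ := rhoF_spec a
  obtain ⟨d, h2⟩ := rhoF_spec b
  obtain ⟨e, h3⟩ := rhoF_spec (a * b)
  obtain ⟨d', hd'⟩ := pm_sgn (rhoF a) d
  have h4 : ((a * b : NN) : Co0) = sgn (c * d') * pmHom (rhoF a * rhoF b) := by
    rw [Subgroup.coe_mul, h1, h2, map_mul, map_mul]
    calc sgn c * pmHom (rhoF a) * (sgn d * pmHom (rhoF b)) = sgn c * (pmHom (rhoF a) * sgn d) * pmHom (rhoF b) := by group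
      _ = _ := by rw [hd']; group
  rw [h3] at h4
  exact (dec_inj h4).2)

theorem rho_eq {g : NN} {c : Multiplicative golayCode} {τ : M24} (h : (g : Co0) = sgn c * pmHom τ) : rho g = τ := by
  obtain ⟨d, h1⟩ := rhoF_spec g
  exact (dec_inj (h1.symm.trans h)).2

theorem rho_pm (τ : M24) : rho ⟨pmHom τ, pm_mem τ⟩ = τ := rho_eq (c := 1) (by rw [map_one, one_mul])

theorem rho_surj : Function.Surjective rho := fun τ => ⟨_, rho_pm τ⟩

theorem sgn_inj : Function.Injective sgn := by
  intro c d h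
  exact (dec_inj (τ := 1) (υ := 1) (by rw [h])).1

theorem card_sgn : Nat.card sgn.range = 4096 := by
  rw [← Nat.card_congr (MonoidHom.ofInjective sgn_inj).toEquiv]
  exact card_code

/-- normal 2-subgroups of the frame stabilizer -/
theorem two_sub {N : Subgroup Co0} (h1 : N ≤ NN) (h2 : ∀ g ∈ NN, ∀ n ∈ N, g * n * g⁻¹ ∈ N) {k : ℕ}
    (h3 : ∀ n ∈ N, n ^ (2 ^ k) = 1) : N ≤ sgn.range := by
  let D : Subgroup M24 := (N.subgroupOf NN).map rho
  have hN : (N.subgroupOf NN).Normal := ⟨fun n hn g => h2 g g.2 n hn⟩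
  have hD : D.Normal := hN.map _ rho_surj
  have hp : ∀ σ ∈ D, σ ^ (2 ^ k) = 1 := by
    rintro σ ⟨n, hn, rfl⟩
    rw [← map_pow]
    have : n ^ (2 ^ k) = 1 := Subtype.ext (h3 n hn)
    rw [this, map_one]
  have hbot : D = ⊥ := by
    rcases CfsgLib.M24.simple_M24.eq_bot_or_eq_top_of_normal D hD with h | h
    · exact h
    · exfalso
      have h4 : IsPGroup 2 M24 := fun σ => ⟨k, hp σ (by rw [h]; trivial)⟩
      obtain ⟨n, hn⟩ := IsPGroup.iff_card.1 h4
      rw [Cfsg.Agent.S0364.result] at hn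
      have h5 : 3 ∣ 2 ^ n := by rw [← hn]; norm_num
      have h6 := Nat.Prime.dvd_of_dvd_pow Nat.prime_three h5
      omega
  intro n hn
  obtain ⟨c, τ, h⟩ := exists_dec (h1 hn)
  have h4 : rho ⟨n, h1 hn⟩ = τ := rho_eq h
  have h5 : rho ⟨n, h1 hn⟩ ∈ D := ⟨⟨n, h1 hn⟩, hn, rfl⟩
  rw [hbot, mem_bot, h4] at h5
  rw [h, h5, map_one, mul_one]
  exact ⟨c, rfl⟩

theorem Sv_e8 : Sv (e8 none) = NN := by
  ext g
  constructor
  · rintro ⟨u, hu⟩
    have hz : ∀ i, ∃ w : LL, e8 i - e8 none = w + w := by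
      intro i
      refine ⟨PL i none (Or.inl rfl) (Or.inr rfl), Subtype.ext ?_⟩
      change (Pi.single i 8 : E) - Pi.single none 8 = P i none 4 (-4) + P i none 4 (-4)
      funext k
      rw [Pi.sub_apply, Pi.add_apply, P_apply, Pi.single_apply, Pi.single_apply]
      split_ifs <;> omega
    obtain ⟨σ, hσ, c, hc, rfl⟩ := exists_mono_of (g := g) (fun i => by
      obtain ⟨w, hw⟩ := hz i
      have h1 : g • e8 i - e8 none = (g • w + u) + (g • w + u) := by
        have h2 : g • e8 i - g • e8 none = g • w + g • w := by rw [← act_sub, hw, act_add]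
        calc g • e8 i - e8 none = (g • e8 i - g • e8 none) + (g • e8 none - e8 none) := by abel
          _ = _ := by rw [h2, hu]; abel
      exact frame_cong (mem_LL.1 (g • w + u).2) (by rw [act_norm, e8_norm]) (congrArg Subtype.val h1))
    exact mono_mem_NN _ _
  · intro hg
    obtain ⟨j, s, hs, h⟩ := hg (e8 none) ⟨none, 8, Or.inl rfl, rfl⟩
    rcases hs with rfl | rfl
    · refine ⟨PL j none (Or.inl rfl) (Or.inr rfl), Subtype.ext ?_⟩
      rw [h]
      change (Pi.single j 8 : E) = Pi.single none 8 + (P j none 4 (-4) + P j none 4 (-4))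
      funext k
      rw [Pi.add_apply, Pi.add_apply, P_apply, Pi.single_apply, Pi.single_apply]
      split_ifs <;> omega
    · refine ⟨PL j none (Or.inr rfl) (Or.inr rfl), Subtype.ext ?_⟩
      rw [h]
      change (Pi.single j (-8) : E) = Pi.single none 8 + (P j none (-4) (-4) + P j none (-4) (-4))
      funext k
      rw [Pi.add_apply, Pi.add_apply, P_apply, Pi.single_apply, Pi.single_apply]
      split_ifs <;> omega

theorem Sv_conj {v w : LL} {k : Co0} (hk : k • v = w) {g : Co0} : g ∈ Sv v ↔ k * g * k⁻¹ ∈ Sv w := by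
  have key : ∀ {v w : LL} {k : Co0} (_ : k • v = w) {g : Co0}, g ∈ Sv v → k * g * k⁻¹ ∈ Sv w := by
    rintro v w k rfl g ⟨u, hu⟩
    exact ⟨k • u, by rw [mul_smul, mul_smul, inv_smul_smul, hu, act_add, act_add]⟩
  constructor
  · exact key hk
  · intro h
    have := key (v := w) (w := v) (k := k⁻¹) (by rw [← hk, inv_smul_smul]) h
    have e : k⁻¹ * (k * g * k⁻¹) * k⁻¹⁻¹ = g := by group
    rwa [e] at this

/-- splitting the order along a homomorphism -/
theorem card_split {A B : Type*} [Group A] [Group B] [Finite A] (f : A →* B) (H : Subgroup A) :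
    Nat.card (H.map f) * Nat.card ↥(H ⊓ f.ker) = Nat.card H := by
  have h1 : (f.comp H.subtype).ker.index = Nat.card (f.comp H.subtype).range := index_ker _
  have h2 : (f.comp H.subtype).range = H.map f := by rw [MonoidHom.range_comp, H.range_subtype]
  have h3 : Nat.card (f.comp H.subtype).ker = Nat.card ↥(H ⊓ f.ker) := by
    have e1 : (f.comp H.subtype).ker = (H ⊓ f.ker).subgroupOf H := by
      ext x
      rw [MonoidHom.mem_ker, mem_subgroupOf, mem_inf, MonoidHom.mem_ker]
      exact ⟨fun h => ⟨x.2, h⟩, fun h => h.2⟩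
    rw [e1]
    exact Nat.card_congr (subgroupOfEquivOfLe inf_le_left).toEquiv
  rw [← h2, ← h1, ← h3]
  exact index_mul_card _

variable {G : Type*} [Group G]

/-- abelian subgroups -/
theorem card_abelian [Finite G] {Q : Subgroup G} {z : G} (hE : IsExtraspecial 2 Q) (hQ : Nat.card Q = 2 ^ 25) (hz : z ∈ Q)
    (hz1 : z ≠ 1) (hzc : ∀ q ∈ Q, q * z = z * q) {A : Subgroup G}
    (hA : A ≤ Q) (hzA : z ∈ A) (hab : ∀ a ∈ A, ∀ b ∈ A, a * b = b * a) : Nat.card A ≤ 2 ^ 13 := by
  have : Fact (Nat.Prime 2) := ⟨Nat.prime_two⟩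
  let A' : Subgroup Q := A.subgroupOf Q
  have hc := center_map_eq hE hz hz1 hzc
  have hcA : center Q ≤ A' := by
    intro x hx
    rcases (hc x).1 hx with h | h
    · rw [mem_subgroupOf, h]; exact one_mem _
    · rw [mem_subgroupOf, h]; exact hzA
  have h1 := CfsgLib.ExtraH28.index_centralizer hE A' hcA
  have h2 : A' ≤ centralizer (A' : Set Q) := by
    intro a ha
    rw [mem_centralizer_iff]
    intro b hb
    exact Subtype.ext (hab b hb a ha)
  have h3 : Nat.card A' ≤ Nat.card (centralizer (A' : Set Q)) := Nat.card_le_card_of_injective _ (inclusion_injective h2)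
  have h4 : (centralizer (A' : Set Q)).index * Nat.card (centralizer (A' : Set Q)) = 2 ^ 25 := by
    rw [index_mul_card, hQ]
  have h5 : (center Q).relIndex A' * 2 = Nat.card A' := by
    have h6 : (center Q).relIndex A' * Nat.card ((center Q).subgroupOf A') = Nat.card A' := index_mul_card _
    have h7 : Nat.card ((center Q).subgroupOf A') = 2 := by
      rw [Nat.card_congr (subgroupOfEquivOfLe hcA).toEquiv]; exact hE.2
    rwa [h7] at h6
  have h8 : Nat.card A' = Nat.card A := Nat.card_congr (subgroupOfEquivOfLe hA).toEquiv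
  rw [h1] at h4
  rw [← h8]
  by_contra hcon
  push Not at hcon
  have h9 : 2 ^ 12 < (center Q).relIndex A' := by omega
  have h10 : 2 ^ 12 * 2 ^ 13 < (center Q).relIndex A' * Nat.card (centralizer (A' : Set Q)) :=
    Nat.mul_lt_mul_of_lt_of_le h9 (by omega) (by norm_num)
  rw [h4] at h10
  norm_num at h10

end CfsgLib.MT
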