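import Cfsg.Agent.EqBase
import Mathlib
import Cfsg.Agent.LibMTD

/-!
The intersection with a conjugate.
-/

set_option autoImplicit false
set_option linter.constructorNameAsVariable false

namespace CfsgLib.MT

open Cfsg CfsgLib.Co CfsgLib.Leech CfsgLib.LargeExtraH28 Subgroup MulAction

variable {G : Type*} [Group G]

namespace MT

variable {Q : Subgroup G} {z : G} {R : LL → G → Prop} {π : centralizer ({z} : Set G) →* Co0 ⧸ center Co0}

theorem NB_le_sgn (h : MT Q z R π) {P : Subgroup G} {v : LL} {x : G} (hP : LSet P x) (hPc : Nat.card P = 2 ^ 25) (hx : R v x)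
    (xz : x ≠ z) {k : Co0} (hk : k • v = e8 none) : (NB π P).map (MulAut.conj k).toMonoidHom ≤ sgn.range := by
  refine two_sub (k := 26) ?_ ?_ ?_
  · rintro _ ⟨n, hn, rfl⟩
    rw [← Sv_e8]
    exact (Sv_conj hk).1 (h.NB_le hP hx hn)
  · rintro g hg _ ⟨n, hn, rfl⟩
    rw [← Sv_e8] at hg
    have h1 : k⁻¹ * g * k ∈ Sv v := by
      rw [Sv_conj hk]
      have e : k * (k⁻¹ * g * k) * k⁻¹ = g := by group
      rwa [e]
    refine ⟨(k⁻¹ * g * k) * n * (k⁻¹ * g * k)⁻¹, h.NB_conj hP hx xz h1 hn, ?_⟩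
    change k * _ * k⁻¹ = g * (k * n * k⁻¹) * g⁻¹
    group
  · rintro _ ⟨n, hn, rfl⟩
    rw [← map_pow, h.NB_two hPc hn, map_one]

theorem card_NB [Finite G] (_ : MT Q z R π) (P : Subgroup G) :
    Nat.card ((P.subgroupOf (centralizer ({z} : Set G))).map π) * 2 = Nat.card (NB π P) := by
  have h1 := card_split (QuotientGroup.mk' (center Co0)) (NB π P)
  have h2 : (NB π P).map (QuotientGroup.mk' (center Co0)) = (P.subgroupOf (centralizer ({z} : Set G))).map π :=
    map_comap_eq_self_of_surjective (QuotientGroup.mk'_surjective _) _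
  have h3 : NB π P ⊓ (QuotientGroup.mk' (center Co0)).ker = center Co0 := by
    rw [QuotientGroup.ker_mk']
    apply inf_eq_right.2
    intro c hc
    refine mem_NB.2 ⟨1, one_mem _, ?_⟩
    rw [map_one]; exact ((QuotientGroup.eq_one_iff _).2 hc).symm
  rw [h2, h3, card_center] at h1
  exact h1

theorem card_inter [Finite G] (h : MT Q z R π) (P : Subgroup G) :
    Nat.card ((P.subgroupOf (centralizer ({z} : Set G))).map π) * Nat.card ↥(Q ⊓ P) =
      Nat.card (P.subgroupOf (centralizer ({z} : Set G))) := by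
  have h1 := card_split π (P.subgroupOf (centralizer ({z} : Set G)))
  have h2 : P.subgroupOf (centralizer ({z} : Set G)) ⊓ π.ker = (Q ⊓ P).subgroupOf (centralizer ({z} : Set G)) := by
    ext c
    rw [mem_inf, MonoidHom.mem_ker, mem_subgroupOf, mem_subgroupOf, mem_inf, h.ker]
    exact and_comm
  have h3 : Q ⊓ P ≤ centralizer ({z} : Set G) := fun q hq => mem_centralizer_singleton_iff.2 (h.zc q hq.1)
  rw [h2, Nat.card_congr (subgroupOfEquivOfLe h3).toEquiv] at h1
  exact h1

theorem card_cent [Finite G] {P : Subgroup G} {x : G} (hP : LSet P x) (hE : IsExtraspecial 2 P) (hPc : Nat.card P = 2 ^ 25)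
    (hz : z ∈ P) (hz1 : z ≠ 1) (hxz : z ≠ x) : Nat.card (P.subgroupOf (centralizer ({z} : Set G))) = 2 ^ 24 := by
  have : Fact (Nat.Prime 2) := ⟨Nat.prime_two⟩
  have hc := center_map_eq hE hP.zQ hP.z1 hP.zc
  have h1 : (⟨z, hz⟩ : P) ∉ center P := by
    intro h
    rcases (hc _).1 h with h2 | h2
    · exact hz1 h2
    · exact hxz h2
  have h2 := CfsgLib.ExtraH28.index_centralizer_singleton hE h1
  have h3 : (centralizer ({(⟨z, hz⟩ : P)} : Set P)).index * Nat.card (centralizer ({(⟨z, hz⟩ : P)} : Set P)) = 2 ^ 25 := by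
    rw [index_mul_card, hPc]
  have h4 : Nat.card (centralizer ({(⟨z, hz⟩ : P)} : Set P)) = Nat.card (P.subgroupOf (centralizer ({z} : Set G))) := by
    refine Nat.card_congr ⟨fun p => ⟨⟨p.1.1, ?_⟩, p.1.2⟩, fun c => ⟨⟨c.1.1, c.2⟩, ?_⟩, fun _ => rfl, fun _ => rfl⟩
    · rw [mem_centralizer_singleton_iff]
      exact congrArg Subtype.val (mem_centralizer_singleton_iff.1 p.2)
    · rw [mem_centralizer_singleton_iff]
      exact Subtype.ext (mem_centralizer_singleton_iff.1 c.1.2)
  rw [h2, h4] at h3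
  omega

/-- the main count -/
theorem inter [Finite G] (h : MT Q z R π) (hE : IsExtraspecial 2 Q) {g : G} (hx : g * z * g⁻¹ ∈ Q) (hne : g * z * g⁻¹ ≠ z) :
    Nat.card ↥(Q ⊓ Q.map (MulAut.conj g).toMonoidHom) = 2 ^ 13 ∧
    Nat.card (((Q.map (MulAut.conj g).toMonoidHom).subgroupOf (centralizer ({z} : Set G))).map π) = 2 ^ 11 ∧
    ∀ (v : LL) (k : Co0), R v (g * z * g⁻¹) → k • v = e8 none →
      (NB π (Q.map (MulAut.conj g).toMonoidHom)).map (MulAut.conj k).toMonoidHom = sgn.range := by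
  have : Fact (Nat.Prime 2) := ⟨Nat.prime_two⟩
  have hpair := h.pair_of hx hne
  have hcard := h.card_conj g
  have hEP : IsExtraspecial 2 (Q.map (MulAut.conj g).toMonoidHom) :=
    CfsgLib.ExtraH28.isExtraspecial_congr (Q.equivMapOfInjective _ (MulAut.conj g).injective) hE
  obtain ⟨v, hv, hn⟩ := h.rep_conj hx hne
  generalize Q.map (MulAut.conj g).toMonoidHom = P at hpair hcard hEP ⊢
  generalize g * z * g⁻¹ = x at hpair hv hx hne ⊢
  have c1 := h.card_NB P
  have c2 := h.card_inter P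
  have c3 := card_cent hpair.hP hEP hcard hpair.zP hpair.hQ.z1 hpair.ne.symm
  have c4 : Nat.card ↥(Q ⊓ P) ≤ 2 ^ 13 :=
    card_abelian hE h.card h.zQ h.z1 h.zc inf_le_left ⟨h.zQ, hpair.zP⟩ (fun a ha b hb => hpair.E_comm ha hb)
  have hle : ∀ (v : LL) (k : Co0), R v x → k • v = e8 none → (NB π P).map (MulAut.conj k).toMonoidHom ≤ sgn.range :=
    fun v k hv hk => h.NB_le_sgn hpair.hP hcard hv hne hk
  have hcm : ∀ k : Co0, Nat.card ((NB π P).map (MulAut.conj k).toMonoidHom) = Nat.card (NB π P) := fun k =>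
    (Nat.card_congr ((NB π P).equivMapOfInjective _ (MulAut.conj k).injective).toEquiv).symm
  have c5 : Nat.card (NB π P) ≤ 4096 := by
    obtain ⟨k, hk⟩ := tr64 hn (e8_norm none)
    rw [← hcm k, ← card_sgn]
    exact Nat.card_le_card_of_injective _ (inclusion_injective (hle v k hv hk))
  rw [c3] at c2
  have c6 : Nat.card ((P.subgroupOf (centralizer ({z} : Set G))).map π) ≤ 2048 := by omega
  have c7 : Nat.card ((P.subgroupOf (centralizer ({z} : Set G))).map π) = 2048 ∧ Nat.card ↥(Q ⊓ P) = 8192 := by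
    generalize Nat.card ((P.subgroupOf (centralizer ({z} : Set G))).map π) = a at c2 c6
    generalize Nat.card ↥(Q ⊓ P) = b at c2 c4
    have h1 : a * b ≤ 2048 * b := Nat.mul_le_mul_right _ c6
    have h2 : a * b ≤ a * 8192 := Nat.mul_le_mul_left _ c4
    constructor <;> omega
  refine ⟨c7.2, c7.1, ?_⟩
  intro w k hw hk
  apply eq_of_le_of_card_ge (hle w k hw hk)
  rw [hcm k, card_sgn]
  omega

end MT

end CfsgLib.MT
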