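import Cfsg.Agent.EqBase
import Mathlib
import Cfsg.Agent.LibMTE

/-!
Preparations for the centralizer of a noncentral involution.
-/

set_option autoImplicit false
set_option linter.constructorNameAsVariable false

namespace CfsgLib.MT

open Cfsg CfsgLib.Co CfsgLib.Leech CfsgLib.Golay CfsgLib.LargeExtraH28 Subgroup MulAction

/-- `F*` from a simple quotient -/
theorem gfit_of {A S : Type*} [Group A] [Group S] [Finite A] (ε : A →* S) (hs : Function.Surjective ε) (hS : IsSimpleGroup S)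
    (hnc : ∃ a b : S, a * b ≠ b * a) (hp : IsPGroup 2 ε.ker) (hc : centralizer (ε.ker : Set A) ≤ ε.ker) :
    generalizedFittingSubgroup A = ε.ker := by
  have : Fact (Nat.Prime 2) := ⟨Nat.prime_two⟩
  apply le_antisymm
  · apply CfsgLib.Comp3.gfitting_le_of_centralizer _ _ hc
    have hF : (fittingSubgroup A).Normal := CfsgLib.Cores.fittingSubgroup_normal
    have hN : ((fittingSubgroup A).map ε).Normal := hF.map _ hs
    rcases hS.eq_bot_or_eq_top_of_normal _ hN with h | h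
    · rwa [Subgroup.map_eq_bot_iff] at h
    · exfalso
      have hnil : Group.IsNilpotent (fittingSubgroup A) := CfsgLib.Cores.fittingSubgroup_isNilpotent
      have hsol : Group.IsSolvable (fittingSubgroup A) := inferInstance
      have h1 : Function.Surjective ((ε.comp (fittingSubgroup A).subtype)) := by
        intro s
        have : s ∈ (fittingSubgroup A).map ε := by rw [h]; trivial
        obtain ⟨a, ha, rfl⟩ := this
        exact ⟨⟨a, ha⟩, rfl⟩
      have h2 : Group.IsSolvable S := Group.isSolvable_of_surjective h1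
      obtain ⟨a, b, hab⟩ := hnc
      exact hab (IsSimpleGroup.comm_iff_isSolvable.2 h2 a b)
  · refine le_trans ?_ CfsgLib.Comp.fitting_le_gfitting
    exact CfsgLib.Cores.le_fittingSubgroup inferInstance hp.isNilpotent

theorem not_double {v : LL} (h0 : Cfsg.sqNorm (v : Cfsg.GolayPt → ℤ) = 32 ∨
    Cfsg.sqNorm (v : Cfsg.GolayPt → ℤ) = 48 ∨ Cfsg.sqNorm (v : Cfsg.GolayPt → ℤ) = 64) : ¬ ∃ u : LL, v = u + u := by
  rintro ⟨u, rfl⟩
  rw [AddSubgroup.coe_add, sqNorm_add, ← sqNorm_dot] at h0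
  have h1 : (u : Cfsg.GolayPt → ℤ) ≠ 0 := by
    intro hu
    have : Cfsg.sqNorm (u : Cfsg.GolayPt → ℤ) = 0 := by rw [hu]; simp [Cfsg.sqNorm]
    omega
  have h2 := min_norm (mem_LL.1 u.2) h1
  omega

/-! ### the fixed short vector -/

theorem U_coe : (Spor.leechU : Cfsg.GolayPt → ℤ) = P none pz 4 4 := by
  funext k
  change Spor.vecU k = _
  rw [Spor.vecU, P_apply]
  by_cases h1 : k = none
  · rw [if_pos (Or.inl h1), if_pos h1, if_neg (by rw [h1]; decide)]; rfl
  · by_cases h2 : k = pz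
    · rw [if_pos (Or.inr h2), if_neg h1, if_pos h2]; rfl
    · rw [if_neg (by rintro (h | h); exacts [h1 h, h2 h]), if_neg h1, if_neg h2]; rfl

theorem U_norm : Cfsg.sqNorm (Spor.leechU : Cfsg.GolayPt → ℤ) = 32 := by rw [U_coe]; exact norm_PL nz (Or.inl rfl) (Or.inl rfl)

theorem dot_U (v : LL) : Cfsg.dotInt (v : Cfsg.GolayPt → ℤ) (Spor.leechU : Cfsg.GolayPt → ℤ) = 4 * (v : Cfsg.GolayPt → ℤ) none + 4 * (v : Cfsg.GolayPt → ℤ) pz := by
  rw [U_coe, dot_P_right]

/-- stabilizer and the second group -/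
def toCo2 : stabilizer Co0 (Spor.leechU : LL) ≃* Spor.Co2 where
  toFun g := ⟨(g : Co0), (g : Co0).2, g.2⟩
  invFun g := ⟨⟨g.1, g.2.1⟩, g.2.2⟩
  left_inv _ := rfl
  right_inv _ := rfl
  map_mul' _ _ := rfl

theorem simple_of_mulEquiv {A B : Type*} [Group A] [Group B] (e : A ≃* B) (h : IsSimpleGroup A) : IsSimpleGroup B := by
  have := h
  have : Nontrivial B := e.symm.toEquiv.nontrivial
  exact IsSimpleGroup.isSimpleGroup_of_surjective (f := e.toMonoidHom) e.surjective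

theorem simple_SpCo2 : IsSimpleGroup Spor.Co2 := simple_of_mulEquiv toCo2 (MT.simple_stab _ U_norm)

theorem nc_SpCo2 : ∃ a b : Spor.Co2, a * b ≠ b * a := by
  by_contra hcon
  push Not at hcon
  have h1 := simple_SpCo2
  have h2 : Group.IsSolvable Spor.Co2 := IsSimpleGroup.comm_iff_isSolvable.1 hcon
  have : Fact (Nat.Prime 2) := ⟨Nat.prime_two⟩
  let _ : CommGroup Spor.Co2 := { (inferInstance : Group Spor.Co2) with mul_comm := hcon }
  have h3 := IsSimpleGroup.prime_card (α := Spor.Co2)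
  rw [← Nat.card_congr toCo2.toEquiv, card_Co2 _ U_norm] at h3
  exact absurd h3 (by norm_num)

theorem pm_of_Sv {v : LL} (hn : Cfsg.sqNorm (v : Cfsg.GolayPt → ℤ) = 32) {n : Co0} (hS : n ∈ Sv v) : n • v = v ∨ n • v = -v := by
  obtain ⟨u, hu⟩ := hS
  have hv0 : (v : Cfsg.GolayPt → ℤ) ≠ 0 := by
    intro h0
    rw [h0] at hn
    simp [Cfsg.sqNorm] at hn
  have hn' : Cfsg.sqNorm ((n • v : LL) : Cfsg.GolayPt → ℤ) = 32 := by rw [act_norm, hn]
  have hv0' : ((n • v : LL) : Cfsg.GolayPt → ℤ) ≠ 0 := by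
    intro h0
    rw [h0] at hn'
    simp [Cfsg.sqNorm] at hn'
  obtain ⟨-, h2⟩ := Cfsg.Agent.S5551.result (v : Cfsg.GolayPt → ℤ) ((n • v : LL) : Cfsg.GolayPt → ℤ) v.2 (n • v).2 hv0 hv0' (by rw [hn]; norm_num)
    (by rw [hn']; norm_num) ⟨((-u : LL) : Cfsg.GolayPt → ℤ), (-u).2, by
      rw [hu]
      change (v : Cfsg.GolayPt → ℤ) - (v + (u + u)) = 2 • (-u)
      rw [two_nsmul]; abel⟩
  rcases h2 (by rw [hn]; norm_num) with h3 | h3
  · exact Or.inl (Subtype.ext h3)
  · exact Or.inr (Subtype.ext h3)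

/-! ### explicit words -/

def w1 : Cfsg.GolayPt → ZMod 2 := word (cw 2087)
def w2 : Cfsg.GolayPt → ZMod 2 := word (cw 2205)
def w3 : Cfsg.GolayPt → ZMod 2 := word (cw 30)
def w4 : Cfsg.GolayPt → ZMod 2 := word (cw 35)

theorem w1_mem : w1 ∈ golayCode := word_cw_mem _
theorem w2_mem : w2 ∈ golayCode := word_cw_mem _
theorem w3_mem : w3 ∈ golayCode := word_cw_mem _
theorem w4_mem : w4 ∈ golayCode := word_cw_mem _

theorem w12 : ∀ k, 4 * lf (w1 k) * lf (w2 k) = (P none pz 4 4 : E) k := by decide +kernel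
theorem w34 : ∀ k, 4 * lf (w3 k) * lf (w4 k) = (P (some 10) (some 21) 4 4 : E) k := by decide +kernel
theorem w3n : lf (w3 none) = 0 ∧ lf (w3 pz) = 0 := by decide +kernel
theorem w4n : lf (w4 none) = 0 ∧ lf (w4 pz) = 0 := by decide +kernel

/-- twice a word -/
def dbw (w : Cfsg.GolayPt → ZMod 2) (hw : w ∈ golayCode) : LL :=
  ⟨fun k => 2 * lf (w k), mem_LL.2 (even_mem hw (y := 0) (by simp) (fun k => by rw [Pi.zero_apply]; ring))⟩

theorem dbw_apply (w : Cfsg.GolayPt → ZMod 2) (hw : w ∈ golayCode) (k : Cfsg.GolayPt) : (dbw w hw : E) k = 2 * lf (w k) := rfl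

theorem sgn_dbw (c w : Cfsg.GolayPt → ZMod 2) (hc : c ∈ golayCode) (hw : w ∈ golayCode) (k : Cfsg.GolayPt) :
    ((sgn (Multiplicative.ofAdd ⟨c, hc⟩) • dbw w hw : LL) : E) k = (dbw w hw : E) k - 4 * lf (w k) * lf (c k) := by
  rw [sgn_apply, dbw_apply]
  change (1 - 2 * lf (c k)) * (2 * lf (w k)) = _
  ring

theorem e12 : sgn (Multiplicative.ofAdd ⟨w2, w2_mem⟩) • dbw w1 w1_mem = dbw w1 w1_mem + Spor.leechU + (-Spor.leechU + -Spor.leechU) := by
  apply Subtype.ext
  funext k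
  rw [sgn_dbw, w12]
  change _ = (dbw w1 w1_mem : E) k + (Spor.leechU : E) k + (-(Spor.leechU : E) k + -(Spor.leechU : E) k)
  rw [U_coe]; ring

/-- the difference vector -/
def d34 : LL := PL (some 10) (some 21) (Or.inl rfl : (4 : ℤ) = 4 ∨ (4 : ℤ) = -4) (Or.inl rfl : (4 : ℤ) = 4 ∨ (4 : ℤ) = -4)

theorem e34 : sgn (Multiplicative.ofAdd ⟨w4, w4_mem⟩) • dbw w3 w3_mem = dbw w3 w3_mem + -d34 := by
  apply Subtype.ext
  funext k
  rw [sgn_dbw, w34]
  change _ = (dbw w3 w3_mem : E) k + -(P (some 10) (some 21) 4 4 : E) k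
  ring

theorem d34_norm : Cfsg.sqNorm (d34 : E) = 32 := norm_PL (by decide) _ _

theorem d34_U : Cfsg.sqNorm ((d34 + Spor.leechU : LL) : E) = 64 := by
  rw [AddSubgroup.coe_add, sqNorm_add, d34_norm, U_norm, dot_U]
  change 32 + 32 + 2 * (4 * (P (some 10) (some 21) 4 4 : E) none + 4 * (P (some 10) (some 21) 4 4 : E) pz) = 64
  rw [P_other (by decide) (by decide), P_other (by decide) (by decide)]; norm_num

theorem sgn4_U : sgn (Multiplicative.ofAdd ⟨w4, w4_mem⟩) • (Spor.leechU : LL) = Spor.leechU := by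
  apply Subtype.ext
  funext k
  rw [sgn_apply, U_coe, P_apply]
  change (1 - 2 * lf (w4 k)) * _ = _
  by_cases h1 : k = none
  · rw [h1, w4n.1]; ring
  · by_cases h2 : k = pz
    · rw [h2, w4n.2]; ring
    · rw [if_neg h1, if_neg h2]; ring

theorem dot3 : (16 : ℤ) ∣ Cfsg.dotInt (dbw w3 w3_mem : E) (Spor.leechU : E) := by
  rw [dot_U, dbw_apply, dbw_apply, w3n.1, w3n.2]; norm_num

theorem dot1 : (16 : ℤ) ∣ Cfsg.dotInt (dbw w1 w1_mem : E) (e8 none : E) := by
  rw [dot_e8, dbw_apply]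
  exact ⟨lf (w1 none), by ring⟩

end CfsgLib.MT
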