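import Cfsg.Agent.EqBase
import Mathlib
import Cfsg.Agent.LibMTF

/-!
The centralizer of a noncentral involution.
-/

set_option autoImplicit false
set_option linter.constructorNameAsVariable false

namespace CfsgLib.MT

open Cfsg CfsgLib.Co CfsgLib.Leech CfsgLib.Golay CfsgLib.LargeExtraH28 Subgroup MulAction

variable {G : Type*} [Group G]

namespace MT

variable {Q : Subgroup G} {z : G} {R : LL → G → Prop} {π : centralizer ({z} : Set G) →* Co0 ⧸ center Co0}

/-- twisting by a lattice automorphism -/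
theorem twist (h : MT Q z R π) (k : Co0) :
    MT Q z (fun w q => R (k⁻¹ • w) q) ((MulAut.conj (k : Co0 ⧸ center Co0)).toMonoidHom.comp π) where
  toLSet := h.toLSet
  card := h.card
  surj := (MulAut.conj (k : Co0 ⧸ center Co0)).surjective.comp h.surj
  ker c := by
    rw [← h.ker]
    change (MulAut.conj (k : Co0 ⧸ center Co0)) (π c) = 1 ↔ _
    rw [EmbeddingLike.map_eq_one_iff]
  Rmem v q := h.Rmem _ q
  Rex v := h.Rex _
  Rex' q hq := by
    obtain ⟨v, hv⟩ := h.Rex' q hq
    exact ⟨k • v, by rwa [inv_smul_smul]⟩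
  R2 v q q' := h.R2 _ q q'
  Rz v q := h.Rz _ q
  Radd v w q r h1 h2 := by
    rw [act_add]; exact h.Radd _ _ _ _ h1 h2
  R0 v := by
    rw [h.R0]
    constructor
    · rintro ⟨u, hu⟩
      refine ⟨k • u, ?_⟩
      rw [← act_add, ← hu, smul_inv_smul]
    · rintro ⟨u, rfl⟩
      exact ⟨k⁻¹ • u, act_add _ _ _⟩
  RK c g hc v q hq := by
    have h1 : π c = ((k⁻¹ * g * k : Co0) : Co0 ⧸ center Co0) := by
      have h2 : (k : Co0 ⧸ center Co0) * π c * (k : Co0 ⧸ center Co0)⁻¹ = (g : Co0 ⧸ center Co0) := hc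
      rw [QuotientGroup.mk_mul, QuotientGroup.mk_mul, ← h2, QuotientGroup.mk_inv]
      group
    have h3 := h.RK c _ h1 _ q hq
    have h4 : (k⁻¹ * g * k) • (k⁻¹ • v) = k⁻¹ • (g • v) := by
      rw [mul_smul, mul_smul, smul_inv_smul]
    rwa [h4] at h3

theorem mul_eq_cases (h : MT Q z R π) {v : LL} {q r : G} (hq : R v q) (hr : R v r) : q = r ∨ q = z * r := h.R2 _ _ _ hr hq

theorem exists_swap (h : MT Q z R π) [Finite G] (hE : IsExtraspecial 2 Q) {g : G} (hx : g * z * g⁻¹ ∈ Q) (hne : g * z * g⁻¹ ≠ z)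
    {t : G} (ht : R Spor.leechU t) : ∃ n : G, n * t = t * n ∧ n * z * n⁻¹ ∈ Q ∧ n * z * n⁻¹ ≠ z := by
  obtain ⟨x, hx8⟩ := h.Rex (e8 none)
  obtain ⟨g', hg'⟩ := isConj_iff.1 (h.isConj_of_64 hx hne hx8 (e8_norm none))
  have hxQ : g' * z * g'⁻¹ ∈ Q := by rw [hg']; exact h.Rmem _ _ hx8
  have hxne : g' * z * g'⁻¹ ≠ z := by
    rw [hg']; exact (h.ne_of hx8 (Or.inr (Or.inr (e8_norm none)))).2
  obtain ⟨-, -, i3⟩ := h.inter hE hxQ hxne
  have hNB := i3 (e8 none) 1 (by rw [hg']; exact hx8) (one_smul _ _)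
  have hpair := h.pair_of hxQ hxne
  rw [hg'] at hpair hxQ hxne
  generalize Q.map (MulAut.conj g').toMonoidHom = P at hNB hpair
  have hP := hpair.hP
  have htQ := h.Rmem _ _ ht
  obtain ⟨t1, tz⟩ := h.ne_of ht (Or.inl U_norm)
  -- `t` lies in `P`
  have htP : t ∈ P := by
    obtain ⟨a, ha⟩ := h.Rex (dbw w1 w1_mem)
    have haQ := h.Rmem _ _ ha
    have hax : a * x = x * a := (h.cm_iff ha hx8).2 dot1
    obtain ⟨b, hb, hbn⟩ : ∃ c : centralizer ({z} : Set G), (c : G) ∈ P ∧ π c = ((sgn (Multiplicative.ofAdd ⟨w2, w2_mem⟩) : Co0) : Co0 ⧸ center Co0) := by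
      have : sgn (Multiplicative.ofAdd ⟨w2, w2_mem⟩) ∈ (NB π P).map (MulAut.conj (1 : Co0)).toMonoidHom := by
        rw [hNB]; exact ⟨_, rfl⟩
      obtain ⟨m, hm, hm'⟩ := this
      have e1 : m = sgn (Multiplicative.ofAdd ⟨w2, w2_mem⟩) := by
        rw [← hm']
        change m = 1 * m * 1⁻¹
        simp
      rw [← e1]
      exact mem_NB.1 hm
    have h1 := h.RK b _ hbn _ a ha
    rw [e12] at h1
    have h2 := h.Rcos' (v := dbw w1 w1_mem + Spor.leechU) (u := Spor.leechU) h1 (by abel)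
    have h3 := h.Radd _ _ _ _ ha ht
    have hbP : a⁻¹ * (b : G) * a ∈ P := by
      have := hP.NQ a⁻¹ (by
        calc a⁻¹ * x = a⁻¹ * (x * a) * a⁻¹ := by group
          _ = x * a⁻¹ := by rw [← hax]; group) b hb
      rwa [inv_inv] at this
    rcases h.mul_eq_cases h3 h2 with h4 | h4
    · have : t = (a⁻¹ * (b : G) * a) * (b : G)⁻¹ := by
        calc t = a⁻¹ * (a * t) := by group
          _ = _ := by rw [h4]; group
      rw [this]; exact mul_mem hbP (inv_mem hb)
    · have haz := h.zc _ (inv_mem haQ)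
      have : t = z * ((a⁻¹ * (b : G) * a) * (b : G)⁻¹) := by
        calc t = a⁻¹ * (a * t) := by group
          _ = (a⁻¹ * z) * ((b : G) * a * (b : G)⁻¹) := by rw [h4]; group
          _ = _ := by rw [haz]; group
      rw [this]; exact mul_mem hpair.zP (mul_mem hbP (inv_mem hb))
  -- `t` is outside `V`
  have htV : t ∉ closure ({z, x} : Set G) := by
    rw [hpair.mem_V_iff]
    rintro (e | e | e | e)
    · exact t1 e
    · exact tz e
    · have h1 := h.Rcos (e ▸ ht : R Spor.leechU x) hx8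
      obtain ⟨u, hu⟩ := h1
      have h2 := Cfsg.Agent.S5551.result (Spor.leechU : E) (e8 none : E) Spor.leechU.2 (e8 none).2 (by
        intro h0; have := U_norm; rw [h0] at this; simp [Cfsg.sqNorm] at this) (by
        intro h0; have := e8_norm none; rw [h0] at this; simp [Cfsg.sqNorm] at this) (by rw [U_norm]; norm_num) (by rw [e8_norm])
        ⟨(u : E), u.2, by
          rw [hu]
          change ((e8 none : E) + (u + u)) - _ = _
          rw [two_nsmul]; abel⟩
      rw [U_norm, e8_norm] at h2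
      exact absurd h2.1 (by norm_num)
    · have h1 := h.Rz _ _ ht
      rw [e, ← mul_assoc, h.zz, one_mul] at h1
      obtain ⟨u, hu⟩ := h.Rcos h1 hx8
      have h2 := Cfsg.Agent.S5551.result (Spor.leechU : E) (e8 none : E) Spor.leechU.2 (e8 none).2 (by
        intro h0; have := U_norm; rw [h0] at this; simp [Cfsg.sqNorm] at this) (by
        intro h0; have := e8_norm none; rw [h0] at this; simp [Cfsg.sqNorm] at this) (by rw [U_norm]; norm_num) (by rw [e8_norm])
        ⟨(u : E), u.2, by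
          rw [hu]
          change ((e8 none : E) + (u + u)) - _ = _
          rw [two_nsmul]; abel⟩
      rw [U_norm, e8_norm] at h2
      exact absurd h2.1 (by norm_num)
  have hVQ : closure ({z, x} : Set G) ≤ Q := by
    rw [closure_le]; rintro y (rfl | rfl)
    · exact h.zQ
    · exact hxQ
  have hVP : closure ({z, x} : Set G) ≤ P := by
    rw [closure_le]; rintro y (rfl | rfl)
    · exact hpair.zP
    · exact hP.zQ
  obtain ⟨e, he, hec, het⟩ := h.dc _ (subset_closure (Or.inl rfl)) hVQ t htQ htV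
  obtain ⟨f, hf, hfc, hft⟩ := hP.dc _ (subset_closure (Or.inr rfl)) hVP t htP htV
  have hez : e * z = z * e := hec z (subset_closure (Or.inl rfl))
  have hex : e * x = x * e := hec x (subset_closure (Or.inr rfl))
  have hfz : f * z = z * f := hfc z (subset_closure (Or.inl rfl))
  have hfx : f * x = x * f := hfc x (subset_closure (Or.inr rfl))
  obtain ⟨u, hu, hux⟩ := hpair.exists_u
  obtain ⟨y, hy, hyz⟩ := hpair.exists_y
  have hzx : z * x = x * z := hpair.xz.symm
  -- `u y` moves `z` to `x`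
  have m1 : (u * y) * z * (u * y)⁻¹ = x := by
    have huz := h.zc u hu
    calc (u * y) * z * (u * y)⁻¹ = u * (y * z) * y⁻¹ * u⁻¹ := by group
      _ = u * (z * x) * u⁻¹ := by rw [hyz]; group
      _ = (u * z) * x * u⁻¹ := by group
      _ = z * (u * x) * u⁻¹ := by rw [huz]; group
      _ = (z * z) * x := by rw [hux]; group
      _ = x := by rw [h.zz, one_mul]
  have hs : u * y ∈ Q ⊔ P := mul_mem (mem_sup_left hu) (mem_sup_right hy)
  have m2 := hpair.comm_XE hs ⟨htQ, htP⟩
  rw [hpair.mem_V_iff] at m2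
  generalize u * y = m at m1 m2
  have et : e * t * e⁻¹ = z * t := by rw [het]; group
  have ft : f * t * f⁻¹ = x * t := by rw [hft]; group
  have ee : ∀ w, e * w = w * e → e * (w * t) * e⁻¹ = w * (z * t) := by
    intro w hw
    calc e * (w * t) * e⁻¹ = (e * w) * t * e⁻¹ := by group
      _ = w * (e * t * e⁻¹) := by rw [hw]; group
      _ = _ := by rw [et]
  have ff : ∀ w, f * w = w * f → f * (w * t) * f⁻¹ = w * (x * t) := by
    intro w hw
    calc f * (w * t) * f⁻¹ = (f * w) * t * f⁻¹ := by group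
      _ = w * (f * t * f⁻¹) := by rw [hw]; group
      _ = _ := by rw [ft]
  have fin : ∀ n : G, n * t * n⁻¹ = t → n * z * n⁻¹ = x → ∃ n : G, n * t = t * n ∧ n * z * n⁻¹ ∈ Q ∧ n * z * n⁻¹ ≠ z := by
    intro n h1 h2
    exact ⟨n, mul_inv_eq_iff_eq_mul.1 h1, by rw [h2]; exact hxQ, by rw [h2]; exact hxne⟩
  have exx : e * x * e⁻¹ = x := by rw [hex]; group
  have fxx : f * x * f⁻¹ = x := by rw [hfx]; group
  rcases m2 with h1 | h1 | h1 | h1
  · exact fin m (mul_inv_eq_one.1 h1) m1
  · refine fin (e * m) ?_ ?_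
    · calc (e * m) * t * (e * m)⁻¹ = e * ((m * t * m⁻¹ * t⁻¹) * t) * e⁻¹ := by group
        _ = z * (z * t) := by rw [h1, ee z hez]
        _ = t := h.zz' t
    · calc (e * m) * z * (e * m)⁻¹ = e * (m * z * m⁻¹) * e⁻¹ := by group
        _ = x := by rw [m1, exx]
  · refine fin (f * m) ?_ ?_
    · calc (f * m) * t * (f * m)⁻¹ = f * ((m * t * m⁻¹ * t⁻¹) * t) * f⁻¹ := by group
        _ = x * (x * t) := by rw [h1, ff x hfx]
        _ = t := hP.zz' t
    · calc (f * m) * z * (f * m)⁻¹ = f * (m * z * m⁻¹) * f⁻¹ := by group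
        _ = x := by rw [m1, fxx]
  · refine fin (e * (f * m)) ?_ ?_
    · calc (e * (f * m)) * t * (e * (f * m))⁻¹ = e * (f * ((m * t * m⁻¹ * t⁻¹) * t) * f⁻¹) * e⁻¹ := by group
        _ = e * ((z * x) * (x * t)) * e⁻¹ := by
            rw [h1, ff (z * x) (by rw [← mul_assoc, hfz, mul_assoc, hfx, mul_assoc])]
        _ = e * (z * t) * e⁻¹ := by
            have : (z * x) * (x * t) = z * t := by rw [mul_assoc, hP.zz' t]
            rw [this]
        _ = z * (z * t) := ee z hez
        _ = t := h.zz' t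
    · calc (e * (f * m)) * z * (e * (f * m))⁻¹ = e * (f * (m * z * m⁻¹) * f⁻¹) * e⁻¹ := by group
        _ = x := by rw [m1, fxx, exx]

end MT

end CfsgLib.MT
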