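import Cfsg.Agent.EqBase
import Mathlib
import Cfsg.Agent.LibMTG

/-!
The centralizer of a noncentral involution, second part.
-/

set_option autoImplicit false
set_option linter.constructorNameAsVariable false

namespace CfsgLib.MT

open Cfsg CfsgLib.Co CfsgLib.Leech CfsgLib.Golay CfsgLib.LargeExtraH28 Subgroup MulAction

variable {G : Type*} [Group G]

theorem fixU_unique {g g' : Co0} (hg : g • (Spor.leechU : LL) = Spor.leechU) (hg' : g' • (Spor.leechU : LL) = Spor.leechU)
    (h : (g : Co0 ⧸ center Co0) = (g' : Co0 ⧸ center Co0)) : g = g' := by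
  rcases mk_eq_iff.1 h with e | e
  · exact e.symm
  · exfalso
    rw [e, mul_smul, negCo_apply, act_neg, hg] at hg'
    have h1 : (-(Spor.leechU : LL) : E) none = (Spor.leechU : E) none := congrFun (congrArg Subtype.val hg') none
    have h2 : (Spor.leechU : E) none = 4 := by rw [U_coe, P_left nz]
    rw [Pi.neg_apply, h2] at h1
    norm_num at h1

namespace MT

variable {Q : Subgroup G} {z t : G} {R : LL → G → Prop} {π : centralizer ({z} : Set G) →* Co0 ⧸ center Co0}

/-- the joint centralizer -/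
abbrev DD (z t : G) : Subgroup G := centralizer ({z} : Set G) ⊓ centralizer ({t} : Set G)

/-- inclusion in the first centralizer -/
abbrev i1 (d : DD z t) : centralizer ({z} : Set G) := ⟨d, d.2.1⟩

/-- inclusion in the second centralizer -/
abbrev i2 (d : DD z t) : centralizer ({t} : Set G) := ⟨d, d.2.2⟩

theorem comm_z (d : DD z t) : (d : G) * z = z * d := mem_centralizer_singleton_iff.1 d.2.1
theorem comm_t (d : DD z t) : (d : G) * t = t * d := mem_centralizer_singleton_iff.1 d.2.2

theorem exists_delta (h : MT Q z R π) (ht : R Spor.leechU t) :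
    ∃ δ : DD z t →* Spor.Co2, (∀ (d : DD z t) (g : Co0), g • (Spor.leechU : LL) = Spor.leechU → π (i1 d) = (g : Co0 ⧸ center Co0) →
      ((δ d : Spor.Co2) : Equiv.Perm LL) = (g : Equiv.Perm LL)) ∧ Function.Surjective δ ∧ ∀ d : DD z t, δ d = 1 ↔ (d : G) ∈ Q := by
  have hex : ∀ d : DD z t, ∃ g : Co0, g • (Spor.leechU : LL) = Spor.leechU ∧ π (i1 d) = (g : Co0 ⧸ center Co0) := by
    intro d
    obtain ⟨g, hg⟩ := QuotientGroup.mk_surjective (π (i1 d))
    have h1 := h.fix_class ht (c := i1 d) hg.symm (Or.inl (comm_t d))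
    rcases pm_of_Sv U_norm h1 with h2 | h2
    · exact ⟨g, h2, hg.symm⟩
    · refine ⟨g * negCo, ?_, ?_⟩
      · rw [mul_smul, negCo_apply, act_neg, h2, neg_neg]
      · rw [← hg]; exact mk_eq_iff.2 (Or.inr rfl)
  choose f hf1 hf2 using hex
  let δ : DD z t →* Spor.Co2 := MonoidHom.mk' (fun d => (⟨(f d : Equiv.Perm LL), (f d).2, hf1 d⟩ : Spor.Co2)) (by
    intro a b
    have : f (a * b) = f a * f b := by
      apply fixU_unique (hf1 _)
      · rw [mul_smul, hf1, hf1]
      · rw [← hf2, QuotientGroup.mk_mul, ← hf2, ← hf2, ← map_mul]; rfl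
    apply Subtype.ext
    change ((f (a * b) : Co0) : Equiv.Perm LL) = (f a : Equiv.Perm LL) * (f b : Equiv.Perm LL)
    rw [this]; rfl)
  have hδ : ∀ d, ((δ d : Spor.Co2) : Equiv.Perm LL) = (f d : Equiv.Perm LL) := fun d => rfl
  refine ⟨δ, ?_, ?_, ?_⟩
  · intro d g hg hdg
    rw [hδ, fixU_unique (hf1 d) hg ((hf2 d).symm.trans hdg)]
  · rintro ⟨g, hg, hgU⟩
    have hgU' : (⟨g, hg⟩ : Co0) • (Spor.leechU : LL) = Spor.leechU := hgU
    obtain ⟨t1, tz⟩ := h.ne_of ht (Or.inl U_norm)
    obtain ⟨c, hc, hct⟩ := h.exists_cent ht t1 tz (g := ⟨g, hg⟩) ⟨0, by rw [hgU']; simp⟩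
    refine ⟨⟨c, c.2, mem_centralizer_singleton_iff.2 (mul_inv_eq_iff_eq_mul.1 hct)⟩, Subtype.ext ?_⟩
    rw [hδ]
    have := fixU_unique (hf1 ⟨c, c.2, mem_centralizer_singleton_iff.2 (mul_inv_eq_iff_eq_mul.1 hct)⟩) hgU' ((hf2 _).symm.trans hc)
    rw [this]
  · intro d
    rw [← h.ker (i1 d), hf2]
    constructor
    · intro h1
      have h2 : f d = 1 := by
        apply Subtype.ext
        rw [← hδ, h1]; rfl
      rw [h2]; rfl
    · intro h1
      have h2 : f d = 1 := fixU_unique (hf1 d) (one_smul _ _) h1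
      apply Subtype.ext
      rw [hδ, h2]; rfl

theorem tt (h : MT Q z R π) (ht : R Spor.leechU t) : t * t = 1 := (h.sq_iff ht).2 (by rw [U_norm])

theorem mem_zt (h : MT Q z R π) (ht : R Spor.leechU t) {a : G} : a ∈ zpowers t ↔ a = 1 ∨ a = t := by
  constructor
  · rintro ⟨k, rfl⟩
    change t ^ k = 1 ∨ t ^ k = t
    have h2 : t ^ (2 : ℤ) = 1 := by
      have := h.tt ht
      rw [zpow_ofNat, sq]; exact this
    rcases Int.even_or_odd' k with ⟨l, rfl | rfl⟩
    · left; rw [zpow_mul, h2, one_zpow]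
    · right; rw [zpow_add, zpow_mul, h2, one_zpow, one_mul, zpow_one]
  · rintro (rfl | rfl)
    · exact one_mem _
    · exact mem_zpowers _

/-- `z` and `zt` are not conjugate in `C(t)` -/
theorem cz (h : MT Q z R π) (ht : R Spor.leechU t) {c : G} (hc : c * z * c⁻¹ = z * t) : False := by
  obtain ⟨t1, tz⟩ := h.ne_of ht (Or.inl U_norm)
  have h1 := h.Rz _ _ ht
  have h2 : z * t ≠ z := fun e => t1 (mul_eq_left.1 e)
  exact h.not_min (g := c) (by rw [hc]; exact h.Rmem _ _ h1) (by rw [hc]; exact h2) (by rw [hc]; exact h1) U_norm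

/-- the involution of the quotient -/
abbrev zh [((zpowers t).subgroupOf (centralizer ({t} : Set G))).Normal] (hz : z ∈ centralizer ({t} : Set G)) :
    ↥(centralizer ({t} : Set G)) ⧸ (zpowers t).subgroupOf (centralizer ({t} : Set G)) :=
  QuotientGroup.mk ⟨z, hz⟩

/-- the projection -/
def th [((zpowers t).subgroupOf (centralizer ({t} : Set G))).Normal] (hz : z ∈ centralizer ({t} : Set G)) :
    DD z t →* centralizer ({zh hz} : Set (↥(centralizer ({t} : Set G)) ⧸ (zpowers t).subgroupOf (centralizer ({t} : Set G)))) where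
  toFun d := ⟨QuotientGroup.mk (i2 d), by
    rw [mem_centralizer_singleton_iff, zh, ← QuotientGroup.mk_mul, ← QuotientGroup.mk_mul]
    congr 1
    exact Subtype.ext (comm_z d)⟩
  map_one' := rfl
  map_mul' _ _ := rfl

theorem th_coe [((zpowers t).subgroupOf (centralizer ({t} : Set G))).Normal] (hz : z ∈ centralizer ({t} : Set G)) (d : DD z t) :
    ((th hz d : centralizer ({zh hz} : Set (↥(centralizer ({t} : Set G)) ⧸ (zpowers t).subgroupOf (centralizer ({t} : Set G))))) :
      ↥(centralizer ({t} : Set G)) ⧸ (zpowers t).subgroupOf (centralizer ({t} : Set G))) = QuotientGroup.mk (i2 d) := rfl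

theorem th_surj (h : MT Q z R π) (ht : R Spor.leechU t) [((zpowers t).subgroupOf (centralizer ({t} : Set G))).Normal]
    (hz : z ∈ centralizer ({t} : Set G)) : Function.Surjective (th hz) := by
  rintro ⟨y, hy⟩
  obtain ⟨c, rfl⟩ := QuotientGroup.mk_surjective y
  rw [mem_centralizer_singleton_iff, zh, ← QuotientGroup.mk_mul, ← QuotientGroup.mk_mul, QuotientGroup.eq, mem_subgroupOf, h.mem_zt ht] at hy
  have hct : (c : G) * t = t * c := mem_centralizer_singleton_iff.1 c.2
  have hzt : z * t = t * z := mem_centralizer_singleton_iff.1 hz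
  have hcz : (c : G) * z = z * c := by
    rcases hy with e | e
    · exact inv_mul_eq_one.1 e
    · exfalso
      have e' : ((c : G) * z)⁻¹ * (z * c) = t := e
      have e2 : z * (c : G) = (c : G) * z * t := by
        calc z * (c : G) = (c : G) * z * (((c : G) * z)⁻¹ * (z * c)) := by group
          _ = _ := congrArg (fun w => (c : G) * z * w) e'
      apply h.cz ht (c := (c : G)⁻¹)
      calc (c : G)⁻¹ * z * (c : G)⁻¹⁻¹ = (c : G)⁻¹ * (z * c) := by group
        _ = z * t := by rw [e2]; group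
  exact ⟨⟨c, mem_centralizer_singleton_iff.2 hcz, c.2⟩, rfl⟩

theorem th_eq (h : MT Q z R π) (ht : R Spor.leechU t) [((zpowers t).subgroupOf (centralizer ({t} : Set G))).Normal]
    (hz : z ∈ centralizer ({t} : Set G)) {a b : DD z t} : th hz a = th hz b ↔ (b : G) = a ∨ (b : G) = a * t := by
  have h1 : th hz a = th hz b ↔ (QuotientGroup.mk (i2 a) : ↥(centralizer ({t} : Set G)) ⧸ (zpowers t).subgroupOf (centralizer ({t} : Set G))) =
      QuotientGroup.mk (i2 b) := by
    constructor
    · exact fun e => congrArg Subtype.val e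
    · exact fun e => Subtype.ext e
  rw [h1, QuotientGroup.eq, mem_subgroupOf, h.mem_zt ht]
  change ((a : G)⁻¹ * b = 1 ∨ (a : G)⁻¹ * b = t) ↔ _
  constructor
  · rintro (e | e)
    · exact Or.inl (inv_mul_eq_one.1 e).symm
    · refine Or.inr ?_
      calc (b : G) = a * ((a : G)⁻¹ * b) := by group
        _ = _ := congrArg (fun w => (a : G) * w) e
  · rintro (e | e)
    · exact Or.inl (by rw [e]; group)
    · refine Or.inr ?_
      calc (a : G)⁻¹ * b = (a : G)⁻¹ * (a * t) := congrArg (fun w => (a : G)⁻¹ * w) e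
        _ = t := by group

end MT

end CfsgLib.MT
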