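import Cfsg.Agent.EqBase
import Mathlib
import Cfsg.Agent.LibMTH

/-!
The centralizer of a noncentral involution, third part.
-/

set_option autoImplicit false
set_option linter.constructorNameAsVariable false

namespace CfsgLib.MT

open Cfsg CfsgLib.Co CfsgLib.Leech CfsgLib.Golay CfsgLib.LargeExtraH28 Subgroup MulAction

variable {G : Type*} [Group G]

namespace MT

variable {Q : Subgroup G} {z t : G} {R : LL → G → Prop} {π : centralizer ({z} : Set G) →* Co0 ⧸ center Co0}

theorem hz (h : MT Q z R π) (ht : R Spor.leechU t) : z ∈ centralizer ({t} : Set G) :=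
  mem_centralizer_singleton_iff.2 (h.zc t (h.Rmem _ _ ht)).symm

/-- elements of `Q` commuting with `t` -/
def dq (h : MT Q z R π) {q : G} (hq : q ∈ Q) (hqt : q * t = t * q) : DD z t :=
  ⟨q, mem_centralizer_singleton_iff.2 (h.zc q hq), mem_centralizer_singleton_iff.2 hqt⟩

theorem cen_iff (h : MT Q z R π) (ht : R Spor.leechU t) [((zpowers t).subgroupOf (centralizer ({t} : Set G))).Normal]
    {a : DD z t} (ha : (a : G) ∈ Q) :
    (∀ b : DD z t, (b : G) ∈ Q → th (h.hz ht) a * th (h.hz ht) b = th (h.hz ht) b * th (h.hz ht) a) ↔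
      ((a : G) = 1 ∨ (a : G) = z ∨ (a : G) = t ∨ (a : G) = z * t) := by
  obtain ⟨t1, tz⟩ := h.ne_of ht (Or.inl U_norm)
  constructor
  · intro H
    apply h.dual (h.Rmem _ _ ht) ha
    intro y hy hyt
    have h1 := H (h.dq hy hyt) hy
    rw [← map_mul, ← map_mul, h.th_eq ht] at h1
    have h2 : y * (a : G) = a * y ∨ y * (a : G) = a * y * t := h1
    rcases h2 with h2 | h2
    · exact h2
    · rcases h.cm y hy a ha with h3 | h3
      · exact h3
      · exfalso
        rw [h3] at h2
        have h4 : z * ((a : G) * y) = (a : G) * y * z := (h.zc _ (mul_mem ha hy)).symm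
        rw [h4] at h2
        exact tz (mul_left_cancel h2).symm
  · intro H b hb
    rw [← map_mul, ← map_mul]
    congr 1
    apply Subtype.ext
    change (a : G) * b = b * a
    have h1 := h.zc b hb
    have h2 := comm_t b
    rcases H with e | e | e | e <;> rw [e]
    · rw [one_mul, mul_one]
    · exact h1.symm
    · exact h2.symm
    · rw [mul_assoc, ← h2, ← mul_assoc, ← h1, mul_assoc]

theorem th_one (h : MT Q z R π) (ht : R Spor.leechU t) [((zpowers t).subgroupOf (centralizer ({t} : Set G))).Normal]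
    {a : DD z t} : th (h.hz ht) a = 1 ↔ (a : G) = 1 ∨ (a : G) = t := by
  have h1 := h.th_eq ht (h.hz ht) (a := 1) (b := a)
  rw [map_one, eq_comm] at h1
  rw [h1]
  change ((a : G) = 1 ∨ (a : G) = 1 * t) ↔ _
  rw [one_mul]

theorem th_z (h : MT Q z R π) (ht : R Spor.leechU t) [((zpowers t).subgroupOf (centralizer ({t} : Set G))).Normal]
    {a : DD z t} : th (h.hz ht) a = th (h.hz ht) (h.dq h.zQ (mem_centralizer_singleton_iff.1 (h.hz ht))) ↔ (a : G) = z ∨ (a : G) = z * t := by
  have h1 := h.th_eq ht (h.hz ht) (a := h.dq h.zQ (mem_centralizer_singleton_iff.1 (h.hz ht))) (b := a)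
  rw [eq_comm, h1]
  rfl

theorem card_Qt [Finite G] (h : MT Q z R π) (hE : IsExtraspecial 2 Q) (ht : R Spor.leechU t) :
    Nat.card (Q.subgroupOf (DD z t)) = 2 ^ 24 := by
  obtain ⟨t1, tz⟩ := h.ne_of ht (Or.inl U_norm)
  rw [← card_cent h.toLSet hE h.card (h.Rmem _ _ ht) t1 tz]
  refine Nat.card_congr ⟨fun p => ⟨⟨p.1.1, p.1.2.2⟩, p.2⟩, fun c => ⟨⟨c.1.1, ?_, c.1.2⟩, c.2⟩, fun _ => rfl, fun _ => rfl⟩
  exact mem_centralizer_singleton_iff.2 (h.zc _ c.2)

theorem exists_nc2 [Finite G] (h : MT Q z R π) (hE : IsExtraspecial 2 Q) (ht : R Spor.leechU t) :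
    ∃ a b : DD z t, (a : G) ∈ Q ∧ (b : G) ∈ Q ∧ (b : G) * a = z * (a * b) := by
  have h1 := h.card_Qt hE ht
  have htQ := h.Rmem _ _ ht
  by_contra hcon
  push Not at hcon
  have key : ∀ a : DD z t, (a : G) ∈ Q → (a : G) ∈ ({1, z, t, z * t} : Set G) := by
    intro a ha
    have := h.dual htQ ha (fun y hy hyt => by
      rcases h.cm y hy a ha with e | e
      · exact e
      · exact absurd e (hcon a (h.dq hy hyt) ha hy))
    simpa using this
  have h2 : Nat.card (Q.subgroupOf (DD z t)) ≤ Nat.card ({1, z, t, z * t} : Set G) :=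
    Nat.card_le_card_of_injective (fun a => (⟨(a : DD z t), key _ a.2⟩ : ({1, z, t, z * t} : Set G))) (fun a b hab =>
      Subtype.ext (Subtype.ext (show ((a : DD z t) : G) = ((b : DD z t) : G) from congrArg (fun w : ({1, z, t, z * t} : Set G) => (w : G)) hab)))
  have h3 : Nat.card ({1, z, t, z * t} : Set G) ≤ 4 := by
    classical
    have : ({1, z, t, z * t} : Set G) = (({1, z, t, z * t} : Finset G) : Set G) := by simp
    change Set.ncard ({1, z, t, z * t} : Set G) ≤ 4
    rw [this, Set.ncard_coe_finset]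
    exact Finset.card_le_four
  rw [h1] at h2
  omega

/-- relations for inverses and differences -/
theorem Rinv (h : MT Q z R π) {v : LL} {q : G} (hq : R v q) : R (-v) q⁻¹ := by
  have h1 : R (-v) q := h.Rcos' (u := -v) hq (by abel)
  rcases h.sq q (h.Rmem _ _ hq) with e | e
  · have : q⁻¹ = q := inv_eq_of_mul_eq_one_left e
    rwa [this]
  · have h2 : q * (q * z) = 1 := by rw [← mul_assoc, e, h.zz]
    have : q⁻¹ = z * q := by rw [inv_eq_of_mul_eq_one_right h2, h.zc q (h.Rmem _ _ hq)]
    rw [this]; exact h.Rz _ _ h1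

end MT

end CfsgLib.MT
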