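import Cfsg.Agent.EqBase
import Mathlib
import Cfsg.Agent.LibMTI

/-!
The centralizer of a noncentral involution, assembly.
-/

set_option autoImplicit false
set_option linter.constructorNameAsVariable false

namespace CfsgLib.MT

open Cfsg CfsgLib.Co CfsgLib.Leech CfsgLib.Golay CfsgLib.LargeExtraH28 Subgroup MulAction

variable {G : Type*} [Group G]

namespace MT

variable {Q : Subgroup G} {z t : G} {R : LL → G → Prop} {π : centralizer ({z} : Set G) →* Co0 ⧸ center Co0}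

/-- the element `z` of the joint centralizer -/
def dz (h : MT Q z R π) (ht : R Spor.leechU t) : DD z t := h.dq h.zQ (mem_centralizer_singleton_iff.1 (h.hz ht))

theorem dz_coe (h : MT Q z R π) (ht : R Spor.leechU t) : (h.dz ht : G) = z := rfl

section
variable [hn : ((zpowers t).subgroupOf (centralizer ({t} : Set G))).Normal]
  (h : MT Q z R π) (ht : R Spor.leechU t)
  (ε : centralizer ({zh (h.hz ht)} : Set (↥(centralizer ({t} : Set G)) ⧸ (zpowers t).subgroupOf (centralizer ({t} : Set G)))) →* Spor.Co2)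
  (hk : ∀ d : DD z t, th (h.hz ht) d ∈ ε.ker ↔ (d : G) ∈ Q)

include hk

theorem ker_rep (x : ε.ker) : ∃ d : DD z t, (d : G) ∈ Q ∧ th (h.hz ht) d = x := by
  obtain ⟨d, hd⟩ := h.th_surj ht (h.hz ht) (x : centralizer ({zh (h.hz ht)} : Set (↥(centralizer ({t} : Set G)) ⧸ (zpowers t).subgroupOf (centralizer ({t} : Set G)))))
  refine ⟨d, ?_, hd⟩
  rw [← hk, hd]; exact x.2

theorem ker_center (x : ε.ker) : x ∈ center ε.ker ↔
    (x : centralizer ({zh (h.hz ht)} : Set (↥(centralizer ({t} : Set G)) ⧸ (zpowers t).subgroupOf (centralizer ({t} : Set G))))) = 1 ∨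
    (x : centralizer ({zh (h.hz ht)} : Set (↥(centralizer ({t} : Set G)) ⧸ (zpowers t).subgroupOf (centralizer ({t} : Set G))))) = th (h.hz ht) (h.dz ht) := by
  obtain ⟨a, ha, hax⟩ := ker_rep h ht ε hk x
  rw [← hax, h.th_one ht]
  have h2 : th (h.hz ht) a = th (h.hz ht) (h.dz ht) ↔ (a : G) = z ∨ (a : G) = z * t := h.th_z ht
  rw [h2]
  have h3 := h.cen_iff ht ha
  have h4 : x ∈ center ε.ker ↔ (∀ b : DD z t, (b : G) ∈ Q → th (h.hz ht) a * th (h.hz ht) b = th (h.hz ht) b * th (h.hz ht) a) := by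
    rw [mem_center_iff]
    constructor
    · intro H b hb
      have := congrArg Subtype.val (H ⟨_, (hk b).2 hb⟩)
      rw [hax]; exact this.symm
    · intro H y
      obtain ⟨b, hb, hby⟩ := ker_rep h ht ε hk y
      apply Subtype.ext
      change (y : centralizer ({zh (h.hz ht)} : Set (↥(centralizer ({t} : Set G)) ⧸ (zpowers t).subgroupOf (centralizer ({t} : Set G))))) * x = x * y
      rw [← hax, ← hby]; exact (H b hb).symm
  rw [h4, h3]
  tauto

theorem ker_card [Finite G] (hE : IsExtraspecial 2 Q) : Nat.card ε.ker = 2 ^ 23 := by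
  have h1 := card_split (th (h.hz ht)) (Q.subgroupOf (DD z t))
  have h2 : (Q.subgroupOf (DD z t)).map (th (h.hz ht)) = ε.ker := by
    ext x
    constructor
    · rintro ⟨d, hd, rfl⟩
      exact (hk d).2 hd
    · intro hx
      obtain ⟨d, hd, hdx⟩ := ker_rep h ht ε hk ⟨x, hx⟩
      exact ⟨d, hd, hdx⟩
  have h3 : Nat.card ↥(Q.subgroupOf (DD z t) ⊓ (th (h.hz ht)).ker) = 2 := by
    have e1 : ∀ d : DD z t, d ∈ Q.subgroupOf (DD z t) ⊓ (th (h.hz ht)).ker ↔ (d : G) = 1 ∨ (d : G) = t := by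
      intro d
      rw [mem_inf, MonoidHom.mem_ker, h.th_one ht, mem_subgroupOf]
      constructor
      · exact fun h => h.2
      · intro h'
        refine ⟨?_, h'⟩
        rcases h' with e | e
        · rw [e]; exact one_mem _
        · rw [e]; exact h.Rmem _ _ ht
    obtain ⟨t1, tz⟩ := h.ne_of ht (Or.inl U_norm)
    let dt : DD z t := h.dq (h.Rmem _ _ ht) rfl
    rw [Nat.card_eq_two_iff' (1 : ↥(Q.subgroupOf (DD z t) ⊓ (th (h.hz ht)).ker))]
    refine ⟨⟨dt, (e1 dt).2 (Or.inr rfl)⟩, ?_, ?_⟩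
    · intro e
      exact t1 (congrArg (fun w : ↥(Q.subgroupOf (DD z t) ⊓ (th (h.hz ht)).ker) => ((w : DD z t) : G)) e)
    · intro y hy
      rcases (e1 y).1 y.2 with e | e
      · exact absurd (Subtype.ext (Subtype.ext e)) hy
      · exact Subtype.ext (Subtype.ext e)
  rw [h2, h3, h.card_Qt hE ht] at h1
  omega

theorem ker_extraspecial [Finite G] (hE : IsExtraspecial 2 Q) : IsExtraspecial 2 ε.ker := by
  have : Fact (Nat.Prime 2) := ⟨Nat.prime_two⟩
  have hcen := ker_center h ht ε hk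
  have hdz : th (h.hz ht) (h.dz ht) ∈ ε.ker := (hk _).2 h.zQ
  have hdz1 : th (h.hz ht) (h.dz ht) ≠ 1 := by
    rw [Ne, h.th_one ht, dz_coe]
    obtain ⟨t1, tz⟩ := h.ne_of ht (Or.inl U_norm)
    rintro (e | e)
    · exact h.z1 e
    · exact tz e.symm
  apply CfsgLib.ExtraH28.isExtraspecial_of
  · exact IsPGroup.of_card (ker_card h ht ε hk hE)
  · rw [Nat.card_eq_two_iff' (1 : center ε.ker)]
    refine ⟨⟨⟨_, hdz⟩, (hcen _).2 (Or.inr rfl)⟩, ?_, ?_⟩
    · intro e
      exact hdz1 (congrArg (fun w : center ε.ker => ((w : ε.ker) : centralizer ({zh (h.hz ht)} : Set (↥(centralizer ({t} : Set G)) ⧸ (zpowers t).subgroupOf (centralizer ({t} : Set G)))))) e)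
    · intro y hy
      rcases (hcen _).1 y.2 with e | e
      · exact absurd (Subtype.ext (Subtype.ext e)) hy
      · exact Subtype.ext (Subtype.ext e)
  · intro x
    obtain ⟨a, ha, hax⟩ := ker_rep h ht ε hk x
    rw [hcen]
    have e1 : ((x ^ 2 : ε.ker) : centralizer ({zh (h.hz ht)} : Set (↥(centralizer ({t} : Set G)) ⧸ (zpowers t).subgroupOf (centralizer ({t} : Set G))))) = th (h.hz ht) (a * a) := by
      rw [map_mul, hax, sq]; rfl
    rw [e1]
    rcases h.sq a ha with e | e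
    · left
      rw [h.th_one ht]; exact Or.inl e
    · right
      have : th (h.hz ht) (a * a) = th (h.hz ht) (h.dz ht) ↔ ((a * a : DD z t) : G) = z ∨ ((a * a : DD z t) : G) = z * t := h.th_z ht
      rw [this]; exact Or.inl e
  · intro x y
    obtain ⟨a, ha, hax⟩ := ker_rep h ht ε hk x
    obtain ⟨b, hb, hby⟩ := ker_rep h ht ε hk y
    rw [hcen]
    have e1 : ((x * y * x⁻¹ * y⁻¹ : ε.ker) : centralizer ({zh (h.hz ht)} : Set (↥(centralizer ({t} : Set G)) ⧸ (zpowers t).subgroupOf (centralizer ({t} : Set G))))) =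
        th (h.hz ht) (a * b * a⁻¹ * b⁻¹) := by
      rw [map_mul, map_mul, map_mul, map_inv, map_inv, hax, hby]; rfl
    rw [e1]
    rcases h.cm a ha b hb with e | e
    · left
      rw [h.th_one ht]; left
      change (a : G) * b * (a : G)⁻¹ * (b : G)⁻¹ = 1
      rw [e]; group
    · right
      have : th (h.hz ht) (a * b * a⁻¹ * b⁻¹) = th (h.hz ht) (h.dz ht) ↔ ((a * b * a⁻¹ * b⁻¹ : DD z t) : G) = z ∨ ((a * b * a⁻¹ * b⁻¹ : DD z t) : G) = z * t := h.th_z ht
      rw [this]; left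
      change (a : G) * b * (a : G)⁻¹ * (b : G)⁻¹ = z
      rw [e]; group
  · obtain ⟨a, b, ha, hb, hab⟩ := h.exists_nc2 hE ht
    refine ⟨⟨_, (hk a).2 ha⟩, ⟨_, (hk b).2 hb⟩, fun e => ?_⟩
    have e1 : th (h.hz ht) a * th (h.hz ht) b = th (h.hz ht) b * th (h.hz ht) a := congrArg Subtype.val e
    rw [← map_mul, ← map_mul, h.th_eq ht] at e1
    obtain ⟨t1, tz⟩ := h.ne_of ht (Or.inl U_norm)
    have e2 : (b : G) * a = a * b ∨ (b : G) * a = a * b * t := e1
    rw [hab] at e2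
    rcases e2 with e2 | e2
    · exact h.z_ne e2
    · rw [← h.zc _ (mul_mem ha hb)] at e2
      exact tz (mul_left_cancel e2).symm

/-- equality of classes -/
theorem mk_eq {x y : LL} {a b : DD z t} (ha : R x a) (hb : R y b) :
    (QuotientGroup.mk (⟨th (h.hz ht) a, (hk a).2 (h.Rmem _ _ ha)⟩ : ε.ker) : ε.ker ⧸ center ε.ker) =
      QuotientGroup.mk (⟨th (h.hz ht) b, (hk b).2 (h.Rmem _ _ hb)⟩ : ε.ker) ↔
    (∃ u : LL, y = x + (u + u)) ∨ ∃ u : LL, y = x + (Spor.leechU + (u + u)) := by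
  rw [QuotientGroup.eq, ker_center h ht ε hk]
  have e1 : (((⟨th (h.hz ht) a, (hk a).2 (h.Rmem _ _ ha)⟩ : ε.ker)⁻¹ * (⟨th (h.hz ht) b, (hk b).2 (h.Rmem _ _ hb)⟩ : ε.ker) : ε.ker) :
      centralizer ({zh (h.hz ht)} : Set (↥(centralizer ({t} : Set G)) ⧸ (zpowers t).subgroupOf (centralizer ({t} : Set G))))) = th (h.hz ht) (a⁻¹ * b) := by
    rw [map_mul, map_inv]; rfl
  have e2 : th (h.hz ht) (a⁻¹ * b) = th (h.hz ht) (h.dz ht) ↔ ((a⁻¹ * b : DD z t) : G) = z ∨ ((a⁻¹ * b : DD z t) : G) = z * t := h.th_z ht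
  rw [e1, h.th_one ht, e2]
  have h1 : R (-x + y) ((a⁻¹ * b : DD z t) : G) := h.Radd _ _ _ _ (h.Rinv ha) hb
  have h0 : R 0 1 := (h.R0 0).2 ⟨0, (add_zero _).symm⟩
  have hz0 : R 0 z := by have := h.Rz _ _ h0; rwa [mul_one] at this
  constructor
  · rintro ((e | e) | (e | e)) <;> rw [e] at h1
    · obtain ⟨u, hu⟩ := h.Rcos h1 h0
      exact Or.inl ⟨u, by rw [zero_add] at hu; rw [← hu]; abel⟩
    · obtain ⟨u, hu⟩ := h.Rcos h1 ht
      exact Or.inr ⟨u, by rw [← hu]; abel⟩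
    · obtain ⟨u, hu⟩ := h.Rcos h1 hz0
      exact Or.inl ⟨u, by rw [zero_add] at hu; rw [← hu]; abel⟩
    · obtain ⟨u, hu⟩ := h.Rcos h1 (h.Rz _ _ ht)
      exact Or.inr ⟨u, by rw [← hu]; abel⟩
  · rintro (⟨u, hu⟩ | ⟨u, hu⟩)
    · have h2 : R (-x + y) 1 := h.Rcos' (u := u) h0 (by rw [hu]; abel)
      rcases h.R2 _ _ _ h2 h1 with e | e
      · exact Or.inl (Or.inl e)
      · exact Or.inr (Or.inl (by rw [e, mul_one]))
    · have h2 : R (-x + y) t := h.Rcos' (u := u) ht (by rw [hu]; abel)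
      rcases h.R2 _ _ _ h2 h1 with e | e
      · exact Or.inl (Or.inr e)
      · exact Or.inr (Or.inr e)

end

end MT

end CfsgLib.MT
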