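import Cfsg.Agent.EqBase
import Mathlib
import Cfsg.Agent.LibMTJ

/-!
The centralizer of a noncentral involution: final statement.
-/

set_option autoImplicit false
set_option linter.constructorNameAsVariable false

namespace CfsgLib.MT

open Cfsg CfsgLib.Co CfsgLib.Leech CfsgLib.Golay CfsgLib.LargeExtraH28 Subgroup MulAction

variable {G : Type*} [Group G]

namespace MT

variable {Q : Subgroup G} {z t : G} {R : LL → G → Prop} {π : centralizer ({z} : Set G) →* Co0 ⧸ center Co0}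

theorem perp_iff (h : MT Q z R π) (ht : R Spor.leechU t) {v : LL} {q : G} (hq : R v q) : v ∈ leechPerpU ↔ q * t = t * q := by
  rw [h.cm_iff hq ht]; rfl

theorem baby [Finite G] (h : MT Q z R π) (hE : IsExtraspecial 2 Q) {g : G} (hx : g * z * g⁻¹ ∈ Q) (hne : g * z * g⁻¹ ≠ z)
    (ht : R Spor.leechU t) [hn : ((zpowers t).subgroupOf (centralizer ({t} : Set G))).Normal] :
    IsOfBabyMonsterType (↥(centralizer ({t} : Set G)) ⧸ (zpowers t).subgroupOf (centralizer ({t} : Set G))) := by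
  have : Fact (Nat.Prime 2) := ⟨Nat.prime_two⟩
  obtain ⟨t1, tz⟩ := h.ne_of ht (Or.inl U_norm)
  obtain ⟨δ, hδ1, hδ2, hδ3⟩ := h.exists_delta ht
  have hθ := h.th_surj ht (h.hz ht)
  have hle : (th (h.hz ht)).ker ≤ δ.ker := by
    intro d hd
    rw [MonoidHom.mem_ker, h.th_one ht] at hd
    rw [MonoidHom.mem_ker, hδ3]
    rcases hd with e | e
    · rw [e]; exact one_mem _
    · rw [e]; exact h.Rmem _ _ ht
  obtain ⟨ε, hε⟩ : ∃ ε : centralizer ({zh (h.hz ht)} : Set (↥(centralizer ({t} : Set G)) ⧸ (zpowers t).subgroupOf (centralizer ({t} : Set G)))) →* Spor.Co2,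
      ∀ d, ε (th (h.hz ht) d) = δ d :=
    ⟨MonoidHom.liftOfSurjective (th (h.hz ht)) hθ ⟨δ, hle⟩, fun d =>
      MonoidHom.liftOfRightInverse_comp_apply _ _ _ ⟨δ, hle⟩ d⟩
  have hεs : Function.Surjective ε := by
    intro s
    obtain ⟨d, hd⟩ := hδ2 s
    exact ⟨th (h.hz ht) d, by rw [hε, hd]⟩
  have hk : ∀ d : DD z t, th (h.hz ht) d ∈ ε.ker ↔ (d : G) ∈ Q := by
    intro d
    rw [MonoidHom.mem_ker, hε, hδ3]
  have hδR : ∀ (d : DD z t) (v : LL) (q : G), R v q → R ((δ d : Spor.Co2) • v) ((d : G) * q * (d : G)⁻¹) := by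
    intro d v q hq
    obtain ⟨g1, hg1⟩ := QuotientGroup.mk_surjective (π (i1 d))
    have h1 := h.fix_class ht (c := i1 d) hg1.symm (Or.inl (comm_t d))
    have key : ∀ g2 : Co0, g2 • (Spor.leechU : LL) = Spor.leechU → π (i1 d) = (g2 : Co0 ⧸ center Co0) →
        R ((δ d : Spor.Co2) • v) ((d : G) * q * (d : G)⁻¹) := by
      intro g2 h2 h3
      have h4 := hδ1 d g2 h2 h3
      have h5 := h.RK (i1 d) g2 h3 v q hq
      have h6 : (δ d : Spor.Co2) • v = g2 • v := by
        change ((δ d : Spor.Co2) : Equiv.Perm LL) • v = (g2 : Equiv.Perm LL) • v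
        rw [h4]
      rw [h6]; exact h5
    rcases pm_of_Sv U_norm h1 with h2 | h2
    · exact key g1 h2 hg1.symm
    · refine key (g1 * negCo) ?_ ?_
      · rw [mul_smul, negCo_apply, act_neg, h2, neg_neg]
      · rw [← hg1]; exact mk_eq_iff.2 (Or.inr rfl)
  -- centralizer of the kernel
  have hcent : centralizer (ε.ker : Set (centralizer ({zh (h.hz ht)} : Set (↥(centralizer ({t} : Set G)) ⧸ (zpowers t).subgroupOf (centralizer ({t} : Set G)))))) ≤ ε.ker := by
    have hNn : ((centralizer (ε.ker : Set (centralizer ({zh (h.hz ht)} : Set (↥(centralizer ({t} : Set G)) ⧸ (zpowers t).subgroupOf (centralizer ({t} : Set G))))))).map ε).Normal :=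
      Subgroup.Normal.map inferInstance ε hεs
    rcases simple_SpCo2.eq_bot_or_eq_top_of_normal _ hNn with e | e
    · rwa [Subgroup.map_eq_bot_iff] at e
    · exfalso
      let s4 : Spor.Co2 := ⟨(sgn (Multiplicative.ofAdd ⟨w4, w4_mem⟩) : Co0), (sgn (Multiplicative.ofAdd ⟨w4, w4_mem⟩) : Co0).2, sgn4_U⟩
      have hs4 : s4 ∈ (centralizer (ε.ker : Set (centralizer ({zh (h.hz ht)} : Set (↥(centralizer ({t} : Set G)) ⧸ (zpowers t).subgroupOf (centralizer ({t} : Set G))))))).map ε := by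
        rw [e]; trivial
      obtain ⟨y, hy, hys⟩ := hs4
      obtain ⟨d, rfl⟩ := hθ y
      rw [hε] at hys
      obtain ⟨q, hq⟩ := h.Rex (dbw w3 w3_mem)
      have hqt : q * t = t * q := (h.cm_iff hq ht).2 dot3
      have hqQ := h.Rmem _ _ hq
      have h1 := hδR d _ _ hq
      rw [hys] at h1
      have h2 : s4 • dbw w3 w3_mem = dbw w3 w3_mem + -d34 := e34
      rw [h2] at h1
      have h3 := (mem_centralizer_iff.1 hy) (th (h.hz ht) (h.dq hqQ hqt)) ((hk _).2 hqQ)
      rw [← map_mul, ← map_mul, h.th_eq ht] at h3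
      have h4 : (d : G) * q = q * d ∨ (d : G) * q = q * d * t := h3
      have hdt := comm_t d
      rcases h4 with h4 | h4
      · have h5 : (d : G) * q * (d : G)⁻¹ = q := by rw [h4]; group
        rw [h5] at h1
        obtain ⟨u, hu⟩ := h.Rcos h1 hq
        refine not_double (v := -d34) (Or.inl ?_) ⟨u, ?_⟩
        · rw [show ((-d34 : LL) : E) = -(d34 : E) from rfl, sqNorm_neg, d34_norm]
        · exact add_left_cancel hu
      · have h5 : (d : G) * q * (d : G)⁻¹ = q * t := by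
          calc (d : G) * q * (d : G)⁻¹ = q * (d * t) * (d : G)⁻¹ := by rw [h4]; group
            _ = q * t := by rw [hdt]; group
        rw [h5] at h1
        obtain ⟨u, hu⟩ := h.Rcos (h.Radd _ _ _ _ hq ht) h1
        refine not_double (v := d34 + Spor.leechU) (Or.inr (Or.inr d34_U)) ⟨u, ?_⟩
        have : (dbw w3 w3_mem : LL) + (d34 + Spor.leechU) = dbw w3 w3_mem + (u + u) := by
          calc (dbw w3 w3_mem : LL) + (d34 + Spor.leechU) = (dbw w3 w3_mem + Spor.leechU) + d34 := by abel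
            _ = (dbw w3 w3_mem + -d34 + (u + u)) + d34 := by rw [hu]
            _ = _ := by abel
        exact add_left_cancel this
  have hzh1 : zh (h.hz ht) ≠ 1 := by
    intro e
    have e1 : th (h.hz ht) (h.dz ht) = 1 := Subtype.ext e
    rw [h.th_one ht, dz_coe] at e1
    rcases e1 with e1 | e1
    · exact h.z1 e1
    · exact tz e1.symm
  -- the module map
  have hex : ∀ x : leechPerpU, ∃ d : DD z t, R (x : LL) (d : G) := by
    intro x
    obtain ⟨q, hq⟩ := h.Rex (x : LL)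
    exact ⟨h.dq (h.Rmem _ _ hq) ((h.perp_iff ht hq).1 x.2), hq⟩
  choose fd hfd using hex
  refine ⟨zh (h.hz ht), ε.ker, inferInstance, ⟨?_, ?_, ker_extraspecial h ht ε hk hE, ker_card h ht ε hk hE, ?_⟩,
    QuotientGroup.quotientKerEquivOfSurjective ε hεs,
    fun x => QuotientGroup.mk (⟨th (h.hz ht) (fd x), (hk _).2 (h.Rmem _ _ (hfd x))⟩ : ε.ker), ?_, ?_, ?_, ?_⟩
  · apply orderOf_eq_prime _ hzh1
    rw [sq, zh, ← QuotientGroup.mk_mul]
    have : (⟨z, h.hz ht⟩ * ⟨z, h.hz ht⟩ : centralizer ({t} : Set G)) = 1 := Subtype.ext h.zz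
    rw [this]; rfl
  · exact gfit_of ε hεs simple_SpCo2 nc_SpCo2 (IsPGroup.of_card (ker_card h ht ε hk hE)) hcent
  · obtain ⟨n, hnt, hnQ, hnz⟩ := h.exists_swap hE hx hne ht
    have hxt : (n * z * n⁻¹) * t = t * (n * z * n⁻¹) := by
      have hzt : z * t = t * z := (h.zc t (h.Rmem _ _ ht)).symm
      have hnt' : n⁻¹ * t = t * n⁻¹ := by
        calc n⁻¹ * t = n⁻¹ * (t * n) * n⁻¹ := by group
          _ = t * n⁻¹ := by rw [← hnt]; group
      calc (n * z * n⁻¹) * t = n * z * (n⁻¹ * t) := by group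
        _ = n * (z * t) * n⁻¹ := by rw [hnt']; group
        _ = (n * t) * z * n⁻¹ := by rw [hzt]; group
        _ = t * (n * z * n⁻¹) := by rw [hnt]; group
    let nn : centralizer ({t} : Set G) := ⟨n, mem_centralizer_singleton_iff.2 hnt⟩
    let dx : DD z t := h.dq hnQ hxt
    have e1 : (QuotientGroup.mk nn : ↥(centralizer ({t} : Set G)) ⧸ (zpowers t).subgroupOf (centralizer ({t} : Set G))) * zh (h.hz ht) * (QuotientGroup.mk nn)⁻¹ =
        ((th (h.hz ht) dx : centralizer ({zh (h.hz ht)} : Set (↥(centralizer ({t} : Set G)) ⧸ (zpowers t).subgroupOf (centralizer ({t} : Set G))))) :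
          ↥(centralizer ({t} : Set G)) ⧸ (zpowers t).subgroupOf (centralizer ({t} : Set G))) := by
      rw [th_coe, zh, ← QuotientGroup.mk_inv, ← QuotientGroup.mk_mul, ← QuotientGroup.mk_mul]
      rfl
    refine ⟨QuotientGroup.mk nn, ⟨?_, ?_⟩, ?_⟩
    · rw [e1]; exact (th (h.hz ht) dx).2
    · exact (hk dx).2 hnQ
    · rw [e1]
      intro e2
      have e3 : th (h.hz ht) dx = th (h.hz ht) (h.dz ht) := Subtype.ext e2
      have e4 : th (h.hz ht) dx = th (h.hz ht) (h.dz ht) ↔ (dx : G) = z ∨ (dx : G) = z * t := h.th_z ht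
      rw [e4] at e3
      rcases e3 with e3 | e3
      · exact hnz e3
      · exact h.cz ht e3
  · intro x y
    have h1 : R ((x : LL) + (y : LL)) ((fd x * fd y : DD z t) : G) := h.Radd _ _ _ _ (hfd x) (hfd y)
    have h2 := (mk_eq h ht ε hk (hfd (x + y)) h1).2 (Or.inl ⟨0, by rw [AddSubgroup.coe_add]; simp⟩)
    refine h2.trans ?_
    rw [← QuotientGroup.mk_mul]
    congr 1
  · intro y
    obtain ⟨y, rfl⟩ := QuotientGroup.mk_surjective y
    obtain ⟨a, ha, hay⟩ := ker_rep h ht ε hk y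
    obtain ⟨v, hv⟩ := h.Rex' _ ha
    have hvp : v ∈ leechPerpU := (h.perp_iff ht hv).2 (comm_t a)
    refine ⟨⟨v, hvp⟩, ?_⟩
    have h2 := (mk_eq h ht ε hk (hfd ⟨v, hvp⟩) hv).2 (Or.inl ⟨0, by simp⟩)
    refine h2.trans ?_
    congr 1
    exact Subtype.ext hay
  · intro x
    have h0 : R 0 ((1 : DD z t) : G) := (h.R0 0).2 ⟨0, (add_zero _).symm⟩
    have h1 := mk_eq h ht ε hk h0 (hfd x)
    have h2 : (QuotientGroup.mk (⟨th (h.hz ht) 1, (hk 1).2 (h.Rmem _ _ h0)⟩ : ε.ker) : ε.ker ⧸ center ε.ker) = 1 := by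
      have : (⟨th (h.hz ht) 1, (hk 1).2 (h.Rmem _ _ h0)⟩ : ε.ker) = 1 := Subtype.ext (map_one _)
      rw [this]; rfl
    rw [h2, eq_comm] at h1
    refine h1.trans ?_
    simp only [zero_add]
  · intro c s hcs x y hxy q hq
    obtain ⟨d, hd⟩ := hθ c
    obtain ⟨a, ha, haq⟩ := ker_rep h ht ε hk q
    obtain ⟨v, hv⟩ := h.Rex' _ ha
    have hsd : s = δ d := by
      rw [← hcs, ← hε, hd]; rfl
    -- choose the representative with the right class
    have hrep : ∃ b : DD z t, R (x : LL) (b : G) ∧ th (h.hz ht) b = q := by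
      have h1 : (QuotientGroup.mk (⟨th (h.hz ht) a, (hk a).2 (h.Rmem _ _ hv)⟩ : ε.ker) : ε.ker ⧸ center ε.ker) = QuotientGroup.mk q := by
        congr 1
        exact Subtype.ext haq
      have h2 := (mk_eq h ht ε hk hv (hfd x)).1 (h1.trans hq.symm)
      rcases h2 with ⟨u, hu⟩ | ⟨u, hu⟩
      · exact ⟨a, h.Rcos' hv hu, haq⟩
      · refine ⟨a * h.dq (h.Rmem _ _ ht) rfl, ?_, ?_⟩
        · exact h.Rcos' (u := u) (h.Radd _ _ _ _ hv ht) (by rw [hu]; abel)
        · rw [← haq, h.th_eq ht]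
          right
          change (a : G) = a * t * t
          rw [mul_assoc, h.tt ht, mul_one]
    obtain ⟨b, hb, hbq⟩ := hrep
    have h3 := hδR d _ _ hb
    rw [← hsd, hxy] at h3
    have h4 := (mk_eq h ht ε hk (hfd y) (b := d * b * d⁻¹) h3).2 (Or.inl ⟨0, by simp⟩)
    refine h4.trans ?_
    congr 1
    apply Subtype.ext
    change th (h.hz ht) (d * b * d⁻¹) = c * (q : centralizer ({zh (h.hz ht)} : Set (↥(centralizer ({t} : Set G)) ⧸ (zpowers t).subgroupOf (centralizer ({t} : Set G))))) * c⁻¹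
    rw [map_mul, map_mul, map_inv, hd, hbq]

end MT

end CfsgLib.MT
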