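import Mathlib

set_option autoImplicit false

namespace Cfsg.Agent.LibMTrans

open MulAction

theorem apply_inv {α : Type*} (h : Equiv.Perm α) (x : α) : h (h⁻¹ x) = x := h.apply_symm_apply x

theorem inv_apply {α : Type*} (h : Equiv.Perm α) (x : α) : h⁻¹ (h x) = x := h.symm_apply_apply x

theorem exists_smul_eq {G α : Type*} [Group G] [MulAction G α] {k : ℕ}
    (h : IsMultiplyPretransitive G α k) (B : Finset α) (hB : B.card = k)
    (f : α → α) (hf : Set.InjOn f B) : ∃ g : G, ∀ b ∈ B, g • b = f b := by
  classical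
  let e : Fin k ≃ B := (B.equivFinOfCardEq hB).symm
  let x : Fin k ↪ α := e.toEmbedding.trans (Function.Embedding.subtype _)
  let y : Fin k ↪ α := ⟨fun i => f (e i), fun i j hij => by
    have := hf (e i).2 (e j).2 hij
    exact e.injective (Subtype.ext this)⟩
  obtain ⟨g, hg⟩ := h.exists_smul_eq x y
  refine ⟨g, fun b hb => ?_⟩
  have h1 := DFunLike.congr_fun hg (e.symm ⟨b, hb⟩)
  have h2 : x (e.symm ⟨b, hb⟩) = b := by
    change ((e (e.symm ⟨b, hb⟩) : B) : α) = b
    rw [Equiv.apply_symm_apply]
  have h3 : y (e.symm ⟨b, hb⟩) = f b := by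
    change f ((e (e.symm ⟨b, hb⟩) : B) : α) = f b
    rw [Equiv.apply_symm_apply]
  rw [h3] at h1
  rw [← h1]
  change g • b = g • x (e.symm ⟨b, hb⟩)
  rw [h2]

theorem exists_smul_eq' {G α : Type*} [Group G] [MulAction G α] [Finite α] {k : ℕ}
    (h : IsMultiplyPretransitive G α k) (hk : k ≤ Nat.card α) (B : Finset α) (hB : B.card ≤ k)
    (f : α → α) (hf : Set.InjOn f B) : ∃ g : G, ∀ b ∈ B, g • b = f b := by
  have : IsMultiplyPretransitive G α B.card := isMultiplyPretransitive_of_le hB hk
  exact exists_smul_eq this B rfl f hf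

/-- fix `A` pointwise and send `b` to `c`. -/
theorem exists_fix {G α : Type*} [Group G] [MulAction G α] [Finite α] [DecidableEq α] {k : ℕ}
    (h : IsMultiplyPretransitive G α k) (hk : k ≤ Nat.card α) (A : Finset α) (hA : A.card + 1 ≤ k)
    {b c : α} (hb : b ∉ A) (hc : c ∉ A) : ∃ g : G, (∀ a ∈ A, g • a = a) ∧ g • b = c := by
  obtain ⟨g, hg⟩ := exists_smul_eq' h hk (insert b A) (by rw [Finset.card_insert_of_notMem hb]; exact hA)
    (fun x => if x = b then c else x) (by
      intro x hx y hy hxy
      simp only [Finset.coe_insert, Set.mem_insert_iff, Finset.mem_coe] at hx hy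
      by_cases h1 : x = b
      · by_cases h2 : y = b
        · rw [h1, h2]
        · simp only [h1, h2, if_true, if_false] at hxy
          rcases hy with hy | hy
          · exact absurd hy h2
          · exact absurd (hxy ▸ hy) hc
      · by_cases h2 : y = b
        · simp only [h1, h2, if_true, if_false] at hxy
          rcases hx with hx | hx
          · exact absurd hx h1
          · exact absurd (hxy ▸ hx) hc
        · simpa only [h1, h2, if_false] using hxy)
  refine ⟨g, fun a ha => ?_, ?_⟩
  · have := hg a (Finset.mem_insert_of_mem ha)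
    rw [this, if_neg]
    rintro rfl
    exact hb ha
  · have := hg b (Finset.mem_insert_self _ _)
    rw [this, if_pos rfl]

end Cfsg.Agent.LibMTrans
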