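import Cfsg.Prelude.Def_AxialAlgebras
import Mathlib

/-! Majorana axes: eigenvectors, fusion rules, the product of two commuting Majorana involutions. -/

open Cfsg Cfsg.Axial

namespace CfsgLib.Maj28

variable {V : Type*} [AddCommGroup V] [Module ℝ V] {mul : V →ₗ[ℝ] V →ₗ[ℝ] V} {B : LinearMap.BilinForm ℝ V}

theorem mem_eigen {a v : V} {c : ℝ} : v ∈ eigen mul a c ↔ mul a v = c • v := Module.End.mem_eigenspace_iff

theorem mem_sum1 {a v : V} {c : ℝ} : v ∈ eigenSum mul a {c} ↔ mul a v = c • v := by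
  unfold eigenSum
  rw [iSup_singleton, mem_eigen]

theorem sum_insert {a : V} {c : ℝ} {S : Set ℝ} : eigenSum mul a (insert c S) = eigen mul a c ⊔ eigenSum mul a S := by
  unfold eigenSum
  rw [iSup_insert]

theorem mem_sum2 {a v : V} {c d : ℝ} (h : v ∈ eigenSum mul a {c, d}) :
    ∃ x y, mul a x = c • x ∧ mul a y = d • y ∧ v = x + y := by
  rw [sum_insert, Submodule.mem_sup] at h
  obtain ⟨x, hx, y, hy, rfl⟩ := h
  exact ⟨x, y, mem_eigen.1 hx, mem_sum1.1 hy, rfl⟩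

theorem mem_sum3 {a v : V} {c d e : ℝ} (h : v ∈ eigenSum mul a {c, d, e}) :
    ∃ x y z, mul a x = c • x ∧ mul a y = d • y ∧ mul a z = e • z ∧ v = x + y + z := by
  rw [sum_insert, Submodule.mem_sup] at h
  obtain ⟨x, hx, r, hr, rfl⟩ := h
  obtain ⟨y, z, hy, hz, rfl⟩ := mem_sum2 hr
  exact ⟨x, y, z, mem_eigen.1 hx, hy, hz, by rw [add_assoc]⟩

/-- the usable facts about a Majorana axis -/
structure Ax (mul : V →ₗ[ℝ] V →ₗ[ℝ] V) (B : LinearMap.BilinForm ℝ V) (μ : V ≃ₗ[ℝ] V) (a : V) : Prop where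
  ne : a ≠ 0
  idem : mul a a = a
  mmul : ∀ u v : V, μ (mul u v) = mul (μ u) (μ v)
  mform : ∀ u v : V, B (μ u) (μ v) = B u v
  one : ∀ v, mul a v = v → ∃ c : ℝ, v = c • a
  decomp : ∀ v, ∃ (c : ℝ) (x y z : V), mul a x = 0 ∧ mul a y = (1 / 4 : ℝ) • y ∧ mul a z = (1 / 32 : ℝ) • z ∧ v = c • a + x + y + z
  fix1 : μ a = a
  fix0 : ∀ x, mul a x = 0 → μ x = x
  fix4 : ∀ x, mul a x = (1 / 4 : ℝ) • x → μ x = x
  neg32 : ∀ x, mul a x = (1 / 32 : ℝ) • x → μ x = - x
  f00 : ∀ x y, mul a x = 0 → mul a y = 0 → mul a (mul x y) = 0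
  f04 : ∀ x y, mul a x = 0 → mul a y = (1 / 4 : ℝ) • y → mul a (mul x y) = (1 / 4 : ℝ) • mul x y
  f44 : ∀ x y, mul a x = (1 / 4 : ℝ) • x → mul a y = (1 / 4 : ℝ) • y → ∃ (c : ℝ) (z : V), mul a z = 0 ∧ mul x y = c • a + z

theorem law00 : monsterLaw (1 / 4 : ℝ) (1 / 32) 0 0 = {0} := by
  unfold monsterLaw; norm_num

theorem law04 : monsterLaw (1 / 4 : ℝ) (1 / 32) 0 (1 / 4) = {1 / 4} := by
  unfold monsterLaw; norm_num

theorem law44 : monsterLaw (1 / 4 : ℝ) (1 / 32) (1 / 4) (1 / 4) = {1, 0} := by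
  unfold monsterLaw; norm_num

theorem ax_of_pair {μ : V ≃ₗ[ℝ] V} {a : V} (h : IsMajoranaPair mul B μ a) : Ax mul B μ a := by
  obtain ⟨h1, h2, ⟨⟨h3, h4, h5, h6⟩, h7⟩, h8, h9⟩ := h
  have hone : ∀ v, mul a v = v → ∃ c : ℝ, v = c • a := by
    intro v hv
    have : v ∈ eigen mul a 1 := mem_eigen.2 (by rw [one_smul]; exact hv)
    rw [h7, Submodule.mem_span_singleton] at this
    obtain ⟨c, hc⟩ := this
    exact ⟨c, hc.symm⟩
  have m0 : (0 : ℝ) ∈ majoranaSpectrum := by unfold majoranaSpectrum; simp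
  have m4 : (1 / 4 : ℝ) ∈ majoranaSpectrum := by unfold majoranaSpectrum; simp
  have hle : ∀ c ∈ ({1, 0, 1 / 4} : Set ℝ), ∀ v, mul a v = c • v → μ v = v := by
    intro c hc v hv
    apply h8
    unfold eigenSum
    exact Submodule.mem_iSup_of_mem c (Submodule.mem_iSup_of_mem hc (mem_eigen.2 hv))
  refine ⟨h3, h4, h1, h2, hone, ?_, hle 1 (by simp) a (by rw [one_smul]; exact h4), ?_, ?_, ?_, ?_, ?_, ?_⟩
  · intro v
    have hv : v ∈ eigenSum mul a majoranaSpectrum := by rw [h5]; trivial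
    unfold majoranaSpectrum at hv
    rw [sum_insert, Submodule.mem_sup] at hv
    obtain ⟨w, hw, r, hr, rfl⟩ := hv
    obtain ⟨x, y, z, hx, hy, hz, rfl⟩ := mem_sum3 hr
    rw [mem_eigen, one_smul] at hw
    obtain ⟨c, rfl⟩ := hone w hw
    exact ⟨c, x, y, z, by rw [hx, zero_smul], hy, hz, by abel⟩
  · intro x hx
    exact hle 0 (by simp) x (by rw [hx, zero_smul])
  · intro x hx
    exact hle (1 / 4) (by simp) x hx
  · intro x hx
    exact h9 x (mem_eigen.2 hx)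
  · intro x y hx hy
    have := h6 0 m0 0 m0 x (mem_eigen.2 (by rw [hx, zero_smul])) y (mem_eigen.2 (by rw [hy, zero_smul]))
    rw [law00, mem_sum1, zero_smul] at this
    exact this
  · intro x y hx hy
    have := h6 0 m0 (1 / 4) m4 x (mem_eigen.2 (by rw [hx, zero_smul])) y (mem_eigen.2 hy)
    rw [law04, mem_sum1] at this
    exact this
  · intro x y hx hy
    have := h6 (1 / 4) m4 (1 / 4) m4 x (mem_eigen.2 hx) y (mem_eigen.2 hy)
    rw [law44] at this
    obtain ⟨u, z, hu, hz, h⟩ := mem_sum2 this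
    rw [one_smul] at hu
    rw [zero_smul] at hz
    obtain ⟨c, rfl⟩ := hone u hu
    exact ⟨c, z, hz, h⟩

/-- orthogonality of eigenvectors -/
theorem orth (hV : IsMajoranaAmbient mul B) {a u v : V} {c d : ℝ} (hcd : c ≠ d) (hu : mul a u = c • u) (hv : mul a v = d • v) :
    B u v = 0 := by
  obtain ⟨hc, hs, hp, ha, _⟩ := hV
  have h1 := ha u a v
  rw [hv, hc u a, hu] at h1
  simp only [map_smul, LinearMap.smul_apply, smul_eq_mul] at h1
  have : (c - d) * B u v = 0 := by linarith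
  rcases mul_eq_zero.1 this with h | h
  · exact absurd (by linarith) hcd
  · exact h

theorem pos_zero (hV : IsMajoranaAmbient mul B) {u : V} (h : B u u = 0) : u = 0 := by
  by_contra hne
  have := hV.2.2.1 u hne
  linarith

/-! ### transport -/

theorem eigen_map {ν : V ≃ₗ[ℝ] V} (hν : ∀ u v : V, ν (mul u v) = mul (ν u) (ν v)) (a : V) (c : ℝ) :
    eigen mul (ν a) c = (eigen mul a c).map (ν : V →ₗ[ℝ] V) := by
  ext v
  rw [mem_eigen, Submodule.mem_map]
  constructor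
  · intro h
    refine ⟨ν.symm v, ?_, LinearEquiv.apply_symm_apply ν v⟩
    rw [mem_eigen]
    apply ν.injective
    rw [hν, map_smul, LinearEquiv.apply_symm_apply, h]
  · rintro ⟨w, hw, rfl⟩
    rw [mem_eigen] at hw
    show mul (ν a) (ν w) = c • ν w
    rw [← hν, hw, map_smul]

theorem eigenSum_map {ν : V ≃ₗ[ℝ] V} (hν : ∀ u v : V, ν (mul u v) = mul (ν u) (ν v)) (a : V) (S : Set ℝ) :
    eigenSum mul (ν a) S = (eigenSum mul a S).map (ν : V →ₗ[ℝ] V) := by
  unfold eigenSum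
  simp only [eigen_map hν, Submodule.map_iSup]

/-- automorphisms carry Majorana pairs to Majorana pairs -/
theorem pair_conj {μ ν : V ≃ₗ[ℝ] V} {a : V} (h : IsMajoranaPair mul B μ a) (hν : ∀ u v : V, ν (mul u v) = mul (ν u) (ν v))
    (hνB : ∀ u v : V, B (ν u) (ν v) = B u v) : IsMajoranaPair mul B (ν * μ * ν⁻¹) (ν a) := by
  obtain ⟨h1, h2, ⟨⟨h3, h4, h5, h6⟩, h7⟩, h8, h9⟩ := h
  have hsymm : ∀ v, ν (ν⁻¹ v) = v := fun v => LinearEquiv.apply_symm_apply ν v
  have hsymm2 : ∀ v, ν⁻¹ (ν v) = v := fun v => LinearEquiv.symm_apply_apply ν v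
  have hν' : ∀ u v : V, ν⁻¹ (mul u v) = mul (ν⁻¹ u) (ν⁻¹ v) := by
    intro u v
    apply ν.injective
    rw [hν, hsymm, hsymm, hsymm]
  have hνB' : ∀ u v : V, B (ν⁻¹ u) (ν⁻¹ v) = B u v := by
    intro u v
    rw [← hνB, hsymm, hsymm]
  refine ⟨?_, ?_, ⟨⟨?_, ?_, ?_, ?_⟩, ?_⟩, ?_, ?_⟩
  · intro u v
    show ν (μ (ν⁻¹ (mul u v))) = mul (ν (μ (ν⁻¹ u))) (ν (μ (ν⁻¹ v)))
    rw [hν', h1, hν]
  · intro u v
    show B (ν (μ (ν⁻¹ u))) (ν (μ (ν⁻¹ v))) = B u v
    rw [hνB, h2, hνB']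
  · intro h
    exact h3 (ν.injective (by rw [h, map_zero]))
  · rw [← hν, h4]
  · rw [eigenSum_map hν, h5, Submodule.map_top, LinearMap.range_eq_top]
    exact ν.surjective
  · intro c hc d hd u hu v hv
    rw [eigen_map hν] at hu hv
    obtain ⟨u, hu, rfl⟩ := hu
    obtain ⟨v, hv, rfl⟩ := hv
    rw [eigenSum_map hν]
    refine ⟨mul u v, h6 c hc d hd u hu v hv, ?_⟩
    exact hν u v
  · rw [eigen_map hν, h7, Submodule.map_span, Set.image_singleton]; rfl
  · intro v hv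
    rw [eigenSum_map hν] at hv
    obtain ⟨v, hv, rfl⟩ := hv
    show ν (μ (ν⁻¹ (ν v))) = ν v
    rw [hsymm2]
    exact congrArg ν (h8 v hv)
  · intro v hv
    rw [eigen_map hν] at hv
    obtain ⟨v, hv, rfl⟩ := hv
    show ν (μ (ν⁻¹ (ν v))) = - ν v
    rw [hsymm2, ← map_neg]
    exact congrArg ν (h9 v hv)

/-! ### two commuting Majorana involutions -/

theorem half (hV : IsMajoranaAmbient mul B) {μ : V ≃ₗ[ℝ] V} {a b : V} (hx : Ax mul B μ a) (hb : mul b b = b)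
    (hfix : μ b = b) (ha1 : B a a = 1) :
    mul a (mul a b) = (1 / 4 : ℝ) • (mul a b + (3 * B a b) • a) ∧
    (2 : ℝ) • mul (b + (3 * B a b) • a - (4 : ℝ) • mul a b) (mul a b - (B a b) • a) = (1 - B a b / 2) • (mul a b - (B a b) • a) ∧
    (B a b = 0 → mul a b = 0) := by
  obtain ⟨hc, hs, hp, ha, _⟩ := id hV
  obtain ⟨c, x, y, z, h0, h4, h32, hb'⟩ := hx.decomp b
  have hz : z = 0 := by
    have h1 := hfix
    rw [hb', map_add, map_add, map_add, map_smul, hx.fix1, hx.fix0 x h0, hx.fix4 y h4, hx.neg32 z h32] at h1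
    have h2 : (2 : ℝ) • z = 0 := by
      have : (2 : ℝ) • z = (c • a + x + y + z) - (c • a + x + y + -z) := by module
      rw [this, h1, sub_self]
    rcases smul_eq_zero.1 h2 with h | h
    · norm_num at h
    · exact h
  rw [hz, add_zero] at hb'
  have o1 := orth hV (c := 1) (d := 1 / 4) (by norm_num) (show mul a a = (1 : ℝ) • a by rw [hx.idem, one_smul]) h4
  have o3 := orth hV (c := 1) (d := 0) (by norm_num) (show mul a a = (1 : ℝ) • a by rw [hx.idem, one_smul]) (show mul a x = (0 : ℝ) • x by rw [h0, zero_smul])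
  have o5 := orth hV (c := 0) (d := 1 / 4) (by norm_num) (show mul a x = (0 : ℝ) • x by rw [h0, zero_smul]) h4
  have hpc : B a b = c := by
    rw [hb', map_add, map_add, map_smul, ha1, o1, o3, smul_eq_mul]; ring
  have hab : mul a b = c • a + (1 / 4 : ℝ) • y := by
    rw [hb', map_add, map_add, map_smul, hx.idem, h0, h4, add_zero]
  have ex : b + (3 * c) • a - (4 : ℝ) • mul a b = x := by
    rw [hab]
    conv_lhs => rw [hb']
    module
  have ey : mul a b - c • a = (1 / 4 : ℝ) • y := by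
    rw [hab]; module
  obtain ⟨c', w, hw, hyy⟩ := hx.f44 y y h4 h4
  have hxy := hx.f04 x y h0 h4
  have hxx := hx.f00 x x h0 h0
  -- `b * b = b`
  have hbb : c • a + x + y = (c * c + c') • a + (mul x x + w) + ((c / 2) • y + (2 : ℝ) • mul x y) := by
    have h1 := hb
    rw [hb'] at h1
    rw [← h1]
    simp only [map_add, LinearMap.add_apply, map_smul, LinearMap.smul_apply, hx.idem, h0, h4, hyy]
    rw [hc x a, hc y a, hc y x, h0, h4]
    module
  refine ⟨?_, ?_, ?_⟩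
  · rw [hpc, hab, map_add, map_smul, map_smul, hx.idem, h4]
    module
  · rw [hpc, ex, ey]
    have e1 := congrArg (mul a) hbb
    have e2 := congrArg (mul a) e1
    simp only [map_add, map_smul, hx.idem, h0, h4, hw, hxx, hxy, add_zero] at e1 e2
    -- subtract
    have e3 : y = (c / 2) • y + (2 : ℝ) • mul x y := by
      have h1 : (3 / 16 : ℝ) • y = (3 / 16 : ℝ) • ((c / 2) • y + (2 : ℝ) • mul x y) := by
        have h2 : (3 / 16 : ℝ) • y = (c • a + (1 / 4 : ℝ) • y) - (c • a + (1 / 4 : ℝ) • (1 / 4 : ℝ) • y) := by module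
        rw [h2, e1, e2]; module
      have h3 := congrArg (fun t => (16 / 3 : ℝ) • t) h1
      simp only [smul_smul] at h3
      norm_num at h3
      exact h3
    rw [map_smul]
    have h4' : (2 : ℝ) • mul x y = (1 - c / 2) • y := by
      have : (2 : ℝ) • mul x y = ((c / 2) • y + (2 : ℝ) • mul x y) - (c / 2) • y := by module
      rw [this, ← e3]; module
    have : (2 : ℝ) • (1 / 4 : ℝ) • mul x y = (1 / 4 : ℝ) • (2 : ℝ) • mul x y := by module
    rw [this, h4']; module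
  · rw [hpc]
    intro h
    have h1 : B a b = B (mul a b) b := by
      conv_lhs => rw [← hb]
      exact ha a b b
    rw [hpc, hab, h, zero_smul, zero_add, map_smul, LinearMap.smul_apply] at h1
    have h2 : B y b = B y y := by
      rw [hb', map_add, map_add, map_smul, hs y a, o1, hs y x, o5]; simp
    rw [h2, smul_eq_mul] at h1
    have h3 : y = 0 := pos_zero hV (by linarith)
    rw [hab, h, h3]; simp

theorem sq_s {a b s : V} {p : ℝ} (hc : IsCommMul mul) (haa : mul a a = a) (hab : mul a b = s)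
    (A1 : mul a s = (1 / 4 : ℝ) • (s + (3 * p) • a)) (B1 : mul b s = (1 / 4 : ℝ) • (s + (3 * p) • b))
    (A2 : (2 : ℝ) • mul (b + (3 * p) • a - (4 : ℝ) • s) (s - p • a) = (1 - p / 2) • (s - p • a)) :
    (8 : ℝ) • mul s s = (2 * p - 1 / 2) • s + (3 / 2 * p) • b + (4 * p ^ 2 + p) • a := by
  have h1 : mul (b + (3 * p) • a - (4 : ℝ) • s) (s - p • a) = mul b s - p • mul b a + (3 * p) • mul a s - (3 * p * p) • mul a a
      - (4 : ℝ) • mul s s + (4 * p) • mul s a := by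
    simp only [map_sub, map_add, map_smul, LinearMap.sub_apply, LinearMap.add_apply, LinearMap.smul_apply]
    module
  rw [h1, hc b a, hc s a, haa, hab, A1, B1] at A2
  have h2 : (8 : ℝ) • mul s s = (2 : ℝ) • ((1 / 4 : ℝ) • (s + (3 * p) • b) - p • s + (3 * p) • (1 / 4 : ℝ) • (s + (3 * p) • a) - (3 * p * p) • a
      + (4 * p) • (1 / 4 : ℝ) • (s + (3 * p) • a)) - (2 : ℝ) • ((1 / 4 : ℝ) • (s + (3 * p) • b) - p • s + (3 * p) • (1 / 4 : ℝ) • (s + (3 * p) • a) - (3 * p * p) • a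
      - (4 : ℝ) • mul s s + (4 * p) • (1 / 4 : ℝ) • (s + (3 * p) • a)) := by module
  rw [h2, A2]
  module

/-- two commuting Majorana involutions -/
theorem commuting (hV : IsMajoranaAmbient mul B) {μ₀ μ₁ : V ≃ₗ[ℝ] V} {a b : V} (h₀ : Ax mul B μ₀ a) (h₁ : Ax mul B μ₁ b)
    (f₀ : μ₀ b = b) (f₁ : μ₁ a = a) (hn₀ : B a a = 1) (hn₁ : B b b = 1) (hne : a ≠ b) :
    (B a b = 0 ∧ mul a b = 0) ∨ (B a b = 1 / 8 ∧
      mul (a + b - (8 : ℝ) • mul a b) (a + b - (8 : ℝ) • mul a b) = a + b - (8 : ℝ) • mul a b ∧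
      mul a (a + b - (8 : ℝ) • mul a b) = (1 / 8 : ℝ) • (a + (a + b - (8 : ℝ) • mul a b) - b) ∧
      mul b (a + b - (8 : ℝ) • mul a b) = (1 / 8 : ℝ) • (b + (a + b - (8 : ℝ) • mul a b) - a)) := by
  obtain ⟨hc, hs, hp, ha, _⟩ := id hV
  obtain ⟨A1, A2, A3⟩ := half hV h₀ h₁.idem f₀ hn₀
  obtain ⟨B1, B2, _⟩ := half hV h₁ h₀.idem f₁ hn₁
  obtain ⟨s, hs'⟩ : ∃ s, s = mul a b := ⟨_, rfl⟩
  obtain ⟨p, hp'⟩ : ∃ p, p = B a b := ⟨_, rfl⟩
  rw [hs b a, hc b a] at B1 B2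
  rw [← hs', ← hp'] at A1 A2 A3 B1 B2 ⊢
  have S1 := sq_s hc h₀.idem hs'.symm A1 B1 A2
  have S2 := sq_s hc h₁.idem (by rw [hc, hs'] : mul b a = s) B1 A1 B2
  have h3 : (p / 2 - 4 * p ^ 2) • (b - a) = 0 := by
    have : (p / 2 - 4 * p ^ 2) • (b - a) = ((2 * p - 1 / 2) • s + (3 / 2 * p) • b + (4 * p ^ 2 + p) • a) -
      ((2 * p - 1 / 2) • s + (3 / 2 * p) • a + (4 * p ^ 2 + p) • b) := by module
    rw [this, ← S1, ← S2, sub_self]
  rcases smul_eq_zero.1 h3 with h3 | h3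
  · have h4 : p * (p - 1 / 8) = 0 := by linarith
    rcases mul_eq_zero.1 h4 with h4 | h4
    · left; exact ⟨h4, A3 h4⟩
    · right
      have h5 : p = 1 / 8 := by linarith
      rw [h5] at A1 B1 S1
      have S3 : mul s s = (1 / 8 : ℝ) • ((2 * (1 / 8) - 1 / 2 : ℝ) • s + (3 / 2 * (1 / 8) : ℝ) • b + (4 * (1 / 8) ^ 2 + 1 / 8 : ℝ) • a) := by
        rw [← S1, smul_smul]; norm_num
      have hba : mul b a = s := by rw [hc, hs']
      refine ⟨h5, ?_, ?_, ?_⟩
      · have e : mul (a + b - (8 : ℝ) • s) (a + b - (8 : ℝ) • s) = mul a a + mul b b + (2 : ℝ) • mul a b - (16 : ℝ) • mul a s - (16 : ℝ) • mul b s + (64 : ℝ) • mul s s := by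
          simp only [map_sub, map_add, map_smul, LinearMap.sub_apply, LinearMap.add_apply, LinearMap.smul_apply]
          rw [hc s a, hc s b, hc b a]
          module
        rw [e, h₀.idem, h₁.idem, ← hs', A1, B1, S3]
        module
      · rw [map_sub, map_add, map_smul, h₀.idem, A1, ← hs']; module
      · rw [map_sub, map_add, map_smul, h₁.idem, B1, hba]; module
  · exact absurd (sub_eq_zero.1 h3).symm hne

end CfsgLib.Maj28
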