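import Mathlib
import Cfsg.Prelude

set_option autoImplicit false

/-! Majorana axes: elementary form (helper28). -/

namespace CfsgLib.Maj28

open Cfsg Cfsg.Axial

variable {V : Type*} [AddCommGroup V] [Module ℝ V]

structure Ax (m : V →ₗ[ℝ] V →ₗ[ℝ] V) (B : LinearMap.BilinForm ℝ V) (μ : V ≃ₗ[ℝ] V) (a : V) : Prop where
  mm : ∀ u v, μ (m u v) = m (μ u) (μ v)
  iso : ∀ u v, B (μ u) (μ v) = B u v
  nrm : B a a = 1
  idem : m a a = a
  dec : ∀ v, ∃ z q h, v = B a v • a + z + q + h ∧ m a z = 0 ∧ m a q = (1/4 : ℝ) • q ∧ m a h = (1/32 : ℝ) • h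
  fa : μ a = a
  f0 : ∀ v, m a v = 0 → μ v = v
  fq : ∀ v, m a v = (1/4:ℝ) • v → μ v = v
  fh : ∀ v, m a v = (1/32:ℝ) • v → μ v = -v
  zz : ∀ z z', m a z = 0 → m a z' = 0 → m a (m z z') = 0
  zq : ∀ z q, m a z = 0 → m a q = (1/4:ℝ) • q → m a (m z q) = (1/4:ℝ) • m z q
  qq : ∀ q q', m a q = (1/4:ℝ) • q → m a q' = (1/4:ℝ) • q' → ∃ c : ℝ, m a (m q q') = c • a

section
variable {m : V →ₗ[ℝ] V →ₗ[ℝ] V} {B : LinearMap.BilinForm ℝ V}

theorem mem_eigen {a v : V} {c : ℝ} : v ∈ eigen m a c ↔ m a v = c • v := by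
  unfold eigen
  exact Module.End.mem_eigenspace_iff

theorem eigenSum_single (a : V) (c : ℝ) : eigenSum m a {c} = eigen m a c := by
  unfold eigenSum
  simp

theorem eigenSum_pair (a : V) (c d : ℝ) : eigenSum m a {c, d} = eigen m a c ⊔ eigen m a d := by
  unfold eigenSum
  rw [iSup_insert, iSup_singleton]

theorem ax_of (hBa : ∀ u v w : V, B u (m v w) = B (m u v) w) {μ : V ≃ₗ[ℝ] V} {a : V}
    (h : IsMajoranaPair m B μ a) (hn : B a a = 1) : Ax m B μ a := by
  obtain ⟨h1, h2, ⟨⟨h3, h4, h5, h6⟩, h7⟩, h8, h9⟩ := h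
  have horth : ∀ (c : ℝ) (v : V), c ≠ 1 → m a v = c • v → B a v = 0 := by
    intro c v hc hv
    have e1 : B a (m a v) = B (m a a) v := hBa a a v
    rw [hv, h4, map_smul, smul_eq_mul] at e1
    have : (c - 1) * B a v = 0 := by linarith
    rcases mul_eq_zero.mp this with h | h
    · exact absurd (by linarith) hc
    · exact h
  have hfa : μ a = a := by
    have := h8 a (by
      have : eigen m a 1 ≤ eigenSum m a {1, 0, 1/4} := by
        unfold eigenSum
        exact le_iSup₂_of_le (1:ℝ) (by simp) le_rfl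
      exact this (mem_eigen.mpr (by rw [h4, one_smul])))
    exact this
  have hf0 : ∀ v, m a v = 0 → μ v = v := by
    intro v hv
    have := h8 v (by
      have : eigen m a 0 ≤ eigenSum m a {1, 0, 1/4} := by
        unfold eigenSum
        exact le_iSup₂_of_le (0:ℝ) (by simp) le_rfl
      exact this (mem_eigen.mpr (by rw [hv, zero_smul])))
    exact this
  have hfq : ∀ v, m a v = (1/4:ℝ) • v → μ v = v := by
    intro v hv
    have := h8 v (by
      have : eigen m a (1/4) ≤ eigenSum m a {1, 0, 1/4} := by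
        unfold eigenSum
        exact le_iSup₂_of_le (1/4:ℝ) (by simp) le_rfl
      exact this (mem_eigen.mpr hv))
    exact this
  refine ⟨h1, h2, hn, h4, ?_, hfa, hf0, hfq, ?_, ?_, ?_, ?_⟩
  · intro v
    have hv : v ∈ eigenSum m a majoranaSpectrum := by rw [h5]; trivial
    have e1 : eigenSum m a majoranaSpectrum = eigen m a 1 ⊔ (eigen m a 0 ⊔ (eigen m a (1/4) ⊔ eigen m a (1/32))) := by
      unfold eigenSum majoranaSpectrum
      rw [iSup_insert, iSup_insert, iSup_insert, iSup_singleton]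
    rw [e1] at hv
    obtain ⟨x, hx, y, hy, rfl⟩ := Submodule.mem_sup.mp hv
    obtain ⟨z, hz, y', hy', rfl⟩ := Submodule.mem_sup.mp hy
    obtain ⟨q, hq, h, hh, rfl⟩ := Submodule.mem_sup.mp hy'
    rw [h7] at hx
    obtain ⟨c, rfl⟩ := Submodule.mem_span_singleton.mp hx
    rw [mem_eigen] at hz hq hh
    have b1 := horth 0 z (by norm_num) hz
    have b2 := horth (1/4) q (by norm_num) hq
    have b3 := horth (1/32) h (by norm_num) hh
    refine ⟨z, q, h, ?_, by rw [hz, zero_smul], hq, hh⟩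
    have : B a (c • a + (z + (q + h))) = c := by
      rw [map_add, map_add, map_add, map_smul, b1, b2, b3, hn, smul_eq_mul]; ring
    rw [this]; abel
  · intro v hv
    exact h9 v (mem_eigen.mpr hv)
  · intro z z' hz hz'
    have := h6 0 (by simp [majoranaSpectrum]) 0 (by simp [majoranaSpectrum]) z (mem_eigen.mpr (by rw [hz, zero_smul]))
      z' (mem_eigen.mpr (by rw [hz', zero_smul]))
    have e : monsterLaw (1/4 : ℝ) (1/32) 0 0 = {0} := by
      unfold monsterLaw
      norm_num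
    rw [e, eigenSum_single, mem_eigen, zero_smul] at this
    exact this
  · intro z q hz hq
    have := h6 0 (by simp [majoranaSpectrum]) (1/4) (by simp [majoranaSpectrum]) z (mem_eigen.mpr (by rw [hz, zero_smul]))
      q (mem_eigen.mpr hq)
    have e : monsterLaw (1/4 : ℝ) (1/32) 0 (1/4) = {1/4} := by
      unfold monsterLaw
      norm_num
    rw [e, eigenSum_single, mem_eigen] at this
    exact this
  · intro q q' hq hq'
    have := h6 (1/4) (by simp [majoranaSpectrum]) (1/4) (by simp [majoranaSpectrum]) q (mem_eigen.mpr hq)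
      q' (mem_eigen.mpr hq')
    have e : monsterLaw (1/4 : ℝ) (1/32) (1/4) (1/4) = {1, 0} := by
      unfold monsterLaw
      norm_num
    rw [e, eigenSum_pair] at this
    obtain ⟨x, hx, y, hy, hxy⟩ := Submodule.mem_sup.mp this
    rw [h7] at hx
    obtain ⟨c, rfl⟩ := Submodule.mem_span_singleton.mp hx
    rw [mem_eigen, zero_smul] at hy
    refine ⟨c, ?_⟩
    rw [← hxy, map_add, hy, map_smul, h4, add_zero]

/-- transport by an automorphism -/
theorem Ax.conj {μ : V ≃ₗ[ℝ] V} {a : V} (h : Ax m B μ a) (g : V ≃ₗ[ℝ] V)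
    (gm : ∀ u v, g (m u v) = m (g u) (g v)) (gB : ∀ u v, B (g u) (g v) = B u v) :
    Ax m B (g * μ * g⁻¹) (g a) := by
  have gi : ∀ v, g (g⁻¹ v) = v := fun v => g.apply_symm_apply v
  have ig : ∀ v, g⁻¹ (g v) = v := fun v => g.symm_apply_apply v
  have gm' : ∀ u v, g⁻¹ (m u v) = m (g⁻¹ u) (g⁻¹ v) := by
    intro u v
    apply g.injective
    rw [gi, gm, gi, gi]
  have gB' : ∀ u v, B (g⁻¹ u) (g⁻¹ v) = B u v := by
    intro u v
    rw [← gB, gi, gi]
  have hmul : ∀ v, (g * μ * g⁻¹) v = g (μ (g⁻¹ v)) := fun v => rfl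
  -- eigenvectors
  have he : ∀ (c : ℝ) v, m (g a) v = c • v → m a (g⁻¹ v) = c • g⁻¹ v := by
    intro c v hv
    apply g.injective
    rw [gm, gi, hv, map_smul, gi]
  have he0 : ∀ v, m (g a) v = 0 → m a (g⁻¹ v) = 0 := by
    intro v hv
    apply g.injective
    rw [gm, gi, hv, map_zero]
  have he' : ∀ (c : ℝ) v, m a v = c • v → m (g a) (g v) = c • g v := by
    intro c v hv
    rw [← gm, hv, map_smul]
  refine ⟨?_, ?_, ?_, ?_, ?_, ?_, ?_, ?_, ?_, ?_, ?_, ?_⟩
  · intro u v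
    rw [hmul, hmul, hmul, gm', h.mm, gm]
  · intro u v
    rw [hmul, hmul, gB, h.iso, gB']
  · rw [gB, h.nrm]
  · rw [← gm, h.idem]
  · intro v
    obtain ⟨z, q, h', e, hz, hq, hh⟩ := h.dec (g⁻¹ v)
    refine ⟨g z, g q, g h', ?_, ?_, he' _ _ hq, he' _ _ hh⟩
    · have e2 : B (g a) v = B a (g⁻¹ v) := by rw [← gB a, gi]
      rw [e2, ← map_smul, ← map_add, ← map_add, ← map_add, ← e, gi]
    · rw [← gm, hz, map_zero]
  · rw [hmul, ig, h.fa]
  · intro v hv
    rw [hmul, h.f0 _ (he0 v hv), gi]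
  · intro v hv
    rw [hmul, h.fq _ (he _ v hv), gi]
  · intro v hv
    rw [hmul, h.fh _ (he _ v hv), map_neg, gi]
  · intro z z' hz hz'
    have := h.zz _ _ (he0 z hz) (he0 z' hz')
    apply g⁻¹.injective
    rw [gm', gm', ig, this, map_zero]
  · intro z q hz hq
    have := h.zq _ _ (he0 z hz) (he _ q hq)
    apply g⁻¹.injective
    rw [gm', gm', ig, this, map_smul, gm']
  · intro q q' hq hq'
    obtain ⟨c, this⟩ := h.qq _ _ (he _ q hq) (he _ q' hq')
    refine ⟨c, ?_⟩
    apply g⁻¹.injective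
    rw [gm', gm', ig, this, map_smul, ig]

theorem Ax.invol {μ : V ≃ₗ[ℝ] V} {a : V} (h : Ax m B μ a) (v : V) : μ (μ v) = v := by
  obtain ⟨z, q, w, e, hz, hq, hh⟩ := h.dec v
  generalize B a v = c at e
  subst e
  simp only [map_add, map_smul, h.fa, h.f0 _ hz, h.fq _ hq, h.fh _ hh, map_neg, neg_neg]

theorem Ax.minus {μ : V ≃ₗ[ℝ] V} {a : V} (h : Ax m B μ a) (v : V) : m a (v - μ v) = (1/32 : ℝ) • (v - μ v) := by
  obtain ⟨z, q, w, e, hz, hq, hh⟩ := h.dec v
  generalize B a v = c at e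
  subst e
  simp only [map_add, map_smul, h.fa, h.f0 _ hz, h.fq _ hq, h.fh _ hh, map_neg, map_sub, h.idem, hz, hq, hh]
  module

/-- components of a fixed vector -/
theorem Ax.plus {μ : V ≃ₗ[ℝ] V} {a : V} (h : Ax m B μ a) {v : V} (hv : μ v = v) {c : ℝ} (hc : B a v = c) {q z : V}
    (hq : q = (4:ℝ) • (m a v - c • a)) (hz : z = v - c • a - q) :
    m a q = (1/4 : ℝ) • q ∧ m a z = 0 := by
  obtain ⟨z', q', w, e, hz', hq', hh⟩ := h.dec v
  rw [hc] at e
  have hw : w = 0 := by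
    have h1 : μ v = c • a + z' + q' - w := by
      conv_lhs => rw [e]
      simp only [map_add, map_smul, h.fa, h.f0 _ hz', h.fq _ hq', h.fh _ hh]
      abel
    rw [hv] at h1
    have h2 : c • a + z' + q' + w = c • a + z' + q' - w := by rw [← e]; exact h1
    have h3 : (2:ℝ) • w = 0 := by
      have h4 : c • a + z' + q' + w - (c • a + z' + q' - w) = 0 := sub_eq_zero.mpr h2
      rw [← h4]; module
    rcases smul_eq_zero.mp h3 with h5 | h5
    · norm_num at h5
    · exact h5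
  rw [hw, add_zero] at e
  have h1 : q = q' := by
    rw [hq]
    conv_lhs => rw [e]
    simp only [map_add, map_smul, h.idem, hz', hq']
    module
  have h2 : z = z' := by
    rw [hz, h1, e]; abel
  rw [h1, h2]
  exact ⟨hq', hz'⟩

/-- the involution is determined by the axis -/
theorem Ax.unique {μ μ' : V ≃ₗ[ℝ] V} {a : V} (h : Ax m B μ a) (h' : Ax m B μ' a) : μ = μ' := by
  apply LinearEquiv.ext
  intro v
  obtain ⟨z, q, w, e, hz, hq, hh⟩ := h.dec v
  generalize B a v = c at e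
  subst e
  simp only [map_add, map_smul, h.fa, h.f0 _ hz, h.fq _ hq, h.fh _ hh, h'.fa, h'.f0 _ hz, h'.fq _ hq, h'.fh _ hh]

end

end CfsgLib.Maj28
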