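import Mathlib
import Cfsg.Agent.LibMajN28

set_option autoImplicit false

/-! Majorana pairs: the resurrection computation (helper28). -/

namespace CfsgLib.Maj28

variable {V : Type*} [AddCommGroup V] [Module ℝ V]

section
variable {m : V →ₗ[ℝ] V →ₗ[ℝ] V} (hc : ∀ u v, m u v = m v u) {a p r s e o : V} {l N : ℝ}
  (P1 : m a a = a) (P2 : m a p = (2:ℝ) • s + (1/32:ℝ) • ((2:ℝ) • a + p))
  (P3 : m a s = (7/32:ℝ) • s + (3/4*l - 25/1024) • a + (7/2048:ℝ) • p)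
  (P4 : m p p = (17/16:ℝ) • p + (2:ℝ) • o)
  (P5 : m s p = (7/16:ℝ) • s + (3/4*l - 25/1024) • p + (7/2048:ℝ) • ((2:ℝ) • a + r))
  (P6 : m a r = (2:ℝ) • e + (1/32:ℝ) • ((2:ℝ) • a + r))
  {α β : V} (hα : α = (-4:ℝ) • s + (3*l - 1/8) • a + (7/16:ℝ) • p)
  (hβ : β = (4:ℝ) • s + (1/8 - 4*l) • a + (1/16:ℝ) • p)
  (F1 : m a (m α α) = 0) (F2 : m a (m α β) = (1/4:ℝ) • m α β)
  (F3 : m a (m β β) = ((1/4) * (-4*l^2+4*l+(1/16)*N-1/16)) • a)
include hc P1 P2 P3 P4 P5 P6 hα hβ F1 F2 F3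

theorem ao_eq : m a o = ((1/6)*l - 19/3072) • p + (7/6144:ℝ) • r + (-(32/3)*l^2 + (5/3)*l - (1/24)*N - 127/3072) • a
    + (7/96:ℝ) • e + ((32/3)*l - 19/48) • s := by
  have c1 := hc p s
  have c2 := hc p a
  have c3 := hc s a
  subst hα hβ
  simp only [map_add, map_smul, LinearMap.add_apply, LinearMap.smul_apply, c1, c2, c3, P1, P2, P3, P4, P5, P6,
    smul_add] at F1 F2 F3
  linear_combination (norm := module) (8/3 : ℝ) • (F1 - F3)

theorem ss_eq : m s s = ((49/768)*l - 245/196608) • p + (49/196608:ℝ) • r +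
    ((7/6)*l^2 - (7/384)*l + (7/1536)*N - 7/98304) • a - (7/1536:ℝ) • e + (7/2048:ℝ) • o
    + (-(5/12)*l - 13/1536) • s := by
  have hO := ao_eq hc P1 P2 P3 P4 P5 P6 hα hβ F1 F2 F3
  have c1 := hc p s
  have c2 := hc p a
  have c3 := hc s a
  subst hα hβ
  simp only [map_add, map_smul, LinearMap.add_apply, LinearMap.smul_apply, c1, c2, c3, P1, P2, P3, P4, P5, P6,
    smul_add] at F1 F2
  linear_combination (norm := module) (1/4 : ℝ) • (F1 + F2) - (7/64 : ℝ) • hO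

end

end CfsgLib.Maj28
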