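import Mathlib
import Cfsg.Agent.LibMaj28B

set_option autoImplicit false

/-! Majorana pairs (helper28). -/

namespace CfsgLib.Maj28

variable {V : Type*} [AddCommGroup V] [Module ℝ V]

section
variable {m : V →ₗ[ℝ] V →ₗ[ℝ] V} {B : LinearMap.BilinForm ℝ V} (hc : ∀ u v, m u v = m v u)
  (hs : ∀ u v : V, B u v = B v u) (hB : ∀ u v w : V, B u (m v w) = B (m u v) w)

/-- the product minus the mean -/
noncomputable def sg (m : V →ₗ[ℝ] V →ₗ[ℝ] V) (a b : V) : V := m a b - (1/32:ℝ) • (a + b)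

theorem m_eq_sg (a b : V) : m a b = sg m a b + (1/32:ℝ) • (a + b) := by unfold sg; abel

include hc in
theorem sg_comm (a b : V) : sg m a b = sg m b a := by unfold sg; rw [hc a b, add_comm a b]

theorem m_mu {μ : V ≃ₗ[ℝ] V} {a : V} (h : Ax m B μ a) (b : V) :
    m a (μ b) = sg m a b + (1/32:ℝ) • (a + μ b) := by
  have h1 := h.minus b
  rw [map_sub] at h1
  unfold sg
  linear_combination (norm := module) (-1:ℝ) • h1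

theorem mu_sg {μ : V ≃ₗ[ℝ] V} {a : V} (h : Ax m B μ a) (b : V) : μ (sg m a b) = sg m a b := by
  have h1 := m_mu h b
  have h2 : μ (sg m a b) = m a (μ b) - (1/32:ℝ) • (a + μ b) := by
    unfold sg
    rw [map_sub, map_smul, map_add, h.mm, h.fa]
  rw [h2, h1]; abel

variable {μ₀ μ₁ : V ≃ₗ[ℝ] V} {a₀ a₁ : V} (h0 : Ax m B μ₀ a₀) (h1 : Ax m B μ₁ a₁)

include h0 in
theorem B_mu (v : V) : B a₀ (μ₀ v) = B a₀ v := by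
  conv_lhs => rw [← h0.fa]
  exact h0.iso _ _

include h0 in
/-- `a₀ s` -/
theorem a_s : m a₀ (sg m a₀ a₁) = (7/32:ℝ) • sg m a₀ a₁ + (3/4*(B a₀ a₁) - 25/1024) • a₀ +
    (7/2048:ℝ) • (a₁ + μ₀ a₁) ∧
    m a₀ ((-4:ℝ) • sg m a₀ a₁ + (3*(B a₀ a₁) - 1/8) • a₀ + (7/16:ℝ) • (a₁ + μ₀ a₁)) = 0 ∧
    m a₀ ((4:ℝ) • sg m a₀ a₁ + (1/8 - 4*(B a₀ a₁)) • a₀ + (1/16:ℝ) • (a₁ + μ₀ a₁)) =
      (1/4:ℝ) • ((4:ℝ) • sg m a₀ a₁ + (1/8 - 4*(B a₀ a₁)) • a₀ + (1/16:ℝ) • (a₁ + μ₀ a₁)) := by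
  have e1 := m_eq_sg (m := m) a₀ a₁
  have e2 := m_mu h0 a₁
  have hv : μ₀ ((1/2:ℝ) • (a₁ + μ₀ a₁)) = (1/2:ℝ) • (a₁ + μ₀ a₁) := by
    rw [map_smul, map_add, h0.invol]; module
  have hcB : B a₀ ((1/2:ℝ) • (a₁ + μ₀ a₁)) = B a₀ a₁ := by
    rw [map_smul, map_add, B_mu h0, smul_eq_mul]; ring
  have h := h0.plus hv hcB (q := (4:ℝ) • sg m a₀ a₁ + (1/8 - 4*(B a₀ a₁)) • a₀ + (1/16:ℝ) • (a₁ + μ₀ a₁))
    (z := (-4:ℝ) • sg m a₀ a₁ + (3*(B a₀ a₁) - 1/8) • a₀ + (7/16:ℝ) • (a₁ + μ₀ a₁)) (by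
      rw [map_smul, map_add, e1, e2]; module) (by module)
  refine ⟨?_, h.2, h.1⟩
  have h2 := h.2
  rw [map_add, map_add, map_smul, map_smul, map_smul, map_add, e1, e2, h0.idem] at h2
  linear_combination (norm := module) (-1/4:ℝ) • h2

include hc hs h1 in
theorem a1_s : m a₁ (sg m a₀ a₁) = (7/32:ℝ) • sg m a₀ a₁ + (3/4*(B a₀ a₁) - 25/1024) • a₁ +
    (7/2048:ℝ) • (a₀ + μ₁ a₀) := by
  have h := (a_s h1 (a₁ := a₀)).1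
  rw [sg_comm hc a₁ a₀, hs a₁ a₀] at h
  exact h

include hc hs h0 h1 in
theorem am1_s : m (μ₀ a₁) (sg m a₀ a₁) = (7/32:ℝ) • sg m a₀ a₁ + (3/4*(B a₀ a₁) - 25/1024) • μ₀ a₁ +
    (7/2048:ℝ) • (a₀ + μ₀ (μ₁ a₀)) := by
  have h := congrArg μ₀ (a1_s hc hs h1 (a₀ := a₀))
  rw [h0.mm, mu_sg h0] at h
  rw [h]
  simp only [map_add, map_smul, mu_sg h0, h0.fa]

include hB in
theorem B_sg_right (h1 : Ax m B μ₁ a₁) : B (sg m a₀ a₁) a₁ = (31 * B a₀ a₁ - 1) / 32 := by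
  have e : B (m a₀ a₁) a₁ = B a₀ a₁ := by rw [← hB, h1.idem]
  unfold sg
  rw [map_sub, map_smul, map_add]
  simp only [LinearMap.sub_apply, LinearMap.smul_apply, LinearMap.add_apply, e, h1.nrm, smul_eq_mul]
  ring

include hc hs hB h0 h1 in
theorem B_beta : B ((4:ℝ) • sg m a₀ a₁ + (1/8 - 4*(B a₀ a₁)) • a₀ + (1/16:ℝ) • (a₁ + μ₀ a₁))
    ((4:ℝ) • sg m a₀ a₁ + (1/8 - 4*(B a₀ a₁)) • a₀ + (1/16:ℝ) • (a₁ + μ₀ a₁)) =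
    -4*(B a₀ a₁)^2 + 4*(B a₀ a₁) + (1/16)*(B a₁ (μ₀ a₁)) - 1/16 := by
  obtain ⟨-, hα, hβ⟩ := a_s h0 (a₁ := a₁)
  have b1 := B_sg_right hB h1 (a₀ := a₀)
  have b2 : B (sg m a₀ a₁) (μ₀ a₁) = (31 * B a₀ a₁ - 1) / 32 := by
    rw [← b1]
    conv_lhs => rw [← mu_sg h0 a₁]
    exact h0.iso _ _
  have b3 : B a₀ (μ₀ a₁) = B a₀ a₁ := B_mu h0 a₁
  have b4 : B (μ₀ a₁) (μ₀ a₁) = 1 := by rw [h0.iso, h1.nrm]
  have b5 : B (μ₀ a₁) a₁ = B a₁ (μ₀ a₁) := hs _ _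
  set α := (-4:ℝ) • sg m a₀ a₁ + (3*(B a₀ a₁) - 1/8) • a₀ + (7/16:ℝ) • (a₁ + μ₀ a₁) with hαd
  set β := (4:ℝ) • sg m a₀ a₁ + (1/8 - 4*(B a₀ a₁)) • a₀ + (1/16:ℝ) • (a₁ + μ₀ a₁) with hβd
  -- orthogonality
  have o1 : B β α = 0 := by
    have e1 : B (m a₀ β) α = B β (m a₀ α) := by rw [hc a₀ β, ← hB]
    rw [hα, hβ, map_zero, map_smul, LinearMap.smul_apply, smul_eq_mul] at e1
    linarith
  have o2 : B β a₀ = 0 := by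
    have e1 : B (m a₀ β) a₀ = B β (m a₀ a₀) := by rw [hc a₀ β, ← hB]
    rw [h0.idem, hβ, map_smul, LinearMap.smul_apply, smul_eq_mul] at e1
    linarith
  have e2 : β = (1/2:ℝ) • (a₁ + μ₀ a₁) - (B a₀ a₁) • a₀ - α := by
    rw [hαd, hβd]; module
  clear_value α β
  have e3 : B β β = (1/2) * (B β a₁ + B β (μ₀ a₁)) := by
    have e4 := congrArg (B β) e2
    simp only [map_sub, map_smul, map_add, o1, o2, smul_eq_mul] at e4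
    linarith
  rw [e3, hβd]
  simp only [map_add, map_smul, LinearMap.add_apply, LinearMap.smul_apply, smul_eq_mul, b1, b2, b3, b4, b5, h1.nrm]
  ring

include hc hs hB h0 h1 in
theorem pair_ss : m (sg m a₀ a₁) (sg m a₀ a₁) = ((49/768)*(B a₀ a₁) - 245/196608) • (a₁ + μ₀ a₁) +
    (49/196608:ℝ) • (μ₁ a₀ + μ₀ (μ₁ a₀)) +
    ((7/6)*(B a₀ a₁)^2 - (7/384)*(B a₀ a₁) + (7/1536)*(B a₁ (μ₀ a₁)) - 7/98304) • a₀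
    - (7/1536:ℝ) • sg m a₀ (μ₁ a₀) + (7/2048:ℝ) • sg m a₁ (μ₀ a₁)
    + (-(5/12)*(B a₀ a₁) - 13/1536) • sg m a₀ a₁ := by
  obtain ⟨hs0, hα, hβ⟩ := a_s h0 (a₁ := a₁)
  have hs1 := a1_s hc hs h1 (a₀ := a₀)
  have hs2 := am1_s hc hs h0 h1
  refine ss_eq hc (a := a₀) (p := a₁ + μ₀ a₁) (r := μ₁ a₀ + μ₀ (μ₁ a₀)) (s := sg m a₀ a₁)
    (e := sg m a₀ (μ₁ a₀)) (o := sg m a₁ (μ₀ a₁)) (l := B a₀ a₁) (N := B a₁ (μ₀ a₁)) h0.idem ?_ ?_ ?_ ?_ ?_ rfl rfl ?_ ?_ ?_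
  · rw [map_add, m_eq_sg a₀ a₁, m_mu h0 a₁]; module
  · exact hs0
  · have e1 := m_eq_sg (m := m) a₁ (μ₀ a₁)
    have e2 : m (μ₀ a₁) (μ₀ a₁) = μ₀ a₁ := by rw [← h0.mm, h1.idem]
    have e3 : m (μ₀ a₁) a₁ = m a₁ (μ₀ a₁) := hc _ _
    simp only [map_add, LinearMap.add_apply, e2, e3, h1.idem]
    rw [e1]; module
  · rw [map_add, hc _ a₁, hc _ (μ₀ a₁), hs1, hs2]; module
  · rw [map_add, m_eq_sg a₀ (μ₁ a₀), m_mu h0 (μ₁ a₀)]; module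
  · exact h0.zz _ _ hα hα
  · exact h0.zq _ _ hα hβ
  · obtain ⟨c, hcc⟩ := h0.qq _ _ hβ hβ
    have e1 := B_beta hc hs hB h0 h1
    rw [hcc]
    congr 1
    have e2 : B a₀ (m a₀ (m ((4:ℝ) • sg m a₀ a₁ + (1/8 - 4*(B a₀ a₁)) • a₀ + (1/16:ℝ) • (a₁ + μ₀ a₁))
        ((4:ℝ) • sg m a₀ a₁ + (1/8 - 4*(B a₀ a₁)) • a₀ + (1/16:ℝ) • (a₁ + μ₀ a₁)))) =
        (1/4) * (-4*(B a₀ a₁)^2 + 4*(B a₀ a₁) + (1/16)*(B a₁ (μ₀ a₁)) - 1/16) := by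
      rw [hB, h0.idem, hB, hβ, map_smul, LinearMap.smul_apply, e1, smul_eq_mul]
    rw [hcc, map_smul, h0.nrm, smul_eq_mul, mul_one] at e2
    exact e2

end

end CfsgLib.Maj28
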