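import Mathlib
import Cfsg.Agent.LibMaj28C

set_option autoImplicit false

/-! The linear relation and the cubic relation (helper28). -/

namespace CfsgLib.Maj28

variable {V : Type*} [AddCommGroup V] [Module ℝ V]

section
variable {m : V →ₗ[ℝ] V →ₗ[ℝ] V} {B : LinearMap.BilinForm ℝ V} (hc : ∀ u v, m u v = m v u)
  (hs : ∀ u v : V, B u v = B v u) (hB : ∀ u v w : V, B u (m v w) = B (m u v) w)
  {μ₀ μ₁ : V ≃ₗ[ℝ] V} {a₀ a₁ : V} (h0 : Ax m B μ₀ a₀) (h1 : Ax m B μ₁ a₁)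
include hc hs hB h0 h1

theorem rel : (μ₀ (μ₁ a₀) - μ₁ (μ₀ a₁)) + (256 * (B a₀ a₁) - 6) • (μ₀ a₁ - μ₁ a₀) +
    ((32768 * (B a₀ a₁)^2 - 2304 * (B a₀ a₁) + 128 * (B a₁ (μ₀ a₁)) + 33)/7) • a₀ -
    ((32768 * (B a₀ a₁)^2 - 2304 * (B a₀ a₁) + 128 * (B a₀ (μ₁ a₀)) + 33)/7) • a₁ -
    (32:ℝ) • (sg m a₀ (μ₁ a₀) - sg m a₁ (μ₀ a₁)) = 0 := by
  have e1 := pair_ss hc hs hB h0 h1
  have e2 := pair_ss hc hs hB h1 h0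
  rw [sg_comm hc a₁ a₀, hs a₁ a₀] at e2
  linear_combination (norm := module) (196608/49 : ℝ) • (e2 - e1)

/-- inner products with `a₀` -/
theorem B_a0_o : B a₀ (sg m a₁ (μ₀ a₁)) = (30 * B a₀ a₁ + B a₁ (μ₀ a₁) - 1) / 32 := by
  have b1 := B_sg_right hB h1 (a₀ := a₀)
  have b2 : B (sg m a₀ a₁) (μ₀ a₁) = (31 * B a₀ a₁ - 1) / 32 := by
    rw [← b1]
    conv_lhs => rw [← mu_sg h0 a₁]
    exact h0.iso _ _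
  have b3 : B a₀ (μ₀ a₁) = B a₀ a₁ := B_mu h0 a₁
  have e1 : B a₀ (m a₁ (μ₀ a₁)) = B (m a₀ a₁) (μ₀ a₁) := hB _ _ _
  rw [m_eq_sg a₀ a₁, map_add, LinearMap.add_apply, b2, map_smul, map_add, LinearMap.smul_apply,
    LinearMap.add_apply, b3, smul_eq_mul] at e1
  unfold sg
  rw [map_sub, map_smul, map_add, e1, b3, smul_eq_mul]
  ring

theorem B_a0_e : B a₀ (sg m a₀ (μ₁ a₀)) = (31 * B a₀ (μ₁ a₀) - 1) / 32 := by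
  have e1 : B a₀ (m a₀ (μ₁ a₀)) = B a₀ (μ₁ a₀) := by rw [hB, h0.idem]
  unfold sg
  rw [map_sub, map_smul, map_add, e1, h0.nrm, smul_eq_mul]
  ring

/-- the value of `B a₀ a₃` -/
theorem K_eq : B a₀ (μ₁ (μ₀ a₁)) = B a₀ (μ₁ a₀) + (256 * (B a₀ a₁) - 6) * (B a₀ a₁ - B a₀ (μ₁ a₀)) +
    ((32768 * (B a₀ a₁)^2 - 2304 * (B a₀ a₁) + 128 * (B a₁ (μ₀ a₁)) + 33)/7) -
    ((32768 * (B a₀ a₁)^2 - 2304 * (B a₀ a₁) + 128 * (B a₀ (μ₁ a₀)) + 33)/7) * B a₀ a₁ -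
    (31 * B a₀ (μ₁ a₀) - 30 * B a₀ a₁ - B a₁ (μ₀ a₁)) := by
  have e := congrArg (B a₀) (rel hc hs hB h0 h1)
  have b3 : B a₀ (μ₀ a₁) = B a₀ a₁ := B_mu h0 a₁
  have b4 : B a₀ (μ₀ (μ₁ a₀)) = B a₀ (μ₁ a₀) := B_mu h0 _
  simp only [map_add, map_sub, map_smul, map_zero, smul_eq_mul, b3, b4, h0.nrm,
    B_a0_o hc hs hB h0 h1, B_a0_e hc hs hB h0 h1] at e
  linarith

theorem M_eq_N (hN : 0 ≤ B a₀ a₁) : B a₁ (μ₀ a₁) = B a₀ (μ₁ a₀) := by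
  have e1 := K_eq hc hs hB h0 h1
  have e2 := K_eq hc hs hB h1 h0
  rw [hs a₁ a₀] at e2
  have e3 : B a₁ (μ₀ (μ₁ a₀)) = B a₀ (μ₁ (μ₀ a₁)) := by
    rw [← h0.iso, h0.invol, ← h1.iso, h1.invol, hs]
  rw [e3] at e2
  have e4 : (B a₁ (μ₀ a₁) - B a₀ (μ₁ a₀)) * (303 + 1920 * B a₀ a₁) = 0 := by
    linear_combination (7:ℝ) * (e2 - e1)
  rcases mul_eq_zero.mp e4 with h | h
  · linarith
  · linarith

theorem cubic (hN : 0 ≤ B a₀ a₁) : 7 * B a₀ (μ₁ (μ₀ a₁)) = -(33 + 1920 * B a₀ a₁) * B a₀ (μ₁ a₀) - 32768 * (B a₀ a₁)^3 +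
    36864 * (B a₀ a₁)^2 - 2169 * B a₀ a₁ + 33 := by
  have e1 := K_eq hc hs hB h0 h1
  have e2 := M_eq_N hc hs hB h0 h1 hN
  rw [e2] at e1
  linear_combination (7:ℝ) * e1

end

end CfsgLib.Maj28
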