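import Mathlib
import Cfsg.Agent.LibMaj28D

set_option autoImplicit false

/-! The six-transposition property (helper28). -/

namespace CfsgLib.Maj28

variable {V : Type*} [AddCommGroup V] [Module ℝ V]

section
variable {m : V →ₗ[ℝ] V →ₗ[ℝ] V} {B : LinearMap.BilinForm ℝ V} (hc : ∀ u v, m u v = m v u)
  (hs : ∀ u v : V, B u v = B v u) (hp : ∀ u : V, u ≠ 0 → 0 < B u u)
  (hB : ∀ u v w : V, B u (m v w) = B (m u v) w)
  (hN : ∀ u v : V, B (m u v) (m u v) ≤ B (m u u) (m v v))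

include hp in
theorem B_nonneg (u : V) : 0 ≤ B u u := by
  by_cases h : u = 0
  · rw [h, map_zero]
  · exact (hp u h).le

include hp hN in
theorem norton {μ₀ μ₁ : V ≃ₗ[ℝ] V} {a₀ a₁ : V} (h0 : Ax m B μ₀ a₀) (h1 : Ax m B μ₁ a₁) : 0 ≤ B a₀ a₁ := by
  have := hN a₀ a₁
  rw [h0.idem, h1.idem] at this
  exact (B_nonneg hp _).trans this

include hs hp in
theorem cs {μ₀ μ₁ : V ≃ₗ[ℝ] V} {a₀ a₁ : V} (h0 : Ax m B μ₀ a₀) (h1 : Ax m B μ₁ a₁) : B a₀ a₁ ≤ 1 ∧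
    (B a₀ a₁ = 1 → a₀ = a₁) := by
  have e : B (a₀ - a₁) (a₀ - a₁) = 2 - 2 * B a₀ a₁ := by
    rw [map_sub, LinearMap.map_sub₂, LinearMap.map_sub₂, h0.nrm, h1.nrm, hs a₁ a₀]; ring
  constructor
  · have := B_nonneg hp (a₀ - a₁)
    linarith
  · intro h
    by_contra hne
    have := hp _ (sub_ne_zero.mpr hne)
    rw [e, h] at this
    norm_num at this

include hc hs hp hB hN in
theorem gap {μ₀ μ₁ : V ≃ₗ[ℝ] V} {a₀ a₁ : V} (h0 : Ax m B μ₀ a₀) (h1 : Ax m B μ₁ a₁) :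
    (0 ≤ B a₀ a₁ ∧ B a₀ a₁ ≤ 127/1000) ∨ a₀ = a₁ := by
  have n1 := norton hp hN h0 h1
  obtain ⟨c1, c2⟩ := cs hs hp h0 h1
  by_cases hx : B a₀ a₁ = 1
  · right; exact c2 hx
  left
  refine ⟨n1, ?_⟩
  have hlt : B a₀ a₁ < 1 := lt_of_le_of_ne c1 hx
  have h2 := h0.conj μ₁ h1.mm h1.iso
  have h3 := (h1.conj μ₀ h0.mm h0.iso).conj μ₁ h1.mm h1.iso
  have y1 := (cs hs hp h0 h2).1
  have z1 := (cs hs hp h0 h3).1
  have hcub := cubic hc hs hB h0 h1 n1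
  set x := B a₀ a₁ with hxdef
  have k : (x - 1) * (-32768 * x^2 + 4096 * x + 7) ≤ 0 := by
    have k1 : (33 + 1920 * x) * B a₀ (μ₁ a₀) ≤ (33 + 1920 * x) * 1 :=
      mul_le_mul_of_nonneg_left y1 (by linarith)
    nlinarith
  have k2 : 0 ≤ -32768 * x^2 + 4096 * x + 7 := by
    by_contra hcon
    push Not at hcon
    have : 0 < (x - 1) * (-32768 * x^2 + 4096 * x + 7) := mul_pos_of_neg_of_neg (by linarith) hcon
    linarith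
  by_contra hcon
  push Not at hcon
  nlinarith

theorem gx {G : Type*} [Group G] {x y : G} (hx : x * x = 1) (hy : y * y = 1) (k : ℤ) :
    x * (x * (x * y) ^ k) * x⁻¹ = x * (x * y) ^ (-k) := by
  have hxi : x⁻¹ = x := inv_eq_of_mul_eq_one_left hx
  have hyi : y⁻¹ = y := inv_eq_of_mul_eq_one_left hy
  have e1 : x * (x * y) * x⁻¹ = (x * y)⁻¹ := by
    rw [mul_inv_rev, hxi, hyi, ← mul_assoc, hx, one_mul]
  have e2 : x * (x * y) ^ (-k) * x⁻¹ = (x * y) ^ k := by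
    rw [← conj_zpow, e1, inv_zpow, zpow_neg, inv_inv]
  have e3 : x * (x * y) ^ (-k) = (x * y) ^ k * x := by rw [← e2]; group
  rw [e3, ← mul_assoc, hx, one_mul, hxi]

theorem gy {G : Type*} [Group G] {x y : G} (hx : x * x = 1) (hy : y * y = 1) (k : ℤ) :
    y * (x * (x * y) ^ k) * y⁻¹ = x * (x * y) ^ (2 - k) := by
  have hxi : x⁻¹ = x := inv_eq_of_mul_eq_one_left hx
  have hyi : y⁻¹ = y := inv_eq_of_mul_eq_one_left hy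
  have e1 : x * (x * y) * x⁻¹ = (x * y)⁻¹ := by
    rw [mul_inv_rev, hxi, hyi, ← mul_assoc, hx, one_mul]
  have e2 : ∀ k : ℤ, x * (x * y) ^ (-k) * x⁻¹ = (x * y) ^ k := by
    intro k
    rw [← conj_zpow, e1, inv_zpow, zpow_neg, inv_inv]
  have e3 : ∀ k : ℤ, x * (x * y) ^ (-k) = (x * y) ^ k * x := by intro k; rw [← e2 k]; group
  have e4 : y = x * (x * y) := by rw [← mul_assoc, hx, one_mul]
  have e5 : y * x = (x * y) ^ (-1 : ℤ) := by rw [zpow_neg_one, mul_inv_rev, hxi, hyi]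
  have e6 : y⁻¹ = (x * y) ^ (-1 : ℤ) * x := by rw [← e5, mul_assoc, hx, mul_one, hyi]
  calc y * (x * (x * y) ^ k) * y⁻¹ = (y * x) * (x * y) ^ k * y⁻¹ := by group
    _ = (x * y) ^ (-1:ℤ) * (x * y) ^ k * ((x * y) ^ (-1 : ℤ) * x) := by rw [e5, e6]
    _ = ((x * y) ^ (-1:ℤ) * (x * y) ^ k * (x * y) ^ (-1 : ℤ)) * x := by group
    _ = (x * y) ^ (-(2 - k)) * x := by
        rw [← zpow_add, ← zpow_add]; congr 2; ring
    _ = x * (x * y) ^ (2 - k) := by rw [← e3, neg_neg]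

/-- the numerical contradiction -/
theorem numeric {b₁ b₂ u1 u2 u3 u4 u5 v1 v2 v3 v5 w1 w2 w3 w4 w5 : ℝ}
    (hu1 : 0 ≤ u1 ∧ u1 ≤ 127/1000) (hu2 : 0 ≤ u2 ∧ u2 ≤ 127/1000) (hu3 : 0 ≤ u3 ∧ u3 ≤ 127/1000)
    (hu4 : 0 ≤ u4 ∧ u4 ≤ 127/1000) (hu5 : 0 ≤ u5 ∧ u5 ≤ 127/1000)
    (hv1 : 0 ≤ v1 ∧ v1 ≤ 127/1000) (hv2 : 0 ≤ v2 ∧ v2 ≤ 127/1000) (hv3 : 0 ≤ v3 ∧ v3 ≤ 127/1000)
    (hv5 : 0 ≤ v5 ∧ v5 ≤ 127/1000)
    (hw1 : 0 ≤ w1 ∧ w1 ≤ 127/1000) (hw2 : 0 ≤ w2 ∧ w2 ≤ 127/1000) (hw3 : 0 ≤ w3 ∧ w3 ≤ 127/1000)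
    (hw4 : 0 ≤ w4 ∧ w4 ≤ 127/1000) (hw5 : 0 ≤ w5 ∧ w5 ≤ 127/1000)
    (E1 : u1 + b₁ * u2 + b₂ * u3 - b₂ - b₁ * u4 - u5 = 0)
    (E2 : v1 + b₁ * v2 + b₂ * v3 - b₂ * u4 - b₁ - v5 = 0)
    (E3 : w1 + b₁ * w2 + b₂ * w3 - b₂ * w4 - b₁ * w5 - 1 = 0) : False := by
  have key : ∀ b x y : ℝ, (0 ≤ x ∧ x ≤ 127/1000) → (0 ≤ y ∧ y ≤ 127/1000) → |b * (x - y)| ≤ |b| * (127/1000) := by
    intro b x y hx hy
    rw [abs_mul]
    apply mul_le_mul_of_nonneg_left _ (abs_nonneg b)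
    rw [abs_le]
    constructor <;> linarith [hx.1, hx.2, hy.1, hy.2]
  have key2 : ∀ b x : ℝ, (0 ≤ x ∧ x ≤ 127/1000) → |b| * (873/1000) ≤ |b * (1 - x)| := by
    intro b x hx
    rw [abs_mul]
    apply mul_le_mul_of_nonneg_left _ (abs_nonneg b)
    rw [abs_of_nonneg (by linarith [hx.2])]
    linarith [hx.2]
  have d1 : ∀ x y : ℝ, (0 ≤ x ∧ x ≤ 127/1000) → (0 ≤ y ∧ y ≤ 127/1000) → |x - y| ≤ 127/1000 := by
    intro x y hx hy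
    rw [abs_le]
    constructor <;> linarith [hx.1, hx.2, hy.1, hy.2]
  have f1 : b₂ * (1 - u3) = (u1 - u5) + b₁ * (u2 - u4) := by linarith
  have f2 : b₁ * (1 - v2) = (v1 - v5) + b₂ * (v3 - u4) := by linarith
  have g1 : |b₂| * (873/1000) ≤ 127/1000 + |b₁| * (127/1000) := by
    calc |b₂| * (873/1000) ≤ |b₂ * (1 - u3)| := key2 _ _ hu3
      _ = |(u1 - u5) + b₁ * (u2 - u4)| := by rw [f1]
      _ ≤ |u1 - u5| + |b₁ * (u2 - u4)| := abs_add_le _ _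
      _ ≤ _ := add_le_add (d1 _ _ hu1 hu5) (key _ _ _ hu2 hu4)
  have g2 : |b₁| * (873/1000) ≤ 127/1000 + |b₂| * (127/1000) := by
    calc |b₁| * (873/1000) ≤ |b₁ * (1 - v2)| := key2 _ _ hv2
      _ = |(v1 - v5) + b₂ * (v3 - u4)| := by rw [f2]
      _ ≤ |v1 - v5| + |b₂ * (v3 - u4)| := abs_add_le _ _
      _ ≤ _ := add_le_add (d1 _ _ hv1 hv5) (key _ _ _ hv3 hu4)
  have h1 := le_abs_self (b₁ * (w2 - w5))
  have h2 := le_abs_self (b₂ * (w3 - w4))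
  have h3 := key b₁ w2 w5 hw2 hw5
  have h4 := key b₂ w3 w4 hw3 hw4
  have h5 := hw1.2
  nlinarith [abs_nonneg b₁, abs_nonneg b₂]

end

end CfsgLib.Maj28
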