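import Mathlib
import Cfsg.Agent.LibMaj28E

set_option autoImplicit false

/-! The six-transposition property (helper28). -/

namespace CfsgLib.Maj28

variable {V : Type*} [AddCommGroup V] [Module ℝ V]

section
variable {m : V →ₗ[ℝ] V →ₗ[ℝ] V} {B : LinearMap.BilinForm ℝ V} (hc : ∀ u v, m u v = m v u)
  (hs : ∀ u v : V, B u v = B v u) (hp : ∀ u : V, u ≠ 0 → 0 < B u u)
  (hB : ∀ u v w : V, B u (m v w) = B (m u v) w)
  (hN : ∀ u v : V, B (m u v) (m u v) ≤ B (m u u) (m v v))

include hc hs hp hB hN in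
theorem main {x y : V ≃ₗ[ℝ] V} {a₀ a₁ : V} (h0 : Ax m B x a₀) (h1 : Ax m B y a₁) :
    ∃ n : ℕ, 1 ≤ n ∧ n ≤ 6 ∧ (x * y) ^ n = 1 := by
  by_contra hcon
  push Not at hcon
  have hx : x * x = 1 := LinearEquiv.ext fun v => h0.invol v
  have hy : y * y = 1 := LinearEquiv.ext fun v => h1.invol v
  -- the axes
  have k0 : Ax m B (x * (x * y) ^ (0 : ℤ)) a₀ := by rw [zpow_zero, mul_one]; exact h0
  have k1 : Ax m B (x * (x * y) ^ (1 : ℤ)) a₁ := by rw [zpow_one, ← mul_assoc, hx, one_mul]; exact h1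
  have cx : ∀ (k : ℤ) (a : V), Ax m B (x * (x * y) ^ k) a → Ax m B (x * (x * y) ^ (-k)) (x a) := by
    intro k a h
    have := h.conj x h0.mm h0.iso
    rw [gx hx hy] at this
    exact this
  have cy : ∀ (k : ℤ) (a : V), Ax m B (x * (x * y) ^ k) a → Ax m B (x * (x * y) ^ (2 - k)) (y a) := by
    intro k a h
    have := h.conj y h1.mm h1.iso
    rw [gy hx hy] at this
    exact this
  have km1 := cx _ _ k1
  have k2 := cy _ _ k0
  have km2 := cx _ _ k2
  have k3 := cy _ _ km1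
  have km3 := cx _ _ k3
  have bd : ∀ (i j : ℤ) (a b : V), Ax m B (x * (x * y) ^ i) a → Ax m B (x * (x * y) ^ j) b →
      1 ≤ (i - j).natAbs → (i - j).natAbs ≤ 6 → 0 ≤ B a b ∧ B a b ≤ 127/1000 := by
    intro i j a b hi hj e1 e2
    rcases gap hc hs hp hB hN hi hj with h | h
    · exact h
    · exfalso
      subst h
      have h3 := hi.unique hj
      have h4 : (x * y) ^ i = (x * y) ^ j := mul_left_cancel h3
      have h5 : (x * y) ^ (i - j) = 1 := by rw [zpow_sub, h4, mul_inv_cancel]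
      have h6 : (x * y) ^ (i - j).natAbs = 1 := by
        rcases Int.natAbs_eq (i - j) with h7 | h7
        · rw [h7, zpow_natCast] at h5; exact h5
        · rw [h7, zpow_neg, zpow_natCast, inv_eq_one] at h5; exact h5
      exact hcon _ e1 e2 h6
  have n1 := norton hp hN h0 h1
  have hMN := M_eq_N hc hs hB h0 h1 n1
  have hrel := rel hc hs hB h0 h1
  rw [hMN] at hrel
  have hrel' := congrArg x hrel
  have s1 : x (sg m a₀ (y a₀)) = sg m a₀ (y a₀) := mu_sg h0 _
  have s2 : x (sg m a₁ (x a₁)) = sg m a₁ (x a₁) := by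
    have : x (sg m a₁ (x a₁)) = sg m (x a₁) a₁ := by
      unfold sg
      rw [map_sub, map_smul, map_add, h0.mm, h0.invol]
    rw [this, sg_comm hc]
  simp only [map_add, map_sub, map_smul, map_zero, h0.invol, h0.fa, s1, s2] at hrel'
  set c := (32768 * (B a₀ a₁)^2 - 2304 * (B a₀ a₁) + 128 * (B a₀ (y a₀)) + 33)/7 with hcdef
  set q := 256 * (B a₀ a₁) - 6 with hq
  have hD : x (y (x a₁)) + (1 + q) • x (y a₀) + (q + c) • x a₁ - (q + c) • a₁ - (1 + q) • y a₀ - y (x a₁) = 0 := by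
    linear_combination (norm := module) (1:ℝ) • (hrel - hrel')
  have E : ∀ a : V, B a (x (y (x a₁))) + (1 + q) * B a (x (y a₀)) + (q + c) * B a (x a₁) - (q + c) * B a a₁ -
      (1 + q) * B a (y a₀) - B a (y (x a₁)) = 0 := by
    intro a
    have := congrArg (B a) hD
    simpa only [map_add, map_sub, map_smul, map_zero, smul_eq_mul] using this
  have E1 := E a₁
  have E2 := E (y a₀)
  have E3 := E (y (x a₁))
  rw [k1.nrm] at E1
  rw [k2.nrm, hs (y a₀) a₁] at E2
  rw [k3.nrm] at E3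
  exact numeric (b₁ := 1 + q) (b₂ := q + c)
    (bd _ _ _ _ k1 km3 (by decide) (by decide)) (bd _ _ _ _ k1 km2 (by decide) (by decide))
    (bd _ _ _ _ k1 km1 (by decide) (by decide)) (bd _ _ _ _ k1 k2 (by decide) (by decide))
    (bd _ _ _ _ k1 k3 (by decide) (by decide))
    (bd _ _ _ _ k2 km3 (by decide) (by decide)) (bd _ _ _ _ k2 km2 (by decide) (by decide))
    (bd _ _ _ _ k2 km1 (by decide) (by decide)) (bd _ _ _ _ k2 k3 (by decide) (by decide))
    (bd _ _ _ _ k3 km3 (by decide) (by decide)) (bd _ _ _ _ k3 km2 (by decide) (by decide))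
    (bd _ _ _ _ k3 km1 (by decide) (by decide)) (bd _ _ _ _ k3 k1 (by decide) (by decide))
    (bd _ _ _ _ k3 k2 (by decide) (by decide))
    (by linarith) (by linarith) (by linarith)

end

end CfsgLib.Maj28
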