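import Cfsg.Agent.LibSchur4
import Mathlib.GroupTheory.SemidirectProduct

/-! A model for central extensions of metacyclic groups. -/

set_option autoImplicit false
set_option linter.style.haveILetI false
set_option linter.unusedSectionVars false

namespace CfsgLib.Meta

open Subgroup
open scoped commutatorElement

section model

variable (g r n : ℕ) (hr : (r : ZMod g) ^ n = 1) (hn : 0 < n)

/-- the automorphism `A ↦ A + c`, `c ↦ r c` -/
def alpha : (ℤ × ZMod g) ≃+ (ℤ × ZMod g) where
  toFun p := (p.1, (p.1 : ZMod g) + r * p.2)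
  invFun p := (p.1, (r : ZMod g) ^ (n - 1) * (p.2 - p.1))
  left_inv := by
    rintro ⟨x, y⟩
    have h : (r : ZMod g) ^ (n - 1) * r = 1 := by rw [← pow_succ, Nat.sub_add_cancel hn, hr]
    ext
    · rfl
    · change (r : ZMod g) ^ (n - 1) * ((x : ZMod g) + r * y - x) = y
      rw [add_sub_cancel_left, ← mul_assoc, h, one_mul]
  right_inv := by
    rintro ⟨x, y⟩
    have h : (r : ZMod g) * (r : ZMod g) ^ (n - 1) = 1 := by rw [← pow_succ', Nat.sub_add_cancel hn, hr]
    ext
    · rfl
    · change (x : ZMod g) + r * ((r : ZMod g) ^ (n - 1) * (y - x)) = y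
      rw [← mul_assoc, h, one_mul, add_sub_cancel]
  map_add' := by
    rintro ⟨x, y⟩ ⟨x', y'⟩
    ext
    · rfl
    · change ((x + x' : ℤ) : ZMod g) + r * (y + y') = (x + r * y) + (x' + r * y')
      push_cast; ring

/-- the same as a multiplicative automorphism -/
def alphaM : MulAut (Multiplicative (ℤ × ZMod g)) := AddEquiv.toMultiplicative (alpha g r n hr hn)

theorem alphaM_apply (x : ℤ) (y : ZMod g) : alphaM g r n hr hn (Multiplicative.ofAdd (x, y)) =
    Multiplicative.ofAdd (x, (x : ZMod g) + r * y) := rfl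

theorem alphaM_pow (j : ℕ) (x : ℤ) (y : ZMod g) : ((alphaM g r n hr hn) ^ j) (Multiplicative.ofAdd (x, y)) =
    Multiplicative.ofAdd (x, ((∑ i ∈ Finset.range j, r ^ i : ℕ) : ZMod g) * x + (r : ZMod g) ^ j * y) := by
  induction j generalizing y with
  | zero => simp
  | succ j ih =>
    rw [pow_succ, MulAut.mul_apply, alphaM_apply, ih]
    congr 2
    rw [Finset.sum_range_succ]
    push_cast; ring

variable (hS : ((∑ i ∈ Finset.range n, r ^ i : ℕ) : ZMod g) = 0)

include hS in
theorem alphaM_pow_n : (alphaM g r n hr hn) ^ n = 1 := by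
  refine MulEquiv.ext (fun v => ?_)
  obtain ⟨⟨x, y⟩, rfl⟩ := Multiplicative.ofAdd.surjective v
  rw [alphaM_pow, hS, hr, zero_mul, zero_add, one_mul]
  rfl

/-- the action of `ℤ` -/
def phi : Multiplicative ℤ →* MulAut (Multiplicative (ℤ × ZMod g)) := zpowersHom _ (alphaM g r n hr hn)

/-- the model group -/
abbrev Gam : Type := Multiplicative (ℤ × ZMod g) ⋊[phi g r n hr hn] Multiplicative ℤ

/-- elements of the base -/
def iV (x y : ℤ) : Gam g r n hr hn := SemidirectProduct.inl (Multiplicative.ofAdd (x, (y : ZMod g)))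

/-- elements of the top -/
def iB (j : ℤ) : Gam g r n hr hn := SemidirectProduct.inr (Multiplicative.ofAdd j)

theorem iV_mul (x y x' y' : ℤ) : iV g r n hr hn x y * iV g r n hr hn x' y' = iV g r n hr hn (x + x') (y + y') := by
  unfold iV
  rw [← map_mul, ← ofAdd_add, Prod.mk_add_mk, ← Int.cast_add]

theorem iV_zero : iV g r n hr hn 0 0 = 1 := by
  unfold iV
  rw [Int.cast_zero]
  exact map_one _

theorem iV_inv (x y : ℤ) : (iV g r n hr hn x y)⁻¹ = iV g r n hr hn (-x) (-y) := by
  rw [inv_eq_iff_mul_eq_one, iV_mul, add_neg_cancel, add_neg_cancel, iV_zero]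

theorem iV_comm (x y x' y' : ℤ) : iV g r n hr hn x y * iV g r n hr hn x' y' = iV g r n hr hn x' y' * iV g r n hr hn x y := by
  rw [iV_mul, iV_mul, add_comm x, add_comm y]

theorem iV_pow (x y : ℤ) (k : ℤ) : (iV g r n hr hn x y) ^ k = iV g r n hr hn (k * x) (k * y) := by
  unfold iV
  rw [← map_zpow, ← ofAdd_zsmul]
  congr 2
  ext
  · simp
  · simp

theorem iB_add (i j : ℤ) : iB g r n hr hn (i + j) = iB g r n hr hn i * iB g r n hr hn j := by
  unfold iB
  rw [ofAdd_add, map_mul]

theorem iB_pow (k : ℤ) : (iB g r n hr hn 1) ^ k = iB g r n hr hn k := by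
  unfold iB
  rw [← map_zpow, ← ofAdd_zsmul]
  simp

theorem iB_conj (x y : ℤ) : iB g r n hr hn 1 * iV g r n hr hn x y * (iB g r n hr hn 1)⁻¹ = iV g r n hr hn x (x + r * y) := by
  unfold iB iV
  rw [← map_inv, ← SemidirectProduct.inl_aut]
  congr 1
  change (phi g r n hr hn (Multiplicative.ofAdd 1)) _ = _
  unfold phi
  rw [zpowersHom_apply, toAdd_ofAdd, zpow_one, alphaM_apply]
  push_cast
  rfl

include hS in
theorem iB_comm (i x y : ℤ) : iB g r n hr hn (n * i) * iV g r n hr hn x y = iV g r n hr hn x y * iB g r n hr hn (n * i) := by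
  have h : iB g r n hr hn (n * i) * iV g r n hr hn x y * (iB g r n hr hn (n * i))⁻¹ = iV g r n hr hn x y := by
    unfold iB iV
    rw [← map_inv, ← SemidirectProduct.inl_aut]
    congr 1
    unfold phi
    rw [zpowersHom_apply, toAdd_ofAdd, zpow_mul, zpow_natCast, alphaM_pow_n g r n hr hn hS, one_zpow]
    rfl
  rw [mul_inv_eq_iff_eq_mul] at h
  exact h

theorem exists_form (γ : Gam g r n hr hn) : ∃ x y j : ℤ, γ = iV g r n hr hn x y * iB g r n hr hn j := by
  obtain ⟨⟨x, y⟩, hxy⟩ := Multiplicative.ofAdd.surjective γ.left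
  obtain ⟨j, hj⟩ := Multiplicative.ofAdd.surjective γ.right
  obtain ⟨y', rfl⟩ := ZMod.intCast_surjective y
  refine ⟨x, y', j, ?_⟩
  unfold iV iB
  rw [hxy, hj]
  exact (SemidirectProduct.inl_left_mul_inr_right γ).symm

theorem form_inj {x y j x' y' j' : ℤ} (h : iV g r n hr hn x y * iB g r n hr hn j = iV g r n hr hn x' y' * iB g r n hr hn j') :
    x = x' ∧ (y : ZMod g) = y' ∧ j = j' := by
  unfold iV iB at h
  have h1 := congrArg SemidirectProduct.left h
  have h2 := congrArg SemidirectProduct.right h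
  simp at h1 h2
  exact ⟨h1.1, h1.2, h2⟩

theorem gen : closure {iV g r n hr hn 1 0, iB g r n hr hn 1} = ⊤ := by
  rw [eq_top_iff]
  intro γ _
  obtain ⟨x, y, j, rfl⟩ := exists_form g r n hr hn γ
  have hA : iV g r n hr hn 1 0 ∈ closure {iV g r n hr hn 1 0, iB g r n hr hn 1} := subset_closure (Or.inl rfl)
  have hB : iB g r n hr hn 1 ∈ closure {iV g r n hr hn 1 0, iB g r n hr hn 1} := subset_closure (Or.inr rfl)
  have hc : iV g r n hr hn 0 1 ∈ closure {iV g r n hr hn 1 0, iB g r n hr hn 1} := by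
    have h1 : iV g r n hr hn 0 1 = iB g r n hr hn 1 * iV g r n hr hn 1 0 * (iB g r n hr hn 1)⁻¹ * (iV g r n hr hn 1 0)⁻¹ := by
      rw [iB_conj, iV_inv, iV_mul]
      norm_num
    rw [h1]
    exact mul_mem (mul_mem (mul_mem hB hA) (inv_mem hB)) (inv_mem hA)
  refine mul_mem ?_ ?_
  · have h2 : iV g r n hr hn x y = (iV g r n hr hn 1 0) ^ x * (iV g r n hr hn 0 1) ^ y := by
      rw [iV_pow, iV_pow, iV_mul]; simp
    rw [h2]
    exact mul_mem (zpow_mem hA x) (zpow_mem hc y)
  · have h3 := zpow_mem hB j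
    rwa [iB_pow] at h3

theorem orderOf_c : orderOf (iV g r n hr hn 0 1) = g := by
  unfold iV
  rw [orderOf_injective _ SemidirectProduct.inl_injective]
  rw [orderOf_ofAdd_eq_addOrderOf]
  rw [Prod.addOrderOf]
  simp

/-- the central subgroup -/
def K1 (m t : ℕ) : Subgroup (Gam g r n hr hn) where
  carrier := {γ | ∃ x y i : ℤ, γ = iV g r n hr hn x y * iB g r n hr hn (n * i) ∧ (m : ℤ) ∣ x + (r - 1) * y + t * i}
  mul_mem' := by
    rintro _ _ ⟨x, y, i, rfl, h⟩ ⟨x', y', i', rfl, h'⟩
    refine ⟨x + x', y + y', i + i', ?_, ?_⟩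
    · rw [mul_assoc, ← mul_assoc (iB g r n hr hn (n * i)), iB_comm g r n hr hn hS, mul_assoc, ← mul_assoc, iV_mul, ← iB_add, mul_add]
    · have h2 := dvd_add h h'
      have h3 : x + x' + ((r : ℤ) - 1) * (y + y') + t * (i + i') = x + (r - 1) * y + t * i + (x' + (r - 1) * y' + t * i') := by ring
      rw [h3]; exact h2
  one_mem' := ⟨0, 0, 0, by rw [iV_zero, mul_zero, one_mul]; exact (map_one _).symm, by simp⟩
  inv_mem' := by
    rintro _ ⟨x, y, i, rfl, h⟩
    refine ⟨-x, -y, -i, ?_, ?_⟩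
    · rw [mul_inv_rev, iV_inv]
      have h1 : (iB g r n hr hn (n * i))⁻¹ = iB g r n hr hn (n * (-i)) := by
        rw [inv_eq_iff_mul_eq_one, ← iB_add, mul_neg, add_neg_cancel]; exact map_one _
      rw [h1, iB_comm g r n hr hn hS]
    · have h3 : -x + ((r : ℤ) - 1) * (-y) + t * (-i) = -(x + (r - 1) * y + t * i) := by ring
      rw [h3]; exact (dvd_neg).mpr h

theorem mem_K1 (m t : ℕ) (γ : Gam g r n hr hn) : γ ∈ K1 g r n hr hn hS m t ↔
    ∃ x y i : ℤ, γ = iV g r n hr hn x y * iB g r n hr hn (n * i) ∧ (m : ℤ) ∣ x + (r - 1) * y + t * i := Iff.rfl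

theorem K1_central (m t : ℕ) (hgm : g ∣ m) (hgt : g ∣ t) : K1 g r n hr hn hS m t ≤ center (Gam g r n hr hn) := by
  rintro _ ⟨x, y, i, rfl, h⟩
  have h1 : (⊤ : Subgroup (Gam g r n hr hn)) ≤ centralizer {iV g r n hr hn x y * iB g r n hr hn (n * i)} := by
    rw [← gen g r n hr hn, closure_le]
    rintro γ (rfl | rfl)
    · rw [SetLike.mem_coe, mem_centralizer_iff]
      intro z hz
      rw [Set.mem_singleton_iff] at hz
      subst hz
      rw [mul_assoc, iB_comm g r n hr hn hS, ← mul_assoc, iV_comm, mul_assoc]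
    · rw [SetLike.mem_coe, mem_centralizer_iff]
      intro z hz
      rw [Set.mem_singleton_iff] at hz
      subst hz
      have h2 := iB_conj g r n hr hn x y
      have h3 : iV g r n hr hn x (x + r * y) = iV g r n hr hn x y := by
        unfold iV
        congr 3
        have h4 : (g : ℤ) ∣ x + (r - 1) * y := by
          have h5 : (g : ℤ) ∣ x + (r - 1) * y + t * i := (Int.natCast_dvd_natCast.mpr hgm).trans h
          have h6 : (g : ℤ) ∣ t * i := (Int.natCast_dvd_natCast.mpr hgt).mul_right i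
          exact (dvd_add_left h6).mp h5
        rw [ZMod.intCast_eq_intCast_iff_dvd_sub]
        have h7 : y - (x + r * y) = -(x + (r - 1) * y) := by ring
        rw [h7]; exact (dvd_neg).mpr h4
      rw [h3, mul_inv_eq_iff_eq_mul] at h2
      have h8 : iB g r n hr hn (n * i) * iB g r n hr hn 1 = iB g r n hr hn 1 * iB g r n hr hn (n * i) := by
        rw [← iB_add, ← iB_add, add_comm]
      rw [mul_assoc, h8, ← mul_assoc, ← h2, mul_assoc]
  rw [mem_center_iff]
  intro γ
  have h2 := h1 (mem_top γ)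
  rw [mem_centralizer_iff] at h2
  exact (h2 _ rfl).symm

end model

end CfsgLib.Meta
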