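import Cfsg.Agent.LibMeta

/-! Structure of metacyclic-like groups. -/

set_option autoImplicit false
set_option linter.style.haveILetI false
set_option linter.unusedSectionVars false

namespace CfsgLib.Meta

open Subgroup CfsgLib.Schur
open scoped commutatorElement

variable {Γ : Type*} [Group Γ]

theorem mem_norm_zpowers {g c : Γ} (h1 : g * c * g⁻¹ ∈ zpowers c) (h2 : g⁻¹ * c * g ∈ zpowers c) :
    g ∈ normalizer (zpowers c : Set Γ) := by
  rw [mem_normalizer_iff]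
  intro h
  constructor
  · intro hh
    obtain ⟨k, rfl⟩ := mem_zpowers_iff.mp hh
    rw [← conj_zpow]; exact zpow_mem h1 k
  · intro hh
    obtain ⟨k, hk⟩ := mem_zpowers_iff.mp hh
    have h3 : h = g⁻¹ * c ^ k * g := by rw [hk]; group
    have h4 : g⁻¹ * c ^ k * g = (g⁻¹ * c * g) ^ k := by
      have := (conj_zpow (i := k) (a := g⁻¹) (b := c))
      rw [inv_inv] at this
      exact this.symm
    rw [h3, h4]; exact zpow_mem h2 k

theorem pow_conj {B c : Γ} {r : ℕ} (h : B * c * B⁻¹ = c ^ r) (j : ℕ) : B ^ j * c * (B ^ j)⁻¹ = c ^ (r ^ j) := by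
  induction j with
  | zero => simp
  | succ j ih =>
    have h1 : B ^ (j + 1) * c * (B ^ (j + 1))⁻¹ = B * (B ^ j * c * (B ^ j)⁻¹) * B⁻¹ := by
      rw [pow_succ']; group
    rw [h1, ih, ← conj_pow, h, ← pow_mul, pow_succ, mul_comm]

theorem inv_conj_mem {B c : Γ} {n r : ℕ} (hn : 0 < n) (h : B * c * B⁻¹ = c ^ r) (hB : B ^ n * c = c * B ^ n) :
    B⁻¹ * c * B ∈ zpowers c := by
  have h1 := pow_conj h (n - 1)
  have h2 : B⁻¹ * c * B = B ^ (n - 1) * c * (B ^ (n - 1))⁻¹ := by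
    have h3 : B ^ n = B * B ^ (n - 1) := by rw [← pow_succ', Nat.sub_add_cancel hn]
    rw [h3] at hB
    have h4 : B ^ (n - 1) * c = B⁻¹ * c * B * B ^ (n - 1) := by
      have : B * (B ^ (n - 1) * c) = c * (B * B ^ (n - 1)) := by rw [← mul_assoc, hB]
      calc B ^ (n - 1) * c = B⁻¹ * (B * (B ^ (n - 1) * c)) := by group
        _ = B⁻¹ * (c * (B * B ^ (n - 1))) := by rw [this]
        _ = _ := by group
    rw [h4, mul_inv_cancel_right]
  rw [h2, h1]
  exact pow_mem (mem_zpowers c) _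

theorem normal_zpowers {A B c : Γ} (hgen : closure {A, B} = (⊤ : Subgroup Γ)) {n r : ℕ} (hn : 0 < n)
    (hA : A * c = c * A) (h : B * c * B⁻¹ = c ^ r) (hB : B ^ n * c = c * B ^ n) : (zpowers c).Normal := by
  rw [← normalizer_eq_top_iff, eq_top_iff, ← hgen, closure_le]
  rintro g (rfl | rfl)
  · apply mem_norm_zpowers
    · rw [hA, mul_inv_cancel_right]; exact mem_zpowers c
    · rw [mul_assoc, ← hA, inv_mul_cancel_left]; exact mem_zpowers c
  · apply mem_norm_zpowers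
    · rw [h]; exact pow_mem (mem_zpowers c) _
    · exact inv_conj_mem hn h hB

theorem exists_form_gen {a b : Γ} (hgen : closure {a, b} = (⊤ : Subgroup Γ)) {n t r : ℕ} (hn : 0 < n)
    (h2 : b ^ n = a ^ t) (h3 : b * a * b⁻¹ = a ^ r) (g : Γ) : ∃ s j : ℤ, g = a ^ s * b ^ j := by
  haveI : (zpowers a).Normal := normal_zpowers hgen hn rfl h3 (by rw [h2, ← pow_succ, ← pow_succ'])
  have h4 : g ∈ zpowers a ⊔ zpowers b := by
    have h5 : (⊤ : Subgroup Γ) ≤ zpowers a ⊔ zpowers b := by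
      rw [← hgen, closure_le]
      rintro x (rfl | rfl)
      · exact mem_sup_left (mem_zpowers _)
      · exact mem_sup_right (mem_zpowers _)
    exact h5 (mem_top g)
  obtain ⟨x, hx, y, hy, rfl⟩ := mem_sup_of_normal_left.mp h4
  obtain ⟨s, rfl⟩ := mem_zpowers_iff.mp hx
  obtain ⟨j, rfl⟩ := mem_zpowers_iff.mp hy
  exact ⟨s, j, rfl⟩

theorem finite_of_gen {a b : Γ} (hgen : closure {a, b} = (⊤ : Subgroup Γ)) {m n t r : ℕ} (hm : 0 < m) (hn : 0 < n)
    (h1 : a ^ m = 1) (h2 : b ^ n = a ^ t) (h3 : b * a * b⁻¹ = a ^ r) : Finite Γ := by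
  have ha : IsOfFinOrder a := isOfFinOrder_iff_pow_eq_one.mpr ⟨m, hm, h1⟩
  have hb : IsOfFinOrder b := isOfFinOrder_iff_pow_eq_one.mpr ⟨n * m, Nat.mul_pos hn hm, by
    rw [pow_mul, h2, ← pow_mul, mul_comm, pow_mul, h1, one_pow]⟩
  haveI : Finite (zpowers a) := ha.finite_zpowers
  haveI : Finite (zpowers b) := hb.finite_zpowers
  refine Finite.of_surjective (fun p : zpowers a × zpowers b => (p.1 : Γ) * p.2) ?_
  intro g
  obtain ⟨s, j, rfl⟩ := exists_form_gen hgen hn h2 h3 g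
  exact ⟨(⟨a ^ s, zpow_mem (mem_zpowers a) s⟩, ⟨b ^ j, zpow_mem (mem_zpowers b) j⟩), rfl⟩

/-- upper bound -/
theorem upper (K : Subgroup Γ) (hK : K ≤ center Γ) {A B : Γ} (hgen : closure {A, B} = (⊤ : Subgroup Γ))
    {m n t r : ℕ} (hr : 0 < r) (hn : 0 < n) (h1 : A ^ m ∈ K) (h2 : ∃ y ∈ K, B ^ n = A ^ t * y)
    (h3 : ∃ z ∈ K, B * A * B⁻¹ = A ^ r * z) :
    ∃ c : Γ, (∃ z ∈ K, c = A ^ (r - 1) * z) ∧ commutator Γ ≤ zpowers c ∧ c ^ m = 1 ∧ c ^ t = 1 ∧
      c ^ (∑ i ∈ Finset.range n, r ^ i) = 1 := by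
  obtain ⟨y, hy, h2⟩ := h2
  obtain ⟨z, hz, h3⟩ := h3
  have hzc : ∀ g, Commute z g := fun g => (mem_center_iff.mp (hK hz) g).symm
  have hyc : ∀ g, Commute y g := fun g => (mem_center_iff.mp (hK hy) g).symm
  obtain ⟨c, hc⟩ : ∃ c, c = A ^ (r - 1) * z := ⟨_, rfl⟩
  have hcA : Commute c A := by
    rw [hc]; exact ((Commute.refl A).pow_left _).mul_left (hzc A)
  have hBA : B * A * B⁻¹ = c * A := by
    rw [h3, hc, mul_assoc, (hzc A).eq, ← mul_assoc, ← pow_succ, Nat.sub_add_cancel hr]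
  have hBc : B * c * B⁻¹ = c ^ r := by
    have e1 : B * c * B⁻¹ = (B * A * B⁻¹) ^ (r - 1) * z := by
      rw [conj_pow, hc]
      have : B * (A ^ (r - 1) * z) * B⁻¹ = B * A ^ (r - 1) * (z * B⁻¹) := by group
      rw [this, (hzc B⁻¹).eq]; group
    have e2 : c ^ r = c ^ (r - 1) * c := by rw [← pow_succ, Nat.sub_add_cancel hr]
    rw [e1, hBA, hcA.mul_pow, e2, mul_assoc, ← hc]
  have hBnA : Commute (B ^ n) A := by
    rw [h2]; exact ((Commute.refl A).pow_left _).mul_left (hyc A)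
  have hBnc : Commute (B ^ n) c := by
    rw [hc]; exact (hBnA.pow_right _).mul_right (hzc _).symm
  haveI := normal_zpowers hgen hn hcA.symm.eq hBc hBnc.eq
  have hcm : ⁅B, A⁆ = c := by
    rw [commutatorElement_def, hBA, mul_inv_cancel_right]
  refine ⟨c, ⟨z, hz, hc⟩, ?_, ?_, ?_, ?_⟩
  · apply comm_le_of_gen (zpowers c) {A, B} hgen
    rintro g (rfl | rfl) h (rfl | rfl)
    · rw [commutatorElement_self]; exact one_mem _
    · rw [← commutatorElement_inv, hcm]; exact inv_mem (mem_zpowers c)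
    · rw [hcm]; exact mem_zpowers c
    · rw [commutatorElement_self]; exact one_mem _
  · have e1 : (B * A * B⁻¹) ^ m = A ^ m := by
      rw [conj_pow, mem_center_iff.mp (hK h1) B, mul_inv_cancel_right]
    rw [hBA, hcA.mul_pow] at e1
    exact mul_eq_right.mp e1
  · have e0 : A ^ t = B ^ n * y⁻¹ := by rw [h2, mul_inv_cancel_right]
    have e1 : (B * A * B⁻¹) ^ t = A ^ t := by
      have e2 : Commute B (A ^ t) := by
        rw [e0]; exact ((Commute.refl B).pow_right _).mul_right ((hyc B).symm.inv_right)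
      rw [conj_pow, e2.eq, mul_inv_cancel_right]
    rw [hBA, hcA.mul_pow] at e1
    exact mul_eq_right.mp e1
  · have e1 : ∀ j : ℕ, B ^ j * A * (B ^ j)⁻¹ = c ^ (∑ i ∈ Finset.range j, r ^ i) * A := by
      intro j
      induction j with
      | zero => simp
      | succ j ih =>
        have e2 : B ^ (j + 1) * A * (B ^ (j + 1))⁻¹ = B * (B ^ j * A * (B ^ j)⁻¹) * B⁻¹ := by
          rw [pow_succ']; group
        have e3 : B * (c ^ (∑ i ∈ Finset.range j, r ^ i) * A) * B⁻¹ = (B * c * B⁻¹) ^ (∑ i ∈ Finset.range j, r ^ i) * (B * A * B⁻¹) := by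
          rw [conj_pow]; group
        rw [e2, ih, e3, hBc, hBA, ← mul_assoc, ← pow_mul, ← pow_succ]
        congr 2
        rw [Finset.sum_range_succ', Finset.mul_sum]
        simp only [pow_succ, pow_zero, mul_comm]
    have e4 := e1 n
    rw [hBnA.eq, mul_inv_cancel_right] at e4
    exact (mul_eq_right.mp e4.symm)

end CfsgLib.Meta
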