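import Mathlib

/-! counting lemmas for the minimal index of a subgroup: a Fisher inequality and the action of an abelian group -/
set_option autoImplicit false

namespace CfsgLib.MinIdx

open MulAction

section fisher
variable {G X Ω : Type*} [Group G] [MulAction G X] [MulAction G Ω] [Finite X] [Finite Ω]

/-- if G is 2-transitive on X and transitive on the smaller set Ω then a point stabiliser of X is transitive on Ω -/
theorem trans_of_card_lt (h2 : ∀ x y x' y' : X, x ≠ y → x' ≠ y' → ∃ g : G, g • x = x' ∧ g • y = y')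
    (h1 : ∀ x x' : X, ∃ g : G, g • x = x')
    (hΩ : ∀ w w' : Ω, ∃ g : G, g • w = w') (hlt : Nat.card Ω < Nat.card X) (x : X) (w w' : Ω) :
    ∃ g : G, g • w = w' ∧ g • x = x := by
  classical
  have := Fintype.ofFinite X
  have := Fintype.ofFinite Ω
  by_contra hcon
  push Not at hcon
  set I : Ω → X → Prop := fun u y => ∃ g : G, g • w = u ∧ g • x = y with hI
  have hinv : ∀ (g : G) u y, I u y → I (g • u) (g • y) := by
    rintro g u y ⟨h, rfl, rfl⟩
    exact ⟨g * h, by rw [mul_smul], by rw [mul_smul]⟩
  have hinv' : ∀ (g : G) u y, I (g • u) (g • y) ↔ I u y := by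
    intro g u y
    refine ⟨fun h => ?_, hinv g u y⟩
    have := hinv g⁻¹ _ _ h
    simpa using this
  have hnot : ¬ I w' x := by
    rintro ⟨g, h3, h4⟩
    exact hcon g h3 h4
  have hyes : I w x := ⟨1, by simp, by simp⟩
  -- counts
  let lam : X → X → ℕ := fun y z => (Finset.univ.filter fun u => I u y ∧ I u z).card
  have hlam : ∀ (g : G) y z, lam (g • y) (g • z) = lam y z := by
    intro g y z
    refine Finset.card_bij' (fun u _ => g⁻¹ • u) (fun u _ => g • u) ?_ ?_ ?_ ?_
    · intro u hu
      rw [Finset.mem_filter] at hu ⊢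
      refine ⟨Finset.mem_univ _, (hinv' g _ _).1 ?_, (hinv' g _ _).1 ?_⟩
      · rw [smul_inv_smul]; exact hu.2.1
      · rw [smul_inv_smul]; exact hu.2.2
    · intro u hu
      rw [Finset.mem_filter] at hu ⊢
      refine ⟨Finset.mem_univ _, ?_⟩
      rw [hinv', hinv']; exact hu.2
    · intro u _; simp
    · intro u _; simp
  have hr : ∀ y, lam y y = lam x x := by
    intro y
    obtain ⟨g, rfl⟩ := h1 x y
    exact hlam g x x
  -- lam y z < lam x x for y ≠ z
  have hlt' : ∀ y z, y ≠ z → lam y z < lam x x := by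
    intro y z hyz
    by_contra hge
    push Not at hge
    have hall : ∀ y' z', y' ≠ z' → ∀ u, I u y' → I u z' := by
      intro y' z' hne
      obtain ⟨g, hg1, hg2⟩ := h2 y z y' z' hyz hne
      have h5 : lam y' z' = lam y z := by rw [← hg1, ← hg2]; exact hlam g y z
      have h6 : (Finset.univ.filter fun u => I u y' ∧ I u z') = (Finset.univ.filter fun u => I u y' ∧ I u y') := by
        apply Finset.eq_of_subset_of_card_le
        · intro u hu
          rw [Finset.mem_filter] at hu ⊢
          exact ⟨hu.1, hu.2.1, hu.2.1⟩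
        · change lam y' y' ≤ lam y' z'
          rw [hr, h5]; exact hge
      intro u hu
      have h7 : u ∈ (Finset.univ.filter fun u => I u y' ∧ I u y') := by
        rw [Finset.mem_filter]; exact ⟨Finset.mem_univ _, hu, hu⟩
      rw [← h6, Finset.mem_filter] at h7
      exact h7.2.2
    have hall' : ∀ y' z' u, I u y' → I u z' := by
      intro y' z' u hu
      by_cases h : y' = z'
      · rw [← h]; exact hu
      · exact hall y' z' h u hu
    apply hnot
    obtain ⟨g, hg⟩ := hΩ w w'
    have h8 : I (g • w) (g • x) := hinv g _ _ hyes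
    rw [hg] at h8
    exact hall' _ _ _ h8
  by_cases hX : ∃ y z : X, y ≠ z
  · obtain ⟨y0, z0, hyz0⟩ := hX
    have hconst : ∀ y z, y ≠ z → lam y z = lam y0 z0 := by
      intro y z hyz
      obtain ⟨g, rfl, rfl⟩ := h2 y0 z0 y z hyz0 hyz
      exact hlam g y0 z0
    -- the linear map
    let M : (X → ℚ) →ₗ[ℚ] (Ω → ℚ) :=
      { toFun := fun f u => ∑ y, if I u y then f y else 0
        map_add' := by
          intro f g; funext u
          simp only [Pi.add_apply]
          rw [← Finset.sum_add_distrib]
          exact Finset.sum_congr rfl fun y _ => by split_ifs <;> simp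
        map_smul' := by
          intro c f; funext u
          simp only [Pi.smul_apply, smul_eq_mul, RingHom.id_apply, Finset.mul_sum]
          exact Finset.sum_congr rfl fun y _ => by split_ifs <;> simp }
    have hinj : Function.Injective M := by
      rw [← LinearMap.ker_eq_bot, LinearMap.ker_eq_bot']
      intro f hf
      have h3 : ∑ u, (M f u) * (M f u) = 0 := by rw [hf]; simp
      have h4 : ∑ u, (M f u) * (M f u) = ∑ y, ∑ z, f y * f z * (lam y z : ℚ) := by
        have h5 : ∀ u, (M f u) * (M f u) = ∑ y, ∑ z, if I u y ∧ I u z then f y * f z else 0 := by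
          intro u
          change (∑ y, if I u y then f y else 0) * (∑ z, if I u z then f z else 0) = _
          rw [Finset.sum_mul_sum]
          refine Finset.sum_congr rfl fun y _ => Finset.sum_congr rfl fun z _ => ?_
          by_cases h6 : I u y <;> by_cases h7 : I u z <;> simp [h6, h7]
        rw [Finset.sum_congr rfl fun u _ => h5 u, Finset.sum_comm]
        refine Finset.sum_congr rfl fun y _ => ?_
        rw [Finset.sum_comm]
        refine Finset.sum_congr rfl fun z _ => ?_
        rw [← Finset.sum_filter, Finset.sum_const, nsmul_eq_mul, mul_comm]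
      have h5 : ∑ y, ∑ z, f y * f z * (lam y z : ℚ) =
          ((lam x x : ℚ) - lam y0 z0) * ∑ y, f y ^ 2 + (lam y0 z0 : ℚ) * (∑ y, f y) ^ 2 := by
        rw [sq (∑ y, f y), Finset.sum_mul_sum, Finset.mul_sum, Finset.mul_sum, ← Finset.sum_add_distrib]
        refine Finset.sum_congr rfl fun y _ => ?_
        rw [Finset.mul_sum]
        have h6 : ∀ z, f y * f z * (lam y z : ℚ) = (lam y0 z0 : ℚ) * (f y * f z) +
            if z = y then ((lam x x : ℚ) - lam y0 z0) * f y ^ 2 else 0 := by
          intro z
          by_cases hzy : z = y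
          · rw [if_pos hzy, hzy, hr]; ring
          · rw [if_neg hzy, hconst y z (Ne.symm hzy)]; ring
        rw [Finset.sum_congr rfl fun z _ => h6 z, Finset.sum_add_distrib, Finset.sum_ite_eq' Finset.univ y]
        simp only [Finset.mem_univ, if_true]
        ring
      have h6 : (0 : ℚ) < (lam x x : ℚ) - lam y0 z0 := by
        have := hlt' y0 z0 hyz0
        rw [sub_pos]; exact_mod_cast this
      have h7 : 0 ≤ (lam y0 z0 : ℚ) * (∑ y, f y) ^ 2 := by positivity
      have h8 : 0 ≤ ∑ y, f y ^ 2 := Finset.sum_nonneg fun y _ => sq_nonneg _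
      have h9 : ∑ y, f y ^ 2 = 0 := by
        rw [h3] at h4
        rw [← h4] at h5
        nlinarith
      rw [Finset.sum_eq_zero_iff_of_nonneg fun y _ => sq_nonneg _] at h9
      funext y
      have := h9 y (Finset.mem_univ y)
      simpa using this
    have h10 := LinearMap.finrank_le_finrank_of_injective hinj
    rw [Module.finrank_fintype_fun_eq_card, Module.finrank_fintype_fun_eq_card] at h10
    rw [Nat.card_eq_fintype_card, Nat.card_eq_fintype_card] at hlt
    omega
  · push Not at hX
    have h3 : Nat.card X ≤ 1 := by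
      rw [Nat.card_eq_fintype_card]
      exact Fintype.card_le_one_iff.2 hX
    have h4 : 0 < Nat.card Ω := by
      haveI : Nonempty Ω := ⟨w⟩
      exact Nat.card_pos
    omega

end fisher

section count
variable {Q : Type*} [CommGroup Q]

theorem card_sup_mul {A B : Subgroup Q} : Nat.card (A ⊔ B : Subgroup Q) * Nat.card (A ⊓ B : Subgroup Q) = Nat.card A * Nat.card B := by
  have h1 : B.relIndex (A ⊔ B) = B.relIndex A := Subgroup.relIndex_sup_right A B
  have h2 : Nat.card B * B.relIndex (A ⊔ B) = Nat.card (A ⊔ B : Subgroup Q) := by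
    rw [← Subgroup.relIndex_bot_left B, ← Subgroup.relIndex_bot_left (A ⊔ B)]
    exact Subgroup.relIndex_mul_relIndex _ _ _ bot_le le_sup_right
  have h3 : Nat.card (A ⊓ B : Subgroup Q) * B.relIndex A = Nat.card A := by
    rw [← Subgroup.relIndex_bot_left (A ⊓ B), ← Subgroup.relIndex_bot_left A, ← Subgroup.inf_relIndex_left (H := A) (K := B)]
    exact Subgroup.relIndex_mul_relIndex _ _ _ bot_le inf_le_left
  rw [← h2, h1, ← h3]
  ring

variable {Ω : Type*} [MulAction Q Ω] [Finite Q] [Finite Ω]

theorem count_key (f α : ℕ) (hf : ∀ x : Q, x ≠ 1 → Nat.card (fixedBy Ω x) = f)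
    (hα : ∀ w : Ω, Nat.card (stabilizer Q w) = α) (hne : ∃ w : Ω, stabilizer Q w ≠ ⊤)
    (hm : Nat.card Ω ≤ 2 * (Nat.card Q - 1)) :
    ∃ s k : ℕ, Nat.card Q = α * s ∧ Nat.card Ω = k * s ∧ k + Nat.card Q = Nat.card Ω + 1 ∧ 2 ≤ s ∧
      ∀ w w' : Ω, w' ∉ orbit Q w → stabilizer Q w ⊔ stabilizer Q w' = ⊤ := by
  classical
  have := Fintype.ofFinite Q
  have := Fintype.ofFinite Ω
  obtain ⟨w0, hw0⟩ := hne
  have hα0 : 0 < α := by rw [← hα w0]; exact Nat.card_pos
  obtain ⟨s, hs⟩ : ∃ s, Nat.card Q = α * s := by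
    rw [← hα w0]; exact (Subgroup.card_subgroup_dvd_card _)
  have hQ0 : 0 < Nat.card Q := Nat.card_pos
  have hs0 : 0 < s := by
    rcases Nat.eq_zero_or_pos s with h | h
    · rw [h, mul_zero] at hs; omega
    · exact h
  have hs2 : 2 ≤ s := by
    by_contra hcon
    have h1 : s = 1 := by omega
    apply hw0
    rw [← Subgroup.card_eq_iff_eq_top, hα, hs, h1, mul_one]
  have horb : ∀ w : Ω, Nat.card (orbit Q w) = s := by
    intro w
    have h1 := MulAction.card_orbit_mul_card_stabilizer_eq_card_group Q w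
    rw [← Nat.card_eq_fintype_card, ← Nat.card_eq_fintype_card, ← Nat.card_eq_fintype_card, hα, hs, mul_comm] at h1
    exact Nat.eq_of_mul_eq_mul_left hα0 h1
  -- number of orbits
  set k : ℕ := Fintype.card (Quotient (orbitRel Q Ω)) with hk
  have hmk : Nat.card Ω = k * s := by
    rw [Nat.card_congr (MulAction.selfEquivSigmaOrbits' Q Ω), Nat.card_sigma]
    have : ∀ w : Quotient (orbitRel Q Ω), Nat.card (orbitRel.Quotient.orbit w) = s := by
      intro w
      rw [← horb w.out, orbitRel.Quotient.orbit_eq_orbit_out w Quotient.out_eq']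
    rw [Finset.sum_congr rfl fun w _ => this w, Finset.sum_const, smul_eq_mul, hk]
    rfl
  have hburn := MulAction.sum_card_fixedBy_eq_card_orbits_mul_card_group Q Ω
  have hsum : ∑ x : Q, Fintype.card (fixedBy Ω x) = Nat.card Ω + (Nat.card Q - 1) * f := by
    rw [← Finset.add_sum_erase Finset.univ _ (Finset.mem_univ (1 : Q))]
    congr 1
    · rw [← Nat.card_eq_fintype_card]
      exact Nat.card_congr ((Equiv.setCongr (by ext; simp)).trans (Equiv.Set.univ Ω))
    · rw [Finset.sum_congr rfl (g := fun _ => f), Finset.sum_const, smul_eq_mul, Finset.card_erase_of_mem (Finset.mem_univ _),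
        Finset.card_univ, Nat.card_eq_fintype_card]
      intro x hx
      rw [← Nat.card_eq_fintype_card]
      exact hf x (Finset.ne_of_mem_erase hx)
  rw [hsum] at hburn
  have hburn' : Nat.card Ω + (Nat.card Q - 1) * f = k * Nat.card Q := by
    rw [hburn, hk, Nat.card_eq_fintype_card (α := Q)]
  have hk0 : 0 < k := by
    rw [hk, Fintype.card_pos_iff]
    exact ⟨Quotient.mk'' w0⟩
  -- f = k - 1
  obtain ⟨c, hc⟩ : ∃ c, Nat.card Q = c + 1 := ⟨Nat.card Q - 1, by omega⟩
  have hkf : f + 1 = k := by
    rw [hc, Nat.add_sub_cancel] at hburn'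
    rw [hc, Nat.add_sub_cancel] at hm
    -- m + c f = k c + k, m = k s
    have h1 : Nat.card Ω = k * s := hmk
    have hgt : k < Nat.card Ω := by rw [hmk]; nlinarith
    -- k > f
    have h2 : f < k := by
      by_contra hcon
      push Not at hcon
      have : k * c ≤ c * f := by rw [mul_comm]; exact Nat.mul_le_mul_left c hcon
      nlinarith
    have h3 : k < f + 2 := by
      by_contra hcon
      push Not at hcon
      obtain ⟨d, hd⟩ := Nat.exists_eq_add_of_le hcon
      rw [hd] at hburn' hk0
      nlinarith [Nat.zero_le (c * d)]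
    omega
  have hQk : k + Nat.card Q = Nat.card Ω + 1 := by
    rw [hc, Nat.add_sub_cancel] at hburn'
    rw [hc]
    rw [← hkf] at hburn' ⊢
    nlinarith
  refine ⟨s, k, hs, hmk, hQk, hs2, ?_⟩
  -- double counting
  intro w w' hw'
  set A := stabilizer Q w with hA
  have hNcard : ∀ u : Ω, α * α = Nat.card (A ⊔ stabilizer Q u : Subgroup Q) * Nat.card (A ⊓ stabilizer Q u : Subgroup Q) := by
    intro u
    rw [card_sup_mul, hA, hα, hα]
  have hle : ∀ u : Ω, α ≤ s * Nat.card (A ⊓ stabilizer Q u : Subgroup Q) := by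
    intro u
    have h1 : Nat.card (A ⊔ stabilizer Q u : Subgroup Q) ≤ α * s := by
      rw [← hs]; exact Subgroup.card_le_card_group _
    have h2 := hNcard u
    have h3 : α * α ≤ α * (s * Nat.card (A ⊓ stabilizer Q u : Subgroup Q)) := by
      rw [h2, ← mul_assoc]
      exact Nat.mul_le_mul_right _ h1
    exact Nat.le_of_mul_le_mul_left h3 hα0
  have hsame : ∀ u ∈ orbit Q w, Nat.card (A ⊓ stabilizer Q u : Subgroup Q) = α := by
    rintro u ⟨g, rfl⟩
    have : stabilizer Q (g • w) = A := by
      ext x
      rw [hA, mem_stabilizer_iff, mem_stabilizer_iff, smul_smul, mul_comm x g, mul_smul]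
      exact smul_left_cancel_iff g
    change Nat.card (A ⊓ stabilizer Q (g • w) : Subgroup Q) = α
    rw [this, inf_idem, hA, hα]
  -- total
  have hcardset : ∀ u : Ω, Nat.card (A ⊓ stabilizer Q u : Subgroup Q) =
      (Finset.univ.filter fun x : Q => x ∈ A ∧ x • u = u).card := by
    intro u
    rw [Nat.card_eq_fintype_card, ← Fintype.card_subtype]
    exact Fintype.card_congr (Equiv.subtypeEquivRight fun x => Iff.rfl)
  have htot : ∑ u : Ω, Nat.card (A ⊓ stabilizer Q u : Subgroup Q) = Nat.card Ω + (α - 1) * f := by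
    have h1 : ∀ u : Ω, Nat.card (A ⊓ stabilizer Q u : Subgroup Q) =
        ∑ x ∈ Finset.univ.filter (fun x : Q => x ∈ A), if x • u = u then 1 else 0 := by
      intro u
      rw [hcardset, ← Finset.card_filter, Finset.filter_filter]
    rw [Finset.sum_congr rfl fun u _ => h1 u, Finset.sum_comm]
    have h2 : ∀ x : Q, (∑ u : Ω, if x • u = u then 1 else 0) = Nat.card (fixedBy Ω x) := by
      intro x
      rw [← Finset.card_filter, Nat.card_eq_fintype_card, ← Fintype.card_subtype]
      exact Fintype.card_congr (Equiv.subtypeEquivRight fun u => Iff.rfl)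
    rw [Finset.sum_congr rfl fun x _ => h2 x]
    have h3 : (1 : Q) ∈ Finset.univ.filter (fun x : Q => x ∈ A) := by
      rw [Finset.mem_filter]; exact ⟨Finset.mem_univ _, A.one_mem⟩
    rw [← Finset.add_sum_erase _ _ h3]
    congr 1
    · exact Nat.card_congr ((Equiv.setCongr (by ext; simp)).trans (Equiv.Set.univ Ω))
    · rw [Finset.sum_congr rfl (g := fun _ => f), Finset.sum_const, smul_eq_mul, Finset.card_erase_of_mem h3]
      · congr 2
        rw [← hα w, Nat.card_eq_fintype_card, ← Fintype.card_subtype]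
      · intro x hx
        exact hf x (Finset.ne_of_mem_erase hx)
  -- split over the orbit
  set O : Finset Ω := Finset.univ.filter fun u => u ∈ orbit Q w with hO
  have hOcard : O.card = s := by
    rw [← horb w, Nat.card_eq_fintype_card, ← Fintype.card_subtype]
  have hOc : (Finset.univ.filter fun u : Ω => ¬ u ∈ orbit Q w).card = k * s - s := by
    have h1 := Finset.card_filter_add_card_filter_not (s := (Finset.univ : Finset Ω)) (fun u => u ∈ orbit Q w)
    rw [Finset.card_univ, ← Nat.card_eq_fintype_card, hmk] at h1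
    rw [hOcard] at h1
    omega
  have hsplit := Finset.sum_filter_add_sum_filter_not Finset.univ (fun u : Ω => u ∈ orbit Q w)
    (fun u => Nat.card (A ⊓ stabilizer Q u : Subgroup Q))
  rw [htot] at hsplit
  have hfirst : ∑ u ∈ O, Nat.card (A ⊓ stabilizer Q u : Subgroup Q) = s * α := by
    rw [Finset.sum_congr rfl (g := fun _ => α), Finset.sum_const, hOcard, smul_eq_mul]
    intro u hu
    rw [hO, Finset.mem_filter] at hu
    exact hsame u hu.2
  rw [hfirst] at hsplit
  set S : ℕ := ∑ u ∈ Finset.univ.filter (fun u : Ω => ¬ u ∈ orbit Q w), Nat.card (A ⊓ stabilizer Q u : Subgroup Q) with hS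
  -- s * S = (k s - s) * α
  have hSval : s * S = (k * s - s) * α := by
    rw [← hkf] at hmk hQk ⊢
    rw [hmk] at hsplit hQk
    rw [hs] at hQk
    have h1 : (f + 1) * s - s = f * s := by rw [add_mul, one_mul, Nat.add_sub_cancel]
    rw [h1]
    obtain ⟨α', rfl⟩ : ∃ a, α = a + 1 := ⟨α - 1, by omega⟩
    rw [Nat.add_sub_cancel] at hsplit
    -- s(α'+1) + S = (f+1) s + α' f ; f + 1 + (α'+1)s = (f+1)s + 1
    have h2 : (s : ℤ) * (α' + 1) + S = (f + 1) * s + α' * f := by exact_mod_cast hsplit
    have h3 : (f : ℤ) + 1 + (α' + 1) * s = (f + 1) * s + 1 := by exact_mod_cast hQk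
    have h4 : (s : ℤ) * S = f * s * (α' + 1) := by
      have h5 : (S : ℤ) = (f + 1) * s + α' * f - s * (α' + 1) := by linarith
      have h6 : (f : ℤ) + α' * s = f * s := by linarith
      rw [h5]
      have h7 : (f : ℤ) = f * s - α' * s := by linarith
      linear_combination (-(s : ℤ) + 0) * h6 + (s : ℤ) * (α' + 1) * 0 * h7 + (s : ℤ) * 0
    exact_mod_cast h4
  have hall : ∀ u ∈ Finset.univ.filter (fun u : Ω => ¬ u ∈ orbit Q w), α = s * Nat.card (A ⊓ stabilizer Q u : Subgroup Q) := by
    rw [← Finset.sum_eq_sum_iff_of_le (fun u _ => hle u), Finset.sum_const, smul_eq_mul, hOc, ← Finset.mul_sum]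
    exact hSval.symm
  have h1 := hall w' (by rw [Finset.mem_filter]; exact ⟨Finset.mem_univ _, hw'⟩)
  have h2 := hNcard w'
  have h3 : Nat.card (A ⊓ stabilizer Q w' : Subgroup Q) ≠ 0 := Nat.card_pos.ne'
  have h4 : Nat.card (A ⊔ stabilizer Q w' : Subgroup Q) = Nat.card Q := by
    rw [hs]
    apply Nat.eq_of_mul_eq_mul_right (Nat.pos_of_ne_zero h3)
    rw [← h2]
    conv_lhs => rw [h1]
    conv_rhs => rw [h1]
    ring
  exact (Subgroup.card_eq_iff_eq_top _).1 h4

end count

end CfsgLib.MinIdx
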