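import Mathlib
import Cfsg.Agent.LibMinIdx1H13
import Cfsg.Agent.LibAutPSL27b
import Cfsg.Agent.LibH22SL

/-! small actions of the special linear group: structure of the point stabilisers -/
set_option autoImplicit false

namespace CfsgLib.MinIdx

open MulAction Matrix CfsgLib.AutPSL27
open scoped LinearAlgebra.Projectivization

variable {F : Type*} [Field F] {n : ℕ}

/-! ### linear algebra with the dot product -/

theorem exists_dot (φ : (Fin n → F) →ₗ[F] F) : ∃ u : Fin n → F, ∀ f, f ⬝ᵥ u = φ f := by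
  refine ⟨fun i => φ (Pi.single i 1), fun f => ?_⟩
  conv_rhs => rw [pi_eq_sum_univ' f]
  rw [map_sum]
  simp only [dotProduct, map_smul, smul_eq_mul]

theorem sep (W : Submodule F (Fin n → F)) {g : Fin n → F} (hg : g ∉ W) :
    ∃ u : Fin n → F, (∀ w ∈ W, w ⬝ᵥ u = 0) ∧ g ⬝ᵥ u = 1 := by
  obtain ⟨f, hf, hW⟩ := Submodule.exists_le_ker_of_notMem hg
  obtain ⟨u, hu⟩ := exists_dot ((f g)⁻¹ • f)
  refine ⟨u, fun w hw => ?_, ?_⟩
  · have : f w = 0 := hW hw
    rw [hu, LinearMap.smul_apply, this, smul_zero]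
  · rw [hu, LinearMap.smul_apply, smul_eq_mul, inv_mul_cancel₀ hf]

theorem sep1 {f g : Fin n → F} (hg : g ∉ Submodule.span F {f}) : ∃ u : Fin n → F, f ⬝ᵥ u = 0 ∧ g ⬝ᵥ u = 1 := by
  obtain ⟨u, h1, h2⟩ := sep _ hg
  exact ⟨u, h1 f (Submodule.mem_span_singleton_self f), h2⟩

/-- vectors orthogonal to `v` -/
def Dv (v : Fin n → F) : Submodule F (Fin n → F) where
  carrier := {f | f ⬝ᵥ v = 0}
  add_mem' := by
    intro a b ha hb
    change (a + b) ⬝ᵥ v = 0
    rw [add_dotProduct, ha, hb, add_zero]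
  zero_mem' := zero_dotProduct v
  smul_mem' := by
    intro c x hx
    change (c • x) ⬝ᵥ v = 0
    rw [smul_dotProduct, hx, smul_zero]

theorem mem_Dv {v f : Fin n → F} : f ∈ Dv v ↔ f ⬝ᵥ v = 0 := Iff.rfl

theorem finrank_Dv {v : Fin n → F} (hv : v ≠ 0) : Module.finrank F (Dv v) + 1 = n := by
  let φ : (Fin n → F) →ₗ[F] F :=
    { toFun := fun f => f ⬝ᵥ v
      map_add' := fun a b => add_dotProduct a b v
      map_smul' := fun c a => smul_dotProduct c a v }
  have h1 : Dv v = LinearMap.ker φ := by ext f; rfl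
  have h2 := LinearMap.finrank_range_add_finrank_ker φ
  rw [Module.finrank_fintype_fun_eq_card, Fintype.card_fin] at h2
  have h3 : LinearMap.range φ = ⊤ := by
    obtain ⟨i, hi⟩ := Function.ne_iff.mp hv
    rw [LinearMap.range_eq_top]
    intro c
    refine ⟨Pi.single i (c * (v i)⁻¹), ?_⟩
    change Pi.single i (c * (v i)⁻¹) ⬝ᵥ v = c
    rw [single_dotProduct, mul_assoc, inv_mul_cancel₀ hi, mul_one]
  rw [h3, finrank_top, Module.finrank_self] at h2
  rw [h1]; omega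

theorem card_Dv [Finite F] {v : Fin n → F} (hv : v ≠ 0) : Nat.card (Dv v) = Nat.card F ^ (n - 1) := by
  have h1 := finrank_Dv hv
  have h2 : Module.finrank F (Dv v) = n - 1 := by omega
  rw [Module.natCard_eq_pow_finrank (K := F), h2]

/-- an element outside a small subspace -/
theorem exists_notMem {W U : Submodule F (Fin n → F)} (h : Module.finrank F W < Module.finrank F U) :
    ∃ x ∈ U, x ∉ W := by
  by_contra hcon
  push Not at hcon
  have := Submodule.finrank_mono (show U ≤ W from hcon)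
  omega

theorem finrank_span1 (f : Fin n → F) : Module.finrank F (Submodule.span F {f}) ≤ 1 := by
  have := finrank_span_finset_le_card (R := F) ({f} : Finset (Fin n → F))
  rw [Finset.coe_singleton] at this
  exact this

/-! ### transvections -/

theorem tv_mulVec {a ψ : Fin n → F} (h : ψ ⬝ᵥ a = 0) (x : Fin n → F) :
    (tv a ψ : Matrix (Fin n) (Fin n) F) *ᵥ x = x + (ψ ⬝ᵥ x) • a := by
  rw [coe_tv h, add_mulVec, one_mulVec, vecMulVec_mulVec]
  simp

theorem vecMul_tv {a ψ : Fin n → F} (h : ψ ⬝ᵥ a = 0) (f : Fin n → F) :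
    f ᵥ* (tv a ψ : Matrix (Fin n) (Fin n) F) = f + (f ⬝ᵥ a) • ψ := by
  rw [coe_tv h, vecMul_add, vecMul_one, vecMul_vecMulVec]

theorem tv_inv' {a ψ : Fin n → F} (h : ψ ⬝ᵥ a = 0) : (tv a ψ)⁻¹ = tv (-a) ψ := tv_inv h

theorem vecMul_tv_inv {a ψ : Fin n → F} (h : ψ ⬝ᵥ a = 0) (f : Fin n → F) :
    f ᵥ* ((tv a ψ)⁻¹ : Matrix.SpecialLinearGroup (Fin n) F).1 = f - (f ⬝ᵥ a) • ψ := by
  rw [tv_inv h, vecMul_tv (by rw [dotProduct_neg, h, neg_zero]), dotProduct_neg, neg_smul, sub_eq_add_neg]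

/-- conjugating one transvection by another -/
theorem tv_conj_tv {a ψ v f : Fin n → F} (h : ψ ⬝ᵥ a = 0) (hv : ψ ⬝ᵥ v = 0) (hf : f ⬝ᵥ v = 0) :
    tv a ψ * tv v f * (tv a ψ)⁻¹ = tv v (f - (f ⬝ᵥ a) • ψ) := by
  rw [conj_tv _ hf, tv_mulVec h, hv, zero_smul, add_zero]
  congr 1
  exact vecMul_tv_inv h f

theorem vecMul_dot_mulVec (g : Matrix.SpecialLinearGroup (Fin n) F) (f x : Fin n → F) :
    (f ᵥ* (g⁻¹ : Matrix.SpecialLinearGroup (Fin n) F).1) ⬝ᵥ (g.1 *ᵥ x) = f ⬝ᵥ x := by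
  rw [← dotProduct_mulVec, mulVec_mulVec, ← Matrix.SpecialLinearGroup.coe_mul, inv_mul_cancel]
  simp

/-- all transvections with the same centre are conjugate -/
theorem conj_dual (hn : 3 ≤ n) {v f f' : Fin n → F} (hv : v ≠ 0) (hf : f ⬝ᵥ v = 0) (hf' : f' ⬝ᵥ v = 0) (hf0 : f ≠ 0) (hf'0 : f' ≠ 0) :
    ∃ g : Matrix.SpecialLinearGroup (Fin n) F, g * tv v f * g⁻¹ = tv v f' := by
  have key : ∀ f f' : Fin n → F, f ⬝ᵥ v = 0 → f' ⬝ᵥ v = 0 → f ≠ 0 → f' ∉ Submodule.span F {f} →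
      ∃ g : Matrix.SpecialLinearGroup (Fin n) F, g * tv v f * g⁻¹ = tv v f' := by
    intro f f' hf hf' hf0 hind
    have h1 : f ∉ Submodule.span F {f - f'} := by
      intro h
      obtain ⟨c, hc⟩ := Submodule.mem_span_singleton.1 h
      have hc0 : c ≠ 0 := by
        rintro rfl
        rw [zero_smul] at hc
        exact hf0 hc.symm
      apply hind
      have h2 : c • f' = (c - 1) • f := by
        rw [sub_smul, one_smul]
        rw [smul_sub] at hc
        rw [eq_sub_iff_add_eq]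
        conv_lhs => rw [← hc]
        abel
      rw [Submodule.mem_span_singleton]
      exact ⟨c⁻¹ * (c - 1), by rw [mul_smul, ← h2, smul_smul, inv_mul_cancel₀ hc0, one_smul]⟩
    obtain ⟨u, hu1, hu2⟩ := sep1 h1
    refine ⟨tv u (f - f'), ?_⟩
    rw [tv_conj_tv hu1 (by rw [sub_dotProduct, hf, hf', sub_zero]) hf, hu2, one_smul, sub_sub_cancel]
  by_cases hind : f' ∉ Submodule.span F {f}
  · exact key f f' hf hf' hf0 hind
  · push Not at hind
    obtain ⟨f'', h1, h2⟩ : ∃ x ∈ Dv v, x ∉ Submodule.span F {f} := by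
      apply exists_notMem
      have := finrank_Dv hv
      have := finrank_span1 f
      omega
    obtain ⟨g, hg⟩ := key f f'' hf h1 hf0 h2
    have hf''0 : f'' ≠ 0 := by rintro rfl; exact h2 (Submodule.zero_mem _)
    have h3 : f' ∉ Submodule.span F {f''} := by
      intro h3
      obtain ⟨c, hc⟩ := Submodule.mem_span_singleton.1 h3
      obtain ⟨d, hd⟩ := Submodule.mem_span_singleton.1 hind
      have hc0 : c ≠ 0 := by
        rintro rfl
        rw [zero_smul] at hc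
        exact hf'0 hc.symm
      apply h2
      rw [Submodule.mem_span_singleton]
      exact ⟨c⁻¹ * d, by rw [mul_smul, hd, ← hc, smul_smul, inv_mul_cancel₀ hc0, one_smul]⟩
    obtain ⟨g', hg'⟩ := key f'' f' h1 hf' hf''0 h3
    refine ⟨g' * g, ?_⟩
    rw [← hg', ← hg]
    group

/-- the hom from the dual hyperplane to the transvections with centre `v` -/
noncomputable def homT (v : Fin n → F) : Multiplicative (Dv v) →* Matrix.SpecialLinearGroup (Fin n) F where
  toFun := fun f => tv v (Multiplicative.toAdd f).1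
  map_one' := tv_zero_right v
  map_mul' := fun a b => (tv_mul_same_v (Multiplicative.toAdd a).2 (Multiplicative.toAdd b).2).symm

variable {Ω : Type*} [MulAction (Matrix.SpecialLinearGroup (Fin n) F) Ω]

/-- the transvections with centre `v` fixing a point -/
def Av (v : Fin n → F) (w : Ω) : Set (Fin n → F) := {f | f ⬝ᵥ v = 0 ∧ tv v f • w = w}

theorem Av_zero (v : Fin n → F) (w : Ω) : (0 : Fin n → F) ∈ Av v w :=
  ⟨zero_dotProduct v, by rw [tv_zero_right, one_smul]⟩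

theorem Av_add {v : Fin n → F} {w : Ω} {f g : Fin n → F} (hf : f ∈ Av v w) (hg : g ∈ Av v w) : f + g ∈ Av v w := by
  refine ⟨by rw [add_dotProduct, hf.1, hg.1, add_zero], ?_⟩
  rw [← tv_mul_same_v hf.1 hg.1, mul_smul, hg.2, hf.2]

theorem Av_neg {v : Fin n → F} {w : Ω} {f : Fin n → F} (hf : f ∈ Av v w) : -f ∈ Av v w := by
  refine ⟨by rw [neg_dotProduct, hf.1, neg_zero], ?_⟩
  have h1 : tv v (-f) * tv v f = 1 := by
    rw [tv_mul_same_v (by rw [neg_dotProduct, hf.1, neg_zero]) hf.1, neg_add_cancel, tv_zero_right]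
  have h2 : tv v (-f) • w = tv v (-f) • (tv v f • w) := by rw [hf.2]
  rw [h2, ← mul_smul, h1, one_smul]

theorem Av_sub {v : Fin n → F} {w : Ω} {f g : Fin n → F} (hf : f ∈ Av v w) (hg : g ∈ Av v w) : f - g ∈ Av v w := by
  rw [sub_eq_add_neg]; exact Av_add hf (Av_neg hg)

/-- transport by an element fixing the line of `v` -/
theorem Av_conj {v : Fin n → F} {w : Ω} {f : Fin n → F} (hf : f ∈ Av v w) (g : Matrix.SpecialLinearGroup (Fin n) F) {c : F}
    (hg : g.1 *ᵥ v = c • v) : c • (f ᵥ* (g⁻¹ : Matrix.SpecialLinearGroup (Fin n) F).1) ∈ Av v (g • w) := by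
  have h0 : (f ᵥ* (g⁻¹ : Matrix.SpecialLinearGroup (Fin n) F).1) ⬝ᵥ (c • v) = 0 := by
    rw [← hg, vecMul_dot_mulVec, hf.1]
  have h1 : (c • (f ᵥ* (g⁻¹ : Matrix.SpecialLinearGroup (Fin n) F).1)) ⬝ᵥ v = 0 := by
    rw [smul_dotProduct, ← dotProduct_smul, h0]
  refine ⟨h1, ?_⟩
  have h2 : tv v (c • (f ᵥ* (g⁻¹ : Matrix.SpecialLinearGroup (Fin n) F).1)) = g * tv v f * g⁻¹ := by
    rw [conj_tv _ hf.1, hg]
    by_cases hc : c = 0
    · rw [hc, zero_smul, zero_smul, tv_zero_right, tv_zero_left]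
    · rw [tv_smul]
      rw [smul_dotProduct, smul_eq_mul] at h1
      exact (mul_eq_zero.1 h1).resolve_left hc
  rw [h2, mul_smul, mul_smul, inv_smul_smul, hf.2]

end CfsgLib.MinIdx
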