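import Mathlib
import Cfsg.Agent.LibMinIdx2H13

/-! small actions of the special linear group: the two possible structures -/
set_option autoImplicit false

namespace CfsgLib.MinIdx

open MulAction Matrix CfsgLib.AutPSL27
open scoped LinearAlgebra.Projectivization

variable {F : Type*} [Field F] {n : ℕ}

theorem smul_eq_mulVec (g : Matrix.SpecialLinearGroup (Fin n) F) (v : Fin n → F) : g • v = g.1 *ᵥ v := rfl

theorem smul_mk_eq_iff (g : Matrix.SpecialLinearGroup (Fin n) F) {v v' : Fin n → F} (hv : v ≠ 0) (hv' : v' ≠ 0) :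
    g • Projectivization.mk F v hv = Projectivization.mk F v' hv' ↔ ∃ c : F, c ≠ 0 ∧ g.1 *ᵥ v = c • v' := by
  rw [Projectivization.smul_mk, Projectivization.mk_eq_mk_iff']
  constructor
  · rintro ⟨c, hc⟩
    rw [smul_eq_mulVec] at hc
    refine ⟨c, ?_, hc.symm⟩
    rintro rfl
    rw [zero_smul] at hc
    have h1 : (g⁻¹ : Matrix.SpecialLinearGroup (Fin n) F).1 *ᵥ (g.1 *ᵥ v) = v := by
      rw [mulVec_mulVec, ← Matrix.SpecialLinearGroup.coe_mul, inv_mul_cancel]; simp
    rw [← hc, mulVec_zero] at h1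
    exact hv h1.symm
  · rintro ⟨c, _, hc⟩
    exact ⟨c, by rw [smul_eq_mulVec, hc]⟩

/-- moving vectors projectively -/
theorem exists_move {v v' : Fin n → F} (hv : v ≠ 0) (hv' : v' ≠ 0) :
    ∃ (g : Matrix.SpecialLinearGroup (Fin n) F) (c : F), c ≠ 0 ∧ g.1 *ᵥ v = c • v' := by
  obtain ⟨g, hg⟩ := MulAction.exists_smul_eq (Matrix.SpecialLinearGroup (Fin n) F)
    (Projectivization.mk F v hv) (Projectivization.mk F v' hv')
  exact ⟨g, (smul_mk_eq_iff g hv hv').1 hg⟩

variable {Ω : Type*} [MulAction (Matrix.SpecialLinearGroup (Fin n) F) Ω]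

/-- if a group of transvections with given centre acts trivially then the action is trivial -/
theorem trivial_of_all (hn : 2 ≤ n) {v : Fin n → F} (hv : v ≠ 0) (h : ∀ (w : Ω) (f : Fin n → F), f ⬝ᵥ v = 0 → f ∈ Av v w)
    (g : Matrix.SpecialLinearGroup (Fin n) F) (w : Ω) : g • w = w := by
  haveI : Nontrivial (Fin n) := Fin.nontrivial_iff_two_le.2 hn
  have hall : ∀ (v' f : Fin n → F), f ⬝ᵥ v' = 0 → ∀ w : Ω, tv v' f • w = w := by
    intro v' f hf w
    by_cases hv' : v' = 0
    · rw [hv', tv_zero_left, one_smul]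
    obtain ⟨s, c, hc, hs⟩ := exists_move (F := F) hv hv'
    set f1 : Fin n → F := c • (f ᵥ* s.1) with hf1
    -- tv v' f = s * tv v f1' * s⁻¹
    have h1 : (f ᵥ* s.1) ⬝ᵥ v = 0 := by
      rw [← dotProduct_mulVec, hs, dotProduct_smul, hf, smul_zero]
    have h2 : tv v' f = s * tv v (c⁻¹ • (f ᵥ* s.1)) * s⁻¹ := by
      have h3 : (c⁻¹ • (f ᵥ* s.1)) ⬝ᵥ v = 0 := by rw [smul_dotProduct, h1, smul_zero]
      rw [conj_tv _ h3, hs, smul_vecMul, vecMul_vecMul, ← Matrix.SpecialLinearGroup.coe_mul, mul_inv_cancel]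
      rw [tv_smul]
      · rw [smul_smul, mul_inv_cancel₀ hc, one_smul]
        simp
      · rw [smul_dotProduct]
        simp [hf]
    rw [h2, mul_smul, mul_smul, (h (s⁻¹ • w) _ (by rw [smul_dotProduct, h1, smul_zero])).2, smul_inv_smul]
  have key : ∀ g : Matrix.SpecialLinearGroup (Fin n) F, ∀ w : Ω, g • w = w := by
    intro g
    refine Cfsg.Agent.H22.SLn.transvection_induction (fun g => ∀ w : Ω, g • w = w) ?_ ?_ g
    · intro i j hij c w
      have h1 : Matrix.SpecialLinearGroup.transvection hij c = tv (Pi.single i 1) (Pi.single j c) := by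
        apply CfsgLib.AutPSL27.sl_ext
        rw [coe_tv (by simp [hij.symm])]
        rw [Matrix.SpecialLinearGroup.transvection_coe]
        ext a b
        simp only [Matrix.add_apply, Matrix.single_apply, vecMulVec_apply, Pi.single_apply]
        by_cases h1 : i = a <;> by_cases h2 : j = b <;> simp [h1, h2, eq_comm]
      rw [h1]
      exact hall _ _ (by simp [hij.symm]) w
    · intro A B hA hB w
      rw [mul_smul, hB, hA]
  exact key g w

theorem struct [Finite F] [Finite Ω] (hn : 3 ≤ n) (htr : ∀ w w' : Ω, ∃ g : Matrix.SpecialLinearGroup (Fin n) F, g • w = w')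
    (h1 : 1 < Nat.card Ω) (hlt : Nat.card Ω * (Nat.card F - 1) < Nat.card F ^ n - 1) :
    ∃ s k : ℕ, Nat.card Ω = k * s ∧ k + Nat.card F ^ (n - 1) = Nat.card Ω + 1 ∧ 2 ≤ s ∧ Nat.card F ≤ s ∧
      ∀ (v : Fin n → F), v ≠ 0 → ∀ w : Ω, Nat.card (Av v w) * s = Nat.card F ^ (n - 1) ∧
        ∀ w' : Ω, (∃ f, f ⬝ᵥ v = 0 ∧ tv v f • w = w') ∨ ∀ f, f ⬝ᵥ v = 0 → ∃ a ∈ Av v w, ∃ b ∈ Av v w', f = a + b := by
  classical
  set q := Nat.card F with hq
  have hq2 : 2 ≤ q := Finite.one_lt_card
  -- number of points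
  haveI : Nontrivial (Fin n) := Fin.nontrivial_iff_two_le.2 (by omega)
  have hX : Nat.card Ω < Nat.card (ℙ F (Fin n → F)) := by
    have h2 : Nat.card (Fin n → F) - 1 = Nat.card (ℙ F (Fin n → F)) * (Nat.card F - 1) :=
      Projectivization.card F (Fin n → F)
    rw [Nat.card_fun, Nat.card_eq_fintype_card (α := Fin n), Fintype.card_fin, ← hq] at h2
    rw [h2] at hlt
    exact lt_of_mul_lt_mul_right hlt (Nat.zero_le _)
  have h2t : ∀ x y x' y' : ℙ F (Fin n → F), x ≠ y → x' ≠ y' → ∃ g : Matrix.SpecialLinearGroup (Fin n) F, g • x = x' ∧ g • y = y' := by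
    intro x y x' y' h h'
    exact (MulAction.is_two_pretransitive_iff.1
      (inferInstance : IsMultiplyPretransitive (Matrix.SpecialLinearGroup (Fin n) F) (ℙ F (Fin n → F)) 2)) h h'
  have h1t : ∀ x x' : ℙ F (Fin n → F), ∃ g : Matrix.SpecialLinearGroup (Fin n) F, g • x = x' :=
    fun x x' => MulAction.exists_smul_eq _ x x'
  have hP : ∀ (v : Fin n → F), v ≠ 0 → ∀ w w' : Ω, ∃ (g : Matrix.SpecialLinearGroup (Fin n) F) (c : F), c ≠ 0 ∧
      g.1 *ᵥ v = c • v ∧ g • w = w' := by
    intro v hv w w'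
    obtain ⟨g, hg, hgx⟩ := trans_of_card_lt h2t h1t htr hX (Projectivization.mk F v hv) w w'
    obtain ⟨c, hc, hc2⟩ := (smul_mk_eq_iff g hv hv).1 hgx
    exact ⟨g, c, hc, hc2, hg⟩
  -- for each v
  have hv_all : ∀ v : Fin n → F, v ≠ 0 → ∃ s k : ℕ, Nat.card Ω = k * s ∧ k + q ^ (n - 1) = Nat.card Ω + 1 ∧ 2 ≤ s ∧
      ∀ w : Ω, Nat.card (Av v w) * s = q ^ (n - 1) ∧
        ∀ w' : Ω, (∃ f, f ⬝ᵥ v = 0 ∧ tv v f • w = w') ∨ ∀ f, f ⬝ᵥ v = 0 → ∃ a ∈ Av v w, ∃ b ∈ Av v w', f = a + b := by
    intro v hv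
    letI : MulAction (Multiplicative (Dv v)) Ω := MulAction.compHom Ω (homT v)
    have hsm : ∀ (x : Multiplicative (Dv v)) (w : Ω), x • w = tv v (Multiplicative.toAdd x).1 • w := fun x w => rfl
    haveI : Finite (Multiplicative (Dv v)) := inferInstanceAs (Finite (Dv v))
    have hQ : Nat.card (Multiplicative (Dv v)) = q ^ (n - 1) := card_Dv hv
    have hQ2 : 2 ≤ q ^ (n - 1) := by
      calc 2 ≤ q := hq2
        _ = q ^ 1 := (pow_one q).symm
        _ ≤ q ^ (n - 1) := Nat.pow_le_pow_right (by omega) (by omega)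
    -- stabilisers versus Av
    have hst : ∀ w : Ω, Nat.card (stabilizer (Multiplicative (Dv v)) w) = Nat.card (Av v w) := by
      intro w
      refine Nat.card_congr
        { toFun := fun x => ⟨(Multiplicative.toAdd x.1).1, (Multiplicative.toAdd x.1).2, x.2⟩
          invFun := fun f => ⟨Multiplicative.ofAdd ⟨f.1, f.2.1⟩, f.2.2⟩
          left_inv := fun x => rfl
          right_inv := fun x => rfl }
    -- equal cardinalities
    have hle : ∀ w w' : Ω, Nat.card (Av v w) ≤ Nat.card (Av v w') := by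
      intro w w'
      obtain ⟨g, c, hc, hgv, hgw⟩ := hP v hv w w'
      subst hgw
      haveI : Finite (Av v (g • w)) := inferInstance
      refine Nat.card_le_card_of_injective (fun f : Av v w => (⟨_, Av_conj f.2 g hgv⟩ : Av v (g • w))) ?_
      intro f f' hff
      have h3 : c • (f.1 ᵥ* (g⁻¹ : Matrix.SpecialLinearGroup (Fin n) F).1) = c • (f'.1 ᵥ* (g⁻¹ : Matrix.SpecialLinearGroup (Fin n) F).1) :=
        congrArg Subtype.val hff
      have h4 := smul_right_injective (Fin n → F) hc h3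
      apply Subtype.ext
      have h5 := congrArg (fun z => z ᵥ* g.1) h4
      simp only [vecMul_vecMul, ← Matrix.SpecialLinearGroup.coe_mul, inv_mul_cancel] at h5
      simpa using h5
    haveI : Nonempty Ω := (Nat.card_pos_iff.1 (by omega)).1
    obtain ⟨w0⟩ := (inferInstance : Nonempty Ω)
    -- one orbit of transvections
    obtain ⟨f0, hf0, hf0'⟩ : ∃ x ∈ Dv v, x ∉ (⊥ : Submodule F (Fin n → F)) := by
      apply exists_notMem
      have := finrank_Dv hv
      rw [finrank_bot]; omega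
    have hf0ne : f0 ≠ 0 := by simpa using hf0'
    have hfix : ∀ x : Multiplicative (Dv v), x ≠ 1 → Nat.card (fixedBy Ω x) = Nat.card (fixedBy Ω (tv v f0)) := by
      intro x hx
      have hx0 : (Multiplicative.toAdd x).1 ≠ 0 := by
        intro h
        apply hx
        have : Multiplicative.toAdd x = 0 := Subtype.ext h
        exact this
      obtain ⟨g, hg⟩ := conj_dual hn hv hf0 (Multiplicative.toAdd x).2 hf0ne hx0
      have h3 : fixedBy Ω x = fixedBy Ω (g * tv v f0 * g⁻¹) := by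
        ext w
        rw [mem_fixedBy, mem_fixedBy, hsm, hg]
      rw [h3]
      refine Nat.card_congr
        { toFun := fun w => ⟨g⁻¹ • w.1, ?_⟩
          invFun := fun w => ⟨g • w.1, ?_⟩
          left_inv := fun w => Subtype.ext (smul_inv_smul g w.1)
          right_inv := fun w => Subtype.ext (inv_smul_smul g w.1) }
      · have := w.2
        rw [mem_fixedBy, mul_smul, mul_smul] at this
        rw [mem_fixedBy, ← inv_smul_eq_iff.2 this.symm]
      · have := w.2
        rw [mem_fixedBy] at this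
        rw [mem_fixedBy, mul_smul, mul_smul, inv_smul_smul, this]
    have hne : ∃ w : Ω, stabilizer (Multiplicative (Dv v)) w ≠ ⊤ := by
      by_contra hcon
      push Not at hcon
      have h3 := trivial_of_all (Ω := Ω) (by omega) hv (fun w f hf => by
        have h4 : Multiplicative.ofAdd (⟨f, hf⟩ : Dv v) ∈ stabilizer (Multiplicative (Dv v)) w := by
          rw [hcon w]; trivial
        exact ⟨hf, h4⟩)
      have h4 : Subsingleton Ω := ⟨fun w w' => by
        obtain ⟨g, hg⟩ := htr w w'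
        rw [← hg, h3]⟩
      have h5 : Nat.card Ω ≤ 1 := Finite.card_le_one_iff_subsingleton.2 h4
      omega
    have hm : Nat.card Ω ≤ 2 * (Nat.card (Multiplicative (Dv v)) - 1) := by
      rw [hQ]
      obtain ⟨c, hc⟩ : ∃ c, q = c + 1 := ⟨q - 1, by omega⟩
      obtain ⟨d, hd⟩ : ∃ d, q ^ (n - 1) = d + 1 := ⟨q ^ (n - 1) - 1, by omega⟩
      have h5 : q ^ n = (d + 1) * (c + 1) := by
        rw [← hd, ← hc, ← pow_succ]; congr 1; omega
      rw [h5, hc, Nat.add_sub_cancel] at hlt
      rw [hd, Nat.add_sub_cancel]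
      have hc1 : 1 ≤ c := by omega
      have h6 : Nat.card Ω * c < d * c + d + c := by
        have : (d + 1) * (c + 1) - 1 = d * c + d + c := by
          have : (d + 1) * (c + 1) = d * c + d + c + 1 := by ring
          omega
        omega
      by_contra hcon
      push Not at hcon
      have h7 : (2 * d + 1) * c ≤ Nat.card Ω * c := Nat.mul_le_mul_right c (by omega)
      nlinarith
    obtain ⟨s, k, hs, hk, hkq, hs2, hsup⟩ := count_key (Ω := Ω) (Q := Multiplicative (Dv v))
      (Nat.card (fixedBy Ω (tv v f0))) (Nat.card (Av v w0)) hfix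
      (fun w => by rw [hst]; exact le_antisymm (hle w w0) (hle w0 w)) hne hm
    rw [hQ] at hs hkq
    refine ⟨s, k, hk, hkq, hs2, fun w => ⟨?_, fun w' => ?_⟩⟩
    · rw [hs]
      congr 1
      exact le_antisymm (hle w w0) (hle w0 w)
    · by_cases hw' : w' ∈ orbit (Multiplicative (Dv v)) w
      · left
        obtain ⟨x, hx⟩ := hw'
        exact ⟨(Multiplicative.toAdd x).1, (Multiplicative.toAdd x).2, hx⟩
      · right
        intro f hf
        have h3 := hsup w w' hw'
        have h4 : Multiplicative.ofAdd (⟨f, hf⟩ : Dv v) ∈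
            stabilizer (Multiplicative (Dv v)) w ⊔ stabilizer (Multiplicative (Dv v)) w' := by rw [h3]; trivial
        obtain ⟨y, hy, z, hz, hyz⟩ := Subgroup.mem_sup.1 h4
        refine ⟨(Multiplicative.toAdd y).1, ⟨(Multiplicative.toAdd y).2, hy⟩, (Multiplicative.toAdd z).1,
          ⟨(Multiplicative.toAdd z).2, hz⟩, ?_⟩
        exact (congrArg (fun t => (Multiplicative.toAdd t).1) hyz).symm
  -- uniform constants
  obtain ⟨v0, hv0⟩ : ∃ v : Fin n → F, v ≠ 0 := exists_ne 0
  obtain ⟨s, k, hk, hkq, hs2, -⟩ := hv_all v0 hv0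
  have hk0 : 0 < k := by
    rcases Nat.eq_zero_or_pos k with h | h
    · rw [h, zero_mul] at hk; omega
    · exact h
  refine ⟨s, k, hk, hkq, hs2, ?_, ?_⟩
  · -- q ≤ s
    by_contra hcon
    push Not at hcon
    obtain ⟨c, hc⟩ : ∃ c, q = c + 1 := ⟨q - 1, by omega⟩
    obtain ⟨d, hd⟩ : ∃ d, q ^ (n - 1) = d + 1 := ⟨q ^ (n - 1) - 1, by
      have : 0 < q ^ (n - 1) := Nat.pow_pos (by omega)
      omega⟩
    have h5 : q ^ n = (d + 1) * (c + 1) := by
      rw [← hd, ← hc, ← pow_succ]; congr 1; omega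
    have h6 : q ^ 2 ≤ q ^ (n - 1) := Nat.pow_le_pow_right (by omega) (by omega)
    rw [hd, hc] at h6
    rw [h5, hc, Nat.add_sub_cancel] at hlt
    rw [hd] at hkq
    have h7 : Nat.card Ω * c < d * c + d + c := by
      have : (d + 1) * (c + 1) - 1 = d * c + d + c := by
        have : (d + 1) * (c + 1) = d * c + d + c + 1 := by ring
        omega
      omega
    have hm : Nat.card Ω = k + d := by omega
    rw [hm] at h7 hk
    -- k + d = k * s, s ≤ c, (k + d) c < d c + d + c
    have h8 : k * s ≤ k * c := Nat.mul_le_mul_left k (by omega)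
    -- k c < d + c , k + d ≤ k c
    nlinarith
  · intro v hv w
    obtain ⟨s', k', hk', hkq', hs2', hall⟩ := hv_all v hv
    have h3 : k' = k := by omega
    have h4 : s' = s := by
      rw [h3] at hk'
      exact Nat.eq_of_mul_eq_mul_left hk0 (hk'.symm.trans hk)
    rw [h4] at hall
    exact hall w

end CfsgLib.MinIdx
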