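import Mathlib
import Cfsg.Agent.LibMinIdx3H13

/-! small actions of the special linear group: the case of hyperplanes is impossible, dichotomy -/
set_option autoImplicit false

namespace CfsgLib.MinIdx

open MulAction Matrix CfsgLib.AutPSL27
open scoped LinearAlgebra.Projectivization

variable {F : Type*} [Field F] {n : ℕ}
variable {Ω : Type*} [MulAction (Matrix.SpecialLinearGroup (Fin n) F) Ω]

theorem Av_sub_Dv {v : Fin n → F} {w : Ω} : Av v w ⊆ (Dv v : Set (Fin n → F)) := fun f hf => hf.1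

/-- translating the point by a transvection with the same centre -/
theorem Av_same {v : Fin n → F} {w : Ω} {h : Fin n → F} (hh : h ⬝ᵥ v = 0) : Av v (tv v h • w) = Av v w := by
  ext f
  constructor
  · rintro ⟨h1, h2⟩
    refine ⟨h1, ?_⟩
    rw [← mul_smul, tv_mul_same_v h1 hh, add_comm, ← tv_mul_same_v hh h1, mul_smul] at h2
    exact smul_left_cancel _ h2
  · rintro ⟨h1, h2⟩
    refine ⟨h1, ?_⟩
    rw [← mul_smul, tv_mul_same_v h1 hh, add_comm, ← tv_mul_same_v hh h1, mul_smul, h2]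

/-- translating by a transvection fixing the centre -/
theorem Av_tv {v : Fin n → F} {w : Ω} {a ψ : Fin n → F} (h : ψ ⬝ᵥ a = 0) (hv : ψ ⬝ᵥ v = 0) {f : Fin n → F} :
    f ∈ Av v (tv a ψ • w) → ∃ g ∈ Av v w, f = g - (g ⬝ᵥ a) • ψ := by
  intro hf
  have h1 : (tv a ψ)⁻¹ = tv (-a) ψ := tv_inv h
  have h2 : ψ ⬝ᵥ (-a) = 0 := by rw [dotProduct_neg, h, neg_zero]
  have h3 := Av_conj hf (tv (-a) ψ) (c := 1) (by rw [tv_mulVec h2, hv, zero_smul, add_zero, one_smul])
  rw [one_smul, ← h1, inv_smul_smul, inv_inv, vecMul_tv h] at h3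
  refine ⟨_, h3, ?_⟩
  rw [add_dotProduct, smul_dotProduct, h, smul_zero, add_zero, add_sub_cancel_right]

/-- scalars in the stabiliser -/
theorem scal {v : Fin n → F} {w : Ω}
    (hsup : ∀ w' : Ω, (∃ f, f ⬝ᵥ v = 0 ∧ tv v f • w = w') ∨ ∀ f, f ⬝ᵥ v = 0 → ∃ a ∈ Av v w, ∃ b ∈ Av v w', f = a + b)
    {ψ : Fin n → F} (hψ : ψ ⬝ᵥ v = 0) (hsmall : ¬ ∀ f, f ⬝ᵥ v = 0 → ∃ a ∈ Av v w, ∃ c : F, f = a + c • ψ)
    {a : Fin n → F} (ha : ψ ⬝ᵥ a = 0) {f : Fin n → F} (hf : f ∈ Av v w) : (f ⬝ᵥ a) • ψ ∈ Av v w := by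
  rcases hsup (tv a ψ • w) with ⟨h, hh, hhw⟩ | h
  · have h1 : Av v (tv a ψ • w) = Av v w := by rw [← hhw, Av_same hh]
    have h2 := Av_conj hf (tv a ψ) (c := 1) (by rw [tv_mulVec ha, hψ, zero_smul, add_zero, one_smul])
    rw [one_smul, h1, vecMul_tv_inv ha] at h2
    have h3 := Av_sub hf h2
    rwa [sub_sub_cancel] at h3
  · exfalso
    apply hsmall
    intro g hg
    obtain ⟨a', ha', b', hb', rfl⟩ := h g hg
    obtain ⟨g', hg', rfl⟩ := Av_tv ha hψ hb'
    exact ⟨a' + g', Av_add ha' hg', -(g' ⬝ᵥ a), by rw [neg_smul, ← add_sub_assoc, sub_eq_add_neg]⟩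

theorem dichotomy [Finite F] (hn : 3 ≤ n) {v : Fin n → F} (hv : v ≠ 0) {w : Ω} {s : ℕ} (hs : Nat.card F ≤ s)
    (hcard : Nat.card (Av v w) * s = Nat.card F ^ (n - 1))
    (hsup : ∀ w' : Ω, (∃ f, f ⬝ᵥ v = 0 ∧ tv v f • w = w') ∨ ∀ f, f ⬝ᵥ v = 0 → ∃ a ∈ Av v w, ∃ b ∈ Av v w', f = a + b) :
    (s = Nat.card F ∧ ∀ f ∈ Av v w, ∀ c : F, c • f ∈ Av v w) ∨ (s = Nat.card F ^ (n - 1) ∧ ∀ f ∈ Av v w, f = 0) := by
  classical
  have hq2 : 2 ≤ Nat.card F := Finite.one_lt_card
  have hD := card_Dv hv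
  have hfinD := finrank_Dv hv
  have hA0 : 0 < Nat.card (Av v w) := by
    haveI : Nonempty (Av v w) := ⟨⟨0, Av_zero v w⟩⟩
    exact Nat.card_pos
  -- the addition map
  have hmap : ∀ ψ : Fin n → F, ψ ⬝ᵥ v = 0 → (∀ f, f ⬝ᵥ v = 0 → ∃ a ∈ Av v w, ∃ c : F, f = a + c • ψ) →
      ∃ φ : Av v w × F → Dv v, Function.Surjective φ ∧ ∀ x, (φ x).1 = x.1.1 + x.2 • ψ := by
    intro ψ hψ h
    refine ⟨fun x => ⟨x.1.1 + x.2 • ψ, (Dv v).add_mem x.1.2.1 ((Dv v).smul_mem _ hψ)⟩, ?_, fun x => rfl⟩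
    rintro ⟨f, hf⟩
    obtain ⟨a, ha, c, rfl⟩ := h f hf
    exact ⟨(⟨a, ha⟩, c), rfl⟩
  rcases hs.eq_or_lt with hs1 | hs1
  · left
    refine ⟨hs1.symm, ?_⟩
    rw [← hs1] at hcard
    intro ψ hψ c
    by_cases hψ0 : ψ = 0
    · rw [hψ0, smul_zero]; exact Av_zero v w
    have hsmall : ¬ ∀ f, f ⬝ᵥ v = 0 → ∃ a ∈ Av v w, ∃ c : F, f = a + c • ψ := by
      intro h
      obtain ⟨φ, hφ, hφ2⟩ := hmap ψ hψ.1 h
      have h1 : Nat.card (Av v w × F) = Nat.card (Dv v) := by rw [Nat.card_prod, hD, hcard]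
      have h2 : Function.Bijective φ := (Function.Surjective.bijective_of_nat_card_le hφ h1.le)
      have h3 : φ (⟨0, Av_zero v w⟩, 1) = φ (⟨ψ, hψ⟩, 0) := by
        apply Subtype.ext
        rw [hφ2, hφ2]; simp
      have h4 := h2.1 h3
      have h5 := congrArg Prod.snd h4
      exact one_ne_zero h5
    by_cases hex : ∃ f ∈ Av v w, f ∉ Submodule.span F {ψ}
    · obtain ⟨f, hf, hf2⟩ := hex
      obtain ⟨a, ha1, ha2⟩ := sep1 hf2
      have h1 := scal hsup hψ.1 hsmall (a := c • a) (by rw [dotProduct_smul, ha1, smul_zero]) hf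
      rwa [dotProduct_smul, ha2, smul_eq_mul, mul_one] at h1
    · push Not at hex
      -- A ⊆ Fψ with |A| ≥ q
      have h1 : Nat.card F ≤ Nat.card (Av v w) := by
        have h2 : Nat.card F * Nat.card F ≤ Nat.card (Av v w) * Nat.card F := by
          rw [hcard, ← sq]
          exact Nat.pow_le_pow_right (by omega) (by omega)
        exact Nat.le_of_mul_le_mul_right h2 (by omega)
      have h2 : Av v w ⊆ Set.range (fun c : F => c • ψ) := by
        intro f hf
        obtain ⟨c, hc⟩ := Submodule.mem_span_singleton.1 (hex f hf)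
        exact ⟨c, hc⟩
      have h3 : Av v w = Set.range (fun c : F => c • ψ) := by
        apply Set.eq_of_subset_of_ncard_le h2 _ (Set.toFinite _)
        rw [← Nat.card_coe_set_eq, ← Nat.card_coe_set_eq]
        refine le_trans ?_ h1
        exact Nat.card_le_card_of_surjective (Set.rangeFactorization fun c : F => c • ψ) Set.rangeFactorization_surjective
      rw [h3]; exact ⟨c, rfl⟩
  · right
    have hzero : ∀ f ∈ Av v w, f = 0 := by
      by_contra hcon
      push Not at hcon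
      obtain ⟨f0, hf0, hf00⟩ := hcon
      have hsmall : ∀ ψ : Fin n → F, ψ ⬝ᵥ v = 0 → ¬ ∀ f, f ⬝ᵥ v = 0 → ∃ a ∈ Av v w, ∃ c : F, f = a + c • ψ := by
        intro ψ hψ h
        obtain ⟨φ, hφ, hφ2⟩ := hmap ψ hψ h
        have h1 := Nat.card_le_card_of_surjective φ hφ
        rw [Nat.card_prod, hD, ← hcard] at h1
        have h2 : s ≤ Nat.card F := Nat.le_of_mul_le_mul_left h1 hA0
        omega
      have h1 : ∀ ψ : Fin n → F, ψ ⬝ᵥ v = 0 → ψ ∉ Submodule.span F {f0} → ψ ∈ Av v w := by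
        intro ψ hψ hne
        have h2 : f0 ∉ Submodule.span F {ψ} := by
          intro h
          obtain ⟨c, hc⟩ := Submodule.mem_span_singleton.1 h
          have hc0 : c ≠ 0 := by
            rintro rfl
            rw [zero_smul] at hc
            exact hf00 hc.symm
          apply hne
          rw [Submodule.mem_span_singleton]
          exact ⟨c⁻¹, by rw [← hc, smul_smul, inv_mul_cancel₀ hc0, one_smul]⟩
        obtain ⟨a, ha1, ha2⟩ := sep1 h2
        have h3 := scal hsup hψ (hsmall ψ hψ) ha1 hf0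
        rwa [ha2, one_smul] at h3
      obtain ⟨ψ1, hψ1, hψ1'⟩ : ∃ x ∈ Dv v, x ∉ Submodule.span F {f0} := by
        apply exists_notMem
        have := finrank_span1 f0
        omega
      have hall : ∀ f : Fin n → F, f ⬝ᵥ v = 0 → f ∈ Av v w := by
        intro f hf
        by_cases h2 : f ∈ Submodule.span F {f0}
        · have h3 : f + ψ1 ∉ Submodule.span F {f0} := by
            intro h
            apply hψ1'
            have := Submodule.sub_mem _ h h2
            rwa [add_sub_cancel_left] at this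
          have h4 := h1 (f + ψ1) ((Dv v).add_mem hf hψ1) h3
          have h5 := Av_sub h4 (h1 ψ1 hψ1 hψ1')
          rwa [add_sub_cancel_right] at h5
        · exact h1 f hf h2
      have h2 : Nat.card (Av v w) = Nat.card F ^ (n - 1) := by
        rw [← hD]
        exact Nat.card_congr (Equiv.setCongr (Set.Subset.antisymm Av_sub_Dv hall))
      rw [h2] at hcard hA0
      have h3 : s = 1 := Nat.eq_of_mul_eq_mul_left hA0 (by rw [hcard, mul_one])
      omega
    refine ⟨?_, hzero⟩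
    have h1 : Nat.card (Av v w) = 1 := by
      rw [Nat.card_eq_one_iff_unique]
      exact ⟨⟨fun a b => Subtype.ext (by rw [hzero _ a.2, hzero _ b.2])⟩, ⟨⟨0, Av_zero v w⟩⟩⟩
    rw [h1, one_mul] at hcard
    exact hcard

/-- the hyperplane case is impossible -/
theorem no_hyper [Finite F] (hn : 3 ≤ n) {w : Ω}
    (hcard : ∀ v : Fin n → F, v ≠ 0 → Nat.card (Av v w) * Nat.card F = Nat.card F ^ (n - 1))
    (hsc : ∀ v : Fin n → F, v ≠ 0 → ∀ f ∈ Av v w, ∀ c : F, c • f ∈ Av v w) : False := by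
  classical
  have hq2 : 2 ≤ Nat.card F := Finite.one_lt_card
  -- as submodules
  let S : (v : Fin n → F) → v ≠ 0 → Submodule F (Fin n → F) := fun v hv =>
    { carrier := Av v w
      add_mem' := Av_add
      zero_mem' := Av_zero v w
      smul_mem' := fun c f hf => hsc v hv f hf c }
  have hS : ∀ v hv f, f ∈ S v hv ↔ f ∈ Av v w := fun v hv f => Iff.rfl
  have hdim : ∀ v hv, Module.finrank F (S v hv) + 2 = n := by
    intro v hv
    have h1 := hcard v hv
    have h2 : Nat.card (S v hv) = Nat.card F ^ Module.finrank F (S v hv) := Module.natCard_eq_pow_finrank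
    have h3 : Nat.card (S v hv) = Nat.card (Av v w) := rfl
    rw [← h3, h2, ← pow_succ] at h1
    have h4 := Nat.pow_right_injective hq2 h1
    omega
  -- commutators
  have hcomm : ∀ v v' f f' : Fin n → F, f ∈ Av v w → f' ∈ Av v' w → f' ⬝ᵥ v = 0 → f ⬝ᵥ v' ≠ 0 → v ≠ 0 → f' ∈ Av v w := by
    intro v v' f f' hf hf' h1 h2 hv
    have h3 : tv v f * tv v' f' * (tv v f)⁻¹ = tv (v' + (f ⬝ᵥ v') • v) f' := by
      rw [conj_tv _ hf'.1, tv_mulVec hf.1]
      congr 1
      have := vecMul_tv_inv hf.1 f'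
      rw [h1, zero_smul, sub_zero] at this
      exact this
    have h4 : (tv v f * tv v' f' * (tv v f)⁻¹) • w = w := by
      have h5 : (tv v f)⁻¹ • w = w := by rw [inv_smul_eq_iff]; exact hf.2.symm
      rw [mul_smul, mul_smul, h5, hf'.2, hf.2]
    have h6 : f' ⬝ᵥ ((f ⬝ᵥ v') • v) = 0 := by rw [dotProduct_smul, h1, smul_zero]
    have h7 : tv ((f ⬝ᵥ v') • v) f' • w = w := by
      rw [h3, ← tv_mul_same_f hf'.1 h6] at h4
      have h8 : tv v' f' * tv ((f ⬝ᵥ v') • v) f' = tv ((f ⬝ᵥ v') • v) f' * tv v' f' := by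
        rw [tv_mul_same_f hf'.1 h6, tv_mul_same_f h6 hf'.1, add_comm]
      rw [h8, mul_smul, hf'.2] at h4
      exact h4
    have h8 : (f ⬝ᵥ v') • f' ∈ Av v w := by
      refine ⟨by rw [smul_dotProduct, h1, smul_zero], ?_⟩
      rw [← tv_smul _ _ _ h1]; exact h7
    have h9 := hsc v hv _ h8 (f ⬝ᵥ v')⁻¹
    rwa [smul_smul, inv_mul_cancel₀ h2, one_smul] at h9
  -- the relation
  have hsym : ∀ (v v' : Fin n → F) (hv : v ≠ 0) (hv' : v' ≠ 0), (∀ f ∈ Av v' w, f ⬝ᵥ v = 0) → ∀ f ∈ Av v w, f ⬝ᵥ v' = 0 := by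
    intro v v' hv hv' h
    by_contra hcon
    push Not at hcon
    obtain ⟨f, hf, hf2⟩ := hcon
    have h1 : S v' hv' ≤ S v hv := fun f' hf' => hcomm v v' f f' hf hf' (h f' hf') hf2 hv
    have h2 : S v' hv' = S v hv := by
      apply Submodule.eq_of_le_of_finrank_eq h1
      have := hdim v hv
      have := hdim v' hv'
      omega
    have h3 : f ∈ S v' hv' := by rw [h2]; exact hf
    exact hf2 h3.1
  have heq : ∀ (v u : Fin n → F) (hv : v ≠ 0) (hu : u ≠ 0), (∀ f ∈ Av v w, f ⬝ᵥ u = 0) → S v hv = S u hu := by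
    intro v u hv hu h
    by_cases hind : u ∈ Submodule.span F {v}
    · obtain ⟨c, rfl⟩ := Submodule.mem_span_singleton.1 hind
      have hc : c ≠ 0 := by rintro rfl; exact hu (zero_smul _ _)
      ext f
      rw [hS _ hv, hS _ hu]
      constructor
      · rintro ⟨h1, h2⟩
        have h3 := hsc v hv f ⟨h1, h2⟩ c
        refine ⟨by rw [dotProduct_smul, h1, smul_zero], ?_⟩
        rw [tv_smul _ _ _ h1]; exact h3.2
      · rintro ⟨h1, h2⟩
        have h3 : f ⬝ᵥ v = 0 := by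
          rw [dotProduct_smul, smul_eq_mul] at h1
          exact (mul_eq_zero.1 h1).resolve_left hc
        rw [tv_smul _ _ _ h3] at h2
        have h4 : c • f ∈ Av v w := ⟨by rw [smul_dotProduct, h3, smul_zero], h2⟩
        have h5 := hsc v hv _ h4 c⁻¹
        rwa [smul_smul, inv_mul_cancel₀ hc, one_smul] at h5
    · have h1 := hsym u v hu hv h
      -- both inside Dv v ⊓ Dv u
      have h2 : Module.finrank F (Dv v ⊓ Dv u : Submodule F (Fin n → F)) + 2 ≤ n := by
        have h3 : Dv v ⊓ Dv u < Dv v := by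
          refine lt_of_le_of_ne inf_le_left ?_
          intro h4
          -- Dv v ≤ Dv u, contradiction by separation
          obtain ⟨x, hx1, hx2⟩ := sep1 (f := v) (g := u) hind
          have h5 : x ∈ Dv v := by rw [mem_Dv, dotProduct_comm]; exact hx1
          rw [← h4] at h5
          have h6 : x ⬝ᵥ u = 0 := h5.2
          rw [dotProduct_comm, hx2] at h6
          exact one_ne_zero h6
        have h4 := Submodule.finrank_lt_finrank_of_lt h3
        have := finrank_Dv hv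
        omega
      have h3 : S v hv ≤ Dv v ⊓ Dv u := fun f hf => ⟨hf.1, h f hf⟩
      have h4 : S u hu ≤ Dv v ⊓ Dv u := fun f hf => ⟨h1 f hf, hf.1⟩
      have h5 := hdim v hv
      have h6 := hdim u hu
      have h7 := Submodule.finrank_mono h3
      have h8 := Submodule.finrank_mono h4
      rw [Submodule.eq_of_le_of_finrank_eq h3 (by omega), Submodule.eq_of_le_of_finrank_eq h4 (by omega)]
  have hall : ∀ (v v' : Fin n → F) (hv : v ≠ 0) (hv' : v' ≠ 0), S v hv = S v' hv' := by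
    intro v v' hv hv'
    by_cases hR : ∀ f ∈ Av v w, f ⬝ᵥ v' = 0
    · exact heq v v' hv hv' hR
    · have hR' : ¬ ∀ f ∈ Av v' w, f ⬝ᵥ v = 0 := fun h => hR (hsym v v' hv hv' h)
      push Not at hR hR'
      obtain ⟨f, hf, hf2⟩ := hR
      obtain ⟨f', hf', hf2'⟩ := hR'
      -- A(v) ∩ v'^⊥ ≤ A(v')
      have h1 : S v hv ⊓ Dv v' ≤ S v hv ⊓ S v' hv' := by
        intro g hg
        exact ⟨hg.1, hcomm v' v f' g hf' hg.1 hg.2 hf2' hv'⟩
      have h2 : Module.finrank F (S v hv) ≤ Module.finrank F (S v hv ⊓ Dv v' : Submodule F (Fin n → F)) + 1 := by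
        have h3 := Submodule.finrank_sup_add_finrank_inf_eq (S v hv) (Dv v')
        have h4 := Submodule.finrank_le (S v hv ⊔ Dv v')
        rw [Module.finrank_fintype_fun_eq_card, Fintype.card_fin] at h4
        have h5 := finrank_Dv hv'
        omega
      have h3 := Submodule.finrank_mono h1
      have h4 := Submodule.finrank_sup_add_finrank_inf_eq (S v hv) (S v' hv')
      have h5 := hdim v hv
      have h6 := hdim v' hv'
      have h7 : S v hv ⊔ S v' hv' ≠ ⊤ := by
        intro h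
        rw [h, finrank_top, Module.finrank_fintype_fun_eq_card, Fintype.card_fin] at h4
        omega
      obtain ⟨g, hg⟩ : ∃ g, g ∉ S v hv ⊔ S v' hv' := by
        by_contra hcon
        push Not at hcon
        exact h7 (eq_top_iff.2 fun g _ => hcon g)
      obtain ⟨u, hu1, hu2⟩ := sep _ hg
      have hu0 : u ≠ 0 := by
        rintro rfl
        rw [dotProduct_zero] at hu2
        exact zero_ne_one hu2
      rw [heq v u hv hu0 (fun f hf => hu1 f (Submodule.mem_sup_left hf)),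
        heq v' u hv' hu0 (fun f hf => hu1 f (Submodule.mem_sup_right hf))]
  -- conclusion
  haveI : Nontrivial (Fin n) := Fin.nontrivial_iff_two_le.2 (by omega)
  obtain ⟨v0, hv0⟩ : ∃ v : Fin n → F, v ≠ 0 := exists_ne 0
  obtain ⟨f, hf, hf0⟩ : ∃ x ∈ S v0 hv0, x ∉ (⊥ : Submodule F (Fin n → F)) := by
    apply exists_notMem
    have := hdim v0 hv0
    rw [finrank_bot]; omega
  have hf0' : f ≠ 0 := by simpa using hf0
  obtain ⟨i, hi⟩ := Function.ne_iff.mp hf0'
  have h1 : (Pi.single i 1 : Fin n → F) ≠ 0 := by simp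
  have h2 : f ∈ S (Pi.single i 1) h1 := by rw [← hall v0 _ hv0 h1]; exact hf
  have h3 : f ⬝ᵥ (Pi.single i 1) = 0 := h2.1
  rw [dotProduct_single, mul_one] at h3
  exact hi h3

end CfsgLib.MinIdx
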