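import Mathlib
import Cfsg.Agent.LibMinIdx4H13

/-! small actions of the special linear group: the regular case, conclusion -/
set_option autoImplicit false

namespace CfsgLib.MinIdx

open MulAction Matrix CfsgLib.AutPSL27
open scoped LinearAlgebra.Projectivization

variable {F : Type*} [Field F] {n : ℕ}

theorem one_add_mulVec (a f x : Fin n → F) : (1 + vecMulVec a f) *ᵥ x = x + (f ⬝ᵥ x) • a := by
  rw [add_mulVec, one_mulVec, vecMulVec_mulVec, op_smul_eq_smul]

theorem vecMul_one_add (a f x : Fin n → F) : x ᵥ* (1 + vecMulVec a f) = x + (x ⬝ᵥ a) • f := by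
  rw [vecMul_add, vecMul_one, vecMul_vecMulVec]

/-- an element scaling `a` by `t` and `ψ` by `t`, fixing vectors killed by `ψ` and `χ` -/
theorem exists_diag {a c ψ χ : Fin n → F} (hψa : ψ ⬝ᵥ a = 0) (hψc : ψ ⬝ᵥ c = 1) (hχa : χ ⬝ᵥ a = 1) (hχc : χ ⬝ᵥ c = 0)
    {t : F} (ht : t ≠ 0) :
    ∃ g : Matrix.SpecialLinearGroup (Fin n) F, g.1 *ᵥ a = t • a ∧
      ψ ᵥ* (g⁻¹ : Matrix.SpecialLinearGroup (Fin n) F).1 = t • ψ ∧
      ∀ x, ψ ⬝ᵥ x = 0 → χ ⬝ᵥ x = 0 → g.1 *ᵥ x = x := by
  have hd : ∀ (u f : Fin n → F) (k : F), (1 + vecMulVec u (k • f)).det = 1 + k * (f ⬝ᵥ u) := by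
    intro u f k
    rw [vecMulVec_eq (ι := Unit), Matrix.det_one_add_replicateCol_mul_replicateRow, smul_dotProduct, smul_eq_mul]
  have hdet : ((1 + vecMulVec a ((t - 1) • χ)) * (1 + vecMulVec c ((t⁻¹ - 1) • ψ))).det = 1 := by
    rw [det_mul, hd, hd, hχa, hψc, mul_one, mul_one, add_sub_cancel, add_sub_cancel, mul_inv_cancel₀ ht]
  refine ⟨⟨_, hdet⟩, ?_, ?_, ?_⟩
  · change ((1 + vecMulVec a ((t - 1) • χ)) * (1 + vecMulVec c ((t⁻¹ - 1) • ψ))) *ᵥ a = t • a
    rw [← mulVec_mulVec, one_add_mulVec c, smul_dotProduct, hψa, smul_zero,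
      zero_smul, add_zero, one_add_mulVec, smul_dotProduct, hχa, smul_eq_mul, mul_one]
    rw [sub_smul, one_smul, add_sub_cancel]
  · have h1 : (t • ψ) ᵥ* ((1 + vecMulVec a ((t - 1) • χ)) * (1 + vecMulVec c ((t⁻¹ - 1) • ψ))) = ψ := by
      rw [← vecMul_vecMul, vecMul_one_add a, smul_dotProduct, hψa, smul_zero, zero_smul, add_zero,
        vecMul_one_add, smul_dotProduct, hψc, smul_eq_mul, mul_one, smul_smul, ← add_smul]
      rw [mul_sub, mul_inv_cancel₀ ht, mul_one, add_sub_cancel, one_smul]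
    set g : Matrix.SpecialLinearGroup (Fin n) F := ⟨_, hdet⟩ with hg
    have h2 : (t • ψ) ᵥ* g.1 = ψ := h1
    conv_lhs => rw [← h2]
    rw [vecMul_vecMul, ← Matrix.SpecialLinearGroup.coe_mul, mul_inv_cancel]
    simp
  · intro x h1 h2
    change ((1 + vecMulVec a ((t - 1) • χ)) * (1 + vecMulVec c ((t⁻¹ - 1) • ψ))) *ᵥ x = x
    rw [← mulVec_mulVec, one_add_mulVec c, smul_dotProduct, h1, smul_zero,
      zero_smul, add_zero, one_add_mulVec, smul_dotProduct, h2, smul_zero,
      zero_smul, add_zero]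

variable {Ω : Type*} [MulAction (Matrix.SpecialLinearGroup (Fin n) F) Ω]

/-- the regular case is impossible -/
theorem no_regular [Finite F] (hn : 3 ≤ n) (hexc : ¬ (n = 4 ∧ Nat.card F = 2)) {w : Ω}
    (hzero : ∀ v : Fin n → F, v ≠ 0 → ∀ f ∈ Av v w, f = 0)
    (hex : ∀ v : Fin n → F, v ≠ 0 → ∀ w' : Ω, ∃ f, f ⬝ᵥ v = 0 ∧ tv v f • w' = w) : False := by
  classical
  haveI : Nontrivial (Fin n) := Fin.nontrivial_iff_two_le.2 (by omega)
  obtain ⟨v, hv⟩ : ∃ v : Fin n → F, v ≠ 0 := exists_ne 0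
  choose T hT0 hT using fun (g : Matrix.SpecialLinearGroup (Fin n) F) => hex v hv (g • w)
  have huniq : ∀ g f, f ⬝ᵥ v = 0 → tv v f • (g • w) = w → f = T g := by
    intro g f hf hfw
    have h1 : f - T g ∈ Av v w := by
      refine ⟨by rw [sub_dotProduct, hf, hT0, sub_zero], ?_⟩
      have h2 : tv v (f - T g) * tv v (T g) = tv v f := by
        rw [tv_mul_same_v (by rw [sub_dotProduct, hf, hT0, sub_zero]) (hT0 g), sub_add_cancel]
      conv_lhs => rw [← hT g]
      rw [← mul_smul, h2, hfw]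
    exact sub_eq_zero.1 (hzero v hv _ h1)
  -- fixed ψ
  obtain ⟨ψ, hψv, hψ0'⟩ : ∃ x ∈ Dv v, x ∉ (⊥ : Submodule F (Fin n → F)) := by
    apply exists_notMem
    have := finrank_Dv hv
    rw [finrank_bot]; omega
  have hψ0 : ψ ≠ 0 := by simpa using hψ0'
  have hψv' : ψ ⬝ᵥ v = 0 := hψv
  -- additivity
  have hadd : ∀ a a', ψ ⬝ᵥ a = 0 → ψ ⬝ᵥ a' = 0 → T (tv (a + a') ψ) = T (tv a ψ) + T (tv a' ψ) - (T (tv a' ψ) ⬝ᵥ a) • ψ := by
    intro a a' ha ha'
    symm
    apply huniq
    · rw [sub_dotProduct, add_dotProduct, hT0, hT0, smul_dotProduct, hψv', smul_zero]; ring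
    · have h1 : tv v (T (tv a ψ) + T (tv a' ψ) - (T (tv a' ψ) ⬝ᵥ a) • ψ) =
          tv v (T (tv a ψ)) * (tv a ψ * tv v (T (tv a' ψ)) * (tv a ψ)⁻¹) := by
        rw [tv_conj_tv ha hψv' (hT0 _), tv_mul_same_v (hT0 _)
          (by rw [sub_dotProduct, hT0, smul_dotProduct, hψv', smul_zero, sub_zero]), add_sub_assoc]
      rw [h1, ← tv_mul_same_f ha ha', ← mul_smul, mul_assoc, mul_assoc, mul_assoc, inv_mul_cancel_left, mul_smul, mul_smul, mul_smul,
        hT, hT]
  have hsym : ∀ a a', ψ ⬝ᵥ a = 0 → ψ ⬝ᵥ a' = 0 → T (tv a ψ) ⬝ᵥ a' = T (tv a' ψ) ⬝ᵥ a := by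
    intro a a' ha ha'
    have h1 := hadd a a' ha ha'
    have h2 := hadd a' a ha' ha
    rw [add_comm a' a, h1, add_comm (T (tv a' ψ))] at h2
    have h3 := sub_right_injective h2
    have h4 : ((T (tv a' ψ) ⬝ᵥ a) - (T (tv a ψ) ⬝ᵥ a')) • ψ = 0 := by rw [sub_smul, h3, sub_self]
    exact (sub_eq_zero.1 ((smul_eq_zero.1 h4).resolve_right hψ0)).symm
  -- the centre v
  have hTv : T (tv v ψ) = -ψ := by
    symm
    apply huniq
    · rw [neg_dotProduct, hψv', neg_zero]
    · rw [← mul_smul, tv_mul_same_v (by rw [neg_dotProduct, hψv', neg_zero]) hψv', neg_add_cancel, tv_zero_right, one_smul]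
  -- nondegeneracy
  have hnd : ∀ a, ψ ⬝ᵥ a = 0 → ∀ c : F, T (tv a ψ) = c • ψ → a ∈ Submodule.span F {v} := by
    intro a ha c hc
    by_contra hcon
    have h1 : c • v + a ≠ 0 := by
      intro h
      apply hcon
      rw [Submodule.mem_span_singleton]
      exact ⟨-c, by rw [neg_smul]; exact neg_eq_of_add_eq_zero_right h⟩
    have h2 := hT (tv a ψ)
    rw [hc, ← mul_smul, ← tv_smul _ _ _ hψv', tv_mul_same_f (by rw [dotProduct_smul, hψv', smul_zero]) ha] at h2
    have h3 : ψ ∈ Av (c • v + a) w := ⟨by rw [dotProduct_add, dotProduct_smul, hψv', ha, smul_zero, add_zero], h2⟩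
    exact hψ0 (hzero _ h1 _ h3)
  -- equivariance
  have hequi : ∀ (g : Matrix.SpecialLinearGroup (Fin n) F) (a ψ' : Fin n → F), g.1 *ᵥ v = v → ψ ⬝ᵥ a = 0 →
      ψ ᵥ* (g⁻¹ : Matrix.SpecialLinearGroup (Fin n) F).1 = ψ' →
      ∃ e : F, T (tv (g.1 *ᵥ a) ψ') = T (tv a ψ) ᵥ* (g⁻¹ : Matrix.SpecialLinearGroup (Fin n) F).1 + e • ψ' := by
    intro g a ψ' hgv ha hgψ
    have hψ'v : ψ' ⬝ᵥ v = 0 := by
      rw [← hgψ]
      conv_lhs => rw [← hgv]
      rw [vecMul_dot_mulVec, hψv']
    have hψ'a : ψ' ⬝ᵥ (g.1 *ᵥ a) = 0 := by rw [← hgψ, vecMul_dot_mulVec, ha]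
    refine ⟨T g ⬝ᵥ (g.1 *ᵥ a), ?_⟩
    symm
    set θ := T g with hθ
    set h := tv v θ * g with hh
    have hθv : θ ⬝ᵥ v = 0 := hT0 g
    have hhw : h • w = w := by rw [hh, mul_smul, hT g]
    have hhw' : h⁻¹ • w = w := by rw [inv_smul_eq_iff, hhw]
    set φ := T (tv a ψ) with hφ
    have hφv : φ ⬝ᵥ v = 0 := hT0 _
    have h1 : h * tv v φ * h⁻¹ = tv v (φ ᵥ* (g⁻¹ : Matrix.SpecialLinearGroup (Fin n) F).1) := by
      have h2 : g * tv v φ * g⁻¹ = tv v (φ ᵥ* (g⁻¹ : Matrix.SpecialLinearGroup (Fin n) F).1) := by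
        rw [conj_tv _ hφv, hgv]
      have h3 : (φ ᵥ* (g⁻¹ : Matrix.SpecialLinearGroup (Fin n) F).1) ⬝ᵥ v = 0 := by
        conv_lhs => rw [← hgv]
        rw [vecMul_dot_mulVec, hφv]
      have h4 : tv v θ * tv v (φ ᵥ* (g⁻¹ : Matrix.SpecialLinearGroup (Fin n) F).1) * (tv v θ)⁻¹ =
          tv v (φ ᵥ* (g⁻¹ : Matrix.SpecialLinearGroup (Fin n) F).1) := by
        rw [mul_inv_eq_iff_eq_mul, tv_mul_same_v hθv h3, tv_mul_same_v h3 hθv, add_comm]
      rw [← h4, ← h2, hh]; group
    have h5 : h * tv a ψ * h⁻¹ = tv v ((θ ⬝ᵥ (g.1 *ᵥ a)) • ψ') * tv (g.1 *ᵥ a) ψ' := by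
      have h2 : g * tv a ψ * g⁻¹ = tv (g.1 *ᵥ a) ψ' := by rw [conj_tv _ ha, hgψ]
      have h6 : tv v θ * tv (g.1 *ᵥ a) ψ' * (tv v θ)⁻¹ = tv (g.1 *ᵥ a + (θ ⬝ᵥ (g.1 *ᵥ a)) • v) ψ' := by
        rw [conj_tv _ hψ'a, tv_mulVec hθv]
        congr 1
        have := vecMul_tv_inv hθv ψ'
        rw [hψ'v, zero_smul, sub_zero] at this
        exact this
      have h7 : ψ' ⬝ᵥ ((θ ⬝ᵥ (g.1 *ᵥ a)) • v) = 0 := by rw [dotProduct_smul, hψ'v, smul_zero]
      rw [← tv_smul _ _ _ hψ'v, tv_mul_same_f h7 hψ'a, add_comm, ← h6, ← h2, hh]; group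
    apply huniq
    · rw [add_dotProduct, smul_dotProduct, hψ'v, smul_zero, add_zero]
      conv_lhs => rw [← hgv]
      rw [vecMul_dot_mulVec, hφv]
    · have h8 : (φ ᵥ* (g⁻¹ : Matrix.SpecialLinearGroup (Fin n) F).1) ⬝ᵥ v = 0 := by
        conv_lhs => rw [← hgv]
        rw [vecMul_dot_mulVec, hφv]
      rw [← tv_mul_same_v h8 (by rw [smul_dotProduct, hψ'v, smul_zero]), ← mul_smul, mul_assoc, ← h5, ← h1]
      have h9 : h * tv v φ * h⁻¹ * (h * tv a ψ * h⁻¹) = h * (tv v φ * tv a ψ) * h⁻¹ := by group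
      have h10 : (tv v φ * tv a ψ) • w = w := by rw [mul_smul, hφ, hT]
      rw [h9, mul_smul, mul_smul, hhw', h10, hhw]
  -- exists a in ker ψ outside the line of v
  have hψdot : ∀ x : Fin n → F, x ∈ Dv ψ ↔ ψ ⬝ᵥ x = 0 := fun x => by rw [mem_Dv, dotProduct_comm]
  have hfinψ := finrank_Dv hψ0
  obtain ⟨a, haψ', hav⟩ : ∃ x ∈ Dv ψ, x ∉ Submodule.span F {v} := by
    apply exists_notMem
    have := finrank_span1 v
    omega
  have haψ : ψ ⬝ᵥ a = 0 := (hψdot a).1 haψ'
  -- if T(a,ψ) vanishes on ker ψ then contradiction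
  have hker : ∀ f : Fin n → F, (∀ x, ψ ⬝ᵥ x = 0 → f ⬝ᵥ x = 0) → ∃ c : F, f = c • ψ := by
    intro f hf
    by_contra hcon
    have h1 : f ∉ Submodule.span F {ψ} := by
      intro h
      obtain ⟨c, hc⟩ := Submodule.mem_span_singleton.1 h
      exact hcon ⟨c, hc.symm⟩
    obtain ⟨u, hu1, hu2⟩ := sep1 h1
    rw [hf u hu1] at hu2
    exact zero_ne_one hu2
  have hcontra : ¬ ∀ x, ψ ⬝ᵥ x = 0 → T (tv a ψ) ⬝ᵥ x = 0 := by
    intro h
    obtain ⟨c, hc⟩ := hker _ h
    exact hav (hnd a haψ c hc)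
  obtain ⟨c, hc⟩ : ∃ c : Fin n → F, ψ ⬝ᵥ c = 1 := by
    obtain ⟨u, _, hu⟩ := sep (⊥ : Submodule F (Fin n → F)) hψ0'
    exact ⟨u, hu⟩
  have hspan2 : ∀ x y : Fin n → F, Module.finrank F (Submodule.span F {x, y}) ≤ 2 := by
    intro x y
    have := finrank_span_finset_le_card (R := F) ({x, y} : Finset (Fin n → F))
    rw [Finset.coe_pair] at this
    exact this.trans Finset.card_le_two
  have hspan3 : ∀ x y z : Fin n → F, Module.finrank F (Submodule.span F {x, y, z}) ≤ 3 := by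
    intro x y z
    have := finrank_span_finset_le_card (R := F) ({x, y, z} : Finset (Fin n → F))
    rw [Finset.coe_insert, Finset.coe_pair] at this
    exact this.trans Finset.card_le_three
  -- invariance under transvections: gives vanishing
  have hvan : ∀ x u, ψ ⬝ᵥ x = 0 → ψ ⬝ᵥ u = 0 →
      (∃ η, η ⬝ᵥ v = 0 ∧ η ⬝ᵥ u = 0 ∧ η ⬝ᵥ x = 0 ∧ η ∉ Submodule.span F {ψ}) → T (tv x ψ) ⬝ᵥ u = 0 := by
    rintro x u hx hu ⟨η, hηv, hηu, hηx, hηψ⟩
    obtain ⟨y, hy1, hy2⟩ := sep1 hηψ
    obtain ⟨e, he⟩ := hequi (tv u η) x ψ (by rw [tv_mulVec hηu, hηv, zero_smul, add_zero]) hx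
      (by rw [vecMul_tv_inv hηu, hu, zero_smul, sub_zero])
    have h1 : (tv u η).1 *ᵥ x = x := by rw [tv_mulVec hηu, hηx, zero_smul, add_zero]
    have h2 : (tv u η).1 *ᵥ y = y + u := by rw [tv_mulVec hηu, hy2, one_smul]
    have h3 : T (tv x ψ) ⬝ᵥ (y + u) = T (tv x ψ) ⬝ᵥ y := by
      rw [h1] at he
      conv_lhs => rw [he, ← h2]
      rw [add_dotProduct, vecMul_dot_mulVec, smul_dotProduct, h2, dotProduct_add, hy1, hu, add_zero, smul_zero, add_zero]
    rw [dotProduct_add] at h3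
    exact add_eq_left.1 h3
  -- existence of η
  have hη : ∀ W : Submodule F (Fin n → F), Module.finrank F W + 2 ≤ n →
      ∃ η : Fin n → F, (∀ x ∈ W, η ⬝ᵥ x = 0) ∧ η ∉ Submodule.span F {ψ} := by
    intro W hW
    by_contra hcon
    push Not at hcon
    -- find g₁, g₂ outside W independent mod W
    obtain ⟨x1, -, hx1⟩ : ∃ x ∈ (⊤ : Submodule F (Fin n → F)), x ∉ W := by
      apply exists_notMem
      rw [finrank_top, Module.finrank_fintype_fun_eq_card, Fintype.card_fin]; omega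
    have hW1 : Module.finrank F (W ⊔ Submodule.span F {x1} : Submodule F (Fin n → F)) ≤ Module.finrank F W + 1 := by
      have h1 := Submodule.finrank_sup_add_finrank_inf_eq W (Submodule.span F {x1})
      have := finrank_span1 x1
      omega
    obtain ⟨x2, -, hx2⟩ : ∃ x ∈ (⊤ : Submodule F (Fin n → F)), x ∉ W ⊔ Submodule.span F {x1} := by
      apply exists_notMem
      rw [finrank_top, Module.finrank_fintype_fun_eq_card, Fintype.card_fin]; omega
    obtain ⟨η1, h11, h12⟩ := sep _ hx1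
    obtain ⟨η2, h21, h22⟩ := sep _ hx2
    obtain ⟨c1, hc1⟩ := Submodule.mem_span_singleton.1 (hcon η1 (fun x hx => by rw [dotProduct_comm]; exact h11 x hx))
    obtain ⟨c2, hc2⟩ := Submodule.mem_span_singleton.1 (hcon η2 (fun x hx => by
      rw [dotProduct_comm]; exact h21 x (Submodule.mem_sup_left hx)))
    have h3 : x1 ⬝ᵥ η2 = 0 := h21 x1 (Submodule.mem_sup_right (Submodule.mem_span_singleton_self x1))
    rw [← hc1, dotProduct_smul, smul_eq_mul] at h12
    rw [← hc2, dotProduct_smul, smul_eq_mul] at h3 h22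
    have h4 : x1 ⬝ᵥ ψ ≠ 0 := by
      intro h
      rw [h, mul_zero] at h12
      exact zero_ne_one h12
    have h5 := (mul_eq_zero.1 h3).resolve_right h4
    rw [h5, zero_mul] at h22
    exact zero_ne_one h22
  by_cases hn5 : 5 ≤ n
  · apply hcontra
    intro x hx
    apply hvan a x haψ hx
    obtain ⟨η, hη1, hη2⟩ := hη (Submodule.span F {v, x, a}) (by have := hspan3 v x a; omega)
    exact ⟨η, hη1 v (Submodule.subset_span (by simp)), hη1 x (Submodule.subset_span (by simp)),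
      hη1 a (Submodule.subset_span (by simp)), hη2⟩
  by_cases hn4 : n = 4
  · -- alternating
    have halt : ∀ u, ψ ⬝ᵥ u = 0 → T (tv u ψ) ⬝ᵥ u = 0 := by
      intro u hu
      apply hvan u u hu hu
      obtain ⟨η, hη1, hη2⟩ := hη (Submodule.span F {v, u}) (by have := hspan2 v u; omega)
      exact ⟨η, hη1 v (Submodule.subset_span (by simp)), hη1 u (Submodule.subset_span (by simp)),
        hη1 u (Submodule.subset_span (by simp)), hη2⟩
    have hbadd : ∀ x y z, ψ ⬝ᵥ x = 0 → ψ ⬝ᵥ y = 0 → ψ ⬝ᵥ z = 0 →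
        T (tv (x + y) ψ) ⬝ᵥ z = T (tv x ψ) ⬝ᵥ z + T (tv y ψ) ⬝ᵥ z := by
      intro x y z hx hy hz
      rw [hadd x y hx hy, sub_dotProduct, smul_dotProduct, hz, smul_zero, sub_zero, add_dotProduct]
    by_cases h2 : (2 : F) = 0
    · -- characteristic two, q > 2
      have hq : Nat.card F ≠ 2 := fun h => hexc ⟨hn4, h⟩
      obtain ⟨t, ht0, ht1⟩ : ∃ t : F, t ≠ 0 ∧ t ≠ 1 := by
        by_contra hcon
        push Not at hcon
        apply hq
        have := Fintype.ofFinite F
        rw [Nat.card_eq_fintype_card, ← Finset.card_univ]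
        have h3 : (Finset.univ : Finset F) = {0, 1} := by
          ext x
          simp only [Finset.mem_univ, Finset.mem_insert, Finset.mem_singleton, true_iff]
          by_cases h : x = 0
          · exact Or.inl h
          · exact Or.inr (hcon x h)
        rw [h3, Finset.card_pair zero_ne_one]
      push Not at hcontra
      obtain ⟨b, hbψ, hb⟩ := hcontra
      have hnot : a ∉ Submodule.span F {c, v, b} := by
        intro h
        rw [Submodule.mem_span_insert] at h
        obtain ⟨α, z, hz, haz⟩ := h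
        obtain ⟨β, γ, rfl⟩ := Submodule.mem_span_pair.1 hz
        have h3 : α = 0 := by
          have h4 := haψ
          rw [haz, dotProduct_add, dotProduct_smul, hc, dotProduct_add, dotProduct_smul, dotProduct_smul, hψv', hbψ] at h4
          simpa using h4
        apply hb
        rw [hsym a b haψ hbψ, haz, h3, zero_smul, zero_add, dotProduct_add, dotProduct_smul, dotProduct_smul, hT0,
          halt b hbψ, smul_zero, smul_zero, add_zero]
      obtain ⟨χ, hχ1, hχ2⟩ := sep _ hnot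
      have hχc : χ ⬝ᵥ c = 0 := by rw [dotProduct_comm]; exact hχ1 c (Submodule.subset_span (by simp))
      have hχv : χ ⬝ᵥ v = 0 := by rw [dotProduct_comm]; exact hχ1 v (Submodule.subset_span (by simp))
      have hχb : χ ⬝ᵥ b = 0 := by rw [dotProduct_comm]; exact hχ1 b (Submodule.subset_span (by simp))
      have hχa : χ ⬝ᵥ a = 1 := by rw [dotProduct_comm]; exact hχ2
      obtain ⟨g, hg1, hg2, hg3⟩ := exists_diag haψ hc hχa hχc ht0
      obtain ⟨e, he⟩ := hequi g a (t • ψ) (hg3 v hψv' hχv) haψ hg2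
      rw [hg1] at he
      have h3 : tv (t • a) (t • ψ) = tv ((t * t) • a) ψ := by
        rw [mul_smul, tv_smul t (t • a) ψ (by rw [dotProduct_smul, haψ, smul_zero])]
      rw [h3] at he
      have h4 := congrArg (fun f => f ⬝ᵥ (g.1 *ᵥ b)) he
      simp only [add_dotProduct, vecMul_dot_mulVec, smul_dotProduct] at h4
      rw [hg3 b hbψ hχb, hbψ, smul_zero, smul_zero, add_zero,
        hsym _ b (by rw [dotProduct_smul, haψ, smul_zero]) hbψ, dotProduct_smul, hsym b a hbψ haψ, smul_eq_mul] at h4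
      have h5 : (t * t - 1) * (T (tv a ψ) ⬝ᵥ b) = 0 := by rw [sub_mul, h4, one_mul, sub_self]
      have h6 := (mul_eq_zero.1 h5).resolve_right hb
      have h7 : (t - 1) * (t - 1) = 0 := by linear_combination h6 + (1 - t) * h2
      exact ht1 (sub_eq_zero.1 (mul_self_eq_zero.1 h7))
    · -- odd characteristic
      apply hcontra
      intro x hx
      have h3 := halt (a + x) (by rw [dotProduct_add, haψ, hx, add_zero])
      rw [hbadd a x (a + x) haψ hx (by rw [dotProduct_add, haψ, hx, add_zero]), dotProduct_add, dotProduct_add, halt a haψ, halt x hx,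
        hsym x a hx haψ] at h3
      have h4 : (2 : F) * (T (tv a ψ) ⬝ᵥ x) = 0 := by linear_combination h3
      exact (mul_eq_zero.1 h4).resolve_left h2
  · have hn3 : n = 3 := by omega
    -- ker ψ = <v, a>
    have hspan : ∀ x, ψ ⬝ᵥ x = 0 → x ∈ Submodule.span F {v, a} := by
      have h1 : Submodule.span F {v, a} ≤ Dv ψ := by
        rw [Submodule.span_le]
        rintro x (rfl | rfl)
        · exact (hψdot _).2 hψv'
        · exact haψ'
      have h2 : Submodule.span F {v, a} = Dv ψ := by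
        apply Submodule.eq_of_le_of_finrank_le h1
        have h3 : Submodule.span F {v} < Submodule.span F {v, a} := by
          refine lt_of_le_of_ne (Submodule.span_mono (by simp)) ?_
          intro h
          apply hav
          rw [h]
          exact Submodule.subset_span (by simp)
        have h4 := Submodule.finrank_lt_finrank_of_lt h3
        rw [finrank_span_singleton hv] at h4
        omega
      intro x hx
      rw [h2]; exact (hψdot x).2 hx
    have haa : T (tv a ψ) ⬝ᵥ a ≠ 0 := by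
      intro h
      apply hcontra
      intro x hx
      obtain ⟨α, β, rfl⟩ := Submodule.mem_span_pair.1 (hspan x hx)
      rw [dotProduct_add, dotProduct_smul, dotProduct_smul, hT0, h, smul_zero, smul_zero, add_zero]
    by_cases h2 : (2 : F) = 0
    · -- T(0) = 0
      have h3 : T (tv (0 : Fin n → F) ψ) = 0 := by
        symm
        apply huniq
        · rw [zero_dotProduct]
        · rw [tv_zero_right, tv_zero_left, one_smul, one_smul]
      have h4 := hadd a a haψ haψ
      have h5 : a + a = 0 := by rw [← two_smul F, h2, zero_smul]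
      have h6 : T (tv a ψ) + T (tv a ψ) = 0 := by rw [← two_smul F, h2, zero_smul]
      rw [h5, h3, h6, zero_sub, eq_comm, neg_eq_zero] at h4
      exact haa ((smul_eq_zero.1 h4).resolve_right hψ0)
    · have hnot : a ∉ Submodule.span F {c, v} := by
        intro h
        obtain ⟨α, β, haz⟩ := Submodule.mem_span_pair.1 h
        have h3 : α = 0 := by
          have h4 := haψ
          rw [← haz, dotProduct_add, dotProduct_smul, hc, dotProduct_smul, hψv'] at h4
          simpa using h4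
        apply hav
        rw [← haz, h3, zero_smul, zero_add]
        exact Submodule.smul_mem _ _ (Submodule.mem_span_singleton_self v)
      obtain ⟨χ, hχ1, hχ2⟩ := sep _ hnot
      have hχc : χ ⬝ᵥ c = 0 := by rw [dotProduct_comm]; exact hχ1 c (Submodule.subset_span (by simp))
      have hχv : χ ⬝ᵥ v = 0 := by rw [dotProduct_comm]; exact hχ1 v (Submodule.subset_span (by simp))
      have hχa : χ ⬝ᵥ a = 1 := by rw [dotProduct_comm]; exact hχ2
      have ht0 : (-1 : F) ≠ 0 := neg_ne_zero.2 one_ne_zero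
      obtain ⟨g, hg1, hg2, hg3⟩ := exists_diag haψ hc hχa hχc ht0
      obtain ⟨e, he⟩ := hequi g a ((-1 : F) • ψ) (hg3 v hψv' hχv) haψ hg2
      rw [hg1] at he
      have h3 : tv ((-1 : F) • a) ((-1 : F) • ψ) = tv a ψ := by
        rw [← tv_smul (-1 : F) ((-1 : F) • a) ψ (by rw [dotProduct_smul, haψ, smul_zero]), smul_smul]
        norm_num
      rw [h3] at he
      have h4 := congrArg (fun f => f ⬝ᵥ (g.1 *ᵥ a)) he
      simp only [add_dotProduct, vecMul_dot_mulVec, smul_dotProduct] at h4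
      rw [hg1, dotProduct_smul, dotProduct_smul, haψ, smul_zero, smul_zero, smul_zero, add_zero, smul_eq_mul] at h4
      have h5 : (2 : F) * (T (tv a ψ) ⬝ᵥ a) = 0 := by linear_combination -h4
      exact haa ((mul_eq_zero.1 h5).resolve_left h2)

/-- minimal degree of a nontrivial transitive action of the special linear group -/
theorem min_degree [Finite F] [Finite Ω] (hn : 3 ≤ n) (hexc : ¬ (n = 4 ∧ Nat.card F = 2))
    (htr : ∀ w w' : Ω, ∃ g : Matrix.SpecialLinearGroup (Fin n) F, g • w = w')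
    (h1 : 1 < Nat.card Ω) : Nat.card F ^ n - 1 ≤ Nat.card Ω * (Nat.card F - 1) := by
  by_contra hcon
  push Not at hcon
  obtain ⟨s, k, hk, hkq, hs2, hqs, hall⟩ := struct hn htr h1 hcon
  have hq2 : 2 ≤ Nat.card F := Finite.one_lt_card
  haveI : Nonempty Ω := (Nat.card_pos_iff.1 (by omega)).1
  obtain ⟨w⟩ := (inferInstance : Nonempty Ω)
  haveI : Nontrivial (Fin n) := Fin.nontrivial_iff_two_le.2 (by omega)
  have hdich := fun v hv => dichotomy hn hv hqs (hall v hv w).1 (hall v hv w).2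
  have hpow : Nat.card F < Nat.card F ^ (n - 1) := by
    calc Nat.card F = Nat.card F ^ 1 := (pow_one _).symm
      _ < Nat.card F ^ (n - 1) := Nat.pow_lt_pow_right (by omega) (by omega)
  by_cases hs : s = Nat.card F
  · refine no_hyper hn (w := w) (fun v hv => by
      have h2 := (hall v hv w).1
      rw [hs] at h2
      exact h2) (fun v hv => ?_)
    rcases hdich v hv with h | h
    · exact h.2
    · exfalso; omega
  · have hzero : ∀ v : Fin n → F, v ≠ 0 → ∀ f ∈ Av v w, f = 0 := by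
      intro v hv
      rcases hdich v hv with h | h
      · exact absurd h.1 hs
      · exact h.2
    have hs' : s = Nat.card F ^ (n - 1) := by
      obtain ⟨v, hv⟩ : ∃ v : Fin n → F, v ≠ 0 := exists_ne 0
      rcases hdich v hv with h | h
      · exact absurd h.1 hs
      · exact h.1
    refine no_regular hn hexc hzero (fun v hv w' => ?_)
    rcases (hall v hv w').2 w with h | h
    · exact h
    · exfalso
      -- Av v w' is also zero
      have hs1 : Nat.card (Av v w') = 1 := by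
        have h2 := (hall v hv w').1
        rw [← hs'] at h2
        have h3 : 0 < s := by omega
        exact Nat.eq_of_mul_eq_mul_right h3 (by rw [h2, one_mul])
      obtain ⟨f, hf, hf0⟩ : ∃ x ∈ Dv v, x ∉ (⊥ : Submodule F (Fin n → F)) := by
        apply exists_notMem
        have := finrank_Dv hv
        rw [finrank_bot]; omega
      obtain ⟨a, ha, b, hb, rfl⟩ := h f hf
      have h3 : b = 0 := hzero v hv b hb
      have h4 : a = 0 := by
        rw [Nat.card_eq_one_iff_unique] at hs1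
        have := hs1.1.elim ⟨a, ha⟩ ⟨0, Av_zero v w'⟩
        exact congrArg Subtype.val this
      apply hf0
      rw [h3, h4, add_zero]
      exact Submodule.zero_mem _

end CfsgLib.MinIdx
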