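import Cfsg.Agent.LibMul1

set_option autoImplicit false
set_option maxHeartbeats 1000000

/-! The defining characteristic part of the multiplier of SL(2,q). -/

namespace CfsgLib.Mul

open Subgroup CfsgLib.SuzM Cfsg.Agent.H22

variable {Γ F : Type*} [Group Γ] [Field F] [Fintype F] [Finite Γ]
  {σ : Γ →* Matrix.SpecialLinearGroup (Fin 2) F}

theorem su_add (x y : F) : su (x + y) = su x * su y := by
  apply Subtype.ext
  change (!![1, x + y; 0, 1] : Matrix (Fin 2) (Fin 2) F) = !![1, x; 0, 1] * !![1, y; 0, 1]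
  ext i j
  fin_cases i <;> fin_cases j <;> simp [Matrix.mul_apply, Fin.sum_univ_two, add_comm]

/-- the torus -/
def tor (s : F) (hs : s ≠ 0) : Matrix.SpecialLinearGroup (Fin 2) F :=
  ⟨!![s, 0; 0, s⁻¹], by rw [Matrix.det_fin_two]; simp [hs]⟩

theorem tor_su (s : F) (hs : s ≠ 0) (x : F) : tor s hs * su x * (tor s hs)⁻¹ = su (s ^ 2 * x) := by
  rw [mul_inv_eq_iff_eq_mul]
  apply Subtype.ext
  change (!![s, 0; 0, s⁻¹] : Matrix (Fin 2) (Fin 2) F) * !![1, x; 0, 1] = !![1, s ^ 2 * x; 0, 1] * !![s, 0; 0, s⁻¹]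
  have h1 : s * x = s ^ 2 * x * s⁻¹ := by field_simp
  ext i j
  fin_cases i <;> fin_cases j <;>
    simp [Matrix.mul_apply, Fin.sum_univ_two, h1]

theorem comm_bot_char (hσ : Function.Surjective σ) (hc : σ.ker ≤ center Γ) (h4 : Fintype.card F ≠ 4)
    (h9 : Fintype.card F ≠ 9) {p : ℕ} [Fact p.Prime] [CharP F p] :
    ∃ P : Sylow p Γ, ⁅(P : Subgroup Γ), (P : Subgroup Γ)⁆ = ⊥ := by
  -- the commutator map
  have hcomm : ∀ x y : F, su x * su y = su y * su x := by
    intro x y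
    rw [← su_add, ← su_add, add_comm]
  letI : CommGroup (center Γ) := { (inferInstance : Group (center Γ)) with
    mul_comm := fun x y => Subtype.ext (Subgroup.mem_center_iff.1 y.2 x) }
  let b : F → F → center Γ := fun x y => ⟨cm hσ (su x) (su y), by
    rw [Subgroup.mem_center_iff]
    intro w
    exact cm_central hσ hc (hcomm x y) w⟩
  have hb : ∀ x y, (b x y : Γ) = cm hσ (su x) (su y) := fun x y => rfl
  have hvan : ∀ x y, b x y = 1 := by
    refine bi_vanish h4 h9 b ?_ ?_ ?_ ?_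
    · intro x x' y
      apply Subtype.ext
      rw [Subgroup.coe_mul, hb, hb, hb, su_add, cm_mul_left hσ hc (fun w _ => cm_central hσ hc (hcomm _ _) w)]
      exact cm_central hσ hc (hcomm _ _) _
    · intro x y y'
      apply Subtype.ext
      rw [Subgroup.coe_mul, hb, hb, hb, su_add, cm_mul_right hσ hc (fun w _ => cm_central hσ hc (hcomm _ _) w)]
    · intro x
      apply Subtype.ext
      rw [hb]
      simp [cm]
    · intro s x y hs
      apply Subtype.ext
      rw [hb, hb]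
      obtain ⟨w, hw⟩ := hσ (tor s hs)
      have h1 := cm_conj hσ hc (g := su x) (h := su y) hw
      rw [tor_su, tor_su] at h1
      rw [← h1, cm_central hσ hc (hcomm x y) w, mul_inv_cancel_right]
  have hvan' : ∀ x y, cm hσ (su x) (su y) = 1 := fun x y => congrArg Subtype.val (hvan x y)
  -- a Sylow subgroup over the unipotent subgroup
  obtain ⟨Q⟩ : Nonempty (Sylow p Γ) := inferInstance
  obtain ⟨g, hg⟩ := MulAction.exists_smul_eq (Matrix.SpecialLinearGroup (Fin 2) F) (Q.mapSurjective hσ)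
    ((isPGroup_lineStab_e0 (F := F) p).toSylow (not_dvd_index_lineStab_e0 p))
  obtain ⟨w, hw⟩ := hσ g
  refine ⟨w • Q, ?_⟩
  have hP : ∀ x ∈ ((w • Q : Sylow p Γ) : Subgroup Γ), ∃ a, σ x = su a := by
    intro x hx
    rw [Sylow.coe_subgroup_smul, Subgroup.mem_pointwise_smul_iff_inv_smul_mem] at hx
    have h4 : w⁻¹ * x * w⁻¹⁻¹ ∈ (Q : Subgroup Γ) := by
      rw [← map_inv] at hx
      exact hx
    have h5 : σ (w⁻¹ * x * w⁻¹⁻¹) ∈ ((Q.mapSurjective hσ : Sylow p _) : Subgroup (Matrix.SpecialLinearGroup (Fin 2) F)) := by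
      rw [Sylow.coe_mapSurjective]
      exact ⟨_, h4, rfl⟩
    have h6 : g * (σ (w⁻¹ * x * w⁻¹⁻¹)) * g⁻¹ ∈
        (((g • (Q.mapSurjective hσ)) : Sylow p _) : Subgroup (Matrix.SpecialLinearGroup (Fin 2) F)) := by
      rw [Sylow.coe_subgroup_smul]
      exact Subgroup.smul_mem_pointwise_smul _ (MulAut.conj g) _ h5
    rw [hg] at h6
    have h7 : g * (σ (w⁻¹ * x * w⁻¹⁻¹)) * g⁻¹ = σ x := by
      simp only [map_mul, map_inv, hw]
      group
    rw [h7] at h6
    have h8 : σ x ∈ Matrix.SpecialLinearGroup.lineStab (Submodule.span F {(Pi.single 0 1 : Fin 2 → F)}) := h6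
    exact ⟨_, eq_su h8⟩
  rw [eq_bot_iff, Subgroup.commutator_le]
  intro x hx y hy
  obtain ⟨c, hc1⟩ := hP x hx
  obtain ⟨d, hd1⟩ := hP y hy
  rw [Subgroup.mem_bot, commutatorElement_def, cm_eq hσ hc hc1 hd1, hvan']

end CfsgLib.Mul
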