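import Cfsg.Agent.LibSchur2

/-! Bilinear central extensions; covers dominating a stem extension; perfect groups. -/

set_option autoImplicit false
set_option linter.style.haveILetI false
set_option linter.unusedSectionVars false

namespace CfsgLib.Schur

open Subgroup
open scoped commutatorElement

universe u v w

/-- The central extension of `G` by `T` given by a bilinear cocycle. -/
@[ext] structure BExt {G : Type u} {T : Type v} [Group G] [CommGroup T] (β : G →* G →* T) where
  /-- the component in `G` -/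
  g : G
  /-- the component in `T` -/
  t : T

namespace BExt

variable {G : Type u} {T : Type v} [Group G] [CommGroup T] (β : G →* G →* T)

instance : Mul (BExt β) := ⟨fun a b => ⟨a.g * b.g, a.t * b.t * β a.g b.g⟩⟩
instance : One (BExt β) := ⟨⟨1, 1⟩⟩
instance : Inv (BExt β) := ⟨fun a => ⟨a.g⁻¹, a.t⁻¹ * β a.g a.g⟩⟩

variable {β}

theorem mul_g (a b : BExt β) : (a * b).g = a.g * b.g := rfl
theorem mul_t (a b : BExt β) : (a * b).t = a.t * b.t * β a.g b.g := rfl
theorem one_g : (1 : BExt β).g = 1 := rfl
theorem one_t : (1 : BExt β).t = 1 := rfl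
theorem inv_g (a : BExt β) : (a⁻¹).g = a.g⁻¹ := rfl
theorem inv_t (a : BExt β) : (a⁻¹).t = a.t⁻¹ * β a.g a.g := rfl

instance : Group (BExt β) :=
  Group.ofLeftAxioms
    (by
      intro a b c
      apply BExt.ext
      · simp only [mul_g, mul_assoc]
      · simp only [mul_t, mul_g, map_mul, MonoidHom.mul_apply]
        have : ∀ x y z u v w : T, x * y * u * z * (v * w) = x * (y * z * w) * (u * v) := by
          intro x y z u v w
          simp only [mul_assoc, mul_comm, mul_left_comm]
        exact this _ _ _ _ _ _)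
    (by
      intro a
      apply BExt.ext
      · simp only [mul_g, one_g, one_mul]
      · simp only [mul_t, one_t, one_g, map_one, MonoidHom.one_apply, one_mul, mul_one])
    (by
      intro a
      apply BExt.ext
      · simp only [mul_g, inv_g, one_g, inv_mul_cancel]
      · simp only [mul_t, inv_t, inv_g, one_t, map_inv, MonoidHom.inv_apply]
        have : ∀ x y : T, x⁻¹ * y * x * y⁻¹ = 1 := by
          intro x y; rw [mul_comm x⁻¹ y]; group
        exact this _ _)

instance [Finite G] [Finite T] : Finite (BExt β) :=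
  Finite.of_injective (fun a : BExt β => (a.g, a.t)) (fun a b h => by
    have := Prod.mk.inj h
    exact BExt.ext this.1 this.2)

variable (β) in
/-- the projection to `G` -/
def proj : BExt β →* G where
  toFun := fun a => a.g
  map_one' := rfl
  map_mul' := fun _ _ => rfl

variable (β) in
/-- the inclusion of `T` -/
def incl : T →* BExt β where
  toFun := fun t => ⟨1, t⟩
  map_one' := rfl
  map_mul' := fun a b => BExt.ext (by simp [mul_g]) (by simp [mul_t])

theorem proj_surj : Function.Surjective (proj β) := fun g => ⟨⟨g, 1⟩, rfl⟩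

theorem incl_inj : Function.Injective (incl β) := fun _ _ h => congrArg BExt.t h

theorem ker_proj : (proj β).ker = (incl β).range := by
  ext a
  rw [MonoidHom.mem_ker, MonoidHom.mem_range]
  constructor
  · intro h
    exact ⟨a.t, BExt.ext h.symm rfl⟩
  · rintro ⟨t, rfl⟩
    rfl

theorem central : (proj β).ker ≤ center (BExt β) := by
  rw [ker_proj]
  rintro _ ⟨t, rfl⟩
  rw [mem_center_iff]
  intro a
  apply BExt.ext
  · simp [mul_g, incl]
  · simp [mul_t, incl, mul_comm]

/-- commutators -/
theorem comm_eq (a b : BExt β) (h : a.g * b.g = b.g * a.g) :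
    ⁅a, b⁆ = incl β (β a.g b.g * (β b.g a.g)⁻¹) := by
  rw [commutatorElement_def, mul_inv_eq_iff_eq_mul, mul_inv_eq_iff_eq_mul]
  apply BExt.ext
  · simp [mul_g, incl, h]
  · simp only [mul_t, mul_g, incl, MonoidHom.coe_mk, OneHom.coe_mk, map_one, MonoidHom.one_apply, mul_one, one_mul]
    have : ∀ x y z w : T, x * y * z = z * w⁻¹ * y * x * w := by
      intro x y z w
      have : z * w⁻¹ * y * x * w = x * y * z * (w⁻¹ * w) := by
        simp only [mul_assoc, mul_comm, mul_left_comm]
      rw [this, inv_mul_cancel, mul_one]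
    exact this _ _ _ _

noncomputable def kerEquiv : T ≃* (proj β).ker :=
  (MonoidHom.ofInjective (incl_inj (β := β))).trans (MulEquiv.subgroupCongr (ker_proj (β := β)).symm)

end BExt

section domin

variable {Q : Type u} [Group Q]

/-- A stem extension is dominated by a covering group. -/
theorem exists_cover_of_stem [Finite Q] {Δ : Type w} [Group Δ] (τ : Δ →* Q) (hτ : Cfsg.IsStemExtension τ) :
    ∃ (S : Subgroup (E Q)) (_ : S.Normal) (hS : S ≤ (e Q).ker), S ⊓ commutator (E Q) = ⊥ ∧
      S ⊔ MS Q = (e Q).ker ∧ ∃ β : E Q ⧸ S →* Δ, Function.Surjective β ∧ τ.comp β = sg S hS := by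
  obtain ⟨φ, hφ⟩ := exists_lift τ hτ.1 hτ.2.1
  have hT : φ.ker ≤ (e Q).ker := by
    intro x hx
    rw [MonoidHom.mem_ker, ← lift_apply hφ, (MonoidHom.mem_ker).mp hx, map_one]
  have hTM : φ.ker ⊔ MS Q = (e Q).ker := by
    apply le_antisymm (sup_le hT (MS_le_ker Q))
    intro x hx
    have h1 : φ x ∈ τ.ker ⊓ commutator Δ := by
      have h2 : φ x ∈ τ.ker := by rw [MonoidHom.mem_ker, lift_apply hφ]; exact hx
      exact Subgroup.mem_inf.mpr ⟨h2, hτ.2.2 h2⟩
    rw [← map_MS hτ.2.1 hφ] at h1
    obtain ⟨m, hm, hmx⟩ := h1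
    have h3 : x = (x * m⁻¹) * m := by group
    rw [h3]
    refine mul_mem (mem_sup_left ?_) (mem_sup_right hm)
    rw [MonoidHom.mem_ker, map_mul, map_inv, hmx, mul_inv_cancel]
  obtain ⟨S, hST, hinf, hsup⟩ := exists_cover_le Q φ.ker hT hTM
  haveI := normal_of_le_ker Q (hST.trans hT)
  refine ⟨S, inferInstance, hST.trans hT, hinf, hsup, QuotientGroup.lift S φ (fun x hx => hST hx), ?_, ?_⟩
  · intro d
    obtain ⟨x, hx⟩ := lift_surj hτ hφ d
    exact ⟨QuotientGroup.mk' S x, hx⟩
  · apply MonoidHom.ext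
    intro x
    obtain ⟨x, rfl⟩ := QuotientGroup.mk'_surjective S x
    exact lift_apply hφ x

end domin

section perfect

variable {Q : Type u} [Group Q]

/-- Homomorphisms from a perfect group into a central extension agreeing in the quotient are equal. -/
theorem hom_unique {G : Type v} [Group G] (hG : commutator G = ⊤) {X : Type w} [Group X] {P : Type u} [Group P]
    (ξ : X →* P) (hc : ξ.ker ≤ center X) (η₁ η₂ : G →* X) (h : ∀ g, ξ (η₁ g) = ξ (η₂ g)) : η₁ = η₂ := by
  have hz : ∀ g, (η₂ g)⁻¹ * η₁ g ∈ center X := fun g => hc (by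
    rw [MonoidHom.mem_ker, map_mul, map_inv, h, inv_mul_cancel])
  have hz' : ∀ g x, x * ((η₂ g)⁻¹ * η₁ g) = ((η₂ g)⁻¹ * η₁ g) * x := fun g x => mem_center_iff.mp (hz g) x
  let c : G →* center X :=
    { toFun := fun g => ⟨(η₂ g)⁻¹ * η₁ g, hz g⟩
      map_one' := Subtype.ext (by simp)
      map_mul' := by
        intro a b
        apply Subtype.ext
        change (η₂ (a * b))⁻¹ * η₁ (a * b) = (η₂ a)⁻¹ * η₁ a * ((η₂ b)⁻¹ * η₁ b)
        rw [map_mul, map_mul, mul_inv_rev]
        calc (η₂ b)⁻¹ * (η₂ a)⁻¹ * (η₁ a * η₁ b) = ((η₂ b)⁻¹ * ((η₂ a)⁻¹ * η₁ a)) * η₁ b := by group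
          _ = (((η₂ a)⁻¹ * η₁ a) * (η₂ b)⁻¹) * η₁ b := by rw [hz']
          _ = _ := by group }
  have h1 : commutator G ≤ c.ker := by
    rw [_root_.commutator_def, Subgroup.commutator_le]
    intro a _ b _
    rw [MonoidHom.mem_ker, map_commutatorElement, commutatorElement_eq_one_iff_commute]
    exact Subtype.ext (mem_center_iff.mp (c b).2 _)
  apply MonoidHom.ext
  intro g
  have h2 : c g = 1 := h1 (hG ▸ mem_top g)
  have h3 : (η₂ g)⁻¹ * η₁ g = 1 := congrArg Subtype.val h2
  exact (inv_mul_eq_one.mp h3).symm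

variable (hQ : commutator Q = ⊤)

include hQ in
/-- For perfect `Q`, `E Q = (E Q)' · ker`. -/
theorem exists_mul_of_perfect (x : E Q) : ∃ y ∈ commutator (E Q), ∃ z ∈ center (E Q), x = y * z := by
  have h1 : e Q x ∈ (commutator (E Q)).map (e Q) := by
    have : (commutator (E Q)).map (e Q) = commutator Q := by
      rw [_root_.commutator_def, _root_.commutator_def, Subgroup.map_commutator,
        Subgroup.map_top_of_surjective _ (e_surj Q)]
    rw [this, hQ]; trivial
  obtain ⟨y, hy, hyx⟩ := h1
  refine ⟨y, hy, y⁻¹ * x, e_central Q ?_, by group⟩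
  rw [MonoidHom.mem_ker, map_mul, map_inv, hyx, inv_mul_cancel]

include hQ in
theorem commutator_perfect : commutator (commutator (E Q)) = ⊤ := by
  have h1 := commutator_eq_map (commutator (E Q)).subtype (fun g => by
    obtain ⟨y, hy, z, hz, h⟩ := exists_mul_of_perfect hQ g
    exact ⟨⟨y, hy⟩, z, hz, h⟩)
  apply Subgroup.map_injective (commutator (E Q)).subtype_injective
  rw [← h1, ← MonoidHom.range_eq_map, Subgroup.range_subtype]

end perfect

end CfsgLib.Schur
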