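import Cfsg.Statements.S3961
import Cfsg.Agent.LibSchur3

set_option autoImplicit false
universe u v
open Cfsg

namespace Cfsg.Agent.S3961

set_option linter.style.haveILetI false
set_option linter.unusedSectionVars false
set_option linter.unusedVariables false

open Subgroup CfsgLib.Schur
open scoped commutatorElement

/-- Let `π : G →* Q` be a surjective homomorphism with central kernel from a finite perfect group `G` (a perfect cover of `Q`). Then `π` is universal, in the sense that every surjective homomorphism `ξ : X →* Q` with central kernel from a group `X` in the universe of `G` admits a homomorphism `η : G →* X` with `ξ ∘ η = π`, if and only if `G` has trivial Schur multiplier. -/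
theorem result {G : Type u} {Q : Type v} [Group G] [Group Q] [Finite G] (hG : Group.IsPerfect G) (π : G →* Q) (hπ : Function.Surjective π) (hker : π.ker ≤ Subgroup.center G) : (∀ (X : Type u) [Group X] (ξ : X →* Q), Function.Surjective ξ → ξ.ker ≤ Subgroup.center X → ∃ η : G →* X, ξ.comp η = π) ↔ Cfsg.HasCyclicSchurMultiplier G 1 := by
  have hG' : commutator G = ⊤ := hG.commutator_eq_top
  constructor
  · intro huniv
    rw [hasCyclic_one_iff']
    intro Γ _ _ σ hσ
    -- Γ is perfect
    have hΓ : commutator Γ = ⊤ := by
      rw [eq_top_iff]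
      intro x _
      have h1 : σ x ∈ (commutator Γ).map σ := by
        have : (commutator Γ).map σ = commutator G := by
          rw [_root_.commutator_def, _root_.commutator_def, Subgroup.map_commutator,
            Subgroup.map_top_of_surjective _ hσ.1]
        rw [this, hG']; trivial
      obtain ⟨y, hy, hyx⟩ := h1
      have h2 : y⁻¹ * x ∈ σ.ker := by
        rw [MonoidHom.mem_ker, map_mul, map_inv, hyx, inv_mul_cancel]
      have h3 : x = y * (y⁻¹ * x) := by group
      rw [h3]
      exact mul_mem hy (hσ.2.2 h2)
    -- kernel of the composite is central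
    have hcent : (π.comp σ).ker ≤ center Γ := by
      intro k hk
      -- x ↦ [k, x] is a hom into ker σ
      have hcomm : ∀ x, ⁅k, x⁆ ∈ σ.ker := by
        intro x
        rw [MonoidHom.mem_ker, map_commutatorElement, commutatorElement_eq_one_iff_commute]
        exact (mem_center_iff.mp (hker (show σ k ∈ π.ker from hk)) (σ x)).symm
      have hz : ∀ x y, y * ⁅k, x⁆ = ⁅k, x⁆ * y := fun x y => mem_center_iff.mp (hσ.2.1 (hcomm x)) y
      let c : Γ →* center Γ :=
        { toFun := fun x => ⟨⁅k, x⁆, hσ.2.1 (hcomm x)⟩
          map_one' := Subtype.ext (commutatorElement_one_right k)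
          map_mul' := by
            intro x y
            apply Subtype.ext
            change ⁅k, x * y⁆ = ⁅k, x⁆ * ⁅k, y⁆
            have h1 : ⁅k, x * y⁆ = ⁅k, x⁆ * (x * ⁅k, y⁆ * x⁻¹) := by
              simp only [commutatorElement_def]; group
            rw [h1, hz, mul_inv_cancel_right] }
      have h1 : commutator Γ ≤ c.ker := by
        rw [_root_.commutator_def, Subgroup.commutator_le]
        intro a _ b _
        rw [MonoidHom.mem_ker, map_commutatorElement, commutatorElement_eq_one_iff_commute]
        exact Subtype.ext (mem_center_iff.mp (c b).2 _)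
      rw [mem_center_iff]
      intro y
      have h2 : c y = 1 := h1 (hΓ ▸ mem_top y)
      have h3 : ⁅k, y⁆ = 1 := congrArg Subtype.val h2
      exact (commutatorElement_eq_one_iff_commute.mp h3).eq.symm
    obtain ⟨η, hη⟩ := huniv Γ (π.comp σ) (hπ.comp hσ.1) hcent
    have h1 : σ.comp η = MonoidHom.id G := by
      apply hom_unique hG' π hker
      intro g
      exact DFunLike.congr_fun hη g
    -- then Γ = η(G) · ker σ so η is surjective
    have h2 : commutator Γ = (commutator G).map η := commutator_eq_map η (fun g => by
      refine ⟨σ g, (η (σ g))⁻¹ * g, hσ.2.1 ?_, by group⟩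
      have := DFunLike.congr_fun h1 (σ g)
      change σ (η (σ g)) = σ g at this
      rw [MonoidHom.mem_ker, map_mul, map_inv, this, inv_mul_cancel])
    rw [eq_bot_iff]
    intro x hx
    have h3 := hσ.2.2 hx
    rw [h2] at h3
    obtain ⟨g, -, rfl⟩ := h3
    have h4 : σ (η g) = g := DFunLike.congr_fun h1 g
    rw [MonoidHom.mem_ker, h4] at hx
    rw [hx, map_one]; exact one_mem _
  · intro hM X _ ξ hξ hc
    haveI := finite_of_hasSchur hM
    have hMS : MS G = ⊥ := hasCyclic_one_iff.mp hM
    -- pullback
    let Y : Subgroup (G × X) := ((π.comp (MonoidHom.fst G X)).eqLocus (ξ.comp (MonoidHom.snd G X)))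
    have memY : ∀ y : G × X, y ∈ Y ↔ π y.1 = ξ y.2 := fun y => Iff.rfl
    let σ : Y →* G := (MonoidHom.fst G X).comp Y.subtype
    have hσ : Function.Surjective σ := by
      intro g
      obtain ⟨x, hx⟩ := hξ (π g)
      exact ⟨⟨(g, x), hx.symm⟩, rfl⟩
    have hσc : σ.ker ≤ center Y := by
      rintro ⟨⟨g, x⟩, hy⟩ hk
      have hg : g = 1 := hk
      subst hg
      have hx : ξ x = 1 := by
        have := (memY _).mp hy
        rw [← this]; exact map_one π
      rw [mem_center_iff]
      rintro ⟨⟨g', x'⟩, hy'⟩
      apply Subtype.ext
      apply Prod.ext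
      · change g' * 1 = 1 * g'
        rw [mul_one, one_mul]
      · exact mem_center_iff.mp (hc hx) x'
    obtain ⟨φ, hφ⟩ := exists_lift σ hσ hσc
    -- restrict to the commutator; σ ∘ φ = e injective on (E G)'
    have hinj : ∀ x ∈ commutator (E G), e G x = 1 → x = 1 := by
      intro x hx h1
      have : x ∈ MS G := Subgroup.mem_inf.mpr ⟨h1, hx⟩
      rwa [hMS, mem_bot] at this
    have hsurj : ∀ g : G, ∃ x ∈ commutator (E G), e G x = g := by
      intro g
      have h1 : g ∈ (commutator (E G)).map (e G) := by
        have : (commutator (E G)).map (e G) = commutator G := by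
          rw [_root_.commutator_def, _root_.commutator_def, Subgroup.map_commutator,
            Subgroup.map_top_of_surjective _ (e_surj G)]
        rw [this, hG']; trivial
      obtain ⟨y, hy, hyx⟩ := h1
      exact ⟨y, hy, hyx⟩
    let ψ : commutator (E G) →* G := (e G).comp (commutator (E G)).subtype
    have hψ : Function.Bijective ψ := by
      constructor
      · rw [injective_iff_map_eq_one]
        intro x hx
        exact Subtype.ext (hinj x x.2 hx)
      · intro g
        obtain ⟨x, hx, hxg⟩ := hsurj g
        exact ⟨⟨x, hx⟩, hxg⟩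
    let ε := MulEquiv.ofBijective ψ hψ
    refine ⟨((MonoidHom.snd G X).comp Y.subtype).comp ((φ.comp (commutator (E G)).subtype).comp ε.symm.toMonoidHom), ?_⟩
    apply MonoidHom.ext
    intro g
    obtain ⟨x, rfl⟩ := ε.surjective g
    change ξ ((φ ((ε.symm (ε x) : commutator (E G)) : E G) : Y) : G × X).2 = π (ε x)
    rw [ε.symm_apply_apply, ← (memY _).mp (φ (x : E G)).2]
    congr 1
    exact lift_apply hφ (x : E G)

end Cfsg.Agent.S3961
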