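import Cfsg.Agent.LibMul1
import Cfsg.Agent.S3961
import Mathlib.GroupTheory.IsPerfect

set_option autoImplicit false
set_option maxHeartbeats 1000000

/-! The multiplier of a quotient of a perfect group with trivial multiplier. -/

namespace CfsgLib.Mul

open Subgroup

universe u v

theorem hasSchur_of_cover {X G : Type u} [Group X] [Group G] [Finite X] (hX : commutator X = ⊤) (π : X →* G)
    (hπ : Function.Surjective π) (hk : π.ker ≤ center X) (hM : Cfsg.HasCyclicSchurMultiplier X 1) {A : Type v}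
    [CommGroup A] (e : π.ker ≃* A) : Cfsg.HasSchurMultiplier G A := by
  have hP : Group.IsPerfect X := ⟨hX⟩
  have huniv := (Cfsg.Agent.S3961.result hP π hπ hk).2 hM
  refine ⟨⟨X, inferInstance, inferInstance, π, ⟨hπ, hk, ?_⟩, ⟨e⟩⟩, ?_⟩
  · rw [hX]; exact le_top
  · intro Γ _ _ σ hst
    obtain ⟨η, hη⟩ := huniv Γ σ hst.1 hst.2.1
    have hη' : ∀ x, σ (η x) = π x := fun x => DFunLike.congr_fun hη x
    have hk2 : ∀ x : π.ker, η x ∈ σ.ker := by
      intro x
      rw [MonoidHom.mem_ker, hη']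
      exact x.2
    refine ⟨((η.comp π.ker.subtype).codRestrict σ.ker hk2).comp e.symm.toMonoidHom, ?_⟩
    rintro ⟨z, hz⟩
    have h1 : commutator Γ = (commutator X).map η := by
      apply CfsgLib.Schur.commutator_eq_map
      intro g
      obtain ⟨x, hx⟩ := hπ (σ g)
      refine ⟨x, (η x)⁻¹ * g, hst.2.1 ?_, by group⟩
      rw [MonoidHom.mem_ker, map_mul, map_inv, hη', hx, inv_mul_cancel]
    have h2 := hst.2.2 hz
    rw [h1] at h2
    obtain ⟨x, -, hx⟩ := h2
    have hx2 : x ∈ π.ker := by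
      rw [MonoidHom.mem_ker, ← hη', hx]
      exact hz
    refine ⟨e ⟨x, hx2⟩, Subtype.ext ?_⟩
    change η ((e.symm (e ⟨x, hx2⟩) : π.ker) : X) = z
    rw [e.symm_apply_apply]
    exact hx

theorem hasCyclic_of_cover {X G : Type u} [Group X] [Group G] [Finite X] (hX : commutator X = ⊤) (π : X →* G)
    (hπ : Function.Surjective π) (hk : π.ker ≤ center X) (hM : Cfsg.HasCyclicSchurMultiplier X 1) {n : ℕ}
    (hcyc : IsCyclic π.ker) (hn : Nat.card π.ker = n) : Cfsg.HasCyclicSchurMultiplier G n := by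
  subst hn
  exact hasSchur_of_cover hX π hπ hk hM (zmodCyclicMulEquiv hcyc).symm

end CfsgLib.Mul
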