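import Mathlib
import Cfsg.Agent.LibSchur2

/-! Vanishing of Schur multipliers via subgroups of index prime to `p`. -/

set_option autoImplicit false
set_option linter.unusedSectionVars false
set_option linter.style.haveILetI false

namespace CfsgLib.Mult15

open Subgroup
open scoped commutatorElement

universe u

section gen

variable {Γ : Type u} [Group Γ]

theorem not_le_comm [Finite Γ] {p : ℕ} (hp : p.Prime) (Z : Subgroup Γ) (hZc : Z ≤ center Γ) (hZ : Nat.card Z = p)
    (K : Subgroup Γ) (hK : ¬ p ∣ K.index) (hint : ∀ z ∈ Z, z ∈ ⁅K, K⁆ → z = 1) :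
    ¬ Z ≤ commutator Γ := by
  intro hle
  haveI : Fact p.Prime := ⟨hp⟩
  have hne : Z ≠ ⊥ := by
    intro h; rw [h, Subgroup.card_bot] at hZ; exact hp.one_lt.ne hZ
  obtain ⟨z, hz, hz1⟩ : ∃ z ∈ Z, z ≠ 1 := by
    by_contra hcon
    push Not at hcon
    exact hne ((Subgroup.eq_bot_iff_forall _).mpr hcon)
  have hcz : ∀ g : Γ, g * z = z * g := fun g => mem_center_iff.mp (hZc hz) g
  have key : ∀ (k : ℕ) (g₀ : Γ), g₀⁻¹ * z ^ k * g₀ ∈ K → g₀⁻¹ * z ^ k * g₀ = z ^ k := by
    intro k g₀ _
    have h : z ^ k * g₀ = g₀ * z ^ k := by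
      have : Commute z g₀ := (hcz g₀).symm
      exact (this.pow_left k).eq
    rw [mul_assoc, h, inv_mul_cancel_left]
  have h1 := MonoidHom.transfer_eq_pow (Abelianization.of : K →* Abelianization K) z key
  have h2 : MonoidHom.transfer (Abelianization.of : K →* Abelianization K) z = 1 :=
    Abelianization.commutator_subset_ker _ (hle hz)
  rw [h2] at h1
  have h3 : (⟨z ^ K.index, MonoidHom.transfer_eq_pow_aux z key⟩ : K) ∈ commutator K := by
    rw [← Abelianization.ker_of]
    exact h1.symm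
  have h4 : z ^ K.index ∈ ⁅K, K⁆ := by
    have h5 := Subgroup.mem_map_of_mem K.subtype h3
    rw [_root_.commutator_def, Subgroup.map_commutator] at h5
    refine Subgroup.commutator_mono ?_ ?_ h5
    · rintro _ ⟨a, _, rfl⟩; exact a.2
    · rintro _ ⟨a, _, rfl⟩; exact a.2
  have h6 : z ^ K.index = 1 := hint _ (Z.pow_mem hz _) h4
  have h7 : orderOf z = p := by
    apply orderOf_eq_prime _ hz1
    have h8 : (⟨z, hz⟩ : Z) ^ p = 1 := by rw [← hZ]; exact pow_card_eq_one'
    exact congrArg Subtype.val h8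
  apply hK
  rw [← h7]
  exact orderOf_dvd_of_pow_eq_one h6

end gen

section main

variable (Q : Type u) [Group Q] [Finite Q]

/-- Good subgroup for a central extension with kernel of order `p`. -/
def Good (p : ℕ) : Prop :=
  ∀ (Γ : Type u) [Group Γ] [Finite Γ] (σ : Γ →* Q), Function.Surjective σ → σ.ker ≤ center Γ →
    Nat.card σ.ker = p → ∃ K : Subgroup Q, ¬ p ∣ K.index ∧ ∀ z ∈ σ.ker, z ∈ ⁅K.comap σ, K.comap σ⁆ → z = 1

theorem trivial_of_good (h : ∀ p : ℕ, p.Prime → Good Q p) : Cfsg.HasCyclicSchurMultiplier Q 1 := by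
  rw [CfsgLib.Schur.hasCyclic_one_iff']
  intro Γ _ _ σ hσ
  by_contra hne
  haveI : IsMulCommutative σ.ker := ⟨⟨fun a b => Subtype.ext (mem_center_iff.mp (hσ.2.1 b.2) a)⟩⟩
  haveI : Nontrivial σ.ker := (Subgroup.nontrivial_iff_ne_bot _).mpr hne
  haveI : IsCoatomic (Subgroup σ.ker) := inferInstance
  obtain ⟨M, hM, -⟩ := (eq_top_or_exists_le_coatom (⊥ : Subgroup σ.ker)).resolve_left bot_ne_top
  haveI hMn : M.Normal := ⟨fun a ha b => by
    rw [show b * a * b⁻¹ = a by
      rw [show b * a = a * b from Subtype.ext (mem_center_iff.mp (hσ.2.1 a.2) b), mul_inv_cancel_right]]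
    exact ha⟩
  haveI hsimple : IsSimpleGroup (σ.ker ⧸ M) := by
    haveI : Nontrivial (σ.ker ⧸ M) := QuotientGroup.nontrivial_iff.mpr hM.1
    refine ⟨fun H _ => ?_⟩
    have h1 : M ≤ H.comap (QuotientGroup.mk' M) := by
      intro x hx
      rw [Subgroup.mem_comap]
      have : QuotientGroup.mk' M x = 1 := (QuotientGroup.eq_one_iff x).mpr hx
      rw [this]; exact H.one_mem
    rcases hM.le_iff.mp h1 with h2 | h2
    · right
      rw [← Subgroup.map_comap_eq_self_of_surjective (QuotientGroup.mk'_surjective M) H, h2,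
        Subgroup.map_top_of_surjective _ (QuotientGroup.mk'_surjective M)]
    · left
      rw [← Subgroup.map_comap_eq_self_of_surjective (QuotientGroup.mk'_surjective M) H, h2,
        eq_bot_iff]
      rintro _ ⟨a, ha, rfl⟩
      exact (QuotientGroup.eq_one_iff a).mpr ha
  have hcomm : ∀ a b : σ.ker ⧸ M, a * b = b * a := by
    intro a b
    induction a using QuotientGroup.induction_on with | H a => ?_
    induction b using QuotientGroup.induction_on with | H b => ?_
    rw [← QuotientGroup.mk_mul, ← QuotientGroup.mk_mul]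
    exact congrArg _ (Subtype.ext (mem_center_iff.mp (hσ.2.1 b.2) a))
  letI : CommGroup (σ.ker ⧸ M) := { (inferInstance : Group (σ.ker ⧸ M)) with mul_comm := hcomm }
  obtain ⟨p, hp, hcard⟩ : ∃ p : ℕ, p.Prime ∧ Nat.card (σ.ker ⧸ M) = p := by
    refine ⟨_, ?_, rfl⟩
    exact (IsSimpleGroup.prime_card (α := σ.ker ⧸ M))
  -- the quotient extension
  let N : Subgroup Γ := M.map σ.ker.subtype
  have hNk : N ≤ σ.ker := by rintro _ ⟨a, _, rfl⟩; exact a.2
  haveI : N.Normal := ⟨fun a ha b => by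
    rw [show b * a = a * b from mem_center_iff.mp (hσ.2.1 (hNk ha)) b, mul_inv_cancel_right]
    exact ha⟩
  let τ : Γ ⧸ N →* Q := QuotientGroup.lift N σ hNk
  have hτs : Function.Surjective τ := fun q => by
    obtain ⟨g, rfl⟩ := hσ.1 q
    exact ⟨QuotientGroup.mk g, rfl⟩
  have hkτ : τ.ker = σ.ker.map (QuotientGroup.mk' N) := by
    ext x
    induction x using QuotientGroup.induction_on with | H x => ?_
    constructor
    · intro hx; exact ⟨x, hx, rfl⟩
    · rintro ⟨y, hy, hyx⟩
      have : τ (QuotientGroup.mk' N y) = 1 := hy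
      rw [hyx] at this
      exact this
  have hc : τ.ker ≤ center (Γ ⧸ N) := by
    rw [hkτ]
    rintro _ ⟨y, hy, rfl⟩
    rw [mem_center_iff]
    intro g
    induction g using QuotientGroup.induction_on with | H g => ?_
    have := mem_center_iff.mp (hσ.2.1 hy) g
    exact congrArg (QuotientGroup.mk' N) this
  have hcm : τ.ker ≤ commutator (Γ ⧸ N) := by
    rw [hkτ, _root_.commutator_def, ← Subgroup.map_top_of_surjective _ (QuotientGroup.mk'_surjective N),
      ← Subgroup.map_commutator]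
    exact Subgroup.map_mono hσ.2.2
  have hcardN : Nat.card N = Nat.card M :=
    (Nat.card_congr (Subgroup.equivMapOfInjective M _ σ.ker.subtype_injective).toEquiv).symm
  have hcardk : Nat.card τ.ker = p := by
    have e1 : Nat.card Q * Nat.card τ.ker = Nat.card (Γ ⧸ N) := by
      rw [← Subgroup.index_mul_card τ.ker]
      congr 1
      rw [Subgroup.index_ker, MonoidHom.range_eq_top.mpr hτs, Subgroup.card_top]
    have e2 : Nat.card Q * Nat.card σ.ker = Nat.card Γ := by
      rw [← Subgroup.index_mul_card σ.ker]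
      congr 1
      rw [Subgroup.index_ker, MonoidHom.range_eq_top.mpr hσ.1, Subgroup.card_top]
    have e3 : Nat.card (Γ ⧸ N) * Nat.card N = Nat.card Γ := (Subgroup.card_eq_card_quotient_mul_card_subgroup N).symm
    have e4 : Nat.card (σ.ker ⧸ M) * Nat.card M = Nat.card σ.ker :=
      (Subgroup.card_eq_card_quotient_mul_card_subgroup M).symm
    have hQ : 0 < Nat.card Q := Nat.card_pos
    have hMp : 0 < Nat.card M := Nat.card_pos
    rw [← e1, ← e2, ← e4, hcard, hcardN] at e3
    have e5 : (Nat.card Q * Nat.card M) * Nat.card τ.ker = (Nat.card Q * Nat.card M) * p := by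
      nlinarith [e3]
    exact Nat.eq_of_mul_eq_mul_left (Nat.mul_pos hQ hMp) e5
  obtain ⟨K, hK, hint⟩ := h p hp (Γ ⧸ N) τ hτs hc hcardk
  refine not_le_comm hp τ.ker hc hcardk (K.comap τ) ?_ hint hcm
  rwa [Subgroup.index_comap_of_surjective _ hτs]

end main

section tools

variable {Q : Type u} [Group Q] {Γ : Type u} [Group Γ] (σ : Γ →* Q)

theorem comap_closure_le (S : Set Q) (T : Set Γ) (h : ∀ s ∈ S, ∃ t ∈ T, σ t = s) :
    (closure S).comap σ ≤ closure T ⊔ σ.ker := by
  have h1 : closure S ≤ (closure T).map σ := by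
    rw [closure_le]
    intro s hs
    obtain ⟨t, ht, rfl⟩ := h s hs
    exact ⟨t, subset_closure ht, rfl⟩
  calc (closure S).comap σ ≤ ((closure T).map σ).comap σ := Subgroup.comap_mono h1
    _ = closure T ⊔ σ.ker := Subgroup.comap_map_eq _ _

/-- if `K ≤ K₀ Z` with `Z` central then `K' ≤ K₀'`. -/
theorem comm_le_of (K K₀ Z : Subgroup Γ) (hZ : Z ≤ center Γ) (h : K ≤ K₀ ⊔ Z) : ⁅K, K⁆ ≤ ⁅K₀, K₀⁆ := by
  haveI : Z.Normal := ⟨fun a ha b => by
    rw [show b * a = a * b from mem_center_iff.mp (hZ ha) b, mul_inv_cancel_right]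
    exact ha⟩
  have hd : ∀ g ∈ K, ∃ a ∈ K₀, ∃ z ∈ Z, g = a * z := by
    intro g hg
    obtain ⟨a, ha, z, hz, rfl⟩ := Subgroup.mem_sup_of_normal_right.mp (h hg)
    exact ⟨a, ha, z, hz, rfl⟩
  rw [Subgroup.commutator_le]
  intro a ha b hb
  obtain ⟨a', ha', z, hz, rfl⟩ := hd a ha
  obtain ⟨b', hb', w, hw, rfl⟩ := hd b hb
  rw [CfsgLib.Schur.comm_of_central (hZ hz) (hZ hw)]
  exact Subgroup.commutator_mem_commutator ha' hb'

theorem good_of_cyclic [Finite Q] (p : ℕ) (K : Subgroup Q) (hK : ¬ p ∣ K.index) (hcyc : IsCyclic K) : Good Q p := by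
  intro Γ _ _ σ hσ hc _
  refine ⟨K, hK, ?_⟩
  intro z hz hzc
  have hab : ∀ a b : K.comap σ, a * b = b * a := by
    let f : K.comap σ →* K := σ.subgroupComap K
    have hf : f.ker ≤ center (K.comap σ) := by
      intro a ha
      rw [mem_center_iff]
      intro b
      have : (a : Γ) ∈ σ.ker := congrArg Subtype.val (show f a = 1 from ha)
      exact Subtype.ext (mem_center_iff.mp (hc this) b)
    intro a b
    haveI := hcyc
    exact commutative_of_cyclic_center_quotient f hf a b
  have : ⁅K.comap σ, K.comap σ⁆ = ⊥ := by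
    rw [eq_bot_iff, Subgroup.commutator_le]
    intro a ha b hb
    rw [Subgroup.mem_bot, commutatorElement_eq_one_iff_mul_comm]
    exact congrArg Subtype.val (hab ⟨a, ha⟩ ⟨b, hb⟩)
  rw [this, Subgroup.mem_bot] at hzc
  exact hzc

theorem good_of_sq [Finite Q] (p : ℕ) (hp : p.Prime) (h : ¬ p ^ 2 ∣ Nat.card Q) : Good Q p := by
  haveI : Fact p.Prime := ⟨hp⟩
  obtain ⟨P⟩ : Nonempty (Sylow p Q) := inferInstance
  refine good_of_cyclic p P.1 P.not_dvd_index ?_
  have h1 : Nat.card P.1 ∣ p := by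
    obtain ⟨k, hk⟩ := IsPGroup.iff_card.mp P.isPGroup'
    rw [hk]
    have : k < 2 := by
      by_contra hcon
      push Not at hcon
      apply h
      exact (pow_dvd_pow p hcon).trans (hk ▸ P.1.card_subgroup_dvd_card)
    calc p ^ k ∣ p ^ 1 := pow_dvd_pow p (by omega)
      _ = p := pow_one p
  rcases (Nat.dvd_prime hp).mp h1 with h2 | h2
  · exact isCyclic_of_card_dvd_prime (p := p) (by rw [h2]; exact one_dvd _)
  · exact isCyclic_of_card_dvd_prime (p := p) (by rw [h2])

end tools

end CfsgLib.Mult15
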