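import Mathlib
import Cfsg.Agent.LibMult15a

/-! Good subgroups for central extensions with kernel of prime order. -/

set_option autoImplicit false
set_option linter.unusedSectionVars false
set_option linter.style.haveILetI false

namespace CfsgLib.Mult15

open Subgroup
open scoped commutatorElement

universe u

section odd

variable {Q : Type u} [Group Q] [Finite Q]

theorem pow_p_of_ker {Γ : Type u} [Group Γ] (σ : Γ →* Q) {p : ℕ} (hcard : Nat.card σ.ker = p) {a : Γ}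
    (ha : a ∈ σ.ker) : a ^ p = 1 := by
  have h8 : (⟨a, ha⟩ : σ.ker) ^ p = 1 := by rw [← hcard]; exact pow_card_eq_one'
  exact congrArg Subtype.val h8

theorem eq_one_of_two {Γ : Type u} [Group Γ] {p : ℕ} (hp : Odd p) {a : Γ} (h1 : a ^ p = 1) (h2 : a = a⁻¹) : a = 1 := by
  obtain ⟨k, rfl⟩ := hp
  have h3 : a ^ 2 = 1 := by rw [pow_two]; nth_rewrite 1 [h2]; exact inv_mul_cancel a
  rw [pow_succ, pow_mul, h3, one_pow, one_mul] at h1
  exact h1

theorem comm_eq_bot_of_closure {Γ : Type u} [Group Γ] (T : Set Γ) (h : ∀ a ∈ T, ∀ b ∈ T, a * b = b * a) :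
    ⁅closure T, closure T⁆ = (⊥ : Subgroup Γ) := by
  rw [Subgroup.commutator_eq_bot_iff_le_centralizer, closure_le]
  intro a ha
  rw [SetLike.mem_coe, mem_centralizer_iff]
  intro b hb
  have h1 : ∀ b ∈ closure T, b * a = a * b := by
    intro b hb
    induction hb using closure_induction with
    | mem x hx => exact h x hx a ha
    | one => rw [one_mul, mul_one]
    | mul x y _ _ hx hy => rw [mul_assoc, hy, ← mul_assoc, hx, mul_assoc]
    | inv x _ hx =>
      rw [inv_mul_eq_iff_eq_mul, ← mul_assoc, hx, mul_assoc, mul_inv_cancel, mul_one]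
  exact h1 b hb

/-- conjugating a commutator of lifts -/
theorem conj_comm_lift {Γ : Type u} [Group Γ] (σ : Γ →* Q) (hc : σ.ker ≤ center Γ) (T X Y X' Y' : Γ)
    (hX : σ (T * X * T⁻¹) = σ X') (hY : σ (T * Y * T⁻¹) = σ Y') : T * ⁅X, Y⁆ * T⁻¹ = ⁅X', Y'⁆ := by
  have h1 : ∀ A B : Γ, σ A = σ B → ∃ z ∈ center Γ, A = B * z := by
    intro A B h
    refine ⟨B⁻¹ * A, hc ?_, by rw [mul_inv_cancel_left]⟩
    rw [MonoidHom.mem_ker, map_mul, map_inv, h, inv_mul_cancel]
  obtain ⟨z, hz, e1⟩ := h1 _ _ hX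
  obtain ⟨w, hw, e2⟩ := h1 _ _ hY
  have h2 : T * ⁅X, Y⁆ * T⁻¹ = ⁅T * X * T⁻¹, T * Y * T⁻¹⁆ := by
    simp only [commutatorElement_def]; group
  rw [h2, e1, e2, CfsgLib.Schur.comm_of_central hz hw]

theorem good_of_reflection {p : ℕ} (hp : Odd p) (x y t : Q) (hxy : x * y = y * x) (hx : t * x * t⁻¹ = x⁻¹)
    (hy : t * y * t⁻¹ = y) (hidx : ¬ p ∣ (closure ({x, y} : Set Q)).index) : Good Q p := by
  intro Γ _ _ σ hσ hc hcard
  refine ⟨closure {x, y}, hidx, ?_⟩
  obtain ⟨X, rfl⟩ := hσ x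
  obtain ⟨Y, rfl⟩ := hσ y
  obtain ⟨T, rfl⟩ := hσ t
  have hk : ⁅X, Y⁆ ∈ σ.ker := by
    rw [MonoidHom.mem_ker, commutatorElement_def]
    simp only [map_mul, map_inv]
    rw [hxy]; group
  have h1 : T * ⁅X, Y⁆ * T⁻¹ = ⁅X⁻¹, Y⁆ :=
    conj_comm_lift σ hc T X Y X⁻¹ Y (by rw [map_mul, map_mul, map_inv, hx, map_inv])
      (by rw [map_mul, map_mul, map_inv, hy])
  have h2 : T * ⁅X, Y⁆ * T⁻¹ = ⁅X, Y⁆ := by
    rw [mem_center_iff.mp (hc hk) T, mul_inv_cancel_right]
  have h3 : ⁅X⁻¹, Y⁆ = ⁅X, Y⁆⁻¹ := by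
    have h4 : X⁻¹ * ⁅X, Y⁆ * X = ⁅X, Y⁆ := by
      rw [mem_center_iff.mp (hc hk) X⁻¹, inv_mul_cancel_right]
    rw [← h4]
    simp only [commutatorElement_def]; group
  have h5 : ⁅X, Y⁆ = 1 := eq_one_of_two hp (pow_p_of_ker σ hcard hk) (by rw [← h3, ← h1, h2])
  rw [commutatorElement_eq_one_iff_mul_comm] at h5
  intro z hz hzc
  have h6 : ⁅(closure {σ X, σ Y}).comap σ, (closure {σ X, σ Y}).comap σ⁆ ≤ (⊥ : Subgroup Γ) := by
    rw [← comm_eq_bot_of_closure ({X, Y} : Set Γ) (by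
      rintro a (rfl | rfl) b (rfl | rfl)
      · rfl
      · exact h5
      · exact h5.symm
      · rfl)]
    apply comm_le_of _ _ σ.ker hc
    apply comap_closure_le
    rintro s (rfl | rfl)
    · exact ⟨X, Or.inl rfl, rfl⟩
    · exact ⟨Y, Or.inr rfl, rfl⟩
  exact h6 hzc

/-- extraspecial group inverted modulo the centre by an element centralising the centre. -/
theorem good_of_heis {p : ℕ} (hp : p.Prime) (hp2 : Odd p) (x y t : Q) (hx3 : x ^ p = 1) (hxz : x * ⁅x, y⁆ = ⁅x, y⁆ * x)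
    (hyz : y * ⁅x, y⁆ = ⁅x, y⁆ * y) (hne : ⁅x, y⁆ ≠ 1)
    (hx : t * x * t⁻¹ = x⁻¹) (hy : t * y * t⁻¹ = y⁻¹)
    (htz : t * ⁅x, y⁆ = ⁅x, y⁆ * t)
    (hidx : ¬ p ∣ (closure ({x, y} : Set Q)).index) : Good Q p := by
  intro Γ _ _ σ hσ hc hcard
  refine ⟨closure {x, y}, hidx, ?_⟩
  obtain ⟨X, rfl⟩ := hσ x
  obtain ⟨Y, rfl⟩ := hσ y
  obtain ⟨T, rfl⟩ := hσ t
  set C : Γ := ⁅X, Y⁆ with hC
  have hσC : σ C = ⁅σ X, σ Y⁆ := map_commutatorElement σ X Y
  rw [← hσC] at hxz hyz hne htz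
  have hTC : σ (T * C * T⁻¹) = σ C := by
    rw [map_mul, map_mul, htz, map_inv, mul_inv_cancel_right]
  have key : ∀ X : Γ, σ X * σ C = σ C * σ X → σ T * σ X * (σ T)⁻¹ = (σ X)⁻¹ → X * C = C * X := by
    intro X hxz hx
    have hk : ⁅X, C⁆ ∈ σ.ker := by
      rw [MonoidHom.mem_ker, commutatorElement_def]
      simp only [map_mul, map_inv]
      rw [hxz]; group
    have h1 : T * ⁅X, C⁆ * T⁻¹ = ⁅X⁻¹, C⁆ :=
      conj_comm_lift σ hc T X C X⁻¹ C (by rw [map_mul, map_mul, map_inv, hx, map_inv]) hTC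
    have h2 : T * ⁅X, C⁆ * T⁻¹ = ⁅X, C⁆ := by
      rw [mem_center_iff.mp (hc hk) T, mul_inv_cancel_right]
    have h3 : ⁅X⁻¹, C⁆ = ⁅X, C⁆⁻¹ := by
      have h4 : X⁻¹ * ⁅X, C⁆ * X = ⁅X, C⁆ := by
        rw [mem_center_iff.mp (hc hk) X⁻¹, inv_mul_cancel_right]
      rw [← h4]
      simp only [commutatorElement_def]; group
    have h5 : ⁅X, C⁆ = 1 := eq_one_of_two hp2 (pow_p_of_ker σ hcard hk) (by rw [← h3, ← h1, h2])
    rwa [commutatorElement_eq_one_iff_mul_comm] at h5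
  have hXC := key X hxz hx
  have hYC := key Y hyz hy
  -- `C ^ p = 1`
  have hXn : ∀ n : ℕ, X ^ n * Y * (X ^ n)⁻¹ = C ^ n * Y := by
    intro n
    induction n with
    | zero => simp
    | succ n ih =>
      have e1 : X * Y * X⁻¹ = C * Y := by rw [hC]; simp only [commutatorElement_def]; group
      have e2 : X * C ^ n = C ^ n * X := (Commute.pow_right (show Commute X C from hXC) n).eq
      calc X ^ (n + 1) * Y * (X ^ (n + 1))⁻¹ = X * (X ^ n * Y * (X ^ n)⁻¹) * X⁻¹ := by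
            rw [pow_succ']; group
        _ = X * (C ^ n * Y) * X⁻¹ := by rw [ih]
        _ = C ^ n * (X * Y * X⁻¹) := by rw [← mul_assoc X, e2]; group
        _ = C ^ (n + 1) * Y := by rw [e1, pow_succ]; group
  have hCp : C ^ p = 1 := by
    have h1 : X ^ p ∈ σ.ker := by rw [MonoidHom.mem_ker, map_pow, hx3]
    have h2 := hXn p
    rw [← mem_center_iff.mp (hc h1) Y, mul_inv_cancel_right] at h2
    exact (mul_eq_right.mp h2.symm)
  have hLC : ∀ g ∈ closure ({X, Y} : Set Γ), g * C = C * g := by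
    intro g hg
    induction hg using closure_induction with
    | mem x hx =>
      rcases hx with rfl | rfl
      · exact hXC
      · exact hYC
    | one => rw [one_mul, mul_one]
    | mul x y _ _ hx hy => rw [mul_assoc, hy, ← mul_assoc, hx, mul_assoc]
    | inv x _ hx =>
      rw [inv_mul_eq_iff_eq_mul, ← mul_assoc, hx, mul_assoc, mul_inv_cancel, mul_one]
  have hcomm : ∀ a : Γ, (∀ b ∈ ({X, Y} : Set Γ), ⁅a, b⁆ ∈ zpowers C) → ∀ g ∈ closure ({X, Y} : Set Γ),
      ⁅a, g⁆ ∈ zpowers C := by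
    intro a ha g hg
    have hpow : ∀ g ∈ closure ({X, Y} : Set Γ), ∀ c ∈ zpowers C, g * c * g⁻¹ = c := by
      rintro g hg _ ⟨k, rfl⟩
      have : Commute g (C ^ k) := (show Commute g C from hLC g hg).zpow_right k
      simp only
      rw [this.eq, mul_inv_cancel_right]
    induction hg using closure_induction with
    | mem x hx => exact ha x hx
    | one => rw [commutatorElement_one_right]; exact one_mem _
    | mul x y hx' _ hx hy =>
      have e : ⁅a, x * y⁆ = ⁅a, x⁆ * (x * ⁅a, y⁆ * x⁻¹) := by simp only [commutatorElement_def]; group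
      rw [e, hpow x hx' _ hy]
      exact mul_mem hx hy
    | inv x hx' hx =>
      have e : ⁅a, x⁻¹⁆ = x⁻¹ * ⁅a, x⁆⁻¹ * x⁻¹⁻¹ := by simp only [commutatorElement_def]; group
      rw [e, hpow _ (inv_mem hx') _ (inv_mem hx)]
      exact inv_mem hx
  have hLL : ⁅closure ({X, Y} : Set Γ), closure ({X, Y} : Set Γ)⁆ ≤ zpowers C := by
    rw [Subgroup.commutator_le]
    intro a ha b hb
    apply hcomm a _ b hb
    intro c hc'
    have h1 : ⁅c, a⁆ ∈ zpowers C := by
      apply hcomm c _ a ha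
      intro d hd
      rcases hc' with rfl | rfl
      · rcases hd with rfl | rfl
        · rw [commutatorElement_self]; exact one_mem _
        · exact mem_zpowers _
      · rcases hd with rfl | rfl
        · rw [← commutatorElement_inv]; exact inv_mem (mem_zpowers _)
        · rw [commutatorElement_self]; exact one_mem _
    rw [← commutatorElement_inv]
    exact inv_mem h1
  intro z hz hzc
  have h6 : z ∈ zpowers C := by
    apply hLL
    refine comm_le_of _ _ σ.ker hc ?_ hzc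
    apply comap_closure_le
    rintro s (rfl | rfl)
    · exact ⟨X, Or.inl rfl, rfl⟩
    · exact ⟨Y, Or.inr rfl, rfl⟩
  obtain ⟨k, rfl⟩ := h6
  simp only at hz ⊢
  have h7 : orderOf (σ C) = p := by
    haveI : Fact p.Prime := ⟨hp⟩
    apply orderOf_eq_prime _ hne
    rw [← map_pow, hCp, map_one]
  rw [MonoidHom.mem_ker, map_zpow, ← orderOf_dvd_iff_zpow_eq_one, h7] at hz
  obtain ⟨m, rfl⟩ := hz
  rw [zpow_mul, zpow_natCast, hCp, one_zpow]

end odd

end CfsgLib.Mult15
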