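import Mathlib
import Cfsg.Agent.LibMult15b

/-! Central extensions by a group of order 2: lifting involutions (seat helper15). -/

set_option autoImplicit false
set_option linter.unusedSectionVars false
set_option linter.style.haveILetI false

namespace CfsgLib.Mult15

open Subgroup
open scoped commutatorElement Pointwise

universe u

section two

variable {Q : Type u} [Group Q] {Γ : Type u} [Group Γ] (σ : Γ →* Q)

/-- all the lifts of `s` have square one -/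
def L1 (s : Q) : Prop := ∀ S : Γ, σ S = s → S * S = 1

variable {σ}

theorem L1_one (hcard : Nat.card σ.ker = 2) : L1 σ (1 : Q) := by
  intro S hS
  have h8 : (⟨S, hS⟩ : σ.ker) ^ 2 = 1 := by rw [← hcard]; exact pow_card_eq_one'
  rw [← pow_two]
  exact congrArg Subtype.val h8

theorem L1_conj (hσ : Function.Surjective σ) {s s' : Q} (g : Q) (h : g * s = s' * g) (hs : L1 σ s) : L1 σ s' := by
  intro S hS
  obtain ⟨G, rfl⟩ := hσ g
  have h1 : σ (G⁻¹ * S * G) = s := by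
    rw [map_mul, map_mul, map_inv, hS, mul_assoc, ← h, inv_mul_cancel_left]
  have h2 := hs _ h1
  have h3 : G⁻¹ * (S * S) * G = 1 := by rw [← h2]; group
  have h4 : S * S = G * (G⁻¹ * (S * S) * G) * G⁻¹ := by group
  rw [h4, h3]; group

theorem comm_of_L1 {a b : Q} (ha : L1 σ a) (hb : L1 σ b) (hab : L1 σ (a * b)) {A B : Γ} (hA : σ A = a) (hB : σ B = b) :
    A * B = B * A := by
  have h1 := ha A hA
  have h2 := hb B hB
  have h3 := hab (A * B) (by rw [map_mul, hA, hB])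
  calc A * B = (A * A)⁻¹ * (A * (A * B * (A * B)) * B) * (B * B)⁻¹ := by rw [h3, h1, h2]; group
    _ = B * A := by group

theorem L1_mul {a b : Q} (hc : σ.ker ≤ center Γ) (hcard : Nat.card σ.ker = 2)
    (ha : L1 σ a) (hb : L1 σ b) (h : ∃ A B : Γ, σ A = a ∧ σ B = b ∧ A * B = B * A) :
    L1 σ (a * b) := by
  intro S hS
  obtain ⟨A, B, hA, hB, e⟩ := h
  have h1 := ha A hA
  have h2 := hb B hB
  have h3 : (A * B)⁻¹ * S ∈ σ.ker := by rw [MonoidHom.mem_ker, map_mul, map_inv, hS, map_mul, hA, hB, inv_mul_cancel]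
  have h4 := L1_one hcard _ h3
  have h5 := mem_center_iff.mp (hc h3) (A * B)
  have h6 : S = A * B * ((A * B)⁻¹ * S) := by group
  have h7 : (A * B) * (A * B) = 1 := by
    calc (A * B) * (A * B) = A * (B * A) * B := by group
      _ = (A * A) * (B * B) := by rw [← e]; group
      _ = 1 := by rw [h1, h2, one_mul]
  calc S * S = A * B * ((A * B)⁻¹ * S) * (A * B * ((A * B)⁻¹ * S)) := by rw [← h6]
    _ = (A * B) * (((A * B)⁻¹ * S) * (A * B)) * ((A * B)⁻¹ * S) := by group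
    _ = (A * B) * (A * B) * (((A * B)⁻¹ * S) * ((A * B)⁻¹ * S)) := by rw [← h5]; group
    _ = 1 := by rw [h7, h4, one_mul]

theorem L1_four (hσ : Function.Surjective σ) (hc : σ.ker ≤ center Γ) (hcard : Nat.card σ.ker = 2)
    (v w u : Q) (hv : v * v = 1)
    (cw : ∃ g, g * v = w * g) (cu : ∃ g, g * v = u * g) (cvw : ∃ g, g * v = v * w * g)
    (cvu : ∃ g, g * v = v * u * g) (cwu : ∃ g, g * v = w * u * g) (cvwu : ∃ g, g * v = v * (w * u) * g) :
    L1 σ v := by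
  obtain ⟨V, rfl⟩ := hσ v
  obtain ⟨W, rfl⟩ := hσ w
  obtain ⟨U, rfl⟩ := hσ u
  set ζ := V * V with hζ
  have hζk : ζ ∈ σ.ker := by rw [MonoidHom.mem_ker, hζ, map_mul, hv]
  have hζ2 : ζ * ζ = 1 := L1_one hcard _ hζk
  have hζc : ∀ g, g * ζ = ζ * g := mem_center_iff.mp (hc hζk)
  have hsq : ∀ S : Γ, (∃ g, g * σ V = σ S * g) → S * S = ζ := by
    rintro S ⟨g, hg⟩
    obtain ⟨G, rfl⟩ := hσ g
    have hk : (G * V * G⁻¹)⁻¹ * S ∈ σ.ker := by
      rw [MonoidHom.mem_ker, map_mul, map_inv, map_mul, map_mul, hg, map_inv]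
      group
    have h4 := L1_one hcard _ hk
    have h5 := mem_center_iff.mp (hc hk) (G * V * G⁻¹)
    have h6 : S = G * V * G⁻¹ * ((G * V * G⁻¹)⁻¹ * S) := by group
    calc S * S = G * V * G⁻¹ * ((G * V * G⁻¹)⁻¹ * S) * (G * V * G⁻¹ * ((G * V * G⁻¹)⁻¹ * S)) := by rw [← h6]
      _ = (G * V * G⁻¹) * (((G * V * G⁻¹)⁻¹ * S) * (G * V * G⁻¹)) * ((G * V * G⁻¹)⁻¹ * S) := by group
      _ = G * (V * V) * G⁻¹ * (((G * V * G⁻¹)⁻¹ * S) * ((G * V * G⁻¹)⁻¹ * S)) := by rw [← h5]; group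
      _ = ζ := by rw [h4, ← hζ, hζc, mul_inv_cancel_right, mul_one]
  have hcm : ∀ a b : Γ, a * a = ζ → b * b = ζ → (a * b) * (a * b) = ζ → a * b = b * a * ζ := by
    intro a b ha hb hab
    have hb' : b⁻¹ = b * ζ := by rw [inv_eq_iff_mul_eq_one, ← mul_assoc, hb, hζ2]
    have ha' : a⁻¹ = a * ζ := by rw [inv_eq_iff_mul_eq_one, ← mul_assoc, ha, hζ2]
    have h1 : b * ζ * (a * ζ) = b * a := by
      rw [mul_assoc, ← mul_assoc ζ, ← hζc a, mul_assoc a, hζ2, mul_one]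
    rw [eq_mul_inv_of_mul_eq hab, mul_inv_rev, hb', ha', h1, hζc]
  have e1 := hcm V W rfl (hsq W cw) (hsq (V * W) (by rw [map_mul]; exact cvw))
  have e2 := hcm V U rfl (hsq U cu) (hsq (V * U) (by rw [map_mul]; exact cvu))
  have e3 := hcm V (W * U) rfl (hsq (W * U) (by rw [map_mul]; exact cwu))
    (hsq (V * (W * U)) (by rw [map_mul, map_mul]; exact cvwu))
  have e4 : V * (W * U) = W * U * V := by
    calc V * (W * U) = (V * W) * U := by group
      _ = W * V * ζ * U := by rw [e1]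
      _ = W * (V * U) * ζ := by rw [mul_assoc (W * V), ← hζc U]; group
      _ = W * (U * V * ζ) * ζ := by rw [e2]
      _ = W * U * V * (ζ * ζ) := by group
      _ = W * U * V := by rw [hζ2, mul_one]
  have h1 : ζ = 1 := by
    rw [e4] at e3
    exact (mul_eq_left.mp e3.symm)
  intro S hS
  rw [hsq S ⟨1, by rw [hS, one_mul, mul_one]⟩, h1]

/-- closures -/
theorem L1_closure (hσ : Function.Surjective σ) (hc : σ.ker ≤ center Γ) (hcard : Nat.card σ.ker = 2)
    (S : Set Q) (h1 : ∀ a ∈ S, L1 σ a) (h2 : ∀ a ∈ S, ∀ b ∈ S, L1 σ (a * b)) : ∀ w ∈ closure S, L1 σ w := by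
  let T : Set Γ := σ ⁻¹' S
  have hT : ∀ a ∈ T, ∀ b ∈ T, a * b = b * a := fun a ha b hb =>
    comm_of_L1 (h1 _ ha) (h1 _ hb) (h2 _ ha _ hb) rfl rfl
  have hbot := comm_eq_bot_of_closure T hT
  rw [Subgroup.commutator_eq_bot_iff_le_centralizer] at hbot
  have hsq : ∀ g ∈ closure T, g * g = 1 := by
    intro g hg
    induction hg using closure_induction with
    | mem x hx => exact h1 _ hx x rfl
    | one => rw [one_mul]
    | mul x y hx' hy' hx hy =>
      have e : x * y = y * x := mem_centralizer_iff.mp (hbot hy') x hx'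
      calc x * y * (x * y) = x * (y * x) * y := by group
        _ = (x * x) * (y * y) := by rw [← e]; group
        _ = 1 := by rw [hx, hy, one_mul]
    | inv x _ hx =>
      rw [← mul_inv_rev, hx, inv_one]
  intro w hw g hg
  have h3 : g ∈ closure T ⊔ σ.ker := by
    apply comap_closure_le σ S T _ (show g ∈ (closure S).comap σ by rw [mem_comap, hg]; exact hw)
    intro s hs
    obtain ⟨t, rfl⟩ := hσ s
    exact ⟨t, hs, rfl⟩
  haveI : (σ.ker).Normal := inferInstance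
  obtain ⟨a, ha, z, hz, rfl⟩ := Subgroup.mem_sup_of_normal_right.mp h3
  have e : a * z = z * a := mem_center_iff.mp (hc hz) a
  calc a * z * (a * z) = a * (z * a) * z := by group
    _ = (a * a) * (z * z) := by rw [← e]; group
    _ = 1 := by rw [hsq a ha, L1_one hcard z hz, one_mul]

/-- The main splitting lemma. -/
theorem split2 (hσ : Function.Surjective σ) (hc : σ.ker ≤ center Γ) (hcard : Nat.card σ.ker = 2)
    (W D : Subgroup Q) (y : Q) (hy3 : y * y * y = 1) (hyW : ∀ w ∈ W, y * w * y⁻¹ ∈ W)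
    (hC : ∀ w ∈ W, y * w = w * y → w = 1) (hDW : ∀ d ∈ D, ∀ w ∈ W, d * w * d⁻¹ ∈ W)
    (hDy : ∀ d ∈ D, d⁻¹ * y * d = y ∨ d⁻¹ * y * d = y⁻¹) (hWD : ∀ g ∈ W, g ∈ D → g = 1)
    (hL : ∀ w ∈ W, L1 σ w) (D' : Subgroup Γ) (hD' : D'.map σ = D) (hD1 : ∀ g ∈ D', σ g = 1 → g = 1) :
    ∀ z ∈ σ.ker, z ∈ ⁅(W ⊔ D).comap σ, (W ⊔ D).comap σ⁆ → z = 1 := by
  obtain ⟨Y, hYy, hY3⟩ : ∃ Y, σ Y = y ∧ Y * Y * Y = 1 := by
    obtain ⟨Y0, hY0⟩ := hσ y
    have hk3 : Y0 * Y0 * Y0 ∈ σ.ker := by rw [MonoidHom.mem_ker, map_mul, map_mul, hY0, hy3]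
    refine ⟨Y0 * (Y0 * Y0 * Y0), by rw [map_mul, hY0, show σ (Y0 * Y0 * Y0) = 1 from hk3, mul_one], ?_⟩
    have e : Y0 * (Y0 * Y0 * Y0) * (Y0 * (Y0 * Y0 * Y0)) * (Y0 * (Y0 * Y0 * Y0)) =
      (Y0 * Y0 * Y0 * (Y0 * Y0 * Y0)) * (Y0 * Y0 * Y0 * (Y0 * Y0 * Y0)) := by group
    rw [e, L1_one hcard _ hk3, one_mul]
  have hcen : ∀ z, σ z = 1 → ∀ g, g * z = z * g := fun z hz => mem_center_iff.mp (hc hz)
  -- commutation in the preimage of `W`
  have hWcomm : ∀ a b : Γ, σ a ∈ W → σ b ∈ W → a * b = b * a := fun a b ha hb =>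
    comm_of_L1 (hL _ ha) (hL _ hb) (hL _ (W.mul_mem ha hb)) rfl rfl
  have hWsq : ∀ a : Γ, σ a ∈ W → a * a = 1 := fun a ha => hL _ ha a rfl
  have hYW : ∀ a : Γ, σ a ∈ W → σ (Y * a * Y⁻¹) ∈ W := by
    intro a ha
    rw [map_mul, map_mul, map_inv, hYy]; exact hyW _ ha
  -- norm
  let N : Γ → Γ := fun a => a * (Y * a * Y⁻¹) * (Y * (Y * a * Y⁻¹) * Y⁻¹)
  have hYYY : ∀ a : Γ, Y * (Y * (Y * a * Y⁻¹) * Y⁻¹) * Y⁻¹ = a := by
    intro a
    have e : Y * (Y * (Y * a * Y⁻¹) * Y⁻¹) * Y⁻¹ = (Y * Y * Y) * a * (Y * Y * Y)⁻¹ := by group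
    rw [e, hY3]; group
  have hNW : ∀ a, σ a ∈ W → σ (N a) = 1 := by
    intro a ha
    have h1 := hYW a ha
    have h2 := hYW _ h1
    have h3 : σ (N a) ∈ W := by
      simp only [N, map_mul σ _ (Y * (Y * a * Y⁻¹) * Y⁻¹), map_mul σ a]
      exact W.mul_mem (W.mul_mem ha h1) h2
    apply hC _ h3
    have h4 : Y * N a * Y⁻¹ = N a := by
      have e : Y * N a * Y⁻¹ = (Y * a * Y⁻¹) * (Y * (Y * a * Y⁻¹) * Y⁻¹) * (Y * (Y * (Y * a * Y⁻¹) * Y⁻¹) * Y⁻¹) := by
        simp only [N]; group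
      rw [e, hYYY, hWcomm _ a (by rw [map_mul σ (Y * a * Y⁻¹)]; exact W.mul_mem h1 h2) ha, ← mul_assoc]
    have h5 := congrArg σ h4
    rw [map_mul, map_mul, map_inv, hYy, mul_inv_eq_iff_eq_mul] at h5
    exact h5
  have hNmul : ∀ a b, σ a ∈ W → σ b ∈ W → N (a * b) = N a * N b := by
    intro a b ha hb
    have ha1 := hYW a ha
    have ha2 := hYW _ ha1
    have hb1 := hYW b hb
    have hb2 := hYW _ hb1
    have e : N (a * b) = a * (b * (Y * a * Y⁻¹)) * (Y * b * Y⁻¹) * (Y * (Y * a * Y⁻¹) * Y⁻¹) *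
        (Y * (Y * b * Y⁻¹) * Y⁻¹) := by simp only [N]; group
    rw [e, hWcomm b _ hb ha1]
    have e2 : a * ((Y * a * Y⁻¹) * b) * (Y * b * Y⁻¹) * (Y * (Y * a * Y⁻¹) * Y⁻¹) * (Y * (Y * b * Y⁻¹) * Y⁻¹) =
        a * (Y * a * Y⁻¹) * ((b * (Y * b * Y⁻¹)) * (Y * (Y * a * Y⁻¹) * Y⁻¹)) * (Y * (Y * b * Y⁻¹) * Y⁻¹) := by group
    rw [e2, hWcomm (b * (Y * b * Y⁻¹)) _ (by rw [map_mul]; exact W.mul_mem hb hb1) ha2]
    simp only [N]; group
  let V : Subgroup Γ :=
    { carrier := {a | σ a ∈ W ∧ N a = 1}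
      one_mem' := ⟨by rw [map_one]; exact W.one_mem, by simp only [N]; group⟩
      mul_mem' := by
        rintro a b ⟨ha, ha'⟩ ⟨hb, hb'⟩
        exact ⟨by rw [map_mul]; exact W.mul_mem ha hb, by rw [hNmul a b ha hb, ha', hb', one_mul]⟩
      inv_mem' := by
        rintro a ⟨ha, ha'⟩
        have : a⁻¹ = a := by rw [inv_eq_iff_mul_eq_one]; exact hWsq a ha
        rw [this]; exact ⟨ha, ha'⟩ }
  have hVk : ∀ a ∈ V, σ a = 1 → a = 1 := by
    rintro a ⟨_, ha⟩ h1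
    have e1 : Y * a * Y⁻¹ = a := by rw [hcen a h1 Y, mul_inv_cancel_right]
    simp only [N, e1] at ha
    rw [L1_one hcard a h1, one_mul] at ha
    exact ha
  -- `D'` normalises `V`
  have hDV : ∀ d ∈ D', ∀ a ∈ V, d * a * d⁻¹ ∈ V := by
    rintro d hd a ⟨ha, ha'⟩
    have hσd : σ d ∈ D := by rw [← hD']; exact ⟨d, hd, rfl⟩
    refine ⟨by rw [map_mul, map_mul, map_inv]; exact hDW _ hσd _ ha, ?_⟩
    have ha1 := hYW a ha
    have ha2 := hYW _ ha1
    rcases hDy _ hσd with h | h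
    · have hk : σ (Y⁻¹ * (d⁻¹ * Y * d)) = 1 := by
        rw [map_mul, map_inv, map_mul, map_mul, map_inv, hYy, h, inv_mul_cancel]
      set z := Y⁻¹ * (d⁻¹ * Y * d) with hz
      have e1 : Y * d = d * Y * z := by rw [hz]; group
      have e2 : ∀ b, Y * (d * b * d⁻¹) * Y⁻¹ = d * (Y * b * Y⁻¹) * d⁻¹ := by
        intro b
        have : Y * (d * b * d⁻¹) * Y⁻¹ = (Y * d) * b * (Y * d)⁻¹ := by group
        rw [this, e1]
        have : d * Y * z * b * (d * Y * z)⁻¹ = d * Y * (z * b) * z⁻¹ * Y⁻¹ * d⁻¹ := by group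
        rw [this, ← hcen z hk b]; group
      have : N (d * a * d⁻¹) = d * N a * d⁻¹ := by
        simp only [N]
        rw [e2, e2]; group
      rw [this, ha']; group
    · have hk : σ (Y * (d⁻¹ * Y * d)) = 1 := by
        rw [map_mul, map_mul, map_mul, map_inv, hYy, h, mul_inv_cancel]
      set z := Y * (d⁻¹ * Y * d) with hz
      have e1 : Y * d = d * Y⁻¹ * z := by rw [hz]; group
      have e2 : ∀ b, Y * (d * b * d⁻¹) * Y⁻¹ = d * (Y⁻¹ * b * Y) * d⁻¹ := by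
        intro b
        have : Y * (d * b * d⁻¹) * Y⁻¹ = (Y * d) * b * (Y * d)⁻¹ := by group
        rw [this, e1]
        have : d * Y⁻¹ * z * b * (d * Y⁻¹ * z)⁻¹ = d * Y⁻¹ * (z * b) * z⁻¹ * Y * d⁻¹ := by group
        rw [this, ← hcen z hk b]; group
      have e3 : ∀ b, Y⁻¹ * b * Y = Y * (Y * b * Y⁻¹) * Y⁻¹ := by
        intro b
        have h9 : Y⁻¹ = Y * Y := by rw [inv_eq_iff_mul_eq_one, ← mul_assoc]; exact hY3
        calc Y⁻¹ * b * Y = Y⁻¹ * b * Y⁻¹⁻¹ := by rw [inv_inv]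
          _ = Y * Y * b * (Y * Y)⁻¹ := by rw [h9]
          _ = _ := by group
      have : N (d * a * d⁻¹) = d * (a * (Y * (Y * a * Y⁻¹) * Y⁻¹) * (Y * a * Y⁻¹)) * d⁻¹ := by
        simp only [N]
        rw [e2, e2, e3, e3]
        have e4 := hYYY a
        have e5 : Y * (Y * (Y * (Y * a * Y⁻¹) * Y⁻¹) * Y⁻¹) * Y⁻¹ = Y * a * Y⁻¹ := by
          rw [e4]
        rw [e5]; group
      rw [this, mul_assoc a, hWcomm _ _ ha2 ha1, ← mul_assoc a]
      change d * N a * d⁻¹ = 1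
      rw [ha']; group
  -- the group `V D'`
  have hDn : D' ≤ normalizer (V : Set Γ) := by
    intro d hd
    rw [mem_normalizer_iff]
    intro a
    constructor
    · exact fun ha => hDV d hd a ha
    · intro ha
      have := hDV d⁻¹ (inv_mem hd) _ ha
      have e : d⁻¹ * (d * a * d⁻¹) * d⁻¹⁻¹ = a := by group
      rwa [e] at this
  have hsup : ∀ g ∈ V ⊔ D', ∃ a ∈ V, ∃ d ∈ D', g = a * d := by
    intro g hg
    have h1 := Subgroup.coe_mul_of_right_le_normalizer_left V D' hDn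
    have h2 : g ∈ ((V : Set Γ) * (D' : Set Γ)) := by rw [← h1]; exact hg
    obtain ⟨a, ha, d, hd, rfl⟩ := h2
    exact ⟨a, ha, d, hd, rfl⟩
  have hinj : ∀ g ∈ V ⊔ D', σ g = 1 → g = 1 := by
    intro g hg h1
    obtain ⟨a, ha, d, hd, rfl⟩ := hsup g hg
    rw [map_mul] at h1
    have h2 : σ a ∈ D := by
      rw [mul_eq_one_iff_eq_inv.mp h1, ← hD']
      exact inv_mem ⟨d, hd, rfl⟩
    have h3 := hWD _ ha.1 h2
    rw [h3, one_mul] at h1
    rw [hVk a ha h3, hD1 d hd h1, one_mul]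
  have hcover : (W ⊔ D).comap σ ≤ (V ⊔ D') ⊔ σ.ker := by
    rw [← Subgroup.comap_map_eq]
    apply Subgroup.comap_mono
    rw [Subgroup.map_sup, hD']
    apply sup_le_sup_right
    intro w hw
    obtain ⟨a, rfl⟩ := hσ w
    -- adjust by the norm
    have h1 := hNW a hw
    refine ⟨a * N a, ⟨by rw [map_mul, h1, mul_one]; exact hw, ?_⟩, by rw [map_mul, h1, mul_one]⟩
    rw [hNmul a _ hw (by rw [h1]; exact W.one_mem)]
    have e1 : Y * N a * Y⁻¹ = N a := by rw [hcen _ h1 Y, mul_inv_cancel_right]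
    have e2 : N (N a) = N a := by
      change N a * (Y * N a * Y⁻¹) * (Y * (Y * N a * Y⁻¹) * Y⁻¹) = N a
      rw [e1, e1, L1_one hcard _ h1, one_mul]
    rw [e2]
    exact L1_one hcard _ h1
  intro z hz hzc
  apply hinj z _ hz
  have h1 := comm_le_of _ _ σ.ker hc hcover hzc
  exact (Subgroup.commutator_le.mpr (fun a ha b hb => by
    rw [commutatorElement_def]
    exact mul_mem (mul_mem (mul_mem ha hb) (inv_mem ha)) (inv_mem hb))) h1

/-- lifting a group `D₈ × 2`. -/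
theorem lift_D (hσ : Function.Surjective σ) (hcard : Nat.card σ.ker = 2)
    (a b e : Q) (ha : L1 σ a) (hb : L1 σ b) (he : L1 σ e) (hab : L1 σ (a * b * (a * b))) (hae : L1 σ (a * e))
    (hbe : L1 σ (b * e))
    (hinj : ∀ i < 4, ∀ j < 2, ∀ k < 2, (a * b) ^ i * a ^ j * e ^ k = 1 → i = 0 ∧ j = 0 ∧ (k = 0 ∨ e = 1)) :
    ∃ D' : Subgroup Γ, D'.map σ = closure {a, b, e} ∧ ∀ g ∈ D', σ g = 1 → g = 1 := by
  obtain ⟨A, hA⟩ := hσ a
  obtain ⟨B, hB⟩ := hσ b
  obtain ⟨E, hE, hE1⟩ : ∃ E, σ E = e ∧ (e = 1 → E = 1) := by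
    by_cases h : e = 1
    · exact ⟨1, by rw [map_one, h], fun _ => rfl⟩
    · obtain ⟨E, hE⟩ := hσ e
      exact ⟨E, hE, fun h' => absurd h' h⟩
  have hAA := ha A hA
  have hBB := hb B hB
  have hEE := he E hE
  have hAE : A * E = E * A := comm_of_L1 ha he hae hA hE
  have hBE : B * E = E * B := comm_of_L1 hb he hbe hB hE
  obtain ⟨R, hR⟩ : ∃ R, R = A * B := ⟨_, rfl⟩
  have hR4 : R ^ 4 = 1 := by
    have := hab (A * B * (A * B)) (by rw [map_mul, map_mul, hA, hB])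
    rw [← hR] at this
    rw [show (4 : ℕ) = 2 * 2 by norm_num, pow_mul, pow_two, pow_two, this]
  have hRE : R * E = E * R := by rw [hR, mul_assoc, hBE, ← mul_assoc, hAE, mul_assoc]
  have hAi : A⁻¹ = A := by rw [inv_eq_iff_mul_eq_one]; exact hAA
  have hBi : B⁻¹ = B := by rw [inv_eq_iff_mul_eq_one]; exact hBB
  have hAR : ∀ m : ℕ, A * R ^ m = R ^ (3 * m) * A := by
    intro m
    induction m with
    | zero => simp
    | succ m ih =>
      have h1 : A * R = R ^ 3 * A := by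
        have h2 : R ^ 3 = R⁻¹ := by rw [eq_inv_iff_mul_eq_one, ← pow_succ, hR4]
        rw [h2, hR, mul_inv_rev, hAi, hBi, ← mul_assoc, hAA, one_mul, mul_assoc, hAA, mul_one]
      rw [pow_succ, ← mul_assoc, ih, mul_assoc, h1, ← mul_assoc, ← pow_add]
      congr 2
  have hAjR : ∀ j m : ℕ, A ^ j * R ^ m = R ^ (3 ^ j * m) * A ^ j := by
    intro j
    induction j with
    | zero => intro m; simp
    | succ j ih =>
      intro m
      rw [pow_succ, mul_assoc, hAR, ← mul_assoc, ih, mul_assoc, ← pow_succ]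
      congr 2
      ring
  have hBR : B = R ^ 3 * A := by
    rw [show (3 : ℕ) = 3 * 1 by norm_num, ← hAR 1, pow_one, hR, ← mul_assoc, hAA, one_mul]
  have hform : ∀ g ∈ closure ({A, B, E} : Set Γ), ∃ i j k : ℕ, g = R ^ i * A ^ j * E ^ k := by
    intro g hg
    have hAEk : ∀ k : ℕ, E ^ k * A = A * E ^ k := fun k => ((show Commute E A from hAE.symm).pow_left k).eq
    have hBEk : ∀ k : ℕ, E ^ k * B = B * E ^ k := fun k => ((show Commute E B from hBE.symm).pow_left k).eq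
    have step : ∀ i j k : ℕ, ∀ s ∈ ({A, B, E} : Set Γ), ∃ i' j' k' : ℕ,
        R ^ i * A ^ j * E ^ k * s = R ^ i' * A ^ j' * E ^ k' := by
      intro i j k s hs
      rcases hs with h | h | h
      · refine ⟨i, j + 1, k, ?_⟩
        rw [h, mul_assoc, hAEk, pow_succ]; group
      · refine ⟨i + 3 ^ j * 3, j + 1, k, ?_⟩
        rw [h, mul_assoc, hBEk]
        calc R ^ i * A ^ j * (B * E ^ k) = R ^ i * A ^ j * (R ^ 3 * A * E ^ k) := by rw [← hBR]
          _ = R ^ i * (A ^ j * R ^ 3) * A * E ^ k := by group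
          _ = R ^ (i + 3 ^ j * 3) * A ^ (j + 1) * E ^ k := by
            rw [hAjR, pow_add, pow_succ]; simp only [mul_assoc]
      · refine ⟨i, j, k + 1, ?_⟩
        rw [h, pow_succ]; group
    induction hg using closure_induction_right with
    | one => exact ⟨0, 0, 0, by simp⟩
    | mul_right x hx y hy ih =>
      obtain ⟨i, j, k, rfl⟩ := ih
      exact step i j k y hy
    | mul_inv_cancel x hx y hy ih =>
      obtain ⟨i, j, k, rfl⟩ := ih
      have : y⁻¹ = y := by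
        rcases hy with rfl | rfl | rfl
        · exact hAi
        · exact hBi
        · rw [inv_eq_iff_mul_eq_one]; exact hEE
      rw [this]
      exact step i j k y hy
  refine ⟨closure {A, B, E}, ?_, ?_⟩
  · rw [MonoidHom.map_closure, Set.image_insert_eq, Set.image_pair, hA, hB, hE]
  · intro g hg h1
    obtain ⟨i, j, k, rfl⟩ := hform g hg
    have hA2 : A ^ 2 = 1 := by rw [pow_two]; exact hAA
    have hE2 : E ^ 2 = 1 := by rw [pow_two]; exact hEE
    have e1 : R ^ i = R ^ (i % 4) := by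
      conv_lhs => rw [← Nat.div_add_mod i 4, pow_add, pow_mul, hR4, one_pow, one_mul]
    have e2 : A ^ j = A ^ (j % 2) := by
      conv_lhs => rw [← Nat.div_add_mod j 2, pow_add, pow_mul, hA2, one_pow, one_mul]
    have e3 : E ^ k = E ^ (k % 2) := by
      conv_lhs => rw [← Nat.div_add_mod k 2, pow_add, pow_mul, hE2, one_pow, one_mul]
    rw [e1, e2, e3] at h1 ⊢
    rw [map_mul, map_mul, map_pow, map_pow, map_pow, hR, map_mul, hA, hB, hE] at h1
    obtain ⟨h2, h3, h4⟩ := hinj _ (Nat.mod_lt _ (by norm_num)) _ (Nat.mod_lt _ (by norm_num)) _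
      (Nat.mod_lt _ (by norm_num)) h1
    rw [h2, h3]
    rcases h4 with h4 | h4
    · rw [h4]; simp
    · rw [hE1 h4]; simp

end two

end CfsgLib.Mult15
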