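import Cfsg.Agent.LibMult15c
import Cfsg.Agent.LibOutM2

/-! Multipliers of subgroups of `M24`: reading permutations (seat helper15). -/

set_option autoImplicit false
set_option linter.unusedSectionVars false
set_option linter.style.haveILetI false

namespace CfsgLib.Mult15

open Cfsg CfsgLib.Golay CfsgLib.M24 CfsgLib.OutM Subgroup
open scoped commutatorElement Pointwise

/-- `g` is given by the list `L` -/
def Rd (g : Equiv.Perm GolayPt) (L : List ℕ) : Prop :=
  L.length = 24 ∧ ∀ i < 24, L.getD i 0 < 24 ∧ g (pt i) = pt (L.getD i 0)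

theorem Rd_mk {P : List ℕ} (h : valid P = true) : Rd (mkPerm P) P :=
  ⟨(valid_spec h).1, fun i hi => ⟨getD_lt h hi, pt_mk h hi⟩⟩

theorem Rd_inj {g h : Equiv.Perm GolayPt} {P : List ℕ} (hg : Rd g P) (hh : Rd h P) : g = h :=
  perm_ext fun i hi => by rw [(hg.2 i hi).2, (hh.2 i hi).2]

theorem Rd_unique {g : Equiv.Perm GolayPt} {P Q : List ℕ} (hg : Rd g P) (hh : Rd g Q) : P = Q := by
  apply List.ext_getElem (by rw [hg.1, hh.1])
  intro i hi hi'
  have h24 : i < 24 := by rw [← hg.1]; exact hi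
  have h1 := hg.2 i h24
  have h2 := hh.2 i h24
  rw [← List.getD_eq_getElem P 0 hi, ← List.getD_eq_getElem Q 0 hi']
  apply pt_inj h1.1 h2.1
  rw [← h1.2, ← h2.2]

theorem Rd_mul {g h : Equiv.Perm GolayPt} {P Q : List ℕ} (hg : Rd g P) (hh : Rd h Q) : Rd (g * h) (cl P Q) := by
  have hl : (cl P Q).length = 24 := by unfold cl; rw [List.length_map, hh.1]
  refine ⟨hl, fun i hi => ?_⟩
  have e : (cl P Q).getD i 0 = P.getD (Q.getD i 0) 0 := by
    rw [List.getD_eq_getElem _ _ (by rw [hl]; exact hi)]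
    unfold cl
    rw [List.getElem_map, List.getD_eq_getElem Q 0 (by rw [hh.1]; exact hi)]
  rw [e]
  have h1 := hh.2 i hi
  have h2 := hg.2 _ h1.1
  exact ⟨h2.1, by rw [Equiv.Perm.mul_apply, h1.2, h2.2]⟩

theorem Rd_one : Rd 1 il := by
  rw [← mk_il]; exact Rd_mk valid_il

variable {H : Subgroup (Equiv.Perm GolayPt)}

theorem sub_ext {g h : ↥H} {P : List ℕ} (hg : Rd (g : Equiv.Perm GolayPt) P) (hh : Rd (h : Equiv.Perm GolayPt) P) : g = h :=
  Subtype.ext (Rd_inj hg hh)

theorem sub_mul {g h : ↥H} {P Q : List ℕ} (hg : Rd (g : Equiv.Perm GolayPt) P) (hh : Rd (h : Equiv.Perm GolayPt) Q) :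
    Rd ((g * h : ↥H) : Equiv.Perm GolayPt) (cl P Q) := Rd_mul hg hh

theorem sub_one : Rd ((1 : ↥H) : Equiv.Perm GolayPt) il := Rd_one

section L1L

variable {Γ : Type} [Group Γ] (σ : Γ →* ↥H)

/-- reading version of `L1` -/
def L1L (P : List ℕ) : Prop := ∀ g : ↥H, Rd (g : Equiv.Perm GolayPt) P → L1 σ g

variable {σ}

theorem L1L_conj (hσ : Function.Surjective σ) {V S G : List ℕ} {v γ : ↥H} (hv : Rd (v : Equiv.Perm GolayPt) V)
    (hγ : Rd (γ : Equiv.Perm GolayPt) G)
    (h : cl G V = cl S G) (hL : L1L σ V) : L1L σ S := by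
  intro g hg
  apply L1_conj hσ γ _ (hL v hv)
  apply sub_ext (sub_mul hγ hv)
  rw [h]
  exact sub_mul hg hγ

end L1L

/-- products of sublists -/
def spanL : List (List ℕ) → List (List ℕ)
  | [] => [il]
  | s :: ss => spanL ss ++ (spanL ss).map (cl s)

theorem spanL_mem {gens : List (List ℕ)} (S : Subgroup ↥H)
    (hS : ∀ P ∈ gens, ∃ g ∈ S, Rd (g : Equiv.Perm GolayPt) P) :
    ∀ P ∈ spanL gens, ∃ g ∈ S, Rd (g : Equiv.Perm GolayPt) P := by
  induction gens with
  | nil =>
    intro P hP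
    rw [spanL, List.mem_singleton] at hP
    exact ⟨1, S.one_mem, by rw [hP]; exact sub_one⟩
  | cons s ss ih =>
    intro P hP
    rw [spanL, List.mem_append, List.mem_map] at hP
    have ih' := ih (fun P hP => hS P (List.mem_cons_of_mem _ hP))
    rcases hP with hP | ⟨Q, hQ, rfl⟩
    · exact ih' P hP
    · obtain ⟨g, hg, hgQ⟩ := ih' Q hQ
      obtain ⟨k, hk, hks⟩ := hS s List.mem_cons_self
      exact ⟨k * g, S.mul_mem hk hg, sub_mul hks hgQ⟩

/-- the set of the elements read by a list -/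
def setL (H : Subgroup (Equiv.Perm GolayPt)) (L : List (List ℕ)) : Set ↥H :=
  {g | ∃ P ∈ L, Rd (g : Equiv.Perm GolayPt) P}

/-- `L` is closed under right multiplication by the elements of `gens` -/
def clos (L gens : List (List ℕ)) : Bool :=
  and (L.contains il) (L.all fun P => gens.all fun s => L.contains (cl P s))

theorem clos_spec {L gens : List (List ℕ)} (h : clos L gens = true) : ∀ g ∈ closure (setL H gens),
    ∃ P ∈ L, Rd (g : Equiv.Perm GolayPt) P := by
  rw [clos, Bool.and_eq_true, List.contains_iff_mem, List.all_eq_true] at h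
  obtain ⟨h1, h3⟩ := h
  have step : ∀ x : ↥H, (∃ P ∈ L, Rd (x : Equiv.Perm GolayPt) P) → ∀ y ∈ setL H gens,
      ∃ P ∈ L, Rd ((x * y : ↥H) : Equiv.Perm GolayPt) P := by
    rintro x ⟨P, hP, hxP⟩ y ⟨s, hs, hys⟩
    have := h3 P hP
    rw [List.all_eq_true] at this
    have := this s hs
    rw [List.contains_iff_mem] at this
    exact ⟨_, this, sub_mul hxP hys⟩
  have steps : ∀ x : ↥H, (∃ P ∈ L, Rd (x : Equiv.Perm GolayPt) P) → ∀ y ∈ setL H gens, ∀ n : ℕ,
      ∃ P ∈ L, Rd ((x * y ^ n : ↥H) : Equiv.Perm GolayPt) P := by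
    intro x hx y hy n
    induction n with
    | zero => rw [pow_zero, mul_one]; exact hx
    | succ n ih => rw [pow_succ, ← mul_assoc]; exact step _ ih y hy
  intro g hg
  induction hg using closure_induction_right with
  | one => exact ⟨il, h1, sub_one⟩
  | mul_right x hx y hy ih => exact step x ih y hy
  | mul_inv_cancel x hx y hy ih =>
    have hyi : y⁻¹ = y ^ (orderOf y - 1) := by
      rw [inv_eq_iff_mul_eq_one, ← pow_succ', Nat.sub_add_cancel (orderOf_pos y), pow_orderOf_eq_one]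
    rw [hyi]
    exact steps x ih y hy _

theorem card_ge (S : Subgroup ↥H) (L : List (List ℕ)) (hn : L.Nodup)
    (h : ∀ P ∈ L, ∃ g ∈ S, Rd (g : Equiv.Perm GolayPt) P)
    (h2 : ∀ g ∈ S, ∃ P ∈ L, Rd (g : Equiv.Perm GolayPt) P) : Nat.card S = L.length := by
  classical
  choose f hf hfr using fun P : {P // P ∈ L} => h P.1 P.2
  have hb : Function.Bijective (fun P : {P // P ∈ L} => (⟨f P, hf P⟩ : S)) := by
    constructor
    · intro P Q e
      have e2 : f P = f Q := congrArg Subtype.val e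
      apply Subtype.ext
      apply Rd_unique (hfr P)
      rw [e2]; exact hfr Q
    · rintro ⟨g, hg⟩
      obtain ⟨P, hP, hgP⟩ := h2 g hg
      exact ⟨⟨P, hP⟩, Subtype.ext (sub_ext (hfr ⟨P, hP⟩) hgP)⟩
  rw [← Nat.card_congr (Equiv.ofBijective _ hb)]
  rw [Nat.card_eq_fintype_card, Fintype.card_of_subtype L.toFinset (by intro x; simp)]
  exact List.toFinset_card_of_nodup hn

/-- products of two lists -/
def prodL (A B : List (List ℕ)) : List (List ℕ) := A.flatMap fun a => B.map (cl a)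

/-- the lists read elements of `S` -/
def MemL (S : Subgroup ↥H) (L : List (List ℕ)) : Prop := ∀ P ∈ L, ∃ g ∈ S, Rd (g : Equiv.Perm GolayPt) P

theorem MemL_prod {S : Subgroup ↥H} {A B : List (List ℕ)} (hA : MemL S A) (hB : MemL S B) : MemL S (prodL A B) := by
  intro P hP
  rw [prodL, List.mem_flatMap] at hP
  obtain ⟨a, ha, hP⟩ := hP
  rw [List.mem_map] at hP
  obtain ⟨b, hb, rfl⟩ := hP
  obtain ⟨g, hg, hga⟩ := hA a ha
  obtain ⟨k, hk, hkb⟩ := hB b hb
  exact ⟨g * k, S.mul_mem hg hk, sub_mul hga hkb⟩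

theorem MemL_pows {S : Subgroup ↥H} {P : List ℕ} {g : ↥H} (hg : g ∈ S) (h : Rd (g : Equiv.Perm GolayPt) P) :
    MemL S [il, P, cl P P] := by
  intro Q hQ
  rcases List.mem_cons.mp hQ with rfl | hQ
  · exact ⟨1, S.one_mem, sub_one⟩
  rcases List.mem_cons.mp hQ with rfl | hQ
  · exact ⟨g, hg, h⟩
  rcases List.mem_cons.mp hQ with rfl | hQ
  · exact ⟨g * g, S.mul_mem hg hg, sub_mul h h⟩
  · exact absurd hQ (by simp)

theorem index_of_card (S : Subgroup ↥H) (p n : ℕ) (hn : Nat.card S = n) (h : ¬ p * n ∣ Nat.card H) : ¬ p ∣ S.index := by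
  rintro ⟨k, hk⟩
  apply h
  rw [← S.index_mul_card, hk, hn]
  exact ⟨k, by ring⟩

theorem sub_eq {g h : ↥H} {P Q : List ℕ} (hg : Rd (g : Equiv.Perm GolayPt) P) (hh : Rd (h : Equiv.Perm GolayPt) Q)
    (e : P = Q) : g = h := sub_ext hg (by rw [e]; exact hh)

/-- data for the extraspecial case -/
def heisOK (X Y T : List ℕ) : Bool :=
  let c := cl (cl X Y) (cl (cl X X) (cl Y Y))
  let L := prodL [il, X, cl X X] (prodL [il, Y, cl Y Y] [il, c, cl c c])
  and (cl X (cl X X) == il) (and (cl Y (cl Y Y) == il) (and (cl X c == cl c X) (and (cl Y c == cl c Y)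
    (and (!(c == il)) (and (cl T X == cl (cl X X) T) (and (cl T Y == cl (cl Y Y) T) (and (cl T c == cl c T)
      (and (clos L [X, Y]) (decide L.Nodup)))))))))

theorem goodHeis (X Y T : List ℕ) {x y t : ↥H} (hx : Rd (x : Equiv.Perm GolayPt) X)
    (hy : Rd (y : Equiv.Perm GolayPt) Y) (ht : Rd (t : Equiv.Perm GolayPt) T)
    (h : heisOK X Y T = true) (hcard : ¬ 3 * 27 ∣ Nat.card H) : Good ↥H 3 := by
  rw [heisOK] at h
  simp only [Bool.and_eq_true, beq_iff_eq, decide_eq_true_eq, Bool.not_eq_true', beq_eq_false_iff_ne] at h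
  obtain ⟨h1, h2, h3, h4, h5, h6, h7, h8, h9, h10⟩ := h
  set c := cl (cl X Y) (cl (cl X X) (cl Y Y)) with hc
  have hxx := sub_mul hx hx
  have hyy := sub_mul hy hy
  have hx3 : x * (x * x) = 1 := sub_eq (sub_mul hx hxx) sub_one h1
  have hy3 : y * (y * y) = 1 := sub_eq (sub_mul hy hyy) sub_one h2
  have hxi : x⁻¹ = x * x := by rw [inv_eq_iff_mul_eq_one]; exact hx3
  have hyi : y⁻¹ = y * y := by rw [inv_eq_iff_mul_eq_one]; exact hy3
  have hcc : Rd ((⁅x, y⁆ : ↥H) : Equiv.Perm GolayPt) c := by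
    rw [commutatorElement_def, hxi, hyi, mul_assoc (x * y)]
    exact sub_mul (sub_mul hx hy) (sub_mul hxx hyy)
  have hclo : closure (setL H [X, Y]) = closure ({x, y} : Set ↥H) := by
    congr 1
    ext g
    constructor
    · rintro ⟨P, hP, hg⟩
      rcases List.mem_cons.mp hP with rfl | hP
      · exact Or.inl (sub_ext hg hx)
      · rw [List.mem_singleton] at hP
        rw [hP] at hg
        exact Or.inr (sub_ext hg hy)
    · rintro (rfl | rfl)
      · exact ⟨X, by simp, hx⟩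
      · exact ⟨Y, by simp, hy⟩
  have hxm : x ∈ closure ({x, y} : Set ↥H) := subset_closure (Or.inl rfl)
  have hym : y ∈ closure ({x, y} : Set ↥H) := subset_closure (Or.inr rfl)
  have hcm : ⁅x, y⁆ ∈ closure ({x, y} : Set ↥H) := by
    rw [commutatorElement_def]
    exact mul_mem (mul_mem (mul_mem hxm hym) (inv_mem hxm)) (inv_mem hym)
  refine good_of_heis Nat.prime_three (by decide) x y t ?_ ?_ ?_ ?_ ?_ ?_ ?_ ?_
  · rw [show (3 : ℕ) = 1 + 2 by norm_num, pow_add, pow_one, pow_two]; exact hx3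
  · exact sub_eq (sub_mul hx hcc) (sub_mul hcc hx) h3
  · exact sub_eq (sub_mul hy hcc) (sub_mul hcc hy) h4
  · intro e
    apply h5
    apply Rd_unique hcc
    rw [e]; exact sub_one
  · rw [mul_inv_eq_iff_eq_mul, hxi]
    exact sub_eq (sub_mul ht hx) (sub_mul hxx ht) h6
  · rw [mul_inv_eq_iff_eq_mul, hyi]
    exact sub_eq (sub_mul ht hy) (sub_mul hyy ht) h7
  · exact sub_eq (sub_mul ht hcc) (sub_mul hcc ht) h8
  · apply index_of_card _ 3 27 _ hcard
    rw [card_ge (closure ({x, y} : Set ↥H)) _ h10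
      (MemL_prod (MemL_pows hxm hx) (MemL_prod (MemL_pows hym hy) (MemL_pows hcm hcc)))
      (by rw [← hclo]; exact clos_spec h9)]
    rfl

/-- data for the reflection case -/
def reflOK (X Y T : List ℕ) : Bool :=
  let L := prodL [il, X, cl X X] [il, Y, cl Y Y]
  and (cl X (cl X X) == il) (and (cl Y (cl Y Y) == il) (and (cl X Y == cl Y X)
    (and (cl T X == cl (cl X X) T) (and (cl T Y == cl Y T)
      (and (clos L [X, Y]) (decide L.Nodup))))))

theorem goodRefl (X Y T : List ℕ) {x y t : ↥H} (hx : Rd (x : Equiv.Perm GolayPt) X)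
    (hy : Rd (y : Equiv.Perm GolayPt) Y) (ht : Rd (t : Equiv.Perm GolayPt) T)
    (h : reflOK X Y T = true) (hcard : ¬ 3 * 9 ∣ Nat.card H) : Good ↥H 3 := by
  rw [reflOK] at h
  simp only [Bool.and_eq_true, beq_iff_eq, decide_eq_true_eq] at h
  obtain ⟨h1, h2, h3, h6, h7, h9, h10⟩ := h
  have hxx := sub_mul hx hx
  have hyy := sub_mul hy hy
  have hx3 : x * (x * x) = 1 := sub_eq (sub_mul hx hxx) sub_one h1
  have hxi : x⁻¹ = x * x := by rw [inv_eq_iff_mul_eq_one]; exact hx3
  have hclo : closure (setL H [X, Y]) = closure ({x, y} : Set ↥H) := by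
    congr 1
    ext g
    constructor
    · rintro ⟨P, hP, hg⟩
      rcases List.mem_cons.mp hP with rfl | hP
      · exact Or.inl (sub_ext hg hx)
      · rw [List.mem_singleton] at hP
        rw [hP] at hg
        exact Or.inr (sub_ext hg hy)
    · rintro (rfl | rfl)
      · exact ⟨X, by simp, hx⟩
      · exact ⟨Y, by simp, hy⟩
  have hxm : x ∈ closure ({x, y} : Set ↥H) := subset_closure (Or.inl rfl)
  have hym : y ∈ closure ({x, y} : Set ↥H) := subset_closure (Or.inr rfl)
  refine good_of_reflection (p := 3) (by decide) x y t ?_ ?_ ?_ ?_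
  · exact sub_eq (sub_mul hx hy) (sub_mul hy hx) h3
  · rw [mul_inv_eq_iff_eq_mul, hxi]
    exact sub_eq (sub_mul ht hx) (sub_mul hxx ht) h6
  · rw [mul_inv_eq_iff_eq_mul]
    exact sub_eq (sub_mul ht hy) (sub_mul hy ht) h7
  · apply index_of_card _ 3 9 _ hcard
    rw [card_ge (closure ({x, y} : Set ↥H)) _ h10
      (MemL_prod (MemL_pows hxm hx) (MemL_pows hym hy))
      (by rw [← hclo]; exact clos_spec h9)]
    rfl

end CfsgLib.Mult15
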