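import Cfsg.Agent.LibMult15d

/-! The prime 2 for subgroups of `M24` (seat helper15). -/

set_option autoImplicit false
set_option linter.unusedSectionVars false
set_option linter.style.haveILetI false

namespace CfsgLib.Mult15

open Cfsg CfsgLib.Golay CfsgLib.M24 CfsgLib.OutM Subgroup
open scoped commutatorElement Pointwise

variable {H : Subgroup (Equiv.Perm GolayPt)}

/-- the data -/
structure Dat2 where
  V : List ℕ
  Wv : List ℕ
  U : List ℕ
  A1 : List ℕ
  A2 : List ℕ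
  B0 : List ℕ
  gW : List (List ℕ)
  Y : List ℕ
  A : List ℕ
  B : List ℕ
  E : List ℕ
  cA : List (List ℕ × List ℕ)
  cB : List (List ℕ × List ℕ)
  LD : List (List ℕ)

namespace Dat2

/-- second class representative -/
def t (D : Dat2) : List ℕ := cl (cl D.A1 D.A2) D.B0

/-- lifting to involutions: first class -/
def ka (D : Dat2) : List (List ℕ) := D.cA.map Prod.fst

/-- all the known elements -/
def kn (D : Dat2) : List (List ℕ) := il :: (D.ka ++ D.cB.map Prod.fst)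

/-- the elementary abelian group -/
def LW (D : Dat2) : List (List ℕ) := spanL D.gW

/-- element of `D` -/
def fD (D : Dat2) (i j k : ℕ) : List ℕ := cl (cl (pwl (cl D.A D.B) i) (pwl D.A j)) (pwl D.E k)

/-- the lists that must be read by elements of the group -/
def need (D : Dat2) : List (List ℕ) :=
  [D.V, D.Wv, D.U, D.A1, D.A2, D.B0, D.Y, D.A, D.B, D.E] ++ (D.gW ++ (D.cA.map Prod.snd ++ D.cB.map Prod.snd))

def c1 (D : Dat2) : Bool := and (D.cA.all fun c => cl c.2 D.V == cl c.1 c.2) (and (D.cB.all fun c => cl c.2 D.t == cl c.1 c.2)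
  (and (cl D.V D.V == il) (and ([D.Wv, D.U, cl D.V D.Wv, cl D.V D.U, cl D.Wv D.U, cl D.V (cl D.Wv D.U)].all fun P => D.ka.contains P)
    ([D.A1, D.A2, cl D.A1 D.A2, D.B0, cl D.A1 D.B0, cl D.A2 D.B0].all fun P => D.ka.contains P))))

def c2 (D : Dat2) : Bool := and (D.gW.all fun s => D.kn.contains s) (and (D.gW.all fun s => D.gW.all fun s' => D.kn.contains (cl s s'))
  (and (cl (cl D.Y D.Y) D.Y == il) (and (D.gW.all fun s => D.LW.any fun s' => cl D.Y s == cl s' D.Y)
  (and (D.LW.all fun s => or (s == il) (!(cl D.Y s == cl s D.Y)))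
   ([D.A, D.B, D.E].all fun d => D.gW.all fun s => D.LW.any fun s' => cl d s == cl s' d)))))

def c3 (D : Dat2) : Bool := and ([D.A, D.B, D.E].all fun d => or (cl D.Y d == cl d D.Y) (cl (cl D.Y d) D.Y == d))
  (and (D.LW.all fun s => or (s == il) (!(D.LD.contains s))) (and (clos D.LW D.gW) (and (decide D.LW.Nodup)
   (and (clos D.LD [D.A, D.B, D.E]) (decide D.LD.Nodup)))))

def c4 (D : Dat2) : Bool := and (D.LD.all fun P => (List.range 4).any fun i => (List.range 2).any fun j => (List.range 2).any fun k => P == D.fD i j k)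
  (and ((List.range 4).all fun i => (List.range 2).all fun j => (List.range 2).all fun k =>
    or (!(D.fD i j k == il)) (and (Nat.beq i 0) (and (Nat.beq j 0) (or (Nat.beq k 0) (D.E == il)))))
   ([D.A, D.B, D.E, cl (cl D.A D.B) (cl D.A D.B), cl D.A D.E, cl D.B D.E].all fun P => D.kn.contains P))

end Dat2

theorem sub_pow {g : ↥H} {P : List ℕ} (hg : Rd (g : Equiv.Perm GolayPt) P) (n : ℕ) :
    Rd ((g ^ n : ↥H) : Equiv.Perm GolayPt) (pwl P n) := by
  induction n with
  | zero => rw [pow_zero]; exact sub_one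
  | succ n ih => rw [pow_succ']; exact sub_mul hg ih

theorem setL_pair3 {A B E : List ℕ} {a b e : ↥H} (ha : Rd (a : Equiv.Perm GolayPt) A)
    (hb : Rd (b : Equiv.Perm GolayPt) B) (he : Rd (e : Equiv.Perm GolayPt) E) :
    setL H [A, B, E] = ({a, b, e} : Set ↥H) := by
  ext g
  constructor
  · rintro ⟨P, hP, hg⟩
    rcases List.mem_cons.mp hP with rfl | hP
    · exact Or.inl (sub_ext hg ha)
    rcases List.mem_cons.mp hP with rfl | hP
    · exact Or.inr (Or.inl (sub_ext hg hb))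
    · rw [List.mem_singleton] at hP
      rw [hP] at hg
      exact Or.inr (Or.inr (sub_ext hg he))
  · rintro (rfl | rfl | rfl)
    · exact ⟨A, by simp, ha⟩
    · exact ⟨B, by simp, hb⟩
    · exact ⟨E, by simp, he⟩

theorem mem_norm_fin {Q : Type*} [Group Q] [Finite Q] (W : Subgroup Q) (d : Q) (h : ∀ w ∈ W, d * w * d⁻¹ ∈ W) :
    d ∈ normalizer (W : Set Q) := by
  rw [mem_normalizer_iff]
  intro w
  refine ⟨h w, fun hw => ?_⟩
  have hinj : Function.Injective (fun x : W => (⟨d * x * d⁻¹, h x x.2⟩ : W)) := by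
    intro x z e
    have e2 : d * (x : Q) * d⁻¹ = d * z * d⁻¹ := congrArg Subtype.val e
    exact Subtype.ext (by simpa using e2)
  obtain ⟨x, hx⟩ := (Finite.injective_iff_surjective.mp hinj) ⟨_, hw⟩
  have e2 : d * (x : Q) * d⁻¹ = d * w * d⁻¹ := congrArg Subtype.val hx
  have e3 : (x : Q) = w := by simpa using e2
  rw [← e3]; exact x.2

theorem card_sup {Q : Type*} [Group Q] [Finite Q] (W D : Subgroup Q) (hD : D ≤ normalizer (W : Set Q))
    (hWD : ∀ g ∈ W, g ∈ D → g = 1) : Nat.card ↥(W ⊔ D) = Nat.card W * Nat.card D := by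
  have h1 := Subgroup.coe_mul_of_right_le_normalizer_left W D hD
  rw [← Nat.card_prod]
  symm
  apply Nat.card_congr
  refine Equiv.ofBijective (fun x : W × D => (⟨x.1 * x.2, ?_⟩ : ↥(W ⊔ D))) ⟨?_, ?_⟩
  · exact mul_mem (Subgroup.mem_sup_left x.1.2) (Subgroup.mem_sup_right x.2.2)
  · rintro ⟨a, b⟩ ⟨c, d⟩ e
    have e1 : (a : Q) * b = c * d := congrArg Subtype.val e
    have e2 : (c : Q)⁻¹ * a = d * (b : Q)⁻¹ := by
      rw [inv_mul_eq_iff_eq_mul, ← mul_assoc, ← e1, mul_inv_cancel_right]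
    have e3 : (c : Q)⁻¹ * a = 1 := hWD _ (mul_mem (inv_mem c.2) a.2) (by rw [e2]; exact mul_mem d.2 (inv_mem b.2))
    have e4 : (a : Q) = c := by rw [inv_mul_eq_one] at e3; exact e3.symm
    have e5 : (b : Q) = d := by rw [e4] at e1; exact mul_left_cancel e1
    exact Prod.ext (Subtype.ext e4) (Subtype.ext e5)
  · rintro ⟨g, hg⟩
    have h2 : g ∈ ((W : Set Q) * (D : Set Q)) := by rw [← h1]; exact hg
    obtain ⟨a, ha, d, hd, rfl⟩ := h2
    exact ⟨(⟨a, ha⟩, ⟨d, hd⟩), rfl⟩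

theorem goodTwo (D : Dat2) (hneed : ∀ P ∈ D.need, ∃ g : ↥H, Rd (g : Equiv.Perm GolayPt) P)
    (h1 : D.c1 = true) (h2 : D.c2 = true) (h3 : D.c3 = true) (h4 : D.c4 = true)
    (hcard : ¬ 2 * (D.LW.length * D.LD.length) ∣ Nat.card H) : Good ↥H 2 := by
  intro Γ _ _ σ hσ hc hk
  simp only [Dat2.c1, Dat2.c2, Dat2.c3, Dat2.c4, Bool.and_eq_true, Bool.or_eq_true, beq_iff_eq, decide_eq_true_eq,
    Bool.not_eq_true', beq_eq_false_iff_ne, List.all_eq_true, List.any_eq_true, List.contains_iff_mem, beq_iff,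
    List.mem_range] at h1 h2 h3 h4
  obtain ⟨a1, a2, a3, a4, a5⟩ := h1
  obtain ⟨b1, b2, b3, b4, b5, b6⟩ := h2
  obtain ⟨d1, d2, d3, d4, d5, d6⟩ := h3
  obtain ⟨f1, f2, f3⟩ := h4
  have nd : ∀ P ∈ [D.V, D.Wv, D.U, D.A1, D.A2, D.B0, D.Y, D.A, D.B, D.E], ∃ g : ↥H, Rd (g : Equiv.Perm GolayPt) P :=
    fun P hP => hneed P (List.mem_append_left _ hP)
  have ndW : ∀ P ∈ D.gW, ∃ g : ↥H, Rd (g : Equiv.Perm GolayPt) P :=
    fun P hP => hneed P (List.mem_append_right _ (List.mem_append_left _ hP))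
  have ndA : ∀ P ∈ D.cA.map Prod.snd, ∃ g : ↥H, Rd (g : Equiv.Perm GolayPt) P :=
    fun P hP => hneed P (List.mem_append_right _ (List.mem_append_right _ (List.mem_append_left _ hP)))
  have ndB : ∀ P ∈ D.cB.map Prod.snd, ∃ g : ↥H, Rd (g : Equiv.Perm GolayPt) P :=
    fun P hP => hneed P (List.mem_append_right _ (List.mem_append_right _ (List.mem_append_right _ hP)))
  obtain ⟨v, hv⟩ := nd D.V (by simp)
  obtain ⟨w, hw⟩ := nd D.Wv (by simp)
  obtain ⟨u, hu⟩ := nd D.U (by simp)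
  obtain ⟨x1, hx1⟩ := nd D.A1 (by simp)
  obtain ⟨x2, hx2⟩ := nd D.A2 (by simp)
  obtain ⟨x0, hx0⟩ := nd D.B0 (by simp)
  obtain ⟨y, hy⟩ := nd D.Y (by simp)
  obtain ⟨a, ha⟩ := nd D.A (by simp)
  obtain ⟨b, hb⟩ := nd D.B (by simp)
  obtain ⟨e, he⟩ := nd D.E (by simp)
  -- first class
  have conjA : ∀ s : ↥H, ∀ S, Rd (s : Equiv.Perm GolayPt) S → S ∈ D.ka → ∃ g, g * v = s * g := by
    intro s S hs hS
    rw [Dat2.ka, List.mem_map] at hS
    obtain ⟨c, hc1, rfl⟩ := hS
    obtain ⟨γ, hγ⟩ := ndA c.2 (List.mem_map_of_mem hc1)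
    exact ⟨γ, sub_eq (sub_mul hγ hv) (sub_mul hs hγ) (a1 c hc1)⟩
  have hLv : L1 σ v := by
    apply L1_four hσ hc hk v w u (sub_eq (sub_mul hv hv) sub_one a3)
    · exact conjA w _ hw (a4 _ (by simp))
    · exact conjA u _ hu (a4 _ (by simp))
    · exact conjA (v * w) _ (sub_mul hv hw) (a4 _ (by simp))
    · exact conjA (v * u) _ (sub_mul hv hu) (a4 _ (by simp))
    · exact conjA (w * u) _ (sub_mul hw hu) (a4 _ (by simp))
    · exact conjA (v * (w * u)) _ (sub_mul hv (sub_mul hw hu)) (a4 _ (by simp))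
  have hLA : ∀ S ∈ D.ka, L1L σ S := by
    intro S hS s hs
    obtain ⟨g, hg⟩ := conjA s S hs hS
    exact L1_conj hσ g hg hLv
  -- second class
  have hLt : L1L σ D.t := by
    have h1 := hLA _ (a5 D.A1 (by simp)) x1 hx1
    have h2 := hLA _ (a5 D.A2 (by simp)) x2 hx2
    have h12 := hLA _ (a5 (cl D.A1 D.A2) (by simp)) (x1 * x2) (sub_mul hx1 hx2)
    have h0 := hLA _ (a5 D.B0 (by simp)) x0 hx0
    have h10 := hLA _ (a5 (cl D.A1 D.B0) (by simp)) (x1 * x0) (sub_mul hx1 hx0)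
    have h20 := hLA _ (a5 (cl D.A2 D.B0) (by simp)) (x2 * x0) (sub_mul hx2 hx0)
    have hfin : L1 σ (x1 * x2 * x0) := by
      apply L1_mul hc hk h12 h0
      obtain ⟨X1, hX1⟩ := hσ x1
      obtain ⟨X2, hX2⟩ := hσ x2
      obtain ⟨X0, hX0⟩ := hσ x0
      refine ⟨X1 * X2, X0, by rw [map_mul, hX1, hX2], hX0, ?_⟩
      have e1 := comm_of_L1 h1 h0 h10 hX1 hX0
      have e2 := comm_of_L1 h2 h0 h20 hX2 hX0
      rw [mul_assoc, e2, ← mul_assoc, e1, mul_assoc]
    intro g hg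
    rw [sub_ext hg (sub_mul (sub_mul hx1 hx2) hx0)]
    exact hfin
  have hLk : ∀ S ∈ D.kn, L1L σ S := by
    intro S hS
    rw [Dat2.kn, List.mem_cons, List.mem_append, List.mem_map] at hS
    rcases hS with rfl | hS | ⟨c, hc1, rfl⟩
    · intro s hs
      rw [sub_ext hs sub_one]
      exact L1_one hk
    · exact hLA S hS
    · obtain ⟨γ, hγ⟩ := ndB c.2 (List.mem_map_of_mem hc1)
      exact L1L_conj hσ (sub_mul (sub_mul hx1 hx2) hx0) hγ (a2 c hc1) hLt
  -- the group `W`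
  let W : Subgroup ↥H := closure (setL H D.gW)
  have hWmem : ∀ g ∈ W, ∃ P ∈ D.LW, Rd (g : Equiv.Perm GolayPt) P := clos_spec d3
  have hWL : MemL W D.LW := by
    apply spanL_mem
    intro P hP
    obtain ⟨g, hg⟩ := ndW P hP
    exact ⟨g, subset_closure ⟨P, hP, hg⟩, hg⟩
  have hWL1 : ∀ w ∈ W, L1 σ w := by
    apply L1_closure hσ hc hk
    · rintro g ⟨P, hP, hg⟩
      exact hLk P (b1 P hP) g hg
    · rintro g ⟨P, hP, hg⟩ g' ⟨P', hP', hg'⟩
      exact hLk _ (b2 P hP P' hP') _ (sub_mul hg hg')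
  have hWof : ∀ g : ↥H, (∃ P ∈ D.LW, Rd (g : Equiv.Perm GolayPt) P) → g ∈ W := by
    rintro g ⟨P, hP, hg⟩
    obtain ⟨g', hg', hr⟩ := hWL P hP
    rw [sub_ext hg hr]; exact hg'
  have hnorm : ∀ d : ↥H, ∀ P, Rd (d : Equiv.Perm GolayPt) P →
      (∀ s ∈ D.gW, ∃ s' ∈ D.LW, cl P s = cl s' P) → ∀ w ∈ W, d * w * d⁻¹ ∈ W := by
    intro d P hd h w hw
    have : (MulAut.conj d).toMonoidHom w ∈ W := by
      have h2 : W ≤ W.comap (MulAut.conj d).toMonoidHom := by
        apply (closure_le _).mpr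
        rintro g ⟨s, hs, hg⟩
        obtain ⟨s', hs', e⟩ := h s hs
        obtain ⟨g', hg', hr⟩ := hWL s' hs'
        show d * g * d⁻¹ ∈ W
        have : d * g = g' * d := sub_eq (sub_mul hd hg) (sub_mul hr hd) e
        rw [this, mul_inv_cancel_right]
        exact hg'
      exact h2 hw
    exact this
  -- the group `D`
  have hset := setL_pair3 ha hb he
  have hDmem : ∀ g ∈ closure ({a, b, e} : Set ↥H), ∃ P ∈ D.LD, Rd (g : Equiv.Perm GolayPt) P := by
    rw [← hset]; exact clos_spec d5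
  have hgen3 : ∀ g ∈ ({a, b, e} : Set ↥H), ∃ P ∈ [D.A, D.B, D.E], Rd (g : Equiv.Perm GolayPt) P := by
    intro g hg
    rw [← hset] at hg
    exact hg
  have hfD : ∀ i j k, Rd (((a * b) ^ i * a ^ j * e ^ k : ↥H) : Equiv.Perm GolayPt) (D.fD i j k) := fun i j k =>
    sub_mul (sub_mul (sub_pow (sub_mul ha hb) i) (sub_pow ha j)) (sub_pow he k)
  have ham : a ∈ closure ({a, b, e} : Set ↥H) := subset_closure (Or.inl rfl)
  have hbm : b ∈ closure ({a, b, e} : Set ↥H) := subset_closure (Or.inr (Or.inl rfl))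
  have hem : e ∈ closure ({a, b, e} : Set ↥H) := subset_closure (Or.inr (Or.inr rfl))
  have hDL : MemL (closure ({a, b, e} : Set ↥H)) D.LD := by
    intro P hP
    obtain ⟨i, _, j, _, k, _, e1⟩ := f1 P hP
    exact ⟨(a * b) ^ i * a ^ j * e ^ k, mul_mem (mul_mem (pow_mem (mul_mem ham hbm) i) (pow_mem ham j)) (pow_mem hem k),
      by rw [e1]; exact hfD i j k⟩
  have hDW : ∀ d ∈ closure ({a, b, e} : Set ↥H), ∀ w ∈ W, d * w * d⁻¹ ∈ W := by
    have hle : closure ({a, b, e} : Set ↥H) ≤ normalizer (W : Set ↥H) := by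
      rw [closure_le]
      intro d hd
      obtain ⟨P, hP, hdP⟩ := hgen3 d hd
      have h5 : ∀ w ∈ W, d * w * d⁻¹ ∈ W := hnorm d P hdP (b6 P hP)
      exact mem_norm_fin W d h5
    intro d hd w hw
    exact (mem_normalizer_iff.mp (hle hd) w).mp hw
  have hDy : ∀ d ∈ closure ({a, b, e} : Set ↥H), d⁻¹ * y * d = y ∨ d⁻¹ * y * d = y⁻¹ := by
    intro d hd
    have base : ∀ d ∈ ({a, b, e} : Set ↥H), d⁻¹ * y * d = y ∨ d⁻¹ * y * d = y⁻¹ := by
      intro d hd
      obtain ⟨P, hP, hdP⟩ := hgen3 d hd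
      rcases d1 P hP with h | h
      · left
        have : y * d = d * y := sub_eq (sub_mul hy hdP) (sub_mul hdP hy) h
        rw [mul_assoc, this, inv_mul_cancel_left]
      · right
        have : y * d * y = d := sub_eq (sub_mul (sub_mul hy hdP) hy) hdP h
        rw [eq_inv_iff_mul_eq_one, mul_assoc, mul_assoc, ← mul_assoc y, this, inv_mul_cancel]
    have hinv : ∀ z c : ↥H, z⁻¹ * c * z = c → z * c * z⁻¹ = c := by
      intro z c h
      calc z * c * z⁻¹ = z * (z⁻¹ * c * z) * z⁻¹ := by rw [h]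
        _ = c := by group
    induction hd using closure_induction with
    | mem x hx => exact base x hx
    | one => left; group
    | mul p q _ _ hp hq =>
      have e1 : (p * q)⁻¹ * y * (p * q) = q⁻¹ * (p⁻¹ * y * p) * q := by group
      have e2 : q⁻¹ * y⁻¹ * q = (q⁻¹ * y * q)⁻¹ := by group
      rw [e1]
      rcases hp with hp | hp <;> rcases hq with hq | hq
      · left; rw [hp, hq]
      · right; rw [hp, hq]
      · right; rw [hp, e2, hq]
      · left; rw [hp, e2, hq, inv_inv]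
    | inv p _ hp =>
      rcases hp with hp | hp
      · left
        rw [inv_inv]; exact hinv p y hp
      · right
        calc p⁻¹⁻¹ * y * p⁻¹ = (p * y⁻¹ * p⁻¹)⁻¹ := by group
          _ = (p * (p⁻¹ * y * p) * p⁻¹)⁻¹ := by rw [hp]
          _ = y⁻¹ := by group
  have hWD : ∀ g ∈ W, g ∈ closure ({a, b, e} : Set ↥H) → g = 1 := by
    intro g hg hg'
    obtain ⟨P, hP, hgP⟩ := hWmem g hg
    obtain ⟨P', hP', hgP'⟩ := hDmem g hg'
    have e1 := Rd_unique hgP hgP'
    rcases d2 P hP with h | h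
    · exact sub_ext hgP (by rw [h]; exact sub_one)
    · rw [← Bool.not_eq_true, List.contains_iff_mem] at h
      rw [← e1] at hP'
      exact absurd hP' h
  obtain ⟨D', hD', hD1⟩ := lift_D hσ hk a b e (hLk _ (f3 D.A (by simp)) a ha) (hLk _ (f3 D.B (by simp)) b hb)
    (hLk _ (f3 D.E (by simp)) e he)
    (hLk _ (f3 (cl (cl D.A D.B) (cl D.A D.B)) (by simp)) _ (sub_mul (sub_mul ha hb) (sub_mul ha hb)))
    (hLk _ (f3 (cl D.A D.E) (by simp)) _ (sub_mul ha he)) (hLk _ (f3 (cl D.B D.E) (by simp)) _ (sub_mul hb he))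
    (by
      intro i hi j hj k hk' h
      have h5 := f2 i hi j hj k hk'
      rcases h5 with h5 | ⟨h5, h6, h7⟩
      · exfalso
        apply h5
        apply Rd_unique (hfD i j k)
        rw [h]; exact sub_one
      · refine ⟨h5, h6, ?_⟩
        rcases h7 with h7 | h7
        · exact Or.inl h7
        · exact Or.inr (sub_ext he (by rw [h7]; exact sub_one)))
  refine ⟨W ⊔ closure {a, b, e}, ?_, ?_⟩
  · have hle : closure ({a, b, e} : Set ↥H) ≤ normalizer (W : Set ↥H) := by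
      intro d hd
      exact mem_norm_fin W d (fun n hn => hDW d hd n hn)
    apply index_of_card _ 2 _ _ hcard
    rw [card_sup W _ hle hWD, card_ge W D.LW d4 hWL hWmem, card_ge _ D.LD d6 hDL hDmem]
  · apply split2 hσ hc hk W (closure {a, b, e}) y
    · exact sub_eq (sub_mul (sub_mul hy hy) hy) sub_one b3
    · exact hnorm y D.Y hy b4
    · intro w hw hyw
      obtain ⟨P, hP, hwP⟩ := hWmem w hw
      rcases b5 P hP with h | h
      · exact sub_ext hwP (by rw [h]; exact sub_one)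
      · exfalso
        apply h
        apply Rd_unique (sub_mul hy hwP)
        rw [hyw]
        exact sub_mul hwP hy
    · exact hDW
    · exact hDy
    · exact hWD
    · exact hWL1
    · exact hD'
    · exact hD1

end CfsgLib.Mult15
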