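import Cfsg.Agent.LibMultD24

/-! The Schur multiplier of `M24` (seat helper15). -/

set_option autoImplicit false
set_option maxRecDepth 100000

namespace CfsgLib.Mult15

open Cfsg CfsgLib.Golay CfsgLib.M24 CfsgLib.OutM Subgroup

theorem d24_need : (d24.need.all isM24) = true := by decide +kernel

theorem d24_c1 : d24.c1 = true := by decide +kernel
theorem d24_c2 : d24.c2 = true := by decide +kernel
theorem d24_c3 : d24.c3 = true := by decide +kernel
theorem d24_c4 : d24.c4 = true := by decide +kernel
theorem d24_len : d24.LW.length = 64 ∧ d24.LD.length = 16 := by decide +kernel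
theorem h24 : heisOK x24 y24 t24 = true := by decide +kernel
theorem h24' : isM24 x24 = true ∧ isM24 y24 = true ∧ isM24 t24 = true := by decide +kernel

theorem rd24 {P : List ℕ} (h : isM24 P = true) : ∃ g : ↥M24, Rd (g : Equiv.Perm GolayPt) P :=
  ⟨⟨mkPerm P, isM24_spec h⟩, Rd_mk (valid_of_isM24 h)⟩

theorem not_sq {p n : ℕ} (hp : p.Prime) (l : List ℕ) (hl : ∀ q ∈ l, q.Prime) (hn : n = l.prod) (h : l.Nodup) : ¬ p ^ 2 ∣ n := by
  subst hn
  induction l with
  | nil =>
    intro h1
    rw [List.prod_nil] at h1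
    exact hp.one_lt.ne' (by
      have := Nat.dvd_one.mp h1
      exact Nat.eq_one_of_mul_eq_one_right (by rw [← pow_two]; exact this))
  | cons q l ih =>
    intro h1
    rw [List.prod_cons] at h1
    rw [List.nodup_cons] at h
    have ih' := ih (fun r hr => hl r (List.mem_cons_of_mem _ hr)) h.2
    by_cases e : p = q
    · subst e
      rw [pow_two] at h1
      have h2 := Nat.dvd_of_mul_dvd_mul_left hp.pos h1
      have h3 := (hp.prime.dvd_prod_iff).mp h2
      obtain ⟨r, hr, hpr⟩ := h3
      have : p = r := (Nat.prime_dvd_prime_iff_eq hp (hl r (List.mem_cons_of_mem _ hr))).mp hpr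
      rw [← this] at hr
      exact h.1 hr
    · apply ih'
      have hq := hl q List.mem_cons_self
      have hco : Nat.Coprime (p ^ 2) q := by
        apply Nat.Coprime.pow_left
        rw [Nat.coprime_primes hp hq]; exact e
      exact hco.dvd_of_dvd_mul_left h1

theorem mult24 : Cfsg.HasCyclicSchurMultiplier ↥M24 1 := by
  apply trivial_of_good
  intro p hp
  by_cases h2 : p = 2
  · subst h2
    refine goodTwo d24 ?_ d24_c1 d24_c2 d24_c3 d24_c4 ?_
    · intro P hP
      exact rd24 (List.all_eq_true.mp d24_need P hP)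
    · rw [d24_len.1, d24_len.2, card_M24]; norm_num
  by_cases h3 : p = 3
  · subst h3
    obtain ⟨x, hx⟩ := rd24 h24'.1
    obtain ⟨y, hy⟩ := rd24 h24'.2.1
    obtain ⟨t, ht⟩ := rd24 h24'.2.2
    refine goodHeis x24 y24 t24 hx hy ht h24 ?_
    rw [card_M24]; norm_num
  · apply good_of_sq p hp
    rw [card_M24, show 244823040 = (2 ^ 10 * 3 ^ 3) * 8855 by norm_num]
    intro h
    have hco : Nat.Coprime (p ^ 2) (2 ^ 10 * 3 ^ 3) := by
      apply Nat.Coprime.pow_left
      apply Nat.Coprime.mul_right
      · apply Nat.Coprime.pow_right; rw [Nat.coprime_primes hp Nat.prime_two]; exact h2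
      · apply Nat.Coprime.pow_right; rw [Nat.coprime_primes hp Nat.prime_three]; exact h3
    exact not_sq hp [5, 7, 11, 23] (by intro q hq; fin_cases hq <;> norm_num) (by norm_num) (by decide)
      (hco.dvd_of_dvd_mul_left h)

end CfsgLib.Mult15
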