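import Cfsg.Agent.LibMultD23
import Cfsg.Agent.LibMult15f
import Cfsg.Agent.LibOutM7

/-! The Schur multiplier of `M23` (seat helper15). -/

set_option autoImplicit false
set_option maxRecDepth 100000

namespace CfsgLib.Mult15

open Cfsg CfsgLib.Golay CfsgLib.M24 CfsgLib.OutM Subgroup

theorem d23_need : (d23.need.all (inT [] [23])) = true := by decide +kernel
theorem d23_c1 : d23.c1 = true := by decide +kernel
theorem d23_c2 : d23.c2 = true := by decide +kernel
theorem d23_c3 : d23.c3 = true := by decide +kernel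
theorem d23_c4 : d23.c4 = true := by decide +kernel
theorem d23_len : d23.LW.length = 16 ∧ d23.LD.length = 8 := by decide +kernel
theorem h23 : reflOK x23 y23 t23 = true := by decide +kernel
theorem h23' : inT [] [23] x23 = true ∧ inT [] [23] y23 = true ∧ inT [] [23] t23 = true := by decide +kernel

theorem rdT {K f P : List ℕ} (h : inT K f P = true) : ∃ g : ↥(T K f), Rd (g : Equiv.Perm GolayPt) P :=
  ⟨⟨mkPerm P, (inT_spec h).2⟩, Rd_mk (inT_spec h).1⟩

theorem card23 : Nat.card ↥(T [] [23]) = 10200960 := by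
  rw [← M23_eq, ← card_M23 (pt 23)]
  have : Spor.M23 = M24 ⊓ St (pt 23) := by
    ext g; exact Iff.rfl
  rw [this]

theorem mult23 : Cfsg.HasCyclicSchurMultiplier ↥Cfsg.Spor.M23 1 := by
  rw [M23_eq]
  apply trivial_of_good
  intro p hp
  by_cases h2 : p = 2
  · subst h2
    refine goodTwo d23 ?_ d23_c1 d23_c2 d23_c3 d23_c4 ?_
    · intro P hP
      exact rdT (List.all_eq_true.mp d23_need P hP)
    · rw [d23_len.1, d23_len.2, card23]; norm_num
  by_cases h3 : p = 3
  · subst h3
    obtain ⟨x, hx⟩ := rdT h23'.1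
    obtain ⟨y, hy⟩ := rdT h23'.2.1
    obtain ⟨t, ht⟩ := rdT h23'.2.2
    refine goodRefl x23 y23 t23 hx hy ht h23 ?_
    rw [card23]; norm_num
  · apply good_of_sq p hp
    rw [card23, show 10200960 = (2 ^ 7 * 3 ^ 2) * 8855 by norm_num]
    intro h
    have hco : Nat.Coprime (p ^ 2) (2 ^ 7 * 3 ^ 2) := by
      apply Nat.Coprime.pow_left
      apply Nat.Coprime.mul_right
      · apply Nat.Coprime.pow_right; rw [Nat.coprime_primes hp Nat.prime_two]; exact h2
      · apply Nat.Coprime.pow_right; rw [Nat.coprime_primes hp Nat.prime_three]; exact h3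
    exact not_sq hp [5, 7, 11, 23] (by intro q hq; fin_cases hq <;> norm_num) (by norm_num) (by decide)
      (hco.dvd_of_dvd_mul_left h)

end CfsgLib.Mult15
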