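import Cfsg.Agent.LibMult15g

/-! Semidihedral Sylow subgroups; the Schur multiplier of `M11` (seat helper15). -/

set_option autoImplicit false
set_option maxRecDepth 100000
set_option linter.style.haveILetI false

namespace CfsgLib.Mult15

open Cfsg CfsgLib.Golay CfsgLib.M24 CfsgLib.OutM Subgroup
open scoped commutatorElement

universe u

theorem comm_closure_le {Γ : Type u} [Group Γ] (T : Set Γ) (N : Subgroup Γ)
    (hn : ∀ t ∈ T, ∀ n ∈ N, t * n * t⁻¹ ∈ N) (hn' : ∀ t ∈ T, ∀ n ∈ N, t⁻¹ * n * t ∈ N)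
    (hc : ∀ a ∈ T, ∀ b ∈ T, ⁅a, b⁆ ∈ N) : ⁅closure T, closure T⁆ ≤ N := by
  have hnorm : closure T ≤ normalizer (N : Set Γ) := by
    rw [closure_le]
    intro t ht
    rw [SetLike.mem_coe, mem_normalizer_iff]
    intro n
    refine ⟨hn t ht n, fun h => ?_⟩
    have := hn' t ht _ h
    have e : t⁻¹ * (t * n * t⁻¹) * t = n := by group
    rwa [e] at this
  have hpow : ∀ g ∈ closure T, ∀ n ∈ N, g * n * g⁻¹ ∈ N := fun g hg n hn =>
    (mem_normalizer_iff.mp (hnorm hg) n).mp hn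
  have hcomm : ∀ a : Γ, (∀ b ∈ T, ⁅a, b⁆ ∈ N) → ∀ g ∈ closure T, ⁅a, g⁆ ∈ N := by
    intro a ha g hg
    induction hg using closure_induction with
    | mem x hx => exact ha x hx
    | one => rw [commutatorElement_one_right]; exact one_mem _
    | mul x y hx' _ hx hy =>
      have e : ⁅a, x * y⁆ = ⁅a, x⁆ * (x * ⁅a, y⁆ * x⁻¹) := by simp only [commutatorElement_def]; group
      rw [e]
      exact mul_mem hx (hpow x hx' _ hy)
    | inv x hx' hx =>
      have e : ⁅a, x⁻¹⁆ = x⁻¹ * ⁅a, x⁆⁻¹ * x⁻¹⁻¹ := by simp only [commutatorElement_def]; group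
      rw [e]
      exact hpow _ (inv_mem hx') _ (inv_mem hx)
  rw [Subgroup.commutator_le]
  intro a ha b hb
  apply hcomm a _ b hb
  intro c hc'
  rw [← commutatorElement_inv]
  exact inv_mem (hcomm c (fun d hd => hc c hc' d hd) a ha)

theorem good_of_SD {Q : Type u} [Group Q] [Finite Q] (r s : Q) (hs : s * s = 1) (hr : s * r * s⁻¹ = r ^ 3)
    (hr4 : r ^ 4 ≠ 1) (hidx : ¬ 2 ∣ (closure ({r, s} : Set Q)).index) : Good Q 2 := by
  intro Γ _ _ σ hσ hc hcard
  refine ⟨closure {r, s}, hidx, ?_⟩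
  obtain ⟨R, rfl⟩ := hσ r
  obtain ⟨S, rfl⟩ := hσ s
  have hk : σ (R⁻¹ ^ 3 * (S * R * S⁻¹)) = 1 := by
    rw [map_mul, map_pow, map_mul, map_mul, map_inv, map_inv, hr, inv_pow, inv_mul_cancel]
  obtain ⟨z, hz⟩ : ∃ z, z = R⁻¹ ^ 3 * (S * R * S⁻¹) := ⟨_, rfl⟩
  rw [← hz] at hk
  have hzc : ∀ g, g * z = z * g := mem_center_iff.mp (hc hk)
  have hz2 : z * z = 1 := L1_one hcard z hk
  have e1 : S * R * S⁻¹ = R ^ 3 * z := by rw [hz, inv_pow, mul_inv_cancel_left]
  have hzR : Commute R z := hzc R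
  have e2 : ∀ n : ℕ, S * R ^ n * S⁻¹ = R ^ (3 * n) * z ^ n := by
    intro n
    have h1 : S * R ^ n * S⁻¹ = (S * R * S⁻¹) ^ n := (conj_pow).symm
    rw [h1, e1, (hzR.pow_left 3).mul_pow, ← pow_mul]
  have hss : σ (S * S) = 1 := by rw [map_mul, hs]
  have e3 : S * (S * R * S⁻¹) * S⁻¹ = R := by
    have h1 : S * (S * R * S⁻¹) * S⁻¹ = (S * S) * R * (S * S)⁻¹ := by group
    rw [h1, ← mem_center_iff.mp (hc hss) R, mul_inv_cancel_right]
  have hR8 : R ^ 8 = 1 := by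
    have h1 : S * (R ^ 3 * z) * S⁻¹ = R := by rw [← e1]; exact e3
    have h2 : S * (R ^ 3 * z) * S⁻¹ = R ^ 9 := by
      have h3 : S * (R ^ 3 * z) * S⁻¹ = (S * R ^ 3 * S⁻¹) * z := by
        rw [← mul_assoc, mul_assoc (S * R ^ 3), ← hzc S⁻¹, ← mul_assoc]
      rw [h3, e2 3]
      have h4 : z ^ 3 * z = 1 := by
        rw [← pow_succ, show (3 + 1 : ℕ) = 2 * 2 by norm_num, pow_mul, pow_two z, hz2, one_pow]
      rw [mul_assoc, h4, mul_one]
    rw [h2] at h1
    have h5 : R ^ 8 * R = R := by rw [← pow_succ]; exact h1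
    exact mul_eq_right.mp h5
  obtain ⟨C, hC⟩ : ∃ C, C = R ^ 2 * z := ⟨_, rfl⟩
  have hσC : σ C = σ R ^ 2 := by rw [hC, map_mul, map_pow, hk, mul_one]
  have hC4 : C ^ 4 = 1 := by
    rw [hC, (hzR.pow_left 2).mul_pow, ← pow_mul, show (2 * 4 : ℕ) = 8 by norm_num, hR8, one_mul,
      show (4 : ℕ) = 2 * 2 by norm_num, pow_mul, pow_two z, hz2, one_pow]
  have hRC : R * C = C * R := by
    rw [hC, mul_assoc, ← hzc R, ← mul_assoc, ← mul_assoc, ← pow_succ, ← pow_succ']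
  have hSC : S * C * S⁻¹ = C ^ 3 := by
    have h3 : S * (R ^ 2 * z) * S⁻¹ = (S * R ^ 2 * S⁻¹) * z := by
      rw [← mul_assoc, mul_assoc (S * R ^ 2), ← hzc S⁻¹, ← mul_assoc]
    rw [hC, h3, e2 2, (hzR.pow_left 2).mul_pow, ← pow_mul, mul_assoc, ← pow_succ]
  have hSC' : S⁻¹ * C * S = C ^ 3 := by
    have h1 : S⁻¹ = S * (S * S)⁻¹ := by group
    have h2 : σ ((S * S)⁻¹) = 1 := by rw [map_inv, hss, inv_one]
    have h3 := mem_center_iff.mp (hc h2)
    calc S⁻¹ * C * S = S * ((S * S)⁻¹ * C) * (S * (S * S)⁻¹)⁻¹ := by rw [← h1]; group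
      _ = S * (C * (S * S)⁻¹) * (S * (S * S)⁻¹)⁻¹ := by rw [h3 C]
      _ = S * C * ((S * S)⁻¹ * (S * S)) * S⁻¹ := by
        rw [show S * (C * (S * S)⁻¹) * (S * (S * S)⁻¹)⁻¹ = S * C * ((S * S)⁻¹ * (S * S)) * S⁻¹ by group]
      _ = C ^ 3 := by rw [inv_mul_cancel, mul_one, hSC]
  have hcomm : ⁅closure ({R, S} : Set Γ), closure ({R, S} : Set Γ)⁆ ≤ zpowers C := by
    have hRz : ∀ n ∈ zpowers C, R * n * R⁻¹ ∈ zpowers C := by
      rintro _ ⟨k, rfl⟩
      have : Commute R (C ^ k) := (show Commute R C from hRC).zpow_right k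
      simp only
      rw [this.eq, mul_inv_cancel_right]
      exact ⟨k, rfl⟩
    have hRz' : ∀ n ∈ zpowers C, R⁻¹ * n * R ∈ zpowers C := by
      rintro _ ⟨k, rfl⟩
      have : Commute R (C ^ k) := (show Commute R C from hRC).zpow_right k
      simp only
      rw [mul_assoc, ← this.eq, inv_mul_cancel_left]
      exact ⟨k, rfl⟩
    have hSz : ∀ n ∈ zpowers C, S * n * S⁻¹ ∈ zpowers C := by
      rintro _ ⟨k, rfl⟩
      have : S * C ^ k * S⁻¹ = (S * C * S⁻¹) ^ k := (conj_zpow).symm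
      simp only
      rw [this, hSC]
      exact zpow_mem (pow_mem (mem_zpowers C) 3) k
    have hSz' : ∀ n ∈ zpowers C, S⁻¹ * n * S ∈ zpowers C := by
      rintro _ ⟨k, rfl⟩
      have : S⁻¹ * C ^ k * S⁻¹⁻¹ = (S⁻¹ * C * S⁻¹⁻¹) ^ k := (conj_zpow).symm
      rw [inv_inv, hSC'] at this
      simp only
      rw [this]
      exact zpow_mem (pow_mem (mem_zpowers C) 3) k
    have hSR : ⁅S, R⁆ = C := by
      rw [commutatorElement_def, e1, hC, mul_assoc, ← hzc R⁻¹, ← mul_assoc, pow_succ R 2, mul_inv_cancel_right]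
    apply comm_closure_le
    · rintro t (rfl | rfl)
      · exact hRz
      · exact hSz
    · rintro t (rfl | rfl)
      · exact hRz'
      · exact hSz'
    · rintro a (rfl | rfl) b (rfl | rfl)
      · rw [commutatorElement_self]; exact one_mem _
      · rw [← commutatorElement_inv, hSR]; exact inv_mem (mem_zpowers C)
      · rw [hSR]; exact mem_zpowers C
      · rw [commutatorElement_self]; exact one_mem _
  intro y hy hyc
  have h6 : y ∈ zpowers C := by
    apply hcomm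
    refine comm_le_of _ _ σ.ker hc ?_ hyc
    apply comap_closure_le
    rintro t (rfl | rfl)
    · exact ⟨R, Or.inl rfl, rfl⟩
    · exact ⟨S, Or.inr rfl, rfl⟩
  obtain ⟨k, rfl⟩ := h6
  simp only at hy ⊢
  have h7 : orderOf (σ C) = 4 := by
    have h8 : orderOf (σ C) = 2 ^ (1 + 1) := by
      apply orderOf_eq_prime_pow
      · rw [hσC, ← pow_mul]; exact hr4
      · rw [← map_pow]
        rw [show (2 ^ (1 + 1) : ℕ) = 4 by norm_num, hC4, map_one]
    rw [h8]; norm_num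
  rw [MonoidHom.mem_ker, map_zpow, ← orderOf_dvd_iff_zpow_eq_one, h7] at hy
  obtain ⟨m, rfl⟩ := hy
  rw [zpow_mul, show ((4 : ℕ) : ℤ) = ((4 : ℕ) : ℤ) from rfl, zpow_natCast, hC4, one_zpow]

/-- data -/
def x11 : List ℕ := [0, 6, 1, 8, 13, 11, 2, 23, 12, 4, 10, 14, 3, 9, 5, 22, 16, 17, 18, 7, 15, 21, 20, 19]
/-- data -/
def y11 : List ℕ := [0, 9, 13, 1, 8, 11, 4, 7, 6, 3, 17, 14, 2, 12, 5, 20, 16, 21, 18, 19, 22, 10, 15, 23]
/-- data -/
def t11 : List ℕ := [0, 2, 1, 12, 4, 22, 6, 7, 8, 13, 10, 15, 3, 9, 20, 11, 18, 17, 16, 23, 14, 21, 5, 19]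
/-- data -/
def r11 : List ℕ := [0, 18, 12, 8, 9, 22, 2, 14, 3, 1, 7, 23, 4, 6, 15, 21, 16, 19, 13, 10, 17, 20, 11, 5]
/-- data -/
def s11 : List ℕ := [0, 2, 1, 8, 4, 5, 12, 20, 3, 18, 14, 11, 6, 13, 10, 15, 16, 21, 9, 19, 7, 17, 23, 22]

/-- data for a semidihedral group of order 16 -/
def sdOK (R S : List ℕ) : Bool :=
  let L := (List.range 8).flatMap fun i => [pwl R i, cl (pwl R i) S]
  and (cl S S == il) (and (cl S R == cl (pwl R 3) S) (and (!(pwl R 4 == il)) (and (clos L [R, S]) (decide L.Nodup))))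

theorem goodSD {H : Subgroup (Equiv.Perm GolayPt)} (R S : List ℕ) {r s : ↥H} (hr : Rd (r : Equiv.Perm GolayPt) R)
    (hs : Rd (s : Equiv.Perm GolayPt) S) (h : sdOK R S = true) (hcard : ¬ 2 * 16 ∣ Nat.card H) : Good ↥H 2 := by
  rw [sdOK] at h
  simp only [Bool.and_eq_true, beq_iff_eq, decide_eq_true_eq, Bool.not_eq_true', beq_eq_false_iff_ne] at h
  obtain ⟨h1, h2, h3, h4, h5⟩ := h
  have hclo : closure (setL H [R, S]) = closure ({r, s} : Set ↥H) := by
    congr 1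
    ext g
    constructor
    · rintro ⟨P, hP, hg⟩
      rcases List.mem_cons.mp hP with rfl | hP
      · exact Or.inl (sub_ext hg hr)
      · rw [List.mem_singleton] at hP
        rw [hP] at hg
        exact Or.inr (sub_ext hg hs)
    · rintro (rfl | rfl)
      · exact ⟨R, by simp, hr⟩
      · exact ⟨S, by simp, hs⟩
  have hrm : r ∈ closure ({r, s} : Set ↥H) := subset_closure (Or.inl rfl)
  have hsm : s ∈ closure ({r, s} : Set ↥H) := subset_closure (Or.inr rfl)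
  refine good_of_SD r s (sub_eq (sub_mul hs hs) sub_one h1) ?_ ?_ ?_
  · rw [mul_inv_eq_iff_eq_mul]
    exact sub_eq (sub_mul hs hr) (sub_mul (sub_pow hr 3) hs) h2
  · intro e
    apply h3
    apply Rd_unique (sub_pow hr 4)
    rw [e]; exact sub_one
  · apply index_of_card _ 2 16 _ hcard
    rw [card_ge (closure ({r, s} : Set ↥H)) _ h5 _ (by rw [← hclo]; exact clos_spec h4)]
    · rfl
    · intro P hP
      rw [List.mem_flatMap] at hP
      obtain ⟨i, _, hP⟩ := hP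
      rcases List.mem_cons.mp hP with rfl | hP
      · exact ⟨r ^ i, pow_mem hrm i, sub_pow hr i⟩
      · rw [List.mem_singleton] at hP
        exact ⟨r ^ i * s, mul_mem (pow_mem hrm i) hsm, by rw [hP]; exact sub_mul (sub_pow hr i) hs⟩

theorem h11' : inT [340831] [0] x11 = true ∧ inT [340831] [0] y11 = true ∧ inT [340831] [0] t11 = true ∧
    inT [340831] [0] r11 = true ∧ inT [340831] [0] s11 = true := by decide +kernel

theorem mult11 : Cfsg.HasCyclicSchurMultiplier ↥Cfsg.Spor.M11 1 := by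
  rw [M11_eq]
  apply trivial_of_good
  intro p hp
  obtain ⟨x, hx⟩ := rdT h11'.1
  obtain ⟨y, hy⟩ := rdT h11'.2.1
  obtain ⟨t, ht⟩ := rdT h11'.2.2.1
  obtain ⟨r, hr⟩ := rdT h11'.2.2.2.1
  obtain ⟨s, hs⟩ := rdT h11'.2.2.2.2
  by_cases h2 : p = 2
  · subst h2
    refine goodSD r11 s11 hr hs (by decide +kernel) ?_
    rw [card11]; norm_num
  by_cases h3 : p = 3
  · subst h3
    refine goodRefl x11 y11 t11 hx hy ht (by decide +kernel) ?_
    rw [card11]; norm_num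
  · apply good_of_sq p hp
    rw [card11, show 7920 = (2 ^ 4 * 3 ^ 2) * 55 by norm_num]
    intro h
    have hco : Nat.Coprime (p ^ 2) (2 ^ 4 * 3 ^ 2) := by
      apply Nat.Coprime.pow_left
      apply Nat.Coprime.mul_right
      · apply Nat.Coprime.pow_right; rw [Nat.coprime_primes hp Nat.prime_two]; exact h2
      · apply Nat.Coprime.pow_right; rw [Nat.coprime_primes hp Nat.prime_three]; exact h3
    exact not_sq hp [5, 11] (by intro q hq; fin_cases hq <;> norm_num) (by norm_num) (by decide)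
      (hco.dvd_of_dvd_mul_left h)

end CfsgLib.Mult15
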