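import Cfsg.Agent.LibMult15c

/-! Groups with Schur multiplier of order 2 (seat helper15). -/

set_option autoImplicit false
set_option linter.unusedSectionVars false
set_option linter.style.haveILetI false

namespace CfsgLib.Mult15

open Subgroup
open scoped commutatorElement Pointwise

universe u

section quot

variable {Q : Type u} [Group Q] [Finite Q] {Γ : Type u} [Group Γ] [Finite Γ] {σ : Γ →* Q}

theorem quot_ext (hσ : Function.Surjective σ) (hc : σ.ker ≤ center Γ) (M : Subgroup σ.ker) :
    ∃ (Δ : Type u) (_ : Group Δ) (_ : Finite Δ) (π : Γ →* Δ) (τ : Δ →* Q), Function.Surjective π ∧ τ.comp π = σ ∧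
      Function.Surjective τ ∧ τ.ker ≤ center Δ ∧ Nat.card τ.ker = M.index ∧ (∀ z : σ.ker, z ∈ M → π z = 1) ∧
      (σ.ker ≤ commutator Γ → τ.ker ≤ commutator Δ) := by
  let N : Subgroup Γ := M.map σ.ker.subtype
  have hNk : N ≤ σ.ker := by rintro _ ⟨a, _, rfl⟩; exact a.2
  haveI : N.Normal := ⟨fun a ha b => by
    rw [show b * a = a * b from mem_center_iff.mp (hc (hNk ha)) b, mul_inv_cancel_right]
    exact ha⟩
  let τ : Γ ⧸ N →* Q := QuotientGroup.lift N σ hNk
  have hτs : Function.Surjective τ := fun q => by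
    obtain ⟨g, rfl⟩ := hσ q
    exact ⟨QuotientGroup.mk g, rfl⟩
  have hkτ : τ.ker = σ.ker.map (QuotientGroup.mk' N) := by
    ext x
    induction x using QuotientGroup.induction_on with | H x => ?_
    constructor
    · intro hx; exact ⟨x, hx, rfl⟩
    · rintro ⟨y, hy, hyx⟩
      have : τ (QuotientGroup.mk' N y) = 1 := hy
      rw [hyx] at this
      exact this
  refine ⟨Γ ⧸ N, inferInstance, inferInstance, QuotientGroup.mk' N, τ, QuotientGroup.mk'_surjective N, ?_, hτs, ?_, ?_, ?_, ?_⟩
  · ext x; rfl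
  · rw [hkτ]
    rintro _ ⟨y, hy, rfl⟩
    rw [mem_center_iff]
    intro g
    induction g using QuotientGroup.induction_on with | H g => ?_
    have := mem_center_iff.mp (hc hy) g
    exact congrArg (QuotientGroup.mk' N) this
  · have hcardN : Nat.card N = Nat.card M :=
      (Nat.card_congr (Subgroup.equivMapOfInjective M _ σ.ker.subtype_injective).toEquiv).symm
    have e1 : Nat.card Q * Nat.card τ.ker = Nat.card (Γ ⧸ N) := by
      rw [← Subgroup.index_mul_card τ.ker]
      congr 1
      rw [Subgroup.index_ker, MonoidHom.range_eq_top.mpr hτs, Subgroup.card_top]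
    have e2 : Nat.card Q * Nat.card σ.ker = Nat.card Γ := by
      rw [← Subgroup.index_mul_card σ.ker]
      congr 1
      rw [Subgroup.index_ker, MonoidHom.range_eq_top.mpr hσ, Subgroup.card_top]
    have e3 : Nat.card (Γ ⧸ N) * Nat.card N = Nat.card Γ := (Subgroup.card_eq_card_quotient_mul_card_subgroup N).symm
    have e4 : M.index * Nat.card M = Nat.card σ.ker := M.index_mul_card
    have hQ : 0 < Nat.card Q := Nat.card_pos
    have hMp : 0 < Nat.card M := Nat.card_pos
    rw [← e1, ← e2, ← e4, hcardN] at e3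
    have e5 : (Nat.card Q * Nat.card M) * Nat.card τ.ker = (Nat.card Q * Nat.card M) * M.index := by
      nlinarith [e3]
    exact Nat.eq_of_mul_eq_mul_left (Nat.mul_pos hQ hMp) e5
  · intro z hz
    exact (QuotientGroup.eq_one_iff (z : Γ)).mpr ⟨z, hz, rfl⟩
  · intro hcm
    rw [hkτ, _root_.commutator_def, ← Subgroup.map_top_of_surjective _ (QuotientGroup.mk'_surjective N),
      ← Subgroup.map_commutator]
    exact Subgroup.map_mono hcm

end quot

/-- a coatom of a finite commutative group has prime index -/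
theorem index_prime_of_coatom {A : Type u} [Group A] [Finite A] (hA : ∀ a b : A, a * b = b * a) (M : Subgroup A)
    (hM : IsCoatom M) : (M.index).Prime := by
  haveI hMn : M.Normal := ⟨fun a ha b => by rw [hA b a, mul_inv_cancel_right]; exact ha⟩
  haveI hsimple : IsSimpleGroup (A ⧸ M) := by
    haveI : Nontrivial (A ⧸ M) := QuotientGroup.nontrivial_iff.mpr hM.1
    refine ⟨fun H _ => ?_⟩
    have h1 : M ≤ H.comap (QuotientGroup.mk' M) := by
      intro x hx
      rw [Subgroup.mem_comap]
      have : QuotientGroup.mk' M x = 1 := (QuotientGroup.eq_one_iff x).mpr hx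
      rw [this]; exact H.one_mem
    rcases hM.le_iff.mp h1 with h2 | h2
    · right
      rw [← Subgroup.map_comap_eq_self_of_surjective (QuotientGroup.mk'_surjective M) H, h2,
        Subgroup.map_top_of_surjective _ (QuotientGroup.mk'_surjective M)]
    · left
      rw [← Subgroup.map_comap_eq_self_of_surjective (QuotientGroup.mk'_surjective M) H, h2,
        eq_bot_iff]
      rintro _ ⟨a, ha, rfl⟩
      exact (QuotientGroup.eq_one_iff a).mpr ha
  have hcomm : ∀ a b : A ⧸ M, a * b = b * a := by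
    intro a b
    induction a using QuotientGroup.induction_on with | H a => ?_
    induction b using QuotientGroup.induction_on with | H b => ?_
    rw [← QuotientGroup.mk_mul, ← QuotientGroup.mk_mul, hA]
  letI : CommGroup (A ⧸ M) := { (inferInstance : Group (A ⧸ M)) with mul_comm := hcomm }
  exact IsSimpleGroup.prime_card (α := A ⧸ M)

theorem exists_index_eq {A : Type u} [Group A] [Finite A] (hA : ∀ a b : A, a * b = b * a) (q : ℕ) (hq : q.Prime)
    (h : q ∣ Nat.card A) : ∃ M : Subgroup A, M.index = q := by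
  haveI : Fact q.Prime := ⟨hq⟩
  let f : A →* A := { toFun := fun a => a ^ q, map_one' := one_pow q, map_mul' := fun a b => (show Commute a b from hA a b).mul_pow q }
  have hf : f.range ≠ ⊤ := by
    intro htop
    have hs : Function.Surjective f := MonoidHom.range_eq_top.mp htop
    have hi : Function.Injective f := Finite.injective_iff_surjective.mpr hs
    obtain ⟨a, ha⟩ := exists_prime_orderOf_dvd_card' q h
    have h1 : f a = f 1 := by
      change a ^ q = 1 ^ q
      rw [one_pow, ← ha, pow_orderOf_eq_one]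
    have h2 := hi h1
    rw [h2, orderOf_one] at ha
    exact hq.one_lt.ne ha
  obtain ⟨M, hM, hle⟩ := (eq_top_or_exists_le_coatom f.range).resolve_left hf
  have hp := index_prime_of_coatom hA M hM
  refine ⟨M, ?_⟩
  haveI hMn : M.Normal := ⟨fun a ha b => by rw [hA b a, mul_inv_cancel_right]; exact ha⟩
  -- the quotient has exponent dividing q
  haveI : Fact (M.index).Prime := ⟨hp⟩
  obtain ⟨x, hx⟩ := exists_prime_orderOf_dvd_card' (G := A ⧸ M) M.index (dvd_of_eq rfl)
  have h3 : x ^ q = 1 := by
    induction x using QuotientGroup.induction_on with | H a => ?_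
    rw [← QuotientGroup.mk_pow]
    exact (QuotientGroup.eq_one_iff _).mpr (hle ⟨a, rfl⟩)
  have h4 := orderOf_dvd_of_pow_eq_one h3
  rw [hx] at h4
  exact (Nat.prime_dvd_prime_iff_eq hp hq).mp h4

theorem cyclic_two_of {Q : Type u} [Group Q] [Finite Q] (hodd : ∀ p : ℕ, p.Prime → p ≠ 2 → Good Q p)
    (K : Subgroup Q) (hK : ¬ 2 ∣ K.index) (s t : Q) (hst : s * t = t * s) (hs : s * s = 1)
    (cst : ∃ g, g * s = t * g) (cst' : ∃ g, g * s = s * t * g)
    (hK2 : ∀ (Γ : Type u) [Group Γ] [Finite Γ] (σ : Γ →* Q), Function.Surjective σ → σ.ker ≤ center Γ →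
      Nat.card σ.ker = 2 → L1 σ s → ∀ z ∈ σ.ker, z ∈ ⁅K.comap σ, K.comap σ⁆ → z = 1)
    (hex : ∃ (Γ : Type u) (_ : Group Γ) (_ : Finite Γ) (σ : Γ →* Q), Cfsg.IsStemExtension σ ∧ Nat.card σ.ker = 2) :
    Cfsg.HasCyclicSchurMultiplier Q 2 := by
  have hZ2 : Nat.card (Multiplicative (ZMod 2)) = 2 := by
    rw [Nat.card_congr Multiplicative.toAdd, Nat.card_zmod]
  refine ⟨?_, ?_⟩
  · obtain ⟨Γ, hΓ, hf, σ, h1, h2⟩ := hex
    exact ⟨Γ, hΓ, hf, σ, h1, ⟨mulEquivOfPrimeCardEq (p := 2) h2 hZ2⟩⟩
  · intro Γ _ _ σ hσ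
    have hcomm : ∀ a b : σ.ker, a * b = b * a := fun a b =>
      Subtype.ext (mem_center_iff.mp (hσ.2.1 b.2) a)
    -- no bad quotient
    have hno : ∀ q : ℕ, q.Prime → q ≠ 2 → ∀ M : Subgroup σ.ker, M.index ≠ q := by
      intro q hq hq2 M hM
      obtain ⟨Δ, _, _, π, τ, hπ, hcomp, hτ, hτc, hτk, _, hcm⟩ := quot_ext hσ.1 hσ.2.1 M
      rw [hM] at hτk
      obtain ⟨K', hK', hint⟩ := hodd q hq hq2 Δ τ hτ hτc hτk
      refine not_le_comm hq τ.ker hτc hτk (K'.comap τ) ?_ hint (hcm hσ.2.2)
      rwa [Subgroup.index_comap_of_surjective _ hτ]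
    obtain ⟨S, rfl⟩ := hσ.1 s
    have hSk : σ (S * S) = 1 := by rw [map_mul, hs]
    let ζ : σ.ker := ⟨S * S, hSk⟩
    have hgen : ∀ z : σ.ker, z ∈ zpowers ζ := by
      by_contra hcon
      have hne : zpowers ζ ≠ ⊤ := by
        intro h
        exact hcon fun z => by rw [h]; exact mem_top z
      obtain ⟨M, hM, hle⟩ := (eq_top_or_exists_le_coatom (zpowers ζ)).resolve_left hne
      have hp := index_prime_of_coatom hcomm M hM
      by_cases hq2 : M.index = 2
      · obtain ⟨Δ, _, _, π, τ, hπ, hcomp, hτ, hτc, hτk, hker, hcm⟩ := quot_ext hσ.1 hσ.2.1 M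
        rw [hq2] at hτk
        have hπS : π S * π S = 1 := by
          rw [← map_mul]
          exact hker ζ (hle (mem_zpowers ζ))
        have hL : L1 τ (σ S) := by
          intro T hT
          have h1 : τ (π S) = σ S := by rw [← hcomp]; rfl
          have hk : τ ((π S)⁻¹ * T) = 1 := by rw [map_mul, map_inv, h1, hT, inv_mul_cancel]
          have h2 := mem_center_iff.mp (hτc hk) (π S)
          have h3 := L1_one hτk _ hk
          have h4 : T = π S * ((π S)⁻¹ * T) := by group
          calc T * T = π S * ((π S)⁻¹ * T) * (π S * ((π S)⁻¹ * T)) := by rw [← h4]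
            _ = π S * (((π S)⁻¹ * T) * π S) * ((π S)⁻¹ * T) := by group
            _ = (π S * π S) * (((π S)⁻¹ * T) * ((π S)⁻¹ * T)) := by rw [← h2]; group
            _ = 1 := by rw [hπS, h3, one_mul]
        refine not_le_comm Nat.prime_two τ.ker hτc hτk (K.comap τ) ?_ (hK2 Δ τ hτ hτc hτk hL) (hcm hσ.2.2)
        rwa [Subgroup.index_comap_of_surjective _ hτ]
      · exact hno _ hp hq2 M rfl
    -- the order of `ζ`
    have hcen : ∀ z, σ z = 1 → ∀ g, g * z = z * g := fun z hz => mem_center_iff.mp (hσ.2.1 hz)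
    obtain ⟨g, hg⟩ := cst
    obtain ⟨g', hg'⟩ := cst'
    obtain ⟨G, rfl⟩ := hσ.1 g
    obtain ⟨G', rfl⟩ := hσ.1 g'
    obtain ⟨T, hT⟩ : ∃ T, T = G * S * G⁻¹ := ⟨_, rfl⟩
    have hσT : σ T = t := by rw [hT, map_mul, map_mul, hg, map_inv, mul_inv_cancel_right]
    have hTT : T * T = S * S := by
      rw [hT]
      calc G * S * G⁻¹ * (G * S * G⁻¹) = G * (S * S) * G⁻¹ := by group
        _ = S * S := by rw [hcen _ hSk, mul_inv_cancel_right]
    -- the commutator
    obtain ⟨w, hw⟩ : ∃ w, w = S * T * S⁻¹ * T⁻¹ := ⟨_, rfl⟩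
    have hwk : σ w = 1 := by
      rw [hw, map_mul, map_mul, map_mul, map_inv, map_inv, hσT, hst]; group
    have hSTw : S * T = w * (T * S) := by rw [hw]; group
    have hw2 : w * w = 1 := by
      have e1 : S * (T * T) = w * (w * (T * T * S)) := by
        calc S * (T * T) = (S * T) * T := by group
          _ = w * (T * S) * T := by rw [hSTw]
          _ = w * (T * (S * T)) := by group
          _ = w * (T * (w * (T * S))) := by rw [hSTw]
          _ = w * ((T * w) * (T * S)) := by group
          _ = w * ((w * T) * (T * S)) := by rw [hcen w hwk T]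
          _ = w * (w * (T * T * S)) := by group
      rw [hTT] at e1
      have e2 : w * w * (S * S * S) = S * S * S := by
        calc w * w * (S * S * S) = w * (w * (S * S * S)) := by group
          _ = S * (S * S) := e1.symm
          _ = S * S * S := by group
      exact mul_eq_right.mp e2
    have hst2 : S * T * (S * T) = w * (S * S * (S * S)) := by
      calc S * T * (S * T) = S * T * (w * (T * S)) := by rw [← hSTw]
        _ = (S * T * w) * (T * S) := by group
        _ = w * (S * T) * (T * S) := by rw [hcen w hwk (S * T)]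
        _ = w * (S * (T * T) * S) := by group
        _ = w * (S * (S * S) * S) := by rw [hTT]
        _ = w * (S * S * (S * S)) := by group
    obtain ⟨z, hz⟩ : ∃ z, z = (G' * S * G'⁻¹)⁻¹ * (S * T) := ⟨_, rfl⟩
    have hzk : σ z = 1 := by
      rw [hz, map_mul, map_inv, map_mul, map_mul, hg', map_inv, map_mul, hσT]
      group
    have hst3 : S * T * (S * T) = S * S * (z * z) := by
      have h1 : S * T = G' * S * G'⁻¹ * z := by rw [hz]; group
      have h2 : (G' * S * G'⁻¹) * (G' * S * G'⁻¹) = S * S := by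
        calc G' * S * G'⁻¹ * (G' * S * G'⁻¹) = G' * (S * S) * G'⁻¹ := by group
          _ = S * S := by rw [hcen _ hSk, mul_inv_cancel_right]
      rw [h1]
      calc G' * S * G'⁻¹ * z * (G' * S * G'⁻¹ * z) = G' * S * G'⁻¹ * (z * (G' * S * G'⁻¹)) * z := by group
        _ = G' * S * G'⁻¹ * ((G' * S * G'⁻¹) * z) * z := by rw [hcen z hzk (G' * S * G'⁻¹)]
        _ = S * S * (z * z) := by rw [← mul_assoc, h2, mul_assoc]
    -- in the kernel
    let w' : σ.ker := ⟨w, hwk⟩
    let z' : σ.ker := ⟨z, hzk⟩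
    have h1 : w' * w' = 1 := Subtype.ext hw2
    have h2 : w' * ζ = z' * z' := by
      apply Subtype.ext
      change w * (S * S) = z * z
      rw [hst3] at hst2
      have h3 : w * (S * S * (S * S)) = S * S * (w * (S * S)) := by
        calc w * (S * S * (S * S)) = (w * (S * S)) * (S * S) := (mul_assoc _ _ _).symm
          _ = ((S * S) * w) * (S * S) := by rw [hcen w hwk (S * S)]
          _ = S * S * (w * (S * S)) := mul_assoc _ _ _
      rw [h3] at hst2
      exact (mul_left_cancel hst2).symm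
    obtain ⟨k, hk⟩ := hgen z'
    simp only at hk
    have h3 : ζ ^ (2 * (2 * k - 1)) = 1 := by
      have h4 : w' = ζ ^ (2 * k - 1) := by
        rw [zpow_sub, zpow_one, eq_mul_inv_iff_mul_eq, h2, ← hk, ← zpow_add]
        congr 1; ring
      rw [mul_comm, zpow_mul, ← h4]
      rw [show (2 : ℤ) = ((2 : ℕ) : ℤ) by norm_num, zpow_natCast, pow_two]
      exact h1
    have hcard : Nat.card σ.ker = orderOf ζ := by
      rw [← Nat.card_zpowers]
      have : zpowers ζ = ⊤ := by rw [eq_top_iff]; intro z _; exact hgen z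
      rw [this, Subgroup.card_top]
    have h5 : (orderOf ζ : ℤ) ∣ 2 * (2 * k - 1) := orderOf_dvd_iff_zpow_eq_one.mpr h3
    -- the order divides 2
    have hdvd : Nat.card σ.ker ∣ 2 := by
      rw [hcard]
      -- no odd prime divisor
      have hpow : ∀ q : ℕ, q.Prime → q ∣ orderOf ζ → q = 2 := by
        intro q hq hqd
        by_contra hq2
        obtain ⟨M, hM⟩ := exists_index_eq hcomm q hq (by rw [hcard]; exact hqd)
        exact hno q hq hq2 M hM
      have hpos : orderOf ζ ≠ 0 := (orderOf_pos ζ).ne'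
      have hp2 := Nat.eq_prime_pow_of_unique_prime_dvd hpos (fun {d} hd hdd => hpow d hd hdd)
      rw [hp2] at h5 ⊢
      set m := (orderOf ζ).primeFactorsList.length with hm
      have hm1 : m ≤ 1 := by
        by_contra hcon
        push Not at hcon
        have h6 : ((4 : ℤ)) ∣ 2 * (2 * k - 1) := by
          refine dvd_trans ?_ h5
          have : (2 : ℕ) ^ 2 ∣ 2 ^ m := pow_dvd_pow 2 hcon
          exact_mod_cast this
        omega
      calc 2 ^ m ∣ 2 ^ 1 := pow_dvd_pow 2 hm1
        _ = 2 := pow_one 2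
    rcases (Nat.dvd_prime Nat.prime_two).mp hdvd with h6 | h6
    · refine ⟨1, fun x => ⟨1, ?_⟩⟩
      have : Subsingleton σ.ker := (Nat.card_eq_one_iff_unique.mp h6).1
      exact Subsingleton.elim _ _
    · exact ⟨(mulEquivOfPrimeCardEq (p := 2) hZ2 h6).toMonoidHom, (mulEquivOfPrimeCardEq (p := 2) hZ2 h6).surjective⟩

end CfsgLib.Mult15
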