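import Cfsg.Agent.LibMult15i

/-! Splitting over an abelian group inverted by an involution (seat helper15). -/

set_option autoImplicit false
set_option linter.unusedSectionVars false
set_option linter.style.haveILetI false

namespace CfsgLib.Mult15

open Subgroup
open scoped commutatorElement Pointwise

universe u

section two

variable {Q : Type u} [Group Q] {Γ : Type u} [Group Γ] {σ : Γ →* Q}

/-- The main splitting lemma. -/
theorem split2' (hσ : Function.Surjective σ) (hc : σ.ker ≤ center Γ) (hcard : Nat.card σ.ker = 2)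
    (W D : Subgroup Q) (y : Q) (hy3 : y * y * y = 1) (hyW : ∀ w ∈ W, y * w * y⁻¹ ∈ W)
    (hC : ∀ w ∈ W, y * w = w * y → w = 1) (hDW : ∀ d ∈ D, ∀ w ∈ W, d * w * d⁻¹ ∈ W)
    (hDy : ∀ d ∈ D, d⁻¹ * y * d = y ∨ d⁻¹ * y * d = y⁻¹) (hWD : ∀ g ∈ W, g ∈ D → g = 1)
    (hWcomm : ∀ a b : Γ, σ a ∈ W → σ b ∈ W → a * b = b * a) (D' : Subgroup Γ) (hD' : D'.map σ = D) (hD1 : ∀ g ∈ D', σ g = 1 → g = 1) :
    ∀ z ∈ σ.ker, z ∈ ⁅(W ⊔ D).comap σ, (W ⊔ D).comap σ⁆ → z = 1 := by
  obtain ⟨Y, hYy, hY3⟩ : ∃ Y, σ Y = y ∧ Y * Y * Y = 1 := by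
    obtain ⟨Y0, hY0⟩ := hσ y
    have hk3 : Y0 * Y0 * Y0 ∈ σ.ker := by rw [MonoidHom.mem_ker, map_mul, map_mul, hY0, hy3]
    refine ⟨Y0 * (Y0 * Y0 * Y0), by rw [map_mul, hY0, show σ (Y0 * Y0 * Y0) = 1 from hk3, mul_one], ?_⟩
    have e : Y0 * (Y0 * Y0 * Y0) * (Y0 * (Y0 * Y0 * Y0)) * (Y0 * (Y0 * Y0 * Y0)) =
      (Y0 * Y0 * Y0 * (Y0 * Y0 * Y0)) * (Y0 * Y0 * Y0 * (Y0 * Y0 * Y0)) := by group
    rw [e, L1_one hcard _ hk3, one_mul]
  have hcen : ∀ z, σ z = 1 → ∀ g, g * z = z * g := fun z hz => mem_center_iff.mp (hc hz)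
  have hYW : ∀ a : Γ, σ a ∈ W → σ (Y * a * Y⁻¹) ∈ W := by
    intro a ha
    rw [map_mul, map_mul, map_inv, hYy]; exact hyW _ ha
  -- norm
  let N : Γ → Γ := fun a => a * (Y * a * Y⁻¹) * (Y * (Y * a * Y⁻¹) * Y⁻¹)
  have hYYY : ∀ a : Γ, Y * (Y * (Y * a * Y⁻¹) * Y⁻¹) * Y⁻¹ = a := by
    intro a
    have e : Y * (Y * (Y * a * Y⁻¹) * Y⁻¹) * Y⁻¹ = (Y * Y * Y) * a * (Y * Y * Y)⁻¹ := by group
    rw [e, hY3]; group
  have hNW : ∀ a, σ a ∈ W → σ (N a) = 1 := by
    intro a ha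
    have h1 := hYW a ha
    have h2 := hYW _ h1
    have h3 : σ (N a) ∈ W := by
      simp only [N, map_mul σ _ (Y * (Y * a * Y⁻¹) * Y⁻¹), map_mul σ a]
      exact W.mul_mem (W.mul_mem ha h1) h2
    apply hC _ h3
    have h4 : Y * N a * Y⁻¹ = N a := by
      have e : Y * N a * Y⁻¹ = (Y * a * Y⁻¹) * (Y * (Y * a * Y⁻¹) * Y⁻¹) * (Y * (Y * (Y * a * Y⁻¹) * Y⁻¹) * Y⁻¹) := by
        simp only [N]; group
      rw [e, hYYY, hWcomm _ a (by rw [map_mul σ (Y * a * Y⁻¹)]; exact W.mul_mem h1 h2) ha, ← mul_assoc]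
    have h5 := congrArg σ h4
    rw [map_mul, map_mul, map_inv, hYy, mul_inv_eq_iff_eq_mul] at h5
    exact h5
  have hNmul : ∀ a b, σ a ∈ W → σ b ∈ W → N (a * b) = N a * N b := by
    intro a b ha hb
    have ha1 := hYW a ha
    have ha2 := hYW _ ha1
    have hb1 := hYW b hb
    have hb2 := hYW _ hb1
    have e : N (a * b) = a * (b * (Y * a * Y⁻¹)) * (Y * b * Y⁻¹) * (Y * (Y * a * Y⁻¹) * Y⁻¹) *
        (Y * (Y * b * Y⁻¹) * Y⁻¹) := by simp only [N]; group
    rw [e, hWcomm b _ hb ha1]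
    have e2 : a * ((Y * a * Y⁻¹) * b) * (Y * b * Y⁻¹) * (Y * (Y * a * Y⁻¹) * Y⁻¹) * (Y * (Y * b * Y⁻¹) * Y⁻¹) =
        a * (Y * a * Y⁻¹) * ((b * (Y * b * Y⁻¹)) * (Y * (Y * a * Y⁻¹) * Y⁻¹)) * (Y * (Y * b * Y⁻¹) * Y⁻¹) := by group
    rw [e2, hWcomm (b * (Y * b * Y⁻¹)) _ (by rw [map_mul]; exact W.mul_mem hb hb1) ha2]
    simp only [N]; group
  let V : Subgroup Γ :=
    { carrier := {a | σ a ∈ W ∧ N a = 1}
      one_mem' := ⟨by rw [map_one]; exact W.one_mem, by simp only [N]; group⟩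
      mul_mem' := by
        rintro a b ⟨ha, ha'⟩ ⟨hb, hb'⟩
        exact ⟨by rw [map_mul]; exact W.mul_mem ha hb, by rw [hNmul a b ha hb, ha', hb', one_mul]⟩
      inv_mem' := by
        rintro a ⟨ha, ha'⟩
        have hai : σ a⁻¹ ∈ W := by rw [map_inv]; exact W.inv_mem ha
        refine ⟨hai, ?_⟩
        have h9 := hNmul a a⁻¹ ha hai
        rw [ha', one_mul, mul_inv_cancel] at h9
        rw [← h9]; simp only [N]; group }
  have hVk : ∀ a ∈ V, σ a = 1 → a = 1 := by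
    rintro a ⟨_, ha⟩ h1
    have e1 : Y * a * Y⁻¹ = a := by rw [hcen a h1 Y, mul_inv_cancel_right]
    simp only [N, e1] at ha
    rw [L1_one hcard a h1, one_mul] at ha
    exact ha
  -- `D'` normalises `V`
  have hDV : ∀ d ∈ D', ∀ a ∈ V, d * a * d⁻¹ ∈ V := by
    rintro d hd a ⟨ha, ha'⟩
    have hσd : σ d ∈ D := by rw [← hD']; exact ⟨d, hd, rfl⟩
    refine ⟨by rw [map_mul, map_mul, map_inv]; exact hDW _ hσd _ ha, ?_⟩
    have ha1 := hYW a ha
    have ha2 := hYW _ ha1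
    rcases hDy _ hσd with h | h
    · have hk : σ (Y⁻¹ * (d⁻¹ * Y * d)) = 1 := by
        rw [map_mul, map_inv, map_mul, map_mul, map_inv, hYy, h, inv_mul_cancel]
      set z := Y⁻¹ * (d⁻¹ * Y * d) with hz
      have e1 : Y * d = d * Y * z := by rw [hz]; group
      have e2 : ∀ b, Y * (d * b * d⁻¹) * Y⁻¹ = d * (Y * b * Y⁻¹) * d⁻¹ := by
        intro b
        have : Y * (d * b * d⁻¹) * Y⁻¹ = (Y * d) * b * (Y * d)⁻¹ := by group
        rw [this, e1]
        have : d * Y * z * b * (d * Y * z)⁻¹ = d * Y * (z * b) * z⁻¹ * Y⁻¹ * d⁻¹ := by group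
        rw [this, ← hcen z hk b]; group
      have : N (d * a * d⁻¹) = d * N a * d⁻¹ := by
        simp only [N]
        rw [e2, e2]; group
      rw [this, ha']; group
    · have hk : σ (Y * (d⁻¹ * Y * d)) = 1 := by
        rw [map_mul, map_mul, map_mul, map_inv, hYy, h, mul_inv_cancel]
      set z := Y * (d⁻¹ * Y * d) with hz
      have e1 : Y * d = d * Y⁻¹ * z := by rw [hz]; group
      have e2 : ∀ b, Y * (d * b * d⁻¹) * Y⁻¹ = d * (Y⁻¹ * b * Y) * d⁻¹ := by
        intro b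
        have : Y * (d * b * d⁻¹) * Y⁻¹ = (Y * d) * b * (Y * d)⁻¹ := by group
        rw [this, e1]
        have : d * Y⁻¹ * z * b * (d * Y⁻¹ * z)⁻¹ = d * Y⁻¹ * (z * b) * z⁻¹ * Y * d⁻¹ := by group
        rw [this, ← hcen z hk b]; group
      have e3 : ∀ b, Y⁻¹ * b * Y = Y * (Y * b * Y⁻¹) * Y⁻¹ := by
        intro b
        have h9 : Y⁻¹ = Y * Y := by rw [inv_eq_iff_mul_eq_one, ← mul_assoc]; exact hY3
        calc Y⁻¹ * b * Y = Y⁻¹ * b * Y⁻¹⁻¹ := by rw [inv_inv]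
          _ = Y * Y * b * (Y * Y)⁻¹ := by rw [h9]
          _ = _ := by group
      have : N (d * a * d⁻¹) = d * (a * (Y * (Y * a * Y⁻¹) * Y⁻¹) * (Y * a * Y⁻¹)) * d⁻¹ := by
        simp only [N]
        rw [e2, e2, e3, e3]
        have e4 := hYYY a
        have e5 : Y * (Y * (Y * (Y * a * Y⁻¹) * Y⁻¹) * Y⁻¹) * Y⁻¹ = Y * a * Y⁻¹ := by
          rw [e4]
        rw [e5]; group
      rw [this, mul_assoc a, hWcomm _ _ ha2 ha1, ← mul_assoc a]
      change d * N a * d⁻¹ = 1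
      rw [ha']; group
  -- the group `V D'`
  have hDn : D' ≤ normalizer (V : Set Γ) := by
    intro d hd
    rw [mem_normalizer_iff]
    intro a
    constructor
    · exact fun ha => hDV d hd a ha
    · intro ha
      have := hDV d⁻¹ (inv_mem hd) _ ha
      have e : d⁻¹ * (d * a * d⁻¹) * d⁻¹⁻¹ = a := by group
      rwa [e] at this
  have hsup : ∀ g ∈ V ⊔ D', ∃ a ∈ V, ∃ d ∈ D', g = a * d := by
    intro g hg
    have h1 := Subgroup.coe_mul_of_right_le_normalizer_left V D' hDn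
    have h2 : g ∈ ((V : Set Γ) * (D' : Set Γ)) := by rw [← h1]; exact hg
    obtain ⟨a, ha, d, hd, rfl⟩ := h2
    exact ⟨a, ha, d, hd, rfl⟩
  have hinj : ∀ g ∈ V ⊔ D', σ g = 1 → g = 1 := by
    intro g hg h1
    obtain ⟨a, ha, d, hd, rfl⟩ := hsup g hg
    rw [map_mul] at h1
    have h2 : σ a ∈ D := by
      rw [mul_eq_one_iff_eq_inv.mp h1, ← hD']
      exact inv_mem ⟨d, hd, rfl⟩
    have h3 := hWD _ ha.1 h2
    rw [h3, one_mul] at h1
    rw [hVk a ha h3, hD1 d hd h1, one_mul]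
  have hcover : (W ⊔ D).comap σ ≤ (V ⊔ D') ⊔ σ.ker := by
    rw [← Subgroup.comap_map_eq]
    apply Subgroup.comap_mono
    rw [Subgroup.map_sup, hD']
    apply sup_le_sup_right
    intro w hw
    obtain ⟨a, rfl⟩ := hσ w
    -- adjust by the norm
    have h1 := hNW a hw
    refine ⟨a * N a, ⟨by rw [map_mul, h1, mul_one]; exact hw, ?_⟩, by rw [map_mul, h1, mul_one]⟩
    rw [hNmul a _ hw (by rw [h1]; exact W.one_mem)]
    have e1 : Y * N a * Y⁻¹ = N a := by rw [hcen _ h1 Y, mul_inv_cancel_right]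
    have e2 : N (N a) = N a := by
      change N a * (Y * N a * Y⁻¹) * (Y * (Y * N a * Y⁻¹) * Y⁻¹) = N a
      rw [e1, e1, L1_one hcard _ h1, one_mul]
    rw [e2]
    exact L1_one hcard _ h1
  intro z hz hzc
  apply hinj z _ hz
  have h1 := comm_le_of _ _ σ.ker hc hcover hzc
  exact (Subgroup.commutator_le.mpr (fun a ha b hb => by
    rw [commutatorElement_def]
    exact mul_mem (mul_mem (mul_mem ha hb) (inv_mem ha)) (inv_mem hb))) h1


/-- lifts of an element inverted by an involution -/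
theorem inv_lift {t a : Q} (ht : L1 σ t) (hta : L1 σ (t * a)) {T A : Γ} (hT : σ T = t) (hA : σ A = a) :
    T * A * T⁻¹ = A⁻¹ := by
  have h1 := ht T hT
  have h2 := hta (T * A) (by rw [map_mul, hT, hA])
  have h3 : T⁻¹ = T := by rw [inv_eq_iff_mul_eq_one]; exact h1
  rw [h3, eq_inv_iff_mul_eq_one, mul_assoc (T * A)]
  exact h2

theorem comm_of_inverted {t a b : Q} (ht : L1 σ t) (hta : L1 σ (t * a)) (htb : L1 σ (t * b))
    (htab : L1 σ (t * (a * b))) {T A B : Γ} (hT : σ T = t) (hA : σ A = a) (hB : σ B = b) : A * B = B * A := by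
  have h1 := inv_lift ht hta hT hA
  have h2 := inv_lift ht htb hT hB
  have h3 := inv_lift ht htab hT (show σ (A * B) = a * b by rw [map_mul, hA, hB])
  have h4 : T * (A * B) * T⁻¹ = (T * A * T⁻¹) * (T * B * T⁻¹) := by group
  rw [h4, h1, h2, mul_inv_rev] at h3
  have h5 : (B * A)⁻¹ = (A * B)⁻¹ := by rw [mul_inv_rev, mul_inv_rev]; exact h3
  exact (inv_injective h5).symm

theorem comm_closure2 (hσ : Function.Surjective σ) (hc : σ.ker ≤ center Γ) {a b t : Q} (ht : L1 σ t)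
    (hta : L1 σ (t * a)) (htb : L1 σ (t * b)) (htab : L1 σ (t * (a * b))) :
    ∀ x y : Γ, σ x ∈ closure ({a, b} : Set Q) → σ y ∈ closure ({a, b} : Set Q) → x * y = y * x := by
  obtain ⟨T, hT⟩ := hσ t
  obtain ⟨A, hA⟩ := hσ a
  obtain ⟨B, hB⟩ := hσ b
  have hAB := comm_of_inverted ht hta htb htab hT hA hB
  have hbot := comm_eq_bot_of_closure ({A, B} : Set Γ) (by
    rintro x (rfl | rfl) y (rfl | rfl)
    · rfl
    · exact hAB
    · exact hAB.symm
    · rfl)
  rw [Subgroup.commutator_eq_bot_iff_le_centralizer] at hbot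
  have hle : (closure ({a, b} : Set Q)).comap σ ≤ closure ({A, B} : Set Γ) ⊔ σ.ker := by
    apply comap_closure_le
    rintro s (rfl | rfl)
    · exact ⟨A, Or.inl rfl, hA⟩
    · exact ⟨B, Or.inr rfl, hB⟩
  intro x y hx hy
  obtain ⟨x', hx', z, hz, rfl⟩ := Subgroup.mem_sup_of_normal_right.mp (hle (show x ∈ (closure ({a, b} : Set Q)).comap σ from hx))
  obtain ⟨y', hy', w, hw, rfl⟩ := Subgroup.mem_sup_of_normal_right.mp (hle (show y ∈ (closure ({a, b} : Set Q)).comap σ from hy))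
  have e1 : x' * y' = y' * x' := mem_centralizer_iff.mp (hbot hy') x' hx'
  have hzc := mem_center_iff.mp (hc hz)
  have hwc := mem_center_iff.mp (hc hw)
  calc x' * z * (y' * w) = x' * (z * y') * w := by group
    _ = x' * (y' * z) * w := by rw [hzc y']
    _ = (x' * y') * z * w := by group
    _ = (y' * x') * z * w := by rw [e1]
    _ = y' * (x' * z * w) := by group
    _ = y' * (w * (x' * z)) := by rw [hwc (x' * z)]
    _ = y' * w * (x' * z) := by group

/-- lifting a four-group -/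
theorem lift_V4 (hσ : Function.Surjective σ) (t d : Q) (ht : L1 σ t) (hd : L1 σ d) (htd : L1 σ (t * d))
    (h1 : t ≠ 1) (h2 : d ≠ 1) (h3 : t * d ≠ 1) :
    ∃ D' : Subgroup Γ, D'.map σ = closure {t, d} ∧ ∀ g ∈ D', σ g = 1 → g = 1 := by
  obtain ⟨T, hT⟩ := hσ t
  obtain ⟨E, hE⟩ := hσ d
  have hTT := ht T hT
  have hEE := hd E hE
  have hTE : T * E = E * T := comm_of_L1 ht hd htd hT hE
  have hform : ∀ g ∈ closure ({T, E} : Set Γ), g = 1 ∨ g = T ∨ g = E ∨ g = T * E := by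
    intro g hg
    have step : ∀ g s : Γ, (g = 1 ∨ g = T ∨ g = E ∨ g = T * E) → s ∈ ({T, E} : Set Γ) →
        (g * s = 1 ∨ g * s = T ∨ g * s = E ∨ g * s = T * E) := by
      rintro g s (rfl | rfl | rfl | rfl) (rfl | rfl)
      · right; left; rw [one_mul]
      · right; right; left; rw [one_mul]
      · left; exact hTT
      · right; right; right; rfl
      · right; right; right; exact hTE.symm
      · left; exact hEE
      · right; right; left; rw [hTE, mul_assoc, hTT, mul_one]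
      · right; left; rw [mul_assoc, hEE, mul_one]
    induction hg using closure_induction_right with
    | one => exact Or.inl rfl
    | mul_right x hx y hy ih => exact step x y ih hy
    | mul_inv_cancel x hx y hy ih =>
      have : y⁻¹ = y := by
        rcases hy with rfl | rfl
        · rw [inv_eq_iff_mul_eq_one]; exact hTT
        · rw [inv_eq_iff_mul_eq_one]; exact hEE
      rw [this]
      exact step x y ih hy
  refine ⟨closure {T, E}, ?_, ?_⟩
  · rw [MonoidHom.map_closure, Set.image_pair, hT, hE]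
  · intro g hg h
    rcases hform g hg with rfl | rfl | rfl | rfl
    · rfl
    · exact absurd (by rw [← hT]; exact h) h1
    · exact absurd (by rw [← hE]; exact h) h2
    · exact absurd (by rw [← hT, ← hE, ← map_mul]; exact h) h3

end two

end CfsgLib.Mult15
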