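import Cfsg.Agent.LibMult15h
import Cfsg.Agent.LibMult15j
import Cfsg.Agent.LibMultD12

/-! The double cover of `M12` acting on the ternary code (seat helper15). -/

set_option autoImplicit false
set_option maxRecDepth 100000
set_option linter.unusedSectionVars false
set_option linter.style.haveILetI false

namespace CfsgLib.Mult15

open Cfsg CfsgLib.Golay CfsgLib.M24 CfsgLib.OutM Subgroup
open scoped commutatorElement Pointwise

/-- action on sign vectors -/
def sact : Equiv.Perm GolayPt →* MulAut (GolayPt → ℤˣ) where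
  toFun g :=
    { toFun := fun e p => e (g⁻¹ p)
      invFun := fun e p => e (g p)
      left_inv := fun e => by funext p; simp
      right_inv := fun e => by funext p; simp
      map_mul' := fun e f => rfl }
  map_one' := rfl
  map_mul' g h := by
    ext e p; rfl

/-- monomial group -/
abbrev Mon : Type := (GolayPt → ℤˣ) ⋊[sact] (Equiv.Perm GolayPt)

instance : Finite Mon := Finite.of_equiv _ (SemidirectProduct.equivProd (N := GolayPt → ℤˣ) (G := Equiv.Perm GolayPt)).symm

/-- action on functions -/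
def mact (x : Mon) : (GolayPt → ZMod 3) →ₗ[ZMod 3] (GolayPt → ZMod 3) where
  toFun f p := ((x.left p : ℤ) : ZMod 3) * f (x.right⁻¹ p)
  map_add' f g := by funext p; simp [mul_add]
  map_smul' c f := by funext p; simp only [Pi.smul_apply, smul_eq_mul, RingHom.id_apply]; ring

theorem mact_mul (x y : Mon) (f : GolayPt → ZMod 3) : mact (x * y) f = mact x (mact y f) := by
  funext p
  change (((x * y).left p : ℤ) : ZMod 3) * f ((x * y).right⁻¹ p) =
    ((x.left p : ℤ) : ZMod 3) * (((y.left (x.right⁻¹ p) : ℤ) : ZMod 3) * f (y.right⁻¹ (x.right⁻¹ p)))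
  rw [SemidirectProduct.mul_left, SemidirectProduct.mul_right, mul_inv_rev, Equiv.Perm.mul_apply]
  have : ((x.left * (sact x.right) y.left) p) = x.left p * y.left (x.right⁻¹ p) := rfl
  rw [this, Units.val_mul]
  push_cast
  ring

theorem mact_one (f : GolayPt → ZMod 3) : mact 1 f = f := by
  funext p
  change (((1 : Mon).left p : ℤ) : ZMod 3) * f ((1 : Mon).right⁻¹ p) = f p
  simp

/-- function of a list -/
def wf (L : List ℕ) : GolayPt → ZMod 3 := fun p => (L.getD (idx p) 0 : ZMod 3)

/-- the ternary code -/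
def CC : Submodule (ZMod 3) (GolayPt → ZMod 3) := Submodule.span (ZMod 3) {f | ∃ L ∈ tB, f = wf L}

/-- the double cover, as a submonoid -/
def G12m : Submonoid Mon where
  carrier := {x | x.right ∈ T [340831] [] ∧ (∀ p, p ∉ fset 340831 → x.left p = 1) ∧ ∀ c ∈ CC, mact x c ∈ CC}
  one_mem' := ⟨Subgroup.one_mem _, fun _ _ => rfl, fun c hc => by rw [mact_one]; exact hc⟩
  mul_mem' := by
    rintro x y ⟨hx1, hx2, hx3⟩ ⟨hy1, hy2, hy3⟩
    refine ⟨Subgroup.mul_mem _ hx1 hy1, fun p hp => ?_, fun c hc => ?_⟩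
    · have : (x * y).left p = x.left p * y.left (x.right⁻¹ p) := rfl
      rw [this, hx2 p hp, one_mul]
      apply hy2
      intro h
      apply hp
      have h1 : x.right • fset 340831 = fset 340831 := hx1.2.1 340831 (by simp)
      rw [← h1]
      exact Finset.mem_smul_finset.mpr ⟨x.right⁻¹ p, h, by simp⟩
    · rw [mact_mul]; exact hx3 _ (hy3 c hc)

/-- the double cover -/
def G12 : Subgroup Mon :=
  { G12m with
    inv_mem' := by
      intro x hx
      have hxi : x⁻¹ = x ^ (orderOf x - 1) := by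
        rw [inv_eq_iff_mul_eq_one, ← pow_succ', Nat.sub_add_cancel (orderOf_pos x), pow_orderOf_eq_one]
      change x⁻¹ ∈ G12m
      rw [hxi]
      exact pow_mem hx _ }

theorem mem_G12 {x : Mon} : x ∈ G12 ↔
    x.right ∈ T [340831] [] ∧ (∀ p, p ∉ fset 340831 → x.left p = 1) ∧ ∀ c ∈ CC, mact x c ∈ CC := Iff.rfl

/-- the sign vector of a list -/
def sg (E : List ℕ) : GolayPt → ℤˣ := fun p => if E.getD (idx p) 1 = 2 then -1 else 1

/-- sum of products modulo 3 -/
def lc (m : List ℕ) (k : ℕ) : ℕ → ℕ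
  | 0 => 0
  | n + 1 => lc m k n + m.getD n 0 * (tB.getD n []).getD k 0

/-- check of an element -/
def mOK (E P : List ℕ) (M : List (List ℕ)) : Bool :=
  and (inT [340831] [] P) (and ((List.range 24).all fun k => or (Nat.beq (E.getD k 1) 1) (and (Nat.beq (E.getD k 1) 2) ((340831).testBit k)))
    ((List.range 6).all fun i => (List.range 24).all fun k =>
      Nat.beq ((E.getD (P.getD k 0) 1 * (tB.getD i []).getD k 0) % 3) (lc (M.getD i []) (P.getD k 0) 6 % 3)))

theorem tB_len : tB.length = 6 := rfl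

theorem mOK_spec {E P : List ℕ} {M : List (List ℕ)} (h : mOK E P M = true) :
    (⟨sg E, mkPerm P⟩ : Mon) ∈ G12 := by
  rw [mOK, Bool.and_eq_true, Bool.and_eq_true, List.all_eq_true, List.all_eq_true] at h
  obtain ⟨h1, h2, h3⟩ := h
  obtain ⟨hv, hT⟩ := inT_spec h1
  rw [mem_G12]
  refine ⟨hT, fun p hp => ?_, ?_⟩
  · have h4 := h2 (idx p) (List.mem_range.mpr (idx_lt p))
    rw [Bool.or_eq_true, Bool.and_eq_true, beq_iff, beq_iff] at h4
    change (if E.getD (idx p) 1 = 2 then (-1 : ℤˣ) else 1) = 1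
    rcases h4 with h4 | h4
    · rw [h4]; rfl
    · exact absurd (mem_fset.mpr h4.2) hp
  · have hb : ∀ i < 6, mact ⟨sg E, mkPerm P⟩ (wf (tB.getD i [])) ∈ CC := by
      intro i hi
      have h4 := h3 i (List.mem_range.mpr hi)
      rw [List.all_eq_true] at h4
      have e : mact ⟨sg E, mkPerm P⟩ (wf (tB.getD i [])) =
          ∑ j ∈ Finset.range 6, (((M.getD i []).getD j 0 : ℕ) : ZMod 3) • wf (tB.getD j []) := by
        funext p
        -- `p = g q`
        obtain ⟨q, rfl⟩ : ∃ q, p = mkPerm P q := ⟨(mkPerm P)⁻¹ p, by simp⟩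
        have h5 := h4 (idx q) (List.mem_range.mpr (idx_lt q))
        rw [beq_iff, ← idx_mkPerm hv] at h5
        have h6 : mact ⟨sg E, mkPerm P⟩ (wf (tB.getD i [])) (mkPerm P q) =
            ((sg E (mkPerm P q) : ℤ) : ZMod 3) * wf (tB.getD i []) q := by
          change ((sg E (mkPerm P q) : ℤ) : ZMod 3) * wf (tB.getD i []) ((mkPerm P)⁻¹ (mkPerm P q)) = _
          have h20 : (mkPerm P)⁻¹ (mkPerm P q) = q := (mkPerm P).symm_apply_apply q
          rw [h20]
        rw [h6, Finset.sum_apply]
        have h7 : ((sg E (mkPerm P q) : ℤ) : ZMod 3) = ((E.getD (idx (mkPerm P q)) 1 : ℕ) : ZMod 3) := by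
          have h8 := h2 (idx (mkPerm P q)) (List.mem_range.mpr (idx_lt _))
          rw [Bool.or_eq_true, Bool.and_eq_true, beq_iff, beq_iff] at h8
          change (((if E.getD (idx (mkPerm P q)) 1 = 2 then (-1 : ℤˣ) else 1 : ℤˣ) : ℤ) : ZMod 3) = _
          rcases h8 with h8 | h8
          · rw [h8]; rfl
          · rw [h8.1]; rfl
        have h9 : (((E.getD (idx (mkPerm P q)) 1 * (tB.getD i []).getD (idx q) 0 : ℕ)) : ZMod 3) =
            ((lc (M.getD i []) (idx (mkPerm P q)) 6 : ℕ) : ZMod 3) := (ZMod.natCast_eq_natCast_iff _ _ _).mpr h5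
        have h10 : wf (tB.getD i []) q = (((tB.getD i []).getD (idx q) 0 : ℕ) : ZMod 3) := rfl
        rw [h7, h10, ← Nat.cast_mul, h9]
        have h11 : ∀ n, ((lc (M.getD i []) (idx (mkPerm P q)) n : ℕ) : ZMod 3) =
            ∑ j ∈ Finset.range n, ((((M.getD i []).getD j 0 : ℕ) : ZMod 3) • wf (tB.getD j [])) (mkPerm P q) := by
          intro n
          induction n with
          | zero => rfl
          | succ n ih =>
            rw [Finset.sum_range_succ, ← ih]
            change ((lc (M.getD i []) (idx (mkPerm P q)) n + (M.getD i []).getD n 0 * (tB.getD n []).getD (idx (mkPerm P q)) 0 : ℕ) : ZMod 3) = _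
            push_cast
            rfl
        exact h11 6
      rw [e]
      apply Submodule.sum_mem
      intro j hj
      apply Submodule.smul_mem
      apply Submodule.subset_span
      have hj' : j < tB.length := by rw [tB_len]; exact Finset.mem_range.mp hj
      exact ⟨tB.getD j [], by rw [List.getD_eq_getElem _ _ hj']; exact List.getElem_mem hj', rfl⟩
    intro c hc
    induction hc using Submodule.span_induction with
    | mem f hf =>
      obtain ⟨L, hL, rfl⟩ := hf
      obtain ⟨i, hi, rfl⟩ := List.getElem_of_mem hL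
      have := hb i (by rw [← tB_len]; exact hi)
      rwa [List.getD_eq_getElem _ _ hi] at this
    | zero => rw [map_zero]; exact Submodule.zero_mem _
    | add f g _ _ hf hg => rw [map_add]; exact Submodule.add_mem _ hf hg
    | smul r f _ hf => rw [map_smul]; exact Submodule.smul_mem _ _ hf

theorem X_ok : mOK mXE D12.X mXM = true := by decide +kernel
theorem Y_ok : mOK mYE D12.Y mYM = true := by decide +kernel
theorem W_ok : mOK mWE D12.W mWM = true := by decide +kernel
theorem Z_ok : mOK mZE Z12 mZM = true := by decide +kernel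
theorem S_ok : mOK mSE t12 mSM = true := by decide +kernel
theorem T_ok : mOK mTE d12 mTM = true := by decide +kernel

/-- the projection -/
def pr12 : ↥G12 →* ↥(T [340831] []) where
  toFun x := ⟨(x : Mon).right, x.2.1⟩
  map_one' := rfl
  map_mul' _ _ := rfl

theorem pr12_surj : Function.Surjective pr12 := by
  intro g
  have hle : Subgroup.closure {mkPerm D12.X, mkPerm D12.Y, mkPerm D12.W, mkPerm Z12} ≤
      G12.map (SemidirectProduct.rightHom (φ := sact)) := by
    rw [closure_le]
    rintro s (rfl | rfl | rfl | rfl)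
    · exact ⟨_, mOK_spec X_ok, rfl⟩
    · exact ⟨_, mOK_spec Y_ok, rfl⟩
    · exact ⟨_, mOK_spec W_ok, rfl⟩
    · exact ⟨_, mOK_spec Z_ok, rfl⟩
  obtain ⟨x, hx, hxg⟩ := hle (gen12 g.2)
  exact ⟨⟨x, hx⟩, Subtype.ext hxg⟩

/-- the inner product -/
def dt (f h : GolayPt → ZMod 3) : ZMod 3 := ∑ p, f p * h p

/-- evaluation of the inner product on lists -/
def dl (A B : List ℕ) (w : ℕ → ℕ) : ℕ → ℕ
  | 0 => 0
  | n + 1 => dl A B w n + w n * (A.getD n 0 * B.getD n 0)

theorem sum_pt (f : GolayPt → ZMod 3) : ∑ p, f p = ∑ k ∈ Finset.range 24, f (pt k) := by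
  rw [Finset.sum_range]
  exact (Equiv.sum_comp ptEquiv.symm f).symm.trans (by rfl)

theorem self_orth_check : ((List.range 6).all fun i => (List.range 6).all fun j =>
    Nat.beq (dl (tB.getD i []) (tB.getD j []) (fun _ => 1) 24 % 3) 0) = true := by decide +kernel

theorem dt_wf {i j : ℕ} (hi : i < 6) (hj : j < 6) : dt (wf (tB.getD i [])) (wf (tB.getD j [])) = 0 := by
  have h := self_orth_check
  rw [List.all_eq_true] at h
  have h1 := h i (List.mem_range.mpr hi)
  rw [List.all_eq_true] at h1
  have h2 := h1 j (List.mem_range.mpr hj)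
  rw [beq_iff] at h2
  rw [dt, sum_pt]
  have h3 : ∀ n ≤ 24, ((dl (tB.getD i []) (tB.getD j []) (fun _ => 1) n : ℕ) : ZMod 3) =
      ∑ k ∈ Finset.range n, wf (tB.getD i []) (pt k) * wf (tB.getD j []) (pt k) := by
    intro n
    induction n with
    | zero => intro _; rfl
    | succ n ih =>
      intro hn
      rw [Finset.sum_range_succ, ← ih (by omega)]
      change ((dl (tB.getD i []) (tB.getD j []) (fun _ => 1) n + 1 * ((tB.getD i []).getD n 0 * (tB.getD j []).getD n 0) : ℕ) : ZMod 3) = _
      have e : ∀ L : List ℕ, wf L (pt n) = ((L.getD n 0 : ℕ) : ZMod 3) := by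
        intro L; rw [wf, idx_pt n (by omega)]
      rw [e, e]
      push_cast
      ring
  rw [← h3 24 le_rfl]
  exact (ZMod.natCast_eq_zero_iff _ _).mpr (Nat.dvd_of_mod_eq_zero h2)

theorem dt_CC {f h : GolayPt → ZMod 3} (hf : f ∈ CC) (hh : h ∈ CC) : dt f h = 0 := by
  have key : ∀ i < 6, ∀ f ∈ CC, dt f (wf (tB.getD i [])) = 0 := by
    intro i hi f hf
    induction hf using Submodule.span_induction with
    | mem f hf =>
      obtain ⟨L, hL, rfl⟩ := hf
      obtain ⟨j, hj, rfl⟩ := List.getElem_of_mem hL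
      have := dt_wf (i := j) (j := i) (by rw [← tB_len]; exact hj) hi
      rwa [List.getD_eq_getElem _ _ hj] at this
    | zero => simp [dt]
    | add f g _ _ hf hg =>
      simp only [dt, Pi.add_apply, add_mul, Finset.sum_add_distrib] at *
      rw [hf, hg, add_zero]
    | smul r f _ hf =>
      simp only [dt, Pi.smul_apply, smul_eq_mul, mul_assoc] at *
      rw [← Finset.mul_sum, hf, mul_zero]
  induction hh using Submodule.span_induction with
  | mem h hh =>
    obtain ⟨L, hL, rfl⟩ := hh
    obtain ⟨j, hj, rfl⟩ := List.getElem_of_mem hL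
    have := key j (by rw [← tB_len]; exact hj) f hf
    rwa [List.getD_eq_getElem _ _ hj] at this
  | zero => simp [dt]
  | add g g' _ _ hg hg' =>
    simp only [dt, Pi.add_apply, mul_add, Finset.sum_add_distrib] at *
    rw [hg, hg', add_zero]
  | smul r g _ hg =>
    simp only [dt, Pi.smul_apply, smul_eq_mul] at *
    have : ∀ p, f p * (r * g p) = r * (f p * g p) := fun p => by ring
    simp only [this]
    rw [← Finset.mul_sum, hg, mul_zero]

/-- weighted sum of the certificates -/
def cs (l : List (ℕ × ℕ × ℕ)) (k : ℕ) : ℕ :=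
  l.foldr (fun c s => c.2.2 * ((tB.getD c.1 []).getD k 0 * (tB.getD c.2.1 []).getD k 0) + s) 0

theorem cert_check : (tC.all fun c => and (c.2.all fun d => and (Nat.blt d.1 6) (Nat.blt d.2.1 6))
    ((List.range 24).all fun k => Nat.beq (cs c.2 k % 3) (if k = c.1 then 1 else if k = 0 then 2 else 0))) = true := by
  decide +kernel

theorem tC_cover : ∀ k < 24, (340831).testBit k = true → k = 0 ∨ ∃ c ∈ tC, c.1 = k := by decide

theorem tC_ne : ∀ c ∈ tC, c.1 ≠ 0 ∧ c.1 < 24 := by decide

theorem const_of_ker {x : Mon} (hx : x ∈ G12) (h1 : x.right = 1) : ∀ p ∈ fset 340831, x.left p = x.left (pt 0) := by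
  obtain ⟨_, _, h3⟩ := mem_G12.mp hx
  have hzero : ∀ i < 6, ∀ j < 6, ∑ p, ((x.left p : ℤ) : ZMod 3) * (wf (tB.getD i []) p * wf (tB.getD j []) p) = 0 := by
    intro i hi j hj
    have hmem : ∀ i < 6, wf (tB.getD i []) ∈ CC := by
      intro i hi
      apply Submodule.subset_span
      have hj' : i < tB.length := by rw [tB_len]; exact hi
      exact ⟨tB.getD i [], by rw [List.getD_eq_getElem _ _ hj']; exact List.getElem_mem hj', rfl⟩
    have h4 := dt_CC (h3 _ (hmem i hi)) (hmem j hj)
    rw [← h4, dt]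
    apply Finset.sum_congr rfl
    intro p _
    have : mact x (wf (tB.getD i [])) p = ((x.left p : ℤ) : ZMod 3) * wf (tB.getD i []) p := by
      change ((x.left p : ℤ) : ZMod 3) * wf (tB.getD i []) (x.right⁻¹ p) = _
      rw [h1, inv_one, Equiv.Perm.one_apply]
    rw [this, mul_assoc]
  have hcheck := cert_check
  rw [List.all_eq_true] at hcheck
  intro p hp
  rcases tC_cover (idx p) (idx_lt p) (mem_fset.mp hp) with h | ⟨c, hc, hck⟩
  · have : p = pt 0 := by rw [← pt_idx p, h]
    rw [this]
  · have h4 := hcheck c hc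
    rw [Bool.and_eq_true, List.all_eq_true, List.all_eq_true] at h4
    obtain ⟨h5, h6⟩ := h4
    have key : ∀ l : List (ℕ × ℕ × ℕ), (∀ d ∈ l, d.1 < 6 ∧ d.2.1 < 6) →
        ∑ p, ((x.left p : ℤ) : ZMod 3) * ((cs l (idx p) : ℕ) : ZMod 3) = 0 := by
      intro l
      induction l with
      | nil => intro _; simp [cs]
      | cons d l ih =>
        intro hl
        have h7 := ih fun d hd => hl d (List.mem_cons_of_mem _ hd)
        have h8 := hzero d.1 (hl d List.mem_cons_self).1 d.2.1 (hl d List.mem_cons_self).2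
        have e : ∀ p, ((x.left p : ℤ) : ZMod 3) * ((cs (d :: l) (idx p) : ℕ) : ZMod 3) =
            (d.2.2 : ZMod 3) * (((x.left p : ℤ) : ZMod 3) * (wf (tB.getD d.1 []) p * wf (tB.getD d.2.1 []) p)) +
            ((x.left p : ℤ) : ZMod 3) * ((cs l (idx p) : ℕ) : ZMod 3) := by
          intro p
          change ((x.left p : ℤ) : ZMod 3) * ((d.2.2 * ((tB.getD d.1 []).getD (idx p) 0 * (tB.getD d.2.1 []).getD (idx p) 0) + cs l (idx p) : ℕ) : ZMod 3) = _
          simp only [wf]
          push_cast
          ring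
        simp only [e]
        rw [Finset.sum_add_distrib, ← Finset.mul_sum, h8, h7, mul_zero, add_zero]
    have h9 := key c.2 (fun d hd => by
      have := h5 d hd
      rw [Bool.and_eq_true, Nat.blt_eq, Nat.blt_eq] at this
      exact this)
    obtain ⟨hc0, hc24⟩ := tC_ne c hc
    have h10 : ∀ q, ((cs c.2 (idx q) : ℕ) : ZMod 3) = if q = pt c.1 then 1 else if q = pt 0 then 2 else 0 := by
      intro q
      have h11 := h6 (idx q) (List.mem_range.mpr (idx_lt q))
      rw [beq_iff] at h11
      have h12 : ((cs c.2 (idx q) : ℕ) : ZMod 3) = ((if idx q = c.1 then 1 else if idx q = 0 then 2 else 0 : ℕ) : ZMod 3) := by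
        rw [ZMod.natCast_eq_natCast_iff]
        change _ % 3 = _ % 3
        rw [h11]
        split_ifs <;> rfl
      rw [h12]
      have e1 : idx q = c.1 ↔ q = pt c.1 := by
        constructor
        · intro h; rw [← pt_idx q, h]
        · intro h; rw [h, idx_pt _ hc24]
      have e2 : idx q = 0 ↔ q = pt 0 := by
        constructor
        · intro h; rw [← pt_idx q, h]
        · intro h; rw [h, idx_pt _ (by norm_num)]
      simp only [e1, e2]
      split_ifs <;> simp
    have hne : pt c.1 ≠ pt 0 := fun h => hc0 (pt_inj hc24 (by norm_num) h)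
    have h13 : ∑ q, ((x.left q : ℤ) : ZMod 3) * ((cs c.2 (idx q) : ℕ) : ZMod 3) =
        ((x.left (pt c.1) : ℤ) : ZMod 3) + 2 * ((x.left (pt 0) : ℤ) : ZMod 3) := by
      simp only [h10]
      have e : ∀ q, ((x.left q : ℤ) : ZMod 3) * (if q = pt c.1 then 1 else if q = pt 0 then 2 else 0) =
          (if q = pt c.1 then ((x.left q : ℤ) : ZMod 3) else 0) + (if q = pt 0 then 2 * ((x.left q : ℤ) : ZMod 3) else 0) := by
        intro q
        by_cases h1 : q = pt c.1
        · rw [if_pos h1, if_pos h1, if_neg (by rw [h1]; exact hne)]; ring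
        · rw [if_neg h1, if_neg h1]
          by_cases h2 : q = pt 0
          · rw [if_pos h2, if_pos h2]; ring
          · rw [if_neg h2, if_neg h2]; ring
      simp only [e]
      rw [Finset.sum_add_distrib, Finset.sum_ite_eq' Finset.univ, Finset.sum_ite_eq' Finset.univ]
      simp
    rw [h13] at h9
    have hp' : p = pt c.1 := by rw [← pt_idx p, hck]
    rw [hp']
    rcases Int.units_eq_one_or (x.left (pt c.1)) with h14 | h14 <;>
      rcases Int.units_eq_one_or (x.left (pt 0)) with h15 | h15 <;> rw [h14, h15] at h9 ⊢ <;>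
      revert h9 <;> decide

/-- the sign change on the dodecad -/
def nd : GolayPt → ℤˣ := fun p => if (340831).testBit (idx p) = true then -1 else 1

/-- the central element -/
def negD : Mon := ⟨nd, 1⟩

theorem ker_cases {x : Mon} (hx : x ∈ G12) (h1 : x.right = 1) : x = 1 ∨ x = negD := by
  have hc := const_of_ker hx h1
  have ho := (mem_G12.mp hx).2.1
  rcases Int.units_eq_one_or (x.left (pt 0)) with h | h
  · left
    refine SemidirectProduct.ext ?_ h1
    funext p
    by_cases hp : p ∈ fset 340831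
    · rw [hc p hp, h]; rfl
    · rw [ho p hp]; rfl
  · right
    refine SemidirectProduct.ext ?_ h1
    funext p
    change x.left p = if (340831).testBit (idx p) = true then -1 else 1
    by_cases hp : p ∈ fset 340831
    · rw [hc p hp, h, if_pos (mem_fset.mp hp)]
    · rw [ho p hp, if_neg (fun h => hp (mem_fset.mpr h))]

/-- sign function of a list on indices -/
def se (E : List ℕ) (k : ℕ) : ℤˣ := if E.getD k 1 = 2 then -1 else 1

theorem ST_check : ((List.range 24).all fun k => decide (se mSE k * se mTE (t12.getD k 0) =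
    (if (340831).testBit k = true then -1 else 1) * (se mTE k * se mSE (d12.getD k 0)))) = true := by decide +kernel

theorem inv_of_sq {P : List ℕ} (hP : valid P = true) (h : cl P P = il) : (mkPerm P)⁻¹ = mkPerm P := by
  rw [inv_eq_iff_mul_eq_one]
  exact Rd_inj (Rd_mul (Rd_mk hP) (Rd_mk hP)) (by rw [h]; exact Rd_one)

theorem vt : valid t12 = true := by decide +kernel
theorem vd : valid d12 = true := by decide +kernel

theorem ST_eq : (⟨sg mSE, mkPerm t12⟩ : Mon) * ⟨sg mTE, mkPerm d12⟩ = negD * (⟨sg mTE, mkPerm d12⟩ * ⟨sg mSE, mkPerm t12⟩) := by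
  refine SemidirectProduct.ext ?_ ?_
  · funext p
    have h := ST_check
    rw [List.all_eq_true] at h
    have h1 := h (idx p) (List.mem_range.mpr (idx_lt p))
    rw [decide_eq_true_eq] at h1
    have e1 : ((⟨sg mSE, mkPerm t12⟩ : Mon) * ⟨sg mTE, mkPerm d12⟩).left p = sg mSE p * sg mTE ((mkPerm t12)⁻¹ p) := rfl
    have e2 : (negD * ((⟨sg mTE, mkPerm d12⟩ : Mon) * ⟨sg mSE, mkPerm t12⟩)).left p =
        nd p * (sg mTE p * sg mSE ((mkPerm d12)⁻¹ p)) := rfl
    rw [e1, e2, inv_of_sq vt (by decide +kernel), inv_of_sq vd (by decide +kernel)]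
    have e3 : sg mTE (mkPerm t12 p) = se mTE (t12.getD (idx p) 0) := by
      unfold sg se; rw [idx_mkPerm vt]
    have e4 : sg mSE (mkPerm d12 p) = se mSE (d12.getD (idx p) 0) := by
      unfold sg se; rw [idx_mkPerm vd]
    rw [e3, e4]
    exact h1
  · change mkPerm t12 * mkPerm d12 = 1 * (mkPerm d12 * mkPerm t12)
    rw [one_mul]
    exact Rd_inj (Rd_mul (Rd_mk vt) (Rd_mk vd)) (by
      rw [show cl t12 d12 = cl d12 t12 by decide +kernel]
      exact Rd_mul (Rd_mk vd) (Rd_mk vt))

theorem negD_ne : negD ≠ 1 := by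
  intro h
  have h1 : (negD.left (pt 0) : ℤˣ) = (1 : Mon).left (pt 0) := by rw [h]
  have h2 : (if (340831).testBit (idx (pt 0)) = true then (-1 : ℤˣ) else 1) = 1 := h1
  rw [idx_pt 0 (by norm_num)] at h2
  revert h2; decide

theorem negD_comm : ∃ a b : ↥G12, ((⁅a, b⁆ : ↥G12) : Mon) = negD := by
  refine ⟨⟨_, mOK_spec S_ok⟩, ⟨_, mOK_spec T_ok⟩, ?_⟩
  have h := ST_eq
  change (⟨sg mSE, mkPerm t12⟩ : Mon) * ⟨sg mTE, mkPerm d12⟩ * (⟨sg mSE, mkPerm t12⟩ : Mon)⁻¹ * (⟨sg mTE, mkPerm d12⟩ : Mon)⁻¹ = negD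
  rw [h]; group

theorem ex12 : ∃ (Γ : Type) (_ : Group Γ) (_ : Finite Γ) (σ : Γ →* ↥(T [340831] [])),
    Cfsg.IsStemExtension σ ∧ Nat.card σ.ker = 2 := by
  obtain ⟨a, b, hab⟩ := negD_comm
  have hk : ∀ x : ↥G12, x ∈ pr12.ker ↔ x = 1 ∨ x = ⁅a, b⁆ := by
    intro x
    constructor
    · intro hx
      have h1 : (x : Mon).right = 1 := congrArg Subtype.val (show pr12 x = 1 from hx)
      rcases ker_cases x.2 h1 with h | h
      · left; exact Subtype.ext h
      · right; exact Subtype.ext (by rw [h, hab])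
    · rintro (rfl | rfl)
      · exact one_mem _
      · rw [MonoidHom.mem_ker]
        apply Subtype.ext
        change ((⁅a, b⁆ : ↥G12) : Mon).right = 1
        rw [hab]; rfl
  have hne : (⁅a, b⁆ : ↥G12) ≠ 1 := by
    intro h
    apply negD_ne
    rw [← hab, h]; rfl
  refine ⟨↥G12, inferInstance, inferInstance, pr12, ⟨pr12_surj, ?_, ?_⟩, ?_⟩
  · intro x hx
    rw [mem_center_iff]
    intro g
    rcases (hk x).mp hx with rfl | h
    · rw [one_mul, mul_one]
    · have h1 : g * x * g⁻¹ ∈ pr12.ker := (MonoidHom.normal_ker pr12).conj_mem x hx g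
      rcases (hk _).mp h1 with h2 | h2
      · exfalso
        apply hne
        rw [← h]
        exact conj_eq_one_iff.mp h2
      · rw [← h, mul_inv_eq_iff_eq_mul] at h2
        exact h2
  · intro x hx
    rcases (hk x).mp hx with rfl | rfl
    · exact one_mem _
    · exact commutator_mem_commutator (mem_top a) (mem_top b)
  · rw [Nat.card_eq_two_iff]
    refine ⟨1, ⟨⁅a, b⁆, (hk _).mpr (Or.inr rfl)⟩, ?_, ?_⟩
    · intro h
      exact hne (congrArg Subtype.val h).symm
    · ext x
      simp only [Set.mem_insert_iff, Set.mem_singleton_iff, Set.mem_univ, iff_true]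
      rcases (hk x).mp x.2 with h | h
      · left; exact Subtype.ext h
      · right; exact Subtype.ext h

end CfsgLib.Mult15
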