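import Cfsg.Agent.LibMult15k

/-! The Schur multiplier of `M12` (seat helper15). -/

set_option autoImplicit false
set_option maxRecDepth 100000
set_option linter.unusedSectionVars false
set_option linter.style.haveILetI false

namespace CfsgLib.Mult15

open Cfsg CfsgLib.Golay CfsgLib.M24 CfsgLib.OutM Subgroup
open scoped commutatorElement Pointwise

universe u

theorem L1_of_SD {Q : Type u} [Group Q] {Γ : Type u} [Group Γ] {σ : Γ →* Q} (hσ : Function.Surjective σ)
    (hc : σ.ker ≤ center Γ) (hcard : Nat.card σ.ker = 2) (r s : Q) (hs : s * s = 1) (hr : s * r * s⁻¹ = r ^ 3) :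
    L1 σ (r ^ 4) := by
  obtain ⟨R, rfl⟩ := hσ r
  obtain ⟨S, rfl⟩ := hσ s
  have hk : σ (R⁻¹ ^ 3 * (S * R * S⁻¹)) = 1 := by
    rw [map_mul, map_pow, map_mul, map_mul, map_inv, map_inv, hr, inv_pow, inv_mul_cancel]
  obtain ⟨z, hz⟩ : ∃ z, z = R⁻¹ ^ 3 * (S * R * S⁻¹) := ⟨_, rfl⟩
  rw [← hz] at hk
  have hzc : ∀ g, g * z = z * g := mem_center_iff.mp (hc hk)
  have hz2 : z * z = 1 := L1_one hcard z hk
  have e1 : S * R * S⁻¹ = R ^ 3 * z := by rw [hz, inv_pow, mul_inv_cancel_left]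
  have hzR : Commute R z := hzc R
  have e2 : ∀ n : ℕ, S * R ^ n * S⁻¹ = R ^ (3 * n) * z ^ n := by
    intro n
    have h1 : S * R ^ n * S⁻¹ = (S * R * S⁻¹) ^ n := (conj_pow).symm
    rw [h1, e1, (hzR.pow_left 3).mul_pow, ← pow_mul]
  have hss : σ (S * S) = 1 := by rw [map_mul, hs]
  have e3 : S * (S * R * S⁻¹) * S⁻¹ = R := by
    have h1 : S * (S * R * S⁻¹) * S⁻¹ = (S * S) * R * (S * S)⁻¹ := by group
    rw [h1, ← mem_center_iff.mp (hc hss) R, mul_inv_cancel_right]
  have hR8 : R ^ 8 = 1 := by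
    have h1 : S * (R ^ 3 * z) * S⁻¹ = R := by rw [← e1]; exact e3
    have h2 : S * (R ^ 3 * z) * S⁻¹ = R ^ 9 := by
      have h3 : S * (R ^ 3 * z) * S⁻¹ = (S * R ^ 3 * S⁻¹) * z := by
        rw [← mul_assoc, mul_assoc (S * R ^ 3), ← hzc S⁻¹, ← mul_assoc]
      rw [h3, e2 3]
      have h4 : z ^ 3 * z = 1 := by
        rw [← pow_succ, show (3 + 1 : ℕ) = 2 * 2 by norm_num, pow_mul, pow_two z, hz2, one_pow]
      rw [mul_assoc, h4, mul_one]
    rw [h2] at h1
    have h5 : R ^ 8 * R = R := by rw [← pow_succ]; exact h1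
    exact mul_eq_right.mp h5
  intro T hT
  have hk2 : σ ((R ^ 4)⁻¹ * T) = 1 := by rw [map_mul, map_inv, map_pow, hT, inv_mul_cancel]
  have h2 := mem_center_iff.mp (hc hk2) (R ^ 4)
  have h3 := L1_one hcard _ hk2
  have h4 : T = R ^ 4 * ((R ^ 4)⁻¹ * T) := by group
  calc T * T = R ^ 4 * ((R ^ 4)⁻¹ * T) * (R ^ 4 * ((R ^ 4)⁻¹ * T)) := by rw [← h4]
    _ = R ^ 4 * (((R ^ 4)⁻¹ * T) * R ^ 4) * ((R ^ 4)⁻¹ * T) := by group
    _ = (R ^ 4 * R ^ 4) * (((R ^ 4)⁻¹ * T) * ((R ^ 4)⁻¹ * T)) := by rw [← h2]; group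
    _ = 1 := by rw [h3, mul_one, ← pow_add, hR8]

/-- the group `4 × 4` -/
def W12 : List (List ℕ) := prodL [il, a12, cl a12 a12, cl a12 (cl a12 a12)] [il, b12, cl b12 b12, cl b12 (cl b12 b12)]

/-- the four-group -/
def D12' : List (List ℕ) := [il, t12, d12, cl t12 d12]

def chk12a : Bool := and (clos W12 [a12, b12]) (and (decide W12.Nodup) (and (clos D12' [t12, d12]) (and (decide D12'.Nodup)
  (and (cl (cl y12 y12) y12 == il) (and ([y12, t12, d12].all fun g => [a12, b12].all fun s => W12.any fun s' => cl g s == cl s' g)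
   (and (W12.all fun s => or (s == il) (!(cl y12 s == cl s y12)))
    (and ([t12, d12].all fun g => or (cl y12 g == cl g y12) (cl (cl y12 g) y12 == g))
     (W12.all fun s => or (s == il) (!(D12'.contains s))))))))))

def chk12b : Bool := and (cl cd12 t12 == cl d12 cd12) (and (cl ctd12 t12 == cl (cl t12 d12) ctd12)
  (and (cl cta12 (pwl r11 4) == cl (cl t12 a12) cta12) (and (cl ctb12 (pwl r11 4) == cl (cl t12 b12) ctb12)
   (and (cl ctab12 (pwl r11 4) == cl (cl t12 (cl a12 b12)) ctab12) (and (cl t12 t12 == il) (and (cl t12 d12 == cl d12 t12)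
    (and (cl s11 s11 == il) (and (cl s11 r11 == cl (pwl r11 3) s11) (and (!(t12 == il)) (and (!(d12 == il)) (!(cl t12 d12 == il))))))))))))

theorem need12 : ([a12, b12, y12, t12, d12, cd12, ctd12, cta12, ctb12, ctab12, r11, s11, hx12, hy12, ht12].all
    (inT [340831] [])) = true := by decide +kernel

theorem ca : chk12a = true := by decide +kernel
theorem cb : chk12b = true := by decide +kernel

theorem setL_pair {H : Subgroup (Equiv.Perm GolayPt)} {A B : List ℕ} {a b : ↥H} (ha : Rd (a : Equiv.Perm GolayPt) A)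
    (hb : Rd (b : Equiv.Perm GolayPt) B) : setL H [A, B] = ({a, b} : Set ↥H) := by
  ext g
  constructor
  · rintro ⟨P, hP, hg⟩
    rcases List.mem_cons.mp hP with rfl | hP
    · exact Or.inl (sub_ext hg ha)
    · rw [List.mem_singleton] at hP
      rw [hP] at hg
      exact Or.inr (sub_ext hg hb)
  · rintro (rfl | rfl)
    · exact ⟨A, by simp, ha⟩
    · exact ⟨B, by simp, hb⟩

theorem MemL_pows4 {H : Subgroup (Equiv.Perm GolayPt)} {S : Subgroup ↥H} {P : List ℕ} {g : ↥H} (hg : g ∈ S)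
    (h : Rd (g : Equiv.Perm GolayPt) P) : MemL S [il, P, cl P P, cl P (cl P P)] := by
  intro Q hQ
  rcases List.mem_cons.mp hQ with rfl | hQ
  · exact ⟨1, S.one_mem, sub_one⟩
  rcases List.mem_cons.mp hQ with rfl | hQ
  · exact ⟨g, hg, h⟩
  rcases List.mem_cons.mp hQ with rfl | hQ
  · exact ⟨g * g, S.mul_mem hg hg, sub_mul h h⟩
  rcases List.mem_cons.mp hQ with rfl | hQ
  · exact ⟨g * (g * g), S.mul_mem hg (S.mul_mem hg hg), sub_mul h (sub_mul h h)⟩
  · exact absurd hQ (by simp)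

theorem mult12 : Cfsg.HasCyclicSchurMultiplier ↥Cfsg.Spor.M12 2 := by
  rw [M12_eq]
  have nd : ∀ P ∈ [a12, b12, y12, t12, d12, cd12, ctd12, cta12, ctb12, ctab12, r11, s11, hx12, hy12, ht12],
      ∃ g : ↥(T [340831] []), Rd (g : Equiv.Perm GolayPt) P := fun P hP => rdT (List.all_eq_true.mp need12 P hP)
  obtain ⟨a, ha⟩ := nd a12 (by simp)
  obtain ⟨b, hb⟩ := nd b12 (by simp)
  obtain ⟨y, hy⟩ := nd y12 (by simp)
  obtain ⟨t, ht⟩ := nd t12 (by simp)
  obtain ⟨d, hd⟩ := nd d12 (by simp)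
  obtain ⟨c1, hc1⟩ := nd cd12 (by simp)
  obtain ⟨c2, hc2⟩ := nd ctd12 (by simp)
  obtain ⟨c3, hc3⟩ := nd cta12 (by simp)
  obtain ⟨c4, hc4⟩ := nd ctb12 (by simp)
  obtain ⟨c5, hc5⟩ := nd ctab12 (by simp)
  obtain ⟨r, hr⟩ := nd r11 (by simp)
  obtain ⟨s, hs⟩ := nd s11 (by simp)
  obtain ⟨hx, hhx⟩ := nd hx12 (by simp)
  obtain ⟨hy', hhy⟩ := nd hy12 (by simp)
  obtain ⟨ht', hht⟩ := nd ht12 (by simp)
  have hca := ca
  have hcb := cb
  simp only [chk12a, chk12b, Bool.and_eq_true, Bool.or_eq_true, beq_iff_eq, decide_eq_true_eq,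
    Bool.not_eq_true', beq_eq_false_iff_ne, List.all_eq_true, List.any_eq_true] at hca hcb
  obtain ⟨k1, k2, k3, k4, k5, k6, k7, k8, k9⟩ := hca
  obtain ⟨m1, m2, m3, m4, m5, m6, m7, m8, m9, m10, m11, m12⟩ := hcb
  have hwset := setL_pair ha hb
  have hdset := setL_pair ht hd
  let W : Subgroup ↥(T [340831] []) := closure {a, b}
  let D : Subgroup ↥(T [340831] []) := closure {t, d}
  have ham : a ∈ W := subset_closure (Or.inl rfl)
  have hbm : b ∈ W := subset_closure (Or.inr rfl)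
  have htm : t ∈ D := subset_closure (Or.inl rfl)
  have hdm : d ∈ D := subset_closure (Or.inr rfl)
  have hWmem : ∀ g ∈ W, ∃ P ∈ W12, Rd (g : Equiv.Perm GolayPt) P := by
    have := clos_spec (H := T [340831] []) k1
    rw [hwset] at this
    exact this
  have hDmem : ∀ g ∈ D, ∃ P ∈ D12', Rd (g : Equiv.Perm GolayPt) P := by
    have := clos_spec (H := T [340831] []) k3
    rw [hdset] at this
    exact this
  have hWL : MemL W W12 := MemL_prod (MemL_pows4 ham ha) (MemL_pows4 hbm hb)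
  have hDL : MemL D D12' := by
    intro Q hQ
    rcases List.mem_cons.mp hQ with rfl | hQ
    · exact ⟨1, D.one_mem, sub_one⟩
    rcases List.mem_cons.mp hQ with rfl | hQ
    · exact ⟨t, htm, ht⟩
    rcases List.mem_cons.mp hQ with rfl | hQ
    · exact ⟨d, hdm, hd⟩
    rcases List.mem_cons.mp hQ with rfl | hQ
    · exact ⟨t * d, D.mul_mem htm hdm, sub_mul ht hd⟩
    · exact absurd hQ (by simp)
  have hnorm : ∀ g : ↥(T [340831] []), ∀ P, Rd (g : Equiv.Perm GolayPt) P →
      (∀ s ∈ [a12, b12], ∃ s' ∈ W12, cl P s = cl s' P) → ∀ w ∈ W, g * w * g⁻¹ ∈ W := by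
    intro d P hd h w hw
    have h2 : W ≤ W.comap (MulAut.conj d).toMonoidHom := by
      apply (closure_le _).mpr
      intro g hg
      rw [← hwset] at hg
      obtain ⟨s, hs, hg⟩ := hg
      obtain ⟨s', hs', e⟩ := h s hs
      obtain ⟨g', hg', hr⟩ := hWL s' hs'
      show d * g * d⁻¹ ∈ W
      have : d * g = g' * d := sub_eq (sub_mul hd hg) (sub_mul hr hd) e
      rw [this, mul_inv_cancel_right]
      exact hg'
    exact h2 hw
  have hgD : ∀ g ∈ ({t, d} : Set ↥(T [340831] [])), ∃ P ∈ [t12, d12], Rd (g : Equiv.Perm GolayPt) P := by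
    intro g hg
    rw [← hdset] at hg
    exact hg
  have hle : D ≤ normalizer (W : Set ↥(T [340831] [])) := by
    apply (closure_le _).mpr
    intro g hg
    obtain ⟨P, hP, hgP⟩ := hgD g hg
    exact mem_norm_fin W g (hnorm g P hgP (k6 P (List.mem_cons_of_mem _ hP)))
  have hDW : ∀ g ∈ D, ∀ w ∈ W, g * w * g⁻¹ ∈ W := fun g hg w hw => (mem_normalizer_iff.mp (hle hg) w).mp hw
  have hDy : ∀ g ∈ D, g⁻¹ * y * g = y ∨ g⁻¹ * y * g = y⁻¹ := by
    intro g hg
    have base : ∀ e ∈ ({t, d} : Set ↥(T [340831] [])), e⁻¹ * y * e = y ∨ e⁻¹ * y * e = y⁻¹ := by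
      intro d hd
      obtain ⟨P, hP, hdP⟩ := hgD d hd
      rcases k8 P hP with h | h
      · left
        have : y * d = d * y := sub_eq (sub_mul hy hdP) (sub_mul hdP hy) h
        rw [mul_assoc, this, inv_mul_cancel_left]
      · right
        have : y * d * y = d := sub_eq (sub_mul (sub_mul hy hdP) hy) hdP h
        rw [eq_inv_iff_mul_eq_one, mul_assoc, mul_assoc, ← mul_assoc y, this, inv_mul_cancel]
    have hinv : ∀ z c : ↥(T [340831] []), z⁻¹ * c * z = c → z * c * z⁻¹ = c := by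
      intro z c h
      calc z * c * z⁻¹ = z * (z⁻¹ * c * z) * z⁻¹ := by rw [h]
        _ = c := by group
    induction hg using closure_induction with
    | mem x hx => exact base x hx
    | one => left; group
    | mul p q _ _ hp hq =>
      have e1 : (p * q)⁻¹ * y * (p * q) = q⁻¹ * (p⁻¹ * y * p) * q := by group
      have e2 : q⁻¹ * y⁻¹ * q = (q⁻¹ * y * q)⁻¹ := by group
      rw [e1]
      rcases hp with hp | hp <;> rcases hq with hq | hq
      · left; rw [hp, hq]
      · right; rw [hp, hq]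
      · right; rw [hp, e2, hq]
      · left; rw [hp, e2, hq, inv_inv]
    | inv p _ hp =>
      rcases hp with hp | hp
      · left
        rw [inv_inv]; exact hinv p y hp
      · right
        calc p⁻¹⁻¹ * y * p⁻¹ = (p * y⁻¹ * p⁻¹)⁻¹ := by group
          _ = (p * (p⁻¹ * y * p) * p⁻¹)⁻¹ := by rw [hp]
          _ = y⁻¹ := by group
  have hWD : ∀ g ∈ W, g ∈ D → g = 1 := by
    intro g hg hg'
    obtain ⟨P, hP, hgP⟩ := hWmem g hg
    obtain ⟨P', hP', hgP'⟩ := hDmem g hg'
    have e1 := Rd_unique hgP hgP'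
    rcases k9 P hP with h | h
    · exact sub_ext hgP (by rw [h]; exact sub_one)
    · rw [← Bool.not_eq_true, List.contains_iff_mem] at h
      rw [← e1] at hP'
      exact absurd hP' h
  have htt : t * t = 1 := sub_eq (sub_mul ht ht) sub_one m6
  have hne : ∀ (g : ↥(T [340831] [])) (P : List ℕ), Rd (g : Equiv.Perm GolayPt) P → P ≠ il → g ≠ 1 := by
    intro g P hg hP h
    apply hP
    apply Rd_unique hg
    rw [h]; exact sub_one
  refine cyclic_two_of ?_ (W ⊔ D) ?_ t d (sub_eq (sub_mul ht hd) (sub_mul hd ht) m7) htt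
    ⟨c1, sub_eq (sub_mul hc1 ht) (sub_mul hd hc1) m1⟩ ⟨c2, sub_eq (sub_mul hc2 ht) (sub_mul (sub_mul ht hd) hc2) m2⟩ ?_ ex12
  · intro p hp h2
    by_cases h3 : p = 3
    · subst h3
      refine goodHeis hx12 hy12 ht12 hhx hhy hht (by decide +kernel) ?_
      rw [card12]; norm_num
    · apply good_of_sq p hp
      rw [card12, show 95040 = (2 ^ 6 * 3 ^ 3) * 55 by norm_num]
      intro h
      have hco : Nat.Coprime (p ^ 2) (2 ^ 6 * 3 ^ 3) := by
        apply Nat.Coprime.pow_left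
        apply Nat.Coprime.mul_right
        · apply Nat.Coprime.pow_right; rw [Nat.coprime_primes hp Nat.prime_two]; exact h2
        · apply Nat.Coprime.pow_right; rw [Nat.coprime_primes hp Nat.prime_three]; exact h3
      exact not_sq hp [5, 11] (by intro q hq; fin_cases hq <;> norm_num) (by norm_num) (by decide)
        (hco.dvd_of_dvd_mul_left h)
  · apply index_of_card _ 2 _ (card_sup W D hle hWD)
    rw [card_ge W W12 k2 hWL hWmem, card_ge D D12' k4 hDL hDmem, card12]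
    have e1 : W12.length = 16 := by decide +kernel
    have e2 : D12'.length = 4 := rfl
    rw [e1, e2]; norm_num
  · intro Γ _ _ σ hσ hc hk hLt
    have hLd : L1 σ d := L1_conj hσ c1 (sub_eq (sub_mul hc1 ht) (sub_mul hd hc1) m1) hLt
    have hLtd : L1 σ (t * d) := L1_conj hσ c2 (sub_eq (sub_mul hc2 ht) (sub_mul (sub_mul ht hd) hc2) m2) hLt
    have hss : s * s = 1 := sub_eq (sub_mul hs hs) sub_one m8
    have hsr : s * r * s⁻¹ = r ^ 3 := by
      rw [mul_inv_eq_iff_eq_mul]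
      exact sub_eq (sub_mul hs hr) (sub_mul (sub_pow hr 3) hs) m9
    have hLv : L1 σ (r ^ 4) := L1_of_SD hσ hc hk r s hss hsr
    have hr4 := sub_pow hr 4
    have hLta : L1 σ (t * a) := L1_conj hσ c3 (sub_eq (sub_mul hc3 hr4) (sub_mul (sub_mul ht ha) hc3) m3) hLv
    have hLtb : L1 σ (t * b) := L1_conj hσ c4 (sub_eq (sub_mul hc4 hr4) (sub_mul (sub_mul ht hb) hc4) m4) hLv
    have hLtab : L1 σ (t * (a * b)) :=
      L1_conj hσ c5 (sub_eq (sub_mul hc5 hr4) (sub_mul (sub_mul ht (sub_mul ha hb)) hc5) m5) hLv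
    obtain ⟨D', hD', hD1⟩ := lift_V4 hσ t d hLt hLd hLtd (hne t t12 ht m10) (hne d d12 hd m11)
      (hne _ _ (sub_mul ht hd) m12)
    apply split2' hσ hc hk W D y
    · exact sub_eq (sub_mul (sub_mul hy hy) hy) sub_one k5
    · exact hnorm y y12 hy (k6 y12 (by simp))
    · intro w hw hyw
      obtain ⟨P, hP, hwP⟩ := hWmem w hw
      rcases k7 P hP with h | h
      · exact sub_ext hwP (by rw [h]; exact sub_one)
      · exfalso
        apply h
        apply Rd_unique (sub_mul hy hwP)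
        rw [hyw]
        exact sub_mul hwP hy
    · exact hDW
    · exact hDy
    · exact hWD
    · exact comm_closure2 hσ hc hLt hLta hLtb hLtab
    · exact hD'
    · exact hD1

end CfsgLib.Mult15
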