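import Mathlib

/-! Using multiple primitivity concretely (seat helper15). -/

set_option autoImplicit false

namespace CfsgLib.MultPrim

open MulAction SubMulAction

/-- A set off `s` which is a block for the pointwise stabiliser of `s` is trivial. -/
theorem block_trivial {G X : Type*} [Group G] [MulAction G X] {s : Set X}
    (h : IsPreprimitive (fixingSubgroup G s) (ofFixingSubgroup G s)) (B : Set X) (hBs : ∀ x ∈ B, x ∉ s)
    (hB : ∀ g : G, (∀ x ∈ s, g • x = x) → ∀ x ∈ B, g • x ∈ B → ∀ y ∈ B, g • y ∈ B) :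
    B.Subsingleton ∨ ∀ x, x ∉ s → x ∈ B := by
  let C : Set (ofFixingSubgroup G s) := {x | (x : X) ∈ B}
  have hblock : IsBlock (fixingSubgroup G s) C := by
    rw [isBlock_iff_smul_eq_of_mem]
    intro g x hx hgx
    have hgs : ∀ y ∈ s, (g : G) • y = y := fun y hy => (mem_fixingSubgroup_iff G).mp g.2 y hy
    have hgs' : ∀ y ∈ s, (g : G)⁻¹ • y = y := fun y hy => by rw [inv_smul_eq_iff, hgs y hy]
    have h1 := hB (g : G) hgs (x : X) hx hgx
    have h2 := hB (g : G)⁻¹ hgs' ((g : G) • (x : X)) hgx (by rw [inv_smul_smul]; exact hx)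
    ext z
    rw [Set.mem_smul_set_iff_inv_smul_mem]
    constructor
    · intro hz
      have h3 := h1 _ hz
      have h4 : (g : G) • ((g⁻¹ • z : ofFixingSubgroup G s) : X) = z := by
        show (g : G) • ((g : G)⁻¹ • (z : X)) = z
        rw [smul_inv_smul]
      rw [h4] at h3
      exact h3
    · intro hz
      exact h2 _ hz
  rcases h.isTrivialBlock_of_isBlock hblock with h3 | h3
  · left
    intro x hx y hy
    have := h3 (show (⟨x, hBs x hx⟩ : ofFixingSubgroup G s) ∈ C from hx) (show (⟨y, hBs y hy⟩ : ofFixingSubgroup G s) ∈ C from hy)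
    exact congrArg Subtype.val this
  · right
    intro x hx
    have : (⟨x, hx⟩ : ofFixingSubgroup G s) ∈ C := by rw [h3]; trivial
    exact this

/-- regular normal subgroup: `n • a` determines `n`. -/
theorem eq_of_smul_eq {G X : Type*} [Group G] [MulAction G X] {N : Subgroup G} (hreg : ∀ x : X, stabilizer N x = ⊥)
    {m n : G} (hm : m ∈ N) (hn : n ∈ N) {a : X} (h : m • a = n • a) : m = n := by
  have h1 : (⟨n⁻¹ * m, mul_mem (inv_mem hn) hm⟩ : N) ∈ stabilizer N a := by
    show (n⁻¹ * m) • a = a
    rw [mul_smul, h, inv_smul_smul]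
  rw [hreg, Subgroup.mem_bot] at h1
  have h2 : n⁻¹ * m = 1 := congrArg Subtype.val h1
  exact (inv_mul_eq_one.mp h2).symm

/-- the pair argument -/
theorem pair {G : Type*} [Group G] {X : Type*} [MulAction G X] (h2 : IsMultiplyPreprimitive G X 2) (N : Subgroup G) [N.Normal]
    (htrans : IsPretransitive N X) (hreg : ∀ x : X, stabilizer N x = ⊥) (a : X) :
    Nat.card X = 3 ∨ ∀ n ∈ N, n ^ 2 = 1 := by
  classical
  by_contra hcon
  push Not at hcon
  obtain ⟨h3, n, hn, hn2⟩ := hcon
  have hprim := h2.isPreprimitive_ofFixingSubgroup (s := {a}) (by simp; norm_num)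
  have hne : n • a ≠ n⁻¹ • a := by
    intro h
    have := eq_of_smul_eq hreg hn (inv_mem hn) h
    apply hn2
    rw [pow_two]
    nth_rw 1 [this]
    exact inv_mul_cancel n
  have hn1 : n ≠ 1 := by rintro rfl; exact hn2 (one_pow 2)
  have hna : ∀ m ∈ N, m ≠ 1 → m • a ≠ a := by
    intro m hm hm1 h
    exact hm1 (eq_of_smul_eq hreg hm (one_mem _) (by rw [h, one_smul]))
  have hconj : ∀ g : G, g • a = a → ∀ m : G, g • (m • a) = (g * m * g⁻¹) • a := by
    intro g hg m
    rw [mul_smul, mul_smul, inv_smul_eq_iff.mpr hg.symm]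
  have hNn : ∀ g : G, ∀ m ∈ N, g * m * g⁻¹ ∈ N := fun g m hm => (inferInstance : N.Normal).conj_mem m hm g
  rcases block_trivial hprim {n • a, n⁻¹ • a} (by
    rintro x (rfl | rfl)
    · exact hna n hn hn1
    · exact hna _ (inv_mem hn) (inv_ne_one.mpr hn1)) (by
    intro g hg x hx hgx y hy
    have hga : g • a = a := hg a rfl
    have hinv : g * n⁻¹ * g⁻¹ = (g * n * g⁻¹)⁻¹ := by group
    have key : g * n * g⁻¹ = n ∨ g * n * g⁻¹ = n⁻¹ := by
      rcases hx with rfl | rfl
      · rw [hconj g hga] at hgx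
        rcases hgx with h | h
        · exact Or.inl (eq_of_smul_eq hreg (hNn g n hn) hn h)
        · exact Or.inr (eq_of_smul_eq hreg (hNn g n hn) (inv_mem hn) h)
      · rw [hconj g hga] at hgx
        rcases hgx with h | h
        · right
          have := eq_of_smul_eq hreg (hNn g _ (inv_mem hn)) hn h
          rw [hinv] at this
          have h5 := congrArg (fun w => w⁻¹) this
          simpa using h5
        · left
          have := eq_of_smul_eq hreg (hNn g _ (inv_mem hn)) (inv_mem hn) h
          rw [hinv] at this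
          exact inv_inj.mp this
    have key' : g * n⁻¹ * g⁻¹ = n⁻¹ ∨ g * n⁻¹ * g⁻¹ = n := by
      rcases key with h | h
      · left; rw [hinv, h]
      · right; rw [hinv, h, inv_inv]
    rcases hy with rfl | rfl
    · rw [hconj g hga]
      rcases key with h | h <;> rw [h]
      · exact Or.inl rfl
      · exact Or.inr rfl
    · rw [hconj g hga]
      rcases key' with h | h <;> rw [h]
      · exact Or.inr rfl
      · exact Or.inl rfl) with h | h
  · exact hne (h (Or.inl rfl) (Or.inr rfl))
  · apply h3
    have huniv : (Set.univ : Set X) = {a, n • a, n⁻¹ • a} := by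
      ext x
      simp only [Set.mem_univ, true_iff]
      by_cases hx : x = a
      · exact Or.inl hx
      · exact Or.inr (h x hx)
    rw [← Set.ncard_univ, huniv, Set.ncard_insert_of_notMem, Set.ncard_pair hne]
    rintro (h4 | h4)
    · exact hna n hn hn1 h4.symm
    · exact hna _ (inv_mem hn) (inv_ne_one.mpr hn1) h4.symm

end CfsgLib.MultPrim
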