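import Cfsg.Agent.LibAschSL3
import Cfsg.Agent.LibAschSL1H13
import Cfsg.Agent.LibNMax1

/-! small imprimitive groups are not maximal (helper26) -/
set_option autoImplicit false
set_option linter.unusedSectionVars false

namespace CfsgLib.NMax

open Module Cfsg Cfsg.Geo CfsgLib.Asch6 CfsgLib.Asch8 CfsgLib.Asch13 CfsgLib.AschSL2
open scoped Matrix MatrixGroups

variable {ι : Type} [Fintype ι] [DecidableEq ι] {F : Type*} [Field F]

/-- reflections with respect to a sesquilinear form -/
theorem exists_refl (τ : F ≃+* F) {f : (ι → F) → (ι → F) → F} (hal : ∀ x y v, f (x + y) v = f x v + f y v)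
    (hsl : ∀ c x v, f (c • x) v = c * f x v) (hh : ∀ x y, f x y = τ (f y x)) (u : ι → F) (hu : 2 + f u u = 0) :
    ∃ g : GL ι F, (∀ x y, f ((g : Matrix ι ι F) *ᵥ x) ((g : Matrix ι ι F) *ᵥ y) = f x y) ∧
      (∀ v, (g : Matrix ι ι F) *ᵥ v = v + f v u • u) ∧ (g : Matrix ι ι F).det = -1 := by
  classical
  let φ : Module.Dual F (ι → F) :=
    { toFun := fun v => f v u
      map_add' := fun x y => hal x y u
      map_smul' := fun c x => hsl c x u }
  set M : Matrix ι ι F := LinearMap.toMatrix' (LinearMap.transvection φ u) with hM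
  have hMv : ∀ v, M *ᵥ v = v + f v u • u := by
    intro v
    rw [hM, ← Matrix.toLin'_apply, Matrix.toLin'_toMatrix']
    rfl
  have hMM : M * M = 1 := by
    apply Matrix.toLin'.injective
    ext1 v
    apply LinearMap.ext
    intro x
    rw [Matrix.toLin'_one]
    rw [LinearMap.comp_apply, LinearMap.comp_apply, Matrix.toLin'_apply, ← Matrix.mulVec_mulVec, hMv, hMv, hal, hsl]
    rw [LinearMap.id_apply, add_assoc, ← add_smul]
    rw [show f _ u + (f _ u + f _ u * f u u) = f (LinearMap.single F (fun _ => F) v x) u * (2 + f u u) by ring, hu, mul_zero,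
      zero_smul, add_zero]
  refine ⟨⟨M, M, hMM, hMM⟩, fun x y => ?_, hMv, ?_⟩
  · show f (M *ᵥ x) (M *ᵥ y) = f x y
    have har : ∀ x y v, f v (x + y) = f v x + f v y := by
      intro x y v
      rw [hh, hal, map_add, ← hh, ← hh]
    have hsr : ∀ c x v, f v (c • x) = τ c * f v x := by
      intro c x v
      rw [hh, hsl, map_mul, ← hh]
    rw [hMv, hMv, hal, har, har, hsl, hsl, hsr, hsr, ← hh]
    linear_combination (f x u * f u y) * hu
  · show M.det = -1
    rw [hM, LinearMap.det_toMatrix', LinearMap.transvection.det]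
    show 1 + f u u = -1
    linear_combination hu

theorem lines_case [Fintype F] {t : ℕ} (ht : 8 ≤ t) {D : Fin t → Submodule F (ι → F)} (hD : IsMDecomposition 1 D)
    (τ : F ≃+* F) (hτ : ∀ a, τ (τ a) = a) (h6 : (6 : F) = 0) (hc : ∀ c : F, c ≠ 0 → c * τ c = 1) :
    ∃ f : (ι → F) → (ι → F) → F, (∀ v x y, f v (x + y) = f v x + f v y) ∧ IsNondegenerateForm f ∧
      decompositionStabilizer D ≤ similarityGroup f ∧ ∃ g : GL ι F, g ∈ similarityGroup f ∧ g ∈ specialLinear ι F ∧
        g ∉ decompositionStabilizer D := by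
  classical
  obtain ⟨b, hb, h⟩ := line_basis hD
  have hherm := hform_herm b τ hτ
  refine ⟨hform b τ, ?_, hform_nondeg b τ, ?_, ?_⟩
  · intro v x y
    rw [hherm, hform_add_left, map_add, ← hherm, ← hherm]
  · intro g hg
    obtain ⟨s, c, hc', hs⟩ := h g hg
    refine ⟨1, fun u v => ?_⟩
    rw [hform_mul b _ hs (fun i => hc _ (hc' i)), Units.val_one, one_mul]
  · let k : ℕ → Fin t := fun j => if hj : j < t then ⟨j, hj⟩ else ⟨0, by omega⟩
    have hk : ∀ i j, i < 8 → j < 8 → i ≠ j → k i ≠ k j := by
      intro i j hi hj hij hh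
      simp only [k] at hh
      rw [dif_pos (by omega), dif_pos (by omega)] at hh
      exact hij (congrArg Fin.val hh)
    let u : ι → F := b (k 0) + b (k 1) + b (k 2) + b (k 3)
    let u' : ι → F := b (k 4) + b (k 5) + b (k 6) + b (k 7)
    have hbb : ∀ i j, i < 8 → j < 8 → hform b τ (b (k i)) (b (k j)) = if i = j then 1 else 0 := by
      intro i j hi hj
      rw [hform_basis_left, Basis.repr_self]
      by_cases hij : i = j
      · rw [if_pos hij, hij, Finsupp.single_eq_same, map_one]
      · rw [if_neg hij, Finsupp.single_eq_of_ne (hk i j hi hj hij), map_zero]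
    have har : ∀ x y v, hform b τ v (x + y) = hform b τ v x + hform b τ v y := by
      intro x y v
      rw [hherm, hform_add_left, map_add, ← hherm, ← hherm]
    have huu : 2 + hform b τ u u = 0 := by
      simp only [u, hform_add_left, har]
      rw [hbb 0 0, hbb 0 1, hbb 0 2, hbb 0 3, hbb 1 0, hbb 1 1, hbb 1 2, hbb 1 3, hbb 2 0, hbb 2 1, hbb 2 2, hbb 2 3,
        hbb 3 0, hbb 3 1, hbb 3 2, hbb 3 3] <;> first | omega | skip
      simp
      linear_combination h6
    have huu' : 2 + hform b τ u' u' = 0 := by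
      simp only [u', hform_add_left, har]
      rw [hbb 4 4, hbb 4 5, hbb 4 6, hbb 4 7, hbb 5 4, hbb 5 5, hbb 5 6, hbb 5 7, hbb 6 4, hbb 6 5, hbb 6 6, hbb 6 7,
        hbb 7 4, hbb 7 5, hbb 7 6, hbb 7 7] <;> first | omega | skip
      simp
      linear_combination h6
    obtain ⟨g, hg1, hg2, hg3⟩ := exists_refl τ (hform_add_left b τ) (hform_smul_left b τ) hherm u huu
    obtain ⟨g', hg1', hg2', hg3'⟩ := exists_refl τ (hform_add_left b τ) (hform_smul_left b τ) hherm u' huu'
    refine ⟨g * g', ⟨1, fun x y => ?_⟩, ?_, fun hcon => ?_⟩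
    · rw [Units.val_mul, ← Matrix.mulVec_mulVec, ← Matrix.mulVec_mulVec, hg1, hg1', Units.val_one, one_mul]
    · rw [specialLinear, MonoidHom.mem_ker]
      refine Units.ext ?_
      show (((g * g' : GL ι F)) : Matrix ι ι F).det = 1
      rw [Units.val_mul, Matrix.det_mul, hg3, hg3']
      ring
    · obtain ⟨s, c, hc', hs⟩ := h _ hcon
      have h0 := hs (k 0)
      rw [Units.val_mul, ← Matrix.mulVec_mulVec, hg2'] at h0
      have e1 : hform b τ (b (k 0)) u' = 0 := by
        simp only [u', har]
        rw [hbb 0 4, hbb 0 5, hbb 0 6, hbb 0 7] <;> first | omega | skip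
        simp
      have e2 : hform b τ (b (k 0)) u = 1 := by
        simp only [u, har]
        rw [hbb 0 0, hbb 0 1, hbb 0 2, hbb 0 3] <;> first | omega | skip
        simp
      rw [e1, zero_smul, add_zero, hg2, e2, one_smul] at h0
      have r1 := congrArg (fun x => b.repr x (k 1)) h0
      have r2 := congrArg (fun x => b.repr x (k 2)) h0
      simp only [u, map_add, map_smul, Basis.repr_self, Finsupp.add_apply, Finsupp.smul_apply, Finsupp.single_eq_same] at r1 r2
      rw [Finsupp.single_eq_of_ne (hk 1 0 (by omega) (by omega) (by omega)),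
        Finsupp.single_eq_of_ne (hk 1 2 (by omega) (by omega) (by omega)),
        Finsupp.single_eq_of_ne (hk 1 3 (by omega) (by omega) (by omega))] at r1
      rw [Finsupp.single_eq_of_ne (hk 2 0 (by omega) (by omega) (by omega)),
        Finsupp.single_eq_of_ne (hk 2 1 (by omega) (by omega) (by omega)),
        Finsupp.single_eq_of_ne (hk 2 3 (by omega) (by omega) (by omega))] at r2
      have s1 : s (k 0) = k 1 := by
        by_contra hne
        rw [Finsupp.single_eq_of_ne (Ne.symm hne)] at r1
        simp at r1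
      have s2 : s (k 0) = k 2 := by
        by_contra hne
        rw [Finsupp.single_eq_of_ne (Ne.symm hne)] at r2
        simp at r2
      exact hk 1 2 (by omega) (by omega) (by omega) (s1.symm.trans s2)

theorem planes_case [Fintype F] (hq : Fintype.card F = 2) {t : ℕ} (ht : 2 ≤ t) {D : Fin t → Submodule F (ι → F)}
    (hD : IsMDecomposition 2 D) :
    ∃ f : (ι → F) → (ι → F) → F, (∀ v x y, f v (x + y) = f v x + f v y) ∧ IsNondegenerateForm f ∧
      decompositionStabilizer D ≤ similarityGroup f ∧ ∃ g : GL ι F, g ∈ similarityGroup f ∧ g ∈ specialLinear ι F ∧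
        g ∉ decompositionStabilizer D := by
  classical
  have h2 : (2 : F) = 0 := by rw [← two_char hq]; norm_num
  obtain ⟨b, hb, h⟩ := dec_basis hD
  have hf := CfsgLib.AschSL3.planes_form b (F := F) (t := t)
  set f := bf b (CfsgLib.AschSL3.wpl (F := F) (t := t)) with hfdef
  refine ⟨f, hf.bilinear.add_right, hf.nondegenerate, ?_, ?_⟩
  · intro g hg
    obtain ⟨s, A, hA, hg'⟩ := h g hg
    refine CfsgLib.AschSL3.planes_sim b hg' one_ne_zero fun i => ?_
    have := FiniteField.pow_card_sub_one_eq_one _ (hA i)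
    rwa [hq, pow_one] at this
  · let k0 : Fin t := ⟨0, by omega⟩
    let k1 : Fin t := ⟨1, by omega⟩
    have hk : k0 ≠ k1 := by
      intro h
      have := congrArg Fin.val h
      simp [k0, k1] at this
    let u : ι → F := b (k0, 0) + b (k1, 0)
    have hneg : ∀ x : F, -x = x := by
      intro x
      linear_combination -x * h2
    obtain ⟨g, hg1, hg2, hg3⟩ := exists_refl (RingEquiv.refl F) hf.bilinear.add_left hf.bilinear.smul_left
      (fun x y => by rw [hf.skew]; exact hneg _) u (by rw [hf.alternating, h2, add_zero])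
    refine ⟨g, ⟨1, fun x y => ?_⟩, ?_, fun hcon => ?_⟩
    · rw [hg1, Units.val_one, one_mul]
    · rw [sl_top hq]
      exact Subgroup.mem_top _
    · obtain ⟨s, A, hA, hs⟩ := h _ hcon
      have h0 := hs k0 1
      have e1 : f (b (k0, 1)) u = 1 := by
        simp only [u, hf.bilinear.add_right]
        rw [hfdef, bf_basis, bf_basis]
        simp only [CfsgLib.AschSL3.wpl, if_neg hk, if_true, add_zero]
        show (if (1 : Fin 2) = 0 then (0 : F) else if (1 : Fin 2) = 0 then 1 else -1) = 1
        simp [hneg]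
      rw [hg2, e1, one_smul, Fin.sum_univ_two] at h0
      have r1 := congrArg (fun x => b.repr x (k0, 0)) h0
      have r2 := congrArg (fun x => b.repr x (k1, 0)) h0
      simp only [u, map_add, map_smul, Basis.repr_self, Finsupp.add_apply, Finsupp.smul_apply] at r1 r2
      have s1 : s k0 = k0 := by
        by_contra hne
        simp [Finsupp.single_apply, hne, hk.symm] at r1
      have s2 : s k0 = k1 := by
        by_contra hne
        simp [Finsupp.single_apply, hne, hk] at r2
      exact hk (s1.symm.trans s2)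

end CfsgLib.NMax
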