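import Mathlib

/-! Jordan bases of nilpotent maps (seat helper29). -/

namespace CfsgLib.Nil29

open Module

variable {F V : Type*} [Field F] [AddCommGroup V] [Module F V]

/-- `W` has a basis consisting of Jordan chains for `N`. -/
def StrN (N : V →ₗ[F] V) (W : Submodule F V) : Prop :=
  ∃ (ι : Type) (_ : Fintype ι) (s : ι → ℕ) (b : (Σ i, Fin (s i)) → V), (∀ i, 0 < s i) ∧ LinearIndependent F b ∧
    Submodule.span F (Set.range b) = W ∧
    ∀ i (j : Fin (s i)), N (b ⟨i, j⟩) = if h : (j : ℕ) + 1 < s i then b ⟨i, ⟨j + 1, h⟩⟩ else 0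

lemma StrN.bot (N : V →ₗ[F] V) : StrN N ⊥ := by
  refine ⟨Empty, inferInstance, fun i => i.elim, fun p => p.1.elim, fun i => i.elim, linearIndependent_empty_type, ?_,
    fun i => i.elim⟩
  rw [Set.range_eq_empty, Submodule.span_empty]

lemma StrN.sup {N : V →ₗ[F] V} {W W' : Submodule F V} (h : StrN N W)
    (h' : StrN N W') (hd : Disjoint W W') : StrN N (W ⊔ W') := by
  obtain ⟨ι, _, s, b, h1, h2, h3, h4⟩ := h
  obtain ⟨ι', _, s', b', h1', h2', h3', h4'⟩ := h'
  let e : (Σ i : ι ⊕ ι', Fin (Sum.elim s s' i)) → (Σ i, Fin (s i)) ⊕ (Σ i, Fin (s' i)) := fun p =>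
    match p with
    | ⟨Sum.inl i, j⟩ => Sum.inl ⟨i, j⟩
    | ⟨Sum.inr i, j⟩ => Sum.inr ⟨i, j⟩
  have he : Function.Injective e := by
    rintro ⟨i | i, j⟩ ⟨i' | i', j'⟩ h
    · have h5 : (⟨i, j⟩ : Σ i, Fin (s i)) = ⟨i', j'⟩ := Sum.inl_injective h
      cases h5
      rfl
    · exact absurd h (by simp [e])
    · exact absurd h (by simp [e])
    · have h5 : (⟨i, j⟩ : Σ i, Fin (s' i)) = ⟨i', j'⟩ := Sum.inr_injective h
      cases h5
      rfl
  refine ⟨ι ⊕ ι', inferInstance, Sum.elim s s', fun p => Sum.elim b b' (e p), ?_, ?_, ?_, ?_⟩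
  · rintro (i | i)
    · exact h1 i
    · exact h1' i
  · exact (h2.sum_type h2' (by rw [h3, h3']; exact hd)).comp e he
  · apply le_antisymm
    · rw [Submodule.span_le]
      rintro _ ⟨⟨i | i, j⟩, rfl⟩
      · refine (le_sup_left : W ≤ W ⊔ W') ?_
        rw [← h3]; exact Submodule.subset_span ⟨⟨i, j⟩, rfl⟩
      · refine (le_sup_right : W' ≤ W ⊔ W') ?_
        rw [← h3']; exact Submodule.subset_span ⟨⟨i, j⟩, rfl⟩
    · refine sup_le ?_ ?_
      · rw [← h3, Submodule.span_le]
        rintro _ ⟨⟨i, j⟩, rfl⟩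
        exact Submodule.subset_span ⟨⟨Sum.inl i, j⟩, rfl⟩
      · rw [← h3', Submodule.span_le]
        rintro _ ⟨⟨i, j⟩, rfl⟩
        exact Submodule.subset_span ⟨⟨Sum.inr i, j⟩, rfl⟩
  · rintro (i | i) j
    · exact h4 i j
    · exact h4' i j

lemma pow_mem {N : V →ₗ[F] V} {W : Submodule F V} (hW : ∀ w ∈ W, N w ∈ W) (j : ℕ) : ∀ w ∈ W, (N ^ j) w ∈ W := by
  induction j with
  | zero => intro w hw; simpa using hw
  | succ j ih => intro w hw; rw [pow_succ']; exact hW _ (ih w hw)

/-- the chain of a vector -/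
lemma chain_li (N : V →ₗ[F] V) (m : ℕ) (v : V) (hv : (N ^ m) v ≠ 0) (hv2 : (N ^ (m + 1)) v = 0) :
    LinearIndependent F (fun j : Fin (m + 1) => (N ^ (j : ℕ)) v) := by
  have hz : ∀ j, m + 1 ≤ j → (N ^ j) v = 0 := by
    intro j hj
    obtain ⟨k, rfl⟩ := Nat.exists_eq_add_of_le hj
    rw [add_comm, pow_add]
    show (N ^ k) ((N ^ (m + 1)) v) = 0
    rw [hv2, map_zero]
  rw [Fintype.linearIndependent_iff]
  intro g hg
  have key : ∀ j : ℕ, ∀ hj : j < m + 1, g ⟨j, hj⟩ = 0 := by
    intro j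
    induction j using Nat.strong_induction_on with
    | _ j ih =>
      intro hj
      have h1 := congrArg (N ^ (m - j)) hg
      rw [map_zero, map_sum] at h1
      rw [Finset.sum_eq_single ⟨j, hj⟩] at h1
      · rw [map_smul] at h1
        have e1 : (N ^ (m - j)) ((N ^ j) v) = (N ^ m) v := by
          have : m = (m - j) + j := by omega
          conv_rhs => rw [this, pow_add]
          rfl
        rw [e1] at h1
        exact (smul_eq_zero.1 h1).resolve_right hv
      · intro i _ hi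
        rw [map_smul]
        rcases Nat.lt_or_ge i j with h2 | h2
        · have := ih i h2 i.2
          rw [show g i = 0 from this, zero_smul]
        · have h3 : j < i := lt_of_le_of_ne h2 (fun h => hi (Fin.ext h.symm))
          have e1 : (N ^ (m - j)) ((N ^ (i : ℕ)) v) = (N ^ (m - j + i)) v := by
            rw [pow_add]; rfl
          rw [e1, hz _ (by omega), smul_zero]
      · intro h; exact absurd (Finset.mem_univ _) h
  intro i
  exact key i i.2

lemma peelN [FiniteDimensional F V] (N : V →ₗ[F] V) (m : ℕ) (W : Submodule F V) (hW : ∀ w ∈ W, N w ∈ W)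
    (hN : ∀ w ∈ W, (N ^ (m + 1)) w = 0) (v : V) (hvW : v ∈ W) (hv : (N ^ m) v ≠ 0) :
    ∃ C ≤ W, (∀ w ∈ C, N w ∈ C) ∧ Disjoint (Submodule.span F (Set.range (fun j : Fin (m + 1) => (N ^ (j : ℕ)) v))) C ∧
      Submodule.span F (Set.range (fun j : Fin (m + 1) => (N ^ (j : ℕ)) v)) ⊔ C = W := by
  classical
  have hli := chain_li N m v hv (hN v hvW)
  have hz : ∀ j, m + 1 ≤ j → ∀ w ∈ W, (N ^ j) w = 0 := by
    intro j hj w hw
    obtain ⟨k, rfl⟩ := Nat.exists_eq_add_of_le hj
    rw [add_comm, pow_add]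
    show (N ^ k) ((N ^ (m + 1)) w) = 0
    rw [hN w hw, map_zero]
  obtain ⟨φ, hφ⟩ : ∃ φ : V →ₗ[F] F, ∀ j : Fin (m + 1), φ ((N ^ (j : ℕ)) v) = if (j : ℕ) = m then 1 else 0 := by
    let B := Basis.span hli
    obtain ⟨φ, hφ⟩ := LinearMap.exists_extend (B.coord (Fin.last m))
    refine ⟨φ, fun j => ?_⟩
    have h1 := LinearMap.congr_fun hφ (B j)
    have h2 : ((B j : Submodule.span F (Set.range (fun j : Fin (m + 1) => (N ^ (j : ℕ)) v))) : V) = (N ^ (j : ℕ)) v :=
      congrArg Subtype.val (Basis.span_apply hli j)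
    rw [LinearMap.comp_apply, Submodule.subtype_apply, h2] at h1
    rw [h1, Basis.coord_apply, Basis.repr_self, Finsupp.single_apply]
    simp [Fin.ext_iff]
  have hφ2 : ∀ j : ℕ, φ ((N ^ j) v) = if j = m then 1 else 0 := by
    intro j
    rcases Nat.lt_or_ge j (m + 1) with h1 | h1
    · exact hφ ⟨j, h1⟩
    · rw [hz j h1 v hvW, map_zero, if_neg (by omega)]
  have hsum : ∀ (a : Fin (m + 1) → F) (i : ℕ) (hi : i < m + 1), φ ((N ^ i) (∑ j, a j • (N ^ (j : ℕ)) v)) = a ⟨m - i, by omega⟩ := by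
    intro a i hi
    rw [map_sum, map_sum, Finset.sum_eq_single ⟨m - i, by omega⟩]
    · rw [map_smul, map_smul]
      have e1 : (N ^ i) ((N ^ (m - i)) v) = (N ^ m) v := by
        have : m = i + (m - i) := by omega
        conv_rhs => rw [this, pow_add]
        rfl
      rw [e1, hφ2]; simp
    · intro j _ hj
      rw [map_smul, map_smul]
      have e1 : (N ^ i) ((N ^ (j : ℕ)) v) = (N ^ (i + j)) v := by
        rw [pow_add]; rfl
      rw [e1, hφ2, if_neg, smul_zero]
      intro h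
      apply hj
      apply Fin.ext
      show (j : ℕ) = m - i
      omega
    · intro h; exact absurd (Finset.mem_univ _) h
  refine ⟨W ⊓ ⨅ i : Fin (m + 1), LinearMap.ker (φ ∘ₗ (N ^ (i : ℕ))), inf_le_left, ?_, ?_, ?_⟩
  · rintro w ⟨h1, h2⟩
    refine ⟨hW w h1, ?_⟩
    simp only [SetLike.mem_coe, Submodule.mem_iInf, LinearMap.mem_ker, LinearMap.comp_apply] at h2 ⊢
    intro i
    have e1 : (N ^ (i : ℕ)) (N w) = (N ^ ((i : ℕ) + 1)) w := by
      rw [pow_succ]; rfl
    rw [e1]
    rcases Nat.lt_or_ge ((i : ℕ) + 1) (m + 1) with h3 | h3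
    · exact h2 ⟨_, h3⟩
    · rw [hz _ h3 w h1, map_zero]
  · rw [Submodule.disjoint_def]
    rintro u hu ⟨-, h2⟩
    obtain ⟨a, rfl⟩ := (Submodule.mem_span_range_iff_exists_fun F).1 hu
    simp only [SetLike.mem_coe, Submodule.mem_iInf, LinearMap.mem_ker, LinearMap.comp_apply] at h2
    have ha : ∀ j, a j = 0 := by
      intro j
      have h3 := h2 ⟨m - j, by omega⟩
      rw [hsum a (m - j) (by omega)] at h3
      rw [← h3]
      congr 1
      apply Fin.ext
      show (j : ℕ) = m - (m - j)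
      have := j.2
      omega
    simp [ha]
  · apply le_antisymm
    · refine sup_le ?_ inf_le_left
      rw [Submodule.span_le]
      rintro _ ⟨j, rfl⟩
      exact pow_mem hW _ v hvW
    · intro w hw
      let u := ∑ j : Fin (m + 1), φ ((N ^ (m - (j : ℕ))) w) • (N ^ (j : ℕ)) v
      have hu : u ∈ Submodule.span F (Set.range (fun j : Fin (m + 1) => (N ^ (j : ℕ)) v)) :=
        (Submodule.mem_span_range_iff_exists_fun F).2 ⟨_, rfl⟩
      have huW : u ∈ W := Submodule.sum_mem _ fun j _ => W.smul_mem _ (pow_mem hW _ v hvW)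
      have e1 : w = u + (w - u) := by abel
      rw [e1]
      refine Submodule.add_mem_sup hu ⟨W.sub_mem hw huW, ?_⟩
      simp only [SetLike.mem_coe, Submodule.mem_iInf, LinearMap.mem_ker, LinearMap.comp_apply]
      intro i
      rw [map_sub, map_sub, hsum _ i i.2]
      show φ ((N ^ (i : ℕ)) w) - φ ((N ^ (m - (m - (i : ℕ)))) w) = 0
      have : m - (m - (i : ℕ)) = i := by have := i.2; omega
      rw [this, sub_self]

theorem strN [FiniteDimensional F V] (N : V →ₗ[F] V) :
    ∀ n, ∀ W : Submodule F V, finrank F W = n → (∀ w ∈ W, N w ∈ W) → (∃ r, ∀ w ∈ W, (N ^ r) w = 0) → StrN N W := by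
  intro n
  induction n using Nat.strong_induction_on with
  | _ n ih =>
    intro W hn hW hnil
    by_cases hb : W = ⊥
    · rw [hb]; exact StrN.bot N
    -- the exact nilpotency degree
    classical
    have hr := Nat.find_spec hnil
    set r := Nat.find hnil with hrdef
    have hr0 : r ≠ 0 := by
      intro h0
      rw [h0] at hr
      apply hb
      rw [Submodule.eq_bot_iff]
      intro w hw
      simpa using hr w hw
    obtain ⟨m, hm⟩ : ∃ m, r = m + 1 := ⟨r - 1, by omega⟩
    have hmin : ¬ ∀ w ∈ W, (N ^ m) w = 0 := Nat.find_min hnil (by omega)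
    push Not at hmin
    obtain ⟨v, hvW, hv⟩ := hmin
    rw [hm] at hr
    obtain ⟨C, hCW, hCN, hd, hs⟩ := peelN N m W hW hr v hvW hv
    have hli := chain_li N m v hv (hr v hvW)
    have hlt : finrank F C < n := by
      rw [← hn]
      refine Submodule.finrank_lt_finrank_of_lt (lt_of_le_of_ne hCW ?_)
      intro h
      have hvC : v ∈ C := by rw [h]; exact hvW
      have hvR : v ∈ Submodule.span F (Set.range (fun j : Fin (m + 1) => (N ^ (j : ℕ)) v)) :=
        Submodule.subset_span ⟨0, by simp⟩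
      have hv0 : v = 0 := (Submodule.disjoint_def.1 hd) v hvR hvC
      exact hv (by rw [hv0, map_zero])
    rw [← hs]
    refine StrN.sup ?_ (ih _ hlt C rfl hCN ⟨m + 1, fun w hw => hr w (hCW hw)⟩) hd
    refine ⟨Unit, inferInstance, fun _ => m + 1, fun p => (N ^ (p.2 : ℕ)) v, fun _ => Nat.succ_pos _, ?_, ?_, ?_⟩
    · exact hli.comp (fun p : (Σ _ : Unit, Fin (m + 1)) => p.2) (by
        rintro ⟨i, k⟩ ⟨j, l⟩ h
        have hk : k = l := h
        subst hk
        rfl)
    · congr 1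
      ext u
      constructor
      · rintro ⟨⟨i, k⟩, rfl⟩
        exact ⟨k, rfl⟩
      · rintro ⟨k, rfl⟩
        exact ⟨⟨(), k⟩, rfl⟩
    · intro i j
      have e1 : N ((N ^ (j : ℕ)) v) = (N ^ ((j : ℕ) + 1)) v := by
        rw [pow_succ']; rfl
      show N ((N ^ (j : ℕ)) v) = _
      rw [e1]
      split_ifs with h
      · rfl
      · have hj : (j : ℕ) < m + 1 := j.2
        have h' : ¬ (j : ℕ) + 1 < m + 1 := h
        have : (j : ℕ) + 1 = m + 1 := by omega
        rw [this]
        exact hr v hvW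

end CfsgLib.Nil29
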