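import Cfsg.Agent.LibNil29a
import Cfsg.Agent.LibInvo29l

/-! Jordan bases: centralisers and subfields (seat helper29). -/

namespace CfsgLib.Nil29

open Module Matrix CfsgLib.Invo29

section gen
variable {F V : Type*} [Field F] [AddCommGroup V] [Module F V]

/-- block scalings commute with `N` -/
lemma exists_scaling [FiniteDimensional F V] (N : V →ₗ[F] V) {ι : Type} [Fintype ι] (s : ι → ℕ)
    (b : Basis (Σ i, Fin (s i)) F V)
    (hN : ∀ i (j : Fin (s i)), N (b ⟨i, j⟩) = if h : (j : ℕ) + 1 < s i then b ⟨i, ⟨j + 1, h⟩⟩ else 0) (i0 : ι) (μ : F) :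
    ∃ c : V →ₗ[F] V, (∀ v, c (N v) = N (c v)) ∧ LinearMap.det c = μ ^ (s i0) := by
  classical
  let d : (Σ i, Fin (s i)) → F := fun p => if p.1 = i0 then μ else 1
  let c : V →ₗ[F] V := b.constr F (fun p => d p • b p)
  have hc : ∀ p, c (b p) = d p • b p := fun p => by
    show b.constr F _ (b p) = _
    rw [Basis.constr_basis]
  refine ⟨c, ?_, ?_⟩
  · have key : c ∘ₗ N = N ∘ₗ c := by
      refine b.ext fun p => ?_
      obtain ⟨i, j⟩ := p
      rw [LinearMap.comp_apply, LinearMap.comp_apply, hc, map_smul, hN]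
      split_ifs with h
      · rw [hc]
      · simp
    intro v
    exact LinearMap.congr_fun key v
  · have hmat : LinearMap.toMatrix b b c = Matrix.diagonal d := by
      ext p q
      rw [LinearMap.toMatrix_apply, hc, map_smul, Basis.repr_self]
      by_cases hpq : p = q
      · subst hpq
        simp
      · simp [hpq]
    rw [← LinearMap.det_toMatrix b, hmat, Matrix.det_diagonal, Fintype.prod_sigma]
    rw [Finset.prod_eq_single i0]
    · simp [d]
    · intro i _ hi
      simp [d, hi]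
    · intro h; exact absurd (Finset.mem_univ _) h

lemma pow_chain (N : V →ₗ[F] V) {ι : Type} (s : ι → ℕ) (b : (Σ i, Fin (s i)) → V)
    (hN : ∀ i (j : Fin (s i)), N (b ⟨i, j⟩) = if h : (j : ℕ) + 1 < s i then b ⟨i, ⟨j + 1, h⟩⟩ else 0) (i : ι) (k : ℕ) :
    ∀ (j : Fin (s i)), (N ^ k) (b ⟨i, j⟩) = if h : (j : ℕ) + k < s i then b ⟨i, ⟨j + k, h⟩⟩ else 0 := by
  induction k with
  | zero =>
    intro j
    rw [dif_pos (by simpa using j.2)]
    rfl
  | succ k ih =>
    intro j
    rw [pow_succ']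
    show N ((N ^ k) (b ⟨i, j⟩)) = _
    rw [ih]
    by_cases h : (j : ℕ) + k < s i
    · rw [dif_pos h, hN]
      rfl
    · rw [dif_neg h, dif_neg (by omega), map_zero]

lemma strF_of_strN [FiniteDimensional F V] (F₀ : Subfield F) (N : V →ₗ[F] V) (W : Submodule F V) (h : StrN N W) :
    StrF F₀ (LinearMap.id + N) W := by
  classical
  obtain ⟨ι, _, s, b, h1, h2, h3, h4⟩ := h
  refine ⟨(Σ i, Fin (s i)), inferInstance, b,
    fun p q => (if p = q then 1 else 0) + (if h : (q.2 : ℕ) + 1 < s q.1 then (if p = ⟨q.1, ⟨q.2 + 1, h⟩⟩ then 1 else 0) else 0),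
    h2, h3, ?_⟩
  rintro ⟨i, j⟩
  rw [LinearMap.add_apply, LinearMap.id_apply, h4]
  simp only [Subfield.coe_add, add_smul, Finset.sum_add_distrib]
  congr 1
  · rw [Finset.sum_eq_single ⟨i, j⟩]
    · simp
    · intro q _ hq
      simp [hq]
    · intro h; exact absurd (Finset.mem_univ _) h
  · split_ifs with h
    · rw [Finset.sum_eq_single ⟨i, ⟨j + 1, h⟩⟩]
      · simp
      · intro q _ hq
        simp [hq]
      · intro h; exact absurd (Finset.mem_univ _) h
    · simp

end gen

section mat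
variable {F : Type*} [Field F] {n : ℕ}

/-- correcting the determinant -/
theorem adjust_conj' (x : Matrix.SpecialLinearGroup (Fin n) F) (P0 : GL (Fin n) F) (c : Matrix (Fin n) (Fin n) F)
    (hc1 : c * (x : Matrix (Fin n) (Fin n) F) = (x : Matrix (Fin n) (Fin n) F) * c)
    (hc2 : c.det * (P0 : Matrix (Fin n) (Fin n) F).det = 1) :
    ∃ P : Matrix.SpecialLinearGroup (Fin n) F,
      Matrix.SpecialLinearGroup.toGL (P⁻¹ * x * P) = P0⁻¹ * Matrix.SpecialLinearGroup.toGL x * P0 := by
  have hcd : c.det ≠ 0 := by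
    intro h
    rw [h, zero_mul] at hc2
    exact zero_ne_one hc2
  let C : GL (Fin n) F := Matrix.GeneralLinearGroup.mkOfDetNeZero c hcd
  have hC : (C : Matrix (Fin n) (Fin n) F) = c := rfl
  have hcomm : C * Matrix.SpecialLinearGroup.toGL x = Matrix.SpecialLinearGroup.toGL x * C := by
    apply Units.ext
    exact hc1
  let P : Matrix.SpecialLinearGroup (Fin n) F := ⟨((C * P0 : GL (Fin n) F) : Matrix (Fin n) (Fin n) F), by
    rw [Units.val_mul, Matrix.det_mul, hC, hc2]⟩
  have hP : Matrix.SpecialLinearGroup.toGL P = C * P0 := Units.ext rfl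
  refine ⟨P, ?_⟩
  rw [map_mul, map_mul, map_inv, hP, _root_.mul_inv_rev]
  have : C⁻¹ * Matrix.SpecialLinearGroup.toGL x * C = Matrix.SpecialLinearGroup.toGL x := by
    rw [mul_assoc, ← hcomm, inv_mul_cancel_left]
  calc P0⁻¹ * C⁻¹ * Matrix.SpecialLinearGroup.toGL x * (C * P0) =
      P0⁻¹ * (C⁻¹ * Matrix.SpecialLinearGroup.toGL x * C) * P0 := by group
    _ = _ := by rw [this]

lemma exists_cube_root [Fintype F] [CharP F 3] (z : F) : ∃ w : F, w ^ 3 = z := by
  haveI : Fact (Nat.Prime 3) := ⟨Nat.prime_three⟩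
  exact (PerfectRing.bijective_frobenius (R := F) (p := 3)).surjective z

lemma cube_inj [CharP F 3] {a b : F} (h : a ^ 3 = b ^ 3) : a = b := by
  haveI : Fact (Nat.Prime 3) := ⟨Nat.prime_three⟩
  exact frobenius_inj F 3 h

/-- nonsquares of `F₀` stay nonsquares in an odd degree extension -/
lemma exists_nonsq_mem [Fintype F] (F₀ : Subfield F) (q₀ k : ℕ) (hF₀ : Nat.card F₀ = q₀) (hqk : Fintype.card F = q₀ ^ k)
    (h2 : (2 : F) ≠ 0) (hk : Odd k) : ∃ a ∈ F₀, ¬ IsSquare a := by
  haveI : Fintype F₀ := Fintype.ofFinite _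
  have hc0 : Fintype.card F₀ = q₀ := by rw [← hF₀, Nat.card_eq_fintype_card]
  have hchar : ringChar F ≠ 2 := by
    intro h
    apply h2
    have := ringChar.Nat.cast_ringChar (R := F)
    rw [h] at this
    exact_mod_cast this
  have h20 : (2 : F₀) ≠ 0 := by
    intro h
    apply h2
    have := congrArg Subtype.val h
    exact this
  have hchar0 : ringChar F₀ ≠ 2 := by
    intro h
    apply h20
    have := ringChar.Nat.cast_ringChar (R := F₀)
    rw [h] at this
    exact_mod_cast this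
  obtain ⟨a, ha⟩ := FiniteField.exists_nonsquare (F := F₀) hchar0
  refine ⟨a, a.2, ?_⟩
  have ha0 : a ≠ 0 := by
    rintro rfl
    exact ha ⟨0, by simp⟩
  have ha0' : (a : F) ≠ 0 := fun h => ha0 (Subtype.ext h)
  rw [FiniteField.isSquare_iff hchar ha0']
  intro hpow
  have hq₀odd : Odd q₀ := by
    rw [← hc0]; exact Nat.odd_iff.2 (FiniteField.odd_card_of_char_ne_two hchar0)
  obtain ⟨R, hR, hR2⟩ := odd_factor q₀ k hq₀odd hk
  obtain ⟨s, hs⟩ := hq₀odd
  have h3 : a ^ s = -1 := by
    have h11 := FiniteField.pow_dichotomy hchar0 ha0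
    have h9 : Fintype.card F₀ / 2 = s := by omega
    rw [h9] at h11
    rcases h11 with h11 | h11
    · exact absurd ((FiniteField.isSquare_iff hchar0 ha0).2 (by rw [h9]; exact h11)) ha
    · exact h11
  have h4 : (a : F) ^ s = -1 := congrArg Subtype.val h3
  have h5 : Fintype.card F / 2 = s * R := by
    rw [hqk]
    have : q₀ ^ k - 1 = 2 * (s * R) := by rw [hR2, hs]; simp; ring
    have h6 : 1 ≤ q₀ ^ k := Nat.one_le_pow _ _ (by omega)
    omega
  rw [h5, pow_mul, h4, hR.neg_one_pow] at hpow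
  apply h2
  have : (1 : F) + 1 = 0 := by
    nth_rw 1 [← hpow]
    simp
  rw [← one_add_one_eq_two]; exact this

lemma div_of_nonsq [Fintype F] (h2 : (2 : F) ≠ 0) {a b : F} (ha : ¬ IsSquare a) (hb : ¬ IsSquare b) :
    ∃ r : F, r * r * b = a := by
  classical
  have ha0 : a ≠ 0 := by
    rintro rfl
    exact ha ⟨0, by simp⟩
  have hb0 : b ≠ 0 := by
    rintro rfl
    exact hb ⟨0, by simp⟩
  have hsq : IsSquare (a * b) := by
    have e1 := quadraticChar_neg_one_iff_not_isSquare.2 ha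
    have e2 := quadraticChar_neg_one_iff_not_isSquare.2 hb
    rw [← quadraticChar_one_iff_isSquare (mul_ne_zero ha0 hb0), map_mul, e1, e2]; ring
  obtain ⟨e, he⟩ := hsq
  refine ⟨e / b, ?_⟩
  field_simp
  linear_combination -he

end mat

end CfsgLib.Nil29
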