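import Cfsg.Agent.LibNil29b

/-! The discriminant of a square zero matrix (seat helper29). -/

namespace CfsgLib.Nil29

open Module Matrix CfsgLib.Invo29

section disc
variable {F : Type*} [Field F] {n m : ℕ}

/-- rows `v, N v` -/
def rows (N : Matrix (Fin n) (Fin n) F) (v : Fin m → Fin n → F) : Matrix (Fin m ⊕ Fin m) (Fin n) F :=
  Matrix.of (Sum.elim v (fun j => N *ᵥ v j))

/-- the determinant of `(v, N v)` -/
def disc (e : Fin m ⊕ Fin m ≃ Fin n) (N : Matrix (Fin n) (Fin n) F) (v : Fin m → Fin n → F) : F :=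
  ((rows N v).submatrix id e).det

lemma disc_conj (e : Fin m ⊕ Fin m ≃ Fin n) (N N' P : Matrix (Fin n) (Fin n) F) (h : N' * P = P * N) (v : Fin m → Fin n → F) :
    disc e N' (fun j => P *ᵥ v j) = disc e N v * P.det := by
  have h1 : rows N' (fun j => P *ᵥ v j) = rows N v * Pᵀ := by
    ext (j | j) i
    · show (P *ᵥ v j) i = (v j ᵥ* Pᵀ) i
      rw [Matrix.vecMul_transpose]
    · show (N' *ᵥ (P *ᵥ v j)) i = ((N *ᵥ v j) ᵥ* Pᵀ) i
      rw [Matrix.vecMul_transpose, Matrix.mulVec_mulVec, Matrix.mulVec_mulVec, h]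
  have h2 : (rows N v * Pᵀ).submatrix id e = (rows N v).submatrix id e * (Pᵀ).submatrix e e := by
    rw [Matrix.submatrix_mul_equiv]
  unfold disc
  rw [h1, h2, Matrix.det_mul, Matrix.det_submatrix_equiv_self, Matrix.det_transpose]

lemma disc_change (e : Fin m ⊕ Fin m ≃ Fin n) (N : Matrix (Fin n) (Fin n) F) (hN : N * N = 0) (v v' : Fin m → Fin n → F)
    (hv : disc e N v ≠ 0) : ∃ r : F, disc e N v' = r * r * disc e N v := by
  classical
  set R := (rows N v).submatrix id e with hR
  have hRdet : IsUnit R.det := isUnit_iff_ne_zero.2 hv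
  let T := ((rows N v').submatrix id e) * R⁻¹
  have hT : T * R = (rows N v').submatrix id e := by
    show (rows N v').submatrix id e * R⁻¹ * R = _
    rw [Matrix.mul_assoc, Matrix.nonsing_inv_mul R hRdet, Matrix.mul_one]
  let A : Matrix (Fin m) (Fin m) F := T.toBlocks₁₁
  let B : Matrix (Fin m) (Fin m) F := T.toBlocks₁₂
  have hv' : ∀ j, v' j = ∑ i, A j i • v i + ∑ i, B j i • (N *ᵥ v i) := by
    intro j
    have h1 := congrArg (fun M => M (Sum.inl j)) hT
    ext l
    have h2 := congrFun h1 (e.symm l)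
    simp only [Matrix.mul_apply, Fintype.sum_sum_type, hR, Matrix.submatrix_apply, id, rows, Matrix.of_apply,
      Sum.elim_inl, Sum.elim_inr, Equiv.apply_symm_apply] at h2
    rw [← h2]
    simp only [Pi.add_apply, Finset.sum_apply, Pi.smul_apply, smul_eq_mul]
    rfl
  have hNv' : ∀ j, N *ᵥ v' j = ∑ i, A j i • (N *ᵥ v i) := by
    intro j
    have hNN : ∀ u, N *ᵥ (N *ᵥ u) = 0 := by
      intro u
      rw [Matrix.mulVec_mulVec, hN, Matrix.zero_mulVec]
    rw [hv' j]
    rw [← Matrix.toLin'_apply N (∑ i, A j i • v i + ∑ i, B j i • (N *ᵥ v i)), map_add, map_sum, map_sum]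
    simp only [map_smul, Matrix.toLin'_apply, hNN, smul_zero, Finset.sum_const_zero, add_zero]
  have hrows : (rows N v').submatrix id e = Matrix.fromBlocks A B 0 A * R := by
    ext (j | j) l
    · show v' j (e l) = _
      rw [hv' j]
      simp [Matrix.mul_apply, Fintype.sum_sum_type, hR, rows]
    · show (N *ᵥ v' j) (e l) = _
      rw [hNv' j]
      simp [Matrix.mul_apply, Fintype.sum_sum_type, hR, rows]
  refine ⟨A.det, ?_⟩
  show ((rows N v').submatrix id e).det = _
  rw [hrows, Matrix.det_mul, Matrix.det_fromBlocks_zero₂₁]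
  rfl

/-- a square zero matrix of rank `m` in dimension `2m` : standard vectors with nonzero discriminant -/
lemma exists_std (e : Fin m ⊕ Fin m ≃ Fin n) (N : Matrix (Fin n) (Fin n) F) (hN : N * N = 0)
    (hrank : finrank F (LinearMap.range (Matrix.toLin' N)) = m) :
    ∃ g : Fin m → Fin n, disc e N (fun j => Pi.single (g j) 1) ≠ 0 := by
  classical
  -- the columns of `N` span the range
  let w : Fin n → (Fin n → F) := fun i => N *ᵥ (Pi.single i 1)
  have hspan : Submodule.span F (Set.range w) = LinearMap.range (Matrix.toLin' N) := by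
    apply le_antisymm
    · rw [Submodule.span_le]
      rintro _ ⟨i, rfl⟩
      exact ⟨Pi.single i 1, Matrix.toLin'_apply N _⟩
    · rintro _ ⟨u, rfl⟩
      have hu : u = ∑ i, u i • (Pi.single i 1 : Fin n → F) := by
        ext l; simp [Finset.sum_apply, Pi.single_apply]
      rw [hu, map_sum]
      refine Submodule.sum_mem _ fun i _ => ?_
      rw [map_smul, Matrix.toLin'_apply]
      exact Submodule.smul_mem _ _ (Submodule.subset_span ⟨i, rfl⟩)
  obtain ⟨κ, a, ha, hspan2, hli⟩ := exists_linearIndependent' F w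
  haveI : Fintype κ := Fintype.ofInjective a ha
  have hcard : Fintype.card (Fin m) = Fintype.card κ := by
    have h1 := finrank_span_eq_card hli
    rw [hspan2, hspan, hrank] at h1
    simp [← h1]
  let E : Fin m ≃ κ := Fintype.equivOfCardEq hcard
  refine ⟨fun j => a (E j), ?_⟩
  have hli2 : LinearIndependent F (fun j => w (a (E j))) := hli.comp E E.injective
  intro h0
  obtain ⟨c, hc, hc2⟩ := Matrix.exists_vecMul_eq_zero_iff.2 h0
  apply hc
  have hsum : ∑ j, c (Sum.inl j) • (Pi.single (a (E j)) 1 : Fin n → F) + ∑ j, c (Sum.inr j) • w (a (E j)) = 0 := by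
    ext l
    have h1 := congrFun hc2 (e.symm l)
    simp only [Matrix.vecMul, dotProduct, Fintype.sum_sum_type, Matrix.submatrix_apply, id, rows, Matrix.of_apply,
      Sum.elim_inl, Sum.elim_inr, Equiv.apply_symm_apply] at h1
    simp only [Pi.add_apply, Finset.sum_apply, Pi.smul_apply, smul_eq_mul]
    exact h1
  have hinl : ∀ j, c (Sum.inl j) = 0 := by
    have h1 := congrArg (Matrix.toLin' N) hsum
    rw [map_add, map_sum, map_sum, map_zero] at h1
    have h2 : ∑ j, Matrix.toLin' N (c (Sum.inr j) • w (a (E j))) = 0 := by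
      refine Finset.sum_eq_zero fun j _ => ?_
      rw [map_smul, Matrix.toLin'_apply, Matrix.mulVec_mulVec, hN, Matrix.zero_mulVec, smul_zero]
    rw [h2, add_zero] at h1
    simp only [map_smul, Matrix.toLin'_apply] at h1
    exact fun j => (Fintype.linearIndependent_iff.1 hli2) (fun j => c (Sum.inl j)) h1 j
  have hinr : ∀ j, c (Sum.inr j) = 0 := by
    have h1 : ∑ j, c (Sum.inr j) • w (a (E j)) = 0 := by
      rw [← hsum]
      simp [hinl]
    exact fun j => (Fintype.linearIndependent_iff.1 hli2) (fun j => c (Sum.inr j)) h1 j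
  funext p
  rcases p with j | j
  · exact hinl j
  · exact hinr j

end disc

end CfsgLib.Nil29
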