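import Cfsg.Agent.LibNil29b

/-! Jordan types and their uniqueness (seat helper29). -/

namespace CfsgLib.Nil29

open Module

section ms

/-- truncated sums -/
def tsum (M : Multiset ℕ) (k : ℕ) : ℕ := (M.map (fun s => s - k)).sum

lemma tsum_zero (M : Multiset ℕ) : tsum M 0 = M.sum := by
  unfold tsum
  simp

/-- number of parts exceeding `k` -/
def fl (M : Multiset ℕ) (k : ℕ) : ℕ := (M.filter (fun s => k < s)).card

lemma fl_zero (k : ℕ) : fl 0 k = 0 := rfl

lemma fl_cons (a : ℕ) (M : Multiset ℕ) (k : ℕ) : fl (a ::ₘ M) k = (if k < a then 1 else 0) + fl M k := by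
  unfold fl
  by_cases h : k < a
  · simp [h, add_comm]
  · simp [h]

lemma tsum_cons (a : ℕ) (M : Multiset ℕ) (k : ℕ) : tsum (a ::ₘ M) k = (a - k) + tsum M k := by
  unfold tsum
  simp

lemma tsum_sub (M : Multiset ℕ) (k : ℕ) : tsum M k = tsum M (k + 1) + fl M k := by
  induction M using Multiset.induction_on with
  | empty => rfl
  | cons a M ih =>
    rw [tsum_cons, tsum_cons, fl_cons, ih]
    split_ifs <;> omega

lemma card_filter_sub (M : Multiset ℕ) (k : ℕ) :
    fl M k = fl M (k + 1) + M.count (k + 1) := by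
  induction M using Multiset.induction_on with
  | empty => rfl
  | cons a M ih =>
    rw [fl_cons, fl_cons, ih, Multiset.count_cons]
    split_ifs <;> omega

theorem eq_of_tsum (M M' : Multiset ℕ) (h0 : ∀ a ∈ M, 0 < a) (h0' : ∀ a ∈ M', 0 < a) (h : ∀ k, tsum M k = tsum M' k) :
    M = M' := by
  have h1 : ∀ k, fl M k = fl M' k := by
    intro k
    have e1 := tsum_sub M k
    have e2 := tsum_sub M' k
    rw [h k, h (k + 1)] at e1
    omega
  ext a
  rcases Nat.eq_zero_or_pos a with ha | ha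
  · subst ha
    rw [Multiset.count_eq_zero_of_notMem (fun h => absurd (h0 _ h) (lt_irrefl 0)),
      Multiset.count_eq_zero_of_notMem (fun h => absurd (h0' _ h) (lt_irrefl 0))]
  · obtain ⟨k, rfl⟩ : ∃ k, a = k + 1 := ⟨a - 1, by omega⟩
    have e1 := card_filter_sub M k
    have e2 := card_filter_sub M' k
    rw [h1 k, h1 (k + 1)] at e1
    omega

end ms

variable {F V : Type*} [Field F] [AddCommGroup V] [Module F V]

/-- `N` has Jordan type `M` on `W`. -/
def JT (N : V →ₗ[F] V) (W : Submodule F V) (M : Multiset ℕ) : Prop :=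
  ∃ (ι : Type) (_ : Fintype ι) (s : ι → ℕ) (b : (Σ i, Fin (s i)) → V), (∀ i, 0 < s i) ∧ LinearIndependent F b ∧
    Submodule.span F (Set.range b) = W ∧
    (∀ i (j : Fin (s i)), N (b ⟨i, j⟩) = if h : (j : ℕ) + 1 < s i then b ⟨i, ⟨j + 1, h⟩⟩ else 0) ∧
    (Finset.univ : Finset ι).val.map s = M

lemma exists_JT {N : V →ₗ[F] V} {W : Submodule F V} (h : StrN N W) : ∃ M, JT N W M := by
  obtain ⟨ι, i1, s, b, h1, h2, h3, h4⟩ := h
  exact ⟨_, ι, i1, s, b, h1, h2, h3, h4, rfl⟩

lemma JT.sup {N : V →ₗ[F] V} {W W' : Submodule F V} {M M' : Multiset ℕ} (h : JT N W M)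
    (h' : JT N W' M') (hd : Disjoint W W') : JT N (W ⊔ W') (M + M') := by
  obtain ⟨ι, _, s, b, h1, h2, h3, h4, h5⟩ := h
  obtain ⟨ι', _, s', b', h1', h2', h3', h4', h5'⟩ := h'
  let e : (Σ i : ι ⊕ ι', Fin (Sum.elim s s' i)) → (Σ i, Fin (s i)) ⊕ (Σ i, Fin (s' i)) := fun p =>
    match p with
    | ⟨Sum.inl i, j⟩ => Sum.inl ⟨i, j⟩
    | ⟨Sum.inr i, j⟩ => Sum.inr ⟨i, j⟩
  have he : Function.Injective e := by
    rintro ⟨i | i, j⟩ ⟨i' | i', j'⟩ h
    · have h5 : (⟨i, j⟩ : Σ i, Fin (s i)) = ⟨i', j'⟩ := Sum.inl_injective h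
      cases h5
      rfl
    · exact absurd h (by simp [e])
    · exact absurd h (by simp [e])
    · have h5 : (⟨i, j⟩ : Σ i, Fin (s' i)) = ⟨i', j'⟩ := Sum.inr_injective h
      cases h5
      rfl
  refine ⟨ι ⊕ ι', inferInstance, Sum.elim s s', fun p => Sum.elim b b' (e p), ?_, ?_, ?_, ?_, ?_⟩
  · rintro (i | i)
    · exact h1 i
    · exact h1' i
  · exact (h2.sum_type h2' (by rw [h3, h3']; exact hd)).comp e he
  · apply le_antisymm
    · rw [Submodule.span_le]
      rintro _ ⟨⟨i | i, j⟩, rfl⟩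
      · refine (le_sup_left : W ≤ W ⊔ W') ?_
        rw [← h3]; exact Submodule.subset_span ⟨⟨i, j⟩, rfl⟩
      · refine (le_sup_right : W' ≤ W ⊔ W') ?_
        rw [← h3']; exact Submodule.subset_span ⟨⟨i, j⟩, rfl⟩
    · refine sup_le ?_ ?_
      · rw [← h3, Submodule.span_le]
        rintro _ ⟨⟨i, j⟩, rfl⟩
        exact Submodule.subset_span ⟨⟨Sum.inl i, j⟩, rfl⟩
      · rw [← h3', Submodule.span_le]
        rintro _ ⟨⟨i, j⟩, rfl⟩
        exact Submodule.subset_span ⟨⟨Sum.inr i, j⟩, rfl⟩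
  · rintro (i | i) j
    · exact h4 i j
    · exact h4' i j
  · rw [← h5, ← h5']
    have : (Finset.univ : Finset (ι ⊕ ι')).val = (Finset.univ : Finset ι).val.map Sum.inl + (Finset.univ : Finset ι').val.map Sum.inr := rfl
    rw [this, Multiset.map_add, Multiset.map_map, Multiset.map_map]
    rfl

lemma JT.pos {N : V →ₗ[F] V} {W : Submodule F V} {M : Multiset ℕ} (h : JT N W M) : ∀ a ∈ M, 0 < a := by
  obtain ⟨ι, _, s, b, h1, h2, h3, h4, h5⟩ := h
  rw [← h5]
  intro a ha
  obtain ⟨i, -, rfl⟩ := Multiset.mem_map.1 ha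
  exact h1 i

lemma JT.finrank_map [FiniteDimensional F V] {N : V →ₗ[F] V} {W : Submodule F V} {M : Multiset ℕ} (h : JT N W M) (k : ℕ) :
    finrank F (W.map (N ^ k)) = tsum M k := by
  classical
  obtain ⟨ι, _, s, b, h1, h2, h3, h4, h5⟩ := h
  have hp := pow_chain N s b h4
  have hr : W.map (N ^ k) = Submodule.span F (Set.range (fun p : {p : Σ i, Fin (s i) // k ≤ (p.2 : ℕ)} => b p.1)) := by
    apply le_antisymm
    · rw [← h3, Submodule.map_span, Submodule.span_le]
      rintro _ ⟨_, ⟨⟨i, j⟩, rfl⟩, rfl⟩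
      rw [hp i k j]
      split_ifs with h
      · exact Submodule.subset_span ⟨⟨⟨i, ⟨j + k, h⟩⟩, Nat.le_add_left _ _⟩, rfl⟩
      · exact Submodule.zero_mem _
    · rw [Submodule.span_le]
      rintro _ ⟨⟨⟨i, j⟩, hj⟩, rfl⟩
      have hj' : k ≤ (j : ℕ) := hj
      refine ⟨b ⟨i, ⟨j - k, by have := j.2; omega⟩⟩, ?_, ?_⟩
      · rw [← h3]; exact Submodule.subset_span ⟨_, rfl⟩
      · rw [hp i k]
        have h6 : (j : ℕ) - k + k < s i := by have := j.2; omega
        rw [dif_pos h6]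
        congr 2
        apply Fin.ext
        show (j : ℕ) - k + k = j
        omega
  have hli : LinearIndependent F (fun p : {p : Σ i, Fin (s i) // k ≤ (p.2 : ℕ)} => b p.1) := h2.comp _ Subtype.val_injective
  rw [hr, finrank_span_eq_card hli, Fintype.card_subtype]
  have hcard : (Finset.univ.filter (fun p : Σ i, Fin (s i) => k ≤ (p.2 : ℕ))) =
      Finset.univ.sigma (fun i => Finset.univ.filter (fun j : Fin (s i) => k ≤ (j : ℕ))) := by
    ext p
    simp
  rw [hcard, Finset.card_sigma]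
  have hc : ∀ i, (Finset.univ.filter (fun j : Fin (s i) => k ≤ (j : ℕ))).card = s i - k := by
    intro i
    have h7 := Finset.card_filter_add_card_filter_not (s := (Finset.univ : Finset (Fin (s i)))) (fun j : Fin (s i) => k ≤ (j : ℕ))
    have h8 : (Finset.univ.filter (fun j : Fin (s i) => ¬ k ≤ (j : ℕ))).card = min k (s i) := by
      have : (Finset.univ.filter (fun j : Fin (s i) => ¬ k ≤ (j : ℕ))).map Fin.valEmbedding = Finset.range (min k (s i)) := by
        ext a
        simp only [Finset.mem_map, Finset.mem_filter, Finset.mem_univ, true_and, Fin.valEmbedding_apply, Finset.mem_range, lt_min_iff, not_le]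
        constructor
        · rintro ⟨j, hj, rfl⟩
          exact ⟨hj, j.2⟩
        · rintro ⟨h9, h10⟩
          exact ⟨⟨a, h10⟩, h9, rfl⟩
      rw [← Finset.card_map Fin.valEmbedding, this, Finset.card_range]
    rw [h8, Finset.card_univ, Fintype.card_fin] at h7
    omega
  rw [Finset.sum_congr rfl (fun i _ => hc i), ← h5]
  unfold tsum
  rw [Multiset.map_map]
  rfl

theorem JT.unique [FiniteDimensional F V] {N : V →ₗ[F] V} {W : Submodule F V} {M M' : Multiset ℕ} (h : JT N W M)
    (h' : JT N W M') : M = M' :=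
  eq_of_tsum M M' h.pos h'.pos (fun k => by rw [← h.finrank_map k, ← h'.finrank_map k])

lemma JT.sum [FiniteDimensional F V] {N : V →ₗ[F] V} {W : Submodule F V} {M : Multiset ℕ} (h : JT N W M) : M.sum = finrank F W := by
  have : W.map (N ^ 0) = W := by
    rw [pow_zero]; exact Submodule.map_id W
  rw [← tsum_zero, ← h.finrank_map 0, this]

/-- existence of a nilpotent map with given type -/
theorem exists_of_type (n : ℕ) (M : Multiset ℕ) (h0 : ∀ a ∈ M, 0 < a) (hM : M.sum = n) :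
    ∃ N : (Fin n → F) →ₗ[F] (Fin n → F), JT N ⊤ M := by
  subst hM
  let l := M.toList
  have hl : (l : Multiset ℕ) = M := Multiset.coe_toList M
  let s : Fin l.length → ℕ := fun i => l.get i
  have hs : ∑ i, s i = M.sum := by
    rw [← hl, Multiset.sum_coe]
    exact Fin.sum_univ_getElem l
  let e : (Σ i, Fin (s i)) ≃ Fin M.sum := finSigmaFinEquiv.trans (finCongr hs)
  let b : Basis (Σ i, Fin (s i)) F (Fin M.sum → F) := (Pi.basisFun F (Fin M.sum)).reindex e.symm
  let N : (Fin M.sum → F) →ₗ[F] (Fin M.sum → F) := b.constr F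
    (fun p => if h : (p.2 : ℕ) + 1 < s p.1 then b ⟨p.1, ⟨p.2 + 1, h⟩⟩ else 0)
  refine ⟨N, Fin l.length, inferInstance, s, b, ?_, b.linearIndependent, b.span_eq, ?_, ?_⟩
  · intro i
    apply h0
    rw [← hl]
    exact List.get_mem l i
  · intro i j
    exact Basis.constr_basis _ _ _ _
  · have h1 : (Finset.univ : Finset (Fin l.length)).val.map s = (List.ofFn s : Multiset ℕ) := by
      rw [List.ofFn_eq_map]
      rfl
    rw [h1]
    have : List.ofFn s = l := List.ofFn_get l
    rw [this, hl]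

end CfsgLib.Nil29
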