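import Mathlib

/-! The number of nilpotent operators (seat helper13). -/

namespace CfsgLib.Nil

open Module Polynomial

universe u

variable {F : Type*} [Field F]

/-- nilpotency of a block triangular operator -/
theorem nil_iff {V : Type u} [AddCommGroup V] [Module F V] {W U : Submodule F V} (h : IsCompl W U) {T : End F V} {D : End F U}
    (hD : ∀ v, ((U.projectionOnto W h.symm) (T v)) = D ((U.projectionOnto W h.symm) v)) {k : ℕ} (hW : ∀ w ∈ W, (T ^ k) w = 0) :
    IsNilpotent T ↔ IsNilpotent D := by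
  have hpow : ∀ j v, (U.projectionOnto W h.symm) ((T ^ j) v) = (D ^ j) ((U.projectionOnto W h.symm) v) := by
    intro j
    induction j with
    | zero => intro v; rfl
    | succ j ih => intro v; rw [pow_succ', Module.End.mul_apply, hD, ih, pow_succ', Module.End.mul_apply]
  constructor
  · rintro ⟨N, hN⟩
    refine ⟨N, LinearMap.ext fun u => ?_⟩
    have h1 := hpow N (u : V)
    rw [hN, LinearMap.zero_apply, map_zero, Submodule.projectionOnto_apply_left] at h1
    exact h1.symm
  · rintro ⟨N, hN⟩
    refine ⟨k + N, LinearMap.ext fun v => ?_⟩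
    rw [pow_add, Module.End.mul_apply, LinearMap.zero_apply]
    apply hW
    have h1 := hpow N v
    rw [hN, LinearMap.zero_apply] at h1
    have h2 : (T ^ N) v ∈ LinearMap.ker (U.projectionOnto W h.symm) := h1
    rwa [Submodule.ker_projectionOnto] at h2

/-- a nilpotent operator has no proper relation on a chain -/
theorem chain_end {V : Type u} [AddCommGroup V] [Module F V] {k : ℕ} {t : Fin (k + 1) → V} (ht : LinearIndependent F t) {T : End F V} (hT : IsNilpotent T)
    (hc : ∀ i : Fin (k + 1), (T ^ (i : ℕ)) (t 0) = t i) (hw : (T ^ (k + 1)) (t 0) ∈ Submodule.span F (Set.range t)) : (T ^ (k + 1)) (t 0) = 0 := by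
  classical
  obtain ⟨M, hM⟩ := hT
  obtain ⟨a, ha⟩ := (Submodule.mem_span_range_iff_exists_fun F).1 hw
  let P : F[X] := X ^ (k + 1) - ∑ i : Fin (k + 1), C (a i) * X ^ (i : ℕ)
  have hdeg : (∑ i : Fin (k + 1), C (a i) * X ^ (i : ℕ) : F[X]).degree < ((k + 1 : ℕ) : WithBot ℕ) := by
    refine lt_of_le_of_lt (degree_sum_le _ _) ?_
    rw [Finset.sup_lt_iff (WithBot.bot_lt_coe _)]
    intro i _
    exact lt_of_le_of_lt (degree_C_mul_X_pow_le _ _) (by exact_mod_cast i.2)
  have hP : P.Monic := monic_X_pow_sub hdeg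
  have hPd : P.natDegree = k + 1 := by
    rw [natDegree_eq_of_degree_eq_some]
    rw [degree_sub_eq_left_of_degree_lt (by rw [degree_X_pow]; exact hdeg), degree_X_pow]
  have hPa : aeval T P (t 0) = 0 := by
    rw [map_sub, map_pow, aeval_X, map_sum, LinearMap.sub_apply, LinearMap.sum_apply, ← ha, sub_eq_zero]
    refine Finset.sum_congr rfl fun i _ => ?_
    rw [map_mul, aeval_C, map_pow, aeval_X, Module.End.mul_apply, hc i, Module.algebraMap_end_apply]
  have hX : aeval T (X ^ M : F[X]) (t 0) = 0 := by rw [map_pow, aeval_X, hM]; rfl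
  -- the gcd kills `t 0`
  have hg : aeval T (EuclideanDomain.gcd P (X ^ M)) (t 0) = 0 := by
    rw [EuclideanDomain.gcd_eq_gcd_ab, mul_comm P, mul_comm (X ^ M), map_add, map_mul, map_mul, LinearMap.add_apply,
      Module.End.mul_apply, Module.End.mul_apply, hPa, hX, map_zero, map_zero, add_zero]
  obtain ⟨j, hj, hass⟩ := (dvd_prime_pow (prime_X (R := F)) M).1 (EuclideanDomain.gcd_dvd_right P (X ^ M))
  have hj0 : (T ^ j) (t 0) = 0 := by
    obtain ⟨c, hc⟩ := hass.dvd
    rw [show T ^ j = aeval T (X ^ j : F[X]) by rw [map_pow, aeval_X], hc, mul_comm, map_mul, Module.End.mul_apply, hg, map_zero]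
  have hjk : j ≤ k + 1 := by
    have h1 : (X ^ j : F[X]) ∣ P := (hass.symm.dvd).trans (EuclideanDomain.gcd_dvd_left P (X ^ M))
    have h2 := natDegree_le_of_dvd h1 hP.ne_zero
    rwa [natDegree_X_pow, hPd] at h2
  rcases Nat.lt_or_ge j (k + 1) with hlt | hge
  · exfalso
    have h3 := hc ⟨j, hlt⟩
    rw [show (((⟨j, hlt⟩ : Fin (k + 1)) : ℕ)) = j from rfl, hj0] at h3
    exact ht.ne_zero _ h3.symm
  · rw [le_antisymm hjk hge] at hj0
    exact hj0

/-- the chain condition read as a restriction -/
theorem restr {V : Type u} [AddCommGroup V] [Module F V] {k : ℕ} {t : Fin (k + 1) → V} (ht : LinearIndependent F t) :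
    ∃ φ : Submodule.span F (Set.range t) →ₗ[F] Submodule.span F (Set.range t), ∀ T : End F V,
      ((∀ i : Fin (k + 1), (T ^ (i : ℕ)) (t 0) = t i) ∧ (T ^ (k + 1)) (t 0) = 0) ↔ ∀ w : Submodule.span F (Set.range t), T (w : V) = (φ w : V) := by
  classical
  let b := Basis.span ht
  have hb : ∀ i, ((b i : Submodule.span F (Set.range t)) : V) = t i := fun i => congrArg Subtype.val (Basis.span_apply ht i)
  let φ : Submodule.span F (Set.range t) →ₗ[F] Submodule.span F (Set.range t) :=
    b.constr F (fun i => if h : i.1 + 1 < k + 1 then b ⟨i.1 + 1, h⟩ else 0)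
  have hφ : ∀ i, φ (b i) = if h : i.1 + 1 < k + 1 then b ⟨i.1 + 1, h⟩ else 0 := fun i => Basis.constr_basis b F _ i
  refine ⟨φ, fun T => ⟨fun ⟨h1, h2⟩ => ?_, fun h1 => ?_⟩⟩
  · have h3 : T ∘ₗ (Submodule.span F (Set.range t)).subtype = (Submodule.span F (Set.range t)).subtype ∘ₗ φ := by
      refine b.ext fun i => ?_
      rw [LinearMap.comp_apply, LinearMap.comp_apply, Submodule.subtype_apply, Submodule.subtype_apply, hb, hφ]
      have h4 : T (t i) = (T ^ (i.1 + 1)) (t 0) := by rw [pow_succ', Module.End.mul_apply, h1 i]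
      rw [h4]
      split_ifs with h
      · rw [hb]; exact h1 ⟨i.1 + 1, h⟩
      · have : i.1 + 1 = k + 1 := by have := i.2; omega
        rw [this, h2]; rfl
    intro w
    exact LinearMap.congr_fun h3 w
  · have h2 : ∀ i : Fin (k + 1), T (t i) = if h : i.1 + 1 < k + 1 then t ⟨i.1 + 1, h⟩ else 0 := by
      intro i
      have h3 := h1 (b i)
      rw [hb, hφ] at h3
      rw [h3]
      split_ifs with h
      · exact hb _
      · rfl
    have h4 : ∀ j (hj : j < k + 1), (T ^ j) (t 0) = t ⟨j, hj⟩ := by
      intro j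
      induction j with
      | zero => intro hj; rfl
      | succ j ih =>
        intro hj
        rw [pow_succ', Module.End.mul_apply, ih (by omega), h2, dif_pos hj]
    refine ⟨fun i => h4 i.1 i.2, ?_⟩
    rw [pow_succ', Module.End.mul_apply, h4 k (by omega), h2, dif_neg (by simp)]

/-- counting the extensions of a nilpotent block -/
theorem block {V : Type u} [AddCommGroup V] [Module F V] {k : ℕ} {t : Fin (k + 1) → V} (ht : LinearIndependent F t)
    {U : Submodule F V} (h : IsCompl (Submodule.span F (Set.range t)) U) :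
    Nat.card {T : End F V // IsNilpotent T ∧ (∀ i : Fin (k + 1), (T ^ (i : ℕ)) (t 0) = t i) ∧ (T ^ (k + 1)) (t 0) = 0} =
      Nat.card (U →ₗ[F] Submodule.span F (Set.range t)) * Nat.card {D : End F U // IsNilpotent D} := by
  classical
  obtain ⟨φ, hφ⟩ := restr ht
  have hkill : ∀ T : End F V, (∀ i : Fin (k + 1), (T ^ (i : ℕ)) (t 0) = t i) → (T ^ (k + 1)) (t 0) = 0 →
      ∀ w ∈ Submodule.span F (Set.range t), (T ^ (k + 1)) w = 0 := by
    intro T h1 h2 w hw
    have h3 : Submodule.span F (Set.range t) ≤ LinearMap.ker (T ^ (k + 1)) := by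
      rw [Submodule.span_le]
      rintro _ ⟨i, rfl⟩
      change (T ^ (k + 1)) (t i) = 0
      rw [← h1 i, ← Module.End.mul_apply, ← pow_add, add_comm, pow_add, Module.End.mul_apply, h2, map_zero]
    exact h3 hw
  generalize hW : Submodule.span F (Set.range t) = W at *
  have e1 : ∀ w : W, W.projectionOnto U h (w : V) = w := fun w => Submodule.projectionOnto_apply_left h w
  have e2 : ∀ u : U, W.projectionOnto U h (u : V) = 0 := fun u => Submodule.projectionOnto_apply_right h u
  have e3 : ∀ u : U, U.projectionOnto W h.symm (u : V) = u := fun u => Submodule.projectionOnto_apply_left h.symm u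
  have e4 : ∀ w : W, U.projectionOnto W h.symm (w : V) = 0 := fun w => Submodule.projectionOnto_apply_right h.symm w
  have e5 : ∀ v : V, ((W.projectionOnto U h v : W) : V) + ((U.projectionOnto W h.symm v : U) : V) = v := by
    intro v
    have := Submodule.mem_sup.1 (show v ∈ W ⊔ U by rw [h.sup_eq_top]; trivial)
    obtain ⟨w, hw, u, hu, rfl⟩ := this
    rw [map_add, map_add]
    have a1 := e1 ⟨w, hw⟩
    have a2 := e2 ⟨u, hu⟩
    have a3 := e3 ⟨u, hu⟩
    have a4 := e4 ⟨w, hw⟩
    simp only at a1 a2 a3 a4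
    rw [a1, a2, a3, a4, add_zero, zero_add]
  have hD : ∀ T : End F V, (∀ w : W, T (w : V) = (φ w : V)) → ∀ v, (U.projectionOnto W h.symm) (T v) =
      (U.projectionOnto W h.symm ∘ₗ T ∘ₗ U.subtype) (U.projectionOnto W h.symm v) := by
    intro T hT v
    conv_lhs => rw [← e5 v, map_add, hT, map_add, e4, zero_add]
    rfl
  rw [← Nat.card_prod]
  refine Nat.card_congr
    { toFun := fun T => (W.projectionOnto U h ∘ₗ T.1 ∘ₗ U.subtype,
        ⟨U.projectionOnto W h.symm ∘ₗ T.1 ∘ₗ U.subtype, (nil_iff h (hD T.1 ((hφ T.1).1 T.2.2)) (hkill T.1 T.2.2.1 T.2.2.2)).1 T.2.1⟩)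
      invFun := fun BD => ⟨W.subtype ∘ₗ φ ∘ₗ W.projectionOnto U h + W.subtype ∘ₗ BD.1 ∘ₗ U.projectionOnto W h.symm +
          U.subtype ∘ₗ BD.2.1 ∘ₗ U.projectionOnto W h.symm, ?_⟩
      left_inv := ?_
      right_inv := ?_ }
  · have h1 : ∀ w : W, (W.subtype ∘ₗ φ ∘ₗ W.projectionOnto U h + W.subtype ∘ₗ BD.1 ∘ₗ U.projectionOnto W h.symm +
          U.subtype ∘ₗ BD.2.1 ∘ₗ U.projectionOnto W h.symm : End F V) (w : V) = (φ w : V) := by
      intro w
      simp only [LinearMap.add_apply, LinearMap.comp_apply, e1, e4, map_zero, add_zero, Submodule.subtype_apply]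
    have h2 := (hφ (W.subtype ∘ₗ φ ∘ₗ W.projectionOnto U h + W.subtype ∘ₗ BD.1 ∘ₗ U.projectionOnto W h.symm +
          U.subtype ∘ₗ BD.2.1 ∘ₗ U.projectionOnto W h.symm)).2 h1
    refine ⟨(nil_iff h (D := BD.2.1) ?_ (hkill _ h2.1 h2.2)).2 BD.2.2, h2⟩
    intro v
    simp only [LinearMap.add_apply, LinearMap.comp_apply, Submodule.subtype_apply, map_add, e4, e3, zero_add]
  · rintro ⟨T, hT⟩
    refine Subtype.ext (LinearMap.ext fun v => ?_)
    have h1 := (hφ T).1 hT.2
    simp only [LinearMap.add_apply, LinearMap.comp_apply, Submodule.subtype_apply]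
    rw [← h1, add_assoc, e5, ← map_add, e5]
  · rintro ⟨B, D, hDn⟩
    refine Prod.ext (LinearMap.ext fun u => ?_) (Subtype.ext (LinearMap.ext fun u => ?_))
    · simp only [LinearMap.add_apply, LinearMap.comp_apply, Submodule.subtype_apply, map_add, e1, e2, e3, map_zero,
        zero_add, add_zero]
    · simp only [LinearMap.add_apply, LinearMap.comp_apply, Submodule.subtype_apply, map_add, e4, e2, e3, map_zero,
        zero_add, add_zero]

theorem finite_end [Finite F] (V : Type u) [AddCommGroup V] [Module F V] [FiniteDimensional F V] : Finite (End F V) := by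
  have : Finite V := Module.finite_of_finite F
  exact Finite.of_injective (fun T : End F V => (T : V → V)) DFunLike.coe_injective

theorem split [Finite F] {V : Type u} [AddCommGroup V] [Module F V] [FiniteDimensional F V] [Fintype V] {k : ℕ} (t : Fin (k + 1) → V) :
    Nat.card {T : End F V // IsNilpotent T ∧ ∀ i : Fin (k + 1), (T ^ (i : ℕ)) (t 0) = t i} =
      ∑ w : V, Nat.card {T : End F V // IsNilpotent T ∧ (∀ i : Fin (k + 1), (T ^ (i : ℕ)) (t 0) = t i) ∧ (T ^ (k + 1)) (t 0) = w} := by
  have := finite_end (F := F) V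
  rw [← Nat.card_sigma]
  refine Nat.card_congr
    { toFun := fun T => ⟨(T.1 ^ (k + 1)) (t 0), T.1, T.2.1, T.2.2, rfl⟩
      invFun := fun x => ⟨x.2.1, x.2.2.1, x.2.2.2.1⟩
      left_inv := fun T => rfl
      right_inv := ?_ }
  rintro ⟨w, T, hT, hc, rfl⟩
  rfl

/-- counting nilpotent operators carrying a given chain -/
theorem chains [Finite F] {n : ℕ}
    (ih : ∀ m < n, ∀ (V : Type u) [AddCommGroup V] [Module F V] [FiniteDimensional F V], finrank F V = m →
      Nat.card {T : End F V // IsNilpotent T} = Nat.card F ^ (m * (m - 1)))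
    (V : Type u) [AddCommGroup V] [Module F V] [FiniteDimensional F V] (hV : finrank F V = n) :
    ∀ (d k : ℕ) (t : Fin (k + 1) → V), LinearIndependent F t → k + 1 + d = n →
      Nat.card {T : End F V // IsNilpotent T ∧ ∀ i : Fin (k + 1), (T ^ (i : ℕ)) (t 0) = t i} = Nat.card F ^ (n * d) := by
  classical
  have : Finite V := Module.finite_of_finite F
  letI : Fintype V := Fintype.ofFinite V
  -- the block term
  have hA : ∀ (d k : ℕ) (t : Fin (k + 1) → V), LinearIndependent F t → k + 1 + d = n →
      Nat.card {T : End F V // IsNilpotent T ∧ (∀ i : Fin (k + 1), (T ^ (i : ℕ)) (t 0) = t i) ∧ (T ^ (k + 1)) (t 0) = 0} =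
        Nat.card F ^ ((k + 1) * d + d * (d - 1)) := by
    intro d k t ht hn
    obtain ⟨U, hU⟩ := (Submodule.span F (Set.range t)).exists_isCompl
    have hW : finrank F (Submodule.span F (Set.range t)) = k + 1 := by
      rw [finrank_span_eq_card ht, Fintype.card_fin]
    have hdU : finrank F U = d := by
      have := Submodule.finrank_add_eq_of_isCompl hU
      omega
    rw [block ht hU, ih d (by omega) U hdU, Module.natCard_eq_pow_finrank (K := F), Module.finrank_linearMap, hW, hdU, ← pow_add,
      mul_comm d]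
  -- terms in the span
  have hB : ∀ (k : ℕ) (t : Fin (k + 1) → V), LinearIndependent F t → ∀ w ∈ Submodule.span F (Set.range t), w ≠ 0 →
      Nat.card {T : End F V // IsNilpotent T ∧ (∀ i : Fin (k + 1), (T ^ (i : ℕ)) (t 0) = t i) ∧ (T ^ (k + 1)) (t 0) = w} = 0 := by
    intro k t ht w hw hw0
    rw [Nat.card_eq_zero]
    left
    refine ⟨fun ⟨T, h1, h2, h3⟩ => hw0 ?_⟩
    rw [← h3]
    exact chain_end ht h1 h2 (h3 ▸ hw)
  intro d
  induction d with
  | zero =>
    intro k t ht hn
    rw [split, Finset.sum_eq_single 0, hA 0 k t ht hn]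
    · simp
    · intro w _ hw
      refine hB k t ht w ?_ hw
      have h1 : Submodule.span F (Set.range t) = ⊤ := by
        apply Submodule.eq_top_of_finrank_eq
        rw [finrank_span_eq_card ht, Fintype.card_fin, hV]
        omega
      rw [h1]; trivial
    · intro h; exact absurd (Finset.mem_univ _) h
  | succ d ihd =>
    intro k t ht hn
    have hC : ∀ w ∉ Submodule.span F (Set.range t),
        Nat.card {T : End F V // IsNilpotent T ∧ (∀ i : Fin (k + 1), (T ^ (i : ℕ)) (t 0) = t i) ∧ (T ^ (k + 1)) (t 0) = w} =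
          Nat.card F ^ (n * d) := by
      intro w hw
      rw [← ihd (k + 1) (Fin.snoc t w) (linearIndependent_finSnoc.2 ⟨ht, hw⟩) (by omega)]
      refine Nat.card_congr (Equiv.subtypeEquivRight fun T => and_congr_right fun _ => ?_)
      have h0 : (Fin.snoc t w : Fin (k + 1 + 1) → V) 0 = t 0 := Fin.snoc_castSucc (α := fun _ => V) w t 0
      rw [h0]
      refine Iff.trans ?_ (Fin.forall_fin_succ' (P := fun i : Fin (k + 1 + 1) => (T ^ (i : ℕ)) (t 0) = (Fin.snoc t w : Fin (k + 1 + 1) → V) i)).symm
      refine and_congr (forall_congr' fun i => ?_) ?_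
      · rw [Fin.snoc_castSucc]; rfl
      · rw [Fin.snoc_last]; rfl
    have hsum : ∑ w : V, (Nat.card {T : End F V // IsNilpotent T ∧ (∀ i : Fin (k + 1), (T ^ (i : ℕ)) (t 0) = t i) ∧ (T ^ (k + 1)) (t 0) = w} +
        (if w ∈ Submodule.span F (Set.range t) then Nat.card F ^ (n * d) else 0)) =
        ∑ w : V, ((if w = 0 then Nat.card F ^ ((k + 1) * (d + 1) + (d + 1) * (d + 1 - 1)) else 0) + Nat.card F ^ (n * d)) := by
      refine Finset.sum_congr rfl fun w _ => ?_
      by_cases hw0 : w = 0
      · subst hw0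
        rw [if_pos rfl, if_pos (Submodule.zero_mem _), hA (d + 1) k t ht hn]
      · rw [if_neg hw0, zero_add]
        by_cases hw : w ∈ Submodule.span F (Set.range t)
        · rw [if_pos hw, hB k t ht w hw hw0, zero_add]
        · rw [if_neg hw, hC w hw, add_zero]
    rw [Finset.sum_add_distrib, ← split, Finset.sum_add_distrib] at hsum
    have h1 : ∑ w : V, (if w ∈ Submodule.span F (Set.range t) then Nat.card F ^ (n * d) else 0) = Nat.card F ^ (k + 1) * Nat.card F ^ (n * d) := by
      rw [← Finset.sum_filter, Finset.sum_const, smul_eq_mul]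
      congr 1
      rw [← Fintype.card_subtype, ← Nat.card_eq_fintype_card]
      change Nat.card (Submodule.span F (Set.range t)) = _
      rw [Module.natCard_eq_pow_finrank (K := F), finrank_span_eq_card ht, Fintype.card_fin]
    rw [h1, Finset.sum_ite_eq' Finset.univ (0 : V), if_pos (Finset.mem_univ _), Finset.sum_const, smul_eq_mul, Finset.card_univ,
      ← Nat.card_eq_fintype_card, Module.natCard_eq_pow_finrank (K := F) (V := V), hV] at hsum
    have h2 : (k + 1) * (d + 1) + (d + 1) * (d + 1 - 1) = (k + 1) + n * d := by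
      rw [← hn, Nat.add_sub_cancel]; ring
    rw [h2, pow_add (Nat.card F) (k + 1) (n * d)] at hsum
    rw [mul_add, mul_one, add_comm (n * d), pow_add]
    omega

/-- the number of nilpotent operators -/
theorem card_nil [Finite F] (n : ℕ) : ∀ (V : Type u) [AddCommGroup V] [Module F V] [FiniteDimensional F V], finrank F V = n →
    Nat.card {T : End F V // IsNilpotent T} = Nat.card F ^ (n * (n - 1)) := by
  induction n using Nat.strong_induction_on with
  | _ n ih =>
    intro V _ _ _ hV
    rcases n with _ | m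
    · have hs : Subsingleton V := finrank_zero_iff.1 hV
      have : Nat.card {T : End F V // IsNilpotent T} = 1 := by
        rw [Nat.card_eq_one_iff_unique]
        exact ⟨⟨fun a b => Subtype.ext (LinearMap.ext fun v => Subsingleton.elim _ _)⟩, ⟨⟨0, IsNilpotent.zero⟩⟩⟩
      rw [this]; simp
    · have hn : Nontrivial V := nontrivial_of_finrank_pos (R := F) (by omega)
      obtain ⟨v, hv⟩ := exists_ne (0 : V)
      have ht : LinearIndependent F (fun _ : Fin (0 + 1) => v) := by
        have : Unique (Fin (0 + 1)) := inferInstanceAs (Unique (Fin 1))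
        exact LinearIndependent.of_subsingleton 0 hv
      have h1 := chains ih V hV m 0 (fun _ => v) ht (by omega)
      rw [Nat.add_sub_cancel, ← h1]
      refine Nat.card_congr (Equiv.subtypeEquivRight fun T => (and_iff_left ?_).symm)
      intro i
      have : (i : ℕ) = 0 := by omega
      rw [this]; rfl

end CfsgLib.Nil
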