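import Mathlib

/-! Normal subgroups of multiply transitive permutation groups (seat helper15).
We work with subgroups of `Equiv.Perm α` fixing a finite set `F` pointwise, and transitivity on
tuples avoiding `F`. -/

set_option autoImplicit false

namespace CfsgLib.NormTrans

variable {α : Type*} [Fintype α] [DecidableEq α]

omit [Fintype α] [DecidableEq α] in
theorem inv_self_apply (g : Equiv.Perm α) (x : α) : g⁻¹ (g x) = x := by simp

theorem exists_ne_one_of_ne_bot {G : Type*} [Group G] {M : Subgroup G} (hM : M ≠ ⊥) : ∃ g ∈ M, g ≠ 1 := by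
  by_contra hcon
  push Not at hcon
  exact hM (by rw [eq_bot_iff]; intro x hx; exact Subgroup.mem_bot.mpr (hcon x hx))

/-- `K` is transitive on injective `m`-tuples avoiding `F`. -/
def T (K : Subgroup (Equiv.Perm α)) (F : Finset α) (m : ℕ) : Prop :=
  ∀ x y : Fin m → α, Function.Injective x → Function.Injective y → (∀ i, x i ∉ F) → (∀ i, y i ∉ F) →
    ∃ g ∈ K, ∀ i, g (x i) = y i

/-- `K` fixes `F` pointwise -/
def Fix (K : Subgroup (Equiv.Perm α)) (F : Finset α) : Prop := ∀ g ∈ K, ∀ a ∈ F, g a = a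

/-- point stabiliser inside a subgroup -/
def st (K : Subgroup (Equiv.Perm α)) (a : α) : Subgroup (Equiv.Perm α) :=
  K ⊓ MulAction.stabilizer (Equiv.Perm α) a

omit [Fintype α] [DecidableEq α] in
theorem mem_st {K : Subgroup (Equiv.Perm α)} {a : α} {g : Equiv.Perm α} : g ∈ st K a ↔ g ∈ K ∧ g a = a :=
  Iff.rfl

omit [Fintype α] [DecidableEq α] in
theorem T.mono_right {K : Subgroup (Equiv.Perm α)} {F : Finset α} {m : ℕ} (h : T K F (m + 1))
    (hex : ∀ x : Fin m → α, Function.Injective x → (∀ i, x i ∉ F) → ∃ c, c ∉ F ∧ ∀ i, x i ≠ c) : T K F m := by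
  intro x y hx hy hxF hyF
  obtain ⟨c, hc, hxc⟩ := hex x hx hxF
  obtain ⟨d, hd, hyd⟩ := hex y hy hyF
  obtain ⟨g, hg, hgi⟩ := h (Fin.snoc x c) (Fin.snoc y d) (by
      rw [Fin.snoc_injective_iff]
      exact ⟨hx, by rintro ⟨i, hi⟩; exact hxc i hi⟩) (by
      rw [Fin.snoc_injective_iff]
      exact ⟨hy, by rintro ⟨i, hi⟩; exact hyd i hi⟩) (by
      intro i
      refine Fin.lastCases ?_ (fun j => ?_) i
      · simpa using hc
      · simpa using hxF j) (by
      intro i
      refine Fin.lastCases ?_ (fun j => ?_) i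
      · simpa using hd
      · simpa using hyF j)
  refine ⟨g, hg, fun i => ?_⟩
  have := hgi i.castSucc
  simpa using this

theorem exists_fresh {F : Finset α} {m : ℕ} (hn : F.card + m < Fintype.card α) (x : Fin m → α) :
    ∃ c, c ∉ F ∧ ∀ i, x i ≠ c := by
  by_contra hcon
  push Not at hcon
  have h1 : (Finset.univ : Finset α) ⊆ F ∪ Finset.univ.image x := by
    intro c _
    rw [Finset.mem_union]
    by_cases hc : c ∈ F
    · exact Or.inl hc
    · right
      obtain ⟨i, hi⟩ := hcon c hc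
      exact Finset.mem_image.mpr ⟨i, Finset.mem_univ _, hi⟩
  have h2 := (Finset.card_le_card h1).trans (Finset.card_union_le _ _)
  have h3 : (Finset.univ.image x).card ≤ m := by
    have := Finset.card_image_le (s := (Finset.univ : Finset (Fin m))) (f := x)
    rwa [Finset.card_univ, Fintype.card_fin] at this
  rw [Finset.card_univ] at h2
  omega

theorem T.pred {K : Subgroup (Equiv.Perm α)} {F : Finset α} {m : ℕ} (h : T K F (m + 1))
    (hn : F.card + m < Fintype.card α) : T K F m :=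
  h.mono_right (fun x _ _ => exists_fresh hn x)

theorem T.mono {K : Subgroup (Equiv.Perm α)} {F : Finset α} {m : ℕ} (h : T K F m)
    (hn : F.card + m ≤ Fintype.card α) : ∀ {k : ℕ}, k ≤ m → T K F k := by
  induction m with
  | zero => intro k hk; have : k = 0 := by omega
            subst this; exact h
  | succ m ih =>
    intro k hk
    rcases Nat.lt_or_ge m k with h1 | h1
    · have : k = m + 1 := by omega
      subst this; exact h
    · exact ih (h.pred (by omega)) (by omega) h1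

omit [Fintype α] in
theorem T.st {K : Subgroup (Equiv.Perm α)} {F : Finset α} {m : ℕ} (h : T K F (m + 1)) {a : α} (ha : a ∉ F) :
    T (st K a) (insert a F) m := by
  intro x y hx hy hxF hyF
  simp only [Finset.mem_insert, not_or] at hxF hyF
  obtain ⟨g, hg, hgi⟩ := h (Fin.snoc x a) (Fin.snoc y a) (by
      rw [Fin.snoc_injective_iff]
      exact ⟨hx, by rintro ⟨i, hi⟩; exact (hxF i).1 hi⟩) (by
      rw [Fin.snoc_injective_iff]
      exact ⟨hy, by rintro ⟨i, hi⟩; exact (hyF i).1 hi⟩) (by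
      intro i
      refine Fin.lastCases ?_ (fun j => ?_) i
      · simpa using ha
      · simpa using (hxF j).2) (by
      intro i
      refine Fin.lastCases ?_ (fun j => ?_) i
      · simpa using ha
      · simpa using (hyF j).2)
  refine ⟨g, ⟨hg, ?_⟩, fun i => ?_⟩
  · have := hgi (Fin.last m)
    simpa using this
  · have := hgi i.castSucc
    simpa using this

omit [Fintype α] in
/-- transitivity plus point stabiliser transitivity -/
theorem T.of_st {K : Subgroup (Equiv.Perm α)} {F : Finset α} {m : ℕ} (hF : Fix K F) {a : α} (ha : a ∉ F)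
    (h1 : ∀ x y : α, x ∉ F → y ∉ F → ∃ g ∈ K, g x = y) (hst : T (NormTrans.st K a) (insert a F) m) :
    T K F (m + 1) := by
  intro x y hx hy hxF hyF
  obtain ⟨g, hg, hga⟩ := h1 (x 0) a (hxF 0) ha
  obtain ⟨k, hk, hka⟩ := h1 (y 0) a (hyF 0) ha
  have hmap : ∀ g ∈ K, ∀ c, c ∉ F → g c ∉ F := by
    intro g hg c hc hgc
    have h2 := hF _ (inv_mem hg) _ hgc
    rw [inv_self_apply] at h2
    rw [← h2] at hgc
    exact hc hgc
  obtain ⟨l, hl, hli⟩ := hst (fun i => g (x i.succ)) (fun i => k (y i.succ))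
    (fun i j hij => Fin.succ_injective _ (hx (g.injective hij)))
    (fun i j hij => Fin.succ_injective _ (hy (k.injective hij))) (by
      intro i
      rw [Finset.mem_insert, not_or]
      refine ⟨?_, hmap g hg _ (hxF _)⟩
      rw [← hga]
      intro h2
      have h3 := hx (g.injective h2)
      exact Fin.succ_ne_zero i h3) (by
      intro i
      rw [Finset.mem_insert, not_or]
      refine ⟨?_, hmap k hk _ (hyF _)⟩
      rw [← hka]
      intro h2
      have h3 := hy (k.injective h2)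
      exact Fin.succ_ne_zero i h3)
  refine ⟨k⁻¹ * l * g, mul_mem (mul_mem (inv_mem hk) hl.1) hg, ?_⟩
  intro i
  refine Fin.cases ?_ (fun j => ?_) i
  · rw [Equiv.Perm.mul_apply, Equiv.Perm.mul_apply, hga, (mem_st.mp hl).2, ← hka, inv_self_apply]
  · rw [Equiv.Perm.mul_apply, Equiv.Perm.mul_apply, hli j, inv_self_apply]

omit [Fintype α] [DecidableEq α] in
/-- two-tuple form -/
theorem T.two {K : Subgroup (Equiv.Perm α)} {F : Finset α} (h : T K F 2) {a b c d : α} (hab : a ≠ b) (hcd : c ≠ d)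
    (ha : a ∉ F) (hb : b ∉ F) (hc : c ∉ F) (hd : d ∉ F) : ∃ g ∈ K, g a = c ∧ g b = d := by
  obtain ⟨g, hg, hgi⟩ := h ![a, b] ![c, d] (by
      intro i j hij
      fin_cases i <;> fin_cases j <;> simp_all [eq_comm]) (by
      intro i j hij
      fin_cases i <;> fin_cases j <;> simp_all [eq_comm]) (by
      intro i; fin_cases i <;> simp_all) (by
      intro i; fin_cases i <;> simp_all)
  exact ⟨g, hg, hgi 0, hgi 1⟩

omit [Fintype α] [DecidableEq α] in
theorem T.three {K : Subgroup (Equiv.Perm α)} {F : Finset α} (h : T K F 3) {a b c a' b' c' : α} (hab : a ≠ b)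
    (hac : a ≠ c) (hbc : b ≠ c) (hab' : a' ≠ b') (hac' : a' ≠ c') (hbc' : b' ≠ c')
    (ha : a ∉ F) (hb : b ∉ F) (hc : c ∉ F) (ha' : a' ∉ F) (hb' : b' ∉ F) (hc' : c' ∉ F) :
    ∃ g ∈ K, g a = a' ∧ g b = b' ∧ g c = c' := by
  obtain ⟨g, hg, hgi⟩ := h ![a, b, c] ![a', b', c'] (by
      intro i j hij
      fin_cases i <;> fin_cases j <;> simp_all [eq_comm]) (by
      intro i j hij
      fin_cases i <;> fin_cases j <;> simp_all [eq_comm]) (by
      intro i; fin_cases i <;> simp_all) (by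
      intro i; fin_cases i <;> simp_all)
  exact ⟨g, hg, hgi 0, hgi 1, hgi 2⟩

omit [Fintype α] [DecidableEq α] in
theorem T.four {K : Subgroup (Equiv.Perm α)} {F : Finset α} (h : T K F 4) {a b c d a' b' c' d' : α} (hab : a ≠ b)
    (hac : a ≠ c) (had : a ≠ d) (hbc : b ≠ c) (hbd : b ≠ d) (hcd : c ≠ d)
    (hab' : a' ≠ b') (hac' : a' ≠ c') (had' : a' ≠ d') (hbc' : b' ≠ c') (hbd' : b' ≠ d') (hcd' : c' ≠ d')
    (ha : a ∉ F) (hb : b ∉ F) (hc : c ∉ F) (hd : d ∉ F) (ha' : a' ∉ F) (hb' : b' ∉ F) (hc' : c' ∉ F) (hd' : d' ∉ F) :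
    ∃ g ∈ K, g a = a' ∧ g b = b' ∧ g c = c' ∧ g d = d' := by
  obtain ⟨g, hg, hgi⟩ := h ![a, b, c, d] ![a', b', c', d'] (by
      intro i j hij
      fin_cases i <;> fin_cases j <;> simp_all [eq_comm]) (by
      intro i j hij
      fin_cases i <;> fin_cases j <;> simp_all [eq_comm]) (by
      intro i; fin_cases i <;> simp_all) (by
      intro i; fin_cases i <;> simp_all)
  exact ⟨g, hg, hgi 0, hgi 1, hgi 2, hgi 3⟩

omit [Fintype α] [DecidableEq α] in
theorem T.one {K : Subgroup (Equiv.Perm α)} {F : Finset α} (h : ∀ x y : α, x ∉ F → y ∉ F → ∃ g ∈ K, g x = y) :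
    T K F 1 := by
  intro x y _ _ hxF hyF
  obtain ⟨g, hg, hgx⟩ := h (x 0) (y 0) (hxF 0) (hyF 0)
  refine ⟨g, hg, fun i => ?_⟩
  have : i = 0 := Subsingleton.elim _ _
  rw [this, hgx]

omit [DecidableEq α] in
/-- A nontrivial normal subgroup of a 2-transitive group is transitive. -/
theorem normal_trans {K M : Subgroup (Equiv.Perm α)} {F : Finset α} (hF : Fix K F) (h : T K F 2)
    (hMK : M ≤ K) (hn : ∀ k ∈ K, ∀ g ∈ M, k * g * k⁻¹ ∈ M) (hM : M ≠ ⊥) :
    ∀ x y : α, x ∉ F → y ∉ F → ∃ g ∈ M, g x = y := by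
  intro u v hu hv
  obtain ⟨g, hg, hg1⟩ := exists_ne_one_of_ne_bot hM
  obtain ⟨x, hx⟩ : ∃ x, g x ≠ x := by
    by_contra hcon
    push Not at hcon
    exact hg1 (Equiv.ext hcon)
  have hxF : x ∉ F := fun h1 => hx (hF g (hMK hg) x h1)
  have hgxF : g x ∉ F := by
    intro h1
    have h2 := hF g (hMK hg) _ h1
    exact hx (g.injective h2)
  by_cases huv : u = v
  · exact ⟨1, one_mem _, by rw [huv]; rfl⟩
  obtain ⟨k, hk, hk1, hk2⟩ := h.two (Ne.symm hx) huv hxF hgxF hu hv
  refine ⟨k * g * k⁻¹, hn k hk g hg, ?_⟩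
  rw [Equiv.Perm.mul_apply, Equiv.Perm.mul_apply, ← hk1, inv_self_apply, hk2]

omit [Fintype α] [DecidableEq α] in
theorem comm_of_sq {M : Subgroup (Equiv.Perm α)} (h : ∀ g ∈ M, g ^ 2 = 1) :
    ∀ x ∈ M, ∀ y ∈ M, x * y = y * x := by
  intro x hx y hy
  have h1 : ∀ z ∈ M, z⁻¹ = z := by
    intro z hz
    have := h z hz
    rw [pow_two] at this
    exact inv_eq_of_mul_eq_one_left this
  have h2 := h1 _ (mul_mem hx hy)
  rw [mul_inv_rev, h1 x hx, h1 y hy] at h2
  exact h2.symm

end CfsgLib.NormTrans
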