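import Mathlib
import Cfsg.Agent.LibNormTrans
import Cfsg.Agent.LibPermBasic

/-! Normal subgroups of multiply transitive permutation groups, II (seat helper15):
Jordan's theorem. -/

set_option autoImplicit false
set_option linter.unusedSectionVars false

namespace CfsgLib.NormTrans

variable {α : Type*} [Fintype α] [DecidableEq α]

theorem reg_commute {K M : Subgroup (Equiv.Perm α)}
    (hn : ∀ k ∈ K, ∀ g ∈ M, k * g * k⁻¹ ∈ M) {a : α} (hreg : st M a = ⊥) {g k : Equiv.Perm α} (hg : g ∈ M)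
    (hk : k ∈ K) (hka : k a = a) (hkb : k (g a) = g a) : ∀ x, k (g x) = g (k x) := by
  have h1 : g⁻¹ * (k * g * k⁻¹) ∈ st M a := by
    refine mem_st.mpr ⟨mul_mem (inv_mem hg) (hn k hk g hg), ?_⟩
    show (g⁻¹ * (k * g * k⁻¹)) a = a
    have hka' : k⁻¹ a = a := by
      conv_lhs => rw [← hka]
      exact inv_self_apply k a
    simp only [Equiv.Perm.mul_apply, hka', hkb, inv_self_apply]
  rw [hreg, Subgroup.mem_bot, inv_mul_eq_one] at h1
  intro x
  conv_rhs => rw [h1]
  simp

theorem notmem_of_fix {K : Subgroup (Equiv.Perm α)} {F : Finset α} (hF : Fix K F) {g : Equiv.Perm α} (hg : g ∈ K)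
    {c : α} (hc : c ∉ F) : g c ∉ F := by
  intro hgc
  have h2 := hF _ (inv_mem hg) _ hgc
  rw [inv_self_apply] at h2
  rw [← h2] at hgc
  exact hc hgc

theorem Fix.mono {K M : Subgroup (Equiv.Perm α)} {F : Finset α} (hF : Fix K F) (h : M ≤ K) : Fix M F :=
  fun g hg a ha => hF g (h hg) a ha

theorem Fix.st {K : Subgroup (Equiv.Perm α)} {F : Finset α} (hF : Fix K F) (a : α) : Fix (st K a) (insert a F) := by
  intro g hg b hb
  rcases Finset.mem_insert.mp hb with rfl | hb
  · exact hg.2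
  · exact hF g hg.1 b hb

/-- choose a point outside a small finite set -/
theorem exists_notMem {F : Finset α} (h : F.card < Fintype.card α) : ∃ c, c ∉ F := by
  by_contra hcon
  push Not at hcon
  have : F = Finset.univ := Finset.eq_univ_of_forall hcon
  rw [this, Finset.card_univ] at h
  exact lt_irrefl _ h

theorem card_insert_le' (F : Finset α) (a : α) : (insert a F).card ≤ F.card + 1 := Finset.card_insert_le a F

theorem exp_two_of_reg {K M : Subgroup (Equiv.Perm α)} {F : Finset α} (hF : Fix K F) (h : T K F 3)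
    (hMK : M ≤ K) (hn : ∀ k ∈ K, ∀ g ∈ M, k * g * k⁻¹ ∈ M) {a : α} (ha : a ∉ F) (hreg : st M a = ⊥)
    (hcard : F.card + 4 ≤ Fintype.card α) : ∀ g ∈ M, g ^ 2 = 1 := by
  intro g hg
  by_cases hg1 : g = 1
  · rw [hg1]; exact one_pow 2
  have hMF := hF.mono hMK
  have hab : g a ≠ a := by
    intro h1
    apply hg1
    have : g ∈ st M a := ⟨hg, h1⟩
    rw [hreg] at this
    exact Subgroup.mem_bot.mp this
  have hbF : g a ∉ F := notmem_of_fix hMF hg ha
  have hcF : g (g a) ∉ F := notmem_of_fix hMF hg hbF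
  have hcb : g (g a) ≠ g a := fun h1 => hab (g.injective h1)
  have hca : g (g a) = a := by
    by_contra hca
    obtain ⟨d, hd⟩ := exists_notMem (F := insert (g (g a)) (insert (g a) (insert a F))) (by
      have h1 := card_insert_le' (insert (g a) (insert a F)) (g (g a))
      have h2 := card_insert_le' (insert a F) (g a)
      have h3 := card_insert_le' F a
      omega)
    simp only [Finset.mem_insert, not_or] at hd
    obtain ⟨k, hk, hk1, hk2, hk3⟩ := h.three (a := a) (b := g a) (c := g (g a)) (a' := a) (b' := g a) (c' := d)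
      hab.symm (Ne.symm hca) hcb.symm hab.symm (Ne.symm hd.2.2.1) (Ne.symm hd.2.1) ha hbF hcF ha hbF hd.2.2.2
    have h4 := reg_commute hn hreg hg hk hk1 hk2 (g a)
    rw [hk3, hk2] at h4
    exact hd.1 h4
  have h5 : g ^ 2 ∈ st M a := by
    refine ⟨pow_mem hg 2, ?_⟩
    show (g ^ 2) a = a
    rw [pow_two, Equiv.Perm.mul_apply, hca]
  rw [hreg] at h5
  exact Subgroup.mem_bot.mp h5

theorem not_reg_of_four {K M : Subgroup (Equiv.Perm α)} {F : Finset α} (hF : Fix K F) (h3 : T K F 3) (h : T K F 4)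
    (hMK : M ≤ K) (hn : ∀ k ∈ K, ∀ g ∈ M, k * g * k⁻¹ ∈ M)
    (htr : ∀ x y : α, x ∉ F → y ∉ F → ∃ g ∈ M, g x = y) {a : α} (ha : a ∉ F)
    (hcard : F.card + 5 ≤ Fintype.card α) : st M a ≠ ⊥ := by
  intro hreg
  have hMF := hF.mono hMK
  have hsq := exp_two_of_reg hF h3 hMK hn ha hreg (by omega)
  have h1 := card_insert_le' F a
  obtain ⟨b, hb⟩ := exists_notMem (F := insert a F) (by omega)
  have h2 := card_insert_le' (insert a F) b
  obtain ⟨c, hc⟩ := exists_notMem (F := insert b (insert a F)) (by omega)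
  simp only [Finset.mem_insert, not_or] at hb hc
  obtain ⟨g, hg, hga⟩ := htr a b ha hb.2
  obtain ⟨l, hl, hla⟩ := htr a c ha hc.2.2
  have hgg : ∀ x, g (g x) = x := by
    intro x
    have := congrArg (fun f : Equiv.Perm α => f x) (hsq g hg)
    simpa [pow_two] using this
  have hdF : g c ∉ F := notmem_of_fix hMF hg hc.2.2
  have hda : g c ≠ a := by
    intro h5
    have h6 := congrArg g h5
    rw [hgg, hga] at h6
    exact hc.1 h6
  have hdb : g c ≠ b := by
    intro h5
    rw [← hga] at h5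
    exact hc.2.1 (g.injective h5)
  have hdc : g c ≠ c := by
    intro h5
    have h6 : l⁻¹ * g * l ∈ st M a := by
      refine mem_st.mpr ⟨mul_mem (mul_mem (inv_mem hl) hg) hl, ?_⟩
      show (l⁻¹ * g * l) a = a
      rw [Equiv.Perm.mul_apply, Equiv.Perm.mul_apply, hla, h5, ← hla, inv_self_apply]
    rw [hreg, Subgroup.mem_bot] at h6
    have h7 : g = 1 := by
      have := congrArg (fun w => l * w * l⁻¹) h6
      simpa [mul_assoc] using this
    rw [h7] at hga
    exact hb.1 hga.symm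
  have h8 := card_insert_le' (insert b (insert a F)) c
  have h9 := card_insert_le' (insert c (insert b (insert a F))) (g c)
  obtain ⟨e, he⟩ := exists_notMem (F := insert (g c) (insert c (insert b (insert a F)))) (by omega)
  simp only [Finset.mem_insert, not_or] at he
  obtain ⟨k, hk, hk1, hk2, hk3, hk4⟩ := h.four (a := a) (b := b) (c := c) (d := g c) (a' := a) (b' := b) (c' := c) (d' := e)
    (Ne.symm hb.1) (Ne.symm hc.2.1) (Ne.symm hda) (Ne.symm hc.1) (Ne.symm hdb) (Ne.symm hdc)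
    (Ne.symm hb.1) (Ne.symm hc.2.1) (Ne.symm he.2.2.2.1) (Ne.symm hc.1) (Ne.symm he.2.2.1) (Ne.symm he.2.1)
    ha hb.2 hc.2.2 hdF ha hb.2 hc.2.2 he.2.2.2.2
  have h10 := reg_commute hn hreg hg hk hk1 (by rw [hga]; exact hk2) c
  rw [hk4, hk3] at h10
  exact he.1 h10

theorem no_sharp {K M : Subgroup (Equiv.Perm α)} {F : Finset α} (hF : Fix K F) (h : T K F 3)
    (hMK : M ≤ K) (hn : ∀ k ∈ K, ∀ g ∈ M, k * g * k⁻¹ ∈ M)
    (htr : ∀ x y : α, x ∉ F → y ∉ F → ∃ g ∈ M, g x = y) {a : α} (ha : a ∉ F) (hne : st M a ≠ ⊥)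
    (hsq : ∀ g ∈ st M a, g ^ 2 = 1) (hsharp : ∀ g ∈ st M a, ∀ c, c ∉ F → c ≠ a → g c = c → g = 1)
    (hcard : F.card + 4 ≤ Fintype.card α) : False := by
  have hMF := hF.mono hMK
  obtain ⟨t, ht, ht1⟩ := exists_ne_one_of_ne_bot hne
  obtain ⟨x, hx⟩ : ∃ x, t x ≠ x := by
    by_contra hcon
    push Not at hcon
    exact ht1 (Equiv.ext hcon)
  have htt : ∀ z, t (t z) = z := by
    intro z
    have := congrArg (fun f : Equiv.Perm α => f z) (hsq t ht)
    simpa [pow_two] using this
  have hxF : x ∉ F := fun h1 => hx (hMF t ht.1 x h1)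
  have hta : t a = a := ht.2
  have hxa : x ≠ a := by rintro rfl; exact hx hta
  have hyF : t x ∉ F := notmem_of_fix hMF ht.1 hxF
  have hya : t x ≠ a := by
    intro h1
    rw [← hta] at h1
    exact hxa (t.injective h1)
  have h1 := card_insert_le' F a
  have h2 := card_insert_le' (insert a F) x
  have h4 := card_insert_le' (insert x (insert a F)) (t x)
  obtain ⟨b, hb⟩ := exists_notMem (F := insert (t x) (insert x (insert a F))) (by omega)
  simp only [Finset.mem_insert, not_or] at hb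
  obtain ⟨k, hk, hk1, hk2, hk3⟩ := h.three (a := x) (b := t x) (c := a) (a' := x) (b' := t x) (c' := b)
    (Ne.symm hx) hxa hya (Ne.symm hx) (Ne.symm hb.2.1) (Ne.symm hb.1) hxF hyF ha hxF hyF hb.2.2.2
  -- elements of M fixing two points are trivial
  have hsharp2 : ∀ u ∈ M, ∀ c d : α, c ∉ F → d ∉ F → c ≠ d → u c = c → u d = d → u = 1 := by
    intro u hu c d hc hd hcd huc hud
    obtain ⟨m, hm, hmc⟩ := htr c a hc ha
    have h5 : m * u * m⁻¹ ∈ st M a := by
      refine mem_st.mpr ⟨mul_mem (mul_mem hm hu) (inv_mem hm), ?_⟩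
      show (m * u * m⁻¹) a = a
      rw [Equiv.Perm.mul_apply, Equiv.Perm.mul_apply, ← hmc, inv_self_apply, huc]
    have h6 : m d ≠ a := by
      rw [← hmc]
      intro h7
      exact hcd (m.injective h7).symm
    have h7 := hsharp _ h5 (m d) (notmem_of_fix hMF hm hd) h6 (by
      rw [Equiv.Perm.mul_apply, Equiv.Perm.mul_apply, inv_self_apply, hud])
    have := congrArg (fun w => m⁻¹ * w * m) h7
    simpa [mul_assoc] using this
  have hkx : k⁻¹ x = x := by
    conv_lhs => rw [← hk1]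
    exact inv_self_apply k x
  have hky : k⁻¹ (t x) = t x := by
    conv_lhs => rw [← hk2]
    exact inv_self_apply k (t x)
  have htinv : t⁻¹ = t := by
    have h5 : t * t = 1 := by rw [← pow_two]; exact hsq t ht
    exact inv_eq_of_mul_eq_one_left h5
  have hu : k * t * k⁻¹ * t = 1 := by
    apply hsharp2 _ (mul_mem (hn k hk t ht.1) ht.1) x (t x) hxF hyF (Ne.symm hx)
    · show (k * t * k⁻¹ * t) x = x
      simp only [Equiv.Perm.mul_apply]
      rw [hky, htt, hk1]
    · show (k * t * k⁻¹ * t) (t x) = t x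
      simp only [Equiv.Perm.mul_apply]
      rw [htt, hkx, hk2]
  have h5 : t b = b := by
    have h6 : (k * t * k⁻¹ * t) (t b) = t b := by rw [hu]; rfl
    simp only [Equiv.Perm.mul_apply] at h6
    rw [htt] at h6
    have hkb : k⁻¹ b = a := by rw [← hk3]; exact inv_self_apply k a
    rw [hkb, hta, hk3] at h6
    exact h6.symm
  exact ht1 (hsharp t ht b hb.2.2.2 hb.2.2.1 h5)

theorem st_mono {K M : Subgroup (Equiv.Perm α)} (h : M ≤ K) (a : α) : st M a ≤ st K a :=
  inf_le_inf_right _ h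

theorem st_norm {K M : Subgroup (Equiv.Perm α)} (hn : ∀ k ∈ K, ∀ g ∈ M, k * g * k⁻¹ ∈ M) (a : α) :
    ∀ k ∈ st K a, ∀ g ∈ st M a, k * g * k⁻¹ ∈ st M a := by
  intro k hk g hg
  have h2 : k * g * k⁻¹ ∈ MulAction.stabilizer (Equiv.Perm α) a := mul_mem (mul_mem hk.2 hg.2) (Subgroup.inv_mem _ hk.2)
  exact Subgroup.mem_inf.mpr ⟨hn k hk.1 g hg.1, h2⟩

/-- transitive abelian groups are semiregular -/
theorem semiregular_of_comm {M : Subgroup (Equiv.Perm α)} {F : Finset α} (hF : Fix M F)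
    (htr : ∀ x y : α, x ∉ F → y ∉ F → ∃ g ∈ M, g x = y) (hc : ∀ x ∈ M, ∀ y ∈ M, x * y = y * x)
    {g : Equiv.Perm α} (hg : g ∈ M) {c : α} (hcF : c ∉ F) (hgc : g c = c) : g = 1 := by
  ext d
  by_cases hd : d ∈ F
  · exact hF g hg d hd
  · obtain ⟨h, hh, hhc⟩ := htr c d hcF hd
    have h1 := congrArg (fun f : Equiv.Perm α => f c) (hc g hg h hh)
    simp only [Equiv.Perm.mul_apply, hhc, hgc] at h1
    exact h1

/-- **Jordan's theorem** on normal subgroups of multiply transitive groups. -/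
theorem jordan : ∀ (m : ℕ) (K M : Subgroup (Equiv.Perm α)) (F : Finset α), Fix K F → T K F (m + 2) →
    M ≤ K → (∀ k ∈ K, ∀ g ∈ M, k * g * k⁻¹ ∈ M) → M ≠ ⊥ → F.card + (m + 2) < Fintype.card α →
    T M F (m + 1) ∨ (m + 2 = 3 ∧ ∀ g ∈ M, g ^ 2 = 1) := by
  intro m
  induction m with
  | zero =>
    intro K M F hF h hMK hn hM hcard
    exact Or.inl (T.one (normal_trans hF h hMK hn hM))
  | succ m ih =>
    intro K M F hF h hMK hn hM hcard
    have h2 : T K F 2 := h.mono (by omega) (by omega)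
    have h3 : T K F 3 := h.mono (by omega) (by omega)
    have htr := normal_trans hF h2 hMK hn hM
    obtain ⟨a, ha⟩ := exists_notMem (F := F) (by omega)
    have hFst := hF.st a
    have hTst : T (st K a) (insert a F) (m + 2) := h.st ha
    have hcard' : (insert a F).card = F.card + 1 := Finset.card_insert_of_notMem ha
    by_cases hM' : st M a = ⊥
    · rcases Nat.eq_zero_or_pos m with rfl | hm
      · right
        exact ⟨rfl, exp_two_of_reg hF h3 hMK hn ha hM' (by omega)⟩
      · exfalso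
        exact not_reg_of_four hF h3 (h.mono (by omega) (by omega)) hMK hn htr ha (by omega) hM'
    · rcases ih (st K a) (st M a) (insert a F) hFst hTst (st_mono hMK a) (st_norm hn a) hM' (by omega) with h4 | ⟨h4, h5⟩
      · left
        exact T.of_st (hF.mono hMK) ha htr h4
      · exfalso
        have h6 := normal_trans hFst (hTst.mono (by omega) (by omega)) (st_mono hMK a) (st_norm hn a) hM'
        refine no_sharp hF h3 hMK hn htr ha hM' h5 ?_ (by omega)
        intro g hg c hc hca hgc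
        refine semiregular_of_comm ((hF.mono hMK).st a) h6 (comm_of_sq h5) hg (c := c) ?_ hgc
        rw [Finset.mem_insert, not_or]
        exact ⟨hca, hc⟩

omit [Fintype α] [DecidableEq α] in
theorem T_iff {G : Subgroup (Equiv.Perm α)} {m : ℕ} : T G ∅ m ↔ MulAction.IsMultiplyPretransitive G α m := by
  rw [CfsgLib.PermBasic.mt_iff]
  constructor
  · intro h x y hx hy
    obtain ⟨g, hg, hgi⟩ := h x y hx hy (fun i => Finset.notMem_empty _) (fun i => Finset.notMem_empty _)
    exact ⟨⟨g, hg⟩, hgi⟩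
  · intro h x y hx hy _ _
    obtain ⟨g, hgi⟩ := h x y hx hy
    exact ⟨g, g.2, hgi⟩

omit [Fintype α] [DecidableEq α] in
theorem T_map_iff {G : Subgroup (Equiv.Perm α)} {N : Subgroup G} {m : ℕ} :
    T (N.map G.subtype) ∅ m ↔ MulAction.IsMultiplyPretransitive N α m := by
  rw [CfsgLib.PermBasic.mt_iff]
  constructor
  · intro h x y hx hy
    obtain ⟨_, ⟨g, hg, rfl⟩, hgi⟩ := h x y hx hy (fun i => Finset.notMem_empty _) (fun i => Finset.notMem_empty _)
    exact ⟨⟨g, hg⟩, hgi⟩
  · intro h x y hx hy _ _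
    obtain ⟨g, hgi⟩ := h x y hx hy
    exact ⟨((g : G) : Equiv.Perm α), ⟨g, g.2, rfl⟩, hgi⟩

omit [Fintype α] [DecidableEq α] in
theorem map_norm {G : Subgroup (Equiv.Perm α)} {N : Subgroup G} [N.Normal] :
    ∀ k ∈ G, ∀ g ∈ N.map G.subtype, k * g * k⁻¹ ∈ N.map G.subtype := by
  rintro k hk _ ⟨g, hg, rfl⟩
  exact ⟨⟨k, hk⟩ * g * ⟨k, hk⟩⁻¹, (inferInstance : N.Normal).conj_mem g hg ⟨k, hk⟩, rfl⟩

omit [Fintype α] [DecidableEq α] in
theorem map_le' {G : Subgroup (Equiv.Perm α)} {N : Subgroup G} : N.map G.subtype ≤ G := by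
  rintro _ ⟨g, hg, rfl⟩
  exact g.2

omit [Fintype α] [DecidableEq α] in
theorem map_ne_bot {G : Subgroup (Equiv.Perm α)} {N : Subgroup G} (hN : N ≠ ⊥) : N.map G.subtype ≠ ⊥ := by
  intro h
  rw [Subgroup.map_eq_bot_iff_of_injective _ G.subtype_injective] at h
  exact hN h

omit [Fintype α] [DecidableEq α] in
theorem fix_empty (K : Subgroup (Equiv.Perm α)) : Fix K ∅ := fun _ _ a ha => absurd ha (Finset.notMem_empty a)

end CfsgLib.NormTrans
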