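import Mathlib
import Cfsg.Agent.EqBase
import Cfsg.Prelude.Def_Blocks
import Cfsg.Agent.LibBlkSmall
import Cfsg.Agent.LibBlockM
import Cfsg.Agent.S0144

/-!
# Groups of order p^a q^b r^c with a ≤ 2: S4500 (helper17)
-/

set_option autoImplicit false
set_option linter.unusedSectionVars false
set_option linter.style.haveILetI false
set_option linter.unusedSimpArgs false

namespace CfsgLib.Nt

open CfsgLib.CharInt hiding irr_isCharacter irr_classFun irr_one_ne_zero schur_scalar
open Cfsg CfsgLib.CharInt2 CfsgLib.CharBasic CfsgLib.BlockR CfsgLib.BlockCore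
  CfsgLib.BlockIdem CfsgLib.BlockIdeal CfsgLib.BlockConj CfsgLib.BlockBrauer CfsgLib.BlockInd
  CfsgLib.BlockFMT CfsgLib.BlockFMT2 CfsgLib.PLocalInd CfsgLib.BlockOrth CfsgLib.BlockDefect
  CfsgLib.BlockReg CfsgLib.BlockReg2 CfsgLib.BlockCount CfsgLib.BlockCount2 CfsgLib.BlockQP
  CfsgLib.BlockCov CfsgLib.BlockCov2 CfsgLib.BlockCov3 CfsgLib.BlockCov4 CfsgLib.BlockLoc
  CfsgLib.BlockM CfsgLib.CharNorm CfsgLib.Clifford CfsgLib.BlockFR
  CfsgLib.BlockK1 CfsgLib.BlockSec3 CfsgLib.BlockFong CfsgLib.BlockSq CfsgLib.BlkSmall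
open scoped ComplexConjugate Pointwise

universe u v

variable {M : Ideal AlgInt} {p : ℕ} {G : Type u} [Group G] [Fintype G]

/-- characters in the principal `p`-block have degree prime to `p` if `p^3 ∤ |G|` -/
theorem principal_degree [Fact p.Prime] (hM : IsPModular p M)
    (ha : (Nat.card G).factorization p ≤ 2) {χ : IrrCharacter G} (hχ : χ ∈ principalBlock M G) :
    ¬ p ∣ charDegree (χ : G → ℂ) := by
  have hpp : p.Prime := Fact.out
  have hB : IsPBlock M (principalBlock M G) := ⟨⟨_, isIrrCharacter_one⟩, rfl⟩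
  have hone : (⟨_, isIrrCharacter_one⟩ : IrrCharacter G) ∈ principalBlock M G :=
      sameBlock_refl (isPrime_of_modular hM) _
  have h1 := degree_eq hM hB hone
  have h2 := degree_eq hM hB hχ
  have hda := defect_le (G := G) p (principalBlock M G)
  have h3 : charDegree ((⟨_, isIrrCharacter_one⟩ : IrrCharacter G) : G → ℂ) = 1 := by
    have h := irr_one_eq_charDegree (⟨_, isIrrCharacter_one⟩ : IrrCharacter G).2
    have h' : (((⟨_, isIrrCharacter_one⟩ : IrrCharacter G) : G → ℂ) 1) = ((1 : ℕ) : ℂ) :=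
      Nat.cast_one.symm
    rw [h'] at h
    exact (Nat.cast_injective h).symm
  rw [h3, Nat.factorization_one] at h1
  simp only [Finsupp.coe_zero, Pi.zero_apply] at h1
  have h4 : blockHeight p (principalBlock M G) (χ : G → ℂ) = 0 := by
    by_contra h
    have := height_le hM hB hχ h
    omega
  intro h
  have h5 := hpp.factorization_pos_of_dvd (irr_charDegree_pos χ.2).ne' h
  omega

/-- main case of S4500 -/
theorem s4500_aux {q r : ℕ} (hp : p.Prime) (hq : q.Prime) (hr : r.Prime) (hpq : p ≠ q)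
    (hpr : p ≠ r) (a b c : ℕ) (ha0 : a ≠ 0) (ha : a ≤ 2)
    (hG : Nat.card G = p ^ a * q ^ b * r ^ c) :
    ∃ χ : IrrCharacter G, (χ : G → ℂ) ≠ (fun _ => 1) ∧ ∃ k : ℕ, charDegree (χ : G → ℂ) = q ^ k := by
  classical
  haveI : Fact p.Prime := ⟨hp⟩
  haveI : Fact r.Prime := ⟨hr⟩
  obtain ⟨M, hM⟩ := exists_modular p hp
  obtain ⟨M', hM'⟩ := exists_modular r hr
  have hfac : (Nat.card G).factorization p = a := by
    rw [hG, Nat.factorization_mul (mul_ne_zero (pow_ne_zero _ hp.ne_zero) (pow_ne_zero _ hq.ne_zero))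
      (pow_ne_zero _ hr.ne_zero), Nat.factorization_mul
      (pow_ne_zero _ hp.ne_zero) (pow_ne_zero _ hq.ne_zero), hp.factorization_pow, hq.factorization_pow,
      hr.factorization_pow]
    simp [hpq.symm, hpr.symm]
  have hpG : p ∣ Nat.card G := by
    rw [hG, mul_assoc]
    exact (dvd_pow_self p ha0).mul_right _
  obtain ⟨x, hx⟩ := exists_prime_orderOf_dvd_card' p hpG
  by_contra hcon
  push Not at hcon
  have hB : IsPBlock M (principalBlock M G) := ⟨⟨_, isIrrCharacter_one⟩, rfl⟩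
  have h1 := weak_block_orth hM hB (x := (1 : G)) (y := x)
    (by rw [orderOf_one]; exact hp.one_lt.ne' ∘ Nat.dvd_one.mp) (by rw [hx])
  rw [← sum_ind, ← Finset.add_sum_erase _ _ (Finset.mem_univ (⟨_, isIrrCharacter_one⟩ : IrrCharacter G))] at h1
  have hone : (⟨_, isIrrCharacter_one⟩ : IrrCharacter G) ∈ principalBlock M G :=
      sameBlock_refl (isPrime_of_modular hM) _
  have hall : ∀ χ : IrrCharacter G, χ ≠ ⟨_, isIrrCharacter_one⟩ →
      MemLocalIdeal M' (ind (principalBlock M G) χ * ((χ : G → ℂ) 1 * conj ((χ : G → ℂ) x))) := by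
    intro χ hχ
    by_cases hmem : χ ∈ principalBlock M G
    · rw [ind_of hmem, one_mul]
      have hrd : r ∣ charDegree (χ : G → ℂ) := by
        by_contra hrd
        have hpd := principal_degree hM (hfac.trans_le ha) hmem
        have h3 := charDegree_dvd_card χ.2
        rw [hG] at h3
        have h4 : charDegree (χ : G → ℂ) ∣ p ^ a * q ^ b := by
          refine Nat.Coprime.dvd_of_dvd_mul_right ?_ h3
          exact Nat.Coprime.pow_right _ ((Nat.Prime.coprime_iff_not_dvd hr).mpr hrd).symm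
        have h5 : charDegree (χ : G → ℂ) ∣ q ^ b := by
          refine Nat.Coprime.dvd_of_dvd_mul_left ?_ h4
          exact Nat.Coprime.pow_right _ ((Nat.Prime.coprime_iff_not_dvd hp).mpr hpd).symm
        obtain ⟨k, _, hk⟩ := (Nat.dvd_prime_pow hq).mp h5
        exact hcon χ (fun h => hχ (Subtype.ext h)) k hk
      have h2 : MemLocalIdeal M' ((χ : G → ℂ) 1) := by
        rw [irr_one_eq_charDegree χ.2]
        exact (ideal_nat_iff hM').mpr hrd
      apply ideal_mul_right (isPrime_of_modular hM') h2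
      have h3 : IsIntegral ℤ (conj ((χ : G → ℂ) x)) := by
        rw [← irr_inv χ.2]
        exact irr_isIntegral χ.2 _
      exact ringOfInt (isPrime_of_modular hM') h3
    · rw [ind_not hmem, zero_mul]
      exact ideal_zero (isPrime_of_modular hM')
  have h4 : MemLocalIdeal M' (∑ χ ∈ Finset.univ.erase (⟨_, isIrrCharacter_one⟩ : IrrCharacter G),
      ind (principalBlock M G) χ * ((χ : G → ℂ) 1 * conj ((χ : G → ℂ) x))) := by
    apply ideal_sum (isPrime_of_modular hM')
    intro χ hχ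
    exact hall χ (Finset.ne_of_mem_erase hχ)
  have h5 := eq_neg_of_add_eq_zero_left h1
  rw [ind_of hone] at h5
  have h6 : MemLocalIdeal M' 1 := by
    have h7 := ideal_neg h4
    rw [← h5] at h7
    simpa using h7
  exact not_ideal_one (isPrime_of_modular hM') h6

/-- a nontrivial solvable group has a nonprincipal linear character -/
theorem exists_linear_ne [Nontrivial G] (hs : Group.IsSolvable G) :
    ∃ χ : IrrCharacter G, (χ : G → ℂ) ≠ (fun _ => 1) ∧ charDegree (χ : G → ℂ) = 1 := by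
  classical
  have h1 : commutator G ≠ ⊤ := by
    intro h
    have := Group.IsSolvable.commutator_lt_top_of_nontrivial G
    exact this.ne h
  have h2 := card_linear (G := G)
  have h3 : (commutator G).index ≠ 1 := by
    rw [Ne, Subgroup.index_eq_one]; exact h1
  have h4 : 1 < Nat.card {χ : IrrCharacter G // (χ : G → ℂ) 1 = 1} := by
    rw [h2]
    have : (commutator G).index ≠ 0 := Subgroup.index_ne_zero_of_finite
    omega
  haveI := (Finite.one_lt_card_iff_nontrivial.mp h4)
  obtain ⟨χ, hχ⟩ := exists_ne (⟨⟨_, isIrrCharacter_one⟩, rfl⟩ : {χ : IrrCharacter G // (χ : G → ℂ) 1 = 1})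
  refine ⟨χ.1, fun h => hχ (Subtype.ext (Subtype.ext h)), ?_⟩
  have := irr_one_eq_charDegree χ.1.2
  rw [χ.2] at this
  exact_mod_cast this.symm

/-- S4500 -/
theorem s4500 [Nontrivial G] {q r : ℕ} (a b c : ℕ) (hp : p.Prime) (hq : q.Prime) (hr : r.Prime)
    (hpq : p ≠ q) (hpr : p ≠ r) (ha : a ≤ 2)
    (hG : Nat.card G = p ^ a * q ^ b * r ^ c) :
    (∃ χ : IrrCharacter G, (χ : G → ℂ) ≠ (fun _ => 1) ∧ ∃ k : ℕ, charDegree (χ : G → ℂ) = q ^ k) ∧
    ∃ χ : IrrCharacter G, (χ : G → ℂ) ≠ (fun _ => 1) ∧ ∃ k : ℕ, charDegree (χ : G → ℂ) = r ^ k := by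
  by_cases ha0 : a = 0
  · have h1 : Group.IsSolvable G := by
      apply Cfsg.Agent.S0144.result q r b c hq hr
      rw [hG, ha0, pow_zero, one_mul]
    obtain ⟨χ, h2, h3⟩ := exists_linear_ne (G := G) h1
    exact ⟨⟨χ, h2, 0, by rw [h3, pow_zero]⟩, ⟨χ, h2, 0, by rw [h3, pow_zero]⟩⟩
  · refine ⟨s4500_aux hp hq hr hpq hpr a b c ha0 ha hG, s4500_aux hp hr hq hpr hpq a c b ha0 ha ?_⟩
    rw [hG]; ring

end CfsgLib.Nt
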