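import Mathlib
import Cfsg.Agent.EqBase
import Cfsg.Prelude.Def_Solvable
import Cfsg.Agent.LibQuot19
import Cfsg.Agent.LibCharMore
import Cfsg.Agent.LibCharIndA
import Cfsg.Agent.LibClifford
import Cfsg.Agent.LibCores

/-!
# Broline--Garrison: S4461 (helper17)
-/

set_option autoImplicit false
set_option linter.unusedSectionVars false
set_option linter.style.haveILetI false
set_option linter.unusedSimpArgs false

namespace CfsgLib.Nt

open Cfsg CfsgLib.CharBasic CfsgLib.CharIndA CfsgLib.Quot19 CfsgLib.CharMore CfsgLib.Clifford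
open scoped ComplexConjugate Pointwise

universe u v

variable {G : Type u} [Group G] [Fintype G]

/-- restriction to a supplement of (a normal subgroup of) the kernel is irreducible -/
theorem restrict_irr_of_sup {χ : G → ℂ} (hχ : IsIrrCharacter G χ) {K M : Subgroup G}
    [K.Normal] (hK : ∀ g ∈ K, χ g = χ 1) (hKM : K ⊔ M = ⊤) : IsIrrCharacter M (fun m : M => χ m) := by
  obtain ⟨χ', h1, h2⟩ := irr_deflate K hχ hK
  have h3 : Function.Surjective ((QuotientGroup.mk' K).comp M.subtype) := by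
    intro q
    obtain ⟨g, rfl⟩ := QuotientGroup.mk'_surjective K q
    have hg : g ∈ K ⊔ M := by rw [hKM]; trivial
    rw [sup_comm] at hg
    obtain ⟨m, hm, k, hk, rfl⟩ := Subgroup.mem_sup_of_normal_right.mp hg
    refine ⟨⟨m, hm⟩, ?_⟩
    simp only [MonoidHom.comp_apply, Subgroup.coe_subtype, QuotientGroup.mk'_apply]
    rw [QuotientGroup.eq]
    have : m⁻¹ * (m * k) = k := by group
    rw [this]; exact hk
  have h4 := isIrrCharacter_comp_surj h1 _ h3
  have h5 : (χ' ∘ ((QuotientGroup.mk' K).comp M.subtype)) = fun m : M => χ m := by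
    funext m
    exact h2 (m : G)
  rwa [h5] at h4

theorem char_one_nat {χ : G → ℂ} (hχ : IsCharacter G χ) : ∃ n : ℕ, χ 1 = n := by
  obtain ⟨n, ρ, rfl⟩ := hχ
  exact ⟨_, Representation.char_one ρ⟩

theorem char_norm_le {χ : G → ℂ} (hχ : IsCharacter G χ) (g : G) {n : ℕ} (hn : χ 1 = n) :
    ‖χ g‖ ≤ n := by
  obtain ⟨m, ρ, rfl⟩ := hχ
  rw [Representation.char_one] at hn
  have h := norm_character_le ρ g
  rw [Nat.cast_injective hn] at h
  exact h

theorem char_ne_zero_one {χ : G → ℂ} (hχ : IsCharacter G χ) (h0 : χ ≠ 0) {n : ℕ} (hn : χ 1 = n) :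
    0 < n := by
  rcases Nat.eq_zero_or_pos n with h | h
  · exfalso
    apply h0
    funext g
    have h1 := char_norm_le hχ g hn
    rw [h, Nat.cast_zero] at h1
    exact norm_le_zero_iff.mp h1
  · exact h

/-- kernels of summands -/
theorem ker_summand {θ α : G → ℂ} (hθ : IsCharacter G θ) (hα : IsCharacter G α) {g : G}
    (h : θ g + α g = θ 1 + α 1) : θ g = θ 1 := by
  obtain ⟨t, ht⟩ := char_one_nat hθ
  obtain ⟨a, ha⟩ := char_one_nat hα
  have h1 := char_norm_le hθ g ht
  have h2 := char_norm_le hα g ha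
  have h3 := congrArg Complex.re h
  rw [ht, ha, Complex.add_re, Complex.add_re, Complex.natCast_re, Complex.natCast_re] at h3
  have h4 : (θ g).re ≤ t := (Complex.re_le_norm _).trans h1
  have h5 : (α g).re ≤ a := (Complex.re_le_norm _).trans h2
  have h6 : (θ g).re = t := by linarith
  have h7 : (θ g).im = 0 := by
    have h8 : ‖θ g‖ ^ 2 = (θ g).re ^ 2 + (θ g).im ^ 2 := by
      rw [← Complex.normSq_eq_norm_sq, Complex.normSq_apply]; ring
    have h9 : ‖θ g‖ ^ 2 ≤ (t : ℝ) ^ 2 := by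
      have := norm_nonneg (θ g)
      nlinarith
    rw [h6] at h8
    have h10 : (θ g).im ^ 2 ≤ 0 := by linarith
    exact pow_eq_zero_iff (two_ne_zero) |>.mp (le_antisymm h10 (sq_nonneg _))
  rw [ht]
  exact Complex.ext (by rw [h6, Complex.natCast_re]) (by rw [h7, Complex.natCast_im])

/-- dichotomy behind the Broline--Garrison theorem -/
theorem broline_core {χ : G → ℂ} (hχ : IsIrrCharacter G χ) {K M : Subgroup G} [K.Normal]
    (hK : ∀ g : G, g ∈ K ↔ χ g = χ 1) (hM : IsCoatom M) (hKM : ¬ K ≤ M)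
    (hno : ∀ ψ : IrrCharacter G, charDegree χ < charDegree (ψ : G → ℂ) → ∀ L : Subgroup G,
      (∀ g, g ∈ L ↔ (ψ : G → ℂ) g = (ψ : G → ℂ) 1) → ¬ L < K) :
    ∀ m ∈ M, χ m ≠ 0 → m ∈ M.normalCore := by
  classical
  haveI : Fintype M := Fintype.ofFinite M
  have hsup : ∀ L : Subgroup G, ¬ L ≤ M → L ⊔ M = ⊤ := fun L hL =>
    hM.2 _ (lt_of_le_of_ne le_sup_right fun h => hL (h ▸ le_sup_left))
  have hres : IsIrrCharacter M (fun m : M => χ m) :=
    restrict_irr_of_sup hχ (fun g hg => (hK g).mp hg) (hsup K hKM)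
  set θ : M → ℂ := fun m : M => χ m with hθ
  have key : ∀ ψ : IrrCharacter G, classInner (fun m : M => (ψ : G → ℂ) m) θ ≠ 0 →
      (fun m : M => (ψ : G → ℂ) m) = θ := by
    intro ψ hψ
    by_contra hne
    obtain ⟨α, hα, hsplit⟩ := split_off (isCharacter_restrict (irr_isCharacter ψ.2) M) hres hψ
    have hα0 : α ≠ 0 := by
      rintro rfl
      apply hne
      rw [hsplit, add_zero]
    obtain ⟨a, ha⟩ := char_one_nat hα
    have hapos := char_ne_zero_one hα hα0 ha
    have hdeg : charDegree χ < charDegree (ψ : G → ℂ) := by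
      have h1 := congrFun hsplit 1
      rw [Pi.add_apply, ha] at h1
      have h2 : (ψ : G → ℂ) ((1 : M) : G) = (ψ : G → ℂ) 1 := rfl
      have h3 : θ 1 = χ 1 := rfl
      rw [h2, h3, CharInt.irr_one_eq_charDegree ψ.2, CharInt.irr_one_eq_charDegree hχ] at h1
      have h4 : charDegree (ψ : G → ℂ) = charDegree χ + a := by exact_mod_cast h1
      omega
    obtain ⟨L, hLn, hL⟩ := exists_kernel (irr_isCharacter ψ.2)
    have hLM : L ≤ M := by
      by_contra hLM
      have h1 := restrict_irr_of_sup ψ.2 (fun g hg => (hL g).mp hg) (hsup L hLM)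
      by_contra _
      apply hψ
      exact irr_inner_ne h1 hres hne
    have hLK : L ≤ K := by
      intro l hl
      rw [hK]
      have h1 := (hL l).mp hl
      have h2 := congrFun hsplit ⟨l, hLM hl⟩
      have h3 := congrFun hsplit 1
      rw [Pi.add_apply] at h2 h3
      have h4 : θ ⟨l, hLM hl⟩ + α ⟨l, hLM hl⟩ = θ 1 + α 1 := by
        rw [← h2, ← h3]; exact h1
      exact ker_summand (irr_isCharacter hres) hα h4
    exact hno ψ hdeg L hL (lt_of_le_of_ne hLK fun h => hKM (h ▸ hLM))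
  -- the induced character
  have hcl := irr_classFun hχ
  set f := indFun M θ with hf
  have hf1 : f = indFun M (fun _ => 1) * χ := by
    rw [← ind_mul_restrict M (fun _ => 1) hcl, hf]
    congr 1
    funext m
    rw [one_mul]
  have hexp : ∀ m : M, f m = (∑ ψ : IrrCharacter G, classInner f (ψ : G → ℂ)) * χ m := by
    intro m
    rw [hf, classFun_expand_apply (ind_classFun M θ) (m : G), Finset.sum_mul]
    refine Finset.sum_congr rfl fun ψ _ => ?_
    rw [frobenius M θ (irr_classFun ψ.2)]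
    by_cases h : classInner θ (fun h : M => (ψ : G → ℂ) h) = 0
    · rw [h, zero_mul, zero_mul]
    · have h1 := key ψ (fun h2 => h (by
        rw [← CharBasic.inner_conj_symm, h2, map_zero]))
      have h2 := congrFun h1 m
      rw [show (ψ : G → ℂ) m = χ m from h2]
  have hsum : ∑ ψ : IrrCharacter G, classInner f (ψ : G → ℂ) = (M.index : ℂ) := by
    have h1 := hexp 1
    rw [hf, show ((1 : M) : G) = 1 from rfl, ind_one] at h1
    have h2 : χ 1 ≠ 0 := by
      rw [CharInt.irr_one_eq_charDegree hχ]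
      exact_mod_cast (CharInt.irr_charDegree_pos hχ).ne'
    have h3 : θ 1 = χ 1 := rfl
    rw [h3] at h1
    exact (mul_right_cancel₀ h2 h1).symm
  intro m hm hne
  have h1 := hexp ⟨m, hm⟩
  rw [hsum, hf1, Pi.mul_apply] at h1
  have h2 : indFun M (fun _ => (1 : ℂ)) m = M.index := mul_right_cancel₀ hne h1
  rw [ind_apply] at h2
  have h3 : ∀ y : G, extendByZero M (fun _ => (1 : ℂ)) (y⁻¹ * m * y) =
      ((if y⁻¹ * m * y ∈ M then 1 else 0 : ℕ) : ℂ) := by
    intro y
    by_cases hy : y⁻¹ * m * y ∈ M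
    · rw [ext_mem _ _ hy, if_pos hy, Nat.cast_one]
    · rw [ext_not_mem _ _ hy, if_neg hy, Nat.cast_zero]
  rw [Finset.sum_congr rfl fun y _ => h3 y, ← Nat.cast_sum] at h2
  have h4 : (Nat.card M : ℂ) ≠ 0 := by exact_mod_cast Nat.card_pos.ne'
  have h5 : ((∑ y : G, (if y⁻¹ * m * y ∈ M then 1 else 0) : ℕ) : ℂ) = (Nat.card G : ℂ) := by
    rw [← Subgroup.card_mul_index M, Nat.cast_mul, ← h2]
    field_simp
  have h6 : ∑ y : G, (if y⁻¹ * m * y ∈ M then 1 else 0) = Nat.card G := by exact_mod_cast h5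
  rw [← Finset.card_filter, Nat.card_eq_fintype_card] at h6
  have h7 := (Finset.card_eq_iff_eq_univ _).mp h6
  intro y
  have h8 : y⁻¹ ∈ Finset.univ.filter (fun y : G => y⁻¹ * m * y ∈ M) := by rw [h7]; exact Finset.mem_univ _
  have h9 := (Finset.mem_filter.mp h8).2
  rwa [inv_inv] at h9

end CfsgLib.Nt
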