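import Mathlib
import Cfsg.Agent.EqBase
import Cfsg.Agent.LibNt2
import Cfsg.Agent.LibSolvMin

/-!
# Broline--Garrison: S4461 (helper17)
-/

set_option autoImplicit false
set_option linter.unusedSectionVars false
set_option linter.style.haveILetI false
set_option linter.unusedSimpArgs false

namespace CfsgLib.Nt

open Cfsg CfsgLib.CharBasic CfsgLib.CharIndA CfsgLib.Quot19 CfsgLib.CharMore CfsgLib.Clifford
open scoped ComplexConjugate Pointwise

universe u v

variable {G : Type u} [Group G] [Fintype G]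

theorem sylow_map_max {p : ℕ} {K : Subgroup G} (P : Sylow p K) {Q : Subgroup G} (hQK : Q ≤ K)
    (hQ : IsPGroup p Q) (hPQ : (P : Subgroup K).map K.subtype ≤ Q) :
    Q = (P : Subgroup K).map K.subtype := by
  have h1 : IsPGroup p (Q.subgroupOf K) := hQ.of_equiv (Subgroup.subgroupOfEquivOfLe hQK).symm
  have h2 : (P : Subgroup K) ≤ Q.subgroupOf K := by
    intro x hx
    exact hPQ (Subgroup.mem_map_of_mem K.subtype hx)
  have h3 := P.is_maximal' h1 h2
  rw [← h3, Subgroup.subgroupOf_map_subtype, inf_eq_left.mpr hQK]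

theorem frattini_of_max {p : ℕ} [Fact p.Prime] {Y P : Subgroup G} [Y.Normal] (hPY : P ≤ Y)
    (hP : IsPGroup p P) (hmax : ∀ Q : Subgroup G, Q ≤ Y → IsPGroup p Q → P ≤ Q → Q = P) :
    Subgroup.normalizer (P : Set G) ⊔ Y = ⊤ := by
  have h1 : IsPGroup p (P.subgroupOf Y) := hP.of_equiv (Subgroup.subgroupOfEquivOfLe hPY).symm
  obtain ⟨Q, hQ⟩ := h1.exists_le_sylow
  have h2 : (Q : Subgroup Y).map Y.subtype = P := by
    apply hmax _ (Subgroup.map_subtype_le _) (Q.isPGroup'.map _)
    have h3 := Subgroup.map_mono (f := Y.subtype) hQ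
    rwa [Subgroup.subgroupOf_map_subtype, inf_eq_left.mpr hPY] at h3
  have h3 := Sylow.normalizer_sup_eq_top Q
  rwa [h2] at h3

theorem relIndex_dvd_right (Y : Subgroup G) [Y.Normal] {A B : Subgroup G} (h : A ≤ B) :
    Y.relIndex A ∣ Y.relIndex B := by
  have h0 : ∀ A : Subgroup G, Y.relIndex A = Nat.card (A.map (QuotientGroup.mk' Y)) := by
    intro A
    have h1 := Subgroup.relIndex_comap (⊥ : Subgroup (G ⧸ Y)) (QuotientGroup.mk' Y) A
    rw [Subgroup.relIndex_bot_left] at h1
    rw [← h1]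
    congr 1
    ext g
    simp
  rw [h0, h0]
  exact Subgroup.card_dvd_of_le (Subgroup.map_mono h)

theorem char_one_ne_zero {χ : G → ℂ} (hχ : IsIrrCharacter G χ) : χ 1 ≠ 0 := by
  rw [CharInt.irr_one_eq_charDegree hχ]
  exact_mod_cast (CharInt.irr_charDegree_pos hχ).ne'

/-- S4461, first case -/
theorem broline_one {χ : G → ℂ} (hχ : IsIrrCharacter G χ) {K : Subgroup G} [K.Normal]
    (hK : ∀ g : G, g ∈ K ↔ χ g = χ 1) (h : ¬ K ≤ fittingSubgroup G)
    (hno : ∀ ψ : IrrCharacter G, charDegree χ < charDegree (ψ : G → ℂ) → ∀ L : Subgroup G,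
      (∀ g, g ∈ L ↔ (ψ : G → ℂ) g = (ψ : G → ℂ) 1) → ¬ L < K) : False := by
  classical
  have h1 : ¬ Group.IsNilpotent K := fun h1 => h (Cores.le_fittingSubgroup inferInstance h1)
  have h0 : Group.IsNilpotent K ↔ ∀ (p : ℕ) (_ : Fact p.Prime) (P : Sylow p K),
      (P : Subgroup K).Normal := (Group.isNilpotent_of_finite_tfae (G := K)).out 0 3
  rw [h0] at h1
  push Not at h1
  obtain ⟨p, hp, P, hP⟩ := h1
  set P' := (P : Subgroup K).map K.subtype with hP'
  have hPK : P' ≤ K := Subgroup.map_subtype_le _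
  have hnt : Subgroup.normalizer (P' : Set G) ≠ ⊤ := by
    intro h2
    apply hP
    have h3 : P'.Normal := Subgroup.normalizer_eq_top_iff.mp h2
    have h4 : (P : Subgroup K) = P'.subgroupOf K := by
      rw [hP', Subgroup.subgroupOf, Subgroup.comap_map_eq_self_of_injective K.subtype_injective]
    rw [h4]
    exact Subgroup.normal_subgroupOf
  obtain ⟨M, hM, hNM⟩ := (eq_top_or_exists_le_coatom (Subgroup.normalizer (P' : Set G))).resolve_left hnt
  have hfr := Sylow.normalizer_sup_eq_top P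
  rw [← hP'] at hfr
  have hKM : ¬ K ≤ M := by
    intro h2
    apply hM.1
    rw [eq_top_iff, ← hfr]
    exact sup_le hNM h2
  have hcore := broline_core hχ hK hM hKM hno
  have hCM : M.normalCore ≤ M := Subgroup.normalCore_le M
  have hPM : P' ≤ M := Subgroup.le_normalizer.trans hNM
  have hPC : P' ≤ K ⊓ M.normalCore := by
    intro y hy
    refine ⟨hPK hy, hcore y (hPM hy) ?_⟩
    rw [(hK y).mp (hPK hy)]
    exact char_one_ne_zero hχ
  have h5 := frattini_of_max (p := p) (Y := K ⊓ M.normalCore) hPC (P.isPGroup'.map _)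
    (fun Q hQ1 hQ2 hQ3 => sylow_map_max P (hQ1.trans inf_le_left) hQ2 hQ3)
  apply hM.1
  rw [eq_top_iff, ← h5]
  exact sup_le hNM (inf_le_right.trans hCM)

/-- S4461, second case -/
theorem broline_two {χ : G → ℂ} (hχ : IsIrrCharacter G χ) {K : Subgroup G} [K.Normal]
    (hK : ∀ g : G, g ∈ K ↔ χ g = χ 1) (h : K = fittingSubgroup G) (hs : Group.IsSolvable (G ⧸ K))
    (hKt : K ≠ ⊤)
    (hno : ∀ ψ : IrrCharacter G, charDegree χ < charDegree (ψ : G → ℂ) → ∀ L : Subgroup G,
      (∀ g, g ∈ L ↔ (ψ : G → ℂ) g = (ψ : G → ℂ) 1) → ¬ L < K) : False := by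
  classical
  haveI : Nontrivial (G ⧸ K) := by
    rw [← not_subsingleton_iff_nontrivial, QuotientGroup.subsingleton_iff]
    exact hKt
  obtain ⟨Eb, p, hpp, hEmin, -, -, -, hEp⟩ :=
    SolvMin.exists_minNormal_pgroup_of_solvable (⊤ : Subgroup (G ⧸ K)) top_ne_bot
  haveI : Fact p.Prime := ⟨hpp⟩
  haveI := hEmin.1
  set E := Eb.comap (QuotientGroup.mk' K) with hE
  have hKE : K ≤ E := by
    intro k hk
    rw [hE, Subgroup.mem_comap, QuotientGroup.mk'_apply, (QuotientGroup.eq_one_iff k).mpr hk]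
    exact one_mem _
  have hmap : E.map (QuotientGroup.mk' K) = Eb :=
    Subgroup.map_comap_eq_self_of_surjective (QuotientGroup.mk'_surjective K) Eb
  have hEK : E ≠ K := by
    intro h1
    apply hEmin.2.1
    rw [← hmap, h1, QuotientGroup.map_mk'_self]
  have hEn : E.Normal := inferInstance
  -- minimality
  have hmin : ∀ X : Subgroup G, X.Normal → K ≤ X → X ≤ E → X ≠ E → X = K := by
    intro X hX h1 h2 h3
    have h4 : (X.map (QuotientGroup.mk' K)).Normal :=
      hX.map _ (QuotientGroup.mk'_surjective K)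
    have h5 : X.map (QuotientGroup.mk' K) ≤ Eb := by
      rw [← hmap]; exact Subgroup.map_mono h2
    have h6 : (X.map (QuotientGroup.mk' K)).comap (QuotientGroup.mk' K) = X := by
      rw [Subgroup.comap_map_eq, QuotientGroup.ker_mk', sup_eq_left.mpr h1]
    rcases hEmin.2.2 _ h4 h5 with h7 | h7
    · rw [← h6, h7]
      ext g
      simp
    · exfalso
      apply h3
      rw [← h6, h7]
  have hrel : K.relIndex E = Nat.card Eb := by
    have h1 := Subgroup.relIndex_comap (⊥ : Subgroup (G ⧸ K)) (QuotientGroup.mk' K) E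
    rw [hmap, Subgroup.relIndex_bot_left] at h1
    rw [← h1]
    congr 1
    ext g
    simp
  obtain ⟨k, hk⟩ := IsPGroup.iff_card.mp hEp
  rw [hk] at hrel
  obtain ⟨P⟩ := (inferInstance : Nonempty (Sylow p E))
  set P' := (P : Subgroup E).map E.subtype with hP'
  have hPE : P' ≤ E := Subgroup.map_subtype_le _
  have hPg : IsPGroup p P' := P.isPGroup'.map _
  have hPsub : P'.subgroupOf E = (P : Subgroup E) := by
    rw [hP', Subgroup.subgroupOf, Subgroup.comap_map_eq_self_of_injective E.subtype_injective]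
  have hPidx : ¬ p ∣ P'.relIndex E := by
    rw [Subgroup.relIndex, hPsub]
    exact P.not_dvd_index
  have hEKP : E ≤ K ⊔ P' := by
    rw [← Subgroup.relIndex_eq_one]
    have h1 : (K ⊔ P').relIndex E ∣ p ^ k := hrel ▸ Subgroup.relIndex_dvd_of_le_left E le_sup_left
    have h2 : (K ⊔ P').relIndex E ∣ P'.relIndex E := Subgroup.relIndex_dvd_of_le_left E le_sup_right
    obtain ⟨j, _, hj⟩ := (Nat.dvd_prime_pow hpp).mp h1
    rcases Nat.eq_zero_or_pos j with h3 | h3
    · rw [hj, h3, pow_zero]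
    · exfalso
      apply hPidx
      rw [hj] at h2
      exact (dvd_pow_self p h3.ne').trans h2
  have hKnil : Group.IsNilpotent K := by rw [h]; exact Cores.fittingSubgroup_isNilpotent
  have hnt : Subgroup.normalizer (P' : Set G) ≠ ⊤ := by
    intro h2
    haveI h3 : P'.Normal := Subgroup.normalizer_eq_top_iff.mp h2
    have h4 := Cores.isNilpotent_sup K P' hKnil hPg.isNilpotent
    have h5 : K ⊔ P' ≤ K := by
      conv_rhs => rw [h]
      exact Cores.le_fittingSubgroup (Subgroup.sup_normal K P') h4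
    exact hEK (le_antisymm (hEKP.trans h5) hKE)
  obtain ⟨M, hM, hNM⟩ := (eq_top_or_exists_le_coatom (Subgroup.normalizer (P' : Set G))).resolve_left hnt
  have hfr := Sylow.normalizer_sup_eq_top P
  rw [← hP'] at hfr
  have hPM : P' ≤ M := Subgroup.le_normalizer.trans hNM
  have hKM : ¬ K ≤ M := by
    intro h2
    apply hM.1
    rw [eq_top_iff, ← hfr]
    exact sup_le hNM (hEKP.trans (sup_le h2 hPM))
  have hcore := broline_core hχ hK hM hKM hno
  set C := M.normalCore with hC
  have hCM : C ≤ M := Subgroup.normalCore_le M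
  have hKMC : K ⊓ M ≤ C := by
    rintro y ⟨hy1, hy2⟩
    apply hcore y hy2
    rw [(hK y).mp hy1]
    exact char_one_ne_zero hχ
  -- the `p`-core lies in `M`
  have hcorK : pCore p G ≤ K := by rw [h]; exact Cores.pCore_le_fittingSubgroup p
  have hcorP : pCore p G ≤ P' := by
    have h1 : P' ⊔ pCore p G = P' := by
      apply sylow_map_max P (sup_le hPE (hcorK.trans hKE)) _ le_sup_left
      exact IsPGroup.to_sup_of_normal_right hPg (Cores.pCore_isPGroup p)
    rw [← h1]; exact le_sup_right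
  have hcorC : pCore p G ≤ C := (le_inf hcorK (hcorP.trans hPM)).trans hKMC
  have hnot : ¬ E ≤ K ⊔ C := by
    intro hle
    set Y := E ⊓ C with hY
    have hYn : Y.Normal := inferInstance
    have hEY : E ≤ K ⊔ Y := by
      intro e he
      obtain ⟨k, hk, c, hc, rfl⟩ := Subgroup.mem_sup_of_normal_right.mp (hle he)
      refine Subgroup.mul_mem_sup hk ⟨?_, hc⟩
      have := E.mul_mem (E.inv_mem (hKE hk)) he
      rwa [inv_mul_cancel_left] at this
    have h1 : ¬ p ∣ Y.relIndex K := by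
      intro h2
      apply Cores.not_dvd_relIndex_pCore_of_normal_nilpotent hpp K hKnil
      exact h2.trans (Subgroup.relIndex_dvd_of_le_left K (le_inf (hcorK.trans hKE) hcorC))
    have h2 : Y.relIndex E ∣ Y.relIndex K := by
      have h3 : Y.relIndex (K ⊔ Y) = Y.relIndex K := Subgroup.relIndex_sup_right K Y
      rw [← h3]
      exact relIndex_dvd_right Y hEY
    have h3 : Y.relIndex P' ∣ Y.relIndex E := relIndex_dvd_right Y hPE
    have h4 : P' ≤ Y := by
      rw [← Subgroup.relIndex_eq_one]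
      obtain ⟨i, hi⟩ := IsPGroup.iff_card.mp hPg
      have h5 : Y.relIndex P' ∣ p ^ i := hi ▸ Subgroup.relIndex_dvd_card Y P'
      obtain ⟨j, _, hj⟩ := (Nat.dvd_prime_pow hpp).mp h5
      rcases Nat.eq_zero_or_pos j with h6 | h6
      · rw [hj, h6, pow_zero]
      · exfalso
        apply h1
        rw [hj] at h3
        exact ((dvd_pow_self p h6.ne').trans h3).trans h2
    have h5 := frattini_of_max (p := p) h4 hPg
      (fun Q hQ1 hQ2 hQ3 => sylow_map_max P (hQ1.trans inf_le_left) hQ2 hQ3)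
    apply hM.1
    rw [eq_top_iff, ← h5]
    exact sup_le hNM (inf_le_right.trans hCM)
  have hEK2 : E ⊓ (K ⊔ C) = K := by
    haveI := Subgroup.sup_normal K C
    apply hmin _ inferInstance (le_inf hKE le_sup_left) inf_le_left
    intro h1
    exact hnot (inf_eq_left.mp h1)
  have hKM' : K ⊔ M = ⊤ := hM.2 _ (lt_of_le_of_ne le_sup_right fun h => hKM (h ▸ le_sup_left))
  have hvan : ∀ e ∈ E, e ∉ K → χ e = 0 := by
    intro e he heK
    by_contra hne
    have he2 : e ∈ M ⊔ K := by rw [sup_comm, hKM']; trivial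
    obtain ⟨m, hm, y, hy, rfl⟩ := Subgroup.mem_sup_of_normal_right.mp he2
    rw [(char_mul_of_ker (irr_isCharacter hχ) ((hK y).mp hy) m).2] at hne
    have h1 := hcore m hm hne
    apply heK
    rw [← hEK2]
    refine ⟨he, ?_⟩
    rw [sup_comm]
    exact Subgroup.mul_mem_sup h1 hy
  -- contradiction
  haveI : Fintype E := Fintype.ofFinite E
  have h1 : classInner (fun e : E => χ e) (fun _ => 1) ≠ 0 := by
    unfold classInner
    have h2 : ∀ e : E, χ e * conj (1 : ℂ) = (if (e : G) ∈ K then χ 1 else 0) := by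
      intro e
      rw [map_one, mul_one]
      by_cases he : (e : G) ∈ K
      · rw [if_pos he, (hK _).mp he]
      · rw [if_neg he, hvan e e.2 he]
    rw [Finset.sum_congr rfl fun e _ => h2 e, ← Finset.sum_filter, Finset.sum_const, nsmul_eq_mul]
    have h3 : (Finset.univ.filter (fun e : E => (e : G) ∈ K)).card ≠ 0 := by
      rw [Finset.card_ne_zero]
      exact ⟨1, by simp⟩
    refine mul_ne_zero (inv_ne_zero (by exact_mod_cast Nat.card_pos.ne')) (mul_ne_zero ?_ (char_one_ne_zero hχ))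
    exact_mod_cast h3
  have h2 := restrict_of_invariant hEn hχ (isIrrCharacter_one (G := E)) (fun g => by
    funext e; rfl) h1
  apply hEK
  apply le_antisymm _ hKE
  intro e he
  rw [hK]
  have h3 := congrFun h2 ⟨e, he⟩
  have h4 := congrFun h2 1
  simp only [Pi.smul_apply] at h3 h4
  rw [show χ e = χ ((⟨e, he⟩ : E) : G) from rfl]
  exact h3.trans h4.symm

/-- S4461 -/
theorem broline (χ : IrrCharacter G) (K : Subgroup G) [K.Normal]
    (hK : ∀ g : G, g ∈ K ↔ (χ : G → ℂ) g = (χ : G → ℂ) 1)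
    (h : ¬ K ≤ fittingSubgroup G ∨ (K = fittingSubgroup G ∧ Group.IsSolvable (G ⧸ K) ∧ K ≠ ⊤)) :
    ∃ ψ : IrrCharacter G, charDegree (χ : G → ℂ) < charDegree (ψ : G → ℂ) ∧
      ∃ L : Subgroup G, (∀ g : G, g ∈ L ↔ (ψ : G → ℂ) g = (ψ : G → ℂ) 1) ∧ L < K := by
  by_contra hcon
  have hno : ∀ ψ : IrrCharacter G, charDegree (χ : G → ℂ) < charDegree (ψ : G → ℂ) →
      ∀ L : Subgroup G, (∀ g, g ∈ L ↔ (ψ : G → ℂ) g = (ψ : G → ℂ) 1) → ¬ L < K :=
    fun ψ h1 L h2 h3 => hcon ⟨ψ, h1, L, h2, h3⟩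
  rcases h with h | ⟨h1, h2, h3⟩
  · exact broline_one χ.2 hK h hno
  · exact broline_two χ.2 hK h1 h2 h3 hno

end CfsgLib.Nt
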