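import Mathlib
import Cfsg.Agent.EqBase
import Cfsg.Agent.LibNt3

/-!
# Garrison: S4462 (helper17)
-/

set_option autoImplicit false
set_option linter.unusedSectionVars false
set_option linter.style.haveILetI false
set_option linter.unusedSimpArgs false

namespace CfsgLib.Nt

open Cfsg CfsgLib.CharBasic CfsgLib.CharIndA CfsgLib.Quot19 CfsgLib.CharMore CfsgLib.Clifford
open scoped ComplexConjugate Pointwise

universe u v

/-- the quotient of `B` by `A` is nilpotent -/
def NQ {G : Type u} [Group G] (A B : Subgroup G) : Prop :=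
  ∀ _ : (A.subgroupOf B).Normal, Group.IsNilpotent (↥B ⧸ A.subgroupOf B)

theorem NQ_of_nilpotent {G : Type u} [Group G] {A B : Subgroup G} (h : Group.IsNilpotent B) :
    NQ A B := fun _ => inferInstance

theorem NQ_comap {G : Type u} {H : Type v} [Group G] [Group H] (f : G →* H) {A B : Subgroup H}
    [hA : A.Normal] (h : NQ A B) : NQ (A.comap f) (B.comap f) := by
  intro hn
  haveI := h inferInstance
  let φ : ↥(B.comap f) →* ↥B ⧸ A.subgroupOf B :=
    (QuotientGroup.mk' (A.subgroupOf B)).comp (f.subgroupComap B)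
  have hker : φ.ker = (A.comap f).subgroupOf (B.comap f) := by
    ext y
    rw [MonoidHom.mem_ker, MonoidHom.comp_apply, QuotientGroup.mk'_apply, QuotientGroup.eq_one_iff,
      Subgroup.mem_subgroupOf, Subgroup.mem_subgroupOf]
    rfl
  have e1 := QuotientGroup.quotientKerEquivRange φ
  have e2 : ↥(B.comap f) ⧸ (A.comap f).subgroupOf (B.comap f) ≃* ↥(B.comap f) ⧸ φ.ker :=
    QuotientGroup.quotientMulEquivOfEq hker.symm
  have h1 : Group.IsNilpotent φ.range := inferInstance
  exact Group.nilpotent_of_mulEquiv (e2.trans e1).symm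

theorem one_deg {G : Type u} [Group G] [Fintype G] :
    charDegree ((⟨_, isIrrCharacter_one⟩ : IrrCharacter G) : G → ℂ) = 1 := by
  have h := CharInt.irr_one_eq_charDegree (⟨_, isIrrCharacter_one⟩ : IrrCharacter G).2
  have h' : (((⟨_, isIrrCharacter_one⟩ : IrrCharacter G) : G → ℂ) 1) = ((1 : ℕ) : ℂ) :=
    Nat.cast_one.symm
  rw [h'] at h
  exact (Nat.cast_injective h).symm

/-- inflation -/
theorem infl_deg {G : Type u} [Group G] [Finite G] (N : Subgroup G) [N.Normal]
    (χ : IrrCharacter (G ⧸ N)) : charDegree (fun g : G => (χ : G ⧸ N → ℂ) g) =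
      charDegree (χ : G ⧸ N → ℂ) := by
  haveI := Fintype.ofFinite G
  have h1 := CharInt.irr_one_eq_charDegree (irr_inflate N χ.2)
  have h2 := CharInt.irr_one_eq_charDegree χ.2
  have h3 : ((charDegree (fun g : G => (χ : G ⧸ N → ℂ) g) : ℕ) : ℂ) =
      (charDegree (χ : G ⧸ N → ℂ) : ℂ) := by
    rw [← h1, ← h2]; rfl
  exact_mod_cast h3

theorem garrison_aux (m : ℕ) : ∀ (G : Type u) [Group G] [Finite G], Group.IsSolvable G →
    Nat.card G = m → ∃ (k : ℕ) (c : ℕ → Subgroup G), c 0 = ⊥ ∧ (∀ i, k ≤ i → c i = ⊤) ∧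
      (∀ i, c i ≤ c (i + 1)) ∧ (∀ i, (c i).Normal) ∧ (∀ i, NQ (c i) (c (i + 1))) ∧
      ∃ (χ : IrrCharacter G) (S : Finset ℕ), S.card = k ∧
        ∀ d ∈ S, d ≤ charDegree (χ : G → ℂ) ∧ ∃ ψ : IrrCharacter G, charDegree (ψ : G → ℂ) = d := by
  classical
  induction m using Nat.strong_induction_on with
  | _ m ih =>
  intro G _ _ hs hm
  haveI := Fintype.ofFinite G
  by_cases hF : fittingSubgroup G = ⊤
  · have hnil : Group.IsNilpotent (⊤ : Subgroup G) := by
      rw [← hF]; exact Cores.fittingSubgroup_isNilpotent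
    refine ⟨1, fun i => if i = 0 then ⊥ else ⊤, if_pos rfl, ?_, ?_, ?_, ?_, ⟨_, isIrrCharacter_one⟩,
      {1}, rfl, ?_⟩
    · intro i hi
      exact if_neg (by omega)
    · intro i
      dsimp only
      rw [if_neg (Nat.succ_ne_zero i)]
      exact le_top
    · intro i
      dsimp only
      split_ifs
      · exact Subgroup.normal_bot
      · exact Subgroup.normal_top
    · intro i
      dsimp only
      rw [if_neg (Nat.succ_ne_zero i)]
      exact NQ_of_nilpotent hnil
    · intro d hd
      rw [Finset.mem_singleton] at hd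
      subst hd
      exact ⟨one_deg.ge, ⟨_, isIrrCharacter_one⟩, one_deg⟩
  · have hne : fittingSubgroup G ≠ ⊥ := by
      intro hb
      haveI : Nontrivial G := by
        rw [← not_subsingleton_iff_nontrivial]
        intro hsub
        apply hF
        exact Subsingleton.elim _ _
      obtain ⟨N, p, hpp, hmin, -, -, -, hNp⟩ :=
        SolvMin.exists_minNormal_pgroup_of_solvable (⊤ : Subgroup G) top_ne_bot
      haveI : Fact p.Prime := ⟨hpp⟩
      have h1 := Cores.le_fittingSubgroup hmin.1 hNp.isNilpotent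
      rw [hb, le_bot_iff] at h1
      exact hmin.2.1 h1
    set F := fittingSubgroup G with hFdef
    haveI hFn : F.Normal := Cores.fittingSubgroup_normal
    have hlt : Nat.card (G ⧸ F) < m := by
      have h1 := Subgroup.card_eq_card_quotient_mul_card_subgroup F
      have h2 : 1 < Nat.card F := by
        have h3 : 0 < Nat.card F := Nat.card_pos
        have h4 : Nat.card F ≠ 1 := fun h => hne (Subgroup.card_eq_one.mp h)
        omega
      have h3 : 0 < Nat.card (G ⧸ F) := Nat.card_pos
      rw [hm] at h1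
      nlinarith
    haveI := hs
    obtain ⟨k, c, hc0, hck, hcm, hcn, hcq, χ, S, hS, hSd⟩ := ih _ hlt (G ⧸ F) inferInstance rfl
    have hinf := irr_inflate F χ.2
    set χ' : IrrCharacter G := ⟨_, hinf⟩ with hχ'
    obtain ⟨K, hKn, hK⟩ := exists_kernel (irr_isCharacter χ'.2)
    have hFK : F ≤ K := by
      intro y hy
      rw [hK]
      exact infl_ker F (χ : G ⧸ F → ℂ) y hy
    have hbr : ¬ K ≤ fittingSubgroup G ∨
        (K = fittingSubgroup G ∧ Group.IsSolvable (G ⧸ K) ∧ K ≠ ⊤) := by
      by_cases h1 : K ≤ F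
      · right
        have h2 : K = F := le_antisymm h1 hFK
        refine ⟨h2, inferInstance, ?_⟩
        rw [h2]; exact hF
      · left; exact h1
    obtain ⟨ψ, hψ, -⟩ := broline χ' K hK hbr
    have hdeg : charDegree (χ' : G → ℂ) = charDegree (χ : G ⧸ F → ℂ) := infl_deg F χ
    refine ⟨k + 1, fun i => if i = 0 then ⊥ else (c (i - 1)).comap (QuotientGroup.mk' F), if_pos rfl,
      ?_, ?_, ?_, ?_, ψ, insert (charDegree (ψ : G → ℂ)) S, ?_, ?_⟩
    · intro i hi
      dsimp only
      rw [if_neg (by omega), hck (i - 1) (by omega), Subgroup.comap_top]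
    · intro i
      dsimp only
      rcases Nat.eq_zero_or_pos i with h1 | h1
      · rw [if_pos h1]; exact bot_le
      · rw [if_neg h1.ne', if_neg (Nat.succ_ne_zero i)]
        obtain ⟨j, rfl⟩ := Nat.exists_eq_succ_of_ne_zero h1.ne'
        exact Subgroup.comap_mono (hcm j)
    · intro i
      dsimp only
      split_ifs
      · exact Subgroup.normal_bot
      · exact (hcn _).comap _
    · intro i
      dsimp only
      rcases Nat.eq_zero_or_pos i with h1 | h1
      · subst h1
        rw [if_pos rfl, if_neg (Nat.succ_ne_zero 0)]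
        apply NQ_of_nilpotent
        have h2 : (c (0 + 1 - 1)).comap (QuotientGroup.mk' F) = F := by
          rw [show 0 + 1 - 1 = 0 from rfl, hc0]
          exact (MonoidHom.comap_bot (QuotientGroup.mk' F)).trans (QuotientGroup.ker_mk' F)
        rw [h2, hFdef]
        exact Cores.fittingSubgroup_isNilpotent
      · rw [if_neg h1.ne', if_neg (Nat.succ_ne_zero i)]
        obtain ⟨j, rfl⟩ := Nat.exists_eq_succ_of_ne_zero h1.ne'
        haveI := hcn j
        exact NQ_comap (A := c j) (QuotientGroup.mk' F) (hcq j)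
    · rw [Finset.card_insert_of_notMem, hS]
      intro hmem
      have h1 := (hSd _ hmem).1
      omega
    · intro d hd
      rcases Finset.mem_insert.mp hd with h1 | h1
      · exact ⟨h1.le, ψ, h1.symm⟩
      · obtain ⟨h2, ξ, hξ⟩ := hSd d h1
        refine ⟨by omega, ⟨_, irr_inflate F ξ.2⟩, ?_⟩
        rw [← hξ]
        exact infl_deg F ξ

/-- S4462 -/
theorem garrison {G : Type u} [Group G] [Finite G] (hs : Group.IsSolvable G) (n : ℕ)
    (hcd : Nat.card {d : ℕ // ∃ χ : IrrCharacter G, charDegree (χ : G → ℂ) = d} = n) :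
    ∃ N : Fin (n + 1) → Subgroup G, N 0 = ⊥ ∧ N (Fin.last n) = ⊤ ∧ Monotone N ∧
      (∀ i, (N i).Normal) ∧ ∀ i : Fin n, NQ (N i.castSucc) (N i.succ) := by
  classical
  haveI := Fintype.ofFinite G
  obtain ⟨k, c, hc0, hck, hcm, hcn, hcq, χ, S, hS, hSd⟩ := garrison_aux _ G hs rfl
  have hkn : k ≤ n := by
    rw [← hS, ← hcd]
    haveI : Finite {d : ℕ // ∃ χ : IrrCharacter G, charDegree (χ : G → ℂ) = d} := by
      apply Finite.of_surjective (fun χ : IrrCharacter G => (⟨charDegree (χ : G → ℂ), χ, rfl⟩ :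
        {d : ℕ // ∃ χ : IrrCharacter G, charDegree (χ : G → ℂ) = d}))
      rintro ⟨d, ξ, hξ⟩
      exact ⟨ξ, Subtype.ext hξ⟩
    have h1 : Nat.card S ≤ Nat.card {d : ℕ // ∃ χ : IrrCharacter G, charDegree (χ : G → ℂ) = d} :=
      Nat.card_le_card_of_injective (fun d : S => ⟨d.1, (hSd d.1 d.2).2⟩) (fun a b h =>
        Subtype.ext (Subtype.mk.inj h))
    rwa [Nat.card_eq_fintype_card, Fintype.card_coe] at h1
  have hmono : Monotone c := monotone_nat_of_le_succ hcm
  exact ⟨fun i => c i, hc0, hck n hkn, fun i j hij => hmono hij, fun i => hcn i, fun i => hcq i⟩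

end CfsgLib.Nt
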