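import Mathlib
import Cfsg.Agent.EqBase
import Cfsg.Agent.LibNt2
import Cfsg.Agent.LibGalChar
import Cfsg.Agent.LibGalChar2

/-!
# Galois conjugation and small degrees (helper17)
-/

set_option autoImplicit false
set_option linter.unusedSectionVars false
set_option linter.style.haveILetI false
set_option linter.unusedSimpArgs false

namespace CfsgLib.Nt

open Cfsg CfsgLib.CharBasic CfsgLib.CharIndA CfsgLib.Quot19 CfsgLib.CharMore CfsgLib.Clifford
open scoped ComplexConjugate Pointwise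

universe u v

variable {G : Type u} [Group G] [Fintype G]

theorem pow_irr {ψ : G → ℂ} (hψ : IsIrrCharacter G ψ) {k : ℕ} (hk : k.Coprime (Nat.card G)) :
    IsIrrCharacter G (fun g => ψ (g ^ k)) := by
  obtain ⟨σ, hσ⟩ := GalChar.exists_gal_of_coprime hk
  have h := GalChar.isIrrCharacter_gal σ hψ
  have h2 : (σ ∘ ψ) = fun g => ψ (g ^ k) := by
    funext g
    rw [hσ ψ (irr_isCharacter hψ) g]; rfl
  rwa [h2] at h

theorem exists_k (q : ℕ) [hq : Fact q.Prime] {N : ℕ} (hN : N ≠ 0) :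
    ∃ k : ℕ, k.Coprime N ∧ (∀ m, m ∣ N → ¬ q ∣ m → k ≡ 1 [MOD m]) ∧
      (∀ j : ℕ, ¬ q ∣ j → ∃ i, k ^ i ≡ j [MOD q]) := by
  obtain ⟨u, hu⟩ := IsCyclic.exists_monoid_generator (α := (ZMod q)ˣ)
  have hcop : Nat.Coprime (N / q ^ N.factorization q) q :=
    (Nat.coprime_ordCompl hq.out hN).symm
  obtain ⟨k, hk1, hk2⟩ := Nat.chineseRemainder hcop 1 (u : ZMod q).val
  have hkq : ((k : ℕ) : ZMod q) = u := by
    have h1 := (ZMod.natCast_eq_natCast_iff k (u : ZMod q).val q).mpr hk2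
    rw [h1, ZMod.natCast_val, ZMod.cast_id]
  refine ⟨k, ?_, ?_, ?_⟩
  · have h1 : Nat.Coprime k (N / q ^ N.factorization q) := by
      rw [Nat.Coprime, Nat.ModEq.gcd_eq hk1, Nat.gcd_one_left]
    have h2 : Nat.Coprime k q := by
      rw [Nat.coprime_comm, hq.out.coprime_iff_not_dvd]
      intro h
      have h3 : ((k : ℕ) : ZMod q) = 0 := (ZMod.natCast_eq_zero_iff k q).mpr h
      rw [hkq] at h3
      exact u.ne_zero h3
    have h3 := Nat.Coprime.mul_right (Nat.Coprime.pow_right (N.factorization q) h2) h1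
    rwa [Nat.ordProj_mul_ordCompl_eq_self] at h3
  · intro m hm hqm
    have h1 : m ∣ N / q ^ N.factorization q := by
      have h2 : m ∣ q ^ N.factorization q * (N / q ^ N.factorization q) := by
        rwa [Nat.ordProj_mul_ordCompl_eq_self]
      exact Nat.Coprime.dvd_of_dvd_mul_left
        (Nat.Coprime.pow_right _ ((hq.out.coprime_iff_not_dvd.mpr hqm).symm)) h2
    exact hk1.of_dvd h1
  · intro j hj
    have hj0 : ((j : ℕ) : ZMod q) ≠ 0 := fun h => hj ((ZMod.natCast_eq_zero_iff j q).mp h)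
    obtain ⟨i', hi'⟩ := hu (Units.mk0 _ hj0)
    dsimp only at hi'
    refine ⟨i', ?_⟩
    rw [← ZMod.natCast_eq_natCast_iff, Nat.cast_pow, hkq, ← Units.val_pow_eq_pow_val, hi']
    rfl

theorem geom_root {q : ℕ} (hq : q ≠ 0) {ω : ℂ} (h : ω ^ q = 1) :
    ∑ j ∈ Finset.range q, ω ^ j = if ω = 1 then (q : ℂ) else 0 := by
  by_cases h1 : ω = 1
  · rw [if_pos h1, h1]; simp
  · rw [if_neg h1]
    have h2 := geom_sum_mul ω q
    rw [h, sub_self] at h2
    exact (mul_eq_zero.mp h2).resolve_right (sub_ne_zero.mpr h1)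

theorem mem_ker_of_pow {ψ : G → ℂ} (hψ : IsCharacter G ψ) {q : ℕ} [hq : Fact q.Prime] {n : ℕ}
    (hn : ψ 1 = n) (hnq : n + 1 < q) {y : G} (hyq : ψ (y ^ q) = ψ 1)
    (hj : ∀ j, 0 < j → j < q → ψ (y ^ j) = ψ y) : ψ y = ψ 1 := by
  classical
  have hint : IsIntegral ℤ (ψ y) := GalChar.isIntegral_char hψ y
  obtain ⟨d, ρ, rfl⟩ := hψ
  rw [Representation.char_one, character_eq_finrank_iff] at hyq
  obtain ⟨b, ω, -, hω⟩ := exists_diag_rep ρ y
  have hωq : ∀ i, ω i ^ q = 1 := by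
    intro i
    have h1 := diag_pow ρ y (hω i) q
    rw [hyq, LinearMap.id_apply] at h1
    have h2 : (1 - ω i ^ q) • b i = 0 := by rw [sub_smul, one_smul, ← h1, sub_self]
    rcases smul_eq_zero.mp h2 with h3 | h3
    · exact (sub_eq_zero.mp h3).symm
    · exact absurd h3 (b.ne_zero i)
  have htr : ∀ j : ℕ, ρ.character (y ^ j) = ∑ i, ω i ^ j := by
    intro j
    exact trace_of_diag b (ρ (y ^ j)) (fun i => ω i ^ j) (fun i => diag_pow ρ y (hω i) j)
  set c := (Finset.univ.filter (fun i => ω i = 1)).card with hc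
  have hsum : ∑ j ∈ Finset.range q, ρ.character (y ^ j) = (q : ℂ) * c := by
    rw [Finset.sum_congr rfl fun j _ => htr j, Finset.sum_comm,
      Finset.sum_congr rfl fun i _ => geom_root hq.out.ne_zero (hωq i), ← Finset.sum_filter,
      Finset.sum_const, nsmul_eq_mul, mul_comm]
  have hsum2 : ∑ j ∈ Finset.range q, ρ.character (y ^ j) = n + ((q : ℂ) - 1) * ρ.character y := by
    obtain ⟨q', hq'⟩ := Nat.exists_eq_succ_of_ne_zero hq.out.ne_zero
    rw [hq', Finset.sum_range_succ', pow_zero, hn, add_comm]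
    have h1 : ∀ j ∈ Finset.range q', ρ.character (y ^ (j + 1)) = ρ.character y := by
      intro j hj'
      apply hj _ (Nat.succ_pos j)
      have := Finset.mem_range.mp hj'
      omega
    rw [Finset.sum_congr rfl h1, Finset.sum_const, Finset.card_range, nsmul_eq_mul]
    push_cast; ring
  rw [hsum2] at hsum
  have hq1 : ((q : ℂ) - 1) ≠ 0 := by
    have h1 : (1 : ℕ) < q := hq.out.one_lt
    have h2 : (q : ℂ) ≠ 1 := by exact_mod_cast h1.ne'
    exact sub_ne_zero.mpr h2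
  have hval : ρ.character y = ((q : ℂ) * c - n) / ((q : ℂ) - 1) := by
    rw [eq_div_iff hq1, ← hsum]; ring
  obtain ⟨m, hm⟩ := GalChar.exists_int_of_fixed hint (fun σ => by
    rw [hval, map_div₀, map_sub, map_sub, map_mul, map_natCast, map_natCast, map_natCast, map_one])
  rw [hm] at hsum
  have h3 : (n : ℤ) + ((q : ℤ) - 1) * m = q * c := by exact_mod_cast hsum
  have hfr : (Module.finrank ℂ (Fin d → ℂ) : ℕ) = n := by
    rw [Representation.char_one] at hn
    exact_mod_cast hn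
  have hcn : c ≤ n := by
    rw [hc, ← hfr]
    calc _ ≤ (Finset.univ : Finset (Fin (Module.finrank ℂ (Fin d → ℂ)))).card :=
          Finset.card_filter_le _ _
      _ = _ := by rw [Finset.card_univ, Fintype.card_fin]
  have h4 : ((q : ℤ) - 1) * (m - c) = c - n := by linear_combination h3
  have h5 : m - (c : ℤ) = 0 := by
    have hq2 : (n : ℤ) + 1 < q := by exact_mod_cast hnq
    have hcn' : (c : ℤ) ≤ n := by exact_mod_cast hcn
    have hc0 : (0 : ℤ) ≤ c := Int.natCast_nonneg _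
    by_contra h6
    rcases lt_or_gt_of_ne h6 with h7 | h7
    · have h8 : m - (c : ℤ) ≤ -1 := by omega
      nlinarith
    · have h8 : 1 ≤ m - (c : ℤ) := by omega
      nlinarith
  rw [h5, mul_zero] at h4
  rw [hm, hn]
  have h6 : m = n := by omega
  exact_mod_cast h6

theorem q_elements_ker {ψ : G → ℂ} (hψ : IsCharacter G ψ) {q : ℕ} [hq : Fact q.Prime] {n : ℕ}
    (hn : ψ 1 = n) (hnq : n + 1 < q) {k : ℕ} (hk : ∀ j, ¬ q ∣ j → ∃ i, k ^ i ≡ j [MOD q])
    (hfix : ∀ g, ψ (g ^ k) = ψ g) : ∀ (m : ℕ) (y : G), y ^ (q ^ m) = 1 → ψ y = ψ 1 := by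
  intro m
  induction m with
  | zero =>
    intro y hy
    rw [pow_zero, pow_one] at hy
    rw [hy]
  | succ m ih =>
    intro y hy
    have h1 : ψ (y ^ q) = ψ 1 := by
      apply ih
      rw [← pow_mul, ← pow_succ']; exact hy
    apply mem_ker_of_pow hψ hn hnq h1
    intro j hj0 hjq
    have h2 : ¬ q ∣ j := fun h => absurd (Nat.le_of_dvd hj0 h) (by omega)
    obtain ⟨i, hi⟩ := hk j h2
    obtain ⟨K, _, hK⟩ := exists_kernel hψ
    have h3 : ∀ a b : ℕ, a ≤ b → a ≡ b [MOD q] → ψ (y ^ b) = ψ (y ^ a) := by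
      intro a b hab hmod
      obtain ⟨t, ht⟩ := (Nat.modEq_iff_dvd' hab).mp hmod
      have h4 : b = a + q * t := by omega
      rw [h4, pow_add, pow_mul]
      exact (char_mul_of_ker hψ ((hK _).mp (K.pow_mem ((hK _).mpr h1) t)) _).2
    have h5 : ψ (y ^ (k ^ i)) = ψ y := by
      clear hi
      induction i with
      | zero => rw [pow_zero, pow_one]
      | succ i ihi => rw [pow_succ, pow_mul, hfix, ihi]
    rcases le_total (k ^ i) j with h6 | h6
    · rw [h3 _ _ h6 hi, h5]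
    · rw [← h3 _ _ h6 hi.symm, h5]

/-- separation -/
theorem sep {ψ : G → ℂ} (hψ : IsIrrCharacter G ψ) {p q : ℕ}
    (hno : ∀ g : G, ¬ (p ∣ orderOf g ∧ q ∣ orderOf g)) {k l : ℕ} (hk : k.Coprime (Nat.card G))
    (hl : l.Coprime (Nat.card G)) (hkr : ∀ g : G, ¬ q ∣ orderOf g → g ^ k = g)
    (hlr : ∀ g : G, ¬ p ∣ orderOf g → g ^ l = g) :
    (∀ g, ψ (g ^ k) = ψ g) ∨ (∀ g, ψ (g ^ l) = ψ g) := by
  by_contra hcon
  push Not at hcon
  obtain ⟨⟨g1, hg1⟩, ⟨g2, hg2⟩⟩ := hcon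
  have i1 := pow_irr hψ hk
  have i2 := pow_irr hψ hl
  set ψ1 : G → ℂ := fun g => ψ (g ^ k) with h1
  set ψ2 : G → ℂ := fun g => ψ (g ^ l) with h2
  have n1 : ψ1 ≠ ψ := fun h => hg1 (congrFun h g1)
  have n2 : ψ2 ≠ ψ := fun h => hg2 (congrFun h g2)
  have h0 : classInner (ψ1 - ψ) (ψ2 - ψ) = 0 := by
    unfold classInner
    rw [Finset.sum_eq_zero, mul_zero]
    intro g _
    by_cases hq : q ∣ orderOf g
    · have hp : ¬ p ∣ orderOf g := fun h => hno g ⟨h, hq⟩
      have : (ψ2 - ψ) g = 0 := by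
        rw [Pi.sub_apply, h2]; dsimp only; rw [hlr g hp, sub_self]
      rw [this, map_zero, mul_zero]
    · have : (ψ1 - ψ) g = 0 := by
        rw [Pi.sub_apply, h1]; dsimp only; rw [hkr g hq, sub_self]
      rw [this, zero_mul]
  rw [CharBasic.inner_sub_left, CharBasic.inner_sub_right, CharBasic.inner_sub_right, irr_inner_ne i1 hψ n1, irr_inner_ne hψ i2 n2.symm,
    irr_inner_self hψ, irr_inner i1 i2] at h0
  split_ifs at h0 <;> norm_num at h0

end CfsgLib.Nt
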