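import Mathlib
import Cfsg.Agent.EqBase
import Cfsg.Agent.LibNt5
import Cfsg.Agent.LibSolvFitting
import Cfsg.Agent.S0581

/-!
# Blichfeldt: abelian Hall subgroups of linear groups: S4465 (helper17)
-/

set_option autoImplicit false
set_option linter.unusedSectionVars false
set_option linter.style.haveILetI false
set_option linter.unusedSimpArgs false

namespace CfsgLib.Nt

open Cfsg CfsgLib.CharBasic CfsgLib.CharIndA CfsgLib.Quot19 CfsgLib.CharMore CfsgLib.Clifford
open scoped ComplexConjugate Pointwise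

universe u v

variable {G : Type u} [Group G] [Fintype G]

theorem ker_of_constituents {α : G → ℂ} (hα : IsCharacter G α) {g : G}
    (h : ∀ ψ : IrrCharacter G, classInner α (ψ : G → ℂ) ≠ 0 → (ψ : G → ℂ) g = (ψ : G → ℂ) 1) :
    α g = α 1 := by
  rw [classFun_expand_apply (char_classFun hα) g, classFun_expand_apply (char_classFun hα) 1]
  refine Finset.sum_congr rfl fun ψ _ => ?_
  by_cases h0 : classInner α (ψ : G → ℂ) = 0
  · rw [h0, zero_mul, zero_mul]
  · rw [h ψ h0]

theorem constituent_degree_le {α : G → ℂ} (hα : IsCharacter G α) {n : ℕ} (hn : α 1 = n)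
    {ψ : IrrCharacter G} (h : classInner α (ψ : G → ℂ) ≠ 0) : charDegree (ψ : G → ℂ) ≤ n :=
  degree_le_of_mult hα ψ.2 h (CharInt.irr_one_eq_charDegree ψ.2) hn

/-- all primes dividing the order are larger than `n + 1` -/
def PiS (n : ℕ) {G : Type u} [Group G] (A : Subgroup G) : Prop :=
  ∀ q : ℕ, q.Prime → q ∣ Nat.card A → n + 1 < q

theorem PiS_pgroup {n q : ℕ} (hq : q.Prime) (hnq : n + 1 < q) {A : Subgroup G} (hA : IsPGroup q A) :
    PiS n A := by
  haveI : Fact q.Prime := ⟨hq⟩
  obtain ⟨k, hk⟩ := IsPGroup.iff_card.mp hA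
  intro r hr hrd
  rw [hk] at hrd
  rw [(Nat.prime_dvd_prime_iff_eq hr hq).mp (hr.dvd_of_dvd_pow hrd)]
  exact hnq

theorem PiS_sup {n : ℕ} {A B : Subgroup G} (hA : PiS n A) (hB : PiS n B) (hn : A.Normal) :
    PiS n (A ⊔ B) := by
  intro q hq hqd
  have h1 := hqd.trans (Cores.card_sup_dvd_of_normal_left A B)
  rcases hq.dvd_mul.mp h1 with h2 | h2
  · exact hA q hq h2
  · exact hB q hq h2

/-- small linear `π`-groups are abelian -/
theorem abelian_of_small {χ : G → ℂ} (hχ : IsCharacter G χ) (hf : ∀ g, χ g = χ 1 → g = 1) {n : ℕ}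
    (hn : χ 1 = n) {A : Subgroup G} (hA : PiS n A) : ∀ x ∈ A, ∀ y ∈ A, x * y = y * x := by
  intro x hx y hy
  haveI : Fintype A := Fintype.ofFinite A
  have hα := isCharacter_restrict hχ A
  have h1 : (fun a : A => χ a) (⟨x, hx⟩ * ⟨y, hy⟩ * ⟨x, hx⟩⁻¹ * ⟨y, hy⟩⁻¹) = (fun a : A => χ a) 1 := by
    apply ker_of_constituents hα
    intro ψ hψ
    have h2 : charDegree (ψ : A → ℂ) ≤ n := constituent_degree_le hα hn hψ
    have h3 : charDegree (ψ : A → ℂ) = 1 := by
      by_contra h4
      obtain ⟨q, hq, hqd⟩ := Nat.exists_prime_and_dvd h4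
      have h5 := hA q hq (hqd.trans (CharInt2.charDegree_dvd_card ψ.2))
      have h6 := Nat.le_of_dvd (CharInt.irr_charDegree_pos ψ.2) hqd
      omega
    have h4 : (ψ : A → ℂ) 1 = 1 := by
      rw [CharInt.irr_one_eq_charDegree ψ.2, h3, Nat.cast_one]
    obtain ⟨f, hf'⟩ := exists_hom_of_linear (irr_isCharacter ψ.2) h4
    rw [hf', hf', map_mul, map_mul, map_mul, map_inv, map_inv, map_one, mul_comm (f ⟨x, hx⟩),
      mul_inv_cancel_right, mul_inv_cancel]
  have h2 : x * y * x⁻¹ * y⁻¹ = 1 := hf _ h1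
  rw [mul_inv_eq_one, mul_inv_eq_iff_eq_mul] at h2
  exact h2

theorem card_conj (c : G) (B : Subgroup G) : Nat.card (MulAut.conj c • B : Subgroup G) = Nat.card B :=
  (Nat.card_congr (Subgroup.equivSMul (MulAut.conj c) B).toEquiv).symm

/-- Wielandt's theorem inside a subgroup -/
theorem wiel {n : ℕ} {C B K : Subgroup G} (hBC : B ≤ C) (hKC : K ≤ C)
    (hab : ∀ x ∈ B, ∀ y ∈ B, x * y = y * x) (hB : PiS n B)
    (hBi : ∀ q : ℕ, q.Prime → q ∣ B.relIndex C → q ≤ n + 1) (hK : PiS n K) :
    ∃ c ∈ C, K ≤ MulAut.conj c • B := by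
  have hcB : Nat.card (B.subgroupOf C) = Nat.card B :=
    Nat.card_congr (Subgroup.subgroupOfEquivOfLe hBC).toEquiv
  have hcK : Nat.card (K.subgroupOf C) = Nat.card K :=
    Nat.card_congr (Subgroup.subgroupOfEquivOfLe hKC).toEquiv
  have hnil : Group.IsNilpotent (B.subgroupOf C) := by
    letI : CommGroup (B.subgroupOf C) :=
      { (inferInstance : Group (B.subgroupOf C)) with
        mul_comm := fun a b => by
          apply Subtype.ext; apply Subtype.ext
          exact hab _ a.2 _ b.2 }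
    infer_instance
  obtain ⟨c, hc⟩ := Cfsg.Agent.S0581.result (B.subgroupOf C) (K.subgroupOf C) hnil (by
    by_contra h
    obtain ⟨q, hq, h1, h2⟩ := Nat.Prime.not_coprime_iff_dvd.mp h
    rw [hcB] at h1
    have h3 := hB q hq h1
    have h4 := hBi q hq h2
    omega) (by
    intro q hq hqd
    rw [hcK] at hqd
    have h1 := hK q hq hqd
    have h2 : q ∣ Nat.card C := hqd.trans (Subgroup.card_dvd_of_le hKC)
    rw [← Subgroup.card_mul_index (B.subgroupOf C)] at h2
    rcases hq.dvd_mul.mp h2 with h3 | h3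
    · exact h3
    · have h4 := hBi q hq h3
      omega)
  refine ⟨c, c.2, ?_⟩
  intro k hk
  have h1 := hc (show (⟨k, hKC hk⟩ : C) ∈ K.subgroupOf C from hk)
  rw [Subgroup.mem_pointwise_smul_iff_inv_smul_mem] at h1 ⊢
  exact h1

/-- transfer to an abelian Sylow subgroup meeting the centre -/
theorem exists_normal_index {r : ℕ} [hr : Fact r.Prime] (R : Sylow r G)
    (hab : ∀ x ∈ (R : Subgroup G), ∀ y ∈ (R : Subgroup G), x * y = y * x)
    (hz : r ∣ Nat.card (Subgroup.center G)) :
    ∃ K : Subgroup G, K.Normal ∧ K ≠ ⊤ ∧ ∀ q : ℕ, q.Prime → q ∣ K.index → q = r := by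
  letI : CommGroup (R : Subgroup G) :=
    { (inferInstance : Group (R : Subgroup G)) with
      mul_comm := fun a b => by
        apply Subtype.ext
        exact hab _ a.2 _ b.2 }
  set V := MonoidHom.transfer (MonoidHom.id (R : Subgroup G)) with hV
  obtain ⟨z, hzo⟩ := exists_prime_orderOf_dvd_card' r hz
  have hVz : V (z : G) ≠ 1 := by
    rw [hV, MonoidHom.transfer_eq_pow (MonoidHom.id (R : Subgroup G)) (z : G) (by
      intro k g _
      have h1 : (z : G) ^ k ∈ Subgroup.center G := Subgroup.pow_mem _ z.2 k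
      have h2 := Subgroup.mem_center_iff.mp h1 g
      rw [mul_assoc, ← h2, inv_mul_cancel_left])]
    intro h
    have h1 := congrArg Subtype.val h
    have h2 : (z : G) ^ (R : Subgroup G).index = 1 := h1
    have h3 := orderOf_dvd_of_pow_eq_one h2
    rw [Subgroup.orderOf_coe, hzo] at h3
    exact R.not_dvd_index h3
  refine ⟨V.ker, V.normal_ker, ?_, ?_⟩
  · intro h
    apply hVz
    have : (z : G) ∈ V.ker := by rw [h]; trivial
    exact this
  · intro q hq hqd
    rw [Subgroup.index_ker] at hqd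
    have h1 := hqd.trans (Subgroup.card_subgroup_dvd_card V.range)
    rw [R.card_eq_multiplicity] at h1
    exact (Nat.prime_dvd_prime_iff_eq hq hr.out).mp (hq.dvd_of_dvd_pow h1)

end CfsgLib.Nt
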