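import Mathlib
import Cfsg.Agent.EqBase
import Cfsg.Agent.LibNt6

/-!
# Blichfeldt: abelian Hall subgroups of linear groups: S4465 (helper17)
-/

set_option autoImplicit false
set_option linter.unusedSectionVars false
set_option linter.style.haveILetI false
set_option linter.unusedSimpArgs false

namespace CfsgLib.Nt

open Cfsg CfsgLib.CharBasic CfsgLib.CharIndA CfsgLib.Quot19 CfsgLib.CharMore CfsgLib.Clifford
open scoped ComplexConjugate Pointwise

universe u v

variable {G : Type u} [Group G] [Fintype G]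

theorem index_of_sup {K N : Subgroup G} [K.Normal] (h : K ⊔ N = ⊤) : N.index = N.relIndex K := by
  have h1 : K.relIndex N = K.index := by
    have h2 : K.relIndex (N ⊔ K) = K.relIndex N := Subgroup.relIndex_sup_right N K
    rw [sup_comm, h, Subgroup.relIndex_top_right] at h2
    exact h2.symm
  have e1 : Nat.card (K ⊓ N : Subgroup G) * K.relIndex N = Nat.card N := by
    have h3 := Subgroup.card_mul_index (K.subgroupOf N)
    have h4 : Nat.card (K.subgroupOf N) = Nat.card (K ⊓ N : Subgroup G) := by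
      rw [← Subgroup.inf_subgroupOf_right K N]
      exact Nat.card_congr (Subgroup.subgroupOfEquivOfLe inf_le_right).toEquiv
    rw [h4] at h3
    exact h3
  have e2 : Nat.card (K ⊓ N : Subgroup G) * N.relIndex K = Nat.card K := by
    have h3 := Subgroup.card_mul_index (N.subgroupOf K)
    have h4 : Nat.card (N.subgroupOf K) = Nat.card (K ⊓ N : Subgroup G) := by
      rw [← Subgroup.inf_subgroupOf_left N K]
      exact Nat.card_congr (Subgroup.subgroupOfEquivOfLe inf_le_left).toEquiv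
    rw [h4] at h3
    exact h3
  have e3 := Subgroup.card_mul_index K
  have e4 := Subgroup.card_mul_index N
  have hpos : 0 < Nat.card N := Nat.card_pos
  apply Nat.eq_of_mul_eq_mul_left hpos
  rw [e4, ← e3, ← h1, ← e2, ← e1]
  rw [e1]
  rw [mul_assoc, mul_comm (N.relIndex K), ← mul_assoc, e1]

theorem index_centralizer {r : ℕ} [hr : Fact r.Prime] {n : ℕ} (hnr : n + 1 < r) {χ : G → ℂ}
    (hχ : IsCharacter G χ) (hf : ∀ g, χ g = χ 1 → g = 1) (hn : χ 1 = n) {x : G} {k : ℕ}
    (hx : x ^ (r ^ k) = 1) : ¬ r ∣ (Subgroup.centralizer ({x} : Set G)).index := by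
  have h1 : IsPGroup r (Subgroup.zpowers x) := by
    intro y
    obtain ⟨i, hi⟩ := Subgroup.mem_zpowers_iff.mp y.2
    refine ⟨k, ?_⟩
    apply Subtype.ext
    rw [Subgroup.coe_pow, ← hi, ← zpow_natCast, ← zpow_mul, mul_comm, zpow_mul, zpow_natCast, hx,
      one_zpow]
    rfl
  obtain ⟨S, hS⟩ := h1.exists_le_sylow
  have h2 : (S : Subgroup G) ≤ Subgroup.centralizer ({x} : Set G) := by
    intro s hs
    rw [Subgroup.mem_centralizer_singleton_iff]
    exact abelian_of_small hχ hf hn (PiS_pgroup hr.out hnr S.isPGroup') s hs x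
      (hS (Subgroup.mem_zpowers x))
  intro h
  exact S.not_dvd_index (h.trans (Subgroup.index_dvd_of_le h2))

theorem isPGroup_zpowers {r k : ℕ} {x : G} (hx : x ^ (r ^ k) = 1) :
    IsPGroup r (Subgroup.zpowers x) := by
  intro y
  obtain ⟨i, hi⟩ := Subgroup.mem_zpowers_iff.mp y.2
  refine ⟨k, ?_⟩
  apply Subtype.ext
  rw [Subgroup.coe_pow, ← hi, ← zpow_natCast, ← zpow_mul, mul_comm, zpow_mul, zpow_natCast, hx,
    one_zpow]
  rfl

set_option maxHeartbeats 1000000 in
theorem blich (n : ℕ) (m : ℕ) : ∀ (G : Type u) [Group G] [Finite G] (χ : G → ℂ), IsCharacter G χ →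
    (∀ g, χ g = χ 1 → g = 1) → χ 1 = n → Nat.card G = m →
    ∃ A : Subgroup G, PiS n A ∧ ∀ q : ℕ, q.Prime → q ∣ A.index → q ≤ n + 1 := by
  classical
  induction m using Nat.strong_induction_on with
  | _ m ih =>
  intro G _ _ χ hχ hf hn hm
  haveI := Fintype.ofFinite G
  have hsub : ∀ C : Subgroup G, C ≠ ⊤ → ∃ B : Subgroup G, B ≤ C ∧ PiS n B ∧
      ∀ q : ℕ, q.Prime → q ∣ B.relIndex C → q ≤ n + 1 := by
    intro C hC
    have hlt : Nat.card C < m := by
      rw [← hm]
      exact lt_of_le_of_ne (Subgroup.card_le_card_group C)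
        (fun h => hC (Subgroup.eq_top_of_card_eq C h))
    obtain ⟨B, hB1, hB2⟩ := ih _ hlt C (fun c : C => χ c) (isCharacter_restrict hχ C)
      (fun c hc => Subtype.ext (hf c hc)) hn rfl
    refine ⟨B.map C.subtype, Subgroup.map_subtype_le B, ?_, ?_⟩
    · intro q hq hqd
      rw [Nat.card_congr (B.equivMapOfInjective C.subtype C.subtype_injective).symm.toEquiv] at hqd
      exact hB1 q hq hqd
    · intro q hq hqd
      apply hB2 q hq
      rwa [Subgroup.relIndex, Subgroup.subgroupOf,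
        Subgroup.comap_map_eq_self_of_injective C.subtype_injective] at hqd
  have habA : ∀ {A : Subgroup G}, PiS n A → ∀ x ∈ A, ∀ y ∈ A, x * y = y * x :=
    fun hA => abelian_of_small hχ hf hn hA
  by_contra hno
  obtain ⟨A, hA, hmax⟩ : ∃ A : Subgroup G, PiS n A ∧
      ∀ B : Subgroup G, PiS n B → Nat.card B ≤ Nat.card A := by
    have hfin : Set.Finite {A : Subgroup G | PiS n A} := Set.toFinite _
    obtain ⟨A, hA, hmax⟩ := Set.exists_max_image {A : Subgroup G | PiS n A}
      (fun A => Nat.card A) hfin ⟨⊥, by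
        intro q hq hqd
        rw [Subgroup.card_bot] at hqd
        exact (hq.one_lt.ne' (Nat.dvd_one.mp hqd)).elim⟩
    exact ⟨A, hA, fun B hB => hmax B hB⟩
  obtain ⟨q, hq, hqd, hnq⟩ : ∃ q : ℕ, q.Prime ∧ q ∣ A.index ∧ n + 1 < q := by
    by_contra h
    push Not at h
    exact hno ⟨A, hA, h⟩
  haveI hqF : Fact q.Prime := ⟨hq⟩
  obtain ⟨Q⟩ : Nonempty (Sylow q G) := inferInstance
  have hQpi : PiS n (Q : Subgroup G) := PiS_pgroup hq hnq Q.isPGroup'
  have hQA : ¬ (Q : Subgroup G) ≤ A := by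
    intro h
    exact Q.not_dvd_index (hqd.trans (Subgroup.index_dvd_of_le h))
  have hbig : ¬ PiS n (A ⊔ Q) := by
    intro h
    have h1 : Nat.card A < Nat.card (A ⊔ Q : Subgroup G) := by
      apply lt_of_le_of_ne (Subgroup.card_le_of_le le_sup_left)
      intro h2
      have h3 := Subgroup.eq_of_le_of_card_ge (le_sup_left : A ≤ A ⊔ (Q : Subgroup G)) h2.ge
      apply hQA
      rw [h3]
      exact le_sup_right
    exact absurd (hmax _ h) (not_le.mpr h1)
  have hcn : ∀ {B : Subgroup G}, B ≤ Subgroup.center G → B.Normal := by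
    intro B hB
    refine ⟨fun b hb g => ?_⟩
    have h1 := Subgroup.mem_center_iff.mp (hB hb) g
    rw [h1, mul_inv_cancel_right]
    exact hb
  have hAc : ¬ A ≤ Subgroup.center G := fun h => hbig (PiS_sup hA hQpi (hcn h))
  -- a noncentral `p`-element in `A`
  obtain ⟨p, hp, x, hxA, kx, hxp, hxc⟩ : ∃ p : ℕ, p.Prime ∧ ∃ x ∈ A, ∃ k : ℕ, x ^ (p ^ k) = 1 ∧
      x ∉ Subgroup.center G := by
    by_contra hcon
    push Not at hcon
    apply hAc
    have h1 : (Subgroup.center G).subgroupOf A = ⊤ := by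
      apply SolvFitting.eq_top_of_forall_sylow_le
      intro p hp
      obtain ⟨P⟩ : Nonempty (Sylow p A) := inferInstance
      refine ⟨P, ?_⟩
      intro y hy
      rw [Subgroup.mem_subgroupOf]
      obtain ⟨k, hk⟩ := P.isPGroup' ⟨y, hy⟩
      have hk1 : y ^ (p ^ k) = 1 := congrArg Subtype.val hk
      have hk2 : (y : G) ^ (p ^ k) = 1 := congrArg Subtype.val hk1
      exact hcon p hp.out y y.2 k hk2
    exact Subgroup.subgroupOf_eq_top.mp h1
  haveI hpF : Fact p.Prime := ⟨hp⟩
  have hx1 : x ≠ 1 := by rintro rfl; exact hxc (one_mem _)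
  have hpA : p ∣ Nat.card A := by
    have h1 : orderOf x ∣ p ^ kx := orderOf_dvd_of_pow_eq_one hxp
    obtain ⟨j, _, hj⟩ := (Nat.dvd_prime_pow hp).mp h1
    have hj0 : j ≠ 0 := by
      rintro rfl
      rw [pow_zero, orderOf_eq_one_iff] at hj
      exact hx1 hj
    have h2 : orderOf x ∣ Nat.card A := by
      have := orderOf_dvd_natCard (⟨x, hxA⟩ : A)
      rwa [← Subgroup.orderOf_coe] at this
    rw [hj] at h2
    exact (dvd_pow_self p hj0).trans h2
  have hnp : n + 1 < p := hA p hp hpA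
  have F1 : ∀ x ∈ A, x ∉ Subgroup.center G → ∀ r : ℕ, r.Prime →
      r ∣ A.relIndex (Subgroup.centralizer ({x} : Set G)) → r ≤ n + 1 := by
    intro x hxA hxc r hr hrd
    have hCt : Subgroup.centralizer ({x} : Set G) ≠ ⊤ := by
      intro h
      apply hxc
      rw [Subgroup.mem_center_iff]
      intro g
      have hg : g ∈ Subgroup.centralizer ({x} : Set G) := by rw [h]; trivial
      exact Subgroup.mem_centralizer_singleton_iff.mp hg
    have hAC : A ≤ Subgroup.centralizer ({x} : Set G) := by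
      intro a ha
      rw [Subgroup.mem_centralizer_singleton_iff]
      exact habA hA a ha x hxA
    obtain ⟨B, hBC, hB, hBi⟩ := hsub _ hCt
    obtain ⟨c, hc, hAB⟩ := wiel hBC hAC (habA hB) hB hBi hA
    have h1 : Nat.card A ≤ Nat.card B := by
      rw [← card_conj c B]
      exact Subgroup.card_le_of_le hAB
    have h2 : Nat.card A = Nat.card B := le_antisymm h1 (hmax B hB)
    have h3 : Nat.card A * A.relIndex (Subgroup.centralizer ({x} : Set G)) =
        Nat.card B * B.relIndex (Subgroup.centralizer ({x} : Set G)) := by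
      have h4 := Subgroup.card_mul_index (A.subgroupOf (Subgroup.centralizer ({x} : Set G)))
      have h5 := Subgroup.card_mul_index (B.subgroupOf (Subgroup.centralizer ({x} : Set G)))
      rw [Nat.card_congr (Subgroup.subgroupOfEquivOfLe hAC).toEquiv] at h4
      rw [Nat.card_congr (Subgroup.subgroupOfEquivOfLe hBC).toEquiv] at h5
      exact h4.trans h5.symm
    rw [h2] at h3
    have h4 := Nat.eq_of_mul_eq_mul_left Nat.card_pos h3
    rw [h4] at hrd
    exact hBi r hr hrd
  have F2 : ∀ x ∈ A, x ∉ Subgroup.center G → ∀ r : ℕ, r.Prime → n + 1 < r →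
      ∀ k : ℕ, x ^ (r ^ k) = 1 → ¬ r ∣ A.index := by
    intro x hxA hxc r hr hnr k hk hrd
    haveI : Fact r.Prime := ⟨hr⟩
    have hAC : A ≤ Subgroup.centralizer ({x} : Set G) := by
      intro a ha
      rw [Subgroup.mem_centralizer_singleton_iff]
      exact habA hA a ha x hxA
    rw [← Subgroup.relIndex_mul_index hAC] at hrd
    rcases hr.dvd_mul.mp hrd with h | h
    · have := F1 x hxA hxc r hr h
      omega
    · exact index_centralizer hnr hχ hf hn hk h
  have hpAi : ¬ p ∣ A.index := F2 x hxA hxc p hp hnp kx hxp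
  have hcconj : ∀ (g x : G), x ∉ Subgroup.center G → g⁻¹ * x * g ∉ Subgroup.center G := by
    intro g x hx h
    apply hx
    have h1 := (inferInstance : (Subgroup.center G).Normal).conj_mem _ h g
    have h2 : g * (g⁻¹ * x * g) * g⁻¹ = x := by group
    rwa [h2] at h1
  have C1 : ∀ (x' y : G) (k l : ℕ), x' ∉ Subgroup.center G → y ∉ Subgroup.center G →
      x' ^ (p ^ k) = 1 → y ^ (q ^ l) = 1 → x' * y = y * x' → False := by
    intro x' y k l hx' hy hxk hyl hxy
    obtain ⟨P⟩ : Nonempty (Sylow p A) := inferInstance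
    set P' := (P : Subgroup A).map A.subtype with hP'
    have hPA : P' ≤ A := Subgroup.map_subtype_le _
    have hPg : IsPGroup p P' := P.isPGroup'.map _
    have hPi : ¬ p ∣ P'.index := by
      rw [← Subgroup.relIndex_mul_index hPA]
      intro h
      rcases hp.dvd_mul.mp h with h | h
      · rw [Subgroup.relIndex, hP', Subgroup.subgroupOf,
          Subgroup.comap_map_eq_self_of_injective A.subtype_injective] at h
        exact P.not_dvd_index h
      · exact hpAi h
    obtain ⟨g, hg⟩ := Cfsg.Agent.S0581.result P' (Subgroup.zpowers x') hPg.isNilpotent (by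
      obtain ⟨a, ha⟩ := IsPGroup.iff_card.mp hPg
      rw [ha]
      exact Nat.Coprime.pow_left _ ((Nat.Prime.coprime_iff_not_dvd hp).mpr hPi)) (by
      intro r hr hrd
      obtain ⟨a, ha⟩ := IsPGroup.iff_card.mp (isPGroup_zpowers hxk)
      rw [ha] at hrd
      have h1 : r = p := (Nat.prime_dvd_prime_iff_eq hr hp).mp (hr.dvd_of_dvd_pow hrd)
      subst h1
      have h2 : r ∣ Nat.card G := hpA.trans (Subgroup.card_subgroup_dvd_card A)
      rw [← Subgroup.card_mul_index P'] at h2
      exact (hp.dvd_mul.mp h2).resolve_right hPi)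
    have h1 : g⁻¹ * x' * g ∈ A := by
      have h2 := hg (Subgroup.mem_zpowers x')
      rw [Subgroup.mem_pointwise_smul_iff_inv_smul_mem] at h2
      apply hPA
      have h3 : (MulAut.conj g)⁻¹ • x' = g⁻¹ * x' * g := by
        rw [← map_inv, MulAut.smul_def, MulAut.conj_apply, inv_inv]
      rwa [h3] at h2
    have h2 := hcconj g x' hx'
    have h3 := F1 _ h1 h2
    have hyC : Subgroup.zpowers (g⁻¹ * y * g) ≤
        Subgroup.centralizer ({g⁻¹ * x' * g} : Set G) := by
      rw [Subgroup.zpowers_le, Subgroup.mem_centralizer_singleton_iff]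
      have e1 : g⁻¹ * y * g * (g⁻¹ * x' * g) = g⁻¹ * (y * x') * g := by group
      have e2 : g⁻¹ * x' * g * (g⁻¹ * y * g) = g⁻¹ * (x' * y) * g := by group
      rw [e1, e2, hxy]
    have hAC : A ≤ Subgroup.centralizer ({g⁻¹ * x' * g} : Set G) := by
      intro a ha
      rw [Subgroup.mem_centralizer_singleton_iff]
      exact habA hA a ha _ h1
    have hyl' : (g⁻¹ * y * g) ^ (q ^ l) = 1 := by
      have : g⁻¹ * y * g = g⁻¹ * y * (g⁻¹)⁻¹ := by rw [inv_inv]
      rw [this, conj_pow, hyl, mul_one, mul_inv_cancel]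
    obtain ⟨c, hc, hcA⟩ := wiel hAC hyC (habA hA) hA h3
      (PiS_pgroup hq hnq (isPGroup_zpowers hyl'))
    have h4 : c⁻¹ * (g⁻¹ * y * g) * c ∈ A := by
      have h5 := hcA (Subgroup.mem_zpowers _)
      rw [Subgroup.mem_pointwise_smul_iff_inv_smul_mem] at h5
      have h6 : (MulAut.conj c)⁻¹ • (g⁻¹ * y * g) = c⁻¹ * (g⁻¹ * y * g) * c := by
        rw [← map_inv, MulAut.smul_def, MulAut.conj_apply, inv_inv]
      rwa [h6] at h5
    refine F2 _ h4 (hcconj c _ (hcconj g y hy)) q hq hnq l ?_ hqd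
    have : c⁻¹ * (g⁻¹ * y * g) * c = c⁻¹ * (g⁻¹ * y * g) * (c⁻¹)⁻¹ := by rw [inv_inv]
    rw [this, conj_pow, hyl', mul_one, mul_inv_cancel]
  -- central elements
  have hZ : ∀ r : ℕ, r.Prime → n + 1 < r → ¬ r ∣ Nat.card (Subgroup.center G) := by
    intro r hr hnr hrd
    haveI : Fact r.Prime := ⟨hr⟩
    obtain ⟨R⟩ : Nonempty (Sylow r G) := inferInstance
    have hRpi : PiS n (R : Subgroup G) := PiS_pgroup hr hnr R.isPGroup'
    obtain ⟨K, hKn, hKt, hKi⟩ := exists_normal_index R (habA hRpi) hrd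
    obtain ⟨A0, hA0K, hA0, hA0i⟩ := hsub K hKt
    have hfr : K ⊔ Subgroup.normalizer (A0 : Set G) = ⊤ := by
      rw [eq_top_iff]
      intro g _
      have h1 : (MulAut.conj g • A0 : Subgroup G) ≤ K := by
        intro y hy
        rw [Subgroup.mem_pointwise_smul_iff_inv_smul_mem] at hy
        have h3 : (MulAut.conj g)⁻¹ • y = g⁻¹ * y * g := by
          rw [← map_inv, MulAut.smul_def, MulAut.conj_apply, inv_inv]
        rw [h3] at hy
        have h4 := hKn.conj_mem _ (hA0K hy) g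
        have h5 : g * (g⁻¹ * y * g) * g⁻¹ = y := by group
        rwa [h5] at h4
      obtain ⟨c, hc, hcA⟩ := wiel hA0K h1 (habA hA0) hA0 hA0i (by
        intro s hs hsd
        rw [card_conj] at hsd
        exact hA0 s hs hsd)
      have h2 : (MulAut.conj g • A0 : Subgroup G) = MulAut.conj c • A0 :=
        Subgroup.eq_of_le_of_card_ge hcA (by rw [card_conj, card_conj])
      have h3 : c⁻¹ * g ∈ Subgroup.normalizer (A0 : Set G) := by
        rw [Subgroup.mem_normalizer_iff]
        intro y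
        have h4 : g * y * g⁻¹ ∈ (MulAut.conj g • A0 : Subgroup G) ↔ y ∈ A0 := by
          rw [Subgroup.mem_pointwise_smul_iff_inv_smul_mem]
          have h5 : (MulAut.conj g)⁻¹ • (g * y * g⁻¹) = y := by
            rw [← map_inv, MulAut.smul_def, MulAut.conj_apply, inv_inv]; group
          rw [h5]
        rw [← h4, h2, Subgroup.mem_pointwise_smul_iff_inv_smul_mem]
        have h5 : (MulAut.conj c)⁻¹ • (g * y * g⁻¹) = c⁻¹ * g * y * (c⁻¹ * g)⁻¹ := by
          rw [← map_inv, MulAut.smul_def, MulAut.conj_apply, inv_inv]; group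
        rw [h5]
      have h6 := Subgroup.mul_mem_sup hc h3
      rwa [mul_inv_cancel_left] at h6
    by_cases hNt : Subgroup.normalizer (A0 : Set G) = ⊤
    · have hA0n : A0.Normal := Subgroup.normalizer_eq_top_iff.mp hNt
      apply hno
      refine ⟨A0 ⊔ R, PiS_sup hA0 hRpi hA0n, ?_⟩
      intro s hs hsd
      have h1 : (A0 ⊔ (R : Subgroup G)).index ∣ A0.relIndex K * K.index := by
        rw [Subgroup.relIndex_mul_index hA0K]
        exact Subgroup.index_dvd_of_le le_sup_left
      rcases hs.dvd_mul.mp (hsd.trans h1) with h2 | h2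
      · exact hA0i s hs h2
      · exfalso
        have h3 := hKi s hs h2
        subst h3
        exact R.not_dvd_index (hsd.trans (Subgroup.index_dvd_of_le le_sup_right))
    · obtain ⟨B, hBN, hB, hBi⟩ := hsub _ hNt
      apply hno
      refine ⟨B, hB, ?_⟩
      intro s hs hsd
      rw [← Subgroup.relIndex_mul_index hBN, index_of_sup hfr] at hsd
      rcases hs.dvd_mul.mp hsd with h2 | h2
      · exact hBi s hs h2
      · exact hA0i s hs (h2.trans (Subgroup.relIndex_dvd_of_le_left K Subgroup.le_normalizer))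
  have hnc : ∀ (r : ℕ), r.Prime → n + 1 < r → ∀ z : G, orderOf z = r → z ∉ Subgroup.center G := by
    intro r hr hnr z hz h
    apply hZ r hr hnr
    have := orderOf_dvd_natCard (⟨z, h⟩ : Subgroup.center G)
    rwa [← Subgroup.orderOf_coe, hz] at this
  have hnopq : ∀ g : G, ¬ (p ∣ orderOf g ∧ q ∣ orderOf g) := by
    rintro g ⟨h1, h2⟩
    have e1 : orderOf (g ^ (orderOf g / p)) = p := by
      rw [orderOf_pow_of_dvd (Nat.div_pos (Nat.le_of_dvd (orderOf_pos g) h1) hp.pos).ne'
        (Nat.div_dvd_of_dvd h1), Nat.div_div_self h1 (orderOf_pos g).ne']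
    have e2 : orderOf (g ^ (orderOf g / q)) = q := by
      rw [orderOf_pow_of_dvd (Nat.div_pos (Nat.le_of_dvd (orderOf_pos g) h2) hq.pos).ne'
        (Nat.div_dvd_of_dvd h2), Nat.div_div_self h2 (orderOf_pos g).ne']
    refine C1 _ _ 1 1 (hnc p hp hnp _ e1) (hnc q hq hnq _ e2) ?_ ?_ ?_
    · rw [pow_one]
      exact (congrArg (fun t => (g ^ (orderOf g / p)) ^ t) e1).symm.trans (pow_orderOf_eq_one _)
    · rw [pow_one]
      exact (congrArg (fun t => (g ^ (orderOf g / q)) ^ t) e2).symm.trans (pow_orderOf_eq_one _)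
    · rw [← pow_add, ← pow_add, add_comm]
  obtain ⟨k, hk1, hk2, hk3⟩ := exists_k q (N := Nat.card G) Nat.card_pos.ne'
  obtain ⟨l, hl1, hl2, hl3⟩ := exists_k p (N := Nat.card G) Nat.card_pos.ne'
  have hkr : ∀ g : G, ¬ q ∣ orderOf g → g ^ k = g := by
    intro g hg
    have h1 := hk2 _ (orderOf_dvd_natCard g) hg
    rw [← pow_eq_pow_iff_modEq, pow_one] at h1
    exact h1
  have hlr : ∀ g : G, ¬ p ∣ orderOf g → g ^ l = g := by
    intro g hg
    have h1 := hl2 _ (orderOf_dvd_natCard g) hg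
    rw [← pow_eq_pow_iff_modEq, pow_one] at h1
    exact h1
  obtain ⟨x0, hx0⟩ := exists_prime_orderOf_dvd_card' p
    (hpA.trans (Subgroup.card_subgroup_dvd_card A))
  obtain ⟨y0, hy0⟩ := exists_prime_orderOf_dvd_card' q
    (hqd.trans (Subgroup.index_dvd_card A))
  have hx0p : x0 ^ (p ^ 1) = 1 := by rw [pow_one, ← hx0]; exact pow_orderOf_eq_one _
  have hy0p : y0 ^ (q ^ 1) = 1 := by rw [pow_one, ← hy0]; exact pow_orderOf_eq_one _
  refine C1 x0 y0 1 1 (hnc p hp hnp _ hx0) (hnc q hq hnq _ hy0) hx0p hy0p ?_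
  have h1 : χ (x0 * y0 * x0⁻¹ * y0⁻¹) = χ 1 := by
    apply ker_of_constituents hχ
    intro ψ hψ
    have h2 : charDegree (ψ : G → ℂ) ≤ n := constituent_degree_le hχ hn hψ
    obtain ⟨K, hKn, hK⟩ := exists_kernel (irr_isCharacter ψ.2)
    rw [← hK]
    rcases sep ψ.2 hnopq hk1 hl1 hkr hlr with h3 | h3
    · have h4 := q_elements_ker (irr_isCharacter ψ.2) (CharInt.irr_one_eq_charDegree ψ.2)
        (by omega) hk3 h3 1 y0 hy0p
      have h5 : y0 ∈ K := (hK _).mpr h4
      exact K.mul_mem (hKn.conj_mem _ h5 x0) (K.inv_mem h5)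
    · have h4 := q_elements_ker (irr_isCharacter ψ.2) (CharInt.irr_one_eq_charDegree ψ.2)
        (by omega) hl3 h3 1 x0 hx0p
      have h5 : x0 ∈ K := (hK _).mpr h4
      have h6 : x0 * y0 * x0⁻¹ * y0⁻¹ = x0 * (y0 * x0⁻¹ * y0⁻¹) := by group
      rw [h6]
      exact K.mul_mem h5 (hKn.conj_mem _ (K.inv_mem h5) y0)
  have h2 : x0 * y0 * x0⁻¹ * y0⁻¹ = 1 := hf _ h1
  rw [mul_inv_eq_one, mul_inv_eq_iff_eq_mul] at h2
  exact h2

/-- S4465 -/
theorem blichfeldt {χ : G → ℂ} (hχ : IsCharacter G χ) (hf : ∀ g, χ g = χ 1 → g = 1) {n : ℕ}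
    (hn : χ 1 = n) : ∃ A : Subgroup G, (∀ x ∈ A, ∀ y ∈ A, x * y = y * x) ∧ PiS n A ∧
      ∀ q : ℕ, q.Prime → q ∣ A.index → q ≤ n + 1 := by
  obtain ⟨A, hA, hAi⟩ := blich n _ G χ hχ hf hn rfl
  exact ⟨A, abelian_of_small hχ hf hn hA, hA, hAi⟩

end CfsgLib.Nt
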