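import Mathlib
import Cfsg.Agent.EqBase
import Cfsg.Agent.LibNt7
import Cfsg.Agent.LibBlich19
import Cfsg.Agent.S0176

/-!
# Jordan's theorem: S4469 (helper17)
-/

set_option autoImplicit false
set_option linter.unusedSectionVars false
set_option linter.style.haveILetI false
set_option linter.unusedSimpArgs false

namespace CfsgLib.Nt

open Cfsg CfsgLib.CharBasic CfsgLib.CharIndA CfsgLib.Quot19 CfsgLib.CharMore CfsgLib.Clifford
open scoped ComplexConjugate Pointwise

universe u v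

variable {G : Type u} [Group G] [Fintype G]

theorem core_index_dvd (H : Subgroup G) : H.normalCore.index ∣ (H.index).factorial := by
  classical
  rw [Subgroup.normalCore_eq_ker, Subgroup.index_ker]
  have h1 := Subgroup.card_subgroup_dvd_card (MulAction.toPermHom G (G ⧸ H)).range
  haveI : Fintype (G ⧸ H) := Fintype.ofFinite _
  rw [Nat.card_perm] at h1
  exact h1

theorem index_inf_dvd (A C : Subgroup G) [A.Normal] [C.Normal] : (A ⊓ C).index ∣ A.index * C.index := by
  rw [← Subgroup.relIndex_mul_index (inf_le_right : A ⊓ C ≤ C), Subgroup.inf_relIndex_right]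
  exact Nat.mul_dvd_mul_right (Subgroup.relIndex_dvd_index_of_normal A C) _

theorem nilp_aux [Group.IsNilpotent G] (l : Multiset (G → ℂ)) (hl : ∀ ψ ∈ l, IsIrrCharacter G ψ) :
    ∃ A : Subgroup G, A.Normal ∧ ∃ m : ℕ, l.sum 1 = m ∧ A.index ∣ m.factorial ∧
      ∀ ψ ∈ l, ∀ a ∈ A, ∀ b ∈ A, ψ (a * b * a⁻¹ * b⁻¹) = ψ 1 := by
  classical
  induction l using Multiset.induction_on with
  | empty =>
    refine ⟨⊤, inferInstance, 0, by simp, by simp, ?_⟩
    intro ψ hψ
    simp at hψ
  | cons ψ l ih =>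
    obtain ⟨A, hA, m, hm, hAm, hAl⟩ := ih (fun φ hφ => hl φ (Multiset.mem_cons_of_mem hφ))
    obtain ⟨H, lam, hψ⟩ := Cfsg.Agent.S0176.result ψ (hl ψ (Multiset.mem_cons_self ψ l))
    have h1 : ψ 1 = (H.index : ℂ) := by
      rw [hψ, ind_one]; simp
    refine ⟨A ⊓ H.normalCore, inferInstance, m + H.index, ?_, ?_, ?_⟩
    · rw [Multiset.sum_cons, Pi.add_apply, hm, h1, Nat.cast_add, add_comm]
    · refine (index_inf_dvd A H.normalCore).trans ?_
      exact (Nat.mul_dvd_mul hAm (core_index_dvd H)).trans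
        (Nat.factorial_mul_factorial_dvd_factorial_add m H.index)
    · intro φ hφ a ha b hb
      rcases Multiset.mem_cons.mp hφ with h2 | h2
      · subst h2
        rw [hψ, ind_apply, ind_apply]
        congr 1
        refine Finset.sum_congr rfl fun y _ => ?_
        have ha' : y⁻¹ * a * y ∈ H := by
          have := ha.2 y⁻¹
          rwa [inv_inv] at this
        have hb' : y⁻¹ * b * y ∈ H := by
          have := hb.2 y⁻¹
          rwa [inv_inv] at this
        have h3 : y⁻¹ * (a * b * a⁻¹ * b⁻¹) * y =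
            (y⁻¹ * a * y) * (y⁻¹ * b * y) * (y⁻¹ * a * y)⁻¹ * (y⁻¹ * b * y)⁻¹ := by group
        have h4 : y⁻¹ * (a * b * a⁻¹ * b⁻¹) * y ∈ H := by
          rw [h3]
          exact H.mul_mem (H.mul_mem (H.mul_mem ha' hb') (H.inv_mem ha')) (H.inv_mem hb')
        have h5 : y⁻¹ * 1 * y ∈ H := by rw [mul_one, inv_mul_cancel]; exact H.one_mem
        rw [ext_mem H _ h4, ext_mem H _ h5]
        have h6 : (⟨_, h4⟩ : H) = ⟨_, ha'⟩ * ⟨_, hb'⟩ * ⟨_, ha'⟩⁻¹ * ⟨_, hb'⟩⁻¹ := Subtype.ext h3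
        have h7 : (⟨_, h5⟩ : H) = 1 := Subtype.ext (by
          change y⁻¹ * 1 * y = 1
          rw [mul_one, inv_mul_cancel])
        rw [h6, h7, map_mul, map_mul, map_mul, map_inv, map_inv, map_one,
          mul_comm (lam ⟨_, ha'⟩), mul_inv_cancel_right, mul_inv_cancel]
      · exact hAl φ h2 a ha.1 b hb.1

/-- nilpotent linear groups -/
theorem nilp_abelian [Group.IsNilpotent G] {χ : G → ℂ} (hχ : IsCharacter G χ)
    (hf : ∀ g, χ g = χ 1 → g = 1) {n : ℕ} (hn : χ 1 = n) :
    ∃ A : Subgroup G, (∀ x ∈ A, ∀ y ∈ A, x * y = y * x) ∧ A.index ∣ n.factorial := by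
  obtain ⟨l, hl, hsum⟩ := exists_decomp hχ
  obtain ⟨A, _, m, hm, hAm, hAl⟩ := nilp_aux l hl
  have hmn : m = n := by
    rw [← hsum, hn] at hm
    exact_mod_cast hm.symm
  subst hmn
  refine ⟨A, ?_, hAm⟩
  intro x hx y hy
  have h1 : χ (x * y * x⁻¹ * y⁻¹) = χ 1 := by
    have h2 : ∀ (l : Multiset (G → ℂ)) (g : G), l.sum g = (l.map (fun ψ => ψ g)).sum := by
      intro l g
      induction l using Multiset.induction_on with
      | empty => simp
      | cons a s ih => rw [Multiset.sum_cons, Pi.add_apply, ih, Multiset.map_cons, Multiset.sum_cons]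
    rw [hsum, h2, h2]
    congr 1
    apply Multiset.map_congr rfl
    intro ψ hψ
    exact hAl ψ hψ x hx y hy
  have h2 : x * y * x⁻¹ * y⁻¹ = 1 := hf _ h1
  rw [mul_inv_eq_one, mul_inv_eq_iff_eq_mul] at h2
  exact h2

end CfsgLib.Nt
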