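import Mathlib
import Cfsg.Agent.EqBase
import Cfsg.Agent.LibNt8

/-!
# Jordan's theorem: S4469 (helper17)
-/

set_option autoImplicit false
set_option linter.unusedSectionVars false
set_option linter.style.haveILetI false
set_option linter.unusedSimpArgs false

namespace CfsgLib.Nt

open Cfsg CfsgLib.CharBasic CfsgLib.CharIndA CfsgLib.Quot19 CfsgLib.CharMore CfsgLib.Clifford
open scoped ComplexConjugate Pointwise

universe u v

variable {G : Type u} [Group G] [Fintype G]

theorem index_eq_mul (A H : Subgroup G) [A.Normal] : A.index = A.relIndex H * (A ⊔ H).index := by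
  have h1 : A.relIndex (H ⊔ A) = A.relIndex H := Subgroup.relIndex_sup_right H A
  rw [← Subgroup.relIndex_mul_index (le_sup_left : A ≤ A ⊔ H), sup_comm A H, h1]

theorem prod_part_le (m : ℕ) (hm : m ≠ 0) (S : Finset ℕ) (hS : ∀ p ∈ S, p.Prime) :
    ∏ p ∈ S, p ^ m.factorization p ≤ m := by
  classical
  have h1 : ∏ p ∈ S ∪ m.primeFactors, p ^ m.factorization p = m := by
    have h2 := Nat.prod_factorization_pow_eq_self hm
    rw [Finsupp.prod, Nat.support_factorization] at h2
    rw [← Finset.prod_subset (Finset.subset_union_right (s₁ := S) (s₂ := m.primeFactors)), h2]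
    intro p _ hp
    rw [← Nat.support_factorization, Finsupp.notMem_support_iff] at hp
    rw [hp, pow_zero]
  calc ∏ p ∈ S, p ^ m.factorization p ≤ ∏ p ∈ S ∪ m.primeFactors, p ^ m.factorization p := by
        apply Finset.prod_le_prod_of_subset_of_one_le' Finset.subset_union_left
        intro p hp _
        apply Nat.one_le_pow
        rcases Finset.mem_union.mp hp with h | h
        · exact (hS p h).pos
        · exact Nat.pos_of_mem_primeFactors h
    _ = m := h1

theorem jordan_arith (n I : ℕ) (hI : I ≠ 0)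
    (h1 : ∀ p : ℕ, p.Prime → p ≤ n + 1 →
      p ^ I.factorization p ≤ 12 ^ n * p ^ n.factorial.factorization p)
    (h2 : ∏ p ∈ I.primeFactors.filter (fun p => n + 1 < p), p ^ I.factorization p ≤ 12 ^ n) :
    I ≤ n.factorial * 12 ^ (n * (Nat.primeCounting (n + 1) + 1)) := by
  classical
  set S1 := I.primeFactors.filter (fun p => ¬ n + 1 < p) with hS1
  have e1 : (∏ p ∈ I.primeFactors.filter (fun p => n + 1 < p), p ^ I.factorization p) *
      ∏ p ∈ S1, p ^ I.factorization p = I := by
    rw [hS1, Finset.prod_filter_mul_prod_filter_not]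
    have h3 := Nat.prod_factorization_pow_eq_self hI
    rwa [Finsupp.prod, Nat.support_factorization] at h3
  have hpr : ∀ p ∈ S1, p.Prime ∧ p ≤ n + 1 := by
    intro p hp
    obtain ⟨h3, h4⟩ := Finset.mem_filter.mp hp
    exact ⟨Nat.prime_of_mem_primeFactors h3, not_lt.mp h4⟩
  have e2 : ∏ p ∈ S1, p ^ I.factorization p ≤
      12 ^ (n * Nat.primeCounting (n + 1)) * n.factorial := by
    calc ∏ p ∈ S1, p ^ I.factorization p
        ≤ ∏ p ∈ S1, (12 ^ n * p ^ n.factorial.factorization p) :=
          Finset.prod_le_prod (fun _ _ => Nat.zero_le _) fun p hp => h1 p (hpr p hp).1 (hpr p hp).2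
      _ = (12 ^ n) ^ S1.card * ∏ p ∈ S1, p ^ n.factorial.factorization p := by
          rw [Finset.prod_mul_distrib, Finset.prod_const]
      _ ≤ 12 ^ (n * Nat.primeCounting (n + 1)) * n.factorial := by
          apply Nat.mul_le_mul
          · rw [← pow_mul]
            apply Nat.pow_le_pow_right (by norm_num)
            apply Nat.mul_le_mul_left
            rw [Nat.primeCounting, Nat.primeCounting', Nat.count_eq_card_filter_range]
            apply Finset.card_le_card
            intro p hp
            rw [Finset.mem_filter, Finset.mem_range]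
            exact ⟨by have := (hpr p hp).2; omega, (hpr p hp).1⟩
          · exact prod_part_le _ (Nat.factorial_ne_zero n) S1 (fun p hp => (hpr p hp).1)
  rw [← e1]
  calc _ ≤ 12 ^ n * (12 ^ (n * Nat.primeCounting (n + 1)) * n.factorial) := Nat.mul_le_mul h2 e2
    _ = n.factorial * 12 ^ (n * (Nat.primeCounting (n + 1) + 1)) := by
        rw [Nat.mul_add, mul_one, pow_add]; ring

/-- S4469 -/
theorem jordan {χ : G → ℂ} (hχ : IsCharacter G χ) (hf : ∀ g, χ g = χ 1 → g = 1) {n : ℕ}
    (hn : charDegree χ = n) :
    ∃ A : Subgroup G, A.Normal ∧ (∀ x ∈ A, ∀ y ∈ A, x * y = y * x) ∧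
      A.index ≤ n.factorial * 12 ^ (n * (Nat.primeCounting (n + 1) + 1)) := by
  classical
  have hn' : χ 1 = n := (CharInt.char_one_eq_charDegree hχ).trans (congrArg _ hn)
  obtain ⟨A, hAn, hAab, hA⟩ := Blich19.char_main hχ hf hn
  refine ⟨A, hAn, hAab, ?_⟩
  have hI : A.index ≠ 0 := Subgroup.index_ne_zero_of_finite
  apply jordan_arith n A.index hI
  · intro p hp hpn
    haveI : Fact p.Prime := ⟨hp⟩
    obtain ⟨P⟩ : Nonempty (Sylow p G) := inferInstance
    haveI : Fintype (P : Subgroup G) := Fintype.ofFinite _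
    haveI : Group.IsNilpotent (P : Subgroup G) := P.isPGroup'.isNilpotent
    obtain ⟨B, hBab, hBi⟩ := nilp_abelian (G := (P : Subgroup G)) (isCharacter_restrict hχ (P : Subgroup G))
      (fun g hg => Subtype.ext (hf _ hg)) hn'
    set B' := B.map (P : Subgroup G).subtype with hB'
    have hB'P : B' ≤ (P : Subgroup G) := Subgroup.map_subtype_le _
    have hB'ab : ∀ x ∈ B', ∀ y ∈ B', x * y = y * x := by
      rintro _ ⟨x, hx, rfl⟩ _ ⟨y, hy, rfl⟩
      exact congrArg Subtype.val (hBab x hx y hy)
    have hB'i : B'.relIndex (P : Subgroup G) = B.index := by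
      rw [Subgroup.relIndex, hB', Subgroup.subgroupOf,
        Subgroup.comap_map_eq_self_of_injective (P : Subgroup G).subtype_injective]
    -- the index of `B` is a power of `p`
    have hBp : B.index ∣ p ^ n.factorial.factorization p := by
      obtain ⟨k, hk⟩ := IsPGroup.iff_card.mp P.isPGroup'
      have h1 : B.index ∣ p ^ k := hk ▸ Subgroup.index_dvd_card B
      obtain ⟨j, _, hj⟩ := (Nat.dvd_prime_pow hp).mp h1
      rw [hj] at hBi ⊢
      exact pow_dvd_pow p ((hp.pow_dvd_iff_le_factorization (Nat.factorial_ne_zero n)).mp hBi)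
    have h1 : A.relIndex (P : Subgroup G) ≤ 12 ^ n * p ^ n.factorial.factorization p := by
      have h2 : A.relIndex (P : Subgroup G) ≤ (A ⊓ B').relIndex (P : Subgroup G) := by
        apply Nat.le_of_dvd
        · exact Nat.pos_of_ne_zero (Subgroup.index_ne_zero_of_finite)
        · exact Subgroup.relIndex_dvd_of_le_left _ inf_le_left
      have h3 : (A ⊓ B').relIndex (P : Subgroup G) = A.relIndex B' * B'.relIndex (P : Subgroup G) := by
        rw [← Subgroup.relIndex_mul_relIndex _ _ _ (inf_le_right : A ⊓ B' ≤ B') hB'P,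
          Subgroup.inf_relIndex_right]
      rw [h3] at h2
      refine h2.trans (Nat.mul_le_mul (hA B' hB'ab) ?_)
      rw [hB'i]
      exact Nat.le_of_dvd (pow_pos hp.pos _) hBp
    refine le_trans ?_ h1
    apply Nat.le_of_dvd (Nat.pos_of_ne_zero (Subgroup.index_ne_zero_of_finite))
    have h2 : p ^ A.index.factorization p ∣ A.relIndex (P : Subgroup G) * (A ⊔ P).index := by
      rw [← index_eq_mul]
      exact Nat.ordProj_dvd _ _
    refine Nat.Coprime.dvd_of_dvd_mul_right ?_ h2
    apply Nat.Coprime.pow_left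
    rw [hp.coprime_iff_not_dvd]
    intro h
    exact P.not_dvd_index (h.trans (Subgroup.index_dvd_of_le le_sup_right))
  · obtain ⟨H, hHab, hH, hHi⟩ := blichfeldt hχ hf hn'
    refine le_trans ?_ (hA H hHab)
    apply Nat.le_of_dvd (Nat.pos_of_ne_zero (Subgroup.index_ne_zero_of_finite))
    change _ ∣ A.relIndex H
    have h2 : (∏ p ∈ A.index.primeFactors.filter (fun p => n + 1 < p), p ^ A.index.factorization p) ∣
        A.relIndex H * (A ⊔ H).index := by
      rw [← index_eq_mul]
      have h3 := Nat.prod_factorization_pow_eq_self hI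
      rw [Finsupp.prod, Nat.support_factorization] at h3
      conv_rhs => rw [← h3]
      exact Finset.prod_dvd_prod_of_subset _ _ _ (Finset.filter_subset _ _)
    refine Nat.Coprime.dvd_of_dvd_mul_right ?_ h2
    apply Nat.Coprime.prod_left
    intro p hp
    apply Nat.Coprime.pow_left
    obtain ⟨h3, h4⟩ := Finset.mem_filter.mp hp
    have hpp := Nat.prime_of_mem_primeFactors h3
    rw [hpp.coprime_iff_not_dvd]
    intro h
    have h5 := hHi p hpp (h.trans (Subgroup.index_dvd_of_le le_sup_right))
    omega

end CfsgLib.Nt
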