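import Mathlib
import Cfsg.Agent.LibOI0
import Cfsg.Agent.LibF4C1

set_option autoImplicit false
set_option linter.all false

/-! involutions of Chevalley groups in odd characteristic, 1 (seat helper23) -/

namespace CfsgLib.OI

open Cfsg.Lie Matrix CfsgLib.Chev CfsgLib.Chev.Good3 CfsgLib.SL2P

section sl2
variable {F : Type*} [Field F]

theorem sl_sq (h2 : (2 : F) ≠ 0) {d : F} (hd : d ≠ 0) :
    xx (2 * d)⁻¹ * yy (-d) * xx d⁻¹ * yy (-(d / 2)) = xx d⁻¹ * yy (-(d⁻¹)⁻¹) * xx d⁻¹ := by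
  apply ext2 <;> simp only [m00, m01, m10, m11, x00, x01, x10, x11, y00, y01, y10, y11] <;> field_simp <;> ring

theorem sl_tog {b c z e : F} (h : b * (1 - c * z ^ 2) = 1) (he : b * e = 1) :
    xx (-(b * z)) * yy (-(c * z)) * xx z * yy (b * (c * z)) * (xx 1 * yy (-1) * xx 1) = xx b * yy (-e) * xx b := by
  have he' : e = 1 - c * z ^ 2 := by
    have : e = (b * (1 - c * z ^ 2)) * e := by rw [h, one_mul]
    linear_combination this + (1 - c * z ^ 2) * he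
  subst he'
  apply ext2 <;> simp only [m00, m01, m10, m11, x00, x01, x10, x11, y00, y01, y10, y11]
  all_goals first
    | linear_combination (1 + z) * h
    | linear_combination (b * (1 - c * z ^ 2) - 1) * h
    | linear_combination (1 + c * z) * h
    | linear_combination (0 : F) * h
    | linear_combination (-(1 + z)) * h
    | linear_combination (-(1 + c * z)) * h
    | linear_combination (b - 1) * h
    | linear_combination h
    | linear_combination -h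

end sl2

section
variable {D : ChevalleyDatum} {T : Tb} (g : Good3 D T) {F : Type*} [Field F]

include g in
/-- every involution is conjugate into N -/
theorem invol_N [Fintype F] (hodd : Odd (Fintype.card F)) {t : GL D.Idx F} (ht : t ∈ D.group F) (h2 : t * t = 1) :
    ∃ c ∈ D.group F, ∃ n ∈ D.monomialSubgroup F, c * t * c⁻¹ = n ∧ n * n = 1 := by
  obtain ⟨b, hb, n0, hn0, u, hu, rfl⟩ := g.bruhat ht
  obtain ⟨u1, hu1, h1, hh1, e1⟩ := g.mem_B.1 (Subgroup.mul_mem _ (U_le_B hu) hb)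
  have hn1 : h1 * n0 ∈ D.monomialSubgroup F := Subgroup.mul_mem _ (H_le_N hh1) hn0
  have hG : u ∈ D.group F := g.U_le_G hu
  obtain ⟨w, hw, h, hh, e2⟩ := g.mem_N.1 hn1
  set n1 := h1 * n0 with hn1d
  have et : u * (b * n0 * u) * u⁻¹ = u1 * n1 := by
    have : u * (b * n0 * u) * u⁻¹ = (u * b) * n0 := by group
    rw [this, e1, hn1d]; group
  have e : u1 * n1 * (u1 * n1) = 1 := by
    rw [← et]
    have : u * (b * n0 * u) * u⁻¹ * (u * (b * n0 * u) * u⁻¹) = u * ((b * n0 * u) * (b * n0 * u)) * u⁻¹ := by group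
    rw [this, h2]; group
  have hz : n1 * n1 ∈ D.diagonalSubgroup F := by
    have e3 : n1 = u1⁻¹ * n1⁻¹ * u1⁻¹ := by
      have : u1⁻¹ * n1⁻¹ * u1⁻¹ = u1⁻¹ * n1⁻¹ * u1⁻¹ * (u1 * n1 * (u1 * n1)) := by rw [e, mul_one]
      rw [this]; group
    have := g.bruhat_uniq (Subgroup.inv_mem _ hn1) hn1 (U_le_B (Subgroup.inv_mem _ hu1)) (U_le_B (Subgroup.inv_mem _ hu1)) e3
    rwa [inv_inv] at this
  obtain ⟨a, ha, ha', c, hc, e4⟩ := g.Um_decomp (F := F) _ w rfl hw u1 hu1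
  have hk : g.nw w * h * (g.nw w)⁻¹ ∈ D.diagonalSubgroup F := g.nw_H hw hh
  have hconj : ∀ y : GL D.Idx F, n1 * y * n1⁻¹ = (g.nw w * h * (g.nw w)⁻¹) * (g.nw w * y * (g.nw w)⁻¹) * (g.nw w * h * (g.nw w)⁻¹)⁻¹ := by
    intro y
    rw [e2]; group
  have hcV : n1 * c * n1⁻¹ ∈ D.negUnipotent F := by
    rw [hconj]; exact g.H_norm_V hk (g.Um_conj hw hc)
  have haU : n1 * a * n1⁻¹ ∈ D.posUnipotent F := by
    rw [hconj]; exact g.H_norm_U hk ha'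
  have hu1' : n1 * u1 * n1⁻¹ = u1⁻¹ * (n1 * n1)⁻¹ := by
    have : n1 * u1 * n1⁻¹ = u1⁻¹ * (u1 * n1 * (u1 * n1)) * (n1 * n1)⁻¹ := by group
    rw [this, e]; group
  have hcB : n1 * c * n1⁻¹ ∈ D.borelSubgroup F := by
    have : n1 * c * n1⁻¹ = (n1 * a * n1⁻¹)⁻¹ * (n1 * u1 * n1⁻¹) := by rw [e4]; group
    rw [this, hu1']
    exact Subgroup.mul_mem _ (Subgroup.inv_mem _ (U_le_B haU)) (Subgroup.mul_mem _ (U_le_B (Subgroup.inv_mem _ hu1)) (H_le_B (Subgroup.inv_mem _ hz)))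
  have hc1 := g.B_inf_V hcB hcV
  have hc2 : c = 1 := by
    have : c = n1⁻¹ * (n1 * c * n1⁻¹) * n1 := by group
    rw [this, hc1]; group
  rw [hc2, mul_one] at e4
  rw [← e4] at haU
  have hz1 : (n1 * n1)⁻¹ = 1 := by
    have h5 : (n1 * n1)⁻¹ = u1 * (n1 * u1 * n1⁻¹) := by rw [hu1']; group
    have h6 : (n1 * n1)⁻¹ ∈ D.posUnipotent F ⊓ D.diagonalSubgroup F :=
      ⟨by rw [h5]; exact Subgroup.mul_mem _ hu1 haU, Subgroup.inv_mem _ hz⟩
    rw [g.U_inf_H, Subgroup.mem_bot] at h6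
    exact h6
  have hnn : n1 * n1 = 1 := inv_eq_one.1 hz1
  have hinv : n1 * u1 * n1⁻¹ = u1⁻¹ := by rw [hu1', hz1, mul_one]
  -- a square root of u1
  have hm : u1 ^ Nat.card (D.posUnipotent F) = 1 := by
    have := pow_card_eq_one' (x := (⟨u1, hu1⟩ : ↥(D.posUnipotent F)))
    exact congrArg Subtype.val this
  have hodd' : Odd (Nat.card (D.posUnipotent F)) := by rw [g.card_U]; exact hodd.pow
  obtain ⟨k, hk2⟩ := hodd'
  rw [hk2] at hm
  set v := u1 ^ (k + 1) with hv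
  have hvv : v * v = u1 := by
    rw [hv, ← pow_add]
    have : k + 1 + (k + 1) = (2 * k + 1) + 1 := by ring
    rw [this, pow_succ, hm, one_mul]
  have hvi : n1 * v * n1⁻¹ = v⁻¹ := by
    rw [hv, ← conj_pow, hinv, inv_pow]
  have hn1i : n1⁻¹ = n1 := by rw [inv_eq_iff_mul_eq_one]; exact hnn
  have hvG : v ∈ D.group F := g.U_le_G (Subgroup.pow_mem _ hu1 _)
  refine ⟨v⁻¹ * u, Subgroup.mul_mem _ (Subgroup.inv_mem _ hvG) hG, n1, hn1, ?_, hnn⟩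
  have e6 : v⁻¹ * u * (b * n0 * u) * (v⁻¹ * u)⁻¹ = v⁻¹ * (u * (b * n0 * u) * u⁻¹) * v := by group
  rw [e6, et, ← hvv]
  have e7 : n1 * v = v⁻¹ * n1 := by
    rw [← hvi]; group
  calc v⁻¹ * (v * v * n1) * v = v * (n1 * v) := by group
    _ = v * (v⁻¹ * n1) := by rw [e7]
    _ = n1 := by group

include g in
/-- rank one: the square case -/
theorem conj_sq (h2 : (2 : F) ≠ 0) {i : ℕ} (hi : i < T.l) {n : GL D.Idx F} {d : F} (hd : d ≠ 0)
    (h1 : ∀ t, n * g.X (T.sim i) t * n⁻¹ = g.X (T.n - 1 - T.sim i) (d * d * t))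
    (h3 : ∀ t, n * g.X (T.n - 1 - T.sim i) t * n⁻¹ = g.X (T.sim i) ((d * d)⁻¹ * t)) :
    ∃ x ∈ D.group F, x * n * x⁻¹ = g.Ng (T.sim i) d⁻¹ * n := by
  obtain ⟨φ, hφ1, hφ2, hφ3⟩ := g.oi_exists_sl2 (F := F) (g.sim_lt hi)
  refine ⟨g.X (T.sim i) (2 * d)⁻¹ * g.X (T.n - 1 - T.sim i) (-d), Subgroup.mul_mem _ (g.X_mem_G _ _) (g.X_mem_G _ _), ?_⟩
  have e1 : g.X (T.sim i) (2 * d)⁻¹ * g.X (T.n - 1 - T.sim i) (-d) * n * (g.X (T.sim i) (2 * d)⁻¹ * g.X (T.n - 1 - T.sim i) (-d))⁻¹ =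
      g.X (T.sim i) (2 * d)⁻¹ * g.X (T.n - 1 - T.sim i) (-d) * ((n * g.X (T.n - 1 - T.sim i) d * n⁻¹) * (n * g.X (T.sim i) (-(2 * d)⁻¹) * n⁻¹)) * n := by
    have e2 : g.X (T.n - 1 - T.sim i) d = (g.X (T.n - 1 - T.sim i) (-d))⁻¹ := by rw [← X_neg, neg_neg]
    have e2' : g.X (T.sim i) (-(2 * d)⁻¹) = (g.X (T.sim i) (2 * d)⁻¹)⁻¹ := g.X_neg _ _
    rw [e2, e2']; group
  rw [e1, h3, h1]
  have e3 : (d * d)⁻¹ * d = d⁻¹ := by field_simp
  have e4 : d * d * -(2 * d)⁻¹ = -(d / 2) := by field_simp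
  rw [e3, e4]
  unfold Ng
  rw [← hφ1, ← hφ2, ← hφ1, ← hφ2, ← hφ2, ← map_mul, ← map_mul, ← map_mul, ← map_mul, ← map_mul, ← mul_assoc, sl_sq h2 hd]

include g in
/-- rank one: the toggle -/
theorem conj_tog {i : ℕ} (hi : i < T.l) {n : GL D.Idx F} {c z : F} (hc : c ≠ 0) (b : Fˣ) (hb : (b : F) * (1 - c * z ^ 2) = 1)
    (h1 : ∀ t, n * g.X (T.sim i) t * n⁻¹ = g.X (T.n - 1 - T.sim i) (c * t))
    (h3 : ∀ t, n * g.X (T.n - 1 - T.sim i) t * n⁻¹ = g.X (T.sim i) (c⁻¹ * t)) :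
    ∃ x ∈ D.group F, x * n * x⁻¹ = hd D T (T.sim i) b * n := by
  obtain ⟨φ, hφ1, hφ2, hφ3⟩ := g.oi_exists_sl2 (F := F) (g.sim_lt hi)
  refine ⟨g.X (T.sim i) (-(b * z)) * g.X (T.n - 1 - T.sim i) (-(c * z)), Subgroup.mul_mem _ (g.X_mem_G _ _) (g.X_mem_G _ _), ?_⟩
  have e1 : g.X (T.sim i) (-(b * z)) * g.X (T.n - 1 - T.sim i) (-(c * z)) * n * (g.X (T.sim i) (-(b * z)) * g.X (T.n - 1 - T.sim i) (-(c * z)))⁻¹ =
      g.X (T.sim i) (-(b * z)) * g.X (T.n - 1 - T.sim i) (-(c * z)) * ((n * g.X (T.n - 1 - T.sim i) (c * z) * n⁻¹) * (n * g.X (T.sim i) (b * z) * n⁻¹)) * n := by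
    rw [X_neg, X_neg]; group
  rw [e1, h3, h1]
  have e3 : c⁻¹ * (c * z) = z := by field_simp
  have e4 : c * ((b : F) * z) = b * (c * z) := by ring
  rw [e3, e4]
  have e5 : hd D T (T.sim i) b = g.Ng (T.sim i) (b : F) * (g.Ng (T.sim i) 1)⁻¹ := by
    rw [g.Ng_tor hi]
    show _ = hd D T (T.sim i) b * g.nn i * (g.nn i)⁻¹
    group
  rw [e5]
  congr 1
  rw [eq_mul_inv_iff_mul_eq]
  unfold Ng
  rw [← hφ1, ← hφ2, ← hφ1, ← hφ2, ← hφ1, ← hφ2, ← hφ1, ← hφ2, ← map_mul, ← map_mul, ← map_mul, ← map_mul, ← map_mul, ← map_mul, ← map_mul,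
    ← map_mul, ← mul_assoc]
  have := sl_tog (b := (b : F)) (c := c) (z := z) (e := (b : F)⁻¹) hb (mul_inv_cancel₀ (Units.ne_zero b))
  rw [inv_one]
  congr 1
  rw [← this]
  simp only [mul_assoc]

end

end CfsgLib.OI
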