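import Mathlib
import Cfsg.Agent.LibOI7

set_option autoImplicit false
set_option linter.all false
set_option maxRecDepth 1000000
set_option maxHeartbeats 4000000

/-! involutions of Chevalley groups in odd characteristic, 8: orders of the centralizers (seat helper23) -/

namespace CfsgLib.OI

open Cfsg.Lie Matrix CfsgLib.Chev CfsgLib.Chev.Good3

/-- number of positive roots with even coordinate -/
def ntp (T : Tb) (k : ℕ) : ℕ := ((Finset.range T.n).filter fun r => T.n / 2 ≤ r ∧ T.v r k % 2 = 0).card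

/-- weighted length of a word -/
def ntw (T : Tb) (k : ℕ) (w : List ℕ) : ℕ :=
  ((Finset.range T.n).filter fun r => (T.n / 2 ≤ r ∧ wact T w r < T.n / 2) ∧ T.v r k % 2 = 0).card

section
variable {D : ChevalleyDatum} {T : Tb} (g : Good3 D T)

include g

theorem nt_pw {k : ℕ} {w : List ℕ} (hw : VW T w) : nt k (g.pw w) = ntw T k w := by
  unfold nt ntw
  rw [← Finset.card_map (Fin.valEmbedding)]
  congr 1
  ext r
  simp only [Finset.mem_map, Finset.mem_filter, Finset.mem_univ, true_and, Fin.valEmbedding_apply, Finset.mem_range]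
  constructor
  · rintro ⟨a, ⟨⟨h1, h2⟩, h3⟩, rfl⟩
    rw [g.pw_val hw] at h2
    exact ⟨a.2, ⟨h1, h2⟩, h3⟩
  · rintro ⟨h0, ⟨h1, h2⟩, h3⟩
    refine ⟨⟨r, h0⟩, ⟨⟨h1, ?_⟩, h3⟩, rfl⟩
    rw [g.pw_val hw]; exact h2

open Classical in
/-- the order of the centralizer of an involution in H -/
theorem card_main {F : Type*} [Field F] [Fintype F] {d : CData} (C : CChk T d) (h2 : (-1 : Fˣ) ≠ 1) {s : ℕ}
    (hs : ∀ r < T.n, par T s r = decide (T.v r d.k % 2 ≠ 0)) :
    (Nat.card {x : GL D.Idx F // x ∈ D.group F ∧ hel D T (msk F s) * x * (hel D T (msk F s))⁻¹ = x} : ℤ) =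
      (Fintype.card F : ℤ) ^ ntp T d.k * (Nat.card (D.diagonalSubgroup F) *
        ((d.M.map fun μ => (Fintype.card F : ℤ) ^ ntw T d.k μ).sum * g.Wq {i | i ∈ d.JL} (Fintype.card F))) := by
  have hev := g.even
  set z := hel D T (msk F s) with hz
  have hχ : ∀ r < T.n, hchi T (msk F s) r = if T.v r d.k % 2 = 0 then 1 else -1 := by
    intro r hr
    rw [hchi_msk, hs r hr]
    by_cases h : T.v r d.k % 2 = 0
    · simp [h]
    · simp [h]
  have hX : ∀ r < T.n, ∀ t, z * g.X r t * z⁻¹ = g.X r ((hchi T (msk F s) r : F) * t) := fun r hr t => g.hel_X _ hr t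
  have hχ1 : ∀ r < T.n, ((hchi T (msk F s) r : F) = 1 ↔ T.v r d.k % 2 = 0) := by
    intro r hr
    rw [hχ r hr]
    by_cases h : T.v r d.k % 2 = 0
    · simp [h]
    · rw [if_neg h]
      constructor
      · intro h'; exact absurd (Units.ext h') h2
      · intro h'; exact absurd h' h
  rw [card_CG g (g.hel_mem _) hX]
  rw [card_cent_U g hX]
  have hexp1 : (((Finset.range T.n).filter fun r => T.n / 2 ≤ r).filter fun r => (hchi T (msk F s) r : F) = 1).card = ntp T d.k := by
    unfold ntp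
    rw [Finset.filter_filter]
    congr 1
    apply Finset.filter_congr
    intro r hr
    rw [hχ1 r (Finset.mem_range.1 hr)]
  rw [hexp1]
  push_cast
  rw [← Finset.mul_sum, ← Finset.mul_sum]
  congr 2
  have hM : (d.M.map fun μ => (Fintype.card F : ℤ) ^ ntw T d.k μ).sum = (d.M.map fun μ => (Fintype.card F : ℤ) ^ nt d.k (g.pw μ)).sum := by
    congr 1
    apply List.map_congr_left
    intro μ hμ
    rw [nt_pw g (C.M1 μ hμ)]
  rw [hM, ← sum_CW g C]
  rw [Finset.sum_subtype (Finset.univ.filter (fun σ : Equiv.Perm (Fin T.n) => σ ∈ g.WJ Set.univ ∧ ∀ r : Fin T.n, (T.v (σ r) d.k - T.v r d.k) % 2 = 0))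
    (p := fun σ => σ ∈ g.WJ Set.univ ∧ ∀ r : Fin T.n, hchi T (msk F s) (σ r) = hchi T (msk F s) r)]
  · apply Finset.sum_congr rfl
    intro σ _
    rw [card_cent_Um g (g.wrd_VW _) hX]
    push_cast
    congr 1
    have hw := g.wrd_VW ⟨σ.1, σ.2.1⟩
    have e1 : nt d.k σ.1 = ntw T d.k (g.wrd ⟨σ.1, σ.2.1⟩) := by
      have h1 := nt_pw g (k := d.k) hw
      rwa [g.wrd_pw] at h1
    rw [e1]
    unfold ntw
    rw [Finset.filter_filter]
    congr 1
    apply Finset.filter_congr
    intro r hr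
    rw [hχ1 r (Finset.mem_range.1 hr)]
  · intro σ
    rw [Finset.mem_filter]
    constructor
    · rintro ⟨_, h1, h3⟩
      refine ⟨h1, fun r => ?_⟩
      have := h3 r
      rw [hχ _ (σ r).2, hχ _ r.2]
      by_cases h : T.v r d.k % 2 = 0
      · rw [if_pos h, if_pos (by omega)]
      · rw [if_neg h, if_neg (by omega)]
    · rintro ⟨h1, h3⟩
      refine ⟨Finset.mem_univ _, h1, fun r => ?_⟩
      have := h3 r
      rw [hχ _ (σ r).2, hχ _ r.2] at this
      by_cases h : T.v r d.k % 2 = 0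
      · rw [if_pos h] at this
        by_cases h' : T.v (σ r) d.k % 2 = 0
        · omega
        · rw [if_neg h'] at this; exact absurd this h2
      · rw [if_neg h] at this
        by_cases h' : T.v (σ r) d.k % 2 = 0
        · rw [if_pos h'] at this; exact absurd this.symm h2
        · omega

end

theorem card_H_one {D : ChevalleyDatum} {T : Tb} (g : Good3 D T) {F : Type*} [Field F] [Fintype F]
    {P Pi Q Qi : List (List ℤ)} {s : List ℤ} (h : T.SmithChk P Pi Q Qi s) (hs : s.length = T.l) (h1 : s.all fun z => Nat.beq z.natAbs 1) :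
    (Nat.card (D.diagonalSubgroup F) : ℤ) = ((Fintype.card F : ℤ) - 1) ^ T.l := by
  have h2 := g.card_H_list (F := F) h hs
  have h3 : (s.map fun z => Nat.gcd z.natAbs (Fintype.card F - 1)).prod = 1 := by
    rw [List.all_eq_true] at h1
    have : s.map (fun z => Nat.gcd z.natAbs (Fintype.card F - 1)) = List.replicate s.length 1 := by
      rw [List.eq_replicate_iff]
      refine ⟨by simp, ?_⟩
      intro b hb
      rw [List.mem_map] at hb
      obtain ⟨z, hz, rfl⟩ := hb
      have := Nat.eq_of_beq_eq_true (h1 z hz)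
      rw [this, Nat.gcd_one_left]
    rw [this]; simp
  rw [h3, one_mul] at h2
  rw [h2]
  have hr : D.rank = T.l := g.hl
  rw [show (Fintype.card F - 1) ^ D.rank = (Fintype.card F - 1) ^ T.l by rw [hr]]
  have : 1 ≤ Fintype.card F := Fintype.card_pos
  push_cast [Nat.cast_sub this]
  rfl

/-- product formula -/
theorem card_poly {D : ChevalleyDatum} {T : Tb} (g : Good3 D T) {F : Type*} [Field F] [Fintype F] {d : CData} (C : CChk T d)
    (h2 : (-1 : Fˣ) ≠ 1) {s : ℕ} (hs : ∀ r < T.n, par T s r = decide (T.v r d.k % 2 ≠ 0))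
    {P Pi Q Qi : List (List ℤ)} {sm : List ℤ} (h : T.SmithChk P Pi Q Qi sm) (hsm : sm.length = T.l) (h1 : sm.all fun z => Nat.beq z.natAbs 1)
    (hc : T.chkCnn = true) {ch : List (ℕ × OT × List ℤ)} (hch : chkChain T d.JL ch = true)
    {E : List ℕ} (hE : d.M.map (ntw T d.k) = E) {N : ℕ} (hN : ntp T d.k = N) {EP : List ℤ}
    (hEP : eqLI (E.foldr (fun e L => lpadd (lpshift e [1]) L) []) EP = true) {ds : List ℕ}
    (hp : eqLI (lpcycs (List.replicate T.l 1) (lpmul EP (headQ ch))) (lpcycs ds [1]) = true) :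
    (Nat.card {x : GL D.Idx F // x ∈ D.group F ∧ hel D T (msk F s) * x * (hel D T (msk F s))⁻¹ = x} : ℤ) =
      (Fintype.card F : ℤ) ^ N * (ds.map fun e => (Fintype.card F : ℤ) ^ e - 1).prod := by
  rw [card_main g C h2 hs, hN, card_H_one g h hsm h1, g.chain_sound hc _ _ _ hch]
  congr 1
  have e1 := congrArg (lpev (Fintype.card F : ℤ)) (eqLI_sound _ _ hp)
  rw [lpev_pcycs, lpev_pcycs, lpev_pmul, ← eqLI_sound _ _ hEP] at e1
  have e2 : ∀ E : List ℕ, lpev (Fintype.card F : ℤ) (E.foldr (fun e L => lpadd (lpshift e [1]) L) []) = (E.map fun e => (Fintype.card F : ℤ) ^ e).sum := by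
    intro E
    induction E with
    | nil => simp [lpev]
    | cons e E ih =>
      rw [List.foldr_cons, lpev_padd, ih, lpev_pshift, List.map_cons, List.sum_cons]
      simp [lpev]
  rw [e2, ← hE, List.map_map] at e1
  have e3 : ((fun e => (Fintype.card F : ℤ) ^ e) ∘ ntw T d.k) = fun μ => (Fintype.card F : ℤ) ^ ntw T d.k μ := rfl
  rw [e3] at e1
  simpa [lpev] using e1

theorem neg_one_ne {F : Type*} [Field F] [Fintype F] (hodd : Odd (Fintype.card F)) : (-1 : Fˣ) ≠ 1 := by
  intro h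
  have h1 : (-1 : F) = 1 := by simpa using congrArg Units.val h
  have h0 : (2 : F) = 0 := by linear_combination -h1
  have hc2 : CharP F 2 := CharTwo.of_one_ne_zero_of_two_eq_zero one_ne_zero h0
  have := (FiniteField.even_card_iff_char_two (F := F)).1 (ringChar.eq F 2)
  have := Nat.odd_iff.1 hodd
  omega

def ptG2_0 : OT where
  N := 2
  e0 := 1
  mr := [151, 137]
  dr := 1
  sr := [1, 0]

def pqG2_0 : List ℤ := [1, 1]

def pchG2 : List (ℕ × OT × List ℤ) := [(0, ptG2_0, pqG2_0)]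

def ptF4b_0 : OT where
  N := 6
  e0 := 5
  mr := [10061943, 8886168, 8944008, 9017481]
  dr := 17230332165
  sr := [1099562091780, 5510510215680, 5514771759360, 0]

def pqF4b_0 : List ℤ := [1, 3, 5, 7, 8, 8, 7, 5, 3, 1]

def ptF4b_1 : OT where
  N := 4
  e0 := 0
  mr := [43416, 31097, 34712, 39304]
  dr := 50462976
  sr := [0, 33751041, 50397696, 0]

def pqF4b_1 : List ℤ := [1, 2, 2, 2, 1]

def ptF4b_2 : OT where
  N := 2
  e0 := 0
  mr := [136, 168, 121, 152]
  dr := 256
  sr := [0, 0, 1, 0]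

def pqF4b_2 : List ℤ := [1, 1]

def pchF4b : List (ℕ × OT × List ℤ) := [(0, ptF4b_0, pqF4b_0), (1, ptF4b_1, pqF4b_1), (2, ptF4b_2, pqF4b_2)]

def ptE8a_0 : OT where
  N := 14
  e0 := 1
  mr := [43234556404861064, 42934316195940487, 33927116941199497, 38430712777967752, 38430652394735752, 38429686028015752, 38414224145807752, 38166834029561752]
  dr := 122648612039096803650214352191494
  sr := [0, 142931021642748905013454770929926, 122648612039096301499959723819271, 264625479264640121933568774635776, 264625479259954577160532759019776, 264625478060455043768660103659776, 264625170988574495169984344555776, 264546560587154053907899092107776]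

def pqE8a_0 : List ℤ := [1, 7, 27, 77, 181, 371, 686, 1169, 1862, 2800, 4005, 5481, 7210, 9149, 11230, 13363, 15442, 17353, 18983, 20230, 21013, 21280, 21013, 20230, 18983, 17353, 15442, 13363, 11230, 9149, 7210, 5481, 4005, 2800, 1862, 1169, 686, 371, 181, 77, 27, 7, 1]

def ptE8a_1 : OT where
  N := 12
  e0 := 1
  mr := [168884984907912, 167712157894791, 132527785805961, 150119734937736, 150115960985736, 150055563065736, 149089195427736, 169984497654153]
  dr := 1559556956681266470945095685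
  sr := [0, 1869041966504014520818729221, 1559556956679585321978036486, 3416467015537560772839342336, 3416466997234651503167406336, 3416462311689599191164846336, 3415262812156206227587662336, 0]

def pqE8a_1 : List ℤ := [1, 6, 20, 50, 104, 190, 314, 478, 679, 908, 1151, 1390, 1605, 1776, 1886, 1924, 1886, 1776, 1605, 1390, 1151, 908, 679, 478, 314, 190, 104, 50, 20, 6, 1]

def ptE8a_2 : OT where
  N := 10
  e0 := 1
  mr := [659706906760, 655124695175, 517685741705, 586390411400, 586154539400, 582379669400, 664001943945, 586406201480]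
  dr := 19037545981586859687940
  sr := [0, 23759912468841683353860, 19037545976115088195845, 42649378115559654293760, 42649306619820319637760, 42631003709459725877760, 0, 0]

def pqE8a_2 : List ℤ := [1, 5, 14, 30, 54, 85, 120, 155, 185, 205, 212, 205, 185, 155, 120, 85, 54, 30, 14, 5, 1]

def ptE8a_3 : OT where
  N := 8
  e0 := 1
  mr := [2576976008, 2559023239, 2022152329, 2289662344, 2274920344, 2593757577, 2290649224, 2290649224]
  dr := 217867146745675779
  sr := [0, 289924753635016963, 217867129649758468, 506096427680858368, 505817147449082368, 0, 0, 0]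

def pqE8a_3 : List ℤ := [1, 4, 9, 16, 23, 28, 30, 28, 23, 16, 9, 4, 1]

def ptE8a_4 : OT where
  N := 4
  e0 := 2
  mr := [39048, 35207, 30872, 34937, 39064, 34952, 34952, 34952]
  dr := 50332161
  sr := [0, 50331906, 16909056, 50462721, 0, 0, 0, 0]

def pqE8a_4 : List ℤ := [1, 3, 5, 6, 5, 3, 1]

def ptE8a_5 : OT where
  N := 3
  e0 := 0
  mr := [2440, 2456, 1944, 2169, 2456, 2184, 2184, 2184]
  dr := 131328
  sr := [0, 0, 66048, 131073, 0, 0, 0, 0]

def pqE8a_5 : List ℤ := [1, 2, 2, 1]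

def ptE8a_6 : OT where
  N := 2
  e0 := 0
  mr := [152, 136, 121, 152, 136, 136, 136, 136]
  dr := 256
  sr := [0, 0, 1, 0, 0, 0, 0, 0]

def pqE8a_6 : List ℤ := [1, 1]

def pchE8a : List (ℕ × OT × List ℤ) := [(7, ptE8a_0, pqE8a_0), (6, ptE8a_1, pqE8a_1), (5, ptE8a_2, pqE8a_2), (4, ptE8a_3, pqE8a_3), (1, ptE8a_4, pqE8a_4), (3, ptE8a_5, pqE8a_5), (2, ptE8a_6, pqE8a_6)]

theorem pchkG2 : chkChain tG2 cdG2.JL pchG2 = true := by decide +kernel
theorem pmskG2 : ∀ r < tG2.n, par tG2 1 r = decide (tG2.v r cdG2.k % 2 ≠ 0) := by decide +kernel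
theorem pEG2 : cdG2.M.map (ntw tG2 cdG2.k) = [0, 1] := by decide +kernel
theorem pNG2 : ntp tG2 cdG2.k = 2 := by decide +kernel

theorem orderG2 {F : Type*} [Field F] [Fintype F] (hodd : Odd (Fintype.card F)) :
    (Nat.card {x : GL chevG2.Idx F // x ∈ chevG2.group F ∧ hel chevG2 tG2 (msk F 1) * x * (hel chevG2 tG2 (msk F 1))⁻¹ = x} : ℤ) =
      (Fintype.card F : ℤ) ^ 2 * (([2, 2] : List ℕ).map fun e => (Fintype.card F : ℤ) ^ e - 1).prod :=
  card_poly good3_G2 ccG2 (neg_one_ne hodd) pmskG2 smith_G2 (by decide +kernel) (by decide +kernel) ocnn_G2 pchkG2 pEG2 pNG2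
    (EP := [1, 1]) (by decide +kernel) (by decide +kernel)

theorem pchkF4a : chkChain tF4 cdF4a.JL (ochF4.drop 1) = true := by decide +kernel
theorem pmskF4a : ∀ r < tF4.n, par tF4 2 r = decide (tF4.v r cdF4a.k % 2 ≠ 0) := by decide +kernel
theorem pEF4a : cdF4a.M.map (ntw tF4 cdF4a.k) = [0, 1, 2, 3, 4, 5, 6, 7] := by decide +kernel
theorem pNF4a : ntp tF4 cdF4a.k = 16 := by decide +kernel

theorem orderF4a {F : Type*} [Field F] [Fintype F] (hodd : Odd (Fintype.card F)) :
    (Nat.card {x : GL chevF4.Idx F // x ∈ chevF4.group F ∧ hel chevF4 tF4 (msk F 2) * x * (hel chevF4 tF4 (msk F 2))⁻¹ = x} : ℤ) =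
      (Fintype.card F : ℤ) ^ 16 * (([2, 4, 6, 8] : List ℕ).map fun e => (Fintype.card F : ℤ) ^ e - 1).prod :=
  card_poly good3_F4 ccF4a (neg_one_ne hodd) pmskF4a smith_F4 (by decide +kernel) (by decide +kernel) ocnn_F4 pchkF4a pEF4a pNF4a
    (EP := [1, 1, 1, 1, 1, 1, 1, 1]) (by decide +kernel) (by decide +kernel)

theorem pchkF4b : chkChain tF4 cdF4b.JL pchF4b = true := by decide +kernel
theorem pmskF4b : ∀ r < tF4.n, par tF4 5 r = decide (tF4.v r cdF4b.k % 2 ≠ 0) := by decide +kernel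
theorem pEF4b : cdF4b.M.map (ntw tF4 cdF4b.k) = [0, 1] := by decide +kernel
theorem pNF4b : ntp tF4 cdF4b.k = 10 := by decide +kernel

theorem orderF4b {F : Type*} [Field F] [Fintype F] (hodd : Odd (Fintype.card F)) :
    (Nat.card {x : GL chevF4.Idx F // x ∈ chevF4.group F ∧ hel chevF4 tF4 (msk F 5) * x * (hel chevF4 tF4 (msk F 5))⁻¹ = x} : ℤ) =
      (Fintype.card F : ℤ) ^ 10 * (([2, 2, 4, 6] : List ℕ).map fun e => (Fintype.card F : ℤ) ^ e - 1).prod :=
  card_poly good3_F4 ccF4b (neg_one_ne hodd) pmskF4b smith_F4 (by decide +kernel) (by decide +kernel) ocnn_F4 pchkF4b pEF4b pNF4b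
    (EP := [1, 1]) (by decide +kernel) (by decide +kernel)

theorem pchkE8a : chkChain tE8 cdE8a.JL pchE8a = true := by decide +kernel
theorem pmskE8a : ∀ r < tE8.n, par tE8 6 r = decide (tE8.v r cdE8a.k % 2 ≠ 0) := by decide +kernel
theorem pEE8a : cdE8a.M.map (ntw tE8 cdE8a.k) = [0, 1, 2, 3, 4, 5, 6, 7, 7, 8, 9, 10, 11, 12, 13, 14] := by decide +kernel
theorem pNE8a : ntp tE8 cdE8a.k = 56 := by decide +kernel

theorem orderE8a {F : Type*} [Field F] [Fintype F] (hodd : Odd (Fintype.card F)) :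
    (Nat.card {x : GL chevE8.Idx F // x ∈ chevE8.group F ∧ hel chevE8 tE8 (msk F 6) * x * (hel chevE8 tE8 (msk F 6))⁻¹ = x} : ℤ) =
      (Fintype.card F : ℤ) ^ 56 * (([8, 2, 4, 6, 8, 10, 12, 14] : List ℕ).map fun e => (Fintype.card F : ℤ) ^ e - 1).prod :=
  card_poly good3_E8 ccE8a (neg_one_ne hodd) pmskE8a smith_E8 (by decide +kernel) (by decide +kernel) ocnn_E8 pchkE8a pEE8a pNE8a
    (EP := [1, 1, 1, 1, 1, 1, 1, 2, 1, 1, 1, 1, 1, 1, 1]) (by decide +kernel) (by decide +kernel)

theorem pchkE8b : chkChain tE8 cdE8b.JL (ochE8.drop 1) = true := by decide +kernel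
theorem pmskE8b : ∀ r < tE8.n, par tE8 82 r = decide (tE8.v r cdE8b.k % 2 ≠ 0) := by decide +kernel
theorem pEE8b : cdE8b.M.map (ntw tE8 cdE8b.k) = [0, 1] := by decide +kernel
theorem pNE8b : ntp tE8 cdE8b.k = 64 := by decide +kernel

theorem orderE8b {F : Type*} [Field F] [Fintype F] (hodd : Odd (Fintype.card F)) :
    (Nat.card {x : GL chevE8.Idx F // x ∈ chevE8.group F ∧ hel chevE8 tE8 (msk F 82) * x * (hel chevE8 tE8 (msk F 82))⁻¹ = x} : ℤ) =
      (Fintype.card F : ℤ) ^ 64 * (([2, 2, 6, 8, 10, 12, 14, 18] : List ℕ).map fun e => (Fintype.card F : ℤ) ^ e - 1).prod :=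
  card_poly good3_E8 ccE8b (neg_one_ne hodd) pmskE8b smith_E8 (by decide +kernel) (by decide +kernel) ocnn_E8 pchkE8b pEE8b pNE8b
    (EP := [1, 1]) (by decide +kernel) (by decide +kernel)

end CfsgLib.OI
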