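import Mathlib
import Cfsg.Agent.LibOI8

set_option autoImplicit false
set_option linter.all false

/-! involutions of Chevalley groups in odd characteristic, 9: the two classes (seat helper23) -/

namespace CfsgLib.OI

open Cfsg.Lie Matrix CfsgLib.Chev CfsgLib.Chev.Good3

section
variable {D : ChevalleyDatum} {T : Tb} {F : Type*} [Field F]

theorem card_centralizer (z : ↥(D.group F)) :
    Nat.card (Subgroup.centralizer ({z} : Set ↥(D.group F))) = Nat.card {x : GL D.Idx F // x ∈ D.group F ∧ (z : GL D.Idx F) * x * (z : GL D.Idx F)⁻¹ = x} := by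
  refine Nat.card_eq_of_bijective (fun x : ↥(Subgroup.centralizer ({z} : Set ↥(D.group F))) =>
    (⟨(x.1 : GL D.Idx F), x.1.2, ?_⟩ : {x : GL D.Idx F // x ∈ D.group F ∧ (z : GL D.Idx F) * x * (z : GL D.Idx F)⁻¹ = x})) ⟨?_, ?_⟩
  · have h := Subgroup.mem_centralizer_iff.1 x.2 z rfl
    have h1 : (z : GL D.Idx F) * (x.1 : GL D.Idx F) = (x.1 : GL D.Idx F) * z := congrArg Subtype.val h
    rw [h1]; group
  · intro x y h
    have := congrArg Subtype.val h
    exact Subtype.ext (Subtype.ext this)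
  · rintro ⟨x, hx, h⟩
    refine ⟨⟨⟨x, hx⟩, ?_⟩, rfl⟩
    rw [Subgroup.mem_centralizer_iff]
    intro y hy
    rw [Set.mem_singleton_iff] at hy
    rw [hy]
    apply Subtype.ext
    show (z : GL D.Idx F) * x = x * z
    rw [mul_inv_eq_iff_eq_mul] at h
    exact h

theorem card_conj {G : Type*} [Group G] {s t : G} (h : IsConj s t) :
    Nat.card (Subgroup.centralizer ({s} : Set G)) = Nat.card (Subgroup.centralizer ({t} : Set G)) := by
  obtain ⟨c, rfl⟩ := isConj_iff.1 h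
  refine Nat.card_congr ?_
  refine ⟨fun x => ⟨c * x.1 * c⁻¹, ?_⟩, fun x => ⟨c⁻¹ * x.1 * c, ?_⟩, ?_, ?_⟩
  · rw [Subgroup.mem_centralizer_iff]
    intro y hy
    rw [Set.mem_singleton_iff] at hy
    rw [hy]
    have h := Subgroup.mem_centralizer_iff.1 x.2 s rfl
    calc c * s * c⁻¹ * (c * x.1 * c⁻¹) = c * (s * x.1) * c⁻¹ := by group
      _ = c * (x.1 * s) * c⁻¹ := by rw [h]
      _ = _ := by group
  · rw [Subgroup.mem_centralizer_iff]
    intro y hy
    rw [Set.mem_singleton_iff] at hy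
    rw [hy]
    have h := Subgroup.mem_centralizer_iff.1 x.2 (c * s * c⁻¹) rfl
    calc s * (c⁻¹ * x.1 * c) = c⁻¹ * ((c * s * c⁻¹) * x.1) * c := by group
      _ = c⁻¹ * (x.1 * (c * s * c⁻¹)) * c := by rw [h]
      _ = _ := by group
  · intro x; apply Subtype.ext; show c⁻¹ * (c * x.1 * c⁻¹) * c = x.1; group
  · intro x; apply Subtype.ext; show c * (c⁻¹ * x.1 * c) * c⁻¹ = x.1; group

theorem prod_mod (q : ℤ) (ds : List ℕ) (h : ∀ e ∈ ds, e ≠ 0) : q ∣ (ds.map fun e => q ^ e - 1).prod - (-1) ^ ds.length := by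
  induction ds with
  | nil => simp
  | cons e ds ih =>
    rw [List.map_cons, List.prod_cons, List.length_cons, pow_succ]
    have h1 := ih fun e he => h e (List.mem_cons_of_mem _ he)
    have h2 : q ∣ q ^ e := dvd_pow_self _ (h e List.mem_cons_self)
    have : (q ^ e - 1) * (ds.map fun e => q ^ e - 1).prod - (-1) ^ ds.length * -1 =
      q ^ e * (ds.map fun e => q ^ e - 1).prod - ((ds.map fun e => q ^ e - 1).prod - (-1) ^ ds.length) := by ring
    rw [this]
    exact dvd_sub (Dvd.dvd.mul_right h2 _) h1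

theorem num_ne {q : ℤ} (hq : 2 ≤ q) {N1 N2 : ℕ} {ds1 ds2 : List ℕ} (h2 : ∀ e ∈ ds2, e ≠ 0) (hN : N2 < N1)
    (e : q ^ N1 * (ds1.map fun e => q ^ e - 1).prod = q ^ N2 * (ds2.map fun e => q ^ e - 1).prod) : False := by
  obtain ⟨m, rfl⟩ : ∃ m, N1 = N2 + (m + 1) := ⟨N1 - N2 - 1, by omega⟩
  have hq0 : q ^ N2 ≠ 0 := pow_ne_zero _ (by omega)
  rw [pow_add, mul_assoc] at e
  have e1 := mul_left_cancel₀ hq0 e
  have h3 : q ∣ (ds2.map fun e => q ^ e - 1).prod := by
    rw [← e1]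
    exact Dvd.dvd.mul_right (dvd_pow_self _ (by omega)) _
  have h4 := prod_mod q ds2 h2
  have h5 : q ∣ (-1) ^ ds2.length := by
    have := dvd_sub h3 h4
    rwa [sub_sub_cancel] at this
  have h6 : q ∣ 1 := by
    rcases neg_one_pow_eq_or ℤ ds2.length with h | h
    · rwa [h] at h5
    · rw [h] at h5; exact (dvd_neg.1 h5)
  have := Int.le_of_dvd one_pos h6
  omega

theorem order_msk (o : OChk D T F) [Fintype F] (hodd : Odd (Fintype.card F)) {m : ℕ} (hm : ∃ i < T.l, m.testBit i = true) :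
    hel D T (msk F m) * hel D T (msk F m) = 1 ∧ hel D T (msk F m) ≠ 1 := by
  constructor
  · rw [hel_mul, ← hel_one (D := D) (T := T)]
    apply hel_congr
    intro i hi
    unfold msk
    cases m.testBit i <;> simp
  · intro h
    obtain ⟨i, hi, hb⟩ := hm
    rw [← hel_one (D := D) (T := T)] at h
    have := o.inj _ _ h i hi
    unfold msk at this
    rw [if_pos hb] at this
    exact neg_one_ne hodd this

theorem two_classes (o : OChk D T F) [Fintype F] (hodd : Odd (Fintype.card F)) {W : List (List ℕ)} {m1 m2 : ℕ}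
    (hc : T.chkOrb W [m1, m2] = true) (hm1 : ∃ i < T.l, m1.testBit i = true) (hm2 : ∃ i < T.l, m2.testBit i = true)
    {N1 N2 : ℕ} {ds1 ds2 : List ℕ}
    (h1 : (Nat.card {x : GL D.Idx F // x ∈ D.group F ∧ hel D T (msk F m1) * x * (hel D T (msk F m1))⁻¹ = x} : ℤ) =
      (Fintype.card F : ℤ) ^ N1 * (ds1.map fun e => (Fintype.card F : ℤ) ^ e - 1).prod)
    (h2 : (Nat.card {x : GL D.Idx F // x ∈ D.group F ∧ hel D T (msk F m2) * x * (hel D T (msk F m2))⁻¹ = x} : ℤ) =
      (Fintype.card F : ℤ) ^ N2 * (ds2.map fun e => (Fintype.card F : ℤ) ^ e - 1).prod)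
    (hd1 : ∀ e ∈ ds1, e ≠ 0) (hd2 : ∀ e ∈ ds2, e ≠ 0) (hN : N1 ≠ N2) :
    ∃ s t : ↥(D.group F), orderOf s = 2 ∧ orderOf t = 2 ∧ ¬ IsConj s t ∧ (∀ u : ↥(D.group F), orderOf u = 2 → IsConj u s ∨ IsConj u t) ∧
      (Nat.card (Subgroup.centralizer ({s} : Set ↥(D.group F))) : ℤ) = (Fintype.card F : ℤ) ^ N1 * (ds1.map fun e => (Fintype.card F : ℤ) ^ e - 1).prod ∧
      (Nat.card (Subgroup.centralizer ({t} : Set ↥(D.group F))) : ℤ) = (Fintype.card F : ℤ) ^ N2 * (ds2.map fun e => (Fintype.card F : ℤ) ^ e - 1).prod := by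
  have g := o.g
  have hG : ∀ m, hel D T (msk F m) ∈ D.group F := fun m => g.H_le_G (g.hel_mem _)
  have hord : ∀ m, (∃ i < T.l, m.testBit i = true) → orderOf (⟨hel D T (msk F m), hG m⟩ : ↥(D.group F)) = 2 := by
    intro m hm
    obtain ⟨a, b⟩ := order_msk o hodd hm
    apply orderOf_eq_prime
    · rw [pow_two]; exact Subtype.ext a
    · intro h; exact b (congrArg Subtype.val h)
  have hq : (2 : ℤ) ≤ Fintype.card F := by exact_mod_cast Fintype.one_lt_card (α := F)
  refine ⟨⟨_, hG m1⟩, ⟨_, hG m2⟩, hord m1 hm1, hord m2 hm2, ?_, ?_, ?_, ?_⟩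
  · intro h
    have h3 := card_conj h
    rw [card_centralizer, card_centralizer] at h3
    have h4 : ((Nat.card {x : GL D.Idx F // x ∈ D.group F ∧ hel D T (msk F m1) * x * (hel D T (msk F m1))⁻¹ = x} : ℕ) : ℤ) =
      (Nat.card {x : GL D.Idx F // x ∈ D.group F ∧ hel D T (msk F m2) * x * (hel D T (msk F m2))⁻¹ = x} : ℕ) := by
      exact_mod_cast h3
    rw [h1, h2] at h4
    rcases lt_or_gt_of_ne hN with h5 | h5
    · exact num_ne hq hd1 h5 h4.symm
    · exact num_ne hq hd2 h5 h4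
  · intro u hu
    have e1 : u * u = 1 := by rw [← pow_two, ← hu, pow_orderOf_eq_one]
    have e2 : u ≠ 1 := by rintro rfl; simp at hu
    obtain ⟨x, hx, m, hm, e⟩ := invol_tg o hodd hc u.2 (congrArg Subtype.val e1) (fun h => e2 (Subtype.ext h))
    simp only [List.mem_cons, List.not_mem_nil, or_false] at hm
    rcases hm with rfl | rfl
    · left
      rw [isConj_iff]
      exact ⟨⟨x, hx⟩, Subtype.ext e⟩
    · right
      rw [isConj_iff]
      exact ⟨⟨x, hx⟩, Subtype.ext e⟩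
  · rw [card_centralizer]; exact h1
  · rw [card_centralizer]; exact h2

end

end CfsgLib.OI
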