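import Mathlib
import Cfsg.Agent.LibOI9
import Cfsg.Agent.LibG2C

set_option autoImplicit false
set_option linter.all false
set_option maxRecDepth 100000

/-! involutions of G₂ in odd characteristic (seat helper23) -/

namespace CfsgLib.OI

open Cfsg.Lie Matrix CfsgLib.Chev CfsgLib.Chev.Good3 CfsgLib.SL2P

section abs
variable {F : Type*} [Field F]

/-- the standard Weyl element as a product -/
def Wl (F : Type*) [Field F] : Matrix.SpecialLinearGroup (Fin 2) F := xx 1 * yy (-1) * xx 1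

theorem W_sq_comm (a : Matrix.SpecialLinearGroup (Fin 2) F) : (Wl F * Wl F) * a = a * (Wl F * Wl F) := by
  unfold Wl
  apply ext2 <;> simp only [m00, m01, m10, m11, x00, x01, x10, x11, y00, y01, y10, y11] <;> ring

theorem W_sq_sq : (Wl F * Wl F) * (Wl F * Wl F) = 1 := by
  unfold Wl
  apply ext2 <;> simp only [m00, m01, m10, m11, x00, x01, x10, x11, y00, y01, y10, y11] <;> simp

theorem W_sq_ne (h2 : (2 : F) ≠ 0) : (Wl F * Wl F) ≠ 1 := by
  intro h
  have h1 : (Wl F * Wl F) 0 0 = (1 : Matrix.SpecialLinearGroup (Fin 2) F) 0 0 := by rw [h]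
  unfold Wl at h1
  simp only [m00, m01, m10, m11, x00, x01, x10, x11, y00, y01, y10, y11] at h1
  apply h2
  have h3 : ((1 : Matrix.SpecialLinearGroup (Fin 2) F) 0 0 : F) = 1 := rfl
  rw [h3] at h1
  linear_combination -h1

theorem center_sl2 {a : Matrix.SpecialLinearGroup (Fin 2) F} (h : ∀ b, a * b = b * a) : a = 1 ∨ a = Wl F * Wl F := by
  have h1 := h (xx 1)
  have h2 := h (yy 1)
  have e1 : ((a * xx 1 : Matrix.SpecialLinearGroup (Fin 2) F)) 0 0 = ((xx 1 * a : Matrix.SpecialLinearGroup (Fin 2) F)) 0 0 := by rw [h1]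
  have e2 : ((a * xx 1 : Matrix.SpecialLinearGroup (Fin 2) F)) 0 1 = ((xx 1 * a : Matrix.SpecialLinearGroup (Fin 2) F)) 0 1 := by rw [h1]
  have e3 : ((a * yy 1 : Matrix.SpecialLinearGroup (Fin 2) F)) 0 0 = ((yy 1 * a : Matrix.SpecialLinearGroup (Fin 2) F)) 0 0 := by rw [h2]
  simp only [m00, m01, m10, m11, x00, x01, x10, x11, y00, y01, y10, y11] at e1 e2 e3
  have c0 : a 1 0 = 0 := by linear_combination -e1
  have b0 : a 0 1 = 0 := by linear_combination e3
  have ad : a 0 0 = a 1 1 := by linear_combination e2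
  have hd := det2 a
  rw [c0, b0, ← ad] at hd
  have hd' : a 0 0 * a 0 0 = 1 := by linear_combination hd
  rcases mul_self_eq_one_iff.1 hd' with h3 | h3
  · left
    apply ext2
    · rw [h3]; rfl
    · rw [b0]; rfl
    · rw [c0]; rfl
    · rw [← ad, h3]; rfl
  · right
    unfold Wl
    apply ext2
    · rw [h3]; simp only [m00, m01, m10, m11, x00, x01, x10, x11, y00, y01, y10, y11]; ring
    · rw [b0]; simp only [m00, m01, m10, m11, x00, x01, x10, x11, y00, y01, y10, y11]; ring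
    · rw [c0]; simp only [m00, m01, m10, m11, x00, x01, x10, x11, y00, y01, y10, y11]; ring
    · rw [← ad, h3]; simp only [m00, m01, m10, m11, x00, x01, x10, x11, y00, y01, y10, y11]; ring

theorem abs_cent {G : Type*} [Group G] [Finite G] [Fintype F] (h2 : (2 : F) ≠ 0) (φ1 φ2 : Matrix.SpecialLinearGroup (Fin 2) F →* G)
    (i1 : Function.Injective φ1) (i2 : Function.Injective φ2) (hc : ∀ a b, φ1 a * φ2 b = φ2 b * φ1 a) (t : G)
    (t1 : φ1 (Wl F * Wl F) = t) (t2 : φ2 (Wl F * Wl F) = t)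
    (hC : Nat.card (Subgroup.centralizer ({t} : Set G)) = Fintype.card F ^ 2 * (Fintype.card F ^ 2 - 1) ^ 2) :
    ∃ L₁ L₂ : Subgroup G, Nonempty (L₁ ≃* Matrix.SpecialLinearGroup (Fin 2) F) ∧ Nonempty (L₂ ≃* Matrix.SpecialLinearGroup (Fin 2) F) ∧
      (∀ x ∈ L₁, ∀ y ∈ L₂, x * y = y * x) ∧ L₁ ⊓ L₂ = Subgroup.zpowers t ∧ L₁ ⊔ L₂ ≤ Subgroup.centralizer ({t} : Set G) ∧
      (L₁ ⊔ L₂).relIndex (Subgroup.centralizer ({t} : Set G)) = 2 := by
  have hinf : ∀ a b, φ1 a = φ2 b → (a = 1 ∨ a = Wl F * Wl F) := by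
    intro a b hab
    apply center_sl2
    intro c
    apply i1
    rw [map_mul, map_mul, hab, ← hc]
  have hle : φ1.range ⊔ φ2.range ≤ Subgroup.centralizer ({t} : Set G) := by
    rw [sup_le_iff]
    constructor
    · rintro _ ⟨a, rfl⟩
      rw [Subgroup.mem_centralizer_iff]
      intro y hy
      rw [Set.mem_singleton_iff] at hy
      rw [hy, ← t2, hc]
    · rintro _ ⟨a, rfl⟩
      rw [Subgroup.mem_centralizer_iff]
      intro y hy
      rw [Set.mem_singleton_iff] at hy
      rw [hy, ← t1, hc]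
  refine ⟨φ1.range, φ2.range, ⟨(MonoidHom.ofInjective i1).symm⟩, ⟨(MonoidHom.ofInjective i2).symm⟩, ?_, ?_, hle, ?_⟩
  · rintro _ ⟨a, rfl⟩ _ ⟨b, rfl⟩
    exact hc a b
  · apply le_antisymm
    · rintro _ ⟨⟨a, rfl⟩, ⟨b, hb⟩⟩
      rcases hinf a b hb.symm with h | h
      · rw [h, map_one]; exact Subgroup.one_mem _
      · rw [h, t1]; exact Subgroup.mem_zpowers t
    · rw [Subgroup.zpowers_le]
      exact ⟨⟨_, t1⟩, ⟨_, t2⟩⟩
  · -- the index
    let ψ : Matrix.SpecialLinearGroup (Fin 2) F × Matrix.SpecialLinearGroup (Fin 2) F →* G := MonoidHom.noncommCoprod φ1 φ2 (fun a b => hc a b)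
    have hψ : ∀ a b, ψ (a, b) = φ1 a * φ2 b := fun a b => rfl
    have hrange : ψ.range = φ1.range ⊔ φ2.range := by
      apply le_antisymm
      · rintro _ ⟨⟨a, b⟩, rfl⟩
        rw [hψ]
        exact Subgroup.mul_mem _ (Subgroup.mem_sup_left ⟨a, rfl⟩) (Subgroup.mem_sup_right ⟨b, rfl⟩)
      · rw [sup_le_iff]
        constructor
        · rintro _ ⟨a, rfl⟩
          exact ⟨(a, 1), by rw [hψ, map_one, mul_one]⟩
        · rintro _ ⟨b, rfl⟩
          exact ⟨(1, b), by rw [hψ, map_one, one_mul]⟩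
    have hker : Nat.card ψ.ker = 2 := by
      rw [Nat.card_eq_two_iff]
      refine ⟨1, ⟨(Wl F * Wl F, Wl F * Wl F), ?_⟩, ?_, ?_⟩
      · rw [MonoidHom.mem_ker, hψ, t1, t2, ← t1, ← map_mul, W_sq_sq, map_one]
      · intro h
        have := congrArg (fun z => z.1.1) h
        exact W_sq_ne h2 this.symm
      · rw [Set.eq_univ_iff_forall]
        rintro ⟨⟨a, b⟩, hab⟩
        rw [MonoidHom.mem_ker, hψ] at hab
        have h3 : φ1 a = φ2 b⁻¹ := by rw [map_inv]; exact eq_inv_of_mul_eq_one_left hab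
        rcases hinf a _ h3 with h | h
        · left
          subst h
          rw [map_one, one_mul] at hab
          have hb : b = 1 := i2 (by rw [hab, map_one])
          subst hb
          rfl
        · right
          subst h
          have hb : b = Wl F * Wl F := by
            apply i2
            rw [t1] at hab
            rw [t2]
            have ht : t * t = 1 := by rw [← t1, ← map_mul, W_sq_sq, map_one]
            calc φ2 b = t * (t * φ2 b) := by rw [← mul_assoc, ht, one_mul]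
              _ = t := by rw [hab, mul_one]
          subst hb
          exact Set.mem_singleton_iff.2 (Subtype.ext rfl)
    have h3 := Subgroup.card_mul_index ψ.ker
    rw [hker, Subgroup.index_ker, hrange, Nat.card_prod, CfsgLib.G2C.card_SL] at h3
    have h4 := Subgroup.relIndex_mul_relIndex ⊥ (φ1.range ⊔ φ2.range) (Subgroup.centralizer ({t} : Set G)) bot_le hle
    rw [Subgroup.relIndex_bot_left, Subgroup.relIndex_bot_left, mul_comm] at h4
    rw [hC] at h4
    have hq : 1 < Fintype.card F := Fintype.one_lt_card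
    obtain ⟨m, hm⟩ : ∃ m, Fintype.card F = m + 1 := ⟨Fintype.card F - 1, by omega⟩
    have e5 : Fintype.card F ^ 2 - 1 = (Fintype.card F - 1) * (Fintype.card F + 1) := by
      rw [hm]; 
      have : (m + 1) ^ 2 = m * (m + 1 + 1) + 1 := by ring
      rw [this]; simp
    rw [e5] at h4
    have hpos : 0 < Nat.card ↥(φ1.range ⊔ φ2.range) := Nat.card_pos
    have h5 : (φ1.range ⊔ φ2.range).relIndex (Subgroup.centralizer ({t} : Set G)) * Nat.card ↥(φ1.range ⊔ φ2.range) =
        2 * Nat.card ↥(φ1.range ⊔ φ2.range) := by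
      rw [h4, h3]; ring
    exact Nat.eq_of_mul_eq_mul_right hpos h5

end abs

section
variable {D : ChevalleyDatum} {T : Tb} {F : Type*} [Field F] (o : OChk D T F)

include o

/-- injectivity of the homomorphism from SL₂ -/
theorem sl2_inj {r : ℕ} (hr : r < T.n) (hp : T.n / 2 ≤ r) {i : ℕ} (hi : i < T.l) (hci : T.c r i = 1)
    {φ : Matrix.SpecialLinearGroup (Fin 2) F →* GL D.Idx F}
    (h1 : ∀ t, φ (xx t) = o.g.X r t) (h2 : ∀ t, φ (yy t) = o.g.X (T.n - 1 - r) t) : Function.Injective φ := by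
  have g := o.g
  have hev := g.even
  have hN : ∀ u : F, φ (xx u * yy (-u⁻¹) * xx u) = g.Ng r u := by
    intro u
    rw [map_mul, map_mul, h1, h2]
    rfl
  rw [injective_iff_map_eq_one]
  intro a ha
  have hdet := det2 a
  by_cases hc : a 1 0 = 0
  · rw [hc, mul_zero, sub_zero] at hdet
    have ha0 : a 0 0 ≠ 0 := by intro h; rw [h, zero_mul] at hdet; exact zero_ne_one hdet
    have hdd : a 1 1 = (a 0 0)⁻¹ := (eq_inv_of_mul_eq_one_right hdet)
    have e1 : a * (xx 1 * yy (-(1 : F)⁻¹) * xx 1) = xx (a 0 0 * a 0 1) * (xx (a 0 0) * yy (-(a 0 0)⁻¹) * xx (a 0 0)) := by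
      apply ext2 <;> simp only [m00, m01, m10, m11, x00, x01, x10, x11, y00, y01, y10, y11, hc, hdd] <;> field_simp <;> ring
    have e2 := congrArg φ e1
    rw [map_mul φ a, map_mul φ (xx (a 0 0 * a 0 1)), hN, hN, h1, ha, one_mul] at e2
    have e3 := g.Ng_eq hr (Units.mk0 _ ha0)
    rw [Units.val_mk0] at e3
    rw [e3, ← mul_assoc] at e2
    have e4 : g.X r (a 0 0 * a 0 1) * hd D T r (Units.mk0 _ ha0) = 1 := by
      have := mul_right_cancel (a := (1 : GL D.Idx F)) (b := g.Ng r 1) (c := g.X r (a 0 0 * a 0 1) * hd D T r (Units.mk0 _ ha0)) (by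
        rw [one_mul]; exact e2)
      exact this.symm
    have e5 : g.X r (a 0 0 * a 0 1) = (hd D T r (Units.mk0 _ ha0))⁻¹ := eq_inv_of_mul_eq_one_left e4
    have e6 : g.X r (a 0 0 * a 0 1) ∈ D.posUnipotent F ⊓ D.diagonalSubgroup F :=
      ⟨g.X_mem_U hp hr _, by rw [e5]; exact Subgroup.inv_mem _ (g.hd_mem hr _)⟩
    rw [g.U_inf_H, Subgroup.mem_bot] at e6
    have hb := (g.X_eq_one hr).1 e6
    have hb0 : a 0 1 = 0 := by
      rcases mul_eq_zero.1 hb with h | h
      · exact absurd h ha0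
      · exact h
    rw [e6, one_mul, hd_hel, ← hel_one (D := D) (T := T)] at e4
    have e7 := o.inj _ _ e4 i hi
    simp only [hci, _root_.zpow_one] at e7
    have e8 : a 0 0 = 1 := by simpa using congrArg Units.val e7
    apply ext2
    · rw [e8]; rfl
    · rw [hb0]; rfl
    · rw [hc]; rfl
    · rw [hdd, e8, inv_one]; rfl
  · exfalso
    have hb : a 0 1 = (a 0 0 * a 1 1 - 1) / a 1 0 := by
      rw [eq_div_iff hc]; linear_combination -hdet
    have e1 : a = xx (a 0 0 / a 1 0) * (xx (-(a 1 0)⁻¹) * yy (-(-(a 1 0)⁻¹)⁻¹) * xx (-(a 1 0)⁻¹)) * xx (a 1 1 / a 1 0) := by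
      apply ext2 <;> simp only [m00, m01, m10, m11, x00, x01, x10, x11, y00, y01, y10, y11, hb] <;> field_simp <;> ring
    have e2 := congrArg φ e1
    rw [map_mul φ (xx (a 0 0 / a 1 0) * (xx (-(a 1 0)⁻¹) * yy (-(-(a 1 0)⁻¹)⁻¹) * xx (-(a 1 0)⁻¹))), map_mul φ (xx (a 0 0 / a 1 0)), hN, h1, h1, ha] at e2
    set u := -(a 1 0)⁻¹ with hu
    have hu0 : u ≠ 0 := neg_ne_zero.2 (inv_ne_zero hc)
    have e3 := g.Ng_eq hr (Units.mk0 _ hu0)
    rw [Units.val_mk0] at e3
    have e4 : g.Ng r u = g.X r (-(a 0 0 / a 1 0) + -(a 1 1 / a 1 0)) := by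
      rw [g.X_add, g.X_neg, g.X_neg]
      have : g.Ng r u = (g.X r (a 0 0 / a 1 0))⁻¹ * (g.X r (a 0 0 / a 1 0) * g.Ng r u * g.X r (a 1 1 / a 1 0)) * (g.X r (a 1 1 / a 1 0))⁻¹ := by group
      rw [this, ← e2]; group
    have e5 : g.Ng r u * g.X r 1 * (g.Ng r u)⁻¹ = g.X r 1 := by
      rw [e4, ← g.X_neg, ← g.X_add, ← g.X_add]; congr 1; ring
    rw [e3] at e5
    have e6 : hd D T r (Units.mk0 u hu0) * g.Ng r 1 * g.X r 1 * (hd D T r (Units.mk0 u hu0) * g.Ng r 1)⁻¹ =
      hd D T r (Units.mk0 u hu0) * (g.Ng r 1 * g.X r 1 * (g.Ng r 1)⁻¹) * (hd D T r (Units.mk0 u hu0))⁻¹ := by group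
    rw [e6, (g.oi_Ng_self hr).1, g.oi_hd_X r (by omega)] at e5
    have := g.X_eq_iff hr (by omega) one_ne_zero e5.symm
    omega

end

/-- elements commuting with a generating set -/
theorem sl2_comm {F : Type*} [Field F] {G : Type*} [Group G] (φ : Matrix.SpecialLinearGroup (Fin 2) F →* G) (y : G)
    (h1 : ∀ t, φ (xx t) * y = y * φ (xx t)) (h2 : ∀ t, φ (yy t) * y = y * φ (yy t)) (a : Matrix.SpecialLinearGroup (Fin 2) F) :
    φ a * y = y * φ a := by
  have hS := mem_of_gens ((Subgroup.centralizer {y}).comap φ) ?_ ?_ a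
  · rw [Subgroup.mem_comap, Subgroup.mem_centralizer_iff] at hS
    exact (hS y rfl).symm
  · intro t
    rw [Subgroup.mem_comap, Subgroup.mem_centralizer_iff]
    intro z hz
    rw [Set.mem_singleton_iff] at hz
    rw [hz]; exact (h1 t).symm
  · have e : (ww : Matrix.SpecialLinearGroup (Fin 2) F) = xx 1 * yy (-1) * xx 1 := by
      apply ext2 <;> simp [m00, m01, m10, m11, x00, x01, x10, x11, y00, y01, y10, y11, w00, w01, w10, w11]
    rw [e, Subgroup.mem_comap, Subgroup.mem_centralizer_iff]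
    intro z hz
    rw [Set.mem_singleton_iff] at hz
    rw [hz, map_mul, map_mul]
    have a1 := h1 1
    have a2 := h2 (-1)
    calc y * (φ (xx 1) * φ (yy (-1)) * φ (xx 1)) = (y * φ (xx 1)) * φ (yy (-1)) * φ (xx 1) := by group
      _ = φ (xx 1) * (y * φ (yy (-1))) * φ (xx 1) := by rw [← a1]; group
      _ = φ (xx 1) * φ (yy (-1)) * (y * φ (xx 1)) := by rw [← a2]; group
      _ = _ := by rw [← a1]; group

section
variable {F : Type*} [Field F]

theorem cG2 : ∀ r ∈ [7, 4], ∀ s ∈ [11, 0], Tb.commT tG2.ent r s = [] := by decide +kernel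

theorem comm_G2 {r s : ℕ} (hr : r ∈ [7, 4]) (hs : s ∈ [11, 0]) (t u : F) :
    good3_G2.X r t * good3_G2.X s u = good3_G2.X s u * good3_G2.X r t := by
  have h := cG2 r hr s hs
  have hn : tG2.n = 12 := rfl
  have h1 : r < tG2.n := by rw [hn]; simp at hr; omega
  have h2 : s < tG2.n := by rw [hn]; simp at hs; omega
  have h3 : s ≠ r := by simp at hr hs; omega
  have h4 : s ≠ tG2.n - 1 - r := by rw [hn]; simp at hr hs; omega
  have := good3_G2.X_comm (F := F) h1 h2 h3 h4 t u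
  rw [h] at this
  rw [this]; simp

end

end CfsgLib.OI
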