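import Mathlib
import Cfsg.Agent.LibOI1

set_option autoImplicit false
set_option linter.all false

/-! involutions of Chevalley groups in odd characteristic, 2 (seat helper23) -/

namespace CfsgLib.OI

open Cfsg.Lie Matrix CfsgLib.Chev CfsgLib.Chev.Good3 CfsgLib.SL2P

section ff
variable {F : Type*} [Field F]

/-- for a non-square `c` there is `z` with `1 - c z²` a non-square -/
theorem exists_tog [Finite F] {c : F} (hc : ¬ IsSquare c) : ∃ z, ¬ IsSquare (1 - c * z ^ 2) := by
  by_contra hcon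
  push Not at hcon
  have hc0 : c ≠ 0 := by rintro rfl; exact hc ⟨0, by simp⟩
  let f : {x : F // IsSquare x} → {x : F // IsSquare x} := fun s => ⟨1 - c * s.1, by
    obtain ⟨z, hz⟩ := s.2
    rw [hz, ← pow_two]
    exact hcon z⟩
  have hinj : Function.Injective f := by
    rintro ⟨a, ha⟩ ⟨b, hb⟩ h
    have h1 : 1 - c * a = 1 - c * b := congrArg Subtype.val h
    have h2 : c * a = c * b := by linear_combination -h1
    exact Subtype.ext (mul_left_cancel₀ hc0 h2)
  obtain ⟨s, hs⟩ := (Finite.injective_iff_surjective.1 hinj) ⟨0, ⟨0, by simp⟩⟩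
  have h1 : 1 - c * s.1 = 0 := congrArg Subtype.val hs
  obtain ⟨z, hz⟩ := s.2
  apply hc
  have hs0 : s.1 ≠ 0 := by
    intro h; rw [h] at h1; simp at h1
  have hz0 : z ≠ 0 := by
    rintro rfl; exact hs0 (by rw [hz]; simp)
  refine ⟨z⁻¹, ?_⟩
  rw [hz] at h1
  field_simp
  linear_combination -h1

theorem nonsq_mul [Finite F] (h2 : (2 : F) ≠ 0) {a b : F} (ha : ¬ IsSquare a) (hb : ¬ IsSquare b) : IsSquare (a * b) := by
  classical
  haveI := Fintype.ofFinite F
  have hF : ringChar F ≠ 2 := by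
    intro h
    apply h2
    have := ringChar.Nat.cast_ringChar (R := F)
    rw [h] at this
    exact_mod_cast this
  have hab : a * b ≠ 0 := mul_ne_zero (by rintro rfl; exact ha ⟨0, by simp⟩) (by rintro rfl; exact hb ⟨0, by simp⟩)
  rw [← quadraticChar_one_iff_isSquare hab, map_mul, (quadraticChar_neg_one_iff_not_isSquare).2 ha,
    (quadraticChar_neg_one_iff_not_isSquare).2 hb]
  norm_num

theorem nonsq_zpow {b : F} (hb : ¬ IsSquare b) {m : ℤ} (hm : m % 2 = 1) : ¬ IsSquare (b ^ m) := by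
  have hb0 : b ≠ 0 := by rintro rfl; exact hb ⟨0, by simp⟩
  rintro ⟨x, hx⟩
  apply hb
  have e : m = 2 * (m / 2) + 1 := by omega
  rw [e, zpow_add₀ hb0, _root_.zpow_mul, _root_.zpow_one] at hx
  have hy : b ^ (m / 2) ≠ 0 := zpow_ne_zero _ hb0
  refine ⟨x / b ^ (m / 2), ?_⟩
  have : (b ^ (2 : ℤ)) ^ (m / 2) = b ^ (m / 2) * b ^ (m / 2) := by
    rw [← _root_.zpow_mul, ← zpow_add₀ hb0]; congr 1; ring
  rw [this] at hx
  field_simp
  linear_combination hx

end ff

/-- checks on orthogonal pairs of simple roots -/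
noncomputable def _root_.CfsgLib.Chev.Tb.chkOrt (T : Tb) : Bool :=
  allB T.l fun i => decide (T.eta i (T.sim i) = -1) && allB T.l fun k => Nat.beq k i ||
    ((!decide (T.A i (T.sim k) = 0) || (decide (T.eta i (T.sim k) = 1) && decide (T.eta i (T.n - 1 - T.sim k) = 1))) &&
     (!decide (T.A i (T.sim k) % 2 = 0) || (!decide (T.A k (T.sim i) % 2 = 0) || decide (T.A i (T.sim k) = 0))))

theorem ort_G2 : tG2.chkOrt = true := by decide +kernel
theorem ort_F4 : tF4.chkOrt = true := by decide +kernel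
theorem ort_E8 : tE8.chkOrt = true := by decide +kernel

structure OChk (D : ChevalleyDatum) (T : Tb) (F : Type*) [Field F] : Prop where
  g : Good3 D T
  e1 : ∀ i < T.l, T.eta i (T.sim i) = -1
  e2 : ∀ i < T.l, ∀ k < T.l, k ≠ i → T.A i (T.sim k) = 0 → T.eta i (T.sim k) = 1 ∧ T.eta i (T.n - 1 - T.sim k) = 1
  e3 : ∀ i < T.l, ∀ k < T.l, k ≠ i → T.A i (T.sim k) % 2 = 0 → T.A k (T.sim i) % 2 = 0 → T.A i (T.sim k) = 0
  inj : ∀ a b : ℕ → Fˣ, hel D T a = hel D T b → ∀ i < T.l, a i = b i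

theorem ochk_of {D : ChevalleyDatum} {T : Tb} (g : Good3 D T) (h : T.chkOrt = true) {P Pi Q Qi : List (List ℤ)} {s : List ℤ}
    (hS : T.SmithChk P Pi Q Qi s) (hs : ∀ j : Fin T.l, (s.getD j 0).natAbs = 1) (F : Type*) [Field F] : OChk D T F := by
  have h1 := (allB_iff _ _).1 h
  refine ⟨g, ?_, ?_, ?_, ?_⟩
  · intro i hi
    have := h1 i hi
    rw [Bool.and_eq_true] at this
    simpa using this.1
  · intro i hi k hk hki hA
    have := h1 i hi
    rw [Bool.and_eq_true] at this
    have h2 := (allB_iff _ _).1 this.2 k hk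
    simp only [Bool.or_eq_true, Bool.and_eq_true, Bool.not_eq_true', decide_eq_true_eq, decide_eq_false_iff_not, Nat.beq_eq_true_eq] at h2
    rcases h2 with h2 | h2
    · exact absurd (Nat.eq_of_beq_eq_true h2) hki
    · rcases h2.1 with h3 | h3
      · exact absurd hA h3
      · exact h3
  · intro i hi k hk hki hA hA'
    have := h1 i hi
    rw [Bool.and_eq_true] at this
    have h2 := (allB_iff _ _).1 this.2 k hk
    simp only [Bool.or_eq_true, Bool.and_eq_true, Bool.not_eq_true', decide_eq_true_eq, decide_eq_false_iff_not, Nat.beq_eq_true_eq] at h2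
    rcases h2 with h2 | h2
    · exact absurd (Nat.eq_of_beq_eq_true h2) hki
    · rcases h2.2 with h3 | h3 | h3
      · exact absurd hA h3
      · exact absurd hA' h3
      · exact h3
  · intro a b hab i hi
    have h3 : hel D T (fun i => a i * (b i)⁻¹) = 1 := by
      rw [← hel_mul, hab, ← hel_inv, mul_inv_cancel]
    rw [g.hel_eq_one] at h3
    have h4 := CfsgLib.ChevFix.ker_trivial hS hs (fun i : Fin T.l => a i * (b i)⁻¹) (by
      funext j
      have := h3 j.1 j.2
      rw [CfsgLib.Tor.nu_apply, _root_.Pi.one_apply, ← this]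
      unfold hchi
      rw [Finset.prod_range]
      rfl)
    have := congrFun h4 ⟨i, hi⟩
    exact mul_inv_eq_one.1 this


section
variable {D : ChevalleyDatum} {T : Tb} {F : Type*} [Field F] (o : OChk D T F)

include o

theorem nn_hel {k : ℕ} (hk : k < T.l) (a : ℕ → Fˣ) :
    o.g.nn k * hel D T a * (o.g.nn k)⁻¹ = hel D T (fun i => if i = k then a i * (hchi T a (T.sim k))⁻¹ else a i) := by
  have g := o.g
  have hev := g.even
  have hs := g.sim_lt hk
  -- h⁻¹ * nn k * h
  have h1 : ∀ r < T.n, ∀ t : F, (hel D T a)⁻¹ * g.X r t * hel D T a = g.X r (((hchi T a r)⁻¹ : Fˣ) * t) := by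
    intro r hr t
    have := g.hel_X a hr (((hchi T a r)⁻¹ : Fˣ) * t)
    have e : ((hchi T a r : Fˣ) : F) * ((((hchi T a r)⁻¹ : Fˣ) : F) * t) = t := by
      rw [← mul_assoc, ← Units.val_mul, mul_inv_cancel, Units.val_one, one_mul]
    rw [e] at this
    rw [← this]; group
  have h2 : (hel D T a)⁻¹ * g.nn k * hel D T a = g.Ng (T.sim k) (((hchi T a (T.sim k))⁻¹ : Fˣ) : F) := by
    unfold nn Ng
    have : (hel D T a)⁻¹ * (g.X (T.sim k) (1 : F) * g.X (T.n - 1 - T.sim k) (-(1 : F)⁻¹) * g.X (T.sim k) 1) * hel D T a =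
      ((hel D T a)⁻¹ * g.X (T.sim k) (1 : F) * hel D T a) * ((hel D T a)⁻¹ * g.X (T.n - 1 - T.sim k) (-(1 : F)⁻¹) * hel D T a) *
      ((hel D T a)⁻¹ * g.X (T.sim k) (1 : F) * hel D T a) := by group
    rw [this, h1 _ hs, h1 _ (by omega)]
    congr 2
    · simp
    · congr 1
      have hn : hchi T a (T.n - 1 - T.sim k) = (hchi T a (T.sim k))⁻¹ := by
        unfold hchi
        rw [← Finset.prod_inv_distrib]
        apply Finset.prod_congr rfl
        intro i hi
        rw [g.A_neg hs (Finset.mem_range.1 hi), _root_.zpow_neg]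
      rw [hn]; simp
    · simp
  have h3 : g.nn k * hel D T a * (g.nn k)⁻¹ = hel D T a * ((hel D T a)⁻¹ * g.nn k * hel D T a) * (g.nn k)⁻¹ := by group
  rw [h3, h2, g.Ng_tor hk]
  have h4 : hel D T a * (hd D T (T.sim k) (hchi T a (T.sim k))⁻¹ * g.nn k) * (g.nn k)⁻¹ = hel D T a * hd D T (T.sim k) (hchi T a (T.sim k))⁻¹ := by group
  rw [h4, hd_hel, hel_mul]
  unfold hel
  congr 1
  funext s
  apply Finset.prod_congr rfl
  intro i hi
  congr 1
  beta_reduce
  rw [g.c_sim hk (Finset.mem_range.1 hi)]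
  by_cases h : k = i
  · rw [if_pos h, if_pos h.symm, _root_.zpow_one]
  · rw [if_neg h, if_neg (Ne.symm h), _root_.zpow_zero, mul_one]

theorem nn_ort {i k : ℕ} (hi : i < T.l) (hk : k < T.l) (hki : k ≠ i) (hA : T.A i (T.sim k) = 0) (t : F) :
    o.g.nn i * o.g.X (T.sim k) t = o.g.X (T.sim k) t * o.g.nn i ∧
    o.g.nn i * o.g.X (T.n - 1 - T.sim k) t = o.g.X (T.n - 1 - T.sim k) t * o.g.nn i := by
  have g := o.g
  have hev := g.even
  have hs := g.sim_lt hk
  obtain ⟨h1, h2⟩ := o.e2 i hi k hk hki hA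
  have e1 := g.nn_X_conj (F := F) hi hs t
  have e2 := g.nn_X_conj (F := F) hi (r := T.n - 1 - T.sim k) (by omega) t
  rw [h1, g.w_fix hi hs hA] at e1
  rw [h2, g.w_fix hi (by omega) (by rw [g.A_neg hs hi, hA]; rfl)] at e2
  constructor
  · rw [mul_inv_eq_iff_eq_mul] at e1
    rw [e1]; simp
  · rw [mul_inv_eq_iff_eq_mul] at e2
    rw [e2]; simp

theorem nn_nn {i k : ℕ} (hi : i < T.l) (hk : k < T.l) (hki : k ≠ i) (hA : T.A i (T.sim k) = 0) :
    o.g.nn (F := F) i * o.g.nn k = o.g.nn k * o.g.nn i := by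
  have h := fun t => nn_ort o hi hk hki hA t
  conv_lhs => rw [show o.g.nn (F := F) k = o.g.Ng (T.sim k) 1 from rfl]
  conv_rhs => rw [show o.g.nn (F := F) k = o.g.Ng (T.sim k) 1 from rfl]
  unfold Ng
  rw [← mul_assoc, ← mul_assoc, (h _).1, mul_assoc (o.g.X (T.sim k) (1 : F)) (o.g.nn i), (h _).2]
  simp only [mul_assoc]
  rw [(h _).1]

/-- pairwise orthogonal lists of simple roots -/
def OL (T : Tb) (L : List ℕ) : Prop := L.Pairwise fun i k => k ≠ i ∧ T.A i (T.sim k) = 0 ∧ T.A k (T.sim i) = 0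

omit o in
theorem hchi_congr {a b : ℕ → Fˣ} {s : ℕ} (h : ∀ i < T.l, T.A i s ≠ 0 → a i = b i) : hchi T a s = hchi T b s := by
  unfold hchi
  apply Finset.prod_congr rfl
  intro i hi
  by_cases hA : T.A i s = 0
  · rw [hA, _root_.zpow_zero, _root_.zpow_zero]
  · rw [h i (Finset.mem_range.1 hi) hA]

omit o in
theorem hel_congr {a b : ℕ → Fˣ} (h : ∀ i < T.l, a i = b i) : hel D T a = hel D T b := by
  unfold hel
  congr 1
  funext s
  apply Finset.prod_congr rfl
  intro i hi
  rw [h i (Finset.mem_range.1 hi)]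

theorem nw_hel {L : List ℕ} (hL : ∀ i ∈ L, i < T.l) (hO : OL T L) (a : ℕ → Fˣ) :
    o.g.nw L * hel D T a * (o.g.nw L)⁻¹ = hel D T (fun i => if i ∈ L then a i * (hchi T a (T.sim i))⁻¹ else a i) := by
  induction L with
  | nil => simp [o.g.nw_nil]
  | cons k L ih =>
    unfold OL at hO
    rw [List.pairwise_cons] at hO
    have ih' := ih (fun i hi => hL i (List.mem_cons_of_mem _ hi)) hO.2
    rw [o.g.nw_cons]
    have e : o.g.nn k * o.g.nw L * hel D T a * (o.g.nn k * o.g.nw L)⁻¹ = o.g.nn k * (o.g.nw L * hel D T a * (o.g.nw L)⁻¹) * (o.g.nn k)⁻¹ := by group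
    rw [e, ih', nn_hel o (hL k List.mem_cons_self)]
    apply hel_congr
    intro i hi
    have hkL : k ∉ L := fun h => (hO.1 k h).1 rfl
    by_cases hik : i = k
    · subst hik
      rw [if_pos rfl, if_pos List.mem_cons_self, if_neg hkL]
      congr 2
      apply hchi_congr
      intro j hj hA
      rw [if_neg]
      intro hjL
      exact hA (hO.1 j hjL).2.2
    · rw [if_neg hik]
      by_cases hiL : i ∈ L
      · rw [if_pos hiL, if_pos (List.mem_cons_of_mem _ hiL)]
      · rw [if_neg hiL, if_neg]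
        intro h
        rcases List.mem_cons.1 h with h | h
        · exact hik h
        · exact hiL h

theorem nn_nw {k : ℕ} {L : List ℕ} (hk : k < T.l) (hL : ∀ i ∈ L, i < T.l) (hO : ∀ i ∈ L, i ≠ k ∧ T.A k (T.sim i) = 0) :
    o.g.nn (F := F) k * o.g.nw L = o.g.nw L * o.g.nn k := by
  induction L with
  | nil => simp [o.g.nw_nil]
  | cons i L ih =>
    rw [o.g.nw_cons, ← mul_assoc, nn_nn o hk (hL i List.mem_cons_self) (hO i List.mem_cons_self).1 (hO i List.mem_cons_self).2,
      mul_assoc, ih (fun j hj => hL j (List.mem_cons_of_mem _ hj)) (fun j hj => hO j (List.mem_cons_of_mem _ hj)), mul_assoc]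

theorem nw_sq {L : List ℕ} (hL : ∀ i ∈ L, i < T.l) (hO : OL T L) :
    o.g.nw L * o.g.nw L = hel D T (fun i => if i ∈ L then (-1 : Fˣ) else 1) := by
  induction L with
  | nil =>
    rw [o.g.nw_nil, mul_one, ← hel_one (D := D) (T := T)]
    apply hel_congr
    intro i hi
    simp
  | cons k L ih =>
    unfold OL at hO
    rw [List.pairwise_cons] at hO
    have ih' := ih (fun i hi => hL i (List.mem_cons_of_mem _ hi)) hO.2
    have hk := hL k List.mem_cons_self
    rw [o.g.nw_cons]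
    have e : o.g.nn (F := F) k * o.g.nw L * (o.g.nn k * o.g.nw L) = (o.g.nn k * o.g.nn k) * (o.g.nw L * o.g.nw L) := by
      have := nn_nw o hk (fun i hi => hL i (List.mem_cons_of_mem _ hi)) (fun i hi => ⟨(hO.1 i hi).1, (hO.1 i hi).2.1⟩)
      calc _ = o.g.nn k * (o.g.nw L * o.g.nn k) * o.g.nw L := by simp only [mul_assoc]
        _ = _ := by rw [← this]; simp only [mul_assoc]
    rw [e, o.g.nn_sq hk, ih', hd_hel, hel_mul]
    apply hel_congr
    intro i hi
    have hkL : k ∉ L := fun h => (hO.1 k h).1 rfl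
    rw [o.g.c_sim hk hi]
    by_cases hik : k = i
    · subst hik
      rw [if_pos rfl, if_neg hkL, if_pos List.mem_cons_self]
      simp
    · rw [if_neg hik]
      by_cases hiL : i ∈ L
      · rw [if_pos hiL, if_pos (List.mem_cons_of_mem _ hiL)]; simp
      · rw [if_neg hiL, if_neg]
        · simp
        · intro h
          rcases List.mem_cons.1 h with h | h
          · exact hik h.symm
          · exact hiL h

theorem nw_ort {L : List ℕ} (hL : ∀ i ∈ L, i < T.l) {k : ℕ} (hk : k < T.l) (hO : ∀ i ∈ L, k ≠ i ∧ T.A i (T.sim k) = 0) (t : F) :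
    o.g.nw L * o.g.X (T.sim k) t = o.g.X (T.sim k) t * o.g.nw L ∧
    o.g.nw L * o.g.X (T.n - 1 - T.sim k) t = o.g.X (T.n - 1 - T.sim k) t * o.g.nw L := by
  induction L with
  | nil => simp [o.g.nw_nil]
  | cons i L ih =>
    have ih' := ih (fun j hj => hL j (List.mem_cons_of_mem _ hj)) (fun j hj => hO j (List.mem_cons_of_mem _ hj))
    have h := nn_ort o (hL i List.mem_cons_self) hk (hO i List.mem_cons_self).1 (hO i List.mem_cons_self).2 t
    rw [o.g.nw_cons]
    constructor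
    · rw [mul_assoc, ih'.1, ← mul_assoc, h.1, mul_assoc]
    · rw [mul_assoc, ih'.2, ← mul_assoc, h.2, mul_assoc]

/-- action of a product of orthogonal reflections on one of its roots -/
theorem nw_X_mem {L : List ℕ} (hL : ∀ i ∈ L, i < T.l) (hO : OL T L) {k : ℕ} (hk : k ∈ L) (t : F) :
    o.g.nw L * o.g.X (T.sim k) t * (o.g.nw L)⁻¹ = o.g.X (T.n - 1 - T.sim k) (-t) := by
  induction L with
  | nil => simp at hk
  | cons i L ih =>
    unfold OL at hO
    rw [List.pairwise_cons] at hO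
    have hL' : ∀ i ∈ L, i < T.l := fun j hj => hL j (List.mem_cons_of_mem _ hj)
    have hi := hL i List.mem_cons_self
    rw [o.g.nw_cons]
    have e : o.g.nn i * o.g.nw L * o.g.X (T.sim k) t * (o.g.nn i * o.g.nw L)⁻¹ = o.g.nn i * (o.g.nw L * o.g.X (T.sim k) t * (o.g.nw L)⁻¹) * (o.g.nn i)⁻¹ := by group
    rw [e]
    rcases List.mem_cons.1 hk with rfl | hkL
    · have h1 := (nw_ort o hL' hi (fun j hj => ⟨Ne.symm (hO.1 j hj).1, (hO.1 j hj).2.2⟩) t).1
      rw [h1]
      have h2 := o.g.nn_X_conj (F := F) hi (o.g.sim_lt hi) t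
      rw [o.e1 k hi, o.g.w_sim hi] at h2
      have e3 : o.g.nn k * (o.g.X (T.sim k) t * o.g.nw L * (o.g.nw L)⁻¹) * (o.g.nn k)⁻¹ = o.g.nn k * o.g.X (T.sim k) t * (o.g.nn k)⁻¹ := by group
      rw [e3, h2]; congr 1; simp
    · rw [ih hL' hO.2 hkL]
      have h1 := (nn_ort o hi (hL' k hkL) (hO.1 k hkL).1 (hO.1 k hkL).2.1 (-t)).2
      rw [h1]; group

end

end CfsgLib.OI
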