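import Cfsg.Agent.LibOS29e

set_option autoImplicit false

/-! Imprimitive subgroups of orthogonal groups: the blocks. -/

namespace CfsgLib.OI29

open scoped MatrixGroups Matrix
open Cfsg CfsgLib.MaxTv29 CfsgLib.OM29 Cfsg.Agent.H22 Module

variable {ι : Type} [Fintype ι] [DecidableEq ι] {F : Type*} [Field F] {Q : QuadraticForm F (ι → F)}

local notation "B" => QuadraticMap.polar Q

theorem inf_ge (hQ : (QuadraticMap.polarBilin Q).Nondegenerate) (A W : Submodule F (ι → F)) :
    finrank F W ≤ finrank F (orth Q A ⊓ W : Submodule F (ι → F)) + finrank F A := by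
  have h1 := finrank_orth hQ A
  have h2 := Submodule.finrank_sup_add_finrank_inf_eq (orth Q A) W
  have h3 := Submodule.finrank_le (orth Q A ⊔ W)
  omega

theorem fr_single (x : ι → F) : finrank F (Submodule.span F {x}) ≤ 1 := by
  by_cases hz : x = 0
  · rw [hz, Submodule.span_zero_singleton, finrank_bot]; omega
  · rw [finrank_span_singleton hz]

theorem exists_sing [Finite F] {W : Submodule F (ι → F)} (h3 : 3 ≤ finrank F W) : ∃ e ∈ W, e ≠ 0 ∧ Q e = 0 := by
  obtain ⟨e, he, hQe, hne⟩ := exists_singular_avoid Q W ⊥ (by rw [finrank_bot]; omega)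
  exact ⟨e, he, fun h => hne (by rw [h]; exact zero_mem _), hQe⟩

theorem partner {W : Submodule F (ι → F)} (hW : ND Q W) {e : ι → F} (he : e ∈ W) (he0 : e ≠ 0) : ∃ z ∈ W, B e z ≠ 0 := by
  by_contra hcon
  push Not at hcon
  exact he0 (hW e he hcon)

theorem hyp {W : Submodule F (ι → F)} (hW : ND Q W) {e : ι → F} (he : e ∈ W) (he0 : e ≠ 0) (hQe : Q e = 0) : ∃ f ∈ W, Q f = 0 ∧ B e f = 1 := by
  obtain ⟨z, hz, hez⟩ := partner hW he he0
  refine ⟨(B e z)⁻¹ • z + (-Q ((B e z)⁻¹ • z)) • e, W.add_mem (W.smul_mem _ hz) (W.smul_mem _ he), ?_, ?_⟩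
  · rw [qadd, qsmul Q (-Q ((B e z)⁻¹ • z)), hQe, QuadraticMap.polar_smul_right, QuadraticMap.polar_smul_left, bsymm z e]
    simp only [smul_eq_mul]
    rw [inv_mul_cancel₀ hez]; ring
  · rw [QuadraticMap.polar_add_right, QuadraticMap.polar_smul_right, QuadraticMap.polar_smul_right, bself hQe]
    simp only [smul_eq_mul]
    rw [inv_mul_cancel₀ hez]; ring

theorem nonsing (hQ : (QuadraticMap.polarBilin Q).Nondegenerate) {W : Submodule F (ι → F)} (hW : ND Q W) (h3 : 3 ≤ finrank F W) {y y' : ι → F} (hy : y ∈ W) (hy' : y' ∈ W)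
    (hQy : Q y = 0) (hQy' : Q y' = 0) (h : B y y' ≠ 0) : ∃ b ∈ W, B y b = 0 ∧ B y' b = 0 ∧ Q b ≠ 0 := by
  by_contra hcon
  push Not at hcon
  have h1 := inf_ge hQ (Submodule.span F {y, y'}) W
  have h2 := fr_pair y y'
  have h4 : 0 < finrank F (orth Q (Submodule.span F {y, y'}) ⊓ W : Submodule F (ι → F)) := by omega
  rw [Module.finrank_pos_iff, Submodule.nontrivial_iff_ne_bot] at h4
  obtain ⟨z, hz, hz0⟩ := Submodule.exists_mem_ne_zero_of_ne_bot h4
  have hyz : B y z = 0 := mem_orth.mp hz.1 y (mem_pair_left y y')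
  have hyz' : B y' z = 0 := mem_orth.mp hz.1 y' (mem_pair_right y y')
  apply hz0
  apply hW z hz.2
  intro x hx
  have h' : B y' y ≠ 0 := by rw [bsymm]; exact h
  set x' := x + (-(B y' x / B y' y)) • y + (-(B y x / B y y')) • y' with hx'
  have hx'W : x' ∈ W := W.add_mem (W.add_mem hx (W.smul_mem _ hy)) (W.smul_mem _ hy')
  have e1 : B y x' = 0 := by
    rw [hx']
    simp only [QuadraticMap.polar_add_right, QuadraticMap.polar_smul_right, smul_eq_mul, bself hQy]
    have := div_mul_cancel₀ (B y x) h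
    linear_combination -this
  have e2 : B y' x' = 0 := by
    rw [hx']
    simp only [QuadraticMap.polar_add_right, QuadraticMap.polar_smul_right, smul_eq_mul, bself hQy']
    have := div_mul_cancel₀ (B y' x) h'
    linear_combination -this
  have e3 : B z x' = B z x := by
    rw [hx']
    simp only [QuadraticMap.polar_add_right, QuadraticMap.polar_smul_right, smul_eq_mul, bsymm z y, bsymm z y', hyz, hyz']
    ring
  have e4 := hcon (z + x') (W.add_mem hz.2 hx'W) (by rw [QuadraticMap.polar_add_right, hyz, e1, add_zero]) (by rw [QuadraticMap.polar_add_right, hyz', e2, add_zero])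
  rw [qadd, hcon z hz.2 hyz hyz', hcon x' hx'W e1 e2, zero_add, zero_add, e3] at e4
  exact e4

theorem nonsing1 (hQ : (QuadraticMap.polarBilin Q).Nondegenerate) {W : Submodule F (ι → F)} (hW : ND Q W) (h3 : 3 ≤ finrank F W) {y : ι → F} (hy : y ∈ W)
    (hy0 : y ≠ 0) (hQy : Q y = 0) : ∃ b ∈ W, B y b = 0 ∧ Q b ≠ 0 := by
  obtain ⟨f, hf, hQf, hyf⟩ := hyp hW hy hy0 hQy
  obtain ⟨b, hb, h1, _, h2⟩ := nonsing hQ hW h3 hy hf hQy hQf (by rw [hyf]; exact one_ne_zero)
  exact ⟨b, hb, h1, h2⟩

theorem sing_span [Finite F] {W : Submodule F (ι → F)} (hW : ND Q W) (h3 : 3 ≤ finrank F W) (A : Submodule F (ι → F)) (hA : ∀ y ∈ W, Q y = 0 → y ∈ A) : W ≤ A := by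
  obtain ⟨e, he, he0, hQe⟩ := exists_sing (Q := Q) h3
  obtain ⟨z, hz, hez⟩ := partner hW he he0
  exact rich_of he hQe hz hez A hA

theorem exists_sing_ne [Finite F] {W : Submodule F (ι → F)} (hW : ND Q W) (h3 : 3 ≤ finrank F W) {x : ι → F} (h : ∃ y ∈ W, B x y ≠ 0) : ∃ y ∈ W, Q y = 0 ∧ B x y ≠ 0 := by
  by_contra hcon
  push Not at hcon
  obtain ⟨y, hy, hxy⟩ := h
  have := sing_span hW h3 (orth Q (Submodule.span F {x})) (fun y hy hQy => mem_orth_span.mpr (hcon y hy hQy)) hy
  exact hxy (mem_orth_span.mp this)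

/-- two independent vectors are separated -/
theorem separate {W : Submodule F (ι → F)} (hQ : (QuadraticMap.polarBilin Q).Nondegenerate) (hW : ND Q W) {a b : ι → F} (ha : a ∈ W) (hb : b ∈ W)
    (h : a ∉ Submodule.span F {b}) : ∃ s ∈ W, B b s = 0 ∧ B a s ≠ 0 := by
  by_contra hcon
  push Not at hcon
  have h0 : a ∉ Submodule.span F {b} ⊔ orth Q W := by
    intro h1
    obtain ⟨y, hy, z, hz, hyz⟩ := Submodule.mem_sup.mp h1
    have hyW : y ∈ W := (Submodule.span_le.mpr (by simpa using hb)) hy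
    have hzW : z ∈ W := by
      have : z = a - y := by rw [← hyz, add_sub_cancel_left]
      rw [this]; exact W.sub_mem ha hyW
    have hz0 : z = 0 := ND.inf hW hzW hz
    rw [hz0, add_zero] at hyz
    exact h (hyz ▸ hy)
  obtain ⟨s, hs, has⟩ := orth_func hQ _ a h0
  rw [orth_sup, orth_orth hQ] at hs
  exact has (hcon s hs.2 (mem_orth_span.mp hs.1))

/-- blocks -/
structure Blk (Q : QuadraticForm F (ι → F)) (M : Subgroup (GL ι F)) (k : ℕ) (W : Submodule F (ι → F)) : Prop where
  nd : ND Q W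
  dim : finrank F W = k
  mem : ∀ a ∈ W, ∀ b ∈ W, Q a = 0 → QuadraticMap.polar Q a b = 0 → EM Q a b ∈ M
  star : ∀ a ∈ W, Q a = 0 → a ≠ 0 → ∀ x, QuadraticMap.polar Q a x = 0 → EM Q a x ∈ M → x ∈ W

variable {M : Subgroup (GL ι F)} {k : ℕ} {W W' : Submodule F (ι → F)}

theorem mem_map_le {g : GL ι F} {x : ι → F} : x ∈ W.map (le g).toLinearMap ↔ ((g⁻¹ : GL ι F) : Matrix ι ι F) *ᵥ x ∈ W := by
  constructor
  · rintro ⟨y, hy, rfl⟩
    have : ((g⁻¹ : GL ι F) : Matrix ι ι F) *ᵥ ((le g).toLinearMap y) = y := inv_mulVec_mulVec g y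
    rw [this]; exact hy
  · intro h
    exact ⟨_, h, mulVec_inv_mulVec g x⟩

theorem Blk.map (hM : M ≤ Cfsg.isometryGroup F ⇑Q) (h : Blk Q M k W) {g : GL ι F} (hg : g ∈ M) : Blk Q M k (W.map (le g).toLinearMap) := by
  have hgi := M.inv_mem hg
  have hi := hM hg
  have hii := hM hgi
  refine ⟨?_, ?_, ?_, ?_⟩
  · intro w hw h1
    have h2 : ((g⁻¹ : GL ι F) : Matrix ι ι F) *ᵥ w = 0 := by
      apply h.nd _ (mem_map_le.mp hw)
      intro x hx
      have := h1 ((g : Matrix ι ι F) *ᵥ x) ⟨x, hx, rfl⟩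
      rw [← isoQ_polar hii, inv_mulVec_mulVec] at this
      exact this
    rw [← mulVec_inv_mulVec g w, h2, Matrix.mulVec_zero]
  · rw [← h.dim]
    exact LinearEquiv.finrank_map_eq (le g) W
  · intro a ha b hb hQa hab
    have h1 := h.mem _ (mem_map_le.mp ha) _ (mem_map_le.mp hb) (by rw [(mem_isoQ _).mp hii]; exact hQa) (by rw [isoQ_polar hii]; exact hab)
    have h2 := EM_conj hi (v := ((g⁻¹ : GL ι F) : Matrix ι ι F) *ᵥ a) (w := ((g⁻¹ : GL ι F) : Matrix ι ι F) *ᵥ b)
      (by rw [(mem_isoQ _).mp hii]; exact hQa) (by rw [isoQ_polar hii]; exact hab)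
    rw [mulVec_inv_mulVec, mulVec_inv_mulVec] at h2
    rw [← h2]
    exact M.mul_mem (M.mul_mem hg h1) hgi
  · intro a ha hQa ha0 x hax hx
    rw [mem_map_le]
    have ha0' : ((g⁻¹ : GL ι F) : Matrix ι ι F) *ᵥ a ≠ 0 := by
      intro h1
      apply ha0
      rw [← mulVec_inv_mulVec g a, h1, Matrix.mulVec_zero]
    apply h.star _ (mem_map_le.mp ha) (by rw [(mem_isoQ _).mp hii]; exact hQa) ha0' _ (by rw [isoQ_polar hii]; exact hax)
    rw [← EM_conj hii hQa hax]
    exact M.mul_mem (M.mul_mem hgi hx) (M.inv_mem hgi)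

theorem Blk.eq (hW : Blk Q M k W) (hW' : Blk Q M k W') {b : ι → F} (hb : b ∈ W) (hb' : b ∈ W') (hQb : Q b = 0) (hb0 : b ≠ 0) {x : ι → F} (hx : x ∈ W')
    (hbx : B b x = 0) : x ∈ W := hW.star b hb hQb hb0 x hbx (hW'.mem b hb' x hx hQb hbx)

/-- the case of large blocks -/
theorem Blk.dich5 [Finite F] (hQ : (QuadraticMap.polarBilin Q).Nondegenerate) (hM : M ≤ Cfsg.isometryGroup F ⇑Q) (hk : 5 ≤ k) (hW : Blk Q M k W) (hW' : Blk Q M k W') :
    W' ≤ W ∨ W' ≤ orth Q W := by
  have hd := hW.dim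
  have hd' := hW'.dim
  -- every singular vector of `W'` is in `W` or orthogonal to `W`
  have C1 : ∀ a ∈ W', Q a = 0 → a ∉ W → a ∈ orth Q W := by
    intro a ha hQa haW
    by_contra haW'
    have ha0 : a ≠ 0 := by rintro rfl; exact haW W.zero_mem
    obtain ⟨b, hb, hQb, hba⟩ := exists_singular_avoid Q (orth Q (Submodule.span F {a}) ⊓ W') (Submodule.span F {a}) (by
      have h1 := inf_ge hQ (Submodule.span F {a}) W'
      have h2 := fr_single a
      omega)
    have hab : B a b = 0 := mem_orth_span.mp hb.1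
    have hbW' := hb.2
    have hb0 : b ≠ 0 := by rintro rfl; exact hba (zero_mem _)
    have main : ∀ v ∈ W, Q v = 0 → v ≠ 0 → B a v = 0 → B b v = 0 → ∀ w ∈ W, B v w = 0 → B a w = 0 := by
      intro v hv hQv hv0 hav hbv
      have key : ∀ w ∈ W, B v w = 0 → B a w • b - B b w • a ∈ W := by
        intro w hw hvw
        have hEM := hW'.mem a ha b hbW' hQa hab
        have h1 := hW.mem v hv w hw hQv hvw
        have h2 := EM_conj (EM_iso a b) hQv hvw (Q := Q)
        have h3 : ((EM Q a b : GL ι F) : Matrix ι ι F) *ᵥ v = v := by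
          rw [EM_mulVec hQa hab, hav, hbv]; simp
        have h4 : ((EM Q a b : GL ι F) : Matrix ι ι F) *ᵥ w = w + (B a w • b - B b w • a) := by
          rw [EM_mulVec hQa hab, hQb]; simp; abel
        rw [h3] at h2
        have h5 : B v (((EM Q a b : GL ι F) : Matrix ι ι F) *ᵥ w) = 0 := by
          have := isoQ_polar (EM_iso a b) v w (Q := Q)
          rw [h3] at this
          rw [this]; exact hvw
        have h6 : EM Q v (((EM Q a b : GL ι F) : Matrix ι ι F) *ᵥ w) ∈ M := by
          rw [← h2]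
          exact M.mul_mem (M.mul_mem hEM h1) (M.inv_mem hEM)
        have h7 := hW.star v hv hQv hv0 _ h5 h6
        rw [h4] at h7
        exact (W.add_mem_iff_right hw).mp h7
      -- case A
      have cA : ∀ w ∈ W, B v w = 0 → B a w = 0 → B b w = 0 := by
        intro w hw hvw haw
        by_contra hbw
        have h1 := key w hw hvw
        rw [haw, zero_smul, zero_sub] at h1
        exact haW ((W.smul_mem_iff hbw).mp (W.neg_mem_iff.mp h1))
      -- case B
      intro w hw hvw
      by_contra haw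
      have h1 := key w hw hvw
      have e1 : B a w • b - B b w • a = B a w • (b + (-(B b w / B a w)) • a) := by
        rw [smul_add, smul_smul]
        have : B a w * -(B b w / B a w) = - B b w := by
          have := div_mul_cancel₀ (B b w) haw
          linear_combination -this
        rw [this]; module
      rw [e1] at h1
      have h2 := (W.smul_mem_iff haw).mp h1
      set b' := b + (-(B b w / B a w)) • a with hb'
      have hb'W' : b' ∈ W' := W'.add_mem hbW' (W'.smul_mem _ ha)
      have hQb' : Q b' = 0 := by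
        rw [hb', qadd, qsmul, hQa, hQb, QuadraticMap.polar_smul_right, bsymm b a, hab]; simp
      have hab' : B b' a = 0 := by
        rw [hb', QuadraticMap.polar_add_left, QuadraticMap.polar_smul_left, bself hQa, bsymm b a, hab]; simp
      have hb'0 : b' ≠ 0 := by
        intro h
        apply hba
        rw [Submodule.mem_span_singleton]
        refine ⟨B b w / B a w, ?_⟩
        rw [hb'] at h
        have h9 := eq_neg_of_add_eq_zero_left h
        rw [neg_smul, neg_neg] at h9
        exact h9.symm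
      exact haW (hW.eq hW' h2 hb'W' hQb' hb'0 ha hab')
    -- choose `v`
    obtain ⟨v, hv, hQv, hv0'⟩ := exists_singular_avoid Q (orth Q (Submodule.span F {a, b}) ⊓ W) ⊥ (by
      rw [finrank_bot]
      have h1 := inf_ge hQ (Submodule.span F {a, b}) W
      have h2 := fr_pair a b
      omega)
    have hv0 : v ≠ 0 := fun h => hv0' (by rw [h]; exact zero_mem _)
    have hav : B a v = 0 := mem_orth.mp hv.1 a (mem_pair_left a b)
    have hbv : B b v = 0 := mem_orth.mp hv.1 b (mem_pair_right a b)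
    have m1 := main v hv.2 hQv hv0 hav hbv
    obtain ⟨v', hv', hQv', hvv'⟩ := exists_singular_avoid Q (orth Q (Submodule.span F {v}) ⊓ W) (Submodule.span F {v}) (by
      have h1 := inf_ge hQ (Submodule.span F {v}) W
      have h2 := fr_single v
      omega)
    have hv'0 : v' ≠ 0 := by rintro rfl; exact hvv' (zero_mem _)
    have hvv'0 : B v v' = 0 := mem_orth_span.mp hv'.1
    have hav' : B a v' = 0 := m1 v' hv'.2 hvv'0
    -- `b` is orthogonal as well
    have hbv' : B b v' = 0 := by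
      by_contra hne
      -- use the roles
      have hEM := hW'.mem a ha b hbW' hQa hab
      have h1 := hW.mem v hv.2 v' hv'.2 hQv hvv'0
      have h2 := EM_conj (EM_iso a b) hQv hvv'0 (Q := Q)
      have h3 : ((EM Q a b : GL ι F) : Matrix ι ι F) *ᵥ v = v := by
        rw [EM_mulVec hQa hab, hav, hbv]; simp
      have h4 : ((EM Q a b : GL ι F) : Matrix ι ι F) *ᵥ v' = v' + (-B b v') • a := by
        rw [EM_mulVec hQa hab, hQb, hav']; simp; abel
      rw [h3] at h2
      have h5 : B v (((EM Q a b : GL ι F) : Matrix ι ι F) *ᵥ v') = 0 := by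
        have := isoQ_polar (EM_iso a b) v v' (Q := Q)
        rw [h3] at this
        rw [this]; exact hvv'0
      have h6 : EM Q v (((EM Q a b : GL ι F) : Matrix ι ι F) *ᵥ v') ∈ M := by
        rw [← h2]
        exact M.mul_mem (M.mul_mem hEM h1) (M.inv_mem hEM)
      have h7 := hW.star v hv.2 hQv hv0 _ h5 h6
      rw [h4] at h7
      exact haW ((W.smul_mem_iff (neg_ne_zero.mpr hne)).mp ((W.add_mem_iff_right hv'.2).mp h7))
    have m2 := main v' hv'.2 hQv' hv'0 hav' hbv'
    -- `a ⊥ W`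
    apply haW'
    rw [mem_orth]
    obtain ⟨s, hs, hs1, hs2⟩ := separate hQ hW.nd hv'.2 hv.2 hvv'
    -- `B v s = 0`, `B v' s ≠ 0`
    intro w hw
    have h1 : B v' (w + (-(B v' w / B v' s)) • s) = 0 := by
      rw [QuadraticMap.polar_add_right, QuadraticMap.polar_smul_right, smul_eq_mul]
      have := div_mul_cancel₀ (B v' w) hs2
      linear_combination -this
    have h2 := m2 _ (W.add_mem hw (W.smul_mem _ hs)) h1
    rw [QuadraticMap.polar_add_right, QuadraticMap.polar_smul_right, m1 s hs hs1, smul_zero, add_zero] at h2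
    rw [bsymm]; exact h2
  by_cases hex : ∃ a ∈ W', Q a = 0 ∧ a ≠ 0 ∧ a ∈ W
  · left
    obtain ⟨a, ha, hQa, ha0, haW⟩ := hex
    obtain ⟨b, hb, hQb, hba⟩ := exists_singular_avoid Q (orth Q (Submodule.span F {a}) ⊓ W') (Submodule.span F {a}) (by
      have h1 := inf_ge hQ (Submodule.span F {a}) W'
      have h2 := fr_single a
      omega)
    have hab : B a b = 0 := mem_orth_span.mp hb.1
    have hb0 : b ≠ 0 := by rintro rfl; exact hba (zero_mem _)
    have hbW : b ∈ W := hW.eq hW' haW ha hQa ha0 hb.2 hab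
    have hab' : a ∉ Submodule.span F {b} := notmem_span_swap ha0 hba
    obtain ⟨y, hy, hby, hay⟩ := separate hQ hW'.nd ha hb.2 hab'
    have hyW : y ∈ W := hW.eq hW' hbW hb.2 hQb hb0 hy hby
    intro x hx
    have h1 : B a (x + (-(B a x / B a y)) • y) = 0 := by
      rw [QuadraticMap.polar_add_right, QuadraticMap.polar_smul_right, smul_eq_mul]
      have := div_mul_cancel₀ (B a x) hay
      linear_combination -this
    have h2 := hW.eq hW' haW ha hQa ha0 (W'.add_mem hx (W'.smul_mem _ hy)) h1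
    exact (W.add_mem_iff_left (W.smul_mem _ hyW)).mp h2
  · right
    push Not at hex
    apply sing_span hW'.nd (by omega)
    intro a ha hQa
    by_cases ha0 : a = 0
    · rw [ha0]; exact zero_mem _
    · exact C1 a ha hQa (hex a ha hQa ha0)

end CfsgLib.OI29
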