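import Cfsg.Agent.LibOI29a

set_option autoImplicit false

/-! Imprimitive subgroups of orthogonal groups: blocks of dimension three. -/

namespace CfsgLib.OI29

open scoped MatrixGroups Matrix
open Cfsg CfsgLib.MaxTv29 CfsgLib.OM29 Cfsg.Agent.H22 Module

variable {ι : Type} [Fintype ι] [DecidableEq ι] {F : Type*} [Field F] {Q : QuadraticForm F (ι → F)}

local notation "B" => QuadraticMap.polar Q

/-- torus elements generated by root subgroups -/
theorem torus {M : Subgroup (GL ι F)} {v y w : ι → F} (hv : Q v = 0) (hy : Q y = 0) (hvy : B v y = 1) (hvw : B v w = 0) (hyw : B y w = 0) (hw : Q w ≠ 0)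
    (h1 : ∀ c : F, EM Q v (c • w) ∈ M) (h2 : ∀ c : F, EM Q y (c • w) ∈ M) {α : F} (hα : α ≠ 0) :
    ∃ h ∈ M, (h : Matrix ι ι F) *ᵥ v = α ^ 2 • v ∧ (h : Matrix ι ι F) *ᵥ y = (α ^ 2)⁻¹ • y ∧ ∀ x, B v x = 0 → B y x = 0 → (h : Matrix ι ι F) *ᵥ x = x := by
  have hyv : B y v = 1 := by rw [bsymm]; exact hvy
  have hwv : B w v = 0 := by rw [bsymm]; exact hvw
  have hwy : B w y = 0 := by rw [bsymm]; exact hyw
  have E1 : ∀ (c : F) (x : ι → F), ((EM Q v (c • w) : GL ι F) : Matrix ι ι F) *ᵥ x = x + (c * B v x) • w - (c * B w x) • v - (c * c * Q w * B v x) • v := by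
    intro c x
    rw [EM_mulVec hv (by rw [QuadraticMap.polar_smul_right, hvw, smul_zero]), QuadraticMap.polar_smul_left, qsmul, smul_smul, smul_eq_mul, mul_comm (B v x) c]
  have E2 : ∀ (c : F) (x : ι → F), ((EM Q y (c • w) : GL ι F) : Matrix ι ι F) *ᵥ x = x + (c * B y x) • w - (c * B w x) • y - (c * c * Q w * B y x) • y := by
    intro c x
    rw [EM_mulVec hy (by rw [QuadraticMap.polar_smul_right, hyw, smul_zero]), QuadraticMap.polar_smul_left, qsmul, smul_smul, smul_eq_mul, mul_comm (B y x) c]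
  have hn : ∀ c : F, c ≠ 0 → ∃ n ∈ M, (n : Matrix ι ι F) *ᵥ v = (-(c ^ 2 * Q w)⁻¹) • y ∧ (n : Matrix ι ι F) *ᵥ y = (-(c ^ 2 * Q w)) • v ∧
      ∀ x, B v x = 0 → B y x = 0 → (n : Matrix ι ι F) *ᵥ x = x - ((Q w)⁻¹ * B w x) • w := by
    intro c hc
    obtain ⟨c', hc'⟩ : ∃ c' : F, c * c' * Q w = 1 := ⟨(c * Q w)⁻¹, by field_simp⟩
    have hc'2 : c' = (c * Q w)⁻¹ := by
      apply eq_inv_of_mul_eq_one_left
      linear_combination hc'
    refine ⟨EM Q v (c • w) * EM Q y (c' • w) * EM Q v (c • w), M.mul_mem (M.mul_mem (h1 c) (h2 c')) (h1 c), ?_, ?_, ?_⟩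
    · rw [Units.val_mul, Units.val_mul, ← Matrix.mulVec_mulVec, ← Matrix.mulVec_mulVec, E1 c v, bself hv, hwv]
      simp only [mul_zero, zero_smul, add_zero, sub_zero]
      rw [E2 c' v, hyv, hwv]
      simp only [mul_zero, zero_smul, sub_zero, mul_one]
      rw [E1]
      simp only [QuadraticMap.polar_add_right, QuadraticMap.polar_sub_right, QuadraticMap.polar_smul_right, bself hv, hvy, hvw, hwv, hwy, smul_eq_mul, pself]
      rw [hc'2]
      match_scalars <;> field_simp <;> ring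
    · rw [Units.val_mul, Units.val_mul, ← Matrix.mulVec_mulVec, ← Matrix.mulVec_mulVec, E1 c y, hvy, hwy]
      simp only [mul_zero, zero_smul, sub_zero, mul_one]
      rw [E2 c']
      simp only [QuadraticMap.polar_add_right, QuadraticMap.polar_sub_right, QuadraticMap.polar_smul_right, bself hy, hyv, hyw, hwv, hwy, smul_eq_mul, pself]
      rw [E1]
      simp only [QuadraticMap.polar_add_right, QuadraticMap.polar_sub_right, QuadraticMap.polar_smul_right, bself hv, hvy, hvw, hwv, hwy, smul_eq_mul, pself]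
      rw [hc'2]
      match_scalars <;> field_simp <;> ring
    · intro x hvx hyx
      rw [Units.val_mul, Units.val_mul, ← Matrix.mulVec_mulVec, ← Matrix.mulVec_mulVec, E1 c x, hvx]
      simp only [mul_zero, zero_smul, sub_zero, add_zero]
      rw [E2 c']
      simp only [QuadraticMap.polar_sub_right, QuadraticMap.polar_smul_right, hyv, hwv, hyx, smul_eq_mul]
      rw [E1]
      simp only [QuadraticMap.polar_add_right, QuadraticMap.polar_sub_right, QuadraticMap.polar_smul_right, bself hv, hvy, hvw, hwv, hwy, hvx, smul_eq_mul, pself]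
      rw [hc'2]
      match_scalars <;> field_simp <;> ring
  obtain ⟨n, hn1, n1, n2, n3⟩ := hn α hα
  obtain ⟨m, hm1, m1, m2, m3⟩ := hn 1 one_ne_zero
  refine ⟨n * m, M.mul_mem hn1 hm1, ?_, ?_, fun x hvx hyx => ?_⟩
  · rw [Units.val_mul, ← Matrix.mulVec_mulVec, m1, Matrix.mulVec_smul, n2, smul_smul]
    congr 1; field_simp
  · rw [Units.val_mul, ← Matrix.mulVec_mulVec, m2, Matrix.mulVec_smul, n1, smul_smul]
    congr 1; field_simp
  · rw [Units.val_mul, ← Matrix.mulVec_mulVec, m3 x hvx hyx, n3]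
    · simp only [QuadraticMap.polar_sub_right, QuadraticMap.polar_smul_right, pself, smul_eq_mul]
      match_scalars <;> field_simp <;> ring
    · rw [QuadraticMap.polar_sub_right, QuadraticMap.polar_smul_right, hvx, hvw]; simp
    · rw [QuadraticMap.polar_sub_right, QuadraticMap.polar_smul_right, hyx, hyw]; simp

/-- a vector orthogonal to a singular vector in a 3-dimensional block -/
theorem in_plane (hQ : (QuadraticMap.polarBilin Q).Nondegenerate) {W : Submodule F (ι → F)} (hW : ND Q W) (hd : finrank F W = 3) {e d x : ι → F} (he : e ∈ W) (hQe : Q e = 0) (he0 : e ≠ 0)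
    (hd' : d ∈ W) (hed : B e d = 0) (hQd : Q d ≠ 0) (hx : x ∈ W) (hex : B e x = 0) : ∃ a b : F, x = a • e + b • d := by
  have h1 := hW.finrank_inf hQ (A := Submodule.span F {e}) (Submodule.span_le.mpr (by simpa using he))
  rw [finrank_span_singleton he0, hd] at h1
  have h2 : Submodule.span F {e, d} ≤ orth Q (Submodule.span F {e}) ⊓ W := by
    rw [Submodule.span_le]
    rintro z (rfl | rfl)
    · exact ⟨mem_orth_span.mpr (bself hQe), he⟩
    · exact ⟨mem_orth_span.mpr hed, hd'⟩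
  have h3 : Submodule.span F {e} < Submodule.span F {e, d} := by
    refine lt_of_le_of_ne (Submodule.span_mono (by simp)) ?_
    intro h
    have h4 : d ∈ Submodule.span F {e} := by rw [h]; exact mem_pair_right e d
    obtain ⟨c, rfl⟩ := Submodule.mem_span_singleton.mp h4
    rw [qsmul, hQe, mul_zero] at hQd
    exact hQd rfl
  have h4 := Submodule.finrank_lt_finrank_of_lt h3
  rw [finrank_span_singleton he0] at h4
  have h5 : Submodule.span F {e, d} = orth Q (Submodule.span F {e}) ⊓ W := Submodule.eq_of_le_of_finrank_le h2 (by omega)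
  have h6 : x ∈ Submodule.span F {e, d} := by rw [h5]; exact ⟨mem_orth_span.mpr hex, hx⟩
  obtain ⟨a, b, hab⟩ := Submodule.mem_span_pair.mp h6
  exact ⟨a, b, hab.symm⟩

/-- the singular vector with coordinate `u` -/
def yv (Q : QuadraticForm F (ι → F)) (v v' u : ι → F) : ι → F := v' + u - Q u • v
/-- the transported vector -/
def tv' (Q : QuadraticForm F (ι → F)) (v u d : ι → F) : ι → F := d - QuadraticMap.polar Q u d • v

/-- the configuration of two blocks -/
structure Cf (Q : QuadraticForm F (ι → F)) (M : Subgroup (GL ι F)) (v v' w : ι → F) (W : Submodule F (ι → F)) : Prop where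
  hQ : (QuadraticMap.polarBilin Q).Nondegenerate
  h2 : (2 : F) ≠ 0
  hM : M ≤ Cfsg.isometryGroup F ⇑Q
  hW : Blk Q M 3 W
  hv : Q v = 0
  hv' : Q v' = 0
  hvv : QuadraticMap.polar Q v v' = 1
  vW : v ∈ W
  wW : w ∈ W
  hvw : QuadraticMap.polar Q v w = 0
  hvw' : QuadraticMap.polar Q v' w = 0
  hw : Q w ≠ 0

/-- the point with coordinate `u` belongs to a block with direction `d` -/
def Pt (Q : QuadraticForm F (ι → F)) (M : Subgroup (GL ι F)) (v v' u d : ι → F) : Prop :=
  ∃ W : Submodule F (ι → F), Blk Q M 3 W ∧ yv Q v v' u ∈ W ∧ tv' Q v u d ∈ W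

namespace Cf

variable {M : Subgroup (GL ι F)} {v v' w : ι → F} {W : Submodule F (ι → F)} (C : Cf Q M v v' w W)

include C

theorem hvv' : B v' v = 1 := by rw [bsymm]; exact C.hvv

theorem hwv : B w v = 0 := by rw [bsymm]; exact C.hvw

theorem hwv' : B w v' = 0 := by rw [bsymm]; exact C.hvw'

variable {u d : ι → F} (hu : QuadraticMap.polar (⇑Q) v u = 0) (hu' : QuadraticMap.polar (⇑Q) v' u = 0) (hd : QuadraticMap.polar (⇑Q) v d = 0) (hd' : QuadraticMap.polar (⇑Q) v' d = 0)

include hu hu'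

theorem Qy : Q (yv Q v v' u) = 0 := by
  unfold yv
  rw [sub_eq_add_neg, ← neg_smul, qadd, qadd, qsmul, C.hv', C.hv, hu', QuadraticMap.polar_smul_right, QuadraticMap.polar_add_left, C.hvv', bsymm u v, hu]
  simp

theorem vy : B v (yv Q v v' u) = 1 := by
  unfold yv
  rw [QuadraticMap.polar_sub_right, QuadraticMap.polar_add_right, C.hvv, hu, QuadraticMap.polar_smul_right, bself C.hv]
  simp

theorem y0 : yv Q v v' u ≠ 0 := by
  intro h
  have := C.vy hu hu'
  rw [h, QuadraticMap.polar_zero_right] at this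
  exact zero_ne_one this

omit hu hu' in
include hd in
theorem vt (u : ι → F) : B v (tv' Q v u d) = 0 := by
  unfold tv'
  rw [QuadraticMap.polar_sub_right, hd, QuadraticMap.polar_smul_right, bself C.hv]
  simp

omit hu hu' in
include hd in
theorem Qt (u : ι → F) : Q (tv' Q v u d) = Q d := by
  unfold tv'
  rw [sub_eq_add_neg, ← neg_smul, qadd, qsmul, C.hv, QuadraticMap.polar_smul_right, bsymm d v, hd]
  simp

include hd hd' in
theorem yt : B (yv Q v v' u) (tv' Q v u d) = 0 := by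
  unfold yv tv'
  simp only [QuadraticMap.polar_sub_right, QuadraticMap.polar_sub_left, QuadraticMap.polar_add_left, QuadraticMap.polar_smul_left, QuadraticMap.polar_smul_right, smul_eq_mul,
    C.hvv', hd, hd', bsymm u v, hu, bself C.hv]
  ring

omit hu' in
include hd in
theorem tt {d' : ι → F} (hdd : B v d' = 0) : B (tv' Q v u d) (tv' Q v u d') = B d d' := by
  unfold tv'
  simp only [QuadraticMap.polar_sub_right, QuadraticMap.polar_sub_left, QuadraticMap.polar_smul_left, QuadraticMap.polar_smul_right, smul_eq_mul,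
    bsymm d v, hd, hdd, bself C.hv]
  ring

include hd hd' in
/-- uniqueness of directions -/
theorem uniq {d' : ι → F} (hdd : B v d' = 0) (hdd' : B v' d' = 0) (hQd : Q d ≠ 0) (h1 : Pt Q M v v' u d) (h2 : Pt Q M v v' u d') : ∃ c : F, d' = c • d := by
  obtain ⟨W₁, hW₁, hy1, ht1⟩ := h1
  obtain ⟨W₂, hW₂, hy2, ht2⟩ := h2
  have h3 : tv' Q v u d' ∈ W₁ := hW₁.eq hW₂ hy1 hy2 (C.Qy hu hu') (C.y0 hu hu') ht2 (C.yt hu hu' hdd hdd')
  obtain ⟨a, b, hab⟩ := in_plane C.hQ hW₁.nd hW₁.dim hy1 (C.Qy hu hu') (C.y0 hu hu') ht1 (C.yt hu hu' hd hd') (by rw [C.Qt hd]; exact hQd) h3 (C.yt hu hu' hdd hdd')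
  have h4 := congrArg (B v) hab
  rw [C.vt hdd, QuadraticMap.polar_add_right, QuadraticMap.polar_smul_right, QuadraticMap.polar_smul_right, C.vy hu hu', C.vt hd, smul_zero, add_zero, smul_eq_mul, mul_one] at h4
  rw [← h4, zero_smul, zero_add] at hab
  unfold tv' at hab
  have h5 := congrArg (B v') hab
  simp only [QuadraticMap.polar_sub_right, QuadraticMap.polar_smul_right, smul_eq_mul, hdd', hd', C.hvv'] at h5
  refine ⟨b, ?_⟩
  have h6 : d' = b • d + (B u d' - b * B u d) • v := by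
    rw [sub_eq_iff_eq_add] at hab
    exact hab.trans (by module)
  rw [h6]
  have h7 : B u d' - b * B u d = 0 := by linear_combination -h5
  rw [h7, zero_smul, add_zero]

include hd in
/-- moving along `w` -/
theorem moveI (c : F) (h : Pt Q M v v' u d) : Pt Q M v v' (u + c • w) d := by
  obtain ⟨W₁, hW₁, hy, ht⟩ := h
  have hg : EM Q v (c • w) ∈ M := C.hW.mem v C.vW _ (W.smul_mem c C.wW) C.hv (by rw [QuadraticMap.polar_smul_right, C.hvw, smul_zero])
  have hE : ∀ x, ((EM Q v (c • w) : GL ι F) : Matrix ι ι F) *ᵥ x = x + (c * B v x) • w - (c * B w x) • v - (c * c * Q w * B v x) • v := by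
    intro x
    rw [EM_mulVec C.hv (by rw [QuadraticMap.polar_smul_right, C.hvw, smul_zero]), QuadraticMap.polar_smul_left, qsmul, smul_smul, smul_eq_mul, mul_comm (B v x) c]
  refine ⟨_, hW₁.map C.hM hg, ⟨_, hy, ?_⟩, ⟨_, ht, ?_⟩⟩
  · change ((EM Q v (c • w) : GL ι F) : Matrix ι ι F) *ᵥ _ = _
    rw [hE, C.vy hu hu']
    unfold yv
    simp only [QuadraticMap.polar_sub_right, QuadraticMap.polar_add_right, QuadraticMap.polar_smul_right, smul_eq_mul, C.hwv, C.hwv', qadd, qsmul, bsymm w u]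
    module
  · change ((EM Q v (c • w) : GL ι F) : Matrix ι ι F) *ᵥ _ = _
    rw [hE, C.vt hd]
    unfold tv'
    simp only [QuadraticMap.polar_sub_right, QuadraticMap.polar_add_left, QuadraticMap.polar_smul_right, QuadraticMap.polar_smul_left, smul_eq_mul, C.hwv]
    module

include hd hd' in
/-- moving along `d` -/
theorem moveII (hQd : Q d ≠ 0) {f : F} (hf : f ≠ 0) (h : Pt Q M v v' u d) : Pt Q M v v' (u + f • d) (w - (B w d / Q d) • d) := by
  obtain ⟨W₁, hW₁, hy, ht⟩ := h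
  obtain ⟨c, hcd⟩ : ∃ c : F, c = -(f * Q d)⁻¹ := ⟨_, rfl⟩
  have hc : c * f * Q d = -1 := by rw [hcd]; field_simp
  have hyt0 : B (yv Q v v' u) (c • tv' Q v u d) = 0 := by rw [QuadraticMap.polar_smul_right, C.yt hu hu' hd hd', smul_zero]
  have hg : EM Q (yv Q v v' u) (c • tv' Q v u d) ∈ M := hW₁.mem _ hy _ (W₁.smul_mem c ht) (C.Qy hu hu') hyt0
  have hyv : B (yv Q v v' u) v = 1 := by rw [bsymm]; exact C.vy hu hu'
  have htv : B (tv' Q v u d) v = 0 := by rw [bsymm]; exact C.vt hd u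
  have hE : ∀ x, ((EM Q (yv Q v v' u) (c • tv' Q v u d) : GL ι F) : Matrix ι ι F) *ᵥ x = x + (c * B (yv Q v v' u) x) • tv' Q v u d - (c * B (tv' Q v u d) x) • yv Q v v' u - (c * c * Q d * B (yv Q v v' u) x) • yv Q v v' u := by
    intro x
    rw [EM_mulVec (C.Qy hu hu') hyt0, QuadraticMap.polar_smul_left, qsmul, smul_smul, smul_eq_mul, mul_comm (B (yv Q v v' u) x) c, C.Qt hd]
  set W₂ := W.map (le (EM Q (yv Q v v' u) (c • tv' Q v u d))).toLinearMap with hW₂
  have m1 : v + c • tv' Q v u d - (c * c * Q d) • yv Q v v' u ∈ W₂ := by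
    refine ⟨v, C.vW, ?_⟩
    change ((EM Q (yv Q v v' u) (c • tv' Q v u d) : GL ι F) : Matrix ι ι F) *ᵥ _ = _
    rw [hE, hyv, htv]
    module
  have m2 : tv' Q v u w - (c * B d w) • yv Q v v' u ∈ W₂ := by
    refine ⟨tv' Q v u w, ?_, ?_⟩
    · unfold tv'; exact W.sub_mem C.wW (W.smul_mem _ C.vW)
    · change ((EM Q (yv Q v v' u) (c • tv' Q v u d) : GL ι F) : Matrix ι ι F) *ᵥ _ = _
      rw [hE, C.yt hu hu' C.hvw C.hvw', C.tt hu hd C.hvw]
      module
  have hc0 : c * c * Q d ≠ 0 := by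
    intro h0
    have h3 : c * c * Q d * (f * f * Q d) = 1 := by linear_combination (c * f * Q d - 1) * hc
    rw [h0, zero_mul] at h3
    exact zero_ne_one h3
  have hbs : B u v = 0 := by rw [bsymm]; exact hu
  have hy2 : yv Q v v' (u + f • d) ∈ W₂ := by
    have e1 : v + c • tv' Q v u d - (c * c * Q d) • yv Q v v' u = (-(c * c * Q d)) • yv Q v v' (u + f • d) := by
      unfold yv tv'
      simp only [qadd, qsmul, QuadraticMap.polar_smul_right, smul_eq_mul]
      rw [hcd]
      match_scalars <;> field_simp <;> ring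
    rw [e1] at m1
    exact (W₂.smul_mem_iff (neg_ne_zero.mpr hc0)).mp m1
  refine ⟨W₂, C.hW.map C.hM hg, hy2, ?_⟩
  have e2 : tv' Q v (u + f • d) (w - (B w d / Q d) • d) = (tv' Q v u w - (c * B d w) • yv Q v v' u) + (c * B d w) • yv Q v v' (u + f • d) := by
    unfold yv tv'
    have hdd : B d d = 2 * Q d := pself Q d
    simp only [qadd, qsmul, QuadraticMap.polar_smul_right, QuadraticMap.polar_smul_left, QuadraticMap.polar_add_left, QuadraticMap.polar_sub_right, smul_eq_mul, hdd, bsymm w d]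
    rw [hcd]
    match_scalars <;> field_simp <;> ring
  rw [e2]
  exact W₂.add_mem m2 (W₂.smul_mem _ hy2)

omit hu hu' in
include hd hd' in
/-- dilations -/
theorem moveIII {u u' : ι → F} (hu : B v u = 0) (hu' : B v' u = 0) (hv1 : B v u' = 0) (hv1' : B v' u' = 0) {α : F} (hα : α ≠ 0)
    (h1 : Pt Q M v v' u w) (h2 : Pt Q M v v' u' d) : Pt Q M v v' (u + α ^ 2 • (u' - u)) d := by
  obtain ⟨W₁, hW₁, hy1, ht1⟩ := h1
  obtain ⟨W₂, hW₂, hy2, ht2⟩ := h2
  have htW : tv' Q v u w ∈ W := by unfold tv'; exact W.sub_mem C.wW (W.smul_mem _ C.vW)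
  obtain ⟨h, hhM, hhv, hhy, hhx⟩ := torus (M := M) C.hv (C.Qy hu hu') (C.vy hu hu') (C.vt C.hvw u) (C.yt hu hu' C.hvw C.hvw') (by rw [C.Qt C.hvw]; exact C.hw)
    (fun c => C.hW.mem v C.vW _ (W.smul_mem c htW) C.hv (by rw [QuadraticMap.polar_smul_right, C.vt C.hvw, smul_zero]))
    (fun c => hW₁.mem _ hy1 _ (W₁.smul_mem c ht1) (C.Qy hu hu') (by rw [QuadraticMap.polar_smul_right, C.yt hu hu' C.hvw C.hvw', smul_zero])) hα
  have hδ : B v (u' - u) = 0 := by rw [QuadraticMap.polar_sub_right, hv1, hu, sub_zero]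
  have hδ' : B v' (u' - u) = 0 := by rw [QuadraticMap.polar_sub_right, hv1', hu', sub_zero]
  set W₃ := W₂.map (le h).toLinearMap with hW₃
  have m1 : yv Q v v' (u + α ^ 2 • (u' - u)) ∈ W₃ := by
    have e1 : (h : Matrix ι ι F) *ᵥ (yv Q v v' u') ∈ W₃ := ⟨_, hy2, rfl⟩
    have e2 : yv Q v v' u' = yv Q v v' u + tv' Q v u (u' - u) - Q (u' - u) • v := by
      unfold yv tv'
      have e3 : Q u' = Q u + Q (u' - u) + B u (u' - u) := by
        rw [← qadd]; congr 1; abel
      rw [e3]; module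
    rw [e2, Matrix.mulVec_sub, Matrix.mulVec_add, Matrix.mulVec_smul, hhv, hhy, hhx _ (C.vt hδ u) (C.yt hu hu' hδ hδ')] at e1
    have e4 : (α ^ 2)⁻¹ • yv Q v v' u + tv' Q v u (u' - u) - Q (u' - u) • α ^ 2 • v = (α ^ 2)⁻¹ • yv Q v v' (u + α ^ 2 • (u' - u)) := by
      unfold yv tv'
      rw [qadd, qsmul, QuadraticMap.polar_smul_right, smul_eq_mul]
      match_scalars <;> field_simp <;> ring
    rw [e4] at e1
    exact (W₃.smul_mem_iff (inv_ne_zero (pow_ne_zero 2 hα))).mp e1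
  refine ⟨W₃, hW₂.map C.hM hhM, m1, ?_⟩
  have e1 : (h : Matrix ι ι F) *ᵥ (tv' Q v u' d) ∈ W₃ := ⟨_, ht2, rfl⟩
  have e2 : tv' Q v u' d = tv' Q v u d - B (u' - u) d • v := by
    unfold tv'
    rw [QuadraticMap.polar_sub_left]; module
  rw [e2, Matrix.mulVec_sub, Matrix.mulVec_smul, hhv, hhx _ (C.vt hd u) (C.yt hu hu' hd hd')] at e1
  have e4 : tv' Q v u d - B (u' - u) d • α ^ 2 • v = tv' Q v (u + α ^ 2 • (u' - u)) d := by
    unfold tv'
    rw [QuadraticMap.polar_add_left, QuadraticMap.polar_smul_left, smul_eq_mul]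
    module
  rw [e4] at e1
  exact e1

omit hu hu' in
/-- two blocks with non-orthogonal singular vectors -/
theorem key {α : F} (hα : α ≠ 0) (hα2 : α ^ 2 ≠ 1) {W' : Submodule F (ι → F)} {w' : ι → F} (hW' : Blk Q M 3 W') (vW' : v' ∈ W') (wW' : w' ∈ W')
    (hw1 : B v w' = 0) (hw2 : B v' w' = 0) (hw' : Q w' ≠ 0) : ∃ c : F, w' = c • w := by
  by_contra hne
  have z1 : B v (0 : ι → F) = 0 := QuadraticMap.polar_zero_right Q _
  have z2 : B v' (0 : ι → F) = 0 := QuadraticMap.polar_zero_right Q _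
  have P0 : Pt Q M v v' 0 w' := by
    refine ⟨W', hW', ?_, ?_⟩
    · unfold yv; rw [QuadraticMap.map_zero]; simpa using vW'
    · unfold tv'; rw [QuadraticMap.polar_zero_left]; simpa using wW'
  set κ := B w w' / Q w' with hκ
  set r := w - κ • w' with hr
  have hr1 : B v r = 0 := by rw [hr, QuadraticMap.polar_sub_right, QuadraticMap.polar_smul_right, C.hvw, hw1]; simp
  have hr2 : B v' r = 0 := by rw [hr, QuadraticMap.polar_sub_right, QuadraticMap.polar_smul_right, C.hvw', hw2]; simp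
  have hκ' : κ * Q w' = B w w' := div_mul_cancel₀ _ hw'
  have hQr : Q r = Q w := by
    rw [hr, sub_eq_add_neg, ← neg_smul, qadd, qsmul, QuadraticMap.polar_smul_right, smul_eq_mul, ← hκ']; ring
  have PII : ∀ f : F, f ≠ 0 → Pt Q M v v' (f • w') r := by
    intro f hf
    have := C.moveII z1 z2 hw1 hw2 hw' hf P0
    rwa [zero_add] at this
  have hw0 : w ≠ 0 := by
    intro h
    have := C.hw
    rw [h, QuadraticMap.map_zero] at this
    exact this rfl
  have hα1 : (1 : F) - α ≠ 0 := by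
    intro h
    apply hα2
    have : α = 1 := by linear_combination -h
    rw [this]; ring
  have hrw : ∃ c : F, r = c • w := by
    by_contra hr0
    obtain ⟨f, hf, hf'⟩ : ∃ f : F, f ≠ 0 ∧ 1 - f * κ ≠ 0 := by
      by_cases h : κ = 1
      · exact ⟨α, hα, by rw [h, mul_one]; exact hα1⟩
      · exact ⟨1, one_ne_zero, by rw [one_mul]; exact sub_ne_zero.mpr (Ne.symm h)⟩
    have h1 : Pt Q M v v' w' r := by have := PII 1 one_ne_zero; rwa [one_smul] at this
    have h2 := C.moveII hw1 hw2 hr1 hr2 (by rw [hQr]; exact C.hw) hf h1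
    have h3 := C.moveI (by rw [QuadraticMap.polar_smul_right, hw1, smul_zero]) (by rw [QuadraticMap.polar_smul_right, hw2, smul_zero]) hr1 f (PII _ hf')
    have e1 : (1 - f * κ) • w' + f • w = w' + f • r := by rw [hr]; module
    rw [e1] at h3
    have hp1 : B v (w' + f • r) = 0 := by rw [QuadraticMap.polar_add_right, QuadraticMap.polar_smul_right, hw1, hr1]; simp
    have hp2 : B v' (w' + f • r) = 0 := by rw [QuadraticMap.polar_add_right, QuadraticMap.polar_smul_right, hw2, hr2]; simp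
    obtain ⟨c, hc⟩ := C.uniq hp1 hp2 hr1 hr2 (by rw [QuadraticMap.polar_sub_right, QuadraticMap.polar_smul_right, C.hvw, hr1]; simp)
      (by rw [QuadraticMap.polar_sub_right, QuadraticMap.polar_smul_right, C.hvw', hr2]; simp) (by rw [hQr]; exact C.hw) h3 h2
    have hc' : w = (c + B w r / Q r) • r := by
      rw [sub_eq_iff_eq_add] at hc
      exact hc.trans (by module)
    have hc0 : c + B w r / Q r ≠ 0 := by
      intro h
      rw [h, zero_smul] at hc'
      exact hw0 hc'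
    exact hr0 ⟨(c + B w r / Q r)⁻¹, by
      have : (c + B w r / Q r)⁻¹ • w = (c + B w r / Q r)⁻¹ • ((c + B w r / Q r) • r) := congrArg _ hc'
      rw [this, smul_smul, inv_mul_cancel₀ hc0, one_smul]⟩
  obtain ⟨c, hc⟩ := hrw
  have hκ0 : κ = 0 := by
    by_contra hk
    apply hne
    refine ⟨κ⁻¹ * (1 - c), ?_⟩
    have h1 : κ • w' = (1 - c) • w := by
      have h2 : w - κ • w' = c • w := hr ▸ hc
      rw [sub_eq_iff_eq_add] at h2
      have h3 : κ • w' = w - c • w := by
        rw [eq_sub_iff_add_eq, add_comm]; exact h2.symm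
      rw [h3]; module
    rw [← smul_smul, ← h1, smul_smul, inv_mul_cancel₀ hk, one_smul]
  have hrw : r = w := by rw [hr, hκ0, zero_smul, sub_zero]
  rw [hrw] at PII
  have h1 : Pt Q M v v' w' w := by have := PII 1 one_ne_zero; rwa [one_smul] at this
  have h2 := C.moveIII hw1 hw2 hw1 hw2 z1 z2 hα h1 P0
  have h3 := PII (1 - α ^ 2) (sub_ne_zero.mpr (Ne.symm hα2))
  have e1 : w' + α ^ 2 • (0 - w') = (1 - α ^ 2) • w' := by module
  rw [e1] at h2
  exact hne (C.uniq (by rw [QuadraticMap.polar_smul_right, hw1, smul_zero]) (by rw [QuadraticMap.polar_smul_right, hw2, smul_zero]) C.hvw C.hvw' hw1 hw2 C.hw h3 h2)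

end Cf

variable {M : Subgroup (GL ι F)} {W W' : Submodule F (ι → F)}

/-- common vectors -/
theorem cross (hQ : (QuadraticMap.polarBilin Q).Nondegenerate) (h2 : (2 : F) ≠ 0) (hM : M ≤ Cfsg.isometryGroup F ⇑Q) {α : F} (hα : α ≠ 0) (hα2 : α ^ 2 ≠ 1)
    (hW : Blk Q M 3 W) (hW' : Blk Q M 3 W') {x y : ι → F} (hx : x ∈ W) (hy : y ∈ W') (hQx : Q x = 0) (hQy : Q y = 0) (hxy : B x y ≠ 0) :
    ∃ w, w ∈ W ∧ w ∈ W' ∧ B x w = 0 ∧ B y w = 0 ∧ Q w ≠ 0 := by
  have hx0 : x ≠ 0 := by rintro rfl; rw [QuadraticMap.polar_zero_left] at hxy; exact hxy rfl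
  have hyx : B y x ≠ 0 := by rw [bsymm]; exact hxy
  set y' := (B x y)⁻¹ • y with hy'
  have hy'W : y' ∈ W' := W'.smul_mem _ hy
  have hQy' : Q y' = 0 := by rw [hy', qsmul, hQy, mul_zero]
  have hxy' : B x y' = 1 := by rw [hy', QuadraticMap.polar_smul_right, smul_eq_mul, inv_mul_cancel₀ hxy]
  have hy'0 : y' ≠ 0 := by intro h; rw [h, QuadraticMap.polar_zero_right] at hxy'; exact zero_ne_one hxy'
  obtain ⟨d, hd, hxd, hQd⟩ := nonsing1 hQ hW.nd (by rw [hW.dim]) hx hx0 hQx
  obtain ⟨d', hd', hyd', hQd'⟩ := nonsing1 hQ hW'.nd (by rw [hW'.dim]) hy'W hy'0 hQy'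
  set w := d - B y' d • x with hw
  set w' := d' - B x d' • y' with hw'
  have hy'x : B y' x = 1 := by rw [bsymm]; exact hxy'
  have hwW : w ∈ W := W.sub_mem hd (W.smul_mem _ hx)
  have hwW' : w' ∈ W' := W'.sub_mem hd' (W'.smul_mem _ hy'W)
  have hxw : B x w = 0 := by rw [hw, QuadraticMap.polar_sub_right, QuadraticMap.polar_smul_right, hxd, bself hQx]; simp
  have hyw : B y' w = 0 := by rw [hw, QuadraticMap.polar_sub_right, QuadraticMap.polar_smul_right, hy'x, smul_eq_mul]; ring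
  have hQw : Q w ≠ 0 := by
    rw [hw, sub_eq_add_neg, ← neg_smul, qadd, qsmul, hQx, QuadraticMap.polar_smul_right, bsymm d x, hxd]
    simpa using hQd
  have hyw' : B y' w' = 0 := by rw [hw', QuadraticMap.polar_sub_right, QuadraticMap.polar_smul_right, hyd', bself hQy']; simp
  have hxw' : B x w' = 0 := by rw [hw', QuadraticMap.polar_sub_right, QuadraticMap.polar_smul_right, hxy', smul_eq_mul]; ring
  have hQw' : Q w' ≠ 0 := by
    rw [hw', sub_eq_add_neg, ← neg_smul, qadd, qsmul, hQy', QuadraticMap.polar_smul_right, bsymm d' y', hyd']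
    simpa using hQd'
  have C : Cf Q M x y' w W := ⟨hQ, h2, hM, hW, hQx, hQy', hxy', hx, hwW, hxw, hyw, hQw⟩
  obtain ⟨c, hc⟩ := C.key hα hα2 hW' hy'W hwW' hxw' hyw' hQw'
  have hc0 : c ≠ 0 := by
    rintro rfl
    rw [hc, zero_smul, QuadraticMap.map_zero] at hQw'
    exact hQw' rfl
  refine ⟨w, hwW, ?_, hxw, ?_, hQw⟩
  · have : w = c⁻¹ • w' := by rw [hc, smul_smul, inv_mul_cancel₀ hc0, one_smul]
    rw [this]; exact W'.smul_mem _ hwW'
  · have h3 : y = B x y • y' := by rw [hy', smul_smul, mul_inv_cancel₀ hxy, one_smul]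
    rw [h3, QuadraticMap.polar_smul_left, hyw, smul_zero]

theorem Blk.mem3 (hQ : (QuadraticMap.polarBilin Q).Nondegenerate) (h2 : (2 : F) ≠ 0) (hM : M ≤ Cfsg.isometryGroup F ⇑Q) {α : F} (hα : α ≠ 0) (hα2 : α ^ 2 ≠ 1)
    (hW : Blk Q M 3 W) (hW' : Blk Q M 3 W') {e y : ι → F} (he : e ∈ W) (hy : y ∈ W') (hQe : Q e = 0) (hQy : Q y = 0) (hey : B e y ≠ 0) : y ∈ W := by
  have he0 : e ≠ 0 := by rintro rfl; rw [QuadraticMap.polar_zero_left] at hey; exact hey rfl
  have hy0 : y ≠ 0 := by rintro rfl; rw [QuadraticMap.polar_zero_right] at hey; exact hey rfl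
  obtain ⟨b, hb, hb', heb, hyb, hQb⟩ := cross hQ h2 hM hα hα2 hW hW' he hy hQe hQy hey
  obtain ⟨f0, hf0, hQf0, hef0⟩ := hyp hW.nd he he0 hQe
  have hbe : B b e = 0 := by rw [bsymm]; exact heb
  have hbb : B b b = 2 * Q b := pself Q b
  -- `f1 ⊥ b`
  set f1 := f0 + (-(B b f0 / (2 * Q b))) • b with hf1
  have hf1W : f1 ∈ W := W.add_mem hf0 (W.smul_mem _ hb)
  have hbf1 : B b f1 = 0 := by
    rw [hf1, QuadraticMap.polar_add_right, QuadraticMap.polar_smul_right, hbb, smul_eq_mul]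
    field_simp; ring
  have hef1 : B e f1 = 1 := by
    rw [hf1, QuadraticMap.polar_add_right, QuadraticMap.polar_smul_right, heb, hef0]; simp
  set f := f1 + (-Q f1) • e with hf
  have hfW : f ∈ W := W.add_mem hf1W (W.smul_mem _ he)
  have hbf : B b f = 0 := by rw [hf, QuadraticMap.polar_add_right, QuadraticMap.polar_smul_right, hbf1, hbe]; simp
  have hef : B e f = 1 := by rw [hf, QuadraticMap.polar_add_right, QuadraticMap.polar_smul_right, hef1, bself hQe]; simp
  have hQf : Q f = 0 := by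
    rw [hf, qadd, qsmul, hQe, QuadraticMap.polar_smul_right, bsymm f1 e, hef1, smul_eq_mul]; ring
  have hfe : B f e = 1 := by rw [bsymm]; exact hef
  have hfb : B f b = 0 := by rw [bsymm]; exact hbf
  have hby : B b y = 0 := by rw [bsymm]; exact hyb
  obtain ⟨s, hs0, hs⟩ : ∃ s : F, s ≠ 0 ∧ B f y - s ^ 2 * Q b * B e y ≠ 0 := by
    by_contra hcon
    push Not at hcon
    have h3 := hcon 1 one_ne_zero
    have h4 := hcon α hα
    have h5 : (α ^ 2 - 1) * (Q b * B e y) = 0 := by linear_combination h3 - h4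
    rcases mul_eq_zero.mp h5 with h | h
    · exact hα2 (by linear_combination h)
    · exact (mul_ne_zero hQb hey) h
  set x := f + s • b + (-(s ^ 2 * Q b)) • e with hx
  have hxW : x ∈ W := W.add_mem (W.add_mem hfW (W.smul_mem _ hb)) (W.smul_mem _ he)
  have hQx : Q x = 0 := by
    rw [hx, qadd, qadd, qsmul, qsmul, hQf, hQe]
    simp only [QuadraticMap.polar_smul_right, QuadraticMap.polar_add_left, QuadraticMap.polar_smul_left, smul_eq_mul, hfb, hfe, hbe]
    ring
  have hxy : B x y ≠ 0 := by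
    rw [hx]
    simp only [QuadraticMap.polar_smul_left, QuadraticMap.polar_add_left, smul_eq_mul, hby]
    intro h
    apply hs
    linear_combination h
  obtain ⟨w, hw, hw', hxw, hyw, hQw⟩ := cross hQ h2 hM hα hα2 hW hW' hxW hy hQx hQy hxy
  obtain ⟨a, c, hac⟩ := in_plane hQ hW'.nd hW'.dim hy hQy hy0 hb' hyb hQb hw' hyw
  have ha : a ≠ 0 := by
    rintro rfl
    rw [zero_smul, zero_add] at hac
    rw [hac, hx] at hxw
    simp only [QuadraticMap.polar_smul_right, QuadraticMap.polar_smul_left, QuadraticMap.polar_add_left, smul_eq_mul, hfb, heb, hbb] at hxw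
    have hc : c = 0 := by
      have h3 : c * (s * (2 * Q b)) = 0 := by linear_combination hxw
      exact (mul_eq_zero.mp h3).resolve_right (mul_ne_zero hs0 (mul_ne_zero h2 hQb))
    rw [hac, hc, zero_smul, QuadraticMap.map_zero] at hQw
    exact hQw rfl
  have h3 : y = a⁻¹ • (w - c • b) := by
    rw [hac, add_sub_cancel_right, smul_smul, inv_mul_cancel₀ ha, one_smul]
  rw [h3]
  exact W.smul_mem _ (W.sub_mem hw (W.smul_mem _ hb))

/-- the case of blocks of dimension 3 -/
theorem Blk.dich3 [Finite F] (hQ : (QuadraticMap.polarBilin Q).Nondegenerate) (h2 : (2 : F) ≠ 0) (hM : M ≤ Cfsg.isometryGroup F ⇑Q) {α : F} (hα : α ≠ 0) (hα2 : α ^ 2 ≠ 1)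
    (hW : Blk Q M 3 W) (hW' : Blk Q M 3 W') : W' ≤ W ∨ W' ≤ orth Q W := by
  have claim : ∀ y ∈ W', Q y = 0 → y ∉ orth Q W → y ∈ W := by
    intro y hy hQy hyW
    have h1 : ∃ z ∈ W, B y z ≠ 0 := by
      by_contra hcon
      push Not at hcon
      exact hyW (mem_orth.mpr fun z hz => by rw [bsymm]; exact hcon z hz)
    obtain ⟨e, he, hQe, hye⟩ := exists_sing_ne hW.nd (by rw [hW.dim]) h1
    exact hW.mem3 hQ h2 hM hα hα2 hW' he hy hQe hQy (by rw [bsymm]; exact hye)
  by_cases hex : ∃ y ∈ W', Q y = 0 ∧ y ∉ orth Q W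
  · left
    obtain ⟨y, hy, hQy, hyW⟩ := hex
    have hy0 : y ≠ 0 := by rintro rfl; exact hyW (zero_mem _)
    have hyW' := claim y hy hQy hyW
    apply sing_span hW'.nd (by rw [hW'.dim])
    intro z hz hQz
    by_cases hzW : z ∈ orth Q W
    · obtain ⟨d, hd, hyd, hQd⟩ := nonsing1 hQ hW'.nd (by rw [hW'.dim]) hy hy0 hQy
      obtain ⟨a, b, hab⟩ := in_plane hQ hW'.nd hW'.dim hy hQy hy0 hd hyd hQd hz (mem_orth.mp hzW y hyW')
      have hb : b = 0 := by
        rw [hab, qadd, qsmul, qsmul, hQy, QuadraticMap.polar_smul_right, QuadraticMap.polar_smul_left, hyd] at hQz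
        simp only [smul_eq_mul, mul_zero, zero_add, add_zero] at hQz
        have h3 := (mul_eq_zero.mp hQz).resolve_right hQd
        exact mul_self_eq_zero.mp h3
      rw [hab, hb, zero_smul, add_zero]
      exact W.smul_mem _ hyW'
    · exact claim z hz hQz hzW
  · right
    push Not at hex
    exact sing_span hW'.nd (by rw [hW'.dim]) _ hex

end CfsgLib.OI29
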