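import Cfsg.Agent.LibSympTv29d

/-! Witt-type transitivity for non-degenerate subspaces of a symplectic space. -/

namespace CfsgLib.SympTv29

open scoped MatrixGroups Matrix
open Cfsg CfsgLib.MaxTv29

variable {ι : Type} [Fintype ι] [DecidableEq ι] {F : Type*} [Field F]
variable {f : (ι → F) → (ι → F) → F}

/-- transitivity on hyperbolic pairs inside a non-degenerate subspace -/
theorem exists_move_pair (hf : Geo.IsSymplecticForm f) (X : Submodule F (ι → F)) (hX : Geo.IsNondegenerateOn f X)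
    {a b a' b' : ι → F} (ha : a ∈ X) (hb : b ∈ X) (ha' : a' ∈ X) (hb' : b' ∈ X) (hab : f a b = 1) (hab' : f a' b' = 1) :
    ∃ h ∈ iso f, (h : Matrix ι ι F) *ᵥ a = a' ∧ (h : Matrix ι ι F) *ᵥ b = b' ∧ (∀ x ∈ X, (h : Matrix ι ι F) *ᵥ x ∈ X) ∧
      ∀ y, (∀ u ∈ X, f u y = 0) → (h : Matrix ι ι F) *ᵥ y = y := by
  have ha0 : a ≠ 0 := by
    rintro rfl
    rw [zero_left hf] at hab
    exact zero_ne_one hab
  have ha0' : a' ≠ 0 := by
    rintro rfl
    rw [zero_left hf] at hab'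
    exact zero_ne_one hab'
  -- single transvection with centre in X
  have hst : ∀ v ∈ X, ∀ c, (∀ x ∈ X, ((st hf v c : GL ι F) : Matrix ι ι F) *ᵥ x ∈ X) ∧
      ∀ y, (∀ u ∈ X, f u y = 0) → ((st hf v c : GL ι F) : Matrix ι ι F) *ᵥ y = y := by
    intro v hv c
    refine ⟨fun x hx => ?_, fun y hy => st_fix hf _ _ _ (swap_eq hf (hy v hv))⟩
    rw [st_mulVec]; exact X.add_mem hx (X.smul_mem _ hv)
  obtain ⟨w, hwX, h1, h2⟩ := exists_avoid X (fd hf a) (fd hf a') (by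
    obtain ⟨⟨x, hxU, hx⟩, _⟩ := hX a ha ha0
    exact ⟨x, hxU, hx⟩) (by
    obtain ⟨⟨x, hxU, hx⟩, _⟩ := hX a' ha' ha0'
    exact ⟨x, hxU, hx⟩)
  rw [fd_apply] at h1 h2
  set t1 := st hf (w - a) (f a w)⁻¹ with ht1
  set t2 := st hf (a' - w) (f w a')⁻¹ with ht2
  have e1 : (t1 : Matrix ι ι F) *ᵥ a = w := st_move hf a w (swap_ne hf h1)
  have e2 : (t2 : Matrix ι ι F) *ᵥ w = a' := st_move hf w a' h2
  have hX1 := hst (w - a) (X.sub_mem hwX ha) (f a w)⁻¹
  have hX2 := hst (a' - w) (X.sub_mem ha' hwX) (f w a')⁻¹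
  set b1 := (t2 : Matrix ι ι F) *ᵥ ((t1 : Matrix ι ι F) *ᵥ b) with hb1
  have hb1X : b1 ∈ X := hX2.1 _ (hX1.1 _ hb)
  have ht21 : t2 * t1 ∈ iso f := (iso f).mul_mem (st_mem_iso hf _ _) (st_mem_iso hf _ _)
  have hab1 : f a' b1 = 1 := by
    have := (mem_iso _).mp ht21 a b
    rw [Units.val_mul, ← Matrix.mulVec_mulVec, ← Matrix.mulVec_mulVec, e1, e2, hab] at this
    exact this
  -- moving b1 to b' fixing a'
  have hmove : ∀ p q, p ∈ X → q ∈ X → f a' p = 1 → f a' q = 1 → f p q ≠ 0 →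
      ∃ h ∈ iso f, (h : Matrix ι ι F) *ᵥ a' = a' ∧ (h : Matrix ι ι F) *ᵥ p = q ∧ (∀ x ∈ X, (h : Matrix ι ι F) *ᵥ x ∈ X) ∧
      ∀ y, (∀ u ∈ X, f u y = 0) → (h : Matrix ι ι F) *ᵥ y = y := by
    intro p q hp hq h1 h2 h3
    refine ⟨st hf (q - p) (f p q)⁻¹, st_mem_iso hf _ _, ?_, st_move hf p q h3, ?_⟩
    · apply st_fix; rw [sub_right hf, h1, h2, sub_self]
    · exact hst _ (X.sub_mem hq hp) _
  obtain ⟨h, hhi, hha, hhb, hhX, hhy⟩ : ∃ h ∈ iso f, (h : Matrix ι ι F) *ᵥ a' = a' ∧ (h : Matrix ι ι F) *ᵥ b1 = b' ∧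
      (∀ x ∈ X, (h : Matrix ι ι F) *ᵥ x ∈ X) ∧ ∀ y, (∀ u ∈ X, f u y = 0) → (h : Matrix ι ι F) *ᵥ y = y := by
    by_cases hbb : f b1 b' = 0
    · obtain ⟨g1, k1, k2, k3, k4, k5⟩ := hmove b1 (b1 + a') hb1X (X.add_mem hb1X ha') hab1
        (by rw [hf.bilinear.add_right, hab1, hf.alternating, add_zero])
        (by rw [hf.bilinear.add_right, hf.alternating, zero_add]; exact swap_ne hf (by rw [hab1]; exact one_ne_zero))
      obtain ⟨g2, l1, l2, l3, l4, l5⟩ := hmove (b1 + a') b' (X.add_mem hb1X ha') hb'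
        (by rw [hf.bilinear.add_right, hab1, hf.alternating, add_zero]) hab'
        (by rw [hf.bilinear.add_left, hbb, hab', zero_add]; exact one_ne_zero)
      refine ⟨g2 * g1, (iso f).mul_mem l1 k1, ?_, ?_, fun x hx => ?_, fun y hy => ?_⟩
      · rw [Units.val_mul, ← Matrix.mulVec_mulVec, k2, l2]
      · rw [Units.val_mul, ← Matrix.mulVec_mulVec, k3, l3]
      · rw [Units.val_mul, ← Matrix.mulVec_mulVec]; exact l4 _ (k4 _ hx)
      · rw [Units.val_mul, ← Matrix.mulVec_mulVec, k5 y hy, l5 y hy]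
    · exact hmove b1 b' hb1X hb' hab1 hab' hbb
  refine ⟨h * (t2 * t1), (iso f).mul_mem hhi ht21, ?_, ?_, fun x hx => ?_, fun y hy => ?_⟩
  · rw [Units.val_mul, Units.val_mul, ← Matrix.mulVec_mulVec, ← Matrix.mulVec_mulVec, e1, e2, hha]
  · rw [Units.val_mul, Units.val_mul, ← Matrix.mulVec_mulVec, ← Matrix.mulVec_mulVec, ← hb1, hhb]
  · rw [Units.val_mul, Units.val_mul, ← Matrix.mulVec_mulVec, ← Matrix.mulVec_mulVec]
    exact hhX _ (hX2.1 _ (hX1.1 _ hx))
  · rw [Units.val_mul, Units.val_mul, ← Matrix.mulVec_mulVec, ← Matrix.mulVec_mulVec, hX1.2 y hy, hX2.2 y hy, hhy y hy]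

theorem pair_nondeg (hf : Geo.IsSymplecticForm f) {a b : ι → F} (hab : f a b = 1) :
    Geo.IsNondegenerateOn f (Submodule.span F {a, b}) := by
  have hba : f b a = -1 := by rw [hf.skew, hab]
  intro x hx hx0
  obtain ⟨α, β, rfl⟩ := Submodule.mem_span_pair.mp hx
  have haS : a ∈ Submodule.span F {a, b} := Submodule.subset_span (by simp)
  have hbS : b ∈ Submodule.span F {a, b} := Submodule.subset_span (by simp)
  have e1 : f a (α • a + β • b) = β := by
    rw [hf.bilinear.add_right, hf.bilinear.smul_right, hf.bilinear.smul_right, hf.alternating, hab]; ring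
  have e2 : f b (α • a + β • b) = -α := by
    rw [hf.bilinear.add_right, hf.bilinear.smul_right, hf.bilinear.smul_right, hf.alternating, hba]; ring
  by_cases hβ : β = 0
  · by_cases hα : α = 0
    · subst hα; subst hβ; simp at hx0
    · have : f b (α • a + β • b) ≠ 0 := by rw [e2]; exact neg_ne_zero.mpr hα
      exact ⟨⟨b, hbS, this⟩, ⟨b, hbS, swap_ne hf this⟩⟩
  · have : f a (α • a + β • b) ≠ 0 := by rw [e1]; exact hβ
    exact ⟨⟨a, haS, this⟩, ⟨a, haS, swap_ne hf this⟩⟩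

theorem inf_perp_nondeg (hf : Geo.IsSymplecticForm f) (X P : Submodule F (ι → F)) (hX : Geo.IsNondegenerateOn f X)
    (hP : Geo.IsNondegenerateOn f P) (hPX : P ≤ X) : Geo.IsNondegenerateOn f (X ⊓ perp hf P : Submodule F (ι → F)) := by
  rintro y ⟨hyX, hyP⟩ hy0
  obtain ⟨⟨x, hxX, hx⟩, _⟩ := hX y hyX hy0
  obtain ⟨p, hp, q, hq, rfl⟩ := exists_decomp hf P hP x
  have hqX : q ∈ X := (X.add_mem_iff_right (hPX hp)).mp hxX
  have h1 : f q y ≠ 0 := by
    intro h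
    rw [hf.bilinear.add_left, h, add_zero] at hx
    exact hx (hyP p hp)
  exact ⟨⟨q, ⟨hqX, hq⟩, h1⟩, ⟨q, ⟨hqX, hq⟩, swap_ne hf h1⟩⟩

theorem finrank_inf_perp (hf : Geo.IsSymplecticForm f) (X P : Submodule F (ι → F))
    (hP : Geo.IsNondegenerateOn f P) (hPX : P ≤ X) :
    Module.finrank F X = Module.finrank F P + Module.finrank F (X ⊓ perp hf P : Submodule F (ι → F)) := by
  have h1 := Submodule.finrank_sup_add_finrank_inf_eq P (X ⊓ perp hf P)
  have h2 : P ⊓ (X ⊓ perp hf P) = ⊥ := by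
    rw [eq_bot_iff, ← inf_perp hf P hP]
    exact inf_le_inf_left _ inf_le_right
  have h3 : P ⊔ (X ⊓ perp hf P) = X := by
    apply le_antisymm (sup_le hPX inf_le_left)
    intro x hx
    obtain ⟨p, hp, q, hq, rfl⟩ := exists_decomp hf P hP x
    exact Submodule.add_mem_sup hp ⟨(X.add_mem_iff_right (hPX hp)).mp hx, hq⟩
  rw [h2, h3, finrank_bot, add_zero] at h1
  exact h1

/-- Witt for non-degenerate subspaces of the same dimension -/
theorem exists_iso_map (hf : Geo.IsSymplecticForm f) (n : ℕ) : ∀ (X U U' : Submodule F (ι → F)), Geo.IsNondegenerateOn f X →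
    Geo.IsNondegenerateOn f U → Geo.IsNondegenerateOn f U' → U ≤ X → U' ≤ X → Module.finrank F U = n → Module.finrank F U' = n →
    ∃ g ∈ iso f, (∀ u ∈ U, (g : Matrix ι ι F) *ᵥ u ∈ U') ∧ ∀ y, (∀ x ∈ X, f x y = 0) → (g : Matrix ι ι F) *ᵥ y = y := by
  induction n using Nat.strong_induction_on with
  | _ n ih =>
    intro X U U' hX hU hU' hUX hUX' hn hn'
    by_cases hU0 : U = ⊥
    · refine ⟨1, (iso f).one_mem, fun u hu => ?_, fun y _ => by rw [Units.val_one, Matrix.one_mulVec]⟩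
      rw [hU0, Submodule.mem_bot] at hu
      rw [hu, Matrix.mulVec_zero]; exact U'.zero_mem
    have hpair : ∀ U : Submodule F (ι → F), Geo.IsNondegenerateOn f U → U ≠ ⊥ → ∃ a ∈ U, ∃ b ∈ U, f a b = 1 := by
      intro U hU hU0
      obtain ⟨a, ha, ha0⟩ := Submodule.exists_mem_ne_zero_of_ne_bot hU0
      obtain ⟨_, ⟨b, hb, hab⟩⟩ := hU a ha ha0
      exact ⟨a, ha, (f a b)⁻¹ • b, U.smul_mem _ hb, by rw [hf.bilinear.smul_right, inv_mul_cancel₀ hab]⟩
    have hn0 : n ≠ 0 := by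
      rintro rfl
      exact hU0 (Submodule.finrank_eq_zero.mp hn)
    have hU0' : U' ≠ ⊥ := by
      rintro rfl
      rw [finrank_bot] at hn'
      exact hn0 hn'.symm
    obtain ⟨a, ha, b, hb, hab⟩ := hpair U hU hU0
    obtain ⟨a', ha', b', hb', hab'⟩ := hpair U' hU' hU0'
    obtain ⟨g1, hg1, hg1a, hg1b, hg1X, hg1y⟩ := exists_move_pair hf X hX (hUX ha) (hUX hb) (hUX' ha') (hUX' hb') hab hab'
    set P := Submodule.span F {a', b'} with hP
    have hPn : Geo.IsNondegenerateOn f P := pair_nondeg hf hab'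
    set U2 := U.map (le g1).toLinearMap with hU2
    have hU2n : Geo.IsNondegenerateOn f U2 := by
      rintro _ ⟨u, hu, rfl⟩ hu0
      have hu0' : u ≠ 0 := by
        rintro rfl
        exact hu0 (map_zero _)
      obtain ⟨⟨x, hxU, hx⟩, _⟩ := hU u hu hu0'
      have h1 : f ((g1 : Matrix ι ι F) *ᵥ x) ((g1 : Matrix ι ι F) *ᵥ u) ≠ 0 := by
        rw [(mem_iso g1).mp hg1]; exact hx
      exact ⟨⟨_, ⟨x, hxU, rfl⟩, h1⟩, ⟨_, ⟨x, hxU, rfl⟩, swap_ne hf h1⟩⟩
    have hU2X : U2 ≤ X := by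
      rintro _ ⟨u, hu, rfl⟩
      exact hg1X u (hUX hu)
    have hPU2 : P ≤ U2 := by
      rw [hP, Submodule.span_le]
      rintro x (rfl | rfl)
      · exact ⟨a, ha, hg1a⟩
      · exact ⟨b, hb, hg1b⟩
    have hPU' : P ≤ U' := by
      rw [hP, Submodule.span_le]
      rintro x (rfl | rfl)
      · exact ha'
      · exact hb'
    have hPX : P ≤ X := hPU'.trans hUX'
    have hU2n' : Module.finrank F U2 = n := by
      rw [← hn]
      exact LinearEquiv.finrank_map_eq (le g1) U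
    have e1 := finrank_inf_perp hf U2 P hPn hPU2
    have e2 := finrank_inf_perp hf U' P hPn hPU'
    have hPpos : 0 < Module.finrank F P := by
      rw [Module.finrank_pos_iff, Submodule.nontrivial_iff_ne_bot]
      intro h
      have : a' ∈ P := Submodule.subset_span (by simp)
      rw [h, Submodule.mem_bot] at this
      rw [this, zero_left hf] at hab'
      exact zero_ne_one hab'
    obtain ⟨g2, hg2, hg2U, hg2y⟩ := ih (Module.finrank F (U2 ⊓ perp hf P : Submodule F (ι → F))) (by omega)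
      (X ⊓ perp hf P) (U2 ⊓ perp hf P) (U' ⊓ perp hf P)
      (inf_perp_nondeg hf X P hX hPn hPX) (inf_perp_nondeg hf U2 P hU2n hPn hPU2) (inf_perp_nondeg hf U' P hU' hPn hPU')
      (inf_le_inf_right _ hU2X) (inf_le_inf_right _ hUX') rfl (by omega)
    refine ⟨g2 * g1, (iso f).mul_mem hg2 hg1, fun u hu => ?_, fun y hy => ?_⟩
    · rw [Units.val_mul, ← Matrix.mulVec_mulVec]
      obtain ⟨p, hp, q, hq, hpq⟩ := exists_decomp hf P hPn ((g1 : Matrix ι ι F) *ᵥ u)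
      have h1 : (g1 : Matrix ι ι F) *ᵥ u ∈ U2 := ⟨u, hu, rfl⟩
      rw [hpq] at h1 ⊢
      have hqU2 : q ∈ U2 := (U2.add_mem_iff_right (hPU2 hp)).mp h1
      rw [Matrix.mulVec_add]
      apply U'.add_mem
      · rw [hg2y p]
        · exact hPU' hp
        · rintro x ⟨_, hxP⟩
          exact swap_eq hf (hxP p hp)
      · exact (hg2U q ⟨hqU2, hq⟩).1
    · rw [Units.val_mul, ← Matrix.mulVec_mulVec, hg1y y hy, hg2y y (fun x hx => hy x hx.1)]

end CfsgLib.SympTv29
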