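import Cfsg.Statements.S5647
import Mathlib
import Cfsg.Agent.LibSympTv29e

set_option autoImplicit false
open Cfsg

namespace Cfsg.Agent.S5647

open CfsgLib.MaxTv29 CfsgLib.SympTv29
open scoped MatrixGroups Matrix

section
variable {ι : Type} [Fintype ι] [DecidableEq ι] {F : Type*} [Field F] {f : (ι → F) → (ι → F) → F}

theorem eq_of_mem {t k : ℕ} {D : Fin t → Submodule F (ι → F)} (hD : Geo.IsNondegenerateMDecomposition f k D)
    {x : ι → F} (hx : x ≠ 0) {i j : Fin t} (hi : x ∈ D i) (hj : x ∈ D j) : i = j := by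
  by_contra hij
  obtain ⟨⟨y, hy, hyx⟩, _⟩ := hD.nondegenerate i x hi hx
  exact hyx (hD.orthogonal i j hij y hy x hj)

/-- membership in the decomposition stabiliser -/
theorem mem_decStab {t k : ℕ} {D : Fin t → Submodule F (ι → F)} (hD : Geo.IsNondegenerateMDecomposition f k D) (g : GL ι F)
    (h : ∀ i, ∃ j, ∀ x ∈ D i, (g : Matrix ι ι F) *ᵥ x ∈ D j) : g ∈ Geo.decompositionStabilizer D := by
  choose σ hσ using h
  have hmap : ∀ i, (D i).map (le g).toLinearMap = D (σ i) := by
    intro i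
    apply Submodule.eq_of_le_of_finrank_eq
    · rintro _ ⟨x, hx, rfl⟩
      exact hσ i x hx
    · rw [hD.decomp.finrank_eq (σ i), ← hD.decomp.finrank_eq i]
      exact LinearEquiv.finrank_map_eq (le g) (D i)
  have hinj : Function.Injective σ := by
    intro i j hij
    have h1 : D i = D j := by
      have h2 : (D i).map (le g).toLinearMap = (D j).map (le g).toLinearMap := by rw [hmap, hmap, hij]
      exact Submodule.map_injective_of_injective (le g).injective h2
    have hpos : 0 < Module.finrank F (D i) := by rw [hD.decomp.finrank_eq]; exact hD.decomp.pos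
    rw [Module.finrank_pos_iff, Submodule.nontrivial_iff_ne_bot] at hpos
    obtain ⟨x, hx, hx0⟩ := Submodule.exists_mem_ne_zero_of_ne_bot hpos
    exact eq_of_mem hD hx0 hx (h1 ▸ hx)
  refine ⟨Equiv.ofBijective σ (Finite.injective_iff_bijective.mp hinj), fun i => ?_⟩
  rw [Equiv.ofBijective_apply, ← hmap i]
  congr 1

theorem exists_ne_zero_mem {t k : ℕ} {D : Fin t → Submodule F (ι → F)} (hD : Geo.IsNondegenerateMDecomposition f k D) (i : Fin t) :
    ∃ x ∈ D i, x ≠ 0 := by
  have hpos : 0 < Module.finrank F (D i) := by rw [hD.decomp.finrank_eq]; exact hD.decomp.pos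
  rw [Module.finrank_pos_iff, Submodule.nontrivial_iff_ne_bot] at hpos
  exact Submodule.exists_mem_ne_zero_of_ne_bot hpos

theorem st_mem_decStab (hf : Geo.IsSymplecticForm f) {t k : ℕ} {D : Fin t → Submodule F (ι → F)} (hD : Geo.IsNondegenerateMDecomposition f k D) 
    (i : Fin t) (v : ι → F) (hv : v ∈ D i) (c : F) : st hf v c ∈ Geo.decompositionStabilizer D := by
  apply mem_decStab hD
  intro j
  refine ⟨j, fun x hx => ?_⟩
  by_cases hij : j = i
  · subst hij
    rw [st_mulVec]; exact (D j).add_mem hx ((D j).smul_mem _ hv)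
  · rw [st_fix hf v c x (hD.orthogonal j i hij x hx v hv)]; exact hx

/-- a vector perpendicular to all blocks is zero -/
theorem eq_zero_of_perp (hf : Geo.IsSymplecticForm f) {t k : ℕ} {D : Fin t → Submodule F (ι → F)} (hD : Geo.IsNondegenerateMDecomposition f k D) 
    (x : ι → F) (h : ∀ i, ∀ y ∈ D i, f y x = 0) : x = 0 := by
  by_contra hx0
  obtain ⟨⟨y, hy⟩, _⟩ := hf.nondegenerate x hx0
  apply hy
  have h1 : (⊤ : Submodule F (ι → F)) ≤ LinearMap.ker (fd hf x) := by
    rw [← hD.decomp.iSup_eq_top, iSup_le_iff]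
    intro i y hy
    exact h i y hy
  exact h1 (Submodule.mem_top (x := y))

theorem main (hf : Geo.IsSymplecticForm f) {t : ℕ} (k : ℕ) (D : Fin t → Submodule F (ι → F)) (hD : Geo.IsNondegenerateMDecomposition f k D)
    (hex : ∀ i, ∀ y ∈ D i, y ≠ 0 → ∃ y' ∈ D i, y' ≠ 0 ∧ y' ≠ y ∧ f y y' = 0) :
    Geo.IsMaximalIn (iso f) (Geo.decompositionStabilizer D ⊓ iso f) := by
  refine ⟨lt_of_le_of_ne inf_le_right ?_, fun M hHM hMS => ?_⟩
  · intro heq
    have ht := hD.decomp.two_le
    set i0 : Fin t := ⟨0, by omega⟩ with hi0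
    set i1 : Fin t := ⟨1, by omega⟩ with hi1
    have hne : i0 ≠ i1 := by simp [hi0, hi1]
    obtain ⟨a, ha, ha0⟩ := exists_ne_zero_mem hD i0
    obtain ⟨b, hb, hb0⟩ := exists_ne_zero_mem hD i1
    obtain ⟨⟨w, hw, hwa⟩, _⟩ := hD.nondegenerate i0 a ha ha0
    have h1 : st hf (a + b) 1 ∈ iso f := st_mem_iso hf _ _
    rw [← heq] at h1
    obtain ⟨σ, hσ⟩ := h1.1
    have h2 : ∀ x ∈ D i0, ((st hf (a + b) 1 : GL ι F) : Matrix ι ι F) *ᵥ x ∈ D (σ i0) := by
      intro x hx
      rw [← hσ i0]; exact ⟨x, hx, rfl⟩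
    have h3 := h2 a ha
    rw [st_fix hf _ _ _ (by rw [hf.bilinear.add_right, hf.alternating, hD.orthogonal i0 i1 hne a ha b hb, add_zero])] at h3
    have h4 : i0 = σ i0 := eq_of_mem hD ha0 ha h3
    have h5 := h2 w hw
    rw [← h4, st_mulVec, hf.bilinear.add_right, hD.orthogonal i0 i1 hne w hw b hb, add_zero, one_mul] at h5
    have h6 : a + b ∈ D i0 := ((D i0).smul_mem_iff hwa).mp (((D i0).add_mem_iff_right hw).mp h5)
    have h7 : b ∈ D i0 := ((D i0).add_mem_iff_right ha).mp h6
    exact hne (eq_of_mem hD hb0 h7 hb)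
  by_cases hMH : M = Geo.decompositionStabilizer D ⊓ iso f
  · exact Or.inl hMH
  right
  apply le_antisymm hMS
  obtain ⟨g, hgM, hg⟩ : ∃ g ∈ M, g ∉ Geo.decompositionStabilizer D := by
    by_contra hcon
    push Not at hcon
    exact hMH (le_antisymm (le_inf hcon hMS) hHM)
  have hgi : g ∈ iso f := hMS hgM
  have hT : ∀ i, ∀ v ∈ D i, SFull hf M v := fun i v hv c => hHM ⟨st_mem_decStab hf hD i v hv c, st_mem_iso hf _ _⟩
  -- full vector outside all blocks
  obtain ⟨y, hyF, hyD⟩ : ∃ y, SFull hf M y ∧ ∀ j, y ∉ D j := by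
    by_contra hcon
    push Not at hcon
    apply hg
    apply mem_decStab hD
    intro i
    obtain ⟨x, hx, hx0⟩ := exists_ne_zero_mem hD i
    have hgx0 : (g : Matrix ι ι F) *ᵥ x ≠ 0 := by
      intro h
      exact hx0 (mulVec_injective g (by simp only [h, Matrix.mulVec_zero]))
    obtain ⟨j, hj⟩ := hcon _ ((hT i x hx).mulVec hgM hgi)
    refine ⟨j, fun y hy => ?_⟩
    by_cases hgy0 : (g : Matrix ι ι F) *ᵥ y = 0
    · rw [hgy0]; exact (D j).zero_mem
    obtain ⟨j', hj'⟩ := hcon _ ((hT i y hy).mulVec hgM hgi)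
    by_cases hjj : j' = j
    · rw [← hjj]; exact hj'
    exfalso
    obtain ⟨j'', hj''⟩ := hcon _ ((hT i (x + y) ((D i).add_mem hx hy)).mulVec hgM hgi)
    rw [Matrix.mulVec_add] at hj''
    by_cases h1 : j'' = j
    · subst h1
      have := ((D j'').add_mem_iff_right hj).mp hj''
      exact hjj (eq_of_mem hD hgy0 hj' this)
    · -- pairing with D j: the component
      obtain ⟨⟨z, hz, hzx⟩, _⟩ := hD.nondegenerate j _ hj hgx0
      have e1 : f z ((g : Matrix ι ι F) *ᵥ x + (g : Matrix ι ι F) *ᵥ y) = 0 := hD.orthogonal j j'' (Ne.symm h1) z hz _ hj''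
      rw [hf.bilinear.add_right, hD.orthogonal j j' (Ne.symm hjj) z hz _ hj', add_zero] at e1
      exact hzx e1
  have hy0 : y ≠ 0 := by
    rintro rfl
    have ht := hD.decomp.two_le
    exact hyD ⟨0, by omega⟩ (Submodule.zero_mem _)
  -- first component
  obtain ⟨i1, y1, hy1, b1, hb1, hyb1, hy10⟩ : ∃ i1, ∃ y1 ∈ D i1, ∃ b1 ∈ perp hf (D i1), y = y1 + b1 ∧ y1 ≠ 0 := by
    by_contra hcon
    push Not at hcon
    apply hy0
    apply eq_zero_of_perp hf hD
    intro i z hz
    obtain ⟨a, ha, b, hb, hab⟩ := exists_decomp hf (D i) (hD.nondegenerate i) y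
    have := hcon i a ha b hb hab
    rw [hab, this, zero_add]
    exact hb z hz
  have hb10 : b1 ≠ 0 := by
    rintro rfl
    rw [add_zero] at hyb1
    exact hyD i1 (hyb1 ▸ hy1)
  obtain ⟨i2, y2, hy2, b2, hb2, hyb2, hy20⟩ : ∃ i2, ∃ y2 ∈ D i2, ∃ b2 ∈ perp hf (D i2), b1 = y2 + b2 ∧ y2 ≠ 0 := by
    by_contra hcon
    push Not at hcon
    apply hb10
    apply eq_zero_of_perp hf hD
    intro i z hz
    obtain ⟨a, ha, b, hb, hab⟩ := exists_decomp hf (D i) (hD.nondegenerate i) b1
    have := hcon i a ha b hb hab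
    rw [hab, this, zero_add]
    exact hb z hz
  have hi12 : i1 ≠ i2 := by
    rintro rfl
    obtain ⟨⟨z, hz, hzx⟩, _⟩ := hD.nondegenerate i1 y2 hy2 hy20
    have := hb1 z hz
    rw [hyb2, hf.bilinear.add_right, hb2 z hz, add_zero] at this
    exact hzx this
  have hb2' : ∀ z ∈ D i1, f z b2 = 0 := by
    intro z hz
    have := hb1 z hz
    rw [hyb2, hf.bilinear.add_right, hD.orthogonal i1 i2 hi12 z hz y2 hy2, zero_add] at this
    exact this
  -- new vectors
  obtain ⟨y2', hy2', hy20', hy2ne, hy2f⟩ := hex i2 y2 hy2 hy20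
  obtain ⟨_, ⟨y1', hy1', hy1f⟩⟩ := hD.nondegenerate i1 y1 hy1 hy10
  have hy10' : y1' ≠ 0 := by
    rintro rfl
    exact hy1f (zero_right hf _)
  have hy1ne : y1' ≠ y1 := by
    rintro rfl
    exact hy1f (hf.alternating _)
  have hTD : ∀ i j, i ≠ j → ∀ (u1 u2 : ι → F), u1 ∈ D i → u2 ∈ D j → u1 ≠ 0 → u2 ≠ 0 → ∀ r, (∀ z ∈ D i, f z r = 0) → (∀ z ∈ D j, f z r = 0) → 
      SFull hf M (u1 + u2 + r) → ∀ v1 ∈ D i, ∀ v2 ∈ D j, v1 ≠ 0 → v2 ≠ 0 → SFull hf M (v1 + v2 + r) := by
    intro i j hij u1 u2 hu1 hu2 hu10 hu20 r hr1 hr2 hF v1 hv1 v2 hv2 hv10 hv20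
    obtain ⟨h1, h1M, h1i, h1a, h1y⟩ := exists_move_in hf (D i) (hD.nondegenerate i) M (hT i) hu1 hv1 hu10 hv10
    obtain ⟨h2, h2M, h2i, h2a, h2y⟩ := exists_move_in hf (D j) (hD.nondegenerate j) M (hT j) hu2 hv2 hu20 hv20
    have h3 := (hF.mulVec h1M h1i).mulVec h2M h2i
    simp only [Matrix.mulVec_add] at h3
    rw [h1a, h1y u2 (fun u hu => hD.orthogonal i j hij u hu u2 hu2), h1y r hr1, h2a,
      h2y v1 (fun u hu => hD.orthogonal j i hij.symm u hu v1 hv1), h2y r hr2] at h3
    exact h3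
  have hb2F : ∀ z ∈ D i2, f z b2 = 0 := hb2
  have hyF' : SFull hf M (y1 + y2 + b2) := by
    rw [hyb1, hyb2, ← add_assoc] at hyF; exact hyF
  have hyF'' : SFull hf M (y1' + y2' + b2) := hTD i1 i2 hi12 y1 y2 hy1 hy2 hy10 hy20 b2 hb2' hb2F hyF' y1' hy1' y2' hy2' hy10' hy20'
  have hdiff : SFull hf M ((y1' - y1) + (y2' - y2) + 0) := by
    have e1 : f (y1' + y2' + b2) (y1 + y2 + b2) ≠ 0 := by
      simp only [hf.bilinear.add_left, hf.bilinear.add_right, hf.alternating]
      rw [hD.orthogonal i1 i2 hi12 y1' hy1' y2 hy2, hb2' y1' hy1', hD.orthogonal i2 i1 hi12.symm y2' hy2' y1 hy1, hb2F y2' hy2',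
        swap_eq hf (hb2' y1 hy1), swap_eq hf (hb2F y2 hy2), swap_eq hf hy2f]
      simp only [add_zero, zero_add]
      exact swap_ne hf hy1f
    have := hyF''.add hyF' e1 (-1)
    have e2 : y1' + y2' + b2 + (-1 : F) • (y1 + y2 + b2) = (y1' - y1) + (y2' - y2) + 0 := by module
    rw [e2] at this
    exact this
  have hTz : ∀ i j : Fin t, ∀ z ∈ D i, f z (0 : ι → F) = 0 := fun _ _ z _ => zero_right hf z
  -- D i1 + D i2 full
  have h12 : ∀ v1 ∈ D i1, ∀ v2 ∈ D i2, SFull hf M (v1 + v2) := by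
    intro v1 hv1 v2 hv2
    by_cases hv10 : v1 = 0
    · subst hv10; rw [zero_add]; exact hT i2 v2 hv2
    by_cases hv20 : v2 = 0
    · subst hv20; rw [add_zero]; exact hT i1 v1 hv1
    have := hTD i1 i2 hi12 (y1' - y1) (y2' - y2) ((D i1).sub_mem hy1' hy1) ((D i2).sub_mem hy2' hy2) (sub_ne_zero.mpr hy1ne) (sub_ne_zero.mpr hy2ne)
      0 (hTz i1 i1) (hTz i2 i2) hdiff v1 hv1 v2 hv2 hv10 hv20
    rw [add_zero] at this
    exact this
  -- block swaps
  have hswap : ∀ i j : Fin t, i ≠ j → ∃ h ∈ M, h ∈ iso f ∧ (∀ x ∈ D i, (h : Matrix ι ι F) *ᵥ x ∈ D j) ∧ (∀ x ∈ D j, (h : Matrix ι ι F) *ᵥ x ∈ D i) ∧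
      ∀ l, l ≠ i → l ≠ j → ∀ x ∈ D l, (h : Matrix ι ι F) *ᵥ x = x := by
    intro i j hij
    have hXn : Geo.IsNondegenerateOn f (D i ⊔ D j : Submodule F (ι → F)) := by
      intro x hx hx0
      obtain ⟨a, ha, b, hb, rfl⟩ := Submodule.mem_sup.mp hx
      by_cases ha0 : a = 0
      · have hb0 : b ≠ 0 := by rintro rfl; rw [ha0, add_zero] at hx0; exact hx0 rfl
        obtain ⟨⟨z, hz, hzb⟩, _⟩ := hD.nondegenerate j b hb hb0
        have : f z (a + b) ≠ 0 := by rw [ha0, zero_add]; exact hzb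
        exact ⟨⟨z, Submodule.mem_sup_right hz, this⟩, ⟨z, Submodule.mem_sup_right hz, swap_ne hf this⟩⟩
      · obtain ⟨⟨z, hz, hza⟩, _⟩ := hD.nondegenerate i a ha ha0
        have : f z (a + b) ≠ 0 := by rw [hf.bilinear.add_right, hD.orthogonal i j hij z hz b hb, add_zero]; exact hza
        exact ⟨⟨z, Submodule.mem_sup_left hz, this⟩, ⟨z, Submodule.mem_sup_left hz, swap_ne hf this⟩⟩
    obtain ⟨h, hhi, hhU, hhy⟩ := exists_iso_map hf k (D i ⊔ D j) (D i) (D j) hXn (hD.nondegenerate i) (hD.nondegenerate j) le_sup_left le_sup_right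
      (hD.decomp.finrank_eq i) (hD.decomp.finrank_eq j)
    have hfixl : ∀ l, l ≠ i → l ≠ j → ∀ x ∈ D l, (h : Matrix ι ι F) *ᵥ x = x := by
      intro l hli hlj x hx
      apply hhy
      intro u hu
      obtain ⟨a, ha, b, hb, rfl⟩ := Submodule.mem_sup.mp hu
      rw [hf.bilinear.add_left, hD.orthogonal i l (Ne.symm hli) a ha x hx, hD.orthogonal j l (Ne.symm hlj) b hb x hx, add_zero]
    have hji : ∀ x ∈ D j, (h : Matrix ι ι F) *ᵥ x ∈ D i := by
      intro x hx
      -- h x is perpendicular to D j = h D i and to D l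
      have hmap : (D i).map (le h).toLinearMap = D j := by
        apply Submodule.eq_of_le_of_finrank_eq
        · rintro _ ⟨x, hx, rfl⟩
          exact hhU x hx
        · rw [hD.decomp.finrank_eq j, ← hD.decomp.finrank_eq i]
          exact LinearEquiv.finrank_map_eq (le h) (D i)
      obtain ⟨a, ha, b, hb, hab⟩ := exists_decomp hf (D i) (hD.nondegenerate i) ((h : Matrix ι ι F) *ᵥ x)
      have hb0 : b = 0 := by
        apply eq_zero_of_perp hf hD
        intro l z hz
        by_cases hli : l = i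
        · subst hli; exact hb z hz
        have hb' : b = (h : Matrix ι ι F) *ᵥ x - a := by rw [hab]; abel
        rw [hb', sub_right hf, hD.orthogonal l i hli z hz a ha, sub_zero]
        by_cases hlj : l = j
        · subst hlj
          rw [← hmap] at hz
          obtain ⟨z', hz', rfl⟩ := hz
          have := (mem_iso h).mp hhi z' x
          rw [hD.orthogonal i l hij z' hz' x hx] at this
          exact this
        · have e1 := (mem_iso h).mp hhi z x
          rw [hfixl l hli hlj z hz, hD.orthogonal l j hlj z hz x hx] at e1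
          exact e1
      rw [hab, hb0, add_zero]; exact ha
    refine ⟨h, hHM ⟨mem_decStab hD h ?_, hhi⟩, hhi, hhU, hji, hfixl⟩
    intro l
    by_cases hli : l = i
    · subst hli; exact ⟨j, hhU⟩
    by_cases hlj : l = j
    · subst hlj; exact ⟨i, hji⟩
    exact ⟨l, fun x hx => by rw [hfixl l hli hlj x hx]; exact hx⟩
  -- D i + D j full for all pairs: P i j
  have hinvmap : ∀ (h : GL ι F), ∀ i j, (∀ x ∈ D i, (h : Matrix ι ι F) *ᵥ x ∈ D j) → ∀ x ∈ D j, ((h⁻¹ : GL ι F) : Matrix ι ι F) *ᵥ x ∈ D i := by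
    intro h i j hh x hx
    have hmap : (D i).map (le h).toLinearMap = D j := by
      apply Submodule.eq_of_le_of_finrank_eq
      · rintro _ ⟨x, hx, rfl⟩
        exact hh x hx
      · rw [hD.decomp.finrank_eq j, ← hD.decomp.finrank_eq i]
        exact LinearEquiv.finrank_map_eq (le h) (D i)
    rw [← hmap] at hx
    obtain ⟨z, hz, rfl⟩ := hx
    have : ((h⁻¹ : GL ι F) : Matrix ι ι F) *ᵥ ((le h).toLinearMap z) = z := inv_mulVec_mulVec h z
    rw [this]; exact hz
  have hstep : ∀ i j l, i ≠ j → l ≠ i → (∀ v1 ∈ D i, ∀ v2 ∈ D j, SFull hf M (v1 + v2)) → (∀ v1 ∈ D i, ∀ v2 ∈ D l, SFull hf M (v1 + v2)) := by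
    intro i j l hij hli hP v1 hv1 v2 hv2
    by_cases hlj : l = j
    · subst hlj; exact hP v1 hv1 v2 hv2
    obtain ⟨h, hhM, hhi, hh1, hh2, hh3⟩ := hswap j l (Ne.symm hlj)
    have e1 : ((h⁻¹ : GL ι F) : Matrix ι ι F) *ᵥ v2 ∈ D j := hinvmap h j l hh1 v2 hv2
    have e2 := (hP v1 hv1 _ e1).mulVec hhM hhi
    rw [Matrix.mulVec_add, mulVec_inv_mulVec, hh3 i hij hli.symm v1 hv1] at e2
    exact e2
  have hcomm : ∀ i j, (∀ v1 ∈ D i, ∀ v2 ∈ D j, SFull hf M (v1 + v2)) → (∀ v1 ∈ D j, ∀ v2 ∈ D i, SFull hf M (v1 + v2)) := by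
    intro i j hP v1 hv1 v2 hv2
    rw [add_comm]; exact hP v2 hv2 v1 hv1
  have hpair : ∀ i j, i ≠ j → ∀ v1 ∈ D i, ∀ v2 ∈ D j, SFull hf M (v1 + v2) := by
    intro i j hij
    by_cases h1 : i = i1
    · subst h1
      exact hstep i i2 j hi12 hij.symm h12
    · have h3 := hstep i1 i2 i hi12 h1 h12
      exact hstep i i1 j h1 hij.symm (hcomm _ _ h3)
  -- all vectors
  have hall : ∀ S : Finset (Fin t), ∀ v ∈ (⨆ i ∈ S, D i : Submodule F (ι → F)), SFull hf M v := by
    intro S
    induction S using Finset.induction_on with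
    | empty =>
      intro v hv
      simp at hv
      subst hv; exact sfull_zero hf M
    | insert j S hj ih =>
      intro v hv
      rw [Finset.iSup_insert] at hv
      obtain ⟨vj, hvj, v', hv', rfl⟩ := Submodule.mem_sup.mp hv
      by_cases hv'0 : v' = 0
      · subst hv'0; rw [add_zero]; exact hT j vj hvj
      -- some block i in S detecting v'
      obtain ⟨i, hiS, x, hx, hxv⟩ : ∃ i ∈ S, ∃ x ∈ D i, f x v' ≠ 0 := by
        by_contra hcon
        push Not at hcon
        apply hv'0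
        apply eq_zero_of_perp hf hD
        intro i z hz
        by_cases hiS : i ∈ S
        · exact hcon i hiS z hz
        · have h1 : (⨆ i ∈ S, D i : Submodule F (ι → F)) ≤ LinearMap.ker (fd hf z) := by
            apply iSup₂_le
            intro l hl y hy
            have hil : l ≠ i := fun h => hiS (h ▸ hl)
            exact hD.orthogonal l i hil y hy z hz
          exact swap_eq hf (h1 hv')
      have hij : i ≠ j := fun h => hj (h ▸ hiS)
      have hu : SFull hf M (v' - x) := by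
        apply ih
        exact Submodule.sub_mem _ hv' ((le_iSup₂ (f := fun i (_ : i ∈ S) => D i) i hiS) hx)
      have hw : SFull hf M (x + vj) := hpair i j hij x hx vj hvj
      have e1 : f (v' - x) (x + vj) ≠ 0 := by
        have h1 : (⨆ i ∈ S, D i : Submodule F (ι → F)) ≤ LinearMap.ker (fd hf vj) := by
          apply iSup₂_le
          intro l hl y hy
          have hjl : l ≠ j := fun h => hj (h ▸ hl)
          exact hD.orthogonal l j hjl y hy vj hvj
        have e2 : f v' vj = 0 := h1 hv'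
        rw [sub_left hf, hf.bilinear.add_right, hf.bilinear.add_right, hf.alternating, hD.orthogonal i j hij x hx vj hvj, e2]
        simp only [add_zero, sub_zero]
        exact swap_ne hf hxv
      have := hu.add hw e1 1
      have e3 : v' - x + (1 : F) • (x + vj) = vj + v' := by module
      rw [e3] at this
      exact this
  apply iso_le_of_sfull hf
  intro v
  apply hall Finset.univ
  simp only [Finset.mem_univ, iSup_pos]
  rw [hD.decomp.iSup_eq_top]
  exact Submodule.mem_top
end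

/-- For a finite field F with q elements and m ≥ 7, let D be a decomposition of F^(2m) into t ≥ 2 pairwise orthogonal subspaces of equal dimension k on each of which the standard alternating form is non-degenerate, spanning F^(2m). Unless k = 2 and q = 2, the elements of Sp_2m(F) permuting the members of D form a maximal subgroup of Sp_2m(F). -/
theorem result {F : Type*} [Field F] [Fintype F] (m : ℕ) (hm : 7 ≤ m) {t : ℕ} (k : ℕ) (D : Fin t → Submodule F (Fin m ⊕ Fin m → F)) (hD : Cfsg.Geo.IsNondegenerateMDecomposition (Cfsg.sympForm m F) k D) (hex : ¬ (k = 2 ∧ Fintype.card F = 2)) : Cfsg.Geo.IsMaximalIn (Cfsg.spGL m F) (Cfsg.Geo.decompositionStabilizer D ⊓ Cfsg.spGL m F) := by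
  classical
  have hf := sympForm_symplectic m F
  apply main hf k D hD
  intro i y hy hy0
  by_cases hF2 : Fintype.card F = 2
  · -- dim ≥ 3
    have hk2 : k ≠ 2 := fun h => hex ⟨h, hF2⟩
    have hk1 : k ≠ 1 := by
      rintro rfl
      obtain ⟨⟨z, hz, hzy⟩, _⟩ := hD.nondegenerate i y hy hy0
      have h1 : Module.finrank F (D i) = 1 := hD.decomp.finrank_eq i
      obtain ⟨c, hc⟩ := (finrank_eq_one_iff_of_nonzero' (⟨y, hy⟩ : D i) (fun h => hy0 (congrArg Subtype.val h))).mp h1 ⟨z, hz⟩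
      have hc' : c • y = z := congrArg Subtype.val hc
      rw [← hc', hf.bilinear.smul_left, hf.alternating, mul_zero] at hzy
      exact hzy rfl
    have hk3 : 3 ≤ k := by have := hD.decomp.pos; omega
    by_contra hcon
    push Not at hcon
    have h1 : (D i ⊓ LinearMap.ker (fd hf y) : Submodule F _) ≤ Submodule.span F {y} := by
      rintro z ⟨hz1, hz2⟩
      by_cases hz0 : z = 0
      · subst hz0; exact Submodule.zero_mem _
      by_cases hzy : z = y
      · subst hzy; exact Submodule.mem_span_singleton_self _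
      · exact absurd (swap_eq hf hz2) (hcon z hz1 hz0 hzy)
    have h2 := Submodule.finrank_mono h1
    rw [finrank_span_singleton hy0] at h2
    have h3 := Submodule.finrank_sup_add_finrank_inf_eq (D i) (LinearMap.ker (fd hf y))
    have h4 := LinearMap.finrank_range_add_finrank_ker (fd hf y)
    have h5 : Module.finrank F (LinearMap.range (fd hf y)) ≤ 1 := by
      refine (Submodule.finrank_le _).trans ?_
      simp
    have h6 := Submodule.finrank_le (D i ⊔ LinearMap.ker (fd hf y))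
    rw [hD.decomp.finrank_eq i] at h3
    omega
  · -- scalar multiple
    have h1 : 2 < Fintype.card F := by
      have := Fintype.one_lt_card (α := F)
      omega
    obtain ⟨c, hc⟩ : ∃ c : F, c ∉ ({0, 1} : Finset F) := by
      by_contra hcon
      push Not at hcon
      have h2 : Finset.univ ⊆ ({0, 1} : Finset F) := fun c _ => hcon c
      have h3 := Finset.card_le_card h2
      rw [Finset.card_univ] at h3
      have h4 : ({0, 1} : Finset F).card ≤ 2 := Finset.card_le_two
      omega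
    simp only [Finset.mem_insert, Finset.mem_singleton, not_or] at hc
    refine ⟨c • y, (D i).smul_mem _ hy, smul_ne_zero hc.1 hy0, ?_, ?_⟩
    · intro h
      have h2 : (c - 1) • y = 0 := by rw [sub_smul, h, one_smul, sub_self]
      rcases smul_eq_zero.mp h2 with h3 | h3
      · exact hc.2 (sub_eq_zero.mp h3)
      · exact hy0 h3
    · rw [hf.bilinear.smul_right, hf.alternating, mul_zero]

end Cfsg.Agent.S5647
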