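import Cfsg.Agent.LibOI29b
import Cfsg.Agent.S5647

set_option autoImplicit false

/-! Imprimitive subgroups of orthogonal groups: overgroups. -/

namespace CfsgLib.OI29

open scoped MatrixGroups Matrix
open Cfsg CfsgLib.MaxTv29 CfsgLib.OM29 Cfsg.Agent.H22 Module

variable {ι : Type} [Fintype ι] [DecidableEq ι] {F : Type*} [Field F] {Q : QuadraticForm F (ι → F)}

local notation "B" => QuadraticMap.polar Q

/-- spreading along a block -/
theorem spread [Finite F] (hQ : (QuadraticMap.polarBilin Q).Nondegenerate) (h2 : (2 : F) ≠ 0) {M : Subgroup (GL ι F)} {U : Submodule F (ι → F)} (hU : ND Q U) (h3 : 3 ≤ finrank F U)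
    (hUM : ∀ a ∈ U, ∀ b ∈ U, Q a = 0 → B a b = 0 → EM Q a b ∈ M) {v x : ι → F} (hv : Q v = 0) (hvU : ∀ z ∈ U, B v z = 0) (hvx : B v x = 0) (hx : EM Q v x ∈ M)
    (hne : ∃ y ∈ U, B x y ≠ 0) : ∀ z ∈ U, EM Q v z ∈ M := by
  obtain ⟨y, hy, hQy, hxy⟩ := exists_sing_ne hU h3 hne
  have hyx : B y x ≠ 0 := by rw [bsymm]; exact hxy
  have hy0 : y ≠ 0 := by rintro rfl; rw [QuadraticMap.polar_zero_right] at hxy; exact hxy rfl
  -- general move
  have move : ∀ g ∈ M, g ∈ Cfsg.isometryGroup F ⇑Q → (g : Matrix ι ι F) *ᵥ v = v → ∀ z, B v z = 0 → EM Q v z ∈ M → EM Q v ((g : Matrix ι ι F) *ᵥ z - z) ∈ M ∧ B v ((g : Matrix ι ι F) *ᵥ z - z) = 0 := by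
    intro g hg hgi hgv z hvz hz
    have h1 := EM_conj hgi hv hvz
    rw [hgv] at h1
    have h4 : B v ((g : Matrix ι ι F) *ᵥ z) = 0 := by
      have := isoQ_polar hgi v z
      rw [hgv] at this
      rw [this]; exact hvz
    refine ⟨?_, by rw [QuadraticMap.polar_sub_right, h4, hvz, sub_zero]⟩
    rw [sub_eq_add_neg, EM_add hv h4 (by rw [QuadraticMap.polar_neg_right, hvz, neg_zero]), ← EM_inv hv hvz, ← h1]
    exact M.mul_mem (M.mul_mem (M.mul_mem hg hz) (M.inv_mem hg)) (M.inv_mem hz)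
  have hfix : ∀ a ∈ U, ∀ b ∈ U, Q a = 0 → B a b = 0 → ((EM Q a b : GL ι F) : Matrix ι ι F) *ᵥ v = v := by
    intro a ha b hb hQa hab
    rw [EM_mulVec hQa hab, bsymm a v, bsymm b v, hvU a ha, hvU b hb]; simp
  obtain ⟨b, hb, hyb, hQb⟩ := nonsing1 hQ hU h3 hy hy0 hQy
  -- multiples of `y`
  have hcy : ∀ c : F, EM Q v (c • y) ∈ M := by
    have h1 := move _ (hUM y hy b hb hQy hyb) (EM_iso y b) (hfix y hy b hb hQy hyb) x hvx hx
    rw [EM_mulVec hQy hyb] at h1
    have e1 : x + B y x • b - B b x • y - (Q b * B y x) • y - x = B y x • b - (B b x + Q b * B y x) • y := by module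
    rw [e1] at h1
    intro c
    obtain ⟨c', hc'⟩ : ∃ c' : F, -(c' * (2 * Q b) * B y x) = c := ⟨-(c * (2 * Q b)⁻¹ * (B y x)⁻¹), by field_simp⟩
    have hyb' : B y (c' • b) = 0 := by rw [QuadraticMap.polar_smul_right, hyb, smul_zero]
    have hM' := hUM y hy _ (U.smul_mem c' hb) hQy hyb'
    have h5 := move _ hM' (EM_iso _ _) (hfix y hy _ (U.smul_mem c' hb) hQy hyb') _ h1.2 h1.1
    rw [EM_mulVec hQy hyb'] at h5
    have hbb : B b b = 2 * Q b := pself Q b
    have e2 : B y x • b - (B b x + Q b * B y x) • y + B y (B y x • b - (B b x + Q b * B y x) • y) • c' • b - B (c' • b) (B y x • b - (B b x + Q b * B y x) • y) • y -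
        (Q (c' • b) * B y (B y x • b - (B b x + Q b * B y x) • y)) • y - (B y x • b - (B b x + Q b * B y x) • y) = c • y := by
      simp only [QuadraticMap.polar_sub_right, QuadraticMap.polar_smul_right, QuadraticMap.polar_smul_left, smul_eq_mul, hyb, bself hQy, hbb, bsymm b y]
      rw [← hc']
      module
    rw [e2] at h5
    exact h5.1
  let A : Submodule F (ι → F) :=
    { carrier := {w | B v w = 0 ∧ ∀ c : F, EM Q v (c • w) ∈ M}
      add_mem' := by
        rintro w w' ⟨h1, h2⟩ ⟨h3, h4⟩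
        refine ⟨by rw [QuadraticMap.polar_add_right, h1, h3, add_zero], fun c => ?_⟩
        rw [smul_add, EM_add hv (by rw [QuadraticMap.polar_smul_right, h1, smul_zero]) (by rw [QuadraticMap.polar_smul_right, h3, smul_zero])]
        exact M.mul_mem (h2 c) (h4 c)
      zero_mem' := ⟨QuadraticMap.polar_zero_right Q _, fun c => by rw [smul_zero, EM_zero hv]; exact M.one_mem⟩
      smul_mem' := by
        rintro k w ⟨h1, h2⟩
        exact ⟨by rw [QuadraticMap.polar_smul_right, h1, smul_zero], fun c => by rw [smul_smul]; exact h2 _⟩ }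
  have hyA : y ∈ A := ⟨hvU y hy, hcy⟩
  have hA1 : ∀ y' ∈ U, Q y' = 0 → B y y' ≠ 0 → y' ∈ A := by
    intro y' hy' hQy' hyy'
    obtain ⟨b', hb', h1, h4, hQb'⟩ := nonsing hQ hU h3 hy hy' hQy hQy' hyy'
    have hy'y : B y' y ≠ 0 := by rw [bsymm]; exact hyy'
    refine ⟨hvU y' hy', fun c => ?_⟩
    obtain ⟨d, hd⟩ : ∃ d : F, -(2 * Q b' * B y' y) * d = c := ⟨-(c * (2 * Q b' * B y' y)⁻¹), by field_simp⟩
    have hvy : B v (d • y) = 0 := by rw [QuadraticMap.polar_smul_right, hvU y hy, smul_zero]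
    have hst : ∀ e : F, EM Q v (d • ((e * B y' y) • b' - (e * e * Q b' * B y' y) • y')) ∈ M := by
      intro e
      have hy'b : B y' (e • b') = 0 := by rw [QuadraticMap.polar_smul_right, h4, smul_zero]
      have h5 := move _ (hUM y' hy' _ (U.smul_mem e hb') hQy' hy'b) (EM_iso _ _) (hfix y' hy' _ (U.smul_mem e hb') hQy' hy'b) _ hvy (hcy d)
      rw [EM_mulVec hQy' hy'b] at h5
      have e2 : d • y + B y' (d • y) • e • b' - B (e • b') (d • y) • y' - (Q (e • b') * B y' (d • y)) • y' - d • y = d • ((e * B y' y) • b' - (e * e * Q b' * B y' y) • y') := by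
        simp only [QuadraticMap.polar_smul_right, QuadraticMap.polar_smul_left, smul_eq_mul, qsmul, bsymm b' y, h1]
        module
      rw [e2] at h5
      exact h5.1
    have h6 := M.mul_mem (hst 1) (hst (-1))
    have hvz : ∀ e : F, B v (d • ((e * B y' y) • b' - (e * e * Q b' * B y' y) • y')) = 0 := by
      intro e
      rw [QuadraticMap.polar_smul_right, QuadraticMap.polar_sub_right, QuadraticMap.polar_smul_right, QuadraticMap.polar_smul_right, hvU b' hb', hvU y' hy']; simp
    rw [← EM_add hv (hvz 1) (hvz (-1))] at h6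
    have e3 : d • ((1 * B y' y) • b' - (1 * 1 * Q b' * B y' y) • y') + d • ((-1 * B y' y) • b' - (-1 * -1 * Q b' * B y' y) • y') = c • y' := by
      rw [← hd]; module
    rw [e3] at h6
    exact h6
  have hA2 : ∀ z ∈ U, B y z ≠ 0 → z ∈ A := by
    intro z hz hyz
    have h1 : z + (-(Q z / B y z)) • y ∈ A := by
      apply hA1 _ (U.add_mem hz (U.smul_mem _ hy))
      · rw [qadd, qsmul, hQy, QuadraticMap.polar_smul_right, bsymm z y, smul_eq_mul]
        have := div_mul_cancel₀ (Q z) hyz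
        linear_combination -this
      · rw [QuadraticMap.polar_add_right, QuadraticMap.polar_smul_right, bself hQy, smul_zero, add_zero]; exact hyz
    exact (A.add_mem_iff_left (A.smul_mem _ hyA)).mp h1
  obtain ⟨z0, hz0, hyz0⟩ := partner hU hy hy0
  intro z hz
  have hzA : z ∈ A := by
    by_cases hyz : B y z = 0
    · have h1 := hA2 (z + z0) (U.add_mem hz hz0) (by rw [QuadraticMap.polar_add_right, hyz, zero_add]; exact hyz0)
      exact (A.add_mem_iff_left (hA2 z0 hz0 hyz0)).mp h1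
    · exact hA2 z hz hyz
  have := hzA.2 1
  rwa [one_smul] at this

/-- linear maps on a decomposition -/
theorem exists_ext {t : ℕ} {D : Fin t → Submodule F (ι → F)} (hind : iSupIndep D) (hsup : iSup D = ⊤) (f : ∀ i, D i →ₗ[F] (ι → F)) :
    ∃ S : (ι → F) →ₗ[F] (ι → F), ∀ i, ∀ x : D i, S x = f i x := by
  have hI := DirectSum.isInternal_submodule_of_iSupIndep_of_iSup_eq_top hind hsup
  let E := LinearEquiv.ofBijective (DirectSum.coeLinearMap D) hI
  refine ⟨(DirectSum.toModule F (Fin t) (ι → F) f) ∘ₗ E.symm.toLinearMap, fun i x => ?_⟩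
  have h1 : E (DirectSum.lof F (Fin t) (fun i => D i) i x) = x := DirectSum.coeLinearMap_lof D i x
  have h2 : E.symm (x : ι → F) = DirectSum.lof F (Fin t) (fun i => D i) i x := by rw [← h1, LinearEquiv.symm_apply_apply]
  rw [LinearMap.comp_apply, LinearEquiv.coe_coe, h2, DirectSum.toModule_lof]

/-- an isometry permuting the blocks -/
theorem exists_perm (h2 : (2 : F) ≠ 0) (hQ : (QuadraticMap.polarBilin Q).Nondegenerate) {t : ℕ} {D : Fin t → Submodule F (ι → F)} (hind : iSupIndep D) (hsup : iSup D = ⊤)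
    (horth : ∀ i j, i ≠ j → ∀ x ∈ D i, ∀ y ∈ D j, B x y = 0) (hiso : ∀ i j, Geo.AreIsometricFor ⇑Q (D i) (D j)) (σ : Equiv.Perm (Fin t)) :
    ∃ g ∈ Cfsg.isometryGroup F ⇑Q, ∀ i, ∀ x ∈ D i, (g : Matrix ι ι F) *ᵥ x ∈ D (σ i) := by
  choose e he using fun i => hiso i (σ i)
  obtain ⟨S, hS⟩ := exists_ext hind hsup (fun i => (D (σ i)).subtype ∘ₗ (e i).toLinearMap)
  have hS' : ∀ i, ∀ x ∈ D i, S x ∈ D (σ i) := by
    intro i x hx
    have := hS i ⟨x, hx⟩
    change S x = _ at this
    rw [this]; exact (e i ⟨x, hx⟩).2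
  have hSQ : ∀ i, ∀ x ∈ D i, Q (S x) = Q x := by
    intro i x hx
    have := hS i ⟨x, hx⟩
    change S x = _ at this
    rw [this]; exact he i ⟨x, hx⟩
  have hSB : ∀ x y, B (S x) (S y) = B x y := by
    intro x y
    have hx : x ∈ iSup D := by rw [hsup]; exact Submodule.mem_top
    induction hx using Submodule.iSup_induction' with
    | mem i x hx =>
      have hy : y ∈ iSup D := by rw [hsup]; exact Submodule.mem_top
      induction hy using Submodule.iSup_induction' with
      | mem j y hy =>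
        by_cases hij : i = j
        · subst hij
          unfold QuadraticMap.polar
          rw [← map_add, hSQ i _ ((D i).add_mem hx hy), hSQ i _ hx, hSQ i _ hy]
        · rw [horth i j hij x hx y hy, horth (σ i) (σ j) (fun h => hij (σ.injective h)) _ (hS' i x hx) _ (hS' j y hy)]
      | zero => rw [map_zero, QuadraticMap.polar_zero_right, QuadraticMap.polar_zero_right]
      | add y y' _ _ h h' => rw [map_add, QuadraticMap.polar_add_right, QuadraticMap.polar_add_right, h, h']
    | zero => rw [map_zero, QuadraticMap.polar_zero_left, QuadraticMap.polar_zero_left]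
    | add x x' _ _ h h' => rw [map_add, QuadraticMap.polar_add_left, QuadraticMap.polar_add_left, h, h']
  have hSi : Function.Injective S := by
    rw [← LinearMap.ker_eq_bot, eq_bot_iff]
    intro x hx
    rw [Submodule.mem_bot]
    have hx' : S x = 0 := hx
    apply hQ.1 x
    intro y
    change B x y = 0
    rw [← hSB, hx', QuadraticMap.polar_zero_left]
  let S' : (ι → F) ≃ₗ[F] (ι → F) := LinearEquiv.ofInjectiveEndo S hSi
  have hS'' : ∀ x, ((glLin.symm S' : GL ι F) : Matrix ι ι F) *ᵥ x = S x := by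
    intro x
    rw [glLin_symm_mulVec]; rfl
  refine ⟨glLin.symm S', ?_, fun i x hx => by rw [hS'']; exact hS' i x hx⟩
  rw [mem_isoQ]
  intro x
  rw [hS'']
  have h3 := hSB x x
  rw [pself, pself] at h3
  exact mul_left_cancel₀ h2 h3

end CfsgLib.OI29
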