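import Cfsg.Agent.LibOI29c

set_option autoImplicit false

/-! Imprimitive subgroups of orthogonal groups: maximality. -/

namespace CfsgLib.OI29

open scoped MatrixGroups Matrix
open Cfsg CfsgLib.MaxTv29 CfsgLib.OM29 Cfsg.Agent.H22 Module

variable {ι : Type} [Fintype ι] [DecidableEq ι] {F : Type*} [Field F]

/-- overgroups of the stabiliser of a decomposition -/
structure Im (Q : QuadraticForm F (ι → F)) {t : ℕ} (D : Fin t → Submodule F (ι → F)) (k : ℕ) (M : Subgroup (GL ι F)) : Prop where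
  hQ : (QuadraticMap.polarBilin Q).Nondegenerate
  h2 : (2 : F) ≠ 0
  h13 : 13 ≤ finrank F (ι → F)
  ht : 3 ≤ t
  hk : 3 ≤ k
  hD : Geo.IsOrthogonalMDecomposition ⇑Q k D
  hMS : M ≤ Geo.omegaGL ⇑Q
  hHM : Geo.decompositionStabilizer D ⊓ Geo.omegaGL ⇑Q ≤ M

variable {Q : QuadraticForm F (ι → F)} {t k : ℕ} {D : Fin t → Submodule F (ι → F)} {M : Subgroup (GL ι F)}

local notation "B" => QuadraticMap.polar Q

/-- mixed root elements between two blocks -/
def Gd (Q : QuadraticForm F (ι → F)) (D : Fin t → Submodule F (ι → F)) (M : Subgroup (GL ι F)) (i j : Fin t) : Prop :=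
  ∀ v ∈ D i, Q v = 0 → ∀ z ∈ D j, EM Q v z ∈ M

namespace Im

variable (I : Im Q D k M)

include I

theorem dim (i : Fin t) : finrank F (D i) = k := I.hD.decomp.decomp.finrank_eq i

theorem dim3 (i : Fin t) : 3 ≤ finrank F (D i) := by rw [I.dim]; exact I.hk

theorem nd (i : Fin t) : ND Q (D i) := nd_of_geo (I.hD.decomp.nondegenerate i)

theorem o {i j : Fin t} (hij : i ≠ j) {x y : ι → F} (hx : x ∈ D i) (hy : y ∈ D j) : B x y = 0 := I.hD.decomp.orthogonal i j hij x hx y hy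

theorem iso {g : GL ι F} (hg : g ∈ M) : g ∈ Cfsg.isometryGroup F ⇑Q := omegaGL_le_iso (I.hMS hg)

theorem em_omega [Finite F] {v w : ι → F} (hv : Q v = 0) (hw : B v w = 0) : EM Q v w ∈ Geo.omegaGL ⇑Q := by
  haveI : Fintype F := Fintype.ofFinite F
  have h13 := I.h13
  obtain ⟨e, f, e', f', u', hs⟩ := exists_HS I.hQ (by omega : 5 ≤ finrank F (ι → F))
  exact EM_omega I.hQ hs (by omega) hv hw

theorem mem [Finite F] (i : Fin t) {a b : ι → F} (ha : a ∈ D i) (hb : b ∈ D i) (hQa : Q a = 0) (hab : B a b = 0) : EM Q a b ∈ M := by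
  refine I.hHM ⟨?_, I.em_omega hQa hab⟩
  apply Cfsg.Agent.S5647.mem_decStab I.hD.decomp
  intro j
  refine ⟨j, fun x hx => ?_⟩
  rw [EM_mulVec hQa hab]
  by_cases hij : i = j
  · subst hij
    exact (D i).sub_mem ((D i).sub_mem ((D i).add_mem hx ((D i).smul_mem _ hb)) ((D i).smul_mem _ ha)) ((D i).smul_mem _ ha)
  · rw [I.o hij ha hx, I.o hij hb hx]; simpa using hx

/-- commutators of permutations are induced by elements of `M` -/
theorem perm (σ τ : Equiv.Perm (Fin t)) : ∃ h ∈ M, ∀ i, ∀ x ∈ D i, ((h⁻¹ : GL ι F) : Matrix ι ι F) *ᵥ x ∈ D ((σ * τ * σ⁻¹ * τ⁻¹)⁻¹ i) := by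
  have key : ∀ (σ : Equiv.Perm (Fin t)) (g : GL ι F), (∀ i, ∀ x ∈ D i, (g : Matrix ι ι F) *ᵥ x ∈ D (σ i)) → ∀ i, ∀ x ∈ D i, ((g⁻¹ : GL ι F) : Matrix ι ι F) *ᵥ x ∈ D (σ⁻¹ i) := by
    intro σ g hg i x hx
    have hmap : (D (σ⁻¹ i)).map (le g).toLinearMap = D i := by
      apply Submodule.eq_of_le_of_finrank_eq
      · rintro _ ⟨x, hx, rfl⟩
        have := hg _ x hx
        have e : σ (σ⁻¹ i) = i := by simp
        rwa [e] at this
      · rw [I.dim i, ← I.dim (σ⁻¹ i)]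
        exact LinearEquiv.finrank_map_eq (le g) (D (σ⁻¹ i))
    rw [← hmap] at hx
    exact mem_map_le.mp hx
  obtain ⟨g, hg, hgs⟩ := exists_perm I.h2 I.hQ I.hD.decomp.decomp.indep I.hD.decomp.decomp.iSup_eq_top (fun i j hij x hx y hy => I.o hij hx hy) I.hD.isometric σ
  obtain ⟨h, hh, hhs⟩ := exists_perm I.h2 I.hQ I.hD.decomp.decomp.indep I.hD.decomp.decomp.iSup_eq_top (fun i j hij x hx y hy => I.o hij hx hy) I.hD.isometric τ
  have hc : ∀ i, ∀ x ∈ D i, ((g * h * g⁻¹ * h⁻¹ : GL ι F) : Matrix ι ι F) *ᵥ x ∈ D ((σ * τ * σ⁻¹ * τ⁻¹) i) := by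
    intro i x hx
    rw [Units.val_mul, ← Matrix.mulVec_mulVec, Units.val_mul, ← Matrix.mulVec_mulVec, Units.val_mul, ← Matrix.mulVec_mulVec]
    exact hgs _ _ (hhs _ _ (key σ g hgs _ _ (key τ h hhs i x hx)))
  refine ⟨g * h * g⁻¹ * h⁻¹, I.hHM ⟨?_, ?_⟩, key _ _ hc⟩
  · apply Cfsg.Agent.S5647.mem_decStab I.hD.decomp
    exact fun i => ⟨_, hc i⟩
  · rw [CfsgLib.OS29.omega_comm]
    exact Subgroup.commutator_mem_commutator hg hh

theorem three {i j l : Fin t} (hij : i ≠ j) (hil : i ≠ l) (hjl : j ≠ l) : ∃ h ∈ M, (∀ x ∈ D l, ((h⁻¹ : GL ι F) : Matrix ι ι F) *ᵥ x ∈ D i) ∧ (∀ x ∈ D i, ((h⁻¹ : GL ι F) : Matrix ι ι F) *ᵥ x ∈ D j) := by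
  obtain ⟨h, hh, hp⟩ := I.perm (Equiv.swap i j) (Equiv.swap j l)
  refine ⟨h, hh, fun x hx => ?_, fun x hx => ?_⟩
  · have := hp l x hx
    have e : (Equiv.swap i j * Equiv.swap j l * (Equiv.swap i j)⁻¹ * (Equiv.swap j l)⁻¹)⁻¹ l = i := by
      rw [Equiv.Perm.inv_eq_iff_eq]
      simp only [Equiv.Perm.mul_apply, Equiv.swap_inv]
      rw [Equiv.swap_apply_of_ne_of_ne hij hil, Equiv.swap_apply_left, Equiv.swap_apply_left, Equiv.swap_apply_of_ne_of_ne hil.symm hjl.symm]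
    rwa [e] at this
  · have := hp i x hx
    have e : (Equiv.swap i j * Equiv.swap j l * (Equiv.swap i j)⁻¹ * (Equiv.swap j l)⁻¹)⁻¹ i = j := by
      rw [Equiv.Perm.inv_eq_iff_eq]
      simp only [Equiv.Perm.mul_apply, Equiv.swap_inv]
      rw [Equiv.swap_apply_left, Equiv.swap_apply_of_ne_of_ne hil.symm hjl.symm, Equiv.swap_apply_right, Equiv.swap_apply_right]
    rwa [e] at this

theorem Gd_conj {i j i' j' : Fin t} (hij : i ≠ j) {h : GL ι F} (hh : h ∈ M) (h1 : ∀ x ∈ D i', ((h⁻¹ : GL ι F) : Matrix ι ι F) *ᵥ x ∈ D i) (h2 : ∀ x ∈ D j', ((h⁻¹ : GL ι F) : Matrix ι ι F) *ᵥ x ∈ D j)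
    (hG : Gd Q D M i j) : Gd Q D M i' j' := by
  intro v hv hQv z hz
  have hi := I.iso hh
  have hii := I.iso (M.inv_mem hh)
  have hQv' : Q (((h⁻¹ : GL ι F) : Matrix ι ι F) *ᵥ v) = 0 := by rw [(mem_isoQ _).mp hii]; exact hQv
  have h3 := hG _ (h1 v hv) hQv' _ (h2 z hz)
  have h4 := EM_conj hi hQv' (I.o hij (h1 v hv) (h2 z hz))
  rw [mulVec_inv_mulVec, mulVec_inv_mulVec] at h4
  rw [← h4]
  exact M.mul_mem (M.mul_mem hh h3) (M.inv_mem hh)

omit I in
theorem EM_zero_left (w : ι → F) : EM Q 0 w = 1 := by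
  apply gl_ext
  intro x
  rw [EM_mulVec (QuadraticMap.map_zero Q) (QuadraticMap.polar_zero_left Q w)]
  simp

theorem of_one [Finite F] {i j : Fin t} (hij : i ≠ j) {v x : ι → F} (hv : v ∈ D i) (hv0 : v ≠ 0) (hQv : Q v = 0) (hvx : B v x = 0) (hx : EM Q v x ∈ M) (hne : ∃ y ∈ D j, B x y ≠ 0) :
    Gd Q D M j i := by
  have h1 := spread I.hQ I.h2 (I.nd j) (I.dim3 j) (fun a ha b hb hQa hab => I.mem j ha hb hQa hab) hQv (fun z hz => I.o hij hv hz) hvx hx hne
  intro z hz hQz v' hv'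
  have hvz : B v z = 0 := I.o hij hv hz
  have hzv : B z v = 0 := by rw [bsymm]; exact hvz
  have h2 : EM Q z v ∈ M := by
    rw [EM_swap hQz hQv hzv]
    exact M.inv_mem (h1 z hz)
  exact spread I.hQ I.h2 (I.nd i) (I.dim3 i) (fun a ha b hb hQa hab => I.mem i ha hb hQa hab) hQz (fun y hy => I.o hij.symm hz hy) hzv h2 (partner (I.nd i) hv hv0) v' hv'

theorem Gd_symm [Finite F] {i j : Fin t} (hij : i ≠ j) (hG : Gd Q D M i j) : Gd Q D M j i := by
  obtain ⟨v, hv, hv0, hQv⟩ := exists_sing (Q := Q) (I.dim3 i)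
  obtain ⟨z, hz, hz0, hQz⟩ := exists_sing (Q := Q) (I.dim3 j)
  exact I.of_one hij hv hv0 hQv (I.o hij hv hz) (hG v hv hQv z hz) (partner (I.nd j) hz hz0)

theorem Gd_step [Finite F] {i j l : Fin t} (hij : i ≠ j) (hil : i ≠ l) (hG : Gd Q D M i j) : Gd Q D M i l := by
  by_cases hjl : j = l
  · rw [← hjl]; exact hG
  obtain ⟨h, hh, h1, h2⟩ := I.three hij hil hjl
  exact I.Gd_symm hil.symm (I.Gd_conj hij hh h1 h2 hG)

theorem Gd_all [Finite F] {i j : Fin t} (hij : i ≠ j) (hG : Gd Q D M i j) {l m : Fin t} (hlm : l ≠ m) : Gd Q D M l m := by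
  by_cases hli : l = i
  · subst hli; exact I.Gd_step hij hlm hG
  · have h1 := I.Gd_symm (Ne.symm hli) (I.Gd_step hij (Ne.symm hli) hG)
    exact I.Gd_step hli hlm h1

theorem zero_of_perp {x : ι → F} (h : ∀ i, ∀ y ∈ D i, B y x = 0) : x = 0 := by
  apply I.hQ.1 x
  intro y
  change B x y = 0
  have hy : y ∈ iSup D := by rw [I.hD.decomp.decomp.iSup_eq_top]; exact Submodule.mem_top
  have h1 : iSup D ≤ Cfsg.Agent.H22.orth Q (Submodule.span F {x}) := by
    rw [iSup_le_iff]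
    intro i y hy
    rw [mem_orth_span, bsymm]; exact h i y hy
  exact mem_orth_span.mp (h1 hy)

theorem full [Finite F] {i : Fin t} (hG : ∀ l, i ≠ l → Gd Q D M i l) {v : ι → F} (hv : v ∈ D i) (hQv : Q v = 0) : Full Q M v := by
  refine ⟨hQv, ?_⟩
  let A : Submodule F (ι → F) :=
    { carrier := {w | (∀ z ∈ D i, B z w = 0) ∧ ∀ c : F, EM Q v (c • w) ∈ M}
      add_mem' := by
        rintro w w' ⟨h1, h2⟩ ⟨h3, h4⟩
        refine ⟨fun z hz => by rw [QuadraticMap.polar_add_right, h1 z hz, h3 z hz, add_zero], fun c => ?_⟩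
        rw [smul_add, EM_add hQv (by rw [QuadraticMap.polar_smul_right, h1 v hv, smul_zero]) (by rw [QuadraticMap.polar_smul_right, h3 v hv, smul_zero])]
        exact M.mul_mem (h2 c) (h4 c)
      zero_mem' := ⟨fun z _ => QuadraticMap.polar_zero_right Q _, fun c => by rw [smul_zero, EM_zero hQv]; exact M.one_mem⟩
      smul_mem' := by
        rintro k w ⟨h1, h2⟩
        exact ⟨fun z hz => by rw [QuadraticMap.polar_smul_right, h1 z hz, smul_zero], fun c => by rw [smul_smul]; exact h2 _⟩ }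
  have h1 : (⊤ : Submodule F (ι → F)) ≤ D i ⊔ A := by
    rw [← I.hD.decomp.decomp.iSup_eq_top, iSup_le_iff]
    intro l
    by_cases hl : i = l
    · rw [← hl]; exact le_sup_left
    · refine le_trans ?_ le_sup_right
      intro x hx
      exact ⟨fun z hz => I.o hl hz hx, fun c => hG l hl v hv hQv _ ((D l).smul_mem c hx)⟩
  intro w hw
  obtain ⟨a, ha, b, hb, rfl⟩ := Submodule.mem_sup.mp (h1 (Submodule.mem_top (x := w)))
  have hvb : B v b = 0 := hb.1 v hv
  rw [QuadraticMap.polar_add_right, hvb, add_zero] at hw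
  rw [EM_add hQv hw hvb]
  have := hb.2 1
  rw [one_smul] at this
  exact M.mul_mem (I.mem i hv ha hQv hw) this

theorem top [Finite F] {i j : Fin t} (hij : i ≠ j) (hG : Gd Q D M i j) : Geo.omegaGL ⇑Q ≤ M := by
  haveI : Fintype F := Fintype.ofFinite F
  have h13 := I.h13
  obtain ⟨e, f, e', f', u', hs⟩ := exists_HS I.hQ (by omega : 5 ≤ finrank F (ι → F))
  have hfull : ∀ l, ∀ v ∈ D l, Q v = 0 → Full Q M v := fun l v hv hQv => I.full (fun m hm => I.Gd_all hij hG hm) hv hQv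
  apply full_top I.hQ hs (by omega)
  intro v hv
  by_cases hv0 : ∃ l, ∃ a ∈ D l, Q a = 0 ∧ B a v ≠ 0
  · obtain ⟨l, a, ha, hQa, hav⟩ := hv0
    have ha0 : a ≠ 0 := by rintro rfl; rw [QuadraticMap.polar_zero_left] at hav; exact hav rfl
    obtain ⟨a', ha', hQa', haa'⟩ := hyp (I.nd l) ha ha0 hQa
    set k := B a v with hk
    set w := k⁻¹ • (v - k • a') with hw
    have haw : B a w = 0 := by
      rw [hw, QuadraticMap.polar_smul_right, QuadraticMap.polar_sub_right, QuadraticMap.polar_smul_right, haa', ← hk]; simp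
    have h1 := ((hfull l a' ha' hQa').smul k).conj ((hfull l a ha hQa).2 w haw) (EM_iso _ _)
    rw [EM_mulVec hQa haw, QuadraticMap.polar_smul_right, haa', smul_eq_mul, mul_one] at h1
    have e1 : k • a' + k • w = v := by rw [hw, smul_smul, mul_inv_cancel₀ hav, one_smul, add_sub_cancel]
    rw [e1] at h1
    have e2 : v - B w (k • a') • a - (Q w * k) • a = v + (-(B w (k • a') + Q w * k)) • a := by module
    rw [e2] at h1
    obtain ⟨d, hd⟩ : ∃ d, d = -(B w (k • a') + Q w * k) := ⟨_, rfl⟩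
    rw [← hd] at h1
    have h2 := h1.1
    rw [qadd, qsmul, hv, hQa, QuadraticMap.polar_smul_right, smul_eq_mul, mul_zero, add_zero, zero_add, bsymm, ← hk] at h2
    rw [(mul_eq_zero.mp h2).resolve_right hav, zero_smul, add_zero] at h1
    exact h1
  · push Not at hv0
    have : v = 0 := by
      apply I.zero_of_perp
      intro l y hy
      by_contra hne
      obtain ⟨a, ha, hQa, hva⟩ := exists_sing_ne (I.nd l) (I.dim3 l) ⟨y, hy, by rw [bsymm]; exact hne⟩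
      exact hva (by rw [bsymm]; exact hv0 l a ha hQa)
    rw [this]
    exact ⟨QuadraticMap.map_zero Q, fun w _ => by rw [EM_zero_left]; exact M.one_mem⟩

/-- either everything or the blocks are blocks -/
theorem dich [Finite F] (hbad : ¬ Geo.omegaGL ⇑Q ≤ M) (i : Fin t) : Blk Q M k (D i) := by
  refine ⟨I.nd i, I.dim i, fun a ha b hb hQa hab => I.mem i ha hb hQa hab, fun a ha hQa ha0 x hax hx => ?_⟩
  by_contra hxi
  apply hbad
  obtain ⟨j, hij, hj⟩ : ∃ j, i ≠ j ∧ ∃ y ∈ D j, B x y ≠ 0 := by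
    by_contra hcon
    push Not at hcon
    apply hxi
    obtain ⟨u, hu, w, hw, hxw⟩ := ND.decomp I.hQ (I.nd i) x
    have hw0 : w = 0 := by
      apply I.zero_of_perp
      intro l y hy
      by_cases hl : i = l
      · subst hl; exact mem_orth.mp hw y hy
      · have h1 := hcon l hl y hy
        rw [hxw, QuadraticMap.polar_add_left, I.o hl hu hy, zero_add] at h1
        rw [bsymm]; exact h1
    rw [hxw, hw0, add_zero]; exact hu
  exact I.top hij.symm (I.of_one hij ha ha0 hQa hax hx hj)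

theorem stab [Finite F] (hbad : ¬ Geo.omegaGL ⇑Q ≤ M) (hdich : ∀ W W' : Submodule F (ι → F), Blk Q M k W → Blk Q M k W' → W' ≤ W ∨ W' ≤ orth Q W) :
    M ≤ Geo.decompositionStabilizer D := by
  have hM : M ≤ Cfsg.isometryGroup F ⇑Q := fun g hg => I.iso hg
  intro g hg
  apply Cfsg.Agent.S5647.mem_decStab I.hD.decomp
  intro i
  by_contra hcon
  push Not at hcon
  have hB := (I.dich hbad i).map hM hg
  obtain ⟨x, hx, hx0⟩ := Cfsg.Agent.S5647.exists_ne_zero_mem I.hD.decomp i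
  have hperp : ∀ j, (D i).map (le g).toLinearMap ≤ orth Q (D j) := by
    intro j
    rcases hdich _ _ (I.dich hbad j) hB with h | h
    · obtain ⟨y, hy, hyj⟩ := hcon j
      exact absurd (h ⟨y, hy, rfl⟩) hyj
    · exact h
  have h1 : (g : Matrix ι ι F) *ᵥ x = 0 := by
    apply I.zero_of_perp
    intro j y hy
    exact mem_orth.mp (hperp j ⟨x, hx, rfl⟩) y hy
  exact hx0 (mulVec_injective g (by simp only [h1, Matrix.mulVec_zero]))

end Im

/-- **maximality of stabilisers of decompositions** -/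
theorem oi_maximal [Finite F] (hQ : (QuadraticMap.polarBilin Q).Nondegenerate) (h2 : (2 : F) ≠ 0) (h13 : 13 ≤ finrank F (ι → F)) (ht : 3 ≤ t)
    (hD : Geo.IsOrthogonalMDecomposition ⇑Q k D) (hk : 5 ≤ k ∨ (k = 3 ∧ ∃ α : F, α ≠ 0 ∧ α ^ 2 ≠ 1)) :
    Geo.IsMaximalIn (Geo.omegaGL ⇑Q) (Geo.decompositionStabilizer D ⊓ Geo.omegaGL ⇑Q) := by
  have hk3 : 3 ≤ k := by rcases hk with h | h <;> omega
  have main : ∀ M : Subgroup (GL ι F), Geo.decompositionStabilizer D ⊓ Geo.omegaGL ⇑Q ≤ M → M ≤ Geo.omegaGL ⇑Q → Geo.omegaGL ⇑Q ≤ M ∨ M ≤ Geo.decompositionStabilizer D := by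
    intro M hHM hMS
    have I : Im Q D k M := ⟨hQ, h2, h13, ht, hk3, hD, hMS, hHM⟩
    by_cases hbad : Geo.omegaGL ⇑Q ≤ M
    · exact Or.inl hbad
    · right
      apply I.stab hbad
      intro W W' hW hW'
      rcases hk with h | ⟨h, α, hα, hα2⟩
      · exact hW.dich5 hQ (fun g hg => I.iso hg) h hW'
      · subst h
        exact hW.dich3 hQ h2 (fun g hg => I.iso hg) hα hα2 hW'
  refine ⟨lt_of_le_of_ne inf_le_right ?_, fun M hHM hMS => ?_⟩
  · intro heq
    have I : Im Q D k (Geo.omegaGL ⇑Q) := ⟨hQ, h2, h13, ht, hk3, hD, le_rfl, inf_le_right⟩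
    have hne : (⟨0, by omega⟩ : Fin t) ≠ ⟨1, by omega⟩ := by simp
    obtain ⟨v, hv, hv0, hQv⟩ := exists_sing (Q := Q) (I.dim3 ⟨0, by omega⟩)
    obtain ⟨f, hf, hQf, hvf⟩ := hyp (I.nd _) hv hv0 hQv
    obtain ⟨z, hz, hz0, hQz⟩ := exists_sing (Q := Q) (I.dim3 ⟨1, by omega⟩)
    have hvz := I.o hne hv hz
    have hzv : B z v = 0 := by rw [bsymm]; exact hvz
    have hg := I.em_omega hQv hvz
    rw [← heq] at hg
    obtain ⟨σ, hσ⟩ := hg.1
    have h3 : ∀ x ∈ D ⟨0, by omega⟩, ((EM Q v z : GL ι F) : Matrix ι ι F) *ᵥ x ∈ D (σ ⟨0, by omega⟩) := by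
      intro x hx
      rw [← hσ]; exact ⟨x, hx, rfl⟩
    have h4 := h3 v hv
    rw [EM_mulVec hQv hvz, bself hQv, hzv] at h4
    simp only [zero_smul, mul_zero, add_zero, sub_zero] at h4
    have h5 := Cfsg.Agent.S5647.eq_of_mem hD.decomp hv0 hv h4
    have h6 := h3 f hf
    rw [← h5, EM_mulVec hQv hvz, hvf, hQz, I.o hne.symm hz hf] at h6
    simp only [zero_smul, zero_mul, sub_zero, one_smul] at h6
    have h7 := ((D _).add_mem_iff_right hf).mp h6
    exact hne (Cfsg.Agent.S5647.eq_of_mem hD.decomp hz0 h7 hz)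
  · rcases main M hHM hMS with h | h
    · exact Or.inr (le_antisymm hMS h)
    · exact Or.inl (le_antisymm (le_inf h hMS) hHM)

end CfsgLib.OI29
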