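import Mathlib
import Cfsg.Agent.LibOI2

set_option autoImplicit false
set_option linter.all false

/-! involutions of Chevalley groups in odd characteristic, 3: every involution is conjugate into H (seat helper23) -/

namespace CfsgLib.OI

open Cfsg.Lie Matrix CfsgLib.Chev CfsgLib.Chev.Good3 CfsgLib.SL2P

section
variable {D : ChevalleyDatum} {T : Tb} (g : Good3 D T)

include g

theorem ninv_congr {w w' : List ℕ} (h : ∀ r < T.n, wact T w r = wact T w' r) : ninv T w = ninv T w' := by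
  unfold ninv
  congr 1
  apply Finset.filter_congr
  intro r hr
  rw [h r (Finset.mem_range.1 hr)]

theorem ninv_L1 {w : List ℕ} (hw : VW T w) (hinv : ∀ r < T.n, wact T w (wact T w r) = r) {i : ℕ} (hi : i < T.l)
    (h : wact T w (T.sim i) < T.n / 2) : ninv T (i :: w) + 1 = ninv T w := by
  have hev := g.even
  have hs := g.sim_lt hi
  have hVi := g.VW_single hi
  have hVw : VW T (i :: w) := g.VW_append hVi hw
  -- the perm is an involution
  have hσ : (g.pw w)⁻¹ = g.pw w := by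
    rw [inv_eq_iff_mul_eq_one, ← g.pw_append, ← g.pw_nil, g.pw_eq_iff (g.VW_append hw hw) (by intro k hk; simp at hk)]
    intro r hr
    rw [wact_append, hinv r hr, wact_nil]
  have hmem : g.pw (i :: w) ∈ g.WJ Set.univ := g.mem_WJ.2 ⟨_, hVw, fun _ _ => Set.mem_univ _, rfl⟩
  have h1 := g.len_ps_mul hmem hi (by
    rw [g.pw_cons, _root_.mul_inv_rev, g.ps_inv hi, hσ]
    rw [show (g.pw w * g.ps i) = g.pw (w ++ [i]) by rw [g.pw_append, g.pw_single], g.pw_val (g.VW_append hw hVi)]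
    show T.n / 2 ≤ wact T (w ++ [i]) (T.sim i)
    rw [wact_append, wact_cons, wact_nil, g.w_sim hi, g.wact_neg hw hs]
    omega)
  have e : g.ps i * g.pw (i :: w) = g.pw w := by
    rw [g.pw_cons, ← mul_assoc, g.ps_sq hi, one_mul]
  rw [e, g.len_pw hw, g.len_pw hVw] at h1
  exact h1.symm

theorem ninv_L2 {w : List ℕ} (hw : VW T w) (hinv : ∀ r < T.n, wact T w (wact T w r) = r) {i : ℕ} (hi : i < T.l)
    (h : wact T w (T.sim i) < T.n / 2) (hne : wact T w (T.sim i) ≠ T.n - 1 - T.sim i) : ninv T ([i] ++ w ++ [i]) < ninv T w := by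
  have hev := g.even
  have hs := g.sim_lt hi
  have hVi := g.VW_single hi
  have h1 := ninv_L1 g hw hinv hi h
  have hl := g.wact_lt hw hs
  have hv : VW T ([i] ++ w ++ [i]) := g.VW_append (g.VW_append hVi hw) hVi
  have h2 := g.ninv_append hv hi (by
    rw [wact_append, wact_append, wact_cons, wact_nil, wact_cons, wact_nil, g.w_sim hi, g.wact_neg hw hs]
    apply g.w_pos hi (by omega) (by omega)
    intro e
    apply hne
    omega)
  have h3 : ninv T ([i] ++ w ++ [i] ++ [i]) = ninv T (i :: w) := by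
    apply ninv_congr g
    intro r hr
    rw [wact_append, wact_append, wact_append, wact_cons, wact_nil, wact_cons, wact_nil, wact_cons, wact_nil, g.w_w hi hr, wact_cons]
  omega

theorem v_notin {L : List ℕ} (hL : VW T L) {s j : ℕ} (hs : s < T.n) (hj : j < T.l) (hjL : j ∉ L) : T.v (wact T L s) j = T.v s j := by
  induction L with
  | nil => rw [wact_nil]
  | cons i L ih =>
    have hL' : VW T L := fun k hk => hL k (List.mem_cons_of_mem _ hk)
    rw [wact_cons, g.v_w (hL i List.mem_cons_self) (g.wact_lt hL' hs) hj, if_neg, ih hL', sub_zero]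
    · intro h; exact hjL (List.mem_cons_of_mem _ h)
    · rintro rfl; exact hjL List.mem_cons_self

theorem wact_ort {L : List ℕ} (hL : VW T L) {s : ℕ} (hs : s < T.n) (h : ∀ i ∈ L, T.A i s = 0) : wact T L s = s := by
  induction L with
  | nil => rfl
  | cons i L ih =>
    rw [wact_cons, ih (fun k hk => hL k (List.mem_cons_of_mem _ hk)) (fun k hk => h k (List.mem_cons_of_mem _ hk)),
      g.w_fix (hL i List.mem_cons_self) hs (h i List.mem_cons_self)]

theorem wact_OL {L : List ℕ} (hL : VW T L) (hO : OL T L) {k : ℕ} (hk : k ∈ L) : wact T L (T.sim k) = T.n - 1 - T.sim k := by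
  have hev := g.even
  induction L with
  | nil => simp at hk
  | cons i L ih =>
    unfold OL at hO
    rw [List.pairwise_cons] at hO
    have hL' : VW T L := fun k hk => hL k (List.mem_cons_of_mem _ hk)
    have hi := hL i List.mem_cons_self
    rw [wact_cons]
    rcases List.mem_cons.1 hk with rfl | hkL
    · rw [wact_ort g hL' (g.sim_lt hi) (fun j hj => (hO.1 j hj).2.2), g.w_sim hi]
    · rw [ih hL' hO.2 hkL]
      have hs := g.sim_lt (hL' k hkL)
      rw [g.w_fix hi (by omega)]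
      rw [g.A_neg hs hi, (hO.1 k hkL).2.1]; rfl

/-- an involution in the Weyl group all of whose negative simple roots are inverted, pairwise orthogonal -/
theorem pos_OL {w : List ℕ} (hw : VW T w) (hinv : ∀ r < T.n, wact T w (wact T w r) = r)
    {L : List ℕ} (hL : VW T L) (hO : OL T L) (h1 : ∀ k ∈ L, wact T w (T.sim k) = T.n - 1 - T.sim k)
    (h2 : ∀ k < T.l, k ∉ L → T.n / 2 ≤ wact T w (T.sim k)) :
    ∀ k < T.l, T.n / 2 ≤ wact T (w ++ L) (T.sim k) := by
  have hev := g.even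
  intro k hk
  rw [wact_append]
  by_cases hkL : k ∈ L
  · rw [wact_OL g hL hO hkL, g.wact_neg hw (g.sim_lt hk), h1 k hkL]
    have := g.sim_pos hk
    have := g.sim_lt hk
    omega
  · have hsk := g.sim_lt hk
    have hβ := h2 k hk hkL
    have hβl := g.wact_lt hw hsk
    have hs := g.wact_lt hL hsk
    -- a coordinate outside L
    have hex : ∃ j < T.l, j ∉ L ∧ T.v (wact T w (T.sim k)) j ≠ 0 := by
      by_contra hcon
      push Not at hcon
      have e1 := g.v_wact hw hβl hk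
      rw [hinv _ hsk, g.v_sim hk hk, if_pos rfl, Finset.sum_eq_zero] at e1
      · exact absurd e1 one_ne_zero
      · intro i hi
        rw [Finset.mem_range] at hi
        by_cases hiL : i ∈ L
        · rw [h1 i hiL, g.v_neg (g.sim_lt hi) hk, g.v_sim hi hk, if_neg (by rintro rfl; exact hkL hiL)]; simp
        · rw [hcon i hi hiL, zero_mul]
    obtain ⟨j, hj, hjL, hv⟩ := hex
    have hvp : 0 < T.v (wact T w (T.sim k)) j := lt_of_le_of_ne (g.v_nonneg hβl hj hβ) (Ne.symm hv)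
    have e2 : T.v (wact T w (wact T L (T.sim k))) j = T.v (wact T w (T.sim k)) j := by
      rw [g.v_wact hw hs hj, Finset.sum_eq_single k]
      · rw [v_notin g hL hsk hk hkL, g.v_sim hk hk, if_pos rfl, one_mul]
      · intro i hi hik
        rw [Finset.mem_range] at hi
        by_cases hiL : i ∈ L
        · rw [h1 i hiL, g.v_neg (g.sim_lt hi) hj, g.v_sim hi hj, if_neg (by rintro rfl; exact hjL hiL)]; simp
        · rw [v_notin g hL hsk hi hiL, g.v_sim hk hi, if_neg (Ne.symm hik), zero_mul]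
      · intro h; exact absurd (Finset.mem_range.2 hk) h
    by_contra hcon
    have := g.v_nonpos (g.wact_lt hw hs) (not_le.1 hcon) hj
    omega

end

section
variable {D : ChevalleyDatum} {T : Tb} {F : Type*} [Field F] (o : OChk D T F)

include o

theorem lift_word {w : List ℕ} (hw : VW T w) {k h : GL D.Idx F} (hk : k ∈ D.diagonalSubgroup F) (hh : h ∈ D.diagonalSubgroup F) :
    ∃ h' ∈ D.diagonalSubgroup F, k * (o.g.nw w * h) = o.g.nw w * h' := by
  have h1 := o.g.N_H (x := (o.g.nw w)⁻¹) (y := k) (Subgroup.inv_mem _ (o.g.nw_mem_N hw)) hk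
  refine ⟨(o.g.nw w)⁻¹ * k * ((o.g.nw w)⁻¹)⁻¹ * h, Subgroup.mul_mem _ h1 hh, ?_⟩
  group

/-- the induction statement -/
def Good (D : ChevalleyDatum) (F : Type*) [Field F] (n : GL D.Idx F) : Prop :=
  ∃ x ∈ D.group F, x * n * x⁻¹ ∈ D.diagonalSubgroup F

omit o in
theorem Good.conj {n x : GL D.Idx F} (hx : x ∈ D.group F) (h : Good D F (x * n * x⁻¹)) : Good D F n := by
  obtain ⟨y, hy, hyn⟩ := h
  refine ⟨y * x, Subgroup.mul_mem _ hy hx, ?_⟩
  have : y * x * n * (y * x)⁻¹ = y * (x * n * x⁻¹) * y⁻¹ := by group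
  rw [this]; exact hyn

theorem case_sq (h2 : (2 : F) ≠ 0) {w : List ℕ} (hw : VW T w) {h : GL D.Idx F} (hh : h ∈ D.diagonalSubgroup F)
    (hn : (o.g.nw w * h) * (o.g.nw w * h) = 1) (hinv : ∀ r < T.n, wact T w (wact T w r) = r)
    {j : ℕ} (hj : j < T.l) (hwj : wact T w (T.sim j) = T.n - 1 - T.sim j) {c : F} (hc : c ≠ 0) (hsq : IsSquare c)
    (h1 : ∀ t, (o.g.nw w * h) * o.g.X (T.sim j) t * (o.g.nw w * h)⁻¹ = o.g.X (T.n - 1 - T.sim j) (c * t))
    (ih : ∀ w', VW T w' → ninv T w' < ninv T w → ∀ h' ∈ D.diagonalSubgroup F,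
      (o.g.nw w' * h') * (o.g.nw w' * h') = 1 → Good D F (o.g.nw w' * h')) : Good D F (o.g.nw w * h) := by
  have g := o.g
  have hev := g.even
  have hs := g.sim_lt hj
  have hsp := g.sim_pos hj
  obtain ⟨d, rfl⟩ := hsq
  have hd : d ≠ 0 := by rintro rfl; exact hc (by simp)
  set n := o.g.nw w * h with hnd
  have h3 : ∀ t, n * g.X (T.n - 1 - T.sim j) t * n⁻¹ = g.X (T.sim j) ((d * d)⁻¹ * t) := by
    intro t
    have e1 := h1 ((d * d)⁻¹ * t)
    rw [← mul_assoc, mul_inv_cancel₀ hc, one_mul] at e1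
    rw [← e1]
    have hni : n⁻¹ = n := by rw [inv_eq_iff_mul_eq_one]; exact hn
    rw [hni]
    have : n * (n * o.g.X (T.sim j) ((d * d)⁻¹ * t) * n) * n = (n * n) * o.g.X (T.sim j) ((d * d)⁻¹ * t) * (n * n) := by group
    rw [this, hn, one_mul, mul_one]
  obtain ⟨x, hx, e⟩ := conj_sq g h2 hj hd h1 h3
  apply Good.conj hx
  have hd' : d⁻¹ ≠ 0 := inv_ne_zero hd
  have e2 := g.Ng_tor (F := F) hj (Units.mk0 d⁻¹ hd')
  rw [Units.val_mk0] at e2
  rw [e2] at e
  have hVj : VW T (j :: w) := g.VW_append (g.VW_single hj) hw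
  obtain ⟨h', hh', e3⟩ := lift_word o hVj (g.hd_mem hs (Units.mk0 d⁻¹ hd')) hh
  rw [o.g.nw_cons] at e3
  have e4 : x * n * x⁻¹ = o.g.nw (j :: w) * h' := by
    rw [e, o.g.nw_cons, ← e3, hnd]
    simp only [mul_assoc]
  rw [e4]
  apply ih (j :: w) hVj
  · have := ninv_L1 g hw hinv hj (by omega)
    omega
  · exact hh'
  · rw [← e4]
    have : x * n * x⁻¹ * (x * n * x⁻¹) = x * (n * n) * x⁻¹ := by group
    rw [this, hn]; group

/-- no non-square obstruction when the inverted simple roots are pairwise orthogonal -/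
theorem case_ort {w : List ℕ} (hw : VW T w) {h : GL D.Idx F} (hh : h ∈ D.diagonalSubgroup F)
    (hn : (o.g.nw w * h) * (o.g.nw w * h) = 1) (hinv : ∀ r < T.n, wact T w (wact T w r) = r)
    {L : List ℕ} (hL : VW T L) (hO : OL T L) (h1 : ∀ k ∈ L, wact T w (T.sim k) = T.n - 1 - T.sim k)
    (h2 : ∀ k < T.l, k ∉ L → T.n / 2 ≤ wact T w (T.sim k)) {j : ℕ} (hj : j ∈ L) :
    ∃ c : F, IsSquare c ∧ ∀ t, (o.g.nw w * h) * o.g.X (T.sim j) t * (o.g.nw w * h)⁻¹ = o.g.X (T.n - 1 - T.sim j) (c * t) := by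
  have g := o.g
  have hev := g.even
  have hjl := hL j hj
  have hs := g.sim_lt hjl
  have hk0 := g.mem_H_of_pos (F := F) (g.VW_append hw hL) (pos_OL g hw hinv hL hO h1 h2)
  rw [g.nw_append] at hk0
  set m : GL D.Idx F := g.nw L with hm
  have hmm : m * m = hel D T (fun i => if i ∈ L then (-1 : Fˣ) else 1) := nw_sq o hL hO
  have hmmH : m * m ∈ D.diagonalSubgroup F := by rw [hmm]; exact g.hel_mem _
  have hmh : m * h * m⁻¹ ∈ D.diagonalSubgroup F := g.nw_H hL hh
  -- h0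
  have hh0 : (g.nw w * m) * (m * m)⁻¹ * (m * h * m⁻¹) ∈ D.diagonalSubgroup F :=
    Subgroup.mul_mem _ (Subgroup.mul_mem _ hk0 (Subgroup.inv_mem _ hmmH)) hmh
  obtain ⟨a, ha⟩ := g.mem_H.1 hh0
  have en : g.nw w * h = hel D T a * m := by
    rw [← ha]; group
  rw [en] at hn
  have e1 : hel D T a * (m * hel D T a * m⁻¹) * (m * m) = 1 := by
    rw [← hn]; group
  rw [nw_hel o hL hO, hmm, hel_mul, hel_mul, ← hel_one (D := D) (T := T)] at e1
  have e2 := o.inj _ _ e1 j hjl
  simp only [if_pos hj] at e2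
  -- the coefficient
  refine ⟨-((hchi T a (T.sim j))⁻¹ : Fˣ), ?_, ?_⟩
  · have e3 : -((hchi T a (T.sim j))⁻¹) = (a j)⁻¹ * (a j)⁻¹ := by
      have : -((hchi T a (T.sim j))⁻¹) = (a j)⁻¹ * (a j)⁻¹ * (a j * (a j * (hchi T a (T.sim j))⁻¹) * -1) := by
        rw [mul_neg_one]
        rw [mul_neg]
        congr 1
        group
      rw [this, e2, mul_one]
    refine ⟨((a j)⁻¹ : Fˣ), ?_⟩
    have := congrArg Units.val e3
    simpa using this
  · intro t
    rw [en]
    have e4 : hel D T a * m * g.X (T.sim j) t * (hel D T a * m)⁻¹ = hel D T a * (m * g.X (T.sim j) t * m⁻¹) * (hel D T a)⁻¹ := by group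
    rw [e4, hm, nw_X_mem o hL hO hj, g.hel_X a (by omega)]
    have hn' : hchi T a (T.n - 1 - T.sim j) = (hchi T a (T.sim j))⁻¹ := by
      unfold hchi
      rw [← Finset.prod_inv_distrib]
      apply Finset.prod_congr rfl
      intro i hi
      rw [g.A_neg hs (Finset.mem_range.1 hi), _root_.zpow_neg]
    rw [hn']
    congr 1
    ring

theorem N_to_H [Finite F] (h2 : (2 : F) ≠ 0) : ∀ (m : ℕ) (w : List ℕ), ninv T w = m → VW T w → ∀ h ∈ D.diagonalSubgroup F,
    (o.g.nw w * h) * (o.g.nw w * h) = 1 → Good D F (o.g.nw w * h) := by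
  intro m
  induction m using Nat.strong_induction_on with
  | _ m ih =>
  intro w hwm hw h hh hn
  have g := o.g
  have hev := g.even
  subst hwm
  have ih' : ∀ w', VW T w' → ninv T w' < ninv T w → ∀ h' ∈ D.diagonalSubgroup F,
      (o.g.nw w' * h') * (o.g.nw w' * h') = 1 → Good D F (o.g.nw w' * h') :=
    fun w' hw' hlt h' hh' hn' => ih _ hlt w' rfl hw' h' hh' hn'
  obtain ⟨c, hc0, hc⟩ := g.conj_X hw hh
  -- double conjugation
  have hdd : ∀ r < T.n, wact T w (wact T w r) = r := by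
    intro r hr
    have e1 := hc r hr 1
    have hr' := g.wact_lt hw hr
    have e2 := hc _ hr' (c r * 1)
    rw [← e1] at e2
    have e3 : g.nw w * h * (g.nw w * h * g.X r 1 * (g.nw w * h)⁻¹) * (g.nw w * h)⁻¹ = (g.nw w * h * (g.nw w * h)) * g.X r 1 * (g.nw w * h * (g.nw w * h))⁻¹ := by group
    rw [e3, hn] at e2
    have e4 : g.X r (1 : F) = g.X (wact T w (wact T w r)) (c (wact T w r) * (c r * 1)) := by
      rw [← e2]; group
    exact (g.X_eq_iff hr (g.wact_lt hw hr') one_ne_zero e4).symm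
  by_cases hA : ∀ i < T.l, T.n / 2 ≤ wact T w (T.sim i)
  · refine ⟨1, Subgroup.one_mem _, ?_⟩
    rw [one_mul, inv_one, mul_one]
    exact Subgroup.mul_mem _ (g.mem_H_of_pos hw hA) hh
  by_cases hB : ∃ i < T.l, wact T w (T.sim i) < T.n / 2 ∧ wact T w (T.sim i) ≠ T.n - 1 - T.sim i
  · obtain ⟨i, hi, hneg, hne⟩ := hB
    have hlt := ninv_L2 g hw hdd hi hneg hne
    have hVi := g.VW_single hi
    apply Good.conj (x := g.nn i) (g.Ng_mem_G _ _)
    have hk1 : (g.nn i)⁻¹ * h * g.nn i ∈ D.diagonalSubgroup F := g.nn_H' hi hh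
    have hk2 := Subgroup.inv_mem _ (g.nn_sq_mem (F := F) hi)
    have e1 : g.nn i * (g.nw w * h) * (g.nn i)⁻¹ = g.nw ([i] ++ w ++ [i]) * (((g.nn i)⁻¹ * h * g.nn i) * (g.nn i * g.nn i)⁻¹) := by
      rw [g.nw_append, g.nw_append, g.nw_cons, g.nw_nil]; group
    rw [e1]
    apply ih' _ (g.VW_append (g.VW_append hVi hw) hVi) hlt _ (Subgroup.mul_mem _ hk1 hk2)
    rw [← e1]
    have : g.nn i * (g.nw w * h) * (g.nn i)⁻¹ * (g.nn i * (g.nw w * h) * (g.nn i)⁻¹) = g.nn i * ((g.nw w * h) * (g.nw w * h)) * (g.nn i)⁻¹ := by group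
    rw [this, hn]; group
  push Not at hB
  by_cases hC1 : ∃ j < T.l, wact T w (T.sim j) = T.n - 1 - T.sim j ∧ IsSquare (c (T.sim j))
  · obtain ⟨j, hj, hwj, hsq⟩ := hC1
    exact case_sq o h2 hw hh hn hdd hj hwj (hc0 _) hsq (by
      intro t
      rw [hc _ (g.sim_lt hj), hwj]) ih'
  push Not at hC1
  by_cases hC2 : ∃ i < T.l, ∃ j < T.l, wact T w (T.sim i) = T.n - 1 - T.sim i ∧ wact T w (T.sim j) = T.n - 1 - T.sim j ∧
      j ≠ i ∧ T.A i (T.sim j) % 2 = 1
  · obtain ⟨i, hi, j, hj, hwi, hwj, hji, hA1⟩ := hC2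
    have hsi := g.sim_lt hi
    have hsj := g.sim_lt hj
    set n := o.g.nw w * h with hnd
    have hci := hC1 i hi hwi
    have hcj := hC1 j hj hwj
    obtain ⟨z, hz⟩ := exists_tog hci
    have hz0 : 1 - c (T.sim i) * z ^ 2 ≠ 0 := by
      intro h0; rw [h0] at hz; exact hz ⟨0, by simp⟩
    set b : Fˣ := (Units.mk0 _ hz0)⁻¹ with hb
    have hb1 : (b : F) * (1 - c (T.sim i) * z ^ 2) = 1 := by
      rw [hb, Units.val_inv_eq_inv_val, Units.val_mk0, inv_mul_cancel₀ hz0]
    have hbn : ¬ IsSquare (b : F) := by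
      rintro ⟨y, hy⟩
      apply hz
      have hy0 : y ≠ 0 := by
        rintro rfl
        rw [mul_zero] at hy
        exact b.ne_zero hy
      refine ⟨y⁻¹, ?_⟩
      rw [hy] at hb1
      field_simp
      linear_combination hb1
    have h1 : ∀ t, n * g.X (T.sim i) t * n⁻¹ = g.X (T.n - 1 - T.sim i) (c (T.sim i) * t) := by
      intro t; rw [hc _ hsi, hwi]
    have h3 : ∀ t, n * g.X (T.n - 1 - T.sim i) t * n⁻¹ = g.X (T.sim i) ((c (T.sim i))⁻¹ * t) := by
      intro t
      have e1 := h1 ((c (T.sim i))⁻¹ * t)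
      rw [← mul_assoc, mul_inv_cancel₀ (hc0 _), one_mul] at e1
      rw [← e1]
      have hni : n⁻¹ = n := by rw [inv_eq_iff_mul_eq_one]; exact hn
      rw [hni]
      have : n * (n * g.X (T.sim i) ((c (T.sim i))⁻¹ * t) * n) * n = (n * n) * g.X (T.sim i) ((c (T.sim i))⁻¹ * t) * (n * n) := by group
      rw [this, hn, one_mul, mul_one]
    obtain ⟨x, hx, e⟩ := conj_tog g hi (hc0 (T.sim i)) b hb1 h1 h3
    apply Good.conj hx
    obtain ⟨h', hh', e3⟩ := lift_word o hw (g.hd_mem hsi b) hh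
    have e4 : x * n * x⁻¹ = o.g.nw w * h' := by rw [e, ← e3]
    have hn' : (o.g.nw w * h') * (o.g.nw w * h') = 1 := by
      rw [← e4]
      have : x * n * x⁻¹ * (x * n * x⁻¹) = x * (n * n) * x⁻¹ := by group
      rw [this, hn]; group
    rw [e4]
    have hbz : ¬ IsSquare ((b : F) ^ (-(T.A i (T.sim j)))) := nonsq_zpow hbn (by omega)
    have hbz' : ((b ^ (-(T.A i (T.sim j))) : Fˣ) : F) = (b : F) ^ (-(T.A i (T.sim j))) := by
      rw [Units.val_zpow_eq_zpow_val]
    refine case_sq o h2 hw hh' hn' hdd hj hwj (c := ((b ^ (-(T.A i (T.sim j))) : Fˣ) : F) * c (T.sim j))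
      (mul_ne_zero (Units.ne_zero _) (hc0 _)) (by rw [hbz']; exact nonsq_mul h2 hbz hcj) ?_ ih'
    intro t
    rw [← e4, e]
    have e5 : hd D T (T.sim i) b * n * o.g.X (T.sim j) t * (hd D T (T.sim i) b * n)⁻¹ =
        hd D T (T.sim i) b * (n * o.g.X (T.sim j) t * n⁻¹) * (hd D T (T.sim i) b)⁻¹ := by group
    rw [e5, hc _ hsj, hwj]
    have e6 := g.hel_X (F := F) (fun k => b ^ T.c (T.sim i) k) (r := T.n - 1 - T.sim j) (by omega) (c (T.sim j) * t)
    rw [← hd_hel] at e6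
    rw [e6]
    congr 1
    rw [mul_assoc]
    congr 2
    unfold hchi
    rw [Finset.prod_eq_single i]
    · beta_reduce
      rw [g.c_sim hi hi, if_pos rfl, _root_.zpow_one, g.A_neg hsj hi]
    · intro k hk hki
      beta_reduce
      rw [g.c_sim hi (Finset.mem_range.1 hk), if_neg (Ne.symm hki)]; simp
    · intro h; exact absurd (Finset.mem_range.2 hi) h
  push Not at hC2
  -- pairwise orthogonal
  exfalso
  set L := (List.range T.l).filter (fun j => decide (wact T w (T.sim j) = T.n - 1 - T.sim j)) with hLd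
  have hLm : ∀ j, j ∈ L ↔ j < T.l ∧ wact T w (T.sim j) = T.n - 1 - T.sim j := by
    intro j; rw [hLd, List.mem_filter, List.mem_range, decide_eq_true_eq]
  have hLV : VW T L := fun j hj => ((hLm j).1 hj).1
  have hLn : L.Nodup := List.Nodup.filter _ List.nodup_range
  have hO : OL T L := by
    unfold OL
    apply List.Nodup.pairwise_of_forall_ne hLn
    intro i hi k hk hik
    obtain ⟨hi1, hi2⟩ := (hLm i).1 hi
    obtain ⟨hk1, hk2⟩ := (hLm k).1 hk
    have a1 := hC2 i hi1 k hk1 hi2 hk2 (Ne.symm hik)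
    have a2 := hC2 k hk1 i hi1 hk2 hi2 hik
    have a1' : T.A i (T.sim k) % 2 = 0 := by omega
    have a2' : T.A k (T.sim i) % 2 = 0 := by omega
    exact ⟨Ne.symm hik, o.e3 i hi1 k hk1 (Ne.symm hik) a1' a2', o.e3 k hk1 i hi1 hik a2' a1'⟩
  push Not at hA
  obtain ⟨j, hj, hjn⟩ := hA
  have hjL : j ∈ L := (hLm j).2 ⟨hj, hB j hj hjn⟩
  obtain ⟨c', hc', hX⟩ := case_ort o hw hh hn hdd hLV hO (fun k hk => ((hLm k).1 hk).2) (by
    intro k hk hkL
    by_contra hcon
    exact hkL ((hLm k).2 ⟨hk, hB k hk (not_le.1 hcon)⟩)) hjL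
  have hwj := ((hLm j).1 hjL).2
  apply hC1 j hj hwj
  have e1 := hX 1
  rw [hc _ (g.sim_lt hj), hwj] at e1
  have e2 := g.X_inj (by have := g.sim_lt hj; omega) e1
  rw [mul_one, mul_one] at e2
  rw [e2]; exact hc'

/-- every involution of a Chevalley group of adjoint = simply connected type in odd characteristic is conjugate into H -/
theorem invol_H [Fintype F] (hodd : Odd (Fintype.card F)) {t : GL D.Idx F} (ht : t ∈ D.group F) (h2 : t * t = 1) :
    ∃ x ∈ D.group F, ∃ h ∈ D.diagonalSubgroup F, x * t * x⁻¹ = h ∧ h * h = 1 := by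
  have h20 : (2 : F) ≠ 0 := by
    intro h
    have hc2 : CharP F 2 := CharTwo.of_one_ne_zero_of_two_eq_zero one_ne_zero h
    have := (FiniteField.even_card_iff_char_two (F := F)).1 (ringChar.eq F 2)
    have := Nat.odd_iff.1 hodd
    omega
  obtain ⟨c, hc, n, hn, e, hnn⟩ := invol_N o.g hodd ht h2
  obtain ⟨w, hw, h, hh, rfl⟩ := o.g.mem_N.1 hn
  obtain ⟨x, hx, hxn⟩ := N_to_H o h20 _ w rfl hw h hh hnn
  refine ⟨x * c, Subgroup.mul_mem _ hx hc, _, hxn, ?_, ?_⟩
  · rw [← e]; group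
  · have : x * (o.g.nw w * h) * x⁻¹ * (x * (o.g.nw w * h) * x⁻¹) = x * ((o.g.nw w * h) * (o.g.nw w * h)) * x⁻¹ := by group
    rw [this, hnn]; group

end

end CfsgLib.OI
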