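import Mathlib
import Cfsg.Agent.LibOI3

set_option autoImplicit false
set_option linter.all false
set_option maxRecDepth 100000

/-! involutions of Chevalley groups in odd characteristic, 4: the involutions of H (seat helper23) -/

namespace CfsgLib.OI

open Cfsg.Lie Matrix CfsgLib.Chev CfsgLib.Chev.Good3 CfsgLib.SL2P

/-- the sign vector of a mask -/
def msk (F : Type*) [Field F] (s : ℕ) : ℕ → Fˣ := fun i => if s.testBit i then -1 else 1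

/-- parity of the pairing of a mask with a root -/
def parn (T : Tb) (s r : ℕ) : ℕ → Bool
  | 0 => false
  | i + 1 => xor (s.testBit i && decide (T.A i r % 2 ≠ 0)) (parn T s r i)

def par (T : Tb) (s r : ℕ) : Bool := parn T s r T.l

def stp (T : Tb) (k s : ℕ) : ℕ := if par T s (T.sim k) then s ^^^ 2 ^ k else s

theorem hchi_msk (T : Tb) (F : Type*) [Field F] (s r : ℕ) : hchi T (msk F s) r = if par T s r then -1 else 1 := by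
  unfold hchi par
  induction T.l with
  | zero => simp [parn]
  | succ m ih =>
    rw [Finset.prod_range_succ, ih]
    show _ = if (xor (s.testBit m && decide (T.A m r % 2 ≠ 0)) (parn T s r m)) then (-1 : Fˣ) else 1
    have h1 : msk F s m ^ T.A m r = if (s.testBit m && decide (T.A m r % 2 ≠ 0)) then (-1 : Fˣ) else 1 := by
      unfold msk
      by_cases hb : s.testBit m = true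
      · rw [if_pos hb, hb, Bool.true_and]
        rcases Int.even_or_odd (T.A m r) with he | ho
        · rw [he.neg_one_zpow, if_neg]
          rw [decide_eq_true_eq, not_not]
          exact Int.even_iff.1 he
        · rw [ho.neg_one_zpow, if_pos]
          rw [decide_eq_true_eq]
          have := Int.odd_iff.1 ho
          omega
      · have hb' : s.testBit m = false := by simpa using hb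
        rw [if_neg hb, hb', Bool.false_and]; simp
    rw [h1]
    cases (s.testBit m && decide (T.A m r % 2 ≠ 0)) <;> cases (parn T s r m) <;> simp

section
variable {D : ChevalleyDatum} {T : Tb} {F : Type*} [Field F] (o : OChk D T F)
include o

theorem stp_conj {k : ℕ} (hk : k < T.l) (s : ℕ) :
    o.g.nn k * hel D T (msk F s) * (o.g.nn k)⁻¹ = hel D T (msk F (stp T k s)) := by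
  rw [nn_hel o hk]
  apply hel_congr
  intro i hi
  rw [hchi_msk]
  unfold stp
  by_cases hp : par T s (T.sim k) = true
  · rw [if_pos hp, if_pos hp]
    by_cases hik : i = k
    · subst hik
      rw [if_pos rfl]
      unfold msk
      rw [Nat.testBit_xor, Nat.testBit_two_pow_self]
      cases s.testBit i <;> simp
    · rw [if_neg hik]
      unfold msk
      rw [Nat.testBit_xor, Nat.testBit_two_pow_of_ne (Ne.symm hik)]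
      cases s.testBit i <;> simp
  · rw [if_neg hp, if_neg hp]
    by_cases hik : i = k
    · rw [if_pos hik]; simp
    · rw [if_neg hik]

def run (T : Tb) : List ℕ → ℕ → ℕ
  | [], s => s
  | k :: W, s => run T W (stp T k s)

theorem run_conj (W : List ℕ) (hW : VW T W) : ∀ s, ∃ x ∈ D.group F, x * hel D T (msk F s) * x⁻¹ = hel D T (msk F (run T W s)) := by
  induction W with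
  | nil => intro s; exact ⟨1, Subgroup.one_mem _, by simp [run]⟩
  | cons k W ih =>
    intro s
    obtain ⟨x, hx, e⟩ := ih (fun i hi => hW i (List.mem_cons_of_mem _ hi)) (stp T k s)
    refine ⟨x * o.g.nn k, Subgroup.mul_mem _ hx (o.g.Ng_mem_G _ _), ?_⟩
    have : x * o.g.nn k * hel D T (msk F s) * (x * o.g.nn k)⁻¹ = x * (o.g.nn k * hel D T (msk F s) * (o.g.nn k)⁻¹) * x⁻¹ := by group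
    rw [this, stp_conj o (hW k List.mem_cons_self), e]
    rfl

/-- certificate: the nonzero masks all lead to a mask in the target list -/
def _root_.CfsgLib.Chev.Tb.chkOrb (T : Tb) (W : List (List ℕ)) (tg : List ℕ) : Bool :=
  (List.range (2 ^ T.l)).all fun s => Nat.beq s 0 || ((W.getD s []).all (fun k => Nat.blt k T.l) && tg.contains (run T (W.getD s []) s))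

theorem invol_tg [Fintype F] (hodd : Odd (Fintype.card F)) {W : List (List ℕ)} {tg : List ℕ} (hc : T.chkOrb W tg = true)
    {t : GL D.Idx F} (ht : t ∈ D.group F) (h2 : t * t = 1) (h1 : t ≠ 1) :
    ∃ x ∈ D.group F, ∃ s ∈ tg, x * t * x⁻¹ = hel D T (msk F s) := by
  obtain ⟨x, hx, h, hh, e, hh2⟩ := invol_H o hodd ht h2
  obtain ⟨a, rfl⟩ := o.g.mem_H.1 hh
  rw [hel_mul, ← hel_one (D := D) (T := T)] at hh2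
  have ha : ∀ i < T.l, a i = 1 ∨ a i = -1 := by
    intro i hi
    have := o.inj _ _ hh2 i hi
    have h3 := congrArg Units.val this
    simp only [Units.val_mul, Units.val_one] at h3
    rcases mul_self_eq_one_iff.1 h3 with h4 | h4
    · left; exact Units.ext h4
    · right; exact Units.ext (by rw [h4]; simp)
  classical
  set s := Nat.ofBits (fun i : Fin T.l => decide (a i = -1 ∧ (-1 : Fˣ) ≠ 1)) with hs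
  have hslt : s < 2 ^ T.l := Nat.ofBits_lt_two_pow _
  have e1 : hel D T a = hel D T (msk F s) := by
    apply hel_congr
    intro i hi
    unfold msk
    rw [hs, Nat.testBit_ofBits_lt _ _ hi]
    by_cases h5 : a i = -1 ∧ (-1 : Fˣ) ≠ 1
    · rw [if_pos (by simpa using h5)]; exact h5.1
    · rw [if_neg (by simpa using h5)]
      rcases ha i hi with h6 | h6
      · exact h6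
      · by_contra h7
        apply h5
        refine ⟨h6, ?_⟩
        intro h8
        exact h7 (by rw [h6, h8])
  have hs0 : s ≠ 0 := by
    intro h0
    apply h1
    have e2 : hel D T a = 1 := by
      rw [e1, h0, ← hel_one (D := D) (T := T)]
      apply hel_congr
      intro i hi
      simp [msk]
    rw [e2] at e
    have : t = x⁻¹ * (x * t * x⁻¹) * x := by group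
    rw [this, e]; group
  unfold Tb.chkOrb at hc
  rw [List.all_eq_true] at hc
  have hc' := hc s (List.mem_range.2 hslt)
  rw [Bool.or_eq_true, Bool.and_eq_true, List.all_eq_true] at hc'
  rcases hc' with hc' | ⟨hc1, hc2⟩
  · exact absurd (Nat.eq_of_beq_eq_true hc') hs0
  obtain ⟨y, hy, e3⟩ := run_conj o (W.getD s []) (by
    intro k hk
    have := hc1 k hk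
    simpa using this) s
  refine ⟨y * x, Subgroup.mul_mem _ hy hx, run T (W.getD s []) s, List.contains_iff_mem.1 hc2, ?_⟩
  rw [← e3, ← e1, ← e]; group

end

def owG2 : List (List ℕ) := [[], [], [0, 1], [1]]

def owF4 : List (List ℕ) := [[], [1, 0], [], [0], [3, 1, 2, 0, 1, 2, 3], [], [3, 2, 0, 1, 2, 3], [3, 2, 1, 2, 3], [2, 1, 2, 0, 1, 2, 3], [2, 3], [0, 1, 2, 3], [1, 2, 3], [1, 2, 0, 1, 2, 3], [3], [2, 0, 1, 2, 3], [2, 1, 2, 3]]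

def owE8 : List (List ℕ) := [[], [2, 3, 4, 5, 6, 7, 1, 3, 4, 5, 6, 2, 3, 4, 5, 1, 3, 4, 2, 3, 0, 2, 1, 3, 4, 5, 6, 7], [3, 4, 5, 6, 7, 2, 3, 4, 5, 6, 0, 2, 3, 4, 5, 1, 3, 4, 2, 3, 0, 2, 1, 3, 4, 5, 6, 7], [2, 0], [3, 4, 5, 6, 7, 1, 3, 4, 5, 6, 0, 2, 3, 4, 5, 1, 3, 4, 2, 3, 0, 2, 1, 3, 4, 5, 6, 7], [3, 4, 5, 6, 7, 1, 3, 4, 5, 6, 2, 3, 4, 5, 1, 3, 4, 2, 3, 0, 2, 1, 3, 4, 5, 6, 7], [], [0], [4, 5, 6, 7, 2, 1, 3, 4, 5, 6, 0, 2, 3, 4, 5, 1, 3, 4, 2, 3, 0, 2, 1, 3, 4, 5, 6, 7], [1, 3, 2, 0], [4, 5, 6, 7, 2, 3, 4, 5, 6, 0, 2, 3, 4, 5, 1, 3, 4, 2, 3, 0, 2, 1, 3, 4, 5, 6, 7], [3, 2, 0], [4, 5, 6, 7, 1, 3, 4, 5, 6, 0, 2, 3, 4, 5, 1, 3, 4, 2, 3, 0, 2, 1, 3, 4, 5, 6, 7], [4, 5, 6, 7, 1, 3, 4, 5, 6, 2, 3, 4, 5, 1, 3, 4, 2,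 3, 0, 2, 1, 3, 4, 5, 6, 7], [4, 5, 6, 7, 3, 4, 5, 6, 0, 2, 3, 4, 5, 1, 3, 4, 2, 3, 0, 2, 1, 3, 4, 5, 6, 7], [4, 5, 6, 7, 3, 4, 5, 6, 2, 3, 4, 5, 1, 3, 4, 2, 3, 0, 2, 1, 3, 4, 5, 6, 7], [5, 6, 7, 3, 2, 1, 3, 4, 5, 6, 0, 2, 3, 4, 5, 1, 3, 4, 2, 3, 0, 2, 1, 3, 4, 5, 6, 7], [3, 4, 1, 3, 2, 0], [5, 4, 3, 2, 1, 3, 4, 5, 0, 2, 3, 4, 1, 3, 2, 0], [5, 6, 7, 4, 5, 6, 3, 4, 5, 1, 3, 4, 2, 3, 0, 2, 1, 3, 4, 5, 6, 7], [0, 2, 3, 4, 1, 3, 2, 0], [2, 3, 4, 1, 3, 2, 0], [5, 6, 7, 4, 5, 6, 0, 2, 3, 4, 5, 1, 3, 4, 2, 3, 0, 2, 1, 3, 4, 5, 6, 7], [5, 6, 7, 4, 5, 6, 2, 3, 4, 5, 1, 3, 4, 2, 3, 0, 2, 1, 3, 4, 5, 6, 7], [5, 6, 7, 2, 1, 3, 4, 5, 6, 0, 2, 3, 4, 5, 1, 3, 4, 2, 3, 0, 2, 1, 3, 4, 5, 6, 7], [4, 1, 3, 2, 0], [5, 6, 7, 2, 3, 4,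 5, 6, 0, 2, 3, 4, 5, 1, 3, 4, 2, 3, 0, 2, 1, 3, 4, 5, 6, 7], [4, 3, 2, 0], [5, 6, 7, 1, 3, 4, 5, 6, 0, 2, 3, 4, 5, 1, 3, 4, 2, 3, 0, 2, 1, 3, 4, 5, 6, 7], [5, 6, 7, 1, 3, 4, 5, 6, 2, 3, 4, 5, 1, 3, 4, 2, 3, 0, 2, 1, 3, 4, 5, 6, 7], [5, 6, 7, 3, 4, 5, 6, 0, 2, 3, 4, 5, 1, 3, 4, 2, 3, 0, 2, 1, 3, 4, 5, 6, 7], [5, 6, 7, 3, 4, 5, 6, 2, 3, 4, 5, 1, 3, 4, 2, 3, 0, 2, 1, 3, 4, 5, 6, 7], [6, 7, 4, 3, 2, 1, 3, 4, 5, 6, 0, 2, 3, 4, 5, 1, 3, 4, 2, 3, 0, 2, 1, 3, 4, 5, 6, 7], [4, 5, 3, 4, 1, 3, 2, 0], [3, 2, 1, 3, 4, 5, 0, 2, 3, 4, 1, 3, 2, 0], [6, 7, 5, 6, 3, 4, 5, 1, 3, 4, 2, 3, 0, 2, 1, 3, 4, 5, 6, 7], [4, 5, 0, 2, 3, 4, 1, 3, 2, 0], [4, 5, 2, 3, 4, 1, 3, 2, 0], [6, 7, 5, 6, 0, 2, 3, 4, 5, 1, 3, 4, 2, 3, 0, 2, 1, 3, 4,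 5, 6, 7], [6, 7, 5, 6, 2, 3, 4, 5, 1, 3, 4, 2, 3, 0, 2, 1, 3, 4, 5, 6, 7], [2, 3, 4, 5, 0, 2, 3, 4, 1, 3, 2, 0], [6, 7, 5, 6, 4, 5, 3, 4, 2, 3, 0, 2, 1, 3, 4, 5, 6, 7], [2, 1, 3, 4, 5, 0, 2, 3, 4, 1, 3, 2, 0], [6, 7, 5, 6, 4, 5, 1, 3, 4, 2, 3, 0, 2, 1, 3, 4, 5, 6, 7], [3, 4, 5, 0, 2, 3, 4, 1, 3, 2, 0], [3, 4, 5, 2, 3, 4, 1, 3, 2, 0], [1, 3, 4, 5, 0, 2, 3, 4, 1, 3, 2, 0], [1, 3, 4, 5, 2, 3, 4, 1, 3, 2, 0], [6, 7, 3, 2, 1, 3, 4, 5, 6, 0, 2, 3, 4, 5, 1, 3, 4, 2, 3, 0, 2, 1, 3, 4, 5, 6, 7], [5, 3, 4, 1, 3, 2, 0], [4, 3, 2, 1, 3, 4, 5, 0, 2, 3, 4, 1, 3, 2, 0], [6, 7, 4, 5, 6, 3, 4, 5, 1, 3, 4, 2, 3, 0, 2, 1, 3, 4, 5, 6, 7], [5, 0, 2, 3, 4, 1, 3, 2, 0], [5, 2, 3, 4, 1, 3, 2, 0], [6, 7, 4, 5, 6, 0, 2, 3, 4, 5, 1, 3, 4,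 2, 3, 0, 2, 1, 3, 4, 5, 6, 7], [6, 7, 4, 5, 6, 2, 3, 4, 5, 1, 3, 4, 2, 3, 0, 2, 1, 3, 4, 5, 6, 7], [6, 7, 2, 1, 3, 4, 5, 6, 0, 2, 3, 4, 5, 1, 3, 4, 2, 3, 0, 2, 1, 3, 4, 5, 6, 7], [5, 4, 1, 3, 2, 0], [6, 7, 2, 3, 4, 5, 6, 0, 2, 3, 4, 5, 1, 3, 4, 2, 3, 0, 2, 1, 3, 4, 5, 6, 7], [5, 4, 3, 2, 0], [6, 7, 1, 3, 4, 5, 6, 0, 2, 3, 4, 5, 1, 3, 4, 2, 3, 0, 2, 1, 3, 4, 5, 6, 7], [6, 7, 1, 3, 4, 5, 6, 2, 3, 4, 5, 1, 3, 4, 2, 3, 0, 2, 1, 3, 4, 5, 6, 7], [6, 7, 3, 4, 5, 6, 0, 2, 3, 4, 5, 1, 3, 4, 2, 3, 0, 2, 1, 3, 4, 5, 6, 7], [6, 7, 3, 4, 5, 6, 2, 3, 4, 5, 1, 3, 4, 2, 3, 0, 2, 1, 3, 4, 5, 6, 7], [7, 5, 4, 3, 2, 1, 3, 4, 5, 6, 0, 2, 3, 4, 5, 1, 3, 4, 2, 3, 0, 2, 1, 3, 4, 5, 6, 7], [5, 6, 4, 5, 3, 4, 1, 3, 2, 0], [5, 6, 3, 2,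 1, 3, 4, 5, 0, 2, 3, 4, 1, 3, 2, 0], [7, 6, 3, 4, 5, 1, 3, 4, 2, 3, 0, 2, 1, 3, 4, 5, 6, 7], [5, 6, 4, 5, 0, 2, 3, 4, 1, 3, 2, 0], [5, 6, 4, 5, 2, 3, 4, 1, 3, 2, 0], [7, 6, 0, 2, 3, 4, 5, 1, 3, 4, 2, 3, 0, 2, 1, 3, 4, 5, 6, 7], [7, 6, 2, 3, 4, 5, 1, 3, 4, 2, 3, 0, 2, 1, 3, 4, 5, 6, 7], [5, 6, 2, 3, 4, 5, 0, 2, 3, 4, 1, 3, 2, 0], [7, 6, 4, 5, 3, 4, 2, 3, 0, 2, 1, 3, 4, 5, 6, 7], [5, 6, 2, 1, 3, 4, 5, 0, 2, 3, 4, 1, 3, 2, 0], [7, 6, 4, 5, 1, 3, 4, 2, 3, 0, 2, 1, 3, 4, 5, 6, 7], [5, 6, 3, 4, 5, 0, 2, 3, 4, 1, 3, 2, 0], [5, 6, 3, 4, 5, 2, 3, 4, 1, 3, 2, 0], [5, 6, 1, 3, 4, 5, 0, 2, 3, 4, 1, 3, 2, 0], [5, 6, 1, 3, 4, 5, 2, 3, 4, 1, 3, 2, 0], [3, 4, 5, 6, 2, 3, 4, 5, 0, 2, 3, 4, 1, 3, 2, 0], [7, 6, 5, 4, 2, 3, 0, 2,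 1, 3, 4, 5, 6, 7], [], [2, 3, 4, 5, 6, 1, 3, 4, 5, 2, 3, 4, 1, 3, 2, 0], [7, 6, 5, 4, 3, 2, 1, 3, 4, 5, 6, 7], [7, 6, 5, 4, 3, 0, 2, 1, 3, 4, 5, 6, 7], [3, 4, 5, 6, 1, 3, 4, 5, 0, 2, 3, 4, 1, 3, 2, 0], [3, 4, 5, 6, 1, 3, 4, 5, 2, 3, 4, 1, 3, 2, 0], [4, 5, 6, 2, 3, 4, 5, 0, 2, 3, 4, 1, 3, 2, 0], [7, 6, 5, 3, 4, 2, 3, 0, 2, 1, 3, 4, 5, 6, 7], [4, 5, 6, 2, 1, 3, 4, 5, 0, 2, 3, 4, 1, 3, 2, 0], [7, 6, 5, 1, 3, 4, 2, 3, 0, 2, 1, 3, 4, 5, 6, 7], [4, 5, 6, 3, 4, 5, 0, 2, 3, 4, 1, 3, 2, 0], [4, 5, 6, 3, 4, 5, 2, 3, 4, 1, 3, 2, 0], [4, 5, 6, 1, 3, 4, 5, 0, 2, 3, 4, 1, 3, 2, 0], [4, 5, 6, 1, 3, 4, 5, 2, 3, 4, 1, 3, 2, 0], [7, 4, 3, 2, 1, 3, 4, 5, 6, 0, 2, 3, 4, 5, 1, 3, 4, 2, 3, 0, 2, 1, 3, 4, 5, 6, 7], [6, 4, 5, 3, 4, 1,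 3, 2, 0], [6, 3, 2, 1, 3, 4, 5, 0, 2, 3, 4, 1, 3, 2, 0], [7, 5, 6, 3, 4, 5, 1, 3, 4, 2, 3, 0, 2, 1, 3, 4, 5, 6, 7], [6, 4, 5, 0, 2, 3, 4, 1, 3, 2, 0], [6, 4, 5, 2, 3, 4, 1, 3, 2, 0], [7, 5, 6, 0, 2, 3, 4, 5, 1, 3, 4, 2, 3, 0, 2, 1, 3, 4, 5, 6, 7], [7, 5, 6, 2, 3, 4, 5, 1, 3, 4, 2, 3, 0, 2, 1, 3, 4, 5, 6, 7], [6, 2, 3, 4, 5, 0, 2, 3, 4, 1, 3, 2, 0], [7, 5, 6, 4, 5, 3, 4, 2, 3, 0, 2, 1, 3, 4, 5, 6, 7], [6, 2, 1, 3, 4, 5, 0, 2, 3, 4, 1, 3, 2, 0], [7, 5, 6, 4, 5, 1, 3, 4, 2, 3, 0, 2, 1, 3, 4, 5, 6, 7], [6, 3, 4, 5, 0, 2, 3, 4, 1, 3, 2, 0], [6, 3, 4, 5, 2, 3, 4, 1, 3, 2, 0], [6, 1, 3, 4, 5, 0, 2, 3, 4, 1, 3, 2, 0], [6, 1, 3, 4, 5, 2, 3, 4, 1, 3, 2, 0], [7, 3, 2, 1, 3, 4, 5, 6, 0, 2, 3, 4, 5, 1, 3, 4, 2, 3, 0, 2, 1,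 3, 4, 5, 6, 7], [6, 5, 3, 4, 1, 3, 2, 0], [6, 4, 3, 2, 1, 3, 4, 5, 0, 2, 3, 4, 1, 3, 2, 0], [7, 4, 5, 6, 3, 4, 5, 1, 3, 4, 2, 3, 0, 2, 1, 3, 4, 5, 6, 7], [6, 5, 0, 2, 3, 4, 1, 3, 2, 0], [6, 5, 2, 3, 4, 1, 3, 2, 0], [7, 4, 5, 6, 0, 2, 3, 4, 5, 1, 3, 4, 2, 3, 0, 2, 1, 3, 4, 5, 6, 7], [7, 4, 5, 6, 2, 3, 4, 5, 1, 3, 4, 2, 3, 0, 2, 1, 3, 4, 5, 6, 7], [7, 2, 1, 3, 4, 5, 6, 0, 2, 3, 4, 5, 1, 3, 4, 2, 3, 0, 2, 1, 3, 4, 5, 6, 7], [6, 5, 4, 1, 3, 2, 0], [7, 2, 3, 4, 5, 6, 0, 2, 3, 4, 5, 1, 3, 4, 2, 3, 0, 2, 1, 3, 4, 5, 6, 7], [6, 5, 4, 3, 2, 0], [7, 1, 3, 4, 5, 6, 0, 2, 3, 4, 5, 1, 3, 4, 2, 3, 0, 2, 1, 3, 4, 5, 6, 7], [7, 1, 3, 4, 5, 6, 2, 3, 4, 5, 1, 3, 4, 2, 3, 0, 2, 1, 3, 4, 5, 6, 7], [7, 3, 4, 5, 6, 0, 2, 3, 4, 5, 1,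 3, 4, 2, 3, 0, 2, 1, 3, 4, 5, 6, 7], [7, 3, 4, 5, 6, 2, 3, 4, 5, 1, 3, 4, 2, 3, 0, 2, 1, 3, 4, 5, 6, 7], [6, 5, 4, 3, 2, 1, 3, 4, 5, 6, 0, 2, 3, 4, 5, 1, 3, 4, 2, 3, 0, 2, 1, 3, 4, 5, 6, 7], [6, 7, 5, 6, 4, 5, 3, 4, 1, 3, 2, 0], [6, 7, 5, 6, 3, 2, 1, 3, 4, 5, 0, 2, 3, 4, 1, 3, 2, 0], [3, 4, 5, 1, 3, 4, 2, 3, 0, 2, 1, 3, 4, 5, 6, 7], [6, 7, 5, 6, 4, 5, 0, 2, 3, 4, 1, 3, 2, 0], [6, 7, 5, 6, 4, 5, 2, 3, 4, 1, 3, 2, 0], [0, 2, 3, 4, 5, 1, 3, 4, 2, 3, 0, 2, 1, 3, 4, 5, 6, 7], [2, 3, 4, 5, 1, 3, 4, 2, 3, 0, 2, 1, 3, 4, 5, 6, 7], [6, 7, 5, 6, 2, 3, 4, 5, 0, 2, 3, 4, 1, 3, 2, 0], [4, 5, 3, 4, 2, 3, 0, 2, 1, 3, 4, 5, 6, 7], [6, 7, 5, 6, 2, 1, 3, 4, 5, 0, 2, 3, 4, 1, 3, 2, 0], [4, 5, 1, 3, 4, 2, 3, 0, 2, 1, 3, 4, 5, 6, 7],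 [6, 7, 5, 6, 3, 4, 5, 0, 2, 3, 4, 1, 3, 2, 0], [6, 7, 5, 6, 3, 4, 5, 2, 3, 4, 1, 3, 2, 0], [6, 7, 5, 6, 1, 3, 4, 5, 0, 2, 3, 4, 1, 3, 2, 0], [6, 7, 5, 6, 1, 3, 4, 5, 2, 3, 4, 1, 3, 2, 0], [6, 7, 3, 4, 5, 6, 2, 3, 4, 5, 0, 2, 3, 4, 1, 3, 2, 0], [5, 4, 2, 3, 0, 2, 1, 3, 4, 5, 6, 7], [6, 7], [6, 7, 2, 3, 4, 5, 6, 1, 3, 4, 5, 2, 3, 4, 1, 3, 2, 0], [5, 4, 3, 2, 1, 3, 4, 5, 6, 7], [5, 4, 3, 0, 2, 1, 3, 4, 5, 6, 7], [6, 7, 3, 4, 5, 6, 1, 3, 4, 5, 0, 2, 3, 4, 1, 3, 2, 0], [6, 7, 3, 4, 5, 6, 1, 3, 4, 5, 2, 3, 4, 1, 3, 2, 0], [6, 7, 4, 5, 6, 2, 3, 4, 5, 0, 2, 3, 4, 1, 3, 2, 0], [5, 3, 4, 2, 3, 0, 2, 1, 3, 4, 5, 6, 7], [6, 7, 4, 5, 6, 2, 1, 3, 4, 5, 0, 2, 3, 4, 1, 3, 2, 0], [5, 1, 3, 4, 2, 3, 0, 2, 1, 3, 4, 5, 6, 7], [6,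 7, 4, 5, 6, 3, 4, 5, 0, 2, 3, 4, 1, 3, 2, 0], [6, 7, 4, 5, 6, 3, 4, 5, 2, 3, 4, 1, 3, 2, 0], [6, 7, 4, 5, 6, 1, 3, 4, 5, 0, 2, 3, 4, 1, 3, 2, 0], [6, 7, 4, 5, 6, 1, 3, 4, 5, 2, 3, 4, 1, 3, 2, 0], [4, 5, 6, 7, 3, 4, 5, 6, 2, 3, 4, 5, 0, 2, 3, 4, 1, 3, 2, 0], [2, 3, 0, 2, 1, 3, 4, 5, 6, 7], [4, 5, 6, 7], [4, 5, 6, 7, 2, 3, 4, 5, 6, 1, 3, 4, 5, 2, 3, 4, 1, 3, 2, 0], [3, 2, 1, 3, 4, 5, 6, 7], [3, 0, 2, 1, 3, 4, 5, 6, 7], [4, 5, 6, 7, 3, 4, 5, 6, 1, 3, 4, 5, 0, 2, 3, 4, 1, 3, 2, 0], [4, 5, 6, 7, 3, 4, 5, 6, 1, 3, 4, 5, 2, 3, 4, 1, 3, 2, 0], [1, 3, 4, 5, 6, 7], [1, 3, 4, 5, 6, 7, 2, 3, 4, 5, 6, 1, 3, 4, 5, 2, 3, 4, 1, 3, 2, 0], [3, 4, 5, 6, 7], [3, 4, 5, 6, 7, 2, 3, 4, 5, 6, 1, 3, 4, 5, 2, 3, 4, 1, 3, 2, 0], [2, 1, 3,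 4, 5, 6, 7], [0, 2, 1, 3, 4, 5, 6, 7], [2, 3, 4, 5, 6, 7], [0, 2, 3, 4, 5, 6, 7], [5, 6, 7, 3, 4, 5, 6, 2, 3, 4, 5, 0, 2, 3, 4, 1, 3, 2, 0], [4, 2, 3, 0, 2, 1, 3, 4, 5, 6, 7], [5, 6, 7], [5, 6, 7, 2, 3, 4, 5, 6, 1, 3, 4, 5, 2, 3, 4, 1, 3, 2, 0], [4, 3, 2, 1, 3, 4, 5, 6, 7], [4, 3, 0, 2, 1, 3, 4, 5, 6, 7], [5, 6, 7, 3, 4, 5, 6, 1, 3, 4, 5, 0, 2, 3, 4, 1, 3, 2, 0], [5, 6, 7, 3, 4, 5, 6, 1, 3, 4, 5, 2, 3, 4, 1, 3, 2, 0], [5, 6, 7, 4, 5, 6, 2, 3, 4, 5, 0, 2, 3, 4, 1, 3, 2, 0], [3, 4, 2, 3, 0, 2, 1, 3, 4, 5, 6, 7], [5, 6, 7, 4, 5, 6, 2, 1, 3, 4, 5, 0, 2, 3, 4, 1, 3, 2, 0], [1, 3, 4, 2, 3, 0, 2, 1, 3, 4, 5, 6, 7], [5, 6, 7, 4, 5, 6, 3, 4, 5, 0, 2, 3, 4, 1, 3, 2, 0], [5, 6, 7, 4, 5, 6, 3, 4, 5, 2, 3, 4, 1, 3, 2, 0], [5,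 6, 7, 4, 5, 6, 1, 3, 4, 5, 0, 2, 3, 4, 1, 3, 2, 0], [5, 6, 7, 4, 5, 6, 1, 3, 4, 5, 2, 3, 4, 1, 3, 2, 0], [5, 4, 3, 2, 1, 3, 4, 5, 6, 0, 2, 3, 4, 5, 1, 3, 4, 2, 3, 0, 2, 1, 3, 4, 5, 6, 7], [7, 5, 6, 4, 5, 3, 4, 1, 3, 2, 0], [7, 5, 6, 3, 2, 1, 3, 4, 5, 0, 2, 3, 4, 1, 3, 2, 0], [6, 3, 4, 5, 1, 3, 4, 2, 3, 0, 2, 1, 3, 4, 5, 6, 7], [7, 5, 6, 4, 5, 0, 2, 3, 4, 1, 3, 2, 0], [7, 5, 6, 4, 5, 2, 3, 4, 1, 3, 2, 0], [6, 0, 2, 3, 4, 5, 1, 3, 4, 2, 3, 0, 2, 1, 3, 4, 5, 6, 7], [6, 2, 3, 4, 5, 1, 3, 4, 2, 3, 0, 2, 1, 3, 4, 5, 6, 7], [7, 5, 6, 2, 3, 4, 5, 0, 2, 3, 4, 1, 3, 2, 0], [6, 4, 5, 3, 4, 2, 3, 0, 2, 1, 3, 4, 5, 6, 7], [7, 5, 6, 2, 1, 3, 4, 5, 0, 2, 3, 4, 1, 3, 2, 0], [6, 4, 5, 1, 3, 4, 2, 3, 0, 2, 1, 3, 4, 5, 6, 7], [7,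 5, 6, 3, 4, 5, 0, 2, 3, 4, 1, 3, 2, 0], [7, 5, 6, 3, 4, 5, 2, 3, 4, 1, 3, 2, 0], [7, 5, 6, 1, 3, 4, 5, 0, 2, 3, 4, 1, 3, 2, 0], [7, 5, 6, 1, 3, 4, 5, 2, 3, 4, 1, 3, 2, 0], [7, 3, 4, 5, 6, 2, 3, 4, 5, 0, 2, 3, 4, 1, 3, 2, 0], [6, 5, 4, 2, 3, 0, 2, 1, 3, 4, 5, 6, 7], [7], [7, 2, 3, 4, 5, 6, 1, 3, 4, 5, 2, 3, 4, 1, 3, 2, 0], [6, 5, 4, 3, 2, 1, 3, 4, 5, 6, 7], [6, 5, 4, 3, 0, 2, 1, 3, 4, 5, 6, 7], [7, 3, 4, 5, 6, 1, 3, 4, 5, 0, 2, 3, 4, 1, 3, 2, 0], [7, 3, 4, 5, 6, 1, 3, 4, 5, 2, 3, 4, 1, 3, 2, 0], [7, 4, 5, 6, 2, 3, 4, 5, 0, 2, 3, 4, 1, 3, 2, 0], [6, 5, 3, 4, 2, 3, 0, 2, 1, 3, 4, 5, 6, 7], [7, 4, 5, 6, 2, 1, 3, 4, 5, 0, 2, 3, 4, 1, 3, 2, 0], [6, 5, 1, 3, 4, 2, 3, 0, 2, 1, 3, 4, 5, 6, 7], [7, 4, 5, 6, 3, 4, 5, 0, 2,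 3, 4, 1, 3, 2, 0], [7, 4, 5, 6, 3, 4, 5, 2, 3, 4, 1, 3, 2, 0], [7, 4, 5, 6, 1, 3, 4, 5, 0, 2, 3, 4, 1, 3, 2, 0], [7, 4, 5, 6, 1, 3, 4, 5, 2, 3, 4, 1, 3, 2, 0], [4, 3, 2, 1, 3, 4, 5, 6, 0, 2, 3, 4, 5, 1, 3, 4, 2, 3, 0, 2, 1, 3, 4, 5, 6, 7], [7, 6, 4, 5, 3, 4, 1, 3, 2, 0], [7, 6, 3, 2, 1, 3, 4, 5, 0, 2, 3, 4, 1, 3, 2, 0], [5, 6, 3, 4, 5, 1, 3, 4, 2, 3, 0, 2, 1, 3, 4, 5, 6, 7], [7, 6, 4, 5, 0, 2, 3, 4, 1, 3, 2, 0], [7, 6, 4, 5, 2, 3, 4, 1, 3, 2, 0], [5, 6, 0, 2, 3, 4, 5, 1, 3, 4, 2, 3, 0, 2, 1, 3, 4, 5, 6, 7], [5, 6, 2, 3, 4, 5, 1, 3, 4, 2, 3, 0, 2, 1, 3, 4, 5, 6, 7], [7, 6, 2, 3, 4, 5, 0, 2, 3, 4, 1, 3, 2, 0], [5, 6, 4, 5, 3, 4, 2, 3, 0, 2, 1, 3, 4, 5, 6, 7], [7, 6, 2, 1, 3, 4, 5, 0, 2, 3, 4, 1, 3, 2, 0], [5, 6,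 4, 5, 1, 3, 4, 2, 3, 0, 2, 1, 3, 4, 5, 6, 7], [7, 6, 3, 4, 5, 0, 2, 3, 4, 1, 3, 2, 0], [7, 6, 3, 4, 5, 2, 3, 4, 1, 3, 2, 0], [7, 6, 1, 3, 4, 5, 0, 2, 3, 4, 1, 3, 2, 0], [7, 6, 1, 3, 4, 5, 2, 3, 4, 1, 3, 2, 0], [3, 2, 1, 3, 4, 5, 6, 0, 2, 3, 4, 5, 1, 3, 4, 2, 3, 0, 2, 1, 3, 4, 5, 6, 7], [7, 6, 5, 3, 4, 1, 3, 2, 0], [7, 6, 4, 3, 2, 1, 3, 4, 5, 0, 2, 3, 4, 1, 3, 2, 0], [4, 5, 6, 3, 4, 5, 1, 3, 4, 2, 3, 0, 2, 1, 3, 4, 5, 6, 7], [7, 6, 5, 0, 2, 3, 4, 1, 3, 2, 0], [7, 6, 5, 2, 3, 4, 1, 3, 2, 0], [4, 5, 6, 0, 2, 3, 4, 5, 1, 3, 4, 2, 3, 0, 2, 1, 3, 4, 5, 6, 7], [4, 5, 6, 2, 3, 4, 5, 1, 3, 4, 2, 3, 0, 2, 1, 3, 4, 5, 6, 7], [2, 1, 3, 4, 5, 6, 0, 2, 3, 4, 5, 1, 3, 4, 2, 3, 0, 2, 1, 3, 4, 5, 6, 7], [7, 6, 5, 4, 1, 3, 2, 0],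 [2, 3, 4, 5, 6, 0, 2, 3, 4, 5, 1, 3, 4, 2, 3, 0, 2, 1, 3, 4, 5, 6, 7], [7, 6, 5, 4, 3, 2, 0], [1, 3, 4, 5, 6, 0, 2, 3, 4, 5, 1, 3, 4, 2, 3, 0, 2, 1, 3, 4, 5, 6, 7], [1, 3, 4, 5, 6, 2, 3, 4, 5, 1, 3, 4, 2, 3, 0, 2, 1, 3, 4, 5, 6, 7], [3, 4, 5, 6, 0, 2, 3, 4, 5, 1, 3, 4, 2, 3, 0, 2, 1, 3, 4, 5, 6, 7], [3, 4, 5, 6, 2, 3, 4, 5, 1, 3, 4, 2, 3, 0, 2, 1, 3, 4, 5, 6, 7]]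

theorem orb_G2 : tG2.chkOrb owG2 [1] = true := by decide +kernel
theorem orb_F4 : tF4.chkOrb owF4 [2, 5] = true := by decide +kernel
theorem orb_E8 : tE8.chkOrb owE8 [6, 82] = true := by decide +kernel

theorem oG2 (F : Type*) [Field F] : OChk chevG2 tG2 F := ochk_of good3_G2 ort_G2 smith_G2 (by decide +kernel) F
theorem oF4 (F : Type*) [Field F] : OChk chevF4 tF4 F := ochk_of good3_F4 ort_F4 smith_F4 (by decide +kernel) F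
theorem oE8 (F : Type*) [Field F] : OChk chevE8 tE8 F := ochk_of good3_E8 ort_E8 smith_E8 (by decide +kernel) F

end CfsgLib.OI
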