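import Mathlib
import Cfsg.Agent.LibChevStb
import Cfsg.Agent.LibChevCard2
import Cfsg.Agent.LibChevSyl
import Cfsg.Agent.LibChevPoinT
import Cfsg.Agent.LibF4C5

set_option autoImplicit false
set_option linter.all false
set_option maxRecDepth 100000

/-! orders of parabolic subgroups (seat helper23) -/

namespace CfsgLib.Chev

open Cfsg.Lie Matrix

namespace Good3

variable {D : ChevalleyDatum} {T : Tb} (g : Good3 D T)
include g

section Mat
variable {F : Type*} [Field F]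

/-- a chosen word -/
noncomputable def wrdJ {J : Set ℕ} (σ : g.WJ J) : List ℕ := (g.mem_WJ.1 σ.2).choose

theorem wrdJ_VW {J : Set ℕ} (σ : g.WJ J) : VW T (g.wrdJ σ) := (g.mem_WJ.1 σ.2).choose_spec.1

theorem wrdJ_JW {J : Set ℕ} (σ : g.WJ J) : JW J (g.wrdJ σ) := (g.mem_WJ.1 σ.2).choose_spec.2.1

theorem wrdJ_pw {J : Set ℕ} (σ : g.WJ J) : g.pw (g.wrdJ σ) = σ := (g.mem_WJ.1 σ.2).choose_spec.2.2.symm

open Classical in
theorem card_par [Fintype F] (J : Set ℕ) :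
    (Nat.card (D.parabolicSubgroup F J) : ℤ) = Nat.card (D.borelSubgroup F) * g.Wq J (Fintype.card F) := by
  have hev := g.even
  have key : Nat.card (D.parabolicSubgroup F J) = ∑ σ : g.WJ J, Nat.card (D.borelSubgroup F) * Nat.card (g.Um (F := F) (g.wrdJ σ)) := by
    have hmul : ∀ (σ : g.WJ J) (b : D.borelSubgroup F) (u : g.Um (F := F) (g.wrdJ σ)),
        (b : GL D.Idx F) * g.nw (g.wrdJ σ) * (u : GL D.Idx F) ∈ D.parabolicSubgroup F J := by
      intro σ b u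
      exact Subgroup.mul_mem _ (Subgroup.mul_mem _ (B_le_par J b.2) (g.nw_par (g.wrdJ_VW σ) (g.wrdJ_JW σ)))
        (B_le_par J (U_le_B (g.Um_le_U _ u.2)))
    have h1 : Nat.card (D.parabolicSubgroup F J) =
        Nat.card (Σ σ : g.WJ J, (D.borelSubgroup F) × (g.Um (F := F) (g.wrdJ σ))) := by
      symm
      refine Nat.card_eq_of_bijective
        (fun p : (Σ σ : g.WJ J, (D.borelSubgroup F) × (g.Um (F := F) (g.wrdJ σ))) =>
          (⟨(p.2.1 : GL D.Idx F) * g.nw (g.wrdJ p.1) * (p.2.2 : GL D.Idx F), hmul p.1 p.2.1 p.2.2⟩ : D.parabolicSubgroup F J)) ⟨?_, ?_⟩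
      · rintro ⟨σ, b, u⟩ ⟨σ', b', u'⟩ he
        have he' : (b : GL D.Idx F) * g.nw (g.wrdJ σ) * (u : GL D.Idx F) = (b' : GL D.Idx F) * g.nw (g.wrdJ σ') * (u' : GL D.Idx F) :=
          congrArg Subtype.val he
        have hu : (u : GL D.Idx F) ∈ D.borelSubgroup F := U_le_B (g.Um_le_U _ u.2)
        have hu' : (u' : GL D.Idx F) ∈ D.borelSubgroup F := U_le_B (g.Um_le_U _ u'.2)
        have h2 : g.nw (F := F) (g.wrdJ σ') = ((b' : GL D.Idx F)⁻¹ * (b : GL D.Idx F)) * g.nw (g.wrdJ σ) * ((u : GL D.Idx F) * (u' : GL D.Idx F)⁻¹) := by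
          calc g.nw (F := F) (g.wrdJ σ') = (b' : GL D.Idx F)⁻¹ * ((b' : GL D.Idx F) * g.nw (g.wrdJ σ') * (u' : GL D.Idx F)) * (u' : GL D.Idx F)⁻¹ := by group
            _ = _ := by rw [← he']; group
        have h3 := g.bruhat_uniq (g.nw_mem_N (g.wrdJ_VW σ)) (g.nw_mem_N (g.wrdJ_VW σ'))
          (Subgroup.mul_mem _ (Subgroup.inv_mem _ b'.2) b.2) (Subgroup.mul_mem _ hu (Subgroup.inv_mem _ hu')) h2
        have h4 : σ = σ' := by
          apply Subtype.ext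
          rw [← g.wrdJ_pw σ, ← g.wrdJ_pw σ', g.pw_eq_iff (g.wrdJ_VW σ) (g.wrdJ_VW σ')]
          intro r hr
          exact ((g.wact_congr (F := F) (g.wrdJ_VW σ') (g.wrdJ_VW σ) h3 (by group)) r hr).symm
        subst h4
        have h5 : (b' : GL D.Idx F)⁻¹ * (b : GL D.Idx F) = g.nw (g.wrdJ σ) * ((u' : GL D.Idx F) * (u : GL D.Idx F)⁻¹) * (g.nw (g.wrdJ σ))⁻¹ := by
          calc (b' : GL D.Idx F)⁻¹ * (b : GL D.Idx F) = (b' : GL D.Idx F)⁻¹ * ((b : GL D.Idx F) * g.nw (g.wrdJ σ) * (u : GL D.Idx F)) * (u : GL D.Idx F)⁻¹ * (g.nw (g.wrdJ σ))⁻¹ := by group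
            _ = _ := by rw [he']; group
        have h6 : (u' : GL D.Idx F) * (u : GL D.Idx F)⁻¹ ∈ g.Um (F := F) (g.wrdJ σ) :=
          Subgroup.mul_mem _ u'.2 (Subgroup.inv_mem _ u.2)
        have h7 := g.Um_conj (g.wrdJ_VW σ) h6
        have h8 := g.B_inf_V (Subgroup.mul_mem _ (Subgroup.inv_mem _ b'.2) b.2) (h5 ▸ h7)
        have h9 : (b : GL D.Idx F) = b' := by
          rw [inv_mul_eq_one] at h8; exact h8.symm
        have h10 : (u : GL D.Idx F) = u' := by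
          rw [h9] at he'; exact mul_left_cancel he'
        have h11 : b = b' := Subtype.ext h9
        have h12 : u = u' := Subtype.ext h10
        rw [h11, h12]
      · rintro ⟨x, hx⟩
        obtain ⟨b, hb, w, hw, hJw, b', hb', rfl⟩ := g.par_mem hx
        obtain ⟨u0, hu0, h, hh, rfl⟩ := g.mem_B.1 hb'
        have hu : h⁻¹ * u0 * (h⁻¹)⁻¹ ∈ D.posUnipotent F := g.H_norm_U (Subgroup.inv_mem _ hh) hu0
        set u : GL D.Idx F := h⁻¹ * u0 * (h⁻¹)⁻¹ with hu_def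
        have hxe : b * g.nw w * (u0 * h) = b * (g.nw w * h) * u := by rw [hu_def]; group
        let σ : g.WJ J := ⟨g.pw w, g.mem_WJ.2 ⟨w, hw, hJw, rfl⟩⟩
        obtain ⟨y, hy, ey⟩ := g.nw_of_pw (F := F) hw (g.wrdJ_VW σ) (g.wrdJ_pw σ).symm
        set n0 : GL D.Idx F := g.nw (g.wrdJ σ) with hn0
        set z : GL D.Idx F := y * h with hz
        have hzH : z ∈ D.diagonalSubgroup F := Subgroup.mul_mem _ hy hh
        obtain ⟨a, ha, ha', c, hc, e⟩ := g.Um_decomp _ (g.wrdJ σ) rfl (g.wrdJ_VW σ) _ (g.H_norm_U hzH hu)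
        have hc' : z⁻¹ * c * (z⁻¹)⁻¹ ∈ g.Um (F := F) (g.wrdJ σ) := g.Um_H (Subgroup.inv_mem _ hzH) hc
        have hzn : n0 * z * n0⁻¹ ∈ D.diagonalSubgroup F := g.nw_H (g.wrdJ_VW σ) hzH
        refine ⟨⟨σ, ⟨b * (n0 * a * n0⁻¹) * (n0 * z * n0⁻¹), ?_⟩, ⟨z⁻¹ * c * (z⁻¹)⁻¹, hc'⟩⟩, ?_⟩
        · exact Subgroup.mul_mem _ (Subgroup.mul_mem _ hb (U_le_B ha')) (H_le_B hzn)
        · apply Subtype.ext
          show b * (n0 * a * n0⁻¹) * (n0 * z * n0⁻¹) * n0 * (z⁻¹ * c * (z⁻¹)⁻¹) = b * g.nw w * (u0 * h)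
          rw [hxe, ey]
          have e1 : u = z⁻¹ * (z * u * z⁻¹) * z := by group
          have e2 : b * (n0 * y * h) * u = b * n0 * z * u := by rw [hz]; group
          rw [e2]
          conv_rhs => rw [e1, e]
          group
    rw [h1, Nat.card_sigma]
    apply Finset.sum_congr rfl
    intro σ _
    rw [Nat.card_prod]
  rw [key]
  push_cast
  rw [← Finset.mul_sum]
  congr 1
  unfold Wq
  rw [Finset.sum_subtype (Finset.univ.filter fun σ : Equiv.Perm (Fin T.n) => σ ∈ g.WJ J) (p := fun σ => σ ∈ g.WJ J)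
    (by intro x; simp)]
  apply Finset.sum_congr rfl
  intro σ _
  rw [g.card_Um _ (g.wrdJ σ) rfl (g.wrdJ_VW σ), g.wrdJ_pw σ]
  push_cast
  rfl

/-- primes dividing the order of a parabolic subgroup -/
theorem prime_par [Fintype F] {J : Set ℕ} {l : ℕ} (hl : l.Prime) (h : l ∣ Nat.card (D.parabolicSubgroup F J)) :
    l ∣ Fintype.card F ∨ l ∣ Fintype.card F - 1 ∨ (l : ℤ) ∣ g.Wq J (Fintype.card F) := by
  have h1 := g.card_par (F := F) J
  have h2 : (l : ℤ) ∣ Nat.card (D.borelSubgroup F) * g.Wq J (Fintype.card F) := by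
    rw [← h1]; exact Int.natCast_dvd_natCast.2 h
  rcases (Nat.prime_iff_prime_int.1 hl).dvd_or_dvd h2 with h3 | h3
  · have h4 := Int.natCast_dvd_natCast.1 h3
    rw [g.card_B, g.card_U] at h4
    rcases hl.dvd_mul.1 h4 with h5 | h5
    · exact Or.inl (hl.dvd_of_dvd_pow h5)
    · exact Or.inr (Or.inl (hl.dvd_of_dvd_pow (h5.trans g.card_H_dvd)))
  · exact Or.inr (Or.inr h3)

theorem X_par_neg {J : Set ℕ} {i : ℕ} (hi : i < T.l) (hJ : i ∈ J) (t : F) :
    g.X (T.n - 1 - T.sim i) t ∈ D.parabolicSubgroup F J :=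
  g.X_mem_par ((g.neg_inSub (g.sim_lt hi)).2 (g.sim_inSub hi hJ)) t

end Mat

end Good3

end CfsgLib.Chev

namespace CfsgLib.F4C

open Cfsg.Lie Matrix CfsgLib.Chev

def ot03 : OT where
  N := 2
  e0 := 1
  mr := [151, 137, 136, 136]
  dr := 1
  sr := [1, 0, 0, 256]

def ot3 : OT where
  N := 2
  e0 := 0
  mr := [136, 136, 152, 121]
  dr := 256
  sr := [0, 0, 0, 1]

theorem ch12 : chkChain tF4 [1, 2] [(1, otF4_2, oqF4_2), (2, otF4_3, oqF4_3)] = true := by decide +kernel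
theorem ch03 : chkChain tF4 [0, 3] [(0, ot03, [1, 2, 1]), (3, ot3, [1, 1])] = true := by decide +kernel

theorem Wq12 (x : ℤ) : good3_F4.Wq {i | i ∈ [1, 2]} x = (1 + x) * (1 + x) * (1 + x ^ 2) := by
  rw [good3_F4.chain_sound ocnn_F4 x _ _ ch12]
  simp only [headQ, oqF4_2, lpev]
  ring

theorem Wq03 (x : ℤ) : good3_F4.Wq {i | i ∈ [0, 3]} x = (1 + x) * (1 + x) := by
  rw [good3_F4.chain_sound ocnn_F4 x _ _ ch03]
  simp only [headQ, lpev]
  ring

theorem par_primes {F : Type*} [Field F] [Fintype F] {J : Set ℕ} (hJ : J = {i | i ∈ [1, 2]} ∨ J = {i | i ∈ [0, 3]}) {l : ℕ}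
    (hl : l.Prime) (h : l ∣ Nat.card (chevF4.parabolicSubgroup F J)) : l ∣ Fintype.card F * (Fintype.card F ^ 4 - 1) := by
  have hq : 1 ≤ Fintype.card F := Fintype.card_pos
  set q := Fintype.card F with hqd
  have hq4 : 1 ≤ q ^ 4 := Nat.one_le_pow _ _ hq
  have e : (((q * (q ^ 4 - 1) : ℕ)) : ℤ) = q * ((q - 1) * (q + 1) * (1 + (q : ℤ) ^ 2)) := by
    push_cast [Nat.cast_sub hq4]
    ring
  rw [← Int.natCast_dvd_natCast, e]
  rcases good3_F4.prime_par hl h with h1 | h1 | h1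
  · exact Dvd.dvd.mul_right (Int.natCast_dvd_natCast.2 h1) _
  · have h2 : (l : ℤ) ∣ (q : ℤ) - 1 := by
      have := Int.natCast_dvd_natCast.2 h1
      rwa [Nat.cast_sub hq, Nat.cast_one] at this
    exact Dvd.dvd.mul_left (Dvd.dvd.mul_right (Dvd.dvd.mul_right h2 _) _) _
  · have hp := Nat.prime_iff_prime_int.1 hl
    have h3 : (l : ℤ) ∣ (1 + (q : ℤ)) ∨ (l : ℤ) ∣ (1 + (q : ℤ) ^ 2) := by
      rcases hJ with rfl | rfl
      · rw [Wq12] at h1
        rcases hp.dvd_or_dvd h1 with h2 | h2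
        · rcases hp.dvd_or_dvd h2 with h3 | h3 <;> exact Or.inl h3
        · exact Or.inr h2
      · rw [Wq03] at h1
        rcases hp.dvd_or_dvd h1 with h3 | h3 <;> exact Or.inl h3
    rcases h3 with h3 | h3
    · rw [add_comm] at h3
      exact Dvd.dvd.mul_left (Dvd.dvd.mul_right (Dvd.dvd.mul_left h3 _) _) _
    · exact Dvd.dvd.mul_left (Dvd.dvd.mul_left h3 _) _

section
variable {F : Type*} [Field F] [CharP F 2]

theorem c47_le : chevF4.group F ⊓ Subgroup.centralizer {good3_F4.X 47 (1 : F) * good3_F4.X 44 1} ≤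
    chevF4.parabolicSubgroup F {i | i ∈ [1, 2]} := by
  rw [cent47]
  apply sup_le
  · exact fun u hu => Good3.B_le_par _ (Good3.U_le_B hu)
  · rw [Subgroup.closure_le]
    rintro x ⟨i, hi, hil, t, rfl⟩
    exact good3_F4.X_par_neg hil (by rcases hi with rfl | rfl <;> simp) t

theorem cvv_le : chevF4.group F ⊓ Subgroup.centralizer {vv F} ≤ chevF4.parabolicSubgroup F {i | i ∈ [0, 3]} := by
  have hn := n_F4
  have hl := l_F4
  obtain ⟨s0, s1, s2, s3⟩ := b12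
  rw [cent_main]
  unfold E
  rw [Subgroup.closure_le]
  rintro x ⟨s, t, hs, rfl⟩
  rcases hs with rfl | rfl | hs
  · have := good3_F4.X_par_neg (F := F) (J := {i | i ∈ [0, 3]}) (i := 0) (by omega) (by simp) t
    rwa [s0, hn] at this
  · have := good3_F4.X_par_neg (F := F) (J := {i | i ∈ [0, 3]}) (i := 3) (by omega) (by simp) t
    rwa [s3, hn] at this
  · exact Good3.B_le_par _ (Good3.U_le_B (good3_F4.X_mem_U (by omega) (by omega) t))

end

end CfsgLib.F4C
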