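import Mathlib
import Cfsg.Agent.LibOI4
import Cfsg.Agent.LibParCard

set_option autoImplicit false
set_option linter.all false

/-! involutions of Chevalley groups in odd characteristic, 5: order of the centralizer of an element of H (seat helper23) -/

namespace CfsgLib.OI

open Cfsg.Lie Matrix CfsgLib.Chev CfsgLib.Chev.Good3

section
variable {D : ChevalleyDatum} {T : Tb} (g : Good3 D T) {F : Type*} [Field F]

/-- extension by zero -/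
noncomputable def ez (R : Finset ℕ) (t : R → F) : ℕ → F := fun r => if h : r ∈ R then t ⟨r, h⟩ else 0

noncomputable def EU (R : Finset ℕ) (t : R → F) : GL D.Idx F := g.pr (T.n / 2) (T.n - T.n / 2) (ez R t)

include g

theorem EU_inj' {R R' : Finset ℕ} (hR : ∀ r ∈ R, T.n / 2 ≤ r ∧ r < T.n) (hR' : ∀ r ∈ R', T.n / 2 ≤ r ∧ r < T.n)
    {t : R → F} {t' : R' → F} (h : EU g R t = EU g R' t') : ez R t = ez R' t' := by
  have hev := g.even
  have hmem : EU g R t ∈ g.Uge (T.n / 2) := g.pr_mem (by omega) _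
  obtain ⟨s, _, hu⟩ := g.Uge_expr _ (T.n / 2) rfl le_rfl (by omega) _ hmem
  have z : ∀ (Q : Finset ℕ), (∀ r ∈ Q, T.n / 2 ≤ r ∧ r < T.n) → ∀ (t : Q → F) r, ¬ (T.n / 2 ≤ r ∧ r < T.n) → ez Q t r = 0 := by
    intro Q hQ t r hr
    unfold ez
    rw [dif_neg fun h => hr (hQ r h)]
  rw [hu (ez R t) ⟨z R hR t, rfl⟩, hu (ez R' t') ⟨z R' hR' t', h⟩]

theorem EU_inj {R : Finset ℕ} (hR : ∀ r ∈ R, T.n / 2 ≤ r ∧ r < T.n) : Function.Injective (EU g R (F := F)) := by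
  intro t t' h
  have := EU_inj' g hR hR h
  funext ⟨r, hr⟩
  have := congrFun this r
  unfold ez at this
  rw [dif_pos hr, dif_pos hr] at this
  exact this

theorem conj_pr {h : GL D.Idx F} {χ : ℕ → F} (hX : ∀ r < T.n, ∀ t, h * g.X r t * h⁻¹ = g.X r (χ r * t)) :
    ∀ m k, k + m ≤ T.n → ∀ t : ℕ → F, h * g.pr k m t * h⁻¹ = g.pr k m (fun r => χ r * t r) := by
  intro m
  induction m with
  | zero => intro k _ t; simp [pr, wd]
  | succ m ih =>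
    intro k hk t
    rw [pr_succ, pr_succ, ← ih (k + 1) (by omega) t, ← hX k (by omega)]
    group

theorem conj_EU {h : GL D.Idx F} {χ : ℕ → F} (hX : ∀ r < T.n, ∀ t, h * g.X r t * h⁻¹ = g.X r (χ r * t)) (R : Finset ℕ) (t : R → F) :
    h * EU g R t * h⁻¹ = EU g R (fun r => χ r * t r) := by
  have hev := g.even
  unfold EU
  rw [conj_pr g hX _ _ (by omega)]
  apply g.pr_congr
  intro r _ _
  unfold ez
  split_ifs
  · rfl
  · rw [mul_zero]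

open Classical in
theorem card_cent_of [Fintype F] {S : Set (GL D.Idx F)} {R : Finset ℕ} (hR : ∀ r ∈ R, T.n / 2 ≤ r ∧ r < T.n)
    (h1 : ∀ t : R → F, EU g R t ∈ S) (h2 : ∀ x ∈ S, ∃ t : R → F, x = EU g R t) {h : GL D.Idx F} {χ : ℕ → F}
    (hX : ∀ r < T.n, ∀ t, h * g.X r t * h⁻¹ = g.X r (χ r * t)) :
    Nat.card {x : GL D.Idx F // x ∈ S ∧ h * x * h⁻¹ = x} = Fintype.card F ^ (R.filter fun r => χ r = 1).card := by
  set R' := R.filter fun r => χ r = 1 with hR'd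
  have hR' : ∀ r ∈ R', T.n / 2 ≤ r ∧ r < T.n := fun r hr => hR r (Finset.mem_filter.1 hr).1
  -- EU R' t = EU R (ext)
  have hext : ∀ t : R' → F, EU g R' t = EU g R (fun r => ez R' t r) := by
    intro t
    unfold EU
    apply g.pr_congr
    intro r _ _
    by_cases hr : r ∈ R
    · conv_rhs => unfold ez
      rw [dif_pos hr]
      rfl
    · have hr' : r ∉ R' := fun h => hr (Finset.mem_filter.1 h).1
      unfold ez
      rw [dif_neg hr, dif_neg hr']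
  have key : Nat.card (R' → F) = Nat.card {x : GL D.Idx F // x ∈ S ∧ h * x * h⁻¹ = x} := by
    refine Nat.card_eq_of_bijective (fun t : R' → F => (⟨EU g R' t, ?_, ?_⟩ : {x : GL D.Idx F // x ∈ S ∧ h * x * h⁻¹ = x})) ⟨?_, ?_⟩
    · rw [hext]; exact h1 _
    · rw [conj_EU g hX]
      congr 1
      funext r
      rw [(Finset.mem_filter.1 r.2).2, one_mul]
    · intro t t' he
      exact EU_inj g hR' (congrArg Subtype.val he)
    · rintro ⟨x, hx, hhx⟩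
      obtain ⟨t, rfl⟩ := h2 x hx
      rw [conj_EU g hX] at hhx
      have h3 := EU_inj g hR hhx
      refine ⟨fun r => t ⟨r.1, (Finset.mem_filter.1 r.2).1⟩, Subtype.ext ?_⟩
      show EU g R' _ = EU g R t
      rw [hext]
      congr 1
      funext r
      unfold ez
      by_cases hr : (r : ℕ) ∈ R'
      · rw [dif_pos hr]
      · rw [dif_neg hr]
        have h4 := congrFun h3 r
        by_contra h5
        apply hr
        rw [Finset.mem_filter]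
        refine ⟨r.2, ?_⟩
        have h6 : t r ≠ 0 := fun h => h5 h.symm
        have h7 : χ r * t r = 1 * t r := by rw [one_mul]; exact h4
        exact mul_right_cancel₀ h6 h7
  rw [← key, Nat.card_fun, Nat.card_eq_fintype_card (α := F), Nat.card_eq_fintype_card, Fintype.card_coe]

open Classical in
theorem card_cent_U [Fintype F] {h : GL D.Idx F} {χ : ℕ → F}
    (hX : ∀ r < T.n, ∀ t, h * g.X r t * h⁻¹ = g.X r (χ r * t)) :
    Nat.card {x : GL D.Idx F // x ∈ D.posUnipotent F ∧ h * x * h⁻¹ = x} =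
      Fintype.card F ^ (((Finset.range T.n).filter fun r => T.n / 2 ≤ r).filter fun r => χ r = 1).card := by
  have hev := g.even
  have hm : ∀ r, r ∈ ((Finset.range T.n).filter fun r => T.n / 2 ≤ r) ↔ T.n / 2 ≤ r ∧ r < T.n := by
    intro r; rw [Finset.mem_filter, Finset.mem_range]; tauto
  apply card_cent_of g (S := (D.posUnipotent F : Set (GL D.Idx F))) (fun r hr => (hm r).1 hr) _ _ hX
  · intro t
    show _ ∈ D.posUnipotent F
    rw [g.U_eq]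
    exact g.pr_mem (by omega) _
  · intro x hx
    rw [SetLike.mem_coe, g.U_eq] at hx
    obtain ⟨s, ⟨hs1, hs2⟩, _⟩ := g.Uge_expr _ (T.n / 2) rfl le_rfl (by omega) _ hx
    refine ⟨fun r => s r, ?_⟩
    rw [hs2]
    unfold EU
    apply g.pr_congr
    intro r h1 h2
    unfold ez
    rw [dif_pos ((hm r).2 ⟨h1, by omega⟩)]

open Classical in
theorem card_cent_Um [Fintype F] {w : List ℕ} (hw : VW T w) {h : GL D.Idx F} {χ : ℕ → F}
    (hX : ∀ r < T.n, ∀ t, h * g.X r t * h⁻¹ = g.X r (χ r * t)) :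
    Nat.card {x : GL D.Idx F // x ∈ g.Um (F := F) w ∧ h * x * h⁻¹ = x} =
      Fintype.card F ^ (((Finset.range T.n).filter fun r => T.n / 2 ≤ r ∧ wact T w r < T.n / 2).filter fun r => χ r = 1).card := by
  have hev := g.even
  set R := (Finset.range T.n).filter fun r => T.n / 2 ≤ r ∧ wact T w r < T.n / 2 with hRd
  have hR : ∀ r ∈ R, T.n / 2 ≤ r ∧ r < T.n := by
    intro r hr; rw [hRd, Finset.mem_filter, Finset.mem_range] at hr; exact ⟨hr.2.1, hr.1⟩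
  have h1 : ∀ t : R → F, EU g R t ∈ g.Um (F := F) w := by
    intro t
    unfold EU pr wd
    apply Subgroup.list_prod_mem
    intro x hx
    rw [List.map_map, List.mem_map] at hx
    obtain ⟨r, _, rfl⟩ := hx
    show g.X r (ez R t r) ∈ _
    unfold ez
    split_ifs with hr
    · apply Subgroup.subset_closure
      rw [hRd, Finset.mem_filter, Finset.mem_range] at hr
      exact ⟨r, _, hr.2.1, hr.1, hr.2.2, rfl⟩
    · rw [g.X_zero]; exact Subgroup.one_mem _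
  apply card_cent_of g (S := (g.Um (F := F) w : Set (GL D.Idx F))) hR h1 _ hX
  intro x hx
  have hcard : Nat.card (g.Um (F := F) w) ≤ Nat.card (R → F) := by
    rw [g.card_Um _ w rfl hw, g.len_pw hw, Nat.card_fun, Nat.card_eq_fintype_card (α := F), Nat.card_eq_fintype_card, Fintype.card_coe]
    rfl
  have hbij := Function.Injective.bijective_of_nat_card_le (f := fun t : R → F => (⟨EU g R t, h1 t⟩ : g.Um (F := F) w))
    (fun t t' he => EU_inj g hR (congrArg Subtype.val he)) hcard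
  obtain ⟨t, ht⟩ := hbij.2 ⟨x, hx⟩
  exact ⟨t, (congrArg Subtype.val ht).symm⟩

theorem H_one {k : GL D.Idx F} (hk : k ∈ D.diagonalSubgroup F) (h : ∀ r < T.n, k * g.X r 1 * k⁻¹ = g.X r 1) : k = 1 := by
  obtain ⟨χ, hχ, e, hX⟩ := g.H_X hk
  rw [e, ← dg_one (D := D)]
  apply dg_congr
  intro r hr
  rw [g.hn] at hr
  have h1 := h r hr
  rw [hX r hr] at h1
  have h2 := g.X_inj hr h1
  rw [mul_one] at h2
  exact Units.ext h2

theorem nw_comm {z : GL D.Idx F} (hz : z ∈ D.diagonalSubgroup F) {χ : ℕ → Fˣ}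
    (hX : ∀ r < T.n, ∀ t, z * g.X r t * z⁻¹ = g.X r ((χ r : F) * t)) {w : List ℕ} (hw : VW T w) :
    (∀ r < T.n, χ (wact T w r) = χ r) ↔ z * g.nw w = g.nw w * z := by
  constructor
  · intro h
    have hk : (g.nw w)⁻¹ * z * ((g.nw w)⁻¹)⁻¹ * z⁻¹ ∈ D.diagonalSubgroup F :=
      Subgroup.mul_mem _ (g.N_H (Subgroup.inv_mem _ (g.nw_mem_N hw)) hz) (Subgroup.inv_mem _ hz)
    have h1 := H_one g hk (by
      intro r hr
      have e1 : z⁻¹ * g.X r 1 * z = g.X r (((χ r)⁻¹ : Fˣ) : F) := by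
        have := hX r hr (((χ r)⁻¹ : Fˣ) : F)
        rw [← Units.val_mul, mul_inv_cancel, Units.val_one] at this
        rw [← this]; group
      have e2 : (g.nw w)⁻¹ * z * ((g.nw w)⁻¹)⁻¹ * z⁻¹ * g.X r 1 * ((g.nw w)⁻¹ * z * ((g.nw w)⁻¹)⁻¹ * z⁻¹)⁻¹ =
        (g.nw w)⁻¹ * (z * (g.nw w * (z⁻¹ * g.X r 1 * z) * (g.nw w)⁻¹) * z⁻¹) * g.nw w := by group
      rw [e2, e1, g.nw_X hw hr, hX _ (g.wact_lt hw hr), h r hr]
      have e3 : g.nw w * g.X r 1 * (g.nw w)⁻¹ = g.X (wact T w r) (((sgn T w r : ℤ) : F) * 1) := g.nw_X hw hr 1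
      have e4 : (χ r : F) * (((sgn T w r : ℤ) : F) * (((χ r)⁻¹ : Fˣ) : F)) = ((sgn T w r : ℤ) : F) * 1 := by
        have : (χ r : F) * (((χ r)⁻¹ : Fˣ) : F) = 1 := by rw [← Units.val_mul, mul_inv_cancel, Units.val_one]
        linear_combination ((sgn T w r : ℤ) : F) * this
      rw [e4, ← e3]; group)
    have : z = g.nw w * ((g.nw w)⁻¹ * z * ((g.nw w)⁻¹)⁻¹ * z⁻¹) * z * (g.nw w)⁻¹ := by group
    rw [h1] at this
    calc z * g.nw w = (g.nw w * 1 * z * (g.nw w)⁻¹) * g.nw w := by rw [← this]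
      _ = _ := by group
  · intro h r hr
    have e1 : z * (g.nw w * g.X r 1 * (g.nw w)⁻¹) * z⁻¹ = g.nw w * (z * g.X r 1 * z⁻¹) * (g.nw w)⁻¹ := by
      have : z * (g.nw w * g.X r 1 * (g.nw w)⁻¹) * z⁻¹ = (z * g.nw w) * g.X r 1 * (z * g.nw w)⁻¹ := by group
      rw [this, h]; group
    rw [g.nw_X hw hr, hX _ (g.wact_lt hw hr), hX r hr, g.nw_X hw hr] at e1
    have e2 := g.X_inj (g.wact_lt hw hr) e1
    rw [mul_one, mul_one] at e2
    have hs : ((sgn T w r : ℤ) : F) ≠ 0 := by rcases sgn_cases (T := T) w r with h | h <;> rw [h] <;> simp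
    rw [mul_comm] at e2
    exact Units.ext (mul_left_cancel₀ hs e2)

theorem H_cm {x y : GL D.Idx F} (hx : x ∈ D.diagonalSubgroup F) (hy : y ∈ D.diagonalSubgroup F) : x * y = y * x := by
  obtain ⟨a, rfl⟩ := g.mem_H.1 hx
  obtain ⟨b, rfl⟩ := g.mem_H.1 hy
  rw [hel_mul, hel_mul]
  congr 1
  funext i
  exact mul_comm _ _

open Classical in
theorem card_CG [Fintype F] {z : GL D.Idx F} (hz : z ∈ D.diagonalSubgroup F) {χ : ℕ → Fˣ}
    (hX : ∀ r < T.n, ∀ t, z * g.X r t * z⁻¹ = g.X r ((χ r : F) * t)) :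
    Nat.card {x : GL D.Idx F // x ∈ D.group F ∧ z * x * z⁻¹ = x} =
      ∑ σ : {σ : Equiv.Perm (Fin T.n) // σ ∈ g.WJ Set.univ ∧ ∀ r : Fin T.n, χ (σ r) = χ r},
        Nat.card {x : GL D.Idx F // x ∈ D.posUnipotent F ∧ z * x * z⁻¹ = x} * (Nat.card (D.diagonalSubgroup F) *
          Nat.card {x : GL D.Idx F // x ∈ g.Um (F := F) (g.wrd ⟨σ.1, σ.2.1⟩) ∧ z * x * z⁻¹ = x}) := by
  have hev := g.even
  haveI : Finite (GL D.Idx F) := inferInstance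
  have hχ : ∀ σ : {σ : Equiv.Perm (Fin T.n) // σ ∈ g.WJ Set.univ ∧ ∀ r : Fin T.n, χ (σ r) = χ r},
      z * g.nw (F := F) (g.wrd ⟨σ.1, σ.2.1⟩) = g.nw (g.wrd ⟨σ.1, σ.2.1⟩) * z := by
    intro σ
    rw [← nw_comm g hz hX (g.wrd_VW _)]
    intro r hr
    have h1 := σ.2.2 ⟨r, hr⟩
    have h2 := g.pw_val (g.wrd_VW ⟨σ.1, σ.2.1⟩) ⟨r, hr⟩
    rw [g.wrd_pw] at h2
    rw [← h2]; exact h1
  have hmul : ∀ (σ : {σ : Equiv.Perm (Fin T.n) // σ ∈ g.WJ Set.univ ∧ ∀ r : Fin T.n, χ (σ r) = χ r})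
      (u : {x : GL D.Idx F // x ∈ D.posUnipotent F ∧ z * x * z⁻¹ = x}) (h : D.diagonalSubgroup F)
      (c : {x : GL D.Idx F // x ∈ g.Um (F := F) (g.wrd ⟨σ.1, σ.2.1⟩) ∧ z * x * z⁻¹ = x}),
      u.1 * g.nw (g.wrd ⟨σ.1, σ.2.1⟩) * h.1 * c.1 ∈ D.group F ∧
      z * (u.1 * g.nw (g.wrd ⟨σ.1, σ.2.1⟩) * h.1 * c.1) * z⁻¹ = u.1 * g.nw (g.wrd ⟨σ.1, σ.2.1⟩) * h.1 * c.1 := by
    intro σ u h c
    refine ⟨Subgroup.mul_mem _ (Subgroup.mul_mem _ (Subgroup.mul_mem _ (g.U_le_G u.2.1) (g.nw_mem_G _)) (g.H_le_G h.2))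
      (g.U_le_G (g.Um_le_U _ c.2.1)), ?_⟩
    have e1 : z * (u.1 * g.nw (g.wrd ⟨σ.1, σ.2.1⟩) * h.1 * c.1) * z⁻¹ =
      (z * u.1 * z⁻¹) * (z * g.nw (g.wrd ⟨σ.1, σ.2.1⟩)) * (h.1 * z⁻¹) * (z * c.1 * z⁻¹) := by group
    have e2 : h.1 * z⁻¹ = z⁻¹ * h.1 := H_cm g h.2 (Subgroup.inv_mem _ hz)
    rw [e1, u.2.2, c.2.2, hχ σ, e2]; group
  have h1 : Nat.card {x : GL D.Idx F // x ∈ D.group F ∧ z * x * z⁻¹ = x} =
      Nat.card (Σ σ : {σ : Equiv.Perm (Fin T.n) // σ ∈ g.WJ Set.univ ∧ ∀ r : Fin T.n, χ (σ r) = χ r},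
        {x : GL D.Idx F // x ∈ D.posUnipotent F ∧ z * x * z⁻¹ = x} × (D.diagonalSubgroup F) ×
          {x : GL D.Idx F // x ∈ g.Um (F := F) (g.wrd ⟨σ.1, σ.2.1⟩) ∧ z * x * z⁻¹ = x}) := by
    symm
    refine Nat.card_eq_of_bijective
      (fun p : (Σ σ : {σ : Equiv.Perm (Fin T.n) // σ ∈ g.WJ Set.univ ∧ ∀ r : Fin T.n, χ (σ r) = χ r},
        {x : GL D.Idx F // x ∈ D.posUnipotent F ∧ z * x * z⁻¹ = x} × (D.diagonalSubgroup F) ×
          {x : GL D.Idx F // x ∈ g.Um (F := F) (g.wrd ⟨σ.1, σ.2.1⟩) ∧ z * x * z⁻¹ = x}) =>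
        (⟨p.2.1.1 * g.nw (g.wrd ⟨p.1.1, p.1.2.1⟩) * p.2.2.1.1 * p.2.2.2.1, hmul p.1 p.2.1 p.2.2.1 p.2.2.2⟩ :
          {x : GL D.Idx F // x ∈ D.group F ∧ z * x * z⁻¹ = x})) ⟨?_, ?_⟩
    · rintro ⟨σ, u, h, c⟩ ⟨σ', u', h', c'⟩ he
      have he' : u.1 * g.nw (g.wrd ⟨σ.1, σ.2.1⟩) * h.1 * c.1 = u'.1 * g.nw (g.wrd ⟨σ'.1, σ'.2.1⟩) * h'.1 * c'.1 :=
        congrArg Subtype.val he
      have hc : c.1 ∈ D.borelSubgroup F := U_le_B (g.Um_le_U _ c.2.1)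
      have hc' : c'.1 ∈ D.borelSubgroup F := U_le_B (g.Um_le_U _ c'.2.1)
      have h2 : g.nw (F := F) (g.wrd ⟨σ'.1, σ'.2.1⟩) = (u'.1⁻¹ * u.1) * g.nw (g.wrd ⟨σ.1, σ.2.1⟩) * (h.1 * c.1 * c'.1⁻¹ * h'.1⁻¹) := by
        calc g.nw (F := F) (g.wrd ⟨σ'.1, σ'.2.1⟩) = u'.1⁻¹ * (u'.1 * g.nw (g.wrd ⟨σ'.1, σ'.2.1⟩) * h'.1 * c'.1) * c'.1⁻¹ * h'.1⁻¹ := by group
          _ = _ := by rw [← he']; group
      have h3 := g.bruhat_uniq (g.nw_mem_N (g.wrd_VW ⟨σ.1, σ.2.1⟩)) (g.nw_mem_N (g.wrd_VW ⟨σ'.1, σ'.2.1⟩))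
        (Subgroup.mul_mem _ (Subgroup.inv_mem _ (U_le_B u'.2.1)) (U_le_B u.2.1))
        (Subgroup.mul_mem _ (Subgroup.mul_mem _ (Subgroup.mul_mem _ (H_le_B h.2) hc) (Subgroup.inv_mem _ hc')) (Subgroup.inv_mem _ (H_le_B h'.2))) h2
      have h4 : σ = σ' := by
        apply Subtype.ext
        have a1 := g.wrd_pw ⟨σ.1, σ.2.1⟩
        have a2 := g.wrd_pw ⟨σ'.1, σ'.2.1⟩
        have a3 : g.pw (g.wrd ⟨σ.1, σ.2.1⟩) = g.pw (g.wrd ⟨σ'.1, σ'.2.1⟩) := by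
          rw [g.pw_eq_iff (g.wrd_VW _) (g.wrd_VW _)]
          intro r hr
          exact ((g.wact_congr (F := F) (g.wrd_VW ⟨σ'.1, σ'.2.1⟩) (g.wrd_VW ⟨σ.1, σ.2.1⟩) h3 (by group)) r hr).symm
        rw [a1, a2] at a3
        exact a3
      subst h4
      obtain ⟨b1, b2, b3⟩ := CfsgLib.ChevFix.nf_unique g (g.wrd_VW ⟨σ.1, σ.2.1⟩) u.2.1 u'.2.1 h.2 h'.2 c.2.1 c'.2.1 he'
      have b1' : u = u' := Subtype.ext b1
      have b2' : h = h' := Subtype.ext b2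
      have b3' : c = c' := Subtype.ext b3
      rw [b1', b2', b3']
    · rintro ⟨x, hx, hzx⟩
      obtain ⟨w, hw, u, hu, h, hh, c, hc, rfl⟩ := CfsgLib.ChevFix.nf_exists g hx
      have hmem : g.pw w ∈ g.WJ Set.univ := g.mem_WJ.2 ⟨w, hw, fun _ _ => Set.mem_univ _, rfl⟩
      set w' := g.wrd ⟨g.pw w, hmem⟩ with hw'd
      have hw' : VW T w' := g.wrd_VW _
      have hpw : g.pw w = g.pw w' := (g.wrd_pw ⟨g.pw w, hmem⟩).symm
      have hwr : ∀ r < T.n, wact T w r = wact T w' r := (g.pw_eq_iff hw hw').1 hpw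
      obtain ⟨y, hy, ey⟩ := g.nw_of_pw (F := F) hw hw' hpw
      rw [g.Um_congr hwr] at hc
      have hxe : u * g.nw w * h * c = u * g.nw w' * (y * h) * c := by rw [ey]; group
      have hyh := Subgroup.mul_mem _ hy hh
      have hk : (g.nw w')⁻¹ * z * ((g.nw w')⁻¹)⁻¹ * (y * h) * z⁻¹ ∈ D.diagonalSubgroup F :=
        Subgroup.mul_mem _ (Subgroup.mul_mem _ (g.N_H (Subgroup.inv_mem _ (g.nw_mem_N hw')) hz) hyh) (Subgroup.inv_mem _ hz)
      have e1 : z * (u * g.nw w' * (y * h) * c) * z⁻¹ =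
          (z * u * z⁻¹) * g.nw w' * ((g.nw w')⁻¹ * z * ((g.nw w')⁻¹)⁻¹ * (y * h) * z⁻¹) * (z * c * z⁻¹) := by group
      rw [hxe] at hzx
      rw [e1] at hzx
      obtain ⟨b1, b2, b3⟩ := CfsgLib.ChevFix.nf_unique g hw' (g.H_norm_U hz hu) hu hk hyh (g.Um_H hz hc) hc hzx
      have hcomm : z * g.nw w' = g.nw w' * z := by
        have a1 : (g.nw w')⁻¹ * z * ((g.nw w')⁻¹)⁻¹ * (z⁻¹ * (y * h)) = y * h := by
          rw [H_cm g (Subgroup.inv_mem _ hz) hyh, ← mul_assoc]; exact b2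
        have a2 : (g.nw w')⁻¹ * z * ((g.nw w')⁻¹)⁻¹ * z⁻¹ = 1 := by
          have : (g.nw w')⁻¹ * z * ((g.nw w')⁻¹)⁻¹ * z⁻¹ = ((g.nw w')⁻¹ * z * ((g.nw w')⁻¹)⁻¹ * (z⁻¹ * (y * h))) * (y * h)⁻¹ := by group
          rw [this, a1]; group
        have a3 : z = g.nw w' * ((g.nw w')⁻¹ * z * ((g.nw w')⁻¹)⁻¹ * z⁻¹) * z * (g.nw w')⁻¹ := by group
        rw [a2] at a3
        calc z * g.nw w' = (g.nw w' * 1 * z * (g.nw w')⁻¹) * g.nw w' := by rw [← a3]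
          _ = _ := by group
      have hσ : ∀ r : Fin T.n, χ (g.pw w r) = χ r := by
        intro r
        have := (nw_comm g hz hX hw').2 hcomm r r.2
        rw [hpw, g.pw_val hw']; exact this
      refine ⟨⟨⟨g.pw w, hmem, hσ⟩, ⟨u, hu, b1⟩, ⟨y * h, hyh⟩, ⟨c, hc, b3⟩⟩, Subtype.ext ?_⟩
      exact hxe.symm
  rw [h1, Nat.card_sigma]
  apply Finset.sum_congr rfl
  intro σ _
  rw [Nat.card_prod, Nat.card_prod]

end

end CfsgLib.OI
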