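import Mathlib
import Cfsg.Agent.LibOI5

set_option autoImplicit false
set_option linter.all false
set_option maxRecDepth 100000

/-! involutions of Chevalley groups in odd characteristic, 6: the stabilizer in the Weyl group (seat helper23) -/

namespace CfsgLib.OI

open Cfsg.Lie Matrix CfsgLib.Chev CfsgLib.Chev.Good3

/-- sum of two coroots -/
noncomputable def vec (T : Tb) (a b : ℕ) : List ℤ := (List.range T.l).map fun i => T.pair a (T.sim i) + T.pair b (T.sim i)

def pmf (f : ℕ → Bool) : ℕ → ℕ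
  | 0 => 0
  | i + 1 => Nat.bit (f i) (pmf f i)

theorem pmf_xor (f h : ℕ → Bool) : ∀ m, pmf f m ^^^ pmf h m = pmf (fun i => xor (f i) (h i)) m := by
  intro m
  induction m with
  | zero => simp [pmf]
  | succ m ih =>
    show Nat.bit (f m) (pmf f m) ^^^ Nat.bit (h m) (pmf h m) = Nat.bit (xor (f m) (h m)) _
    rw [← ih, Nat.xor_bit]

theorem pmf_congr {f h : ℕ → Bool} {m : ℕ} (e : ∀ i < m, f i = h i) : pmf f m = pmf h m := by
  induction m with
  | zero => rfl
  | succ m ih =>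
    show Nat.bit (f m) (pmf f m) = Nat.bit (h m) (pmf h m)
    rw [e m (by omega), ih fun i hi => e i (by omega)]

noncomputable def pma (T : Tb) (a : ℕ) : ℕ := pmf (fun i => decide (T.pair a (T.sim i) % 2 ≠ 0)) T.l

structure CData where
  k : ℕ
  b1 : ℕ
  b2 : ℕ
  pt : List (ℕ × ℕ)
  M : List (List ℕ)
  Λ : List (List ℤ)
  JL : List ℕ

structure CChk (T : Tb) (d : CData) : Prop where
  k0 : d.k < T.l
  b1 : d.b1 < T.n
  b2 : d.b2 < T.n
  dual : ∀ i < T.l, T.pair d.b1 (T.sim i) + T.pair d.b2 (T.sim i) = if i = d.k then 1 else 0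
  M1 : ∀ μ ∈ d.M, ∀ i ∈ μ, i < T.l
  M2 : ∀ μ ∈ d.M, ∀ i < T.l, (T.v (wact T μ (T.sim i)) d.k - if i = d.k then 1 else 0) % 2 = 0
  M3 : ∀ μ ∈ d.M, ∀ i < T.l, i ≠ d.k → T.n / 2 ≤ wact T μ (T.sim i)
  L1 : d.Λ = d.M.map fun μ => vec T (wact T μ d.b1) (wact T μ d.b2)
  L2 : d.Λ.Nodup
  P1 : d.pt = (List.range T.n).map fun a => (a, pma T a)
  P2 : d.pt.all (fun a => d.pt.all fun b => (!Nat.beq (a.2 ^^^ b.2) (pmf (fun i => decide (i = d.k)) T.l)) ||
    ((!decide (T.pair a.1 b.1 = T.pair d.b1 d.b2)) || d.Λ.contains (vec T a.1 b.1))) = true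
  J1 : ∀ i ∈ d.JL, i < T.l ∧ i ≠ d.k
  J2 : ∀ i < T.l, i ≠ d.k → i ∈ d.JL

section
variable {D : ChevalleyDatum} {T : Tb} (g : Good3 D T) {d : CData} (C : CChk T d)

include g C

theorem dual_all {r : ℕ} (hr : r < T.n) : T.pair d.b1 r + T.pair d.b2 r = T.v r d.k := by
  rw [g.pair_lin _ hr, g.pair_lin d.b2 hr, ← Finset.sum_add_distrib, Finset.sum_eq_single d.k]
  · rw [← mul_add, C.dual _ C.k0, if_pos rfl, mul_one]
  · intro i hi hik
    rw [← mul_add, C.dual _ (Finset.mem_range.1 hi), if_neg hik, mul_zero]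
  · intro h; exact absurd (Finset.mem_range.2 C.k0) h

/-- v_k is fixed by W_J -/
theorem vk_J {w : List ℕ} (hw : VW T w) (hJ : JW {i | i ∈ d.JL} w) {r : ℕ} (hr : r < T.n) : T.v (wact T w r) d.k = T.v r d.k := by
  apply v_notin g hw hr C.k0
  intro h
  exact (C.J1 _ (hJ _ h)).2 rfl

theorem J_of_vk : ∀ (m : ℕ) (w : List ℕ), ninv T w = m → VW T w → (∀ r < T.n, T.v (wact T w r) d.k = T.v r d.k) →
    g.pw w ∈ g.WJ {i | i ∈ d.JL} := by
  intro m
  induction m with
  | zero =>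
    intro w hwm hw hv
    obtain ⟨w', hw', hn', _, x, hx, e⟩ := g.exists_reduced (F := ℚ) _ w rfl hw
    have hc := g.wact_congr hw hw' hx e
    have h0 : ninv T w' = 0 := by rw [← ninv_congr g hc]; exact hwm
    have h1 : w' = [] := by
      rw [← List.length_eq_zero_iff, ← hn', h0]
    subst h1
    have : g.pw w = g.pw [] := (g.pw_eq_iff hw hw').2 hc
    rw [this, g.pw_nil]
    exact Subgroup.one_mem _
  | succ m ih =>
    intro w hwm hw hv
    have hev := g.even
    by_cases hA : ∀ i < T.l, T.n / 2 ≤ wact T w (T.sim i)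
    · exfalso
      have h0 : ninv T w = 0 := by
        unfold ninv
        rw [Finset.card_eq_zero, Finset.filter_eq_empty_iff]
        rintro r hr ⟨h1, h2⟩
        have := g.all_pos hw hA r h1 (Finset.mem_range.1 hr)
        omega
      omega
    push Not at hA
    obtain ⟨i, hi, hneg⟩ := hA
    have hsi := g.sim_lt hi
    have hik : i ≠ d.k := by
      rintro rfl
      have h1 := hv _ hsi
      rw [g.v_sim hi hi, if_pos rfl] at h1
      have := g.v_nonpos (g.wact_lt hw hsi) hneg hi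
      omega
    have hVi := g.VW_single hi
    have hw1 := g.VW_append hw hVi
    have h2 := g.ninv_append hw1 hi (by
      rw [wact_append, wact_cons, wact_nil, g.w_sim hi, g.wact_neg hw hsi]
      have := g.wact_lt hw hsi
      omega)
    have h3 : ninv T (w ++ [i] ++ [i]) = ninv T w := by
      apply ninv_congr g
      intro r hr
      rw [wact_append, wact_append, wact_cons, wact_nil, wact_cons, wact_nil, g.w_w hi hr]
    have h4 := ih (w ++ [i]) (by omega) hw1 (by
      intro r hr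
      rw [wact_append, wact_cons, wact_nil, hv _ (g.w_lt hi hr), g.v_w hi hr C.k0, if_neg (Ne.symm hik), sub_zero])
    have h5 : g.pw w = g.pw (w ++ [i]) * g.ps i := by
      rw [g.pw_append, g.pw_single, mul_assoc, g.ps_sq hi, mul_one]
    rw [h5]
    exact Subgroup.mul_mem _ h4 (g.ps_mem_WJ hi (C.J2 i hi hik))

/-- positive roots of the Levi factor stay positive -/
theorem M_pos {μ : List ℕ} (hμ : μ ∈ d.M) {s : ℕ} (hs : s < T.n) (hp : T.n / 2 ≤ s) (h0 : T.v s d.k = 0) : T.n / 2 ≤ wact T μ s := by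
  have hV : VW T μ := C.M1 μ hμ
  by_contra hcon
  have hl := g.wact_lt hV hs
  obtain ⟨j, hj, hne⟩ := g.v_ne_zero hl
  have h1 := g.v_nonpos hl (not_le.1 hcon) hj
  have h2 : 0 ≤ T.v (wact T μ s) j := by
    rw [g.v_wact hV hs hj]
    apply Finset.sum_nonneg
    intro i hi
    rw [Finset.mem_range] at hi
    by_cases hik : i = d.k
    · rw [hik, h0, zero_mul]
    · exact mul_nonneg (g.v_nonneg hs hi hp) (g.v_nonneg (g.wact_lt hV (g.sim_lt hi)) hj (C.M3 μ hμ i hi hik))
  omega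

theorem M_neg {μ : List ℕ} (hμ : μ ∈ d.M) {s : ℕ} (hs : s < T.n) (hp : s < T.n / 2) (h0 : T.v s d.k = 0) : wact T μ s < T.n / 2 := by
  have hev := g.even
  have hV : VW T μ := C.M1 μ hμ
  have h1 := M_pos g C hμ (s := T.n - 1 - s) (by omega) (by omega) (by rw [g.v_neg hs C.k0, h0]; rfl)
  rw [g.wact_neg hV hs] at h1
  have := g.wact_lt hV hs
  omega

/-- parity is preserved by M -/
theorem M_par {μ : List ℕ} (hμ : μ ∈ d.M) {r : ℕ} (hr : r < T.n) : (T.v (wact T μ r) d.k - T.v r d.k) % 2 = 0 := by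
  have hV : VW T μ := C.M1 μ hμ
  have e1 : T.v (wact T μ r) d.k - T.v r d.k = ∑ i ∈ Finset.range T.l, T.v r i * (T.v (wact T μ (T.sim i)) d.k - if i = d.k then 1 else 0) := by
    rw [g.v_wact hV hr C.k0]
    simp only [mul_sub, Finset.sum_sub_distrib]
    congr 1
    rw [Finset.sum_eq_single d.k]
    · rw [if_pos rfl, mul_one]
    · intro i _ h; rw [if_neg h, mul_zero]
    · intro h; exact absurd (Finset.mem_range.2 C.k0) h
  rw [e1]
  apply Int.emod_eq_zero_of_dvd
  apply Finset.dvd_sum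
  intro i hi
  exact Dvd.dvd.mul_left (Int.dvd_of_emod_eq_zero (C.M2 μ hμ i (Finset.mem_range.1 hi))) _

theorem vec_eq_iff {a b a' b' : ℕ} (h : vec T a b = vec T a' b') {r : ℕ} (hr : r < T.n) :
    T.pair a r + T.pair b r = T.pair a' r + T.pair b' r := by
  have h1 : ∀ i < T.l, T.pair a (T.sim i) + T.pair b (T.sim i) = T.pair a' (T.sim i) + T.pair b' (T.sim i) := by
    intro i hi
    unfold vec at h
    exact List.map_inj_left.1 h i (List.mem_range.2 hi)
  rw [g.pair_lin a hr, g.pair_lin b hr, g.pair_lin a' hr, g.pair_lin b' hr, ← Finset.sum_add_distrib, ← Finset.sum_add_distrib]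
  apply Finset.sum_congr rfl
  intro i hi
  rw [← mul_add, ← mul_add, h1 i (Finset.mem_range.1 hi)]

/-- vec for an image -/
theorem vec_img {w : List ℕ} (hw : VW T w) {r : ℕ} (hr : r < T.n) :
    T.pair (wact T w d.b1) (wact T w r) + T.pair (wact T w d.b2) (wact T w r) = T.v r d.k := by
  rw [g.pair_wact hw C.b1 hr, g.pair_wact hw C.b2 hr, dual_all g C hr]

theorem wact_rev {w : List ℕ} (hw : VW T w) {r : ℕ} (hr : r < T.n) : wact T w (wact T w.reverse r) = r ∧ wact T w.reverse (wact T w r) = r := by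
  have hV := VW_reverse hw
  have h1 : g.pw (w ++ w.reverse) = g.pw [] := by rw [g.pw_append, g.pw_reverse hw, mul_inv_cancel, g.pw_nil]
  have h2 : g.pw (w.reverse ++ w) = g.pw [] := by rw [g.pw_append, g.pw_reverse hw, inv_mul_cancel, g.pw_nil]
  constructor
  · have := (g.pw_eq_iff (g.VW_append hw hV) (by intro k hk; simp at hk)).1 h1 r hr
    rwa [wact_append, wact_nil] at this
  · have := (g.pw_eq_iff (g.VW_append hV hw) (by intro k hk; simp at hk)).1 h2 r hr
    rwa [wact_append, wact_nil] at this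

/-- coset representatives exist -/
theorem exists_M {w : List ℕ} (hw : VW T w) (hpar : ∀ r < T.n, (T.v (wact T w r) d.k - T.v r d.k) % 2 = 0) :
    ∃ μ ∈ d.M, (g.pw μ)⁻¹ * g.pw w ∈ g.WJ {i | i ∈ d.JL} := by
  have ha := g.wact_lt hw C.b1
  have hb := g.wact_lt hw C.b2
  have hV := VW_reverse hw
  -- the check
  have hvi : ∀ i < T.l, (T.pair (wact T w d.b1) (T.sim i) + T.pair (wact T w d.b2) (T.sim i) - if i = d.k then 1 else 0) % 2 = 0 := by
    intro i hi
    have hs := g.sim_lt hi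
    have hs' := g.wact_lt hV hs
    have e1 := vec_img g C hw hs'
    rw [(wact_rev g C hw hs).1] at e1
    have e2 := hpar _ hs'
    rw [(wact_rev g C hw hs).1, g.v_sim hi C.k0] at e2
    rw [e1]
    by_cases h : i = d.k
    · rw [if_pos h] at e2 ⊢; omega
    · rw [if_neg h] at e2 ⊢; omega
  have hxor : pma T (wact T w d.b1) ^^^ pma T (wact T w d.b2) = pmf (fun i => decide (i = d.k)) T.l := by
    unfold pma
    rw [pmf_xor]
    apply pmf_congr
    intro i hi
    have := hvi i hi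
    by_cases h : i = d.k
    · rw [if_pos h] at this
      rw [decide_eq_true h]
      by_cases h1 : T.pair (wact T w d.b1) (T.sim i) % 2 = 0
      · have h2 : T.pair (wact T w d.b2) (T.sim i) % 2 ≠ 0 := by omega
        simp [h1, h2]
      · have h2 : T.pair (wact T w d.b2) (T.sim i) % 2 = 0 := by omega
        simp [h1, h2]
    · rw [if_neg h] at this
      rw [decide_eq_false h]
      by_cases h1 : T.pair (wact T w d.b1) (T.sim i) % 2 = 0
      · have h2 : T.pair (wact T w d.b2) (T.sim i) % 2 = 0 := by omega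
        simp [h1, h2]
      · have h2 : T.pair (wact T w d.b2) (T.sim i) % 2 ≠ 0 := by omega
        simp [h1, h2]
  have hc := C.P2
  rw [List.all_eq_true] at hc
  have hmem : ∀ a < T.n, (a, pma T a) ∈ d.pt := by
    intro a ha
    rw [C.P1, List.mem_map]
    exact ⟨a, List.mem_range.2 ha, rfl⟩
  have hc1 := hc _ (hmem _ ha)
  rw [List.all_eq_true] at hc1
  have hc2 := hc1 _ (hmem _ hb)
  rw [Bool.or_eq_true, Bool.or_eq_true] at hc2
  rcases hc2 with hc2 | hc2 | hc2
  · rw [Bool.not_eq_true', Bool.eq_false_iff] at hc2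
    exact absurd (by rw [Nat.beq_eq]; exact hxor) hc2
  · rw [Bool.not_eq_true', decide_eq_false_iff_not] at hc2
    exact absurd (g.pair_wact hw C.b1 C.b2) hc2
  · have hΛ := List.contains_iff_mem.1 hc2
    rw [C.L1, List.mem_map] at hΛ
    obtain ⟨μ, hμ, e⟩ := hΛ
    refine ⟨μ, hμ, ?_⟩
    have hVμ : VW T μ := C.M1 μ hμ
    have hVr := VW_reverse hVμ
    have hVw := g.VW_append hVr hw
    rw [← g.pw_reverse hVμ, ← g.pw_append]
    apply J_of_vk g C _ _ rfl hVw
    intro r hr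
    rw [wact_append]
    have hwr := g.wact_lt hw hr
    have h1 := vec_img g C hVμ (g.wact_lt hVr hwr)
    rw [(wact_rev g C hVμ hwr).1] at h1
    rw [← h1, vec_eq_iff g C e hwr, vec_img g C hw hr]

/-- the representatives are distinct -/
theorem M_inj {μ μ' : List ℕ} (hμ : μ ∈ d.M) (hμ' : μ' ∈ d.M) {t t' : List ℕ} (ht : VW T t) (hJ : JW {i | i ∈ d.JL} t)
    (ht' : VW T t') (hJ' : JW {i | i ∈ d.JL} t') (e : g.pw μ * g.pw t = g.pw μ' * g.pw t') : μ = μ' := by
  have hV : VW T μ := C.M1 μ hμ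
  have hV' : VW T μ' := C.M1 μ' hμ'
  rw [← g.pw_append, ← g.pw_append] at e
  have h1 := (g.pw_eq_iff (g.VW_append hV ht) (g.VW_append hV' ht')).1 e
  -- value of vec at a root
  have key : ∀ {μ t : List ℕ}, VW T μ → VW T t → JW {i | i ∈ d.JL} t → ∀ r < T.n,
      T.pair (wact T μ d.b1) (wact T (μ ++ t) r) + T.pair (wact T μ d.b2) (wact T (μ ++ t) r) = T.v r d.k := by
    intro μ t hV ht hJ r hr
    rw [wact_append, vec_img g C hV (g.wact_lt ht hr), vk_J g C ht hJ hr]
  have h2 : vec T (wact T μ d.b1) (wact T μ d.b2) = vec T (wact T μ' d.b1) (wact T μ' d.b2) := by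
    unfold vec
    apply List.map_inj_left.2
    intro i hi
    have hs := g.sim_lt (List.mem_range.1 hi)
    have hVt := g.VW_append hV ht
    have hr := g.wact_lt (VW_reverse hVt) hs
    have a1 := key hV ht hJ _ hr
    have a2 := key hV' ht' hJ' _ hr
    rw [← h1 _ hr] at a2
    rw [(wact_rev g C hVt hs).1] at a1 a2
    rw [a1, a2]
  have h3 := C.L2
  rw [C.L1] at h3
  exact List.inj_on_of_nodup_map h3 hμ hμ' h2

open Classical in
/-- weighted length -/
noncomputable def nt {T : Tb} (k : ℕ) (σ : Equiv.Perm (Fin T.n)) : ℕ :=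
  (Finset.univ.filter fun r : Fin T.n => (T.n / 2 ≤ (r : ℕ) ∧ ((σ r : Fin T.n) : ℕ) < T.n / 2) ∧ T.v r k % 2 = 0).card

open Classical in
theorem nt_mul {μ : List ℕ} (hμ : μ ∈ d.M) {τ : Equiv.Perm (Fin T.n)} (hτ : τ ∈ g.WJ {i | i ∈ d.JL}) :
    nt d.k (g.pw μ * τ) = nt d.k (g.pw μ) + lenP τ := by
  have hev := g.even
  have hV : VW T μ := C.M1 μ hμ
  have hvk : ∀ τ ∈ g.WJ {i | i ∈ d.JL}, ∀ r : Fin T.n, T.v (τ r) d.k = T.v r d.k := by
    intro τ hτ r
    obtain ⟨t, ht, hJ, rfl⟩ := g.mem_WJ.1 hτ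
    rw [g.pw_val ht]
    exact vk_J g C ht hJ r.2
  unfold nt
  rw [← Finset.card_filter_add_card_filter_not (s := Finset.univ.filter fun r : Fin T.n =>
    (T.n / 2 ≤ (r : ℕ) ∧ (((g.pw μ * τ) r : Fin T.n) : ℕ) < T.n / 2) ∧ T.v r d.k % 2 = 0) (fun r : Fin T.n => T.v r d.k = 0), add_comm]
  congr 1
  · refine Finset.card_bij (fun r _ => τ r) ?_ ?_ ?_
    · intro r hr
      simp only [Finset.mem_filter, Finset.mem_univ, true_and] at hr ⊢
      obtain ⟨⟨⟨h1, h2⟩, h3⟩, h4⟩ := hr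
      rw [hvk τ hτ]
      refine ⟨⟨?_, h2⟩, h3⟩
      by_contra hcon
      have h5 := g.v_nonpos (τ r).2 (not_le.1 hcon) C.k0
      rw [hvk τ hτ] at h5
      have h6 := g.v_nonneg r.2 C.k0 h1
      omega
    · intro a _ b _ h; exact τ.injective h
    · intro r hr
      simp only [Finset.mem_filter, Finset.mem_univ, true_and] at hr
      obtain ⟨⟨h1, h2⟩, h3⟩ := hr
      have hv := hvk _ (Subgroup.inv_mem _ hτ) r
      refine ⟨τ⁻¹ r, ?_, perm_self_inv τ r⟩
      have h4 : T.v r d.k ≠ 0 := by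
        intro h4
        have := M_pos g C hμ r.2 h1 h4
        rw [g.pw_val hV] at h2
        omega
      have e7 : (g.pw μ * τ) (τ⁻¹ r) = g.pw μ r := by
        rw [Equiv.Perm.mul_apply, perm_self_inv τ r]
      rw [Finset.mem_filter, Finset.mem_filter, e7, hv]
      refine ⟨⟨Finset.mem_univ _, ⟨?_, h2⟩, h3⟩, h4⟩
      by_contra hcon
      have h5 := g.v_nonpos (τ⁻¹ r).2 (not_le.1 hcon) C.k0
      rw [hv] at h5
      have h6 := g.v_nonneg r.2 C.k0 h1
      omega
  · unfold lenP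
    congr 1
    ext r
    rw [Finset.mem_filter, Finset.mem_filter, Finset.mem_filter, Equiv.Perm.mul_apply]
    constructor
    · rintro ⟨⟨_, ⟨h1, h2⟩, h3⟩, h4⟩
      refine ⟨Finset.mem_univ _, h1, ?_⟩
      by_contra hcon
      have := M_pos g C hμ (τ r).2 (not_lt.1 hcon) (by rw [hvk τ hτ]; exact h4)
      rw [g.pw_val hV] at h2
      omega
    · rintro ⟨_, h1, h2⟩
      have h5 := g.v_nonpos (τ r).2 h2 C.k0
      rw [hvk τ hτ] at h5
      have h6 := g.v_nonneg r.2 C.k0 h1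
      have h7 : T.v r d.k = 0 := by omega
      refine ⟨⟨Finset.mem_univ _, ⟨h1, ?_⟩, by rw [h7]; rfl⟩, h7⟩
      rw [g.pw_val hV]
      exact M_neg g C hμ (τ r).2 h2 (by rw [hvk τ hτ]; exact h7)

open Classical in
theorem sum_CW (x : ℤ) :
    ∑ σ ∈ Finset.univ.filter (fun σ : Equiv.Perm (Fin T.n) => σ ∈ g.WJ Set.univ ∧ ∀ r : Fin T.n, (T.v (σ r) d.k - T.v r d.k) % 2 = 0),
      x ^ nt d.k σ = (d.M.map fun μ => x ^ nt d.k (g.pw μ)).sum * g.Wq {i | i ∈ d.JL} x := by
  have hMn : d.M.Nodup := List.Nodup.of_map _ (by rw [← C.L1]; exact C.L2)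
  rw [← List.sum_toFinset _ hMn]
  unfold Wq
  rw [Finset.sum_mul_sum, ← Finset.sum_product']
  symm
  refine Finset.sum_nbij (fun p => g.pw p.1 * p.2) ?_ ?_ ?_ ?_
  · rintro ⟨μ, τ⟩ hp
    simp only [Finset.mem_product, List.mem_toFinset, Finset.mem_filter, Finset.mem_univ, true_and] at hp ⊢
    obtain ⟨hμ, hτ⟩ := hp
    have hV : VW T μ := C.M1 μ hμ
    obtain ⟨t, ht, hJ, rfl⟩ := g.mem_WJ.1 hτ
    rw [← g.pw_append]
    refine ⟨g.mem_WJ.2 ⟨_, g.VW_append hV ht, fun _ _ => Set.mem_univ _, rfl⟩, ?_⟩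
    intro r
    rw [g.pw_val (g.VW_append hV ht), wact_append]
    have h1 := M_par g C hμ (g.wact_lt ht r.2)
    rw [vk_J g C ht hJ r.2] at h1
    exact h1
  · rintro ⟨μ, τ⟩ hp ⟨μ', τ'⟩ hp' he
    simp only [Finset.coe_product, Set.mem_prod, Finset.mem_coe, List.mem_toFinset, Finset.mem_filter, Finset.mem_univ, true_and] at hp hp'
    obtain ⟨t, ht, hJ, rfl⟩ := g.mem_WJ.1 hp.2
    obtain ⟨t', ht', hJ', rfl⟩ := g.mem_WJ.1 hp'.2
    simp only at he
    have h1 := M_inj g C hp.1 hp'.1 ht hJ ht' hJ' he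
    subst h1
    rw [mul_left_cancel he]
  · intro σ hσ
    simp only [Finset.coe_filter, Finset.mem_univ, true_and, Set.mem_setOf_eq] at hσ
    obtain ⟨hσ1, hσ2⟩ := hσ
    obtain ⟨w, hw, _, rfl⟩ := g.mem_WJ.1 hσ1
    obtain ⟨μ, hμ, h⟩ := exists_M g C hw (by
      intro r hr
      have := hσ2 ⟨r, hr⟩
      rw [g.pw_val hw] at this
      exact this)
    refine ⟨(μ, (g.pw μ)⁻¹ * g.pw w), ?_, ?_⟩
    · simp only [Finset.coe_product, Set.mem_prod, Finset.mem_coe, List.mem_toFinset, Finset.mem_filter, Finset.mem_univ, true_and]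
      exact ⟨hμ, h⟩
    · simp only
      group
  · rintro ⟨μ, τ⟩ hp
    simp only [Finset.mem_product, List.mem_toFinset, Finset.mem_filter, Finset.mem_univ, true_and] at hp
    simp only
    rw [nt_mul g C hp.1 hp.2, pow_add]

end

end CfsgLib.OI
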