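import Cfsg.Agent.LibMaxTv29b

/-! Symplectic transvections for an arbitrary symplectic form given as a function; generation and transitivity. -/

namespace CfsgLib.SympTv29

open scoped MatrixGroups Matrix
open Cfsg CfsgLib.MaxTv29

variable {ι : Type} [Fintype ι] [DecidableEq ι] {F : Type*} [Field F]
variable {f : (ι → F) → (ι → F) → F}

/-- functional `x ↦ f x v` -/
def fd (hf : Geo.IsSymplecticForm f) (v : ι → F) : Module.Dual F (ι → F) where
  toFun := fun x => f x v
  map_add' := fun x y => hf.bilinear.add_left x y v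
  map_smul' := fun c x => hf.bilinear.smul_left c x v

theorem fd_apply (hf : Geo.IsSymplecticForm f) (v x : ι → F) : fd hf v x = f x v := rfl

theorem zero_left (hf : Geo.IsSymplecticForm f) (v : ι → F) : f 0 v = 0 := map_zero (fd hf v)

theorem zero_right (hf : Geo.IsSymplecticForm f) (v : ι → F) : f v 0 = 0 := by
  rw [hf.skew, zero_left hf, neg_zero]

theorem neg_left (hf : Geo.IsSymplecticForm f) (x v : ι → F) : f (-x) v = - f x v := map_neg (fd hf v) x

theorem neg_right (hf : Geo.IsSymplecticForm f) (x v : ι → F) : f x (-v) = - f x v := by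
  rw [hf.skew, neg_left hf, hf.skew v x, neg_neg]

theorem sub_left (hf : Geo.IsSymplecticForm f) (x y v : ι → F) : f (x - y) v = f x v - f y v := map_sub (fd hf v) x y

theorem sub_right (hf : Geo.IsSymplecticForm f) (v x y : ι → F) : f v (x - y) = f v x - f v y := by
  rw [sub_eq_add_neg, hf.bilinear.add_right, neg_right hf, sub_eq_add_neg]

theorem swap_ne (hf : Geo.IsSymplecticForm f) {x y : ι → F} (h : f x y ≠ 0) : f y x ≠ 0 := by
  rw [hf.skew]; exact neg_ne_zero.mpr h

theorem swap_eq (hf : Geo.IsSymplecticForm f) {x y : ι → F} (h : f x y = 0) : f y x = 0 := by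
  rw [hf.skew, h, neg_zero]

/-- every functional is of the form `f · z` -/
theorem riesz (hf : Geo.IsSymplecticForm f) (φ : Module.Dual F (ι → F)) : ∃ z, ∀ x, φ x = f x z := by
  let R : (ι → F) →ₗ[F] Module.Dual F (ι → F) :=
    { toFun := fd hf
      map_add' := fun a b => LinearMap.ext fun x => hf.bilinear.add_right x a b
      map_smul' := fun c a => LinearMap.ext fun x => hf.bilinear.smul_right c x a }
  have hinj : Function.Injective R := by
    rw [← LinearMap.ker_eq_bot, eq_bot_iff]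
    intro z hz
    rw [Submodule.mem_bot]
    by_contra hz0
    obtain ⟨⟨x, hx⟩, _⟩ := hf.nondegenerate z hz0
    have : R z = 0 := hz
    exact hx (congrArg (fun ψ : Module.Dual F (ι → F) => ψ x) this)
  have hsurj : Function.Surjective R :=
    (LinearMap.injective_iff_surjective_of_finrank_eq_finrank (Subspace.dual_finrank_eq).symm).mp hinj
  obtain ⟨z, hz⟩ := hsurj φ
  exact ⟨z, fun x => (congrArg (fun ψ : Module.Dual F (ι → F) => ψ x) hz).symm⟩

/-- separation: a vector outside `W` is detected by a vector of the perp of `W`. -/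
theorem exists_perp (hf : Geo.IsSymplecticForm f) (W : Submodule F (ι → F)) (x : ι → F) (hx : x ∉ W) :
    ∃ z, f x z = 1 ∧ ∀ w ∈ W, f w z = 0 := by
  obtain ⟨φ, h1, h2⟩ := exists_functional W x hx
  obtain ⟨z, hz⟩ := riesz hf φ
  exact ⟨z, by rw [← hz, h1], fun w hw => by rw [← hz, h2 w hw]⟩

/-- symplectic transvection -/
def st (hf : Geo.IsSymplecticForm f) (v : ι → F) (c : F) : GL ι F :=
  tv v (c • fd hf v) (by rw [LinearMap.smul_apply, fd_apply, hf.alternating, smul_zero])

theorem st_mulVec (hf : Geo.IsSymplecticForm f) (v : ι → F) (c : F) (x : ι → F) :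
    ((st hf v c : GL ι F) : Matrix ι ι F) *ᵥ x = x + (c * f x v) • v := by
  rw [st, tv_mulVec]; rfl

/-- isometry group -/
abbrev iso (f : (ι → F) → (ι → F) → F) : Subgroup (GL ι F) := preserving (glToMat ι F) f

omit [DecidableEq ι] in
theorem mem_iso [DecidableEq ι] (g : GL ι F) : g ∈ iso f ↔ ∀ u v, f ((g : Matrix ι ι F) *ᵥ u) ((g : Matrix ι ι F) *ᵥ v) = f u v := Iff.rfl

theorem st_mem_iso (hf : Geo.IsSymplecticForm f) (v : ι → F) (c : F) : st hf v c ∈ iso f := by
  rw [mem_iso]
  intro x y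
  simp only [st_mulVec, hf.bilinear.add_left, hf.bilinear.add_right, hf.bilinear.smul_left, hf.bilinear.smul_right, hf.alternating]
  rw [hf.skew v y]
  ring

theorem st_fix (hf : Geo.IsSymplecticForm f) (v : ι → F) (c : F) (x : ι → F) (h : f x v = 0) :
    ((st hf v c : GL ι F) : Matrix ι ι F) *ᵥ x = x := by
  rw [st_mulVec, h, mul_zero, zero_smul, add_zero]

theorem st_move (hf : Geo.IsSymplecticForm f) (u v : ι → F) (h : f u v ≠ 0) :
    ((st hf (v - u) (f u v)⁻¹ : GL ι F) : Matrix ι ι F) *ᵥ u = v := by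
  rw [st_mulVec, sub_right hf, hf.alternating, sub_zero, inv_mul_cancel₀ h, one_smul, add_sub_cancel]

theorem st_conj (hf : Geo.IsSymplecticForm f) (g : GL ι F) (hg : g ∈ iso f) (v : ι → F) (c : F) :
    g * st hf v c * g⁻¹ = st hf ((g : Matrix ι ι F) *ᵥ v) c := by
  apply gl_ext
  intro x
  rw [st_mulVec, Units.val_mul, Units.val_mul, ← Matrix.mulVec_mulVec, ← Matrix.mulVec_mulVec, st_mulVec,
    Matrix.mulVec_add, Matrix.mulVec_smul, mulVec_inv_mulVec]
  congr 3
  rw [← (mem_iso g).mp hg, mulVec_inv_mulVec]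

/-- choice of a vector avoiding two hyperplanes -/
theorem exists_avoid (Z : Submodule F (ι → F)) (α β : Module.Dual F (ι → F)) (h1 : ∃ z ∈ Z, α z ≠ 0) (h2 : ∃ z ∈ Z, β z ≠ 0) :
    ∃ z ∈ Z, α z ≠ 0 ∧ β z ≠ 0 := by
  obtain ⟨z1, hz1, ha1⟩ := h1
  obtain ⟨z2, hz2, hb2⟩ := h2
  by_cases hb1 : β z1 = 0
  · by_cases ha2 : α z2 = 0
    · exact ⟨z1 + z2, Z.add_mem hz1 hz2, by rw [map_add, ha2, add_zero]; exact ha1, by rw [map_add, hb1, zero_add]; exact hb2⟩
    · exact ⟨z2, hz2, ha2, hb2⟩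
  · exact ⟨z1, hz1, ha1, hb1⟩

theorem exists_both (hf : Geo.IsSymplecticForm f) {u v : ι → F} (hu : u ≠ 0) (hv : v ≠ 0) : ∃ w, f u w ≠ 0 ∧ f v w ≠ 0 := by
  obtain ⟨w, _, h1, h2⟩ := exists_avoid ⊤ (fd hf u) (fd hf v) (by
    obtain ⟨⟨x, hx⟩, _⟩ := hf.nondegenerate u hu
    exact ⟨x, trivial, hx⟩) (by
    obtain ⟨⟨x, hx⟩, _⟩ := hf.nondegenerate v hv
    exact ⟨x, trivial, hx⟩)
  exact ⟨w, swap_ne hf h1, swap_ne hf h2⟩

theorem exists_move (hf : Geo.IsSymplecticForm f) (M : Subgroup (GL ι F)) (hM : ∀ v c, st hf v c ∈ M)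
    {u v : ι → F} (hu : u ≠ 0) (hv : v ≠ 0) : ∃ g ∈ M, (g : Matrix ι ι F) *ᵥ u = v := by
  obtain ⟨w, h1, h2⟩ := exists_both hf hu hv
  refine ⟨st hf (v - w) (f w v)⁻¹ * st hf (w - u) (f u w)⁻¹, M.mul_mem (hM _ _) (hM _ _), ?_⟩
  rw [Units.val_mul, ← Matrix.mulVec_mulVec, st_move hf u w h1, st_move hf w v (swap_ne hf h2)]

/-- fixed space -/
def fixsp (g : GL ι F) : Submodule F (ι → F) where
  carrier := {x | (g : Matrix ι ι F) *ᵥ x = x}
  add_mem' := by
    intro a b ha hb
    change (g : Matrix ι ι F) *ᵥ (a + b) = a + b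
    rw [Matrix.mulVec_add, ha, hb]
  zero_mem' := Matrix.mulVec_zero _
  smul_mem' := by
    intro c a ha
    change (g : Matrix ι ι F) *ᵥ (c • a) = c • a
    rw [Matrix.mulVec_smul, ha]

theorem mem_fixsp (g : GL ι F) (x : ι → F) : x ∈ fixsp g ↔ (g : Matrix ι ι F) *ᵥ x = x := Iff.rfl

theorem exists_reduce (hf : Geo.IsSymplecticForm f) (M : Subgroup (GL ι F)) (hM : ∀ v c, st hf v c ∈ M)
    (g : GL ι F) (hg : g ∈ iso f) (x : ι → F) (hx : x ∉ fixsp g) :
    ∃ t ∈ M, t ∈ iso f ∧ (t : Matrix ι ι F) *ᵥ x = (g : Matrix ι ι F) *ᵥ x ∧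
      ∀ y ∈ fixsp g, (t : Matrix ι ι F) *ᵥ y = y := by
  have hfix : ∀ y ∈ fixsp g, f y ((g : Matrix ι ι F) *ᵥ x) = f y x := by
    intro y hy
    conv_lhs => rw [← (mem_fixsp g y).mp hy]
    exact (mem_iso g).mp hg y x
  by_cases h : f x ((g : Matrix ι ι F) *ᵥ x) = 0
  · have hgx : (g : Matrix ι ι F) *ᵥ x ∉ fixsp g := by
      intro hcon
      exact hx (mulVec_injective g hcon)
    obtain ⟨z1, hz1, hz1'⟩ := exists_perp hf (fixsp g) x hx
    obtain ⟨z2, hz2, hz2'⟩ := exists_perp hf (fixsp g) _ hgx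
    let P : Submodule F (ι → F) :=
      { carrier := {z | ∀ w ∈ fixsp g, f w z = 0}
        add_mem' := by
          intro a b ha hb w hw
          rw [hf.bilinear.add_right, ha w hw, hb w hw, add_zero]
        zero_mem' := fun w _ => zero_right hf w
        smul_mem' := by
          intro c a ha w hw
          rw [hf.bilinear.smul_right, ha w hw, mul_zero] }
    obtain ⟨z, hzP, hza, hzb⟩ := exists_avoid P (fd hf x) (fd hf ((g : Matrix ι ι F) *ᵥ x))
      ⟨z1, hz1', by rw [fd_apply]; exact swap_ne hf (by rw [hz1]; exact one_ne_zero)⟩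
      ⟨z2, hz2', by rw [fd_apply]; exact swap_ne hf (by rw [hz2]; exact one_ne_zero)⟩
    rw [fd_apply] at hza hzb
    set w := x + z with hw
    have h1 : f x w ≠ 0 := by
      rw [hw, hf.bilinear.add_right, hf.alternating, zero_add]; exact swap_ne hf hza
    have h2 : f w ((g : Matrix ι ι F) *ᵥ x) ≠ 0 := by
      rw [hw, hf.bilinear.add_left, h, zero_add]; exact hzb
    refine ⟨st hf ((g : Matrix ι ι F) *ᵥ x - w) (f w ((g : Matrix ι ι F) *ᵥ x))⁻¹ * st hf (w - x) (f x w)⁻¹,
      M.mul_mem (hM _ _) (hM _ _), (iso f).mul_mem (st_mem_iso hf _ _) (st_mem_iso hf _ _), ?_, ?_⟩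
    · rw [Units.val_mul, ← Matrix.mulVec_mulVec, st_move hf x w h1, st_move hf w _ h2]
    · intro y hy
      have hyz : f y z = 0 := hzP y hy
      rw [Units.val_mul, ← Matrix.mulVec_mulVec, st_fix hf (w - x) _ y, st_fix]
      · rw [sub_right hf, hfix y hy, hw, hf.bilinear.add_right, hyz, add_zero, sub_self]
      · rw [hw, add_sub_cancel_left, hyz]
  · refine ⟨st hf ((g : Matrix ι ι F) *ᵥ x - x) (f x ((g : Matrix ι ι F) *ᵥ x))⁻¹, hM _ _, st_mem_iso hf _ _, st_move hf _ _ h, ?_⟩
    intro y hy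
    apply st_fix
    rw [sub_right hf, hfix y hy, sub_self]

/-- the isometry group is generated by transvections -/
theorem iso_le (hf : Geo.IsSymplecticForm f) (M : Subgroup (GL ι F)) (hM : ∀ v c, st hf v c ∈ M) : iso f ≤ M := by
  have key : ∀ d : ℕ, ∀ g : GL ι F, g ∈ iso f → Module.finrank F (ι → F) - Module.finrank F (fixsp g) ≤ d → g ∈ M := by
    intro d
    induction d with
    | zero =>
      intro g _ hd
      have h1 : fixsp g = ⊤ := by
        apply Submodule.eq_top_of_finrank_eq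
        have := Submodule.finrank_le (fixsp g)
        omega
      have h2 : g = 1 := by
        apply gl_ext
        intro x
        have : x ∈ fixsp g := h1 ▸ Submodule.mem_top
        rw [(mem_fixsp g x).mp this, Units.val_one, Matrix.one_mulVec]
      rw [h2]; exact M.one_mem
    | succ d ih =>
      intro g hg hd
      by_cases htop : fixsp g = ⊤
      · apply ih g hg
        rw [htop, finrank_top]; omega
      obtain ⟨x, hx⟩ : ∃ x, x ∉ fixsp g := by
        by_contra hcon
        push Not at hcon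
        exact htop (eq_top_iff.mpr fun x _ => hcon x)
      obtain ⟨t, htM, hti, htx, hty⟩ := exists_reduce hf M hM g hg x hx
      have hinv : ∀ y, (t : Matrix ι ι F) *ᵥ y = (g : Matrix ι ι F) *ᵥ y → ((t⁻¹ * g : GL ι F) : Matrix ι ι F) *ᵥ y = y := by
        intro y hy
        rw [Units.val_mul, ← Matrix.mulVec_mulVec, ← hy, inv_mulVec_mulVec]
      have h1 : fixsp g < fixsp (t⁻¹ * g) := by
        refine lt_of_le_of_ne ?_ ?_
        · intro y hy
          exact hinv y (by rw [hty y hy, (mem_fixsp g y).mp hy])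
        · intro heq
          apply hx
          rw [heq]
          exact hinv x htx
      have h2 := Submodule.finrank_lt_finrank_of_lt h1
      have h3 : t⁻¹ * g ∈ M := by
        apply ih _ ((iso f).mul_mem ((iso f).inv_mem hti) hg)
        omega
      have h4 : g = t * (t⁻¹ * g) := by group
      rw [h4]; exact M.mul_mem htM h3
  intro g hg
  exact key _ g hg le_rfl

end CfsgLib.SympTv29
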