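import Cfsg.Agent.LibH22Exist
import Cfsg.Agent.LibH22Fam
import Cfsg.Agent.LibMaxTv29b
import Cfsg.Agent.LibSympTv29

set_option autoImplicit false

/-! The group `Ω` as a matrix group generated by Eichler transformations. -/

namespace CfsgLib.OM29

open scoped MatrixGroups Matrix
open Cfsg CfsgLib.MaxTv29 Cfsg.Agent.H22 Module

variable {ι : Type} [Fintype ι] [DecidableEq ι] {F : Type*} [Field F] {Q : QuadraticForm F (ι → F)}

local notation "B" => QuadraticMap.polar Q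

open Classical in
/-- Eichler transformation as a matrix -/
noncomputable def EM (Q : QuadraticForm F (ι → F)) (v w : ι → F) : GL ι F :=
  if h : Q v = 0 ∧ QuadraticMap.polar Q v w = 0 then glLin.symm (eich Q v w h.1 h.2) else 1

theorem EM_eq {v w : ι → F} (hv : Q v = 0) (hw : B v w = 0) : EM Q v w = glLin.symm (eich Q v w hv hw) := by
  unfold EM
  rw [dif_pos ⟨hv, hw⟩]

theorem EM_mulVec {v w : ι → F} (hv : Q v = 0) (hw : B v w = 0) (x : ι → F) :
    ((EM Q v w : GL ι F) : Matrix ι ι F) *ᵥ x = x + B v x • w - B w x • v - (Q w * B v x) • v := by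
  rw [EM_eq hv hw, glLin_symm_mulVec, eich_apply]

theorem mem_isoQ (g : GL ι F) : g ∈ Cfsg.isometryGroup F ⇑Q ↔ ∀ x, Q ((g : Matrix ι ι F) *ᵥ x) = Q x := mem_isometryGroup Q

theorem isoQ_polar {g : GL ι F} (hg : g ∈ Cfsg.isometryGroup F ⇑Q) (x y : ι → F) :
    B ((g : Matrix ι ι F) *ᵥ x) ((g : Matrix ι ι F) *ᵥ y) = B x y := by
  unfold QuadraticMap.polar
  rw [← Matrix.mulVec_add, (mem_isoQ g).mp hg, (mem_isoQ g).mp hg, (mem_isoQ g).mp hg]

theorem EM_iso (v w : ι → F) : EM Q v w ∈ Cfsg.isometryGroup F ⇑Q := by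
  by_cases h : Q v = 0 ∧ B v w = 0
  · rw [EM_eq h.1 h.2, mem_isometryGroup_iff, MulEquiv.apply_symm_apply]
    exact eich_mem Q v w h.1 h.2
  · unfold EM
    rw [dif_neg h]; exact one_mem _

theorem EM_conj {g : GL ι F} (hg : g ∈ Cfsg.isometryGroup F ⇑Q) {v w : ι → F} (hv : Q v = 0) (hw : B v w = 0) :
    g * EM Q v w * g⁻¹ = EM Q ((g : Matrix ι ι F) *ᵥ v) ((g : Matrix ι ι F) *ᵥ w) := by
  apply gl_ext
  intro x
  rw [EM_mulVec (by rw [(mem_isoQ g).mp hg]; exact hv) (by rw [isoQ_polar hg]; exact hw), Units.val_mul, Units.val_mul, ← Matrix.mulVec_mulVec, ← Matrix.mulVec_mulVec, EM_mulVec hv hw]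
  simp only [Matrix.mulVec_add, Matrix.mulVec_sub, Matrix.mulVec_smul, mulVec_inv_mulVec]
  have e1 : ∀ z, B z (((g⁻¹ : GL ι F) : Matrix ι ι F) *ᵥ x) = B ((g : Matrix ι ι F) *ᵥ z) x := by
    intro z
    rw [← isoQ_polar hg, mulVec_inv_mulVec]
  rw [e1, e1, (mem_isoQ g).mp hg]

/-- `Ω` is generated by the Eichler transformations -/
theorem omegaGL_eq (hQ : (QuadraticMap.polarBilin Q).Nondegenerate) {e f e' f' u : ι → F} (hs : HS Q e f e' f' u) (h5 : 5 ≤ finrank F (ι → F)) :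
    Geo.omegaGL ⇑Q = Subgroup.closure {g | ∃ v w, Q v = 0 ∧ B v w = 0 ∧ g = EM Q v w} := by
  have h1 := hs.commutator_eq hQ (Or.inr (by omega))
  have h2 : (commutator (Cfsg.isometryGroup F ⇑Q)).map (oIso Q).toMonoidHom = EG Q := by
    rw [← h1, commutator_def, commutator_def, Subgroup.map_commutator]
    congr 1 <;> exact Subgroup.map_top_of_surjective _ (oIso Q).surjective
  have h3 : commutator (Cfsg.isometryGroup F ⇑Q) = (EG Q).map (oIso Q).symm.toMonoidHom := by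
    rw [← h2, Subgroup.map_map]
    have : (oIso Q).symm.toMonoidHom.comp (oIso Q).toMonoidHom = MonoidHom.id _ := by
      ext x; simp
    rw [this, Subgroup.map_id]
  unfold Geo.omegaGL Cfsg.Omega
  rw [h3, Subgroup.map_map]
  unfold EG
  rw [MonoidHom.map_closure]
  congr 1
  ext g
  constructor
  · rintro ⟨_, ⟨v, w, hv, hw, rfl⟩, rfl⟩
    exact ⟨v, w, hv, hw, (EM_eq hv hw).symm⟩
  · rintro ⟨v, w, hv, hw, rfl⟩
    exact ⟨_, ⟨v, w, hv, hw, rfl⟩, (EM_eq hv hw).symm⟩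

theorem omegaGL_le_iff (hQ : (QuadraticMap.polarBilin Q).Nondegenerate) {e f e' f' u : ι → F} (hs : HS Q e f e' f' u) (h5 : 5 ≤ finrank F (ι → F)) (M : Subgroup (GL ι F)) :
    Geo.omegaGL ⇑Q ≤ M ↔ ∀ v w, Q v = 0 → B v w = 0 → EM Q v w ∈ M := by
  rw [omegaGL_eq hQ hs h5, Subgroup.closure_le]
  constructor
  · intro h v w hv hw
    exact h ⟨v, w, hv, hw, rfl⟩
  · rintro h _ ⟨v, w, hv, hw, rfl⟩
    exact h v w hv hw

theorem EM_omega (hQ : (QuadraticMap.polarBilin Q).Nondegenerate) {e f e' f' u : ι → F} (hs : HS Q e f e' f' u) (h5 : 5 ≤ finrank F (ι → F)) {v w : ι → F} (hv : Q v = 0) (hw : B v w = 0) :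
    EM Q v w ∈ Geo.omegaGL ⇑Q := (omegaGL_le_iff hQ hs h5 _).mp le_rfl v w hv hw

theorem omegaGL_le_iso : Geo.omegaGL ⇑Q ≤ Cfsg.isometryGroup F ⇑Q := by
  unfold Geo.omegaGL
  rw [Subgroup.map_le_iff_le_comap]
  intro g _
  exact g.2

/-- all Eichler transformations at `v` belong to `M` -/
def Full (Q : QuadraticForm F (ι → F)) (M : Subgroup (GL ι F)) (v : ι → F) : Prop := Q v = 0 ∧ ∀ w, QuadraticMap.polar Q v w = 0 → EM Q v w ∈ M

theorem Full.conj {M : Subgroup (GL ι F)} {v : ι → F} (h : Full Q M v) {g : GL ι F} (hg : g ∈ M) (hgi : g ∈ Cfsg.isometryGroup F ⇑Q) :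
    Full Q M ((g : Matrix ι ι F) *ᵥ v) := by
  refine ⟨by rw [(mem_isoQ g).mp hgi]; exact h.1, fun w hw => ?_⟩
  have h1 : B v (((g⁻¹ : GL ι F) : Matrix ι ι F) *ᵥ w) = 0 := by rw [← isoQ_polar hgi, mulVec_inv_mulVec]; exact hw
  have h2 := EM_conj hgi h.1 h1
  rw [mulVec_inv_mulVec] at h2
  rw [← h2]
  exact M.mul_mem (M.mul_mem hg (h.2 _ h1)) (M.inv_mem hg)

theorem EM_smul_left {v w : ι → F} (hv : Q v = 0) (hw : B v w = 0) (a : F) : EM Q (a • v) w = EM Q v (a • w) := by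
  apply gl_ext
  intro x
  rw [EM_mulVec (by rw [qsmul, hv, mul_zero]) (by rw [QuadraticMap.polar_smul_left, hw, smul_zero]), EM_mulVec hv (by rw [QuadraticMap.polar_smul_right, hw, smul_zero])]
  simp only [QuadraticMap.polar_smul_left, qsmul, smul_eq_mul]
  module

theorem Full.smul {M : Subgroup (GL ι F)} {v : ι → F} (h : Full Q M v) (a : F) : Full Q M (a • v) := by
  refine ⟨by rw [qsmul, h.1, mul_zero], fun w hw => ?_⟩
  by_cases ha : a = 0
  · subst ha
    have : EM Q ((0 : F) • v) w = 1 := by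
      apply gl_ext
      intro x
      rw [EM_mulVec (by rw [qsmul, h.1, mul_zero]) (by rw [zero_smul, QuadraticMap.polar_zero_left])]
      simp
    rw [this]; exact M.one_mem
  · have hw' : B v w = 0 := by
      rw [QuadraticMap.polar_smul_left, smul_eq_mul] at hw
      exact (mul_eq_zero.mp hw).resolve_left ha
    rw [EM_smul_left h.1 hw']
    exact h.2 _ (by rw [QuadraticMap.polar_smul_right, hw', smul_zero])

theorem Full.of_smul {M : Subgroup (GL ι F)} {v : ι → F} {k : F} (hk : k ≠ 0) (h : Full Q M (k • v)) : Full Q M v := by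
  have := h.smul k⁻¹
  rwa [smul_smul, inv_mul_cancel₀ hk, one_smul] at this

theorem full_top (hQ : (QuadraticMap.polarBilin Q).Nondegenerate) {e f e' f' u : ι → F} (hs : HS Q e f e' f' u) (h5 : 5 ≤ finrank F (ι → F)) (M : Subgroup (GL ι F))
    (h : ∀ v, Q v = 0 → Full Q M v) : Geo.omegaGL ⇑Q ≤ M :=
  (omegaGL_le_iff hQ hs h5 M).mpr fun v w hv hw => (h v hv).2 w hw

end CfsgLib.OM29
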