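import Cfsg.Agent.LibOM29a

set_option autoImplicit false

/-! Stabilizers of totally singular subspaces in `Ω`. -/

namespace CfsgLib.OM29

open scoped MatrixGroups Matrix
open Cfsg CfsgLib.MaxTv29 Cfsg.Agent.H22 Module

variable {ι : Type} [Fintype ι] [DecidableEq ι] {F : Type*} [Field F] {Q : QuadraticForm F (ι → F)}

local notation "B" => QuadraticMap.polar Q

theorem bsymm (x y : ι → F) : B x y = B y x := QuadraticMap.polar_comm Q x y

theorem bself {v : ι → F} (hv : Q v = 0) : B v v = 0 := by rw [pself, hv, mul_zero]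

theorem ts_le {C : Submodule F (ι → F)} (h : ∀ x ∈ C, Q x = 0) : C ≤ orth Q C := fun _ hx => mem_orth.mpr fun _ hw => polar_ts h hw hx

theorem ts_finrank (hQ : (QuadraticMap.polarBilin Q).Nondegenerate) {C : Submodule F (ι → F)} (h : ∀ x ∈ C, Q x = 0) : 2 * finrank F C ≤ finrank F (ι → F) := by
  have h1 := finrank_orth hQ C
  have h2 := Submodule.finrank_mono (ts_le h)
  omega

theorem exists_nonsing (hQ : (QuadraticMap.polarBilin Q).Nondegenerate) (Z : Submodule F (ι → F)) (h : 2 * finrank F Z < finrank F (ι → F)) : ∃ w ∈ orth Q Z, Q w ≠ 0 := by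
  by_contra hcon
  push Not at hcon
  have h1 := ts_finrank hQ hcon
  have h2 := finrank_orth hQ Z
  omega

theorem orth_func (hQ : (QuadraticMap.polarBilin Q).Nondegenerate) (Z : Submodule F (ι → F)) (x : ι → F) (hx : x ∉ Z) : ∃ s ∈ orth Q Z, B x s ≠ 0 :=
  exists_functional_ne_zero (QuadraticMap.polarBilin Q) polar_isSymm.isRefl hQ Z x hx

theorem fr_pair (x y : ι → F) : finrank F (Submodule.span F {x, y}) ≤ 2 := by
  have h1 : Submodule.span F ({x, y} : Set (ι → F)) = Submodule.span F {x} ⊔ Submodule.span F {y} := by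
    rw [← Submodule.span_union]; rfl
  have h2 := Submodule.finrank_add_le_finrank_add_finrank (Submodule.span F {x}) (Submodule.span F {y})
  have h3 : ∀ z : ι → F, finrank F (Submodule.span F ({z} : Set (ι → F))) ≤ 1 := by
    intro z
    by_cases hz : z = 0
    · rw [hz, Submodule.span_zero_singleton, finrank_bot]; omega
    · rw [finrank_span_singleton hz]
  rw [h1]
  have := h3 x
  have := h3 y
  omega

theorem mem_orth_span {x y : ι → F} : y ∈ orth Q (Submodule.span F {x}) ↔ B x y = 0 := by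
  rw [mem_orth]
  constructor
  · intro h; exact h x (Submodule.mem_span_singleton_self x)
  · intro h w hw
    obtain ⟨k, rfl⟩ := Submodule.mem_span_singleton.mp hw
    rw [QuadraticMap.polar_smul_left, h, smul_zero]

/-- **Stabilizers of totally singular subspaces** -/
theorem singular_maximal [Finite F] (hQ : (QuadraticMap.polarBilin Q).Nondegenerate) (h5 : 5 ≤ finrank F (ι → F)) (W : Submodule F (ι → F)) (hW0 : W ≠ ⊥)
    (hW : ∀ w ∈ W, Q w = 0) (hk : ∀ u, Q u = 0 → u ∉ W → (∀ w ∈ W, B w u = 0) → 2 * (finrank F W + 1) ≠ finrank F (ι → F)) :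
    Geo.IsMaximalIn (Geo.omegaGL ⇑Q) (Geo.subspaceStabilizer W ⊓ Geo.omegaGL ⇑Q) := by
  haveI : Fintype F := Fintype.ofFinite F
  obtain ⟨e, f, e', f', u', hs⟩ := exists_HS hQ h5
  obtain ⟨w0, hw0, hw0'⟩ := Submodule.exists_mem_ne_zero_of_ne_bot hW0
  have hWp : ∀ x ∈ W, ∀ y ∈ W, B x y = 0 := fun x hx y hy => polar_ts hW hx hy
  refine ⟨lt_of_le_of_ne inf_le_right ?_, fun M hHM hMS => ?_⟩
  · intro heq
    obtain ⟨y, hy⟩ := exists_HP_of_singular hQ w0 hw0' (hW w0 hw0)
    have hy2 : Q y = 0 := hy.2.1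
    have hy1 : B w0 y = 1 := hy.2.2
    obtain ⟨w, hw, hQw⟩ := exists_nonsing hQ (Submodule.span F {y}) (by
      rw [finrank_span_singleton (by rintro rfl; rw [QuadraticMap.polar_zero_right] at hy1; exact zero_ne_one hy1)]; omega)
    have hyw : B y w = 0 := mem_orth_span.mp hw
    have h1 : EM Q y w ∈ Geo.subspaceStabilizer W ⊓ Geo.omegaGL ⇑Q := by
      rw [heq]; exact EM_omega hQ hs h5 hy2 hyw
    have h2 := (mem_stab _ _).mp h1.1 w0 hw0
    rw [EM_mulVec hy2 hyw] at h2
    have h3 := hWp w0 hw0 _ h2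
    simp only [QuadraticMap.polar_add_right, QuadraticMap.polar_sub_right, QuadraticMap.polar_smul_right, smul_eq_mul, bself (hW w0 hw0), bsymm y w0, bsymm w w0, hy1] at h3
    apply hQw
    linear_combination -h3
  by_cases hMH : M = Geo.subspaceStabilizer W ⊓ Geo.omegaGL ⇑Q
  · exact Or.inl hMH
  right
  apply le_antisymm hMS
  obtain ⟨g, hgM, hg⟩ : ∃ g ∈ M, g ∉ Geo.subspaceStabilizer W := by
    by_contra hcon
    push Not at hcon
    exact hMH (le_antisymm (le_inf hcon hMS) hHM)
  have hMi : ∀ g ∈ M, g ∈ Cfsg.isometryGroup F ⇑Q := fun g hg => omegaGL_le_iso (hMS hg)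
  have hWfull : ∀ v ∈ W, Full Q M v := by
    intro v hv
    refine ⟨hW v hv, fun w hw => hHM ⟨(mem_stab _ _).mpr fun x hx => ?_, EM_omega hQ hs h5 (hW v hv) hw⟩⟩
    rw [EM_mulVec (hW v hv) hw, hWp v hv x hx, zero_smul, mul_zero, zero_smul, add_zero, sub_zero]
    exact W.sub_mem hx (W.smul_mem _ hv)
  have hWW : ∀ v w, Q v = 0 → B v w = 0 → (∀ x ∈ W, B x v = 0) → (∀ x ∈ W, B x w = 0) → EM Q v w ∈ M := by
    intro v w hv hvw h1 h2
    refine hHM ⟨(mem_stab _ _).mpr fun x hx => ?_, EM_omega hQ hs h5 hv hvw⟩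
    rw [EM_mulVec hv hvw, bsymm v x, h1 x hx, bsymm w x, h2 x hx]
    simpa using hx
  -- a full vector outside `W^⊥`
  obtain ⟨v, hvF, w1, hw1, hw1v⟩ : ∃ v, Full Q M v ∧ ∃ w ∈ W, B v w ≠ 0 := by
    rw [mem_stab] at hg
    push Not at hg
    obtain ⟨w, hw, hgw⟩ := hg
    have huF := (hWfull w hw).conj hgM (hMi g hgM)
    set u := (g : Matrix ι ι F) *ᵥ w with hu
    have hu0 : Q u = 0 := huF.1
    by_cases hup : ∃ a ∈ W, B u a ≠ 0
    · exact ⟨u, huF, hup⟩
    push Not at hup
    have hup' : ∀ a ∈ W, B a u = 0 := fun a ha => by rw [bsymm]; exact hup a ha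
    obtain ⟨v, hv1, hv2, hv3⟩ := exists_partner hQ W u hgw hup' hu0
    -- non-singular vector
    obtain ⟨z, hzW, hzu, hzv, hz⟩ : ∃ z, (∀ a ∈ W, B a z = 0) ∧ B u z = 0 ∧ B v z = 0 ∧ Q z ≠ 0 := by
      by_contra hcon
      push Not at hcon
      set C := orth Q (W ⊔ Submodule.span F {u, v}) with hC
      have hC0 : ∀ x ∈ C, Q x = 0 := by
        intro x hx
        rw [hC, mem_orth] at hx
        exact hcon x (fun a ha => hx a (Submodule.mem_sup_left ha)) (hx u (Submodule.mem_sup_right (Submodule.subset_span (by simp))))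
          (hx v (Submodule.mem_sup_right (Submodule.subset_span (by simp))))
      have huC : u ∉ C := by
        intro h
        rw [hC, mem_orth] at h
        have := h v (Submodule.mem_sup_right (Submodule.subset_span (by simp)))
        rw [bsymm, hv2] at this
        exact one_ne_zero this
      have hCu : ∀ x ∈ C, B u x = 0 := by
        intro x hx
        rw [hC, mem_orth] at hx
        exact hx u (Submodule.mem_sup_right (Submodule.subset_span (by simp)))
      have hext : ∀ D : Submodule F (ι → F), (∀ x ∈ D, Q x = 0) → u ∉ D → (∀ x ∈ D, B u x = 0) → 2 * (finrank F D + 1) ≤ finrank F (ι → F) := by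
        intro D hD huD hDu
        have h1 : ∀ x ∈ D ⊔ Submodule.span F {u}, Q x = 0 := by
          intro x hx
          obtain ⟨d, hd, y, hy, rfl⟩ := Submodule.mem_sup.mp hx
          obtain ⟨k, rfl⟩ := Submodule.mem_span_singleton.mp hy
          rw [qadd, hD d hd, qsmul, hu0, QuadraticMap.polar_smul_right, bsymm, hDu d hd]; simp
        have h2 := ts_finrank hQ h1
        have h3 := Submodule.finrank_sup_add_finrank_inf_eq D (Submodule.span F {u})
        have h4 : D ⊓ Submodule.span F {u} = ⊥ := by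
          rw [eq_bot_iff]
          rintro x ⟨hxD, hx⟩
          obtain ⟨k, rfl⟩ := Submodule.mem_span_singleton.mp hx
          by_cases hk0 : k = 0
          · rw [hk0, zero_smul]; exact Submodule.zero_mem _
          · exact absurd ((D.smul_mem_iff hk0).mp hxD) huD
        have hu0' : u ≠ 0 := by
          rintro h
          exact huD (by rw [h]; exact D.zero_mem)
        rw [h4, finrank_bot, finrank_span_singleton hu0'] at h3
        omega
      have e1 := hext C hC0 huC hCu
      have e2 := hext W hW hgw hup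
      have e3 := finrank_orth hQ (W ⊔ Submodule.span F {u, v})
      have e4 := Submodule.finrank_add_le_finrank_add_finrank W (Submodule.span F {u, v})
      have e5 : finrank F (Submodule.span F ({u, v} : Set (ι → F))) ≤ 2 := fr_pair u v
      rw [← hC] at e3
      exact hk u hu0 hgw hup' (by omega)
    have hEM : EM Q v z ∈ M := hWW v z hv3 hzv hv1 hzW
    have hu2 := huF.conj hEM (EM_iso v z)
    rw [EM_mulVec hv3 hzv, bsymm v u, hv2, bsymm z u, hzu] at hu2
    set u2 := u + (1 : F) • z - (0 : F) • v - (Q z * 1) • v with hu2d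
    have huu2 : B u u2 = - Q z := by
      rw [hu2d]
      simp only [QuadraticMap.polar_add_right, QuadraticMap.polar_sub_right, QuadraticMap.polar_smul_right, smul_eq_mul, bself hu0, hzu, hv2]; ring
    have hWu2 : ∀ a ∈ W, B a u2 = 0 := by
      intro a ha
      rw [hu2d]
      simp only [QuadraticMap.polar_add_right, QuadraticMap.polar_sub_right, QuadraticMap.polar_smul_right, smul_eq_mul, hup' a ha, hzW a ha, hv1 a ha]; ring
    clear_value u2
    -- `w'`
    have hw0u : w0 ∉ Submodule.span F {u} := by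
      intro h
      obtain ⟨k, hk'⟩ := Submodule.mem_span_singleton.mp h
      have hk0 : k ≠ 0 := by rintro rfl; exact hw0' (by rw [← hk', zero_smul])
      apply hgw
      rw [← hk'] at hw0
      exact (W.smul_mem_iff hk0).mp hw0
    obtain ⟨w', hw', hw0w'⟩ := orth_func hQ (Submodule.span F {u}) w0 hw0u
    have huw' : B u w' = 0 := mem_orth_span.mp hw'
    have h3 := hu2.conj (huF.2 w' huw') (EM_iso u w')
    refine ⟨_, h3, w0, hw0, ?_⟩
    rw [bsymm, EM_mulVec hu0 huw']
    simp only [QuadraticMap.polar_add_right, QuadraticMap.polar_sub_right, QuadraticMap.polar_smul_right, smul_eq_mul, hWu2 w0 hw0, hup' w0 hw0, huu2]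
    intro h4
    apply mul_ne_zero hz hw0w'
    linear_combination -h4
  -- everything outside `W^⊥`
  have hout : ∀ x, Q x = 0 → (∃ a ∈ W, B x a ≠ 0) → Full Q M x := by
    intro x hx hxW
    obtain ⟨a, haW, ha1, ha2⟩ := CfsgLib.SympTv29.exists_avoid W (QuadraticMap.polarBilin Q v) (QuadraticMap.polarBilin Q x) ⟨w1, hw1, hw1v⟩ hxW
    have ha1' : B v a ≠ 0 := ha1
    have ha2' : B x a ≠ 0 := ha2
    have haa := hW a haW
    set k := B x a * (B v a)⁻¹ with hk'
    set v' := k • v with hv'
    have hv'a : B v' a = B x a := by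
      rw [hv', QuadraticMap.polar_smul_left, smul_eq_mul, hk', inv_mul_cancel_right₀ ha1']
    have hv'F : Full Q M v' := hvF.smul k
    set b := (B x a)⁻¹ • (x - v') with hb
    have hba : B b a = 0 := by
      rw [hb, QuadraticMap.polar_smul_left, QuadraticMap.polar_sub_left, hv'a, sub_self, smul_zero]
    have hab : B a b = 0 := by rw [bsymm]; exact hba
    have h1 := hv'F.conj ((hWfull a haW).2 b hab) (EM_iso a b)
    rw [EM_mulVec haa hab, bsymm a v', hv'a] at h1
    have e1 : v' + B x a • b = x := by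
      rw [hb, smul_smul, mul_inv_cancel₀ ha2', one_smul, add_sub_cancel]
    rw [e1] at h1
    have e2 : x - B b v' • a - (Q b * B x a) • a = x + (-(B b v' + Q b * B x a)) • a := by module
    rw [e2] at h1
    obtain ⟨d, hd⟩ : ∃ d, d = -(B b v' + Q b * B x a) := ⟨_, rfl⟩
    rw [← hd] at h1
    have h2 := h1.1
    rw [qadd, qsmul, hx, haa, QuadraticMap.polar_smul_right, smul_eq_mul, mul_zero, add_zero, zero_add] at h2
    rw [(mul_eq_zero.mp h2).resolve_right ha2', zero_smul, add_zero] at h1
    exact h1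
  apply full_top hQ hs h5
  intro x hx
  by_cases hxp : ∃ a ∈ W, B x a ≠ 0
  · exact hout x hx hxp
  push Not at hxp
  by_cases hxW : x ∈ W
  · exact hWfull x hxW
  have hw0x : w0 ∉ Submodule.span F {x} := by
    intro h
    obtain ⟨k, hk'⟩ := Submodule.mem_span_singleton.mp h
    have hk0 : k ≠ 0 := by rintro rfl; exact hw0' (by rw [← hk', zero_smul])
    apply hxW
    rw [← hk'] at hw0
    exact (W.smul_mem_iff hk0).mp hw0
  obtain ⟨y, hy1, hy2, hy3⟩ := exists_partner hQ (Submodule.span F {x}) w0 hw0x (by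
    intro z hz
    obtain ⟨k, rfl⟩ := Submodule.mem_span_singleton.mp hz
    rw [QuadraticMap.polar_smul_left, hxp w0 hw0, smul_zero]) (hW w0 hw0)
  have hxy : B x y = 0 := hy1 x (Submodule.mem_span_singleton_self x)
  have hw0x' : B w0 x = 0 := by rw [bsymm]; exact hxp w0 hw0
  have hxy' : x ∉ Submodule.span F {y} := by
    intro h
    obtain ⟨k, hk'⟩ := Submodule.mem_span_singleton.mp h
    rw [← hk', QuadraticMap.polar_smul_right, hy2, smul_eq_mul, mul_one] at hw0x'
    apply hxW
    rw [← hk', hw0x', zero_smul]; exact W.zero_mem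
  obtain ⟨w, hw, hxw⟩ := orth_func hQ (Submodule.span F {y}) x hxy'
  have hyw : B y w = 0 := mem_orth_span.mp hw
  have hyF := hout y hy3 ⟨w0, hw0, by rw [bsymm, hy2]; exact one_ne_zero⟩
  have hz : Full Q M (((EM Q y w : GL ι F) : Matrix ι ι F) *ᵥ x) := by
    apply hout
    · rw [(mem_isoQ _).mp (EM_iso y w)]; exact hx
    · refine ⟨w0, hw0, ?_⟩
      rw [bsymm, EM_mulVec hy3 hyw]
      simp only [QuadraticMap.polar_add_right, QuadraticMap.polar_sub_right, QuadraticMap.polar_smul_right, smul_eq_mul, hw0x', bsymm y x, hxy, hy2]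
      intro h4
      apply hxw
      rw [bsymm]
      linear_combination -h4
  have h1 := hz.conj (M.inv_mem (hyF.2 w hyw)) ((Cfsg.isometryGroup F ⇑Q).inv_mem (EM_iso y w))
  rwa [inv_mulVec_mulVec] at h1

end CfsgLib.OM29
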