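import Cfsg.Agent.LibOM29c

set_option autoImplicit false

/-! Singular vectors in subspaces; irreducibility of non-degenerate subspaces. -/

namespace CfsgLib.OM29

open scoped MatrixGroups Matrix
open Cfsg CfsgLib.MaxTv29 Cfsg.Agent.H22 Module

section
variable {F V : Type*} [Field F] [Finite F] [AddCommGroup V] [Module F V] [FiniteDimensional F V]

/-- any quadratic form in at least three variables has a non-trivial zero -/
theorem exists_singular_any (Q : QuadraticForm F V) (h : 3 ≤ finrank F V) : ∃ v : V, v ≠ 0 ∧ Q v = 0 := by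
  haveI : Fintype F := Fintype.ofFinite F
  by_cases hQ : ∀ x : V, (∀ y, QuadraticMap.polar Q x y = 0) → x = 0
  · exact exists_singular (nondeg_of_left Q hQ) h
  push Not at hQ
  obtain ⟨r, hr, hr0⟩ := hQ
  by_cases hQr : Q r = 0
  · exact ⟨r, hr0, hQr⟩
  have h2 : (2 : F) = 0 := by
    have := hr r
    rw [pself] at this
    exact (mul_eq_zero.mp this).resolve_right hQr
  haveI : CharP F 2 := CharTwo.of_one_ne_zero_of_two_eq_zero one_ne_zero h2
  obtain ⟨s, hs⟩ : ∃ s : V, s ∉ Submodule.span F {r} := by
    by_contra hcon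
    push Not at hcon
    have h1 : (⊤ : Submodule F V) ≤ Submodule.span F {r} := fun x _ => hcon x
    have h3 := Submodule.finrank_mono h1
    rw [finrank_top, finrank_span_singleton hr0] at h3
    omega
  obtain ⟨c, hc⟩ : ∃ c : F, c ^ 2 = Q s / Q r := by
    have hsurj : Function.Surjective (frobenius F 2) := (frobenius_inj F 2).surjective_of_finite (Equiv.refl F)
    obtain ⟨c, hc⟩ := hsurj (Q s / Q r)
    exact ⟨c, hc⟩
  refine ⟨s + c • r, ?_, ?_⟩
  · intro h
    apply hs
    have : s = (-c) • r := by rw [neg_smul]; exact eq_neg_of_add_eq_zero_left h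
    rw [this]
    exact Submodule.smul_mem _ _ (Submodule.mem_span_singleton_self r)
  · rw [qadd, qsmul, QuadraticMap.polar_smul_right, QuadraticMap.polar_comm, hr, smul_zero, add_zero, ← sq, hc, div_mul_cancel₀ _ hQr, ← two_mul, h2, zero_mul]

theorem exists_singular_avoid (Q : QuadraticForm F V) (Z A : Submodule F V) (h : finrank F A + 3 ≤ finrank F Z) : ∃ x ∈ Z, Q x = 0 ∧ x ∉ A := by
  obtain ⟨C, hC⟩ := Submodule.exists_isCompl (A.comap Z.subtype)
  have h1 := Submodule.finrank_add_eq_of_isCompl hC
  have h2 : finrank F (A.comap Z.subtype) ≤ finrank F A := by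
    have : (A.comap Z.subtype).map Z.subtype ≤ A := Submodule.map_comap_le _ _
    have h3 := Submodule.finrank_mono this
    rwa [← (Submodule.equivMapOfInjective Z.subtype Z.injective_subtype (A.comap Z.subtype)).finrank_eq] at h3
  obtain ⟨v, hv0, hv⟩ := exists_singular_any (Q.comp (Z.subtype.comp C.subtype)) (by omega)
  refine ⟨(v : Z), (v : Z).2, hv, fun h3 => ?_⟩
  apply hv0
  have h4 : (v : Z) ∈ (A.comap Z.subtype) ⊓ C := ⟨h3, v.2⟩
  rw [hC.inf_eq_bot] at h4
  exact Subtype.ext ((Submodule.mem_bot F).mp h4)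

end

theorem sq_eq_one_iff_of_side {F : Type*} [Field F] (t : F) (h : t ^ 2 = 1) : t = 1 ∨ t = -1 := by
  have : (t - 1) * (t + 1) = 0 := by linear_combination h
  rcases mul_eq_zero.mp this with h | h
  · exact Or.inl (sub_eq_zero.mp h)
  · exact Or.inr (eq_neg_of_add_eq_zero_left h)

section
variable {ι : Type} [Fintype ι] [DecidableEq ι] {F : Type*} [Field F] {Q : QuadraticForm F (ι → F)}

local notation "B" => QuadraticMap.polar Q

/-- a subspace with a singular vector outside its radical is spanned by singular vectors -/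
theorem rich_of {Y : Submodule F (ι → F)} {e : ι → F} (he : e ∈ Y) (hQe : Q e = 0) {z : ι → F} (hz : z ∈ Y) (hez : B e z ≠ 0)
    (A : Submodule F (ι → F)) (hA : ∀ y ∈ Y, Q y = 0 → y ∈ A) : Y ≤ A := by
  have h1 : ∀ y ∈ Y, B e y ≠ 0 → y ∈ A := by
    intro y hy hey
    have h2 : Q (y + (-(Q y / B e y)) • e) = 0 := by
      rw [qadd, qsmul, hQe, QuadraticMap.polar_smul_right, bsymm y e, smul_eq_mul]
      have h3 : Q y / B e y * B e y = Q y := div_mul_cancel₀ _ hey
      linear_combination -h3
    have h3 := hA _ (Y.add_mem hy (Y.smul_mem _ he)) h2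
    have h5 := A.sub_mem h3 (A.smul_mem (-(Q y / B e y)) (hA e he hQe))
    rwa [add_sub_cancel_right] at h5
  intro y hy
  by_cases hey : B e y = 0
  · have h2 := h1 (y + z) (Y.add_mem hy hz) (by rw [QuadraticMap.polar_add_right, hey, zero_add]; exact hez)
    have h5 := A.sub_mem h2 (h1 z hz hez)
    rwa [add_sub_cancel_right] at h5
  · exact h1 y hy hey

/-- nondegeneracy on a subspace -/
def ND (Q : QuadraticForm F (ι → F)) (W : Submodule F (ι → F)) : Prop := ∀ w ∈ W, (∀ x ∈ W, QuadraticMap.polar Q w x = 0) → w = 0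

variable {W : Submodule F (ι → F)}

theorem ND.inf (h : ND Q W) {x : ι → F} (hx : x ∈ W) (hx' : x ∈ orth Q W) : x = 0 := h x hx fun y hy => by rw [bsymm]; exact mem_orth.mp hx' y hy

theorem orth_orth (hQ : (QuadraticMap.polarBilin Q).Nondegenerate) (W : Submodule F (ι → F)) : orth Q (orth Q W) = W := by
  apply le_antisymm
  · intro x hx
    by_contra hne
    obtain ⟨s, hs, hs'⟩ := orth_func hQ W x hne
    rw [bsymm] at hs'
    exact hs' (mem_orth.mp hx s hs)
  · intro x hx
    rw [mem_orth]
    intro w hw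
    rw [bsymm]; exact mem_orth.mp hw x hx

theorem ND.finrank_inf (hQ : (QuadraticMap.polarBilin Q).Nondegenerate) (hW : ND Q W) {A : Submodule F (ι → F)} (hA : A ≤ W) :
    finrank F (orth Q A ⊓ W : Submodule F (ι → F)) + finrank F A = finrank F W := by
  have h1 := finrank_orth hQ (A ⊔ orth Q W)
  rw [orth_sup, orth_orth hQ] at h1
  have h2 := Submodule.finrank_sup_add_finrank_inf_eq A (orth Q W)
  have h3 : A ⊓ orth Q W = ⊥ := by
    rw [eq_bot_iff]
    rintro x ⟨hx1, hx2⟩
    exact (Submodule.mem_bot F).mpr (ND.inf hW (hA hx1) hx2)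
  rw [h3, finrank_bot] at h2
  have h4 := finrank_orth hQ W
  omega

theorem ND.orth_nd (hQ : (QuadraticMap.polarBilin Q).Nondegenerate) (hW : ND Q W) : ND Q (orth Q W) := by
  intro w hw h
  have h1 : w ∈ orth Q (orth Q W) := mem_orth.mpr fun x hx => by rw [bsymm]; exact h x hx
  rw [orth_orth hQ] at h1
  exact ND.inf hW h1 hw

theorem ND.decomp (hQ : (QuadraticMap.polarBilin Q).Nondegenerate) (hW : ND Q W) (x : ι → F) : ∃ a ∈ W, ∃ b ∈ orth Q W, x = a + b := by
  have h1 : W ⊔ orth Q W = ⊤ := by
    apply Submodule.eq_top_of_finrank_eq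
    have h2 := Submodule.finrank_sup_add_finrank_inf_eq W (orth Q W)
    have h3 : W ⊓ orth Q W = ⊥ := by
      rw [eq_bot_iff]
      rintro x ⟨hx1, hx2⟩
      exact (Submodule.mem_bot F).mpr (ND.inf hW hx1 hx2)
    rw [h3, finrank_bot] at h2
    have h4 := finrank_orth hQ W
    omega
  have : x ∈ W ⊔ orth Q W := by rw [h1]; exact Submodule.mem_top
  obtain ⟨a, ha, b, hb, h⟩ := Submodule.mem_sup.mp this
  exact ⟨a, ha, b, hb, h.symm⟩

/-- **irreducibility** -/
theorem irr [Finite F] (hQ : (QuadraticMap.polarBilin Q).Nondegenerate) (hW : ND Q W) (A : Submodule F (ι → F)) (hAW : A ≤ W) (hA0 : A ≠ ⊥)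
    (hA1 : ∀ c ∈ W, Q c ≠ 0 → c ∈ A ∨ ∀ a ∈ A, B a c = 0)
    (hA2 : ∀ v ∈ W, ∀ w ∈ W, Q v = 0 → Q w = 0 → B v w = 0 → ∀ a ∈ A, a + B v a • w - B w a • v ∈ A)
    (hex : ¬ (Nat.card F ≤ 3 ∧ finrank F W = 2 ∧ Geo.IsPlusTypeOn ⇑Q W)) : A = W := by
  by_contra hne
  set A' := orth Q A ⊓ W with hA'
  have hfr : finrank F A' + finrank F A = finrank F W := hW.finrank_inf hQ hAW
  have hlt : finrank F A < finrank F W := by
    by_contra hcon
    exact hne (Submodule.eq_of_le_of_finrank_eq hAW (le_antisymm (Submodule.finrank_mono hAW) (not_lt.mp hcon)))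
  have mA' : ∀ x, x ∈ A' ↔ x ∈ W ∧ ∀ a ∈ A, B a x = 0 := fun x => ⟨fun h => ⟨h.2, mem_orth.mp h.1⟩, fun h => ⟨mem_orth.mpr h.2, h.1⟩⟩
  have hsing : ∀ w ∈ W, w ∉ A → w ∉ A' → Q w = 0 := by
    intro w hw h1 h2
    by_contra h3
    rcases hA1 w hw h3 with h | h
    · exact h1 h
    · exact h2 ((mA' w).mpr ⟨hw, h⟩)
  -- the number of elements of `F`
  have hcard : (∀ t : F, t ≠ 0 → t = 1) → Nat.card F ≤ 3 := by
    intro h
    haveI : Fintype F := Fintype.ofFinite F
    classical
    rw [Nat.card_eq_fintype_card, ← Finset.card_univ]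
    have : (Finset.univ : Finset F) ⊆ {0, 1} := by
      intro t _
      rw [Finset.mem_insert, Finset.mem_singleton]
      by_cases h0 : t = 0
      · exact Or.inl h0
      · exact Or.inr (h t h0)
    exact (Finset.card_le_card this).trans (Finset.card_le_two.trans (by norm_num))
  have hcard' : (∀ t : F, t ≠ 0 → t ^ 2 = 1) → Nat.card F ≤ 3 := by
    intro h
    haveI : Fintype F := Fintype.ofFinite F
    classical
    rw [Nat.card_eq_fintype_card, ← Finset.card_univ]
    have : (Finset.univ : Finset F) ⊆ {0, 1, -1} := by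
      intro t _
      rw [Finset.mem_insert, Finset.mem_insert, Finset.mem_singleton]
      by_cases h0 : t = 0
      · exact Or.inl h0
      · exact Or.inr (sq_eq_one_iff_of_side t (h t h0))
    exact (Finset.card_le_card this).trans Finset.card_le_three
  by_cases hR : ∃ r, r ≠ 0 ∧ r ∈ A ∧ r ∈ A'
  · obtain ⟨r, hr0, hrA, hrA'⟩ := hR
    obtain ⟨w, hw, hrw⟩ : ∃ w ∈ W, B r w ≠ 0 := by
      by_contra hcon
      push Not at hcon
      exact hr0 (hW r (hAW hrA) hcon)
    have hout : ∀ w ∈ W, B r w ≠ 0 → Q w = 0 := by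
      intro w hw h
      apply hsing w hw
      · intro h1
        apply h
        rw [bsymm]
        exact ((mA' r).mp hrA').2 w h1
      · intro h1
        exact h (((mA' w).mp h1).2 r hrA)
    have hrel : ∀ s ∈ W, B r s = 0 → ∀ w ∈ W, B r w ≠ 0 → Q s + B s w = 0 := by
      intro s hs hrs w hw hrw
      have h1 := hout w hw hrw
      have h2 := hout (s + w) (W.add_mem hs hw) (by rw [QuadraticMap.polar_add_right, hrs, zero_add]; exact hrw)
      rw [qadd, h1] at h2
      linear_combination h2
    have hrr : B r r = 0 := ((mA' r).mp hrA').2 r hrA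
    have hsA : ∀ s, (s ∈ A ∨ s ∈ A') → s ∈ W ∧ B r s = 0 := by
      rintro s (h | h)
      · exact ⟨hAW h, by rw [bsymm]; exact ((mA' r).mp hrA').2 s h⟩
      · exact ⟨((mA' s).mp h).1, ((mA' s).mp h).2 r hrA⟩
    -- scaling
    have hq : ∀ t : F, t ≠ 0 → t = 1 := by
      intro t ht
      have h1 := hrel r (hAW hrA) hrr w hw hrw
      have h2 := hrel r (hAW hrA) hrr (t • w) (W.smul_mem t hw) (by rw [QuadraticMap.polar_smul_right, smul_eq_mul]; exact mul_ne_zero ht hrw)
      rw [QuadraticMap.polar_smul_right, smul_eq_mul] at h2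
      have h3 : (t - 1) * B r w = 0 := by linear_combination h2 - h1
      exact sub_eq_zero.mp ((mul_eq_zero.mp h3).resolve_right hrw)
    -- `A` and `A'` are contained in the span of `r`
    have hspan : ∀ s, (s ∈ A ∨ s ∈ A') → s ∈ Submodule.span F {r} := by
      intro s hs
      obtain ⟨hsW, hrs⟩ := hsA s hs
      have h1 : ∀ w' ∈ W, B r w' = 0 → B s w' = 0 := by
        intro w' hw' hrw'
        have h2 := hrel s hsW hrs w hw hrw
        have h3 := hrel s hsW hrs (w + w') (W.add_mem hw hw') (by rw [QuadraticMap.polar_add_right, hrw', add_zero]; exact hrw)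
        rw [QuadraticMap.polar_add_right] at h3
        linear_combination h3 - h2
      by_contra hcon
      have h2 : s ∉ orth Q W ⊔ Submodule.span F {r} := by
        intro h3
        obtain ⟨a, ha, b, hb, he⟩ := Submodule.mem_sup.mp h3
        have hbW : b ∈ W := by
          obtain ⟨k, rfl⟩ := Submodule.mem_span_singleton.mp hb
          exact W.smul_mem k (hAW hrA)
        have haW : a ∈ W := by
          have : a = s - b := by rw [← he]; abel
          rw [this]; exact W.sub_mem hsW hbW
        rw [ND.inf hW haW ha, zero_add] at he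
        exact hcon (he ▸ hb)
      obtain ⟨t, ht, hst⟩ := orth_func hQ _ s h2
      rw [orth_sup, orth_orth hQ] at ht
      exact hst (h1 t ht.1 (mem_orth_span.mp ht.2))
    have hA1' : finrank F A ≤ 1 := by
      have := Submodule.finrank_mono (show A ≤ Submodule.span F {r} from fun s hs => hspan s (Or.inl hs))
      rwa [finrank_span_singleton hr0] at this
    have hA2' : finrank F A' ≤ 1 := by
      have := Submodule.finrank_mono (show A' ≤ Submodule.span F {r} from fun s hs => hspan s (Or.inr hs))
      rwa [finrank_span_singleton hr0] at this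
    have hrw' : w ∉ Submodule.span F {r} := by
      intro h
      obtain ⟨k, rfl⟩ := Submodule.mem_span_singleton.mp h
      rw [QuadraticMap.polar_smul_right, hrr, smul_zero] at hrw
      exact hrw rfl
    have hW2 : finrank F W = 2 := by
      have h1 : Submodule.span F {r} < W := by
        refine lt_of_le_of_ne ?_ ?_
        · rw [Submodule.span_singleton_le_iff_mem]; exact hAW hrA
        · intro h
          exact hrw' (h ▸ hw)
      have h2 := Submodule.finrank_lt_finrank_of_lt h1
      rw [finrank_span_singleton hr0] at h2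
      omega
    apply hex
    refine ⟨hcard hq, hW2, Submodule.span F {w}, ?_, ?_, ?_⟩
    · rw [Submodule.span_singleton_le_iff_mem]; exact hw
    · intro x hx
      obtain ⟨k, rfl⟩ := Submodule.mem_span_singleton.mp hx
      rw [qsmul, hout w hw hrw, mul_zero]
    · rw [finrank_span_singleton (by rintro rfl; exact hrw (QuadraticMap.polar_zero_right Q r)), hW2]
  · push Not at hR
    have hdisj : ∀ x ∈ A, x ∈ A' → x = 0 := by
      intro x h1 h2
      by_contra h3
      exact hR x h3 h1 h2
    have hkey : ∀ u ∈ A, ∀ v ∈ A', u ≠ 0 → v ≠ 0 → ∀ t : F, t ≠ 0 → Q u + t ^ 2 * Q v = 0 := by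
      intro u hu v hv hu0 hv0 t ht
      have htv : t • v ∈ A' := A'.smul_mem t hv
      have htv0 : t • v ≠ 0 := smul_ne_zero ht hv0
      have h1 := hsing (u + t • v) (W.add_mem (hAW hu) ((mA' _).mp htv).1)
        (fun h => htv0 (hdisj _ ((A.add_mem_iff_right hu).mp h) htv)) (fun h => hu0 (hdisj _ hu ((A'.add_mem_iff_left htv).mp h)))
      rw [qadd, qsmul, QuadraticMap.polar_smul_right, ((mA' v).mp hv).2 u hu, smul_zero, add_zero, ← sq] at h1
      exact h1
    obtain ⟨u0, hu0A, hu00⟩ := Submodule.exists_mem_ne_zero_of_ne_bot hA0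
    have hA'0 : A' ≠ ⊥ := by
      intro h
      rw [h, finrank_bot] at hfr
      omega
    obtain ⟨v0, hv0A, hv00⟩ := Submodule.exists_mem_ne_zero_of_ne_bot hA'0
    -- a non-singular vector in `A`
    obtain ⟨u, huA, hQu⟩ : ∃ u ∈ A, Q u ≠ 0 := by
      by_contra hcon
      push Not at hcon
      exact hu00 (hdisj u0 hu0A ((mA' u0).mpr ⟨hAW hu0A, fun a ha => polar_ts hcon ha hu0A⟩))
    have hu0 : u ≠ 0 := by rintro rfl; exact hQu (QuadraticMap.map_zero Q)
    have hQv : ∀ v ∈ A', v ≠ 0 → Q v = - Q u := by
      intro v hv hv0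
      have := hkey u huA v hv hu0 hv0 1 one_ne_zero
      linear_combination this
    have hQa : ∀ a ∈ A, a ≠ 0 → Q a = Q u := by
      intro a ha ha0
      have h1 := hkey a ha v0 hv0A ha0 hv00 1 one_ne_zero
      rw [hQv v0 hv0A hv00] at h1
      linear_combination h1
    have hq3 := hcard' (fun t ht => by
      have h1 := hkey u huA v0 hv0A hu0 hv00 t ht
      rw [hQv v0 hv0A hv00] at h1
      have h2 : (t ^ 2 - 1) * Q u = 0 := by linear_combination -h1
      exact sub_eq_zero.mp ((mul_eq_zero.mp h2).resolve_right hQu))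
    by_cases h2 : (2 : F) = 0
    · -- characteristic two
      have hself : ∀ x, B x x = 0 := fun x => by rw [pself, h2, zero_mul]
      obtain ⟨u2, hu2, huu2⟩ : ∃ u2 ∈ A, B u u2 ≠ 0 := by
        by_contra hcon
        push Not at hcon
        exact hu0 (hdisj u huA ((mA' u).mpr ⟨hAW huA, fun a ha => by rw [bsymm]; exact hcon a ha⟩))
      obtain ⟨v2, hv2, hvv2⟩ : ∃ v2 ∈ A', B v0 v2 ≠ 0 := by
        by_contra hcon
        push Not at hcon
        apply hv00
        apply hW v0 ((mA' v0).mp hv0A).1
        intro x hx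
        -- `W = A + A'`
        have hsum : A ⊔ A' = W := by
          apply Submodule.eq_of_le_of_finrank_eq (sup_le hAW (fun x hx => ((mA' x).mp hx).1))
          have h3 := Submodule.finrank_sup_add_finrank_inf_eq A A'
          have h4 : A ⊓ A' = ⊥ := by
            rw [eq_bot_iff]
            rintro x ⟨hx1, hx2⟩
            exact (Submodule.mem_bot F).mpr (hdisj x hx1 hx2)
          rw [h4, finrank_bot] at h3
          omega
        rw [← hsum] at hx
        obtain ⟨a, ha, b, hb, rfl⟩ := Submodule.mem_sup.mp hx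
        rw [QuadraticMap.polar_add_right, hcon b hb, add_zero, bsymm]
        exact ((mA' v0).mp hv0A).2 a ha
      -- the polar values are `-Q u`
      have hu20 : u2 ≠ 0 := by rintro rfl; exact huu2 (QuadraticMap.polar_zero_right Q u)
      have hv20 : v2 ≠ 0 := by rintro rfl; exact hvv2 (QuadraticMap.polar_zero_right Q v0)
      have huu2' : u + u2 ≠ 0 := by
        intro h
        apply huu2
        have : u2 = -u := (neg_eq_of_add_eq_zero_right h).symm
        rw [this, QuadraticMap.polar_neg_right, hself, neg_zero]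
      have hvv2' : v0 + v2 ≠ 0 := by
        intro h
        apply hvv2
        have : v2 = -v0 := (neg_eq_of_add_eq_zero_right h).symm
        rw [this, QuadraticMap.polar_neg_right, hself, neg_zero]
      have e1 : B u u2 = -Q u := by
        have := qadd (Q := Q) u u2
        rw [hQa _ (A.add_mem huA hu2) huu2', hQa u2 hu2 hu20] at this
        linear_combination -this
      have e2 : B v0 v2 = Q u := by
        have := qadd (Q := Q) v0 v2
        rw [hQv _ (A'.add_mem hv0A hv2) hvv2', hQv v0 hv0A hv00, hQv v2 hv2 hv20] at this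
        linear_combination -this
      have o : ∀ a ∈ A, ∀ b ∈ A', B a b = 0 := fun a ha b hb => ((mA' b).mp hb).2 a ha
      have o' : ∀ a ∈ A, ∀ b ∈ A', B b a = 0 := fun a ha b hb => by rw [bsymm]; exact o a ha b hb
      have hv0W := ((mA' v0).mp hv0A).1
      have hv2W := ((mA' v2).mp hv2).1
      have h3 := hA2 (u + v0) (W.add_mem (hAW huA) hv0W) (u2 + v2) (W.add_mem (hAW hu2) hv2W)
        (by rw [qadd, o u huA v0 hv0A, hQv v0 hv0A hv00]; ring) (by rw [qadd, o u2 hu2 v2 hv2, hQa u2 hu2 hu20, hQv v2 hv2 hv20]; ring)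
        (by rw [QuadraticMap.polar_add_left, QuadraticMap.polar_add_right, QuadraticMap.polar_add_right, o u huA v2 hv2, o' u2 hu2 v0 hv0A, e1, e2]; ring) u huA
      rw [QuadraticMap.polar_add_left, QuadraticMap.polar_add_left, hself, o' u huA v0 hv0A, o' u huA v2 hv2, bsymm u2 u, e1, add_zero, zero_smul, add_zero, add_zero] at h3
      have h4 : v0 ∈ A := by
        have h5 := A.sub_mem h3 huA
        have h6 : u - -Q u • (u + v0) - u = Q u • (u + v0) := by module
        rw [h6] at h5
        have h7 := (A.smul_mem_iff hQu).mp h5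
        exact (A.add_mem_iff_right huA).mp h7
      exact hv00 (hdisj v0 h4 hv0A)
    · -- odd characteristic
      have hpar : ∀ C : Submodule F (ι → F), ∀ k : F, k ≠ 0 → (∀ x ∈ C, x ≠ 0 → Q x = k) → finrank F C ≤ 1 := by
        intro C k hk hC
        by_contra hcon
        obtain ⟨x, hx, hx0⟩ : ∃ x ∈ C, x ≠ 0 := by
          apply Submodule.exists_mem_ne_zero_of_ne_bot
          rintro h
          rw [h, finrank_bot] at hcon
          omega
        obtain ⟨y, hy, hyx⟩ : ∃ y ∈ C, y ∉ Submodule.span F {x} := by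
          by_contra hcon2
          push Not at hcon2
          have := Submodule.finrank_mono (show C ≤ Submodule.span F {x} from hcon2)
          rw [finrank_span_singleton hx0] at this
          exact hcon this
        have h1 : x + y ≠ 0 := by
          intro h
          apply hyx
          have : y = -x := (neg_eq_of_add_eq_zero_right h).symm
          rw [this]
          exact Submodule.neg_mem _ (Submodule.mem_span_singleton_self x)
        have h3 : x - y ≠ 0 := by
          intro h
          apply hyx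
          rw [← sub_eq_zero.mp h]
          exact Submodule.mem_span_singleton_self x
        have hy0 : y ≠ 0 := by rintro rfl; exact hyx (Submodule.zero_mem _)
        have e1 := hC _ (C.add_mem hx hy) h1
        have e2 := hC _ (C.sub_mem hx hy) h3
        rw [qadd, hC x hx hx0, hC y hy hy0] at e1
        rw [qsub, hC x hx hx0, hC y hy hy0] at e2
        apply hk
        have : 2 * k = 0 := by linear_combination e1 + e2
        exact (mul_eq_zero.mp this).resolve_left h2
      have f1 := hpar A (Q u) hQu hQa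
      have f2 := hpar A' (- Q u) (neg_ne_zero.mpr hQu) hQv
      have f3 : 1 ≤ finrank F A := by
        rw [Nat.one_le_iff_ne_zero]
        intro h
        exact hA0 (Submodule.finrank_eq_zero.mp h)
      have f4 : 1 ≤ finrank F A' := by
        rw [Nat.one_le_iff_ne_zero]
        intro h
        exact hA'0 (Submodule.finrank_eq_zero.mp h)
      have hW2 : finrank F W = 2 := by omega
      apply hex
      have huv0 : u + v0 ≠ 0 := by
        intro h
        have : v0 = -u := (neg_eq_of_add_eq_zero_right h).symm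
        apply hv00
        apply hdisj v0 _ hv0A
        rw [this]; exact A.neg_mem huA
      refine ⟨hq3, hW2, Submodule.span F {u + v0}, ?_, ?_, ?_⟩
      · rw [Submodule.span_singleton_le_iff_mem]; exact W.add_mem (hAW huA) ((mA' v0).mp hv0A).1
      · intro x hx
        obtain ⟨k, rfl⟩ := Submodule.mem_span_singleton.mp hx
        rw [qsmul, qadd, hQv v0 hv0A hv00, ((mA' v0).mp hv0A).2 u huA]; ring
      · rw [finrank_span_singleton huv0, hW2]

end

end CfsgLib.OM29
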