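import Cfsg.Agent.LibOM29d

set_option autoImplicit false

/-! Stabilizers of non-degenerate subspaces in `Ω`. -/

namespace CfsgLib.OM29

open scoped MatrixGroups Matrix
open Cfsg CfsgLib.MaxTv29 Cfsg.Agent.H22 Module

variable {ι : Type} [Fintype ι] [DecidableEq ι] {F : Type*} [Field F] {Q : QuadraticForm F (ι → F)}

local notation "B" => QuadraticMap.polar Q

theorem EM_add {v w w' : ι → F} (hv : Q v = 0) (hw : B v w = 0) (hw' : B v w' = 0) : EM Q v (w + w') = EM Q v w * EM Q v w' := by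
  apply gl_ext
  intro x
  rw [Units.val_mul, ← Matrix.mulVec_mulVec, EM_mulVec hv hw', EM_mulVec hv (by rw [QuadraticMap.polar_add_right, hw, hw', add_zero]), EM_mulVec hv hw]
  simp only [QuadraticMap.polar_add_right, QuadraticMap.polar_add_left, QuadraticMap.polar_sub_right, QuadraticMap.polar_smul_right, smul_eq_mul, bself hv, hw, hw', bsymm w v, qadd]
  module

theorem EM_zero {v : ι → F} (hv : Q v = 0) : EM Q v 0 = 1 := by
  apply gl_ext
  intro x
  rw [EM_mulVec hv (QuadraticMap.polar_zero_right Q v), Units.val_one, Matrix.one_mulVec]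
  simp

theorem EM_inv {v w : ι → F} (hv : Q v = 0) (hw : B v w = 0) : (EM Q v w)⁻¹ = EM Q v (-w) := by
  rw [inv_eq_iff_mul_eq_one, ← EM_add hv hw (by rw [QuadraticMap.polar_neg_right, hw, neg_zero]), add_neg_cancel, EM_zero hv]

/-- `EM (v + x) u = EM v u * EM x u` for mutually orthogonal singular vectors -/
theorem EM_add_left {v x u : ι → F} (hv : Q v = 0) (hx : Q x = 0) (hu : Q u = 0) (hvx : B v x = 0) (hvu : B v u = 0) (hxu : B x u = 0) :
    EM Q (v + x) u = EM Q v u * EM Q x u := by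
  apply gl_ext
  intro y
  rw [Units.val_mul, ← Matrix.mulVec_mulVec, EM_mulVec hx hxu, EM_mulVec hv hvu,
    EM_mulVec (by rw [qadd, hv, hx, hvx]; ring) (by rw [QuadraticMap.polar_add_left, hvu, hxu, add_zero])]
  simp only [QuadraticMap.polar_add_right, QuadraticMap.polar_add_left, QuadraticMap.polar_sub_right, QuadraticMap.polar_smul_right, smul_eq_mul, bself hu, hvx, hvu, hxu, bsymm u x, hu]
  module

/-- products of long and short root elements -/
theorem EM_mul_EM {x y a : ι → F} (hx : Q x = 0) (hy : Q y = 0) (hxy : B x y = 0) (hxa : B x a = 0) (hya : B y a = 0) :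
    EM Q x a * EM Q y a = EM Q (x + y) a * EM Q x (Q a • y) := by
  apply gl_ext
  intro z
  have h1 : Q (x + y) = 0 := by rw [qadd, hx, hy, hxy]; ring
  have h2 : B (x + y) a = 0 := by rw [QuadraticMap.polar_add_left, hxa, hya, add_zero]
  have h3 : B x (Q a • y) = 0 := by rw [QuadraticMap.polar_smul_right, hxy, smul_zero]
  rw [Units.val_mul, ← Matrix.mulVec_mulVec, Units.val_mul, ← Matrix.mulVec_mulVec, EM_mulVec hy hya, EM_mulVec hx hxa, EM_mulVec hx h3, EM_mulVec h1 h2]
  simp only [QuadraticMap.polar_add_right, QuadraticMap.polar_add_left, QuadraticMap.polar_sub_right, QuadraticMap.polar_smul_right, QuadraticMap.polar_smul_left, smul_eq_mul, bself hx, bself hy,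
    hxy, hxa, hya, bsymm y x, bsymm a x, bsymm a y, hy, pself Q a, qsmul]
  module

/-- products of two reflections of the same norm -/
theorem exists_RR (hQ : (QuadraticMap.polarBilin Q).Nondegenerate) {e f e' f' u : ι → F} (hs : HS Q e f e' f' u) (h5 : 5 ≤ finrank F (ι → F))
    (v v' : ι → F) (hv : Q v ≠ 0) (h : Q v = Q v') :
    ∃ R ∈ Geo.omegaGL ⇑Q, ∀ x, ((R : GL ι F) : Matrix ι ι F) *ᵥ x = (x - ((Q v)⁻¹ * B v x) • v) - ((Q v)⁻¹ * B v' (x - ((Q v)⁻¹ * B v x) • v)) • v' := by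
  have hv' : Q v' ≠ 0 := by rw [← h]; exact hv
  have h1 := hs.refl_mod hQ v v' hv hv' h
  have h2 : ∀ g : OGrp Q, g ∈ EG Q → glLin.symm g.1 ∈ Geo.omegaGL ⇑Q := by
    intro g hg
    unfold EG at hg
    induction hg using Subgroup.closure_induction with
    | mem x hx =>
      obtain ⟨v, w, hv, hw, rfl⟩ := hx
      have := EM_omega hQ hs h5 hv hw
      rw [EM_eq hv hw] at this
      exact this
    | one => 
      have : glLin.symm ((1 : OGrp Q) : (ι → F) ≃ₗ[F] (ι → F)) = 1 := map_one _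
      rw [this]; exact one_mem _
    | mul x y _ _ hx hy =>
      have : glLin.symm ((x * y : OGrp Q) : (ι → F) ≃ₗ[F] (ι → F)) = glLin.symm x.1 * glLin.symm y.1 := map_mul glLin.symm x.1 y.1
      rw [this]; exact mul_mem hx hy
    | inv x _ hx =>
      have : glLin.symm ((x⁻¹ : OGrp Q) : (ι → F) ≃ₗ[F] (ι → F)) = (glLin.symm x.1)⁻¹ := map_inv glLin.symm x.1
      rw [this]; exact inv_mem hx
  refine ⟨_, h2 _ h1, fun x => ?_⟩
  rw [glLin_symm_mulVec, og_mul_apply, oRefl_apply, oRefl_apply, ← h]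

/-- a family of data: the subspace `W` is non-degenerate, and its complement has dimension at least seven -/
structure Dat (Q : QuadraticForm F (ι → F)) (W : Submodule F (ι → F)) : Prop where
  hQ : (QuadraticMap.polarBilin Q).Nondegenerate
  hW : ND Q W
  h7 : 7 ≤ finrank F (orth Q W)

namespace Dat

variable {W : Submodule F (ι → F)} (D : Dat Q W)

include D

theorem dims : finrank F W + finrank F (orth Q W) = finrank F (ι → F) := by
  have := finrank_orth D.hQ W
  omega

theorem five : 5 ≤ finrank F (ι → F) := by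
  have := D.dims
  have := D.h7
  omega

theorem o {a b : ι → F} (ha : a ∈ W) (hb : b ∈ orth Q W) : B a b = 0 := mem_orth.mp hb a ha

theorem o' {a b : ι → F} (ha : a ∈ W) (hb : b ∈ orth Q W) : B b a = 0 := by rw [bsymm]; exact D.o ha hb

/-- functionals on the complement -/
theorem func (Z : Submodule F (ι → F)) (hZ : Z ≤ orth Q W) {x : ι → F} (hx : x ∈ orth Q W) (hxZ : x ∉ Z) : ∃ s ∈ orth Q W, (∀ z ∈ Z, B z s = 0) ∧ B x s ≠ 0 := by
  have h1 : x ∉ W ⊔ Z := by
    intro h
    obtain ⟨a, ha, b, hb, he⟩ := Submodule.mem_sup.mp h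
    have h2 : a ∈ orth Q W := by
      have : a = x - b := by rw [← he]; abel
      rw [this]; exact (orth Q W).sub_mem hx (hZ hb)
    rw [ND.inf D.hW ha h2, zero_add] at he
    exact hxZ (he ▸ hb)
  obtain ⟨s, hs, hs'⟩ := orth_func D.hQ _ x h1
  rw [orth_sup] at hs
  exact ⟨s, hs.1, mem_orth.mp hs.2, hs'⟩

/-- singular vectors in the complement, orthogonal to `x`, `y`, outside the span of `x`, `y` -/
theorem sing2 [Finite F] (x y : ι → F) : ∃ s ∈ orth Q W, Q s = 0 ∧ B x s = 0 ∧ B y s = 0 ∧ s ∉ Submodule.span F ({x, y} : Set (ι → F)) := by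
  have h1 := finrank_orth D.hQ (W ⊔ Submodule.span F {x, y})
  have h2 := Submodule.finrank_add_le_finrank_add_finrank W (Submodule.span F {x, y})
  have h3 := fr_pair (F := F) x y
  have h4 := D.dims
  have h5 := D.h7
  obtain ⟨s, hs, hQs, hs'⟩ := exists_singular_avoid Q (orth Q (W ⊔ Submodule.span F {x, y})) (Submodule.span F {x, y}) (by omega)
  rw [orth_sup] at hs
  exact ⟨s, hs.1, hQs, mem_orth.mp hs.2 x (Submodule.subset_span (by simp)), mem_orth.mp hs.2 y (Submodule.subset_span (by simp)), hs'⟩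

omit D in
theorem _root_.CfsgLib.OM29.notmem_span_left {x y s : ι → F} (h : s ∉ Submodule.span F ({x, y} : Set (ι → F))) : s ∉ Submodule.span F {x} :=
  fun h' => h (Submodule.span_mono (by simp) h')

omit D in
theorem _root_.CfsgLib.OM29.notmem_span_right {x y s : ι → F} (h : s ∉ Submodule.span F ({x, y} : Set (ι → F))) : s ∉ Submodule.span F {y} :=
  fun h' => h (Submodule.span_mono (by simp) h')

omit D in
theorem _root_.CfsgLib.OM29.notmem_span_swap {x y : ι → F} (hx : x ≠ 0) (h : y ∉ Submodule.span F {x}) : x ∉ Submodule.span F {y} := by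
  intro h'
  obtain ⟨k, hk⟩ := Submodule.mem_span_singleton.mp h'
  have hk0 : k ≠ 0 := by rintro rfl; exact hx (by rw [← hk, zero_smul])
  apply h
  exact Submodule.mem_span_singleton.mpr ⟨k⁻¹, by rw [← hk, smul_smul, inv_mul_cancel₀ hk0, one_smul]⟩

omit D in
theorem _root_.CfsgLib.OM29.ne_zero_of_notmem {Z : Submodule F (ι → F)} {x : ι → F} (h : x ∉ Z) : x ≠ 0 := by
  rintro rfl; exact h Z.zero_mem

/-- the orthogonal complement is spanned by its singular vectors -/
theorem rich [Finite F] (A : Submodule F (ι → F)) (hA : ∀ y ∈ orth Q W, Q y = 0 → y ∈ A) : orth Q W ≤ A := by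
  obtain ⟨s, hs, hQs, -, -, hs'⟩ := D.sing2 0 0
  obtain ⟨t, ht, -, hst⟩ := D.func ⊥ bot_le hs (fun h => ne_zero_of_notmem hs' ((Submodule.mem_bot F).mp h))
  exact rich_of hs hQs ht hst A hA

/-- the same for the orthogonal complement of a singular vector in there -/
theorem rich_perp [Finite F] {y : ι → F} (hy : y ∈ orth Q W) (A : Submodule F (ι → F)) (hA : ∀ x ∈ orth Q W, B y x = 0 → Q x = 0 → x ∈ A) :
    ∀ x ∈ orth Q W, B y x = 0 → x ∈ A := by
  obtain ⟨s, hs, hQs, hys, -, hs'⟩ := D.sing2 y y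
  obtain ⟨t, ht, hyt, hst⟩ := D.func (Submodule.span F {y}) (by rw [Submodule.span_singleton_le_iff_mem]; exact hy) hs (notmem_span_left hs')
  have h1 := rich_of (Y := orth Q W ⊓ orth Q (Submodule.span F {y})) (e := s) ⟨hs, mem_orth_span.mpr hys⟩ hQs
    (z := t) ⟨ht, mem_orth_span.mpr (hyt y (Submodule.mem_span_singleton_self y))⟩ hst A (fun x hx hQx => hA x hx.1 (mem_orth_span.mp hx.2) hQx)
  intro x hx hyx
  exact h1 ⟨hx, mem_orth_span.mpr hyx⟩

/-- the projection to `W` along the complement -/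
theorem proj : ∃ p : (ι → F) →ₗ[F] (ι → F), (∀ x, p x ∈ W) ∧ (∀ x, x - p x ∈ orth Q W) := by
  have h1 : IsCompl W (orth Q W) := by
    have h3 : W ⊓ orth Q W = ⊥ := by
      rw [eq_bot_iff]
      rintro x ⟨hx1, hx2⟩
      exact (Submodule.mem_bot F).mpr (ND.inf D.hW hx1 hx2)
    refine ⟨disjoint_iff.mpr h3, codisjoint_iff.mpr ?_⟩
    apply Submodule.eq_top_of_finrank_eq
    have h2 := Submodule.finrank_sup_add_finrank_inf_eq W (orth Q W)
    rw [h3, finrank_bot] at h2
    have h4 := D.dims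
    omega
  refine ⟨W.subtype.comp (W.projectionOnto (orth Q W) h1), fun x => (W.projectionOnto (orth Q W) h1 x).2, fun x => ?_⟩
  have h2 : W.projectionOnto (orth Q W) h1 (x - (W.subtype.comp (W.projectionOnto (orth Q W) h1)) x) = 0 := by
    rw [map_sub, LinearMap.comp_apply, Submodule.subtype_apply, Submodule.projectionOnto_apply_left, sub_self]
  exact (Submodule.projectionOnto_apply_eq_zero_iff h1).mp h2

/-- **Finding a good pair** -/
theorem good_pair [Finite F] {g : GL ι F} (hg : g ∈ Cfsg.isometryGroup F ⇑Q) (hg1 : g ∉ Geo.subspaceStabilizer W)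
    (hg2 : ¬ ∀ x ∈ orth Q W, (g : Matrix ι ι F) *ᵥ x ∈ W) :
    ∃ y1 ∈ orth Q W, ∃ y2 ∈ orth Q W, Q y1 = 0 ∧ Q y2 = 0 ∧ B y1 y2 = 0 ∧ ∃ a1 ∈ W, ∃ b1 ∈ orth Q W, ∃ a2 ∈ W, ∃ b2 ∈ orth Q W,
      (g : Matrix ι ι F) *ᵥ y1 = a1 + b1 ∧ (g : Matrix ι ι F) *ᵥ y2 = a2 + b2 ∧ a2 ≠ 0 ∧ b1 ∉ Submodule.span F {b2} := by
  by_contra hcon
  obtain ⟨p, hp1, hp2⟩ := D.proj
  let γ : (ι → F) →ₗ[F] (ι → F) := Matrix.mulVecLin (g : Matrix ι ι F)
  have hγ : ∀ x, γ x = (g : Matrix ι ι F) *ᵥ x := fun x => rfl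
  let r : (ι → F) →ₗ[F] (ι → F) := LinearMap.id - p
  have hr : ∀ x, r x = x - p x := fun x => rfl
  have key : ∀ y1 ∈ orth Q W, ∀ y2 ∈ orth Q W, Q y1 = 0 → Q y2 = 0 → B y1 y2 = 0 → p (γ y2) ≠ 0 → r (γ y1) ∈ Submodule.span F {r (γ y2)} := by
    intro y1 h1 y2 h2 h3 h4 h5 h6
    by_contra h7
    apply hcon
    refine ⟨y1, h1, y2, h2, h3, h4, h5, p (γ y1), hp1 _, r (γ y1), hp2 _, p (γ y2), hp1 _, r (γ y2), hp2 _, ?_, ?_, h6, h7⟩
    · rw [hr, ← hγ]; abel
    · rw [hr, ← hγ]; abel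
  -- some singular vector is moved out of the complement
  obtain ⟨y2, hy2, hQy2, hpy2⟩ : ∃ y2 ∈ orth Q W, Q y2 = 0 ∧ p (γ y2) ≠ 0 := by
    by_contra hcon2
    push Not at hcon2
    apply hg1
    have h1 : orth Q W ≤ LinearMap.ker (p.comp γ) := D.rich _ (fun y hy hQy => LinearMap.mem_ker.mpr (hcon2 y hy hQy))
    have h2 : ∀ x ∈ orth Q W, γ x ∈ orth Q W := by
      intro x hx
      have h3 : p (γ x) = 0 := LinearMap.mem_ker.mp (h1 hx)
      have h4 := hp2 (γ x)
      rwa [h3, sub_zero] at h4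
    -- `γ` maps the complement onto itself
    have h3 : (orth Q W).map γ = orth Q W := by
      apply Submodule.eq_of_le_of_finrank_eq
      · rintro _ ⟨x, hx, rfl⟩; exact h2 x hx
      · exact LinearEquiv.finrank_map_eq (le g) (orth Q W)
    refine (mem_stab _ _).mpr fun w hw => ?_
    rw [← orth_orth D.hQ W, mem_orth]
    intro x hx
    rw [← h3] at hx
    obtain ⟨z, hz, rfl⟩ := hx
    rw [hγ, isoQ_polar hg]
    exact D.o' hw hz
  -- a singular vector mapped into `W`
  obtain ⟨y3, hy3, hQy3, hy30, hry3⟩ : ∃ y3 ∈ orth Q W, Q y3 = 0 ∧ y3 ≠ 0 ∧ r (γ y3) = 0 := by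
    have h1 := D.rich_perp hy2 ((Submodule.span F {r (γ y2)}).comap (r.comp γ)) (fun x hx hyx hQx => key x hx y2 hy2 hQx hQy2 (by rw [bsymm]; exact hyx) hpy2)
    set Y := orth Q W ⊓ orth Q (Submodule.span F {y2}) with hY
    have hYd : 6 ≤ finrank F Y := by
      have e1 := finrank_orth D.hQ (W ⊔ Submodule.span F {y2})
      rw [orth_sup, ← hY] at e1
      have e2 := Submodule.finrank_add_le_finrank_add_finrank W (Submodule.span F {y2})
      have e3 : finrank F (Submodule.span F ({y2} : Set (ι → F))) ≤ 1 := by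
        by_cases hz : y2 = 0
        · rw [hz, Submodule.span_zero_singleton, finrank_bot]; omega
        · rw [finrank_span_singleton hz]
      have e4 := D.dims
      have e5 := D.h7
      omega
    -- the kernel
    have h2 := LinearMap.finrank_range_add_finrank_ker ((r.comp γ).comp Y.subtype)
    have h3 : finrank F (LinearMap.range ((r.comp γ).comp Y.subtype)) ≤ 1 := by
      have h4 : LinearMap.range ((r.comp γ).comp Y.subtype) ≤ Submodule.span F {r (γ y2)} := by
        rintro _ ⟨x, rfl⟩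
        exact h1 x.1 x.2.1 (mem_orth_span.mp x.2.2)
      refine (Submodule.finrank_mono h4).trans ?_
      by_cases hz : r (γ y2) = 0
      · rw [hz, Submodule.span_zero_singleton, finrank_bot]; omega
      · rw [finrank_span_singleton hz]
    have h4 : 3 ≤ finrank F (LinearMap.ker ((r.comp γ).comp Y.subtype)) := by omega
    have h5 : finrank F ((LinearMap.ker ((r.comp γ).comp Y.subtype)).map Y.subtype) = finrank F (LinearMap.ker ((r.comp γ).comp Y.subtype)) :=
      ((Submodule.equivMapOfInjective Y.subtype Y.injective_subtype _).finrank_eq).symm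
    obtain ⟨v, hvK, hQv, hv⟩ := exists_singular_avoid Q ((LinearMap.ker ((r.comp γ).comp Y.subtype)).map Y.subtype) ⊥ (by rw [finrank_bot, h5]; omega)
    obtain ⟨v', hv', rfl⟩ := hvK
    exact ⟨_, v'.2.1, hQv, ne_zero_of_notmem hv, LinearMap.mem_ker.mp hv'⟩
  -- all singular vectors of the complement are mapped into `W`
  have hall : ∀ z ∈ orth Q W, Q z = 0 → r (γ z) = 0 := by
    have hstep : ∀ y ∈ orth Q W, Q y = 0 → y ≠ 0 → r (γ y) = 0 → ∀ z ∈ orth Q W, Q z = 0 → B z y = 0 → r (γ z) = 0 := by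
      intro y hy hQy hy0 hry z hz hQz hzy
      have h1 := key z hz y hy hQz hQy hzy ?_
      · rw [hry, Submodule.span_zero_singleton, Submodule.mem_bot] at h1
        exact h1
      · intro h2
        rw [hr, h2, sub_zero] at hry
        exact hy0 (mulVec_injective g (by show (g : Matrix ι ι F) *ᵥ y = (g : Matrix ι ι F) *ᵥ 0; rw [← hγ, ← hγ, hry, map_zero]))
    intro z hz hQz
    obtain ⟨y4, hy4, hQy4, h3, h4, h5⟩ := D.sing2 y3 z
    exact hstep y4 hy4 hQy4 (ne_zero_of_notmem h5) (hstep y3 hy3 hQy3 hy30 hry3 y4 hy4 hQy4 (by rw [bsymm]; exact h3)) z hz hQz h4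
  apply hg2
  have h1 : orth Q W ≤ LinearMap.ker (r.comp γ) := D.rich _ (fun y hy hQy => LinearMap.mem_ker.mpr (hall y hy hQy))
  intro x hx
  have h2 : r (γ x) = 0 := LinearMap.mem_ker.mp (h1 hx)
  rw [hr] at h2
  rw [← hγ, sub_eq_zero.mp h2]
  exact hp1 _

end Dat

end CfsgLib.OM29
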