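import Cfsg.Agent.LibOM29e

set_option autoImplicit false

/-! Stabilizers of non-degenerate subspaces in `Ω`: the main argument. -/

namespace CfsgLib.OM29

open scoped MatrixGroups Matrix
open Cfsg CfsgLib.MaxTv29 Cfsg.Agent.H22 Module

variable {ι : Type} [Fintype ι] [DecidableEq ι] {F : Type*} [Field F] {Q : QuadraticForm F (ι → F)}

local notation "B" => QuadraticMap.polar Q

/-- an overgroup of the stabilizer -/
structure Ov (Q : QuadraticForm F (ι → F)) (W : Submodule F (ι → F)) (M : Subgroup (GL ι F)) : Prop extends Dat Q W where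
  hM : Geo.subspaceStabilizer W ⊓ Geo.omegaGL ⇑Q ≤ M
  hMS : M ≤ Geo.omegaGL ⇑Q

namespace Ov

variable {W : Submodule F (ι → F)} {M : Subgroup (GL ι F)} (D : Ov Q W M)

include D

theorem iso {g : GL ι F} (hg : g ∈ M) : g ∈ Cfsg.isometryGroup F ⇑Q := omegaGL_le_iso (D.hMS hg)

theorem em [Finite F] {v w : ι → F} (hv : Q v = 0) (hw : B v w = 0) : EM Q v w ∈ Geo.omegaGL ⇑Q := by
  haveI : Fintype F := Fintype.ofFinite F
  obtain ⟨e, f, e', f', u', hs⟩ := exists_HS D.hQ D.toDat.five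
  exact EM_omega D.hQ hs D.toDat.five hv hw

theorem perp_mem [Finite F] {v w : ι → F} (hv : v ∈ orth Q W) (hw : w ∈ orth Q W) (hQv : Q v = 0) (hvw : B v w = 0) : EM Q v w ∈ M := by
  refine D.hM ⟨(mem_stab _ _).mpr fun x hx => ?_, D.em hQv hvw⟩
  rw [EM_mulVec hQv hvw, D.o' hx hv, D.o' hx hw]
  simpa using hx

theorem W_mem [Finite F] {v w : ι → F} (hv : v ∈ W) (hw : w ∈ W) (hQv : Q v = 0) (hvw : B v w = 0) : EM Q v w ∈ M := by
  refine D.hM ⟨(mem_stab _ _).mpr fun x hx => ?_, D.em hQv hvw⟩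
  rw [EM_mulVec hQv hvw]
  exact W.sub_mem (W.sub_mem (W.add_mem hx (W.smul_mem _ hw)) (W.smul_mem _ hv)) (W.smul_mem _ hv)

/-- **a first mixed element** -/
theorem first [Finite F] {g : GL ι F} (hg : g ∈ M) (hg1 : g ∉ Geo.subspaceStabilizer W)
    (hg2 : ¬ ∀ x ∈ orth Q W, (g : Matrix ι ι F) *ᵥ x ∈ W) : ∃ x ∈ orth Q W, Q x = 0 ∧ x ≠ 0 ∧ ∃ a ∈ W, a ≠ 0 ∧ EM Q x a ∈ M := by
  obtain ⟨y1, hy1, y2, hy2, hQ1, hQ2, h12, a1, ha1, b1, hb1, a2, ha2, b2, hb2, e1, e2, ha20, hb12⟩ := D.toDat.good_pair (D.iso hg) hg1 hg2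
  have hv : Q (a1 + b1) = 0 := by rw [← e1, (mem_isoQ g).mp (D.iso hg)]; exact hQ1
  have hu : Q (a2 + b2) = 0 := by rw [← e2, (mem_isoQ g).mp (D.iso hg)]; exact hQ2
  have hvu : B (a1 + b1) (a2 + b2) = 0 := by rw [← e1, ← e2, isoQ_polar (D.iso hg)]; exact h12
  have hτ : EM Q (a1 + b1) (a2 + b2) ∈ M := by
    rw [← e1, ← e2, ← EM_conj (D.iso hg) hQ1 h12]
    exact M.mul_mem (M.mul_mem hg (D.perp_mem hy1 hy2 hQ1 h12)) (M.inv_mem hg)
  obtain ⟨x, hx, hQx, hx1, hx2, hx3⟩ := D.toDat.sing2 b1 b2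
  have hb1' : b1 ∉ Submodule.span F {x, b2} := by
    intro h
    obtain ⟨c, d, hcd⟩ := Submodule.mem_span_pair.mp h
    by_cases hc : c = 0
    · rw [hc, zero_smul, zero_add] at hcd
      exact hb12 (Submodule.mem_span_singleton.mpr ⟨d, hcd⟩)
    · apply hx3
      have : x = c⁻¹ • b1 + (-(c⁻¹ * d)) • b2 := by
        rw [← hcd, smul_add, smul_smul, inv_mul_cancel₀ hc, one_smul]; module
      rw [this]
      exact Submodule.add_mem _ (Submodule.smul_mem _ _ (Submodule.subset_span (by simp))) (Submodule.smul_mem _ _ (Submodule.subset_span (by simp)))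
  obtain ⟨w, hw, hw1, hw2⟩ := D.toDat.func (Submodule.span F {x, b2}) (by
    rw [Submodule.span_le]
    rintro z (rfl | rfl)
    · exact hx
    · exact hb2) hb1 hb1'
  have hxw : B x w = 0 := hw1 x (Submodule.subset_span (by simp))
  have hb2w : B b2 w = 0 := hw1 b2 (Submodule.subset_span (by simp))
  have hh := D.perp_mem hx hw hQx hxw
  have hxv : B x (a1 + b1) = 0 := by rw [QuadraticMap.polar_add_right, D.o' ha1 hx, bsymm x b1, hx1, add_zero]
  have hxu : B x (a2 + b2) = 0 := by rw [QuadraticMap.polar_add_right, D.o' ha2 hx, bsymm x b2, hx2, add_zero]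
  have hwv : B w (a1 + b1) = B b1 w := by rw [QuadraticMap.polar_add_right, D.o' ha1 hw, bsymm w b1, zero_add]
  have hwu : B w (a2 + b2) = 0 := by rw [QuadraticMap.polar_add_right, D.o' ha2 hw, bsymm w b2, hb2w, add_zero]
  have hc := EM_conj (EM_iso x w) hv hvu
  have f1 : ((EM Q x w : GL ι F) : Matrix ι ι F) *ᵥ (a1 + b1) = (a1 + b1) + (-(B b1 w)) • x := by
    rw [EM_mulVec hQx hxw, hxv, hwv]; module
  have f2 : ((EM Q x w : GL ι F) : Matrix ι ι F) *ᵥ (a2 + b2) = a2 + b2 := by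
    rw [EM_mulVec hQx hxw, hxu, hwu]; module
  rw [f1, f2] at hc
  have h1 : EM Q (a1 + b1 + (-(B b1 w)) • x) (a2 + b2) ∈ M := by
    rw [← hc]; exact M.mul_mem (M.mul_mem hh hτ) (M.inv_mem hh)
  rw [EM_add_left hv (by rw [qsmul, hQx, mul_zero]) hu (by rw [QuadraticMap.polar_smul_right, bsymm _ x, hxv, smul_zero]) hvu (by rw [QuadraticMap.polar_smul_left, hxu, smul_zero])] at h1
  have h2 : EM Q ((-(B b1 w)) • x) (a2 + b2) ∈ M := (M.mul_mem_cancel_left hτ).mp h1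
  have hx' : (-(B b1 w)) • x ∈ orth Q W := (orth Q W).smul_mem _ hx
  have hQx' : Q ((-(B b1 w)) • x) = 0 := by rw [qsmul, hQx, mul_zero]
  have hxa : B ((-(B b1 w)) • x) a2 = 0 := D.o' ha2 hx'
  have hxb : B ((-(B b1 w)) • x) b2 = 0 := by rw [QuadraticMap.polar_smul_left, bsymm x b2, hx2, smul_zero]
  rw [EM_add hQx' hxa hxb] at h2
  have h3 := (M.mul_mem_cancel_right (D.perp_mem hx' hb2 hQx' hxb)).mp h2
  exact ⟨_, hx', hQx', smul_ne_zero (neg_ne_zero.mpr hw2) (ne_zero_of_notmem hx3), a2, ha2, ha20, h3⟩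

/-- **spreading** -/
theorem spread [Finite F] {x y a : ι → F} (hx : x ∈ orth Q W) (hy : y ∈ orth Q W) (hQx : Q x = 0) (hQy : Q y = 0) (hxy : B x y = 0) (hxs : x ∉ Submodule.span F {y}) (ha : a ∈ W)
    (h : EM Q x a ∈ M) (c : F) : EM Q (c • y) a ∈ M := by
  obtain ⟨w, hw, hw1, hw2⟩ := D.toDat.func (Submodule.span F {y}) (by rw [Submodule.span_singleton_le_iff_mem]; exact hy) hx hxs
  have hyw : B y w = 0 := hw1 y (Submodule.mem_span_singleton_self y)
  set w' := (-(c * (B x w)⁻¹)) • w with hw'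
  have hw'W : w' ∈ orth Q W := (orth Q W).smul_mem _ hw
  have hyw' : B y w' = 0 := by rw [hw', QuadraticMap.polar_smul_right, hyw, smul_zero]
  have hxw' : B w' x = -c := by
    rw [bsymm, hw', QuadraticMap.polar_smul_right, smul_eq_mul]
    have : (B x w)⁻¹ * B x w = 1 := inv_mul_cancel₀ hw2
    linear_combination (-c) * this
  have hyx : B y x = 0 := by rw [bsymm]; exact hxy
  have hxa : B x a = 0 := D.o' ha hx
  have hya : B y a = 0 := D.o' ha hy
  have hw'a : B w' a = 0 := D.o' ha hw'W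
  have hh := D.perp_mem hy hw'W hQy hyw'
  have hc := EM_conj (EM_iso y w') hQx hxa
  have f1 : ((EM Q y w' : GL ι F) : Matrix ι ι F) *ᵥ x = x + c • y := by
    rw [EM_mulVec hQy hyw', hyx, hxw']; module
  have f2 : ((EM Q y w' : GL ι F) : Matrix ι ι F) *ᵥ a = a := by
    rw [EM_mulVec hQy hyw', hya, hw'a]; module
  rw [f1, f2] at hc
  have h1 : EM Q (x + c • y) a ∈ M := by
    rw [← hc]; exact M.mul_mem (M.mul_mem hh h) (M.inv_mem hh)
  have hcy : c • y ∈ orth Q W := (orth Q W).smul_mem _ hy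
  have h2 := EM_mul_EM (a := a) hQx (show Q (c • y) = 0 by rw [qsmul, hQy, mul_zero]) (show B x (c • y) = 0 by rw [QuadraticMap.polar_smul_right, hxy, smul_zero]) hxa (D.o' ha hcy)
  have h3 : EM Q x (Q a • c • y) ∈ M := D.perp_mem hx ((orth Q W).smul_mem _ hcy) hQx (by rw [QuadraticMap.polar_smul_right, QuadraticMap.polar_smul_right, hxy, smul_zero, smul_zero])
  have h4 : EM Q x a * EM Q (c • y) a ∈ M := by rw [h2]; exact M.mul_mem h1 h3
  exact (M.mul_mem_cancel_left h).mp h4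

theorem spread_all [Finite F] {x a : ι → F} (hx : x ∈ orth Q W) (hQx : Q x = 0) (hx0 : x ≠ 0) (ha : a ∈ W) (h : EM Q x a ∈ M) :
    ∀ z ∈ orth Q W, Q z = 0 → EM Q z a ∈ M := by
  intro z hz hQz
  obtain ⟨y, hy, hQy, hxy, hzy, hys⟩ := D.toDat.sing2 x z
  have h1 := D.spread hx hy hQx hQy hxy (notmem_span_swap hx0 (notmem_span_left hys)) ha h 1
  rw [one_smul] at h1
  have h2 := D.spread hy hz hQy hQz (by rw [bsymm]; exact hzy) (notmem_span_right hys) ha h1 1
  rwa [one_smul] at h2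

/-- the subspace of the vectors `a` of `W` with all `EM z a` in `M` -/
def A (D : Ov Q W M) : Submodule F (ι → F) where
  carrier := {a | a ∈ W ∧ ∀ z ∈ orth Q W, Q z = 0 → EM Q z a ∈ M}
  zero_mem' := ⟨W.zero_mem, fun z _ hQz => by rw [EM_zero hQz]; exact M.one_mem⟩
  add_mem' := by
    rintro a b ⟨ha, ha'⟩ ⟨hb, hb'⟩
    refine ⟨W.add_mem ha hb, fun z hz hQz => ?_⟩
    rw [EM_add hQz (D.o' ha hz) (D.o' hb hz)]
    exact M.mul_mem (ha' z hz hQz) (hb' z hz hQz)
  smul_mem' := by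
    rintro c a ⟨ha, ha'⟩
    refine ⟨W.smul_mem c ha, fun z hz hQz => ?_⟩
    rw [← EM_smul_left hQz (D.o' ha hz)]
    exact ha' _ ((orth Q W).smul_mem c hz) (by rw [qsmul, hQz, mul_zero])

theorem A_eq [Finite F] (hex : ¬ (Nat.card F ≤ 3 ∧ finrank F W = 2 ∧ Geo.IsPlusTypeOn ⇑Q W)) (h0 : D.A ≠ ⊥) : D.A = W := by
  haveI : Fintype F := Fintype.ofFinite F
  obtain ⟨e, f, e', f', u', hs⟩ := exists_HS D.hQ D.toDat.five
  apply irr D.hQ D.hW D.A (fun a ha => ha.1) h0 ?_ ?_ hex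
  · intro c hc hQc
    by_cases hcA : c ∈ D.A
    · exact Or.inl hcA
    right
    intro a ha
    by_contra hac
    apply hcA
    -- the reflection of `a` is in `A`
    have h1 : a - ((Q c)⁻¹ * B c a) • c ∈ D.A := by
      refine ⟨W.sub_mem ha.1 (W.smul_mem _ hc), fun z hz hQz => ?_⟩
      -- a vector of norm `Q c` orthogonal to `z`
      obtain ⟨s, hsW, hQs, hzs, -, hss⟩ := D.toDat.sing2 z z
      obtain ⟨t, ht, hzt, hst⟩ := D.toDat.func (Submodule.span F {z}) (by rw [Submodule.span_singleton_le_iff_mem]; exact hz) hsW (notmem_span_left hss)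
      have hzt' := hzt z (Submodule.mem_span_singleton_self z)
      set d := t + ((Q c - Q t) * (B s t)⁻¹) • s with hd
      have hdW : d ∈ orth Q W := (orth Q W).add_mem ht ((orth Q W).smul_mem _ hsW)
      have hQd : Q c = Q d := by
        rw [hd, qadd, qsmul, hQs, QuadraticMap.polar_smul_right, bsymm t s, smul_eq_mul, inv_mul_cancel_right₀ hst]; ring
      have hdz : B d z = 0 := by
        rw [hd, QuadraticMap.polar_add_left, QuadraticMap.polar_smul_left, bsymm t z, bsymm s z, hzt', hzs]; simp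
      obtain ⟨R, hR, hRx⟩ := exists_RR D.hQ hs D.toDat.five c d hQc hQd
      have hRM : R ∈ M := by
        refine D.hM ⟨(mem_stab _ _).mpr fun x hx => ?_, hR⟩
        have hx' : x - ((Q c)⁻¹ * B c x) • c ∈ W := W.sub_mem hx (W.smul_mem _ hc)
        rw [hRx, D.o' hx' hdW]
        simpa using hx'
      have hcz : B c z = 0 := D.o hc hz
      have f1 : (R : Matrix ι ι F) *ᵥ z = z := by
        rw [hRx, hcz]
        simp only [mul_zero, zero_smul, sub_zero]
        rw [hdz]; simp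
      have f2 : (R : Matrix ι ι F) *ᵥ a = a - ((Q c)⁻¹ * B c a) • c := by
        have hx' : a - ((Q c)⁻¹ * B c a) • c ∈ W := W.sub_mem ha.1 (W.smul_mem _ hc)
        rw [hRx, D.o' hx' hdW]
        simp
      have h2 := EM_conj (D.iso hRM) hQz (D.o' ha.1 hz)
      rw [f1, f2] at h2
      rw [← h2]
      exact M.mul_mem (M.mul_mem hRM (ha.2 z hz hQz)) (M.inv_mem hRM)
    have h2 := D.A.sub_mem ha h1
    rw [sub_sub_cancel] at h2
    refine (D.A.smul_mem_iff ?_).mp h2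
    rw [bsymm]
    exact mul_ne_zero (inv_ne_zero hQc) hac
  · intro v hv w hw hQv hQw hvw a ha
    refine ⟨W.sub_mem (W.add_mem ha.1 (W.smul_mem _ hw)) (W.smul_mem _ hv), fun z hz hQz => ?_⟩
    have hh := D.W_mem hv hw hQv hvw
    have f1 : ((EM Q v w : GL ι F) : Matrix ι ι F) *ᵥ z = z := by
      rw [EM_mulVec hQv hvw, D.o hv hz, D.o hw hz]; simp
    have f2 : ((EM Q v w : GL ι F) : Matrix ι ι F) *ᵥ a = a + B v a • w - B w a • v := by
      rw [EM_mulVec hQv hvw, hQw]; simp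
    have h2 := EM_conj (D.iso hh) hQz (D.o' ha.1 hz)
    rw [f1, f2] at h2
    rw [← h2]
    exact M.mul_mem (M.mul_mem hh (ha.2 z hz hQz)) (M.inv_mem hh)

theorem top_of_A [Finite F] (hA : D.A = W) : Geo.omegaGL ⇑Q ≤ M := by
  haveI : Fintype F := Fintype.ofFinite F
  obtain ⟨e, f, e', f', u', hs⟩ := exists_HS D.hQ D.toDat.five
  have hmix : ∀ z ∈ orth Q W, Q z = 0 → ∀ a ∈ W, EM Q z a ∈ M := by
    intro z hz hQz a ha
    rw [← hA] at ha
    exact ha.2 z hz hQz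
  have h1 : ∀ z ∈ orth Q W, Q z = 0 → Full Q M z := by
    intro z hz hQz
    refine ⟨hQz, fun w hw => ?_⟩
    obtain ⟨a, ha, b, hb, rfl⟩ := D.hW.decomp D.hQ w
    have hzb : B z b = 0 := by
      rw [QuadraticMap.polar_add_right, D.o' ha hz, zero_add] at hw; exact hw
    rw [EM_add hQz (D.o' ha hz) hzb]
    exact M.mul_mem (hmix z hz hQz a ha) (D.perp_mem hz hb hQz hzb)
  have h2 : ∀ a ∈ W, ∀ b ∈ orth Q W, b ≠ 0 → Q (a + b) = 0 → Full Q M (a + b) := by
    intro a ha b hb hb0 hQab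
    obtain ⟨x, hx, hQx, hxb⟩ : ∃ x ∈ orth Q W, Q x = 0 ∧ B x b ≠ 0 := by
      by_contra hcon
      push Not at hcon
      apply hb0
      have h3 := D.toDat.rich (LinearMap.ker ((QuadraticMap.polarBilin Q) b)) (fun y hy hQy => by
        rw [LinearMap.mem_ker]
        show B b y = 0
        rw [bsymm]; exact hcon y hy hQy)
      exact (D.hW.orth_nd D.hQ) b hb (fun y hy => LinearMap.mem_ker.mp (h3 hy))
    have hxa : B x a = 0 := D.o' ha hx
    set a' := (-(B x b)⁻¹) • a with ha'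
    have ha'W : a' ∈ W := W.smul_mem _ ha
    have hxa' : B x a' = 0 := D.o' ha'W hx
    have hEM := hmix x hx hQx a' ha'W
    have h4 : Full Q M (((EM Q x a' : GL ι F) : Matrix ι ι F) *ᵥ (a + b)) := by
      apply h1
      · rw [EM_mulVec hQx hxa', QuadraticMap.polar_add_right, hxa, zero_add]
        have : a + b + B x b • a' = b := by
          rw [ha', smul_smul, mul_neg, mul_inv_cancel₀ hxb]; module
        rw [this]
        exact (orth Q W).sub_mem ((orth Q W).sub_mem hb ((orth Q W).smul_mem _ hx)) ((orth Q W).smul_mem _ hx)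
      · rw [(mem_isoQ _).mp (EM_iso x a')]; exact hQab
    have h5 := h4.conj (M.inv_mem hEM) ((Cfsg.isometryGroup F ⇑Q).inv_mem (EM_iso x a'))
    rwa [inv_mulVec_mulVec] at h5
  apply full_top D.hQ hs D.toDat.five
  intro v hv
  obtain ⟨a, ha, b, hb, rfl⟩ := D.hW.decomp D.hQ v
  by_cases hb0 : b = 0
  · subst hb0
    rw [add_zero] at hv ⊢
    obtain ⟨x, hx, hQx, -, -, hxs⟩ := D.toDat.sing2 0 0
    have hx0 := ne_zero_of_notmem hxs
    by_cases ha0 : a = 0
    · subst ha0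
      have := (h1 x hx hQx).smul 0
      rwa [zero_smul] at this
    obtain ⟨a', ha', haa'⟩ : ∃ a' ∈ W, B a a' ≠ 0 := by
      by_contra hcon
      push Not at hcon
      exact ha0 (D.hW a ha hcon)
    have hxa' : B x a' = 0 := D.o' ha' hx
    have hEM := hmix x hx hQx a' ha'
    have e1 : ((EM Q x a' : GL ι F) : Matrix ι ι F) *ᵥ a = a + (-(B a a')) • x := by
      rw [EM_mulVec hQx hxa', D.o' ha hx, bsymm a' a]; module
    have h4 : Full Q M (((EM Q x a' : GL ι F) : Matrix ι ι F) *ᵥ a) := by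
      rw [e1]
      apply h2 a ha _ ((orth Q W).smul_mem _ hx) (smul_ne_zero (neg_ne_zero.mpr haa') hx0)
      rw [← e1, (mem_isoQ _).mp (EM_iso x a')]; exact hv
    have h5 := h4.conj (M.inv_mem hEM) ((Cfsg.isometryGroup F ⇑Q).inv_mem (EM_iso x a'))
    rwa [inv_mulVec_mulVec] at h5
  · exact h2 a ha b hb hb0 hv

end Ov

/-- **Stabilizers of non-degenerate subspaces** -/
theorem nd_maximal [Finite F] (hQ : (QuadraticMap.polarBilin Q).Nondegenerate) (W : Submodule F (ι → F)) (hW0 : W ≠ ⊥) (hW : ND Q W) (h7 : 7 ≤ finrank F (orth Q W))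
    (hex : ¬ (Nat.card F ≤ 3 ∧ finrank F W = 2 ∧ Geo.IsPlusTypeOn ⇑Q W))
    (hno : ∀ g ∈ Cfsg.isometryGroup F ⇑Q, ¬ ∀ x ∈ orth Q W, (g : Matrix ι ι F) *ᵥ x ∈ W) :
    Geo.IsMaximalIn (Geo.omegaGL ⇑Q) (Geo.subspaceStabilizer W ⊓ Geo.omegaGL ⇑Q) := by
  haveI : Fintype F := Fintype.ofFinite F
  have D : Dat Q W := ⟨hQ, hW, h7⟩
  obtain ⟨e, f, e', f', u', hs⟩ := exists_HS hQ D.five
  refine ⟨lt_of_le_of_ne inf_le_right ?_, fun M hHM hMS => ?_⟩
  · intro heq
    obtain ⟨a, ha, ha0⟩ := Submodule.exists_mem_ne_zero_of_ne_bot hW0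
    obtain ⟨a', ha', haa'⟩ : ∃ a' ∈ W, B a a' ≠ 0 := by
      by_contra hcon
      push Not at hcon
      exact ha0 (hW a ha hcon)
    obtain ⟨x, hx, hQx, -, -, hxs⟩ := D.sing2 0 0
    have hxa' : B x a' = 0 := D.o' ha' hx
    have h1 : EM Q x a' ∈ Geo.subspaceStabilizer W ⊓ Geo.omegaGL ⇑Q := by
      rw [heq]; exact EM_omega hQ hs D.five hQx hxa'
    have h2 := (mem_stab _ _).mp h1.1 a ha
    have e1 : ((EM Q x a' : GL ι F) : Matrix ι ι F) *ᵥ a = a + (-(B a a')) • x := by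
      rw [EM_mulVec hQx hxa', D.o' ha hx, bsymm a' a]; module
    rw [e1, W.add_mem_iff_right ha, W.smul_mem_iff (neg_ne_zero.mpr haa')] at h2
    exact ne_zero_of_notmem hxs (ND.inf hW h2 hx)
  by_cases hMH : M = Geo.subspaceStabilizer W ⊓ Geo.omegaGL ⇑Q
  · exact Or.inl hMH
  right
  apply le_antisymm hMS
  obtain ⟨g, hgM, hg⟩ : ∃ g ∈ M, g ∉ Geo.subspaceStabilizer W := by
    by_contra hcon
    push Not at hcon
    exact hMH (le_antisymm (le_inf hcon hMS) hHM)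
  have O : Ov Q W M := { D with hM := hHM, hMS := hMS }
  obtain ⟨x, hx, hQx, hx0, a, ha, ha0, h⟩ := O.first hgM hg (hno g (O.iso hgM))
  apply O.top_of_A
  apply O.A_eq hex
  intro h0
  have : a ∈ O.A := ⟨ha, O.spread_all hx hQx hx0 ha h⟩
  rw [h0] at this
  exact ha0 ((Submodule.mem_bot F).mp this)

end CfsgLib.OM29
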