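import Cfsg.Agent.LibOM29f
import Cfsg.Agent.LibH22Disc

set_option autoImplicit false

/-! Stabilizers of non-degenerate subspaces in `Ω`: final forms. -/

namespace CfsgLib.OM29

open scoped MatrixGroups Matrix
open Cfsg CfsgLib.MaxTv29 Cfsg.Agent.H22 Module

variable {ι : Type} [Fintype ι] [DecidableEq ι] {F : Type*} [Field F] {Q : QuadraticForm F (ι → F)}

local notation "B" => QuadraticMap.polar Q

theorem nd_of_geo {W : Submodule F (ι → F)} (h : Geo.IsNondegenerateOn (QuadraticMap.polar ⇑Q) W) : ND Q W := by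
  intro w hw h1
  by_contra h0
  obtain ⟨x, hx, hx'⟩ := (h w hw h0).2
  exact hx' (h1 x hx)

theorem geo_of_nd {W : Submodule F (ι → F)} (h : ND Q W) : Geo.IsNondegenerateOn (QuadraticMap.polar ⇑Q) W := by
  intro w hw h0
  have h1 : ∃ x ∈ W, B w x ≠ 0 := by
    by_contra hcon
    push Not at hcon
    exact h0 (h w hw hcon)
  refine ⟨?_, h1⟩
  obtain ⟨x, hx, hx'⟩ := h1
  exact ⟨x, hx, by rw [bsymm]; exact hx'⟩

theorem stab_orth_le (W : Submodule F (ι → F)) : Geo.subspaceStabilizer W ⊓ Geo.omegaGL ⇑Q ≤ Geo.subspaceStabilizer (orth Q W) ⊓ Geo.omegaGL ⇑Q := by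
  rintro g ⟨hg1, hg2⟩
  refine ⟨(mem_stab _ _).mpr fun x hx => mem_orth.mpr fun w hw => ?_, hg2⟩
  have h1 := (mem_stab _ _).mp (inv_mem hg1) w hw
  have h2 := mem_orth.mp hx _ h1
  rw [← isoQ_polar (omegaGL_le_iso hg2), mulVec_inv_mulVec] at h2
  exact h2

theorem stab_orth (hQ : (QuadraticMap.polarBilin Q).Nondegenerate) (W : Submodule F (ι → F)) :
    Geo.subspaceStabilizer (orth Q W) ⊓ Geo.omegaGL ⇑Q = Geo.subspaceStabilizer W ⊓ Geo.omegaGL ⇑Q := by
  apply le_antisymm
  · have := stab_orth_le (Q := Q) (orth Q W)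
    rwa [orth_orth hQ] at this
  · exact stab_orth_le W

/-- isometric complements of even dimension: plus type -/
theorem plus_of_iso [Finite F] (hQ : (QuadraticMap.polarBilin Q).Nondegenerate) {W : Submodule F (ι → F)} (hW : ND Q W) {g : GL ι F} (hg : g ∈ Cfsg.isometryGroup F ⇑Q)
    (hgW : ∀ x ∈ orth Q W, (g : Matrix ι ι F) *ᵥ x ∈ W) {k : ℕ} (hk1 : finrank F W = k) (hk2 : finrank F (orth Q W) = k) (hev : Even k) : Geo.IsPlusTypeOn ⇑Q ⊤ := by
  haveI : Fintype F := Fintype.ofFinite F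
  have hn : finrank F (ι → F) = 2 * k := by
    have := finrank_orth hQ W
    omega
  let γ : (ι → F) →ₗ[F] (ι → F) := Matrix.mulVecLin (g : Matrix ι ι F)
  have hγ : ∀ x, γ x = (g : Matrix ι ι F) *ᵥ x := fun x => rfl
  have hγQ : ∀ x, Q (γ x) = Q x := fun x => (mem_isoQ g).mp hg x
  have hγB : ∀ x y, B (γ x) (γ y) = B x y := fun x y => isoQ_polar hg x y
  have ho : ∀ x ∈ orth Q W, ∀ y ∈ orth Q W, B x (γ y) = 0 := fun x hx y hy => by rw [bsymm]; exact mem_orth.mp hx _ (hgW y hy)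
  have hzero : ∀ x ∈ orth Q W, ∀ y ∈ orth Q W, x + γ y = 0 → x = 0 ∧ y = 0 := by
    intro x hx y hy h
    have h1 : x = 0 := by
      apply ND.inf hW _ hx
      have : x = - γ y := eq_neg_of_add_eq_zero_left h
      rw [this]; exact W.neg_mem (hgW y hy)
    refine ⟨h1, ?_⟩
    rw [h1, zero_add] at h
    exact mulVec_injective g (by show (g : Matrix ι ι F) *ᵥ y = (g : Matrix ι ι F) *ᵥ 0; rw [← hγ, ← hγ, h, map_zero])
  by_cases h2 : (2 : F) = 0
  · -- characteristic two
    refine ⟨(orth Q W).map (LinearMap.id + γ), le_top, ?_, ?_⟩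
    · rintro _ ⟨x, hx, rfl⟩
      rw [LinearMap.add_apply, LinearMap.id_apply, qadd, hγQ, ho x hx x hx, add_zero, ← two_mul, h2, zero_mul]
    · have h3 : finrank F ((orth Q W).map (LinearMap.id + γ)) = finrank F (orth Q W) := by
        apply LinearEquiv.finrank_eq
        refine (LinearEquiv.ofBijective ((LinearMap.id + γ).submoduleMap (orth Q W)) ⟨?_, LinearMap.submoduleMap_surjective _ _⟩).symm
        rw [← LinearMap.ker_eq_bot, eq_bot_iff]
        rintro ⟨x, hx⟩ h
        have h4 : x + γ x = 0 := congrArg Subtype.val (LinearMap.mem_ker.mp h)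
        exact (Submodule.mem_bot F).mpr (Subtype.ext (hzero x hx x hx h4).1)
      rw [h3, finrank_top, hk2, hn]
  · -- odd characteristic
    let b := finBasisOfFinrankEq F (orth Q W) hk2
    let φ : (orth Q W × orth Q W) →ₗ[F] (ι → F) := LinearMap.coprod (orth Q W).subtype (γ.comp (orth Q W).subtype)
    have hφ : ∀ x y, φ (x, y) = (x : ι → F) + γ y := fun x y => rfl
    have hφi : Function.Injective φ := by
      rw [← LinearMap.ker_eq_bot, eq_bot_iff]
      rintro ⟨x, y⟩ h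
      have h4 := hzero x x.2 y y.2 (LinearMap.mem_ker.mp h)
      exact (Submodule.mem_bot F).mpr (Prod.ext (Subtype.ext h4.1) (Subtype.ext h4.2))
    let φ' : (orth Q W × orth Q W) ≃ₗ[F] (ι → F) := LinearMap.linearEquivOfInjective φ hφi (by rw [finrank_prod, hk2, hn, two_mul])
    let c := (b.prod b).map φ'
    have hc1 : ∀ i, c (Sum.inl i) = b i := by
      intro i
      show φ' ((b.prod b) (Sum.inl i)) = b i
      have : φ' ((b.prod b) (Sum.inl i)) = φ ((b.prod b) (Sum.inl i)) := rfl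
      rw [this]
      have h5 : (b.prod b) (Sum.inl i) = (b i, 0) := by simp [Basis.prod_apply]
      rw [h5, hφ, ZeroMemClass.coe_zero, map_zero, add_zero]
    have hc2 : ∀ i, c (Sum.inr i) = γ (b i) := by
      intro i
      show φ' ((b.prod b) (Sum.inr i)) = γ (b i)
      have : φ' ((b.prod b) (Sum.inr i)) = φ ((b.prod b) (Sum.inr i)) := rfl
      rw [this]
      have h5 : (b.prod b) (Sum.inr i) = (0, b i) := by simp [Basis.prod_apply]
      rw [h5, hφ, ZeroMemClass.coe_zero, zero_add]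
    have hG : Dis c (QuadraticMap.polarBilin Q) = (Matrix.of fun i j => B (b i) (b j)).det ^ 2 := by
      unfold Dis
      have : LinearMap.BilinForm.toMatrix c (QuadraticMap.polarBilin Q) = Matrix.fromBlocks (Matrix.of fun i j => B (b i) (b j)) 0 0 (Matrix.of fun i j => B (b i) (b j)) := by
        ext i j
        rw [LinearMap.BilinForm.toMatrix_apply]
        show B (c i) (c j) = _
        rcases i with i | i <;> rcases j with j | j
        · rw [hc1, hc1]; rfl
        · rw [hc1, hc2, ho _ (b i).2 _ (b j).2]; rfl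
        · rw [hc1, hc2, bsymm, ho _ (b j).2 _ (b i).2]; rfl
        · rw [hc2, hc2, hγB]; rfl
      rw [this, Matrix.det_fromBlocks_zero₂₁, sq]
    obtain ⟨T, hT1, hT2⟩ := ti_of_disc h2 hQ ⟨fun x y => bsymm x y⟩ hn c (by
      rw [hev.neg_one_pow, one_mul, hG, sq]
      exact ⟨_, rfl⟩)
    refine ⟨T, le_top, fun x hx => ?_, by rw [hT1, finrank_top, hn]⟩
    have h5 : B x x = 0 := hT2 x hx x hx
    rw [pself] at h5
    exact (mul_eq_zero.mp h5).resolve_left h2

/-- **final form** -/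
theorem nd_final [Finite F] (hQ : (QuadraticMap.polarBilin Q).Nondegenerate) (h13 : 13 ≤ finrank F (ι → F)) (W : Submodule F (ι → F)) (hW0 : W ≠ ⊥) (hW1 : W ≠ ⊤)
    (hW : ND Q W) (hex1 : ¬ (Nat.card F ≤ 3 ∧ finrank F W = 2 ∧ Geo.IsPlusTypeOn ⇑Q W)) (hex2 : ¬ (Nat.card F ≤ 3 ∧ finrank F (orth Q W) = 2 ∧ Geo.IsPlusTypeOn ⇑Q (orth Q W)))
    (hdim : 2 * finrank F W = finrank F (ι → F) → Even (finrank F W) ∧ ¬ Geo.IsPlusTypeOn ⇑Q ⊤) :
    Geo.IsMaximalIn (Geo.omegaGL ⇑Q) (Geo.subspaceStabilizer W ⊓ Geo.omegaGL ⇑Q) := by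
  have key : ∀ W : Submodule F (ι → F), W ≠ ⊥ → ND Q W → finrank F W ≤ finrank F (orth Q W) → ¬ (Nat.card F ≤ 3 ∧ finrank F W = 2 ∧ Geo.IsPlusTypeOn ⇑Q W) →
      (2 * finrank F W = finrank F (ι → F) → Even (finrank F W) ∧ ¬ Geo.IsPlusTypeOn ⇑Q ⊤) →
      Geo.IsMaximalIn (Geo.omegaGL ⇑Q) (Geo.subspaceStabilizer W ⊓ Geo.omegaGL ⇑Q) := by
    intro W hW0 hW hle hex hdim
    have hd := finrank_orth hQ W
    refine nd_maximal hQ W hW0 hW (by omega) hex fun g hg hgW => ?_
    have h1 : finrank F (orth Q W) ≤ finrank F W := by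
      have h2 : finrank F ((orth Q W).map (le g).toLinearMap) = finrank F (orth Q W) := LinearEquiv.finrank_map_eq (le g) (orth Q W)
      rw [← h2]
      apply Submodule.finrank_mono
      rintro _ ⟨x, hx, rfl⟩
      exact hgW x hx
    obtain ⟨h3, h4⟩ := hdim (by omega)
    exact h4 (plus_of_iso hQ hW hg hgW rfl (by omega) h3)
  have hd := finrank_orth hQ W
  rcases Nat.le_total (finrank F W) (finrank F (orth Q W)) with h | h
  · exact key W hW0 hW h hex1 hdim
  · rw [← stab_orth hQ]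
    apply key _ _ (hW.orth_nd hQ) (by rw [orth_orth hQ]; exact h) hex2
    · intro h1
      have h2 := hdim (by omega)
      refine ⟨?_, h2.2⟩
      have : finrank F (orth Q W) = finrank F W := by omega
      rw [this]; exact h2.1
    · intro h1
      apply hW1
      rw [← orth_orth hQ W, h1]
      rw [eq_top_iff]
      intro x _
      rw [mem_orth]
      intro w hw
      rw [(Submodule.mem_bot F).mp hw, QuadraticMap.polar_zero_left]

end CfsgLib.OM29
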