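import Cfsg.Agent.LibOM29f

set_option autoImplicit false

/-! Stabilizers of non-singular vectors in `Ω`, characteristic two; hyperbolic planes over small fields. -/

namespace CfsgLib.OM29

open scoped MatrixGroups Matrix
open Cfsg CfsgLib.MaxTv29 Cfsg.Agent.H22 Module

variable {ι : Type} [Fintype ι] [DecidableEq ι] {F : Type*} [Field F] {Q : QuadraticForm F (ι → F)}

local notation "B" => QuadraticMap.polar Q

/-- a subgroup containing the Eichler transformations of the complement of `W` -/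
structure Pv (Q : QuadraticForm F (ι → F)) (W : Submodule F (ι → F)) (M : Subgroup (GL ι F)) : Prop extends Dat Q W where
  perp : ∀ v ∈ orth Q W, ∀ w ∈ orth Q W, Q v = 0 → QuadraticMap.polar Q v w = 0 → EM Q v w ∈ M

namespace Pv

variable {W : Submodule F (ι → F)} {M : Subgroup (GL ι F)} (D : Pv Q W M)

include D

/-- **spreading** -/
theorem spread {x y a : ι → F} (hx : x ∈ orth Q W) (hy : y ∈ orth Q W) (hQx : Q x = 0) (hQy : Q y = 0) (hxy : B x y = 0) (hxs : x ∉ Submodule.span F {y}) (ha : a ∈ W)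
    (h : EM Q x a ∈ M) (c : F) : EM Q (c • y) a ∈ M := by
  obtain ⟨w, hw, hw1, hw2⟩ := D.toDat.func (Submodule.span F {y}) (by rw [Submodule.span_singleton_le_iff_mem]; exact hy) hx hxs
  have hyw : B y w = 0 := hw1 y (Submodule.mem_span_singleton_self y)
  set w' := (-(c * (B x w)⁻¹)) • w with hw'
  have hw'W : w' ∈ orth Q W := (orth Q W).smul_mem _ hw
  have hyw' : B y w' = 0 := by rw [hw', QuadraticMap.polar_smul_right, hyw, smul_zero]
  have hxw' : B w' x = -c := by
    rw [bsymm, hw', QuadraticMap.polar_smul_right, smul_eq_mul]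
    have : (B x w)⁻¹ * B x w = 1 := inv_mul_cancel₀ hw2
    linear_combination (-c) * this
  have hyx : B y x = 0 := by rw [bsymm]; exact hxy
  have hxa : B x a = 0 := D.o' ha hx
  have hya : B y a = 0 := D.o' ha hy
  have hw'a : B w' a = 0 := D.o' ha hw'W
  have hh := D.perp y hy w' hw'W hQy hyw'
  have hc := EM_conj (EM_iso y w') hQx hxa
  have f1 : ((EM Q y w' : GL ι F) : Matrix ι ι F) *ᵥ x = x + c • y := by
    rw [EM_mulVec hQy hyw', hyx, hxw']; module
  have f2 : ((EM Q y w' : GL ι F) : Matrix ι ι F) *ᵥ a = a := by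
    rw [EM_mulVec hQy hyw', hya, hw'a]; module
  rw [f1, f2] at hc
  have h1 : EM Q (x + c • y) a ∈ M := by
    rw [← hc]; exact M.mul_mem (M.mul_mem hh h) (M.inv_mem hh)
  have hcy : c • y ∈ orth Q W := (orth Q W).smul_mem _ hy
  have h2 := EM_mul_EM (a := a) hQx (show Q (c • y) = 0 by rw [qsmul, hQy, mul_zero]) (show B x (c • y) = 0 by rw [QuadraticMap.polar_smul_right, hxy, smul_zero]) hxa (D.o' ha hcy)
  have h3 : EM Q x (Q a • c • y) ∈ M := D.perp x hx _ ((orth Q W).smul_mem _ hcy) hQx (by rw [QuadraticMap.polar_smul_right, QuadraticMap.polar_smul_right, hxy, smul_zero, smul_zero])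
  have h4 : EM Q x a * EM Q (c • y) a ∈ M := by rw [h2]; exact M.mul_mem h1 h3
  exact (M.mul_mem_cancel_left h).mp h4

theorem spread_all [Finite F] {x a : ι → F} (hx : x ∈ orth Q W) (hQx : Q x = 0) (hx0 : x ≠ 0) (ha : a ∈ W) (h : EM Q x a ∈ M) :
    ∀ z ∈ orth Q W, Q z = 0 → EM Q z a ∈ M := by
  intro z hz hQz
  obtain ⟨y, hy, hQy, hxy, hzy, hys⟩ := D.toDat.sing2 x z
  have h1 := D.spread hx hy hQx hQy hxy (notmem_span_swap hx0 (notmem_span_left hys)) ha h 1
  rw [one_smul] at h1
  have h2 := D.spread hy hz hQy hQz (by rw [bsymm]; exact hzy) (notmem_span_right hys) ha h1 1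
  rwa [one_smul] at h2

theorem top [Finite F] (hmix : ∀ z ∈ orth Q W, Q z = 0 → ∀ a ∈ W, EM Q z a ∈ M) : Geo.omegaGL ⇑Q ≤ M := by
  haveI : Fintype F := Fintype.ofFinite F
  obtain ⟨e, f, e', f', u', hs⟩ := exists_HS D.hQ D.toDat.five
  have h1 : ∀ z ∈ orth Q W, Q z = 0 → Full Q M z := by
    intro z hz hQz
    refine ⟨hQz, fun w hw => ?_⟩
    obtain ⟨a, ha, b, hb, rfl⟩ := D.hW.decomp D.hQ w
    have hzb : B z b = 0 := by
      rw [QuadraticMap.polar_add_right, D.o' ha hz, zero_add] at hw; exact hw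
    rw [EM_add hQz (D.o' ha hz) hzb]
    exact M.mul_mem (hmix z hz hQz a ha) (D.perp z hz b hb hQz hzb)
  have h2 : ∀ a ∈ W, ∀ b ∈ orth Q W, b ≠ 0 → Q (a + b) = 0 → Full Q M (a + b) := by
    intro a ha b hb hb0 hQab
    obtain ⟨x, hx, hQx, hxb⟩ : ∃ x ∈ orth Q W, Q x = 0 ∧ B x b ≠ 0 := by
      by_contra hcon
      push Not at hcon
      apply hb0
      have h3 := D.toDat.rich (LinearMap.ker ((QuadraticMap.polarBilin Q) b)) (fun y hy hQy => by
        rw [LinearMap.mem_ker]
        show B b y = 0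
        rw [bsymm]; exact hcon y hy hQy)
      exact (D.hW.orth_nd D.hQ) b hb (fun y hy => LinearMap.mem_ker.mp (h3 hy))
    have hxa : B x a = 0 := D.o' ha hx
    set a' := (-(B x b)⁻¹) • a with ha'
    have ha'W : a' ∈ W := W.smul_mem _ ha
    have hxa' : B x a' = 0 := D.o' ha'W hx
    have hEM := hmix x hx hQx a' ha'W
    have h4 : Full Q M (((EM Q x a' : GL ι F) : Matrix ι ι F) *ᵥ (a + b)) := by
      apply h1
      · rw [EM_mulVec hQx hxa', QuadraticMap.polar_add_right, hxa, zero_add]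
        have : a + b + B x b • a' = b := by
          rw [ha', smul_smul, mul_neg, mul_inv_cancel₀ hxb]; module
        rw [this]
        exact (orth Q W).sub_mem ((orth Q W).sub_mem hb ((orth Q W).smul_mem _ hx)) ((orth Q W).smul_mem _ hx)
      · rw [(mem_isoQ _).mp (EM_iso x a')]; exact hQab
    have h5 := h4.conj (M.inv_mem hEM) ((Cfsg.isometryGroup F ⇑Q).inv_mem (EM_iso x a'))
    rwa [inv_mulVec_mulVec] at h5
  apply full_top D.hQ hs D.toDat.five
  intro v hv
  obtain ⟨a, ha, b, hb, rfl⟩ := D.hW.decomp D.hQ v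
  by_cases hb0 : b = 0
  · subst hb0
    rw [add_zero] at hv ⊢
    obtain ⟨x, hx, hQx, -, -, hxs⟩ := D.toDat.sing2 0 0
    have hx0 := ne_zero_of_notmem hxs
    by_cases ha0 : a = 0
    · subst ha0
      have := (h1 x hx hQx).smul 0
      rwa [zero_smul] at this
    obtain ⟨a', ha', haa'⟩ : ∃ a' ∈ W, B a a' ≠ 0 := by
      by_contra hcon
      push Not at hcon
      exact ha0 (D.hW a ha hcon)
    have hxa' : B x a' = 0 := D.o' ha' hx
    have hEM := hmix x hx hQx a' ha'
    have e1 : ((EM Q x a' : GL ι F) : Matrix ι ι F) *ᵥ a = a + (-(B a a')) • x := by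
      rw [EM_mulVec hQx hxa', D.o' ha hx, bsymm a' a]; module
    have h4 : Full Q M (((EM Q x a' : GL ι F) : Matrix ι ι F) *ᵥ a) := by
      rw [e1]
      apply h2 a ha _ ((orth Q W).smul_mem _ hx) (smul_ne_zero (neg_ne_zero.mpr haa') hx0)
      rw [← e1, (mem_isoQ _).mp (EM_iso x a')]; exact hv
    have h5 := h4.conj (M.inv_mem hEM) ((Cfsg.isometryGroup F ⇑Q).inv_mem (EM_iso x a'))
    rwa [inv_mulVec_mulVec] at h5
  · exact h2 a ha b hb hb0 hv

end Pv

/-- **stabilizers of non-singular vectors in characteristic two** -/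
theorem nonsing_maximal [Finite F] (hQ : (QuadraticMap.polarBilin Q).Nondegenerate) (h2 : (2 : F) = 0) (h9 : 9 ≤ finrank F (ι → F)) (v : ι → F) (hv : Q v ≠ 0) :
    Geo.IsMaximalIn (Geo.omegaGL ⇑Q) (Geo.subspaceStabilizer (Submodule.span F {v}) ⊓ Geo.omegaGL ⇑Q) := by
  haveI : Fintype F := Fintype.ofFinite F
  obtain ⟨e, f, e', f', u', hs⟩ := exists_HS hQ (by omega : 5 ≤ finrank F (ι → F))
  have hv0 : v ≠ 0 := by rintro rfl; exact hv (QuadraticMap.map_zero Q)
  have hvv : B v v = 0 := by rw [pself, h2, zero_mul]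
  have hH : ∀ x w, Q x = 0 → B x w = 0 → B x v = 0 → B w v = 0 → EM Q x w ∈ Geo.subspaceStabilizer (Submodule.span F {v}) ⊓ Geo.omegaGL ⇑Q := by
    intro x w hQx hxw hxv hwv
    refine ⟨(mem_stab _ _).mpr fun z hz => ?_, EM_omega hQ hs (by omega) hQx hxw⟩
    obtain ⟨k, rfl⟩ := Submodule.mem_span_singleton.mp hz
    rw [EM_mulVec hQx hxw, QuadraticMap.polar_smul_right, QuadraticMap.polar_smul_right, hxv, hwv]
    simpa using hz
  -- planes spanned by `v` and a vector `w` not orthogonal to `v`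
  have hpl : ∀ w, B w v ≠ 0 → Dat Q (Submodule.span F {v, w}) := by
    intro w hwv
    refine ⟨hQ, ?_, ?_⟩
    · intro z hz h
      obtain ⟨s, t, rfl⟩ := Submodule.mem_span_pair.mp hz
      have e1 := h v (Submodule.subset_span (by simp))
      have e2 := h w (Submodule.subset_span (by simp))
      rw [QuadraticMap.polar_add_left, QuadraticMap.polar_smul_left, QuadraticMap.polar_smul_left, hvv, smul_zero, zero_add, smul_eq_mul] at e1
      have ht : t = 0 := (mul_eq_zero.mp e1).resolve_right hwv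
      rw [ht, zero_smul, add_zero, QuadraticMap.polar_smul_left, smul_eq_mul] at e2
      have hs : s = 0 := (mul_eq_zero.mp e2).resolve_right (by rw [bsymm]; exact hwv)
      rw [hs, ht]; simp
    · have := finrank_orth hQ (Submodule.span F {v, w})
      have := fr_pair (F := F) v w
      omega
  refine ⟨lt_of_le_of_ne inf_le_right ?_, fun M hHM hMS => ?_⟩
  · intro heq
    -- `w` not orthogonal to `v`
    obtain ⟨w, -, hw⟩ := orth_func hQ ⊥ v (fun h => hv0 ((Submodule.mem_bot F).mp h))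
    have hwv : B w v ≠ 0 := by rw [bsymm]; exact hw
    have D := hpl w hwv
    obtain ⟨x, hx, hQx, -, -, hxs⟩ := D.sing2 0 0
    have hxw : B x w = 0 := D.o' (Submodule.subset_span (by simp)) hx
    have hxv : B x v = 0 := D.o' (Submodule.subset_span (by simp)) hx
    have h1 : EM Q x w ∈ Geo.subspaceStabilizer (Submodule.span F {v}) ⊓ Geo.omegaGL ⇑Q := by
      rw [heq]; exact EM_omega hQ hs (by omega) hQx hxw
    have h3 := (mem_stab _ _).mp h1.1 v (Submodule.mem_span_singleton_self v)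
    rw [EM_mulVec hQx hxw, hxv] at h3
    have e1 : v + (0 : F) • w - B w v • x - (Q w * 0) • x = v + (-(B w v)) • x := by module
    rw [e1, (Submodule.span F {v}).add_mem_iff_right (Submodule.mem_span_singleton_self v), Submodule.smul_mem_iff _ (neg_ne_zero.mpr hwv)] at h3
    exact ne_zero_of_notmem hxs (ND.inf D.hW (Submodule.span_mono (by simp) h3) hx)
  by_cases hMH : M = Geo.subspaceStabilizer (Submodule.span F {v}) ⊓ Geo.omegaGL ⇑Q
  · exact Or.inl hMH
  right
  apply le_antisymm hMS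
  obtain ⟨g, hgM, hg⟩ : ∃ g ∈ M, g ∉ Geo.subspaceStabilizer (Submodule.span F {v}) := by
    by_contra hcon
    push Not at hcon
    exact hMH (le_antisymm (le_inf hcon hMS) hHM)
  have hgi : g ∈ Cfsg.isometryGroup F ⇑Q := omegaGL_le_iso (hMS hgM)
  have hgv : (g : Matrix ι ι F) *ᵥ v ∉ Submodule.span F {v} := by
    intro h
    apply hg
    refine (mem_stab _ _).mpr fun z hz => ?_
    obtain ⟨k, rfl⟩ := Submodule.mem_span_singleton.mp hz
    rw [Matrix.mulVec_smul]
    exact Submodule.smul_mem _ _ h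
  set v' := (g : Matrix ι ι F) *ᵥ v with hv'
  -- the Eichler transformations fixing `v'`
  have hH' : ∀ x w, Q x = 0 → B x w = 0 → B x v' = 0 → B w v' = 0 → EM Q x w ∈ M := by
    intro x w hQx hxw hxv hwv
    have i1 : ∀ z y, B (((g⁻¹ : GL ι F) : Matrix ι ι F) *ᵥ z) y = B z ((g : Matrix ι ι F) *ᵥ y) := by
      intro z y
      rw [← isoQ_polar hgi, mulVec_inv_mulVec]
    have h3 := hH (((g⁻¹ : GL ι F) : Matrix ι ι F) *ᵥ x) (((g⁻¹ : GL ι F) : Matrix ι ι F) *ᵥ w)
      (by rw [(mem_isoQ _).mp ((Cfsg.isometryGroup F ⇑Q).inv_mem hgi)]; exact hQx) (by rw [i1, mulVec_inv_mulVec]; exact hxw) (by rw [i1]; exact hxv) (by rw [i1]; exact hwv)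
    have h4 := EM_conj hgi (v := ((g⁻¹ : GL ι F) : Matrix ι ι F) *ᵥ x) (w := ((g⁻¹ : GL ι F) : Matrix ι ι F) *ᵥ w)
      (by rw [(mem_isoQ _).mp ((Cfsg.isometryGroup F ⇑Q).inv_mem hgi)]; exact hQx) (by rw [i1, mulVec_inv_mulVec]; exact hxw)
    rw [mulVec_inv_mulVec, mulVec_inv_mulVec] at h4
    rw [← h4]
    exact M.mul_mem (M.mul_mem hgM (hHM h3)) (M.inv_mem hgM)
  -- a first element
  obtain ⟨x, hx, hQx, hxs⟩ : ∃ x ∈ orth Q (Submodule.span F {v, v'}), Q x = 0 ∧ x ∉ Submodule.span F {v, v'} := by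
    apply exists_singular_avoid
    have := finrank_orth hQ (Submodule.span F {v, v'})
    have := fr_pair (F := F) v v'
    omega
  have hvx : B v x = 0 := mem_orth.mp hx v (Submodule.subset_span (by simp))
  have hv'x : B v' x = 0 := mem_orth.mp hx v' (Submodule.subset_span (by simp))
  have hvs : v ∉ Submodule.span F {x, v'} := by
    intro h
    obtain ⟨s, t, hst⟩ := Submodule.mem_span_pair.mp h
    by_cases hs0 : s = 0
    · rw [hs0, zero_smul, zero_add] at hst
      have ht0 : t ≠ 0 := by rintro rfl; exact hv0 (by rw [← hst, zero_smul])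
      apply hgv
      exact Submodule.mem_span_singleton.mpr ⟨t⁻¹, by rw [← hst, smul_smul, inv_mul_cancel₀ ht0, one_smul]⟩
    · apply hxs
      exact Submodule.mem_span_pair.mpr ⟨s⁻¹, -(s⁻¹ * t), by
        have : x = s⁻¹ • (s • x + t • v') + (-(s⁻¹ * t)) • v' := by
          rw [smul_add, smul_smul, inv_mul_cancel₀ hs0, one_smul]; module
        rw [hst] at this
        exact this.symm⟩
  obtain ⟨w, hw, hvw⟩ := orth_func hQ _ v hvs
  have hxw : B x w = 0 := mem_orth.mp hw x (Submodule.subset_span (by simp))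
  have hv'w : B v' w = 0 := mem_orth.mp hw v' (Submodule.subset_span (by simp))
  have hwv : B w v ≠ 0 := by rw [bsymm]; exact hvw
  have hfirst : EM Q x w ∈ M := hH' x w hQx hxw (by rw [bsymm]; exact hv'x) (by rw [bsymm]; exact hv'w)
  have D := hpl w hwv
  have P : Pv Q (Submodule.span F {v, w}) M := ⟨D, fun a ha b hb hQa hab => hHM
    (hH a b hQa hab (D.o' (Submodule.subset_span (by simp)) ha) (D.o' (Submodule.subset_span (by simp)) hb))⟩
  have hxW : x ∈ orth Q (Submodule.span F {v, w}) := by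
    rw [mem_orth]
    intro z hz
    obtain ⟨s, t, rfl⟩ := Submodule.mem_span_pair.mp hz
    rw [QuadraticMap.polar_add_left, QuadraticMap.polar_smul_left, QuadraticMap.polar_smul_left, hvx, bsymm w x, hxw]; simp
  have hall := P.spread_all hxW hQx (ne_zero_of_notmem hxs) (Submodule.subset_span (by simp)) hfirst
  apply P.top
  intro z hz hQz a ha
  obtain ⟨s, t, rfl⟩ := Submodule.mem_span_pair.mp ha
  have hzv : B z v = 0 := D.o' (Submodule.subset_span (by simp)) hz
  have hzw : B z w = 0 := D.o' (Submodule.subset_span (by simp)) hz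
  rw [EM_add hQz (by rw [QuadraticMap.polar_smul_right, hzv, smul_zero]) (by rw [QuadraticMap.polar_smul_right, hzw, smul_zero])]
  apply M.mul_mem
  · exact hHM (hH z _ hQz (by rw [QuadraticMap.polar_smul_right, hzv, smul_zero]) hzv (by rw [QuadraticMap.polar_smul_left, hvv, smul_zero]))
  · rw [← EM_smul_left hQz hzw]
    exact hall _ (Submodule.smul_mem _ _ hz) (by rw [qsmul, hQz, mul_zero])

/-- **hyperbolic planes over fields with at most three elements** -/
theorem plane_not_maximal [Finite F] (hQ : (QuadraticMap.polarBilin Q).Nondegenerate) (hF : Nat.card F ≤ 3) (h9 : 9 ≤ finrank F (ι → F)) (W : Submodule F (ι → F)) (hW2 : finrank F W = 2)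
    (hW : ND Q W) (hpl : Geo.IsPlusTypeOn ⇑Q W) : ∃ K : Subgroup (GL ι F), Geo.subspaceStabilizer W ⊓ Geo.omegaGL ⇑Q < K ∧ K < Geo.omegaGL ⇑Q := by
  haveI : Fintype F := Fintype.ofFinite F
  obtain ⟨e1, f1, e', f', u', hs⟩ := exists_HS hQ (by omega : 5 ≤ finrank F (ι → F))
  have D : Dat Q W := ⟨hQ, hW, by have := finrank_orth hQ W; omega⟩
  -- the hyperbolic pair
  obtain ⟨U, hUW, hU, hUd⟩ := hpl
  obtain ⟨e, heU, he0⟩ : ∃ e ∈ U, e ≠ 0 := by
    apply Submodule.exists_mem_ne_zero_of_ne_bot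
    rintro rfl
    rw [finrank_bot] at hUd
    omega
  have heW := hUW heU
  have hQe : Q e = 0 := hU e heU
  obtain ⟨z, hz, hez⟩ : ∃ z ∈ W, B e z ≠ 0 := by
    by_contra hcon
    push Not at hcon
    exact he0 (hW e heW hcon)
  obtain ⟨f, hfW, hQf, hef⟩ : ∃ f ∈ W, Q f = 0 ∧ B e f = 1 := by
    refine ⟨(B e z)⁻¹ • (z + (-(Q z * (B e z)⁻¹)) • e), W.smul_mem _ (W.add_mem hz (W.smul_mem _ heW)), ?_, ?_⟩
    · rw [qsmul, qadd, qsmul, hQe, QuadraticMap.polar_smul_right, bsymm z e, smul_eq_mul]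
      have : (B e z)⁻¹ * B e z = 1 := inv_mul_cancel₀ hez
      linear_combination (-(B e z)⁻¹ * (B e z)⁻¹ * Q z) * this
    · rw [QuadraticMap.polar_smul_right, QuadraticMap.polar_add_right, QuadraticMap.polar_smul_right, bself hQe, smul_zero, add_zero, smul_eq_mul, inv_mul_cancel₀ hez]
  have hee := bself hQe
  have hff := bself hQf
  have hfe : B f e = 1 := by rw [bsymm]; exact hef
  have hspan : Submodule.span F {e, f} = W := by
    apply Submodule.eq_of_le_of_finrank_le
    · rw [Submodule.span_le]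
      rintro x (rfl | rfl)
      · exact heW
      · exact hfW
    · rw [hW2]
      have h1 : Submodule.span F {e} < Submodule.span F {e, f} := by
        refine lt_of_le_of_ne (Submodule.span_mono (by simp)) ?_
        intro h
        have : f ∈ Submodule.span F {e} := by rw [h]; exact Submodule.subset_span (by simp)
        obtain ⟨k, rfl⟩ := Submodule.mem_span_singleton.mp this
        rw [QuadraticMap.polar_smul_right, hee, smul_zero] at hef
        exact zero_ne_one hef
      have h3 := Submodule.finrank_lt_finrank_of_lt h1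
      rw [finrank_span_singleton he0] at h3
      omega
  have hsq : ∀ s : F, s ≠ 0 → s * s = 1 := by
    intro s hs0
    have h1 := pow_card_eq_one' (G := Fˣ) (x := Units.mk0 s hs0)
    rw [Nat.card_units] at h1
    have h2 : s ^ (Nat.card F - 1) = 1 := congrArg Units.val h1
    have h3 : 1 < Nat.card F := Finite.one_lt_card
    have h4 : Nat.card F - 1 = 1 ∨ Nat.card F - 1 = 2 := by omega
    rcases h4 with h4 | h4
    · rw [h4, pow_one] at h2
      rw [h2, one_mul]
    · rw [h4, sq] at h2; exact h2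
  obtain ⟨x, hx, hQx, -, -, hxs⟩ := D.sing2 0 0
  have hx0 := ne_zero_of_notmem hxs
  have hxe : B x e = 0 := D.o' heW hx
  have hxf : B x f = 0 := D.o' hfW hx
  have hdW : e + f ∈ W := W.add_mem heW hfW
  refine ⟨Geo.subspaceStabilizer (Submodule.span F {e + f}) ⊓ Geo.omegaGL ⇑Q, lt_of_le_of_ne ?_ ?_, lt_of_le_of_ne inf_le_right ?_⟩
  · rintro g ⟨hg1, hg2⟩
    refine ⟨(mem_stab _ _).mpr fun z hz => ?_, hg2⟩
    obtain ⟨k, rfl⟩ := Submodule.mem_span_singleton.mp hz
    rw [Matrix.mulVec_smul]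
    apply Submodule.smul_mem
    have h1 := (mem_stab _ _).mp hg1 _ hdW
    have h2 := (mem_isoQ g).mp (omegaGL_le_iso hg2) (e + f)
    obtain ⟨y, hy⟩ : ∃ y, y = (g : Matrix ι ι F) *ᵥ (e + f) := ⟨_, rfl⟩
    rw [← hy] at h1 h2 ⊢
    rw [← hspan] at h1
    obtain ⟨s, t, rfl⟩ := Submodule.mem_span_pair.mp h1
    rw [qadd, qsmul, qsmul, hQe, hQf, QuadraticMap.polar_smul_left, QuadraticMap.polar_smul_right, hef, qadd, hQe, hQf, hef, smul_eq_mul, smul_eq_mul] at h2
    have h3 : s * t = 1 := by linear_combination h2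
    have hs0 : s ≠ 0 := by rintro rfl; rw [zero_mul] at h3; exact zero_ne_one h3
    have h4 : t = s := by
      have := hsq s hs0
      linear_combination s * h3 - t * this
    exact Submodule.mem_span_singleton.mpr ⟨s, by rw [h4, smul_add]⟩
  · intro heq
    have hxa : B x (e - f) = 0 := by rw [QuadraticMap.polar_sub_right, hxe, hxf, sub_zero]
    have h1 : EM Q x (e - f) ∈ Geo.subspaceStabilizer (Submodule.span F {e + f}) ⊓ Geo.omegaGL ⇑Q := by
      refine ⟨(mem_stab _ _).mpr fun z hz => ?_, EM_omega hQ hs (by omega) hQx hxa⟩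
      obtain ⟨k, rfl⟩ := Submodule.mem_span_singleton.mp hz
      have i1 : B x (k • (e + f)) = 0 := by rw [QuadraticMap.polar_smul_right, QuadraticMap.polar_add_right, hxe, hxf]; simp
      have i2 : B (e - f) (k • (e + f)) = 0 := by
        rw [QuadraticMap.polar_smul_right, QuadraticMap.polar_add_right, QuadraticMap.polar_sub_left, QuadraticMap.polar_sub_left, hee, hfe, hef, hff]; simp
      rw [EM_mulVec hQx hxa, i1, i2]
      simpa using hz
    rw [← heq] at h1
    have h3 := (mem_stab _ _).mp h1.1 e heW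
    rw [EM_mulVec hQx hxa, hxe, QuadraticMap.polar_sub_left, hee, hfe] at h3
    have h4 : e + (0 : F) • (e - f) - (0 - 1 : F) • x - (Q (e - f) * 0) • x = e + x := by module
    rw [h4, W.add_mem_iff_right heW] at h3
    exact hx0 (ND.inf hW h3 hx)
  · intro heq
    have h1 : EM Q x e ∈ Geo.subspaceStabilizer (Submodule.span F {e + f}) ⊓ Geo.omegaGL ⇑Q := by
      rw [heq]; exact EM_omega hQ hs (by omega) hQx hxe
    have h3 := (mem_stab _ _).mp h1.1 (e + f) (Submodule.mem_span_singleton_self _)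
    rw [EM_mulVec hQx hxe, QuadraticMap.polar_add_right, hxe, hxf, QuadraticMap.polar_add_right, hee, hef, hQe] at h3
    have h4 : e + f + (0 + 0 : F) • e - (0 + 1 : F) • x - ((0 : F) * (0 + 0)) • x = (e + f) + (-1 : F) • x := by module
    rw [h4, Submodule.add_mem_iff_right _ (Submodule.mem_span_singleton_self _), Submodule.smul_mem_iff _ (neg_ne_zero.mpr one_ne_zero)] at h3
    have h5 : x ∈ W := by
      obtain ⟨k, rfl⟩ := Submodule.mem_span_singleton.mp h3
      exact W.smul_mem k hdW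
    exact hx0 (ND.inf hW h5 hx)

end CfsgLib.OM29
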