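import Cfsg.Agent.LibOM29g

set_option autoImplicit false

/-! Stabilizers of pairs of complementary maximal totally singular subspaces in `Ω`. -/

namespace CfsgLib.OM29

open scoped MatrixGroups Matrix
open Cfsg CfsgLib.MaxTv29 Cfsg.Agent.H22 Module

variable {ι : Type} [Fintype ι] [DecidableEq ι] {F : Type*} [Field F] {Q : QuadraticForm F (ι → F)}

local notation "B" => QuadraticMap.polar Q

/-- a polarization of the space into totally singular subspaces -/
structure Prd (Q : QuadraticForm F (ι → F)) (U X : Submodule F (ι → F)) : Prop where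
  hQ : (QuadraticMap.polarBilin Q).Nondegenerate
  hU : ∀ u ∈ U, Q u = 0
  hX : ∀ u ∈ X, Q u = 0
  inf : U ⊓ X = ⊥
  sup : U ⊔ X = ⊤
  dim : finrank F U = finrank F X
  h7 : 7 ≤ finrank F U

theorem fr_quad (a b c d : ι → F) : finrank F (Submodule.span F {a, b} ⊔ Submodule.span F {c, d} : Submodule F (ι → F)) ≤ 4 := by
  have := Submodule.finrank_add_le_finrank_add_finrank (Submodule.span F {a, b}) (Submodule.span F {c, d})
  have := fr_pair (F := F) a b
  have := fr_pair (F := F) c d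
  omega

theorem exists_notmem {U Z : Submodule F (ι → F)} (h : finrank F Z < finrank F U) : ∃ x ∈ U, x ∉ Z := by
  by_contra hcon
  push Not at hcon
  have := Submodule.finrank_mono (show U ≤ Z from hcon)
  omega

namespace Prd

variable {U X : Submodule F (ι → F)} (P : Prd Q U X)

include P

theorem symm : Prd Q X U := ⟨P.hQ, P.hX, P.hU, by rw [inf_comm]; exact P.inf, by rw [sup_comm]; exact P.sup, P.dim.symm, by rw [← P.dim]; exact P.h7⟩

theorem dims : finrank F (ι → F) = 2 * finrank F U := by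
  have h1 := Submodule.finrank_sup_add_finrank_inf_eq U X
  rw [P.inf, P.sup, finrank_bot, finrank_top] at h1
  have := P.dim
  omega

theorem oU {a b : ι → F} (ha : a ∈ U) (hb : b ∈ U) : B a b = 0 := polar_ts P.hU ha hb

theorem oX {a b : ι → F} (ha : a ∈ X) (hb : b ∈ X) : B a b = 0 := polar_ts P.hX ha hb

theorem decomp (x : ι → F) : ∃ a ∈ U, ∃ b ∈ X, x = a + b := by
  have : x ∈ U ⊔ X := by rw [P.sup]; exact Submodule.mem_top
  obtain ⟨a, ha, b, hb, h⟩ := Submodule.mem_sup.mp this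
  exact ⟨a, ha, b, hb, h.symm⟩

theorem zero_of_mem {x : ι → F} (h1 : x ∈ U) (h2 : x ∈ X) : x = 0 := by
  have : x ∈ U ⊓ X := ⟨h1, h2⟩
  rw [P.inf] at this
  exact (Submodule.mem_bot F).mp this

/-- the pairing is perfect -/
theorem func (Z : Submodule F (ι → F)) (hZ : Z ≤ U) {x : ι → F} (hx : x ∈ U) (hxZ : x ∉ Z) : ∃ y ∈ X, (∀ z ∈ Z, B z y = 0) ∧ B x y ≠ 0 := by
  obtain ⟨s, hs, hs'⟩ := orth_func P.hQ Z x hxZ
  obtain ⟨a, ha, b, hb, rfl⟩ := P.decomp s
  refine ⟨b, hb, fun z hz => ?_, ?_⟩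
  · have := mem_orth.mp hs z hz
    rwa [QuadraticMap.polar_add_right, P.oU (hZ hz) ha, zero_add] at this
  · rwa [QuadraticMap.polar_add_right, P.oU hx ha, zero_add] at hs'

/-- vectors of `U` orthogonal to two vectors and outside a small subspace -/
theorem vec (b1 b2 : ι → F) (Z : Submodule F (ι → F)) (hZ : finrank F Z ≤ 4) : ∃ x ∈ U, B b1 x = 0 ∧ B b2 x = 0 ∧ x ∉ Z := by
  have h1 := finrank_orth P.hQ (Submodule.span F {b1, b2})
  have h2 := fr_pair (F := F) b1 b2
  have h3 := Submodule.finrank_sup_add_finrank_inf_eq U (orth Q (Submodule.span F {b1, b2}))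
  have h4 := Submodule.finrank_le (U ⊔ orth Q (Submodule.span F {b1, b2}))
  have h5 := P.dims
  have h6 := P.h7
  obtain ⟨x, hx, hxZ⟩ := exists_notmem (U := U ⊓ orth Q (Submodule.span F {b1, b2})) (Z := Z) (by omega)
  exact ⟨x, hx.1, mem_orth.mp hx.2 b1 (Submodule.subset_span (by simp)), mem_orth.mp hx.2 b2 (Submodule.subset_span (by simp)), hxZ⟩

/-- **A first element.** -/
theorem first {M : Subgroup (GL ι F)} (hM : M ≤ Cfsg.isometryGroup F ⇑Q) (hH : ∀ a ∈ U, ∀ b ∈ X, B a b = 0 → EM Q a b ∈ M)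
    {g : GL ι F} (hg : g ∈ M) {a b : ι → F} (ha : a ∈ U) (hb : b ∈ X) (hab : B a b = 0) {a1 b1 a2 b2 : ι → F} (ha1 : a1 ∈ U) (hb1 : b1 ∈ X) (ha2 : a2 ∈ U) (hb2 : b2 ∈ X)
    (e1 : (g : Matrix ι ι F) *ᵥ a = a1 + b1) (e2 : (g : Matrix ι ι F) *ᵥ b = a2 + b2) (ha20 : a2 ≠ 0) (ha12 : a1 ∉ Submodule.span F {a2}) :
    ∃ x ∈ U, ∃ c ∈ U, c ≠ 0 ∧ x ∉ Submodule.span F {c} ∧ EM Q x c ∈ M := by
  have hgi := hM hg
  have hv : Q (a1 + b1) = 0 := by rw [← e1, (mem_isoQ g).mp hgi]; exact P.hU a ha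
  have hu : Q (a2 + b2) = 0 := by rw [← e2, (mem_isoQ g).mp hgi]; exact P.hX b hb
  have hvu : B (a1 + b1) (a2 + b2) = 0 := by rw [← e1, ← e2, isoQ_polar hgi]; exact hab
  have hτ : EM Q (a1 + b1) (a2 + b2) ∈ M := by
    rw [← e1, ← e2, ← EM_conj hgi (P.hU a ha) hab]
    exact M.mul_mem (M.mul_mem hg (hH a ha b hb hab)) (M.inv_mem hg)
  obtain ⟨x, hx, hx1, hx2, hx3⟩ := P.vec b1 b2 (Submodule.span F {a1, a2}) (by have := fr_pair (F := F) a1 a2; omega)
  have hQx := P.hU x hx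
  have ha1' : a1 ∉ Submodule.span F {x, a2} := by
    intro h
    obtain ⟨c, d, hcd⟩ := Submodule.mem_span_pair.mp h
    by_cases hc : c = 0
    · rw [hc, zero_smul, zero_add] at hcd
      exact ha12 (Submodule.mem_span_singleton.mpr ⟨d, hcd⟩)
    · apply hx3
      have : x = c⁻¹ • a1 + (-(c⁻¹ * d)) • a2 := by
        rw [← hcd, smul_add, smul_smul, inv_mul_cancel₀ hc, one_smul]; module
      rw [this]
      exact Submodule.add_mem _ (Submodule.smul_mem _ _ (Submodule.subset_span (by simp))) (Submodule.smul_mem _ _ (Submodule.subset_span (by simp)))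
  obtain ⟨y, hy, hy1, hy2⟩ := P.func (Submodule.span F {x, a2}) (by
    rw [Submodule.span_le]
    rintro z (rfl | rfl)
    · exact hx
    · exact ha2) ha1 ha1'
  have hxy : B x y = 0 := hy1 x (Submodule.subset_span (by simp))
  have ha2y : B a2 y = 0 := hy1 a2 (Submodule.subset_span (by simp))
  have hh := hH x hx y hy hxy
  have hxv : B x (a1 + b1) = 0 := by rw [QuadraticMap.polar_add_right, P.oU hx ha1, bsymm x b1, hx1, add_zero]
  have hxu : B x (a2 + b2) = 0 := by rw [QuadraticMap.polar_add_right, P.oU hx ha2, bsymm x b2, hx2, add_zero]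
  have hyv : B y (a1 + b1) = B a1 y := by rw [QuadraticMap.polar_add_right, P.oX hy hb1, bsymm y a1, add_zero]
  have hyu : B y (a2 + b2) = 0 := by rw [QuadraticMap.polar_add_right, P.oX hy hb2, bsymm y a2, ha2y, add_zero]
  have hc := EM_conj (EM_iso x y) hv hvu
  have f1 : ((EM Q x y : GL ι F) : Matrix ι ι F) *ᵥ (a1 + b1) = (a1 + b1) + (-(B a1 y)) • x := by
    rw [EM_mulVec hQx hxy, hxv, hyv]; module
  have f2 : ((EM Q x y : GL ι F) : Matrix ι ι F) *ᵥ (a2 + b2) = a2 + b2 := by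
    rw [EM_mulVec hQx hxy, hxu, hyu]; module
  rw [f1, f2] at hc
  have h1 : EM Q (a1 + b1 + (-(B a1 y)) • x) (a2 + b2) ∈ M := by
    rw [← hc]; exact M.mul_mem (M.mul_mem hh hτ) (M.inv_mem hh)
  rw [EM_add_left hv (by rw [qsmul, hQx, mul_zero]) hu (by rw [QuadraticMap.polar_smul_right, bsymm _ x, hxv, smul_zero]) hvu (by rw [QuadraticMap.polar_smul_left, hxu, smul_zero])] at h1
  have h2 : EM Q ((-(B a1 y)) • x) (a2 + b2) ∈ M := (M.mul_mem_cancel_left hτ).mp h1
  have hx' : (-(B a1 y)) • x ∈ U := U.smul_mem _ hx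
  have hQx' := P.hU _ hx'
  have hxa : B ((-(B a1 y)) • x) a2 = 0 := P.oU hx' ha2
  have hxb : B ((-(B a1 y)) • x) b2 = 0 := by rw [QuadraticMap.polar_smul_left, bsymm x b2, hx2, smul_zero]
  rw [EM_add hQx' hxa hxb] at h2
  have h3 := (M.mul_mem_cancel_right (hH _ hx' b2 hb2 hxb)).mp h2
  refine ⟨_, hx', a2, ha2, ha20, ?_, h3⟩
  rw [Submodule.smul_mem_iff _ (neg_ne_zero.mpr hy2)]
  exact notmem_span_right hx3

/-- **spreading** -/
theorem spread {M : Subgroup (GL ι F)} (hH : ∀ a ∈ U, ∀ b ∈ X, B a b = 0 → EM Q a b ∈ M) {x c z : ι → F} (hx : x ∈ U) (hc : c ∈ U) (hz : z ∈ U)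
    (hxs : x ∉ Submodule.span F {c, z}) (h : EM Q x c ∈ M) : EM Q z c ∈ M := by
  obtain ⟨y, hy, hy1, hy2⟩ := P.func (Submodule.span F {c, z}) (by
    rw [Submodule.span_le]
    rintro w (rfl | rfl)
    · exact hc
    · exact hz) hx hxs
  set y' := (-(B x y)⁻¹) • y with hy'
  have hy'X : y' ∈ X := X.smul_mem _ hy
  have hcy : B c y' = 0 := by rw [hy', QuadraticMap.polar_smul_right, hy1 c (Submodule.subset_span (by simp)), smul_zero]
  have hzy : B z y' = 0 := by rw [hy', QuadraticMap.polar_smul_right, hy1 z (Submodule.subset_span (by simp)), smul_zero]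
  have hxy : B x y' = -1 := by rw [hy', QuadraticMap.polar_smul_right, smul_eq_mul, neg_mul, inv_mul_cancel₀ hy2]
  have hh := hH z hz y' hy'X hzy
  have hc' := EM_conj (EM_iso z y') (P.hU x hx) (P.oU hx hc)
  have f1 : ((EM Q z y' : GL ι F) : Matrix ι ι F) *ᵥ x = x + z := by
    rw [EM_mulVec (P.hU z hz) hzy, P.oU hz hx, bsymm y' x, hxy]; module
  have f2 : ((EM Q z y' : GL ι F) : Matrix ι ι F) *ᵥ c = c := by
    rw [EM_mulVec (P.hU z hz) hzy, P.oU hz hc, bsymm y' c, hcy]; module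
  rw [f1, f2] at hc'
  have h1 : EM Q (x + z) c ∈ M := by
    rw [← hc']; exact M.mul_mem (M.mul_mem hh h) (M.inv_mem hh)
  rw [EM_add_left (P.hU x hx) (P.hU z hz) (P.hU c hc) (P.oU hx hz) (P.oU hx hc) (P.oU hz hc)] at h1
  exact (M.mul_mem_cancel_left h).mp h1

omit P in
theorem _root_.CfsgLib.OM29.EM_swap {x y : ι → F} (hx : Q x = 0) (hy : Q y = 0) (hxy : B x y = 0) : EM Q x y = (EM Q y x)⁻¹ := by
  have hyx : B y x = 0 := by rw [bsymm]; exact hxy
  rw [eq_inv_iff_mul_eq_one]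
  apply gl_ext
  intro z
  rw [Units.val_mul, ← Matrix.mulVec_mulVec, EM_mulVec hy hyx, EM_mulVec hx hxy, Units.val_one, Matrix.one_mulVec]
  simp only [QuadraticMap.polar_add_right, QuadraticMap.polar_sub_right, QuadraticMap.polar_smul_right, smul_eq_mul, bself hx, bself hy, hxy, hyx, hx, hy]
  module

/-- one non-trivial element suffices for the whole unipotent radical -/
theorem radical {M : Subgroup (GL ι F)} (hH : ∀ a ∈ U, ∀ b ∈ X, B a b = 0 → EM Q a b ∈ M) {x c : ι → F} (hx : x ∈ U) (hc : c ∈ U) (hc0 : c ≠ 0) (hxc : x ∉ Submodule.span F {c})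
    (h : EM Q x c ∈ M) : ∀ z ∈ U, ∀ w ∈ U, EM Q z w ∈ M := by
  -- all `EM z c`
  have h1 : ∀ {x c : ι → F}, x ∈ U → c ∈ U → x ∉ Submodule.span F {c} → EM Q x c ∈ M → ∀ z ∈ U, EM Q z c ∈ M := by
    intro x c hx hc hxc h z hz
    obtain ⟨z0, hz0, -, -, hz0s⟩ := P.vec 0 0 (Submodule.span F {x, c} ⊔ Submodule.span F {c, z}) (fr_quad _ _ _ _)
    have h2 : EM Q z0 c ∈ M := by
      apply P.spread hH hx hc hz0 _ h
      intro h3
      obtain ⟨s, t, hst⟩ := Submodule.mem_span_pair.mp h3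
      by_cases ht : t = 0
      · rw [ht, zero_smul, add_zero] at hst
        exact hxc (Submodule.mem_span_singleton.mpr ⟨s, hst⟩)
      · apply hz0s
        apply Submodule.mem_sup_left
        have : z0 = t⁻¹ • x + (-(t⁻¹ * s)) • c := by
          rw [← hst, smul_add, smul_smul, smul_smul, inv_mul_cancel₀ ht, one_smul]; module
        rw [this]
        exact Submodule.add_mem _ (Submodule.smul_mem _ _ (Submodule.subset_span (by simp))) (Submodule.smul_mem _ _ (Submodule.subset_span (by simp)))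
    exact P.spread hH hz0 hc hz (fun h3 => hz0s (Submodule.mem_sup_right h3)) h2
  have h2 : ∀ {x c : ι → F}, x ∈ U → c ∈ U → EM Q x c ∈ M → EM Q c x ∈ M := by
    intro x c hx hc h
    rw [EM_swap (P.hU c hc) (P.hU x hx) (P.oU hc hx)]
    exact M.inv_mem h
  -- all `EM z w` with `z` outside the span of `c`
  have h3 : ∀ {x c : ι → F}, x ∈ U → c ∈ U → c ≠ 0 → x ∉ Submodule.span F {c} → EM Q x c ∈ M → ∀ z ∈ U, z ∉ Submodule.span F {c} → ∀ w ∈ U, EM Q z w ∈ M := by
    intro x c hx hc hc0 hxc h z hz hzc w hw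
    have h4 := h1 hx hc hxc h z hz
    have h5 := h2 hz hc h4
    have h6 := h1 hc hz (notmem_span_swap hc0 hzc) h5 w hw
    exact h2 hw hz h6
  intro z hz w hw
  by_cases hzc : z ∈ Submodule.span F {c}
  · obtain ⟨c2, hc2, -, -, hc2s⟩ := P.vec 0 0 (Submodule.span F {c, z} ⊔ Submodule.span F {c, z}) (fr_quad _ _ _ _)
    rw [sup_idem] at hc2s
    by_cases hz0 : z = 0
    · have : EM Q z w = 1 := by
        rw [hz0]
        apply gl_ext
        intro x
        rw [EM_mulVec (QuadraticMap.map_zero Q) (QuadraticMap.polar_zero_left Q w), Units.val_one, Matrix.one_mulVec, QuadraticMap.polar_zero_left]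
        simp
      rw [this]; exact M.one_mem
    · have hc2c := notmem_span_left hc2s
      have h4 := h3 hx hc hc0 hxc h c2 hc2 hc2c
      have h5 := h2 hc2 hc (h4 c hc)
      exact h3 hc hc2 (ne_zero_of_notmem hc2s) (notmem_span_swap hc0 hc2c) h5 z hz (notmem_span_swap hz0 (notmem_span_right hc2s)) w hw
  · exact h3 hx hc hc0 hxc h z hz hzc w hw

end Prd

end CfsgLib.OM29
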