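import Cfsg.Agent.LibOM29i

set_option autoImplicit false

/-! Stabilizers of pairs of complementary maximal totally singular subspaces in `Ω`: maximality. -/

namespace CfsgLib.OM29

open scoped MatrixGroups Matrix
open Cfsg CfsgLib.MaxTv29 Cfsg.Agent.H22 Module

variable {ι : Type} [Fintype ι] [DecidableEq ι] {F : Type*} [Field F] {Q : QuadraticForm F (ι → F)}

local notation "B" => QuadraticMap.polar Q

theorem mem_pair_left (a b : ι → F) : a ∈ Submodule.span F ({a, b} : Set (ι → F)) := Submodule.subset_span (by simp)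
theorem mem_pair_right (a b : ι → F) : b ∈ Submodule.span F ({a, b} : Set (ι → F)) := Submodule.subset_span (by simp)

namespace Prd

variable {U X : Submodule F (ι → F)} (P : Prd Q U X)

include P

/-- a linear map whose values on the vectors of `U` orthogonal to `b0` are in a line -/
theorem small_rank (φ : (ι → F) →ₗ[F] (ι → F)) (b0 w : ι → F) (h : ∀ a ∈ U, B a b0 = 0 → φ a ∈ Submodule.span F {w}) : ∃ w', ∀ a ∈ U, φ a ∈ Submodule.span F {w, w'} := by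
  by_cases h0 : ∃ u0 ∈ U, B u0 b0 ≠ 0
  · obtain ⟨u0, hu0, hub⟩ := h0
    refine ⟨φ u0, fun a ha => ?_⟩
    have h1 := h (a + (-(B a b0 * (B u0 b0)⁻¹)) • u0) (U.add_mem ha (U.smul_mem _ hu0)) (by
      rw [QuadraticMap.polar_add_left, QuadraticMap.polar_smul_left, smul_eq_mul, neg_mul, inv_mul_cancel_right₀ hub, add_neg_cancel])
    have h2 : φ a = φ (a + (-(B a b0 * (B u0 b0)⁻¹)) • u0) + (B a b0 * (B u0 b0)⁻¹) • φ u0 := by
      rw [map_add, map_smul]; module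
    rw [h2]
    exact Submodule.add_mem _ (Submodule.span_mono (by simp) h1) (Submodule.smul_mem _ _ (mem_pair_right _ _))
  · push Not at h0
    exact ⟨0, fun a ha => Submodule.span_mono (by simp) (h a ha (h0 a ha))⟩

/-- if the `U`-components of `g a`, `g b` are always dependent, one of them vanishes -/
theorem dich {g : GL ι F} (p : (ι → F) →ₗ[F] (ι → F)) (hp : ∀ x ∈ U, p x = x)
    (hcon : ∀ a ∈ U, ∀ b ∈ X, B a b = 0 → p ((g : Matrix ι ι F) *ᵥ b) ≠ 0 → p ((g : Matrix ι ι F) *ᵥ a) ∈ Submodule.span F {p ((g : Matrix ι ι F) *ᵥ b)}) :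
    (∀ a ∈ U, p ((g : Matrix ι ι F) *ᵥ a) = 0) ∨ (∀ b ∈ X, p ((g : Matrix ι ι F) *ᵥ b) = 0) := by
  by_contra hc
  push Not at hc
  obtain ⟨⟨a0, ha0, hpa0⟩, ⟨b0, hb0, hpb0⟩⟩ := hc
  let γ : (ι → F) →ₗ[F] (ι → F) := Matrix.mulVecLin (g : Matrix ι ι F)
  have hγ : ∀ x, γ x = (g : Matrix ι ι F) *ᵥ x := fun x => rfl
  obtain ⟨w2, h2⟩ := P.small_rank (p.comp γ) b0 (p (γ b0)) (fun a ha hab => hcon a ha b0 hb0 hab hpb0)
  obtain ⟨w4, h4⟩ := P.symm.small_rank (p.comp γ) a0 (p (γ a0)) (fun b hb hba => by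
    have hab : B a0 b = 0 := by rw [bsymm]; exact hba
    by_cases hz : p (γ b) = 0
    · show p (γ b) ∈ _
      rw [hz]; exact Submodule.zero_mem _
    · have h1 := hcon a0 ha0 b hb hab hz
      obtain ⟨k, hk⟩ := Submodule.mem_span_singleton.mp h1
      have hk0 : k ≠ 0 := by
        rintro rfl
        exact hpa0 (by rw [← hk, zero_smul])
      refine Submodule.mem_span_singleton.mpr ⟨k⁻¹, ?_⟩
      show k⁻¹ • p ((g : Matrix ι ι F) *ᵥ a0) = p ((g : Matrix ι ι F) *ᵥ b)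
      rw [← hk, smul_smul, inv_mul_cancel₀ hk0, one_smul])
  have h5 : U ≤ Submodule.span F {p (γ b0), w2} ⊔ Submodule.span F {p (γ a0), w4} := by
    intro x hx
    obtain ⟨a, ha, b, hb, hab⟩ := P.decomp (((g⁻¹ : GL ι F) : Matrix ι ι F) *ᵥ x)
    have h6 : x = γ a + γ b := by
      rw [← map_add, ← hab, hγ, mulVec_inv_mulVec]
    have h7 : x = p (γ a) + p (γ b) := by rw [← map_add, ← h6, hp x hx]
    rw [h7]
    exact Submodule.add_mem _ (Submodule.mem_sup_left (h2 a ha)) (Submodule.mem_sup_right (h4 b hb))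
  have h6 := Submodule.finrank_mono h5
  have h7 := fr_quad (F := F) (p (γ b0)) w2 (p (γ a0)) w4
  have h8 := P.h7
  omega

/-- **Finding a good pair** -/
theorem good_pair {g : GL ι F} (h1 : ¬ ((∀ u ∈ U, (g : Matrix ι ι F) *ᵥ u ∈ U) ∧ ∀ x ∈ X, (g : Matrix ι ι F) *ᵥ x ∈ X))
    (h2 : ¬ ((∀ u ∈ U, (g : Matrix ι ι F) *ᵥ u ∈ X) ∧ ∀ x ∈ X, (g : Matrix ι ι F) *ᵥ x ∈ U)) :
    ∃ a ∈ U, ∃ b ∈ X, B a b = 0 ∧ ∃ a1 ∈ U, ∃ b1 ∈ X, ∃ a2 ∈ U, ∃ b2 ∈ X, (g : Matrix ι ι F) *ᵥ a = a1 + b1 ∧ (g : Matrix ι ι F) *ᵥ b = a2 + b2 ∧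
      ((a2 ≠ 0 ∧ a1 ∉ Submodule.span F {a2}) ∨ (b2 ≠ 0 ∧ b1 ∉ Submodule.span F {b2})) := by
  by_contra hcon
  have hIC : IsCompl U X := ⟨disjoint_iff.mpr P.inf, codisjoint_iff.mpr P.sup⟩
  let p : (ι → F) →ₗ[F] (ι → F) := U.subtype.comp (U.projectionOnto X hIC)
  have hp1 : ∀ x, p x ∈ U := fun x => (U.projectionOnto X hIC x).2
  have hp2 : ∀ x ∈ U, p x = x := fun x hx => congrArg Subtype.val (Submodule.projectionOnto_apply_left hIC ⟨x, hx⟩)
  have hp3 : ∀ x ∈ X, p x = 0 := fun x hx => by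
    show ((U.projectionOnto X hIC x : U) : ι → F) = 0
    rw [(Submodule.projectionOnto_apply_eq_zero_iff hIC).mpr hx]; rfl
  let r : (ι → F) →ₗ[F] (ι → F) := LinearMap.id - p
  have hr0 : ∀ x, r x = x - p x := fun x => rfl
  have hr1 : ∀ x, r x ∈ X := by
    intro x
    obtain ⟨a, ha, b, hb, rfl⟩ := P.decomp x
    rw [hr0, map_add, hp2 a ha, hp3 b hb, add_zero, add_sub_cancel_left]
    exact hb
  have hr2 : ∀ x ∈ X, r x = x := fun x hx => by rw [hr0, hp3 x hx, sub_zero]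
  have key : ∀ a ∈ U, ∀ b ∈ X, B a b = 0 → (p ((g : Matrix ι ι F) *ᵥ b) ≠ 0 → p ((g : Matrix ι ι F) *ᵥ a) ∈ Submodule.span F {p ((g : Matrix ι ι F) *ᵥ b)}) ∧
      (r ((g : Matrix ι ι F) *ᵥ b) ≠ 0 → r ((g : Matrix ι ι F) *ᵥ a) ∈ Submodule.span F {r ((g : Matrix ι ι F) *ᵥ b)}) := by
    intro a ha b hb hab
    have hex : ¬ ((p ((g : Matrix ι ι F) *ᵥ b) ≠ 0 ∧ p ((g : Matrix ι ι F) *ᵥ a) ∉ Submodule.span F {p ((g : Matrix ι ι F) *ᵥ b)}) ∨
        (r ((g : Matrix ι ι F) *ᵥ b) ≠ 0 ∧ r ((g : Matrix ι ι F) *ᵥ a) ∉ Submodule.span F {r ((g : Matrix ι ι F) *ᵥ b)})) := by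
      intro h
      apply hcon
      refine ⟨a, ha, b, hb, hab, _, hp1 _, _, hr1 _, _, hp1 _, _, hr1 _, ?_, ?_, h⟩
      · rw [hr0]; abel
      · rw [hr0]; abel
    push Not at hex
    exact hex
  have d1 := P.dich (g := g) p hp2 (fun a ha b hb hab => (key a ha b hb hab).1)
  have d2 : (∀ b ∈ X, r ((g : Matrix ι ι F) *ᵥ b) = 0) ∨ (∀ a ∈ U, r ((g : Matrix ι ι F) *ᵥ a) = 0) := by
    apply P.symm.dich (g := g) r hr2
    intro b hb a ha hba hra
    have hab : B a b = 0 := by rw [bsymm]; exact hba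
    by_cases hz : r ((g : Matrix ι ι F) *ᵥ b) = 0
    · rw [hz]; exact Submodule.zero_mem _
    · obtain ⟨k, hk⟩ := Submodule.mem_span_singleton.mp ((key a ha b hb hab).2 hz)
      have hk0 : k ≠ 0 := by
        rintro rfl
        exact hra (by rw [← hk, zero_smul])
      refine Submodule.mem_span_singleton.mpr ⟨k⁻¹, ?_⟩
      rw [← hk, smul_smul, inv_mul_cancel₀ hk0, one_smul]
  have hsum : ∀ x, x = p x + r x := fun x => by rw [hr0]; abel
  have hU0 : ∃ u ∈ U, u ≠ 0 := by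
    obtain ⟨u, hu, hu'⟩ := exists_notmem (U := U) (Z := ⊥) (by rw [finrank_bot]; have := P.h7; omega)
    exact ⟨u, hu, ne_zero_of_notmem hu'⟩
  have hX0 : ∃ u ∈ X, u ≠ 0 := by
    obtain ⟨u, hu, hu'⟩ := exists_notmem (U := X) (Z := ⊥) (by rw [finrank_bot]; have := P.symm.h7; omega)
    exact ⟨u, hu, ne_zero_of_notmem hu'⟩
  have hbad : ∀ u, u ≠ 0 → p ((g : Matrix ι ι F) *ᵥ u) = 0 → r ((g : Matrix ι ι F) *ᵥ u) = 0 → False := by
    intro u hu0 h3 h4
    have h5 := hsum ((g : Matrix ι ι F) *ᵥ u)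
    rw [h3, h4, add_zero] at h5
    exact hu0 (mulVec_injective g (by show (g : Matrix ι ι F) *ᵥ u = (g : Matrix ι ι F) *ᵥ 0; rw [h5, Matrix.mulVec_zero]))
  rcases d1 with d1 | d1 <;> rcases d2 with d2 | d2
  · apply h2
    refine ⟨fun u hu => ?_, fun x hx => ?_⟩
    · rw [hsum ((g : Matrix ι ι F) *ᵥ u), d1 u hu, zero_add]; exact hr1 _
    · rw [hsum ((g : Matrix ι ι F) *ᵥ x), d2 x hx, add_zero]; exact hp1 _
  · obtain ⟨u, hu, hu0⟩ := hU0
    exact hbad u hu0 (d1 u hu) (d2 u hu)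
  · obtain ⟨u, hu, hu0⟩ := hX0
    exact hbad u hu0 (d1 u hu) (d2 u hu)
  · apply h1
    refine ⟨fun u hu => ?_, fun x hx => ?_⟩
    · rw [hsum ((g : Matrix ι ι F) *ᵥ u), d2 u hu, add_zero]; exact hp1 _
    · rw [hsum ((g : Matrix ι ι F) *ᵥ x), d1 x hx, zero_add]; exact hr1 _

/-- the group generated by the two unipotent radicals and the Levi part is `Ω` -/
theorem top [Finite F] {M : Subgroup (GL ι F)} (hH : ∀ a ∈ U, ∀ b ∈ X, B a b = 0 → EM Q a b ∈ M) (h1 : ∀ z ∈ U, ∀ w ∈ U, EM Q z w ∈ M)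
    (h2 : ∀ z ∈ X, ∀ w ∈ X, EM Q z w ∈ M) : Geo.omegaGL ⇑Q ≤ M := by
  haveI : Fintype F := Fintype.ofFinite F
  have h5 : 5 ≤ finrank F (ι → F) := by
    have := P.dims
    have := P.h7
    omega
  obtain ⟨e, f, e', f', u', hs⟩ := exists_HS P.hQ h5
  have hfull : ∀ {U X : Submodule F (ι → F)} (P : Prd Q U X) (hH : ∀ a ∈ U, ∀ b ∈ X, B a b = 0 → EM Q a b ∈ M) (h1 : ∀ z ∈ U, ∀ w ∈ U, EM Q z w ∈ M),
      ∀ v ∈ U, Full Q M v := by
    intro U X P hH h1 v hv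
    refine ⟨P.hU v hv, fun w hw => ?_⟩
    obtain ⟨a, ha, b, hb, rfl⟩ := P.decomp w
    rw [QuadraticMap.polar_add_right, P.oU hv ha, zero_add] at hw
    rw [EM_add (P.hU v hv) (P.oU hv ha) hw]
    exact M.mul_mem (h1 v hv a ha) (hH v hv b hb hw)
  have hFU := hfull P hH h1
  have hFX := hfull P.symm (fun b hb a ha hba => by
    have hab : B a b = 0 := by rw [bsymm]; exact hba
    rw [EM_swap (P.hX b hb) (P.hU a ha) hba]
    exact M.inv_mem (hH a ha b hb hab)) h2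
  apply full_top P.hQ hs h5
  intro v hv
  obtain ⟨a, ha, b, hb, rfl⟩ := P.decomp v
  by_cases ha0 : a = 0
  · rw [ha0, zero_add]; exact hFX b hb
  have hab : B a b = 0 := by
    rw [qadd, P.hU a ha, P.hX b hb] at hv
    linear_combination hv
  -- `y ∈ X` with `B a y = 1`
  obtain ⟨y, hy, -, hay⟩ := P.func ⊥ bot_le ha (fun h => ha0 ((Submodule.mem_bot F).mp h))
  set y' := (B a y)⁻¹ • y with hy'
  have hy'X : y' ∈ X := X.smul_mem _ hy
  have hay' : B y' a = 1 := by rw [bsymm, hy', QuadraticMap.polar_smul_right, smul_eq_mul, inv_mul_cancel₀ hay]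
  have hby : B b y' = 0 := P.oX hb hy'X
  have hEM := (hFX b hb).2 y' hby
  have h3 : ((EM Q b y' : GL ι F) : Matrix ι ι F) *ᵥ (a + b) = a := by
    rw [EM_mulVec (P.hX b hb) hby, QuadraticMap.polar_add_right, QuadraticMap.polar_add_right, bsymm b a, hab, P.oX hb hb, hay', P.oX hy'X hb]; module
  have h4 : Full Q M (((EM Q b y' : GL ι F) : Matrix ι ι F) *ᵥ (a + b)) := by rw [h3]; exact hFU a ha
  have h6 := h4.conj (M.inv_mem hEM) ((Cfsg.isometryGroup F ⇑Q).inv_mem (EM_iso b y'))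
  rwa [inv_mulVec_mulVec] at h6

omit P in
/-- a Weyl element -/
theorem weyl {e f e' f' : ι → F} (he : Q e = 0) (hf : Q f = 0) (he' : Q e' = 0) (hf' : Q f' = 0) (hef : B e f = 1) (hef' : B e' f' = 1)
    (h1 : B e e' = 0) (h2 : B e f' = 0) (h3 : B f e' = 0) (h4 : B f f' = 0) :
    ∃ w : GL ι F, w = EM Q e e' * EM Q f f' * EM Q e e' ∧ (w : Matrix ι ι F) *ᵥ e = f' ∧ (w : Matrix ι ι F) *ᵥ e' = -f ∧ (w : Matrix ι ι F) *ᵥ f = e' ∧ (w : Matrix ι ι F) *ᵥ f' = -e ∧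
      ∀ x, B e x = 0 → B f x = 0 → B e' x = 0 → B f' x = 0 → (w : Matrix ι ι F) *ᵥ x = x := by
  have hfe : B f e = 1 := by rw [bsymm]; exact hef
  have hfe' : B f' e' = 1 := by rw [bsymm]; exact hef'
  have h1' : B e' e = 0 := by rw [bsymm]; exact h1
  have h2' : B f' e = 0 := by rw [bsymm]; exact h2
  have h3' : B e' f = 0 := by rw [bsymm]; exact h3
  have h4' : B f' f = 0 := by rw [bsymm]; exact h4
  have ee := bself he
  have ff := bself hf
  have ee' := bself he'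
  have ff' := bself hf'
  have a1 : ∀ x, ((EM Q e e' : GL ι F) : Matrix ι ι F) *ᵥ x = x + B e x • e' - B e' x • e := by
    intro x; rw [EM_mulVec he h1, he']; simp
  have a2 : ∀ x, ((EM Q f f' : GL ι F) : Matrix ι ι F) *ᵥ x = x + B f x • f' - B f' x • f := by
    intro x; rw [EM_mulVec hf h4, hf']; simp
  refine ⟨_, rfl, ?_, ?_, ?_, ?_, ?_⟩
  · rw [Units.val_mul, Units.val_mul, ← Matrix.mulVec_mulVec, ← Matrix.mulVec_mulVec, a1, a2, a1]
    simp only [QuadraticMap.polar_add_right, QuadraticMap.polar_sub_right, QuadraticMap.polar_smul_right, smul_eq_mul, ee, h1', hfe, h2', hef', h2]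
    module
  · rw [Units.val_mul, Units.val_mul, ← Matrix.mulVec_mulVec, ← Matrix.mulVec_mulVec, a1, a2, a1]
    simp only [QuadraticMap.polar_add_right, QuadraticMap.polar_sub_right, QuadraticMap.polar_smul_right, smul_eq_mul, ee', h1, h3, hfe', hef, h3']
    module
  · rw [Units.val_mul, Units.val_mul, ← Matrix.mulVec_mulVec, ← Matrix.mulVec_mulVec, a1, a2, a1]
    simp only [QuadraticMap.polar_add_right, QuadraticMap.polar_sub_right, QuadraticMap.polar_smul_right, smul_eq_mul, ff, hef, h3', h3, h4', hfe', h1, ee']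
    module
  · rw [Units.val_mul, Units.val_mul, ← Matrix.mulVec_mulVec, ← Matrix.mulVec_mulVec, a1, a2, a1]
    simp only [QuadraticMap.polar_add_right, QuadraticMap.polar_sub_right, QuadraticMap.polar_smul_right, smul_eq_mul, ff', h2, hef', hfe, h4, h2', ee, h1']
    module
  · intro x hx1 hx2 hx3 hx4
    have f1 : ((EM Q e e' : GL ι F) : Matrix ι ι F) *ᵥ x = x := by rw [a1, hx1, hx3]; simp
    have f2 : ((EM Q f f' : GL ι F) : Matrix ι ι F) *ᵥ x = x := by rw [a2, hx2, hx4]; simp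
    rw [Units.val_mul, Units.val_mul, ← Matrix.mulVec_mulVec, ← Matrix.mulVec_mulVec, f1, f2, f1]

end Prd

end CfsgLib.OM29
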