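import Cfsg.Agent.LibOM29j

set_option autoImplicit false

/-! Stabilizers of pairs of complementary maximal totally singular subspaces in `Ω`: the final theorem. -/

namespace CfsgLib.OM29

open scoped MatrixGroups Matrix
open Cfsg CfsgLib.MaxTv29 Cfsg.Agent.H22 Module

variable {ι : Type} [Fintype ι] [DecidableEq ι] {F : Type*} [Field F] {Q : QuadraticForm F (ι → F)}

local notation "B" => QuadraticMap.polar Q

namespace Prd

variable {U X : Submodule F (ι → F)} (P : Prd Q U X)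

include P

/-- dual bases -/
theorem dual_bases {κ : Type} [Fintype κ] [DecidableEq κ] (e : Basis κ F U) :
    ∃ f : Basis κ F X, ∀ i j, B ((e i : U) : ι → F) ((f j : X) : ι → F) = if i = j then 1 else 0 := by
  let Φ : X →ₗ[F] Module.Dual F U := LinearMap.mk₂ F (fun (x : X) (u : U) => B (u : ι → F) (x : ι → F))
    (fun x y u => by rw [Submodule.coe_add, QuadraticMap.polar_add_right]) (fun c x u => by rw [Submodule.coe_smul, QuadraticMap.polar_smul_right])
    (fun x u v => by rw [Submodule.coe_add, QuadraticMap.polar_add_left]) (fun c x u => by rw [Submodule.coe_smul, QuadraticMap.polar_smul_left])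
  have hΦ : ∀ x u, Φ x u = B (u : ι → F) (x : ι → F) := fun x u => rfl
  have hinj : Function.Injective Φ := by
    rw [← LinearMap.ker_eq_bot, eq_bot_iff]
    intro x hx
    by_contra h0
    obtain ⟨u, hu, -, hux⟩ := P.symm.func ⊥ bot_le x.2 (fun h => h0 (by
      have h1 : (x : ι → F) = 0 := (Submodule.mem_bot F).mp h
      exact (Submodule.mem_bot F).mpr (Subtype.ext h1)))
    apply hux
    rw [bsymm]
    exact LinearMap.congr_fun (LinearMap.mem_ker.mp hx) ⟨u, hu⟩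
  let Ψ : X ≃ₗ[F] Module.Dual F U := LinearMap.linearEquivOfInjective Φ hinj (by rw [Subspace.dual_finrank_eq, P.dim])
  refine ⟨e.dualBasis.map Ψ.symm, fun i j => ?_⟩
  have h1 : Φ ((e.dualBasis.map Ψ.symm) j) = e.dualBasis j := by
    rw [Basis.map_apply]
    exact Ψ.apply_symm_apply _
  rw [← hΦ, h1, Basis.dualBasis_apply_self]

theorem exists_swap [Finite F] (hk : Even (finrank F U)) : ∃ s ∈ Geo.omegaGL ⇑Q, (∀ u ∈ U, (s : Matrix ι ι F) *ᵥ u ∈ X) ∧ (∀ x ∈ X, (s : Matrix ι ι F) *ᵥ x ∈ U) := by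
  haveI : Fintype F := Fintype.ofFinite F
  have h5 : 5 ≤ finrank F (ι → F) := by
    have := P.dims
    have := P.h7
    omega
  obtain ⟨e0, f0, e', f', u', hs⟩ := exists_HS P.hQ h5
  obtain ⟨j, hj⟩ := hk
  let e : Basis (Fin j ⊕ Fin j) F U := (finBasisOfFinrankEq F U hj).reindex finSumFinEquiv.symm
  obtain ⟨f, hf⟩ := P.dual_bases e
  have hE : ∀ p, ((e p : U) : ι → F) ∈ U := fun p => (e p).2
  have hF : ∀ p, ((f p : X) : ι → F) ∈ X := fun p => (f p).2
  have key : ∀ T : Finset (Fin j), ∃ s ∈ Geo.omegaGL ⇑Q, ∀ i,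
      (i ∈ T → (s : Matrix ι ι F) *ᵥ ((e (Sum.inl i) : U) : ι → F) = f (Sum.inr i) ∧ (s : Matrix ι ι F) *ᵥ ((e (Sum.inr i) : U) : ι → F) = -f (Sum.inl i) ∧
        (s : Matrix ι ι F) *ᵥ ((f (Sum.inl i) : X) : ι → F) = e (Sum.inr i) ∧ (s : Matrix ι ι F) *ᵥ ((f (Sum.inr i) : X) : ι → F) = -e (Sum.inl i)) ∧
      (i ∉ T → (s : Matrix ι ι F) *ᵥ ((e (Sum.inl i) : U) : ι → F) = e (Sum.inl i) ∧ (s : Matrix ι ι F) *ᵥ ((e (Sum.inr i) : U) : ι → F) = e (Sum.inr i) ∧
        (s : Matrix ι ι F) *ᵥ ((f (Sum.inl i) : X) : ι → F) = f (Sum.inl i) ∧ (s : Matrix ι ι F) *ᵥ ((f (Sum.inr i) : X) : ι → F) = f (Sum.inr i)) := by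
    intro T
    induction T using Finset.induction_on with
    | empty =>
      refine ⟨1, one_mem _, fun i => ⟨fun h => absurd h (Finset.notMem_empty i), fun _ => ?_⟩⟩
      rw [Units.val_one]
      exact ⟨Matrix.one_mulVec _, Matrix.one_mulVec _, Matrix.one_mulVec _, Matrix.one_mulVec _⟩
    | insert a T ha ih =>
      obtain ⟨s, hs1, hs2⟩ := ih
      obtain ⟨w, hw, w1, w2, w3, w4, w5⟩ := weyl (Q := Q) (e := e (Sum.inl a)) (f := f (Sum.inl a)) (e' := e (Sum.inr a)) (f' := f (Sum.inr a))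
        (P.hU _ (hE _)) (P.hX _ (hF _)) (P.hU _ (hE _)) (P.hX _ (hF _)) (by rw [hf, if_pos rfl]) (by rw [hf, if_pos rfl])
        (P.oU (hE _) (hE _)) (by rw [hf, if_neg (by simp)]) (by rw [bsymm, hf, if_neg (by simp)]) (P.oX (hF _) (hF _))
      have hwΩ : w ∈ Geo.omegaGL ⇑Q := by
        rw [hw]
        have i1 := EM_omega P.hQ hs h5 (P.hU _ (hE (Sum.inl a))) (P.oU (hE (Sum.inl a)) (hE (Sum.inr a)))
        have i2 := EM_omega P.hQ hs h5 (P.hX _ (hF (Sum.inl a))) (P.oX (hF (Sum.inl a)) (hF (Sum.inr a)))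
        exact mul_mem (mul_mem i1 i2) i1
      have hfixE : ∀ p, p ≠ Sum.inl a → p ≠ Sum.inr a → (w : Matrix ι ι F) *ᵥ ((e p : U) : ι → F) = e p := by
        intro p h1 h2
        apply w5
        · exact P.oU (hE _) (hE _)
        · rw [bsymm, hf, if_neg h1]
        · exact P.oU (hE _) (hE _)
        · rw [bsymm, hf, if_neg h2]
      have hfixF : ∀ p, p ≠ Sum.inl a → p ≠ Sum.inr a → (w : Matrix ι ι F) *ᵥ ((f p : X) : ι → F) = f p := by
        intro p h1 h2
        apply w5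
        · rw [hf, if_neg (Ne.symm h1)]
        · exact P.oX (hF _) (hF _)
        · rw [hf, if_neg (Ne.symm h2)]
        · exact P.oX (hF _) (hF _)
      refine ⟨w * s, mul_mem hwΩ hs1, fun i => ⟨fun hi => ?_, fun hi => ?_⟩⟩
      · simp only [Units.val_mul, ← Matrix.mulVec_mulVec]
        rcases Finset.mem_insert.mp hi with rfl | hi2
        · obtain ⟨q1, q2, q3, q4⟩ := (hs2 i).2 ha
          rw [q1, q2, q3, q4]
          exact ⟨w1, w2, w3, w4⟩
        · have hia : i ≠ a := fun h => ha (h ▸ hi2)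
          obtain ⟨q1, q2, q3, q4⟩ := (hs2 i).1 hi2
          rw [q1, q2, q3, q4, Matrix.mulVec_neg, Matrix.mulVec_neg, hfixF (Sum.inr i) (by simp) (by simpa using hia), hfixF (Sum.inl i) (by simpa using hia) (by simp),
            hfixE (Sum.inr i) (by simp) (by simpa using hia), hfixE (Sum.inl i) (by simpa using hia) (by simp)]
          exact ⟨rfl, rfl, rfl, rfl⟩
      · simp only [Units.val_mul, ← Matrix.mulVec_mulVec]
        have hia : i ≠ a := fun h => hi (by rw [h]; exact Finset.mem_insert_self _ _)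
        have hiT : i ∉ T := fun h => hi (Finset.mem_insert_of_mem h)
        obtain ⟨q1, q2, q3, q4⟩ := (hs2 i).2 hiT
        rw [q1, q2, q3, q4, hfixF (Sum.inr i) (by simp) (by simpa using hia), hfixF (Sum.inl i) (by simpa using hia) (by simp),
            hfixE (Sum.inr i) (by simp) (by simpa using hia), hfixE (Sum.inl i) (by simpa using hia) (by simp)]
        exact ⟨rfl, rfl, rfl, rfl⟩
  obtain ⟨s, hs1, hs2⟩ := key Finset.univ
  let γ : (ι → F) →ₗ[F] (ι → F) := Matrix.mulVecLin (s : Matrix ι ι F)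
  refine ⟨s, hs1, fun u hu => ?_, fun x hx => ?_⟩
  · have h1 : (⊤ : Submodule F U) ≤ X.comap (γ.comp U.subtype) := by
      rw [← e.span_eq, Submodule.span_le]
      rintro _ ⟨p, rfl⟩
      rcases p with i | i
      · show (s : Matrix ι ι F) *ᵥ ((e (Sum.inl i) : U) : ι → F) ∈ X
        rw [((hs2 i).1 (Finset.mem_univ i)).1]; exact hF _
      · show (s : Matrix ι ι F) *ᵥ ((e (Sum.inr i) : U) : ι → F) ∈ X
        rw [((hs2 i).1 (Finset.mem_univ i)).2.1]; exact X.neg_mem (hF _)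
    exact h1 (Submodule.mem_top (x := (⟨u, hu⟩ : U)))
  · have h1 : (⊤ : Submodule F X) ≤ U.comap (γ.comp X.subtype) := by
      rw [← f.span_eq, Submodule.span_le]
      rintro _ ⟨p, rfl⟩
      rcases p with i | i
      · show (s : Matrix ι ι F) *ᵥ ((f (Sum.inl i) : X) : ι → F) ∈ U
        rw [((hs2 i).1 (Finset.mem_univ i)).2.2.1]; exact hE _
      · show (s : Matrix ι ι F) *ᵥ ((f (Sum.inr i) : X) : ι → F) ∈ U
        rw [((hs2 i).1 (Finset.mem_univ i)).2.2.2]; exact U.neg_mem (hE _)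
    exact h1 (Submodule.mem_top (x := (⟨x, hx⟩ : X)))

/-- **the stabilizer of the pair is maximal** -/
theorem maximal [Finite F] (hk : Even (finrank F U)) (H : Subgroup (GL ι F))
    (hH : ∀ g, g ∈ H ↔ g ∈ Geo.omegaGL ⇑Q ∧ (((∀ u ∈ U, (g : Matrix ι ι F) *ᵥ u ∈ U) ∧ ∀ x ∈ X, (g : Matrix ι ι F) *ᵥ x ∈ X) ∨
      ((∀ u ∈ U, (g : Matrix ι ι F) *ᵥ u ∈ X) ∧ ∀ x ∈ X, (g : Matrix ι ι F) *ᵥ x ∈ U))) : Geo.IsMaximalIn (Geo.omegaGL ⇑Q) H := by
  haveI : Fintype F := Fintype.ofFinite F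
  have h5 : 5 ≤ finrank F (ι → F) := by
    have := P.dims
    have := P.h7
    omega
  obtain ⟨e0, f0, e', f', u', hs⟩ := exists_HS P.hQ h5
  have hE : ∀ a ∈ U, ∀ b ∈ X, B a b = 0 → EM Q a b ∈ H := by
    intro a ha b hb hab
    rw [hH]
    refine ⟨EM_omega P.hQ hs h5 (P.hU a ha) hab, Or.inl ⟨fun u hu => ?_, fun x hx => ?_⟩⟩
    · rw [EM_mulVec (P.hU a ha) hab, P.oU ha hu, zero_smul, add_zero, mul_zero, zero_smul, sub_zero]
      exact U.sub_mem hu (U.smul_mem _ ha)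
    · rw [EM_mulVec (P.hU a ha) hab, P.oX hb hx, zero_smul, sub_zero, P.hX b hb, zero_mul, zero_smul, sub_zero]
      exact X.add_mem hx (X.smul_mem _ hb)
  obtain ⟨s, hs1, hs2, hs3⟩ := P.exists_swap hk
  have hsH : s ∈ H := (hH s).mpr ⟨hs1, Or.inr ⟨hs2, hs3⟩⟩
  refine ⟨lt_of_le_of_ne (fun g hg => ((hH g).mp hg).1) ?_, fun M hHM hMS => ?_⟩
  · intro heq
    -- an element of the unipotent radical
    obtain ⟨w, hw, hw0⟩ := exists_notmem (U := U) (Z := ⊥) (by rw [finrank_bot]; have := P.h7; omega)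
    have hw0 := ne_zero_of_notmem hw0
    obtain ⟨v, hv, hvw⟩ := exists_notmem (U := U) (Z := Submodule.span F {w}) (by rw [finrank_span_singleton hw0]; have := P.h7; omega)
    obtain ⟨x, hx, hxw, hvx⟩ := P.func (Submodule.span F {w}) (by rw [Submodule.span_singleton_le_iff_mem]; exact hw) hv hvw
    have hwx : B w x = 0 := hxw w (Submodule.mem_span_singleton_self w)
    have h1 : EM Q v w ∈ H := by rw [heq]; exact EM_omega P.hQ hs h5 (P.hU v hv) (P.oU hv hw)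
    have h2 : ((EM Q v w : GL ι F) : Matrix ι ι F) *ᵥ x = x + B v x • w := by
      rw [EM_mulVec (P.hU v hv) (P.oU hv hw), hwx, P.hU w hw]; module
    have h3 : ((EM Q v w : GL ι F) : Matrix ι ι F) *ᵥ v = v := by
      rw [EM_mulVec (P.hU v hv) (P.oU hv hw), P.oU hv hv, P.oU hw hv]; module
    rcases ((hH _).mp h1).2 with ⟨-, h4⟩ | ⟨h4, -⟩
    · have h6 := h4 x hx
      rw [h2, X.add_mem_iff_right hx, X.smul_mem_iff hvx] at h6
      exact hw0 (P.zero_of_mem hw h6)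
    · have h6 := h4 v hv
      rw [h3] at h6
      exact ne_zero_of_notmem hvw (P.zero_of_mem hv h6)
  by_cases hMH : M = H
  · exact Or.inl hMH
  right
  apply le_antisymm hMS
  obtain ⟨g, hgM, hg⟩ : ∃ g ∈ M, g ∉ H := by
    by_contra hcon
    push Not at hcon
    exact hMH (le_antisymm hcon hHM)
  have hMi : M ≤ Cfsg.isometryGroup F ⇑Q := fun x hx => omegaGL_le_iso (hMS hx)
  have hsM := hHM hsH
  rw [hH] at hg
  push Not at hg
  have hg1 := hg (hMS hgM)
  obtain ⟨a, ha, b, hb, hab, a1, ha1, b1, hb1, a2, ha2, b2, hb2, e1, e2, hd⟩ := P.good_pair (g := g)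
    (fun h => by obtain ⟨x, hx, hx'⟩ := hg1.1 h.1; exact hx' (h.2 x hx)) (fun h => by obtain ⟨x, hx, hx'⟩ := hg1.2 h.1; exact hx' (h.2 x hx))
  have hEM : ∀ a ∈ U, ∀ b ∈ X, B a b = 0 → EM Q a b ∈ M := fun a ha b hb hab => hHM (hE a ha b hb hab)
  have hEM' : ∀ b ∈ X, ∀ a ∈ U, B b a = 0 → EM Q b a ∈ M := fun b hb a ha hba => by
    have hab : B a b = 0 := by rw [bsymm]; exact hba
    rw [EM_swap (P.hX b hb) (P.hU a ha) hba]
    exact M.inv_mem (hEM a ha b hb hab)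
  -- transport by the swap
  have tr : ∀ z w, Q z = 0 → B z w = 0 → EM Q ((s : Matrix ι ι F) *ᵥ z) ((s : Matrix ι ι F) *ᵥ w) ∈ M → EM Q z w ∈ M := by
    intro z w hz hzw h
    have h1 := EM_conj (hMi hsM) hz hzw
    rw [← h1] at h
    have h2 := M.mul_mem (M.mul_mem (M.inv_mem hsM) h) hsM
    have h3 : s⁻¹ * (s * EM Q z w * s⁻¹) * s = EM Q z w := by group
    rwa [h3] at h2
  have hor : (∀ z ∈ U, ∀ w ∈ U, EM Q z w ∈ M) ∨ (∀ z ∈ X, ∀ w ∈ X, EM Q z w ∈ M) := by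
    rcases hd with ⟨hd1, hd2⟩ | ⟨hd1, hd2⟩
    · left
      obtain ⟨x, hx, c, hc, hc0, hxc, h⟩ := P.first hMi hEM hgM ha hb hab ha1 hb1 ha2 hb2 e1 e2 hd1 hd2
      exact P.radical hEM hx hc hc0 hxc h
    · right
      -- apply the symmetric statement to `(b, a)`
      have hb10 : b1 ≠ 0 := by rintro rfl; exact hd2 (Submodule.zero_mem _)
      obtain ⟨x, hx, c, hc, hc0, hxc, h⟩ := P.symm.first hMi hEM' hgM hb ha (by rw [bsymm]; exact hab) hb2 ha2 hb1 ha1 (by rw [e2, add_comm]) (by rw [e1, add_comm]) hb10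
        (notmem_span_swap hd1 hd2)
      exact P.symm.radical hEM' hx hc hc0 hxc h
  have hboth : (∀ z ∈ U, ∀ w ∈ U, EM Q z w ∈ M) ∧ (∀ z ∈ X, ∀ w ∈ X, EM Q z w ∈ M) := by
    rcases hor with h | h
    · exact ⟨h, fun z hz w hw => tr z w (P.hX z hz) (P.oX hz hw) (h _ (hs3 z hz) _ (hs3 w hw))⟩
    · exact ⟨fun z hz w hw => tr z w (P.hU z hz) (P.oU hz hw) (h _ (hs2 z hz) _ (hs2 w hw)), h⟩
  exact P.top hEM hboth.1 hboth.2

end Prd

end CfsgLib.OM29
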