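import Cfsg.Agent.LibOM29g

set_option autoImplicit false

/-! Overgroups of `Ω` in the special linear group, odd characteristic. -/

namespace CfsgLib.OM29

open scoped MatrixGroups Matrix
open Cfsg CfsgLib.MaxTv29 Cfsg.Agent.H22 Module

variable {ι : Type} [Fintype ι] [DecidableEq ι] {F : Type*} [Field F] {Q : QuadraticForm F (ι → F)}

local notation "B" => QuadraticMap.polar Q
local notation "β" => QuadraticMap.polarBilin Q

theorem beta_apply (x y : ι → F) : β x y = B x y := rfl

theorem omega_le_special : Geo.omegaGL ⇑Q ≤ Geo.specialLinear ι F := by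
  unfold Geo.omegaGL Cfsg.Omega
  rw [Subgroup.map_le_iff_le_comap]
  intro g hg
  have h1 := Abelianization.commutator_subset_ker ((Matrix.GeneralLinearGroup.det (n := ι) (R := F)).comp (Cfsg.isometryGroup F ⇑Q).subtype) hg
  exact h1

/-- `Ω` is transitive on the vectors of each norm -/
theorem omega_trans (hQ : (QuadraticMap.polarBilin Q).Nondegenerate) {e f e' f' u : ι → F} (hs : HS Q e f e' f' u) (h5 : 5 ≤ finrank F (ι → F))
    (v v' : ι → F) (hv : v ≠ 0) (hv' : v' ≠ 0) (h : Q v = Q v') : ∃ R ∈ Geo.omegaGL ⇑Q, ((R : GL ι F) : Matrix ι ι F) *ᵥ v = v' := by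
  obtain ⟨g, hg, hgv⟩ := hs.trans hQ v v' hv hv' h
  have h2 : ∀ g : OGrp Q, g ∈ EG Q → glLin.symm g.1 ∈ Geo.omegaGL ⇑Q := by
    intro g hg
    unfold EG at hg
    induction hg using Subgroup.closure_induction with
    | mem x hx =>
      obtain ⟨v, w, hv, hw, rfl⟩ := hx
      have := EM_omega hQ hs h5 hv hw
      rw [EM_eq hv hw] at this
      exact this
    | one => 
      have : glLin.symm ((1 : OGrp Q) : (ι → F) ≃ₗ[F] (ι → F)) = 1 := map_one _
      rw [this]; exact one_mem _
    | mul x y _ _ hx hy =>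
      have : glLin.symm ((x * y : OGrp Q) : (ι → F) ≃ₗ[F] (ι → F)) = glLin.symm x.1 * glLin.symm y.1 := map_mul glLin.symm x.1 y.1
      rw [this]; exact mul_mem hx hy
    | inv x _ hx =>
      have : glLin.symm ((x⁻¹ : OGrp Q) : (ι → F) ≃ₗ[F] (ι → F)) = (glLin.symm x.1)⁻¹ := map_inv glLin.symm x.1
      rw [this]; exact inv_mem hx
  exact ⟨_, h2 g hg, by rw [glLin_symm_mulVec]; exact hgv⟩

/-- the orthogonal complement of a vector is spanned by its singular vectors -/
theorem rich_vec [Finite F] (hQ : (QuadraticMap.polarBilin Q).Nondegenerate) (h7 : 7 ≤ finrank F (ι → F)) (v : ι → F) (A : Submodule F (ι → F)) (hA : ∀ x, B v x = 0 → Q x = 0 → x ∈ A) :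
    ∀ x, B v x = 0 → x ∈ A := by
  have h1 := finrank_orth hQ (Submodule.span F {v})
  have h2 : finrank F (Submodule.span F ({v} : Set (ι → F))) ≤ 1 := by
    by_cases hz : v = 0
    · rw [hz, Submodule.span_zero_singleton, finrank_bot]; omega
    · rw [finrank_span_singleton hz]
  obtain ⟨e, he, hQe, hes⟩ := exists_singular_avoid Q (orth Q (Submodule.span F {v})) (Submodule.span F {v}) (by omega)
  obtain ⟨z, hz, hez⟩ := orth_func hQ _ e hes
  have h3 := rich_of he hQe hz hez A (fun y hy hQy => hA y (mem_orth_span.mp hy) hQy)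
  exact fun x hx => h3 (mem_orth_span.mpr hx)

/-- the space is spanned by singular vectors -/
theorem rich_all [Finite F] (hQ : (QuadraticMap.polarBilin Q).Nondegenerate) (h7 : 7 ≤ finrank F (ι → F)) (A : Submodule F (ι → F)) (hA : ∀ x, Q x = 0 → x ∈ A) (x : ι → F) : x ∈ A :=
  rich_vec hQ h7 0 A (fun x _ hx => hA x hx) x (QuadraticMap.polar_zero_left Q x)

/-- an overgroup of `Ω` containing one transvection with singular center (and general axis) contains all transvections -/
theorem full_of_tv [Finite F] (h2 : (2 : F) ≠ 0) (hQ : (QuadraticMap.polarBilin Q).Nondegenerate) (h7 : 7 ≤ finrank F (ι → F)) {M : Subgroup (GL ι F)}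
    (hM : ∀ v w, Q v = 0 → B v w = 0 → EM Q v w ∈ M) {v : ι → F} (hv0 : v ≠ 0) (hQv : Q v = 0) (ψ : Module.Dual F (ι → F)) (hψ : ψ v = 0) (h : tv v ψ hψ ∈ M)
    {w0 : ι → F} (hw0 : B v w0 = 0) (hψw : ψ w0 ≠ 0) : ∀ a, MaxTv29.Full M a := by
  haveI : Fintype F := Fintype.ofFinite F
  obtain ⟨e, f, e', f', u', hs⟩ := exists_HS hQ (by omega : 5 ≤ finrank F (ι → F))
  have hΩ : Geo.omegaGL ⇑Q ≤ M := (omegaGL_le_iff hQ hs (by omega) M).mpr hM
  have hβ : ∀ (c : F) (v : ι → F), Q v = 0 → (c • β v : Module.Dual F (ι → F)) v = 0 := by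
    intro c v hv
    rw [LinearMap.smul_apply, beta_apply, bself hv, smul_zero]
  -- step one
  have s1 : ∀ c : F, tv v (c • β v) (hβ c v hQv) ∈ M := by
    intro c
    set w := (c * (ψ w0)⁻¹) • w0 with hw
    have hvw : B v w = 0 := by rw [hw, QuadraticMap.polar_smul_right, hw0, smul_zero]
    have hψw' : ψ w = c := by rw [hw, map_smul, smul_eq_mul, inv_mul_cancel_right₀ hψw]
    have hg := hM v w hQv hvw
    have hgv : ((EM Q v w : GL ι F) : Matrix ι ι F) *ᵥ v = v := by
      rw [EM_mulVec hQv hvw, bself hQv, bsymm w v, hvw]; module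
    have h3 : ∀ x, ψ (((EM Q v w : GL ι F) : Matrix ι ι F) *ᵥ x) = ψ x + c * B v x := by
      intro x
      rw [EM_mulVec hQv hvw]
      simp only [map_add, map_sub, map_smul, hψ, hψw', smul_eq_mul]; ring
    have h4 : (EM Q v w)⁻¹ * tv v ψ hψ * EM Q v w = tv v (c • β v) (hβ c v hQv) * tv v ψ hψ := by
      apply gl_ext
      intro x
      have hinv : ((((EM Q v w)⁻¹ : GL ι F)) : Matrix ι ι F) *ᵥ v = v := by
        have h9 := congrArg (fun z => ((((EM Q v w)⁻¹ : GL ι F)) : Matrix ι ι F) *ᵥ z) hgv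
        simp only [inv_mulVec_mulVec] at h9
        exact h9.symm
      rw [Units.val_mul, Units.val_mul, ← Matrix.mulVec_mulVec, ← Matrix.mulVec_mulVec, tv_mulVec, Units.val_mul, ← Matrix.mulVec_mulVec, tv_mulVec, tv_mulVec,
        Matrix.mulVec_add, inv_mulVec_mulVec, Matrix.mulVec_smul, hinv, h3, LinearMap.smul_apply, map_add, map_smul, beta_apply, beta_apply, bself hQv]
      module
    have h5 : (EM Q v w)⁻¹ * tv v ψ hψ * EM Q v w ∈ M := M.mul_mem (M.mul_mem (M.inv_mem hg) h) hg
    rw [h4] at h5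
    exact (M.mul_mem_cancel_right h).mp h5
  -- step two
  have s2 : ∀ (u : ι → F) (hQu : Q u = 0) (c : F), tv u (c • β u) (hβ c u hQu) ∈ M := by
    intro u hQu c
    by_cases hu0 : u = 0
    · have : tv u (c • β u) (hβ c u hQu) = 1 := by
        apply gl_ext
        intro x
        rw [tv_mulVec, hu0, smul_zero, add_zero, Units.val_one, Matrix.one_mulVec]
      rw [this]; exact M.one_mem
    obtain ⟨R, hR, hRv⟩ := omega_trans hQ hs (by omega) v u hv0 hu0 (by rw [hQv, hQu])
    have hRM := hΩ hR
    have hRi := omegaGL_le_iso hR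
    have h3 : R * tv v (c • β v) (hβ c v hQv) * R⁻¹ = tv u (c • β u) (hβ c u hQu) := by
      apply gl_ext
      intro x
      rw [Units.val_mul, Units.val_mul, ← Matrix.mulVec_mulVec, ← Matrix.mulVec_mulVec, tv_mulVec, tv_mulVec, Matrix.mulVec_add, mulVec_inv_mulVec, Matrix.mulVec_smul, hRv,
        LinearMap.smul_apply, LinearMap.smul_apply, beta_apply, beta_apply, ← isoQ_polar hRi, mulVec_inv_mulVec, hRv]
    rw [← h3]
    exact M.mul_mem (M.mul_mem hRM (s1 c)) (M.inv_mem hRM)
  -- step three
  have s3 : ∀ (u v : ι → F) (hQu : Q u = 0) (hQv : Q v = 0) (huv : B u v = 0) (c : F), tv v (c • β u) (by rw [LinearMap.smul_apply, beta_apply, huv, smul_zero]) ∈ M := by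
    intro u v hQu hQv huv c
    obtain ⟨d, hd⟩ : ∃ d : F, c = 2 * d := ⟨c / 2, by field_simp⟩
    have hvu : B v u = 0 := by rw [bsymm]; exact huv
    have hQuv : Q (u + v) = 0 := by rw [qadd, hQu, hQv, huv]; ring
    have hudv : B u (d • v) = 0 := by rw [QuadraticMap.polar_smul_right, huv, smul_zero]
    have h3 : tv v (c • β u) (by rw [LinearMap.smul_apply, beta_apply, huv, smul_zero]) * (tv u (d • β u) (hβ d u hQu) * tv v (d • β v) (hβ d v hQv)) =
        tv (u + v) (d • β (u + v)) (hβ d _ hQuv) * EM Q u (d • v) := by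
      apply gl_ext
      intro x
      rw [Units.val_mul, Units.val_mul, ← Matrix.mulVec_mulVec, ← Matrix.mulVec_mulVec, Units.val_mul, ← Matrix.mulVec_mulVec, tv_mulVec, tv_mulVec, tv_mulVec, tv_mulVec, EM_mulVec hQu hudv]
      simp only [LinearMap.smul_apply, beta_apply, QuadraticMap.polar_add_right, QuadraticMap.polar_add_left, QuadraticMap.polar_sub_right, QuadraticMap.polar_smul_right, QuadraticMap.polar_smul_left,
        smul_eq_mul, bself hQu, bself hQv, huv, hvu, hd, qsmul, hQv]
      module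
    have h4 : tv (u + v) (d • β (u + v)) (hβ d _ hQuv) * EM Q u (d • v) ∈ M := M.mul_mem (s2 _ hQuv d) (hM u _ hQu hudv)
    rw [← h3] at h4
    exact (M.mul_mem_cancel_right (M.mul_mem (s2 u hQu d) (s2 v hQv d))).mp h4
  -- step four
  have s4 : ∀ v : ι → F, Q v = 0 → MaxTv29.Full M v := by
    intro v hQv φ hφ
    -- the functional is `B w`
    have hinj : Function.Injective β := by
      rw [← LinearMap.ker_eq_bot, eq_bot_iff]
      intro x hx
      by_contra h0
      obtain ⟨s, -, hs⟩ := orth_func hQ ⊥ x h0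
      exact hs (LinearMap.congr_fun (LinearMap.mem_ker.mp hx) s)
    obtain ⟨w, hw⟩ : ∃ w, β w = φ := by
      obtain ⟨w, hw⟩ := (LinearMap.linearEquivOfInjective β hinj (Subspace.dual_finrank_eq).symm).surjective φ
      exact ⟨w, hw⟩
    let A : Submodule F (ι → F) :=
      { carrier := {w | ∃ h : ∀ c : F, (c • β w : Module.Dual F (ι → F)) v = 0, ∀ c, tv v (c • β w) (h c) ∈ M}
        zero_mem' := by
          refine ⟨fun c => by rw [map_zero, smul_zero]; rfl, fun c => ?_⟩
          have : ∀ h, tv v (c • β (0 : ι → F)) h = 1 := by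
            intro h
            apply gl_ext
            intro x
            rw [tv_mulVec, map_zero, smul_zero, LinearMap.zero_apply, zero_smul, add_zero, Units.val_one, Matrix.one_mulVec]
          rw [this]; exact M.one_mem
        add_mem' := by
          rintro a b ⟨ha, ha'⟩ ⟨hb, hb'⟩
          refine ⟨fun c => by rw [map_add, smul_add, LinearMap.add_apply, ha, hb, add_zero], fun c => ?_⟩
          have : ∀ h, tv v (c • β (a + b)) h = tv v (c • β a) (ha c) * tv v (c • β b) (hb c) := by
            intro h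
            apply gl_ext
            intro x
            rw [Units.val_mul, ← Matrix.mulVec_mulVec, tv_mulVec, tv_mulVec, tv_mulVec, map_add, smul_add, LinearMap.add_apply, map_add, map_smul, ha, smul_zero, add_zero]
            module
          rw [this]; exact M.mul_mem (ha' c) (hb' c)
        smul_mem' := by
          rintro k a ⟨ha, ha'⟩
          refine ⟨fun c => by rw [map_smul, smul_smul]; exact ha _, fun c => ?_⟩
          have : ∀ h, tv v (c • β (k • a)) h = tv v ((c * k) • β a) (ha _) := by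
            intro h
            apply gl_ext
            intro x
            rw [tv_mulVec, tv_mulVec, map_smul, smul_smul]
          rw [this]; exact ha' _ }
    have hvw : B v w = 0 := by
      rw [bsymm]
      have : β w v = 0 := by rw [hw]; exact hφ
      exact this
    have h3 : w ∈ A := rich_vec hQ h7 v A (fun x hvx hQx => ⟨fun c => by rw [LinearMap.smul_apply, beta_apply, bsymm, hvx, smul_zero],
      fun c => s3 x v hQx hQv (by rw [bsymm]; exact hvx) c⟩) w hvw
    obtain ⟨h4, h5⟩ := h3
    have h6 := h5 1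
    have : tv v ((1 : F) • β w) (h4 1) = tv v φ hφ := by
      apply gl_ext
      intro x
      rw [tv_mulVec, tv_mulVec, one_smul, hw]
    rw [← this]; exact h6
  -- step five
  intro a
  by_cases hQa : Q a = 0
  · exact s4 a hQa
  obtain ⟨x, hQx, hxa⟩ : ∃ x, Q x = 0 ∧ B x a ≠ 0 := by
    by_contra hcon
    push Not at hcon
    apply hQa
    have h3 := rich_all hQ h7 (LinearMap.ker (β a)) (fun y hQy => by
      rw [LinearMap.mem_ker, beta_apply, bsymm]; exact hcon y hQy) a
    rw [LinearMap.mem_ker, beta_apply, pself] at h3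
    exact (mul_eq_zero.mp h3).resolve_left h2
  set t := Q a * (B x a)⁻¹ with ht
  set y := a + (-t) • x with hy
  have hQy : Q y = 0 := by
    rw [hy, qadd, qsmul, hQx, QuadraticMap.polar_smul_right, bsymm a x, smul_eq_mul, ht]
    have : (B x a)⁻¹ * B x a = 1 := inv_mul_cancel₀ hxa
    linear_combination (-Q a) * this
  have hyx : y ∉ Submodule.span F {x} := by
    intro h3
    obtain ⟨k, hk⟩ := Submodule.mem_span_singleton.mp h3
    apply hQa
    have : a = (k + t) • x := by
      have : a = y + t • x := by rw [hy]; module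
      rw [this, ← hk]; module
    rw [this, qsmul, hQx, mul_zero]
  obtain ⟨φ, hφ1, hφ2⟩ := exists_functional _ y hyx
  have hφx : (t • φ) x = 0 := by rw [LinearMap.smul_apply, hφ2 x (Submodule.mem_span_singleton_self x), smul_zero]
  have h3 := (s4 y hQy).mulVec (s4 x hQx (t • φ) hφx)
  have h4 : ((tv x (t • φ) hφx : GL ι F) : Matrix ι ι F) *ᵥ y = a := by
    rw [tv_mulVec, LinearMap.smul_apply, hφ1, smul_eq_mul, mul_one, hy]; module
  rwa [h4] at h3

end CfsgLib.OM29
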