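import Cfsg.Agent.LibOM29l

set_option autoImplicit false

/-! Two quadratic forms: a transvection in the group generated by the Eichler transformations. -/

namespace CfsgLib.OM29

open scoped MatrixGroups Matrix
open Cfsg CfsgLib.MaxTv29 Cfsg.Agent.H22 Module

variable {ι : Type} [Fintype ι] [DecidableEq ι] {F : Type*} [Field F]

/-- a totally singular subspace of dimension three -/
theorem exists_ts3 [Finite F] {Q : QuadraticForm F (ι → F)} (hQ : (QuadraticMap.polarBilin Q).Nondegenerate) (h9 : 9 ≤ finrank F (ι → F)) :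
    ∃ U : Submodule F (ι → F), (∀ u ∈ U, Q u = 0) ∧ 3 ≤ finrank F U := by
  have step : ∀ U : Submodule F (ι → F), (∀ u ∈ U, Q u = 0) → finrank F U ≤ 2 → ∃ U' : Submodule F (ι → F), (∀ u ∈ U', Q u = 0) ∧ finrank F U' = finrank F U + 1 := by
    intro U hU hd
    have h1 := finrank_orth hQ U
    obtain ⟨x, hx, hQx, hxU⟩ := exists_singular_avoid Q (orth Q U) U (by omega)
    refine ⟨U ⊔ Submodule.span F {x}, ?_, ?_⟩
    · intro u hu
      obtain ⟨d, hd, y, hy, rfl⟩ := Submodule.mem_sup.mp hu
      obtain ⟨k, rfl⟩ := Submodule.mem_span_singleton.mp hy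
      rw [qadd, hU d hd, qsmul, hQx, QuadraticMap.polar_smul_right, mem_orth.mp hx d hd]; simp
    · have h3 := Submodule.finrank_sup_add_finrank_inf_eq U (Submodule.span F {x})
      have h4 : U ⊓ Submodule.span F {x} = ⊥ := by
        rw [eq_bot_iff]
        rintro y ⟨hyU, hy⟩
        obtain ⟨k, rfl⟩ := Submodule.mem_span_singleton.mp hy
        by_cases hk0 : k = 0
        · rw [hk0, zero_smul]; exact Submodule.zero_mem _
        · exact absurd ((U.smul_mem_iff hk0).mp hyU) hxU
      rw [h4, finrank_bot, finrank_span_singleton (ne_zero_of_notmem hxU)] at h3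
      omega
  obtain ⟨U1, h1, d1⟩ := step ⊥ (fun u hu => by rw [(Submodule.mem_bot F).mp hu, QuadraticMap.map_zero]) (by rw [finrank_bot]; omega)
  rw [finrank_bot] at d1
  obtain ⟨U2, h2, d2⟩ := step U1 h1 (by omega)
  obtain ⟨U3, h3, d3⟩ := step U2 h2 (by omega)
  exact ⟨U3, h3, by omega⟩

/-- **two forms** -/
theorem exists_tv [Finite F] (h2 : (2 : F) ≠ 0) {Q Q' : QuadraticForm F (ι → F)} (hQ : (QuadraticMap.polarBilin Q).Nondegenerate) (hQ' : (QuadraticMap.polarBilin Q').Nondegenerate)
    (h9 : 9 ≤ finrank F (ι → F)) {M : Subgroup (GL ι F)}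
    (hM : ∀ v w, Q v = 0 → QuadraticMap.polar Q v w = 0 → EM Q v w ∈ M) (hM' : ∀ v w, Q' v = 0 → QuadraticMap.polar Q' v w = 0 → EM Q' v w ∈ M)
    (hne : ¬ ∃ c : F, ∀ x, Q' x = c * Q x) :
    ∃ v : ι → F, v ≠ 0 ∧ Q v = 0 ∧ ∃ (ψ : Module.Dual F (ι → F)) (hψ : ψ v = 0), tv v ψ hψ ∈ M ∧ ∃ w, QuadraticMap.polar Q v w = 0 ∧ ψ w ≠ 0 := by
  by_contra hcon
  have hgood : ∀ v : ι → F, v ≠ 0 → Q v = 0 → ∀ (ψ : Module.Dual F (ι → F)) (hψ : ψ v = 0), tv v ψ hψ ∈ M → ∀ w, QuadraticMap.polar Q v w = 0 → ψ w = 0 := by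
    intro v hv0 hQv ψ hψ h w hw
    by_contra h3
    exact hcon ⟨v, hv0, hQv, ψ, hψ, h, w, hw, h3⟩
  -- the structure at a common singular vector
  have hC : ∀ v : ι → F, v ≠ 0 → Q v = 0 → Q' v = 0 → ∃ c : F, (∀ y, QuadraticMap.polar Q' v y = c * QuadraticMap.polar Q v y) ∧
      ∀ w y, QuadraticMap.polar Q v w = 0 → QuadraticMap.polar Q v y = 0 → QuadraticMap.polar Q' w y = c * QuadraticMap.polar Q w y := by
    intro v hv0 hQv hQ'v
    have vv := bself hQv
    have vv' := bself hQ'v
    have hsub : ∀ y, QuadraticMap.polar Q v y = 0 → QuadraticMap.polar Q' v y = 0 := by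
      intro y0 hy0
      by_contra hy0'
      -- `w`, `w'` in the intersection of the hyperplanes
      obtain ⟨w, w', hw, hw1, hw', hw1', hww⟩ : ∃ w w', QuadraticMap.polar Q v w = 0 ∧ QuadraticMap.polar Q' v w = 0 ∧ QuadraticMap.polar Q v w' = 0 ∧ QuadraticMap.polar Q' v w' = 0 ∧
          QuadraticMap.polar Q w w' ≠ 0 := by
        by_contra hc
        push Not at hc
        have d1 := finrank_orth hQ (Submodule.span F {v})
        have d2 := finrank_orth hQ' (Submodule.span F {v})
        rw [finrank_span_singleton hv0] at d1 d2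
        have d3 := Submodule.finrank_sup_add_finrank_inf_eq (orth Q (Submodule.span F {v})) (orth Q' (Submodule.span F {v}))
        have d4 := Submodule.finrank_le (orth Q (Submodule.span F {v}) ⊔ orth Q' (Submodule.span F {v}))
        have d5 := ts_finrank hQ (C := orth Q (Submodule.span F {v}) ⊓ orth Q' (Submodule.span F {v})) (fun x hx => by
          have := hc x x (mem_orth_span.mp hx.1) (mem_orth_span.mp hx.2) (mem_orth_span.mp hx.1) (mem_orth_span.mp hx.2)
          rw [pself] at this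
          exact (mul_eq_zero.mp this).resolve_left h2)
        omega
      have hwv : QuadraticMap.polar Q w v = 0 := by rw [bsymm]; exact hw
      have hwv' : QuadraticMap.polar Q' w v = 0 := by rw [bsymm]; exact hw1
      have hw'v : QuadraticMap.polar Q w' v = 0 := by rw [bsymm]; exact hw'
      have hw'v' : QuadraticMap.polar Q' w' v = 0 := by rw [bsymm]; exact hw1'
      let ψ : Module.Dual F (ι → F) := QuadraticMap.polar Q' w w' • QuadraticMap.polarBilin Q v - QuadraticMap.polar Q w w' • QuadraticMap.polarBilin Q' v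
      have hψ0 : ∀ x, ψ x = QuadraticMap.polar Q' w w' * QuadraticMap.polar Q v x - QuadraticMap.polar Q w w' * QuadraticMap.polar Q' v x := fun x => rfl
      have hψ : ψ v = 0 := by rw [hψ0, vv, vv']; ring
      have h3 : tv v ψ hψ * (EM Q' v w' * EM Q v w) = EM Q v w * EM Q' v w' := by
        apply gl_ext
        intro x
        rw [Units.val_mul, Units.val_mul, ← Matrix.mulVec_mulVec, ← Matrix.mulVec_mulVec, Units.val_mul, ← Matrix.mulVec_mulVec, tv_mulVec, EM_mulVec hQv hw, EM_mulVec hQ'v hw1',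
          EM_mulVec hQ'v hw1', EM_mulVec hQv hw, hψ0]
        simp only [QuadraticMap.polar_add_right, QuadraticMap.polar_sub_right, QuadraticMap.polar_smul_right, smul_eq_mul, vv, vv', hw, hw1, hw', hw1', hwv, hwv', hw'v, hw'v', bsymm w' w]
        module
      have h4 : tv v ψ hψ ∈ M := by
        have h5 := M.mul_mem (hM v w hQv hw) (hM' v w' hQ'v hw1')
        rw [← h3] at h5
        exact (M.mul_mem_cancel_right (M.mul_mem (hM' v w' hQ'v hw1') (hM v w hQv hw))).mp h5
      have h5 := hgood v hv0 hQv ψ hψ h4 y0 hy0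
      rw [hψ0, hy0, mul_zero, zero_sub, neg_eq_zero] at h5
      exact mul_ne_zero hww hy0' h5
    -- proportionality
    obtain ⟨z, -, hz⟩ := orth_func hQ ⊥ v hv0
    set c := QuadraticMap.polar Q' v z * (QuadraticMap.polar Q v z)⁻¹ with hc
    have hprop : ∀ y, QuadraticMap.polar Q' v y = c * QuadraticMap.polar Q v y := by
      intro y
      have h3 := hsub (y + (-(QuadraticMap.polar Q v y * (QuadraticMap.polar Q v z)⁻¹)) • z) (by
        rw [QuadraticMap.polar_add_right, QuadraticMap.polar_smul_right, smul_eq_mul, neg_mul, inv_mul_cancel_right₀ hz, add_neg_cancel])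
      rw [QuadraticMap.polar_add_right, QuadraticMap.polar_smul_right, smul_eq_mul] at h3
      rw [hc]
      linear_combination h3
    have hc0 : c ≠ 0 := by
      intro h0
      obtain ⟨z', -, hz'⟩ := orth_func hQ' ⊥ v hv0
      apply hz'
      rw [hprop, h0, zero_mul]
    refine ⟨c, hprop, fun w y hw hy => ?_⟩
    have hw' : QuadraticMap.polar Q' v w = 0 := by rw [hprop, hw, mul_zero]
    have hcw' : QuadraticMap.polar Q' v ((-c⁻¹) • w) = 0 := by rw [QuadraticMap.polar_smul_right, hw', smul_zero]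
    have hwv : QuadraticMap.polar Q w v = 0 := by rw [bsymm]; exact hw
    have hwv' : QuadraticMap.polar Q' w v = 0 := by rw [bsymm]; exact hw'
    let ψ : Module.Dual F (ι → F) := c⁻¹ • QuadraticMap.polarBilin Q' w - QuadraticMap.polarBilin Q w + (Q w - c⁻¹ * Q' w) • QuadraticMap.polarBilin Q v
    have hψ0 : ∀ x, ψ x = c⁻¹ * QuadraticMap.polar Q' w x - QuadraticMap.polar Q w x + (Q w - c⁻¹ * Q' w) * QuadraticMap.polar Q v x := fun x => rfl
    have hψ : ψ v = 0 := by rw [hψ0, hwv, hwv', vv]; ring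
    have hcc : c * c⁻¹ = 1 := mul_inv_cancel₀ hc0
    have h3 : tv v ψ hψ = EM Q v w * EM Q' v ((-c⁻¹) • w) := by
      apply gl_ext
      intro x
      rw [Units.val_mul, ← Matrix.mulVec_mulVec, tv_mulVec, EM_mulVec hQ'v hcw', EM_mulVec hQv hw, hψ0]
      simp only [QuadraticMap.polar_add_right, QuadraticMap.polar_sub_right, QuadraticMap.polar_smul_right, QuadraticMap.polar_smul_left, smul_eq_mul, vv, hw, hwv, hprop x, qsmul, pself Q w, smul_smul]
      have e1 : c * QuadraticMap.polar Q v x * -c⁻¹ = -QuadraticMap.polar Q v x := by linear_combination (-QuadraticMap.polar Q v x) * hcc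
      have e2 : -c⁻¹ * -c⁻¹ * Q' w * (c * QuadraticMap.polar Q v x) = c⁻¹ * Q' w * QuadraticMap.polar Q v x := by linear_combination (c⁻¹ * Q' w * QuadraticMap.polar Q v x) * hcc
      rw [e1, e2]
      module
    have h4 : tv v ψ hψ ∈ M := by rw [h3]; exact M.mul_mem (hM v w hQv hw) (hM' v _ hQ'v hcw')
    have h5 := hgood v hv0 hQv ψ hψ h4 y hy
    rw [hψ0, hy] at h5
    linear_combination c * h5 + (-(QuadraticMap.polar Q' w y)) * hcc
  -- a common singular vector
  obtain ⟨U, hU, hU3⟩ := exists_ts3 hQ h9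
  obtain ⟨v, hvU, hQ'v, hv⟩ := exists_singular_avoid Q' U ⊥ (by rw [finrank_bot]; omega)
  have hv0 := ne_zero_of_notmem hv
  have hQv := hU v hvU
  obtain ⟨c, hc1, hc2⟩ := hC v hv0 hQv hQ'v
  -- singular vectors of the hyperplane
  have hs : ∀ u, QuadraticMap.polar Q v u = 0 → Q u = 0 → ∀ z, QuadraticMap.polar Q' u z = c * QuadraticMap.polar Q u z := by
    intro u hvu hQu z
    by_cases hus : u ∈ Submodule.span F {v}
    · obtain ⟨k, rfl⟩ := Submodule.mem_span_singleton.mp hus
      rw [QuadraticMap.polar_smul_left, QuadraticMap.polar_smul_left, hc1, smul_eq_mul, smul_eq_mul]; ring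
    have hu0 : u ≠ 0 := by rintro rfl; exact hus (Submodule.zero_mem _)
    have hQ'u : Q' u = 0 := by
      have h3 := hc2 u u hvu hvu
      rw [pself, pself, hQu] at h3
      have h4 : (2 : F) * Q' u = 0 := by linear_combination h3
      exact (mul_eq_zero.mp h4).resolve_left h2
    obtain ⟨d, hd1, -⟩ := hC u hu0 hQu hQ'u
    -- compare
    obtain ⟨y, hy, huy⟩ := orth_func hQ _ u hus
    have hvy : QuadraticMap.polar Q v y = 0 := mem_orth_span.mp hy
    have h3 := hc2 u y hvu hvy
    rw [hd1] at h3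
    have h4 : d = c := mul_right_cancel₀ huy h3
    rw [hd1, h4]
  have hP : ∀ w, QuadraticMap.polar Q v w = 0 → ∀ z, QuadraticMap.polar Q' w z = c * QuadraticMap.polar Q w z := by
    intro w hw z
    have h3 := rich_vec hQ (by omega) v (LinearMap.ker ((QuadraticMap.polarBilin Q' - c • QuadraticMap.polarBilin Q).flip z)) (fun x hvx hQx => by
      rw [LinearMap.mem_ker]
      show QuadraticMap.polar Q' x z - c * QuadraticMap.polar Q x z = 0
      rw [hs x hvx hQx z, sub_self]) w hw
    have h4 : QuadraticMap.polar Q' w z - c * QuadraticMap.polar Q w z = 0 := LinearMap.mem_ker.mp h3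
    exact sub_eq_zero.mp h4
  apply hne
  refine ⟨c, ?_⟩
  -- another singular vector in the hyperplane
  obtain ⟨u, hu, hQu, hus⟩ := exists_singular_avoid Q (orth Q (Submodule.span F {v})) (Submodule.span F {v}) (by
    have := finrank_orth hQ (Submodule.span F {v})
    rw [finrank_span_singleton hv0] at this ⊢
    omega)
  have hvu : QuadraticMap.polar Q v u = 0 := mem_orth_span.mp hu
  have hu0 := ne_zero_of_notmem hus
  have hQ'u : Q' u = 0 := by
    have h3 := hP u hvu u
    rw [pself, pself, hQu] at h3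
    have h4 : (2 : F) * Q' u = 0 := by linear_combination h3
    exact (mul_eq_zero.mp h4).resolve_left h2
  obtain ⟨d, hd1, hd2⟩ := hC u hu0 hQu hQ'u
  have hdc : d = c := by
    obtain ⟨y, -, huy⟩ := orth_func hQ ⊥ u hu0
    have h3 := hs u hvu hQu y
    rw [hd1] at h3
    exact mul_right_cancel₀ huy h3
  obtain ⟨z0, hz0, hvz0⟩ := orth_func hQ (Submodule.span F {u}) v (notmem_span_swap hv0 hus)
  have huz0 : QuadraticMap.polar Q u z0 = 0 := mem_orth_span.mp hz0
  have hall : ∀ x z, QuadraticMap.polar Q' x z = c * QuadraticMap.polar Q x z := by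
    intro x z
    -- `x = x' + k z0`, `z = z' + l z0`
    have hx : QuadraticMap.polar Q v (x + (-(QuadraticMap.polar Q v x * (QuadraticMap.polar Q v z0)⁻¹)) • z0) = 0 := by
      rw [QuadraticMap.polar_add_right, QuadraticMap.polar_smul_right, smul_eq_mul, neg_mul, inv_mul_cancel_right₀ hvz0, add_neg_cancel]
    have hz : QuadraticMap.polar Q v (z + (-(QuadraticMap.polar Q v z * (QuadraticMap.polar Q v z0)⁻¹)) • z0) = 0 := by
      rw [QuadraticMap.polar_add_right, QuadraticMap.polar_smul_right, smul_eq_mul, neg_mul, inv_mul_cancel_right₀ hvz0, add_neg_cancel]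
    have h3 := hP _ hx z
    have h4 := hP _ hz z0
    have h5 := hd2 z0 z0 huz0 huz0
    rw [hdc] at h5
    rw [QuadraticMap.polar_add_left, QuadraticMap.polar_add_left, QuadraticMap.polar_smul_left, QuadraticMap.polar_smul_left, smul_eq_mul, smul_eq_mul] at h3 h4
    rw [bsymm z z0, bsymm (Q := Q) z z0] at h4
    linear_combination h3 + (QuadraticMap.polar Q v x * (QuadraticMap.polar Q v z0)⁻¹) * h4 + (QuadraticMap.polar Q v x * (QuadraticMap.polar Q v z0)⁻¹) * (QuadraticMap.polar Q v z * (QuadraticMap.polar Q v z0)⁻¹) * h5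
  intro x
  have h3 := hall x x
  rw [pself, pself] at h3
  have h4 : (2 : F) * (Q' x - c * Q x) = 0 := by linear_combination h3
  exact sub_eq_zero.mp ((mul_eq_zero.mp h4).resolve_left h2)

end CfsgLib.OM29
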