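import Cfsg.Agent.LibSpSub29b

/-! Overgroups of Sp(F₀) in Sp(F): the generic case and maximality. -/

namespace CfsgLib.SpSub29

open scoped MatrixGroups Matrix
open Cfsg CfsgLib.MaxTv29 CfsgLib.SympTv29 CfsgLib.Subfield29

variable {ι : Type} [Fintype ι] [DecidableEq ι] {F : Type*} [Field F]
variable {f : (ι → F) → (ι → F) → F}

theorem trace_st (hf : Geo.IsSymplecticForm f) (v : ι → F) (c : F) : Matrix.trace ((st hf v c : GL ι F) : Matrix ι ι F) = Fintype.card ι :=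
  trace_tv _ _ _

theorem trace_mul_st (hf : Geo.IsSymplecticForm f) (g : GL ι F) (v : ι → F) (c : F) :
    Matrix.trace ((g * st hf v c : GL ι F) : Matrix ι ι F) = Matrix.trace (g : Matrix ι ι F) + c * f ((g : Matrix ι ι F) *ᵥ v) v :=
  trace_mul_tv _ _ _ _

theorem trace_conj (y s : GL ι F) : Matrix.trace ((y * s * y⁻¹ : GL ι F) : Matrix ι ι F) = Matrix.trace (s : Matrix ι ι F) := by
  rw [Units.val_mul, Matrix.trace_mul_comm, ← Units.val_mul, ← mul_assoc, inv_mul_cancel, one_mul]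

theorem disp_fix (hf : Geo.IsSymplecticForm f) {T : Submodule F (ι → F)} (hT : ∀ s ∈ T, ∀ t ∈ T, f s t = 0) {k : GL ι F} (hk : k ∈ iso f)
    (hkT : ∀ x, (k : Matrix ι ι F) *ᵥ x - x ∈ T) {y : ι → F} (hy : ∀ t ∈ T, f t y = 0) : (k : Matrix ι ι F) *ᵥ y = y := by
  by_contra hne
  have hne' : (k : Matrix ι ι F) *ᵥ y - y ≠ 0 := sub_ne_zero.mpr hne
  obtain ⟨⟨x, hx⟩, _⟩ := hf.nondegenerate _ hne'
  apply hx
  have h1 := (mem_iso k).mp hk x y
  have h2 : (k : Matrix ι ι F) *ᵥ x = x + ((k : Matrix ι ι F) *ᵥ x - x) := by abel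
  have h3 : (k : Matrix ι ι F) *ᵥ y = y + ((k : Matrix ι ι F) *ᵥ y - y) := by abel
  rw [h2, h3, hf.bilinear.add_left, hf.bilinear.add_right, hf.bilinear.add_right, hy _ (hkT x), hT _ (hkT x) _ (hkT y)] at h1
  linear_combination h1

variable (F₀ : Subfield F) {f₀ : (ι → F₀) → (ι → F₀) → F₀}

theorem all_rat_sp [Finite F] (hf : Geo.IsSymplecticForm f) (hf₀ : Geo.IsSymplecticForm f₀) (hc : ∀ x y, f (emb F₀ x) (emb F₀ y) = (f₀ x y : F))
    {M : Subgroup (GL ι F)} (hM : ∀ (a : ι → F₀) (l : F₀), st hf (emb F₀ a) (l : F) ∈ M) (hn : 7 ≤ Fintype.card ι)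
    (hC : ∀ c, (∀ a b, f₀ a b = 0 → RS F₀ hf M a b c) → c ∈ F₀) (hMi : M ≤ iso f) (hr : (Module.finrank F₀ F).Prime)
    {g : GL ι F} (hg : g ∈ M) : Rat F₀ g := by
  classical
  by_contra hcon
  obtain ⟨a, ha0, hNR⟩ : ∃ a : ι → F₀, a ≠ 0 ∧ NR F₀ ((g : Matrix ι ι F) *ᵥ emb F₀ a) := by
    by_contra h
    push Not at h
    exact hcon (lemR F₀ g h)
  set u := (g : Matrix ι ι F) *ᵥ emb F₀ a with hu
  have hM1 : ∀ a : ι → F₀, st hf (emb F₀ a) 1 ∈ M := fun a => by have := hM a 1; push_cast at this; exact this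
  have huM : st hf u 1 ∈ M := st_mem_conj hf hg (hMi hg) (hM1 a)
  have hgen : ∀ b : ι → F₀, b ≠ 0 → f u (emb F₀ b) ≠ 0 := fun b hb => lemP F₀ hf hf₀ hc hM hn hC hNR huM hb
  have hdim : Fintype.card ι ≤ Module.finrank F₀ F := by
    let L : (ι → F₀) →ₗ[F₀] F :=
      { toFun := fun x => f u (emb F₀ x)
        map_add' := fun x y => by rw [emb_add, hf.bilinear.add_right]
        map_smul' := fun k x => by rw [emb_smul, hf.bilinear.smul_right]; rfl }
    have hL : Function.Injective L := by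
      rw [← LinearMap.ker_eq_bot, eq_bot_iff]
      intro x hx
      rw [Submodule.mem_bot]
      by_contra h0
      exact hgen x h0 hx
    have := LinearMap.finrank_le_finrank_of_injective hL
    rwa [Module.finrank_fintype_fun_eq_card] at this
  obtain ⟨b, _, hb, _⟩ := exists_perp_avoid hf₀ [] ⊥ ⊥ (by simp) (by simp) (by simp; omega)
  have hb0 : b ≠ 0 := fun h => hb (by rw [h]; exact Submodule.zero_mem _)
  obtain ⟨b', hbb', hb', _⟩ := exists_perp_avoid hf₀ [b] (Submodule.span F₀ {b, b}) ⊥ (finrank_pair_le _ _) (by simp) (by simp; omega)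
  have hbb := hbb' b (by simp)
  rw [Set.pair_eq_singleton] at hb'
  have hb'0 : b' ≠ 0 := fun h => hb' (by rw [h]; exact Submodule.zero_mem _)
  have hperp3 : ∀ y : ι → F₀, ∃ d : ι → F₀, d ≠ 0 ∧ f₀ b d = 0 ∧ f₀ b' d = 0 ∧ f₀ y d = 0 := by
    intro y
    obtain ⟨d, hd, hd1, _⟩ := exists_perp_avoid hf₀ [b, b', y] ⊥ ⊥ (by simp) (by simp) (by simp; omega)
    exact ⟨d, fun h => hd1 (by rw [h]; exact Submodule.zero_mem _), hd b (by simp), hd b' (by simp), hd y (by simp)⟩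
  set T : Submodule F (ι → F) := Submodule.span F {emb F₀ b, emb F₀ b'} with hTd
  have hbT : emb F₀ b ∈ T := Submodule.subset_span (by simp)
  have hb'T : emb F₀ b' ∈ T := Submodule.subset_span (by simp)
  have hTperp : ∀ t ∈ T, ∀ d : ι → F₀, f₀ b d = 0 → f₀ b' d = 0 → f t (emb F₀ d) = 0 := by
    intro t ht d h1 h2
    obtain ⟨α, β, rfl⟩ := Submodule.mem_span_pair.mp ht
    rw [hf.bilinear.add_left, hf.bilinear.smul_left, hf.bilinear.smul_left, comp_zero F₀ hc h1, comp_zero F₀ hc h2]; ring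
  have hTT : ∀ s ∈ T, ∀ t ∈ T, f s t = 0 := by
    intro s hs t ht
    obtain ⟨α, β, rfl⟩ := Submodule.mem_span_pair.mp ht
    rw [hf.bilinear.add_right, hf.bilinear.smul_right, hf.bilinear.smul_right, hTperp s hs b (hf₀.alternating b) (swap_eq hf₀ hbb),
      hTperp s hs b' hbb (hf₀.alternating b')]; ring
  have huT : u ∉ T := by
    intro h
    obtain ⟨d, hd0, hd1, hd2, _⟩ := hperp3 b
    exact hgen d hd0 (hTperp u h d hd1 hd2)
  set W : Submodule F (ι → F) := Submodule.span F {emb F₀ b, emb F₀ b', u} with hWd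
  have hTW : T ≤ W := Submodule.span_mono (by intro x hx; simp at hx ⊢; tauto)
  have huW : u ∈ W := Submodule.subset_span (by simp)
  have hWmem : ∀ w ∈ W, ∃ t ∈ T, ∃ γ : F, w = t + γ • u := by
    intro w hw
    obtain ⟨α, β, γ, rfl⟩ := Submodule.mem_span_triple.mp hw
    exact ⟨α • emb F₀ b + β • emb F₀ b', Submodule.mem_span_pair.mpr ⟨α, β, rfl⟩, γ, rfl⟩
  have hWr : Module.finrank F W < 4 := by
    have h1 := finrank_span_list_le [emb F₀ b, emb F₀ b', u]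
    have h2 : Submodule.span F {x | x ∈ [emb F₀ b, emb F₀ b', u]} = W := by
      rw [hWd]; congr 1; ext x; simp
    rw [h2] at h1
    simp at h1; omega
  have hWrat : ∀ y : ι → F₀, emb F₀ y ∈ W → emb F₀ y ∈ T := by
    intro y hy
    obtain ⟨t, ht, γ, he⟩ := hWmem _ hy
    by_cases hγ : γ = 0
    · rw [he, hγ, zero_smul, add_zero]; exact ht
    · exfalso
      obtain ⟨d, hd0, hd1, hd2, hd3⟩ := hperp3 y
      have h1 : f (emb F₀ y) (emb F₀ d) = 0 := comp_zero F₀ hc hd3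
      rw [he, hf.bilinear.add_left, hTperp t ht d hd1 hd2, hf.bilinear.smul_left, zero_add] at h1
      exact hgen d hd0 ((mul_eq_zero.mp h1).resolve_left hγ)
  have hnotNR : ∀ (k : GL ι F) (a : ι → F₀), k ∈ M → (k : Matrix ι ι F) *ᵥ emb F₀ a ∈ T → ∃ (c : F) (y : ι → F₀), (k : Matrix ι ι F) *ᵥ emb F₀ a = c • emb F₀ y := by
    intro k a hk hka
    obtain ⟨d, hd0, hd1, hd2, _⟩ := hperp3 b
    have h1 : ¬ NR F₀ ((k : Matrix ι ι F) *ᵥ emb F₀ a) := fun hN =>
      lemP F₀ hf hf₀ hc hM hn hC hN (st_mem_conj hf hk (hMi hk) (hM1 a)) hd0 (hTperp _ hka d hd1 hd2)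
    unfold NR at h1
    push Not at h1
    obtain ⟨c, hc0, y, hy⟩ := h1
    exact ⟨c⁻¹, y, by rw [← hy, smul_smul, inv_mul_cancel₀ hc0, one_smul]⟩
  haveI : Finite (Matrix ι ι F) := inferInstanceAs (Finite (ι → ι → F))
  haveI : Finite (GL ι F) := inferInstance
  set K := dispGroup M W with hK
  haveI : Finite K := inferInstance
  -- stabiliser of a rational point
  have hstab0 : ∀ k ∈ K, ∀ (a a' : ι → F₀) (c : F), a ≠ 0 → (k : Matrix ι ι F) *ᵥ emb F₀ a = c • emb F₀ a' →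
      (∀ x : ι → F₀, ∃ y : ι → F₀, (k : Matrix ι ι F) *ᵥ emb F₀ x - emb F₀ x = emb F₀ y) ∧ ∀ x, (k : Matrix ι ι F) *ᵥ x - x ∈ T := by
    rintro k ⟨hkM, hkd⟩ a a' c ha h
    obtain ⟨ν, hν0, hν⟩ := lemBs F₀ hf hf₀ hc hM hn hC hMi hkM ha h
    have e : Fin 4 ↪ ι := (Function.Embedding.nonempty_of_card_le (by rw [Fintype.card_fin]; omega)).some
    have hνF : ν ∈ F₀ := nu_mem F₀ hr hkd hWr e (by omega) hν
    have hrat : ∀ x : ι → F₀, ∃ y : ι → F₀, (k : Matrix ι ι F) *ᵥ emb F₀ x - emb F₀ x = emb F₀ y := by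
      intro x
      obtain ⟨y, hy⟩ := hν x
      refine ⟨(⟨ν, hνF⟩ : F₀)⁻¹ • y - x, ?_⟩
      have h1 : (k : Matrix ι ι F) *ᵥ emb F₀ x = ν⁻¹ • emb F₀ y := by rw [← hy, smul_smul, inv_mul_cancel₀ hν0, one_smul]
      have h2 : emb F₀ ((⟨ν, hνF⟩ : F₀)⁻¹ • y - x) = emb F₀ ((⟨ν, hνF⟩ : F₀)⁻¹ • y) - emb F₀ x := rfl
      rw [h1, h2, emb_smul]
      rfl
    refine ⟨hrat, fun x => ?_⟩
    have h3 : (k : Matrix ι ι F) *ᵥ x - x = ∑ i, x i • ((k : Matrix ι ι F) *ᵥ emb F₀ (Pi.single i 1) - emb F₀ (Pi.single i 1)) := by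
      conv_lhs => rw [rational_span F₀ x]
      rw [Matrix.mulVec_sum, ← Finset.sum_sub_distrib]
      exact Finset.sum_congr rfl fun i _ => by rw [Matrix.mulVec_smul, smul_sub]
    rw [h3]
    apply T.sum_mem
    intro i _
    apply T.smul_mem
    obtain ⟨y, hy⟩ := hrat (Pi.single i 1)
    rw [hy]
    apply hWrat
    rw [← hy]
    exact hkd _
  let U : Subgroup K := (dispGroup M T).subgroupOf K
  have hUmem : ∀ k : K, k ∈ U ↔ ∀ x, ((k : GL ι F) : Matrix ι ι F) *ᵥ x - x ∈ T := by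
    intro k
    constructor
    · intro h; exact (Subgroup.mem_subgroupOf.mp h).2
    · intro h; exact Subgroup.mem_subgroupOf.mpr ⟨k.2.1, h⟩
  have hstab : ∀ k : K, ∀ (a a' : ι → F₀) (c : F), a ≠ 0 → ((k : GL ι F) : Matrix ι ι F) *ᵥ emb F₀ a = c • emb F₀ a' → k ∈ U :=
    fun k a a' c ha h => (hUmem k).mpr (hstab0 k k.2 a a' c ha h).2
  have hUfix : ∀ k ∈ U, ∀ t ∈ T, ((k : GL ι F) : Matrix ι ι F) *ᵥ t = t := by
    intro k hk t ht
    exact disp_fix hf hTT (hMi k.2.1) ((hUmem k).mp hk) (fun s hs => hTT s hs t ht)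
  have hst1 : ∀ (c : ι → F₀), emb F₀ c ∈ T → st hf (emb F₀ c) 1 ∈ K := by
    intro c hcT
    refine ⟨hM1 c, fun x => ?_⟩
    rw [st_mulVec, add_sub_cancel_left]
    exact W.smul_mem _ (hTW hcT)
  let s1 : K := ⟨st hf (emb F₀ b) 1, hst1 b hbT⟩
  let s2 : K := ⟨st hf (emb F₀ b') 1, hst1 b' hb'T⟩
  have hs1U : s1 ∈ U := by
    rw [hUmem]; intro x
    change ((st hf (emb F₀ b) 1 : GL ι F) : Matrix ι ι F) *ᵥ x - x ∈ T
    rw [st_mulVec, add_sub_cancel_left]; exact T.smul_mem _ hbT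
  have hs2U : s2 ∈ U := by
    rw [hUmem]; intro x
    change ((st hf (emb F₀ b') 1 : GL ι F) : Matrix ι ι F) *ᵥ x - x ∈ T
    rw [st_mulVec, add_sub_cancel_left]; exact T.smul_mem _ hb'T
  have hne1 : ∀ c : ι → F₀, c ≠ 0 → st hf (emb F₀ c) 1 ≠ 1 := by
    intro c hc0 h
    obtain ⟨⟨x, hx⟩, _⟩ := hf.nondegenerate _ (emb_ne_zero F₀ hc0)
    have h1 := congrArg (fun t : GL ι F => (t : Matrix ι ι F) *ᵥ x) h
    simp only [st_mulVec, Units.val_one, Matrix.one_mulVec, one_mul] at h1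
    have h2 : f x (emb F₀ c) • emb F₀ c = 0 := by
      have : x + f x (emb F₀ c) • emb F₀ c = x + 0 := by rw [add_zero]; exact h1
      exact add_left_cancel this
    exact (smul_eq_zero.mp h2).elim hx (emb_ne_zero F₀ hc0)
  have hs1ne : s1 ≠ 1 := fun h => hne1 b hb0 (congrArg Subtype.val h)
  have hs2ne : s2 ≠ 1 := fun h => hne1 b' hb'0 (congrArg Subtype.val h)
  have hs12ne : s1 * s2 ≠ 1 := by
    intro h
    -- choose z with f(z,b) = 0, f(z,b') ≠ 0
    obtain ⟨z, hz1, hz2⟩ := exists_dualv hf₀ [b] b' (by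
      have : Submodule.span F₀ {x | x ∈ [b]} = Submodule.span F₀ {b} := by congr 1; ext x; simp
      rw [this]; exact hb')
    have hzb : f (emb F₀ z) (emb F₀ b) = 0 := comp_zero F₀ hc (swap_eq hf₀ (hz2 b (by simp)))
    have hzb' : f (emb F₀ z) (emb F₀ b') ≠ 0 := swap_ne hf (by rw [comp_one F₀ hc hz1]; exact one_ne_zero)
    have h1 : (st hf (emb F₀ b) 1 * st hf (emb F₀ b') 1 : GL ι F) = 1 := congrArg Subtype.val h
    have h2 := congrArg (fun t : GL ι F => (t : Matrix ι ι F) *ᵥ emb F₀ z) h1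
    simp only [Units.val_mul, ← Matrix.mulVec_mulVec, st_mulVec, Units.val_one, Matrix.one_mulVec, one_mul, hf.bilinear.add_left, hf.bilinear.smul_left,
      hzb, comp_zero F₀ hc (swap_eq hf₀ hbb), mul_zero, add_zero, zero_smul] at h2
    have h3 : f (emb F₀ z) (emb F₀ b') • emb F₀ b' = 0 := by
      have : emb F₀ z + f (emb F₀ z) (emb F₀ b') • emb F₀ b' = emb F₀ z + 0 := by rw [add_zero]; exact h2
      exact add_left_cancel this
    exact (smul_eq_zero.mp h3).elim hzb' (emb_ne_zero F₀ hb'0)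
  obtain ⟨p, hp⟩ := CharP.exists F
  haveI hpp : Fact p.Prime := by
    haveI := hp
    exact ⟨CharP.char_is_prime F p⟩
  have hpow : ∀ k ∈ U, ∀ (n : ℕ) (x : ι → F), ((k ^ n : K) : GL ι F).1 *ᵥ x = x + (n : F) • (((k : GL ι F) : Matrix ι ι F) *ᵥ x - x) := by
    intro k hk n x
    induction n with
    | zero => simp
    | succ n ih =>
      rw [pow_succ', Subgroup.coe_mul, Units.val_mul, ← Matrix.mulVec_mulVec]
      change ((k : GL ι F) : Matrix ι ι F) *ᵥ (((k ^ n : K) : GL ι F).1 *ᵥ x) = _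
      rw [ih, Matrix.mulVec_add, Matrix.mulVec_smul, hUfix k hk _ ((hUmem k).mp hk x)]
      push_cast
      module
  have hUp : IsPGroup p U := by
    rintro ⟨k, hk⟩
    refine ⟨1, ?_⟩
    rw [pow_one]
    apply Subtype.ext; apply Subtype.ext
    apply gl_ext
    intro x
    have := hpow k hk p x
    rw [CharP.cast_eq_zero, zero_smul, add_zero] at this
    change ((k ^ p : K) : GL ι F).1 *ᵥ x = _
    rw [this]; simp
  have hUcomm : ∀ k ∈ U, ∀ l ∈ U, k * l = l * k := by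
    intro k hk l hl
    apply Subtype.ext
    apply gl_ext
    intro x
    have e1 : ((k : GL ι F) : Matrix ι ι F) *ᵥ x = x + (((k : GL ι F) : Matrix ι ι F) *ᵥ x - x) := by abel
    have e2 : ((l : GL ι F) : Matrix ι ι F) *ᵥ x = x + (((l : GL ι F) : Matrix ι ι F) *ᵥ x - x) := by abel
    rw [Subgroup.coe_mul, Subgroup.coe_mul, Units.val_mul, Units.val_mul, ← Matrix.mulVec_mulVec, ← Matrix.mulVec_mulVec]
    conv_lhs => rw [e2, Matrix.mulVec_add, hUfix k hk _ ((hUmem l).mp hl x)]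
    conv_rhs => rw [e1, Matrix.mulVec_add, hUfix l hl _ ((hUmem k).mp hk x)]
    abel
  have hfus : ∀ s ∈ U, s ≠ 1 → ∀ k : K, k * s * k⁻¹ ∈ U → k ∈ U := by
    intro s hs hs1 k hk
    obtain ⟨hsr, _⟩ := hstab0 s s.2 b b 1 hb0 (by rw [hUfix s hs _ hbT, one_smul])
    obtain ⟨i, hi⟩ : ∃ i : ι, ((s : GL ι F) : Matrix ι ι F) *ᵥ emb F₀ (Pi.single i 1) ≠ emb F₀ (Pi.single i 1) := by
      by_contra hall
      push Not at hall
      apply hs1
      apply Subtype.ext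
      apply gl_ext
      intro x
      have h3 : ((s : GL ι F) : Matrix ι ι F) *ᵥ x = x := by
        conv_lhs => rw [rational_span F₀ x]
        conv_rhs => rw [rational_span F₀ x]
        rw [Matrix.mulVec_sum]
        exact Finset.sum_congr rfl fun i _ => by rw [Matrix.mulVec_smul, hall]
      rw [h3]; simp
    obtain ⟨t₀, ht₀⟩ := hsr (Pi.single i 1)
    have ht0 : t₀ ≠ 0 := by
      rintro rfl
      apply hi
      rw [emb_zero] at ht₀
      exact sub_eq_zero.mp ht₀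
    have h1 : ((k : GL ι F) : Matrix ι ι F) *ᵥ emb F₀ t₀ ∈ T := by
      rw [← ht₀, Matrix.mulVec_sub]
      have h2 := (hUmem _).mp hk (((k : GL ι F) : Matrix ι ι F) *ᵥ emb F₀ (Pi.single i 1))
      rw [Subgroup.coe_mul, Subgroup.coe_mul, Subgroup.coe_inv, Units.val_mul, Units.val_mul, ← Matrix.mulVec_mulVec, ← Matrix.mulVec_mulVec,
        inv_mulVec_mulVec] at h2
      exact h2
    obtain ⟨c, y, hy⟩ := hnotNR k t₀ k.2.1 h1
    exact hstab k t₀ y c ht0 hy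
  obtain ⟨N, _, hNU, hNtop, hNs⟩ := frob_abelian U hUp ⟨s1, hs1U, hs1ne⟩ hUcomm hfus
  have hN1 : ∀ x ∈ N, x = 1 := by
    intro x hx
    apply hNU x hx
    have htr : ∀ s ∈ U, s ≠ 1 → Matrix.trace (((x : GL ι F) * (s : GL ι F) : GL ι F) : Matrix ι ι F) = Matrix.trace ((s : GL ι F) : Matrix ι ι F) := by
      intro s hs hs1
      obtain ⟨y, hy⟩ := hNs x hx s hs hs1
      have h1 : (x : GL ι F) * (s : GL ι F) = (y : GL ι F) * (s : GL ι F) * (y : GL ι F)⁻¹ := congrArg Subtype.val hy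
      rw [h1, trace_conj]
    have t1 := htr s1 hs1U hs1ne
    have t2 := htr s2 hs2U hs2ne
    have t3 := htr (s1 * s2) (U.mul_mem hs1U hs2U) hs12ne
    change Matrix.trace (((x : GL ι F) * st hf (emb F₀ b) 1 : GL ι F) : Matrix ι ι F) = Matrix.trace ((st hf (emb F₀ b) 1 : GL ι F) : Matrix ι ι F) at t1
    change Matrix.trace (((x : GL ι F) * st hf (emb F₀ b') 1 : GL ι F) : Matrix ι ι F) = Matrix.trace ((st hf (emb F₀ b') 1 : GL ι F) : Matrix ι ι F) at t2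
    change Matrix.trace (((x : GL ι F) * (st hf (emb F₀ b) 1 * st hf (emb F₀ b') 1) : GL ι F) : Matrix ι ι F) =
      Matrix.trace ((st hf (emb F₀ b) 1 * st hf (emb F₀ b') 1 : GL ι F) : Matrix ι ι F) at t3
    rw [← mul_assoc, trace_mul_st, trace_mul_st, trace_mul_st, trace_st, Units.val_mul, ← Matrix.mulVec_mulVec,
      st_fix hf _ _ _ (comp_zero F₀ hc (swap_eq hf₀ hbb)), hf.alternating] at t3
    rw [trace_mul_st, trace_st] at t1 t2
    have hA : f (((x : GL ι F) : Matrix ι ι F) *ᵥ emb F₀ b) (emb F₀ b) = 0 := by linear_combination t3 - t2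
    obtain ⟨t, ht, γ, he⟩ := hWmem _ (x.2.2 (emb F₀ b))
    have he' : ((x : GL ι F) : Matrix ι ι F) *ᵥ emb F₀ b = (emb F₀ b + t) + γ • u := by
      rw [add_assoc, ← he]; abel
    rw [he', hf.bilinear.add_left, hf.bilinear.smul_left, hTT _ (T.add_mem hbT ht) _ hbT, zero_add] at hA
    have hγ : γ = 0 := (mul_eq_zero.mp hA).resolve_right (hgen b hb0)
    rw [hγ, zero_smul, add_zero] at he'
    obtain ⟨c, y, hy⟩ := hnotNR x b x.2.1 (by rw [he']; exact T.add_mem hbT ht)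
    exact hstab x b y c hb0 hy
  have htK : st hf u 1 ∈ K := by
    refine ⟨huM, fun x => ?_⟩
    rw [st_mulVec, add_sub_cancel_left]
    exact W.smul_mem _ huW
  have h1 := (hUmem _).mp (hNtop hN1 ⟨_, htK⟩) (emb F₀ b)
  change ((st hf u 1 : GL ι F) : Matrix ι ι F) *ᵥ emb F₀ b - emb F₀ b ∈ T at h1
  rw [st_mulVec, add_sub_cancel_left, one_mul] at h1
  have h2 := T.smul_mem (f (emb F₀ b) u)⁻¹ h1
  rw [smul_smul, inv_mul_cancel₀ (swap_ne hf (hgen b hb0)), one_smul] at h2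
  exact huT h2

theorem sp_maximal0 [Finite F] (hf : Geo.IsSymplecticForm f) (hf₀ : Geo.IsSymplecticForm f₀) (hc : ∀ x y, f (emb F₀ x) (emb F₀ y) = (f₀ x y : F))
    (hn : 7 ≤ Fintype.card ι) (hr : (Module.finrank F₀ F).Prime) :
    Geo.IsMaximalIn (iso f) (((Matrix.GeneralLinearGroup.map (n := ι) (F₀.subtype : F₀ →+* F)).range ⊔ Geo.scalars ι F) ⊓ iso f) := by
  have hrt : ∀ (a : ι → F₀) (l : F₀), st hf (emb F₀ a) (l : F) ∈ ((Matrix.GeneralLinearGroup.map (n := ι) (F₀.subtype : F₀ →+* F)).range ⊔ Geo.scalars ι F) ⊓ iso f := by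
    intro a l
    refine ⟨(mem_rational_iff F₀ _).mpr ⟨1, one_ne_zero, fun x => ⟨x + (l * f₀ x a) • a, ?_⟩⟩, st_mem_iso hf _ _⟩
    rw [one_smul, st_mulVec, hc]
    rfl
  refine ⟨⟨inf_le_right, fun hle => ?_⟩, fun M hHM hMK => ?_⟩
  · obtain ⟨c, hcF⟩ : ∃ c : F, c ∉ F₀ := by
      by_contra hcon
      push Not at hcon
      have h2 : Module.finrank F₀ F ≤ 1 := by
        apply finrank_le_one (1 : F)
        intro w
        exact ⟨⟨w, hcon w⟩, by rw [Subfield.smul_def]; simp⟩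
      have := hr.two_le
      omega
    obtain ⟨b, _, hb, _⟩ := exists_perp_avoid hf₀ [] ⊥ ⊥ (by simp) (by simp) (by simp; omega)
    have hb0 : b ≠ 0 := fun h => hb (by rw [h]; exact Submodule.zero_mem _)
    obtain ⟨z, hz, _⟩ := exists_dualv hf₀ [] b (by simp [hb0])
    have h1 := hle (st_mem_iso hf (emb F₀ b) c)
    obtain ⟨d, hd0, hd⟩ := (mem_rational_iff F₀ _).mp h1.1
    obtain ⟨y1, hy1⟩ := hd b
    obtain ⟨y2, hy2⟩ := hd z
    rw [st_mulVec, hf.alternating, mul_zero, zero_smul, add_zero] at hy1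
    rw [st_mulVec, hc, hf₀.skew, hz] at hy2
    obtain ⟨i, hi⟩ := Function.ne_iff.mp hb0
    have hi' : (b i : F) ≠ 0 := fun h => hi (Subtype.ext h)
    have e1 : d * (b i : F) = (y1 i : F) := congrFun hy1 i
    have e2 : d * ((z i : F) + (c * ((-1 : F₀) : F)) * (b i : F)) = (y2 i : F) := congrFun hy2 i
    push_cast at e2
    have e3 : d = (y1 i : F) / (b i : F) := by rw [← e1]; field_simp
    have hdF : d ∈ F₀ := by rw [e3]; exact F₀.div_mem (y1 i).2 (b i).2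
    apply hcF
    have e4 : c = ((z i : F) - (y2 i : F) / d) / (b i : F) := by
      rw [← e2]; field_simp; ring
    rw [e4]
    exact F₀.div_mem (F₀.sub_mem (z i).2 (F₀.div_mem (y2 i).2 hdF)) (b i).2
  · haveI := Subalgebra.isSimpleOrder_of_finrank_prime F₀ F hr
    have hM : ∀ (a : ι → F₀) (l : F₀), st hf (emb F₀ a) (l : F) ∈ M := fun a l => hHM (hrt a l)
    rcases eq_bot_or_eq_top (coefS F₀ hf hf₀ hc M hM hn) with h | h
    · left
      refine le_antisymm (fun g hg => ⟨?_, hMK hg⟩) hHM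
      apply (mem_rational_iff F₀ g).mpr
      refine all_rat_sp F₀ hf hf₀ hc hM hn ?_ hMK hr hg
      intro c hc'
      have h1 : c ∈ coefS F₀ hf hf₀ hc M hM hn := hc'
      rw [h, Algebra.mem_bot] at h1
      obtain ⟨x, hx⟩ := h1
      rw [← hx]; exact x.2
    · right
      refine le_antisymm hMK (iso_le_of_coefS F₀ hf hf₀ hc hM hn ?_)
      intro c a b hab
      have : c ∈ coefS F₀ hf hf₀ hc M hM hn := by rw [h]; exact Algebra.mem_top
      exact this a b hab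

/-- the pulled-back form -/
theorem pull_symplectic (hf : Geo.IsSymplecticForm f) (P : GL ι F) {ζ : F} (hζ : ζ ≠ 0) :
    Geo.IsSymplecticForm (fun x y => ζ * f ((P : Matrix ι ι F) *ᵥ x) ((P : Matrix ι ι F) *ᵥ y)) := by
  refine ⟨⟨?_, ?_, ?_, ?_⟩, ?_, ?_, ?_⟩
  · intro x y v
    simp only [Matrix.mulVec_add, hf.bilinear.add_left]; ring
  · intro c x v
    simp only [Matrix.mulVec_smul, hf.bilinear.smul_left]; ring
  · intro v x y
    simp only [Matrix.mulVec_add, hf.bilinear.add_right]; ring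
  · intro c v x
    simp only [Matrix.mulVec_smul, hf.bilinear.smul_right]; ring
  · intro v w
    rw [hf.skew]; ring
  · intro v
    rw [hf.alternating, mul_zero]
  · intro v hv
    have hPv : (P : Matrix ι ι F) *ᵥ v ≠ 0 := fun h => hv (mulVec_injective P (h.trans (Matrix.mulVec_zero _).symm))
    obtain ⟨⟨x, hx⟩, ⟨y, hy⟩⟩ := hf.nondegenerate _ hPv
    refine ⟨⟨((P⁻¹ : GL ι F) : Matrix ι ι F) *ᵥ x, ?_⟩, ⟨((P⁻¹ : GL ι F) : Matrix ι ι F) *ᵥ y, ?_⟩⟩
    · simp only [mulVec_inv_mulVec]; exact mul_ne_zero hζ hx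
    · simp only [mulVec_inv_mulVec]; exact mul_ne_zero hζ hy

theorem iso_pull (f : (ι → F) → (ι → F) → F) (P : GL ι F) {ζ : F} (hζ : ζ ≠ 0) :
    (iso (fun x y => ζ * f ((P : Matrix ι ι F) *ᵥ x) ((P : Matrix ι ι F) *ᵥ y))).map (MulAut.conj P).toMonoidHom = iso f := by
  ext g
  rw [Subgroup.mem_map]
  constructor
  · rintro ⟨k, hk, rfl⟩
    rw [mem_iso] at hk ⊢
    intro u v
    have h1 := hk (((P⁻¹ : GL ι F) : Matrix ι ι F) *ᵥ u) (((P⁻¹ : GL ι F) : Matrix ι ι F) *ᵥ v)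
    simp only [mulVec_inv_mulVec] at h1
    have h2 := mul_left_cancel₀ hζ h1
    change f (((P * k * P⁻¹ : GL ι F) : Matrix ι ι F) *ᵥ u) (((P * k * P⁻¹ : GL ι F) : Matrix ι ι F) *ᵥ v) = f u v
    rw [Units.val_mul, Units.val_mul, ← Matrix.mulVec_mulVec, ← Matrix.mulVec_mulVec, ← Matrix.mulVec_mulVec, ← Matrix.mulVec_mulVec]
    exact h2
  · intro hg
    refine ⟨P⁻¹ * g * P, ?_, by simp [mul_assoc]⟩
    rw [mem_iso] at hg
    apply (mem_iso _).mpr
    intro u v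
    simp only [Units.val_mul, ← Matrix.mulVec_mulVec, mulVec_inv_mulVec]
    rw [hg]

theorem sp_maximal [Finite F] (hf : Geo.IsSymplecticForm f) (hn : 7 ≤ Fintype.card ι) (hr : (Module.finrank F₀ F).Prime) (P : GL ι F) {ζ : F} (hζ : ζ ≠ 0)
    (hP : Geo.IsFormRationalStructure f F₀ ζ P) : Geo.IsMaximalIn (iso f) (Geo.subfieldSubgroup F₀ P ⊓ iso f) := by
  have hf' := pull_symplectic hf P hζ
  let f₀ : (ι → F₀) → (ι → F₀) → F₀ := fun x y => ⟨ζ * f ((P : Matrix ι ι F) *ᵥ emb F₀ x) ((P : Matrix ι ι F) *ᵥ emb F₀ y),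
    hP _ _ (fun i => (x i).2) (fun i => (y i).2)⟩
  have hc : ∀ x y, (fun x y => ζ * f ((P : Matrix ι ι F) *ᵥ x) ((P : Matrix ι ι F) *ᵥ y)) (emb F₀ x) (emb F₀ y) = (f₀ x y : F) := fun _ _ => rfl
  have hsk : ∀ v w, f₀ v w = - f₀ w v := fun v w => Subtype.ext (hf'.skew _ _)
  have hnd : ∀ v : ι → F₀, v ≠ 0 → ∃ x, f₀ x v ≠ 0 := by
    intro v hv
    by_contra hcon
    push Not at hcon
    apply emb_ne_zero F₀ hv
    apply eq_of_rat F₀ hf'
    intro x
    have h0 : ζ * f ((P : Matrix ι ι F) *ᵥ emb F₀ x) ((P : Matrix ι ι F) *ᵥ emb F₀ v) = 0 := congrArg Subtype.val (hcon x)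
    rw [zero_left hf', hf'.skew, h0, neg_zero]
  have hf₀ : Geo.IsSymplecticForm f₀ := by
    refine ⟨⟨?_, ?_, ?_, ?_⟩, hsk, ?_, ?_⟩
    · intro x y v; exact Subtype.ext (hf'.bilinear.add_left _ _ _)
    · intro c x v; exact Subtype.ext (hf'.bilinear.smul_left _ _ _)
    · intro v x y; exact Subtype.ext (hf'.bilinear.add_right _ _ _)
    · intro c v x; exact Subtype.ext (hf'.bilinear.smul_right _ _ _)
    · intro v; exact Subtype.ext (hf'.alternating _)
    · intro v hv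
      obtain ⟨x, hx⟩ := hnd v hv
      exact ⟨⟨x, hx⟩, ⟨x, by rw [hsk]; exact neg_ne_zero.mpr hx⟩⟩
  have h1 := isMaximalIn_map (MulAut.conj P) (sp_maximal0 F₀ hf' hf₀ hc hn hr)
  rw [Subgroup.map_inf _ _ _ (MulAut.conj P).injective, iso_pull f P hζ] at h1
  exact h1

end CfsgLib.SpSub29
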