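import Cfsg.Agent.LibOM29j
import Cfsg.Agent.LibOM29l
import Cfsg.Agent.LibSpSub29c

set_option autoImplicit false

/-! Overgroups of `Ω(F₀)` in `Ω(F)`: rational root elements. -/

namespace CfsgLib.OS29

open scoped MatrixGroups Matrix
open Cfsg CfsgLib.MaxTv29 CfsgLib.SympTv29 CfsgLib.Subfield29 CfsgLib.OM29 Cfsg.Agent.H22 Module

variable {ι : Type} [Fintype ι] [DecidableEq ι]

section pick
variable {K : Type*} [Field K] {q : QuadraticForm K (ι → K)}

local notation "β" => QuadraticMap.polar q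

theorem mem_orth_list {L : List (ι → K)} {x : ι → K} : x ∈ orth q (Submodule.span K {x | x ∈ L}) ↔ ∀ v ∈ L, β v x = 0 := by
  rw [mem_orth]
  constructor
  · intro h v hv; exact h v (Submodule.subset_span hv)
  · intro h w hw
    induction hw using Submodule.span_induction with
    | mem d hd => exact h d hd
    | zero => exact QuadraticMap.polar_zero_left q x
    | add a b _ _ ha hb => rw [QuadraticMap.polar_add_left, ha, hb, add_zero]
    | smul c a _ ha => rw [QuadraticMap.polar_smul_left, ha, smul_zero]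

theorem orth_list_ge (hq : (QuadraticMap.polarBilin q).Nondegenerate) (L : List (ι → K)) :
    Fintype.card ι ≤ finrank K (orth q (Submodule.span K {x | x ∈ L})) + L.length := by
  have h1 := finrank_orth hq (Submodule.span K {x | x ∈ L})
  have h2 : finrank K (Submodule.span K {x | x ∈ L}) ≤ L.length := finrank_span_list_le L
  rw [Module.finrank_fintype_fun_eq_card] at h1
  omega

/-- singular vector orthogonal to a list and avoiding a subspace -/
theorem pickA [Finite K] (hq : (QuadraticMap.polarBilin q).Nondegenerate) (L : List (ι → K)) (A : Submodule K (ι → K)) {a : ℕ} (hA : finrank K A ≤ a)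
    (h : L.length + a + 3 ≤ Fintype.card ι) : ∃ x, q x = 0 ∧ (∀ v ∈ L, β v x = 0) ∧ x ∉ A := by
  have h1 := orth_list_ge hq L
  obtain ⟨x, hx1, hx2, hx3⟩ := exists_singular_avoid q (orth q (Submodule.span K {x | x ∈ L})) A (by omega)
  exact ⟨x, hx2, mem_orth_list.mp hx1, hx3⟩

theorem pick [Finite K] (hq : (QuadraticMap.polarBilin q).Nondegenerate) (L L' : List (ι → K)) (h : L.length + L'.length + 3 ≤ Fintype.card ι) :
    ∃ x, q x = 0 ∧ (∀ v ∈ L, β v x = 0) ∧ x ∉ Submodule.span K {x | x ∈ L'} :=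
  pickA hq L _ (finrank_span_list_le L') h

/-- hyperbolic partner -/
theorem partner (hq : (QuadraticMap.polarBilin q).Nondegenerate) (L : List (ι → K)) (w : ι → K) (hw : w ∉ Submodule.span K {x | x ∈ L}) (hL : ∀ v ∈ L, β v w = 0)
    (hqw : q w = 0) : ∃ w', q w' = 0 ∧ β w w' = 1 ∧ ∀ v ∈ L, β v w' = 0 := by
  obtain ⟨w', h1, h2, h3⟩ := exists_partner hq (Submodule.span K {x | x ∈ L}) w hw (fun z hz => by
    have h1 : w ∈ orth q (Submodule.span K {x | x ∈ L}) := mem_orth_list.mpr hL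
    exact mem_orth.mp h1 z hz) hqw
  exact ⟨w', h3, h2, fun v hv => h1 v (Submodule.subset_span hv)⟩

omit [Fintype ι] [DecidableEq ι] in
theorem span_list_single (a : ι → K) : Submodule.span K {x | x ∈ [a]} = Submodule.span K {a} := by
  congr 1; ext x; simp

end pick

variable {F : Type*} [Field F] (F₀ : Subfield F) {Q : QuadraticForm F (ι → F)} {Q₀ : QuadraticForm F₀ (ι → F₀)}

local notation "B" => QuadraticMap.polar Q
local notation "B₀" => QuadraticMap.polar Q₀

/-- rational structure carrying the form and an overgroup of the rational root elements -/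
structure Sd (Q : QuadraticForm F (ι → F)) (Q₀ : QuadraticForm F₀ (ι → F₀)) (M : Subgroup (GL ι F)) : Prop where
  hQ : (QuadraticMap.polarBilin Q).Nondegenerate
  hQ₀ : (QuadraticMap.polarBilin Q₀).Nondegenerate
  hc : ∀ x, Q (emb F₀ x) = (Q₀ x : F)
  h13 : 13 ≤ Fintype.card ι
  hM : ∀ v w, Q₀ v = 0 → QuadraticMap.polar Q₀ v w = 0 → EM Q (emb F₀ v) (emb F₀ w) ∈ M
  hMi : M ≤ Cfsg.isometryGroup F ⇑Q

/-- `EM (c a) b ∈ M` -/
def R (Q : QuadraticForm F (ι → F)) (M : Subgroup (GL ι F)) (a b : ι → F₀) (c : F) : Prop := EM Q (c • emb F₀ a) (emb F₀ b) ∈ M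

namespace Sd

variable {F₀} {M : Subgroup (GL ι F)} (D : Sd F₀ Q Q₀ M)
include D

theorem bc (x y : ι → F₀) : B (emb F₀ x) (emb F₀ y) = (B₀ x y : F) := by
  unfold QuadraticMap.polar
  rw [← emb_add, D.hc, D.hc, D.hc]
  push_cast
  ring

theorem q0 {x : ι → F₀} (h : Q₀ x = 0) : Q (emb F₀ x) = 0 := by rw [D.hc, h]; rfl

theorem b0 {x y : ι → F₀} (h : B₀ x y = 0) : B (emb F₀ x) (emb F₀ y) = 0 := by rw [D.bc, h]; rfl

theorem b0' {x y : ι → F₀} (h : B₀ x y = 0) : B (emb F₀ y) (emb F₀ x) = 0 := by rw [bsymm, D.bc, h]; rfl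

theorem b1 {x y : ι → F₀} (h : B₀ x y = 1) : B (emb F₀ x) (emb F₀ y) = 1 := by rw [D.bc, h]; rfl

theorem b1' {x y : ι → F₀} (h : B₀ x y = 1) : B (emb F₀ y) (emb F₀ x) = 1 := by rw [bsymm, D.bc, h]; rfl

theorem fr : finrank F (ι → F) = Fintype.card ι := Module.finrank_fintype_fun_eq_card F

theorem fr0 : finrank F₀ (ι → F₀) = Fintype.card ι := Module.finrank_fintype_fun_eq_card F₀

theorem conj_mem {g : GL ι F} (hg : g ∈ M) {v w : ι → F} (hv : Q v = 0) (hw : B v w = 0) (h : EM Q v w ∈ M) :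
    EM Q ((g : Matrix ι ι F) *ᵥ v) ((g : Matrix ι ι F) *ᵥ w) ∈ M := by
  rw [← EM_conj (D.hMi hg) hv hw]
  exact M.mul_mem (M.mul_mem hg h) (M.inv_mem hg)

theorem right_mem {v w w' : ι → F} (hv : Q v = 0) (hw : B v w = 0) (hw' : B v w' = 0) (h1 : EM Q v (w + w') ∈ M) (h2 : EM Q v w ∈ M) : EM Q v w' ∈ M := by
  rw [EM_add hv hw hw'] at h1
  have := M.mul_mem (M.inv_mem h2) h1
  rwa [inv_mul_cancel_left] at this

theorem neg_mem {v w : ι → F} (hv : Q v = 0) (hw : B v w = 0) (h : EM Q v w ∈ M) : EM Q v (-w) ∈ M := by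
  rw [← EM_inv hv hw]
  exact M.inv_mem h

theorem of_rat {a b : ι → F₀} (ha : Q₀ a = 0) (h0 : B₀ a b = 0) (l : F₀) : R F₀ Q M a b (l : F) := by
  unfold R
  rw [← emb_smul]
  exact D.hM _ _ (by rw [qsmul, ha, mul_zero]) (by rw [QuadraticMap.polar_smul_left, h0, smul_zero])

theorem comm {a b : ι → F₀} (ha : Q₀ a = 0) (hb : Q₀ b = 0) (h0 : B₀ a b = 0) {c : F} (h : R F₀ Q M a b c) : R F₀ Q M b a c := by
  unfold R at h ⊢
  rw [EM_smul_left (D.q0 hb) (D.b0' h0), EM_swap (D.q0 hb) (by rw [qsmul, D.q0 ha, mul_zero]) (by rw [QuadraticMap.polar_smul_right, D.b0' h0, smul_zero])]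
  exact M.inv_mem h

theorem step {a b e : ι → F₀} (ha : Q₀ a = 0) (hb : Q₀ b = 0) (h0 : B₀ a b = 0) {c : F} (h : R F₀ Q M a b c) (he : Q₀ e = 0) (hae : B₀ a e = 0) (hbe : B₀ b e = 0)
    (hb' : b ∉ Submodule.span F₀ {a, e}) : R F₀ Q M a e c := by
  obtain ⟨d, hd0, hd1, hd2⟩ := partner D.hQ₀ [a, e] b (by rw [CfsgLib.SpSub29.span_list_pair]; exact hb') (by
    intro v hv
    simp only [List.mem_cons, List.not_mem_nil, or_false] at hv
    rcases hv with rfl | rfl
    · exact h0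
    · rw [bsymm]; exact hbe) hb
  have hda := hd2 a (by simp)
  have hde := hd2 e (by simp)
  have hed : B (emb F₀ d) (emb F₀ e) = 0 := D.b0' hde
  have h1 := D.conj_mem (D.hM d e hd0 (by rw [bsymm]; exact hde)) (by rw [qsmul, D.q0 ha, mul_zero]) (by rw [QuadraticMap.polar_smul_left, D.b0 h0, smul_zero]) h
  rw [EM_mulVec (D.q0 hd0) hed, EM_mulVec (D.q0 hd0) hed, QuadraticMap.polar_smul_right, QuadraticMap.polar_smul_right, D.b0' hda, D.b0' hae, D.q0 he,
    D.b1' hd1, D.b0' hbe] at h1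
  simp only [smul_zero, zero_smul, add_zero, one_smul, sub_zero, zero_mul] at h1
  exact D.right_mem (by rw [qsmul, D.q0 ha, mul_zero]) (by rw [QuadraticMap.polar_smul_left, D.b0 h0, smul_zero])
    (by rw [QuadraticMap.polar_smul_left, D.b0 hae, smul_zero]) h1 h

theorem all [Finite F] {a b : ι → F₀} (ha : Q₀ a = 0) (hb : Q₀ b = 0) (h0 : B₀ a b = 0) {c : F} (h : R F₀ Q M a b c) (hab : b ∉ Submodule.span F₀ {a}) (ha0 : a ≠ 0)
    {a' b' : ι → F₀} (ha' : Q₀ a' = 0) (hb' : Q₀ b' = 0) (h0' : B₀ a' b' = 0) : R F₀ Q M a' b' c := by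
  have h13 := D.h13
  obtain ⟨e, hee, he, heN⟩ := pick D.hQ₀ [a, b, a', b'] [a, b, a', b'] (by simp; omega)
  obtain ⟨e', hee', he', heN'⟩ := pick D.hQ₀ [a, a', b', e] [a, a', e] (by simp; omega)
  have hN1 : e ∉ Submodule.span F₀ {a, b} := fun h => heN (Submodule.span_mono (by intro x hx; simp at hx ⊢; tauto) h)
  have hN2 : e ∉ Submodule.span F₀ {a', b'} := fun h => heN (Submodule.span_mono (by intro x hx; simp at hx ⊢; tauto) h)
  have hN3 : e' ∉ Submodule.span F₀ {e, a} := fun h => heN' (Submodule.span_mono (by intro x hx; simp at hx ⊢; tauto) h)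
  have hN4 : e' ∉ Submodule.span F₀ {e, a'} := fun h => heN' (Submodule.span_mono (by intro x hx; simp at hx ⊢; tauto) h)
  have e1 := he a (by simp)
  have e2 := he b (by simp)
  have e3 := he a' (by simp)
  have e4 := he b' (by simp)
  have e5 := he' a (by simp)
  have e6 := he' a' (by simp)
  have e8 := he' e (by simp)
  have e9 : B₀ e a = 0 := by rw [bsymm]; exact e1
  have e10 : B₀ e a' = 0 := by rw [bsymm]; exact e3
  have he0 : e ≠ 0 := by rintro rfl; exact heN (Submodule.zero_mem _)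
  have s1 : R F₀ Q M a e c := D.step ha hb h0 h hee e1 e2 (CfsgLib.SpSub29.notMem_pair hab hN1)
  have s2 : R F₀ Q M e a c := D.comm ha hee e1 s1
  have s3 : R F₀ Q M e e' c := by
    refine D.step hee ha e9 s2 hee' e8 e5 (CfsgLib.SpSub29.notMem_pair ?_ hN3)
    intro hcon
    obtain ⟨k, hk⟩ := Submodule.mem_span_singleton.mp hcon
    have hk0 : k ≠ 0 := by rintro rfl; rw [zero_smul] at hk; exact ha0 hk.symm
    apply hN1
    rw [Submodule.mem_span_pair]
    exact ⟨k⁻¹, 0, by rw [← hk, smul_smul, inv_mul_cancel₀ hk0]; simp⟩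
  have s4 : R F₀ Q M e a' c := D.step hee hee' e8 s3 ha' e10 (by rw [bsymm]; exact e6) hN4
  have s5 : R F₀ Q M a' e c := D.comm hee ha' e10 s4
  exact D.step ha' hee e3 s5 hb' h0' (by rw [bsymm]; exact e4) hN2

theorem add {a b : ι → F₀} (ha : Q₀ a = 0) (h0 : B₀ a b = 0) {c d : F} (h : R F₀ Q M a b c) (h' : R F₀ Q M a b d) : R F₀ Q M a b (c + d) := by
  have hab := D.b0 h0
  unfold R at h h' ⊢
  rw [EM_smul_left (D.q0 ha) hab] at h h' ⊢
  rw [add_smul, EM_add (D.q0 ha) (by rw [QuadraticMap.polar_smul_right, hab, smul_zero]) (by rw [QuadraticMap.polar_smul_right, hab, smul_zero])]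
  exact M.mul_mem h h'

theorem mul {a b a' b' : ι → F₀} (ha : Q₀ a = 0) (ha' : Q₀ a' = 0) (hb' : Q₀ b' = 0) (h0 : B₀ a b = 0) (h0' : B₀ a' b' = 0) (h1 : B₀ b a' = 1) (h2 : B₀ a a' = 0)
    (h3 : B₀ a b' = 0) (h4 : B₀ b b' = 0) {c d : F} (h : R F₀ Q M a b c) (h' : R F₀ Q M a' b' d) : R F₀ Q M a b' (c * d) := by
  unfold R at h'
  rw [EM_smul_left (D.q0 ha') (D.b0 h0')] at h'
  have hz : B (emb F₀ a') (d • emb F₀ b') = 0 := by rw [QuadraticMap.polar_smul_right, D.b0 h0', smul_zero]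
  have h5 := D.conj_mem h' (by rw [qsmul, D.q0 ha, mul_zero]) (by rw [QuadraticMap.polar_smul_left, D.b0 h0, smul_zero]) h
  rw [EM_mulVec (D.q0 ha') hz, EM_mulVec (D.q0 ha') hz] at h5
  simp only [QuadraticMap.polar_smul_left, QuadraticMap.polar_smul_right, D.b0' h2, D.b0' h3, D.b0' h4, D.b1' h1, qsmul, D.q0 hb', mul_zero, smul_zero, zero_smul,
    add_zero, sub_zero, one_smul, zero_mul] at h5
  have h6 := D.right_mem (by rw [qsmul, D.q0 ha, mul_zero]) (by rw [QuadraticMap.polar_smul_left, D.b0 h0, smul_zero])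
    (by rw [QuadraticMap.polar_smul_left, QuadraticMap.polar_smul_right, D.b0 h3, smul_zero, smul_zero]) h5 h
  unfold R
  rw [mul_comm, mul_smul, EM_smul_left (by rw [qsmul, D.q0 ha, mul_zero]) (by rw [QuadraticMap.polar_smul_left, D.b0 h3, smul_zero])]
  exact h6

end Sd

/-- coefficient algebra -/
def coefO [Finite F] {M : Subgroup (GL ι F)} (D : Sd F₀ Q Q₀ M) : Subalgebra F₀ F where
  carrier := {c | ∀ a b, Q₀ a = 0 → Q₀ b = 0 → QuadraticMap.polar Q₀ a b = 0 → R F₀ Q M a b c}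
  mul_mem' := by
    intro c d hcm hdm
    have h13 := D.h13
    obtain ⟨a, ha, _, haN⟩ := pick D.hQ₀ [] [] (by simp; omega)
    obtain ⟨b, hb, hb1, hbN⟩ := pick D.hQ₀ [a] [a] (by simp; omega)
    obtain ⟨b', hb', hb1', hbN'⟩ := pick D.hQ₀ [a, b] [a, b] (by simp; omega)
    have ha0 : a ≠ 0 := fun h => haN (by rw [h]; exact Submodule.zero_mem _)
    rw [span_list_single] at hbN
    rw [CfsgLib.SpSub29.span_list_pair] at hbN'
    have e1 := hb1 a (by simp)
    have e2 := hb1' a (by simp)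
    have e3 := hb1' b (by simp)
    obtain ⟨a', ha', ha1', ha2'⟩ := partner D.hQ₀ [a, b'] b (by
      rw [CfsgLib.SpSub29.span_list_pair]; exact CfsgLib.SpSub29.notMem_pair hbN hbN') (by
      intro v hv
      simp only [List.mem_cons, List.not_mem_nil, or_false] at hv
      rcases hv with rfl | rfl
      · exact e1
      · rw [bsymm]; exact e3) hb
    have e4 := ha2' a (by simp)
    have e5 := ha2' b' (by simp)
    have e6 : QuadraticMap.polar Q₀ a' b' = 0 := by rw [bsymm]; exact e5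
    have h1 := D.mul ha ha' hb' e1 e6 ha1' e4 e2 e3 (hcm a b ha hb e1) (hdm a' b' ha' hb' e6)
    intro x y hx hy hxy
    exact D.all ha hb' e2 h1 (by
      intro hcon
      apply hbN'
      obtain ⟨k, hk⟩ := Submodule.mem_span_singleton.mp hcon
      exact Submodule.mem_span_pair.mpr ⟨k, 0, by rw [zero_smul, add_zero]; exact hk⟩) ha0 hx hy hxy
  add_mem' := by
    intro c d hcm hdm a b ha hb h
    exact D.add ha h (hcm a b ha hb h) (hdm a b ha hb h)
  algebraMap_mem' := by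
    intro k a b ha _ h
    exact D.of_rat ha h k

end CfsgLib.OS29
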