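import Cfsg.Agent.LibOS29a

set_option autoImplicit false

/-! Overgroups of `Ω(F₀)` in `Ω(F)`: consequences of the coefficient algebra. -/

namespace CfsgLib.OS29

open scoped MatrixGroups Matrix
open Cfsg CfsgLib.MaxTv29 CfsgLib.SympTv29 CfsgLib.Subfield29 CfsgLib.OM29 Cfsg.Agent.H22 Module

variable {ι : Type} [Fintype ι] [DecidableEq ι]
variable {F : Type*} [Field F] {F₀ : Subfield F} {Q : QuadraticForm F (ι → F)} {Q₀ : QuadraticForm F₀ (ι → F₀)}

local notation "B" => QuadraticMap.polar Q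
local notation "B₀" => QuadraticMap.polar Q₀

theorem rational_span (v : ι → F) : v = ∑ i, v i • emb F₀ (Pi.single i 1) := by
  conv_lhs => rw [← Finset.univ_sum_single v]
  refine Finset.sum_congr rfl fun i _ => ?_
  rw [emb_single, ← Pi.single_smul, smul_eq_mul, mul_one]

theorem exists_sing_ker {K V W' : Type*} [Field K] [Finite K] [AddCommGroup V] [Module K V] [FiniteDimensional K V] [AddCommGroup W'] [Module K W'] [FiniteDimensional K W']
    (q : QuadraticForm K V) {S : Submodule K V} (L : S →ₗ[K] W') (h : finrank K W' + 3 ≤ finrank K S) : ∃ z : S, L z = 0 ∧ (z : V) ≠ 0 ∧ q z = 0 := by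
  have h1 := LinearMap.finrank_range_add_finrank_ker L
  have h2 := Submodule.finrank_le (LinearMap.range L)
  obtain ⟨z, hz0, hz⟩ := exists_singular_any (q.comp (S.subtype.comp (LinearMap.ker L).subtype)) (by omega)
  exact ⟨z.1, z.2, fun h => hz0 (Subtype.ext (Subtype.ext h)), hz⟩

namespace Sd

variable {M : Subgroup (GL ι F)} (D : Sd F₀ Q Q₀ M)
include D

theorem zero_of_rat {v : ι → F} (h : ∀ x : ι → F₀, B v (emb F₀ x) = 0) : v = 0 := by
  apply D.hQ.1 v
  intro y
  have h1 : (QuadraticMap.polarBilin Q v) y = 0 := by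
    rw [rational_span (F₀ := F₀) y, map_sum]
    apply Finset.sum_eq_zero
    intro i _
    rw [map_smul, QuadraticMap.polarBilin_apply_apply, h, smul_zero]
  exact h1

theorem exists_one {b : ι → F₀} (hb : b ≠ 0) : ∃ e, B₀ b e = 1 := by
  by_contra hcon
  push Not at hcon
  apply hb
  apply D.hQ₀.1 b
  intro y
  by_contra hy
  have hy' : B₀ b y ≠ 0 := hy
  apply hcon ((B₀ b y)⁻¹ • y)
  rw [QuadraticMap.polar_smul_right, smul_eq_mul, inv_mul_cancel₀ hy']

theorem prop_of_perp {b : ι → F₀} (hb : b ≠ 0) {z : ι → F} (h : ∀ c : ι → F₀, B₀ b c = 0 → B z (emb F₀ c) = 0) : ∃ k : F, z = k • emb F₀ b := by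
  obtain ⟨e, he⟩ := D.exists_one hb
  refine ⟨B z (emb F₀ e), ?_⟩
  rw [← sub_eq_zero]
  apply D.zero_of_rat
  intro x
  have h1 := h (x - B₀ b x • e) (by rw [QuadraticMap.polar_sub_right, QuadraticMap.polar_smul_right, he, smul_eq_mul, mul_one, sub_self])
  have h2 : emb F₀ (x - B₀ b x • e) = emb F₀ x - (B₀ b x : F) • emb F₀ e := rfl
  rw [h2, QuadraticMap.polar_sub_right, QuadraticMap.polar_smul_right, smul_eq_mul] at h1
  rw [QuadraticMap.polar_sub_left, QuadraticMap.polar_smul_left, D.bc, smul_eq_mul]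
  linear_combination h1

theorem span_perp (a : ι → F₀) (A : Submodule F (ι → F)) (hA : ∀ y, B₀ a y = 0 → emb F₀ y ∈ A) {x : ι → F} (hx : B (emb F₀ a) x = 0) : x ∈ A := by
  by_cases ha : a = 0
  · rw [rational_span (F₀ := F₀) x]
    exact A.sum_mem fun i _ => A.smul_mem _ (hA _ (by rw [ha, QuadraticMap.polar_zero_left]))
  obtain ⟨z, hz⟩ := D.exists_one ha
  have h1 : ∑ i, x i * (B₀ a (Pi.single i 1) : F) = 0 := by
    rw [← hx]
    conv_rhs => rw [rational_span (F₀ := F₀) x]
    have : B (emb F₀ a) (∑ i, x i • emb F₀ (Pi.single i 1)) = (QuadraticMap.polarBilin Q (emb F₀ a)) (∑ i, x i • emb F₀ (Pi.single i 1)) := rfl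
    rw [this, map_sum]
    refine Finset.sum_congr rfl fun i _ => ?_
    rw [map_smul, QuadraticMap.polarBilin_apply_apply, D.bc, smul_eq_mul]
  have h2 : x = ∑ i, x i • emb F₀ (Pi.single i 1 - B₀ a (Pi.single i 1) • z) := by
    have h3 : ∀ i, x i • emb F₀ (Pi.single i 1 - B₀ a (Pi.single i 1) • z) = x i • emb F₀ (Pi.single i 1) - (x i * (B₀ a (Pi.single i 1) : F)) • emb F₀ z := by
      intro i
      have h2 : emb F₀ (Pi.single i 1 - B₀ a (Pi.single i 1) • z) = emb F₀ (Pi.single i 1) - (B₀ a (Pi.single i 1) : F) • emb F₀ z := rfl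
      rw [h2, smul_sub, smul_smul]
    simp only [h3]
    rw [Finset.sum_sub_distrib, ← Finset.sum_smul, h1, zero_smul, sub_zero]
    exact rational_span x
  rw [h2]
  exact A.sum_mem fun i _ => A.smul_mem _ (hA _ (by
    rw [QuadraticMap.polar_sub_right, QuadraticMap.polar_smul_right, hz, smul_eq_mul, mul_one, sub_self]))

theorem h7 : 7 ≤ finrank F₀ (ι → F₀) := by
  have := D.h13
  rw [D.fr0]; omega

/-- the case of all coefficients -/
theorem full_rat [Finite F] (hall : ∀ (c : F) (a b : ι → F₀), Q₀ a = 0 → Q₀ b = 0 → B₀ a b = 0 → R F₀ Q M a b c) {a : ι → F₀} (ha : Q₀ a = 0) : Full Q M (emb F₀ a) := by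
  refine ⟨D.q0 ha, ?_⟩
  let A : Submodule F (ι → F) :=
    { carrier := {w | B (emb F₀ a) w = 0 ∧ ∀ c : F, EM Q (emb F₀ a) (c • w) ∈ M}
      add_mem' := by
        rintro w w' ⟨h1, h2⟩ ⟨h3, h4⟩
        refine ⟨by rw [QuadraticMap.polar_add_right, h1, h3, add_zero], fun c => ?_⟩
        rw [smul_add, EM_add (D.q0 ha) (by rw [QuadraticMap.polar_smul_right, h1, smul_zero]) (by rw [QuadraticMap.polar_smul_right, h3, smul_zero])]
        exact M.mul_mem (h2 c) (h4 c)
      zero_mem' := ⟨QuadraticMap.polar_zero_right Q _, fun c => by rw [smul_zero, EM_zero (D.q0 ha)]; exact M.one_mem⟩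
      smul_mem' := by
        rintro k w ⟨h1, h2⟩
        exact ⟨by rw [QuadraticMap.polar_smul_right, h1, smul_zero], fun c => by rw [smul_smul]; exact h2 _⟩ }
  have hA : ∀ y, B₀ a y = 0 → emb F₀ y ∈ A := by
    let A₀ : Submodule F₀ (ι → F₀) :=
      { carrier := {y | emb F₀ y ∈ A}
        add_mem' := fun {x y} hx hy => by
          change emb F₀ (x + y) ∈ A
          rw [emb_add]; exact A.add_mem hx hy
        zero_mem' := by
          change emb F₀ 0 ∈ A
          rw [emb_zero]; exact A.zero_mem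
        smul_mem' := fun k x hx => by
          change emb F₀ (k • x) ∈ A
          rw [emb_smul]; exact A.smul_mem _ hx }
    intro y hy
    have : y ∈ A₀ := by
      refine rich_vec D.hQ₀ D.h7 a A₀ ?_ y hy
      intro x hx hQx
      refine ⟨D.b0 hx, fun c => ?_⟩
      have := hall c a x ha hQx hx
      unfold R at this
      rwa [EM_smul_left (D.q0 ha) (D.b0 hx)] at this
    exact this
  intro w hw
  have h1 : w ∈ A := D.span_perp a A hA hw
  have := h1.2 1
  rwa [one_smul] at this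

theorem top_of_all [Finite F] (hall : ∀ (c : F) (a b : ι → F₀), Q₀ a = 0 → Q₀ b = 0 → B₀ a b = 0 → R F₀ Q M a b c) : Geo.omegaGL ⇑Q ≤ M := by
  haveI : Fintype F := Fintype.ofFinite F
  have h13 := D.h13
  have h5 : 5 ≤ finrank F (ι → F) := by rw [D.fr]; omega
  obtain ⟨e, f, e', f', u', hs⟩ := exists_HS D.hQ h5
  apply full_top D.hQ hs h5
  intro v hv
  by_cases hv0 : ∃ a, Q₀ a = 0 ∧ B (emb F₀ a) v ≠ 0
  · obtain ⟨a, ha, hav⟩ := hv0
    have ha0 : a ≠ 0 := by rintro rfl; rw [emb_zero, QuadraticMap.polar_zero_left] at hav; exact hav rfl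
    obtain ⟨a', ha', haa', _⟩ := partner D.hQ₀ [] a (by simpa using ha0) (by simp) ha
    set k := B (emb F₀ a) v with hk
    set w := k⁻¹ • (v - k • emb F₀ a') with hw
    have haw : B (emb F₀ a) w = 0 := by
      rw [hw, QuadraticMap.polar_smul_right, QuadraticMap.polar_sub_right, QuadraticMap.polar_smul_right, D.b1 haa', ← hk]; simp
    have h1 := ((D.full_rat hall ha').smul k).conj ((D.full_rat hall ha).2 w haw) (EM_iso _ _)
    rw [EM_mulVec (D.q0 ha) haw, QuadraticMap.polar_smul_right, D.b1 haa', smul_eq_mul, mul_one] at h1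
    have e1 : k • emb F₀ a' + k • w = v := by rw [hw, smul_smul, mul_inv_cancel₀ hav, one_smul, add_sub_cancel]
    rw [e1] at h1
    have e2 : v - B w (k • emb F₀ a') • emb F₀ a - (Q w * k) • emb F₀ a = v + (-(B w (k • emb F₀ a') + Q w * k)) • emb F₀ a := by module
    rw [e2] at h1
    obtain ⟨d, hd⟩ : ∃ d, d = -(B w (k • emb F₀ a') + Q w * k) := ⟨_, rfl⟩
    rw [← hd] at h1
    have h2 := h1.1
    rw [qadd, qsmul, hv, D.q0 ha, QuadraticMap.polar_smul_right, smul_eq_mul, mul_zero, add_zero, zero_add, bsymm, ← hk] at h2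
    rw [(mul_eq_zero.mp h2).resolve_right hav, zero_smul, add_zero] at h1
    exact h1
  · push Not at hv0
    have : v = 0 := by
      apply D.zero_of_rat
      intro x
      let A₀ : Submodule F₀ (ι → F₀) :=
        { carrier := {y | B (emb F₀ y) v = 0}
          add_mem' := fun {x y} hx hy => by
            change B (emb F₀ (x + y)) v = 0
            rw [emb_add, QuadraticMap.polar_add_left, hx, hy, add_zero]
          zero_mem' := by
            change B (emb F₀ 0) v = 0
            rw [emb_zero, QuadraticMap.polar_zero_left]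
          smul_mem' := fun k x hx => by
            change B (emb F₀ (k • x)) v = 0
            rw [emb_smul, QuadraticMap.polar_smul_left, hx, smul_zero] }
      have : x ∈ A₀ := rich_all D.hQ₀ D.h7 A₀ hv0 x
      rw [bsymm]; exact this
    rw [this, ← emb_zero (F₀ := F₀)]
    exact D.full_rat hall (QuadraticMap.map_zero Q₀)

end Sd

/-- the case of rational coefficients -/
structure Sg (F₀ : Subfield F) (Q : QuadraticForm F (ι → F)) (Q₀ : QuadraticForm F₀ (ι → F₀)) (M : Subgroup (GL ι F)) : Prop extends Sd F₀ Q Q₀ M where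
  hC : ∀ c, (∀ a b, Q₀ a = 0 → Q₀ b = 0 → QuadraticMap.polar Q₀ a b = 0 → R F₀ Q M a b c) → c ∈ F₀

/-- the decomposable alternating form -/
def om (F₀ : Subfield F) (Q : QuadraticForm F (ι → F)) (u v : ι → F) (x y : ι → F₀) : F :=
  QuadraticMap.polar Q u (emb F₀ x) * QuadraticMap.polar Q v (emb F₀ y) - QuadraticMap.polar Q v (emb F₀ x) * QuadraticMap.polar Q u (emb F₀ y)

namespace Sg

variable {M : Subgroup (GL ι F)} (D : Sg F₀ Q Q₀ M)
include D

theorem mem_of_R [Finite F] {a b : ι → F₀} (ha : Q₀ a = 0) (hb : Q₀ b = 0) (h0 : B₀ a b = 0) (ha0 : a ≠ 0) (hab : b ∉ Submodule.span F₀ {a}) {c : F} (h : R F₀ Q M a b c) :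
    c ∈ F₀ := D.hC c fun _ _ ha' hb' h' => D.all ha hb h0 h hab ha0 ha' hb' h'

theorem P1 [Finite F] {b : ι → F₀} (hb : Q₀ b = 0) (hb0 : b ≠ 0) {w : ι → F} (hbw : B (emb F₀ b) w = 0) (h : EM Q (emb F₀ b) w ∈ M) {c : ι → F₀} (hbc : B₀ b c = 0) :
    B (emb F₀ c) w ∈ F₀ := by
  have h13 := D.h13
  let A₀ : Submodule F₀ (ι → F₀) :=
    { carrier := {y | B (emb F₀ y) w ∈ F₀}
      add_mem' := fun {x y} hx hy => by
        change B (emb F₀ (x + y)) w ∈ F₀
        rw [emb_add, QuadraticMap.polar_add_left]; exact F₀.add_mem hx hy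
      zero_mem' := by
        change B (emb F₀ 0) w ∈ F₀
        rw [emb_zero, QuadraticMap.polar_zero_left]; exact F₀.zero_mem
      smul_mem' := fun k x hx => by
        change B (emb F₀ (k • x)) w ∈ F₀
        rw [emb_smul, QuadraticMap.polar_smul_left]; exact F₀.mul_mem k.2 hx }
  have : c ∈ A₀ := by
    refine rich_vec D.hQ₀ D.h7 b A₀ ?_ c hbc
    clear hbc c
    intro c hbc hc
    change B (emb F₀ c) w ∈ F₀
    by_cases hcb : c ∈ Submodule.span F₀ {b}
    · obtain ⟨k, rfl⟩ := Submodule.mem_span_singleton.mp hcb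
      rw [emb_smul, QuadraticMap.polar_smul_left, hbw, smul_zero]; exact F₀.zero_mem
    obtain ⟨b', hb', hbb', hcb'⟩ := partner D.hQ₀ [c] b (by rw [span_list_single]; exact notMem_span_symm hb0 hcb) (by
      intro v hv
      rw [List.mem_singleton.mp hv, bsymm]; exact hbc) hb
    have hcb' := hcb' c (by simp)
    obtain ⟨x, hx, hxp, hxN⟩ := pick D.hQ₀ [b, c, b'] [b, c] (by simp; omega)
    have hbx := hxp b (by simp)
    have hcx := hxp c (by simp)
    have hb'x := hxp b' (by simp)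
    obtain ⟨x₂, hx₂, hx₂p, hx₂N⟩ := pick D.hQ₀ [b, c, x] [x, b, c] (by simp; omega)
    have hbx₂ := hx₂p b (by simp)
    have hcx₂ := hx₂p c (by simp)
    have hxx₂ := hx₂p x (by simp)
    have hx₂N2 : x ∉ Submodule.span F₀ {y | y ∈ [x₂, b, c]} := by
      intro h
      have e1 : ({y | y ∈ [x₂, b, c]} : Set (ι → F₀)) = insert x₂ {y | y ∈ [b, c]} := by ext z; simp
      have e2 : ({y | y ∈ [x, b, c]} : Set (ι → F₀)) = insert x {y | y ∈ [b, c]} := by ext z; simp
      rw [e1] at h
      rw [e2] at hx₂N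
      exact hx₂N (mem_span_insert_exchange h hxN)
    obtain ⟨d, hd, hxd, hdp⟩ := partner D.hQ₀ [x₂, b, c] x hx₂N2 (by
      intro v hv
      simp only [List.mem_cons, List.not_mem_nil, or_false] at hv
      rcases hv with rfl | rfl | rfl
      · rw [bsymm]; exact hxx₂
      · exact hbx
      · exact hcx) hx
    have hx₂d := hdp x₂ (by simp)
    have hbd := hdp b (by simp)
    have hcd := hdp c (by simp)
    set κ := B (emb F₀ c) w with hκ
    set β := B (emb F₀ b') w with hβ
    set ξ := B (emb F₀ x) w with hξ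
    -- first conjugation
    have h1 := D.conj_mem (D.hM b' c hb' (by rw [bsymm]; exact hcb')) (D.q0 hb) hbw h
    rw [EM_mulVec (D.q0 hb') (D.b0' hcb'), EM_mulVec (D.q0 hb') (D.b0' hcb'), D.b1' hbb', D.b0' hbc, D.q0 hc, ← hκ, ← hβ] at h1
    simp only [one_smul, zero_smul, zero_mul, sub_zero] at h1
    have q1 : Q (emb F₀ b + emb F₀ c) = 0 := by rw [qadd, D.q0 hb, D.q0 hc, D.b0 hbc]; ring
    have p1 : B (emb F₀ b + emb F₀ c) (w + β • emb F₀ c - κ • emb F₀ b') = 0 := by
      simp only [QuadraticMap.polar_add_left, QuadraticMap.polar_add_right, QuadraticMap.polar_sub_right, QuadraticMap.polar_smul_right, hbw, ← hκ, D.b0 hbc, D.b1 hbb',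
        bself (D.q0 hc), D.b0 hcb', smul_eq_mul]
      ring
    -- second conjugation
    have h2 := D.conj_mem (D.hM x b hx (by rw [bsymm]; exact hbx)) q1 p1 h1
    have m1 : ((EM Q (emb F₀ x) (emb F₀ b) : GL ι F) : Matrix ι ι F) *ᵥ (emb F₀ b + emb F₀ c) = emb F₀ b + emb F₀ c := by
      rw [EM_mulVec (D.q0 hx) (D.b0' hbx), QuadraticMap.polar_add_right, QuadraticMap.polar_add_right, D.b0' hbx, D.b0' hcx, bself (D.q0 hb), D.b0 hbc]
      simp
    have m2 : ((EM Q (emb F₀ x) (emb F₀ b) : GL ι F) : Matrix ι ι F) *ᵥ (w + β • emb F₀ c - κ • emb F₀ b') =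
        (w + β • emb F₀ c - κ • emb F₀ b') + (ξ • emb F₀ b + κ • emb F₀ x) := by
      rw [EM_mulVec (D.q0 hx) (D.b0' hbx)]
      simp only [QuadraticMap.polar_add_right, QuadraticMap.polar_sub_right, QuadraticMap.polar_smul_right, ← hξ, D.b0' hcx, D.b0' hb'x, hbw, D.b0 hbc, D.b1 hbb', D.q0 hb, smul_eq_mul]
      module
    rw [m1, m2] at h2
    have p2 : B (emb F₀ b + emb F₀ c) (ξ • emb F₀ b + κ • emb F₀ x) = 0 := by
      simp only [QuadraticMap.polar_add_left, QuadraticMap.polar_add_right, QuadraticMap.polar_smul_right, bself (D.q0 hb), D.b0' hbc, D.b0 hbx, D.b0 hcx, smul_eq_mul]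
      ring
    have h3 := D.right_mem q1 p1 p2 h2 h1
    -- third conjugation
    have h4 := D.conj_mem (D.hM d x₂ hd (by rw [bsymm]; exact hx₂d)) q1 p2 h3
    have m3 : ((EM Q (emb F₀ d) (emb F₀ x₂) : GL ι F) : Matrix ι ι F) *ᵥ (emb F₀ b + emb F₀ c) = emb F₀ b + emb F₀ c := by
      rw [EM_mulVec (D.q0 hd) (D.b0' hx₂d), QuadraticMap.polar_add_right, QuadraticMap.polar_add_right, D.b0' hbd, D.b0' hcd, D.b0' hbx₂, D.b0' hcx₂]
      simp
    have m4 : ((EM Q (emb F₀ d) (emb F₀ x₂) : GL ι F) : Matrix ι ι F) *ᵥ (ξ • emb F₀ b + κ • emb F₀ x) = (ξ • emb F₀ b + κ • emb F₀ x) + κ • emb F₀ x₂ := by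
      rw [EM_mulVec (D.q0 hd) (D.b0' hx₂d)]
      simp only [QuadraticMap.polar_add_right, QuadraticMap.polar_smul_right, D.b0' hbd, D.b1' hxd, D.b0' hbx₂, D.b0' hxx₂, D.q0 hx₂, smul_eq_mul]
      module
    rw [m3, m4] at h4
    have p3 : B (emb F₀ b + emb F₀ c) (κ • emb F₀ x₂) = 0 := by
      simp only [QuadraticMap.polar_add_left, QuadraticMap.polar_smul_right, D.b0 hbx₂, D.b0 hcx₂, smul_eq_mul]
      ring
    have h5 := D.right_mem q1 p2 p3 h4 h3
    have p4 : B (emb F₀ b + emb F₀ c) (emb F₀ x₂) = 0 := by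
      rw [QuadraticMap.polar_add_left, D.b0 hbx₂, D.b0 hcx₂, add_zero]
    rw [← EM_smul_left q1 p4, ← emb_add] at h5
    refine D.mem_of_R (a := b + c) (b := x₂) (by rw [qadd, hb, hc, hbc]; ring) hx₂ (by rw [QuadraticMap.polar_add_left, hbx₂, hcx₂, add_zero]) ?_ ?_ h5
    · intro h0
      apply hcb
      rw [Submodule.mem_span_singleton]
      exact ⟨-1, by rw [neg_smul, one_smul]; exact (eq_neg_of_add_eq_zero_right h0).symm⟩
    · intro h0
      apply hx₂N
      obtain ⟨k, hk⟩ := Submodule.mem_span_singleton.mp h0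
      rw [← hk, smul_add]
      exact Submodule.add_mem _ (Submodule.smul_mem _ _ (Submodule.subset_span (by simp))) (Submodule.smul_mem _ _ (Submodule.subset_span (by simp)))
  exact this

theorem P1om [Finite F] {b : ι → F₀} (hb : Q₀ b = 0) (hb0 : b ≠ 0) {w : ι → F} (hbw : B (emb F₀ b) w = 0) (h : EM Q (emb F₀ b) w ∈ M) (x y : ι → F₀) :
    om F₀ Q (emb F₀ b) w x y ∈ F₀ := by
  have h1 := D.P1 hb hb0 hbw h (c := B₀ b x • y - B₀ b y • x) (by
    rw [QuadraticMap.polar_sub_right, QuadraticMap.polar_smul_right, QuadraticMap.polar_smul_right, smul_eq_mul, smul_eq_mul, mul_comm, sub_self])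
  have h2 : emb F₀ (B₀ b x • y - B₀ b y • x) = (B₀ b x : F) • emb F₀ y - (B₀ b y : F) • emb F₀ x := rfl
  rw [h2, QuadraticMap.polar_sub_left, QuadraticMap.polar_smul_left, QuadraticMap.polar_smul_left] at h1
  unfold om
  rw [D.bc, D.bc, bsymm w, bsymm w, mul_comm (B (emb F₀ x) w)]
  exact h1

theorem P0 [Finite F] {u v : ι → F} (hu : Q u = 0) (hv : Q v = 0) (huv : B u v = 0) (h : EM Q u v ∈ M) {b : ι → F₀} (hb : Q₀ b = 0) (hb0 : b ≠ 0)
    (hub : B u (emb F₀ b) = 0) (hvb : B v (emb F₀ b) = 0) {c c' : ι → F₀} (hc : B₀ b c = 0) (hc' : B₀ b c' = 0) : om F₀ Q u v c c' ∈ F₀ := by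
  have h1 := D.conj_mem h (D.q0 hb) (D.b0 hc) (D.hM b c hb hc)
  rw [EM_mulVec hu huv, EM_mulVec hu huv, hub, hvb, hv] at h1
  simp only [zero_smul, zero_mul, add_zero, sub_zero] at h1
  have p1 : B (emb F₀ b) (B u (emb F₀ c) • v - B v (emb F₀ c) • u) = 0 := by
    rw [QuadraticMap.polar_sub_right, QuadraticMap.polar_smul_right, QuadraticMap.polar_smul_right, bsymm _ v, bsymm _ u, hub, hvb, smul_zero, smul_zero, sub_zero]
  rw [add_sub_assoc] at h1
  have h2 := D.right_mem (D.q0 hb) (D.b0 hc) p1 h1 (D.hM b c hb hc)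
  have h3 := D.P1 hb hb0 p1 h2 hc'
  rw [QuadraticMap.polar_sub_right, QuadraticMap.polar_smul_right, QuadraticMap.polar_smul_right, bsymm _ v, bsymm _ u] at h3
  exact h3

omit D [Fintype ι] [DecidableEq ι] in
theorem om_dep {u v : ι → F} {k : F} (x y : ι → F₀) (h : v = k • u) : om F₀ Q u v x y = 0 := by
  unfold om
  rw [h, QuadraticMap.polar_smul_left, QuadraticMap.polar_smul_left, smul_eq_mul, smul_eq_mul]; ring

theorem P [Finite F] {u v : ι → F} (hu : Q u = 0) (hv : Q v = 0) (huv : B u v = 0) (h : EM Q u v ∈ M) {b : ι → F₀} (hb : Q₀ b = 0) (hb0 : b ≠ 0)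
    (hub : B u (emb F₀ b) = 0) (hvb : B v (emb F₀ b) = 0) (x y : ι → F₀) : om F₀ Q u v x y ∈ F₀ := by
  have h13 := D.h13
  by_cases hA : ∃ c₀ c₁, B₀ b c₀ = 0 ∧ B₀ b c₁ = 0 ∧ om F₀ Q u v c₀ c₁ ≠ 0
  · obtain ⟨c₀, c₁, hc₀, hc₁, hne⟩ := hA
    set S := orth Q₀ (Submodule.span F₀ {z | z ∈ [b, x, y]}) with hS
    have hSr : 10 ≤ finrank F₀ S := by
      have := orth_list_ge D.hQ₀ [b, x, y]
      rw [← hS] at this
      simp at this
      omega
    have hSm : ∀ z ∈ S, B₀ b z = 0 ∧ B₀ x z = 0 ∧ B₀ y z = 0 := by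
      intro z hz
      have := mem_orth_list.mp hz
      exact ⟨this b (by simp), this x (by simp), this y (by simp)⟩
    let L : S →ₗ[F₀] (F₀ × F₀) :=
      { toFun := fun z => (⟨om F₀ Q u v (z : ι → F₀) c₀, D.P0 hu hv huv h hb hb0 hub hvb (hSm z z.2).1 hc₀⟩,
          ⟨om F₀ Q u v (z : ι → F₀) c₁, D.P0 hu hv huv h hb hb0 hub hvb (hSm z z.2).1 hc₁⟩)
        map_add' := fun p q => by
          refine Prod.ext (Subtype.ext ?_) (Subtype.ext ?_)
          · change om F₀ Q u v ((p : ι → F₀) + q) c₀ = om F₀ Q u v p c₀ + om F₀ Q u v q c₀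
            unfold om
            rw [emb_add, QuadraticMap.polar_add_right, QuadraticMap.polar_add_right]; ring
          · change om F₀ Q u v ((p : ι → F₀) + q) c₁ = om F₀ Q u v p c₁ + om F₀ Q u v q c₁
            unfold om
            rw [emb_add, QuadraticMap.polar_add_right, QuadraticMap.polar_add_right]; ring
        map_smul' := fun k p => by
          refine Prod.ext (Subtype.ext ?_) (Subtype.ext ?_)
          · change om F₀ Q u v (k • (p : ι → F₀)) c₀ = (k : F) * om F₀ Q u v p c₀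
            unfold om
            rw [emb_smul, QuadraticMap.polar_smul_right, QuadraticMap.polar_smul_right, smul_eq_mul, smul_eq_mul]; ring
          · change om F₀ Q u v (k • (p : ι → F₀)) c₁ = (k : F) * om F₀ Q u v p c₁
            unfold om
            rw [emb_smul, QuadraticMap.polar_smul_right, QuadraticMap.polar_smul_right, smul_eq_mul, smul_eq_mul]; ring }
    obtain ⟨⟨z, hzS⟩, hLz, hz0', hz'⟩ := exists_sing_ker Q₀ L (by rw [Module.finrank_prod, Module.finrank_self]; omega)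
    replace hz' : Q₀ z = 0 := hz'
    replace hz0' : z ≠ 0 := hz0'
    obtain ⟨_, hxz, hyz⟩ := hSm z hzS
    have e1 : om F₀ Q u v z c₀ = 0 := congrArg (fun t : F₀ × F₀ => (t.1 : F)) hLz
    have e2 : om F₀ Q u v z c₁ = 0 := congrArg (fun t : F₀ × F₀ => (t.2 : F)) hLz
    unfold om at e1 e2 hne
    have f1 : B u (emb F₀ z) = 0 := by
      have : (B u (emb F₀ c₀) * B v (emb F₀ c₁) - B v (emb F₀ c₀) * B u (emb F₀ c₁)) * B u (emb F₀ z) = 0 := by
        linear_combination B u (emb F₀ c₀) * e2 - B u (emb F₀ c₁) * e1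
      exact (mul_eq_zero.mp this).resolve_left hne
    have f2 : B v (emb F₀ z) = 0 := by
      have : (B u (emb F₀ c₀) * B v (emb F₀ c₁) - B v (emb F₀ c₀) * B u (emb F₀ c₁)) * B v (emb F₀ z) = 0 := by
        linear_combination B v (emb F₀ c₀) * e2 - B v (emb F₀ c₁) * e1
      exact (mul_eq_zero.mp this).resolve_left hne
    exact D.P0 hu hv huv h hz' hz0' f1 f2 (by rw [bsymm]; exact hxz) (by rw [bsymm]; exact hyz)
  · push Not at hA
    by_cases hU : ∃ c₀, B₀ b c₀ = 0 ∧ B u (emb F₀ c₀) ≠ 0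
    · obtain ⟨c₀, hc₀, hne⟩ := hU
      set t := B v (emb F₀ c₀) * (B u (emb F₀ c₀))⁻¹ with ht
      have ht' : t * B u (emb F₀ c₀) = B v (emb F₀ c₀) := by rw [ht, inv_mul_cancel_right₀ hne]
      obtain ⟨k, hk⟩ := D.prop_of_perp hb0 (z := v - t • u) (by
        intro c hc
        have h1 := hA c₀ c hc₀ hc
        unfold om at h1
        rw [QuadraticMap.polar_sub_left, QuadraticMap.polar_smul_left, smul_eq_mul]
        apply mul_left_cancel₀ hne
        rw [mul_zero]
        linear_combination h1 - B u (emb F₀ c) * ht')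
      have hv' : v = t • u + k • emb F₀ b := by rw [← hk]; abel
      -- EM u v = EM u (k b)
      have huu : B u (t • u) = 0 := by rw [QuadraticMap.polar_smul_right, bself hu, smul_zero]
      have hukb : B u (k • emb F₀ b) = 0 := by rw [QuadraticMap.polar_smul_right, hub, smul_zero]
      have h1 : EM Q u (k • emb F₀ b) ∈ M := by
        rw [hv', EM_add hu huu hukb] at h
        have h2 : EM Q u (t • u) = 1 := by
          apply gl_ext
          intro z
          rw [EM_mulVec hu huu, Units.val_one, Matrix.one_mulVec, QuadraticMap.polar_smul_left, qsmul, hu]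
          rw [smul_eq_mul]
          module
        rwa [h2, one_mul] at h
      have h3 : EM Q (emb F₀ b) (k • u) ∈ M := by
        have h4 : EM Q (k • emb F₀ b) u ∈ M := by
          rw [EM_swap (by rw [qsmul, D.q0 hb, mul_zero]) hu (by rw [QuadraticMap.polar_smul_left, bsymm, hub, smul_zero])]
          exact M.inv_mem h1
        rwa [EM_smul_left (D.q0 hb) (by rw [bsymm]; exact hub)] at h4
      have h5 := D.P1om hb hb0 (by rw [QuadraticMap.polar_smul_right, bsymm, hub, smul_zero]) h3 x y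
      have h6 : om F₀ Q u v x y = - om F₀ Q (emb F₀ b) (k • u) x y := by
        unfold om
        rw [hv']
        simp only [QuadraticMap.polar_add_left, QuadraticMap.polar_smul_left, smul_eq_mul]
        ring
      rw [h6]; exact F₀.neg_mem h5
    · push Not at hU
      obtain ⟨k, hk⟩ := D.prop_of_perp hb0 hU
      have h1 : EM Q (emb F₀ b) (k • v) ∈ M := by
        rw [hk, EM_smul_left (D.q0 hb) (by rw [bsymm]; exact hvb)] at h
        exact h
      have h5 := D.P1om hb hb0 (by rw [QuadraticMap.polar_smul_right, bsymm, hvb, smul_zero]) h1 x y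
      have h6 : om F₀ Q u v x y = om F₀ Q (emb F₀ b) (k • v) x y := by
        unfold om
        rw [hk]
        simp only [QuadraticMap.polar_smul_left, smul_eq_mul]
        ring
      rw [h6]; exact h5

end Sg

end CfsgLib.OS29
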