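import Cfsg.Agent.LibOS29b

set_option autoImplicit false

/-! Overgroups of `Ω(F₀)` in `Ω(F)`: rational lines and rational elements. -/

namespace CfsgLib.OS29

open scoped MatrixGroups Matrix
open Cfsg CfsgLib.MaxTv29 CfsgLib.SympTv29 CfsgLib.Subfield29 CfsgLib.OM29 Cfsg.Agent.H22 Module

variable {ι : Type} [Fintype ι] [DecidableEq ι]
variable {F : Type*} [Field F] {F₀ : Subfield F} {Q : QuadraticForm F (ι → F)} {Q₀ : QuadraticForm F₀ (ι → F₀)}

local notation "B" => QuadraticMap.polar Q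
local notation "B₀" => QuadraticMap.polar Q₀

/-- the plane spanned by `u` and `v` is rational -/
def RL (F₀ : Subfield F) (Q : QuadraticForm F (ι → F)) (Q₀ : QuadraticForm F₀ (ι → F₀)) (u v : ι → F) : Prop :=
  ∃ p q : ι → F₀, (∀ x, QuadraticMap.polar Q₀ p x = 0 → QuadraticMap.polar Q₀ q x = 0 → QuadraticMap.polar Q u (emb F₀ x) = 0 ∧ QuadraticMap.polar Q v (emb F₀ x) = 0) ∧
    ∀ z : ι → F, (∀ x, QuadraticMap.polar Q₀ p x = 0 → QuadraticMap.polar Q₀ q x = 0 → QuadraticMap.polar Q z (emb F₀ x) = 0) → z ∈ Submodule.span F {u, v}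

/-- the image of `a` is rational up to a scalar -/
def SR (F₀ : Subfield F) (k : GL ι F) (a : ι → F₀) : Prop := ∃ (c : F) (y : ι → F₀), (k : Matrix ι ι F) *ᵥ emb F₀ a = c • emb F₀ y

theorem exists_sing_in {K : Type*} [Field K] [Finite K] {q : QuadraticForm K (ι → K)} (hq : (QuadraticMap.polarBilin q).Nondegenerate) (A₀ : Submodule K (ι → K)) {a : ℕ}
    (hA : Fintype.card ι ≤ finrank K A₀ + a) (L L' : List (ι → K)) (h : L.length + L'.length + a + 3 ≤ Fintype.card ι) :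
    ∃ x ∈ A₀, q x = 0 ∧ (∀ v ∈ L, QuadraticMap.polar q v x = 0) ∧ x ∉ Submodule.span K {x | x ∈ L'} := by
  have h1 := orth_list_ge hq L
  have h2 := Submodule.finrank_sup_add_finrank_inf_eq A₀ (orth q (Submodule.span K {x | x ∈ L}))
  have h3 := Submodule.finrank_le (A₀ ⊔ orth q (Submodule.span K {x | x ∈ L}))
  rw [Module.finrank_fintype_fun_eq_card] at h3
  have h4 : finrank K (Submodule.span K {x | x ∈ L'}) ≤ L'.length := finrank_span_list_le L'
  obtain ⟨x, hx1, hx2, hx3⟩ := exists_singular_avoid q (A₀ ⊓ orth q (Submodule.span K {x | x ∈ L})) (Submodule.span K {x | x ∈ L'}) (by omega)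
  exact ⟨x, hx1.1, hx2, mem_orth_list.mp hx1.2, hx3⟩

namespace Sd

variable {M : Subgroup (GL ι F)} (D : Sd F₀ Q Q₀ M)
include D

theorem rat_of_func {z : ι → F} (h : ∀ y : ι → F₀, B z (emb F₀ y) ∈ F₀) : ∃ z₀ : ι → F₀, z = emb F₀ z₀ := by
  let θ : Module.Dual F₀ (ι → F₀) :=
    { toFun := fun x => ⟨B z (emb F₀ x), h x⟩
      map_add' := fun x y => by
        apply Subtype.ext
        change B z (emb F₀ x + emb F₀ y) = B z (emb F₀ x) + B z (emb F₀ y)
        rw [QuadraticMap.polar_add_right]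
      map_smul' := fun k x => by
        apply Subtype.ext
        change B z ((k : F) • emb F₀ x) = (k : F) * B z (emb F₀ x)
        rw [QuadraticMap.polar_smul_right, smul_eq_mul] }
  let z₀ := (LinearMap.BilinForm.toDual (QuadraticMap.polarBilin Q₀) D.hQ₀).symm θ
  have hz : ∀ y, B₀ z₀ y = θ y := fun y => LinearMap.BilinForm.apply_toDual_symm_apply (hB := D.hQ₀) θ y
  refine ⟨z₀, ?_⟩
  rw [← sub_eq_zero]
  apply D.zero_of_rat
  intro x
  have h1 : B (emb F₀ z₀) (emb F₀ x) = B z (emb F₀ x) := by rw [D.bc, hz]; rfl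
  rw [QuadraticMap.polar_sub_left, h1, sub_self]

/-- a vector orthogonal to a rational hyperplane -/
theorem rat_of_codim {u : ι → F} (X : Submodule F₀ (ι → F₀)) (hX : Fintype.card ι ≤ finrank F₀ X + 1) (h : ∀ x ∈ X, B u (emb F₀ x) = 0) :
    ∃ (c : F) (y : ι → F₀), u = c • emb F₀ y := by
  have h1 := finrank_orth D.hQ₀ X
  rw [D.fr0] at h1
  have h2 : finrank F₀ (orth Q₀ X) ≤ 1 := by omega
  obtain ⟨⟨y, hyX⟩, hy⟩ := finrank_le_one_iff.mp h2
  by_cases hy0 : y = 0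
  · have h3 : X = ⊤ := by
      rw [← orth_orth D.hQ₀ X]
      rw [eq_top_iff]
      intro x _
      rw [mem_orth]
      intro w hw
      obtain ⟨c, hc⟩ := hy ⟨w, hw⟩
      have h4 : c • y = w := congrArg Subtype.val hc
      rw [← h4, hy0, smul_zero, QuadraticMap.polar_zero_left]
    refine ⟨0, 0, ?_⟩
    rw [zero_smul]
    apply D.zero_of_rat
    intro x
    exact h x (by rw [h3]; exact Submodule.mem_top)
  · obtain ⟨k, hk⟩ := D.prop_of_perp hy0 (z := u) (by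
      intro c hc
      apply h
      rw [← orth_orth D.hQ₀ X, mem_orth]
      intro w hw
      obtain ⟨c', hc'⟩ := hy ⟨w, hw⟩
      have h4 : c' • y = w := congrArg Subtype.val hc'
      rw [← h4, QuadraticMap.polar_smul_left, hc, smul_zero])
    exact ⟨k, y, hk⟩

theorem RL_of_om {u v : ι → F} (hind : v ∉ Submodule.span F {u}) (hu : u ≠ 0) (h : ∀ x y, om F₀ Q u v x y ∈ F₀) : RL F₀ Q Q₀ u v := by
  -- a pair with non-zero value
  obtain ⟨c₀, c₁, hne⟩ : ∃ c₀ c₁, om F₀ Q u v c₀ c₁ ≠ 0 := by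
    by_contra hcon
    push Not at hcon
    obtain ⟨c₀, hc₀⟩ : ∃ c₀ : ι → F₀, B u (emb F₀ c₀) ≠ 0 := by
      by_contra h2
      push Not at h2
      exact hu (D.zero_of_rat h2)
    apply hind
    rw [Submodule.mem_span_singleton]
    refine ⟨B v (emb F₀ c₀) * (B u (emb F₀ c₀))⁻¹, ?_⟩
    symm
    rw [← sub_eq_zero]
    apply D.zero_of_rat
    intro x
    have h1 := hcon c₀ x
    unfold om at h1
    rw [QuadraticMap.polar_sub_left, QuadraticMap.polar_smul_left, smul_eq_mul]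
    apply mul_left_cancel₀ hc₀
    have h2 : B u (emb F₀ c₀) * (B v (emb F₀ c₀) * (B u (emb F₀ c₀))⁻¹) = B v (emb F₀ c₀) := by field_simp
    rw [mul_zero]
    linear_combination h1 - B u (emb F₀ x) * h2
  obtain ⟨p, hp⟩ := D.rat_of_func (z := B u (emb F₀ c₀) • v - B v (emb F₀ c₀) • u) (by
    intro y
    rw [QuadraticMap.polar_sub_left, QuadraticMap.polar_smul_left, QuadraticMap.polar_smul_left, smul_eq_mul, smul_eq_mul]
    exact h c₀ y)
  obtain ⟨q, hq⟩ := D.rat_of_func (z := B u (emb F₀ c₁) • v - B v (emb F₀ c₁) • u) (by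
    intro y
    rw [QuadraticMap.polar_sub_left, QuadraticMap.polar_smul_left, QuadraticMap.polar_smul_left, smul_eq_mul, smul_eq_mul]
    exact h c₁ y)
  have hpx : ∀ x : ι → F₀, (B₀ p x : F) = om F₀ Q u v c₀ x := by
    intro x
    rw [← D.bc, ← hp, QuadraticMap.polar_sub_left, QuadraticMap.polar_smul_left, QuadraticMap.polar_smul_left, smul_eq_mul, smul_eq_mul]; rfl
  have hqx : ∀ x : ι → F₀, (B₀ q x : F) = om F₀ Q u v c₁ x := by
    intro x
    rw [← D.bc, ← hq, QuadraticMap.polar_sub_left, QuadraticMap.polar_smul_left, QuadraticMap.polar_smul_left, smul_eq_mul, smul_eq_mul]; rfl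
  refine ⟨p, q, ?_, ?_⟩
  · intro x h1 h2
    have h3 : om F₀ Q u v c₀ x = 0 := by rw [← hpx, h1]; rfl
    have h4 : om F₀ Q u v c₁ x = 0 := by rw [← hqx, h2]; rfl
    unfold om at h3 h4 hne
    constructor
    · have : (B u (emb F₀ c₀) * B v (emb F₀ c₁) - B v (emb F₀ c₀) * B u (emb F₀ c₁)) * B u (emb F₀ x) = 0 := by
        linear_combination B u (emb F₀ c₁) * h3 - B u (emb F₀ c₀) * h4
      exact (mul_eq_zero.mp this).resolve_left hne
    · have : (B u (emb F₀ c₀) * B v (emb F₀ c₁) - B v (emb F₀ c₀) * B u (emb F₀ c₁)) * B v (emb F₀ x) = 0 := by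
        linear_combination B v (emb F₀ c₁) * h3 - B v (emb F₀ c₀) * h4
      exact (mul_eq_zero.mp this).resolve_left hne
  · intro z hz
    set δ := B₀ p c₁ with hδ
    have hδ' : (δ : F) = om F₀ Q u v c₀ c₁ := hpx c₁
    have hδ0 : δ ≠ 0 := by
      intro h0
      apply hne
      rw [← hδ', h0]; rfl
    have hδF : (δ : F) ≠ 0 := fun h0 => hδ0 (Subtype.ext h0)
    have p0 : B₀ p c₀ = 0 := by
      apply Subtype.ext
      rw [hpx]
      unfold om
      simp only [ZeroMemClass.coe_zero]; ring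
    have q1 : B₀ q c₁ = 0 := by
      apply Subtype.ext
      rw [hqx]
      unfold om
      simp only [ZeroMemClass.coe_zero]; ring
    have q0 : B₀ q c₀ = -δ := by
      apply Subtype.ext
      rw [hqx]
      push_cast
      rw [hδ']
      unfold om
      ring
    have hz' : z = (B z (emb F₀ c₁) * (δ : F)⁻¹) • emb F₀ p - (B z (emb F₀ c₀) * (δ : F)⁻¹) • emb F₀ q := by
      rw [← sub_eq_zero]
      apply D.zero_of_rat
      intro x
      have h1 := hz (x - (B₀ p x * δ⁻¹) • c₁ + (B₀ q x * δ⁻¹) • c₀) (by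
          rw [QuadraticMap.polar_add_right, QuadraticMap.polar_sub_right, QuadraticMap.polar_smul_right, QuadraticMap.polar_smul_right, ← hδ, p0, smul_eq_mul, smul_eq_mul,
            mul_assoc, inv_mul_cancel₀ hδ0]; ring) (by
          rw [QuadraticMap.polar_add_right, QuadraticMap.polar_sub_right, QuadraticMap.polar_smul_right, QuadraticMap.polar_smul_right, q1, q0, smul_eq_mul, smul_eq_mul,
            mul_assoc (B₀ q x), mul_neg, inv_mul_cancel₀ hδ0]; ring)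
      have h2 : emb F₀ (x - (B₀ p x * δ⁻¹) • c₁ + (B₀ q x * δ⁻¹) • c₀) = emb F₀ x - ((B₀ p x : F) * (δ : F)⁻¹) • emb F₀ c₁ + ((B₀ q x : F) * (δ : F)⁻¹) • emb F₀ c₀ := rfl
      rw [h2, QuadraticMap.polar_add_right, QuadraticMap.polar_sub_right, QuadraticMap.polar_smul_right, QuadraticMap.polar_smul_right, smul_eq_mul, smul_eq_mul] at h1
      simp only [QuadraticMap.polar_sub_left, QuadraticMap.polar_smul_left, D.bc, smul_eq_mul]
      linear_combination h1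
    rw [hz', ← hp, ← hq]
    have hu' := mem_pair_left (F := F) u v
    have hv' := mem_pair_right (F := F) u v
    exact Submodule.sub_mem _ (Submodule.smul_mem _ _ (Submodule.sub_mem _ (Submodule.smul_mem _ _ hv') (Submodule.smul_mem _ _ hu')))
      (Submodule.smul_mem _ _ (Submodule.sub_mem _ (Submodule.smul_mem _ _ hv') (Submodule.smul_mem _ _ hu')))

/-- intersection of two rational planes -/
theorem rat_of_RL {u v v' : ι → F} (h1 : RL F₀ Q Q₀ u v) (h2 : RL F₀ Q Q₀ u v') (hv : v ∉ Submodule.span F {u, v'}) : ∃ (c : F) (y : ι → F₀), u = c • emb F₀ y := by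
  obtain ⟨p, q, hp, _⟩ := h1
  obtain ⟨p', q', hp', hz⟩ := h2
  obtain ⟨x, hx1, hx2, hx3⟩ : ∃ x, B₀ p' x = 0 ∧ B₀ q' x = 0 ∧ B v (emb F₀ x) ≠ 0 := by
    by_contra hcon
    push Not at hcon
    exact hv (hz v hcon)
  have hux := (hp' x hx1 hx2).1
  set X := orth Q₀ (Submodule.span F₀ {y | y ∈ [p, q]}) with hX
  have hXm : ∀ y ∈ X, B u (emb F₀ y) = 0 ∧ B v (emb F₀ y) = 0 := by
    intro y hy
    have := mem_orth_list.mp hy
    exact hp y (this p (by simp)) (this q (by simp))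
  have hxX : x ∉ X := fun h => hx3 (hXm x h).2
  have h13 := D.h13
  apply D.rat_of_codim (X ⊔ Submodule.span F₀ {x})
  · have h3 : X < X ⊔ Submodule.span F₀ {x} := by
      refine lt_of_le_of_ne le_sup_left ?_
      intro h
      apply hxX
      rw [h]
      exact Submodule.mem_sup_right (Submodule.mem_span_singleton_self x)
    have h4 := Submodule.finrank_lt_finrank_of_lt h3
    have h5 := orth_list_ge D.hQ₀ [p, q]
    rw [← hX] at h5
    simp at h5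
    omega
  · intro y hy
    obtain ⟨y1, hy1, y2, hy2, rfl⟩ := Submodule.mem_sup.mp hy
    obtain ⟨k, rfl⟩ := Submodule.mem_span_singleton.mp hy2
    rw [emb_add, emb_smul, QuadraticMap.polar_add_right, QuadraticMap.polar_smul_right, (hXm y1 hy1).1, hux, smul_zero, add_zero]

omit [DecidableEq ι] D in
theorem emb_notMem_span {a b : ι → F₀} (h : b ∉ Submodule.span F₀ {a}) (ha : a ≠ 0) : emb F₀ b ∉ Submodule.span F {emb F₀ a} := by
  intro h1
  obtain ⟨k, hk⟩ := Submodule.mem_span_singleton.mp h1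
  obtain ⟨i, hi⟩ := Function.ne_iff.mp ha
  have hi' : (a i : F) ≠ 0 := fun h => hi (Subtype.ext h)
  have h2 : k * (a i : F) = (b i : F) := congrFun hk i
  apply h
  rw [Submodule.mem_span_singleton]
  refine ⟨b i / a i, ?_⟩
  apply emb_injective F₀
  rw [emb_smul, ← hk]
  congr 1
  push_cast
  rw [← h2, mul_div_assoc, div_self hi', mul_one]

theorem Rat_base {k : GL ι F} (hk : k ∈ M) {a₀ a : ι → F₀} (ha₀ : Q₀ a₀ = 0) (ha₀0 : a₀ ≠ 0) (ha : Q₀ a = 0) (h0 : B₀ a₀ a = 0) (hN : a ∉ Submodule.span F₀ {a₀})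
    (hS : ∀ a, Q₀ a = 0 → SR F₀ k a) {l : F} (hl : l ≠ 0) {y₀ : ι → F₀} (h : (k : Matrix ι ι F) *ᵥ emb F₀ a₀ = l • emb F₀ y₀) :
    ∃ y, l⁻¹ • ((k : Matrix ι ι F) *ᵥ emb F₀ a) = emb F₀ y := by
  obtain ⟨c, y, hy⟩ := hS a ha
  obtain ⟨d, z, hz⟩ := hS (a₀ + a) (by rw [qadd, ha₀, ha, h0]; ring)
  rw [emb_add, Matrix.mulVec_add, h, hy] at hz
  have hay : emb F₀ y ∉ Submodule.span F {emb F₀ y₀} := by
    intro h1
    obtain ⟨t, ht⟩ := Submodule.mem_span_singleton.mp h1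
    apply emb_notMem_span hN ha₀0
    rw [Submodule.mem_span_singleton]
    refine ⟨c * t * l⁻¹, ?_⟩
    apply mulVec_injective k
    simp only
    rw [Matrix.mulVec_smul, h, hy, ← ht, smul_smul, smul_smul]
    congr 1
    field_simp
  have hd : d ≠ 0 := by
    rintro rfl
    rw [zero_smul] at hz
    apply ha₀0
    have h1 : (k : Matrix ι ι F) *ᵥ emb F₀ (a₀ + a) = 0 := by rw [emb_add, Matrix.mulVec_add, h, hy, hz]
    have h2 : emb F₀ (a₀ + a) = 0 := mulVec_injective k (h1.trans (Matrix.mulVec_zero _).symm)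
    exfalso
    have h3 : a₀ + a = 0 := emb_injective F₀ (h2.trans (emb_zero F₀).symm)
    apply hN
    rw [Submodule.mem_span_singleton]
    exact ⟨-1, by rw [neg_smul, one_smul]; exact (eq_neg_of_add_eq_zero_right h3).symm⟩
  have h1 : (d⁻¹ * c) • emb F₀ y + (d⁻¹ * l) • emb F₀ y₀ = emb F₀ z := by
    have : d⁻¹ • (l • emb F₀ y₀ + c • emb F₀ y) = emb F₀ z := by rw [hz, smul_smul, inv_mul_cancel₀ hd, one_smul]
    rw [← this]; module
  have m1 := rat_coeff F₀ hay h1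
  have hcy : c ≠ 0 := by
    rintro rfl
    rw [zero_smul] at hy
    apply hN
    have h2 : emb F₀ a = 0 := mulVec_injective k (hy.trans (Matrix.mulVec_zero _).symm)
    have h3 : a = 0 := emb_injective F₀ (h2.trans (emb_zero F₀).symm)
    rw [h3]; exact Submodule.zero_mem _
  have hay' : emb F₀ y₀ ∉ Submodule.span F {emb F₀ y} := by
    apply notMem_span_symm _ hay
    intro h4
    rw [h4, smul_zero] at h
    exact emb_ne_zero F₀ ha₀0 (mulVec_injective k (h.trans (Matrix.mulVec_zero _).symm))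
  have m2 := rat_coeff F₀ hay' (by rw [add_comm]; exact h1)
  have m3 : l⁻¹ * c ∈ F₀ := by
    have : l⁻¹ * c = (d⁻¹ * c) / (d⁻¹ * l) := by field_simp
    rw [this]; exact F₀.div_mem m1 m2
  refine ⟨(⟨l⁻¹ * c, m3⟩ : F₀) • y, ?_⟩
  rw [hy, smul_smul, emb_smul]

/-- an element mapping singular rational points to rational points is rational -/
theorem Rat_of_sing [Finite F] {k : GL ι F} (hk : k ∈ M) (hS : ∀ a, Q₀ a = 0 → SR F₀ k a) : Rat F₀ k := by
  have h13 := D.h13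
  obtain ⟨a₀, ha₀, _, haN⟩ := pick D.hQ₀ [] [] (by simp; omega)
  have ha₀0 : a₀ ≠ 0 := fun h => haN (by rw [h]; exact Submodule.zero_mem _)
  obtain ⟨l, y₀, hy₀⟩ := hS a₀ ha₀
  have hl : l ≠ 0 := by
    rintro rfl
    rw [zero_smul] at hy₀
    exact emb_ne_zero F₀ ha₀0 (mulVec_injective k (hy₀.trans (Matrix.mulVec_zero _).symm))
  refine ⟨l⁻¹, inv_ne_zero hl, ?_⟩
  let A₀ : Submodule F₀ (ι → F₀) :=
    { carrier := {x | ∃ y, l⁻¹ • ((k : Matrix ι ι F) *ᵥ emb F₀ x) = emb F₀ y}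
      add_mem' := fun {x y} hx hy => by
        obtain ⟨x', hx'⟩ := hx
        obtain ⟨y', hy'⟩ := hy
        exact ⟨x' + y', by rw [emb_add, Matrix.mulVec_add, smul_add, hx', hy']; rfl⟩
      zero_mem' := ⟨0, by rw [emb_zero, Matrix.mulVec_zero, smul_zero]⟩
      smul_mem' := fun c x hx => by
        obtain ⟨x', hx'⟩ := hx
        exact ⟨c • x', by rw [emb_smul, Matrix.mulVec_smul, smul_comm, hx', emb_smul]⟩ }
  intro x
  have : x ∈ A₀ := by
    refine rich_all D.hQ₀ D.h7 A₀ ?_ x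
    intro a ha
    obtain ⟨a', ha', ha'p, ha'N⟩ := pick D.hQ₀ [a₀, a] [a₀, a] (by simp; omega)
    have e1 := ha'p a₀ (by simp)
    have e2 := ha'p a (by simp)
    rw [CfsgLib.SpSub29.span_list_pair] at ha'N
    have n1 : a' ∉ Submodule.span F₀ {a₀} := notmem_span_left ha'N
    have n2 : a' ∉ Submodule.span F₀ {a} := notmem_span_right ha'N
    have ha'0 : a' ≠ 0 := ne_zero_of_notmem n1
    obtain ⟨y', hy'⟩ := D.Rat_base hk ha₀ ha₀0 ha' e1 n1 hS hl hy₀
    have hy'' : (k : Matrix ι ι F) *ᵥ emb F₀ a' = l • emb F₀ y' := by rw [← hy', smul_smul, mul_inv_cancel₀ hl, one_smul]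
    by_cases ha0 : a = 0
    · rw [ha0]; exact A₀.zero_mem
    exact D.Rat_base hk ha' ha'0 ha (by rw [bsymm]; exact e2) (notmem_span_swap ha0 n2) hS hl hy''
  exact this

end Sd

namespace Sg

variable {M : Subgroup (GL ι F)} (D : Sg F₀ Q Q₀ M)
include D

theorem RL_of {k : GL ι F} (hk : k ∈ M) [Finite F] {a a₁ : ι → F₀} (ha : Q₀ a = 0) (ha₁ : Q₀ a₁ = 0) (h0 : B₀ a a₁ = 0) (ha0 : a ≠ 0) (hN : a₁ ∉ Submodule.span F₀ {a})
    {b : ι → F₀} (hb : Q₀ b = 0) (hb0 : b ≠ 0) (h1 : B ((k : Matrix ι ι F) *ᵥ emb F₀ a) (emb F₀ b) = 0) (h2 : B ((k : Matrix ι ι F) *ᵥ emb F₀ a₁) (emb F₀ b) = 0) :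
    RL F₀ Q Q₀ ((k : Matrix ι ι F) *ᵥ emb F₀ a) ((k : Matrix ι ι F) *ᵥ emb F₀ a₁) := by
  have hki := D.hMi hk
  apply D.RL_of_om
  · intro h
    obtain ⟨t, ht⟩ := Submodule.mem_span_singleton.mp h
    apply Sd.emb_notMem_span hN ha0
    rw [Submodule.mem_span_singleton]
    refine ⟨t, ?_⟩
    apply mulVec_injective k
    simp only
    rw [Matrix.mulVec_smul]; exact ht
  · intro h
    exact emb_ne_zero F₀ ha0 (mulVec_injective k (h.trans (Matrix.mulVec_zero _).symm))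
  · intro x y
    exact D.P (by rw [(mem_isoQ _).mp hki]; exact D.q0 ha) (by rw [(mem_isoQ _).mp hki]; exact D.q0 ha₁) (by rw [isoQ_polar hki]; exact D.b0 h0)
      (D.conj_mem hk (D.q0 ha) (D.b0 h0) (D.hM a a₁ ha h0)) hb hb0 h1 h2 x y

theorem SR_of_lines {k : GL ι F} (hk : k ∈ M) [Finite F] {a a₁ a₂ : ι → F₀} (ha : Q₀ a = 0) (ha₁ : Q₀ a₁ = 0) (ha₂ : Q₀ a₂ = 0) (h01 : B₀ a a₁ = 0) (h02 : B₀ a a₂ = 0)
    (ha0 : a ≠ 0) (hN1 : a₁ ∉ Submodule.span F₀ {a}) (hN2 : a₂ ∉ Submodule.span F₀ {a, a₁})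
    {b : ι → F₀} (hb : Q₀ b = 0) (hb0 : b ≠ 0) (h1 : B ((k : Matrix ι ι F) *ᵥ emb F₀ a) (emb F₀ b) = 0) (h2 : B ((k : Matrix ι ι F) *ᵥ emb F₀ a₁) (emb F₀ b) = 0)
    {b' : ι → F₀} (hb' : Q₀ b' = 0) (hb'0 : b' ≠ 0) (h1' : B ((k : Matrix ι ι F) *ᵥ emb F₀ a) (emb F₀ b') = 0) (h2' : B ((k : Matrix ι ι F) *ᵥ emb F₀ a₂) (emb F₀ b') = 0) :
    SR F₀ k a := by
  refine D.rat_of_RL (D.RL_of hk ha ha₂ h02 ha0 (fun h => hN2 (Submodule.span_mono (by simp) h)) hb' hb'0 h1' h2') (D.RL_of hk ha ha₁ h01 ha0 hN1 hb hb0 h1 h2) ?_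
  intro h
  obtain ⟨s, t, hst⟩ := Submodule.mem_span_pair.mp h
  have h3 : emb F₀ a₂ = s • emb F₀ a + t • emb F₀ a₁ := by
    apply mulVec_injective k
    simp only
    rw [Matrix.mulVec_add, Matrix.mulVec_smul, Matrix.mulVec_smul]; exact hst.symm
  -- coefficients are rational
  have n1 := Sd.emb_notMem_span hN1 ha0
  have m1 := rat_coeff F₀ n1 (by rw [add_comm]; exact h3.symm)
  have m2 := rat_coeff F₀ (notMem_span_symm (emb_ne_zero F₀ ha0) n1) h3.symm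
  apply hN2
  rw [Submodule.mem_span_pair]
  refine ⟨⟨s, m2⟩, ⟨t, m1⟩, ?_⟩
  apply emb_injective F₀
  rw [emb_add, emb_smul, emb_smul]
  exact h3.symm

/-- rational elements from a rational singular vector orthogonal to the image of a large rational subspace -/
theorem RP_of [Finite F] {k : GL ι F} (hk : k ∈ M) (A₀ : Submodule F₀ (ι → F₀)) (hA₀ : Fintype.card ι ≤ finrank F₀ A₀ + 3) {b : ι → F₀} (hb : Q₀ b = 0) (hb0 : b ≠ 0)
    (h : ∀ a ∈ A₀, B ((k : Matrix ι ι F) *ᵥ emb F₀ a) (emb F₀ b) = 0) : Rat F₀ k := by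
  have h13 := D.h13
  have hki := D.hMi hk
  -- vectors of `A₀`
  have hA : ∀ a ∈ A₀, Q₀ a = 0 → SR F₀ k a := by
    intro a haA ha
    by_cases ha0 : a = 0
    · exact ⟨0, 0, by rw [ha0, emb_zero, Matrix.mulVec_zero, zero_smul]⟩
    obtain ⟨a₁, ha₁A, ha₁, hp1, hN1⟩ := exists_sing_in D.hQ₀ A₀ hA₀ [a] [a] (by simp; omega)
    obtain ⟨a₂, ha₂A, ha₂, hp2, hN2⟩ := exists_sing_in D.hQ₀ A₀ hA₀ [a] [a, a₁] (by simp; omega)
    rw [span_list_single] at hN1
    rw [CfsgLib.SpSub29.span_list_pair] at hN2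
    exact D.SR_of_lines hk ha ha₁ ha₂ (hp1 a (by simp)) (hp2 a (by simp)) ha0 hN1 hN2 hb hb0 (h a haA) (h a₁ ha₁A) hb hb0 (h a haA) (h a₂ ha₂A)
  apply D.Rat_of_sing hk
  intro a ha
  by_cases ha0 : a = 0
  · exact ⟨0, 0, by rw [ha0, emb_zero, Matrix.mulVec_zero, zero_smul]⟩
  obtain ⟨a₁, ha₁A, ha₁, hp1, hN1⟩ := exists_sing_in D.hQ₀ A₀ hA₀ [a] [a] (by simp; omega)
  obtain ⟨a₂, ha₂A, ha₂, hp2, hN2⟩ := exists_sing_in D.hQ₀ A₀ hA₀ [a] [a, a₁] (by simp; omega)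
  obtain ⟨a₃, ha₃A, ha₃, hp3, hN3⟩ := exists_sing_in D.hQ₀ A₀ hA₀ [a, a₁, a₂] [] (by simp; omega)
  have ha₃0 : a₃ ≠ 0 := fun h => hN3 (by rw [h]; exact Submodule.zero_mem _)
  rw [span_list_single] at hN1
  rw [CfsgLib.SpSub29.span_list_pair] at hN2
  obtain ⟨c, y, hy⟩ := hA a₃ ha₃A ha₃
  have hka : (k : Matrix ι ι F) *ᵥ emb F₀ a₃ ≠ 0 := fun h => emb_ne_zero F₀ ha₃0 (mulVec_injective k (h.trans (Matrix.mulVec_zero _).symm))
  have hc0 : c ≠ 0 := by rintro rfl; exact hka (by rw [hy, zero_smul])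
  have hy0 : y ≠ 0 := by rintro rfl; exact hka (by rw [hy, emb_zero, smul_zero])
  have hyQ : Q₀ y = 0 := by
    have h1 := (mem_isoQ k).mp hki (emb F₀ a₃)
    rw [hy, qsmul, D.q0 ha₃, D.hc] at h1
    have := (mul_eq_zero.mp h1).resolve_left (mul_ne_zero hc0 hc0)
    exact Subtype.ext this
  have hyp : ∀ x, B₀ x a₃ = 0 → B ((k : Matrix ι ι F) *ᵥ emb F₀ x) (emb F₀ y) = 0 := by
    intro x hx
    have h1 := isoQ_polar hki (emb F₀ x) (emb F₀ a₃)
    rw [hy, D.b0 hx, QuadraticMap.polar_smul_right] at h1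
    exact (mul_eq_zero.mp h1).resolve_left hc0
  exact D.SR_of_lines hk ha ha₁ ha₂ (hp1 a (by simp)) (hp2 a (by simp)) ha0 hN1 hN2 hyQ hy0 (hyp a (hp3 a (by simp))) (hyp a₁ (hp3 a₁ (by simp)))
    hyQ hy0 (hyp a (hp3 a (by simp))) (hyp a₂ (hp3 a₂ (by simp)))

/-- a non-rational element moves some rational line to a generic one -/
theorem generic [Finite F] {k : GL ι F} (hk : k ∈ M) (hR : ¬ Rat F₀ k) : ∃ a₁ a₂ : ι → F₀, Q₀ a₁ = 0 ∧ Q₀ a₂ = 0 ∧ B₀ a₁ a₂ = 0 ∧ a₁ ≠ 0 ∧ a₂ ∉ Submodule.span F₀ {a₁} ∧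
    ∀ b : ι → F₀, Q₀ b = 0 → B ((k : Matrix ι ι F) *ᵥ emb F₀ a₁) (emb F₀ b) = 0 → B ((k : Matrix ι ι F) *ᵥ emb F₀ a₂) (emb F₀ b) = 0 → b = 0 := by
  have h13 := D.h13
  by_contra hcon
  push Not at hcon
  apply hR
  apply D.Rat_of_sing hk
  intro a ha
  by_cases ha0 : a = 0
  · exact ⟨0, 0, by rw [ha0, emb_zero, Matrix.mulVec_zero, zero_smul]⟩
  obtain ⟨a₁, ha₁, hp1, hN1⟩ := pick D.hQ₀ [a] [a] (by simp; omega)
  obtain ⟨a₂, ha₂, hp2, hN2⟩ := pick D.hQ₀ [a] [a, a₁] (by simp; omega)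
  rw [span_list_single] at hN1
  rw [CfsgLib.SpSub29.span_list_pair] at hN2
  have hN2' : a₂ ∉ Submodule.span F₀ {a} := fun h => hN2 (Submodule.span_mono (by simp) h)
  obtain ⟨b, hb, h1, h2, hb0⟩ := hcon a a₁ ha ha₁ (hp1 a (by simp)) ha0 hN1
  obtain ⟨b', hb', h1', h2', hb'0⟩ := hcon a a₂ ha ha₂ (hp2 a (by simp)) ha0 hN2'
  exact D.SR_of_lines hk ha ha₁ ha₂ (hp1 a (by simp)) (hp2 a (by simp)) ha0 hN1 hN2 hb hb0 h1 h2 hb' hb'0 h1' h2'

end Sg

end CfsgLib.OS29
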