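import Cfsg.Agent.LibOS29c
import Cfsg.Agent.S0058

set_option autoImplicit false

/-! Overgroups of `Ω(F₀)` in `Ω(F)`: the generic case. -/

namespace CfsgLib.OS29

open scoped MatrixGroups Matrix
open Cfsg CfsgLib.MaxTv29 CfsgLib.SympTv29 CfsgLib.Subfield29 CfsgLib.OM29 Cfsg.Agent.H22 Module

/-- an abelian non-cyclic p-subgroup controlling fusion strongly is everything -/
theorem strongly_embedded_abelian {K : Type*} [Group K] [Finite K] {p : ℕ} [Fact p.Prime] (U : Subgroup K) (hUp : IsPGroup p U)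
    (hcyc : ¬ IsCyclic U) (hcomm : ∀ k ∈ U, ∀ l ∈ U, k * l = l * k)
    (h : ∀ s ∈ U, s ≠ 1 → ∀ k : K, k * s * k⁻¹ ∈ U → k ∈ U) : ∀ x, x ∈ U := by
  obtain ⟨s1, hs1U, hs1ne⟩ : ∃ s ∈ U, s ≠ 1 := by
    by_contra hcon
    push Not at hcon
    apply hcyc
    have : U = ⊥ := by rw [eq_bot_iff]; exact fun x hx => Subgroup.mem_bot.mpr (hcon x hx)
    rw [this]; infer_instance
  obtain ⟨P, hUP⟩ := hUp.exists_le_sylow
  have hPU : (P : Subgroup K) ≤ U := by
    have hs1P : s1 ∈ (P : Subgroup K) := hUP hs1U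
    haveI : Nontrivial P := ⟨⟨⟨s1, hs1P⟩, 1, fun h => hs1ne (congrArg Subtype.val h)⟩⟩
    haveI := P.2.center_nontrivial
    obtain ⟨⟨z, hzc⟩, hz1⟩ := exists_ne (1 : Subgroup.center P)
    have hzne : (z : K) ≠ 1 := fun h => hz1 (Subtype.ext (Subtype.ext h))
    have hzcomm : ∀ y : P, (y : K) * (z : K) = (z : K) * (y : K) := fun y => congrArg Subtype.val (Subgroup.mem_center_iff.mp hzc y)
    have hzU : (z : K) ∈ U := by
      apply h s1 hs1U hs1ne
      have h1 := hzcomm ⟨s1, hs1P⟩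
      rw [← h1]
      simpa using hs1U
    intro y hy
    apply h z hzU hzne
    rw [hzcomm ⟨y, hy⟩]
    simpa using hzU
  have hPeq : (P : Subgroup K) = U := le_antisymm hPU hUP
  have hPn : Subgroup.normalizer (P : Set K) ≤ Subgroup.centralizer (P : Set K) := by
    intro k hk
    have hkU : k ∈ U := h s1 hs1U hs1ne k (hPU ((Subgroup.mem_normalizer_iff.mp hk s1).mp (hUP hs1U)))
    rw [Subgroup.mem_centralizer_iff]
    intro l hl
    exact hcomm l (hPU hl) k hkU
  haveI : (P : Subgroup K).FiniteIndex := inferInstance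
  have hcompl := MonoidHom.ker_transferSylow_isComplement' P hPn
  set N := (MonoidHom.transferSylow P hPn).ker with hN
  have hNP : ∀ x, x ∈ N → x ∈ U → x = 1 := by
    intro x h1 h2
    exact hcompl.disjoint.le_bot (show x ∈ N ⊓ P from ⟨h1, hUP h2⟩)
  have hcop : (Nat.card U).Coprime (Nat.card N) := by
    have h1 := P.card_coprime_index
    rw [hcompl.index_eq_card, hPeq] at h1
    exact h1
  haveI : IsMulCommutative U := ⟨⟨fun a b => Subtype.ext (hcomm a a.2 b b.2)⟩⟩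
  have hNn : N.Normal := inferInstance
  have hgen := Cfsg.Agent.S0058.result U N hcyc (by rw [Subgroup.normalizer_eq_top]; exact le_top) hcop
  have hNbot : N = ⊥ := by
    rw [eq_bot_iff, ← hgen]
    apply iSup₂_le
    rintro a ⟨haU, ha1⟩ x ⟨hxN, hxc⟩
    have h1 : a * x = x * a := Subgroup.mem_centralizer_iff.mp hxc a rfl
    exact Subgroup.mem_bot.mpr (hNP x hxN (h a haU ha1 x (by rw [← h1, mul_inv_cancel_right]; exact haU)))
  intro x
  rw [hNbot] at hcompl
  have := Subgroup.isComplement'_bot_left.mp hcompl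
  rw [← hPeq, this]; exact Subgroup.mem_top _

variable {ι : Type} [Fintype ι] [DecidableEq ι]
variable {F : Type*} [Field F] {F₀ : Subfield F} {Q : QuadraticForm F (ι → F)} {Q₀ : QuadraticForm F₀ (ι → F₀)}

local notation "B" => QuadraticMap.polar Q
local notation "B₀" => QuadraticMap.polar Q₀

/-- rational vectors orthogonal to `z` -/
def rperp (F₀ : Subfield F) (Q : QuadraticForm F (ι → F)) (z : ι → F) : Submodule F₀ (ι → F₀) where
  carrier := {x | QuadraticMap.polar Q z (emb F₀ x) = 0}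
  add_mem' := fun {x y} hx hy => by
    change QuadraticMap.polar Q z (emb F₀ (x + y)) = 0
    rw [emb_add, QuadraticMap.polar_add_right, hx, hy, add_zero]
  zero_mem' := by
    change QuadraticMap.polar Q z (emb F₀ 0) = 0
    rw [emb_zero, QuadraticMap.polar_zero_right]
  smul_mem' := fun k x hx => by
    change QuadraticMap.polar Q z (emb F₀ (k • x)) = 0
    rw [emb_smul, QuadraticMap.polar_smul_right, hx, smul_zero]

omit [DecidableEq ι] [Fintype ι] in
theorem mem_rperp {z : ι → F} {x : ι → F₀} : x ∈ rperp F₀ Q z ↔ B z (emb F₀ x) = 0 := Iff.rfl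

omit [Fintype ι] [DecidableEq ι] in
theorem exists_coeffs {u v z z₀ : ι → F} (hz : z ∈ Submodule.span F {u, v}) (hz₀ : z₀ ∈ Submodule.span F {u, v}) (hz₀0 : z₀ ≠ 0) (hN : z ∉ Submodule.span F {z₀})
    {x : ι → F} (h1 : B z x = 0) (h2 : B z₀ x = 0) : B u x = 0 ∧ B v x = 0 := by
  obtain ⟨α, β, rfl⟩ := Submodule.mem_span_pair.mp hz
  obtain ⟨γ, δ, rfl⟩ := Submodule.mem_span_pair.mp hz₀
  have hdet : α * δ - β * γ ≠ 0 := by
    intro h0
    apply hN
    rw [Submodule.mem_span_singleton]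
    by_cases hδ : δ = 0
    · have hγ : γ ≠ 0 := by
        rintro rfl
        exact hz₀0 (by rw [hδ, zero_smul, zero_smul, add_zero])
      refine ⟨α * γ⁻¹, ?_⟩
      rw [smul_add, smul_smul, smul_smul, inv_mul_cancel_right₀ hγ]
      congr 2
      field_simp
      linear_combination h0
    · refine ⟨β * δ⁻¹, ?_⟩
      rw [smul_add, smul_smul, smul_smul, inv_mul_cancel_right₀ hδ]
      congr 2
      field_simp
      linear_combination -h0
  rw [QuadraticMap.polar_add_left, QuadraticMap.polar_smul_left, QuadraticMap.polar_smul_left, smul_eq_mul, smul_eq_mul] at h1 h2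
  constructor
  · have : (α * δ - β * γ) * B u x = 0 := by linear_combination δ * h1 - β * h2
    exact (mul_eq_zero.mp this).resolve_left hdet
  · have : (α * δ - β * γ) * B v x = 0 := by linear_combination α * h2 - γ * h1
    exact (mul_eq_zero.mp this).resolve_left hdet

omit [Fintype ι] [DecidableEq ι] in
theorem finrank_step {K : Type*} [Field K] [Finite ι] {Z : Submodule K (ι → K)} {L : List (ι → K)} {b : ι → K} (h : b ∉ Z ⊔ Submodule.span K {x | x ∈ L}) :
    finrank K (Z ⊔ Submodule.span K {x | x ∈ L} : Submodule K (ι → K)) + 1 ≤ finrank K (Z ⊔ Submodule.span K {x | x ∈ b :: L} : Submodule K (ι → K)) := by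
  have h1 : Z ⊔ Submodule.span K {x | x ∈ L} < Z ⊔ Submodule.span K {x | x ∈ b :: L} := by
    refine lt_of_le_of_ne (sup_le_sup_left (Submodule.span_mono fun x hx => List.mem_cons_of_mem _ hx) _) ?_
    intro h2
    apply h
    rw [h2]
    exact Submodule.mem_sup_right (Submodule.subset_span (by simp))
  exact Submodule.finrank_lt_finrank_of_lt h1

theorem disp_fix' (hQ : (QuadraticMap.polarBilin Q).Nondegenerate) {T : Submodule F (ι → F)} (hT : ∀ s ∈ T, ∀ t ∈ T, B s t = 0) {k : GL ι F}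
    (hk : k ∈ Cfsg.isometryGroup F ⇑Q) (hkT : ∀ x, (k : Matrix ι ι F) *ᵥ x - x ∈ T) {y : ι → F} (hy : ∀ t ∈ T, B t y = 0) : (k : Matrix ι ι F) *ᵥ y = y := by
  rw [← sub_eq_zero]
  apply hQ.2
  intro x
  have h1 := isoQ_polar hk x y
  have h2 : (k : Matrix ι ι F) *ᵥ x = x + ((k : Matrix ι ι F) *ᵥ x - x) := by abel
  have h3 : (k : Matrix ι ι F) *ᵥ y = y + ((k : Matrix ι ι F) *ᵥ y - y) := by abel
  rw [h2, h3, QuadraticMap.polar_add_left, QuadraticMap.polar_add_right, QuadraticMap.polar_add_right, hy _ (hkT x), hT _ (hkT x) _ (hkT y)] at h1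
  change B x ((k : Matrix ι ι F) *ᵥ y - y) = 0
  linear_combination h1

namespace Sg

variable {M : Subgroup (GL ι F)} (D : Sg F₀ Q Q₀ M)
include D

theorem dim_bound [Finite F] {u v : ι → F} (hgen : ∀ b : ι → F₀, Q₀ b = 0 → B u (emb F₀ b) = 0 → B v (emb F₀ b) = 0 → b = 0) :
    Fintype.card ι ≤ 2 * finrank F₀ F + 2 := by
  haveI : Module.Finite F₀ F := inferInstance
  let L : (⊤ : Submodule F₀ (ι → F₀)) →ₗ[F₀] (F × F) :=
    { toFun := fun x => (B u (emb F₀ (x : ι → F₀)), B v (emb F₀ (x : ι → F₀)))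
      map_add' := fun x y => by
        refine Prod.ext ?_ ?_
        · change B u (emb F₀ (x : ι → F₀) + emb F₀ (y : ι → F₀)) = B u (emb F₀ (x : ι → F₀)) + B u (emb F₀ (y : ι → F₀))
          rw [QuadraticMap.polar_add_right]
        · change B v (emb F₀ (x : ι → F₀) + emb F₀ (y : ι → F₀)) = B v (emb F₀ (x : ι → F₀)) + B v (emb F₀ (y : ι → F₀))
          rw [QuadraticMap.polar_add_right]
      map_smul' := fun k x => by
        refine Prod.ext ?_ ?_
        · change B u ((k : F) • emb F₀ (x : ι → F₀)) = (k : F) * B u (emb F₀ (x : ι → F₀))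
          rw [QuadraticMap.polar_smul_right, smul_eq_mul]
        · change B v ((k : F) • emb F₀ (x : ι → F₀)) = (k : F) * B v (emb F₀ (x : ι → F₀))
          rw [QuadraticMap.polar_smul_right, smul_eq_mul] }
  by_contra hcon
  push Not at hcon
  obtain ⟨⟨z, hz⟩, hLz, hz0, hzQ⟩ := exists_sing_ker Q₀ L (by rw [Module.finrank_prod, finrank_top, D.fr0]; omega)
  apply hz0
  exact hgen z hzQ (congrArg Prod.fst hLz) (congrArg Prod.snd hLz)

/-- the rational hull of the points of small rank -/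
theorem exists_hull [Finite F] {u v : ι → F} (hgen : ∀ b : ι → F₀, Q₀ b = 0 → B u (emb F₀ b) = 0 → B v (emb F₀ b) = 0 → b = 0) :
    ∃ Z₀ : Submodule F₀ (ι → F₀), finrank F₀ Z₀ ≤ 4 ∧ ∀ z ∈ Submodule.span F {u, v}, z ≠ 0 → Fintype.card ι ≤ finrank F₀ (rperp F₀ Q z) + 4 → orth Q₀ (rperp F₀ Q z) = Z₀ := by
  have h13 := D.h13
  by_cases hlow : ∃ z₀ ∈ Submodule.span F {u, v}, z₀ ≠ 0 ∧ Fintype.card ι ≤ finrank F₀ (rperp F₀ Q z₀) + 4
  · obtain ⟨z₀, hz₀, hz₀0, hlow⟩ := hlow
    refine ⟨orth Q₀ (rperp F₀ Q z₀), ?_, ?_⟩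
    · have := finrank_orth D.hQ₀ (rperp F₀ Q z₀)
      rw [D.fr0] at this
      omega
    · intro z hz hz0 hl
      by_cases hN : z ∈ Submodule.span F {z₀}
      · obtain ⟨k, rfl⟩ := Submodule.mem_span_singleton.mp hN
        have hk : k ≠ 0 := by rintro rfl; exact hz0 (zero_smul _ _)
        congr 1
        ext x
        rw [mem_rperp, mem_rperp, QuadraticMap.polar_smul_left, smul_eq_mul]
        exact ⟨fun h => (mul_eq_zero.mp h).resolve_left hk, fun h => by rw [h, mul_zero]⟩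
      · exfalso
        have h1 := Submodule.finrank_sup_add_finrank_inf_eq (rperp F₀ Q z) (rperp F₀ Q z₀)
        have h2 := Submodule.finrank_le (rperp F₀ Q z ⊔ rperp F₀ Q z₀)
        rw [D.fr0] at h2
        obtain ⟨x, hx, hxQ, hx0⟩ := exists_singular_avoid Q₀ (rperp F₀ Q z ⊓ rperp F₀ Q z₀) ⊥ (by rw [finrank_bot]; omega)
        obtain ⟨h3, h4⟩ := exists_coeffs hz hz₀ hz₀0 hN hx.1 hx.2
        exact hx0 ((Submodule.mem_bot F₀).mpr (hgen x hxQ h3 h4))
  · push Not at hlow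
    exact ⟨⊥, by rw [finrank_bot]; omega, fun z hz hz0 hl => absurd hl (not_le.mpr (hlow z hz hz0))⟩

theorem all_rat_o [Finite F] (hr : (finrank F₀ F).Prime) {g : GL ι F} (hg : g ∈ M) : Rat F₀ g := by
  classical
  by_contra hcon
  have h13 := D.h13
  obtain ⟨a₁, a₂, ha₁, ha₂, ha₁₂, ha₁0, haN, hgen⟩ := D.generic hg hcon
  have hgi := D.hMi hg
  set u := (g : Matrix ι ι F) *ᵥ emb F₀ a₁ with hu
  set v := (g : Matrix ι ι F) *ᵥ emb F₀ a₂ with hv
  have hQu : Q u = 0 := by rw [hu, (mem_isoQ _).mp hgi]; exact D.q0 ha₁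
  have hQv : Q v = 0 := by rw [hv, (mem_isoQ _).mp hgi]; exact D.q0 ha₂
  have huv : B u v = 0 := by rw [hu, hv, isoQ_polar hgi]; exact D.b0 ha₁₂
  have huvM : EM Q u v ∈ M := D.conj_mem hg (D.q0 ha₁) (D.b0 ha₁₂) (D.hM a₁ a₂ ha₁ ha₁₂)
  have hu0 : u ≠ 0 := fun h => emb_ne_zero F₀ ha₁0 (mulVec_injective g (h.trans (Matrix.mulVec_zero _).symm))
  have hind : v ∉ Submodule.span F {u} := by
    intro h
    obtain ⟨t, ht⟩ := Submodule.mem_span_singleton.mp h
    apply Sd.emb_notMem_span haN ha₁0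
    rw [Submodule.mem_span_singleton]
    refine ⟨t, ?_⟩
    apply mulVec_injective g
    simp only
    rw [Matrix.mulVec_smul]; exact ht
  have hdim := D.dim_bound hgen
  have hr7 : 7 ≤ finrank F₀ F := by
    rcases Nat.lt_or_ge (finrank F₀ F) 7 with h | h
    · have h6 : finrank F₀ F = 6 := by omega
      rw [h6] at hr
      exact absurd hr (by decide)
    · exact h
  obtain ⟨Z₀, hZ₀, hZ⟩ := D.exists_hull hgen
  -- the rational totally singular 3-space
  obtain ⟨b1, hb1, _, hb1N⟩ := pickA D.hQ₀ [] Z₀ hZ₀ (by simp; omega)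
  have hb1N' : b1 ∉ Z₀ ⊔ Submodule.span F₀ {x | x ∈ ([] : List (ι → F₀))} := by simpa using hb1N
  have hfr1 : finrank F₀ (Z₀ ⊔ Submodule.span F₀ {x | x ∈ [b1]} : Submodule F₀ (ι → F₀)) ≤ 5 := by
    have h1 := Submodule.finrank_add_le_finrank_add_finrank Z₀ (Submodule.span F₀ {x | x ∈ [b1]})
    have h2 : finrank F₀ (Submodule.span F₀ {x | x ∈ [b1]}) ≤ 1 := finrank_span_list_le [b1]
    omega
  obtain ⟨b2, hb2, hb2p, hb2N⟩ := pickA D.hQ₀ [b1] _ hfr1 (by simp; omega)
  have hfr2 : finrank F₀ (Z₀ ⊔ Submodule.span F₀ {x | x ∈ [b2, b1]} : Submodule F₀ (ι → F₀)) ≤ 6 := by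
    have h1 := Submodule.finrank_add_le_finrank_add_finrank Z₀ (Submodule.span F₀ {x | x ∈ [b2, b1]})
    have h2 : finrank F₀ (Submodule.span F₀ {x | x ∈ [b2, b1]}) ≤ 2 := finrank_span_list_le [b2, b1]
    omega
  obtain ⟨b3, hb3, hb3p, hb3N⟩ := pickA D.hQ₀ [b1, b2] _ hfr2 (by simp; omega)
  have b12 := hb2p b1 (by simp)
  have b13 := hb3p b1 (by simp)
  have b23 := hb3p b2 (by simp)
  have hb10 : b1 ≠ 0 := by rintro rfl; exact hb1N Z₀.zero_mem
  have hb2s : b2 ∉ Submodule.span F₀ {x | x ∈ [b1]} := fun h => hb2N (Submodule.mem_sup_right h)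
  have hb3s : b3 ∉ Submodule.span F₀ {x | x ∈ [b2, b1]} := fun h => hb3N (Submodule.mem_sup_right h)
  have hfr3 : finrank F₀ Z₀ + 3 ≤ finrank F₀ (Z₀ ⊔ Submodule.span F₀ {x | x ∈ [b3, b2, b1]} : Submodule F₀ (ι → F₀)) := by
    have h1 := finrank_step hb1N'
    have h2 := finrank_step hb2N
    have h3 := finrank_step hb3N
    have h4 : Z₀ ⊔ Submodule.span F₀ {x | x ∈ ([] : List (ι → F₀))} = Z₀ := by simp
    rw [h4] at h1
    omega
  -- the real span
  set T : Submodule F (ι → F) := Submodule.span F {x | x ∈ [emb F₀ b1, emb F₀ b2, emb F₀ b3]} with hTd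
  have hb1T : emb F₀ b1 ∈ T := Submodule.subset_span (by simp)
  have hb2T : emb F₀ b2 ∈ T := Submodule.subset_span (by simp)
  have hb3T : emb F₀ b3 ∈ T := Submodule.subset_span (by simp)
  have hTperp : ∀ y : ι → F, B (emb F₀ b1) y = 0 → B (emb F₀ b2) y = 0 → B (emb F₀ b3) y = 0 → ∀ t ∈ T, B t y = 0 := by
    intro y h1 h2 h3 t ht
    induction ht using Submodule.span_induction with
    | mem d hd =>
      simp only [List.mem_cons, List.not_mem_nil, or_false, Set.mem_ofPred_eq] at hd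
      rcases hd with rfl | rfl | rfl <;> assumption
    | zero => exact QuadraticMap.polar_zero_left Q y
    | add a b _ _ ha hb => rw [QuadraticMap.polar_add_left, ha, hb, add_zero]
    | smul c a _ ha => rw [QuadraticMap.polar_smul_left, ha, smul_zero]
  have hTT : ∀ s ∈ T, ∀ t ∈ T, B s t = 0 := by
    intro s hs t ht
    rw [bsymm]
    apply hTperp s _ _ _ t ht
    · rw [bsymm]; exact hTperp _ (bself (D.q0 hb1)) (D.b0' b12) (D.b0' b13) s hs
    · rw [bsymm]; exact hTperp _ (D.b0 b12) (bself (D.q0 hb2)) (D.b0' b23) s hs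
    · rw [bsymm]; exact hTperp _ (D.b0 b13) (D.b0 b23) (bself (D.q0 hb3)) s hs
  have hTQ : ∀ t ∈ T, Q t = 0 := by
    intro t ht
    induction ht using Submodule.span_induction with
    | mem d hd =>
      simp only [List.mem_cons, List.not_mem_nil, or_false, Set.mem_ofPred_eq] at hd
      rcases hd with rfl | rfl | rfl
      · exact D.q0 hb1
      · exact D.q0 hb2
      · exact D.q0 hb3
    | zero => exact QuadraticMap.map_zero Q
    | add a b ha' hb' ha hb => rw [qadd, ha, hb, hTT a ha' b hb']; ring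
    | smul c a _ ha => rw [qsmul, ha, mul_zero]
  set E : Submodule F (ι → F) := Submodule.span F {u, v} with hE
  have hEQ : ∀ z ∈ E, Q z = 0 ∧ B u z = 0 ∧ B v z = 0 := by
    intro z hz
    obtain ⟨α, β, rfl⟩ := Submodule.mem_span_pair.mp hz
    refine ⟨?_, ?_, ?_⟩
    · rw [qadd, qsmul, qsmul, hQu, hQv, QuadraticMap.polar_smul_left, QuadraticMap.polar_smul_right, huv]; simp
    · rw [QuadraticMap.polar_add_right, QuadraticMap.polar_smul_right, QuadraticMap.polar_smul_right, bself hQu, huv, smul_zero, smul_zero, add_zero]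
    · rw [QuadraticMap.polar_add_right, QuadraticMap.polar_smul_right, QuadraticMap.polar_smul_right, bself hQv, bsymm v u, huv, smul_zero, smul_zero, add_zero]
  set W : Submodule F (ι → F) := T ⊔ E with hWd
  have hTW : T ≤ W := le_sup_left
  have hWr : finrank F W < 6 := by
    have h1 := Submodule.finrank_add_le_finrank_add_finrank T E
    have h2 : finrank F T ≤ 3 := finrank_span_list_le [emb F₀ b1, emb F₀ b2, emb F₀ b3]
    have h3 : finrank F E ≤ 2 := fr_pair u v
    rw [← hWd] at h1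
    omega
  have hWrat : ∀ y : ι → F₀, emb F₀ y ∈ W → emb F₀ y ∈ T := by
    intro y hy
    obtain ⟨t, ht, z, hz, hyz⟩ := Submodule.mem_sup.mp hy
    by_cases hz0 : z = 0
    · rw [← hyz, hz0, add_zero]; exact ht
    exfalso
    set Y := Submodule.span F₀ {x | x ∈ [y, b3, b2, b1]} with hY
    have hYo : orth Q₀ Y ≤ rperp F₀ Q z := by
      intro x hx
      have hx' := mem_orth_list.mp hx
      have h1 : B (emb F₀ y) (emb F₀ x) = 0 := D.b0 (hx' y (by simp))
      have h2 : B t (emb F₀ x) = 0 := hTperp _ (D.b0 (hx' b1 (by simp))) (D.b0 (hx' b2 (by simp))) (D.b0 (hx' b3 (by simp))) t ht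
      rw [← hyz, QuadraticMap.polar_add_left, h2, zero_add] at h1
      exact h1
    have h1 := orth_list_ge D.hQ₀ [y, b3, b2, b1]
    rw [← hY] at h1
    simp only [List.length_cons, List.length_nil] at h1
    have h2 := Submodule.finrank_mono hYo
    have h3 := hZ z hz hz0 (by omega)
    have h4 : Z₀ ≤ Y := by
      rw [← h3, ← orth_orth D.hQ₀ Y]
      intro x hx
      rw [mem_orth] at hx ⊢
      exact fun w hw => hx w (hYo hw)
    have h5 : Z₀ ⊔ Submodule.span F₀ {x | x ∈ [b3, b2, b1]} ≤ Y := sup_le h4 (Submodule.span_mono fun x hx => List.mem_cons_of_mem _ hx)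
    have h6 := Submodule.finrank_mono h5
    have h7 : finrank F₀ Y ≤ 4 := finrank_span_list_le [y, b3, b2, b1]
    have h8 := finrank_orth D.hQ₀ (rperp F₀ Q z)
    rw [h3, D.fr0] at h8
    obtain ⟨c, z', hz'⟩ := D.rat_of_codim (u := z) (rperp F₀ Q z) (by omega) (fun x hx => hx)
    have hc0 : c ≠ 0 := by rintro rfl; exact hz0 (by rw [hz', zero_smul])
    obtain ⟨e1, e2, e3⟩ := hEQ z hz
    rw [hz'] at e1 e2 e3
    rw [qsmul, D.hc] at e1
    rw [QuadraticMap.polar_smul_right, smul_eq_mul] at e2 e3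
    have := hgen z' (Subtype.ext ((mul_eq_zero.mp e1).resolve_left (mul_ne_zero hc0 hc0))) ((mul_eq_zero.mp e2).resolve_left hc0) ((mul_eq_zero.mp e3).resolve_left hc0)
    exact hz0 (by rw [hz', this, emb_zero, smul_zero])
  haveI : Finite (Matrix ι ι F) := inferInstanceAs (Finite (ι → ι → F))
  haveI : Finite (GL ι F) := inferInstance
  set K := dispGroup M W with hK
  haveI : Finite K := inferInstance
  have hstab0 : ∀ k ∈ K, Rat F₀ k → ∀ x, (k : Matrix ι ι F) *ᵥ x - x ∈ T := by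
    rintro k ⟨hkM, hkd⟩ ⟨ν, hν0, hν⟩
    have e : Fin 6 ↪ ι := (Function.Embedding.nonempty_of_card_le (by rw [Fintype.card_fin]; omega)).some
    have hνF : ν ∈ F₀ := CfsgLib.SpSub29.nu_mem F₀ hr hkd hWr e (by omega) hν
    have hrat : ∀ x : ι → F₀, ∃ y : ι → F₀, (k : Matrix ι ι F) *ᵥ emb F₀ x - emb F₀ x = emb F₀ y := by
      intro x
      obtain ⟨y, hy⟩ := hν x
      refine ⟨(⟨ν, hνF⟩ : F₀)⁻¹ • y - x, ?_⟩
      have h1 : (k : Matrix ι ι F) *ᵥ emb F₀ x = ν⁻¹ • emb F₀ y := by rw [← hy, smul_smul, inv_mul_cancel₀ hν0, one_smul]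
      have h2 : emb F₀ ((⟨ν, hνF⟩ : F₀)⁻¹ • y - x) = emb F₀ ((⟨ν, hνF⟩ : F₀)⁻¹ • y) - emb F₀ x := rfl
      rw [h1, h2, emb_smul]
      rfl
    intro x
    have h3 : (k : Matrix ι ι F) *ᵥ x - x = ∑ i, x i • ((k : Matrix ι ι F) *ᵥ emb F₀ (Pi.single i 1) - emb F₀ (Pi.single i 1)) := by
      conv_lhs => rw [rational_span (F₀ := F₀) x]
      rw [Matrix.mulVec_sum, ← Finset.sum_sub_distrib]
      exact Finset.sum_congr rfl fun i _ => by rw [Matrix.mulVec_smul, smul_sub]
    rw [h3]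
    apply T.sum_mem
    intro i _
    apply T.smul_mem
    obtain ⟨y, hy⟩ := hrat (Pi.single i 1)
    rw [hy]
    apply hWrat
    rw [← hy]
    exact hkd _
  let U : Subgroup K := (dispGroup M T).subgroupOf K
  have hUmem : ∀ k : K, k ∈ U ↔ ∀ x, ((k : GL ι F) : Matrix ι ι F) *ᵥ x - x ∈ T := by
    intro k
    constructor
    · intro h; exact (Subgroup.mem_subgroupOf.mp h).2
    · intro h; exact Subgroup.mem_subgroupOf.mpr ⟨k.2.1, h⟩
  have hUfix : ∀ k ∈ U, ∀ t ∈ T, ((k : GL ι F) : Matrix ι ι F) *ᵥ t = t := by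
    intro k hk t ht
    exact disp_fix' D.hQ hTT (D.hMi k.2.1) ((hUmem k).mp hk) (fun s hs => hTT s hs t ht)
  -- rational displacement
  have hUrat : ∀ k ∈ U, ∀ x : ι → F₀, ∃ y : ι → F₀, ((k : GL ι F) : Matrix ι ι F) *ᵥ emb F₀ x - emb F₀ x = emb F₀ y := by
    intro k hk x
    apply D.rat_of_func
    intro y
    -- a vector of `T₀` orthogonal to `x` and `y`
    obtain ⟨b, hb0, hbT, hbx, hby⟩ : ∃ b : ι → F₀, b ≠ 0 ∧ emb F₀ b ∈ T ∧ B₀ b x = 0 ∧ B₀ b y = 0 := by
      set T₀ := Submodule.span F₀ {x | x ∈ [b3, b2, b1]} with hT₀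
      have hT3 : 3 ≤ finrank F₀ T₀ := by
        have h1 := finrank_step (Z := (⊥ : Submodule F₀ (ι → F₀))) (L := []) (b := b1) (by simpa using hb10)
        have h2 := finrank_step (Z := (⊥ : Submodule F₀ (ι → F₀))) (L := [b1]) (b := b2) (by rw [bot_sup_eq]; exact hb2s)
        have h3 := finrank_step (Z := (⊥ : Submodule F₀ (ι → F₀))) (L := [b2, b1]) (b := b3) (by rw [bot_sup_eq]; exact hb3s)
        have h4 : ∀ Y : Submodule F₀ (ι → F₀), finrank F₀ (⊥ ⊔ Y : Submodule F₀ (ι → F₀)) = finrank F₀ Y := fun Y => by rw [bot_sup_eq]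
        rw [h4] at h1 h2 h3
        rw [h4] at h1 h2 h3
        rw [← hT₀] at h3
        omega
      let L : T₀ →ₗ[F₀] (F₀ × F₀) :=
        { toFun := fun z => (B₀ (z : ι → F₀) x, B₀ (z : ι → F₀) y)
          map_add' := fun p q => by
            refine Prod.ext ?_ ?_
            · exact QuadraticMap.polar_add_left Q₀ _ _ _
            · exact QuadraticMap.polar_add_left Q₀ _ _ _
          map_smul' := fun k p => by
            refine Prod.ext ?_ ?_
            · exact QuadraticMap.polar_smul_left Q₀ _ _ _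
            · exact QuadraticMap.polar_smul_left Q₀ _ _ _ }
      have hker := LinearMap.ker_ne_bot_of_finrank_lt (f := L) (by rw [Module.finrank_prod, Module.finrank_self]; omega)
      obtain ⟨⟨b, hbT₀⟩, hbL, hb0⟩ := Submodule.exists_mem_ne_zero_of_ne_bot hker
      have hLb : L ⟨b, hbT₀⟩ = 0 := hbL
      refine ⟨b, fun h => hb0 (Subtype.ext h), ?_, congrArg Prod.fst hLb, congrArg Prod.snd hLb⟩
      have h1 : ∀ z ∈ T₀, emb F₀ z ∈ T := by
        intro z hz
        induction hz using Submodule.span_induction with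
        | mem d hd =>
          simp only [List.mem_cons, List.not_mem_nil, or_false, Set.mem_ofPred_eq] at hd
          rcases hd with rfl | rfl | rfl <;> assumption
        | zero => rw [emb_zero]; exact T.zero_mem
        | add a b _ _ ha hb => rw [emb_add]; exact T.add_mem ha hb
        | smul c a _ ha => rw [emb_smul]; exact T.smul_mem _ ha
      exact h1 b hbT₀
    have hQb : Q₀ b = 0 := by
      have := hTQ _ hbT
      rw [D.hc] at this
      exact Subtype.ext this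
    have h1 := D.conj_mem k.2.1 (D.q0 hQb) (D.b0 hbx) (D.hM b x hQb hbx)
    have h2 : ((k : GL ι F) : Matrix ι ι F) *ᵥ emb F₀ x = emb F₀ x + (((k : GL ι F) : Matrix ι ι F) *ᵥ emb F₀ x - emb F₀ x) := by abel
    rw [hUfix k hk _ hbT, h2] at h1
    have p1 : B (emb F₀ b) (((k : GL ι F) : Matrix ι ι F) *ᵥ emb F₀ x - emb F₀ x) = 0 := hTT _ hbT _ ((hUmem k).mp hk _)
    have h3 := D.right_mem (D.q0 hQb) (D.b0 hbx) p1 h1 (D.hM b x hQb hbx)
    rw [bsymm]
    exact D.P1 hQb hb0 p1 h3 hby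
  have hEMd : ∀ b c : ι → F₀, Q₀ b = 0 → Q₀ c = 0 → B₀ b c = 0 → emb F₀ b ∈ T → emb F₀ c ∈ T → ∀ x, ((EM Q (emb F₀ b) (emb F₀ c) : GL ι F) : Matrix ι ι F) *ᵥ x - x ∈ T := by
    intro b c hb hc hbc hbT hcT x
    rw [EM_mulVec (D.q0 hb) (D.b0 hbc), D.q0 hc, zero_mul, zero_smul, sub_zero, add_sub_assoc, add_sub_cancel_left]
    exact T.sub_mem (T.smul_mem _ hcT) (T.smul_mem _ hbT)
  let s1 : K := ⟨EM Q (emb F₀ b1) (emb F₀ b2), D.hM b1 b2 hb1 b12, fun x => hTW (hEMd b1 b2 hb1 hb2 b12 hb1T hb2T x)⟩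
  let s2 : K := ⟨EM Q (emb F₀ b1) (emb F₀ b3), D.hM b1 b3 hb1 b13, fun x => hTW (hEMd b1 b3 hb1 hb3 b13 hb1T hb3T x)⟩
  have hs1U : s1 ∈ U := (hUmem _).mpr (hEMd b1 b2 hb1 hb2 b12 hb1T hb2T)
  have hs2U : s2 ∈ U := (hUmem _).mpr (hEMd b1 b3 hb1 hb3 b13 hb1T hb3T)
  -- dual vectors
  obtain ⟨d2, hd2, hb2d2, hd2p⟩ := partner D.hQ₀ [b1] b2 hb2s (by simpa using b12) hb2
  have hb1d2 := hd2p b1 (by simp)
  obtain ⟨d3, hd3, hb3d3, hd3p⟩ := partner D.hQ₀ [b2, b1] b3 hb3s (by
    intro v hv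
    simp only [List.mem_cons, List.not_mem_nil, or_false] at hv
    rcases hv with rfl | rfl
    · exact b23
    · exact b13) hb3
  have hb2d3 := hd3p b2 (by simp)
  have hb1d3 := hd3p b1 (by simp)
  have hs1ne : s1 ≠ 1 := by
    intro h
    have h1 := congrArg (fun t : K => ((t : GL ι F) : Matrix ι ι F) *ᵥ emb F₀ d2) h
    change ((EM Q (emb F₀ b1) (emb F₀ b2) : GL ι F) : Matrix ι ι F) *ᵥ emb F₀ d2 = ((1 : GL ι F) : Matrix ι ι F) *ᵥ emb F₀ d2 at h1
    rw [EM_mulVec (D.q0 hb1) (D.b0 b12), D.b0 hb1d2, D.b1 hb2d2, D.q0 hb2, zero_smul, one_smul, zero_mul, zero_smul, sub_zero, add_zero, Units.val_one, Matrix.one_mulVec] at h1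
    exact emb_ne_zero F₀ hb10 (sub_eq_self.mp h1)
  obtain ⟨p, hp⟩ := CharP.exists F
  haveI hpp : Fact p.Prime := by
    haveI := hp
    exact ⟨CharP.char_is_prime F p⟩
  have hpow : ∀ k ∈ U, ∀ (n : ℕ) (x : ι → F), ((k ^ n : K) : GL ι F).1 *ᵥ x = x + (n : F) • (((k : GL ι F) : Matrix ι ι F) *ᵥ x - x) := by
    intro k hk n x
    induction n with
    | zero => simp
    | succ n ih =>
      rw [pow_succ', Subgroup.coe_mul, Units.val_mul, ← Matrix.mulVec_mulVec]
      change ((k : GL ι F) : Matrix ι ι F) *ᵥ (((k ^ n : K) : GL ι F).1 *ᵥ x) = _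
      rw [ih, Matrix.mulVec_add, Matrix.mulVec_smul, hUfix k hk _ ((hUmem k).mp hk x)]
      push_cast
      module
  have hUpow : ∀ k ∈ U, k ^ p = 1 := by
    intro k hk
    apply Subtype.ext
    apply gl_ext
    intro x
    have := hpow k hk p x
    rw [CharP.cast_eq_zero, zero_smul, add_zero] at this
    change ((k ^ p : K) : GL ι F).1 *ᵥ x = _
    rw [this]; simp
  have hUp : IsPGroup p U := by
    rintro ⟨k, hk⟩
    refine ⟨1, ?_⟩
    rw [pow_one]
    exact Subtype.ext (hUpow k hk)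
  have hUcomm : ∀ k ∈ U, ∀ l ∈ U, k * l = l * k := by
    intro k hk l hl
    apply Subtype.ext
    apply gl_ext
    intro x
    have e1 : ((k : GL ι F) : Matrix ι ι F) *ᵥ x = x + (((k : GL ι F) : Matrix ι ι F) *ᵥ x - x) := by abel
    have e2 : ((l : GL ι F) : Matrix ι ι F) *ᵥ x = x + (((l : GL ι F) : Matrix ι ι F) *ᵥ x - x) := by abel
    rw [Subgroup.coe_mul, Subgroup.coe_mul, Units.val_mul, Units.val_mul, ← Matrix.mulVec_mulVec, ← Matrix.mulVec_mulVec]
    conv_lhs => rw [e2, Matrix.mulVec_add, hUfix k hk _ ((hUmem l).mp hl x)]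
    conv_rhs => rw [e1, Matrix.mulVec_add, hUfix l hl _ ((hUmem k).mp hk x)]
    abel
  have hcyc : ¬ IsCyclic U := by
    intro hc
    haveI : Fintype U := Fintype.ofFinite U
    have h1 : Fintype.card U ≤ p := by
      have h2 := IsCyclic.card_pow_eq_one_le (α := U) (n := p) hpp.out.pos
      have h3 : (Finset.univ.filter fun a : U => a ^ p = 1) = Finset.univ := by
        rw [Finset.filter_true_of_mem]
        intro a _
        exact Subtype.ext (hUpow a a.2)
      rw [h3, Finset.card_univ] at h2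
      exact h2
    have h2 : orderOf (⟨s1, hs1U⟩ : U) = p := orderOf_eq_prime (Subtype.ext (hUpow s1 hs1U)) (fun h => hs1ne (congrArg Subtype.val h))
    have h3 : (⟨s2, hs2U⟩ : U) ∈ Subgroup.zpowers (⟨s1, hs1U⟩ : U) := by
      have h4 : Subgroup.zpowers (⟨s1, hs1U⟩ : U) = ⊤ := by
        apply Subgroup.eq_top_of_le_card
        rw [Nat.card_zpowers, h2, Nat.card_eq_fintype_card]
        exact h1
      rw [h4]; exact Subgroup.mem_top _
    let S : Subgroup U :=
      { carrier := {k | ((((k : U) : K) : GL ι F) : Matrix ι ι F) *ᵥ emb F₀ d3 = emb F₀ d3}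
        mul_mem' := by
          intro a b ha hb
          change ((((a : K) : GL ι F) * ((b : K) : GL ι F) : GL ι F) : Matrix ι ι F) *ᵥ emb F₀ d3 = emb F₀ d3
          rw [Units.val_mul, ← Matrix.mulVec_mulVec, hb, ha]
        one_mem' := by
          change ((1 : GL ι F) : Matrix ι ι F) *ᵥ emb F₀ d3 = emb F₀ d3
          rw [Units.val_one, Matrix.one_mulVec]
        inv_mem' := by
          intro a ha
          change ((((a : K) : GL ι F)⁻¹ : GL ι F) : Matrix ι ι F) *ᵥ emb F₀ d3 = emb F₀ d3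
          have ha' : (((a : K) : GL ι F) : Matrix ι ι F) *ᵥ emb F₀ d3 = emb F₀ d3 := ha
          conv_lhs => rw [← ha']
          rw [inv_mulVec_mulVec] }
    have h5 : Subgroup.zpowers (⟨s1, hs1U⟩ : U) ≤ S := by
      rw [Subgroup.zpowers_le]
      change ((EM Q (emb F₀ b1) (emb F₀ b2) : GL ι F) : Matrix ι ι F) *ᵥ emb F₀ d3 = emb F₀ d3
      rw [EM_mulVec (D.q0 hb1) (D.b0 b12), D.b0 hb1d3, D.b0 hb2d3]
      simp
    have h6 : ((EM Q (emb F₀ b1) (emb F₀ b3) : GL ι F) : Matrix ι ι F) *ᵥ emb F₀ d3 = emb F₀ d3 := h5 h3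
    rw [EM_mulVec (D.q0 hb1) (D.b0 b13), D.b0 hb1d3, D.b1 hb3d3, D.q0 hb3, zero_smul, one_smul, zero_mul, zero_smul, sub_zero, add_zero] at h6
    exact emb_ne_zero F₀ hb10 (sub_eq_self.mp h6)
  have hfus : ∀ s ∈ U, s ≠ 1 → ∀ k : K, k * s * k⁻¹ ∈ U → k ∈ U := by
    intro s hs hs1 k hk
    obtain ⟨i, hi⟩ : ∃ i : ι, (((k * s * k⁻¹ : K) : GL ι F) : Matrix ι ι F) *ᵥ emb F₀ (Pi.single i 1) ≠ emb F₀ (Pi.single i 1) := by
      by_contra hall
      push Not at hall
      apply hs1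
      have h0 : k * s * k⁻¹ = 1 := by
        apply Subtype.ext
        apply gl_ext
        intro x
        have h3 : (((k * s * k⁻¹ : K) : GL ι F) : Matrix ι ι F) *ᵥ x = x := by
          conv_lhs => rw [rational_span (F₀ := F₀) x]
          conv_rhs => rw [rational_span (F₀ := F₀) x]
          rw [Matrix.mulVec_sum]
          exact Finset.sum_congr rfl fun i _ => by rw [Matrix.mulVec_smul, hall]
        rw [h3]; simp
      have h1 : s = k⁻¹ * (k * s * k⁻¹) * k := by group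
      rw [h1, h0]; group
    obtain ⟨t₀, ht₀⟩ := hUrat _ hk (Pi.single i 1)
    have ht0 : t₀ ≠ 0 := by
      rintro rfl
      apply hi
      rw [emb_zero] at ht₀
      exact sub_eq_zero.mp ht₀
    have ht₀T : emb F₀ t₀ ∈ T := by rw [← ht₀]; exact (hUmem _).mp hk _
    have hQt : Q₀ t₀ = 0 := by
      have := hTQ _ ht₀T
      rw [D.hc] at this
      exact Subtype.ext this
    have hpre : ∃ t ∈ T, emb F₀ t₀ = ((k : GL ι F) : Matrix ι ι F) *ᵥ t := by
      refine ⟨_, (hUmem s).mp hs ((((k : GL ι F)⁻¹ : GL ι F) : Matrix ι ι F) *ᵥ emb F₀ (Pi.single i 1)), ?_⟩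
      rw [← ht₀, Matrix.mulVec_sub, mulVec_inv_mulVec]
      rw [Subgroup.coe_mul, Subgroup.coe_mul, Subgroup.coe_inv, Units.val_mul, Units.val_mul, ← Matrix.mulVec_mulVec, ← Matrix.mulVec_mulVec]
    obtain ⟨t, htT, ht⟩ := hpre
    have hRat : Rat F₀ (k : GL ι F) := by
      refine D.RP_of k.2.1 (orth Q₀ (Submodule.span F₀ {x | x ∈ [b1, b2, b3]})) (by simpa using orth_list_ge D.hQ₀ [b1, b2, b3]) hQt ht0 ?_
      intro a ha
      have ha' := mem_orth_list.mp ha
      rw [ht, isoQ_polar (D.hMi k.2.1), bsymm]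
      exact hTperp _ (D.b0 (ha' b1 (by simp))) (D.b0 (ha' b2 (by simp))) (D.b0 (ha' b3 (by simp))) t htT
    exact (hUmem k).mpr (hstab0 k k.2 hRat)
  have hall := strongly_embedded_abelian U hUp hcyc hUcomm hfus
  have huW : u ∈ W := Submodule.mem_sup_right (mem_pair_left u v)
  have hvW : v ∈ W := Submodule.mem_sup_right (mem_pair_right u v)
  have htK : EM Q u v ∈ K := by
    refine ⟨huvM, fun x => ?_⟩
    rw [EM_mulVec hQu huv, hQv, zero_mul, zero_smul, sub_zero, add_sub_assoc, add_sub_cancel_left]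
    exact W.sub_mem (W.smul_mem _ hvW) (W.smul_mem _ huW)
  have hmove : ∀ x, B u x • v - B v x • u ∈ T := by
    intro x
    have h1 := (hUmem ⟨EM Q u v, htK⟩).mp (hall _) x
    change ((EM Q u v : GL ι F) : Matrix ι ι F) *ᵥ x - x ∈ T at h1
    rw [EM_mulVec hQu huv, hQv, zero_mul, zero_smul, sub_zero, add_sub_assoc, add_sub_cancel_left] at h1
    exact h1
  have huT : u ∈ T := by
    obtain ⟨x, hx, hne⟩ := orth_func D.hQ (Submodule.span F {u}) v hind
    have h1 := hmove x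
    rw [mem_orth_span.mp hx, zero_smul, zero_sub] at h1
    exact (T.smul_mem_iff hne).mp (T.neg_mem_iff.mp h1)
  have hvT : v ∈ T := by
    obtain ⟨x, hx, hne⟩ := orth_func D.hQ (Submodule.span F {v}) u (notmem_span_swap hu0 hind)
    have h1 := hmove x
    rw [mem_orth_span.mp hx, zero_smul, sub_zero] at h1
    exact (T.smul_mem_iff hne).mp h1
  exact hb10 (hgen b1 hb1 (hTT _ huT _ hb1T) (hTT _ hvT _ hb1T))

end Sg

end CfsgLib.OS29
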