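import Cfsg.Agent.LibOS29d

set_option autoImplicit false

/-! Orthogonal subfield groups are maximal in `Ω`. -/

namespace CfsgLib.OS29

open scoped MatrixGroups Matrix
open Cfsg CfsgLib.MaxTv29 CfsgLib.SympTv29 CfsgLib.Subfield29 CfsgLib.OM29 Cfsg.Agent.H22 Module

variable {ι : Type} [Fintype ι] [DecidableEq ι]
variable {F : Type*} [Field F] {F₀ : Subfield F} {Q : QuadraticForm F (ι → F)} {Q₀ : QuadraticForm F₀ (ι → F₀)}

local notation "B" => QuadraticMap.polar Q
local notation "B₀" => QuadraticMap.polar Q₀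

theorem o_maximal0 [Finite F] (hQ : (QuadraticMap.polarBilin Q).Nondegenerate) (hQ₀ : (QuadraticMap.polarBilin Q₀).Nondegenerate)
    (hc : ∀ x, Q (emb F₀ x) = (Q₀ x : F)) (h13 : 13 ≤ Fintype.card ι) (hr : (Module.finrank F₀ F).Prime) :
    Geo.IsMaximalIn (Geo.omegaGL ⇑Q) (((Matrix.GeneralLinearGroup.map (n := ι) (F₀.subtype : F₀ →+* F)).range ⊔ Geo.scalars ι F) ⊓ Geo.omegaGL ⇑Q) := by
  haveI : Fintype F := Fintype.ofFinite F
  have h5 : 5 ≤ finrank F (ι → F) := by rw [Module.finrank_fintype_fun_eq_card]; omega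
  obtain ⟨e, f, e', f', u', hs⟩ := exists_HS hQ h5
  have bc : ∀ x y : ι → F₀, B (emb F₀ x) (emb F₀ y) = (B₀ x y : F) := by
    intro x y
    unfold QuadraticMap.polar
    rw [← emb_add, hc, hc, hc]
    push_cast
    ring
  have hrt : ∀ (v w : ι → F₀), Q₀ v = 0 → B₀ v w = 0 → EM Q (emb F₀ v) (emb F₀ w) ∈
      ((Matrix.GeneralLinearGroup.map (n := ι) (F₀.subtype : F₀ →+* F)).range ⊔ Geo.scalars ι F) ⊓ Geo.omegaGL ⇑Q := by
    intro v w hv hvw
    have h1 : Q (emb F₀ v) = 0 := by rw [hc, hv]; rfl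
    have h2 : B (emb F₀ v) (emb F₀ w) = 0 := by rw [bc, hvw]; rfl
    refine ⟨(mem_rational_iff F₀ _).mpr ⟨1, one_ne_zero, fun x => ⟨x + B₀ v x • w - B₀ w x • v - (Q₀ w * B₀ v x) • v, ?_⟩⟩, EM_omega hQ hs h5 h1 h2⟩
    rw [one_smul, EM_mulVec h1 h2, bc, bc, hc]
    rfl
  refine ⟨⟨inf_le_right, fun hle => ?_⟩, fun M hHM hMK => ?_⟩
  · obtain ⟨c, hcF⟩ : ∃ c : F, c ∉ F₀ := by
      by_contra hcon
      push Not at hcon
      have h2 : Module.finrank F₀ F ≤ 1 := by
        apply finrank_le_one (1 : F)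
        intro w
        exact ⟨⟨w, hcon w⟩, by rw [Subfield.smul_def]; simp⟩
      have := hr.two_le
      omega
    obtain ⟨a, ha, _, haN⟩ := pick hQ₀ [] [] (by simp; omega)
    obtain ⟨b, hb, hb1, hbN⟩ := pick hQ₀ [a] [a] (by simp; omega)
    have hab := hb1 a (by simp)
    rw [span_list_single] at hbN
    have ha0 : a ≠ 0 := fun h => haN (by rw [h]; exact Submodule.zero_mem _)
    have hb0 : b ≠ 0 := fun h => hbN (by rw [h]; exact Submodule.zero_mem _)
    obtain ⟨z, hz, haz, hzb⟩ := partner hQ₀ [b] a (by rw [span_list_single]; exact notMem_span_symm ha0 hbN) (by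
      intro v hv
      rw [List.mem_singleton.mp hv, bsymm]; exact hab) ha
    have hbz := hzb b (by simp)
    have q1 : Q (c • emb F₀ a) = 0 := by rw [qsmul, hc, ha]; simp
    have p1 : B (c • emb F₀ a) (emb F₀ b) = 0 := by rw [QuadraticMap.polar_smul_left, bc, hab]; simp
    have h1 := hle (EM_omega hQ hs h5 q1 p1)
    obtain ⟨d, hd0, hd⟩ := (mem_rational_iff F₀ _).mp h1.1
    obtain ⟨y1, hy1⟩ := hd a
    obtain ⟨y2, hy2⟩ := hd z
    rw [EM_mulVec q1 p1, QuadraticMap.polar_smul_left, bc, bc, hc, hb, pself, ha, bsymm b a, hab] at hy1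
    rw [EM_mulVec q1 p1, QuadraticMap.polar_smul_left, bc, bc, hc, hb, haz, hbz] at hy2
    simp only [mul_zero, ZeroMemClass.coe_zero, smul_zero, zero_smul, add_zero, sub_zero, zero_mul, OneMemClass.coe_one, smul_eq_mul, mul_one] at hy1 hy2
    obtain ⟨i, hi⟩ := Function.ne_iff.mp ha0
    obtain ⟨j, hj⟩ := Function.ne_iff.mp hb0
    have hi' : (a i : F) ≠ 0 := fun h => hi (Subtype.ext h)
    have hj' : (b j : F) ≠ 0 := fun h => hj (Subtype.ext h)
    have e1 : d * (a i : F) = (y1 i : F) := congrFun hy1 i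
    have e2 : d * ((z j : F) + c * (b j : F)) = (y2 j : F) := congrFun hy2 j
    have e3 : d = (y1 i : F) / (a i : F) := by rw [← e1]; field_simp
    have hdF : d ∈ F₀ := by rw [e3]; exact F₀.div_mem (y1 i).2 (a i).2
    apply hcF
    have e4 : c = ((y2 j : F) / d - (z j : F)) / (b j : F) := by
      rw [← e2]; field_simp; ring
    rw [e4]
    exact F₀.div_mem (F₀.sub_mem (F₀.div_mem (y2 j).2 hdF) (z j).2) (b j).2
  · haveI := Subalgebra.isSimpleOrder_of_finrank_prime F₀ F hr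
    have D : Sd F₀ Q Q₀ M := ⟨hQ, hQ₀, hc, h13, fun v w hv hw => hHM (hrt v w hv hw), hMK.trans omegaGL_le_iso⟩
    rcases eq_bot_or_eq_top (coefO F₀ D) with h | h
    · left
      have D' : Sg F₀ Q Q₀ M := ⟨D, fun c hc' => by
        have h1 : c ∈ coefO F₀ D := hc'
        rw [h, Algebra.mem_bot] at h1
        obtain ⟨x, hx⟩ := h1
        rw [← hx]; exact x.2⟩
      refine le_antisymm (fun g hg => ⟨?_, hMK hg⟩) hHM
      exact (mem_rational_iff F₀ g).mpr (D'.all_rat_o hr hg)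
    · right
      refine le_antisymm hMK (D.top_of_all ?_)
      intro c a b ha hb hab
      have : c ∈ coefO F₀ D := by rw [h]; exact Algebra.mem_top
      exact this a b ha hb hab

/-- the pulled-back form -/
noncomputable def pull (Q : QuadraticForm F (ι → F)) (P : GL ι F) (ζ : F) : QuadraticForm F (ι → F) := ζ • Q.comp (Matrix.mulVecLin (P : Matrix ι ι F))

theorem pull_apply (P : GL ι F) (ζ : F) (x : ι → F) : pull Q P ζ x = ζ * Q ((P : Matrix ι ι F) *ᵥ x) := rfl

theorem pull_polar (P : GL ι F) (ζ : F) (x y : ι → F) : QuadraticMap.polar (pull Q P ζ) x y = ζ * B ((P : Matrix ι ι F) *ᵥ x) ((P : Matrix ι ι F) *ᵥ y) := by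
  unfold QuadraticMap.polar
  rw [pull_apply, pull_apply, pull_apply, Matrix.mulVec_add]; ring

theorem pull_nondeg (hQ : (QuadraticMap.polarBilin Q).Nondegenerate) (P : GL ι F) {ζ : F} (hζ : ζ ≠ 0) : (QuadraticMap.polarBilin (pull Q P ζ)).Nondegenerate := by
  apply nondeg_of_left
  intro x hx
  have h1 : (P : Matrix ι ι F) *ᵥ x = 0 := by
    apply hQ.1
    intro y
    have h2 := hx (((P⁻¹ : GL ι F) : Matrix ι ι F) *ᵥ y)
    rw [pull_polar, mulVec_inv_mulVec] at h2
    exact (mul_eq_zero.mp h2).resolve_left hζ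
  exact mulVec_injective P (h1.trans (Matrix.mulVec_zero _).symm)

theorem iso_pull (P : GL ι F) {ζ : F} (hζ : ζ ≠ 0) : (Cfsg.isometryGroup F ⇑(pull Q P ζ)).map (MulAut.conj P).toMonoidHom = Cfsg.isometryGroup F ⇑Q := by
  ext g
  rw [Subgroup.mem_map]
  constructor
  · rintro ⟨k, hk, rfl⟩
    rw [mem_isoQ] at hk ⊢
    intro x
    have h1 := hk (((P⁻¹ : GL ι F) : Matrix ι ι F) *ᵥ x)
    rw [pull_apply, pull_apply, mulVec_inv_mulVec] at h1
    have h2 := mul_left_cancel₀ hζ h1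
    change Q (((P * k * P⁻¹ : GL ι F) : Matrix ι ι F) *ᵥ x) = Q x
    rw [Units.val_mul, Units.val_mul, ← Matrix.mulVec_mulVec, ← Matrix.mulVec_mulVec]
    exact h2
  · intro hg
    refine ⟨P⁻¹ * g * P, ?_, by simp [mul_assoc]⟩
    rw [mem_isoQ] at hg ⊢
    intro x
    rw [pull_apply, pull_apply, Units.val_mul, Units.val_mul, ← Matrix.mulVec_mulVec, ← Matrix.mulVec_mulVec, mulVec_inv_mulVec, hg]

theorem omega_comm (Q : QuadraticForm F (ι → F)) : Geo.omegaGL ⇑Q = ⁅Cfsg.isometryGroup F ⇑Q, Cfsg.isometryGroup F ⇑Q⁆ := by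
  unfold Geo.omegaGL Cfsg.Omega
  exact Subgroup.map_subtype_commutator _

theorem omega_pull (P : GL ι F) {ζ : F} (hζ : ζ ≠ 0) : (Geo.omegaGL ⇑(pull Q P ζ)).map (MulAut.conj P).toMonoidHom = Geo.omegaGL ⇑Q := by
  rw [omega_comm, omega_comm, Subgroup.map_commutator, iso_pull P hζ]

theorem o_maximal [Finite F] (hQ : (QuadraticMap.polarBilin Q).Nondegenerate) (h13 : 13 ≤ Fintype.card ι) (hr : (Module.finrank F₀ F).Prime) (P : GL ι F) {ζ : F} (hζ : ζ ≠ 0)
    (hP : ∀ u : ι → F, (∀ i, u i ∈ F₀) → ζ * Q ((P : Matrix ι ι F) *ᵥ u) ∈ F₀) : Geo.IsMaximalIn (Geo.omegaGL ⇑Q) (Geo.subfieldSubgroup F₀ P ⊓ Geo.omegaGL ⇑Q) := by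
  have hQ' := pull_nondeg hQ P hζ
  have hq0 : ∀ x : ι → F₀, pull Q P ζ (emb F₀ x) ∈ F₀ := fun x => hP _ fun i => (x i).2
  have hp0 : ∀ x y : ι → F₀, QuadraticMap.polar (pull Q P ζ) (emb F₀ x) (emb F₀ y) ∈ F₀ := by
    intro x y
    unfold QuadraticMap.polar
    rw [← emb_add]
    exact F₀.sub_mem (F₀.sub_mem (hq0 _) (hq0 _)) (hq0 _)
  let Q₀ : QuadraticForm F₀ (ι → F₀) :=
    { toFun := fun x => ⟨pull Q P ζ (emb F₀ x), hq0 x⟩
      toFun_smul := fun a x => by
        apply Subtype.ext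
        change pull Q P ζ (emb F₀ (a • x)) = ((a * a : F₀) : F) * pull Q P ζ (emb F₀ x)
        rw [emb_smul, qsmul]; push_cast; ring
      exists_companion' := ⟨LinearMap.mk₂ F₀ (fun x y => ⟨QuadraticMap.polar (pull Q P ζ) (emb F₀ x) (emb F₀ y), hp0 x y⟩)
        (fun x x' y => Subtype.ext (by
          change QuadraticMap.polar (pull Q P ζ) (emb F₀ (x + x')) (emb F₀ y) = _
          rw [emb_add, QuadraticMap.polar_add_left]; rfl))
        (fun c x y => Subtype.ext (by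
          change QuadraticMap.polar (pull Q P ζ) (emb F₀ (c • x)) (emb F₀ y) = _
          rw [emb_smul, QuadraticMap.polar_smul_left]; rfl))
        (fun x y y' => Subtype.ext (by
          change QuadraticMap.polar (pull Q P ζ) (emb F₀ x) (emb F₀ (y + y')) = _
          rw [emb_add, QuadraticMap.polar_add_right]; rfl))
        (fun c x y => Subtype.ext (by
          change QuadraticMap.polar (pull Q P ζ) (emb F₀ x) (emb F₀ (c • y)) = _
          rw [emb_smul, QuadraticMap.polar_smul_right]; rfl)), fun x y => by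
        apply Subtype.ext
        change pull Q P ζ (emb F₀ (x + y)) = pull Q P ζ (emb F₀ x) + pull Q P ζ (emb F₀ y) + QuadraticMap.polar (pull Q P ζ) (emb F₀ x) (emb F₀ y)
        rw [emb_add, qadd]⟩ }
  have hc : ∀ x, pull Q P ζ (emb F₀ x) = (Q₀ x : F) := fun _ => rfl
  have hQ₀ : (QuadraticMap.polarBilin Q₀).Nondegenerate := by
    apply nondeg_of_left
    intro x hx
    by_contra hx0
    apply emb_ne_zero F₀ hx0
    apply hQ'.1
    intro y
    have h1 : (QuadraticMap.polarBilin (pull Q P ζ) (emb F₀ x)) y = 0 := by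
      rw [rational_span (F₀ := F₀) y, map_sum]
      apply Finset.sum_eq_zero
      intro i _
      rw [map_smul, QuadraticMap.polarBilin_apply_apply]
      have h2 : QuadraticMap.polar (pull Q P ζ) (emb F₀ x) (emb F₀ (Pi.single i 1)) = ((QuadraticMap.polar Q₀ x (Pi.single i 1) : F₀) : F) := by
        unfold QuadraticMap.polar
        rw [← emb_add, hc, hc, hc]
        push_cast
        ring
      rw [h2, hx]; simp
    exact h1
  have h1 := isMaximalIn_map (MulAut.conj P) (o_maximal0 hQ' hQ₀ hc h13 hr)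
  rw [Subgroup.map_inf _ _ _ (MulAut.conj P).injective, omega_pull P hζ] at h1
  exact h1

end CfsgLib.OS29
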