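import Mathlib
import Cfsg.Agent.EqBase
import Cfsg.Agent.LibBrP4
import Cfsg.Agent.LibBrP20

/-!
# Blocks of minimal dimension, I: double cosets (helper18)
-/

set_option autoImplicit false
set_option linter.unusedSectionVars false
set_option linter.style.haveILetI false
set_option linter.unusedSimpArgs false
set_option linter.unusedVariables false

namespace CfsgLib.OT

open CfsgLib.BrP

section Fixed

variable {k : Type*} [Field k] {p : ℕ} [hp : Fact p.Prime] [CharP k p]

/-- a nonzero function on a finite set with an action of a `p`-group: an invariant function in the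
additive span of the translates -/
theorem fixed_fun {Γ X : Type*} [Group Γ] [Finite Γ] [MulAction Γ X] (hΓ : IsPGroup p Γ)
    {t : X → k} (ht : t ≠ 0) (C : (X → k) → Prop) (hC : ∀ γ : Γ, C (fun x => t (γ⁻¹ • x)))
    (hC0 : C 0) (hCadd : ∀ a b, C a → C b → C (a + b)) (hCneg : ∀ a, C a → C (-a)) :
    ∃ v : X → k, v ≠ 0 ∧ C v ∧ ∀ (γ : Γ) (x : X), v (γ • x) = v x := by
  classical
  let S : Set (X → k) := Set.range (fun γ : Γ => fun x => t (γ⁻¹ • x))
  let W := AddSubgroup.closure S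
  haveI hSfin : Finite S := Set.finite_range _
  haveI : AddGroup.FG W := AddGroup.closure_finite_fg S
  have htor : ∀ w : X → k, p • w = 0 := by
    intro w
    funext x
    rw [Pi.smul_apply, nsmul_eq_mul, CharP.cast_eq_zero, zero_mul]
    rfl
  haveI : Finite W := by
    apply AddCommGroup.finite_of_fg_isAddTorsion
    intro w
    rw [isOfFinAddOrder_iff_nsmul_eq_zero]
    exact ⟨p, hp.out.pos, Subtype.ext (htor w)⟩
  have hinv : ∀ (γ : Γ) (w : X → k), w ∈ W → (fun x => w (γ⁻¹ • x)) ∈ W := by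
    intro γ w hw
    induction hw using AddSubgroup.closure_induction with
    | mem x hx =>
      obtain ⟨δ, rfl⟩ := hx
      apply AddSubgroup.subset_closure
      refine ⟨γ * δ, ?_⟩
      funext x
      show t ((γ * δ)⁻¹ • x) = t (δ⁻¹ • γ⁻¹ • x)
      rw [mul_inv_rev, mul_smul]
    | zero => exact AddSubgroup.zero_mem _
    | add x y _ _ hx hy => exact AddSubgroup.add_mem _ hx hy
    | neg x _ hx => exact AddSubgroup.neg_mem _ hx
  have hCW : ∀ w : X → k, w ∈ W → C w := by
    intro w hw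
    induction hw using AddSubgroup.closure_induction with
    | mem x hx =>
      obtain ⟨δ, rfl⟩ := hx
      exact hC δ
    | zero => exact hC0
    | add x y _ _ hx hy => exact hCadd _ _ hx hy
    | neg x _ hx => exact hCneg _ hx
  letI : MulAction Γ W :=
    { smul := fun γ w => ⟨fun x => (w : X → k) (γ⁻¹ • x), hinv γ w w.2⟩
      one_smul := fun w => Subtype.ext (by
        funext x
        show (w : X → k) ((1 : Γ)⁻¹ • x) = (w : X → k) x
        rw [inv_one, one_smul])
      mul_smul := fun γ δ w => Subtype.ext (by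
        funext x
        show (w : X → k) ((γ * δ)⁻¹ • x) = (w : X → k) (δ⁻¹ • γ⁻¹ • x)
        rw [mul_inv_rev, mul_smul]) }
  have htW : t ∈ W := by
    apply AddSubgroup.subset_closure
    refine ⟨1, ?_⟩
    funext x
    show t ((1 : Γ)⁻¹ • x) = t x
    rw [inv_one, one_smul]
  have hpW : p ∣ Nat.card W := by
    have h1 : addOrderOf (⟨t, htW⟩ : W) = p := by
      apply addOrderOf_eq_prime
      · exact Subtype.ext (htor t)
      · intro h; exact ht (congrArg Subtype.val h)
    rw [← h1]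
    exact addOrderOf_dvd_natCard _
  have h2 := hΓ.card_modEq_card_fixedPoints W
  have h3 : p ∣ Nat.card (MulAction.fixedPoints Γ W) :=
    (Nat.modEq_zero_iff_dvd).1 (h2.symm.trans ((Nat.modEq_zero_iff_dvd).2 hpW))
  have h0mem : (0 : W) ∈ MulAction.fixedPoints Γ W := by
    intro u
    apply Subtype.ext
    rfl
  haveI : Nonempty (MulAction.fixedPoints Γ W) := ⟨⟨0, h0mem⟩⟩
  have h4 : 1 < Nat.card (MulAction.fixedPoints Γ W) :=
    lt_of_lt_of_le hp.out.one_lt (Nat.le_of_dvd Nat.card_pos h3)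
  rw [Finite.one_lt_card_iff_nontrivial] at h4
  obtain ⟨w, hw⟩ := exists_ne (⟨0, h0mem⟩ : MulAction.fixedPoints Γ W)
  refine ⟨(w : W), fun h => hw (Subtype.ext (Subtype.ext h)), hCW _ (w : W).2, fun u x => ?_⟩
  have h5 := congrArg Subtype.val (w.2 u⁻¹)
  have h6 : (fun x => ((w : W) : X → k) (u⁻¹⁻¹ • x)) = ((w : W) : X → k) := h5
  have h7 := congrFun h6 x
  rw [inv_inv] at h7
  exact h7

end Fixed

section Act

variable {G : Type*} [Group G]

/-- left and right multiplication -/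
def lrAct (P : Subgroup G) : MulAction (P × P) G where
  smul a g := (a.1 : G) * g * (a.2 : G)⁻¹
  one_smul g := by
    show ((1 : P) : G) * g * ((1 : P) : G)⁻¹ = g
    rw [Subgroup.coe_one, one_mul, inv_one, mul_one]
  mul_smul a b g := by
    show ((a.1 * b.1 : P) : G) * g * ((a.2 * b.2 : P) : G)⁻¹ =
      (a.1 : G) * ((b.1 : G) * g * (b.2 : G)⁻¹) * (a.2 : G)⁻¹
    push_cast
    group

/-- the double coset -/
def DC (P : Subgroup G) (y : G) : Set G := {g | ∃ x ∈ P, ∃ z ∈ P, g = x * y * z}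

theorem mem_DC_self (P : Subgroup G) (y : G) : y ∈ DC P y :=
  ⟨1, P.one_mem, 1, P.one_mem, by rw [one_mul, mul_one]⟩

theorem DC_mul {P : Subgroup G} {y g x z : G} (hx : x ∈ P) (hz : z ∈ P) :
    x * g * z ∈ DC P y ↔ g ∈ DC P y := by
  constructor
  · rintro ⟨a, ha, b, hb, h⟩
    refine ⟨x⁻¹ * a, P.mul_mem (P.inv_mem hx) ha, b * z⁻¹, P.mul_mem hb (P.inv_mem hz), ?_⟩
    calc g = x⁻¹ * (x * g * z) * z⁻¹ := by group
      _ = x⁻¹ * (a * y * b) * z⁻¹ := by rw [h]
      _ = x⁻¹ * a * y * (b * z⁻¹) := by group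
  · rintro ⟨a, ha, b, hb, rfl⟩
    exact ⟨x * a, P.mul_mem hx ha, b * z, P.mul_mem hb hz, by group⟩

theorem card_DC [Finite G] (P : Subgroup G) (y : G) :
    Nat.card (DC P y) * Nat.card (P ⊓ cS y P : Subgroup G) = Nat.card P * Nat.card P := by
  classical
  haveI := Fintype.ofFinite G
  letI := lrAct P
  have h1 := MulAction.card_orbit_mul_card_stabilizer_eq_card_group (P × P) y
  have h2 : Nat.card (P × P) = Nat.card P * Nat.card P := Nat.card_prod _ _
  have hsm : ∀ (a : P × P) (g : G), a • g = (a.1 : G) * g * (a.2 : G)⁻¹ := fun _ _ => rfl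
  have h3 : Nat.card (MulAction.orbit (P × P) y) = Nat.card (DC P y) := by
    have : MulAction.orbit (P × P) y = DC P y := by
      ext g
      constructor
      · rintro ⟨a, rfl⟩
        exact ⟨a.1, a.1.2, (a.2 : G)⁻¹, P.inv_mem a.2.2, rfl⟩
      · rintro ⟨x, hx, z, hz, rfl⟩
        refine ⟨(⟨x, hx⟩, ⟨z⁻¹, P.inv_mem hz⟩), ?_⟩
        show (x : G) * y * (z⁻¹)⁻¹ = _
        rw [inv_inv]
    rw [this]
  have h4 : Nat.card (MulAction.stabilizer (P × P) y) = Nat.card (P ⊓ cS y P : Subgroup G) := by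
    refine Nat.card_congr ⟨fun a => ⟨(a.1.1 : G), ?_⟩, fun r =>
      ⟨(⟨(r : G), r.2.1⟩, ⟨y⁻¹ * r * y, mem_cS.1 r.2.2⟩), ?_⟩, ?_, ?_⟩
    · have h5 : (a.1.1 : G) * y * (a.1.2 : G)⁻¹ = y := a.2
      refine ⟨a.1.1.2, mem_cS.2 ?_⟩
      have h6 : y⁻¹ * (a.1.1 : G) * y = a.1.2 := by
        calc y⁻¹ * (a.1.1 : G) * y = y⁻¹ * ((a.1.1 : G) * y * (a.1.2 : G)⁻¹) * a.1.2 := by group
          _ = a.1.2 := by rw [h5]; group
      rw [h6]; exact a.1.2.2
    · rw [MulAction.mem_stabilizer_iff, hsm]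
      show (r : G) * y * (y⁻¹ * r * y)⁻¹ = y
      group
    · intro a
      have h5 : (a.1.1 : G) * y * (a.1.2 : G)⁻¹ = y := a.2
      apply Subtype.ext
      refine Prod.ext rfl (Subtype.ext ?_)
      show y⁻¹ * (a.1.1 : G) * y = a.1.2
      calc y⁻¹ * (a.1.1 : G) * y = y⁻¹ * ((a.1.1 : G) * y * (a.1.2 : G)⁻¹) * a.1.2 := by group
        _ = a.1.2 := by rw [h5]; group
    · intro r; rfl
  rw [← h2, ← h3, ← h4]
  simpa only [Nat.card_eq_fintype_card] using h1

end Act

section Main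

variable {k : Type*} [Field k] {G : Type*} [Group G] [Fintype G]
variable {p : ℕ} [hp : Fact p.Prime] [CharP k p]

open Classical in
/-- sum of the elements of a set -/
noncomputable def ss (k : Type*) [Field k] {G : Type*} [Group G] [Fintype G] (S : Set G) :
    MonoidAlgebra k G := mk fun g => if g ∈ S then 1 else 0

theorem ss_of {S : Set G} {g : G} (h : g ∈ S) : (ss k S).coeff g = 1 := by
  classical
  unfold ss; rw [mk_coeff]; exact if_pos h

theorem ss_not {S : Set G} {g : G} (h : g ∉ S) : (ss k S).coeff g = 0 := by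
  classical
  unfold ss; rw [mk_coeff]; exact if_neg h

theorem sg_mul_coeff' (x : G) (a : MonoidAlgebra k G) (g : G) :
    (MonoidAlgebra.single x (1 : k) * a).coeff g = a.coeff (x⁻¹ * g) := single_mul_coeff x a g

theorem mul_sg_coeff' (x : G) (a : MonoidAlgebra k G) (g : G) :
    (a * MonoidAlgebra.single x (1 : k)).coeff g = a.coeff (g * x⁻¹) := by
  classical
  rw [mul_coeff, Finset.sum_eq_single (g * x⁻¹)]
  · rw [MonoidAlgebra.coeff_single, Finsupp.single_apply, if_pos (by group), mul_one]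
  · intro b _ hb
    rw [MonoidAlgebra.coeff_single, Finsupp.single_apply, if_neg, mul_zero]
    intro h
    apply hb
    rw [h]; group
  · intro h; exact absurd (Finset.mem_univ _) h

/-- `b P̂ ≠ 0` -/
theorem mul_hat_ne {P : Subgroup G} (hP : IsPGroup p P) {b : MonoidAlgebra k G} (hb : IsBlk ⊤ b) :
    b * ss k (P : Set G) ≠ 0 := by
  classical
  intro h0
  -- right action of `P`
  letI : MulAction P G :=
    { smul := fun z g => g * (z : G)⁻¹
      one_smul := fun g => by
        show g * ((1 : P) : G)⁻¹ = g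
        rw [Subgroup.coe_one, inv_one, mul_one]
      mul_smul := fun z w g => by
        show g * ((z * w : P) : G)⁻¹ = g * (w : G)⁻¹ * (z : G)⁻¹
        push_cast; group }
  obtain ⟨v, hv0, hv1, hv2⟩ := fixed_fun (Γ := P) (X := G) hP (t := fun g => b.coeff g)
    (fun h => hb.ne (ext' fun g => congrFun h g))
    (fun v => b * mk v = mk v) (fun γ => by
      have h1 : (mk (fun x => b.coeff (γ⁻¹ • x)) : MonoidAlgebra k G) =
          b * MonoidAlgebra.single ((γ : G)⁻¹) 1 := by
        apply ext'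
        intro g
        rw [mul_sg_coeff', mk_coeff, inv_inv]
        show b.coeff (g * ((γ⁻¹ : P) : G)⁻¹) = _
        rw [Subgroup.coe_inv, inv_inv]
      rw [h1, ← mul_assoc, hb.idem])
    (by
      have : (mk (0 : G → k) : MonoidAlgebra k G) = 0 := ext' fun g => rfl
      rw [this, mul_zero])
    (fun a c ha hc => by
      have : (mk (a + c) : MonoidAlgebra k G) = mk a + mk c := ext' fun g => rfl
      rw [this, mul_add, ha, hc])
    (fun a ha => by
      have : (mk (-a) : MonoidAlgebra k G) = -mk a := ext' fun g => rfl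
      rw [this, mul_neg, ha])
  have hv3 : ∀ (z : G) (hz : z ∈ P) (g : G), v (g * z) = v g := by
    intro z hz g
    have h1 := hv2 ⟨z⁻¹, P.inv_mem hz⟩ g
    have h2 : v (g * (z⁻¹)⁻¹) = v g := h1
    rwa [inv_inv] at h2
  -- v = v' P̂
  let rep : G → G := fun g => Quotient.out (g : G ⧸ P)
  have hrep : ∀ g, (rep g : G)⁻¹ * g ∈ P := fun g =>
    QuotientGroup.eq.1 (Quotient.out_eq (g : G ⧸ P))
  have hrep2 : ∀ g h : G, g⁻¹ * h ∈ P → rep g = rep h := by
    intro g h hgh
    have : (g : G ⧸ P) = (h : G ⧸ P) := QuotientGroup.eq.2 hgh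
    show Quotient.out (g : G ⧸ P) = Quotient.out (h : G ⧸ P)
    rw [this]
  let v' : G → k := fun g => if rep g = g then v g else 0
  have hv' : mk v = mk v' * ss k (P : Set G) := by
    apply ext'
    intro x
    rw [mul_coeff, mk_coeff, Finset.sum_eq_single (rep x)]
    · rw [ss_of (hrep x), mul_one, mk_coeff]
      have h1 : rep (rep x) = rep x := hrep2 _ _ (hrep x)
      show v x = if rep (rep x) = rep x then v (rep x) else 0
      rw [if_pos h1]
      have h2 := hv3 _ (hrep x) (rep x)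
      rw [mul_inv_cancel_left] at h2
      exact h2
    · intro g _ hg
      by_cases hgx : g⁻¹ * x ∈ (P : Set G)
      · rw [mk_coeff]
        show (if rep g = g then v g else 0) * _ = 0
        rw [if_neg, zero_mul]
        intro h3
        exact hg (h3 ▸ hrep2 _ _ hgx)
      · rw [ss_not hgx, mul_zero]
    · intro h; exact absurd (Finset.mem_univ _) h
  apply hv0
  have h4 : b * mk v' = mk v' * b := comm_of_fx_supp (H := ⊤) hb.zh.2 (supp_top _)
  have h5 : (mk v : MonoidAlgebra k G) = 0 := by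
    rw [← hv1, hv', ← mul_assoc, h4, mul_assoc, h0, mul_zero]
  funext g
  exact congrArg (fun a : MonoidAlgebra k G => a.coeff g) h5

/-- decomposition of a two-sided invariant element -/
theorem exists_orbit {P : Subgroup G} {w b : MonoidAlgebra k G}
    (hw : ∀ x ∈ P, ∀ z ∈ P, ∀ g, w.coeff (x * g * z) = w.coeff g) (hbw : b * w ≠ 0) :
    ∃ g, w.coeff g ≠ 0 ∧ b * ss k (DC P g) ≠ 0 := by
  classical
  by_contra hcon
  push Not at hcon
  apply hbw
  let r : Setoid G :=
    { r := fun a c => c ∈ DC P a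
      iseqv := ⟨fun a => mem_DC_self P a,
        fun {a c} h => by
          obtain ⟨x, hx, z, hz, rfl⟩ := h
          exact ⟨x⁻¹, P.inv_mem hx, z⁻¹, P.inv_mem hz, by group⟩,
        fun {a c d} h h' => by
          obtain ⟨x, hx, z, hz, rfl⟩ := h
          obtain ⟨x', hx', z', hz', rfl⟩ := h'
          exact ⟨x' * x, P.mul_mem hx' hx, z * z', P.mul_mem hz hz', by group⟩⟩ }
  have hr : ∀ a c : G, r a c ↔ c ∈ DC P a := fun _ _ => Iff.rfl
  have h1 : w = ∑ o : Quotient r, w.coeff (Quotient.out o) • ss k (DC P (Quotient.out o)) := by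
    apply ext'
    intro g
    rw [sum_coeff, Finset.sum_eq_single (Quotient.mk r g)]
    · have h2 : g ∈ DC P (Quotient.out (Quotient.mk r g)) :=
        (hr _ _).1 (Quotient.exact (Quotient.out_eq (Quotient.mk r g)))
      rw [smul_coeff, ss_of h2, mul_one]
      obtain ⟨x, hx, z, hz, h3⟩ := h2
      conv_lhs => rw [h3]
      rw [hw x hx z hz]
    · intro o _ ho
      rw [smul_coeff, ss_not, mul_zero]
      intro h2
      apply ho
      rw [← Quotient.out_eq o]
      exact Quotient.sound ((hr _ _).2 h2)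
    · intro h; exact absurd (Finset.mem_univ _) h
  rw [h1, Finset.mul_sum]
  refine Finset.sum_eq_zero fun o _ => ?_
  rw [mul_smul_comm]
  by_cases h2 : w.coeff (Quotient.out o) = 0
  · rw [h2, zero_smul]
  · rw [hcon _ h2, smul_zero]

/-- existence of a good element -/
theorem exists_y {P : Subgroup G} (hP : IsPGroup p P) {b : MonoidAlgebra k G} (hb : IsBlk ⊤ b) :
    ∃ y, b.coeff y ≠ 0 ∧ (∀ r ∈ P, y⁻¹ * r * y ∈ P → r * y = y * r) ∧
      b * ss k (DC P y) ≠ 0 := by
  classical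
  have hcen : ∀ a : MonoidAlgebra k G, b * a = a * b := fun a =>
    comm_of_fx_supp (H := ⊤) hb.zh.2 (supp_top _)
  have hbfx : ∀ x g, b.coeff (x * g * x⁻¹) = b.coeff g := fun x g =>
    hb.zh.2 x (Subgroup.mem_top x) g
  set w : MonoidAlgebra k G := b * ss k (P : Set G) with hw
  have hw0 : w ≠ 0 := mul_hat_ne hP hb
  have hbw : b * w = w := by rw [hw, ← mul_assoc, hb.idem]
  have hwc : ∀ g, w.coeff g = ∑ h : G, if h⁻¹ * g ∈ P then b.coeff h else 0 := by
    intro g
    rw [hw, mul_coeff]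
    refine Finset.sum_congr rfl fun h _ => ?_
    by_cases hh : h⁻¹ * g ∈ P
    · rw [ss_of (show h⁻¹ * g ∈ (P : Set G) from hh), mul_one, if_pos hh]
    · rw [ss_not (show h⁻¹ * g ∉ (P : Set G) from hh), mul_zero, if_neg hh]
  have hwr : ∀ z ∈ P, ∀ g, w.coeff (g * z) = w.coeff g := by
    intro z hz g
    rw [hwc, hwc]
    refine Finset.sum_congr rfl fun h _ => ?_
    have : h⁻¹ * (g * z) ∈ P ↔ h⁻¹ * g ∈ P := by
      rw [← mul_assoc]; exact P.mul_mem_cancel_right hz
    simp only [this]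
  have hwcj : ∀ x ∈ P, ∀ g, w.coeff (x * g * x⁻¹) = w.coeff g := by
    intro x hx g
    rw [hwc, hwc, ← Equiv.sum_comp (MulAut.conj x).toEquiv]
    refine Finset.sum_congr rfl fun h _ => ?_
    have e0 : (MulAut.conj x).toEquiv h = x * h * x⁻¹ := rfl
    rw [e0, hbfx]
    have : (x * h * x⁻¹)⁻¹ * (x * g * x⁻¹) ∈ P ↔ h⁻¹ * g ∈ P := by
      have e1 : (x * h * x⁻¹)⁻¹ * (x * g * x⁻¹) = x * (h⁻¹ * g) * x⁻¹ := by group
      rw [e1, P.mul_mem_cancel_right (P.inv_mem hx), P.mul_mem_cancel_left hx]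
    simp only [this]
  have hwi : ∀ x ∈ P, ∀ z ∈ P, ∀ g, w.coeff (x * g * z) = w.coeff g := by
    intro x hx z hz g
    have e1 : x * g * z = x * g * x⁻¹ * (x * z) := by group
    rw [e1, hwr _ (P.mul_mem hx hz), hwcj x hx]
  obtain ⟨g, hg0, hg1⟩ := exists_orbit (b := b) hwi (by rw [hbw]; exact hw0)
  -- fixed points
  let R : Subgroup G := P ⊓ cS g P
  have hR : IsPGroup p R := hP.to_le inf_le_left
  letI : MulAction R G := MulAction.compHom G ((MulAut.conj (G := G)).comp R.subtype)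
  have hsm : ∀ (u : R) (x : G), u • x = (u : G) * x * (u : G)⁻¹ := fun u x => rfl
  rw [hwc, sum_fixed (k := k) hR (fun h => if h⁻¹ * g ∈ P then b.coeff h else 0)] at hg0
  · obtain ⟨y, hy, hy1⟩ := Finset.exists_ne_zero_of_sum_ne_zero hg0
    have hyf := (Finset.mem_filter.1 hy).2
    have hyP : y⁻¹ * g ∈ P := by
      by_contra h
      exact hy1 (if_neg h)
    rw [if_pos hyP] at hy1
    refine ⟨y, hy1, ?_, ?_⟩
    · intro r hr hry
      have hrR : r ∈ R := by
        refine ⟨hr, mem_cS.2 ?_⟩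
        have e1 : g⁻¹ * r * g = (y⁻¹ * g)⁻¹ * (y⁻¹ * r * y) * (y⁻¹ * g) := by group
        rw [e1]
        exact P.mul_mem (P.mul_mem (P.inv_mem hyP) hry) hyP
      have h1 : (⟨r, hrR⟩ : R) • y = y := hyf ⟨r, hrR⟩
      rw [hsm] at h1
      calc r * y = (r * y * r⁻¹) * r := by group
        _ = y * r := by rw [h1]
    · have : DC P y = DC P g := by
        ext x
        have hg' : g = 1 * y * (y⁻¹ * g) := by group
        have hgy : g ∈ DC P y := ⟨1, P.one_mem, y⁻¹ * g, hyP, hg'⟩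
        constructor
        · rintro ⟨a, ha, c, hc, rfl⟩
          refine ⟨a, ha, (y⁻¹ * g)⁻¹ * c, P.mul_mem (P.inv_mem hyP) hc, ?_⟩
          group
        · rintro ⟨a, ha, c, hc, rfl⟩
          refine ⟨a, ha, (y⁻¹ * g) * c, P.mul_mem hyP hc, ?_⟩
          group
      rw [this]; exact hg1
  · intro u h
    have hu1 : (u : G) ∈ P := u.2.1
    have hu2 : g⁻¹ * (u : G) * g ∈ P := mem_cS.1 u.2.2
    rw [hsm, hbfx]
    have : ((u : G) * h * (u : G)⁻¹)⁻¹ * g ∈ P ↔ h⁻¹ * g ∈ P := by
      have e1 : ((u : G) * h * (u : G)⁻¹)⁻¹ * g = (u : G) * (h⁻¹ * g) * (g⁻¹ * (u : G) * g)⁻¹ := by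
        group
      rw [e1, P.mul_mem_cancel_right (P.inv_mem hu2), P.mul_mem_cancel_left hu1]
    simp only [this]

/-- injectivity on the double coset -/
theorem inj_DC {P : Subgroup G} (hP : IsPGroup p P) {b : MonoidAlgebra k G} (hb : IsBlk ⊤ b)
    {y : G} (hy : b * ss k (DC P y) ≠ 0) {s : MonoidAlgebra k G}
    (hs : ∀ g, g ∉ DC P y → s.coeff g = 0) (hbs : b * s = 0) : s = 0 := by
  classical
  by_contra hs0
  letI := lrAct P
  have hPP : IsPGroup p (P × P) := by
    intro x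
    obtain ⟨i, hi⟩ := hP x.1
    obtain ⟨j, hj⟩ := hP x.2
    refine ⟨i + j, Prod.ext ?_ ?_⟩
    · show x.1 ^ p ^ (i + j) = 1
      rw [pow_add, pow_mul, hi, one_pow]
    · show x.2 ^ p ^ (i + j) = 1
      rw [pow_add, mul_comm, pow_mul, hj, one_pow]
  have hcen : ∀ a : MonoidAlgebra k G, b * a = a * b := fun a =>
    comm_of_fx_supp (H := ⊤) hb.zh.2 (supp_top _)
  obtain ⟨v, hv0, ⟨hv1, hv2⟩, hv3⟩ := fixed_fun (Γ := P × P) (X := G) hPP
    (t := fun g => s.coeff g) (fun h => hs0 (ext' fun g => congrFun h g))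
    (fun v => (∀ g, g ∉ DC P y → v g = 0) ∧ b * mk v = 0)
    (fun γ => by
      refine ⟨fun g hg => ?_, ?_⟩
      · apply hs
        intro h
        apply hg
        have h1 : (γ.1⁻¹ : P) * g * (γ.2⁻¹ : P)⁻¹ ∈ DC P y := h
        exact (DC_mul (γ.1⁻¹ : P).2 (P.inv_mem (γ.2⁻¹ : P).2)).1 h1
      · have h1 : (mk (fun x => s.coeff (γ⁻¹ • x)) : MonoidAlgebra k G) =
            MonoidAlgebra.single (γ.1 : G) 1 * s * MonoidAlgebra.single ((γ.2 : G)⁻¹) 1 := by
          apply ext'
          intro g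
          rw [mul_sg_coeff', sg_mul_coeff', mk_coeff, inv_inv]
          show s.coeff (((γ.1⁻¹ : P) : G) * g * ((γ.2⁻¹ : P) : G)⁻¹) = _
          rw [Subgroup.coe_inv, Subgroup.coe_inv, inv_inv, mul_assoc]
        rw [h1, ← mul_assoc, ← mul_assoc, hcen (MonoidAlgebra.single (γ.1 : G) 1),
          mul_assoc (MonoidAlgebra.single (γ.1 : G) (1 : k)), hbs, mul_zero, zero_mul])
    ⟨fun _ _ => rfl, by
      have : (mk (0 : G → k) : MonoidAlgebra k G) = 0 := ext' fun g => rfl
      rw [this, mul_zero]⟩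
    (fun a c ha hc => ⟨fun g hg => by rw [Pi.add_apply, ha.1 g hg, hc.1 g hg, add_zero], by
      have : (mk (a + c) : MonoidAlgebra k G) = mk a + mk c := ext' fun g => rfl
      rw [this, mul_add, ha.2, hc.2, add_zero]⟩)
    (fun a ha => ⟨fun g hg => by rw [Pi.neg_apply, ha.1 g hg, neg_zero], by
      have : (mk (-a) : MonoidAlgebra k G) = -mk a := ext' fun g => rfl
      rw [this, mul_neg, ha.2, neg_zero]⟩)
  have hv4 : ∀ g ∈ DC P y, v g = v y := by
    rintro g ⟨x, hx, z, hz, rfl⟩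
    have h1 := hv3 (⟨x, hx⟩, ⟨z⁻¹, P.inv_mem hz⟩) y
    have h2 : v (x * y * (z⁻¹)⁻¹) = v y := h1
    rwa [inv_inv] at h2
  have hv5 : (mk v : MonoidAlgebra k G) = v y • ss k (DC P y) := by
    apply ext'
    intro g
    rw [mk_coeff, smul_coeff]
    by_cases hg : g ∈ DC P y
    · rw [hv4 g hg, ss_of hg, mul_one]
    · rw [hv1 g hg, ss_not hg, mul_zero]
  have hvy : v y ≠ 0 := by
    intro h0
    apply hv0
    funext g
    by_cases hg : g ∈ DC P y
    · rw [hv4 g hg, h0]; rfl
    · rw [hv1 g hg]; rfl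
  rw [hv5, mul_smul_comm] at hv2
  rcases smul_eq_zero.1 hv2 with h | h
  · exact hvy h
  · exact hy h

end Main

end CfsgLib.OT
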