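import Mathlib
import Cfsg.Agent.EqBase
import Cfsg.Agent.LibOT1
import Cfsg.Agent.LibStar37

/-!
# Blocks of minimal dimension, II (helper18)
-/

set_option autoImplicit false
set_option linter.unusedSectionVars false
set_option linter.style.haveILetI false
set_option linter.unusedSimpArgs false
set_option linter.unusedVariables false

universe u

namespace CfsgLib.OT

open Cfsg CfsgLib.BrP CfsgLib.Star CfsgLib.LocR CfsgLib.BlockCore CfsgLib.BlockIdem CfsgLib.BlockR
  CfsgLib.BlockOrth CfsgLib.CharBasic CfsgLib.Points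

section Span

variable {k : Type*} [Field k] {G : Type*} [Group G] [Fintype G]
variable {p : ℕ} [hp : Fact p.Prime] [CharP k p]

/-- the elements `b g` with `g` in the double coset span `kG b` for dimension reasons -/
theorem span_DC {P : Subgroup G} (hP : IsPGroup p P) {b : MonoidAlgebra k G} (hb : IsBlk ⊤ b)
    {y : G} (hy : b * ss k (DC P y) ≠ 0)
    (hdim : Module.finrank k (CA k hb.idem) ≤ Nat.card (DC P y)) {v : MonoidAlgebra k G}
    (hv : b * v = v) : ∃ s : MonoidAlgebra k G, (∀ g, g ∉ DC P y → s.coeff g = 0) ∧ b * s = v := by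
  classical
  have hcen : ∀ a : MonoidAlgebra k G, b * a = a * b := fun a =>
    comm_of_fx_supp (H := ⊤) hb.zh.2 (supp_top _)
  let ex : (DC P y → k) → MonoidAlgebra k G := fun s => mk fun g =>
    if h : g ∈ DC P y then s ⟨g, h⟩ else 0
  have hex : ∀ s g, (ex s).coeff g = if h : g ∈ DC P y then s ⟨g, h⟩ else 0 := fun _ _ => rfl
  have hcor : ∀ a : MonoidAlgebra k G, Cor b (b * a) := fun a =>
    ⟨by rw [← mul_assoc, hb.idem], by rw [← hcen, ← mul_assoc, hb.idem]⟩
  let Θ : (DC P y → k) →ₗ[k] CA k hb.idem :=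
    { toFun := fun s => CA.mk (b * ex s) (hcor _)
      map_add' := fun s t => by
        apply CA.ext
        show b * ex (s + t) = b * ex s + b * ex t
        rw [← mul_add]
        congr 1
        apply ext'
        intro g
        rw [add_coeff, hex, hex, hex]
        split_ifs
        · rfl
        · rw [add_zero]
      map_smul' := fun c s => by
        apply CA.ext
        show b * ex (c • s) = c • (b * ex s)
        rw [← mul_smul_comm]
        congr 1
        apply ext'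
        intro g
        rw [smul_coeff, hex, hex]
        split_ifs
        · rfl
        · rw [mul_zero] }
  have hΘ : ∀ s, (Θ s).val = b * ex s := fun s => rfl
  have hinj : Function.Injective Θ := by
    rw [← LinearMap.ker_eq_bot, LinearMap.ker_eq_bot']
    intro s hs
    have h1 : b * ex s = 0 := by rw [← hΘ, hs]; rfl
    have h2 := inj_DC hP hb hy (s := ex s) (fun g hg => by rw [hex, dif_neg hg]) h1
    funext g
    have h3 := congrArg (fun a : MonoidAlgebra k G => a.coeff (g : G)) h2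
    have h4 : (ex s).coeff (g : G) = 0 := h3
    rw [hex, dif_pos g.2] at h4
    exact h4
  have hcard : Module.finrank k (DC P y → k) = Nat.card (DC P y) := by
    rw [Module.finrank_fintype_fun_eq_card, Nat.card_eq_fintype_card]
  have hsurj : Function.Surjective Θ := by
    have h1 : Module.finrank k (DC P y → k) = Module.finrank k (CA k hb.idem) := by
      apply le_antisymm
      · exact LinearMap.finrank_le_finrank_of_injective hinj
      · rw [hcard]; exact hdim
    exact (LinearMap.injective_iff_surjective_of_finrank_eq_finrank h1).1 hinj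
  obtain ⟨s, hs⟩ := hsurj (CA.mk v ⟨hv, by rw [← hcen, hv]⟩)
  refine ⟨ex s, fun g hg => by rw [hex, dif_neg hg], ?_⟩
  rw [← hΘ, hs]; rfl

/-- control of `p`-local automorphisms -/
theorem control {P : Subgroup G} (hP : IsPGroup p P) {b : MonoidAlgebra k G} (hb : IsBlk ⊤ b)
    {y : G} (hy : b * ss k (DC P y) ≠ 0) (hyc : ∀ r ∈ P, y⁻¹ * r * y ∈ P → r * y = y * r)
    (hdim : Module.finrank k (CA k hb.idem) ≤ Nat.card (DC P y)) {Q : Subgroup G} (hQP : Q ≤ P)
    (hQ : Br Q b ≠ 0) {n : G} (hn : n ∈ Subgroup.normalizer (Q : Set G)) :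
    ∃ w ∈ P, ∀ q ∈ Q, n⁻¹ * q * n = w⁻¹ * q * w := by
  classical
  have hcen : ∀ a : MonoidAlgebra k G, b * a = a * b := fun a =>
    comm_of_fx_supp (H := ⊤) hb.zh.2 (supp_top _)
  have hQp : IsPGroup p Q := hP.to_le hQP
  have hnq : ∀ q ∈ Q, n⁻¹ * q * n ∈ Q := fun q hq =>
    (Subgroup.mem_normalizer_iff''.1 hn q).1 hq
  obtain ⟨s, hs1, hs2⟩ := span_DC hP hb hy hdim (v := b * MonoidAlgebra.single n 1) (by
    rw [← mul_assoc, hb.idem])
  -- invariance
  have hsinv : ∀ q ∈ Q, MonoidAlgebra.single q (1 : k) * s *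
      MonoidAlgebra.single ((n⁻¹ * q * n)⁻¹) 1 = s := by
    intro q hq
    have h1 : b * (MonoidAlgebra.single q (1 : k) * s *
        MonoidAlgebra.single ((n⁻¹ * q * n)⁻¹) 1 - s) = 0 := by
      rw [mul_sub, ← mul_assoc, ← mul_assoc, hcen (MonoidAlgebra.single q 1), mul_assoc _ b s,
        hs2, ← mul_assoc, ← hcen (MonoidAlgebra.single q 1), mul_assoc, mul_assoc,
        single_mul_single, single_mul_single]
      have e1 : q * (n * (n⁻¹ * q * n)⁻¹) = n := by group
      rw [e1, sub_self]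
    have h2 := inj_DC hP hb hy (s := MonoidAlgebra.single q (1 : k) * s *
        MonoidAlgebra.single ((n⁻¹ * q * n)⁻¹) 1 - s) (fun g hg => by
      rw [sub_coeff, hs1 g hg, sub_zero, mul_sg_coeff', sg_mul_coeff']
      apply hs1
      intro h
      apply hg
      rw [inv_inv, ← mul_assoc] at h
      exact (DC_mul (P.inv_mem (hQP hq)) (hQP (hnq q hq))).1 h) h1
    exact sub_eq_zero.1 h2
  -- the element s n⁻¹
  set s' : MonoidAlgebra k G := s * MonoidAlgebra.single n⁻¹ 1 with hs'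
  have hbs' : b * s' = b := by
    rw [hs', ← mul_assoc, hs2, mul_assoc, single_mul_single, mul_inv_cancel,
      ← MonoidAlgebra.one_def, mul_one]
  have hs'fx : Fx Q s' := by
    intro q hq g
    have h1 := congrArg (fun a : MonoidAlgebra k G => a.coeff (g * n)) (hsinv q⁻¹ (Q.inv_mem hq))
    have h2 : (MonoidAlgebra.single q⁻¹ (1 : k) * s *
        MonoidAlgebra.single ((n⁻¹ * q⁻¹ * n)⁻¹) 1).coeff (g * n) = s.coeff (g * n) := h1
    rw [mul_sg_coeff', sg_mul_coeff'] at h2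
    rw [hs', mul_sg_coeff', mul_sg_coeff', inv_inv, ← h2]
    congr 1
    group
  have hBr : Br Q s' ≠ 0 := by
    intro h0
    apply hQ
    rw [← hbs', br_mul hQp (fx_mono le_top hb.zh.2) hs'fx, h0, mul_zero]
  obtain ⟨c, hc, hc1⟩ := br_ne_zero_iff.1 hBr
  rw [hs', mul_sg_coeff', inv_inv] at hc1
  have hcY : c * n ∈ DC P y := by
    by_contra h
    exact hc1 (hs1 _ h)
  obtain ⟨x, hx, z, hz, hxz⟩ := hcY
  refine ⟨x * z, P.mul_mem hx hz, fun q hq => ?_⟩
  have hcq : c⁻¹ * q * c = q := by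
    have h1 := Subgroup.mem_centralizer_iff.1 hc q hq
    calc c⁻¹ * q * c = c⁻¹ * (q * c) := by group
      _ = c⁻¹ * (c * q) := by rw [h1]
      _ = q := by group
  have hgq : (c * n)⁻¹ * q * (c * n) = n⁻¹ * q * n := by
    calc (c * n)⁻¹ * q * (c * n) = n⁻¹ * (c⁻¹ * q * c) * n := by group
      _ = n⁻¹ * q * n := by rw [hcq]
  have hr : x⁻¹ * q * x ∈ P := P.mul_mem (P.mul_mem (P.inv_mem hx) (hQP hq)) hx
  have hyr : y⁻¹ * (x⁻¹ * q * x) * y = z * (n⁻¹ * q * n) * z⁻¹ := by
    rw [← hgq, hxz]; group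
  have h1 := hyc _ hr (by
    rw [hyr]
    exact P.mul_mem (P.mul_mem hz (hQP (hnq q hq))) (P.inv_mem hz))
  have h2 : y⁻¹ * (x⁻¹ * q * x) * y = x⁻¹ * q * x := by
    rw [mul_assoc, h1]; group
  rw [hyr] at h2
  calc n⁻¹ * q * n = z⁻¹ * (z * (n⁻¹ * q * n) * z⁻¹) * z := by group
    _ = z⁻¹ * (x⁻¹ * q * x) * z := by rw [h2]
    _ = (x * z)⁻¹ * q * (x * z) := by group

/-- nilpotency from control by Sylow subgroups -/
theorem nilp_of_control {b : MonoidAlgebra k G}
    (h : ∀ Q : Subgroup G, IsPGroup p Q → Br Q b ≠ 0 → ∀ n ∈ Subgroup.normalizer (Q : Set G),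
      ∃ w : G, (∃ j : ℕ, w ^ p ^ j = 1) ∧ ∀ q ∈ Q, n⁻¹ * q * n = w⁻¹ * q * w) : Nilp p ⊤ b := by
  intro Q f hof x hx hxp
  have hbr : Br Q b ≠ 0 := by
    intro h0
    apply hof.1.blk.ne
    rw [← hof.2, h0, zero_mul]
  have hxN : x ∈ Subgroup.normalizer (Q : Set G) := hx.2.1
  obtain ⟨w, ⟨j, hj⟩, hw⟩ := h Q hof.1.pg hbr x hxN
  have hnq : ∀ q ∈ Q, x⁻¹ * q * x ∈ Q := fun q hq =>
    (Subgroup.mem_normalizer_iff''.1 hxN q).1 hq
  have key : ∀ i : ℕ, ∀ q ∈ Q, (x ^ i)⁻¹ * q * x ^ i = (w ^ i)⁻¹ * q * w ^ i := by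
    intro i
    induction i with
    | zero => intro q _; rw [pow_zero, pow_zero]
    | succ i ih =>
      intro q hq
      have h1 := ih _ (hnq q hq)
      calc (x ^ (i + 1))⁻¹ * q * x ^ (i + 1) = (x ^ i)⁻¹ * (x⁻¹ * q * x) * x ^ i := by
            rw [pow_succ']; group
        _ = (w ^ i)⁻¹ * (w⁻¹ * q * w) * w ^ i := by rw [h1, hw q hq]
        _ = (w ^ (i + 1))⁻¹ * q * w ^ (i + 1) := by rw [pow_succ']; group
  refine mem_of_pow_mem hxp (k := j) ?_
  rw [Subgroup.mem_centralizer_iff]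
  intro q hq
  have h1 := key (p ^ j) q hq
  rw [hj, inv_one, one_mul, mul_one] at h1
  calc q * x ^ p ^ j = x ^ p ^ j * ((x ^ p ^ j)⁻¹ * q * x ^ p ^ j) := by group
    _ = x ^ p ^ j * q := by rw [h1]

theorem main {b : MonoidAlgebra k G} (hb : IsBlk ⊤ b) {D : Subgroup G} (hD : IsDef p ⊤ b D)
    {a d : ℕ} (ha : (Nat.card G).factorization p = a) (hd : Nat.card D = p ^ d)
    (hdim : Module.finrank k (CA k hb.idem) = p ^ (2 * a - d)) : Nilp p ⊤ b := by
  classical
  apply nilp_of_control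
  intro Q hQ hbr n hn
  obtain ⟨P, hQP⟩ := hQ.exists_le_sylow
  have hPc : Nat.card P = p ^ a := by rw [P.card_eq_multiplicity, ha]
  obtain ⟨y, hy0, hyc, hyb⟩ := exists_y (P := (P : Subgroup G)) P.isPGroup' hb
  set R : Subgroup G := (P : Subgroup G) ⊓ cS y P with hR
  have hRp : IsPGroup p R := P.isPGroup'.to_le inf_le_left
  have hRy : y ∈ Subgroup.centralizer (R : Set G) := by
    rw [Subgroup.mem_centralizer_iff]
    intro r hr
    exact hyc r hr.1 (mem_cS.1 hr.2)
  obtain ⟨x, _, hx⟩ := hD.di.2 y hy0 R le_top hRp hRy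
  have hRD : Nat.card R ≤ p ^ d := by
    have := card_le_of_le hx
    rwa [card_cS, hd] at this
  have hcard := card_DC (P : Subgroup G) y
  rw [show Nat.card (P : Subgroup G) = p ^ a from hPc] at hcard
  have hda : d ≤ a := by
    have h1 : p ^ d ∣ Nat.card G := hd ▸ Subgroup.card_subgroup_dvd_card D
    rw [← ha]
    exact (hp.out.pow_dvd_iff_le_factorization Nat.card_pos.ne').1 h1
  have hle : Module.finrank k (CA k hb.idem) ≤ Nat.card (DC (P : Subgroup G) y) := by
    rw [hdim]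
    have h1 : p ^ (2 * a - d) * p ^ d = p ^ a * p ^ a := by
      rw [← pow_add, ← pow_add]; congr 1; omega
    have h2 : p ^ (2 * a - d) * p ^ d ≤ Nat.card (DC (P : Subgroup G) y) * p ^ d := by
      rw [h1, ← hcard]
      exact Nat.mul_le_mul_left _ hRD
    exact Nat.le_of_mul_le_mul_right h2 (pow_pos hp.out.pos d)
  obtain ⟨w, hw, hwq⟩ := control P.isPGroup' hb hyb hyc hle hQP hbr hn
  obtain ⟨j, hj⟩ := P.isPGroup' ⟨w, hw⟩
  exact ⟨w, ⟨j, congrArg Subtype.val hj⟩, hwq⟩

end Span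

variable {M : Ideal AlgInt} {p : ℕ} [hp : Fact p.Prime] {G : Type u} [Group G] [Fintype G]

theorem tau_JB' [hPr : M.IsPrime] [CharP (kM M) p] (hM : IsPModular p M)
    {B : Set (IrrCharacter G)} (hB : IsPBlock M B)
    {χ : IrrCharacter G} (hχ : χ ∉ B) : tau (χ : G → ℂ) 1 (JB M B) = 0 := by
  classical
  have h1G : ∃ j : ℕ, orderOf (1 : G) = p ^ j := ⟨0, by rw [orderOf_one, pow_zero]⟩
  obtain ⟨a, haa, ha, har, hac⟩ := exists_EB hB
  rw [tau_eq hM (CfsgLib.CharInt.irr_classFun χ.2) h1G haa (rf_mono le_top ha) (by rw [har])]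
  unfold tv
  simp only [hac]
  have h2 := sum_coeff_mul B (CfsgLib.CharInt.irr_classFun χ.2) 1
  simp only [mul_one] at h2
  simp only [one_mul]
  rw [h2, blockPart_expand]
  refine Finset.sum_eq_zero fun ψ _ => ?_
  by_cases hψ : ψ ∈ B
  · have hne : χ ≠ ψ := fun h => hχ (h ▸ hψ)
    have h3 : classInner (χ : G → ℂ) (ψ : G → ℂ) = 0 :=
      irr_inner_ne χ.2 ψ.2 (fun h => hne (Subtype.ext h))
    rw [h3, zero_mul, mul_zero]
  · rw [ind_not hψ, zero_mul]

theorem s4647 (hM : IsPModular p M) (B : Set (IrrCharacter G)) (hB : IsPBlock M B)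
    (D : Subgroup G) (hD : IsDefectGroup p M B D) (a d : ℕ)
    (ha : (Nat.card G).factorization p = a) (hd : Nat.card D = p ^ d)
    (hmin : ∑ᶠ χ ∈ B, charDegree (χ : G → ℂ) ^ 2 = p ^ (2 * a - d)) : IsNilpotentBlock p M B := by
  classical
  haveI hMx : M.IsMaximal := hM.2.1
  haveI hP : M.IsPrime := hMx.isPrime
  haveI := charP_kM hM
  rw [nilp_iff_g hM hB]
  have hb := g_blk (M := M) hB
  refine main hb ((g_def hM hB).1 hD) ha hd ?_
  have h1 := finrank_CA hM hb.idem
  have h2 : ∑ χ : IrrCharacter G, tau (χ : G → ℂ) 1 (JB M B) ^ 2 =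
      ((∑ᶠ χ ∈ B, charDegree (χ : G → ℂ) ^ 2 : ℕ) : ℂ) := by
    rw [finsum_mem_eq_finite_toFinset_sum _ (Set.toFinite B), Nat.cast_sum]
    rw [← Finset.sum_subset (Finset.subset_univ (Set.toFinite B).toFinset)]
    · refine Finset.sum_congr rfl fun χ hχ => ?_
      rw [Set.Finite.mem_toFinset] at hχ
      rw [tau_JB hM hB hχ, CfsgLib.CharInt.irr_one_eq_charDegree χ.2, Nat.cast_pow]
    · intro χ _ hχ
      rw [Set.Finite.mem_toFinset] at hχ
      rw [tau_JB' hM hB hχ]; ring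
  rw [h2, hmin] at h1
  exact_mod_cast h1

end CfsgLib.OT
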