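import Cfsg.Agent.LibInv2pH13
import Cfsg.Agent.LibH22Spin3
import Cfsg.Agent.LibH22Exist

set_option autoImplicit false

/-! Transitivity of `Ω` on subspaces (seat helper13). -/

namespace CfsgLib.OmA

open Module LinearMap Submodule Cfsg.Agent.H22 CfsgLib.Inv2

section abs
variable {F V : Type*} [Field F] [Fintype F] [AddCommGroup V] [Module F V] [FiniteDimensional F V] {Q : QuadraticForm F V}

/-- `P` covers `O/Ω` -/
def Covers (P : Subgroup (OGrp Q)) : Prop := ∀ g : OGrp Q, ∃ p ∈ P, g * p ∈ commutator (OGrp Q)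

theorem nonzero_of_par (hQ : (QuadraticMap.polarBilin Q).Nondegenerate) (hF : (∃ a : F, a ≠ 0 ∧ a ≠ 1) ∨ finrank F V ≠ 4)
    (p : OGrp Q) (hp : par hQ hF p = -1) : ∃ x : V, x ≠ 0 := by
  by_contra hcon
  push Not at hcon
  have h1 : p = 1 := by
    apply og_ext
    intro a
    rw [hcon a, map_zero, map_zero]
  rw [h1, map_one] at hp
  exact absurd hp (by decide)

theorem covers_even [CharP F 2] (hQ : (QuadraticMap.polarBilin Q).Nondegenerate) (hF : (∃ a : F, a ≠ 0 ∧ a ≠ 1) ∨ finrank F V ≠ 4)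
    (P : Subgroup (OGrp Q)) (p : OGrp Q) (hp : p ∈ P) (hpar : par hQ hF p = -1) : Covers P := by
  have hV := nonzero_of_par hQ hF p hpar
  intro g
  rcases Int.units_eq_one_or (par hQ hF g) with h | h
  · exact ⟨1, one_mem _, by rw [mul_one, (omega_even hQ hF hV).2, h]⟩
  · exact ⟨p, hp, by rw [(omega_even hQ hF hV).2, map_mul, h, hpar]; rfl⟩

theorem covers_odd (h2 : (2 : F) ≠ 0) (hQ : (QuadraticMap.polarBilin Q).Nondegenerate) (h : 2 ≤ finrank F V)
    (P : Subgroup (OGrp Q)) (p e : OGrp Q) (hp : p ∈ P) (hpar : par hQ (Or.inl (exists_ne_one_of_odd h2)) p = -1) (he : e ∈ P)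
    (hpare : par hQ (Or.inl (exists_ne_one_of_odd h2)) e = 1) (hsgn : sgnC Q 1 e = -1) : Covers P := by
  obtain ⟨x, v', ν, hx, hv', hν, hQv', hs, _, _, hO⟩ := omega_odd h2 hQ h
  have key : ∀ g, par hQ (Or.inl (exists_ne_one_of_odd h2)) g = 1 → ∃ p ∈ P, g * p ∈ commutator (OGrp Q) := by
    intro g hg
    rcases Int.units_eq_one_or (sgnC Q 1 g) with h | h
    · exact ⟨1, one_mem _, by rw [mul_one, hO 1 one_ne_zero]; exact ⟨hg, h⟩⟩
    · refine ⟨e, he, ?_⟩
      rw [hO 1 one_ne_zero, map_mul, map_mul, hg, h, hpare, hsgn]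
      exact ⟨rfl, rfl⟩
  intro g
  rcases Int.units_eq_one_or (par hQ (Or.inl (exists_ne_one_of_odd h2)) g) with h | h
  · exact key g h
  · obtain ⟨q, hq, hgq⟩ := key (g * p) (by rw [map_mul, h, hpar]; rfl)
    exact ⟨p * q, mul_mem hp hq, by rw [← mul_assoc]; exact hgq⟩

/-- the stabiliser of a subspace -/
def stabS (U : Submodule F V) : Subgroup (OGrp Q) where
  carrier := {g | U.map ((g : V ≃ₗ[F] V) : V →ₗ[F] V) = U}
  mul_mem' {a b} ha hb := by
    show U.map (((a * b : OGrp Q) : V ≃ₗ[F] V) : V →ₗ[F] V) = U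
    have h1 : U.map (((a * b : OGrp Q) : V ≃ₗ[F] V) : V →ₗ[F] V) = (U.map ((b : V ≃ₗ[F] V) : V →ₗ[F] V)).map ((a : V ≃ₗ[F] V) : V →ₗ[F] V) := by
      rw [← Submodule.map_comp]; rfl
    rw [h1, hb, ha]
  one_mem' := Submodule.map_id U
  inv_mem' {a} ha := by
    show U.map (((a⁻¹ : OGrp Q) : V ≃ₗ[F] V) : V →ₗ[F] V) = U
    have ha' : U.map ((a : V ≃ₗ[F] V) : V →ₗ[F] V) = U := ha
    conv_lhs => rw [← ha']
    rw [← Submodule.map_comp]
    have h1 : (((a⁻¹ : OGrp Q) : V ≃ₗ[F] V) : V →ₗ[F] V).comp ((a : V ≃ₗ[F] V) : V →ₗ[F] V) = LinearMap.id := by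
      apply LinearMap.ext
      intro x
      exact og_inv_apply' a x
    rw [h1, Submodule.map_id]

theorem mem_stabS_of_le (U : Submodule F V) (g : OGrp Q) (h : ∀ u ∈ U, g.1 u ∈ U) : g ∈ stabS U := by
  show U.map ((g : V ≃ₗ[F] V) : V →ₗ[F] V) = U
  apply Submodule.eq_of_le_of_finrank_eq
  · rintro _ ⟨u, hu, rfl⟩
    exact h u hu
  · exact finrank_map_equiv U g.1

theorem refl_mem_stab (U : Submodule F V) (a : V) (ha : Q a ≠ 0) (h : a ∈ U ∨ a ∈ perp Q U) : oRefl Q a ha ∈ stabS U := by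
  apply mem_stabS_of_le
  intro u hu
  rw [oRefl_apply]
  rcases h with h | h
  · exact sub_mem hu (Submodule.smul_mem _ _ h)
  · have h1 : QuadraticMap.polar Q a u = 0 := by rw [QuadraticMap.polar_comm]; exact h u hu
    rw [h1, mul_zero, zero_smul, sub_zero]; exact hu

/-- the transporter form: conjugating by `O` and adjusting -/
theorem exists_omega_of_covers {U W : Submodule F V} (hc : Covers (stabS (Q := Q) U)) (g : OGrp Q)
    (hg : U.map ((g : V ≃ₗ[F] V) : V →ₗ[F] V) = W) : ∃ g ∈ commutator (OGrp Q), U.map ((g : V ≃ₗ[F] V) : V →ₗ[F] V) = W := by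
  obtain ⟨p, hp, hgp⟩ := hc g
  refine ⟨g * p, hgp, ?_⟩
  have h1 : U.map (((g * p : OGrp Q) : V ≃ₗ[F] V) : V →ₗ[F] V) = (U.map ((p : V ≃ₗ[F] V) : V →ₗ[F] V)).map ((g : V ≃ₗ[F] V) : V →ₗ[F] V) := by
    rw [← Submodule.map_comp]; rfl
  have hp' : U.map ((p : V ≃ₗ[F] V) : V →ₗ[F] V) = U := hp
  rw [h1, hp', hg]

theorem witt_sub (hQ : (QuadraticMap.polarBilin Q).Nondegenerate) (U W : Submodule F V) (e : U ≃ₗ[F] W) (he : ∀ u : U, Q (e u : V) = Q (u : V)) :
    ∃ g : OGrp Q, U.map ((g : V ≃ₗ[F] V) : V →ₗ[F] V) = W := by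
  obtain ⟨g, hg, hgU⟩ := witt_quad hQ U W e he
  refine ⟨⟨g, hg⟩, ?_⟩
  ext x
  constructor
  · rintro ⟨u, hu, rfl⟩
    have := hgU ⟨u, hu⟩
    show g u ∈ W
    rw [this]
    exact (e ⟨u, hu⟩).2
  · intro hx
    refine ⟨(e.symm ⟨x, hx⟩ : V), (e.symm ⟨x, hx⟩).2, ?_⟩
    show g _ = x
    rw [hgU, LinearEquiv.apply_symm_apply]

/-- the dilation on a hyperbolic line -/
theorem exists_dil (h2 : (2 : F) ≠ 0) (hQ : (QuadraticMap.polarBilin Q).Nondegenerate) (h : 2 ≤ finrank F V) (e f : V) (hef : HP Q e f) :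
    ∃ (d : OGrp Q) (c : F), par hQ (Or.inl (exists_ne_one_of_odd h2)) d = 1 ∧ sgnC Q 1 d = -1 ∧
      d.1 e = c • e ∧ ∀ z, QuadraticMap.polar Q e z = 0 → QuadraticMap.polar Q f z = 0 → d.1 z = z := by
  obtain ⟨c, hc⟩ := FiniteField.exists_nonsquare (ringChar_ne_two h2)
  have hc0 : c ≠ 0 := by rintro rfl; exact hc IsSquare.zero
  have h3 : Q (e + (1 : F) • f) ≠ 0 := by rw [hef.q1]; exact one_ne_zero
  have h4 : Q (e + c • f) ≠ 0 := by rw [hef.q1]; exact hc0
  refine ⟨oRefl Q _ h3 * oRefl Q _ h4, c, ?_, ?_, ?_, ?_⟩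
  · rw [map_mul, par_refl, par_refl]; rfl
  · rw [map_mul]
    refine (sgn_two_refl h2 hQ h _ _ h3 h4).2 ?_
    rw [hef.q1, hef.q1]
    intro hsq
    apply hc
    have : c = (1 / c)⁻¹ := by rw [one_div, inv_inv]
    rw [this]
    exact hsq.inv
  · rw [og_mul_apply, refl_plane_e hef, map_smul, refl_plane_f hef, smul_smul]
    congr 1
    ring
  · intro z hz1 hz2
    rw [og_mul_apply, refl_plane_perp _ _ _ hz1 hz2, refl_plane_perp _ _ _ hz1 hz2]

/-- the dilation stabilises totally singular subspaces containing `e` -/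
theorem dil_stab {U : Submodule F V} (hU : TS Q U) {e f : V} (hef : HP Q e f) (heU : e ∈ U) (d : OGrp Q) (c : F)
    (hd : d.1 e = c • e) (hd2 : ∀ z, QuadraticMap.polar Q e z = 0 → QuadraticMap.polar Q f z = 0 → d.1 z = z) : d ∈ stabS U := by
  apply mem_stabS_of_le
  intro u hu
  have h1 : u = (QuadraticMap.polar Q f u) • e + (u - (QuadraticMap.polar Q f u) • e) := by abel
  rw [h1, map_add, map_smul, hd, hd2]
  · exact add_mem (Submodule.smul_mem _ _ (Submodule.smul_mem _ _ heU)) (sub_mem hu (Submodule.smul_mem _ _ heU))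
  · rw [QuadraticMap.polar_sub_right, QuadraticMap.polar_smul_right, hU.polar heU hu, hef.ee, smul_zero, sub_zero]
  · rw [QuadraticMap.polar_sub_right, QuadraticMap.polar_smul_right, hef.fe, smul_eq_mul, mul_one, sub_self]

/-- the stabiliser of a totally singular subspace of less than half the dimension covers `O/Ω` -/
theorem covers_TS (hQ : (QuadraticMap.polarBilin Q).Nondegenerate) (hF : (∃ a : F, a ≠ 0 ∧ a ≠ 1) ∨ finrank F V ≠ 4)
    {U : Submodule F V} (hU : TS Q U) (hU0 : U ≠ ⊥) (hk : 2 * finrank F U < finrank F V) : Covers (stabS (Q := Q) U) := by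
  obtain ⟨a, ha, hQa⟩ : ∃ a ∈ perp Q U, Q a ≠ 0 := by
    by_contra hcon
    push Not at hcon
    have h1 : TS Q (perp Q U) := hcon
    have h2 : perp Q U ≤ perp Q (perp Q U) := h1.le_perp
    have h3 := Submodule.finrank_mono h2
    have h4 := Submodule.finrank_le (perp Q U)
    rw [finrank_perp hQ (perp Q U)] at h3
    have h5 := finrank_perp hQ U
    omega
  by_cases h2 : (2 : F) = 0
  · have : CharP F 2 := by
      apply CharTwo.of_one_ne_zero_of_two_eq_zero one_ne_zero h2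
    exact covers_even hQ hF _ (oRefl Q a hQa) (refl_mem_stab U a hQa (Or.inr ha)) (par_refl _ _ _ _)
  · obtain ⟨e, heU, he0⟩ := Submodule.exists_mem_ne_zero_of_ne_bot hU0
    obtain ⟨f, hef⟩ := exists_HP_of_singular hQ e he0 (hU e heU)
    have hfr : 2 ≤ finrank F V := by
      have : 0 < finrank F U := Module.finrank_pos_iff.2 ⟨⟨e, heU⟩, 0, fun h => he0 (congrArg Subtype.val h)⟩
      omega
    obtain ⟨d, c, hd1, hd2, hd3, hd4⟩ := exists_dil h2 hQ hfr e f hef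
    exact covers_odd h2 hQ hfr _ (oRefl Q a hQa) d (refl_mem_stab U a hQa (Or.inr ha)) (par_refl _ _ _ _)
      (dil_stab hU hef heU d c hd3 hd4) hd1 hd2

theorem nondeg_qres {W : Submodule F V} (hW : W ⊓ perp Q W = ⊥) : (QuadraticMap.polarBilin (qres Q W)).Nondegenerate := by
  apply nondeg_of_left
  intro x hx
  have h1 : (x : V) ∈ W ⊓ perp Q W := by
    refine ⟨x.2, ?_⟩
    intro w hw
    show QuadraticMap.polar Q w x = 0
    rw [QuadraticMap.polar_comm]
    exact hx ⟨w, hw⟩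
  rw [hW] at h1
  exact Subtype.ext h1

theorem perp_perp (hQ : (QuadraticMap.polarBilin Q).Nondegenerate) (U : Submodule F V) : perp Q (perp Q U) = U := by
  apply LinearMap.BilinForm.orthogonal_orthogonal hQ
  intro x y h
  show QuadraticMap.polar Q y x = 0
  rw [QuadraticMap.polar_comm]; exact h

/-- the stabiliser of a nondegenerate subspace covers `O/Ω` -/
theorem covers_nd (hQ : (QuadraticMap.polarBilin Q).Nondegenerate) (hF : (∃ a : F, a ≠ 0 ∧ a ≠ 1) ∨ finrank F V ≠ 4) (h3 : 3 ≤ finrank F V)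
    {U : Submodule F V} (hU : U ⊓ perp Q U = ⊥) : Covers (stabS (Q := Q) U) := by
  obtain ⟨U', hU'1, hU'2, hU'3⟩ : ∃ U' : Submodule F V, 2 ≤ finrank F U' ∧ U' ⊓ perp Q U' = ⊥ ∧ ∀ a ∈ U', a ∈ U ∨ a ∈ perp Q U := by
    have h4 := finrank_perp hQ U
    by_cases h5 : 2 ≤ finrank F U
    · exact ⟨U, h5, hU, fun a ha => Or.inl ha⟩
    · exact ⟨perp Q U, by omega, by rw [perp_perp hQ, inf_comm]; exact hU, fun a ha => Or.inr ha⟩
  have hnd := nondeg_qres hU'2
  by_cases h2 : (2 : F) = 0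
  · have : CharP F 2 := by
      apply CharTwo.of_one_ne_zero_of_two_eq_zero one_ne_zero h2
    have hnt : Nontrivial U' := Module.nontrivial_of_finrank_pos (R := F) (by omega)
    obtain ⟨a, ha⟩ := exists_nonsing hnd (exists_ne 0)
    have ha' : Q (a : V) ≠ 0 := ha
    exact covers_even hQ hF _ (oRefl Q (a : V) ha') (refl_mem_stab U a ha' (hU'3 a a.2)) (par_refl _ _ _ _)
  · obtain ⟨x, v', ν, hx, hv', hν, hQv', _⟩ := exists_classes h2 hnd hU'1
    have hx' : Q (x : V) ≠ 0 := hx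
    have hv'' : Q (v' : V) ≠ 0 := hv'
    have hfr : 2 ≤ finrank F V := by omega
    refine covers_odd h2 hQ hfr _ (oRefl Q (x : V) hx') (oRefl Q (x : V) hx' * oRefl Q (v' : V) hv'') (refl_mem_stab U x hx' (hU'3 x x.2)) (par_refl _ _ _ _)
      (mul_mem (refl_mem_stab U x hx' (hU'3 x x.2)) (refl_mem_stab U v' hv'' (hU'3 v' v'.2))) ?_ ?_
    · rw [map_mul, par_refl, par_refl]; rfl
    · rw [map_mul]
      refine (sgn_two_refl h2 hQ hfr _ _ hx' hv'').2 ?_
      intro hsq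
      apply hν
      have h6 : Q (v' : V) = ν * Q (x : V) := hQv'
      have h7 : ν = (Q (x : V) / Q (v' : V))⁻¹ := by
        rw [h6]; field_simp
      rw [h7]
      exact hsq.inv

/-- transitivity on the two classes of maximal totally singular subspaces -/
theorem max_TS_trans (hQ : (QuadraticMap.polarBilin Q).Nondegenerate) (hF : (∃ a : F, a ≠ 0 ∧ a ≠ 1) ∨ finrank F V ≠ 4)
    {m : ℕ} (hm : 1 ≤ m) (hV : finrank F V = 2 * m) {U W : Submodule F V} (hU : TS Q U) (hW : TS Q W) (hUm : finrank F U = m) (hWm : finrank F W = m)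
    (he : Even (m - finrank F ↥(U ⊓ W))) : ∃ g ∈ commutator (OGrp Q), U.map ((g : V ≃ₗ[F] V) : V →ₗ[F] V) = W := by
  obtain ⟨g, hg⟩ := witt_sub hQ U W (LinearEquiv.ofFinrankEq U W (by rw [hUm, hWm])) (fun u => by
    rw [hW _ (LinearEquiv.ofFinrankEq U W (by rw [hUm, hWm]) u).2, hU _ u.2])
  have hpar : par hQ hF g = 1 := by
    rw [par_TS hQ hF hV hU hUm g, hg, neg_one_pow_eq_one_iff_even (by decide)]
    have h1 : finrank F ↥(U ⊓ W) ≤ m := by
      rw [← hUm]; exact Submodule.finrank_mono inf_le_left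
    obtain ⟨k, hk⟩ := he
    exact ⟨k + finrank F ↥(U ⊓ W), by omega⟩
  have hV0 : Nontrivial V := Module.nontrivial_of_finrank_pos (R := F) (by omega)
  by_cases h2 : (2 : F) = 0
  · have : CharP F 2 := by
      apply CharTwo.of_one_ne_zero_of_two_eq_zero one_ne_zero h2
    exact ⟨g, ((omega_even hQ hF (exists_ne 0)).2 g).2 hpar, hg⟩
  · have hfr : 2 ≤ finrank F V := by omega
    obtain ⟨_, _, _, _, _, _, _, _, _, _, hO⟩ := omega_odd h2 hQ hfr
    rcases Int.units_eq_one_or (sgnC Q 1 g) with h | h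
    · exact ⟨g, (hO 1 one_ne_zero g).2 ⟨hpar, h⟩, hg⟩
    · have hU0 : U ≠ ⊥ := by
        rintro rfl
        rw [finrank_bot] at hUm
        omega
      obtain ⟨e, heU, he0⟩ := Submodule.exists_mem_ne_zero_of_ne_bot hU0
      obtain ⟨f, hef⟩ := exists_HP_of_singular hQ e he0 (hU e heU)
      obtain ⟨d, c, hd1, hd2, hd3, hd4⟩ := exists_dil h2 hQ hfr e f hef
      have hd : U.map ((d : V ≃ₗ[F] V) : V →ₗ[F] V) = U := dil_stab hU hef heU d c hd3 hd4
      refine ⟨g * d, (hO 1 one_ne_zero _).2 ⟨?_, ?_⟩, ?_⟩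
      · rw [map_mul, hd1, mul_one]; exact hpar
      · rw [map_mul, h, hd2]; rfl
      · have h1 : U.map (((g * d : OGrp Q) : V ≃ₗ[F] V) : V →ₗ[F] V) = (U.map ((d : V ≃ₗ[F] V) : V →ₗ[F] V)).map ((g : V ≃ₗ[F] V) : V →ₗ[F] V) := by
          rw [← Submodule.map_comp]; rfl
        rw [h1, hd, hg]

/-- transitivity on nonsingular points in characteristic two -/
theorem nonsing_trans [CharP F 2] (hQ : (QuadraticMap.polarBilin Q).Nondegenerate) (hF : (∃ a : F, a ≠ 0 ∧ a ≠ 1) ∨ finrank F V ≠ 4)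
    {u v : V} (hu : Q u ≠ 0) (hv : Q v ≠ 0) : ∃ g ∈ commutator (OGrp Q), ∃ c : F, c ≠ 0 ∧ g.1 u = c • v := by
  have hu0 := ne_zero_of_Q hu
  obtain ⟨c, hc⟩ : IsSquare (Q u / Q v) := FiniteField.isSquare_of_char_two (ringChar.eq F 2) _
  have hc0 : c ≠ 0 := by
    rintro rfl
    rw [mul_zero] at hc
    exact div_ne_zero hu hv hc
  have hQc : Q u = Q (c • v) := by rw [qsmul, ← hc, div_mul_cancel₀ _ hv]
  obtain ⟨g, hg⟩ := witt_one hQ u (c • v) hu0 (smul_ne_zero hc0 (ne_zero_of_Q hv)) hQc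
  have hru : (oRefl Q u hu).1 u = u := by
    rw [oRefl_apply, pself, CharTwo.two_eq_zero, zero_mul, mul_zero, zero_smul, sub_zero]
  rcases Int.units_eq_one_or (par hQ hF g) with h | h
  · exact ⟨g, ((omega_even hQ hF ⟨u, hu0⟩).2 g).2 h, c, hc0, hg⟩
  · refine ⟨g * oRefl Q u hu, ((omega_even hQ hF ⟨u, hu0⟩).2 _).2 ?_, c, hc0, ?_⟩
    · rw [map_mul, h, par_refl]; rfl
    · rw [og_mul_apply, hru, hg]

/-- `Ω` is generated by products of two reflections in characteristic two -/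
theorem omega_closure [CharP F 2] (hQ : (QuadraticMap.polarBilin Q).Nondegenerate) (hF : (∃ a : F, a ≠ 0 ∧ a ≠ 1) ∨ finrank F V ≠ 4)
    (hV : ∃ x : V, x ≠ 0) : commutator (OGrp Q) = Subgroup.closure {g : OGrp Q | ∃ (u v : V) (hu : Q u ≠ 0) (hv : Q v ≠ 0), g = oRefl Q u hu * oRefl Q v hv} := by
  apply le_antisymm
  · intro g hg
    rw [(omega_even hQ hF hV).2] at hg
    have h1 := mem_even_or {g : OGrp Q | ∃ v, ∃ hv : Q v ≠ 0, g = oRefl Q v hv} (by
      rintro s ⟨v, hv, rfl⟩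
      exact ⟨v, hv, oRefl_inv _ _⟩) (closure_oRefl hQ hF)
      (Subgroup.closure {g : OGrp Q | ∃ (u v : V) (hu : Q u ≠ 0) (hv : Q v ≠ 0), g = oRefl Q u hu * oRefl Q v hv}) (by
      rintro s ⟨v, hv, rfl⟩ t ⟨w, hw, rfl⟩
      exact Subgroup.subset_closure ⟨v, w, hv, hw, rfl⟩) g
    rcases h1 with h1 | h1
    · exact h1
    · exfalso
      obtain ⟨x, hx⟩ := exists_nonsing hQ hV
      have h3 := h1 (oRefl Q x hx) ⟨x, hx, rfl⟩
      have h5 : Subgroup.closure {g : OGrp Q | ∃ (u v : V) (hu : Q u ≠ 0) (hv : Q v ≠ 0), g = oRefl Q u hu * oRefl Q v hv} ≤ (par hQ hF).ker := by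
        rw [Subgroup.closure_le]
        rintro _ ⟨u, v, hu, hv, rfl⟩
        show _ ∈ (par hQ hF).ker
        rw [MonoidHom.mem_ker, map_mul, par_refl, par_refl]; rfl
      have h4 : par hQ hF (oRefl Q x hx * g) = 1 := h5 h3
      rw [map_mul, par_refl, hg] at h4
      exact absurd h4 (by decide)
  · rw [Subgroup.closure_le]
    rintro _ ⟨u, v, hu, hv, rfl⟩
    show _ ∈ commutator (OGrp Q)
    rw [(omega_even hQ hF hV).2, map_mul, par_refl, par_refl]; rfl

end abs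

section mat
variable {F : Type*} [Field F] [Fintype F] {ι : Type} [Fintype ι] [DecidableEq ι] (Q : QuadraticForm F (ι → F))

theorem hF_of {n : ℕ} (h : Fintype.card F ≠ 2 ∨ n ≠ 4) : (∃ a : F, a ≠ 0 ∧ a ≠ 1) ∨ n ≠ 4 := by
  rcases h with h | h
  · exact Or.inl (exists_ne_zero_one_of_card h)
  · exact Or.inr h

theorem map_mat_eq (g : ↥(Cfsg.isometryGroup F ⇑Q)) (U : Submodule F (ι → F)) :
    U.map (Matrix.mulVecLin ((g : Matrix.GeneralLinearGroup ι F) : Matrix ι ι F)) = U.map (((oIso Q g : OGrp Q) : (ι → F) ≃ₗ[F] (ι → F)) : (ι → F) →ₗ[F] (ι → F)) := by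
  congr 1

/-- transfer of transporter statements to matrices -/
theorem mat_of_abs {U W : Submodule F (ι → F)} (h : ∃ g ∈ commutator (OGrp Q), U.map ((g : (ι → F) ≃ₗ[F] (ι → F)) : (ι → F) →ₗ[F] (ι → F)) = W) :
    ∃ g : ↥(Cfsg.isometryGroup F ⇑Q), g ∈ Cfsg.Omega F ⇑Q ∧ U.map (Matrix.mulVecLin ((g : Matrix.GeneralLinearGroup ι F) : Matrix ι ι F)) = W := by
  obtain ⟨g, hg, hgU⟩ := h
  refine ⟨(oIso Q).symm g, ?_, ?_⟩
  · rw [mem_Omega_iff, MulEquiv.apply_symm_apply]; exact hg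
  · rw [map_mat_eq, MulEquiv.apply_symm_apply]; exact hgU

end mat

end CfsgLib.OmA
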