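import Mathlib
import Cfsg.Agent.LibAschF20

/-! even-dimensional orthogonal groups: basic facts on a group preserving a quadratic form -/
set_option autoImplicit false
set_option linter.unusedSectionVars false

namespace CfsgLib.OmE

open Module Cfsg Cfsg.Geo CfsgLib.Asch9 CfsgLib.Asch11 CfsgLib.Asch19 CfsgLib.AschF
open scoped Matrix MatrixGroups Kronecker

variable {ι : Type} [Fintype ι] [DecidableEq ι] {F : Type*} [Field F]
variable {Q : (ι → F) → F}

/-- every element of H preserves Q -/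
def Pres (Q : (ι → F) → F) (H : Subgroup (GL ι F)) : Prop :=
  ∀ g ∈ H, ∀ v, Q ((g : Matrix ι ι F) *ᵥ v) = Q v

theorem fdQ (hQ : IsNondegenerateQuadraticForm Q) : FD (RingEquiv.refl F) 1 (QuadraticMap.polar Q) where
  sesq := ⟨hQ.polar_bilinear.add_left, hQ.polar_bilinear.smul_left, hQ.polar_bilinear.add_right,
    hQ.polar_bilinear.smul_right⟩
  nd := hQ.nondegenerate
  sq := fun a => rfl
  herm := fun u v => by rw [RingEquiv.refl_apply, one_mul, QuadraticMap.polar_comm]
  eps := Or.inl rfl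

theorem qfQ (hQ : IsNondegenerateQuadraticForm Q) : QF (QuadraticMap.polar Q) Q :=
  ⟨hQ.smul, fun u v => by simp only [QuadraticMap.polar]; ring⟩

theorem Pres.iso {H : Subgroup (GL ι F)} (h : Pres Q H) : Iso (QuadraticMap.polar Q) H := by
  intro g hg u v
  simp only [QuadraticMap.polar, ← Matrix.mulVec_add, h g hg]

theorem Pres.mono {H K : Subgroup (GL ι F)} (h : Pres Q H) (hK : K ≤ H) : Pres Q K := fun g hg => h g (hK hg)

theorem omega_pres {H : Subgroup (GL ι F)} (h : H ≤ omegaGL Q) : Pres Q H := by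
  intro g hg v
  obtain ⟨x, _, rfl⟩ := h hg
  exact x.2 v v

theorem polar_self (hQ : IsNondegenerateQuadraticForm Q) (v : ι → F) : QuadraticMap.polar Q v v = 2 * Q v := by
  have h := hQ.smul 2 v
  rw [two_smul] at h
  rw [QuadraticMap.polar, h]; ring

theorem alt_two (hQ : IsNondegenerateQuadraticForm Q) (h2 : (2 : F) = 0) (v : ι → F) : QuadraticMap.polar Q v v = 0 := by
  rw [polar_self hQ, h2, zero_mul]

theorem neg_one_two (h2 : (2 : F) = 0) : (-1 : F) = 1 := by linear_combination -h2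

theorem fdQ' (hQ : IsNondegenerateQuadraticForm Q) (h2 : (2 : F) = 0) :
    FD (RingEquiv.refl F) (-1) (QuadraticMap.polar Q) := by
  rw [neg_one_two h2]; exact fdQ hQ

theorem Q_of_polar (hQ : IsNondegenerateQuadraticForm Q) (h2 : (2 : F) ≠ 0) (v : ι → F) :
    Q v = 2⁻¹ * QuadraticMap.polar Q v v := by
  rw [polar_self hQ, ← mul_assoc, inv_mul_cancel₀ h2, one_mul]

/-- in characteristic two an irreducible group preserves at most one quadratic form with a given polar form -/
theorem Q_unique [Finite F] (hQ : IsNondegenerateQuadraticForm Q) (h2 : (2 : F) = 0) (hn : 2 ≤ Fintype.card ι)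
    {H : Subgroup (GL ι F)} (hH : Pres Q H) (hirr : ActsIrreducibly (matrixSet H)) {Q' : (ι → F) → F}
    (hQ' : QF (QuadraticMap.polar Q) Q') (hH' : Pres Q' H) (v : ι → F) : Q v = Q' v := by
  have := semi_kernel h2 hn hirr (fun v => Q v - Q' v) (by
    intro u v
    have h1 := (qfQ hQ).add u v
    have h3 := hQ'.add u v
    rw [h1, h3]; ring) (by
    intro c v
    have h1 := hQ.smul c v
    have h3 := hQ'.smul c v
    rw [h1, h3]; ring) (by
    intro x hx v hv
    rw [hH x hx, hH' x hx]; exact hv) v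
  exact sub_eq_zero.1 this

/-- the kernel of a semilinear function on a totally isotropic subspace -/
def singK (hQ : IsNondegenerateQuadraticForm Q) (W : Submodule F (ι → F))
    (hW : IsTotallySingularFor (QuadraticMap.polar Q) W) : Submodule F (ι → F) where
  carrier := {v | v ∈ W ∧ Q v = 0}
  add_mem' := fun {a b} ha hb => ⟨W.add_mem ha.1 hb.1, by rw [(qfQ hQ).add, ha.2, hb.2, hW a ha.1 b hb.1]; ring⟩
  zero_mem' := ⟨W.zero_mem, (qfQ hQ).zero_on⟩
  smul_mem' := fun c a ha => ⟨W.smul_mem c ha.1, by rw [hQ.smul, ha.2, mul_zero]⟩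

theorem mem_singK {hQ : IsNondegenerateQuadraticForm Q} {W : Submodule F (ι → F)}
    {hW : IsTotallySingularFor (QuadraticMap.polar Q) W} {v : ι → F} : v ∈ singK hQ W hW ↔ v ∈ W ∧ Q v = 0 := Iff.rfl

/-- if the kernel is zero, any two vectors are proportional -/
theorem singK_bot [Finite F] (hQ : IsNondegenerateQuadraticForm Q) (h2 : (2 : F) = 0) {W : Submodule F (ι → F)}
    {hW : IsTotallySingularFor (QuadraticMap.polar Q) W} (h : singK hQ W hW = ⊥) {u v : ι → F} (hu : u ∈ W) (hv : v ∈ W)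
    (hv0 : v ≠ 0) : ∃ c : F, u = c • v := by
  have hQv : Q v ≠ 0 := by
    intro h0
    have : v ∈ singK hQ W hW := ⟨hv, h0⟩
    rw [h] at this
    exact hv0 ((Submodule.mem_bot F).1 this)
  obtain ⟨c, hc⟩ := sq_exists h2 (Q u * (Q v)⁻¹)
  refine ⟨c, ?_⟩
  have : u - c • v ∈ singK hQ W hW := by
    refine ⟨W.sub_mem hu (W.smul_mem c hv), ?_⟩
    have h1 : u - c • v = u + (-c) • v := by rw [neg_smul, sub_eq_add_neg]
    rw [h1, (qfQ hQ).add, hQ.smul, hW u hu _ (W.smul_mem _ hv), neg_sq, hc, mul_assoc, inv_mul_cancel₀ hQv]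
    linear_combination (Q u) * h2
  rw [h] at this
  exact sub_eq_zero.1 ((Submodule.mem_bot F).1 this)

theorem sing_char2 [Finite F] (hQ : IsNondegenerateQuadraticForm Q) (h2 : (2 : F) = 0) {H : Subgroup (GL ι F)}
    (hH : Pres Q H) {W : Submodule F (ι → F)} (h0 : W ≠ ⊥) (hW : IsTotallySingularFor (QuadraticMap.polar Q) W)
    (h : H ≤ subspaceStabilizer W) :
    (∃ W' : Submodule F (ι → F), W' ≠ ⊥ ∧ IsTotallySingularQuad Q W' ∧ H ≤ subspaceStabilizer W') ∨
    (∃ v, Q v ≠ 0 ∧ H ≤ subspaceStabilizer (Submodule.span F {v})) := by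
  by_cases hK : singK hQ W hW = ⊥
  · right
    obtain ⟨v, hv, hv0⟩ := (Submodule.ne_bot_iff W).1 h0
    refine ⟨v, ?_, mem_stab ?_⟩
    · intro hq
      have : v ∈ singK hQ W hW := ⟨hv, hq⟩
      rw [hK] at this
      exact hv0 ((Submodule.mem_bot F).1 this)
    · intro g hg w hw
      obtain ⟨a, rfl⟩ := Submodule.mem_span_singleton.1 hw
      obtain ⟨c, hc⟩ := singK_bot hQ h2 hK (stab_mem h g hg (a • v) (W.smul_mem a hv)) hv hv0
      rw [hc]
      exact Submodule.smul_mem _ c (Submodule.mem_span_singleton_self v)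
  · left
    refine ⟨singK hQ W hW, hK, fun w hw => hw.2, mem_stab ?_⟩
    intro g hg w hw
    exact ⟨stab_mem h g hg w hw.1, by rw [hH g hg]; exact hw.2⟩

/-- totally isotropic and totally singular, odd characteristic -/
theorem sing_odd (hQ : IsNondegenerateQuadraticForm Q) (h2 : (2 : F) ≠ 0) {W : Submodule F (ι → F)}
    (hW : IsTotallySingularFor (QuadraticMap.polar Q) W) : IsTotallySingularQuad Q W := by
  intro w hw
  rw [Q_of_polar hQ h2, hW w hw w hw, mul_zero]

theorem sing_polar (hQ : IsNondegenerateQuadraticForm Q) {W : Submodule F (ι → F)}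
    (hW : IsTotallySingularQuad Q W) : IsTotallySingularFor (QuadraticMap.polar Q) W := by
  intro u hu v hv
  rw [QuadraticMap.polar, hW _ (W.add_mem hu hv), hW u hu, hW v hv]; ring

theorem map_mulVec (g : GL ι F) {W W' : Submodule F (ι → F)}
    (h : W.map (Matrix.toLin' (g : Matrix ι ι F)) = W') {v : ι → F} (hv : v ∈ W) : (g : Matrix ι ι F) *ᵥ v ∈ W' := by
  rw [← h]
  exact ⟨v, hv, Matrix.toLin'_apply _ _⟩

theorem irr_mem {H : Subgroup (GL ι F)} (hirr : ActsIrreducibly (matrixSet H)) {W : Submodule F (ι → F)}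
    (h : ∀ g ∈ H, ∀ v ∈ W, (g : Matrix ι ι F) *ᵥ v ∈ W) : W = ⊥ ∨ W = ⊤ := by
  refine hirr W ?_
  rintro _ ⟨g, hg, rfl⟩ _ ⟨v, hv, rfl⟩
  rw [Matrix.toLin'_apply]
  exact h g hg v hv

/-- a pair of totally isotropic subspaces permuted by an irreducible group is singular -/
theorem pair_sing [Finite F] (hQ : IsNondegenerateQuadraticForm Q) (h2 : (2 : F) = 0) {H : Subgroup (GL ι F)}
    (hH : Pres Q H) (hirr : ActsIrreducibly (matrixSet H)) {k : ℕ} {D : Fin 2 → Submodule F (ι → F)}
    (hD : IsMDecomposition k D) (hk : 2 ≤ k) (hs : ∀ i, IsTotallySingularFor (QuadraticMap.polar Q) (D i))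
    (h : H ≤ decompositionStabilizer D) : ∀ i, IsTotallySingularQuad Q (D i) := by
  classical
  set W : Submodule F (ι → F) := singK hQ (D 0) (hs 0) ⊔ singK hQ (D 1) (hs 1) with hW
  have hinv : ∀ g ∈ H, ∀ v ∈ W, (g : Matrix ι ι F) *ᵥ v ∈ W := by
    intro g hg v hv
    obtain ⟨σ, hσ⟩ := h hg
    obtain ⟨a, ha, b, hb, rfl⟩ := Submodule.mem_sup.1 hv
    rw [Matrix.mulVec_add]
    have key : ∀ i : Fin 2, ∀ x ∈ D i, Q x = 0 → (g : Matrix ι ι F) *ᵥ x ∈ W := by
      intro i x hx hx0
      have h1 := map_mulVec g (hσ i) hx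
      have h3 : Q ((g : Matrix ι ι F) *ᵥ x) = 0 := by rw [hH g hg]; exact hx0
      rcases Fin.exists_fin_two.1 ⟨σ i, rfl⟩ with h4 | h4
      · rw [h4] at h1
        exact Submodule.mem_sup_left ⟨h1, h3⟩
      · rw [h4] at h1
        exact Submodule.mem_sup_right ⟨h1, h3⟩
    exact W.add_mem (key 0 a ha.1 ha.2) (key 1 b hb.1 hb.2)
  have hcompl := compl_of_mdec hD
  rcases irr_mem hirr hinv with hb | ht
  · exfalso
    have h0 : singK hQ (D 0) (hs 0) = ⊥ := by
      rw [eq_bot_iff, ← hb]; exact le_sup_left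
    have hfr : finrank F (D 0) ≤ 1 := by
      rw [finrank_le_one_iff]
      obtain ⟨v, hv, hv0⟩ := (Submodule.ne_bot_iff (D 0)).1 (by
        intro hbot
        have := hD.finrank_eq 0
        rw [hbot, finrank_bot] at this
        omega)
      refine ⟨⟨v, hv⟩, fun w => ?_⟩
      obtain ⟨c, hc⟩ := singK_bot hQ h2 h0 w.2 hv hv0
      exact ⟨c, Subtype.ext hc.symm⟩
    rw [hD.finrank_eq] at hfr
    omega
  · have hall : ∀ i : Fin 2, ∀ x ∈ D i, Q x = 0 := by
      intro i x hx
      have hx' : x ∈ W := by rw [ht]; trivial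
      obtain ⟨a, ha, b, hb, hab⟩ := Submodule.mem_sup.1 hx'
      have hdisj := hcompl.disjoint
      rw [Submodule.disjoint_def] at hdisj
      rcases Fin.exists_fin_two.1 ⟨i, rfl⟩ with h4 | h4
      · rw [h4] at hx
        have : b = x - a := by rw [← hab]; abel
        have h5 : b = 0 := hdisj b (by rw [this]; exact (D 0).sub_mem hx ha.1) hb.1
        rw [← hab, h5, add_zero]; exact ha.2
      · rw [h4] at hx
        have : a = x - b := by rw [← hab]; abel
        have h5 : a = 0 := hdisj a ha.1 (by rw [this]; exact (D 1).sub_mem hx hb.1)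
        rw [← hab, h5, zero_add]; exact hb.2
    exact fun i w hw => hall i w hw

/-- an irreducible group is transitive on a decomposition it permutes -/
theorem dec_trans {H : Subgroup (GL ι F)} (hirr : ActsIrreducibly (matrixSet H)) {t k : ℕ}
    {D : Fin t → Submodule F (ι → F)} (hD : IsMDecomposition k D) (h : H ≤ decompositionStabilizer D) (i j : Fin t) :
    ∃ g ∈ H, (D i).map (Matrix.toLin' (g : Matrix ι ι F)) = D j := by
  classical
  by_contra hcon
  push Not at hcon
  set O : Set (Fin t) := {l | ∃ g ∈ H, (D i).map (Matrix.toLin' (g : Matrix ι ι F)) = D l} with hO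
  have hne : ∀ l, D l ≠ ⊥ := by
    intro l hl
    have := hD.finrank_eq l
    rw [hl, finrank_bot] at this
    have := hD.pos
    omega
  set W : Submodule F (ι → F) := ⨆ l ∈ O, D l with hW
  have hi : i ∈ O := ⟨1, H.one_mem, by simp⟩
  have hj : j ∉ O := fun ⟨g, hg, hgj⟩ => hcon g hg hgj
  rcases irr_mem hirr (W := W) (by
    intro g hg v hv
    obtain ⟨σ, hσ⟩ := h hg
    have h1 : W.map (Matrix.toLin' (g : Matrix ι ι F)) ≤ W := by
      rw [hW]
      simp only [Submodule.map_iSup]
      refine iSup₂_le fun l hl => ?_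
      rw [hσ l]
      refine le_iSup₂_of_le (σ l) ?_ le_rfl
      obtain ⟨x, hx, hxl⟩ := hl
      refine ⟨g * x, H.mul_mem hg hx, ?_⟩
      rw [Units.val_mul, Matrix.toLin'_mul, Submodule.map_comp, hxl, hσ]
    exact h1 ⟨v, hv, Matrix.toLin'_apply _ _⟩) with hb | ht
  · apply hne i
    rw [eq_bot_iff, ← hb]
    exact le_iSup₂_of_le i hi le_rfl
  · have hd := hD.indep j
    have hle : W ≤ ⨆ (l : Fin t) (_ : l ≠ j), D l := by
      rw [hW]
      refine iSup₂_le fun l hl => ?_
      refine le_iSup₂_of_le l ?_ le_rfl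
      rintro rfl
      exact hj hl
    rw [ht] at hle
    rw [disjoint_iff, eq_top_iff.2 hle, inf_top_eq] at hd
    exact hne j hd

/-- a linear equivalence from a group element -/
theorem isometric_of_map {H : Subgroup (GL ι F)} (hH : Pres Q H) {g : GL ι F} (hg : g ∈ H) {W W' : Submodule F (ι → F)}
    (h : W.map (Matrix.toLin' (g : Matrix ι ι F)) = W') : AreIsometricFor Q W W' := by
  subst h
  have hinj : Function.Injective (Matrix.toLin' (g : Matrix ι ι F)) := by
    intro x y hxy
    rw [Matrix.toLin'_apply, Matrix.toLin'_apply] at hxy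
    have := congrArg (fun z => ((g⁻¹ : GL ι F) : Matrix ι ι F) *ᵥ z) hxy
    simpa [Matrix.mulVec_mulVec, ← Units.val_mul] using this
  refine ⟨Submodule.equivMapOfInjective _ hinj W, fun w => ?_⟩
  rw [Submodule.coe_equivMapOfInjective_apply, Matrix.toLin'_apply]
  exact hH g hg w

theorem dec_isometric {H : Subgroup (GL ι F)} (hH : Pres Q H) (hirr : ActsIrreducibly (matrixSet H)) {t k : ℕ}
    {D : Fin t → Submodule F (ι → F)} (hD : IsNondegenerateMDecomposition (QuadraticMap.polar Q) k D)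
    (h : H ≤ decompositionStabilizer D) : IsOrthogonalMDecomposition Q k D :=
  ⟨hD, fun i j => by
    obtain ⟨g, hg, hgj⟩ := dec_trans hirr hD.decomp h i j
    exact isometric_of_map hH hg hgj⟩

end CfsgLib.OmE
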