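import Mathlib
import Cfsg.Agent.LibOmE1

/-! even-dimensional orthogonal groups: fields of degree two, tensor products, rational structures -/
set_option autoImplicit false
set_option linter.unusedSectionVars false

namespace CfsgLib.OmE

open Module Cfsg Cfsg.Geo CfsgLib.Asch7 CfsgLib.Asch9 CfsgLib.Asch11 CfsgLib.Asch19 CfsgLib.AschF
open scoped Matrix MatrixGroups Kronecker

variable {ι : Type} [Fintype ι] [DecidableEq ι] {F : Type*} [Field F]
variable {Q : (ι → F) → F}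

/-- self adjoint elements of a degree two field which is not self adjoint are scalars -/
theorem self_scalar [Nonempty ι] {ε : F} {f : (ι → F) → (ι → F) → F} (hf : FD (RingEquiv.refl F) ε f)
    {K : Subalgebra F (Matrix ι ι F)} (hK : IsFieldSubalgebra 2 K) (hs : ¬ IsSelfAdjointFor f K) :
    ∀ s ∈ K, Adj f s s → ∃ c : F, s = c • (1 : Matrix ι ι F) := by
  intro s hsK hss
  by_contra hcon
  push Not at hcon
  apply hs
  have hli : LinearIndependent F ![(⟨1, K.one_mem⟩ : K), ⟨s, hsK⟩] := by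
    rw [LinearIndependent.pair_iff]
    intro x y hxy
    have h1 : x • (1 : Matrix ι ι F) + y • s = 0 := congrArg Subtype.val hxy
    have hy : y = 0 := by
      by_contra hy
      apply hcon (-(y⁻¹ * x))
      have h3 : s = y⁻¹ • (y • s) := by rw [smul_smul, inv_mul_cancel₀ hy, one_smul]
      rw [h3, eq_neg_of_add_eq_zero_right h1, smul_neg, smul_smul, neg_smul]
    refine ⟨?_, hy⟩
    rw [hy, zero_smul, add_zero] at h1
    obtain ⟨i⟩ := (inferInstance : Nonempty ι)
    have := congrFun (congrFun h1 i) i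
    simpa using this
  have hsp := hli.span_eq_top_of_card_eq_finrank' (by rw [hK.finrank_eq]; simp)
  intro k hk
  have h1 : (⟨k, hk⟩ : K) ∈ Submodule.span F (Set.range ![(⟨1, K.one_mem⟩ : K), ⟨s, hsK⟩]) := by rw [hsp]; trivial
  rw [Matrix.range_cons, Matrix.range_cons, Matrix.range_empty, Set.union_empty, Set.singleton_union,
    Submodule.mem_span_pair] at h1
  obtain ⟨x, y, hxy⟩ := h1
  have h3 : x • (1 : Matrix ι ι F) + y • s = k := congrArg Subtype.val hxy
  have h5 := ((Adj.one (f := f)).smul hf x).add hf (hss.smul hf y)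
  rw [RingEquiv.refl_apply, RingEquiv.refl_apply, h3] at h5
  exact h5

/-- any two-dimensional field is spanned by 1 and a non-scalar element -/
theorem two_span [Nonempty ι] {K : Subalgebra F (Matrix ι ι F)} (hK : IsFieldSubalgebra 2 K) {s : Matrix ι ι F}
    (hsK : s ∈ K) (hs : ∀ c : F, s ≠ c • (1 : Matrix ι ι F)) (k : Matrix ι ι F) (hk : k ∈ K) :
    ∃ x y : F, k = x • (1 : Matrix ι ι F) + y • s := by
  have hli : LinearIndependent F ![(⟨1, K.one_mem⟩ : K), ⟨s, hsK⟩] := by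
    rw [LinearIndependent.pair_iff]
    intro x y hxy
    have h1 : x • (1 : Matrix ι ι F) + y • s = 0 := congrArg Subtype.val hxy
    have hy : y = 0 := by
      by_contra hy
      apply hs (-(y⁻¹ * x))
      have h3 : s = y⁻¹ • (y • s) := by rw [smul_smul, inv_mul_cancel₀ hy, one_smul]
      rw [h3, eq_neg_of_add_eq_zero_right h1, smul_neg, smul_smul, neg_smul]
    refine ⟨?_, hy⟩
    rw [hy, zero_smul, add_zero] at h1
    obtain ⟨i⟩ := (inferInstance : Nonempty ι)
    have := congrFun (congrFun h1 i) i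
    simpa using this
  have hsp := hli.span_eq_top_of_card_eq_finrank' (by rw [hK.finrank_eq]; simp)
  have h1 : (⟨k, hk⟩ : K) ∈ Submodule.span F (Set.range ![(⟨1, K.one_mem⟩ : K), ⟨s, hsK⟩]) := by rw [hsp]; trivial
  rw [Matrix.range_cons, Matrix.range_cons, Matrix.range_empty, Set.union_empty, Set.singleton_union,
    Submodule.mem_span_pair] at h1
  obtain ⟨x, y, hxy⟩ := h1
  exact ⟨x, y, (congrArg Subtype.val hxy).symm⟩

/-- in the unitary field case the field acts by similarities -/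
theorem fld_sim [Finite F] [Nonempty ι] (hn : 2 ≤ Fintype.card ι) (hQ : IsNondegenerateQuadraticForm Q)
    {H : Subgroup (GL ι F)} (hH : Pres Q H) (hirr : ActsIrreducibly (matrixSet H))
    {K : Subalgebra F (Matrix ι ι F)} (hK : IsFieldSubalgebra 2 K) (hnor : H ≤ subalgebraNormalizer K)
    (ha : IsAdjointClosedFor (QuadraticMap.polar Q) K) (hs : ¬ IsSelfAdjointFor (QuadraticMap.polar Q) K) :
    ∀ k ∈ K, ∃ c : F, ∀ v, Q (k *ᵥ v) = c * Q v := by
  classical
  have hf := fdQ hQ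
  have hself := self_scalar hf hK hs
  by_cases h2 : (2 : F) = 0
  swap
  · intro k hk
    obtain ⟨k', hk', had⟩ := ha k hk
    have had : Adj (QuadraticMap.polar Q) k k' := had
    obtain ⟨c, hc⟩ := hself (k' * k) (K.mul_mem hk' hk) ((had.symm hf).mul had)
    refine ⟨c, fun v => ?_⟩
    rw [Q_of_polar hQ h2, Q_of_polar hQ h2 v, had, Matrix.mulVec_mulVec, hc, Matrix.smul_mulVec,
      Matrix.one_mulVec, hf.smul_right, RingEquiv.refl_apply]
    ring
  have htwo : ∀ X : Matrix ι ι F, X + X = 0 := by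
    intro X
    rw [← two_smul F, h2, zero_smul]
  have hex : ∃ k ∈ K, ¬ Adj (QuadraticMap.polar Q) k k := by
    by_contra hcon
    push Not at hcon
    exact hs fun k hk => hcon k hk
  obtain ⟨k, hk, hkn⟩ := hex
  obtain ⟨k', hk', had⟩ := ha k hk
  have had : Adj (QuadraticMap.polar Q) k k' := had
  have had' := had.symm hf
  obtain ⟨c, hc⟩ := hself (k + k') (K.add_mem hk hk') (by
    have := had.add hf had'
    rwa [add_comm k' k] at this)
  have hc0 : c ≠ 0 := by
    rintro rfl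
    rw [zero_smul] at hc
    have : k' = k := by
      have h1 := htwo k
      rw [← hc] at h1
      exact (add_left_cancel h1).symm
    rw [this] at had
    exact hkn had
  obtain ⟨θ, hθ⟩ : ∃ θ, θ = c⁻¹ • k := ⟨_, rfl⟩
  obtain ⟨θ', hθ'⟩ : ∃ θ', θ' = c⁻¹ • k' := ⟨_, rfl⟩
  have hθK : θ ∈ K := by rw [hθ]; exact K.smul_mem hk _
  have hθK' : θ' ∈ K := by rw [hθ']; exact K.smul_mem hk' _
  have hadθ : Adj (QuadraticMap.polar Q) θ θ' := by rw [hθ, hθ']; exact had.smul hf c⁻¹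
  have hsum : θ + θ' = 1 := by
    rw [hθ, hθ', ← smul_add, hc, smul_smul, inv_mul_cancel₀ hc0, one_smul]
  have hns : ∀ d : F, θ ≠ d • (1 : Matrix ι ι F) := by
    intro d hd
    have h1 : Adj (QuadraticMap.polar Q) θ θ := by
      have := Adj.scalar hf d
      rw [RingEquiv.refl_apply, ← hd] at this
      exact this
    have h3 := hadθ.uniq hf h1
    rw [h3, htwo] at hsum
    obtain ⟨i⟩ := (inferInstance : Nonempty ι)
    have := congrFun (congrFun hsum i) i
    simp at this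
  have halt := alt_two hQ h2
  have hsymm : ∀ u v, QuadraticMap.polar Q v u = QuadraticMap.polar Q u v := fun u v => QuadraticMap.polar_comm Q v u
  have hQF : QF (QuadraticMap.polar Q) (fun v => QuadraticMap.polar Q (θ *ᵥ v) v) := by
    refine ⟨?_, ?_⟩
    · intro c v
      change QuadraticMap.polar Q (θ *ᵥ (c • v)) (c • v) = c ^ 2 * QuadraticMap.polar Q (θ *ᵥ v) v
      rw [Matrix.mulVec_smul, hf.smul_left, hf.smul_right, RingEquiv.refl_apply]; ring
    · intro u v
      change QuadraticMap.polar Q (θ *ᵥ (u + v)) (u + v) = QuadraticMap.polar Q (θ *ᵥ u) u + QuadraticMap.polar Q (θ *ᵥ v) v + QuadraticMap.polar Q u v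
      rw [Matrix.mulVec_add, hf.add_left, hf.add_right, hf.add_right]
      have h1 : QuadraticMap.polar Q (θ *ᵥ v) u = QuadraticMap.polar Q (θ' *ᵥ u) v := by rw [hadθ, hsymm]
      have h3 : QuadraticMap.polar Q (θ *ᵥ u) v + QuadraticMap.polar Q (θ' *ᵥ u) v = QuadraticMap.polar Q u v := by
        rw [← hf.add_left, ← Matrix.add_mulVec, hsum, Matrix.one_mulVec]
      rw [h1, ← h3]; ring
  have hinv : Pres (fun v => QuadraticMap.polar Q (θ *ᵥ v) v) H := by
    intro g hg v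
    change QuadraticMap.polar Q (θ *ᵥ ((g : Matrix ι ι F) *ᵥ v)) ((g : Matrix ι ι F) *ᵥ v) = QuadraticMap.polar Q (θ *ᵥ v) v
    have hgi' : (g : Matrix ι ι F) * ((g⁻¹ : GL ι F) : Matrix ι ι F) = 1 := by
      rw [← Units.val_mul, mul_inv_cancel, Units.val_one]
    have hgi : ((g⁻¹ : GL ι F) : Matrix ι ι F) * (g : Matrix ι ι F) = 1 := by
      rw [← Units.val_mul, inv_mul_cancel, Units.val_one]
    obtain ⟨θ₁, hθ₁⟩ : ∃ θ₁, θ₁ = ((g⁻¹ : GL ι F) : Matrix ι ι F) * θ * (g : Matrix ι ι F) := ⟨_, rfl⟩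
    have hθ₁K : θ₁ ∈ K := by
      rw [hnor hg]
      have : (g : Matrix ι ι F) * θ₁ * ((g⁻¹ : GL ι F) : Matrix ι ι F) = θ := by
        rw [hθ₁]
        calc _ = ((g : Matrix ι ι F) * ((g⁻¹ : GL ι F) : Matrix ι ι F)) * θ * ((g : Matrix ι ι F) * ((g⁻¹ : GL ι F) : Matrix ι ι F)) := by
              noncomm_ring
          _ = θ := by rw [hgi', one_mul, mul_one]
      rw [this]; exact hθK
    have hadθ₁ : Adj (QuadraticMap.polar Q) θ₁ (((g⁻¹ : GL ι F) : Matrix ι ι F) * θ' * (g : Matrix ι ι F)) := by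
      have := hH.iso.adj_conj (H.inv_mem hg) hadθ
      rw [inv_inv] at this
      rw [hθ₁]; exact this
    obtain ⟨x, y, hxy⟩ := two_span hK hθK hns θ₁ hθ₁K
    have hy : y = 1 := by
      have h1 : Adj (QuadraticMap.polar Q) θ₁ (x • (1 : Matrix ι ι F) + y • θ') := by
        have := (Adj.scalar hf x).add hf (hadθ.smul hf y)
        rw [RingEquiv.refl_apply, RingEquiv.refl_apply, ← hxy] at this
        exact this
      have h3 := hadθ₁.uniq hf h1
      have h4 : θ₁ + (x • (1 : Matrix ι ι F) + y • θ') = 1 := by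
        rw [← h3, hθ₁, ← add_mul, ← mul_add, hsum, mul_one, hgi]
      rw [hxy] at h4
      have h5 : x • (1 : Matrix ι ι F) + y • θ + (x • (1 : Matrix ι ι F) + y • θ') = y • (1 : Matrix ι ι F) := by
        rw [← hsum, smul_add]
        have := htwo (x • (θ + θ'))
        rw [smul_add] at this ⊢
        calc _ = (x • θ + x • θ' + (x • θ + x • θ')) + (y • θ + y • θ') := by abel
          _ = _ := by rw [this, zero_add]
      rw [h5] at h4
      obtain ⟨i⟩ := (inferInstance : Nonempty ι)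
      have := congrFun (congrFun h4 i) i
      simpa using this
    have h1 : θ *ᵥ ((g : Matrix ι ι F) *ᵥ v) = (g : Matrix ι ι F) *ᵥ (θ₁ *ᵥ v) := by
      rw [Matrix.mulVec_mulVec, Matrix.mulVec_mulVec, hθ₁, ← mul_assoc, ← mul_assoc, hgi', one_mul]
    rw [h1, hH.iso g hg, hxy, hy, one_smul, Matrix.add_mulVec, hf.add_left, Matrix.smul_mulVec, Matrix.one_mulVec,
      hf.smul_left, halt, mul_zero, zero_add]
  have huniq := Q_unique hQ h2 hn hH hirr hQF hinv
  intro l hl
  obtain ⟨l', hl', hadl⟩ := ha l hl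
  have hadl : Adj (QuadraticMap.polar Q) l l' := hadl
  obtain ⟨c, hc⟩ := hself (l' * l) (K.mul_mem hl' hl) ((hadl.symm hf).mul hadl)
  refine ⟨c, fun v => ?_⟩
  rw [huniq, huniq v]
  change QuadraticMap.polar Q (θ *ᵥ (l *ᵥ v)) (l *ᵥ v) = c * QuadraticMap.polar Q (θ *ᵥ v) v
  rw [Matrix.mulVec_mulVec, hK.comm θ hθK l hl, ← Matrix.mulVec_mulVec, hadl, Matrix.mulVec_mulVec, hc,
    Matrix.smul_mulVec, Matrix.one_mulVec, hf.smul_right, RingEquiv.refl_apply]

section ten
variable {n₁ n₂ : ℕ} (b : Basis (Fin n₁ × Fin n₂) F (ι → F))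

/-- characteristic two: both factors are alternating and Q vanishes on the pure tensors -/
theorem tp_sing [Finite F] (hQ : IsNondegenerateQuadraticForm Q) (h2 : (2 : F) = 0) (hn : 2 ≤ Fintype.card ι)
    {H : Subgroup (GL ι F)} (hH : Pres Q H) (hirr : ActsIrreducibly (matrixSet H))
    {ε₁ ε₂ : F} {f₁ : (Fin n₁ → F) → (Fin n₁ → F) → F} {f₂ : (Fin n₂ → F) → (Fin n₂ → F) → F} (hn₁ : 2 ≤ n₁) (hn₂ : 2 ≤ n₂)
    (hf₁ : FD (RingEquiv.refl F) ε₁ f₁) (hf₂ : FD (RingEquiv.refl F) ε₂ f₂)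
    (hform : ∀ i l j l', QuadraticMap.polar Q (b (i, l)) (b (j, l')) = gramMatrix f₁ i j * gramMatrix f₂ l l')
    (hkr : ∀ h ∈ H, ∃ (A : (Matrix (Fin n₁) (Fin n₁) F)ˣ) (N : (Matrix (Fin n₂) (Fin n₂) F)ˣ),
      KA b (h : Matrix ι ι F) A.1 N.1) :
    (∀ v, f₁ v v = 0) ∧ (∀ v, f₂ v v = 0) ∧ ∀ u v, Q (ten b u v) = 0 := by
  classical
  have hf := fdQ hQ
  have halt := alt_two hQ h2
  have ha2 := tp_even_aux b hf h2 hH.iso hirr hn₁ hn₂ hf₁ hf₂ hform hkr
  have ha1 := tp_even_aux (b.reindex (Equiv.prodComm (Fin n₁) (Fin n₂))) hf h2 hH.iso hirr hn₂ hn₁ hf₂ hf₁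
    (form_swap b hform) (fun h hh => by
      obtain ⟨A, N, hk⟩ := hkr h hh
      exact ⟨N, A, KA_swap b hk⟩)
  refine ⟨ha1, ha2, ?_⟩
  obtain ⟨Q', hQ', hQb⟩ := exists_QF hf halt h2 b
  have hQ1 : ∀ u l, Q' (ten b u (Pi.single l 1)) = 0 := by
    intro u l
    refine semi_zero (Pi.basisFun F (Fin n₁)) (fun u => Q' (ten b u (Pi.single l 1))) ?_ ?_ ?_ u
    · intro u u'
      change Q' (ten b (u + u') (Pi.single l 1)) = Q' (ten b u (Pi.single l 1)) + Q' (ten b u' (Pi.single l 1))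
      rw [ten_add_left, hQ'.add, ten_form b hf hf₁ hf₂ hform, ha2]; ring
    · intro c u
      change Q' (ten b (c • u) (Pi.single l 1)) = c ^ 2 * Q' (ten b u (Pi.single l 1))
      rw [ten_smul_left, hQ'.smul]
    · intro k
      change Q' (ten b (Pi.basisFun F (Fin n₁) k) (Pi.single l 1)) = 0
      rw [Pi.basisFun_apply, ten_single]; exact hQb _
  have hQ2 : ∀ u v, Q' (ten b u v) = 0 := by
    intro u v
    refine semi_zero (Pi.basisFun F (Fin n₂)) (fun v => Q' (ten b u v)) ?_ ?_ ?_ v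
    · intro v v'
      change Q' (ten b u (v + v')) = Q' (ten b u v) + Q' (ten b u v')
      rw [ten_add_right, hQ'.add, ten_form b hf hf₁ hf₂ hform, ha1]; ring
    · intro c v
      change Q' (ten b u (c • v)) = c ^ 2 * Q' (ten b u v)
      rw [ten_smul_right, hQ'.smul]
    · intro k
      change Q' (ten b u (Pi.basisFun F (Fin n₂) k)) = 0
      rw [Pi.basisFun_apply]; exact hQ1 u k
  have hinv : Pres Q' H := fun g hg => hQ'.preserve b g (hH.iso g hg) (by
    rintro ⟨i, l⟩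
    obtain ⟨A, N, hk⟩ := hkr g hg
    rw [hQb, ← ten_single b i l, ten_act b hk, hQ2])
  intro u v
  rw [Q_unique hQ h2 hn hH hirr hQ' hinv, hQ2]

/-- odd characteristic: Q vanishes on the pure tensors if one factor is alternating -/
theorem tp_sing_odd (hQ : IsNondegenerateQuadraticForm Q) (h2 : (2 : F) ≠ 0)
    {ε₁ ε₂ : F} {f₁ : (Fin n₁ → F) → (Fin n₁ → F) → F} {f₂ : (Fin n₂ → F) → (Fin n₂ → F) → F}
    (hf₁ : FD (RingEquiv.refl F) ε₁ f₁) (hf₂ : FD (RingEquiv.refl F) ε₂ f₂)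
    (hform : ∀ i l j l', QuadraticMap.polar Q (b (i, l)) (b (j, l')) = gramMatrix f₁ i j * gramMatrix f₂ l l')
    (halt : ∀ v, f₁ v v = 0) : ∀ u v, Q (ten b u v) = 0 := by
  intro u v
  rw [Q_of_polar hQ h2, ten_form b (fdQ hQ) hf₁ hf₂ hform, halt]; ring

end ten

section tens
variable {m t : ℕ} (b : Basis (Fin t → Fin m) F (ι → F))

theorem tw_sing [Finite F] (hQ : IsNondegenerateQuadraticForm Q) (h2 : (2 : F) = 0) (hn : 2 ≤ Fintype.card ι) (ht : 2 ≤ t)
    {H : Subgroup (GL ι F)} (hH : Pres Q H) (hirr : ActsIrreducibly (matrixSet H)) {ε₁ : F} {f₁ : (Fin m → F) → (Fin m → F) → F}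
    (hf₁ : FD (RingEquiv.refl F) ε₁ f₁) {c : F} (hc : c ≠ 0)
    (hform : ∀ x y, QuadraticMap.polar Q (b x) (b y) = c * ∏ s, gramMatrix f₁ (x s) (y s))
    (hTW : ∀ h ∈ H, TW b (h : Matrix ι ι F)) :
    (∀ v, f₁ v v = 0) ∧ ∀ u, Q (tens b u) = 0 := by
  have hf := fdQ hQ
  have halt := alt_two hQ h2
  have halt₁ : ∀ v, f₁ v v = 0 := by
    intro v
    have h1 := tens_form b hf hf₁ hform (fun _ => v) (fun _ => v)
    rw [halt, Finset.prod_const, Finset.card_univ, Fintype.card_fin] at h1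
    have h3 := (mul_eq_zero.1 h1.symm).resolve_left hc
    exact (pow_eq_zero_iff (by omega)).1 h3
  obtain ⟨Q', hQ', hQb⟩ := exists_QF hf halt h2 b
  have hQt := quad_tens b hf hQ' ht hf₁ halt₁ hform hQb
  have hinv : Pres Q' H := fun g hg => hQ'.preserve b g (hH.iso g hg) (by
    intro x
    obtain ⟨u, hu⟩ := TW_tens b (hTW g hg) x
    rw [hQb, hu, hQt])
  refine ⟨halt₁, fun u => ?_⟩
  rw [Q_unique hQ h2 hn hH hirr hQ' hinv, hQt]

end tens

end CfsgLib.OmE
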