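import Mathlib
import Cfsg.Agent.LibOmE2
import Cfsg.Agent.LibAschSL1H13

/-! even-dimensional orthogonal groups: rational structures of the quadratic form -/
set_option autoImplicit false
set_option linter.unusedSectionVars false

namespace CfsgLib.OmE

open Module Cfsg Cfsg.Geo CfsgLib.Asch7 CfsgLib.Asch9 CfsgLib.Asch11 CfsgLib.Asch19 CfsgLib.AschF
open scoped Matrix MatrixGroups Kronecker

variable {ι : Type} [Fintype ι] [DecidableEq ι] {F : Type*} [Field F]
variable {Q : (ι → F) → F}

theorem sq_mem_char2 [Finite F] (h2 : (2 : F) = 0) (F₀ : Subfield F) {c : F} (hc : c ^ 2 ∈ F₀) : c ∈ F₀ := by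
  have h2' : (2 : F₀) = 0 := by
    apply Subtype.ext
    exact h2
  obtain ⟨d, hd⟩ := sq_exists h2' (⟨c ^ 2, hc⟩ : F₀)
  have h1 : (d : F) ^ 2 = c ^ 2 := congrArg Subtype.val hd
  have h3 : (c - d) ^ 2 = 0 := by
    linear_combination -h1 + (d ^ 2 - c * d : F) * h2
  have h4 : c = d := sub_eq_zero.1 ((pow_eq_zero_iff two_ne_zero).1 h3)
  rw [h4]; exact d.2

/-- rational vectors -/
def rat (F₀ : Subfield F) (u : ι → F) : Prop := ∀ i, u i ∈ F₀

theorem rat_mulVec {F₀ : Subfield F} (B : Matrix ι ι F₀) {u : ι → F} (hu : rat F₀ u) :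
    rat F₀ ((B.map (fun x : F₀ => (x : F))) *ᵥ u) := by
  intro i
  simp only [Matrix.mulVec, dotProduct, Matrix.map_apply]
  exact F₀.sum_mem fun j _ => F₀.mul_mem (B i j).2 (hu j)

theorem mem_sub_mulVec {F₀ : Subfield F} {P h : GL ι F} (hh : h ∈ subfieldSubgroup F₀ P) :
    ∃ (B : Matrix ι ι F₀) (c : F), ∀ u, (h : Matrix ι ι F) *ᵥ ((P : Matrix ι ι F) *ᵥ u) =
      c • ((P : Matrix ι ι F) *ᵥ ((B.map (fun x : F₀ => (x : F))) *ᵥ u)) := by
  obtain ⟨g, hg, rfl⟩ := hh
  obtain ⟨B, c, hB⟩ := CfsgLib.AschSL1.mem_subfield_std hg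
  refine ⟨B, c, fun u => ?_⟩
  have h1 : (g : Matrix ι ι F) = c • (B.map (fun x : F₀ => (x : F))) := by
    ext i j
    rw [hB, Matrix.smul_apply, Matrix.map_apply, smul_eq_mul, mul_comm]
  have h3 : (((MulAut.conj P).toMonoidHom g : GL ι F) : Matrix ι ι F) =
      (P : Matrix ι ι F) * (g : Matrix ι ι F) * ((P⁻¹ : GL ι F) : Matrix ι ι F) := by
    simp [MulAut.conj_apply]
  have h4 : (P : Matrix ι ι F) * (g : Matrix ι ι F) * ((P⁻¹ : GL ι F) : Matrix ι ι F) * (P : Matrix ι ι F) =
      (P : Matrix ι ι F) * (g : Matrix ι ι F) := by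
    rw [mul_assoc, ← Units.val_mul P⁻¹ P, inv_mul_cancel, Units.val_one, mul_one]
  rw [h3, Matrix.mulVec_mulVec, h4, h1, Matrix.mul_smul, Matrix.smul_mulVec, Matrix.mulVec_mulVec]

theorem sub_quad [Finite F] (hn : 2 ≤ Fintype.card ι) (hQ : IsNondegenerateQuadraticForm Q)
    {H : Subgroup (GL ι F)} (hH : Pres Q H) (hirr : ActsIrreducibly (matrixSet H)) {F₀ : Subfield F} {P : GL ι F} {ζ : F}
    (hζ : ζ ≠ 0) (hS : IsFormRationalStructure (QuadraticMap.polar Q) F₀ ζ P) (hsub : H ≤ subfieldSubgroup F₀ P) :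
    IsQuadFormRationalStructure (fun v => ζ * Q v) F₀ P := by
  classical
  have hf := fdQ hQ
  by_cases h2 : (2 : F) = 0
  swap
  · intro u hu
    change ζ * Q ((P : Matrix ι ι F) *ᵥ u) ∈ F₀
    rw [Q_of_polar hQ h2]
    have h1 := hS u u hu hu
    have h3 : (2 : F)⁻¹ ∈ F₀ := F₀.inv_mem (by
      have : (2 : F) = 1 + 1 := by norm_num
      rw [this]; exact F₀.add_mem F₀.one_mem F₀.one_mem)
    have := F₀.mul_mem h3 h1
    convert this using 1; ring
  -- characteristic two
  have hadd : ∀ u v, Q (u + v) = Q u + Q v + QuadraticMap.polar Q u v := (qfQ hQ).add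
  -- elements of H act on the rational structure
  have hact : ∀ h ∈ H, ∃ B : Matrix ι ι F₀, ∀ u, (h : Matrix ι ι F) *ᵥ ((P : Matrix ι ι F) *ᵥ u) =
      ((P : Matrix ι ι F) *ᵥ ((B.map (fun x : F₀ => (x : F))) *ᵥ u)) := by
    intro h hh
    obtain ⟨B, c, hB⟩ := mem_sub_mulVec (hsub hh)
    -- two rational vectors with non-zero product
    obtain ⟨i, j, hij⟩ : ∃ i j : ι, QuadraticMap.polar Q ((P : Matrix ι ι F) *ᵥ Pi.single i 1) ((P : Matrix ι ι F) *ᵥ Pi.single j 1) ≠ 0 := by
      by_contra hcon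
      push Not at hcon
      have hall : ∀ u v : ι → F, QuadraticMap.polar Q ((P : Matrix ι ι F) *ᵥ u) ((P : Matrix ι ι F) *ᵥ v) = 0 := by
        intro u v
        have hu : u = ∑ i, u i • (Pi.single i 1 : ι → F) := by
          ext k
          rw [Finset.sum_apply, Finset.sum_eq_single k]
          · simp
          · intro l _ hl; simp [Ne.symm hl]
          · simp
        have hv : v = ∑ i, v i • (Pi.single i 1 : ι → F) := by
          ext k
          rw [Finset.sum_apply, Finset.sum_eq_single k]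
          · simp
          · intro l _ hl; simp [Ne.symm hl]
          · simp
        rw [hu, hv, Matrix.mulVec_sum, Matrix.mulVec_sum, hf.sum_left]
        refine Finset.sum_eq_zero fun i _ => ?_
        rw [hf.sum_right]
        refine Finset.sum_eq_zero fun j _ => ?_
        rw [Matrix.mulVec_smul, Matrix.mulVec_smul, hf.smul_left, hf.smul_right, hcon, mul_zero, mul_zero]
      have : Nonempty ι := Fintype.card_pos_iff.1 (by omega)
      obtain ⟨w, hw⟩ := exists_ne (0 : ι → F)
      obtain ⟨⟨x, hx⟩, _⟩ := hQ.nondegenerate w hw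
      apply hx
      have h1 := hall (((P⁻¹ : GL ι F) : Matrix ι ι F) *ᵥ x) (((P⁻¹ : GL ι F) : Matrix ι ι F) *ᵥ w)
      rwa [Matrix.mulVec_mulVec, Matrix.mulVec_mulVec, ← Units.val_mul, mul_inv_cancel, Units.val_one,
        Matrix.one_mulVec, Matrix.one_mulVec] at h1
    have hsr : ∀ k : ι, rat F₀ (Pi.single k 1 : ι → F) := by
      intro k l
      by_cases hl : l = k
      · subst hl; rw [Pi.single_eq_same]; exact F₀.one_mem
      · rw [Pi.single_eq_of_ne hl]; exact F₀.zero_mem
    have h1 := hS _ _ (hsr i) (hsr j)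
    have h3 := hS _ _ (rat_mulVec B (hsr i)) (rat_mulVec B (hsr j))
    have h4 : ζ * QuadraticMap.polar Q ((P : Matrix ι ι F) *ᵥ Pi.single i 1) ((P : Matrix ι ι F) *ᵥ Pi.single j 1) =
        c ^ 2 * (ζ * QuadraticMap.polar Q ((P : Matrix ι ι F) *ᵥ ((B.map (fun x : F₀ => (x : F))) *ᵥ Pi.single i 1))
          ((P : Matrix ι ι F) *ᵥ ((B.map (fun x : F₀ => (x : F))) *ᵥ Pi.single j 1))) := by
      rw [← hH.iso h hh, hB, hB, hf.smul_left, hf.smul_right, RingEquiv.refl_apply]; ring
    have hne := mul_ne_zero hζ hij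
    have hc2 : c ^ 2 ∈ F₀ := by
      have h5 : ζ * QuadraticMap.polar Q ((P : Matrix ι ι F) *ᵥ ((B.map (fun x : F₀ => (x : F))) *ᵥ Pi.single i 1))
          ((P : Matrix ι ι F) *ᵥ ((B.map (fun x : F₀ => (x : F))) *ᵥ Pi.single j 1)) ≠ 0 := by
        intro h0
        rw [h0, mul_zero] at h4
        exact hne h4
      have h6 := F₀.div_mem h1 h3
      rw [h4, mul_div_assoc, div_self h5, mul_one] at h6
      exact h6
    have hc := sq_mem_char2 h2 F₀ hc2
    refine ⟨(⟨c, hc⟩ : F₀) • B, fun u => ?_⟩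
    rw [hB u]
    have : ((⟨c, hc⟩ : F₀) • B).map (fun x : F₀ => (x : F)) = c • B.map (fun x : F₀ => (x : F)) := by
      ext i j; simp
    rw [this, Matrix.smul_mulVec, Matrix.mulVec_smul]
  -- the F₀-space of rational vectors with rational value
  let L : Submodule F₀ (ι → F₀) :=
    { carrier := {u | ζ * Q ((P : Matrix ι ι F) *ᵥ fun i => (u i : F)) ∈ F₀}
      add_mem' := fun {a b} ha hb => by
        change ζ * Q ((P : Matrix ι ι F) *ᵥ fun i => ((a + b) i : F)) ∈ F₀
        have h1 : (fun i => ((a + b) i : F)) = (fun i => (a i : F)) + fun i => (b i : F) := by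
          ext i; simp
        rw [h1, Matrix.mulVec_add, hadd]
        have h3 := hS (fun i => (a i : F)) (fun i => (b i : F)) (fun i => (a i).2) (fun i => (b i).2)
        have := F₀.add_mem (F₀.add_mem ha hb) h3
        convert this using 1; ring
      zero_mem' := by
        change ζ * Q ((P : Matrix ι ι F) *ᵥ fun i => ((0 : ι → F₀) i : F)) ∈ F₀
        have h1 : (fun i => ((0 : ι → F₀) i : F)) = 0 := by ext i; simp
        rw [h1, Matrix.mulVec_zero, (qfQ hQ).zero_on, mul_zero]; exact F₀.zero_mem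
      smul_mem' := fun c a ha => by
        change ζ * Q ((P : Matrix ι ι F) *ᵥ fun i => ((c • a) i : F)) ∈ F₀
        have h1 : (fun i => ((c • a) i : F)) = (c : F) • fun i => (a i : F) := by
          ext i; simp
        rw [h1, Matrix.mulVec_smul, hQ.smul]
        have := F₀.mul_mem (F₀.pow_mem c.2 2) ha
        convert this using 1; ring }
  have hmemL : ∀ u : ι → F₀, u ∈ L ↔ ζ * Q ((P : Matrix ι ι F) *ᵥ fun i => (u i : F)) ∈ F₀ := fun u => Iff.rfl
  have hBmap : ∀ (B : Matrix ι ι F₀) (u : ι → F₀), (B.map (fun x : F₀ => (x : F))) *ᵥ (fun i => (u i : F)) =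
      fun i => ((B *ᵥ u) i : F) := by
    intro B u
    ext i
    simp [Matrix.mulVec, dotProduct]
  have hLinv : ∀ h ∈ H, ∀ u ∈ L, ∃ u' ∈ L, (h : Matrix ι ι F) *ᵥ ((P : Matrix ι ι F) *ᵥ fun i => (u i : F)) =
      (P : Matrix ι ι F) *ᵥ fun i => (u' i : F) := by
    intro h hh u hu
    obtain ⟨B, hB⟩ := hact h hh
    refine ⟨B *ᵥ u, ?_, ?_⟩
    · rw [hmemL, ← hBmap, ← hB, hH h hh]; exact hu
    · rw [hB, hBmap]
  rcases irr_mem hirr (W := Submodule.span F {x | ∃ u ∈ L, x = (P : Matrix ι ι F) *ᵥ fun i => (u i : F)}) (by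
    intro g hg v hv
    induction hv using Submodule.span_induction with
    | mem x hx =>
      obtain ⟨u, hu, rfl⟩ := hx
      obtain ⟨u', hu', h1⟩ := hLinv g hg u hu
      rw [h1]
      exact Submodule.subset_span ⟨u', hu', rfl⟩
    | zero => rw [Matrix.mulVec_zero]; exact Submodule.zero_mem _
    | add x y _ _ ihx ihy => rw [Matrix.mulVec_add]; exact Submodule.add_mem _ ihx ihy
    | smul a x _ ihx => rw [Matrix.mulVec_smul]; exact Submodule.smul_mem _ a ihx) with hb | ht
  · exfalso
    have hL0 : ∀ u ∈ L, u = 0 := by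
      intro u hu
      have h1 : ((P : Matrix ι ι F) *ᵥ fun i => (u i : F)) ∈
          Submodule.span F {x | ∃ u ∈ L, x = (P : Matrix ι ι F) *ᵥ fun i => (u i : F)} :=
        Submodule.subset_span ⟨u, hu, rfl⟩
      rw [hb, Submodule.mem_bot] at h1
      have h3 : (fun i => (u i : F)) = 0 := by
        have := congrArg (fun z => ((P⁻¹ : GL ι F) : Matrix ι ι F) *ᵥ z) h1
        simpa [Matrix.mulVec_mulVec, ← Units.val_mul] using this
      ext i
      have := congrFun h3 i
      simpa using this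
    -- every element of H is trivial
    apply not_scalar hn hirr
    intro h hh
    have : Nonempty ι := Fintype.card_pos_iff.1 (by omega)
    obtain ⟨B, hB⟩ := hact h hh
    have hB1 : ∀ u : ι → F₀, B *ᵥ u = u := by
      intro u
      have h1 : B *ᵥ u + u ∈ L := by
        rw [hmemL]
        have h3 : (fun i => ((B *ᵥ u + u) i : F)) = (fun i => ((B *ᵥ u) i : F)) + fun i => (u i : F) := by
          ext i; simp
        rw [h3, Matrix.mulVec_add, hadd, ← hBmap, ← hB, hH h hh, hB, hBmap]
        have h4 := hS (fun i => ((B *ᵥ u) i : F)) (fun i => (u i : F)) (fun i => ((B *ᵥ u) i).2) (fun i => (u i).2)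
        convert h4 using 1
        linear_combination (ζ * Q ((P : Matrix ι ι F) *ᵥ fun i => (u i : F))) * h2
      have h3 := hL0 _ h1
      have h4 : u + u = 0 := by
        ext i
        have : (2 : F) * (u i : F) = 0 := by rw [h2, zero_mul]
        simp only [Pi.add_apply, Subfield.coe_add, Pi.zero_apply, ZeroMemClass.coe_zero]
        linear_combination this
      exact add_right_cancel (h3.trans h4.symm)
    refine mem_scalars_of_eq (c := 1) ?_
    rw [one_smul]
    have h1 : (h : Matrix ι ι F) * (P : Matrix ι ι F) = (P : Matrix ι ι F) := by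
      have hBe : B = 1 := by
        ext i j
        have := congrFun (hB1 (Pi.single j 1)) i
        rw [Matrix.mulVec_single_one] at this
        rw [Matrix.one_apply]
        simp only [Matrix.col_apply] at this
        rw [this, Pi.single_apply]
      have h5 : (B.map (fun x : F₀ => (x : F))) = 1 := by
        rw [hBe]; ext i j; by_cases hij : i = j <;> simp [Matrix.one_apply, hij]
      ext i j
      have := congrFun (hB (Pi.single j 1)) i
      rw [h5, Matrix.one_mulVec, Matrix.mulVec_mulVec, Matrix.mulVec_single_one, Matrix.mulVec_single_one] at this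
      simpa using this
    calc (h : Matrix ι ι F) = (h : Matrix ι ι F) * ((P : Matrix ι ι F) * ((P⁻¹ : GL ι F) : Matrix ι ι F)) := by
          rw [← Units.val_mul, mul_inv_cancel, Units.val_one, mul_one]
      _ = 1 := by rw [← mul_assoc, h1, ← Units.val_mul, mul_inv_cancel, Units.val_one]
  · -- L is everything
    let b := Module.finBasis F₀ L
    have hspan : Submodule.span F (Set.range fun k : Fin (finrank F₀ L) =>
        (P : Matrix ι ι F) *ᵥ fun i => ((b k : ι → F₀) i : F)) = ⊤ := by
      rw [eq_top_iff, ← ht, Submodule.span_le]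
      rintro _ ⟨u, hu, rfl⟩
      have h1 := b.sum_repr ⟨u, hu⟩
      have h3 : (fun i => (u i : F)) = ∑ k, (b.repr ⟨u, hu⟩ k : F) • fun i => ((b k : ι → F₀) i : F) := by
        have h4 : (∑ k, b.repr ⟨u, hu⟩ k • (b k : ι → F₀)) = u := by
          have := congrArg (Submodule.subtype L) h1
          rw [map_sum] at this
          exact this
        ext i
        have h5 := congrArg (fun z : ι → F₀ => ((z i : F₀) : F)) h4
        simp only [Finset.sum_apply, Pi.smul_apply, smul_eq_mul] at h5 ⊢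
        rw [← h5]
        push_cast
        rfl
      rw [h3, Matrix.mulVec_sum]
      refine Submodule.sum_mem _ fun k _ => ?_
      rw [Matrix.mulVec_smul]
      exact Submodule.smul_mem _ _ (Submodule.subset_span ⟨k, rfl⟩)
    have hle : Fintype.card ι ≤ finrank F₀ L := by
      have h1 := finrank_range_le_card (R := F) (b := fun k : Fin (finrank F₀ L) =>
        (P : Matrix ι ι F) *ᵥ fun i => ((b k : ι → F₀) i : F))
      unfold Set.finrank at h1
      rw [hspan, finrank_top, Module.finrank_fintype_fun_eq_card, Fintype.card_fin] at h1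
      exact h1
    have htop : L = ⊤ := by
      apply Submodule.eq_top_of_finrank_eq
      apply le_antisymm (Submodule.finrank_le L)
      rw [Module.finrank_fintype_fun_eq_card]
      exact hle
    intro u hu
    have h1 : (fun i => (⟨u i, hu i⟩ : F₀)) ∈ L := by rw [htop]; trivial
    exact h1

end CfsgLib.OmE
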