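import Mathlib
import Cfsg.Agent.LibOmE3
import Cfsg.Agent.LibAschNumH13

/-! Aschbacher's theorem for a group preserving a non-degenerate quadratic form (any characteristic) -/
set_option autoImplicit false
set_option linter.unusedSectionVars false

namespace CfsgLib.OmE

open Module Cfsg Cfsg.Geo CfsgLib.Asch7 CfsgLib.Asch9 CfsgLib.Asch11 CfsgLib.Asch12 CfsgLib.Asch16 CfsgLib.Asch18 CfsgLib.Asch19
  CfsgLib.AschF
open scoped Matrix MatrixGroups Kronecker

variable {ι : Type} [Fintype ι] [DecidableEq ι] {F : Type*} [Field F]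

inductive ClsQ [Fintype F] (Q : (ι → F) → F) (H : Subgroup (GL ι F)) : Prop
  | sing (W : Submodule F (ι → F)) (h0 : W ≠ ⊥) (hs : IsTotallySingularQuad Q W) (h : H ≤ subspaceStabilizer W)
  | vec (v : ι → F) (h2 : (2 : F) = 0) (hv : Q v ≠ 0) (h : H ≤ subspaceStabilizer (Submodule.span F {v}))
  | nond (W : Submodule F (ι → F)) (h0 : W ≠ ⊥) (hs : IsNondegenerateOn (QuadraticMap.polar Q) W)
      (hd : 2 * finrank F W < Fintype.card ι) (h : H ≤ subspaceStabilizer W)
  | half (k : ℕ) (D : Fin 2 → Submodule F (ι → F)) (hD : IsNondegenerateMDecomposition (QuadraticMap.polar Q) k D)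
      (h : H ≤ decompositionStabilizer D)
  | dec (t k : ℕ) (D : Fin t → Submodule F (ι → F)) (hD : IsOrthogonalMDecomposition Q k D)
      (hirr : ActsIrreducibly (matrixSet H)) (h : H ≤ decompositionStabilizer D)
  | pair (k : ℕ) (D : Fin 2 → Submodule F (ι → F)) (hD : IsMDecomposition k D)
      (hs : ∀ i, IsTotallySingularQuad Q (D i)) (hirr : ActsIrreducibly (matrixSet H))
      (h : H ≤ decompositionStabilizer D)
  | fld (r : ℕ) (K : Subalgebra F (Matrix ι ι F)) (hr : r.Prime) (hK : IsFieldSubalgebra r K)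
      (h : H ≤ subalgebraNormalizer K) (ha : IsAdjointClosedFor (QuadraticMap.polar Q) K)
      (hc : IsSelfAdjointFor (QuadraticMap.polar Q) K ∨ (r = 2 ∧ ¬ IsSelfAdjointFor (QuadraticMap.polar Q) K ∧
        ∀ k ∈ K, ∃ c : F, ∀ v, Q (k *ᵥ v) = c * Q v)) (hirr : ActsIrreducibly (matrixSet H))
  | tpA (n₁ n₂ : ℕ) (b : Basis (Fin n₁ × Fin n₂) F (ι → F))
      (f₁ : (Fin n₁ → F) → (Fin n₁ → F) → F) (f₂ : (Fin n₂ → F) → (Fin n₂ → F) → F)
      (h1 : 2 ≤ n₁) (h2 : 2 ≤ n₂) (hf₁ : IsSymplecticForm f₁) (hf₂ : IsSymplecticForm f₂)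
      (hform : ∀ i l j l', QuadraticMap.polar Q (b (i, l)) (b (j, l')) = gramMatrix f₁ i j * gramMatrix f₂ l l')
      (hQt : ∀ u v, Q (ten b u v) = 0) (hirr : ActsIrreducibly (matrixSet H))
      (hkr : ∀ h ∈ H, ∃ (A : (Matrix (Fin n₁) (Fin n₁) F)ˣ) (N : (Matrix (Fin n₂) (Fin n₂) F)ˣ),
        KA b (h : Matrix ι ι F) A.1 N.1)
  | tpS (n₁ n₂ : ℕ) (b : Basis (Fin n₁ × Fin n₂) F (ι → F))
      (f₁ : (Fin n₁ → F) → (Fin n₁ → F) → F) (f₂ : (Fin n₂ → F) → (Fin n₂ → F) → F) (h20 : (2 : F) ≠ 0)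
      (h1 : 3 ≤ n₁) (h2 : 3 ≤ n₂) (hf₁ : FD (RingEquiv.refl F) 1 f₁) (hf₂ : FD (RingEquiv.refl F) 1 f₂)
      (hform : ∀ i l j l', QuadraticMap.polar Q (b (i, l)) (b (j, l')) = gramMatrix f₁ i j * gramMatrix f₂ l l')
      (hirr : ActsIrreducibly (matrixSet H))
      (hkr : ∀ h ∈ H, ∃ (A : (Matrix (Fin n₁) (Fin n₁) F)ˣ) (N : (Matrix (Fin n₂) (Fin n₂) F)ˣ),
        KA b (h : Matrix ι ι F) A.1 N.1)
  | sub (F₀ : Subfield F) (r : ℕ) (P : GL ι F) (ζ : F) (hr : r.Prime) (hc : Fintype.card F = Nat.card F₀ ^ r)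
      (hζ : ζ ≠ 0) (hS : IsQuadFormRationalStructure (fun v => ζ * Q v) F₀ P) (hirr : ActsIrreducibly (matrixSet H))
      (h : H ≤ subfieldSubgroup F₀ P)
  | st (k : ℕ) (R : Subgroup (GL ι F)) (h20 : (2 : F) ≠ 0) (hk : 1 ≤ k) (hcard : Fintype.card ι = 2 ^ k)
      (hal : alg R = ⊤) (hc : ⁅R, R⁆ ≤ scalars ι F) (hRH : R ≤ H) (hR : Nat.card R = 2 ^ (2 * k) * 2)
      (h : H ≤ subgroupNormalizer R)
  | tw (m t : ℕ) (b : Basis (Fin t → Fin m) F (ι → F)) (ε₁ : F)
      (f₁ : (Fin m → F) → (Fin m → F) → F) (hf₁ : FD (RingEquiv.refl F) ε₁ f₁) (hε : ε₁ ^ t = 1)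
      (hm : 2 ≤ m) (ht : 2 ≤ t)
      (c : F) (hc : c ≠ 0) (hform : ∀ x y, QuadraticMap.polar Q (b x) (b y) = c * ∏ s, gramMatrix f₁ (x s) (y s))
      (h20 : (2 : F) = 0 → (∀ v, f₁ v v = 0) ∧ ∀ u, Q (tens b u) = 0)
      (hTW : ∀ h ∈ H, TW b (h : Matrix ι ι F)) (hirr : ActsIrreducibly (matrixSet H))

/-- the sum of two isometric (or not) halves: t = 2 -/
theorem half_of {Q : (ι → F) → F} {t k : ℕ} {D : Fin t → Submodule F (ι → F)}
    (hD : IsNondegenerateMDecomposition (QuadraticMap.polar Q) k D) (h2k : 2 * k = Fintype.card ι) : t = 2 := by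
  have h1 := CfsgLib.AschNum.dec_mul hD.decomp
  have hpos := hD.decomp.pos
  rw [← h2k] at h1
  exact Nat.eq_of_mul_eq_mul_right hpos h1

theorem aschQ [Fintype F] {Q : (ι → F) → F} (hn : 4 ≤ Fintype.card ι) (hQ : IsNondegenerateQuadraticForm Q)
    (H : Subgroup (GL ι F)) (hH : Pres Q H) : ClsQ Q H ∨ InOrthogonalResidualClass H := by
  classical
  have hne : Nonempty ι := Fintype.card_pos_iff.1 (by omega)
  have hf := fdQ hQ
  have hI := hH.iso
  -- decomposition in the irreducible case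
  have hdec : ∀ (t k : ℕ) (D : Fin t → Submodule F (ι → F)), IsNondegenerateMDecomposition (QuadraticMap.polar Q) k D →
      ActsIrreducibly (matrixSet H) → H ≤ decompositionStabilizer D → ClsQ Q H := fun t k D hD hirr h =>
    ClsQ.dec t k D (dec_isometric hH hirr hD h) hirr h
  have hpair : ∀ (k : ℕ) (D : Fin 2 → Submodule F (ι → F)), IsMDecomposition k D →
      (∀ i, IsTotallySingularFor (QuadraticMap.polar Q) (D i)) → ActsIrreducibly (matrixSet H) →
      H ≤ decompositionStabilizer D → ClsQ Q H := by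
    intro k D hD hs hirr h
    by_cases h2 : (2 : F) = 0
    · have hk : 2 ≤ k := by
        have := mdec_card hD
        omega
      exact ClsQ.pair k D hD (pair_sing hQ h2 hH hirr hD hk hs h) hirr h
    · exact ClsQ.pair k D hD (fun i => sing_odd hQ h2 (hs i)) hirr h
  have hfld : ∀ (r : ℕ) (K : Subalgebra F (Matrix ι ι F)), r.Prime → IsFieldSubalgebra r K →
      H ≤ subalgebraNormalizer K → IsAdjointClosedFor (QuadraticMap.polar Q) K →
      (IsSelfAdjointFor (QuadraticMap.polar Q) K ∨ (r = 2 ∧ ¬ IsSelfAdjointFor (QuadraticMap.polar Q) K)) →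
      ActsIrreducibly (matrixSet H) → ClsQ Q H := by
    intro r K hr hK h ha hc hirr
    rcases hc with hc | ⟨hr2, hc⟩
    · exact ClsQ.fld r K hr hK h ha (Or.inl hc) hirr
    · subst hr2
      exact ClsQ.fld 2 K hr hK h ha (Or.inr ⟨rfl, hc, fld_sim (by omega) hQ hH hirr hK h ha hc⟩) hirr
  rcases aschbacherF hf (by omega) H hI with h | ⟨hirr, N, hcore, hreal⟩
  swap
  · right
    have hIN := hI.mono hcore.le
    exact ⟨N, ⟨hcore.le, hcore.normal, hcore.perfect, hcore.simple, hcore.nonabelian, hcore.centralizer_scalar,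
      absIrred_of_alg hcore.alg, hreal⟩, no_unitary hf hcore.alg hIN hreal⟩
  left
  by_cases hirr : ActsIrreducibly (matrixSet H)
  swap
  · -- reducible
    rcases CfsgLib.AschF.reducible hf hI hirr with ⟨W, h0, h1, h⟩ | ⟨W, h0, h1, hd, h⟩ | ⟨t, k, D, hD, h2k, h⟩
    · by_cases h2 : (2 : F) = 0
      · rcases sing_char2 hQ h2 hH h0 h1 h with ⟨W', h0', h1', h'⟩ | ⟨v, hv, h'⟩
        · exact ClsQ.sing W' h0' h1' h'
        · exact ClsQ.vec v h2 hv h'
      · exact ClsQ.sing W h0 (sing_odd hQ h2 h1) h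
    · exact ClsQ.nond W h0 h1 hd h
    · have ht := half_of hD h2k
      subst ht
      exact ClsQ.half k D hD h
  cases h with
  | sing W h0 hs h =>
    by_cases h2 : (2 : F) = 0
    · rcases sing_char2 hQ h2 hH h0 hs h with ⟨W', h0', h1', h'⟩ | ⟨v, hv, h'⟩
      · exact ClsQ.sing W' h0' h1' h'
      · exact ClsQ.vec v h2 hv h'
    · exact ClsQ.sing W h0 (sing_odd hQ h2 hs) h
  | nond W h0 hs hd h => exact ClsQ.nond W h0 hs hd h
  | dec t k D hD _ h => exact hdec t k D hD hirr h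
  | pair k D hD hs _ h => exact hpair k D hD hs hirr h
  | fld r K hr hK h ha hc _ =>
    rcases hc with ⟨_, hc⟩ | ⟨hc, _⟩
    · exact hfld r K hr hK h ha hc hirr
    · exact absurd rfl hc
  | tp n₁ n₂ b ε₁ ε₂ f₁ f₂ h1 h2 hf₁ hf₂ hε _ hform _ hkr =>
    by_cases h20 : (2 : F) = 0
    · obtain ⟨ha1, ha2, hQt⟩ := tp_sing b hQ h20 (by omega) hH hirr h1 h2 hf₁ hf₂ hform hkr
      have hm1 := neg_one_two h20
      have e1 : ε₁ = -1 := by rcases hf₁.eps with h | h <;> rw [h]; exact hm1.symm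
      have e2 : ε₂ = -1 := by rcases hf₂.eps with h | h <;> rw [h]; exact hm1.symm
      rw [e1] at hf₁
      rw [e2] at hf₂
      exact ClsQ.tpA n₁ n₂ b f₁ f₂ h1 h2 (symp_of_fd hf₁ ha1) (symp_of_fd hf₂ ha2) hform hQt hirr hkr
    · rcases hf₁.eps with he | he
      · rw [he] at hε hf₁
        rw [one_mul] at hε
        rw [hε] at hf₂
        have fin : ∀ (n : ℕ) (b : Basis (Fin n × Fin 2) F (ι → F)) (g₁ : (Fin n → F) → (Fin n → F) → F)
            (g₂ : (Fin 2 → F) → (Fin 2 → F) → F), 2 ≤ n → FD (RingEquiv.refl F) 1 g₁ → FD (RingEquiv.refl F) 1 g₂ →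
            (∀ i l j l', QuadraticMap.polar Q (b (i, l)) (b (j, l')) = gramMatrix g₁ i j * gramMatrix g₂ l l') →
            (∀ h ∈ H, ∃ (A : (Matrix (Fin n) (Fin n) F)ˣ) (N : (Matrix (Fin 2) (Fin 2) F)ˣ),
              KA b (h : Matrix ι ι F) A.1 N.1) → ClsQ Q H := by
          intro n b g₁ g₂ hn2 hg₁ hg₂ hform hkr
          rcases tp_two b hf h20 hI hirr (by omega) hg₁ hg₂ hform hkr with ⟨t, k, D, hD, h⟩ | ⟨k, D, hD, hs, h⟩ | ⟨r, K, hr, hK, h, ha, hc⟩
          · exact hdec t k D hD hirr h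
          · exact hpair k D hD hs hirr h
          · exact hfld r K hr hK h ha hc hirr
        rcases (by omega : n₂ = 2 ∨ 3 ≤ n₂) with hn2 | hn2
        · subst hn2
          exact fin n₁ b f₁ f₂ h1 hf₁ hf₂ hform hkr
        rcases (by omega : n₁ = 2 ∨ 3 ≤ n₁) with hn1 | hn1
        · subst hn1
          exact fin n₂ (b.reindex (Equiv.prodComm _ _)) f₂ f₁ h2 hf₂ hf₁ (form_swap b hform) (fun h hh => by
              obtain ⟨A, N, hk⟩ := hkr h hh
              exact ⟨N, A, KA_swap b hk⟩)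
        exact ClsQ.tpS n₁ n₂ b f₁ f₂ h20 hn1 hn2 hf₁ hf₂ hform hirr hkr
      · rw [he] at hε hf₁
        have : ε₂ = -1 := by linear_combination -hε
        rw [this] at hf₂
        have ha1 := alt_of_neg hf₁ h20
        have ha2 := alt_of_neg hf₂ h20
        exact ClsQ.tpA n₁ n₂ b f₁ f₂ h1 h2 (symp_of_fd hf₁ ha1) (symp_of_fd hf₂ ha2) hform
          (tp_sing_odd b hQ h20 hf₁ hf₂ hform ha1) hirr hkr
  | sub F₀ r P ζ hr hc hζ hS h _ _ _ _ =>
    exact ClsQ.sub F₀ r P ζ hr hc hζ (sub_quad (by omega) hQ hH hirr hζ hS h) hirr h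
  | st r k z p e R hR hk hal hc hRH hrp hmf h =>
    have hIR := hI.mono hRH
    have hz2 : z ≤ 2 := by
      rw [← hR.center]
      have hinj : ∀ x : Subgroup.center R, ∃ s : Bool, (((x : R) : GL ι F) : Matrix ι ι F) =
          (if s then (1 : F) else -1) • (1 : Matrix ι ι F) := by
        intro x
        have h1 : (x : R) ∈ (scalars ι F).subgroupOf R := by rw [← center_eq hal]; exact x.2
        rw [Subgroup.mem_subgroupOf, mem_scalars_iff] at h1
        obtain ⟨c, hc'⟩ := h1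
        rcases scalar_pm hf (hIR _ (x : R).2) hc' with h | h
        · exact ⟨true, by rw [hc', h]; simp⟩
        · exact ⟨false, by rw [hc', h]; simp⟩
      choose s hs using hinj
      have h1 : Function.Injective s := by
        intro x y hxy
        ext1; ext1; ext1
        rw [hs, hs, hxy]
      have h3 := Nat.card_le_card_of_injective s h1
      rwa [Nat.card_eq_fintype_card (α := Bool), Fintype.card_bool] at h3
    have hr2 : r = 2 ∧ z = 2 := by
      rcases hR.hz with ⟨ho, hz⟩ | ⟨h1, hz⟩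
      · exfalso
        have := hR.prime.two_le
        rw [hz] at hz2
        have : r = 2 := by omega
        rw [this] at ho
        exact absurd ho (by decide)
      · exact ⟨h1, by omega⟩
    obtain ⟨hr2, hz⟩ := hr2
    subst hr2
    subst hz
    have h20 : (2 : F) ≠ 0 := by
      have := hR.rne
      exact_mod_cast this
    exact ClsQ.st k R h20 hk hR.deg hal hc hRH hR.card h
  | tw m' t e P b hP ε₁ f₁ hf₁ hε _ hm' ht c hc hform hS hTW N hNH hnrd halg hperf hPT h =>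
    exact ClsQ.tw m' t b ε₁ f₁ hf₁ (hε rfl) hm' ht c hc hform
      (fun h20 => tw_sing b hQ h20 (by omega) ht hH hirr hf₁ hc hform hTW) hTW hirr

end CfsgLib.OmE
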