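import Mathlib
import Cfsg.Agent.LibOmE4

/-! planes over small fields -/
set_option autoImplicit false
set_option linter.unusedSectionVars false

namespace CfsgLib.OmE

open Module Cfsg Cfsg.Geo CfsgLib.AschF
open scoped Matrix MatrixGroups Kronecker

variable {ι : Type} [Fintype ι] [DecidableEq ι] {F : Type*} [Field F]
variable {Q : (ι → F) → F}

theorem Qadd (hQ : IsNondegenerateQuadraticForm Q) (u v : ι → F) : Q (u + v) = Q u + Q v + QuadraticMap.polar Q u v :=
  (qfQ hQ).add u v

theorem Qzero (hQ : IsNondegenerateQuadraticForm Q) : Q 0 = 0 := (qfQ hQ).zero_on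

theorem Qneg (hQ : IsNondegenerateQuadraticForm Q) (v : ι → F) : Q (-v) = Q v := by
  have := hQ.smul (-1) v
  rw [neg_one_smul] at this
  rw [this]; ring

theorem Qcomb (hQ : IsNondegenerateQuadraticForm Q) (u v : ι → F) (x y : F) :
    Q (x • u + y • v) = x ^ 2 * Q u + y ^ 2 * Q v + x * y * QuadraticMap.polar Q u v := by
  rw [Qadd hQ, hQ.smul, hQ.smul, hQ.polar_bilinear.smul_left, hQ.polar_bilinear.smul_right]; ring

theorem pcomb_left (hQ : IsNondegenerateQuadraticForm Q) (u v w : ι → F) (x y : F) :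
    QuadraticMap.polar Q (x • u + y • v) w = x * QuadraticMap.polar Q u w + y * QuadraticMap.polar Q v w := by
  rw [hQ.polar_bilinear.add_left, hQ.polar_bilinear.smul_left, hQ.polar_bilinear.smul_left]

theorem pcomb_right (hQ : IsNondegenerateQuadraticForm Q) (u v w : ι → F) (x y : F) :
    QuadraticMap.polar Q w (x • u + y • v) = x * QuadraticMap.polar Q w u + y * QuadraticMap.polar Q w v := by
  rw [hQ.polar_bilinear.add_right, hQ.polar_bilinear.smul_right, hQ.polar_bilinear.smul_right]

/-- two vectors with a non-degenerate Gram matrix span a plane containing them -/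
theorem plane_span [Finite F] (hQ : IsNondegenerateQuadraticForm Q) {D : Submodule F (ι → F)} (hd : finrank F D = 2)
    {u v : ι → F} (hu : u ∈ D) (hv : v ∈ D)
    (hdet : QuadraticMap.polar Q u u * QuadraticMap.polar Q v v - QuadraticMap.polar Q u v ^ 2 ≠ 0) :
    (∀ w ∈ D, ∃ x y : F, w = x • u + y • v) ∧ (∀ x y : F, x • u + y • v = 0 → x = 0 ∧ y = 0) := by
  have hsymm : QuadraticMap.polar Q v u = QuadraticMap.polar Q u v := QuadraticMap.polar_comm Q v u
  have hzero : ∀ w, QuadraticMap.polar Q 0 w = 0 := (fdQ hQ).zero_left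
  have hind : ∀ x y : F, x • u + y • v = 0 → x = 0 ∧ y = 0 := by
    intro x y hxy
    have h1 := pcomb_left hQ u v u x y
    have h2 := pcomb_left hQ u v v x y
    rw [hxy, hzero] at h1 h2
    rw [hsymm] at h1
    constructor
    · apply (mul_eq_zero.1 (show x * (QuadraticMap.polar Q u u * QuadraticMap.polar Q v v - QuadraticMap.polar Q u v ^ 2) = 0 by
        linear_combination (-QuadraticMap.polar Q v v) * h1 + QuadraticMap.polar Q u v * h2)).resolve_right hdet
    · apply (mul_eq_zero.1 (show y * (QuadraticMap.polar Q u u * QuadraticMap.polar Q v v - QuadraticMap.polar Q u v ^ 2) = 0 by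
        linear_combination (-QuadraticMap.polar Q u u) * h2 + QuadraticMap.polar Q u v * h1)).resolve_right hdet
  refine ⟨?_, hind⟩
  have hli : LinearIndependent F ![(⟨u, hu⟩ : D), ⟨v, hv⟩] := by
    rw [LinearIndependent.pair_iff]
    intro x y hxy
    exact hind x y (congrArg Subtype.val hxy)
  have hsp := hli.span_eq_top_of_card_eq_finrank' (by rw [hd]; simp)
  intro w hw
  have h1 : (⟨w, hw⟩ : D) ∈ Submodule.span F (Set.range ![(⟨u, hu⟩ : D), ⟨v, hv⟩]) := by rw [hsp]; trivial
  rw [Matrix.range_cons, Matrix.range_cons, Matrix.range_empty, Set.union_empty, Set.singleton_union,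
    Submodule.mem_span_pair] at h1
  obtain ⟨x, y, hxy⟩ := h1
  exact ⟨x, y, (congrArg Subtype.val hxy).symm⟩

/-- hyperbolic basis of a plus type plane -/
theorem plane_hyp [Finite F] (hQ : IsNondegenerateQuadraticForm Q) {D : Submodule F (ι → F)} (hd : finrank F D = 2)
    (hnd : IsNondegenerateOn (QuadraticMap.polar Q) D) (hp : IsPlusTypeOn Q D) :
    ∃ e ∈ D, ∃ g ∈ D, Q e = 0 ∧ Q g = 0 ∧ QuadraticMap.polar Q e g = 1 ∧ ∀ w ∈ D, ∃ x y : F, w = x • e + y • g := by
  obtain ⟨U, hUD, hUs, hU⟩ := hp
  rw [hd] at hU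
  have hU0 : U ≠ ⊥ := by
    rintro rfl
    rw [finrank_bot] at hU
    omega
  obtain ⟨e, heU, he0⟩ := (Submodule.ne_bot_iff U).1 hU0
  have heD := hUD heU
  have hQe := hUs e heU
  obtain ⟨⟨x, hx, hxe⟩, _⟩ := hnd e heD he0
  obtain ⟨x', hx'D, h1⟩ : ∃ x' ∈ D, QuadraticMap.polar Q e x' = 1 := by
    refine ⟨(QuadraticMap.polar Q x e)⁻¹ • x, D.smul_mem _ hx, ?_⟩
    rw [hQ.polar_bilinear.smul_right, QuadraticMap.polar_comm Q e x, inv_mul_cancel₀ hxe]
  have hee : QuadraticMap.polar Q e e = 0 := by rw [polar_self hQ, hQe, mul_zero]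
  obtain ⟨g, hg⟩ : ∃ g, g = x' + (-Q x') • e := ⟨_, rfl⟩
  have hgD : g ∈ D := by rw [hg]; exact D.add_mem hx'D (D.smul_mem _ heD)
  have hQg : Q g = 0 := by
    rw [hg, Qadd hQ, hQ.smul, hQe, hQ.polar_bilinear.smul_right, QuadraticMap.polar_comm Q x' e, h1]; ring
  have heg : QuadraticMap.polar Q e g = 1 := by
    rw [hg, hQ.polar_bilinear.add_right, hQ.polar_bilinear.smul_right, h1, hee]; ring
  refine ⟨e, heD, g, hgD, hQe, hQg, heg, (plane_span hQ hd heD hgD ?_).1⟩
  rw [hee, heg]; simp

theorem Qhyp (hQ : IsNondegenerateQuadraticForm Q) {e g : ι → F} (he : Q e = 0) (hg : Q g = 0)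
    (heg : QuadraticMap.polar Q e g = 1) (x y : F) : Q (x • e + y • g) = x * y := by
  rw [Qcomb hQ, he, hg, heg]; ring

/-- a plus type plane over a field with two or three elements has one pair of vectors of norm one -/
theorem plane_plus_small [Fintype F] (hQ : IsNondegenerateQuadraticForm Q) {D : Submodule F (ι → F)} (hd : finrank F D = 2)
    (hnd : IsNondegenerateOn (QuadraticMap.polar Q) D) (hp : IsPlusTypeOn Q D) (hF : Fintype.card F ≤ 3) :
    ∃ v ∈ D, Q v = 1 ∧ ∀ w ∈ D, Q w = 1 → w = v ∨ w = -v := by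
  obtain ⟨e, heD, g, hgD, he, hg, heg, hsp⟩ := plane_hyp hQ hd hnd hp
  refine ⟨e + g, D.add_mem heD hgD, ?_, ?_⟩
  · have := Qhyp hQ he hg heg 1 1
    simpa using this
  · intro w hw hQw
    obtain ⟨x, y, rfl⟩ := hsp w hw
    rw [Qhyp hQ he hg heg] at hQw
    have hx0 : x ≠ 0 := left_ne_zero_of_mul (by rw [hQw]; exact one_ne_zero)
    have hx2 : x ^ 2 = 1 := by
      have h1 := FiniteField.pow_card_sub_one_eq_one x hx0
      have h2 := Fintype.one_lt_card (α := F)
      rcases (by omega : Fintype.card F = 2 ∨ Fintype.card F = 3) with h | h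
      · rw [h] at h1; simp at h1; rw [h1]; ring
      · rw [h] at h1; exact h1
    have hxy : y = x := by
      have : x * (y - x) = 0 := by linear_combination hQw - hx2
      exact sub_eq_zero.1 ((mul_eq_zero.1 this).resolve_left hx0)
    rcases sq_eq_one_iff_of_ne_zero_or x hx2 with h | h
    · left; rw [hxy, h, one_smul, one_smul]
    · right; rw [hxy, h, neg_one_smul, neg_one_smul]; abel
where
  sq_eq_one_iff_of_ne_zero_or (x : F) (h : x ^ 2 = 1) : x = 1 ∨ x = -1 := by
    have : (x - 1) * (x + 1) = 0 := by linear_combination h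
    rcases mul_eq_zero.1 this with h | h
    · left; exact sub_eq_zero.1 h
    · right; exact eq_neg_of_add_eq_zero_left h

/-- the plane condition: the vectors of norm one form an orthonormal frame -/
def FrameOne (Q : (ι → F) → F) (D : Submodule F (ι → F)) : Prop :=
  ∃ v ∈ D, ∃ w ∈ D, Q v = 1 ∧ Q w = 1 ∧ QuadraticMap.polar Q v w = 0 ∧
    ∀ u ∈ D, Q u = 1 → u = v ∨ u = -v ∨ u = w ∨ u = -w

theorem plane_plus_five [Fintype F] (hQ : IsNondegenerateQuadraticForm Q) {D : Submodule F (ι → F)} (hd : finrank F D = 2)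
    (hnd : IsNondegenerateOn (QuadraticMap.polar Q) D) (hp : IsPlusTypeOn Q D) (hF : Fintype.card F = 5) :
    FrameOne Q D := by
  obtain ⟨e, heD, g, hgD, he, hg, heg, hsp⟩ := plane_hyp hQ hd hnd hp
  have h5 : (5 : F) = 0 := by
    have h1 : ((Fintype.card F : ℕ) : F) = 0 := FiniteField.cast_card_eq_zero F
    rw [hF] at h1
    exact_mod_cast h1
  refine ⟨(1 : F) • e + (1 : F) • g, D.add_mem (D.smul_mem _ heD) (D.smul_mem _ hgD),
    (2 : F) • e + (3 : F) • g, D.add_mem (D.smul_mem _ heD) (D.smul_mem _ hgD), ?_, ?_, ?_, ?_⟩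
  · rw [Qhyp hQ he hg heg]; ring
  · rw [Qhyp hQ he hg heg]; linear_combination h5
  · have hee : QuadraticMap.polar Q e e = 0 := by rw [polar_self hQ, he, mul_zero]
    have hgg : QuadraticMap.polar Q g g = 0 := by rw [polar_self hQ, hg, mul_zero]
    have hge : QuadraticMap.polar Q g e = 1 := by rw [QuadraticMap.polar_comm]; exact heg
    rw [pcomb_left hQ, pcomb_right hQ, pcomb_right hQ, hee, hgg, hge, heg]
    linear_combination h5
  · intro u hu hQu
    obtain ⟨x, y, rfl⟩ := hsp u hu
    rw [Qhyp hQ he hg heg] at hQu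
    have hx0 : x ≠ 0 := left_ne_zero_of_mul (by rw [hQu]; exact one_ne_zero)
    have hx4 : x ^ 4 = 1 := by
      have h1 := FiniteField.pow_card_sub_one_eq_one x hx0
      rw [hF] at h1; exact h1
    have hfac : (x - 1) * ((x + 1) * ((x - 2) * (x + 2))) = 0 := by linear_combination hx4 + (1 - x ^ 2) * h5
    have hy : ∀ a b : F, a * b = 1 → x = a → y = b := by
      intro a b hab hxa
      have h6 : x * (y - b) = 0 := by rw [hxa] at hQu ⊢; linear_combination hQu - hab
      exact sub_eq_zero.1 ((mul_eq_zero.1 h6).resolve_left hx0)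
    rcases mul_eq_zero.1 hfac with h | h
    · left
      have hx : x = 1 := sub_eq_zero.1 h
      rw [hx, hy 1 1 (by ring) hx]
    rcases mul_eq_zero.1 h with h | h
    · right; left
      have hx : x = -1 := eq_neg_of_add_eq_zero_left h
      rw [hy (-1) (-1) (by ring) hx, hx]; module
    rcases mul_eq_zero.1 h with h | h
    · right; right; left
      have hx : x = 2 := sub_eq_zero.1 h
      rw [hy 2 3 (by linear_combination h5) hx, hx]
    · right; right; right
      have hx : x = -2 := eq_neg_of_add_eq_zero_left h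
      rw [hy (-2) (-3) (by linear_combination h5) hx, hx]; module

/-- a vector of a plane orthogonal to a given one -/
theorem exists_orth (hQ : IsNondegenerateQuadraticForm Q) {D : Submodule F (ι → F)} (hd : 2 ≤ finrank F D)
    (v : ι → F) : ∃ w ∈ D, w ≠ 0 ∧ QuadraticMap.polar Q v w = 0 := by
  let φ : D →ₗ[F] F :=
    { toFun := fun w => QuadraticMap.polar Q v w
      map_add' := fun a b => hQ.polar_bilinear.add_right v a b
      map_smul' := fun c a => hQ.polar_bilinear.smul_right c v a }
  have h1 := LinearMap.finrank_range_add_finrank_ker φ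
  have h2 : finrank F (LinearMap.range φ) ≤ 1 := by
    have := Submodule.finrank_le (LinearMap.range φ)
    rwa [finrank_self] at this
  have h3 : LinearMap.ker φ ≠ ⊥ := by
    intro h
    rw [h, finrank_bot] at h1
    omega
  obtain ⟨w, hw, hw0⟩ := (Submodule.ne_bot_iff _).1 h3
  exact ⟨w, w.2, fun h => hw0 (Subtype.ext h), hw⟩

/-- a plane which is not of plus type is anisotropic -/
theorem plane_aniso {D : Submodule F (ι → F)} (hQ : IsNondegenerateQuadraticForm Q) (hd : finrank F D = 2)
    (hp : ¬ IsPlusTypeOn Q D) {u : ι → F} (hu : u ∈ D) (hQu : Q u = 0) : u = 0 := by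
  by_contra hu0
  apply hp
  refine ⟨Submodule.span F {u}, by rw [Submodule.span_singleton_le_iff_mem]; exact hu, ?_, ?_⟩
  · intro w hw
    obtain ⟨c, rfl⟩ := Submodule.mem_span_singleton.1 hw
    rw [hQ.smul, hQu, mul_zero]
  · rw [finrank_span_singleton hu0, hd]

theorem three_zero [Fintype F] (hF : Fintype.card F = 3) : (3 : F) = 0 := by
  have h1 : ((Fintype.card F : ℕ) : F) = 0 := FiniteField.cast_card_eq_zero F
  rw [hF] at h1
  exact_mod_cast h1

theorem three_cases [Fintype F] (hF : Fintype.card F = 3) (x : F) : x = 0 ∨ x = 1 ∨ x = -1 := by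
  by_cases hx : x = 0
  · exact Or.inl hx
  have h1 := FiniteField.pow_card_sub_one_eq_one x hx
  rw [hF] at h1
  have : (x - 1) * (x + 1) = 0 := by linear_combination h1
  rcases mul_eq_zero.1 this with h | h
  · right; left; exact sub_eq_zero.1 h
  · right; right; exact eq_neg_of_add_eq_zero_left h

theorem two_ne_three [Fintype F] (hF : Fintype.card F = 3) : (2 : F) ≠ 0 := by
  intro h2
  have h3 := three_zero hF
  have : (1 : F) = 0 := by linear_combination h3 - h2
  exact one_ne_zero this

theorem plane_minus_three [Fintype F] (hQ : IsNondegenerateQuadraticForm Q) {D : Submodule F (ι → F)} (hd : finrank F D = 2)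
    (hp : ¬ IsPlusTypeOn Q D) (hF : Fintype.card F = 3) :
    FrameOne Q D := by
  have h3 := three_zero hF
  have h2 := two_ne_three hF
  have han : ∀ u ∈ D, Q u = 0 → u = 0 := fun u hu => plane_aniso hQ hd hp hu
  -- a vector of norm one
  obtain ⟨v, hv, hQv⟩ : ∃ v ∈ D, Q v = 1 := by
    obtain ⟨u, hu, hu0, _⟩ := exists_orth hQ (D := D) (by omega) 0
    rcases three_cases hF (Q u) with h | h | h
    · exact absurd (han u hu h) hu0
    · exact ⟨u, hu, h⟩
    · obtain ⟨w, hw, hw0, hpw⟩ := exists_orth hQ (D := D) (by omega) u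
      rcases three_cases hF (Q w) with h' | h' | h'
      · exact absurd (han w hw h') hw0
      · exact ⟨w, hw, h'⟩
      · refine ⟨u + w, D.add_mem hu hw, ?_⟩
        rw [Qadd hQ, h, h', hpw]; linear_combination -h3
  obtain ⟨w, hw, hw0, hpw⟩ := exists_orth hQ (D := D) (by omega) v
  have hQw : Q w = 1 := by
    rcases three_cases hF (Q w) with h' | h' | h'
    · exact absurd (han w hw h') hw0
    · exact h'
    · exfalso
      have h1 : Q (v + w) = 0 := by rw [Qadd hQ, hQv, h', hpw]; ring
      have h4 := han _ (D.add_mem hv hw) h1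
      have h5 : w = -v := (eq_neg_of_add_eq_zero_right h4)
      rw [h5, Qneg hQ, hQv] at h'
      apply h2; linear_combination h'
  refine ⟨v, hv, w, hw, hQv, hQw, hpw, ?_⟩
  intro u hu hQu
  obtain ⟨hsp, _⟩ := plane_span hQ hd hv hw (by
    rw [polar_self hQ, polar_self hQ, hQv, hQw, hpw]
    intro h
    apply h2
    have : (2 : F) * 2 = 0 := by linear_combination h
    rcases mul_eq_zero.1 this with h | h <;> exact h)
  obtain ⟨x, y, rfl⟩ := hsp u hu
  rw [Qcomb hQ, hQv, hQw, hpw] at hQu
  rcases three_cases hF x with hx | hx | hx <;> rcases three_cases hF y with hy | hy | hy <;> subst hx <;> subst hy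
  · exfalso; apply one_ne_zero (α := F); linear_combination -hQu
  · right; right; left; module
  · right; right; right; module
  · left; module
  · exfalso; apply one_ne_zero (α := F); linear_combination hQu
  · exfalso; apply one_ne_zero (α := F); linear_combination hQu
  · right; left; module
  · exfalso; apply one_ne_zero (α := F); linear_combination hQu
  · exfalso; apply one_ne_zero (α := F); linear_combination hQu

/-- plus type planes over the field with four elements -/
theorem plane_plus_four [Fintype F] (hQ : IsNondegenerateQuadraticForm Q) {D : Submodule F (ι → F)} (hd : finrank F D = 2)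
    (hnd : IsNondegenerateOn (QuadraticMap.polar Q) D) (hp : IsPlusTypeOn Q D) (hF : Fintype.card F = 4) :
    ∃ v ∈ D, ∃ w ∈ D, Q v = 1 ∧ Q w = 1 ∧ QuadraticMap.polar Q v w = 1 ∧
      ∀ u ∈ D, Q u = 1 → u = v ∨ u = w ∨ u = v + w := by
  obtain ⟨e, heD, g, hgD, he, hg, heg, hsp⟩ := plane_hyp hQ hd hnd hp
  have h2 : (2 : F) = 0 := by
    have h1 : ((Fintype.card F : ℕ) : F) = 0 := FiniteField.cast_card_eq_zero F
    rw [hF] at h1
    have h4 : (2 : F) * 2 = 0 := by
      push_cast at h1
      linear_combination h1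
    rcases mul_eq_zero.1 h4 with h | h <;> exact h
  obtain ⟨ω, hω0, hω1⟩ : ∃ ω : F, ω ≠ 0 ∧ ω ≠ 1 := by
    by_contra hcon
    push Not at hcon
    have h1 : Fintype.card F ≤ 2 := by
      classical
      have : (Finset.univ : Finset F) ⊆ {0, 1} := by
        intro x _
        by_cases hx : x = 0
        · simp [hx]
        · simp [hcon x hx]
      have := Finset.card_le_card this
      exact this.trans Finset.card_le_two
    omega
  have hcube : ∀ x : F, x ≠ 0 → x ^ 3 = 1 := by
    intro x hx
    have h1 := FiniteField.pow_card_sub_one_eq_one x hx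
    rw [hF] at h1; exact h1
  have hωs : ω ^ 2 + ω + 1 = 0 := by
    have h1 := hcube ω hω0
    have : (ω - 1) * (ω ^ 2 + ω + 1) = 0 := by linear_combination h1
    exact (mul_eq_zero.1 this).resolve_left (sub_ne_zero.2 hω1)
  have hee : QuadraticMap.polar Q e e = 0 := by rw [polar_self hQ, he, mul_zero]
  have hgg : QuadraticMap.polar Q g g = 0 := by rw [polar_self hQ, hg, mul_zero]
  have hge : QuadraticMap.polar Q g e = 1 := by rw [QuadraticMap.polar_comm]; exact heg
  refine ⟨(1 : F) • e + (1 : F) • g, D.add_mem (D.smul_mem _ heD) (D.smul_mem _ hgD),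
    ω • e + ω ^ 2 • g, D.add_mem (D.smul_mem _ heD) (D.smul_mem _ hgD), ?_, ?_, ?_, ?_⟩
  · rw [Qhyp hQ he hg heg]; ring
  · rw [Qhyp hQ he hg heg]; linear_combination hcube ω hω0
  · rw [pcomb_left hQ, pcomb_right hQ, pcomb_right hQ, hee, hgg, hge, heg]
    linear_combination hωs - h2
  · intro u hu hQu
    obtain ⟨x, y, rfl⟩ := hsp u hu
    rw [Qhyp hQ he hg heg] at hQu
    have hx0 : x ≠ 0 := left_ne_zero_of_mul (by rw [hQu]; exact one_ne_zero)
    have hy : ∀ a b : F, a * b = 1 → x = a → y = b := by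
      intro a b hab hxa
      have h6 : x * (y - b) = 0 := by rw [hxa] at hQu ⊢; linear_combination hQu - hab
      exact sub_eq_zero.1 ((mul_eq_zero.1 h6).resolve_left hx0)
    have hfac : (x - 1) * ((x - ω) * (x - ω ^ 2)) = 0 := by
      linear_combination hcube x hx0 - (1 - x) * hcube ω hω0 + (x - x ^ 2) * hωs
    rcases mul_eq_zero.1 hfac with h | h
    · left
      have hx : x = 1 := sub_eq_zero.1 h
      rw [hx, hy 1 1 (by ring) hx]
    rcases mul_eq_zero.1 h with h | h
    · right; left
      have hx : x = ω := sub_eq_zero.1 h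
      rw [hy ω (ω ^ 2) (by linear_combination hcube ω hω0) hx, hx]
    · right; right
      have hx : x = ω ^ 2 := sub_eq_zero.1 h
      rw [hy (ω ^ 2) ω (by linear_combination hcube ω hω0) hx, hx]
      have e1 : ω ^ 2 = 1 + ω := by linear_combination hωs - (1 + ω) * h2
      have e2 : ω = 1 + ω ^ 2 := by linear_combination hωs - (1 + ω ^ 2) * h2
      have h7 : (1 : F) • e + (1 : F) • g + (ω • e + ω ^ 2 • g) = (1 + ω) • e + (1 + ω ^ 2) • g := by module
      rw [h7, ← e1, ← e2]

end CfsgLib.OmE
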