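import Mathlib
import Cfsg.Agent.LibOmE5
import Cfsg.Agent.LibAschF30

/-! refining orthogonal decompositions over small fields -/
set_option autoImplicit false
set_option linter.unusedSectionVars false

namespace CfsgLib.OmE

open Module Cfsg Cfsg.Geo CfsgLib.AschF
open scoped Matrix MatrixGroups Kronecker

variable {ι : Type} [Fintype ι] [DecidableEq ι] {F : Type*} [Field F]
variable {Q : (ι → F) → F}

theorem gl_inj (g : GL ι F) : Function.Injective (Matrix.toLin' (g : Matrix ι ι F)) := by
  intro x y hxy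
  rw [Matrix.toLin'_apply, Matrix.toLin'_apply] at hxy
  have := congrArg (fun z => ((g⁻¹ : GL ι F) : Matrix ι ι F) *ᵥ z) hxy
  simpa [Matrix.mulVec_mulVec, ← Units.val_mul] using this

theorem finrank_map_inj {V W : Type*} [AddCommGroup V] [Module F V] [AddCommGroup W] [Module F W] (f : V →ₗ[F] W)
    (hf : Function.Injective f) (U : Submodule F V) : finrank F (U.map f) = finrank F U :=
  (LinearEquiv.finrank_eq (Submodule.equivMapOfInjective f hf U)).symm

theorem plus_of_isometric {W W' : Submodule F (ι → F)} (h : AreIsometricFor Q W W') (hp : IsPlusTypeOn Q W) :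
    IsPlusTypeOn Q W' := by
  obtain ⟨φ, hφ⟩ := h
  obtain ⟨U, hU, hUs, hd⟩ := hp
  let U₁ : Submodule F W := U.comap W.subtype
  have hU₁ : U₁.map W.subtype = U := by
    rw [Submodule.map_comap_subtype]
    exact inf_eq_right.2 hU
  refine ⟨(U₁.map (φ : W →ₗ[F] W')).map W'.subtype, Submodule.map_subtype_le _ _, ?_, ?_⟩
  · rintro _ ⟨_, ⟨u, hu, rfl⟩, rfl⟩
    have h1 := hφ u
    exact h1.trans (hUs _ hu)
  · have e1 : finrank F ((U₁.map (φ : W →ₗ[F] W')).map W'.subtype) = finrank F U₁ := by
      rw [finrank_map_inj _ W'.injective_subtype, finrank_map_inj _ φ.injective]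
    have e2 : finrank F U₁ = finrank F U := by
      conv_rhs => rw [← hU₁]
      rw [finrank_map_inj _ W.injective_subtype]
    rw [e1, e2, hd]
    exact φ.finrank_eq

theorem isometric_symm {W W' : Submodule F (ι → F)} (h : AreIsometricFor Q W W') : AreIsometricFor Q W' W := by
  obtain ⟨φ, hφ⟩ := h
  refine ⟨φ.symm, fun w => ?_⟩
  have := hφ (φ.symm w)
  rw [LinearEquiv.apply_symm_apply] at this
  exact this.symm

theorem plus_all {t k : ℕ} {D : Fin t → Submodule F (ι → F)} (hD : IsOrthogonalMDecomposition Q k D) {i : Fin t}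
    (h : IsPlusTypeOn Q (D i)) (j : Fin t) : IsPlusTypeOn Q (D j) := plus_of_isometric (hD.isometric i j) h

theorem le_decStab_of {t : ℕ} {D : Fin t → Submodule F (ι → F)} {H : Subgroup (GL ι F)} (hinj : Function.Injective D)
    (h : ∀ g ∈ H, ∀ i, ∃ j, (D i).map (Matrix.toLin' (g : Matrix ι ι F)) = D j) : H ≤ decompositionStabilizer D := by
  intro g hg
  choose σ hσ using h g hg
  have hσi : Function.Injective σ := by
    intro i j hij
    apply hinj
    apply Submodule.map_injective_of_injective (gl_inj g)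
    rw [hσ, hσ, hij]
  exact ⟨Equiv.ofBijective σ (Finite.injective_iff_bijective.1 hσi), hσ⟩

/-- orthogonal vectors of non-zero norm are independent -/
theorem orth_li (hQ : IsNondegenerateQuadraticForm Q) {κ : Type*} [Finite κ] {w : κ → ι → F} (h0 : ∀ x, QuadraticMap.polar Q (w x) (w x) ≠ 0)
    (horth : ∀ x y, x ≠ y → QuadraticMap.polar Q (w x) (w y) = 0) : LinearIndependent F w := by
  classical
  have := Fintype.ofFinite κ
  rw [Fintype.linearIndependent_iff]
  intro c hc x
  have h1 : QuadraticMap.polar Q (∑ i, c i • w i) (w x) = 0 := by rw [hc]; exact (fdQ hQ).zero_left _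
  rw [(fdQ hQ).sum_left, Finset.sum_eq_single x] at h1
  · rw [hQ.polar_bilinear.smul_left] at h1
    exact (mul_eq_zero.1 h1).resolve_right (h0 x)
  · intro y _ hy
    rw [hQ.polar_bilinear.smul_left, horth y x hy, mul_zero]
  · intro h; exact absurd (Finset.mem_univ x) h

/-- a frame of vectors of equal norm permuted up to sign -/
theorem frame_of (hQ : IsNondegenerateQuadraticForm Q) (hn : 2 ≤ Fintype.card ι) {H : Subgroup (GL ι F)}
    {κ : Type} [Fintype κ] (hκ : Fintype.card κ = Fintype.card ι) (w : κ → ι → F)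
    (h0 : ∀ x, QuadraticMap.polar Q (w x) (w x) ≠ 0)
    (horth : ∀ x y, x ≠ y → QuadraticMap.polar Q (w x) (w y) = 0)
    (hH : ∀ g ∈ H, ∀ x, ∃ y, (g : Matrix ι ι F) *ᵥ w x = w y ∨ (g : Matrix ι ι F) *ᵥ w x = - w y) :
    ∃ D : Fin (Fintype.card ι) → Submodule F (ι → F), IsNondegenerateMDecomposition (QuadraticMap.polar Q) 1 D ∧
      H ≤ decompositionStabilizer D := by
  classical
  have hli := orth_li hQ h0 horth
  have e : Fin (Fintype.card ι) ≃ κ := Fintype.equivOfCardEq (by rw [Fintype.card_fin, hκ])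
  have hw0 : ∀ x, w x ≠ 0 := fun x => hli.ne_zero x
  have hli' : LinearIndependent F (w ∘ e) := hli.comp e e.injective
  have hind := hli'.iSupIndep_span_singleton
  have hne : ∀ i, Submodule.span F {(w ∘ e) i} ≠ ⊥ := by
    intro i h
    rw [Submodule.span_singleton_eq_bot] at h
    exact hw0 _ h
  refine ⟨fun i => Submodule.span F {(w ∘ e) i}, ⟨⟨hn, one_pos, ?_, hind, ?_⟩, ?_, ?_⟩, ?_⟩
  · intro i
    exact finrank_span_singleton (hw0 _)
  · rw [Submodule.iSup_span, Set.iUnion_singleton_eq_range]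
    exact hli'.span_eq_top_of_card_eq_finrank' (by rw [Fintype.card_fin, Module.finrank_fintype_fun_eq_card])
  · intro i u hu hu0
    obtain ⟨c, rfl⟩ := Submodule.mem_span_singleton.1 hu
    have hc : c ≠ 0 := by rintro rfl; exact hu0 (zero_smul _ _)
    refine ⟨⟨_, Submodule.mem_span_singleton_self _, ?_⟩, ⟨_, Submodule.mem_span_singleton_self _, ?_⟩⟩
    · rw [hQ.polar_bilinear.smul_right]; exact mul_ne_zero hc (h0 _)
    · rw [hQ.polar_bilinear.smul_left]; exact mul_ne_zero hc (h0 _)
  · intro i j hij u hu v hv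
    obtain ⟨c, rfl⟩ := Submodule.mem_span_singleton.1 hu
    obtain ⟨d, rfl⟩ := Submodule.mem_span_singleton.1 hv
    rw [hQ.polar_bilinear.smul_left, hQ.polar_bilinear.smul_right]
    change c * (d * QuadraticMap.polar Q (w (e i)) (w (e j))) = 0
    rw [horth _ _ (fun h => hij (e.injective h))]; ring
  · refine le_decStab_of ?_ ?_
    · intro i j hij
      by_contra hne'
      have h1 := hind.pairwiseDisjoint hne'
      have h1 : Disjoint (Submodule.span F {(w ∘ e) i}) (Submodule.span F {(w ∘ e) j}) := h1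
      have hij : Submodule.span F {(w ∘ e) i} = Submodule.span F {(w ∘ e) j} := hij
      rw [hij, disjoint_self] at h1
      exact hne j h1
    · intro g hg i
      obtain ⟨y, hy⟩ := hH g hg (e i)
      refine ⟨e.symm y, ?_⟩
      simp only [Function.comp_apply, Equiv.apply_symm_apply]
      rw [Submodule.map_span, Set.image_singleton, Matrix.toLin'_apply]
      rcases hy with hy | hy
      · rw [hy]
      · rw [hy, ← Set.neg_singleton, Submodule.span_neg]

/-- refinement of a decomposition by canonical frames of the members -/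
theorem refine_lines (hQ : IsNondegenerateQuadraticForm Q) (hn : 2 ≤ Fintype.card ι) {H : Subgroup (GL ι F)} (hH : Pres Q H)
    {t k : ℕ} {D : Fin t → Submodule F (ι → F)} (hD : IsNondegenerateMDecomposition (QuadraticMap.polar Q) k D)
    (h : H ≤ decompositionStabilizer D) (a : F) (ha : 2 * a ≠ 0) (v : Fin t → Fin k → ι → F)
    (hv : ∀ i j, v i j ∈ D i) (hQv : ∀ i j, Q (v i j) = a)
    (horth : ∀ i j j', j ≠ j' → QuadraticMap.polar Q (v i j) (v i j') = 0)
    (hall : ∀ i, ∀ u ∈ D i, Q u = a → ∃ j, u = v i j ∨ u = - v i j) :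
    ∃ D : Fin (Fintype.card ι) → Submodule F (ι → F), IsNondegenerateMDecomposition (QuadraticMap.polar Q) 1 D ∧
      H ≤ decompositionStabilizer D := by
  refine frame_of hQ hn (κ := Fin t × Fin k) (by
    rw [Fintype.card_prod, Fintype.card_fin, Fintype.card_fin]; exact CfsgLib.AschNum.dec_mul hD.decomp)
    (fun x => v x.1 x.2) ?_ ?_ ?_
  · intro x
    rw [polar_self hQ, hQv]; exact ha
  · rintro ⟨i, j⟩ ⟨i', j'⟩ hne
    by_cases hi : i = i'
    · subst hi
      exact horth i j j' (fun h => hne (by rw [h]))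
    · exact hD.orthogonal i i' hi _ (hv i j) _ (hv i' j')
  · rintro g hg ⟨i, j⟩
    obtain ⟨σ, hσ⟩ := h hg
    have h1 := map_mulVec g (hσ i) (hv i j)
    obtain ⟨j', hj'⟩ := hall (σ i) _ h1 (by rw [hH g hg, hQv])
    exact ⟨(σ i, j'), hj'⟩

/-- planes with a canonical orthonormal frame -/
theorem dec_frame (hQ : IsNondegenerateQuadraticForm Q) (hn : 2 ≤ Fintype.card ι) (h2 : (2 : F) ≠ 0) {H : Subgroup (GL ι F)}
    (hH : Pres Q H) {t : ℕ} {D : Fin t → Submodule F (ι → F)} (hD : IsNondegenerateMDecomposition (QuadraticMap.polar Q) 2 D)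
    (h : H ≤ decompositionStabilizer D) (hfr : ∀ i, FrameOne Q (D i)) :
    ∃ D : Fin (Fintype.card ι) → Submodule F (ι → F), IsNondegenerateMDecomposition (QuadraticMap.polar Q) 1 D ∧
      H ≤ decompositionStabilizer D := by
  choose v hv w hw hQv hQw hvw hall using hfr
  refine refine_lines hQ hn hH hD h 1 (by rw [mul_one]; exact h2) (fun i => ![v i, w i]) ?_ ?_ ?_ ?_
  · intro i j
    fin_cases j
    · exact hv i
    · exact hw i
  · intro i j
    fin_cases j
    · exact hQv i
    · exact hQw i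
  · intro i j j' hne
    fin_cases j <;> fin_cases j'
    · exact absurd rfl hne
    · exact hvw i
    · exact (QuadraticMap.polar_comm Q _ _).trans (hvw i)
    · exact absurd rfl hne
  · intro i u hu hQu
    rcases hall i u hu hQu with h | h | h | h
    · exact ⟨0, Or.inl h⟩
    · exact ⟨0, Or.inr h⟩
    · exact ⟨1, Or.inl h⟩
    · exact ⟨1, Or.inr h⟩

/-- planes with one pair of vectors of norm one: the group is reducible -/
theorem dec_small (hQ : IsNondegenerateQuadraticForm Q) {H : Subgroup (GL ι F)}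
    (hH : Pres Q H) (hirr : ActsIrreducibly (matrixSet H)) {t : ℕ} {D : Fin t → Submodule F (ι → F)} (hD : IsMDecomposition 2 D)
    (h : H ≤ decompositionStabilizer D) (hfr : ∀ i, ∃ v ∈ D i, Q v = 1 ∧ ∀ w ∈ D i, Q w = 1 → w = v ∨ w = -v) : False := by
  classical
  choose v hv hQv hall using hfr
  have ht := hD.two_le
  have hcard := CfsgLib.AschNum.dec_mul hD
  rcases irr_mem hirr (W := Submodule.span F (Set.range v)) (by
    intro g hg x hx
    induction hx using Submodule.span_induction with
    | mem x hx =>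
      obtain ⟨i, rfl⟩ := hx
      obtain ⟨σ, hσ⟩ := h hg
      rcases hall (σ i) _ (map_mulVec g (hσ i) (hv i)) (by rw [hH g hg, hQv]) with h1 | h1
      · rw [h1]; exact Submodule.subset_span ⟨σ i, rfl⟩
      · rw [h1]; exact Submodule.neg_mem _ (Submodule.subset_span ⟨σ i, rfl⟩)
    | zero => rw [Matrix.mulVec_zero]; exact Submodule.zero_mem _
    | add x y _ _ ihx ihy => rw [Matrix.mulVec_add]; exact Submodule.add_mem _ ihx ihy
    | smul a x _ ihx => rw [Matrix.mulVec_smul]; exact Submodule.smul_mem _ a ihx) with hb | htop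
  · have h1 : v ⟨0, by omega⟩ ∈ Submodule.span F (Set.range v) := Submodule.subset_span ⟨_, rfl⟩
    rw [hb, Submodule.mem_bot] at h1
    have h3 := hQv ⟨0, by omega⟩
    rw [h1, Qzero hQ] at h3
    exact zero_ne_one h3
  · have h1 := finrank_range_le_card (R := F) (b := v)
    unfold Set.finrank at h1
    rw [htop, finrank_top, Module.finrank_fintype_fun_eq_card, Fintype.card_fin] at h1
    omega

/-- frames over a non-prime field give a rational structure -/
theorem lines_sub [Fintype F] (hQ : IsNondegenerateQuadraticForm Q) (hn : 2 ≤ Fintype.card ι) {H : Subgroup (GL ι F)} (hH : Pres Q H)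
    (hirr : ActsIrreducibly (matrixSet H)) {t : ℕ} {D : Fin t → Submodule F (ι → F)}
    (hD : IsNondegenerateMDecomposition (QuadraticMap.polar Q) 1 D) (hle : H ≤ decompositionStabilizer D) (F₀ : Subfield F) :
    ∃ (P : GL ι F) (ζ : F), ζ ≠ 0 ∧ IsQuadFormRationalStructure (fun v => ζ * Q v) F₀ P ∧ H ≤ subfieldSubgroup F₀ P := by
  obtain ⟨P, ζ, hζ, hS, h⟩ := frame_sub (fdQ hQ) hH.iso hirr hD hle F₀
  exact ⟨P, ζ, hζ, sub_quad hn hQ hH hirr hζ hS h, h⟩

end CfsgLib.OmE
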