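import Mathlib
import Cfsg.Agent.LibOmE6

/-! planes over F_4, three-spaces over F_3, four-spaces over F_2 -/
set_option autoImplicit false
set_option linter.unusedSectionVars false

namespace CfsgLib.OmE

open Module Cfsg Cfsg.Geo CfsgLib.AschF CfsgLib.Asch7
open scoped Matrix MatrixGroups Kronecker

variable {ι : Type} [Fintype ι] [DecidableEq ι] {F : Type*} [Field F]
variable {Q : (ι → F) → F}

/-- the subfield with q elements: prime field for |F| = 4 -/
theorem exists_F2 [Fintype F] (hF : Fintype.card F = 4) : ∃ F₀ : Subfield F, Nat.card F₀ = 2 := by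
  obtain ⟨p, hchar, e', hp, hcard⟩ := FiniteField.card' F
  have hp2 : p = 2 := by
    rw [hF] at hcard
    have h1 : p ∣ 2 ^ 2 := by
      rw [show (2 : ℕ) ^ 2 = 4 by norm_num, hcard]
      exact dvd_pow_self p e'.2.ne'
    exact (Nat.prime_dvd_prime_iff_eq hp Nat.prime_two).1 (hp.dvd_of_dvd_pow h1)
  subst hp2
  have e2 : (e' : ℕ) = 2 := by
    rw [hF] at hcard
    exact Nat.pow_right_injective le_rfl (by
      change 2 ^ (e' : ℕ) = 2 ^ 2
      rw [← hcard])
  have := hchar

  refine ⟨⊥, ?_⟩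
  have h1 := Subfield.card_bot F 2
  exact h1

/-- a basis in which a group acts with entries in a subfield -/
theorem sub_of_basis [Finite F] {H : Subgroup (GL ι F)} {κ : Type} [Fintype κ] (b : Basis κ F (ι → F))
    (F₀ : Subfield F) (hH : ∀ g ∈ H, ∀ k, ∃ c : κ → F, (∀ l, c l ∈ F₀) ∧ (g : Matrix ι ι F) *ᵥ b k = ∑ l, c l • b l) :
    ∃ P : GL ι F, H ≤ subfieldSubgroup F₀ P ∧
      ∀ u : ι → F, (∀ i, u i ∈ F₀) → ∃ c : κ → F, (∀ l, c l ∈ F₀) ∧ (P : Matrix ι ι F) *ᵥ u = ∑ l, c l • b l := by
  classical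
  have hcard : Fintype.card κ = Fintype.card ι := by
    have := Module.finrank_eq_card_basis b
    rw [Module.finrank_fintype_fun_eq_card] at this
    exact this.symm
  have e : ι ≃ κ := Fintype.equivOfCardEq hcard.symm
  obtain ⟨P, hP⟩ := exists_P (b.reindex e.symm)
  have hPs : ∀ i, (P : Matrix ι ι F) *ᵥ Pi.single i 1 = b (e i) := by
    intro i
    ext j
    rw [Matrix.mulVec_single_one, Matrix.col_apply, hP, Basis.reindex_apply, Equiv.symm_symm]
  have hPe : ∀ u : ι → F, (P : Matrix ι ι F) *ᵥ u = ∑ i, u i • b (e i) := by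
    intro u
    have hu : u = ∑ i, u i • (Pi.single i 1 : ι → F) := by
      ext k
      rw [Finset.sum_apply, Finset.sum_eq_single k]
      · simp
      · intro l _ hl; simp [Ne.symm hl]
      · simp
    conv_lhs => rw [hu]
    rw [Matrix.mulVec_sum]
    refine Finset.sum_congr rfl fun i _ => ?_
    rw [Matrix.mulVec_smul, hPs]
  refine ⟨P, ?_, ?_⟩
  · intro g hg
    apply mem_subfield
    intro i j
    obtain ⟨c, hc, hgc⟩ := hH g hg (e j)
    have h1 : (((P⁻¹ : GL ι F) : Matrix ι ι F) * (g : Matrix ι ι F) * (P : Matrix ι ι F)) *ᵥ Pi.single j 1 = fun i => c (e i) := by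
      rw [← Matrix.mulVec_mulVec, ← Matrix.mulVec_mulVec, hPs, hgc]
      have h3 : ∑ l, c l • b l = (P : Matrix ι ι F) *ᵥ fun i => c (e i) := by
        rw [hPe]
        exact (Equiv.sum_comp e fun l => c l • b l).symm
      rw [h3, Matrix.mulVec_mulVec, ← Units.val_mul, inv_mul_cancel, Units.val_one, Matrix.one_mulVec]
    have h3 := congrFun h1 i
    rw [Matrix.mulVec_single_one, Matrix.col_apply] at h3
    rw [h3]; exact hc _
  · intro u hu
    refine ⟨fun l => u (e.symm l), fun l => hu _, ?_⟩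
    rw [hPe]
    have := Equiv.sum_comp e fun l => u (e.symm l) • b l
    simpa using this

theorem Q_sum_orth (hQ : IsNondegenerateQuadraticForm Q) {κ : Type*} (s : Finset κ) (x : κ → ι → F)
    (h : ∀ i j, i ≠ j → QuadraticMap.polar Q (x i) (x j) = 0) : Q (∑ i ∈ s, x i) = ∑ i ∈ s, Q (x i) := by
  classical
  induction s using Finset.induction_on with
  | empty => rw [Finset.sum_empty, Finset.sum_empty, Qzero hQ]
  | insert a s ha ih =>
    have h1 : ∑ i ∈ s, QuadraticMap.polar Q (x a) (x i) = 0 :=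
      Finset.sum_eq_zero fun j hj => h a j (fun h => ha (by rw [h]; exact hj))
    rw [Finset.sum_insert ha, Finset.sum_insert ha, Qadd hQ, ih, (fdQ hQ).sum_right, h1, add_zero]

/-- planes of plus type over the field with four elements -/
theorem dec_four [Fintype F] (hQ : IsNondegenerateQuadraticForm Q) (hF : Fintype.card F = 4) {H : Subgroup (GL ι F)}
    (hH : Pres Q H) {t : ℕ} {D : Fin t → Submodule F (ι → F)} (hD : IsNondegenerateMDecomposition (QuadraticMap.polar Q) 2 D)
    (h : H ≤ decompositionStabilizer D) (hp : ∀ i, IsPlusTypeOn Q (D i)) :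
    ∃ (F₀ : Subfield F) (P : GL ι F), Fintype.card F = Nat.card F₀ ^ 2 ∧
      IsQuadFormRationalStructure (fun v => 1 * Q v) F₀ P ∧ H ≤ subfieldSubgroup F₀ P := by
  classical
  obtain ⟨F₀, hF₀⟩ := exists_F2 hF
  have hpl := fun i => plane_plus_four hQ (hD.decomp.finrank_eq i) (hD.nondegenerate i) (hp i) hF
  choose v hv w hw hQv hQw hvw hall using hpl
  let x : Fin t × Fin 2 → ι → F := fun k => ![v k.1, w k.1] k.2
  have hx : ∀ k : Fin t × Fin 2, x k ∈ D k.1 := by
    rintro ⟨i, j⟩
    fin_cases j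
    · exact hv i
    · exact hw i
  have h2 : (2 : F) = 0 := by
    have h1 : ((Fintype.card F : ℕ) : F) = 0 := FiniteField.cast_card_eq_zero F
    rw [hF] at h1
    have h4 : (2 : F) * 2 = 0 := by
      push_cast at h1
      linear_combination h1
    rcases mul_eq_zero.1 h4 with h | h <;> exact h
  have halt := alt_two hQ h2
  have hcardκ : Fintype.card (Fin t × Fin 2) = Fintype.card ι := by
    rw [Fintype.card_prod, Fintype.card_fin, Fintype.card_fin]; exact CfsgLib.AschNum.dec_mul hD.decomp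
  have hli : LinearIndependent F x := by
    rw [Fintype.linearIndependent_iff]
    intro c hc
    have key : ∀ i, c (i, 0) = 0 ∧ c (i, 1) = 0 := by
      intro i
      have h1 : ∀ y ∈ D i, c (i, 0) * QuadraticMap.polar Q (v i) y + c (i, 1) * QuadraticMap.polar Q (w i) y = 0 := by
        intro y hy
        have h3 : QuadraticMap.polar Q (∑ k, c k • x k) y = 0 := by rw [hc]; exact (fdQ hQ).zero_left _
        rw [(fdQ hQ).sum_left, Fintype.sum_prod_type, Finset.sum_eq_single i] at h3
        · rw [Fin.sum_univ_two, hQ.polar_bilinear.smul_left, hQ.polar_bilinear.smul_left] at h3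
          exact h3
        · intro j _ hj
          refine Finset.sum_eq_zero fun l _ => ?_
          rw [hQ.polar_bilinear.smul_left, hD.orthogonal j i hj _ (hx (j, l)) _ hy, mul_zero]
        · intro h; exact absurd (Finset.mem_univ i) h
      have h3 := h1 _ (hv i)
      have h4 := h1 _ (hw i)
      rw [halt, QuadraticMap.polar_comm Q (w i) (v i), hvw] at h3
      rw [halt, hvw] at h4
      exact ⟨by linear_combination h4, by linear_combination h3⟩
    rintro ⟨i, j⟩
    fin_cases j
    · exact (key i).1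
    · exact (key i).2
  let b : Basis (Fin t × Fin 2) F (ι → F) := Basis.mk hli (by
    rw [hli.span_eq_top_of_card_eq_finrank' (by rw [hcardκ, Module.finrank_fintype_fun_eq_card])])
  have hb : ∀ k, b k = x k := fun k => Basis.mk_apply _ _ k
  have hcomb : ∀ i (a c : F), a ∈ F₀ → c ∈ F₀ → ∃ d : Fin t × Fin 2 → F, (∀ l, d l ∈ F₀) ∧ a • v i + c • w i = ∑ l, d l • b l := by
    intro i a c ha hc
    refine ⟨fun l => if l.1 = i then ![a, c] l.2 else 0, ?_, ?_⟩
    · rintro ⟨j, l⟩
      simp only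
      split_ifs
      · fin_cases l
        · exact ha
        · exact hc
      · exact F₀.zero_mem
    · rw [Fintype.sum_prod_type, Finset.sum_eq_single i]
      · rw [Fin.sum_univ_two]
        simp only [if_true, hb]
        rfl
      · intro j _ hj
        simp [hj]
      · intro h; exact absurd (Finset.mem_univ i) h
  obtain ⟨P, hP, hPu⟩ := sub_of_basis (H := H) b F₀ (by
    rintro g hg ⟨i, j⟩
    obtain ⟨σ, hσ⟩ := h hg
    have h1 : (g : Matrix ι ι F) *ᵥ b (i, j) ∈ D (σ i) := by rw [hb]; exact map_mulVec g (hσ i) (hx (i, j))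
    have h3 : Q ((g : Matrix ι ι F) *ᵥ b (i, j)) = 1 := by
      rw [hH g hg, hb]
      fin_cases j
      · exact hQv i
      · exact hQw i
    rcases hall (σ i) _ h1 h3 with h4 | h4 | h4
    · rw [h4]
      have := hcomb (σ i) 1 0 F₀.one_mem F₀.zero_mem
      simpa using this
    · rw [h4]
      have := hcomb (σ i) 0 1 F₀.zero_mem F₀.one_mem
      simpa using this
    · rw [h4]
      have := hcomb (σ i) 1 1 F₀.one_mem F₀.one_mem
      simpa using this)
  refine ⟨F₀, P, by rw [hF, hF₀]; norm_num, ?_, hP⟩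
  intro u hu
  obtain ⟨c, hc, hcu⟩ := hPu u hu
  change 1 * Q ((P : Matrix ι ι F) *ᵥ u) ∈ F₀
  rw [hcu, Fintype.sum_prod_type, Q_sum_orth hQ, one_mul]
  · refine F₀.sum_mem fun i _ => ?_
    rw [Fin.sum_univ_two, Qcomb hQ, hb, hb]
    change c (i, 0) ^ 2 * Q (v i) + c (i, 1) ^ 2 * Q (w i) + c (i, 0) * c (i, 1) * QuadraticMap.polar Q (v i) (w i) ∈ F₀
    rw [hQv, hQw, hvw, mul_one, mul_one, mul_one]
    exact F₀.add_mem (F₀.add_mem (F₀.pow_mem (hc _) 2) (F₀.pow_mem (hc _) 2)) (F₀.mul_mem (hc _) (hc _))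
  · intro i j hij
    have hmem : ∀ i, ∑ l, c (i, l) • b (i, l) ∈ D i := by
      intro i
      refine Submodule.sum_mem _ fun l _ => Submodule.smul_mem _ _ ?_
      rw [hb]; exact hx (i, l)
    exact hD.orthogonal i j hij _ (hmem i) _ (hmem j)

end CfsgLib.OmE
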