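import Mathlib
import Cfsg.Agent.LibOmE7
import Cfsg.Agent.LibSymm27

/-! three-spaces over F_3, four-spaces over F_2, general refinement -/
set_option autoImplicit false
set_option linter.unusedSectionVars false

namespace CfsgLib.OmE

open Module Cfsg Cfsg.Geo CfsgLib.AschF CfsgLib.Asch7
open scoped Matrix MatrixGroups Kronecker

variable {ι : Type} [Fintype ι] [DecidableEq ι] {F : Type*} [Field F]
variable {Q : (ι → F) → F}

/-- pairwise orthogonal non-degenerate subspaces of the right total dimension form a decomposition -/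
theorem orth_dec (hQ : IsNondegenerateQuadraticForm Q) {κ : Type} [Fintype κ] [DecidableEq κ] {m : ℕ} (hm : 0 < m)
    (N : κ → Submodule F (ι → F)) (hd : ∀ x, finrank F (N x) = m)
    (hnd : ∀ x, IsNondegenerateOn (QuadraticMap.polar Q) (N x))
    (horth : ∀ x y, x ≠ y → AreOrthogonalFor (QuadraticMap.polar Q) (N x) (N y))
    (hcard : Fintype.card κ * m = Fintype.card ι) : iSupIndep N ∧ iSup N = ⊤ := by
  classical
  have hf := fdQ hQ
  constructor
  · intro x
    rw [Submodule.disjoint_def]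
    intro u hu hu'
    by_contra hu0
    obtain ⟨⟨w, hw, hwu⟩, _⟩ := hnd x u hu hu0
    apply hwu
    have hle : (⨆ (y : κ) (_ : y ≠ x), N y) ≤ perp hf (Submodule.span F {w}) := by
      refine iSup₂_le fun y hy v hv => ?_
      intro z hz
      obtain ⟨c, rfl⟩ := Submodule.mem_span_singleton.1 hz
      rw [hf.smul_left, horth x y (Ne.symm hy) w hw v hv, mul_zero]
    exact hle hu' w (Submodule.mem_span_singleton_self w)
  · let b : ∀ x, Basis (Fin m) F (N x) := fun x => Module.finBasisOfFinrankEq F (N x) (hd x)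
    have hli : LinearIndependent F (fun p : κ × Fin m => ((b p.1 p.2 : N p.1) : ι → F)) := by
      rw [Fintype.linearIndependent_iff]
      intro c hc
      have key : ∀ x, ∑ j, c (x, j) • b x j = 0 := by
        intro x
        by_contra hne
        obtain ⟨_, ⟨w, hw, hwu⟩⟩ := hnd x _ (∑ j, c (x, j) • b x j).2 (fun h => hne (Subtype.ext h))
        apply hwu
        have h3 : QuadraticMap.polar Q (∑ p : κ × Fin m, c p • ((b p.1 p.2 : N p.1) : ι → F)) w = 0 := by
          rw [hc]; exact hf.zero_left _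
        rw [hf.sum_left, Fintype.sum_prod_type, Finset.sum_eq_single x] at h3
        · rw [← hf.sum_left] at h3
          rw [← h3]
          congr 1
          simp
        · intro y _ hy
          refine Finset.sum_eq_zero fun j _ => ?_
          rw [hf.smul_left, horth y x hy _ (b y j).2 w hw, mul_zero]
        · intro h; exact absurd (Finset.mem_univ x) h
      rintro ⟨x, j⟩
      have h1 := (b x).linearIndependent
      rw [Fintype.linearIndependent_iff] at h1
      exact h1 (fun j => c (x, j)) (key x) j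
    have hsp := hli.span_eq_top_of_card_eq_finrank' (by
      rw [Fintype.card_prod, Fintype.card_fin, hcard, Module.finrank_fintype_fun_eq_card])
    rw [eq_top_iff, ← hsp, Submodule.span_le]
    rintro _ ⟨p, rfl⟩
    exact (le_iSup N p.1) (b p.1 p.2).2

/-- general refinement -/
theorem refine_sub (hQ : IsNondegenerateQuadraticForm Q) {H : Subgroup (GL ι F)}
    {t k s m : ℕ} (hm : 0 < m) (hs : 0 < s) {D : Fin t → Submodule F (ι → F)}
    (hD : IsNondegenerateMDecomposition (QuadraticMap.polar Q) k D) (hk : s * m = k)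
    (h : H ≤ decompositionStabilizer D) (N : Fin t → Fin s → Submodule F (ι → F)) (hN : ∀ i j, N i j ≤ D i)
    (hd : ∀ i j, finrank F (N i j) = m) (hnd : ∀ i j, IsNondegenerateOn (QuadraticMap.polar Q) (N i j))
    (horth : ∀ i j j', j ≠ j' → AreOrthogonalFor (QuadraticMap.polar Q) (N i j) (N i j'))
    (hperm : ∀ g ∈ H, ∀ i i', (D i).map (Matrix.toLin' (g : Matrix ι ι F)) = D i' →
      ∀ j, ∃ j', (N i j).map (Matrix.toLin' (g : Matrix ι ι F)) = N i' j') :
    ∃ e : Fin (t * s) ≃ Fin t × Fin s,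
      IsNondegenerateMDecomposition (QuadraticMap.polar Q) m (fun x => N (e x).1 (e x).2) ∧
      H ≤ decompositionStabilizer (fun x => N (e x).1 (e x).2) := by
  classical
  have e : Fin (t * s) ≃ Fin t × Fin s := finProdFinEquiv.symm
  have ht := hD.decomp.two_le
  have ho : ∀ x y : Fin (t * s), x ≠ y → AreOrthogonalFor (QuadraticMap.polar Q) (N (e x).1 (e x).2) (N (e y).1 (e y).2) := by
    intro x y hxy
    by_cases h1 : (e x).1 = (e y).1
    · have h2 : (e x).2 ≠ (e y).2 := by
        intro h2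
        exact hxy (e.injective (Prod.ext h1 h2))
      have := horth (e x).1 (e x).2 (e y).2 h2
      rw [← h1]; exact this
    · intro u hu v hv
      exact hD.orthogonal _ _ h1 u (hN _ _ hu) v (hN _ _ hv)
  obtain ⟨hind, hsup⟩ := orth_dec hQ hm (fun x => N (e x).1 (e x).2) (fun x => hd _ _) (fun x => hnd _ _) ho (by
    rw [Fintype.card_fin, mul_assoc, hk]; exact CfsgLib.AschNum.dec_mul hD.decomp)
  refine ⟨e, ⟨⟨?_, hm, fun x => hd _ _, hind, hsup⟩, fun x => hnd _ _, ho⟩, le_decStab_of ?_ ?_⟩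
  · calc 2 ≤ t := ht
      _ ≤ t * s := Nat.le_mul_of_pos_right t hs
  · intro x y hxy
    by_contra hne
    have h1 := hind.pairwiseDisjoint hne
    have h1 : Disjoint (N (e x).1 (e x).2) (N (e y).1 (e y).2) := h1
    have hxy : N (e x).1 (e x).2 = N (e y).1 (e y).2 := hxy
    rw [hxy, disjoint_self] at h1
    have h3 := hd (e y).1 (e y).2
    rw [h1, finrank_bot] at h3
    omega
  · intro g hg x
    obtain ⟨σ, hσ⟩ := h hg
    obtain ⟨j', hj'⟩ := hperm g hg (e x).1 (σ (e x).1) (hσ _) (e x).2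
    refine ⟨e.symm (σ (e x).1, j'), ?_⟩
    rw [Equiv.apply_symm_apply]
    exact hj'

/-- a canonical frame -/
def FrameK (Q : (ι → F) → F) (k : ℕ) (a : F) (D : Submodule F (ι → F)) : Prop :=
  ∃ v : Fin k → ι → F, (∀ j, v j ∈ D) ∧ (∀ j, Q (v j) = a) ∧ (∀ j j', j ≠ j' → QuadraticMap.polar Q (v j) (v j') = 0) ∧
    ∀ u ∈ D, Q u = a → ∃ j, u = v j ∨ u = - v j

theorem frameK_isometric {k : ℕ} {a : F} {D D' : Submodule F (ι → F)} (h : AreIsometricFor Q D D')
    (hfr : FrameK Q k a D) : FrameK Q k a D' := by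
  obtain ⟨φ, hφ⟩ := h
  obtain ⟨v, hv, hQv, horth, hall⟩ := hfr
  have hpol : ∀ x y : D, QuadraticMap.polar Q ((φ x : D') : ι → F) ((φ y : D') : ι → F) = QuadraticMap.polar Q (x : ι → F) (y : ι → F) := by
    intro x y
    have h1 := hφ (x + y)
    rw [map_add] at h1
    simp only [QuadraticMap.polar]
    rw [hφ, hφ]
    push_cast at h1
    rw [h1]
  refine ⟨fun j => ((φ ⟨v j, hv j⟩ : D') : ι → F), fun j => (φ _).2, fun j => ?_, fun j j' hj => ?_, ?_⟩
  · rw [hφ]; exact hQv j
  · rw [hpol]; exact horth j j' hj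
  · intro u hu hQu
    have h1 := hφ (φ.symm ⟨u, hu⟩)
    rw [LinearEquiv.apply_symm_apply] at h1
    obtain ⟨j, hj⟩ := hall _ (φ.symm ⟨u, hu⟩).2 (by rw [← h1]; exact hQu)
    refine ⟨j, ?_⟩
    rcases hj with hj | hj
    · left
      have : φ.symm ⟨u, hu⟩ = ⟨v j, hv j⟩ := Subtype.ext hj
      change u = ((φ ⟨v j, hv j⟩ : D') : ι → F)
      rw [← this, LinearEquiv.apply_symm_apply]
    · right
      have : φ.symm ⟨u, hu⟩ = -⟨v j, hv j⟩ := Subtype.ext hj
      have h3 : (⟨v j, hv j⟩ : D) = - φ.symm ⟨u, hu⟩ := by rw [this, neg_neg]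
      change u = -((φ ⟨v j, hv j⟩ : D') : ι → F)
      rw [h3, map_neg, LinearEquiv.apply_symm_apply, Submodule.coe_neg, neg_neg]

theorem frame_three_of [Fintype F] (hQ : IsNondegenerateQuadraticForm Q) (hF : Fintype.card F = 3) {D : Submodule F (ι → F)}
    {a : F} (ha : a ≠ 0) (u : Fin 3 → ι → F) (hu : ∀ j, u j ∈ D) (hQu : ∀ j, Q (u j) = a)
    (horth : ∀ j j', j ≠ j' → QuadraticMap.polar Q (u j) (u j') = 0)
    (hsp : ∀ w ∈ D, ∃ x y z : F, w = x • u 0 + y • u 1 + z • u 2) : FrameK Q 3 a D := by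
  have h3 := three_zero hF
  have h2 := two_ne_three hF
  refine ⟨u, hu, hQu, horth, ?_⟩
  intro w hw hQw
  obtain ⟨x, y, z, rfl⟩ := hsp w hw
  have h1 : Q (x • u 0 + y • u 1 + z • u 2) = a * (x ^ 2 + y ^ 2 + z ^ 2) := by
    rw [Qadd hQ, Qcomb hQ, hQ.smul, pcomb_left hQ, hQ.polar_bilinear.smul_right, hQ.polar_bilinear.smul_right,
      horth 0 1 (by decide), horth 0 2 (by decide), horth 1 2 (by decide), hQu, hQu, hQu]
    ring
  rw [h1] at hQw
  have h4 : x ^ 2 + y ^ 2 + z ^ 2 = 1 := by
    have : a * (x ^ 2 + y ^ 2 + z ^ 2 - 1) = 0 := by linear_combination hQw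
    exact sub_eq_zero.1 ((mul_eq_zero.1 this).resolve_left ha)
  rcases three_cases hF x with hx | hx | hx <;> rcases three_cases hF y with hy | hy | hy <;>
    rcases three_cases hF z with hz | hz | hz <;> subst hx <;> subst hy <;> subst hz <;>
    first
    | (exfalso; apply one_ne_zero (α := F); linear_combination h4)
    | (exfalso; apply one_ne_zero (α := F); linear_combination -h4)
    | (exfalso; apply one_ne_zero (α := F); linear_combination h3 - h4)
    | (exfalso; apply one_ne_zero (α := F); linear_combination h4 - h3)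
    | (exact ⟨0, Or.inl (by module)⟩)
    | (exact ⟨0, Or.inr (by module)⟩)
    | (exact ⟨1, Or.inl (by module)⟩)
    | (exact ⟨1, Or.inr (by module)⟩)
    | (exact ⟨2, Or.inl (by module)⟩)
    | (exact ⟨2, Or.inr (by module)⟩)

theorem space_three_three [Fintype F] (hQ : IsNondegenerateQuadraticForm Q) (hF : Fintype.card F = 3) {D : Submodule F (ι → F)}
    (hd : finrank F D = 3) (hnd : IsNondegenerateOn (QuadraticMap.polar Q) D) : ∃ a : F, a ≠ 0 ∧ FrameK Q 3 a D := by
  have h3 := three_zero hF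
  have h2 := two_ne_three hF
  let B : LinearMap.BilinForm F D := LinearMap.mk₂ F (fun x y : D => QuadraticMap.polar Q (x : ι → F) (y : ι → F))
    (fun x y z => hQ.polar_bilinear.add_left _ _ _) (fun c x y => hQ.polar_bilinear.smul_left _ _ _)
    (fun x y z => hQ.polar_bilinear.add_right _ _ _) (fun c x y => hQ.polar_bilinear.smul_right _ _ _)
  have hB : ∀ x y : D, B x y = QuadraticMap.polar Q (x : ι → F) (y : ι → F) := fun x y => rfl
  obtain ⟨b, c, hc, horth, hone, hlast⟩ := CfsgLib.Symm27.exists_diag_basis h2 B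
    (fun x y => by rw [hB, hB, QuadraticMap.polar_comm]) (fun v hv => by
      obtain ⟨_, ⟨w, hw, hvw⟩⟩ := hnd v v.2 (fun h => hv (Subtype.ext h))
      exact ⟨⟨w, hw⟩, hvw⟩) (n := 2) hd
  have hQb : ∀ x : D, Q (x : ι → F) = - B x x := by
    intro x
    rw [hB, polar_self hQ]
    linear_combination (Q (x : ι → F)) * h3
  have q0 : Q (b 0 : ι → F) = -1 := by rw [hQb]; have := hone 0; rw [Fin.castSucc_zero] at this; rw [this]
  have q1 : Q (b 1 : ι → F) = -1 := by rw [hQb]; have := hone 1; exact congrArg Neg.neg this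
  have q2 : Q (b 2 : ι → F) = -c := by rw [hQb]; exact congrArg Neg.neg hlast
  have hsp : ∀ w ∈ D, ∃ x y z : F, w = x • (b 0 : ι → F) + y • (b 1 : ι → F) + z • (b 2 : ι → F) := by
    intro w hw
    refine ⟨b.repr ⟨w, hw⟩ 0, b.repr ⟨w, hw⟩ 1, b.repr ⟨w, hw⟩ 2, ?_⟩
    have h1 := congrArg (Submodule.subtype D) (b.sum_repr ⟨w, hw⟩)
    rw [map_sum, Fin.sum_univ_three] at h1
    exact h1.symm
  have hp : ∀ i j, i ≠ j → QuadraticMap.polar Q (b i : ι → F) (b j : ι → F) = 0 := fun i j hij => horth i j hij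
  rcases three_cases hF c with h | h | h
  · exact absurd h hc
  · refine ⟨-1, by simp, frame_three_of hQ hF (by simp) (fun j => (b j : ι → F)) (fun j => (b j).2) ?_ hp hsp⟩
    intro j
    fin_cases j
    · exact q0
    · exact q1
    · change Q (b 2 : ι → F) = -1; rw [q2, h]
  · have hpc : QuadraticMap.polar Q (b 1 : ι → F) (b 0 : ι → F) = 0 := hp 1 0 (by decide)
    refine ⟨1, one_ne_zero, frame_three_of hQ hF one_ne_zero ![(1 : F) • (b 0 : ι → F) + (1 : F) • (b 1 : ι → F),
      (1 : F) • (b 0 : ι → F) + (-1 : F) • (b 1 : ι → F), (b 2 : ι → F)] ?_ ?_ ?_ ?_⟩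
    · intro j
      fin_cases j
      · exact D.add_mem (D.smul_mem _ (b 0).2) (D.smul_mem _ (b 1).2)
      · exact D.add_mem (D.smul_mem _ (b 0).2) (D.smul_mem _ (b 1).2)
      · exact (b 2).2
    · intro j
      fin_cases j
      · change Q ((1 : F) • (b 0 : ι → F) + (1 : F) • (b 1 : ι → F)) = 1
        rw [Qcomb hQ, q0, q1, hp 0 1 (by decide)]; linear_combination -h3
      · change Q ((1 : F) • (b 0 : ι → F) + (-1 : F) • (b 1 : ι → F)) = 1
        rw [Qcomb hQ, q0, q1, hp 0 1 (by decide)]; linear_combination -h3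
      · change Q (b 2 : ι → F) = 1; rw [q2, h]; ring
    · have k01 : QuadraticMap.polar Q ((1 : F) • (b 0 : ι → F) + (1 : F) • (b 1 : ι → F)) ((1 : F) • (b 0 : ι → F) + (-1 : F) • (b 1 : ι → F)) = 0 := by
        rw [pcomb_left hQ, pcomb_right hQ, pcomb_right hQ, polar_self hQ, polar_self hQ, q0, q1, hp 0 1 (by decide), hpc]; ring
      have k02 : QuadraticMap.polar Q ((1 : F) • (b 0 : ι → F) + (1 : F) • (b 1 : ι → F)) (b 2 : ι → F) = 0 := by
        rw [pcomb_left hQ, hp 0 2 (by decide), hp 1 2 (by decide)]; ring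
      have k12 : QuadraticMap.polar Q ((1 : F) • (b 0 : ι → F) + (-1 : F) • (b 1 : ι → F)) (b 2 : ι → F) = 0 := by
        rw [pcomb_left hQ, hp 0 2 (by decide), hp 1 2 (by decide)]; ring
      intro j j' hj
      fin_cases j <;> fin_cases j'
      · exact absurd rfl hj
      · exact k01
      · exact k02
      · exact (QuadraticMap.polar_comm Q _ _).trans k01
      · exact absurd rfl hj
      · exact k12
      · exact (QuadraticMap.polar_comm Q _ _).trans k02
      · exact (QuadraticMap.polar_comm Q _ _).trans k12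
      · exact absurd rfl hj
    · intro w hw
      obtain ⟨x, y, z, rfl⟩ := hsp w hw
      refine ⟨-(x + y), -(x - y), z, ?_⟩
      change x • (b 0 : ι → F) + y • (b 1 : ι → F) + z • (b 2 : ι → F) =
        (-(x + y)) • ((1 : F) • (b 0 : ι → F) + (1 : F) • (b 1 : ι → F)) +
        (-(x - y)) • ((1 : F) • (b 0 : ι → F) + (-1 : F) • (b 1 : ι → F)) + z • (b 2 : ι → F)
      have e1 : x = -(x + y) + -(x - y) := by linear_combination x * h3
      have e2 : y = -(x + y) - -(x - y) := by linear_combination y * h3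
      have h5 : (-(x + y)) • ((1 : F) • (b 0 : ι → F) + (1 : F) • (b 1 : ι → F)) +
        (-(x - y)) • ((1 : F) • (b 0 : ι → F) + (-1 : F) • (b 1 : ι → F)) + z • (b 2 : ι → F) =
        (-(x + y) + -(x - y)) • (b 0 : ι → F) + (-(x + y) - -(x - y)) • (b 1 : ι → F) + z • (b 2 : ι → F) := by module
      rw [h5, ← e1, ← e2]

/-- the three-space decomposition over the field with three elements -/
theorem dec_three_three [Fintype F] (hQ : IsNondegenerateQuadraticForm Q) (hn : 2 ≤ Fintype.card ι) (hF : Fintype.card F = 3)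
    {H : Subgroup (GL ι F)} (hH : Pres Q H) {t : ℕ} {D : Fin t → Submodule F (ι → F)} (hD : IsOrthogonalMDecomposition Q 3 D)
    (h : H ≤ decompositionStabilizer D) :
    ∃ D : Fin (Fintype.card ι) → Submodule F (ι → F), IsNondegenerateMDecomposition (QuadraticMap.polar Q) 1 D ∧
      H ≤ decompositionStabilizer D := by
  have ht := hD.decomp.decomp.two_le
  have h2 := two_ne_three hF
  obtain ⟨a, ha, hfr⟩ := space_three_three hQ hF (hD.decomp.decomp.finrank_eq ⟨0, by omega⟩) (hD.decomp.nondegenerate ⟨0, by omega⟩)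
  have hall := fun i => frameK_isometric (hD.isometric ⟨0, by omega⟩ i) hfr
  choose v hv hQv horth hall using hall
  exact refine_lines hQ hn hH hD.decomp h a (mul_ne_zero h2 ha) v hv hQv horth hall

end CfsgLib.OmE
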