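import Mathlib
import Cfsg.Agent.LibOmE8

/-! hyperbolic four-spaces; four-spaces over F_2 -/
set_option autoImplicit false
set_option linter.unusedSectionVars false

namespace CfsgLib.OmE

open Module Cfsg Cfsg.Geo CfsgLib.AschF CfsgLib.Asch7
open scoped Matrix MatrixGroups Kronecker

variable {ι : Type} [Fintype ι] [DecidableEq ι] {F : Type*} [Field F]
variable {Q : (ι → F) → F}

/-- coordinates in two orthogonal hyperbolic pairs -/
theorem four_hyp [Finite F] (hQ : IsNondegenerateQuadraticForm Q) {D : Submodule F (ι → F)} (hd : finrank F D = 4)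
    (hnd : IsNondegenerateOn (QuadraticMap.polar Q) D) (hp : IsPlusTypeOn Q D) :
    ∃ v : Fin 4 → ι → F, (∀ i, v i ∈ D) ∧ (∀ i, Q (v i) = 0) ∧
      QuadraticMap.polar Q (v 0) (v 1) = 1 ∧ QuadraticMap.polar Q (v 2) (v 3) = 1 ∧
      QuadraticMap.polar Q (v 0) (v 2) = 0 ∧ QuadraticMap.polar Q (v 0) (v 3) = 0 ∧
      QuadraticMap.polar Q (v 1) (v 2) = 0 ∧ QuadraticMap.polar Q (v 1) (v 3) = 0 ∧
      LinearIndependent F v ∧
      ∀ w ∈ D, ∃ x : Fin 4 → F, w = x 0 • v 0 + x 1 • v 1 + x 2 • v 2 + x 3 • v 3 := by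
  obtain ⟨U, hUD, hUs, hU⟩ := hp
  rw [hd] at hU
  have hU2 : finrank F U = 2 := by omega
  have hU0 : U ≠ ⊥ := by
    rintro rfl
    rw [finrank_bot] at hU2
    omega
  have sym := QuadraticMap.polar_comm Q
  have ar := hQ.polar_bilinear.add_right
  have sr := hQ.polar_bilinear.smul_right
  have partner : ∀ e ∈ D, e ≠ 0 → ∃ x ∈ D, QuadraticMap.polar Q e x = 1 := by
    intro e he he0
    obtain ⟨⟨x, hx, hxe⟩, _⟩ := hnd e he he0
    refine ⟨(QuadraticMap.polar Q x e)⁻¹ • x, D.smul_mem _ hx, ?_⟩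
    rw [sr, sym e x, inv_mul_cancel₀ hxe]
  obtain ⟨e, heU, he0⟩ := (Submodule.ne_bot_iff U).1 hU0
  have heD := hUD heU
  have hQe := hUs e heU
  have hee : QuadraticMap.polar Q e e = 0 := by rw [polar_self hQ, hQe, mul_zero]
  obtain ⟨x, hxD, h1⟩ := partner e heD he0
  obtain ⟨g, hg⟩ : ∃ g, g = x + (-Q x) • e := ⟨_, rfl⟩
  have hgD : g ∈ D := by rw [hg]; exact D.add_mem hxD (D.smul_mem _ heD)
  have hQg : Q g = 0 := by
    rw [hg, Qadd hQ, hQ.smul, hQe, sr, sym x e, h1]; ring
  have hgg : QuadraticMap.polar Q g g = 0 := by rw [polar_self hQ, hQg, mul_zero]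
  have heg : QuadraticMap.polar Q e g = 1 := by
    rw [hg, ar, sr, h1, hee]; ring
  obtain ⟨e', he'U, he'0, hge'⟩ := exists_orth hQ (D := U) (by omega) g
  have he'D := hUD he'U
  have hQe' := hUs e' he'U
  have he'e' : QuadraticMap.polar Q e' e' = 0 := by rw [polar_self hQ, hQe', mul_zero]
  have hee' : QuadraticMap.polar Q e e' = 0 := sing_polar hQ hUs e heU e' he'U
  obtain ⟨y, hyD, h2⟩ := partner e' he'D he'0
  obtain ⟨z, hz⟩ : ∃ z, z = y + ((-QuadraticMap.polar Q g y) • e + (-QuadraticMap.polar Q e y) • g) := ⟨_, rfl⟩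
  have hzD : z ∈ D := by rw [hz]; exact D.add_mem hyD (D.add_mem (D.smul_mem _ heD) (D.smul_mem _ hgD))
  have hez : QuadraticMap.polar Q e z = 0 := by
    rw [hz, ar, pcomb_right hQ, hee, heg]; ring
  have hgz : QuadraticMap.polar Q g z = 0 := by
    rw [hz, ar, pcomb_right hQ, hgg, sym g e, heg]; ring
  have he'z : QuadraticMap.polar Q e' z = 1 := by
    rw [hz, ar, pcomb_right hQ, h2, sym e' e, hee', sym e' g, hge']; ring
  obtain ⟨g', hg'⟩ : ∃ g', g' = z + (-Q z) • e' := ⟨_, rfl⟩
  have hg'D : g' ∈ D := by rw [hg']; exact D.add_mem hzD (D.smul_mem _ he'D)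
  have hQg' : Q g' = 0 := by
    rw [hg', Qadd hQ, hQ.smul, hQe', sr, sym z e', he'z]; ring
  have hg'g' : QuadraticMap.polar Q g' g' = 0 := by rw [polar_self hQ, hQg', mul_zero]
  have he'g' : QuadraticMap.polar Q e' g' = 1 := by
    rw [hg', ar, sr, he'z, he'e']; ring
  have heg' : QuadraticMap.polar Q e g' = 0 := by
    rw [hg', ar, sr, hez, hee']; ring
  have hgg' : QuadraticMap.polar Q g g' = 0 := by
    rw [hg', ar, sr, hgz, hge']; ring
  have hcoef : ∀ c : Fin 4 → F, ∀ w, QuadraticMap.polar Q (c 0 • e + c 1 • g + c 2 • e' + c 3 • g') w =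
      c 0 * QuadraticMap.polar Q e w + c 1 * QuadraticMap.polar Q g w + c 2 * QuadraticMap.polar Q e' w + c 3 * QuadraticMap.polar Q g' w := by
    intro c w
    rw [hQ.polar_bilinear.add_left, hQ.polar_bilinear.add_left, pcomb_left hQ, hQ.polar_bilinear.smul_left,
      hQ.polar_bilinear.smul_left]
  have hzero : ∀ w, QuadraticMap.polar Q 0 w = 0 := (fdQ hQ).zero_left
  have hli : ∀ c : Fin 4 → F, c 0 • e + c 1 • g + c 2 • e' + c 3 • g' = 0 → ∀ i, c i = 0 := by
    intro c hc
    have k0 := hcoef c g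
    have k1 := hcoef c e
    have k2 := hcoef c g'
    have k3 := hcoef c e'
    rw [hc, hzero] at k0 k1 k2 k3
    rw [heg, hgg, sym e' g, hge', sym g' g, hgg'] at k0
    rw [hee, sym g e, heg, sym e' e, hee', sym g' e, heg'] at k1
    rw [heg', hgg', he'g', hg'g'] at k2
    rw [hee', hge', he'e', sym g' e', he'g'] at k3
    intro i
    fin_cases i
    · change c 0 = 0; linear_combination -k0
    · change c 1 = 0; linear_combination -k1
    · change c 2 = 0; linear_combination -k2
    · change c 3 = 0; linear_combination -k3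
  have hLI : LinearIndependent F ![e, g, e', g'] := by
    rw [Fintype.linearIndependent_iff]
    intro c hc
    rw [Fin.sum_univ_four] at hc
    exact hli c hc
  refine ⟨![e, g, e', g'], ?_, ?_, heg, he'g', hee', heg', hge', hgg', hLI, ?_⟩
  · intro i; fin_cases i
    · exact heD
    · exact hgD
    · exact he'D
    · exact hg'D
  · intro i; fin_cases i
    · exact hQe
    · exact hQg
    · exact hQe'
    · exact hQg'
  · intro w hw
    have hLI' : LinearIndependent F ![(⟨e, heD⟩ : D), ⟨g, hgD⟩, ⟨e', he'D⟩, ⟨g', hg'D⟩] := by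
      rw [Fintype.linearIndependent_iff]
      intro c hc
      rw [Fin.sum_univ_four] at hc
      exact hli c (congrArg Subtype.val hc)
    have hsp := hLI'.span_eq_top_of_card_eq_finrank' (by rw [hd]; simp)
    have h1 : (⟨w, hw⟩ : D) ∈ Submodule.span F (Set.range ![(⟨e, heD⟩ : D), ⟨g, hgD⟩, ⟨e', he'D⟩, ⟨g', hg'D⟩]) := by rw [hsp]; trivial
    rw [Submodule.mem_span_range_iff_exists_fun] at h1
    obtain ⟨c, hc⟩ := h1
    rw [Fin.sum_univ_four] at hc
    exact ⟨c, (congrArg Subtype.val hc).symm⟩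

theorem two_cases [Fintype F] (hF : Fintype.card F = 2) (x : F) : x = 0 ∨ x = 1 := by
  by_cases hx : x = 0
  · exact Or.inl hx
  have h1 := FiniteField.pow_card_sub_one_eq_one x hx
  rw [hF] at h1
  right; simpa using h1

theorem two_zero [Fintype F] (hF : Fintype.card F = 2) : (2 : F) = 0 := by
  have h1 : ((Fintype.card F : ℕ) : F) = 0 := FiniteField.cast_card_eq_zero F
  rw [hF] at h1
  exact_mod_cast h1

/-- a pair of non-proportional vectors of norm one with product one -/
def Tri (Q : (ι → F) → F) (a b : ι → F) : Prop := Q a = 1 ∧ Q b = 1 ∧ QuadraticMap.polar Q a b = 1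

theorem four_two [Fintype F] (hQ : IsNondegenerateQuadraticForm Q) (hF : Fintype.card F = 2) {D : Submodule F (ι → F)}
    (hd : finrank F D = 4) (hnd : IsNondegenerateOn (QuadraticMap.polar Q) D) (hp : IsPlusTypeOn Q D) :
    ∃ a b : Fin 2 → ι → F, (∀ j, a j ∈ D) ∧ (∀ j, b j ∈ D) ∧ (∀ j, Tri Q (a j) (b j)) ∧
      (∀ j j', j ≠ j' → QuadraticMap.polar Q (a j) (a j') = 0 ∧ QuadraticMap.polar Q (a j) (b j') = 0 ∧
        QuadraticMap.polar Q (b j) (a j') = 0 ∧ QuadraticMap.polar Q (b j) (b j') = 0) ∧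
      ∀ u ∈ D, Q u = 1 → ∃ j, u = a j ∨ u = b j ∨ u = a j + b j := by
  have h2 := two_zero hF
  obtain ⟨v, hv, hQv, h01, h23, h02, h03, h12, h13, hli, hsp⟩ := four_hyp hQ hd hnd hp
  have sym := QuadraticMap.polar_comm Q
  have hself : ∀ i, QuadraticMap.polar Q (v i) (v i) = 0 := fun i => by rw [polar_self hQ, hQv, mul_zero]
  have h10 : QuadraticMap.polar Q (v 1) (v 0) = 1 := by rw [sym]; exact h01
  have h32 : QuadraticMap.polar Q (v 3) (v 2) = 1 := by rw [sym]; exact h23
  have h20 : QuadraticMap.polar Q (v 2) (v 0) = 0 := by rw [sym]; exact h02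
  have h30 : QuadraticMap.polar Q (v 3) (v 0) = 0 := by rw [sym]; exact h03
  have h21 : QuadraticMap.polar Q (v 2) (v 1) = 0 := by rw [sym]; exact h12
  have h31 : QuadraticMap.polar Q (v 3) (v 1) = 0 := by rw [sym]; exact h13
  have al := hQ.polar_bilinear.add_left
  have ar := hQ.polar_bilinear.add_right
  have sl := hQ.polar_bilinear.smul_left
  have sr := hQ.polar_bilinear.smul_right
  let E : (Fin 4 → F) → ι → F := fun x => x 0 • v 0 + x 1 • v 1 + x 2 • v 2 + x 3 • v 3
  have hEQ : ∀ x : Fin 4 → F, Q (E x) = x 0 * x 1 + x 2 * x 3 := by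
    intro x
    simp only [E, Qadd hQ, hQ.smul, hQv, al, sl, sr, h01, h23, h02, h03, h12, h13]
    ring
  have hEP : ∀ x y : Fin 4 → F, QuadraticMap.polar Q (E x) (E y) = x 0 * y 1 + x 1 * y 0 + x 2 * y 3 + x 3 * y 2 := by
    intro x y
    simp only [E, al, ar, sl, sr, h01, h23, h02, h03, h12, h13, h10, h32, h20, h30, h21, h31, hself]
    ring
  have hED : ∀ x, E x ∈ D := fun x => D.add_mem (D.add_mem (D.add_mem (D.smul_mem _ (hv 0)) (D.smul_mem _ (hv 1)))
    (D.smul_mem _ (hv 2))) (D.smul_mem _ (hv 3))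
  have hEadd : ∀ x y : Fin 4 → F, E x + E y = E (x + y) := by
    intro x y
    simp only [E, Pi.add_apply]; module
  refine ⟨![E ![1, 1, 1, 0], E ![1, 0, 1, 1]], ![E ![0, 0, 1, 1], E ![1, 1, 0, 0]], ?_, ?_, ?_, ?_, ?_⟩
  · intro j; fin_cases j <;> exact hED _
  · intro j; fin_cases j <;> exact hED _
  · intro j; fin_cases j
    · refine ⟨?_, ?_, ?_⟩
      · change Q (E ![1, 1, 1, 0]) = 1; rw [hEQ]; simp
      · change Q (E ![0, 0, 1, 1]) = 1; rw [hEQ]; simp
      · change QuadraticMap.polar Q (E ![1, 1, 1, 0]) (E ![0, 0, 1, 1]) = 1; rw [hEP]; simp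
    · refine ⟨?_, ?_, ?_⟩
      · change Q (E ![1, 0, 1, 1]) = 1; rw [hEQ]; simp
      · change Q (E ![1, 1, 0, 0]) = 1; rw [hEQ]; simp
      · change QuadraticMap.polar Q (E ![1, 0, 1, 1]) (E ![1, 1, 0, 0]) = 1; rw [hEP]; simp
  · have k1 : QuadraticMap.polar Q (E ![1, 1, 1, 0]) (E ![1, 0, 1, 1]) = 0 := by
      rw [hEP]; simp; linear_combination h2
    have k2 : QuadraticMap.polar Q (E ![1, 1, 1, 0]) (E ![1, 1, 0, 0]) = 0 := by
      rw [hEP]; simp; linear_combination h2
    have k3 : QuadraticMap.polar Q (E ![0, 0, 1, 1]) (E ![1, 0, 1, 1]) = 0 := by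
      rw [hEP]; simp; linear_combination h2
    have k4 : QuadraticMap.polar Q (E ![0, 0, 1, 1]) (E ![1, 1, 0, 0]) = 0 := by
      rw [hEP]; simp
    intro j j' hj
    fin_cases j <;> fin_cases j'
    · exact absurd rfl hj
    · exact ⟨k1, k2, k3, k4⟩
    · exact ⟨(sym _ _).trans k1, (sym _ _).trans k3, (sym _ _).trans k2, (sym _ _).trans k4⟩
    · exact absurd rfl hj
  · intro u hu hQu
    obtain ⟨x, hx⟩ := hsp u hu
    have hx : u = E x := hx
    have hx' : x = ![x 0, x 1, x 2, x 3] := by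
      ext i; fin_cases i <;> rfl
    rw [hx, hEQ] at hQu
    have e1 : E ![1, 1, 1, 0] + E ![0, 0, 1, 1] = E ![1, 1, 0, 1] := by
      rw [hEadd]; congr 1
      ext i; fin_cases i <;> simp
      linear_combination h2
    have e2 : E ![1, 0, 1, 1] + E ![1, 1, 0, 0] = E ![0, 1, 1, 1] := by
      rw [hEadd]; congr 1
      ext i; fin_cases i <;> simp
      linear_combination h2
    rw [hx, hx']
    rcases two_cases hF (x 0) with k0 | k0 <;> rcases two_cases hF (x 1) with k1 | k1 <;>
      rcases two_cases hF (x 2) with k2 | k2 <;> rcases two_cases hF (x 3) with k3 | k3 <;>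
      rw [k0, k1, k2, k3] at hQu ⊢ <;>
      first
      | exact ⟨0, Or.inl rfl⟩
      | exact ⟨0, Or.inr (Or.inl rfl)⟩
      | exact ⟨0, Or.inr (Or.inr e1.symm)⟩
      | exact ⟨1, Or.inl rfl⟩
      | exact ⟨1, Or.inr (Or.inl rfl)⟩
      | exact ⟨1, Or.inr (Or.inr e2.symm)⟩
      | (exfalso; apply one_ne_zero (α := F); linear_combination -hQu)
      | (exfalso; apply one_ne_zero (α := F); linear_combination h2 - hQu)

theorem tri_li [Finite F] (hQ : IsNondegenerateQuadraticForm Q) (h2 : (2 : F) = 0) {a b : ι → F} (h : Tri Q a b) (x y : F)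
    (hxy : x • a + y • b = 0) : x = 0 ∧ y = 0 := by
  have h1 := pcomb_left hQ a b a x y
  have h3 := pcomb_left hQ a b b x y
  have halt := alt_two hQ h2
  rw [hxy, (fdQ hQ).zero_left, halt, QuadraticMap.polar_comm Q b a, h.2.2] at h1
  rw [hxy, (fdQ hQ).zero_left, halt, h.2.2] at h3
  exact ⟨by linear_combination -h3, by linear_combination -h1⟩

theorem tri_finrank [Finite F] (hQ : IsNondegenerateQuadraticForm Q) (h2 : (2 : F) = 0) {a b : ι → F} (h : Tri Q a b) :
    finrank F (Submodule.span F {a, b}) = 2 := by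
  have hli : LinearIndependent F ![a, b] := by
    rw [LinearIndependent.pair_iff]
    exact fun x y hxy => tri_li hQ h2 h x y hxy
  have h1 := finrank_span_eq_card hli
  rw [Fintype.card_fin, Matrix.range_cons, Matrix.range_cons, Matrix.range_empty, Set.union_empty,
    Set.singleton_union] at h1
  exact h1

theorem tri_nd [Finite F] (hQ : IsNondegenerateQuadraticForm Q) (h2 : (2 : F) = 0) {a b : ι → F} (h : Tri Q a b) :
    IsNondegenerateOn (QuadraticMap.polar Q) (Submodule.span F {a, b}) := by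
  have key : ∀ w ∈ Submodule.span F {a, b}, w ≠ 0 → ∃ x ∈ Submodule.span F {a, b}, QuadraticMap.polar Q x w ≠ 0 := by
    intro w hw hw0
    obtain ⟨x, y, rfl⟩ := Submodule.mem_span_pair.1 hw
    have ha : a ∈ Submodule.span F {a, b} := Submodule.subset_span (by simp)
    have hb : b ∈ Submodule.span F {a, b} := Submodule.subset_span (by simp)
    have halt := alt_two hQ h2
    have h1 := pcomb_right hQ a b a x y
    have h3 := pcomb_right hQ a b b x y
    rw [halt, h.2.2] at h1
    rw [halt, QuadraticMap.polar_comm Q b a, h.2.2] at h3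
    by_cases hx : x = 0
    · refine ⟨a, ha, ?_⟩
      rw [h1, hx]
      intro h0
      apply hw0
      have : y = 0 := by linear_combination h0
      rw [hx, this, zero_smul, zero_smul, add_zero]
    · refine ⟨b, hb, ?_⟩
      rw [h3]
      intro h0
      apply hx
      linear_combination h0
  intro w hw hw0
  obtain ⟨x, hx, hxw⟩ := key w hw hw0
  exact ⟨⟨x, hx, hxw⟩, ⟨x, hx, by rw [QuadraticMap.polar_comm]; exact hxw⟩⟩

theorem tri_not_plus [Fintype F] (hQ : IsNondegenerateQuadraticForm Q) (hF : Fintype.card F = 2) {a b : ι → F} (h : Tri Q a b) :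
    ¬ IsPlusTypeOn Q (Submodule.span F {a, b}) := by
  have h2 := two_zero hF
  rintro ⟨U, hU, hUs, hd⟩
  rw [tri_finrank hQ h2 h] at hd
  have hU0 : U ≠ ⊥ := by
    rintro rfl
    rw [finrank_bot] at hd
    omega
  obtain ⟨e, heU, he0⟩ := (Submodule.ne_bot_iff U).1 hU0
  obtain ⟨x, y, rfl⟩ := Submodule.mem_span_pair.1 (hU heU)
  have h1 := hUs _ heU
  rw [Qcomb hQ, h.1, h.2.1, h.2.2] at h1
  rcases two_cases hF x with hx | hx <;> rcases two_cases hF y with hy | hy <;> subst hx <;> subst hy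
  · exact he0 (by simp)
  · exact one_ne_zero (α := F) (by linear_combination h1)
  · exact one_ne_zero (α := F) (by linear_combination h1)
  · exact one_ne_zero (α := F) (by linear_combination h1 - h2)

/-- plus type four-spaces over the field with two elements refine to minus type planes -/
theorem dec_four_two [Fintype F] (hQ : IsNondegenerateQuadraticForm Q) (hF : Fintype.card F = 2)
    {H : Subgroup (GL ι F)} (hH : Pres Q H) {t : ℕ} {D : Fin t → Submodule F (ι → F)}
    (hD : IsNondegenerateMDecomposition (QuadraticMap.polar Q) 4 D) (h : H ≤ decompositionStabilizer D)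
    (hp : ∀ i, IsPlusTypeOn Q (D i)) :
    ∃ D : Fin (t * 2) → Submodule F (ι → F), IsNondegenerateMDecomposition (QuadraticMap.polar Q) 2 D ∧
      (∀ i, ¬ IsPlusTypeOn Q (D i)) ∧ H ≤ decompositionStabilizer D := by
  have h2 := two_zero hF
  have hall := fun i => four_two hQ hF (hD.decomp.finrank_eq i) (hD.nondegenerate i) (hp i)
  choose a b ha hb htri hcross hall using hall
  have al := hQ.polar_bilinear.add_left
  have ar := hQ.polar_bilinear.add_right
  obtain ⟨e, h1, h3⟩ := refine_sub hQ (H := H) (m := 2) (s := 2) (by norm_num) (by norm_num) hD rfl h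
    (fun i j => Submodule.span F {a i j, b i j}) (by
      intro i j
      rw [Submodule.span_le]
      rintro x (rfl | rfl)
      · exact ha i j
      · exact hb i j) (fun i j => tri_finrank hQ h2 (htri i j)) (fun i j => tri_nd hQ h2 (htri i j)) (by
      intro i j j' hj u hu v hv
      obtain ⟨x, y, rfl⟩ := Submodule.mem_span_pair.1 hu
      obtain ⟨x', y', rfl⟩ := Submodule.mem_span_pair.1 hv
      obtain ⟨k1, k2, k3, k4⟩ := hcross i j j' hj
      rw [pcomb_left hQ, pcomb_right hQ, pcomb_right hQ, k1, k2, k3, k4]; ring) (by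
      intro g hg i i' hii' j
      have hga := map_mulVec g hii' (ha i j)
      have hgb := map_mulVec g hii' (hb i j)
      obtain ⟨j₁, hj₁⟩ := hall i' _ hga (by rw [hH g hg]; exact (htri i j).1)
      obtain ⟨j₂, hj₂⟩ := hall i' _ hgb (by rw [hH g hg]; exact (htri i j).2.1)
      have hmem : ∀ (u : ι → F) (l : Fin 2), (u = a i' l ∨ u = b i' l ∨ u = a i' l + b i' l) → u ∈ Submodule.span F {a i' l, b i' l} := by
        rintro u l (rfl | rfl | rfl)
        · exact Submodule.subset_span (by simp)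
        · exact Submodule.subset_span (by simp)
        · exact Submodule.add_mem _ (Submodule.subset_span (by simp)) (Submodule.subset_span (by simp))
      have m1 := hmem _ _ hj₁
      have m2 := hmem _ _ hj₂
      have hjj : j₁ = j₂ := by
        by_contra hne
        obtain ⟨x, y, hxy⟩ := Submodule.mem_span_pair.1 m1
        obtain ⟨x', y', hxy'⟩ := Submodule.mem_span_pair.1 m2
        obtain ⟨k1, k2, k3, k4⟩ := hcross i' j₁ j₂ hne
        have h5 := hH.iso g hg (a i j) (b i j)
        rw [← hxy, ← hxy', pcomb_left hQ, pcomb_right hQ, pcomb_right hQ, k1, k2, k3, k4, (htri i j).2.2] at h5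
        exact one_ne_zero (α := F) (by linear_combination -h5)
      subst hjj
      refine ⟨j₁, ?_⟩
      apply Submodule.eq_of_le_of_finrank_eq
      · rw [Submodule.map_span, Submodule.span_le]
        rintro _ ⟨x, (rfl | rfl), rfl⟩
        · rw [Matrix.toLin'_apply]; exact m1
        · rw [Matrix.toLin'_apply]; exact m2
      · rw [finrank_map_gl, tri_finrank hQ h2 (htri i j), tri_finrank hQ h2 (htri i' j₁)])
  exact ⟨_, h1, fun x => tri_not_plus hQ hF (htri _ _), h3⟩

end CfsgLib.OmE
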