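import Cfsg.Agent.LibOmPropH12f
import Cfsg.Agent.LibH22Par

set_option autoImplicit false
set_option linter.unusedSectionVars false

/-! Families of maximal totally singular subspaces and parity (seat helper12). -/

namespace CfsgLib.OmH12

open Module Cfsg Cfsg.Geo Cfsg.Agent.H22
open scoped Matrix MatrixGroups Kronecker commutatorElement

section abs
variable {F V : Type*} [Field F] [AddCommGroup V] [Module F V] [FiniteDimensional F V] {Q : QuadraticForm F V}

/-- totally singular subspace -/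
def TS (Q : QuadraticForm F V) (U : Submodule F V) : Prop := ∀ x ∈ U, Q x = 0

theorem TS.pol {U : Submodule F V} (h : TS Q U) {x y : V} (hx : x ∈ U) (hy : y ∈ U) : QuadraticMap.polar Q x y = 0 := by
  unfold QuadraticMap.polar
  rw [h _ (add_mem hx hy), h _ hx, h _ hy]; ring

theorem TS.mono {U W : Submodule F V} (h : TS Q U) (hW : W ≤ U) : TS Q W := fun x hx => h x (hW hx)

/-- the orthogonal complement -/
def pp (Q : QuadraticForm F V) (W : Submodule F V) : Submodule F V :=
  LinearMap.BilinForm.orthogonal (QuadraticMap.polarBilin Q) W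

theorem mem_pp {W : Submodule F V} {x : V} : x ∈ pp Q W ↔ ∀ w ∈ W, QuadraticMap.polar Q w x = 0 := by
  unfold pp
  rw [LinearMap.BilinForm.mem_orthogonal_iff]
  rfl

theorem finrank_pp (hQ : (QuadraticMap.polarBilin Q).Nondegenerate) (W : Submodule F V) :
    finrank F (pp Q W) + finrank F W = finrank F V := by
  have h := LinearMap.BilinForm.finrank_orthogonal hQ W
  have h1 := Submodule.finrank_le W
  unfold pp
  omega

theorem pp_pp (hQ : (QuadraticMap.polarBilin Q).Nondegenerate) (W : Submodule F V) : pp Q (pp Q W) = W :=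
  LinearMap.BilinForm.orthogonal_orthogonal hQ polar_isSymm.isRefl W

theorem pp_sup (A B : Submodule F V) : pp Q (A ⊔ B) = pp Q A ⊓ pp Q B := by
  ext x
  rw [Submodule.mem_inf, mem_pp, mem_pp, mem_pp]
  constructor
  · intro h
    exact ⟨fun w hw => h w (Submodule.mem_sup_left hw), fun w hw => h w (Submodule.mem_sup_right hw)⟩
  · rintro ⟨h1, h2⟩ w hw
    obtain ⟨a, ha, b, hb, rfl⟩ := Submodule.mem_sup.1 hw
    rw [QuadraticMap.polar_add_left, h1 a ha, h2 b hb, add_zero]

theorem TS.le_pp {U : Submodule F V} (h : TS Q U) : U ≤ pp Q U := fun _ hx => mem_pp.2 fun _ hw => h.pol hw hx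

theorem pp_anti {A B : Submodule F V} (h : A ≤ B) : pp Q B ≤ pp Q A := fun _ hx => mem_pp.2 fun w hw => mem_pp.1 hx w (h hw)

theorem TS.pp_eq (hQ : (QuadraticMap.polarBilin Q).Nondegenerate) {U : Submodule F V} (h : TS Q U)
    (hd : 2 * finrank F U = finrank F V) : pp Q U = U := by
  symm
  apply Submodule.eq_of_le_of_finrank_eq h.le_pp
  have := finrank_pp hQ U
  omega

theorem finrank_inf_pp (hQ : (QuadraticMap.polarBilin Q).Nondegenerate) {U W : Submodule F V} (h : TS Q U)
    (hd : 2 * finrank F U = finrank F V) :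
    finrank F (U ⊓ pp Q W : Submodule F V) + finrank F W = finrank F U + finrank F (U ⊓ W : Submodule F V) := by
  have h1 : U ⊓ pp Q W = pp Q (U ⊔ W) := by rw [pp_sup, h.pp_eq hQ hd]
  have h2 := finrank_pp hQ (U ⊔ W)
  have h3 := Submodule.finrank_sup_add_finrank_inf_eq U W
  rw [h1]
  omega

/-- totally singular subspaces extend to half-dimensional ones -/
theorem TS.extend (hQ : (QuadraticMap.polarBilin Q).Nondegenerate) {U W : Submodule F V} (h : TS Q U)
    (hd : 2 * finrank F U = finrank F V) (hW : TS Q W) : ∃ U', W ≤ U' ∧ TS Q U' ∧ 2 * finrank F U' = finrank F V := by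
  refine ⟨W ⊔ (U ⊓ pp Q W), le_sup_left, ?_, ?_⟩
  · intro x hx
    obtain ⟨a, ha, b, hb, rfl⟩ := Submodule.mem_sup.1 hx
    rw [qadd, hW a ha, h b hb.1, mem_pp.1 hb.2 a ha]; ring
  · have h1 := Submodule.finrank_sup_add_finrank_inf_eq W (U ⊓ pp Q W)
    have h2 : W ⊓ (U ⊓ pp Q W) = U ⊓ W := by
      apply le_antisymm
      · exact fun x hx => ⟨hx.2.1, hx.1⟩
      · exact fun x hx => ⟨hx.2, hx.1, hW.le_pp hx.2⟩
    rw [h2] at h1
    have h3 := finrank_inf_pp hQ (W := W) h hd
    omega

/-- image of a subspace -/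
def img (g : OGrp Q) (U : Submodule F V) : Submodule F V := U.map (g.1 : V →ₗ[F] V)

theorem mem_img {g : OGrp Q} {U : Submodule F V} {x : V} : x ∈ img g U ↔ ∃ y ∈ U, g.1 y = x := by
  unfold img
  rw [Submodule.mem_map]
  rfl

theorem img_mul (g h : OGrp Q) (U : Submodule F V) : img (g * h) U = img g (img h U) := by
  ext x
  simp only [mem_img]
  constructor
  · rintro ⟨y, hy, rfl⟩
    exact ⟨h.1 y, ⟨y, hy, rfl⟩, rfl⟩
  · rintro ⟨_, ⟨y, hy, rfl⟩, rfl⟩
    exact ⟨y, hy, rfl⟩

theorem img_one (U : Submodule F V) : img (1 : OGrp Q) U = U := by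
  ext x
  simp only [mem_img]
  constructor
  · rintro ⟨y, hy, rfl⟩; exact hy
  · intro hx; exact ⟨x, hx, rfl⟩

theorem img_ts {g : OGrp Q} {U : Submodule F V} (h : TS Q U) : TS Q (img g U) := by
  intro x hx
  obtain ⟨y, hy, rfl⟩ := mem_img.1 hx
  rw [og_Q]; exact h y hy

theorem finrank_img (g : OGrp Q) (U : Submodule F V) : finrank F (img g U) = finrank F U := by
  unfold img
  exact LinearEquiv.finrank_map_eq g.1 U

/-- a reflection changes the dimension of the intersection by one -/
theorem refl_par (hQ : (QuadraticMap.polarBilin Q).Nondegenerate) {U U0 : Submodule F V} (hU : TS Q U) (hU0 : TS Q U0)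
    (hd : 2 * finrank F U = finrank F V) (hd0 : 2 * finrank F U0 = finrank F V) (a : V) (ha : Q a ≠ 0) :
    finrank F (U0 ⊓ img (oRefl Q a ha) U : Submodule F V) = finrank F (U0 ⊓ U : Submodule F V) + 1 ∨
    finrank F (U0 ⊓ U : Submodule F V) = finrank F (U0 ⊓ img (oRefl Q a ha) U : Submodule F V) + 1 := by
  have haU : a ∉ U := fun h => ha (hU a h)
  set r := oRefl Q a ha with hr
  set W : Submodule F V := U ⊓ LinearMap.ker (QuadraticMap.polarBilin Q a) with hW
  have hfix : ∀ x, QuadraticMap.polar Q a x = 0 → r.1 x = x := by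
    intro x hx
    rw [hr, oRefl_apply, hx, mul_zero, zero_smul, sub_zero]
  have hWU : W ≤ U := inf_le_left
  have hWr : W ≤ img r U := by
    intro x hx
    exact mem_img.2 ⟨x, hx.1, hfix x hx.2⟩
  have hrU : TS Q (img r U) := img_ts hU
  have hUr : U ⊓ img r U ≤ W := by
    rintro x ⟨hx, hx'⟩
    obtain ⟨y, hy, hyx⟩ := mem_img.1 hx'
    rw [hr, oRefl_apply] at hyx
    by_cases h0 : QuadraticMap.polar Q a y = 0
    · rw [h0, mul_zero, zero_smul, sub_zero] at hyx
      rw [← hyx]; exact ⟨hy, h0⟩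
    · exfalso
      apply haU
      have h1 : ((Q a)⁻¹ * QuadraticMap.polar Q a y) • a ∈ U := by
        have h2 : ((Q a)⁻¹ * QuadraticMap.polar Q a y) • a = y - x := by rw [← hyx]; abel
        rw [h2]; exact U.sub_mem hy hx
      exact (U.smul_mem_iff (mul_ne_zero (inv_ne_zero ha) h0)).1 h1
  have hfW : finrank F U = finrank F W + 1 := by
    apply finrank_inf_ker
    intro hle
    apply haU
    rw [← hU.pp_eq hQ hd, mem_pp]
    intro w hw
    have : QuadraticMap.polar Q a w = 0 := hle hw
    rw [QuadraticMap.polar_comm]; exact this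
  -- the orthogonal complement of W
  have hppW : pp Q W = U ⊔ Submodule.span F {a} := by
    symm
    apply Submodule.eq_of_le_of_finrank_eq
    · apply sup_le
      · intro x hx
        rw [mem_pp]
        exact fun w hw => hU.pol (hWU hw) hx
      · rw [Submodule.span_le, Set.singleton_subset_iff]
        change a ∈ pp Q W
        rw [mem_pp]
        intro w hw
        rw [QuadraticMap.polar_comm]; exact hw.2
    · have h1 := finrank_pp hQ W
      have h2 := Submodule.finrank_sup_add_finrank_inf_eq U (Submodule.span F {a})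
      have h3 : U ⊓ Submodule.span F {a} = ⊥ := by
        rw [eq_bot_iff]
        rintro x ⟨hx, hx'⟩
        obtain ⟨c, rfl⟩ := Submodule.mem_span_singleton.1 hx'
        by_cases hc : c = 0
        · rw [hc, zero_smul]; exact Submodule.zero_mem _
        · exact absurd ((U.smul_mem_iff hc).1 hx) haU
      have h4 : finrank F (Submodule.span F {a}) = 1 := by
        apply finrank_span_singleton
        rintro rfl
        exact ha (QuadraticMap.map_zero Q)
      rw [h3, finrank_bot, h4] at h2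
      omega
  set X : Submodule F V := U0 ⊓ pp Q W with hX
  have hXd : finrank F X = finrank F (U0 ⊓ W : Submodule F V) + 1 := by
    have h1 := finrank_inf_pp hQ (W := W) hU0 hd0
    rw [← hX] at h1
    have h2 := hfW
    have h3 := hd
    have h4 := hd0
    generalize finrank F (U0 ⊓ W : Submodule F V) = a1 at *
    generalize finrank F W = a2 at *
    generalize finrank F X = a3 at *
    omega
  have hXor : ∀ x ∈ X, x ∈ U ∨ x ∈ img r U := by
    rintro x ⟨hx0, hx⟩
    rw [hppW] at hx
    obtain ⟨y, hy, z, hz, rfl⟩ := Submodule.mem_sup.1 hx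
    obtain ⟨c, rfl⟩ := Submodule.mem_span_singleton.1 hz
    by_cases hc : c = 0
    · left; rw [hc, zero_smul, add_zero]; exact hy
    · right
      have h1 := hU0 _ hx0
      rw [qadd, qsmul, hU y hy, QuadraticMap.polar_smul_right, smul_eq_mul] at h1
      have h2 : QuadraticMap.polar Q y a = - c * Q a := by
        have h3 : c * (QuadraticMap.polar Q y a + c * Q a) = 0 := by linear_combination h1
        rcases mul_eq_zero.1 h3 with h | h
        · exact absurd h hc
        · linear_combination h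
      refine mem_img.2 ⟨y, hy, ?_⟩
      rw [hr, oRefl_apply, QuadraticMap.polar_comm, h2]
      have : (Q a)⁻¹ * (-c * Q a) = -c := by field_simp
      rw [this, neg_smul]; abel
  have hXcase : X ≤ U ∨ X ≤ img r U := by
    by_cases h : X ≤ U
    · exact Or.inl h
    right
    obtain ⟨x, hx, hxU⟩ := Set.not_subset.1 h
    have hxr := (hXor x hx).resolve_left hxU
    intro y hy
    rcases hXor y hy with h1 | h1
    · rcases hXor _ (add_mem hx hy) with h2 | h2
      · exfalso
        apply hxU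
        have := U.sub_mem h2 h1
        rwa [add_sub_cancel_right] at this
      · have := (img r U).sub_mem h2 hxr
        rwa [add_sub_cancel_left] at this
    · exact h1
  have hUpp : U ≤ pp Q W := by rw [hppW]; exact le_sup_left
  have hrpp : img r U ≤ pp Q W := by
    intro x hx
    rw [mem_pp]
    exact fun w hw => hrU.pol (hWr hw) hx
  rcases hXcase with h | h
  · right
    have e1 : U0 ⊓ U = X := le_antisymm (fun x hx => ⟨hx.1, hUpp hx.2⟩) (fun x hx => ⟨hx.1, h hx⟩)
    have e2 : U0 ⊓ img r U = U0 ⊓ W := by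
      apply le_antisymm
      · rintro x ⟨hx1, hx2⟩
        exact ⟨hx1, hUr ⟨h ⟨hx1, hrpp hx2⟩, hx2⟩⟩
      · rintro x ⟨hx1, hx2⟩
        exact ⟨hx1, hWr hx2⟩
    rw [e1, e2, hXd]
  · left
    have e1 : U0 ⊓ img r U = X := le_antisymm (fun x hx => ⟨hx.1, hrpp hx.2⟩) (fun x hx => ⟨hx.1, h hx⟩)
    have e2 : U0 ⊓ U = U0 ⊓ W := by
      apply le_antisymm
      · rintro x ⟨hx1, hx2⟩
        exact ⟨hx1, hUr ⟨hx2, h ⟨hx1, hUpp hx2⟩⟩⟩
      · rintro x ⟨hx1, hx2⟩
        exact ⟨hx1, hWU hx2⟩
    rw [e1, e2, hXd]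

theorem par_eq (hQ : (QuadraticMap.polarBilin Q).Nondegenerate)
    (hF : (∃ a : F, a ≠ 0 ∧ a ≠ 1) ∨ finrank F V ≠ 4) (g : OGrp Q) {U U0 : Submodule F V} (hU : TS Q U) (hU0 : TS Q U0)
    (hd : 2 * finrank F U = finrank F V) (hd0 : 2 * finrank F U0 = finrank F V) :
    (-1 : ℤˣ) ^ finrank F (U0 ⊓ img g U : Submodule F V) = parFun g * (-1) ^ finrank F (U0 ⊓ U : Submodule F V) := by
  have step : ∀ (y : OGrp Q) (v : V) (hv : Q v ≠ 0), (-1 : ℤˣ) ^ finrank F (U0 ⊓ img (oRefl Q v hv * y) U : Submodule F V) =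
      - (-1 : ℤˣ) ^ finrank F (U0 ⊓ img y U : Submodule F V) := by
    intro y v hv
    rw [img_mul]
    rcases refl_par hQ (img_ts (g := y) hU) hU0 (by rw [finrank_img]; exact hd) hd0 v hv with h | h
    · rw [h, pow_succ]; simp
    · rw [h, pow_succ]; simp
  have hg : g ∈ Subgroup.closure {g : OGrp Q | ∃ v, ∃ hv : Q v ≠ 0, g = oRefl Q v hv} := by
    rw [closure_oRefl hQ hF]; trivial
  induction hg using Subgroup.closure_induction_left with
  | one => rw [parFun_one, one_mul, img_one]
  | mul_left x hx y _ ih =>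
    obtain ⟨v, hv, rfl⟩ := hx
    rw [parFun_refl_mul hQ, step, ih, neg_mul]
  | inv_mul_cancel x hx y _ ih =>
    obtain ⟨v, hv, rfl⟩ := hx
    rw [oRefl_inv, parFun_refl_mul hQ, step, ih, neg_mul]

theorem comm_par (hQ : (QuadraticMap.polarBilin Q).Nondegenerate)
    (hF : (∃ a : F, a ≠ 0 ∧ a ≠ 1) ∨ finrank F V ≠ 4) {g : OGrp Q} (hg : g ∈ commutator (OGrp Q)) {U : Submodule F V} (hU : TS Q U)
    (hd : 2 * finrank F U = finrank F V) :
    finrank F (U ⊓ img g U : Submodule F V) % 2 = finrank F U % 2 := by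
  have h1 := par_eq hQ hF g hU hU hd hd
  have h2 : par hQ hF g = 1 := by
    have : commutator (OGrp Q) ≤ (par hQ hF).ker := Abelianization.commutator_subset_ker _
    exact this hg
  have h3 : parFun g = 1 := h2
  rw [h3, one_mul, inf_idem] at h1
  rcases Nat.even_or_odd (finrank F U) with he | ho
  · rcases Nat.even_or_odd (finrank F (U ⊓ img g U : Submodule F V)) with he' | ho'
    · rw [Nat.even_iff.1 he, Nat.even_iff.1 he']
    · rw [he.neg_one_pow, ho'.neg_one_pow] at h1
      exact absurd h1 (by decide)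
  · rcases Nat.even_or_odd (finrank F (U ⊓ img g U : Submodule F V)) with he' | ho'
    · rw [ho.neg_one_pow, he'.neg_one_pow] at h1
      exact absurd h1 (by decide)
    · rw [Nat.odd_iff.1 ho, Nat.odd_iff.1 ho']

end abs

section final
variable {ι : Type} [Fintype ι] [DecidableEq ι] {F : Type*} [Field F] {Q : (ι → F) → F}
  (hQ : IsNondegenerateQuadraticForm Q)

include hQ

theorem omega_par (hn : Fintype.card ι ≠ 4) {g : GL ι F} (hg : g ∈ omegaGL Q) {U : Submodule F (ι → F)}
    (hU : IsTotallySingularQuad Q U) (hd : 2 * finrank F U = Fintype.card ι) :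
    finrank F (U ⊓ U.map (Matrix.toLin' (g : Matrix ι ι F)) : Submodule F (ι → F)) % 2 = finrank F U % 2 := by
  obtain ⟨Q', rfl, h⟩ := exists_qf hQ
  obtain ⟨g, hg, rfl⟩ := hg
  have h1 := comm_par h (Or.inr (by rw [Module.finrank_fintype_fun_eq_card]; exact hn)) (omegaIso Q' ⟨g, hg⟩).2 (U := U) hU
    (by rw [Module.finrank_fintype_fun_eq_card]; exact hd)
  exact h1

theorem ts_extend {W : Submodule F (ι → F)} (hplus : IsPlusTypeOn Q ⊤) (hW : IsTotallySingularQuad Q W) :
    ∃ U, W ≤ U ∧ IsTotallySingularQuad Q U ∧ 2 * finrank F U = Fintype.card ι := by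
  obtain ⟨Q', rfl, h⟩ := exists_qf hQ
  obtain ⟨U, _, hU, hd⟩ := hplus
  rw [finrank_top] at hd
  obtain ⟨U', h1, h2, h3⟩ := TS.extend h (U := U) (W := W) hU hd hW
  rw [Module.finrank_fintype_fun_eq_card] at h3
  exact ⟨U', h1, h2, h3⟩

/-- the stabiliser in Omega of a totally singular subspace of codimension one in a maximal one fixes a maximal one -/
theorem stab_submax (hn : Fintype.card ι ≠ 4) (hplus : IsPlusTypeOn Q ⊤) {W : Submodule F (ι → F)}
    (hW : IsTotallySingularQuad Q W) (hd : 2 * (finrank F W + 1) = Fintype.card ι) {H : Subgroup (GL ι F)} (hH : H ≤ omegaGL Q)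
    (hHW : H ≤ subspaceStabilizer W) :
    ∃ U, W ≤ U ∧ IsTotallySingularQuad Q U ∧ 2 * finrank F U = Fintype.card ι ∧ H ≤ subspaceStabilizer U := by
  obtain ⟨U, hWU, hU, hd'⟩ := ts_extend hQ hplus hW
  refine ⟨U, hWU, hU, hd', ?_⟩
  apply CfsgLib.AschF.mem_stab
  intro g hg v hv
  have h1 := omega_par hQ hn (hH hg) hU hd'
  have h2 : W ≤ U ⊓ U.map (Matrix.toLin' (g : Matrix ι ι F)) := by
    intro x hx
    refine ⟨hWU hx, ((g⁻¹ : GL ι F) : Matrix ι ι F) *ᵥ x, hWU (CfsgLib.AschF.stab_mem hHW g⁻¹ (H.inv_mem hg) x hx), ?_⟩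
    rw [Matrix.toLin'_apply, Matrix.mulVec_mulVec, ← Units.val_mul, mul_inv_cancel, Units.val_one, Matrix.one_mulVec]
  have h3 := Submodule.finrank_mono h2
  have h4 : finrank F (U ⊓ U.map (Matrix.toLin' (g : Matrix ι ι F)) : Submodule F (ι → F)) ≤ finrank F U :=
    Submodule.finrank_mono inf_le_left
  have h5 : finrank F (U ⊓ U.map (Matrix.toLin' (g : Matrix ι ι F)) : Submodule F (ι → F)) = finrank F U := by omega
  have h6 := Submodule.eq_of_le_of_finrank_eq inf_le_left h5
  have h7 : finrank F (U.map (Matrix.toLin' (g : Matrix ι ι F))) ≤ finrank F U := Submodule.finrank_map_le _ _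
  have h8 : U.map (Matrix.toLin' (g : Matrix ι ι F)) = U := by
    symm
    apply Submodule.eq_of_le_of_finrank_le _ h7
    intro x hx
    rw [← h6] at hx
    exact hx.2
  rw [← h8]
  exact ⟨v, hv, by rw [Matrix.toLin'_apply]⟩

/-- in dimension `2m`, `m` odd, complementary totally singular subspaces are not interchanged -/
theorem no_swap (hn : Fintype.card ι ≠ 4) {g : GL ι F} (hg : g ∈ omegaGL Q) {U U' : Submodule F (ι → F)}
    (hU : IsTotallySingularQuad Q U) (hd : 2 * finrank F U = Fintype.card ι) (hodd : Odd (finrank F U)) (hUU' : Disjoint U U') :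
    U.map (Matrix.toLin' (g : Matrix ι ι F)) ≠ U' := by
  intro h
  have h1 := omega_par hQ hn hg hU hd
  rw [h, hUU'.eq_bot, finrank_bot, Nat.odd_iff.1 hodd] at h1
  exact absurd h1 (by decide)

end final

end CfsgLib.OmH12
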