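import Mathlib
import Cfsg.Agent.LibOmE9
import Cfsg.Agent.LibOmParH12

/-! even-dimensional orthogonal groups: subspaces invariant under a field of matrices -/
set_option autoImplicit false
set_option linter.unusedSectionVars false

namespace CfsgLib.OmE

open Module Cfsg Cfsg.Geo CfsgLib.Asch9 CfsgLib.Asch11 CfsgLib.Asch19 CfsgLib.AschF
open scoped Matrix MatrixGroups Kronecker

variable {ι : Type} [Fintype ι] [DecidableEq ι] {F : Type*} [Field F]
variable {Q : (ι → F) → F}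

/-- the dimension of an invariant subspace of a field of matrices -/
theorem fld_dvd_sub {r : ℕ} {K : Subalgebra F (Matrix ι ι F)} (hK : IsFieldSubalgebra r K) {U : Submodule F (ι → F)}
    (hU : ∀ k ∈ K, ∀ v ∈ U, k *ᵥ v ∈ U) : r ∣ finrank F U := by
  classical
  by_cases h0 : U = ⊥
  · rw [h0, finrank_bot]; exact dvd_zero r
  obtain ⟨v, hv, hv0⟩ := (Submodule.ne_bot_iff U).1 h0
  have hne : Nonempty ι := by
    by_contra hcon
    rw [not_nonempty_iff] at hcon
    exact hv0 (Subsingleton.elim _ _)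
  let φ : K →ₐ[F] End F U :=
    { toFun := fun k => (Matrix.toLin' k.1).restrict (fun u hu => by
        rw [Matrix.toLin'_apply]; exact hU k.1 k.2 u hu)
      map_one' := by
        ext1 u; ext1
        simp [LinearMap.restrict_apply]
      map_mul' := by
        intro x y
        ext1 u; ext1
        simp [LinearMap.restrict_apply]
      map_zero' := by
        ext1 u; ext1
        simp [LinearMap.restrict_apply]
      map_add' := by
        intro x y
        ext1 u; ext1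
        simp [LinearMap.restrict_apply]
      commutes' := by
        intro c
        ext1 u; ext1
        simp [LinearMap.restrict_apply, Algebra.algebraMap_eq_smul_one, Matrix.smul_mulVec] }
  have hφ : ∀ (k : K) (u : U), ((φ k u : U) : ι → F) = k.1 *ᵥ u.1 := by
    intro k u
    exact Matrix.toLin'_apply _ _
  have hinj : Function.Injective φ := by
    rw [injective_iff_map_eq_zero]
    intro x hx
    by_contra hx0
    obtain ⟨y, hy, hxy⟩ := hK.inv x.1 x.2 (fun h => hx0 (Subtype.ext h))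
    have h1 := hφ x ⟨y *ᵥ v, hU y hy v hv⟩
    rw [hx] at h1
    apply hv0
    have h2 : x.1 *ᵥ (y *ᵥ v) = v := by rw [Matrix.mulVec_mulVec, hxy, Matrix.one_mulVec]
    rw [← h2, ← h1]
    rfl
  have e := AlgEquiv.ofInjective φ hinj
  have h1 := CfsgLib.AschNum.finrank_dvd φ.range (MulEquiv.isField (CfsgLib.AschNum.fld_isField hK) e.symm.toMulEquiv)
  have h2 : finrank F K = finrank F φ.range := e.toLinearEquiv.finrank_eq
  rw [hK.finrank_eq] at h2
  rwa [← h2] at h1

theorem exists_max_sub (P : Submodule F (ι → F) → Prop) (h0 : P ⊥) :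
    ∃ U, P U ∧ ∀ U', P U' → U ≤ U' → U' = U := by
  obtain ⟨U, hU, hmax⟩ := (wellFounded_gt (α := Submodule F (ι → F))).has_min {U | P U} ⟨⊥, h0⟩
  refine ⟨U, hU, fun U' hU' hle => ?_⟩
  by_contra hne
  exact hmax U' hU' (lt_of_le_of_ne hle (Ne.symm hne))

/-- the orbit of a vector -/
def orbK (K : Subalgebra F (Matrix ι ι F)) (w : ι → F) : Submodule F (ι → F) where
  carrier := {v | ∃ k ∈ K, v = k *ᵥ w}
  add_mem' := by
    rintro _ _ ⟨a, ha, rfl⟩ ⟨b, hb, rfl⟩
    exact ⟨a + b, K.add_mem ha hb, by rw [Matrix.add_mulVec]⟩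
  zero_mem' := ⟨0, K.zero_mem, by rw [Matrix.zero_mulVec]⟩
  smul_mem' := by
    rintro c _ ⟨a, ha, rfl⟩
    exact ⟨c • a, K.smul_mem ha c, by rw [Matrix.smul_mulVec]⟩

theorem mem_orbK {K : Subalgebra F (Matrix ι ι F)} {w v : ι → F} : v ∈ orbK K w ↔ ∃ k ∈ K, v = k *ᵥ w := Iff.rfl

theorem self_mem_orbK (K : Subalgebra F (Matrix ι ι F)) (w : ι → F) : w ∈ orbK K w :=
  ⟨1, K.one_mem, by rw [Matrix.one_mulVec]⟩

theorem orbK_inv {K : Subalgebra F (Matrix ι ι F)} {w : ι → F} {k : Matrix ι ι F} (hk : k ∈ K) {v : ι → F}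
    (hv : v ∈ orbK K w) : k *ᵥ v ∈ orbK K w := by
  obtain ⟨a, ha, rfl⟩ := hv
  exact ⟨k * a, K.mul_mem hk ha, by rw [Matrix.mulVec_mulVec]⟩

theorem sup_orbK_inv {K : Subalgebra F (Matrix ι ι F)} {U : Submodule F (ι → F)}
    (hU : ∀ k ∈ K, ∀ v ∈ U, k *ᵥ v ∈ U) (w : ι → F) : ∀ k ∈ K, ∀ v ∈ U ⊔ orbK K w, k *ᵥ v ∈ U ⊔ orbK K w := by
  intro k hk v hv
  obtain ⟨a, ha, b, hb, rfl⟩ := Submodule.mem_sup.1 hv
  rw [Matrix.mulVec_add]
  exact Submodule.add_mem_sup (hU k hk a ha) (orbK_inv hk hb)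

/-- dimension of an orbit -/
theorem finrank_orbK {r : ℕ} {K : Subalgebra F (Matrix ι ι F)} (hK : IsFieldSubalgebra r K) {w : ι → F} (hw : w ≠ 0) :
    finrank F (orbK K w) = r := by
  let φ : K →ₗ[F] orbK K w :=
    { toFun := fun k => ⟨k.1 *ᵥ w, k.1, k.2, rfl⟩
      map_add' := by
        intro x y
        ext1
        simp [Matrix.add_mulVec]
      map_smul' := by
        intro c x
        ext1
        simp [Matrix.smul_mulVec] }
  have hbij : Function.Bijective φ := by
    constructor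
    · rw [← LinearMap.ker_eq_bot, LinearMap.ker_eq_bot']
      intro x hx
      by_contra hx0
      obtain ⟨y, hy, hxy⟩ := hK.inv x.1 x.2 (fun h => hx0 (Subtype.ext h))
      have h1 : x.1 *ᵥ w = 0 := congrArg Subtype.val hx
      apply hw
      have h2 : (y * x.1) *ᵥ w = 0 := by rw [← Matrix.mulVec_mulVec, h1, Matrix.mulVec_zero]
      rwa [hK.comm y hy x.1 x.2, hxy, Matrix.one_mulVec] at h2
    · rintro ⟨v, k, hk, rfl⟩
      exact ⟨⟨k, hk⟩, rfl⟩
  rw [← (LinearEquiv.ofBijective φ hbij).finrank_eq, hK.finrank_eq]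

/-- a self-adjoint field, characteristic two: n/2 is divisible by the degree -/
theorem self_fld_dvd [Finite F] (hQ : IsNondegenerateQuadraticForm Q) (h2 : (2 : F) = 0) {r : ℕ}
    {K : Subalgebra F (Matrix ι ι F)} (hK : IsFieldSubalgebra r K) (hs : IsSelfAdjointFor (QuadraticMap.polar Q) K)
    {m : ℕ} (hm : Fintype.card ι = 2 * m) : r ∣ m := by
  classical
  have hf := fdQ hQ
  have hz := self_adj_zero (fdQ' hQ h2) (alt_two hQ h2) hK hs
  obtain ⟨U, ⟨hUK, hUs⟩, hmax⟩ := exists_max_sub (F := F) (ι := ι)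
    (fun U => (∀ k ∈ K, ∀ v ∈ U, k *ᵥ v ∈ U) ∧ IsTotallySingularFor (QuadraticMap.polar Q) U)
    ⟨fun k _ v hv => by
      rw [Submodule.mem_bot] at hv ⊢
      rw [hv, Matrix.mulVec_zero], fun u hu v _ => by
      rw [Submodule.mem_bot] at hu
      rw [hu]
      simpa using hf.sesq.smul_left 0 0 v⟩
  have hle : U ≤ perp hf U := fun u hu => (mem_perp hf).2 fun w hw => hUs w hw u hu
  have heq : perp hf U = U := by
    apply le_antisymm _ hle
    intro w hw
    have hwU : ∀ u ∈ U, QuadraticMap.polar Q u w = 0 := (mem_perp hf).1 hw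
    have hcomm : ∀ u v, QuadraticMap.polar Q u v = QuadraticMap.polar Q v u := fun u v => QuadraticMap.polar_comm _ _ _
    have hP := hmax (U ⊔ orbK K w) ⟨sup_orbK_inv hUK w, by
      intro x hx y hy
      obtain ⟨a, ha, _, ⟨k, hk, rfl⟩, rfl⟩ := Submodule.mem_sup.1 hx
      obtain ⟨b, hb, _, ⟨l, hl, rfl⟩, rfl⟩ := Submodule.mem_sup.1 hy
      rw [hf.sesq.add_left, hf.sesq.add_right, hf.sesq.add_right, hUs a ha b hb]
      have e1 : QuadraticMap.polar Q a (l *ᵥ w) = 0 := by
        rw [← hs l hl]; exact hwU _ (hUK l hl a ha)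
      have e2 : QuadraticMap.polar Q (k *ᵥ w) b = 0 := by
        rw [hs k hk, hcomm]; exact hwU _ (hUK k hk b hb)
      have e3 : QuadraticMap.polar Q (k *ᵥ w) (l *ᵥ w) = 0 := by
        rw [← hs l hl, Matrix.mulVec_mulVec]; exact hz _ (K.mul_mem hl hk) w
      rw [e1, e2, e3]; ring⟩ le_sup_left
    rw [← hP]
    exact Submodule.mem_sup_right (self_mem_orbK K w)
  have h1 := finrank_perp hf U
  rw [heq] at h1
  have h3 := fld_dvd_sub hK hUK
  have : m = finrank F U := by omega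
  rwa [this]

/-- a field acting by similarities in a space of plus type -/
theorem sim_fld_dvd [Finite F] (hQ : IsNondegenerateQuadraticForm Q) (hplus : IsPlusTypeOn Q ⊤) {r : ℕ}
    {K : Subalgebra F (Matrix ι ι F)} (hK : IsFieldSubalgebra r K) (ha : IsAdjointClosedFor (QuadraticMap.polar Q) K)
    (hsim : ∀ k ∈ K, ∃ c : F, ∀ v, Q (k *ᵥ v) = c * Q v)
    {m : ℕ} (hm : Fintype.card ι = 2 * m) : r ∣ m := by
  classical
  have hf := fdQ hQ
  obtain ⟨U, ⟨hUK, hUs⟩, hmax⟩ := exists_max_sub (F := F) (ι := ι)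
    (fun U => (∀ k ∈ K, ∀ v ∈ U, k *ᵥ v ∈ U) ∧ IsTotallySingularQuad Q U)
    ⟨fun k _ v hv => by
      rw [Submodule.mem_bot] at hv ⊢
      rw [hv, Matrix.mulVec_zero], fun u hu => by
      rw [Submodule.mem_bot] at hu
      rw [hu]; exact Qzero hQ⟩
  obtain ⟨U', hle, hU's, hd⟩ := CfsgLib.OmH12.ts_extend hQ hplus hUs
  have hp := sing_polar hQ hU's
  have heq : U' = U := by
    apply le_antisymm _ hle
    intro w hw
    have hP := hmax (U ⊔ orbK K w) ⟨sup_orbK_inv hUK w, by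
      intro x hx
      obtain ⟨a, ha', _, ⟨k, hk, rfl⟩, rfl⟩ := Submodule.mem_sup.1 hx
      obtain ⟨k', hk', hadj⟩ := ha k hk
      obtain ⟨c, hc⟩ := hsim k hk
      rw [Qadd hQ, hc, hU's w hw, hUs a ha', QuadraticMap.polar_comm, hadj]
      rw [hp w hw _ (hle (hUK k' hk' a ha'))]; ring⟩ le_sup_left
    rw [← hP]
    exact Submodule.mem_sup_right (self_mem_orbK K w)
  rw [heq] at hd
  have h3 := fld_dvd_sub hK hUK
  have : m = finrank F U := by omega
  rwa [this]

end CfsgLib.OmE
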