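import Mathlib
import Cfsg.Agent.LibOmE10

/-! fields of matrices of half the dimension: linear algebra over them -/
set_option autoImplicit false
set_option linter.unusedSectionVars false

namespace CfsgLib.OmE

open Module Cfsg Cfsg.Geo CfsgLib.Asch9 CfsgLib.Asch11 CfsgLib.Asch19 CfsgLib.AschF
open scoped Matrix MatrixGroups Kronecker

variable {ι : Type} [Fintype ι] [DecidableEq ι] {F : Type*} [Field F]
variable {r : ℕ} {K : Subalgebra F (Matrix ι ι F)}

/-- every functional is a translate of a given non-zero one -/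
theorem fun_surj (hK : IsFieldSubalgebra r K) (hr : 0 < r) (φ ψ : K →ₗ[F] F) (hφ : φ ≠ 0) :
    ∃ c : K, ∀ x : K, ψ x = φ (x * c) := by
  have hfin : Module.Finite F K := Module.finite_of_finrank_pos (by rw [hK.finrank_eq]; exact hr)
  let T : K →ₗ[F] Module.Dual F K :=
    { toFun := fun c => φ.comp (LinearMap.mulRight F c)
      map_add' := by
        intro x y
        ext z
        simp [mul_add]
      map_smul' := by
        intro c x
        ext z
        simp }
  have hinj : Function.Injective T := by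
    rw [← LinearMap.ker_eq_bot, LinearMap.ker_eq_bot']
    intro x hx
    by_contra hx0
    obtain ⟨y, hy, hxy⟩ := hK.inv x.1 x.2 (fun h => hx0 (Subtype.ext h))
    apply hφ
    ext z
    have h1 := LinearMap.congr_fun hx (z * ⟨y, hy⟩)
    have h2 : z * ⟨y, hy⟩ * x = z := by
      apply Subtype.ext
      show z.1 * y * x.1 = z.1
      rw [mul_assoc, hK.comm y hy x.1 x.2, hxy, mul_one]
    have h3 : T x (z * ⟨y, hy⟩) = φ (z * ⟨y, hy⟩ * x) := rfl
    rw [h3, h2] at h1
    exact h1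
  have hsurj : Function.Surjective T :=
    (LinearMap.injective_iff_surjective_of_finrank_eq_finrank (Subspace.dual_finrank_eq (K := F) (V := K)).symm).1 hinj
  obtain ⟨c, hc⟩ := hsurj ψ
  exact ⟨c, fun x => by rw [← hc]; rfl⟩

theorem smul_inj (hK : IsFieldSubalgebra r K) {a : Matrix ι ι F} (ha : a ∈ K) {v : ι → F} (hv : v ≠ 0)
    (h : a *ᵥ v = 0) : a = 0 := by
  by_contra h0
  obtain ⟨y, hy, hxy⟩ := hK.inv a ha h0
  apply hv
  have h2 : (y * a) *ᵥ v = 0 := by rw [← Matrix.mulVec_mulVec, h, Matrix.mulVec_zero]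
  rwa [hK.comm y hy a ha, hxy, Matrix.one_mulVec] at h2

/-- lines over K -/
theorem orbK_eq_of_mem (hK : IsFieldSubalgebra r K) {v w : ι → F} (hw : w ≠ 0) (h : w ∈ orbK K v) : orbK K w = orbK K v := by
  obtain ⟨k, hk, rfl⟩ := h
  have hk0 : k ≠ 0 := by
    rintro rfl
    exact hw (Matrix.zero_mulVec v)
  obtain ⟨y, hy, hxy⟩ := hK.inv k hk hk0
  have hyk : y * k = 1 := by rw [hK.comm y hy k hk, hxy]
  ext u
  constructor
  · rintro ⟨l, hl, rfl⟩
    exact ⟨l * k, K.mul_mem hl hk, by rw [Matrix.mulVec_mulVec]⟩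
  · rintro ⟨l, hl, rfl⟩
    exact ⟨l * y, K.mul_mem hl hy, by rw [Matrix.mulVec_mulVec, mul_assoc, hyk, mul_one]⟩

theorem orbK_disj (hK : IsFieldSubalgebra r K) {v w : ι → F} (h : orbK K v ≠ orbK K w) :
    Disjoint (orbK K v) (orbK K w) := by
  rw [Submodule.disjoint_def]
  intro x hx hy
  by_contra h0
  exact h (by rw [← orbK_eq_of_mem hK h0 hx, ← orbK_eq_of_mem hK h0 hy])

theorem span2 (hK : IsFieldSubalgebra r K) (hn : Fintype.card ι = 2 * r) {v w : ι → F} (hv : v ≠ 0)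
    (hw : w ∉ orbK K v) (u : ι → F) : ∃ a ∈ K, ∃ b ∈ K, u = a *ᵥ v + b *ᵥ w := by
  have hw0 : w ≠ 0 := by
    rintro rfl
    exact hw (orbK K v).zero_mem
  have hdis : Disjoint (orbK K v) (orbK K w) := by
    apply orbK_disj hK
    intro h
    exact hw (by rw [h]; exact self_mem_orbK K w)
  have h1 := Submodule.finrank_sup_add_finrank_inf_eq (orbK K v) (orbK K w)
  rw [disjoint_iff.1 hdis, finrank_bot, finrank_orbK hK hv, finrank_orbK hK hw0, add_zero] at h1
  have h2 : orbK K v ⊔ orbK K w = ⊤ := by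
    apply Submodule.eq_top_of_finrank_eq
    rw [h1, Module.finrank_fintype_fun_eq_card, hn]; ring
  have hu : u ∈ orbK K v ⊔ orbK K w := by rw [h2]; trivial
  obtain ⟨_, ⟨a, ha, rfl⟩, _, ⟨b, hb, rfl⟩, rfl⟩ := Submodule.mem_sup.1 hu
  exact ⟨a, ha, b, hb, rfl⟩

theorem indep2 (hK : IsFieldSubalgebra r K) {v w : ι → F} (hv : v ≠ 0)
    (hw : w ∉ orbK K v) {a b : Matrix ι ι F} (ha : a ∈ K) (hb : b ∈ K) (h : a *ᵥ v + b *ᵥ w = 0) : a = 0 ∧ b = 0 := by
  have hb0 : b = 0 := by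
    by_contra hb0
    obtain ⟨y, hy, hxy⟩ := hK.inv b hb hb0
    apply hw
    refine ⟨-(y * a), K.neg_mem (K.mul_mem hy ha), ?_⟩
    have h1 : y *ᵥ (a *ᵥ v + b *ᵥ w) = 0 := by rw [h, Matrix.mulVec_zero]
    rw [Matrix.mulVec_add, Matrix.mulVec_mulVec, Matrix.mulVec_mulVec, hK.comm y hy b hb, hxy, Matrix.one_mulVec] at h1
    rw [Matrix.neg_mulVec]
    exact eq_neg_of_add_eq_zero_right h1
  rw [hb0, Matrix.zero_mulVec, add_zero] at h
  exact ⟨smul_inj hK ha hv h, hb0⟩

/-- a K-linear map with given values on a K-basis -/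
theorem exists_klin (hK : IsFieldSubalgebra r K) (hn : Fintype.card ι = 2 * r) {v w : ι → F} (hv : v ≠ 0)
    (hw : w ∉ orbK K v) (x y : ι → F) :
    ∃ δ : Matrix ι ι F, (∀ k ∈ K, δ * k = k * δ) ∧ δ *ᵥ v = x ∧ δ *ᵥ w = y := by
  let S : (ι → F) → (ι → F) → (K × K →ₗ[F] (ι → F)) := fun p q =>
    { toFun := fun z => z.1.1 *ᵥ p + z.2.1 *ᵥ q
      map_add' := by
        intro z z'
        simp only [Prod.fst_add, Prod.snd_add, Subalgebra.coe_add, Matrix.add_mulVec]
        abel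
      map_smul' := by
        intro c z
        simp [Matrix.smul_mulVec] }
  have hS : ∀ p q z, S p q z = z.1.1 *ᵥ p + z.2.1 *ᵥ q := fun p q z => rfl
  have hbij : Function.Bijective (S v w) := by
    constructor
    · rw [← LinearMap.ker_eq_bot, LinearMap.ker_eq_bot']
      rintro ⟨a, b⟩ hz
      obtain ⟨h1, h2⟩ := indep2 hK hv hw a.2 b.2 hz
      exact Prod.ext (Subtype.ext h1) (Subtype.ext h2)
    · intro u
      obtain ⟨a, ha, b, hb, rfl⟩ := span2 hK hn hv hw u
      exact ⟨(⟨a, ha⟩, ⟨b, hb⟩), rfl⟩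
  let e := LinearEquiv.ofBijective (S v w) hbij
  have he : ∀ z, e z = z.1.1 *ᵥ v + z.2.1 *ᵥ w := fun z => rfl
  have key : ∀ z : K × K, LinearMap.toMatrix' ((S x y).comp e.symm.toLinearMap) *ᵥ (z.1.1 *ᵥ v + z.2.1 *ᵥ w) =
      z.1.1 *ᵥ x + z.2.1 *ᵥ y := by
    intro z
    rw [← he, ← Matrix.toLin'_apply, Matrix.toLin'_toMatrix']
    simp only [LinearMap.comp_apply, LinearEquiv.coe_coe, LinearEquiv.symm_apply_apply]
    rfl
  refine ⟨LinearMap.toMatrix' ((S x y).comp e.symm.toLinearMap), ?_, ?_, ?_⟩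
  · intro k hk
    apply Matrix.ext_of_mulVec_single
    intro i
    obtain ⟨a, ha, b, hb, hu⟩ := span2 hK hn hv hw (Pi.single i 1)
    have h1 : k *ᵥ (a *ᵥ v + b *ᵥ w) = (k * a) *ᵥ v + (k * b) *ᵥ w := by
      rw [Matrix.mulVec_add, Matrix.mulVec_mulVec, Matrix.mulVec_mulVec]
    have h2 : k *ᵥ (a *ᵥ x + b *ᵥ y) = (k * a) *ᵥ x + (k * b) *ᵥ y := by
      rw [Matrix.mulVec_add, Matrix.mulVec_mulVec, Matrix.mulVec_mulVec]
    have k1 := key (⟨a, ha⟩, ⟨b, hb⟩)
    have k2 := key (⟨k * a, K.mul_mem hk ha⟩, ⟨k * b, K.mul_mem hk hb⟩)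
    dsimp only at k1 k2
    have h3 : ∀ (T : Matrix ι ι F) u, (k * T) *ᵥ u = k *ᵥ (T *ᵥ u) := fun T u => (Matrix.mulVec_mulVec ..).symm
    rw [hu, ← Matrix.mulVec_mulVec, h1, k2, h3 (LinearMap.toMatrix' ((S x y).comp e.symm.toLinearMap)), k1, h2]
  · have := key (1, 0)
    simpa using this
  · have := key (0, 1)
    simpa using this

/-- equality of K-linear maps -/
theorem klin_ext (hK : IsFieldSubalgebra r K) (hn : Fintype.card ι = 2 * r) {v w : ι → F} (hv : v ≠ 0)
    (hw : w ∉ orbK K v) {x y : Matrix ι ι F} (hx : ∀ k ∈ K, x * k = k * x) (hy : ∀ k ∈ K, y * k = k * y)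
    (h1 : x *ᵥ v = y *ᵥ v) (h2 : x *ᵥ w = y *ᵥ w) : x = y := by
  apply Matrix.ext_of_mulVec_single
  intro i
  obtain ⟨a, ha, b, hb, hu⟩ := span2 hK hn hv hw (Pi.single i 1)
  rw [hu, Matrix.mulVec_add, Matrix.mulVec_add, Matrix.mulVec_mulVec, Matrix.mulVec_mulVec, Matrix.mulVec_mulVec,
    Matrix.mulVec_mulVec, hx a ha, hx b hb, hy a ha, hy b hb, ← Matrix.mulVec_mulVec, ← Matrix.mulVec_mulVec,
    ← Matrix.mulVec_mulVec, ← Matrix.mulVec_mulVec, h1, h2]

theorem exists_not_mem_orbK (hK : IsFieldSubalgebra r K) (hr : 0 < r) (hn : Fintype.card ι = 2 * r) {v : ι → F} (hv : v ≠ 0) :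
    ∃ w, w ∉ orbK K v := by
  by_contra hcon
  push Not at hcon
  have h1 : orbK K v = ⊤ := eq_top_iff.2 fun x _ => hcon x
  have h2 := finrank_orbK hK hv
  rw [h1, finrank_top, Module.finrank_fintype_fun_eq_card, hn] at h2
  omega

/-- an element centralising K all of whose K-lines are invariant lies in K -/
theorem eigen_mem (hK : IsFieldSubalgebra r K) (hr : 0 < r) (hn : Fintype.card ι = 2 * r) {x : Matrix ι ι F}
    (hx : ∀ k ∈ K, x * k = k * x) (h : ∀ v, x *ᵥ v ∈ orbK K v) : x ∈ K := by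
  have hne : Nonempty ι := Fintype.card_pos_iff.1 (by omega)
  obtain ⟨i⟩ := hne
  set v : ι → F := Pi.single i 1 with hvd
  have hv : v ≠ 0 := by
    intro h0
    have := congrFun h0 i
    simp [hvd] at this
  obtain ⟨w, hw⟩ := exists_not_mem_orbK hK hr hn hv
  obtain ⟨a, ha, hav⟩ := h v
  obtain ⟨b, hb, hbw⟩ := h w
  obtain ⟨c, hc, hcv⟩ := h (v + w)
  rw [Matrix.mulVec_add, Matrix.mulVec_add, hav, hbw] at hcv
  have h1 : (a - c) *ᵥ v + (b - c) *ᵥ w = 0 := by
    rw [Matrix.sub_mulVec, Matrix.sub_mulVec]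
    have : a *ᵥ v - c *ᵥ v + (b *ᵥ w - c *ᵥ w) = (a *ᵥ v + b *ᵥ w) - (c *ᵥ v + c *ᵥ w) := by abel
    rw [this, hcv, sub_self]
  obtain ⟨h2, h3⟩ := indep2 hK hv hw (K.sub_mem ha hc) (K.sub_mem hb hc) h1
  have hab : a = b := by rw [sub_eq_zero.1 h2, sub_eq_zero.1 h3]
  subst hab
  have : x = a := klin_ext hK hn hv hw hx (fun k hk => hK.comm a ha k hk) hav hbw
  rw [this]; exact ha

/-- the quadratic field generated by a matrix -/
theorem quad_fld [Nonempty ι] (ε : Matrix ι ι F) (b c : F) (h : ε * ε = b • ε + c • (1 : Matrix ι ι F))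
    (hroot : ∀ x : F, x ^ 2 ≠ b * x + c) :
    ∃ E : Subalgebra F (Matrix ι ι F), IsFieldSubalgebra 2 E ∧ ∀ m, m ∈ E ↔ ∃ x y : F, m = x • (1 : Matrix ι ι F) + y • ε := by
  have hns : ∀ x y : F, x • (1 : Matrix ι ι F) + y • ε = 0 → x = 0 ∧ y = 0 := by
    intro x y hxy
    have hone : (1 : Matrix ι ι F) ≠ 0 := one_ne_zero
    by_cases hy : y = 0
    · rw [hy, zero_smul, add_zero] at hxy
      rcases smul_eq_zero.1 hxy with h1 | h1
      · exact ⟨h1, hy⟩
      · exact absurd h1 hone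
    · exfalso
      have he : ε = (-(y⁻¹ * x)) • (1 : Matrix ι ι F) := by
        have h1 : y⁻¹ • (x • (1 : Matrix ι ι F) + y • ε) = 0 := by rw [hxy, smul_zero]
        rw [smul_add, smul_smul, smul_smul, inv_mul_cancel₀ hy, one_smul] at h1
        rw [neg_smul]
        exact eq_neg_of_add_eq_zero_right h1
      set z := -(y⁻¹ * x) with hz
      apply hroot z
      rw [he, smul_mul_smul_comm, one_mul, smul_smul, ← add_smul] at h
      have h2 := sub_eq_zero.2 h
      rw [← sub_smul] at h2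
      rcases smul_eq_zero.1 h2 with h1 | h1
      · rw [pow_two]; exact sub_eq_zero.1 h1
      · exact absurd h1 hone
  let E : Subalgebra F (Matrix ι ι F) :=
    { carrier := {m | ∃ x y : F, m = x • (1 : Matrix ι ι F) + y • ε}
      mul_mem' := by
        rintro _ _ ⟨x, y, rfl⟩ ⟨x', y', rfl⟩
        refine ⟨x * x' + y * y' * c, x * y' + y * x' + y * y' * b, ?_⟩
        simp only [add_mul, mul_add, smul_mul_smul_comm, one_mul, mul_one, h, add_smul, smul_add, smul_smul]
        abel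
      add_mem' := by
        rintro _ _ ⟨x, y, rfl⟩ ⟨x', y', rfl⟩
        refine ⟨x + x', y + y', ?_⟩
        simp only [add_smul]
        abel
      algebraMap_mem' := fun x => ⟨x, 0, by rw [zero_smul, add_zero, Algebra.algebraMap_eq_smul_one]⟩ }
  refine ⟨E, ⟨?_, ?_, ?_⟩, fun m => Iff.rfl⟩
  · rintro _ ⟨x, y, rfl⟩ _ ⟨x', y', rfl⟩
    simp only [add_mul, mul_add, smul_mul_smul_comm, one_mul, mul_one, mul_comm x x', mul_comm y y', mul_comm x y', mul_comm y x']
    abel
  · rintro _ ⟨x, y, rfl⟩ hne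
    have hN : x ^ 2 + b * x * y - c * y ^ 2 ≠ 0 := by
      intro hN
      by_cases hy : y = 0
      · rw [hy] at hN
        have hx : x = 0 := by
          have : x ^ 2 = 0 := by linear_combination hN
          exact pow_eq_zero_iff (two_ne_zero) |>.1 this
        apply hne
        rw [hx, hy, zero_smul, zero_smul, add_zero]
      · apply hroot (-(x * y⁻¹))
        field_simp
        linear_combination hN
    refine ⟨(x ^ 2 + b * x * y - c * y ^ 2)⁻¹ • ((x + b * y) • (1 : Matrix ι ι F) + (-y) • ε),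
      E.smul_mem ⟨_, _, rfl⟩ _, ?_⟩
    have h1 : (x • (1 : Matrix ι ι F) + y • ε) * ((x + b * y) • (1 : Matrix ι ι F) + (-y) • ε) =
        (x ^ 2 + b * x * y - c * y ^ 2) • (1 : Matrix ι ι F) := by
      simp only [add_mul, mul_add, smul_mul_smul_comm, one_mul, mul_one, h, smul_add, smul_smul]
      module
    rw [Matrix.mul_smul, h1, smul_smul, inv_mul_cancel₀ hN, one_smul]
  · let f : (F × F) →ₗ[F] Matrix ι ι F :=
      { toFun := fun p => p.1 • (1 : Matrix ι ι F) + p.2 • ε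
        map_add' := fun p q => by
          simp only [Prod.fst_add, Prod.snd_add, add_smul]; abel
        map_smul' := fun c p => by
          simp only [Prod.smul_fst, Prod.smul_snd, smul_eq_mul, RingHom.id_apply, smul_add, smul_smul] }
    have hf : Function.Injective f := by
      rw [← LinearMap.ker_eq_bot, LinearMap.ker_eq_bot']
      rintro ⟨x, y⟩ hxy
      obtain ⟨h1, h2⟩ := hns x y hxy
      exact Prod.ext h1 h2
    have hr : LinearMap.range f = Subalgebra.toSubmodule E := by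
      ext x
      constructor
      · rintro ⟨p, rfl⟩; exact ⟨p.1, p.2, rfl⟩
      · rintro ⟨a, b, rfl⟩; exact ⟨(a, b), rfl⟩
    have h1 := LinearMap.finrank_range_of_inj hf
    rw [hr] at h1
    rw [Module.finrank_prod, Module.finrank_self] at h1
    exact h1

/-- norms and traces -/
theorem fld_norm [Fintype F] [Nonempty ι] (hK : IsFieldSubalgebra r K) {x : Matrix ι ι F} (hx : x ∈ K) :
    ∃ c : F, x ^ (∑ i ∈ Finset.range r, Fintype.card F ^ i) = c • (1 : Matrix ι ι F) := by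
  have hfld := CfsgLib.AschNum.fld_isField hK
  let _ : Field K := hfld.toField
  have : Finite K := Subtype.finite
  have h := FiniteField.algebraMap_norm_eq_pow_sum F K (⟨x, hx⟩ : K)
  refine ⟨Algebra.norm F (⟨x, hx⟩ : K), ?_⟩
  rw [hK.finrank_eq, Nat.card_eq_fintype_card] at h
  have h1 := congrArg Subtype.val h
  rw [← Algebra.algebraMap_eq_smul_one]
  exact h1.symm

theorem fld_trace [Fintype F] [Nonempty ι] (hK : IsFieldSubalgebra r K) {x : Matrix ι ι F} (hx : x ∈ K) :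
    ∃ c : F, ∑ i ∈ Finset.range r, x ^ (Fintype.card F ^ i) = c • (1 : Matrix ι ι F) := by
  have hfld := CfsgLib.AschNum.fld_isField hK
  let _ : Field K := hfld.toField
  have : Finite K := Subtype.finite
  have h := FiniteField.algebraMap_trace_eq_sum_pow F K (⟨x, hx⟩ : K)
  refine ⟨Algebra.trace F K (⟨x, hx⟩ : K), ?_⟩
  rw [hK.finrank_eq, Nat.card_eq_fintype_card] at h
  have h1 := congrArg Subtype.val h
  rw [← Algebra.algebraMap_eq_smul_one, AddSubmonoidClass.coe_finsetSum] at *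
  exact h1.symm

end CfsgLib.OmE
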