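import Mathlib
import Cfsg.Agent.LibOmE11

/-! self-adjoint fields of odd degree r in dimension 2r -/
set_option autoImplicit false
set_option linter.unusedSectionVars false

namespace CfsgLib.OmE

open Module Cfsg Cfsg.Geo CfsgLib.Asch9 CfsgLib.Asch11 CfsgLib.Asch19 CfsgLib.AschF
open scoped Matrix MatrixGroups Kronecker

variable {ι : Type} [Fintype ι] [DecidableEq ι] {F : Type*} [Field F]
variable {r : ℕ} {K : Subalgebra F (Matrix ι ι F)} {Q : (ι → F) → F} {H : Subgroup (GL ι F)}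

theorem eigen_of_prod [Nonempty ι] {ε : Matrix ι ι F} {a b : F}
    (h : (ε - a • (1 : Matrix ι ι F)) * (ε - b • (1 : Matrix ι ι F)) = 0) :
    ∃ u : ι → F, u ≠ 0 ∧ ∃ z : F, ε *ᵥ u = z • u := by
  by_cases h1 : ε - b • (1 : Matrix ι ι F) = 0
  · obtain ⟨i⟩ := ‹Nonempty ι›
    refine ⟨Pi.single i 1, ?_, b, ?_⟩
    · intro h0
      have := congrFun h0 i
      simp at this
    · rw [sub_eq_zero.1 h1, Matrix.smul_mulVec, Matrix.one_mulVec]
  · obtain ⟨i, hi⟩ : ∃ i, (ε - b • (1 : Matrix ι ι F)) *ᵥ Pi.single i 1 ≠ 0 := by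
      by_contra hcon
      push Not at hcon
      apply h1
      apply Matrix.ext_of_mulVec_single
      intro i
      rw [hcon i, Matrix.zero_mulVec]
    refine ⟨_, hi, a, ?_⟩
    have h3 : (ε - a • (1 : Matrix ι ι F)) *ᵥ ((ε - b • (1 : Matrix ι ι F)) *ᵥ Pi.single i 1) = 0 := by
      rw [Matrix.mulVec_mulVec, h, Matrix.zero_mulVec]
    rw [Matrix.sub_mulVec, sub_eq_zero] at h3
    rw [h3, Matrix.smul_mulVec, Matrix.one_mulVec]

theorem val_mul_inv (g : GL ι F) : (g : Matrix ι ι F) * ((g⁻¹ : GL ι F) : Matrix ι ι F) = 1 := by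
  rw [← Units.val_mul, mul_inv_cancel, Units.val_one]

theorem inv_mul_val (g : GL ι F) : ((g⁻¹ : GL ι F) : Matrix ι ι F) * (g : Matrix ι ι F) = 1 := by
  rw [← Units.val_mul, inv_mul_cancel, Units.val_one]

/-- conjugates of elements centralising K centralise K -/
theorem conj_comm (hnor : H ≤ subalgebraNormalizer K) {g : GL ι F} (hg : g ∈ H) {x : Matrix ι ι F}
    (hx : ∀ k ∈ K, x * k = k * x) : ∀ k ∈ K, ((g : Matrix ι ι F) * x * ((g⁻¹ : GL ι F) : Matrix ι ι F)) * k =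
      k * ((g : Matrix ι ι F) * x * ((g⁻¹ : GL ι F) : Matrix ι ι F)) := by
  intro k hk
  have h1 : ((g⁻¹ : GL ι F) : Matrix ι ι F) * k * (g : Matrix ι ι F) ∈ K := by
    have := (hnor (H.inv_mem hg) k).1 hk
    rwa [inv_inv] at this
  have h2 := hx _ h1
  calc ((g : Matrix ι ι F) * x * ((g⁻¹ : GL ι F) : Matrix ι ι F)) * k
      = (g : Matrix ι ι F) * (x * (((g⁻¹ : GL ι F) : Matrix ι ι F) * k * (g : Matrix ι ι F))) * ((g⁻¹ : GL ι F) : Matrix ι ι F) := by
        have := val_mul_inv g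
        simp only [mul_assoc, this, mul_one]
    _ = k * ((g : Matrix ι ι F) * x * ((g⁻¹ : GL ι F) : Matrix ι ι F)) := by
        rw [h2]
        simp only [← mul_assoc, val_mul_inv, one_mul]

theorem conj_mul (g : GL ι F) (x y : Matrix ι ι F) :
    ((g : Matrix ι ι F) * x * ((g⁻¹ : GL ι F) : Matrix ι ι F)) * ((g : Matrix ι ι F) * y * ((g⁻¹ : GL ι F) : Matrix ι ι F)) =
      (g : Matrix ι ι F) * (x * y) * ((g⁻¹ : GL ι F) : Matrix ι ι F) := by
  have := inv_mul_val g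
  calc ((g : Matrix ι ι F) * x * ((g⁻¹ : GL ι F) : Matrix ι ι F)) * ((g : Matrix ι ι F) * y * ((g⁻¹ : GL ι F) : Matrix ι ι F))
      = (g : Matrix ι ι F) * x * (((g⁻¹ : GL ι F) : Matrix ι ι F) * (g : Matrix ι ι F)) * y * ((g⁻¹ : GL ι F) : Matrix ι ι F) := by
        simp only [mul_assoc]
    _ = _ := by rw [this, mul_one]; simp only [mul_assoc]

theorem conj_pow' (g : GL ι F) (x : Matrix ι ι F) (n : ℕ) :
    ((g : Matrix ι ι F) * x * ((g⁻¹ : GL ι F) : Matrix ι ι F)) ^ n = (g : Matrix ι ι F) * (x ^ n) * ((g⁻¹ : GL ι F) : Matrix ι ι F) := by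
  induction n with
  | zero => rw [pow_zero, pow_zero, mul_one, val_mul_inv]
  | succ n ih => rw [pow_succ, ih, conj_mul, pow_succ]

/-- the algebra generated by ε is normalised when conjugates of ε lie in it -/
theorem normE {E : Subalgebra F (Matrix ι ι F)} {ε : Matrix ι ι F}
    (hE : ∀ m, m ∈ E ↔ ∃ x y : F, m = x • (1 : Matrix ι ι F) + y • ε)
    (h : ∀ g ∈ H, (g : Matrix ι ι F) * ε * ((g⁻¹ : GL ι F) : Matrix ι ι F) ∈ E) : H ≤ subalgebraNormalizer E := by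
  have key : ∀ g ∈ H, ∀ k ∈ E, (g : Matrix ι ι F) * k * ((g⁻¹ : GL ι F) : Matrix ι ι F) ∈ E := by
    intro g hg k hk
    obtain ⟨x, y, rfl⟩ := (hE k).1 hk
    rw [Matrix.mul_add, Matrix.add_mul, Matrix.mul_smul, Matrix.mul_smul, Matrix.smul_mul, Matrix.smul_mul, mul_one, val_mul_inv]
    exact E.add_mem (E.smul_mem E.one_mem x) (E.smul_mem (h g hg) y)
  intro g hg k
  refine ⟨key g hg k, fun hk => ?_⟩
  have h1 := key g⁻¹ (H.inv_mem hg) _ hk
  rw [inv_inv] at h1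
  have h2 : ((g⁻¹ : GL ι F) : Matrix ι ι F) * ((g : Matrix ι ι F) * k * ((g⁻¹ : GL ι F) : Matrix ι ι F)) * (g : Matrix ι ι F) = k := by
    have := inv_mul_val g
    calc ((g⁻¹ : GL ι F) : Matrix ι ι F) * ((g : Matrix ι ι F) * k * ((g⁻¹ : GL ι F) : Matrix ι ι F)) * (g : Matrix ι ι F)
        = (((g⁻¹ : GL ι F) : Matrix ι ι F) * (g : Matrix ι ι F)) * k * (((g⁻¹ : GL ι F) : Matrix ι ι F) * (g : Matrix ι ι F)) := by
          simp only [mul_assoc]
      _ = k := by rw [this, one_mul, mul_one]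
  rwa [h2] at h1

theorem pow_mul_pow_fld (hK : IsFieldSubalgebra r K) {a b : Matrix ι ι F} (ha : a ∈ K) (hb : b ∈ K) (n : ℕ) :
    (a * b) ^ n = a ^ n * b ^ n := (show Commute a b from hK.comm a ha b hb).mul_pow n

theorem pow_ne_fld [Nonempty ι] (hK : IsFieldSubalgebra r K) {a : Matrix ι ι F} (ha : a ∈ K) (h0 : a ≠ 0) (n : ℕ) : a ^ n ≠ 0 := by
  obtain ⟨y, hy, hxy⟩ := hK.inv a ha h0
  intro h
  have h1 : (a * y) ^ n = 0 := by rw [pow_mul_pow_fld hK ha hy, h, zero_mul]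
  rw [hxy, one_pow] at h1
  exact one_ne_zero h1

theorem fld_case_odd [Fintype F] (hQ : IsNondegenerateQuadraticForm Q) (h2 : (2 : F) ≠ 0) (hr : Odd r)
    (hK : IsFieldSubalgebra r K) (hs : IsSelfAdjointFor (QuadraticMap.polar Q) K) (hn : Fintype.card ι = 2 * r)
    (hH : Pres Q H) (hnor : H ≤ subalgebraNormalizer K) (hB : ∀ v : ι → F, v ≠ 0 → ∃ k ∈ K, Q (k *ᵥ v) ≠ 0) :
    ∃ E : Subalgebra F (Matrix ι ι F), IsFieldSubalgebra 2 E ∧ H ≤ subalgebraNormalizer E ∧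
      IsAdjointClosedFor (QuadraticMap.polar Q) E ∧ ¬ IsSelfAdjointFor (QuadraticMap.polar Q) E := by
  classical
  have hr0 : 0 < r := hr.pos
  have hne : Nonempty ι := Fintype.card_pos_iff.1 (by omega)
  have hf := fdQ hQ
  have hI := hH.iso
  set f := QuadraticMap.polar Q with hfdef
  have comm : ∀ u v, f u v = f v u := fun u v => QuadraticMap.polar_comm _ _ _
  have hadd := hf.sesq.add_left
  have hadd' := hf.sesq.add_right
  have hfv : ∀ v : ι → F, v ≠ 0 → ∃ k ∈ K, f (k *ᵥ v) v ≠ 0 := by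
    intro v hv
    obtain ⟨k, hk, hkv⟩ := hB v hv
    refine ⟨k * k, K.mul_mem hk hk, ?_⟩
    rw [← Matrix.mulVec_mulVec, hs k hk, hfdef, polar_self hQ]
    exact mul_ne_zero h2 hkv
  obtain ⟨i0⟩ := hne
  have hne : Nonempty ι := ⟨i0⟩
  set v : ι → F := Pi.single i0 1 with hvd
  have hv : v ≠ 0 := by
    intro h0
    have := congrFun h0 i0
    simp [hvd] at this
  have hfr := finrank_perp hf (orbK K v)
  rw [finrank_orbK hK hv, hn] at hfr
  obtain ⟨w, hwW, hw0⟩ : ∃ w ∈ perp hf (orbK K v), w ≠ 0 := by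
    apply (Submodule.ne_bot_iff _).1
    intro hbot
    rw [hbot, finrank_bot] at hfr
    omega
  have hwo : ∀ k ∈ K, f (k *ᵥ v) w = 0 := fun k hk => (mem_perp hf).1 hwW _ ⟨k, hk, rfl⟩
  -- B and C
  have hB1 : ∀ u : ι → F, ∀ a ∈ K, ∀ b ∈ K, f (a *ᵥ u) (b *ᵥ u) = f ((a * b) *ᵥ u) u := by
    intro u a ha b hb
    rw [← hs b hb, Matrix.mulVec_mulVec, hK.comm b hb a ha]
  have hBz : ∀ a ∈ K, ∀ u : ι → F, u ≠ 0 → (∀ k ∈ K, f ((k * a) *ᵥ u) u = 0) → a = 0 := by
    intro a ha u hu h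
    by_contra ha0
    obtain ⟨y, hy, hay⟩ := hK.inv a ha ha0
    obtain ⟨k, hk, hku⟩ := hfv u hu
    apply hku
    have := h (k * y) (K.mul_mem hk hy)
    rwa [mul_assoc, hK.comm y hy a ha, hay, mul_one] at this
  have hw : w ∉ orbK K v := by
    rintro ⟨k, hk, hkw⟩
    have hk0 : k = 0 := by
      apply hBz k hk v hv
      intro l hl
      rw [← hB1 v l hl k hk, ← hkw]
      exact hwo l hl
    rw [hk0, Matrix.zero_mulVec] at hkw
    exact hw0 hkw
  have horth : ∀ a ∈ K, ∀ b ∈ K, f (a *ᵥ v) (b *ᵥ w) = 0 := by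
    intro a ha b hb
    rw [← hs b hb, Matrix.mulVec_mulVec]
    exact hwo _ (K.mul_mem hb ha)
  have horth' : ∀ a ∈ K, ∀ b ∈ K, f (b *ᵥ w) (a *ᵥ v) = 0 := fun a ha b hb => by rw [comm]; exact horth a ha b hb
  let Φ : (ι → F) → (K →ₗ[F] F) := fun u =>
    { toFun := fun k => f (k.1 *ᵥ u) u
      map_add' := by
        intro x y
        rw [Subalgebra.coe_add, Matrix.add_mulVec, hadd]
      map_smul' := by
        intro c x
        rw [Subalgebra.coe_smul, Matrix.smul_mulVec, hf.sesq.smul_left]; rfl }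
  have hΦ : Φ v ≠ 0 := by
    intro h0
    obtain ⟨k, hk, hkv⟩ := hfv v hv
    exact hkv (LinearMap.congr_fun h0 ⟨k, hk⟩)
  obtain ⟨⟨β, hβ⟩, hβe⟩ := fun_surj hK hr0 (Φ v) (-(Φ w)) hΦ
  have hCB : ∀ x ∈ K, f (x *ᵥ w) w = - f ((x * β) *ᵥ v) v := by
    intro x hx
    have h1 := hβe ⟨x, hx⟩
    have h3 : -(f (x *ᵥ w) w) = f ((x * β) *ᵥ v) v := h1
    rw [← h3, neg_neg]
  obtain ⟨δ, hδK, hδv, hδw⟩ := exists_klin hK hn hv hw w (β *ᵥ v)
  have hδa : ∀ a ∈ K, ∀ u, δ *ᵥ (a *ᵥ u) = a *ᵥ (δ *ᵥ u) := by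
    intro a ha u
    rw [Matrix.mulVec_mulVec, hδK a ha, ← Matrix.mulVec_mulVec]
  have hskew : ∀ u u', f (δ *ᵥ u) u' = - f u (δ *ᵥ u') := by
    intro u u'
    obtain ⟨a, ha, b, hb, rfl⟩ := span2 hK hn hv hw u
    obtain ⟨c, hc, d, hd, rfl⟩ := span2 hK hn hv hw u'
    rw [Matrix.mulVec_add, Matrix.mulVec_add, hδa a ha, hδa b hb, hδa c hc, hδa d hd, hδv, hδw, Matrix.mulVec_mulVec,
      Matrix.mulVec_mulVec, hadd, hadd, hadd', hadd', hadd', hadd', horth' c hc a ha, hB1 w a ha d hd,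
      hB1 v _ (K.mul_mem hb hβ) c hc, horth _ (K.mul_mem hb hβ) d hd, horth a ha c hc, hB1 v a ha _ (K.mul_mem hd hβ),
      hB1 w b hb c hc, horth' _ (K.mul_mem hd hβ) b hb, hCB _ (K.mul_mem ha hd), hCB _ (K.mul_mem hb hc)]
    have e1 : b * β * c = b * c * β := by rw [mul_assoc, hK.comm β hβ c hc, mul_assoc]
    have e2 : a * (d * β) = a * d * β := by rw [mul_assoc]
    rw [e1, e2]; ring
  have hδ2 : δ * δ = β := by
    apply klin_ext hK hn hv hw
    · intro k hk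
      rw [mul_assoc, hδK k hk, ← mul_assoc, hδK k hk, mul_assoc]
    · intro k hk
      exact hK.comm β hβ k hk
    · rw [← Matrix.mulVec_mulVec, hδv, hδw]
    · rw [← Matrix.mulVec_mulVec, hδw, hδa β hβ, hδv]
  have hβ0 : β ≠ 0 := by
    intro h0
    obtain ⟨k, hk, hkw⟩ := hfv w hw0
    apply hkw
    rw [hCB k hk, h0, mul_zero, Matrix.zero_mulVec, hf.zero_left, neg_zero]
  -- skew elements centralising K
  have hsk : ∀ x : Matrix ι ι F, (∀ k ∈ K, x * k = k * x) → (∀ u u', f (x *ᵥ u) u' = - f u (x *ᵥ u')) →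
      ∃ k ∈ K, x = k * δ := by
    have hxa : ∀ x : Matrix ι ι F, (∀ k ∈ K, x * k = k * x) → ∀ a ∈ K, ∀ u, x *ᵥ (a *ᵥ u) = a *ᵥ (x *ᵥ u) := by
      intro x hx a ha u
      rw [Matrix.mulVec_mulVec, hx a ha, ← Matrix.mulVec_mulVec]
    have hself : ∀ x : Matrix ι ι F, (∀ k ∈ K, x * k = k * x) → (∀ u u', f (x *ᵥ u) u' = - f u (x *ᵥ u')) →
        ∀ u, ∀ k ∈ K, f (k *ᵥ u) (x *ᵥ u) = 0 := by
      intro x hx hxs u k hk
      have h1 : f (k *ᵥ u) (x *ᵥ u) = - f (k *ᵥ u) (x *ᵥ u) := by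
        have h3 := hxs (k *ᵥ u) u
        rw [hxa x hx k hk, hs k hk, comm] at h3
        exact h3
      have h3 : 2 * f (k *ᵥ u) (x *ᵥ u) = 0 := by linear_combination h1
      exact (mul_eq_zero.1 h3).resolve_left h2
    intro x hx hxs
    obtain ⟨a, ha, b, hb, hxv⟩ := span2 hK hn hv hw (x *ᵥ v)
    have ha0 : a = 0 := by
      apply hBz a ha v hv
      intro k hk
      have h3 := hself x hx hxs v k hk
      rw [hxv, hadd', horth k hk b hb, add_zero, hB1 v k hk a ha] at h3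
      exact h3
    rw [ha0, Matrix.zero_mulVec, zero_add] at hxv
    refine ⟨b, hb, ?_⟩
    set y := x - b * δ with hy
    have hyK : ∀ k ∈ K, y * k = k * y := by
      intro k hk
      rw [hy, sub_mul, mul_sub, hx k hk, mul_assoc, hδK k hk, ← mul_assoc, hK.comm b hb k hk, mul_assoc]
    have hys : ∀ u u', f (y *ᵥ u) u' = - f u (y *ᵥ u') := by
      intro u u'
      rw [hy, Matrix.sub_mulVec, Matrix.sub_mulVec, ← Matrix.mulVec_mulVec, ← Matrix.mulVec_mulVec]
      have e1 : f (x *ᵥ u - b *ᵥ (δ *ᵥ u)) u' = f (x *ᵥ u) u' - f (b *ᵥ (δ *ᵥ u)) u' := by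
        rw [sub_eq_add_neg, hadd, ← neg_one_smul F (b *ᵥ (δ *ᵥ u)), hf.sesq.smul_left]; ring
      have e2 : f u (x *ᵥ u' - b *ᵥ (δ *ᵥ u')) = f u (x *ᵥ u') - f u (b *ᵥ (δ *ᵥ u')) := by
        rw [sub_eq_add_neg, hadd', ← neg_one_smul F (b *ᵥ (δ *ᵥ u')), hf.sesq.smul_right]
        rw [RingHom.map_neg, RingHom.map_one]; ring
      rw [e1, e2, hxs, hs b hb, hskew, hδa b hb]; ring
    have hyv : y *ᵥ v = 0 := by
      rw [hy, Matrix.sub_mulVec, hxv, ← Matrix.mulVec_mulVec, hδv, sub_self]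
    obtain ⟨c, hc, d, hd, hyw⟩ := span2 hK hn hv hw (y *ᵥ w)
    have hc0 : c = 0 := by
      apply hBz c hc v hv
      intro k hk
      have h3 := hys (k *ᵥ v) w
      rw [hxa y hyK k hk, hyv, Matrix.mulVec_zero, hf.zero_left, hyw, hadd', horth k hk d hd, add_zero, hB1 v k hk c hc] at h3
      exact neg_eq_zero.1 h3.symm
    have hd0 : d = 0 := by
      apply hBz d hd w hw0
      intro k hk
      have h3 := hself y hyK hys w k hk
      rw [hyw, hadd', horth' c hc k hk, zero_add, hB1 w k hk d hd] at h3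
      exact h3
    rw [hc0, hd0, Matrix.zero_mulVec, Matrix.zero_mulVec, add_zero] at hyw
    have hy0 : y = 0 := by
      apply klin_ext hK hn hv hw hyK (fun k _ => by rw [zero_mul, mul_zero])
      · rw [hyv, Matrix.zero_mulVec]
      · rw [hyw, Matrix.zero_mulVec]
    rw [hy] at hy0
    exact sub_eq_zero.1 hy0
  -- the power
  set N := ∑ i ∈ Finset.range r, Fintype.card F ^ i with hN
  have hqodd : Odd (Fintype.card F) := by
    by_contra hcon
    exact h2 (two_of_not_odd hcon)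
  have hNodd : Odd N := by
    rw [hN, Finset.odd_sum_iff_odd_card_odd]
    have : Finset.filter (fun i => Odd (Fintype.card F ^ i)) (Finset.range r) = Finset.range r := by
      apply Finset.filter_true_of_mem
      intro i _
      exact hqodd.pow
    rw [this, Finset.card_range]
    exact hr
  obtain ⟨s, hsN⟩ := hNodd
  have hβs : β ^ s ∈ K := K.pow_mem hβ s
  set ε := β ^ s * δ with hε
  obtain ⟨c, hc⟩ := fld_norm hK hβ
  rw [← hN] at hc
  have hεK : ∀ k ∈ K, ε * k = k * ε := by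
    intro k hk
    rw [hε, mul_assoc, hδK k hk, ← mul_assoc, hK.comm _ hβs k hk, mul_assoc]
  have hεε : ε * ε = c • (1 : Matrix ι ι F) := by
    rw [← hc, hsN, hε]
    calc β ^ s * δ * (β ^ s * δ) = β ^ s * (δ * β ^ s) * δ := by simp only [mul_assoc]
      _ = β ^ s * (β ^ s * δ) * δ := by rw [hδK _ hβs]
      _ = β ^ s * β ^ s * (δ * δ) := by simp only [mul_assoc]
      _ = β ^ (2 * s + 1) := by rw [hδ2, ← pow_add, ← pow_succ]; congr 1; ring
  have hc0 : c ≠ 0 := by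
    intro h0
    have := pow_ne_fld hK hβ hβ0 N
    rw [hc, h0, zero_smul] at this
    exact this rfl
  have hεs : ∀ u u', f (ε *ᵥ u) u' = - f u (ε *ᵥ u') := by
    intro u u'
    rw [hε, ← Matrix.mulVec_mulVec, hs _ hβs, hskew, hδa _ hβs, Matrix.mulVec_mulVec]
  have hroot : ∀ x : F, x ^ 2 ≠ 0 * x + c := by
    intro x hx
    have h1 : (ε - x • (1 : Matrix ι ι F)) * (ε - (-x) • (1 : Matrix ι ι F)) = 0 := by
      rw [sub_mul, mul_sub, mul_sub, hεε, Matrix.mul_smul, Matrix.smul_mul, mul_one, one_mul, smul_mul_smul_comm, one_mul]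
      have : c = x * x := by linear_combination -hx
      rw [this]
      module
    obtain ⟨u, hu, z, hz⟩ := eigen_of_prod h1
    have hz2 : z ^ 2 = c := by
      have h3 : (ε * ε) *ᵥ u = (z ^ 2) • u := by
        rw [← Matrix.mulVec_mulVec, hz, Matrix.mulVec_smul, hz, smul_smul, pow_two]
      rw [hεε, Matrix.smul_mulVec, Matrix.one_mulVec] at h3
      have h4 : (c - z ^ 2) • u = 0 := by rw [sub_smul, h3, sub_self]
      rcases smul_eq_zero.1 h4 with h5 | h5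
      · linear_combination -h5
      · exact absurd h5 hu
    have hz0 : z ≠ 0 := by
      rintro rfl
      apply hc0
      rw [← hz2]; ring
    obtain ⟨k, hk, hku⟩ := hfv u hu
    apply hku
    have h3 := hεs u (k *ᵥ u)
    have h4 : ε *ᵥ (k *ᵥ u) = z • (k *ᵥ u) := by
      rw [Matrix.mulVec_mulVec, hεK k hk, ← Matrix.mulVec_mulVec, hz, Matrix.mulVec_smul]
    rw [hz, h4, hf.sesq.smul_left, hf.sesq.smul_right] at h3
    have h5 : z * f u (k *ᵥ u) = -(z * f u (k *ᵥ u)) := h3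
    have h6 : (2 * z) * f u (k *ᵥ u) = 0 := by linear_combination h5
    rw [comm]
    exact (mul_eq_zero.1 h6).resolve_left (mul_ne_zero h2 hz0)
  obtain ⟨E, hE, hmE⟩ := quad_fld ε 0 c (by rw [zero_smul, zero_add]; exact hεε) hroot
  refine ⟨E, hE, normE hmE ?_, ?_, ?_⟩
  · intro g hg
    have hgi := H.inv_mem hg
    set g' : Matrix ι ι F := ((g⁻¹ : GL ι F) : Matrix ι ι F) with hg'
    have hgg' : ∀ u, (g : Matrix ι ι F) *ᵥ (g' *ᵥ u) = u := fun u => by
      rw [Matrix.mulVec_mulVec, val_mul_inv, Matrix.one_mulVec]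
    obtain ⟨k, hk, hkδ⟩ := hsk ((g : Matrix ι ι F) * δ * g') (conj_comm hnor hg hδK) (by
      intro u u'
      rw [← Matrix.mulVec_mulVec, ← Matrix.mulVec_mulVec, ← Matrix.mulVec_mulVec, ← Matrix.mulVec_mulVec]
      conv_lhs => rw [← hgg' u']
      conv_rhs => rw [← hgg' u]
      rw [hI g hg, hskew, hI g hg])
    have hgβ : (g : Matrix ι ι F) * β * g' = k * k * β := by
      rw [← hδ2, ← conj_mul g δ δ, hkδ]
      calc k * δ * (k * δ) = k * (δ * k) * δ := by simp only [mul_assoc]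
        _ = k * k * (δ * δ) := by rw [hδK k hk]; simp only [mul_assoc]
    have h1 : (g : Matrix ι ι F) * ε * g' = k ^ N * ε := by
      rw [hε, ← conj_mul g, ← conj_pow' g β s, hgβ, hkδ, pow_mul_pow_fld hK (K.mul_mem hk hk) hβ,
        pow_mul_pow_fld hK hk hk, ← pow_add]
      calc k ^ (s + s) * β ^ s * (k * δ) = k ^ (s + s) * (β ^ s * k) * δ := by simp only [mul_assoc]
        _ = k ^ (s + s) * (k * β ^ s) * δ := by rw [hK.comm _ hβs k hk]
        _ = (k ^ (s + s) * k) * (β ^ s * δ) := by simp only [mul_assoc]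
        _ = k ^ N * (β ^ s * δ) := by rw [← pow_succ, hsN]; congr 2; ring
    obtain ⟨n, hn'⟩ := fld_norm hK hk
    rw [← hN] at hn'
    rw [h1, hn', Matrix.smul_mul, one_mul]
    exact (hmE _).2 ⟨0, n, by rw [zero_smul, zero_add]⟩
  · intro m hm
    obtain ⟨x, y, rfl⟩ := (hmE m).1 hm
    refine ⟨x • (1 : Matrix ι ι F) + (-y) • ε, (hmE _).2 ⟨x, -y, rfl⟩, ?_⟩
    intro u u'
    rw [Matrix.add_mulVec, Matrix.add_mulVec, Matrix.smul_mulVec, Matrix.smul_mulVec, Matrix.smul_mulVec, Matrix.smul_mulVec,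
      Matrix.one_mulVec, Matrix.one_mulVec, hadd, hadd', hf.sesq.smul_left, hf.sesq.smul_left, hf.sesq.smul_right,
      hf.sesq.smul_right, hεs]
    show x * f u u' + y * - f u (ε *ᵥ u') = x * f u u' + (-y) * f u (ε *ᵥ u')
    ring
  · intro hcon
    have hεE : ε ∈ E := (hmE _).2 ⟨0, 1, by rw [zero_smul, zero_add, one_smul]⟩
    have h1 : ∀ u u', f (ε *ᵥ u) u' = 0 := by
      intro u u'
      have h3 := hcon ε hεE u u'
      have h4 := hεs u u'
      have h5 : 2 * f (ε *ᵥ u) u' = 0 := by linear_combination h3 + h4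
      exact (mul_eq_zero.1 h5).resolve_left h2
    have h3 : ∀ u, ε *ᵥ u = 0 := by
      intro u
      by_contra h0
      obtain ⟨_, x, hx⟩ := hf.nd _ h0
      exact hx (h1 u x)
    have h4 : c • v = 0 := by
      have : (ε * ε) *ᵥ v = 0 := by rw [← Matrix.mulVec_mulVec, h3 v, Matrix.mulVec_zero]
      rwa [hεε, Matrix.smul_mulVec, Matrix.one_mulVec] at this
    rcases smul_eq_zero.1 h4 with h5 | h5
    · exact hc0 h5
    · exact hv h5

end CfsgLib.OmE
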