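import Mathlib
import Cfsg.Agent.LibOmE12

/-! self-adjoint fields of odd degree r in dimension 2r, characteristic two -/
set_option autoImplicit false
set_option linter.unusedSectionVars false

namespace CfsgLib.OmE

open Module Cfsg Cfsg.Geo CfsgLib.Asch9 CfsgLib.Asch11 CfsgLib.Asch19 CfsgLib.AschF
open scoped Matrix MatrixGroups Kronecker

variable {ι : Type} [Fintype ι] [DecidableEq ι] {F : Type*} [Field F]
variable {r : ℕ} {K : Subalgebra F (Matrix ι ι F)} {Q : (ι → F) → F} {H : Subgroup (GL ι F)}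

theorem add_self_two (h2 : (2 : F) = 0) (x : Matrix ι ι F) : x + x = 0 := by
  rw [← two_smul F x, h2, zero_smul]

theorem vadd_self_two (h2 : (2 : F) = 0) (x : ι → F) : x + x = 0 := by
  rw [← two_smul F x, h2, zero_smul]

theorem sqrt_fld [Fintype F] [Nonempty ι] (h2 : (2 : F) = 0) (hK : IsFieldSubalgebra r K) {x : Matrix ι ι F} (hx : x ∈ K) :
    ∃ y ∈ K, y * y = x := by
  have hfld := CfsgLib.AschNum.fld_isField hK
  let _ : Field K := hfld.toField
  have : Finite K := Subtype.finite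
  have hch : ringChar K = 2 := by
    have h1 : (2 : K) = 0 := by
      have : (2 : K) = algebraMap F K 2 := by rw [map_ofNat]
      rw [this, h2, map_zero]
    exact CharP.ringChar_of_prime_eq_zero Nat.prime_two (by exact_mod_cast h1)
  have := Fintype.ofFinite K
  obtain ⟨y, hy⟩ := FiniteField.isSquare_of_char_two hch (⟨x, hx⟩ : K)
  exact ⟨y.1, y.2, (congrArg Subtype.val hy).symm⟩

theorem sq_inj_fld [Nonempty ι] (h2 : (2 : F) = 0) (hK : IsFieldSubalgebra r K) {x y : Matrix ι ι F} (hx : x ∈ K) (hy : y ∈ K)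
    (h : x * x = y * y) : x = y := by
  have h1 : (x + y) * (x + y) = 0 := by
    rw [add_mul, mul_add, mul_add, hK.comm y hy x hx, h]
    have := add_self_two h2 (x * y)
    have h3 := add_self_two h2 (y * y)
    calc y * y + x * y + (x * y + y * y) = (y * y + y * y) + (x * y + x * y) := by abel
      _ = 0 := by rw [this, h3, add_zero]
  by_contra hne
  have h0 : x + y ≠ 0 := by
    intro h0
    apply hne
    have h3 := add_self_two h2 y
    calc x = (x + y) + y - (y + y) := by abel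
      _ = y := by rw [h0, h3, zero_add, sub_zero]
  have := pow_ne_fld hK (K.add_mem hx hy) h0 2
  rw [pow_two] at this
  exact this h1

theorem as_pow (h2 : (2 : F) = 0) (hK : IsFieldSubalgebra r K) {x : Matrix ι ι F} (hx : x ∈ K) (m : ℕ) :
    ∃ y ∈ K, y * y + y = x + x ^ (2 ^ m) := by
  induction m with
  | zero => exact ⟨0, K.zero_mem, by rw [pow_zero, pow_one, add_self_two h2, mul_zero, add_zero]⟩
  | succ m ih =>
    obtain ⟨y, hy, hyx⟩ := ih
    have hp : x ^ (2 ^ m) ∈ K := K.pow_mem hx _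
    refine ⟨y + x ^ (2 ^ m), K.add_mem hy hp, ?_⟩
    rw [add_mul, mul_add, mul_add, hK.comm _ hp y hy]
    have h3 := add_self_two h2 (y * x ^ (2 ^ m))
    have h4 := add_self_two h2 (x ^ (2 ^ m))
    have h5 : x ^ (2 ^ m) * x ^ (2 ^ m) = x ^ (2 ^ (m + 1)) := by rw [← pow_add]; congr 1; ring
    calc y * y + y * x ^ 2 ^ m + (y * x ^ 2 ^ m + x ^ 2 ^ m * x ^ 2 ^ m) + (y + x ^ 2 ^ m)
        = (y * y + y) + (y * x ^ 2 ^ m + y * x ^ 2 ^ m) + x ^ 2 ^ m * x ^ 2 ^ m + x ^ 2 ^ m := by abel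
      _ = x + (x ^ 2 ^ m + x ^ 2 ^ m) + x ^ 2 ^ (m + 1) := by rw [hyx, h3, h5]; abel
      _ = _ := by rw [h4, add_zero]

theorem as_sum (h2 : (2 : F) = 0) (hK : IsFieldSubalgebra r K) (z : ℕ → Matrix ι ι F)
    (hz : ∀ i, ∃ y ∈ K, y * y + y = z i) (n : ℕ) : ∃ y ∈ K, y * y + y = ∑ i ∈ Finset.range n, z i := by
  induction n with
  | zero => exact ⟨0, K.zero_mem, by simp⟩
  | succ n ih =>
    obtain ⟨y, hy, hyx⟩ := ih
    obtain ⟨y', hy', hyx'⟩ := hz n
    refine ⟨y + y', K.add_mem hy hy', ?_⟩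
    rw [Finset.sum_range_succ, ← hyx, ← hyx', add_mul, mul_add, mul_add, hK.comm y' hy' y hy]
    have h3 := add_self_two h2 (y * y')
    calc y * y + y * y' + (y * y' + y' * y') + (y + y') = y * y + y + (y' * y' + y') + (y * y' + y * y') := by abel
      _ = _ := by rw [h3, add_zero]

theorem fld_case_even [Fintype F] (hQ : IsNondegenerateQuadraticForm Q) (h2 : (2 : F) = 0) (hr : Odd r)
    (hK : IsFieldSubalgebra r K) (hs : IsSelfAdjointFor (QuadraticMap.polar Q) K) (hn : Fintype.card ι = 2 * r)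
    (hH : Pres Q H) (hnor : H ≤ subalgebraNormalizer K) (hB : ∀ v : ι → F, v ≠ 0 → ∃ k ∈ K, Q (k *ᵥ v) ≠ 0) :
    ∃ E : Subalgebra F (Matrix ι ι F), IsFieldSubalgebra 2 E ∧ H ≤ subalgebraNormalizer E ∧
      IsAdjointClosedFor (QuadraticMap.polar Q) E ∧ ¬ IsSelfAdjointFor (QuadraticMap.polar Q) E := by
  classical
  have hr0 : 0 < r := hr.pos
  have hne : Nonempty ι := Fintype.card_pos_iff.1 (by omega)
  have hf := fdQ hQ
  have hI := hH.iso
  have hz := self_adj_zero (fdQ' hQ h2) (alt_two hQ h2) hK hs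
  have hQa := Qadd hQ
  set f := QuadraticMap.polar Q with hfdef
  have comm : ∀ u v, f u v = f v u := fun u v => QuadraticMap.polar_comm _ _ _
  have hadd := hf.sesq.add_left
  have hadd' := hf.sesq.add_right
  have hxx : ∀ x : F, x + x = 0 := fun x => by linear_combination x * h2
  obtain ⟨i0⟩ := hne
  have hne : Nonempty ι := ⟨i0⟩
  set v : ι → F := Pi.single i0 1 with hvd
  have hv : v ≠ 0 := by
    intro h0
    have := congrFun h0 i0
    simp [hvd] at this
  obtain ⟨w, hw⟩ := exists_not_mem_orbK hK hr0 hn hv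
  have hw0 : w ≠ 0 := by
    rintro rfl
    exact hw (orbK K v).zero_mem
  -- f (a u) (b u) = 0
  have hau : ∀ u : ι → F, ∀ a ∈ K, ∀ b ∈ K, f (a *ᵥ u) (b *ᵥ u) = 0 := by
    intro u a ha b hb
    rw [← hs b hb, Matrix.mulVec_mulVec]
    exact hz _ (K.mul_mem hb ha) u
  have hvw : ∀ a ∈ K, ∀ b ∈ K, f (a *ᵥ v) (b *ᵥ w) = f ((a * b) *ᵥ v) w := by
    intro a ha b hb
    rw [← hs b hb, Matrix.mulVec_mulVec, hK.comm b hb a ha]
  let φ : K →ₗ[F] F :=
    { toFun := fun k => f (k.1 *ᵥ v) w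
      map_add' := by
        intro x y
        rw [Subalgebra.coe_add, Matrix.add_mulVec, hadd]
      map_smul' := by
        intro c x
        rw [Subalgebra.coe_smul, Matrix.smul_mulVec, hf.sesq.smul_left]; rfl }
  have hφ : φ ≠ 0 := by
    intro h0
    have h1 : ∀ k ∈ K, f (k *ᵥ v) w = 0 := fun k hk => LinearMap.congr_fun h0 ⟨k, hk⟩
    obtain ⟨_, x, hx⟩ := hf.nd v hv
    apply hx
    obtain ⟨a, ha, b, hb, rfl⟩ := span2 hK hn hv hw x
    have e1 := hau v 1 K.one_mem a ha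
    have e2 := hvw 1 K.one_mem b hb
    rw [Matrix.one_mulVec] at e1 e2
    rw [hadd', e1, e2, one_mul, h1 b hb, add_zero]
  -- square roots
  have hsq : ∀ x : K, ∃ y : K, y.1 * y.1 = x.1 := by
    intro x
    obtain ⟨y, hy, hyx⟩ := sqrt_fld h2 hK x.2
    exact ⟨⟨y, hy⟩, hyx⟩
  choose sq hsq using hsq
  have hsq_eq : ∀ (x : K) (y : Matrix ι ι F), y ∈ K → y * y = x.1 → (sq x).1 = y := by
    intro x y hy hyx
    exact sq_inj_fld h2 hK (sq x).2 hy (by rw [hsq, hyx])
  have hQK : ∀ u : ι → F, ∀ a ∈ K, ∀ b ∈ K, Q ((a + b) *ᵥ u) = Q (a *ᵥ u) + Q (b *ᵥ u) := by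
    intro u a ha b hb
    rw [Matrix.add_mulVec, hQa, hau u a ha b hb, add_zero]
  let ψ : (ι → F) → (K →ₗ[F] F) := fun u =>
    { toFun := fun k => Q ((sq k).1 *ᵥ u)
      map_add' := by
        intro x y
        have h1 : (sq (x + y)).1 = (sq x).1 + (sq y).1 := by
          apply hsq_eq _ _ (K.add_mem (sq x).2 (sq y).2)
          rw [add_mul, mul_add, mul_add, hK.comm _ (sq y).2 _ (sq x).2, hsq, hsq]
          have := add_self_two h2 ((sq x).1 * (sq y).1)
          calc x.1 + (sq x).1 * (sq y).1 + ((sq x).1 * (sq y).1 + y.1)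
              = x.1 + y.1 + ((sq x).1 * (sq y).1 + (sq x).1 * (sq y).1) := by abel
            _ = _ := by rw [this, add_zero]; rfl
        rw [h1, hQK u _ (sq x).2 _ (sq y).2]
      map_smul' := by
        intro c x
        obtain ⟨d, hd⟩ := sq_exists h2 c
        have h1 : (sq (c • x)).1 = d • (sq x).1 := by
          apply hsq_eq _ _ (K.smul_mem (sq x).2 d)
          rw [smul_mul_smul_comm, hsq, ← pow_two, hd]; rfl
        rw [h1, Matrix.smul_mulVec, hQ.smul, hd]; rfl }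
  have hψ : ∀ u : ι → F, ∃ γ ∈ K, ∀ a ∈ K, Q (a *ᵥ u) = f ((a * a * γ) *ᵥ v) w := by
    intro u
    obtain ⟨⟨γ, hγ⟩, hγe⟩ := fun_surj hK hr0 φ (ψ u) hφ
    refine ⟨γ, hγ, fun a ha => ?_⟩
    have h1 := hγe ⟨a * a, K.mul_mem ha ha⟩
    have h3 : Q ((sq ⟨a * a, K.mul_mem ha ha⟩).1 *ᵥ u) = f ((a * a * γ) *ᵥ v) w := h1
    rw [hsq_eq ⟨a * a, K.mul_mem ha ha⟩ a ha rfl] at h3
    exact h3
  obtain ⟨γ, hγ, hγe⟩ := hψ v
  obtain ⟨β, hβ, hβe⟩ := hψ w
  obtain ⟨θ, hθK, hθv, hθw⟩ := exists_klin hK hn hv hw (γ *ᵥ w) (β *ᵥ v + w)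
  have hθa : ∀ a ∈ K, ∀ u, θ *ᵥ (a *ᵥ u) = a *ᵥ (θ *ᵥ u) := by
    intro a ha u
    rw [Matrix.mulVec_mulVec, hθK a ha, ← Matrix.mulVec_mulVec]
  have hθQ : ∀ u, f u (θ *ᵥ u) = Q u := by
    intro u
    obtain ⟨a, ha, b, hb, rfl⟩ := span2 hK hn hv hw u
    rw [Matrix.mulVec_add, hθa a ha, hθa b hb, hθv, hθw, Matrix.mulVec_add, Matrix.mulVec_mulVec, Matrix.mulVec_mulVec,
      hadd, hadd', hadd', hadd', hadd', hvw a ha _ (K.mul_mem ha hγ), hau v a ha _ (K.mul_mem hb hβ), hvw a ha b hb,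
      hau w b hb _ (K.mul_mem ha hγ), hau w b hb b hb, comm (b *ᵥ w), hvw _ (K.mul_mem hb hβ) b hb, hQa, hγe a ha, hβe b hb,
      hvw a ha b hb]
    have e1 : a * (a * γ) = a * a * γ := by rw [mul_assoc]
    have e2 : b * β * b = b * b * β := by rw [mul_assoc, hK.comm β hβ b hb, mul_assoc]
    rw [e1, e2]; ring
  have hθadj : ∀ u u', f (θ *ᵥ u) u' = f u u' + f u (θ *ᵥ u') := by
    intro u u'
    have h1 := hθQ (u + u')
    rw [Matrix.mulVec_add, hadd, hadd', hadd', hθQ, hθQ, hQa, comm u' (θ *ᵥ u)] at h1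
    linear_combination h1 - hxx (f u (θ *ᵥ u'))
  have hθ2 : θ * θ = θ + γ * β := by
    have hγβ := K.mul_mem hγ hβ
    apply klin_ext hK hn hv hw
    · intro k hk
      rw [mul_assoc, hθK k hk, ← mul_assoc, hθK k hk, mul_assoc]
    · intro k hk
      rw [add_mul, mul_add, hθK k hk, hK.comm _ hγβ k hk]
    · rw [← Matrix.mulVec_mulVec, hθv, hθa γ hγ, hθw, Matrix.add_mulVec, hθv, Matrix.mulVec_add, Matrix.mulVec_mulVec, add_comm]
    · rw [← Matrix.mulVec_mulVec, hθw, Matrix.mulVec_add, hθa β hβ, hθv, hθw, Matrix.add_mulVec, hθw, Matrix.mulVec_mulVec,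
        hK.comm β hβ γ hγ, add_comm]
  -- conjugates of θ
  have hconj : ∀ g ∈ H, ∃ κ ∈ K, (g : Matrix ι ι F) * θ * ((g⁻¹ : GL ι F) : Matrix ι ι F) = θ + κ := by
    intro g hg
    set g' : Matrix ι ι F := ((g⁻¹ : GL ι F) : Matrix ι ι F) with hg'
    have hgg' : ∀ u, (g : Matrix ι ι F) *ᵥ (g' *ᵥ u) = u := fun u => by
      rw [Matrix.mulVec_mulVec, val_mul_inv, Matrix.one_mulVec]
    have h1K := conj_comm hnor hg hθK
    rw [← hg'] at h1K
    set θ' := (g : Matrix ι ι F) * θ * g' with hθ'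
    have hθ'Q : ∀ u, f u (θ' *ᵥ u) = Q u := by
      intro u
      rw [hθ', ← Matrix.mulVec_mulVec, ← Matrix.mulVec_mulVec]
      conv_lhs => rw [← hgg' u]
      rw [hgg' u]
      have h3 := hI g hg (g' *ᵥ u) (θ *ᵥ (g' *ᵥ u))
      rw [hgg'] at h3
      rw [h3, hθQ, hg']
      exact hH _ (H.inv_mem hg) u
    set η := θ' - θ with hη
    have hηK : ∀ k ∈ K, η * k = k * η := by
      intro k hk
      rw [hη, sub_mul, mul_sub, h1K k hk, hθK k hk]
    have hη0 : ∀ u, f u (η *ᵥ u) = 0 := by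
      intro u
      have e2 : f u (θ' *ᵥ u - θ *ᵥ u) = f u (θ' *ᵥ u) - f u (θ *ᵥ u) := by
        rw [sub_eq_add_neg, hadd', ← neg_one_smul F (θ *ᵥ u), hf.sesq.smul_right]
        rw [RingHom.map_neg, RingHom.map_one]; ring
      rw [hη, Matrix.sub_mulVec, e2, hθ'Q, hθQ, sub_self]
    have hηa : ∀ a ∈ K, ∀ u, η *ᵥ (a *ᵥ u) = a *ᵥ (η *ᵥ u) := by
      intro a ha u
      rw [Matrix.mulVec_mulVec, hηK a ha, ← Matrix.mulVec_mulVec]
    have hηmem : η ∈ K := by
      apply eigen_mem hK hr0 hn hηK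
      intro u
      by_cases hu : u = 0
      · rw [hu, Matrix.mulVec_zero]; exact (orbK K 0).zero_mem
      have h1 : orbK K u ≤ perp hf (orbK K u) := by
        rintro _ ⟨a, ha, rfl⟩
        refine (mem_perp hf).2 ?_
        rintro _ ⟨b, hb, rfl⟩
        exact hau u b hb a ha
      have hfr := finrank_perp hf (orbK K u)
      rw [finrank_orbK hK hu, hn] at hfr
      have h3 : orbK K u = perp hf (orbK K u) := by
        apply Submodule.eq_of_le_of_finrank_eq h1
        rw [finrank_orbK hK hu]; omega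
      rw [h3]
      refine (mem_perp hf).2 ?_
      rintro _ ⟨b, hb, rfl⟩
      obtain ⟨a, ha, rfl⟩ := sqrt_fld h2 hK hb
      rw [← Matrix.mulVec_mulVec, hs a ha, ← hηa a ha]
      exact hη0 _
    refine ⟨η, hηmem, ?_⟩
    rw [hη]; abel
  -- the trace
  set d := γ * β with hd
  have hdK : d ∈ K := K.mul_mem hγ hβ
  obtain ⟨e, he⟩ := fld_trace hK hdK
  obtain ⟨m, hm⟩ : ∃ m, Fintype.card F = 2 ^ m := by
    have hch : CharP F 2 := by
      have := CharP.ringChar_of_prime_eq_zero (R := F) Nat.prime_two (by exact_mod_cast h2)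
      exact this ▸ ringChar.charP F
    obtain ⟨n, _, hn⟩ := FiniteField.card F 2
    exact ⟨n, hn⟩
  obtain ⟨y, hy, hye⟩ := as_sum h2 hK (fun i => d + d ^ (Fintype.card F ^ i)) (by
    intro i
    have := as_pow h2 hK hdK (m * i)
    rwa [pow_mul, ← hm] at this) r
  have hye' : y * y + y = d + e • (1 : Matrix ι ι F) := by
    rw [hye, Finset.sum_add_distrib, he, Finset.sum_const, Finset.card_range]
    congr 1
    obtain ⟨s, hs'⟩ := hr
    rw [hs', add_smul, one_smul, mul_comm, mul_smul, two_smul, add_self_two h2, smul_zero, zero_add]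
  set ε := θ + y with hε
  have hεK : ∀ k ∈ K, ε * k = k * ε := by
    intro k hk
    rw [hε, add_mul, mul_add, hθK k hk, hK.comm y hy k hk]
  have hεε : ε * ε = (1 : F) • ε + e • (1 : Matrix ι ι F) := by
    have h1 : θ * y = y * θ := hθK y hy
    have h3 : y * y = d + e • (1 : Matrix ι ι F) + y := by
      have := add_self_two h2 y
      calc y * y = y * y + y + (y + y) - (y + y) - (y + y) + y := by abel
        _ = _ := by rw [hye', this]; abel
    have h4 := add_self_two h2 (y * θ)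
    have h5 := add_self_two h2 d
    rw [one_smul, hε, add_mul, mul_add, mul_add, hθ2, h1, h3]
    calc θ + d + y * θ + (y * θ + (d + e • (1 : Matrix ι ι F) + y))
        = θ + y + e • (1 : Matrix ι ι F) + (d + d) + (y * θ + y * θ) := by abel
      _ = _ := by rw [h4, h5, add_zero, add_zero]
  have hεadj : ∀ u u', f (ε *ᵥ u) u' = f u u' + f u (ε *ᵥ u') := by
    intro u u'
    rw [hε, Matrix.add_mulVec, Matrix.add_mulVec, hadd, hadd', hθadj, hs y hy]; ring
  have hroot : ∀ x : F, x ^ 2 ≠ 1 * x + e := by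
    intro x hx
    have h1 : (ε - x • (1 : Matrix ι ι F)) * (ε - (1 - x) • (1 : Matrix ι ι F)) = 0 := by
      rw [sub_mul, mul_sub, mul_sub, hεε, Matrix.mul_smul, Matrix.smul_mul, mul_one, one_mul, smul_mul_smul_comm, one_mul]
      have h3 : e = x * x - x := by linear_combination -hx
      have h4 : (1 : F) • ε + (x * x - x) • (1 : Matrix ι ι F) - (1 - x) • ε - (x • ε - (x * (1 - x)) • (1 : Matrix ι ι F)) = 0 := by
        module
      rw [h3]
      convert h4 using 2
    obtain ⟨u, hu, z, hz'⟩ := eigen_of_prod h1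
    obtain ⟨k, hk, hku⟩ := hB u hu
    apply hku
    have h3 : θ *ᵥ u = (z • (1 : Matrix ι ι F) + y) *ᵥ u := by
      rw [Matrix.add_mulVec, Matrix.smul_mulVec, Matrix.one_mulVec, ← hz', hε, Matrix.add_mulVec, add_assoc,
        vadd_self_two h2, add_zero]
    rw [← hθQ, hθa k hk, h3, Matrix.mulVec_mulVec]
    exact hau u k hk _ (K.mul_mem hk (K.add_mem (K.smul_mem K.one_mem z) hy))
  obtain ⟨E, hE, hmE⟩ := quad_fld ε 1 e hεε hroot
  have hone : (1 : Matrix ι ι F) ∈ E := E.one_mem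
  have hεE : ε ∈ E := (hmE _).2 ⟨0, 1, by rw [zero_smul, zero_add, one_smul]⟩
  refine ⟨E, hE, normE hmE ?_, ?_, ?_⟩
  · intro g hg
    obtain ⟨κ, hκ, hκe⟩ := hconj g hg
    have hyg := (hnor hg y).1 hy
    set yg := (g : Matrix ι ι F) * y * ((g⁻¹ : GL ι F) : Matrix ι ι F) with hyg'
    set l := κ + yg + y with hl
    have hlK : l ∈ K := K.add_mem (K.add_mem hκ hyg) hy
    have h1 : (g : Matrix ι ι F) * ε * ((g⁻¹ : GL ι F) : Matrix ι ι F) = ε + l := by
      rw [hε, Matrix.mul_add, Matrix.add_mul, hκe, ← hyg', hl]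
      have := add_self_two h2 y
      calc θ + κ + yg = θ + κ + yg + (y + y) := by rw [this, add_zero]
        _ = _ := by abel
    have h3 : (ε + l) * (ε + l) = (ε + l) + e • (1 : Matrix ι ι F) := by
      rw [← h1, conj_mul, hεε, Matrix.mul_add, Matrix.add_mul, one_smul, Matrix.mul_smul, Matrix.smul_mul, mul_one,
        val_mul_inv]
    have h4 : l * l = l := by
      have hexp : ∀ a b : Matrix ι ι F, (a + b) * (a + b) = a * a + a * b + (b * a + b * b) := fun a b => by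
        rw [add_mul, mul_add, mul_add]
      rw [hexp, hεε, hεK l hlK, one_smul] at h3
      have h5 := add_self_two h2 (l * ε)
      have h6 : ε + e • (1 : Matrix ι ι F) + l * ε + (l * ε + l * l) = ε + e • (1 : Matrix ι ι F) + l * l + (l * ε + l * ε) := by abel
      rw [h6, h5, add_zero] at h3
      have h7 : l * l = (ε + e • (1 : Matrix ι ι F) + l * l) - (ε + e • (1 : Matrix ι ι F)) := by abel
      rw [h7, h3]; abel
    rw [h1]
    refine E.add_mem hεE ?_
    by_cases hl0 : l = 0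
    · rw [hl0]; exact E.zero_mem
    · obtain ⟨μ, hμ, hlμ⟩ := hK.inv l hlK hl0
      have : l = 1 := by
        calc l = l * (l * μ) := by rw [hlμ, mul_one]
          _ = (l * l) * μ := by rw [mul_assoc]
          _ = 1 := by rw [h4, hlμ]
      rw [this]; exact hone
  · intro m' hm'
    obtain ⟨x, y', rfl⟩ := (hmE m').1 hm'
    refine ⟨(x + y') • (1 : Matrix ι ι F) + y' • ε, (hmE _).2 ⟨x + y', y', rfl⟩, ?_⟩
    intro u u'
    rw [Matrix.add_mulVec, Matrix.add_mulVec, Matrix.smul_mulVec, Matrix.smul_mulVec, Matrix.smul_mulVec, Matrix.smul_mulVec,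
      Matrix.one_mulVec, Matrix.one_mulVec, hadd, hadd', hf.sesq.smul_left, hf.sesq.smul_left, hf.sesq.smul_right,
      hf.sesq.smul_right, hεadj]
    show x * f u u' + y' * (f u u' + f u (ε *ᵥ u')) = (x + y') * f u u' + y' * f u (ε *ᵥ u')
    ring
  · intro hcon
    obtain ⟨_, x, hx⟩ := hf.nd v hv
    apply hx
    have h3 := hcon ε hεE v x
    have h4 := hεadj v x
    linear_combination h3 - h4

/-- both characteristics -/
theorem fld_case [Fintype F] (hQ : IsNondegenerateQuadraticForm Q) (hr : Odd r)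
    (hK : IsFieldSubalgebra r K) (hs : IsSelfAdjointFor (QuadraticMap.polar Q) K) (hn : Fintype.card ι = 2 * r)
    (hH : Pres Q H) (hnor : H ≤ subalgebraNormalizer K) (hB : ∀ v : ι → F, v ≠ 0 → ∃ k ∈ K, Q (k *ᵥ v) ≠ 0) :
    ∃ E : Subalgebra F (Matrix ι ι F), IsFieldSubalgebra 2 E ∧ H ≤ subalgebraNormalizer E ∧
      IsAdjointClosedFor (QuadraticMap.polar Q) E ∧ ¬ IsSelfAdjointFor (QuadraticMap.polar Q) E := by
  by_cases h2 : (2 : F) = 0
  · exact fld_case_even hQ h2 hr hK hs hn hH hnor hB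
  · exact fld_case_odd hQ h2 hr hK hs hn hH hnor hB

/-- a singular line over K is impossible for an irreducible subgroup of Ω -/
theorem no_sing_line [Finite F] (hQ : IsNondegenerateQuadraticForm Q) (hr : Odd r)
    (hK : IsFieldSubalgebra r K) (hn : Fintype.card ι = 2 * r)
    (hH : H ≤ omegaGL Q) (hirr : ActsIrreducibly (matrixSet H)) (hnor : H ≤ subalgebraNormalizer K) :
    ∀ v : ι → F, v ≠ 0 → ∃ k ∈ K, Q (k *ᵥ v) ≠ 0 := by
  intro v hv
  by_contra hcon
  push Not at hcon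
  have hr0 := hr.pos
  have hP := omega_pres hH
  have hts : IsTotallySingularQuad Q (orbK K v) := by
    rintro _ ⟨k, hk, rfl⟩
    exact hcon k hk
  have hfr := finrank_orbK hK hv
  have hmap : ∀ g ∈ H, (orbK K v).map (Matrix.toLin' (g : Matrix ι ι F)) = orbK K ((g : Matrix ι ι F) *ᵥ v) := by
    intro g hg
    ext x
    constructor
    · rintro ⟨_, ⟨k, hk, rfl⟩, rfl⟩
      refine ⟨_, (hnor hg k).1 hk, ?_⟩
      rw [Matrix.toLin'_apply, Matrix.mulVec_mulVec, Matrix.mulVec_mulVec]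
      congr 1
      rw [mul_assoc _ _ (g : Matrix ι ι F), inv_mul_val, mul_one]
    · rintro ⟨k, hk, rfl⟩
      have h1 := (hnor (H.inv_mem hg) k).1 hk
      rw [inv_inv] at h1
      refine ⟨_, ⟨_, h1, rfl⟩, ?_⟩
      rw [Matrix.toLin'_apply, Matrix.mulVec_mulVec, Matrix.mulVec_mulVec]
      congr 1
      rw [← mul_assoc, ← mul_assoc, val_mul_inv, one_mul]
  have hstab : ∀ g ∈ H, (orbK K v).map (Matrix.toLin' (g : Matrix ι ι F)) = orbK K v := by
    intro g hg
    by_contra hne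
    rw [hmap g hg] at hne
    have hdis := orbK_disj hK (Ne.symm hne)
    have := CfsgLib.OmH12.no_swap hQ (by
      intro h4
      rw [hn] at h4
      have : r = 2 := by omega
      rw [this] at hr
      exact absurd hr (by decide)) (hH hg) hts (by rw [hfr, hn]) (by rw [hfr]; exact hr) hdis
    exact this (hmap g hg)
  rcases irr_mem hirr (W := orbK K v) (fun g hg x hx => map_mulVec g (hstab g hg) hx) with h | h
  · have := self_mem_orbK K v
    rw [h, Submodule.mem_bot] at this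
    exact hv this
  · rw [h, finrank_top, Module.finrank_fintype_fun_eq_card, hn] at hfr
    omega

end CfsgLib.OmE
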