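import Cfsg.Agent.LibOmPropH12e

set_option autoImplicit false
set_option linter.unusedSectionVars false

/-! Omega is contained in no member of the geometric classes: final form (seat helper12). -/

namespace CfsgLib.OmH12

open Module Cfsg Cfsg.Geo Cfsg.Agent.H22
open scoped Matrix MatrixGroups Kronecker

section final
variable {ι : Type} [Fintype ι] [DecidableEq ι] {F : Type*} [Field F] [Finite F] {Q : (ι → F) → F}
  (hQ : IsNondegenerateQuadraticForm Q) (hn : 5 ≤ Fintype.card ι)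

include hQ hn

theorem omega_not_stab {W : Submodule F (ι → F)} (h0 : W ≠ ⊥) (h1 : W ≠ ⊤) : ¬ omegaGL Q ≤ subspaceStabilizer W := by
  obtain ⟨Q', rfl, h⟩ := exists_qf hQ
  exact fun hle => not_stab h hn (hasLong_omega' h hn) h0 h1 hle

theorem omega_irr : ActsIrreducibly (matrixSet (omegaGL Q)) := by
  obtain ⟨Q', rfl, h⟩ := exists_qf hQ
  exact HasLong.irr h hn (hasLong_omega' h hn)

theorem omega_not_dec {s k : ℕ} {D : Fin s → Submodule F (ι → F)} (hD : IsNondegenerateMDecomposition (QuadraticMap.polar Q) k D)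
    (hk : k + 3 ≤ Fintype.card ι) : ¬ omegaGL Q ≤ decompositionStabilizer D := by
  obtain ⟨Q', rfl, h⟩ := exists_qf hQ
  exact fun hle => not_dec h hn (hasLong_omega' h hn) hD hk hle

theorem omega_not_dec_three {s k : ℕ} {D : Fin s → Submodule F (ι → F)} (hD : IsMDecomposition k D)
    (hk : 3 ≤ k) : ¬ omegaGL Q ≤ decompositionStabilizer D := by
  obtain ⟨Q', rfl, h⟩ := exists_qf hQ
  exact fun hle => not_dec_three h hn (hasLong_omega' h hn) hD hk hle

theorem omega_not_fld {K : Subalgebra F (Matrix ι ι F)} {r : ℕ} (hr : 2 ≤ r) (hK : IsFieldSubalgebra r K) :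
    ¬ omegaGL Q ≤ subalgebraNormalizer K := by
  obtain ⟨Q', rfl, h⟩ := exists_qf hQ
  exact fun hle => not_fld h hn (hasLong_omega' h hn) hr hK hle

theorem omega_not_tp {n₁ n₂ : ℕ} {e : ι ≃ Fin n₁ × Fin n₂} {P : GL ι F} (h1 : 2 ≤ n₁) (h2 : 2 ≤ n₂) :
    ¬ omegaGL Q ≤ tensorProductSubgroup n₁ n₂ e P := by
  obtain ⟨Q', rfl, h⟩ := exists_qf hQ
  exact fun hle => not_tp h hn (hasLong_omega' h hn) h1 h2 hle

theorem omega_not_sub {F₀ : Subfield F} (h0 : F₀ ≠ ⊤) {P : GL ι F} : ¬ omegaGL Q ≤ subfieldSubgroup F₀ P := by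
  obtain ⟨Q', rfl, h⟩ := exists_qf hQ
  exact fun hle => not_sub h hn (hasLong_omega' h hn) h0 hle

theorem omega_not_sub' [Fintype F] {F₀ : Subfield F} {r : ℕ} (hr : r.Prime) (hc : Fintype.card F = Nat.card F₀ ^ r) {P : GL ι F} :
    ¬ omegaGL Q ≤ subfieldSubgroup F₀ P := by
  apply omega_not_sub hQ hn
  intro htop
  have h3 : Nat.card F₀ = Fintype.card F := by
    rw [htop, ← Nat.card_eq_fintype_card]
    exact Nat.card_congr Subfield.topEquiv.toEquiv
  rw [h3] at hc
  have h4 := Fintype.one_lt_card (α := F)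
  have h5 : Fintype.card F ^ 1 < Fintype.card F ^ r := Nat.pow_lt_pow_right h4 hr.one_lt
  rw [pow_one] at h5
  omega

theorem omega_not_tw2 (h2 : (2 : F) ≠ 0) {k : ℕ} (hk : 2 ≤ k) {e : ι ≃ (Fin 2 → Fin k)} {P : GL ι F} :
    ¬ omegaGL Q ≤ tensorWreathSubgroup k 2 e P := by
  obtain ⟨Q', rfl, h⟩ := exists_qf hQ
  exact fun hle => not_tw2 h hn (hasLong_omega' h hn) h2 hk hle

end final

section max
variable {ι : Type} [Fintype ι] [DecidableEq ι] {F : Type*} [Field F]

theorem eq_of_max {Q : (ι → F) → F} {H M : Subgroup (GL ι F)} (hH : IsMaximalIn (omegaGL Q) H) (hM : H ≤ M)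
    (hn : ¬ omegaGL Q ≤ M) : H = M ⊓ omegaGL Q := by
  rcases hH.2 (M ⊓ omegaGL Q) (le_inf hM hH.1.le) inf_le_right with h | h
  · exact h.symm
  · exact absurd (inf_eq_right.1 h) hn

theorem omega_le_isometry (Q : (ι → F) → F) : omegaGL Q ≤ isometryGroup F Q := by
  rintro _ ⟨g, _, rfl⟩
  exact g.2

end max

end CfsgLib.OmH12
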