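import Mathlib
import Cfsg.Agent.LibOmE13
import Cfsg.Agent.LibOmPropH12f
import Cfsg.Agent.LibAsch14
import Cfsg.Agent.LibForms27

/-! even-dimensional orthogonal groups: from the classes to the listed subgroups -/
set_option autoImplicit false
set_option linter.unusedSectionVars false

namespace CfsgLib.OmE

open Module Cfsg Cfsg.Geo CfsgLib.Asch9 CfsgLib.Asch11 CfsgLib.Asch19 CfsgLib.AschF CfsgLib.OmH12
open scoped Matrix MatrixGroups Kronecker

variable {ι : Type} [Fintype ι] [DecidableEq ι] {F : Type*} [Field F]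
variable {Q : (ι → F) → F} {H : Subgroup (GL ι F)}

theorem nondeg_even (hQ : IsNondegenerateQuadraticForm Q) (h2 : (2 : F) = 0) {W : Submodule F (ι → F)}
    (hW : IsNondegenerateOn (QuadraticMap.polar Q) W) : Even (finrank F W) := by
  have hf := fdQ hQ
  let B : LinearMap.BilinForm F W := LinearMap.mk₂ F (fun u v => QuadraticMap.polar Q u.1 v.1)
    (fun x y z => hf.sesq.add_left _ _ _) (fun c x y => hf.sesq.smul_left _ _ _)
    (fun x y z => hf.sesq.add_right _ _ _) (fun c x y => hf.sesq.smul_right _ _ _)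
  obtain ⟨m, _, hm, _⟩ := CfsgLib.Forms27.exists_symplectic_basis B (fun v => alt_two hQ h2 v.1) (by
    intro v hv
    obtain ⟨_, x, hx, hxv⟩ := hW v.1 v.2 (fun h => hv (Subtype.ext h))
    exact ⟨⟨x, hx⟩, hxv⟩)
  exact ⟨m, by omega⟩

theorem odd_two [Fintype F] (h2 : (2 : F) ≠ 0) : Odd (Fintype.card F) := by
  by_contra hcon
  exact h2 (two_of_not_odd hcon)

theorem nondeg_odd [Fintype F] (hQ : IsNondegenerateQuadraticForm Q) {W : Submodule F (ι → F)}
    (hW : IsNondegenerateOn (QuadraticMap.polar Q) W) (ho : Odd (finrank F W)) : Odd (Fintype.card F) := by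
  by_contra hcon
  have := nondeg_even hQ (two_of_not_odd hcon) hW
  exact (Nat.not_even_iff_odd.2 ho) this

theorem ts_le_half [Finite F] (hQ : IsNondegenerateQuadraticForm Q) {U : Submodule F (ι → F)}
    (hU : IsTotallySingularFor (QuadraticMap.polar Q) U) : 2 * finrank F U ≤ Fintype.card ι := by
  have hf := fdQ hQ
  have h1 : U ≤ perp hf U := fun u hu => (mem_perp hf).2 fun w hw => hU w hw u hu
  have h2 := Submodule.finrank_mono h1
  have h3 := finrank_perp hf U
  omega

theorem plus_of_half [Finite F] {U : Submodule F (ι → F)}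
    (hU : IsTotallySingularQuad Q U) (hd : 2 * finrank F U = Fintype.card ι) : IsPlusTypeOn Q ⊤ :=
  ⟨U, le_top, hU, by rw [finrank_top, Module.finrank_fintype_fun_eq_card, hd]⟩

/-- the sum of totally singular subspaces of the members of a decomposition -/
theorem sum_plus [Finite F] (hQ : IsNondegenerateQuadraticForm Q) {t k : ℕ} {D : Fin t → Submodule F (ι → F)}
    (hD : IsNondegenerateMDecomposition (QuadraticMap.polar Q) k D) (hp : ∀ i, IsPlusTypeOn Q (D i)) :
    IsPlusTypeOn Q ⊤ := by
  classical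
  have hf := fdQ hQ
  choose U hUD hUs hUd using hp
  have hperp : ∀ i j, U i ≤ perp hf (U j) := by
    intro i j u hu
    refine (mem_perp hf).2 fun w hw => ?_
    by_cases hij : j = i
    · subst hij; exact sing_polar hQ (hUs j) w hw u hu
    · exact hD.orthogonal j i hij w (hUD j hw) u (hUD i hu)
  have hW : IsTotallySingularFor (QuadraticMap.polar Q) (⨆ i, U i) := by
    have h1 : ∀ i, ⨆ j, U j ≤ perp hf (U i) := fun i => iSup_le fun j => hperp j i
    have h2 : ⨆ i, U i ≤ perp hf (⨆ j, U j) := iSup_le fun i => (le_perp_comm hf).1 (h1 i)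
    intro u hu v hv
    exact (mem_perp hf).1 (h2 hv) u hu
  have hts : IsTotallySingularQuad Q (⨆ i, U i) := by
    have h1 : ⨆ i, U i ≤ singK hQ _ hW := iSup_le fun i u hu => ⟨Submodule.mem_iSup_of_mem i hu, hUs i u hu⟩
    exact fun w hw => (h1 hw).2
  refine plus_of_half hts (le_antisymm (ts_le_half hQ hW) ?_)
  -- lower bound
  let T : (∀ i, U i) →ₗ[F] (ι → F) :=
    { toFun := fun x => ∑ i, (x i : ι → F)
      map_add' := by
        intro x y
        simp only [Pi.add_apply, Submodule.coe_add, Finset.sum_add_distrib]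
      map_smul' := by
        intro c x
        simp only [Pi.smul_apply, Submodule.coe_smul, Finset.smul_sum, RingHom.id_apply] }
  have hinj : Function.Injective T := by
    rw [← LinearMap.ker_eq_bot, LinearMap.ker_eq_bot']
    intro x hx
    have hx' : ∑ i, (x i : ι → F) = 0 := hx
    funext j
    by_contra hj
    have hj' : ((x j : U j) : ι → F) ≠ 0 := fun h => hj (Subtype.ext h)
    obtain ⟨⟨y, hy, hxy⟩, _⟩ := hD.nondegenerate j _ (hUD j (x j).2) hj'
    apply hxy
    have h1 : QuadraticMap.polar Q y (∑ i, (x i : ι → F)) = QuadraticMap.polar Q y (x j : ι → F) := by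
      have hs : ∀ (s : Finset (Fin t)), QuadraticMap.polar Q y (∑ i ∈ s, (x i : ι → F)) = ∑ i ∈ s, QuadraticMap.polar Q y (x i : ι → F) := by
        intro s
        induction s using Finset.induction_on with
        | empty => rw [Finset.sum_empty, Finset.sum_empty]; exact hf.zero_right y
        | insert a s ha ih => rw [Finset.sum_insert ha, Finset.sum_insert ha, hf.sesq.add_right, ih]
      rw [hs, Finset.sum_eq_single j]
      · intro i _ hij
        exact hD.orthogonal j i (Ne.symm hij) y hy _ (hUD i (x i).2)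
      · intro h; exact absurd (Finset.mem_univ j) h
    rw [← h1, hx']
    exact hf.zero_right y
  have hrange : LinearMap.range T ≤ ⨆ i, U i := by
    rintro _ ⟨x, rfl⟩
    have hx : T x = ∑ i, (x i : ι → F) := rfl
    rw [hx]
    exact Submodule.sum_mem _ fun i _ => Submodule.mem_iSup_of_mem i (x i).2
  have h1 := LinearMap.finrank_range_of_inj hinj
  have h2 := Submodule.finrank_mono hrange
  rw [h1, Module.finrank_pi_fintype] at h2
  have h3 : ∀ i, 2 * finrank F (U i) = k := fun i => by rw [hUd, hD.decomp.finrank_eq]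
  have h4 : 2 * ∑ i, finrank F (U i) = t * k := by
    rw [Finset.mul_sum, Finset.sum_congr rfl (fun i _ => h3 i), Finset.sum_const, Finset.card_univ, Fintype.card_fin, smul_eq_mul]
  have h5 := CfsgLib.AschNum.dec_mul hD.decomp
  omega

/-- the image of a singular line under x ↦ e ⊗ x -/
theorem tpA_plus [Finite F] {n₂ : ℕ} (b : Basis (Fin 2 × Fin n₂) F (ι → F)) (hQt : ∀ u v, Q (ten b u v) = 0) :
    IsPlusTypeOn Q ⊤ := by
  classical
  let T : (Fin n₂ → F) →ₗ[F] (ι → F) :=
    { toFun := fun v => ten b (Pi.single 0 1) v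
      map_add' := fun x y => ten_add_right b _ x y
      map_smul' := fun c x => ten_smul_right b c _ x }
  have hinj : Function.Injective T := by
    rw [← LinearMap.ker_eq_bot, LinearMap.ker_eq_bot']
    intro x hx
    funext j
    have h1 := ten_repr b (Pi.single 0 1) x 0 j
    have h2 : ten b (Pi.single 0 1) x = 0 := hx
    rw [h2, map_zero, Finsupp.zero_apply, Pi.single_eq_same, one_mul] at h1
    exact h1.symm
  refine plus_of_half (U := LinearMap.range T) ?_ ?_
  · rintro _ ⟨x, rfl⟩
    exact hQt _ _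
  · rw [LinearMap.finrank_range_of_inj hinj, Module.finrank_fintype_fun_eq_card, Fintype.card_fin]
    have := Module.finrank_eq_card_basis b
    rw [Module.finrank_fintype_fun_eq_card] at this
    rw [this]; simp

theorem tpA_plus' [Finite F] {n₁ : ℕ} (b : Basis (Fin n₁ × Fin 2) F (ι → F)) (hQt : ∀ u v, Q (ten b u v) = 0) :
    IsPlusTypeOn Q ⊤ := by
  refine tpA_plus (b.reindex (Equiv.prodComm _ _)) ?_
  intro u v
  rw [ten_swap]; exact hQt v u

theorem symp_even {n : ℕ} {f : (Fin n → F) → (Fin n → F) → F} (hf : IsSymplecticForm f) : Even n := by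
  have := CfsgLib.Asch13.symplectic_even hf
  rwa [Fintype.card_fin] at this

theorem card_ne_six [Fintype F] : Fintype.card F ≠ 6 := by
  intro h
  obtain ⟨p, hp⟩ := CharP.exists F
  obtain ⟨n, hpp, hn⟩ := FiniteField.card F p
  rw [h] at hn
  have h2 : 2 ∣ p := Nat.prime_two.dvd_of_dvd_pow (n := n) (by rw [← hn]; decide)
  have h3 : 3 ∣ p := Nat.prime_three.dvd_of_dvd_pow (n := n) (by rw [← hn]; decide)
  have e2 := (Nat.prime_dvd_prime_iff_eq Nat.prime_two hpp).1 h2
  have e3 := (Nat.prime_dvd_prime_iff_eq Nat.prime_three hpp).1 h3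
  omega

theorem card_two_le [Fintype F] : 2 ≤ Fintype.card F := Fintype.one_lt_card

section out
variable [Fintype F] (hQ : IsNondegenerateQuadraticForm Q) (hn : 5 ≤ Fintype.card ι) (hH : IsMaximalIn (omegaGL Q) H)
include hQ hn hH

theorem stab_out {W : Submodule F (ι → F)} (h0 : W ≠ ⊥) (h1 : W ≠ ⊤) (h : H ≤ subspaceStabilizer W) :
    H = subspaceStabilizer W ⊓ omegaGL Q :=
  eq_of_max hH h (omega_not_stab hQ hn h0 h1)

theorem ne_top_of {W : Submodule F (ι → F)} (h : finrank F W < Fintype.card ι) : W ≠ ⊤ := by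
  rintro rfl
  rw [finrank_top, Module.finrank_fintype_fun_eq_card] at h
  omega

theorem sing_out {W : Submodule F (ι → F)} (h0 : W ≠ ⊥) (hs : IsTotallySingularQuad Q W) (h : H ≤ subspaceStabilizer W) :
    H = subspaceStabilizer W ⊓ omegaGL Q := by
  have h1 := ts_le_half hQ (sing_polar hQ hs)
  exact stab_out hQ hn hH h0 (ne_top_of hQ hn hH (by omega)) h

theorem vec_out {v : ι → F} (hv : Q v ≠ 0) (h : H ≤ subspaceStabilizer (Submodule.span F {v})) :
    H = subspaceStabilizer (Submodule.span F {v}) ⊓ omegaGL Q := by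
  have hv0 : v ≠ 0 := by
    rintro rfl
    exact hv (Qzero hQ)
  refine stab_out hQ hn hH ?_ (ne_top_of hQ hn hH ?_) h
  · rw [Ne, Submodule.span_singleton_eq_bot]; exact hv0
  · rw [finrank_span_singleton hv0]; omega

theorem dec_out {s k : ℕ} {D : Fin s → Submodule F (ι → F)} (hD : IsNondegenerateMDecomposition (QuadraticMap.polar Q) k D)
    (hk : k + 3 ≤ Fintype.card ι) (h : H ≤ decompositionStabilizer D) : H = decompositionStabilizer D ⊓ omegaGL Q :=
  eq_of_max hH h (omega_not_dec hQ hn hD hk)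

theorem pair_out {s k : ℕ} {D : Fin s → Submodule F (ι → F)} (hD : IsMDecomposition k D) (hk : 3 ≤ k)
    (h : H ≤ decompositionStabilizer D) : H = decompositionStabilizer D ⊓ omegaGL Q :=
  eq_of_max hH h (omega_not_dec_three hQ hn hD hk)

theorem fld_out {r : ℕ} {K : Subalgebra F (Matrix ι ι F)} (hr : r.Prime) (hK : IsFieldSubalgebra r K)
    (h : H ≤ subalgebraNormalizer K) : H = subalgebraNormalizer K ⊓ omegaGL Q :=
  eq_of_max hH h (omega_not_fld hQ hn hr.two_le hK)

theorem tp_out {n₁ n₂ : ℕ} {e : ι ≃ Fin n₁ × Fin n₂} {P : GL ι F} (h1 : 2 ≤ n₁) (h2 : 2 ≤ n₂)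
    (h : H ≤ tensorProductSubgroup n₁ n₂ e P) : H = tensorProductSubgroup n₁ n₂ e P ⊓ omegaGL Q :=
  eq_of_max hH h (omega_not_tp hQ hn h1 h2)

theorem sub_out {F₀ : Subfield F} {r : ℕ} (hr : r.Prime) (hc : Fintype.card F = Nat.card F₀ ^ r) {P : GL ι F}
    (h : H ≤ subfieldSubgroup F₀ P) : H = subfieldSubgroup F₀ P ⊓ omegaGL Q :=
  eq_of_max hH h (omega_not_sub' hQ hn hr hc)

/-- stabilisers of nondegenerate subspaces -/
theorem nond_out {W : Submodule F (ι → F)} (h0 : W ≠ ⊥) (hnd : IsNondegenerateOn (QuadraticMap.polar Q) W)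
    (hd : 2 * finrank F W < Fintype.card ι) (h : H ≤ subspaceStabilizer W) :
    (Odd (Fintype.card F) ∧ ∃ W : Submodule F (ι → F), W ≠ ⊥ ∧ W ≠ ⊤ ∧ Odd (finrank F W) ∧ 2 * finrank F W < Fintype.card ι ∧
      IsNondegenerateOn (QuadraticMap.polar Q) W ∧ H = subspaceStabilizer W ⊓ omegaGL Q) ∨
    (∃ W : Submodule F (ι → F), finrank F W = 2 ∧ IsNondegenerateOn (QuadraticMap.polar Q) W ∧ ¬ IsPlusTypeOn Q W ∧
      H = subspaceStabilizer W ⊓ omegaGL Q) ∨
    (4 ≤ Fintype.card F ∧ ∃ W : Submodule F (ι → F), finrank F W = 2 ∧ IsNondegenerateOn (QuadraticMap.polar Q) W ∧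
      IsPlusTypeOn Q W ∧ H = subspaceStabilizer W ⊓ omegaGL Q) ∨
    (∃ W : Submodule F (ι → F), Even (finrank F W) ∧ 4 ≤ finrank F W ∧ 2 * finrank F W < Fintype.card ι ∧
      IsNondegenerateOn (QuadraticMap.polar Q) W ∧ H = subspaceStabilizer W ⊓ omegaGL Q) ∨
    (¬ Odd (Fintype.card F) ∧ ∃ v : ι → F, Q v ≠ 0 ∧ H = subspaceStabilizer (Submodule.span F {v}) ⊓ omegaGL Q) := by
  have hP := omega_pres hH.1.le
  have ht : W ≠ ⊤ := ne_top_of hQ hn hH (by omega)
  have heq := stab_out hQ hn hH h0 ht h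
  rcases Nat.even_or_odd (finrank F W) with he | ho
  · by_cases h2 : finrank F W = 2
    · by_cases hp : IsPlusTypeOn Q W
      · by_cases hq : 4 ≤ Fintype.card F
        · exact Or.inr (Or.inr (Or.inl ⟨hq, W, h2, hnd, hp, heq⟩))
        · obtain ⟨v, hvW, hv1, hvu⟩ := plane_plus_small hQ h2 hnd hp (by omega)
          have hv0 : v ≠ 0 := by
            rintro rfl
            rw [Qzero hQ] at hv1
            exact zero_ne_one hv1
          have hstab : H ≤ subspaceStabilizer (Submodule.span F {v}) := by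
            refine mem_stab ?_
            intro g hg w hw
            obtain ⟨a, rfl⟩ := Submodule.mem_span_singleton.1 hw
            rw [Matrix.mulVec_smul]
            apply Submodule.smul_mem
            rcases hvu _ (stab_mem h g hg v hvW) (by rw [hP g hg, hv1]) with h3 | h3
            · rw [h3]; exact Submodule.mem_span_singleton_self v
            · rw [h3]; exact Submodule.neg_mem _ (Submodule.mem_span_singleton_self v)
          have hQv : Q v ≠ 0 := by rw [hv1]; exact one_ne_zero
          have hout := vec_out hQ hn hH hQv hstab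
          by_cases hodd : Odd (Fintype.card F)
          · left
            have h2' : (2 : F) ≠ 0 := fun h => not_odd_of_two h hodd
            have hfr : finrank F (Submodule.span F {v}) = 1 := finrank_span_singleton hv0
            refine ⟨hodd, Submodule.span F {v}, ?_, ne_top_of hQ hn hH (by omega), by rw [hfr]; exact odd_one, by omega, ?_, hout⟩
            · rw [Ne, Submodule.span_singleton_eq_bot]; exact hv0
            · intro w hw hw0
              obtain ⟨a, rfl⟩ := Submodule.mem_span_singleton.1 hw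
              have ha : a ≠ 0 := by
                rintro rfl
                exact hw0 (zero_smul F v)
              have hvv : QuadraticMap.polar Q v v ≠ 0 := by
                rw [polar_self hQ]; exact mul_ne_zero h2' hQv
              refine ⟨⟨v, Submodule.mem_span_singleton_self v, ?_⟩, ⟨v, Submodule.mem_span_singleton_self v, ?_⟩⟩
              · rw [hQ.polar_bilinear.smul_right]; exact mul_ne_zero ha hvv
              · rw [hQ.polar_bilinear.smul_left]; exact mul_ne_zero ha hvv
          · exact Or.inr (Or.inr (Or.inr (Or.inr ⟨hodd, v, hQv, hout⟩)))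
      · exact Or.inr (Or.inl ⟨W, h2, hnd, hp, heq⟩)
    · have h1 : finrank F W ≠ 0 := by
        rw [Ne, Submodule.finrank_eq_zero]; exact h0
      obtain ⟨m, hm⟩ := he
      exact Or.inr (Or.inr (Or.inr (Or.inl ⟨W, ⟨m, hm⟩, by omega, hd, hnd, heq⟩)))
  · exact Or.inl ⟨nondeg_odd hQ hnd ho, W, h0, ht, ho, hd, hnd, heq⟩

/-- decompositions into lines -/
theorem lines_out (hirr : ActsIrreducibly (matrixSet H)) {t : ℕ} {D : Fin t → Submodule F (ι → F)}
    (hD : IsNondegenerateMDecomposition (QuadraticMap.polar Q) 1 D) (h : H ≤ decompositionStabilizer D) :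
    (Fintype.card F).Prime ∧ H = decompositionStabilizer D ⊓ omegaGL Q ∨
    (∃ (F₀ : Subfield F) (r : ℕ) (P : GL ι F) (ζ : F), r.Prime ∧ Fintype.card F = Nat.card F₀ ^ r ∧ ζ ≠ 0 ∧
      IsQuadFormRationalStructure (fun v => ζ * Q v) F₀ P ∧ H = subfieldSubgroup F₀ P ⊓ omegaGL Q) := by
  have hP := omega_pres hH.1.le
  by_cases hp : (Fintype.card F).Prime
  · exact Or.inl ⟨hp, dec_out hQ hn hH hD (by omega) h⟩
  · right
    obtain ⟨F₁, s, _, hs, hcs⟩ := CfsgLib.Asch14.exists_max_subfield (⊥ : Subfield F) (by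
      intro h0
      apply hp
      obtain ⟨p, hchar⟩ := CharP.exists F
      have hpp : p.Prime := CharP.char_is_prime F p
      have : Fact p.Prime := ⟨hpp⟩
      have h1 := Subfield.card_bot F p
      rw [h0] at h1
      have h3 : Nat.card (⊤ : Subfield F) = Nat.card F := Nat.card_congr Subfield.topEquiv.toEquiv
      rw [← Nat.card_eq_fintype_card, ← h3, h1]; exact hpp)
    rw [Nat.card_eq_fintype_card] at hcs
    obtain ⟨P, ζ, h0, h1, h3⟩ := lines_sub hQ (by omega) hP hirr hD h F₁
    exact ⟨F₁, s, P, ζ, hs, hcs, h0, h1, sub_out hQ hn hH hs hcs h3⟩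

end out

/-- small fields and decompositions into planes of plus type -/
theorem dec2_plus [Fintype F] (hQ : IsNondegenerateQuadraticForm Q) (hn : 2 ≤ Fintype.card ι)
    (hP : Pres Q H) (hirr : ActsIrreducibly (matrixSet H)) {t : ℕ} {D : Fin t → Submodule F (ι → F)}
    (hD : IsNondegenerateMDecomposition (QuadraticMap.polar Q) 2 D) (h : H ≤ decompositionStabilizer D)
    (hp : ∀ i, IsPlusTypeOn Q (D i)) :
    7 ≤ Fintype.card F ∨
    (Fintype.card F = 5 ∧ ∃ (t : ℕ) (D' : Fin t → Submodule F (ι → F)), IsNondegenerateMDecomposition (QuadraticMap.polar Q) 1 D' ∧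
      H ≤ decompositionStabilizer D') ∨
    (∃ (F₀ : Subfield F) (P : GL ι F), Fintype.card F = Nat.card F₀ ^ 2 ∧
      IsQuadFormRationalStructure (fun v => 1 * Q v) F₀ P ∧ H ≤ subfieldSubgroup F₀ P) := by
  have h6 := card_ne_six (F := F)
  rcases (by omega : 7 ≤ Fintype.card F ∨ Fintype.card F = 5 ∨ Fintype.card F = 4 ∨ Fintype.card F ≤ 3) with hq | hq | hq | hq
  · exact Or.inl hq
  · right; left
    have h2 : (2 : F) ≠ 0 := fun h => not_odd_of_two h (by rw [hq]; decide)
    obtain ⟨D', h1, h3⟩ := dec_frame hQ hn h2 hP hD h (fun i => plane_plus_five hQ (hD.decomp.finrank_eq i) (hD.nondegenerate i) (hp i) hq)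
    exact ⟨hq, _, D', h1, h3⟩
  · right; right
    exact dec_four hQ hq hP hD h hp
  · exfalso
    exact dec_small hQ hP hirr hD.decomp h (fun i => plane_plus_small hQ (hD.decomp.finrank_eq i) (hD.nondegenerate i) (hp i) hq)

theorem dec2_minus_three [Fintype F] (hQ : IsNondegenerateQuadraticForm Q) (hn : 2 ≤ Fintype.card ι)
    (hP : Pres Q H) {t : ℕ} {D : Fin t → Submodule F (ι → F)}
    (hD : IsNondegenerateMDecomposition (QuadraticMap.polar Q) 2 D) (h : H ≤ decompositionStabilizer D)
    (hp : ∀ i, ¬ IsPlusTypeOn Q (D i)) (hq : Fintype.card F = 3) :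
    ∃ (t : ℕ) (D' : Fin t → Submodule F (ι → F)), IsNondegenerateMDecomposition (QuadraticMap.polar Q) 1 D' ∧
      H ≤ decompositionStabilizer D' := by
  obtain ⟨D', h1, h3⟩ := dec_frame hQ hn (two_ne_three hq) hP hD h (fun i => plane_minus_three hQ (hD.decomp.finrank_eq i) (hp i) hq)
  exact ⟨_, D', h1, h3⟩

/-- all members are of the same type -/
theorem plus_or_minus {t k : ℕ} {D : Fin t → Submodule F (ι → F)} (hD : IsOrthogonalMDecomposition Q k D) :
    (∀ i, IsPlusTypeOn Q (D i)) ∨ (∀ i, ¬ IsPlusTypeOn Q (D i)) := by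
  by_cases h : ∃ i, IsPlusTypeOn Q (D i)
  · obtain ⟨i, hi⟩ := h
    exact Or.inl (plus_all hD hi)
  · exact Or.inr fun i hi => h ⟨i, hi⟩

/-- totally singular subspaces of odd dimension n/2 are not swapped -/
theorem pair_false [Finite F] (hQ : IsNondegenerateQuadraticForm Q) (hn : Fintype.card ι ≠ 4) (hH : H ≤ omegaGL Q)
    (hirr : ActsIrreducibly (matrixSet H)) {k : ℕ} (hk : Odd k) {D : Fin 2 → Submodule F (ι → F)} (hD : IsMDecomposition k D)
    (hs : ∀ i, IsTotallySingularQuad Q (D i)) (h : H ≤ decompositionStabilizer D) : False := by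
  have hcard := mdec_card hD
  have hcompl := compl_of_mdec hD
  have h0 : ∀ g ∈ H, (D 0).map (Matrix.toLin' (g : Matrix ι ι F)) = D 0 := by
    intro g hg
    obtain ⟨σ, hσ⟩ := h hg
    rcases Fin.exists_fin_two.1 ⟨σ 0, rfl⟩ with h4 | h4
    · rw [hσ 0, h4]
    · exfalso
      have h1 := no_swap hQ hn (hH hg) (hs 0) (by rw [hD.finrank_eq]; exact hcard) (by rw [hD.finrank_eq]; exact hk) hcompl.disjoint
      exact h1 (by rw [hσ 0, h4])
  have hpos := hD.pos
  rcases irr_mem hirr (W := D 0) (fun g hg v hv => map_mulVec g (h0 g hg) hv) with h1 | h1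
  · have := hD.finrank_eq 0
    rw [h1, finrank_bot] at this
    omega
  · have := hD.finrank_eq 0
    rw [h1, finrank_top, Module.finrank_fintype_fun_eq_card] at this
    omega

end CfsgLib.OmE
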