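import Cfsg.Agent.LibOmType5H12

set_option autoImplicit false
set_option linter.unusedSectionVars false

/-! Types of quadratic forms over finite fields, part 6: functions (seat helper12). -/

namespace CfsgLib.OmH12

open Module Cfsg Cfsg.Geo Cfsg.Agent.H22
open scoped Matrix MatrixGroups Kronecker

section fn
variable {ι : Type} {F : Type*} [Fintype ι] [DecidableEq ι] [Field F] [Finite F] {Q : (ι → F) → F}

theorem dec_finrank {m n : ℕ} {D : Fin n → Submodule F (ι → F)} (hD : IsMDecomposition m D) : finrank F (ι → F) = n * m := by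
  have hint : DirectSum.IsInternal D := (DirectSum.isInternal_submodule_iff_iSupIndep_and_iSup_eq_top D).2 ⟨hD.indep, hD.iSup_eq_top⟩
  have h1 := Module.finrank_eq_card_basis (hint.collectedBasis fun i => Module.finBasisOfFinrankEq F (D i) (hD.finrank_eq i))
  rw [h1]
  simp

/-- a multiple of four isometric summands -/
theorem four_plus (hQ : IsNondegenerateQuadraticForm Q) {m n t : ℕ} (hn : n = t * 4)
    {D : Fin n → Submodule F (ι → F)} (hD : IsOrthogonalMDecomposition Q m D) : IsPlusTypeOn Q ⊤ := by
  classical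
  subst hn
  have ht : 0 < t := by have := hD.decomp.decomp.two_le; omega
  set i0 : Fin (t * 4) := ⟨0, by omega⟩ with hi0
  choose e he using fun i => hD.isometric i0 i
  have hdim := dec_finrank hD.decomp.decomp
  obtain ⟨a, b, hab⟩ := exists_two_sq (F := F)
  obtain ⟨Q', rfl, h⟩ := exists_qf hQ
  rw [← pt_top]
  let M : Fin 4 → Fin 2 → F := ![![1, 0], ![0, 1], ![a, -b], ![b, a]]
  let X := Fin t → (D i0 × D i0)
  let A : X →ₗ[F] (Fin (t * 4) → D i0) :=
    LinearMap.pi fun i => (M (finProdFinEquiv.symm i).2 0 • LinearMap.fst F (D i0) (D i0) +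
      M (finProdFinEquiv.symm i).2 1 • LinearMap.snd F (D i0) (D i0)) ∘ₗ LinearMap.proj (finProdFinEquiv.symm i).1
  have hA : ∀ (x : X) (j : Fin t) (l : Fin 4), A x (finProdFinEquiv (j, l)) = M l 0 • (x j).1 + M l 1 • (x j).2 := by
    intro x j l
    change M (finProdFinEquiv.symm (finProdFinEquiv (j, l))).2 0 • (x (finProdFinEquiv.symm (finProdFinEquiv (j, l))).1).1 +
      M (finProdFinEquiv.symm (finProdFinEquiv (j, l))).2 1 • (x (finProdFinEquiv.symm (finProdFinEquiv (j, l))).1).2 = _
    rw [Equiv.symm_apply_apply]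
  apply plus_of_map (Q := Q') hD.decomp.decomp.indep (fun i j hij u hu v hv => hD.decomp.orthogonal i j hij u hu v hv)
    (qres Q' (D i0)) e he A
  · rw [← LinearMap.ker_eq_bot, LinearMap.ker_eq_bot']
    intro x hx
    funext j
    have h0 := hA x j 0
    have h1 := hA x j 1
    rw [hx] at h0 h1
    apply Prod.ext
    · change (x j).1 = 0
      simpa [M] using h0.symm
    · change (x j).2 = 0
      simpa [M] using h1.symm
  · intro x
    rw [← finProdFinEquiv.sum_comp, Fintype.sum_prod_type]
    apply Finset.sum_eq_zero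
    intro j _
    simp only [hA]
    rw [Fin.sum_univ_four]
    simp only [M, Matrix.cons_val_zero, Matrix.cons_val_one, Matrix.cons_val]
    simp only [qadd, qsmul, QuadraticMap.polar_smul_left, QuadraticMap.polar_smul_right, smul_eq_mul]
    linear_combination (qres Q' (D i0) (x j).1 + qres Q' (D i0) (x j).2) * hab
  · rw [hdim]
    change 2 * finrank F (Fin t → (D i0 × D i0)) = _
    rw [Module.finrank_pi_fintype]
    simp only [Module.finrank_prod, hD.decomp.decomp.finrank_eq, Finset.sum_const, Finset.card_univ, Fintype.card_fin, smul_eq_mul]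
    ring

/-- an even number of isometric even-dimensional summands -/
theorem pairs_plus (hQ : IsNondegenerateQuadraticForm Q) {m n t : ℕ} (hn : n = t * 2)
    {D : Fin n → Submodule F (ι → F)} (hD : IsOrthogonalMDecomposition Q (2 * m) D) : IsPlusTypeOn Q ⊤ := by
  classical
  subst hn
  have ht : 0 < t := by have := hD.decomp.decomp.two_le; omega
  set i0 : Fin (t * 2) := ⟨0, by omega⟩ with hi0
  choose e he using fun i => hD.isometric i0 i
  have hdim := dec_finrank hD.decomp.decomp
  obtain ⟨Q', rfl, h⟩ := exists_qf hQ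
  rw [← pt_top]
  -- the negative form
  have hnd := qres_nondeg (Q := Q') (D := D i0) (fun w hw hw0 => (hD.decomp.nondegenerate i0 w hw hw0).1)
  have hn1 : (QuadraticMap.polarBilin (-qres Q' (D i0))).Nondegenerate := by
    have h3 : ∀ x y, QuadraticMap.polar (-qres Q' (D i0)) x y = - QuadraticMap.polar (qres Q' (D i0)) x y := by
      intro x y
      rw [QuadraticMap.coeFn_neg, QuadraticMap.polar_neg]
    constructor
    · intro x hx
      apply hnd.1 x
      intro y
      have := hx y
      change QuadraticMap.polar (-qres Q' (D i0)) x y = 0 at this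
      rw [h3, neg_eq_zero] at this
      exact this
    · intro x hx
      apply hnd.2 x
      intro y
      have := hx y
      change QuadraticMap.polar (-qres Q' (D i0)) y x = 0 at this
      rw [h3, neg_eq_zero] at this
      exact this
  have ht' : PT (qres Q' (D i0)) ↔ PT (-qres Q' (D i0)) := by
    have h4 : ∀ U : Submodule F (D i0), TS (-qres Q' (D i0)) U ↔ TS (qres Q' (D i0)) U := by
      intro U
      constructor
      · intro h x hx
        have := h x hx
        rw [QuadraticMap.neg_apply, neg_eq_zero] at this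
        exact this
      · intro h x hx
        rw [QuadraticMap.neg_apply, neg_eq_zero]
        exact h x hx
    unfold PT
    simp only [h4]
  obtain ⟨g, hg⟩ := isom_of_type m hnd hn1 (hD.decomp.decomp.finrank_eq i0) (hD.decomp.decomp.finrank_eq i0) ht'
  let N : Fin 2 → (D i0 →ₗ[F] D i0) := ![LinearMap.id, (g : D i0 →ₗ[F] D i0)]
  let X := Fin t → D i0
  let A : X →ₗ[F] (Fin (t * 2) → D i0) :=
    LinearMap.pi fun i => N (finProdFinEquiv.symm i).2 ∘ₗ LinearMap.proj (finProdFinEquiv.symm i).1
  have hA : ∀ (x : X) (j : Fin t) (l : Fin 2), A x (finProdFinEquiv (j, l)) = N l (x j) := by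
    intro x j l
    change N (finProdFinEquiv.symm (finProdFinEquiv (j, l))).2 (x (finProdFinEquiv.symm (finProdFinEquiv (j, l))).1) = _
    rw [Equiv.symm_apply_apply]
  apply plus_of_map (Q := Q') hD.decomp.decomp.indep (fun i j hij u hu v hv => hD.decomp.orthogonal i j hij u hu v hv)
    (qres Q' (D i0)) e he A
  · rw [← LinearMap.ker_eq_bot, LinearMap.ker_eq_bot']
    intro x hx
    funext j
    have h0 := hA x j 0
    rw [hx] at h0
    change x j = 0
    simpa [N] using h0.symm
  · intro x
    rw [← finProdFinEquiv.sum_comp, Fintype.sum_prod_type]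
    apply Finset.sum_eq_zero
    intro j _
    simp only [hA]
    rw [Fin.sum_univ_two]
    have h5 := hg (x j)
    rw [QuadraticMap.neg_apply] at h5
    change qres Q' (D i0) (x j) + qres Q' (D i0) (g (x j)) = 0
    rw [← h5]; ring
  · rw [hdim]
    change 2 * finrank F (Fin t → D i0) = _
    rw [Module.finrank_pi_fintype]
    simp only [hD.decomp.decomp.finrank_eq, Finset.sum_const, Finset.card_univ, Fintype.card_fin, smul_eq_mul]
    ring

/-- a form rational over the subfield of index two is of plus type -/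
theorem sub_two_plus (hQ : IsNondegenerateQuadraticForm Q) (hev : Even (Fintype.card ι)) {F₀ : Subfield F}
    (hF : Nat.card F = Nat.card F₀ ^ 2) {P : GL ι F} {ζ : F} (hζ : ζ ≠ 0)
    (hr : IsQuadFormRationalStructure (fun v : ι → F => ζ * Q v) F₀ P) : IsPlusTypeOn Q ⊤ := by
  classical
  obtain ⟨m, hm⟩ := hev
  obtain ⟨Q', rfl, h⟩ := exists_qf hQ
  rw [← pt_top]
  -- the semilinear embedding
  let j : (ι → F₀) →ₛₗ[algebraMap F₀ F] (ι → F) :=
    { toFun := fun u => (P : Matrix ι ι F) *ᵥ (fun i => (u i : F))
      map_add' := by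
        intro x y
        rw [← Matrix.mulVec_add]; rfl
      map_smul' := by
        intro c x
        rw [← Matrix.mulVec_smul]; rfl }
  have hj : ∀ u, j u = (P : Matrix ι ι F) *ᵥ (fun i => (u i : F)) := fun u => rfl
  have hmem : ∀ u : ι → F₀, ζ * Q' (j u) ∈ F₀ := fun u => hr _ (fun i => (u i).2)
  have hpolm : ∀ u v : ι → F₀, ζ * QuadraticMap.polar Q' (j u) (j v) ∈ F₀ := by
    intro u v
    unfold QuadraticMap.polar
    rw [← map_add, mul_sub, mul_sub]
    exact F₀.sub_mem (F₀.sub_mem (hmem _) (hmem _)) (hmem _)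
  let Q₀ : QuadraticForm F₀ (ι → F₀) := QuadraticMap.ofPolar (fun u => (⟨ζ * Q' (j u), hmem u⟩ : F₀))
    (by
      intro a x
      apply Subtype.ext
      change ζ * Q' (j (a • x)) = ((a * a) • (⟨ζ * Q' (j x), hmem x⟩ : F₀) : F₀)
      rw [map_smulₛₗ, qsmul]
      change ζ * (((a : F) * (a : F)) * Q' (j x)) = ((a : F) * a) * (ζ * Q' (j x))
      ring)
    (by
      intro x x' y
      apply Subtype.ext
      change (ζ * Q' (j (x + x' + y)) - ζ * Q' (j (x + x')) - ζ * Q' (j y)) =
        (ζ * Q' (j (x + y)) - ζ * Q' (j x) - ζ * Q' (j y)) + (ζ * Q' (j (x' + y)) - ζ * Q' (j x') - ζ * Q' (j y))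
      have := QuadraticMap.polar_add_left Q' (j x) (j x') (j y)
      unfold QuadraticMap.polar at this
      simp only [map_add]
      linear_combination ζ * this)
    (by
      intro a x y
      apply Subtype.ext
      change (ζ * Q' (j (a • x + y)) - ζ * Q' (j (a • x)) - ζ * Q' (j y)) =
        (a : F) * (ζ * Q' (j (x + y)) - ζ * Q' (j x) - ζ * Q' (j y))
      have := QuadraticMap.polar_smul_left Q' (a : F) (j x) (j y)
      unfold QuadraticMap.polar at this
      rw [smul_eq_mul] at this
      simp only [map_add, map_smulₛₗ]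
      change (ζ * Q' ((a : F) • j x + j y) - ζ * Q' ((a : F) • j x) - ζ * Q' (j y)) = _
      linear_combination ζ * this)
  have hQ₀ : ∀ u, ((Q₀ u : F₀) : F) = ζ * Q' (j u) := fun u => rfl
  have hp₀ : ∀ u v, ((QuadraticMap.polar Q₀ u v : F₀) : F) = ζ * QuadraticMap.polar Q' (j u) (j v) := by
    intro u v
    unfold QuadraticMap.polar
    rw [← map_add, mul_sub, mul_sub, ← hQ₀, ← hQ₀, ← hQ₀]; rfl
  have hinj : ∀ u, j u = 0 → u = 0 := by
    intro u hu
    rw [hj] at hu
    have h1 : ((P⁻¹ : GL ι F) : Matrix ι ι F) *ᵥ ((P : Matrix ι ι F) *ᵥ (fun i => (u i : F))) = 0 := by rw [hu, Matrix.mulVec_zero]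
    rw [Matrix.mulVec_mulVec, ← Units.val_mul, inv_mul_cancel, Units.val_one, Matrix.one_mulVec] at h1
    funext i
    exact Subtype.ext (congrFun h1 i)
  -- the image spans
  have hspan : ∀ x : ι → F, (∀ u : ι → F₀, QuadraticMap.polar Q' x (j u) = 0) → x = 0 := by
    intro x hx
    apply h.1 x
    intro y
    change QuadraticMap.polar Q' x y = 0
    have h1 : y = ∑ i, (((P⁻¹ : GL ι F) : Matrix ι ι F) *ᵥ y) i • j (Pi.single i 1) := by
      have h2 : ∀ i, j (Pi.single i 1) = (P : Matrix ι ι F) *ᵥ (Pi.single i 1) := by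
        intro i
        rw [hj]
        congr 1
        funext l
        by_cases hl : l = i
        · subst hl; simp
        · simp [Pi.single_eq_of_ne hl]
      have h3 : y = (P : Matrix ι ι F) *ᵥ (((P⁻¹ : GL ι F) : Matrix ι ι F) *ᵥ y) := by
        rw [Matrix.mulVec_mulVec, ← Units.val_mul, mul_inv_cancel, Units.val_one, Matrix.one_mulVec]
      conv_lhs => rw [h3]
      simp only [h2]
      rw [← Matrix.mulVecLin_apply]
      conv_lhs => rw [← (Pi.basisFun F ι).sum_repr (((P⁻¹ : GL ι F) : Matrix ι ι F) *ᵥ y)]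
      rw [map_sum]
      apply Finset.sum_congr rfl
      intro i _
      rw [map_smul]
      simp
    rw [h1]
    change QuadraticMap.polarBilin Q' x (∑ i, _) = 0
    rw [map_sum]
    apply Finset.sum_eq_zero
    intro i _
    rw [map_smul]
    change _ • QuadraticMap.polar Q' x (j (Pi.single i 1)) = 0
    rw [hx, smul_zero]
  have hnd0 : (QuadraticMap.polarBilin Q₀).Nondegenerate := by
    have key : ∀ u, (∀ v, QuadraticMap.polar Q₀ u v = 0) → u = 0 := by
      intro u hu
      apply hinj
      apply hspan
      intro v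
      have := hp₀ u v
      rw [hu v] at this
      exact (mul_eq_zero.1 this.symm).resolve_left hζ
    refine ⟨fun u hu => key u hu, fun u hu => key u fun v => ?_⟩
    rw [QuadraticMap.polar_comm]; exact hu v
  have hdim0 : finrank F₀ (ι → F₀) = 2 * m := by rw [Module.finrank_fintype_fun_eq_card, hm]; ring
  have hdim : finrank F (ι → F) = 2 * m := by rw [Module.finrank_fintype_fun_eq_card, hm]; ring
  have hζnd : (QuadraticMap.polarBilin (ζ • Q')).Nondegenerate := by
    have h3 : ∀ x y, QuadraticMap.polar (ζ • Q') x y = ζ * QuadraticMap.polar Q' x y := by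
      intro x y
      rw [QuadraticMap.coeFn_smul, QuadraticMap.polar_smul, smul_eq_mul]
    constructor
    · intro x hx
      apply h.1 x
      intro y
      have := hx y
      change QuadraticMap.polar (ζ • Q') x y = 0 at this
      rw [h3] at this
      exact (mul_eq_zero.1 this).resolve_left hζ
    · intro x hx
      apply h.2 x
      intro y
      have := hx y
      change QuadraticMap.polar (ζ • Q') y x = 0 at this
      rw [h3] at this
      exact (mul_eq_zero.1 this).resolve_left hζ
  obtain ⟨U, hU, hd⟩ := plus_ext (K := F₀) (F := F) hF m (Q := ζ • Q') hnd0 hζnd hdim0 hdim j (fun u => rfl)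
  refine ⟨U, ?_, hd⟩
  intro x hx
  have := hU x hx
  rw [QuadraticMap.smul_apply, smul_eq_mul] at this
  exact (mul_eq_zero.1 this).resolve_left hζ

end fn

end CfsgLib.OmH12
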