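import Mathlib
import Cfsg.Agent.LibOmE14
import Cfsg.Agent.LibOmType6H12

/-! even-dimensional orthogonal groups: types of decompositions -/
set_option autoImplicit false
set_option linter.unusedSectionVars false

namespace CfsgLib.OmE

open Module Cfsg Cfsg.Geo CfsgLib.Asch9 CfsgLib.Asch11 CfsgLib.Asch19 CfsgLib.AschF CfsgLib.OmH12
open scoped Matrix MatrixGroups Kronecker

variable {ι : Type} [Fintype ι] [DecidableEq ι] {F : Type*} [Field F]
variable {Q : (ι → F) → F} {H : Subgroup (GL ι F)}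

theorem orth_symm (hQ : IsNondegenerateQuadraticForm Q) {X Y : Submodule F (ι → F)}
    (h : AreOrthogonalFor (QuadraticMap.polar Q) X Y) : AreOrthogonalFor (QuadraticMap.polar Q) Y X := by
  intro u hu v hv
  rw [QuadraticMap.polar_comm]; exact h v hv u hu

theorem orth_sup (hQ : IsNondegenerateQuadraticForm Q) {X Y Z : Submodule F (ι → F)}
    (h : AreOrthogonalFor (QuadraticMap.polar Q) X Y) (h' : AreOrthogonalFor (QuadraticMap.polar Q) X Z) :
    AreOrthogonalFor (QuadraticMap.polar Q) X (Y ⊔ Z) := by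
  intro u hu v hv
  obtain ⟨a, ha, b, hb, rfl⟩ := Submodule.mem_sup.1 hv
  rw [hQ.polar_bilinear.add_right, h u hu a ha, h' u hu b hb, add_zero]

theorem orth_disj (hQ : IsNondegenerateQuadraticForm Q) {X Y : Submodule F (ι → F)}
    (hX : IsNondegenerateOn (QuadraticMap.polar Q) X) (h : AreOrthogonalFor (QuadraticMap.polar Q) X Y) : Disjoint X Y := by
  rw [Submodule.disjoint_def]
  intro x hx hy
  by_contra h0
  obtain ⟨⟨z, hz, hzx⟩, _⟩ := hX x hx h0
  exact hzx (h z hz x hy)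

theorem nondeg_sup (hQ : IsNondegenerateQuadraticForm Q) {X Y : Submodule F (ι → F)}
    (hX : IsNondegenerateOn (QuadraticMap.polar Q) X) (hY : IsNondegenerateOn (QuadraticMap.polar Q) Y)
    (h : AreOrthogonalFor (QuadraticMap.polar Q) X Y) : IsNondegenerateOn (QuadraticMap.polar Q) (X ⊔ Y) := by
  intro w hw hw0
  obtain ⟨a, ha, b, hb, rfl⟩ := Submodule.mem_sup.1 hw
  have h' := orth_symm hQ h
  by_cases ha0 : a = 0
  · have hb0 : b ≠ 0 := by
      rintro rfl
      exact hw0 (by rw [ha0, add_zero])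
    obtain ⟨⟨z, hz, hz1⟩, ⟨z', hz', hz2⟩⟩ := hY b hb hb0
    refine ⟨⟨z, Submodule.mem_sup_right hz, ?_⟩, ⟨z', Submodule.mem_sup_right hz', ?_⟩⟩
    · rw [hQ.polar_bilinear.add_right, h' z hz a ha, zero_add]; exact hz1
    · rw [hQ.polar_bilinear.add_left, h a ha z' hz', zero_add]; exact hz2
  · obtain ⟨⟨z, hz, hz1⟩, ⟨z', hz', hz2⟩⟩ := hX a ha ha0
    refine ⟨⟨z, Submodule.mem_sup_left hz, ?_⟩, ⟨z', Submodule.mem_sup_left hz', ?_⟩⟩
    · rw [hQ.polar_bilinear.add_right, h z hz b hb, add_zero]; exact hz1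
    · rw [hQ.polar_bilinear.add_left, h' b hb z' hz', add_zero]; exact hz2

theorem finrank_sup_orth (hQ : IsNondegenerateQuadraticForm Q) {X Y : Submodule F (ι → F)}
    (hX : IsNondegenerateOn (QuadraticMap.polar Q) X) (h : AreOrthogonalFor (QuadraticMap.polar Q) X Y) :
    finrank F (X ⊔ Y : Submodule F (ι → F)) = finrank F X + finrank F Y := by
  have h1 := Submodule.finrank_sup_add_finrank_inf_eq X Y
  rw [disjoint_iff.1 (orth_disj hQ hX h), finrank_bot, add_zero] at h1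
  exact h1

theorem isCompl_orth (hQ : IsNondegenerateQuadraticForm Q) {X Y : Submodule F (ι → F)}
    (hX : IsNondegenerateOn (QuadraticMap.polar Q) X) (h : AreOrthogonalFor (QuadraticMap.polar Q) X Y)
    (hd : finrank F X + finrank F Y = Fintype.card ι) : IsCompl X Y := by
  refine ⟨orth_disj hQ hX h, codisjoint_iff.2 (Submodule.eq_top_of_finrank_eq ?_)⟩
  rw [finrank_sup_orth hQ hX h, hd, Module.finrank_fintype_fun_eq_card]

/-- two nondegenerate orthogonal spaces of the same even dimension and type -/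
theorem pair_sup_plus [Finite F] (hQ : IsNondegenerateQuadraticForm Q) {X Y : Submodule F (ι → F)}
    (hX : IsNondegenerateOn (QuadraticMap.polar Q) X) (hY : IsNondegenerateOn (QuadraticMap.polar Q) Y)
    (h : AreOrthogonalFor (QuadraticMap.polar Q) X Y) {m : ℕ} (hdX : finrank F X = 2 * m) (hdY : finrank F Y = 2 * m)
    (ht : IsPlusTypeOn Q X ↔ IsPlusTypeOn Q Y) : IsPlusTypeOn Q (X ⊔ Y) := by
  have h1 := finrank_sup_orth hQ hX h
  have h2 := orth_disj hQ hX h
  obtain ⟨Q', rfl, hn⟩ := exists_qf hQ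
  obtain ⟨U, hU, hUs, hUd⟩ := pair_plus (Q := Q') h2 h (fun w hw hw0 => (hX w hw hw0).1) (fun w hw hw0 => (hY w hw hw0).1) hdX hdY
    (by rw [pt_on, pt_on]; exact ht)
  exact ⟨U, hU, hUs, by rw [h1, hUd, hdX, hdY]; ring⟩

section dec
variable {k : ℕ}

/-- three isometric even-dimensional members in a space of plus type -/
theorem three_plus [Finite F] (hQ : IsNondegenerateQuadraticForm Q) (hplus : IsPlusTypeOn Q ⊤) {m : ℕ}
    {D : Fin 3 → Submodule F (ι → F)} (hD : IsOrthogonalMDecomposition Q (2 * m) D) : ∀ i, IsPlusTypeOn Q (D i) := by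
  have hcard := CfsgLib.AschNum.dec_mul hD.decomp.decomp
  have hfr := hD.decomp.decomp.finrank_eq
  have hnd := hD.decomp.nondegenerate
  have ho := hD.decomp.orthogonal
  have ht : IsPlusTypeOn Q (D 0) ↔ IsPlusTypeOn Q (D 1) :=
    ⟨plus_of_isometric (hD.isometric 0 1), plus_of_isometric (hD.isometric 1 0)⟩
  have h01 := ho 0 1 (by decide)
  have h1 := pair_sup_plus hQ (hnd 0) (hnd 1) h01 (hfr 0) (hfr 1) ht
  have h2 : AreOrthogonalFor (QuadraticMap.polar Q) (D 0 ⊔ D 1) (D 2) :=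
    orth_symm hQ (orth_sup hQ (ho 2 0 (by decide)) (ho 2 1 (by decide)))
  have h3 := isCompl_orth hQ (nondeg_sup hQ (hnd 0) (hnd 1) h01) h2 (by
    rw [finrank_sup_orth hQ (hnd 0) h01, hfr, hfr, hfr]; omega)
  exact plus_all hD (plus_perp hQ hplus h3 h2 h1)

/-- five isometric even-dimensional members in a space of plus type -/
theorem five_plus [Finite F] (hQ : IsNondegenerateQuadraticForm Q) (hplus : IsPlusTypeOn Q ⊤) {m : ℕ}
    {D : Fin 5 → Submodule F (ι → F)} (hD : IsOrthogonalMDecomposition Q (2 * m) D) : ∀ i, IsPlusTypeOn Q (D i) := by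
  have hcard := CfsgLib.AschNum.dec_mul hD.decomp.decomp
  have hfr := hD.decomp.decomp.finrank_eq
  have hnd := hD.decomp.nondegenerate
  have ho := hD.decomp.orthogonal
  have ht : ∀ i j, IsPlusTypeOn Q (D i) ↔ IsPlusTypeOn Q (D j) := fun i j =>
    ⟨plus_of_isometric (hD.isometric i j), plus_of_isometric (hD.isometric j i)⟩
  have h01 := ho 0 1 (by decide)
  have h23 := ho 2 3 (by decide)
  have p1 := pair_sup_plus hQ (hnd 0) (hnd 1) h01 (hfr 0) (hfr 1) (ht 0 1)
  have p2 := pair_sup_plus hQ (hnd 2) (hnd 3) h23 (hfr 2) (hfr 3) (ht 2 3)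
  have n1 := nondeg_sup hQ (hnd 0) (hnd 1) h01
  have n2 := nondeg_sup hQ (hnd 2) (hnd 3) h23
  have f1 := finrank_sup_orth hQ (hnd 0) h01
  have f2 := finrank_sup_orth hQ (hnd 2) h23
  have o1 : AreOrthogonalFor (QuadraticMap.polar Q) (D 0 ⊔ D 1) (D 2 ⊔ D 3) :=
    orth_sup hQ (orth_symm hQ (orth_sup hQ (ho 2 0 (by decide)) (ho 2 1 (by decide))))
      (orth_symm hQ (orth_sup hQ (ho 3 0 (by decide)) (ho 3 1 (by decide))))
  have o2 : AreOrthogonalFor (QuadraticMap.polar Q) ((D 0 ⊔ D 1) ⊔ (D 2 ⊔ D 3)) (D 4) :=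
    orth_symm hQ (orth_sup hQ (orth_sup hQ (ho 4 0 (by decide)) (ho 4 1 (by decide)))
      (orth_sup hQ (ho 4 2 (by decide)) (ho 4 3 (by decide))))
  have p3 := pair_sup_plus hQ n1 n2 o1 (m := 2 * m) (by rw [f1, hfr, hfr]; ring) (by rw [f2, hfr, hfr]; ring)
    ⟨fun _ => p2, fun _ => p1⟩
  have h3 := isCompl_orth hQ (nondeg_sup hQ n1 n2 o1) o2 (by
    rw [finrank_sup_orth hQ n1 o1, f1, f2, hfr, hfr, hfr, hfr, hfr]; omega)
  exact plus_all hD (plus_perp hQ hplus h3 o2 p3)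

end dec

/-- non-isometric halves are not swapped -/
theorem half_stab (hP : Pres Q H) {k : ℕ} {D : Fin 2 → Submodule F (ι → F)} (hD : IsMDecomposition k D)
    (hni : ¬ AreIsometricFor Q (D 0) (D 1)) (h : H ≤ decompositionStabilizer D) : H ≤ subspaceStabilizer (D 0) := by
  refine mem_stab ?_
  intro g hg v hv
  obtain ⟨σ, hσ⟩ := h hg
  rcases Fin.exists_fin_two.1 ⟨σ 0, rfl⟩ with h4 | h4
  · exact map_mulVec g (by rw [hσ 0, h4]) hv
  · exfalso
    exact hni (isometric_of_map hP hg (by rw [hσ 0, h4]))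

end CfsgLib.OmE
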