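import Mathlib
import Cfsg.Agent.LibOmE15

/-! even-dimensional orthogonal groups: types of tensor products -/
set_option autoImplicit false
set_option linter.unusedSectionVars false

namespace CfsgLib.OmE

open Module Cfsg Cfsg.Geo CfsgLib.Asch7 CfsgLib.Asch9 CfsgLib.Asch11 CfsgLib.Asch19 CfsgLib.AschF CfsgLib.OmH12
open scoped Matrix MatrixGroups Kronecker

variable {ι : Type} [Fintype ι] [DecidableEq ι] {F : Type*} [Field F]
variable {Q : (ι → F) → F} {H : Subgroup (GL ι F)}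

section tn
variable {n : ℕ} {κ : Type} [Fintype κ] [DecidableEq κ] (b : Basis (Fin n × κ) F (ι → F))

noncomputable def tn (e : Fin n → F) : (κ → F) →ₗ[F] (ι → F) where
  toFun := fun x => ∑ p : Fin n × κ, (e p.1 * x p.2) • b p
  map_add' := by
    intro x y
    rw [← Finset.sum_add_distrib]
    refine Finset.sum_congr rfl fun p _ => ?_
    rw [Pi.add_apply, mul_add, add_smul]
  map_smul' := by
    intro c x
    rw [RingHom.id_apply, Finset.smul_sum]
    refine Finset.sum_congr rfl fun p _ => ?_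
    rw [Pi.smul_apply, smul_smul, smul_eq_mul]; congr 1; ring

theorem tn_apply (e : Fin n → F) (x : κ → F) : tn b e x = ∑ p : Fin n × κ, (e p.1 * x p.2) • b p := rfl

theorem tn_repr (e : Fin n → F) (x : κ → F) (p : Fin n × κ) : b.repr (tn b e x) p = e p.1 * x p.2 := by
  rw [tn_apply, map_sum, Finsupp.finset_sum_apply, Finset.sum_eq_single p]
  · simp
  · intro q _ hq
    simp [Finsupp.single_eq_of_ne (Ne.symm hq)]
  · intro h; exact absurd (Finset.mem_univ p) h

theorem tn_single (i : Fin n) (k : κ) : tn b (Pi.single i 1) (Pi.single k 1) = b (i, k) := by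
  apply b.repr.injective
  ext p
  rw [tn_repr, b.repr_self, Finsupp.single_apply]
  by_cases h : (i, k) = p
  · rw [if_pos h, ← h]; simp
  · rw [if_neg h]
    by_cases h1 : p.1 = i
    · have h2 : p.2 ≠ k := fun h2 => h (Prod.ext h1.symm h2.symm)
      rw [Pi.single_eq_of_ne h2, mul_zero]
    · rw [Pi.single_eq_of_ne h1, zero_mul]

theorem tn_inj {e : Fin n → F} (he : e ≠ 0) : Function.Injective (tn b e) := by
  obtain ⟨i, hi⟩ := Function.ne_iff.1 he
  intro x y hxy
  ext k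
  have h1 := tn_repr b e x (i, k)
  rw [hxy, tn_repr] at h1
  exact (mul_left_cancel₀ hi h1).symm

variable {G : Matrix (Fin n) (Fin n) F} {M : Matrix κ κ F}

theorem tn_form (hQ : IsNondegenerateQuadraticForm Q)
    (hform : ∀ i k j l, QuadraticMap.polar Q (b (i, k)) (b (j, l)) = G i j * M k l) (e e' : Fin n → F) (x y : κ → F) :
    QuadraticMap.polar Q (tn b e x) (tn b e' y) = (e ⬝ᵥ (G *ᵥ e')) * (x ⬝ᵥ (M *ᵥ y)) := by
  have hf := fdQ hQ
  rw [tn_apply, tn_apply, hf.sum_left]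
  have h1 : ∀ p : Fin n × κ, QuadraticMap.polar Q ((e p.1 * x p.2) • b p) (∑ q : Fin n × κ, (e' q.1 * y q.2) • b q) =
      ∑ q : Fin n × κ, (e p.1 * (G p.1 q.1 * e' q.1)) * (x p.2 * (M p.2 q.2 * y q.2)) := by
    intro p
    rw [hf.smul_left, hf.sum_right, Finset.mul_sum]
    refine Finset.sum_congr rfl fun q _ => ?_
    rw [hf.smul_right]
    show e p.1 * x p.2 * ((e' q.1 * y q.2) * QuadraticMap.polar Q (b (p.1, p.2)) (b (q.1, q.2))) = _
    rw [hform]; ring
  rw [Finset.sum_congr rfl fun p _ => h1 p]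
  have hprod : ∀ (A : Fin n → Fin n → F) (B : κ → κ → F), (∑ i, ∑ j, A i j) * (∑ k, ∑ l, B k l) =
      ∑ i, ∑ k, ∑ j, ∑ l, A i j * B k l := by
    intro A B
    rw [Finset.sum_mul]
    refine Finset.sum_congr rfl fun i _ => ?_
    rw [Finset.mul_sum]
    refine Finset.sum_congr rfl fun k _ => ?_
    rw [Finset.sum_mul]
    refine Finset.sum_congr rfl fun j _ => ?_
    rw [Finset.mul_sum]
  have e1 : e ⬝ᵥ (G *ᵥ e') = ∑ i, ∑ j, e i * (G i j * e' j) := by
    simp only [dotProduct, Matrix.mulVec, Finset.mul_sum]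
  have e2 : x ⬝ᵥ (M *ᵥ y) = ∑ k, ∑ l, x k * (M k l * y l) := by
    simp only [dotProduct, Matrix.mulVec, Finset.mul_sum]
  rw [e1, e2, hprod]
  simp only [Fintype.sum_prod_type]

theorem tn_nondeg (hQ : IsNondegenerateQuadraticForm Q)
    (hform : ∀ i k j l, QuadraticMap.polar Q (b (i, k)) (b (j, l)) = G i j * M k l) (hn : 0 < n) {x : κ → F} (hx : x ≠ 0) :
    ∃ y, x ⬝ᵥ (M *ᵥ y) ≠ 0 := by
  by_contra hcon
  push Not at hcon
  set e : Fin n → F := Pi.single ⟨0, hn⟩ 1 with he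
  have he0 : e ≠ 0 := by
    intro h
    have := congrFun h ⟨0, hn⟩
    simp [he] at this
  have h1 : tn b e x = 0 := by
    apply (fdQ hQ).ext_left
    intro v
    rw [(fdQ hQ).zero_left, ← b.sum_repr v, (fdQ hQ).sum_right]
    refine Finset.sum_eq_zero fun p _ => ?_
    rw [(fdQ hQ).smul_right, ← tn_single b p.1 p.2, tn_form b hQ hform, hcon, mul_zero, mul_zero]
  exact hx (tn_inj b he0 (by rw [h1, map_zero]))

theorem tn_dec [Finite F] (hQ : IsNondegenerateQuadraticForm Q) (h2 : (2 : F) ≠ 0)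
    (hform : ∀ i k j l, QuadraticMap.polar Q (b (i, k)) (b (j, l)) = G i j * M k l) (hn : 2 ≤ n) (hκ : 0 < Fintype.card κ)
    (w : Fin n → Fin n → F) (h0 : ∀ i, w i ⬝ᵥ (G *ᵥ w i) ≠ 0) (h1 : ∀ i j, i ≠ j → w i ⬝ᵥ (G *ᵥ w j) = 0) :
    IsNondegenerateMDecomposition (QuadraticMap.polar Q) (Fintype.card κ) (fun i => LinearMap.range (tn b (w i))) ∧
    ∀ i, IsPlusTypeOn Q (LinearMap.range (tn b (w i))) ↔
      ∃ U : Submodule F (κ → F), (∀ x ∈ U, x ⬝ᵥ (M *ᵥ x) = 0) ∧ 2 * finrank F U = Fintype.card κ := by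
  classical
  have hw : ∀ i, w i ≠ 0 := by
    intro i h
    apply h0 i
    rw [h, zero_dotProduct]
  have hinj := fun i => tn_inj b (hw i)
  have hfr : ∀ i, finrank F (LinearMap.range (tn b (w i))) = Fintype.card κ := by
    intro i
    rw [LinearMap.finrank_range_of_inj (hinj i), Module.finrank_fintype_fun_eq_card]
  have hnd : ∀ i, IsNondegenerateOn (QuadraticMap.polar Q) (LinearMap.range (tn b (w i))) := by
    rintro i _ ⟨x, rfl⟩ hx
    have hx0 : x ≠ 0 := by
      rintro rfl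
      exact hx (map_zero _)
    obtain ⟨y, hy⟩ := tn_nondeg b hQ hform (by omega) hx0
    have h3 : QuadraticMap.polar Q (tn b (w i) x) (tn b (w i) y) ≠ 0 := by
      rw [tn_form b hQ hform]; exact mul_ne_zero (h0 i) hy
    exact ⟨⟨_, ⟨y, rfl⟩, by rw [QuadraticMap.polar_comm]; exact h3⟩, ⟨_, ⟨y, rfl⟩, h3⟩⟩
  have horth : ∀ i j, i ≠ j → AreOrthogonalFor (QuadraticMap.polar Q) (LinearMap.range (tn b (w i))) (LinearMap.range (tn b (w j))) := by
    rintro i j hij _ ⟨x, rfl⟩ _ ⟨y, rfl⟩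
    rw [tn_form b hQ hform, h1 i j hij, zero_mul]
  have hcard : Fintype.card (Fin n) * Fintype.card κ = Fintype.card ι := by
    have := Module.finrank_eq_card_basis b
    rw [Module.finrank_fintype_fun_eq_card, Fintype.card_prod] at this
    exact this.symm
  obtain ⟨hi, hs⟩ := orth_dec hQ hκ (fun i => LinearMap.range (tn b (w i))) hfr hnd horth hcard
  refine ⟨⟨⟨hn, hκ, hfr, hi, hs⟩, hnd, horth⟩, fun i => ?_⟩
  have hQt : ∀ x, Q (tn b (w i) x) = 2⁻¹ * ((w i ⬝ᵥ (G *ᵥ w i)) * (x ⬝ᵥ (M *ᵥ x))) := by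
    intro x
    rw [Q_of_polar hQ h2, tn_form b hQ hform]
  have hQt0 : ∀ x, Q (tn b (w i) x) = 0 ↔ x ⬝ᵥ (M *ᵥ x) = 0 := by
    intro x
    rw [hQt, mul_eq_zero, mul_eq_zero]
    constructor
    · rintro (h | h | h)
      · exact absurd h (inv_ne_zero h2)
      · exact absurd h (h0 i)
      · exact h
    · exact fun h => Or.inr (Or.inr h)
  constructor
  · rintro ⟨U, hU, hUs, hUd⟩
    refine ⟨U.comap (tn b (w i)), fun x hx => (hQt0 x).1 (hUs _ hx), ?_⟩
    have h3 : (U.comap (tn b (w i))).map (tn b (w i)) = U := by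
      rw [Submodule.map_comap_eq, inf_eq_right.2 hU]
    have h4 := finrank_map_inj (tn b (w i)) (hinj i) (U.comap (tn b (w i)))
    rw [h3] at h4
    rw [← h4, hUd, hfr]
  · rintro ⟨U, hUs, hUd⟩
    refine ⟨U.map (tn b (w i)), LinearMap.map_le_range, ?_, ?_⟩
    · rintro _ ⟨x, hx, rfl⟩
      exact (hQt0 x).2 (hUs x hx)
    · rw [finrank_map_inj _ (hinj i), hUd, hfr]

end tn

/-- two-dimensional first factor, even second factor -/
theorem tn_two_plus [Fintype F] (hQ : IsNondegenerateQuadraticForm Q) (h2 : (2 : F) ≠ 0) {κ : Type} [Fintype κ] [DecidableEq κ]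
    (b : Basis (Fin 2 × κ) F (ι → F)) {m : ℕ} (hκ : Fintype.card κ = 2 * m) (hm : 0 < m)
    {f₁ : (Fin 2 → F) → (Fin 2 → F) → F} (hf₁ : FD (RingEquiv.refl F) 1 f₁) {M : Matrix κ κ F}
    (hform : ∀ i k j l, QuadraticMap.polar Q (b (i, k)) (b (j, l)) = gramMatrix f₁ i j * M k l) : IsPlusTypeOn Q ⊤ := by
  classical
  obtain ⟨w, c, hc, _, hw⟩ := sym_diag hf₁ h2
  have hg : ∀ u v, u ⬝ᵥ (gramMatrix f₁ *ᵥ v) = f₁ u v := by
    intro u v
    rw [form_expand hf₁]
    simp only [dotProduct, Matrix.mulVec, Finset.mul_sum]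
    refine Finset.sum_congr rfl fun i _ => Finset.sum_congr rfl fun j _ => ?_
    rw [RingEquiv.refl_apply]; ring
  obtain ⟨hD, ht⟩ := tn_dec b hQ h2 hform le_rfl (by omega) w (by
    intro i
    rw [hg, hw, if_pos rfl]
    split_ifs
    · exact hc
    · exact one_ne_zero) (by
    intro i j hij
    rw [hg, hw, if_neg hij])
  set D : Fin 2 → Submodule F (ι → F) := fun i => LinearMap.range (tn b (w i)) with hDd
  have hfr := hD.decomp.finrank_eq
  have h3 := pair_sup_plus hQ (hD.nondegenerate 0) (hD.nondegenerate 1) (hD.orthogonal 0 1 (by decide)) (m := m)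
    (by rw [hfr, hκ]) (by rw [hfr, hκ]) ((ht 0).trans (ht 1).symm)
  have h4 : D 0 ⊔ D 1 = ⊤ := by
    rw [← hD.decomp.iSup_eq_top]
    apply le_antisymm
    · exact sup_le (le_iSup D 0) (le_iSup D 1)
    · refine iSup_le fun i => ?_
      fin_cases i
      · exact le_sup_left
      · exact le_sup_right
  rwa [h4] at h3

/-- three-dimensional first factor: the second factor has the type of the whole space -/
theorem tn_three [Fintype F] (hQ : IsNondegenerateQuadraticForm Q) (h2 : (2 : F) ≠ 0) {κ : Type} [Fintype κ] [DecidableEq κ]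
    (b : Basis (Fin 3 × κ) F (ι → F)) {m : ℕ} (hκ : Fintype.card κ = 2 * m) (hm : 0 < m)
    {f₁ : (Fin 3 → F) → (Fin 3 → F) → F} (hf₁ : FD (RingEquiv.refl F) 1 f₁) {M : Matrix κ κ F}
    (hform : ∀ i k j l, QuadraticMap.polar Q (b (i, k)) (b (j, l)) = gramMatrix f₁ i j * M k l) :
    IsPlusTypeOn Q ⊤ ↔ ∃ U : Submodule F (κ → F), (∀ x ∈ U, x ⬝ᵥ (M *ᵥ x) = 0) ∧ 2 * finrank F U = Fintype.card κ := by
  classical
  obtain ⟨w, c, hc, _, hw⟩ := sym_diag hf₁ h2
  have hg : ∀ u v, u ⬝ᵥ (gramMatrix f₁ *ᵥ v) = f₁ u v := by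
    intro u v
    rw [form_expand hf₁]
    simp only [dotProduct, Matrix.mulVec, Finset.mul_sum]
    refine Finset.sum_congr rfl fun i _ => Finset.sum_congr rfl fun j _ => ?_
    rw [RingEquiv.refl_apply]; ring
  obtain ⟨hD, ht⟩ := tn_dec b hQ h2 hform (by norm_num) (by omega) w (by
    intro i
    rw [hg, hw, if_pos rfl]
    split_ifs
    · exact hc
    · exact one_ne_zero) (by
    intro i j hij
    rw [hg, hw, if_neg hij])
  constructor
  · intro hplus
    set D : Fin 3 → Submodule F (ι → F) := fun i => LinearMap.range (tn b (w i)) with hDd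
    have hfr := hD.decomp.finrank_eq
    have hnd := hD.nondegenerate
    have ho := hD.orthogonal
    have hcard := CfsgLib.AschNum.dec_mul hD.decomp
    have h01 := ho 0 1 (by decide)
    have h1 := pair_sup_plus hQ (hnd 0) (hnd 1) h01 (m := m) (by rw [hfr, hκ]) (by rw [hfr, hκ]) ((ht 0).trans (ht 1).symm)
    have h2 : AreOrthogonalFor (QuadraticMap.polar Q) (D 0 ⊔ D 1) (D 2) :=
      orth_symm hQ (orth_sup hQ (ho 2 0 (by decide)) (ho 2 1 (by decide)))
    have h3 := isCompl_orth hQ (nondeg_sup hQ (hnd 0) (hnd 1) h01) h2 (by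
      rw [finrank_sup_orth hQ (hnd 0) h01, hfr, hfr, hfr]; omega)
    exact (ht 2).1 (plus_perp hQ hplus h3 h2 h1)
  · intro hU
    exact sum_plus hQ hD (fun i => (ht i).2 hU)

end CfsgLib.OmE
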