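import Mathlib
import Cfsg.Agent.LibOmE16
import Cfsg.Agent.LibAsch16

/-! even-dimensional orthogonal groups: tensor powers and 2-groups force plus type -/
set_option autoImplicit false
set_option linter.unusedSectionVars false

namespace CfsgLib.OmE

open Module Cfsg Cfsg.Geo CfsgLib.Asch7 CfsgLib.Asch9 CfsgLib.Asch11 CfsgLib.Asch19 CfsgLib.AschF CfsgLib.OmH12
open scoped Matrix MatrixGroups Kronecker

variable {ι : Type} [Fintype ι] [DecidableEq ι] {F : Type*} [Field F]
variable {Q : (ι → F) → F} {H : Subgroup (GL ι F)}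

/-- basis vectors spanning a totally singular subspace -/
theorem plus_of_basis [Finite F] (hQ : IsNondegenerateQuadraticForm Q) {κ : Type} [Fintype κ] (b : Basis κ F (ι → F))
    (S : Finset κ) (hS : 2 * S.card = Fintype.card ι) (h0 : ∀ x ∈ S, Q (b x) = 0)
    (h1 : ∀ x ∈ S, ∀ y ∈ S, QuadraticMap.polar Q (b x) (b y) = 0) : IsPlusTypeOn Q ⊤ := by
  classical
  have hf := fdQ hQ
  set U := Submodule.span F (b '' (S : Set κ)) with hU
  have hle : ∀ v ∈ U, ∀ w ∈ U, QuadraticMap.polar Q v w = 0 := by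
    have h2 : U ≤ perp hf U := by
      have h3 : ∀ x ∈ S, b x ∈ perp hf U := by
        intro x hx
        refine (mem_perp hf).2 fun w hw => ?_
        induction hw using Submodule.span_induction with
        | mem z hz => obtain ⟨y, hy, rfl⟩ := hz; exact h1 y hy x hx
        | zero => exact hf.zero_left _
        | add a c _ _ ha hc => rw [hf.add_left, ha, hc, add_zero]
        | smul a c _ hc => rw [hf.smul_left, hc, mul_zero]
      rw [hU, Submodule.span_le]
      rintro _ ⟨x, hx, rfl⟩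
      exact h3 x hx
    intro v hv w hw
    exact (mem_perp hf).1 (h2 hw) v hv
  have hQU : IsTotallySingularQuad Q U := by
    have := QF.zero_span (qfQ hQ) (S := b '' (S : Set κ)) (by
      rintro _ ⟨x, hx, rfl⟩
      exact h0 x hx) (fun u hu v hv => hle u hu v hv)
    exact this
  refine plus_of_half hQU ?_
  have h4 : finrank F U = S.card := by
    have hli : LinearIndependent F (fun x : S => b x) := b.linearIndependent.comp _ Subtype.val_injective
    have h5 := finrank_span_eq_card hli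
    rw [Fintype.card_coe] at h5
    have hset : b '' (S : Set κ) = Set.range (fun x : S => b x) := by
      ext z
      constructor
      · rintro ⟨x, hx, rfl⟩; exact ⟨⟨x, hx⟩, rfl⟩
      · rintro ⟨x, rfl⟩; exact ⟨x.1, x.2, rfl⟩
    rw [hU, hset]
    exact h5
  rw [h4, hS]

/-- the tensor cube of a two-dimensional form -/
theorem tw_cube_plus [Fintype F] (hQ : IsNondegenerateQuadraticForm Q) (b : Basis (Fin 3 → Fin 2) F (ι → F)) {ε₁ : F}
    {f₁ : (Fin 2 → F) → (Fin 2 → F) → F} (hf₁ : FD (RingEquiv.refl F) ε₁ f₁) (hε : ε₁ ^ 3 = 1)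
    {c : F} (hform : ∀ x y, QuadraticMap.polar Q (b x) (b y) = c * ∏ s, gramMatrix f₁ (x s) (y s))
    (h20 : (2 : F) = 0 → (∀ v, f₁ v v = 0) ∧ ∀ u, Q (tens b u) = 0) : IsPlusTypeOn Q ⊤ := by
  classical
  by_cases h2 : (2 : F) = 0
  · obtain ⟨ha, ht⟩ := h20 h2
    refine plus_of_basis hQ b (Finset.univ.filter fun x => x 0 = 0) ?_ ?_ ?_
    · have h1 : Fintype.card ι = 8 := by
        have := Module.finrank_eq_card_basis b
        rw [Module.finrank_fintype_fun_eq_card] at this
        rw [this]; simp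
      rw [h1]
      decide
    · intro x _
      rw [← tens_single b x]; exact ht _
    · intro x hx y hy
      rw [hform, Fin.prod_univ_succ]
      have hx0 : x 0 = 0 := (Finset.mem_filter.1 hx).2
      have hy0 : y 0 = 0 := (Finset.mem_filter.1 hy).2
      have : gramMatrix f₁ (x 0) (y 0) = 0 := by
        rw [hx0, hy0]; exact ha _
      rw [this, zero_mul, mul_zero]
  · have he : ε₁ = 1 := by
      rcases hf₁.eps with h | h
      · exact h
      · exfalso
        rw [h] at hε
        apply h2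
        linear_combination -hε
    rw [he] at hf₁
    let e := (Fin.consEquiv (fun _ : Fin 3 => Fin 2)).symm
    refine tn_two_plus hQ h2 (κ := Fin 2 → Fin 2) (b.reindex e) (m := 2) (by simp) (by norm_num) hf₁
      (M := fun x y => c * ∏ s, gramMatrix f₁ (x s) (y s)) ?_
    intro i k j l
    rw [Basis.reindex_apply, Basis.reindex_apply, hform, Fin.prod_univ_succ]
    have e1 : ∀ (i : Fin 2) (k : Fin 2 → Fin 2), e.symm (i, k) 0 = i := fun i k => rfl
    have e2 : ∀ (i : Fin 2) (k : Fin 2 → Fin 2) (s : Fin 2), e.symm (i, k) (Fin.succ s) = k s := fun i k s => rfl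
    simp only [e1, e2]
    ring

/-- group elements commuting up to sign -/
theorem comm_pm [Nonempty ι] (hQ : IsNondegenerateQuadraticForm Q) {R : Subgroup (GL ι F)} (hP : Pres Q R)
    (hc : ⁅R, R⁆ ≤ scalars ι F) {x y : GL ι F} (hx : x ∈ R) (hy : y ∈ R) :
    x * y = y * x ∨ (x : Matrix ι ι F) * (y : Matrix ι ι F) = -((y : Matrix ι ι F) * (x : Matrix ι ι F)) := by
  have hI := hP.iso
  have h1 : x * y * x⁻¹ * y⁻¹ ∈ ⁅R, R⁆ := Subgroup.commutator_mem_commutator hx hy
  obtain ⟨c, hcc⟩ := (mem_scalars_iff _).1 (hc h1)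
  have h2 : x * y * x⁻¹ * y⁻¹ ∈ R := R.mul_mem (R.mul_mem (R.mul_mem hx hy) (R.inv_mem hx)) (R.inv_mem hy)
  have h3 : x * y = (x * y * x⁻¹ * y⁻¹) * (y * x) := by group
  rcases scalar_pm (fdQ hQ) (hI _ h2) hcc with h | h
  · left
    have : x * y * x⁻¹ * y⁻¹ = 1 := Units.ext (by rw [hcc, h, one_smul, Units.val_one])
    rw [h3, this, one_mul]
  · right
    rw [← Units.val_mul, h3, Units.val_mul, hcc, h, neg_smul, one_smul, neg_mul, one_mul, Units.val_mul]

theorem scalar_val [Nonempty ι] (hQ : IsNondegenerateQuadraticForm Q) {R : Subgroup (GL ι F)} (hP : Pres Q R)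
    {x : GL ι F} (hx : x ∈ R) (hs : x ∈ scalars ι F) : (x : Matrix ι ι F) = 1 ∨ (x : Matrix ι ι F) = -1 := by
  obtain ⟨c, hcc⟩ := (mem_scalars_iff _).1 hs
  rcases scalar_pm (fdQ hQ) (hP.iso _ hx) hcc with h | h
  · left; rw [hcc, h, one_smul]
  · right; rw [hcc, h, neg_smul, one_smul]

theorem card_le_of_mem {R : Subgroup (GL ι F)} (T : Finset (Matrix ι ι F))
    (h : ∀ z : R, ((z : GL ι F) : Matrix ι ι F) ∈ T) : Nat.card R ≤ T.card := by
  have h2 : Function.Injective (fun z : R => (⟨_, h z⟩ : T)) := by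
    intro a b hab
    exact Subtype.ext (Units.ext (congrArg Subtype.val hab))
  have h3 := Nat.card_le_card_of_injective _ h2
  have h4 : Nat.card T = T.card := by rw [Nat.card_eq_fintype_card, Fintype.card_coe]
  omega

/-- a noncentral involution -/
theorem exists_inv [Nonempty ι] [Finite F] (hQ : IsNondegenerateQuadraticForm Q) {R : Subgroup (GL ι F)}
    (hP : Pres Q R) (hal : alg R = ⊤) (hc : ⁅R, R⁆ ≤ scalars ι F) (hcard : 8 < Nat.card R) :
    ∃ x ∈ R, (x : Matrix ι ι F) * (x : Matrix ι ι F) = 1 ∧ x ∉ scalars ι F := by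
  classical
  have hsq : ∀ x ∈ R, (x : Matrix ι ι F) * (x : Matrix ι ι F) = 1 ∨ (x : Matrix ι ι F) * (x : Matrix ι ι F) = -1 := by
    intro x hx
    have h1 : x * x ∈ scalars ι F := by
      apply CfsgLib.Asch16.scalar_of_comm hal
      intro y hy
      rcases comm_pm hQ hP hc hx hy with h | h
      · rw [mul_assoc, h, ← mul_assoc, h, mul_assoc]
      · apply Units.ext
        simp only [Units.val_mul]
        rw [mul_assoc, h, mul_neg, ← mul_assoc, h, neg_mul, neg_neg, mul_assoc]
    have := scalar_val hQ hP (R.mul_mem hx hx) h1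
    simpa only [Units.val_mul] using this
  by_contra hcon
  push Not at hcon
  -- every nonscalar element has square -1
  have hneg : ∀ x ∈ R, x ∉ scalars ι F → (x : Matrix ι ι F) * (x : Matrix ι ι F) = -1 := by
    intro x hx hxs
    rcases hsq x hx with h | h
    · exact absurd (hcon x hx h) hxs
    · exact h
  have hex : ∃ x ∈ R, x ∉ scalars ι F := by
    by_contra hcon2
    push Not at hcon2
    have : Nat.card R ≤ 2 := by
      have h1 : ∀ x : R, ((x : GL ι F) : Matrix ι ι F) ∈ ({1, -1} : Finset (Matrix ι ι F)) := by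
        intro x
        rcases scalar_val hQ hP x.2 (hcon2 x x.2) with h | h <;> rw [h] <;> simp
      exact (card_le_of_mem _ h1).trans Finset.card_le_two
    omega
  obtain ⟨x, hx, hxs⟩ := hex
  have hxx := hneg x hx hxs
  set X : Matrix ι ι F := (x : Matrix ι ι F) with hX
  set S : Finset (Matrix ι ι F) := {1, -1, X, -X} with hS
  have hScard : S.card ≤ 4 := Finset.card_le_four
  have hcomm : ∀ y ∈ R, x * y = y * x → (y : Matrix ι ι F) ∈ S := by
    intro y hy hxy
    by_cases hys : y ∈ scalars ι F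
    · rcases scalar_val hQ hP hy hys with h | h <;> rw [h, hS] <;> simp
    · have hyy := hneg y hy hys
      have h1 : ((x * y : GL ι F) : Matrix ι ι F) * ((x * y : GL ι F) : Matrix ι ι F) = 1 := by
        rw [Units.val_mul]
        have h2 : (x : Matrix ι ι F) * (y : Matrix ι ι F) = (y : Matrix ι ι F) * (x : Matrix ι ι F) := by
          rw [← Units.val_mul, hxy, Units.val_mul]
        calc (x : Matrix ι ι F) * (y : Matrix ι ι F) * ((x : Matrix ι ι F) * (y : Matrix ι ι F))
            = (x : Matrix ι ι F) * ((y : Matrix ι ι F) * (x : Matrix ι ι F)) * (y : Matrix ι ι F) := by simp only [mul_assoc]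
          _ = ((x : Matrix ι ι F) * (x : Matrix ι ι F)) * ((y : Matrix ι ι F) * (y : Matrix ι ι F)) := by
              rw [← h2]; simp only [mul_assoc]
          _ = 1 := by rw [hxx, hyy, neg_mul_neg, one_mul]
      have h3 := hcon _ (R.mul_mem hx hy) h1
      have h4 : ∀ e : Matrix ι ι F, (x : Matrix ι ι F) * (y : Matrix ι ι F) = e → (y : Matrix ι ι F) = -((x : Matrix ι ι F) * e) := by
        intro e he
        rw [← he, ← mul_assoc, hxx, neg_mul, one_mul, neg_neg]
      rcases scalar_val hQ hP (R.mul_mem hx hy) h3 with h | h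
      · rw [Units.val_mul] at h
        rw [h4 _ h, mul_one, hS]; simp [hX]
      · rw [Units.val_mul] at h
        rw [h4 _ h, mul_neg, mul_one, neg_neg, hS]; simp [hX]
  have h8 : Nat.card R ≤ 8 := by
    by_cases hy0 : ∃ y ∈ R, x * y ≠ y * x
    · obtain ⟨y, hy, hxy⟩ := hy0
      have hxy' := (comm_pm hQ hP hc hx hy).resolve_left hxy
      set Y : Matrix ι ι F := ((y⁻¹ : GL ι F) : Matrix ι ι F) with hY
      have h1 : ∀ z : R, ((z : GL ι F) : Matrix ι ι F) ∈ S ∪ S.image (fun s => s * Y) := by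
        rintro ⟨z, hz⟩
        by_cases hxz : x * z = z * x
        · exact Finset.mem_union_left _ (hcomm z hz hxz)
        · apply Finset.mem_union_right
          have hxz' := (comm_pm hQ hP hc hx hz).resolve_left hxz
          have h3 : x * (z * y) = (z * y) * x := by
            apply Units.ext
            simp only [Units.val_mul]
            rw [← mul_assoc, hxz', neg_mul, mul_assoc, hxy', mul_neg, neg_neg, mul_assoc]
          have h4 := hcomm _ (R.mul_mem hz hy) h3
          rw [Finset.mem_image]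
          refine ⟨_, h4, ?_⟩
          rw [hY, ← Units.val_mul, mul_inv_cancel_right]
      have h3 := card_le_of_mem _ h1
      have h4 := Finset.card_union_le S (S.image (fun s => s * Y))
      have h5 : (S.image (fun s => s * Y)).card ≤ S.card := Finset.card_image_le
      omega
    · push Not at hy0
      have h1 : ∀ z : R, ((z : GL ι F) : Matrix ι ι F) ∈ S := fun z => hcomm z z.2 (hy0 z z.2)
      have h3 := card_le_of_mem _ h1
      omega
  omega

theorem st_plus [Finite F] (hQ : IsNondegenerateQuadraticForm Q) (h20 : (2 : F) ≠ 0) {R : Subgroup (GL ι F)}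
    (hP : Pres Q R) (hal : alg R = ⊤) (hc : ⁅R, R⁆ ≤ scalars ι F) (hcard : 8 < Nat.card R) {m : ℕ} (hm : 0 < m)
    (hn : Fintype.card ι = 2 * (2 * m)) : IsPlusTypeOn Q ⊤ := by
  classical
  have hne : Nonempty ι := Fintype.card_pos_iff.1 (by omega)
  have hf := fdQ hQ
  have hI := hP.iso
  obtain ⟨x, hx, hxx, hxs⟩ := exists_inv hQ hP hal hc hcard
  have hy : ∃ y ∈ R, x * y ≠ y * x := by
    by_contra hcon
    push Not at hcon
    exact hxs (CfsgLib.Asch16.scalar_of_comm hal hcon)
  obtain ⟨y, hy, hxy⟩ := hy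
  have hxy' := (comm_pm hQ hP hc hx hy).resolve_left hxy
  set X : Matrix ι ι F := (x : Matrix ι ι F) with hX
  set Y : Matrix ι ι F := (y : Matrix ι ι F) with hY
  have hXX : ∀ v, X *ᵥ (X *ᵥ v) = v := fun v => by rw [Matrix.mulVec_mulVec, hxx, Matrix.one_mulVec]
  let E : F → Submodule F (ι → F) := fun s =>
    { carrier := {v | X *ᵥ v = s • v}
      add_mem' := by
        intro a b ha hb
        show X *ᵥ (a + b) = s • (a + b)
        rw [Matrix.mulVec_add, ha, hb, smul_add]
      zero_mem' := by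
        show X *ᵥ 0 = s • 0
        rw [Matrix.mulVec_zero, smul_zero]
      smul_mem' := by
        intro c a ha
        show X *ᵥ (c • a) = s • (c • a)
        rw [Matrix.mulVec_smul, ha, smul_comm] }
  have hE : ∀ s v, v ∈ E s ↔ X *ᵥ v = s • v := fun s v => Iff.rfl
  have horth : AreOrthogonalFor (QuadraticMap.polar Q) (E 1) (E (-1)) := by
    intro u hu v hv
    have h1 := hI x hx u v
    rw [(hE 1 u).1 hu, (hE (-1) v).1 hv, one_smul, hf.smul_right] at h1
    have h2 : -1 * QuadraticMap.polar Q u v = QuadraticMap.polar Q u v := h1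
    have h3 : 2 * QuadraticMap.polar Q u v = 0 := by linear_combination -h2
    exact (mul_eq_zero.1 h3).resolve_left h20
  have hsup : E 1 ⊔ E (-1) = ⊤ := by
    rw [eq_top_iff]
    intro v _
    have h1 : v = (2 : F)⁻¹ • (v + X *ᵥ v) + (2 : F)⁻¹ • (v - X *ᵥ v) := by
      rw [← smul_add]
      have : v + X *ᵥ v + (v - X *ᵥ v) = (2 : F) • v := by rw [two_smul]; abel
      rw [this, smul_smul, inv_mul_cancel₀ h20, one_smul]
    rw [h1]
    refine Submodule.add_mem_sup ?_ ?_
    · rw [hE, Matrix.mulVec_smul, Matrix.mulVec_add, hXX, one_smul, add_comm]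
    · rw [hE, Matrix.mulVec_smul, Matrix.mulVec_sub, hXX, neg_smul, one_smul, ← smul_neg, neg_sub]
  have hnd : ∀ s t : F, (s = 1 ∧ t = -1) ∨ (s = -1 ∧ t = 1) → IsNondegenerateOn (QuadraticMap.polar Q) (E s) := by
    intro s t hst v hv hv0
    obtain ⟨w, hw⟩ := (hf.nd v hv0).2
    have horth' : AreOrthogonalFor (QuadraticMap.polar Q) (E s) (E t) := by
      rcases hst with ⟨rfl, rfl⟩ | ⟨rfl, rfl⟩
      · exact horth
      · exact orth_symm hQ horth
    have hw' : w ∈ E s ⊔ E t := by
      rcases hst with ⟨rfl, rfl⟩ | ⟨rfl, rfl⟩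
      · rw [hsup]; trivial
      · rw [sup_comm, hsup]; trivial
    obtain ⟨a, ha, b, hb, rfl⟩ := Submodule.mem_sup.1 hw'
    rw [hf.add_right, horth' v hv b hb, add_zero] at hw
    exact ⟨⟨a, ha, by rw [QuadraticMap.polar_comm]; exact hw⟩, ⟨a, ha, hw⟩⟩
  have hn0 := hnd 1 (-1) (Or.inl ⟨rfl, rfl⟩)
  have hn1 := hnd (-1) 1 (Or.inr ⟨rfl, rfl⟩)
  have hXY : ∀ v, X *ᵥ (Y *ᵥ v) = -(Y *ᵥ (X *ᵥ v)) := by
    intro v
    rw [Matrix.mulVec_mulVec, hxy', Matrix.neg_mulVec, Matrix.mulVec_mulVec]
  have hYE : ∀ s : F, ∀ v ∈ E s, Y *ᵥ v ∈ E (-s) := by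
    intro s v hv
    rw [hE, hXY, (hE s v).1 hv, Matrix.mulVec_smul, neg_smul]
  have hmap : (E 1).map (Matrix.toLin' (y : Matrix ι ι F)) = E (-1) := by
    apply le_antisymm
    · rintro _ ⟨v, hv, rfl⟩
      rw [Matrix.toLin'_apply]
      exact hYE 1 v hv
    · intro v hv
      refine ⟨((y⁻¹ : GL ι F) : Matrix ι ι F) *ᵥ v, ?_, ?_⟩
      · set Y' := ((y⁻¹ : GL ι F) : Matrix ι ι F) with hY'
        have h1 : ∀ v, Y *ᵥ (Y' *ᵥ v) = v := fun v => by rw [Matrix.mulVec_mulVec, val_mul_inv, Matrix.one_mulVec]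
        have h2 : ∀ v, Y' *ᵥ (Y *ᵥ v) = v := fun v => by rw [Matrix.mulVec_mulVec, inv_mul_val, Matrix.one_mulVec]
        show X *ᵥ (Y' *ᵥ v) = (1 : F) • (Y' *ᵥ v)
        have h3 := hXY (Y' *ᵥ v)
        rw [h1, (hE (-1) v).1 hv, neg_smul, one_smul, neg_inj] at h3
        have h4 : Y' *ᵥ v = Y' *ᵥ (Y *ᵥ (X *ᵥ (Y' *ᵥ v))) := by rw [← h3]
        rw [h2] at h4
        rw [one_smul]; exact h4.symm
      · rw [Matrix.toLin'_apply, Matrix.mulVec_mulVec, val_mul_inv, Matrix.one_mulVec]
  have hiso := isometric_of_map hP hy hmap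
  have hfr : finrank F (E 1) = finrank F (E (-1)) := by
    rw [← hmap, finrank_map_inj _ (gl_inj y)]
  have hsum := finrank_sup_orth hQ hn0 horth
  rw [hsup, finrank_top, Module.finrank_fintype_fun_eq_card, hn] at hsum
  have h3 := pair_sup_plus hQ hn0 hn1 horth (m := m) (by omega) (by omega)
    ⟨plus_of_isometric hiso, plus_of_isometric (isometric_symm hiso)⟩
  rwa [hsup] at h3

end CfsgLib.OmE
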