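import Mathlib
import Cfsg.Agent.LibOmE17

/-! even-dimensional orthogonal groups: tensor products 3 x 4 -/
set_option autoImplicit false
set_option linter.unusedSectionVars false

namespace CfsgLib.OmE

open Module Cfsg Cfsg.Geo CfsgLib.Asch7 CfsgLib.Asch9 CfsgLib.Asch11 CfsgLib.Asch19 CfsgLib.AschF CfsgLib.OmH12
open scoped Matrix MatrixGroups Kronecker

variable {ι : Type} [Fintype ι] [DecidableEq ι] {F : Type*} [Field F]
variable {Q : (ι → F) → F} {H : Subgroup (GL ι F)}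

theorem tn_eq_ten {n₁ n₂ : ℕ} (b : Basis (Fin n₁ × Fin n₂) F (ι → F)) (u : Fin n₁ → F) (v : Fin n₂ → F) :
    tn b u v = ten b u v := by
  rw [tn_apply, ten, Fintype.sum_prod_type]

theorem card_of_basis {n₁ n₂ : ℕ} (b : Basis (Fin n₁ × Fin n₂) F (ι → F)) : Fintype.card ι = n₁ * n₂ := by
  have := Module.finrank_eq_card_basis b
  rw [Module.finrank_fintype_fun_eq_card, Fintype.card_prod, Fintype.card_fin, Fintype.card_fin] at this
  exact this

theorem tp_output (hQ : IsNondegenerateQuadraticForm Q) {n₁ n₂ : ℕ} (b : Basis (Fin n₁ × Fin n₂) F (ι → F))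
    {f₁ : (Fin n₁ → F) → (Fin n₁ → F) → F} {f₂ : (Fin n₂ → F) → (Fin n₂ → F) → F}
    (hform : ∀ i l j l', QuadraticMap.polar Q (b (i, l)) (b (j, l')) = gramMatrix f₁ i j * gramMatrix f₂ l l')
    (hkr : ∀ h ∈ H, ∃ (A : (Matrix (Fin n₁) (Fin n₁) F)ˣ) (N : (Matrix (Fin n₂) (Fin n₂) F)ˣ),
      KA b (h : Matrix ι ι F) A.1 N.1) :
    ∃ (e : ι ≃ Fin n₁ × Fin n₂) (P : GL ι F), IsTensorFormStructure id (QuadraticMap.polar Q) f₁ f₂ e P ∧
      H ≤ tensorProductSubgroup n₁ n₂ e P ∧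
      ∀ (x₁ : Fin n₁ → F) (x₂ : Fin n₂ → F),
        (P : Matrix ι ι F) *ᵥ ((fun a : Fin n₁ × Fin n₂ => x₁ a.1 * x₂ a.2) ∘ e) = ten b x₁ x₂ := by
  have e : ι ≃ Fin n₁ × Fin n₂ := Fintype.equivOfCardEq (by
    rw [card_of_basis b, Fintype.card_prod, Fintype.card_fin, Fintype.card_fin])
  obtain ⟨P, hP⟩ := exists_P (b.reindex e.symm)
  refine ⟨e, P, tensor_structure (fdQ hQ) b hform e P hP, le_tensorProduct_P b H hkr e P hP, ?_⟩
  intro x₁ x₂
  rw [← tn_eq_ten, tn_apply]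
  have h1 : (P : Matrix ι ι F) *ᵥ ((fun a : Fin n₁ × Fin n₂ => x₁ a.1 * x₂ a.2) ∘ e) =
      ∑ i, (x₁ (e i).1 * x₂ (e i).2) • b (e i) := by
    ext j
    rw [Finset.sum_apply]
    simp only [Matrix.mulVec, dotProduct, Function.comp, Pi.smul_apply, smul_eq_mul]
    refine Finset.sum_congr rfl fun i _ => ?_
    rw [hP, Basis.reindex_apply, Equiv.symm_symm]; ring
  rw [h1]
  exact Fintype.sum_equiv e _ _ fun i => rfl

theorem map_range_le {n₁ n₂ : ℕ} (b : Basis (Fin n₁ × Fin n₂) F (ι → F)) {h : Matrix ι ι F}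
    {A : Matrix (Fin n₁) (Fin n₁) F} {N : Matrix (Fin n₂) (Fin n₂) F} (hk : KA b h A N) (u : Fin n₁ → F) :
    (LinearMap.range (tn b u)).map (Matrix.toLin' h) ≤ LinearMap.range (tn b (A *ᵥ u)) := by
  rintro _ ⟨_, ⟨x, rfl⟩, rfl⟩
  rw [Matrix.toLin'_apply, tn_eq_ten, ten_act b hk, ← tn_eq_ten]
  exact ⟨_, rfl⟩

/-- over the field of three elements a 3 x n tensor decomposition refines to an orthogonal one -/
theorem tpS_three [Fintype F] (hq : Fintype.card F = 3) (hQ : IsNondegenerateQuadraticForm Q) (hP : Pres Q H) {n₂ : ℕ}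
    (hn₂ : 1 ≤ n₂)
    (b : Basis (Fin 3 × Fin n₂) F (ι → F))
    {f₁ : (Fin 3 → F) → (Fin 3 → F) → F} {f₂ : (Fin n₂ → F) → (Fin n₂ → F) → F}
    (hf₁ : FD (RingEquiv.refl F) 1 f₁) (hf₂ : FD (RingEquiv.refl F) 1 f₂)
    (hform : ∀ i l j l', QuadraticMap.polar Q (b (i, l)) (b (j, l')) = gramMatrix f₁ i j * gramMatrix f₂ l l')
    (hkr : ∀ h ∈ H, ∃ (A : (Matrix (Fin 3) (Fin 3) F)ˣ) (N : (Matrix (Fin n₂) (Fin n₂) F)ˣ),
      KA b (h : Matrix ι ι F) A.1 N.1) :
    ∃ D : Fin 3 → Submodule F (ι → F), IsNondegenerateMDecomposition (QuadraticMap.polar Q) n₂ D ∧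
      H ≤ decompositionStabilizer D := by
  classical
  have h3 := three_zero hq
  have h2 := two_ne_three hq
  have h22 : (2 : F)⁻¹ * 2 = 1 := inv_mul_cancel₀ h2
  have hsymm : ∀ u v, f₁ u v = f₁ v u := fun u v => by
    have := hf₁.herm u v
    rw [one_mul] at this
    exact this
  set Q₁ : (Fin 3 → F) → F := fun u => 2⁻¹ * f₁ u u with hQ₁d
  have hqf : QF f₁ Q₁ := by
    constructor
    · intro c v
      show 2⁻¹ * f₁ (c • v) (c • v) = c ^ 2 * (2⁻¹ * f₁ v v)
      rw [hf₁.smul_left, hf₁.smul_right, RingEquiv.refl_apply]; ring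
    · intro u v
      show 2⁻¹ * f₁ (u + v) (u + v) = 2⁻¹ * f₁ u u + 2⁻¹ * f₁ v v + f₁ u v
      rw [hf₁.add_left, hf₁.add_right, hf₁.add_right, hsymm v u]
      linear_combination (f₁ u v) * h22
  have hQ₁ := QF.nondegQ hf₁ hqf
  have hpol : ∀ u v, QuadraticMap.polar Q₁ u v = f₁ u v := fun u v => hqf.polar u v
  obtain ⟨a, ha, v, _, hva, hvo, hvall⟩ := space_three_three hQ₁ hq (D := ⊤)
    (by rw [finrank_top, Module.finrank_fintype_fun_eq_card, Fintype.card_fin]) (by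
      intro w _ hw0
      obtain ⟨⟨x, hx⟩, ⟨y, hy⟩⟩ := hQ₁.nondegenerate w hw0
      exact ⟨⟨x, trivial, hx⟩, ⟨y, trivial, hy⟩⟩)
  have hg : ∀ u v, u ⬝ᵥ (gramMatrix f₁ *ᵥ v) = f₁ u v := by
    intro u v
    rw [form_expand hf₁]
    simp only [dotProduct, Matrix.mulVec, Finset.mul_sum]
    refine Finset.sum_congr rfl fun i _ => Finset.sum_congr rfl fun j _ => ?_
    rw [RingEquiv.refl_apply]; ring
  obtain ⟨hD, _⟩ := tn_dec b hQ h2 hform (by norm_num) (by rw [Fintype.card_fin]; exact hn₂) v (by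
    intro i h0
    rw [hg] at h0
    apply ha
    rw [← hva i]
    show 2⁻¹ * f₁ (v i) (v i) = 0
    rw [h0, mul_zero]) (by
    intro i j hij
    rw [hg, ← hpol, hvo i j hij])
  rw [Fintype.card_fin] at hD
  refine ⟨_, hD, le_decStab_of ?_ ?_⟩
  · apply hD.decomp.indep.injective
    intro i hbot
    have := hD.decomp.finrank_eq i
    rw [hbot, finrank_bot] at this
    omega
  · intro g hg' i
    obtain ⟨A, N, hk⟩ := hkr g hg'
    have hI := hP.iso
    -- A preserves f₁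
    obtain ⟨c, hc0, hc⟩ := ten_sim (b.reindex (Equiv.prodComm _ _)) (fdQ hQ) hf₂ hf₁ hn₂ (form_swap b hform) (hI g hg')
      (KA_swap b hk) (by norm_num)
    have hA1 : ∀ u v, f₁ (A.1 *ᵥ u) (A.1 *ᵥ v) = f₁ u v := by
      have hdet : (A.1.det) ^ 2 = c ^ 3 := by
        have h4 := gram_cols hf₁ (fun j => A.1 *ᵥ Pi.single j 1) A.1 (by
          intro i j
          simp)
        have h5 : (Matrix.of fun i j => f₁ (A.1 *ᵥ Pi.single i 1) (A.1 *ᵥ Pi.single j 1)) = c • gramMatrix f₁ := by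
          ext i j
          rw [Matrix.of_apply, hc, Matrix.smul_apply, smul_eq_mul]; rfl
        have h6 := congrArg Matrix.det (h4.trans h5)
        rw [Matrix.det_mul, Matrix.det_mul, Matrix.det_transpose, Matrix.det_smul, Fintype.card_fin] at h6
        have h7 : (gramMatrix f₁).det ≠ 0 := by
          intro h0
          obtain ⟨w, hw, hw0⟩ := Matrix.exists_mulVec_eq_zero_iff.2 h0
          obtain ⟨⟨x, hx⟩, _⟩ := hf₁.nd w hw
          apply hx
          rw [← hg, hw0, dotProduct_zero]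
        have h8 : (gramMatrix f₁).det * (A.1.det ^ 2 - c ^ 3) = 0 := by linear_combination h6
        rcases mul_eq_zero.1 h8 with h9 | h9
        · exact absurd h9 h7
        · linear_combination h9
      have hc1 : c = 1 := by
        rcases three_cases hq c with h4 | h4 | h4
        · exact absurd h4 hc0
        · exact h4
        · exfalso
          rw [h4] at hdet
          rcases three_cases hq A.1.det with h5 | h5 | h5 <;> rw [h5] at hdet
          · apply one_ne_zero (α := F); linear_combination hdet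
          · apply h2; linear_combination hdet
          · apply h2; linear_combination hdet
      intro u v
      rw [hc, hc1, one_mul]
    have h4 : Q₁ (A.1 *ᵥ v i) = a := by
      rw [← hva i]
      show 2⁻¹ * f₁ (A.1 *ᵥ v i) (A.1 *ᵥ v i) = 2⁻¹ * f₁ (v i) (v i)
      rw [hA1]
    have h5 : ∀ j, LinearMap.range (tn b (- v j)) = LinearMap.range (tn b (v j)) := by
      intro j
      have h6 : ∀ (u : Fin 3 → F), LinearMap.range (tn b (-u)) ≤ LinearMap.range (tn b u) := by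
        rintro u _ ⟨x, rfl⟩
        refine ⟨-x, ?_⟩
        apply b.repr.injective
        ext p
        rw [tn_repr, tn_repr, Pi.neg_apply, Pi.neg_apply]; ring
      apply le_antisymm (h6 _)
      have := h6 (- v j)
      rwa [neg_neg] at this
    obtain ⟨j, hj⟩ := hvall _ trivial h4
    refine ⟨j, ?_⟩
    apply Submodule.eq_of_le_of_finrank_eq
    · have h6 := map_range_le b hk (v i)
      rcases hj with hj | hj
      · rw [hj] at h6; exact h6
      · rw [hj, h5] at h6; exact h6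
    · rw [finrank_map_inj _ (gl_inj g), hD.decomp.finrank_eq, hD.decomp.finrank_eq]

/-- the type of the second factor of a 3 x n₂ tensor product, n₂ even -/
theorem tpS_type [Fintype F] (hQ : IsNondegenerateQuadraticForm Q) (h2 : (2 : F) ≠ 0) {m : ℕ} (hm : 0 < m)
    (b : Basis (Fin 3 × Fin (2 * m)) F (ι → F))
    {f₁ : (Fin 3 → F) → (Fin 3 → F) → F} {f₂ : (Fin (2 * m) → F) → (Fin (2 * m) → F) → F}
    (hf₁ : FD (RingEquiv.refl F) 1 f₁) (hf₂ : FD (RingEquiv.refl F) 1 f₂)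
    (hform : ∀ i l j l', QuadraticMap.polar Q (b (i, l)) (b (j, l')) = gramMatrix f₁ i j * gramMatrix f₂ l l') :
    IsPlusTypeOn Q ⊤ ↔ IsPlusTypeOn (fun v : Fin (2 * m) → F => f₂ v v) ⊤ := by
  have hg : ∀ u v, u ⬝ᵥ (gramMatrix f₂ *ᵥ v) = f₂ u v := by
    intro u v
    rw [form_expand hf₂]
    simp only [dotProduct, Matrix.mulVec, Finset.mul_sum]
    refine Finset.sum_congr rfl fun i _ => Finset.sum_congr rfl fun j _ => ?_
    rw [RingEquiv.refl_apply]; ring
  rw [tn_three hQ h2 b (m := m) (Fintype.card_fin _) hm hf₁ hform]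
  constructor
  · rintro ⟨U, hU, hd⟩
    refine ⟨U, le_top, fun w hw => ?_, ?_⟩
    · show f₂ w w = 0
      rw [← hg]; exact hU w hw
    · rw [hd, finrank_top, Module.finrank_fintype_fun_eq_card]
  · rintro ⟨U, _, hU, hd⟩
    refine ⟨U, fun w hw => ?_, ?_⟩
    · rw [hg]; exact hU w hw
    · rw [hd, finrank_top, Module.finrank_fintype_fun_eq_card]

end CfsgLib.OmE
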