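import Mathlib
import Cfsg.Agent.LibOmE18

/-! even-dimensional orthogonal groups: the four-dimensional hyperbolic space as a tensor product -/
set_option autoImplicit false
set_option linter.unusedSectionVars false

namespace CfsgLib.OmE

open Module Cfsg Cfsg.Geo CfsgLib.Asch7 CfsgLib.Asch9 CfsgLib.Asch11 CfsgLib.Asch19 CfsgLib.AschF CfsgLib.OmH12
open scoped Matrix MatrixGroups Kronecker

variable {ι : Type} [Fintype ι] [DecidableEq ι] {F : Type*} [Field F]
variable {Q : (ι → F) → F} {H : Subgroup (GL ι F)}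

/-- the standard alternating matrix -/
def JJ (F : Type*) [Field F] : Matrix (Fin 2) (Fin 2) F := !![0, 1; -1, 0]

/-- a basis of a four-dimensional space of plus type with tensor product Gram matrix -/
structure QB (Q : (ι → F) → F) (c : Basis (Fin 2 × Fin 2) F (ι → F)) : Prop where
  sing : ∀ p, Q (c p) = 0
  gram : ∀ i k j l, QuadraticMap.polar Q (c (i, k)) (c (j, l)) = JJ F i j * JJ F k l

theorem exists_QB [Finite F] (hQ : IsNondegenerateQuadraticForm Q) (hc : Fintype.card ι = 4) (hp : IsPlusTypeOn Q ⊤) :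
    ∃ c : Basis (Fin 2 × Fin 2) F (ι → F), QB Q c := by
  classical
  obtain ⟨v, _, hv0, h01, h23, h02, h03, h12, h13, hli, _⟩ := four_hyp hQ (D := ⊤)
    (by rw [finrank_top, Module.finrank_fintype_fun_eq_card, hc]) (by
      intro w _ hw0
      obtain ⟨⟨x, hx⟩, ⟨y, hy⟩⟩ := hQ.nondegenerate w hw0
      exact ⟨⟨x, trivial, hx⟩, ⟨y, trivial, hy⟩⟩) hp
  have hf := fdQ hQ
  have hcomm : ∀ u w, QuadraticMap.polar Q u w = QuadraticMap.polar Q w u := fun u w => QuadraticMap.polar_comm _ _ _
  have hvv : ∀ i, QuadraticMap.polar Q (v i) (v i) = 0 := fun i => by rw [polar_self hQ, hv0, mul_zero]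
  let w : Fin 2 × Fin 2 → ι → F := fun p => if p = (0, 0) then v 0 else if p = (1, 1) then v 1 else if p = (0, 1) then v 2 else - v 3
  have w00 : w (0, 0) = v 0 := rfl
  have w11 : w (1, 1) = v 1 := rfl
  have w01 : w (0, 1) = v 2 := rfl
  have w10 : w (1, 0) = - v 3 := rfl
  have hneg : ∀ u : ι → F, - u = (-1 : F) • u := fun u => by rw [neg_one_smul]
  have hgram : ∀ i k j l, QuadraticMap.polar Q (w (i, k)) (w (j, l)) = JJ F i j * JJ F k l := by
    have hnr : ∀ u u', QuadraticMap.polar Q u (- u') = - QuadraticMap.polar Q u u' := by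
      intro u u'
      rw [hneg, hf.smul_right, map_neg, map_one]; ring
    have hnl : ∀ u u', QuadraticMap.polar Q (- u) u' = - QuadraticMap.polar Q u u' := by
      intro u u'
      rw [hneg, hf.smul_left]; ring
    intro i k j l
    fin_cases i <;> fin_cases k <;> fin_cases j <;> fin_cases l <;>
      simp only [Fin.zero_eta, Fin.mk_one, Fin.isValue, w00, w01, w10, w11, hnr, hnl, hvv, h01, h23, h02, h03, h12, h13, hcomm (v 1) (v 0),
        hcomm (v 3) (v 2), hcomm (v 2) (v 0), hcomm (v 3) (v 0), hcomm (v 2) (v 1), hcomm (v 3) (v 1)] <;>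
      simp [JJ]
  have hwli : LinearIndependent F w := by
    rw [Fintype.linearIndependent_iff]
    intro g hg
    have key : ∀ q : Fin 2 × Fin 2, ∑ p, g p * QuadraticMap.polar Q (w p) (w q) = 0 := by
      intro q
      have := congrArg (fun z => QuadraticMap.polar Q z (w q)) hg
      simp only [hf.sum_left, hf.smul_left, hf.zero_left] at this
      exact this
    intro p
    obtain ⟨i, k⟩ := p
    have h1 := key (1 - i, 1 - k)
    rw [Fintype.sum_prod_type] at h1
    simp only [hgram, Fin.sum_univ_two] at h1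
    fin_cases i <;> fin_cases k <;> simpa [JJ] using h1
  let c := basisOfLinearIndependentOfCardEqFinrank hwli (by
    rw [Module.finrank_fintype_fun_eq_card, hc]; rfl)
  have hc' : ∀ p, c p = w p := fun p => by
    rw [coe_basisOfLinearIndependentOfCardEqFinrank]
  refine ⟨c, fun p => ?_, fun i k j l => ?_⟩
  · rw [hc']
    obtain ⟨i, k⟩ := p
    fin_cases i <;> fin_cases k
    · exact hv0 0
    · exact hv0 2
    · show Q (- v 3) = 0
      rw [Qneg hQ]; exact hv0 3
    · exact hv0 1
  · rw [hc', hc']; exact hgram i k j l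

section four
variable {κ : Type} [Fintype κ] [DecidableEq κ] {q : (κ → F) → F} {c : Basis (Fin 2 × Fin 2) F (κ → F)}

/-- coordinates -/
theorem q_expand (hq : IsNondegenerateQuadraticForm q) (hc : QB q c) (z : κ → F) :
    q z = c.repr z (0, 0) * c.repr z (1, 1) - c.repr z (0, 1) * c.repr z (1, 0) := by
  have hf := fdQ hq
  have h1 : z = c.repr z (0, 0) • c (0, 0) + c.repr z (0, 1) • c (0, 1) +
      (c.repr z (1, 0) • c (1, 0) + c.repr z (1, 1) • c (1, 1)) := by
    conv_lhs => rw [← c.sum_repr z]
    rw [Fintype.sum_prod_type]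
    simp only [Fin.sum_univ_two]
  conv_lhs => rw [h1]
  rw [Qadd hq, Qadd hq, Qadd hq, hq.smul, hq.smul, hq.smul, hq.smul, hc.sing, hc.sing, hc.sing, hc.sing]
  simp only [hf.add_left, hf.add_right, hf.smul_left, hf.smul_right, RingEquiv.refl_apply, hc.gram]
  simp [JJ]
  ring

theorem pure_sing (hq : IsNondegenerateQuadraticForm q) (hc : QB q c) (x y : Fin 2 → F) : q (ten c x y) = 0 := by
  rw [q_expand hq hc, ten_repr, ten_repr, ten_repr, ten_repr]; ring

/-- singular vectors are pure tensors -/
theorem pure_of_sing (hq : IsNondegenerateQuadraticForm q) (hc : QB q c) {z : κ → F} (hz : q z = 0) :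
    ∃ x y : Fin 2 → F, z = ten c x y := by
  have h := q_expand hq hc z
  rw [hz] at h
  set z00 := c.repr z (0, 0) with h00
  set z01 := c.repr z (0, 1) with h01
  set z10 := c.repr z (1, 0) with h10
  set z11 := c.repr z (1, 1) with h11
  have key : ∀ x y : Fin 2 → F, x 0 * y 0 = z00 → x 0 * y 1 = z01 → x 1 * y 0 = z10 → x 1 * y 1 = z11 → z = ten c x y := by
    intro x y e1 e2 e3 e4
    apply c.repr.injective
    ext ⟨i, j⟩
    rw [ten_repr]
    fin_cases i <;> fin_cases j
    · exact e1.symm
    · exact e2.symm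
    · exact e3.symm
    · exact e4.symm
  by_cases hz0 : z00 = 0
  · by_cases hz1 : z01 = 0
    · exact ⟨![0, 1], ![z10, z11], key _ _ (by simp [hz0]) (by simp [hz1]) (by simp) (by simp)⟩
    · refine ⟨![1, z11 / z01], ![z00, z01], key _ _ (by simp) (by simp) ?_ ?_⟩
      · have : z10 = 0 := by
          rw [hz0] at h
          have : z01 * z10 = 0 := by linear_combination h
          exact (mul_eq_zero.1 this).resolve_left hz1
        simp [this, hz0]
      · simp [hz1]
  · refine ⟨![1, z10 / z00], ![z00, z01], key _ _ (by simp) (by simp) (by simp [hz0]) ?_⟩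
    simp only [Matrix.cons_val_one, Matrix.cons_val_fin_one]
    field_simp
    linear_combination h

theorem pure_polar (hq : IsNondegenerateQuadraticForm q) (hc : QB q c) (x y x' y' : Fin 2 → F) :
    QuadraticMap.polar q (ten c x y) (ten c x' y') = (x 0 * x' 1 - x 1 * x' 0) * (y 0 * y' 1 - y 1 * y' 0) := by
  rw [← tn_eq_ten, ← tn_eq_ten, tn_form c hq hc.gram]
  simp [JJ, dotProduct, Matrix.mulVec, Fin.sum_univ_two]
  ring

theorem par_of_zero {p p' : Fin 2 → F} (hp : p ≠ 0) (h : p 0 * p' 1 - p 1 * p' 0 = 0) : ∃ μ : F, p' = μ • p := by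
  by_cases h0 : p 0 = 0
  · have h1 : p 1 ≠ 0 := by
      intro h1
      apply hp
      ext i
      fin_cases i
      · exact h0
      · exact h1
    refine ⟨p' 1 / p 1, ?_⟩
    ext i
    fin_cases i
    · have : p 1 * p' 0 = 0 := by
        rw [h0] at h
        linear_combination -h
      have h2 := (mul_eq_zero.1 this).resolve_left h1
      show p' 0 = p' 1 / p 1 * p 0
      rw [h2, h0, mul_zero]
    · show p' 1 = p' 1 / p 1 * p 1
      field_simp
  · refine ⟨p' 0 / p 0, ?_⟩
    ext i
    fin_cases i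
    · show p' 0 = p' 0 / p 0 * p 0
      field_simp
    · show p' 1 = p' 0 / p 0 * p 1
      field_simp
      linear_combination h

end four

end CfsgLib.OmE
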