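import Mathlib
import Cfsg.Agent.LibOmE19

/-! even-dimensional orthogonal groups: similarities of the four-dimensional hyperbolic space and parity -/
set_option autoImplicit false
set_option linter.unusedSectionVars false

namespace CfsgLib.OmE

open Module Cfsg Cfsg.Geo CfsgLib.Asch7 CfsgLib.Asch9 CfsgLib.Asch11 CfsgLib.Asch19 CfsgLib.AschF CfsgLib.OmH12
open scoped Matrix MatrixGroups Kronecker

variable {ι : Type} [Fintype ι] [DecidableEq ι] {F : Type*} [Field F]
variable {Q : (ι → F) → F} {H : Subgroup (GL ι F)}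

section four
variable {κ : Type} [Fintype κ] [DecidableEq κ] {q : (κ → F) → F} {c : Basis (Fin 2 × Fin 2) F (κ → F)}

theorem ten_eq_zero {n₁ n₂ : ℕ} (b : Basis (Fin n₁ × Fin n₂) F (ι → F)) {x : Fin n₁ → F} {y : Fin n₂ → F} (h : ten b x y = 0) :
    x = 0 ∨ y = 0 := by
  by_contra hcon
  push Not at hcon
  apply hcon.2
  apply tn_inj b hcon.1
  rw [tn_eq_ten, tn_eq_ten, h, ← tn_eq_ten, map_zero]

theorem e0_ne : (Pi.single 0 1 : Fin 2 → F) ≠ 0 := by
  intro h
  have := congrFun h 0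
  simp at this

theorem e1_ne : (Pi.single 1 1 : Fin 2 → F) ≠ 0 := by
  intro h
  have := congrFun h 1
  simp at this

theorem two_expand (y : Fin 2 → F) : y = y 0 • (Pi.single 0 1 : Fin 2 → F) + y 1 • (Pi.single 1 1 : Fin 2 → F) := by
  ext i
  fin_cases i <;> simp

/-- a similarity permutes the two families of singular planes -/
theorem fam (hq : IsNondegenerateQuadraticForm q) (hc : QB q c) {N : Matrix κ κ F} (hinj : ∀ z, N *ᵥ z = 0 → z = 0)
    (hN : ∀ z, q z = 0 → q (N *ᵥ z) = 0)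
    (hN' : ∀ z z', QuadraticMap.polar q z z' = 0 → QuadraticMap.polar q (N *ᵥ z) (N *ᵥ z') = 0) {x : Fin 2 → F} (hx : x ≠ 0) :
    (∃ (p : Fin 2 → F) (C : Matrix (Fin 2) (Fin 2) F), p ≠ 0 ∧ ∀ y, N *ᵥ ten c x y = ten c p (C *ᵥ y)) ∨
    (∃ (s : Fin 2 → F) (C : Matrix (Fin 2) (Fin 2) F), s ≠ 0 ∧ ∀ y, N *ᵥ ten c x y = ten c (C *ᵥ y) s) := by
  obtain ⟨p, s, h1⟩ := pure_of_sing hq hc (hN _ (pure_sing hq hc x (Pi.single 0 1)))
  obtain ⟨p', s', h2⟩ := pure_of_sing hq hc (hN _ (pure_sing hq hc x (Pi.single 1 1)))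
  have hne1 : ten c p s ≠ 0 := by
    rw [← h1]
    intro h
    rcases ten_eq_zero c (hinj _ h) with h | h
    · exact hx h
    · exact e0_ne h
  have hp : p ≠ 0 := by
    rintro rfl
    apply hne1
    rw [← tn_eq_ten, tn_apply]; simp
  have hs : s ≠ 0 := by
    rintro rfl
    apply hne1
    rw [← tn_eq_ten, map_zero]
  have h3 := hN' (ten c x (Pi.single 0 1)) (ten c x (Pi.single 1 1)) (by rw [pure_polar hq hc]; ring)
  rw [h1, h2, pure_polar hq hc] at h3
  have hexp : ∀ y : Fin 2 → F, N *ᵥ ten c x y = y 0 • ten c p s + y 1 • ten c p' s' := by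
    intro y
    conv_lhs => rw [two_expand y]
    rw [ten_add_right, ten_smul_right, ten_smul_right, Matrix.mulVec_add, Matrix.mulVec_smul, Matrix.mulVec_smul, h1, h2]
  rcases mul_eq_zero.1 h3 with h | h
  · obtain ⟨μ, rfl⟩ := par_of_zero hp h
    left
    refine ⟨p, Matrix.of fun i j => if j = 0 then s i else μ * s' i, hp, fun y => ?_⟩
    have h4 : (Matrix.of fun i j => if j = 0 then s i else μ * s' i : Matrix (Fin 2) (Fin 2) F) *ᵥ y = y 0 • s + y 1 • (μ • s') := by
      ext i
      simp [Matrix.mulVec, dotProduct, Fin.sum_univ_two]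
      ring
    rw [h4, hexp, ten_add_right, ten_smul_right, ten_smul_right, ten_smul_right, ten_smul_left]
  · obtain ⟨μ, rfl⟩ := par_of_zero hs h
    right
    refine ⟨s, Matrix.of fun i j => if j = 0 then p i else μ * p' i, hs, fun y => ?_⟩
    have h4 : (Matrix.of fun i j => if j = 0 then p i else μ * p' i : Matrix (Fin 2) (Fin 2) F) *ᵥ y = y 0 • p + y 1 • (μ • p') := by
      ext i
      simp [Matrix.mulVec, dotProduct, Fin.sum_univ_two]
      ring
    rw [h4, hexp, ten_add_left, ten_smul_left, ten_smul_left, ten_smul_left, ten_smul_right]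

theorem unit_of_inj {n : ℕ} {C : Matrix (Fin n) (Fin n) F} (h : ∀ y, C *ᵥ y = 0 → y = 0) : IsUnit C := by
  rw [Matrix.isUnit_iff_isUnit_det, isUnit_iff_ne_zero]
  intro h0
  obtain ⟨v, hv, hv0⟩ := Matrix.exists_mulVec_eq_zero_iff.2 h0
  exact hv (h v hv0)

/-- a map preserving the first family is a tensor product -/
theorem tensor_of_fam {N : Matrix κ κ F} (hinj : ∀ z, N *ᵥ z = 0 → z = 0)
    (hfam : ∀ x : Fin 2 → F, x ≠ 0 → ∃ (p : Fin 2 → F) (C : Matrix (Fin 2) (Fin 2) F), p ≠ 0 ∧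
      ∀ y, N *ᵥ ten c x y = ten c p (C *ᵥ y)) :
    ∃ B C : (Matrix (Fin 2) (Fin 2) F)ˣ, ∀ x y, N *ᵥ ten c x y = ten c (B.1 *ᵥ x) (C.1 *ᵥ y) := by
  obtain ⟨a, C0, ha, h0⟩ := hfam (Pi.single 0 1) e0_ne
  obtain ⟨b, C1, hb, h1⟩ := hfam (Pi.single 1 1) e1_ne
  obtain ⟨d, C2, hd, h2⟩ := hfam (Pi.single 0 1 + Pi.single 1 1) (by
    intro h
    have := congrFun h 0
    simp at this)
  have hsum : ∀ y, ten c a (C0 *ᵥ y) + ten c b (C1 *ᵥ y) = ten c d (C2 *ᵥ y) := by
    intro y
    rw [← h0, ← h1, ← h2, ten_add_left, Matrix.mulVec_add]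
  have hC0 : IsUnit C0 := unit_of_inj (by
    intro y hy
    have h3 := h0 y
    rw [hy, ← tn_eq_ten c a, map_zero] at h3
    exact (ten_eq_zero c (hinj _ h3)).resolve_left e0_ne)
  set D := a 0 * b 1 - a 1 * b 0 with hD
  have hD0 : D ≠ 0 := by
    intro hD0
    obtain ⟨μ, rfl⟩ := par_of_zero ha hD0
    obtain ⟨C0', hC0'⟩ := hC0
    set y : Fin 2 → F := - (μ • ((C0'⁻¹).1 *ᵥ (C1 *ᵥ Pi.single 0 1))) with hy
    have h3 : N *ᵥ (ten c (Pi.single 0 1) y + ten c (Pi.single 1 1) (Pi.single 0 1)) = 0 := by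
      rw [Matrix.mulVec_add, h0, h1, ten_smul_left, ← ten_smul_right, ← ten_add_right]
      have h4 : C0 *ᵥ y + μ • (C1 *ᵥ Pi.single 0 1) = 0 := by
        rw [hy, Matrix.mulVec_neg, Matrix.mulVec_smul, Matrix.mulVec_mulVec, ← hC0']
        have : (C0'.1 * (C0'⁻¹).1) = 1 := by rw [← Units.val_mul, mul_inv_cancel, Units.val_one]
        rw [this, Matrix.one_mulVec, neg_add_cancel]
      rw [h4, ← tn_eq_ten, map_zero]
    have h5 := hinj _ h3
    have h6 := congrArg (fun z => c.repr z (1, 0)) h5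
    simp only [map_add, Finsupp.add_apply, ten_repr, map_zero, Finsupp.zero_apply] at h6
    simp at h6
  set α := (d 0 * b 1 - d 1 * b 0) / D with hα
  set β := (a 0 * d 1 - a 1 * d 0) / D with hβ
  have hdab : d = α • a + β • b := by
    ext i
    fin_cases i
    · show d 0 = α * a 0 + β * b 0
      rw [hα, hβ]
      field_simp
      rw [hD]; ring
    · show d 1 = α * a 1 + β * b 1
      rw [hα, hβ]
      field_simp
      rw [hD]; ring
  have hzero : ∀ u v : Fin 2 → F, ten c a u + ten c b v = 0 → u = 0 ∧ v = 0 := by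
    intro u v h
    have hij : ∀ i j, a i * u j + b i * v j = 0 := by
      intro i j
      have := congrArg (fun z => c.repr z (i, j)) h
      simpa only [map_add, Finsupp.add_apply, ten_repr, map_zero, Finsupp.zero_apply] using this
    constructor
    · ext j
      have e0 := hij 0 j
      have e1 := hij 1 j
      have : D * u j = 0 := by rw [hD]; linear_combination b 1 * e0 - b 0 * e1
      exact (mul_eq_zero.1 this).resolve_left hD0
    · ext j
      have e0 := hij 0 j
      have e1 := hij 1 j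
      have : D * v j = 0 := by rw [hD]; linear_combination a 0 * e1 - a 1 * e0
      exact (mul_eq_zero.1 this).resolve_left hD0
  have hC : ∀ y, C0 *ᵥ y = α • (C2 *ᵥ y) ∧ C1 *ᵥ y = β • (C2 *ᵥ y) := by
    intro y
    have h3 := hsum y
    rw [hdab, ten_add_left, ten_smul_left, ten_smul_left, ← ten_smul_right, ← ten_smul_right] at h3
    have h4 : ten c a (C0 *ᵥ y + (-1 : F) • (α • (C2 *ᵥ y))) + ten c b (C1 *ᵥ y + (-1 : F) • (β • (C2 *ᵥ y))) = 0 := by
      rw [ten_add_right, ten_add_right, ten_smul_right c (-1), ten_smul_right c (-1)]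
      have : ten c a (C0 *ᵥ y) + (-1 : F) • ten c a (α • C2 *ᵥ y) + (ten c b (C1 *ᵥ y) + (-1 : F) • ten c b (β • C2 *ᵥ y)) =
        (ten c a (C0 *ᵥ y) + ten c b (C1 *ᵥ y)) - (ten c a (α • C2 *ᵥ y) + ten c b (β • C2 *ᵥ y)) := by
        rw [neg_one_smul, neg_one_smul]; abel
      rw [this, h3, sub_self]
    obtain ⟨h5, h6⟩ := hzero _ _ h4
    rw [neg_one_smul, ← sub_eq_add_neg, sub_eq_zero] at h5 h6
    exact ⟨h5, h6⟩
  set B : Matrix (Fin 2) (Fin 2) F := Matrix.of fun i j => if j = 0 then α * a i else β * b i with hB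
  have hBx : ∀ x, B *ᵥ x = x 0 • (α • a) + x 1 • (β • b) := by
    intro x
    ext i
    simp [hB, Matrix.mulVec, dotProduct, Fin.sum_univ_two]
    ring
  have hN : ∀ x y, N *ᵥ ten c x y = ten c (B *ᵥ x) (C2 *ᵥ y) := by
    intro x y
    conv_lhs => rw [two_expand x]
    rw [ten_add_left, ten_smul_left, ten_smul_left, Matrix.mulVec_add, Matrix.mulVec_smul, Matrix.mulVec_smul, h0, h1,
      (hC y).1, (hC y).2, hBx, ten_add_left, ten_smul_left, ten_smul_left, ten_smul_left, ten_smul_left, ten_smul_right,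
      ten_smul_right]
  have hBu : IsUnit B := unit_of_inj (by
    intro x hx
    have h3 := hN x (Pi.single 0 1)
    rw [hx] at h3
    have h4 : ten c (0 : Fin 2 → F) (C2 *ᵥ Pi.single 0 1) = 0 := by
      rw [← tn_eq_ten, tn_apply]; simp
    rw [h4] at h3
    exact (ten_eq_zero c (hinj _ h3)).resolve_right e0_ne)
  have hCu : IsUnit C2 := unit_of_inj (by
    intro y hy
    have h3 := hN (Pi.single 0 1) y
    rw [hy, ← tn_eq_ten c (B *ᵥ _), map_zero] at h3
    exact (ten_eq_zero c (hinj _ h3)).resolve_left e0_ne)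
  obtain ⟨B', hB'⟩ := hBu
  obtain ⟨C', hC'⟩ := hCu
  exact ⟨B', C', fun x y => by rw [hB', hC']; exact hN x y⟩

end four

section rows
variable {n m : ℕ} (b : Basis (Fin n × Fin m) F (ι → F))

/-- the rows of a vector -/
noncomputable def row (i : Fin n) : (ι → F) →ₗ[F] (Fin m → F) where
  toFun v := fun l => b.repr v (i, l)
  map_add' := by intro x y; ext l; simp
  map_smul' := by intro c x; ext l; simp

theorem row_apply (i : Fin n) (v : ι → F) (l : Fin m) : row b i v l = b.repr v (i, l) := rfl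

theorem row_ten (i : Fin n) (x : Fin n → F) (y : Fin m → F) : row b i (ten b x y) = x i • y := by
  ext l
  rw [row_apply, ten_repr]; rfl

theorem row_ext {v w : ι → F} (h : ∀ i, row b i v = row b i w) : v = w := by
  apply b.repr.injective
  ext ⟨i, l⟩
  exact congrFun (h i) l

theorem sum_row (v : ι → F) : ∑ i, ten b (Pi.single i 1) (row b i v) = v := by
  apply row_ext b
  intro i
  rw [map_sum, Finset.sum_eq_single i]
  · rw [row_ten, Pi.single_eq_same, one_smul]
  · intro j _ hj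
    rw [row_ten, Pi.single_eq_of_ne (Ne.symm hj), zero_smul]
  · intro h; exact absurd (Finset.mem_univ i) h

/-- F^n ⊗ Y -/
def LY (Y : Submodule F (Fin m → F)) : Submodule F (ι → F) where
  carrier := {v | ∀ i, row b i v ∈ Y}
  add_mem' := by
    intro u v hu hv i
    rw [map_add]; exact Y.add_mem (hu i) (hv i)
  zero_mem' := by
    intro i
    rw [map_zero]; exact Y.zero_mem
  smul_mem' := by
    intro c v hv i
    rw [map_smul]; exact Y.smul_mem c (hv i)

theorem mem_LY {Y : Submodule F (Fin m → F)} {v : ι → F} : v ∈ LY b Y ↔ ∀ i, row b i v ∈ Y := Iff.rfl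

theorem finrank_LY (Y : Submodule F (Fin m → F)) : finrank F (LY b Y) = n * finrank F Y := by
  let T : LY b Y →ₗ[F] (Fin n → Y) :=
    { toFun := fun v i => ⟨row b i v.1, v.2 i⟩
      map_add' := by
        intro x y; ext i l; simp
      map_smul' := by
        intro c x; ext i l; simp }
  have hbij : Function.Bijective T := by
    constructor
    · intro x y hxy
      apply Subtype.ext
      apply row_ext b
      intro i
      exact congrArg Subtype.val (congrFun hxy i)
    · intro y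
      refine ⟨⟨∑ i, ten b (Pi.single i 1) (y i).1, ?_⟩, ?_⟩
      · intro i
        rw [map_sum]
        refine Submodule.sum_mem _ fun j _ => ?_
        rw [row_ten]; exact Y.smul_mem _ (y j).2
      · funext i
        apply Subtype.ext
        show row b i (∑ j, ten b (Pi.single j 1) (y j).1) = (y i).1
        rw [map_sum, Finset.sum_eq_single i]
        · rw [row_ten, Pi.single_eq_same, one_smul]
        · intro j _ hj
          rw [row_ten, Pi.single_eq_of_ne (Ne.symm hj), zero_smul]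
        · intro h; exact absurd (Finset.mem_univ i) h
  rw [(LinearEquiv.ofBijective T hbij).finrank_eq, Module.finrank_pi_fintype]
  simp

theorem LY_inf (Y Y' : Submodule F (Fin m → F)) : LY b Y ⊓ LY b Y' = LY b (Y ⊓ Y') := by
  ext v
  constructor
  · rintro ⟨h1, h2⟩ i; exact ⟨h1 i, h2 i⟩
  · intro h; exact ⟨fun i => (h i).1, fun i => (h i).2⟩

theorem LY_map {g : GL ι F} {A : (Matrix (Fin n) (Fin n) F)ˣ} {N : (Matrix (Fin m) (Fin m) F)ˣ}
    (hk : KA b (g : Matrix ι ι F) A.1 N.1) (Y : Submodule F (Fin m → F)) :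
    (LY b Y).map (Matrix.toLin' (g : Matrix ι ι F)) = LY b (Y.map (Matrix.toLin' N.1)) := by
  apply Submodule.eq_of_le_of_finrank_eq
  · rintro _ ⟨v, hv, rfl⟩
    rw [Matrix.toLin'_apply]
    intro j
    rw [← sum_row b v, Matrix.mulVec_sum, map_sum]
    refine Submodule.sum_mem _ fun i _ => ?_
    rw [ten_act b hk, row_ten]
    exact Submodule.smul_mem _ _ ⟨_, hv i, Matrix.toLin'_apply _ _⟩
  · rw [finrank_map_inj _ (gl_inj g), finrank_LY, finrank_LY]
    congr 1
    symm
    apply finrank_map_inj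
    intro x y hxy
    rw [Matrix.toLin'_apply, Matrix.toLin'_apply] at hxy
    have := congrArg (fun z => (N⁻¹).1 *ᵥ z) hxy
    have h1 : (N⁻¹).1 * N.1 = 1 := by rw [← Units.val_mul, inv_mul_cancel, Units.val_one]
    simpa [Matrix.mulVec_mulVec, h1] using this

theorem LY_ts (hQ : IsNondegenerateQuadraticForm Q) (h2 : (2 : F) ≠ 0)
    {f₁ : (Fin n → F) → (Fin n → F) → F} {f₂ : (Fin m → F) → (Fin m → F) → F}
    (hf₁ : FD (RingEquiv.refl F) 1 f₁) (hf₂ : FD (RingEquiv.refl F) 1 f₂)
    (hform : ∀ i l j l', QuadraticMap.polar Q (b (i, l)) (b (j, l')) = gramMatrix f₁ i j * gramMatrix f₂ l l')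
    {Y : Submodule F (Fin m → F)} (hY : ∀ y ∈ Y, ∀ y' ∈ Y, f₂ y y' = 0) : IsTotallySingularQuad Q (LY b Y) := by
  have hf := fdQ hQ
  intro v hv
  rw [Q_of_polar hQ h2]
  have : QuadraticMap.polar Q v v = 0 := by
    rw [← sum_row b v, hf.sum_left]
    refine Finset.sum_eq_zero fun i _ => ?_
    rw [hf.sum_right]
    refine Finset.sum_eq_zero fun j _ => ?_
    rw [ten_form b hf hf₁ hf₂ hform, hY _ (hv i) _ (hv j), mul_zero]
  rw [this, mul_zero]

end rows

end CfsgLib.OmE
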