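import Mathlib
import Cfsg.Agent.LibOmE20

/-! even-dimensional orthogonal groups: a 3 x 4 tensor product with hyperbolic second factor is a 2 x 6 one -/
set_option autoImplicit false
set_option linter.unusedSectionVars false

namespace CfsgLib.OmE

open Module Cfsg Cfsg.Geo CfsgLib.Asch7 CfsgLib.Asch9 CfsgLib.Asch11 CfsgLib.Asch19 CfsgLib.AschF CfsgLib.OmH12
open scoped Matrix MatrixGroups Kronecker

variable {ι : Type} [Fintype ι] [DecidableEq ι] {F : Type*} [Field F]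
variable {Q : (ι → F) → F} {H : Subgroup (GL ι F)}

theorem half_qf {κ : Type} [Fintype κ] [DecidableEq κ] {f₁ : (κ → F) → (κ → F) → F} (hf₁ : FD (RingEquiv.refl F) 1 f₁)
    (h2 : (2 : F) ≠ 0) : QF f₁ (fun u => 2⁻¹ * f₁ u u) := by
  have h22 : (2 : F)⁻¹ * 2 = 1 := inv_mul_cancel₀ h2
  have hsymm : ∀ u v, f₁ u v = f₁ v u := fun u v => by
    have := hf₁.herm u v
    rw [one_mul] at this
    exact this
  constructor
  · intro c v
    show 2⁻¹ * f₁ (c • v) (c • v) = c ^ 2 * (2⁻¹ * f₁ v v)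
    rw [hf₁.smul_left, hf₁.smul_right, RingEquiv.refl_apply]; ring
  · intro u v
    show 2⁻¹ * f₁ (u + v) (u + v) = 2⁻¹ * f₁ u u + 2⁻¹ * f₁ v v + f₁ u v
    rw [hf₁.add_left, hf₁.add_right, hf₁.add_right, hsymm v u]
    linear_combination (f₁ u v) * h22

/-- no element of Ω swaps the two families -/
theorem no_zfam [Finite F] (hQ : IsNondegenerateQuadraticForm Q) (h2 : (2 : F) ≠ 0) (b : Basis (Fin 3 × Fin 4) F (ι → F))
    {f₁ : (Fin 3 → F) → (Fin 3 → F) → F} {f₂ : (Fin 4 → F) → (Fin 4 → F) → F}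
    (hf₁ : FD (RingEquiv.refl F) 1 f₁) (hf₂ : FD (RingEquiv.refl F) 1 f₂)
    (hform : ∀ i l j l', QuadraticMap.polar Q (b (i, l)) (b (j, l')) = gramMatrix f₁ i j * gramMatrix f₂ l l')
    {q : (Fin 4 → F) → F} (hq : IsNondegenerateQuadraticForm q) (hqf : ∀ u v, QuadraticMap.polar q u v = f₂ u v)
    {c : Basis (Fin 2 × Fin 2) F (Fin 4 → F)} (hc : QB q c)
    {g : GL ι F} (hg : g ∈ omegaGL Q) {A : (Matrix (Fin 3) (Fin 3) F)ˣ} {N : (Matrix (Fin 4) (Fin 4) F)ˣ}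
    (hk : KA b (g : Matrix ι ι F) A.1 N.1) {x s : Fin 2 → F} (hx : x ≠ 0) (hs : s ≠ 0) {C : Matrix (Fin 2) (Fin 2) F}
    (hN : ∀ y, N.1 *ᵥ ten c x y = ten c (C *ᵥ y) s) : False := by
  classical
  have hcard : Fintype.card ι = 12 := card_of_basis b
  have hNinj : ∀ z, N.1 *ᵥ z = 0 → z = 0 := by
    intro z hz
    have h1 : (N⁻¹).1 * N.1 = 1 := by rw [← Units.val_mul, inv_mul_cancel, Units.val_one]
    have h3 : (N⁻¹).1 *ᵥ (N.1 *ᵥ z) = z := by rw [Matrix.mulVec_mulVec, h1, Matrix.one_mulVec]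
    rw [← h3, hz, Matrix.mulVec_zero]
  set Y : Submodule F (Fin 4 → F) := LinearMap.range (tn c x) with hY
  have hYd : finrank F Y = 2 := by
    rw [hY, LinearMap.finrank_range_of_inj (tn_inj c hx), Module.finrank_fintype_fun_eq_card, Fintype.card_fin]
  have hYs : ∀ y ∈ Y, ∀ y' ∈ Y, f₂ y y' = 0 := by
    rintro _ ⟨y, rfl⟩ _ ⟨y', rfl⟩
    rw [← hqf, tn_eq_ten, tn_eq_ten, pure_polar hq hc]; ring
  have hts := LY_ts b hQ h2 hf₁ hf₂ hform hYs
  have hLd : finrank F (LY b Y) = 3 * 2 := by rw [finrank_LY, hYd]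
  have hpar := omega_par hQ (by omega) hg hts (by rw [hLd, hcard])
  rw [LY_map b hk, LY_inf, finrank_LY, hLd] at hpar
  have heven : finrank F (Y ⊓ Y.map (Matrix.toLin' N.1) : Submodule F (Fin 4 → F)) % 2 = 0 := by omega
  -- C is injective, hence x = C y
  have hCinj : ∀ y, C *ᵥ y = 0 → y = 0 := by
    intro y hy
    have h1 := hN y
    rw [hy] at h1
    have h3 : ten c (0 : Fin 2 → F) s = 0 := by
      rw [← tn_eq_ten, tn_apply]; simp
    rw [h3] at h1
    exact (ten_eq_zero c (hNinj _ h1)).resolve_left hx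
  obtain ⟨C', hC'⟩ := unit_of_inj hCinj
  have hxs : ten c x s ∈ Y ⊓ Y.map (Matrix.toLin' N.1) := by
    refine ⟨⟨s, tn_eq_ten c x s⟩, ⟨ten c x ((C'⁻¹).1 *ᵥ x), ⟨_, tn_eq_ten c x _⟩, ?_⟩⟩
    rw [Matrix.toLin'_apply, hN, Matrix.mulVec_mulVec, ← hC']
    have : C'.1 * (C'⁻¹).1 = 1 := by rw [← Units.val_mul, mul_inv_cancel, Units.val_one]
    rw [this, Matrix.one_mulVec]
  have hne : Y ⊓ Y.map (Matrix.toLin' N.1) ≠ ⊥ := by
    intro hbot
    rw [hbot, Submodule.mem_bot] at hxs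
    rcases ten_eq_zero c hxs with h | h
    · exact hx h
    · exact hs h
  have hpos : finrank F (Y ⊓ Y.map (Matrix.toLin' N.1) : Submodule F (Fin 4 → F)) ≠ 0 := by
    rw [Ne, Submodule.finrank_eq_zero]; exact hne
  have hle : finrank F (Y ⊓ Y.map (Matrix.toLin' N.1) : Submodule F (Fin 4 → F)) ≤ finrank F Y :=
    Submodule.finrank_mono inf_le_left
  have heq : Y ⊓ Y.map (Matrix.toLin' N.1) = Y := Submodule.eq_of_le_of_finrank_eq inf_le_left (by omega)
  have hYN : Y ≤ Y.map (Matrix.toLin' N.1) := inf_eq_left.1 heq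
  obtain ⟨i, hi⟩ := Function.ne_iff.1 hx
  have hJ : ∀ y : Fin 2 → F, y 0 * s 1 - y 1 * s 0 = 0 := by
    intro y
    obtain ⟨_, ⟨y', rfl⟩, hy'⟩ := hYN ⟨y, rfl⟩
    rw [Matrix.toLin'_apply, tn_eq_ten, hN, tn_eq_ten] at hy'
    have e : ∀ j, x i * y j = (C *ᵥ y') i * s j := by
      intro j
      rw [← ten_repr c x y i j, ← hy', ten_repr]
    have : x i * (y 0 * s 1 - y 1 * s 0) = 0 := by linear_combination s 1 * e 0 - s 0 * e 1
    exact (mul_eq_zero.1 this).resolve_left hi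
  apply hs
  ext j
  have h0 := hJ (Pi.single 0 1)
  have h1 := hJ (Pi.single 1 1)
  simp at h0 h1
  fin_cases j
  · exact h1
  · exact h0

/-- reindexing -/
def E32 : (Σ _ : Fin 3, Fin 2 × Fin 2) ≃ Fin 2 × Fin (3 * 2) where
  toFun s := (s.2.1, finProdFinEquiv (s.1, s.2.2))
  invFun p := ⟨(finProdFinEquiv.symm p.2).1, (p.1, (finProdFinEquiv.symm p.2).2)⟩
  left_inv := by rintro ⟨i, a, d⟩; simp
  right_inv := by rintro ⟨a, l⟩; simp

theorem exists_basis32 (b : Basis (Fin 3 × Fin 4) F (ι → F)) (c : Basis (Fin 2 × Fin 2) F (Fin 4 → F)) :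
    ∃ b' : Basis (Fin 2 × Fin (3 * 2)) F (ι → F), ∀ a i d, b' (a, finProdFinEquiv (i, d)) = ten b (Pi.single i 1) (c (a, d)) := by
  classical
  let Φ₀ : (ι → F) →ₗ[F] (Fin 3 → Fin 4 → F) := LinearMap.pi fun i => row b i
  have hΦ₀ : ∀ (i : Fin 3) (z : Fin 4 → F), Φ₀ (ten b (Pi.single i 1) z) = Pi.single i z := by
    intro i z
    funext j
    show row b j (ten b (Pi.single i 1) z) = _
    rw [row_ten]
    by_cases h : j = i
    · subst h; rw [Pi.single_eq_same, Pi.single_eq_same, one_smul]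
    · rw [Pi.single_eq_of_ne h, Pi.single_eq_of_ne h, zero_smul]
  have hbij : Function.Bijective Φ₀ := by
    constructor
    · intro x y hxy
      exact row_ext b fun i => congrFun hxy i
    · intro y
      refine ⟨∑ i, ten b (Pi.single i 1) (y i), ?_⟩
      rw [map_sum]
      simp only [hΦ₀]
      exact Finset.univ_sum_single y
  let Φ := LinearEquiv.ofBijective Φ₀ hbij
  let b₀ := ((Pi.basis fun _ : Fin 3 => c).map Φ.symm).reindex E32
  refine ⟨b₀, fun a i d => ?_⟩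
  have h1 : E32.symm (a, finProdFinEquiv (i, d)) = ⟨i, (a, d)⟩ := by
    apply E32.injective
    rw [Equiv.apply_symm_apply]; rfl
  show ((Pi.basis fun _ : Fin 3 => c).map Φ.symm).reindex E32 (a, finProdFinEquiv (i, d)) = _
  rw [Basis.reindex_apply, h1, Basis.map_apply, Pi.basis_apply]
  apply Φ.injective
  rw [LinearEquiv.apply_symm_apply]
  exact (hΦ₀ i (c (a, d))).symm

theorem JJ_det : (JJ F).det = 1 := by
  simp [JJ, Matrix.det_fin_two]

theorem JJ_skew (i j : Fin 2) : JJ F i j = - JJ F j i := by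
  fin_cases i <;> fin_cases j <;> simp [JJ]

/-- a 3 x 4 tensor product of symmetric forms in a space of plus type -/
theorem tpS_to_tpA [Fintype F] (hQ : IsNondegenerateQuadraticForm Q) (h2 : (2 : F) ≠ 0) (hplus : IsPlusTypeOn Q ⊤)
    (hH : H ≤ omegaGL Q) (b : Basis (Fin 3 × Fin 4) F (ι → F))
    {f₁ : (Fin 3 → F) → (Fin 3 → F) → F} {f₂ : (Fin 4 → F) → (Fin 4 → F) → F}
    (hf₁ : FD (RingEquiv.refl F) 1 f₁) (hf₂ : FD (RingEquiv.refl F) 1 f₂)
    (hform : ∀ i l j l', QuadraticMap.polar Q (b (i, l)) (b (j, l')) = gramMatrix f₁ i j * gramMatrix f₂ l l')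
    (hkr : ∀ h ∈ H, ∃ (A : (Matrix (Fin 3) (Fin 3) F)ˣ) (N : (Matrix (Fin 4) (Fin 4) F)ˣ),
      KA b (h : Matrix ι ι F) A.1 N.1) :
    ∃ (b' : Basis (Fin 2 × Fin (3 * 2)) F (ι → F)) (g₁ : (Fin 2 → F) → (Fin 2 → F) → F)
      (g₂ : (Fin (3 * 2) → F) → (Fin (3 * 2) → F) → F), IsSymplecticForm g₁ ∧ IsSymplecticForm g₂ ∧
      (∀ i l j l', QuadraticMap.polar Q (b' (i, l)) (b' (j, l')) = gramMatrix g₁ i j * gramMatrix g₂ l l') ∧
      (∀ u v, Q (ten b' u v) = 0) ∧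
      (∀ h ∈ H, ∃ (A : (Matrix (Fin 2) (Fin 2) F)ˣ) (N : (Matrix (Fin (3 * 2)) (Fin (3 * 2)) F)ˣ),
        KA b' (h : Matrix ι ι F) A.1 N.1) := by
  classical
  have hP := omega_pres hH
  have hI := hP.iso
  have hqf := half_qf hf₂ h2
  set q : (Fin 4 → F) → F := fun u => 2⁻¹ * f₂ u u with hqd
  have hq := QF.nondegQ hf₂ hqf
  have hpol : ∀ u v, QuadraticMap.polar q u v = f₂ u v := fun u v => hqf.polar u v
  have hqplus : IsPlusTypeOn q ⊤ := by
    obtain ⟨U, hU, hUs, hUd⟩ := (tpS_type hQ h2 (m := 2) (by norm_num) b hf₁ hf₂ hform).1 hplus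
    refine ⟨U, hU, fun w hw => ?_, hUd⟩
    show 2⁻¹ * f₂ w w = 0
    have : f₂ w w = 0 := hUs w hw
    rw [this, mul_zero]
  obtain ⟨c, hc⟩ := exists_QB hq (Fintype.card_fin 4) hqplus
  obtain ⟨b', hb'⟩ := exists_basis32 b c
  -- the forms
  set G₂ : Matrix (Fin (3 * 2)) (Fin (3 * 2)) F := (gramMatrix f₁ ⊗ₖ JJ F).submatrix finProdFinEquiv.symm finProdFinEquiv.symm with hG₂
  have hG₂e : ∀ i d i' d', G₂ (finProdFinEquiv (i, d)) (finProdFinEquiv (i', d')) = gramMatrix f₁ i i' * JJ F d d' := by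
    intro i d i' d'
    rw [hG₂, Matrix.submatrix_apply, Equiv.symm_apply_apply, Equiv.symm_apply_apply, Matrix.kroneckerMap_apply]
  have hdet1 : (gramMatrix f₁).det ≠ 0 := by
    intro h0
    obtain ⟨w, hw, hw0⟩ := Matrix.exists_mulVec_eq_zero_iff.2 h0
    obtain ⟨⟨x, hx⟩, _⟩ := hf₁.nd w hw
    apply hx
    have hg : x ⬝ᵥ (gramMatrix f₁ *ᵥ w) = f₁ x w := by
      rw [form_expand hf₁]
      simp only [dotProduct, Matrix.mulVec, Finset.mul_sum]
      refine Finset.sum_congr rfl fun i _ => Finset.sum_congr rfl fun j _ => ?_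
      rw [RingEquiv.refl_apply]; ring
    rw [← hg, hw0, dotProduct_zero]
  have hdet2 : IsUnit G₂.det := by
    rw [hG₂, Matrix.det_submatrix_equiv_self, Matrix.det_kronecker, JJ_det, one_pow, mul_one, isUnit_iff_ne_zero]
    exact pow_ne_zero _ hdet1
  have hsymm : ∀ i j, gramMatrix f₁ i j = gramMatrix f₁ j i := by
    intro i j
    have := hf₁.herm (Pi.single i 1) (Pi.single j 1)
    rw [one_mul] at this
    exact this
  have hfd1 : FD (RingEquiv.refl F) (-1) (formOfGram (fun x => RingEquiv.refl F x) (JJ F)) :=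
    FD_of_gram (JJ F) (by rw [JJ_det]; exact isUnit_one) (fun i j => by
      rw [RingEquiv.refl_apply, neg_one_mul]; exact JJ_skew i j) (fun a => rfl) (Or.inr rfl)
  have hfd2 : FD (RingEquiv.refl F) (-1) (formOfGram (fun x => RingEquiv.refl F x) G₂) :=
    FD_of_gram G₂ hdet2 (fun l l' => by
      obtain ⟨⟨i, d⟩, rfl⟩ := finProdFinEquiv.surjective l
      obtain ⟨⟨i', d'⟩, rfl⟩ := finProdFinEquiv.surjective l'
      rw [RingEquiv.refl_apply, hG₂e, hG₂e, hsymm i' i, JJ_skew d d']; ring) (fun a => rfl) (Or.inr rfl)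
  have hg1 : gramMatrix (formOfGram (fun x => RingEquiv.refl F x) (JJ F)) = JJ F :=
    gramMatrix_formOfGram (JJ F) ((RingEquiv.refl F : F ≃+* F) : F →+* F)
  have hg2 : gramMatrix (formOfGram (fun x => RingEquiv.refl F x) G₂) = G₂ :=
    gramMatrix_formOfGram G₂ ((RingEquiv.refl F : F ≃+* F) : F →+* F)
  have hform' : ∀ i l j l', QuadraticMap.polar Q (b' (i, l)) (b' (j, l')) =
      gramMatrix (formOfGram (fun x => RingEquiv.refl F x) (JJ F)) i j *
        gramMatrix (formOfGram (fun x => RingEquiv.refl F x) G₂) l l' := by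
    intro a l a' l'
    obtain ⟨⟨i, d⟩, rfl⟩ := finProdFinEquiv.surjective l
    obtain ⟨⟨i', d'⟩, rfl⟩ := finProdFinEquiv.surjective l'
    rw [hg1, hg2, hG₂e, hb', hb', ten_form b (fdQ hQ) hf₁ hf₂ hform, ← hpol, hc.gram]
    show gramMatrix f₁ i i' * (JJ F a a' * JJ F d d') = _
    ring
  refine ⟨b', _, _, symp_of_fd hfd1 (alt_of_neg hfd1 h2), symp_of_fd hfd2 (alt_of_neg hfd2 h2), hform',
    tp_sing_odd b' hQ h2 hfd1 hfd2 hform' (alt_of_neg hfd1 h2), ?_⟩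
  intro h hh
  obtain ⟨A, N, hk⟩ := hkr h hh
  have hNinj : ∀ z, N.1 *ᵥ z = 0 → z = 0 := by
    intro z hz
    have h1 : (N⁻¹).1 * N.1 = 1 := by rw [← Units.val_mul, inv_mul_cancel, Units.val_one]
    have h3 : (N⁻¹).1 *ᵥ (N.1 *ᵥ z) = z := by rw [Matrix.mulVec_mulVec, h1, Matrix.one_mulVec]
    rw [← h3, hz, Matrix.mulVec_zero]
  obtain ⟨s, hs0, hs⟩ := ten_sim b (fdQ hQ) hf₁ hf₂ (by norm_num) hform (hI h hh) hk (by norm_num)
  obtain ⟨B, C, hBC⟩ := tensor_of_fam (c := c) hNinj (fun x hx => by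
    rcases fam hq hc hNinj (fun z hz => by
      show 2⁻¹ * f₂ (N.1 *ᵥ z) (N.1 *ᵥ z) = 0
      rw [hs]
      have : 2⁻¹ * f₂ z z = 0 := hz
      linear_combination s * this) (fun z z' hz => by
      rw [hpol, hs, ← hpol, hz, mul_zero]) hx with h1 | ⟨t, C, ht, hC⟩
    · exact h1
    · exact (no_zfam hQ h2 b hf₁ hf₂ hform hq hpol hc (hH hh) hk hx ht hC).elim)
  set N' : Matrix (Fin (3 * 2)) (Fin (3 * 2)) F := (A.1 ⊗ₖ C.1).submatrix finProdFinEquiv.symm finProdFinEquiv.symm with hN'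
  have hN'e : ∀ i d i' d', N' (finProdFinEquiv (i, d)) (finProdFinEquiv (i', d')) = A.1 i i' * C.1 d d' := by
    intro i d i' d'
    rw [hN', Matrix.submatrix_apply, Equiv.symm_apply_apply, Equiv.symm_apply_apply, Matrix.kroneckerMap_apply]
  have hN'u : IsUnit N' := by
    rw [Matrix.isUnit_iff_isUnit_det, hN', Matrix.det_submatrix_equiv_self, Matrix.det_kronecker]
    have h1 : IsUnit A.1.det := (Matrix.isUnit_iff_isUnit_det _).1 A.isUnit
    have h3 : IsUnit C.1.det := (Matrix.isUnit_iff_isUnit_det _).1 C.isUnit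
    exact (h1.pow _).mul (h3.pow _)
  obtain ⟨N'', hN''⟩ := hN'u
  refine ⟨B, N'', ?_⟩
  rw [hN'']
  intro a l
  obtain ⟨⟨i, d⟩, rfl⟩ := finProdFinEquiv.surjective l
  rw [hb', ten_act b hk]
  have h1 : N.1 *ᵥ c (a, d) = ten c (B.1 *ᵥ Pi.single a 1) (C.1 *ᵥ Pi.single d 1) := by
    rw [← ten_single c a d, hBC]
  rw [h1]
  apply row_ext b
  intro r
  rw [row_ten, map_sum]
  have h3 : ∀ a', row b r (∑ l', (B.1 a' a * N' l' (finProdFinEquiv (i, d))) • b' (a', l')) =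
      ∑ d', (B.1 a' a * (A.1 r i * C.1 d' d)) • c (a', d') := by
    intro a'
    rw [map_sum, ← finProdFinEquiv.sum_comp, Fintype.sum_prod_type, Finset.sum_eq_single r]
    · refine Finset.sum_congr rfl fun d' _ => ?_
      rw [map_smul, hN'e, hb', row_ten, Pi.single_eq_same, one_smul]
    · intro r' _ hr'
      refine Finset.sum_eq_zero fun d' _ => ?_
      rw [map_smul, hb', row_ten, Pi.single_eq_of_ne (Ne.symm hr'), zero_smul, smul_zero]
    · intro h; exact absurd (Finset.mem_univ r) h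
  simp only [h3]
  have h4 : (A.1 *ᵥ Pi.single i 1) r = A.1 r i := by simp
  have h5 : ∀ a', (B.1 *ᵥ Pi.single a 1) a' = B.1 a' a := by simp
  have h6 : ∀ d', (C.1 *ᵥ Pi.single d 1) d' = C.1 d' d := by simp
  rw [h4, ten, Finset.smul_sum]
  refine Finset.sum_congr rfl fun a' _ => ?_
  rw [Finset.smul_sum]
  refine Finset.sum_congr rfl fun d' _ => ?_
  rw [smul_smul, h5, h6]
  congr 1
  ring

end CfsgLib.OmE
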