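import Cfsg.Agent.LibOmOddH12

set_option autoImplicit false
set_option linter.unusedSectionVars false

/-! Decompositions into three-dimensional spaces over the field with three elements (seat helper12). -/

namespace CfsgLib.OmH12

open Module Cfsg Cfsg.Geo Cfsg.Agent.H22 CfsgLib.AschF
open scoped Matrix MatrixGroups Kronecker

section three
variable {ι : Type} [Fintype ι] [DecidableEq ι] {F : Type*} [Field F] [Fintype F] {Q : (ι → F) → F}

/-- a nondegenerate subspace of odd dimension has an orthogonal basis of vectors of equal norm -/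
theorem orth_basis (hQ : IsNondegenerateQuadraticForm Q) (h2 : (2 : F) ≠ 0) {k : ℕ} (hk : Odd k) {W : Submodule F (ι → F)}
    (hd : finrank F W = k) (hW : IsNondegenerateOn (QuadraticMap.polar Q) W) :
    ∃ (w : Fin k → ι → F) (c : F), c ≠ 0 ∧ (∀ j, w j ∈ W) ∧
      ∀ i j, QuadraticMap.polar Q (w i) (w j) = if i = j then c else 0 := by
  classical
  have hf := fd_of_quad hQ
  let b := Module.finBasisOfFinrankEq F W hd
  let L : (Fin k → F) →ₗ[F] (ι → F) := W.subtype.comp (b.equivFun.symm : (Fin k → F) →ₗ[F] W)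
  have hL : ∀ u, L u ∈ W := fun u => (b.equivFun.symm u).2
  have hLsurj : ∀ x ∈ W, ∃ u, L u = x := by
    intro x hx
    refine ⟨b.equivFun ⟨x, hx⟩, ?_⟩
    change ((b.equivFun.symm (b.equivFun ⟨x, hx⟩) : W) : ι → F) = x
    rw [LinearEquiv.symm_apply_apply]
  have hLinj : ∀ u, L u = 0 → u = 0 := by
    intro u hu
    have h1 : b.equivFun.symm u = 0 := Subtype.ext hu
    exact (LinearEquiv.map_eq_zero_iff _).1 h1
  let f₁ : (Fin k → F) → (Fin k → F) → F := fun u v => QuadraticMap.polar Q (L u) (L v)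
  have hf₁ : FD (RingEquiv.refl F) 1 f₁ :=
    { sesq := ⟨fun x y v => by simp only [f₁, map_add]; exact hf.add_left _ _ _,
        fun c x v => by simp only [f₁, map_smul]; exact hf.smul_left _ _ _,
        fun v x y => by simp only [f₁, map_add]; exact hf.add_right _ _ _,
        fun c v x => by simp only [f₁, map_smul]; exact hf.smul_right _ _ _⟩
      nd := by
        intro v hv
        have hLv : L v ≠ 0 := fun h => hv (hLinj v h)
        obtain ⟨⟨x, hx, hx1⟩, ⟨y, hy, hy1⟩⟩ := hW (L v) (hL v) hLv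
        obtain ⟨x', rfl⟩ := hLsurj x hx
        obtain ⟨y', rfl⟩ := hLsurj y hy
        exact ⟨⟨x', hx1⟩, ⟨y', hy1⟩⟩
      sq := fun _ => rfl
      herm := fun u v => hf.herm _ _
      eps := Or.inl rfl }
  obtain ⟨M, c, hc, hM⟩ := sym_similar hk hf₁ h2
  exact ⟨fun j => L (M.1 *ᵥ Pi.single j 1), c, hc, fun j => hL _, hM⟩

/-- the refinement of a decomposition into 3-spaces over `F₃` -/
theorem space_three (hQ : IsNondegenerateQuadraticForm Q) (hF : Fintype.card F = 3) {s : ℕ} {D : Fin s → Submodule F (ι → F)}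
    (hD : IsOrthogonalMDecomposition Q 3 D) {H : Subgroup (GL ι F)}
    (hH : H ≤ isometryGroup F Q) (hle : H ≤ decompositionStabilizer D) :
    ∃ D' : Fin (s * 3) → Submodule F (ι → F), IsOrthogonalMDecomposition Q 1 D' ∧ H ≤ decompositionStabilizer D' := by
  classical
  have hf := fd_of_quad hQ
  have h3 : (3 : F) = 0 := by
    have h1 : ((Fintype.card F : ℕ) : F) = 0 := FiniteField.cast_card_eq_zero F
    rw [hF] at h1
    exact_mod_cast h1
  have h2 : (2 : F) ≠ 0 := by
    intro h2
    have : (1 : F) = 0 := by linear_combination h3 - h2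
    exact one_ne_zero this
  have hsq : ∀ x : F, x ≠ 0 → x ^ 2 = 1 := by
    intro x hx
    have := FiniteField.pow_card_sub_one_eq_one x hx
    rwa [hF] at this
  have hs := hD.decomp.decomp.two_le
  set i₀ : Fin s := ⟨0, by omega⟩ with hi₀
  obtain ⟨w₀, c, hc, hw₀, hww₀⟩ := orth_basis hQ h2 (by decide : Odd 3) (hD.decomp.decomp.finrank_eq i₀)
    (hD.decomp.nondegenerate i₀)
  choose e he using fun i => hD.isometric i₀ i
  let w : Fin s → Fin 3 → ι → F := fun i j => (e i ⟨w₀ j, hw₀ j⟩ : D i)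
  have hwD : ∀ i j, w i j ∈ D i := fun i j => (e i ⟨w₀ j, hw₀ j⟩ : D i).2
  have hww : ∀ i j k, QuadraticMap.polar Q (w i j) (w i k) = if j = k then c else 0 := by
    intro i j k
    have h1 : QuadraticMap.polar Q (w i j) (w i k) = QuadraticMap.polar Q (w₀ j) (w₀ k) := by
      have e1 : w i j + w i k = ((e i (⟨w₀ j, hw₀ j⟩ + ⟨w₀ k, hw₀ k⟩) : D i) : ι → F) := by
        rw [map_add]; rfl
      rw [QuadraticMap.polar, QuadraticMap.polar, e1, he]
      change _ - Q ((e i ⟨w₀ j, hw₀ j⟩ : D i) : ι → F) - Q ((e i ⟨w₀ k, hw₀ k⟩ : D i) : ι → F) = _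
      rw [he, he]
      rfl
    rw [h1, hww₀]
  have hwo : ∀ i i' j k, i ≠ i' → QuadraticMap.polar Q (w i j) (w i' k) = 0 := by
    intro i i' j k hii
    exact hD.decomp.orthogonal i i' hii _ (hwD i j) _ (hwD i' k)
  have hall : ∀ p q : Fin s × Fin 3, QuadraticMap.polar Q (w p.1 p.2) (w q.1 q.2) = if p = q then c else 0 := by
    intro p q
    by_cases h : p.1 = q.1
    · rw [← h, hww]
      by_cases h' : p.2 = q.2
      · rw [if_pos h', if_pos (Prod.ext h h')]
      · rw [if_neg h', if_neg (fun h0 => h' (congrArg Prod.snd h0))]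
    · rw [hwo _ _ _ _ h, if_neg (fun h0 => h (congrArg Prod.fst h0))]
  have hli : LinearIndependent F (fun p : Fin s × Fin 3 => w p.1 p.2) := by
    rw [Fintype.linearIndependent_iff]
    intro g hg p
    have h1 : QuadraticMap.polar Q (∑ q : Fin s × Fin 3, g q • w q.1 q.2) (w p.1 p.2) = g p * c := by
      rw [hf.sum_left, Finset.sum_eq_single p]
      · rw [hf.smul_left, hall, if_pos rfl]
      · intro q _ hq
        rw [hf.smul_left, hall, if_neg hq, mul_zero]
      · simp
    rw [hg, hf.zero_left] at h1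
    exact (mul_eq_zero.1 h1.symm).resolve_right hc
  have hcardn : Fintype.card (Fin s × Fin 3) = finrank F (ι → F) := by
    classical
    have hint : DirectSum.IsInternal D :=
      DirectSum.isInternal_submodule_of_iSupIndep_of_iSup_eq_top hD.decomp.decomp.indep hD.decomp.decomp.iSup_eq_top
    have b := hint.collectedBasis fun i => Module.finBasisOfFinrankEq F (D i) (hD.decomp.decomp.finrank_eq i)
    have h1 := Module.finrank_eq_card_basis b
    rw [h1]
    simp
  have : Nonempty (Fin s × Fin 3) := ⟨(i₀, 0)⟩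
  let b : Basis (Fin s × Fin 3) F (ι → F) := basisOfLinearIndependentOfCardEqFinrank hli hcardn
  have hb : ∀ p, b p = w p.1 p.2 := fun p => by
    rw [coe_basisOfLinearIndependentOfCardEqFinrank]
  let b' : Basis (Fin (s * 3)) F (ι → F) := b.reindex finProdFinEquiv
  have hb' : ∀ k, b' k = w (finProdFinEquiv.symm k).1 (finProdFinEquiv.symm k).2 := by
    intro k
    rw [Basis.reindex_apply, hb]
  -- spanning of the blocks
  have hspan : ∀ i, ∀ x ∈ D i, ∃ a : Fin 3 → F, x = ∑ k, a k • w i k := by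
    intro i x hx
    have hlii : LinearIndependent F (w i) := by
      have := hli.comp (fun k : Fin 3 => (i, k)) (fun a b h => congrArg Prod.snd h)
      exact this
    have hle2 : Submodule.span F (Set.range (w i)) ≤ D i := by
      rw [Submodule.span_le]
      rintro _ ⟨k, rfl⟩
      exact hwD i k
    have heq := Submodule.eq_of_le_of_finrank_eq hle2 (by
      rw [finrank_span_eq_card hlii, Fintype.card_fin, hD.decomp.decomp.finrank_eq])
    rw [← heq] at hx
    obtain ⟨a, ha⟩ := (Submodule.mem_span_range_iff_exists_fun F).1 hx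
    exact ⟨a, ha.symm⟩
  have hmono : ∀ h ∈ H, ∀ x, ∃ (a : F) (y : Fin (s * 3)), a ≠ 0 ∧ (h : Matrix ι ι F) *ᵥ b' x = a • b' y := by
    intro h hh x
    obtain ⟨σ, hσ⟩ := hle hh
    obtain ⟨p, hp⟩ : ∃ p, p = finProdFinEquiv.symm x := ⟨_, rfl⟩
    rw [hb', ← hp]
    have hmem : (h : Matrix ι ι F) *ᵥ w p.1 p.2 ∈ D (σ p.1) := by
      rw [← hσ]
      exact ⟨_, hwD p.1 p.2, by rw [Matrix.toLin'_apply]⟩
    obtain ⟨a, ha⟩ := hspan _ _ hmem
    have hnorm : QuadraticMap.polar Q ((h : Matrix ι ι F) *ᵥ w p.1 p.2) ((h : Matrix ι ι F) *ᵥ w p.1 p.2) = c := by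
      rw [iso_of_le hH h hh, hww, if_pos rfl]
    have hsum : QuadraticMap.polar Q (∑ k, a k • w (σ p.1) k) (∑ k, a k • w (σ p.1) k) = (a 0 * a 0 + a 1 * a 1 + a 2 * a 2) * c := by
      simp only [Fin.sum_univ_three, hf.add_left, hf.add_right, hf.smul_left, hf.smul_right, hww, RingEquiv.refl_apply]
      simp
      ring
    rw [ha, hsum] at hnorm
    have h1 : a 0 * a 0 + a 1 * a 1 + a 2 * a 2 = 1 := by
      have h5 : (a 0 * a 0 + a 1 * a 1 + a 2 * a 2 - 1) * c = 0 := by linear_combination hnorm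
      rcases mul_eq_zero.1 h5 with h6 | h6
      · linear_combination h6
      · exact absurd h6 hc
    have h4 : ∀ x : F, x * x = 0 ∧ x = 0 ∨ x * x = 1 ∧ x ≠ 0 := by
      intro x
      by_cases hx : x = 0
      · left; exact ⟨by rw [hx]; ring, hx⟩
      · right; exact ⟨by rw [← pow_two]; exact hsq x hx, hx⟩
    have h10 : (1 : F) ≠ 0 := one_ne_zero
    have hone : ∃ k, a k ≠ 0 ∧ ∀ l, l ≠ k → a l = 0 := by
      rcases h4 (a 0) with ⟨e0, z0⟩ | ⟨e0, z0⟩ <;> rcases h4 (a 1) with ⟨e1, z1⟩ | ⟨e1, z1⟩ <;>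
        rcases h4 (a 2) with ⟨e2, z2⟩ | ⟨e2, z2⟩ <;> rw [e0, e1, e2] at h1
      · exact absurd (by linear_combination -h1) h10
      · exact ⟨2, z2, by intro l hl; fin_cases l <;> simp_all⟩
      · exact ⟨1, z1, by intro l hl; fin_cases l <;> simp_all⟩
      · exact absurd (by linear_combination h1) h10
      · exact ⟨0, z0, by intro l hl; fin_cases l <;> simp_all⟩
      · exact absurd (by linear_combination h1) h10
      · exact absurd (by linear_combination h1) h10
      · exact absurd (by linear_combination h3 - h1) h10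
    obtain ⟨k, hk, hk'⟩ := hone
    refine ⟨a k, finProdFinEquiv (σ p.1, k), hk, ?_⟩
    rw [ha, hb', Equiv.symm_apply_apply, Finset.sum_eq_single k]
    · intro l _ hl
      rw [hk' l hl, zero_smul]
    · simp
  obtain ⟨r1, r2⟩ := frame_dec hQ (by omega) b' (c := c / 2) (by
    intro i j hij
    rw [hb', hb', hall, if_neg]
    intro h0
    exact hij (finProdFinEquiv.symm.injective h0)) (by
    intro i
    rw [hb', hww, if_pos rfl]; exact hc) (by
    intro i
    rw [hb']
    have h1 := hww (finProdFinEquiv.symm i).1 (finProdFinEquiv.symm i).2 (finProdFinEquiv.symm i).2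
    rw [if_pos rfl, quad_self hQ] at h1
    rw [← h1]; field_simp) hmono
  exact ⟨_, r1, r2⟩

end three

end CfsgLib.OmH12
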