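import Cfsg.Agent.LibOmParH12
import Cfsg.Agent.LibAschF31

set_option autoImplicit false
set_option linter.unusedSectionVars false

/-! Maximal subgroups of odd-dimensional orthogonal groups: common part (seat helper12). -/

namespace CfsgLib.OmH12

open Module Cfsg Cfsg.Geo Cfsg.Agent.H22 CfsgLib.AschF
open scoped Matrix MatrixGroups Kronecker

section gen
variable {ι : Type} [Fintype ι] [DecidableEq ι] {F : Type*} [Field F]

theorem fd_of_quad {Q : (ι → F) → F} (hQ : IsNondegenerateQuadraticForm Q) : FD (RingEquiv.refl F) 1 (QuadraticMap.polar Q) where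
  sesq := ⟨fun x y v => hQ.polar_bilinear.add_left x y v, fun c x v => hQ.polar_bilinear.smul_left c x v,
    fun v x y => hQ.polar_bilinear.add_right v x y, fun c v x => hQ.polar_bilinear.smul_right c v x⟩
  nd := hQ.nondegenerate
  sq := fun _ => rfl
  herm := fun u v => by rw [QuadraticMap.polar_comm, one_mul]; rfl
  eps := Or.inl rfl

theorem quad_self {Q : (ι → F) → F} (hQ : IsNondegenerateQuadraticForm Q) (v : ι → F) : QuadraticMap.polar Q v v = 2 * Q v := by
  have h1 : v + v = (2 : F) • v := by rw [two_smul]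
  rw [QuadraticMap.polar, h1, hQ.smul]; ring

theorem iso_of_le {Q : (ι → F) → F} {H : Subgroup (GL ι F)} (hH : H ≤ isometryGroup F Q) : Iso (QuadraticMap.polar Q) H := by
  intro g hg u v
  have h1 : ∀ v, Q ((g : Matrix ι ι F) *ᵥ v) = Q v := fun v => hH hg v v
  simp only [QuadraticMap.polar, ← Matrix.mulVec_add, h1]

/-- a group monomial on an orthogonal basis of vectors of equal norm -/
theorem frame_dec {Q : (ι → F) → F} (hQ : IsNondegenerateQuadraticForm Q) {n : ℕ} (hn : 2 ≤ n) (b : Basis (Fin n) F (ι → F))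
    {c : F} (hbb : ∀ i j, i ≠ j → QuadraticMap.polar Q (b i) (b j) = 0) (hbn : ∀ i, QuadraticMap.polar Q (b i) (b i) ≠ 0)
    (hbQ : ∀ i, Q (b i) = c) {H : Subgroup (GL ι F)}
    (hmono : ∀ h ∈ H, ∀ x, ∃ (a : F) (y : Fin n), a ≠ 0 ∧ (h : Matrix ι ι F) *ᵥ b x = a • b y) :
    IsOrthogonalMDecomposition Q 1 (fun i => Submodule.span F {b i}) ∧
      H ≤ decompositionStabilizer (fun i => Submodule.span F {b i}) := by
  classical
  have hf := fd_of_quad hQ
  refine ⟨⟨⟨⟨hn, by norm_num, fun i => finrank_span_singleton (b.ne_zero _), b.linearIndependent.iSupIndep_span_singleton, ?_⟩, ?_, ?_⟩, ?_⟩, ?_⟩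
  · rw [eq_top_iff, ← b.span_eq, Submodule.span_le]
    rintro _ ⟨x, rfl⟩
    exact Submodule.mem_iSup_of_mem x (Submodule.mem_span_singleton_self _)
  · intro i w hw hw0
    obtain ⟨a, rfl⟩ := Submodule.mem_span_singleton.1 hw
    have ha : a ≠ 0 := by rintro rfl; exact hw0 (zero_smul _ _)
    refine ⟨⟨b i, Submodule.mem_span_singleton_self _, ?_⟩, ⟨b i, Submodule.mem_span_singleton_self _, ?_⟩⟩
    · rw [hf.smul_right]; exact mul_ne_zero ha (hbn i)
    · rw [hf.smul_left]; exact mul_ne_zero ha (hbn i)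
  · intro i j hij u hu v hv
    obtain ⟨a, rfl⟩ := Submodule.mem_span_singleton.1 hu
    obtain ⟨a', rfl⟩ := Submodule.mem_span_singleton.1 hv
    rw [hf.smul_right, hf.smul_left, hbb i j hij]; simp
  · intro i j
    refine ⟨(LinearEquiv.toSpanNonzeroSingleton F (ι → F) (b i) (b.ne_zero i)).symm.trans
      (LinearEquiv.toSpanNonzeroSingleton F (ι → F) (b j) (b.ne_zero j)), ?_⟩
    intro w
    obtain ⟨a, rfl⟩ := (LinearEquiv.toSpanNonzeroSingleton F (ι → F) (b i) (b.ne_zero i)).surjective w
    rw [LinearEquiv.trans_apply, LinearEquiv.symm_apply_apply]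
    change Q (a • b j) = Q (a • b i)
    rw [hQ.smul, hQ.smul, hbQ, hbQ]
  · intro h hh
    choose a y ha hy using hmono h hh
    have hinj : Function.Injective y := by
      intro i j hij
      by_contra hne
      have h1 : (h : Matrix ι ι F) *ᵥ ((a j) • b i - (a i) • b j) = 0 := by
        rw [Matrix.mulVec_sub, Matrix.mulVec_smul, Matrix.mulVec_smul, hy, hy, hij, smul_smul, smul_smul, mul_comm, sub_self]
      have h2 : (a j) • b i - (a i) • b j = 0 := by
        have := congrArg (fun v => ((h⁻¹ : GL ι F) : Matrix ι ι F) *ᵥ v) h1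
        simp only [Matrix.mulVec_mulVec, ← Units.val_mul, inv_mul_cancel, Units.val_one, Matrix.one_mulVec, Matrix.mulVec_zero] at this
        exact this
      have h3 := b.linearIndependent
      rw [Fintype.linearIndependent_iff] at h3
      have h4 := h3 (fun k => (if k = i then a j else 0) - (if k = j then a i else 0)) (by
        simp only [sub_smul, ite_smul, zero_smul, Finset.sum_sub_distrib, Finset.sum_ite_eq', Finset.mem_univ, if_true]
        exact h2) i
      simp [hne] at h4
      exact ha j h4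
    refine ⟨Equiv.ofBijective y (Finite.injective_iff_bijective.1 hinj), fun i => ?_⟩
    change (Submodule.span F {b i}).map _ = Submodule.span F {b (y i)}
    rw [Submodule.map_span, Set.image_singleton, Matrix.toLin'_apply, hy]
    exact Submodule.span_singleton_smul_eq (isUnit_iff_ne_zero.2 (ha i)) _

end gen

section odd
variable {ι : Type} [Fintype ι] [DecidableEq ι] {F : Type*} [Field F] [Fintype F] {Q : (ι → F) → F}

theorem two_ne_of_odd (hodd : Odd (Fintype.card F)) : (2 : F) ≠ 0 := by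
  intro h2
  exact not_odd_of_two h2 hodd

/-- the plus-type plane over the field with three elements -/
theorem plane_three (hQ : IsNondegenerateQuadraticForm Q) (hF : Fintype.card F = 3) {H : Subgroup (GL ι F)}
    (hH : H ≤ isometryGroup F Q) {W : Submodule F (ι → F)} (hW : IsNondegenerateOn (QuadraticMap.polar Q) W)
    (hd : finrank F W = 2) (hp : IsPlusTypeOn Q W) (hle : H ≤ subspaceStabilizer W) :
    ∃ x : ι → F, Q x ≠ 0 ∧ H ≤ subspaceStabilizer (Submodule.span F {x}) := by
  have hf := fd_of_quad hQ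
  obtain ⟨U, hUW, hU, hUd⟩ := hp
  rw [hd] at hUd
  have hU1 : finrank F U = 1 := by omega
  obtain ⟨u, hu, hu0⟩ := Submodule.exists_mem_ne_zero_of_ne_bot (p := U) (by rintro rfl; rw [finrank_bot] at hU1; omega)
  have hQu : Q u = 0 := hU u hu
  obtain ⟨_, ⟨v, hv, huv⟩⟩ := hW u (hUW hu) hu0
  -- hyperbolic partner
  obtain ⟨v', hv', huv', hQv'⟩ : ∃ v' ∈ W, QuadraticMap.polar Q u v' = 1 ∧ Q v' = 0 := by
    have hvW : v ∈ W := hv
    set c := QuadraticMap.polar Q u v with hc
    have h1 : QuadraticMap.polar Q u (c⁻¹ • v) = 1 := by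
      rw [hf.smul_right]; exact inv_mul_cancel₀ huv
    refine ⟨c⁻¹ • v - Q (c⁻¹ • v) • u, W.sub_mem (W.smul_mem _ hvW) (W.smul_mem _ (hUW hu)), ?_, ?_⟩
    · rw [hf.sub_right, h1, hf.smul_right, quad_self hQ, hQu]; simp
    · have h2 : Q (c⁻¹ • v - Q (c⁻¹ • v) • u) = Q (c⁻¹ • v) + Q (-(Q (c⁻¹ • v)) • u) + QuadraticMap.polar Q (c⁻¹ • v) (-(Q (c⁻¹ • v)) • u) := by
        have : c⁻¹ • v - Q (c⁻¹ • v) • u = c⁻¹ • v + (-(Q (c⁻¹ • v)) • u) := by rw [neg_smul, sub_eq_add_neg]
        rw [this, QuadraticMap.polar]; ring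
      rw [h2, hQ.smul (-(Q (c⁻¹ • v))), hQu, hf.smul_right, QuadraticMap.polar_comm, h1]
      change Q (c⁻¹ • v) + _ + (-(Q (c⁻¹ • v))) * 1 = 0
      ring
  have hspan : ∀ x ∈ W, ∃ a b : F, x = a • u + b • v' := by
    intro x hx
    have hli : LinearIndependent F ![u, v'] := by
      rw [LinearIndependent.pair_iff]
      intro s t hst
      have h1 : QuadraticMap.polar Q u (s • u + t • v') = t := by
        rw [hf.add_right, hf.smul_right, hf.smul_right, quad_self hQ, hQu, huv']
        change s * (2 * 0) + t * 1 = t; ring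
      have h2 : QuadraticMap.polar Q v' (s • u + t • v') = s := by
        rw [hf.add_right, hf.smul_right, hf.smul_right, quad_self hQ, hQv', QuadraticMap.polar_comm, huv']
        change s * 1 + t * (2 * 0) = s; ring
      rw [hst, hf.zero_right] at h1 h2
      exact ⟨h2.symm, h1.symm⟩
    have hle2 : Submodule.span F (Set.range ![u, v']) ≤ W := by
      rw [Submodule.span_le]
      rintro _ ⟨i, rfl⟩
      fin_cases i
      · exact hUW hu
      · exact hv'
    have heq := Submodule.eq_of_le_of_finrank_eq hle2 (by rw [finrank_span_eq_card hli, Fintype.card_fin, hd])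
    rw [← heq] at hx
    rw [Matrix.range_cons, Matrix.range_cons, Matrix.range_empty, Set.union_empty, Set.singleton_union] at hx
    obtain ⟨a, b, h⟩ := Submodule.mem_span_pair.1 hx
    exact ⟨a, b, h.symm⟩
  have hQab : ∀ a b : F, Q (a • u + b • v') = a * b := by
    intro a b
    have h1 : Q (a • u + b • v') = Q (a • u) + Q (b • v') + QuadraticMap.polar Q (a • u) (b • v') := by
      rw [QuadraticMap.polar]; ring
    rw [h1, hQ.smul, hQ.smul, hQu, hQv', hf.smul_left, hf.smul_right, huv']
    change a ^ 2 * 0 + b ^ 2 * 0 + a * (b * 1) = a * b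
    ring
  have hx1 : Q (u + v') = 1 := by
    have := hQab 1 1
    rwa [one_smul, one_smul, one_mul] at this
  have hxW : u + v' ∈ W := W.add_mem (hUW hu) hv'
  refine ⟨u + v', by rw [hx1]; exact one_ne_zero, ?_⟩
  apply mem_stab
  intro g hg v hv
  obtain ⟨c, rfl⟩ := Submodule.mem_span_singleton.1 hv
  rw [Matrix.mulVec_smul]
  apply Submodule.smul_mem
  obtain ⟨a, b, hab⟩ := hspan _ (stab_mem hle g hg _ hxW)
  have h1 : Q ((g : Matrix ι ι F) *ᵥ (u + v')) = 1 := by
    have : Q ((g : Matrix ι ι F) *ᵥ (u + v')) = Q (u + v') := hH hg _ 0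
    rw [this, hx1]
  rw [hab, hQab] at h1
  have hsq : ∀ x : F, x ≠ 0 → x ^ 2 = 1 := by
    intro x hx
    have := FiniteField.pow_card_sub_one_eq_one x hx
    rwa [hF] at this
  have ha : a ≠ 0 := by rintro rfl; rw [zero_mul] at h1; exact zero_ne_one h1
  have hba : b = a := by
    have := hsq a ha
    have h3 : a * (b - a) = 0 := by linear_combination h1 - this
    rcases mul_eq_zero.1 h3 with h | h
    · exact absurd h ha
    · exact sub_eq_zero.1 h
  rw [hab, hba, ← smul_add]
  exact Submodule.smul_mem _ _ (Submodule.mem_span_singleton_self _)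

/-- the complement -/
theorem perp_data (hQ : IsNondegenerateQuadraticForm Q) {H : Subgroup (GL ι F)}
    (hH : H ≤ isometryGroup F Q) {W : Submodule F (ι → F)} (hW : IsNondegenerateOn (QuadraticMap.polar Q) W)
    (hle : H ≤ subspaceStabilizer W) :
    ∃ W' : Submodule F (ι → F), IsNondegenerateOn (QuadraticMap.polar Q) W' ∧ finrank F W + finrank F W' = Fintype.card ι ∧
      H ≤ subspaceStabilizer W' := by
  have hf := fd_of_quad hQ
  refine ⟨perp hf W, nondeg_perp hf ((nondeg_iff hf W).1 hW), ?_, ?_⟩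
  · exact finrank_perp hf W
  · exact mem_stab (perp_stab hf (iso_of_le hH) (fun g hg v hv => stab_mem hle g hg v hv))

/-- nondegenerate subspaces in odd dimension -/
theorem nond_case (hQ : IsNondegenerateQuadraticForm Q) (hodd : Odd (Fintype.card F)) (hn : 5 ≤ Fintype.card ι)
    (hno : Odd (Fintype.card ι)) {H : Subgroup (GL ι F)} (hH : IsMaximalIn (omegaGL Q) H)
    {W : Submodule F (ι → F)} (h0 : W ≠ ⊥) (h1 : W ≠ ⊤) (hW : IsNondegenerateOn (QuadraticMap.polar Q) W)
    (hle : H ≤ subspaceStabilizer W) :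
    ∃ W' : Submodule F (ι → F), W' ≠ ⊥ ∧ Even (Module.finrank F W') ∧ IsNondegenerateOn (QuadraticMap.polar Q) W' ∧
      ¬ (Fintype.card F = 3 ∧ Module.finrank F W' = 2 ∧ IsPlusTypeOn Q W') ∧ H = subspaceStabilizer W' ⊓ omegaGL Q := by
  have hHI := hH.1.le.trans (omega_le_isometry Q)
  have h2 := two_ne_of_odd hodd
  -- an even-dimensional one
  have key : ∀ W : Submodule F (ι → F), W ≠ ⊥ → W ≠ ⊤ → IsNondegenerateOn (QuadraticMap.polar Q) W → H ≤ subspaceStabilizer W →
      Even (finrank F W) → ¬ (Fintype.card F = 3 ∧ Module.finrank F W = 2 ∧ IsPlusTypeOn Q W) →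
      ∃ W' : Submodule F (ι → F), W' ≠ ⊥ ∧ Even (Module.finrank F W') ∧ IsNondegenerateOn (QuadraticMap.polar Q) W' ∧
      ¬ (Fintype.card F = 3 ∧ Module.finrank F W' = 2 ∧ IsPlusTypeOn Q W') ∧ H = subspaceStabilizer W' ⊓ omegaGL Q := by
    intro W h0 h1 hW hle he hne
    exact ⟨W, h0, he, hW, hne, eq_of_max hH hle (omega_not_stab hQ hn h0 h1)⟩
  have key2 : ∀ W : Submodule F (ι → F), W ≠ ⊥ → W ≠ ⊤ → IsNondegenerateOn (QuadraticMap.polar Q) W → H ≤ subspaceStabilizer W →
      Even (finrank F W) →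
      ∃ W' : Submodule F (ι → F), W' ≠ ⊥ ∧ Even (Module.finrank F W') ∧ IsNondegenerateOn (QuadraticMap.polar Q) W' ∧
      ¬ (Fintype.card F = 3 ∧ Module.finrank F W' = 2 ∧ IsPlusTypeOn Q W') ∧ H = subspaceStabilizer W' ⊓ omegaGL Q := by
    intro W h0 h1 hW hle he
    by_cases hne : Fintype.card F = 3 ∧ Module.finrank F W = 2 ∧ IsPlusTypeOn Q W
    swap
    · exact key W h0 h1 hW hle he hne
    obtain ⟨x, hx, hxH⟩ := plane_three hQ hne.1 hHI hW hne.2.1 hne.2.2 hle
    have hx0 : x ≠ 0 := by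
      rintro rfl
      apply hx
      have := hQ.smul 0 0
      simpa using this
    have hnd : IsNondegenerateOn (QuadraticMap.polar Q) (Submodule.span F {x}) := by
      have hf := fd_of_quad hQ
      intro w hw hw0
      obtain ⟨a, rfl⟩ := Submodule.mem_span_singleton.1 hw
      have ha : a ≠ 0 := by rintro rfl; exact hw0 (zero_smul _ _)
      have hxx : QuadraticMap.polar Q x x ≠ 0 := by rw [quad_self hQ]; exact mul_ne_zero h2 hx
      refine ⟨⟨x, Submodule.mem_span_singleton_self _, ?_⟩, ⟨x, Submodule.mem_span_singleton_self _, ?_⟩⟩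
      · rw [hf.smul_right]; exact mul_ne_zero ha hxx
      · rw [hf.smul_left]; exact mul_ne_zero ha hxx
    obtain ⟨W', hW', hfr, hle'⟩ := perp_data hQ hHI hnd hxH
    rw [finrank_span_singleton hx0] at hfr
    apply key W' _ _ hW' hle'
    · obtain ⟨j, hj⟩ := hno
      exact ⟨j, by omega⟩
    · rintro ⟨_, h4, _⟩
      omega
    · rintro rfl
      rw [finrank_bot] at hfr; omega
    · rintro rfl
      rw [finrank_top, Module.finrank_fintype_fun_eq_card] at hfr; omega
  rcases Nat.even_or_odd (finrank F W) with he | ho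
  · exact key2 W h0 h1 hW hle he
  · obtain ⟨W', hW', hfr, hle'⟩ := perp_data hQ hHI hW hle
    apply key2 W' _ _ hW' hle'
    · obtain ⟨j, hj⟩ := hno
      obtain ⟨k, hk⟩ := ho
      exact ⟨j - k, by omega⟩
    · rintro rfl
      rw [finrank_bot, add_zero] at hfr
      apply h1
      apply Submodule.eq_top_of_finrank_eq
      rw [hfr, Module.finrank_fintype_fun_eq_card]
    · rintro rfl
      rw [finrank_top, Module.finrank_fintype_fun_eq_card] at hfr
      apply h0
      rw [← Submodule.finrank_eq_zero (R := F)]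
      omega

/-- a totally singular subspace is proper -/
theorem ts_ne_top (hQ : IsNondegenerateQuadraticForm Q) (hn : 1 ≤ Fintype.card ι) {W : Submodule F (ι → F)}
    (hW : IsTotallySingularQuad Q W) : W ≠ ⊤ := by
  rintro rfl
  have : Nonempty ι := Fintype.card_pos_iff.1 (by omega)
  obtain ⟨v, hv⟩ := exists_ne (0 : ι → F)
  obtain ⟨⟨x, hx⟩, _⟩ := hQ.nondegenerate v hv
  apply hx
  rw [QuadraticMap.polar, hW _ trivial, hW _ trivial, hW _ trivial]; ring

end odd

section std
variable {F : Type*} [Field F] [Fintype F]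

theorem quadOdd_nondeg (hodd : Odd (Fintype.card F)) (m : ℕ) : IsNondegenerateQuadraticForm (quadFormOdd m F) := by
  rw [← coe_qOdd]
  exact nondeg_of_qf (nondeg_qOdd m (two_ne_of_odd hodd))

end std

end CfsgLib.OmH12
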