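import Cfsg.Agent.LibH22OForms
import Cfsg.Agent.LibH22OCount
import Cfsg.Agent.LibH22Spin2

set_option autoImplicit false
set_option linter.unusedSectionVars false

/-! Long root elements of orthogonal groups over finite fields (seat helper12). -/

namespace CfsgLib.OmH12

open Module Cfsg.Agent.H22
open scoped commutatorElement

section exist
variable {F V : Type*} [Field F] [AddCommGroup V] [Module F V] [FiniteDimensional F V] {Q : QuadraticForm F V}

theorem ker_finrank (x : V) : finrank F V ≤ finrank F (LinearMap.ker (QuadraticMap.polarBilin Q x)) + 1 := by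
  have h := LinearMap.finrank_range_add_finrank_ker (QuadraticMap.polarBilin Q x)
  have h1 := Submodule.finrank_le (LinearMap.range (QuadraticMap.polarBilin Q x))
  rw [finrank_self] at h1
  omega

theorem inf_ker_finrank (W : Submodule F V) (x : V) :
    finrank F W ≤ finrank F (W ⊓ LinearMap.ker (QuadraticMap.polarBilin Q x) : Submodule F V) + 1 := by
  have h1 := Submodule.finrank_sup_add_finrank_inf_eq W (LinearMap.ker (QuadraticMap.polarBilin Q x))
  have h2 := ker_finrank (Q := Q) x
  have h3 := Submodule.finrank_le (W ⊔ LinearMap.ker (QuadraticMap.polarBilin Q x))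
  omega

theorem exists_not_mem_of_finrank {U W : Submodule F V} (h : finrank F U < finrank F W) : ∃ x ∈ W, x ∉ U := by
  by_contra hcon
  push Not at hcon
  have := Submodule.finrank_mono (s := W) (t := U) hcon
  omega

theorem mem_ker_polar {x y : V} : y ∈ LinearMap.ker (QuadraticMap.polarBilin Q x) ↔ QuadraticMap.polar Q x y = 0 := by
  rw [LinearMap.mem_ker]; rfl

theorem exists_sing [Finite F] (h : 3 ≤ finrank F V) : ∃ x : V, x ≠ 0 ∧ Q x = 0 := by
  classical
  have : Fintype F := Fintype.ofFinite F
  obtain ⟨x, hx⟩ : ∃ x : V, x ≠ 0 := by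
    have : Nontrivial V := Module.nontrivial_of_finrank_pos (R := F) (by omega)
    exact exists_ne 0
  by_cases hQx : Q x = 0
  · exact ⟨x, hx, hQx⟩
  obtain ⟨y, hy, hyx⟩ : ∃ y, QuadraticMap.polar Q x y = 0 ∧ y ∉ Submodule.span F {x} := by
    have h1 := ker_finrank (Q := Q) x
    have h2 : finrank F (Submodule.span F {x}) = 1 := finrank_span_singleton hx
    obtain ⟨y, hy, hy'⟩ := exists_not_mem_of_finrank (F := F) (U := Submodule.span F {x})
      (W := LinearMap.ker (QuadraticMap.polarBilin Q x)) (by omega)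
    exact ⟨y, hy, hy'⟩
  have hy0 : y ≠ 0 := by
    rintro rfl
    exact hyx (Submodule.zero_mem _)
  by_cases hQy : Q y = 0
  · exact ⟨y, hy0, hQy⟩
  by_cases h2 : (2 : F) = 0
  · have : CharP F 2 := by
      have h3 : CharP F (ringChar F) := inferInstance
      have h4 : ringChar F ∣ 2 := by
        rw [← ringChar.spec]; exact_mod_cast h2
      have h5 : ringChar F = 2 := by
        rcases (Nat.dvd_prime Nat.prime_two).1 h4 with h5 | h5
        · exact absurd h5 (CharP.ringChar_ne_one)
        · exact h5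
      rw [h5] at h3; exact h3
    obtain ⟨a, ha⟩ := FiniteField.isSquare_of_char_two (F := F) (ringChar.eq F 2 ▸ rfl) (Q y / Q x)
    refine ⟨a • x + y, ?_, ?_⟩
    · intro h0
      apply hyx
      rw [Submodule.mem_span_singleton]
      exact ⟨-a, by rw [neg_smul]; exact (eq_neg_of_add_eq_zero_right h0).symm⟩
    · rw [qadd, qsmul, QuadraticMap.polar_smul_left, hy, smul_zero, ← ha, div_mul_cancel₀ _ hQx]
      linear_combination (Q y) * h2
  · obtain ⟨z, hz, hz0⟩ : ∃ z, (QuadraticMap.polar Q x z = 0 ∧ QuadraticMap.polar Q y z = 0) ∧ z ∉ (⊥ : Submodule F V) := by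
      have h1 := ker_finrank (Q := Q) x
      have h3 := inf_ker_finrank (Q := Q) (LinearMap.ker (QuadraticMap.polarBilin Q x)) y
      obtain ⟨z, hz, hz'⟩ := exists_not_mem_of_finrank (F := F) (U := ⊥)
        (W := LinearMap.ker (QuadraticMap.polarBilin Q x) ⊓ LinearMap.ker (QuadraticMap.polarBilin Q y)) (by
          rw [finrank_bot]; omega)
      exact ⟨z, ⟨hz.1, hz.2⟩, hz'⟩
    rw [Submodule.mem_bot] at hz0
    obtain ⟨a, b, hab⟩ := FiniteField.exists_root_sum_quadratic (R := F)
      (f := Polynomial.C (Q x) * Polynomial.X ^ 2 + Polynomial.C (0 : F) * Polynomial.X + Polynomial.C (Q z))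
      (g := Polynomial.C (Q y) * Polynomial.X ^ 2 + Polynomial.C (0 : F) * Polynomial.X + Polynomial.C 0)
      (Polynomial.degree_quadratic hQx) (Polynomial.degree_quadratic hQy) (by
        by_contra hne
        apply h2
        have he : 2 ∣ Fintype.card F := by omega
        have h3 : CharP F (ringChar F) := inferInstance
        have hp : (ringChar F).Prime := CharP.char_is_prime F _
        obtain ⟨n, _, hn⟩ := FiniteField.card F (ringChar F)
        rw [hn] at he
        have h4 := (Nat.prime_dvd_prime_iff_eq Nat.prime_two hp).1 (Nat.Prime.dvd_of_dvd_pow Nat.prime_two he)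
        have := CharP.cast_eq_zero F (ringChar F)
        rw [← h4] at this
        exact_mod_cast this)
    simp only [Polynomial.eval_add, Polynomial.eval_mul, Polynomial.eval_C, Polynomial.eval_pow, Polynomial.eval_X] at hab
    refine ⟨a • x + b • y + z, ?_, ?_⟩
    · intro h0
      have e1 : QuadraticMap.polar Q x (a • x + b • y + z) = a * (2 * Q x) := by
        rw [QuadraticMap.polar_add_right, QuadraticMap.polar_add_right, QuadraticMap.polar_smul_right, QuadraticMap.polar_smul_right,
          hy, hz.1, pself]; simp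
      have e2 : QuadraticMap.polar Q y (a • x + b • y + z) = b * (2 * Q y) := by
        rw [QuadraticMap.polar_add_right, QuadraticMap.polar_add_right, QuadraticMap.polar_smul_right, QuadraticMap.polar_smul_right,
          QuadraticMap.polar_comm Q y x, hy, hz.2, pself]; simp
      rw [h0, QuadraticMap.polar_zero_right] at e1 e2
      have ha : a = 0 := by
        rcases mul_eq_zero.1 e1.symm with h | h
        · exact h
        · exact absurd h (mul_ne_zero h2 hQx)
      have hb : b = 0 := by
        rcases mul_eq_zero.1 e2.symm with h | h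
        · exact h
        · exact absurd h (mul_ne_zero h2 hQy)
      rw [ha, hb] at h0
      apply hz0
      simpa using h0
    · rw [qadd, qadd, qsmul, qsmul, QuadraticMap.polar_smul_left, QuadraticMap.polar_smul_right, hy,
        QuadraticMap.polar_add_left, QuadraticMap.polar_smul_left, QuadraticMap.polar_smul_left, hz.1, hz.2]
      simp only [smul_zero, add_zero]
      linear_combination hab

theorem exists_hp [Finite F] (hQ : (QuadraticMap.polarBilin Q).Nondegenerate) (h : 3 ≤ finrank F V) :
    ∃ e f : V, HP Q e f := by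
  obtain ⟨x, hx, hQx⟩ := exists_sing (Q := Q) h
  obtain ⟨w, _, h1, h2⟩ := exists_partner hQ ⊥ x (by simpa using hx) (by
    intro z hz
    rw [Submodule.mem_bot] at hz
    rw [hz]; simp) hQx
  exact ⟨x, w, hQx, h2, h1⟩

theorem exists_hp2 [Finite F] (hQ : (QuadraticMap.polarBilin Q).Nondegenerate) (h : 5 ≤ finrank F V) :
    ∃ e f e' f' u : V, HS Q e f e' f' u := by
  obtain ⟨e, f, h1⟩ := exists_hp hQ (by omega)
  have hd := h1.nondeg hQ
  have hf := h1.finrank_eq
  obtain ⟨e', f', h2⟩ := exists_hp hd (by omega)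
  have hd2 := h2.nondeg hd
  have hf2 := h2.finrank_eq
  obtain ⟨u, hu⟩ := exists_nonsing hd2 (by
    have : Nontrivial (perp2 (qres Q (perp2 Q e f)) e' f') := Module.nontrivial_of_finrank_pos (R := F) (by omega)
    exact exists_ne 0)
  have hu1 : QuadraticMap.polar Q (e' : V) ((u : perp2 Q e f) : V) = 0 := u.2.1
  have hu2 : QuadraticMap.polar Q (f' : V) ((u : perp2 Q e f) : V) = 0 := u.2.2
  have hu3 : QuadraticMap.polar Q e ((u : perp2 Q e f) : V) = 0 := (u : perp2 Q e f).2.1
  have hu4 : QuadraticMap.polar Q f ((u : perp2 Q e f) : V) = 0 := (u : perp2 Q e f).2.2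
  exact ⟨e, f, e', f', (u : perp2 Q e f), ⟨h1, h2, e'.2.1, f'.2.1, e'.2.2, f'.2.2,
    (by rw [QuadraticMap.polar_comm]; exact hu3), (by rw [QuadraticMap.polar_comm]; exact hu4),
    (by rw [QuadraticMap.polar_comm]; exact hu1), (by rw [QuadraticMap.polar_comm]; exact hu2), hu⟩⟩

end exist

section long
variable {F V : Type*} [Field F] [AddCommGroup V] [Module F V] [FiniteDimensional F V] {Q : QuadraticForm F V}

/-- long root elements are commutators -/
theorem long_mem (hQ : (QuadraticMap.polarBilin Q).Nondegenerate) (hn : 5 ≤ finrank F V) (u v : V)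
    (hu : Q u = 0) (hv : Q v = 0) (huv : QuadraticMap.polar Q u v = 0) : oEich Q u v hu huv ∈ commutator (OGrp Q) := by
  have hvu : QuadraticMap.polar Q v u = 0 := by rw [QuadraticMap.polar_comm]; exact huv
  obtain ⟨w, hw, hwZ⟩ : ∃ w, (QuadraticMap.polar Q u w = 0 ∧ QuadraticMap.polar Q v w = 0) ∧ w ∉ Submodule.span F {u, v} := by
    have h1 := ker_finrank (Q := Q) u
    have h3 := inf_ker_finrank (Q := Q) (LinearMap.ker (QuadraticMap.polarBilin Q u)) v
    have h4 : finrank F (Submodule.span F ({u, v} : Set V)) ≤ 2 := by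
      classical
      have h6 := finrank_span_finset_le_card (R := F) ({u, v} : Finset V)
      have h5 := Finset.card_le_two (a := u) (b := v)
      have h7 : (({u, v} : Finset V) : Set V) = {u, v} := by simp
      rw [h7] at h6
      exact le_trans h6 h5
    obtain ⟨z, hz, hz'⟩ := exists_not_mem_of_finrank (F := F) (U := Submodule.span F {u, v})
      (W := LinearMap.ker (QuadraticMap.polarBilin Q u) ⊓ LinearMap.ker (QuadraticMap.polarBilin Q v)) (by omega)
    exact ⟨z, ⟨hz.1, hz.2⟩, hz'⟩
  obtain ⟨s, hs, hs1⟩ := exists_functional_ne_zero (QuadraticMap.polarBilin Q) polar_isSymm.isRefl hQ _ w hwZ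
  rw [LinearMap.BilinForm.mem_orthogonal_iff] at hs
  have hsu : QuadraticMap.polar Q u s = 0 := hs u (Submodule.subset_span (by simp))
  have hsv : QuadraticMap.polar Q v s = 0 := hs v (Submodule.subset_span (by simp))
  have hs1' : QuadraticMap.polar Q w s ≠ 0 := hs1
  obtain ⟨y, hy⟩ : ∃ y, y = (-(QuadraticMap.polar Q w s)⁻¹) • s := ⟨_, rfl⟩
  have hyu : QuadraticMap.polar Q u y = 0 := by rw [hy, QuadraticMap.polar_smul_right, hsu, smul_zero]
  have hyv : QuadraticMap.polar Q v y = 0 := by rw [hy, QuadraticMap.polar_smul_right, hsv, smul_zero]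
  have hyw : QuadraticMap.polar Q y w = -1 := by
    rw [QuadraticMap.polar_comm, hy, QuadraticMap.polar_smul_right, smul_eq_mul, neg_mul, inv_mul_cancel₀ hs1']
  have hyu' : QuadraticMap.polar Q y u = 0 := by rw [QuadraticMap.polar_comm]; exact hyu
  have hnw : QuadraticMap.polar Q u (-w) = 0 := by rw [QuadraticMap.polar_neg_right, hw.1, neg_zero]
  have hwv : QuadraticMap.polar Q u (w + v) = 0 := by rw [QuadraticMap.polar_add_right, hw.1, huv, add_zero]
  have e1 : (oEich Q v y hv hyv).1 u = u := by
    rw [oEich_apply, hvu, hyu']; simp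
  have e2 : (oEich Q v y hv hyv).1 w = w + v := by
    rw [oEich_apply, hw.2, hyw]; simp
  have e3 : ⁅oEich Q v y hv hyv, oEich Q u w hu hw.1⁆ = oEich Q u v hu huv := by
    rw [commutatorElement_def, conj_oEich (oEich Q v y hv hyv) u w u (w + v) hu hw.1 hu hwv e1 e2,
      oEich_inv u w hu hw.1 hnw, oEich_mul u (w + v) (-w) v hu hwv hnw huv (by abel)]
  rw [← e3, commutator_def]
  exact Subgroup.commutator_mem_commutator (Subgroup.mem_top _) (Subgroup.mem_top _)

theorem exists_sing_not_perp {e f : V} (hef : HP Q e f) (hQ : (QuadraticMap.polarBilin Q).Nondegenerate) (w : V) (hw : w ≠ 0) :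
    ∃ u, Q u = 0 ∧ QuadraticMap.polar Q u w ≠ 0 := by
  by_contra hcon
  push Not at hcon
  apply hw
  apply hQ.2
  intro x
  change QuadraticMap.polar Q x w = 0
  have he := hcon e hef.1
  have hf := hcon f hef.2.1
  obtain ⟨y, hy⟩ : ∃ y, y = x - QuadraticMap.polar Q f x • e - QuadraticMap.polar Q e x • f := ⟨_, rfl⟩
  have hyp := hef.proj_mem x
  rw [← hy] at hyp
  have hye : QuadraticMap.polar Q y e = 0 := by rw [QuadraticMap.polar_comm]; exact hyp.1
  have hyf : QuadraticMap.polar Q y f = 0 := by rw [QuadraticMap.polar_comm]; exact hyp.2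
  have hs : Q (y + e - Q y • f) = 0 := by
    rw [qsub, qadd, qsmul, hef.1, hef.2.1, hye, QuadraticMap.polar_smul_right, QuadraticMap.polar_add_left, hyf, hef.2.2]
    simp
  have h1 := hcon _ hs
  rw [QuadraticMap.polar_sub_left, QuadraticMap.polar_add_left, QuadraticMap.polar_smul_left, he, hf] at h1
  have h2 : QuadraticMap.polar Q y w = 0 := by simpa using h1
  have hx : x = y + QuadraticMap.polar Q f x • e + QuadraticMap.polar Q e x • f := by rw [hy]; abel
  rw [hx, QuadraticMap.polar_add_left, QuadraticMap.polar_add_left, QuadraticMap.polar_smul_left, QuadraticMap.polar_smul_left,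
    h2, he, hf]
  simp

/-- stability under the long root elements -/
def LStab (Q : QuadraticForm F V) (W : Submodule F V) : Prop :=
  ∀ u v w, Q u = 0 → Q v = 0 → QuadraticMap.polar Q u v = 0 → w ∈ W →
    QuadraticMap.polar Q u w • v - QuadraticMap.polar Q v w • u ∈ W

theorem LStab.all (W : Submodule F V) (hW : LStab Q W) {e f : V} (hef : HP Q e f) (u : V) (hu : Q u = 0)
    (hue : QuadraticMap.polar Q u e = 0) (huf : QuadraticMap.polar Q u f = 0) (z w : V) (huz : QuadraticMap.polar Q u z = 0)
    (hw : w ∈ W) : QuadraticMap.polar Q u w • z - QuadraticMap.polar Q z w • u ∈ W := by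
  obtain ⟨y, hy⟩ : ∃ y, y = z - QuadraticMap.polar Q f z • e - QuadraticMap.polar Q e z • f := ⟨_, rfl⟩
  have hyp := hef.proj_mem z
  rw [← hy] at hyp
  have hye : QuadraticMap.polar Q y e = 0 := by rw [QuadraticMap.polar_comm]; exact hyp.1
  have hyf : QuadraticMap.polar Q y f = 0 := by rw [QuadraticMap.polar_comm]; exact hyp.2
  have hyu : QuadraticMap.polar Q u y = 0 := by
    rw [hy, QuadraticMap.polar_sub_right, QuadraticMap.polar_sub_right, QuadraticMap.polar_smul_right,
      QuadraticMap.polar_smul_right, huz, hue, huf]; simp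
  have hs : Q (y + e - Q y • f) = 0 := by
    rw [qsub, qadd, qsmul, hef.1, hef.2.1, hye, QuadraticMap.polar_smul_right, QuadraticMap.polar_add_left, hyf, hef.2.2]
    simp
  have hus : QuadraticMap.polar Q u (y + e - Q y • f) = 0 := by
    rw [QuadraticMap.polar_sub_right, QuadraticMap.polar_add_right, QuadraticMap.polar_smul_right, hyu, hue, huf]; simp
  have m1 := hW u e w hu hef.1 hue hw
  have m2 := hW u f w hu hef.2.1 huf hw
  have m3 := hW u _ w hu hs hus hw
  have hz : z = (y + e - Q y • f) + (QuadraticMap.polar Q f z - 1) • e + (QuadraticMap.polar Q e z + Q y) • f := by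
    rw [hy]; module
  have key : QuadraticMap.polar Q u w • z - QuadraticMap.polar Q z w • u =
      (QuadraticMap.polar Q u w • (y + e - Q y • f) - QuadraticMap.polar Q (y + e - Q y • f) w • u) +
      (QuadraticMap.polar Q f z - 1) • (QuadraticMap.polar Q u w • e - QuadraticMap.polar Q e w • u) +
      (QuadraticMap.polar Q e z + Q y) • (QuadraticMap.polar Q u w • f - QuadraticMap.polar Q f w • u) := by
    obtain ⟨a, ha⟩ : ∃ a, a = QuadraticMap.polar Q f z - 1 := ⟨_, rfl⟩
    obtain ⟨b, hb⟩ : ∃ b, b = QuadraticMap.polar Q e z + Q y := ⟨_, rfl⟩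
    obtain ⟨s, hs⟩ : ∃ s, s = y + e - Q y • f := ⟨_, rfl⟩
    rw [← ha, ← hb, ← hs] at hz ⊢
    rw [hz]
    simp only [QuadraticMap.polar_add_left, QuadraticMap.polar_smul_left, smul_eq_mul]
    module
  rw [key]
  exact add_mem (add_mem m3 (W.smul_mem _ m1)) (W.smul_mem _ m2)

theorem LStab.perp (W : Submodule F V) (hW : LStab Q W) : LStab Q (LinearMap.BilinForm.orthogonal (QuadraticMap.polarBilin Q) W) := by
  intro u v w hu hv huv hw
  rw [LinearMap.BilinForm.mem_orthogonal_iff] at hw ⊢
  intro x hx
  have h1 := hw _ (hW u v x hu hv huv hx)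
  change QuadraticMap.polar Q _ _ = 0 at h1
  change QuadraticMap.polar Q _ _ = 0
  rw [QuadraticMap.polar_sub_left, QuadraticMap.polar_smul_left, QuadraticMap.polar_smul_left] at h1
  rw [QuadraticMap.polar_sub_right, QuadraticMap.polar_smul_right, QuadraticMap.polar_smul_right, QuadraticMap.polar_comm Q x v,
    QuadraticMap.polar_comm Q x u]
  simp only [smul_eq_mul] at h1 ⊢
  linear_combination -h1

theorem LStab.large [Finite F] (hQ : (QuadraticMap.polarBilin Q).Nondegenerate) (hn : 5 ≤ finrank F V) (W : Submodule F V)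
    (hW : LStab Q W) (h0 : W ≠ ⊥) : finrank F V ≤ finrank F W + 2 := by
  obtain ⟨e, f, e', f', u₀, hs⟩ := exists_hp2 hQ hn
  obtain ⟨w, hw, hw0⟩ := Submodule.exists_mem_ne_zero_of_ne_bot h0
  obtain ⟨u, hu, huw⟩ := exists_sing_not_perp hs.h1 hQ w hw0
  have hu0 : u ≠ 0 := by
    rintro rfl
    rw [QuadraticMap.polar_zero_left] at huw
    exact huw rfl
  obtain ⟨g, hg⟩ := witt_one hQ e u hs.h1.ne hu0 (by rw [hs.h1.1, hu])
  have h2 := hs.h2.map g
  have hue : QuadraticMap.polar Q u (g.1 e') = 0 := by rw [← hg, og_polar]; exact hs.ee'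
  have huf : QuadraticMap.polar Q u (g.1 f') = 0 := by rw [← hg, og_polar]; exact hs.ef'
  have hle : LinearMap.ker (QuadraticMap.polarBilin Q u) ⊓ LinearMap.ker (QuadraticMap.polarBilin Q w) ≤ W := by
    rintro z ⟨hz1, hz2⟩
    replace hz1 : QuadraticMap.polar Q u z = 0 := hz1
    replace hz2 : QuadraticMap.polar Q w z = 0 := hz2
    have := LStab.all W hW h2 u hu hue huf z w hz1 hw
    rw [QuadraticMap.polar_comm Q z w, hz2, zero_smul, sub_zero] at this
    exact (Submodule.smul_mem_iff W huw).1 this
  have h3 := Submodule.finrank_mono hle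
  have h4 := ker_finrank (Q := Q) u
  have h5 := inf_ker_finrank (Q := Q) (LinearMap.ker (QuadraticMap.polarBilin Q u)) w
  omega

theorem LStab.irr [Finite F] (hQ : (QuadraticMap.polarBilin Q).Nondegenerate) (hn : 5 ≤ finrank F V) (W : Submodule F V)
    (hW : LStab Q W) : W = ⊥ ∨ W = ⊤ := by
  by_cases h0 : W = ⊥
  · exact Or.inl h0
  right
  have h1 := LStab.large hQ hn W hW h0
  by_contra hne
  have h2 : LinearMap.BilinForm.orthogonal (QuadraticMap.polarBilin Q) W ≠ ⊥ := by
    intro hb
    apply hne
    rw [← LinearMap.BilinForm.orthogonal_orthogonal hQ polar_isSymm.isRefl W, hb]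
    ext x
    simp [LinearMap.BilinForm.mem_orthogonal_iff, LinearMap.BilinForm.IsOrtho]
  have h3 := LStab.large hQ hn _ hW.perp h2
  have h4 := LinearMap.BilinForm.finrank_orthogonal hQ W
  omega

end long

end CfsgLib.OmH12
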