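import Cfsg.Agent.LibOmPropH12
import Cfsg.Agent.LibAschSL1H13

set_option autoImplicit false
set_option linter.unusedSectionVars false

/-! Omega is contained in no member of the geometric classes (seat helper12). -/

namespace CfsgLib.OmH12

open Module Cfsg Cfsg.Geo Cfsg.Agent.H22
open scoped Matrix MatrixGroups Kronecker

section toqf
variable {ι : Type} [Fintype ι] [DecidableEq ι] {F : Type*} [Field F]

/-- bundling -/
theorem exists_qf {Q : (ι → F) → F} (hQ : IsNondegenerateQuadraticForm Q) :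
    ∃ Q' : QuadraticForm F (ι → F), (Q' : (ι → F) → F) = Q ∧ (QuadraticMap.polarBilin Q').Nondegenerate := by
  refine ⟨QuadraticMap.ofPolar Q (fun a x => by rw [hQ.smul, smul_eq_mul, pow_two]) (fun x x' y => hQ.polar_bilinear.add_left x x' y)
    (fun a x y => hQ.polar_bilinear.smul_left a x y), rfl, ?_, ?_⟩
  · intro x hx
    by_contra h0
    obtain ⟨_, ⟨y, hy⟩⟩ := hQ.nondegenerate x h0
    exact hy (hx y)
  · intro x hx
    by_contra h0
    obtain ⟨⟨y, hy⟩, _⟩ := hQ.nondegenerate x h0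
    exact hy (hx y)

theorem nondeg_of_qf {Q : QuadraticForm F (ι → F)} (hQ : (QuadraticMap.polarBilin Q).Nondegenerate) :
    IsNondegenerateQuadraticForm (Q : (ι → F) → F) where
  smul := fun c v => by rw [qsmul, pow_two]
  polar_bilinear := ⟨fun x y v => QuadraticMap.polar_add_left Q x y v, fun c x v => QuadraticMap.polar_smul_left Q c x v,
    fun v x y => QuadraticMap.polar_add_right Q v x y, fun c v x => QuadraticMap.polar_smul_right Q c v x⟩
  nondegenerate := by
    intro v hv
    have h1 : ∃ x, QuadraticMap.polar Q x v ≠ 0 := by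
      by_contra hcon
      push Not at hcon
      exact hv (hQ.2 v hcon)
    obtain ⟨x, hx⟩ := h1
    exact ⟨⟨x, hx⟩, ⟨x, by rw [QuadraticMap.polar_comm]; exact hx⟩⟩

/-- a group contains all long root elements -/
def HasLong (Q : (ι → F) → F) (M : Subgroup (GL ι F)) : Prop :=
  ∀ u v : ι → F, Q u = 0 → Q v = 0 → QuadraticMap.polar Q u v = 0 →
    ∃ t ∈ M, ∀ x : ι → F, (t : Matrix ι ι F) *ᵥ x = x + QuadraticMap.polar Q u x • v - QuadraticMap.polar Q v x • u

theorem HasLong.mono {Q : (ι → F) → F} {M M' : Subgroup (GL ι F)} (h : HasLong Q M) (hle : M ≤ M') : HasLong Q M' := by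
  intro u v hu hv huv
  obtain ⟨t, ht, h1⟩ := h u v hu hv huv
  exact ⟨t, hle ht, h1⟩

theorem hasLong_omega' {Q : QuadraticForm F (ι → F)} (hQ : (QuadraticMap.polarBilin Q).Nondegenerate) (hn : 5 ≤ Fintype.card ι) :
    HasLong (Q : (ι → F) → F) (omegaGL (Q : (ι → F) → F)) := by
  intro u v hu hv huv
  have h1 := long_mem hQ (by rw [Module.finrank_fintype_fun_eq_card]; exact hn) u v hu hv huv
  obtain ⟨g, hg⟩ := (omegaIso Q).surjective ⟨_, h1⟩
  refine ⟨g.1.1, ⟨g.1, g.2, rfl⟩, fun x => ?_⟩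
  have h2 : (oIso Q g.1 : OGrp Q) = oEich Q u v hu huv := by
    rw [← omegaIso_apply, hg]
  have h3 := oIso_apply Q g.1 x
  rw [h2, oEich_apply, hv] at h3
  rw [← h3]
  simp

theorem hasLong_omega {Q : (ι → F) → F} (hQ : IsNondegenerateQuadraticForm Q) (hn : 5 ≤ Fintype.card ι) :
    HasLong Q (omegaGL Q) := by
  obtain ⟨Q', rfl, h⟩ := exists_qf hQ
  exact hasLong_omega' h hn

end toqf

section proper
variable {ι : Type} [Fintype ι] [DecidableEq ι] {F : Type*} [Field F] [Finite F] {Q : QuadraticForm F (ι → F)}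
  (hQ : (QuadraticMap.polarBilin Q).Nondegenerate) (hn : 5 ≤ Fintype.card ι)
  {M : Subgroup (GL ι F)} (hM : HasLong (Q : (ι → F) → F) M)

include hQ hn

theorem lstab_irr (W : Submodule F (ι → F)) (hW : LStab Q W) : W = ⊥ ∨ W = ⊤ :=
  LStab.irr hQ (by rw [Module.finrank_fintype_fun_eq_card]; exact hn) W hW

/-- a subspace stabilised by all long root elements is trivial -/
theorem irr_of_long (W : Submodule F (ι → F)) (hW : ∀ u v : ι → F, Q u = 0 → Q v = 0 → QuadraticMap.polar Q u v = 0 →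
    ∃ t : GL ι F, (∀ x : ι → F, (t : Matrix ι ι F) *ᵥ x = x + QuadraticMap.polar Q u x • v - QuadraticMap.polar Q v x • u) ∧
      ∀ x ∈ W, (t : Matrix ι ι F) *ᵥ x ∈ W) : W = ⊥ ∨ W = ⊤ := by
  apply lstab_irr hQ hn
  intro u v w hu hv huv hw
  obtain ⟨t, ht, h⟩ := hW u v hu hv huv
  have h1 := W.sub_mem (h w hw) hw
  rw [ht] at h1
  have : w + QuadraticMap.polar Q u w • v - QuadraticMap.polar Q v w • u - w =
      QuadraticMap.polar Q u w • v - QuadraticMap.polar Q v w • u := by abel
  rwa [this] at h1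

include hM

theorem not_stab {W : Submodule F (ι → F)} (h0 : W ≠ ⊥) (h1 : W ≠ ⊤) (hle : M ≤ subspaceStabilizer W) : False := by
  rcases irr_of_long hQ hn W (fun u v hu hv huv => by
    obtain ⟨t, ht, h⟩ := hM u v hu hv huv
    exact ⟨t, h, fun x hx => ((hle ht) x).1 hx⟩) with h | h
  · exact h0 h
  · exact h1 h

theorem HasLong.irr : ActsIrreducibly (matrixSet M) := by
  intro W hW
  apply irr_of_long hQ hn W
  intro u v hu hv huv
  obtain ⟨t, ht, h⟩ := hM u v hu hv huv
  refine ⟨t, h, fun x hx => ?_⟩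
  have := hW _ ⟨t, ht, rfl⟩ ⟨x, hx, rfl⟩
  rwa [Matrix.toLin'_apply] at this

end proper

section pairs
variable {F V : Type*} [Field F] [AddCommGroup V] [Module F V] [FiniteDimensional F V] {Q : QuadraticForm F V}

/-- a totally singular triple -/
theorem exists_triple [Finite F] (hQ : (QuadraticMap.polarBilin Q).Nondegenerate) (h : 7 ≤ finrank F V) :
    ∃ a b c : V, Q a = 0 ∧ Q b = 0 ∧ Q c = 0 ∧ QuadraticMap.polar Q a b = 0 ∧ QuadraticMap.polar Q a c = 0 ∧
      QuadraticMap.polar Q b c = 0 ∧ LinearIndependent F ![a, b, c] := by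
  obtain ⟨e, f, h1⟩ := exists_hp hQ (by omega)
  have hd := h1.nondeg hQ
  have hf := h1.finrank_eq
  obtain ⟨e', f', u, hs⟩ := exists_hp2 hd (by omega)
  obtain ⟨f'', u', hs⟩ := hs
  refine ⟨e, e', u, h1.1, hs.h1.1, hs.h2.1, e'.2.1, u.2.1, hs.ee', ?_⟩
  rw [Fintype.linearIndependent_iff]
  intro g hg
  rw [Fin.sum_univ_three] at hg
  simp only [Matrix.cons_val_zero, Matrix.cons_val_one, Matrix.cons_val_two, Matrix.head_cons, Matrix.tail_cons, Matrix.cons_val] at hg
  have k0 : QuadraticMap.polar Q f (g 0 • e + g 1 • (e' : V) + g 2 • (u : V)) = g 0 := by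
    rw [QuadraticMap.polar_add_right, QuadraticMap.polar_add_right, QuadraticMap.polar_smul_right, QuadraticMap.polar_smul_right,
      QuadraticMap.polar_smul_right, h1.fe, e'.2.2, u.2.2]; simp
  have k1 : QuadraticMap.polar Q (f' : V) (g 0 • e + g 1 • (e' : V) + g 2 • (u : V)) = g 1 := by
    have a1 : QuadraticMap.polar Q (f' : V) e = 0 := by rw [QuadraticMap.polar_comm]; exact f'.2.1
    have a2 : QuadraticMap.polar Q (f' : V) (e' : V) = 1 := hs.h1.fe
    have a3 : QuadraticMap.polar Q (f' : V) (u : V) = 0 := hs.fe'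
    rw [QuadraticMap.polar_add_right, QuadraticMap.polar_add_right, QuadraticMap.polar_smul_right, QuadraticMap.polar_smul_right,
      QuadraticMap.polar_smul_right, a1, a2, a3]; simp
  have k2 : QuadraticMap.polar Q (f'' : V) (g 0 • e + g 1 • (e' : V) + g 2 • (u : V)) = g 2 := by
    have a1 : QuadraticMap.polar Q (f'' : V) e = 0 := by rw [QuadraticMap.polar_comm]; exact f''.2.1
    have a2 : QuadraticMap.polar Q (f'' : V) (e' : V) = 0 := by rw [QuadraticMap.polar_comm]; exact hs.ef'
    have a3 : QuadraticMap.polar Q (f'' : V) (u : V) = 1 := hs.h2.fe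
    rw [QuadraticMap.polar_add_right, QuadraticMap.polar_add_right, QuadraticMap.polar_smul_right, QuadraticMap.polar_smul_right,
      QuadraticMap.polar_smul_right, a1, a2, a3]; simp
  rw [hg, QuadraticMap.polar_zero_right] at k0 k1 k2
  intro i
  fin_cases i
  · exact k0.symm
  · exact k1.symm
  · exact k2.symm

end pairs

end CfsgLib.OmH12
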