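import Cfsg.Agent.LibOmPropH12b

set_option autoImplicit false
set_option linter.unusedSectionVars false

/-! Omega is contained in no member of the geometric classes: decompositions, fields (seat helper12). -/

namespace CfsgLib.OmH12

open Module Cfsg Cfsg.Geo Cfsg.Agent.H22
open scoped Matrix MatrixGroups Kronecker

section proper
variable {ι : Type} [Fintype ι] [DecidableEq ι] {F : Type*} [Field F] [Finite F] {Q : QuadraticForm F (ι → F)}
  (hQ : (QuadraticMap.polarBilin Q).Nondegenerate) (hn : 5 ≤ Fintype.card ι)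
  {M : Subgroup (GL ι F)} (hM : HasLong (Q : (ι → F) → F) M)

include hQ hn in
/-- a nontrivial totally singular pair -/
theorem exists_pair : ∃ u v v' : ι → F, Q u = 0 ∧ Q v = 0 ∧ Q v' = 0 ∧ QuadraticMap.polar Q u v = 0 ∧
    QuadraticMap.polar Q u v' = 0 ∧ LinearIndependent F ![u, v, v'] := by
  obtain ⟨e, f, e', f', u, hs⟩ := exists_hp2 (Q := Q) hQ (by rw [Module.finrank_fintype_fun_eq_card]; exact hn)
  refine ⟨e, e', f', hs.h1.1, hs.h2.1, hs.h2.2.1, hs.ee', hs.ef', ?_⟩
  rw [Fintype.linearIndependent_iff]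
  intro g hg
  rw [Fin.sum_univ_three] at hg
  simp only [Matrix.cons_val_zero, Matrix.cons_val_one, Matrix.cons_val_two, Matrix.head_cons, Matrix.tail_cons, Matrix.cons_val] at hg
  have k0 : QuadraticMap.polar Q f (g 0 • e + g 1 • e' + g 2 • f') = g 0 := by
    rw [QuadraticMap.polar_add_right, QuadraticMap.polar_add_right, QuadraticMap.polar_smul_right, QuadraticMap.polar_smul_right,
      QuadraticMap.polar_smul_right, hs.h1.fe, hs.fe', hs.ff']; simp
  have k1 : QuadraticMap.polar Q f' (g 0 • e + g 1 • e' + g 2 • f') = g 1 := by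
    rw [QuadraticMap.polar_add_right, QuadraticMap.polar_add_right, QuadraticMap.polar_smul_right, QuadraticMap.polar_smul_right,
      QuadraticMap.polar_smul_right, hs.f'e, hs.h2.fe, hs.h2.ff]; simp
  have k2 : QuadraticMap.polar Q e' (g 0 • e + g 1 • e' + g 2 • f') = g 2 := by
    rw [QuadraticMap.polar_add_right, QuadraticMap.polar_add_right, QuadraticMap.polar_smul_right, QuadraticMap.polar_smul_right,
      QuadraticMap.polar_smul_right, hs.e'e, hs.h2.ee, hs.h2.2.2]; simp
  rw [hg, QuadraticMap.polar_zero_right] at k0 k1 k2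
  intro i
  fin_cases i
  · exact k0.symm
  · exact k1.symm
  · exact k2.symm

/-- the root displacement -/
def rd (Q : QuadraticForm F (ι → F)) (u v x : ι → F) : ι → F := QuadraticMap.polar Q u x • v - QuadraticMap.polar Q v x • u

theorem rd_ts {u v : ι → F} (hu : Q u = 0) (hv : Q v = 0) (huv : QuadraticMap.polar Q u v = 0) (x : ι → F) :
    Q (rd Q u v x) = 0 := by
  unfold rd
  rw [qsub, qsmul, qsmul, hu, hv, QuadraticMap.polar_smul_left, QuadraticMap.polar_smul_right, QuadraticMap.polar_comm Q v u, huv]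
  simp

theorem rd_rd {u v : ι → F} (hu : Q u = 0) (hv : Q v = 0) (huv : QuadraticMap.polar Q u v = 0) (x : ι → F) :
    rd Q u v (rd Q u v x) = 0 := by
  have hvu : QuadraticMap.polar Q v u = 0 := by rw [QuadraticMap.polar_comm]; exact huv
  have huu : QuadraticMap.polar Q u u = 0 := by rw [pself, hu, mul_zero]
  have hvv : QuadraticMap.polar Q v v = 0 := by rw [pself, hv, mul_zero]
  have h1 : QuadraticMap.polar Q u (rd Q u v x) = 0 := by
    unfold rd
    rw [QuadraticMap.polar_sub_right, QuadraticMap.polar_smul_right, QuadraticMap.polar_smul_right, huv, huu]; simp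
  have h2 : QuadraticMap.polar Q v (rd Q u v x) = 0 := by
    unfold rd
    rw [QuadraticMap.polar_sub_right, QuadraticMap.polar_smul_right, QuadraticMap.polar_smul_right, hvu, hvv]; simp
  have : rd Q u v (rd Q u v x) = QuadraticMap.polar Q u (rd Q u v x) • v - QuadraticMap.polar Q v (rd Q u v x) • u := rfl
  rw [this, h1, h2]; simp

/-- the displacement as a linear map -/
def rdl (Q : QuadraticForm F (ι → F)) (u v : ι → F) : (ι → F) →ₗ[F] (ι → F) :=
  (QuadraticMap.polarBilin Q u).smulRight v - (QuadraticMap.polarBilin Q v).smulRight u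

theorem rdl_apply (u v x : ι → F) : rdl Q u v x = rd Q u v x := by
  simp [rdl, rd]

theorem rdl_range (u v : ι → F) : finrank F (LinearMap.range (rdl Q u v)) ≤ 2 := by
  classical
  have h6 := finrank_span_finset_le_card (R := F) ({v, u} : Finset (ι → F))
  have h5 := Finset.card_le_two (a := v) (b := u)
  have h8 : LinearMap.range (rdl Q u v) ≤ Submodule.span F (({v, u} : Finset (ι → F)) : Set (ι → F)) := by
    rintro _ ⟨x, rfl⟩
    rw [rdl_apply]
    exact Submodule.sub_mem _ (Submodule.smul_mem _ _ (Submodule.subset_span (by simp)))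
      (Submodule.smul_mem _ _ (Submodule.subset_span (by simp)))
  exact (Submodule.finrank_mono h8).trans (h6.trans h5)

/-- a subspace on which the displacement is injective has dimension at most two -/
theorem finrank_le_two {W : Submodule F (ι → F)} (u v : ι → F) (h : ∀ x ∈ W, rd Q u v x = 0 → x = 0) : finrank F W ≤ 2 := by
  have hinj : Function.Injective ((rdl Q u v).domRestrict W) := by
    rw [← LinearMap.ker_eq_bot, LinearMap.ker_eq_bot']
    intro x hx
    apply Subtype.ext
    apply h x.1 x.2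
    rw [← rdl_apply]; exact hx
  have h1 := LinearMap.finrank_range_of_inj hinj
  rw [← h1]
  refine le_trans (Submodule.finrank_mono ?_) (rdl_range (Q := Q) u v)
  rintro _ ⟨x, rfl⟩
  exact ⟨x.1, rfl⟩

theorem toLin_eq {t : GL ι F} {u v : ι → F}
    (h : ∀ x : ι → F, (t : Matrix ι ι F) *ᵥ x = x + QuadraticMap.polar Q u x • v - QuadraticMap.polar Q v x • u) (x : ι → F) :
    (t : Matrix ι ι F) *ᵥ x = x + rd Q u v x := by
  rw [h]; unfold rd; abel

section dec
variable {s k : ℕ} {D : Fin s → Submodule F (ι → F)}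

theorem dec_disj (hD : IsMDecomposition k D) {i j : Fin s} (hij : i ≠ j) {x : ι → F} (hi : x ∈ D i) (hj : x ∈ D j) : x = 0 :=
  Submodule.disjoint_def.1 (hD.indep.pairwiseDisjoint hij) x hi hj

theorem dec_ne_bot (hD : IsMDecomposition k D) (i : Fin s) : D i ≠ ⊥ := by
  intro h
  have h2 := hD.finrank_eq i
  rw [h, finrank_bot] at h2
  have := hD.pos
  omega

theorem dec_ne_top (hD : IsMDecomposition k D) (i : Fin s) : D i ≠ ⊤ := by
  intro h
  have ht := hD.two_le
  obtain ⟨j, hj⟩ : ∃ j : Fin s, j ≠ i := by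
    by_cases h0 : i = ⟨0, by omega⟩
    · refine ⟨⟨1, by omega⟩, ?_⟩
      rw [h0]; simp
    · exact ⟨⟨0, by omega⟩, fun h1 => h0 h1.symm⟩
  obtain ⟨x, hx, hx0⟩ := Submodule.exists_mem_ne_zero_of_ne_bot (dec_ne_bot hD j)
  exact hx0 (dec_disj hD hj hx (by rw [h]; trivial))

theorem dec_moved (hD : IsMDecomposition k D) {t : GL ι F} {u v : ι → F}
    (h : ∀ x : ι → F, (t : Matrix ι ι F) *ᵥ x = x + QuadraticMap.polar Q u x • v - QuadraticMap.polar Q v x • u)
    {σ : Equiv.Perm (Fin s)} (hσ : ∀ i, (D i).map (Matrix.toLin' (t : Matrix ι ι F)) = D (σ i)) {i : Fin s} (hi : σ i ≠ i)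
    {x : ι → F} (hx : x ∈ D i) : (t : Matrix ι ι F) *ᵥ x ∈ D (σ i) ∧ (rd Q u v x = 0 → x = 0) := by
  have h1 : (t : Matrix ι ι F) *ᵥ x ∈ D (σ i) := by
    rw [← hσ i]
    exact ⟨x, hx, by rw [Matrix.toLin'_apply]⟩
  refine ⟨h1, fun h0 => ?_⟩
  rw [toLin_eq h, h0, add_zero] at h1
  exact dec_disj hD hi h1 hx

include hQ hn in
/-- if all root elements fix all the blocks we have a contradiction -/
theorem dec_fixed (hD : IsMDecomposition k D) (hall : ∀ u v : ι → F, Q u = 0 → Q v = 0 → QuadraticMap.polar Q u v = 0 →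
    ∃ t : GL ι F, (∀ x : ι → F, (t : Matrix ι ι F) *ᵥ x = x + QuadraticMap.polar Q u x • v - QuadraticMap.polar Q v x • u) ∧
      ∀ i, (D i).map (Matrix.toLin' (t : Matrix ι ι F)) = D i) : False := by
  have ht := hD.two_le
  rcases irr_of_long hQ hn (D ⟨0, by omega⟩) (fun u v hu hv huv => by
    obtain ⟨t, h, ht⟩ := hall u v hu hv huv
    refine ⟨t, h, fun x hx => ?_⟩
    rw [← ht]
    exact ⟨x, hx, by rw [Matrix.toLin'_apply]⟩) with h | h
  · exact dec_ne_bot hD _ h
  · exact dec_ne_top hD _ h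

include hQ hn hM in
/-- blocks of dimension at least three -/
theorem not_dec_three (hD : IsMDecomposition k D) (hk : 3 ≤ k) (hle : M ≤ decompositionStabilizer D) : False := by
  apply dec_fixed hQ hn hD
  intro u v hu hv huv
  obtain ⟨t, ht, h⟩ := hM u v hu hv huv
  obtain ⟨σ, hσ⟩ := hle ht
  refine ⟨t, h, fun i => ?_⟩
  by_cases hi : σ i = i
  · rw [hσ, hi]
  exfalso
  have h1 := finrank_le_two (Q := Q) (W := D i) u v (fun x hx => (dec_moved hD h hσ hi hx).2)
  rw [hD.finrank_eq] at h1
  omega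

include hQ hn hM in
/-- orthogonal decompositions in odd characteristic -/
theorem not_dec_odd (h2 : (2 : F) ≠ 0) (hD : IsNondegenerateMDecomposition (QuadraticMap.polar Q) k D)
    (hle : M ≤ decompositionStabilizer D) : False := by
  apply dec_fixed hQ hn hD.decomp
  intro u v hu hv huv
  obtain ⟨t, ht, h⟩ := hM u v hu hv huv
  obtain ⟨σ, hσ⟩ := hle ht
  refine ⟨t, h, fun i => ?_⟩
  by_cases hi : σ i = i
  · rw [hσ, hi]
  exfalso
  have hz : ∀ x ∈ D i, Q x = 0 := by
    intro x hx
    obtain ⟨h1, _⟩ := dec_moved hD.decomp h hσ hi hx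
    have h3 := rd_ts hu hv huv x
    have h4 : rd Q u v x = (t : Matrix ι ι F) *ᵥ x - x := by rw [toLin_eq h]; abel
    have h5 : Q ((t : Matrix ι ι F) *ᵥ x) = Q x := by
      rw [toLin_eq h, qadd, rd_ts hu hv huv]
      have : QuadraticMap.polar Q x (rd Q u v x) = 0 := by
        unfold rd
        rw [QuadraticMap.polar_sub_right, QuadraticMap.polar_smul_right, QuadraticMap.polar_smul_right, QuadraticMap.polar_comm Q x v,
          QuadraticMap.polar_comm Q x u]
        simp only [smul_eq_mul]; ring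
      rw [this]; ring
    rw [h4, qsub, h5, hD.orthogonal (σ i) i hi _ h1 _ hx] at h3
    have h6 : (2 : F) * Q x = 0 := by linear_combination h3
    exact (mul_eq_zero.1 h6).resolve_left h2
  obtain ⟨x, hx, hx0⟩ := Submodule.exists_mem_ne_zero_of_ne_bot (dec_ne_bot hD.decomp i)
  obtain ⟨⟨y, hy, hxy⟩, _⟩ := hD.nondegenerate i x hx hx0
  apply hxy
  unfold QuadraticMap.polar
  rw [hz _ (add_mem hy hx), hz _ hx, hz _ hy]; ring

end dec

section fld
variable {K : Subalgebra F (Matrix ι ι F)} {r : ℕ}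

theorem exists_ker4 (φ : Fin 4 → Module.Dual F (ι → F)) (hn : 5 ≤ Fintype.card ι) : ∃ x : ι → F, x ≠ 0 ∧ ∀ i, φ i x = 0 := by
  by_contra hcon
  push Not at hcon
  have hinj : Function.Injective (LinearMap.pi φ) := by
    rw [← LinearMap.ker_eq_bot, LinearMap.ker_eq_bot']
    intro x hx
    by_contra hx0
    obtain ⟨i, hi⟩ := hcon x hx0
    exact hi (congrFun hx i)
  have := LinearMap.finrank_le_finrank_of_injective hinj
  rw [Module.finrank_fintype_fun_eq_card, Module.finrank_fintype_fun_eq_card, Fintype.card_fin] at this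
  omega

include hQ hn hM in
theorem not_fld (hr : 2 ≤ r) (hK : IsFieldSubalgebra r K) (hle : M ≤ subalgebraNormalizer K) : False := by
  -- the root elements commute with K
  have hcomm : ∀ k ∈ K, ∀ u v x : ι → F, Q u = 0 → Q v = 0 → QuadraticMap.polar Q u v = 0 →
      k *ᵥ rd Q u v x = rd Q u v (k *ᵥ x) := by
    intro k hk u v x hu hv huv
    obtain ⟨t, ht, h⟩ := hM u v hu hv huv
    have hD := K.sub_mem ((hle ht k).1 hk) hk
    have h0 : (t : Matrix ι ι F) * k * ((t⁻¹ : GL ι F) : Matrix ι ι F) - k = 0 := by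
      by_contra hne
      obtain ⟨y, hy, hy1⟩ := hK.inv _ hD hne
      obtain ⟨z, hz0, hz⟩ := exists_ker4 (F := F) ![QuadraticMap.polarBilin Q u, QuadraticMap.polarBilin Q v,
        (QuadraticMap.polarBilin Q u).comp (Matrix.toLin' k), (QuadraticMap.polarBilin Q v).comp (Matrix.toLin' k)] hn
      have z0 : QuadraticMap.polar Q u z = 0 := hz 0
      have z1 : QuadraticMap.polar Q v z = 0 := hz 1
      have z2 : QuadraticMap.polar Q u (k *ᵥ z) = 0 := by
        have := hz 2
        simpa [Matrix.toLin'_apply] using this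
      have z3 : QuadraticMap.polar Q v (k *ᵥ z) = 0 := by
        have := hz 3
        simpa [Matrix.toLin'_apply] using this
      have h4 : (t : Matrix ι ι F) *ᵥ z = z := by rw [h, z0, z1]; simp
      have h5 : ((t⁻¹ : GL ι F) : Matrix ι ι F) *ᵥ z = z := by
        conv_lhs => rw [← h4]
        rw [Matrix.mulVec_mulVec, ← Units.val_mul]; simp
      have h6 : (t : Matrix ι ι F) *ᵥ (k *ᵥ z) = k *ᵥ z := by rw [h, z2, z3]; simp
      have h7 : ((t : Matrix ι ι F) * k * ((t⁻¹ : GL ι F) : Matrix ι ι F) - k) *ᵥ z = 0 := by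
        rw [Matrix.sub_mulVec, ← Matrix.mulVec_mulVec, ← Matrix.mulVec_mulVec, h5, h6, sub_self]
      have h8 : y * ((t : Matrix ι ι F) * k * ((t⁻¹ : GL ι F) : Matrix ι ι F) - k) = 1 := by
        rw [hK.comm _ hy _ hD]; exact hy1
      apply hz0
      calc z = (1 : Matrix ι ι F) *ᵥ z := by simp
        _ = y *ᵥ (((t : Matrix ι ι F) * k * ((t⁻¹ : GL ι F) : Matrix ι ι F) - k) *ᵥ z) := by rw [Matrix.mulVec_mulVec, h8]
        _ = 0 := by rw [h7, Matrix.mulVec_zero]
    have h3 : (t : Matrix ι ι F) * k = k * (t : Matrix ι ι F) := by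
      have h1 := sub_eq_zero.1 h0
      calc (t : Matrix ι ι F) * k = (t : Matrix ι ι F) * k * (((t⁻¹ : GL ι F) : Matrix ι ι F) * (t : Matrix ι ι F)) := by
            rw [← Units.val_mul]; simp
        _ = k * (t : Matrix ι ι F) := by rw [← mul_assoc, h1]
    have h4 : (t : Matrix ι ι F) *ᵥ (k *ᵥ x) = k *ᵥ ((t : Matrix ι ι F) *ᵥ x) := by
      rw [Matrix.mulVec_mulVec, Matrix.mulVec_mulVec, h3]
    rw [toLin_eq h, toLin_eq h, Matrix.mulVec_add] at h4
    exact (add_left_cancel h4).symm
  obtain ⟨u, v, v', hu, hv, hv', huv, huv', hli⟩ := exists_pair hQ hn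
  have hu0 : u ≠ 0 := hli.ne_zero 0
  have hmem : ∀ k ∈ K, ∀ w : ι → F, Q w = 0 → QuadraticMap.polar Q u w = 0 → LinearIndependent F ![u, w] →
      ∃ a b : F, k *ᵥ u = a • u + b • w := by
    intro k hk w hw huw hlw
    obtain ⟨x, hx1, hx2⟩ : ∃ x, QuadraticMap.polar Q u x = 0 ∧ QuadraticMap.polar Q w x = -1 := by
      have hnot : w ∉ Submodule.span F {u} := by
        intro hmem
        obtain ⟨c, hc⟩ := Submodule.mem_span_singleton.1 hmem
        have := LinearIndependent.pair_iff.1 hlw c (-1) (by rw [hc]; simp)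
        simp at this
      obtain ⟨s, hs, hs1⟩ := exists_functional_ne_zero (QuadraticMap.polarBilin Q) polar_isSymm.isRefl hQ _ w hnot
      rw [LinearMap.BilinForm.mem_orthogonal_iff] at hs
      have hsu : QuadraticMap.polar Q u s = 0 := hs u (Submodule.mem_span_singleton_self u)
      have hs1' : QuadraticMap.polar Q w s ≠ 0 := hs1
      refine ⟨(-(QuadraticMap.polar Q w s)⁻¹) • s, ?_, ?_⟩
      · rw [QuadraticMap.polar_smul_right, hsu, smul_zero]
      · rw [QuadraticMap.polar_smul_right, smul_eq_mul, neg_mul, inv_mul_cancel₀ hs1']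
    have h1 := hcomm k hk u w x hu hw huw
    have h2 : rd Q u w x = u := by unfold rd; rw [hx1, hx2]; simp
    rw [h2] at h1
    refine ⟨-QuadraticMap.polar Q w (k *ᵥ x), QuadraticMap.polar Q u (k *ᵥ x), ?_⟩
    rw [h1]; unfold rd; module
  have hscal : ∀ k ∈ K, ∃ c : F, k = c • (1 : Matrix ι ι F) := by
    intro k hk
    have l1 : LinearIndependent F ![u, v] := by
      rw [LinearIndependent.pair_iff]
      intro s t hst
      rw [Fintype.linearIndependent_iff] at hli
      have := hli ![s, t, 0] (by rw [Fin.sum_univ_three]; simp; exact hst)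
      exact ⟨this 0, this 1⟩
    have l2 : LinearIndependent F ![u, v'] := by
      rw [LinearIndependent.pair_iff]
      intro s t hst
      rw [Fintype.linearIndependent_iff] at hli
      have := hli ![s, 0, t] (by rw [Fin.sum_univ_three]; simp; exact hst)
      exact ⟨this 0, this 2⟩
    obtain ⟨a, b, h1⟩ := hmem k hk v hv huv l1
    obtain ⟨a', b', h2⟩ := hmem k hk v' hv' huv' l2
    rw [Fintype.linearIndependent_iff] at hli
    have h3 := hli ![a - a', b, -b'] (by
      rw [Fin.sum_univ_three]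
      simp only [Matrix.cons_val_zero, Matrix.cons_val_one, Matrix.cons_val_two, Matrix.head_cons, Matrix.tail_cons, Matrix.cons_val]
      have : a • u + b • v - (a' • u + b' • v') = 0 := by rw [← h1, ← h2, sub_self]
      rw [← this]; module)
    have hb : b = 0 := h3 1
    rw [hb, zero_smul, add_zero] at h1
    have hk' : k - a • (1 : Matrix ι ι F) ∈ K := K.sub_mem hk (K.smul_mem K.one_mem a)
    refine ⟨a, ?_⟩
    by_contra hne
    obtain ⟨y, hy, hy1⟩ := hK.inv _ hk' (sub_ne_zero.2 hne)
    rw [hK.comm _ hk' _ hy] at hy1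
    apply hu0
    calc u = (1 : Matrix ι ι F) *ᵥ u := by simp
      _ = y *ᵥ ((k - a • (1 : Matrix ι ι F)) *ᵥ u) := by rw [Matrix.mulVec_mulVec, hy1]
      _ = 0 := by rw [Matrix.sub_mulVec, Matrix.smul_mulVec, Matrix.one_mulVec, h1, sub_self, Matrix.mulVec_zero]
  have hbot : K ≤ ⊥ := by
    intro k hk
    obtain ⟨c, hc⟩ := hscal k hk
    rw [Algebra.mem_bot]
    exact ⟨c, by rw [hc, Algebra.algebraMap_eq_smul_one]⟩
  have h1 := hK.finrank_eq
  have h2 : finrank F K ≤ 1 := by
    have h3 : finrank F K ≤ finrank F (⊥ : Subalgebra F (Matrix ι ι F)) := by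
      have : Subalgebra.toSubmodule K ≤ Subalgebra.toSubmodule (⊥ : Subalgebra F (Matrix ι ι F)) := hbot
      exact Submodule.finrank_mono this
    have h4 : finrank F (⊥ : Subalgebra F (Matrix ι ι F)) ≤ 1 := by
      rcases subsingleton_or_nontrivial (Matrix ι ι F) with hs | hs
      · have : finrank F (⊥ : Subalgebra F (Matrix ι ι F)) = 0 := finrank_zero_of_subsingleton
        omega
      · rw [Subalgebra.finrank_bot]
    exact h3.trans h4
  omega

end fld

end proper

end CfsgLib.OmH12
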