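import Cfsg.Agent.LibOmPropH12d
import Cfsg.Agent.LibAschF4

set_option autoImplicit false
set_option linter.unusedSectionVars false

/-! Omega is contained in no member of the geometric classes: subfields, tensor squares (seat helper12). -/

namespace CfsgLib.OmH12

open Module Cfsg Cfsg.Geo Cfsg.Agent.H22
open scoped Matrix MatrixGroups Kronecker

section proper
variable {ι : Type} [Fintype ι] [DecidableEq ι] {F : Type*} [Field F] [Finite F] {Q : QuadraticForm F (ι → F)}
  (hQ : (QuadraticMap.polarBilin Q).Nondegenerate) (hn : 5 ≤ Fintype.card ι)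
  {M : Subgroup (GL ι F)} (hM : HasLong (Q : (ι → F) → F) M)

theorem long_pow {t : GL ι F} {u v : ι → F} (hu : Q u = 0) (hv : Q v = 0) (huv : QuadraticMap.polar Q u v = 0)
    (h : ∀ x : ι → F, (t : Matrix ι ι F) *ᵥ x = x + QuadraticMap.polar Q u x • v - QuadraticMap.polar Q v x • u) (m : ℕ)
    (x : ι → F) : ((t ^ m : GL ι F) : Matrix ι ι F) *ᵥ x = x + (m : F) • rd Q u v x := by
  induction m with
  | zero => simp
  | succ m ih =>
    have e1 : rd Q u v ((m : F) • rd Q u v x) = 0 := by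
      rw [← rdl_apply, map_smul, rdl_apply, rd_rd hu hv huv, smul_zero]
    rw [pow_succ', Units.val_mul, ← Matrix.mulVec_mulVec, ih, Matrix.mulVec_add, toLin_eq h, toLin_eq h, e1]
    push_cast
    module

theorem long_order {p : ℕ} [CharP F p] {t : GL ι F} {u v : ι → F} (hu : Q u = 0) (hv : Q v = 0) (huv : QuadraticMap.polar Q u v = 0)
    (h : ∀ x : ι → F, (t : Matrix ι ι F) *ᵥ x = x + QuadraticMap.polar Q u x • v - QuadraticMap.polar Q v x • u) : t ^ p = 1 := by
  apply Units.ext
  apply (Matrix.toLin' : Matrix ι ι F ≃ₗ[F] _).injective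
  apply LinearMap.ext
  intro x
  rw [Matrix.toLin'_apply, long_pow hu hv huv h, CharP.cast_eq_zero, zero_smul, add_zero]
  simp

include hQ in
theorem rd_ne {u v : ι → F} (hli : LinearIndependent F ![u, v]) : ∃ x, rd Q u v x ≠ 0 := by
  have hu0 : u ≠ 0 := hli.ne_zero 0
  obtain ⟨x, hx⟩ := exists_polar_ne hQ hu0
  rw [QuadraticMap.polar_comm] at hx
  refine ⟨x, fun h0 => hx ?_⟩
  have := LinearIndependent.pair_iff.1 hli (-QuadraticMap.polar Q v x) (QuadraticMap.polar Q u x) (by
    rw [← h0]; unfold rd; module)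
  exact this.2

include hQ hn hM in
theorem not_sub {F₀ : Subfield F} (h0 : F₀ ≠ ⊤) {P : GL ι F} (hle : M ≤ subfieldSubgroup F₀ P) : False := by
  obtain ⟨p, hp⟩ := CharP.exists F
  have hpp : p.Prime := CharP.char_is_prime F p
  obtain ⟨u, v, _, hu, hv, _, huv, _, hli⟩ := exists_pair hQ hn
  have l1 : LinearIndependent F ![u, v] := by
    rw [LinearIndependent.pair_iff]
    intro s t hst
    rw [Fintype.linearIndependent_iff] at hli
    have := hli ![s, t, 0] (by rw [Fin.sum_univ_three]; simp; exact hst)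
    exact ⟨this 0, this 1⟩
  -- entries of the conjugated displacement
  set N : ι → ι → F := fun i j => (((P⁻¹ : GL ι F) : Matrix ι ι F) *ᵥ rd Q u v ((P : Matrix ι ι F) *ᵥ Pi.single j 1)) i with hN
  have key : ∀ (l : F) (i j : ι), l * N i j ∈ F₀ := by
    intro l i j
    have hlv : Q (l • v) = 0 := by rw [qsmul, hv, mul_zero]
    have hulv : QuadraticMap.polar Q u (l • v) = 0 := by rw [QuadraticMap.polar_smul_right, huv, smul_zero]
    obtain ⟨t, htM, ht⟩ := hM u (l • v) hu hlv hulv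
    obtain ⟨g, hg, hgt⟩ := Subgroup.mem_map.1 (hle htM)
    have hgt' : P * g * P⁻¹ = t := hgt
    have hg' : g = P⁻¹ * t * P := by rw [← hgt']; group
    obtain ⟨B, c, hB⟩ := CfsgLib.AschSL1.mem_subfield_std hg
    have hord : g ^ p = 1 := by
      have h1 : (P⁻¹ * t * P) ^ p = P⁻¹ * t ^ p * P := by
        have := conj_pow (i := p) (a := P⁻¹) (b := t)
        rw [inv_inv] at this
        exact this
      rw [hg', h1, long_order hu hlv hulv ht]; group
    have hgB : (g : Matrix ι ι F) = c • (B.map (F₀.subtype : F₀ →+* F)) := by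
      ext a b
      rw [hB a b, Matrix.smul_apply, Matrix.map_apply, smul_eq_mul, mul_comm]
      rfl
    have hc : c ∈ F₀ := by
      have h1 : ((g ^ p : GL ι F) : Matrix ι ι F) = (c ^ p) • ((B ^ p).map (F₀.subtype : F₀ →+* F)) := by
        rw [Units.val_pow_eq_pow_val, hgB, smul_pow]
        congr 1
        exact (map_pow (RingHom.mapMatrix (F₀.subtype : F₀ →+* F)) B p).symm
      rw [hord, Units.val_one] at h1
      have h2 := congrFun (congrFun h1 i) i
      rw [Matrix.one_apply_eq, Matrix.smul_apply, Matrix.map_apply, smul_eq_mul] at h2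
      have h3 : c ^ p = ((((B ^ p) i i : F₀) : F))⁻¹ := eq_inv_of_mul_eq_one_left h2.symm
      have h4 : c ^ p ∈ F₀ := by rw [h3]; exact F₀.inv_mem ((B ^ p) i i).2
      have hinj : Function.Injective (fun x : F₀ => x ^ p) := by
        have : ExpChar F p := ExpChar.prime hpp
        have : CharP F₀ p := by
          exact (RingHom.charP_iff (F₀.subtype) F₀.subtype.injective p).2 hp
        have : ExpChar F₀ p := ExpChar.prime hpp
        exact frobenius_inj F₀ p
      have hsur := Finite.surjective_of_injective hinj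
      obtain ⟨d, hd⟩ := hsur ⟨c ^ p, h4⟩
      have hd' : (d : F) ^ p = c ^ p := congrArg Subtype.val hd
      have : ExpChar F p := ExpChar.prime hpp
      have := frobenius_inj F p hd'
      rw [← this]; exact d.2
    have h5 : (g : Matrix ι ι F) i j ∈ F₀ := by
      rw [hB]; exact F₀.mul_mem (B i j).2 hc
    have h6 : (g : Matrix ι ι F) i j = (if i = j then 1 else 0) + l * N i j := by
      have h7 : (g : Matrix ι ι F) i j = ((g : Matrix ι ι F) *ᵥ Pi.single j 1) i := by simp
      rw [h7, hg', Units.val_mul, Units.val_mul, ← Matrix.mulVec_mulVec, ← Matrix.mulVec_mulVec, toLin_eq ht, Matrix.mulVec_add,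
        Matrix.mulVec_mulVec, ← Units.val_mul, inv_mul_cancel, Units.val_one, Matrix.one_mulVec, Pi.add_apply]
      congr 1
      · simp [Pi.single_apply]
      · have h8 : rd Q u (l • v) ((P : Matrix ι ι F) *ᵥ Pi.single j 1) = l • rd Q u v ((P : Matrix ι ι F) *ᵥ Pi.single j 1) := by
          unfold rd
          rw [QuadraticMap.polar_smul_left]
          module
        rw [h8, Matrix.mulVec_smul]
        rfl
    have h9 : l * N i j = (g : Matrix ι ι F) i j - (if i = j then 1 else 0) := by rw [h6]; ring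
    rw [h9]
    refine F₀.sub_mem h5 ?_
    split_ifs
    · exact F₀.one_mem
    · exact F₀.zero_mem
  obtain ⟨i, j, hij⟩ : ∃ i j, N i j ≠ 0 := by
    by_contra hcon
    push Not at hcon
    obtain ⟨x, hx⟩ := rd_ne hQ l1
    apply hx
    have h1 : ∀ j, rd Q u v ((P : Matrix ι ι F) *ᵥ Pi.single j 1) = 0 := by
      intro j
      have h2 : ((P⁻¹ : GL ι F) : Matrix ι ι F) *ᵥ rd Q u v ((P : Matrix ι ι F) *ᵥ Pi.single j 1) = 0 := by
        ext i; exact hcon i j
      have h3 : (P : Matrix ι ι F) *ᵥ (((P⁻¹ : GL ι F) : Matrix ι ι F) *ᵥ rd Q u v ((P : Matrix ι ι F) *ᵥ Pi.single j 1)) = 0 := by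
        rw [h2, Matrix.mulVec_zero]
      rwa [Matrix.mulVec_mulVec, ← Units.val_mul, mul_inv_cancel, Units.val_one, Matrix.one_mulVec] at h3
    have h4 : ((rdl Q u v).comp (Matrix.toLin' (P : Matrix ι ι F))) = 0 := by
      apply LinearMap.pi_ext'
      intro j
      apply LinearMap.ext_ring
      simp only [LinearMap.comp_apply, LinearMap.zero_apply, Matrix.toLin'_apply, rdl_apply]
      exact h1 j
    have h5 := LinearMap.congr_fun h4 (((P⁻¹ : GL ι F) : Matrix ι ι F) *ᵥ x)
    rw [LinearMap.comp_apply, Matrix.toLin'_apply, Matrix.mulVec_mulVec, ← Units.val_mul, mul_inv_cancel, Units.val_one,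
      Matrix.one_mulVec, rdl_apply] at h5
    exact h5
  apply h0
  rw [eq_top_iff]
  intro c _
  have := key (c * (N i j)⁻¹) i j
  rwa [mul_assoc, inv_mul_cancel₀ hij, mul_one] at this

/-- the squares of the elements of the tensor wreath group of two factors are pure -/
theorem sq_mem_tp {k : ℕ} {e : ι ≃ (Fin 2 → Fin k)} {P t : GL ι F} (ht : t ∈ tensorWreathSubgroup k 2 e P) :
    t * t ∈ tensorProductSubgroup k k (e.trans (finTwoArrowEquiv (Fin k))) P := by
  obtain ⟨g, hg, rfl⟩ := Subgroup.mem_map.1 ht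
  obtain ⟨g', hg', rfl⟩ := Subgroup.mem_map.1 hg
  obtain ⟨σ, gs, hσ⟩ := CfsgLib.AschSL1.tw_of_mem hg'
  have hσσ : ∀ i, σ (σ i) = i := by
    have : ∀ (σ : Equiv.Perm (Fin 2)) i, σ (σ i) = i := by decide
    exact this σ
  -- entries of the square
  have hsq : ∀ x y : Fin 2 → Fin k, ((g' * g' : GL (Fin 2 → Fin k) F) : Matrix _ _ F) x y =
      (gs (σ 0) * gs 0) (x 0) (y 0) * (gs (σ 1) * gs 1) (x 1) (y 1) := by
    intro x z
    rw [Units.val_mul, Matrix.mul_apply]
    simp only [hσ]
    have h1 : ∀ y : Fin 2 → Fin k, (∏ i, gs i (x (σ i)) (y i)) * ∏ i, gs i (y (σ i)) (z i) =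
        ∏ i, gs (σ i) (x i) (y (σ i)) * gs i (y (σ i)) (z i) := by
      intro y
      rw [Finset.prod_mul_distrib]
      congr 1
      rw [← Equiv.prod_comp σ (fun i => gs i (x (σ i)) (y i))]
      simp only [hσσ]
    rw [Finset.sum_congr rfl fun y _ => h1 y]
    have h2 : (gs (σ 0) * gs 0) (x 0) (z 0) * (gs (σ 1) * gs 1) (x 1) (z 1) = ∏ i, (gs (σ i) * gs i) (x i) (z i) := by
      rw [Fin.prod_univ_two]
    rw [h2]
    simp only [Matrix.mul_apply]
    rw [Finset.prod_univ_sum]
    refine Finset.sum_bij' (fun y _ => y ∘ σ) (fun y _ => y ∘ σ) ?_ ?_ ?_ ?_ ?_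
    · intro y _; simp
    · intro y _; simp
    · intro y _; ext i; simp [hσσ]
    · intro y _; ext i; simp [hσσ]
    · intro y _; rfl
  obtain ⟨A, hA⟩ : ∃ A, A = gs (σ 0) * gs 0 := ⟨_, rfl⟩
  obtain ⟨B, hB⟩ : ∃ B, B = gs (σ 1) * gs 1 := ⟨_, rfl⟩
  rw [← hA, ← hB] at hsq
  have hk : ((glReindex (finTwoArrowEquiv (Fin k)) (g' * g') : GL (Fin k × Fin k) F) : Matrix _ _ F) = A ⊗ₖ B := by
    ext ⟨a, b⟩ ⟨c, d⟩
    change ((g' * g' : GL (Fin 2 → Fin k) F) : Matrix _ _ F) ((finTwoArrowEquiv (Fin k)).symm (a, b))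
      ((finTwoArrowEquiv (Fin k)).symm (c, d)) = _
    rw [hsq]
    simp [finTwoArrowEquiv]
  have hdet : IsUnit (A ⊗ₖ B).det := by
    rw [← hk]
    exact Matrix.isUnits_det_units _
  rw [Matrix.det_kronecker] at hdet
  rcases Nat.eq_zero_or_pos k with hk0 | hk0
  · subst hk0
    have : IsEmpty ι := ⟨fun i => Fin.elim0 (e i 0)⟩
    have hss : ∀ x y : GL ι F, x = y := fun x y => Units.ext (Subsingleton.elim _ _)
    rw [hss (_ * _) 1]
    exact Subgroup.one_mem _
  have hA1 : IsUnit A.det := by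
    have h1 : IsUnit (A.det ^ Fintype.card (Fin k)) := isUnit_of_mul_isUnit_left hdet
    rw [Fintype.card_fin, isUnit_pow_iff (by omega)] at h1
    exact h1
  have hB1 : IsUnit B.det := by
    have h1 : IsUnit (B.det ^ Fintype.card (Fin k)) := isUnit_of_mul_isUnit_right hdet
    rw [Fintype.card_fin, isUnit_pow_iff (by omega)] at h1
    exact h1
  refine Subgroup.mem_map.2 ⟨glReindex e.symm (g' * g'), Subgroup.mem_map.2 ⟨glReindex (finTwoArrowEquiv (Fin k)) (g' * g'),
    ⟨Matrix.nonsingInvUnit A hA1, Matrix.nonsingInvUnit B hB1, hk⟩, ?_⟩, ?_⟩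
  · ext a b
    change ((g' * g' : GL (Fin 2 → Fin k) F) : Matrix _ _ F) ((finTwoArrowEquiv (Fin k)).symm ((finTwoArrowEquiv (Fin k)) (e a)))
      ((finTwoArrowEquiv (Fin k)).symm ((finTwoArrowEquiv (Fin k)) (e b))) = ((g' * g' : GL (Fin 2 → Fin k) F) : Matrix _ _ F) (e a) (e b)
    rw [Equiv.symm_apply_apply, Equiv.symm_apply_apply]
  · rw [map_mul, map_mul]; rfl

include hQ hn hM in
theorem not_tw2 (h2 : (2 : F) ≠ 0) {k : ℕ} (hk : 2 ≤ k) {e : ι ≃ (Fin 2 → Fin k)} {P : GL ι F}
    (hle : M ≤ tensorWreathSubgroup k 2 e P) : False := by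
  obtain ⟨p, hp⟩ := CharP.exists F
  have hpp : p.Prime := CharP.char_is_prime F p
  have hodd : ∃ m, p = 2 * m + 1 := by
    rcases hpp.eq_two_or_odd' with h | h
    · exfalso
      apply h2
      have := CharP.cast_eq_zero F p
      rw [h] at this
      exact_mod_cast this
    · exact h
  obtain ⟨m, hm⟩ := hodd
  have hM' : HasLong (Q : (ι → F) → F) (tensorProductSubgroup k k (e.trans (finTwoArrowEquiv (Fin k))) P) := by
    intro u v hu hv huv
    obtain ⟨t, htM, ht⟩ := hM u v hu hv huv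
    refine ⟨t, ?_, ht⟩
    have h1 := sq_mem_tp (hle htM)
    have h3 : t = (t * t) ^ (m + 1) := by
      have h4 := long_order hu hv huv ht (p := p)
      have h5 : (t * t) ^ (m + 1) = t ^ p * t := by
        rw [hm, ← pow_two, ← pow_mul, ← pow_succ]
        congr 1
      rw [h5, h4, one_mul]
    rw [h3]
    exact Subgroup.pow_mem _ h1 _
  exact not_tp hQ hn hM' hk hk le_rfl

end proper

end CfsgLib.OmH12
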