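import Cfsg.Agent.LibOmTypeH12
import Cfsg.Agent.LibOmOdd2H12

set_option autoImplicit false
set_option linter.unusedSectionVars false

/-! Types of quadratic forms over finite fields, part 2 (seat helper12). -/

namespace CfsgLib.OmH12

open Module Cfsg Cfsg.Geo Cfsg.Agent.H22
open scoped Matrix MatrixGroups Kronecker

section abs
variable {F V : Type*} [Field F] [AddCommGroup V] [Module F V] [FiniteDimensional F V] {Q : QuadraticForm F V}

/-- orthogonal complements inside a plus-type space -/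
theorem plus_compl (hQ : (QuadraticMap.polarBilin Q).Nondegenerate) (hp : PT Q) {D0 D1 : Submodule F V} (hc : IsCompl D0 D1)
    (ho : ∀ u ∈ D0, ∀ v ∈ D1, QuadraticMap.polar Q u v = 0) {U0 : Submodule F V} (hU0 : U0 ≤ D0) (hts : TS Q U0)
    (hd : 2 * finrank F U0 = finrank F D0) : ∃ U1, U1 ≤ D1 ∧ TS Q U1 ∧ 2 * finrank F U1 = finrank F D1 := by
  obtain ⟨U, hU, hUd⟩ := hp
  obtain ⟨U', h1, h2, h3⟩ := TS.extend hQ hU hUd hts
  have hsum := Submodule.finrank_add_eq_of_isCompl hc
  -- D0 ∩ U0^⊥ = U0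
  have hD1 : D1 ≤ pp Q U0 := fun v hv => mem_pp.2 fun w hw => ho w (hU0 hw) v hv
  have h4 : pp Q U0 = (D0 ⊓ pp Q U0) ⊔ D1 := by
    apply le_antisymm
    · intro x hx
      obtain ⟨a, ha, b, hb, rfl⟩ := Submodule.mem_sup.1 (hc.sup_eq_top ▸ (Submodule.mem_top : x ∈ (⊤ : Submodule F V)))
      refine Submodule.add_mem_sup ⟨ha, ?_⟩ hb
      have := (pp Q U0).sub_mem hx (hD1 hb)
      rwa [add_sub_cancel_right] at this
    · exact sup_le inf_le_right hD1
  have h5 := Submodule.finrank_sup_add_finrank_inf_eq (D0 ⊓ pp Q U0) D1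
  have h6 : (D0 ⊓ pp Q U0) ⊓ D1 = ⊥ := by
    rw [eq_bot_iff, ← hc.inf_eq_bot]
    exact inf_le_inf_right _ inf_le_left
  rw [← h4, h6, finrank_bot] at h5
  have h7 := finrank_pp hQ U0
  have h8 : U0 = D0 ⊓ pp Q U0 := by
    apply Submodule.eq_of_le_of_finrank_eq (le_inf hU0 hts.le_pp)
    omega
  have h9 : U' = U0 ⊔ (U' ⊓ D1) := by
    apply le_antisymm
    · intro x hx
      obtain ⟨a, ha, b, hb, rfl⟩ := Submodule.mem_sup.1 (hc.sup_eq_top ▸ (Submodule.mem_top : x ∈ (⊤ : Submodule F V)))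
      have ha' : a ∈ U0 := by
        rw [h8]
        refine ⟨ha, ?_⟩
        have h10 : a + b ∈ pp Q U0 := mem_pp.2 fun w hw => h2.pol (h1 hw) hx
        have := (pp Q U0).sub_mem h10 (hD1 hb)
        rwa [add_sub_cancel_right] at this
      refine Submodule.add_mem_sup ha' ⟨?_, hb⟩
      have := U'.sub_mem hx (h1 ha')
      rwa [add_sub_cancel_left] at this
    · exact sup_le h1 inf_le_left
  refine ⟨U' ⊓ D1, inf_le_right, h2.mono inf_le_left, ?_⟩
  have h11 := Submodule.finrank_sup_add_finrank_inf_eq U0 (U' ⊓ D1)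
  have h12 : U0 ⊓ (U' ⊓ D1) = ⊥ := by
    rw [eq_bot_iff, ← hc.inf_eq_bot]
    exact inf_le_inf hU0 inf_le_right
  rw [← h9, h12, finrank_bot] at h11
  omega

theorem pt_qres {D : Submodule F V} : PT (qres Q D) ↔ ∃ U, U ≤ D ∧ TS Q U ∧ 2 * finrank F U = finrank F D := by
  constructor
  · rintro ⟨U, hU, hd⟩
    refine ⟨U.map D.subtype, Submodule.map_subtype_le _ _, ?_, ?_⟩
    · rintro _ ⟨x, hx, rfl⟩
      exact hU x hx
    · rw [Submodule.finrank_map_subtype_eq]; exact hd
  · rintro ⟨U, hUD, hU, hd⟩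
    refine ⟨U.comap D.subtype, fun x hx => hU _ hx, ?_⟩
    rw [← Submodule.finrank_map_subtype_eq D, Submodule.map_comap_subtype, inf_eq_right.2 hUD]
    exact hd

theorem qres_nondeg {D : Submodule F V} (hD : ∀ w ∈ D, w ≠ 0 → ∃ x ∈ D, QuadraticMap.polar Q x w ≠ 0) :
    (QuadraticMap.polarBilin (qres Q D)).Nondegenerate := by
  have key : ∀ x : D, (∀ y : D, QuadraticMap.polar Q (x : V) (y : V) = 0) → x = 0 := by
    intro x hx
    by_contra h0
    obtain ⟨y, hy, hne⟩ := hD x x.2 (fun h => h0 (Subtype.ext h))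
    rw [QuadraticMap.polar_comm] at hne
    exact hne (hx ⟨y, hy⟩)
  constructor
  · intro x hx
    exact key x hx
  · intro y hy
    apply key
    intro x
    rw [QuadraticMap.polar_comm]
    exact hy x

/-- two orthogonal complementary isometric even-dimensional spaces span a plus-type space -/
theorem pair_plus [Finite F] {D0 D1 : Submodule F V} (hc : Disjoint D0 D1)
    (ho : ∀ u ∈ D0, ∀ v ∈ D1, QuadraticMap.polar Q u v = 0)
    (h0 : ∀ w ∈ D0, w ≠ 0 → ∃ x ∈ D0, QuadraticMap.polar Q x w ≠ 0)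
    (h1 : ∀ w ∈ D1, w ≠ 0 → ∃ x ∈ D1, QuadraticMap.polar Q x w ≠ 0) {m : ℕ} (hd0 : finrank F D0 = 2 * m)
    (hd1 : finrank F D1 = 2 * m) (ht : PT (qres Q D0) ↔ PT (qres Q D1)) :
    ∃ U, U ≤ D0 ⊔ D1 ∧ TS Q U ∧ finrank F U = 2 * m := by
  have hn1 : (QuadraticMap.polarBilin (-qres Q D1)).Nondegenerate := by
    have h2 := qres_nondeg h1
    have h3 : ∀ x y, QuadraticMap.polar (-qres Q D1) x y = - QuadraticMap.polar (qres Q D1) x y := by
      intro x y
      rw [QuadraticMap.coeFn_neg, QuadraticMap.polar_neg]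
    constructor
    · intro x hx
      apply h2.1 x
      intro y
      have := hx y
      change QuadraticMap.polar (-qres Q D1) x y = 0 at this
      rw [h3, neg_eq_zero] at this
      exact this
    · intro x hx
      apply h2.2 x
      intro y
      have := hx y
      change QuadraticMap.polar (-qres Q D1) y x = 0 at this
      rw [h3, neg_eq_zero] at this
      exact this
  have ht' : PT (qres Q D0) ↔ PT (-qres Q D1) := by
    rw [ht]
    have h4 : ∀ U : Submodule F D1, TS (-qres Q D1) U ↔ TS (qres Q D1) U := by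
      intro U
      constructor
      · intro h x hx
        have := h x hx
        rw [QuadraticMap.neg_apply, neg_eq_zero] at this
        exact this
      · intro h x hx
        rw [QuadraticMap.neg_apply, neg_eq_zero]
        exact h x hx
    unfold PT
    simp only [h4]
  obtain ⟨g, hg⟩ := isom_of_type m (qres_nondeg h0) hn1 hd0 hd1 ht'
  let φ : D0 →ₗ[F] V := D0.subtype + D1.subtype ∘ₗ (g : D0 →ₗ[F] D1)
  have hφ : ∀ x : D0, φ x = (x : V) + (g x : V) := fun x => rfl
  have hinj : Function.Injective φ := by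
    rw [← LinearMap.ker_eq_bot, LinearMap.ker_eq_bot']
    intro x hx
    rw [hφ] at hx
    have hx1 : (x : V) = -(g x : V) := eq_neg_of_add_eq_zero_left hx
    have hx2 : (x : V) ∈ D0 ⊓ D1 := ⟨x.2, by rw [hx1]; exact D1.neg_mem (g x).2⟩
    rw [hc.eq_bot, Submodule.mem_bot] at hx2
    exact Subtype.ext hx2
  refine ⟨LinearMap.range φ, ?_, ?_, ?_⟩
  · rintro _ ⟨x, rfl⟩
    exact Submodule.add_mem_sup x.2 (g x).2
  · rintro _ ⟨x, rfl⟩
    have h5 := hg x
    rw [QuadraticMap.neg_apply, qres_apply, qres_apply] at h5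
    rw [hφ, qadd, ho _ x.2 _ (g x).2, ← h5]; ring
  · rw [LinearMap.finrank_range_of_inj hinj, hd0]

/-- cancellation: the two halves of a plus-type space are isometric -/
theorem half_isom [Finite F] (hQ : (QuadraticMap.polarBilin Q).Nondegenerate) (hp : PT Q) {D0 D1 : Submodule F V} (hc : IsCompl D0 D1)
    (ho : ∀ u ∈ D0, ∀ v ∈ D1, QuadraticMap.polar Q u v = 0)
    (h0 : ∀ w ∈ D0, w ≠ 0 → ∃ x ∈ D0, QuadraticMap.polar Q x w ≠ 0)
    (h1 : ∀ w ∈ D1, w ≠ 0 → ∃ x ∈ D1, QuadraticMap.polar Q x w ≠ 0) {m : ℕ} (hd0 : finrank F D0 = 2 * m)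
    (hd1 : finrank F D1 = 2 * m) : Isom (qres Q D0) (qres Q D1) := by
  apply isom_of_type m (qres_nondeg h0) (qres_nondeg h1) hd0 hd1
  constructor
  · intro h
    obtain ⟨U, hU1, hU2, hU3⟩ := pt_qres.1 h
    exact pt_qres.2 (plus_compl hQ hp hc ho hU1 hU2 hU3)
  · intro h
    obtain ⟨U, hU1, hU2, hU3⟩ := pt_qres.1 h
    exact pt_qres.2 (plus_compl hQ hp hc.symm (fun u hu v hv => by rw [QuadraticMap.polar_comm]; exact ho v hv u hu) hU1 hU2 hU3)

end abs

section gram
variable {F V : Type*} [Field F] [AddCommGroup V] [Module F V] [FiniteDimensional F V] {Q : QuadraticForm F V}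

theorem gram_det {κ : Type*} [Fintype κ] [DecidableEq κ] (B : LinearMap.BilinForm F V) (b c : Basis κ F V) :
    ∃ s : F, s ≠ 0 ∧ (LinearMap.BilinForm.toMatrix c B).det = s ^ 2 * (LinearMap.BilinForm.toMatrix b B).det := by
  refine ⟨(b.toMatrix c).det, ?_, ?_⟩
  · have h := Basis.toMatrix_mul_toMatrix_flip b c
    intro h0
    have h1 := congrArg Matrix.det h
    rw [Matrix.det_mul, h0, zero_mul, Matrix.det_one] at h1
    exact zero_ne_one h1
  · rw [← LinearMap.BilinForm.toMatrix_mul_basis_toMatrix b c B, Matrix.det_mul, Matrix.det_mul, Matrix.det_transpose]; ring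

theorem det_antidiag {k : ℕ} (A B D : Matrix (Fin k) (Fin k) F) :
    (Matrix.fromBlocks 0 A B D).det = (-1) ^ k * (A.det * B.det) := by
  have h1 : (Matrix.fromBlocks (0 : Matrix (Fin k) (Fin k) F) (1 : Matrix (Fin k) (Fin k) F) (1 : Matrix (Fin k) (Fin k) F)
      (0 : Matrix (Fin k) (Fin k) F)).det = (-1) ^ k := by
    have h2 : Matrix.fromBlocks (1 : Matrix (Fin k) (Fin k) F) (1 : Matrix (Fin k) (Fin k) F) (0 : Matrix (Fin k) (Fin k) F)
        (1 : Matrix (Fin k) (Fin k) F) * Matrix.fromBlocks (0 : Matrix (Fin k) (Fin k) F) (1 : Matrix (Fin k) (Fin k) F)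
          (1 : Matrix (Fin k) (Fin k) F) (0 : Matrix (Fin k) (Fin k) F) =
        Matrix.fromBlocks (1 : Matrix (Fin k) (Fin k) F) (1 : Matrix (Fin k) (Fin k) F) (1 : Matrix (Fin k) (Fin k) F)
          (0 : Matrix (Fin k) (Fin k) F) := by
      rw [Matrix.fromBlocks_multiply]; simp
    have h3 := congrArg Matrix.det h2
    rw [Matrix.det_mul, Matrix.det_fromBlocks_zero₂₁, Matrix.det_one, Matrix.det_fromBlocks_one₁₁] at h3
    rw [one_mul, one_mul] at h3
    rw [h3, mul_one, zero_sub, Matrix.det_neg, Matrix.det_one, Fintype.card_fin, mul_one]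
  have h4 : Matrix.fromBlocks (0 : Matrix (Fin k) (Fin k) F) (1 : Matrix (Fin k) (Fin k) F) (1 : Matrix (Fin k) (Fin k) F)
      (0 : Matrix (Fin k) (Fin k) F) * Matrix.fromBlocks 0 A B D = Matrix.fromBlocks B D 0 A := by
    rw [Matrix.fromBlocks_multiply]; simp
  have h5 := congrArg Matrix.det h4
  rw [Matrix.det_mul, Matrix.det_fromBlocks_zero₂₁, h1] at h5
  have h6 : ((-1 : F) ^ k) * (-1) ^ k = 1 := by rw [← mul_pow]; simp
  calc (Matrix.fromBlocks 0 A B D).det = ((-1 : F) ^ k) * (-1) ^ k * (Matrix.fromBlocks 0 A B D).det := by rw [h6, one_mul]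
    _ = (-1) ^ k * (A.det * B.det) := by rw [mul_assoc, h5]; ring

/-- the discriminant of a plus-type space -/
theorem disc_plus {k : ℕ} (hp : PT Q) (b : Basis (Fin k ⊕ Fin k) F V) :
    ∃ s : F, (LinearMap.BilinForm.toMatrix b (QuadraticMap.polarBilin Q)).det = (-1) ^ k * s ^ 2 := by
  have hdim : finrank F V = 2 * k := by
    rw [Module.finrank_eq_card_basis b, Fintype.card_sum, Fintype.card_fin]; ring
  obtain ⟨U, hU, hd⟩ := hp
  obtain ⟨W, hW⟩ := Submodule.exists_isCompl U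
  have hsum := Submodule.finrank_add_eq_of_isCompl hW
  let bU := Module.finBasisOfFinrankEq F U (show finrank F U = k by omega)
  let bW := Module.finBasisOfFinrankEq F W (show finrank F W = k by omega)
  let c : Basis (Fin k ⊕ Fin k) F V := (bU.prod bW).map (Submodule.prodEquivOfIsCompl U W hW)
  have hcl : ∀ i, c (Sum.inl i) = (bU i : V) := by
    intro i
    simp [c]
  obtain ⟨s, hs0, hs⟩ := gram_det (QuadraticMap.polarBilin Q) c b
  set M := LinearMap.BilinForm.toMatrix c (QuadraticMap.polarBilin Q) with hM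
  have hMij : ∀ i j, M i j = QuadraticMap.polar Q (c i) (c j) := by
    intro i j; rw [hM, LinearMap.BilinForm.toMatrix_apply]; rfl
  have hMb : M = Matrix.fromBlocks 0 (M.toBlocks₁₂) (M.toBlocks₁₂)ᵀ M.toBlocks₂₂ := by
    conv_lhs => rw [← Matrix.fromBlocks_toBlocks M]
    congr 1
    · ext i j
      change M (Sum.inl i) (Sum.inl j) = 0
      rw [hMij, hcl, hcl]
      exact hU.pol (bU i).2 (bU j).2
    · ext i j
      change M (Sum.inr i) (Sum.inl j) = M (Sum.inl j) (Sum.inr i)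
      rw [hMij, hMij, QuadraticMap.polar_comm]
  refine ⟨s * (M.toBlocks₁₂).det, ?_⟩
  rw [hs, hMb, det_antidiag, Matrix.det_transpose]
  rw [Matrix.toBlocks_fromBlocks₁₂]
  ring

end gram

end CfsgLib.OmH12
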