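import Cfsg.Agent.LibOmType2H12

set_option autoImplicit false
set_option linter.unusedSectionVars false

/-! Types of quadratic forms over finite fields, part 3 (seat helper12). -/

namespace CfsgLib.OmH12

open Module Cfsg Cfsg.Geo Cfsg.Agent.H22
open scoped Matrix MatrixGroups Kronecker

section diag
variable {F V : Type*} [Field F] [AddCommGroup V] [Module F V] [FiniteDimensional F V] {Q : QuadraticForm F V}

theorem ts_of_set {S : Set V} (h1 : ∀ x ∈ S, Q x = 0) (h2 : ∀ x ∈ S, ∀ y ∈ S, QuadraticMap.polar Q x y = 0) :
    TS Q (Submodule.span F S) := by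
  have h3 : ∀ x ∈ S, ∀ y ∈ Submodule.span F S, QuadraticMap.polar Q x y = 0 := by
    intro x hx y hy
    induction hy using Submodule.span_induction with
    | mem z hz => exact h2 x hx z hz
    | zero => exact QuadraticMap.polar_zero_right _ _
    | smul a z _ hz => rw [QuadraticMap.polar_smul_right, hz, smul_zero]
    | add z z' _ _ hz hz' => rw [QuadraticMap.polar_add_right, hz, hz', add_zero]
  have h4 : ∀ y ∈ Submodule.span F S, ∀ x ∈ Submodule.span F S, QuadraticMap.polar Q x y = 0 := by
    intro y hy x hx
    induction hx using Submodule.span_induction with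
    | mem z hz => exact h3 z hz y hy
    | zero => exact QuadraticMap.polar_zero_left _ _
    | smul a z _ hz => rw [QuadraticMap.polar_smul_left, hz, smul_zero]
    | add z z' _ _ hz hz' => rw [QuadraticMap.polar_add_left, hz, hz', add_zero]
  intro x hx
  induction hx using Submodule.span_induction with
  | mem z hz => exact h1 z hz
  | zero => exact QuadraticMap.map_zero Q
  | smul a z _ hz => rw [qsmul, hz, mul_zero]
  | add z z' hz1 hz2 hz hz' => rw [qadd, hz, hz', h4 z' hz2 z hz1]; ring

theorem diag_li {κ : Type*} [Finite κ] [DecidableEq κ] {w : κ → V} {c : κ → F} (hc : ∀ i, c i ≠ 0)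
    (hw : ∀ i j, QuadraticMap.polar Q (w i) (w j) = if i = j then c i else 0) : LinearIndependent F w := by
  have := Fintype.ofFinite κ
  rw [Fintype.linearIndependent_iff]
  intro g hg i
  have h1 : QuadraticMap.polar Q (w i) (∑ j, g j • w j) = g i * c i := by
    change QuadraticMap.polarBilin Q (w i) (∑ j, g j • w j) = _
    rw [map_sum, Finset.sum_eq_single i]
    · rw [map_smul]
      change g i • QuadraticMap.polar Q (w i) (w i) = _
      rw [hw, if_pos rfl, smul_eq_mul]
    · intro j _ hj
      rw [map_smul]
      change g j • QuadraticMap.polar Q (w i) (w j) = _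
      rw [hw, if_neg hj.symm, smul_zero]
    · intro h; exact absurd (Finset.mem_univ i) h
  rw [hg, QuadraticMap.polar_zero_right] at h1
  exact (mul_eq_zero.1 h1.symm).resolve_right (hc i)

/-- the discriminant with respect to an orthogonal basis -/
theorem diag_det {κ : Type*} [Fintype κ] [DecidableEq κ] {b : Basis κ F V} {c : κ → F}
    (hw : ∀ i j, QuadraticMap.polar Q (b i) (b j) = if i = j then c i else 0) :
    (LinearMap.BilinForm.toMatrix b (QuadraticMap.polarBilin Q)).det = ∏ i, c i := by
  have : LinearMap.BilinForm.toMatrix b (QuadraticMap.polarBilin Q) = Matrix.diagonal c := by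
    ext i j
    rw [LinearMap.BilinForm.toMatrix_apply]
    change QuadraticMap.polar Q (b i) (b j) = _
    rw [hw, Matrix.diagonal_apply]
  rw [this, Matrix.det_diagonal]

theorem isSquare_of_pow_odd {k : ℕ} (hk : Odd k) {x : F} (h : IsSquare (x ^ k)) : IsSquare x := by
  obtain ⟨m, rfl⟩ := hk
  by_cases hx : x = 0
  · rw [hx]; exact ⟨0, by ring⟩
  · have h1 : x = x ^ (2 * m + 1) / (x ^ m) ^ 2 := by
      have : x ^ m ≠ 0 := pow_ne_zero _ hx
      field_simp
      ring
    rw [h1]
    exact h.div ⟨x ^ m, by ring⟩

theorem diag_plus (h2 : (2 : F) ≠ 0) {k : ℕ} (hk : Odd k) (hd : finrank F V = 2 * k) {w : Fin k ⊕ Fin k → V} {c0 c1 : F} (hc0 : c0 ≠ 0)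
    (hc1 : c1 ≠ 0) (hw : ∀ i j, QuadraticMap.polar Q (w i) (w j) = if i = j then Sum.elim (fun _ => c0) (fun _ => c1) i else 0) :
    PT Q ↔ IsSquare (-(c0 * c1)) := by
  have hli : LinearIndependent F w := diag_li (fun i => by cases i <;> simpa) hw
  have hcard : Fintype.card (Fin k ⊕ Fin k) = finrank F V := by rw [hd, Fintype.card_sum, Fintype.card_fin]; ring
  have hpos : 0 < k := hk.pos
  haveI : Nonempty (Fin k ⊕ Fin k) := ⟨Sum.inl ⟨0, hpos⟩⟩
  let b := basisOfLinearIndependentOfCardEqFinrank hli hcard
  have hb : ∀ i, b i = w i := fun i => by rw [coe_basisOfLinearIndependentOfCardEqFinrank]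
  constructor
  · intro hp
    obtain ⟨s, hs⟩ := disc_plus hp b
    rw [diag_det (c := Sum.elim (fun _ => c0) (fun _ => c1)) (fun i j => by rw [hb, hb, hw]), Fintype.prod_sum_type] at hs
    simp only [Sum.elim_inl, Sum.elim_inr, Finset.prod_const, Finset.card_univ, Fintype.card_fin] at hs
    apply isSquare_of_pow_odd hk
    rw [neg_pow, mul_pow, hs]
    refine ⟨s, ?_⟩
    have h6 : ((-1 : F) ^ k) * (-1) ^ k = 1 := by rw [← mul_pow]; simp
    linear_combination s ^ 2 * h6
  · rintro ⟨t, ht⟩
    -- the vectors w (inl i) + (t / c1) w (inr i)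
    have hQw : ∀ i, Q (w i) = (Sum.elim (fun _ => c0) (fun _ => c1) i : F) / 2 := by
      intro i
      have := hw i i
      rw [if_pos rfl, pself] at this
      rw [← this]; field_simp
    let u : Fin k → V := fun i => w (Sum.inl i) + (t / c1) • w (Sum.inr i)
    have hpu : ∀ i j, QuadraticMap.polar Q (u i) (w (Sum.inl j)) = if i = j then c0 else 0 := by
      intro i j
      change QuadraticMap.polar Q (w (Sum.inl i) + (t / c1) • w (Sum.inr i)) _ = _
      rw [QuadraticMap.polar_add_left, QuadraticMap.polar_smul_left, hw, hw]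
      simp
    have huu : ∀ i j, QuadraticMap.polar Q (u i) (u j) = 0 := by
      intro i j
      change QuadraticMap.polar Q (w (Sum.inl i) + (t / c1) • w (Sum.inr i)) (w (Sum.inl j) + (t / c1) • w (Sum.inr j)) = 0
      rw [QuadraticMap.polar_add_left, QuadraticMap.polar_smul_left, QuadraticMap.polar_add_right, QuadraticMap.polar_add_right,
        QuadraticMap.polar_smul_right, QuadraticMap.polar_smul_right, hw, hw, hw, hw]
      simp only [Sum.inl.injEq, Sum.inr.injEq, reduceCtorEq, if_false, smul_zero, add_zero, zero_add, Sum.elim_inl, Sum.elim_inr,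
        smul_eq_mul]
      by_cases hij : i = j
      · rw [if_pos hij, if_pos hij]
        field_simp
        linear_combination -ht
      · rw [if_neg hij, if_neg hij]; ring
    have huq : ∀ i, Q (u i) = 0 := by
      intro i
      have := huu i i
      rw [pself] at this
      exact (mul_eq_zero.1 this).resolve_left h2
    refine ⟨Submodule.span F (Set.range u), ts_of_set ?_ ?_, ?_⟩
    · rintro _ ⟨i, rfl⟩; exact huq i
    · rintro _ ⟨i, rfl⟩ _ ⟨j, rfl⟩; exact huu i j
    · have hlu : LinearIndependent F u := by
        rw [Fintype.linearIndependent_iff]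
        intro g hg i
        have h1 : QuadraticMap.polar Q (w (Sum.inl i)) (∑ j, g j • u j) = g i * c0 := by
          change QuadraticMap.polarBilin Q (w (Sum.inl i)) (∑ j, g j • u j) = _
          rw [map_sum, Finset.sum_eq_single i]
          · rw [map_smul]
            change g i • QuadraticMap.polar Q (w (Sum.inl i)) (u i) = _
            rw [QuadraticMap.polar_comm, hpu, if_pos rfl, smul_eq_mul]
          · intro j _ hj
            rw [map_smul]
            change g j • QuadraticMap.polar Q (w (Sum.inl i)) (u j) = _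
            rw [QuadraticMap.polar_comm, hpu, if_neg hj, smul_zero]
          · intro h; exact absurd (Finset.mem_univ i) h
        rw [hg, QuadraticMap.polar_zero_right] at h1
        exact (mul_eq_zero.1 h1.symm).resolve_right hc0
      rw [finrank_span_eq_card hlu, Fintype.card_fin, hd]

/-- two odd-dimensional diagonal spaces -/
theorem diag_isom {V' : Type*} [AddCommGroup V'] [Module F V'] [FiniteDimensional F V'] {Q' : QuadraticForm F V'}
    {k : ℕ} (hk : Odd k) (hd : finrank F V = k) (hd' : finrank F V' = k) {w : Fin k → V}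
    {w' : Fin k → V'} {c0 c1 : F} (hc0 : c0 ≠ 0) (hc1 : c1 ≠ 0) (h2 : (2 : F) ≠ 0)
    (hw : ∀ i j, QuadraticMap.polar Q (w i) (w j) = if i = j then c0 else 0)
    (hw' : ∀ i j, QuadraticMap.polar Q' (w' i) (w' j) = if i = j then c1 else 0) : Isom Q Q' ↔ IsSquare (c0 * c1) := by
  have hli : LinearIndependent F w := diag_li (c := fun _ => c0) (fun _ => hc0) hw
  have hli' : LinearIndependent F w' := diag_li (c := fun _ => c1) (fun _ => hc1) hw'
  have hcard : Fintype.card (Fin k) = finrank F V := by rw [hd, Fintype.card_fin]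
  have hcard' : Fintype.card (Fin k) = finrank F V' := by rw [hd', Fintype.card_fin]
  haveI : Nonempty (Fin k) := ⟨⟨0, hk.pos⟩⟩
  let b := basisOfLinearIndependentOfCardEqFinrank hli hcard
  have hb : ∀ i, b i = w i := fun i => by rw [coe_basisOfLinearIndependentOfCardEqFinrank]
  let b' := basisOfLinearIndependentOfCardEqFinrank hli' hcard'
  have hb' : ∀ i, b' i = w' i := fun i => by rw [coe_basisOfLinearIndependentOfCardEqFinrank]
  constructor
  · rintro ⟨e, he⟩
    have hpe : ∀ x y, QuadraticMap.polar Q' (e x) (e y) = QuadraticMap.polar Q x y := by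
      intro x y
      simp only [QuadraticMap.polar, ← map_add, he]
    obtain ⟨s, hs0, hs⟩ := gram_det (QuadraticMap.polarBilin Q') (b.map e) b'
    rw [diag_det (c := fun _ => c1) (fun i j => by rw [hb', hb', hw']),
      diag_det (c := fun _ => c0) (fun i j => by rw [Basis.map_apply, Basis.map_apply, hpe, hb, hb, hw])] at hs
    simp only [Finset.prod_const, Finset.card_univ, Fintype.card_fin] at hs
    apply isSquare_of_pow_odd hk
    rw [mul_pow, hs]
    exact ⟨c0 ^ k * s, by ring⟩
  · rintro ⟨t, ht⟩
    have ht0 : t ≠ 0 := by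
      rintro rfl
      rw [mul_zero] at ht
      exact mul_ne_zero hc0 hc1 ht
    have htc : t / c1 ≠ 0 := div_ne_zero ht0 hc1
    let b'' : Basis (Fin k) F V' := b'.unitsSMul (fun _ => Units.mk0 _ htc)
    have hb'' : ∀ i, b'' i = (t / c1) • w' i := by
      intro i
      rw [Basis.unitsSMul_apply, hb']; rfl
    have hpol : ∀ i j, QuadraticMap.polar Q' (b'' i) (b'' j) = QuadraticMap.polar Q (b i) (b j) := by
      intro i j
      rw [hb'', hb'', hb, hb, QuadraticMap.polar_smul_left, QuadraticMap.polar_smul_right, hw, hw']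
      by_cases hij : i = j
      · rw [if_pos hij, if_pos hij, smul_eq_mul, smul_eq_mul]
        field_simp
        linear_combination -ht
      · rw [if_neg hij, if_neg hij, smul_zero, smul_zero]
    apply isom_of_bases b b'' _ hpol
    intro i
    have := hpol i i
    rw [pself, pself] at this
    exact mul_left_cancel₀ h2 this

end diag

end CfsgLib.OmH12
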