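import Cfsg.Agent.LibOmType3H12

set_option autoImplicit false
set_option linter.unusedSectionVars false

/-! Types of quadratic forms over finite fields, part 4: functions (seat helper12). -/

namespace CfsgLib.OmH12

open Module Cfsg Cfsg.Geo Cfsg.Agent.H22
open scoped Matrix MatrixGroups Kronecker

section fn
variable {ι : Type} {F : Type*} [Fintype ι] [DecidableEq ι] [Field F] [Finite F] {Q : (ι → F) → F}

theorem pt_top {Q' : QuadraticForm F (ι → F)} : PT Q' ↔ IsPlusTypeOn (Q' : (ι → F) → F) ⊤ := by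
  constructor
  · rintro ⟨U, hU, hd⟩
    exact ⟨U, le_top, hU, by rw [finrank_top]; exact hd⟩
  · rintro ⟨U, _, hU, hd⟩
    exact ⟨U, hU, by rw [finrank_top] at hd; exact hd⟩

theorem pt_on {Q' : QuadraticForm F (ι → F)} {D : Submodule F (ι → F)} : PT (qres Q' D) ↔ IsPlusTypeOn (Q' : (ι → F) → F) D :=
  pt_qres

theorem isom_on {Q' : QuadraticForm F (ι → F)} {D0 D1 : Submodule F (ι → F)} :
    Isom (qres Q' D0) (qres Q' D1) ↔ AreIsometricFor (Q' : (ι → F) → F) D0 D1 := Iff.rfl

/-- cancellation: the complement of a plus-type subspace of a plus-type space is of plus type -/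
theorem plus_perp (hQ : IsNondegenerateQuadraticForm Q) (hp : IsPlusTypeOn Q ⊤) {D0 D1 : Submodule F (ι → F)} (hc : IsCompl D0 D1)
    (ho : AreOrthogonalFor (QuadraticMap.polar Q) D0 D1) (h0 : IsPlusTypeOn Q D0) : IsPlusTypeOn Q D1 := by
  obtain ⟨Q', rfl, h⟩ := exists_qf hQ
  obtain ⟨U, hU1, hU2, hU3⟩ := h0
  exact plus_compl h (pt_top.2 hp) hc ho hU1 hU2 hU3

/-- halves of a plus-type space are isometric -/
theorem isom_half (hQ : IsNondegenerateQuadraticForm Q) (hp : IsPlusTypeOn Q ⊤) {D0 D1 : Submodule F (ι → F)} (hc : IsCompl D0 D1)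
    (ho : AreOrthogonalFor (QuadraticMap.polar Q) D0 D1) (h0 : IsNondegenerateOn (QuadraticMap.polar Q) D0)
    (h1 : IsNondegenerateOn (QuadraticMap.polar Q) D1) {m : ℕ} (hd0 : finrank F D0 = 2 * m)
    (hd1 : finrank F D1 = 2 * m) : AreIsometricFor Q D0 D1 := by
  obtain ⟨Q', rfl, h⟩ := exists_qf hQ
  exact half_isom h (pt_top.2 hp) hc ho (fun w hw hw0 => (h0 w hw hw0).1) (fun w hw hw0 => (h1 w hw hw0).1) hd0 hd1

/-- nondegenerate even-dimensional subspaces of the same dimension and type are isometric -/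
theorem isom_same (hQ : IsNondegenerateQuadraticForm Q) {D0 D1 : Submodule F (ι → F)}
    (h0 : IsNondegenerateOn (QuadraticMap.polar Q) D0)
    (h1 : IsNondegenerateOn (QuadraticMap.polar Q) D1) {m : ℕ} (hd0 : finrank F D0 = 2 * m)
    (hd1 : finrank F D1 = 2 * m) (ht : IsPlusTypeOn Q D0 ↔ IsPlusTypeOn Q D1) : AreIsometricFor Q D0 D1 := by
  obtain ⟨Q', rfl, h⟩ := exists_qf hQ
  exact isom_of_type m (qres_nondeg (fun w hw hw0 => (h0 w hw hw0).1)) (qres_nondeg (fun w hw hw0 => (h1 w hw hw0).1)) hd0 hd1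
    (by rw [pt_on, pt_on]; exact ht)

/-- two odd-dimensional halves -/
theorem half_odd (hQ : IsNondegenerateQuadraticForm Q) (h2 : (2 : F) ≠ 0) {k : ℕ} (hk : Odd k) {D0 D1 : Submodule F (ι → F)}
    (hc : IsCompl D0 D1) (ho : AreOrthogonalFor (QuadraticMap.polar Q) D0 D1) (h0 : IsNondegenerateOn (QuadraticMap.polar Q) D0)
    (h1 : IsNondegenerateOn (QuadraticMap.polar Q) D1) (hd0 : finrank F D0 = k) (hd1 : finrank F D1 = k) :
    ∃ c : F, c ≠ 0 ∧ (IsPlusTypeOn Q ⊤ ↔ IsSquare (-c)) ∧ (AreIsometricFor Q D0 D1 ↔ IsSquare c) := by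
  classical
  have : Fintype F := Fintype.ofFinite F
  obtain ⟨w0, c0, hc0, hw0, hg0⟩ := orth_basis hQ h2 hk hd0 h0
  obtain ⟨w1, c1, hc1, hw1, hg1⟩ := orth_basis hQ h2 hk hd1 h1
  obtain ⟨Q', rfl, h⟩ := exists_qf hQ
  refine ⟨c0 * c1, mul_ne_zero hc0 hc1, ?_, ?_⟩
  · rw [← pt_top]
    have hdim : finrank F (ι → F) = 2 * k := by
      have := Submodule.finrank_add_eq_of_isCompl hc
      omega
    apply diag_plus h2 hk hdim (w := Sum.elim w0 w1) hc0 hc1
    rintro (i | i) (j | j)
    · simp only [Sum.elim_inl, Sum.inl.injEq]; exact hg0 i j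
    · simp only [Sum.elim_inl, Sum.elim_inr, reduceCtorEq, if_false]
      exact ho _ (hw0 i) _ (hw1 j)
    · simp only [Sum.elim_inl, Sum.elim_inr, reduceCtorEq, if_false]
      rw [QuadraticMap.polar_comm]
      exact ho _ (hw0 j) _ (hw1 i)
    · simp only [Sum.elim_inr, Sum.inr.injEq]; exact hg1 i j
  · rw [← isom_on]
    exact diag_isom (w := fun i => (⟨w0 i, hw0 i⟩ : D0)) (w' := fun i => (⟨w1 i, hw1 i⟩ : D1)) hk hd0 hd1 hc0 hc1 h2 hg0 hg1

end fn

section fn2
variable {ι : Type} {F : Type*} [Fintype ι] [DecidableEq ι] [Field F] [Fintype F] {Q : (ι → F) → F}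

theorem sq_cases (hodd : Odd (Fintype.card F)) {c : F} (hc : c ≠ 0) :
    (IsSquare (-c) → IsSquare c → Fintype.card F % 4 = 1) ∧ (IsSquare (-c) → ¬ IsSquare c → Fintype.card F % 4 = 3) ∧
    (¬ IsSquare (-c) → IsSquare c → Fintype.card F % 4 = 3) ∧ (¬ IsSquare (-c) → ¬ IsSquare c → Fintype.card F % 4 = 1) := by
  have h2 := two_ne_of_odd hodd
  have hm := FiniteField.isSquare_neg_one_iff (F := F)
  have hmod : Fintype.card F % 4 = 1 ∨ Fintype.card F % 4 = 3 := by
    have := Nat.odd_iff.1 hodd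
    omega
  have hnc : -c ≠ 0 := neg_ne_zero.2 hc
  refine ⟨fun h1 h3 => ?_, fun h1 h3 => ?_, fun h1 h3 => ?_, fun h1 h3 => ?_⟩
  · have : IsSquare (-1 : F) := by
      have := h1.div h3
      rwa [neg_div, div_self hc] at this
    have := hm.1 this
    omega
  · rcases hmod with h | h
    · exfalso; apply h3
      have := (hm.2 (by omega)).mul h1
      rwa [neg_mul_neg, one_mul] at this
    · exact h
  · rcases hmod with h | h
    · exfalso; apply h1
      have := (hm.2 (by omega)).mul h3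
      rwa [neg_mul, one_mul] at this
    · exact h
  · have : IsSquare (-1 : F) := by
      have := isSquare_div_of_not h2 (-c) c hnc hc h1 h3
      rwa [neg_div, div_self hc] at this
    have := hm.1 this
    omega

/-- decompositions into two odd-dimensional nondegenerate subspaces -/
theorem two_odd (hQ : IsNondegenerateQuadraticForm Q) (hodd : Odd (Fintype.card F)) {k : ℕ} (hk : Odd k)
    {D : Fin 2 → Submodule F (ι → F)} (hD : IsNondegenerateMDecomposition (QuadraticMap.polar Q) k D) :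
    (IsPlusTypeOn Q ⊤ → AreIsometricFor Q (D 0) (D 1) → Fintype.card F % 4 = 1) ∧
    (IsPlusTypeOn Q ⊤ → ¬ AreIsometricFor Q (D 0) (D 1) → Fintype.card F % 4 = 3) ∧
    (¬ IsPlusTypeOn Q ⊤ → AreIsometricFor Q (D 0) (D 1) → Fintype.card F % 4 = 3) ∧
    (¬ IsPlusTypeOn Q ⊤ → ¬ AreIsometricFor Q (D 0) (D 1) → Fintype.card F % 4 = 1) := by
  have hc : IsCompl (D 0) (D 1) := by
    refine ⟨hD.decomp.indep.pairwiseDisjoint (by decide), ?_⟩
    rw [codisjoint_iff, ← hD.decomp.iSup_eq_top]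
    apply le_antisymm
    · exact sup_le (le_iSup D 0) (le_iSup D 1)
    · apply iSup_le
      intro i
      fin_cases i
      · exact le_sup_left
      · exact le_sup_right
  obtain ⟨c, hc0, h1, h3⟩ := half_odd hQ (two_ne_of_odd hodd) hk hc (hD.orthogonal 0 1 (by decide)) (hD.nondegenerate 0)
    (hD.nondegenerate 1) (hD.decomp.finrank_eq 0) (hD.decomp.finrank_eq 1)
  rw [h1, h3]
  exact sq_cases hodd hc0

/-- orthonormal-type frames in twice odd dimension -/
theorem frame_twice_odd (hQ : IsNondegenerateQuadraticForm Q) (hodd : Odd (Fintype.card F)) {k n : ℕ} (hk : Odd k) (hn : n = k + k)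
    {D : Fin n → Submodule F (ι → F)} (hD : IsOrthogonalMDecomposition Q 1 D) :
    IsPlusTypeOn Q ⊤ ↔ Fintype.card F % 4 = 1 := by
  classical
  subst hn
  have h2 := two_ne_of_odd hodd
  have hpos := hk.pos
  -- vectors of equal norm
  set i0 : Fin (k + k) := ⟨0, by omega⟩ with hi0
  obtain ⟨v0, hv0, hv00⟩ := Submodule.exists_mem_ne_zero_of_ne_bot (p := D i0) (by
    intro h
    have := hD.decomp.decomp.finrank_eq i0
    rw [h, finrank_bot] at this; omega)
  choose e he using fun i => hD.isometric i0 i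
  let w : Fin (k + k) → ι → F := fun i => ((e i ⟨v0, hv0⟩ : D i) : ι → F)
  have hwD : ∀ i, w i ∈ D i := fun i => (e i ⟨v0, hv0⟩).2
  have hwQ : ∀ i, Q (w i) = Q v0 := fun i => he i ⟨v0, hv0⟩
  obtain ⟨Q', rfl, h⟩ := exists_qf hQ
  have hc : Q' v0 * 2 ≠ 0 := by
    obtain ⟨⟨x, hx, hne⟩, _⟩ := hD.decomp.nondegenerate i0 v0 hv0 hv00
    have h1 := (finrank_eq_one_iff_of_nonzero' (⟨v0, hv0⟩ : D i0) (by
      intro h; exact hv00 (congrArg Subtype.val h))).1 (hD.decomp.decomp.finrank_eq i0) ⟨x, hx⟩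
    obtain ⟨a, ha⟩ := h1
    have ha' : a • v0 = x := congrArg Subtype.val ha
    rw [← ha', QuadraticMap.polar_smul_left, pself] at hne
    intro h0
    apply hne
    rw [mul_comm 2, h0, smul_zero]
  have hgram : ∀ i j, QuadraticMap.polar Q' (w i) (w j) = if i = j then Q' v0 * 2 else 0 := by
    intro i j
    by_cases hij : i = j
    · subst hij
      rw [if_pos rfl, pself, hwQ]; ring
    · rw [if_neg hij]
      exact hD.decomp.orthogonal i j hij _ (hwD i) _ (hwD j)
  have hdim : finrank F (ι → F) = 2 * k := by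
    have hli : LinearIndependent F w := diag_li (c := fun _ => Q' v0 * 2) (fun _ => hc) hgram
    have h1 : Submodule.span F (Set.range w) = ⊤ := by
      rw [eq_top_iff, ← hD.decomp.decomp.iSup_eq_top]
      apply iSup_le
      intro i x hx
      have h1 := (finrank_eq_one_iff_of_nonzero' (⟨w i, hwD i⟩ : D i) (by
        intro h
        have h3 : w i = 0 := congrArg Subtype.val h
        have h4 := hgram i i
        rw [h3, QuadraticMap.polar_zero_left, if_pos rfl] at h4
        exact hc h4.symm)).1 (hD.decomp.decomp.finrank_eq i) ⟨x, hx⟩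
      obtain ⟨a, ha⟩ := h1
      have ha' : a • w i = x := congrArg Subtype.val ha
      rw [← ha']
      exact Submodule.smul_mem _ _ (Submodule.subset_span ⟨i, rfl⟩)
    rw [← finrank_top, ← h1, finrank_span_eq_card hli, Fintype.card_fin]; ring
  rw [← pt_top, diag_plus h2 hk hdim (w := fun i => w (finSumFinEquiv i)) hc hc]
  · have hs : IsSquare (Q' v0 * 2 * (Q' v0 * 2)) := ⟨_, rfl⟩
    have h5 := sq_cases hodd (mul_ne_zero hc hc)
    constructor
    · intro h6; exact h5.1 h6 hs
    · intro h6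
      by_contra h7
      have := h5.2.2.1 h7 hs
      omega
  · intro i j
    rw [hgram]
    by_cases hij : i = j
    · rw [if_pos (congrArg _ hij), if_pos hij]
      cases i <;> rfl
    · rw [if_neg (fun h => hij (finSumFinEquiv.injective h)), if_neg hij]

end fn2

end CfsgLib.OmH12
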