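import Cfsg.Agent.LibOmType4H12

set_option autoImplicit false
set_option linter.unusedSectionVars false

/-! Types of quadratic forms over finite fields, part 5 (seat helper12). -/

namespace CfsgLib.OmH12

open Module Cfsg Cfsg.Geo Cfsg.Agent.H22
open scoped Matrix MatrixGroups Kronecker

section sums
variable {F V : Type*} [Field F] [AddCommGroup V] [Module F V] [FiniteDimensional F V] {Q : QuadraticForm F V}

theorem q_sum_orth {κ : Type*} (s : Finset κ) (x : κ → V) (h : ∀ i j, i ≠ j → QuadraticMap.polar Q (x i) (x j) = 0) :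
    Q (∑ i ∈ s, x i) = ∑ i ∈ s, Q (x i) := by
  classical
  induction s using Finset.induction_on with
  | empty => rw [Finset.sum_empty, Finset.sum_empty, QuadraticMap.map_zero]
  | insert a s ha ih =>
    have h1 : QuadraticMap.polar Q (x a) (∑ i ∈ s, x i) = 0 := by
      change QuadraticMap.polarBilin Q (x a) (∑ i ∈ s, x i) = 0
      rw [map_sum]
      exact Finset.sum_eq_zero fun j hj => h a j (fun h => ha (by rw [h]; exact hj))
    rw [Finset.sum_insert ha, Finset.sum_insert ha, qadd, ih, h1, add_zero]

/-- the model of an isometric decomposition -/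
theorem plus_of_map {n : ℕ} {D : Fin n → Submodule F V} (hind : iSupIndep D)
    (ho : ∀ i j, i ≠ j → ∀ u ∈ D i, ∀ v ∈ D j, QuadraticMap.polar Q u v = 0) {W : Type*} [AddCommGroup W] [Module F W]
    (R : QuadraticForm F W) (f : ∀ i, W ≃ₗ[F] D i)
    (hf : ∀ i x, Q (f i x : V) = R x) {X : Type*} [AddCommGroup X] [Module F X]
    (A : X →ₗ[F] (Fin n → W)) (hinj : Function.Injective A) (hQA : ∀ x, ∑ i, R (A x i) = 0)
    (hX : 2 * finrank F X = finrank F V) : PT Q := by
  classical
  let φ : X →ₗ[F] V := ∑ i, (D i).subtype ∘ₗ (f i : W →ₗ[F] D i) ∘ₗ LinearMap.proj i ∘ₗ A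
  have hφ : ∀ x, φ x = ∑ i, (f i (A x i) : V) := by
    intro x
    simp only [φ, LinearMap.sum_apply]
    rfl
  have hφinj : Function.Injective φ := by
    rw [← LinearMap.ker_eq_bot, LinearMap.ker_eq_bot']
    intro x hx
    rw [hφ] at hx
    have h1 := (iSupIndep_iff_forall_dfinsupp D).1 hind
    have h2 : ∀ i, (f i (A x i) : V) = 0 := by
      intro i
      have h3 : (f i (A x i) : V) = - ∑ j ∈ Finset.univ.erase i, (f j (A x j) : V) := by
        rw [← Finset.add_sum_erase _ _ (Finset.mem_univ i)] at hx
        exact eq_neg_of_add_eq_zero_left hx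
      have h4 : (f i (A x i) : V) ∈ D i ⊓ ⨆ (j) (_ : j ≠ i), D j := by
        refine ⟨(f i (A x i)).2, ?_⟩
        rw [h3]
        apply Submodule.neg_mem
        apply Submodule.sum_mem
        intro j hj
        exact Submodule.mem_iSup_of_mem j (Submodule.mem_iSup_of_mem (Finset.ne_of_mem_erase hj) (f j (A x j)).2)
      rw [(hind i).eq_bot] at h4
      exact h4
    apply hinj
    rw [map_zero]
    funext i
    have h5 : f i (A x i) = 0 := Subtype.ext (h2 i)
    exact (f i).map_eq_zero_iff.1 h5
  refine ⟨LinearMap.range φ, ?_, ?_⟩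
  · rintro _ ⟨x, rfl⟩
    rw [hφ, q_sum_orth]
    · simp only [hf]; exact hQA x
    · intro i j hij
      exact ho i j hij _ (f i (A x i)).2 _ (f j (A x j)).2
  · rw [LinearMap.finrank_range_of_inj hφinj]; exact hX

theorem exists_two_sq [Finite F] : ∃ a b : F, 1 + a ^ 2 + b ^ 2 = 0 := by
  have : Fintype F := Fintype.ofFinite F
  obtain ⟨p, hp⟩ := CharP.exists F
  haveI : NeZero p := ⟨(CharP.char_is_prime F p).ne_zero⟩
  obtain ⟨a, b, h⟩ := CharP.sq_add_sq F p (-1)
  refine ⟨a, b, ?_⟩
  rw [add_assoc, h]; simp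

end sums

section ext

/-- a quadratic polynomial over a subfield of index two has a root -/
theorem quad_root {K F : Type*} [Field K] [Finite K] [Field F] [Finite F] [Algebra K F] (h : Nat.card F = Nat.card K ^ 2)
    {a b c : K} (ha : a ≠ 0) : ∃ t : F, algebraMap K F a * t ^ 2 + algebraMap K F b * t + algebraMap K F c = 0 := by
  classical
  open Polynomial in
  have : Fintype F := Fintype.ofFinite F
  let f : K[X] := C a * X ^ 2 + C b * X + C c
  have hdeg : f.natDegree = 2 := natDegree_quadratic ha
  have hf0 : f ≠ 0 := by rintro h0; rw [h0, natDegree_zero] at hdeg; omega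
  have hsplit : (f.map (algebraMap K F)).Splits := by
    by_cases hirr : Irreducible f
    · have h1 := (hirr.natDegree_dvd_iff_dvd_X_pow_card_pow_sub_X (n := 2)).1 (by rw [hdeg])
      rw [← h] at h1
      have h2 := Polynomial.map_dvd (algebraMap K F) h1
      rw [Polynomial.map_sub, Polynomial.map_pow, Polynomial.map_X] at h2
      apply Splits.of_dvd _ _ h2
      · rw [splits_iff_card_roots, Nat.card_eq_fintype_card, FiniteField.roots_X_pow_card_sub_X,
          FiniteField.X_pow_card_sub_X_natDegree_eq _ Fintype.one_lt_card]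
        rfl
      · exact FiniteField.X_pow_card_sub_X_ne_zero _ (by rw [Nat.card_eq_fintype_card]; exact Fintype.one_lt_card)
    · apply Splits.map
      by_contra hns
      apply hirr
      have : ∀ x, ¬ IsRoot f x := by
        intro x hx
        apply hns
        exact Splits.of_natDegree_eq_two hdeg hx
      rw [Polynomial.irreducible_iff_roots_eq_zero_of_degree_le_three (by omega) (by omega)]
      rw [Multiset.eq_zero_iff_forall_notMem]
      intro x hx
      exact this x ((mem_roots hf0).1 hx)
  obtain ⟨t, ht⟩ := hsplit.exists_eval_eq_zero (by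
    rw [degree_map]
    intro h0
    have := natDegree_eq_of_degree_eq_some h0
    rw [hdeg] at this
    exact two_ne_zero this)
  refine ⟨t, ?_⟩
  simpa [f] using ht

/-- a form defined over the subfield of index two is of plus type -/
theorem plus_ext {K F : Type*} [Field K] [Finite K] [Field F] [Finite F] [Algebra K F] (h : Nat.card F = Nat.card K ^ 2) :
    ∀ (m : ℕ) {V₀ V : Type*} [AddCommGroup V₀] [Module K V₀] [FiniteDimensional K V₀] {Q₀ : QuadraticForm K V₀}
    [AddCommGroup V] [Module F V] [FiniteDimensional F V] {Q : QuadraticForm F V}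
    (_ : (QuadraticMap.polarBilin Q₀).Nondegenerate) (_ : (QuadraticMap.polarBilin Q).Nondegenerate)
    (_ : finrank K V₀ = 2 * m) (_ : finrank F V = 2 * m) (j : V₀ →ₛₗ[algebraMap K F] V) (_ : ∀ x, Q (j x) = algebraMap K F (Q₀ x)),
    PT Q := by
  intro m
  have : Fintype K := Fintype.ofFinite K
  induction m with
  | zero =>
    intro V₀ V _ _ _ Q₀ _ _ _ Q hQ₀ hQ hd₀ hd j hj
    refine ⟨⊥, ?_, by rw [finrank_bot, hd]⟩
    intro x hx
    rw [(Submodule.mem_bot F).1 hx, QuadraticMap.map_zero]
  | succ m ih =>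
    intro V₀ V _ _ _ Q₀ _ _ _ Q hQ₀ hQ hd₀ hd j hj
    have hpol : ∀ x y, QuadraticMap.polar Q (j x) (j y) = algebraMap K F (QuadraticMap.polar Q₀ x y) := by
      intro x y
      unfold QuadraticMap.polar
      rw [← map_add, hj, hj, hj, map_sub, map_sub]
    have step : ∀ {e : V₀}, e ≠ 0 → Q₀ e = 0 → PT Q := by
      intro e he0 he
      obtain ⟨f, hh⟩ := exists_HP_of_singular hQ₀ e he0 he
      have hh' : HP Q (j e) (j f) := ⟨by rw [hj, hh.1, map_zero], by rw [hj, hh.2.1, map_zero], by rw [hpol, hh.2.2, map_one]⟩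
      apply PT.of_perp2 hh'
      have h1 := hh.finrank_eq
      have h2 := hh'.finrank_eq
      refine ih (hh.nondeg hQ₀) (hh'.nondeg hQ) (by omega) (by omega)
        ((j.domRestrict (perp2 Q₀ e f)).codRestrict (perp2 Q (j e) (j f)) ?_) ?_
      · intro x
        refine ⟨?_, ?_⟩
        · change QuadraticMap.polar Q (j e) (j x) = 0
          rw [hpol, x.2.1, map_zero]
        · change QuadraticMap.polar Q (j f) (j x) = 0
          rw [hpol, x.2.2, map_zero]
      · intro x
        exact hj x
    by_cases hs : ∃ x : V₀, x ≠ 0 ∧ Q₀ x = 0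
    · obtain ⟨x, hx0, hx⟩ := hs
      exact step hx0 hx
    · rcases Nat.eq_zero_or_pos m with hm | hm
      swap
      · exact absurd (exists_sing (by omega)) hs
      subst hm
      push Not at hs
      obtain ⟨x, hx0⟩ : ∃ x : V₀, x ≠ 0 := by
        have : Nontrivial V₀ := Module.nontrivial_of_finrank_pos (R := K) (by omega)
        exact exists_ne 0
      obtain ⟨u, hxu, hu0⟩ := exists_perp_ne_zero (Q := Q₀) (by omega) x
      obtain ⟨y, hy⟩ := exists_polar_ne hQ₀ hu0
      obtain ⟨t, ht⟩ := quad_root (K := K) (F := F) h (a := Q₀ x) (b := QuadraticMap.polar Q₀ x y) (c := Q₀ y) (hs x hx0)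
      rw [pt_two Q (by omega)]
      refine ⟨t • j x + j y, ?_, ?_⟩
      · intro h0
        have h1 : QuadraticMap.polar Q (t • j x + j y) (j u) = algebraMap K F (QuadraticMap.polar Q₀ y u) := by
          rw [QuadraticMap.polar_add_left, QuadraticMap.polar_smul_left, hpol, hxu, map_zero, smul_zero, zero_add, hpol]
        rw [h0, QuadraticMap.polar_zero_left] at h1
        exact hy ((map_eq_zero (algebraMap K F)).1 h1.symm)
      · rw [qadd, qsmul, QuadraticMap.polar_smul_left, hj, hj, hpol, smul_eq_mul]
        linear_combination ht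

end ext

end CfsgLib.OmH12
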