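import Cfsg.Agent.LibOmParH12
import Cfsg.Agent.LibH22Exist

set_option autoImplicit false
set_option linter.unusedSectionVars false

/-! Types of quadratic forms over finite fields (seat helper12). -/

namespace CfsgLib.OmH12

open Module Cfsg Cfsg.Geo Cfsg.Agent.H22
open scoped Matrix MatrixGroups Kronecker

section pt
variable {F V : Type*} [Field F] [AddCommGroup V] [Module F V] [FiniteDimensional F V] {Q : QuadraticForm F V}
variable {V' : Type*} [AddCommGroup V'] [Module F V'] [FiniteDimensional F V'] {Q' : QuadraticForm F V'}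

/-- plus type -/
def PT (Q : QuadraticForm F V) : Prop := ∃ U : Submodule F V, TS Q U ∧ 2 * finrank F U = finrank F V

/-- isometric spaces -/
def Isom (Q : QuadraticForm F V) (Q' : QuadraticForm F V') : Prop := ∃ e : V ≃ₗ[F] V', ∀ x, Q' (e x) = Q x

theorem ts_span {e : V} (he : Q e = 0) : TS Q (Submodule.span F {e}) := by
  intro x hx
  obtain ⟨a, rfl⟩ := Submodule.mem_span_singleton.1 hx
  rw [qsmul, he, mul_zero]

theorem PT.of_perp2 {e f : V} (h : HP Q e f) (hp : PT (qres Q (perp2 Q e f))) : PT Q := by
  obtain ⟨U, hU, hd⟩ := hp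
  have hfr := h.finrank_eq
  refine ⟨Submodule.span F {e} ⊔ U.map (perp2 Q e f).subtype, ?_, ?_⟩
  · intro x hx
    obtain ⟨y, hy, z, hz, rfl⟩ := Submodule.mem_sup.1 hx
    obtain ⟨a, rfl⟩ := Submodule.mem_span_singleton.1 hy
    obtain ⟨w, hw, rfl⟩ := hz
    have h1 : Q ((w : perp2 Q e f) : V) = 0 := hU w hw
    change Q (a • e + (w : V)) = 0
    rw [qadd, qsmul, h.1, h1, QuadraticMap.polar_smul_left, w.2.1]; simp
  · have h1 := Submodule.finrank_sup_add_finrank_inf_eq (Submodule.span F {e}) (U.map (perp2 Q e f).subtype)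
    have h2 : Submodule.span F {e} ⊓ U.map (perp2 Q e f).subtype = ⊥ := by
      rw [eq_bot_iff]
      rintro x ⟨hx, hx'⟩
      obtain ⟨a, rfl⟩ := Submodule.mem_span_singleton.1 hx
      obtain ⟨w, hw, hwx⟩ := hx'
      have h3 : QuadraticMap.polar Q f (a • e) = 0 := by
        rw [← hwx]; exact w.2.2
      rw [QuadraticMap.polar_smul_right, h.fe] at h3
      have : a = 0 := by simpa using h3
      rw [this, zero_smul]; exact Submodule.zero_mem _
    have h3 : finrank F (Submodule.span F {e}) = 1 := finrank_span_singleton h.ne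
    have h4 : finrank F (U.map (perp2 Q e f).subtype) = finrank F U := Submodule.finrank_map_subtype_eq _ _
    rw [h2, finrank_bot, h3, h4] at h1
    omega

theorem PT.to_perp2 (hQ : (QuadraticMap.polarBilin Q).Nondegenerate) {e f : V} (h : HP Q e f) (hp : PT Q) :
    PT (qres Q (perp2 Q e f)) := by
  obtain ⟨U₀, hU₀, hd₀⟩ := hp
  obtain ⟨U, hWU, hU, hd⟩ := TS.extend hQ hU₀ hd₀ (ts_span h.1)
  have heU : e ∈ U := hWU (Submodule.mem_span_singleton_self e)
  have hfr := h.finrank_eq
  refine ⟨U.comap (perp2 Q e f).subtype, ?_, ?_⟩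
  · intro x hx
    exact hU _ hx
  · have h4 : finrank F ((U.comap (perp2 Q e f).subtype).map (perp2 Q e f).subtype) =
        finrank F (U.comap (perp2 Q e f).subtype) := Submodule.finrank_map_subtype_eq _ _
    rw [Submodule.map_comap_subtype] at h4
    have h5 : U = Submodule.span F {e} ⊔ (perp2 Q e f ⊓ U) := by
      apply le_antisymm
      · intro u hu
        have h6 : QuadraticMap.polar Q e u = 0 := hU.pol heU hu
        have h7 := h.proj_mem u
        rw [h6, zero_smul, sub_zero] at h7
        rw [show u = QuadraticMap.polar Q f u • e + (u - QuadraticMap.polar Q f u • e) by abel]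
        refine Submodule.add_mem_sup (Submodule.smul_mem _ _ (Submodule.mem_span_singleton_self e)) ⟨h7, ?_⟩
        exact U.sub_mem hu (U.smul_mem _ heU)
      · exact sup_le hWU inf_le_right
    have h1 := Submodule.finrank_sup_add_finrank_inf_eq (Submodule.span F {e}) (perp2 Q e f ⊓ U)
    have h2 : Submodule.span F {e} ⊓ (perp2 Q e f ⊓ U) = ⊥ := by
      rw [eq_bot_iff]
      rintro x ⟨hx, hx', _⟩
      obtain ⟨a, rfl⟩ := Submodule.mem_span_singleton.1 hx
      have h3 : QuadraticMap.polar Q f (a • e) = 0 := hx'.2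
      rw [QuadraticMap.polar_smul_right, h.fe] at h3
      have : a = 0 := by simpa using h3
      rw [this, zero_smul]; exact Submodule.zero_mem _
    have h3 : finrank F (Submodule.span F {e}) = 1 := finrank_span_singleton h.ne
    rw [← h5, h2, finrank_bot, h3] at h1
    omega

theorem Isom.of_perp2 {e f : V} {e' f' : V'} (h : HP Q e f) (h' : HP Q' e' f')
    (hi : Isom (qres Q (perp2 Q e f)) (qres Q' (perp2 Q' e' f'))) : Isom Q Q' := by
  obtain ⟨g, hg⟩ := hi
  refine ⟨h.equiv.trans (((LinearEquiv.refl F (F × F)).prodCongr g).trans h'.equiv.symm), fun x => ?_⟩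
  obtain ⟨⟨⟨a, b⟩, w⟩, rfl⟩ := h.equiv.symm.surjective x
  rw [LinearEquiv.trans_apply, LinearEquiv.apply_symm_apply]
  change Q' (h'.equiv.symm ((a, b), g w)) = _
  rw [HP.equiv_symm_apply, HP.equiv_symm_apply, h.Q_decomp, h'.Q_decomp]
  have := hg w
  rw [qres_apply, qres_apply] at this
  rw [this]

/-- forms agreeing on a basis -/
theorem isom_of_bases {κ : Type*} [Fintype κ] (b : Basis κ F V) (b' : Basis κ F V') (h1 : ∀ i, Q' (b' i) = Q (b i))
    (h2 : ∀ i j, QuadraticMap.polar Q' (b' i) (b' j) = QuadraticMap.polar Q (b i) (b j)) : Isom Q Q' := by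
  classical
  set e : V ≃ₗ[F] V' := b.equiv b' (Equiv.refl κ) with he
  have heb : ∀ i, e (b i) = b' i := by
    intro i; rw [he, Basis.equiv_apply]; rfl
  have hB : (QuadraticMap.polarBilin Q').compl₁₂ (e : V →ₗ[F] V') (e : V →ₗ[F] V') = QuadraticMap.polarBilin Q := by
    apply LinearMap.ext_basis b b
    intro i j
    rw [LinearMap.compl₁₂_apply]
    change QuadraticMap.polar Q' (e (b i)) (e (b j)) = QuadraticMap.polar Q (b i) (b j)
    rw [heb, heb, h2]
  have hpol : ∀ x y, QuadraticMap.polar Q' (e x) (e y) = QuadraticMap.polar Q x y := by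
    intro x y
    have := LinearMap.congr_fun (LinearMap.congr_fun hB x) y
    rw [LinearMap.compl₁₂_apply] at this
    exact this
  refine ⟨e, fun x => ?_⟩
  let W : Submodule F V :=
    { carrier := {x | Q' (e x) = Q x}
      add_mem' := by
        intro x y hx hy
        change Q' (e (x + y)) = Q (x + y)
        rw [map_add, qadd, qadd, hpol, show Q' (e x) = Q x from hx, show Q' (e y) = Q y from hy]
      zero_mem' := by
        change Q' (e 0) = Q 0
        rw [map_zero, QuadraticMap.map_zero, QuadraticMap.map_zero]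
      smul_mem' := by
        intro c x hx
        change Q' (e (c • x)) = Q (c • x)
        rw [map_smul, qsmul, qsmul, show Q' (e x) = Q x from hx] }
  have hW : W = ⊤ := by
    rw [eq_top_iff, ← b.span_eq, Submodule.span_le]
    rintro _ ⟨i, rfl⟩
    change Q' (e (b i)) = Q (b i)
    rw [heb, h1]
  have : x ∈ W := by rw [hW]; trivial
  exact this

/-- two-dimensional spaces with the same Gram data -/
theorem isom_two (hd : finrank F V = 2) (hd' : finrank F V' = 2) {x y : V} {x' y' : V'} (hxy : LinearIndependent F ![x, y])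
    (hxy' : LinearIndependent F ![x', y']) (h1 : Q' x' = Q x) (h2 : Q' y' = Q y)
    (h3 : QuadraticMap.polar Q' x' y' = QuadraticMap.polar Q x y) : Isom Q Q' := by
  have hc : Fintype.card (Fin 2) = finrank F V := by rw [hd, Fintype.card_fin]
  have hc' : Fintype.card (Fin 2) = finrank F V' := by rw [hd', Fintype.card_fin]
  let b := basisOfLinearIndependentOfCardEqFinrank hxy hc
  let b' := basisOfLinearIndependentOfCardEqFinrank hxy' hc'
  have hb : ∀ i, b i = ![x, y] i := fun i => by rw [coe_basisOfLinearIndependentOfCardEqFinrank]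
  have hb' : ∀ i, b' i = ![x', y'] i := fun i => by rw [coe_basisOfLinearIndependentOfCardEqFinrank]
  apply isom_of_bases b b'
  · intro i
    rw [hb, hb']
    fin_cases i
    · exact h1
    · exact h2
  · intro i j
    rw [hb, hb', hb, hb']
    fin_cases i <;> fin_cases j
    · change QuadraticMap.polar Q' x' x' = QuadraticMap.polar Q x x
      rw [pself, pself, h1]
    · exact h3
    · change QuadraticMap.polar Q' y' x' = QuadraticMap.polar Q y x
      rw [QuadraticMap.polar_comm, h3, QuadraticMap.polar_comm]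
    · change QuadraticMap.polar Q' y' y' = QuadraticMap.polar Q y y
      rw [pself, pself, h2]

end pt

section two
variable {F : Type*} [Field F] [Finite F]

/-- the Artin-Schreier class in characteristic two -/
theorem as_class (h2 : (2 : F) = 0) {d d' : F} (hd : ∀ s, s ^ 2 + s ≠ d) (hd' : ∀ s, s ^ 2 + s ≠ d') : ∃ s, s ^ 2 + s = d + d' := by
  classical
  have : Fintype F := Fintype.ofFinite F
  let φ : F →+ F :=
    { toFun := fun s => s ^ 2 + s
      map_zero' := by ring
      map_add' := by intro x y; linear_combination (x * y) * h2 }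
  have hker : Nat.card φ.ker ≤ 2 := by
    have h1 : ∀ x : φ.ker, (x : F) = 0 ∨ (x : F) = 1 := by
      intro x
      have hx : (x : F) ^ 2 + x = 0 := x.2
      have : (x : F) * ((x : F) + 1) = 0 := by linear_combination hx
      rcases mul_eq_zero.1 this with h | h
      · exact Or.inl h
      · right; linear_combination h - h2
    have h3 : Function.Injective (fun x : φ.ker => decide ((x : F) = 0)) := by
      intro x y hxy
      have hxy' : ((x : F) = 0) ↔ ((y : F) = 0) := by simpa using hxy
      apply Subtype.ext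
      rcases h1 x with h | h <;> rcases h1 y with h' | h'
      · rw [h, h']
      · exact absurd (hxy'.1 h) (by rw [h']; exact one_ne_zero)
      · exact absurd (hxy'.2 h') (by rw [h]; exact one_ne_zero)
      · rw [h, h']
    have h4 := Nat.card_le_card_of_injective _ h3
    rwa [Nat.card_eq_fintype_card (α := Bool), Fintype.card_bool] at h4
  have hidx : φ.range.index ≤ 2 := by
    have h1 := AddSubgroup.card_mul_index φ.range
    have h3 : Nat.card φ.range * Nat.card φ.ker = Nat.card F := by
      have h4 := AddSubgroup.card_mul_index φ.ker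
      rw [AddSubgroup.index_ker] at h4
      rw [mul_comm]; exact h4
    have hpos : 0 < Nat.card φ.range := Nat.card_pos
    have : Nat.card φ.range * φ.range.index = Nat.card φ.range * Nat.card φ.ker := by rw [h1, h3]
    have h5 := Nat.eq_of_mul_eq_mul_left hpos this
    omega
  have hd1 : d ∉ φ.range := by
    rintro ⟨s, hs⟩; exact hd s hs
  have hd2 : d' ∉ φ.range := by
    rintro ⟨s, hs⟩; exact hd' s hs
  have hmem : d + d' ∈ φ.range := by
    by_contra h3
    -- three distinct cosets
    have hfin : Finite (F ⧸ φ.range) := inferInstance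
    have hcard : Nat.card (F ⧸ φ.range) ≤ 2 := hidx
    have : Fintype (F ⧸ φ.range) := Fintype.ofFinite _
    rw [Nat.card_eq_fintype_card] at hcard
    have h0d : (QuotientAddGroup.mk 0 : F ⧸ φ.range) ≠ QuotientAddGroup.mk d := by
      intro h
      rw [QuotientAddGroup.eq] at h
      apply hd1; simpa using h
    have h0d' : (QuotientAddGroup.mk 0 : F ⧸ φ.range) ≠ QuotientAddGroup.mk d' := by
      intro h
      rw [QuotientAddGroup.eq] at h
      apply hd2; simpa using h
    have hdd' : (QuotientAddGroup.mk d : F ⧸ φ.range) ≠ QuotientAddGroup.mk d' := by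
      intro h
      rw [QuotientAddGroup.eq] at h
      apply h3
      have : d + d' = -d + d' := by linear_combination d * h2
      rw [this]; exact h
    have hcc : ({QuotientAddGroup.mk 0, QuotientAddGroup.mk d, QuotientAddGroup.mk d'} : Finset (F ⧸ φ.range)).card = 3 := by
      rw [Finset.card_insert_of_notMem, Finset.card_insert_of_notMem, Finset.card_singleton]
      · simpa using hdd'
      · simp only [Finset.mem_insert, Finset.mem_singleton, not_or]
        exact ⟨h0d, h0d'⟩
    have := Finset.card_le_univ ({QuotientAddGroup.mk 0, QuotientAddGroup.mk d, QuotientAddGroup.mk d'} : Finset (F ⧸ φ.range))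
    omega
  obtain ⟨s, hs⟩ := hmem
  exact ⟨s, hs⟩

end two

section cls
variable {F : Type*} [Field F] [Finite F]

theorem two_key2 (h2 : (2 : F) = 0) {W : Type*} [AddCommGroup W] [Module F W] [FiniteDimensional F W] (R : QuadraticForm F W)
    (hR : (QuadraticMap.polarBilin R).Nondegenerate) (hdW : finrank F W = 2) (haW : ∀ x, R x = 0 → x = 0) :
    ∃ x y : W, R x = 1 ∧ QuadraticMap.polar R x y = 1 ∧ ∀ s, s ^ 2 + s ≠ R y := by
  classical
  have : Fintype F := Fintype.ofFinite F
  haveI : CharP F 2 := CharTwo.of_one_ne_zero_of_two_eq_zero one_ne_zero h2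
  obtain ⟨z, hz⟩ : ∃ z : W, z ≠ 0 := by
    have : Nontrivial W := Module.nontrivial_of_finrank_pos (R := F) (by omega)
    exact exists_ne 0
  have hRz : R z ≠ 0 := fun h => hz (haW z h)
  obtain ⟨a, ha⟩ := FiniteField.isSquare_of_char_two (F := F) (ringChar.eq F 2 ▸ rfl) ((R z)⁻¹)
  have hx1 : R (a • z) = 1 := by rw [qsmul, ← ha, inv_mul_cancel₀ hRz]
  have hx0 : a • z ≠ 0 := by
    intro h0; rw [h0, QuadraticMap.map_zero] at hx1; exact zero_ne_one hx1
  obtain ⟨y, hy⟩ := exists_polar_ne hR hx0
  rw [QuadraticMap.polar_comm] at hy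
  set x := a • z with hx
  refine ⟨x, (QuadraticMap.polar R x y)⁻¹ • y, hx1, ?_, ?_⟩
  · rw [QuadraticMap.polar_smul_right, smul_eq_mul, inv_mul_cancel₀ hy]
  · intro s hs
    set y' := (QuadraticMap.polar R x y)⁻¹ • y with hy'
    have hxy' : QuadraticMap.polar R x y' = 1 := by
      rw [hy', QuadraticMap.polar_smul_right, smul_eq_mul, inv_mul_cancel₀ hy]
    have h0 : R (s • x + y') = 0 := by
      rw [qadd, qsmul, hx1, QuadraticMap.polar_smul_left, hxy', smul_eq_mul, ← hs]
      linear_combination (s ^ 2 + s) * h2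
    have h1 := haW _ h0
    have h3 : QuadraticMap.polar R x (s • x + y') = 1 := by
      rw [QuadraticMap.polar_add_right, QuadraticMap.polar_smul_right, pself, h2, hxy']; simp
    rw [h1, QuadraticMap.polar_zero_right] at h3
    exact zero_ne_one h3

theorem two_key1 (h2 : (2 : F) ≠ 0) {W : Type*} [AddCommGroup W] [Module F W] [FiniteDimensional F W] (R : QuadraticForm F W)
    (hR : (QuadraticMap.polarBilin R).Nondegenerate) (hdW : finrank F W = 2) (haW : ∀ x, R x = 0 → x = 0) :
    ∃ x y : W, R x = 1 ∧ y ≠ 0 ∧ QuadraticMap.polar R x y = 0 ∧ ¬ IsSquare (- R y) := by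
  classical
  have : Fintype F := Fintype.ofFinite F
  obtain ⟨x, hx⟩ := exists_norm_odd h2 hR (by omega) 1
  obtain ⟨y, hxy, hy0⟩ := exists_perp_ne_zero (Q := R) (by omega) x
  refine ⟨x, y, hx, hy0, hxy, ?_⟩
  rintro ⟨t, ht⟩
  have h0 : R (t • x + y) = 0 := by
    rw [qadd, qsmul, hx, QuadraticMap.polar_smul_left, hxy, smul_zero]
    linear_combination -ht
  have h1 := haW _ h0
  have h3 : QuadraticMap.polar R x (t • x + y) = t * 2 := by
    rw [QuadraticMap.polar_add_right, QuadraticMap.polar_smul_right, pself, hx, hxy]; simp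
  rw [h1, QuadraticMap.polar_zero_right] at h3
  have ht0 : t = 0 := (mul_eq_zero.1 h3.symm).resolve_right h2
  rw [ht0, zero_smul, zero_add] at h1
  exact hy0 h1

theorem two_lin (h2 : (2 : F) ≠ 0) {W : Type*} [AddCommGroup W] [Module F W] [FiniteDimensional F W] (R : QuadraticForm F W) (x y : W)
    (hx : R x = 1) (hy0 : y ≠ 0) (hxy : QuadraticMap.polar R x y = 0) : LinearIndependent F ![x, y] := by
  rw [LinearIndependent.pair_iff]
  intro a b hab
  have e1 : QuadraticMap.polar R x (a • x + b • y) = a * 2 := by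
    rw [QuadraticMap.polar_add_right, QuadraticMap.polar_smul_right, QuadraticMap.polar_smul_right, pself, hx, hxy]; simp
  rw [hab, QuadraticMap.polar_zero_right] at e1
  have ha0 : a = 0 := (mul_eq_zero.1 e1.symm).resolve_right h2
  rw [ha0, zero_smul, zero_add] at hab
  exact ⟨ha0, (smul_eq_zero.1 hab).resolve_right hy0⟩

theorem pt_two {W : Type*} [AddCommGroup W] [Module F W] [FiniteDimensional F W] (R : QuadraticForm F W)
    (hdW : finrank F W = 2) : PT R ↔ ∃ x : W, x ≠ 0 ∧ R x = 0 := by
  constructor
  · rintro ⟨U, hU, hUd⟩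
    obtain ⟨x, hx, hx0⟩ := Submodule.exists_mem_ne_zero_of_ne_bot (p := U) (by
      rintro rfl; rw [finrank_bot] at hUd; omega)
    exact ⟨x, hx0, hU x hx⟩
  · rintro ⟨x, hx0, hx⟩
    exact ⟨Submodule.span F {x}, ts_span hx, by rw [finrank_span_singleton hx0, hdW]⟩

theorem aniso_isom {V V' : Type*} [AddCommGroup V] [Module F V] [FiniteDimensional F V] {Q : QuadraticForm F V}
    [AddCommGroup V'] [Module F V'] [FiniteDimensional F V'] {Q' : QuadraticForm F V'}
    (hQ : (QuadraticMap.polarBilin Q).Nondegenerate) (hQ' : (QuadraticMap.polarBilin Q').Nondegenerate)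
    (hd : finrank F V = 2) (hd' : finrank F V' = 2) (ha : ∀ x, Q x = 0 → x = 0) (ha' : ∀ x, Q' x = 0 → x = 0) : Isom Q Q' := by
  classical
  have : Fintype F := Fintype.ofFinite F
  by_cases h2 : (2 : F) = 0
  · -- characteristic two
    haveI : CharP F 2 := CharTwo.of_one_ne_zero_of_two_eq_zero one_ne_zero h2
    obtain ⟨x, y, hx, hxy, hy⟩ := two_key2 h2 Q hQ hd ha
    obtain ⟨x', y', hx', hxy', hy'⟩ := two_key2 h2 Q' hQ' hd' ha'
    obtain ⟨s, hs⟩ := as_class h2 hy hy'
    have hxx : QuadraticMap.polar Q x x = 0 := by rw [pself, h2, zero_mul]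
    have hxx' : QuadraticMap.polar Q' x' x' = 0 := by rw [pself, h2, zero_mul]
    have l1 : LinearIndependent F ![x, y] := by
      rw [LinearIndependent.pair_iff]
      intro a b hab
      have e1 : QuadraticMap.polar Q x (a • x + b • y) = b := by
        rw [QuadraticMap.polar_add_right, QuadraticMap.polar_smul_right, QuadraticMap.polar_smul_right, hxx, hxy]; simp
      rw [hab, QuadraticMap.polar_zero_right] at e1
      have hx0 : x ≠ 0 := by rintro rfl; rw [QuadraticMap.map_zero] at hx; exact zero_ne_one hx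
      rw [← e1, zero_smul, add_zero] at hab
      exact ⟨(smul_eq_zero.1 hab).resolve_right hx0, e1.symm⟩
    have hp' : QuadraticMap.polar Q' x' (y' + s • x') = 1 := by
      rw [QuadraticMap.polar_add_right, QuadraticMap.polar_smul_right, hxx', hxy']; simp
    have l2 : LinearIndependent F ![x', y' + s • x'] := by
      rw [LinearIndependent.pair_iff]
      intro a b hab
      have e1 : QuadraticMap.polar Q' x' (a • x' + b • (y' + s • x')) = b := by
        rw [QuadraticMap.polar_add_right, QuadraticMap.polar_smul_right, QuadraticMap.polar_smul_right, hxx', hp']; simp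
      rw [hab, QuadraticMap.polar_zero_right] at e1
      have hx0 : x' ≠ 0 := by rintro rfl; rw [QuadraticMap.map_zero] at hx'; exact zero_ne_one hx'
      rw [← e1, zero_smul, add_zero] at hab
      exact ⟨(smul_eq_zero.1 hab).resolve_right hx0, e1.symm⟩
    refine isom_two hd hd' l1 l2 (by rw [hx, hx']) ?_ (by rw [hp', hxy])
    rw [qadd, qsmul, hx', QuadraticMap.polar_smul_right, QuadraticMap.polar_comm, hxy', smul_eq_mul]
    linear_combination hs + (Q' y') * h2
  · -- odd characteristic
    obtain ⟨x, y, hx, hy0, hxy, hy⟩ := two_key1 h2 Q hQ hd ha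
    obtain ⟨x', y', hx', hy0', hxy', hy'⟩ := two_key1 h2 Q' hQ' hd' ha'
    have hQy : Q y ≠ 0 := fun h => hy0 (ha y h)
    have hQy' : Q' y' ≠ 0 := fun h => hy0' (ha' y' h)
    obtain ⟨s, hs⟩ := isSquare_div_of_not h2 (-Q y) (-Q' y') (neg_ne_zero.2 hQy) (neg_ne_zero.2 hQy') hy hy'
    have hs' : Q y = s * s * Q' y' := by
      have h3 : -Q y = (-Q' y') * (s * s) := by
        rw [← hs]; field_simp
      linear_combination -h3
    have hs0 : s ≠ 0 := by rintro rfl; apply hQy; rw [hs']; ring
    have hpx : QuadraticMap.polar Q' x' (s • y') = 0 := by rw [QuadraticMap.polar_smul_right, hxy', smul_zero]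
    refine isom_two hd hd' (two_lin h2 Q x y hx hy0 hxy) (two_lin h2 Q' x' (s • y') hx' (smul_ne_zero hs0 hy0') hpx) (by rw [hx, hx']) ?_
      (by rw [hpx, hxy])
    rw [qsmul, hs']

/-- even-dimensional nondegenerate forms over a finite field are classified by the type -/
theorem isom_of_type : ∀ (n : ℕ) {V V' : Type*} [AddCommGroup V] [Module F V] [FiniteDimensional F V] {Q : QuadraticForm F V}
    [AddCommGroup V'] [Module F V'] [FiniteDimensional F V'] {Q' : QuadraticForm F V'}
    (_ : (QuadraticMap.polarBilin Q).Nondegenerate) (_ : (QuadraticMap.polarBilin Q').Nondegenerate)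
    (_ : finrank F V = 2 * n) (_ : finrank F V' = 2 * n) (_ : PT Q ↔ PT Q'), Isom Q Q' := by
  intro n
  have : Fintype F := Fintype.ofFinite F
  induction n with
  | zero =>
    intro V V' _ _ _ Q _ _ _ Q' hQ hQ' hd hd' ht
    have e : V ≃ₗ[F] V' := LinearEquiv.ofFinrankEq V V' (by rw [hd, hd'])
    have : Subsingleton V := Module.finrank_zero_iff.1 (by omega)
    refine ⟨e, fun x => ?_⟩
    rw [Subsingleton.elim x 0, map_zero, QuadraticMap.map_zero, QuadraticMap.map_zero]
  | succ n ih =>
    intro V V' _ _ _ Q _ _ _ Q' hQ hQ' hd hd' ht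
    have step : (∃ x : V, x ≠ 0 ∧ Q x = 0) → (∃ x : V', x ≠ 0 ∧ Q' x = 0) → Isom Q Q' := by
      rintro ⟨e, he0, he⟩ ⟨e', he0', he'⟩
      obtain ⟨f, h⟩ := exists_HP_of_singular hQ e he0 he
      obtain ⟨f', h'⟩ := exists_HP_of_singular hQ' e' he0' he'
      apply Isom.of_perp2 h h'
      have h1 := h.finrank_eq
      have h1' := h'.finrank_eq
      apply ih (h.nondeg hQ) (h'.nondeg hQ') (by omega) (by omega)
      constructor
      · intro hp; exact PT.to_perp2 hQ' h' (ht.1 (PT.of_perp2 h hp))
      · intro hp; exact PT.to_perp2 hQ h (ht.2 (PT.of_perp2 h' hp))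
    rcases Nat.eq_zero_or_pos n with hn | hn
    swap
    · exact step (exists_sing (by omega)) (exists_sing (by omega))
    subst hn
    by_cases hp : PT Q
    · exact step ((pt_two Q (by omega)).1 hp) ((pt_two Q' (by omega)).1 (ht.1 hp))
    · have hp' : ¬ PT Q' := fun h => hp (ht.2 h)
      rw [pt_two Q (by omega)] at hp
      rw [pt_two Q' (by omega)] at hp'
      push Not at hp hp'
      apply aniso_isom hQ hQ' (by omega) (by omega)
      · intro x hx
        by_contra h0
        exact hp x h0 hx
      · intro x hx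
        by_contra h0
        exact hp' x h0 hx

end cls

end CfsgLib.OmH12
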