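import Mathlib
import Cfsg.Agent.EqBase
import Cfsg.Agent.LibOnceK19

set_option autoImplicit false
set_option maxHeartbeats 400000
set_option linter.unusedSectionVars false
set_option linter.style.haveILetI false

/-! Blocks of defect one: counting characters of degree prime to `p`. -/

namespace CfsgLib.Once19

open CfsgLib.CharInt hiding irr_isCharacter irr_classFun irr_one_ne_zero schur_scalar
open Cfsg CfsgLib.CharInt2 CfsgLib.CharBasic CfsgLib.BlockR CfsgLib.BlockCore
  CfsgLib.BlockIdem CfsgLib.BlockIdeal CfsgLib.BlockConj CfsgLib.BlockBrauer CfsgLib.BlockInd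
  CfsgLib.BlockFMT CfsgLib.BlockFMT2 CfsgLib.BlockOrth CfsgLib.BlockDefect
  CfsgLib.BlockReg CfsgLib.BlockReg2 CfsgLib.BlockCount CfsgLib.BlockCount2 CfsgLib.BlockQP
  CfsgLib.BlockCov3 CfsgLib.BlockCov4 CfsgLib.BlockSec CfsgLib.BlockSec3 CfsgLib.CharNorm CfsgLib.Ur
open scoped ComplexConjugate

universe u
variable {p : ℕ} {G : Type u} [Group G] [Fintype G] {M : Ideal AlgInt}

namespace Dat
variable (D : Dat p G) [Fintype D.C]

theorem aZ_zero_of_dvd (hM : IsPModular p M) (χ : IrrCharacter G) (hd : p ∣ charDegree (χ : G → ℂ)) (i : ℕ) :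
    D.aZ i χ = 0 := by
  haveI : Fact p.Prime := ⟨D.prime⟩
  have hfac : (charDegree (χ : G → ℂ)).factorization p = (Nat.card G).factorization p := by
    apply le_antisymm
    · rw [fact_card D.h]
      by_contra hcon
      have h2 : p ^ 2 ∣ charDegree (χ : G → ℂ) := by
        rw [D.prime.pow_dvd_iff_le_factorization (deg_ne χ)]; omega
      exact D.h.sq (h2.trans (CfsgLib.CharInt2.charDegree_dvd_card χ.2))
    · rw [fact_card D.h]
      rw [← D.prime.pow_dvd_iff_le_factorization (deg_ne χ), pow_one]; exact hd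
  have h1 : D.dd (χ : G → ℂ) = 0 := by
    unfold dd
    have h2 : reg p (fun c : D.C => (χ : G → ℂ) (D.x * c)) = 0 := by
      funext c
      by_cases hc : p ∣ orderOf c
      · rw [reg_not hc]; rfl
      · rw [reg_of hc]
        apply vanish_of_defect_zero hM hfac
        have h3 : p ∣ orderOf (D.xc ^ 1 * c) := by
          rw [D.sing_iff (D.xc ^ 1 * c) rfl hc, Nat.modEq_zero_iff_dvd]
          intro h; exact D.prime.one_lt.ne' (Nat.dvd_one.1 h)
        rw [pow_one, ← Subgroup.orderOf_coe] at h3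
        exact h3
    rw [h2, ci_zero_l, mul_zero]
  exact D.aZ_zero_of_dd χ h1 i

/-- the induced block of the block of a canonical character has a character of degree prime to `p` -/
theorem exists_member (hM : IsPModular p M) {B : Set (IrrCharacter G)} {b : Set (IrrCharacter D.C)}
    (hb : IsInducedBlock M D.C b B) (hθ : D.th ∈ b) : ∃ χ ∈ B, ¬ p ∣ charDegree (χ : G → ℂ) := by
  classical
  haveI : Fact p.Prime := ⟨D.prime⟩
  have h10 : ¬ 1 ≡ 0 [MOD p] := by
    rw [Nat.modEq_zero_iff_dvd]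
    intro h; exact D.prime.one_lt.ne' (Nat.dvd_one.1 h)
  by_contra hcon
  push Not at hcon
  have h1 := D.gramZ h10 h10 (mem_inert D)
  have h2 : ∀ χ : IrrCharacter G, D.aZ 1 χ = 0 := by
    intro χ
    by_cases hχ : χ ∈ B
    · exact D.aZ_zero_of_dvd hM χ (hcon χ hχ) 1
    · exact D.c2 hM hb hθ hχ 1
  rw [Finset.sum_eq_zero (fun χ _ => by rw [h2]; ring), mul_zero] at h1
  have h3 : (0 : ℤ) < Nat.card (inert D) := by exact_mod_cast Nat.card_pos
  omega

omit [Fintype D.C] in
theorem zp_p : IsPGroup p (Subgroup.zpowers D.x) := by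
  haveI : Fact p.Prime := ⟨D.prime⟩
  apply IsPGroup.of_card (n := 1)
  rw [Nat.card_zpowers, D.hx, pow_one]

omit [Fintype D.C] in
theorem zp_le : Subgroup.zpowers D.x ≤ D.C := by
  rw [Subgroup.zpowers_le]
  exact Subgroup.mem_centralizer_singleton_iff.2 rfl

omit [Fintype D.C] in
theorem cen_zp : Subgroup.centralizer ((Subgroup.zpowers D.x : Subgroup G) : Set G) = D.C :=
  centralizer_zpowers D.x

omit [Fintype D.C] in
theorem C_le_N : D.C ≤ D.N := by
  rw [← D.cen_zp]
  exact Subgroup.centralizer_le_normalizer _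

omit [Fintype D.C] in
theorem exists_ind (hM : IsPModular p M) (ψ : IrrCharacter D.C) :
    ∃ B : Set (IrrCharacter G), IsInducedBlock M D.C (blockOf M (ψ : D.C → ℂ)) B := by
  haveI : Fact p.Prime := ⟨D.prime⟩
  exact exists_induced hM D.zp_p D.zp_le (le_of_eq D.cen_zp) D.C_le_N ⟨ψ, rfl⟩

/-- conjugate canonical characters induce the same block -/
theorem ind_Orb (hM : IsPModular p M) {B : Set (IrrCharacter G)}
    {b : Set (IrrCharacter D.C)} (hb : IsInducedBlock M D.C b B) (hθ : D.th ∈ b)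
    {ψ : IrrCharacter D.C} (hψ : ψ ∈ D.Orb) : IsInducedBlock M D.C (blockOf M (ψ : D.C → ℂ)) B := by
  classical
  have hp := isPrime_of_modular hM
  obtain ⟨B', hB'⟩ := D.exists_ind hM ψ
  obtain ⟨t, ht, hψt⟩ := D.mem_Orb.1 hψ
  have h1 : ∀ g : G, inducedCentralChar D.C (ψ : D.C → ℂ) g = inducedCentralChar D.C (D.th : D.C → ℂ) g := by
    intro g
    rw [inducedCentralChar_eq, inducedCentralChar_eq]
    unfold omg
    have h2 : (ψ : D.C → ℂ) 1 = (D.th : D.C → ℂ) 1 := by rw [hψt, map_one]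
    rw [h2]
    congr 1
    rw [← Equiv.sum_comp (D.cj ht).toEquiv (fun c : D.C => cInd g (c : G) * (D.th : D.C → ℂ) c)]
    refine Finset.sum_congr rfl fun c _ => ?_
    have h3 : (D.cj ht).toEquiv c = D.cj ht c := rfl
    rw [h3, ← hψt, D.cj_coe]
    congr 1
    exact (isClassFunction_cInd g _ _).symm
  obtain ⟨χ, hχ⟩ := block_nonempty hp hb.2.1
  obtain ⟨χ', hχ'⟩ := block_nonempty hp hB'.2.1
  have h4 : SameBlock M (χ : G → ℂ) (χ' : G → ℂ) := by
    intro g
    have h5 := hb.2.2 D.th hθ χ hχ g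
    have h6 := hB'.2.2 ψ (mem_blockOf_self hp ψ) χ' hχ' g
    rw [h1] at h6
    have := ideal_sub hp h6 h5
    refine (congrArg (MemLocalIdeal M) ?_).mp this
    ring
  have h7 : B = B' := by
    rw [block_eq_blockOf hp hb.2.1 hχ, block_eq_blockOf hp hB'.2.1 hχ']
    exact blockOf_eq_of_sameBlock hp h4
  rw [h7]; exact hB'

/-- the inertial index of a canonical character -/
noncomputable def eo (ψ : IrrCharacter D.C) : ℕ := by
  classical
  exact if h : ψ ∈ D.CS then D.C.relIndex (inert (D.setTh ψ (D.mem_CS.1 h))) else 0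

theorem eo_of {ψ : IrrCharacter D.C} (h : ψ ∈ D.CS) : D.eo ψ = D.C.relIndex (inert (D.setTh ψ (D.mem_CS.1 h))) := by
  unfold eo
  rw [dif_pos h]

/-- relation between the orbits -/
theorem setTh_Orb {ψ φ : IrrCharacter D.C} (h : ψ ∈ D.CS) (hφ : φ ∈ (letI : Fintype (D.setTh ψ (D.mem_CS.1 h)).C := inferInstanceAs (Fintype D.C); (D.setTh ψ (D.mem_CS.1 h)).Orb)) :
    ∃ t, ∃ ht : t ∈ D.N, ∀ c, (φ : D.C → ℂ) c = (ψ : D.C → ℂ) (D.cj ht c) := by
  letI : Fintype (D.setTh ψ (D.mem_CS.1 h)).C := inferInstanceAs (Fintype D.C)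
  exact (D.setTh ψ (D.mem_CS.1 h)).mem_Orb.1 hφ

end Dat

end CfsgLib.Once19
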