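import Mathlib
import Cfsg.Agent.EqBase
import Cfsg.Agent.LibOnceL19

set_option autoImplicit false
set_option maxHeartbeats 400000
set_option linter.unusedSectionVars false
set_option linter.style.haveILetI false

/-! Blocks of defect one: counting characters of degree prime to `p`. -/

namespace CfsgLib.Once19

open CfsgLib.CharInt hiding irr_isCharacter irr_classFun irr_one_ne_zero schur_scalar
open Cfsg CfsgLib.CharInt2 CfsgLib.CharBasic CfsgLib.BlockR CfsgLib.BlockCore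
  CfsgLib.BlockIdem CfsgLib.BlockIdeal CfsgLib.BlockConj CfsgLib.BlockBrauer CfsgLib.BlockInd
  CfsgLib.BlockFMT CfsgLib.BlockFMT2 CfsgLib.BlockOrth CfsgLib.BlockDefect
  CfsgLib.BlockReg CfsgLib.BlockReg2 CfsgLib.BlockCount CfsgLib.BlockCount2 CfsgLib.BlockQP
  CfsgLib.BlockCov3 CfsgLib.BlockCov4 CfsgLib.BlockSec CfsgLib.BlockSec3 CfsgLib.CharNorm CfsgLib.Ur
open scoped ComplexConjugate

universe u
variable {p : ℕ} {G : Type u} [Group G] [Fintype G] {M : Ideal AlgInt}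

namespace Dat

theorem exists_can (D : Dat p G) (hM : IsPModular p M) {χ : IrrCharacter G} (hχ : ¬ p ∣ charDegree (χ : G → ℂ)) :
    ∃ ψ0 : IrrCharacter D.C, D.Can (ψ0 : D.C → ℂ) ∧ IsInducedBlock M D.C (blockOf M (ψ0 : D.C → ℂ)) (blockOf M (χ : G → ℂ)) := by
  have hp := isPrime_of_modular hM
  obtain ⟨D', hx', b, hb, hθ⟩ := exists_dat hM D.h D.hx (B := blockOf M (χ : G → ℂ)) ⟨χ, rfl⟩ (mem_blockOf_self hp χ) hχ
  have key : ∀ y, y = D'.x → ∃ ψ0 : IrrCharacter (Subgroup.centralizer ({y} : Set G)),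
      (∀ c, (ψ0 : Subgroup.centralizer ({y} : Set G) → ℂ) (⟨y, Subgroup.mem_centralizer_singleton_iff.2 rfl⟩ * c) =
        (ψ0 : Subgroup.centralizer ({y} : Set G) → ℂ) c) ∧
      IsInducedBlock M (Subgroup.centralizer ({y} : Set G)) (blockOf M (ψ0 : Subgroup.centralizer ({y} : Set G) → ℂ)) (blockOf M (χ : G → ℂ)) := by
    rintro y rfl
    refine ⟨D'.th, D'.thx, ?_⟩
    have h1 := block_eq_blockOf hp hb.1 hθ
    rw [← h1]; exact hb
  exact key D.x hx'.symm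

variable (D : Dat p G) [Fintype D.C]

/-- canonical characters inducing the block of `χ` -/
noncomputable def SS (M : Ideal AlgInt) (χ : IrrCharacter G) : Finset (IrrCharacter D.C) := by
  classical
  exact D.CS.filter (fun ψ => IsInducedBlock M D.C (blockOf M (ψ : D.C → ℂ)) (blockOf M (χ : G → ℂ)))

theorem mem_SS {χ : IrrCharacter G} {ψ : IrrCharacter D.C} :
    ψ ∈ D.SS M χ ↔ ψ ∈ D.CS ∧ IsInducedBlock M D.C (blockOf M (ψ : D.C → ℂ)) (blockOf M (χ : G → ℂ)) := by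
  classical
  unfold SS
  simp only [Finset.mem_filter]

theorem SS_mul (hM : IsPModular p M) {χ : IrrCharacter G} (hχ : ¬ p ∣ charDegree (χ : G → ℂ)) {ψ : IrrCharacter D.C}
    (hψ : ψ ∈ D.SS M χ) : (D.SS M χ).card * D.eo ψ = D.C.relIndex D.N := by
  classical
  have hp := isPrime_of_modular hM
  obtain ⟨h1, h2⟩ := D.mem_SS.1 hψ
  letI : Fintype (D.setTh ψ (D.mem_CS.1 h1)).C := inferInstanceAs (Fintype D.C)
  have hPD := defect_zpowers hM D.h (B := blockOf M (χ : G → ℂ)) ⟨χ, rfl⟩ (mem_blockOf_self hp χ) hχ D.hx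
  have h3 : D.SS M χ = (D.setTh ψ (D.mem_CS.1 h1)).Orb := by
    ext φ
    rw [D.mem_SS]
    constructor
    · rintro ⟨h4, h5⟩
      by_contra hcon
      exact (D.setTh ψ (D.mem_CS.1 h1)).not_ind hM (B := blockOf M (χ : G → ℂ)) ⟨χ, rfl⟩ h2 (mem_blockOf_self hp ψ) hPD
        (ψ := φ) h4 hcon h5
    · intro h4
      exact ⟨(D.setTh ψ (D.mem_CS.1 h1)).Orb_sub_CS h4,
        (D.setTh ψ (D.mem_CS.1 h1)).ind_Orb hM h2 (mem_blockOf_self hp ψ) h4⟩
  rw [h3, D.eo_of h1]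
  exact (D.setTh ψ (D.mem_CS.1 h1)).orb_eq_div (mem_inert _)

theorem sum_SS (hM : IsPModular p M) {χ : IrrCharacter G} (hχ : ¬ p ∣ charDegree (χ : G → ℂ)) :
    ∑ ψ ∈ D.SS M χ, D.eo ψ = D.C.relIndex D.N := by
  classical
  obtain ⟨ψ0, h0, h0'⟩ := D.exists_can hM hχ
  have hne : (D.SS M χ).Nonempty := ⟨ψ0, D.mem_SS.2 ⟨D.mem_CS.2 h0, h0'⟩⟩
  have hc : 0 < (D.SS M χ).card := Finset.card_pos.2 hne
  apply Nat.eq_of_mul_eq_mul_left hc
  rw [Finset.mul_sum, Finset.sum_congr rfl (fun ψ hψ => D.SS_mul hM hχ hψ), Finset.sum_const, smul_eq_mul]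

theorem card_mem (hM : IsPModular p M) {ψ : IrrCharacter D.C} (hψ : ψ ∈ D.CS)
    [DecidablePred (fun χ : IrrCharacter G => ¬ p ∣ charDegree (χ : G → ℂ) ∧ ψ ∈ D.SS M χ)] :
    (Finset.univ.filter (fun χ : IrrCharacter G => ¬ p ∣ charDegree (χ : G → ℂ) ∧ ψ ∈ D.SS M χ)).card * D.eo ψ =
      D.eo ψ ^ 2 + (p - 1) := by
  classical
  have hp := isPrime_of_modular hM
  letI : Fintype (D.setTh ψ (D.mem_CS.1 hψ)).C := inferInstanceAs (Fintype D.C)
  obtain ⟨B, hB⟩ := D.exists_ind hM ψ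
  obtain ⟨χ0, hχ0, hd0⟩ := (D.setTh ψ (D.mem_CS.1 hψ)).exists_member hM hB (mem_blockOf_self hp ψ)
  have hdeg := deg_all hM D.h hB.2.1 hχ0 hd0
  have hPD := defect_zpowers hM D.h hB.2.1 hχ0 hd0 D.hx
  obtain ⟨Y, -, -, hYc, hBc, -⟩ := (D.setTh ψ (D.mem_CS.1 hψ)).main hM hPD hB (mem_blockOf_self hp ψ) (mem_inert _) rfl
  have h1 : Nat.card B = (Finset.univ.filter (fun χ : IrrCharacter G => ¬ p ∣ charDegree (χ : G → ℂ) ∧ ψ ∈ D.SS M χ)).card := by
    rw [Nat.card_eq_card_toFinset]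
    congr 1
    ext χ
    rw [Set.mem_toFinset, Finset.mem_filter, D.mem_SS]
    constructor
    · intro hχ
      refine ⟨Finset.mem_univ _, hdeg χ hχ, hψ, ?_⟩
      rw [← block_eq_blockOf hp hB.2.1 hχ]
      exact hB
    · rintro ⟨-, -, -, h2⟩
      rw [induced_unique hp hB h2]
      exact mem_blockOf_self hp χ
  have h2 : Y.card * D.C.relIndex (inert (D.setTh ψ (D.mem_CS.1 hψ))) = p - 1 := hYc
  have h3 : Nat.card B = Y.card + D.C.relIndex (inert (D.setTh ψ (D.mem_CS.1 hψ))) := hBc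
  rw [D.eo_of hψ, ← h1, h3, add_mul, h2]
  ring

/-- **counting** characters of degree prime to `p` -/
theorem count (hM : IsPModular p M) :
    D.C.relIndex D.N * Nat.card {χ : IrrCharacter G // ¬ p ∣ charDegree (χ : G → ℂ)} = ∑ ψ ∈ D.CS, (D.eo ψ ^ 2 + (p - 1)) := by
  classical
  have h1 : Nat.card {χ : IrrCharacter G // ¬ p ∣ charDegree (χ : G → ℂ)} =
      (Finset.univ.filter (fun χ : IrrCharacter G => ¬ p ∣ charDegree (χ : G → ℂ))).card := by
    rw [Nat.card_eq_fintype_card, Fintype.card_subtype]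
  rw [h1, mul_comm, ← smul_eq_mul, ← Finset.sum_const]
  rw [Finset.sum_congr rfl (fun χ hχ => (D.sum_SS hM (Finset.mem_filter.1 hχ).2).symm),
    Finset.sum_congr rfl (fun ψ hψ => (D.card_mem hM (ψ := ψ) hψ).symm)]
  have h2 : ∀ χ ∈ Finset.univ.filter (fun χ : IrrCharacter G => ¬ p ∣ charDegree (χ : G → ℂ)),
      ∑ ψ ∈ D.SS M χ, D.eo ψ = ∑ ψ ∈ D.CS, if ψ ∈ D.SS M χ then D.eo ψ else 0 := by
    intro χ _
    rw [← Finset.sum_filter]
    refine Finset.sum_congr ?_ fun _ _ => rfl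
    ext ψ
    rw [Finset.mem_filter]
    exact ⟨fun h => ⟨(D.mem_SS.1 h).1, h⟩, fun h => h.2⟩
  rw [Finset.sum_congr rfl h2, Finset.sum_comm]
  refine Finset.sum_congr rfl fun ψ _ => ?_
  rw [← Finset.sum_filter, Finset.filter_filter, Finset.sum_const, smul_eq_mul]

end Dat

end CfsgLib.Once19
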