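import Mathlib
import Cfsg.Agent.EqBase
import Cfsg.Agent.LibOnceM19
import Cfsg.Agent.LibTorH

set_option autoImplicit false
set_option maxHeartbeats 400000
set_option linter.unusedSectionVars false
set_option linter.style.haveILetI false

/-! Blocks of defect one: comparison with the normalizer. -/

namespace CfsgLib.Once19

open CfsgLib.CharInt hiding irr_isCharacter irr_classFun irr_one_ne_zero schur_scalar
open Cfsg CfsgLib.CharInt2 CfsgLib.CharBasic CfsgLib.BlockR CfsgLib.BlockCore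
  CfsgLib.BlockIdem CfsgLib.BlockIdeal CfsgLib.BlockConj CfsgLib.BlockBrauer CfsgLib.BlockInd
  CfsgLib.BlockFMT CfsgLib.BlockFMT2 CfsgLib.BlockOrth CfsgLib.BlockDefect
  CfsgLib.BlockReg CfsgLib.BlockReg2 CfsgLib.BlockCount CfsgLib.BlockCount2 CfsgLib.BlockQP
  CfsgLib.BlockCov3 CfsgLib.BlockCov4 CfsgLib.BlockSec CfsgLib.BlockSec3 CfsgLib.CharNorm CfsgLib.Ur
open scoped ComplexConjugate

universe u
variable {p : ℕ} {G : Type u} [Group G] [Fintype G] {M : Ideal AlgInt}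

namespace Dat

variable (D : Dat p G)

/-- the element in the normalizer -/
def xN : D.N := ⟨D.x, D.C_le_N (Subgroup.mem_centralizer_singleton_iff.2 rfl)⟩

/-- the centralizers agree -/
def phi : Subgroup.centralizer ({D.xN} : Set D.N) ≃* D.C where
  toFun c := ⟨((c : D.N) : G), by
    rw [Subgroup.mem_centralizer_singleton_iff]
    exact congrArg Subtype.val (Subgroup.mem_centralizer_singleton_iff.1 c.2)⟩
  invFun c := ⟨⟨(c : G), D.C_le_N c.2⟩, by
    rw [Subgroup.mem_centralizer_singleton_iff]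
    exact Subtype.ext (Subgroup.mem_centralizer_singleton_iff.1 c.2)⟩
  left_inv c := rfl
  right_inv c := rfl
  map_mul' a b := rfl

theorem phi_coe (c : Subgroup.centralizer ({D.xN} : Set D.N)) : (D.phi c : G) = ((c : D.N) : G) := rfl

theorem onceN : Once p D.N := by
  refine ⟨D.prime, ?_, ?_⟩
  · have h1 : orderOf D.xN = p := by rw [← Subgroup.orderOf_coe]; exact D.hx
    exact h1.symm.dvd.trans (orderOf_dvd_natCard _)
  · intro h
    exact D.h.sq (h.trans (Subgroup.card_subgroup_dvd_card D.N))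

/-- the restricted datum -/
noncomputable def tr [Fintype D.N] : Dat p D.N where
  h := D.onceN
  x := D.xN
  hx := by rw [← Subgroup.orderOf_coe]; exact D.hx
  lam := D.lam.comp D.phi.toMonoidHom
  lamx := D.lamx
  lamp := fun c => D.lamp (D.phi c)
  th := ⟨fun c => (D.th : D.C → ℂ) (D.phi c), isIrrCharacter_comp_equiv D.th.2 D.phi⟩
  thx := fun c => D.thx (D.phi c)

/-- transport of characters -/
def irrE [Fintype D.N] : IrrCharacter D.C ≃ IrrCharacter D.tr.C where
  toFun ψ := ⟨fun c => (ψ : D.C → ℂ) (D.phi c), isIrrCharacter_comp_equiv ψ.2 D.phi⟩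
  invFun ψ := ⟨fun c => (ψ : D.tr.C → ℂ) (D.phi.symm c), isIrrCharacter_comp_equiv ψ.2 D.phi.symm⟩
  left_inv ψ := rfl
  right_inv ψ := rfl

variable [Fintype D.N]

theorem tr_N : D.tr.N = ⊤ := by
  rw [eq_top_iff]
  intro n _
  have h1 : (Subgroup.zpowers D.xN) = (Subgroup.zpowers D.x).subgroupOf D.N := by
    ext y
    rw [Subgroup.mem_subgroupOf, Subgroup.mem_zpowers_iff, Subgroup.mem_zpowers_iff]
    constructor
    · rintro ⟨k, hk⟩; exact ⟨k, congrArg Subtype.val hk⟩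
    · rintro ⟨k, hk⟩; exact ⟨k, Subtype.ext hk⟩
  change n ∈ Subgroup.normalizer ((Subgroup.zpowers D.xN : Subgroup D.N) : Set D.N)
  rw [h1, Subgroup.mem_normalizer_iff]
  intro y
  rw [Subgroup.mem_subgroupOf, Subgroup.mem_subgroupOf]
  exact Subgroup.mem_normalizer_iff.1 n.2 y

theorem card_trC : Nat.card D.tr.C = Nat.card D.C := Nat.card_congr D.phi.toEquiv

theorem tr_relIndex : D.tr.C.relIndex D.tr.N = D.C.relIndex D.N := by
  have h1 := exists_e D D.C_le_N
  have h2 := exists_e D.tr D.tr.C_le_N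
  rw [D.card_trC, D.tr_N, Subgroup.card_top, h1] at h2
  rw [D.tr_N]
  exact (Nat.eq_of_mul_eq_mul_right Nat.card_pos h2).symm

theorem card_inert (ψ : IrrCharacter D.C) (h : D.Can (ψ : D.C → ℂ)) (h' : D.tr.Can (D.irrE ψ : D.tr.C → ℂ)) :
    Nat.card (inert (D.tr.setTh (D.irrE ψ) h')) = Nat.card (inert (D.setTh ψ h)) := by
  have h1 : (inert (D.tr.setTh (D.irrE ψ) h')).map D.N.subtype = inert (D.setTh ψ h) := by
    ext g
    rw [Subgroup.mem_map]
    constructor
    · rintro ⟨n, hn, rfl⟩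
      rw [mem_inert] at hn ⊢
      refine ⟨n.2, fun c c' hc => ?_⟩
      have h2 := hn.2 (D.phi.symm c) (D.phi.symm c') (Subtype.ext hc)
      exact h2
    · intro hg
      rw [mem_inert] at hg
      refine ⟨⟨g, hg.1⟩, ?_, rfl⟩
      rw [mem_inert]
      refine ⟨?_, fun c c' hc => ?_⟩
      · change (⟨g, hg.1⟩ : D.N) ∈ D.tr.N
        rw [D.tr_N]; exact Subgroup.mem_top _
      · exact hg.2 (D.phi c) (D.phi c') (congrArg Subtype.val hc)
  rw [← h1]
  exact Nat.card_congr ((inert (D.tr.setTh (D.irrE ψ) h')).equivMapOfInjective _ (Subgroup.subtype_injective _)).toEquiv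

theorem can_irrE (ψ : IrrCharacter D.C) : D.tr.Can (D.irrE ψ : D.tr.C → ℂ) ↔ D.Can (ψ : D.C → ℂ) := by
  constructor
  · intro h c
    exact h (D.phi.symm c)
  · intro h c
    exact h (D.phi c)

variable [Fintype D.C] [Fintype D.tr.C]

theorem eo_irrE {ψ : IrrCharacter D.C} (h : ψ ∈ D.CS) : D.tr.eo (D.irrE ψ) = D.eo ψ := by
  have h1 := D.mem_CS.1 h
  have h2 : D.irrE ψ ∈ D.tr.CS := D.tr.mem_CS.2 ((D.can_irrE ψ).2 h1)
  rw [D.eo_of h, D.tr.eo_of h2]
  have h3 := D.card_inert ψ h1 ((D.can_irrE ψ).2 h1)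
  have hle : D.C ≤ inert (D.setTh ψ (D.mem_CS.1 h)) := (D.setTh ψ (D.mem_CS.1 h)).C_le_T (mem_inert _)
  have hle' : D.tr.C ≤ inert (D.tr.setTh (D.irrE ψ) (D.tr.mem_CS.1 h2)) :=
    (D.tr.setTh (D.irrE ψ) (D.tr.mem_CS.1 h2)).C_le_T (mem_inert _)
  have h4 := exists_e D hle
  have h5 := exists_e D.tr hle'
  rw [h4, h5, D.card_trC] at h3
  exact Nat.eq_of_mul_eq_mul_right Nat.card_pos h3

theorem sum_tr : ∑ ψ ∈ D.tr.CS, (D.tr.eo ψ ^ 2 + (p - 1)) = ∑ ψ ∈ D.CS, (D.eo ψ ^ 2 + (p - 1)) := by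
  symm
  refine Finset.sum_bij (fun ψ _ => D.irrE ψ) ?_ ?_ ?_ ?_
  · intro ψ hψ
    exact D.tr.mem_CS.2 ((D.can_irrE ψ).2 (D.mem_CS.1 hψ))
  · intro ψ _ φ _ h
    exact D.irrE.injective h
  · intro φ hφ
    refine ⟨D.irrE.symm φ, ?_, D.irrE.apply_symm_apply φ⟩
    rw [D.mem_CS, ← D.can_irrE, D.irrE.apply_symm_apply]
    exact D.tr.mem_CS.1 hφ
  · intro ψ hψ
    rw [D.eo_irrE hψ]

theorem count_eq (hM : IsPModular p M) :
    Nat.card {χ : IrrCharacter G // ¬ p ∣ charDegree (χ : G → ℂ)} =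
      Nat.card {χ : IrrCharacter D.N // ¬ p ∣ charDegree (χ : D.N → ℂ)} := by
  have h1 := D.count hM
  have h2 := D.tr.count hM
  rw [D.sum_tr, D.tr_relIndex, ← h1] at h2
  have h3 : 0 < D.C.relIndex D.N := by
    have := exists_e D D.C_le_N
    have h4 : 0 < Nat.card D.N := Nat.card_pos
    rw [this] at h4
    exact Nat.pos_of_mul_pos_right h4
  exact (Nat.eq_of_mul_eq_mul_left h3 h2).symm

end Dat

theorem s4502 (h : Once p G) {x : G} (hx : orderOf x = p) :
    Nat.card {χ : IrrCharacter G // ¬ p ∣ charDegree (χ : G → ℂ)} =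
      Nat.card (ConjClasses (Subgroup.normalizer ((Subgroup.zpowers x : Subgroup G) : Set G))) := by
  classical
  haveI : Fact p.Prime := ⟨h.prime⟩
  obtain ⟨M, hM⟩ := CfsgLib.BlockReg2.exists_modular p h.prime
  obtain ⟨D, hDx, -⟩ := exists_principal hM h hx
  subst hDx
  letI : Fintype D.C := Fintype.ofFinite _
  letI : Fintype D.N := Fintype.ofFinite _
  letI : Fintype D.tr.C := Fintype.ofFinite _
  rw [D.count_eq hM]
  haveI hn : ((Subgroup.zpowers D.x).subgroupOf D.N).Normal := by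
    constructor
    intro y hy n
    rw [Subgroup.mem_subgroupOf] at hy ⊢
    exact (Subgroup.mem_normalizer_iff.1 n.2 y).1 hy
  apply CfsgLib.Tor.all_coprime p ((Subgroup.zpowers D.x).subgroupOf D.N)
  · intro a ha b hb
    rw [Subgroup.mem_subgroupOf] at ha hb
    obtain ⟨i, hi⟩ := Subgroup.mem_zpowers_iff.1 ha
    obtain ⟨j, hj⟩ := Subgroup.mem_zpowers_iff.1 hb
    apply Subtype.ext
    change (a : G) * b = b * a
    rw [← hi, ← hj, ← zpow_add, ← zpow_add, add_comm]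
  · intro hd
    apply D.onceN.sq
    have h1 := ((Subgroup.zpowers D.x).subgroupOf D.N).card_mul_index
    have h2 : Nat.card ((Subgroup.zpowers D.x).subgroupOf D.N) = p := by
      rw [Nat.card_congr (Subgroup.subgroupOfEquivOfLe (D.zp_le.trans D.C_le_N)).toEquiv, Nat.card_zpowers, D.hx]
    rw [h2] at h1
    rw [← h1, sq]
    exact Nat.mul_dvd_mul_left p hd

end CfsgLib.Once19
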