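import Mathlib

set_option autoImplicit false

/-!
Counting argument for anisotropic quadratic maps between 2-groups whose fibres have constant size (helper4).
-/

namespace CfsgLib.SqMap

open scoped Classical in
/-- numeric lemma -/
theorem two_pow_eq (a c d n : ℕ) (hn : 1 ≤ n) (h : 2 ^ d + 2 ^ a = 2 ^ c + 2 ^ (a + n)) : c = a ∧ d = a + n := by
  have hca : c = a := by
    rcases lt_trichotomy c a with hlt | heq | hgt
    · exfalso
      obtain ⟨k, rfl⟩ : ∃ k, a = c + 1 + k := ⟨a - c - 1, by omega⟩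
      rcases le_or_gt d c with h1 | h1
      · have h2 : 2 ^ d ≤ 2 ^ c := Nat.pow_le_pow_right (by norm_num) h1
        have h3 : 2 ^ (c + 1 + k) < 2 ^ (c + 1 + k + n) := Nat.pow_lt_pow_right (by norm_num) (by omega)
        omega
      · obtain ⟨j, rfl⟩ : ∃ j, d = c + 1 + j := ⟨d - c - 1, by omega⟩
        have e1 : 2 ^ (c + 1 + j) = 2 ^ c * (2 * 2 ^ j) := by rw [pow_add, pow_succ]; ring
        have e2 : 2 ^ (c + 1 + k) = 2 ^ c * (2 * 2 ^ k) := by rw [pow_add, pow_succ]; ring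
        have e3 : 2 ^ (c + 1 + k + n) = 2 ^ c * (2 * 2 ^ k * 2 ^ n) := by rw [pow_add, e2]; ring
        rw [e1, e2, e3] at h
        have h4 : 2 ^ c * (2 * 2 ^ j + 2 * 2 ^ k) = 2 ^ c * (1 + 2 * 2 ^ k * 2 ^ n) := by
          calc 2 ^ c * (2 * 2 ^ j + 2 * 2 ^ k) = 2 ^ c * (2 * 2 ^ j) + 2 ^ c * (2 * 2 ^ k) := by ring
            _ = 2 ^ c + 2 ^ c * (2 * 2 ^ k * 2 ^ n) := h
            _ = _ := by ring
        have h5 := Nat.eq_of_mul_eq_mul_left (by positivity) h4
        have h6 : 2 * 2 ^ k * 2 ^ n = 2 * (2 ^ k * 2 ^ n) := by ring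
        rw [h6] at h5
        omega
    · exact heq
    · exfalso
      obtain ⟨k, rfl⟩ : ∃ k, c = a + 1 + k := ⟨c - a - 1, by omega⟩
      obtain ⟨m, rfl⟩ : ∃ m, n = m + 1 := ⟨n - 1, by omega⟩
      have e1 : 2 ^ (a + 1 + k) = 2 ^ a * (2 * 2 ^ k) := by rw [pow_add, pow_succ]; ring
      have e2 : 2 ^ (a + (m + 1)) = 2 ^ a * (2 * 2 ^ m) := by rw [pow_add, pow_succ]; ring
      have p1 : 0 < 2 ^ k := by positivity
      have p2 : 0 < 2 ^ m := by positivity
      rcases lt_trichotomy d a with h1 | h1 | h1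
      · have h2 : 2 ^ d < 2 ^ a := Nat.pow_lt_pow_right (by norm_num) h1
        rw [e1, e2] at h
        have h3 : 2 ^ a * (2 * 2 ^ k) + 2 ^ a * (2 * 2 ^ m) = 2 ^ a * (2 * (2 ^ k + 2 ^ m)) := by ring
        rw [h3] at h
        have h4 : 2 ^ a * 4 ≤ 2 ^ a * (2 * (2 ^ k + 2 ^ m)) := Nat.mul_le_mul_left _ (by omega)
        omega
      · rw [h1, e1, e2] at h
        have h3 : 2 ^ a * (2 * 2 ^ k) + 2 ^ a * (2 * 2 ^ m) = 2 ^ a * (2 * (2 ^ k + 2 ^ m)) := by ring
        rw [h3] at h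
        have h4 : 2 ^ a * 4 ≤ 2 ^ a * (2 * (2 ^ k + 2 ^ m)) := Nat.mul_le_mul_left _ (by omega)
        have : 0 < 2 ^ a := by positivity
        omega
      · obtain ⟨j, rfl⟩ : ∃ j, d = a + 1 + j := ⟨d - a - 1, by omega⟩
        have e3 : 2 ^ (a + 1 + j) = 2 ^ a * (2 * 2 ^ j) := by rw [pow_add, pow_succ]; ring
        rw [e1, e2, e3] at h
        have h4 : 2 ^ a * (2 * 2 ^ j + 1) = 2 ^ a * (2 * 2 ^ k + 2 * 2 ^ m) := by
          calc 2 ^ a * (2 * 2 ^ j + 1) = 2 ^ a * (2 * 2 ^ j) + 2 ^ a := by ring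
            _ = 2 ^ a * (2 * 2 ^ k) + 2 ^ a * (2 * 2 ^ m) := h
            _ = _ := by ring
        have h5 := Nat.eq_of_mul_eq_mul_left (by positivity) h4
        omega
  refine ⟨hca, ?_⟩
  subst hca
  have h1 : 2 ^ d = 2 ^ (c + n) := by omega
  exact Nat.pow_right_injective le_rfl h1

section
variable {D Ω : Type*} [Group D] [Finite D] [Group Ω] [Finite Ω]

/-- characters separating elements of an elementary abelian 2-group -/
theorem exists_char (hc : ∀ a b : Ω, a * b = b * a) (B : Subgroup Ω) (hB : B ≠ ⊤) :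
    ∃ f : Ω →* ℂ, (∀ b ∈ B, f b = 1) ∧ f ≠ 1 := by
  letI : CommGroup Ω := { (inferInstance : Group Ω) with mul_comm := hc }
  haveI : B.Normal := inferInstance
  have h1 : ∃ a : Ω ⧸ B, a ≠ 1 := by
    by_contra hcon
    push Not at hcon
    apply hB
    rw [Subgroup.eq_top_iff']
    intro x
    exact (QuotientGroup.eq_one_iff x).1 (hcon x)
  obtain ⟨a, ha⟩ := h1
  obtain ⟨φ, hφ⟩ := CommGroup.exists_apply_ne_one_of_hasEnoughRootsOfUnity (Ω ⧸ B) ℂ ha
  refine ⟨(Units.coeHom ℂ).comp (φ.comp (QuotientGroup.mk' B)), ?_, ?_⟩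
  · intro b hb
    have : QuotientGroup.mk' B b = 1 := (QuotientGroup.eq_one_iff b).2 hb
    show ((φ (QuotientGroup.mk' B b) : ℂˣ) : ℂ) = 1
    rw [this, map_one]; rfl
  · intro h
    obtain ⟨x, rfl⟩ := QuotientGroup.mk'_surjective B a
    apply hφ
    have h2 := congrArg (fun g : Ω →* ℂ => g x) h
    have h3 : ((φ (QuotientGroup.mk' B x) : ℂˣ) : ℂ) = 1 := h2
    exact Units.ext h3

theorem sum_hom {E : Type*} [Group E] [Fintype E] (f : E →* ℂ) (hf : f ≠ 1) : ∑ x, f x = 0 := by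
  obtain ⟨y, hy⟩ : ∃ y, f y ≠ 1 := by
    by_contra hcon
    push Not at hcon
    exact hf (MonoidHom.ext hcon)
  have h1 : ∑ x, f x = f y * ∑ x, f x := by
    rw [Finset.mul_sum, ← Equiv.sum_comp (Equiv.mulLeft y)]
    refine Finset.sum_congr rfl fun x _ => ?_
    rw [Equiv.coe_mulLeft, map_mul]
  have h2 : (1 - f y) * ∑ x, f x = 0 := by rw [sub_mul, one_mul, ← h1, sub_self]
  rcases mul_eq_zero.1 h2 with h3 | h3
  · exact absurd (sub_eq_zero.1 h3).symm hy
  · exact h3

theorem sq_count (hc : ∀ a b : Ω, a * b = b * a) (hΩ2 : ∀ w : Ω, w * w = 1) (s : D → Ω) (b : D → D → Ω)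
    (hb1 : ∀ x y z, b (x * y) z = b x z * b y z) (hb2 : ∀ x y z, b x (y * z) = b x y * b x z)
    (hs : ∀ x y, s (x * y) = s x * s y * b x y) (hbs : ∀ x y, b x y * b y x = 1)
    (Z : Subgroup D) (hZ : ∀ x, s x = 1 ↔ x ∈ Z) (hZb : ∀ x, ∀ z ∈ Z, b x z = 1)
    (d n z : ℕ) (hD : Nat.card D = 2 ^ d) (hΩ : Nat.card Ω = 2 ^ n) (hn : 1 ≤ n) (hZc : Nat.card Z = 2 ^ z)
    (k : ℕ) (hfib : ∀ w : Ω, w ≠ 1 → Nat.card {x // s x = w} = k) (hDZ : Z ≠ ⊤) :
    (k = Nat.card Z) ∨ (d = z + 2 * n ∧ ∀ u, u ∉ Z → Function.Surjective (b u)) := by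
  classical
  haveI : Fintype D := Fintype.ofFinite D
  haveI : Fintype Ω := Fintype.ofFinite Ω
  have hb1' : ∀ z, b 1 z = 1 := by
    intro z
    have := hb1 1 1 z
    rw [mul_one] at this
    exact (mul_eq_left.1 this.symm)
  have hs1 : s 1 = 1 := (hZ 1).2 (one_mem Z)
  -- b x y symmetric enough
  have hsZ : ∀ x, ∀ z ∈ Z, s (x * z) = s x := by
    intro x z hz
    rw [hs, (hZ z).2 hz, hZb x z hz, mul_one, mul_one]
  -- Z ≤ k
  obtain ⟨x₀, hx₀⟩ : ∃ x, x ∉ Z := by
    by_contra hcon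
    push Not at hcon
    exact hDZ ((Subgroup.eq_top_iff' Z).2 hcon)
  have hkZ : Nat.card Z ≤ k := by
    rw [← hfib (s x₀) (fun h => hx₀ ((hZ x₀).1 h))]
    refine Nat.card_le_card_of_injective (fun z : Z => (⟨x₀ * z, hsZ x₀ z z.2⟩ : {x // s x = s x₀})) ?_
    intro z₁ z₂ h
    have := congrArg Subtype.val h
    exact Subtype.ext (mul_left_cancel this)
  -- the count
  have hsum : ∀ g : Ω → ℂ, ∑ x, g (s x) = (Nat.card Z : ℂ) * g 1 + (k : ℂ) * ∑ w ∈ Finset.univ.erase (1 : Ω), g w := by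
    intro g
    rw [← Finset.sum_fiberwise (s := Finset.univ) (g := s)]
    rw [← Finset.add_sum_erase Finset.univ _ (Finset.mem_univ (1 : Ω))]
    congr 1
    · rw [Finset.sum_congr rfl (g := fun _ => g 1) (by
        intro x hx
        rw [(Finset.mem_filter.1 hx).2]), Finset.sum_const, nsmul_eq_mul]
      congr 2
      rw [Nat.card_eq_fintype_card, Fintype.card_subtype]
      congr 1
      ext x
      simp [hZ]
    · rw [Finset.mul_sum]
      refine Finset.sum_congr rfl fun w hw => ?_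
      rw [Finset.sum_congr rfl (g := fun _ => g w) (by
        intro x hx
        rw [(Finset.mem_filter.1 hx).2]), Finset.sum_const, nsmul_eq_mul]
      congr 2
      rw [← hfib w (Finset.ne_of_mem_erase hw), Nat.card_eq_fintype_card, Fintype.card_subtype]
  have hcount : 2 ^ d = 2 ^ z + k * (2 ^ n - 1) := by
    have h1 := hsum (fun _ => 1)
    rw [Finset.sum_const, Finset.sum_const, Finset.card_univ, Finset.card_erase_of_mem (Finset.mem_univ _),
      Finset.card_univ, ← Nat.card_eq_fintype_card, ← Nat.card_eq_fintype_card, hD, hΩ, hZc] at h1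
    simp only [nsmul_eq_mul, mul_one] at h1
    exact_mod_cast h1
  have hW : ∀ f : Ω →* ℂ, f ≠ 1 → ∑ x, f (s x) = (Nat.card Z : ℂ) - k := by
    intro f hf
    have h1 := sum_hom f hf
    rw [← Finset.add_sum_erase Finset.univ _ (Finset.mem_univ (1 : Ω)), map_one] at h1
    have h2 : ∑ w ∈ Finset.univ.erase (1 : Ω), f w = -1 := eq_neg_of_add_eq_zero_right h1
    rw [hsum (fun w => f w), map_one, h2]
    ring
  -- the square
  have hf2 : ∀ (f : Ω →* ℂ) (w : Ω), f w * f w = 1 := by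
    intro f w
    rw [← map_mul, hΩ2, map_one]
  have hsq : ∀ f : Ω →* ℂ, f ≠ 1 → ∃ R : Subgroup D, (∀ u, u ∈ R ↔ ∀ x, f (b x u) = 1) ∧
      ((∑ x, f (s x)) ^ 2 = 0 ∨ (∑ x, f (s x)) ^ 2 = (Fintype.card D : ℂ) * Nat.card R) := by
    intro f hf
    let R : Subgroup D :=
      { carrier := {u | ∀ x, f (b x u) = 1}
        mul_mem' := by
          intro u v hu hv x
          rw [hb2, map_mul, hu x, hv x, mul_one]
        one_mem' := by
          intro x
          rw [hZb x 1 (one_mem Z), map_one]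
        inv_mem' := by
          intro u hu x
          have h1 : b x u⁻¹ * b x u = 1 := by rw [← hb2, inv_mul_cancel, hZb x 1 (one_mem Z)]
          have h2 := congrArg f h1
          rw [map_mul, hu x, mul_one, map_one] at h2
          exact h2 }
    have hRm : ∀ u, u ∈ R ↔ ∀ x, f (b x u) = 1 := fun u => Iff.rfl
    refine ⟨R, hRm, ?_⟩
    have h1 : (∑ x, f (s x)) ^ 2 = ∑ u, f (s u) * ∑ x, f (b x u) := by
      rw [pow_two, Finset.sum_mul_sum]
      have h2 : ∀ x, ∑ y, f (s x) * f (s y) = ∑ u, f (s u) * f (b x u) := by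
        intro x
        rw [← Equiv.sum_comp (Equiv.mulLeft x)]
        refine Finset.sum_congr rfl fun u _ => ?_
        rw [Equiv.coe_mulLeft, hs, map_mul, map_mul]
        calc f (s x) * (f (s x) * f (s u) * f (b x u)) = (f (s x) * f (s x)) * (f (s u) * f (b x u)) := by ring
          _ = _ := by rw [hf2, one_mul]
      rw [Finset.sum_congr rfl (fun x _ => h2 x), Finset.sum_comm]
      refine Finset.sum_congr rfl fun u _ => ?_
      rw [Finset.mul_sum]
    have h2 : ∀ u, ∑ x, f (b x u) = if u ∈ R then (Fintype.card D : ℂ) else 0 := by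
      intro u
      by_cases hu : u ∈ R
      · rw [if_pos hu, Finset.sum_congr rfl (fun x _ => (hRm u).1 hu x), Finset.sum_const, Finset.card_univ, nsmul_eq_mul, mul_one]
      · rw [if_neg hu]
        let g : D →* ℂ :=
          { toFun := fun x => f (b x u)
            map_one' := by rw [hb1', map_one]
            map_mul' := by intro x y; rw [hb1, map_mul] }
        refine sum_hom g ?_
        intro hg
        apply hu
        intro x
        exact congrArg (fun h : D →* ℂ => h x) hg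
    rw [h1, Finset.sum_congr rfl (fun u _ => by rw [h2 u])]
    have h3 : ∑ u, f (s u) * (if u ∈ R then (Fintype.card D : ℂ) else 0) = (Fintype.card D : ℂ) * ∑ u : R, f (s u) := by
      rw [Finset.mul_sum]
      have h4 : ∀ u, f (s u) * (if u ∈ R then (Fintype.card D : ℂ) else 0) = if u ∈ R then (Fintype.card D : ℂ) * f (s u) else 0 := by
        intro u
        by_cases hu : u ∈ R
        · rw [if_pos hu, if_pos hu, mul_comm]
        · rw [if_neg hu, if_neg hu, mul_zero]
      rw [Finset.sum_congr rfl (fun u _ => h4 u), ← Finset.sum_filter]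
      exact (Finset.sum_subtype (Finset.univ.filter (· ∈ R)) (fun u => by simp) (fun u => (Fintype.card D : ℂ) * f (s u)))
    rw [h3]
    let g : R →* ℂ :=
      { toFun := fun u => f (s u)
        map_one' := by rw [Subgroup.coe_one, hs1, map_one]
        map_mul' := by
          intro u v
          rw [Subgroup.coe_mul, hs, map_mul, map_mul, (hRm v).1 v.2 u, mul_one] }
    by_cases hg : g = 1
    · right
      have h5 : ∀ u : R, f (s u) = 1 := fun u => congrArg (fun h : R →* ℂ => h u) hg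
      rw [Finset.sum_congr rfl (fun u _ => h5 u), Finset.sum_const, Finset.card_univ, nsmul_eq_mul, mul_one,
        Nat.card_eq_fintype_card]
    · left
      have h5 : ∑ u : R, f (s u) = 0 := sum_hom g hg
      rw [h5, mul_zero]
  by_cases hk : k = Nat.card Z
  · exact Or.inl hk
  right
  -- k > |Z|
  obtain ⟨a, ha⟩ : ∃ a, k = Nat.card Z + a := ⟨k - Nat.card Z, by omega⟩
  have ha0 : a ≠ 0 := by
    rintro rfl
    exact hk (by rw [ha, add_zero])
  have hmain : ∀ f : Ω →* ℂ, f ≠ 1 → ∀ R : Subgroup D, (∀ u, u ∈ R ↔ ∀ x, f (b x u) = 1) →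
      d = z + 2 * n ∧ R = Z := by
    intro f hf R' hR'
    obtain ⟨R, hR, hRW⟩ := hsq f hf
    have hRR : R' = R := by
      ext u; rw [hR', hR]
    subst hRR
    rw [hW f hf, ha] at hRW
    have h1 : ((Nat.card Z : ℂ) - ((Nat.card Z + a : ℕ) : ℂ)) ^ 2 = ((a ^ 2 : ℕ) : ℂ) := by
      push_cast; ring
    rw [h1] at hRW
    have h2 : a ^ 2 = Fintype.card D * Nat.card R' := by
      rcases hRW with h2 | h2
      · exfalso
        have : a ^ 2 = 0 := by exact_mod_cast h2
        exact ha0 (pow_eq_zero_iff (by norm_num) |>.1 this)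
      · exact_mod_cast h2
    rw [← Nat.card_eq_fintype_card, hD] at h2
    have hRd : Nat.card R' ∣ 2 ^ d := by rw [← hD]; exact Subgroup.card_subgroup_dvd_card _
    obtain ⟨ρ, _, hρ⟩ := (Nat.dvd_prime_pow Nat.prime_two).1 hRd
    rw [hρ, ← pow_add] at h2
    have h3 : a ∣ 2 ^ (d + ρ) := by rw [← h2]; exact dvd_pow_self a (by norm_num)
    obtain ⟨e, _, he⟩ := (Nat.dvd_prime_pow Nat.prime_two).1 h3
    rw [he, ← pow_mul] at h2
    have h4 : e * 2 = d + ρ := Nat.pow_right_injective le_rfl h2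
    -- numeric
    have h5 : 2 ^ d + 2 ^ e = 2 ^ (z + n) + 2 ^ (e + n) := by
      have h6 : 1 ≤ 2 ^ n := Nat.one_le_two_pow
      obtain ⟨m, hm⟩ : ∃ m, 2 ^ n = m + 1 := ⟨2 ^ n - 1, by omega⟩
      rw [hcount, ha, hZc, he, pow_add, pow_add, hm, Nat.add_sub_cancel]
      ring
    obtain ⟨h6, h7⟩ := two_pow_eq e (z + n) d n hn h5
    have h8 : d = z + 2 * n := by omega
    refine ⟨h8, ?_⟩
    have h9 : ρ = z := by omega
    symm
    apply Subgroup.eq_of_le_of_card_ge
    · intro u hu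
      rw [hR']
      intro x
      rw [hZb x u hu, map_one]
    · rw [hρ, hZc, h9]
  -- existence of a nontrivial character
  have hbot : (⊥ : Subgroup Ω) ≠ ⊤ := by
    intro h
    have h1 : Nat.card Ω = 1 := by
      rw [← Subgroup.card_top, ← h, Subgroup.card_bot]
    rw [hΩ] at h1
    have : 1 < 2 ^ n := Nat.one_lt_two_pow (by omega)
    omega
  obtain ⟨f₀, _, hf₀⟩ := exists_char hc ⊥ hbot
  obtain ⟨R₀, hR₀, _⟩ := hsq f₀ hf₀
  refine ⟨(hmain f₀ hf₀ R₀ hR₀).1, ?_⟩
  intro u hu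
  -- the range of b u
  let β : D →* Ω := { toFun := fun x => b u x, map_one' := hZb u 1 (one_mem Z), map_mul' := fun x y => hb2 u x y }
  have hβ : β.range = ⊤ := by
    by_contra hne
    obtain ⟨f, hf1, hf2'⟩ := exists_char hc β.range hne
    obtain ⟨R, hR, _⟩ := hsq f hf2'
    have h1 := (hmain f hf2' R hR).2
    apply hu
    rw [← h1, hR]
    intro x
    have h2 : f (b u x) = 1 := hf1 _ ⟨x, rfl⟩
    have h3 : b x u * b u x = 1 := hbs x u
    have h5 := congrArg f h3
    rw [map_mul, h2, mul_one, map_one] at h5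
    exact h5
  intro w
  have : w ∈ β.range := hβ ▸ Subgroup.mem_top w
  exact this

end

end CfsgLib.SqMap
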